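import Mathlib

/-! Feit-Higman, algebra part (helper50): a Chebyshev-type recurrence with boundary conditions. -/

set_option autoImplicit false

namespace Cfsg.Agent.Lib.H50FH

open Finset

section Cheb

variable {R : Type*} [Ring R] [Algebra ℝ R]

/-- `w 0` idempotent acting as identity, `b = A w₁ - C w₀`, `b w_{k+1} = w_k + w_{k+2}`. -/
structure Cheb (w : ℕ → R) (A C : ℝ) : Prop where
  one_mul : ∀ k, w 0 * w k = w k
  mul_one : ∀ k, w k * w 0 = w k
  rec_ : ∀ k, (A • w 1 - C • w 0) * w (k + 1) = w k + w (k + 2)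

/-- scalar version -/
structure ChebS (g : ℕ → ℝ) (A C θ : ℝ) : Prop where
  zero : g 0 = 1
  one : θ = A * g 1 - C
  rec_ : ∀ k, θ * g (k + 1) = g k + g (k + 2)

/-- partial sums -/
def psum (w : ℕ → R) (g : ℕ → ℝ) (A : ℝ) (K : ℕ) : R :=
  w 0 + A • ∑ k ∈ range K, g (k + 1) • w (k + 1)

variable {w : ℕ → R} {A C : ℝ} {g : ℕ → ℝ} {θ : ℝ}

theorem Cheb.b_mul_zero (H : Cheb w A C) : (A • w 1 - C • w 0) * w 0 = A • w 1 - C • w 0 := by
  rw [sub_mul, smul_mul_assoc, smul_mul_assoc, H.mul_one, H.mul_one]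

theorem psum_rec (H : Cheb w A C) (h : ChebS g A C θ) (K : ℕ) :
    (A • w 1 - C • w 0) * psum w g A K - θ • psum w g A K =
      A • (g K • w (K + 1) - g (K + 1) • w K) := by
  induction K with
  | zero =>
    simp only [psum, range_zero, sum_empty, smul_zero, add_zero, zero_add, H.b_mul_zero, h.zero, h.one]
    module
  | succ K ih =>
    have e : psum w g A (K + 1) = psum w g A K + (A * g (K + 1)) • w (K + 1) := by
      simp only [psum, sum_range_succ, smul_add, mul_smul]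
      abel
    rw [e, mul_add, mul_smul_comm, H.rec_, smul_add]
    have h2 := h.rec_ K
    have h3 : (A • w 1 - C • w 0) * psum w g A K = θ • psum w g A K +
      A • (g K • w (K + 1) - g (K + 1) • w K) := by rw [← ih]; abel
    rw [h3]
    have h4 : g (K + 2) = θ * g (K + 1) - g K := by linarith
    rw [h4]
    module

/-- if `b z = θ z` and `w₀ z = z` then `w_k z = g_k z`. -/
theorem mul_of_eig (H : Cheb w A C) (h : ChebS g A C θ) (hA : A ≠ 0) {z : R} (h0 : w 0 * z = z)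
    (hb : (A • w 1 - C • w 0) * z = θ • z) (k : ℕ) : w k * z = g k • z := by
  have h1 : w 1 * z = g 1 • z := by
    have h2 : A • (w 1 * z) = A • (g 1 • z) := by
      rw [sub_mul, smul_mul_assoc, smul_mul_assoc, h0] at hb
      have h3 : A • (w 1 * z) = θ • z + C • z := by rw [← hb]; abel
      rw [h3, h.one]
      module
    have h4 := congrArg (fun u => A⁻¹ • u) h2
    simpa [smul_smul, inv_mul_cancel₀ hA, inv_mul_cancel_left₀ hA] using h4
  have key : ∀ k, w k * z = g k • z ∧ w (k + 1) * z = g (k + 1) • z := by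
    intro k
    induction k with
    | zero => exact ⟨by rw [h0, h.zero, one_smul], h1⟩
    | succ k ih =>
      refine ⟨ih.2, ?_⟩
      have h5 : w (k + 2) = (A • w 1 - C • w 0) * w (k + 1) - w k := by rw [H.rec_]; abel
      have h6 : g (k + 2) = θ * g (k + 1) - g k := by linarith [h.rec_ k]
      rw [show k + 1 + 1 = k + 2 from rfl, h5, sub_mul, mul_assoc, ih.2, ih.1, mul_smul_comm, hb, h6]
      module
  exact (key k).1

/-- The final idempotent-like element. -/
theorem exists_scaled (H : Cheb w A C) (h : ChebS g A C θ) (hA : A ≠ 0) (m : ℕ) (δ : ℝ)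
    (hend : A • (g m • w (m + 1) - g (m + 1) • w m) +
      (δ * g (m + 1)) • (w m + w (m + 2) - θ • w (m + 1)) = 0) (tr : R →ₗ[ℝ] ℝ)
    (htr : ∀ k, 1 ≤ k → k ≤ m + 1 → tr (w k) = 0) :
    ∃ z : R, tr z = tr (w 0) ∧
      z * z = (1 + A * ∑ k ∈ range m, g (k + 1) ^ 2 + δ * g (m + 1) ^ 2) • z := by
  set z : R := psum w g A m + (δ * g (m + 1)) • w (m + 1) with hz
  have hb : (A • w 1 - C • w 0) * z = θ • z := by
    have h1 : (A • w 1 - C • w 0) * psum w g A m = θ • psum w g A m +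
      A • (g m • w (m + 1) - g (m + 1) • w m) := by rw [← psum_rec H h m]; abel
    rw [hz, mul_add, mul_smul_comm, H.rec_, h1]
    have h2 : (δ * g (m + 1)) • (w m + w (m + 2)) = - (A • (g m • w (m + 1) - g (m + 1) • w m)) +
        (δ * g (m + 1)) • (θ • w (m + 1)) := by
      rw [← sub_eq_zero, ← hend]
      module
    rw [h2]
    module
  have h0 : w 0 * z = z := by
    rw [hz, mul_add, mul_smul_comm, H.one_mul]
    congr 1
    simp only [psum]
    rw [mul_add, H.one_mul, mul_smul_comm, mul_sum]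
    congr 2
    apply sum_congr rfl
    intro k _
    rw [mul_smul_comm, H.one_mul]
  have hk := mul_of_eig H h hA h0 hb
  refine ⟨z, ?_, ?_⟩
  · rw [hz, map_add, map_smul, htr (m + 1) (by omega) le_rfl, smul_zero, add_zero]
    simp only [psum]
    rw [map_add, map_smul, map_sum]
    rw [sum_eq_zero, smul_zero, add_zero]
    intro k hk
    rw [mem_range] at hk
    rw [map_smul, htr (k + 1) (by omega) (by omega), smul_zero]
  · nth_rewrite 1 [hz]
    simp only [psum]
    rw [add_mul, add_mul, h0, smul_mul_assoc, smul_mul_assoc, hk, sum_mul]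
    have h3 : ∑ k ∈ range m, (g (k + 1) • w (k + 1)) * z = (∑ k ∈ range m, g (k + 1) ^ 2) • z := by
      rw [sum_smul]
      apply sum_congr rfl
      intro k _
      rw [smul_mul_assoc, hk, smul_smul, pow_two]
    rw [h3]
    module

end Cheb

/-- the trace of an idempotent real matrix is a natural number -/
theorem exists_trace_eq {ι : Type*} [Fintype ι] [DecidableEq ι] (E : Matrix ι ι ℝ) (h : E * E = E) :
    ∃ k : ℕ, E.trace = k := by
  have h1 : IsIdempotentElem (Matrix.toLin' E) := by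
    unfold IsIdempotentElem
    rw [Module.End.mul_eq_comp, ← Matrix.toLin'_mul, h]
  refine ⟨Module.finrank ℝ (LinearMap.range (Matrix.toLin' E)), ?_⟩
  rw [← Matrix.trace_toLin'_eq, (LinearMap.IsIdempotentElem.isProj_range _ h1).trace]

section Hecke

variable {R : Type*} [Ring R] [Algebra ℝ R]

/-- quadratic relation -/
def Quad (S : R) (x : ℝ) : Prop := S * S = (x - 1) • S + x • (1 : R)

/-- projection on the `x`-eigenspace -/
noncomputable def ee (S : R) (x : ℝ) : R := (1 + x)⁻¹ • (1 + S)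

theorem mul_ee {S : R} {x : ℝ} (h : Quad S x) : S * ee S x = x • ee S x := by
  unfold ee
  rw [mul_smul_comm, mul_add, h, mul_one, smul_comm x]
  congr 1
  module

theorem ee_mul {S : R} {x : ℝ} (h : Quad S x) : ee S x * S = x • ee S x := by
  unfold ee
  rw [smul_mul_assoc, add_mul, h, one_mul, smul_comm x]
  congr 1
  module

theorem ee_ee {S : R} {x : ℝ} (h : Quad S x) (hx : 0 < x) : ee S x * ee S x = ee S x := by
  have h1 : ee S x * ee S x = (1 + x)⁻¹ • (ee S x + S * ee S x) := by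
    conv_lhs => enter [1]; unfold ee
    rw [smul_mul_assoc, add_mul, one_mul]
  rw [h1, mul_ee h, show ee S x + x • ee S x = (1 + x) • ee S x by module, smul_smul,
    inv_mul_cancel₀ (by positivity), one_smul]

/-- `p k = e (T S)^k e` -/
noncomputable def pp (S T : R) (x : ℝ) (k : ℕ) : R := ee S x * (T * S) ^ k * ee S x

variable {S T : R} {x y : ℝ}

theorem pp_zero (hS : Quad S x) (hx : 0 < x) : pp S T x 0 = ee S x := by
  rw [pp, pow_zero, mul_one, ee_ee hS hx]

theorem pp_rec (hS : Quad S x) (hT : Quad T y) (hx : 0 < x) (k : ℕ) :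
    (((1 + x) / x) • pp S T x 1 - (y - 1) • ee S x) * pp S T x (k + 1) =
      (x * y) • pp S T x k + pp S T x (k + 2) := by
  set e := ee S x with he
  have h1 : pp S T x 1 * pp S T x (k + 1) = x • (e * T * e * ((T * S) ^ (k + 1) * e)) := by
    simp only [pp, ← he, pow_one]
    calc e * (T * S) * e * (e * (T * S) ^ (k + 1) * e)
        = e * T * (S * (e * e)) * ((T * S) ^ (k + 1) * e) := by simp only [mul_assoc]
      _ = _ := by
        rw [he, ee_ee hS hx, mul_ee hS]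
        simp only [mul_assoc, mul_smul_comm, smul_mul_assoc]
  have h2 : e * T * e * ((T * S) ^ (k + 1) * e) = (1 + x)⁻¹ • ((y - 1) • pp S T x (k + 1) +
      (x * y) • pp S T x k + pp S T x (k + 2)) := by
    have h3 : e * T * e * ((T * S) ^ (k + 1) * e) = (1 + x)⁻¹ • (e * T * ((T * S) ^ (k + 1) * e) +
        e * T * S * ((T * S) ^ (k + 1) * e)) := by
      conv_lhs => enter [1, 2]; rw [he]; unfold ee
      rw [mul_smul_comm, smul_mul_assoc, mul_add, add_mul, mul_one]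
    rw [h3]
    congr 1
    have h4 : e * T * S * ((T * S) ^ (k + 1) * e) = pp S T x (k + 2) := by
      rw [pp, ← he, pow_succ' (T * S) (k + 1)]
      simp only [mul_assoc]
    have h5 : e * T * ((T * S) ^ (k + 1) * e) = (y - 1) • pp S T x (k + 1) +
        (x * y) • pp S T x k := by
      calc e * T * ((T * S) ^ (k + 1) * e)
          = e * (T * T) * (S * ((T * S) ^ k * e)) := by
            rw [pow_succ' (T * S) k]
            simp only [mul_assoc]
        _ = (y - 1) • (e * ((T * S) * ((T * S) ^ k * e))) + y • ((e * S) * ((T * S) ^ k * e)) := by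
            rw [hT]
            simp only [mul_add, add_mul, mul_smul_comm, smul_mul_assoc, mul_one, mul_assoc]
        _ = _ := by
            rw [he, ee_mul hS, ← he]
            simp only [pp, ← he, pow_succ' (T * S) k, mul_assoc, smul_mul_assoc]
            rw [smul_smul, mul_comm y x]
    rw [h4, h5]
  have h6 : e * pp S T x (k + 1) = pp S T x (k + 1) := by
    simp only [pp, ← he]
    rw [← mul_assoc, ← mul_assoc, he, ee_ee hS hx]
  rw [sub_mul, smul_mul_assoc, smul_mul_assoc, h1, h2, h6, smul_smul, smul_smul]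
  have h7 : (1 + x) / x * (x * (1 + x)⁻¹) = 1 := by field_simp
  rw [show (1 + x) / x * x * (1 + x)⁻¹ = (1 + x) / x * (x * (1 + x)⁻¹) by ring, h7]
  module

/-- `e (S T)^k e = e (T S)^k e` -/
theorem pp_symm (hS : Quad S x) (hx : 0 < x) (k : ℕ) :
    ee S x * (S * T) ^ k * ee S x = pp S T x k := by
  rcases k with _ | k
  · simp [pp]
  · have h1 : ee S x * (S * T) ^ (k + 1) * ee S x = x • (ee S x * (T * (S * T) ^ k) * ee S x) := by
      calc ee S x * (S * T) ^ (k + 1) * ee S x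
          = (ee S x * S) * (T * (S * T) ^ k * ee S x) := by
            rw [pow_succ' (S * T) k]; simp only [mul_assoc]
        _ = _ := by rw [ee_mul hS, smul_mul_assoc]; simp only [mul_assoc]
    have h2 : pp S T x (k + 1) = x • (ee S x * (T * (S * T) ^ k) * ee S x) := by
      calc pp S T x (k + 1) = ee S x * ((T * S) ^ k * T) * (S * ee S x) := by
            rw [pp, pow_succ (T * S) k]; simp only [mul_assoc]
        _ = _ := by rw [mul_ee hS, mul_smul_comm, mul_pow_mul]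
    rw [h1, h2]

/-- boundary relation, even case -/
theorem pp_even (hS : Quad S x) (hT : Quad T y) (hx : 0 < x) (m : ℕ)
    (hbr : (T * S) ^ (m + 1) = (S * T) ^ (m + 1)) :
    pp S T x (m + 2) = (x * (y - 1)) • pp S T x (m + 1) + (x ^ 2 * y) • pp S T x m := by
  have h1 : pp S T x (m + 2) = x • (ee S x * ((S * T) ^ m * S * (T * T)) * ee S x) := by
    calc pp S T x (m + 2) = ee S x * ((T * S) ^ (m + 1) * T) * (S * ee S x) := by
          rw [pp, pow_succ (T * S) (m + 1)]; simp only [mul_assoc]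
      _ = _ := by
        rw [mul_ee hS, mul_smul_comm, hbr, pow_succ (S * T) m]
        simp only [mul_assoc]
  have h2 : ee S x * ((S * T) ^ m * S * (T * T)) * ee S x =
      (y - 1) • (ee S x * (S * T) ^ (m + 1) * ee S x) + y • (ee S x * (S * T) ^ m * (S * ee S x)) := by
    rw [hT, pow_succ (S * T) m]
    simp only [mul_add, add_mul, mul_smul_comm, smul_mul_assoc, mul_one, mul_assoc]
  rw [h1, h2, mul_ee hS, mul_smul_comm, pp_symm hS hx, pp_symm hS hx]
  module

/-- boundary relation, odd case -/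
theorem pp_odd (hS : Quad S x) (hx : 0 < x) (m : ℕ)
    (hbr : (T * S) ^ m * T = (S * T) ^ m * S) : pp S T x (m + 1) = (x ^ 2) • pp S T x m := by
  calc pp S T x (m + 1) = ee S x * ((T * S) ^ m * T) * (S * ee S x) := by
        rw [pp, pow_succ (T * S) m]; simp only [mul_assoc]
    _ = x • (ee S x * (S * T) ^ m * (S * ee S x)) := by
        rw [mul_ee hS, mul_smul_comm, hbr]; simp only [mul_assoc, mul_smul_comm, mul_ee hS]
    _ = _ := by rw [mul_ee hS, mul_smul_comm, pp_symm hS hx]; module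

/-- normalised elements -/
noncomputable def ww (S T : R) (x r : ℝ) (k : ℕ) : R := (r ^ k)⁻¹ • pp S T x k

theorem cheb_ww (hS : Quad S x) (hT : Quad T y) (hx : 0 < x) {r : ℝ} (hr : 0 < r)
    (hr2 : r ^ 2 = x * y) : Cheb (ww S T x r) ((1 + x) / x) ((y - 1) / r) where
  one_mul k := by
    simp only [ww, pow_zero, inv_one, one_smul, mul_smul_comm]
    rw [pp_zero hS hx]
    congr 1
    simp only [pp]
    rw [← mul_assoc, ← mul_assoc, ee_ee hS hx]
  mul_one k := by
    simp only [ww, pow_zero, inv_one, one_smul, smul_mul_assoc]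
    rw [pp_zero hS hx]
    congr 1
    simp only [pp]
    rw [mul_assoc, ee_ee hS hx]
  rec_ k := by
    have h1 := pp_rec hS hT hx k
    have h2 : ((1 + x) / x) • ww S T x r 1 - ((y - 1) / r) • ww S T x r 0 =
        r⁻¹ • (((1 + x) / x) • pp S T x 1 - (y - 1) • ee S x) := by
      simp only [ww, pow_zero, pow_one, inv_one, one_smul]
      rw [pp_zero hS hx]
      module
    rw [h2]
    simp only [ww]
    rw [smul_mul_assoc, mul_smul_comm, h1, ← hr2, smul_add, smul_add, smul_smul, smul_smul,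
      smul_smul]
    congr 2
    · rw [pow_succ]; field_simp
    · rw [pow_succ, pow_succ, pow_succ]; field_simp

theorem ww_zero (hS : Quad S x) (hx : 0 < x) {r : ℝ} : ww S T x r 0 = ee S x := by
  simp only [ww, pow_zero, inv_one, one_smul]
  rw [pp_zero hS hx]

theorem ww_even (hS : Quad S x) (hT : Quad T y) (hx : 0 < x) {r : ℝ} (hr : 0 < r)
    (hr2 : r ^ 2 = x * y) (m : ℕ) (hbr : (T * S) ^ (m + 1) = (S * T) ^ (m + 1)) :
    ww S T x r (m + 2) = (x * ((y - 1) / r)) • ww S T x r (m + 1) + x • ww S T x r m := by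
  simp only [ww]
  rw [pp_even hS hT hx m hbr, smul_add, smul_smul, smul_smul, smul_smul, smul_smul]
  congr 2
  · rw [pow_succ, pow_succ]; field_simp
  · rw [pow_succ, pow_succ]
    have : x ^ 2 * y = x * r ^ 2 := by rw [hr2]; ring
    rw [this]
    field_simp

theorem ww_odd (hS : Quad S x) (hx : 0 < x) (m : ℕ)
    (hbr : (T * S) ^ m * T = (S * T) ^ m * S) : ww S T x x (m + 1) = x • ww S T x x m := by
  simp only [ww]
  rw [pp_odd hS hx m hbr, smul_smul, smul_smul]
  congr 1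
  rw [pow_succ]
  field_simp

theorem tr_ww (tr : R →ₗ[ℝ] ℝ) (hcomm : ∀ a b, tr (a * b) = tr (b * a)) (hS : Quad S x) (hx : 0 < x)
    {r : ℝ} (k : ℕ) (h1 : tr ((T * S) ^ (k + 1)) = 0) (h2 : tr ((T * S) ^ k * T) = 0) :
    tr (ww S T x r (k + 1)) = 0 := by
  rw [ww, map_smul, pp]
  have h3 : tr (ee S x * (T * S) ^ (k + 1) * ee S x) = tr ((T * S) ^ (k + 1) * ee S x) := by
    rw [mul_assoc, hcomm, mul_assoc, ee_ee hS hx]
  rw [h3, ee, mul_smul_comm, map_smul, mul_add, mul_one, map_add, h1]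
  have h4 : (T * S) ^ (k + 1) * S = (x - 1) • (T * S) ^ (k + 1) + x • ((T * S) ^ k * T) := by
    rw [pow_succ (T * S) k]
    calc (T * S) ^ k * (T * S) * S = (T * S) ^ k * T * (S * S) := by simp only [mul_assoc]
      _ = _ := by
        rw [hS]
        simp only [mul_add, mul_smul_comm, mul_one, mul_assoc]
  rw [h4, map_add, map_smul, map_smul, h1, h2]
  simp

end Hecke

section Trig

open Real

/-- the scalar solutions -/
noncomputable def gam (φ E : ℝ) (k : ℕ) : ℝ := cos (k * φ) + E * sin (k * φ)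

theorem gam_rec (φ E : ℝ) (k : ℕ) : 2 * cos φ * gam φ E (k + 1) = gam φ E k + gam φ E (k + 2) := by
  unfold gam
  have e1 : ((k : ℕ) : ℝ) * φ = ((k + 1 : ℕ) : ℝ) * φ - φ := by push_cast; ring
  have e2 : ((k + 2 : ℕ) : ℝ) * φ = ((k + 1 : ℕ) : ℝ) * φ + φ := by push_cast; ring
  rw [e1, e2, cos_sub, sin_sub, cos_add, sin_add]
  ring

/-- the right value of `E` -/
noncomputable def EE (A C φ : ℝ) : ℝ := ((2 * cos φ + C) / A - cos φ) / sin φ

theorem EE_mul {A C φ : ℝ} (h : sin φ ≠ 0) : EE A C φ * sin φ = (2 * cos φ + C) / A - cos φ :=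
  div_mul_cancel₀ _ h

theorem chebS_gam {A C φ : ℝ} (hA : A ≠ 0) (h : sin φ ≠ 0) :
    ChebS (gam φ (EE A C φ)) A C (2 * cos φ) where
  zero := by simp [gam]
  one := by
    have : gam φ (EE A C φ) 1 = (2 * cos φ + C) / A := by
      simp only [gam, Nat.cast_one, one_mul]
      rw [EE_mul h]
      ring
    rw [this, mul_div_cancel₀ _ hA]
    ring
  rec_ k := gam_rec _ _ _

theorem sum_gam_sq {φ : ℝ} (E : ℝ) (h : sin φ ≠ 0) (K : ℕ) :
    ∑ k ∈ Finset.range K, gam φ E k ^ 2 = K * (1 + E ^ 2) / 2 +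
      (1 - E ^ 2) / 2 * (sin ((2 * K - 1) * φ) + sin φ) / (2 * sin φ) +
      E * (cos φ - cos ((2 * K - 1) * φ)) / (2 * sin φ) := by
  induction K with
  | zero =>
    simp
  | succ K ih =>
    rw [Finset.sum_range_succ, ih]
    have e1 : (2 * ((K + 1 : ℕ) : ℝ) - 1) * φ = 2 * (K * φ) + φ := by push_cast; ring
    have e2 : (2 * (K : ℝ) - 1) * φ = 2 * (K * φ) - φ := by ring
    rw [e1, e2]
    unfold gam
    generalize (K : ℝ) * φ = t
    rw [sin_add, sin_sub, cos_add, cos_sub, sin_two_mul, cos_two_mul]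
    have h1 : sin t ^ 2 = 1 - cos t ^ 2 := sin_sq t
    field_simp
    push_cast
    have h2 : sin t ^ 2 + cos t ^ 2 = 1 := sin_sq_add_cos_sq t
    linear_combination (4 * E ^ 2 * sin φ) * h2

end Trig

section Rat

/-- the rational subfield of the reals -/
noncomputable def QQ : Subfield ℝ := (algebraMap ℚ ℝ).fieldRange

theorem mem_QQ {a : ℝ} : a ∈ QQ ↔ ∃ q : ℚ, (q : ℝ) = a := by
  simp [QQ]

variable {ι : Type*} [Fintype ι] [DecidableEq ι]

theorem rat_of {Z : Matrix ι ι ℝ} {C t : ℝ} (hC : 0 < C) (hZ : Z * Z = C • Z) (ht : t ∈ QQ)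
    (ht0 : t ≠ 0) (hZt : Z.trace = t) : C ∈ QQ := by
  obtain ⟨k, hk⟩ := exists_trace_eq (C⁻¹ • Z) (by
    rw [smul_mul_assoc, mul_smul_comm, hZ]
    congr 1
    rw [smul_smul, inv_mul_cancel₀ hC.ne', one_smul])
  rw [Matrix.trace_smul, hZt, smul_eq_mul] at hk
  have hk0 : (k : ℝ) ≠ 0 := by
    rw [← hk]
    exact mul_ne_zero (inv_ne_zero hC.ne') ht0
  have h1 : C = t / k := by
    rw [← hk]
    field_simp
  rw [h1]
  exact QQ.div_mem ht (natCast_mem QQ k)

variable [Nonempty ι]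

/-- matrix data -/
structure Data (S T : Matrix ι ι ℝ) (x y : ℕ) : Prop where
  hx : 2 ≤ x
  hy : 2 ≤ y
  hS : Quad S (x : ℝ)
  hT : Quad T (y : ℝ)
  trS : S.trace = 0
  trT : T.trace = 0

variable {S T : Matrix ι ι ℝ} {x y : ℕ}

theorem Data.x_pos (D : Data S T x y) : (0 : ℝ) < x := by
  have := D.hx
  exact_mod_cast (by omega : 0 < x)

theorem Data.y_pos (D : Data S T x y) : (0 : ℝ) < y := by
  have := D.hy
  exact_mod_cast (by omega : 0 < y)

theorem Data.trace_ee (D : Data S T x y) : (ee S (x : ℝ)).trace = (1 + x : ℝ)⁻¹ * Fintype.card ι := by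
  rw [ee, Matrix.trace_smul, Matrix.trace_add, D.trS, Matrix.trace_one, add_zero, smul_eq_mul]

/-- The core rationality statement. -/
theorem Data.rational (D : Data S T x y) {r φ δ : ℝ} (hr : 0 < r) (hr2 : r ^ 2 = x * y)
    (hφ : Real.sin φ ≠ 0) (hδ : 0 ≤ δ) (m : ℕ)
    (htr : ∀ k ≤ m, ((T * S) ^ (k + 1)).trace = 0 ∧ ((T * S) ^ k * T).trace = 0)
    {A C : ℝ} (hA : A = (1 + x) / x) (hC : C = (y - 1) / r)
    (hend : A • (gam φ (EE A C φ) m • ww S T (x : ℝ) r (m + 1) -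
        gam φ (EE A C φ) (m + 1) • ww S T (x : ℝ) r m) +
      (δ * gam φ (EE A C φ) (m + 1)) • (ww S T (x : ℝ) r m + ww S T (x : ℝ) r (m + 2) -
        (2 * Real.cos φ) • ww S T (x : ℝ) r (m + 1)) = 0) :
    1 + A * ∑ k ∈ range m, gam φ (EE A C φ) (k + 1) ^ 2 +
      δ * gam φ (EE A C φ) (m + 1) ^ 2 ∈ QQ := by
  have hx0 := D.x_pos
  have hA0 : 0 < A := by rw [hA]; positivity
  have H := cheb_ww D.hS D.hT hx0 hr hr2
  rw [← hA, ← hC] at H
  obtain ⟨Z, h1, h2⟩ := exists_scaled H (chebS_gam hA0.ne' hφ) hA0.ne' m δ hend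
    (Matrix.traceLinearMap ι ℝ ℝ) (by
      intro k hk1 hk2
      obtain ⟨k, rfl⟩ := Nat.exists_eq_succ_of_ne_zero (by omega : k ≠ 0)
      exact tr_ww _ (fun a b => Matrix.trace_mul_comm a b) D.hS hx0 k (htr k (by omega)).1
        (htr k (by omega)).2)
  refine rat_of (t := (ee S (x : ℝ)).trace) ?_ h2 ?_ ?_ ?_
  · have : 0 ≤ ∑ k ∈ range m, gam φ (EE A C φ) (k + 1) ^ 2 := sum_nonneg fun _ _ => sq_nonneg _
    positivity
  · rw [D.trace_ee]
    exact QQ.mul_mem (QQ.inv_mem (QQ.add_mem QQ.one_mem (natCast_mem QQ x))) (natCast_mem QQ _)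
  · rw [D.trace_ee]
    have : (Fintype.card ι : ℝ) ≠ 0 := by exact_mod_cast Fintype.card_ne_zero
    positivity
  · rw [← ww_zero (T := T) (r := r) D.hS hx0]
    exact h1

open Real in
/-- even case: `E²` is rational -/
theorem Data.even (D : Data S T x y) {r : ℝ} (hr : 0 < r) (hr2 : r ^ 2 = x * y) (m : ℕ)
    (htr : ∀ k ≤ m, ((T * S) ^ (k + 1)).trace = 0 ∧ ((T * S) ^ k * T).trace = 0)
    (hbr : (T * S) ^ (m + 1) = (S * T) ^ (m + 1)) {φ : ℝ} {j : ℕ} (hφ : sin φ ≠ 0)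
    (hj : (m + 1) * φ = j * π) :
    EE ((1 + x) / x) ((y - 1) / r) φ ^ 2 ∈ QQ := by
  have hx0 := D.x_pos
  set A : ℝ := (1 + x) / x with hA
  set C : ℝ := (y - 1) / r with hC
  have hA0 : 0 < A := by rw [hA]; positivity
  set E := EE A C φ with hE
  have hES : E * sin φ = (2 * cos φ + C) / A - cos φ := EE_mul hφ
  have hsj : sin ((j : ℝ) * π) = 0 := sin_nat_mul_pi j
  have hcj : cos ((j : ℝ) * π) ^ 2 = 1 := by
    have := sin_sq_add_cos_sq ((j : ℝ) * π)
    rw [hsj] at this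
    linarith
  have g1 : gam φ E (m + 1) = cos (j * π) := by
    rw [gam]
    push_cast
    rw [hj, hsj]
    ring
  have g2 : gam φ E (m + 2) = cos (j * π) * (cos φ + E * sin φ) := by
    rw [gam, show ((m + 2 : ℕ) : ℝ) * φ = j * π + φ by rw [← hj]; push_cast; ring, cos_add, sin_add, hsj]
    ring
  have g0 : gam φ E m = cos (j * π) * (cos φ - E * sin φ) := by
    rw [gam, show (m : ℝ) * φ = j * π - φ by rw [← hj]; ring, cos_sub, sin_sub, hsj]
    ring
  have hxA : A * x = 1 + x := by rw [hA]; field_simp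
  have gb : gam φ E (m + 2) = x * C * gam φ E (m + 1) + x * gam φ E m := by
    rw [g0, g1, g2, hES]
    have : (2 * cos φ + C) / A = x * C + x * (cos φ - ((2 * cos φ + C) / A - cos φ)) := by
      rw [hA]
      field_simp
      ring
    linear_combination (cos (j * π)) * this
  have h1 := D.rational (δ := 1 / x) hr hr2 hφ (by positivity) m htr hA hC (by
    rw [ww_even D.hS D.hT hx0 hr hr2 m hbr, ← hC, ← hE]
    have e1 : (2 : ℝ) * cos φ * gam φ E (m + 1) = gam φ E m + (x * C * gam φ E (m + 1) + x * gam φ E m) := by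
      rw [← gb]; exact gam_rec _ _ _
    generalize ww S T (x : ℝ) r m = u
    generalize ww S T (x : ℝ) r (m + 1) = v
    generalize gam φ E (m + 1) = b at *
    generalize gam φ E m = a at *
    have e2 : A • (a • v - b • u) + (1 / (x : ℝ) * b) • (u + ((x * C) • v + (x : ℝ) • u) - (2 * cos φ) • v) =
        (A * a + 1 / (x : ℝ) * (b * (x * C) - 2 * cos φ * b)) • v + (-A * b + 1 / (x : ℝ) * b * (1 + x)) • u := by
      module
    rw [e2, e1]
    have e3 : A * a + 1 / (x : ℝ) * (b * (x * C) - (a + (x * C * b + x * a))) = 0 := by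
      rw [hA]; field_simp; ring
    have e4 : -A * b + 1 / (x : ℝ) * b * (1 + x) = 0 := by rw [hA]; field_simp; ring
    rw [e3, e4, zero_smul, zero_smul, add_zero])
  rw [← hE] at h1
  have h2 := sum_gam_sq E hφ (m + 1)
  rw [show (2 * ((m + 1 : ℕ) : ℝ) - 1) * φ = 2 * (j * π) - φ by rw [← hj]; push_cast; ring,
    sin_sub, cos_sub, sin_two_mul, cos_two_mul, hsj, hcj] at h2
  rw [sum_range_succ'] at h2
  have h3 : (1 : ℝ) + A * ∑ k ∈ range m, gam φ E (k + 1) ^ 2 + 1 / x * gam φ E (m + 1) ^ 2 =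
      A * ((m + 1) * (1 + E ^ 2) / 2) := by
    have h4 : gam φ E 0 = 1 := by simp [gam]
    rw [h4] at h2
    have h5 : ∑ k ∈ range m, gam φ E (k + 1) ^ 2 = (m + 1) * (1 + E ^ 2) / 2 - 1 := by
      have h6 : ∑ k ∈ range m, gam φ E (k + 1) ^ 2 + 1 ^ 2 = (m + 1) * (1 + E ^ 2) / 2 := by
        rw [h2]
        push_cast
        ring
      linarith
    rw [h5, g1, hcj, hA]
    field_simp
    ring
  rw [h3] at h1
  have hAQ : A ∈ QQ := QQ.div_mem (QQ.add_mem QQ.one_mem (natCast_mem QQ x)) (natCast_mem QQ x)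
  have h7 : E ^ 2 = A * ((m + 1) * (1 + E ^ 2) / 2) / A / ((m + 1 : ℕ) : ℝ) * 2 - 1 := by
    push_cast
    field_simp
    ring
  rw [h7]
  exact QQ.sub_mem (QQ.mul_mem (QQ.div_mem (QQ.div_mem h1 hAQ) (natCast_mem QQ _)) (ofNat_mem QQ 2)) QQ.one_mem

open Real in
/-- odd case: `E²` is rational -/
theorem Data.odd (D : Data S T x x) (m : ℕ)
    (htr : ∀ k ≤ m, ((T * S) ^ (k + 1)).trace = 0 ∧ ((T * S) ^ k * T).trace = 0)
    (hbr : (T * S) ^ (m + 1) * T = (S * T) ^ (m + 1) * S) {φ : ℝ} {j : ℕ} (hφ : sin φ ≠ 0)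
    (hj : (2 * m + 3) * φ = j * (2 * π)) :
    EE ((1 + x) / x) ((x - 1) / x) φ ^ 2 ∈ QQ := by
  have hx0 := D.x_pos
  set A : ℝ := (1 + x) / x with hA
  set C : ℝ := (x - 1) / x with hC
  have hA0 : 0 < A := by rw [hA]; positivity
  set E := EE A C φ with hE
  have hES : E * sin φ = (2 * cos φ + C) / A - cos φ := EE_mul hφ
  have hES' : (1 + x) * (E * sin φ) = (x - 1) * (1 + cos φ) := by
    rw [hES, hA, hC]
    field_simp
    ring
  have hs1 : sin ((m + 1) * φ) + (sin ((m + 1) * φ) * cos φ + cos ((m + 1) * φ) * sin φ) = 0 := by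
    have h1 : sin ((m + 2) * φ) = - sin ((m + 1) * φ) := by
      rw [show (m + 2) * φ = j * (2 * π) - (m + 1) * φ by rw [← hj]; ring, sin_nat_mul_two_pi_sub]
    rw [← sin_add, show (m + 1) * φ + φ = (m + 2) * φ by ring, h1]
    ring
  have gb : gam φ E (m + 2) = x * gam φ E (m + 1) := by
    rw [gam, gam, show ((m + 2 : ℕ) : ℝ) * φ = j * (2 * π) - (m + 1) * φ by rw [← hj]; push_cast; ring,
      cos_nat_mul_two_pi_sub, sin_nat_mul_two_pi_sub]
    push_cast
    generalize hs : sin ((m + 1) * φ) = s at *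
    generalize hc : cos ((m + 1) * φ) = c at *
    have h1 : c * sin φ = - s * (1 + cos φ) := by linarith
    have h2 : ((1 - x) * c - (1 + x) * E * s) * sin φ = 0 := by
      calc ((1 - x) * c - (1 + x) * E * s) * sin φ
          = (1 - x) * (c * sin φ) - s * ((1 + x) * (E * sin φ)) := by ring
        _ = 0 := by rw [h1, hES']; ring
    have h3 := (mul_eq_zero.mp h2).resolve_right hφ
    linarith
  have h1 := D.rational (δ := A) (r := x) hx0 (by ring) hφ hA0.le m htr hA hC (by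
    rw [ww_odd D.hS hx0 (m + 1) hbr, ← hE]
    have e1 : (2 : ℝ) * cos φ * gam φ E (m + 1) = gam φ E m + x * gam φ E (m + 1) := by
      rw [← gb]; exact gam_rec _ _ _
    generalize ww S T (x : ℝ) x m = u
    generalize ww S T (x : ℝ) x (m + 1) = v
    generalize gam φ E (m + 1) = b at *
    generalize gam φ E m = a at *
    have e2 : A • (a • v - b • u) + (A * b) • (u + (x : ℝ) • v - (2 * cos φ) • v) =
        (A * (a + (x : ℝ) * b - 2 * cos φ * b)) • v := by
      module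
    rw [e2, e1]
    have e3 : A * (a + (x : ℝ) * b - (a + x * b)) = 0 := by ring
    rw [e3, zero_smul])
  rw [← hE] at h1
  have h2 := sum_gam_sq E hφ (m + 2)
  rw [show (2 * ((m + 2 : ℕ) : ℝ) - 1) * φ = j * (2 * π) by rw [← hj]; push_cast; ring,
    cos_nat_mul_two_pi, show (j : ℝ) * (2 * π) = ((2 * j : ℕ) : ℝ) * π by push_cast; ring,
    sin_nat_mul_pi] at h2
  rw [sum_range_succ'] at h2
  have h3 : (1 : ℝ) + A * ∑ k ∈ range m, gam φ E (k + 1) ^ 2 + A * gam φ E (m + 1) ^ 2 =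
      1 + A * ((2 * m + 1) / 4 + (2 * m + 3) / 4 * E ^ 2 - (x - 1) / (2 * (1 + x))) := by
    have h4 : gam φ E 0 = 1 := by simp [gam]
    rw [h4] at h2
    have h5 : ∑ k ∈ range (m + 1), gam φ E (k + 1) ^ 2 =
        (2 * m + 1) / 4 + (2 * m + 3) / 4 * E ^ 2 - (x - 1) / (2 * (1 + x)) := by
      have h6 : E * (cos φ - 1) / (2 * sin φ) = - ((x - 1) / (2 * (1 + x))) := by
        have h7 : sin φ ^ 2 = 1 - cos φ ^ 2 := sin_sq φ
        have h8 : (1 + x) * (E * (cos φ - 1)) * sin φ = - (x - 1) * sin φ * sin φ := by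
          calc (1 + x) * (E * (cos φ - 1)) * sin φ = ((1 + x) * (E * sin φ)) * (cos φ - 1) := by ring
            _ = _ := by rw [hES']; linear_combination (x - 1) * h7
        have h9 := mul_right_cancel₀ hφ h8
        field_simp
        linarith
      have h10 : ∑ k ∈ range (m + 1), gam φ E (k + 1) ^ 2 + 1 ^ 2 =
          ((m + 2 : ℕ) : ℝ) * (1 + E ^ 2) / 2 + (1 - E ^ 2) / 4 + E * (cos φ - 1) / (2 * sin φ) := by
        rw [h2]
        field_simp
        ring
      rw [h6] at h10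
      push_cast at h10
      linarith
    rw [← h5, sum_range_succ]
    ring
  rw [h3] at h1
  have hAQ : A ∈ QQ := QQ.div_mem (QQ.add_mem QQ.one_mem (natCast_mem QQ x)) (natCast_mem QQ x)
  have hxQ : (x - 1 : ℝ) / (2 * (1 + x)) ∈ QQ := QQ.div_mem (QQ.sub_mem (natCast_mem QQ x) QQ.one_mem)
    (QQ.mul_mem (ofNat_mem QQ 2) (QQ.add_mem QQ.one_mem (natCast_mem QQ x)))
  generalize hV : 1 + A * ((2 * m + 1) / 4 + (2 * m + 3) / 4 * E ^ 2 - (x - 1) / (2 * (1 + x))) = V at h1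
  have h7 : E ^ 2 = ((V - 1) / A + (x - 1 : ℝ) / (2 * (1 + x)) - ((2 * m + 1 : ℕ) : ℝ) / 4) * 4 /
      ((2 * m + 3 : ℕ) : ℝ) := by
    rw [← hV]
    push_cast
    field_simp
    ring
  rw [h7]
  exact QQ.div_mem (QQ.mul_mem (QQ.sub_mem (QQ.add_mem (QQ.div_mem (QQ.sub_mem h1 QQ.one_mem) hAQ) hxQ)
    (QQ.div_mem (natCast_mem QQ _) (ofNat_mem QQ 4))) (ofNat_mem QQ 4)) (natCast_mem QQ _)

open Real in
theorem EE_eq {x : ℝ} (hx : 0 < x) (C : ℝ) {φ : ℝ} (hφ : sin φ ≠ 0) :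
    EE ((1 + x) / x) C φ = ((x - 1) * cos φ + x * C) / ((1 + x) * sin φ) := by
  rw [EE]
  field_simp
  ring

open Real in
/-- even case: rationality of `sin² φ` and `cos φ / r` -/
theorem Data.even_concl (D : Data S T x y) {r : ℝ} (hr : 0 < r) (hr2 : r ^ 2 = x * y) (m : ℕ)
    (htr : ∀ k ≤ m, ((T * S) ^ (k + 1)).trace = 0 ∧ ((T * S) ^ k * T).trace = 0)
    (hbr : (T * S) ^ (m + 1) = (S * T) ^ (m + 1)) {φ : ℝ} {j : ℕ} (hφ : sin φ ≠ 0)
    (hj : (m + 1) * φ = j * π) (hjm : j ≤ m + 1) :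
    sin φ ^ 2 ∈ QQ ∧ cos φ / r ∈ QQ := by
  have hx0 := D.x_pos
  have hy0 := D.y_pos
  have h1 := D.even hr hr2 m htr hbr hφ hj
  have hφ' : sin (π - φ) ≠ 0 := by rwa [sin_pi_sub]
  have h2 := D.even hr hr2 m htr hbr (φ := π - φ) (j := m + 1 - j) hφ' (by
    rw [Nat.cast_sub hjm]
    push_cast
    rw [mul_sub, hj]
    ring)
  rw [EE_eq hx0 _ hφ] at h1
  rw [EE_eq hx0 _ hφ', sin_pi_sub, cos_pi_sub] at h2
  set C : ℝ := (y - 1) / r with hC
  set s := sin φ with hs
  set c := cos φ with hc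
  have hsc : c ^ 2 = 1 - s ^ 2 := by
    have := sin_sq_add_cos_sq φ
    rw [← hs, ← hc] at this
    linarith
  have hx1 : (1 : ℝ) < x := by
    have := D.hx
    exact_mod_cast (by omega : 1 < x)
  have hy1 : (1 : ℝ) < y := by
    have := D.hy
    exact_mod_cast (by omega : 1 < y)
  have xQ : (x : ℝ) ∈ QQ := natCast_mem QQ x
  have yQ : (y : ℝ) ∈ QQ := natCast_mem QQ y
  have oQ : (1 : ℝ) ∈ QQ := QQ.one_mem
  have hC2 : C ^ 2 = (y - 1) ^ 2 / (x * y) := by rw [hC, div_pow, hr2]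
  have hC2Q : C ^ 2 ∈ QQ := by
    rw [hC2]
    exact QQ.div_mem (QQ.pow_mem (QQ.sub_mem yQ oQ) 2) (QQ.mul_mem xQ yQ)
  have hCpos : 0 < C := div_pos (by linarith) hr
  -- the sum
  set e1 := (((x : ℝ) - 1) * c + x * C) / ((1 + x) * s) with he1
  set e2 := (((x : ℝ) - 1) * -c + x * C) / ((1 + x) * s) with he2
  have h3 : (e1 ^ 2 + e2 ^ 2) * (1 + (x : ℝ)) ^ 2 / 2 + (x - 1) ^ 2 = ((x - 1) ^ 2 + x ^ 2 * C ^ 2) / s ^ 2 := by
    rw [he1, he2]
    field_simp
    linear_combination ((x : ℝ) - 1) ^ 2 * 2 * hsc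
  have hK : 0 < ((x : ℝ) - 1) ^ 2 + x ^ 2 * C ^ 2 := by
    have : 0 < (x : ℝ) - 1 := by linarith
    positivity
  have hKQ : ((x : ℝ) - 1) ^ 2 + x ^ 2 * C ^ 2 ∈ QQ :=
    QQ.add_mem (QQ.pow_mem (QQ.sub_mem xQ oQ) 2) (QQ.mul_mem (QQ.pow_mem xQ 2) hC2Q)
  have h3Q : ((x - 1) ^ 2 + x ^ 2 * C ^ 2) / s ^ 2 ∈ QQ := by
    rw [← h3]
    exact QQ.add_mem (QQ.div_mem (QQ.mul_mem (QQ.add_mem h1 h2) (QQ.pow_mem (QQ.add_mem oQ xQ) 2))
      (ofNat_mem QQ 2)) (QQ.pow_mem (QQ.sub_mem xQ oQ) 2)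
  have hsQ : s ^ 2 ∈ QQ := by
    have h4 : s ^ 2 = ((x - 1) ^ 2 + x ^ 2 * C ^ 2) / (((x - 1) ^ 2 + x ^ 2 * C ^ 2) / s ^ 2) := by
      field_simp
    rw [h4]
    exact QQ.div_mem hKQ h3Q
  refine ⟨hsQ, ?_⟩
  have h5 : c / r = (e1 ^ 2 - e2 ^ 2) * (1 + (x : ℝ)) ^ 2 * s ^ 2 / (4 * (x - 1) * x * (y - 1)) := by
    have hx1' : (x : ℝ) - 1 ≠ 0 := by linarith
    have hy1' : (y : ℝ) - 1 ≠ 0 := by linarith
    rw [he1, he2, hC]
    field_simp
    ring
  rw [h5]
  exact QQ.div_mem (QQ.mul_mem (QQ.mul_mem (QQ.sub_mem h1 h2) (QQ.pow_mem (QQ.add_mem oQ xQ) 2)) hsQ)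
    (QQ.mul_mem (QQ.mul_mem (QQ.mul_mem (ofNat_mem QQ 4) (QQ.sub_mem xQ oQ)) xQ) (QQ.sub_mem yQ oQ))

open Real in
/-- odd case: rationality of `cos φ` -/
theorem Data.odd_concl (D : Data S T x x) (m : ℕ)
    (htr : ∀ k ≤ m, ((T * S) ^ (k + 1)).trace = 0 ∧ ((T * S) ^ k * T).trace = 0)
    (hbr : (T * S) ^ (m + 1) * T = (S * T) ^ (m + 1) * S) {φ : ℝ} {j : ℕ} (hφ : sin φ ≠ 0)
    (hj : (2 * m + 3) * φ = j * (2 * π)) : cos φ ∈ QQ := by
  have hx0 := D.x_pos
  have h1 := D.odd m htr hbr hφ hj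
  rw [EE_eq hx0 _ hφ] at h1
  set s := sin φ with hs
  set c := cos φ with hc
  have hsc : s ^ 2 = 1 - c ^ 2 := by
    have := sin_sq_add_cos_sq φ
    rw [← hs, ← hc] at this
    linarith
  have hx1 : (1 : ℝ) < x := by
    have := D.hx
    exact_mod_cast (by omega : 1 < x)
  have xQ : (x : ℝ) ∈ QQ := natCast_mem QQ x
  have oQ : (1 : ℝ) ∈ QQ := QQ.one_mem
  have hc1 : 1 - c ≠ 0 := by
    intro h
    apply hφ
    have h2 : s ^ 2 = 0 := by rw [hsc, show c = 1 by linarith]; ring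
    exact pow_eq_zero_iff (two_ne_zero) |>.mp h2
  have hx1' : (x : ℝ) - 1 ≠ 0 := by linarith
  have hx2' : (x : ℝ) + 1 ≠ 0 := by linarith
  have h2 : ((((x : ℝ) - 1) * c + x * ((x - 1) / x)) / ((1 + x) * s)) ^ 2 =
      ((x - 1) / (x + 1)) ^ 2 * (2 / (1 - c) - 1) := by
    have h3 : (((x : ℝ) - 1) * c + x * ((x - 1) / x)) = (x - 1) * (1 + c) := by field_simp; ring
    have h1c : 1 + c ≠ 0 := by
      intro h
      apply hφ
      have h2 : s ^ 2 = 0 := by rw [hsc, show c = -1 by linarith]; ring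
      exact pow_eq_zero_iff (two_ne_zero) |>.mp h2
    rw [h3, div_pow, mul_pow, mul_pow, hsc]
    have h4 : (1 : ℝ) - c ^ 2 = (1 - c) * (1 + c) := by ring
    rw [h4]
    field_simp
    ring
  rw [h2] at h1
  generalize hV : ((x - 1 : ℝ) / (x + 1)) ^ 2 * (2 / (1 - c) - 1) = V at h1
  have h5 : c = 1 - 2 / (V / ((x - 1 : ℝ) / (x + 1)) ^ 2 + 1) := by
    rw [← hV]
    have h6 : ((x - 1 : ℝ) / (x + 1)) ^ 2 * (2 / (1 - c) - 1) / ((x - 1 : ℝ) / (x + 1)) ^ 2 + 1 = 2 / (1 - c) := by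
      field_simp
      ring
    rw [h6]
    field_simp
    ring
  rw [h5]
  exact QQ.sub_mem oQ (QQ.div_mem (ofNat_mem QQ 2) (QQ.add_mem (QQ.div_mem h1
    (QQ.pow_mem (QQ.div_mem (QQ.sub_mem xQ oQ) (QQ.add_mem xQ oQ)) 2)) oQ))

open Real in
theorem niven_frac {a b : ℕ} (hab : a ≤ b) (hb : 0 < b) (h : cos ((a : ℝ) / b * π) ∈ QQ) :
    a = 0 ∨ 3 * a = b ∨ 2 * a = b ∨ 3 * a = 2 * b ∨ a = b := by
  obtain ⟨q, hq⟩ := mem_QQ.mp h
  have h1 := niven_angle_div_pi_eq (r := (a : ℚ) / b) ⟨q, by push_cast; exact hq.symm⟩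
    ⟨by positivity, by rw [div_le_one (by positivity)]; exact_mod_cast hab⟩
  have hb' : (b : ℚ) ≠ 0 := by positivity
  simp only [Set.mem_insert_iff, Set.mem_singleton_iff] at h1
  rcases h1 with h1 | h1 | h1 | h1 | h1
  · left
    have : (a : ℚ) = 0 := by
      rcases div_eq_zero_iff.mp h1 with h | h
      · exact h
      · exact absurd h hb'
    exact_mod_cast this
  · right; left
    field_simp at h1
    exact_mod_cast (by linarith : (3 * a : ℚ) = b)
  · right; right; left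
    field_simp at h1
    exact_mod_cast (by linarith : (2 * a : ℚ) = b)
  · right; right; right; left
    field_simp at h1
    exact_mod_cast (by linarith : (3 * a : ℚ) = 2 * b)
  · right; right; right; right
    field_simp at h1
    exact_mod_cast h1

open Real in
theorem Data.n_even (D : Data S T x y) (m : ℕ)
    (htr : ∀ k ≤ m, ((T * S) ^ (k + 1)).trace = 0 ∧ ((T * S) ^ k * T).trace = 0)
    (hbr : (T * S) ^ (m + 1) = (S * T) ^ (m + 1)) : m + 1 ∈ ({1, 2, 3, 4} : Set ℕ) := by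
  have hx0 := D.x_pos
  have hy0 := D.y_pos
  rcases Nat.eq_zero_or_pos m with hm | hm
  · simp [hm]
  obtain ⟨r, hr, hr2⟩ : ∃ r : ℝ, 0 < r ∧ r ^ 2 = x * y :=
    ⟨√(x * y), Real.sqrt_pos.mpr (by positivity), Real.sq_sqrt (by positivity)⟩
  have hm1 : (0 : ℝ) < (m : ℝ) + 1 := by positivity
  have hsin : ∀ j : ℕ, 0 < j → j ≤ m → sin ((j : ℝ) * π / (m + 1)) ≠ 0 := by
    intro j hj hjm
    apply (sin_pos_of_pos_of_lt_pi (by positivity) _).ne'
    rw [div_lt_iff₀ hm1, mul_comm π]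
    apply mul_lt_mul_of_pos_right _ pi_pos
    exact_mod_cast Nat.lt_succ_of_le hjm
  have key := fun (j : ℕ) (hj : 0 < j) (hjm : j ≤ m) =>
    D.even_concl hr hr2 m htr hbr (hsin j hj hjm) (mul_div_cancel₀ _ hm1.ne') (by omega)
  have h1 := (key 1 one_pos hm).1
  have h2 : cos (((2 : ℕ) : ℝ) / ((m + 1 : ℕ) : ℝ) * π) ∈ QQ := by
    have e : ((2 : ℕ) : ℝ) / ((m + 1 : ℕ) : ℝ) * π = 2 * (((1 : ℕ) : ℝ) * π / (m + 1)) := by
      push_cast; ring
    rw [e, cos_two_mul, cos_sq']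
    exact QQ.sub_mem (QQ.mul_mem (ofNat_mem QQ 2) (QQ.sub_mem QQ.one_mem h1)) QQ.one_mem
  have h3 := niven_frac (by omega) (by omega) h2
  have h4 : m + 1 ≠ 6 := by
    intro h6
    have hm5 : m = 5 := by omega
    subst hm5
    have k1 := (key 1 (by omega) (by omega)).2
    have k2 := (key 2 (by omega) (by omega)).2
    have e1 : ((1 : ℕ) : ℝ) * π / ((5 : ℕ) + 1 : ℝ) = π / 6 := by push_cast; ring
    have e2 : ((2 : ℕ) : ℝ) * π / ((5 : ℕ) + 1 : ℝ) = π / 3 := by push_cast; ring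
    rw [e1, cos_pi_div_six] at k1
    rw [e2, cos_pi_div_three] at k2
    have k3 : √3 ∈ QQ := by
      have : √3 = √3 / 2 / r / (1 / 2 / r) := by field_simp
      rw [this]
      exact QQ.div_mem k1 k2
    obtain ⟨q, hq⟩ := mem_QQ.mp k3
    exact (Nat.prime_three.irrational_sqrt) ⟨q, by push_cast; exact hq⟩
  simp only [Set.mem_insert_iff, Set.mem_singleton_iff]
  omega

open Real in
theorem Data.n_odd (D : Data S T x x) (m : ℕ)
    (htr : ∀ k ≤ m, ((T * S) ^ (k + 1)).trace = 0 ∧ ((T * S) ^ k * T).trace = 0)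
    (hbr : (T * S) ^ (m + 1) * T = (S * T) ^ (m + 1) * S) : m = 0 := by
  have hm1 : (0 : ℝ) < 2 * (m : ℝ) + 3 := by positivity
  have hs : sin (((1 : ℕ) : ℝ) * (2 * π) / (2 * m + 3)) ≠ 0 := by
    apply (sin_pos_of_pos_of_lt_pi (by positivity) _).ne'
    rw [div_lt_iff₀ hm1]
    have : (0 : ℝ) ≤ m := Nat.cast_nonneg m
    push_cast
    nlinarith [pi_pos]
  have h1 := D.odd_concl m htr hbr hs (mul_div_cancel₀ _ hm1.ne')
  have h2 : cos (((2 : ℕ) : ℝ) / ((2 * m + 3 : ℕ) : ℝ) * π) ∈ QQ := by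
    have e : ((2 : ℕ) : ℝ) / ((2 * m + 3 : ℕ) : ℝ) * π = ((1 : ℕ) : ℝ) * (2 * π) / (2 * m + 3) := by
      push_cast; ring
    rw [e]
    exact h1
  have h3 := niven_frac (by omega) (by omega) h2
  omega

/-- a quadratic element is invertible -/
theorem Data.isUnit_of_quad {S : Matrix ι ι ℝ} {x : ℝ} (h : Quad S x) (hx : 0 < x) : IsUnit S := by
  rw [isUnit_iff_exists]
  refine ⟨x⁻¹ • (S - (x - 1) • 1), ?_, ?_⟩
  · rw [mul_smul_comm, mul_sub, h, mul_smul_comm, mul_one]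
    rw [show (x - 1) • S + x • (1 : Matrix ι ι ℝ) - (x - 1) • S = x • 1 by abel, smul_smul,
      inv_mul_cancel₀ hx.ne', one_smul]
  · rw [smul_mul_assoc, sub_mul, h, smul_mul_assoc, one_mul]
    rw [show (x - 1) • S + x • (1 : Matrix ι ι ℝ) - (x - 1) • S = x • 1 by abel, smul_smul,
      inv_mul_cancel₀ hx.ne', one_smul]

theorem Data.eq_of_odd (D : Data S T x y) (m : ℕ)
    (hbr : (T * S) ^ (m + 1) * T = (S * T) ^ (m + 1) * S) : x = y := by
  have hx0 := D.x_pos
  have hy0 := D.y_pos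
  obtain ⟨u, hu⟩ := ((Data.isUnit_of_quad D.hT hy0).mul (Data.isUnit_of_quad D.hS hx0)).pow (m + 1)
  have h1 : S * (u : Matrix ι ι ℝ) = u * T := by
    rw [hu, hbr, mul_pow_mul]
  have h2 : S * S = u * (T * T) * (u⁻¹ : (Matrix ι ι ℝ)ˣ) := by
    rw [← mul_assoc, ← h1, mul_assoc S, ← h1]
    simp [mul_assoc]
  have h3 : (S * S).trace = (T * T).trace := by
    rw [h2, Matrix.trace_mul_comm, ← mul_assoc, Units.inv_mul, one_mul]
  rw [D.hS, D.hT] at h3
  simp only [Matrix.trace_add, Matrix.trace_smul, D.trS, D.trT, Matrix.trace_one, smul_eq_mul, mul_zero,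
    zero_add] at h3
  have h4 : (Fintype.card ι : ℝ) ≠ 0 := by exact_mod_cast Fintype.card_ne_zero
  exact_mod_cast mul_right_cancel₀ h4 h3

/-- alternating products -/
def altp {R : Type*} [Monoid R] : ℕ → R → R → R
  | 0, _, _ => 1
  | k + 1, a, b => a * altp k b a

theorem altp_add_two {R : Type*} [Monoid R] (a b : R) (k : ℕ) :
    altp (k + 2) a b = a * b * altp k a b := by
  simp only [altp, mul_assoc]

theorem altp_even {R : Type*} [Monoid R] (a b : R) (k : ℕ) : altp (2 * k) a b = (a * b) ^ k := by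
  induction k with
  | zero => simp [altp]
  | succ k ih => rw [show 2 * (k + 1) = 2 * k + 2 by ring, altp_add_two, ih, pow_succ']

theorem altp_odd {R : Type*} [Monoid R] (a b : R) (k : ℕ) :
    altp (2 * k + 1) a b = (a * b) ^ k * a := by
  induction k with
  | zero => simp [altp]
  | succ k ih => rw [show 2 * (k + 1) + 1 = (2 * k + 1) + 2 by ring, altp_add_two, ih, pow_succ', mul_assoc (a * b)]

/-- **Feit-Higman**, matrix form. -/
theorem Data.feit_higman (D : Data S T x y) {n : ℕ} (hn : 2 ≤ n)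
    (htr : ∀ k, 0 < k → k ≤ n → (altp k T S).trace = 0)
    (hbr : altp n T S = altp n S T) : n ∈ ({2, 3, 4, 6, 8} : Set ℕ) := by
  rcases Nat.even_or_odd' n with ⟨m, hm | hm⟩
  · obtain ⟨m, rfl⟩ := Nat.exists_eq_succ_of_ne_zero (by omega : m ≠ 0)
    rw [hm, altp_even, altp_even] at hbr
    have h1 := D.n_even m (fun k hk => ?_) hbr
    · simp only [Set.mem_insert_iff, Set.mem_singleton_iff] at h1 ⊢
      omega
    · rw [← altp_even, ← altp_odd]
      exact ⟨htr _ (by omega) (by omega), htr _ (by omega) (by omega)⟩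
  · obtain ⟨m, rfl⟩ := Nat.exists_eq_succ_of_ne_zero (by omega : m ≠ 0)
    rw [hm, altp_odd, altp_odd] at hbr
    obtain rfl := D.eq_of_odd m hbr
    have h1 := D.n_odd m (fun k hk => ?_) hbr
    · simp only [Set.mem_insert_iff, Set.mem_singleton_iff]
      omega
    · rw [← altp_even, ← altp_odd]
      exact ⟨htr _ (by omega) (by omega), htr _ (by omega) (by omega)⟩

end Rat

end Cfsg.Agent.Lib.H50FH
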