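import Cfsg.Agent.Lib.H50FeitHigman1
import Cfsg.Agent.Lib.StTits2
import Cfsg.Agent.Lib.Involutions

/-! Feit-Higman, the BN-pair part (helper50). -/

set_option autoImplicit false

namespace Cfsg.Agent.Lib.H50FH

open Cfsg.Agent.Lib.Exchange Cfsg.Agent.Lib.BNPair Cfsg.Agent.Lib.StTits

section Word

variable {ι W : Type*} [Group W] {s : ι → W}

theorem wp_alt_two (i j : ι) (k : ℕ) : wp s (alt (k + 2) i j) = s i * s j * wp s (alt k i j) := by
  rw [alt_succ, alt_succ, wp_cons, wp_cons, mul_assoc]

theorem wp_alt_add (i j : ι) (c l : ℕ) :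
    wp s (alt (l + 2 * c) i j) = (s i * s j) ^ c * wp s (alt l i j) := by
  induction c with
  | zero => simp
  | succ c ih => rw [show l + 2 * (c + 1) = (l + 2 * c) + 2 by ring, wp_alt_two, ih, pow_succ']; simp only [mul_assoc]

theorem len_parity (H : IsExch s) (ω : List ι) : len s (wp s ω) % 2 = ω.length % 2 := by
  induction ω with
  | nil => simp [len_one]
  | cons i ω ih =>
    rw [wp_cons, List.length_cons]
    rcases len_simple_mul_cases H i (wp s ω) with h | h <;> omega

/-- in rank two a reduced word is alternating -/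
theorem reduced_alt (H : IsExch s) {i j : ι} (hij : ∀ k, k = i ∨ k = j) (ω : List ι)
    (hω : ω.length = len s (wp s ω)) : ω = alt ω.length i j ∨ ω = alt ω.length j i := by
  induction ω with
  | nil => left; rfl
  | cons a t ih =>
    have ht := ih (reduced_tail H hω)
    rcases t with _ | ⟨b, t⟩
    · rcases hij a with rfl | rfl
      · left; rfl
      · right; rfl
    · have hab : a ≠ b := by
        rintro rfl
        have h1 : wp s (a :: a :: t) = wp s t := by
          rw [wp_cons, wp_cons]; exact simple_mul_cancel H a _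
        have h2 := len_wp_le (s := s) t
        rw [h1] at hω
        simp only [List.length_cons] at hω
        omega
      simp only [List.length_cons] at ht ⊢
      rcases ht with ht | ht
      · -- b = i
        have hb : b = i := by
          rw [alt_succ] at ht
          exact (List.cons.inj ht).1
        have ha : a = j := by
          rcases hij a with h | h
          · exact absurd (h.trans hb.symm) hab
          · exact h
        right
        rw [alt_succ, ← ht, ha]
      · have hb : b = j := by
          rw [alt_succ] at ht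
          exact (List.cons.inj ht).1
        have ha : a = i := by
          rcases hij a with h | h
          · exact h
          · exact absurd (h.trans hb.symm) hab
        left
        rw [alt_succ, ← ht, ha]

theorem len_alt (H : IsExch s) {i j : ι} (hij : ∀ k, k = i ∨ k = j) {k : ℕ}
    (hk : k ≤ orderOf (s i * s j)) : len s (wp s (alt k i j)) = k := by
  have h1 : len s (wp s (alt k i j)) ≤ k := by
    have := len_wp_le (s := s) (alt k i j)
    rwa [alt_length] at this
  have h2 := len_parity H (alt k i j)
  rw [alt_length] at h2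
  by_contra hne
  obtain ⟨ω, hω, hl⟩ := exists_reduced H.gen (wp s (alt k i j))
  obtain ⟨c, hc, hc0⟩ : ∃ c, k = ω.length + 2 * c ∧ 0 < c := by
    refine ⟨(k - ω.length) / 2, ?_, ?_⟩ <;> omega
  have hsq := H.sq
  rcases reduced_alt H hij ω (by rw [hl, hω]) with h | h
  · -- same first letter
    have h3 : wp s (alt k i j) = (s i * s j) ^ c * wp s (alt ω.length i j) := by
      rw [hc]; exact wp_alt_add i j c _
    rw [← h, hω] at h3
    have h4 : (s i * s j) ^ c = 1 := by
      have := mul_right_cancel (b := wp s (alt k i j)) (a := 1) (c := (s i * s j) ^ c) (by rw [one_mul]; exact h3)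
      exact this.symm
    have h5 := Nat.le_of_dvd hc0 (orderOf_dvd_of_pow_eq_one h4)
    omega
  · have h3 : wp s (alt k i j) = (s i * s j) ^ c * ((s i * s j) ^ ω.length * wp s (alt ω.length j i)) := by
      rw [← wp_alt hsq, hc]; exact wp_alt_add i j c _
    rw [← h, hω] at h3
    have h4 : (s i * s j) ^ (c + ω.length) = 1 := by
      have := mul_right_cancel (b := wp s (alt k i j)) (a := 1) (c := (s i * s j) ^ (c + ω.length))
        (by rw [one_mul, pow_add, mul_assoc]; exact h3)
      exact this.symm
    have h5 := Nat.le_of_dvd (by omega) (orderOf_dvd_of_pow_eq_one h4)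
    omega

end Word

section Hecke

variable {G : Type*} [Group G] (P : Cfsg.BNPair G)

/-- relative position -/
noncomputable def dl (x y : G ⧸ P.B) : W P := beta P (x.out⁻¹ * y.out)

variable {P}

theorem dl_mk (g h : G) : dl P (g : G ⧸ P.B) (h : G ⧸ P.B) = beta P (g⁻¹ * h) := by
  obtain ⟨b, hb⟩ := QuotientGroup.mk_out_eq_mul P.B g
  obtain ⟨c, hc⟩ := QuotientGroup.mk_out_eq_mul P.B h
  rw [dl, hb, hc, mul_inv_rev]
  have : (b : G)⁻¹ * g⁻¹ * (h * c) = (b : G)⁻¹ * (g⁻¹ * h) * c := by group
  rw [this, beta_mul_B c.2, beta_B_mul (inv_mem b.2)]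

theorem dl_self (x : G ⧸ P.B) : dl P x x = 1 := by
  rw [dl, inv_mul_cancel, beta_eq_one_iff]
  exact one_mem _

theorem dl_eq_one {x y : G ⧸ P.B} (h : dl P x y = 1) : x = y := by
  induction x using QuotientGroup.induction_on with
  | H g =>
  induction y using QuotientGroup.induction_on with
  | H h' =>
  rw [dl_mk, beta_eq_one_iff] at h
  exact QuotientGroup.eq.mpr h

theorem dl_symm (x y : G ⧸ P.B) : dl P y x = (dl P x y)⁻¹ := by
  rw [dl, dl, ← beta_inv, mul_inv_rev, inv_inv]

open Classical in
/-- the Hecke operator -/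
noncomputable def TT (w : W P) : Matrix (G ⧸ P.B) (G ⧸ P.B) ℝ :=
  Matrix.of fun x y => if dl P x y = w then 1 else 0

theorem TT_apply (w : W P) (x y : G ⧸ P.B) [Decidable (dl P x y = w)] :
    TT w x y = if dl P x y = w then 1 else 0 := by
  simp [TT]

variable [Finite G]

noncomputable local instance : Fintype (G ⧸ P.B) := Fintype.ofFinite _

noncomputable local instance : DecidableEq (G ⧸ P.B) := Classical.decEq _

theorem trace_TT {w : W P} (hw : w ≠ 1) : (TT w).trace = 0 := by
  classical
  rw [Matrix.trace]
  apply Finset.sum_eq_zero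
  intro x _
  rw [Matrix.diag_apply, TT_apply, dl_self, if_neg hw.symm]

theorem TT_mul {i : P.S} {w : W P} (h : len (sW P) (sW P i * w) = len (sW P) w + 1) :
    TT (sW P i) * TT w = TT (sW P i * w) := by
  classical
  have hl : len (sW P) (sW P i * w) = len (sW P) (sW P i) + len (sW P) w := by
    rw [h, len_simple (isExch P)]; ring
  ext x y
  induction x using QuotientGroup.induction_on with
  | H g =>
  induction y using QuotientGroup.induction_on with
  | H g' =>
  rw [Matrix.mul_apply, TT_apply, dl_mk]
  have key : ∀ z : G ⧸ P.B, TT (sW P i) (g : G ⧸ P.B) z * TT w z (g' : G ⧸ P.B) =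
      if dl P (g : G ⧸ P.B) z = sW P i ∧ dl P z (g' : G ⧸ P.B) = w then 1 else 0 := by
    intro z
    rw [TT_apply, TT_apply]
    split_ifs <;> simp_all
  simp_rw [key]
  rw [Finset.sum_boole]
  split_ifs with hc
  · -- exactly one
    obtain ⟨n, hn, hnw⟩ := beta_surj (P := P) w
    have h1 : beta P ((i : G) * n) = sW P i * w := by
      rw [beta_mul_of_len (by rw [beta_S, hnw]; exact hl), beta_S, hnw]
    obtain ⟨b, hb, b', hb', e⟩ := (beta_eq_iff.mp (h1.trans hc.symm) : dc P _ _)
    have hz1 : dl P (g : G ⧸ P.B) ((g * b * i : G) : G ⧸ P.B) = sW P i := by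
      rw [dl_mk, ← beta_S, show g⁻¹ * (g * b * (i : G)) = b * i by group, beta_B_mul hb]
    have hz2 : dl P ((g * b * i : G) : G ⧸ P.B) (g' : G ⧸ P.B) = w := by
      rw [dl_mk]
      have : (g * b * (i : G))⁻¹ * g' = n * b' := by
        have h2 : g' = g * (b * ((i : G) * n) * b') := by rw [← e]; group
        rw [h2]; group
      rw [this, beta_mul_B hb', hnw]
    have : Finset.univ.filter (fun z : G ⧸ P.B => dl P (g : G ⧸ P.B) z = sW P i ∧
        dl P z (g' : G ⧸ P.B) = w) = {((g * b * i : G) : G ⧸ P.B)} := by
      ext z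
      simp only [Finset.mem_filter, Finset.mem_univ, true_and, Finset.mem_singleton]
      constructor
      · rintro ⟨h2, h3⟩
        induction z using QuotientGroup.induction_on with
        | H z =>
        rw [dl_mk] at h2 h3 hz1 hz2
        rw [eq_comm]
        apply QuotientGroup.eq.mpr
        have := gate (P := P) (g := g⁻¹ * (g * b * i)) (g' := g⁻¹ * z) (m := (g * b * (i : G))⁻¹ * g')
          (m' := z⁻¹ * g') (h2.trans hz1.symm) (h3.trans hz2.symm) (by rw [hz1, hz2]; exact hl) (by group)
        have e2 : (g⁻¹ * (g * b * (i : G)))⁻¹ * (g⁻¹ * z) = (g * b * (i : G))⁻¹ * z := by group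
        rwa [e2] at this
      · rintro rfl
        exact ⟨hz1, hz2⟩
    rw [this]
    simp
  · rw [Nat.cast_eq_zero, Finset.card_eq_zero, Finset.filter_eq_empty_iff]
    rintro z - ⟨h2, h3⟩
    apply hc
    induction z using QuotientGroup.induction_on with
    | H z =>
    rw [dl_mk] at h2 h3
    have := beta_mul_of_len (P := P) (g := g⁻¹ * z) (h := z⁻¹ * g') (by rw [h2, h3]; exact hl)
    rw [h2, h3] at this
    rw [← this]
    congr 1
    group

theorem TT_quad (i : P.S) : Quad (TT (sW P i)) ((cn P (sW P i) : ℕ) : ℝ) := by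
  classical
  set q := cn P (sW P i) with hq
  -- the equivalence relation
  have hne := sW_ne_one (P := P) i
  have hsymm : ∀ x y : G ⧸ P.B, (dl P x y = 1 ∨ dl P x y = sW P i) →
      (dl P y x = 1 ∨ dl P y x = sW P i) := by
    intro x y h
    rw [dl_symm x y]
    rcases h with h | h
    · left; rw [h, inv_one]
    · right; rw [h, sW_inv]
  have htrans : ∀ x y z : G ⧸ P.B, (dl P x y = 1 ∨ dl P x y = sW P i) →
      (dl P y z = 1 ∨ dl P y z = sW P i) → (dl P x z = 1 ∨ dl P x z = sW P i) := by
    intro x y z h h'
    rcases h with h | h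
    · rw [dl_eq_one h]; exact h'
    · induction x using QuotientGroup.induction_on with
      | H x =>
      induction y using QuotientGroup.induction_on with
      | H y =>
      induction z using QuotientGroup.induction_on with
      | H z =>
      rw [dl_mk] at *
      have h2 := beta_mul (P := P) (g := y⁻¹ * z) h
      rw [show x⁻¹ * y * (y⁻¹ * z) = x⁻¹ * z by group] at h2
      rcases h' with h' | h' <;> rw [h'] at h2
      · rw [mul_one] at h2; exact h2.symm
      · rw [sW_sq] at h2; exact h2
  have hJ : ∀ x y, (1 + TT (sW P i)) x y = if dl P x y = 1 ∨ dl P x y = sW P i then (1 : ℝ) else 0 := by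
    intro x y
    rw [Matrix.add_apply, TT_apply, Matrix.one_apply]
    by_cases h1 : x = y
    · subst h1
      rw [dl_self]
      simp [hne.symm]
    · have h2 : dl P x y ≠ 1 := fun h => h1 (dl_eq_one h)
      simp [h1, h2]
  have hrow : ∀ x : G ⧸ P.B, ∑ z, (if dl P x z = 1 ∨ dl P x z = sW P i then (1 : ℝ) else 0) = 1 + q := by
    intro x
    have h1 : ∀ z, (if dl P x z = 1 ∨ dl P x z = sW P i then (1 : ℝ) else 0) =
        (if z = x then 1 else 0) + (if dl P x z = sW P i then (1 : ℝ) else 0) := by
      intro z
      by_cases h1 : z = x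
      · subst h1
        rw [dl_self]
        simp [hne.symm]
      · have h2 : dl P x z ≠ 1 := fun h => h1 (dl_eq_one h).symm
        simp [h1, h2]
    simp_rw [h1]
    rw [Finset.sum_add_distrib, Finset.sum_ite_eq' Finset.univ x, if_pos (Finset.mem_univ _),
      Finset.sum_boole]
    congr 2
    induction x using QuotientGroup.induction_on with
    | H x =>
    rw [hq, ← cn_translate x (sW P i), Nat.card_eq_fintype_card, Fintype.card_subtype]
    congr 1
    ext z
    simp only [Finset.mem_filter, Finset.mem_univ, true_and]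
    induction z using QuotientGroup.induction_on with
    | H z =>
    rw [dl_mk]
    rfl
  have hJJ : (1 + TT (sW P i)) * (1 + TT (sW P i)) = (1 + (q : ℝ)) • (1 + TT (sW P i)) := by
    ext x y
    rw [Matrix.mul_apply, Matrix.smul_apply, hJ, smul_eq_mul]
    have h1 : ∀ z, (1 + TT (sW P i)) x z * (1 + TT (sW P i)) z y =
        (if dl P x y = 1 ∨ dl P x y = sW P i then (1 : ℝ) else 0) *
        (if dl P x z = 1 ∨ dl P x z = sW P i then (1 : ℝ) else 0) := by
      intro z
      rw [hJ, hJ]
      by_cases h1 : dl P x z = 1 ∨ dl P x z = sW P i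
      · have h2 : (dl P z y = 1 ∨ dl P z y = sW P i) ↔ (dl P x y = 1 ∨ dl P x y = sW P i) :=
          ⟨fun h => htrans _ _ _ h1 h, fun h => htrans _ _ _ (hsymm _ _ h1) h⟩
        simp only [h1, h2, if_true, one_mul, mul_one]
      · simp only [h1, if_false, zero_mul, mul_zero]
    simp_rw [h1]
    rw [← Finset.mul_sum, hrow, mul_comm]
  have h2 : (1 + TT (sW P i)) * (1 + TT (sW P i)) =
      1 + TT (sW P i) + TT (sW P i) + TT (sW P i) * TT (sW P i) := by
    noncomm_ring
  rw [h2] at hJJ
  unfold Quad
  have h3 : TT (sW P i) * TT (sW P i) = (1 + (q : ℝ)) • (1 + TT (sW P i)) -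
      (1 + TT (sW P i) + TT (sW P i)) := by rw [← hJJ]; abel
  rw [h3]
  module

theorem altp_TT {i j : P.S} (hij : ∀ k, k = i ∨ k = j) {k : ℕ}
    (hk : k ≤ orderOf (sW P i * sW P j)) :
    altp k (TT (sW P i)) (TT (sW P j)) = TT (wp (sW P) (alt k i j)) := by
  classical
  have H := isExch P
  have hord : orderOf (sW P j * sW P i) = orderOf (sW P i * sW P j) := by
    rw [← orderOf_inv, mul_inv_rev, sW_inv, sW_inv]
  induction k generalizing i j with
  | zero =>
    ext x y
    simp only [altp, alt_zero, wp_nil]
    rw [Matrix.one_apply, TT_apply]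
    by_cases h1 : x = y
    · subst h1
      simp [dl_self]
    · have h2 : dl P x y ≠ 1 := fun h => h1 (dl_eq_one h)
      simp [h1, h2]
  | succ k ih =>
    have hij' : ∀ k, k = j ∨ k = i := fun k => (hij k).symm
    rw [altp, ih hij' (by rw [hord]; omega) hord.symm, alt_succ, wp_cons]
    apply TT_mul
    have h1 := len_alt H hij hk
    have h2 := len_alt H hij' (k := k) (by rw [hord]; omega)
    rw [alt_succ, wp_cons] at h1
    rw [h1, h2]

/-- **Feit-Higman**: the order of the Weyl group of a finite BN-pair of rank two. -/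
theorem card_W_of_rank_two (h2 : P.rank = 2) :
    Nat.card (W P) ∈ ({4, 6, 8, 12, 16} : Set ℕ) := by
  classical
  obtain ⟨i, j, hne, huniv⟩ := Nat.card_eq_two_iff.mp h2
  have hij : ∀ k, k = i ∨ k = j := by
    intro k
    have : k ∈ ({i, j} : Set P.S) := by rw [huniv]; trivial
    simpa using this
  have hsi := sW_ne_one (P := P) i
  have hsj := sW_ne_one (P := P) j
  have hoi : orderOf (sW P i) = 2 := orderOf_eq_prime (by rw [pow_two, sW_sq]) hsi
  have hoj : orderOf (sW P j) = 2 := orderOf_eq_prime (by rw [pow_two, sW_sq]) hsj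
  have hij1 : sW P i * sW P j ≠ 1 := by
    intro h
    apply hne
    apply sW_inj (P := P)
    rw [mul_eq_one_iff_eq_inv, sW_inv] at h
    exact h
  have hn0 : 0 < orderOf (sW P i * sW P j) := orderOf_pos _
  have hn1 : orderOf (sW P i * sW P j) ≠ 1 := by
    rw [Ne, orderOf_eq_one_iff]; exact hij1
  have hord : orderOf (sW P j * sW P i) = orderOf (sW P i * sW P j) := by
    rw [← orderOf_inv, mul_inv_rev, sW_inv, sW_inv]
  have hij' : ∀ k, k = j ∨ k = i := fun k => (hij k).symm
  -- the order of `W`
  have hcard : Nat.card (W P) = 2 * orderOf (sW P i * sW P j) := by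
    obtain ⟨e⟩ := Lib.Involutions.nonempty_dihedral hoi hoj
    have htop : Subgroup.closure ({sW P i, sW P j} : Set (W P)) = ⊤ := by
      rw [eq_top_iff]
      intro w _
      obtain ⟨ω, rfl⟩ := sW_gen w
      induction ω with
      | nil => exact one_mem _
      | cons a t ih =>
        rw [wp_cons]
        apply mul_mem _ (ih trivial)
        apply Subgroup.subset_closure
        rcases hij a with rfl | rfl <;> simp
    have h3 := Nat.card_congr e.toEquiv
    rw [htop, Subgroup.card_top, DihedralGroup.nat_card] at h3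
    exact h3
  have hb : wp (sW P) (alt (orderOf (sW P i * sW P j)) j i) = wp (sW P) (alt (orderOf (sW P i * sW P j)) i j) := by
    rw [wp_alt (fun i => sW_sq i) _ i j, pow_orderOf_eq_one, one_mul]
  have D : Data (TT (sW P i)) (TT (sW P j)) (cn P (sW P i)) (cn P (sW P j)) :=
    ⟨cn_simple_gt i, cn_simple_gt j, TT_quad i, TT_quad j, trace_TT hsi, trace_TT hsj⟩
  have key := D.feit_higman (n := orderOf (sW P i * sW P j)) (by omega) (by
    intro k hk hkn
    rw [altp_TT hij' (by rw [hord]; exact hkn)]
    apply trace_TT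
    intro h
    have h3 := len_alt (isExch P) hij' (k := k) (by rw [hord]; exact hkn)
    rw [h, len_one] at h3
    omega) (by
    rw [altp_TT hij' (by rw [hord]), altp_TT hij le_rfl, hb])
  simp only [Set.mem_insert_iff, Set.mem_singleton_iff] at key ⊢
  omega

end Hecke

end Cfsg.Agent.Lib.H50FH
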