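import Mathlib
import Cfsg.Agent.Lib.POmDih
import Cfsg.Agent.Lib.S3T64

/-! Extraspecial groups of order 32 with 11 involutions are `Q8 * D8` (helper50). -/

set_option autoImplicit false

namespace Cfsg.Agent.Lib.H50Five

open Subgroup Cfsg.Agent.Lib

theorem card_pairs : (Finset.univ.filter fun p : DihedralGroup 4 × DihedralGroup 4 =>
    p.1 * p.1 = p.2 * p.2 ∧ (p.2 = 1 ∨ p.2 = DihedralGroup.r 1 ∨ p.2 = DihedralGroup.sr 0 ∨ p.2 = DihedralGroup.sr 1)).card
    = 20 := by decide +kernel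

theorem transversal : ∀ h h' : DihedralGroup 4,
    (h = 1 ∨ h = DihedralGroup.r 1 ∨ h = DihedralGroup.sr 0 ∨ h = DihedralGroup.sr 1) →
    (h' = 1 ∨ h' = DihedralGroup.r 1 ∨ h' = DihedralGroup.sr 0 ∨ h' = DihedralGroup.sr 1) →
    h' * h⁻¹ ≠ DihedralGroup.r 2 := by decide

theorem dih_center : ∀ h : DihedralGroup 4, h * DihedralGroup.r 1 = DihedralGroup.r 1 * h →
    h * DihedralGroup.sr 0 = DihedralGroup.sr 0 * h → h = 1 ∨ h = DihedralGroup.r 2 := by decide

theorem dih_sq : ∀ h : DihedralGroup 4, h * h = 1 ∨ h * h = DihedralGroup.r 2 := by decide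

theorem dih_z : ∀ h : DihedralGroup 4, h ≠ 1 → (∀ g, h * g = g * h) → h = DihedralGroup.r 2 := by decide

set_option maxHeartbeats 1000000 in
theorem extraspecial {P : Type*} [Group P] [Finite P] (h32 : Nat.card P = 32) (z : P) (hz1 : z ≠ 1)
    (hsq : ∀ x : P, x ^ 2 = 1 ∨ x ^ 2 = z) (hcen : ∀ x : P, (∀ y, x * y = y * x) ↔ x = 1 ∨ x = z)
    (h12 : Nat.card {x : P // x ^ 2 = 1} = 12) :
    ∃ A B : Subgroup P, Nonempty (↥A ≃* QuaternionGroup 2) ∧ Nonempty (↥B ≃* DihedralGroup 4) ∧
      (∀ a ∈ A, ∀ b ∈ B, a * b = b * a) ∧ A ⊔ B = ⊤ ∧ A ⊓ B = Subgroup.center P := by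
  classical
  have hzc : ∀ y, z * y = y * z := (hcen z).mpr (Or.inr rfl)
  have hzz : z * z = 1 := by
    rcases hsq z with h | h
    · rwa [pow_two] at h
    · rw [pow_two] at h
      exact absurd (mul_eq_left.mp h) hz1
  have hcl : ∀ u v : P, (u = 1 ∨ u = z) → (v = 1 ∨ v = z) → (u * v = 1 ∨ u * v = z) := by
    rintro u v (rfl | rfl) (rfl | rfl) <;> simp [hzz]
  have hcomm : ∀ x y : P, x * y * x⁻¹ * y⁻¹ = 1 ∨ x * y * x⁻¹ * y⁻¹ = z := by
    intro x y
    have h : x * y * x⁻¹ * y⁻¹ = x ^ 2 * (x⁻¹ * y) ^ 2 * (y⁻¹) ^ 2 := by simp only [pow_two]; group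
    rw [h]
    exact hcl _ _ (hcl _ _ (hsq _) (hsq _)) (hsq _)
  -- the characters
  let sg : P → ℤˣ := fun u => if u = 1 then 1 else -1
  have sg1 : sg 1 = 1 := if_pos rfl
  have sgz : sg z = -1 := if_neg hz1
  have sgmul : ∀ u v : P, (u = 1 ∨ u = z) → (v = 1 ∨ v = z) → sg (u * v) = sg u * sg v := by
    rintro u v (rfl | rfl) (rfl | rfl)
    · simp [sg1]
    · simp [sg1]
    · simp [sg1]
    · rw [hzz, sg1, sgz]; simp
  let χ : P → (P →* ℤˣ) := fun g =>
    { toFun := fun x => sg (x * g * x⁻¹ * g⁻¹)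
      map_one' := by
        have : (1 : P) * g * 1⁻¹ * g⁻¹ = 1 := by group
        rw [this, sg1]
      map_mul' := by
        intro a b
        rw [← sgmul _ _ (hcomm a g) (hcomm b g)]
        congr 1
        have h3 : a * (b * g * b⁻¹ * g⁻¹) = (b * g * b⁻¹ * g⁻¹) * a := by
          rcases hcomm b g with h | h
          · rw [h]; simp
          · rw [h, hzc]
        have h4 : (b * g * b⁻¹ * g⁻¹) * (a * g * a⁻¹ * g⁻¹) = (a * g * a⁻¹ * g⁻¹) * (b * g * b⁻¹ * g⁻¹) := by
          rcases hcomm b g with h | h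
          · rw [h]; simp
          · rw [h, hzc]
        rw [← h4]
        calc a * b * g * (a * b)⁻¹ * g⁻¹ = (a * (b * g * b⁻¹ * g⁻¹)) * (g * a⁻¹ * g⁻¹) := by group
          _ = ((b * g * b⁻¹ * g⁻¹) * a) * (g * a⁻¹ * g⁻¹) := by rw [h3]
          _ = _ := by group }
  have hχ : ∀ g x, χ g x = sg (x * g * x⁻¹ * g⁻¹) := fun g x => rfl
  have hχ1 : ∀ g x, χ g x = 1 ↔ x * g = g * x := by
    intro g x
    rw [hχ]
    constructor
    · intro h
      rcases hcomm x g with h1 | h1
      · rw [mul_inv_eq_one, mul_inv_eq_iff_eq_mul] at h1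
        exact h1
      · rw [h1, sgz] at h
        exact absurd h (by decide)
    · intro h
      have : x * g * x⁻¹ * g⁻¹ = 1 := by rw [h]; group
      rw [this, sg1]
  -- `a`
  obtain ⟨a, ha, ha1, haz⟩ : ∃ a : P, a ^ 2 = 1 ∧ a ≠ 1 ∧ a ≠ z := by
    by_contra hcon
    push Not at hcon
    have h1 : Nat.card {x : P // x ^ 2 = 1} ≤ 2 := by
      let _ := Fintype.ofFinite P
      rw [Nat.card_eq_fintype_card, Fintype.card_subtype]
      have h2 : (Finset.univ.filter fun x : P => x ^ 2 = 1) ⊆ {1, z} := by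
        intro x hx
        rw [Finset.mem_filter] at hx
        by_cases h3 : x = 1
        · simp [h3]
        · simp [hcon x hx.2 h3]
      exact (Finset.card_le_card h2).trans Finset.card_le_two
    omega
  have hnc : ¬ ∀ y, a * y = y * a := by
    rw [hcen]
    rintro (h | h)
    · exact ha1 h
    · exact haz h
  push Not at hnc
  obtain ⟨b₀, hb₀⟩ := hnc
  have haa : a * a = 1 := by rwa [pow_two] at ha
  have hai : a⁻¹ = a := by rw [inv_eq_iff_mul_eq_one]; exact haa
  obtain ⟨b, hb, hab⟩ : ∃ b : P, b * b = 1 ∧ a * b ≠ b * a := by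
    rcases hsq b₀ with h | h
    · exact ⟨b₀, by rwa [pow_two] at h, hb₀⟩
    · refine ⟨a * b₀, ?_, ?_⟩
      · have h1 : a * b₀ * a⁻¹ * b₀⁻¹ = z := by
          rcases hcomm a b₀ with h2 | h2
          · rw [mul_inv_eq_one, mul_inv_eq_iff_eq_mul] at h2
            exact absurd h2 hb₀
          · exact h2
        calc a * b₀ * (a * b₀) = a * b₀ * (a⁻¹ * b₀) := by rw [hai]
          _ = (a * b₀ * a⁻¹ * b₀⁻¹) * b₀ ^ 2 := by simp only [pow_two]; group
          _ = 1 := by rw [h1, h, hzz]
      · intro h1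
        apply hb₀
        have h2 : a * (a * b₀) = a * (b₀ * a) := by rw [h1, mul_assoc]
        exact mul_left_cancel h2
  have hbi : b⁻¹ = b := by rw [inv_eq_iff_mul_eq_one]; exact hb
  have hcab : a * b * a * b = z := by
    rcases hcomm a b with h2 | h2
    · rw [mul_inv_eq_one, mul_inv_eq_iff_eq_mul] at h2
      exact absurd h2 hab
    · rwa [hai, hbi] at h2
  -- the subgroup `A`
  let Θ : P →* ℤˣ × ℤˣ := (χ a).prod (χ b)
  have hχab : χ a b = -1 := by
    rcases Int.units_eq_one_or (χ a b) with h | h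
    · exact absurd ((hχ1 a b).mp h).symm hab
    · exact h
  have hχba : χ b a = -1 := by
    rcases Int.units_eq_one_or (χ b a) with h | h
    · exact absurd ((hχ1 b a).mp h) hab
    · exact h
  have hχaa : χ a a = 1 := (hχ1 a a).mpr rfl
  have hχbb : χ b b = 1 := (hχ1 b b).mpr rfl
  have hsurj : Function.Surjective Θ := by
    rintro ⟨u, v⟩
    rcases Int.units_eq_one_or u with rfl | rfl <;> rcases Int.units_eq_one_or v with rfl | rfl
    · exact ⟨1, map_one _⟩
    · exact ⟨a, Prod.ext hχaa hχba⟩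
    · exact ⟨b, Prod.ext hχab hχbb⟩
    · refine ⟨a * b, ?_⟩
      rw [map_mul]
      apply Prod.ext
      · change χ a a * χ a b = -1
        rw [hχaa, hχab]; rfl
      · change χ b a * χ b b = -1
        rw [hχba, hχbb]; rfl
  set A : Subgroup P := Θ.ker with hA
  have memA : ∀ x, x ∈ A ↔ x * a = a * x ∧ x * b = b * x := by
    intro x
    rw [hA, MonoidHom.mem_ker, ← hχ1, ← hχ1]
    exact Prod.ext_iff
  have hA8 : Nat.card A = 8 := by
    have h1 := card_mul_index A
    rw [hA, index_ker, MonoidHom.range_eq_top_of_surjective Θ hsurj, h32] at h1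
    have h2 : Nat.card (⊤ : Subgroup (ℤˣ × ℤˣ)) = 4 := by
      rw [card_top, Nat.card_prod, Nat.card_eq_fintype_card]; rfl
    rw [h2] at h1
    rw [hA]
    omega
  -- the subgroup `B`
  have hx2 : (a * b) ^ 2 = z := by rw [pow_two, ← hcab]; group
  have hx4 : (a * b) ^ 4 = 1 := by
    rw [show (4 : ℕ) = 2 * 2 from rfl, pow_mul, hx2, pow_two, hzz]
  have hyx : b * (a * b) * b⁻¹ = (a * b)⁻¹ := by
    rw [mul_inv_rev, hai, hbi]
    calc b * (a * b) * b = b * a * (b * b) := by group
      _ = b * a := by rw [hb, mul_one]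
  let φ := POmDih.dihHom hx4 hb hyx
  have hφinj : Function.Injective φ := POmDih.dihHom_injective hx4 hb hyx (by rw [hx2]; exact hz1)
  have hφr1 : φ (DihedralGroup.r 1) = a * b := by
    change POmDih.xp (a * b) 1 = a * b
    unfold POmDih.xp
    rw [show ((1 : ZMod 4)).val = 1 from rfl, pow_one]
  have hφr2 : φ (DihedralGroup.r 2) = z := by
    change POmDih.xp (a * b) 2 = z
    unfold POmDih.xp
    rw [show ((2 : ZMod 4)).val = 2 from rfl, hx2]
  have hφs : φ (DihedralGroup.sr 0) = b := by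
    change b * POmDih.xp (a * b) 0 = b
    rw [POmDih.xp_zero, mul_one]
  have hφa : φ (DihedralGroup.r 1 * DihedralGroup.sr 0) = a := by
    rw [map_mul, hφr1, hφs, mul_assoc, hb, mul_one]
  have hAB : ∀ x ∈ A, ∀ y ∈ φ.range, x * y = y * x := by
    rintro x hx _ ⟨g, rfl⟩
    obtain ⟨h1, h2⟩ := (memA x).mp hx
    have hxab : Commute x (a * b) := Commute.mul_right h1 h2
    rcases g with i | i
    · exact hxab.pow_right _
    · change Commute x (b * POmDih.xp (a * b) i)
      exact Commute.mul_right h2 (hxab.pow_right _)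
  have hzA : z ∈ A := (memA z).mpr ⟨hzc a, hzc b⟩
  have hzB : z ∈ φ.range := ⟨_, hφr2⟩
  have haB : a ∈ φ.range := ⟨_, hφa⟩
  have hbB : b ∈ φ.range := ⟨_, hφs⟩
  have hinter : ∀ x, x ∈ A → x ∈ φ.range → x = 1 ∨ x = z := by
    rintro _ hxA ⟨g, rfl⟩
    obtain ⟨h1, h2⟩ := (memA _).mp hxA
    rcases dih_center g (hφinj (by
        rw [map_mul, map_mul, hφr1]
        exact (show Commute (φ g) (a * b) from Commute.mul_right h1 h2))) (hφinj (by
        rw [map_mul, map_mul, hφs]; exact h2)) with h | h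
    · left; rw [h, map_one]
    · right; rw [h, hφr2]
  have hinf : A ⊓ φ.range = center P := by
    ext x
    rw [mem_inf, mem_center_iff]
    constructor
    · rintro ⟨h1, h2⟩ g
      have := (hcen x).mpr (hinter x h1 h2) g
      exact this.symm
    · intro h
      rcases (hcen x).mp (fun y => (h y).symm) with rfl | rfl
      · exact ⟨one_mem _, one_mem _⟩
      · exact ⟨hzA, hzB⟩
  have hsup : A ⊔ φ.range = ⊤ := by
    rw [eq_top_iff]
    intro x _
    obtain ⟨c, hcB, hc⟩ : ∃ c ∈ φ.range, Θ c = Θ x := by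
      rcases h : Θ x with ⟨u, v⟩
      rcases Int.units_eq_one_or u with rfl | rfl <;> rcases Int.units_eq_one_or v with rfl | rfl
      · exact ⟨1, one_mem _, map_one _⟩
      · exact ⟨a, haB, Prod.ext hχaa hχba⟩
      · exact ⟨b, hbB, Prod.ext hχab hχbb⟩
      · refine ⟨a * b, mul_mem haB hbB, ?_⟩
        rw [map_mul]
        apply Prod.ext
        · change χ a a * χ a b = -1
          rw [hχaa, hχab]; rfl
        · change χ b a * χ b b = -1
          rw [hχba, hχbb]; rfl
    have h1 : x * c⁻¹ ∈ A := by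
      rw [hA, MonoidHom.mem_ker, map_mul, map_inv, hc]; group
    have h2 : x = x * c⁻¹ * c := by group
    rw [h2]
    exact mul_mem (mem_sup_left h1) (mem_sup_right hcB)
  -- `A` is nonabelian
  have hAna : ∃ u v : A, u * v ≠ v * u := by
    by_contra hcon
    push Not at hcon
    have h1 : ∀ x ∈ A, x = 1 ∨ x = z := by
      intro x hx
      rw [← hcen]
      intro y
      have h2 : (⊤ : Subgroup P) ≤ centralizer {x} := by
        rw [← hsup, sup_le_iff]
        constructor
        · intro w hw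
          rw [mem_centralizer_singleton_iff]
          exact congrArg Subtype.val (hcon ⟨w, hw⟩ ⟨x, hx⟩)
        · intro w hw
          rw [mem_centralizer_singleton_iff]
          exact (hAB x hx w hw).symm
      exact (mem_centralizer_singleton_iff.mp (h2 (mem_top y))).symm
    have h3 : Nat.card A ≤ 2 := by
      have h4 : A ≤ zpowers z := by
        intro x hx
        rcases h1 x hx with rfl | rfl
        · exact one_mem _
        · exact mem_zpowers _
      have h5 := card_le_of_le h4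
      rw [Nat.card_zpowers] at h5
      have h6 : orderOf z = 2 := orderOf_eq_prime (by rw [pow_two, hzz]) hz1
      omega
    omega
  refine ⟨A, φ.range, ?_, ⟨(MonoidHom.ofInjective hφinj).symm⟩, hAB, hsup, hinf⟩
  rcases S3T64.order_eight hA8 hAna with ⟨⟨e⟩⟩ | h
  · exfalso
    -- too many involutions
    let ε : DihedralGroup 4 →* P := A.subtype.comp e.symm.toMonoidHom
    have hεA : ∀ g, ε g ∈ A := fun g => (e.symm g).2
    have hεinj : Function.Injective ε := A.subtype_injective.comp e.symm.injective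
    have hεz : ε (DihedralGroup.r 2) = z := by
      have h1 : e ⟨z, hzA⟩ = DihedralGroup.r 2 := by
        apply dih_z
        · intro h
          have h2 : (⟨z, hzA⟩ : A) = 1 := by
            apply e.injective; rw [h, map_one]
          exact hz1 (congrArg Subtype.val h2)
        · intro g
          obtain ⟨w, rfl⟩ := e.surjective g
          rw [← map_mul, ← map_mul]
          congr 1
          exact Subtype.ext (hzc w)
      change ((e.symm (DihedralGroup.r 2) : A) : P) = z
      rw [← h1, e.symm_apply_apply]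
    let T := (Finset.univ.filter fun p : DihedralGroup 4 × DihedralGroup 4 =>
      p.1 * p.1 = p.2 * p.2 ∧ (p.2 = 1 ∨ p.2 = DihedralGroup.r 1 ∨ p.2 = DihedralGroup.sr 0 ∨ p.2 = DihedralGroup.sr 1))
    have hcomm2 : ∀ g h, ε g * φ h = φ h * ε g := fun g h => hAB _ (hεA g) _ ⟨h, rfl⟩
    have h1 : Nat.card T ≤ Nat.card {x : P // x ^ 2 = 1} := by
      apply Nat.card_le_card_of_injective (fun p : T => (⟨ε p.1.1 * φ p.1.2, by
        have hp := (Finset.mem_filter.mp p.2).2.1
        have h2 : (ε p.1.1 * φ p.1.2) ^ 2 = ε (p.1.1 * p.1.1) * φ (p.1.2 * p.1.2) := by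
          rw [map_mul, map_mul, pow_two]
          calc ε p.1.1 * φ p.1.2 * (ε p.1.1 * φ p.1.2) = ε p.1.1 * (φ p.1.2 * ε p.1.1) * φ p.1.2 := by group
            _ = ε p.1.1 * (ε p.1.1 * φ p.1.2) * φ p.1.2 := by rw [hcomm2]
            _ = _ := by group
        rw [h2, ← hp]
        rcases dih_sq p.1.1 with h3 | h3
        · rw [h3, map_one, map_one, one_mul]
        · rw [h3, hεz, hφr2, hzz]⟩ : {x : P // x ^ 2 = 1}))
      rintro ⟨⟨g, h⟩, hp⟩ ⟨⟨g', h'⟩, hp'⟩ heq
      have h2 : ε g * φ h = ε g' * φ h' := congrArg Subtype.val heq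
      have h3 : ε (g'⁻¹ * g) = φ (h' * h⁻¹) := by
        rw [map_mul, map_mul, map_inv, map_inv, inv_mul_eq_iff_eq_mul, ← mul_assoc, ← h2]; group
      have hT := (Finset.mem_filter.mp hp).2.2
      have hT' := (Finset.mem_filter.mp hp').2.2
      rcases hinter _ (hεA (g'⁻¹ * g)) ⟨_, h3.symm⟩ with h4 | h4
      · have h5 : g'⁻¹ * g = 1 := hεinj (by rw [h4, map_one])
        have h6 : h' * h⁻¹ = 1 := hφinj (by rw [← h3, h4, map_one])
        have h7 : g = g' := (inv_mul_eq_one.mp h5).symm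
        have h8 : h = h' := (mul_inv_eq_one.mp h6).symm
        subst h7; subst h8; rfl
      · exfalso
        have h6 : h' * h⁻¹ = DihedralGroup.r 2 := hφinj (by rw [← h3, h4, hφr2])
        exact transversal h h' hT hT' h6
    rw [h12, Nat.card_eq_fintype_card, Fintype.card_coe] at h1
    have h2 : T.card = 20 := card_pairs
    omega
  · exact h

end Cfsg.Agent.Lib.H50Five
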