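import Mathlib
import Cfsg.Agent.Lib.H50FiveE
import Cfsg.Agent.Lib.H50FiveF
import Cfsg.Agent.Lib.H32Cores

/-! S3106: the main theorem (helper50). -/

set_option autoImplicit false

namespace Cfsg.Agent.Lib.H50Five

open Subgroup Cfsg Cfsg.Agent.Lib.SectRank

universe u

variable {Y : Type u} [Group Y] {π : Y →* A5}

theorem mk_ab (P : Subgroup Y) [(sq P).Normal] : ∀ x ∈ P.map (QuotientGroup.mk' (sq P)),
    ∀ y ∈ P.map (QuotientGroup.mk' (sq P)), x * y = y * x := by
  rintro _ ⟨x, hx, rfl⟩ _ ⟨y, hy, rfl⟩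
  have h1 : QuotientGroup.mk' (sq P) (x * y * x⁻¹ * y⁻¹) = 1 := (QuotientGroup.eq_one_iff _).mpr (comm_mem hx hy)
  rw [map_mul, map_mul, map_mul, map_inv, map_inv, mul_inv_eq_one, mul_inv_eq_iff_eq_mul] at h1
  exact h1

theorem mk_exp (P : Subgroup Y) [(sq P).Normal] : ∀ x ∈ P.map (QuotientGroup.mk' (sq P)), x ^ 2 = 1 := by
  rintro _ ⟨x, hx, rfl⟩
  rw [← map_pow]
  exact (QuotientGroup.eq_one_iff _).mpr (sq_mem hx)

/-- the hypotheses of the situation follow from `C_Y(P) ≤ P` -/
theorem sit_of [Finite Y] (surj : Function.Surjective π) (pg : IsPGroup 2 π.ker) (rank : RankIn 2 4 (⊤ : Subgroup Y))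
    (hC : ∀ g : Y, (∀ x ∈ π.ker, g * x = x * g) → g ∈ π.ker) : Sit π := by
  have hPn : π.ker.Normal := inferInstance
  have hN := sq_normal hPn
  have F5 : Fact (Nat.Prime 5) := ⟨by norm_num⟩
  -- an element of order 5
  obtain ⟨f₀, hf0, hf1⟩ : ∃ f : Y, orderOf f = 5 ∧ π f ≠ 1 := by
    have h1 : 5 ∣ Nat.card Y := by
      have h2 : Nat.card A5 = 60 := by
        rw [Nat.card_eq_fintype_card]; decide
      have h3 : Nat.card A5 ∣ Nat.card Y := card_dvd_of_surjective π surj
      rw [h2] at h3
      exact (by norm_num : 5 ∣ 60).trans h3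
    obtain ⟨f, hf⟩ := exists_prime_orderOf_dvd_card' 5 h1
    refine ⟨f, hf, fun h3 => ?_⟩
    have h4 : f ∈ π.ker := h3
    obtain ⟨k, hk⟩ := pg ⟨f, h4⟩
    have h5 : f ^ 2 ^ k = 1 := congrArg Subtype.val hk
    have h6 := orderOf_dvd_of_pow_eq_one h5
    rw [hf] at h6
    have h7 := (Nat.Prime.dvd_of_dvd_pow (by norm_num) h6 : 5 ∣ 2)
    norm_num at h7
  set m := QuotientGroup.mk' (sq π.ker) with hm
  have mem_m : ∀ x, m x = 1 ↔ x ∈ sq π.ker := fun x => QuotientGroup.eq_one_iff x
  -- nothing outside `P` acts trivially on `P / K`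
  have key : ∀ g : Y, π g ≠ 1 → ¬ ∀ x ∈ π.ker, g * x * g⁻¹ * x⁻¹ ∈ sq π.ker := by
    intro g hg hgx
    have memR : ∀ y : Y, y ∈ (centralizer (π.ker.map m : Set (Y ⧸ sq π.ker))).comap m ↔
        ∀ x ∈ π.ker, y * x * y⁻¹ * x⁻¹ ∈ sq π.ker := by
      intro y
      rw [mem_comap, mem_centralizer_iff]
      constructor
      · intro h1 x hx
        rw [← mem_m, map_mul, map_mul, map_mul, map_inv, map_inv, ← h1 (m x) (mem_map_of_mem m hx)]
        group
      · rintro h1 _ ⟨x, hx, rfl⟩
        have h2 := (mem_m _).mpr (h1 x hx)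
        rw [map_mul, map_mul, map_mul, map_inv, map_inv, mul_inv_eq_one, mul_inv_eq_iff_eq_mul] at h2
        exact h2.symm
    have hR : ((centralizer (π.ker.map m : Set (Y ⧸ sq π.ker))).comap m).Normal := by
      have h1 : (π.ker.map m).Normal := hPn.map m (QuotientGroup.mk'_surjective _)
      infer_instance
    set R := (centralizer (π.ker.map m : Set (Y ⧸ sq π.ker))).comap m with hRdef
    have hPR : π.ker ≤ R := fun x hx => (memR x).mpr fun y hy => comm_mem hx hy
    have h1 : (R.map π).Normal := hR.map π surj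
    have hRtop : R = ⊤ := by
      rcases h1.eq_bot_or_eq_top with h2 | h2
      · exfalso
        have h3 : π g ∈ R.map π := mem_map_of_mem π ((memR g).mpr hgx)
        rw [h2, mem_bot] at h3
        exact hg h3
      · have h3 : R = (R.map π).comap π := by
          rw [comap_map_eq, sup_eq_left.mpr hPR]
        rw [h3, h2, comap_top]
    have h2 : f₀ ∈ R := by rw [hRtop]; exact mem_top f₀
    have h3 := centralizes_of_sq pg (g := f₀) (by rw [hf0]; norm_num) ((memR f₀).mp h2)
    exact hf1 (hC f₀ h3)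
  have hV16 : Nat.card (π.ker.map m) ≤ 16 := card_le_of_exp (rankIn_quot _ rank) (mk_exp π.ker)
  have hVp : IsPGroup 2 (π.ker.map m) := pg.map m
  have hall : ∀ f : Y, orderOf (π f) = 5 → Nat.card (π.ker.map m) = 16 ∧ ∀ x ∈ π.ker.map m, m f * x = x * m f → x = 1 := by
    intro f hf
    rcases five_action (f := m f) hVp hV16 (by
      rintro _ ⟨x, hx, rfl⟩
      rw [← map_inv, ← map_mul, ← map_mul]
      exact mem_map_of_mem m (hPn.conj_mem x hx f)) (by
      intro x hx
      rw [← map_pow]
      exact mk_ab π.ker _ (mem_map_of_mem m (Sit.pow_five hf)) x hx) with h | h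
    · exfalso
      apply key f
      · intro h1; rw [h1, orderOf_one] at hf; norm_num at hf
      · intro x hx
        rw [← mem_m, map_mul, map_mul, map_mul, map_inv, map_inv, h (m x) (mem_map_of_mem m hx)]
        group
    · exact h
  constructor
  · exact surj
  · exact pg
  · exact rank
  · obtain ⟨a, b, _, _, _, hab⟩ := exists_ab
    obtain ⟨f, hf⟩ := surj (a * b)
    rw [← (hall f (by rw [hf]; exact hab)).1]
    have h1 : sq π.ker = (⊥ : Subgroup (Y ⧸ sq π.ker)).comap m := by
      ext x; rw [mem_comap, mem_bot, mem_m]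
    conv_lhs => rw [h1]
    rw [relIndex_comap, relIndex_bot_left]
  · intro f hf x hx h
    rw [← mem_m]
    apply (hall f hf).2 _ (mem_map_of_mem m hx)
    have h2 := (mem_m _).mpr h
    rw [map_mul, map_mul, map_mul, map_inv, map_inv, mul_inv_eq_one, mul_inv_eq_iff_eq_mul] at h2
    exact h2

/-- if `|℧(P)| = 2`, then `Z(P) = ℧(P)` -/
theorem center_sub [Finite Y] (S : Sit π) (h2 : Nat.card (sq π.ker) = 2) :
    ∀ x ∈ π.ker, (∀ y ∈ π.ker, x * y = y * x) → x ∈ sq π.ker := by
  have hPn : π.ker.Normal := inferInstance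
  have hN := sq_normal hPn
  have hcen : ∀ k ∈ sq π.ker, ∀ g : Y, g * k = k * g := fun k hk g => central_of_two hN h2 g k hk
  set m := QuotientGroup.mk' (sq π.ker) with hm
  have mem_m : ∀ x, m x = 1 ↔ x ∈ sq π.ker := fun x => QuotientGroup.eq_one_iff x
  obtain ⟨f, hf⟩ := S.exists_f
  set R : Subgroup Y := π.ker ⊓ centralizer (π.ker : Set Y) with hR
  have hRn : R.Normal := inferInstance
  have hRP : R.map m ≤ π.ker.map m := map_mono inf_le_left
  have hPp : IsPGroup 2 (π.ker.map m) := S.pg.map m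
  have hexp : ∀ x ∈ R.map m, x ^ 2 = 1 := fun x hx => mk_exp π.ker x (hRP hx)
  rcases five_action (f := m f) (hPp.to_le hRP) (card_le_of_exp (rankIn_quot _ S.rank) hexp) (by
      rintro _ ⟨x, hx, rfl⟩
      rw [← map_inv, ← map_mul, ← map_mul]
      exact mem_map_of_mem m (hRn.conj_mem x hx f)) (by
      intro x hx
      rw [← map_pow]
      exact mk_ab π.ker _ (mem_map_of_mem m (Sit.pow_five hf)) x (hRP hx)) with h | h
  · intro x hx hxc
    apply S.five f hf x hx
    have hxR : x ∈ R := mem_inf.mpr ⟨hx, mem_centralizer_iff.mpr fun y hy => (hxc y hy).symm⟩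
    rw [← mem_m, map_mul, map_mul, map_mul, map_inv, map_inv, h (m x) (mem_map_of_mem m hxR)]
    group
  · exfalso
    -- `P` is abelian
    have h16 : Nat.card (π.ker.map m) = 16 := by
      have h1 : sq π.ker = (⊥ : Subgroup (Y ⧸ sq π.ker)).comap m := by
        ext x; rw [mem_comap, mem_bot, mem_m]
      have h3 := S.idx
      have h4 : (sq π.ker).relIndex π.ker = Nat.card (π.ker.map m) := by
        conv_lhs => rw [h1]
        rw [relIndex_comap, relIndex_bot_left]
      rw [← h4]; exact h3
    have hRP' : R.map m = π.ker.map m := eq_of_le_of_card_ge hRP (by rw [h.1, h16])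
    have hab : ∀ x ∈ π.ker, ∀ y ∈ π.ker, x * y = y * x := by
      intro x hx y hy
      have h1 : m x ∈ R.map m := by rw [hRP']; exact mem_map_of_mem m hx
      obtain ⟨r, hr, hrx⟩ := h1
      have h3 : r⁻¹ * x ∈ sq π.ker := by
        rw [← mem_m, map_mul, map_inv, hrx]; group
      have h4 : r * y = y * r := (mem_centralizer_iff.mp (mem_inf.mp hr).2 y hy).symm
      have h5 := hcen _ h3 y
      calc x * y = r * ((r⁻¹ * x) * y) := by group
        _ = r * (y * (r⁻¹ * x)) := by rw [h5]
        _ = (r * y) * (r⁻¹ * x) := by group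
        _ = y * r * (r⁻¹ * x) := by rw [h4]
        _ = y * x := by group
    let D : Subgroup Y :=
      { carrier := {x | x ∈ π.ker ∧ x ^ 2 = 1}
        one_mem' := ⟨one_mem _, by simp⟩
        mul_mem' := by
          rintro a b ⟨ha, ha2⟩ ⟨hb, hb2⟩
          refine ⟨mul_mem ha hb, ?_⟩
          have h1 := hab a ha b hb
          calc (a * b) ^ 2 = a * (b * a) * b := by simp only [pow_two]; group
            _ = a * (a * b) * b := by rw [h1]
            _ = a ^ 2 * b ^ 2 := by simp only [pow_two]; group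
            _ = 1 := by rw [ha2, hb2, one_mul]
        inv_mem' := by
          rintro a ⟨ha, ha2⟩
          refine ⟨inv_mem ha, ?_⟩
          rw [inv_pow, ha2, inv_one] }
    have hD : Nat.card D = 12 := count32 S h2
    have hDP : D ≤ π.ker := fun x hx => hx.1
    have h3 := card_dvd_of_le hDP
    have hP32 : Nat.card π.ker = 32 := by
      have h3 := relIndex_mul_relIndex (⊥ : Subgroup Y) (sq π.ker) π.ker bot_le (sq_le _)
      rw [relIndex_bot_left, relIndex_bot_left, h2, S.idx] at h3
      omega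
    rw [hD, hP32] at h3
    norm_num at h3

theorem s3106 {X : Type u} [Group X] [Finite X] (hc : Cfsg.IsPConstrained 2 X) (hO : Cfsg.oddCore X = ⊥)
    (h4 : Cfsg.SectionalPRankLE 2 4 X)
    (hQ : ∃ A : Subgroup (X ⧸ Cfsg.pCore 2 X), Nonempty (↥A ≃* ↥(alternatingGroup (Fin 5)))) :
    (Cfsg.IsElementaryAbelian 2 (Cfsg.pCore 2 X) ∧ Nat.card ↥(Cfsg.pCore 2 X) = 16) ∨
      (Nat.card ↥(Cfsg.pCore 2 X) = 32 ∧ ∃ A B : Subgroup ↥(Cfsg.pCore 2 X),
        Nonempty (↥A ≃* QuaternionGroup 2) ∧ Nonempty (↥B ≃* DihedralGroup 4) ∧ (∀ a ∈ A, ∀ b ∈ B, a * b = b * a) ∧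
          A ⊔ B = ⊤ ∧ A ⊓ B = Subgroup.center ↥(Cfsg.pCore 2 X)) := by
  have F2 : Fact (Nat.Prime 2) := ⟨Nat.prime_two⟩
  have hC := (PConstraint.isPConstrained_iff_of_pPrimeCore_eq_bot hO).mp hc
  obtain ⟨A, ⟨e⟩⟩ := hQ
  set P₀ : Subgroup X := pCore 2 X with hP₀
  have hP₀p : IsPGroup 2 P₀ := H32Cores.pCore_isPGroup 2
  let m₀ : X →* X ⧸ P₀ := QuotientGroup.mk' P₀
  let Y : Subgroup X := A.comap m₀
  let π : ↥Y →* A5 := e.toMonoidHom.comp (m₀.subgroupComap A)
  have surj : Function.Surjective π :=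
    e.surjective.comp (MonoidHom.subgroupComap_surjective_of_surjective m₀ A (QuotientGroup.mk'_surjective P₀))
  have memK : ∀ y : Y, y ∈ π.ker ↔ (y : X) ∈ P₀ := by
    intro y
    rw [MonoidHom.mem_ker]
    change e (m₀.subgroupComap A y) = 1 ↔ _
    rw [map_eq_one_iff e e.injective]
    constructor
    · intro h
      have h1 : m₀ (y : X) = 1 := congrArg Subtype.val h
      exact (QuotientGroup.eq_one_iff _).mp h1
    · intro h
      apply Subtype.ext
      exact (QuotientGroup.eq_one_iff (y : X)).mpr h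
  have hPY : P₀ ≤ Y := by
    intro x hx
    change m₀ x ∈ A
    have : m₀ x = 1 := (QuotientGroup.eq_one_iff _).mpr hx
    rw [this]; exact one_mem _
  -- the isomorphism
  let ι : ↥π.ker ≃* ↥P₀ :=
    { toFun := fun x => ⟨(x : Y), (memK x).mp x.2⟩
      invFun := fun x => ⟨⟨x, hPY x.2⟩, (memK _).mpr x.2⟩
      left_inv := fun x => rfl
      right_inv := fun x => rfl
      map_mul' := fun x y => rfl }
  have hιc : Nat.card π.ker = Nat.card P₀ := Nat.card_congr ι.toEquiv
  have pg : IsPGroup 2 π.ker := hP₀p.of_equiv ι.symm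
  have rank : RankIn 2 4 (⊤ : Subgroup Y) := by
    apply rankIn_of_sectional
    rw [sectional_subgroup_iff]
    exact (rankIn_of_sectional h4).mono le_top
  have S : Sit π := by
    apply sit_of surj pg rank
    intro g hg
    rw [memK]
    apply hC
    rw [mem_centralizer_iff]
    intro x hx
    exact (congrArg Subtype.val (hg ⟨x, hPY hx⟩ ((memK _).mpr hx))).symm
  have hb := bound _ π rfl S
  have hidx := S.idx
  have hcard := relIndex_mul_relIndex (⊥ : Subgroup Y) (sq π.ker) π.ker bot_le (sq_le _)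
  rw [relIndex_bot_left, relIndex_bot_left, hidx, hιc] at hcard
  have hpos : 0 < Nat.card (sq π.ker) := Nat.card_pos
  have hcase : Nat.card (sq π.ker) = 1 ∨ Nat.card (sq π.ker) = 2 := by omega
  rcases hcase with h1 | h1
  · left
    rw [h1] at hcard
    have hbot := eq_bot_of_card_eq _ h1
    have hexp : ∀ x ∈ P₀, x ^ 2 = 1 := by
      intro x hx
      have h2 : (⟨x, hPY hx⟩ : Y) ^ 2 ∈ sq π.ker := sq_mem ((memK _).mpr hx)
      rw [hbot, mem_bot] at h2
      exact congrArg Subtype.val h2
    refine ⟨⟨⟨⟨fun x y => Subtype.ext (comm_of_sq hexp x x.2 y y.2)⟩⟩, hexp⟩, by omega⟩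
  · right
    rw [h1] at hcard
    refine ⟨by omega, ?_⟩
    obtain ⟨z, hz, hz1, hzk⟩ := two_elts h1
    have hzP := sq_le _ hz
    apply extraspecial (z := ι ⟨z, hzP⟩)
    · omega
    · intro h
      have h2 := (map_eq_one_iff ι ι.injective).mp h
      exact hz1 (congrArg Subtype.val h2)
    · intro x
      obtain ⟨y, rfl⟩ := ι.surjective x
      rw [← map_pow]
      rcases hzk _ (sq_mem y.2) with h | h
      · left
        have : y ^ 2 = 1 := Subtype.ext h
        rw [this, map_one]
      · right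
        congr 1
        exact Subtype.ext h
    · intro x
      obtain ⟨y, rfl⟩ := ι.surjective x
      constructor
      · intro h
        have h2 := center_sub S h1 y y.2 (by
          intro w hw
          have h3 := h (ι ⟨w, hw⟩)
          rw [← map_mul, ← map_mul] at h3
          exact congrArg Subtype.val (ι.injective h3))
        rcases hzk _ h2 with h3 | h3
        · left
          have : y = 1 := Subtype.ext h3
          rw [this, map_one]
        · right
          congr 1
          exact Subtype.ext h3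
      · intro h w
        obtain ⟨v, rfl⟩ := ι.surjective w
        rw [← map_mul, ← map_mul]
        congr 1
        apply Subtype.ext
        have h2 : (y : Y) ∈ sq π.ker := by
          rcases h with h | h
          · rw [(map_eq_one_iff ι ι.injective).mp h]; exact one_mem _
          · rw [ι.injective h]; exact hz
        exact (central_of_two (sq_normal inferInstance) h1 v y h2).symm
    · rw [← count32 S h1]
      apply Nat.card_congr
      exact
        { toFun := fun x => ⟨ι.symm x.1, (ι.symm x.1).2, by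
            have h2 : (ι.symm x.1) ^ 2 = 1 := by rw [← map_pow, x.2, map_one]
            exact congrArg Subtype.val h2⟩
          invFun := fun x => ⟨ι ⟨x.1, x.2.1⟩, by
            rw [← map_pow]
            have h2 : (⟨x.1, x.2.1⟩ : π.ker) ^ 2 = 1 := Subtype.ext x.2.2
            rw [h2, map_one]⟩
          left_inv := fun x => Subtype.ext (ι.apply_symm_apply _)
          right_inv := fun x => rfl }

end Cfsg.Agent.Lib.H50Five
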