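import Cfsg.Agent.Lib.H53Deg11

/-!
Permutation groups of degree 11 (helper53), part 2: orders.
-/

set_option autoImplicit false

namespace Cfsg.Agent.Lib.H53Deg11

open MulAction
open scoped Pointwise

variable {α : Type*} [Fintype α] [DecidableEq α]

theorem card_support_involution {t : Equiv.Perm α} (ht : orderOf t = 2) :
    ∃ k, 0 < k ∧ t.support.card = 2 * k ∧ Equiv.Perm.sign t = (-1) ^ k := by
  obtain ⟨n, hn⟩ := Equiv.Perm.cycleType_prime_order (σ := t) (by rw [ht]; exact Nat.prime_two)
  rw [ht] at hn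
  have h1 : t.support.card = 2 * (n + 1) := by
    rw [← Equiv.Perm.sum_cycleType, hn, Multiset.sum_replicate, smul_eq_mul]; ring
  refine ⟨n + 1, Nat.succ_pos n, h1, ?_⟩
  rw [Equiv.Perm.sign_of_cycleType, hn, Multiset.sum_replicate, Multiset.card_replicate, smul_eq_mul,
    pow_add, mul_comm (n + 1) 2, pow_mul]
  simp

theorem card_support_prime {p : ℕ} (hp : p.Prime) {t : Equiv.Perm α} (ht : orderOf t = p) :
    ∃ k, 0 < k ∧ t.support.card = p * k := by
  obtain ⟨n, hn⟩ := Equiv.Perm.cycleType_prime_order (σ := t) (by rw [ht]; exact hp)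
  rw [ht] at hn
  refine ⟨n + 1, Nat.succ_pos n, ?_⟩
  rw [← Equiv.Perm.sum_cycleType, hn, Multiset.sum_replicate, smul_eq_mul]; ring

theorem support_le {t : Equiv.Perm α} {F : Finset α} (hF : ∀ x ∈ F, t x = x) :
    t.support.card + F.card ≤ Fintype.card α := by
  have h : t.support ⊆ Fᶜ := by
    intro x hx
    rw [Finset.mem_compl]
    intro hxF
    exact (Equiv.Perm.mem_support.mp hx) (hF x hxF)
  have h1 := Finset.card_le_card h
  rw [Finset.card_compl] at h1
  have h2 := Finset.card_le_univ F
  omega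

section

variable (X : Subgroup (Equiv.Perm α)) (hα : Fintype.card α = 11) (hX : IsPreprimitive X α)
    (h2 : Two X) (hA : ¬ alternatingGroup α ≤ X)

include hα hX h2 hA

theorem support_even {t : Equiv.Perm α} (ht : t ∈ X) (ho : orderOf t = 2) (hs : Equiv.Perm.sign t = 1) :
    t.support.card = 8 := by
  obtain ⟨k, hk0, hk, hk2⟩ := card_support_involution ho
  have h4 := no_double X hα hX h2 hA ht
  have h5 := support_le (t := t) (F := ∅) (by simp)
  rw [Finset.card_empty, hα] at h5
  have hk5 : k ≤ 5 := by omega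
  rw [hs] at hk2
  interval_cases k
  · exact absurd hk2 (by decide)
  · omega
  · exact absurd hk2 (by decide)
  · omega
  · exact absurd hk2 (by decide)

omit h2 in
theorem support_odd {t : Equiv.Perm α} (ht : t ∈ X) (ho : orderOf t = 2) (hs : Equiv.Perm.sign t = -1)
    {F : Finset α} (hF : F.card = 4) (hFt : ∀ x ∈ F, t x = x) :
    t.support.card = 6 := by
  obtain ⟨k, hk0, hk, hk2⟩ := card_support_involution ho
  have h5 := support_le (t := t) (F := F) hFt
  rw [hF, hα] at h5
  have hk5 : k ≤ 3 := by omega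
  rw [hs] at hk2
  interval_cases k
  · exact absurd (alt_of_small X hX Nat.prime_two (by omega) ht ho (by omega)) hA
  · exact absurd hk2 (by decide)
  · omega

omit h2 in
theorem support_five {t : Equiv.Perm α} (ht : t ∈ X) (ho : orderOf t = 5) :
    t.support.card = 10 := by
  obtain ⟨k, hk0, hk⟩ := card_support_prime Nat.prime_five ho
  have h5 := support_le (t := t) (F := ∅) (by simp)
  rw [Finset.card_empty, hα] at h5
  have hk5 : k ≤ 2 := by omega
  interval_cases k
  · exact absurd (alt_of_small X hX Nat.prime_five (by omega) ht ho (by omega)) hA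
  · omega

omit h2 in
theorem no_seven {t : Equiv.Perm α} (ht : t ∈ X) (ho : orderOf t = 7) : False := by
  have h5 := support_le (t := t) (F := ∅) (by simp)
  rw [Finset.card_empty, hα] at h5
  exact hA (alt_of_small X hX (by norm_num : Nat.Prime 7) (by omega) ht ho (by omega))

/-- 2-subgroups fixing two points. -/
theorem two_group (S : Subgroup (Equiv.Perm α)) (hSX : S ≤ X) (hSA : S ≤ alternatingGroup α)
    (hS : IsPGroup 2 S) {a b : α} (hab : a ≠ b) (ha : ∀ s ∈ S, s a = a) (hb : ∀ s ∈ S, s b = b) :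
    ∃ c, c ≠ a ∧ c ≠ b ∧ (∀ s ∈ S, s c = c) ∧ ∀ d, d ≠ a → d ≠ b → d ≠ c → St S d = ⊥ := by
  classical
  have hmod := hS.card_modEq_card_fixedPoints α
  rw [Nat.card_eq_fintype_card (α := α), hα] at hmod
  have hfix : ∀ x : α, x ∈ fixedPoints S α ↔ ∀ s ∈ S, s x = x := by
    intro x
    rw [mem_fixedPoints]
    exact ⟨fun h s hs => h ⟨s, hs⟩, fun h s => h s s.2⟩
  obtain ⟨c, hca, hcb, hc⟩ : ∃ c, c ≠ a ∧ c ≠ b ∧ c ∈ fixedPoints S α := by
    by_contra hcon
    push Not at hcon
    have h1 : fixedPoints S α = {a, b} := by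
      ext x
      rw [Set.mem_insert_iff, Set.mem_singleton_iff]
      constructor
      · intro hx
        by_contra h3
        push Not at h3
        exact hcon x h3.1 h3.2 hx
      · rintro (rfl | rfl)
        · exact (hfix _).mpr ha
        · exact (hfix _).mpr hb
    rw [h1, Nat.card_coe_set_eq, Set.ncard_pair hab] at hmod
    exact absurd hmod (by decide)
  refine ⟨c, hca, hcb, (hfix c).mp hc, ?_⟩
  intro d hda hdb hdc
  by_contra hne
  have hT : IsPGroup 2 (St S d) := hS.to_le inf_le_left
  obtain ⟨n, hn⟩ := hT.exists_card_eq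
  have hdvd : 2 ∣ Nat.card (St S d) := by
    rcases Nat.eq_zero_or_pos n with h0 | h0
    · exfalso
      apply hne
      rw [h0, pow_zero] at hn
      exact Subgroup.card_eq_one.mp hn
    · rw [hn]
      exact dvd_pow_self 2 (by omega)
  obtain ⟨t, ht⟩ := exists_prime_orderOf_dvd_card' 2 hdvd
  have hto : orderOf (t : Equiv.Perm α) = 2 := by rw [Subgroup.orderOf_coe, ht]
  have htS : (t : Equiv.Perm α) ∈ S := (mem_St.mp t.2).1
  have hsupp := support_even X hα hX h2 hA (hSX htS) hto (Equiv.Perm.mem_alternatingGroup.mp (hSA htS))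
  have h5 := support_le (t := (t : Equiv.Perm α)) (F := {a, b, c, d}) (by
    intro x hx
    simp only [Finset.mem_insert, Finset.mem_singleton] at hx
    rcases hx with rfl | rfl | rfl | rfl
    · exact ha _ htS
    · exact hb _ htS
    · exact (hfix _).mp hc _ htS
    · exact (mem_St.mp t.2).2)
  rw [Finset.card_insert_of_notMem, Finset.card_insert_of_notMem, Finset.card_pair hdc.symm, hα, hsupp] at h5
  · omega
  · simp [hcb.symm, hdb.symm]
  · simp [hab, hca.symm, hda.symm]

theorem two_group_card (S : Subgroup (Equiv.Perm α)) (hSX : S ≤ X) (hSA : S ≤ alternatingGroup α)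
    (hS : IsPGroup 2 S) {a b : α} (hab : a ≠ b) (ha : ∀ s ∈ S, s a = a) (hb : ∀ s ∈ S, s b = b) :
    Nat.card S ≤ 8 := by
  classical
  obtain ⟨c, hca, hcb, hc, hreg⟩ := two_group X hα hX h2 hA S hSX hSA hS hab ha hb
  obtain ⟨d, hd⟩ : ∃ d, d ∉ ({a, b, c} : Finset α) := by
    by_contra hcon
    push Not at hcon
    have h1 : (Finset.univ : Finset α) ⊆ {a, b, c} := fun x _ => hcon x
    have h3 := Finset.card_le_card h1
    rw [Finset.card_univ, hα] at h3
    have h4 := Finset.card_le_three (a := a) (b := b) (c := c)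
    omega
  simp only [Finset.mem_insert, Finset.mem_singleton, not_or] at hd
  obtain ⟨hda, hdb, hdc⟩ := hd
  have h1 := card_orbit_mul S d
  rw [hreg d hda hdb hdc, Subgroup.card_bot, mul_one] at h1
  rw [← h1]
  have h3 : orbit S d ⊆ ((({a, b, c} : Finset α)ᶜ : Finset α) : Set α) := by
    intro y hy
    obtain ⟨g, hg, rfl⟩ := mem_orbit_iff'.mp hy
    rw [Finset.mem_coe, Finset.mem_compl]
    simp only [Finset.mem_insert, Finset.mem_singleton, not_or]
    refine ⟨?_, ?_, ?_⟩
    · intro h; exact hda (g.injective (h.trans (ha g hg).symm))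
    · intro h; exact hdb (g.injective (h.trans (hb g hg).symm))
    · intro h; exact hdc (g.injective (h.trans (hc g hg).symm))
  have h4 := Set.ncard_le_ncard h3
  rw [Set.ncard_coe_finset, Finset.card_compl, hα, Finset.card_insert_of_notMem, Finset.card_pair hcb.symm] at h4
  · rw [Nat.card_coe_set_eq]; exact h4
  · simp [hab, hca.symm]

/-- Constraints on the order of a two-point stabiliser. -/
theorem card_K (hXA : X ≤ alternatingGroup α) {a b : α} (hab : a ≠ b) :
    Nat.card (St (St X a) b) ∣ 5184 ∧ ¬ 16 ∣ Nat.card (St (St X a) b) := by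
  classical
  set K := St (St X a) b with hK
  have hKX : K ≤ X := fun g hg => (mem_St.mp (mem_St.mp hg).1).1
  have hKa : ∀ g ∈ K, g a = a := fun g hg => (mem_St.mp (mem_St.mp hg).1).2
  have hKb : ∀ g ∈ K, g b = b := fun g hg => (mem_St.mp hg).2
  have hcardX : Nat.card X = 110 * Nat.card K := by
    have h1 := card_St (n := 9) hα h2 a
    have h3 := card_StSt (n := 9) hα h2 hab
    rw [h1, h3, hK]; ring
  have hnt : Nontrivial α := ⟨a, b, hab⟩
  have hdvdA : Nat.card X ∣ 19958400 := by
    have h1 := Subgroup.card_dvd_of_le hXA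
    have h3 := two_mul_nat_card_alternatingGroup (α := α)
    rw [Nat.card_perm, Nat.card_eq_fintype_card (α := α), hα] at h3
    have h4 : Nat.card (alternatingGroup α) = 19958400 := by
      have : Nat.factorial 11 = 2 * 19958400 := by decide
      omega
    rw [← h4]; exact h1
  have hK1 : Nat.card K ∣ 181440 := by
    rw [hcardX, show 19958400 = 110 * 181440 by norm_num] at hdvdA
    exact Nat.dvd_of_mul_dvd_mul_left (by norm_num) hdvdA
  have h5 : ¬ 5 ∣ Nat.card K := by
    intro h
    obtain ⟨u, hu⟩ := exists_prime_orderOf_dvd_card' (hp := ⟨Nat.prime_five⟩) 5 h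
    have huo : orderOf (u : Equiv.Perm α) = 5 := by rw [Subgroup.orderOf_coe, hu]
    have h6 := support_five X hα hX hA (hKX u.2) huo
    have h7 := support_le (t := (u : Equiv.Perm α)) (F := {a, b}) (by
      intro x hx
      simp only [Finset.mem_insert, Finset.mem_singleton] at hx
      rcases hx with rfl | rfl
      · exact hKa _ u.2
      · exact hKb _ u.2)
    rw [Finset.card_pair hab, hα, h6] at h7
    omega
  have h7 : ¬ 7 ∣ Nat.card K := by
    intro h
    obtain ⟨u, hu⟩ := exists_prime_orderOf_dvd_card' (hp := ⟨by norm_num⟩) 7 h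
    have huo : orderOf (u : Equiv.Perm α) = 7 := by rw [Subgroup.orderOf_coe, hu]
    exact no_seven X hα hX hA (hKX u.2) huo
  have hcop : Nat.Coprime (Nat.card K) 35 := by
    rw [show 35 = 5 * 7 by norm_num]
    apply Nat.Coprime.mul_right
    · exact ((Nat.Prime.coprime_iff_not_dvd Nat.prime_five).mpr h5).symm
    · exact ((Nat.Prime.coprime_iff_not_dvd (by norm_num)).mpr h7).symm
  refine ⟨?_, ?_⟩
  · rw [show 181440 = 35 * 5184 by norm_num] at hK1
    exact hcop.dvd_of_dvd_mul_left hK1
  · intro h16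
    have : Fact (Nat.Prime 2) := ⟨Nat.prime_two⟩
    obtain ⟨S, hS⟩ := Sylow.exists_subgroup_card_pow_prime (G := K) 2 (n := 4) (by simpa using h16)
    set S' := S.map K.subtype with hS'
    have hcardS' : Nat.card S' = 16 := by
      rw [hS', Nat.card_congr (S.equivMapOfInjective _ K.subtype_injective).toEquiv.symm, hS]
      norm_num
    have hS'K : S' ≤ K := by
      rintro _ ⟨x, _, rfl⟩
      exact x.2
    have hp : IsPGroup 2 S' := IsPGroup.of_card (n := 4) (by rw [hcardS']; norm_num)
    have h8 := two_group_card X hα hX h2 hA S' (hS'K.trans hKX) ((hS'K.trans hKX).trans hXA) hp hab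
      (fun s hs => hKa s (hS'K hs)) (fun s hs => hKb s (hS'K hs))
    omega

/-- The normaliser of a Sylow 11-subgroup of an even group has odd order. -/
theorem odd_normalizer (hXA : X ≤ alternatingGroup α) [IsPretransitive X α] (P : Sylow 11 X) (d : ℕ)
    (hd : Nat.card (Subgroup.normalizer ((P : Subgroup X) : Set X)) = 11 * d) : ¬ 2 ∣ d := by
  classical
  have : Fact (Nat.Prime 11) := ⟨by norm_num⟩
  intro h2d
  have h2N : 2 ∣ Nat.card (Subgroup.normalizer ((P : Subgroup X) : Set X)) := by
    rw [hd]; exact Dvd.dvd.mul_left h2d _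
  obtain ⟨t, ht⟩ := exists_prime_orderOf_dvd_card' (hp := ⟨Nat.prime_two⟩) 2 h2N
  have hto : orderOf ((t : X) : Equiv.Perm α) = 2 := by rw [Subgroup.orderOf_coe, Subgroup.orderOf_coe, ht]
  have hsupp := support_even X hα hX h2 hA (t : X).2 hto (Equiv.Perm.mem_alternatingGroup.mp (hXA (t : X).2))
  have hΩ : Nat.card α = 11 := by rw [Nat.card_eq_fintype_card, hα]
  obtain ⟨σ, hσP, e, hσ⟩ := PrimeDegree.exists_coord (G := X) hΩ P
  obtain ⟨a, b, -, hab⟩ := PrimeDegreeThree.normalizer_affine hΩ P hσP e hσ t.2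
  obtain ⟨x, y, hxy, hx, hy⟩ : ∃ x y : α, x ≠ y ∧ ((t : X) : Equiv.Perm α) x = x ∧ ((t : X) : Equiv.Perm α) y = y := by
    have h1 : 1 < (((t : X) : Equiv.Perm α).supportᶜ).card := by
      rw [Finset.card_compl, hα, hsupp]; norm_num
    obtain ⟨x, hx, y, hy, hxy⟩ := Finset.one_lt_card.mp h1
    refine ⟨x, y, hxy, ?_, ?_⟩
    · rw [Finset.mem_compl, Equiv.Perm.notMem_support] at hx; exact hx
    · rw [Finset.mem_compl, Equiv.Perm.notMem_support] at hy; exact hy
  have h1 : a * e.symm x + b = e.symm x := by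
    apply e.injective
    rw [← hab, e.apply_symm_apply]; exact hx
  have h3 : a * e.symm y + b = e.symm y := by
    apply e.injective
    rw [← hab, e.apply_symm_apply]; exact hy
  have hne : e.symm x - e.symm y ≠ 0 := by
    rw [sub_ne_zero]
    exact fun h => hxy (e.symm.injective h)
  have ha : a = 1 := by
    have h4 : (a - 1) * (e.symm x - e.symm y) = 0 := by linear_combination h1 - h3
    rcases mul_eq_zero.mp h4 with h | h
    · exact sub_eq_zero.mp h
    · exact absurd h hne
  have hb : b = 0 := by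
    rw [ha] at h1
    linear_combination h1
  have ht1 : ((t : X) : Equiv.Perm α) = 1 := by
    ext z
    have h4 := hab (e.symm z)
    rw [ha, hb, one_mul, add_zero, e.apply_symm_apply] at h4
    exact h4
  rw [ht1, orderOf_one] at hto
  omega

/-- The order of an even insoluble group of degree 11 without the alternating group. -/
theorem card_even (hXA : X ≤ alternatingGroup α) (hns : ¬ Group.IsSolvable X) :
    (Nat.card X = 660 ∨ Nat.card X = 7920) ∧
    ∀ P : Sylow 11 X, Nat.card (Subgroup.normalizer ((P : Subgroup X) : Set X)) = 55 := by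
  classical
  have : Fact (Nat.Prime 11) := ⟨by norm_num⟩
  have hΩ : Nat.card α = 11 := by rw [Nat.card_eq_fintype_card, hα]
  have htr : IsPretransitive X α := hX.toIsPretransitive
  obtain ⟨a, b, hab⟩ : ∃ a b : α, a ≠ b := by
    have : Nontrivial α := by rw [← Fintype.one_lt_card_iff_nontrivial, hα]; omega
    exact exists_pair_ne α
  obtain ⟨hk1, hk2⟩ := card_K X hα hX h2 hA hXA hab
  have hcardX : Nat.card X = 110 * Nat.card (St (St X a) b) := by
    have h1 := card_St (n := 9) hα h2 a
    have h3 := card_StSt (n := 9) hα h2 hab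
    rw [h1, h3]; ring
  set k := Nat.card (St (St X a) b) with hk
  have hmain : ∀ P : Sylow 11 X, (k = 6 ∨ k = 72) ∧
      Nat.card (Subgroup.normalizer ((P : Subgroup X) : Set X)) = 55 := by
    intro P
    obtain ⟨d, n, hd, hn, hN, hcard, hnS⟩ := PrimeDegreeNorm.card_group (p := 11) hΩ P
    have hodd := odd_normalizer X hα hX h2 hA hXA P d hN
    have hd1 : d ≠ 1 := by
      rintro rfl
      rw [mul_one] at hN
      have h11 := PrimeDegreeNorm.card_eq_of_normalizer hΩ P hN
      apply hns
      have hcyc : IsCyclic X := isCyclic_of_prime_card h11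
      let _ := hcyc.commGroup
      infer_instance
    have hd5 : d = 5 := by
      have hd' : d ≤ 10 := Nat.le_of_dvd (by norm_num) hd
      interval_cases d <;> omega
    subst hd5
    refine ⟨?_, hN⟩
    have hn2 : n = 2 * k := by omega
    have hk6 : k % 11 = 6 := by omega
    have hkmem : k ∈ Nat.divisors 5184 := Nat.mem_divisors.mpr ⟨hk1, by norm_num⟩
    have hkey : ∀ k ∈ Nat.divisors 5184, ¬ 16 ∣ k → k % 11 = 6 → k = 6 ∨ k = 72 := by
      decide +kernel
    exact hkey k hkmem hk2 hk6
  obtain ⟨P⟩ : Nonempty (Sylow 11 X) := inferInstance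
  refine ⟨?_, fun P => (hmain P).2⟩
  rcases (hmain P).1 with h | h
  · left; rw [hcardX, h]
  · right; rw [hcardX, h]

end

end Cfsg.Agent.Lib.H53Deg11
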