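import Cfsg.Agent.Lib.H53Deg11b
import Mathlib.Data.Fintype.CardEmbedding

/-!
Permutation groups of degree 11 (helper53), part 3: order 7920 and odd permutations.
-/

set_option autoImplicit false

namespace Cfsg.Agent.Lib.H53Deg11

open MulAction
open scoped Pointwise

variable {α : Type*} [Fintype α] [DecidableEq α]

section

variable (X : Subgroup (Equiv.Perm α)) (hα : Fintype.card α = 11) (hX : IsPreprimitive X α)
    (h2 : Two X) (hA : ¬ alternatingGroup α ≤ X)

include hα hX h2 hA

/-- In order 7920 some 4 points have trivial pointwise stabiliser. -/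
theorem exists_base (hXA : X ≤ alternatingGroup α) (hcard : Nat.card X = 7920) :
    ∃ a b c d : α, a ≠ b ∧ a ≠ c ∧ a ≠ d ∧ b ≠ c ∧ b ≠ d ∧ c ≠ d ∧
      ∀ g ∈ X, g a = a → g b = b → g c = c → g d = d → g = 1 := by
  classical
  obtain ⟨a, b, hab⟩ : ∃ a b : α, a ≠ b := by
    have : Nontrivial α := by rw [← Fintype.one_lt_card_iff_nontrivial, hα]; omega
    exact exists_pair_ne α
  have hK72 : ∀ x y : α, x ≠ y → Nat.card (St (St X x) y) = 72 := by
    intro x y hxy
    have h1 := card_St (n := 9) hα h2 x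
    have h3 := card_StSt (n := 9) hα h2 hxy
    rw [h3, hcard] at h1
    omega
  set K := St (St X a) b with hK
  have hKX : K ≤ X := fun g hg => (mem_St.mp (mem_St.mp hg).1).1
  have hKa : ∀ g ∈ K, g a = a := fun g hg => (mem_St.mp (mem_St.mp hg).1).2
  have hKb : ∀ g ∈ K, g b = b := fun g hg => (mem_St.mp hg).2
  have hKc : Nat.card K = 72 := hK72 a b hab
  have : Fact (Nat.Prime 2) := ⟨Nat.prime_two⟩
  obtain ⟨S, hS⟩ := Sylow.exists_subgroup_card_pow_prime (G := K) 2 (n := 3) (by rw [hKc]; norm_num)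
  set S' := S.map K.subtype with hS'
  have hcardS' : Nat.card S' = 8 := by
    rw [hS', Nat.card_congr (S.equivMapOfInjective _ K.subtype_injective).toEquiv.symm, hS]
    norm_num
  have hS'K : S' ≤ K := by
    rintro _ ⟨x, _, rfl⟩
    exact x.2
  have hp : IsPGroup 2 S' := IsPGroup.of_card (n := 3) (by rw [hcardS']; norm_num)
  obtain ⟨c, hca, hcb, hc, hreg⟩ := two_group X hα hX h2 hA S' (hS'K.trans hKX) ((hS'K.trans hKX).trans hXA) hp hab
      (fun s hs => hKa s (hS'K hs)) (fun s hs => hKb s (hS'K hs))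
  -- orbits of `S'`
  have horbS : ∀ d, d ≠ a → d ≠ b → d ≠ c → orbit S' d = ((({a, b, c} : Finset α)ᶜ : Finset α) : Set α) := by
    intro d hda hdb hdc
    have h1 := card_orbit_mul S' d
    rw [hreg d hda hdb hdc, Subgroup.card_bot, mul_one, hcardS'] at h1
    have h3 : orbit S' d ⊆ ((({a, b, c} : Finset α)ᶜ : Finset α) : Set α) := by
      intro y hy
      obtain ⟨g, hg, rfl⟩ := mem_orbit_iff'.mp hy
      rw [Finset.mem_coe, Finset.mem_compl]
      simp only [Finset.mem_insert, Finset.mem_singleton, not_or]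
      refine ⟨?_, ?_, ?_⟩
      · intro h; exact hda (g.injective (h.trans (hKa g (hS'K hg)).symm))
      · intro h; exact hdb (g.injective (h.trans (hKb g (hS'K hg)).symm))
      · intro h; exact hdc (g.injective (h.trans (hc g hg).symm))
    apply Set.eq_of_subset_of_ncard_le h3
    rw [Set.ncard_coe_finset, Finset.card_compl, hα, Finset.card_insert_of_notMem, Finset.card_pair hcb.symm]
    · rw [← Nat.card_coe_set_eq, h1]
    · simp [hab, hca.symm]
  obtain ⟨d0, hd0⟩ : ∃ d, d ∉ ({a, b, c} : Finset α) := by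
    by_contra hcon
    push Not at hcon
    have h1 : (Finset.univ : Finset α) ⊆ {a, b, c} := fun x _ => hcon x
    have h3 := Finset.card_le_card h1
    rw [Finset.card_univ, hα] at h3
    have h4 := Finset.card_le_three (a := a) (b := b) (c := c)
    omega
  -- `K` moves `c`
  have hmove : ∃ k ∈ K, k c ≠ c := by
    by_contra hcon
    push Not at hcon
    have hfixK : ∀ d, (∀ k ∈ K, k d = d) → d = a ∨ d = b ∨ d = c := by
      intro d hd
      by_contra hne
      push Not at hne
      obtain ⟨h3, h4, h5⟩ := hne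
      have h6 : St S' d = S' := by
        apply le_antisymm inf_le_left
        intro s hs
        exact ⟨hs, hd s (hS'K hs)⟩
      rw [hreg d h3 h4 h5] at h6
      rw [← h6, Subgroup.card_bot] at hcardS'
      omega
    obtain ⟨g, hg, hga, hgb⟩ := h2 a b b c hab hcb.symm
    have hKbc : K = St (St X b) c := by
      apply Subgroup.eq_of_le_of_card_ge
      · intro k hk
        exact ⟨⟨hKX hk, hKb k hk⟩, hcon k hk⟩
      · rw [hK72 b c hcb.symm, hKc]
    have hgc : g c = a := by
      have h3 := hfixK (g c) (by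
        intro k hk
        have h4 : g⁻¹ * k * g ∈ K := by
          refine ⟨⟨X.mul_mem (X.mul_mem (X.inv_mem hg) (hKX hk)) hg, ?_⟩, ?_⟩
          · show g⁻¹ (k (g a)) = a
            rw [hga, hKb k hk, ← hga]; exact ias g a
          · show g⁻¹ (k (g b)) = b
            rw [hgb, hcon k hk, ← hgb]; exact ias g b
        have h5 := hcon _ h4
        have h6 : g⁻¹ (k (g c)) = c := h5
        rw [Equiv.Perm.inv_eq_iff_eq] at h6
        exact h6)
      rcases h3 with h | h | h
      · exact h
      · exfalso; exact hca (g.injective (h.trans hga.symm))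
      · exfalso; exact hcb (g.injective (h.trans hgb.symm))
    set M : Subgroup (Equiv.Perm α) := X ⊓ MulAction.stabilizer (Equiv.Perm α) ({a, b, c} : Set α) with hM
    have hMmem : ∀ m ∈ M, ∀ z, (z = a ∨ z = b ∨ z = c) → (m z = a ∨ m z = b ∨ m z = c) := by
      intro m hm z hz
      have h3 : m • ({a, b, c} : Set α) = {a, b, c} := hm.2
      have h4 : m z ∈ m • ({a, b, c} : Set α) := ⟨z, by simpa using hz, rfl⟩
      rw [h3] at h4
      simpa using h4
    have hgM : g ∈ M := by
      refine ⟨hg, ?_⟩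
      show g • ({a, b, c} : Set α) = {a, b, c}
      rw [← Set.image_smul, Set.image_insert_eq, Set.image_insert_eq, Set.image_singleton]
      show ({g a, g b, g c} : Set α) = {a, b, c}
      rw [hga, hgb, hgc]
      ext z
      simp only [Set.mem_insert_iff, Set.mem_singleton_iff]
      tauto
    have hKM : K ≤ M := by
      intro k hk
      refine ⟨hKX hk, ?_⟩
      show k • ({a, b, c} : Set α) = {a, b, c}
      rw [← Set.image_smul, Set.image_insert_eq, Set.image_insert_eq, Set.image_singleton]
      show ({k a, k b, k c} : Set α) = {a, b, c}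
      rw [hKa k hk, hKb k hk, hcon k hk]
    have horb : orbit M a = {a, b, c} := by
      ext z
      rw [mem_orbit_iff']
      simp only [Set.mem_insert_iff, Set.mem_singleton_iff]
      constructor
      · rintro ⟨m, hm, rfl⟩
        exact hMmem m hm a (Or.inl rfl)
      · rintro (rfl | rfl | rfl)
        · exact ⟨1, M.one_mem, rfl⟩
        · exact ⟨g, hgM, hga⟩
        · exact ⟨g * g, M.mul_mem hgM hgM, by
            show g (g a) = z
            rw [hga, hgb]⟩
    have hcM := card_orbit_mul M a
    rw [horb, Nat.card_coe_set_eq] at hcM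
    have h3 : ({a, b, c} : Set α).ncard = 3 := by
      rw [show ({a, b, c} : Set α) = (({a, b, c} : Finset α) : Set α) by simp, Set.ncard_coe_finset,
        Finset.card_insert_of_notMem, Finset.card_pair hcb.symm]
      simp [hab, hca.symm]
    rw [h3] at hcM
    have h4 : K ≤ St M a := fun k hk => ⟨hKM hk, hKa k hk⟩
    have h5 := Subgroup.card_dvd_of_le h4
    rw [hKc] at h5
    have h6 : 3 * 72 ∣ Nat.card M := by rw [← hcM]; exact Nat.mul_dvd_mul_left 3 h5
    have h7 : Nat.card M ∣ Nat.card X := Subgroup.card_dvd_of_le inf_le_left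
    rw [hcard] at h7
    exact absurd (h6.trans h7) (by norm_num)
  obtain ⟨k0, hk0, hk0c⟩ := hmove
  have hd1 : k0 c ≠ a ∧ k0 c ≠ b := by
    constructor
    · intro h; exact hca (k0.injective (h.trans (hKa k0 hk0).symm))
    · intro h; exact hcb (k0.injective (h.trans (hKb k0 hk0).symm))
  have horbK : 9 ≤ Nat.card (orbit K c) := by
    have h3 : (((({a, b, c} : Finset α)ᶜ : Finset α) : Set α)) ∪ {c} ⊆ orbit K c := by
      rintro z (hz | rfl)
      · rw [← horbS (k0 c) hd1.1 hd1.2 hk0c] at hz
        obtain ⟨s, hs, rfl⟩ := mem_orbit_iff'.mp hz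
        rw [mem_orbit_iff']
        exact ⟨s * k0, K.mul_mem (hS'K hs) hk0, rfl⟩
      · exact mem_orbit_self _
    rw [Nat.card_coe_set_eq]
    refine le_trans ?_ (Set.ncard_le_ncard h3)
    rw [Set.ncard_union_eq, Set.ncard_singleton, Set.ncard_coe_finset, Finset.card_compl, hα,
      Finset.card_insert_of_notMem, Finset.card_pair hcb.symm]
    · simp [hab, hca.symm]
    · simp
  have hcK := card_orbit_mul K c
  rw [hKc] at hcK
  have hSle : S' ≤ St K c := fun s hs => ⟨hS'K hs, hc s hs⟩
  have hSeq : S' = St K c := by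
    apply Subgroup.eq_of_le_of_card_ge hSle
    rw [hcardS']
    by_contra hcon
    push Not at hcon
    have : 9 * 9 ≤ Nat.card (orbit K c) * Nat.card (St K c) := Nat.mul_le_mul horbK hcon
    omega
  simp only [Finset.mem_insert, Finset.mem_singleton, not_or] at hd0
  obtain ⟨hda, hdb, hdc⟩ := hd0
  refine ⟨a, b, c, d0, hab, hca.symm, Ne.symm hda, hcb.symm, Ne.symm hdb, Ne.symm hdc, ?_⟩
  intro g hg h3 h4 h5 h6
  have h7 : g ∈ St S' d0 := by
    rw [hSeq]
    exact ⟨⟨⟨⟨hg, h3⟩, h4⟩, h5⟩, h6⟩
  rw [hreg d0 hda hdb hdc] at h7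
  exact h7

end

omit [DecidableEq α] in
/-- Sharp 4-transitivity from order and a base. -/
theorem sharp {X : Type*} [Group X] [Finite X] [MulAction X α] (hα : Fintype.card α = 11)
    (hcard : Nat.card X = 7920)
    {a b c d : α} (hab : a ≠ b) (hac : a ≠ c) (had : a ≠ d) (hbc : b ≠ c) (hbd : b ≠ d) (hcd : c ≠ d)
    (h : ∀ g : X, g • a = a → g • b = b → g • c = c → g • d = d → g = 1) :
    MulAction.IsMultiplyPretransitive X α 4 ∧ ∀ x : Fin 4 ↪ α, MulAction.stabilizer X x = ⊥ := by
  classical
  let f : Fin 4 → α := ![a, b, c, d]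
  have hf : Function.Injective f := by
    intro i j hij
    fin_cases i <;> fin_cases j <;> simp_all [f]
  let x0 : Fin 4 ↪ α := ⟨f, hf⟩
  have hst0 : MulAction.stabilizer X x0 = ⊥ := by
    rw [eq_bot_iff]
    intro g hg
    have hg' : g • x0 = x0 := hg
    have hi : ∀ i, g • (f i) = f i := fun i => DFunLike.congr_fun hg' i
    have h1 := h g (hi 0) (hi 1) (hi 2) (hi 3)
    exact h1
  have hcard4 : Nat.card (Fin 4 ↪ α) = 7920 := by
    rw [Nat.card_eq_fintype_card, Fintype.card_embedding_eq, Fintype.card_fin, hα]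
    decide
  have horb : orbit X x0 = Set.univ := by
    rw [Set.eq_univ_iff_ncard, hcard4, ← MulAction.index_stabilizer, hst0, Subgroup.index_bot, hcard]
  have hex : ∀ x : Fin 4 ↪ α, ∃ g : X, g • x0 = x := by
    intro x
    have : x ∈ orbit X x0 := by rw [horb]; trivial
    exact this
  refine ⟨⟨fun x y => ?_⟩, fun x => ?_⟩
  · obtain ⟨g, rfl⟩ := hex x
    obtain ⟨k, rfl⟩ := hex y
    exact ⟨k * g⁻¹, by rw [mul_smul, inv_smul_smul]⟩
  · obtain ⟨g, rfl⟩ := hex x
    rw [eq_bot_iff]
    intro k hk
    have h1 : k • g • x0 = g • x0 := hk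
    have h3 : g⁻¹ * k * g ∈ MulAction.stabilizer X x0 := by
      rw [mem_stabilizer_iff, mul_smul, mul_smul, h1, inv_smul_smul]
    rw [hst0, Subgroup.mem_bot] at h3
    rw [Subgroup.mem_bot]
    have h4 : k = g * (g⁻¹ * k * g) * g⁻¹ := by group
    rw [h4, h3, mul_one, mul_inv_cancel]

omit [DecidableEq α] in
theorem stab_two {X : Type*} [Group X] [Finite X] [MulAction X α] (hα : Fintype.card α = 11)
    (hcard : Nat.card X = 15840) (htr : ∀ x y : Fin 4 ↪ α, ∃ g : X, ∀ i, g • x i = y i)
    (x : Fin 4 ↪ α) : (∃ t : X, t ≠ 1 ∧ ∀ i, t • x i = x i) ∧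
      ∀ s t : X, (∀ i, s • x i = x i) → (∀ i, t • x i = x i) → s ≠ 1 → t ≠ 1 → s = t := by
  classical
  have hcard4 : Nat.card (Fin 4 ↪ α) = 7920 := by
    rw [Nat.card_eq_fintype_card, Fintype.card_embedding_eq, Fintype.card_fin, hα]
    decide
  have hstc : Nat.card (MulAction.stabilizer X x) = 2 := by
    have h1 : orbit X x = Set.univ := by
      ext y
      simp only [Set.mem_univ, iff_true]
      obtain ⟨g, hg⟩ := htr x y
      exact ⟨g, by ext i; exact hg i⟩
    have h2 := MulAction.index_stabilizer X x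
    rw [h1, Set.ncard_univ, hcard4] at h2
    have h3 := Subgroup.card_mul_index (MulAction.stabilizer X x)
    rw [h2, hcard] at h3
    omega
  have hmem : ∀ t : X, (∀ i, t • x i = x i) → t ∈ MulAction.stabilizer X x := by
    intro t ht
    show t • x = x
    ext i
    exact ht i
  constructor
  · have h2 : Nontrivial (MulAction.stabilizer X x) := by
      rw [← Finite.one_lt_card_iff_nontrivial, hstc]; norm_num
    obtain ⟨t, ht⟩ := exists_ne (1 : MulAction.stabilizer X x)
    exact ⟨t, fun h => ht (Subtype.ext h), fun i => DFunLike.congr_fun (show (t : X) • x = x from t.2) i⟩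
  · intro s t hs ht hs1 ht1
    rw [Nat.card_eq_two_iff' (1 : MulAction.stabilizer X x)] at hstc
    obtain ⟨z, -, hz⟩ := hstc
    have h2 := hz ⟨s, hmem s hs⟩ (by simpa using hs1)
    have h3 := hz ⟨t, hmem t ht⟩ (by simpa using ht1)
    have := h2.trans h3.symm
    exact congrArg Subtype.val this

/-- A group of degree 11 and order 15840 extending a sharply 4-transitive group by an odd permutation
does not exist. -/
theorem no_odd (G : Subgroup (Equiv.Perm α)) (hα : Fintype.card α = 11) (hG : IsPreprimitive G α)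
    (hA : ¬ alternatingGroup α ≤ G)
    (hcG : Nat.card G = 15840)
    (h4 : ∀ x y : Fin 4 ↪ α, ∃ g ∈ G ⊓ alternatingGroup α, ∀ i, g (x i) = y i)
    (hst : ∀ x : Fin 4 ↪ α, ∀ g ∈ G ⊓ alternatingGroup α, (∀ i, g (x i) = x i) → g = 1) : False := by
  classical
  have htr : ∀ x y : Fin 4 ↪ α, ∃ g : G, ∀ i, g • x i = y i := by
    intro x y
    obtain ⟨g, hg, hgi⟩ := h4 x y
    exact ⟨⟨g, hg.1⟩, hgi⟩
  obtain ⟨x0⟩ : Nonempty (Fin 4 ↪ α) := by
    rw [Function.Embedding.nonempty_iff_card_le, Fintype.card_fin, hα]; norm_num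
  obtain ⟨t, htne, hfix0⟩ := (stab_two hα hcG htr x0).1
  have huniq := fun x => (stab_two hα hcG htr x).2
  have htt : t * t = 1 := by
    by_contra hne
    have h1 := huniq x0 (t * t) t (fun i => by rw [mul_smul, hfix0, hfix0]) hfix0 hne htne
    exact htne (by simpa using h1)
  have hto : orderOf (t : Equiv.Perm α) = 2 := by
    rw [Subgroup.orderOf_coe]
    exact orderOf_eq_prime (by rw [sq, htt]) htne
  have hsign : Equiv.Perm.sign (t : Equiv.Perm α) = -1 := by
    rcases Int.units_eq_one_or (Equiv.Perm.sign (t : Equiv.Perm α)) with h | h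
    · exfalso
      exact htne (Subtype.ext (hst x0 t ⟨t.2, Equiv.Perm.mem_alternatingGroup.mpr h⟩ hfix0))
    · exact h
  have hsupp : (t : Equiv.Perm α).support.card = 6 := by
    apply support_odd G hα hG hA t.2 hto hsign (F := Finset.univ.map x0)
    · rw [Finset.card_map]; simp
    · intro x hx
      obtain ⟨i, -, rfl⟩ := Finset.mem_map.mp hx
      exact hfix0 i
  set Φ : Finset α := (t : Equiv.Perm α).supportᶜ with hΦ
  have hΦc : Φ.card = 5 := by rw [hΦ, Finset.card_compl, hα, hsupp]
  have hΦm : ∀ x, x ∈ Φ ↔ (t : Equiv.Perm α) x = x := by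
    intro x
    rw [hΦ, Finset.mem_compl, Equiv.Perm.notMem_support]
  -- the centraliser of `t` in `G`
  set C : Subgroup (Equiv.Perm α) := G ⊓ Subgroup.centralizer {(t : Equiv.Perm α)} with hC
  have hCm : ∀ g, g ∈ C ↔ g ∈ G ∧ g * t = t * g := by
    intro g
    rw [hC, Subgroup.mem_inf, Subgroup.mem_centralizer_singleton_iff]
  -- every 4-subset enumeration starting at a given point
  have hemb : ∀ x ∈ Φ, ∃ f : Fin 4 ↪ α, f 0 = x ∧ ∀ i, f i ∈ Φ := by
    intro x hx
    obtain ⟨e⟩ : Nonempty (Fin 3 ↪ {y // y ∈ Φ.erase x}) := by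
      rw [Function.Embedding.nonempty_iff_card_le, Fintype.card_fin, Fintype.card_coe,
        Finset.card_erase_of_mem hx, hΦc]
      norm_num
    refine ⟨⟨Fin.cons x (fun i => (e i : α)), ?_⟩, rfl, ?_⟩
    · rw [Fin.cons_injective_iff]
      constructor
      · rintro ⟨i, hi⟩
        exact (Finset.ne_of_mem_erase (e i).2) hi
      · intro i j hij
        exact e.injective (Subtype.ext hij)
    · intro i
      refine Fin.cases ?_ (fun j => ?_) i
      · exact hx
      · exact Finset.mem_of_mem_erase (e j).2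
  have hCtr : ∀ x ∈ Φ, ∀ y ∈ Φ, ∃ g ∈ C, g x = y := by
    intro x hx y hy
    obtain ⟨f, hf0, hf⟩ := hemb x hx
    obtain ⟨f', hf0', hf'⟩ := hemb y hy
    obtain ⟨g, hgi⟩ := htr f f'
    refine ⟨g, ?_, by rw [← hf0, ← hf0']; exact hgi 0⟩
    rw [hCm]
    refine ⟨g.2, ?_⟩
    have h1 : ∀ i, t • f i = f i := fun i => (hΦm _).mp (hf i)
    have h3 : ∀ i, t • f' i = f' i := fun i => (hΦm _).mp (hf' i)
    have h5 := huniq f' (g * t * g⁻¹) t (fun i => by
      rw [mul_smul, mul_smul, ← hgi, inv_smul_smul, h1]) h3 (by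
        intro h
        apply htne
        have : t = g⁻¹ * (g * t * g⁻¹) * g := by group
        rw [this, h, mul_one, inv_mul_cancel]) htne
    have h6 : g * t = t * g := mul_inv_eq_iff_eq_mul.mp h5
    exact congrArg Subtype.val h6
  have h5C : 5 ∣ Nat.card C := by
    have hne : Φ.Nonempty := by rw [← Finset.card_pos, hΦc]; norm_num
    obtain ⟨x, hx⟩ := hne
    have h1 := card_orbit_mul C x
    have h3 : orbit C x = (Φ : Set α) := by
      ext y
      rw [mem_orbit_iff', Finset.mem_coe]
      constructor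
      · rintro ⟨g, hg, rfl⟩
        rw [hΦm]
        have h4 := ((hCm g).mp hg).2
        have h5 : g ((t : Equiv.Perm α) x) = (t : Equiv.Perm α) (g x) := DFunLike.congr_fun h4 x
        rw [← h5, (hΦm x).mp hx]
      · intro hy
        exact hCtr x hx y hy
    rw [h3, Nat.card_coe_set_eq, Set.ncard_coe_finset, hΦc] at h1
    exact Dvd.intro _ h1
  obtain ⟨u, hu⟩ := exists_prime_orderOf_dvd_card' (hp := ⟨Nat.prime_five⟩) 5 h5C
  have huo : orderOf (u : Equiv.Perm α) = 5 := by rw [Subgroup.orderOf_coe, hu]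
  obtain ⟨huG, hut⟩ := (hCm _).mp u.2
  have hus := support_five G hα hG hA huG huo
  -- `u` fixes a moved point of `t`
  have hinv : ∀ x, (t : Equiv.Perm α) x ≠ x ↔ (t : Equiv.Perm α) ((u : Equiv.Perm α) x) ≠ (u : Equiv.Perm α) x := by
    intro x
    have h5 : (u : Equiv.Perm α) ((t : Equiv.Perm α) x) = (t : Equiv.Perm α) ((u : Equiv.Perm α) x) :=
      DFunLike.congr_fun hut x
    rw [← h5]
    exact not_congr ((u : Equiv.Perm α).injective.eq_iff).symm
  have : Fact (Nat.Prime 5) := ⟨Nat.prime_five⟩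
  obtain ⟨y, hy⟩ := Equiv.Perm.exists_fixed_point_of_prime (p := 5) (n := 1)
    (α := {x // (t : Equiv.Perm α) x ≠ x}) (by
      rw [Fintype.card_subtype]
      have : (Finset.univ.filter (fun x => (t : Equiv.Perm α) x ≠ x)) = (t : Equiv.Perm α).support := by
        ext x; simp
      rw [this, hsupp]; norm_num) (σ := (u : Equiv.Perm α).subtypePerm (fun x => (hinv x).symm)) (by
        rw [pow_one]
        ext z
        rw [Equiv.Perm.subtypePerm_pow]
        have h1 : (u : Equiv.Perm α) ^ 5 = 1 := by rw [← huo, pow_orderOf_eq_one]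
        show ((u : Equiv.Perm α) ^ 5) (z : α) = (z : α)
        rw [h1]; rfl)
  have hy1 : (u : Equiv.Perm α) (y : α) = (y : α) := congrArg Subtype.val hy
  have hy2 : (u : Equiv.Perm α) ((t : Equiv.Perm α) y) = (t : Equiv.Perm α) y := by
    have h5 : (u : Equiv.Perm α) ((t : Equiv.Perm α) y) = (t : Equiv.Perm α) ((u : Equiv.Perm α) y) :=
      DFunLike.congr_fun hut (y : α)
    rw [h5, hy1]
  have h7 := support_le (t := (u : Equiv.Perm α)) (F := {(y : α), (t : Equiv.Perm α) y}) (by
      intro x hx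
      simp only [Finset.mem_insert, Finset.mem_singleton] at hx
      rcases hx with rfl | rfl
      · exact hy1
      · exact hy2)
  rw [Finset.card_pair (Ne.symm y.2), hα, hus] at h7
  omega

/-- Elementary properties of the even part. -/
theorem even_part (G : Subgroup (Equiv.Perm α)) (hα : Fintype.card α = 11) [IsPretransitive G α]
    (hns : ¬ Group.IsSolvable G) :
    IsPreprimitive (G ⊓ alternatingGroup α : Subgroup (Equiv.Perm α)) α ∧
    ¬ Group.IsSolvable (G ⊓ alternatingGroup α : Subgroup (Equiv.Perm α)) ∧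
    (G ≤ alternatingGroup α ∨ Nat.card G = 2 * Nat.card (G ⊓ alternatingGroup α : Subgroup (Equiv.Perm α))) := by
  classical
  have : Fact (Nat.Prime 11) := ⟨by norm_num⟩
  have hΩ : Nat.card α = 11 := by rw [Nat.card_eq_fintype_card, hα]
  set H := (G ⊓ alternatingGroup α : Subgroup (Equiv.Perm α)) with hH
  let φ : G →* ℤˣ := Equiv.Perm.sign.comp G.subtype
  have hker : ∀ g : G, g ∈ φ.ker ↔ (g : Equiv.Perm α) ∈ alternatingGroup α := by
    intro g
    rw [MonoidHom.mem_ker, Equiv.Perm.mem_alternatingGroup]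
    rfl
  let e : φ.ker ≃* H :=
    { toFun := fun g => ⟨g.1.1, g.1.2, (hker g.1).mp g.2⟩
      invFun := fun g => ⟨⟨g.1, g.2.1⟩, (hker _).mpr g.2.2⟩
      left_inv := fun g => rfl
      right_inv := fun g => rfl
      map_mul' := fun g h => rfl }
  have hns' : ¬ Group.IsSolvable H := by
    intro hs
    apply hns
    have hk : Group.IsSolvable φ.ker := Group.isSolvable_of_isSolvable_injective e.injective (f := e.toMonoidHom)
    exact Group.isSolvable_of_ker_le_range φ.ker.subtype φ (by simp)
  have hne : φ.ker ≠ ⊥ := by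
    intro h
    apply hns'
    have h1 : Subsingleton H := by
      constructor
      intro x y
      have h3 : ∀ z : H, z = 1 := by
        intro z
        have h4 := (Subgroup.eq_bot_iff_forall _).mp h _ (e.symm z).2
        have h5 : e.symm z = 1 := Subtype.ext h4
        rw [← e.apply_symm_apply z, h5, map_one]
      rw [h3 x, h3 y]
    infer_instance
  have htr := PrimeDegreeNorm2.transitive_of_normal (G := G) hΩ φ.ker hne
  have htrH : IsPretransitive H α := by
    constructor
    intro x y
    obtain ⟨g, hg⟩ := htr.exists_smul_eq x y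
    exact ⟨e g, hg⟩
  refine ⟨?_, hns', ?_⟩
  · apply IsPreprimitive.of_prime_card
    rw [hΩ]; norm_num
  · by_cases hle : G ≤ alternatingGroup α
    · exact Or.inl hle
    · right
      obtain ⟨g, hg, hgA⟩ := SetLike.not_le_iff_exists.mp hle
      have hsurj : Function.Surjective φ := by
        intro z
        rcases Int.units_eq_one_or z with rfl | rfl
        · exact ⟨1, map_one φ⟩
        · refine ⟨⟨g, hg⟩, ?_⟩
          rcases Int.units_eq_one_or (φ ⟨g, hg⟩) with h | h
          · exact absurd (Equiv.Perm.mem_alternatingGroup.mpr h) hgA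
          · exact h
      have h1 := Subgroup.card_mul_index φ.ker
      rw [Subgroup.index_ker, MonoidHom.range_eq_top.mpr hsurj, Nat.card_congr e.toEquiv,
        Subgroup.card_top] at h1
      rw [← h1]
      have : Nat.card ℤˣ = 2 := by simp
      rw [this]; ring

omit [DecidableEq α] in
theorem dvd_of_three {X : Type*} [Group X] [Finite X] [MulAction X α] (hα : Fintype.card α = 11)
    (h : MulAction.IsMultiplyPretransitive X α 3) : 990 ∣ Nat.card X := by
  classical
  have h1 : Nat.card (Fin 3 ↪ α) = 990 := by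
    rw [Nat.card_eq_fintype_card, Fintype.card_embedding_eq, Fintype.card_fin, hα]; decide
  obtain ⟨x0⟩ : Nonempty (Fin 3 ↪ α) := by
    rw [Function.Embedding.nonempty_iff_card_le, Fintype.card_fin, hα]; norm_num
  have h2 := MulAction.index_stabilizer_of_transitive X x0
  rw [h1] at h2
  rw [← h2]; exact Subgroup.index_dvd_card _

omit [Fintype α] [DecidableEq α] in
theorem elem_of_sharp {X : Type*} [Group X] [MulAction X α]
    (h : MulAction.IsMultiplyPretransitive X α 4) (hs : ∀ x : Fin 4 ↪ α, MulAction.stabilizer X x = ⊥) :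
    (∀ x y : Fin 4 ↪ α, ∃ g : X, ∀ i, g • x i = y i) ∧
    ∀ (x : Fin 4 ↪ α) (g : X), (∀ i, g • x i = x i) → g = 1 := by
  constructor
  · intro x y
    obtain ⟨g, hg⟩ := h.exists_smul_eq x y
    exact ⟨g, fun i => DFunLike.congr_fun hg i⟩
  · intro x g hg
    have h1 : g ∈ MulAction.stabilizer X x := by
      show g • x = x
      ext i
      exact hg i
    rw [hs x, Subgroup.mem_bot] at h1
    exact h1

/-- Main analysis. -/
theorem main (G : Subgroup (Equiv.Perm α)) (hα : Fintype.card α = 11) [IsPretransitive G α]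
    (hns : ¬ Group.IsSolvable G) (hA : ¬ alternatingGroup α ≤ G) :
    Nat.card G = 660 ∨ (MulAction.IsMultiplyPretransitive G α 4 ∧ ∀ x : Fin 4 ↪ α, MulAction.stabilizer G x = ⊥) := by
  classical
  have : Fact (Nat.Prime 11) := ⟨by norm_num⟩
  have hΩ : Nat.card α = 11 := by rw [Nat.card_eq_fintype_card, hα]
  obtain ⟨hHp, hHns, hidx⟩ := even_part G hα hns
  have hG : IsPreprimitive G α := by
    apply IsPreprimitive.of_prime_card
    rw [hΩ]; norm_num
  set H := (G ⊓ alternatingGroup α : Subgroup (Equiv.Perm α)) with hH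
  have hHA : H ≤ alternatingGroup α := inf_le_right
  have hHnA : ¬ alternatingGroup α ≤ H := fun h => hA (h.trans inf_le_left)
  have hHtr : IsPretransitive H α := hHp.toIsPretransitive
  have h2H : Two H := by
    rcases PrimeDegree.burnside (G := H) hΩ with h | h
    · exact absurd h hHns
    · exact two_of h
  obtain ⟨hcard, hN⟩ := card_even H hα hHp h2H hHnA hHA hHns
  have h7920 : Nat.card H = 7920 → ∃ a b c d : α, a ≠ b ∧ a ≠ c ∧ a ≠ d ∧ b ≠ c ∧ b ≠ d ∧ c ≠ d ∧
      ∀ g ∈ H, g a = a → g b = b → g c = c → g d = d → g = 1 :=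
    fun h => exists_base H hα hHp h2H hHnA hHA h
  rcases hidx with hle | hidx
  · have hGH : G = H := le_antisymm (le_inf le_rfl hle) inf_le_left
    rcases hcard with h | h
    · left; rw [hGH]; exact h
    · right
      obtain ⟨a, b, c, d, hab, hac, had, hbc, hbd, hcd, hb⟩ := h7920 h
      rw [← hGH] at h hb
      exact sharp hα h hab hac had hbc hbd hcd (fun g h1 h3 h4 h5 => Subtype.ext (hb g g.2 h1 h3 h4 h5))
  · exfalso
    rcases hcard with h | h
    · rw [h] at hidx
      obtain ⟨P⟩ : Nonempty (Sylow 11 G) := inferInstance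
      obtain ⟨d, n, hd, hn, hN', hcard', hnS⟩ := PrimeDegreeNorm.card_group (p := 11) hΩ P
      have hdn : d * n = 120 := by
        have : 11 * (d * n) = 11 * 120 := by rw [← mul_assoc, ← hcard', hidx]
        omega
      have hd10 : d = 10 := by
        have hd' : d ≤ 10 := Nat.le_of_dvd (by norm_num) hd
        interval_cases d <;> omega
      subst hd10
      have heven : Even (Nat.card (Subgroup.normalizer ((P : Subgroup G) : Set G))) := by
        rw [hN']; decide
      have h3t := Cfsg.Agent.Lib.PrimeDegreeThree.three_transitive_of_even hΩ hns P heven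
      have h3 : 990 ∣ Nat.card G := dvd_of_three hα h3t
      rw [hidx] at h3
      exact absurd h3 (by norm_num)
    · rw [h] at hidx
      obtain ⟨a, b, c, d, hab, hac, had, hbc, hbd, hcd, hb⟩ := h7920 h
      obtain ⟨h4, h5⟩ := sharp (X := H) hα h hab hac had hbc hbd hcd
        (fun g h1 h3 h4 h5 => Subtype.ext (hb g g.2 h1 h3 h4 h5))
      obtain ⟨h6, h7⟩ := elem_of_sharp h4 h5
      apply no_odd G hα hG hA hidx
      · intro x y
        obtain ⟨g, hg⟩ := h6 x y
        exact ⟨g, g.2, hg⟩
      · intro x g hg hgi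
        exact congrArg Subtype.val (h7 x ⟨g, hg⟩ hgi)

end Cfsg.Agent.Lib.H53Deg11
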