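import Cfsg.Agent.Lib.H64LA

/-! S3105 piece MLA: there is an involution outside the homocyclic kernel (hypotheses version). -/

set_option autoImplicit false

namespace Cfsg.Agent.Lib.H53MLA

section add
variable {A : Type*} [AddCommGroup A]

/-- additive version of independence -/
structure AI (e0 e1 e2 : A) : Prop where
  h4 : ∀ a : A, (4:ℤ) • a = 0
  i0 : (2:ℤ) • e0 ≠ 0
  i1 : (2:ℤ) • e1 ≠ 0
  i2 : (2:ℤ) • e2 ≠ 0
  i01 : (2:ℤ) • (e0 + e1) ≠ 0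
  i02 : (2:ℤ) • (e0 + e2) ≠ 0
  i12 : (2:ℤ) • (e1 + e2) ≠ 0
  i012 : (2:ℤ) • (e0 + e1 + e2) ≠ 0

theorem AI.par {e0 e1 e2 : A} (h : AI e0 e1 e2) {x y z : ℤ}
    (hz : (2:ℤ) • (x • e0 + y • e1 + z • e2) = 0) : 2 ∣ x ∧ 2 ∣ y ∧ 2 ∣ z := by
  obtain ⟨x', hx⟩ := Int.even_or_odd' x
  obtain ⟨y', hy⟩ := Int.even_or_odd' y
  obtain ⟨z', hz'⟩ := Int.even_or_odd' z
  have a0 := h.h4 e0
  have a1 := h.h4 e1
  have a2 := h.h4 e2
  rcases hx with hx | hx <;> rcases hy with hy | hy <;> rcases hz' with hz' | hz' <;>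
    subst hx <;> subst hy <;> subst hz'
  · exact ⟨⟨x', rfl⟩, ⟨y', rfl⟩, ⟨z', rfl⟩⟩
  · exfalso; apply h.i2
    calc (2:ℤ) • e2 = (2:ℤ) • ((2 * x') • e0 + (2 * y') • e1 + (2 * z' + 1) • e2) - x' • ((4:ℤ) • e0)
          - y' • ((4:ℤ) • e1) - z' • ((4:ℤ) • e2) := by module
      _ = 0 := by rw [hz, a0, a1, a2]; simp
  · exfalso; apply h.i1
    calc (2:ℤ) • e1 = (2:ℤ) • ((2 * x') • e0 + (2 * y' + 1) • e1 + (2 * z') • e2) - x' • ((4:ℤ) • e0)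
          - y' • ((4:ℤ) • e1) - z' • ((4:ℤ) • e2) := by module
      _ = 0 := by rw [hz, a0, a1, a2]; simp
  · exfalso; apply h.i12
    calc (2:ℤ) • (e1 + e2) = (2:ℤ) • ((2 * x') • e0 + (2 * y' + 1) • e1 + (2 * z' + 1) • e2) - x' • ((4:ℤ) • e0)
          - y' • ((4:ℤ) • e1) - z' • ((4:ℤ) • e2) := by module
      _ = 0 := by rw [hz, a0, a1, a2]; simp
  · exfalso; apply h.i0
    calc (2:ℤ) • e0 = (2:ℤ) • ((2 * x' + 1) • e0 + (2 * y') • e1 + (2 * z') • e2) - x' • ((4:ℤ) • e0)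
          - y' • ((4:ℤ) • e1) - z' • ((4:ℤ) • e2) := by module
      _ = 0 := by rw [hz, a0, a1, a2]; simp
  · exfalso; apply h.i02
    calc (2:ℤ) • (e0 + e2) = (2:ℤ) • ((2 * x' + 1) • e0 + (2 * y') • e1 + (2 * z' + 1) • e2) - x' • ((4:ℤ) • e0)
          - y' • ((4:ℤ) • e1) - z' • ((4:ℤ) • e2) := by module
      _ = 0 := by rw [hz, a0, a1, a2]; simp
  · exfalso; apply h.i01
    calc (2:ℤ) • (e0 + e1) = (2:ℤ) • ((2 * x' + 1) • e0 + (2 * y' + 1) • e1 + (2 * z') • e2) - x' • ((4:ℤ) • e0)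
          - y' • ((4:ℤ) • e1) - z' • ((4:ℤ) • e2) := by module
      _ = 0 := by rw [hz, a0, a1, a2]; simp
  · exfalso; apply h.i012
    calc (2:ℤ) • (e0 + e1 + e2) = (2:ℤ) • ((2 * x' + 1) • e0 + (2 * y' + 1) • e1 + (2 * z' + 1) • e2)
          - x' • ((4:ℤ) • e0) - y' • ((4:ℤ) • e1) - z' • ((4:ℤ) • e2) := by module
      _ = 0 := by rw [hz, a0, a1, a2]; simp

theorem AI.indep {e0 e1 e2 : A} (h : AI e0 e1 e2) {x y z : ℤ}
    (hz : x • e0 + y • e1 + z • e2 = 0) : 4 ∣ x ∧ 4 ∣ y ∧ 4 ∣ z := by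
  obtain ⟨⟨x', rfl⟩, ⟨y', rfl⟩, ⟨z', rfl⟩⟩ := h.par (x := x) (y := y) (z := z) (by rw [hz]; simp)
  obtain ⟨⟨x'', rfl⟩, ⟨y'', rfl⟩, ⟨z'', rfl⟩⟩ := h.par (x := x') (y := y') (z := z') (by
    rw [← hz]; module)
  exact ⟨⟨x'', by ring⟩, ⟨y'', by ring⟩, ⟨z'', by ring⟩⟩

theorem AI.gen [Finite A] {e0 e1 e2 : A} (h : AI e0 e1 e2) (hc : Nat.card A = 64) (a : A) :
    ∃ x y z : ℤ, a = x • e0 + y • e1 + z • e2 := by
  let f : Fin 4 × Fin 4 × Fin 4 → A := fun p =>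
    ((p.1 : ℕ) : ℤ) • e0 + ((p.2.1 : ℕ) : ℤ) • e1 + ((p.2.2 : ℕ) : ℤ) • e2
  have hf : Function.Injective f := by
    rintro ⟨a, b, c⟩ ⟨a', b', c'⟩ hh
    have hh' : ((a : ℕ) : ℤ) • e0 + ((b : ℕ) : ℤ) • e1 + ((c : ℕ) : ℤ) • e2
      = ((a' : ℕ) : ℤ) • e0 + ((b' : ℕ) : ℤ) • e1 + ((c' : ℕ) : ℤ) • e2 := hh
    have := h.indep (x := ((a : ℕ) : ℤ) - ((a' : ℕ) : ℤ)) (y := ((b : ℕ) : ℤ) - ((b' : ℕ) : ℤ))
      (z := ((c : ℕ) : ℤ) - ((c' : ℕ) : ℤ)) (by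
        have : (((a : ℕ) : ℤ) - ((a' : ℕ) : ℤ)) • e0 + (((b : ℕ) : ℤ) - ((b' : ℕ) : ℤ)) • e1 +
          (((c : ℕ) : ℤ) - ((c' : ℕ) : ℤ)) • e2 =
          (((a : ℕ) : ℤ) • e0 + ((b : ℕ) : ℤ) • e1 + ((c : ℕ) : ℤ) • e2) -
          (((a' : ℕ) : ℤ) • e0 + ((b' : ℕ) : ℤ) • e1 + ((c' : ℕ) : ℤ) • e2) := by module
        rw [this, hh', sub_self])
    obtain ⟨h1, h2, h3⟩ := this
    have ha := a.2; have hb := b.2; have hc := c.2
    have ha' := a'.2; have hb' := b'.2; have hc' := c'.2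
    have : (a : ℕ) = a' := by omega
    have hb2 : (b : ℕ) = b' := by omega
    have hc2 : (c : ℕ) = c' := by omega
    rw [Fin.ext this, Fin.ext hb2, Fin.ext hc2]
  have hb : Function.Bijective f := (Nat.bijective_iff_injective_and_card f).2 ⟨hf, by simp [hc]⟩
  obtain ⟨p, hp⟩ := hb.2 a
  exact ⟨_, _, _, hp.symm⟩

variable {e0 e1 e2 m : A} (φ : A →+ A)

theorem key1 [Finite A] (h : AI e0 e1 e2) (hc : Nat.card A = 64) (h0 : φ e0 = e0 + e1)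
    (h1 : φ e1 = e1 + e2) (h2 : φ e2 = e2 + m) (hm : (2:ℤ) • m = 0) (a : A) :
    (2:ℤ) • (φ (φ (φ (φ a))) - a) = 0 := by
  obtain ⟨x, y, z, rfl⟩ := h.gen hc a
  have m1 : (2:ℤ) • φ m = 0 := by rw [← map_zsmul, hm, map_zero]
  have m2 : (2:ℤ) • φ (φ m) = 0 := by rw [← map_zsmul, m1, map_zero]
  have m3 : (2:ℤ) • φ (φ (φ m)) = 0 := by rw [← map_zsmul, m2, map_zero]
  have a1 := h.h4 e1
  have a2 := h.h4 e2
  simp only [map_add, map_zsmul, h0, h1, h2]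
  have key : x • ((2:ℤ) • ((4:ℤ) • e1) + (3:ℤ) • ((4:ℤ) • e2) + (3:ℤ) • ((2:ℤ) • m) + (2:ℤ) • φ m)
      + y • ((2:ℤ) • ((4:ℤ) • e2) + (3:ℤ) • ((2:ℤ) • m) + (2:ℤ) • ((2:ℤ) • φ m) + (2:ℤ) • φ (φ m))
      + z • ((2:ℤ) • m + (2:ℤ) • φ m + (2:ℤ) • φ (φ m) + (2:ℤ) • φ (φ (φ m))) = 0 := by
    rw [a1, a2, hm, m1, m2, m3]; simp
  refine Eq.trans ?_ key
  module

theorem key2 [Finite A] (h : AI e0 e1 e2) (hc : Nat.card A = 64) (h0 : φ e0 = e0 + e1)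
    (h1 : φ e1 = e1 + e2) (h2 : φ e2 = e2 + m) (hm : (2:ℤ) • m = 0)
    (h4 : φ (φ (φ (φ e0))) = e0) : m = (2:ℤ) • e1 ∨ m = (2:ℤ) • e1 + (2:ℤ) • e2 := by
  obtain ⟨x, y, z, hxyz⟩ := h.gen hc m
  obtain ⟨⟨α, rfl⟩, ⟨β, rfl⟩, ⟨γ, rfl⟩⟩ := h.par (x := x) (y := y) (z := z) (by rw [← hxyz, hm])
  have a0 := h.h4 e0
  have a1 := h.h4 e1
  have a2 := h.h4 e2
  have am := h.h4 m
  have hφm : φ m = m + ((2 * α) • e1 + (2 * β) • e2) := by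
    calc φ m = (2 * α) • (e0 + e1) + (2 * β) • (e1 + e2) + (2 * γ) • (e2 + m) := by
          conv_lhs => rw [hxyz]
          simp only [map_add, map_zsmul, h0, h1, h2]
      _ = ((2 * α) • e0 + (2 * β) • e1 + (2 * γ) • e2) + ((2 * α) • e1 + (2 * β) • e2)
          + γ • ((2:ℤ) • m) := by module
      _ = _ := by rw [hm, ← hxyz]; simp
  simp only [map_add, h0, h1, h2] at h4
  have h5 : (0:ℤ) • e0 + (2 * α) • e1 + (2 * β + 2) • e2 = 0 := by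
    calc (0:ℤ) • e0 + (2 * α) • e1 + (2 * β + 2) • e2
        = (e0 + e1 + (e1 + e2) + (e1 + e2 + (e2 + m)) +
          (e1 + e2 + (e2 + m) + (e2 + m + (m + ((2 * α) • e1 + (2 * β) • e2))))) - e0
          - (4:ℤ) • e1 - (4:ℤ) • e2 - (4:ℤ) • m := by module
      _ = 0 := by rw [← hφm, h4, a1, a2, am]; simp
  obtain ⟨-, ⟨α', hα⟩, ⟨β', hβ⟩⟩ := h.indep h5
  have hm2 : m = (2:ℤ) • e1 + (2 * γ) • e2 := by
    calc m = (2 * α) • e0 + (2 * β) • e1 + (2 * γ) • e2 := hxyz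
      _ = (4 * α') • e0 + (4 * β' - 2) • e1 + (2 * γ) • e2 := by rw [hα, ← hβ]; congr 3; ring
      _ = α' • ((4:ℤ) • e0) + (β' - 1) • ((4:ℤ) • e1) + ((2:ℤ) • e1 + (2 * γ) • e2) := by module
      _ = _ := by rw [a0, a1]; simp
  obtain ⟨γ', hγ⟩ := Int.even_or_odd' γ
  rcases hγ with hγ | hγ
  · left
    rw [hm2, hγ]
    calc (2:ℤ) • e1 + (2 * (2 * γ')) • e2 = (2:ℤ) • e1 + γ' • ((4:ℤ) • e2) := by module
      _ = _ := by rw [a2]; simp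
  · right
    rw [hm2, hγ]
    calc (2:ℤ) • e1 + (2 * (2 * γ' + 1)) • e2 = (2:ℤ) • e1 + (2:ℤ) • e2 + γ' • ((4:ℤ) • e2) := by module
      _ = _ := by rw [a2]; simp

theorem key3 [Finite A] (h : AI e0 e1 e2) (hc : Nat.card A = 64) (h0 : φ e0 = e0 + e1)
    (h1 : φ e1 = e1 + e2) (h2 : φ e2 = e2 + ((2:ℤ) • e1 + (2:ℤ) • e2)) (a : A) (ha : φ a = a) :
    ∃ j : ℤ, a = j • (e0 + φ (φ e0)) := by
  obtain ⟨x, y, z, rfl⟩ := h.gen hc a
  have a0 := h.h4 e0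
  have a1 := h.h4 e1
  have h5 : (0:ℤ) • e0 + (x + 2 * z) • e1 + (y + 2 * z) • e2 = 0 := by
    calc (0:ℤ) • e0 + (x + 2 * z) • e1 + (y + 2 * z) • e2
        = x • (e0 + e1) + y • (e1 + e2) + z • (e2 + ((2:ℤ) • e1 + (2:ℤ) • e2))
          - (x • e0 + y • e1 + z • e2) := by module
      _ = 0 := by
        rw [← h0, ← h1, ← h2, ← map_zsmul, ← map_zsmul, ← map_zsmul, ← map_add, ← map_add, ha, sub_self]
  obtain ⟨-, ⟨x', hx⟩, ⟨y', hy⟩⟩ := h.indep h5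
  refine ⟨z, ?_⟩
  have hx' : x = 4 * x' - 2 * z := by omega
  have hy' : y = 4 * y' - 2 * z := by omega
  rw [h0, map_add, h0, h1, hx', hy']
  calc (4 * x' - 2 * z) • e0 + (4 * y' - 2 * z) • e1 + z • e2
      = z • (e0 + (e0 + e1 + (e1 + e2))) + (x' - z) • ((4:ℤ) • e0) + (y' - z) • ((4:ℤ) • e1) := by module
    _ = _ := by rw [a0, a1]; simp

end add

open Subgroup Cfsg.Agent.Lib.H64L

universe u v
variable {Y : Type u} {L : Type v} [Group Y] [Group L]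

theorem exists_inv_of [Finite Y] {π : Y →* L} {M : Subgroup Y} (H : Homo π.ker M) (N : Nat8 π M π.ker)
    (faith : ∀ g : Y, (∀ x ∈ π.ker, g * x * g⁻¹ * x⁻¹ ∈ M) → g ∈ π.ker)
    (trans : ∀ a b c a' b' c' : Y, a ∈ π.ker → b ∈ π.ker → c ∈ π.ker → a' ∈ π.ker → b' ∈ π.ker →
      c' ∈ π.ker → Ind M a b c → Ind M a' b' c' →
      ∃ g : Y, g * a * g⁻¹ * a'⁻¹ ∈ M ∧ g * b * g⁻¹ * b'⁻¹ ∈ M ∧ g * c * g⁻¹ * c'⁻¹ ∈ M)
    (exind : ∀ a ∈ π.ker, a ∉ M → ∃ b ∈ π.ker, ∃ c ∈ π.ker, Ind M a b c)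
    (det : ∀ (g e0 e1 e2 : Y) (A : Matrix (Fin 3) (Fin 3) ℕ), e0 ∈ π.ker → e1 ∈ π.ker → e2 ∈ π.ker →
      Ind M e0 e1 e2 →
      g * e0 * g⁻¹ = e0 ^ A 0 0 * e1 ^ A 1 0 * e2 ^ A 2 0 →
      g * e1 * g⁻¹ = e0 ^ A 0 1 * e1 ^ A 1 1 * e2 ^ A 2 1 →
      g * e2 * g⁻¹ = e0 ^ A 0 2 * e1 ^ A 1 2 * e2 ^ A 2 2 →
      (A.map (Nat.cast : ℕ → ZMod 4)).det = 1) : ∃ t : Y, t ^ 2 = 1 ∧ t ∉ π.ker := by
  let _i : CommGroup ↥π.ker :=
    { (inferInstance : Group ↥π.ker) with mul_comm := fun x y => Subtype.ext (H.ab _ x.2 _ y.2) }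
  obtain ⟨g', a, ha, hga⟩ := N.nt
  have haM : a ∉ M := fun h => hga (M.mul_mem (H.nM.conj_mem a h g') (M.inv_mem h))
  obtain ⟨b, hb, c, hc, hI⟩ := exind a ha haM
  have hI' : Ind M (a * b) (b * c) c := by
    obtain ⟨h1, h2, h3, h4, h5, h6, h7⟩ := hI
    have sb : b * b ∈ M := by have := H.sqE b hb; rwa [pow_two] at this
    have sc : c * c ∈ M := by have := H.sqE c hc; rwa [pow_two] at this
    have scinv := M.inv_mem sc
    have sbinv := M.inv_mem sb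
    refine ⟨h4, h6, h3, fun h => h5 ?_, h7, fun h => h2 ?_, fun h => h1 ?_⟩
    · have : a * c = (a * b * (b * c)) * (b * b)⁻¹ := by
        have e1 : b * c = c * b := H.ab _ hb _ hc
        rw [e1]
        have e2 : a * b * (c * b) = a * (b * c) * b := by group
        rw [e2, e1]; group
      rw [this]; exact M.mul_mem h sbinv
    · have : b = (b * c * c) * (c * c)⁻¹ := by group
      rw [this]; exact M.mul_mem h scinv
    · have : a = (a * b * (b * c) * c) * ((c * c)⁻¹ * (b * b)⁻¹) := by group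
      rw [this]; exact M.mul_mem h (M.mul_mem scinv sbinv)
  obtain ⟨g, t1, t2, t3⟩ := trans a b c (a * b) (b * c) c ha hb hc (π.ker.mul_mem ha hb)
    (π.ker.mul_mem hb hc) hc hI hI'
  -- the additive group
  let v : Additive ↥π.ker → Y := fun x => ((Additive.toMul x : ↥π.ker) : Y)
  have vinj : ∀ x y, v x = v y → x = y := fun x y h => by
    have := Subtype.ext (p := (· ∈ π.ker)) h
    exact this
  have vmem : ∀ x, v x ∈ π.ker := fun x => (Additive.toMul x : ↥π.ker).2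
  have v0 : v 0 = 1 := rfl
  have vadd : ∀ x y, v (x + y) = v x * v y := fun x y => rfl
  have vsub : ∀ x y, v (x - y) = v x * (v y)⁻¹ := fun x y => by
    show ((Additive.toMul (x - y) : ↥π.ker) : Y) = _
    rw [toMul_sub]; simp [v, div_eq_mul_inv]
  have vsm : ∀ (n : ℕ) x, v ((n : ℤ) • x) = v x ^ n := fun n x => by
    show ((Additive.toMul ((n : ℤ) • x) : ↥π.ker) : Y) = _
    rw [toMul_zsmul]; simp [v]
  let φ : Additive ↥π.ker →+ Additive ↥π.ker :=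
    MonoidHom.toAdditive ((MulAut.conjNormal g : MulAut ↥π.ker).toMonoidHom)
  have vφ : ∀ x, v (φ x) = g * v x * g⁻¹ := fun x => rfl
  have h2M : ∀ x, (2:ℤ) • x = 0 ↔ v x ∈ M := fun x => by
    constructor
    · intro h
      apply H.inv _ (vmem x)
      rw [← vsm 2 x]
      have : ((2:ℕ):ℤ) • x = (2:ℤ) • x := by norm_num
      rw [this, h, v0]
    · intro h
      apply vinj
      have : (2:ℤ) • x = ((2:ℕ):ℤ) • x := by norm_num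
      rw [this, vsm, H.sqM _ h, v0]
  have h4 : ∀ x : Additive ↥π.ker, (4:ℤ) • x = 0 := fun x => by
    have : (4:ℤ) • x = (2:ℤ) • ((2:ℤ) • x) := by module
    rw [this, h2M]
    have : (2:ℤ) • x = ((2:ℕ):ℤ) • x := by norm_num
    rw [this, vsm]
    exact H.sqE _ (vmem x)
  let e0 : Additive ↥π.ker := Additive.ofMul ⟨a, ha⟩
  let B : Additive ↥π.ker := Additive.ofMul ⟨b, hb⟩
  let C : Additive ↥π.ker := Additive.ofMul ⟨c, hc⟩
  have T1 : (2:ℤ) • (φ e0 - (e0 + B)) = 0 := (h2M _).2 (by rw [vsub]; exact t1)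
  have T2 : (2:ℤ) • (φ B - (B + C)) = 0 := (h2M _).2 (by rw [vsub]; exact t2)
  have T3 : (2:ℤ) • (φ C - C) = 0 := (h2M _).2 (by rw [vsub]; exact t3)
  let e1 : Additive ↥π.ker := φ e0 - e0
  let e2 : Additive ↥π.ker := φ e1 - e1
  let m : Additive ↥π.ker := φ e2 - e2
  have h0 : φ e0 = e0 + e1 := by simp [e1]
  have h1 : φ e1 = e1 + e2 := by simp [e2]
  have h2 : φ e2 = e2 + m := by simp [m]
  have s1 : (2:ℤ) • e1 = (2:ℤ) • B := by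
    have : (2:ℤ) • (φ e0 - (e0 + B)) = (2:ℤ) • e1 - (2:ℤ) • B := by rw [h0]; module
    rw [this] at T1
    exact sub_eq_zero.1 T1
  have s2 : (2:ℤ) • e2 = (2:ℤ) • C := by
    have q1 : φ ((2:ℤ) • e1) = φ ((2:ℤ) • B) := by rw [s1]
    rw [map_zsmul, map_zsmul, h1] at q1
    have q2 : (2:ℤ) • e2 = (2:ℤ) • (e1 + e2) - (2:ℤ) • e1 := by module
    have q3 : (2:ℤ) • φ B = (2:ℤ) • (φ B - (B + C)) + (2:ℤ) • B + (2:ℤ) • C := by module
    rw [q2, q1, q3, T2, s1]; abel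
  have hm : (2:ℤ) • m = 0 := by
    have q1 : φ ((2:ℤ) • e2) = φ ((2:ℤ) • C) := by rw [s2]
    rw [map_zsmul, map_zsmul, h2] at q1
    have q2 : (2:ℤ) • m = (2:ℤ) • (e2 + m) - (2:ℤ) • e2 := by module
    have q3 : (2:ℤ) • φ C = (2:ℤ) • (φ C - C) + (2:ℤ) • C := by module
    rw [q2, q1, q3, T3, s2]; abel
  have hAI : AI e0 e1 e2 := by
    obtain ⟨i1, i2, i3, i4, i5, i6, i7⟩ := hI
    have n1 : (2:ℤ) • e0 ≠ 0 := fun h => i1 ((h2M e0).1 h)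
    have n2 : (2:ℤ) • B ≠ 0 := fun h => i2 ((h2M B).1 h)
    have n3 : (2:ℤ) • C ≠ 0 := fun h => i3 ((h2M C).1 h)
    have n4 : (2:ℤ) • (e0 + B) ≠ 0 := fun h => i4 ((h2M (e0 + B)).1 h)
    have n5 : (2:ℤ) • (e0 + C) ≠ 0 := fun h => i5 ((h2M (e0 + C)).1 h)
    have n6 : (2:ℤ) • (B + C) ≠ 0 := fun h => i6 ((h2M (B + C)).1 h)
    have n7 : (2:ℤ) • (e0 + B + C) ≠ 0 := fun h => i7 ((h2M (e0 + B + C)).1 h)
    simp only [smul_add] at n4 n5 n6 n7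
    refine ⟨h4, n1, ?_, ?_, ?_, ?_, ?_, ?_⟩
    · rw [s1]; exact n2
    · rw [s2]; exact n3
    · rw [smul_add, s1]; exact n4
    · rw [smul_add, s2]; exact n5
    · rw [smul_add, s1, s2]; exact n6
    · rw [smul_add, smul_add, s1, s2]; exact n7
  have hcard : Nat.card (Additive ↥π.ker) = 64 := H.cE
  have hInd : Ind M (v e0) (v e1) (v e2) := by
    refine ⟨fun h => hAI.i0 ((h2M _).2 h), fun h => hAI.i1 ((h2M _).2 h), fun h => hAI.i2 ((h2M _).2 h),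
      fun h => hAI.i01 ((h2M (e0 + e1)).2 h), fun h => hAI.i02 ((h2M (e0 + e2)).2 h),
      fun h => hAI.i12 ((h2M (e1 + e2)).2 h), fun h => hAI.i012 ((h2M (e0 + e1 + e2)).2 h)⟩
  have hg4 : g ^ 4 ∈ π.ker := by
    apply faith
    intro x hx
    have := (h2M _).1 (key1 φ hAI hcard h0 h1 h2 hm (Additive.ofMul ⟨x, hx⟩))
    rw [vsub, vφ, vφ, vφ, vφ] at this
    have e : g ^ 4 * x * (g ^ 4)⁻¹ * x⁻¹ =
      g * (g * (g * (g * v (Additive.ofMul ⟨x, hx⟩) * g⁻¹) * g⁻¹) * g⁻¹) * g⁻¹ *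
        (v (Additive.ofMul ⟨x, hx⟩))⁻¹ := by
      show g ^ 4 * x * (g ^ 4)⁻¹ * x⁻¹ = g * (g * (g * (g * x * g⁻¹) * g⁻¹) * g⁻¹) * g⁻¹ * x⁻¹
      simp only [pow_succ, pow_zero, one_mul, mul_inv_rev, mul_assoc]
    rw [e]; exact this
  have hφ4 : φ (φ (φ (φ e0))) = e0 := by
    apply vinj
    rw [vφ, vφ, vφ, vφ]
    have e : g * (g * (g * (g * v e0 * g⁻¹) * g⁻¹) * g⁻¹) * g⁻¹ = g ^ 4 * v e0 * (g ^ 4)⁻¹ := by
      simp only [pow_succ, pow_zero, one_mul, mul_inv_rev, mul_assoc]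
    rw [e, H.ab _ hg4 _ (vmem e0)]; group
  rcases key2 φ hAI hcard h0 h1 h2 hm hφ4 with hm' | hm'
  · exfalso
    have := det g (v e0) (v e1) (v e2) !![1, 0, 0; 1, 1, 2; 0, 1, 1] (vmem _) (vmem _) (vmem _) hInd
      (by rw [← vφ, h0, vadd]; simp) (by rw [← vφ, h1, vadd]; simp)
      (by
        rw [← vφ, h2, hm']
        have : (2:ℤ) • e1 = ((2:ℕ):ℤ) • e1 := by norm_num
        rw [this, add_comm, vadd, vsm]; simp)
    revert this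
    decide
  · have hc4 : φ (Additive.ofMul ⟨g ^ 4, hg4⟩) = Additive.ofMul ⟨g ^ 4, hg4⟩ := by
      apply vinj
      rw [vφ]
      show g * g ^ 4 * g⁻¹ = g ^ 4
      group
    obtain ⟨j, hj⟩ := key3 φ hAI hcard h0 h1 (by rw [h2, hm']) _ hc4
    have hj' : v (j • (e0 + φ (φ e0))) = g ^ 4 := by rw [← hj]; rfl
    refine ⟨v (-(j • e0)) * g ^ 2, ?_, fun h => ?_⟩
    · have e : (v (-(j • e0)) * g ^ 2) ^ 2 =
          v (-(j • e0)) * (g * (g * v (-(j • e0)) * g⁻¹) * g⁻¹) * g ^ 4 := by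
        rw [pow_two (v (-(j • e0)) * g ^ 2)]
        simp only [pow_succ, pow_zero, one_mul, mul_assoc, inv_mul_cancel_left, inv_mul_cancel, mul_one]
      rw [e, ← vφ, ← vφ, ← hj', ← vadd, ← vadd, ← v0]
      congr 1
      rw [map_neg, map_neg, map_zsmul, map_zsmul]
      module
    · have hg2 : g ^ 2 ∈ π.ker := by
        have := π.ker.mul_mem (π.ker.inv_mem (vmem (-(j • e0)))) h
        rwa [inv_mul_cancel_left] at this
      have hφ2 : φ (φ e0) = e0 := by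
        apply vinj
        rw [vφ, vφ]
        have e : g * (g * v e0 * g⁻¹) * g⁻¹ = g ^ 2 * v e0 * (g ^ 2)⁻¹ := by
          simp only [pow_succ, pow_zero, one_mul, mul_inv_rev, mul_assoc]
        rw [e, H.ab _ hg2 _ (vmem e0)]; group
      rw [h0, map_add, h0, h1] at hφ2
      have h5 : (0:ℤ) • e0 + (2:ℤ) • e1 + (1:ℤ) • e2 = 0 := by
        calc (0:ℤ) • e0 + (2:ℤ) • e1 + (1:ℤ) • e2 = (e0 + e1 + (e1 + e2)) - e0 := by module
          _ = 0 := by rw [hφ2, sub_self]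
      have := (hAI.indep h5).2.2
      omega

end Cfsg.Agent.Lib.H53MLA
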