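import Cfsg.Agent.Lib.H64LA

/-! S3105: `hom_trivial` and the modules of the situation `C48` (helper64). -/

set_option autoImplicit false

namespace Cfsg.Agent.Lib.H64L

open Subgroup Cfsg Cfsg.Agent.Lib.SectRank Cfsg.Agent.Lib.H50Five

universe u v
variable {Y : Type u} {L : Type v} [Group Y] [Group L]

theorem IsL.hom_trivial (hL : IsL L) {C : Type*} [CommGroup C] (χ : L →* C) (g : L) : χ g = 1 := by
  have := hL.simple
  have hf : Finite L := Nat.finite_of_card_ne_zero (by rw [hL.card]; norm_num)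
  rcases (inferInstance : χ.ker.Normal).eq_bot_or_eq_top with h | h
  · exfalso
    have hinj : Function.Injective χ := (MonoidHom.ker_eq_bot_iff χ).mp h
    have hcomm : ∀ a b : L, a * b = b * a := by
      intro a b
      apply hinj
      rw [map_mul, map_mul, mul_comm]
    let _ : CommGroup L := { (inferInstance : Group L) with mul_comm := hcomm }
    have hp := IsSimpleGroup.prime_card (α := L)
    rw [hL.card] at hp
    exact absurd hp (by norm_num)
  · have : g ∈ χ.ker := by rw [h]; exact mem_top g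
    exact this

/-- a homomorphism from `Y` to a commutative group that is trivial on `ker π` is trivial. -/
theorem IsL.hom_trivial' (hL : IsL L) {π : Y →* L} (hs : Function.Surjective π) {C : Type*} [CommGroup C] (χ : Y →* C)
    (h : ∀ p ∈ π.ker, χ p = 1) (g : Y) : χ g = 1 := by
  have h1 : π.ker ≤ χ.ker := fun p hp => h p hp
  let χ' : L →* C := (QuotientGroup.lift π.ker χ h1).comp (QuotientGroup.quotientKerEquivOfSurjective π hs).symm.toMonoidHom
  have h2 := hL.hom_trivial χ' (π g)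
  have h3 : (QuotientGroup.quotientKerEquivOfSurjective π hs).symm (π g) = (g : Y ⧸ π.ker) := by
    rw [MulEquiv.symm_apply_eq]; rfl
  change (QuotientGroup.lift π.ker χ h1) ((QuotientGroup.quotientKerEquivOfSurjective π hs).symm (π g)) = 1 at h2
  rw [h3] at h2
  exact h2

theorem mem_zpowers_m {m : Y} (h : m ^ 2 = 1) (x : Y) : x ∈ zpowers m ↔ x = 1 ∨ x = m := H50Five.mem_zpowers_two h x

section
variable {π : Y →* L} {Ω : Subgroup Y} {m : Y}

theorem C48.m2 (C : C48 π Ω m) : m ^ 2 = 1 := C.sqΩ m C.mΩ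

theorem C48.memM (C : C48 π Ω m) (x : Y) : x ∈ zpowers m ↔ x = 1 ∨ x = m := mem_zpowers_m C.m2 x

theorem C48.cardM (C : C48 π Ω m) : Nat.card (zpowers m) = 2 := by
  rw [Nat.card_zpowers]
  exact orderOf_eq_prime C.m2 C.m1

theorem C48.nM (C : C48 π Ω m) : (zpowers m).Normal := by
  constructor
  intro x hx g
  rw [C.memM] at hx ⊢
  rcases hx with rfl | rfl
  · left; simp
  · right; rw [C.mc g]; group

theorem C48.sqM (C : C48 π Ω m) {x : Y} (hx : x ∈ π.ker) : x ^ 2 ∈ zpowers m := by
  by_cases h : x ∈ Ω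
  · rw [C.sqΩ x h]; exact one_mem _
  · rw [C.sqP x hx h]; exact mem_zpowers m

theorem C48.nat16 (C : C48 π Ω m) : Nat16 π (zpowers m) π.ker where
  nK := C.nM
  nW := inferInstance
  le := by
    intro x hx
    rw [C.memM] at hx
    rcases hx with rfl | rfl
    · exact one_mem _
    · exact C.le C.mΩ
  card := by rw [C.cP, C.cardM]
  sq := fun x hx => C.sqM hx
  triv := by
    intro p hp x hx
    rw [C.ab p hp x hx]
    simp
  nt := by
    obtain ⟨g, x, hx, h1, h2⟩ := C.nt
    refine ⟨g, x, hx, ?_⟩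
    rw [C.memM]
    rintro (h | h)
    · exact h1 h
    · exact h2 h

theorem C48.nat8 (hL : IsL L) (C : C48 π Ω m) : Nat8 π (zpowers m) Ω where
  nK := C.nM
  nW := C.nΩ
  le := by
    intro x hx
    rw [C.memM] at hx
    rcases hx with rfl | rfl
    · exact one_mem _
    · exact C.mΩ
  card := by rw [C.cΩ, C.cardM]
  sq := by
    intro x hx
    rw [C.sqΩ x hx]; exact one_mem _
  triv := by
    intro p hp x hx
    rw [C.ab p hp x (C.le hx)]
    simp
  nt := by
    by_contra hcon
    push Not at hcon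
    obtain ⟨g, x, hx, h1, h2⟩ := C.nt
    have hnM := C.nM
    -- `x ∉ Ω`
    have hxΩ : x ∉ Ω := by
      intro h
      rcases (C.memM _).mp (hcon g x h) with h3 | h3
      · exact h1 h3
      · exact h2 h3
    have hcomm : ∀ y : Y, y * x * y⁻¹ * x⁻¹ ∈ Ω := by
      intro y
      -- `Ω` has index 2 in `ker π`
      by_contra hy
      have hyx : y * x * y⁻¹ ∈ π.ker := (inferInstance : π.ker.Normal).conj_mem x hx y
      have hyΩ : y * x * y⁻¹ ∉ Ω := by
        intro h
        have := C.nΩ.conj_mem _ h y⁻¹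
        have h5 : y⁻¹ * (y * x * y⁻¹) * y⁻¹⁻¹ = x := by group
        rw [h5] at this
        exact hxΩ this
      have hidx : Ω.relIndex π.ker = 2 := by
        have h5 := relIndex_mul_relIndex (⊥ : Subgroup Y) Ω π.ker bot_le C.le
        rw [relIndex_bot_left, relIndex_bot_left, C.cΩ, C.cP] at h5
        omega
      have h6 : (Ω.subgroupOf π.ker).index = 2 := hidx
      have h7 := (Subgroup.mul_mem_iff_of_index_two h6 (a := ⟨_, hyx⟩) (b := ⟨x⁻¹, inv_mem hx⟩))
      have h8 : (⟨_, hyx⟩ * ⟨x⁻¹, inv_mem hx⟩ : π.ker) ∈ Ω.subgroupOf π.ker := by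
        rw [h7]
        rw [mem_subgroupOf, mem_subgroupOf]
        constructor
        · intro h; exact absurd h hyΩ
        · intro h; exact absurd ((inv_mem_iff).mp h) hxΩ
      exact hy h8
    -- the homomorphism `y ↦ [y, x]` mod `⟨m⟩`
    have hab : ∀ a ∈ Ω, ∀ b ∈ Ω, a * b = b * a := fun a ha b hb => C.ab a (C.le ha) b (C.le hb)
    let Q := ↥Ω ⧸ (zpowers m).subgroupOf Ω
    have hQ : ∀ a b : Q, a * b = b * a := by
      intro a b
      induction a using QuotientGroup.induction_on with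
      | H a =>
        induction b using QuotientGroup.induction_on with
        | H b =>
          rw [← QuotientGroup.mk_mul, ← QuotientGroup.mk_mul]
          congr 1
          exact Subtype.ext (hab a a.2 b b.2)
    let _ : CommGroup Q := { (inferInstance : Group Q) with mul_comm := hQ }
    let χ : Y →* Q :=
      MonoidHom.mk' (fun y => ((⟨y * x * y⁻¹ * x⁻¹, hcomm y⟩ : Ω) : Q)) (by
        intro a b
        rw [← QuotientGroup.mk_mul]
        rw [QuotientGroup.eq, mem_subgroupOf]
        change (a * b * x * (a * b)⁻¹ * x⁻¹)⁻¹ * ((a * x * a⁻¹ * x⁻¹) * (b * x * b⁻¹ * x⁻¹)) ∈ zpowers m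
        have h9 := hcon a _ (hcomm b)
        set k := b * x * b⁻¹ * x⁻¹ with hk
        have h10 : a * b * x * (a * b)⁻¹ * x⁻¹ = (a * k * a⁻¹ * k⁻¹) * (k * (a * x * a⁻¹ * x⁻¹)) := by
          rw [hk]; group
        rw [h10, hab k (hcomm b) _ (hcomm a)]
        have h11 : ((a * k * a⁻¹ * k⁻¹) * ((a * x * a⁻¹ * x⁻¹) * k))⁻¹ * ((a * x * a⁻¹ * x⁻¹) * k) =
            ((a * x * a⁻¹ * x⁻¹) * k)⁻¹ * (a * k * a⁻¹ * k⁻¹)⁻¹ * ((a * x * a⁻¹ * x⁻¹) * k) := by group
        rw [h11]
        have := hnM.conj_mem _ (inv_mem h9) ((a * x * a⁻¹ * x⁻¹) * k)⁻¹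
        simpa using this)
    have h12 := hL.hom_trivial' C.surj χ (by
      intro p hp
      change ((⟨p * x * p⁻¹ * x⁻¹, hcomm p⟩ : Ω) : Q) = 1
      rw [QuotientGroup.eq_one_iff, mem_subgroupOf]
      change p * x * p⁻¹ * x⁻¹ ∈ zpowers m
      rw [C.ab p hp x hx]
      simp) g
    change ((⟨g * x * g⁻¹ * x⁻¹, hcomm g⟩ : Ω) : Q) = 1 at h12
    rw [QuotientGroup.eq_one_iff, mem_subgroupOf] at h12
    rcases (C.memM _).mp h12 with h3 | h3
    · exact h1 h3
    · exact h2 h3

end

end Cfsg.Agent.Lib.H64L
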