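import Cfsg.Agent.Lib.H53MLA
import Cfsg.Agent.Lib.H64LN
import Cfsg.Agent.Lib.H64LC

/-! S3105 piece MLA: `exists_inv` from the statement of `exists_det`. -/

set_option autoImplicit false

namespace Cfsg.Agent.Lib.H64L

open Subgroup

universe u v
variable {Y : Type u} {L : Type v} [Group Y] [Group L]

/-- `exists_inv`, with the conclusion of `exists_det` (piece DET) as the hypothesis `hdet` -/
theorem exists_inv_of_det [Finite Y] (hL : IsL L) {π : Y →* L} (hs : Function.Surjective π) {M : Subgroup Y}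
    (H : Homo π.ker M) (N : Nat8 π M π.ker)
    (hdet : ∃ χ : Y →* (ZMod 4)ˣ,
      (∀ e ∈ π.ker, χ e = 1) ∧ (∀ z : Y, (∀ x ∈ π.ker, z * x * z⁻¹ = x⁻¹) → χ z = -1) ∧
      (∀ (g e0 e1 e2 : Y) (A : Matrix (Fin 3) (Fin 3) ℕ), e0 ∈ π.ker → e1 ∈ π.ker → e2 ∈ π.ker → Ind M e0 e1 e2 →
        g * e0 * g⁻¹ = e0 ^ A 0 0 * e1 ^ A 1 0 * e2 ^ A 2 0 → g * e1 * g⁻¹ = e0 ^ A 0 1 * e1 ^ A 1 1 * e2 ^ A 2 1 →
        g * e2 * g⁻¹ = e0 ^ A 0 2 * e1 ^ A 1 2 * e2 ^ A 2 2 →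
        (χ g : ZMod 4) = (A.map (Nat.cast : ℕ → ZMod 4)).det)) :
    ∃ t : Y, t ^ 2 = 1 ∧ t ∉ π.ker := by
  obtain ⟨χ, hχ, -, hd⟩ := hdet
  refine H53MLA.exists_inv_of H N (fun g h => N.faithful hL hs h)
    (fun a b c a' b' c' ha hb hc ha' hb' hc' h h' => N.trans hL hs ha hb hc ha' hb' hc' h h')
    (fun a ha h => N.exists_ind ha h) ?_
  intro g e0 e1 e2 A h0 h1 h2 hI k0 k1 k2
  rw [← hd g e0 e1 e2 A h0 h1 h2 hI k0 k1 k2, hL.hom_trivial' hs χ (fun x hx => hχ x (by simpa using hx)) g]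
  rfl

end Cfsg.Agent.Lib.H64L
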