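import Cfsg.Agent.Lib.RankTwoNilp
import Cfsg.Agent.Lib.NarrowIff
import Cfsg.Agent.Lib.FaithfulAction
import Cfsg.Agent.S1454
import Cfsg.Agent.Lib.ThompsonJ

/-! S1456: `G' ≤ F(G)` when `F(G) ∩ C(E)` has rank at most two (helper56). -/

set_option autoImplicit false

namespace Cfsg.Agent.Lib.H56Fit

open Subgroup Cfsg Cfsg.Agent.Lib.RankTwoNilp Cfsg.Agent.Lib
open scoped commutatorElement
open Cfsg.Agent.Lib.PGroupOdd Cfsg.Agent.Lib.PGroupRank Cfsg.Agent.Lib.CriticalOdd
open Cfsg.Agent.Lib.Fitting Cfsg.Agent.Lib.RankTwoSolv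

universe u

theorem commutator_le_fitting_of_core {G : Type u} [Group G] [Finite G] [Group.IsSolvable G]
    (hcore : ∀ p : Nat.Primes, ∀ z ∈ commutator G, (orderOf z).Coprime p →
      z ∈ centralizer ((pCore (p : ℕ) G : Subgroup G) : Set G)) :
    commutator G ≤ fittingSubgroup G := by
  apply le_of_primePow
  intro q hq x hx hxq
  have hqf : Fact q.Prime := ⟨hq⟩
  -- the normal subgroup `N`
  obtain ⟨N, hN⟩ : ∃ N : Subgroup G, N = commutator G ⊓
      ⨅ p : {p : Nat.Primes // (p : ℕ) ≠ q}, centralizer ((pCore (p : ℕ) G : Subgroup G) : Set G) :=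
    ⟨_, rfl⟩
  have hNmem : ∀ z, z ∈ N ↔ z ∈ commutator G ∧ ∀ p : Nat.Primes, (p : ℕ) ≠ q →
      z ∈ centralizer ((pCore (p : ℕ) G : Subgroup G) : Set G) := by
    intro z
    rw [hN, mem_inf, mem_iInf]
    exact ⟨fun h => ⟨h.1, fun p hp => h.2 ⟨p, hp⟩⟩, fun h => ⟨h.1, fun p => h.2 p.1 p.2⟩⟩
  have hNn : N.Normal := by
    refine ⟨fun z hz g => ?_⟩
    rw [hNmem] at hz ⊢
    refine ⟨(inferInstance : (commutator G).Normal).conj_mem z hz.1 g, fun p hp => ?_⟩
    have hRn := normal_pCore (p : ℕ) (G := G)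
    have : (centralizer ((pCore (p : ℕ) G : Subgroup G) : Set G)).Normal := inferInstance
    exact this.conj_mem z (hz.2 p hp) g
  have hxN : x ∈ N := by
    rw [hNmem]
    refine ⟨hx, fun p hp => hcore p x hx ?_⟩
    obtain ⟨k, hk⟩ := hxq
    exact Nat.Coprime.coprime_dvd_left (orderOf_dvd_of_pow_eq_one hk)
      (Nat.Coprime.pow_left k ((Nat.coprime_primes hq p.2).mpr hp.symm))
  -- elements of order prime to `q` of `N` are central in `N`
  have hcen : ∀ z ∈ N, (orderOf z).Coprime q → ∀ y ∈ N, y * z = z * y := by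
    intro z hz hzq y hy
    have hzF : z ∈ fittingSubgroup G := by
      apply centralizer_fittingSubgroup_le
      rw [← zpowers_le, le_centralizer_iff, fittingSubgroup_eq_iSup_pCore]
      apply iSup_le
      intro p
      rw [← le_centralizer_iff, zpowers_le]
      by_cases hp : (p : ℕ) = q
      · exact hcore p z ((hNmem z).mp hz).1 (by rw [hp]; exact hzq)
      · exact ((hNmem z).mp hz).2 p hp
    have h1 : zpowers z ≤ centralizer (N : Set G) := by
      apply le_of_primePow
      intro r hr' w hw hwr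
      have hrf : Fact r.Prime := ⟨hr'⟩
      obtain ⟨k, hk⟩ := hwr
      by_cases hrq : r = q
      · have h1 : orderOf w ∣ r ^ k := orderOf_dvd_of_pow_eq_one hk
        have h2 : orderOf w ∣ orderOf z := by
          rw [← Nat.card_zpowers z]
          exact Subgroup.orderOf_dvd_natCard _ hw
        have h3 : orderOf w = 1 := Nat.eq_one_of_dvd_coprimes
          (Nat.Coprime.pow_right k (by rw [hrq]; exact hzq)) h2 h1
        rw [orderOf_eq_one_iff.mp h3]
        exact one_mem _
      · have hwF : w ∈ fittingSubgroup G := (zpowers_le.mpr hzF) hw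
        have hwR := mem_pCore_of_mem_fitting hwF hk
        rw [mem_centralizer_iff]
        intro y hy
        have h4 := ((hNmem y).mp hy).2 ⟨r, hr'⟩ hrq
        exact (mem_centralizer_iff.mp h4 w hwR).symm
    exact mem_centralizer_iff.mp (h1 (mem_zpowers z)) y hy
  -- `N` is nilpotent
  have hNnil : Group.IsNilpotent N := by
    apply Group.of_quotient_center_nilpotent
    have hp : IsPGroup q (N ⧸ center N) := by
      intro y
      obtain ⟨y, rfl⟩ := QuotientGroup.mk_surjective y
      obtain ⟨k, hk⟩ := PNilp.exists_pow_coprime q y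
      refine ⟨k, ?_⟩
      rw [← QuotientGroup.mk_pow, QuotientGroup.eq_one_iff, mem_center_iff]
      intro w
      apply Subtype.ext
      have h1 : (orderOf ((y ^ q ^ k : N) : G)).Coprime q := by
        rw [Subgroup.orderOf_coe]; exact hk
      exact hcen _ (y ^ q ^ k : N).2 h1 w w.2
    exact hp.isNilpotent
  exact le_fittingSubgroup hNn hNnil hxN

/-- the action of the derived group on a narrow normal `p`-subgroup. -/
theorem mem_centralizer_of_narrow {G : Type u} [Group G] [Finite G] [hs : Group.IsSolvable G] {p : ℕ}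
    [hp : Fact p.Prime] (hodd : Odd (Nat.card G)) (hp2 : p ≠ 2) {R : Subgroup G} [R.Normal] (hR : IsPGroup p R)
    (hn : IsNarrow p R) {z : G} (hz : z ∈ commutator G) (hzp : (orderOf z).Coprime p) :
    z ∈ centralizer (R : Set G) := by
  obtain ⟨Γ, _, _, R', A', e, f, hf, hA', hA'C, hfk, -⟩ := FaithfulAction.exists_realization R ⊤
    (by rw [normalizer_eq_top])
  let f' : G →* A' := f.comp (Subgroup.topEquiv (G := G)).symm.toMonoidHom
  have hf' : Function.Surjective f' := hf.comp (Subgroup.topEquiv (G := G)).symm.surjective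
  have hAs : Group.IsSolvable A' := Group.isSolvable_of_surjective hf'
  have hAodd : Odd (Nat.card A') := Odd.of_dvd_nat hodd (Subgroup.card_dvd_of_surjective f' hf')
  have hR' : IsPGroup p R' := hR.of_equiv e
  have hn' : IsNarrow p R' := (NarrowIff.isNarrow_congr e).1 hn
  have h := (Cfsg.Agent.S1454.result p hp2 R' A' hR' hn' hA' hAs hAodd hA'C).1.1
  have h1 : f' z ∈ commutator A' := by
    have h2 : (commutator G).map f' ≤ commutator A' := by
      rw [commutator_def, Subgroup.map_commutator, commutator_def]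
      exact commutator_mono le_top le_top
    exact h2 ⟨z, hz, rfl⟩
  have h2 := h h1
  obtain ⟨k, hk⟩ := (isPGroup_pCore p (G := A')) ⟨_, h2⟩
  have hk' : (f' z) ^ p ^ k = 1 := congrArg Subtype.val hk
  have h3 : orderOf (f' z) ∣ p ^ k := orderOf_dvd_of_pow_eq_one hk'
  have h4 : orderOf (f' z) ∣ orderOf z := orderOf_map_dvd f' z
  have h5 : orderOf (f' z) = 1 := Nat.eq_one_of_dvd_coprimes (Nat.Coprime.pow_right k hzp) h4 h3
  have h6 : f' z = 1 := orderOf_eq_one_iff.1 h5
  have h7 := (hfk ((Subgroup.topEquiv (G := G)).symm z)).1 h6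
  exact h7

theorem isNarrow_pCore {G : Type u} [Group G] [Finite G] {p : ℕ} [hp : Fact p.Prime] (hp2 : p ≠ 2)
    {R E : Subgroup G} (hR : IsPGroup p R) (hER : E ≤ R) (hE : IsElementaryAbelian p E)
    (hr : PRankLE p 2 ↥(R ⊓ centralizer (E : Set G))) : IsNarrow p R := by
  by_cases hrR : PRankLE p 2 R
  · exact Or.inl hrR
  have hE' : IsElementaryAbelian p (E.subgroupOf R) := by
    refine ⟨⟨⟨fun a b => ?_⟩⟩, fun a ha => ?_⟩
    · apply Subtype.ext
      apply Subtype.ext
      have h5 : ((⟨_, a.2⟩ : E) * ⟨_, b.2⟩ : E) = (⟨_, b.2⟩ : E) * ⟨_, a.2⟩ := hE.1.is_comm.comm _ _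
      have h6 := congrArg Subtype.val h5
      exact h6
    · exact Subtype.ext (hE.2 a ha)
  obtain ⟨B, hEB, hB⟩ := (Set.toFinite {A : Subgroup R | IsElementaryAbelian p A}).exists_le_maximal
    (show E.subgroupOf R ∈ {A : Subgroup R | IsElementaryAbelian p A} from hE')
  have hBe : IsElementaryAbelian p B := hB.prop
  have hBmax : ∀ A : Subgroup R, IsElementaryAbelian p A → B ≤ A → A = B := fun A hA hle =>
    le_antisymm (hB.le_of_ge hA hle) hle
  -- `|B| ≤ p²`
  have hBc : B.map R.subtype ≤ R ⊓ centralizer (E : Set G) := by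
    refine le_inf (map_subtype_le _) ?_
    rintro _ ⟨b, hb, rfl⟩
    change (b : G) ∈ centralizer (E : Set G)
    rw [mem_centralizer_iff]
    intro x hx
    have h1 : (⟨x, hER hx⟩ : R) ∈ B := hEB hx
    have h5 : ((⟨_, h1⟩ : B) * ⟨_, hb⟩ : B) = (⟨_, hb⟩ : B) * ⟨_, h1⟩ := hBe.1.is_comm.comm _ _
    have h6 := congrArg Subtype.val (congrArg Subtype.val h5)
    exact h6
  have hcard : Nat.card B ≤ p ^ 2 := by
    have h1 := PRankLE.of_le hr hBc
    have h2 := h1 ⊤ (by
      refine ⟨⟨fun a b => ?_⟩⟩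
      obtain ⟨⟨_, a, ha, rfl⟩, -⟩ := a
      obtain ⟨⟨_, b, hb, rfl⟩, -⟩ := b
      apply Subtype.ext
      apply Subtype.ext
      have h5 : ((⟨_, ha⟩ : B) * ⟨_, hb⟩ : B) = (⟨_, hb⟩ : B) * ⟨_, ha⟩ := hBe.1.is_comm.comm _ _
      have h6 := congrArg Subtype.val (congrArg Subtype.val h5)
      exact h6) (by
      rintro ⟨_, a, ha, rfl⟩ -
      apply Subtype.ext
      have h6 := congrArg Subtype.val (hBe.2 a ha)
      exact h6)
    rw [card_top, Subgroup.card_map_of_injective R.subtype_injective] at h2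
    exact h2
  have hBp : IsPGroup p B := hR.to_subgroup B
  obtain ⟨n, hn⟩ := IsPGroup.iff_card.1 hBp
  have hn2 : n ≤ 2 := (Nat.pow_le_pow_iff_right hp.out.one_lt).1 (hn ▸ hcard)
  -- `|B| ≥ p²`
  have hn2' : n = 2 := by
    by_contra hne
    have hn1 : n ≤ 1 := by omega
    -- an elementary abelian subgroup of order > p²
    obtain ⟨A, hA1, hA2, hA3⟩ : ∃ A : Subgroup R, IsMulCommutative A ∧ (∀ a ∈ A, a ^ p = 1) ∧
        p ^ 2 < Nat.card A := by
      unfold PRankLE at hrR
      push Not at hrR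
      exact hrR
    have hRnt : Nontrivial R := by
      by_contra hcon
      rw [not_nontrivial_iff_subsingleton] at hcon
      have : Nat.card A ≤ 1 := by
        rw [Finite.card_le_one_iff_subsingleton]; infer_instance
      have h2 := Nat.one_le_pow 2 p hp.out.pos
      omega
    obtain ⟨z, hz, hz1⟩ : ∃ z ∈ center R, orderOf z = p := by
      have h1 := hR.bot_lt_center
      have h2 : p ∣ Nat.card (center R) := by
        obtain ⟨k, hk⟩ := IsPGroup.iff_card.1 (hR.to_subgroup (center R))
        rcases k with _ | k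
        · exact absurd (Subgroup.card_eq_one.1 hk) h1.ne'
        · rw [hk]; exact dvd_pow_self p (Nat.succ_ne_zero k)
      obtain ⟨z, hz⟩ := exists_prime_orderOf_dvd_card' (p := p) (G := center R) h2
      exact ⟨z, z.2, by rw [Subgroup.orderOf_coe, hz]⟩
    have hzp : z ^ p = 1 := by rw [← hz1, pow_orderOf_eq_one]
    have hzB : z ∈ B := by
      have h1 : IsElementaryAbelian p (B ⊔ zpowers z) :=
        ThompsonJ.elemAb_sup hBe (ThompsonJ.elemAb_zpowers hzp) (by
          intro b _
          rw [mem_centralizer_iff]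
          rintro _ ⟨k, rfl⟩
          exact ((Subgroup.mem_center_iff.1 ((center R).zpow_mem hz k)) b).symm)
      have h2 := hBmax _ h1 le_sup_left
      rw [← h2]
      exact mem_sup_right (mem_zpowers z)
    have hBz : B = zpowers z := by
      symm
      apply Subgroup.eq_of_le_of_card_ge (by rwa [zpowers_le])
      rw [Nat.card_zpowers, hz1, hn]
      calc p ^ n ≤ p ^ 1 := Nat.pow_le_pow_right hp.out.pos hn1
        _ = p := pow_one p
    have hAe : IsElementaryAbelian p A := ⟨hA1, hA2⟩
    have h1 : IsElementaryAbelian p (A ⊔ B) := by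
      apply ThompsonJ.elemAb_sup hAe hBe
      intro a _
      rw [mem_centralizer_iff]
      intro b hb
      have : b ∈ center R := by
        rw [hBz] at hb
        obtain ⟨k, rfl⟩ := hb
        exact (center R).zpow_mem hz k
      exact ((Subgroup.mem_center_iff.1 this) a).symm
    have h2 := hBmax _ h1 le_sup_right
    have h3 : A ≤ B := by rw [← h2]; exact le_sup_left
    have h4 := Subgroup.card_le_of_le h3
    omega
  subst hn2'
  exact NarrowIff.isNarrow_of_max_sq hp2 hR hBe hn hBmax

/-- S1456. -/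
theorem s1456 {G : Type u} [Group G] [Finite G] [Group.IsSolvable G] (hodd : Odd (Nat.card G)) (p : ℕ)
    [hp : Fact p.Prime] (E : Subgroup G) (hE : E ≤ fittingSubgroup G) (hEe : IsElementaryAbelian p E)
    (hr : RankLE 2 ↥(fittingSubgroup G ⊓ centralizer (E : Set G))) :
    commutator G ≤ fittingSubgroup G := by
  apply commutator_le_fitting_of_core
  intro q z hz hzq
  have hqf : Fact (q : ℕ).Prime := ⟨q.2⟩
  have hEp : E ≤ pCore p G := by
    intro x hx
    exact mem_pCore_of_mem_fitting (hE hx) (k := 1) (by rw [pow_one]; exact hEe.2 x hx)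
  have hRn := normal_pCore (q : ℕ) (G := G)
  by_cases hq2 : (q : ℕ) = 2
  · have h1 : pCore (q : ℕ) G = ⊥ := by
      by_contra hne
      obtain ⟨k, hk⟩ := IsPGroup.iff_card.mp (isPGroup_pCore (q : ℕ) (G := G))
      have hk0 : k ≠ 0 := by
        rintro rfl
        rw [pow_zero, Subgroup.card_eq_one] at hk
        exact hne hk
      have h2 : (q : ℕ) ∣ Nat.card G := by
        refine (dvd_pow_self (q : ℕ) hk0).trans ?_
        rw [← hk]; exact card_subgroup_dvd_card _
      rw [hq2] at h2
      exact (Nat.not_even_iff_odd.mpr hodd) (even_iff_two_dvd.mpr h2)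
    rw [h1, mem_centralizer_iff]
    intro y hy
    rw [mem_bot.mp hy]; simp
  apply mem_centralizer_of_narrow hodd hq2 (isPGroup_pCore _) _ hz hzq
  by_cases hqp : (q : ℕ) = p
  · subst hqp
    apply isNarrow_pCore hq2 (isPGroup_pCore _) hEp hEe
    exact PRankLE.of_le (hr q q.2) (inf_le_inf_right _ (pCore_le_fittingSubgroup (q : ℕ)))
  · left
    apply PRankLE.of_le (hr q q.2)
    refine le_inf (pCore_le_fittingSubgroup (q : ℕ)) ?_
    -- `O_q` centralizes `O_p`
    rw [le_centralizer_iff]
    refine hEp.trans ?_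
    have hPn := normal_pCore p (G := G)
    rw [← commutator_eq_bot_iff_le_centralizer, eq_bot_iff]
    have h1 : Disjoint (pCore p G) (pCore (q : ℕ) G) :=
      IsPGroup.disjoint_of_ne p q (Ne.symm hqp) _ _ (isPGroup_pCore p) (isPGroup_pCore (q : ℕ))
    have h2 : ⁅pCore p G, pCore (q : ℕ) G⁆ ≤ pCore p G ⊓ pCore (q : ℕ) G := commutator_le_inf _ _
    exact h2.trans h1.le_bot

end Cfsg.Agent.Lib.H56Fit
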