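import Mathlib
import Cfsg.Agent.Lib.FrobRat

set_option autoImplicit false

/-! Faithful irreducible fixed-point-free representations of Frobenius complements (S3357). -/

namespace Cfsg.Agent.Lib.H56FrobRep

open FrobExist

/-- matrices over a field of characteristic zero. -/
theorem exists_matrix {A : Type*} [Group A] (h : Occurs A) (K : Type*) [Field K] :
    ∃ (n : ℕ) (Φ : A →* Matrix (Fin n) (Fin n) K), 0 < n ∧
      ∀ a : A, a ≠ 1 → ∑ i ∈ Finset.range (orderOf a), Φ a ^ i = 0 := by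
  obtain ⟨S, _, _, _, ρ, hTF, hρ⟩ := FrobRat.rational h
  have : IsAddTorsionFree S := by
    constructor
    intro n hn x y hxy
    have h1 : n • (x - y) = 0 := by
      rw [nsmul_sub, sub_eq_zero]; exact hxy
    exact sub_eq_zero.1 (hTF n hn _ h1)
  have hfree : Module.Free ℤ S := inferInstance
  let b := Module.finBasis ℤ S
  refine ⟨Module.finrank ℤ S, (((Int.castRingHom K).mapMatrix : Matrix (Fin (Module.finrank ℤ S)) _ ℤ →+* _) :
    Matrix (Fin (Module.finrank ℤ S)) (Fin (Module.finrank ℤ S)) ℤ →* _).comp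
      (((Algebra.leftMulMatrix b : S →ₐ[ℤ] _) : S →* _).comp ρ), Module.finrank_pos, ?_⟩
  intro a ha
  have h1 := hρ a ha
  have h2 := congrArg (fun x => (Int.castRingHom K).mapMatrix (Algebra.leftMulMatrix b x)) h1
  simp only [map_sum, map_pow, map_zero] at h2
  exact h2

theorem result {G : Type*} [Group G] [Finite G] (h : Occurs G) (K : Type*) [Field K] [CharZero K] :
    ∃ (n : ℕ) (ρ : G →* GL (Fin n) K), 0 < n ∧ Function.Injective ρ ∧
      (∀ W : Submodule K (Fin n → K),
        (∀ g : G, ∀ w ∈ W, ((ρ g : GL (Fin n) K) : Matrix (Fin n) (Fin n) K).mulVec w ∈ W) → W = ⊥ ∨ W = ⊤) ∧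
      ∀ g : G, g ≠ 1 → ∀ v : Fin n → K,
        ((ρ g : GL (Fin n) K) : Matrix (Fin n) (Fin n) K).mulVec v = v → v = 0 := by
  classical
  obtain ⟨n, Φ, hn, hΦ⟩ := exists_matrix h K
  let φ : G →* ((Fin n → K) →ₗ[K] (Fin n → K)) :=
    ((Matrix.toLinAlgEquiv' : Matrix (Fin n) (Fin n) K ≃ₐ[K] _) : Matrix (Fin n) (Fin n) K →* _).comp Φ
  have hφ : ∀ a : G, a ≠ 1 → ∀ v, φ a v = v → v = 0 := by
    intro a ha v hv
    have h1 : ∑ i ∈ Finset.range (orderOf a), φ a ^ i = 0 := by
      have h2 := congrArg (Matrix.toLinAlgEquiv' : Matrix (Fin n) (Fin n) K ≃ₐ[K] _) (hΦ a ha)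
      simp only [map_sum, map_pow, map_zero] at h2
      exact h2
    have h3 : ∀ i : ℕ, (φ a ^ i) v = v := by
      intro i
      induction i with
      | zero => simp
      | succ i ih => rw [pow_succ, Module.End.mul_apply, hv, ih]
    have h4 := congrArg (fun f : (Fin n → K) →ₗ[K] (Fin n → K) => f v) h1
    simp only [LinearMap.sum_apply, h3, Finset.sum_const, Finset.card_range, LinearMap.zero_apply] at h4
    rw [← Nat.cast_smul_eq_nsmul K] at h4
    have h5 : ((orderOf a : ℕ) : K) ≠ 0 := by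
      rw [Nat.cast_ne_zero]
      exact (orderOf_pos a).ne'
    exact (smul_eq_zero.1 h4).resolve_left h5
  -- minimal invariant submodule
  let P : Submodule K (Fin n → K) → Prop := fun W => W ≠ ⊥ ∧ ∀ g, ∀ w ∈ W, φ g w ∈ W
  have hex : ∃ d, ∃ W, P W ∧ Module.finrank K W = d := by
    refine ⟨_, ⊤, ⟨?_, fun _ _ _ => trivial⟩, rfl⟩
    intro h
    have : Nontrivial (Fin n → K) := by
      haveI : Nonempty (Fin n) := ⟨⟨0, hn⟩⟩
      infer_instance
    exact bot_ne_top h.symm
  obtain ⟨W, ⟨hW0, hWi⟩, hWd⟩ := Nat.find_spec hex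
  have hmin : ∀ U, P U → Module.finrank K W ≤ Module.finrank K U := by
    intro U hU
    rw [hWd]
    exact Nat.find_min' hex ⟨U, hU, rfl⟩
  let m := Module.finrank K W
  have hm : 0 < m := by
    have : Nontrivial W := (Submodule.nontrivial_iff_ne_bot).2 hW0
    exact Module.finrank_pos
  let e : W ≃ₗ[K] (Fin m → K) := (Module.finBasis K W).equivFun
  let ψ0 : G → ((Fin m → K) →ₗ[K] (Fin m → K)) := fun g =>
    (e : W →ₗ[K] _) ∘ₗ ((φ g).restrict (hWi g)) ∘ₗ (e.symm : (Fin m → K) →ₗ[K] W)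
  have hψ0 : ∀ g v, ψ0 g v = e ⟨φ g (e.symm v), hWi g _ (e.symm v).2⟩ := fun g v => rfl
  let ψ : G →* ((Fin m → K) →ₗ[K] (Fin m → K)) :=
    { toFun := ψ0
      map_one' := by
        refine LinearMap.ext fun w => ?_
        rw [hψ0]
        simp
      map_mul' := by
        intro a b
        refine LinearMap.ext fun w => ?_
        rw [Module.End.mul_apply, hψ0, hψ0, hψ0]
        congr 1
        apply Subtype.ext
        simp [map_mul] }
  let Ψ : G →* Matrix (Fin m) (Fin m) K :=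
    ((LinearMap.toMatrixAlgEquiv' : _ ≃ₐ[K] Matrix (Fin m) (Fin m) K) : _ →* Matrix (Fin m) (Fin m) K).comp ψ
  have hΨ : ∀ g v, (Ψ g).mulVec v = ψ0 g v := by
    intro g v
    show (LinearMap.toMatrixAlgEquiv' (ψ0 g)).mulVec v = _
    rw [← Matrix.toLinAlgEquiv'_apply, Matrix.toLinAlgEquiv'_toMatrixAlgEquiv']
  have hfpf : ∀ g : G, g ≠ 1 → ∀ v : Fin m → K, (Ψ g).mulVec v = v → v = 0 := by
    intro g hg v hv
    rw [hΨ, hψ0] at hv
    have h1 : (⟨φ g (e.symm v), hWi g _ (e.symm v).2⟩ : W) = e.symm v :=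
      (LinearEquiv.eq_symm_apply e).2 hv
    have h2 := hφ g hg (e.symm v : W) (congrArg Subtype.val h1)
    have h3 : e.symm v = 0 := Subtype.ext h2
    simpa using h3
  refine ⟨m, Ψ.toHomUnits, hm, ?_, ?_, ?_⟩
  · rw [injective_iff_map_eq_one]
    intro g hg
    by_contra hg1
    have h1 : Ψ g = 1 := by
      have := congrArg Units.val hg
      simpa using this
    have h2 := hfpf g hg1 (fun _ => 1) (by rw [h1, Matrix.one_mulVec])
    exact one_ne_zero (congrFun h2 ⟨0, hm⟩)
  · intro U hU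
    by_cases hU0 : U = ⊥
    · exact Or.inl hU0
    right
    let U' : Submodule K (Fin n → K) := (U.comap (e : W →ₗ[K] _)).map W.subtype
    have hU'W : U' ≤ W := by
      rintro _ ⟨w, _, rfl⟩
      exact w.2
    have hPU : P U' := by
      refine ⟨?_, ?_⟩
      · intro h
        apply hU0
        rw [eq_bot_iff]
        intro u hu
        have h1 : ((e.symm u : W) : Fin n → K) ∈ U' := ⟨e.symm u, by
          show e (e.symm u) ∈ U
          rw [e.apply_symm_apply]; exact hu, rfl⟩
        rw [h, Submodule.mem_bot] at h1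
        have h2 : e.symm u = 0 := Subtype.ext h1
        rw [Submodule.mem_bot]
        simpa using h2
      · rintro g _ ⟨w, hw, rfl⟩
        refine ⟨⟨φ g w, hWi g _ w.2⟩, ?_, rfl⟩
        show e ⟨φ g w, hWi g _ w.2⟩ ∈ U
        have h1 := hU g (e w) hw
        rw [MonoidHom.coe_toHomUnits, hΨ, hψ0] at h1
        simpa using h1
    have h1 : U' = W := Submodule.eq_of_le_of_finrank_le hU'W (hmin U' hPU)
    rw [eq_top_iff]
    intro u _
    have h2 : ((e.symm u : W) : Fin n → K) ∈ U' := by rw [h1]; exact (e.symm u).2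
    obtain ⟨w, hw, hwe⟩ := h2
    have h3 : w = e.symm u := Subtype.ext hwe
    rw [h3] at hw
    have h4 : e (e.symm u) ∈ U := hw
    rwa [e.apply_symm_apply] at h4
  · intro g hg v hv
    rw [MonoidHom.coe_toHomUnits] at hv
    exact hfpf g hg v hv

end Cfsg.Agent.Lib.H56FrobRep
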