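import Mathlib
import Cfsg.Agent.Lib.NormalCyclic
import Cfsg.Agent.Lib.UniqueInvolution
import Cfsg.Agent.Lib.NormalRankTwo

set_option autoImplicit false

/-! Irreducible linear `p`-groups which are not of maximal class or cyclic are imprimitive (S3380). -/

namespace Cfsg.Agent.Lib.H56Imprim

/-- the group theoretic data. -/
theorem exists_data {G : Type*} [Group G] [Finite G] (p : ℕ) [hp : Fact p.Prime] (hG : IsPGroup p G)
    (hnc : ¬ IsCyclic G) (hnq : ∀ n : ℕ, ¬ Nonempty (G ≃* QuaternionGroup n))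
    (hnd : ∀ n : ℕ, ¬ Nonempty (G ≃* DihedralGroup n)) (hnsd : ¬ Cfsg.IsQuasiDihedral G) :
    ∃ z n : G, (∀ g, g * z = z * g) ∧ orderOf z = p ∧ n ^ p = 1 ∧ n ∉ Subgroup.zpowers z ∧
      ∀ g, g * n * g⁻¹ * n⁻¹ ∈ Subgroup.zpowers z := by
  classical
  have hA : ∃ A : Subgroup G, A.Normal ∧ IsMulCommutative A ∧ ¬ IsCyclic A := by
    by_contra h
    push Not at h
    obtain ⟨-, h1⟩ := NormalCyclic.classify_all hG h hnc
    rcases h1 with ⟨n, -, h2⟩ | ⟨n, -, h2⟩ | h2
    · exact hnq _ h2
    · exact hnd _ h2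
    · exact hnsd h2
  obtain ⟨A, hAn, hAc, hAnc⟩ := hA
  have hcomm : ∀ a ∈ A, ∀ b ∈ A, a * b = b * a := fun a ha b hb =>
    congrArg Subtype.val (hAc.is_comm.comm (⟨a, ha⟩ : A) ⟨b, hb⟩)
  let K : Subgroup G :=
    { carrier := {a | a ∈ A ∧ a ^ p = 1}
      one_mem' := ⟨A.one_mem, one_pow _⟩
      mul_mem' := by
        rintro a b ⟨ha, ha'⟩ ⟨hb, hb'⟩
        refine ⟨A.mul_mem ha hb, ?_⟩
        rw [(show Commute a b from hcomm a ha b hb).mul_pow, ha', hb', one_mul]
      inv_mem' := by
        rintro a ⟨ha, ha'⟩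
        exact ⟨A.inv_mem ha, by rw [inv_pow, ha', inv_one]⟩ }
  have hKmem : ∀ a, a ∈ K ↔ a ∈ A ∧ a ^ p = 1 := fun a => Iff.rfl
  have hKn : K.Normal := by
    constructor
    rintro a ⟨ha, ha'⟩ g
    refine ⟨hAn.conj_mem a ha g, ?_⟩
    rw [conj_pow, ha', mul_one, mul_inv_cancel]
  have hKne : K ≠ ⊥ := by
    intro h
    apply hAnc
    -- otherwise `A` is trivial
    have h1 : ∀ x y : A, orderOf x = p → orderOf y = p → y ∈ Subgroup.zpowers x := by
      intro x y hx _
      exfalso
      have h2 : (x : G) ∈ K := ⟨x.2, by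
        have := pow_orderOf_eq_one x
        rw [hx] at this
        exact congrArg Subtype.val this⟩
      rw [h] at h2
      have h3 : x = 1 := Subtype.ext h2
      rw [h3, orderOf_one] at hx
      exact hp.out.one_lt.ne hx
    obtain ⟨a, ha⟩ := UniqueInvolution.cyclic_of_comm (hG.to_subgroup A)
      (fun x y => hAc.is_comm.comm x y) h1
    exact ⟨⟨a, ha⟩⟩
  obtain ⟨z, hzK, hzc, hzo⟩ := NormalRankTwo.exists_central_of_normal hG K hKne
  obtain ⟨x, hxK, hxz⟩ : ∃ x ∈ K, x ∉ Subgroup.zpowers z := by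
    by_contra hcon
    push Not at hcon
    apply hAnc
    have h1 : ∀ x y : A, orderOf x = p → orderOf y = p → y ∈ Subgroup.zpowers x := by
      intro x y hx hy
      have hxK : (x : G) ∈ K := ⟨x.2, by
        have := pow_orderOf_eq_one x
        rw [hx] at this
        exact congrArg Subtype.val this⟩
      have hyK : (y : G) ∈ K := ⟨y.2, by
        have := pow_orderOf_eq_one y
        rw [hy] at this
        exact congrArg Subtype.val this⟩
      have h2 : Subgroup.zpowers (x : G) = Subgroup.zpowers z := by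
        apply Subgroup.eq_of_le_of_card_ge
        · rw [Subgroup.zpowers_le]; exact hcon _ hxK
        · rw [Nat.card_zpowers, Nat.card_zpowers, hzo, Subgroup.orderOf_coe, hx]
      have h3 : (y : G) ∈ Subgroup.zpowers (x : G) := by rw [h2]; exact hcon _ hyK
      obtain ⟨i, hi⟩ := Subgroup.mem_zpowers_iff.1 h3
      exact Subgroup.mem_zpowers_iff.2 ⟨i, Subtype.ext (by push_cast; exact hi)⟩
    obtain ⟨a, ha⟩ := UniqueInvolution.cyclic_of_comm (hG.to_subgroup A)
      (fun x y => hAc.is_comm.comm x y) h1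
    exact ⟨⟨a, ha⟩⟩
  obtain ⟨N, hNn, hNK, hzN, hNc, hNp, hNz⟩ := NormalRankTwo.exists_of_exponent hG hzc hzo K hzK hxK hxz
    (fun x hx => hx.2)
  obtain ⟨n, hnN, hnz⟩ : ∃ n ∈ N, n ∉ Subgroup.zpowers z := by
    by_contra hcon
    push Not at hcon
    have h1 : Nat.card N ≤ Nat.card (Subgroup.zpowers z) := Nat.card_mono (Set.toFinite _) hcon
    rw [hNc, Nat.card_zpowers, hzo] at h1
    have h2 := hp.out.one_lt
    nlinarith
  exact ⟨z, n, fun g => (Subgroup.mem_center_iff.1 hzc g), hzo, hNp n hnN, hnz, hNz n hnN⟩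

section main

variable (q : ℕ) [hq : Fact q.Prime] {V : Type*} [AddCommGroup V] [Module (ZMod q) V] [Finite V] [Nontrivial V]
    {G : Type*} [Group G] [Finite G] (p : ℕ) [hp : Fact p.Prime] (hG : IsPGroup p G)
    (ρ : G →* (V ≃ₗ[ZMod q] V)) (hρ : Function.Injective ρ)
    (hirr : ∀ W : Submodule (ZMod q) V, (∀ g : G, ∀ w ∈ W, ρ g w ∈ W) → W = ⊥ ∨ W = ⊤)

/-- fixed space of an element. -/
def fix (g : G) : Submodule (ZMod q) V where
  carrier := {v | ρ g v = v}
  zero_mem' := map_zero _
  add_mem' := by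
    intro a b ha hb
    show ρ g (a + b) = a + b
    rw [map_add, show ρ g a = a from ha, show ρ g b = b from hb]
  smul_mem' := by
    intro c a ha
    show ρ g (c • a) = c • a
    rw [map_smul, show ρ g a = a from ha]

theorem mem_fix {g : G} {v : V} : v ∈ fix q ρ g ↔ ρ g v = v := Iff.rfl

theorem mul_apply' (g h : G) (v : V) : ρ (g * h) v = ρ g (ρ h v) := by
  rw [map_mul]; rfl

include hirr hρ in
theorem fix_central {z : G} (hz : ∀ g, g * z = z * g) (hz1 : z ≠ 1) (v : V) (hv : ρ z v = v) : v = 0 := by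
  have h := hirr (fix q ρ z) (by
    intro g w hw
    rw [mem_fix] at hw ⊢
    rw [← mul_apply', ← hz, mul_apply', hw])
  rcases h with h | h
  · have : v ∈ fix q ρ z := hv
    rw [h] at this
    exact (Submodule.mem_bot _).1 this
  · exfalso
    apply hz1
    apply hρ
    rw [map_one]
    ext w
    have : w ∈ fix q ρ z := by rw [h]; trivial
    exact this

include hG hirr hρ in
theorem ne_char (hnc : ¬ IsCyclic G) : p ≠ q := by
  rintro rfl
  letI : MulAction G V :=
    { smul := fun g v => ρ g v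
      one_smul := fun v => by show ρ 1 v = v; rw [map_one]; rfl
      mul_smul := fun a b v => by show ρ (a * b) v = ρ a (ρ b v); rw [mul_apply'] }
  have hdvd : p ∣ Nat.card V := by
    haveI : Fintype V := Fintype.ofFinite V
    rw [Nat.card_eq_fintype_card, Module.card_eq_pow_finrank (K := ZMod p) (V := V), ZMod.card]
    apply dvd_pow_self
    exact (Module.finrank_pos (R := ZMod p) (M := V)).ne'
  obtain ⟨b, hb, hb0⟩ := hG.exists_fixed_point_of_prime_dvd_card_of_fixed_point V hdvd (a := (0 : V)) (by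
    intro g
    show ρ g 0 = 0
    exact map_zero _)
  let W : Submodule (ZMod p) V :=
    { carrier := {v | ∀ g, ρ g v = v}
      zero_mem' := fun g => map_zero _
      add_mem' := by
        intro a b ha hb g
        rw [map_add, ha g, hb g]
      smul_mem' := by
        intro c a ha g
        rw [map_smul, ha g] }
  have h := hirr W (by
    intro g w hw
    have : ρ g w = w := hw g
    rw [this]; exact hw)
  rcases h with h | h
  · have : b ∈ W := fun g => hb g
    rw [h] at this
    exact hb0 ((Submodule.mem_bot _).1 this).symm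
  · apply hnc
    have : Subsingleton G := by
      constructor
      intro a b
      apply hρ
      ext v
      have hv : v ∈ W := by rw [h]; trivial
      rw [show ρ a v = v from hv a, show ρ b v = v from hv b]
    exact isCyclic_of_subsingleton

/-- powers indexed by `ZMod p`. -/
theorem pow_val_add {z : G} (hz : z ^ p = 1) (i j : ZMod p) : z ^ (i + j).val = z ^ i.val * z ^ j.val := by
  rw [ZMod.val_add, ← pow_add]
  exact (pow_eq_pow_mod _ hz).symm

theorem pow_val_mul {z : G} (hz : z ^ p = 1) (i j : ZMod p) : z ^ (i * j).val = (z ^ i.val) ^ j.val := by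
  rw [ZMod.val_mul, ← pow_mul]
  exact (pow_eq_pow_mod _ hz).symm

include hirr hρ in
theorem sum_central {z : G} (hz : ∀ g, g * z = z * g) (hz1 : z ≠ 1) (hzp : z ^ p = 1) (v : V) :
    ∑ j : ZMod p, ρ (z ^ j.val) v = 0 := by
  apply fix_central q ρ hρ hirr hz hz1
  rw [map_sum]
  have h : ∀ j : ZMod p, ρ z (ρ (z ^ j.val) v) = ρ (z ^ (j + 1).val) v := by
    intro j
    rw [pow_val_add p hzp, ← mul_apply', ← pow_succ', pow_succ]
    have : (1 : ZMod p).val = 1 := by
      haveI : Fact (1 < p) := ⟨hp.out.one_lt⟩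
      exact ZMod.val_one p
    rw [this, pow_one]
  simp_rw [h]
  exact Equiv.sum_comp (Equiv.addRight (1 : ZMod p)) (fun j => ρ (z ^ j.val) v)

include hG hirr hρ in
theorem main (hnc : ¬ IsCyclic G) {z n : G} (hz : ∀ g, g * z = z * g) (hzo : orderOf z = p) (hnp : n ^ p = 1)
    (hnz : n ∉ Subgroup.zpowers z) (hc : ∀ g, g * n * g⁻¹ * n⁻¹ ∈ Subgroup.zpowers z) :
    ∃ (H : Subgroup G) (W : Fin p → Submodule (ZMod q) V), H.index = p ∧
      iSup W = ⊤ ∧ iSupIndep W ∧
      (∀ h ∈ H, ∀ i, ∀ w ∈ W i, ρ h w ∈ W i) ∧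
      (∀ i, ∃ h ∈ H, h ≠ 1 ∧ ∀ w ∈ W i, ρ h w = w) ∧
      ∀ g : G, g ∉ H → ∃ σ : Equiv.Perm (Fin p), orderOf σ = p ∧
        ∀ i, (W i).map (ρ g : V →ₗ[ZMod q] V) = W (σ i) := by
  classical
  have hpq : p ≠ q := ne_char q p hG ρ hρ hirr hnc
  have hpq0 : (p : ZMod q) ≠ 0 := by
    intro h
    rw [ZMod.natCast_eq_zero_iff] at h
    exact hpq ((Nat.prime_dvd_prime_iff_eq hq.out hp.out).1 h).symm
  have hzp : z ^ p = 1 := by rw [← hzo]; exact pow_orderOf_eq_one z
  have hz1 : z ≠ 1 := by
    rintro rfl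
    rw [orderOf_one] at hzo
    exact hp.out.one_lt.ne hzo
  haveI : Fact (1 < p) := ⟨hp.out.one_lt⟩
  have hv1 : (1 : ZMod p).val = 1 := ZMod.val_one p
  have hinjz : ∀ i j : ZMod p, z ^ i.val = z ^ j.val → i = j := by
    intro i j h
    rw [pow_inj_mod, hzo, Nat.mod_eq_of_lt (ZMod.val_lt i), Nat.mod_eq_of_lt (ZMod.val_lt j)] at h
    exact ZMod.val_injective p h
  -- `c`
  have hc' : ∀ g, ∃ i : ZMod p, g * n * g⁻¹ = n * z ^ i.val := by
    intro g
    obtain ⟨k, hk⟩ := (mem_powers_iff_mem_zpowers (x := z)).2 (hc g)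
    refine ⟨(k : ZMod p), ?_⟩
    rw [ZMod.val_natCast, ← pow_eq_pow_mod _ hzp]
    have hk' : z ^ k = g * n * g⁻¹ * n⁻¹ := hk
    have hcomm : n * z ^ k = z ^ k * n := by
      have : Commute z n := (hz n).symm
      exact (this.pow_left k).eq.symm
    rw [hcomm, hk', inv_mul_cancel_right]
  choose c0 hc0 using hc'
  let c : G →* Multiplicative (ZMod p) :=
    { toFun := fun g => Multiplicative.ofAdd (c0 g)
      map_one' := by
        have h := hc0 1
        rw [one_mul, inv_one, mul_one] at h
        have h1 : z ^ (c0 1).val = z ^ (0 : ZMod p).val := by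
          rw [ZMod.val_zero, pow_zero]
          exact (mul_eq_left.1 h.symm)
        have h2 := hinjz _ _ h1
        show Multiplicative.ofAdd (c0 1) = 1
        rw [h2]; rfl
      map_mul' := by
        intro a b
        have h := hc0 (a * b)
        have hcomm : ∀ k : ℕ, a * z ^ k * a⁻¹ = z ^ k := by
          intro k
          have : Commute z a := (hz a).symm
          rw [← (this.pow_left k).eq, mul_inv_cancel_right]
        have h1 : a * b * n * (a * b)⁻¹ = n * z ^ (c0 a + c0 b).val := by
          calc a * b * n * (a * b)⁻¹ = a * (b * n * b⁻¹) * a⁻¹ := by group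
            _ = (a * n * a⁻¹) * (a * z ^ (c0 b).val * a⁻¹) := by rw [hc0 b]; group
            _ = n * z ^ (c0 a).val * z ^ (c0 b).val := by rw [hc0 a, hcomm]
            _ = _ := by rw [pow_val_add p hzp, mul_assoc]
        rw [h] at h1
        have h2 := hinjz _ _ (mul_left_cancel h1)
        show Multiplicative.ofAdd (c0 (a * b)) = Multiplicative.ofAdd (c0 a) * Multiplicative.ofAdd (c0 b)
        rw [h2]; rfl }
  let m : ZMod p → G := fun i => n * z ^ i.val
  have hcomm : ∀ k : ℕ, Commute n (z ^ k) := fun k => (show Commute n z from hz n).pow_right k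
  have hmp : ∀ i, m i ^ p = 1 := by
    intro i
    show (n * z ^ i.val) ^ p = 1
    rw [(hcomm _).mul_pow, hnp, one_mul, ← pow_mul, mul_comm, pow_mul, hzp, one_pow]
  have hmk : ∀ i k : ZMod p, m i ^ k.val = n ^ k.val * z ^ (i * k).val := by
    intro i k
    show (n * z ^ i.val) ^ k.val = _
    rw [(hcomm _).mul_pow, pow_val_mul p hzp]
  have hm1 : ∀ i, m i ≠ 1 := by
    intro i h
    apply hnz
    have : n = (z ^ i.val)⁻¹ := eq_inv_of_mul_eq_one_left h
    rw [this]
    exact Subgroup.inv_mem _ (Subgroup.pow_mem _ (Subgroup.mem_zpowers z) _)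
  have hmconj : ∀ g i, g * m i * g⁻¹ = m (i + c0 g) := by
    intro g i
    show g * (n * z ^ i.val) * g⁻¹ = n * z ^ (i + c0 g).val
    have hcomm' : ∀ k : ℕ, g * z ^ k * g⁻¹ = z ^ k := by
      intro k
      have : Commute z g := (hz g).symm
      rw [← (this.pow_left k).eq, mul_inv_cancel_right]
    calc g * (n * z ^ i.val) * g⁻¹ = (g * n * g⁻¹) * (g * z ^ i.val * g⁻¹) := by group
      _ = n * z ^ (c0 g).val * z ^ i.val := by rw [hc0 g, hcomm']
      _ = _ := by rw [mul_assoc, ← pow_val_add p hzp, add_comm]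
  let W : ZMod p → Submodule (ZMod q) V := fun i => fix q ρ (m i)
  let P : ZMod p → (V →ₗ[ZMod q] V) := fun i => ∑ k : ZMod p, (ρ (m i ^ k.val) : V →ₗ[ZMod q] V)
  have hP : ∀ i v, P i v = ∑ k : ZMod p, ρ (m i ^ k.val) v := by
    intro i v
    simp [P]
  have S0 := sum_central q p ρ hρ hirr hz hz1 hzp
  have hPW : ∀ i v, P i v ∈ W i := by
    intro i v
    show ρ (m i) (P i v) = P i v
    rw [hP, map_sum]
    have h : ∀ k : ZMod p, ρ (m i) (ρ (m i ^ k.val) v) = ρ (m i ^ (k + 1).val) v := by
      intro k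
      rw [pow_val_add p (hmp i), ← mul_apply', ← pow_succ', pow_succ, hv1, pow_one]
    simp_rw [h]
    exact Equiv.sum_comp (Equiv.addRight (1 : ZMod p)) (fun j => ρ (m i ^ j.val) v)
  have hPsum : ∀ v, ∑ i, P i v = (p : ZMod q) • v := by
    intro v
    have h1 : ∀ i, P i v = ∑ k : ZMod p, ρ (n ^ k.val) (ρ (z ^ (i * k).val) v) := by
      intro i
      rw [hP]
      refine Finset.sum_congr rfl fun k _ => ?_
      rw [hmk, mul_apply']
    simp_rw [h1]
    rw [Finset.sum_comm]
    simp_rw [← map_sum]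
    rw [Finset.sum_eq_single (0 : ZMod p)]
    · simp only [ZMod.val_zero, pow_zero, mul_zero, map_one]
      simp [Finset.sum_const, Finset.card_univ, ZMod.card]
      rw [Nat.cast_smul_eq_nsmul]
    · intro k _ hk
      have h2 : ∑ i : ZMod p, ρ (z ^ (i * k).val) v = 0 := by
        rw [← S0 v]
        exact Equiv.sum_comp (Equiv.mulRight₀ k hk) (fun j => ρ (z ^ j.val) v)
      rw [h2, map_zero]
    · intro h; exact absurd (Finset.mem_univ _) h
  have hPi : ∀ i, ∀ x ∈ W i, P i x = (p : ZMod q) • x := by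
    intro i x hx
    have hx' : ρ (m i) x = x := hx
    have h : ∀ k : ℕ, ρ (m i ^ k) x = x := by
      intro k
      induction k with
      | zero => rw [pow_zero, map_one]; rfl
      | succ k ih => rw [pow_succ, mul_apply', hx', ih]
    rw [hP]
    simp_rw [h]
    simp [Finset.sum_const, Finset.card_univ, ZMod.card]
    rw [Nat.cast_smul_eq_nsmul]
  have hPj : ∀ i j, i ≠ j → ∀ x ∈ W j, P i x = 0 := by
    intro i j hij x hx
    have hx' : ρ (m j) x = x := hx
    have h : ∀ k : ℕ, ρ (m j ^ k) x = x := by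
      intro k
      induction k with
      | zero => rw [pow_zero, map_one]; rfl
      | succ k ih => rw [pow_succ, mul_apply', hx', ih]
    rw [hP]
    have h2 : ∀ k : ZMod p, ρ (m i ^ k.val) x = ρ (z ^ ((i - j) * k).val) x := by
      intro k
      have e : m i ^ k.val = z ^ ((i - j) * k).val * m j ^ k.val := by
        rw [hmk, hmk, ← mul_assoc, ← ((hcomm _).pow_left _).eq, mul_assoc, ← pow_val_add p hzp]
        congr 3
        ring
      rw [e, mul_apply', h]
    simp_rw [h2]
    rw [← S0 x]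
    exact Equiv.sum_comp (Equiv.mulLeft₀ (i - j) (sub_ne_zero.2 hij)) (fun j => ρ (z ^ j.val) x)
  have hmap : ∀ g i, (W i).map (ρ g : V →ₗ[ZMod q] V) = W (i + c0 g) := by
    intro g i
    ext w
    constructor
    · rintro ⟨v, hv, rfl⟩
      have hv' : ρ (m i) v = v := hv
      show ρ (m (i + c0 g)) (ρ g v) = ρ g v
      rw [← hmconj, ← mul_apply', inv_mul_cancel_right, mul_apply', hv']
    · intro hw
      have hw' : ρ (m (i + c0 g)) w = w := hw
      refine ⟨ρ g⁻¹ w, ?_, ?_⟩
      · show ρ (m i) (ρ g⁻¹ w) = ρ g⁻¹ w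
        rw [← mul_apply']
        have e : m i * g⁻¹ = g⁻¹ * m (i + c0 g) := by rw [← hmconj]; group
        rw [e, mul_apply', hw']
      · show ρ g (ρ g⁻¹ w) = w
        rw [← mul_apply', mul_inv_cancel, map_one]; rfl
  -- the index
  have hind : c.ker.index = p := by
    rw [Subgroup.index_ker]
    have h1 : Nat.card c.range ∣ p := by
      have := Subgroup.card_subgroup_dvd_card c.range
      rwa [Nat.card_eq_fintype_card (α := Multiplicative (ZMod p)), Fintype.card_multiplicative, ZMod.card] at this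
    rcases (Nat.dvd_prime hp.out).1 h1 with h | h
    · exfalso
      have hb := Subgroup.card_eq_one.1 h
      have hc1 : ∀ g, c0 g = 0 := by
        intro g
        have : c g ∈ c.range := ⟨g, rfl⟩
        rw [hb] at this
        exact this
      have hmc : ∀ i g, g * m i = m i * g := by
        intro i g
        have := hmconj g i
        rw [hc1, add_zero] at this
        exact mul_inv_eq_iff_eq_mul.1 this
      obtain ⟨v, hv⟩ := exists_ne (0 : V)
      have h2 := hPsum v
      have h3 : ∀ i, P i v = 0 := fun i =>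
        fix_central q ρ hρ hirr (hmc i) (hm1 i) _ (hPW i v)
      simp_rw [h3] at h2
      rw [Finset.sum_const_zero] at h2
      exact hv ((smul_eq_zero.1 h2.symm).resolve_left hpq0)
    · exact h
  let e : Fin p ≃ ZMod p := (Finite.equivFinOfCardEq (by rw [Nat.card_eq_fintype_card, ZMod.card])).symm
  refine ⟨c.ker, fun i => W (e i), hind, ?_, ?_, ?_, ?_, ?_⟩
  · rw [e.surjective.iSup_comp, eq_top_iff]
    intro v _
    have h1 : v = (p : ZMod q)⁻¹ • ∑ i, P i v := by
      rw [hPsum, smul_smul, inv_mul_cancel₀ hpq0, one_smul]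
    rw [h1]
    apply Submodule.smul_mem
    exact Submodule.sum_mem _ fun i _ => Submodule.mem_iSup_of_mem i (hPW i v)
  · rw [iSupIndep_def]
    intro i
    rw [Submodule.disjoint_def]
    intro x hx hx'
    have hker : (⨆ j, ⨆ (_ : j ≠ i), W (e j)) ≤ LinearMap.ker (P (e i)) := by
      apply iSup_le
      intro j
      apply iSup_le
      intro hj y hy
      rw [LinearMap.mem_ker]
      exact hPj (e i) (e j) (fun h => hj (e.injective h).symm) y hy
    have h1 := LinearMap.mem_ker.1 (hker hx')
    rw [hPi (e i) x hx] at h1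
    exact (smul_eq_zero.1 h1).resolve_left hpq0
  · intro h hh i w hw
    have h0 : c0 h = 0 := hh
    have := hmap h (e i)
    rw [h0, add_zero] at this
    show ρ h w ∈ W (e i)
    rw [← this]
    exact ⟨w, hw, rfl⟩
  · intro i
    refine ⟨m (e i), ?_, hm1 _, fun w hw => hw⟩
    show c0 (m (e i)) = 0
    have h1 := hc0 (m (e i))
    have h2 : m (e i) * n * (m (e i))⁻¹ = n := by
      show n * z ^ (e i).val * n * (n * z ^ (e i).val)⁻¹ = n
      rw [mul_assoc n, ← (hcomm _).eq]
      group
    rw [h2] at h1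
    apply hinjz
    rw [ZMod.val_zero, pow_zero]
    exact mul_eq_left.1 h1.symm
  · intro g hg
    have hg0 : c0 g ≠ 0 := hg
    refine ⟨e.symm.permCongrHom (Equiv.addRight (c0 g)), ?_, ?_⟩
    · have h1 : orderOf (e.symm.permCongrHom (Equiv.addRight (c0 g))) = orderOf (Equiv.addRight (c0 g)) :=
        orderOf_injective (e.symm.permCongrHom.toMonoidHom) e.symm.permCongrHom.injective _
      rw [h1]
      apply orderOf_eq_prime
      · have hk : ∀ (k : ℕ) (x : ZMod p), ((Equiv.addRight (c0 g)) ^ k : Equiv.Perm (ZMod p)) x = x + k * c0 g := by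
          intro k
          induction k with
          | zero => intro x; simp
          | succ k ih =>
            intro x
            rw [pow_succ, Equiv.Perm.mul_apply, ih]
            simp
            ring
        refine Equiv.ext fun x => ?_
        rw [hk p x]
        simp
      · intro h
        apply hg0
        have := congrArg (fun f : Equiv.Perm (ZMod p) => f 0) h
        simpa using this
    · intro i
      rw [hmap]
      show W (e i + c0 g) = W (e (e.symm.permCongrHom (Equiv.addRight (c0 g)) i))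
      congr 1
      simp

end main

end Cfsg.Agent.Lib.H56Imprim
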