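import Mathlib
import Cfsg.Agent.Lib.H56Imprim
import Cfsg.Agent.Lib.ModMaschke
import Cfsg.Agent.Lib.FrobAction

set_option autoImplicit false

/-! Half-transitive linear `p`-groups, I: reductions (S3371). -/

namespace Cfsg.Agent.Lib.H56Half

open H56Imprim

/-- if `q ^ d + 1` is a power of two at least four then `d = 1`. -/
theorem pow_add_one_two {q d m : ℕ} (hq : 1 < q) (hd : d ≠ 0) (hm : 2 ≤ m) (h : q ^ d + 1 = 2 ^ m) : d = 1 := by
  have h4 : 4 ∣ 2 ^ m := by
    have := pow_dvd_pow 2 hm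
    simpa using this
  have hqo : q % 2 = 1 := by
    rcases Nat.mod_two_eq_zero_or_one q with h0 | h0
    · exfalso
      have h1 : q ^ d % 2 = 0 := by
        rw [Nat.pow_mod, h0, Nat.zero_pow (Nat.pos_of_ne_zero hd)]
      omega
    · exact h0
  rcases Nat.even_or_odd d with ⟨c, hc⟩ | ⟨c, hc⟩
  · exfalso
    have h1 : q ^ d % 4 = 1 := by
      have h2 : q * q % 4 = 1 := by
        have : q % 4 = 1 ∨ q % 4 = 3 := by omega
        rcases this with h3 | h3 <;> simp [Nat.mul_mod, h3]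
      rw [hc, ← two_mul, pow_mul, pow_two, Nat.pow_mod, h2]
      simp
    omega
  · -- `d` odd
    have hdvd : q + 1 ∣ 2 ^ m := by
      rw [← h]
      have := Odd.nat_add_dvd_pow_add_pow q 1 (⟨c, hc⟩ : Odd d)
      simpa using this
    obtain ⟨a, ha, hqa⟩ := (Nat.dvd_prime_pow Nat.prime_two).1 hdvd
    have ha1 : 1 ≤ a := by
      by_contra hcon
      have : a = 0 := by omega
      rw [this] at hqa
      omega
    have hz : ((q : ℤ) ^ d + 1) ≡ (2 : ℤ) ^ a [ZMOD (2 ^ (a + 1))] := by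
      have hq1 : (q : ℤ) = 2 ^ a - 1 := by
        have : ((q + 1 : ℕ) : ℤ) = ((2 ^ a : ℕ) : ℤ) := by rw [hqa]
        push_cast at this
        linarith
      have hqq : (q : ℤ) * q ≡ 1 [ZMOD (2 ^ (a + 1))] := by
        rw [Int.modEq_iff_dvd]
        refine ⟨1 - 2 ^ (a - 1), ?_⟩
        rw [hq1]
        obtain ⟨b, rfl⟩ : ∃ b, a = b + 1 := ⟨a - 1, by omega⟩
        simp only [Nat.add_sub_cancel]
        ring
      have h1 : (q : ℤ) ^ d = (q * q) ^ c * q := by rw [hc]; ring
      rw [h1]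
      have h2 := (hqq.pow c).mul_right (q : ℤ)
      rw [one_pow, one_mul] at h2
      have h3 := h2.add_right 1
      rwa [show (q : ℤ) + 1 = 2 ^ a by rw [hq1]; ring] at h3
    have hma : m = a := by
      by_contra hne
      have hlt : a + 1 ≤ m := by
        omega
      have h5 : ((2 : ℤ) ^ (a + 1)) ∣ (q : ℤ) ^ d + 1 := by
        have h6 : (((q ^ d + 1 : ℕ)) : ℤ) = ((2 ^ m : ℕ) : ℤ) := by rw [h]
        push_cast at h6
        rw [h6]
        exact pow_dvd_pow 2 hlt
      have h6 : ((2 : ℤ) ^ (a + 1)) ∣ (2 : ℤ) ^ a := by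
        have h7 := hz.dvd
        have h8 := dvd_add h7 h5
        simpa using h8
      have h9 : ((2 : ℕ) ^ (a + 1)) ∣ (2 : ℕ) ^ a := by exact_mod_cast h6
      have := Nat.le_of_dvd (by positivity) h9
      have h10 : 2 ^ (a + 1) = 2 * 2 ^ a := by ring
      have h11 : 0 < 2 ^ a := by positivity
      omega
    have hfin : q ^ d = q ^ 1 := by
      rw [hma] at h
      rw [pow_one]
      omega
    exact Nat.pow_right_injective hq hfin

/-- if `q ^ d - 1` is a power of two then `d = 1` or `q ^ d = 9`. -/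
theorem pow_sub_one_two {q d m : ℕ} (hq : 2 < q) (hd : d ≠ 0) (h : q ^ d = 2 ^ m + 1) :
    d = 1 ∨ (q = 3 ∧ d = 2) := by
  have hm1 : m ≠ 0 := by
    rintro rfl
    have : q ^ 1 ≤ q ^ d := Nat.pow_le_pow_right (by omega) (by omega)
    simp at h this
    omega
  have hqo : q % 2 = 1 := by
    rcases Nat.mod_two_eq_zero_or_one q with h0 | h0
    · exfalso
      have h1 : q ^ d % 2 = 0 := by
        rw [Nat.pow_mod, h0, Nat.zero_pow (Nat.pos_of_ne_zero hd)]
      have h2 : 2 ∣ 2 ^ m := dvd_pow_self 2 hm1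
      omega
    · exact h0
  rcases Nat.even_or_odd d with ⟨c, hc⟩ | ⟨c, hc⟩
  · right
    have hc0 : c ≠ 0 := by omega
    have hqc : q ≤ q ^ c := Nat.le_self_pow hc0 q
    have hprod : (q ^ c - 1) * (q ^ c + 1) = 2 ^ m := by
      have h1 : q ^ d = q ^ c * q ^ c := by rw [hc, pow_add]
      have h2 : 1 ≤ q ^ c := by omega
      obtain ⟨k, hk⟩ : ∃ k, q ^ c = k + 1 := ⟨q ^ c - 1, by omega⟩
      rw [hk] at h1 ⊢
      simp only [Nat.add_sub_cancel]
      have h3 : (k + 1) * (k + 1) = k * (k + 1 + 1) + 1 := by ring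
      omega
    obtain ⟨a, -, ha⟩ := (Nat.dvd_prime_pow Nat.prime_two).1 (Dvd.intro _ hprod)
    obtain ⟨b, -, hb⟩ := (Nat.dvd_prime_pow Nat.prime_two).1 (Dvd.intro_left _ hprod)
    have hab : 2 ^ a + 2 = 2 ^ b := by omega
    have ha1 : a = 1 := by
      have ha0 : a ≠ 0 := by
        rintro rfl
        simp at ha
        omega
      by_contra hne
      have h2 : 4 ∣ 2 ^ a := by
        have := pow_dvd_pow 2 (show 2 ≤ a by omega)
        simpa using this
      have hb2 : 2 ≤ b := by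
        by_contra hcon
        have : 2 ^ b ≤ 2 ^ 1 := Nat.pow_le_pow_right (by norm_num) (by omega)
        have h3 : 0 < 2 ^ a := by positivity
        omega
      have h3 : 4 ∣ 2 ^ b := by
        have := pow_dvd_pow 2 hb2
        simpa using this
      omega
    rw [ha1] at ha
    have h3 : q ^ c = 3 := by omega
    have hq3 : q = 3 := by omega
    refine ⟨hq3, ?_⟩
    have : c = 1 := by
      have h4 : q ^ c = q ^ 1 := by rw [h3, hq3]; rfl
      exact Nat.pow_right_injective (show 1 < q by omega) h4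
    omega
  · left
    have hdvd : q - 1 ∣ 2 ^ m := by
      have h1 : (q : ℤ) - 1 ∣ (q : ℤ) ^ d - 1 := by simpa using sub_dvd_pow_sub_pow (q : ℤ) 1 d
      have h2 : ((q - 1 : ℕ) : ℤ) = (q : ℤ) - 1 := by
        rw [Nat.cast_sub (by omega)]; simp
      have h3 : (q : ℤ) ^ d - 1 = ((2 ^ m : ℕ) : ℤ) := by
        have : ((q ^ d : ℕ) : ℤ) = ((2 ^ m + 1 : ℕ) : ℤ) := by rw [h]
        push_cast at this ⊢
        linarith
      rw [← h2, h3] at h1
      exact_mod_cast h1
    obtain ⟨a, ha, hqa⟩ := (Nat.dvd_prime_pow Nat.prime_two).1 hdvd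
    have ha1 : 1 ≤ a := by
      by_contra hcon
      have : a = 0 := by omega
      rw [this] at hqa
      omega
    have hz : ((q : ℤ) ^ d - 1) ≡ (2 : ℤ) ^ a [ZMOD (2 ^ (a + 1))] := by
      have hq1 : (q : ℤ) = 2 ^ a + 1 := by
        have : q = 2 ^ a + 1 := by omega
        rw [this]; push_cast; ring
      have hqq : (q : ℤ) * q ≡ 1 [ZMOD (2 ^ (a + 1))] := by
        rw [Int.modEq_iff_dvd]
        refine ⟨- 1 - 2 ^ (a - 1), ?_⟩
        rw [hq1]
        obtain ⟨b, rfl⟩ : ∃ b, a = b + 1 := ⟨a - 1, by omega⟩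
        simp only [Nat.add_sub_cancel]
        ring
      have h1 : (q : ℤ) ^ d = (q * q) ^ c * q := by rw [hc]; ring
      rw [h1]
      have h2 := (hqq.pow c).mul_right (q : ℤ)
      rw [one_pow, one_mul] at h2
      have h3 := h2.sub_right 1
      rwa [show (q : ℤ) - 1 = 2 ^ a by rw [hq1]; ring] at h3
    have hma : m = a := by
      by_contra hne
      have hlt : a + 1 ≤ m := by omega
      have h5 : ((2 : ℤ) ^ (a + 1)) ∣ (q : ℤ) ^ d - 1 := by
        have h6 : (((q ^ d : ℕ)) : ℤ) = ((2 ^ m + 1 : ℕ) : ℤ) := by rw [h]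
        push_cast at h6
        rw [h6, add_sub_cancel_right]
        exact pow_dvd_pow 2 hlt
      have h6 : ((2 : ℤ) ^ (a + 1)) ∣ (2 : ℤ) ^ a := by
        have h7 := hz.dvd
        have h8 := dvd_add h7 h5
        simpa using h8
      have h9 : ((2 : ℕ) ^ (a + 1)) ∣ (2 : ℕ) ^ a := by exact_mod_cast h6
      have := Nat.le_of_dvd (by positivity) h9
      have h10 : 2 ^ (a + 1) = 2 * 2 ^ a := by ring
      have h11 : 0 < 2 ^ a := by positivity
      omega
    have hfin : q ^ d = q ^ 1 := by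
      rw [pow_one, h, hma]
      omega
    exact Nat.pow_right_injective (show 1 < q by omega) hfin

section

variable (q : ℕ) [hq : Fact q.Prime] {V : Type*} [AddCommGroup V] [Module (ZMod q) V] [Finite V] [Nontrivial V]
    {G : Type*} [Group G] [Finite G] (ρ : G →* (V ≃ₗ[ZMod q] V))

/-- the stabilizer of a vector. -/
def stab (v : V) : Subgroup G where
  carrier := {g | ρ g v = v}
  one_mem' := by show ρ 1 v = v; rw [map_one]; rfl
  mul_mem' := by
    intro a b ha hb
    show ρ (a * b) v = v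
    rw [mul_apply', show ρ b v = v from hb, show ρ a v = v from ha]
  inv_mem' := by
    intro a ha
    show ρ a⁻¹ v = v
    have h : ρ a v = v := ha
    conv_lhs => rw [← h, ← mul_apply', inv_mul_cancel, map_one]
    rfl

theorem mem_stab {g : G} {v : V} : g ∈ stab q ρ v ↔ ρ g v = v := Iff.rfl

theorem card_orbit_mul (v : V) :
    Nat.card {u : V | ∃ g : G, ρ g v = u} * Nat.card (stab q ρ v) = Nat.card G := by
  letI : MulAction G V :=
    { smul := fun g v => ρ g v
      one_smul := fun v => by show ρ 1 v = v; rw [map_one]; rfl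
      mul_smul := fun a b v => by show ρ (a * b) v = ρ a (ρ b v); rw [mul_apply'] }
  have h1 : {u : V | ∃ g : G, ρ g v = u} = MulAction.orbit G v := rfl
  have h2 : stab q ρ v = MulAction.stabilizer G v := by
    ext g; rfl
  rw [h1, h2, Nat.card_coe_set_eq, ← MulAction.index_stabilizer, Subgroup.index_mul_card]

theorem card_stab_eq (hhalf : ∀ v w : V, v ≠ 0 → w ≠ 0 →
      Nat.card {u : V | ∃ g : G, ρ g v = u} = Nat.card {u : V | ∃ g : G, ρ g w = u})
    {v w : V} (hv : v ≠ 0) (hw : w ≠ 0) : Nat.card (stab q ρ v) = Nat.card (stab q ρ w) := by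
  have h1 := card_orbit_mul q ρ v
  have h2 := card_orbit_mul q ρ w
  rw [hhalf v w hv hw, ← h2] at h1
  apply Nat.eq_of_mul_eq_mul_left _ h1
  rcases Nat.eq_zero_or_pos (Nat.card {u : V | ∃ g : G, ρ g w = u}) with h | h
  · rw [h, zero_mul] at h2
    exact absurd h2.symm Nat.card_pos.ne'
  · exact h

/-- equal cardinality and inclusion. -/
theorem stab_eq_of_le (hs : ∀ v w : V, v ≠ 0 → w ≠ 0 → Nat.card (stab q ρ v) = Nat.card (stab q ρ w))
    {v w : V} (hv : v ≠ 0) (hw : w ≠ 0) (h : stab q ρ v ≤ stab q ρ w) : stab q ρ v = stab q ρ w :=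
  Subgroup.eq_of_le_of_card_ge h (hs v w hv hw).ge

variable (p : ℕ) [hp : Fact p.Prime] (hG : IsPGroup p G) (hρ : Function.Injective ρ)
  (hs : ∀ v w : V, v ≠ 0 → w ≠ 0 → Nat.card (stab q ρ v) = Nat.card (stab q ρ w))
  (hns : ∀ v : V, v ≠ 0 → stab q ρ v ≠ ⊥)

include hG hρ hs hns in
theorem ne_char' : p ≠ q := by
  rintro rfl
  letI : MulAction G V :=
    { smul := fun g v => ρ g v
      one_smul := fun v => by show ρ 1 v = v; rw [map_one]; rfl
      mul_smul := fun a b v => by show ρ (a * b) v = ρ a (ρ b v); rw [mul_apply'] }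
  have hdvd : p ∣ Nat.card V := by
    haveI : Fintype V := Fintype.ofFinite V
    rw [Nat.card_eq_fintype_card, Module.card_eq_pow_finrank (K := ZMod p) (V := V), ZMod.card]
    apply dvd_pow_self
    exact (Module.finrank_pos (R := ZMod p) (M := V)).ne'
  obtain ⟨b, hb, hb0⟩ := hG.exists_fixed_point_of_prime_dvd_card_of_fixed_point V hdvd (a := (0 : V)) (by
    intro g
    show ρ g 0 = 0
    exact map_zero _)
  have h1 : stab p ρ b = ⊤ := by
    rw [eq_top_iff]
    intro g _
    exact hb g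
  apply hns b hb0.symm
  rw [eq_bot_iff]
  intro g _
  rw [Subgroup.mem_bot]
  apply hρ
  rw [map_one]
  ext w
  by_cases hw : w = 0
  · rw [hw, map_zero, map_zero]
  · have h2 : stab p ρ w = ⊤ := by
      apply Subgroup.eq_top_of_card_eq
      rw [hs w b hw hb0.symm, h1]
      exact Nat.card_congr Subgroup.topEquiv.toEquiv
    have h3 : g ∈ stab p ρ w := by rw [h2]; trivial
    exact h3

include hρ hs hns in
theorem irreducible (hG0 : (Nat.card G : ZMod q) ≠ 0)
    (W : Submodule (ZMod q) V) (hW : ∀ g : G, ∀ w ∈ W, ρ g w ∈ W) : W = ⊥ ∨ W = ⊤ := by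
  by_contra hcon
  push Not at hcon
  obtain ⟨h1, h2⟩ := hcon
  let ρ' : G →* Module.End (ZMod q) V := (LinearEquiv.automorphismGroup.toLinearMapMonoidHom).comp ρ
  obtain ⟨W', hW', hc⟩ := ModMaschke.maschke hG0 ρ' W (fun g w hw => hW g w hw)
  have hW'1 : ∀ g : G, ∀ w ∈ W', ρ g w ∈ W' := fun g w hw => hW' g w hw
  have hW'0 : W' ≠ ⊥ := by
    intro h
    rw [h] at hc
    apply h2
    have := hc.sup_eq_top
    simpa using this
  obtain ⟨w0, hw0, hw00⟩ := (Submodule.ne_bot_iff _).1 h1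
  obtain ⟨w1, hw1, hw10⟩ := (Submodule.ne_bot_iff _).1 hW'0
  have key : ∀ a ∈ W, ∀ b ∈ W', a ≠ 0 → b ≠ 0 → stab q ρ a = stab q ρ b := by
    intro a ha b hb ha0 hb0
    have hab : a + b ≠ 0 := by
      intro h
      apply ha0
      have h3 : a ∈ W ⊓ W' := ⟨ha, by rw [eq_neg_of_add_eq_zero_left h]; exact W'.neg_mem hb⟩
      rw [hc.inf_eq_bot] at h3
      exact (Submodule.mem_bot _).1 h3
    have h3 : stab q ρ (a + b) ≤ stab q ρ a ∧ stab q ρ (a + b) ≤ stab q ρ b := by
      have h4 : ∀ g ∈ stab q ρ (a + b), ρ g a = a ∧ ρ g b = b := by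
        intro g hg
        rw [mem_stab, map_add] at hg
        have h5 : ρ g a - a = b - ρ g b := by
          rw [sub_eq_sub_iff_add_eq_add, hg, add_comm]
        have h6 : ρ g a - a ∈ W ⊓ W' := ⟨W.sub_mem (hW g a ha) ha, by
          rw [h5]; exact W'.sub_mem hb (hW'1 g b hb)⟩
        rw [hc.inf_eq_bot, Submodule.mem_bot] at h6
        rw [h6] at h5
        exact ⟨sub_eq_zero.1 h6, (sub_eq_zero.1 h5.symm).symm⟩
      exact ⟨fun g hg => (h4 g hg).1, fun g hg => (h4 g hg).2⟩
    rw [← stab_eq_of_le q ρ hs hab ha0 h3.1, ← stab_eq_of_le q ρ hs hab hb0 h3.2]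
  apply hns w0 hw00
  rw [eq_bot_iff]
  intro g hg
  rw [Subgroup.mem_bot]
  apply hρ
  rw [map_one]
  ext w
  have hA : ∀ a ∈ W, ρ g a = a := by
    intro a ha
    by_cases ha0 : a = 0
    · rw [ha0, map_zero]
    · have : g ∈ stab q ρ a := by rw [key a ha w1 hw1 ha0 hw10, ← key w0 hw0 w1 hw1 hw00 hw10]; exact hg
      exact this
  have hB : ∀ b ∈ W', ρ g b = b := by
    intro b hb
    by_cases hb0 : b = 0
    · rw [hb0, map_zero]
    · have : g ∈ stab q ρ b := by rw [← key w0 hw0 b hb hw00 hb0]; exact hg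
      exact this
  have hw : w ∈ W ⊔ W' := by rw [hc.sup_eq_top]; trivial
  obtain ⟨a, ha, b, hb, rfl⟩ := Submodule.mem_sup.1 hw
  rw [map_add, hA a ha, hB b hb]
  rfl

include hρ hns in
/-- there is no element contained in all nontrivial subgroups. -/
theorem no_monolith {z : G} (hz1 : z ≠ 1) (hz : ∀ H : Subgroup G, H ≠ ⊥ → z ∈ H) : False := by
  apply hz1
  apply hρ
  rw [map_one]
  ext w
  by_cases hw : w = 0
  · rw [hw, map_zero, map_zero]
  · exact hz _ (hns w hw)

end

end Cfsg.Agent.Lib.H56Half
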