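import Mathlib
import Cfsg.Agent.Lib.H56HalfA

set_option autoImplicit false

/-! Half-transitive linear `p`-groups, II: dihedral and semidihedral groups (S3371). -/

namespace Cfsg.Agent.Lib.H56Half

open H56Imprim

section

variable (q : ℕ) [hq : Fact q.Prime] {V : Type*} [AddCommGroup V] [Module (ZMod q) V] [Finite V] [Nontrivial V]
    {G : Type*} [Group G] [Finite G] (ρ : G →* (V ≃ₗ[ZMod q] V))
  (hρ : Function.Injective ρ)
  (hirr : ∀ W : Submodule (ZMod q) V, (∀ g : G, ∀ w ∈ W, ρ g w ∈ W) → W = ⊥ ∨ W = ⊤)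
  (hns : ∀ v : V, v ≠ 0 → stab q ρ v ≠ ⊥)

/-- the involution of a cyclic 2-group lies in every nontrivial subgroup. -/
theorem invol_mem {x : G} {n : ℕ} (hn : 1 ≤ n) (hx : orderOf x = 2 ^ n) {g : G} (hg : g ∈ Subgroup.zpowers x)
    (hg1 : g ≠ 1) : x ^ (2 ^ (n - 1)) ∈ Subgroup.zpowers g := by
  obtain ⟨m, rfl⟩ : ∃ m, n = m + 1 := ⟨n - 1, by omega⟩
  simp only [Nat.add_sub_cancel]
  have hdvd : orderOf g ∣ 2 ^ (m + 1) := by
    rw [← hx]; exact orderOf_dvd_of_mem_zpowers hg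
  obtain ⟨k, hk, hgo⟩ := (Nat.dvd_prime_pow Nat.prime_two).1 hdvd
  have hk0 : k ≠ 0 := by
    rintro rfl
    rw [pow_zero, orderOf_eq_one_iff] at hgo
    exact hg1 hgo
  obtain ⟨l, rfl⟩ : ∃ l, k = l + 1 := ⟨k - 1, by omega⟩
  -- the element of order two
  have h1 : orderOf (g ^ (2 ^ l)) = 2 := by
    rw [orderOf_pow' _ (by positivity), hgo]
    have hg2 : Nat.gcd (2 ^ (l + 1)) (2 ^ l) = 2 ^ l := Nat.gcd_eq_right (pow_dvd_pow 2 (Nat.le_succ l))
    rw [hg2, pow_succ, Nat.mul_div_cancel_left _ (by positivity)]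
  obtain ⟨i, hi⟩ : g ^ (2 ^ l) ∈ Submonoid.powers x :=
    mem_powers_iff_mem_zpowers.2 ((Subgroup.zpowers x).pow_mem hg (2 ^ l))
  have hi' : x ^ i = g ^ (2 ^ l) := hi
  have h2 : x ^ (i * 2) = 1 := by
    have h0 := pow_orderOf_eq_one (g ^ 2 ^ l)
    rw [h1] at h0
    rw [pow_mul, hi']; exact h0
  have h3 : 2 ^ (m + 1) ∣ i * 2 := by rw [← hx]; exact orderOf_dvd_of_pow_eq_one h2
  have h4 : 2 ^ m ∣ i := by
    rw [pow_succ] at h3
    exact Nat.dvd_of_mul_dvd_mul_right (by norm_num) h3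
  obtain ⟨j, rfl⟩ := h4
  have hz2 : (x ^ 2 ^ m) ^ 2 = 1 := by
    rw [← pow_mul, ← pow_succ, ← hx]; exact pow_orderOf_eq_one _
  have hjo : j % 2 = 1 := by
    rcases Nat.mod_two_eq_zero_or_one j with h0 | h0
    · exfalso
      have h5 : g ^ (2 ^ l) = 1 := by
        rw [← hi', pow_mul, ← Nat.div_add_mod j 2, h0, add_zero, pow_mul, hz2, one_pow]
      rw [h5, orderOf_one] at h1
      norm_num at h1
    · exact h0
  have h6 : x ^ 2 ^ m = g ^ (2 ^ l) := by
    rw [← hi', pow_mul, ← Nat.div_add_mod j 2, hjo, pow_add, pow_mul, hz2, one_pow, one_mul, pow_one]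
  rw [h6]
  exact Subgroup.npow_mem_zpowers g _

include hρ hirr hns in
theorem maxclass_count (h2q : (2 : ZMod q) ≠ 0) (n : ℕ) (hn : 2 ≤ n) (x y : G) (hx : orderOf x = 2 ^ n)
    (hcard : Nat.card G = 2 ^ (n + 1)) (hy : y * y = 1) (hyC : y ∉ Subgroup.zpowers x) (e : ℕ)
    (hyx : y * x * y⁻¹ = x ^ e) (hez : (x ^ (2 ^ (n - 2))) ^ e = x ^ (2 ^ (n - 2)) * x ^ (2 ^ (n - 1)))
    (he : Odd e) :
    ∃ d : ℕ, Nat.card V = (q ^ d) ^ 2 ∧ 1 < q ^ d ∧
      Nat.card {c : G // c ∈ Subgroup.zpowers x ∧ c ^ (e + 1) = 1} = q ^ d + 1 := by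
  classical
  have := Fintype.ofFinite G
  have := Fintype.ofFinite V
  obtain ⟨z, hz⟩ : ∃ z, z = x ^ (2 ^ (n - 1)) := ⟨_, rfl⟩
  obtain ⟨C, hC⟩ : ∃ C : Subgroup G, C = Subgroup.zpowers x := ⟨_, rfl⟩
  rw [← hC] at hyC
  have hxC : x ∈ C := by rw [hC]; exact Subgroup.mem_zpowers x
  have hyi : y⁻¹ = y := by rw [inv_eq_iff_mul_eq_one]; exact hy
  have hCi : C.index = 2 := by
    have h1 := C.card_mul_index
    rw [hC, Nat.card_zpowers, hx, hcard, ← hC] at h1
    have h2 : 2 ^ (n + 1) = 2 ^ n * 2 := by ring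
    rw [h2] at h1
    exact Nat.eq_of_mul_eq_mul_left (by positivity) h1
  have hzz : z * z = 1 := by
    rw [hz, ← pow_add, ← two_mul, ← pow_succ', Nat.sub_add_cancel (by omega), ← hx]
    exact pow_orderOf_eq_one x
  have hz1 : z ≠ 1 := by
    intro h
    rw [hz] at h
    have h1 := orderOf_dvd_of_pow_eq_one h
    rw [hx] at h1
    have h2 := Nat.le_of_dvd (by positivity) h1
    have h3 : 2 ^ (n - 1) < 2 ^ n := Nat.pow_lt_pow_right (by norm_num) (by omega)
    omega
  have hcom : ∀ a ∈ C, ∀ b ∈ C, a * b = b * a := by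
    intro a ha b hb
    rw [hC] at ha hb
    obtain ⟨i, rfl⟩ := Subgroup.mem_zpowers_iff.1 ha
    obtain ⟨j, rfl⟩ := Subgroup.mem_zpowers_iff.1 hb
    rw [← zpow_add, ← zpow_add, add_comm]
  have hzC : z ∈ C := by rw [hz]; exact C.pow_mem hxC _
  have hyc : ∀ c ∈ C, y * c * y⁻¹ = c ^ e := by
    intro c hc
    rw [hC] at hc
    obtain ⟨i, rfl⟩ := Subgroup.mem_zpowers_iff.1 hc
    rw [← conj_zpow, hyx, ← zpow_natCast, ← zpow_natCast, ← zpow_mul, ← zpow_mul, mul_comm]
  have hzcen : ∀ g : G, g * z = z * g := by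
    have h1 : y * z = z * y := by
      have h2 := hyc z hzC
      obtain ⟨k, hk⟩ := he
      rw [hk, pow_succ, pow_mul, pow_two, hzz, one_pow, one_mul] at h2
      exact mul_inv_eq_iff_eq_mul.1 h2
    intro g
    by_cases hg : g ∈ C
    · exact hcom g hg z hzC
    · have h3 : y⁻¹ * g ∈ C := by
        rw [Subgroup.mul_mem_iff_of_index_two hCi]
        constructor
        · intro h; exact absurd (inv_mem_iff.1 h) hyC
        · intro h; exact absurd h hg
      have h4 := hcom _ h3 z hzC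
      have h5 : g = y * (y⁻¹ * g) := by group
      rw [h5, mul_assoc, h4, ← mul_assoc, h1, mul_assoc]
  have hρz : ∀ v, ρ z v = - v := by
    intro v
    have h1 : ρ z (v + ρ z v) = v + ρ z v := by
      rw [map_add, ← mul_apply', hzz, map_one, add_comm]
      rfl
    have h2 := fix_central q ρ hρ hirr hzcen hz1 _ h1
    exact eq_neg_of_add_eq_zero_right h2
  have hnot : ∀ v : V, v ≠ 0 → z ∉ stab q ρ v := by
    intro v hv hzv
    rw [mem_stab, hρz] at hzv
    apply hv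
    have h1 : (2 : ZMod q) • v = 0 := by
      rw [two_smul]
      nth_rewrite 1 [← hzv]
      exact neg_add_cancel v
    exact (smul_eq_zero.1 h1).resolve_left h2q
  have hCv : ∀ v : V, v ≠ 0 → ∀ g ∈ C, g ∈ stab q ρ v → g = 1 := by
    intro v hv g hg hgv
    by_contra hg1
    apply hnot v hv
    rw [hC] at hg
    have := invol_mem (by omega) hx hg hg1
    rw [← hz] at this
    exact (Subgroup.zpowers_le.2 hgv) this
  have hsq : ∀ g : G, g * g ∈ C := fun g => Subgroup.mul_self_mem_of_index_two hCi g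
  -- the involutions outside `C`
  obtain ⟨I, hI⟩ : ∃ I : Finset G, I = Finset.univ.filter (fun t => t ∉ C ∧ t * t = 1) := ⟨_, rfl⟩
  have hmemI : ∀ t, t ∈ I ↔ t ∉ C ∧ t * t = 1 := by
    intro t; rw [hI, Finset.mem_filter]; simp
  obtain ⟨U, hU⟩ : ∃ U : Finset V, U = Finset.univ.filter (fun v => v ≠ 0) := ⟨_, rfl⟩
  have hmemU : ∀ v, v ∈ U ↔ v ≠ 0 := by
    intro v; rw [hU, Finset.mem_filter]; simp
  have hone : ∀ v ∈ U, (I.filter (fun t => ρ t v = v)).card = 1 := by
    intro v hv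
    rw [hmemU] at hv
    rw [Finset.card_eq_one]
    obtain ⟨⟨g, hgv⟩, hg1⟩ := Subgroup.ne_bot_iff_exists_ne_one.1 (hns v hv)
    have hg1' : (g : G) ≠ 1 := fun h => hg1 (Subtype.ext h)
    have hgC : (g : G) ∉ C := fun h => hg1' (hCv v hv _ h hgv)
    have hgg : (g : G) * g = 1 := hCv v hv _ (hsq _) (mul_mem hgv hgv)
    refine ⟨g, ?_⟩
    ext t
    rw [Finset.mem_filter, Finset.mem_singleton, hmemI]
    constructor
    · rintro ⟨⟨htC, -⟩, htv⟩
      have h1 : (g : G)⁻¹ * t ∈ C := by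
        rw [Subgroup.mul_mem_iff_of_index_two hCi]
        constructor
        · intro h; exact absurd (inv_mem_iff.1 h) hgC
        · intro h; exact absurd h htC
      have h2 := hCv v hv _ h1 (mul_mem (inv_mem hgv) htv)
      exact (inv_mul_eq_one.1 h2).symm
    · rintro rfl
      exact ⟨⟨hgC, hgg⟩, hgv⟩
  -- conjugation
  have hconj : ∀ t ∉ C, x ^ (2 ^ (n - 2)) * t * (x ^ (2 ^ (n - 2)))⁻¹ = t * z := by
    intro t ht
    obtain ⟨w, hw⟩ : ∃ w, w = x ^ (2 ^ (n - 2)) := ⟨_, rfl⟩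
    rw [← hw, ← hz] at hez
    rw [← hw]
    have hwC : w ∈ C := by rw [hw]; exact C.pow_mem hxC _
    have h3 : y⁻¹ * t ∈ C := by
      rw [Subgroup.mul_mem_iff_of_index_two hCi]
      constructor
      · intro h; exact absurd (inv_mem_iff.1 h) hyC
      · intro h; exact absurd h ht
    obtain ⟨c, hc⟩ : ∃ c, c = y⁻¹ * t := ⟨_, rfl⟩
    rw [← hc] at h3
    have ht' : t = y * c := by rw [hc]; group
    have h4 : y * w * y⁻¹ = w * z := by rw [hyc w hwC, hez]
    have h5 : w * y = y * (w * z) := by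
      have h6 : y * w = w * z * y := mul_inv_eq_iff_eq_mul.1 h4
      have h7 : w * y = y * (y * w) * y := by rw [← mul_assoc, hy, one_mul]
      rw [h7, h6]
      have : y * (w * z * y) * y = y * (w * z) * (y * y) := by group
      rw [this, hy, mul_one]
    rw [ht', ← mul_assoc w y c, h5]
    have h8 : y * (w * z) * c * w⁻¹ = y * (z * (w * c) * w⁻¹) := by
      rw [hcom w hwC z hzC]; group
    rw [h8, hcom w hwC c h3]
    have h9 : y * (z * (c * w) * w⁻¹) = y * (z * c) := by group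
    rw [h9, hcom z hzC c h3]
    group
  have hfixeq : ∀ t ∈ I, Nat.card (fix q ρ (t * z)) = Nat.card (fix q ρ t) := by
    intro t ht
    rw [hmemI] at ht
    rw [← hconj t ht.1]
    obtain ⟨w, hw⟩ : ∃ w, w = x ^ (2 ^ (n - 2)) := ⟨_, rfl⟩
    rw [← hw]
    refine Nat.card_congr (Equiv.subtypeEquiv (ρ w⁻¹).toEquiv ?_)
    intro v
    constructor
    · intro hv
      have hv' : ρ (w * t * w⁻¹) v = v := hv
      show ρ t (ρ w⁻¹ v) = ρ w⁻¹ v
      conv_rhs => rw [← hv']
      rw [← mul_apply', ← mul_apply']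
      congr 2
      group
    · intro hv
      have hv' : ρ t (ρ w⁻¹ v) = ρ w⁻¹ v := hv
      show ρ (w * t * w⁻¹) v = v
      rw [mul_apply', mul_apply', hv', ← mul_apply', mul_inv_cancel, map_one]
      rfl
  have hV : ∀ t ∈ I, Nat.card V = Nat.card (fix q ρ t) ^ 2 := by
    intro t ht
    have ht' := (hmemI t).1 ht
    have hcompl : IsCompl (fix q ρ t) (fix q ρ (t * z)) := by
      have htz : ∀ v, ρ (t * z) v = - ρ t v := by
        intro v
        rw [mul_apply', hρz, map_neg]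
      constructor
      · rw [Submodule.disjoint_def]
        intro v h1 h2
        rw [mem_fix] at h1 h2
        rw [htz, h1] at h2
        by_contra hv
        apply hnot v hv
        rw [mem_stab, hρz]
        exact h2
      · rw [codisjoint_iff, eq_top_iff]
        intro v _
        have h3 : ρ t (ρ t v) = v := by rw [← mul_apply', ht'.2, map_one]; rfl
        have h1 : (2 : ZMod q)⁻¹ • (v + ρ t v) ∈ fix q ρ t := by
          apply Submodule.smul_mem
          rw [mem_fix, map_add, h3, add_comm]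
        have h2 : (2 : ZMod q)⁻¹ • (v - ρ t v) ∈ fix q ρ (t * z) := by
          apply Submodule.smul_mem
          rw [mem_fix, htz, map_sub, h3, neg_sub]
        have h4 : v = (2 : ZMod q)⁻¹ • (v + ρ t v) + (2 : ZMod q)⁻¹ • (v - ρ t v) := by
          rw [← smul_add, add_add_sub_cancel, ← two_smul (ZMod q) v, smul_smul, inv_mul_cancel₀ h2q, one_smul]
        rw [h4]
        exact Submodule.add_mem_sup h1 h2
    have h5 : Nat.card V = Nat.card (fix q ρ t × fix q ρ (t * z)) :=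
      Nat.card_congr (Submodule.prodEquivOfIsCompl _ _ hcompl).symm.toEquiv
    rw [h5, Nat.card_prod, hfixeq t ht, pow_two]
  -- the count
  obtain ⟨v0, hv0⟩ := exists_ne (0 : V)
  have hIne : I.Nonempty := by
    have h1 := hone v0 ((hmemU v0).2 hv0)
    obtain ⟨t, ht⟩ := Finset.card_pos.1 (by rw [h1]; norm_num : 0 < (I.filter (fun t => ρ t v0 = v0)).card)
    exact ⟨t, (Finset.mem_filter.1 ht).1⟩
  obtain ⟨t0, ht0⟩ := hIne
  obtain ⟨F, hF⟩ : ∃ F, F = Nat.card (fix q ρ t0) := ⟨_, rfl⟩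
  have hF2 : Nat.card V = F ^ 2 := by rw [hF]; exact hV t0 ht0
  have hFt : ∀ t ∈ I, Nat.card (fix q ρ t) = F := by
    intro t ht
    have h1 := hV t ht
    rw [hF2] at h1
    exact (Nat.pow_left_injective (n := 2) (by norm_num) h1).symm
  have hF1 : 1 < F := by
    have h1 : 1 < Nat.card V := Finite.one_lt_card
    rw [hF2] at h1
    by_contra hcon
    have h2 : F ≤ 1 := by omega
    have : F ^ 2 ≤ 1 ^ 2 := Nat.pow_le_pow_left h2 2
    omega
  have hsum : ∑ t ∈ I, (U.filter (fun v => ρ t v = v)).card = ∑ v ∈ U, (I.filter (fun t => ρ t v = v)).card :=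
    Finset.sum_card_bipartiteAbove_eq_sum_card_bipartiteBelow (fun t v => ρ t v = v)
  have hUcard : U.card = F ^ 2 - 1 := by
    rw [hU, Finset.filter_ne', Finset.card_erase_of_mem (Finset.mem_univ _), Finset.card_univ, ← Nat.card_eq_fintype_card,
      hF2]
  have hleft : ∀ t ∈ I, (U.filter (fun v => ρ t v = v)).card = F - 1 := by
    intro t ht
    have h1 : U.filter (fun v => ρ t v = v) = (Finset.univ.filter (fun v => ρ t v = v)).erase 0 := by
      ext v
      rw [Finset.mem_filter, hmemU, Finset.mem_erase, Finset.mem_filter]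
      simp
    rw [h1, Finset.card_erase_of_mem (by rw [Finset.mem_filter]; exact ⟨Finset.mem_univ _, map_zero _⟩)]
    have h2 : (Finset.univ.filter (fun v => ρ t v = v)).card = Nat.card (fix q ρ t) := by
      rw [← Fintype.card_subtype, ← Nat.card_eq_fintype_card]
      rfl
    rw [h2, hFt t ht]
  rw [Finset.sum_congr rfl hone, Finset.sum_congr rfl hleft, Finset.sum_const, Finset.sum_const, smul_eq_mul,
    smul_eq_mul, mul_one, hUcard] at hsum
  have hIF : I.card = F + 1 := by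
    obtain ⟨f, rfl⟩ : ∃ f, F = f + 1 := ⟨F - 1, by omega⟩
    have h3 : (f + 1) ^ 2 - 1 = (f + 1 + 1) * f := by
      have : (f + 1) ^ 2 = (f + 1 + 1) * f + 1 := by ring
      omega
    rw [h3, Nat.add_sub_cancel] at hsum
    exact Nat.eq_of_mul_eq_mul_right (by omega) hsum
  have hIc : Nat.card {c : G // c ∈ Subgroup.zpowers x ∧ c ^ (e + 1) = 1} = I.card := by
    rw [← hC, Nat.card_eq_fintype_card, Fintype.card_subtype]
    refine Finset.card_bij (fun c _ => y * c) ?_ ?_ ?_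
    · intro c hc
      rw [Finset.mem_filter] at hc
      obtain ⟨-, hcC, hce⟩ := hc
      rw [hmemI]
      refine ⟨?_, ?_⟩
      · rw [Subgroup.mul_mem_iff_of_index_two hCi]
        intro h
        exact hyC (h.2 hcC)
      · have h1 := hyc c hcC
        rw [hyi] at h1
        calc y * c * (y * c) = (y * c * y) * c := by group
          _ = c ^ (e + 1) := by rw [h1, pow_succ]
          _ = 1 := hce
    · intro a _ b _ hab
      exact mul_left_cancel hab
    · intro t ht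
      rw [hmemI] at ht
      have h3 : y⁻¹ * t ∈ C := by
        rw [Subgroup.mul_mem_iff_of_index_two hCi]
        constructor
        · intro h; exact absurd (inv_mem_iff.1 h) hyC
        · intro h; exact absurd h ht.1
      refine ⟨y⁻¹ * t, ?_, by group⟩
      rw [Finset.mem_filter]
      refine ⟨Finset.mem_univ _, h3, ?_⟩
      rw [pow_succ, ← hyc _ h3]
      calc y * (y⁻¹ * t) * y⁻¹ * (y⁻¹ * t) = t * (y⁻¹ * y⁻¹) * t := by group
        _ = 1 := by rw [hyi, hy, mul_one]; exact ht.2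
  have hFq : F = q ^ (Module.finrank (ZMod q) (fix q ρ t0)) := by
    rw [hF, Nat.card_eq_fintype_card, Module.card_eq_pow_finrank (K := ZMod q), ZMod.card]
  refine ⟨Module.finrank (ZMod q) (fix q ρ t0), ?_, ?_, ?_⟩
  · rw [← hFq]; exact hF2
  · rw [← hFq]; exact hF1
  · rw [hIc, hIF, hFq]

include hρ hirr hns in
/-- the dihedral case. -/
theorem dihedral (h2q : (2 : ZMod q) ≠ 0) (hG : IsPGroup 2 G) (hnab : ¬ ∀ a b : G, a * b = b * a) {n0 : ℕ}
    (h : Nonempty (G ≃* DihedralGroup n0)) :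
    Nat.card V = q ^ 2 ∧ ∃ m : ℕ, q = 2 ^ m - 1 ∧ Nonempty (G ≃* DihedralGroup (2 ^ m)) := by
  obtain ⟨φ⟩ := h
  have hn0 : n0 ≠ 0 := by
    rintro rfl
    have : Finite (DihedralGroup 0) := Finite.of_equiv _ φ.toEquiv
    exact not_finite (DihedralGroup 0)
  haveI : NeZero n0 := ⟨hn0⟩
  have hcard : Nat.card G = 2 * n0 := by
    rw [Nat.card_congr φ.toEquiv, DihedralGroup.nat_card]
  obtain ⟨k, hk⟩ := (IsPGroup.iff_card.1 hG)
  have hk1 : 1 ≤ k := by
    by_contra hcon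
    have : k = 0 := by omega
    rw [this, hcard] at hk
    omega
  obtain ⟨n, rfl⟩ : ∃ n, k = n + 1 := ⟨k - 1, by omega⟩
  have hn : n0 = 2 ^ n := by
    rw [hcard, pow_succ] at hk
    omega
  subst hn
  have hn2 : 2 ≤ n := by
    by_contra hcon
    apply hnab
    intro a b
    apply φ.injective
    rw [map_mul, map_mul]
    have : n = 0 ∨ n = 1 := by omega
    rcases this with rfl | rfl
    · revert a b
      have : ∀ u v : DihedralGroup (2 ^ 0), u * v = v * u := by decide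
      intro a b; exact this _ _
    · have : ∀ u v : DihedralGroup (2 ^ 1), u * v = v * u := by decide
      exact this _ _
  obtain ⟨x, hx⟩ : ∃ x : G, φ x = DihedralGroup.r 1 := ⟨φ.symm _, φ.apply_symm_apply _⟩
  obtain ⟨y, hy⟩ : ∃ y : G, φ y = DihedralGroup.sr 0 := ⟨φ.symm _, φ.apply_symm_apply _⟩
  have hxo : orderOf x = 2 ^ n := by
    rw [← MulEquiv.orderOf_eq φ, hx, DihedralGroup.orderOf_r_one]
  have hyy : y * y = 1 := by
    apply φ.injective
    rw [map_mul, hy, map_one]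
    simp
  have hyC : y ∉ Subgroup.zpowers x := by
    intro hmem
    obtain ⟨i, hi⟩ := Subgroup.mem_zpowers_iff.1 hmem
    have h1 := congrArg φ hi
    rw [map_zpow, hx, hy] at h1
    rw [DihedralGroup.r_one_zpow] at h1
    exact absurd h1 (by simp)
  have hyx : y * x * y⁻¹ = x⁻¹ := by
    apply φ.injective
    rw [map_mul, map_mul, map_inv, map_inv, hx, hy]
    simp
  have hxe : x⁻¹ = x ^ (2 ^ n - 1) := by
    rw [inv_eq_iff_mul_eq_one, ← pow_succ', Nat.sub_add_cancel Nat.one_le_two_pow, ← hxo]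
    exact pow_orderOf_eq_one x
  have hxn : x ^ (2 ^ n) = 1 := by rw [← hxo]; exact pow_orderOf_eq_one x
  obtain ⟨d, h1, h2, h3⟩ := maxclass_count q ρ hρ hirr hns h2q n hn2 x y hxo hk hyy hyC (2 ^ n - 1)
    (by rw [hyx, hxe]) (by
      obtain ⟨m, rfl⟩ : ∃ m, n = m + 2 := ⟨n - 2, by omega⟩
      simp only [Nat.add_sub_cancel, show m + 2 - 1 = m + 1 by omega]
      rw [← pow_mul, mul_comm, pow_mul, ← hxe, inv_pow, inv_eq_iff_mul_eq_one, ← mul_assoc, ← pow_add, ← pow_add]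
      have : 2 ^ m + 2 ^ m + 2 ^ (m + 1) = 2 ^ (m + 2) := by ring
      rw [this, hxn])
    (by
      obtain ⟨m, rfl⟩ : ∃ m, n = m + 1 := ⟨n - 1, by omega⟩
      refine ⟨2 ^ m - 1, ?_⟩
      have : 1 ≤ 2 ^ m := Nat.one_le_two_pow
      rw [pow_succ]
      omega)
  have h4 : Nat.card {c : G // c ∈ Subgroup.zpowers x ∧ c ^ (2 ^ n - 1 + 1) = 1} = 2 ^ n := by
    rw [Nat.sub_add_cancel Nat.one_le_two_pow, ← hxo, ← Nat.card_zpowers]
    refine Nat.card_congr (Equiv.subtypeEquivRight ?_)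
    intro c
    constructor
    · exact fun h => h.1
    · intro h
      refine ⟨h, ?_⟩
      rw [Nat.card_zpowers]
      exact orderOf_dvd_iff_pow_eq_one.1 (orderOf_dvd_of_mem_zpowers h)
  rw [h4] at h3
  have hq1 : 1 < q := hq.out.one_lt
  have hd : d = 1 := by
    apply pow_add_one_two hq1 _ hn2 h3.symm
    rintro rfl
    simp at h2
  subst hd
  rw [pow_one] at h1 h3
  exact ⟨h1, n, by omega, ⟨φ⟩⟩

include hρ hirr hns in
/-- the semidihedral case. -/
theorem semidihedral (h2q : (2 : ZMod q) ≠ 0) (h : Cfsg.IsQuasiDihedral G) :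
    Nat.card V = q ^ 2 ∧ ∃ m : ℕ, q = 2 ^ m - 1 ∧ Nat.card G = 2 ^ (m + 2) := by
  obtain ⟨n, hn, hcard, x, y, hx, hy, hyx⟩ := h
  have hyy : y * y = 1 := by
    rw [← pow_two, ← hy]; exact pow_orderOf_eq_one y
  have hxn : x ^ (2 ^ n) = 1 := by rw [← hx]; exact pow_orderOf_eq_one x
  obtain ⟨m, rfl⟩ : ∃ m, n = m + 3 := ⟨n - 3, by omega⟩
  simp only [show m + 3 - 1 = m + 2 by omega] at hyx
  have hpos : 1 ≤ 2 ^ m := Nat.one_le_two_pow
  have e2 : 2 ^ (m + 2) = 4 * 2 ^ m := by ring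
  have e3 : 2 ^ (m + 3) = 8 * 2 ^ m := by ring
  have e1 : 2 ^ (m + 1) = 2 * 2 ^ m := by ring
  have hyC : y ∉ Subgroup.zpowers x := by
    intro hmem
    obtain ⟨i, hi⟩ := Subgroup.mem_zpowers_iff.1 hmem
    have h1 : y * x * y⁻¹ = x := by
      rw [← hi]; group
    rw [h1] at hyx
    have h2 : x ^ (2 ^ (m + 2) - 2) = 1 := by
      have h3 : x ^ (2 ^ (m + 2) - 1) = x * x ^ (2 ^ (m + 2) - 2) := by
        rw [← pow_succ']; congr 1; omega
      rw [h3] at hyx
      exact (left_eq_mul.1 hyx)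
    have h3 := orderOf_dvd_of_pow_eq_one h2
    rw [hx] at h3
    have h4 := Nat.le_of_dvd (by omega) h3
    omega
  obtain ⟨d, h1, h2, h3⟩ := maxclass_count q ρ hρ hirr hns h2q (m + 3) (by omega) x y hx hcard hyy hyC
    (2 ^ (m + 2) - 1) hyx (by
      simp only [show m + 3 - 2 = m + 1 by omega, show m + 3 - 1 = m + 2 by omega]
      rw [← pow_mul, ← pow_add, ← Nat.div_add_mod (2 ^ (m + 1) * (2 ^ (m + 2) - 1)) (2 ^ (m + 3)), pow_add, pow_mul, hxn,
        one_pow, one_mul]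
      congr 1
      have h5 : 2 ^ (m + 1) * (2 ^ (m + 2) - 1) = 2 ^ (m + 3) * (2 ^ m - 1) + (2 ^ (m + 1) + 2 ^ (m + 2)) := by
        obtain ⟨u, hu⟩ : ∃ u, 2 ^ m = u + 1 := ⟨2 ^ m - 1, by omega⟩
        rw [e1, e2, e3, hu]
        have h6 : 4 * (u + 1) - 1 = 4 * u + 3 := by omega
        rw [h6, Nat.add_sub_cancel]
        ring
      rw [h5, Nat.mul_add_mod, Nat.mod_eq_of_lt]
      omega)
    (by
      refine ⟨2 ^ (m + 1) - 1, ?_⟩
      omega)
  have h4 : Nat.card {c : G // c ∈ Subgroup.zpowers x ∧ c ^ (2 ^ (m + 2) - 1 + 1) = 1} = 2 ^ (m + 2) := by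
    rw [Nat.sub_add_cancel Nat.one_le_two_pow]
    have ho : orderOf (x ^ 2) = 2 ^ (m + 2) := by
      rw [orderOf_pow' _ (by norm_num), hx]
      have : Nat.gcd (2 ^ (m + 3)) 2 = 2 := by
        apply Nat.gcd_eq_right
        exact dvd_pow_self 2 (by omega)
      rw [this, e3, e2]
      omega
    have hcz : Nat.card (Subgroup.zpowers (x ^ 2)) = 2 ^ (m + 2) := by rw [Nat.card_zpowers, ho]
    refine Eq.trans (Nat.card_congr (Equiv.subtypeEquivRight ?_)) hcz
    intro c
    constructor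
    · rintro ⟨hc, hc2⟩
      obtain ⟨i, hi⟩ := (mem_powers_iff_mem_zpowers.2 hc : c ∈ Submonoid.powers x)
      have hi' : x ^ i = c := hi
      rw [← hi', ← pow_mul] at hc2
      have h5 := orderOf_dvd_of_pow_eq_one hc2
      rw [hx, show 2 ^ (m + 3) = 2 * 2 ^ (m + 2) by ring] at h5
      have h6 : 2 ∣ i := Nat.dvd_of_mul_dvd_mul_right (by positivity) h5
      obtain ⟨j, rfl⟩ := h6
      rw [← hi', pow_mul]
      exact Subgroup.npow_mem_zpowers _ _
    · intro hc
      obtain ⟨i, hi⟩ := Subgroup.mem_zpowers_iff.1 hc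
      refine ⟨?_, ?_⟩
      · rw [← hi]
        exact zpow_mem (pow_mem (Subgroup.mem_zpowers x) 2) i
      · rw [← ho]
        exact orderOf_dvd_iff_pow_eq_one.1 (orderOf_dvd_of_mem_zpowers hc)
  rw [h4] at h3
  have hq1 : 1 < q := hq.out.one_lt
  have hd : d = 1 := by
    apply pow_add_one_two hq1 _ _ h3.symm
    · rintro rfl
      simp at h2
    · omega
  subst hd
  rw [pow_one] at h1 h3
  refine ⟨h1, m + 2, by omega, ?_⟩
  rw [hcard]

end

end Cfsg.Agent.Lib.H56Half
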