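import Mathlib
import Cfsg.Agent.Lib.H56HalfB

set_option autoImplicit false

/-! Half-transitive linear `p`-groups, III: the imprimitive case (S3371). -/

namespace Cfsg.Agent.Lib.H56Half

open H56Imprim

theorem relIndex_mul_card' {G : Type*} [Group G] (S T : Subgroup G) (h : S ≤ T) :
    S.relIndex T * Nat.card S = Nat.card T := by
  have h1 : Nat.card (S.subgroupOf T) = Nat.card S :=
    Nat.card_congr (Subgroup.subgroupOfEquivOfLe h).toEquiv
  rw [← h1]
  exact (S.subgroupOf T).index_mul_card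

theorem perm_no_fixed {p : ℕ} (hp : p.Prime) {σ : Equiv.Perm (Fin p)} (hσ : orderOf σ = p) :
    σ.IsCycle ∧ ∀ i, σ i ≠ i := by
  have h1 : σ.IsCycle := by
    apply Equiv.Perm.isCycle_of_prime_order'
    · rw [hσ]; exact hp
    · rw [hσ, Fintype.card_fin]
      have := hp.pos
      omega
  refine ⟨h1, fun i => ?_⟩
  have h2 : σ.support = Finset.univ := by
    rw [← Finset.card_eq_iff_eq_univ, ← h1.orderOf, hσ, Fintype.card_fin]
  have h3 : i ∈ σ.support := by rw [h2]; exact Finset.mem_univ i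
  exact Equiv.Perm.mem_support.1 h3

section

variable (q : ℕ) [hq : Fact q.Prime] {V : Type*} [AddCommGroup V] [Module (ZMod q) V] [Finite V] [Nontrivial V]
    {G : Type*} [Group G] [Finite G] (ρ : G →* (V ≃ₗ[ZMod q] V))
  (hρ : Function.Injective ρ)
  (hs : ∀ v w : V, v ≠ 0 → w ≠ 0 → Nat.card (stab q ρ v) = Nat.card (stab q ρ w))
  (hns : ∀ v : V, v ≠ 0 → stab q ρ v ≠ ⊥)

theorem map_ne {g : G} {v : V} (hv : v ≠ 0) : ρ g v ≠ 0 := by
  intro h
  exact hv ((ρ g).map_eq_zero_iff.1 h)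

include hρ hs hns in
theorem prime_two (p : ℕ) [hp : Fact p.Prime] (H : Subgroup G) (W : Fin p → Submodule (ZMod q) V) (hHi : H.index = p)
    (hsup : iSup W = ⊤) (hind : iSupIndep W) (hH : ∀ h ∈ H, ∀ i, ∀ w ∈ W i, ρ h w ∈ W i)
    (hout : ∀ g : G, g ∉ H → ∃ σ : Equiv.Perm (Fin p), orderOf σ = p ∧
      ∀ i, (W i).map (ρ g : V →ₗ[ZMod q] V) = W (σ i)) : p = 2 := by
  by_contra hp2
  have hodd : Odd p := hp.out.odd_of_ne_two hp2
  have hHne : H ≠ ⊤ := by
    rintro rfl
    rw [Subgroup.index_top] at hHi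
    exact hp.out.one_lt.ne hHi
  obtain ⟨g0, hg0⟩ : ∃ g0, g0 ∉ H := by
    by_contra hcon
    push Not at hcon
    exact hHne ((Subgroup.eq_top_iff' H).2 hcon)
  have hWne : ∀ i, W i ≠ ⊥ := by
    intro i hi
    obtain ⟨σ, hσ, hσW⟩ := hout g0 hg0
    obtain ⟨hc, hnf⟩ := perm_no_fixed hp.out hσ
    have hk : ∀ k : ℕ, W ((σ ^ k) i) = ⊥ := by
      intro k
      induction k with
      | zero => exact hi
      | succ k ih =>
        rw [pow_succ', Equiv.Perm.mul_apply, ← hσW, ih, Submodule.map_bot]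
    have hall : ∀ j, W j = ⊥ := by
      intro j
      obtain ⟨k, hk'⟩ := hc.exists_pow_eq (hnf i) (hnf j)
      rw [← hk']; exact hk k
    have : (⊤ : Submodule (ZMod q) V) = ⊥ := by
      rw [← hsup]; simp [hall]
    exact top_ne_bot this
  have hpair : ∀ i j, i ≠ j → Disjoint (W i) (W j) := fun i j hij => hind.pairwiseDisjoint hij
  have key : ∀ i j, i ≠ j → ∀ a ∈ W i, ∀ b ∈ W j, a ≠ 0 → b ≠ 0 → stab q ρ a = stab q ρ b := by
    intro i j hij a ha b hb ha0 hb0
    have hab0 : a + b ≠ 0 := by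
      intro h
      apply ha0
      have h1 : a ∈ W j := by rw [eq_neg_of_add_eq_zero_left h]; exact (W j).neg_mem hb
      exact Submodule.disjoint_def.1 (hpair i j hij) a ha h1
    have hsub : stab q ρ (a + b) ≤ H := by
      intro g hg
      by_contra hgH
      obtain ⟨σ, hσ, hσW⟩ := hout g hgH
      obtain ⟨hc, hnf⟩ := perm_no_fixed hp.out hσ
      rw [mem_stab, map_add] at hg
      have h1 : ∀ i' j' : Fin p, ∀ a' ∈ W i', ∀ b' ∈ W j', i' ≠ j' → a' ≠ 0 → ρ g a' + ρ g b' = a' + b' →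
          σ i' = j' := by
        intro i' j' a' ha' b' hb' hij' ha0' hg'
        by_contra hne
        have h2 : ρ g a' ∈ W (σ i') := by rw [← hσW]; exact Submodule.mem_map_of_mem ha'
        have h3 : ρ g b' ∈ W (σ j') := by rw [← hσW]; exact Submodule.mem_map_of_mem hb'
        have h4 : ρ g a' ∈ ⨆ k ≠ σ i', W k := by
          have h5 : ρ g a' = a' + b' - ρ g b' := by rw [← hg', add_sub_cancel_right]
          rw [h5]
          apply Submodule.sub_mem
          · apply Submodule.add_mem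
            · exact Submodule.mem_iSup_of_mem i' (Submodule.mem_iSup_of_mem (fun h => hnf i' h.symm) ha')
            · exact Submodule.mem_iSup_of_mem j' (Submodule.mem_iSup_of_mem (fun h => hne h.symm) hb')
          · exact Submodule.mem_iSup_of_mem (σ j')
              (Submodule.mem_iSup_of_mem (fun h => hij' (σ.injective h).symm) h3)
        have h5 := Submodule.disjoint_def.1 (hind (σ i')) _ h2 h4
        exact map_ne q ρ ha0' h5
      have h2 : σ i = j := h1 i j a ha b hb hij ha0 hg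
      have h3 : σ j = i := h1 j i b hb a ha hij.symm hb0 (by rw [add_comm, hg, add_comm])
      have h4 : (σ ^ 2) i = i := by rw [pow_two, Equiv.Perm.mul_apply, h2, h3]
      have h5 : ∀ k, ((σ ^ 2) ^ k) i = i := by
        intro k
        induction k with
        | zero => rfl
        | succ k ih => rw [pow_succ, Equiv.Perm.mul_apply, h4, ih]
      obtain ⟨l, hl⟩ := hodd
      have h6 : (σ ^ 2) ^ (l + 1) = σ := by
        rw [← pow_mul]
        have : 2 * (l + 1) = p + 1 := by omega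
        rw [this, pow_succ]
        have h7 : σ ^ p = 1 := orderOf_dvd_iff_pow_eq_one.1 (dvd_of_eq hσ)
        rw [h7, one_mul]
      have h7 := h5 (l + 1)
      rw [h6] at h7
      exact hnf i h7
    have h4 : ∀ g ∈ stab q ρ (a + b), ρ g a = a ∧ ρ g b = b := by
      intro g hg
      have hgH := hsub hg
      rw [mem_stab, map_add] at hg
      have h5 : ρ g a - a = b - ρ g b := by
        rw [sub_eq_sub_iff_add_eq_add, hg, add_comm]
      have h6 : ρ g a - a ∈ W i := (W i).sub_mem (hH g hgH i a ha) ha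
      have h7 : ρ g a - a ∈ W j := by rw [h5]; exact (W j).sub_mem hb (hH g hgH j b hb)
      have h8 := Submodule.disjoint_def.1 (hpair i j hij) _ h6 h7
      rw [h8] at h5
      exact ⟨sub_eq_zero.1 h8, (sub_eq_zero.1 h5.symm).symm⟩
    have h3 : stab q ρ (a + b) ≤ stab q ρ a ∧ stab q ρ (a + b) ≤ stab q ρ b :=
      ⟨fun g hg => (h4 g hg).1, fun g hg => (h4 g hg).2⟩
    rw [← stab_eq_of_le q ρ hs hab0 ha0 h3.1, ← stab_eq_of_le q ρ hs hab0 hb0 h3.2]
  have hp1 : 1 < p := hp.out.one_lt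
  obtain ⟨i0, j0, hij⟩ : ∃ i0 j0 : Fin p, i0 ≠ j0 := ⟨⟨0, by omega⟩, ⟨1, hp1⟩, by simp [Fin.ext_iff]⟩
  obtain ⟨a, ha, ha0⟩ := (Submodule.ne_bot_iff _).1 (hWne i0)
  obtain ⟨b, hb, hb0⟩ := (Submodule.ne_bot_iff _).1 (hWne j0)
  apply hns a ha0
  rw [eq_bot_iff]
  intro g hg
  rw [Subgroup.mem_bot]
  have h1 : fix q ρ g = ⊤ := by
    rw [eq_top_iff, ← hsup]
    apply iSup_le
    intro i w hw
    rw [mem_fix]
    by_cases hw0 : w = 0
    · rw [hw0, map_zero]
    by_cases hi : i = i0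
    · subst hi
      have : g ∈ stab q ρ w := by rw [key i j0 hij w hw b hb hw0 hb0, ← key i j0 hij a ha b hb ha0 hb0]; exact hg
      exact this
    · have : g ∈ stab q ρ w := by rw [key i i0 hi w hw a ha hw0 ha0]; exact hg
      exact this
  apply hρ
  rw [map_one]
  ext w
  have : w ∈ fix q ρ g := by rw [h1]; trivial
  exact this

variable (h2q : (2 : ZMod q) ≠ 0)
  (hirr : ∀ W : Submodule (ZMod q) V, (∀ g : G, ∀ w ∈ W, ρ g w ∈ W) → W = ⊥ ∨ W = ⊤)
  (H : Subgroup G) (hHi : H.index = 2) (W0 W1 : Submodule (ZMod q) V) (hc : IsCompl W0 W1)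
  (hH0 : ∀ h ∈ H, ∀ w ∈ W0, ρ h w ∈ W0) (hH1 : ∀ h ∈ H, ∀ w ∈ W1, ρ h w ∈ W1)
  (hk0 : ∃ h ∈ H, h ≠ 1 ∧ ∀ w ∈ W0, ρ h w = w)
  (hsw0 : ∀ g ∉ H, ∀ w ∈ W0, ρ g w ∈ W1) (hsw1 : ∀ g ∉ H, ∀ w ∈ W1, ρ g w ∈ W0)

include h2q in
theorem eq_zero_of_neg {v : V} (h : v = - v) : v = 0 := by
  have h1 : (2 : ZMod q) • v = 0 := by
    rw [two_smul]
    nth_rewrite 1 [h]
    exact neg_add_cancel v
  exact (smul_eq_zero.1 h1).resolve_left h2q

include hc in
/-- comparing components. -/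
theorem comp_eq {a b c d : V} (ha : a ∈ W0) (hb : b ∈ W1) (hcc : c ∈ W0) (hd : d ∈ W1) (h : a + b = c + d) :
    a = c ∧ b = d := by
  have h5 : a - c = d - b := by
    rw [sub_eq_sub_iff_add_eq_add, h, add_comm]
  have h6 : a - c ∈ W0 ⊓ W1 := ⟨W0.sub_mem ha hcc, by rw [h5]; exact W1.sub_mem hd hb⟩
  rw [hc.inf_eq_bot, Submodule.mem_bot] at h6
  rw [h6] at h5
  exact ⟨sub_eq_zero.1 h6, (sub_eq_zero.1 h5.symm).symm⟩

include hρ hirr hHi hc hH0 hH1 hk0 hsw0 hsw1 in
/-- a vector of `W1` fixed by the kernel on `W0` is zero. -/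
theorem fixK_zero {w : V} (hw : w ∈ W1) (hf : ∀ k ∈ H, (∀ u ∈ W0, ρ k u = u) → ρ k w = w) : w = 0 := by
  have hHn : H.Normal := Subgroup.normal_of_index_eq_two hHi
  let X : Submodule (ZMod q) V :=
    { carrier := {v | ∀ k ∈ H, ((∀ u ∈ W0, ρ k u = u) ∨ (∀ u ∈ W1, ρ k u = u)) → ρ k v = v}
      zero_mem' := fun k _ _ => map_zero _
      add_mem' := by
        intro a b ha hb k hk hk'
        rw [map_add, ha k hk hk', hb k hk hk']
      smul_mem' := by
        intro c a ha k hk hk'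
        rw [map_smul, ha k hk hk'] }
  have hX := hirr X (by
    intro g v hv k hk hk'
    have hv' : ∀ k ∈ H, ((∀ u ∈ W0, ρ k u = u) ∨ (∀ u ∈ W1, ρ k u = u)) → ρ k v = v := hv
    have h1 : g⁻¹ * k * g ∈ H := by
      have := hHn.conj_mem k hk g⁻¹
      rwa [inv_inv] at this
    have h2 : (∀ u ∈ W0, ρ (g⁻¹ * k * g) u = u) ∨ (∀ u ∈ W1, ρ (g⁻¹ * k * g) u = u) := by
      have hred : ∀ u, ρ k (ρ g u) = ρ g u → ρ (g⁻¹ * k * g) u = u := by
        intro u hu
        rw [mul_apply', mul_apply', hu, ← mul_apply', inv_mul_cancel, map_one]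
        rfl
      by_cases hg : g ∈ H
      · rcases hk' with hk' | hk'
        · left; intro u hu; exact hred u (hk' _ (hH0 g hg u hu))
        · right; intro u hu; exact hred u (hk' _ (hH1 g hg u hu))
      · rcases hk' with hk' | hk'
        · right; intro u hu; exact hred u (hk' _ (hsw1 g hg u hu))
        · left; intro u hu; exact hred u (hk' _ (hsw0 g hg u hu))
    have h3 := hv' _ h1 h2
    have h4 : ρ (g * (g⁻¹ * k * g)) v = ρ g v := by rw [mul_apply', h3]
    rw [← mul_apply', ← h4]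
    congr 2
    group)
  rcases hX with hX | hX
  · have : w ∈ X := by
      intro k hk hk'
      rcases hk' with hk' | hk'
      · exact hf k hk hk'
      · exact hk' w hw
    rw [hX] at this
    exact (Submodule.mem_bot _).1 this
  · exfalso
    obtain ⟨k, hk, hk1, hkW⟩ := hk0
    apply hk1
    apply hρ
    rw [map_one]
    ext v
    have hv : v ∈ X := by rw [hX]; trivial
    exact hv k hk (Or.inl hkW)

include hρ hs hns hirr hHi hc hH0 hH1 hk0 hsw0 hsw1 h2q in
/-- elements of the kernel on `W0` act as `±1` on `W1`. -/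
theorem kernel_neg {w0 : V} (hw0 : w0 ∈ W0) (hw00 : w0 ≠ 0) {k : G} (hk : k ∈ H) (hkW : ∀ u ∈ W0, ρ k u = u)
    (hk1 : k ≠ 1) : ∀ w ∈ W1, ρ k w = - w := by
  have hHn : H.Normal := Subgroup.normal_of_index_eq_two hHi
  -- two elements moving `w` agree on `w`
  have hagree : ∀ w ∈ W1, w ≠ 0 → ∀ a ∈ H, ∀ b ∈ H, (∀ u ∈ W0, ρ a u = u) → (∀ u ∈ W0, ρ b u = u) →
      ρ a w ≠ w → ρ b w ≠ w → ρ a w = ρ b w := by
    intro w hw hw_ne a ha b hb haW hbW haw hbw
    have hsum : w0 + w ≠ 0 := by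
      intro h
      apply hw00
      have h1 : w0 ∈ W0 ⊓ W1 := ⟨hw0, by rw [eq_neg_of_add_eq_zero_left h]; exact W1.neg_mem hw⟩
      rw [hc.inf_eq_bot] at h1
      exact (Submodule.mem_bot _).1 h1
    obtain ⟨T, hT⟩ : ∃ T, T = stab q ρ w0 := ⟨_, rfl⟩
    obtain ⟨S, hS⟩ : ∃ S, S = T ⊓ stab q ρ w := ⟨_, rfl⟩
    have haT : a ∈ T := by rw [hT, mem_stab]; exact haW w0 hw0
    have hbT : b ∈ T := by rw [hT, mem_stab]; exact hbW w0 hw0
    have haS : a ∉ S := by rw [hS]; intro h; exact haw h.2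
    have hbS : b ∉ S := by rw [hS]; intro h; exact hbw h.2
    have hST : S ≤ T := by rw [hS]; exact inf_le_left
    have h1 : stab q ρ (w0 + w) ⊓ H ≤ S := by
      rintro g ⟨hg, hgH⟩
      have hg' : ρ g w0 + ρ g w = w0 + w := by rw [← map_add]; exact hg
      have h2 := comp_eq q W0 W1 hc (hH0 g hgH w0 hw0) (hH1 g hgH w hw) hw0 hw hg'
      rw [hS, hT]
      exact ⟨h2.1, h2.2⟩
    have h2 : Nat.card T ≤ 2 * Nat.card S := by
      have h3 : Nat.card T = Nat.card (stab q ρ (w0 + w)) := by rw [hT]; exact hs _ _ hw00 hsum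
      have h4 : Nat.card (stab q ρ (w0 + w)) = Nat.card (stab q ρ (w0 + w) ⊓ H : Subgroup G) *
          (stab q ρ (w0 + w) ⊓ H).relIndex (stab q ρ (w0 + w)) := by
        rw [mul_comm]
        exact (relIndex_mul_card' _ _ inf_le_left).symm
      have h5 : (stab q ρ (w0 + w) ⊓ H).relIndex (stab q ρ (w0 + w)) ≤ 2 := by
        rw [Subgroup.inf_relIndex_left]
        have h6 : H.relIndex (stab q ρ (w0 + w)) ∣ H.index := Subgroup.relIndex_dvd_index_of_normal H _
        rw [hHi] at h6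
        exact Nat.le_of_dvd (by norm_num) h6
      have h6 : Nat.card (stab q ρ (w0 + w) ⊓ H : Subgroup G) ≤ Nat.card S :=
        Nat.card_le_card_of_injective _ (Subgroup.inclusion_injective h1)
      rw [h3, h4, mul_comm]
      exact Nat.mul_le_mul h5 h6
    have h3 : (S.subgroupOf T).index = 2 := by
      have h4 : S.relIndex T * Nat.card S = Nat.card T := relIndex_mul_card' _ _ hST
      have h5 : S.relIndex T ≤ 2 := by
        by_contra hcon
        have h6 : 3 * Nat.card S ≤ S.relIndex T * Nat.card S := Nat.mul_le_mul_right _ (by omega)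
        have h7 : 0 < Nat.card S := Nat.card_pos
        omega
      have h6 : S.relIndex T ≠ 1 := by
        intro h
        rw [Subgroup.relIndex_eq_one] at h
        exact haS (h haT)
      have h7 : S.relIndex T ≠ 0 := by
        intro h
        rw [h, zero_mul] at h4
        exact Nat.card_pos.ne' h4.symm
      have h8 : S.relIndex T = 2 := by omega
      exact h8
    have h4 : (⟨a, haT⟩ : T)⁻¹ * ⟨b, hbT⟩ ∈ S.subgroupOf T := by
      rw [Subgroup.mul_mem_iff_of_index_two h3, inv_mem_iff]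
      constructor
      · intro h; exact absurd h haS
      · intro h; exact absurd h hbS
    have h5 : a⁻¹ * b ∈ S := h4
    have h6 : ρ (a⁻¹ * b) w = w := by rw [hS] at h5; exact h5.2
    have h7 : ρ (a * (a⁻¹ * b)) w = ρ a w := by rw [mul_apply', h6]
    rw [← h7]
    congr 2
    group
  have hpm : ∀ w ∈ W1, ∀ a ∈ H, (∀ u ∈ W0, ρ a u = u) → ρ a w = w ∨ ρ a w = - w := by
    intro w hw a ha haW
    by_cases hw_ne : w = 0
    · left; rw [hw_ne, map_zero]
    by_cases haw : ρ a w = w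
    · left; exact haw
    right
    have h1 : w + ρ a w = 0 := by
      apply fixK_zero q ρ hρ hirr H hHi W0 W1 hc hH0 hH1 hk0 hsw0 hsw1 (W1.add_mem hw (hH1 a ha w hw))
      intro b hb hbW
      have hbaW : ∀ u ∈ W0, ρ (b * a) u = u := by
        intro u hu; rw [mul_apply', haW u hu, hbW u hu]
      have hba : b * a ∈ H := H.mul_mem hb ha
      rw [map_add, ← mul_apply']
      by_cases hbw : ρ b w = w
      · have h2 : ρ (b * a) w ≠ w := by
          intro h
          apply haw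
          rw [mul_apply'] at h
          apply (ρ b).injective
          rw [h, hbw]
        rw [hbw, hagree w hw hw_ne (b * a) hba a ha hbaW haW h2 haw]
      · have h3 : ρ b w = ρ a w := hagree w hw hw_ne b hb a ha hbW haW hbw haw
        have h2 : ρ (b * a) w = w := by
          by_contra h
          have h4 := hagree w hw hw_ne (b * a) hba b hb hbaW hbW h hbw
          rw [mul_apply'] at h4
          exact haw ((ρ b).injective h4)
        rw [h2, h3, add_comm]
    exact eq_neg_of_add_eq_zero_right h1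
  -- a moved vector
  obtain ⟨w', hw', hw'k⟩ : ∃ w' ∈ W1, ρ k w' ≠ w' := by
    by_contra hcon
    push Not at hcon
    apply hk1
    apply hρ
    rw [map_one]
    ext v
    have hv : v ∈ W0 ⊔ W1 := by rw [hc.sup_eq_top]; trivial
    obtain ⟨a, ha, b, hb, rfl⟩ := Submodule.mem_sup.1 hv
    rw [map_add, hkW a ha, hcon b hb]
    rfl
  have hw'n : ρ k w' = - w' := (hpm w' hw' k hk hkW).resolve_left hw'k
  intro w hw
  rcases hpm w hw k hk hkW with h | h
  · rcases hpm (w + w') (W1.add_mem hw hw') k hk hkW with h1 | h1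
    · exfalso
      rw [map_add, h, hw'n] at h1
      have h2 : w' = - w' := by
        have := add_left_cancel h1
        exact this.symm
      have h3 := eq_zero_of_neg q h2q h2
      rw [h3, map_zero] at hw'k
      exact hw'k rfl
    · rw [map_add, h, hw'n, neg_add] at h1
      have h2 : w = - w := add_right_cancel h1
      rw [h, ← h2]
  · exact h

include hρ hs hns hirr hHi hc hH0 hH1 hk0 hsw0 hsw1 h2q in
/-- swapping. -/
theorem exists_swap {w0 w1 : V} (hw0 : w0 ∈ W0) (hw00 : w0 ≠ 0) (hw1 : w1 ∈ W1) (hw10 : w1 ≠ 0) :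
    ∃ g ∉ H, ρ g w0 = w1 ∧ ρ g w1 = w0 := by
  obtain ⟨k, hk, hk1, hkW⟩ := hk0
  have hkn := kernel_neg q ρ hρ hs hns h2q hirr H hHi W0 W1 hc hH0 hH1 ⟨k, hk, hk1, hkW⟩ hsw0 hsw1 hw0 hw00 hk hkW hk1
  have hsum : w0 + w1 ≠ 0 := by
    intro h
    apply hw00
    have h1 : w0 ∈ W0 ⊓ W1 := ⟨hw0, by rw [eq_neg_of_add_eq_zero_left h]; exact W1.neg_mem hw1⟩
    rw [hc.inf_eq_bot] at h1
    exact (Submodule.mem_bot _).1 h1
  have hnot : ¬ stab q ρ (w0 + w1) ≤ H := by
    intro hle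
    have h1 : stab q ρ (w0 + w1) ≤ stab q ρ w0 := by
      intro g hg
      have hg' : ρ g w0 + ρ g w1 = w0 + w1 := by rw [← map_add]; exact hg
      exact (comp_eq q W0 W1 hc (hH0 g (hle hg) w0 hw0) (hH1 g (hle hg) w1 hw1) hw0 hw1 hg').1
    have h2 := stab_eq_of_le q ρ hs hsum hw00 h1
    have h3 : k ∈ stab q ρ (w0 + w1) := by rw [h2]; exact hkW w0 hw0
    rw [mem_stab, map_add, hkW w0 hw0, hkn w1 hw1] at h3
    exact hw10 (eq_zero_of_neg q h2q (add_left_cancel h3).symm)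
  obtain ⟨g, hg, hgH⟩ := SetLike.not_le_iff_exists.1 hnot
  have hg' : ρ g w1 + ρ g w0 = w0 + w1 := by rw [add_comm, ← map_add]; exact hg
  have h1 := comp_eq q W0 W1 hc (hsw1 g hgH w1 hw1) (hsw0 g hgH w0 hw0) hw0 hw1 hg'
  exact ⟨g, hgH, h1.2, h1.1⟩

include hρ hs hns hirr hHi hc hH0 hH1 hk0 hsw0 hsw1 h2q in
theorem two_case (hG : IsPGroup 2 G) :
    (Nat.card V = q ^ 2 ∧ (∃ m : ℕ, q = 2 ^ m + 1) ∧
      ∃ e : V ≃ₗ[ZMod q] (Fin 2 → ZMod q), ∀ f : (Fin 2 → ZMod q) ≃ₗ[ZMod q] (Fin 2 → ZMod q),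
        (∃ g : G, f = e.symm.trans ((ρ g).trans e)) ↔
        ∃ a s : ZMod q, a ≠ 0 ∧ (s = 1 ∨ s = -1) ∧
          ((∀ v, f v = ![a * v 0, s * a⁻¹ * v 1]) ∨ (∀ v, f v = ![s * a⁻¹ * v 1, a * v 0]))) ∨
    (Nat.card V = 81 ∧ q = 3) := by
  classical
  have := Fintype.ofFinite V
  have hHne : H ≠ ⊤ := by
    rintro rfl
    rw [Subgroup.index_top] at hHi
    norm_num at hHi
  obtain ⟨g0, hg0⟩ : ∃ g0, g0 ∉ H := by
    by_contra hcon
    push Not at hcon
    exact hHne ((Subgroup.eq_top_iff' H).2 hcon)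
  obtain ⟨v0, hv0⟩ := exists_ne (0 : V)
  have hW0ne : W0 ≠ ⊥ := by
    rintro rfl
    have h1 : W1 = ⊤ := by simpa using hc.sup_eq_top
    have h2 := hsw1 g0 hg0 v0 (by rw [h1]; trivial)
    exact map_ne q ρ hv0 ((Submodule.mem_bot _).1 h2)
  have hW1ne : W1 ≠ ⊥ := by
    rintro rfl
    have h1 : W0 = ⊤ := by simpa using hc.sup_eq_top
    have h2 := hsw0 g0 hg0 v0 (by rw [h1]; trivial)
    exact map_ne q ρ hv0 ((Submodule.mem_bot _).1 h2)
  obtain ⟨e0, he0, he00⟩ := (Submodule.ne_bot_iff _).1 hW0ne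
  obtain ⟨e1, he1, he10⟩ := (Submodule.ne_bot_iff _).1 hW1ne
  have hswap : ∀ w0 ∈ W0, w0 ≠ 0 → ∀ w1 ∈ W1, w1 ≠ 0 → ∃ g ∉ H, ρ g w0 = w1 ∧ ρ g w1 = w0 :=
    fun w0 h1 h2 w1 h3 h4 =>
      exists_swap q ρ hρ hs hns h2q hirr H hHi W0 W1 hc hH0 hH1 hk0 hsw0 hsw1 h1 h2 h3 h4
  have hprod : ∀ a ∉ H, ∀ b ∉ H, a * b ∈ H := by
    intro a ha b hb
    rw [Subgroup.mul_mem_iff_of_index_two hHi]
    exact ⟨fun h => absurd h ha, fun h => absurd h hb⟩
  have hinv : ∀ a ∉ H, a⁻¹ ∉ H := fun a ha h => ha (inv_mem_iff.1 h)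
  -- cardinalities
  have hcardW : Nat.card W1 = Nat.card W0 := by
    apply le_antisymm
    · refine Nat.card_le_card_of_injective (fun w : W1 => (⟨ρ g0 w, hsw1 g0 hg0 w w.2⟩ : W0)) ?_
      intro a b hab
      exact Subtype.ext ((ρ g0).injective (congrArg Subtype.val hab))
    · refine Nat.card_le_card_of_injective (fun w : W0 => (⟨ρ g0 w, hsw0 g0 hg0 w w.2⟩ : W1)) ?_
      intro a b hab
      exact Subtype.ext ((ρ g0).injective (congrArg Subtype.val hab))
  have hcardV : Nat.card V = Nat.card W0 ^ 2 := by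
    have h5 : Nat.card V = Nat.card (W0 × W1) :=
      Nat.card_congr (Submodule.prodEquivOfIsCompl _ _ hc).symm.toEquiv
    rw [h5, Nat.card_prod, hcardW, pow_two]
  obtain ⟨d, hd⟩ : ∃ d, d = Module.finrank (ZMod q) W0 := ⟨_, rfl⟩
  have hcardW0 : Nat.card W0 = q ^ d := by
    rw [Nat.card_eq_fintype_card, Module.card_eq_pow_finrank (K := ZMod q), ZMod.card, hd]
  have hd0 : d ≠ 0 := by
    rintro rfl
    rw [pow_zero] at hcardW0
    have : Nontrivial W0 := (Submodule.nontrivial_iff_ne_bot).2 hW0ne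
    have h1 : 1 < Nat.card W0 := Finite.one_lt_card
    omega
  -- transitivity
  have horb : {u : V | ∃ g : H, (ρ.comp H.subtype) g e0 = u} = {u : V | u ∈ W0 ∧ u ≠ 0} := by
    ext u
    constructor
    · rintro ⟨g, rfl⟩
      exact ⟨hH0 g g.2 e0 he0, map_ne q ρ he00⟩
    · rintro ⟨hu, hu0⟩
      obtain ⟨g, hg, h1, -⟩ := hswap e0 he0 he00 e1 he1 he10
      obtain ⟨g', hg', h2, h3⟩ := hswap u hu hu0 e1 he1 he10
      refine ⟨⟨g'⁻¹ * g, hprod _ (hinv _ hg') _ hg⟩, ?_⟩
      show ρ (g'⁻¹ * g) e0 = u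
      rw [mul_apply', h1, ← h2, ← mul_apply', inv_mul_cancel, map_one]
      rfl
  have hpow : ∃ m : ℕ, q ^ d = 2 ^ m + 1 := by
    have h1 := card_orbit_mul q (ρ.comp H.subtype) e0
    rw [horb] at h1
    have h2 : Nat.card {u : V | u ∈ W0 ∧ u ≠ 0} = q ^ d - 1 := by
      have h3 : {u : V | u ∈ W0 ∧ u ≠ 0} = (W0 : Set V) \ {0} := by
        ext u; simp
      rw [h3, Nat.card_coe_set_eq, Set.ncard_diff_singleton_of_mem W0.zero_mem]
      rw [← hcardW0]
      rfl
    obtain ⟨k, hk⟩ := IsPGroup.iff_card.1 (hG.to_subgroup H)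
    rw [h2, hk] at h1
    obtain ⟨m, -, hm⟩ := (Nat.dvd_prime_pow Nat.prime_two).1 (Dvd.intro _ h1)
    have : 1 ≤ q ^ d := Nat.one_le_pow _ _ hq.out.pos
    exact ⟨m, by omega⟩
  obtain ⟨m, hm⟩ := hpow
  have hq2 : 2 < q := by
    have h1 : 2 ≤ q := hq.out.two_le
    rcases h1.lt_or_eq with h | h
    · exact h
    · exfalso
      apply h2q
      subst h
      rfl
  rcases pow_sub_one_two hq2 hd0 hm with h1 | ⟨h1, h2⟩
  · -- the two-dimensional case
    left
    have hW0q : Nat.card W0 = q := by rw [hcardW0, h1, pow_one]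
    refine ⟨by rw [hcardV, hW0q], ⟨m, by rw [← hm, h1, pow_one]⟩, ?_⟩
    have hf0 : Module.finrank (ZMod q) W0 = 1 := by rw [← hd, h1]
    have hf1 : Module.finrank (ZMod q) W1 = 1 := by
      have h2 : Nat.card W1 = q ^ Module.finrank (ZMod q) W1 := by
        rw [Nat.card_eq_fintype_card, Module.card_eq_pow_finrank (K := ZMod q), ZMod.card]
      rw [hcardW, hW0q] at h2
      exact (Nat.pow_right_injective hq.out.two_le (by show q ^ 1 = _; rw [pow_one]; exact h2)).symm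
    have hspan0 : ∀ w ∈ W0, ∃ c : ZMod q, c • e0 = w := by
      intro w hw
      obtain ⟨c, hc'⟩ := (finrank_eq_one_iff_of_nonzero' (⟨e0, he0⟩ : W0)
        (fun h => he00 (congrArg Subtype.val h))).1 hf0 ⟨w, hw⟩
      exact ⟨c, congrArg Subtype.val hc'⟩
    have hspan1 : ∀ w ∈ W1, ∃ c : ZMod q, c • e1 = w := by
      intro w hw
      obtain ⟨c, hc'⟩ := (finrank_eq_one_iff_of_nonzero' (⟨e1, he1⟩ : W1)
        (fun h => he10 (congrArg Subtype.val h))).1 hf1 ⟨w, hw⟩
      exact ⟨c, congrArg Subtype.val hc'⟩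
    let L : (Fin 2 → ZMod q) →ₗ[ZMod q] V :=
      { toFun := fun c => c 0 • e0 + c 1 • e1
        map_add' := by
          intro a b
          simp only [Pi.add_apply, add_smul]
          abel
        map_smul' := by
          intro c a
          simp only [Pi.smul_apply, smul_eq_mul, mul_smul, smul_add, RingHom.id_apply] }
    have hL : ∀ c, L c = c 0 • e0 + c 1 • e1 := fun _ => rfl
    have hLinj : Function.Injective L := by
      rw [← LinearMap.ker_eq_bot, LinearMap.ker_eq_bot']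
      intro c hc0
      rw [hL] at hc0
      have h2 : c 0 • e0 + c 1 • e1 = (0 : V) + 0 := by rw [hc0, add_zero]
      have h3 := comp_eq q W0 W1 hc (W0.smul_mem _ he0) (W1.smul_mem _ he1) W0.zero_mem W1.zero_mem h2
      have h4 : c 0 = 0 := (smul_eq_zero.1 h3.1).resolve_right he00
      have h5 : c 1 = 0 := (smul_eq_zero.1 h3.2).resolve_right he10
      ext i
      fin_cases i
      · exact h4
      · exact h5
    have hLsurj : Function.Surjective L := by
      intro v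
      have hv : v ∈ W0 ⊔ W1 := by rw [hc.sup_eq_top]; trivial
      obtain ⟨a, ha, b, hb, rfl⟩ := Submodule.mem_sup.1 hv
      obtain ⟨x, rfl⟩ := hspan0 a ha
      obtain ⟨y, rfl⟩ := hspan1 b hb
      exact ⟨![x, y], by rw [hL]; simp⟩
    let E : (Fin 2 → ZMod q) ≃ₗ[ZMod q] V := LinearEquiv.ofBijective L ⟨hLinj, hLsurj⟩
    have hE : ∀ c, E c = c 0 • e0 + c 1 • e1 := fun _ => rfl
    -- the elements of the group
    obtain ⟨g1, hg1, hg1a, hg1b⟩ := hswap e0 he0 he00 e1 he1 he10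
    obtain ⟨k, hk, hk1, hkW⟩ := hk0
    have hkn := kernel_neg q ρ hρ hs hns h2q hirr H hHi W0 W1 hc hH0 hH1 ⟨k, hk, hk1, hkW⟩ hsw0 hsw1 he0 he00 hk
      hkW hk1
    have hdiag : ∀ a : ZMod q, a ≠ 0 → ∃ h ∈ H, ρ h e0 = a • e0 ∧ ρ h e1 = a⁻¹ • e1 := by
      intro a ha
      obtain ⟨ga, hga, hgaa, hgab⟩ := hswap e0 he0 he00 (a • e1) (W1.smul_mem _ he1)
        (fun h => he10 ((smul_eq_zero.1 h).resolve_left ha))
      refine ⟨g1 * ga, hprod _ hg1 _ hga, ?_, ?_⟩
      · rw [mul_apply', hgaa, map_smul, hg1b]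
      · have h2 : ρ ga e1 = a⁻¹ • e0 := by
          rw [map_smul] at hgab
          rw [← hgab, smul_smul, inv_mul_cancel₀ ha, one_smul]
        rw [mul_apply', h2, map_smul, hg1a]
    have hdiag' : ∀ a s : ZMod q, a ≠ 0 → (s = 1 ∨ s = -1) →
        ∃ h ∈ H, ρ h e0 = a • e0 ∧ ρ h e1 = (s * a⁻¹) • e1 := by
      intro a s ha hss
      obtain ⟨h, hh, h2, h3⟩ := hdiag a ha
      rcases hss with rfl | rfl
      · exact ⟨h, hh, h2, by rw [one_mul]; exact h3⟩
      · refine ⟨h * k, H.mul_mem hh hk, ?_, ?_⟩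
        · rw [mul_apply', hkW e0 he0, h2]
        · rw [mul_apply', hkn e1 he1, map_neg, h3, neg_mul, one_mul, neg_smul]
    have hin : ∀ g ∈ H, ∃ a s : ZMod q, a ≠ 0 ∧ (s = 1 ∨ s = -1) ∧ ρ g e0 = a • e0 ∧ ρ g e1 = (s * a⁻¹) • e1 := by
      intro g hg
      obtain ⟨a, ha⟩ := hspan0 _ (hH0 g hg e0 he0)
      have ha0 : a ≠ 0 := by
        rintro rfl
        rw [zero_smul] at ha
        exact map_ne q ρ he00 ha.symm
      obtain ⟨h, hh, h2, h3⟩ := hdiag a ha0
      have h4 : h⁻¹ * g ∈ H := H.mul_mem (H.inv_mem hh) hg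
      have h5 : ρ (h⁻¹ * g) e0 = e0 := by
        rw [mul_apply', ← ha, ← h2, ← mul_apply', inv_mul_cancel, map_one]
        rfl
      have h6 : ∀ u ∈ W0, ρ (h⁻¹ * g) u = u := by
        intro u hu
        obtain ⟨x, rfl⟩ := hspan0 u hu
        rw [map_smul, h5]
      have h7 : ∃ s : ZMod q, (s = 1 ∨ s = -1) ∧ ρ (h⁻¹ * g) e1 = s • e1 := by
        by_cases h8 : h⁻¹ * g = 1
        · refine ⟨1, Or.inl rfl, ?_⟩
          rw [h8, map_one, one_smul]; rfl
        · refine ⟨-1, Or.inr rfl, ?_⟩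
          rw [kernel_neg q ρ hρ hs hns h2q hirr H hHi W0 W1 hc hH0 hH1 ⟨k, hk, hk1, hkW⟩ hsw0 hsw1 he0 he00 h4 h6 h8 e1
            he1, neg_smul, one_smul]
      obtain ⟨s, hs1, hs2⟩ := h7
      refine ⟨a, s, ha0, hs1, ha.symm, ?_⟩
      have h8 : ρ (h * (h⁻¹ * g)) e1 = (s * a⁻¹) • e1 := by
        rw [mul_apply', hs2, map_smul, h3, smul_smul]
      rw [← h8]
      congr 2
      group
    refine ⟨E.symm, ?_⟩
    intro f
    have hfE : ∀ g : G, f = E.symm.symm.trans ((ρ g).trans E.symm) ↔ ∀ v, E (f v) = ρ g (E v) := by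
      intro g
      constructor
      · intro h v
        rw [h]
        simp
      · intro h
        ext1 v
        rw [LinearEquiv.trans_apply, LinearEquiv.trans_apply, LinearEquiv.symm_symm, ← h, LinearEquiv.symm_apply_apply]
    constructor
    · rintro ⟨g, hg⟩
      rw [hfE] at hg
      by_cases hgH : g ∈ H
      · obtain ⟨a, s, ha, hs1, h2, h3⟩ := hin g hgH
        refine ⟨a, s, ha, hs1, Or.inl ?_⟩
        intro v
        apply E.injective
        rw [hg, hE, hE, map_add, map_smul, map_smul, h2, h3, smul_smul, smul_smul]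
        simp [mul_comm]
      · have hg2 : g1 * g ∈ H := hprod _ hg1 _ hgH
        obtain ⟨a, s, ha, hs1, h2, h3⟩ := hin _ hg2
        refine ⟨a, s, ha, hs1, Or.inr ?_⟩
        have h4 : ρ g e0 = a • e1 := by
          apply (ρ g1).injective
          rw [← mul_apply', h2, map_smul, hg1b]
        have h5 : ρ g e1 = (s * a⁻¹) • e0 := by
          apply (ρ g1).injective
          rw [← mul_apply', h3, map_smul, hg1a]
        intro v
        apply E.injective
        rw [hg, hE, hE, map_add, map_smul, map_smul, h4, h5, smul_smul, smul_smul, add_comm]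
        simp [mul_comm]
    · rintro ⟨a, s, ha, hs1, hf⟩
      obtain ⟨h, hh, h2, h3⟩ := hdiag' a s ha hs1
      rcases hf with hf | hf
      · refine ⟨h, ?_⟩
        rw [hfE]
        intro v
        rw [hf, hE, hE, map_add, map_smul, map_smul, h2, h3, smul_smul, smul_smul]
        simp [mul_comm]
      · refine ⟨g1 * h, ?_⟩
        rw [hfE]
        intro v
        have h4 : ρ (g1 * h) e0 = a • e1 := by rw [mul_apply', h2, map_smul, hg1a]
        have h5 : ρ (g1 * h) e1 = (s * a⁻¹) • e0 := by rw [mul_apply', h3, map_smul, hg1b]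
        rw [hf, hE, hE, map_add, map_smul, map_smul, h4, h5, smul_smul, smul_smul, add_comm]
        simp [mul_comm]
  · right
    refine ⟨?_, h1⟩
    rw [hcardV, hcardW0, h1, h2]
    norm_num

end

end Cfsg.Agent.Lib.H56Half
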