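import Mathlib
import Cfsg.Agent.Lib.FrobAction3
import Cfsg.Agent.Lib.FrobExist

set_option autoImplicit false

/-! Presentation of the metacyclic groups with cyclic Sylow subgroups acting without fixed points (S3358). -/

namespace Cfsg.Agent.Lib.H56ZPres

open FrobAction

/-- the relators. -/
abbrev rels (n m r : ℕ) : Set (FreeGroup (Fin 2)) :=
  {FreeGroup.of (0 : Fin 2) ^ n, FreeGroup.of (1 : Fin 2) ^ m,
            (FreeGroup.of (0 : Fin 2))⁻¹ * FreeGroup.of 1 * FreeGroup.of 0 * (FreeGroup.of (1 : Fin 2) ^ r)⁻¹}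

theorem conj_pow_eq {P : Type*} [Group P] {X Y : P} {r : ℕ} (h : X⁻¹ * Y * X = Y ^ r) (k : ℕ) :
    (X ^ k)⁻¹ * Y * X ^ k = Y ^ (r ^ k) := by
  induction k with
  | zero => simp
  | succ k ih =>
    have e : (X ^ (k + 1))⁻¹ * Y * X ^ (k + 1) = X⁻¹ * ((X ^ k)⁻¹ * Y * X ^ k) * X := by
      rw [pow_succ, mul_inv_rev]; group
    rw [e, ih]
    have e2 : X⁻¹ * Y ^ (r ^ k) * X = (X⁻¹ * Y * X) ^ (r ^ k) := by
      have := conj_pow (a := X⁻¹) (b := Y) (i := r ^ k)
      rw [inv_inv] at this
      exact this.symm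
    rw [e2, h, ← pow_mul, pow_succ, mul_comm]

theorem pow_mul_pow {P : Type*} [Group P] {X Y : P} {r : ℕ} (h : X⁻¹ * Y * X = Y ^ r) (j k : ℕ) :
    Y ^ j * X ^ k = X ^ k * Y ^ (j * r ^ k) := by
  have e1 := conj_pow_eq h k
  have e2 : (X ^ k)⁻¹ * Y ^ j * X ^ k = ((X ^ k)⁻¹ * Y * X ^ k) ^ j := by
    have := conj_pow (a := (X ^ k)⁻¹) (b := Y) (i := j)
    rw [inv_inv] at this
    exact this.symm
  rw [e1, ← pow_mul, mul_comm (r ^ k) j] at e2
  rw [← e2]; group

theorem card_le {P : Type*} [Group P] {X Y : P} {n m r : ℕ} (hn : 0 < n) (hm : 0 < m)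
    (hX : X ^ n = 1) (hY : Y ^ m = 1)
    (h : X⁻¹ * Y * X = Y ^ r) (hgen : Subgroup.closure {X, Y} = ⊤) : Finite P ∧ Nat.card P ≤ n * m := by
  let f : Fin n × Fin m → P := fun a => X ^ (a.1 : ℕ) * Y ^ (a.2 : ℕ)
  let S : Subgroup P :=
    { carrier := {g | ∃ i j : ℕ, g = X ^ i * Y ^ j}
      one_mem' := ⟨0, 0, by simp⟩
      mul_mem' := by
        rintro a b ⟨i, j, rfl⟩ ⟨k, l, rfl⟩
        refine ⟨i + k, j * r ^ k + l, ?_⟩
        calc X ^ i * Y ^ j * (X ^ k * Y ^ l) = X ^ i * (Y ^ j * X ^ k) * Y ^ l := by group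
          _ = X ^ i * (X ^ k * Y ^ (j * r ^ k)) * Y ^ l := by rw [pow_mul_pow h]
          _ = _ := by rw [pow_add, pow_add]; group
      inv_mem' := by
        rintro a ⟨i, j, rfl⟩
        have hXi : (X ^ i)⁻¹ = X ^ ((n - 1) * i) := by
          rw [inv_eq_iff_mul_eq_one, ← pow_add]
          have : i + (n - 1) * i = n * i := by
            obtain ⟨k, rfl⟩ : ∃ k, n = k + 1 := ⟨n - 1, by omega⟩
            simp; ring
          rw [this, pow_mul, hX, one_pow]
        have hYj : (Y ^ j)⁻¹ = Y ^ ((m - 1) * j) := by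
          rw [inv_eq_iff_mul_eq_one, ← pow_add]
          have : j + (m - 1) * j = m * j := by
            obtain ⟨k, rfl⟩ : ∃ k, m = k + 1 := ⟨m - 1, by omega⟩
            simp; ring
          rw [this, pow_mul, hY, one_pow]
        refine ⟨(n - 1) * i, ((m - 1) * j) * r ^ ((n - 1) * i), ?_⟩
        rw [mul_inv_rev, hXi, hYj, pow_mul_pow h] }
  have hS : S = ⊤ := by
    rw [eq_top_iff, ← hgen, Subgroup.closure_le]
    rintro g (rfl | rfl)
    · exact ⟨1, 0, by simp⟩
    · exact ⟨0, 1, by simp⟩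
  have hf : Function.Surjective f := by
    intro g
    have hg : g ∈ S := by rw [hS]; trivial
    obtain ⟨i, j, rfl⟩ := hg
    refine ⟨(⟨i % n, Nat.mod_lt _ hn⟩, ⟨j % m, Nat.mod_lt _ hm⟩), ?_⟩
    show X ^ (i % n) * Y ^ (j % m) = _
    rw [← pow_eq_pow_mod _ hX, ← pow_eq_pow_mod _ hY]
  refine ⟨Finite.of_surjective f hf, ?_⟩
  have := Nat.card_le_card_of_surjective f hf
  rwa [Nat.card_prod, Nat.card_fin, Nat.card_fin] at this

theorem presentation {K : Type*} [Group K] [Finite K] (x y : K) (n m r : ℕ)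
    (hgen : Subgroup.closure {x, y} = ⊤) (hx : orderOf x = n) (hy : orderOf y = m)
    (hxy : x⁻¹ * y * x = y ^ r) (hcop : Nat.Coprime n m) :
    Nonempty (K ≃* PresentedGroup (rels n m r)) := by
  have hn : 0 < n := hx ▸ orderOf_pos x
  have hm : 0 < m := hy ▸ orderOf_pos y
  let X : PresentedGroup (rels n m r) := PresentedGroup.of 0
  let Y : PresentedGroup (rels n m r) := PresentedGroup.of 1
  have hX : X ^ n = 1 := by
    have := PresentedGroup.one_of_mem (rels := rels n m r) (x := FreeGroup.of (0 : Fin 2) ^ n) (by simp)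
    rw [map_pow] at this
    exact this
  have hY : Y ^ m = 1 := by
    have := PresentedGroup.one_of_mem (rels := rels n m r) (x := FreeGroup.of (1 : Fin 2) ^ m) (by simp)
    rw [map_pow] at this
    exact this
  have hXY : X⁻¹ * Y * X = Y ^ r := by
    have := PresentedGroup.one_of_mem (rels := rels n m r) (x := (FreeGroup.of (0 : Fin 2))⁻¹ * FreeGroup.of 1 *
      FreeGroup.of 0 * (FreeGroup.of (1 : Fin 2) ^ r)⁻¹) (by simp)
    rw [map_mul, map_mul, map_mul, map_inv, map_inv, map_pow, mul_inv_eq_one] at this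
    exact this
  have hgenP : Subgroup.closure {X, Y} = ⊤ := by
    rw [eq_top_iff, ← PresentedGroup.closure_range_of, Subgroup.closure_le]
    rintro _ ⟨i, rfl⟩
    fin_cases i
    · exact Subgroup.subset_closure (Or.inl rfl)
    · exact Subgroup.subset_closure (Or.inr rfl)
  obtain ⟨hfin, hcard⟩ := card_le hn hm hX hY hXY hgenP
  have hx' : x ^ n = 1 := by rw [← hx]; exact pow_orderOf_eq_one x
  have hy' : y ^ m = 1 := by rw [← hy]; exact pow_orderOf_eq_one y
  let F : PresentedGroup (rels n m r) →* K := PresentedGroup.toGroup (f := ![x, y]) (by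
    rintro w (rfl | rfl | rfl)
    · simpa using hx'
    · simpa using hy'
    · simp only [map_mul, map_inv, map_pow, FreeGroup.lift_apply_of, Matrix.cons_val_zero,
        Matrix.cons_val_one, mul_inv_eq_one]
      exact hxy)
  have hFX : F X = x := by
    show PresentedGroup.toGroup _ (PresentedGroup.of 0) = x
    rw [PresentedGroup.toGroup.of]; rfl
  have hFY : F Y = y := by
    show PresentedGroup.toGroup _ (PresentedGroup.of 1) = y
    rw [PresentedGroup.toGroup.of]; rfl
  have hsurj : Function.Surjective F := by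
    rw [← MonoidHom.range_eq_top, eq_top_iff, ← hgen, Subgroup.closure_le]
    rintro g (rfl | rfl)
    · exact ⟨X, hFX⟩
    · exact ⟨Y, hFY⟩
  have hKcard : n * m ≤ Nat.card K := by
    have hdisj : Disjoint (Subgroup.zpowers x) (Subgroup.zpowers y) := by
      rw [disjoint_iff]
      apply Subgroup.inf_eq_bot_of_coprime
      rw [Nat.card_zpowers, Nat.card_zpowers, hx, hy]
      exact hcop
    have := Subgroup.mul_injective_of_disjoint hdisj
    have h2 := Nat.card_le_card_of_injective _ this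
    rwa [Nat.card_prod, Nat.card_zpowers, Nat.card_zpowers, hx, hy] at h2
  have hbij : Function.Bijective F := by
    refine (Nat.bijective_iff_surjective_and_card F).2 ⟨hsurj, le_antisymm (hcard.trans hKcard) ?_⟩
    exact Nat.card_le_card_of_surjective F hsurj
  exact ⟨(MulEquiv.ofBijective F hbij).symm⟩

/-- An element of prime order normalizing a cyclic group of coprime order centralizes it. -/
theorem commute_of_coprime {A V : Type*} [Group A] [CommGroup V] [Nontrivial V] [Finite V] [Finite A] {act : A →* MulAut V}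
    (hf : IsFPF act) {u y : A} (hu : (orderOf u).Prime) (huy : u⁻¹ * y * u ∈ Subgroup.zpowers y)
    (hcop : (orderOf u).Coprime (orderOf y)) : Commute u y := by
  obtain ⟨s, hs⟩ := Subgroup.mem_zpowers_iff.1 huy
  have hcomm : Commute y (u⁻¹ * y * u) := by
    rw [← hs]; exact (Commute.refl y).zpow_right s
  set c := y⁻¹ * (u⁻¹ * y * u) with hc
  have hcy : c = y ^ (s - 1) := by
    rw [hc, ← hs, sub_eq_add_neg, zpow_add, zpow_neg_one]
    exact ((Commute.refl y).inv_left.zpow_right s).eq
  by_cases hc1 : c = 1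
  · have h1 : u⁻¹ * y * u = y := by
      rw [hc, inv_mul_eq_one] at hc1; exact hc1.symm
    have h2 : y * u = u * y := by
      calc y * u = u * (u⁻¹ * y * u) := by group
        _ = u * y := by rw [h1]
    exact h2.symm
  · exfalso
    have ho : orderOf c ≠ 1 := by rwa [Ne, orderOf_eq_one_iff]
    obtain ⟨q, hq, hqc⟩ := Nat.exists_prime_and_dvd ho
    set k := orderOf c / q with hk
    have hpos := orderOf_pos c
    have hkc : k * q = orderOf c := Nat.div_mul_cancel hqc
    set w := c ^ k with hw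
    have hwo : orderOf w = q := by
      rw [hw, orderOf_pow, ← hkc, Nat.gcd_eq_right ⟨q, rfl⟩]
      have hk0 : 0 < k := Nat.pos_of_ne_zero (fun h => by rw [h, zero_mul] at hkc; omega)
      exact Nat.mul_div_cancel_left q hk0
    have hwy : w = y ^ ((s - 1) * k) := by
      rw [hw, hcy, ← zpow_natCast, ← zpow_mul]
    -- `u` normalizes `⟨w⟩`
    have hconj : ∀ i : ℤ, u⁻¹ * y ^ i * u = y ^ (s * i) := by
      intro i
      have := conj_zpow (a := u⁻¹) (b := y) (i := i)
      rw [inv_inv] at this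
      rw [← this, ← hs, ← zpow_mul]
    have hwu : u⁻¹ * w * u = w ^ s := by
      rw [hwy, hconj, ← zpow_mul]; congr 1; ring
    have hCuw : Commute u⁻¹ w := by
      apply FrobAction3.commute_of_normalizes hf (by rw [orderOf_inv]; exact hu) (by rw [hwo]; exact hq)
      rw [inv_inv, hwu]
      exact Subgroup.zpow_mem _ (Subgroup.mem_zpowers w) _
    have hCuw' : Commute u w := by simpa using hCuw.inv_left
    -- `w = v⁻¹ v^u`
    set v := y ^ (k : ℤ) with hv
    have hvw : u⁻¹ * v * u = v * w := by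
      rw [hv, hconj, hwy, ← zpow_add]; congr 1; ring
    have hvwc : Commute v w := by
      rw [hv, hwy]; exact ((Commute.refl y).zpow_zpow _ _)
    have hit : ∀ i : ℕ, (u ^ i)⁻¹ * v * u ^ i = v * w ^ i := by
      intro i
      induction i with
      | zero => simp
      | succ i ih =>
        have e : (u ^ (i + 1))⁻¹ * v * u ^ (i + 1) = u⁻¹ * ((u ^ i)⁻¹ * v * u ^ i) * u := by
          rw [pow_succ, mul_inv_rev]; group
        have e2 : u⁻¹ * w ^ i * u = w ^ i := by
          have := (hCuw.pow_right i).eq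
          rw [this]; group
        calc (u ^ (i + 1))⁻¹ * v * u ^ (i + 1) = u⁻¹ * ((u ^ i)⁻¹ * v * u ^ i) * u := e
          _ = u⁻¹ * (v * w ^ i) * u := by rw [ih]
          _ = (u⁻¹ * v * u) * (u⁻¹ * w ^ i * u) := by group
          _ = v * w * w ^ i := by rw [hvw, e2]
          _ = v * w ^ (i + 1) := by rw [pow_succ', mul_assoc]
    have h1 := hit (orderOf u)
    rw [pow_orderOf_eq_one, inv_one, one_mul, mul_one] at h1
    have h2 : w ^ orderOf u = 1 := mul_eq_left.1 h1.symm
    have h3 : q ∣ orderOf u := by rw [← hwo]; exact orderOf_dvd_of_pow_eq_one h2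
    have h4 : orderOf w ∣ orderOf y := by
      rw [hwy]
      exact orderOf_dvd_of_mem_zpowers (Subgroup.zpow_mem _ (Subgroup.mem_zpowers y) _)
    rw [hwo] at h4
    have := Nat.dvd_gcd h3 h4
    rw [hcop] at this
    exact hq.one_lt.ne' (Nat.dvd_one.1 this)

/-- the exponent condition. -/
theorem pow_mod_eq {A V : Type*} [Group A] [CommGroup V] [Nontrivial V] [Finite V] [Finite A] {act : A →* MulAut V}
    (hf : IsFPF act) {x y : A} {n m r : ℕ} (hx : orderOf x = n) (hy : orderOf y = m)
    (hxy : x⁻¹ * y * x = y ^ r) (hcop : Nat.Coprime n m) :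
    r ^ (n / ∏ p ∈ n.primeFactors, p) % m = 1 % m := by
  have hn : 0 < n := hx ▸ orderOf_pos x
  have hiff : ∀ k : ℕ, Commute (x ^ k) y ↔ (r : ZMod m) ^ k = 1 := by
    intro k
    have h1 := conj_pow_eq hxy k
    have h2 : Commute (x ^ k) y ↔ y ^ (r ^ k) = y := by
      rw [← h1]
      constructor
      · intro h
        have := h.eq
        calc (x ^ k)⁻¹ * y * x ^ k = (x ^ k)⁻¹ * (y * x ^ k) := by group
          _ = (x ^ k)⁻¹ * (x ^ k * y) := by rw [this]
          _ = y := by group
      · intro h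
        show x ^ k * y = y * x ^ k
        calc x ^ k * y = x ^ k * ((x ^ k)⁻¹ * y * x ^ k) := by rw [h]
          _ = y * x ^ k := by group
    rw [h2]
    have h3 : y ^ (r ^ k) = y ↔ y ^ (r ^ k) = y ^ 1 := by rw [pow_one]
    rw [h3, pow_eq_pow_iff_modEq, hy, ← ZMod.natCast_eq_natCast_iff]
    push_cast
    exact Iff.rfl
  have key : (r : ZMod m) ^ (n / ∏ p ∈ n.primeFactors, p) = 1 := by
    rw [← orderOf_dvd_iff_pow_eq_one]
    set d := orderOf (r : ZMod m) with hd
    have hdn : d ∣ n := by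
      rw [hd, orderOf_dvd_iff_pow_eq_one, ← hiff, ← hx, pow_orderOf_eq_one]
      exact Commute.one_left y
    obtain ⟨e, he⟩ := hdn
    have hprod : (∏ p ∈ n.primeFactors, p) ∣ e := by
      apply Finset.prod_primes_dvd
      · intro p hp
        exact (Nat.prime_of_mem_primeFactors hp).prime
      · intro p hp
        have hpp := Nat.prime_of_mem_primeFactors hp
        have hpn := Nat.dvd_of_mem_primeFactors hp
        obtain ⟨c, hc⟩ := hpn
        have hc0 : 0 < c := Nat.pos_of_ne_zero (fun h => by rw [h, mul_zero] at hc; omega)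
        have hord : orderOf (x ^ c) = p := by
          rw [orderOf_pow, hx, hc, Nat.gcd_eq_right ⟨p, mul_comm p c⟩]
          exact Nat.mul_div_cancel _ hc0
        have hcm : Commute (x ^ c) y := by
          apply commute_of_coprime hf (by rw [hord]; exact hpp)
          · rw [conj_pow_eq hxy c]
            exact Subgroup.pow_mem _ (Subgroup.mem_zpowers y) _
          · rw [hord, hy]
            exact Nat.Coprime.coprime_dvd_left ⟨c, hc⟩ hcop
        have hdc : d ∣ c := by
          rw [hd, orderOf_dvd_iff_pow_eq_one, ← hiff]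
          exact hcm
        obtain ⟨f, hf'⟩ := hdc
        have hd0 : 0 < d := Nat.pos_of_ne_zero (fun h => by rw [h, zero_mul] at he; omega)
        refine ⟨f, ?_⟩
        have : d * e = d * (p * f) := by rw [← he, hc, hf']; ring
        exact Nat.eq_of_mul_eq_mul_left hd0 this
    obtain ⟨g, hg⟩ := hprod
    have hP0 : 0 < ∏ p ∈ n.primeFactors, p := Finset.prod_pos fun p hp => (Nat.prime_of_mem_primeFactors hp).pos
    refine ⟨g, ?_⟩
    apply Nat.div_eq_of_eq_mul_left hP0
    calc n = d * e := he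
      _ = d * ((∏ p ∈ n.primeFactors, p) * g) := by rw [← hg]
      _ = d * g * ∏ p ∈ n.primeFactors, p := by ring
  have h1 : ((r ^ (n / ∏ p ∈ n.primeFactors, p) : ℕ) : ZMod m) = ((1 : ℕ) : ZMod m) := by
    push_cast; exact key
  exact (ZMod.natCast_eq_natCast_iff _ _ _).1 h1

end Cfsg.Agent.Lib.H56ZPres
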