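import Mathlib
import Cfsg.Agent.Lib.H56ZPres
import Cfsg.Agent.Lib.H55QuatSolv
import Cfsg.Agent.S3742
import Cfsg.Agent.S3379

set_option autoImplicit false

/-! Structure of solvable Frobenius complements (S3358). -/

namespace Cfsg.Agent.Lib.H56SolvFC

open Cfsg FrobAction FrobExist Equiv

/-- the sign of a generalized quaternion group. -/
def chi (m : ℕ) : QuaternionGroup m →* Perm (Fin 4) where
  toFun q := match q with
    | .a _ => 1
    | .xa _ => swap 0 1
  map_one' := rfl
  map_mul' := by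
    rintro (i | i) (j | j)
    · simp [QuaternionGroup.a_mul_a]
    · simp [QuaternionGroup.a_mul_xa]
    · simp [QuaternionGroup.xa_mul_a]
    · simp [QuaternionGroup.xa_mul_xa]

theorem chi_a {m : ℕ} (i : ZMod (2 * m)) : chi m (.a i) = 1 := rfl
theorem chi_xa {m : ℕ} (i : ZMod (2 * m)) : chi m (.xa i) = swap 0 1 := rfl

theorem chi_ker_le {m : ℕ} [NeZero m] {q : QuaternionGroup m} (hq : chi m q = 1) :
    q ∈ Subgroup.zpowers (QuaternionGroup.a 1 : QuaternionGroup m) := by
  rcases q with i | i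
  · refine Subgroup.mem_zpowers_iff.2 ⟨(i.val : ℤ), ?_⟩
    rw [zpow_natCast, QuaternionGroup.a_one_pow]
    simp
  · exfalso
    rw [chi_xa] at hq
    have := congrArg (fun f : Perm (Fin 4) => f 0) hq
    simp at this

theorem exists_perm_of_two_group {Q : Type*} [Group Q] [Finite Q] (hQ : IsPGroup 2 Q)
    (h : ∀ x y : Q, orderOf x = 2 → orderOf y = 2 → x = y) : ∃ g : Q →* Perm (Fin 4), IsCyclic g.ker := by
  have : Fact (Nat.Prime 2) := ⟨Nat.prime_two⟩
  rcases UniqueInvolution.isCyclic_or_quaternion hQ (by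
    intro x y hx hy
    rw [h x y hx hy]
    exact Subgroup.mem_zpowers y) with hc | ⟨-, n, hn, ⟨e⟩⟩
  · exact ⟨1, inferInstance⟩
  · refine ⟨(chi (2 ^ n)).comp e.toMonoidHom, ?_⟩
    let F : ((chi (2 ^ n)).comp e.toMonoidHom).ker →* Subgroup.zpowers (QuaternionGroup.a 1 : QuaternionGroup (2 ^ n)) :=
      { toFun := fun q => ⟨e q, chi_ker_le q.2⟩
        map_one' := Subtype.ext (map_one e)
        map_mul' := fun a b => Subtype.ext (map_mul e a.1 b.1) }
    exact isCyclic_of_injective F (fun a b hab => Subtype.ext (e.injective (congrArg Subtype.val hab)))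

theorem exists_perm_of_Q8 {Q : Type*} [Group Q] [Finite Q] (hQ : Group.IsSolvable Q)
    (hO : pPrimeCore 2 Q = ⊥) (e : ↥(pCore 2 Q) ≃* QuaternionGroup 2) :
    ∃ g : Q →* Perm (Fin 4), IsCyclic g.ker := by
  have : Fact (Nat.Prime 2) := ⟨Nat.prime_two⟩
  obtain ⟨i⟩ := S3742.result
  have hC := H55Solv.centralizer_pCore_le hQ 2 hO
  let g : Q →* Perm (Fin 4) := (i.toMonoidHom.comp (MulAut.congr e).toMonoidHom).comp
    (MulAut.conjNormal (H := pCore 2 Q))
  refine ⟨g, ?_⟩
  have hk : ∀ q ∈ g.ker, ∀ x : pCore 2 Q, q * x = x * q := by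
    intro q hq x
    have h1 : MulAut.conjNormal (H := pCore 2 Q) q = 1 := by
      have h2 : i (MulAut.congr e (MulAut.conjNormal (H := pCore 2 Q) q)) = 1 := hq
      rw [← map_one i] at h2
      have h3 := i.injective h2
      rw [← map_one (MulAut.congr e)] at h3
      exact (MulAut.congr e).injective h3
    have h4 : MulAut.conjNormal (H := pCore 2 Q) q x = x := by rw [h1]; rfl
    have h5 := congrArg Subtype.val h4
    rw [MulAut.conjNormal_apply] at h5
    exact mul_inv_eq_iff_eq_mul.1 h5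
  have hkT : g.ker ≤ pCore 2 Q := by
    refine le_trans ?_ hC
    intro q hq
    rw [Subgroup.mem_centralizer_iff]
    intro x hx
    exact (hk q hq ⟨x, hx⟩).symm
  have hcen : ∀ z : QuaternionGroup 2, (∀ w : QuaternionGroup 2, z * w = w * z) →
      z = 1 ∨ z = QuaternionGroup.a 2 := by decide +kernel
  have hmem : ∀ q : g.ker, e ⟨q, hkT q.2⟩ ∈ Subgroup.zpowers (QuaternionGroup.a 2 : QuaternionGroup 2) := by
    intro q
    rcases hcen (e ⟨q, hkT q.2⟩) (by
      intro w
      obtain ⟨x, rfl⟩ := e.surjective w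
      rw [← map_mul, ← map_mul]
      congr 1
      exact Subtype.ext (hk q q.2 x)) with h | h
    · rw [h]; exact Subgroup.one_mem _
    · rw [h]; exact Subgroup.mem_zpowers _
  let F : g.ker →* Subgroup.zpowers (QuaternionGroup.a 2 : QuaternionGroup 2) :=
    { toFun := fun q => ⟨e ⟨q, hkT q.2⟩, hmem q⟩
      map_one' := by
        apply Subtype.ext
        exact map_one e
      map_mul' := by
        intro a b
        apply Subtype.ext
        exact map_mul e ⟨a, hkT a.2⟩ ⟨b, hkT b.2⟩ }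
  exact isCyclic_of_injective F (fun a b hab => by
    have h1 := e.injective (congrArg Subtype.val hab)
    exact Subtype.ext (congrArg (fun t : pCore 2 Q => (t : Q)) h1))

theorem exists_hom {G : Type*} [Group G] [Finite G] (hsol : Group.IsSolvable G) (h : Occurs G) :
    ∃ f : G →* Perm (Fin 4), ∀ P : Subgroup G, IsPGroup 2 P → P ≤ f.ker → IsCyclic P := by
  have : Fact (Nat.Prime 2) := ⟨Nat.prime_two⟩
  obtain ⟨V, _, _, _, act, hf⟩ := to_action h
  set π := QuotientGroup.mk' (oddCore G) with hπ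
  have hsurj : Function.Surjective π := QuotientGroup.mk'_surjective _
  have hO : pPrimeCore 2 (G ⧸ oddCore G) = ⊥ := Cores.pPrimeCore_quotient_pPrimeCore 2 G
  have hsolQ : Group.IsSolvable (G ⧸ oddCore G) := inferInstance
  have hinj : ∀ P : Subgroup G, IsPGroup 2 P → ∀ x ∈ P, π x = 1 → x = 1 := by
    intro P hP x hx hx1
    have h1 : x ∈ oddCore G := (QuotientGroup.eq_one_iff x).1 hx1
    have hc := Cores.coprime_card_pPrimeCore 2 G
    obtain ⟨k, hk⟩ := IsPGroup.iff_orderOf.1 hP ⟨x, hx⟩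
    have h3 : orderOf x = 2 ^ k := by rw [← hk, Subgroup.orderOf_mk]
    have h4 : orderOf x ∣ Nat.card (oddCore G) := Subgroup.orderOf_dvd_natCard _ h1
    have h5 : (orderOf x).Coprime (orderOf x) := by
      apply Nat.Coprime.coprime_dvd_right h4
      rw [h3]
      exact (Nat.Coprime.pow_right k hc).symm
    rw [Nat.coprime_self] at h5
    exact orderOf_eq_one_iff.1 h5
  let S : Sylow 2 G := default
  have hS1 : ∀ x ∈ (S : Subgroup G).map π, ∀ y ∈ (S : Subgroup G).map π, orderOf x = 2 → orderOf y = 2 → x = y := by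
    rintro _ ⟨x, hx, rfl⟩ _ ⟨y, hy, rfl⟩ h1 h2
    have key : ∀ z ∈ (S : Subgroup G), orderOf (π z) = 2 → z * z = 1 ∧ z ≠ 1 := by
      intro z hz ho
      have h3 := pow_orderOf_eq_one (π z)
      rw [ho, ← map_pow, sq] at h3
      refine ⟨hinj S S.2 _ ((S : Subgroup G).mul_mem hz hz) h3, ?_⟩
      rintro rfl
      rw [map_one, orderOf_one] at ho
      omega
    obtain ⟨a1, a2⟩ := key x hx h1
    obtain ⟨b1, b2⟩ := key y hy h2
    rw [invol_unique hf a1 a2 b1 b2]
  let S' : Sylow 2 (G ⧸ oddCore G) := S.mapSurjective hsurj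
  have hS' : (S' : Subgroup (G ⧸ oddCore G)) = (S : Subgroup G).map π := Sylow.coe_mapSurjective hsurj S
  obtain ⟨g, hg⟩ : ∃ g : (G ⧸ oddCore G) →* Perm (Fin 4), IsCyclic g.ker := by
    have hT : pCore 2 (G ⧸ oddCore G) ≤ (S : Subgroup G).map π := by
      rw [← hS']
      exact IsPGroup.le_sylow_of_normal (Cores.isPGroup_pCore 2 _) S'
    rcases H55QuatSolv.dichotomy hsolQ hO (by
      intro x y hx hy
      apply Subtype.ext
      apply hS1 _ (hT x.2) _ (hT y.2)
      · rw [Subgroup.orderOf_coe, hx]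
      · rw [Subgroup.orderOf_coe, hy]) with h2 | ⟨⟨e⟩⟩
    · apply exists_perm_of_two_group h2
      have htop : (⊤ : Subgroup (G ⧸ oddCore G)) ≤ (S : Subgroup G).map π := by
        rw [← hS']
        exact IsPGroup.le_sylow_of_normal (h2.to_subgroup ⊤) S'
      intro x y hx hy
      exact hS1 _ (htop trivial) _ (htop trivial) hx hy
    · exact exists_perm_of_Q8 hsolQ hO e
  refine ⟨g.comp π, ?_⟩
  intro P hP hPk
  let F : P →* g.ker :=
    { toFun := fun x => ⟨π x, hPk x.2⟩
      map_one' := by ext; simp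
      map_mul' := by intro a b; ext; simp }
  apply isCyclic_of_injective F
  rw [injective_iff_map_eq_one]
  intro x hx
  apply Subtype.ext
  exact hinj P hP x x.2 (congrArg Subtype.val hx)

theorem final {G : Type*} [Group G] [Finite G] (hsol : Group.IsSolvable G) (h : Occurs G) :
    ∃ G₀ : Subgroup G, G₀.Normal ∧
      (∃ f : G →* Equiv.Perm (Fin 4), f.ker = G₀) ∧
      (∀ (p : ℕ) [Fact p.Prime] (P : Sylow p G₀), IsCyclic P) ∧
      ∃ n m r : ℕ, 0 < n ∧ 0 < m ∧ Nat.Coprime (r - 1) m ∧ Nat.Coprime n m ∧ 1 ≤ r ∧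
        r ^ (n / ∏ p ∈ n.primeFactors, p) % m = 1 % m ∧
        Nonempty (G₀ ≃* PresentedGroup (H56ZPres.rels n m r)) := by
  obtain ⟨f, hf⟩ := exists_hom hsol h
  obtain ⟨V, _, _, _, act, hact⟩ := to_action h
  have hZ : ∀ (p : ℕ) [Fact p.Prime] (P : Sylow p f.ker), IsCyclic P := by
    intro p hp P
    have hact' : IsFPF (act.comp (f.ker.subtype.comp (P : Subgroup f.ker).subtype)) :=
      hact.comp _ (f.ker.subtype_injective.comp (P : Subgroup f.ker).subtype_injective)
    rcases pgroup_cyclic_or_quaternion hact' P.2 with hc | ⟨rfl, -⟩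
    · exact hc
    · have h1 : IsPGroup 2 ((P : Subgroup f.ker).map f.ker.subtype) := P.2.map _
      have h2 := hf _ h1 (by
        rintro _ ⟨x, _, rfl⟩
        exact x.2)
      exact isCyclic_of_injective (((P : Subgroup f.ker).equivMapOfInjective _ f.ker.subtype_injective).toMonoidHom)
        (MulEquiv.injective _)
  refine ⟨f.ker, inferInstance, ⟨f, rfl⟩, hZ, ?_⟩
  obtain ⟨x, y, n, m, r, hgen, hx, hy, hxy, hr1, hnm, h1r, -⟩ := S3379.result hZ
  have hact' : IsFPF (act.comp f.ker.subtype) := hact.comp _ f.ker.subtype_injective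
  exact ⟨n, m, r, hx ▸ orderOf_pos x, hy ▸ orderOf_pos y, hr1, hnm, h1r,
    H56ZPres.pow_mod_eq hact' hx hy hxy hnm, H56ZPres.presentation x y n m r hgen hx hy hxy hnm⟩

end Cfsg.Agent.Lib.H56SolvFC
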