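import Mathlib
import Cfsg.Agent.Lib.SchurPerfect
import Cfsg.Agent.Lib.SchurSylow

/-!
Central extensions of groups containing a superperfect subgroup (helper58).
-/

set_option autoImplicit false
set_option linter.all false

namespace Cfsg.Agent.Lib.H58SplitM

open Cfsg Subgroup Cfsg.Agent.Lib.SchurSylow
open scoped commutatorElement

universe u v

/-- it suffices to exclude kernels of order `p` -/
theorem pStem_one_of_no_prime {G : Type u} [Group G] {p : ℕ} [hp : Fact p.Prime]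
    (h : ∀ (Γ : Type u) [Group Γ] [Finite Γ] (σ : Γ →* G), IsStemExtension σ → Nat.card σ.ker ≠ p) : PStemDvd p G 1 := by
  intro Γ _ _ σ hσ hpg
  obtain ⟨n, hn⟩ := IsPGroup.iff_card.1 hpg
  rcases Nat.eq_zero_or_pos n with h0 | h0
  · rw [hn, h0, pow_zero]
  exfalso
  obtain ⟨B0, hB0⟩ := Sylow.exists_subgroup_card_pow_prime (G := σ.ker) p (n := n - 1) (by rw [hn]; exact pow_dvd_pow p (by omega))
  let B : Subgroup Γ := B0.map σ.ker.subtype
  have hB : B ≤ σ.ker := by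
    rintro _ ⟨x, -, rfl⟩
    exact x.2
  haveI hBn : B.Normal := by
    refine ⟨fun x hx g => ?_⟩
    have : g * x * g⁻¹ = x := by rw [mem_center_iff.1 (hσ.2.1 (hB hx)) g]; group
    rw [this]; exact hx
  obtain ⟨hst, hker⟩ := quotient_isStem σ hσ B hB
  apply h _ _ hst
  rw [hker]
  have h1 : Nat.card (σ.ker.map (QuotientGroup.mk' B)) * Nat.card B = Nat.card σ.ker := by
    let F : σ.ker →* (σ.ker.map (QuotientGroup.mk' B)) :=
      { toFun := fun x => ⟨QuotientGroup.mk' B (x : Γ), ⟨x, x.2, rfl⟩⟩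
        map_one' := Subtype.ext (map_one _)
        map_mul' := fun x y => Subtype.ext (map_mul _ _ _) }
    have hF : Function.Surjective F := by
      rintro ⟨_, x, hx, rfl⟩
      exact ⟨⟨x, hx⟩, rfl⟩
    have hFk : F.ker = B0 := by
      ext x
      rw [MonoidHom.mem_ker]
      constructor
      · intro hx
        have h6 : QuotientGroup.mk' B (x : Γ) = 1 := congrArg Subtype.val hx
        rw [QuotientGroup.mk'_apply, QuotientGroup.eq_one_iff] at h6
        obtain ⟨y, hy, hyx⟩ := h6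
        have : y = x := Subtype.ext hyx
        rwa [← this]
      · intro hx
        apply Subtype.ext
        show QuotientGroup.mk' B (x : Γ) = 1
        rw [QuotientGroup.mk'_apply, QuotientGroup.eq_one_iff]
        exact ⟨x, hx, rfl⟩
    have h2 : Nat.card B = Nat.card B0 := Subgroup.card_map_of_injective (Subgroup.subtype_injective _)
    have h3 := Nat.card_congr (QuotientGroup.quotientKerEquivOfSurjective F hF).toEquiv
    rw [← h3, hFk, h2]
    exact (Subgroup.card_eq_card_quotient_mul_card_subgroup B0).symm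
  have h2 : Nat.card B = p ^ (n - 1) := by
    rw [← hB0]
    exact Subgroup.card_map_of_injective (Subgroup.subtype_injective _)
  rw [hn, h2] at h1
  have h3 : p ^ n = p * p ^ (n - 1) := by
    rw [← pow_succ']; congr 1; omega
  rw [h3] at h1
  exact Nat.eq_of_mul_eq_mul_right (pow_pos hp.out.pos _) h1

/-- a split stem extension is an isomorphism -/
theorem ker_trivial_of_section {Γ : Type u} {G : Type v} [Group Γ] [Group G] (σ : Γ →* G) (hσ : IsStemExtension σ)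
    (τ : G →* Γ) (h : ∀ g, σ (τ g) = g) : ∀ x ∈ σ.ker, x = 1 := by
  have hmem : ∀ x : Γ, x * (τ (σ x))⁻¹ ∈ σ.ker := by
    intro x
    rw [MonoidHom.mem_ker, map_mul, map_inv, h, mul_inv_cancel]
  let φ : Γ →* σ.ker :=
    { toFun := fun x => ⟨x * (τ (σ x))⁻¹, hmem x⟩
      map_one' := by
        apply Subtype.ext
        simp
      map_mul' := by
        intro x y
        apply Subtype.ext
        have h1 := mem_center_iff.1 (hσ.2.1 (hmem y)) (τ (σ x))⁻¹
        show x * y * (τ (σ (x * y)))⁻¹ = x * (τ (σ x))⁻¹ * (y * (τ (σ y))⁻¹)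
        rw [mul_assoc x (τ (σ x))⁻¹, h1, map_mul, map_mul]
        group }
  intro x hx
  have h1 : commutator Γ ≤ φ.ker := by
    apply SchurBasic.commutator_le_ker
    intro a b
    apply Subtype.ext
    exact (Subgroup.mem_center_iff.1 (hσ.2.1 (φ a).2) (φ b)).symm
  have h2 := h1 (hσ.2.2 hx)
  rw [MonoidHom.mem_ker] at h2
  have h3 : x * (τ (σ x))⁻¹ = 1 := congrArg Subtype.val h2
  have h4 : σ x = 1 := hx
  rw [h4, map_one, inv_one, mul_one] at h3
  exact h3

/-- a central extension splits over a finite superperfect subgroup -/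
theorem exists_lift {Γ G : Type u} [Group Γ] [Group G] (σ : Γ →* G) (hs : Function.Surjective σ)
    (hc : σ.ker ≤ center Γ) (P : Subgroup G) [Finite P] (hP : Group.IsPerfect P) (hM : HasCyclicSchurMultiplier P 1) :
    ∃ η : P →* Γ, ∀ p : P, σ (η p) = p := by
  have h1 := (Cfsg.Agent.Lib.SchurPerfect.universal_iff (G := P) (Q := P) hP (MonoidHom.id P)
    (fun x => ⟨x, rfl⟩) (by rintro x hx; rw [show x = 1 from hx]; exact one_mem _)).2 hM
  let ξ : (P.comap σ) →* P := σ.subgroupComap P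
  have hξ : ∀ x : P.comap σ, ((ξ x : P) : G) = σ (x : Γ) := fun x => rfl
  obtain ⟨η, hη⟩ := h1 (P.comap σ) ξ (by
      rintro ⟨p, hp⟩
      obtain ⟨g, rfl⟩ := hs p
      exact ⟨⟨g, hp⟩, rfl⟩) (by
      intro x hx
      have h2 : σ (x : Γ) = 1 := by
        rw [← hξ, show ξ x = 1 from hx]; rfl
      rw [mem_center_iff]
      intro g
      apply Subtype.ext
      exact mem_center_iff.1 (hc h2) g)
  refine ⟨(P.comap σ).subtype.comp η, fun p => ?_⟩
  have h2 := DFunLike.congr_fun hη p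
  have h3 : ((ξ (η p) : P) : G) = p := congrArg Subtype.val h2
  rw [hξ] at h3
  exact h3

/-! ### computations with central elements -/

section

variable {Γ : Type u} [Group Γ]

/-- a central commutator with an element of order dividing `n` -/
theorem comm_pow {T g : Γ} {n : ℕ} (hc : T⁻¹ * g⁻¹ * T * g ∈ center Γ) (hg : g ^ n = 1) :
    (T⁻¹ * g⁻¹ * T * g) ^ n = 1 := by
  obtain ⟨c, hcd⟩ : ∃ c, c = T⁻¹ * g⁻¹ * T * g := ⟨_, rfl⟩
  rw [← hcd] at hc ⊢
  have h1 : g⁻¹ * T * g = T * c := by rw [hcd]; group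
  have h2 : ∀ k : ℕ, (g ^ k)⁻¹ * T * g ^ k = T * c ^ k := by
    intro k
    induction k with
    | zero => simp
    | succ k ih =>
      have h3 := mem_center_iff.1 (pow_mem hc k) g
      calc (g ^ (k + 1))⁻¹ * T * g ^ (k + 1) = g⁻¹ * ((g ^ k)⁻¹ * T * g ^ k) * g := by
            rw [pow_succ]; group
        _ = (g⁻¹ * T * g) * c ^ k := by rw [ih]; rw [mul_assoc, mul_assoc, mul_assoc, mul_assoc, h3]
        _ = T * c ^ (k + 1) := by rw [h1, mul_assoc, ← pow_succ']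
  have h3 := h2 n
  rw [hg, inv_one, one_mul, mul_one] at h3
  exact (mul_eq_left.1 h3.symm)

/-- lifts of a relation `(r s)³ = 1` with `r³ = s² = 1` -/
theorem three_three {r s c : Γ} (hc : c ∈ center Γ) (hr : r ^ 3 = 1) (hs : s ^ 2 = 1) (h : (r * s) ^ 3 = c) : c ^ 4 = 1 := by
  obtain ⟨s1, h1⟩ : ∃ s1, s1 = r * s * r⁻¹ := ⟨_, rfl⟩
  obtain ⟨s2, h2⟩ : ∃ s2, s2 = r ^ 2 * s * (r ^ 2)⁻¹ := ⟨_, rfl⟩
  have hC := mem_center_iff.1 hc
  have q1 : s1 ^ 2 = 1 := by rw [h1, conj_pow, hs]; group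
  have q2 : s2 ^ 2 = 1 := by rw [h2, conj_pow, hs]; group
  have e1 : s1 * s2 * s = c := by
    rw [← h, h1, h2]
    calc r * s * r⁻¹ * (r ^ 2 * s * (r ^ 2)⁻¹) * s = r * s * r * s * (r ^ 3)⁻¹ * r * s := by group
      _ = (r * s) ^ 3 := by rw [hr]; simp only [pow_succ, pow_zero, one_mul, inv_one, mul_one, mul_assoc]
  have i1 : s1⁻¹ = s1 := by rw [inv_eq_iff_mul_eq_one, ← pow_two]; exact q1
  have i2 : s2⁻¹ = s2 := by rw [inv_eq_iff_mul_eq_one, ← pow_two]; exact q2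
  have i3 : s⁻¹ = s := by rw [inv_eq_iff_mul_eq_one, ← pow_two]; exact hs
  have e2 : s1 * s2 = c * s := by
    calc s1 * s2 = s1 * s2 * s * s⁻¹ := by group
      _ = c * s := by rw [e1, i3]
  have e3 : s2 * s1 = c⁻¹ * s := by
    have : (s1 * s2)⁻¹ = (c * s)⁻¹ := by rw [e2]
    rw [mul_inv_rev, mul_inv_rev, i1, i2, i3] at this
    rw [this]
    exact mem_center_iff.1 (inv_mem hc) s
  have e4 : s1 * s = c⁻¹ * s2 := by
    have h5 : s = c⁻¹ * (s1 * s2) := by rw [e2]; group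
    rw [h5, ← mul_assoc, mem_center_iff.1 (inv_mem hc) s1, mul_assoc, ← mul_assoc s1, ← pow_two, q1, one_mul]
  have e5 : s1 * s * s1⁻¹ = (c ^ 2)⁻¹ * s := by
    rw [e4, i1, mul_assoc, e3]; group
  have e6 : (s1 * s * s1⁻¹) ^ 2 = 1 := by rw [conj_pow, hs]; group
  rw [e5] at e6
  have h7 := mem_center_iff.1 (inv_mem (pow_mem hc 2)) s
  have h8 : ((c ^ 2)⁻¹ * s) ^ 2 = (c ^ 4)⁻¹ * s ^ 2 := by
    rw [pow_two, mul_assoc, ← mul_assoc s, h7]
    rw [show c ^ 4 = c ^ 2 * c ^ 2 by rw [← pow_add], mul_inv_rev, pow_two s]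
    simp only [mul_assoc]
  rw [h8, hs, mul_one, inv_eq_one] at e6
  exact e6

/-- lifts of a relation `(n s)² = 1` with `n⁴ = s² = 1` -/
theorem two_four {n s c : Γ} (hc : c ∈ center Γ) (hn : n ^ 4 = 1) (hs : s ^ 2 = 1) (h : (n * s) ^ 2 = c) : c ^ 4 = 1 := by
  have i3 : s⁻¹ = s := by rw [inv_eq_iff_mul_eq_one, ← pow_two]; exact hs
  have h1 : s * n * s⁻¹ = n⁻¹ * c := by
    rw [← h, i3, pow_two]
    simp only [← mul_assoc]
    rw [inv_mul_cancel, one_mul]
  have h2 : (s * n * s⁻¹) ^ 4 = 1 := by rw [conj_pow, hn]; group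
  rw [h1] at h2
  have hC : Commute n⁻¹ c := (mem_center_iff.1 hc n⁻¹)
  rw [hC.mul_pow, inv_pow, hn, inv_one, one_mul] at h2
  exact h2

/-- involutions with a product of odd order are conjugate -/
theorem conj_of_odd {z q : Γ} (hz : z ^ 2 = 1) (hq : q ^ 2 = 1) {k : ℕ} (h : (z * q) ^ (2 * k + 1) = 1) :
    ∃ g, z = g * q * g⁻¹ := by
  have iz : z⁻¹ = z := by rw [inv_eq_iff_mul_eq_one, ← pow_two]; exact hz
  have iq : q⁻¹ = q := by rw [inv_eq_iff_mul_eq_one, ← pow_two]; exact hq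
  obtain ⟨d, hd⟩ : ∃ d, d = z * q := ⟨_, rfl⟩
  have h1 : q * d * q⁻¹ = d⁻¹ := by
    rw [hd, mul_inv_rev, iz, iq]
    rw [mul_assoc, mul_assoc, ← pow_two, hq, mul_one]
  have h5 : q * d ^ (k + 1) * q⁻¹ = (d ^ (k + 1))⁻¹ := by
    rw [← inv_pow, ← h1, conj_pow]
  have h2 : q * (d ^ (k + 1))⁻¹ = d ^ (k + 1) * q := by
    have h4 : q * q = 1 := by rw [← pow_two]; exact hq
    rw [← h5, ← mul_assoc, ← mul_assoc, h4, one_mul, iq]
  refine ⟨d ^ (k + 1), ?_⟩
  rw [mul_assoc, h2, ← mul_assoc, ← pow_add, show k + 1 + (k + 1) = (2 * k + 1) + 1 by ring, pow_succ, hd, h, one_mul,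
    mul_assoc, ← pow_two, hq, mul_one]

/-- lifts of a conjugate -/
theorem sq_of_conj {G : Type v} [Group G] (σ : Γ →* G) (hs : Function.Surjective σ) (hc : σ.ker ≤ center Γ)
    (h2 : ∀ a ∈ σ.ker, a ^ 2 = 1) {Z Q : Γ} (hQ : Q ^ 2 = 1) {g : G} (h : σ Z = g * σ Q * g⁻¹) : Z ^ 2 = 1 := by
  obtain ⟨γ, rfl⟩ := hs g
  have h3 : (γ * Q * γ⁻¹)⁻¹ * Z ∈ σ.ker := by
    rw [MonoidHom.mem_ker, map_mul, h]
    simp only [map_mul, map_inv]
    group
  obtain ⟨a, ha⟩ : ∃ a, a = (γ * Q * γ⁻¹)⁻¹ * Z := ⟨_, rfl⟩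
  rw [← ha] at h3
  have h4 : Z = (γ * Q * γ⁻¹) * a := by rw [ha]; group
  have hC : Commute (γ * Q * γ⁻¹) a := mem_center_iff.1 (hc h3) _
  rw [h4, hC.mul_pow, h2 a h3, mul_one, conj_pow, hQ]
  group

end

end Cfsg.Agent.Lib.H58SplitM
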