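import Cfsg.Agent.Lib.H58J4W
import Cfsg.Agent.Lib.H58SplitM
import Cfsg.Agent.Lib.H92MathieuSchurB
import Cfsg.Agent.Lib.GolayM21

/-!
Stem extensions of J4 split (helper58).
-/

set_option autoImplicit false
set_option linter.all false
set_option maxRecDepth 100000

namespace Cfsg.Agent.Lib.H58J4

open Cfsg Subgroup Cfsg.Spor Cfsg.Agent.Lib.BenesWord Cfsg.Agent.Lib.MatF2 Cfsg.Agent.Lib.CoxBridge Cfsg.Agent.Lib.J4Rho
open Cfsg.Agent.Lib.J4RhoHom Cfsg.Agent.Lib.SchurSylow Cfsg.Agent.Lib.H58SplitM Cfsg.Agent.Lib.CosetGroup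
open scoped commutatorElement

/-- three values -/
def fn {G : Type*} (p q r : G) (c : ℕ) : G := match c with
  | 0 => p
  | 1 => q
  | _ => r

/-- the words of the relators -/
theorem relW : ∀ W ∈ extraW, W.eval X = 1 := by
  intro W hW
  have h := (C.rel_x []).2.1 W hW
  rw [← h]
  exact CoxBridge.eval_congr (n := 3) (fun c hc => (C.x_of_lt [] (c := c) hc).symm) W (C.hlets W hW)

theorem closure_X : closure ({X 0, X 1, X 2} : Set J4) = ⊤ := by
  rw [eq_top_iff, ← C.closure_letters [], closure_le]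
  rintro h ⟨W, hW, rfl⟩
  obtain ⟨c, hc, rfl⟩ := List.mem_map.mp hW
  have hc : c < 3 := List.mem_range.mp hc
  show C.x [] c ∈ closure ({X 0, X 1, X 2} : Set J4)
  rw [C.x_of_lt [] (c := c) hc]
  interval_cases c
  · exact subset_closure (by left; rfl)
  · exact subset_closure (by right; left; rfl)
  · exact subset_closure (by right; right; rfl)

/-- word -/
def uu {G : Type*} [Group G] (p q : G) : G := q * p * q⁻¹ * p * q * p * q⁻¹ * p
/-- word -/
def ww {G : Type*} [Group G] (p q : G) : G := q * p * q * (p * q⁻¹) ^ 2 * (p * q) ^ 3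
/-- word -/
def vv {G : Type*} [Group G] (p q : G) : G := (p * q) ^ 3 * q * (p * q) ^ 6 * q
/-- word -/
def mm {G : Type*} [Group G] (p q : G) : G := (q * p * q * p * q * p * q) ^ 3

/-- the relators -/
theorem rels_iff {G : Type*} [Group G] (p q r : G) : (∀ W ∈ extraW, Wd.eval (fn p q r) W = 1) ↔
    ((∀ W ∈ extraW.take 7, Wd.eval (fn p q r) W = 1) ∧ r ^ 2 = 1 ∧ r⁻¹ * (ww p q)⁻¹ * r * ww p q = 1 ∧ r⁻¹ * p⁻¹ * r * p = 1 ∧
      (q * ((uu p q)⁻¹ * r * uu p q)) ^ 3 = 1 ∧ (mm p q * r * ((vv p q)⁻¹ * r * vv p q)) ^ 2 = 1) := by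
  have h0 : extraW = extraW.take 7 ++ extraW.drop 7 := (List.take_append_drop 7 extraW).symm
  rw [h0]
  simp only [List.forall_mem_append]
  rw [← h0]
  refine and_congr Iff.rfl ?_
  show (∀ (W : Wd), W ∈ ([_, _, _, _, _] : List Wd) → Wd.eval (fn p q r) W = 1) ↔ _
  simp only [List.forall_mem_cons]
  exact ⟨fun ⟨a1, a2, a3, a4, a5, _⟩ => ⟨a1, a2, a3, a4, a5⟩,
    fun ⟨a1, a2, a3, a4, a5⟩ => ⟨a1, a2, a3, a4, a5, fun _ h => absurd h List.not_mem_nil⟩⟩

theorem hom_of {G : Type*} [Group G] (p q r : G) (h : ∀ W ∈ extraW, Wd.eval (fn p q r) W = 1) :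
    ∃ τ : J4 →* G, τ (X 0) = p ∧ τ (X 1) = q ∧ τ (X 2) = r := by
  obtain ⟨τ, hτ⟩ := C.hom (fn p q r) (fun i hi => absurd hi (Nat.not_lt_zero i))
    (fun W hW => absurd hW List.not_mem_nil) h
  exact ⟨τ, hτ 0 (by decide), hτ 1 (by decide), hτ 2 (by decide)⟩

/-- a word in a pair of elements of a superperfect subgroup -/
theorem P_word {G Γ : Type*} [Group G] [Group Γ] {P : Subgroup G} (η : P →* Γ) (hη : ∀ W : Wd, True) {x y : ℕ → G}
    (hx : ∀ c, c < 2 → x c ∈ P) {f : ℕ → Γ} (hf : ∀ c (h : c < 2), f c = η ⟨x c, hx c h⟩) {W : Wd} (hW : lets 2 W = true)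
    (h1 : W.eval x = 1) : W.eval f = 1 := by
  obtain ⟨x', hx'⟩ : ∃ x' : ℕ → P, ∀ c (h : c < 2), x' c = ⟨x c, hx c h⟩ :=
    ⟨fun c => if h : c < 2 then ⟨x c, hx c h⟩ else 1, fun c h => dif_pos h⟩
  have h2 : W.eval x' = 1 := by
    apply Subtype.ext
    have h3 := Wd.map_eval P.subtype x' W
    have h4 : W.eval (fun c => P.subtype (x' c)) = W.eval x :=
      J4RhoHom.eval_congr (k := 2) (fun c hc => by rw [hx' c hc]; rfl) hW
    show P.subtype (W.eval x') = P.subtype 1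
    rw [h3, h4, h1, map_one]
  have h5 := Wd.map_eval η x' W
  rw [h2, map_one] at h5
  rw [h5]
  exact J4RhoHom.eval_congr (k := 2) (fun c hc => by rw [hf c hc, hx' c hc]) hW

/-- every stem extension by a group of prime order splits -/
theorem no_prime (hinj : Function.Injective rho) (P : Subgroup J4) [Finite P] (hX0 : X 0 ∈ P) (hX1 : X 1 ∈ P)
    (hP : Group.IsPerfect P) (hM : HasCyclicSchurMultiplier P 1) {p : ℕ} [hp : Fact p.Prime]
    (Γ : Type) [Group Γ] [Finite Γ] (σ : Γ →* J4) (hσ : IsStemExtension σ) : Nat.card σ.ker ≠ p := by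
  intro hcard
  obtain ⟨η, hη⟩ := exists_lift σ hσ.1 hσ.2.1 P hP hM
  have hc := hσ.2.1
  obtain ⟨A, hA⟩ : ∃ A, A = η ⟨X 0, hX0⟩ := ⟨_, rfl⟩
  obtain ⟨B', hB⟩ : ∃ B', B' = η ⟨X 1, hX1⟩ := ⟨_, rfl⟩
  have sA : σ A = X 0 := by rw [hA, hη]
  have sB : σ B' = X 1 := by rw [hB, hη]
  have hone : ∀ W : Wd, lets 3 W = true → Nat.beq (ev (W.flat iv)) one = true → W.eval X = 1 := by
    intro W h h1
    apply hinj
    rw [rho_one h h1, map_one]
  have hxP : ∀ c, c < 2 → X c ∈ P := by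
    intro c hc
    interval_cases c
    · exact hX0
    · exact hX1
  -- words in the first two generators
  have hw2 : ∀ (W : Wd) (T : Γ), lets 2 W = true → W.eval X = 1 → W.eval (fn A B' T) = 1 := by
    intro W T hW h1
    refine P_word η (fun _ => trivial) (y := X) hxP (f := fn A B' T) ?_ hW h1
    intro c hc
    interval_cases c
    · exact hA
    · exact hB
  -- words in all generators
  have hw3 : ∀ (W : Wd) (T : Γ), σ T = X 2 → lets 3 W = true → σ (W.eval (fn A B' T)) = W.eval X := by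
    intro W T hT hW
    rw [Wd.map_eval]
    refine J4RhoHom.eval_congr (k := 3) (fun c hc => ?_) hW
    interval_cases c
    · exact sA
    · exact sB
    · exact hT
  have h7 : ∀ T : Γ, ∀ W ∈ extraW.take 7, Wd.eval (fn A B' T) W = 1 := by
    intro T W hW
    refine hw2 W T ?_ (relW W (List.mem_of_mem_take hW))
    have : (extraW.take 7).all (lets 2) = true := by decide
    exact List.all_eq_true.1 this W hW
  -- relations in `P`
  have hAA : A ^ 2 = 1 := h7 1 (Wd.pow (Wd.g 0) 2) List.mem_cons_self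
  have hBB : B' ^ 3 = 1 := h7 1 (Wd.pow (Wd.g 1) 3) (List.mem_cons_of_mem _ List.mem_cons_self)
  have hW4 : (ww A B') ^ 4 = 1 := hw2 Fw 1 (by decide) (hone Fw (by decide) kw)
  have hM4 : (mm A B') ^ 4 = 1 := hw2 Fm 1 (by decide) (hone Fm (by decide) km)
  have hAW : (A * ww A B') ^ 21 = 1 := hw2 Fxw 1 (by decide) (hone Fxw (by decide) kxw)
  -- exponent
  have hexp : ∀ a ∈ σ.ker, a ^ p = 1 := by
    intro a ha
    have h1 := pow_card_eq_one' (G := σ.ker) (x := ⟨a, ha⟩)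
    rw [hcard] at h1
    exact congrArg Subtype.val h1
  obtain ⟨T0, hT0⟩ := hσ.1 (X 2)
  -- it suffices to find a good lift
  have key : ∀ T : Γ, σ T = X 2 → T ^ 2 = 1 → T⁻¹ * (ww A B')⁻¹ * T * ww A B' = 1 → T⁻¹ * A⁻¹ * T * A = 1 →
      (B' * ((uu A B')⁻¹ * T * uu A B')) ^ 3 = 1 → (mm A B' * T * ((vv A B')⁻¹ * T * vv A B')) ^ 2 = 1 → False := by
    intro T hT h8 h9 h10 h11 h12
    obtain ⟨τ, t0, t1, t2⟩ := hom_of A B' T ((rels_iff A B' T).2 ⟨h7 T, h8, h9, h10, h11, h12⟩)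
    have hsec : ∀ g, σ (τ g) = g := by
      intro g
      have h13 : σ.comp τ = MonoidHom.id J4 := by
        refine MonoidHom.eq_of_eqOn_dense closure_X ?_
        rintro x (rfl | rfl | rfl)
        · show σ (τ (X 0)) = X 0
          rw [t0, sA]
        · show σ (τ (X 1)) = X 1
          rw [t1, sB]
        · show σ (τ (X 2)) = X 2
          rw [t2, hT]
      exact DFunLike.congr_fun h13 g
    have h14 := ker_trivial_of_section σ hσ τ hsec
    haveI : Subsingleton σ.ker := ⟨fun x y => Subtype.ext ((h14 x x.2).trans (h14 y y.2).symm)⟩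
    rw [Nat.card_of_subsingleton 1] at hcard
    exact hp.out.one_lt.ne hcard
  -- the relators modulo the kernel
  have hX := (rels_iff (X 0) (X 1) (X 2)).1 (by
    intro W hW
    rw [← relW W hW]
    refine J4RhoHom.eval_congr (k := 3) (fun c hc => ?_) (C.hlets W hW)
    interval_cases c <;> rfl)
  obtain ⟨-, x8, x9, x10, x11, x12⟩ := hX
  have hmt : (X 2)⁻¹ * (mm (X 0) (X 1))⁻¹ * X 2 * mm (X 0) (X 1) = 1 := hone Fmt (by decide) kmt
  have sU : σ (uu A B') = uu (X 0) (X 1) := by simp only [uu, map_mul, map_inv, sA, sB]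
  have sW : σ (ww A B') = ww (X 0) (X 1) := by simp only [ww, map_mul, map_inv, map_pow, sA, sB]
  have sV : σ (vv A B') = vv (X 0) (X 1) := by simp only [vv, map_mul, map_inv, map_pow, sA, sB]
  have sM : σ (mm A B') = mm (X 0) (X 1) := by simp only [mm, map_mul, map_inv, map_pow, sA, sB]
  have r8 : ∀ T, σ T = X 2 → T ^ 2 ∈ σ.ker := by
    intro T hT; rw [MonoidHom.mem_ker, map_pow, hT]; exact x8
  have r9 : ∀ T, σ T = X 2 → T⁻¹ * (ww A B')⁻¹ * T * ww A B' ∈ σ.ker := by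
    intro T hT; rw [MonoidHom.mem_ker]; simp only [map_mul, map_inv, sW, hT]; exact x9
  have r10 : ∀ T, σ T = X 2 → T⁻¹ * A⁻¹ * T * A ∈ σ.ker := by
    intro T hT; rw [MonoidHom.mem_ker]; simp only [map_mul, map_inv, sA, hT]; exact x10
  have r11 : ∀ T, σ T = X 2 → (B' * ((uu A B')⁻¹ * T * uu A B')) ^ 3 ∈ σ.ker := by
    intro T hT; rw [MonoidHom.mem_ker]; simp only [map_mul, map_inv, map_pow, sB, sU, hT]; exact x11
  have r12 : ∀ T, σ T = X 2 → (mm A B' * T * ((vv A B')⁻¹ * T * vv A B')) ^ 2 ∈ σ.ker := by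
    intro T hT; rw [MonoidHom.mem_ker]; simp only [map_mul, map_inv, map_pow, sM, sV, hT]; exact x12
  have rm : ∀ T, σ T = X 2 → T⁻¹ * (mm A B')⁻¹ * T * mm A B' ∈ σ.ker := by
    intro T hT; rw [MonoidHom.mem_ker]; simp only [map_mul, map_inv, sM, hT]; exact hmt
  by_cases hp2 : p = 2
  · subst hp2
    have h2 := hexp
    -- choose a lift with the relation of order three
    obtain ⟨T, hT, h11⟩ : ∃ T, σ T = X 2 ∧ (B' * ((uu A B')⁻¹ * T * uu A B')) ^ 3 = 1 := by
      obtain ⟨c, hcd⟩ : ∃ c, c = (B' * ((uu A B')⁻¹ * T0 * uu A B')) ^ 3 := ⟨_, rfl⟩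
      have hck : c ∈ σ.ker := by rw [hcd]; exact r11 T0 hT0
      have hcc := mem_center_iff.1 (hc hck)
      refine ⟨T0 * c, by rw [map_mul, hT0, show σ c = 1 from hck, mul_one], ?_⟩
      have h3 : B' * ((uu A B')⁻¹ * (T0 * c) * uu A B') = (B' * ((uu A B')⁻¹ * T0 * uu A B')) * c := by
        simp only [mul_assoc]
        rw [← hcc (uu A B')]
      have hC : Commute (B' * ((uu A B')⁻¹ * T0 * uu A B')) c := hcc _
      rw [h3, hC.mul_pow, ← hcd, ← pow_succ']
      rw [show 3 + 1 = 2 * 2 by norm_num, pow_mul, h2 c hck, one_pow]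
    have hQ2 : (Wq.eval (fn A B' T)) ^ 2 = 1 := hw2 Fq T (by decide) (hone Fq (by decide) kq)
    have hQX : (Wq.eval X) ^ 2 = 1 := hone Fq (by decide) kq
    have hAX : (X 0) ^ 2 = 1 := relW (Wd.pow (Wd.g 0) 2) List.mem_cons_self
    have hFa := hone Fa (by decide) ka
    have hFb := hone Fb (by decide) kb
    have hFc := hone Fc (by decide) kc
    have cjsq : ∀ (h z : J4), z ^ 2 = 1 → (h⁻¹ * z * h) ^ 2 = 1 := by
      intro h z hz
      have : (h⁻¹ * z * h) ^ 2 = h⁻¹ * z ^ 2 * h := by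
        rw [pow_two, pow_two]; group
      rw [this, hz]; group
    -- `T` is an involution
    have hTT : T ^ 2 = 1 := by
      obtain ⟨h, hh⟩ : ∃ h, h = X 2 * X 0 * (X 1)⁻¹ := ⟨_, rfl⟩
      have e1 : (X 2 * (h⁻¹ * Wq.eval X * h)) ^ (2 * 5 + 1) = 1 := by rw [hh]; exact hFa
      obtain ⟨g, hg⟩ := conj_of_odd x8 (cjsq h _ hQX) e1
      refine sq_of_conj σ hσ.1 hc h2 (Z := T) (Q := Wq.eval (fn A B' T)) hQ2 (g := g * h⁻¹) ?_
      rw [hT, hw3 Wq T hT (by decide)]
      rw [hg]; group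
    -- `T` and `A` commute
    have hXA : X 2 * X 0 = X 0 * X 2 := by
      have h3 : (X 2)⁻¹ * (X 0)⁻¹ = ((X 0)⁻¹ * (X 2)⁻¹) := by
        have h4 : (X 2)⁻¹ * (X 0)⁻¹ * (X 2 * X 0) = 1 := by rw [← mul_assoc]; exact x10
        rw [mul_eq_one_iff_eq_inv] at h4
        rw [h4, mul_inv_rev]
      have := congrArg (·⁻¹) h3
      simp only [mul_inv_rev, inv_inv] at this
      exact this.symm
    have hTA2 : (T * A) ^ 2 = 1 := by
      obtain ⟨h, hh⟩ : ∃ h, h = X 1 * X 2 * X 1 := ⟨_, rfl⟩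
      have e1 : (X 2 * X 0 * (h⁻¹ * X 0 * h)) ^ (2 * 16 + 1) = 1 := by rw [hh]; exact hFb
      have e0 : (X 2 * X 0) ^ 2 = 1 := by
        have : (X 2 * X 0) ^ 2 = X 2 ^ 2 * X 0 ^ 2 := by
          rw [pow_two, mul_assoc, ← mul_assoc (X 0), ← hXA, pow_two, pow_two]
          simp only [mul_assoc]
        rw [this, x8, hAX, one_mul]
      obtain ⟨g, hg⟩ := conj_of_odd e0 (cjsq h _ hAX) e1
      refine sq_of_conj σ hσ.1 hc h2 (Z := T * A) (Q := A) hAA (g := g * h⁻¹) ?_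
      rw [map_mul, hT, sA, hg]; group
    have iT : T⁻¹ = T := by rw [inv_eq_iff_mul_eq_one, ← pow_two]; exact hTT
    have iA : A⁻¹ = A := by rw [inv_eq_iff_mul_eq_one, ← pow_two]; exact hAA
    have h10 : T⁻¹ * A⁻¹ * T * A = 1 := by
      rw [iT, iA, mul_assoc (T * A), ← pow_two]; exact hTA2
    -- `T` and `w` commute
    have h9 : T⁻¹ * (ww A B')⁻¹ * T * ww A B' = 1 := by
      have k1 := r9 T hT
      have e1 : T⁻¹ * (A * ww A B')⁻¹ * T * (A * ww A B') = T⁻¹ * (ww A B')⁻¹ * T * ww A B' := by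
        have h3 : A⁻¹ * T * A = T := by
          have : A⁻¹ * T * A = T * (T⁻¹ * A⁻¹ * T * A) := by group
          rw [this, h10, mul_one]
        have : T⁻¹ * (A * ww A B')⁻¹ * T * (A * ww A B') = T⁻¹ * (ww A B')⁻¹ * (A⁻¹ * T * A) * ww A B' := by group
        rw [this, h3]
      have k2 : T⁻¹ * (A * ww A B')⁻¹ * T * (A * ww A B') ∈ center Γ := by rw [e1]; exact hc k1
      have k3 := comm_pow k2 hAW
      rw [e1] at k3
      have k4 := h2 _ k1
      have : (T⁻¹ * (ww A B')⁻¹ * T * ww A B') ^ 21 = ((T⁻¹ * (ww A B')⁻¹ * T * ww A B') ^ 2) ^ 10 * (T⁻¹ * (ww A B')⁻¹ * T * ww A B') := by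
        rw [← pow_mul, ← pow_succ]
      rw [this, k4, one_pow, one_mul] at k3
      exact k3
    have h12 : (mm A B' * T * ((vv A B')⁻¹ * T * vv A B')) ^ 2 = 1 := by
      obtain ⟨g, hg⟩ := conj_of_odd (k := 15) x12 hAX hFc
      refine sq_of_conj σ hσ.1 hc h2 (Q := A) hAA (g := g) ?_
      simp only [map_mul, map_inv, sM, sV, hT]
      rw [sA]
      exact hg
    exact key T hT hTT h9 h10 h11 h12
  · -- odd primes
    have h4 : ∀ a ∈ σ.ker, a ^ 4 = 1 → a = 1 := by
      intro a ha h1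
      have h3 : orderOf a ∣ 4 := orderOf_dvd_of_pow_eq_one h1
      have h5 : orderOf a ∣ p := orderOf_dvd_of_pow_eq_one (hexp a ha)
      have h6 : Nat.Coprime 4 p := by
        rw [show 4 = 2 ^ 2 by norm_num]
        exact Nat.Coprime.pow_left 2 ((Nat.coprime_primes Nat.prime_two hp.out).2 (Ne.symm hp2))
      have h8 : orderOf a ∣ 1 := by
        have := Nat.dvd_gcd h3 h5
        rwa [h6] at this
      rw [← orderOf_eq_one_iff]
      exact Nat.dvd_one.1 h8
    obtain ⟨k, hk⟩ : ∃ k, p = 2 * k + 1 := (hp.out.odd_of_ne_two hp2)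
    obtain ⟨T, hT, hTT⟩ : ∃ T, σ T = X 2 ∧ T ^ 2 = 1 := by
      obtain ⟨c, hcd⟩ : ∃ c, c = T0 ^ 2 := ⟨_, rfl⟩
      have hck : c ∈ σ.ker := by rw [hcd]; exact r8 T0 hT0
      have hcc := mem_center_iff.1 (hc hck)
      refine ⟨T0 * c ^ k, by rw [map_mul, hT0, map_pow, show σ c = 1 from hck, one_pow, mul_one], ?_⟩
      have hC : Commute T0 (c ^ k) := Commute.pow_right (hcc _) k
      rw [hC.mul_pow, ← hcd, ← pow_mul, ← pow_succ', mul_comm k 2, ← hk]
      exact hexp c hck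
    have h10 : T⁻¹ * A⁻¹ * T * A = 1 := by
      apply h4 _ (r10 T hT)
      have := comm_pow (hc (r10 T hT)) hAA
      rw [show 4 = 2 * 2 by norm_num, pow_mul, this, one_pow]
    have h9 : T⁻¹ * (ww A B')⁻¹ * T * ww A B' = 1 := h4 _ (r9 T hT) (comm_pow (hc (r9 T hT)) hW4)
    have cjsq : ∀ (h : Γ), (h⁻¹ * T * h) ^ 2 = 1 := by
      intro h
      have : (h⁻¹ * T * h) ^ 2 = h⁻¹ * T ^ 2 * h := by
        rw [pow_two, pow_two]; group
      rw [this, hTT]; group
    have h11 : (B' * ((uu A B')⁻¹ * T * uu A B')) ^ 3 = 1 :=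
      h4 _ (r11 T hT) (three_three (hc (r11 T hT)) hBB (cjsq _) rfl)
    have hTm : T⁻¹ * (mm A B')⁻¹ * T * mm A B' = 1 := h4 _ (rm T hT) (comm_pow (hc (rm T hT)) hM4)
    have hmT : Commute (mm A B') T := by
      have h3 : (mm A B')⁻¹ * T * mm A B' = T := by
        have : (mm A B')⁻¹ * T * mm A B' = T * (T⁻¹ * (mm A B')⁻¹ * T * mm A B') := by group
        rw [this, hTm, mul_one]
      show mm A B' * T = T * mm A B'
      conv_lhs => rw [← h3]
      group
    have hn4 : (mm A B' * T) ^ 4 = 1 := by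
      rw [hmT.mul_pow, hM4, one_mul, show 4 = 2 * 2 by norm_num, pow_mul, hTT, one_pow]
    have h12 : (mm A B' * T * ((vv A B')⁻¹ * T * vv A B')) ^ 2 = 1 :=
      h4 _ (r12 T hT) (two_four (hc (r12 T hT)) hn4 (cjsq _) rfl)
    exact key T hT hTT h9 h10 h11 h12

/-- the multiplier of `J4` -/
theorem stem_one (hinj : Function.Injective rho) (P : Subgroup J4) (hX0 : X 0 ∈ P) (hX1 : X 1 ∈ P)
    (e : Nonempty (P ≃* M24)) : StemDvd J4 1 := by
  obtain ⟨e⟩ := e
  haveI : Finite P := Finite.of_equiv _ e.symm.toEquiv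
  haveI : IsSimpleGroup M24 := Cfsg.Agent.Lib.Golay.M24_simple
  have hperf : Group.IsPerfect M24 := by
    rw [Group.isPerfect_def]
    rcases (inferInstance : (commutator M24).Normal).eq_bot_or_eq_top with h | h
    · exfalso
      have hcomm : ∀ a b : M24, a * b = b * a := by
        intro a b
        have h1 : ⁅a, b⁆ ∈ commutator M24 := Subgroup.commutator_mem_commutator (mem_top a) (mem_top b)
        rw [h, mem_bot] at h1
        exact commutatorElement_eq_one_iff_mul_comm.1 h1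
      letI : CommGroup M24 := { (inferInstance : Group M24) with mul_comm := hcomm }
      have h2 : (Nat.card M24).Prime := IsSimpleGroup.prime_card
      rw [Cfsg.Agent.Lib.Golay.natCard_M24] at h2
      exact absurd h2 (by norm_num)
    · exact h
  have hP : Group.IsPerfect P := by
    haveI := hperf
    exact Group.IsPerfect.ofSurjective (f := e.symm.toMonoidHom) e.symm.surjective
  have hM : HasCyclicSchurMultiplier P 1 :=
    hasTrivial_of_stemDvd (StemDvd.congr e.symm Cfsg.Agent.Lib.H92MathieuSchur.m24_stem)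
  apply StemDvd.of_forall
  intro p hp
  haveI : Fact p.Prime := ⟨hp⟩
  exact pStem_one_of_no_prime fun Γ _ _ σ hσ => no_prime hinj P hX0 hX1 hP hM Γ σ hσ

end Cfsg.Agent.Lib.H58J4
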