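import Cfsg.Agent.Lib.J4RhoHom

/-!
Some relations in the 112-dimensional representation of J4 (helper58).
-/

set_option autoImplicit false
set_option linter.all false
set_option maxRecDepth 100000
set_option Elab.async false

namespace Cfsg.Agent.Lib.H58J4

open Cfsg.Spor Cfsg.Agent.Lib.BenesWord Cfsg.Agent.Lib.MatF2 Cfsg.Agent.Lib.CoxBridge Cfsg.Agent.Lib.J4Rho Cfsg.Agent.Lib.J4RhoHom

/-- letter -/ abbrev a : Wd := Wd.g 0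
/-- letter -/ abbrev b : Wd := Wd.g 1
/-- letter -/ abbrev t : Wd := Wd.g 2
/-- letter -/ abbrev B : Wd := Wd.inv (Wd.g 1)

local infixl:70 " ⬝ " => Wd.mul

/-- word -/
def Ww : Wd := b ⬝ a ⬝ b ⬝ Wd.pow (a ⬝ B) 2 ⬝ Wd.pow (a ⬝ b) 3
/-- word -/
def Wv : Wd := Wd.pow (a ⬝ b) 3 ⬝ b ⬝ Wd.pow (a ⬝ b) 6 ⬝ b
/-- word -/
def Wm : Wd := Wd.pow (b ⬝ a ⬝ b ⬝ a ⬝ b ⬝ a ⬝ b) 3
/-- word -/
def Wq : Wd := Wd.pow (a ⬝ B ⬝ a ⬝ B ⬝ a ⬝ b ⬝ a ⬝ b ⬝ a ⬝ B ⬝ a ⬝ b) 2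
/-- word -/
def Fw : Wd := Wd.pow Ww 4
/-- word -/
def Fm : Wd := Wd.pow Wm 4
/-- word -/
def Fq : Wd := Wd.pow Wq 2
/-- word -/
def Fxw : Wd := Wd.pow (a ⬝ Ww) 21
/-- word -/
def Fmt : Wd := Wd.inv t ⬝ Wd.inv Wm ⬝ t ⬝ Wm
/-- word -/
def Fa : Wd := Wd.pow (t ⬝ (Wd.inv (t ⬝ a ⬝ B) ⬝ Wq ⬝ (t ⬝ a ⬝ B))) 11
/-- word -/
def Fb : Wd := Wd.pow ((t ⬝ a) ⬝ (Wd.inv (b ⬝ t ⬝ b) ⬝ a ⬝ (b ⬝ t ⬝ b))) 33
/-- word -/
def Fc : Wd := Wd.pow ((Wm ⬝ t ⬝ (Wd.inv Wv ⬝ t ⬝ Wv)) ⬝ a) 31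

theorem kw : Nat.beq (ev (Fw.flat iv)) one = true := by decide +kernel
theorem km : Nat.beq (ev (Fm.flat iv)) one = true := by decide +kernel
theorem kq : Nat.beq (ev (Fq.flat iv)) one = true := by decide +kernel
theorem kxw : Nat.beq (ev (Fxw.flat iv)) one = true := by decide +kernel
theorem kmt : Nat.beq (ev (Fmt.flat iv)) one = true := by decide +kernel
theorem ka : Nat.beq (ev (Fa.flat iv)) one = true := by decide +kernel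
theorem kb : Nat.beq (ev (Fb.flat iv)) one = true := by decide +kernel
theorem kc : Nat.beq (ev (Fc.flat iv)) one = true := by decide +kernel

end Cfsg.Agent.Lib.H58J4
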