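import Cfsg.Agent.Lib.H58SplitM
import Cfsg.Agent.Lib.CosetGroup

/-!
Abstract computations for the stem extensions of the Lyons group (helper58).
-/

set_option autoImplicit false
set_option linter.all false

namespace Cfsg.Agent.Lib.H58LyA

open Subgroup Cfsg.Agent.Lib.BenesWord

variable {Γ : Type*} [Group Γ]

/-- all letters satisfy a condition -/
def letS (S : ℕ → Bool) : Wd → Bool
  | .one => true
  | .g c => S c
  | .inv u => letS S u
  | .mul u v => letS S u && letS S v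
  | .pow u _ => letS S u

theorem eval_congrS {S : ℕ → Bool} {u v : ℕ → Γ} (h : ∀ c, S c = true → u c = v c) {W : Wd} (hW : letS S W = true) :
    W.eval u = W.eval v := by
  induction W with
  | one => rfl
  | g c => exact h c hW
  | inv a ih => simp only [Wd.eval]; rw [ih hW]
  | mul a b iha ihb =>
    simp only [letS, Bool.and_eq_true] at hW
    simp only [Wd.eval]; rw [iha hW.1, ihb hW.2]
  | pow a n ih => simp only [Wd.eval]; rw [ih hW]

theorem eval_mem {S : ℕ → Bool} {y : ℕ → Γ} {P : Subgroup Γ} (h : ∀ c, S c = true → y c ∈ P) {W : Wd} (hW : letS S W = true) :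
    W.eval y ∈ P := by
  induction W with
  | one => exact one_mem _
  | g c => exact h c hW
  | inv a ih => exact inv_mem (ih hW)
  | mul a b iha ihb =>
    simp only [letS, Bool.and_eq_true] at hW
    exact mul_mem (iha hW.1) (ihb hW.2)
  | pow a n ih => exact pow_mem (ih hW) n

/-- a word in elements of a subgroup with a homomorphism -/
theorem word_one {G : Type*} [Group G] {P : Subgroup G} (η : P →* Γ) {S : ℕ → Bool} {y : ℕ → G}
    (hy : ∀ c, S c = true → y c ∈ P) {f : ℕ → Γ} (hf : ∀ c (h : S c = true), f c = η ⟨y c, hy c h⟩) {W : Wd}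
    (hW : letS S W = true) (h1 : W.eval y = 1) : W.eval f = 1 := by
  obtain ⟨x', hx'⟩ : ∃ x' : ℕ → P, ∀ c (h : S c = true), x' c = ⟨y c, hy c h⟩ :=
    ⟨fun c => if h : S c = true then ⟨y c, hy c h⟩ else 1, fun c h => dif_pos h⟩
  have h2 : W.eval x' = 1 := by
    apply Subtype.ext
    have h3 := Wd.map_eval P.subtype x' W
    have h4 : W.eval (fun c => P.subtype (x' c)) = W.eval y :=
      eval_congrS (fun c hc => by rw [hx' c hc]; rfl) hW
    show P.subtype (W.eval x') = P.subtype 1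
    rw [h3, h4, h1, map_one]
  have h5 := Wd.map_eval η x' W
  rw [h2, map_one] at h5
  rw [h5]
  exact eval_congrS (fun c hc => by rw [hf c hc, hx' c hc]) hW

theorem eval_center {S : ℕ → Bool} {ch : ℕ → Γ} (h : ∀ c, S c = true → ch c ∈ center Γ) {W : Wd} (hW : letS S W = true) :
    W.eval ch ∈ center Γ := eval_mem h hW

/-- multiplying letters by central elements -/
theorem eval_mul_center {S : ℕ → Bool} {F ch : ℕ → Γ} (h : ∀ c, S c = true → ch c ∈ center Γ) {W : Wd} (hW : letS S W = true) :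
    W.eval (fun c => F c * ch c) = W.eval F * W.eval ch := by
  induction W with
  | one => simp [Wd.eval]
  | g c => rfl
  | inv a ih =>
    simp only [Wd.eval]
    rw [ih hW, mul_inv_rev]
    exact (mem_center_iff.1 (inv_mem (eval_center h (W := a) hW)) _).symm
  | mul a b iha ihb =>
    simp only [letS, Bool.and_eq_true] at hW
    simp only [Wd.eval]
    rw [iha hW.1, ihb hW.2]
    have h1 := mem_center_iff.1 (eval_center h hW.1) (b.eval F)
    simp only [mul_assoc]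
    rw [← mul_assoc (b.eval F), h1]
    simp only [mul_assoc]
  | pow a n ih =>
    simp only [Wd.eval]
    rw [ih hW]
    have h1 : Commute (a.eval F) (a.eval ch) := mem_center_iff.1 (eval_center h (W := a) hW) _
    exact h1.mul_pow n

theorem cen3 {x y : Γ} (hy : y ∈ center Γ) (h : x⁻¹ * y * x * (y ^ 3)⁻¹ = 1) (h5 : y ^ 5 = 1) : y = 1 := by
  have h1 : x⁻¹ * y * x = y := by rw [mul_assoc, ← mem_center_iff.1 hy x]; group
  rw [h1, mul_inv_eq_one] at h
  have h2 : y ^ 2 = 1 := by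
    have : y * y ^ 2 = y * 1 := by rw [mul_one, ← pow_succ']; exact h.symm
    exact mul_left_cancel this
  calc y = y ^ 5 * ((y ^ 2) ^ 2)⁻¹ := by group
    _ = 1 := by rw [h5, h2]; group

theorem cen4 {x y : Γ} (hy : y ∈ center Γ) (h : x⁻¹ * y * x * (y ^ 4)⁻¹ = 1) (h5 : y ^ 5 = 1) : y = 1 := by
  have h1 : x⁻¹ * y * x = y := by rw [mul_assoc, ← mem_center_iff.1 hy x]; group
  rw [h1, mul_inv_eq_one] at h
  calc y = y ^ 5 * (y ^ 4)⁻¹ := by group
    _ = y⁻¹ := by rw [h5, ← h]; group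
    _ = (y ^ 4)⁻¹ := by rw [← h]
    _ = y * (y ^ 5)⁻¹ := by group
    _ = y := by rw [h5]; group
  have h2 : y ^ 3 = 1 := by
    have : y * y ^ 3 = y * 1 := by rw [mul_one, ← pow_succ']; exact h.symm
    exact mul_left_cancel this
  calc y = (y ^ 3) ^ 2 * (y ^ 5)⁻¹ := by group
    _ = 1 := by rw [h5, h2]; group

theorem ceneq {x y t : Γ} (hx : x ∈ center Γ) (h : t⁻¹ * x * t * y⁻¹ = 1) : y = x := by
  have h1 : t⁻¹ * x * t = x := by rw [mul_assoc, ← mem_center_iff.1 hx t]; group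
  rw [h1, mul_inv_eq_one] at h
  exact h.symm

/-- iterated central conjugation -/
theorem conj3 {y a c : Γ} (hc : c ∈ center Γ) (h : y⁻¹ * a * y = a * c) (h3 : y ^ 3 ∈ center Γ) : c ^ 3 = 1 := by
  have h2 : ∀ k : ℕ, (y ^ k)⁻¹ * a * y ^ k = a * c ^ k := by
    intro k
    induction k with
    | zero => simp
    | succ k ih =>
      have h3 := mem_center_iff.1 (pow_mem hc k) y
      calc (y ^ (k + 1))⁻¹ * a * y ^ (k + 1) = y⁻¹ * ((y ^ k)⁻¹ * a * y ^ k) * y := by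
            rw [pow_succ]; group
        _ = (y⁻¹ * a * y) * c ^ k := by rw [ih]; rw [mul_assoc, mul_assoc, mul_assoc, mul_assoc, h3]
        _ = a * c ^ (k + 1) := by rw [h, mul_assoc, ← pow_succ']
  have h4 := h2 3
  rw [mul_assoc, mem_center_iff.1 h3 a, inv_mul_cancel_left] at h4
  exact (mul_eq_left.1 h4.symm)

/-- in the group itself -/
theorem za4 {z u a : Γ} (hz : z ^ 2 * u⁻¹ = 1) (h : (a * z) ^ 3 * u = 1) (hau : a * u * a⁻¹ * u⁻¹ = 1) (hu : u ^ 4 = 1) :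
    (z * a⁻¹) ^ 3 = 1 := by
  have hz' : z ^ 2 = u := mul_inv_eq_one.1 hz
  have c1 : Commute z u := by rw [← hz']; exact Commute.self_pow z 2
  have c2 : Commute a u := by
    show a * u = u * a
    have := mul_inv_eq_one.1 hau
    exact mul_inv_eq_iff_eq_mul.1 this
  have e1 : z⁻¹ = z * u⁻¹ := by rw [← hz']; group
  have e2 : (a * z)⁻¹ = (z * a⁻¹) * u⁻¹ := by
    rw [mul_inv_rev, e1, mul_assoc, mul_assoc, (c2.inv_inv).eq]
  have c3 : Commute (z * a⁻¹) u⁻¹ := (c1.mul_left c2.inv_left).inv_right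
  have e3 : ((a * z)⁻¹) ^ 3 = (z * a⁻¹) ^ 3 * (u⁻¹) ^ 3 := by rw [e2, c3.mul_pow]
  have e4 : ((a * z)⁻¹) ^ 3 = u := by
    rw [inv_pow, eq_comm, ← mul_left_inj ((a * z) ^ 3), inv_mul_cancel]
    have : Commute ((a * z) ^ 3) u := ((c2.mul_left c1).pow_left 3)
    rw [← this.eq]; exact h
  rw [e4] at e3
  calc (z * a⁻¹) ^ 3 = ((z * a⁻¹) ^ 3 * (u⁻¹) ^ 3) * u ^ 3 := by group
    _ = u * u ^ 3 := by rw [← e3]
    _ = 1 := by rw [← pow_succ']; exact hu

theorem alpha {i q α c : Γ} (hα : α ∈ center Γ) (hc : c ∈ center Γ) (hi : i ^ 2 = α) (hq : q ^ 2 = 1) (h : (i * q) ^ 3 = c) :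
    α ^ 3 = c ^ 2 := by
  have iq : q⁻¹ = q := by rw [inv_eq_iff_mul_eq_one, ← pow_two]; exact hq
  have e1 : i * q * i = c * (q * i⁻¹ * q) := by
    have : i * q * i = (i * q) ^ 3 * (q⁻¹ * i⁻¹ * q⁻¹) := by
      simp only [pow_succ, pow_zero, one_mul]; group
    rw [this, h, iq]
  have e2 : (i * q * i) * (i * q * i) = α ^ 2 := by
    have : (i * q * i) * (i * q * i) = i * q * i ^ 2 * q * i := by simp only [pow_two, mul_assoc]
    rw [this, hi]
    have h1 := mem_center_iff.1 hα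
    calc i * q * α * q * i = α * (i * q ^ 2 * i) := by rw [h1 (i * q)]; simp only [pow_two, mul_assoc]
      _ = α ^ 2 := by rw [hq, mul_one, ← pow_two, hi, ← pow_two]
  have e3 : (q * i⁻¹ * q) * (q * i⁻¹ * q) = α⁻¹ := by
    have : (q * i⁻¹ * q) * (q * i⁻¹ * q) = q * i⁻¹ * q ^ 2 * i⁻¹ * q := by simp only [pow_two, mul_assoc]
    rw [this, hq]
    have : q * i⁻¹ * 1 * i⁻¹ * q = q * (i ^ 2)⁻¹ * q := by rw [pow_two]; group
    rw [this, hi, mem_center_iff.1 (inv_mem hα) q, mul_assoc, ← pow_two, hq, mul_one]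
  have e4 : (c * (q * i⁻¹ * q)) * (c * (q * i⁻¹ * q)) = c ^ 2 * α⁻¹ := by
    rw [← e3, pow_two]
    have h1 := mem_center_iff.1 hc (q * i⁻¹ * q)
    calc c * (q * i⁻¹ * q) * (c * (q * i⁻¹ * q)) = c * ((q * i⁻¹ * q) * c) * (q * i⁻¹ * q) := by group
      _ = c * c * ((q * i⁻¹ * q) * (q * i⁻¹ * q)) := by rw [h1]; group
  rw [← e1, e2] at e4
  calc α ^ 3 = α ^ 2 * α := by rw [← pow_succ]
    _ = c ^ 2 := by rw [e4]; group

theorem rev {Z a u c : Γ} (hc : c ∈ center Γ) (hZ : Z ^ 2 = u) (ha : a ^ 2 = u) (hu : u ^ 4 = 1) (h : (a * Z) ^ 3 * u = c) :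
    c ^ 2 = 1 := by
  have c1 : Commute Z u := by rw [← hZ]; exact Commute.self_pow Z 2
  have c2 : Commute a u := by rw [← ha]; exact Commute.self_pow a 2
  have e1 : Z⁻¹ = Z * u⁻¹ := by rw [← hZ]; group
  have e2 : a⁻¹ = a * u⁻¹ := by rw [← ha]; group
  have e3 : (a * Z)⁻¹ = (Z * a) * (u⁻¹) ^ 2 := by
    rw [mul_inv_rev, e1, e2, pow_two, mul_assoc, mul_assoc, ← mul_assoc u⁻¹, (c2.inv_right).symm.eq]
    group
  have c3 : Commute (Z * a) ((u⁻¹) ^ 2) := ((c1.mul_left c2).inv_right).pow_right 2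
  have e4 : ((a * Z) ^ 3)⁻¹ = (Z * a) ^ 3 * (u⁻¹) ^ 6 := by
    rw [← inv_pow, e3, c3.mul_pow, ← pow_mul]
  have e5 : (Z * a) ^ 3 = c * u⁻¹ := by
    have : (Z * a) ^ 3 = Z * (a * Z) ^ 3 * Z⁻¹ := by
      simp only [pow_succ, pow_zero, one_mul]; group
    rw [this]
    have h1 : (a * Z) ^ 3 = c * u⁻¹ := by rw [← h]; group
    rw [h1, ← mul_assoc, mem_center_iff.1 hc Z, mul_assoc, mul_assoc, ← (c1.inv_left.inv_right).eq]
    group
  have e6 : c⁻¹ = u⁻¹ * ((a * Z) ^ 3)⁻¹ := by rw [← h, mul_inv_rev]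
  have c4 : Commute u c := (mem_center_iff.1 hc u)
  rw [e4, e5] at e6
  have e7 : c⁻¹ = c * (u ^ 4)⁻¹ * (u ^ 4)⁻¹ := by
    rw [e6]
    have : u⁻¹ * (c * u⁻¹ * u⁻¹ ^ 6) = (u⁻¹ * c) * (u ^ 7)⁻¹ := by group
    rw [this, (c4.inv_left).eq]
    group
  rw [hu] at e7
  simp only [inv_one, mul_one] at e7
  rw [pow_two]
  nth_rewrite 1 [← e7]
  exact inv_mul_cancel c

theorem tet {Z u a x31 x35 x20 yb wb δ : Γ} (hδ : δ ∈ center Γ) (hZ : Z * Z = u) (hua : a * u = u * a)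
    (hb : Z * (x31 * a⁻¹ * u⁻¹) * Z * yb * Z * wb = δ)
    (hc : Z * (a * u * yb) * Z * (wb * x20⁻¹ * u⁻¹) * Z * (x35⁻¹ * a) = δ)
    (hv : Z * x35 * Z * x20 * Z * x31 = δ) : (a * Z) ^ 3 * u = δ := by
  have h1 : yb * Z * wb = (Z * (x31 * a⁻¹ * u⁻¹) * Z)⁻¹ * δ := by rw [← hb]; group
  have h2 : δ = Z * a * u * (yb * Z * wb) * x20⁻¹ * u⁻¹ * Z * x35⁻¹ * a := by rw [← hc]; group
  have hg := mem_center_iff.1 hδ
  have h3 : (x35 * Z * x20 * Z * x31)⁻¹ = δ⁻¹ * Z := by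
    have : x35 * Z * x20 * Z * x31 = Z⁻¹ * δ := by rw [← hv]; group
    rw [this, mul_inv_rev, inv_inv]
  rw [h1] at h2
  have h4 : Z * a * u * ((Z * (x31 * a⁻¹ * u⁻¹) * Z)⁻¹ * δ) * x20⁻¹ * u⁻¹ * Z * x35⁻¹ * a =
      δ * (Z * a * (Z ^ 3) * a * (x35 * Z * x20 * Z * x31)⁻¹ * a) := by
    have h5 : Z * a * u * ((Z * (x31 * a⁻¹ * u⁻¹) * Z)⁻¹ * δ) * x20⁻¹ * u⁻¹ * Z * x35⁻¹ * a =
      (Z * a * u * (Z * (x31 * a⁻¹ * u⁻¹) * Z)⁻¹) * δ * (x20⁻¹ * u⁻¹ * Z * x35⁻¹ * a) := by group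
    rw [h5, hg, ← hZ]
    group
  rw [show Z ^ 3 = Z * Z * Z by rw [pow_succ, pow_two]] at h4
  rw [h4, h3] at h2
  have h6 : Z * a * (Z * Z * Z) * a * (δ⁻¹ * Z) * a = 1 := by
    have : δ * 1 = δ * (Z * a * (Z * Z * Z) * a * (δ⁻¹ * Z) * a) := by rw [mul_one]; exact h2
    exact (mul_left_cancel this).symm
  have h7 : Z * a * (Z * Z * Z) * a * Z * a = δ := by
    have h8 := mem_center_iff.1 (inv_mem hδ) (Z * a * (Z * Z * Z) * a)
    have h9 : Z * a * (Z * Z * Z) * a * (δ⁻¹ * Z) * a = (Z * a * (Z * Z * Z) * a * δ⁻¹) * (Z * a) := by group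
    rw [h9, h8] at h6
    have h10 : δ⁻¹ * (Z * a * (Z * Z * Z) * a) * (Z * a) = δ⁻¹ * (Z * a * (Z * Z * Z) * a * Z * a) := by group
    rw [h10, inv_mul_eq_one] at h6
    exact h6.symm
  have h11 : a * (Z * Z) = Z * Z * a := by rw [hZ]; exact hua
  -- move `u` to the right
  have h12 : (a * Z) ^ 3 * u = a * δ * a⁻¹ := by
    rw [← h7]
    have c1 : Commute a u := hua
    have c2 : Commute Z u := by rw [← hZ]; exact (Commute.refl Z).mul_right (Commute.refl Z)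
    have h13 : a * (Z * a * (Z * Z * Z) * a * Z * a) * a⁻¹ = (a * Z) * (a * Z) * (u * (a * Z)) := by
      rw [← hZ]; group
    rw [h13, ← ((c1.mul_left c2).eq)]
    simp only [pow_succ, pow_zero, one_mul, mul_assoc]
  rw [h12, hg a]
  group

theorem kappa {g x x' k k' κ : Γ} {m n : ℕ} (hκ : κ ∈ center Γ) (h1 : g⁻¹ * x * g = κ * x') (h2 : g⁻¹ * k * g = k')
    (hk : (k * x) ^ n = 1) (hk' : (k' * x') ^ n = 1) (hx : x ^ m = 1) (hx' : x' ^ m = 1) (hmn : Nat.Coprime m n) : κ = 1 := by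
  have hC := mem_center_iff.1 hκ
  have cp : ∀ (y : Γ) (j : ℕ), (g⁻¹ * y * g) ^ j = g⁻¹ * y ^ j * g := by
    intro y j
    have := conj_pow (i := j) (a := g⁻¹) (b := y)
    rwa [inv_inv] at this
  have a1 : κ ^ m = 1 := by
    have h3 := cp x m
    rw [h1, hx, mul_one, inv_mul_cancel] at h3
    have c : Commute κ x' := (hC x').symm
    rw [c.mul_pow, hx', mul_one] at h3
    exact h3
  have a2 : κ ^ n = 1 := by
    have h3 := cp (k * x) n
    rw [hk, mul_one, inv_mul_cancel] at h3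
    have h4 : g⁻¹ * (k * x) * g = κ * (k' * x') := by
      calc g⁻¹ * (k * x) * g = (g⁻¹ * k * g) * (g⁻¹ * x * g) := by group
        _ = k' * κ * x' := by rw [h1, h2]; group
        _ = κ * (k' * x') := by rw [hC k']; group
    have c : Commute κ (k' * x') := (hC _).symm
    rw [h4, c.mul_pow, hk', mul_one] at h3
    exact h3
  have h5 : orderOf κ ∣ 1 := by
    rw [← hmn.gcd_eq_one]
    exact Nat.dvd_gcd (orderOf_dvd_of_pow_eq_one a1) (orderOf_dvd_of_pow_eq_one a2)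
  exact orderOf_eq_one_iff.1 (Nat.dvd_one.1 h5)

end Cfsg.Agent.Lib.H58LyA
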