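import Cfsg.Agent.Lib.UCETorus5

set_option autoImplicit false
set_option linter.unusedSectionVars false

/-!
The Schur multipliers of `G₂(q)`, `q ≥ 5`, and `F₄(q)`, `q ≥ 3`.
-/

namespace Cfsg.Agent.Lib.UCEMain2
open Cfsg Cfsg.Lie Cfsg.Agent.Lib.ChevX Cfsg.Agent.Lib.ChevGood Cfsg.Agent.Lib.ChevRel
open Cfsg.Agent.Lib.StBase Cfsg.Agent.Lib.StKer Cfsg.Agent.Lib.StPres Cfsg.Agent.Lib.StCenter
open Cfsg.Agent.Lib.UCEBase Cfsg.Agent.Lib.UCESys Cfsg.Agent.Lib.UCELift Cfsg.Agent.Lib.UCEFinal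
open Cfsg.Agent.Lib.UCETorus Cfsg.Agent.Lib.UCEMain

universe u
open scoped commutatorElement

/-- the lifting property for groups over the Chevalley group -/
def LiftableSt (D : ChevalleyDatum) (K : Type u) [Field K] : Prop :=
  ∀ (Q Γ : Type u) [Group Q] [Group Γ] (σ : Γ →* Q), CE σ → ∀ S : StG D K Q, UCELift.R3 (ofSt S) →
    ∃ R' : RSys D K Γ, UCELift.R3 R' ∧ ∀ r < D.nroots, ∀ t, σ (R'.x r t) = S.X r t

variable {D : ChevalleyDatum} {K : Type u} [Field K]

theorem exists_cover' (G : Good D) (hLift : LiftableSt D K) {Q Γ : Type u} [Group Q] [Group Γ] {σ : Γ →* Q}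
    (hσ : IsStemExtension σ) (S : StG D K Q) (h3 : UCELift.R3 (ofSt S)) :
    ∃ φ : D.SteinbergGroup K →* Γ, Function.Surjective φ ∧ ∀ r < D.nroots, ∀ t, σ (φ (D.stGen K r t)) = S.X r t := by
  obtain ⟨R', h3', hR'⟩ := hLift Q Γ σ ⟨hσ.1, hσ.2.1⟩ S h3
  obtain ⟨φ, hφ⟩ := exists_hom G R' h3'
  refine ⟨φ, ?_, fun r hr t => by rw [hφ r hr, hR' r hr]⟩
  have hsur : (φ.range).map σ = ⊤ := by
    rw [eq_top_iff, ← S.gen, Subgroup.closure_le]
    rintro g ⟨r, hr, t, rfl⟩
    exact ⟨φ (D.stGen K r t), ⟨_, rfl⟩, by rw [hφ r hr, hR' r hr]⟩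
  have hsup : φ.range ⊔ σ.ker = ⊤ := by
    rw [eq_top_iff]
    intro x _
    have : σ x ∈ (φ.range).map σ := by rw [hsur]; exact Subgroup.mem_top _
    obtain ⟨y, hy, hyx⟩ := this
    have : y⁻¹ * x ∈ σ.ker := by rw [MonoidHom.mem_ker, map_mul, map_inv, hyx, inv_mul_cancel]
    have h := mul_mem (Subgroup.mem_sup_left hy : y ∈ φ.range ⊔ σ.ker) (Subgroup.mem_sup_right this)
    rwa [mul_inv_cancel_left] at h
  have hc := commutator_sup_center hσ.2.1 hsup
  have hk : σ.ker ≤ φ.range := hσ.2.2.trans hc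
  rw [sup_eq_left.mpr hk] at hsup
  exact MonoidHom.range_eq_top.mp hsup

theorem st_X (G : Good D) (r : ℕ) (t : K) : (StCenter.st (K := K) G).X r t = D.stGen K r t := rfl

theorem st_R3 (G : Good D) : UCELift.R3 (ofSt (StCenter.st (K := K) G)) := stSys_R3 (D := D) (K := K)

/-- the multiplier of the presented group is trivial -/
theorem multiplier_st' (G : Good D) (hLift : LiftableSt D K) [Finite (D.SteinbergGroup K)] :
    HasCyclicSchurMultiplier (D.SteinbergGroup K) 1 := by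
  refine ⟨⟨D.SteinbergGroup K, inferInstance, inferInstance, MonoidHom.id _, ⟨Function.surjective_id, ?_, ?_⟩, ?_⟩, ?_⟩
  · rw [MonoidHom.ker_id]; exact bot_le
  · rw [MonoidHom.ker_id]; exact bot_le
  · rw [MonoidHom.ker_id]
    haveI : Unique (Multiplicative (ZMod 1)) := inferInstanceAs (Unique (Fin 1))
    exact ⟨MulEquiv.ofUnique⟩
  · intro Γ _ _ σ hσ
    obtain ⟨φ, hφs, hφ⟩ := exists_cover' G hLift hσ (StCenter.st (K := K) G) (st_R3 G)
    have hid : σ.comp φ = MonoidHom.id _ := by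
      apply MonoidHom.eq_of_eqOn_dense st_gen
      rintro g ⟨r, hr, t, rfl⟩
      exact hφ r hr t
    refine ⟨1, ?_⟩
    rintro ⟨x, hx⟩
    refine ⟨1, ?_⟩
    apply Subtype.ext
    obtain ⟨y, rfl⟩ := hφs x
    have : y = 1 := by
      have h := DFunLike.congr_fun hid y
      simp only [MonoidHom.comp_apply, MonoidHom.id_apply] at h
      rw [← h]
      exact hx
    change (1 : Γ) = φ y
    rw [this, map_one]

/-- the Chevalley group with its root elements -/
noncomputable def stdSt (G : Good D) : StG D K (D.group K) where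
  X := (UCESys.stdSys G K).x
  θ := (D.group K).subtype
  add := (UCESys.stdSys G K).add
  comm r hr s hs h1 h2 t u := by
    have := (UCESys.stdSys G K).rel r hr s hs h1 h2 t u
    have e := mul_eq ((UCESys.stdSys G K).x s u) ((UCESys.stdSys G K).x r t)
    rw [this] at e
    exact e
  θX r hr t := stdSys_coe G K hr t
  gen := group_gen G

/-- the multiplier of the Chevalley group is the centre of the presented group -/
theorem multiplier_group' (hD : D ∈ [chevG2, chevB2, chevD4, chevF4, chevE6, chevE7, chevE8]) (G : Good D)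
    (hLift : LiftableSt D K) [Finite (D.SteinbergGroup K)] (hperf : commutator (D.SteinbergGroup K) = ⊤) {n : ℕ}
    (e : Multiplicative (ZMod n) ≃* Subgroup.center (D.SteinbergGroup K)) :
    HasCyclicSchurMultiplier (D.group K) n := by
  obtain ⟨θ, hθs, hθk, hθ⟩ := Cfsg.Agent.Lib.StPres.ker_eq_center hD (K := K)
  refine ⟨⟨D.SteinbergGroup K, inferInstance, inferInstance, θ, ⟨hθs, ?_, ?_⟩, ?_⟩, ?_⟩
  · rw [hθk]
  · rw [hperf]; exact le_top
  · rw [hθk]; exact ⟨e.symm⟩
  · intro Γ _ _ σ hσ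
    obtain ⟨φ, hφs, hφ⟩ := exists_cover' G hLift hσ (stdSt G) (std_R3 G)
    have hid : σ.comp φ = θ := by
      apply MonoidHom.eq_of_eqOn_dense st_gen
      rintro g ⟨r, hr, t, rfl⟩
      change σ (φ _) = _
      rw [hφ r hr t]
      apply Subtype.ext
      apply Units.ext
      change ((((UCESys.stdSys G K).x r t : D.group K) : GL D.Idx K) : Matrix D.Idx D.Idx K) = _
      rw [coe_gen (K := K) G hr, hθ r t hr]
    have hmem : ∀ z ∈ Subgroup.center (D.SteinbergGroup K), φ z ∈ σ.ker := by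
      intro z hz
      rw [← hθk] at hz
      rw [MonoidHom.mem_ker, ← MonoidHom.comp_apply, hid]
      exact hz
    let π : Multiplicative (ZMod n) →* σ.ker :=
      { toFun := fun z => ⟨φ (e z), hmem _ (e z).2⟩
        map_one' := by apply Subtype.ext; simp
        map_mul' := fun a b => by apply Subtype.ext; simp }
    refine ⟨π, ?_⟩
    rintro ⟨x, hx⟩
    obtain ⟨y, rfl⟩ := hφs x
    have hy : y ∈ Subgroup.center (D.SteinbergGroup K) := by
      rw [← hθk, MonoidHom.mem_ker, ← hid]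
      exact hx
    refine ⟨e.symm ⟨y, hy⟩, ?_⟩
    apply Subtype.ext
    change φ (e (e.symm ⟨y, hy⟩) : D.SteinbergGroup K) = φ y
    rw [MulEquiv.apply_symm_apply]

/-- perfectness from the torus -/
theorem perfect_of_tor (G : Good D) (hP : ∀ i < D.rank, StBase.PairOK D i)
    (h : ∀ i < D.rank, ∃ j < D.rank, ∃ c : K, c ≠ 0 ∧ c ^ D.cartan j (D.simple i) ≠ 1) :
    commutator (D.SteinbergGroup K) = ⊤ := by
  rw [eq_top_iff, ← st_gen, Subgroup.closure_le]
  rintro g ⟨r, hr, t, rfl⟩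
  let S := StCenter.st (K := K) G
  obtain ⟨h0, -, c, hc1, hact⟩ := tor_all G S hP h hr
  have e := cm_act S hr hact ((1 - c)⁻¹ * t)
  rw [mul_inv_cancel_left₀ (sub_ne_zero.mpr (Ne.symm hc1))] at e
  change S.X r t ∈ _
  rw [← e]
  have : ∀ a b : D.SteinbergGroup K, cm a b ∈ commutator (D.SteinbergGroup K) := by
    intro a b
    have : cm a b = ⁅a⁻¹, b⁻¹⁆ := by unfold cm; rw [commutatorElement_def, inv_inv, inv_inv]
    rw [this]
    exact Subgroup.commutator_mem_commutator (Subgroup.mem_top _) (Subgroup.mem_top _)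
  exact this _ _

theorem mult_G2 {F : Type u} [Field F] [Fintype F] (hF : 5 ≤ Fintype.card F) :
    HasCyclicSchurMultiplier ↥(chevG2.group F) 1 := by
  haveI := finite_st (D := chevG2) (by simp) F
  haveI : Fact (Nat.Prime 2) := ⟨Nat.prime_two⟩
  rw [← Nat.card_eq_fintype_card] at hF
  have hc := center_trivial (D := chevG2) (K := F) (by simp)
  have hc' : Nat.card (Subgroup.center (chevG2.SteinbergGroup F)) = 1 := by rw [hc]; simp
  obtain ⟨e⟩ := exists_equiv (p := 2) hc' (one_dvd _)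
  refine multiplier_group' (by simp) Cfsg.Agent.Lib.ChevOkG2.good
    (fun Q Γ _ _ σ hσ S h3 => lift_G2 hF S hσ h3) ?_ e
  refine perfect_of_tor Cfsg.Agent.Lib.ChevOkG2.good PairG2 (fun i hi => ?_)
  obtain ⟨c, hc0, hc1⟩ := exists_pow_neg_one (K := F) (by omega)
  obtain ⟨d, hd0, hd1⟩ := exists_pow_two (K := F) (by omega)
  change i < 2 at hi
  interval_cases i
  · exact ⟨1, by decide +kernel, c, hc0, by rwa [show chevG2.cartan 1 (chevG2.simple 0) = -1 by decide +kernel]⟩
  · exact ⟨1, by decide +kernel, d, hd0, by rwa [show chevG2.cartan 1 (chevG2.simple 1) = 2 by decide +kernel]⟩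

theorem mult_F4 {F : Type u} [Field F] [Fintype F] (hF : 3 ≤ Fintype.card F) :
    HasCyclicSchurMultiplier ↥(chevF4.group F) 1 := by
  haveI := finite_st (D := chevF4) (by simp) F
  haveI : Fact (Nat.Prime 2) := ⟨Nat.prime_two⟩
  rw [← Nat.card_eq_fintype_card] at hF
  have hc := center_trivial (D := chevF4) (K := F) (by simp)
  have hc' : Nat.card (Subgroup.center (chevF4.SteinbergGroup F)) = 1 := by rw [hc]; simp
  obtain ⟨e⟩ := exists_equiv (p := 2) hc' (one_dvd _)
  refine multiplier_group' (by simp) Cfsg.Agent.Lib.ChevOkF4.good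
    (fun Q Γ _ _ σ hσ S h3 => lift_F4 hF S hσ h3) ?_ e
  refine perfect_of_tor Cfsg.Agent.Lib.ChevOkF4.good PairF4 (fun i hi => ?_)
  obtain ⟨c, hc0, hc1⟩ := exists_pow_neg_one hF
  change i < 4 at hi
  interval_cases i
  · exact ⟨1, by decide +kernel, c, hc0, by rwa [show chevF4.cartan 1 (chevF4.simple 0) = -1 by decide +kernel]⟩
  · exact ⟨0, by decide +kernel, c, hc0, by rwa [show chevF4.cartan 0 (chevF4.simple 1) = -1 by decide +kernel]⟩
  · exact ⟨3, by decide +kernel, c, hc0, by rwa [show chevF4.cartan 3 (chevF4.simple 2) = -1 by decide +kernel]⟩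
  · exact ⟨2, by decide +kernel, c, hc0, by rwa [show chevF4.cartan 2 (chevF4.simple 3) = -1 by decide +kernel]⟩

end Cfsg.Agent.Lib.UCEMain2
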