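import Cfsg.Agent.Lib.H58LyT
import Cfsg.Agent.Lib.UCEMain2

/-!
The multiplier of the Lyons group (helper58).
-/

set_option autoImplicit false
set_option linter.all false

namespace Cfsg.Agent.Lib.H58Ly

open Cfsg Subgroup Cfsg.Spor Cfsg.Agent.Lib.LyH Cfsg.Agent.Lib.SchurSylow
open scoped commutatorElement

/-- every finite stem extension of the presented Lyons group is trivial -/
theorem stem_one : StemDvd Ly 1 := by
  haveI : Finite HH := Nat.finite_of_card_ne_zero (by rw [cardH]; norm_num)
  haveI : Nontrivial HH := Finite.one_lt_card_iff_nontrivial.1 (by rw [cardH]; norm_num)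
  haveI : IsSimpleGroup HH := by
    haveI := LyP2.simpleP
    exact IsSimpleGroup.isSimpleGroup_of_surjective
      ((MulEquiv.subgroupCongr range_θ).toMonoidHom.comp (MonoidHom.ofInjective θ_inj).toMonoidHom)
      ((MulEquiv.subgroupCongr range_θ).surjective.comp (MonoidHom.ofInjective θ_inj).surjective)
  have hP : Group.IsPerfect HH := by
    rw [Group.isPerfect_def]
    rcases (inferInstance : (commutator HH).Normal).eq_bot_or_eq_top with h | h
    · exfalso
      have hcomm : ∀ a b : HH, a * b = b * a := by
        intro a b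
        have h1 : ⁅a, b⁆ ∈ commutator HH := Subgroup.commutator_mem_commutator (mem_top a) (mem_top b)
        rw [h, mem_bot] at h1
        exact commutatorElement_eq_one_iff_mul_comm.1 h1
      letI : CommGroup HH := { (inferInstance : Group HH) with mul_comm := hcomm }
      have h2 : (Nat.card HH).Prime := IsSimpleGroup.prime_card
      rw [cardH] at h2
      exact absurd h2 (by norm_num)
    · exact h
  obtain ⟨φ⟩ := iso
  have hM : HasCyclicSchurMultiplier HH 1 := by
    have h1 : HasCyclicSchurMultiplier (Cfsg.Lie.chevG2.group (ZMod 5)) 1 :=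
      Cfsg.Agent.Lib.UCEMain2.mult_G2 (by rw [ZMod.card])
    exact hasTrivial_of_stemDvd (StemDvd.congr φ.symm (stemDvd_of_hasTrivial h1))
  apply StemDvd.of_forall
  intro p hp
  haveI : Fact p.Prime := ⟨hp⟩
  exact Cfsg.Agent.Lib.H58SplitM.pStem_one_of_no_prime fun Γ _ _ σ hσ => no_prime hP hM Γ σ hσ

end Cfsg.Agent.Lib.H58Ly
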