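import Cfsg.Agent.Lib.H58LyW
import Cfsg.Agent.Lib.H58LyA

/-!
Stem extensions of the Lyons group split (helper58).
-/

set_option autoImplicit false
set_option linter.all false
set_option maxRecDepth 100000

namespace Cfsg.Agent.Lib.H58Ly

open Cfsg Subgroup Cfsg.Spor Cfsg.Agent.Lib.BenesWord Cfsg.Agent.Lib.LyH Cfsg.Agent.Lib.H58LyA
open Cfsg.Agent.Lib.SchurSylow Cfsg.Agent.Lib.H58SplitM Cfsg.Agent.Lib.CosetGroup

/-! ### membership of the letters in `H` -/

/-- the first letters -/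
def S0 (c : ℕ) : Bool := decide (c < 4) || (decide (10 ≤ c) && decide (c ≤ 14))
/-- the letters different from `z` -/
def S1 (c : ℕ) : Bool := decide (c < 39) && !(decide (c = 4))
/-- the letters of `T` -/
def ST (c : ℕ) : Bool := (decide (6 ≤ c) && decide (c ≤ 8)) || (decide (10 ≤ c) && decide (c ≤ 14))
/-- conjugation by `z` on letters -/
def sh (c : ℕ) : ℕ := if c ≤ 8 then c + 22 else c + 13

/-- a definition -/
def okW : Wd → Bool
  | .mul (.g _) (.inv V) => letS S0 V
  | _ => false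
/-- the defined letter -/
def lhs : Wd → ℕ
  | .mul (.g c) (.inv _) => c
  | _ => 0

theorem okW_form {W : Wd} (h : okW W = true) : ∃ c V, W = .mul (.g c) (.inv V) ∧ letS S0 V = true := by
  unfold okW at h
  split at h
  · exact ⟨_, _, rfl, h⟩
  · exact absurd h (by simp)

theorem memX {c : ℕ} (hc : c = 0 ∨ c = 1 ∨ c = 2 ∨ c = 3 ∨ c = 5 ∨ c = 10 ∨ c = 11 ∨ c = 12 ∨ c = 13 ∨ c = 14) : Y c ∈ HH := by
  rw [← range_θ]
  exact ⟨_, θ_of hc⟩

theorem mem0 (c : ℕ) (h : S0 c = true) : Y c ∈ HH := by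
  apply memX
  simp only [S0, Bool.or_eq_true, Bool.and_eq_true, decide_eq_true_eq] at h
  omega

theorem cover : ∀ c < 39, S0 c = true ∨ c = 4 ∨ c = 5 ∨ ((LyRel.extraW).any (fun W => okW W && Nat.beq (lhs W) c)) = true := by
  decide +kernel

theorem mem1 (c : ℕ) (h : S1 c = true) : Y c ∈ HH := by
  simp only [S1, Bool.and_eq_true, decide_eq_true_eq, Bool.not_eq_true', decide_eq_false_iff_not] at h
  rcases cover c h.1 with h1 | h1 | h1 | h1
  · exact mem0 c h1
  · exact absurd h1 h.2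
  · exact memX (by omega)
  · obtain ⟨W, hW, h2⟩ := List.any_eq_true.1 h1
    rw [Bool.and_eq_true] at h2
    obtain ⟨c', V, rfl, hV⟩ := okW_form h2.1
    have h3 : c' = c := Nat.eq_of_beq_eq_true h2.2
    subst h3
    have h4 : Y c' * (V.eval Y)⁻¹ = 1 := relY _ hW
    rw [mul_inv_eq_one.1 h4]
    exact eval_mem mem0 hV

/-! ### relations in `H` -/

theorem inj_HH {h : Ly} (hh : h ∈ HH) (h1 : ρ h = 1) : h = 1 := by
  rw [← range_θ] at hh
  obtain ⟨p, rfl⟩ := hh
  have hs := LyP2.simpleP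
  rcases Subgroup.Normal.eq_bot_or_eq_top (inferInstance : (ρ.comp θ).ker.Normal) with h | h
  · have h2 : p ∈ (ρ.comp θ).ker := h1
    rw [h, mem_bot] at h2
    rw [h2, map_one]
  · exfalso
    have h2 : LyP2.X 0 ∈ (ρ.comp θ).ker := by rw [h]; trivial
    have h3 : ρ (θ (LyP2.X 0)) = 1 := h2
    rw [θ_of (by norm_num), ρ_spec 0 (by norm_num)] at h3
    exact u0_ne h3

theorem idl_S : ∀ W ∈ idl, letS S1 W = true := by decide +kernel

theorem idY : ∀ W ∈ idl, W.eval Y = 1 := by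
  intro W hW
  apply inj_HH (eval_mem mem1 (idl_S W hW))
  rw [Wd.map_eval]
  rw [CoxBridge.eval_congr (n := 39) (y' := LyRep.u) (fun c hc => ρ_spec c hc) W (lets_idl W hW)]
  exact LyRep.rel_of_chk chk_idl W hW (lets_idl W hW)

/-! ### the extension -/

theorem relW_S : ∀ W ∈ (LyRel.relW1 ++ LyRel.relW2.take 28), letS S1 W = true := by decide +kernel

theorem closure_Y : closure {h : Ly | ∃ c < 39, h = Y c} = ⊤ := by
  rw [eq_top_iff, ← LyRel.C.closure_letters [], closure_le]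
  rintro h ⟨W, hW, rfl⟩
  obtain ⟨c, hc, rfl⟩ := List.mem_map.mp hW
  have hc : c < 39 := List.mem_range.mp hc
  show LyRel.C.x [] c ∈ closure {h : Ly | ∃ c < 39, h = Y c}
  rw [LyRel.C.x_of_lt [] (c := c) hc]
  exact subset_closure ⟨c, hc, rfl⟩

/-- the letters of the extension -/
noncomputable def E {Γ : Type*} [Group Γ] (η : HH →* Γ) (Z : Γ) (c : ℕ) : Γ :=
  if h : S1 c = true then η ⟨Y c, mem1 c h⟩ else Z

section

theorem letS_mono {S S' : ℕ → Bool} (h : ∀ c, S c = true → S' c = true) : ∀ W : Wd, letS S W = true → letS S' W = true := by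
  intro a
  induction a with
  | one => intro _; rfl
  | g c => intro h1; exact h c h1
  | inv a ih => exact ih
  | mul a b iha ihb =>
    intro h
    simp only [letS, Bool.and_eq_true] at h ⊢
    exact ⟨iha h.1, ihb h.2⟩
  | pow a n ih => exact ih

variable {Γ : Type*} [Group Γ] (η : HH →* Γ) (Z : Γ)

theorem E_S {c : ℕ} (h : S1 c = true) : E η Z c = η ⟨Y c, mem1 c h⟩ := dif_pos h

theorem E_4 : E η Z 4 = Z := dif_neg (by decide)

theorem E_word {W : Wd} (hW : letS S1 W = true) (h1 : W.eval Y = 1) : W.eval (E η Z) = 1 :=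
  word_one η mem1 (fun c h => E_S η Z h) hW h1

theorem E_idl {W : Wd} (hW : W ∈ idl) : W.eval (E η Z) = 1 := E_word η Z (idl_S W hW) (idY W hW)

theorem ST_S1 {c : ℕ} (h : ST c = true) : S1 c = true ∧ S1 (sh c) = true ∧ c < 39 := by
  have h' : (6 ≤ c ∧ c ≤ 8) ∨ (10 ≤ c ∧ c ≤ 14) := by
    simpa [ST, Bool.or_eq_true, Bool.and_eq_true, decide_eq_true_eq] using h
  have h2 : c < 15 := by omega
  interval_cases c <;> first | (exfalso; omega) | exact ⟨rfl, rfl, by norm_num⟩

theorem conjY {c : ℕ} (h : ST c = true) : (Y 4)⁻¹ * Y c * Y 4 = Y (sh c) := by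
  have h' : (6 ≤ c ∧ c ≤ 8) ∨ (10 ≤ c ∧ c ≤ 14) := by
    simpa [ST, Bool.or_eq_true, Bool.and_eq_true, decide_eq_true_eq] using h
  have h2 : c < 15 := by omega
  have key : ∀ c' d' : ℕ, (Wd.mul (.mul (.mul (.inv (.g 4)) (.g c')) (.g 4)) (.inv (.g d'))) ∈ LyRel.relW2.drop 28 →
      (Y 4)⁻¹ * Y c' * Y 4 = Y d' := by
    intro c' d' hm
    have h3 : (Y 4)⁻¹ * Y c' * Y 4 * (Y d')⁻¹ = 1 := relY _ (List.mem_append_right _ (List.mem_of_mem_drop hm))
    exact mul_inv_eq_one.1 h3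
  interval_cases c
  all_goals first
    | (exfalso; omega)
    | (refine key _ _ ?_
       show _ ∈ ([_, _, _, _, _, _, _, _, _, _, _, _, _, _] : List Wd)
       simp [sh])

variable (σ : Γ →* Ly) (hc : σ.ker ≤ center Γ) (hη : ∀ p : HH, σ (η p) = p) (hZ : σ Z = Y 4)

include hη hZ in
theorem σE {c : ℕ} (h : c < 39) : σ (E η Z c) = Y c := by
  by_cases h1 : S1 c = true
  · rw [E_S η Z h1, hη]
  · have : c = 4 := by
      simp only [S1, Bool.and_eq_true, decide_eq_true_eq, Bool.not_eq_true', decide_eq_false_iff_not, not_and, not_not] at h1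
      exact h1 h
    subst this
    rw [E_4, hZ]

include hη hZ in
theorem σW {W : Wd} (hW : CoxBridge.lets 39 W = true) : σ (W.eval (E η Z)) = W.eval Y := by
  rw [Wd.map_eval]
  exact CoxBridge.eval_congr (n := 39) (fun c hc => σE η Z σ hη hZ hc) W hW

/-- the defect of conjugation -/
noncomputable def ch (c : ℕ) : Γ := (E η Z (sh c))⁻¹ * (Z⁻¹ * E η Z c * Z)

include hc hη hZ in
theorem ch_center {c : ℕ} (h : ST c = true) : ch η Z c ∈ center Γ := by
  apply hc
  rw [MonoidHom.mem_ker]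
  obtain ⟨h1, h2, h3⟩ := ST_S1 h
  have h4 : sh c < 39 := by
    have h5 := h2
    simp only [S1, Bool.and_eq_true, decide_eq_true_eq] at h5
    exact h5.1
  unfold ch
  simp only [map_mul, map_inv]
  rw [σE η Z σ hη hZ h4, σE η Z σ hη hZ h3, hZ, conjY h]
  group

include hc hη hZ in
/-- relations in `T` give relations between the defects -/
theorem ch_word {V : Wd} (hV : letS ST V = true) (h1 : V.eval Y = 1) : V.eval (ch η Z) = 1 := by
  have hS : letS S1 V = true := letS_mono (fun c h => (ST_S1 h).1) V hV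
  have h2 : V.eval (E η Z) = 1 := E_word η Z hS h1
  have h3 : V.eval (fun c => (MulAut.conj Z⁻¹).toMonoidHom (E η Z c)) = 1 := by
    rw [← Wd.map_eval, h2, map_one]
  have h4 : V.eval (fun c => (MulAut.conj Z⁻¹).toMonoidHom (E η Z c)) = V.eval (fun c => E η Z (sh c) * ch η Z c) := by
    refine eval_congrS (S := ST) (fun c _ => ?_) hV
    unfold ch
    show Z⁻¹ * E η Z c * (Z⁻¹)⁻¹ = _
    group
  rw [h4, eval_mul_center (S := ST) (fun c h => ch_center η Z σ hc hη hZ h) hV] at h3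
  have h5 : V.eval (fun c => Y (sh c)) = 1 := by
    have h6 : V.eval (fun c => Y (sh c)) = V.eval (fun c => (MulAut.conj (Y 4)⁻¹).toMonoidHom (Y c)) := by
      refine eval_congrS (S := ST) (fun c h => ?_) hV
      show Y (sh c) = (Y 4)⁻¹ * Y c * ((Y 4)⁻¹)⁻¹
      rw [inv_inv, conjY h]
    rw [h6, ← Wd.map_eval, h1, map_one]
  have h6 : V.eval (fun c => E η Z (sh c)) = 1 := by
    refine word_one η (S := ST) (y := fun c => Y (sh c)) (fun c h => mem1 _ (ST_S1 h).2.1) ?_ hV h5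
    intro c h
    exact E_S η Z (ST_S1 h).2.1
  rw [h6, one_mul] at h3
  exact h3

end

end Cfsg.Agent.Lib.H58Ly
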