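import Cfsg.Agent.Lib.H58LyS

/-!
Stem extensions of the Lyons group split, second part (helper58).
-/

set_option autoImplicit false
set_option linter.all false
set_option maxRecDepth 100000

namespace Cfsg.Agent.Lib.H58Ly

open Cfsg Subgroup Cfsg.Spor Cfsg.Agent.Lib.BenesWord Cfsg.Agent.Lib.LyH Cfsg.Agent.Lib.H58LyA
open Cfsg.Agent.Lib.SchurSylow Cfsg.Agent.Lib.H58SplitM Cfsg.Agent.Lib.CosetGroup

section

variable {Γ : Type*} [Group Γ] (η : HH →* Γ) (Z : Γ)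
variable (σ : Γ →* Ly) (hc : σ.ker ≤ center Γ) (hη : ∀ p : HH, σ (η p) = p) (hZ : σ Z = Y 4)

local notation "e" => E η Z
local notation "d" => ch η Z

/-- the last relators in the group -/
theorem Yrel {W : Wd} (h : W ∈ LyRel.relW2.drop 28) : W.eval Y = 1 := relY _ (List.mem_append_right _ (List.mem_of_mem_drop h))

include hc hη hZ in
/-- conjugation by the lift of `z` -/
theorem conj_all : ∀ c, ST c = true → Z⁻¹ * E η Z c * Z = E η Z (sh c) := by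
  have cen : ∀ c, ST c = true → d c ∈ center Γ := fun c h => ch_center η Z σ hc hη hZ h
  have wrd : ∀ V : Wd, letS ST V = true → V ∈ idl → V.eval (ch η Z) = 1 := fun V hV hm =>
    ch_word η Z σ hc hη hZ hV (idY V hm)
  have s10 : (d 10) ^ 5 = 1 := wrd w_t5_c1 (by decide) (by simp [idl])
  have s11 : (d 11) ^ 5 = 1 := wrd w_t5_c2 (by decide) (by simp [idl])
  have s12 : (d 12) ^ 5 = 1 := wrd w_t5_c3 (by decide) (by simp [idl])
  have s13 : (d 13) ^ 5 = 1 := wrd w_t5_c4 (by decide) (by simp [idl])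
  have s14 : (d 14) ^ 5 = 1 := wrd w_t5_c5 (by decide) (by simp [idl])
  have r10 : ((d 6) ^ 2)⁻¹ * d 10 * (d 6) ^ 2 * ((d 10) ^ 3)⁻¹ = 1 := wrd w_tu_c1 (by decide) (by simp [idl])
  have r11 : ((d 6) ^ 2)⁻¹ * d 11 * (d 6) ^ 2 * ((d 11) ^ 3)⁻¹ = 1 := wrd w_tu_c2 (by decide) (by simp [idl])
  have r12 : ((d 6) ^ 2)⁻¹ * d 12 * (d 6) ^ 2 * ((d 12) ^ 3)⁻¹ = 1 := wrd w_tu_c3 (by decide) (by simp [idl])
  have r13 : ((d 6) ^ 2)⁻¹ * d 13 * (d 6) ^ 2 * ((d 13) ^ 3)⁻¹ = 1 := wrd w_tu_c4 (by decide) (by simp [idl])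
  have r14 : ((d 6) ^ 2)⁻¹ * d 14 * (d 6) ^ 2 * ((d 14) ^ 4)⁻¹ = 1 := wrd w_tu_c5 (by decide) (by simp [idl])
  have a8 : (d 6) ^ 8 = 1 := wrd w_t_a8 (by decide) (by simp [idl])
  have q7 : (d 7 * d 6)⁻¹ * d 6 * (d 7 * d 6) * (d 7)⁻¹ = 1 := wrd w_t_a2 (by decide) (by simp [idl])
  have q8 : (d 7 * d 6 * d 8 * d 7)⁻¹ * d 6 * (d 7 * d 6 * d 8 * d 7) * (d 8)⁻¹ = 1 := wrd w_t_a3 (by decide) (by simp [idl])
  have t10 : d 10 = 1 := cen3 (cen 10 (by decide)) r10 s10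
  have t11 : d 11 = 1 := cen3 (cen 11 (by decide)) r11 s11
  have t12 : d 12 = 1 := cen3 (cen 12 (by decide)) r12 s12
  have t13 : d 13 = 1 := cen3 (cen 13 (by decide)) r13 s13
  have t14 : d 14 = 1 := cen4 (cen 14 (by decide)) r14 s14
  -- the letter `a`
  have h2 : E η Z 9 * E η Z 28 * (E η Z 9)⁻¹ * (E η Z 6)⁻¹ = 1 := E_idl η Z (W := w_h2) (by simp [idl])
  have hy3 : (Z * (E η Z 9)⁻¹) ^ 3 ∈ center Γ := by
    apply hc
    rw [MonoidHom.mem_ker, map_pow, map_mul, map_inv, hZ, σE η Z σ hη hZ (by norm_num)]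
    have g1 : (Y 4) ^ 2 * (Y 15)⁻¹ = 1 := Yrel (W := .mul (.pow (.g 4) 2) (.inv (.g 15))) (by
      show _ ∈ ([_, _, _, _, _, _, _, _, _, _, _, _, _, _] : List Wd)
      simp)
    have g2 : (Y 9 * Y 4) ^ 3 * Y 15 = 1 := Yrel (W := .mul (.pow (.mul (.g 9) (.g 4)) 3) (.g 15)) (by
      show _ ∈ ([_, _, _, _, _, _, _, _, _, _, _, _, _, _] : List Wd)
      simp)
    exact za4 g1 g2 (idY w_h3a (by simp [idl])) (idY w_h3b (by simp [idl]))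
  have hconj : (Z * (E η Z 9)⁻¹)⁻¹ * E η Z 6 * (Z * (E η Z 9)⁻¹) = E η Z 6 * d 6 := by
    have h3 : Z⁻¹ * E η Z 6 * Z = E η Z 28 * d 6 := by
      show _ = E η Z 28 * ((E η Z 28)⁻¹ * (Z⁻¹ * E η Z 6 * Z))
      group
    have h4 : E η Z 9 * E η Z 28 * (E η Z 9)⁻¹ = E η Z 6 := mul_inv_eq_one.1 h2
    have h5 : (E η Z 9)⁻¹ * d 6 = d 6 * (E η Z 9)⁻¹ := mem_center_iff.1 (cen 6 (by decide)) _
    calc (Z * (E η Z 9)⁻¹)⁻¹ * E η Z 6 * (Z * (E η Z 9)⁻¹) = E η Z 9 * (Z⁻¹ * E η Z 6 * Z) * (E η Z 9)⁻¹ := by group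
      _ = E η Z 9 * E η Z 28 * (d 6 * (E η Z 9)⁻¹) := by rw [h3]; group
      _ = (E η Z 9 * E η Z 28 * (E η Z 9)⁻¹) * d 6 := by rw [← h5]; group
      _ = E η Z 6 * d 6 := by rw [h4]
  have a3 : (d 6) ^ 3 = 1 := conj3 (cen 6 (by decide)) hconj hy3
  have t6 : d 6 = 1 := by
    calc d 6 = ((d 6) ^ 3) ^ 3 * ((d 6) ^ 8)⁻¹ := by group
      _ = 1 := by rw [a3, a8]; group
  have t7 : d 7 = 1 := by rw [ceneq (cen 6 (by decide)) q7, t6]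
  have t8 : d 8 = 1 := by rw [ceneq (cen 6 (by decide)) q8, t6]
  intro c h
  have hd : d c = 1 := by
    have h' : (6 ≤ c ∧ c ≤ 8) ∨ (10 ≤ c ∧ c ≤ 14) := by
      simpa [ST, Bool.or_eq_true, Bool.and_eq_true, decide_eq_true_eq] using h
    have h3 : c < 15 := by omega
    interval_cases c <;> first | (exfalso; omega) | assumption
  have h3 : (E η Z (sh c))⁻¹ * (Z⁻¹ * E η Z c * Z) = 1 := hd
  exact (inv_mul_eq_one.1 h3).symm

/-- words in `T` -/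
theorem conj_word (hcj : ∀ c, ST c = true → Z⁻¹ * E η Z c * Z = E η Z (sh c)) {V : Wd} (hV : letS ST V = true) :
    Z⁻¹ * V.eval (E η Z) * Z = V.eval (fun c => E η Z (sh c)) := by
  have h1 : V.eval (fun c => E η Z (sh c)) = V.eval (fun c => (MulAut.conj Z⁻¹).toMonoidHom (E η Z c)) := by
    refine eval_congrS (S := ST) (fun c h => ?_) hV
    show E η Z (sh c) = Z⁻¹ * E η Z c * (Z⁻¹)⁻¹
    rw [inv_inv, hcj c h]
  rw [h1, ← Wd.map_eval]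
  show _ = Z⁻¹ * V.eval (E η Z) * (Z⁻¹)⁻¹
  rw [inv_inv]

theorem move {G : Type*} [Group G] {Z x y w s1 s2 s3 s1' s2' s3' c : G} (hc : c ∈ center G) (h1 : Z⁻¹ * s1 * Z = s1')
    (h2 : Z⁻¹ * s2 * Z = s2') (h3 : Z⁻¹ * s3 * Z = s3') (h : Z * x * Z * y * Z * w = c) :
    Z * (s1' * x * s2⁻¹) * Z * (s2' * y * s3⁻¹) * Z * (s3' * w * s1⁻¹) = c := by
  have h4 : Z * (s1' * x * s2⁻¹) * Z * (s2' * y * s3⁻¹) * Z * (s3' * w * s1⁻¹) = s1 * (Z * x * Z * y * Z * w) * s1⁻¹ := by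
    rw [← h1, ← h2, ← h3]; group
  rw [h4, h, mem_center_iff.1 hc s1]; group

theorem conj_c {G : Type*} [Group G] {g c : G} (hc : c ∈ center G) : g⁻¹ * c * g = c := by
  rw [mul_assoc, ← mem_center_iff.1 hc g]; group

/-- the value of the relator 82 in another form -/
theorem val82 (hcj : ∀ c, ST c = true → Z⁻¹ * E η Z c * Z = E η Z (sh c)) {β : Γ} (hβ : β ∈ center Γ)
    (hb : (E η Z 9 * Z) ^ 3 * E η Z 15 = β) :
    Z * E η Z 9 * Z * E η Z 9 * Z * (E η Z 9 * E η Z 15) = β := by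
  have h3a : E η Z 9 * E η Z 15 * (E η Z 9)⁻¹ * (E η Z 15)⁻¹ = 1 := E_idl η Z (W := w_h3a) (by simp [idl])
  have h4 : E η Z 9 * E η Z 15 = E η Z 15 * E η Z 9 := mul_inv_eq_iff_eq_mul.1 (mul_inv_eq_one.1 h3a)
  rw [h4]
  have h5 := conj_c (g := E η Z 9) hβ
  rw [← hb] at h5
  rw [← hb, ← h5]
  simp only [pow_succ, pow_zero, one_mul]
  group

/-- the relation between the values -/
theorem alpha_beta (hcj : ∀ c, ST c = true → Z⁻¹ * E η Z c * Z = E η Z (sh c)) {α β : Γ} (hα : α ∈ center Γ) (hβ : β ∈ center Γ)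
    (ha : Z ^ 2 = α * E η Z 15) (hb : (E η Z 9 * Z) ^ 3 * E η Z 15 = β) : α ^ 3 = β ^ 2 := by
  have v := val82 η Z hcj hβ hb
  have h4a : E η Z 6 * E η Z 15 * E η Z 28 = 1 := E_idl η Z (W := w_h4a) (by simp [idl])
  have h4b : (E η Z 6 * E η Z 9) ^ 2 = 1 := E_idl η Z (W := w_h4b) (by simp [idl])
  have h5a : ((E η Z 28) ^ 2)⁻¹ * E η Z 9 * (E η Z 6 * E η Z 9 * E η Z 6)⁻¹ = 1 := E_idl η Z (W := w_h5a) (by simp [idl])
  have h5b : E η Z 9 * ((E η Z 6) ^ 2)⁻¹ * (E η Z 6 * E η Z 9 * E η Z 6)⁻¹ = 1 := E_idl η Z (W := w_h5b) (by simp [idl])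
  have h5c : (E η Z 28) ^ 2 * (E η Z 9 * E η Z 15) * (E η Z 6) ^ 2 * (E η Z 6 * E η Z 9 * E η Z 6)⁻¹ = 1 :=
    E_idl η Z (W := w_h5c) (by simp [idl])
  rw [mul_inv_eq_one] at h5a h5b h5c
  have c6 : Z⁻¹ * E η Z 6 * Z = E η Z 28 := hcj 6 (by decide)
  have c6m : Z⁻¹ * ((E η Z 6) ^ 2)⁻¹ * Z = ((E η Z 28) ^ 2)⁻¹ := by rw [← c6, pow_two, pow_two]; group
  have c6p : Z⁻¹ * (E η Z 6) ^ 2 * Z = (E η Z 28) ^ 2 := by rw [← c6, pow_two, pow_two]; group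
  have m := move (s1 := ((E η Z 6) ^ 2)⁻¹) (s2 := 1) (s3 := (E η Z 6) ^ 2) hβ c6m (s2' := 1) (by group) c6p v
  have e1 : ((E η Z 28) ^ 2)⁻¹ * E η Z 9 * (1 : Γ)⁻¹ = E η Z 6 * E η Z 9 * E η Z 6 := by rw [inv_one, mul_one]; exact h5a
  have e2 : (1 : Γ) * E η Z 9 * ((E η Z 6) ^ 2)⁻¹ = E η Z 6 * E η Z 9 * E η Z 6 := by rw [one_mul]; exact h5b
  have e3 : (E η Z 28) ^ 2 * (E η Z 9 * E η Z 15) * (((E η Z 6) ^ 2)⁻¹)⁻¹ = E η Z 6 * E η Z 9 * E η Z 6 := by rw [inv_inv]; exact h5c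
  rw [e1, e2, e3] at m
  refine alpha (i := E η Z 6 * Z) (q := E η Z 6 * E η Z 9) hα hβ ?_ h4b ?_
  · have : (E η Z 6 * Z) ^ 2 = E η Z 6 * Z ^ 2 * (Z⁻¹ * E η Z 6 * Z) := by rw [pow_two, pow_two]; group
    rw [this, ha, c6, ← mul_assoc, mem_center_iff.1 hα (E η Z 6), mul_assoc, mul_assoc, ← mul_assoc (E η Z 6), h4a, mul_one]
  · have h5 := conj_c (g := (E η Z 6)⁻¹) hβ
    rw [← m] at h5
    rw [← m, ← h5]
    simp only [pow_succ, pow_zero, one_mul]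
    group

/-- the relator 83 -/
theorem rel83 (hcj : ∀ c, ST c = true → Z⁻¹ * E η Z c * Z = E η Z (sh c)) {δ : Γ} (hδ : δ ∈ center Γ)
    (hZu : Z ^ 2 = E η Z 15) (hd : E η Z 20 * Z * E η Z 31 * Z * E η Z 35 * Z = δ) : (E η Z 9 * Z) ^ 3 * E η Z 15 = δ := by
  have h3a : E η Z 9 * E η Z 15 * (E η Z 9)⁻¹ * (E η Z 15)⁻¹ = 1 := E_idl η Z (W := w_h3a) (by simp [idl])
  have h4 : E η Z 9 * E η Z 15 = E η Z 15 * E η Z 9 := mul_inv_eq_iff_eq_mul.1 (mul_inv_eq_one.1 h3a)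
  have v0 : Z * E η Z 31 * Z * E η Z 35 * Z * E η Z 20 = δ := by
    have h5 := conj_c (g := E η Z 20) hδ
    rw [← hd] at h5
    rw [← hd, ← h5]; group
  have v1 : Z * E η Z 35 * Z * E η Z 20 * Z * E η Z 31 = δ := by
    have h5 := conj_c (g := Z * E η Z 31) hδ
    rw [← v0] at h5
    rw [← v0, ← h5]; group
  have ct1 : Z⁻¹ * (E η Z 10 * E η Z 10 * (E η Z 13)⁻¹ * (E η Z 12)⁻¹) * Z = E η Z 23 * E η Z 23 * (E η Z 26)⁻¹ * (E η Z 25)⁻¹ :=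
    conj_word η Z hcj (V := .mul (.mul (.mul (.g 10) (.g 10)) (.inv (.g 13))) (.inv (.g 12))) (by decide)
  have ct2 : Z⁻¹ * (E η Z 8 * (E η Z 7)⁻¹ * (E η Z 6)⁻¹) * Z = E η Z 30 * (E η Z 29)⁻¹ * (E η Z 28)⁻¹ :=
    conj_word η Z hcj (V := .mul (.mul (.g 8) (.inv (.g 7))) (.inv (.g 6))) (by decide)
  have cs1 : Z⁻¹ * (E η Z 11 * E η Z 6 * E η Z 7) * Z = E η Z 24 * E η Z 28 * E η Z 29 :=
    conj_word η Z hcj (V := .mul (.mul (.g 11) (.g 6)) (.g 7)) (by decide)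
  have cs2 : Z⁻¹ * (E η Z 11)⁻¹ * Z = (E η Z 24)⁻¹ :=
    conj_word η Z hcj (V := .inv (.g 11)) (by decide)
  have cs3 : Z⁻¹ * (E η Z 6 * E η Z 7 * E η Z 8 * E η Z 13 * (E η Z 6)⁻¹ * (E η Z 13)⁻¹) * Z =
      E η Z 28 * E η Z 29 * E η Z 30 * E η Z 26 * (E η Z 28)⁻¹ * (E η Z 26)⁻¹ :=
    conj_word η Z hcj (V := .mul (.mul (.mul (.mul (.mul (.g 6) (.g 7)) (.g 8)) (.g 13)) (.inv (.g 6))) (.inv (.g 13))) (by decide)
  have i6b : (E η Z 23 * E η Z 23 * (E η Z 26)⁻¹ * (E η Z 25)⁻¹) * E η Z 31 * (E η Z 8 * (E η Z 7)⁻¹ * (E η Z 6)⁻¹)⁻¹ *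
      (E η Z 31 * (E η Z 9)⁻¹ * (E η Z 15)⁻¹)⁻¹ = 1 := E_idl η Z (W := w_h6b) (by simp [idl])
  have i6c1 : (E η Z 24 * E η Z 28 * E η Z 29) * E η Z 35 * ((E η Z 11)⁻¹)⁻¹ *
      (E η Z 9 * E η Z 15 * ((E η Z 30 * (E η Z 29)⁻¹ * (E η Z 28)⁻¹) * E η Z 35))⁻¹ = 1 := E_idl η Z (W := w_h6c1) (by simp [idl])
  have i6c2 : (E η Z 24)⁻¹ * E η Z 20 * (E η Z 6 * E η Z 7 * E η Z 8 * E η Z 13 * (E η Z 6)⁻¹ * (E η Z 13)⁻¹)⁻¹ *
      ((E η Z 20 * (E η Z 10 * E η Z 10 * (E η Z 13)⁻¹ * (E η Z 12)⁻¹)⁻¹) * (E η Z 20)⁻¹ * (E η Z 15)⁻¹)⁻¹ = 1 :=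
    E_idl η Z (W := w_h6c2) (by simp [idl])
  have i6c3 : (E η Z 28 * E η Z 29 * E η Z 30 * E η Z 26 * (E η Z 28)⁻¹ * (E η Z 26)⁻¹) * E η Z 31 * (E η Z 11 * E η Z 6 * E η Z 7)⁻¹ *
      ((E η Z 35)⁻¹ * E η Z 9)⁻¹ = 1 := E_idl η Z (W := w_h6c3) (by simp [idl])
  rw [mul_inv_eq_one] at i6b i6c1 i6c2 i6c3
  have mb := move (s3 := 1) (s3' := 1) hδ ct1 ct2 (by group) v0
  have mc := move hδ cs1 cs2 cs3 v1
  rw [i6c1, i6c2, i6c3] at mc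
  rw [i6b] at mb
  refine tet (x31 := E η Z 31) (x35 := E η Z 35) (x20 := E η Z 20)
    (yb := (E η Z 30 * (E η Z 29)⁻¹ * (E η Z 28)⁻¹) * E η Z 35)
    (wb := E η Z 20 * (E η Z 10 * E η Z 10 * (E η Z 13)⁻¹ * (E η Z 12)⁻¹)⁻¹) hδ (by rw [← pow_two]; exact hZu) h4 ?_ mc v1
  rw [← mb]; group

include hc hη hZ in
/-- the relator 84 -/
theorem rel84 (hcj : ∀ c, ST c = true → Z⁻¹ * E η Z c * Z = E η Z (sh c)) {κ : Γ} (hκ : κ ∈ center Γ)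
    (h : Z⁻¹ * E η Z 17 * Z⁻¹ * E η Z 36 * Z * E η Z 16 * Z * E η Z 19 = κ) : κ = 1 := by
  have h7f : E η Z 16 * E η Z 17 = 1 := E_idl η Z (W := w_h7f) (by simp [idl])
  have e17 : E η Z 17 = (E η Z 16)⁻¹ := (inv_eq_of_mul_eq_one_right h7f).symm
  have h7a : (E η Z 16)⁻¹ * E η Z 30 * E η Z 16 * E η Z 8 = 1 := E_idl η Z (W := w_h7a) (by simp [idl])
  have h7b : (E η Z 8 * E η Z 36) ^ 7 = 1 := E_idl η Z (W := w_h7b) (by simp [idl])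
  have h7c : ((E η Z 30)⁻¹ * (E η Z 19)⁻¹) ^ 7 = 1 := E_idl η Z (W := w_h7c) (by simp [idl])
  have h7d : (E η Z 36) ^ 3 = 1 := E_idl η Z (W := w_h7d) (by simp [idl])
  have h7e : (E η Z 19) ^ 3 = 1 := E_idl η Z (W := w_h7e) (by simp [idl])
  have c8 : Z⁻¹ * E η Z 8 * Z = E η Z 30 := hcj 8 (by decide)
  refine kappa (g := Z * E η Z 16 * Z) (x := E η Z 36) (x' := (E η Z 19)⁻¹) (k := E η Z 8) (k' := (E η Z 30)⁻¹) (m := 3) (n := 7)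
    hκ ?_ ?_ h7b h7c h7d (by rw [inv_pow, h7e, inv_one]) (by norm_num)
  · rw [← h, e17]; group
  · have e1 : (E η Z 16)⁻¹ * E η Z 30 * E η Z 16 = (E η Z 8)⁻¹ := mul_eq_one_iff_eq_inv.1 h7a
    calc (Z * E η Z 16 * Z)⁻¹ * E η Z 8 * (Z * E η Z 16 * Z) = Z⁻¹ * ((E η Z 16)⁻¹ * (Z⁻¹ * E η Z 8 * Z) * E η Z 16) * Z := by group
      _ = (Z⁻¹ * E η Z 8 * Z)⁻¹ := by rw [c8, e1, ← c8]; group
      _ = (E η Z 30)⁻¹ := by rw [c8]

include hc hη hZ in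
/-- the relator 85 -/
theorem rel85 (hcj : ∀ c, ST c = true → Z⁻¹ * E η Z c * Z = E η Z (sh c)) {κ : Γ} (hκ : κ ∈ center Γ)
    (h : Z * E η Z 33 * Z * E η Z 32 * Z⁻¹ * E η Z 34 * Z⁻¹ * E η Z 37 = κ) : κ = 1 := by
  have h8a : E η Z 33 * E η Z 34 = 1 := E_idl η Z (W := w_h8a) (by simp [idl])
  have e34 : E η Z 34 = (E η Z 33)⁻¹ := (inv_eq_of_mul_eq_one_right h8a).symm
  have h8b : (E η Z 33)⁻¹ * (E η Z 29 * E η Z 23 * (E η Z 28)⁻¹ * E η Z 26 * (E η Z 30)⁻¹) * E η Z 33 * (E η Z 6) ^ 2 = 1 :=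
    E_idl η Z (W := w_h8b) (by simp [idl])
  have h8c : ((E η Z 7 * E η Z 10 * (E η Z 6)⁻¹ * E η Z 13 * (E η Z 8)⁻¹) * (E η Z 37)⁻¹) ^ 3 = 1 :=
    E_idl η Z (W := w_h8c) (by simp [idl])
  have h8d : (((E η Z 28) ^ 2)⁻¹ * E η Z 32) ^ 3 = 1 := E_idl η Z (W := w_h8d) (by simp [idl])
  have h8e : (E η Z 37) ^ 8 = 1 := E_idl η Z (W := w_h8e) (by simp [idl])
  have h8f : (E η Z 32) ^ 8 = 1 := E_idl η Z (W := w_h8f) (by simp [idl])
  have cK : Z⁻¹ * (E η Z 7 * E η Z 10 * (E η Z 6)⁻¹ * E η Z 13 * (E η Z 8)⁻¹) * Z =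
      E η Z 29 * E η Z 23 * (E η Z 28)⁻¹ * E η Z 26 * (E η Z 30)⁻¹ :=
    conj_word η Z hcj (V := .mul (.mul (.mul (.mul (.g 7) (.g 10)) (.inv (.g 6))) (.g 13)) (.inv (.g 8))) (by decide)
  have c6 : Z⁻¹ * E η Z 6 * Z = E η Z 28 := hcj 6 (by decide)
  have hh : κ⁻¹ = 1 := by
    refine kappa (g := Z * E η Z 33 * Z) (x := (E η Z 37)⁻¹) (x' := E η Z 32)
      (k := E η Z 7 * E η Z 10 * (E η Z 6)⁻¹ * E η Z 13 * (E η Z 8)⁻¹) (k' := ((E η Z 28) ^ 2)⁻¹) (m := 8) (n := 3)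
      (inv_mem hκ) ?_ ?_ h8c h8d (by rw [inv_pow, h8e, inv_one]) h8f (by norm_num)
    · have e1 : (E η Z 37)⁻¹ = κ⁻¹ * (Z * E η Z 33 * Z * E η Z 32 * (Z * E η Z 33 * Z)⁻¹) := by
        rw [← h, e34]; group
      have e2 : (Z * E η Z 33 * Z)⁻¹ * (E η Z 37)⁻¹ * (Z * E η Z 33 * Z) =
          ((Z * E η Z 33 * Z)⁻¹ * κ⁻¹) * (Z * E η Z 33 * Z * E η Z 32) := by rw [e1]; group
      rw [e2, mem_center_iff.1 (inv_mem hκ) (Z * E η Z 33 * Z)⁻¹]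
      group
    · have e1 : (E η Z 33)⁻¹ * (E η Z 29 * E η Z 23 * (E η Z 28)⁻¹ * E η Z 26 * (E η Z 30)⁻¹) * E η Z 33 = ((E η Z 6) ^ 2)⁻¹ :=
        mul_eq_one_iff_eq_inv.1 h8b
      rw [← cK] at e1
      have e2 : Z⁻¹ * ((E η Z 6) ^ 2)⁻¹ * Z = ((E η Z 28) ^ 2)⁻¹ := by rw [← c6, pow_two, pow_two]; group
      rw [← e2, ← e1]; group
  exact inv_eq_one.1 hh

include hc hη hZ in
/-- the relator 86 -/
theorem rel86 (hcj : ∀ c, ST c = true → Z⁻¹ * E η Z c * Z = E η Z (sh c)) {κ : Γ} (hκ : κ ∈ center Γ)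
    (h : Z * E η Z 21 * Z * E η Z 18 * Z⁻¹ * E η Z 22 * Z⁻¹ * E η Z 38 = κ) : κ = 1 := by
  have h9a : E η Z 21 * E η Z 22 = 1 := E_idl η Z (W := w_h9a) (by simp [idl])
  have e22 : E η Z 22 = (E η Z 21)⁻¹ := (inv_eq_of_mul_eq_one_right h9a).symm
  have h9b : (E η Z 21)⁻¹ * (E η Z 28) ^ 2 * E η Z 21 * (E η Z 6) ^ 2 = 1 := E_idl η Z (W := w_h9b) (by simp [idl])
  have h9c : ((E η Z 6) ^ 2 * (E η Z 38)⁻¹) ^ 3 = 1 := E_idl η Z (W := w_h9c) (by simp [idl])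
  have h9d : (((E η Z 28) ^ 2)⁻¹ * E η Z 18) ^ 3 = 1 := E_idl η Z (W := w_h9d) (by simp [idl])
  have h9e : (E η Z 38) ^ 4 = 1 := E_idl η Z (W := w_h9e) (by simp [idl])
  have h9f : (E η Z 18) ^ 4 = 1 := E_idl η Z (W := w_h9f) (by simp [idl])
  have c6 : Z⁻¹ * E η Z 6 * Z = E η Z 28 := hcj 6 (by decide)
  have hh : κ⁻¹ = 1 := by
    refine kappa (g := Z * E η Z 21 * Z) (x := (E η Z 38)⁻¹) (x' := E η Z 18)
      (k := (E η Z 6) ^ 2) (k' := ((E η Z 28) ^ 2)⁻¹) (m := 4) (n := 3)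
      (inv_mem hκ) ?_ ?_ h9c h9d (by rw [inv_pow, h9e, inv_one]) h9f (by norm_num)
    · have e1 : (E η Z 38)⁻¹ = κ⁻¹ * (Z * E η Z 21 * Z * E η Z 18 * (Z * E η Z 21 * Z)⁻¹) := by
        rw [← h, e22]; group
      have e2 : (Z * E η Z 21 * Z)⁻¹ * (E η Z 38)⁻¹ * (Z * E η Z 21 * Z) =
          ((Z * E η Z 21 * Z)⁻¹ * κ⁻¹) * (Z * E η Z 21 * Z * E η Z 18) := by rw [e1]; group
      rw [e2, mem_center_iff.1 (inv_mem hκ) (Z * E η Z 21 * Z)⁻¹]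
      group
    · have e1 : (E η Z 21)⁻¹ * (E η Z 28) ^ 2 * E η Z 21 = ((E η Z 6) ^ 2)⁻¹ := mul_eq_one_iff_eq_inv.1 h9b
      have e0 : Z⁻¹ * (E η Z 6) ^ 2 * Z = (E η Z 28) ^ 2 := by rw [← c6, pow_two, pow_two]; group
      have e2 : Z⁻¹ * ((E η Z 6) ^ 2)⁻¹ * Z = ((E η Z 28) ^ 2)⁻¹ := by rw [← e0]; group
      calc (Z * E η Z 21 * Z)⁻¹ * (E η Z 6) ^ 2 * (Z * E η Z 21 * Z)
          = Z⁻¹ * ((E η Z 21)⁻¹ * (Z⁻¹ * (E η Z 6) ^ 2 * Z) * E η Z 21) * Z := by group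
        _ = ((E η Z 28) ^ 2)⁻¹ := by rw [e0, e1, e2]
  exact inv_eq_one.1 hh

end

/-- no stem extension of prime order -/
theorem no_prime (hP : Group.IsPerfect HH) [Finite HH] (hM : HasCyclicSchurMultiplier HH 1) {p : ℕ} [hp : Fact p.Prime]
    (Γ : Type) [Group Γ] [Finite Γ] (σ : Γ →* Ly) (hσ : IsStemExtension σ) : Nat.card σ.ker ≠ p := by
  intro hcard
  obtain ⟨η, hη⟩ := exists_lift σ hσ.1 hσ.2.1 HH hP hM
  have hc := hσ.2.1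
  have hexp : ∀ a ∈ σ.ker, a ^ p = 1 := by
    intro a ha
    have h1 := pow_card_eq_one' (G := σ.ker) (x := ⟨a, ha⟩)
    rw [hcard] at h1
    exact congrArg Subtype.val h1
  -- a good lift suffices
  have key : ∀ Z : Γ, σ Z = Y 4 → Z ^ 2 = E η Z 15 → (E η Z 9 * Z) ^ 3 * E η Z 15 = 1 → False := by
    intro Z hZ hZ2 hb
    have hcj := conj_all η Z σ hc hη hZ
    have ck : ∀ W : Wd, CoxBridge.lets 39 W = true → W ∈ LyRel.relW2.drop 28 → W.eval (E η Z) ∈ center Γ := by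
      intro W hW h
      apply hc
      rw [MonoidHom.mem_ker, σW η Z σ hη hZ hW, Yrel h]
    have e4 : E η Z 4 = Z := E_4 η Z
    have hrel : ∀ W ∈ LyRel.extraW, W.eval (E η Z) = 1 := by
      intro W hW
      rcases List.mem_append.1 hW with h | h
      · exact E_word η Z (relW_S W (List.mem_append_left _ h)) (relY W hW)
      · rw [← List.take_append_drop 28 LyRel.relW2] at h
        rcases List.mem_append.1 h with h | h
        · exact E_word η Z (relW_S W (List.mem_append_right _ h)) (relY W hW)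
        · have hl : CoxBridge.lets 39 W = true := LyRel.C.hlets W hW
          have hcen := ck W hl h
          have h' : W ∈ ([.mul (.mul (.mul (.inv (.g 4)) (.g 10)) (.g 4)) (.inv (.g 23)),
            .mul (.mul (.mul (.inv (.g 4)) (.g 11)) (.g 4)) (.inv (.g 24)),
            .mul (.mul (.mul (.inv (.g 4)) (.g 12)) (.g 4)) (.inv (.g 25)),
            .mul (.mul (.mul (.inv (.g 4)) (.g 13)) (.g 4)) (.inv (.g 26)),
            .mul (.mul (.mul (.inv (.g 4)) (.g 14)) (.g 4)) (.inv (.g 27)),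
            .mul (.mul (.mul (.inv (.g 4)) (.g 6)) (.g 4)) (.inv (.g 28)),
            .mul (.mul (.mul (.inv (.g 4)) (.g 7)) (.g 4)) (.inv (.g 29)),
            .mul (.mul (.mul (.inv (.g 4)) (.g 8)) (.g 4)) (.inv (.g 30)),
            .mul (.pow (.g 4) 2) (.inv (.g 15)),
            .mul (.pow (.mul (.g 9) (.g 4)) 3) (.g 15),
            .mul (.mul (.mul (.mul (.mul (.g 20) (.g 4)) (.g 31)) (.g 4)) (.g 35)) (.g 4),
            .mul (.mul (.mul (.mul (.mul (.mul (.mul (.inv (.g 4)) (.g 17)) (.inv (.g 4))) (.g 36)) (.g 4)) (.g 16)) (.g 4)) (.g 19),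
            .mul (.mul (.mul (.mul (.mul (.mul (.mul (.g 4) (.g 33)) (.g 4)) (.g 32)) (.inv (.g 4))) (.g 34)) (.inv (.g 4))) (.g 37),
            .mul (.mul (.mul (.mul (.mul (.mul (.mul (.g 4) (.g 21)) (.g 4)) (.g 18)) (.inv (.g 4))) (.g 22)) (.inv (.g 4))) (.g 38)] : List Wd) := h
          have cj : ∀ c, ST c = true → (E η Z 4)⁻¹ * E η Z c * E η Z 4 * (E η Z (sh c))⁻¹ = 1 := by
            intro c hST
            rw [e4, hcj c hST, mul_inv_cancel]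
          simp only [List.mem_cons, List.not_mem_nil, or_false] at h'
          rcases h' with rfl | rfl | rfl | rfl | rfl | rfl | rfl | rfl | rfl | rfl | rfl | rfl | rfl | rfl
          · exact cj 10 (by decide)
          · exact cj 11 (by decide)
          · exact cj 12 (by decide)
          · exact cj 13 (by decide)
          · exact cj 14 (by decide)
          · exact cj 6 (by decide)
          · exact cj 7 (by decide)
          · exact cj 8 (by decide)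
          · show (E η Z 4) ^ 2 * (E η Z 15)⁻¹ = 1
            rw [e4, hZ2, mul_inv_cancel]
          · show (E η Z 9 * E η Z 4) ^ 3 * E η Z 15 = 1
            rw [e4]; exact hb
          · simp only [Wd.eval] at hcen ⊢
            rw [e4] at hcen ⊢
            have := rel83 η Z hcj hcen hZ2 rfl
            rw [hb] at this
            exact this.symm
          · simp only [Wd.eval] at hcen ⊢
            rw [e4] at hcen ⊢
            exact rel84 η Z σ hc hη hZ hcj hcen rfl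
          · simp only [Wd.eval] at hcen ⊢
            rw [e4] at hcen ⊢
            exact rel85 η Z σ hc hη hZ hcj hcen rfl
          · simp only [Wd.eval] at hcen ⊢
            rw [e4] at hcen ⊢
            exact rel86 η Z σ hc hη hZ hcj hcen rfl
    obtain ⟨τ, hτ⟩ := LyRel.C.hom (E η Z) (fun i hi => absurd hi (by simp [LyRel.C])) (fun W hW => by
      simp [LyRel.C, CoxBridge.coxWds] at hW) hrel
    have hsec : ∀ g, σ (τ g) = g := by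
      intro g
      have h13 : σ.comp τ = MonoidHom.id Ly := by
        refine MonoidHom.eq_of_eqOn_dense closure_Y ?_
        rintro x ⟨c, hc39, rfl⟩
        show σ (τ (Y c)) = Y c
        rw [show τ (Y c) = E η Z c from hτ c hc39, σE η Z σ hη hZ hc39]
      exact DFunLike.congr_fun h13 g
    have h14 := ker_trivial_of_section σ hσ τ hsec
    haveI : Subsingleton σ.ker := ⟨fun x y => Subtype.ext ((h14 x x.2).trans (h14 y y.2).symm)⟩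
    rw [Nat.card_of_subsingleton 1] at hcard
    exact hp.out.one_lt.ne hcard
  obtain ⟨Z0, hZ0⟩ := hσ.1 (Y 4)
  -- letters other than `z` do not depend on the lift
  have hE : ∀ (Z Z' : Γ) (c : ℕ), S1 c = true → E η Z c = E η Z' c := fun Z Z' c h => by rw [E_S η Z h, E_S η Z' h]
  have g81 : (Y 4) ^ 2 * (Y 15)⁻¹ = 1 := Yrel (W := .mul (.pow (.g 4) 2) (.inv (.g 15))) (by
    show _ ∈ ([_, _, _, _, _, _, _, _, _, _, _, _, _, _] : List Wd)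
    simp)
  have g82 : (Y 9 * Y 4) ^ 3 * Y 15 = 1 := Yrel (W := .mul (.pow (.mul (.g 9) (.g 4)) 3) (.g 15)) (by
    show _ ∈ ([_, _, _, _, _, _, _, _, _, _, _, _, _, _] : List Wd)
    simp)
  have mα : ∀ Z : Γ, σ Z = Y 4 → Z ^ 2 * (E η Z 15)⁻¹ ∈ σ.ker := by
    intro Z hZ
    rw [MonoidHom.mem_ker, map_mul, map_inv, map_pow, hZ, σE η Z σ hη hZ (by norm_num)]
    exact g81
  have mβ : ∀ Z : Γ, σ Z = Y 4 → (E η Z 9 * Z) ^ 3 * E η Z 15 ∈ σ.ker := by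
    intro Z hZ
    rw [MonoidHom.mem_ker, map_mul, map_pow, map_mul, hZ, σE η Z σ hη hZ (by norm_num), σE η Z σ hη hZ (by norm_num)]
    exact g82
  by_cases hp2 : p = 2
  · subst hp2
    obtain ⟨b0, hb0⟩ : ∃ b0, b0 = (E η Z0 9 * Z0) ^ 3 * E η Z0 15 := ⟨_, rfl⟩
    have hb0k : b0 ∈ σ.ker := by rw [hb0]; exact mβ Z0 hZ0
    have hcb := mem_center_iff.1 (hc hb0k)
    obtain ⟨Z, hZd⟩ : ∃ Z, Z = Z0 * b0 := ⟨_, rfl⟩
    have hZ : σ Z = Y 4 := by rw [hZd, map_mul, hZ0, show σ b0 = 1 from hb0k, mul_one]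
    have hb : (E η Z 9 * Z) ^ 3 * E η Z 15 = 1 := by
      rw [hE Z Z0 9 (by decide), hE Z Z0 15 (by decide), hZd]
      have hC : Commute (E η Z0 9 * Z0) b0 := hcb _
      rw [← mul_assoc, hC.mul_pow]
      have : (E η Z0 9 * Z0) ^ 3 * E η Z0 15 * b0 ^ 3 = b0 * b0 ^ 3 := by rw [← hb0]
      have h3 : Commute (b0 ^ 3) (E η Z0 15) := (Commute.pow_right (hcb _) 3).symm
      have h4 : (E η Z0 9 * Z0) ^ 3 * b0 ^ 3 * E η Z0 15 = b0 ^ 4 := by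
        rw [mul_assoc, h3.eq, ← mul_assoc, this, ← pow_succ']
      have h5 : b0 ^ 4 = 1 := by
        rw [show 4 = 2 * 2 by norm_num, pow_mul, hexp b0 hb0k, one_pow]
      exact h4.trans h5
    have hα := mα Z hZ
    obtain ⟨α, hαd⟩ : ∃ α, α = Z ^ 2 * (E η Z 15)⁻¹ := ⟨_, rfl⟩
    rw [← hαd] at hα
    have ha : Z ^ 2 = α * E η Z 15 := by rw [hαd]; group
    have h3 := alpha_beta η Z (conj_all η Z σ hc hη hZ) (hc hα) (Subgroup.one_mem _) ha hb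
    have h4 : α = 1 := by
      have h5 := hexp α hα
      calc α = α ^ 3 * (α ^ 2)⁻¹ := by group
        _ = 1 := by rw [h3, h5]; group
    exact key Z hZ (by rw [ha, h4, one_mul]) hb
  · obtain ⟨k, hk⟩ : ∃ k, p = 2 * k + 1 := (hp.out.odd_of_ne_two hp2)
    obtain ⟨a0, ha0⟩ : ∃ a0, a0 = Z0 ^ 2 * (E η Z0 15)⁻¹ := ⟨_, rfl⟩
    have ha0k : a0 ∈ σ.ker := by rw [ha0]; exact mα Z0 hZ0
    have hca := mem_center_iff.1 (hc ha0k)
    obtain ⟨Z, hZd⟩ : ∃ Z, Z = Z0 * a0 ^ k := ⟨_, rfl⟩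
    have hZ : σ Z = Y 4 := by rw [hZd, map_mul, hZ0, map_pow, show σ a0 = 1 from ha0k, one_pow, mul_one]
    have hZ2 : Z ^ 2 = E η Z 15 := by
      rw [hE Z Z0 15 (by decide), hZd]
      have hC : Commute Z0 (a0 ^ k) := Commute.pow_right (hca _) k
      have h1 : Z0 ^ 2 = a0 * E η Z0 15 := by rw [ha0]; group
      have hC2 : Commute (E η Z0 15) (a0 ^ (2 * k)) := Commute.pow_right (hca _) _
      rw [hC.mul_pow, h1, ← pow_mul, mul_comm k 2, mul_assoc, hC2.eq, ← mul_assoc, ← pow_succ', ← hk, hexp a0 ha0k, one_mul]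
    have hβ := mβ Z hZ
    have h3c : (E η Z 9) ^ 2 * (E η Z 15)⁻¹ = 1 := E_idl η Z (W := w_h3c) (by simp [idl])
    have h3b : (E η Z 15) ^ 4 = 1 := E_idl η Z (W := w_h3b) (by simp [idl])
    have h5 := rev (hc hβ) hZ2 (mul_inv_eq_one.1 h3c) h3b rfl
    have h6 := hexp _ hβ
    have h7 : (E η Z 9 * Z) ^ 3 * E η Z 15 = 1 := by
      rw [hk, pow_succ, pow_mul, h5, one_pow, one_mul] at h6
      exact h6
    exact key Z hZ hZ2 h7

end Cfsg.Agent.Lib.H58Ly
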