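import Cfsg.Agent.Lib.H58SMn

/-!
Schur multiplier engine, part q: packed data with tables given by functions (helper58)
-/

set_option autoImplicit false

namespace Cfsg.Agent.Lib.H58SM

open Subgroup Cfsg.Agent.Lib.SchurSylow

universe u v w

/-- steps of a word: forward / backward, the letter, the item offset -/
inductive Str where
  | F (tb io : ℕ) : Str
  | B (tb io : ℕ) : Str

/-- data with packed coordinates. `T l` is the table of the letter `l`; `RE x` contains the rank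
of the item `x` in the lowest `b0` bits and the coordinates in fields of `b` bits above -/
structure DatR where
  n : ℕ
  k : ℕ
  J : ℕ
  p : ℕ
  m : ℕ
  d : ℕ
  b0 : ℕ
  mk0 : ℕ
  b : ℕ
  mb : ℕ
  LM : ℕ
  T : ℕ → ℕ → ℕ
  pi : ℕ → ℕ
  pq : ℕ → ℕ
  W : ℕ → List ℕ
  S : ℕ → List Str
  RE : ℕ → ℕ
  lp : ℕ → ℕ
  par : ℕ → ℕ
  Zl : List ℕ

namespace DatR

variable (Q : DatR)

def EP (x : ℕ) : ℕ := Nat.shiftRight (Q.RE x) Q.b0
def rk (x : ℕ) : ℕ := Nat.land (Q.RE x) Q.mk0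
def E (t x : ℕ) : ℕ := Nat.land (Nat.shiftRight (Q.EP x) (Nat.mul Q.b t)) Q.mb

/-- the associated data -/
def toDat : Dat where
  n := Q.n
  k := Q.k
  J := Q.J
  p := Q.p
  m := Q.m
  d := Q.d
  T := Q.T
  pi := Q.pi
  pq := Q.pq
  W := Q.W
  rk := Q.rk
  lp := Q.lp
  E := Q.E
  par := Q.par
  Zl := Q.Zl

/-- all `d` fields are divisible by `m` -/
def fz (d s : ℕ) : Bool := Nat.rec (fun _ => true) (fun _ ih s =>
  cond (Nat.beq (Nat.mod (Nat.land s Q.mb) Q.m) 0) (frc (Nat.shiftRight s Q.b) fun s' => ih s') false) d s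

/-- all `d` fields are less than `m`, the rest is zero -/
def fok (d s : ℕ) : Bool := Nat.rec (fun s => Nat.beq s 0) (fun _ ih s =>
  cond (Nat.blt (Nat.land s Q.mb) Q.m) (frc (Nat.shiftRight s Q.b) fun s' => ih s') false) d s

/-- treatment of one item: `q` its coefficient -/
def stp (it r q x s c : ℕ) (cont : ℕ → ℕ → Bool) : Bool :=
  frc (Q.RE x) fun re => frc (Nat.add s (Nat.mul q (Nat.shiftRight re Q.b0))) fun s' =>
    cond (Nat.beq x it) (frc (Nat.add c q) fun c' => cont s' c')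
      (cond (Nat.blt (Nat.land re Q.mk0) r) (cont s' c) false)

/-- the walk -/
noncomputable def wlk (it r : ℕ) (fin : ℕ → ℕ → Bool) (w : List Str) : ℕ → ℕ → ℕ → Bool :=
  List.rec (motive := fun _ => ℕ → ℕ → ℕ → Bool) (fun _ s c => fin s c)
    (fun st _ ih a s c => Str.rec (motive := fun _ => Bool)
      (fun tb io => frc (Q.T tb a) fun b => frc (Nat.add io a) fun x =>
        Q.stp it r 1 x s c fun s' c' => ih b s' c')
      (fun tb io => frc (Q.T tb a) fun b => frc (Nat.add io b) fun x =>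
        Q.stp it r (Nat.sub Q.m 1) x s c fun s' c' => ih b s' c') st) w

/-- final check -/
def fin (s c : ℕ) : Bool := cond (Nat.beq (Nat.mod c Q.p) 0) false (Q.fz Q.d s)

/-- check of an item of positive rank -/
noncomputable def chk1 (it r : ℕ) : Bool :=
  frc (Q.lp it) fun L => frc (Nat.div L Q.n) fun j => frc (Nat.mod L Q.n) fun a =>
    cond (Nat.blt j Q.J) (cond (Nat.blt a Q.n) (frc (Nat.add (Nat.mul Q.k Q.n) j) fun z =>
      Q.wlk it r (fun s c => Q.stp it r (Nat.sub Q.m 1) z s c fun s' c' => Q.fin s' c') (Q.S j) a 0 0) false) false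

/-- check of the coordinates of an item -/
def chkE (it : ℕ) : Bool := Q.fok Q.d (Q.EP it)

/-- check of an item -/
noncomputable def chk (it : ℕ) : Bool :=
  cond (Q.chkE it) (frc (Q.rk it) fun r => cond (Nat.beq r 0) (Q.toDat.chk0 it) (Q.chk1 it r)) false

/-- a step list represents a word -/
def okS : List Str → List ℕ → Bool
  | [], [] => true
  | (Str.F tb io) :: S, l :: w => Nat.beq (Nat.land l 1) 0 && (Nat.beq tb l &&
      (Nat.beq io (Nat.mul (Nat.div l 2) Q.n) && okS S w))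
  | (Str.B tb io) :: S, l :: w => (!(Nat.beq (Nat.land l 1) 0)) && (Nat.beq tb l &&
      (Nat.beq io (Nat.mul (Nat.div l 2) Q.n) && okS S w))
  | _, _ => false

def sOk : Bool := alln (fun j => Q.okS (Q.S j) (Q.W j) && Nat.ble (Q.W j).length Q.LM) Q.J

/-- parameters of the packing -/
def pOk : Bool := Nat.beq Q.mb (2 ^ Q.b - 1) && (Nat.beq Q.mk0 (2 ^ Q.b0 - 1) && (Nat.blt 1 Q.m &&
  Nat.blt ((Q.LM + 1) * ((Q.m - 1) * (Q.m - 1))) (2 ^ Q.b)))

section proofs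

variable {Q}

theorem land_mask {x mk b : ℕ} (h : mk = 2 ^ b - 1) : Nat.land x mk = x % 2 ^ b := by
  rw [h]; exact Nat.and_two_pow_sub_one_eq_mod x b

theorem shift_eq (x b : ℕ) : Nat.shiftRight x b = x / 2 ^ b := Nat.shiftRight_eq_div_pow x b

theorem cond_true_eq {b x : Bool} (h : cond b x false = true) : b = true ∧ x = true := by
  cases b
  · exact absurd h (by simp)
  · exact ⟨rfl, h⟩

theorem fz_succ (d s : ℕ) : Q.fz (d + 1) s = cond (Nat.beq (Nat.mod (Nat.land s Q.mb) Q.m) 0)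
    (Q.fz d (Nat.shiftRight s Q.b)) false := by
  show cond _ (frc _ _) _ = _
  rw [frc_eq]; rfl

theorem fok_succ (d s : ℕ) : Q.fok (d + 1) s = cond (Nat.blt (Nat.land s Q.mb) Q.m)
    (Q.fok d (Nat.shiftRight s Q.b)) false := by
  show cond _ (frc _ _) _ = _
  rw [frc_eq]; rfl

/-- packed number of a vector of fields -/
def pkf (b : ℕ) (f : ℕ → ℕ) : ℕ → ℕ
  | 0 => 0
  | d + 1 => f 0 + 2 ^ b * pkf b (fun t => f (t + 1)) d

theorem pkf_congr {b : ℕ} {f g : ℕ → ℕ} {d : ℕ} (h : ∀ t < d, f t = g t) : pkf b f d = pkf b g d := by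
  induction d generalizing f g with
  | zero => rfl
  | succ d ih =>
    show f 0 + 2 ^ b * _ = g 0 + 2 ^ b * _
    rw [h 0 (by omega), ih (fun t ht => h (t + 1) (by omega))]

theorem pkf_add (b : ℕ) (f g : ℕ → ℕ) (d : ℕ) : pkf b (fun t => f t + g t) d = pkf b f d + pkf b g d := by
  induction d generalizing f g with
  | zero => rfl
  | succ d ih =>
    show f 0 + g 0 + 2 ^ b * _ = f 0 + 2 ^ b * _ + (g 0 + 2 ^ b * _)
    rw [ih (fun t => f (t + 1)) (fun t => g (t + 1))]; ring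

theorem pkf_mul (b q : ℕ) (f : ℕ → ℕ) (d : ℕ) : pkf b (fun t => q * f t) d = q * pkf b f d := by
  induction d generalizing f with
  | zero => rfl
  | succ d ih =>
    show q * f 0 + 2 ^ b * _ = q * (f 0 + 2 ^ b * _)
    rw [ih (fun t => f (t + 1))]; ring

theorem pkf_zero (b d : ℕ) : pkf b (fun _ => 0) d = 0 := by
  induction d with
  | zero => rfl
  | succ d ih =>
    show 0 + 2 ^ b * _ = 0
    rw [ih, mul_zero, add_zero]

theorem fz_spec (hmb : Q.mb = 2 ^ Q.b - 1) {f : ℕ → ℕ} {d : ℕ} (hf : ∀ t < d, f t < 2 ^ Q.b)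
    (h : Q.fz d (pkf Q.b f d) = true) : ∀ t < d, f t % Q.m = 0 := by
  induction d generalizing f with
  | zero => intro t ht; exact absurd ht (Nat.not_lt_zero t)
  | succ d ih =>
    rw [fz_succ] at h
    obtain ⟨h1, h2⟩ := cond_true_eq h
    have h0 := hf 0 (by omega)
    have h3 : pkf Q.b f (d + 1) % 2 ^ Q.b = f 0 := by
      show (f 0 + 2 ^ Q.b * _) % 2 ^ Q.b = f 0
      rw [Nat.add_mul_mod_self_left, Nat.mod_eq_of_lt h0]
    have h4 : pkf Q.b f (d + 1) / 2 ^ Q.b = pkf Q.b (fun t => f (t + 1)) d := by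
      show (f 0 + 2 ^ Q.b * _) / 2 ^ Q.b = _
      rw [Nat.add_mul_div_left _ _ (by positivity), Nat.div_eq_of_lt h0, zero_add]
    rw [land_mask hmb, h3] at h1
    rw [shift_eq, h4] at h2
    intro t ht
    rcases t with _ | t
    · exact Sol.beq_iff.1 h1
    · exact ih (f := fun t => f (t + 1)) (fun t ht => hf (t + 1) (by omega)) h2 t (by omega)

theorem fok_spec (hmb : Q.mb = 2 ^ Q.b - 1) {d s : ℕ} (h : Q.fok d s = true) :
    (∀ t < d, s / 2 ^ (Q.b * t) % 2 ^ Q.b < Q.m) ∧ s = pkf Q.b (fun t => s / 2 ^ (Q.b * t) % 2 ^ Q.b) d := by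
  induction d generalizing s with
  | zero =>
    refine ⟨fun t ht => absurd ht (Nat.not_lt_zero t), ?_⟩
    exact Sol.beq_iff.1 h
  | succ d ih =>
    rw [fok_succ] at h
    obtain ⟨h1, h2⟩ := cond_true_eq h
    rw [land_mask hmb] at h1
    rw [shift_eq] at h2
    obtain ⟨h3, h4⟩ := ih h2
    have h5 : ∀ t, s / 2 ^ Q.b / 2 ^ (Q.b * t) = s / 2 ^ (Q.b * (t + 1)) := by
      intro t
      rw [Nat.div_div_eq_div_mul, ← pow_add]
      congr 2; ring
    refine ⟨?_, ?_⟩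
    · intro t ht
      rcases t with _ | t
      · rw [Nat.mul_zero, pow_zero, Nat.div_one]; exact Sol.blt_iff.1 h1
      · rw [← h5]; exact h3 t (by omega)
    · show s = s / 2 ^ (Q.b * 0) % 2 ^ Q.b + 2 ^ Q.b * pkf Q.b (fun t => s / 2 ^ (Q.b * (t + 1)) % 2 ^ Q.b) d
      rw [Nat.mul_zero, pow_zero, Nat.div_one]
      have h6 : (fun t => s / 2 ^ (Q.b * (t + 1)) % 2 ^ Q.b) = fun t => s / 2 ^ Q.b / 2 ^ (Q.b * t) % 2 ^ Q.b := by
        funext t; rw [h5]
      rw [h6, ← h4, Nat.mod_add_div]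

theorem E_eq (hmb : Q.mb = 2 ^ Q.b - 1) (t x : ℕ) : Q.E t x = Q.EP x / 2 ^ (Q.b * t) % 2 ^ Q.b := by
  show Nat.land (Nat.shiftRight (Q.EP x) (Q.b * t)) Q.mb = _
  rw [land_mask hmb, shift_eq]

theorem E_lt (hmb : Q.mb = 2 ^ Q.b - 1) {x : ℕ} (h : Q.chkE x = true) {t : ℕ} (ht : t < Q.d) : Q.E t x < Q.m := by
  rw [E_eq hmb]; exact (fok_spec hmb h).1 t ht

theorem EP_eq (hmb : Q.mb = 2 ^ Q.b - 1) {x : ℕ} (h : Q.chkE x = true) : Q.EP x = pkf Q.b (fun t => Q.E t x) Q.d := by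
  have h1 := (fok_spec hmb h).2
  have h2 : (fun t => Q.E t x) = fun t => Q.EP x / 2 ^ (Q.b * t) % 2 ^ Q.b := by
    funext t; exact E_eq hmb t x
  rw [h2]; exact h1

theorem wk_start (n m : ℕ) (T : ℕ → ℕ → ℕ) (f : ℕ → ℕ) (w : List ℕ) (a s : ℕ) :
    wk n m T f w a s = s + wk n m T f w a 0 := by
  induction w generalizing a s with
  | nil => show s = s + 0; rw [add_zero]
  | cons l w ih =>
    rw [wk_cons, wk_cons, ih]
    conv_rhs => rw [ih]
    by_cases h : l % 2 = 0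
    · rw [if_pos h, if_pos h]; ring
    · rw [if_neg h, if_neg h]; ring

theorem wk_pkf (n m : ℕ) (T : ℕ → ℕ → ℕ) {P : ℕ → Bool} {F : ℕ → ℕ} {E : ℕ → ℕ → ℕ} {b d : ℕ}
    (hF : ∀ x, P x = true → F x = pkf b (fun t => E t x) d) {w : List ℕ} {a : ℕ} (hp : pall n T P w a = true) :
    wk n m T F w a 0 = pkf b (fun t => wk n m T (E t) w a 0) d := by
  induction w generalizing a with
  | nil => exact (pkf_zero b d).symm
  | cons l w ih =>
    rw [pall_cons, Bool.and_eq_true] at hp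
    rw [wk_cons, wk_start, ih hp.2]
    have h1 : ∀ t, wk n m T (E t) (l :: w) a 0 = (if l % 2 = 0 then E t (itm n T l a) else (m - 1) * E t (itm n T l a)) +
        wk n m T (E t) w (T l a) 0 := by
      intro t
      rw [wk_cons, wk_start, zero_add, zero_add]
    rw [pkf_congr fun t _ => h1 t, pkf_add]
    congr 1
    by_cases h : l % 2 = 0
    · simp only [if_pos h, zero_add]; exact hF _ hp.1
    · simp only [if_neg h, zero_add]; rw [hF _ hp.1, pkf_mul]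

theorem wk_le (n m : ℕ) (T : ℕ → ℕ → ℕ) {P : ℕ → Bool} {f : ℕ → ℕ} {M : ℕ} (hm : 1 < m) (hf : ∀ x, P x = true → f x ≤ M)
    {w : List ℕ} {a : ℕ} (hp : pall n T P w a = true) : wk n m T f w a 0 ≤ w.length * ((m - 1) * M) := by
  induction w generalizing a with
  | nil => exact Nat.zero_le _
  | cons l w ih =>
    rw [pall_cons, Bool.and_eq_true] at hp
    rw [wk_cons, wk_start, List.length_cons, Nat.add_mul, one_mul, add_comm]
    apply Nat.add_le_add (ih hp.2)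
    have h1 := hf _ hp.1
    have h2 : 1 ≤ m - 1 := by omega
    by_cases h : l % 2 = 0
    · rw [if_pos h, zero_add]
      calc f (itm n T l a) ≤ 1 * M := by omega
        _ ≤ (m - 1) * M := Nat.mul_le_mul_right _ h2
    · rw [if_neg h, zero_add]
      exact Nat.mul_le_mul_left _ h1

theorem stp_eq (it r q x s c : ℕ) (cont : ℕ → ℕ → Bool) : Q.stp it r q x s c cont =
    cond (Nat.beq x it) (cont (s + q * Q.EP x) (c + q)) (cond (Nat.blt (Q.rk x) r) (cont (s + q * Q.EP x) c) false) := by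
  show frc _ _ = _
  rw [frc_eq, frc_eq, frc_eq]; rfl

theorem stp_spec {it r q x s c : ℕ} {cont : ℕ → ℕ → Bool} (h : Q.stp it r q x s c cont = true) :
    (Nat.beq x it || Nat.blt (Q.rk x) r) = true ∧
      cont (s + q * Q.EP x) (c + q * (cond (Nat.beq x it) 1 0)) = true := by
  rw [stp_eq] at h
  cases hx : Nat.beq x it
  · rw [hx, cond_false] at h
    obtain ⟨h1, h2⟩ := cond_true_eq h
    rw [h1]
    refine ⟨rfl, ?_⟩
    rw [cond_false, mul_zero, add_zero]; exact h2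
  · rw [hx, cond_true] at h
    refine ⟨rfl, ?_⟩
    rw [cond_true, mul_one]; exact h

theorem wlk_F (it r : ℕ) (fin : ℕ → ℕ → Bool) (tb io : ℕ) (S : List Str) (a s c : ℕ) :
    Q.wlk it r fin (Str.F tb io :: S) a s c = Q.stp it r 1 (io + a) s c fun s' c' =>
      Q.wlk it r fin S (Q.T tb a) s' c' := by
  have h : Q.wlk it r fin (Str.F tb io :: S) a s c = frc (Q.T tb a) (fun b => frc (Nat.add io a) fun x =>
    Q.stp it r 1 x s c fun s' c' => Q.wlk it r fin S b s' c') := rfl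
  rw [h, frc_eq, frc_eq]; rfl

theorem wlk_B (it r : ℕ) (fin : ℕ → ℕ → Bool) (tb io : ℕ) (S : List Str) (a s c : ℕ) :
    Q.wlk it r fin (Str.B tb io :: S) a s c = Q.stp it r (Q.m - 1) (io + Q.T tb a) s c fun s' c' =>
      Q.wlk it r fin S (Q.T tb a) s' c' := by
  have h : Q.wlk it r fin (Str.B tb io :: S) a s c = frc (Q.T tb a) (fun b => frc (Nat.add io b) fun x =>
    Q.stp it r (Nat.sub Q.m 1) x s c fun s' c' => Q.wlk it r fin S b s' c') := rfl
  rw [h, frc_eq, frc_eq]; rfl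

theorem wlk_spec {it r : ℕ} {fin : ℕ → ℕ → Bool} {S : List Str} {w : List ℕ} (hS : Q.okS S w = true) {a s c : ℕ}
    (h : Q.wlk it r fin S a s c = true) :
    pall Q.n Q.T (fun x => Nat.beq x it || Nat.blt (Q.rk x) r) w a = true ∧
      fin (s + wk Q.n Q.m Q.T Q.EP w a 0) (c + wk Q.n Q.m Q.T (fun x => cond (Nat.beq x it) 1 0) w a 0) = true := by
  induction S generalizing w a s c with
  | nil =>
    cases w with
    | nil =>
      refine ⟨rfl, ?_⟩
      exact h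
    | cons l w => exact absurd hS (by simp [okS])
  | cons st S ih =>
    cases w with
    | nil => cases st <;> exact absurd hS (by simp [okS])
    | cons l w =>
      cases st with
      | F tb io =>
        have hS : (Nat.beq (Nat.land l 1) 0 && (Nat.beq tb l &&
          (Nat.beq io (Nat.mul (Nat.div l 2) Q.n) && Q.okS S w))) = true := hS
        rw [Bool.and_eq_true, Bool.and_eq_true, Bool.and_eq_true, Sol.beq_iff, Sol.beq_iff, Sol.beq_iff, land_one] at hS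
        obtain ⟨h1, h2, h3, h4⟩ := hS
        rw [wlk_F] at h
        obtain ⟨h5, h6⟩ := stp_spec h
        have hT : Q.T tb a = Q.T l a := by rw [h2]
        have hI : io + a = itm Q.n Q.T l a := by
          unfold itm; rw [if_pos h1, h3]; rfl
        rw [hT] at h6
        rw [hI] at h5 h6
        obtain ⟨h7, h8⟩ := ih h4 h6
        rw [pall_cons, Bool.and_eq_true, wk_cons, wk_cons, if_pos h1, if_pos h1, zero_add, zero_add, wk_start,
          wk_start _ _ _ (fun x => cond (Nat.beq x it) 1 0), ← add_assoc, ← add_assoc]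
        rw [one_mul, one_mul] at h8
        exact ⟨⟨h5, h7⟩, h8⟩
      | B tb io =>
        have hS : ((!(Nat.beq (Nat.land l 1) 0)) && (Nat.beq tb l &&
          (Nat.beq io (Nat.mul (Nat.div l 2) Q.n) && Q.okS S w))) = true := hS
        rw [Bool.and_eq_true, Bool.and_eq_true, Bool.and_eq_true, Sol.beq_iff, Sol.beq_iff, land_one] at hS
        obtain ⟨h1, h2, h3, h4⟩ := hS
        have h1 : ¬ l % 2 = 0 := by
          intro h0
          rw [h0] at h1
          exact absurd h1 (by decide)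
        rw [wlk_B] at h
        obtain ⟨h5, h6⟩ := stp_spec h
        have hT : Q.T tb a = Q.T l a := by rw [h2]
        rw [hT] at h5 h6
        have hI : io + Q.T l a = itm Q.n Q.T l a := by
          unfold itm; rw [if_neg h1, h3]; rfl
        rw [hI] at h5 h6
        obtain ⟨h7, h8⟩ := ih h4 h6
        rw [pall_cons, Bool.and_eq_true, wk_cons, wk_cons, if_neg h1, if_neg h1, zero_add, zero_add, wk_start,
          wk_start _ _ _ (fun x => cond (Nat.beq x it) 1 0), ← add_assoc, ← add_assoc]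
        exact ⟨⟨h5, h7⟩, h8⟩

theorem itm_lt {n k : ℕ} {T : ℕ → ℕ → ℕ} (hT : ∀ l < 2 * k, ∀ a < n, T l a < n) {l a : ℕ} (hl : l < 2 * k) (ha : a < n) :
    itm n T l a < k * n := by
  have h1 : ∀ b < n, l / 2 * n + b < k * n := by
    intro b hb
    have h2 : l / 2 < k := by omega
    calc l / 2 * n + b < l / 2 * n + n := by omega
      _ = (l / 2 + 1) * n := by ring
      _ ≤ k * n := Nat.mul_le_mul_right _ (by omega)
  unfold itm
  split_ifs
  · exact h1 _ ha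
  · exact h1 _ (hT l hl a ha)

theorem pall_lt {n k : ℕ} {T : ℕ → ℕ → ℕ} (hT : ∀ l < 2 * k, ∀ a < n, T l a < n) {P : ℕ → Bool} {w : List ℕ}
    (hw : ∀ l ∈ w, l < 2 * k) {a : ℕ} (ha : a < n) (h : pall n T P w a = true) :
    pall n T (fun x => Nat.blt x (Nat.mul k n) && P x) w a = true := by
  induction w generalizing a with
  | nil => rfl
  | cons l w ih =>
    have hl := hw l List.mem_cons_self
    rw [pall_cons, Bool.and_eq_true] at h ⊢
    refine ⟨?_, ih (fun l hl => hw l (List.mem_cons_of_mem _ hl)) (hT l hl a ha) h.2⟩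
    rw [h.1, Bool.and_true]
    exact Sol.blt_iff.2 (itm_lt hT hl ha)

theorem pall_mono {n : ℕ} {T : ℕ → ℕ → ℕ} {P P' : ℕ → Bool} (hP : ∀ x, P x = true → P' x = true) {w : List ℕ} {a : ℕ}
    (h : pall n T P w a = true) : pall n T P' w a = true := by
  induction w generalizing a with
  | nil => rfl
  | cons l w ih =>
    rw [pall_cons, Bool.and_eq_true] at h ⊢
    exact ⟨hP _ h.1, ih h.2⟩

/-- the packed checks imply the original ones -/
theorem chk_of (hp : Q.pOk = true) (hS : Q.sOk = true) (hW : Q.toDat.wOk = true)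
    (hT : ∀ l < 2 * Q.k, ∀ a < Q.n, Q.T l a < Q.n) (h : ∀ x < Q.toDat.N, Q.chk x = true) :
    ∀ x < Q.toDat.N, Q.toDat.chk x = true := by
  unfold pOk at hp
  simp only [Bool.and_eq_true, Nat.beq_eq, Nat.blt_eq] at hp
  obtain ⟨hmb, hmk0, hm, hLM⟩ := hp
  have hE : ∀ x < Q.toDat.N, Q.chkE x = true := fun x hx => (cond_true_eq (h x hx)).1
  have hWl := Dat.wOk_iff hW
  intro it hit
  have h1 := (cond_true_eq (h it hit)).2
  rw [frc_eq] at h1
  show cond (Nat.beq (Q.rk it) 0) _ _ = true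
  by_cases hr : Nat.beq (Q.rk it) 0 = true
  · rw [hr, cond_true] at h1 ⊢; exact h1
  · have hr : Nat.beq (Q.rk it) 0 = false := by
      cases hh : Nat.beq (Q.rk it) 0
      · rfl
      · exact absurd hh hr
    rw [hr, cond_false] at h1 ⊢
    unfold chk1 at h1
    rw [frc_eq, frc_eq, frc_eq] at h1
    obtain ⟨hj, h2⟩ := cond_true_eq h1
    obtain ⟨ha', h2⟩ := cond_true_eq h2
    rw [frc_eq] at h2
    set j := Nat.div (Q.lp it) Q.n with hjdef
    set a := Nat.mod (Q.lp it) Q.n with hadef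
    have hj' : j < Q.J := Sol.blt_iff.1 hj
    have ha : a < Q.n := Sol.blt_iff.1 ha'
    have hSj := alln_iff.1 hS j hj'
    rw [Bool.and_eq_true] at hSj
    obtain ⟨h3, h4⟩ := wlk_spec hSj.1 h2
    obtain ⟨h5, h6⟩ := stp_spec h4
    have hz : Nat.add (Nat.mul Q.k Q.n) j < Q.toDat.N := by
      show Q.k * Q.n + j < Q.k * Q.n + Q.J
      omega
    set z := Nat.add (Nat.mul Q.k Q.n) j with hzdef
    have hzi : Q.toDat.zi j = z := rfl
    rw [zero_add, zero_add] at h6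
    unfold fin at h6
    have h7 : Nat.beq (Nat.mod (wk Q.n Q.m Q.T (fun x => cond (Nat.beq x it) 1 0) (Q.W j) a 0 +
        Nat.sub Q.m 1 * (cond (Nat.beq z it) 1 0)) Q.p) 0 = false := by
      cases hh : Nat.beq (Nat.mod (wk Q.n Q.m Q.T (fun x => cond (Nat.beq x it) 1 0) (Q.W j) a 0 +
        Nat.sub Q.m 1 * (cond (Nat.beq z it) 1 0)) Q.p) 0
      · rfl
      · rw [hh, cond_true] at h6
        exact absurd h6 (by simp)
    rw [h7, cond_false] at h6
    have hlet := hWl j hj'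
    have h8 : pall Q.n Q.T (fun x => Nat.blt x (Nat.mul Q.k Q.n) && (Nat.beq x it || Nat.blt (Q.rk x) (Q.rk it)))
      (Q.W j) a = true := pall_lt hT hlet ha h3
    have hPE : ∀ x, (Nat.blt x (Nat.mul Q.k Q.n) && (Nat.beq x it || Nat.blt (Q.rk x) (Q.rk it))) = true →
        Q.chkE x = true := by
      intro x hx
      rw [Bool.and_eq_true] at hx
      have h9 : x < Q.k * Q.n := Sol.blt_iff.1 hx.1
      exact hE x (by show x < Q.k * Q.n + Q.J; omega)
    have h9 : wk Q.n Q.m Q.T Q.EP (Q.W j) a 0 = pkf Q.b (fun t => wk Q.n Q.m Q.T (Q.E t) (Q.W j) a 0) Q.d :=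
      wk_pkf Q.n Q.m Q.T (fun x hx => EP_eq hmb (hPE x hx)) h8
    have h10 : wk Q.n Q.m Q.T Q.EP (Q.W j) a 0 + Nat.sub Q.m 1 * Q.EP z =
        pkf Q.b (fun t => wk Q.n Q.m Q.T (Q.E t) (Q.W j) a 0 + Nat.sub Q.m 1 * Q.E t z) Q.d := by
      rw [h9, pkf_add, pkf_mul, ← EP_eq hmb (hE z hz)]
    rw [h10] at h6
    have hlen : (Q.W j).length ≤ Q.LM := Nat.le_of_ble_eq_true hSj.2
    have h11 : ∀ t < Q.d, wk Q.n Q.m Q.T (Q.E t) (Q.W j) a 0 + Nat.sub Q.m 1 * Q.E t z < 2 ^ Q.b := by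
      intro t ht
      have h12 := wk_le Q.n Q.m Q.T (f := Q.E t) (M := Q.m - 1) hm (fun x hx => by
        have := E_lt hmb (hPE x hx) ht
        omega) h8
      have h13 : Nat.sub Q.m 1 * Q.E t z ≤ (Q.m - 1) * (Q.m - 1) := by
        have := E_lt hmb (hE z hz) ht
        exact Nat.mul_le_mul_left _ (by omega)
      have h14 : (Q.W j).length * ((Q.m - 1) * (Q.m - 1)) ≤ Q.LM * ((Q.m - 1) * (Q.m - 1)) :=
        Nat.mul_le_mul_right _ hlen
      have h15 : (Q.LM + 1) * ((Q.m - 1) * (Q.m - 1)) = Q.LM * ((Q.m - 1) * (Q.m - 1)) + (Q.m - 1) * (Q.m - 1) := by ring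
      omega
    have h16 := fz_spec hmb h11 h6
    unfold Dat.chk1
    rw [frc_eq, frc_eq, frc_eq, frc_eq]
    have e1 : Nat.div (Q.toDat.lp it) Q.toDat.n = j := rfl
    have e2 : Nat.mod (Q.toDat.lp it) Q.toDat.n = a := rfl
    rw [e1, e2, hzi]
    rw [Bool.and_eq_true, Bool.and_eq_true, Bool.and_eq_true, Bool.and_eq_true, Bool.and_eq_true]
    refine ⟨hj, ha', h5, h8, ?_, ?_⟩
    · show (!(Nat.beq (Nat.mod (Nat.add (wk Q.n Q.m Q.T (fun x => cond (Nat.beq x it) 1 0) (Q.W j) a 0)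
        (Nat.mul (Nat.sub Q.m 1) (cond (Nat.beq z it) 1 0))) Q.p) 0)) = true
      have h7' : Nat.beq (Nat.mod (Nat.add (wk Q.n Q.m Q.T (fun x => cond (Nat.beq x it) 1 0) (Q.W j) a 0)
        (Nat.mul (Nat.sub Q.m 1) (cond (Nat.beq z it) 1 0))) Q.p) 0 = false := h7
      rw [h7']; rfl
    · rw [Sol.allt_iff]
      intro t ht
      exact Sol.beq_iff.2 (h16 t ht)

end proofs

end DatR

namespace DatR

variable (Q : DatR)

/-- the field `t` of a packed row -/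
def fd (R t : ℕ) : ℕ := Nat.land (Nat.shiftRight R (Nat.mul Q.b t)) Q.mb

/-- the row `R` contains the coordinates of the relation of the loop `L` -/
noncomputable def rowChk (L R : ℕ) : Bool :=
  frc (Nat.div L Q.n) fun j => frc (Nat.mod L Q.n) fun a =>
    cond (Nat.blt j Q.J) (cond (Nat.blt a Q.n) (cond (Q.fok Q.d R) (frc (Nat.add (Nat.mul Q.k Q.n) j) fun z =>
      Q.wlk (Nat.add (Nat.mul Q.k Q.n) Q.J) (Nat.pow 2 Q.b0) (fun s c =>
        Q.stp (Nat.add (Nat.mul Q.k Q.n) Q.J) (Nat.pow 2 Q.b0) (Nat.sub Q.m 1) z s c fun s' _ =>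
          Q.fz Q.d (Nat.add s' (Nat.mul (Nat.sub Q.m 1) R))) (Q.S j) a 0 0) false) false) false

/-- the combination of rows: coordinates -/
def csR (Rr : ℕ → ℕ) (t : ℕ) : List (ℕ × ℕ) → ℕ
  | [] => 0
  | q :: l => Nat.add (Nat.mul q.1 (Q.fd (Rr q.2) t)) (csR Rr t l)

/-- the combination `c` of rows has the coordinates given by `l` -/
def rcR (dr : ℕ) (Rr : ℕ → ℕ) (c l : List (ℕ × ℕ)) : Bool :=
  (c.all fun q => Nat.blt q.2 dr) && ((l.all fun q => Nat.blt q.1 Q.d) &&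
    alln (fun t => Nat.beq (Nat.mod (Q.csR Rr t c) Q.m) (Nat.mod (tv l t) Q.m)) Q.d)

def genR (dr : ℕ) (Rr : ℕ → ℕ) (gl : List (ℕ × ℕ × List (ℕ × ℕ))) : Bool :=
  gl.all fun r => Nat.blt r.1 Q.d && Q.rcR dr Rr r.2.2 [(r.1, r.2.1)]

def parR (dr : ℕ) (Rr : ℕ → ℕ) (gl : List (ℕ × ℕ × List (ℕ × ℕ))) (C : ℕ → List (ℕ × ℕ) × List (ℕ × ℕ)) : Bool :=
  alln (fun t => Q.rcR dr Rr (C t).1 ((t, 1) :: (C t).2) && (C t).2.all fun q => gl.any fun r => Nat.beq r.1 q.1) Q.d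

/-- bound -/
def pOk2 : Bool := Nat.blt ((Q.LM + 2) * ((Q.m - 1) * (Q.m - 1))) (2 ^ Q.b)

section proofs

variable {Q}

theorem fd_eq (hmb : Q.mb = 2 ^ Q.b - 1) (R t : ℕ) : Q.fd R t = R / 2 ^ (Q.b * t) % 2 ^ Q.b := by
  show Nat.land (Nat.shiftRight R (Q.b * t)) Q.mb = _
  rw [land_mask hmb, shift_eq]

theorem row_spec (hp : Q.pOk = true) (hp2 : Q.pOk2 = true) (hS : Q.sOk = true) (hW : Q.toDat.wOk = true)
    (hT : ∀ l < 2 * Q.k, ∀ a < Q.n, Q.T l a < Q.n) (h : ∀ x < Q.toDat.N, Q.chk x = true) {L R : ℕ}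
    (hL : Q.rowChk L R = true) :
    L / Q.n < Q.J ∧ L % Q.n < Q.n ∧ ∀ t < Q.d, Q.toDat.ls t (L / Q.n) (L % Q.n) % Q.m = Q.fd R t % Q.m := by
  unfold pOk at hp
  simp only [Bool.and_eq_true, Nat.beq_eq, Nat.blt_eq] at hp
  obtain ⟨hmb, hmk0, hm, hLM⟩ := hp
  have hp2 : (Q.LM + 2) * ((Q.m - 1) * (Q.m - 1)) < 2 ^ Q.b := Sol.blt_iff.1 hp2
  have hE : ∀ x < Q.toDat.N, Q.chkE x = true := fun x hx => (cond_true_eq (h x hx)).1
  have hWl := Dat.wOk_iff hW
  unfold rowChk at hL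
  rw [frc_eq, frc_eq] at hL
  obtain ⟨hj, h2⟩ := cond_true_eq hL
  obtain ⟨ha', h2⟩ := cond_true_eq h2
  obtain ⟨hfok, h2⟩ := cond_true_eq h2
  rw [frc_eq] at h2
  have hj : L / Q.n < Q.J := Sol.blt_iff.1 hj
  have ha : L % Q.n < Q.n := Sol.blt_iff.1 ha'
  refine ⟨hj, ha, ?_⟩
  have h2 : Q.wlk (Nat.add (Nat.mul Q.k Q.n) Q.J) (Nat.pow 2 Q.b0) (fun s c =>
        Q.stp (Nat.add (Nat.mul Q.k Q.n) Q.J) (Nat.pow 2 Q.b0) (Nat.sub Q.m 1) (Nat.add (Nat.mul Q.k Q.n) (L / Q.n)) s c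
          fun s' _ => Q.fz Q.d (Nat.add s' (Nat.mul (Nat.sub Q.m 1) R))) (Q.S (L / Q.n)) (L % Q.n) 0 0 = true := h2
  have hSj := alln_iff.1 hS _ hj
  rw [Bool.and_eq_true] at hSj
  obtain ⟨h3, h4⟩ := wlk_spec hSj.1 h2
  obtain ⟨-, h6⟩ := stp_spec h4
  have hz : Nat.add (Nat.mul Q.k Q.n) (L / Q.n) < Q.toDat.N := by
    show Q.k * Q.n + L / Q.n < Q.k * Q.n + Q.J
    omega
  set j := L / Q.n with hjdef
  set a := L % Q.n with hadef
  set z := Nat.add (Nat.mul Q.k Q.n) j with hzdef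
  rw [zero_add] at h6
  have hlet := hWl j hj
  have h8 : pall Q.n Q.T (fun x => Nat.blt x (Nat.mul Q.k Q.n) && (Nat.beq x (Nat.add (Nat.mul Q.k Q.n) Q.J) ||
    Nat.blt (Q.rk x) (Nat.pow 2 Q.b0))) (Q.W j) a = true := pall_lt hT hlet ha h3
  have hPE : ∀ x, (Nat.blt x (Nat.mul Q.k Q.n) && (Nat.beq x (Nat.add (Nat.mul Q.k Q.n) Q.J) ||
      Nat.blt (Q.rk x) (Nat.pow 2 Q.b0))) = true → Q.chkE x = true := by
    intro x hx
    rw [Bool.and_eq_true] at hx
    have h9 : x < Q.k * Q.n := Sol.blt_iff.1 hx.1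
    exact hE x (by show x < Q.k * Q.n + Q.J; omega)
  have h9 : wk Q.n Q.m Q.T Q.EP (Q.W j) a 0 = pkf Q.b (fun t => wk Q.n Q.m Q.T (Q.E t) (Q.W j) a 0) Q.d :=
    wk_pkf Q.n Q.m Q.T (fun x hx => EP_eq hmb (hPE x hx)) h8
  obtain ⟨hR1, hR2⟩ := fok_spec hmb hfok
  have h10 : Nat.add (wk Q.n Q.m Q.T Q.EP (Q.W j) a 0 + Nat.sub Q.m 1 * Q.EP z) (Nat.mul (Nat.sub Q.m 1) R) =
      pkf Q.b (fun t => wk Q.n Q.m Q.T (Q.E t) (Q.W j) a 0 + Nat.sub Q.m 1 * Q.E t z +
        Nat.sub Q.m 1 * (R / 2 ^ (Q.b * t) % 2 ^ Q.b)) Q.d := by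
    show _ + Nat.sub Q.m 1 * R = _
    rw [pkf_add Q.b (fun t => wk Q.n Q.m Q.T (Q.E t) (Q.W j) a 0 + Nat.sub Q.m 1 * Q.E t z),
      pkf_add Q.b (fun t => wk Q.n Q.m Q.T (Q.E t) (Q.W j) a 0), h9, pkf_mul, ← EP_eq hmb (hE z hz), pkf_mul, ← hR2]
  rw [h10] at h6
  have hlen : (Q.W j).length ≤ Q.LM := Nat.le_of_ble_eq_true hSj.2
  have h11 : ∀ t < Q.d, wk Q.n Q.m Q.T (Q.E t) (Q.W j) a 0 + Nat.sub Q.m 1 * Q.E t z +
        Nat.sub Q.m 1 * (R / 2 ^ (Q.b * t) % 2 ^ Q.b) < 2 ^ Q.b := by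
    intro t ht
    have h12 := wk_le Q.n Q.m Q.T (f := Q.E t) (M := Q.m - 1) hm (fun x hx => by
      have := E_lt hmb (hPE x hx) ht
      omega) h8
    have h13 : Nat.sub Q.m 1 * Q.E t z ≤ (Q.m - 1) * (Q.m - 1) := by
      have := E_lt hmb (hE z hz) ht
      exact Nat.mul_le_mul_left _ (by omega)
    have h13' : Nat.sub Q.m 1 * (R / 2 ^ (Q.b * t) % 2 ^ Q.b) ≤ (Q.m - 1) * (Q.m - 1) := by
      have := hR1 t ht
      exact Nat.mul_le_mul_left _ (by omega)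
    have h14 : (Q.W j).length * ((Q.m - 1) * (Q.m - 1)) ≤ Q.LM * ((Q.m - 1) * (Q.m - 1)) :=
      Nat.mul_le_mul_right _ hlen
    have h15 : (Q.LM + 2) * ((Q.m - 1) * (Q.m - 1)) = Q.LM * ((Q.m - 1) * (Q.m - 1)) + (Q.m - 1) * (Q.m - 1) +
      (Q.m - 1) * (Q.m - 1) := by ring
    omega
  have h16 := fz_spec hmb h11 h6
  intro t ht
  have h17 := h16 t ht
  have h18 : Q.toDat.ls t j a = wk Q.n Q.m Q.T (Q.E t) (Q.W j) a 0 + Nat.sub Q.m 1 * Q.E t z := rfl
  rw [fd_eq hmb, h18]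
  set x := wk Q.n Q.m Q.T (Q.E t) (Q.W j) a 0 + Nat.sub Q.m 1 * Q.E t z
  set y := R / 2 ^ (Q.b * t) % 2 ^ Q.b
  have h19 : x + Q.m * y = (x + Nat.sub Q.m 1 * y) + y := by
    have : Q.m * y = Nat.sub Q.m 1 * y + y := by
      have h20 : Q.m = Nat.sub Q.m 1 + 1 := by
        show Q.m = Q.m - 1 + 1
        omega
      conv_lhs => rw [h20]
      ring
    omega
  rw [← Nat.add_mul_mod_self_left x Q.m y, h19, Nat.add_mod, h17, zero_add, Nat.mod_mod]

/-- translation of combinations -/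
def tr (Lr : ℕ → ℕ) (c : List (ℕ × ℕ)) : List (ℕ × ℕ) := c.map fun q => (q.1, Lr q.2)

theorem rc_of {dr : ℕ} {Lr Rr : ℕ → ℕ}
    (hrow : ∀ i < dr, Lr i / Q.n < Q.J ∧ Lr i % Q.n < Q.n ∧
      ∀ t < Q.d, Q.toDat.ls t (Lr i / Q.n) (Lr i % Q.n) % Q.m = Q.fd (Rr i) t % Q.m)
    {c l : List (ℕ × ℕ)} (h : Q.rcR dr Rr c l = true) : Q.toDat.rc (tr Lr c) l = true := by
  unfold rcR at h
  rw [Bool.and_eq_true, Bool.and_eq_true] at h
  obtain ⟨h1, h2, h3'⟩ := h
  have h3 := alln_iff.1 h3'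
  clear h3'
  unfold Dat.rc
  rw [Bool.and_eq_true, Bool.and_eq_true]
  refine ⟨?_, h2, ?_⟩
  · clear h3
    induction c with
    | nil => rfl
    | cons q c ih =>
      rw [List.all_cons, Bool.and_eq_true] at h1
      obtain ⟨g1, g2, -⟩ := hrow _ (Sol.blt_iff.1 h1.1)
      show (Nat.blt (Nat.div (Lr q.2) Q.n) Q.J && (Nat.blt (Nat.mod (Lr q.2) Q.n) Q.n && Q.toDat.okc (tr Lr c))) = true
      rw [Bool.and_eq_true, Bool.and_eq_true]
      exact ⟨Sol.blt_iff.2 g1, Sol.blt_iff.2 g2, ih h1.2⟩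
  · rw [Sol.allt_iff]
    intro t ht
    have h4 := Sol.beq_iff.1 (h3 t ht)
    have h5 : Q.toDat.cs t (tr Lr c) % Q.m = Q.csR Rr t c % Q.m := by
      clear h3 h4
      induction c with
      | nil => rfl
      | cons q c ih =>
        rw [List.all_cons, Bool.and_eq_true] at h1
        obtain ⟨-, -, g3⟩ := hrow _ (Sol.blt_iff.1 h1.1)
        show (q.1 * Q.toDat.ls t (Lr q.2 / Q.n) (Lr q.2 % Q.n) + Q.toDat.cs t (tr Lr c)) % Q.m =
          (q.1 * Q.fd (Rr q.2) t + Q.csR Rr t c) % Q.m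
        rw [Nat.add_mod, ih h1.2, Nat.mul_mod, g3 t ht, ← Nat.mul_mod, ← Nat.add_mod]
    apply Sol.beq_iff.2
    show Q.toDat.cs t (tr Lr c) % Q.m = tv l t % Q.m
    rw [h5]; exact h4

end proofs

end DatR

/-- main theorem in terms of packed data, one generator normalised by a general relator -/
theorem pStemDvd_of_RW {p s q N dr : ℕ} [hp : Fact p.Prime] {G : Type u} [Group G] [Finite G] {Ω : Type w}
    [MulAction G Ω] (Q : DatR) {g : ℕ → G} {e : ℕ → Ω} (A : Act Q.n Q.k g e Q.T Q.pi Q.pq)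
    (hgen : closure {z | ∃ i < Q.k, z = g i} = ⊤)
    (hH : PStemDvd p (MulAction.stabilizer G (e 0)) 1)
    (hab : ¬ p ∣ (commutator (MulAction.stabilizer G (e 0))).index)
    (hrel : ∀ j < Q.J, ev g (Q.W j) = 1)
    (hT : Q.toDat.tab1 = true)
    (hW : Q.toDat.wOk = true) (hS : Q.sOk = true) (hP : Q.pOk = true) (hP2 : Q.pOk2 = true)
    (nr : ℕ → ℕ × ℕ) (i0 : ℕ) (hnr : Q.toDat.nrW nr i0 = true) (hzl : Q.toDat.zlOk nr = true)
    (hDp : Q.p = p) (hDm : Q.m = p ^ s) (hpq : p * q ∣ Q.m)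
    (hchk : ∀ x < Q.toDat.N, Q.chk x = true) (Lr Rr : ℕ → ℕ)
    (hrow : alln (fun i => Q.rowChk (Lr i) (Rr i)) dr = true)
    {gl : List (ℕ × ℕ × List (ℕ × ℕ))} {C : ℕ → List (ℕ × ℕ) × List (ℕ × ℕ)}
    (hg : Q.genR dr Rr gl = true) (hpar : Q.parR dr Rr gl C = true) (hq : ∀ r ∈ gl, r.2.1 ∣ q)
    (hN : (gl.map fun r => r.2.1).prod = N) : PStemDvd p G N := by
  have hT' : ∀ l < 2 * Q.k, ∀ a < Q.n, Q.T l a < Q.n := fun l hl a ha =>
    Sol.blt_iff.1 (alln_iff.1 (alln_iff.1 hT l hl) a ha)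
  have hr : ∀ i < dr, Lr i / Q.n < Q.J ∧ Lr i % Q.n < Q.n ∧
      ∀ t < Q.d, Q.toDat.ls t (Lr i / Q.n) (Lr i % Q.n) % Q.m = Q.fd (Rr i) t % Q.m := fun i hi =>
    DatR.row_spec hP hP2 hS hW hT' hchk (alln_iff.1 hrow i hi)
  let f : ℕ × ℕ × List (ℕ × ℕ) → ℕ × ℕ × List (ℕ × ℕ) := fun r => (r.1, r.2.1, DatR.tr Lr r.2.2)
  refine pStemDvd_of_checksW (s := s) (q := q) (N := N) Q.toDat A hgen hH hab hW hrel nr i0 hnr hzl hDp hDm hpq
    (DatR.chk_of hP hS hW hT' hchk) (gl := gl.map f) (C := fun t => (DatR.tr Lr (C t).1, (C t).2)) ?_ ?_ ?_ ?_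
  · unfold Dat.genOk
    unfold DatR.genR at hg
    rw [List.all_eq_true] at hg ⊢
    intro r hr'
    obtain ⟨r, hr1, rfl⟩ := List.mem_map.1 hr'
    have h1 := hg r hr1
    rw [Bool.and_eq_true] at h1 ⊢
    exact ⟨h1.1, DatR.rc_of hr h1.2⟩
  · unfold Dat.parOk
    have hpar := alln_iff.1 hpar
    rw [Sol.allt_iff]
    intro t ht
    have h1 := hpar t ht
    rw [Bool.and_eq_true] at h1 ⊢
    refine ⟨DatR.rc_of hr h1.1, ?_⟩
    have h2 := h1.2
    rw [List.all_eq_true] at h2 ⊢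
    intro q hq
    have h3 := h2 q hq
    rw [List.any_eq_true] at h3 ⊢
    obtain ⟨r, hr1, hr2⟩ := h3
    exact ⟨f r, List.mem_map_of_mem hr1, hr2⟩
  · intro r hr'
    obtain ⟨r, hr1, rfl⟩ := List.mem_map.1 hr'
    exact hq r hr1
  · rw [List.map_map]; exact hN

end Cfsg.Agent.Lib.H58SM
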