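import Cfsg.Agent.Lib.CovPair
import Cfsg.Agent.Lib.SMGen
import Cfsg.Agent.Lib.H58SMq

/-!
Lower bounds for Schur multipliers: central extensions from a system of labelled blocks (helper58)
-/

set_option autoImplicit false

namespace Cfsg.Agent.Lib.H58SM.Bk

open Subgroup Cfsg Cfsg.Agent.Lib.SchurSylow Cfsg.Agent.Lib.H58SM

universe u w

section pres

variable {n : ℕ} {B : Type} [AddCommGroup B]

/-- labelled blocks -/
structure Blocks (n k : ℕ) (T : ℕ → ℕ → ℕ) (c : ℕ → ℕ → B) (m N : ℕ) (Pt : ℕ → ℕ → ℕ) (Lb : ℕ → ℕ → B)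
    (dp pa : ℕ → ℕ) : Prop where
  lt : ∀ y < N, ∀ s < m, Pt y s < n
  inc : ∀ y < N, ∀ s t, s < t → t < m → Pt y s < Pt y t
  ne : ∀ y < N, ∀ z < N, (∀ s < m, Pt y s = Pt z s) → y = z
  inv : ∀ i < k, ∀ y < N, ∃ z < N, ∃ κ : B, ∀ s < m, ∃ t < m,
    T (2 * i) (Pt y s) = Pt z t ∧ Lb y s + c i (Pt y s) = Lb z t + κ
  con : ∀ b < n, b ≠ 0 → pa b < n ∧ dp (pa b) < dp b ∧ ∃ y < N, ∃ s < m, ∃ t < m, Pt y s = pa b ∧ Pt y t = b

/-- permutations preserving the labelled blocks up to shifts -/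
def Pres (m N : ℕ) (Pt : ℕ → ℕ → ℕ) (Lb : ℕ → ℕ → B) (f : Equiv.Perm (Fin n × B)) : Prop :=
  ∀ y < N, ∀ κ : B, ∃ z < N, ∃ κ' : B, ∀ s < m, ∃ t < m, ∀ p : Fin n × B,
    (p.1 : ℕ) = Pt y s → p.2 = Lb y s + κ → ((f p).1 : ℕ) = Pt z t ∧ (f p).2 = Lb z t + κ'

variable {m N : ℕ} {Pt : ℕ → ℕ → ℕ} {Lb : ℕ → ℕ → B}

theorem Pres.one : Pres m N Pt Lb (1 : Equiv.Perm (Fin n × B)) :=
  fun y hy κ => ⟨y, hy, κ, fun s hs => ⟨s, hs, fun _ h1 h2 => ⟨h1, h2⟩⟩⟩

theorem Pres.mul {f f' : Equiv.Perm (Fin n × B)} (h : Pres m N Pt Lb f) (h' : Pres m N Pt Lb f') :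
    Pres m N Pt Lb (f * f') := by
  intro y hy κ
  obtain ⟨z, hz, κ1, h1⟩ := h' y hy κ
  obtain ⟨z2, hz2, κ2, h2⟩ := h z hz κ1
  refine ⟨z2, hz2, κ2, fun s hs => ?_⟩
  obtain ⟨t, ht, h3⟩ := h1 s hs
  obtain ⟨t2, ht2, h4⟩ := h2 t ht
  exact ⟨t2, ht2, fun p hp1 hp2 => h4 _ (h3 p hp1 hp2).1 (h3 p hp1 hp2).2⟩

theorem Pres.pow {f : Equiv.Perm (Fin n × B)} (h : Pres m N Pt Lb f) (r : ℕ) : Pres m N Pt Lb (f ^ r) := by
  induction r with
  | zero => rw [pow_zero]; exact Pres.one
  | succ r ih => rw [pow_succ]; exact ih.mul h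

theorem Pres.inv [Finite B] {f : Equiv.Perm (Fin n × B)} (h : Pres m N Pt Lb f) : Pres m N Pt Lb f⁻¹ := by
  have h1 : f⁻¹ = f ^ (orderOf f - 1) := by
    rw [inv_eq_iff_mul_eq_one, ← pow_succ', Nat.sub_add_cancel (orderOf_pos f), pow_orderOf_eq_one]
  rw [h1]; exact h.pow _

variable {k : ℕ} {T : ℕ → ℕ → ℕ} {c : ℕ → ℕ → B} {dp pa : ℕ → ℕ}

theorem const_of_pres (E : Blocks n k T c m N Pt Lb dp pa) {f : Equiv.Perm (Fin n × B)} (hf : Pres m N Pt Lb f)
    (φ : ℕ → B) (hφ : ∀ (a : Fin n) (x : B), f (a, x) = (a, x + φ a)) : ∀ b < n, φ b = φ 0 := by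
  -- constant on blocks
  have key : ∀ y < N, ∃ κ : B, ∀ s < m, φ (Pt y s) = κ := by
    intro y hy
    obtain ⟨z, hz, κ, h⟩ := hf y hy 0
    choose! σ hσ hσ2 using h
    have h1 : ∀ s < m, Pt y s = Pt z (σ s) ∧ Lb y s + φ (Pt y s) = Lb z (σ s) + κ := by
      intro s hs
      have h2 := hσ2 s hs (⟨Pt y s, E.lt y hy s hs⟩, Lb y s + 0) rfl rfl
      rw [hφ] at h2
      refine ⟨h2.1, ?_⟩
      have h3 : Lb y s + 0 + φ (Pt y s) = Lb z (σ s) + κ := h2.2
      rwa [add_zero] at h3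
    let a : Fin m → ℕ := fun s => Pt y s
    let b : Fin m → ℕ := fun s => Pt z s
    let τ : Fin m → Fin m := fun s => ⟨σ s, hσ s s.2⟩
    have ha : StrictMono a := fun s t hst => E.inc y hy s t hst t.2
    have hb : StrictMono b := fun s t hst => E.inc z hz s t hst t.2
    have hab : ∀ s, a s = b (τ s) := fun s => (h1 s s.2).1
    have hτ : Function.Injective τ := by
      intro s t hst
      apply ha.injective
      rw [hab, hab, hst]
    have hτ' : Function.Surjective τ := Finite.injective_iff_surjective.1 hτ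
    have hr : Set.range a = Set.range b := by
      ext x
      constructor
      · rintro ⟨s, rfl⟩; exact ⟨τ s, (hab s).symm⟩
      · rintro ⟨s, rfl⟩
        obtain ⟨t, rfl⟩ := hτ' s
        exact ⟨t, hab t⟩
    have he : a = b := (StrictMono.range_inj ha hb).1 hr
    have hyz : y = z := E.ne y hy z hz fun s hs => congrFun he ⟨s, hs⟩
    subst hyz
    refine ⟨κ, fun s hs => ?_⟩
    have h4 : σ s = s := by
      have h5 : a ⟨s, hs⟩ = a (τ ⟨s, hs⟩) := hab ⟨s, hs⟩
      exact (congrArg Fin.val (ha.injective h5)).symm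
    have h6 := (h1 s hs).2
    rw [h4] at h6
    exact add_left_cancel h6
  intro b hb
  induction hd : dp b using Nat.strong_induction_on generalizing b with
  | _ d ih =>
    by_cases h0 : b = 0
    · rw [h0]
    obtain ⟨h1, h2, y, hy, s, hs, t, ht, h3, h4⟩ := E.con b hb h0
    have h5 : φ (pa b) = φ 0 := ih _ (by rw [← hd]; exact h2) _ h1 rfl
    obtain ⟨κ, hκ⟩ := key y hy
    rw [← h4, hκ t ht, ← hκ s hs, h3, h5]

end pres

section engine

open Cfsg.Agent.Lib.Cov (P P_apply lt_apply ev_apply X ev_X cov tr trh tr_inj tr_comm)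

variable {G : Type u} {Ω : Type w} [Group G] [MulAction G Ω] {n k : ℕ} {g : ℕ → G} {e : ℕ → Ω} {T : ℕ → ℕ → ℕ}
  {pi pq : ℕ → ℕ} {B : Type} [AddCommGroup B] {c : ℕ → ℕ → B} {m N : ℕ} {Pt : ℕ → ℕ → ℕ} {Lb : ℕ → ℕ → B}
  {dp pa : ℕ → ℕ}

theorem pres_P (A : Act n k g e T pi pq) (E : Blocks n k T c m N Pt Lb dp pa) {i : ℕ} (hi : i < k) :
    Pres m N Pt Lb (P A c i) := by
  intro y hy κ
  obtain ⟨z, hz, κ', h⟩ := E.inv i hi y hy
  refine ⟨z, hz, κ' + κ, fun s hs => ?_⟩
  obtain ⟨t, ht, h1, h2⟩ := h s hs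
  refine ⟨t, ht, ?_⟩
  rintro ⟨⟨a, ha⟩, x⟩ h3 h4
  have h3 : a = Pt y s := h3
  have h4 : x = Lb y s + κ := h4
  subst h3
  subst h4
  rw [P_apply A c hi]
  refine ⟨h1, ?_⟩
  show Lb y s + κ + c i (Pt y s) = Lb z t + (κ' + κ)
  rw [add_right_comm, h2, add_assoc]

variable [Finite B]

theorem pres_ev (A : Act n k g e T pi pq) (E : Blocks n k T c m N Pt Lb dp pa) {v : List ℕ} (hv : ∀ l ∈ v, l < 2 * k) :
    Pres m N Pt Lb (ev (P A c) v) := by
  induction v with
  | nil => exact Pres.one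
  | cons l v ih =>
    rw [ev_cons]
    refine (ih fun l hl => hv l (List.mem_cons_of_mem _ hl)).mul ?_
    have hl := hv l List.mem_cons_self
    unfold lt
    split_ifs
    · exact pres_P A E (by omega)
    · exact (pres_P A E (by omega)).inv

/-- kernel elements are translations -/
theorem ker_tr (A : Act n k g e T pi pq) (E : Blocks n k T c m N Pt Lb dp pa) {v : List ℕ}
    (hv : ∀ l ∈ v, l < 2 * k) (h1 : ev g v = 1) : ev (X A c) v = tr G n B (pe T c v 0) := by
  have h2 : ∀ a < n, pt T v a = a := by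
    intro a ha
    apply A.inj (A.pt_lt hv ha) ha
    rw [← A.smul_ev hv ha, h1, one_smul]
  have h3 : ∀ (a : Fin n) (x : B), ev (P A c) v (a, x) = (a, x + pe T c v a) := by
    intro a x
    rw [ev_apply A c hv]
    congr 1
    exact Fin.ext (h2 a a.2)
  have h5 := const_of_pres E (pres_ev A E hv) (fun a => pe T c v a) h3
  rw [ev_X, h1]
  unfold tr
  congr 1
  apply Equiv.ext
  rintro ⟨a, x⟩
  rw [h3, h5 a a.2]
  rfl

/-- **Lower bound engine for labelled blocks** -/
theorem exists_stem [Finite G] (A : Act n k g e T pi pq) (E : Blocks n k T c m N Pt Lb dp pa)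
    (hgen : closure {z | ∃ i < k, z = g i} = ⊤) (hperf : commutator G = ⊤)
    (o : ℕ → ℕ) (ho : ∀ i < k, g i ^ o i = 1 ∧ (o i).Coprime (Nat.card B) ∧ pe T c (List.replicate (o i) (2 * i)) 0 = 0)
    (V : List (List ℕ)) (hV : ∀ v ∈ V, (∀ l ∈ v, l < 2 * k) ∧ ev g v = 1)
    (hB : AddSubgroup.closure {b | ∃ v ∈ V, b = pe T c v 0} = ⊤) :
    ∃ (Γ : Type u) (_ : Group Γ) (_ : Finite Γ) (π : Γ →* G), IsStemExtension π ∧
      Nonempty (Multiplicative B ≃* π.ker) := by
  refine Cfsg.Agent.Lib.CovPair.exists_cover_abs (E := G × Equiv.Perm (Fin n × B))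
    (MonoidHom.fst G (Equiv.Perm (Fin n × B))) (k := k) (x := X A c) (g := g) (fun _ _ => rfl) (B := B) (trh G n B)
    ?_ (fun _ => rfl) ?_ (fun v => pe T c v 0) ?_ hgen hperf o ho V hV hB
  · intro y z h
    exact tr_inj (B := B) G A.pos (y := Multiplicative.toAdd y) (z := Multiplicative.toAdd z) h
  · intro i hi z
    exact tr_comm A c (Multiplicative.toAdd z) (subset_closure ⟨i, hi, rfl⟩)
  · intro v hv h1
    exact ker_tr A E hv h1

end engine

/-! ### packed data, labels modulo 3 -/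

/-- packed data of the blocks: entries `8 * point + label` of 18 bits -/
structure BD where
  n : ℕ
  k : ℕ
  /-- block size minus one -/
  m : ℕ
  N : ℕ
  T : ℕ → ℕ → ℕ
  /-- image and label of a point: `8 * T + c` -/
  TC : ℕ → ℕ → ℕ
  /-- rows of the blocks -/
  R : ℕ → ℕ
  /-- image, shift and permutation of rows -/
  S : ℕ → ℕ → ℕ
  /-- connection data: block, two places, depth -/
  C : ℕ → ℕ

namespace BD

variable (D : BD)

def en (y s : ℕ) : ℕ := gt (D.R y) 18 262143 s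

def Pt (y s : ℕ) : ℕ := Nat.shiftRight (D.en y s) 3

def Lb (y s : ℕ) : ZMod 3 := ((Nat.land (D.en y s) 7 : ℕ) : ZMod 3)

def cc (i a : ℕ) : ZMod 3 := ((Nat.land (D.TC i a) 7 : ℕ) : ZMod 3)

def dp (a : ℕ) : ℕ := Nat.shiftRight (D.C a) 28

def pa (a : ℕ) : ℕ := D.Pt (Nat.land (D.C a) 65535) (Nat.land (Nat.shiftRight (D.C a) 16) 63)

/-- a row is increasing and has small labels -/
def blkOk (y : ℕ) : Bool :=
  frc (D.R y) fun r =>
    cond (frc (gt r 18 262143 D.m) fun e => cond (Nat.blt (Nat.land e 7) 3) (Nat.blt (Nat.shiftRight e 3) D.n) false)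
      (alln (fun s => frc (gt r 18 262143 s) fun e => cond (Nat.blt (Nat.land e 7) 3)
        (Nat.blt (Nat.shiftRight e 3) (Nat.shiftRight (gt r 18 262143 (Nat.succ s)) 3)) false) D.m) false

def key (y : ℕ) : ℕ :=
  frc (D.R y) fun r => Nat.add (Nat.mul (Nat.add (Nat.mul (Nat.shiftRight (gt r 18 262143 0) 3) 32768)
    (Nat.shiftRight (gt r 18 262143 1) 3)) 32768) (Nat.shiftRight (gt r 18 262143 2) 3)

def keyOk : Bool := alln (fun y => Nat.blt (D.key y) (D.key (Nat.succ y))) (Nat.pred D.N)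

def linkOk : Bool := alln (fun i => alln (fun a => frc (D.TC i a) fun x => cond (Nat.blt (Nat.land x 7) 3)
  (Nat.beq (D.T (Nat.mul 2 i) a) (Nat.shiftRight x 3)) false) D.n) D.k

def conOk : Bool := alln (fun b => cond (Nat.beq b 0) true (frc (D.C b) fun x => frc (Nat.land x 65535) fun y =>
  frc (Nat.land (Nat.shiftRight x 16) 63) fun s => frc (Nat.land (Nat.shiftRight x 22) 63) fun t =>
  Nat.blt y D.N && (Nat.blt s (Nat.succ D.m) && (Nat.blt t (Nat.succ D.m) && (Nat.beq (D.Pt y t) b &&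
    Nat.blt (D.dp (D.Pt y s)) (D.dp b)))))) D.n

/-- invariance of one block -/
def rowOk (i y : ℕ) : Bool :=
  frc (D.S i y) fun w => frc (Nat.land (Nat.shiftRight w 2) 65535) fun z => frc (Nat.land w 3) fun κ =>
  cond (Nat.blt z D.N) (cond (Nat.blt κ 3) (frc (Nat.shiftRight w 18) fun q => frc (D.R y) fun r => frc (D.R z) fun r' =>
    alln (fun s => frc (gt q 6 63 s) fun t => cond (Nat.blt t (Nat.succ D.m)) (frc (gt r 18 262143 s) fun e =>
      frc (Nat.add (D.TC i (Nat.shiftRight e 3)) (Nat.land e 7)) fun x => frc (Nat.add (gt r' 18 262143 t) κ) fun x' =>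
      cond (Nat.beq x x') true (cond (Nat.beq (Nat.add x 3) x') true (Nat.beq x (Nat.add x' 3)))) false) (Nat.succ D.m))
    false) false

theorem split8 (x : ℕ) : x = 8 * Nat.shiftRight x 3 + Nat.land x 7 ∧ Nat.land x 7 < 8 := by
  have h1 : Nat.shiftRight x 3 = x / 8 := Nat.shiftRight_eq_div_pow x 3
  have h2 : Nat.land x 7 = x % 8 := Nat.and_two_pow_sub_one_eq_mod x 3
  rw [h1, h2]
  omega

theorem arith {P a P' b x x' : ℕ} (hx : x = 8 * P + a) (hx' : x' = 8 * P' + b) (ha : a ≤ 4) (hb : b ≤ 4)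
    (h : x = x' ∨ x + 3 = x' ∨ x = x' + 3) : P = P' ∧ (a = b ∨ a + 3 = b ∨ a = b + 3) := by
  subst hx; subst hx'
  omega

theorem cast3 {a b : ℕ} (h : a = b ∨ a + 3 = b ∨ a = b + 3) : (a : ZMod 3) = (b : ZMod 3) := by
  have h3 : (3 : ZMod 3) = 0 := rfl
  rcases h with rfl | rfl | rfl
  · rfl
  · push_cast; rw [h3, add_zero]
  · push_cast; rw [h3, add_zero]

variable {D}

theorem blk_spec {y : ℕ} (h : D.blkOk y = true) : (∀ s < D.m + 1, Nat.land (D.en y s) 7 < 3 ∧ D.Pt y s < D.n) ∧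
    ∀ s < D.m, D.Pt y s < D.Pt y (s + 1) := by
  unfold blkOk at h
  rw [frc_eq, frc_eq] at h
  cases h1 : Nat.blt (Nat.land (gt (D.R y) 18 262143 D.m) 7) 3 with
  | false => rw [h1] at h; exact absurd h Bool.false_ne_true
  | true =>
    rw [h1, cond_true] at h
    cases h2 : Nat.blt (Nat.shiftRight (gt (D.R y) 18 262143 D.m) 3) D.n with
    | false => rw [h2] at h; exact absurd h Bool.false_ne_true
    | true =>
      rw [h2, cond_true, alln_iff] at h
      have h3 : ∀ s < D.m, Nat.land (D.en y s) 7 < 3 ∧ D.Pt y s < D.Pt y (s + 1) := by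
        intro s hs
        have h4 := h s hs
        rw [frc_eq] at h4
        cases h5 : Nat.blt (Nat.land (gt (D.R y) 18 262143 s) 7) 3 with
        | false => rw [h5] at h4; exact absurd h4 Bool.false_ne_true
        | true =>
          rw [h5, cond_true] at h4
          exact ⟨Sol.blt_iff.1 h5, Sol.blt_iff.1 h4⟩
      have hm : Nat.land (D.en y D.m) 7 < 3 ∧ D.Pt y D.m < D.n := ⟨Sol.blt_iff.1 h1, Sol.blt_iff.1 h2⟩
      have hle : ∀ j, ∀ s, s + j = D.m → D.Pt y s < D.n := by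
        intro j
        induction j with
        | zero => intro s hs; rw [show s = D.m by omega]; exact hm.2
        | succ j ih => intro s hs; exact (h3 s (by omega)).2.trans (ih (s + 1) (by omega))
      refine ⟨fun s hs => ⟨?_, hle (D.m - s) s (by omega)⟩, fun s hs => (h3 s hs).2⟩
      rcases Nat.lt_or_ge s D.m with h4 | h4
      · exact (h3 s h4).1
      · rw [show s = D.m by omega]; exact hm.1

theorem link_spec (h : D.linkOk = true) : ∀ i < D.k, ∀ a < D.n, Nat.land (D.TC i a) 7 < 3 ∧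
    D.T (2 * i) a = Nat.shiftRight (D.TC i a) 3 := by
  intro i hi a ha
  have h1 := alln_iff.1 (alln_iff.1 h i hi) a ha
  rw [frc_eq] at h1
  cases h5 : Nat.blt (Nat.land (D.TC i a) 7) 3 with
  | false => rw [h5] at h1; exact absurd h1 Bool.false_ne_true
  | true =>
    rw [h5, cond_true] at h1
    exact ⟨Sol.blt_iff.1 h5, Sol.beq_iff.1 h1⟩

theorem row_spec (hl : D.linkOk = true) (hb : ∀ y < D.N, D.blkOk y = true) {i : ℕ} (hi : i < D.k) {y : ℕ} (hy : y < D.N)
    (h : D.rowOk i y = true) : ∃ z < D.N, ∃ κ : ZMod 3, ∀ s < D.m + 1, ∃ t < D.m + 1,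
    D.T (2 * i) (D.Pt y s) = D.Pt z t ∧ D.Lb y s + D.cc i (D.Pt y s) = D.Lb z t + κ := by
  unfold rowOk at h
  rw [frc_eq, frc_eq, frc_eq] at h
  generalize Nat.land (Nat.shiftRight (D.S i y) 2) 65535 = z at h
  generalize Nat.land (D.S i y) 3 = κ at h
  cases h1 : Nat.blt z D.N with
  | false => rw [h1] at h; exact absurd h Bool.false_ne_true
  | true =>
    rw [h1, cond_true] at h
    cases h2 : Nat.blt κ 3 with
    | false => rw [h2] at h; exact absurd h Bool.false_ne_true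
    | true =>
      rw [h2, cond_true, frc_eq, frc_eq, frc_eq, alln_iff] at h
      have hz := Sol.blt_iff.1 h1
      have hκ := Sol.blt_iff.1 h2
      refine ⟨z, hz, (κ : ZMod 3), fun s hs => ?_⟩
      have h3 := h s hs
      rw [frc_eq] at h3
      generalize gt (Nat.shiftRight (D.S i y) 18) 6 63 s = t at h3
      cases h4 : Nat.blt t (Nat.succ D.m) with
      | false => rw [h4] at h3; exact absurd h3 Bool.false_ne_true
      | true =>
        rw [h4, cond_true, frc_eq, frc_eq, frc_eq] at h3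
        have ht : t < D.m + 1 := Sol.blt_iff.1 h4
        refine ⟨t, ht, ?_⟩
        have b1 := (blk_spec (hb y hy)).1 s hs
        have b2 := (blk_spec (hb z hz)).1 t ht
        have b3 := link_spec hl i hi (D.Pt y s) b1.2
        have e1 := (split8 (D.TC i (D.Pt y s))).1
        have e2 := (split8 (D.en z t)).1
        have h5 : (D.TC i (D.Pt y s) + Nat.land (D.en y s) 7 = D.en z t + κ) ∨
            (D.TC i (D.Pt y s) + Nat.land (D.en y s) 7 + 3 = D.en z t + κ) ∨
            (D.TC i (D.Pt y s) + Nat.land (D.en y s) 7 = D.en z t + κ + 3) := by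
          change cond (Nat.beq (D.TC i (D.Pt y s) + Nat.land (D.en y s) 7) (D.en z t + κ)) true
            (cond (Nat.beq (D.TC i (D.Pt y s) + Nat.land (D.en y s) 7 + 3) (D.en z t + κ)) true
              (Nat.beq (D.TC i (D.Pt y s) + Nat.land (D.en y s) 7) (D.en z t + κ + 3))) = true at h3
          cases h6 : Nat.beq (D.TC i (D.Pt y s) + Nat.land (D.en y s) 7) (D.en z t + κ) with
          | true => exact Or.inl (Sol.beq_iff.1 h6)
          | false =>
            rw [h6, cond_false] at h3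
            cases h7 : Nat.beq (D.TC i (D.Pt y s) + Nat.land (D.en y s) 7 + 3) (D.en z t + κ) with
            | true => exact Or.inr (Or.inl (Sol.beq_iff.1 h7))
            | false =>
              rw [h7, cond_false] at h3
              exact Or.inr (Or.inr (Sol.beq_iff.1 h3))
        obtain ⟨h6, h7⟩ := arith (P := Nat.shiftRight (D.TC i (D.Pt y s)) 3)
          (a := Nat.land (D.TC i (D.Pt y s)) 7 + Nat.land (D.en y s) 7) (P' := D.Pt z t)
          (b := Nat.land (D.en z t) 7 + κ) (x := D.TC i (D.Pt y s) + Nat.land (D.en y s) 7) (x' := D.en z t + κ)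
          (by omega) (by show D.en z t + κ = 8 * Nat.shiftRight (D.en z t) 3 + _; omega) (by omega) (by omega) h5
        refine ⟨by rw [b3.2, h6], ?_⟩
        have h8 := cast3 h7
        push_cast at h8
        unfold Lb cc
        rw [add_comm, h8]

theorem key_spec (h : D.keyOk = true) : ∀ y < D.N, ∀ z < D.N, D.key y = D.key z → y = z := by
  have h1 := alln_iff.1 h
  have key : ∀ b, b < D.N → ∀ a < b, D.key a < D.key b := by
    intro b
    induction b with
    | zero => intro _ a ha; omega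
    | succ b ih =>
      intro hb a ha
      have h2 : D.key b < D.key (b + 1) := Sol.blt_iff.1 (h1 b (by show b < D.N - 1; omega))
      rcases Nat.lt_succ_iff_lt_or_eq.1 ha with h3 | h3
      · exact (ih (by omega) a h3).trans h2
      · rw [h3]; exact h2
  intro y hy z hz hyz
  rcases Nat.lt_trichotomy y z with h2 | h2 | h2
  · exact absurd hyz (key z hz y h2).ne
  · exact h2
  · exact absurd hyz.symm (key y hy z h2).ne

theorem con_spec (h : D.conOk = true) : ∀ b < D.n, b ≠ 0 → D.dp (D.pa b) < D.dp b ∧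
    ∃ y < D.N, ∃ s < D.m + 1, ∃ t < D.m + 1, D.Pt y s = D.pa b ∧ D.Pt y t = b := by
  intro b hb h0
  have h1 := alln_iff.1 h b hb
  have hb0 : Nat.beq b 0 = false := by
    cases h2 : Nat.beq b 0 with
    | false => rfl
    | true => exact absurd (Sol.beq_iff.1 h2) h0
  rw [hb0, cond_false, frc_eq, frc_eq, frc_eq, frc_eq, Bool.and_eq_true, Bool.and_eq_true, Bool.and_eq_true,
    Bool.and_eq_true, Sol.blt_iff, Sol.blt_iff, Sol.blt_iff, Sol.beq_iff, Sol.blt_iff] at h1
  obtain ⟨h1, h2, h3, h4, h5⟩ := h1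
  exact ⟨h5, _, h1, _, h2, _, h3, rfl, h4⟩

/-- the checks give the block system -/
theorem blocks (hm : 2 ≤ D.m) (hl : D.linkOk = true) (hb : ∀ y < D.N, D.blkOk y = true) (hk : D.keyOk = true)
    (hc : D.conOk = true) (hr : ∀ i < D.k, ∀ y < D.N, D.rowOk i y = true) :
    Blocks D.n D.k D.T D.cc (D.m + 1) D.N D.Pt D.Lb D.dp D.pa where
  lt y hy s hs := ((blk_spec (hb y hy)).1 s hs).2
  inc y hy s t hst ht := by
    have h := (blk_spec (hb y hy)).2
    have key : ∀ j s, s + j + 1 < D.m + 1 → D.Pt y s < D.Pt y (s + j + 1) := by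
      intro j
      induction j with
      | zero => intro s hs; exact h s (by omega)
      | succ j ih => intro s hs; exact (ih s (by omega)).trans (h _ (by omega))
    have h1 := key (t - s - 1) s (by omega)
    rwa [show s + (t - s - 1) + 1 = t by omega] at h1
  ne y hy z hz h := by
    apply key_spec hk y hy z hz
    unfold key
    rw [frc_eq, frc_eq]
    have h0 : Nat.shiftRight (gt (D.R y) 18 262143 0) 3 = Nat.shiftRight (gt (D.R z) 18 262143 0) 3 := h 0 (by omega)
    have h1 : Nat.shiftRight (gt (D.R y) 18 262143 1) 3 = Nat.shiftRight (gt (D.R z) 18 262143 1) 3 := h 1 (by omega)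
    have h2 : Nat.shiftRight (gt (D.R y) 18 262143 2) 3 = Nat.shiftRight (gt (D.R z) 18 262143 2) 3 := h 2 (by omega)
    rw [h0, h1, h2]
  inv i hi y hy := row_spec hl hb hi hy (hr i hi y hy)
  con b hb0 h0 := by
    obtain ⟨h1, y, hy, s, hs, t, ht, h2, h3⟩ := con_spec hc b hb0 h0
    refine ⟨?_, h1, y, hy, s, hs, t, ht, h2, h3⟩
    rw [← h2]
    exact ((blk_spec (hb y hy)).1 s hs).2

end BD

end Cfsg.Agent.Lib.H58SM.Bk
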