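import Cfsg.Agent.Lib.H58SMBk
import Cfsg.Agent.Lib.H58SMx

/-!
Complements to the block engine: groups with Sylow 3-subgroups of order at most 9, path sums modulo 3 (helper58)
-/

set_option autoImplicit false

namespace Cfsg.Agent.Lib.H58SM

open Subgroup Cfsg Cfsg.Agent.Lib.SchurSylow

universe u w

theorem stem_nine {K : Type u} [Group K] [Finite K] (h9 : Nat.card K = 3 ^ 2) (hc : ¬ IsCyclic K) : StemDvd K 3 := by
  classical
  have : Fact (Nat.Prime 3) := ⟨Nat.prime_three⟩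
  have hcomm : ∀ a b : K, a * b = b * a := by
    have := IsPGroup.isMulCommutative_of_card_eq_prime_sq h9
    exact fun a b => mul_comm' a b
  have hnt : Nontrivial K := by
    rw [← Finite.one_lt_card_iff_nontrivial, h9]; norm_num
  have hord : ∀ x : K, x ≠ 1 → orderOf x = 3 := by
    intro x hx
    have h1 : orderOf x ∣ 3 ^ 2 := h9 ▸ orderOf_dvd_natCard x
    obtain ⟨j, hj, h2⟩ := (Nat.dvd_prime_pow Nat.prime_three).1 h1
    interval_cases j
    · exact absurd (orderOf_eq_one_iff.1 h2) hx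
    · exact h2
    · exfalso
      apply hc
      exact isCyclic_of_orderOf_eq_card x (by rw [h2, h9])
  obtain ⟨r, hr⟩ := exists_ne (1 : K)
  have hr3 := hord r hr
  have hzr : Nat.card (zpowers r) = 3 := by rw [Nat.card_zpowers, hr3]
  have hex : ∃ s : K, s ∉ zpowers r := by
    by_contra hh
    push Not at hh
    have h1 : zpowers r = ⊤ := by rw [eq_top_iff]; intro x _; exact hh x
    rw [h1, card_top, h9] at hzr
    norm_num at hzr
  obtain ⟨s, hs⟩ := hex
  have hgen : closure {r, s} = ⊤ := by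
    have hle : zpowers r ≤ closure {r, s} := by
      rw [zpowers_le]; exact subset_closure (Set.mem_insert _ _)
    have h1 : Nat.card (closure {r, s}) ∣ 3 ^ 2 := h9 ▸ card_subgroup_dvd_card _
    have h2 : 3 ∣ Nat.card (closure {r, s}) := hzr ▸ card_dvd_of_le hle
    obtain ⟨j, hj, h3⟩ := (Nat.dvd_prime_pow Nat.prime_three).1 h1
    have h4 : j = 2 := by
      interval_cases j
      · rw [h3] at h2; norm_num at h2
      · exfalso
        apply hs
        have h5 : zpowers r = closure {r, s} := eq_of_le_of_card_ge hle (by rw [h3, hzr, pow_one])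
        rw [h5]
        exact subset_closure (Set.mem_insert_of_mem _ rfl)
      · rfl
    rw [h4] at h3
    exact eq_top_of_card_eq _ (by rw [h3, h9])
  exact stemDvd_abelian_two r s hgen (hcomm s r) 3 (by
    have : r ^ 3 = 1 := by rw [← hr3]; exact pow_orderOf_eq_one r
    rw [this]; exact one_mem _)

/-- the 3-part of the multiplier of a group with Sylow 3-subgroups of order at most 9 divides 3 -/
theorem pStemDvd_nine {H : Type u} [Group H] [Finite H] (h : ¬ 27 ∣ Nat.card H) : PStemDvd 3 H 3 := by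
  classical
  have : Fact (Nat.Prime 3) := ⟨Nat.prime_three⟩
  let P : Sylow 3 H := default
  refine PStemDvd.of_index (H := (P : Subgroup H)) P.not_dvd_index ?_
  obtain ⟨k, hk⟩ := IsPGroup.iff_card.1 P.isPGroup'
  have hk2 : k ≤ 2 := by
    by_contra hh
    have h1 : 3 ^ 3 ∣ 3 ^ k := pow_dvd_pow 3 (by omega)
    exact h (h1.trans (hk ▸ (P : Subgroup H).card_subgroup_dvd_card))
  by_cases hc : IsCyclic P
  · exact ((stemDvd_of_isCyclic (Q := P)).pStemDvd 3).mono (by norm_num)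
  have hk3 : k = 2 := by
    interval_cases k
    · exfalso
      apply hc
      have h1 : Nat.card P = 1 := hk
      have : Subsingleton P := (Nat.card_eq_one_iff_unique.1 h1).1
      exact isCyclic_of_subsingleton
    · exfalso
      apply hc
      exact isCyclic_of_prime_card (p := 3) (by rw [hk, pow_one])
    · rfl
  subst hk3
  exact (stem_nine hk hc).pStemDvd 3

/-- main theorem in terms of packed data, stabilizers with nontrivial multiplier -/
theorem pStemDvd_of_RGen {p s q N M dr : ℕ} [hp : Fact p.Prime] {G : Type u} [Group G] [Finite G] {Ω : Type w}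
    [MulAction G Ω] (Q : DatR) {g : ℕ → G} {e : ℕ → Ω} (A : Act Q.n Q.k g e Q.T Q.pi Q.pq)
    (hgen : closure {z | ∃ i < Q.k, z = g i} = ⊤)
    (hH : PStemDvd p (MulAction.stabilizer G (e 0)) M)
    (hab : ¬ p ∣ (commutator (MulAction.stabilizer G (e 0))).index)
    (hrel : ∀ j < Q.J, ev g (Q.W j) = 1)
    (hT : Q.toDat.tab1 = true)
    (hW : Q.toDat.wOk = true) (hS : Q.sOk = true) (hP : Q.pOk = true) (hP2 : Q.pOk2 = true)
    (nr : ℕ → ℕ × ℕ) (hnr : Q.toDat.nrOk nr = true) (hzl : Q.toDat.zlOk nr = true)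
    (hDp : Q.p = p) (hDm : Q.m = p ^ s) (hpq : p * q ∣ Q.m)
    (hchk : ∀ x < Q.toDat.N, Q.chk x = true) (Lr Rr : ℕ → ℕ)
    (hrow : alln (fun i => Q.rowChk (Lr i) (Rr i)) dr = true)
    {gl : List (ℕ × ℕ × List (ℕ × ℕ))} {C : ℕ → List (ℕ × ℕ) × List (ℕ × ℕ)}
    (hg : Q.genR dr Rr gl = true) (hpar : Q.parR dr Rr gl C = true) (hq : ∀ r ∈ gl, r.2.1 ∣ q)
    (hN : (gl.map fun r => r.2.1).prod = N) : PStemDvd p G (N * M) := by
  have hT' : ∀ l < 2 * Q.k, ∀ a < Q.n, Q.T l a < Q.n := fun l hl a ha =>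
    Sol.blt_iff.1 (alln_iff.1 (alln_iff.1 hT l hl) a ha)
  have hr : ∀ i < dr, Lr i / Q.n < Q.J ∧ Lr i % Q.n < Q.n ∧
      ∀ t < Q.d, Q.toDat.ls t (Lr i / Q.n) (Lr i % Q.n) % Q.m = Q.fd (Rr i) t % Q.m := fun i hi =>
    DatR.row_spec hP hP2 hS hW hT' hchk (alln_iff.1 hrow i hi)
  let f : ℕ × ℕ × List (ℕ × ℕ) → ℕ × ℕ × List (ℕ × ℕ) := fun r => (r.1, r.2.1, DatR.tr Lr r.2.2)
  refine Cfsg.Agent.Lib.SMGen.pStemDvd_of_checks_gen (s := s) (q := q) (N := N) Q.toDat A hgen hH hab hW hrel nr hnr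
    hzl hDp hDm hpq
    (DatR.chk_of hP hS hW hT' hchk) (gl := gl.map f) (C := fun t => (DatR.tr Lr (C t).1, (C t).2)) ?_ ?_ ?_ ?_
  · unfold Dat.genOk
    unfold DatR.genR at hg
    rw [List.all_eq_true] at hg ⊢
    intro r hr'
    obtain ⟨r, hr1, rfl⟩ := List.mem_map.1 hr'
    have h1 := hg r hr1
    rw [Bool.and_eq_true] at h1 ⊢
    exact ⟨h1.1, DatR.rc_of hr h1.2⟩
  · unfold Dat.parOk
    have hpar := alln_iff.1 hpar
    rw [Sol.allt_iff]
    intro t ht
    have h1 := hpar t ht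
    rw [Bool.and_eq_true] at h1 ⊢
    refine ⟨DatR.rc_of hr h1.1, ?_⟩
    have h2 := h1.2
    rw [List.all_eq_true] at h2 ⊢
    intro q hq
    have h3 := h2 q hq
    rw [List.any_eq_true] at h3 ⊢
    obtain ⟨r, hr1, hr2⟩ := h3
    exact ⟨f r, List.mem_map_of_mem hr1, hr2⟩
  · intro r hr'
    obtain ⟨r, hr1, rfl⟩ := List.mem_map.1 hr'
    exact hq r hr1
  · rw [List.map_map]; exact hN

namespace Bk

namespace BD

/-- path sums of the labels as natural numbers -/
def peN (D : BD) : List ℕ → ℕ → ℕ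
  | [], _ => 0
  | l :: v, a => frc (D.T l a) fun b => Nat.add (cond (Nat.beq (Nat.mod l 2) 0) (Nat.land (D.TC (Nat.div l 2) a) 7)
      (Nat.mul 2 (Nat.land (D.TC (Nat.div l 2) b) 7))) (D.peN v b)

theorem pe_peN (D : BD) (v : List ℕ) (a : ℕ) : pe D.T D.cc v a = ((D.peN v a : ℕ) : ZMod 3) := by
  have hneg : ∀ x : ZMod 3, -x = 2 * x := by decide
  induction v generalizing a with
  | nil => rw [pe, peN, Nat.cast_zero]
  | cons l v ih =>
    rw [pe, peN, frc_eq, ih]
    show _ = (((cond (Nat.beq (l % 2) 0) (Nat.land (D.TC (l / 2) a) 7)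
      (2 * Nat.land (D.TC (l / 2) (D.T l a)) 7)) + D.peN v (D.T l a) : ℕ) : ZMod 3)
    rw [Nat.cast_add]
    congr 1
    by_cases h : l % 2 = 0
    · rw [if_pos h, Sol.beq_iff.2 h, cond_true]; rfl
    · have h2 : Nat.beq (l % 2) 0 = false := by
        cases h3 : Nat.beq (l % 2) 0 with
        | false => rfl
        | true => exact absurd (Sol.beq_iff.1 h3) h
      rw [if_neg h, h2, cond_false, hneg, Nat.cast_mul]
      rfl

end BD

/-- a nonzero element generates -/
theorem closure_top {V : List (List ℕ)} {f : List ℕ → ZMod 3} {v : List ℕ} (hv : v ∈ V) (h : f v ≠ 0) :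
    AddSubgroup.closure {b | ∃ v ∈ V, b = f v} = ⊤ := by
  have key : ∀ y : ZMod 3, y ≠ 0 → ∀ x : ZMod 3, (y * x).val • y = x := by decide
  rw [eq_top_iff]
  intro x _
  have h1 : f v ∈ AddSubgroup.closure {b | ∃ v ∈ V, b = f v} := AddSubgroup.subset_closure ⟨v, hv, rfl⟩
  have h2 := nsmul_mem h1 (f v * x).val
  rwa [key _ h x] at h2

end Bk

end Cfsg.Agent.Lib.H58SM
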