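import Cfsg.Agent.Lib.H58SMC2a_f
import Cfsg.Agent.Lib.H58SMC2b_f
import Cfsg.Agent.Lib.H58SMC2c_f
import Cfsg.Agent.Lib.H58SMC2d_f
import Cfsg.Agent.Lib.H58SMC2r
import Cfsg.Agent.Lib.H58SMC2s
import Cfsg.Agent.Lib.H58SMC2h
import Cfsg.Agent.Lib.H58SMML
import Cfsg.Agent.Lib.LeechSyl3

/-!
The stem extensions of the Conway group Co2 (helper58)
-/

set_option autoImplicit false

namespace Cfsg.Agent.Lib.H58SM.C2

open Subgroup Cfsg Cfsg.Agent.Lib.Golay Cfsg.Agent.Lib.LeechMin Cfsg.Agent.Lib.SchurSylow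
open Cfsg.Agent.Lib.LeechChain Cfsg.Agent.Lib.LeechCount Cfsg.Agent.Lib.LeechCo2 Cfsg.Agent.Lib.LeechSyl
open Cfsg.Agent.Lib.H58SM Cfsg.Agent.Lib.H58SM.LV Cfsg.Agent.Lib.LeechTrans

/-- the group -/
abbrev G : Subgroup Co0 := C2g.GG

instance simple : IsSimpleGroup G := by
  show IsSimpleGroup (fixL [X hab])
  rw [fixL_singleton]; exact (isCo2 (X hab) (sqNorm_X hab)).1

theorem cardG : Nat.card G = 42305421312000 := card_Co2 (sqNorm_X hab)

theorem baseA : pnt C2c.cd 0 = X hab - U none := by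
  apply Subtype.ext
  rw [C2c.pall 0 (by norm_num)]
  show _ = (X hab : GolayPt → ℤ) - (U none : GolayPt → ℤ)
  funext i
  rw [Pi.sub_apply, U_apply, coe_X]
  revert i
  decide +kernel

theorem actB : Act 46575 2 C2g.gg (fun a => pm (pnt C2d.cd a)) C2b.Q.T C2b.Q.pi C2b.Q.pq := C2d.act_all.1

theorem fix_eq : fixL [X hab - U none, X hab] = fixL [X hab, U none] := by
  ext g
  rw [mem_fix2, mem_fix2]
  have hs : g • (X hab - U none) = g • X hab - g • U none := by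
    rw [sub_eq_add_neg, smul_add', smul_neg', ← sub_eq_add_neg]
  constructor
  · rintro ⟨h1, h2⟩
    refine ⟨h2, ?_⟩
    rw [hs, h2] at h1
    exact sub_right_injective h1
  · rintro ⟨h1, h2⟩
    exact ⟨by rw [hs, h1, h2], h1⟩

theorem stabA : Nonempty (MulAction.stabilizer G (pnt C2c.cd 0) ≃* ML.G) := by
  rw [baseA]
  exact ⟨(stabFix [X hab] (X hab - U none)).trans (MulEquiv.subgroupCongr fix_eq)⟩

theorem ne_of_single {G : Type*} [Group G] (h : ℕ → G) (i l : ℕ) (hl : l = 2 * i) (hne : ev h [l] ≠ 1) : h i ≠ 1 := by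
  subst hl
  intro h1
  apply hne
  rw [ev_cons, ev_nil, one_mul]
  unfold lt
  rw [if_pos (by omega), show 2 * i / 2 = i by omega, h1]

theorem pair_stem {G Ω : Type*} [Group G] [Finite G] [MulAction G Ω] (p : Ω) (h : ℕ → G)
    (hfix : ∀ i < 4, h i • p = p) (r0 : ev h [0, 0, 0] = 1) (r1 : ev h [2, 2, 2] = 1) (r2 : ev h [3, 1, 2, 0] = 1)
    (r3 : ev h [1, 5, 0, 4] = 1) (r4 : ev h [2, 5, 2, 4] = 1) (r5 : ev h [0, 7, 0, 6] = 1)
    (n0 : h 0 ≠ 1) (n1 : h 1 ≠ 1) (hc : ¬ 27 ∣ Nat.card (MulAction.stabilizer G p)) :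
    PStemDvd 3 (MulAction.stabilizer G p) 1 ∧ ¬ 3 ∣ (commutator (MulAction.stabilizer G p)).index := by
  have ex : h 0 ^ 3 = 1 := by
    rw [← r0]; exact (ev_replicate h 0 3).symm
  have ey : h 1 ^ 3 = 1 := by
    rw [← r1]; exact (ev_replicate h 1 3).symm
  have exy : h 0 * h 1 * (h 0)⁻¹ * (h 1)⁻¹ = 1 := by
    rw [← r2]
    show _ = ((((1 * h 0) * h 1) * (h 0)⁻¹) * (h 1)⁻¹)
    rw [one_mul]
  have etx : h 2 * h 0 * (h 2)⁻¹ * (h 0)⁻¹ = 1 := by
    rw [← r3]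
    show _ = ((((1 * h 2) * h 0) * (h 2)⁻¹) * (h 0)⁻¹)
    rw [one_mul]
  have ety : h 2 * h 1 * (h 2)⁻¹ * h 1 = 1 := by
    rw [← r4]
    show _ = ((((1 * h 2) * h 1) * (h 2)⁻¹) * h 1)
    rw [one_mul]
  have esx : h 3 * h 0 * (h 3)⁻¹ * h 0 = 1 := by
    rw [← r5]
    show _ = ((((1 * h 3) * h 0) * (h 3)⁻¹) * h 0)
    rw [one_mul]
  let X' : MulAction.stabilizer G p := ⟨h 0, hfix 0 (by norm_num)⟩
  let Y' : MulAction.stabilizer G p := ⟨h 1, hfix 1 (by norm_num)⟩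
  let T' : MulAction.stabilizer G p := ⟨h 2, hfix 2 (by norm_num)⟩
  let S' : MulAction.stabilizer G p := ⟨h 3, hfix 3 (by norm_num)⟩
  have k1 : X' ^ 3 = 1 := Subtype.ext ex
  have k2 : Y' ^ 3 = 1 := Subtype.ext ey
  have k3 : X' ≠ 1 := fun h' => n0 (congrArg Subtype.val h')
  have k4 : Y' ≠ 1 := fun h' => n1 (congrArg Subtype.val h')
  have e5 : h 0 * h 1 = h 1 * h 0 := by
    calc h 0 * h 1 = (h 0 * h 1 * (h 0)⁻¹ * (h 1)⁻¹) * (h 1 * h 0) := by group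
      _ = h 1 * h 0 := by rw [exy, one_mul]
  have k5 : X' * Y' = Y' * X' := Subtype.ext e5
  have k6 : T' * X' * T'⁻¹ = X' := Subtype.ext (mul_inv_eq_one.1 etx)
  have k7 : T' * Y' * T'⁻¹ = Y'⁻¹ := Subtype.ext (eq_inv_of_mul_eq_one_left ety)
  have k8 : S' * X' * S'⁻¹ = X'⁻¹ := Subtype.ext (eq_inv_of_mul_eq_one_left esx)
  exact ⟨nine_stem X' Y' T' k1 k2 k3 k4 k5 k6 k7 hc, nine_index X' Y' T' S' k1 k2 k3 k4 k5 k6 k7 k8 hc⟩

theorem inc_inj {f : ℕ → ℕ} {m : ℕ} (h : alln (fun a => Nat.blt (f a) (f (Nat.succ a))) m = true) :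
    ∀ a < m + 1, ∀ b < m + 1, f a = f b → a = b := by
  have key : ∀ b, b < m + 1 → ∀ a < b, f a < f b := by
    intro b
    induction b with
    | zero => intro _ a ha; omega
    | succ b ih =>
      intro hb a ha
      have h1 : f b < f (b + 1) := Sol.blt_iff.1 (alln_iff.1 h b (by omega))
      rcases Nat.lt_succ_iff_lt_or_eq.1 ha with h2 | h2
      · exact (ih (by omega) a h2).trans h1
      · rw [h2]; exact h1
  intro a ha b hb hab
  rcases Nat.lt_trichotomy a b with h1 | h1 | h1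
  · exact absurd hab (key b hb a h1).ne
  · exact h1
  · exact absurd hab.symm (key a ha b h1).ne

theorem gen : closure {z | ∃ i < 2, z = C2g.gg i} = ⊤ := by
  refine gen_of_stab C2c.act (c := 898128000) (r := 2) (fun i => ev C2g.gg (C2s.wN i))
    (fun i hi => ev_mem_closure (fq_word C2s.fq_ok i hi)) (fq_fix C2c.act C2s.fq_ok) (le_of_eq ?_) ?_
  · rw [cardG]
  · refine (le_of_eq C2s.prod_eq.symm).trans ?_
    refine Sims.card_of_chain (k' := 10) (n := 275) (e := fun a => pnt C2c.cd (C2s.io a)) (by norm_num) ?_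
      C2s.tab_ok C2s.wrd_ok (ns_fwd C2c.act C2s.ns_ok) C2s.chain_ok
    intro a ha b hb h
    exact inc_inj C2s.inc_ok a ha b hb (C2c.act.inj (ns_lt C2s.ns_ok a ha) (ns_lt C2s.ns_ok b hb) h)

theorem two : PStemDvd 2 G 1 := by
  obtain ⟨e⟩ := stabA
  have hs : IsSimpleGroup (MulAction.stabilizer G (pnt C2c.cd 0)) := isSimpleGroup_of_mulEquiv e.symm ML.simple
  have hc : Nat.card (MulAction.stabilizer G (pnt C2c.cd 0)) = 898128000 := by rw [Nat.card_congr e.toEquiv, ML.cardG]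
  exact pStemDvd_of_RW (s := 1) (q := 1) (N := 1) C2a.Q C2c.act gen (ML.two.congr e.symm)
    (not_dvd_index_of_perfect (perfect_of_simple hs (by rw [hc]; norm_num))) C2r.rel_C2a C2a.tab1_ok C2a.w_ok
    C2a.s_ok C2a.p_ok C2a.p2_ok C2a.nr 0 C2a.nr_ok C2a.zl_ok rfl rfl (by decide) C2a.chkQ C2a.Lr C2a.Rr C2a.row_ok
    C2a.gen_ok C2a.par_ok (by decide) rfl

theorem f3 : Fact (Nat.Prime 3) := ⟨Nat.prime_three⟩
theorem f5 : Fact (Nat.Prime 5) := ⟨Nat.prime_five⟩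

attribute [local instance] f3 f5

/-- elements of the stabiliser of a pair -/
noncomputable def hn (i : ℕ) : G := ev C2g.gg (C2h.wN i)

theorem hn_rel : ∀ j < 6, ev hn (C2h.R j) = 1 := rel_nodes C2c.act C2r.S C2r.S_lt C2r.faithS C2h.rl_ok

theorem hn_fix : ∀ i < 4, hn i • pm (pnt C2d.cd 0) = pm (pnt C2d.cd 0) := fq_fix actB C2h.fq_ok

theorem card_stabB : Nat.card (MulAction.stabilizer G (pm (pnt C2d.cd 0))) = 908328960 := by
  have h := actB.card_stabilizer gen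
  rw [cardG] at h
  exact Nat.eq_of_mul_eq_mul_left (by norm_num : 0 < 46575) (h.trans (by norm_num))

theorem hn0 : hn 0 ≠ 1 :=
  ne_of_single hn 0 0 rfl (ne_nodes (wN := C2h.wN) C2c.act [0] C2h.nw_0 0 (by norm_num) (Nat.ne_of_beq_eq_false C2h.ne_0))

set_option maxRecDepth 100000 in
theorem hn1 : hn 1 ≠ 1 :=
  ne_of_single hn 1 2 rfl (ne_nodes (wN := C2h.wN) C2c.act [2] C2h.nw_1 0 (by norm_num) (Nat.ne_of_beq_eq_false C2h.ne_1))

theorem stabB : PStemDvd 3 (MulAction.stabilizer G (pm (pnt C2d.cd 0))) 1 ∧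
    ¬ 3 ∣ (commutator (MulAction.stabilizer G (pm (pnt C2d.cd 0)))).index :=
  pair_stem (pm (pnt C2d.cd 0)) hn hn_fix (hn_rel 0 (by norm_num)) (hn_rel 1 (by norm_num)) (hn_rel 2 (by norm_num))
    (hn_rel 3 (by norm_num)) (hn_rel 4 (by norm_num)) (hn_rel 5 (by norm_num)) hn0 hn1
    (by rw [card_stabB]; norm_num)

theorem three : PStemDvd 3 G 1 :=
  pStemDvd_of_RW (s := 1) (q := 1) (N := 1) C2b.Q actB gen stabB.1 stabB.2 C2r.rel_C2b C2b.tab1_ok C2b.w_ok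
    C2b.s_ok C2b.p_ok C2b.p2_ok C2b.nr 1 C2b.nr_ok C2b.zl_ok rfl rfl (by decide) C2b.chkQ C2b.Lr C2b.Rr C2b.row_ok
    C2b.gen_ok C2b.par_ok (by decide) rfl

theorem five : PStemDvd 5 G 1 := by
  obtain ⟨e⟩ := stabA
  have hc : Nat.card (MulAction.stabilizer G (pnt C2c.cd 0)) = 898128000 := by rw [Nat.card_congr e.toEquiv, ML.cardG]
  have hi : (MulAction.stabilizer G (pnt C2c.cd 0)).index = 47104 := by
    have h := (MulAction.stabilizer G (pnt C2c.cd 0)).card_mul_index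
    rw [hc, cardG] at h
    exact Nat.eq_of_mul_eq_mul_left (by norm_num : 0 < 898128000) (h.trans (by norm_num))
  exact PStemDvd.of_index (H := MulAction.stabilizer G (pnt C2c.cd 0)) (by rw [hi]; norm_num) (ML.five.congr e.symm)

theorem stem_one : StemDvd G 1 := by
  apply StemDvd.of_forall
  intro p hp
  by_cases h2 : p = 2
  · subst h2; exact two
  by_cases h3 : p = 3
  · subst h3; exact three
  by_cases h5 : p = 5
  · subst h5; exact five
  exact pStem_big 1 18 6 3 1771 (by rw [cardG]; norm_num) (by decide +kernel) hp h2 h3 h5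

theorem eU : Spor.leechU = X hab := by
  apply Subtype.ext
  show Spor.vecU = (X hab : GolayPt → ℤ)
  rw [coe_X]
  decide +kernel

theorem mem_iff (g : Co0) : g ∈ G ↔ g • Spor.leechU = Spor.leechU := by
  rw [mem_fix1, eU]

/-- the group of the statement -/
noncomputable def equivCo2 : G ≃* Spor.Co2 where
  toFun g := ⟨(g : Co0).1, (g : Co0).2, (mem_iff _).1 g.2⟩
  invFun g := ⟨⟨g.1, g.2.1⟩, (mem_iff _).2 g.2.2⟩
  left_inv _ := rfl
  right_inv _ := rfl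
  map_mul' _ _ := rfl

end Cfsg.Agent.Lib.H58SM.C2
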