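import Cfsg.Agent.Lib.H58SMC1a_f
import Cfsg.Agent.Lib.H58SMC1b_f
import Cfsg.Agent.Lib.H58SMC1c_f
import Cfsg.Agent.Lib.H58SMC1d_f
import Cfsg.Agent.Lib.H58SMC1e_f
import Cfsg.Agent.Lib.H58SMC1r
import Cfsg.Agent.Lib.H58SMC1s
import Cfsg.Agent.Lib.H58SMC2

/-!
The stem extensions of the Conway group Co1 (helper58)
-/

set_option autoImplicit false

namespace Cfsg.Agent.Lib.H58SM.C1

open Subgroup Cfsg Cfsg.Agent.Lib.Golay Cfsg.Agent.Lib.LeechMin Cfsg.Agent.Lib.SchurSylow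
open Cfsg.Agent.Lib.LeechChain Cfsg.Agent.Lib.LeechCount Cfsg.Agent.Lib.LeechCo2 Cfsg.Agent.Lib.LeechSyl
open Cfsg.Agent.Lib.H58SM Cfsg.Agent.Lib.H58SM.LV Cfsg.Agent.Lib.LeechTrans

/-- the group -/
abbrev G : Type := Spor.Co1

instance simple : IsSimpleGroup G := isCo1.1

theorem cardG : Nat.card G = 4157776806543360000 := isCo1.2

theorem act : Act 98280 2 C1g.gg (fun a => pm (pnt C1e.cd a)) C1t.T C1t.PIB C1t.PQB := C1e.act_all.1

theorem base0 : pnt C1e.cd 0 = X hab := by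
  apply Subtype.ext
  rw [C1e.act_all.2 0 (by norm_num)]
  funext i
  rw [coe_X]
  revert i
  decide +kernel

theorem X_ne : X hab ≠ -X hab := by
  intro h
  have h1 := congrArg Subtype.val h
  have h2 := sqNorm_X hab
  have h3 : (X hab : GolayPt → ℤ) = 0 := by
    funext i
    have h4 := congrFun h1 i
    have h5 : (X hab : GolayPt → ℤ) i = -((X hab : GolayPt → ℤ) i) := h4
    show (X hab : GolayPt → ℤ) i = 0
    omega
  rw [h3] at h2
  unfold sqNorm at h2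
  simp at h2

theorem stab : Nonempty (C2.G ≃* MulAction.stabilizer G (pm (pnt C1e.cd 0))) := by
  rw [base0]
  exact stab_pair X_ne

theorem gen : closure {z | ∃ i < 2, z = C1g.gg i} = ⊤ := by
  refine gen_of_stab act (c := 42305421312000) (r := 2) (fun i => ev C1g.gg (C1s.wN i))
    (fun i hi => ev_mem_closure (fq_word C1s.fq_ok i hi)) (fq_fix act C1s.fq_ok) (le_of_eq ?_) ?_
  · rw [cardG]
  · refine (le_of_eq C1s.prod_eq.symm).trans ?_
    refine Sims.card_of_chain (k' := 11) (n := 4600) (e := fun a => pm (pnt C1e.cd (C1s.io a))) (by norm_num) ?_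
      C1s.tab_ok C1s.wrd_ok (ns_fwd act C1s.ns_ok) C1s.chain_ok
    intro a ha b hb h
    exact C2.inc_inj C1s.inc_ok a ha b hb (act.inj (ns_lt C1s.ns_ok a ha) (ns_lt C1s.ns_ok b hb) h)

theorem hperf {p : ℕ} [Fact p.Prime] :
    ¬ p ∣ (commutator (MulAction.stabilizer G (pm (pnt C1e.cd 0)))).index := by
  obtain ⟨e⟩ := stab
  have hs : IsSimpleGroup (MulAction.stabilizer G (pm (pnt C1e.cd 0))) := isSimpleGroup_of_mulEquiv e C2.simple
  have hc : Nat.card (MulAction.stabilizer G (pm (pnt C1e.cd 0))) = 42305421312000 := by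
    rw [← Nat.card_congr e.toEquiv, C2.cardG]
  exact not_dvd_index_of_perfect (perfect_of_simple hs (by rw [hc]; norm_num))

theorem hstab {p : ℕ} [Fact p.Prime] (h : PStemDvd p C2.G 1) :
    PStemDvd p (MulAction.stabilizer G (pm (pnt C1e.cd 0))) 1 := by
  obtain ⟨e⟩ := stab
  exact h.congr e

theorem f3 : Fact (Nat.Prime 3) := ⟨Nat.prime_three⟩
theorem f5 : Fact (Nat.Prime 5) := ⟨Nat.prime_five⟩
theorem f7 : Fact (Nat.Prime 7) := ⟨by norm_num⟩

attribute [local instance] f3 f5 f7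

set_option maxRecDepth 1000000 in
theorem nrA : C1a.Q.toDat.nrW C1a.nr 1 = true := by decide +kernel

set_option maxRecDepth 1000000 in
theorem nrC : C1c.Q.toDat.nrW C1c.nr 1 = true := by decide +kernel

set_option maxRecDepth 1000000 in
theorem nrD : C1d.Q.toDat.nrW C1d.nr 1 = true := by decide +kernel

theorem two : PStemDvd 2 G 2 :=
  pStemDvd_of_RW (s := 2) (q := 2) (N := 2) C1a.Q act gen (hstab C2.two) hperf C1r.rel_C1a C1a.tab1_ok C1a.w_ok
    C1a.s_ok C1a.p_ok C1a.p2_ok C1a.nr 1 nrA C1a.zl_ok rfl rfl (by decide) C1a.chkQ C1a.Lr C1a.Rr C1a.row_ok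
    C1a.gen_ok C1a.par_ok (by decide) rfl

theorem three : PStemDvd 3 G 1 :=
  pStemDvd_of_RW (s := 1) (q := 1) (N := 1) C1b.Q act gen (hstab C2.three) hperf C1r.rel_C1b C1b.tab1_ok C1b.w_ok
    C1b.s_ok C1b.p_ok C1b.p2_ok C1b.nr 1 C1b.nr_ok C1b.zl_ok rfl rfl (by decide) C1b.chkQ C1b.Lr C1b.Rr C1b.row_ok
    C1b.gen_ok C1b.par_ok (by decide) rfl

theorem five : PStemDvd 5 G 1 :=
  pStemDvd_of_RW (s := 1) (q := 1) (N := 1) C1c.Q act gen (hstab C2.five) hperf C1r.rel_C1c C1c.tab1_ok C1c.w_ok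
    C1c.s_ok C1c.p_ok C1c.p2_ok C1c.nr 1 nrC C1c.zl_ok rfl rfl (by decide) C1c.chkQ C1c.Lr C1c.Rr C1c.row_ok
    C1c.gen_ok C1c.par_ok (by decide) rfl

theorem seven : PStemDvd 7 G 1 :=
  pStemDvd_of_RW (s := 1) (q := 1) (N := 1) C1d.Q act gen
    (hstab (pStem_big 1 18 6 3 1771 (by rw [C2.cardG]; norm_num) (by decide +kernel) (by norm_num) (by decide)
      (by decide) (by decide))) hperf C1r.rel_C1d C1d.tab1_ok C1d.w_ok
    C1d.s_ok C1d.p_ok C1d.p2_ok C1d.nr 1 nrD C1d.zl_ok rfl rfl (by decide) C1d.chkQ C1d.Lr C1d.Rr C1d.row_ok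
    C1d.gen_ok C1d.par_ok (by decide) rfl

theorem pStem_big7 {G : Type*} [Group G] [Finite G] (N a b c d m : ℕ)
    (hcard : Nat.card G = 2 ^ a * 3 ^ b * 5 ^ c * 7 ^ d * m)
    (hm : Squarefree m) {p : ℕ} (hp : p.Prime) (h2 : p ≠ 2) (h3 : p ≠ 3) (h5 : p ≠ 5) (h7 : p ≠ 7) : PStemDvd p G N := by
  have : Fact p.Prime := ⟨hp⟩
  refine PStemDvd.mono ?_ (one_dvd N)
  apply Cfsg.Agent.Lib.H92Stem.pStemDvd_of_sq
  intro hd
  rw [hcard] at hd
  have c2 : Nat.Coprime (p ^ 2) (2 ^ a) := Nat.Coprime.pow _ _ ((Nat.coprime_primes hp Nat.prime_two).2 h2)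
  have c3 : Nat.Coprime (p ^ 2) (3 ^ b) := Nat.Coprime.pow _ _ ((Nat.coprime_primes hp Nat.prime_three).2 h3)
  have c5 : Nat.Coprime (p ^ 2) (5 ^ c) := Nat.Coprime.pow _ _ ((Nat.coprime_primes hp Nat.prime_five).2 h5)
  have c7 : Nat.Coprime (p ^ 2) (7 ^ d) := Nat.Coprime.pow _ _ ((Nat.coprime_primes hp (by norm_num)).2 h7)
  have h1 : p ^ 2 ∣ m := (((c2.mul_right c3).mul_right c5).mul_right c7).dvd_of_dvd_mul_left hd
  rw [pow_two] at h1
  exact hp.one_lt.ne' (Nat.isUnit_iff.1 (hm p h1))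

theorem stem_two : StemDvd G 2 := by
  apply StemDvd.of_forall
  intro p hp
  by_cases h2 : p = 2
  · subst h2; exact two
  by_cases h3 : p = 3
  · subst h3; exact three.mono (one_dvd _)
  by_cases h5 : p = 5
  · subst h5; exact five.mono (one_dvd _)
  by_cases h7 : p = 7
  · subst h7; exact seven.mono (one_dvd _)
  exact pStem_big7 2 21 9 4 2 3289 (by rw [cardG]; norm_num) (by decide +kernel) hp h2 h3 h5 h7

end Cfsg.Agent.Lib.H58SM.C1
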