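import Cfsg.Agent.Lib.H58SMC1b

/-!
Multiplier of the Conway group Co1, prime 3 (helper58)
-/

set_option autoImplicit false

namespace Cfsg.Agent.Lib.H58SM.C1b

open Cfsg.Agent.Lib.H58SM

set_option maxRecDepth 1000000

theorem chk_0 : alln (fun x => Q.chk (Nat.add 0 x)) 4000 = true := by decide +kernel

theorem chk_1 : alln (fun x => Q.chk (Nat.add 4000 x)) 4000 = true := by decide +kernel

theorem chk_2 : alln (fun x => Q.chk (Nat.add 8000 x)) 4000 = true := by decide +kernel

theorem chk_3 : alln (fun x => Q.chk (Nat.add 12000 x)) 4000 = true := by decide +kernel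

theorem chk_4 : alln (fun x => Q.chk (Nat.add 16000 x)) 4000 = true := by decide +kernel

theorem chk_5 : alln (fun x => Q.chk (Nat.add 20000 x)) 4000 = true := by decide +kernel

theorem chk_6 : alln (fun x => Q.chk (Nat.add 24000 x)) 4000 = true := by decide +kernel

theorem chk_7 : alln (fun x => Q.chk (Nat.add 28000 x)) 4000 = true := by decide +kernel

theorem chk_8 : alln (fun x => Q.chk (Nat.add 32000 x)) 4000 = true := by decide +kernel

theorem chk_9 : alln (fun x => Q.chk (Nat.add 36000 x)) 4000 = true := by decide +kernel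


end Cfsg.Agent.Lib.H58SM.C1b
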