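import Cfsg.Agent.Lib.H58SMC1b

/-!
Multiplier of the Conway group Co1, prime 3 (helper58)
-/

set_option autoImplicit false

namespace Cfsg.Agent.Lib.H58SM.C1b

open Cfsg.Agent.Lib.H58SM

set_option maxRecDepth 1000000

theorem chk_40 : alln (fun x => Q.chk (Nat.add 160000 x)) 4000 = true := by decide +kernel

theorem chk_41 : alln (fun x => Q.chk (Nat.add 164000 x)) 4000 = true := by decide +kernel

theorem chk_42 : alln (fun x => Q.chk (Nat.add 168000 x)) 4000 = true := by decide +kernel

theorem chk_43 : alln (fun x => Q.chk (Nat.add 172000 x)) 4000 = true := by decide +kernel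

theorem chk_44 : alln (fun x => Q.chk (Nat.add 176000 x)) 4000 = true := by decide +kernel

theorem chk_45 : alln (fun x => Q.chk (Nat.add 180000 x)) 4000 = true := by decide +kernel

theorem chk_46 : alln (fun x => Q.chk (Nat.add 184000 x)) 4000 = true := by decide +kernel

theorem chk_47 : alln (fun x => Q.chk (Nat.add 188000 x)) 4000 = true := by decide +kernel

theorem chk_48 : alln (fun x => Q.chk (Nat.add 192000 x)) 4000 = true := by decide +kernel

theorem chk_49 : alln (fun x => Q.chk (Nat.add 196000 x)) 616 = true := by decide +kernel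


end Cfsg.Agent.Lib.H58SM.C1b
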