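import Cfsg.Agent.Lib.H58SMC1d

/-!
Multiplier of the Conway group Co1, prime 7 (helper58)
-/

set_option autoImplicit false

namespace Cfsg.Agent.Lib.H58SM.C1d

open Cfsg.Agent.Lib.H58SM

set_option maxRecDepth 1000000

theorem chk_30 : alln (fun x => Q.chk (Nat.add 120000 x)) 4000 = true := by decide +kernel

theorem chk_31 : alln (fun x => Q.chk (Nat.add 124000 x)) 4000 = true := by decide +kernel

theorem chk_32 : alln (fun x => Q.chk (Nat.add 128000 x)) 4000 = true := by decide +kernel

theorem chk_33 : alln (fun x => Q.chk (Nat.add 132000 x)) 4000 = true := by decide +kernel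

theorem chk_34 : alln (fun x => Q.chk (Nat.add 136000 x)) 4000 = true := by decide +kernel

theorem chk_35 : alln (fun x => Q.chk (Nat.add 140000 x)) 4000 = true := by decide +kernel

theorem chk_36 : alln (fun x => Q.chk (Nat.add 144000 x)) 4000 = true := by decide +kernel

theorem chk_37 : alln (fun x => Q.chk (Nat.add 148000 x)) 4000 = true := by decide +kernel

theorem chk_38 : alln (fun x => Q.chk (Nat.add 152000 x)) 4000 = true := by decide +kernel

theorem chk_39 : alln (fun x => Q.chk (Nat.add 156000 x)) 4000 = true := by decide +kernel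


end Cfsg.Agent.Lib.H58SM.C1d
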