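import Cfsg.Agent.Lib.H58SMC1e

/-!
Action of the Conway group Co1 on 98280 pairs of vectors (helper58)
-/

set_option autoImplicit false

namespace Cfsg.Agent.Lib.H58SM.C1e

open Cfsg.Agent.Lib.H58SM

open Cfsg Cfsg.Agent.Lib.Golay Cfsg.Agent.Lib.LeechMin Cfsg.Agent.Lib.H89LeechMat Cfsg.Agent.Lib.H58SM.LV
open Cfsg.Agent.Lib.LeechChain Cfsg.Agent.Lib.LeechCount Cfsg.Agent.Lib.LeechCo2

set_option maxRecDepth 1000000

theorem mv0_30 : mvTabP C1g.P0 C1g.K0 cd (fun a => C1t.T 0 a) 75000 2500 = true := by decide +kernel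

theorem mv0_31 : mvTabP C1g.P0 C1g.K0 cd (fun a => C1t.T 0 a) 77500 2500 = true := by decide +kernel

theorem mv0_32 : mvTabP C1g.P0 C1g.K0 cd (fun a => C1t.T 0 a) 80000 2500 = true := by decide +kernel

theorem mv0_33 : mvTabP C1g.P0 C1g.K0 cd (fun a => C1t.T 0 a) 82500 2500 = true := by decide +kernel

theorem mv0_34 : mvTabP C1g.P0 C1g.K0 cd (fun a => C1t.T 0 a) 85000 2500 = true := by decide +kernel

theorem mv0_35 : mvTabP C1g.P0 C1g.K0 cd (fun a => C1t.T 0 a) 87500 2500 = true := by decide +kernel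

theorem mv0_36 : mvTabP C1g.P0 C1g.K0 cd (fun a => C1t.T 0 a) 90000 2500 = true := by decide +kernel

theorem mv0_37 : mvTabP C1g.P0 C1g.K0 cd (fun a => C1t.T 0 a) 92500 2500 = true := by decide +kernel

theorem mv0_38 : mvTabP C1g.P0 C1g.K0 cd (fun a => C1t.T 0 a) 95000 2500 = true := by decide +kernel

theorem mv0_39 : mvTabP C1g.P0 C1g.K0 cd (fun a => C1t.T 0 a) 97500 780 = true := by decide +kernel

end Cfsg.Agent.Lib.H58SM.C1e
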