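import Cfsg.Agent.Lib.H58SMC2a

/-!
Multiplier of the Conway group Co2, prime 2 (helper58)
-/

set_option autoImplicit false

namespace Cfsg.Agent.Lib.H58SM.C2a

open Cfsg.Agent.Lib.H58SM

set_option maxRecDepth 1000000

theorem chk_12 : alln (fun x => Q.chk (Nat.add 48000 x)) 4000 = true := by decide +kernel

theorem chk_13 : alln (fun x => Q.chk (Nat.add 52000 x)) 4000 = true := by decide +kernel

theorem chk_14 : alln (fun x => Q.chk (Nat.add 56000 x)) 4000 = true := by decide +kernel

theorem chk_15 : alln (fun x => Q.chk (Nat.add 60000 x)) 4000 = true := by decide +kernel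

theorem chk_16 : alln (fun x => Q.chk (Nat.add 64000 x)) 4000 = true := by decide +kernel

theorem chk_17 : alln (fun x => Q.chk (Nat.add 68000 x)) 4000 = true := by decide +kernel


end Cfsg.Agent.Lib.H58SM.C2a
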