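import Cfsg.Agent.Lib.H58SMC2c

/-!
Action of the Conway group Co2 on 47104 vectors (helper58)
-/

set_option autoImplicit false

namespace Cfsg.Agent.Lib.H58SM.C2c

open Cfsg.Agent.Lib.H58SM

open Cfsg Cfsg.Agent.Lib.Golay Cfsg.Agent.Lib.LeechMin Cfsg.Agent.Lib.H89LeechMat Cfsg.Agent.Lib.H58SM.LV
open Cfsg.Agent.Lib.LeechChain Cfsg.Agent.Lib.LeechCount Cfsg.Agent.Lib.LeechCo2

set_option maxRecDepth 1000000

theorem mv0_0 : mvTab C2g.P0 C2g.K0 cd (fun a => C2a.T 0 a) 0 2500 = true := by decide +kernel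

theorem mv0_1 : mvTab C2g.P0 C2g.K0 cd (fun a => C2a.T 0 a) 2500 2500 = true := by decide +kernel

theorem mv0_2 : mvTab C2g.P0 C2g.K0 cd (fun a => C2a.T 0 a) 5000 2500 = true := by decide +kernel

theorem mv0_3 : mvTab C2g.P0 C2g.K0 cd (fun a => C2a.T 0 a) 7500 2500 = true := by decide +kernel

theorem mv0_4 : mvTab C2g.P0 C2g.K0 cd (fun a => C2a.T 0 a) 10000 2500 = true := by decide +kernel

theorem mv0_5 : mvTab C2g.P0 C2g.K0 cd (fun a => C2a.T 0 a) 12500 2500 = true := by decide +kernel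

theorem mv0_6 : mvTab C2g.P0 C2g.K0 cd (fun a => C2a.T 0 a) 15000 2500 = true := by decide +kernel

theorem mv0_7 : mvTab C2g.P0 C2g.K0 cd (fun a => C2a.T 0 a) 17500 2500 = true := by decide +kernel

theorem mv0_8 : mvTab C2g.P0 C2g.K0 cd (fun a => C2a.T 0 a) 20000 2500 = true := by decide +kernel

theorem mv0_9 : mvTab C2g.P0 C2g.K0 cd (fun a => C2a.T 0 a) 22500 2500 = true := by decide +kernel

end Cfsg.Agent.Lib.H58SM.C2c
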