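import Cfsg.Agent.Lib.H58SMC2c

/-!
Action of the Conway group Co2 on 47104 vectors (helper58)
-/

set_option autoImplicit false

namespace Cfsg.Agent.Lib.H58SM.C2c

open Cfsg.Agent.Lib.H58SM

open Cfsg Cfsg.Agent.Lib.Golay Cfsg.Agent.Lib.LeechMin Cfsg.Agent.Lib.H89LeechMat Cfsg.Agent.Lib.H58SM.LV
open Cfsg.Agent.Lib.LeechChain Cfsg.Agent.Lib.LeechCount Cfsg.Agent.Lib.LeechCo2

set_option maxRecDepth 1000000

theorem mv1_11 : mvTab C2g.P1 C2g.K1 cd (fun a => C2a.T 2 a) 27500 2500 = true := by decide +kernel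

theorem mv1_12 : mvTab C2g.P1 C2g.K1 cd (fun a => C2a.T 2 a) 30000 2500 = true := by decide +kernel

theorem mv1_13 : mvTab C2g.P1 C2g.K1 cd (fun a => C2a.T 2 a) 32500 2500 = true := by decide +kernel

theorem mv1_14 : mvTab C2g.P1 C2g.K1 cd (fun a => C2a.T 2 a) 35000 2500 = true := by decide +kernel

theorem mv1_15 : mvTab C2g.P1 C2g.K1 cd (fun a => C2a.T 2 a) 37500 2500 = true := by decide +kernel

theorem mv1_16 : mvTab C2g.P1 C2g.K1 cd (fun a => C2a.T 2 a) 40000 2500 = true := by decide +kernel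

theorem mv1_17 : mvTab C2g.P1 C2g.K1 cd (fun a => C2a.T 2 a) 42500 2500 = true := by decide +kernel

theorem mv1_18 : mvTab C2g.P1 C2g.K1 cd (fun a => C2a.T 2 a) 45000 2104 = true := by decide +kernel

end Cfsg.Agent.Lib.H58SM.C2c
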