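import Cfsg.Agent.Lib.H58SMC3c
import Cfsg.Agent.Lib.H58SMC3d
import Cfsg.Agent.Lib.H58SMC3r
import Cfsg.Agent.Lib.H58SMC3s
import Cfsg.Agent.Lib.H58SMML
import Cfsg.Agent.Lib.H58SMHS
import Cfsg.Agent.Lib.LeechSyl2

/-!
The stem extensions of the Conway group Co3 (helper58)
-/

set_option autoImplicit false

namespace Cfsg.Agent.Lib.H58SM.C3

open Subgroup Cfsg Cfsg.Agent.Lib.Golay Cfsg.Agent.Lib.LeechMin Cfsg.Agent.Lib.SchurSylow
open Cfsg.Agent.Lib.LeechChain Cfsg.Agent.Lib.LeechCount Cfsg.Agent.Lib.LeechCo2 Cfsg.Agent.Lib.LeechSyl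
open Cfsg.Agent.Lib.H58SM Cfsg.Agent.Lib.H58SM.LV

/-- the group -/
abbrev G : Subgroup Co0 := C3g.GG

instance simple : IsSimpleGroup G := by
  show IsSimpleGroup (fixL [U none])
  rw [fixL_singleton]; exact Co3_simple

theorem cardG : Nat.card G = 495766656000 := card_Co3 (sqNorm_U none)

theorem hinj : ∀ a < 552, ∀ b < 552, pnt C3c.cd a = pnt C3c.cd b → a = b :=
  fun _ ha _ hb h => C3c.act.inj ha hb h

theorem fwdS : ∀ i < 2, ∀ a < 552, C3g.gg i • pnt C3c.cd a = pnt C3c.cd (C3s.T (2 * i) a) := by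
  intro i hi a ha
  have h := C3c.act.fwd i hi a ha
  interval_cases i
  · exact h
  · exact h

theorem gen : closure {z | ∃ i < 2, z = C3g.gg i} = ⊤ :=
  Sims.gen_of_chain (k' := 13) (by norm_num) hinj C3s.tab_ok C3s.wrd_ok fwdS C3s.chain_ok (le_of_eq cardG)
    (le_of_eq C3s.prod_eq.symm)

theorem baseA : pnt C3c.cd 0 = X hab := by
  apply Subtype.ext
  rw [C3c.pall 0 (by norm_num), coe_X]
  decide +kernel

theorem baseB : pnt C3d.cd 0 = S hab := by
  apply Subtype.ext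
  rw [C3d.pall 0 (by norm_num), coe_S]
  decide +kernel

theorem stabA : Nonempty (MulAction.stabilizer G (pnt C3c.cd 0) ≃* ML.G) := by
  rw [baseA]; exact ⟨stabFix [U none] (X hab)⟩

theorem stabB : Nonempty (MulAction.stabilizer G (pnt C3d.cd 0) ≃* HS.G) := by
  rw [baseB]; exact ⟨(stabFix [U none] (S hab)).trans (fixSwap _ _)⟩

theorem two : PStemDvd 2 G 1 := by
  obtain ⟨e⟩ := stabA
  have hs : IsSimpleGroup (MulAction.stabilizer G (pnt C3c.cd 0)) := isSimpleGroup_of_mulEquiv e.symm ML.simple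
  have hc : Nat.card (MulAction.stabilizer G (pnt C3c.cd 0)) = 898128000 := by rw [Nat.card_congr e.toEquiv, ML.cardG]
  exact pStemDvd_of_Q (s := 1) (q := 1) (N := 1) C3a.Q C3c.act gen (ML.two.congr e.symm)
    (not_dvd_index_of_perfect (perfect_of_simple hs (by rw [hc]; norm_num))) C3r.rel_C3a C3a.tab1_ok C3a.w_ok
    C3a.s_ok C3a.p_ok C3a.p2_ok C3a.nr C3a.nr_ok C3a.zl_ok rfl rfl (by decide) C3a.chkQ C3a.Lr C3a.Rr C3a.row_ok
    C3a.gen_ok C3a.par_ok (by decide) rfl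

theorem f3 : Fact (Nat.Prime 3) := ⟨Nat.prime_three⟩
theorem f5 : Fact (Nat.Prime 5) := ⟨Nat.prime_five⟩

attribute [local instance] f3 f5

theorem three : PStemDvd 3 G 1 := by
  obtain ⟨e⟩ := stabB
  have hs : IsSimpleGroup (MulAction.stabilizer G (pnt C3d.cd 0)) := isSimpleGroup_of_mulEquiv e.symm HS.simple
  have hc : Nat.card (MulAction.stabilizer G (pnt C3d.cd 0)) = 44352000 := by rw [Nat.card_congr e.toEquiv, HS.cardG]
  exact pStemDvd_of_Q (s := 1) (q := 1) (N := 1) C3b.Q C3d.act gen (HS.three.congr e.symm)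
    (not_dvd_index_of_perfect (perfect_of_simple hs (by rw [hc]; norm_num))) C3r.rel_C3b C3b.tab1_ok C3b.w_ok
    C3b.s_ok C3b.p_ok C3b.p2_ok C3b.nr C3b.nr_ok C3b.zl_ok rfl rfl (by decide) C3b.chkQ C3b.Lr C3b.Rr C3b.row_ok
    C3b.gen_ok C3b.par_ok (by decide) rfl

theorem five : PStemDvd 5 G 1 := by
  obtain ⟨e⟩ := stabA
  have hc : Nat.card (MulAction.stabilizer G (pnt C3c.cd 0)) = 898128000 := by rw [Nat.card_congr e.toEquiv, ML.cardG]
  have hi : (MulAction.stabilizer G (pnt C3c.cd 0)).index = 552 := by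
    have h := (MulAction.stabilizer G (pnt C3c.cd 0)).card_mul_index
    rw [hc, cardG] at h
    exact Nat.eq_of_mul_eq_mul_left (by norm_num : 0 < 898128000) (h.trans (by norm_num))
  exact PStemDvd.of_index (H := MulAction.stabilizer G (pnt C3c.cd 0)) (by rw [hi]; norm_num) (ML.five.congr e.symm)

theorem stem_one : StemDvd G 1 := by
  apply StemDvd.of_forall
  intro p hp
  by_cases h2 : p = 2
  · subst h2; exact two
  by_cases h3 : p = 3
  · subst h3; exact three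
  by_cases h5 : p = 5
  · subst h5; exact five
  exact pStem_big 1 10 7 3 1771 (by rw [cardG]; norm_num) (by decide +kernel) hp h2 h3 h5

theorem mem_iff (g : Co0) : g ∈ G ↔ g • Spor.leechV = Spor.leechV := by
  rw [mem_fix1, HS.eV, smul_neg', neg_inj]

/-- the group of the statement -/
noncomputable def equivCo3 : G ≃* Spor.Co3 where
  toFun g := ⟨(g : Co0).1, (g : Co0).2, (mem_iff _).1 g.2⟩
  invFun g := ⟨⟨g.1, g.2.1⟩, (mem_iff _).2 g.2.2⟩
  left_inv _ := rfl
  right_inv _ := rfl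
  map_mul' _ _ := rfl

end Cfsg.Agent.Lib.H58SM.C3
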