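import Cfsg.Agent.Lib.H58SMMLw_0
import Cfsg.Agent.Lib.H58SMMLw_1

/-!
Action of the McLaughlin group on 22275 pairs of vectors (helper58)
-/

set_option autoImplicit false

namespace Cfsg.Agent.Lib.H58SM.MLw

open Cfsg.Agent.Lib.H58SM

open Cfsg Cfsg.Agent.Lib.Golay Cfsg.Agent.Lib.LeechMin Cfsg.Agent.Lib.H89LeechMat Cfsg.Agent.Lib.H58SM.LV
open Cfsg.Agent.Lib.LeechChain Cfsg.Agent.Lib.LeechCount Cfsg.Agent.Lib.LeechCo2

theorem mv0 (a : ℕ) (ha : a < 22275) : mvOKP MLg.P0 MLg.K0 (cd a) (cd (MLh.T 0 a)) = true := by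
  by_cases h0 : a < 2500
  · exact mvTabP_iff mv0_0 a (by omega) (by omega)
  by_cases h1 : a < 5000
  · exact mvTabP_iff mv0_1 a (by omega) (by omega)
  by_cases h2 : a < 7500
  · exact mvTabP_iff mv0_2 a (by omega) (by omega)
  by_cases h3 : a < 10000
  · exact mvTabP_iff mv0_3 a (by omega) (by omega)
  by_cases h4 : a < 12500
  · exact mvTabP_iff mv0_4 a (by omega) (by omega)
  by_cases h5 : a < 15000
  · exact mvTabP_iff mv0_5 a (by omega) (by omega)
  by_cases h6 : a < 17500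
  · exact mvTabP_iff mv0_6 a (by omega) (by omega)
  by_cases h7 : a < 20000
  · exact mvTabP_iff mv0_7 a (by omega) (by omega)
  exact mvTabP_iff mv0_8 a (by omega) (by omega)

theorem mv1 (a : ℕ) (ha : a < 22275) : mvOKP MLg.P1 MLg.K1 (cd a) (cd (MLh.T 2 a)) = true := by
  by_cases h0 : a < 2500
  · exact mvTabP_iff mv1_0 a (by omega) (by omega)
  by_cases h1 : a < 5000
  · exact mvTabP_iff mv1_1 a (by omega) (by omega)
  by_cases h2 : a < 7500
  · exact mvTabP_iff mv1_2 a (by omega) (by omega)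
  by_cases h3 : a < 10000
  · exact mvTabP_iff mv1_3 a (by omega) (by omega)
  by_cases h4 : a < 12500
  · exact mvTabP_iff mv1_4 a (by omega) (by omega)
  by_cases h5 : a < 15000
  · exact mvTabP_iff mv1_5 a (by omega) (by omega)
  by_cases h6 : a < 17500
  · exact mvTabP_iff mv1_6 a (by omega) (by omega)
  by_cases h7 : a < 20000
  · exact mvTabP_iff mv1_7 a (by omega) (by omega)
  exact mvTabP_iff mv1_8 a (by omega) (by omega)

/-- the tables as data -/
def D0 : Dat where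
  n := 22275
  k := 2
  J := 0
  p := 2
  m := 2
  d := 0
  T := MLh.T
  pi := MLh.PIB
  pq := MLh.PQB
  W _ := []
  rk _ := 0
  lp _ := 0
  E _ _ := 0
  par _ := 0
  Zl := []

theorem hmv : ∀ i < 2, ∀ a < 22275, mvOKP (MLg.GD.P i) (MLg.GD.K i) (cd a) (cd (D0.T (2 * i) a)) = true := by
  intro i hi a ha
  interval_cases i
  · exact mv0 a ha
  · exact mv1 a ha

/-- the action -/
theorem act_all : Act 22275 2 MLg.gg (fun a => pm (pnt cd a)) MLh.T MLh.PIB MLh.PQB ∧ ∀ a < 22275, (pnt cd a : GolayPt → ℤ) = vv (cd a) :=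
  mkActP MLg.GD D0 rfl (by show 0 < 22275; norm_num) MLh.tab1_ok MLh.tab2_ok MLh.tab3_ok lat_ok nrm_ok cd_ok hmv

end Cfsg.Agent.Lib.H58SM.MLw
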