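import Cfsg.Agent.Lib.H58SMMLx
import Cfsg.Agent.Lib.H58SMMLy0
import Cfsg.Agent.Lib.H58SMMLy1
import Cfsg.Agent.Lib.H58SMMLh

/-!
Block system of the McLaughlin group (helper58)
-/

set_option autoImplicit false

namespace Cfsg.Agent.Lib.H58SM.MLz

open Cfsg.Agent.Lib.H58SM

open Cfsg.Agent.Lib.H58SM.Bk

/-- the block system -/
def D : BD where
  n := 22275
  k := 2
  m := 35
  N := 34650
  T := MLh.T
  TC := MLx.TC
  R := MLx.RB
  S i y := cond (Nat.beq i 0) (MLy0.SB y) (MLy1.SB y)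
  C := MLx.CB

end Cfsg.Agent.Lib.H58SM.MLz
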