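import Cfsg.Agent.Lib.H58SMMLz

/-!
Block system of the McLaughlin group (helper58)
-/

set_option autoImplicit false

namespace Cfsg.Agent.Lib.H58SM.MLz

open Cfsg.Agent.Lib.H58SM

open Cfsg.Agent.Lib.H58SM.Bk

set_option maxRecDepth 1000000

theorem row1_28 : alln (fun x => D.rowOk 1 (Nat.add 14000 x)) 500 = true := by decide +kernel

theorem row1_29 : alln (fun x => D.rowOk 1 (Nat.add 14500 x)) 500 = true := by decide +kernel

theorem row1_30 : alln (fun x => D.rowOk 1 (Nat.add 15000 x)) 500 = true := by decide +kernel

theorem row1_31 : alln (fun x => D.rowOk 1 (Nat.add 15500 x)) 500 = true := by decide +kernel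

theorem row1_32 : alln (fun x => D.rowOk 1 (Nat.add 16000 x)) 500 = true := by decide +kernel

theorem row1_33 : alln (fun x => D.rowOk 1 (Nat.add 16500 x)) 500 = true := by decide +kernel

theorem row1_34 : alln (fun x => D.rowOk 1 (Nat.add 17000 x)) 500 = true := by decide +kernel

end Cfsg.Agent.Lib.H58SM.MLz
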