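import Cfsg.Agent.Lib.H58SMMLz

/-!
Block system of the McLaughlin group (helper58)
-/

set_option autoImplicit false

namespace Cfsg.Agent.Lib.H58SM.MLz

open Cfsg.Agent.Lib.H58SM

open Cfsg.Agent.Lib.H58SM.Bk

set_option maxRecDepth 1000000

theorem row0_63 : alln (fun x => D.rowOk 0 (Nat.add 31500 x)) 500 = true := by decide +kernel

theorem row0_64 : alln (fun x => D.rowOk 0 (Nat.add 32000 x)) 500 = true := by decide +kernel

theorem row0_65 : alln (fun x => D.rowOk 0 (Nat.add 32500 x)) 500 = true := by decide +kernel

theorem row0_66 : alln (fun x => D.rowOk 0 (Nat.add 33000 x)) 500 = true := by decide +kernel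

theorem row0_67 : alln (fun x => D.rowOk 0 (Nat.add 33500 x)) 500 = true := by decide +kernel

theorem row0_68 : alln (fun x => D.rowOk 0 (Nat.add 34000 x)) 500 = true := by decide +kernel

theorem row0_69 : alln (fun x => D.rowOk 0 (Nat.add 34500 x)) 150 = true := by decide +kernel

end Cfsg.Agent.Lib.H58SM.MLz
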