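import Cfsg.Agent.Lib.H58SMMLz

/-!
Block system of the McLaughlin group (helper58)
-/

set_option autoImplicit false

namespace Cfsg.Agent.Lib.H58SM.MLz

open Cfsg.Agent.Lib.H58SM

open Cfsg.Agent.Lib.H58SM.Bk

set_option maxRecDepth 1000000

theorem link_ok : D.linkOk = true := by decide +kernel

theorem key_ok : D.keyOk = true := by decide +kernel

theorem con_ok : D.conOk = true := by decide +kernel

theorem blk_0 : alln (fun x => D.blkOk (Nat.add 0 x)) 3000 = true := by decide +kernel

theorem blk_1 : alln (fun x => D.blkOk (Nat.add 3000 x)) 3000 = true := by decide +kernel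

theorem blk_2 : alln (fun x => D.blkOk (Nat.add 6000 x)) 3000 = true := by decide +kernel

theorem blk_3 : alln (fun x => D.blkOk (Nat.add 9000 x)) 3000 = true := by decide +kernel

theorem blk_4 : alln (fun x => D.blkOk (Nat.add 12000 x)) 3000 = true := by decide +kernel

theorem blk_5 : alln (fun x => D.blkOk (Nat.add 15000 x)) 3000 = true := by decide +kernel

theorem blk_6 : alln (fun x => D.blkOk (Nat.add 18000 x)) 3000 = true := by decide +kernel

theorem blk_7 : alln (fun x => D.blkOk (Nat.add 21000 x)) 3000 = true := by decide +kernel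

theorem blk_8 : alln (fun x => D.blkOk (Nat.add 24000 x)) 3000 = true := by decide +kernel

theorem blk_9 : alln (fun x => D.blkOk (Nat.add 27000 x)) 3000 = true := by decide +kernel

theorem blk_10 : alln (fun x => D.blkOk (Nat.add 30000 x)) 3000 = true := by decide +kernel

theorem blk_11 : alln (fun x => D.blkOk (Nat.add 33000 x)) 1650 = true := by decide +kernel

end Cfsg.Agent.Lib.H58SM.MLz
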