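import Cfsg.Agent.Lib.H58SMMLz_c
import Cfsg.Agent.Lib.H58SMMLz_0
import Cfsg.Agent.Lib.H58SMMLz_1
import Cfsg.Agent.Lib.H58SMMLz_2
import Cfsg.Agent.Lib.H58SMMLz_3
import Cfsg.Agent.Lib.H58SMMLz_4
import Cfsg.Agent.Lib.H58SMMLz_5
import Cfsg.Agent.Lib.H58SMMLz_6
import Cfsg.Agent.Lib.H58SMMLz_7
import Cfsg.Agent.Lib.H58SMMLz_8
import Cfsg.Agent.Lib.H58SMMLz_9
import Cfsg.Agent.Lib.H58SMMLz_10
import Cfsg.Agent.Lib.H58SMMLz_11
import Cfsg.Agent.Lib.H58SMMLz_12
import Cfsg.Agent.Lib.H58SMMLz_13
import Cfsg.Agent.Lib.H58SMMLz_14
import Cfsg.Agent.Lib.H58SMMLz_15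
import Cfsg.Agent.Lib.H58SMMLz_16
import Cfsg.Agent.Lib.H58SMMLz_17
import Cfsg.Agent.Lib.H58SMMLz_18
import Cfsg.Agent.Lib.H58SMMLz_19

/-!
Block system of the McLaughlin group (helper58)
-/

set_option autoImplicit false

namespace Cfsg.Agent.Lib.H58SM.MLz

open Cfsg.Agent.Lib.H58SM

open Cfsg.Agent.Lib.H58SM.Bk

theorem blk_ok : ∀ x < 34650, D.blkOk x = true := by
  intro x hx
  by_cases h0 : x < 3000
  · have h := alln_iff.1 blk_0 (x - 0) (by omega)
    rwa [show Nat.add 0 (x - 0) = x from by show 0 + (x - 0) = x; omega] at h
  by_cases h1 : x < 6000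
  · have h := alln_iff.1 blk_1 (x - 3000) (by omega)
    rwa [show Nat.add 3000 (x - 3000) = x from by show 3000 + (x - 3000) = x; omega] at h
  by_cases h2 : x < 9000
  · have h := alln_iff.1 blk_2 (x - 6000) (by omega)
    rwa [show Nat.add 6000 (x - 6000) = x from by show 6000 + (x - 6000) = x; omega] at h
  by_cases h3 : x < 12000
  · have h := alln_iff.1 blk_3 (x - 9000) (by omega)
    rwa [show Nat.add 9000 (x - 9000) = x from by show 9000 + (x - 9000) = x; omega] at h
  by_cases h4 : x < 15000
  · have h := alln_iff.1 blk_4 (x - 12000) (by omega)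
    rwa [show Nat.add 12000 (x - 12000) = x from by show 12000 + (x - 12000) = x; omega] at h
  by_cases h5 : x < 18000
  · have h := alln_iff.1 blk_5 (x - 15000) (by omega)
    rwa [show Nat.add 15000 (x - 15000) = x from by show 15000 + (x - 15000) = x; omega] at h
  by_cases h6 : x < 21000
  · have h := alln_iff.1 blk_6 (x - 18000) (by omega)
    rwa [show Nat.add 18000 (x - 18000) = x from by show 18000 + (x - 18000) = x; omega] at h
  by_cases h7 : x < 24000
  · have h := alln_iff.1 blk_7 (x - 21000) (by omega)
    rwa [show Nat.add 21000 (x - 21000) = x from by show 21000 + (x - 21000) = x; omega] at h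
  by_cases h8 : x < 27000
  · have h := alln_iff.1 blk_8 (x - 24000) (by omega)
    rwa [show Nat.add 24000 (x - 24000) = x from by show 24000 + (x - 24000) = x; omega] at h
  by_cases h9 : x < 30000
  · have h := alln_iff.1 blk_9 (x - 27000) (by omega)
    rwa [show Nat.add 27000 (x - 27000) = x from by show 27000 + (x - 27000) = x; omega] at h
  by_cases h10 : x < 33000
  · have h := alln_iff.1 blk_10 (x - 30000) (by omega)
    rwa [show Nat.add 30000 (x - 30000) = x from by show 30000 + (x - 30000) = x; omega] at h
  have h := alln_iff.1 blk_11 (x - 33000) (by omega)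
  rwa [show Nat.add 33000 (x - 33000) = x from by show 33000 + (x - 33000) = x; omega] at h

theorem row0 : ∀ x < 34650, D.rowOk 0 x = true := by
  intro x hx
  by_cases h0 : x < 500
  · have h := alln_iff.1 row0_0 (x - 0) (by omega)
    rwa [show Nat.add 0 (x - 0) = x from by show 0 + (x - 0) = x; omega] at h
  by_cases h1 : x < 1000
  · have h := alln_iff.1 row0_1 (x - 500) (by omega)
    rwa [show Nat.add 500 (x - 500) = x from by show 500 + (x - 500) = x; omega] at h
  by_cases h2 : x < 1500
  · have h := alln_iff.1 row0_2 (x - 1000) (by omega)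
    rwa [show Nat.add 1000 (x - 1000) = x from by show 1000 + (x - 1000) = x; omega] at h
  by_cases h3 : x < 2000
  · have h := alln_iff.1 row0_3 (x - 1500) (by omega)
    rwa [show Nat.add 1500 (x - 1500) = x from by show 1500 + (x - 1500) = x; omega] at h
  by_cases h4 : x < 2500
  · have h := alln_iff.1 row0_4 (x - 2000) (by omega)
    rwa [show Nat.add 2000 (x - 2000) = x from by show 2000 + (x - 2000) = x; omega] at h
  by_cases h5 : x < 3000
  · have h := alln_iff.1 row0_5 (x - 2500) (by omega)
    rwa [show Nat.add 2500 (x - 2500) = x from by show 2500 + (x - 2500) = x; omega] at h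
  by_cases h6 : x < 3500
  · have h := alln_iff.1 row0_6 (x - 3000) (by omega)
    rwa [show Nat.add 3000 (x - 3000) = x from by show 3000 + (x - 3000) = x; omega] at h
  by_cases h7 : x < 4000
  · have h := alln_iff.1 row0_7 (x - 3500) (by omega)
    rwa [show Nat.add 3500 (x - 3500) = x from by show 3500 + (x - 3500) = x; omega] at h
  by_cases h8 : x < 4500
  · have h := alln_iff.1 row0_8 (x - 4000) (by omega)
    rwa [show Nat.add 4000 (x - 4000) = x from by show 4000 + (x - 4000) = x; omega] at h
  by_cases h9 : x < 5000
  · have h := alln_iff.1 row0_9 (x - 4500) (by omega)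
    rwa [show Nat.add 4500 (x - 4500) = x from by show 4500 + (x - 4500) = x; omega] at h
  by_cases h10 : x < 5500
  · have h := alln_iff.1 row0_10 (x - 5000) (by omega)
    rwa [show Nat.add 5000 (x - 5000) = x from by show 5000 + (x - 5000) = x; omega] at h
  by_cases h11 : x < 6000
  · have h := alln_iff.1 row0_11 (x - 5500) (by omega)
    rwa [show Nat.add 5500 (x - 5500) = x from by show 5500 + (x - 5500) = x; omega] at h
  by_cases h12 : x < 6500
  · have h := alln_iff.1 row0_12 (x - 6000) (by omega)
    rwa [show Nat.add 6000 (x - 6000) = x from by show 6000 + (x - 6000) = x; omega] at h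
  by_cases h13 : x < 7000
  · have h := alln_iff.1 row0_13 (x - 6500) (by omega)
    rwa [show Nat.add 6500 (x - 6500) = x from by show 6500 + (x - 6500) = x; omega] at h
  by_cases h14 : x < 7500
  · have h := alln_iff.1 row0_14 (x - 7000) (by omega)
    rwa [show Nat.add 7000 (x - 7000) = x from by show 7000 + (x - 7000) = x; omega] at h
  by_cases h15 : x < 8000
  · have h := alln_iff.1 row0_15 (x - 7500) (by omega)
    rwa [show Nat.add 7500 (x - 7500) = x from by show 7500 + (x - 7500) = x; omega] at h
  by_cases h16 : x < 8500
  · have h := alln_iff.1 row0_16 (x - 8000) (by omega)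
    rwa [show Nat.add 8000 (x - 8000) = x from by show 8000 + (x - 8000) = x; omega] at h
  by_cases h17 : x < 9000
  · have h := alln_iff.1 row0_17 (x - 8500) (by omega)
    rwa [show Nat.add 8500 (x - 8500) = x from by show 8500 + (x - 8500) = x; omega] at h
  by_cases h18 : x < 9500
  · have h := alln_iff.1 row0_18 (x - 9000) (by omega)
    rwa [show Nat.add 9000 (x - 9000) = x from by show 9000 + (x - 9000) = x; omega] at h
  by_cases h19 : x < 10000
  · have h := alln_iff.1 row0_19 (x - 9500) (by omega)
    rwa [show Nat.add 9500 (x - 9500) = x from by show 9500 + (x - 9500) = x; omega] at h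
  by_cases h20 : x < 10500
  · have h := alln_iff.1 row0_20 (x - 10000) (by omega)
    rwa [show Nat.add 10000 (x - 10000) = x from by show 10000 + (x - 10000) = x; omega] at h
  by_cases h21 : x < 11000
  · have h := alln_iff.1 row0_21 (x - 10500) (by omega)
    rwa [show Nat.add 10500 (x - 10500) = x from by show 10500 + (x - 10500) = x; omega] at h
  by_cases h22 : x < 11500
  · have h := alln_iff.1 row0_22 (x - 11000) (by omega)
    rwa [show Nat.add 11000 (x - 11000) = x from by show 11000 + (x - 11000) = x; omega] at h
  by_cases h23 : x < 12000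
  · have h := alln_iff.1 row0_23 (x - 11500) (by omega)
    rwa [show Nat.add 11500 (x - 11500) = x from by show 11500 + (x - 11500) = x; omega] at h
  by_cases h24 : x < 12500
  · have h := alln_iff.1 row0_24 (x - 12000) (by omega)
    rwa [show Nat.add 12000 (x - 12000) = x from by show 12000 + (x - 12000) = x; omega] at h
  by_cases h25 : x < 13000
  · have h := alln_iff.1 row0_25 (x - 12500) (by omega)
    rwa [show Nat.add 12500 (x - 12500) = x from by show 12500 + (x - 12500) = x; omega] at h
  by_cases h26 : x < 13500
  · have h := alln_iff.1 row0_26 (x - 13000) (by omega)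
    rwa [show Nat.add 13000 (x - 13000) = x from by show 13000 + (x - 13000) = x; omega] at h
  by_cases h27 : x < 14000
  · have h := alln_iff.1 row0_27 (x - 13500) (by omega)
    rwa [show Nat.add 13500 (x - 13500) = x from by show 13500 + (x - 13500) = x; omega] at h
  by_cases h28 : x < 14500
  · have h := alln_iff.1 row0_28 (x - 14000) (by omega)
    rwa [show Nat.add 14000 (x - 14000) = x from by show 14000 + (x - 14000) = x; omega] at h
  by_cases h29 : x < 15000
  · have h := alln_iff.1 row0_29 (x - 14500) (by omega)
    rwa [show Nat.add 14500 (x - 14500) = x from by show 14500 + (x - 14500) = x; omega] at h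
  by_cases h30 : x < 15500
  · have h := alln_iff.1 row0_30 (x - 15000) (by omega)
    rwa [show Nat.add 15000 (x - 15000) = x from by show 15000 + (x - 15000) = x; omega] at h
  by_cases h31 : x < 16000
  · have h := alln_iff.1 row0_31 (x - 15500) (by omega)
    rwa [show Nat.add 15500 (x - 15500) = x from by show 15500 + (x - 15500) = x; omega] at h
  by_cases h32 : x < 16500
  · have h := alln_iff.1 row0_32 (x - 16000) (by omega)
    rwa [show Nat.add 16000 (x - 16000) = x from by show 16000 + (x - 16000) = x; omega] at h
  by_cases h33 : x < 17000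
  · have h := alln_iff.1 row0_33 (x - 16500) (by omega)
    rwa [show Nat.add 16500 (x - 16500) = x from by show 16500 + (x - 16500) = x; omega] at h
  by_cases h34 : x < 17500
  · have h := alln_iff.1 row0_34 (x - 17000) (by omega)
    rwa [show Nat.add 17000 (x - 17000) = x from by show 17000 + (x - 17000) = x; omega] at h
  by_cases h35 : x < 18000
  · have h := alln_iff.1 row0_35 (x - 17500) (by omega)
    rwa [show Nat.add 17500 (x - 17500) = x from by show 17500 + (x - 17500) = x; omega] at h
  by_cases h36 : x < 18500
  · have h := alln_iff.1 row0_36 (x - 18000) (by omega)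
    rwa [show Nat.add 18000 (x - 18000) = x from by show 18000 + (x - 18000) = x; omega] at h
  by_cases h37 : x < 19000
  · have h := alln_iff.1 row0_37 (x - 18500) (by omega)
    rwa [show Nat.add 18500 (x - 18500) = x from by show 18500 + (x - 18500) = x; omega] at h
  by_cases h38 : x < 19500
  · have h := alln_iff.1 row0_38 (x - 19000) (by omega)
    rwa [show Nat.add 19000 (x - 19000) = x from by show 19000 + (x - 19000) = x; omega] at h
  by_cases h39 : x < 20000
  · have h := alln_iff.1 row0_39 (x - 19500) (by omega)
    rwa [show Nat.add 19500 (x - 19500) = x from by show 19500 + (x - 19500) = x; omega] at h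
  by_cases h40 : x < 20500
  · have h := alln_iff.1 row0_40 (x - 20000) (by omega)
    rwa [show Nat.add 20000 (x - 20000) = x from by show 20000 + (x - 20000) = x; omega] at h
  by_cases h41 : x < 21000
  · have h := alln_iff.1 row0_41 (x - 20500) (by omega)
    rwa [show Nat.add 20500 (x - 20500) = x from by show 20500 + (x - 20500) = x; omega] at h
  by_cases h42 : x < 21500
  · have h := alln_iff.1 row0_42 (x - 21000) (by omega)
    rwa [show Nat.add 21000 (x - 21000) = x from by show 21000 + (x - 21000) = x; omega] at h
  by_cases h43 : x < 22000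
  · have h := alln_iff.1 row0_43 (x - 21500) (by omega)
    rwa [show Nat.add 21500 (x - 21500) = x from by show 21500 + (x - 21500) = x; omega] at h
  by_cases h44 : x < 22500
  · have h := alln_iff.1 row0_44 (x - 22000) (by omega)
    rwa [show Nat.add 22000 (x - 22000) = x from by show 22000 + (x - 22000) = x; omega] at h
  by_cases h45 : x < 23000
  · have h := alln_iff.1 row0_45 (x - 22500) (by omega)
    rwa [show Nat.add 22500 (x - 22500) = x from by show 22500 + (x - 22500) = x; omega] at h
  by_cases h46 : x < 23500
  · have h := alln_iff.1 row0_46 (x - 23000) (by omega)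
    rwa [show Nat.add 23000 (x - 23000) = x from by show 23000 + (x - 23000) = x; omega] at h
  by_cases h47 : x < 24000
  · have h := alln_iff.1 row0_47 (x - 23500) (by omega)
    rwa [show Nat.add 23500 (x - 23500) = x from by show 23500 + (x - 23500) = x; omega] at h
  by_cases h48 : x < 24500
  · have h := alln_iff.1 row0_48 (x - 24000) (by omega)
    rwa [show Nat.add 24000 (x - 24000) = x from by show 24000 + (x - 24000) = x; omega] at h
  by_cases h49 : x < 25000
  · have h := alln_iff.1 row0_49 (x - 24500) (by omega)
    rwa [show Nat.add 24500 (x - 24500) = x from by show 24500 + (x - 24500) = x; omega] at h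
  by_cases h50 : x < 25500
  · have h := alln_iff.1 row0_50 (x - 25000) (by omega)
    rwa [show Nat.add 25000 (x - 25000) = x from by show 25000 + (x - 25000) = x; omega] at h
  by_cases h51 : x < 26000
  · have h := alln_iff.1 row0_51 (x - 25500) (by omega)
    rwa [show Nat.add 25500 (x - 25500) = x from by show 25500 + (x - 25500) = x; omega] at h
  by_cases h52 : x < 26500
  · have h := alln_iff.1 row0_52 (x - 26000) (by omega)
    rwa [show Nat.add 26000 (x - 26000) = x from by show 26000 + (x - 26000) = x; omega] at h
  by_cases h53 : x < 27000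
  · have h := alln_iff.1 row0_53 (x - 26500) (by omega)
    rwa [show Nat.add 26500 (x - 26500) = x from by show 26500 + (x - 26500) = x; omega] at h
  by_cases h54 : x < 27500
  · have h := alln_iff.1 row0_54 (x - 27000) (by omega)
    rwa [show Nat.add 27000 (x - 27000) = x from by show 27000 + (x - 27000) = x; omega] at h
  by_cases h55 : x < 28000
  · have h := alln_iff.1 row0_55 (x - 27500) (by omega)
    rwa [show Nat.add 27500 (x - 27500) = x from by show 27500 + (x - 27500) = x; omega] at h
  by_cases h56 : x < 28500
  · have h := alln_iff.1 row0_56 (x - 28000) (by omega)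
    rwa [show Nat.add 28000 (x - 28000) = x from by show 28000 + (x - 28000) = x; omega] at h
  by_cases h57 : x < 29000
  · have h := alln_iff.1 row0_57 (x - 28500) (by omega)
    rwa [show Nat.add 28500 (x - 28500) = x from by show 28500 + (x - 28500) = x; omega] at h
  by_cases h58 : x < 29500
  · have h := alln_iff.1 row0_58 (x - 29000) (by omega)
    rwa [show Nat.add 29000 (x - 29000) = x from by show 29000 + (x - 29000) = x; omega] at h
  by_cases h59 : x < 30000
  · have h := alln_iff.1 row0_59 (x - 29500) (by omega)
    rwa [show Nat.add 29500 (x - 29500) = x from by show 29500 + (x - 29500) = x; omega] at h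
  by_cases h60 : x < 30500
  · have h := alln_iff.1 row0_60 (x - 30000) (by omega)
    rwa [show Nat.add 30000 (x - 30000) = x from by show 30000 + (x - 30000) = x; omega] at h
  by_cases h61 : x < 31000
  · have h := alln_iff.1 row0_61 (x - 30500) (by omega)
    rwa [show Nat.add 30500 (x - 30500) = x from by show 30500 + (x - 30500) = x; omega] at h
  by_cases h62 : x < 31500
  · have h := alln_iff.1 row0_62 (x - 31000) (by omega)
    rwa [show Nat.add 31000 (x - 31000) = x from by show 31000 + (x - 31000) = x; omega] at h
  by_cases h63 : x < 32000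
  · have h := alln_iff.1 row0_63 (x - 31500) (by omega)
    rwa [show Nat.add 31500 (x - 31500) = x from by show 31500 + (x - 31500) = x; omega] at h
  by_cases h64 : x < 32500
  · have h := alln_iff.1 row0_64 (x - 32000) (by omega)
    rwa [show Nat.add 32000 (x - 32000) = x from by show 32000 + (x - 32000) = x; omega] at h
  by_cases h65 : x < 33000
  · have h := alln_iff.1 row0_65 (x - 32500) (by omega)
    rwa [show Nat.add 32500 (x - 32500) = x from by show 32500 + (x - 32500) = x; omega] at h
  by_cases h66 : x < 33500
  · have h := alln_iff.1 row0_66 (x - 33000) (by omega)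
    rwa [show Nat.add 33000 (x - 33000) = x from by show 33000 + (x - 33000) = x; omega] at h
  by_cases h67 : x < 34000
  · have h := alln_iff.1 row0_67 (x - 33500) (by omega)
    rwa [show Nat.add 33500 (x - 33500) = x from by show 33500 + (x - 33500) = x; omega] at h
  by_cases h68 : x < 34500
  · have h := alln_iff.1 row0_68 (x - 34000) (by omega)
    rwa [show Nat.add 34000 (x - 34000) = x from by show 34000 + (x - 34000) = x; omega] at h
  have h := alln_iff.1 row0_69 (x - 34500) (by omega)
  rwa [show Nat.add 34500 (x - 34500) = x from by show 34500 + (x - 34500) = x; omega] at h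

theorem row1 : ∀ x < 34650, D.rowOk 1 x = true := by
  intro x hx
  by_cases h0 : x < 500
  · have h := alln_iff.1 row1_0 (x - 0) (by omega)
    rwa [show Nat.add 0 (x - 0) = x from by show 0 + (x - 0) = x; omega] at h
  by_cases h1 : x < 1000
  · have h := alln_iff.1 row1_1 (x - 500) (by omega)
    rwa [show Nat.add 500 (x - 500) = x from by show 500 + (x - 500) = x; omega] at h
  by_cases h2 : x < 1500
  · have h := alln_iff.1 row1_2 (x - 1000) (by omega)
    rwa [show Nat.add 1000 (x - 1000) = x from by show 1000 + (x - 1000) = x; omega] at h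
  by_cases h3 : x < 2000
  · have h := alln_iff.1 row1_3 (x - 1500) (by omega)
    rwa [show Nat.add 1500 (x - 1500) = x from by show 1500 + (x - 1500) = x; omega] at h
  by_cases h4 : x < 2500
  · have h := alln_iff.1 row1_4 (x - 2000) (by omega)
    rwa [show Nat.add 2000 (x - 2000) = x from by show 2000 + (x - 2000) = x; omega] at h
  by_cases h5 : x < 3000
  · have h := alln_iff.1 row1_5 (x - 2500) (by omega)
    rwa [show Nat.add 2500 (x - 2500) = x from by show 2500 + (x - 2500) = x; omega] at h
  by_cases h6 : x < 3500
  · have h := alln_iff.1 row1_6 (x - 3000) (by omega)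
    rwa [show Nat.add 3000 (x - 3000) = x from by show 3000 + (x - 3000) = x; omega] at h
  by_cases h7 : x < 4000
  · have h := alln_iff.1 row1_7 (x - 3500) (by omega)
    rwa [show Nat.add 3500 (x - 3500) = x from by show 3500 + (x - 3500) = x; omega] at h
  by_cases h8 : x < 4500
  · have h := alln_iff.1 row1_8 (x - 4000) (by omega)
    rwa [show Nat.add 4000 (x - 4000) = x from by show 4000 + (x - 4000) = x; omega] at h
  by_cases h9 : x < 5000
  · have h := alln_iff.1 row1_9 (x - 4500) (by omega)
    rwa [show Nat.add 4500 (x - 4500) = x from by show 4500 + (x - 4500) = x; omega] at h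
  by_cases h10 : x < 5500
  · have h := alln_iff.1 row1_10 (x - 5000) (by omega)
    rwa [show Nat.add 5000 (x - 5000) = x from by show 5000 + (x - 5000) = x; omega] at h
  by_cases h11 : x < 6000
  · have h := alln_iff.1 row1_11 (x - 5500) (by omega)
    rwa [show Nat.add 5500 (x - 5500) = x from by show 5500 + (x - 5500) = x; omega] at h
  by_cases h12 : x < 6500
  · have h := alln_iff.1 row1_12 (x - 6000) (by omega)
    rwa [show Nat.add 6000 (x - 6000) = x from by show 6000 + (x - 6000) = x; omega] at h
  by_cases h13 : x < 7000
  · have h := alln_iff.1 row1_13 (x - 6500) (by omega)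
    rwa [show Nat.add 6500 (x - 6500) = x from by show 6500 + (x - 6500) = x; omega] at h
  by_cases h14 : x < 7500
  · have h := alln_iff.1 row1_14 (x - 7000) (by omega)
    rwa [show Nat.add 7000 (x - 7000) = x from by show 7000 + (x - 7000) = x; omega] at h
  by_cases h15 : x < 8000
  · have h := alln_iff.1 row1_15 (x - 7500) (by omega)
    rwa [show Nat.add 7500 (x - 7500) = x from by show 7500 + (x - 7500) = x; omega] at h
  by_cases h16 : x < 8500
  · have h := alln_iff.1 row1_16 (x - 8000) (by omega)
    rwa [show Nat.add 8000 (x - 8000) = x from by show 8000 + (x - 8000) = x; omega] at h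
  by_cases h17 : x < 9000
  · have h := alln_iff.1 row1_17 (x - 8500) (by omega)
    rwa [show Nat.add 8500 (x - 8500) = x from by show 8500 + (x - 8500) = x; omega] at h
  by_cases h18 : x < 9500
  · have h := alln_iff.1 row1_18 (x - 9000) (by omega)
    rwa [show Nat.add 9000 (x - 9000) = x from by show 9000 + (x - 9000) = x; omega] at h
  by_cases h19 : x < 10000
  · have h := alln_iff.1 row1_19 (x - 9500) (by omega)
    rwa [show Nat.add 9500 (x - 9500) = x from by show 9500 + (x - 9500) = x; omega] at h
  by_cases h20 : x < 10500
  · have h := alln_iff.1 row1_20 (x - 10000) (by omega)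
    rwa [show Nat.add 10000 (x - 10000) = x from by show 10000 + (x - 10000) = x; omega] at h
  by_cases h21 : x < 11000
  · have h := alln_iff.1 row1_21 (x - 10500) (by omega)
    rwa [show Nat.add 10500 (x - 10500) = x from by show 10500 + (x - 10500) = x; omega] at h
  by_cases h22 : x < 11500
  · have h := alln_iff.1 row1_22 (x - 11000) (by omega)
    rwa [show Nat.add 11000 (x - 11000) = x from by show 11000 + (x - 11000) = x; omega] at h
  by_cases h23 : x < 12000
  · have h := alln_iff.1 row1_23 (x - 11500) (by omega)
    rwa [show Nat.add 11500 (x - 11500) = x from by show 11500 + (x - 11500) = x; omega] at h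
  by_cases h24 : x < 12500
  · have h := alln_iff.1 row1_24 (x - 12000) (by omega)
    rwa [show Nat.add 12000 (x - 12000) = x from by show 12000 + (x - 12000) = x; omega] at h
  by_cases h25 : x < 13000
  · have h := alln_iff.1 row1_25 (x - 12500) (by omega)
    rwa [show Nat.add 12500 (x - 12500) = x from by show 12500 + (x - 12500) = x; omega] at h
  by_cases h26 : x < 13500
  · have h := alln_iff.1 row1_26 (x - 13000) (by omega)
    rwa [show Nat.add 13000 (x - 13000) = x from by show 13000 + (x - 13000) = x; omega] at h
  by_cases h27 : x < 14000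
  · have h := alln_iff.1 row1_27 (x - 13500) (by omega)
    rwa [show Nat.add 13500 (x - 13500) = x from by show 13500 + (x - 13500) = x; omega] at h
  by_cases h28 : x < 14500
  · have h := alln_iff.1 row1_28 (x - 14000) (by omega)
    rwa [show Nat.add 14000 (x - 14000) = x from by show 14000 + (x - 14000) = x; omega] at h
  by_cases h29 : x < 15000
  · have h := alln_iff.1 row1_29 (x - 14500) (by omega)
    rwa [show Nat.add 14500 (x - 14500) = x from by show 14500 + (x - 14500) = x; omega] at h
  by_cases h30 : x < 15500
  · have h := alln_iff.1 row1_30 (x - 15000) (by omega)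
    rwa [show Nat.add 15000 (x - 15000) = x from by show 15000 + (x - 15000) = x; omega] at h
  by_cases h31 : x < 16000
  · have h := alln_iff.1 row1_31 (x - 15500) (by omega)
    rwa [show Nat.add 15500 (x - 15500) = x from by show 15500 + (x - 15500) = x; omega] at h
  by_cases h32 : x < 16500
  · have h := alln_iff.1 row1_32 (x - 16000) (by omega)
    rwa [show Nat.add 16000 (x - 16000) = x from by show 16000 + (x - 16000) = x; omega] at h
  by_cases h33 : x < 17000
  · have h := alln_iff.1 row1_33 (x - 16500) (by omega)
    rwa [show Nat.add 16500 (x - 16500) = x from by show 16500 + (x - 16500) = x; omega] at h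
  by_cases h34 : x < 17500
  · have h := alln_iff.1 row1_34 (x - 17000) (by omega)
    rwa [show Nat.add 17000 (x - 17000) = x from by show 17000 + (x - 17000) = x; omega] at h
  by_cases h35 : x < 18000
  · have h := alln_iff.1 row1_35 (x - 17500) (by omega)
    rwa [show Nat.add 17500 (x - 17500) = x from by show 17500 + (x - 17500) = x; omega] at h
  by_cases h36 : x < 18500
  · have h := alln_iff.1 row1_36 (x - 18000) (by omega)
    rwa [show Nat.add 18000 (x - 18000) = x from by show 18000 + (x - 18000) = x; omega] at h
  by_cases h37 : x < 19000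
  · have h := alln_iff.1 row1_37 (x - 18500) (by omega)
    rwa [show Nat.add 18500 (x - 18500) = x from by show 18500 + (x - 18500) = x; omega] at h
  by_cases h38 : x < 19500
  · have h := alln_iff.1 row1_38 (x - 19000) (by omega)
    rwa [show Nat.add 19000 (x - 19000) = x from by show 19000 + (x - 19000) = x; omega] at h
  by_cases h39 : x < 20000
  · have h := alln_iff.1 row1_39 (x - 19500) (by omega)
    rwa [show Nat.add 19500 (x - 19500) = x from by show 19500 + (x - 19500) = x; omega] at h
  by_cases h40 : x < 20500
  · have h := alln_iff.1 row1_40 (x - 20000) (by omega)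
    rwa [show Nat.add 20000 (x - 20000) = x from by show 20000 + (x - 20000) = x; omega] at h
  by_cases h41 : x < 21000
  · have h := alln_iff.1 row1_41 (x - 20500) (by omega)
    rwa [show Nat.add 20500 (x - 20500) = x from by show 20500 + (x - 20500) = x; omega] at h
  by_cases h42 : x < 21500
  · have h := alln_iff.1 row1_42 (x - 21000) (by omega)
    rwa [show Nat.add 21000 (x - 21000) = x from by show 21000 + (x - 21000) = x; omega] at h
  by_cases h43 : x < 22000
  · have h := alln_iff.1 row1_43 (x - 21500) (by omega)
    rwa [show Nat.add 21500 (x - 21500) = x from by show 21500 + (x - 21500) = x; omega] at h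
  by_cases h44 : x < 22500
  · have h := alln_iff.1 row1_44 (x - 22000) (by omega)
    rwa [show Nat.add 22000 (x - 22000) = x from by show 22000 + (x - 22000) = x; omega] at h
  by_cases h45 : x < 23000
  · have h := alln_iff.1 row1_45 (x - 22500) (by omega)
    rwa [show Nat.add 22500 (x - 22500) = x from by show 22500 + (x - 22500) = x; omega] at h
  by_cases h46 : x < 23500
  · have h := alln_iff.1 row1_46 (x - 23000) (by omega)
    rwa [show Nat.add 23000 (x - 23000) = x from by show 23000 + (x - 23000) = x; omega] at h
  by_cases h47 : x < 24000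
  · have h := alln_iff.1 row1_47 (x - 23500) (by omega)
    rwa [show Nat.add 23500 (x - 23500) = x from by show 23500 + (x - 23500) = x; omega] at h
  by_cases h48 : x < 24500
  · have h := alln_iff.1 row1_48 (x - 24000) (by omega)
    rwa [show Nat.add 24000 (x - 24000) = x from by show 24000 + (x - 24000) = x; omega] at h
  by_cases h49 : x < 25000
  · have h := alln_iff.1 row1_49 (x - 24500) (by omega)
    rwa [show Nat.add 24500 (x - 24500) = x from by show 24500 + (x - 24500) = x; omega] at h
  by_cases h50 : x < 25500
  · have h := alln_iff.1 row1_50 (x - 25000) (by omega)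
    rwa [show Nat.add 25000 (x - 25000) = x from by show 25000 + (x - 25000) = x; omega] at h
  by_cases h51 : x < 26000
  · have h := alln_iff.1 row1_51 (x - 25500) (by omega)
    rwa [show Nat.add 25500 (x - 25500) = x from by show 25500 + (x - 25500) = x; omega] at h
  by_cases h52 : x < 26500
  · have h := alln_iff.1 row1_52 (x - 26000) (by omega)
    rwa [show Nat.add 26000 (x - 26000) = x from by show 26000 + (x - 26000) = x; omega] at h
  by_cases h53 : x < 27000
  · have h := alln_iff.1 row1_53 (x - 26500) (by omega)
    rwa [show Nat.add 26500 (x - 26500) = x from by show 26500 + (x - 26500) = x; omega] at h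
  by_cases h54 : x < 27500
  · have h := alln_iff.1 row1_54 (x - 27000) (by omega)
    rwa [show Nat.add 27000 (x - 27000) = x from by show 27000 + (x - 27000) = x; omega] at h
  by_cases h55 : x < 28000
  · have h := alln_iff.1 row1_55 (x - 27500) (by omega)
    rwa [show Nat.add 27500 (x - 27500) = x from by show 27500 + (x - 27500) = x; omega] at h
  by_cases h56 : x < 28500
  · have h := alln_iff.1 row1_56 (x - 28000) (by omega)
    rwa [show Nat.add 28000 (x - 28000) = x from by show 28000 + (x - 28000) = x; omega] at h
  by_cases h57 : x < 29000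
  · have h := alln_iff.1 row1_57 (x - 28500) (by omega)
    rwa [show Nat.add 28500 (x - 28500) = x from by show 28500 + (x - 28500) = x; omega] at h
  by_cases h58 : x < 29500
  · have h := alln_iff.1 row1_58 (x - 29000) (by omega)
    rwa [show Nat.add 29000 (x - 29000) = x from by show 29000 + (x - 29000) = x; omega] at h
  by_cases h59 : x < 30000
  · have h := alln_iff.1 row1_59 (x - 29500) (by omega)
    rwa [show Nat.add 29500 (x - 29500) = x from by show 29500 + (x - 29500) = x; omega] at h
  by_cases h60 : x < 30500
  · have h := alln_iff.1 row1_60 (x - 30000) (by omega)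
    rwa [show Nat.add 30000 (x - 30000) = x from by show 30000 + (x - 30000) = x; omega] at h
  by_cases h61 : x < 31000
  · have h := alln_iff.1 row1_61 (x - 30500) (by omega)
    rwa [show Nat.add 30500 (x - 30500) = x from by show 30500 + (x - 30500) = x; omega] at h
  by_cases h62 : x < 31500
  · have h := alln_iff.1 row1_62 (x - 31000) (by omega)
    rwa [show Nat.add 31000 (x - 31000) = x from by show 31000 + (x - 31000) = x; omega] at h
  by_cases h63 : x < 32000
  · have h := alln_iff.1 row1_63 (x - 31500) (by omega)
    rwa [show Nat.add 31500 (x - 31500) = x from by show 31500 + (x - 31500) = x; omega] at h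
  by_cases h64 : x < 32500
  · have h := alln_iff.1 row1_64 (x - 32000) (by omega)
    rwa [show Nat.add 32000 (x - 32000) = x from by show 32000 + (x - 32000) = x; omega] at h
  by_cases h65 : x < 33000
  · have h := alln_iff.1 row1_65 (x - 32500) (by omega)
    rwa [show Nat.add 32500 (x - 32500) = x from by show 32500 + (x - 32500) = x; omega] at h
  by_cases h66 : x < 33500
  · have h := alln_iff.1 row1_66 (x - 33000) (by omega)
    rwa [show Nat.add 33000 (x - 33000) = x from by show 33000 + (x - 33000) = x; omega] at h
  by_cases h67 : x < 34000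
  · have h := alln_iff.1 row1_67 (x - 33500) (by omega)
    rwa [show Nat.add 33500 (x - 33500) = x from by show 33500 + (x - 33500) = x; omega] at h
  by_cases h68 : x < 34500
  · have h := alln_iff.1 row1_68 (x - 34000) (by omega)
    rwa [show Nat.add 34000 (x - 34000) = x from by show 34000 + (x - 34000) = x; omega] at h
  have h := alln_iff.1 row1_69 (x - 34500) (by omega)
  rwa [show Nat.add 34500 (x - 34500) = x from by show 34500 + (x - 34500) = x; omega] at h

/-- the block system -/
theorem blocks : Blocks 22275 2 MLh.T D.cc 36 34650 D.Pt D.Lb D.dp D.pa := by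
  refine BD.blocks (D := D) (by show 2 ≤ 35; norm_num) link_ok blk_ok key_ok con_ok ?_
  intro i hi y hy
  have hi : i < 2 := hi
  interval_cases i
  · exact row0 y hy
  · exact row1 y hy

end Cfsg.Agent.Lib.H58SM.MLz
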