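import Cfsg.Agent.Lib.H58SMML
import Cfsg.Agent.Lib.H58SMMLe
import Cfsg.Agent.Lib.H58SMMLv
import Cfsg.Agent.Lib.H58SMMLk
import Cfsg.Agent.Lib.H58SMMLw_f
import Cfsg.Agent.Lib.H58SMMLz_f
import Cfsg.Agent.Lib.H58SMBl

/-!
The Schur multiplier of the McLaughlin group (helper58)
-/

set_option autoImplicit false

namespace Cfsg.Agent.Lib.H58SM.MM

open Subgroup Cfsg Cfsg.Agent.Lib.Golay Cfsg.Agent.Lib.LeechMin Cfsg.Agent.Lib.SchurSylow
open Cfsg.Agent.Lib.LeechChain Cfsg.Agent.Lib.LeechCount Cfsg.Agent.Lib.LeechCo2 Cfsg.Agent.Lib.LeechSyl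
open Cfsg.Agent.Lib.H58SM Cfsg.Agent.Lib.H58SM.LV

/-- the group -/
abbrev G : Subgroup Co0 := MLg.GG

theorem f3 : Fact (Nat.Prime 3) := ⟨Nat.prime_three⟩
theorem f5 : Fact (Nat.Prime 5) := ⟨Nat.prime_five⟩

attribute [local instance] f3 f5

theorem relE_ok : alln (fun j => alln (fun a => Nat.beq (Dat.ptf MLa.Q.T (MLe.Q.W j) a) a) 275) MLe.Q.J = true := by
  decide +kernel

theorem relE : ∀ j < MLe.Q.J, ev MLg.gg (MLe.Q.W j) = 1 := by
  refine rel_of_tab (k := 2) MLc.act.ltn MLc.act.fwd MLc.act.bwd ML.faith (Dat.wOk_iff MLe.w_ok) ?_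
  intro j hj a ha
  rw [← Dat.ptf_eq]
  exact Sol.beq_iff.1 (alln_iff.1 (alln_iff.1 relE_ok j hj) a ha)

/-! ### upper bound -/

theorem cardH : Nat.card (MulAction.stabilizer G (pnt MLv.cd 0)) = 443520 := by
  have h := MLv.act.card_stabilizer ML.gen
  rw [ML.cardG] at h
  exact Nat.eq_of_mul_eq_mul_left (by norm_num : 0 < 2025) (h.trans (by norm_num))

theorem oddsH : odds 3 (MulAction.stabilizer G (pnt MLv.cd 0)) = ⊤ := by
  refine odds_of_chain MLc.act MLv.act ML.faith (by norm_num : 2 ≤ 9) MLk.nd_ok MLk.fx_ok MLk.tab_ok MLk.wrd_ok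
    MLk.rl_ok ?_ MLk.chain_ok (by rw [cardH, MLk.prod_eq])
  intro i hi
  interval_cases i
  · exact ⟨5, by norm_num, rfl⟩
  · exact ⟨2, by norm_num, rfl⟩

theorem three : PStemDvd 3 G 3 :=
  pStemDvd_of_RGen (s := 1) (q := 1) (N := 1) (M := 3) MLe.Q MLv.act ML.gen
    (pStemDvd_nine (by rw [cardH]; norm_num)) (not_dvd_of_odds oddsH) relE MLe.tab1_ok MLe.w_ok
    MLe.s_ok MLe.p_ok MLe.p2_ok MLe.nr MLe.nr_ok MLe.zl_ok rfl rfl (by decide) MLe.chkQ MLe.Lr MLe.Rr MLe.row_ok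
    MLe.gen_ok MLe.par_ok (by decide) rfl

theorem stem_three : StemDvd G 3 := by
  apply StemDvd.of_forall
  intro p hp
  by_cases h2 : p = 2
  · subst h2; exact ML.two.mono (one_dvd _)
  by_cases h3 : p = 3
  · subst h3; exact three
  by_cases h5 : p = 5
  · subst h5; exact ML.five.mono (one_dvd _)
  exact pStem_big 3 7 6 3 77 (by rw [ML.cardG]; norm_num) (by decide +kernel) hp h2 h3 h5

/-! ### lower bound -/

theorem nonprime : ¬ (Nat.card G).Prime := by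
  rw [ML.cardG]; norm_num

theorem perf : commutator G = ⊤ := perfect_of_simple ML.simple nonprime

theorem ne6_ok : Nat.beq (Nat.mod (MLz.D.peN (MLe.Q.W 6) 0) 3) 0 = false := by decide +kernel

theorem pe0_ok : Nat.beq (Nat.mod (MLz.D.peN (MLe.Q.W 0) 0) 3) 0 = true := by decide +kernel

theorem pe1_ok : Nat.beq (Nat.mod (MLz.D.peN (MLe.Q.W 1) 0) 3) 0 = true := by decide +kernel

theorem pe_zero {v : List ℕ} (h : Nat.beq (Nat.mod (MLz.D.peN v 0) 3) 0 = true) : pe MLh.T MLz.D.cc v 0 = 0 := by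
  have h1 := MLz.D.pe_peN v 0
  have h2 : MLz.D.peN v 0 % 3 = 0 := Sol.beq_iff.1 h
  refine h1.trans ?_
  exact (ZMod.natCast_eq_zero_iff _ 3).2 (Nat.dvd_of_mod_eq_zero h2)

theorem pe_ne {v : List ℕ} (h : Nat.beq (Nat.mod (MLz.D.peN v 0) 3) 0 = false) : pe MLh.T MLz.D.cc v 0 ≠ 0 := by
  intro h0
  have h1 := MLz.D.pe_peN v 0
  have h2 : ((MLz.D.peN v 0 : ℕ) : ZMod 3) = 0 := h1.symm.trans h0
  have h3 : MLz.D.peN v 0 % 3 = 0 := Nat.mod_eq_zero_of_dvd ((ZMod.natCast_eq_zero_iff _ 3).1 h2)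
  rw [show Nat.beq (Nat.mod (MLz.D.peN v 0) 3) 0 = true from Sol.beq_iff.2 h3] at h
  exact absurd h (by decide)

/-- orders of the generators -/
def ord (i : ℕ) : ℕ := if i = 0 then 2 else 4

theorem exists_cover : ∃ (Γ : Type) (_ : Group Γ) (_ : Finite Γ) (π : Γ →* G), IsStemExtension π ∧
    Nonempty (Multiplicative (ZMod 3) ≃* π.ker) := by
  refine Bk.exists_stem (B := ZMod 3) MLw.act_all.1 MLz.blocks ML.gen perf ord ?_ [MLe.Q.W 6] ?_ ?_
  · intro i hi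
    have h3 : Nat.card (ZMod 3) = 3 := Nat.card_zmod 3
    interval_cases i
    · refine ⟨?_, by rw [h3]; decide, pe_zero pe0_ok⟩
      have h := relE 0 (by show 0 < 32; norm_num)
      exact (ev_replicate MLg.gg 0 2).symm.trans h
    · refine ⟨?_, by rw [h3]; decide, pe_zero pe1_ok⟩
      have h := relE 1 (by show 1 < 32; norm_num)
      exact (ev_replicate MLg.gg 1 4).symm.trans h
  · intro v hv
    rw [List.mem_singleton] at hv
    subst hv
    exact ⟨Dat.wOk_iff MLe.w_ok 6 (by show 6 < 32; norm_num), relE 6 (by show 6 < 32; norm_num)⟩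
  · exact Bk.closure_top (List.mem_singleton.2 rfl) (pe_ne ne6_ok)

theorem exists_stem : ∃ (Γ : Type) (_ : Group Γ) (_ : Finite Γ) (σ : Γ →* G), IsStemExtension σ ∧ Nat.card σ.ker = 3 := by
  obtain ⟨Γ, h1, h2, π, h3, ⟨e⟩⟩ := exists_cover
  refine ⟨Γ, h1, h2, π, h3, ?_⟩
  rw [← Nat.card_congr e.toEquiv]
  exact Nat.card_zmod 3

/-! ### the group of the statement -/

theorem eV : Spor.leechV = -U none := by
  apply Subtype.ext
  show Spor.vecV = -(U none : GolayPt → ℤ)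
  funext i
  rw [Pi.neg_apply, U_apply]
  revert i
  decide +kernel

theorem eU : Spor.leechU = X hab := by
  apply Subtype.ext
  show Spor.vecU = (X hab : GolayPt → ℤ)
  rw [coe_X]
  decide +kernel

theorem mem_iff (g : Co0) : g ∈ G ↔ g • Spor.leechV = Spor.leechV ∧ g • Spor.leechU = Spor.leechU := by
  rw [mem_fix2, eV, eU, smul_neg', neg_inj, and_comm]

/-- the group of the statement -/
noncomputable def equivMcL : G ≃* Spor.McL where
  toFun g := ⟨(g : Co0).1, ⟨(g : Co0).2, ((mem_iff _).1 g.2).1⟩, ((mem_iff _).1 g.2).2⟩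
  invFun g := ⟨⟨g.1, g.2.1.1⟩, (mem_iff _).2 ⟨g.2.1.2, g.2.2⟩⟩
  left_inv _ := rfl
  right_inv _ := rfl
  map_mul' _ _ := rfl

end Cfsg.Agent.Lib.H58SM.MM
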