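import Cfsg.Agent.Lib.H58SMh

/-!
Schur multiplier engine, part n: normalisation of one generator by a general relator (helper58)
-/

set_option autoImplicit false

namespace Cfsg.Agent.Lib.H58SM

open Subgroup Cfsg.Agent.Lib.SchurSylow Cfsg.Agent.Lib.SchurMult

universe u v w

/-- exponent sum of the generator `i` in a word -/
def es (i : ℕ) : List ℕ → ℤ
  | [] => 0
  | l :: w => es i w + (if l / 2 = i then (if l % 2 = 0 then 1 else -1) else 0)

theorem ev_twist {Γ : Type*} [Group Γ] {x x' : ℕ → Γ} {i : ℕ} {z : Γ} (hz : ∀ y : Γ, y * z = z * y)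
    (h1 : x' i = x i * z) (h2 : ∀ j, j ≠ i → x' j = x j) (w : List ℕ) : ev x' w = ev x w * z ^ es i w := by
  have hzi : ∀ (n : ℤ) (y : Γ), z ^ n * y = y * z ^ n := fun n y =>
    (Commute.zpow_right (show Commute y z from hz y) n).eq.symm
  have hl : ∀ l, lt x' l = lt x l * z ^ (if l / 2 = i then (if l % 2 = 0 then (1 : ℤ) else -1) else 0) := by
    intro l
    unfold lt
    by_cases hi : l / 2 = i
    · rw [if_pos hi, hi, h1]
      by_cases h : l % 2 = 0
      · rw [if_pos h, if_pos h, if_pos h, zpow_one]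
      · rw [if_neg h, if_neg h, if_neg h, mul_inv_rev, zpow_neg, zpow_one]
        have := hzi (-1) (x i)⁻¹
        rw [zpow_neg, zpow_one] at this
        exact this
    · rw [if_neg hi, h2 _ hi, zpow_zero, mul_one]
  induction w with
  | nil => show ev x' [] = ev x [] * z ^ (0 : ℤ); rw [ev_nil, ev_nil, zpow_zero, mul_one]
  | cons l w ih =>
    have he : es i (l :: w) = es i w + (if l / 2 = i then (if l % 2 = 0 then (1 : ℤ) else -1) else 0) := rfl
    rw [ev_cons, ev_cons, ih, hl, he, zpow_add, mul_assoc, ← mul_assoc (z ^ es i w), hzi]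
    group

/-- the main theorem of the engine, one generator normalised by a general relator -/
theorem pStemDvd_of_datW {p s q : ℕ} [hp : Fact p.Prime] {G : Type u} [Group G] [Finite G] {Ω : Type w} [MulAction G Ω]
    (D : Dat) {g : ℕ → G} {e : ℕ → Ω} (A : Act D.n D.k g e D.T D.pi D.pq)
    (hgen : closure {z | ∃ i < D.k, z = g i} = ⊤)
    (hH : PStemDvd p (MulAction.stabilizer G (e 0)) 1)
    (hab : ¬ p ∣ (commutator (MulAction.stabilizer G (e 0))).index)
    (hW : ∀ j < D.J, ∀ l ∈ D.W j, l < 2 * D.k) (hrel : ∀ j < D.J, ev g (D.W j) = 1)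
    (nf : ℕ → ℕ) (i0 j0 : ℕ) (hj0 : j0 < D.J) (hes : ¬ (p : ℤ) ∣ es i0 (D.W j0)) (hnf0 : nf i0 = D.k * D.n + j0)
    (hnf : ∀ i < D.k, i ≠ i0 → (∃ a < D.n, D.T (2 * i) a = a ∧ nf i = i * D.n + a) ∨
      ∃ j < D.J, ∃ o, ¬ p ∣ o ∧ D.W j = List.replicate o (2 * i) ∧ nf i = D.k * D.n + j)
    (hZl : ∀ x ∈ D.Zl, ∃ i < D.k, x = nf i)
    (hDp : D.p = p) (hDm : D.m = p ^ s) (hpq : p * q ∣ D.m)
    (hchk : ∀ x < D.N, D.chk x = true)
    {gl : List (ℕ × ℕ × List (ℕ × ℕ))} {C : ℕ → List (ℕ × ℕ) × List (ℕ × ℕ)}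
    (hg : D.genOk gl = true) (hpar : D.parOk gl C = true) (hq : ∀ r ∈ gl, r.2.1 ∣ q) :
    PStemDvd p G (gl.map fun r => r.2.1).prod := by
  refine pStemDvd_of_exp hpq ?_
  intro Γ _ _ σ hσ hpg hexp
  have hcomm : ∀ z ∈ σ.ker, ∀ y : Γ, y * z = z * y := fun z hz y => mem_center_iff.1 (hσ.2.1 hz) y
  obtain ⟨B, _, ν, hν1, hν2, hν3⟩ := exists_nu σ hσ.1 hσ.2.1 hpg hexp (MulAction.stabilizer G (e 0)) hH hab
  choose x' hx' using fun i => hσ.1 (g i)
  have htr : ∀ a < D.n, ∃ t : Γ, σ t • e 0 = e a := fun a ha =>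
    ⟨tau x' D.pi D.pq a, tau_smul σ x' A (fun i _ => hx' i) ha⟩
  have hkS : ∀ z ∈ σ.ker, z ∈ (MulAction.stabilizer G (e 0)).comap σ := by
    intro z hz
    rw [mem_comap, MonoidHom.mem_ker.1 hz]
    exact one_mem _
  have hpk : ∀ z ∈ σ.ker, ∃ r : ℕ, z ^ p ^ r = 1 := by
    intro z hz
    obtain ⟨r, hr⟩ := hpg ⟨z, hz⟩
    exact ⟨r, congrArg Subtype.val hr⟩
  -- normalised lifts
  have hlift : ∀ i, ∃ y : Γ, σ y = g i ∧ (i < D.k → i ≠ i0 → (∀ a < D.n, D.T (2 * i) a = a → nf i = i * D.n + a →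
      ∀ t : Γ, σ t • e 0 = e a → nv ν (t⁻¹ * y * t) = 0) ∧
      (∀ j < D.J, ∀ o, ¬ p ∣ o → D.W j = List.replicate o (2 * i) → nf i = D.k * D.n + j → nv ν (y ^ o) = 0)) := by
    intro i
    by_cases hi : i < D.k
    · by_cases hi0 : i = i0
      · exact ⟨x' i, hx' i, fun _ h => absurd hi0 h⟩
      have hik : ∀ a < D.n, i * D.n + a < D.k * D.n := by
        intro a ha
        calc i * D.n + a < i * D.n + D.n := by omega
          _ = (i + 1) * D.n := by ring
          _ ≤ D.k * D.n := Nat.mul_le_mul_right _ (by omega)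
      rcases hnf i hi hi0 with ⟨a, ha, haf, hnfa⟩ | ⟨j, hj, o, ho, hWj, hnfj⟩
      · obtain ⟨t0, ht0⟩ := htr a ha
        have hm0 : t0⁻¹ * x' i * t0 ∈ (MulAction.stabilizer G (e 0)).comap σ :=
          mem_stab σ (a := a) (b := a) (by rw [hx', A.fwd i hi a ha, haf]) ht0 ht0
        obtain ⟨z, hz, hνz⟩ := hν3 ⟨_, hm0⟩
        refine ⟨x' i * (z : Γ)⁻¹, by rw [map_mul, map_inv, MonoidHom.mem_ker.1 hz, inv_one, mul_one, hx'], ?_⟩
        intro _ _
        refine ⟨?_, ?_⟩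
        · intro a' ha' haf' hnfa' t ht
          have haa : a' = a := by omega
          subst haa
          have hmt : t⁻¹ * x' i * t ∈ (MulAction.stabilizer G (e 0)).comap σ :=
            mem_stab σ (a := a') (b := a') (by rw [hx', A.fwd i hi a' ha', haf']) ht ht
          have e1 : t⁻¹ * (x' i * (z : Γ)⁻¹) * t = (t⁻¹ * x' i * t) * (z : Γ)⁻¹ := by
            have := hcomm _ (inv_mem hz) t
            calc t⁻¹ * (x' i * (z : Γ)⁻¹) * t = t⁻¹ * x' i * ((z : Γ)⁻¹ * t) := by group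
              _ = t⁻¹ * x' i * t * (z : Γ)⁻¹ := by rw [← this]; group
          rw [e1, nv_mul ν hmt (inv_mem z.2), nv_inv ν z.2]
          have hs : t⁻¹ * t0 ∈ (MulAction.stabilizer G (e 0)).comap σ := by
            have := mem_stab σ (y := 1) (a := a') (b := a') (t := t0) (t' := t) (by rw [map_one, one_smul]) ht0 ht
            rwa [mul_one] at this
          have e2 : nv ν (t⁻¹ * x' i * t) = nv ν (t0⁻¹ * x' i * t0) := by
            rw [← nv_conj ν hmt hs]
            congr 1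
            group
          rw [e2, nv_of ν hm0, nv_of ν z.2, hνz, add_neg_cancel]
        · intro j _ o _ _ hnfj
          have := hik a ha
          omega
      · -- power relator
        have hxo : x' i ^ o ∈ σ.ker := by
          rw [MonoidHom.mem_ker, map_pow, hx', ← ev_replicate, ← hWj]
          exact hrel j hj
        obtain ⟨r, hr⟩ := hpk _ hxo
        obtain ⟨b, hb⟩ := exists_root ho hr
        set z := (x' i ^ o) ^ b with hzdef
        have hz : z ∈ σ.ker := pow_mem hxo b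
        refine ⟨x' i * z⁻¹, by rw [map_mul, map_inv, MonoidHom.mem_ker.1 hz, inv_one, mul_one, hx'], ?_⟩
        intro _ _
        refine ⟨?_, ?_⟩
        · intro a ha _ hnfa
          have := hik a ha
          omega
        · intro j' _ o' _ hWj' hnfj'
          have hjj : j' = j := by omega
          subst hjj
          have hoo : o' = o := by
            rw [hWj] at hWj'
            have := congrArg List.length hWj'
            rw [List.length_replicate, List.length_replicate] at this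
            exact this.symm
          subst hoo
          have hc : Commute (x' i) z⁻¹ := hcomm _ (inv_mem hz) _
          rw [hc.mul_pow, inv_pow, hb, mul_inv_cancel, nv_one]
    · exact ⟨x' i, hx' i, fun h => absurd h hi⟩
  choose x1 hx1 hxn1 using hlift
  obtain ⟨x, hx, hxn, hx0⟩ : ∃ x : ℕ → Γ, (∀ i, σ (x i) = g i) ∧ (∀ i, i ≠ i0 → x i = x1 i) ∧ ev x (D.W j0) = 1 := by
    have hk : ev x1 (D.W j0) ∈ σ.ker := by
      rw [MonoidHom.mem_ker, map_ev, ev_congr (k := D.k) (y := g) (fun i _ => hx1 i) (hW j0 hj0)]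
      exact hrel j0 hj0
    obtain ⟨r, hr⟩ := hpk _ hk
    have hr' : (ev x1 (D.W j0))⁻¹ ^ p ^ r = 1 := by rw [inv_pow, hr, inv_one]
    have hnd : ¬ p ∣ (es i0 (D.W j0)).natAbs := fun h => hes (Int.natCast_dvd.2 h)
    obtain ⟨z, hz, hze⟩ : ∃ z ∈ σ.ker, z ^ es i0 (D.W j0) = (ev x1 (D.W j0))⁻¹ := by
      rcases Int.natAbs_eq (es i0 (D.W j0)) with h | h
      · obtain ⟨b, hb⟩ := exists_root hnd hr'
        refine ⟨_, pow_mem (inv_mem hk) b, ?_⟩
        rw [h, zpow_natCast]; exact hb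
      · obtain ⟨b, hb⟩ := exists_root hnd hr
        refine ⟨_, pow_mem hk b, ?_⟩
        rw [h, zpow_neg, zpow_natCast, hb]
    refine ⟨fun i => if i = i0 then x1 i * z else x1 i, ?_, ?_, ?_⟩
    · intro i
      show σ (if i = i0 then x1 i * z else x1 i) = g i
      split_ifs with h
      · rw [map_mul, MonoidHom.mem_ker.1 hz, mul_one, hx1]
      · exact hx1 i
    · intro i h
      show (if i = i0 then x1 i * z else x1 i) = _
      rw [if_neg h]
    · have := ev_twist (x := x1) (x' := fun i => if i = i0 then x1 i * z else x1 i) (i := i0) (z := z)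
        (hcomm z hz) (if_pos rfl) (fun j hj => if_neg hj) (D.W j0)
      rw [this, hze, mul_inv_cancel]
  -- the solution
  let val : ℕ → B := fun y => if y < D.k * D.n then cc ν D.T x D.pi D.pq (y / D.n) (y % D.n)
    else nv ν (ev x (D.W (y - D.k * D.n)))
  have hik : ∀ i < D.k, ∀ a < D.n, i * D.n + a < D.k * D.n := by
    intro i hi a ha
    calc i * D.n + a < i * D.n + D.n := by omega
      _ = (i + 1) * D.n := by ring
      _ ≤ D.k * D.n := Nat.mul_le_mul_right _ (by omega)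
  have hval1 : ∀ i < D.k, ∀ a < D.n, val (i * D.n + a) = cc ν D.T x D.pi D.pq i a := by
    intro i hi a ha
    show (if _ then _ else _) = _
    rw [if_pos (hik i hi a ha)]
    have h1 : (i * D.n + a) / D.n = i := by
      rw [mul_comm, Nat.mul_add_div A.pos, Nat.div_eq_of_lt ha, add_zero]
    have h2 : (i * D.n + a) % D.n = a := by
      rw [mul_comm, Nat.mul_add_mod, Nat.mod_eq_of_lt ha]
    rw [h1, h2]
  have hval2 : ∀ j, val (D.k * D.n + j) = nv ν (ev x (D.W j)) := by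
    intro j
    show (if _ then _ else _) = _
    rw [if_neg (by omega)]
    congr 3
    omega
  have hpe : ∀ w : List ℕ, (∀ l ∈ w, l < 2 * D.k) → ∀ a < D.n, pf D.n D.T val w a =
      pe D.T (cc ν D.T x D.pi D.pq) w a := by
    intro w
    induction w with
    | nil => intro _ a _; rfl
    | cons l w ih =>
      intro hw a ha
      have hl := hw l List.mem_cons_self
      have hTa := A.ltn l hl a ha
      rw [pf_cons, ih (fun l hl => hw l (List.mem_cons_of_mem _ hl)) _ hTa, pe, itm]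
      by_cases h : l % 2 = 0
      · rw [if_pos h, if_pos h, if_pos h, hval1 _ (by omega) _ ha]
      · rw [if_neg h, if_neg h, if_neg h, hval1 _ (by omega) _ hTa]
  have hevk : ∀ j < D.J, ev x (D.W j) ∈ σ.ker := by
    intro j hj
    rw [MonoidHom.mem_ker, map_ev, ev_congr (k := D.k) (y := g) (fun i _ => hx i) (hW j hj)]
    exact hrel j hj
  have S : Sol D val := by
    refine ⟨?_, ?_, ?_, ?_⟩
    · intro y
      have : D.m • (if y < D.k * D.n then cc ν D.T x D.pi D.pq (y / D.n) (y % D.n)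
          else nv ν (ev x (D.W (y - D.k * D.n)))) = 0 := by
        split_ifs
        · exact nsmul_nv ν hν1 _
        · exact nsmul_nv ν hν1 _
      exact this
    · intro j hj a ha
      rw [hpe _ (hW j hj) a ha]
      have hp1 : pt D.T (D.W j) a = a := by
        apply A.inj (A.pt_lt (hW j hj) ha) ha
        rw [← A.smul_ev (hW j hj) ha, hrel j hj, one_smul]
      rw [closed σ x ν A (fun i _ => hx i) (hW j hj) ha hp1 (tau_smul σ x A (fun i _ => hx i) ha)]
      have : (tau x D.pi D.pq a)⁻¹ * ev x (D.W j) * tau x D.pi D.pq a = ev x (D.W j) := by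
        rw [hcomm _ (hevk j hj), mul_assoc, inv_mul_cancel, mul_one]
      rw [this]
      exact (hval2 j).symm
    · intro b hb h0
      obtain ⟨h1, h2, -⟩ := A.par b hb h0
      rw [hval1 _ h1 _ (h2.trans hb)]
      exact tree σ ν A x hb h0
    · intro y hy
      obtain ⟨i, hi, rfl⟩ := hZl y hy
      by_cases hi0 : i = i0
      · rw [hi0, hnf0, hval2 j0, hx0, nv_one]
      rcases hnf i hi hi0 with ⟨a, ha, haf, hnfa⟩ | ⟨j, hj, o, ho, hWj, hnfj⟩
      · rw [hnfa, hval1 i hi a ha, cc, hh, haf, hxn i hi0]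
        exact (hxn1 i hi hi0).1 a ha haf hnfa _ (tau_smul σ x A (fun i _ => hx i) ha)
      · rw [hnfj, hval2 j, hWj, ev_replicate, hxn i hi0]
        exact (hxn1 i hi hi0).2 j hj o ho hWj hnfj
  have hm : D.m ≠ 0 := by rw [hDm]; exact pow_ne_zero _ hp.out.ne_zero
  have hd := S.dev_eq_zero hDp hDm hchk
  obtain ⟨hfin1, hfin2⟩ := S.final hm A.ltn hW hd hg hpar
  set Q := AddSubgroup.closure {b | ∃ r ∈ gl, b = val (D.par r.1)} with hQ
  -- the kernel
  have hcl := closure_lifts σ hσ (x := x) (k := D.k) (by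
    rw [← hgen]; congr 1; ext z
    exact ⟨fun ⟨i, hi, h⟩ => ⟨i, hi, by rw [h, hx]⟩, fun ⟨i, hi, h⟩ => ⟨i, hi, by rw [h, hx]⟩⟩)
  have hkQ : ∀ z ∈ σ.ker, nv ν z ∈ Q := by
    intro z hz
    have h1 := nv_mem_closure σ x ν A (fun i _ => hx i) (hkS z hz) (by rw [hcl]; trivial)
    refine (AddSubgroup.closure_le _).2 ?_ h1
    rintro _ ⟨i, hi, a, ha, rfl⟩
    rw [← hval1 i hi a ha]
    exact hfin2 _ (by have := hik i hi a ha; unfold Dat.N; omega)
  have hinj : ∀ z ∈ σ.ker, nv ν z = 0 → z = 1 := by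
    intro z hz h
    have h1 := hν2 ⟨z, hkS z hz⟩ hz (by
      rw [nv_of ν (hkS z hz)] at h
      exact h)
    exact congrArg Subtype.val h1
  refine ⟨?_, ?_⟩
  · intro z hz
    apply hinj _ (pow_mem hz q)
    rw [nv_pow ν (hkS z hz)]
    have h1 : ∀ b ∈ Q, q • b = 0 := by
      intro b hb
      induction hb using AddSubgroup.closure_induction with
      | mem b hb =>
        obtain ⟨r, hr, rfl⟩ := hb
        obtain ⟨c, hc⟩ := hq r hr
        rw [hc, mul_comm, mul_smul, hfin1 r hr, smul_zero]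
      | zero => exact smul_zero _
      | add a b _ _ ha hb => rw [smul_add, ha, hb, add_zero]
      | neg a _ ha => rw [smul_neg, ha, neg_zero]
    exact h1 _ (hkQ z hz)
  · have h1 := card_closure_dvd (gl.map fun r => (val (D.par r.1), r.2.1)) (by
      intro r hr
      rw [List.mem_map] at hr
      obtain ⟨r, hr, rfl⟩ := hr
      exact hfin1 r hr)
    have h2 : {b | ∃ r ∈ gl.map (fun r => (val (D.par r.1), r.2.1)), b = r.1} = {b | ∃ r ∈ gl, b = val (D.par r.1)} := by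
      ext b
      constructor
      · rintro ⟨r, hr, rfl⟩
        rw [List.mem_map] at hr
        obtain ⟨r, hr, rfl⟩ := hr
        exact ⟨r, hr, rfl⟩
      · rintro ⟨r, hr, rfl⟩
        exact ⟨_, List.mem_map.2 ⟨r, hr, rfl⟩, rfl⟩
    rw [h2, ← hQ, List.map_map] at h1
    refine Dvd.dvd.trans ?_ h1
    let φ : σ.ker →* Multiplicative Q :=
      { toFun := fun z => Multiplicative.ofAdd ⟨nv ν (z : Γ), hkQ z z.2⟩
        map_one' := by
          have : (⟨nv ν (1 : Γ), hkQ 1 (one_mem _)⟩ : Q) = 0 := Subtype.ext (nv_one ν)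
          exact this
        map_mul' := by
          rintro ⟨z, hz⟩ ⟨z', hz'⟩
          have : (⟨nv ν (z * z'), hkQ _ (mul_mem hz hz')⟩ : Q) = ⟨nv ν z, hkQ z hz⟩ + ⟨nv ν z', hkQ z' hz'⟩ :=
            Subtype.ext (nv_mul ν (hkS z hz) (hkS z' hz'))
          exact this }
    have hφ : Function.Injective φ := by
      rw [injective_iff_map_eq_one]
      rintro ⟨z, hz⟩ h
      exact Subtype.ext (hinj z hz (congrArg Subtype.val h))
    have h3 := Subgroup.card_dvd_of_injective φ hφ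
    rwa [Nat.card_congr (Multiplicative.toAdd : Multiplicative Q ≃ Q)] at h3


/-- numbers of letters -/
def cnt (x : ℕ) (w : List ℕ) : ℕ :=
  List.rec (motive := fun _ => ℕ) 0 (fun l _ ih => cond (Nat.beq l x) (Nat.succ ih) ih) w

theorem cnt_cons (x l : ℕ) (w : List ℕ) : cnt x (l :: w) = if l = x then cnt x w + 1 else cnt x w := by
  have h : cnt x (l :: w) = cond (Nat.beq l x) (Nat.succ (cnt x w)) (cnt x w) := rfl
  rw [h]
  by_cases hl : l = x
  · rw [if_pos hl, Sol.beq_iff.2 hl, cond_true]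
  · rw [if_neg hl, beq_ne hl, cond_false]

theorem es_cnt (i : ℕ) (w : List ℕ) : es i w = (cnt (2 * i) w : ℤ) - (cnt (2 * i + 1) w : ℤ) := by
  induction w with
  | nil => rfl
  | cons l w ih =>
    have he : es i (l :: w) = es i w + (if l / 2 = i then (if l % 2 = 0 then (1 : ℤ) else -1) else 0) := rfl
    rw [he, ih, cnt_cons, cnt_cons]
    by_cases h1 : l / 2 = i
    · rw [if_pos h1]
      by_cases h2 : l % 2 = 0
      · rw [if_pos h2, if_pos (by omega), if_neg (by omega)]; push_cast; ring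
      · rw [if_neg h2, if_neg (by omega), if_pos (by omega)]; push_cast; ring
    · rw [if_neg h1, if_neg (by omega), if_neg (by omega), add_zero]

namespace Dat

variable (D : Dat)

/-- normalisation data: `(0, a)` a fixed point, `(o, j)` with `o > 0` the relator `j = x_i ^ o`; for `i0` a general relator -/
def nrW (nr : ℕ → ℕ × ℕ) (i0 : ℕ) : Bool := (Nat.blt i0 D.k && ((!(Nat.beq (nr i0).1 0)) && (Nat.blt (nr i0).2 D.J &&
  !(Nat.beq (Nat.mod (cnt (Nat.mul 2 i0) (D.W (nr i0).2)) D.p) (Nat.mod (cnt (Nat.succ (Nat.mul 2 i0)) (D.W (nr i0).2)) D.p))))) &&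
  alln (fun i => cond (Nat.beq i i0) true
  (cond (Nat.beq (nr i).1 0)
    (Nat.blt (nr i).2 D.n && Nat.beq (D.T (Nat.mul 2 i) (nr i).2) (nr i).2)
    (Nat.blt (nr i).2 D.J && (!(Nat.beq (Nat.mod (nr i).1 D.p) 0) && isRep i (nr i).1 (D.W (nr i).2))))) D.k

variable {D}

theorem nrW_of {nr : ℕ → ℕ × ℕ} {i0 : ℕ} (h : D.nrW nr i0 = true) : (nr i0).2 < D.J ∧
    ¬ (D.p : ℤ) ∣ es i0 (D.W (nr i0).2) ∧ D.nfi nr i0 = D.k * D.n + (nr i0).2 ∧
    ∀ i < D.k, i ≠ i0 → (∃ a < D.n, D.T (2 * i) a = a ∧ D.nfi nr i = i * D.n + a) ∨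
      ∃ j < D.J, ∃ o, ¬ D.p ∣ o ∧ D.W j = List.replicate o (2 * i) ∧ D.nfi nr i = D.k * D.n + j := by
  unfold nrW at h
  rw [Bool.and_eq_true, Bool.and_eq_true, Bool.and_eq_true, Bool.and_eq_true, Sol.blt_iff, Sol.blt_iff] at h
  obtain ⟨⟨h1, h2, h3, h4⟩, h5⟩ := h
  have h2' : (nr i0).1 ≠ 0 := by
    intro h0
    rw [Sol.beq_iff.2 h0] at h2
    exact absurd h2 (by decide)
  refine ⟨h3, ?_, ?_, ?_⟩
  · intro hd
    rw [es_cnt] at hd
    have h6 : cnt (2 * i0) (D.W (nr i0).2) % D.p = cnt (2 * i0 + 1) (D.W (nr i0).2) % D.p :=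
      ((Nat.modEq_iff_dvd).2 (by
        have := dvd_neg.2 hd
        rwa [neg_sub] at this))
    rw [Sol.beq_iff.2 (show Nat.mod (cnt (Nat.mul 2 i0) (D.W (nr i0).2)) D.p =
      Nat.mod (cnt (Nat.succ (Nat.mul 2 i0)) (D.W (nr i0).2)) D.p from h6)] at h4
    exact absurd h4 (by decide)
  · unfold nfi
    rw [beq_ne h2']; rfl
  · intro i hi hne
    have h1 := alln_iff.1 h5 i hi
    rw [beq_ne hne, cond_false] at h1
    by_cases h0 : (nr i).1 = 0
    · left
      rw [h0] at h1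
      have h1 : (Nat.blt (nr i).2 D.n && Nat.beq (D.T (Nat.mul 2 i) (nr i).2) (nr i).2) = true := h1
      rw [Bool.and_eq_true, Sol.blt_iff, Sol.beq_iff] at h1
      refine ⟨(nr i).2, h1.1, h1.2, ?_⟩
      unfold nfi
      rw [h0]; rfl
    · right
      rw [beq_ne h0, cond_false, Bool.and_eq_true, Bool.and_eq_true, Sol.blt_iff] at h1
      obtain ⟨h2, h3, h4⟩ := h1
      refine ⟨(nr i).2, h2, (nr i).1, ?_, isRep_spec h4, ?_⟩
      · intro hd
        rw [show Nat.beq (Nat.mod (nr i).1 D.p) 0 = true from Sol.beq_iff.2 (Nat.mod_eq_zero_of_dvd hd)] at h3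
        exact absurd h3 (by decide)
      · unfold nfi
        rw [beq_ne h0]; rfl

end Dat

/-- the engine with all checks packed, one generator normalised by a general relator -/
theorem pStemDvd_of_checksW {p s q N : ℕ} [hp : Fact p.Prime] {G : Type u} [Group G] [Finite G] {Ω : Type w}
    [MulAction G Ω] (D : Dat) {g : ℕ → G} {e : ℕ → Ω} (A : Act D.n D.k g e D.T D.pi D.pq)
    (hgen : closure {z | ∃ i < D.k, z = g i} = ⊤)
    (hH : PStemDvd p (MulAction.stabilizer G (e 0)) 1)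
    (hab : ¬ p ∣ (commutator (MulAction.stabilizer G (e 0))).index)
    (hW : D.wOk = true) (hrel : ∀ j < D.J, ev g (D.W j) = 1)
    (nr : ℕ → ℕ × ℕ) (i0 : ℕ) (hnr : D.nrW nr i0 = true) (hzl : D.zlOk nr = true)
    (hDp : D.p = p) (hDm : D.m = p ^ s) (hpq : p * q ∣ D.m)
    (hchk : ∀ x < D.N, D.chk x = true)
    {gl : List (ℕ × ℕ × List (ℕ × ℕ))} {C : ℕ → List (ℕ × ℕ) × List (ℕ × ℕ)}
    (hg : D.genOk gl = true) (hpar : D.parOk gl C = true) (hq : ∀ r ∈ gl, r.2.1 ∣ q)
    (hN : (gl.map fun r => r.2.1).prod = N) : PStemDvd p G N := by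
  rw [← hN]
  obtain ⟨h1, h2, h3, h4⟩ := Dat.nrW_of hnr
  rw [hDp] at h2 h4
  exact pStemDvd_of_datW (q := q) D A hgen hH hab (Dat.wOk_iff hW) hrel (D.nfi nr) i0 _ h1 h2 h3 h4 (Dat.zl_of nr hzl)
    hDp hDm hpq hchk hg hpar hq

/-- main theorem in terms of packed data, one generator normalised by a general relator -/
theorem pStemDvd_of_QW {p s q N dr : ℕ} [hp : Fact p.Prime] {G : Type u} [Group G] [Finite G] {Ω : Type w}
    [MulAction G Ω] (Q : DatQ) {g : ℕ → G} {e : ℕ → Ω} (A : Act Q.n Q.k g e Q.T Q.pi Q.pq)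
    (hgen : closure {z | ∃ i < Q.k, z = g i} = ⊤)
    (hH : PStemDvd p (MulAction.stabilizer G (e 0)) 1)
    (hab : ¬ p ∣ (commutator (MulAction.stabilizer G (e 0))).index)
    (hrel : ∀ j < Q.J, ev g (Q.W j) = 1)
    (hT : Q.toDat.tab1 = true)
    (hW : Q.toDat.wOk = true) (hS : Q.sOk = true) (hP : Q.pOk = true) (hP2 : Q.pOk2 = true)
    (nr : ℕ → ℕ × ℕ) (i0 : ℕ) (hnr : Q.toDat.nrW nr i0 = true) (hzl : Q.toDat.zlOk nr = true)
    (hDp : Q.p = p) (hDm : Q.m = p ^ s) (hpq : p * q ∣ Q.m)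
    (hchk : ∀ x < Q.toDat.N, Q.chk x = true) (Lr Rr : ℕ → ℕ)
    (hrow : alln (fun i => Q.rowChk (Lr i) (Rr i)) dr = true)
    {gl : List (ℕ × ℕ × List (ℕ × ℕ))} {C : ℕ → List (ℕ × ℕ) × List (ℕ × ℕ)}
    (hg : Q.genR dr Rr gl = true) (hpar : Q.parR dr Rr gl C = true) (hq : ∀ r ∈ gl, r.2.1 ∣ q)
    (hN : (gl.map fun r => r.2.1).prod = N) : PStemDvd p G N := by
  have hT' : ∀ l < 2 * Q.k, ∀ a < Q.n, Q.T l a < Q.n := fun l hl a ha =>
    Sol.blt_iff.1 (alln_iff.1 (alln_iff.1 hT l hl) a ha)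
  have hr : ∀ i < dr, Lr i / Q.n < Q.J ∧ Lr i % Q.n < Q.n ∧
      ∀ t < Q.d, Q.toDat.ls t (Lr i / Q.n) (Lr i % Q.n) % Q.m = Q.fd (Rr i) t % Q.m := fun i hi =>
    DatQ.row_spec hP hP2 hS hW hT' hchk (alln_iff.1 hrow i hi)
  let f : ℕ × ℕ × List (ℕ × ℕ) → ℕ × ℕ × List (ℕ × ℕ) := fun r => (r.1, r.2.1, DatQ.tr Lr r.2.2)
  refine pStemDvd_of_checksW (s := s) (q := q) (N := N) Q.toDat A hgen hH hab hW hrel nr i0 hnr hzl hDp hDm hpq
    (DatQ.chk_of hP hS hW hT' hchk) (gl := gl.map f) (C := fun t => (DatQ.tr Lr (C t).1, (C t).2)) ?_ ?_ ?_ ?_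
  · unfold Dat.genOk
    unfold DatQ.genR at hg
    rw [List.all_eq_true] at hg ⊢
    intro r hr'
    obtain ⟨r, hr1, rfl⟩ := List.mem_map.1 hr'
    have h1 := hg r hr1
    rw [Bool.and_eq_true] at h1 ⊢
    exact ⟨h1.1, DatQ.rc_of hr h1.2⟩
  · unfold Dat.parOk
    have hpar := alln_iff.1 hpar
    rw [Sol.allt_iff]
    intro t ht
    have h1 := hpar t ht
    rw [Bool.and_eq_true] at h1 ⊢
    refine ⟨DatQ.rc_of hr h1.1, ?_⟩
    have h2 := h1.2
    rw [List.all_eq_true] at h2 ⊢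
    intro q hq
    have h3 := h2 q hq
    rw [List.any_eq_true] at h3 ⊢
    obtain ⟨r, hr1, hr2⟩ := h3
    exact ⟨f r, List.mem_map_of_mem hr1, hr2⟩
  · intro r hr'
    obtain ⟨r, hr1, rfl⟩ := List.mem_map.1 hr'
    exact hq r hr1
  · rw [List.map_map]; exact hN

end Cfsg.Agent.Lib.H58SM
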