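import Cfsg.Agent.Lib.H58SMp
import Cfsg.Agent.Lib.LeechSyl2
import Cfsg.Agent.Lib.GolayM12c
import Cfsg.Agent.Lib.LeechMax

/-!
Schur multiplier engine, part o: the action of the Conway group Co1 on pairs of opposite vectors (helper58)
-/

set_option autoImplicit false

namespace Cfsg.Agent.Lib.H58SM

open Subgroup Cfsg Cfsg.Agent.Lib.SchurSylow Cfsg.Agent.Lib.Golay Cfsg.Agent.Lib.H89LeechMat Cfsg.Agent.Lib.LeechMin
open Cfsg.Agent.Lib.LeechChain Cfsg.Agent.Lib.LeechTrans Cfsg.Agent.Lib.LeechCo2 Cfsg.Agent.Lib.LeechQuot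
open Cfsg.Agent.Lib.GolayM12c
open scoped Pointwise commutatorElement

/-- the action of Co1 on pairs, as a homomorphism -/
noncomputable def actHom : Spor.Co1 →* Equiv.Perm LP :=
  QuotientGroup.lift (Subgroup.center Co0) (MulAction.toPermHom Co0 LP) (by
    intro z hz
    apply Equiv.ext
    rintro ⟨x⟩
    show z • pm x = pm x
    rcases center_eq hz with rfl | rfl
    · exact one_smul _ _
    · rw [smul_pm, negOne_smul, pm_neg])

noncomputable instance : MulAction Spor.Co1 LP := MulAction.compHom LP actHom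

theorem mk_smul (g : Co0) (x : LP) : (QuotientGroup.mk g : Spor.Co1) • x = g • x := rfl

theorem mk_smul_pm (g : Co0) (x : leechLattice) : (QuotientGroup.mk g : Spor.Co1) • pm x = pm (g • x) := rfl

theorem dot_smul' (g : Co0) (x y : leechLattice) :
    dotInt ((g • x : leechLattice) : GolayPt → ℤ) ((g • y : leechLattice) : GolayPt → ℤ) =
      dotInt (x : GolayPt → ℤ) (y : GolayPt → ℤ) := by
  have h1 := sqNorm_add (x : GolayPt → ℤ) (y : GolayPt → ℤ)
  have h2 := sqNorm_add ((g • x : leechLattice) : GolayPt → ℤ) ((g • y : leechLattice) : GolayPt → ℤ)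
  have h3 : sqNorm (((g • x : leechLattice) : GolayPt → ℤ) + ((g • y : leechLattice) : GolayPt → ℤ)) =
      sqNorm ((x : GolayPt → ℤ) + (y : GolayPt → ℤ)) := by
    have h4 := sqNorm_smul g (x + y)
    rw [smul_add'] at h4
    exact h4
  rw [h3, sqNorm_smul, sqNorm_smul] at h2
  omega

theorem negOne_mul_self : negOne * negOne = 1 := by
  apply ext_smul
  intro v
  rw [mul_smul, negOne_smul, negOne_smul, neg_neg, one_smul]

/-- an element of Co1 fixing enough pairs is trivial -/
theorem faithQ {cd : ℕ → ℕ} {n : ℕ} (hn : 0 < n) (hall : ∀ a < n, (LV.pnt cd a : GolayPt → ℤ) = vv (cd a))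
    {S : List ℕ} (hS : ∀ a ∈ S, a < n) (hlen : S.length = 24) {C : List (List ℤ)} {N : ℤ} (hN : N ≠ 0)
    (h : spanOK (S.map cd) C N = true) (h0 : 0 ∈ S) (hd : ∀ a ∈ S, idot (cd a) (cd 0) ≠ 0)
    (y : Spor.Co1) (hy : ∀ a ∈ S, y • pm (LV.pnt cd a) = pm (LV.pnt cd a)) : y = 1 := by
  obtain ⟨y, rfl⟩ := QuotientGroup.mk_surjective y
  have key : ∀ y : Co0, (∀ a ∈ S, pm (y • LV.pnt cd a) = pm (LV.pnt cd a)) → y • LV.pnt cd 0 = LV.pnt cd 0 → y = 1 := by
    intro y hy h1
    have h2 : ∀ a ∈ S, y • LV.pnt cd a = LV.pnt cd a := by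
      intro a ha
      rcases pm_eq.1 (hy a ha) with h3 | h3
      · exact h3
      · exfalso
        apply hd a ha
        have h4 := dot_smul' y (LV.pnt cd a) (LV.pnt cd 0)
        rw [h1, h3] at h4
        have h5 : dotInt ((-(LV.pnt cd a) : leechLattice) : GolayPt → ℤ) (LV.pnt cd 0 : GolayPt → ℤ) =
            - dotInt (LV.pnt cd a : GolayPt → ℤ) (LV.pnt cd 0 : GolayPt → ℤ) := dot_neg_left _ _
        rw [h5, hall a (hS a ha), hall 0 hn, idot_eq] at h4
        omega
    have h3 := faith_span (G := ⊤) hall hS hlen hN h ⟨y, mem_top y⟩ (fun a ha => h2 a ha)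
    exact congrArg Subtype.val h3
  apply (QuotientGroup.eq_one_iff y).2
  have hy' : ∀ a ∈ S, pm (y • LV.pnt cd a) = pm (LV.pnt cd a) := hy
  rcases pm_eq.1 (hy' 0 h0) with h1 | h1
  · rw [key y hy' h1]
    exact one_mem _
  · have h2 : negOne * y = 1 := by
      apply key
      · intro a ha
        rw [mul_smul, negOne_smul, pm_neg]
        exact hy' a ha
      · rw [mul_smul, negOne_smul, h1, neg_neg]
    have h3 : y = negOne := by
      calc y = negOne * negOne * y := by rw [negOne_mul_self, one_mul]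
        _ = negOne := by rw [mul_assoc, h2, mul_one]
    rw [h3]
    exact negOne_mem_center

/-- the stabiliser of a pair in Co1 -/
theorem stab_pair {X : leechLattice} (hX : X ≠ -X) :
    Nonempty (fixL [X] ≃* MulAction.stabilizer Spor.Co1 (pm X)) := by
  let f : fixL [X] →* MulAction.stabilizer Spor.Co1 (pm X) :=
    { toFun := fun g => ⟨QuotientGroup.mk (g : Co0), by
        rw [MulAction.mem_stabilizer_iff, mk_smul_pm, (mem_fix1.1 g.2)]⟩
      map_one' := rfl
      map_mul' := fun _ _ => rfl }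
  have hf : Function.Bijective f := by
    constructor
    · intro g h hgh
      have h1 : (QuotientGroup.mk (g : Co0) : Spor.Co1) = QuotientGroup.mk (h : Co0) := congrArg Subtype.val hgh
      have h2 := QuotientGroup.eq.1 h1
      rcases center_eq h2 with h3 | h3
      · exact Subtype.ext (inv_mul_eq_one.1 h3)
      · exfalso
        apply hX
        have h4 : ((g : Co0)⁻¹ * (h : Co0)) • X = X := by
          rw [mul_smul, mem_fix1.1 h.2, inv_smul_eq_iff, mem_fix1.1 g.2]
        rw [h3, negOne_smul] at h4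
        exact h4.symm
    · rintro ⟨q, hq⟩
      obtain ⟨g, rfl⟩ := QuotientGroup.mk_surjective q
      rw [MulAction.mem_stabilizer_iff, mk_smul_pm] at hq
      rcases pm_eq.1 hq with h1 | h1
      · exact ⟨⟨g, mem_fix1.2 h1⟩, rfl⟩
      · refine ⟨⟨negOne * g, mem_fix1.2 (by rw [mul_smul, negOne_smul, h1, neg_neg])⟩, ?_⟩
        apply Subtype.ext
        show (QuotientGroup.mk (negOne * g) : Spor.Co1) = QuotientGroup.mk g
        have h2 : (QuotientGroup.mk negOne : Spor.Co1) = 1 := (QuotientGroup.eq_one_iff _).2 negOne_mem_center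
        rw [QuotientGroup.mk_mul, h2, one_mul]
  exact ⟨MulEquiv.ofBijective f hf⟩

/-- `-1` is a commutator -/
theorem negOne_mem_commutator : negOne ∈ commutator Co0 := by
  obtain ⟨g, hg, hgd⟩ := dodecad_transitive dod0_mem (compl_dodecad dod0_mem)
  set D := mset dod0 with hD
  have hDS : D ∈ Sup := dod0_mem.1
  have h1 : LeechChain.pe g hg * LeechSyl.eps D hDS = negOne * (LeechSyl.eps D hDS * LeechChain.pe g hg) := by
    apply ext_smul
    intro v
    apply Subtype.ext
    funext i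
    rw [mul_smul, mul_smul, mul_smul, negOne_smul, pe_smul]
    show ((LeechSyl.eps D hDS • v : leechLattice) : GolayPt → ℤ) (g.symm i) =
      -((LeechSyl.eps D hDS • (LeechChain.pe g hg • v) : leechLattice) : GolayPt → ℤ) i
    rw [LeechSyl.eps_apply, LeechSyl.eps_apply, pe_smul]
    have h2 : g.symm i ∈ D ↔ i ∉ D := by
      rw [← Finset.mem_compl, ← hgd]
      constructor
      · intro h
        have := Finset.smul_mem_smul_finset (a := g) h
        rwa [show g • g.symm i = i from g.apply_symm_apply i] at this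
      · intro h
        obtain ⟨j, hj, hji⟩ := Finset.mem_smul_finset.1 h
        rw [show g.symm i = j from by rw [← hji]; exact g.symm_apply_apply j]
        exact hj
    by_cases h3 : i ∈ D
    · rw [if_neg (fun h => (h2.1 h) h3), if_pos h3, neg_neg]
    · rw [if_pos (h2.2 h3), if_neg h3]
  have h2 : ⁅LeechChain.pe g hg, LeechSyl.eps D hDS⁆ = negOne := by
    rw [commutatorElement_def, h1]
    group
  rw [← h2]
  exact Subgroup.commutator_mem_commutator (mem_top _) (mem_top _)

theorem stem_Co0 : ∃ (Γ : Type) (_ : Group Γ) (_ : Finite Γ) (σ : Γ →* Spor.Co1),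
    IsStemExtension σ ∧ Nat.card σ.ker = 2 := by
  refine ⟨Co0, inferInstance, inferInstance, QuotientGroup.mk' (Subgroup.center Co0),
    ⟨QuotientGroup.mk'_surjective _, ?_, ?_⟩, ?_⟩
  · rw [QuotientGroup.ker_mk']
  · rw [QuotientGroup.ker_mk']
    intro z hz
    rcases center_eq hz with rfl | rfl
    · exact one_mem _
    · exact negOne_mem_commutator
  · rw [QuotientGroup.ker_mk']; exact natCard_center

namespace LV

/-- the action on a table of coded vectors up to sign of any group acting through `Co0` -/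
theorem mkActQ {G : Type*} [Group G] [MulAction G LP] {k : ℕ} {g : ℕ → G} {gc : ℕ → Co0} (D : Gens k gc)
    (hcomp : ∀ i, ∀ x : leechLattice, g i • pm x = pm (gc i • x)) (Q : Dat) (hk : Q.k = k)
    (hn : 0 < Q.n) (t1 : Q.tab1 = true) (t2 : Q.tab2 = true) (t3 : Q.tab3 = true) {cd : ℕ → ℕ}
    (h0 : latC (cd 0) = true) (hN : idot (cd 0) (cd 0) ≤ 225) (hcd : cdOKP cd Q.n = true)
    (hmv : ∀ i < k, ∀ a < Q.n, mvOKP (D.P i) (D.K i) (cd a) (cd (Q.T (2 * i) a)) = true) :
    Act Q.n k g (fun a => pm (pnt cd a)) Q.T Q.pi Q.pq ∧ ∀ a < Q.n, (pnt cd a : GolayPt → ℤ) = vv (cd a) := by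
  subst hk
  have htree : ∀ b < Q.n, b ≠ 0 → Q.pi b < Q.k ∧ Q.pq b < b ∧ Q.T (2 * Q.pi b) (Q.pq b) = b := by
    intro b hb h0
    have h := alln_iff.1 t3 b hb
    rw [beq_ne h0, cond_false, frc_eq, frc_eq, Bool.and_eq_true, Bool.and_eq_true, Sol.blt_iff, Sol.blt_iff,
      Sol.beq_iff] at h
    exact h
  have hT : ∀ i < Q.k, ∀ a < Q.n, Q.T (2 * i) a < Q.n := fun i hi a ha =>
    Sol.blt_iff.1 (alln_iff.1 (alln_iff.1 t1 (2 * i) (by show 2 * i < 2 * Q.k; omega)) a ha)
  have H := pnt_allP D h0 hN hcd htree hmv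
  refine ⟨Dat.act_of hn t1 t2 t3 ?_ ?_, fun a ha => (H a ha).1⟩
  · intro i hi a ha
    show g i • pm (pnt cd a) = pm (pnt cd (Q.T (2 * i) a))
    rw [hcomp, pm_eq]
    have hb := hT i hi a ha
    obtain ⟨c1, c2, -⟩ := cdOKP_iff hcd _ hb
    rcases smul_codeP (D.hg _ hi) (H a ha).1 (by rw [(H a ha).2]; exact hN) c1 c2 (D.hc _ hi) (hmv i hi a ha)
      with h7 | h7
    · left; apply Subtype.ext; rw [h7, (H _ hb).1]
    · right; apply Subtype.ext
      rw [h7]
      show _ = - ((pnt cd (Q.T (2 * i) a) : leechLattice) : GolayPt → ℤ)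
      rw [(H _ hb).1]
  · intro a ha h
    obtain ⟨c1, c2, c3⟩ := cdOKP_iff hcd a ha
    obtain ⟨d1, d2, -⟩ := cdOKP_iff hcd 0 hn
    have h : pm (pnt cd a) = pm (pnt cd 0) := h
    rw [pm_eq] at h
    apply c3
    rcases h with h | h
    · left
      apply vv_inj c1 d1
      rw [← (H a ha).1, ← (H 0 hn).1, h]
    · right
      apply vv_neg_code c1 d1
      rw [← (H a ha).1, ← (H 0 hn).1, h]
      rfl

end LV

end Cfsg.Agent.Lib.H58SM
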