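import Cfsg.Agent.Lib.H58SMz
import Cfsg.Agent.Lib.H58SMn

/-!
Schur multiplier engine, part p: the action on pairs of opposite vectors of the Leech lattice (helper58)
-/

set_option autoImplicit false

namespace Cfsg.Agent.Lib.H58SM

open Subgroup Cfsg Cfsg.Agent.Lib.SchurSylow Cfsg.Agent.Lib.Golay Cfsg.Agent.Lib.H89LeechMat Cfsg.Agent.Lib.LeechMin
open Cfsg.Agent.Lib.LeechChain Cfsg.Agent.Lib.LeechTrans Cfsg.Agent.Lib.LeechCo2

/-- equality up to sign -/
def pmS : Setoid leechLattice where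
  r x y := x = y ∨ x = -y
  iseqv := by
    refine ⟨fun _ => Or.inl rfl, ?_, ?_⟩
    · rintro x y (rfl | rfl)
      · exact Or.inl rfl
      · exact Or.inr (neg_neg y).symm
    · rintro x y z (rfl | rfl) (rfl | rfl)
      · exact Or.inl rfl
      · exact Or.inr rfl
      · exact Or.inr rfl
      · exact Or.inl (neg_neg z)

/-- pairs of opposite vectors -/
def LP : Type := Quotient pmS

/-- the pair of a vector -/
def pm (x : leechLattice) : LP := Quotient.mk pmS x

theorem pm_eq {x y : leechLattice} : pm x = pm y ↔ x = y ∨ x = -y :=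
  ⟨fun h => Quotient.exact h, fun h => Quotient.sound h⟩

theorem pm_neg (x : leechLattice) : pm (-x) = pm x := pm_eq.2 (Or.inr rfl)

instance : MulAction Co0 LP where
  smul g := Quotient.map (fun x => g • x) (by
    rintro x y (rfl | rfl)
    · exact Or.inl rfl
    · exact Or.inr (smul_neg' g y))
  one_smul := by
    rintro ⟨x⟩
    show pm ((1 : Co0) • x) = pm x
    rw [one_smul]
  mul_smul g h := by
    rintro ⟨x⟩
    show pm ((g * h) • x) = pm (g • h • x)
    rw [mul_smul]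

theorem smul_pm (g : Co0) (x : leechLattice) : g • pm x = pm (g • x) := rfl

namespace LV

/-- code of the opposite vector is `NC - c` -/
def NC : ℕ := 1372106318229590578481349223515194400

theorem NC_eq : (NC : ℤ) = 32 * ∑ i ∈ Finset.range 24, (32 : ℤ) ^ i := by
  rw [Finset.sum_range_succ]; norm_num [Finset.sum_range_succ, NC]

theorem code_dv {b : ℕ} (hb : b < 2 ^ 120) :
    (b : ℤ) = ∑ i ∈ Finset.range 24, dv b i * 32 ^ i + 16 * ∑ i ∈ Finset.range 24, (32 : ℤ) ^ i := by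
  have h5 := code_sum b 24
  rw [Nat.mod_eq_of_lt (by rw [show (32 : ℕ) ^ 24 = 2 ^ 120 by norm_num]; exact hb)] at h5
  have h6 : (b : ℤ) = ((∑ i ∈ Finset.range 24, img b i * 32 ^ i : ℕ) : ℤ) := by rw [h5]
  rw [h6]
  push_cast
  rw [Finset.mul_sum, ← Finset.sum_add_distrib]
  refine Finset.sum_congr rfl fun i _ => ?_
  rw [dv_eq]; ring

theorem dv_neg_sum {b : ℕ} (hb : b < 2 ^ 120) (hb' : NC - b < 2 ^ 120) :
    ∑ i ∈ Finset.range 24, dv (NC - b) i * 32 ^ i = - ∑ i ∈ Finset.range 24, dv b i * 32 ^ i := by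
  have h1 := code_dv hb
  have h2 := code_dv hb'
  have h3 : b ≤ NC := by
    unfold NC; norm_num at hb; omega
  have h4 := NC_eq
  push_cast [h3] at h2
  linarith

/-- the image of a coded vector is the opposite of a coded vector -/
theorem smul_codeN {R P : List ℕ} {K a b : ℕ} {g : Co0}
    (hg : ∀ v : leechLattice, (mt R).mulVec (v : GolayPt → ℤ) = 8 • ((g • v : leechLattice) : GolayPt → ℤ))
    {x : leechLattice} (hx : (x : GolayPt → ℤ) = vv a) (hn : sqNorm (x : GolayPt → ℤ) ≤ 225)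
    (hb : b < 2 ^ 120) (hb' : NC - b < 2 ^ 120) (hc : constOK R P K = true) (h : mvOK P K a (NC - b) = true) :
    ((g • x : leechLattice) : GolayPt → ℤ) = - vv b := by
  have h1 := mv_spec hb' hc h
  rw [dv_neg_sum hb hb'] at h1
  set y : GolayPt → ℤ := ((g • x : leechLattice) : GolayPt → ℤ) with hy
  have h2 : ∀ i < 24, (zs 24 fun k => Int.mul (dv (R.getD i 0) k) (dv a k)) = 8 * y (Golay.pt i) := by
    intro i hi
    have h3 := congrFun (hg x) (Golay.pt i)
    rw [hx, mulVec_vv, ix_pt hi] at h3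
    rw [h3, ← hy, Pi.smul_apply, nsmul_eq_mul]; rfl
  have h4 : ∑ i ∈ Finset.range 24, (y (Golay.pt i) + dv b i) * 32 ^ i = 0 := by
    have h5 : ∑ i ∈ Finset.range 24, (zs 24 fun k => Int.mul (dv (R.getD i 0) k) (dv a k)) * 32 ^ i =
        8 * ∑ i ∈ Finset.range 24, y (Golay.pt i) * 32 ^ i := by
      rw [Finset.mul_sum]
      refine Finset.sum_congr rfl fun i hi => ?_
      rw [h2 i (Finset.mem_range.1 hi)]; ring
    rw [h5] at h1
    simp only [add_mul, Finset.sum_add_distrib]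
    omega
  have hyn : sqNorm y ≤ 225 := by rw [hy, sqNorm_smul]; exact hn
  have hyb : ∀ p, |y p| ≤ 15 := by
    intro p
    have h7 : y p ^ 2 ≤ sqNorm y := by
      unfold sqNorm
      exact Finset.single_le_sum (f := fun i => y i ^ 2) (fun i _ => sq_nonneg _) (Finset.mem_univ p)
    rw [abs_le]
    constructor <;> nlinarith
  have h8 := digits_zero (k := 24) (f := fun i => y (Golay.pt i) + dv b i) (fun i _ => by
    have h9 := hyb (Golay.pt i)
    have h10 := dv_bd b i
    rw [abs_le] at h9 h10 ⊢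
    constructor <;> omega) h4
  funext p
  have h9 := h8 (ix p) (ix_lt p)
  simp only [pt_ix] at h9
  show y p = - dv b (ix p)
  omega

theorem vv_neg_code {c c' : ℕ} (hc : c < 2 ^ 120) (hc' : c' < 2 ^ 120) (h : vv c = - vv c') : c = NC - c' := by
  have h1 : ∀ i < 24, dv c i = - dv c' i := by
    intro i hi
    have h2 := congrFun h (Golay.pt i)
    rw [Pi.neg_apply, vv_pt c hi, vv_pt c' hi] at h2
    exact h2
  have h3 := code_dv hc
  have h4 := code_dv hc'
  have h5 : ∑ i ∈ Finset.range 24, dv c i * 32 ^ i = - ∑ i ∈ Finset.range 24, dv c' i * 32 ^ i := by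
    rw [← Finset.sum_neg_distrib]
    refine Finset.sum_congr rfl fun i hi => ?_
    rw [h1 i (Finset.mem_range.1 hi)]; ring
  have h6 := NC_eq
  omega

/-- check of codes up to sign -/
def cdOKP (cd : ℕ → ℕ) (n : ℕ) : Bool :=
  frc (cd 0) fun c0 => alln (fun a => frc (cd a) fun c => Nat.blt c (1329227995784915872903807060280344576) &&
    (Nat.blt (Nat.sub NC c) (1329227995784915872903807060280344576) &&
    (Nat.beq a 0 || (!(Nat.beq c c0) && !(Nat.beq c (Nat.sub NC c0)))))) n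

theorem cdOKP_iff {cd : ℕ → ℕ} {n : ℕ} (h : cdOKP cd n = true) :
    ∀ a < n, cd a < 2 ^ 120 ∧ NC - cd a < 2 ^ 120 ∧ (cd a = cd 0 ∨ cd a = NC - cd 0 → a = 0) := by
  intro a ha
  unfold cdOKP at h
  rw [frc_eq] at h
  have h1 := alln_iff.1 h a ha
  rw [frc_eq, Bool.and_eq_true, Bool.and_eq_true, Bool.or_eq_true, Nat.beq_eq, Bool.and_eq_true] at h1
  refine ⟨?_, ?_, ?_⟩
  · have := Sol.blt_iff.1 h1.1
    rwa [show (2 : ℕ) ^ 120 = 1329227995784915872903807060280344576 by norm_num]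
  · have := Sol.blt_iff.1 h1.2.1
    rwa [show (2 : ℕ) ^ 120 = 1329227995784915872903807060280344576 by norm_num]
  · intro h2
    rcases h1.2.2 with h3 | h3
    · exact h3
    · rcases h2 with h2 | h2
      · exact absurd h2 (nb h3.1)
      · exact absurd h2 (nb h3.2)

/-- the image of `a` is `b` up to sign -/
def mvOKP (P : List ℕ) (K a b : ℕ) : Bool := mvOK P K a b || mvOK P K a (Nat.sub NC b)

/-- checks of the images under one generator up to sign; `f` the table of images -/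
def mvTabP (P : List ℕ) (K : ℕ) (cd : ℕ → ℕ) (f : ℕ → ℕ) (s len : ℕ) : Bool :=
  alln (fun x => frc (Nat.add s x) fun a => frc (cd a) fun c => frc (cd (f a)) fun c' => mvOKP P K c c') len

theorem mvTabP_iff {P : List ℕ} {K : ℕ} {cd f : ℕ → ℕ} {s len : ℕ} (h : mvTabP P K cd f s len = true) :
    ∀ a, s ≤ a → a < s + len → mvOKP P K (cd a) (cd (f a)) = true := by
  intro a h1 h2
  have h3 := alln_iff.1 h (a - s) (by omega)
  rw [frc_eq, frc_eq, frc_eq] at h3
  rwa [show Nat.add s (a - s) = a from by show s + (a - s) = a; omega] at h3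

theorem smul_codeP {R P : List ℕ} {K a b : ℕ} {g : Co0}
    (hg : ∀ v : leechLattice, (mt R).mulVec (v : GolayPt → ℤ) = 8 • ((g • v : leechLattice) : GolayPt → ℤ))
    {x : leechLattice} (hx : (x : GolayPt → ℤ) = vv a) (hn : sqNorm (x : GolayPt → ℤ) ≤ 225)
    (hb : b < 2 ^ 120) (hb' : NC - b < 2 ^ 120) (hc : constOK R P K = true) (h : mvOKP P K a b = true) :
    ((g • x : leechLattice) : GolayPt → ℤ) = vv b ∨ ((g • x : leechLattice) : GolayPt → ℤ) = - vv b := by
  unfold mvOKP at h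
  rw [Bool.or_eq_true] at h
  rcases h with h | h
  · exact Or.inl (smul_code hg hx hn hb hc h)
  · exact Or.inr (smul_codeN hg hx hn hb hb' hc h)

theorem pnt_allP {k n : ℕ} {g : ℕ → Co0} (D : Gens k g) {cd : ℕ → ℕ} {T : ℕ → ℕ → ℕ} {pi pq : ℕ → ℕ}
    (h0 : latC (cd 0) = true) (hN : idot (cd 0) (cd 0) ≤ 225) (hcd : cdOKP cd n = true)
    (htree : ∀ b < n, b ≠ 0 → pi b < k ∧ pq b < b ∧ T (2 * pi b) (pq b) = b)
    (hmv : ∀ i < k, ∀ a < n, mvOKP (D.P i) (D.K i) (cd a) (cd (T (2 * i) a)) = true) :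
    ∀ a < n, (pnt cd a : GolayPt → ℤ) = vv (cd a) ∧ sqNorm (pnt cd a : GolayPt → ℤ) = idot (cd 0) (cd 0) := by
  intro a
  induction a using Nat.strong_induction_on with
  | _ a ih =>
    intro ha
    by_cases h : a = 0
    · subst h
      have h1 := pnt_coe (cd := cd) (a := 0) (vv_mem h0)
      refine ⟨h1, ?_⟩
      rw [h1, sqNorm_vv]
    · obtain ⟨h1, h2, h3⟩ := htree a ha h
      obtain ⟨h4, h5⟩ := ih _ h2 (by omega)
      have h6 := hmv _ h1 _ (by omega : pq a < n)
      rw [h3] at h6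
      obtain ⟨c1, c2, -⟩ := cdOKP_iff hcd a ha
      rcases smul_codeP (D.hg _ h1) h4 (by rw [h5]; exact hN) c1 c2 (D.hc _ h1) h6 with h7 | h7
      · have h8 : vv (cd a) ∈ leechLattice := by rw [← h7]; exact (g (pi a) • pnt cd (pq a)).2
        have h9 := pnt_coe (cd := cd) (a := a) h8
        refine ⟨h9, ?_⟩
        rw [h9, ← h7, sqNorm_smul]; exact h5
      · have h8 : vv (cd a) ∈ leechLattice := by
          rw [← neg_neg (vv (cd a)), ← h7]
          exact leechLattice.neg_mem (g (pi a) • pnt cd (pq a)).2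
        have h9 := pnt_coe (cd := cd) (a := a) h8
        refine ⟨h9, ?_⟩
        have h10 : sqNorm (vv (cd a)) = sqNorm (- vv (cd a)) := by
          unfold sqNorm
          refine Finset.sum_congr rfl fun p _ => ?_
          rw [Pi.neg_apply, neg_sq]
        rw [h9, h10, ← h7, sqNorm_smul]; exact h5

/-- the action on a table of coded vectors up to sign; `ι` is compatible with the action of `Co0` on pairs -/
theorem mkActP {G : Subgroup Co0} {k : ℕ} {g : ℕ → G} (D : Gens k fun i => (g i : Co0)) (Q : Dat) (hk : Q.k = k)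
    (hn : 0 < Q.n) (t1 : Q.tab1 = true) (t2 : Q.tab2 = true) (t3 : Q.tab3 = true) {cd : ℕ → ℕ}
    (h0 : latC (cd 0) = true) (hN : idot (cd 0) (cd 0) ≤ 225) (hcd : cdOKP cd Q.n = true)
    (hmv : ∀ i < k, ∀ a < Q.n, mvOKP (D.P i) (D.K i) (cd a) (cd (Q.T (2 * i) a)) = true) :
    Act Q.n k g (fun a => pm (pnt cd a)) Q.T Q.pi Q.pq ∧ ∀ a < Q.n, (pnt cd a : GolayPt → ℤ) = vv (cd a) := by
  subst hk
  have htree : ∀ b < Q.n, b ≠ 0 → Q.pi b < Q.k ∧ Q.pq b < b ∧ Q.T (2 * Q.pi b) (Q.pq b) = b := by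
    intro b hb h0
    have h := alln_iff.1 t3 b hb
    rw [beq_ne h0, cond_false, frc_eq, frc_eq, Bool.and_eq_true, Bool.and_eq_true, Sol.blt_iff, Sol.blt_iff,
      Sol.beq_iff] at h
    exact h
  have hT : ∀ i < Q.k, ∀ a < Q.n, Q.T (2 * i) a < Q.n := fun i hi a ha =>
    Sol.blt_iff.1 (alln_iff.1 (alln_iff.1 t1 (2 * i) (by show 2 * i < 2 * Q.k; omega)) a ha)
  have H := pnt_allP D h0 hN hcd htree hmv
  refine ⟨Dat.act_of hn t1 t2 t3 ?_ ?_, fun a ha => (H a ha).1⟩
  · intro i hi a ha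
    show pm ((g i : Co0) • pnt cd a) = pm (pnt cd (Q.T (2 * i) a))
    rw [pm_eq]
    have hb := hT i hi a ha
    obtain ⟨c1, c2, -⟩ := cdOKP_iff hcd _ hb
    rcases smul_codeP (D.hg _ hi) (H a ha).1 (by rw [(H a ha).2]; exact hN) c1 c2 (D.hc _ hi) (hmv i hi a ha)
      with h7 | h7
    · left; apply Subtype.ext; rw [h7, (H _ hb).1]
    · right; apply Subtype.ext
      rw [h7]
      show _ = - ((pnt cd (Q.T (2 * i) a) : leechLattice) : GolayPt → ℤ)
      rw [(H _ hb).1]
  · intro a ha h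
    obtain ⟨c1, c2, c3⟩ := cdOKP_iff hcd a ha
    obtain ⟨d1, d2, -⟩ := cdOKP_iff hcd 0 hn
    rw [pm_eq] at h
    apply c3
    rcases h with h | h
    · left
      apply vv_inj c1 d1
      rw [← (H a ha).1, ← (H 0 hn).1, h]
    · right
      apply vv_neg_code c1 d1
      rw [← (H a ha).1, ← (H 0 hn).1, h]
      rfl

end LV

end Cfsg.Agent.Lib.H58SM
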