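import Cfsg.Agent.Lib.H58SMy

/-!
Schur multiplier engine, part z: generation from a stabiliser, actions on pairs of vectors (helper58)
-/

set_option autoImplicit false

namespace Cfsg.Agent.Lib.H58SM

open Subgroup Cfsg Cfsg.Agent.Lib.SchurSylow Cfsg.Agent.Lib.Golay Cfsg.Agent.Lib.H89LeechMat Cfsg.Agent.Lib.LeechMin
open Cfsg.Agent.Lib.LeechChain Cfsg.Agent.Lib.LeechTrans Cfsg.Agent.Lib.LeechCo2

universe u v w

/-- values of words are in the generated subgroup -/
theorem ev_mem_closure {G : Type*} [Group G] {k : ℕ} {g : ℕ → G} {w : List ℕ} (hw : ∀ l ∈ w, l < 2 * k) :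
    ev g w ∈ closure {z | ∃ i < k, z = g i} := by
  induction w with
  | nil => rw [ev_nil]; exact one_mem _
  | cons l w ih =>
    rw [ev_cons]
    refine mul_mem (ih fun l hl => hw l (List.mem_cons_of_mem _ hl)) ?_
    have hl := hw l List.mem_cons_self
    have h1 : g (l / 2) ∈ closure {z | ∃ i < k, z = g i} := subset_closure ⟨l / 2, by omega, rfl⟩
    unfold lt
    by_cases h : l % 2 = 0
    · rw [if_pos h]; exact h1
    · rw [if_neg h]; exact inv_mem h1

/-- generation from a stabiliser -/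
theorem gen_of_stab {G Ω : Type*} [Group G] [Finite G] [MulAction G Ω] {n k : ℕ} {g : ℕ → G} {e : ℕ → Ω}
    {T : ℕ → ℕ → ℕ} {pi pq : ℕ → ℕ} (A : Act n k g e T pi pq) {c r : ℕ} (h : ℕ → G)
    (hw : ∀ i < r, h i ∈ closure {z | ∃ i < k, z = g i}) (hfix : ∀ i < r, h i • e 0 = e 0)
    (hc : Nat.card G ≤ n * c) (hcard : c ≤ Nat.card (closure {z | ∃ i < r, z = h i})) :
    closure {z | ∃ i < k, z = g i} = ⊤ := by
  apply Subgroup.eq_top_of_le_card
  refine hc.trans ((Nat.mul_le_mul_left n hcard).trans ?_)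
  have h1 : ∀ a : Fin n, ∃ t : closure {z | ∃ i < k, z = g i}, (t : G) • e 0 = e a := by
    intro a
    obtain ⟨w, hw, hwa⟩ := A.to_base a.2
    refine ⟨⟨(ev g w)⁻¹, inv_mem (ev_mem_closure hw)⟩, ?_⟩
    show (ev g w)⁻¹ • e 0 = e a
    rw [inv_smul_eq_iff, A.smul_ev hw a.2, hwa]
  choose t ht using h1
  have h2 : closure {z | ∃ i < r, z = h i} ≤ closure {z | ∃ i < k, z = g i} := by
    rw [closure_le]
    rintro _ ⟨i, hi, rfl⟩
    exact hw i hi
  have h3 : closure {z | ∃ i < r, z = h i} ≤ MulAction.stabilizer G (e 0) := by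
    rw [closure_le]
    rintro _ ⟨i, hi, rfl⟩
    exact hfix i hi
  have h4 : Function.Injective (fun q : Fin n × closure {z | ∃ i < r, z = h i} =>
      t q.1 * (⟨q.2, h2 q.2.2⟩ : closure {z | ∃ i < k, z = g i})) := by
    rintro ⟨a, y⟩ ⟨b, z⟩ hq
    have hq' : (t a : G) * y = t b * z := congrArg Subtype.val hq
    have hab : e a = e b := by
      rw [← ht a, ← ht b]
      have hy : (y : G) • e 0 = e 0 := h3 y.2
      have hz : (z : G) • e 0 = e 0 := h3 z.2
      calc (t a : G) • e 0 = ((t a : G) * y) • e 0 := by rw [mul_smul, hy]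
        _ = (t b : G) • e 0 := by rw [hq', mul_smul, hz]
    have hab : a = b := Fin.ext (A.inj a.2 b.2 hab)
    subst hab
    have : (y : G) = z := mul_left_cancel hq'
    rw [Subtype.ext this]
  have h5 := Nat.card_le_card_of_injective _ h4
  rwa [Nat.card_prod, Nat.card_fin] at h5

/-- words of nodes checked on a part of the points: `ι` the numbers of the points of the part -/
noncomputable def nsOk (n n' k r : ℕ) (ι : ℕ → ℕ) (T TH : ℕ → ℕ → ℕ) (wN : ℕ → List ℕ) : Bool :=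
  alln (fun a => Nat.blt (ι a) n) n' && alln (fun i => ((wN i).all fun l => Nat.blt l (Nat.mul 2 k)) &&
    alln (fun a => Nat.beq (ptq T (wN i) (ι a)) (ι (TH (Nat.mul 2 i) a))) n') r

theorem ns_lt {n n' k r : ℕ} {ι : ℕ → ℕ} {T TH : ℕ → ℕ → ℕ} {wN : ℕ → List ℕ} (h : nsOk n n' k r ι T TH wN = true) :
    ∀ a < n', ι a < n := by
  intro a ha
  unfold nsOk at h
  rw [Bool.and_eq_true] at h
  exact Sol.blt_iff.1 (alln_iff.1 h.1 a ha)

theorem ns_word {n n' k r : ℕ} {ι : ℕ → ℕ} {T TH : ℕ → ℕ → ℕ} {wN : ℕ → List ℕ} (h : nsOk n n' k r ι T TH wN = true) :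
    ∀ i < r, ∀ l ∈ wN i, l < 2 * k := by
  intro i hi l hl
  unfold nsOk at h
  rw [Bool.and_eq_true] at h
  have h1 := alln_iff.1 h.2 i hi
  rw [Bool.and_eq_true, List.all_eq_true] at h1
  exact Sol.blt_iff.1 (h1.1 l hl)

theorem ns_fwd {G Ω : Type*} [Group G] [MulAction G Ω] {n n' k r : ℕ} {g : ℕ → G} {e : ℕ → Ω} {ι : ℕ → ℕ}
    {T TH : ℕ → ℕ → ℕ} {pi pq : ℕ → ℕ} (A : Act n k g e T pi pq) {wN : ℕ → List ℕ}
    (h : nsOk n n' k r ι T TH wN = true) :
    ∀ i < r, ∀ a < n', ev g (wN i) • e (ι a) = e (ι (TH (2 * i) a)) := by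
  intro i hi a ha
  rw [A.smul_ev (ns_word h i hi) (ns_lt h a ha), ← ptq_eq]
  congr 1
  unfold nsOk at h
  rw [Bool.and_eq_true] at h
  have h1 := alln_iff.1 h.2 i hi
  rw [Bool.and_eq_true] at h1
  exact Sol.beq_iff.1 (alln_iff.1 h1.2 a ha)

/-- words fix the first point, fast version -/
noncomputable def fqOk (k r : ℕ) (T : ℕ → ℕ → ℕ) (wN : ℕ → List ℕ) : Bool :=
  alln (fun i => ((wN i).all fun l => Nat.blt l (Nat.mul 2 k)) && Nat.beq (ptq T (wN i) 0) 0) r

theorem fq_word {k r : ℕ} {T : ℕ → ℕ → ℕ} {wN : ℕ → List ℕ} (h : fqOk k r T wN = true) :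
    ∀ i < r, ∀ l ∈ wN i, l < 2 * k := by
  intro i hi l hl
  have h1 := alln_iff.1 h i hi
  rw [Bool.and_eq_true, List.all_eq_true] at h1
  exact Sol.blt_iff.1 (h1.1 l hl)

theorem fq_fix {G Ω : Type*} [Group G] [MulAction G Ω] {n k r : ℕ} {g : ℕ → G} {e : ℕ → Ω}
    {T : ℕ → ℕ → ℕ} {pi pq : ℕ → ℕ} (A : Act n k g e T pi pq) {wN : ℕ → List ℕ} (h : fqOk k r T wN = true) :
    ∀ i < r, ev g (wN i) • e 0 = e 0 := by
  intro i hi
  rw [A.smul_ev (fq_word h i hi) A.pos, ← ptq_eq]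
  congr 1
  have h1 := alln_iff.1 h i hi
  rw [Bool.and_eq_true] at h1
  exact Sol.beq_iff.1 h1.2

/-- inverse letter -/
def fl (l : ℕ) : ℕ := cond (Nat.beq (Nat.mod l 2) 0) (Nat.succ l) (Nat.pred l)

theorem fl_even {l : ℕ} (h : l % 2 = 0) : fl l = l + 1 := by
  unfold fl
  rw [Sol.beq_iff.2 (show Nat.mod l 2 = 0 from h), cond_true]

theorem fl_odd {l : ℕ} (h : l % 2 ≠ 0) : fl l = l - 1 := by
  unfold fl
  rw [beq_ne (show Nat.mod l 2 ≠ 0 from h), cond_false]; rfl

theorem lt_fl {G : Type*} [Group G] (g : ℕ → G) (l : ℕ) : lt g (fl l) = (lt g l)⁻¹ := by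
  unfold lt
  by_cases h : l % 2 = 0
  · rw [fl_even h, if_pos h, if_neg (by omega), show (l + 1) / 2 = l / 2 by omega]
  · rw [fl_odd h, if_neg h, if_pos (by omega), show (l - 1) / 2 = l / 2 by omega, inv_inv]

/-- inverse word -/
def invw (w : List ℕ) : List ℕ := (w.map fl).reverse

theorem ev_invw {G : Type*} [Group G] (g : ℕ → G) (w : List ℕ) : ev g (invw w) = (ev g w)⁻¹ := by
  induction w with
  | nil => show ev g [] = _; rw [ev_nil, inv_one]
  | cons l w ih =>
    have h : invw (l :: w) = invw w ++ [fl l] := by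
      unfold invw
      rw [List.map_cons, List.reverse_cons]
    rw [h, ev_append, ih, ev_cons g (fl l), ev_nil, one_mul, lt_fl, ev_cons, mul_inv_rev]

/-- words in the nodes as words in the generators -/
def flat (wN : ℕ → List ℕ) : List ℕ → List ℕ
  | [] => []
  | l :: R => (cond (Nat.beq (Nat.mod l 2) 0) (wN (Nat.div l 2)) (invw (wN (Nat.div l 2)))) ++ flat wN R

theorem ev_flat {G : Type*} [Group G] (g : ℕ → G) (wN : ℕ → List ℕ) (R : List ℕ) :
    ev g (flat wN R) = ev (fun i => ev g (wN i)) R := by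
  induction R with
  | nil => rw [ev_nil]; exact ev_nil g
  | cons l R ih =>
    have h : flat wN (l :: R) = (cond (Nat.beq (Nat.mod l 2) 0) (wN (Nat.div l 2)) (invw (wN (Nat.div l 2)))) ++ flat wN R := rfl
    rw [h, ev_append, ih, ev_cons]
    congr 1
    unfold lt
    by_cases h0 : l % 2 = 0
    · rw [if_pos h0, Sol.beq_iff.2 (show Nat.mod l 2 = 0 from h0), cond_true]; rfl
    · rw [if_neg h0, beq_ne (show Nat.mod l 2 ≠ 0 from h0), cond_false, ev_invw]; rfl

/-- relators in nodes which are words, checked on a few points -/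
theorem rel_nodes {G Ω : Type*} [Group G] [MulAction G Ω] {n k J : ℕ} {g : ℕ → G} {e : ℕ → Ω} {T : ℕ → ℕ → ℕ}
    {pi pq : ℕ → ℕ} (A : Act n k g e T pi pq) (S : List ℕ) (hS : ∀ a ∈ S, a < n)
    (hf : ∀ y : G, (∀ a ∈ S, y • e a = e a) → y = 1) {wN R : ℕ → List ℕ}
    (h : alln (fun j => ((flat wN (R j)).all fun l => Nat.blt l (Nat.mul 2 k)) &&
      S.all fun a => Nat.beq (ptq T (flat wN (R j)) a) a) J = true) :
    ∀ j < J, ev (fun i => ev g (wN i)) (R j) = 1 := by
  intro j hj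
  rw [← ev_flat]
  apply hf
  intro a ha
  have h1 := alln_iff.1 h j hj
  rw [Bool.and_eq_true, List.all_eq_true, List.all_eq_true] at h1
  rw [A.smul_ev (fun l hl => Sol.blt_iff.1 (h1.1 l hl)) (hS a ha), ← ptq_eq]
  congr 1
  exact Sol.beq_iff.1 (h1.2 a ha)

/-- a word in nodes moves a point -/
theorem ne_nodes {G Ω : Type*} [Group G] [MulAction G Ω] {n k : ℕ} {g : ℕ → G} {e : ℕ → Ω} {T : ℕ → ℕ → ℕ}
    {pi pq : ℕ → ℕ} (A : Act n k g e T pi pq) {wN : ℕ → List ℕ} (R : List ℕ)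
    (hw : ((flat wN R).all fun l => Nat.blt l (Nat.mul 2 k)) = true) (a : ℕ) (ha : a < n)
    (h : ptq T (flat wN R) a ≠ a) : ev (fun i => ev g (wN i)) R ≠ 1 := by
  rw [← ev_flat]
  intro h1
  rw [List.all_eq_true] at hw
  have hw' : ∀ l ∈ flat wN R, l < 2 * k := fun l hl => Sol.blt_iff.1 (hw l hl)
  have h2 := A.smul_ev hw' ha
  rw [h1, one_smul] at h2
  apply h
  rw [ptq_eq]
  exact (A.inj ha (A.pt_lt hw' ha) h2).symm

/-- elements of order three inverted by elements of a group: the abelian quotient has order prime to three -/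
theorem nine_index {H : Type u} [Group H] [Finite H] (x y t s : H) (hx : x ^ 3 = 1) (hy : y ^ 3 = 1)
    (hx1 : x ≠ 1) (hy1 : y ≠ 1) (hxy : x * y = y * x) (htx : t * x * t⁻¹ = x) (hty : t * y * t⁻¹ = y⁻¹)
    (hsx : s * x * s⁻¹ = x⁻¹) (hcard : ¬ 27 ∣ Nat.card H) : ¬ 3 ∣ (commutator H).index := by
  have f3 : Fact (Nat.Prime 3) := ⟨Nat.prime_three⟩
  have h9 : 9 ∣ Nat.card (closure {x, y}) := by
    apply Cfsg.Agent.Lib.H92Stem.nine_dvd hx hy hxy hx1
    rintro ⟨j, hj⟩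
    have hj : x ^ j = y := hj
    have h1 : t * y * t⁻¹ = y := by
      rw [← hj, ← MulAut.conj_apply, map_zpow, MulAut.conj_apply, htx]
    rw [h1] at hty
    have h2 : y ^ 2 = 1 := by
      rw [pow_two]
      nth_rw 1 [hty]
      exact inv_mul_cancel y
    apply hy1
    have : y ^ 3 = y ^ 2 * y := pow_succ y 2
    rw [hy, h2, one_mul] at this
    exact this.symm
  have key : ∀ z u : H, z ^ 3 = 1 → u * z * u⁻¹ = z⁻¹ → z ∈ commutator H := by
    intro z u hz hu
    have h1 : u * z * u⁻¹ * z⁻¹ = z := by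
      rw [hu]
      have : z ^ 3 = z * z * z := by rw [pow_succ, pow_two]
      rw [this] at hz
      calc z⁻¹ * z⁻¹ = (z * z * z) * (z⁻¹ * z⁻¹) := by rw [hz, one_mul]
        _ = z := by group
    rw [← h1]
    exact commutator_mem_commutator (mem_top u) (mem_top z)
  have hle : closure {x, y} ≤ commutator H := by
    rw [closure_le]
    rintro z hz
    rcases hz with rfl | hz
    · exact key _ s hx hsx
    · rw [Set.mem_singleton_iff] at hz; subst hz
      exact key _ t hy hty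
  intro hd
  apply hcard
  rw [← (commutator H).card_mul_index]
  exact mul_dvd_mul (h9.trans (card_dvd_of_le hle)) hd

end Cfsg.Agent.Lib.H58SM
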