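import Cfsg.Agent.Lib.H89GD

/-!
# Tables for the outer involutions fixing a base of `Fi₂₂`: index permutations
-/

set_option autoImplicit false
set_option linter.all false
set_option maxRecDepth 100000

namespace Cfsg.Agent.Lib.H5Stein

open Cfsg.Agent.Lib.H89GA

/-- entry of the tables -/
def kp (k i : ℕ) : ℕ := (KP.getD k []).getD i 0
/-- product of a path, as index map -/
def pathN (p : List ℕ) (i : ℕ) : ℕ := p.foldr kp i
def sN (i : ℕ) : ℕ := sB.getD i 0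
/-- the first six -/
def H0 : List ℕ := [0, 2, 3, 7, 15, 17]
def H7 : List ℕ := [0, 2, 3, 6, 7, 15, 17]
/-- path -/
def pth (y j : ℕ) : List ℕ := List.replicate j 10 ++ T3.getD y []
def F (y j i : ℕ) : ℕ := sN (pathN (pth y j) i)
def F2 (x y j i : ℕ) : ℕ := sN (pathN (pth y j) (pathN (T2.getD x []) i))

theorem kp_lt : ∀ k < 11, ∀ i < 22, kp k i < 22 := by decide +kernel
theorem sN_lt : ∀ i < 22, sN i < 22 := by decide +kernel
theorem T1_ok : ∀ y < 22, ∀ k ∈ T1.getD y [], k < 11 := by decide +kernel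
theorem T2_ok : ∀ y < 22, ∀ k ∈ T2.getD y [], k < 11 := by decide +kernel
theorem T3_ok : ∀ y < 22, ∀ k ∈ T3.getD y [], k < 11 := by decide +kernel
theorem MP_ok : ∀ y < 66, ∀ k ∈ MP.getD y [], k < 11 := by decide +kernel
theorem T1_map : ∀ i < 22, i ≠ 0 → pathN (T1.getD i []) 0 = 0 ∧ pathN (T1.getD i []) i = 2 := by decide +kernel
theorem T2_map : ∀ i < 22, i ≠ 0 → i ≠ 2 → pathN (T2.getD i []) 0 = 0 ∧ pathN (T2.getD i []) 2 = 2 ∧ pathN (T2.getD i []) i = 3 := by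
  decide +kernel
theorem T3_map : ∀ i < 22, i ∉ H0 → (∀ j ∈ H0, pathN (T3.getD i []) j = j) ∧ pathN (T3.getD i []) i = 6 := by
  decide +kernel
theorem rho_fix : ∀ i ∈ [0, 2, 3, 6], kp 10 i = i := by decide +kernel
theorem rho_rot : kp 10 7 = 15 ∧ kp 10 15 = 17 ∧ kp 10 17 = 7 := by decide +kernel
theorem sN_fix : ∀ i ∈ [0, 2, 3, 6, 7], sN i = i := by decide +kernel
theorem sN_swap : sN 15 = 17 ∧ sN 17 = 15 := by decide +kernel

/-- conjugating to `s` -/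
theorem chk_C : ∀ y < 22, y ∉ H0 → ∀ j < 3, (∀ i < 22, F y j (F y j i) = i) →
    ∀ i < 22, pathN (MP.getD (3 * y + j) []) (F y j i) = sN (pathN (MP.getD (3 * y + j) []) i) := by
  decide +kernel

def Q2 (x y j : ℕ) : Prop := (∀ i < 22, F2 x y j (F2 x y j i) = i) → ¬ ∀ p < 22, p ≠ 0 → p ≠ 2 → F2 x y j p ≠ p
instance (x y j : ℕ) : Decidable (Q2 x y j) := by unfold Q2; infer_instance

def X2 : List ℕ := [1, 3, 4, 5, 6, 7, 8, 9, 10, 11, 12, 13, 14, 15, 16, 17, 18, 19, 20, 21]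
def Y3 : List ℕ := [1, 4, 5, 6, 8, 9, 10, 11, 12, 13, 14, 16, 18, 19, 20, 21]

theorem chk_B1 : ∀ x ∈ X2, ∀ y ∈ Y3, ∀ j ∈ [0, 1, 2], Q2 x y j := by
  decide +kernel

/-- three fixed points -/
theorem chk_B {x : ℕ} (h1 : x < 22) (h2 : x ≠ 0) (h3 : x ≠ 2) {y : ℕ} (h4 : y < 22) (h5 : y ∉ H0) {j : ℕ} (h6 : j < 3)
    (h7 : ∀ i < 22, F2 x y j (F2 x y j i) = i) : ∃ p < 22, p ≠ 0 ∧ p ≠ 2 ∧ F2 x y j p = p := by
  have hx : x ∈ X2 := by
    interval_cases x <;> first | exact absurd rfl h2 | exact absurd rfl h3 | decide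
  have hy : y ∈ Y3 := by
    interval_cases y <;> first | exact absurd (by decide) h5 | decide
  have hj : j ∈ [0, 1, 2] := by
    interval_cases j <;> decide
  have h := chk_B1 x hx y hy j hj h7
  push Not at h
  obtain ⟨p, hp, ha, hb, hc⟩ := h
  exact ⟨p, hp, ha, hb, hc⟩

end Cfsg.Agent.Lib.H5Stein
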