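import Cfsg.Agent.Lib.H89GD

/-!
# Masks: the hexads
-/

set_option autoImplicit false
set_option linter.all false
set_option maxRecDepth 100000

namespace Cfsg.Agent.Lib.H5Stein

open Cfsg.Agent.Lib.H89GA

noncomputable def fbn (i : ℕ) : ℕ := FBm.getD i 0
noncomputable def nb : ℕ := Nat.xor (Nat.sub (Nat.pow 2 3510) 1) BM
noncomputable def MM (x y z : ℕ) : ℕ := Nat.land (Nat.land (Nat.land (fbn x) (fbn y)) (fbn z)) nb
noncomputable def hx (x y z i : ℕ) : Bool := Nat.beq (Nat.land (MM x y z) (fbn i)) (MM x y z)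
noncomputable def ht (p n : ℕ) : ℕ := (HT.getD p []).getD n 0
noncomputable def hh (p q : ℕ) : Bool :=
  and (hx (ht p 0) (ht p 1) (ht p 2) q) (hx (ht p 3) (ht p 4) (ht p 5) q)

def L22 : List ℕ := [0, 1, 2, 3, 4, 5, 6, 7, 8, 9, 10, 11, 12, 13, 14, 15, 16, 17, 18, 19, 20, 21]
def O15 : List ℕ := [1, 4, 5, 8, 9, 10, 11, 12, 13, 14, 16, 18, 19, 20, 21]

theorem hx0 : L22.all (fun i => hx 0 2 3 i == [0, 2, 3, 7, 15, 17].contains i) = true := by decide +kernel
theorem hh0 : O15.all (fun p => O15.all (fun q => hh p q == Nat.beq p q)) = true := by decide +kernel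
theorem ht_mem : ∀ p ∈ O15, ∀ n < 6, ht p n ∈ [0, 2, 3, 6, 7, 15, 17] := by decide +kernel
theorem BM_eq : BL.foldr (fun l m => Nat.lor (Nat.pow 2 l) m) 0 = BM := by decide +kernel
theorem BL_lt : ∀ l ∈ BL, l < 3510 := by decide +kernel
theorem BL_nodup : BL.Nodup := by decide +kernel
theorem BL_fst : BT.map Prod.fst = BL := by decide +kernel
theorem len_BT : BT.length = 22 := by decide +kernel
theorem len_BL : BL.length = 22 := by decide +kernel
theorem len_FB : FBm.length = 22 := by decide +kernel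

theorem testBit_foldr (L : List ℕ) (l : ℕ) : (L.foldr (fun l m => Nat.lor (Nat.pow 2 l) m) 0).testBit l = true ↔ l ∈ L := by
  induction L with
  | nil => simp
  | cons a L ih =>
    rw [List.foldr_cons, List.mem_cons, ← ih]
    have : (Nat.lor (Nat.pow 2 a) (L.foldr (fun l m => Nat.lor (Nat.pow 2 l) m) 0)).testBit l =
      ((2 ^ a).testBit l || (L.foldr (fun l m => Nat.lor (Nat.pow 2 l) m) 0).testBit l) := Nat.testBit_or _ _ _
    rw [this, Bool.or_eq_true, Nat.testBit_two_pow, decide_eq_true_eq, eq_comm]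

theorem BM_bit {l : ℕ} : BM.testBit l = true ↔ l ∈ BL := by rw [← BM_eq]; exact testBit_foldr BL l

theorem nb_bit {l : ℕ} : nb.testBit l = true ↔ l < 3510 ∧ l ∉ BL := by
  have h : nb.testBit l = ((2 ^ 3510 - 1).testBit l ^^ BM.testBit l) := Nat.testBit_xor _ _ _
  rw [h, Nat.testBit_two_pow_sub_one]
  by_cases hl : l < 3510
  · by_cases hb : l ∈ BL
    · rw [BM_bit.2 hb]; simp [hl, hb]
    · have : BM.testBit l = false := by
        rw [← Bool.not_eq_true, BM_bit]; exact hb
      rw [this]; simp [hl, hb]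
  · have hb : l ∉ BL := fun h => hl (BL_lt l h)
    have : BM.testBit l = false := by
      rw [← Bool.not_eq_true, BM_bit]; exact hb
    rw [this]; simp [hl]

theorem hx_spec {x y z i : ℕ} : hx x y z i = true ↔ ∀ l, l < 3510 → l ∉ BL → (fbn x).testBit l = true →
    (fbn y).testBit l = true → (fbn z).testBit l = true → (fbn i).testBit l = true := by
  have hM : ∀ l, (MM x y z).testBit l = ((((fbn x).testBit l && (fbn y).testBit l) && (fbn z).testBit l) && nb.testBit l) := by
    intro l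
    have h1 : (MM x y z).testBit l = ((Nat.land (Nat.land (fbn x) (fbn y)) (fbn z)).testBit l && nb.testBit l) := Nat.testBit_and _ _ _
    have h2 : (Nat.land (Nat.land (fbn x) (fbn y)) (fbn z)).testBit l = ((Nat.land (fbn x) (fbn y)).testBit l && (fbn z).testBit l) :=
      Nat.testBit_and _ _ _
    have h3 : (Nat.land (fbn x) (fbn y)).testBit l = ((fbn x).testBit l && (fbn y).testBit l) := Nat.testBit_and _ _ _
    rw [h1, h2, h3]
  constructor
  · intro h l hl hb h1 h2 h3
    have h4 := Nat.eq_of_beq_eq_true h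
    have h5 : (MM x y z).testBit l = true := by
      rw [hM, h1, h2, h3, nb_bit.2 ⟨hl, hb⟩]; rfl
    rw [← h4] at h5
    have h6 : (Nat.land (MM x y z) (fbn i)).testBit l = ((MM x y z).testBit l && (fbn i).testBit l) := Nat.testBit_and _ _ _
    rw [h6, Bool.and_eq_true] at h5
    exact h5.2
  · intro h
    unfold hx
    rw [Nat.beq_eq]
    apply Nat.eq_of_testBit_eq
    intro l
    have h6 : (Nat.land (MM x y z) (fbn i)).testBit l = ((MM x y z).testBit l && (fbn i).testBit l) := Nat.testBit_and _ _ _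
    rw [h6]
    cases hc : (MM x y z).testBit l with
    | false => rfl
    | true =>
      rw [hM, Bool.and_eq_true, Bool.and_eq_true, Bool.and_eq_true] at hc
      obtain ⟨⟨⟨h1, h2⟩, h3⟩, h4⟩ := hc
      obtain ⟨h5, h7⟩ := nb_bit.1 h4
      rw [h l h5 h7 h1 h2 h3]; rfl

theorem hx0_iff {i : ℕ} (hi : i < 22) : hx 0 2 3 i = true ↔ i ∈ [0, 2, 3, 7, 15, 17] := by
  have hm : i ∈ L22 := by unfold L22; interval_cases i <;> decide
  have h := List.all_eq_true.1 hx0 i hm
  rw [beq_iff_eq] at h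
  rw [h, List.contains_iff_mem]

theorem mem_O15 {p : ℕ} (hp : p < 22) (h : p ∉ [0, 2, 3, 6, 7, 15, 17]) : p ∈ O15 := by
  unfold O15
  interval_cases p <;> first | exact absurd (by decide) h | decide

theorem hh_iff {p q : ℕ} (hp : p ∈ O15) (hq : q ∈ O15) : hh p q = true ↔ p = q := by
  have h := List.all_eq_true.1 (List.all_eq_true.1 hh0 p hp) q hq
  rw [beq_iff_eq] at h
  rw [h, Nat.beq_eq]

end Cfsg.Agent.Lib.H5Stein
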