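import Cfsg.Agent.Lib.H89GA1
import Cfsg.Agent.Lib.H5SteinA
import Cfsg.Agent.Lib.H5SteinB

/-!
# Outer involutions of `Fi₂₂` normalizing a base
-/

set_option autoImplicit false
set_option linter.all false
set_option maxRecDepth 100000

namespace Cfsg.Agent.Lib.H5Stein

open Cfsg.Spor Cfsg.Agent.Lib.BenesPerm Cfsg.Agent.Lib.BenesAct Cfsg.Agent.Lib.BenesWord Cfsg.Agent.Lib.BenesPlane
open Cfsg.Agent.Lib.Fi22NetsA Cfsg.Agent.Lib.LaneTools Cfsg.Agent.Lib.TransLanes Cfsg.Agent.Lib.Fi22Out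
open Cfsg.Agent.Lib.H89GA

noncomputable abbrev TB (i : ℕ) : P := T (BL.getD i 0)

theorem bl_mem {i : ℕ} (hi : i < 22) : BL.getD i 0 ∈ BL := by
  have h : i < BL.length := by rw [len_BL]; exact hi
  rw [List.getD_eq_getElem _ _ h]
  exact List.getElem_mem h

theorem bl_lt {i : ℕ} (hi : i < 22) : BL.getD i 0 < 3510 := BL_lt _ (bl_mem hi)

theorem bl_surj {l : ℕ} (hl : l ∈ BL) : ∃ i < 22, BL.getD i 0 = l := by
  obtain ⟨i, hi, h⟩ := List.getElem_of_mem hl
  refine ⟨i, by rw [len_BL] at hi; exact hi, ?_⟩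
  rw [List.getD_eq_getElem _ _ hi, h]

theorem bl_inj {i j : ℕ} (hi : i < 22) (hj : j < 22) (h : BL.getD i 0 = BL.getD j 0) : i = j := by
  have h1 : i < BL.length := by rw [len_BL]; exact hi
  have h2 : j < BL.length := by rw [len_BL]; exact hj
  rw [List.getD_eq_getElem _ _ h1, List.getD_eq_getElem _ _ h2] at h
  exact (List.Nodup.getElem_inj_iff BL_nodup).1 h

theorem TB_inj {i j : ℕ} (hi : i < 22) (hj : j < 22) (h : TB i = TB j) : i = j :=
  bl_inj hi hj (T_inj (bl_lt hi) (bl_lt hj) h)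

theorem fbK_spec : ∀ {l : List (LE × ℕ)}, fbK l = true → ∀ e ∈ l, fixOK nets (tw e.1) 12 3510 e.2 = true
  | [], _, e, he => absurd he (by simp)
  | e' :: l, h, e, he => by
    change bandK (fixOK nets (tw e'.1) 12 3510 e'.2) (fbK l) = true at h
    rw [bandK_eq_true] at h
    rcases List.mem_cons.1 he with rfl | he
    · exact h.1
    · exact fbK_spec h.2 e he

theorem fbn_spec {i l : ℕ} (hi : i < 22) (hl : l < 3510) : (fbn i).testBit l = true ↔ Commute (TB i) (T l) := by
  have h1 : i < BT.length := by rw [len_BT]; exact hi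
  have h2 : i < FBm.length := by rw [len_FB]; exact hi
  have h3 : i < BL.length := by rw [len_BL]; exact hi
  have hz : i < (BT.zip FBm).length := by rw [List.length_zip, len_BT, len_FB]; exact hi
  have hm : (BT[i]'h1, FBm[i]'h2) ∈ BT.zip FBm := by
    have h := List.getElem_mem hz
    rwa [List.getElem_zip] at h
  have h4 := fbK_spec fb _ hm
  have h5 := fixOK_spec c_nets n_le h4 hl
  have h6 := lesK_spec le_BT _ (List.getElem_mem h1)
  obtain ⟨-, h7, -⟩ := T_entry h6
  have h8 : (BT[i]'h1).1 = BL.getD i 0 := by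
    have e : (BT.map Prod.fst).getD i 0 = BL.getD i 0 := by rw [BL_fst]
    rw [← e, List.getD_eq_getElem _ _ (by rw [List.length_map]; exact h1), List.getElem_map]
  have h9 : fbn i = FBm[i]'h2 := by unfold fbn; rw [List.getD_eq_getElem _ _ h2]
  rw [h9, h5, ← φ_word, ← h7, h8, fix_iff hl]
  exact Iff.rfl

noncomputable def E (k : ℕ) : MulAut P := MulAut.conj (Wx xx (KW.getD k []))
noncomputable def pathE (p : List ℕ) : MulAut P := (p.map E).prod

theorem actK_spec {ns : List Net} {w : List ℕ} : ∀ (l q : List ℕ), actK ns w q l = true →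
    ∀ i < l.length, laneK ns w (l.getD i 0) (nthK 0 BL (q.getD i 0)) = true
  | [], _, _, i, hi => absurd hi (by simp)
  | a :: l, [], h, _, _ => by
    change false = true at h
    exact absurd h (by simp)
  | a :: l, b :: q, h, i, hi => by
    change bandK (laneK ns w a (nthK 0 BL b)) (actK ns w q l) = true at h
    rw [bandK_eq_true] at h
    cases i with
    | zero => exact h.1
    | succ i => exact actK_spec l q h.2 i (by simpa using hi)

theorem actsK_spec : ∀ (W p : List (List ℕ)), actsK W p = true →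
    ∀ k < W.length, actK nets (W.getD k []) (p.getD k []) BL = true
  | [], _, _, i, hi => absurd hi (by simp)
  | a :: l, [], h, _, _ => by
    change false = true at h
    exact absurd h (by simp)
  | a :: l, b :: q, h, i, hi => by
    change bandK (actK nets a b BL) (actsK l q) = true at h
    rw [bandK_eq_true] at h
    cases i with
    | zero => exact h.1
    | succ i => exact actsK_spec l q h.2 i (by simpa using hi)

theorem nthK_BL (j : ℕ) : nthK 0 BL j = BL.getD j 0 := by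
  rw [nthK_eq]; rfl

theorem len_KW : KW.length = 11 := by decide +kernel

theorem E_act {k : ℕ} (hk : k < 11) {i : ℕ} (hi : i < 22) : E k (TB i) = TB (kp k i) := by
  have h1 := actsK_spec KW KP acts_KW k (by rw [len_KW]; exact hk)
  have h2 := actK_spec _ _ h1 i (by rw [len_BL]; exact hi)
  rw [nthK_BL] at h2
  have h3 := laneK_spec c_nets h2
  show Wx xx (KW.getD k []) * TB i * (Wx xx (KW.getD k []))⁻¹ = _
  rw [← T_map (bl_lt hi), φ_word, h3]
  rfl

theorem s_act {i : ℕ} (hi : i < 22) : s (TB i) = TB (sN i) := by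
  have h2 := actK_spec _ _ act_s i (by rw [len_BL]; exact hi)
  rw [nthK_BL] at h2
  have h3 := laneK_spec ns2_check h2
  rw [(Lact_s _ (bl_lt hi)).2, h3]
  rfl

theorem path_act : ∀ (p : List ℕ), (∀ k ∈ p, k < 11) → ∀ i < 22, pathN p i < 22 ∧ pathE p (TB i) = TB (pathN p i)
  | [], _, i, hi => ⟨hi, rfl⟩
  | k :: p, h, i, hi => by
    obtain ⟨h1, h2⟩ := path_act p (fun c hc => h c (List.mem_cons_of_mem _ hc)) i hi
    have hk := h k List.mem_cons_self
    refine ⟨kp_lt k hk _ h1, ?_⟩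
    have e : pathE (k :: p) = E k * pathE p := by
      unfold pathE; rw [List.map_cons, List.prod_cons]
    rw [e, MulAut.mul_apply, h2, E_act hk h1]
    rfl

theorem pathE_append (p q : List ℕ) : pathE (p ++ q) = pathE p * pathE q := by
  unfold pathE; rw [List.map_append, List.prod_append]

theorem pathN_append (p q : List ℕ) (i : ℕ) : pathN (p ++ q) i = pathN p (pathN q i) := by
  unfold pathN; rw [List.foldr_append]

theorem path_inner (p : List ℕ) : pathE p ∈ (MulAut.conj : P →* MulAut P).range := by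
  unfold pathE
  apply Subgroup.list_prod_mem
  intro x hx
  obtain ⟨k, -, rfl⟩ := List.mem_map.1 hx
  exact ⟨_, rfl⟩

/-- normalizing the base -/
def Nm (α : MulAut P) : Prop := ∀ i < 22, ∃ j < 22, α (TB i) = TB j

theorem Nm.mul {α β : MulAut P} (h1 : Nm α) (h2 : Nm β) : Nm (α * β) := by
  intro i hi
  obtain ⟨j, hj, e⟩ := h2 i hi
  obtain ⟨k, hk, e2⟩ := h1 j hj
  exact ⟨k, hk, by rw [MulAut.mul_apply, e, e2]⟩

theorem Nm_path {p : List ℕ} (h : ∀ k ∈ p, k < 11) : Nm (pathE p) := fun i hi =>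
  ⟨_, (path_act p h i hi).1, (path_act p h i hi).2⟩

theorem Nm_s : Nm s := fun i hi => ⟨_, sN_lt i hi, s_act hi⟩

theorem Nm.surj {α : MulAut P} (h : Nm α) : ∀ j < 22, ∃ i < 22, α (TB i) = TB j := by
  choose! f hf hf2 using h
  let g : Fin 22 → Fin 22 := fun i => ⟨f i, hf i i.2⟩
  have hg : Function.Injective g := by
    intro a b hab
    have e : f a = f b := congrArg Fin.val hab
    have e2 : α (TB a) = α (TB b) := by rw [hf2 a a.2, hf2 b b.2, e]
    exact Fin.ext (TB_inj a.2 b.2 (α.injective e2))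
  have hs := Finite.injective_iff_surjective.1 hg
  intro j hj
  obtain ⟨i, hi⟩ := hs ⟨j, hj⟩
  refine ⟨i, i.2, ?_⟩
  rw [hf2 i i.2]
  have : f i = j := congrArg Fin.val hi
  rw [this]

theorem Nm.inv {α : MulAut P} (h : Nm α) : Nm α⁻¹ := by
  intro j hj
  obtain ⟨i, hi, e⟩ := h.surj j hj
  exact ⟨i, hi, by rw [← e, MulAut.inv_apply_self]⟩

theorem inv_of {α : MulAut P} {a b : P} (h : α a = b) : α⁻¹ b = a := by rw [← h, MulAut.inv_apply_self]

/-- hexads are preserved -/
theorem hex {α : MulAut P} (hα : Nm α) {x y z : ℕ} (hx22 : x < 22) (hy22 : y < 22) (hz22 : z < 22)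
    (h1 : α (TB x) = TB x) (h2 : α (TB y) = TB y) (h3 : α (TB z) = TB z) {i j : ℕ} (hi : i < 22) (hj : j < 22)
    (hij : α (TB i) = TB j) (h : hx x y z i = true) : hx x y z j = true := by
  rw [hx_spec] at h ⊢
  intro l hl hb c1 c2 c3
  rw [fbn_spec hx22 hl] at c1
  rw [fbn_spec hy22 hl] at c2
  rw [fbn_spec hz22 hl] at c3
  rw [fbn_spec hj hl]
  obtain ⟨f, hf⟩ := exists_act α⁻¹
  obtain ⟨hm, e⟩ := hf l hl
  have e' : α (T (f l)) = T l := by rw [← e, MulAut.apply_inv_self]
  have hmb : f l ∉ BL := by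
    intro hmem
    obtain ⟨k, hk, hk2⟩ := bl_surj hmem
    obtain ⟨k', hk', e2⟩ := hα k hk
    apply hb
    have e3 : T l = TB k' := by rw [← e', ← hk2]; exact e2
    rw [T_inj hl (bl_lt hk') e3]
    exact bl_mem hk'
  have tr : ∀ w, α (TB w) = TB w → Commute (TB w) (T l) → Commute (TB w) (T (f l)) := by
    intro w hw hc
    have := hc.map α⁻¹
    rwa [e, inv_of hw] at this
  have h7 := h (f l) hm hmb ((fbn_spec hx22 hm).2 (tr x h1 c1)) ((fbn_spec hy22 hm).2 (tr y h2 c2))
    ((fbn_spec hz22 hm).2 (tr z h3 c3))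
  rw [fbn_spec hi hm] at h7
  have := h7.map α
  rwa [e', hij] at this

theorem O15_lt : ∀ p ∈ O15, p < 22 := by decide
theorem H7_lt : ∀ p ∈ [0, 2, 3, 6, 7, 15, 17], p < 22 := by decide

/-- fixing seven points -/
theorem seven {α : MulAut P} (hα : Nm α) (h : ∀ i ∈ [0, 2, 3, 6, 7, 15, 17], α (TB i) = TB i) :
    ∀ p < 22, α (TB p) = TB p := by
  intro p hp
  by_cases hp7 : p ∈ [0, 2, 3, 6, 7, 15, 17]
  · exact h p hp7
  have hpO := mem_O15 hp hp7
  obtain ⟨q, hq, e⟩ := hα p hp
  have hq7 : q ∉ [0, 2, 3, 6, 7, 15, 17] := by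
    intro hq7
    have e2 : α (TB q) = α (TB p) := by rw [h q hq7, e]
    have e3 := TB_inj hq hp (α.injective e2)
    rw [e3] at hq7
    exact hp7 hq7
  have hqO := mem_O15 hq hq7
  have hpp : hh p p = true := (hh_iff hpO hpO).2 rfl
  have hm := ht_mem p hpO
  unfold hh at hpp
  rw [Bool.and_eq_true] at hpp
  have hpq : hh p q = true := by
    unfold hh
    rw [Bool.and_eq_true]
    exact ⟨hex hα (H7_lt _ (hm 0 (by norm_num))) (H7_lt _ (hm 1 (by norm_num))) (H7_lt _ (hm 2 (by norm_num)))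
        (h _ (hm 0 (by norm_num))) (h _ (hm 1 (by norm_num))) (h _ (hm 2 (by norm_num))) hp hq e hpp.1,
      hex hα (H7_lt _ (hm 3 (by norm_num))) (H7_lt _ (hm 4 (by norm_num))) (H7_lt _ (hm 5 (by norm_num)))
        (h _ (hm 3 (by norm_num))) (h _ (hm 4 (by norm_num))) (h _ (hm 5 (by norm_num))) hp hq e hpp.2⟩
  have := (hh_iff hpO hqO).1 hpq
  rw [e, ← this]

theorem hex0 {α : MulAut P} (hα : Nm α) (h0 : α (TB 0) = TB 0) (h2 : α (TB 2) = TB 2) (h3 : α (TB 3) = TB 3)
    {i j : ℕ} (hi : i < 22) (hj : j < 22) (hij : α (TB i) = TB j) (h : i ∈ [0, 2, 3, 7, 15, 17]) :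
    j ∈ [0, 2, 3, 7, 15, 17] :=
  (hx0_iff hj).1 (hex hα (by norm_num) (by norm_num) (by norm_num) h0 h2 h3 hi hj hij ((hx0_iff hi).2 h))

theorem rep_ok (j : ℕ) : ∀ k ∈ List.replicate j 10, k < 11 := by
  intro k hk
  rw [List.eq_of_mem_replicate hk]; norm_num

theorem pth_ok {y j : ℕ} (hy : y < 22) : ∀ k ∈ pth y j, k < 11 := by
  intro k hk
  rcases List.mem_append.1 hk with h | h
  · exact rep_ok j k h
  · exact T3_ok y hy k h

theorem L3 (ci : ∀ α : MulAut P, (∀ i < 22, α (TB i) = TB i) → α ∈ (MulAut.conj : P →* MulAut P).range)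
    {α : MulAut P} (hα : Nm α) (ho : α ∉ (MulAut.conj : P →* MulAut P).range)
    (h0 : α (TB 0) = TB 0) (h2 : α (TB 2) = TB 2) (h3 : α (TB 3) = TB 3) :
    ∃ y < 22, y ∉ H0 ∧ ∃ j < 3, ∀ i < 22, (s * pathE (pth y j) * α) (TB i) = TB i := by
  obtain ⟨y, hy, hy6⟩ := hα 6 (by norm_num)
  have hyH : y ∉ H0 := by
    intro hyH
    have := hex0 hα.inv (inv_of h0) (inv_of h2) (inv_of h3) hy (by norm_num : 6 < 22) (inv_of hy6) hyH
    exact absurd this (by decide)
  obtain ⟨t3, t6⟩ := T3_map y hy hyH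
  have a3 := path_act (T3.getD y []) (T3_ok y hy)
  set β : MulAut P := pathE (T3.getD y []) * α with hβ
  have hβN : Nm β := (Nm_path (T3_ok y hy)).mul hα
  have fx : ∀ i ∈ H0, i < 22 → α (TB i) = TB i → β (TB i) = TB i := by
    intro i hi hi22 e
    rw [hβ, MulAut.mul_apply, e, (a3 i hi22).2, t3 i hi]
  have b0 : β (TB 0) = TB 0 := fx 0 (by decide) (by norm_num) h0
  have b2 : β (TB 2) = TB 2 := fx 2 (by decide) (by norm_num) h2
  have b3 : β (TB 3) = TB 3 := fx 3 (by decide) (by norm_num) h3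
  have b6 : β (TB 6) = TB 6 := by
    rw [hβ, MulAut.mul_apply, hy6, (a3 y hy).2, t6]
  obtain ⟨j7, hj7, e7⟩ := hβN 7 (by norm_num)
  have hj7H := hex0 hβN b0 b2 b3 (by norm_num) hj7 e7 (by decide : 7 ∈ [0, 2, 3, 7, 15, 17])
  -- injectivity of an automorphism on the base
  have inj : ∀ (γ : MulAut P) (i i' k : ℕ), i < 22 → i' < 22 → i ≠ i' → γ (TB i) = TB k → γ (TB i') = TB k → False := by
    intro γ i i' k hi hi' hne e1 e2
    exact hne (TB_inj hi hi' (γ.injective (e1.trans e2.symm)))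
  obtain ⟨j, hj, hj7'⟩ : ∃ j < 3, pathN (List.replicate j 10) j7 = 7 := by
    have h15 : kp 10 15 = 17 := rho_rot.2.1
    have h17 : kp 10 17 = 7 := rho_rot.2.2
    simp only [List.mem_cons, List.not_mem_nil, or_false] at hj7H
    rcases hj7H with e | e | e | e | e | e
    · subst e; exact (inj β 0 7 0 (by norm_num) (by norm_num) (by norm_num) b0 e7).elim
    · subst e; exact (inj β 2 7 2 (by norm_num) (by norm_num) (by norm_num) b2 e7).elim
    · subst e; exact (inj β 3 7 3 (by norm_num) (by norm_num) (by norm_num) b3 e7).elim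
    · subst e; exact ⟨0, by norm_num, rfl⟩
    · subst e
      refine ⟨2, by norm_num, ?_⟩
      show kp 10 (kp 10 15) = 7
      rw [h15, h17]
    · subst e
      refine ⟨1, by norm_num, ?_⟩
      exact h17
  refine ⟨y, hy, hyH, j, hj, ?_⟩
  have aj := path_act (List.replicate j 10) (rep_ok j)
  set γ : MulAut P := pathE (List.replicate j 10) * β with hγ
  have hγN : Nm γ := (Nm_path (rep_ok j)).mul hβN
  have hrep : ∀ i ∈ [0, 2, 3, 6], pathN (List.replicate j 10) i = i := by
    intro i hi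
    have h1 := rho_fix i hi
    interval_cases j
    · rfl
    · exact h1
    · show kp 10 (kp 10 i) = i
      rw [h1, h1]
  have g : ∀ i ∈ [0, 2, 3, 6], i < 22 → β (TB i) = TB i → γ (TB i) = TB i := by
    intro i hi hi22 e
    rw [hγ, MulAut.mul_apply, e, (aj i hi22).2, hrep i hi]
  have g0 := g 0 (by decide) (by norm_num) b0
  have g2 := g 2 (by decide) (by norm_num) b2
  have g3 := g 3 (by decide) (by norm_num) b3
  have g6 := g 6 (by decide) (by norm_num) b6
  have g7 : γ (TB 7) = TB 7 := by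
    rw [hγ, MulAut.mul_apply, e7, (aj j7 hj7).2, hj7']
  obtain ⟨a, ha, ea⟩ := hγN 15 (by norm_num)
  obtain ⟨b, hb, eb⟩ := hγN 17 (by norm_num)
  have haH := hex0 hγN g0 g2 g3 (by norm_num) ha ea (by decide : 15 ∈ [0, 2, 3, 7, 15, 17])
  have hbH := hex0 hγN g0 g2 g3 (by norm_num) hb eb (by decide : 17 ∈ [0, 2, 3, 7, 15, 17])
  have ha' : a = 15 ∨ a = 17 := by
    simp only [List.mem_cons, List.not_mem_nil, or_false] at haH
    rcases haH with e | e | e | e | e | e
    · subst e; exact (inj γ 0 15 0 (by norm_num) (by norm_num) (by norm_num) g0 ea).elim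
    · subst e; exact (inj γ 2 15 2 (by norm_num) (by norm_num) (by norm_num) g2 ea).elim
    · subst e; exact (inj γ 3 15 3 (by norm_num) (by norm_num) (by norm_num) g3 ea).elim
    · subst e; exact (inj γ 7 15 7 (by norm_num) (by norm_num) (by norm_num) g7 ea).elim
    · exact Or.inl e
    · exact Or.inr e
  have hb' : b = 15 ∨ b = 17 := by
    simp only [List.mem_cons, List.not_mem_nil, or_false] at hbH
    rcases hbH with e | e | e | e | e | e
    · subst e; exact (inj γ 0 17 0 (by norm_num) (by norm_num) (by norm_num) g0 eb).elim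
    · subst e; exact (inj γ 2 17 2 (by norm_num) (by norm_num) (by norm_num) g2 eb).elim
    · subst e; exact (inj γ 3 17 3 (by norm_num) (by norm_num) (by norm_num) g3 eb).elim
    · subst e; exact (inj γ 7 17 7 (by norm_num) (by norm_num) (by norm_num) g7 eb).elim
    · exact Or.inl e
    · exact Or.inr e
  have hab : a ≠ b := by
    intro e
    rw [e] at ea
    exact inj γ 15 17 b (by norm_num) (by norm_num) (by norm_num) ea eb
  have hall : s * pathE (pth y j) * α = s * γ := by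
    rw [hγ, hβ]
    unfold pth
    rw [pathE_append]
    simp only [mul_assoc]
  rw [hall]
  rcases ha' with rfl | rfl
  · exfalso
    have hb17 : b = 17 := by
      rcases hb' with e | e
      · exact absurd e.symm hab
      · exact e
    subst hb17
    have hfix : ∀ i < 22, γ (TB i) = TB i := by
      apply seven hγN
      intro i hi
      simp only [List.mem_cons, List.not_mem_nil, or_false] at hi
      rcases hi with rfl | rfl | rfl | rfl | rfl | rfl | rfl
      · exact g0
      · exact g2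
      · exact g3
      · exact g6
      · exact g7
      · exact ea
      · exact eb
    apply ho
    have h1 := ci γ hfix
    have h2 : α = (pathE (T3.getD y []))⁻¹ * ((pathE (List.replicate j 10))⁻¹ * γ) := by
      rw [hγ, inv_mul_cancel_left, hβ, inv_mul_cancel_left]
    rw [h2]
    exact mul_mem (inv_mem (path_inner _)) (mul_mem (inv_mem (path_inner _)) h1)
  · have hb15 : b = 15 := by
      rcases hb' with e | e
      · exact e
      · exact absurd e.symm hab
    subst hb15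
    apply seven (Nm_s.mul hγN)
    have hs5 := sN_fix
    have hss := sN_swap
    intro i hi
    simp only [List.mem_cons, List.not_mem_nil, or_false] at hi
    rw [MulAut.mul_apply]
    rcases hi with rfl | rfl | rfl | rfl | rfl | rfl | rfl
    · rw [g0, s_act (by norm_num), hs5 0 (by decide)]
    · rw [g2, s_act (by norm_num), hs5 2 (by decide)]
    · rw [g3, s_act (by norm_num), hs5 3 (by decide)]
    · rw [g6, s_act (by norm_num), hs5 6 (by decide)]
    · rw [g7, s_act (by norm_num), hs5 7 (by decide)]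
    · rw [ea, s_act (by norm_num), hss.2]
    · rw [eb, s_act (by norm_num), hss.1]

theorem conj_fix {k t : MulAut P} {a b : P} (h1 : k a = b) (h2 : t a = a) : (k * t * k⁻¹) b = b := by
  rw [MulAut.mul_apply, MulAut.mul_apply, inv_of h1, h2, h1]

theorem conj_outer {k t : MulAut P} (ho : t ∉ (MulAut.conj : P →* MulAut P).range)
    (hk : k ∈ (MulAut.conj : P →* MulAut P).range) : k * t * k⁻¹ ∉ (MulAut.conj : P →* MulAut P).range := by
  intro h
  apply ho
  have e : t = k⁻¹ * (k * t * k⁻¹) * k := by group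
  rw [e]
  exact mul_mem (mul_mem (inv_mem hk) h) hk

theorem conj_sq {k t : MulAut P} (ht : t * t = 1) : (k * t * k⁻¹) * (k * t * k⁻¹) = 1 := by
  calc (k * t * k⁻¹) * (k * t * k⁻¹) = k * (t * t) * k⁻¹ := by group
    _ = 1 := by rw [ht]; group

/-- a second fixed point -/
theorem second {t : MulAut P} (ht : t * t = 1) (hN : Nm t) (h0 : t (TB 0) = TB 0) :
    ∃ i < 22, i ≠ 0 ∧ t (TB i) = TB i := by
  choose! f hf hf2 using hN
  have hff : ∀ i < 22, f (f i) = i := by
    intro i hi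
    apply TB_inj (hf _ (hf i hi)) hi
    rw [← hf2 _ (hf i hi), ← hf2 i hi, ← MulAut.mul_apply, ht]; rfl
  let g : Fin 22 → Fin 22 := fun i => ⟨f i, hf i i.2⟩
  have hg : Function.Involutive g := fun i => Fin.ext (hff i i.2)
  let σ : Equiv.Perm (Fin 22) := hg.toPerm
  haveI : Fact (Nat.Prime 2) := ⟨Nat.prime_two⟩
  have hσ : σ ^ 2 ^ 1 = 1 := by
    ext i
    show ((σ ^ 2) i : ℕ) = i
    rw [sq]
    exact hff i i.2
  have h00 : σ 0 = 0 := by
    apply Fin.ext
    show f 0 = 0
    apply TB_inj (hf 0 (by norm_num)) (by norm_num)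
    rw [← hf2 0 (by norm_num), h0]
  obtain ⟨b, hb, hb2⟩ := Equiv.Perm.exists_fixed_point_of_prime' (p := 2) (n := 1) (by rw [Fintype.card_fin]; norm_num) hσ h00
  refine ⟨b, b.2, fun e => hb2 (Fin.ext e), ?_⟩
  have : f b = b := congrArg Fin.val hb
  rw [hf2 b b.2, this]

theorem to_s (ci : ∀ α : MulAut P, (∀ i < 22, α (T (BL.getD i 0)) = T (BL.getD i 0)) → α ∈ (MulAut.conj : P →* MulAut P).range)
    (t : MulAut P) (ht : t * t = 1) (hto : t ∉ (MulAut.conj : P →* MulAut P).range) (h0 : t (T 0) = T 0)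
    (hB : ∀ i < 22, ∃ j < 22, t (T (BL.getD i 0)) = T (BL.getD j 0)) :
    ∃ k : MulAut P, ∀ i < 22, (k * t * k⁻¹) (T (BL.getD i 0)) = s (T (BL.getD i 0)) := by
  have h00 : t (TB 0) = TB 0 := h0
  -- two fixed points
  obtain ⟨i1, hi1, hi1', e1⟩ := second ht hB h00
  obtain ⟨m10, m1i⟩ := T1_map i1 hi1 hi1'
  have p1 := path_act (T1.getD i1 []) (T1_ok i1 hi1)
  set k1 := pathE (T1.getD i1 []) with hk1
  set t1 := k1 * t * k1⁻¹ with ht1
  have t1s : t1 * t1 = 1 := conj_sq ht
  have t1o : t1 ∉ (MulAut.conj : P →* MulAut P).range := conj_outer hto (path_inner (T1.getD i1 []))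
  have t1N : Nm t1 := ((Nm_path (T1_ok i1 hi1)).mul hB).mul (Nm_path (T1_ok i1 hi1)).inv
  have t10 : t1 (TB 0) = TB 0 := conj_fix (a := TB 0) (by rw [(p1 0 (by norm_num)).2, m10]) h00
  have t12 : t1 (TB 2) = TB 2 := conj_fix (a := TB i1) (by rw [(p1 i1 hi1).2, m1i]) e1
  -- three fixed points
  obtain ⟨i2, hi2, hi20, hi22, e2⟩ : ∃ p < 22, p ≠ 0 ∧ p ≠ 2 ∧ t1 (TB p) = TB p := by
    obtain ⟨x, hx, hx3⟩ := t1N 3 (by norm_num)
    have hx0 : x ≠ 0 := by
      rintro rfl
      exact absurd (TB_inj (by norm_num) (by norm_num) (t1.injective (hx3.trans t10.symm))) (by norm_num)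
    have hx2 : x ≠ 2 := by
      rintro rfl
      exact absurd (TB_inj (by norm_num) (by norm_num) (t1.injective (hx3.trans t12.symm))) (by norm_num)
    obtain ⟨m0, m2, m3⟩ := T2_map x hx hx0 hx2
    have p2 := path_act (T2.getD x []) (T2_ok x hx)
    have ho : pathE (T2.getD x []) * t1 ∉ (MulAut.conj : P →* MulAut P).range := by
      intro h
      apply t1o
      have e : t1 = (pathE (T2.getD x []))⁻¹ * (pathE (T2.getD x []) * t1) := by group
      rw [e]
      exact mul_mem (inv_mem (path_inner _)) h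
    obtain ⟨y, hy, hyH, j, hj, hfix⟩ := L3 ci ((Nm_path (T2_ok x hx)).mul t1N) ho
      (by rw [MulAut.mul_apply, t10, (p2 0 (by norm_num)).2, m0])
      (by rw [MulAut.mul_apply, t12, (p2 2 (by norm_num)).2, m2])
      (by rw [MulAut.mul_apply, hx3, (p2 x hx).2, m3])
    have pj := path_act (pth y j) (pth_ok hy)
    -- the action of `t1`
    have act : ∀ i < 22, F2 x y j i < 22 ∧ t1 (TB i) = TB (F2 x y j i) := by
      intro i hi
      obtain ⟨a1, a2⟩ := p2 i hi
      obtain ⟨b1, b2⟩ := pj _ a1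
      refine ⟨sN_lt _ b1, ?_⟩
      obtain ⟨i', hi', e⟩ := t1N i hi
      have h1 := hfix i' hi'
      have h2 : t1 (TB i') = TB i := by rw [← e, ← MulAut.mul_apply, t1s]; rfl
      rw [MulAut.mul_apply, MulAut.mul_apply, MulAut.mul_apply, h2, a2, b2, s_act b1] at h1
      rw [e, ← h1]; rfl
    have inv : ∀ i < 22, F2 x y j (F2 x y j i) = i := by
      intro i hi
      obtain ⟨a1, a2⟩ := act i hi
      obtain ⟨b1, b2⟩ := act _ a1
      apply TB_inj b1 hi
      rw [← b2, ← a2, ← MulAut.mul_apply, t1s]; rfl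
    obtain ⟨p, hp, hp0, hp2, hpf⟩ := chk_B hx hx0 hx2 hy hyH hj inv
    exact ⟨p, hp, hp0, hp2, by rw [(act p hp).2, hpf]⟩
  obtain ⟨m20, m22, m2i⟩ := T2_map i2 hi2 hi20 hi22
  have p2 := path_act (T2.getD i2 []) (T2_ok i2 hi2)
  set k2 := pathE (T2.getD i2 []) with hk2
  set t2 := k2 * t1 * k2⁻¹ with ht2
  have t2s : t2 * t2 = 1 := conj_sq t1s
  have t2o : t2 ∉ (MulAut.conj : P →* MulAut P).range := conj_outer t1o (path_inner (T2.getD i2 []))
  have t2N : Nm t2 := ((Nm_path (T2_ok i2 hi2)).mul t1N).mul (Nm_path (T2_ok i2 hi2)).inv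
  have t20 : t2 (TB 0) = TB 0 := conj_fix (a := TB 0) (by rw [(p2 0 (by norm_num)).2, m20]) t10
  have t22 : t2 (TB 2) = TB 2 := conj_fix (a := TB 2) (by rw [(p2 2 (by norm_num)).2, m22]) t12
  have t23 : t2 (TB 3) = TB 3 := conj_fix (a := TB i2) (by rw [(p2 i2 hi2).2, m2i]) e2
  -- the end
  obtain ⟨y, hy, hyH, j, hj, hfix⟩ := L3 ci t2N t2o t20 t22 t23
  have pj := path_act (pth y j) (pth_ok hy)
  have act : ∀ i < 22, F y j i < 22 ∧ t2 (TB i) = TB (F y j i) := by
    intro i hi
    obtain ⟨b1, b2⟩ := pj i hi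
    refine ⟨sN_lt _ b1, ?_⟩
    obtain ⟨i', hi', e⟩ := t2N i hi
    have h1 := hfix i' hi'
    have h2 : t2 (TB i') = TB i := by rw [← e, ← MulAut.mul_apply, t2s]; rfl
    rw [MulAut.mul_apply, MulAut.mul_apply, h2, b2, s_act b1] at h1
    rw [e, ← h1]; rfl
  have inv : ∀ i < 22, F y j (F y j i) = i := by
    intro i hi
    obtain ⟨a1, a2⟩ := act i hi
    obtain ⟨b1, b2⟩ := act _ a1
    apply TB_inj b1 hi
    rw [← b2, ← a2, ← MulAut.mul_apply, t2s]; rfl
  have hC := chk_C y hy hyH j hj inv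
  have hMok : ∀ k ∈ MP.getD (3 * y + j) [], k < 11 := MP_ok _ (by omega)
  have pm := path_act (MP.getD (3 * y + j) []) hMok
  refine ⟨pathE (MP.getD (3 * y + j) []) * k2 * k1, ?_⟩
  have hk : pathE (MP.getD (3 * y + j) []) * k2 * k1 * t * (pathE (MP.getD (3 * y + j) []) * k2 * k1)⁻¹ =
      pathE (MP.getD (3 * y + j) []) * t2 * (pathE (MP.getD (3 * y + j) []))⁻¹ := by
    rw [ht2, ht1]; group
  rw [hk]
  intro i' hi'
  obtain ⟨i, hi, e⟩ := (Nm_path hMok).surj i' hi'
  have e2 : pathN (MP.getD (3 * y + j) []) i = i' := TB_inj (pm i hi).1 hi' (by rw [← (pm i hi).2]; exact e)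
  show (pathE (MP.getD (3 * y + j) []) * t2 * (pathE (MP.getD (3 * y + j) []))⁻¹) (TB i') = s (TB i')
  rw [s_act hi', MulAut.mul_apply, MulAut.mul_apply, inv_of e, (act i hi).2, (pm _ (act i hi).1).2, hC i hi, e2]

end Cfsg.Agent.Lib.H5Stein
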