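import Mathlib
import Cfsg.Prelude.Def_Transfer
import Cfsg.Agent.Lib.Components
import Cfsg.Agent.Lib.CoprimeAction2
import Cfsg.Agent.Lib.PGroupClassTwo
import Cfsg.Agent.Lib.PCoreTools
import Cfsg.Agent.Lib.H70Frattini
import Cfsg.Agent.Lib.H62Basic

/-!
# The Hall--Higman reduction (helper62)
-/

set_option autoImplicit false

namespace Cfsg.Agent.Lib.HHRed

open Subgroup Cfsg
open scoped commutatorElement

universe u

theorem aux {H : Type u} [Group H] [Finite H] {P A : Subgroup H} [P.Normal]
    (hcop : (Nat.card A).Coprime (Nat.card P)) (hPA : ⁅P, A⁆ = P) :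
    P ⊓ centralizer (A : Set H) ≤ ⁅P, P⁆ := by
  set π := QuotientGroup.mk' ⁅P, P⁆ with hπ
  have hker : π.ker = ⁅P, P⁆ := QuotientGroup.ker_mk' _
  have hc : IsMulCommutative (P.map π) := by
    rw [← le_centralizer_iff_isMulCommutative, ← commutator_eq_bot_iff_le_centralizer, ← map_commutator]
    rw [Subgroup.map_eq_bot_iff, hker]
  have hcop' : (Nat.card (A.map π)).Coprime (Nat.card (P.map π)) :=
    Nat.Coprime.coprime_dvd_left (card_map_dvd A π) (Nat.Coprime.coprime_dvd_right (card_map_dvd P π) hcop)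
  have hn : (P.map π).Normal := inferInstance
  have h1 := CoprimeAction2.inf_commutator_eq_bot_of_abelian (A := A.map π) (V := P.map π)
    le_normalizer_of_normal hcop'
  rw [← map_commutator, hPA] at h1
  intro x hx
  have h2 : π x ∈ (P.map π ⊓ centralizer (A.map π : Set _)) ⊓ P.map π := by
    refine mem_inf.mpr ⟨mem_inf.mpr ⟨⟨x, hx.1, rfl⟩, ?_⟩, ⟨x, hx.1, rfl⟩⟩
    rw [mem_centralizer_iff]
    rintro _ ⟨a, ha, rfl⟩
    rw [← map_mul, ← map_mul, mem_centralizer_iff.mp hx.2 a ha]
  rw [h1, mem_bot] at h2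
  rw [← hker]
  exact h2

/-- If `[P, A] = P` with coprime orders, then `C_P(A) ≤ P'`. -/
theorem inf_centralizer_le_commutator {X : Type u} [Group X] [Finite X] {P A : Subgroup X}
    (hAP : A ≤ normalizer (P : Set X)) (hcop : (Nat.card A).Coprime (Nat.card P)) (hPA : ⁅P, A⁆ = P) :
    P ⊓ centralizer (A : Set X) ≤ ⁅P, P⁆ := by
  set H : Subgroup X := P ⊔ A with hH
  have hPH : P ≤ H := le_sup_left
  have hAH : A ≤ H := le_sup_right
  have hn : (P.subgroupOf H).Normal := normal_subgroupOf_of_le_normalizer (sup_le le_normalizer hAP)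
  have hmapc : ∀ K L : Subgroup X, K ≤ H → L ≤ H →
      (⁅K.subgroupOf H, L.subgroupOf H⁆).map H.subtype = ⁅K, L⁆ := by
    intro K L hK hL
    rw [map_commutator, map_subgroupOf_eq_of_le hK, map_subgroupOf_eq_of_le hL]
  have h1 : ⁅P.subgroupOf H, A.subgroupOf H⁆ = P.subgroupOf H := by
    apply map_injective H.subtype_injective
    rw [hmapc P A hPH hAH, hPA, map_subgroupOf_eq_of_le hPH]
  have hc1 : Nat.card (P.subgroupOf H) = Nat.card P := Nat.card_congr (subgroupOfEquivOfLe hPH).toEquiv
  have hc2 : Nat.card (A.subgroupOf H) = Nat.card A := Nat.card_congr (subgroupOfEquivOfLe hAH).toEquiv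
  have h2 := aux (P := P.subgroupOf H) (A := A.subgroupOf H) (by rw [hc1, hc2]; exact hcop) h1
  intro x hx
  have h3 : (⟨x, hPH hx.1⟩ : H) ∈ P.subgroupOf H ⊓ centralizer (A.subgroupOf H : Set H) := by
    refine mem_inf.mpr ⟨hx.1, ?_⟩
    rw [mem_centralizer_iff]
    intro a ha
    exact Subtype.ext (mem_centralizer_iff.mp hx.2 a ha)
  have h4 := mem_map_of_mem H.subtype (h2 h3)
  rw [hmapc P P hPH hPH] at h4
  exact h4

/-- elements of order dividing `p` generate a characteristic subgroup. -/
theorem omega_characteristic (P : Type*) [Group P] (p : ℕ) :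
    (Subgroup.closure {x : P | x ^ p = 1}).Characteristic := by
  rw [characteristic_iff_map_le]
  intro φ
  rw [MonoidHom.map_closure]
  apply Subgroup.closure_mono
  rintro _ ⟨x, hx, rfl⟩
  change (φ x) ^ p = 1
  rw [← map_pow]
  rw [show x ^ p = 1 from hx, map_one]

/-- **The Hall--Higman reduction.** -/
theorem main {X : Type u} [Group X] [Finite X] {p : ℕ} [hp : Fact p.Prime] (B A P : Subgroup X) (hP : IsPGroup p P)
    (hBP : B ≤ normalizer (P : Set X)) (hAB : A ≤ B) (hAn : B ≤ normalizer (A : Set X))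
    (hAp : (Nat.card A).Coprime p) (hnt : ⁅P, A⁆ ≠ ⊥)
    (hmin : ∀ U : Subgroup X, U < P → B ≤ normalizer (U : Set X) → ⁅U, A⁆ = ⊥) :
    ⁅P, A⁆ = P ∧ (IsElementaryAbelian p P ∨ (IsSpecial p ↥P ∧ ¬ IsMulCommutative P)) ∧
      (∀ U : Subgroup X, (frattini ↥P).map P.subtype ≤ U → U ≤ P → B ≤ normalizer (U : Set X) →
        U = (frattini ↥P).map P.subtype ∨ U = P) ∧ (p ≠ 2 → ∀ x ∈ P, x ^ p = 1) ∧
      (∀ U : Subgroup X, U < P → B ≤ normalizer (U : Set X) → U ≤ ⁅P, P⁆) := by
  have hAP : A ≤ normalizer (P : Set X) := hAB.trans hBP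
  obtain ⟨k, hk⟩ := IsPGroup.iff_card.mp hP
  have hcop : (Nat.card A).Coprime (Nat.card P) := by rw [hk]; exact hAp.pow_right k
  have hnil := hP.isNilpotent
  have hsol : Group.IsSolvable A ∨ Group.IsSolvable P := Or.inr inferInstance
  have hPAle : ⁅P, A⁆ ≤ P := le_normalizer_iff_commutator_le_left.mp hAP
  have hPA : ⁅P, A⁆ = P := by
    by_contra hne
    have h1 := hmin ⁅P, A⁆ (lt_of_le_of_ne hPAle hne) (LocBase.le_normalizer_commutator hBP hAn)
    rw [CoprimeAction2.commutator_commutator hAP hcop hsol] at h1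
    exact hnt h1
  have hcC := inf_centralizer_le_commutator hAP hcop hPA
  have hcen : ∀ U : Subgroup X, U < P → B ≤ normalizer (U : Set X) → U ≤ centralizer (A : Set X) := fun U hU hBU =>
    Components.le_centralizer_iff_commutator.mpr (hmin U hU hBU)
  have hinv : ∀ U : Subgroup X, U < P → B ≤ normalizer (U : Set X) → U ≤ ⁅P, P⁆ := fun U hU hBU =>
    (le_inf hU.le (hcen U hU hBU)).trans hcC
  have hchar : ∀ K : Subgroup P, K.Characteristic → B ≤ normalizer ((K.map P.subtype : Subgroup X) : Set X) :=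
    fun K hK => hBP.trans (PCoreTools.normalizer_le_of_characteristic hK)
  have hP1 : P ≠ ⊥ := by
    rintro rfl
    exact hnt (le_bot_iff.mp hPAle)
  have hPnt : Nontrivial P := (nontrivial_iff_ne_bot P).mpr hP1
  have hlt : ∀ K : Subgroup P, K ≠ ⊤ → K.map P.subtype < P := by
    intro K hK
    refine lt_of_le_of_ne (map_subtype_le K) (fun h => hK ?_)
    apply map_injective P.subtype_injective
    rw [h, ← MonoidHom.range_eq_map, range_subtype]
  have hcomm : (commutator P).map P.subtype = ⁅P, P⁆ := by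
    rw [commutator_def, map_commutator, ← MonoidHom.range_eq_map, range_subtype]
  have hfratne : frattini P ≠ ⊤ := by
    intro h
    obtain h0 | ⟨M, hM, -⟩ := eq_top_or_exists_le_coatom (⊥ : Subgroup P)
    · exact bot_ne_top h0
    · exact hM.1 (eq_top_iff.mpr (h ▸ frattini_le_coatom hM))
  have hfr : (frattini P).map P.subtype ≤ ⁅P, P⁆ := hinv _ (hlt _ hfratne) (hchar _ inferInstance)
  have hfr' : ⁅P, P⁆ ≤ (frattini P).map P.subtype := by
    rw [← hcomm]
    exact map_mono (H70Frattini.commutator_le_frattini hP)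
  have hfreq : frattini P = commutator P := by
    apply map_injective P.subtype_injective
    rw [hcomm]
    exact le_antisymm hfr hfr'
  have hirr : ∀ U : Subgroup X, (frattini ↥P).map P.subtype ≤ U → U ≤ P → B ≤ normalizer (U : Set X) →
        U = (frattini ↥P).map P.subtype ∨ U = P := by
    intro U hU hUP hBU
    by_cases h : U = P
    · exact Or.inr h
    · left
      exact le_antisymm ((hinv U (lt_of_le_of_ne hUP h) hBU).trans hfr') hU
  by_cases hab : IsMulCommutative P
  · -- the abelian case
    have hcb : ⁅P, P⁆ = ⊥ := by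
      rw [commutator_eq_bot_iff_le_centralizer, le_centralizer_iff_isMulCommutative]
      exact hab
    have hel : ∀ x ∈ P, x ^ p = 1 := by
      set E : Subgroup P := Subgroup.closure {x : P | x ^ p = 1} with hE
      have hEtop : E = ⊤ := by
        by_contra hne
        have h1 := hinv _ (hlt E hne) (hchar E (omega_characteristic P p))
        rw [hcb, le_bot_iff, map_eq_bot_iff_of_injective _ P.subtype_injective] at h1
        have hd : p ∣ Nat.card P := by
          rcases hP.card_eq_or_dvd with h | h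
          · exact absurd (card_eq_one.mp h) hP1
          · exact h
        obtain ⟨x, hx⟩ := exists_prime_orderOf_dvd_card' p hd
        have h2 : x ∈ E := subset_closure (by
          change x ^ p = 1
          rw [← hx]; exact pow_orderOf_eq_one x)
        rw [h1, mem_bot] at h2
        rw [h2, orderOf_one] at hx
        exact hp.out.one_lt.ne hx
      intro x hx
      have h1 : (⟨x, hx⟩ : P) ∈ E := by rw [hEtop]; exact mem_top _
      have h2 : ∀ y ∈ E, y ^ p = 1 := by
        intro y hy
        induction hy using Subgroup.closure_induction with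
        | mem w hw => exact hw
        | one => exact one_pow _
        | mul a b _ _ ha hb =>
          have hc : Commute a b := by
            have := isMulCommutative_iff.mp hab a b
            exact this
          rw [hc.mul_pow, ha, hb, one_mul]
        | inv a _ ha => rw [inv_pow, ha, inv_one]
      exact congrArg Subtype.val (h2 _ h1)
    exact ⟨hPA, Or.inl ⟨hab, hel⟩, hirr, fun _ => hel, hinv⟩
  · -- the nonabelian case
    have hcne : commutator P ≠ ⊤ := by
      intro h
      rw [← hfreq] at h
      exact hfratne h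
    have hP' : ⁅P, P⁆ < P := by rw [← hcomm]; exact hlt _ hcne
    have hBP' : B ≤ normalizer ((⁅P, P⁆ : Subgroup X) : Set X) := LocBase.le_normalizer_commutator hBP hBP
    have hP'A : ⁅⁅P, P⁆, A⁆ = ⊥ := hmin _ hP' hBP'
    have hz1 : ⁅P, ⁅P, P⁆⁆ = ⊥ := by
      have h1 : ⁅⁅P, A⁆, ⁅P, P⁆⁆ = ⊥ := by
        apply commutator_commutator_eq_bot_of_rotate
        · rw [commutator_comm A, hP'A, commutator_bot_left]
        · rw [eq_bot_iff, ← hP'A]
          exact commutator_mono (commutator_le.mpr fun a ha b hb => by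
            have h2 : ⁅a, b⁆ = a * (b * a⁻¹ * b⁻¹) := by rw [commutatorElement_def]; group
            rw [h2]
            have hPn : P ≤ normalizer ((⁅P, P⁆ : Subgroup X) : Set X) :=
              LocBase.le_normalizer_commutator le_normalizer le_normalizer
            exact mul_mem ha ((mem_normalizer_iff.mp (hPn hb) _).mp (inv_mem ha))) le_rfl
      rwa [hPA] at h1
    have hZle : commutator P ≤ center P := by
      intro x hx
      rw [mem_center_iff]
      intro g
      have h1 : (x : X) ∈ ⁅P, P⁆ := by rw [← hcomm]; exact ⟨x, hx, rfl⟩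
      have h2 := Components.le_centralizer_iff_commutator.mpr hz1 g.2
      have h3 := mem_centralizer_iff.mp h2 x h1
      exact Subtype.ext h3.symm
    have hZne : center P ≠ ⊤ := by
      intro h
      apply hab
      rw [isMulCommutative_iff]
      intro a b
      have : b ∈ center P := by rw [h]; exact mem_top b
      exact mem_center_iff.mp this a
    have hZle' : center P ≤ commutator P := by
      have h1 := hinv _ (hlt _ hZne) (hchar _ inferInstance)
      rw [← hcomm] at h1
      exact (map_le_map_iff_of_injective P.subtype_injective).mp h1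
    have hZeq : commutator P = center P := le_antisymm hZle hZle'
    have hsp : IsSpecial p ↥P := ⟨hP, hfreq.trans hZeq, hZeq⟩
    refine ⟨hPA, Or.inr ⟨hsp, hab⟩, hirr, ?_, hinv⟩
    intro hp2
    let f : P →* P := MonoidHom.mk' (fun x => x ^ p) (PGroupClassTwo.mul_pow_of_special hp2 hsp)
    have hle : P ≤ f.ker.map P.subtype := by
      conv_lhs => rw [← hPA]
      rw [commutator_le]
      intro x hx a ha
      have hxa : a * x⁻¹ * a⁻¹ ∈ P := (mem_normalizer_iff.mp (hAP ha) _).mp (inv_mem hx)
      refine ⟨⟨x, hx⟩ * ⟨a * x⁻¹ * a⁻¹, hxa⟩, ?_, ?_⟩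
      · rw [SetLike.mem_coe, MonoidHom.mem_ker, map_mul]
        change (⟨x, hx⟩ : P) ^ p * (⟨a * x⁻¹ * a⁻¹, hxa⟩ : P) ^ p = 1
        have h1 := PGroupClassTwo.pow_mem_center_of_special hsp (⟨x, hx⟩ : P)
        rw [← hZeq] at h1
        have h2 : x ^ p ∈ ⁅P, P⁆ := by rw [← hcomm]; exact ⟨_, h1, rfl⟩
        have h3 := mem_centralizer_iff.mp (hcen _ hP' hBP' h2) a ha
        apply Subtype.ext
        change x ^ p * (a * x⁻¹ * a⁻¹) ^ p = 1
        rw [conj_pow, inv_pow]
        have h4 : a * (x ^ p)⁻¹ = (x ^ p)⁻¹ * a := by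
          have : Commute a (x ^ p) := h3
          exact this.inv_right
        rw [h4]; group
      · change x * (a * x⁻¹ * a⁻¹) = ⁅x, a⁆
        rw [commutatorElement_def]; group
    intro x hx
    obtain ⟨y, hy, hyx⟩ := hle hx
    have h1 : y ^ p = 1 := hy
    rw [← hyx]
    exact congrArg Subtype.val h1

end Cfsg.Agent.Lib.HHRed
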