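import Mathlib
import Cfsg.Agent.Lib.PGroupClassTwo
import Cfsg.Agent.Lib.SubgroupTools
import Cfsg.Agent.Lib.H70Frattini
import Cfsg.Agent.Lib.HHRed
import Cfsg.Agent.Lib.LocBase
import Cfsg.Agent.Lib.AbGen
import Cfsg.Agent.Lib.GroupUtil
import Cfsg.Agent.Lib.PAct
import Cfsg.Prelude.Def_CaseTheorems

/-!
# 2-groups of rank at most 2 and fixed point free 3-elements

* `card_lt`: a 2-group with centre of order 4 containing all involutions and all squares has order `< 256`.
-/

set_option autoImplicit false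

namespace Cfsg.Agent.Lib.H62Rank2

open scoped commutatorElement
open Subgroup Cfsg

section type

variable {U : Type*} [Group U] [Finite U]

theorem two_mul_card_le {H K : Subgroup U} (h : H < K) : 2 * Nat.card H ≤ Nat.card K := by
  have h1 := SubgroupTools.card_mul_relIndex_of_le h.le
  have h2 : H.relIndex K ≠ 1 := by
    rw [Ne, relIndex_eq_one]
    exact h.not_ge
  have h3 : H.relIndex K ≠ 0 := by
    intro h0
    rw [h0, mul_zero] at h1
    exact Nat.card_pos.ne h1
  have h4 : 2 ≤ H.relIndex K := by omega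
  rw [← h1, mul_comm]
  exact Nat.mul_le_mul_left _ h4

omit [Finite U] in
theorem comm_mem_center (hsq : ∀ x : U, x ^ 2 ∈ center U) (x y : U) : ⁅x, y⁆ ∈ center U := by
  have e : ⁅x, y⁆ = (x * y) ^ 2 * (y⁻¹ * (x ^ 2)⁻¹ * y) * (y ^ 2)⁻¹ := by
    simp only [commutatorElement_def, pow_two]; group
  rw [e]
  refine mul_mem (mul_mem (hsq _) ?_) (inv_mem (hsq y))
  have h1 : y⁻¹ * (x ^ 2)⁻¹ * y = (x ^ 2)⁻¹ := by
    rw [mul_assoc, ← mem_center_iff.mp (inv_mem (hsq x)) y]; group
  rw [h1]
  exact inv_mem (hsq x)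

theorem card_abelian_le (hZ : Nat.card (center U) = 4) (hsq : ∀ x : U, x ^ 2 ∈ center U)
    (hinv : ∀ x : U, x ^ 2 = 1 → x ∈ center U) (A : Subgroup U) (hA : IsMulCommutative A) : Nat.card A ≤ 16 := by
  let f : A →* A := MonoidHom.mk' (fun a => a ^ 2)
    (fun a b => (Commute.mul_pow (show Commute a b from isMulCommutative_iff.mp hA a b) 2))
  have h1 : Nat.card f.range * Nat.card f.ker = Nat.card A := by
    rw [← Subgroup.index_ker, mul_comm, Subgroup.card_mul_index]
  have h2 : Nat.card ((center U).subgroupOf A) ≤ 4 := by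
    rw [SubgroupTools.card_subgroupOf, ← hZ]
    exact Subgroup.card_le_of_le inf_le_left
  have h3 : f.range ≤ (center U).subgroupOf A := by
    rintro _ ⟨a, rfl⟩
    rw [mem_subgroupOf]
    exact hsq a
  have h4 : f.ker ≤ (center U).subgroupOf A := by
    intro a ha
    rw [mem_subgroupOf]
    apply hinv
    have := congrArg Subtype.val (MonoidHom.mem_ker.mp ha)
    simpa [f] using this
  rw [← h1]
  calc Nat.card f.range * Nat.card f.ker ≤ 4 * 4 :=
    Nat.mul_le_mul ((Subgroup.card_le_of_le h3).trans h2) ((Subgroup.card_le_of_le h4).trans h2)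

/-- the commutator hom `y ↦ [x,y]` in class two -/
def commHom (h : ∀ x y : U, ⁅x, y⁆ ∈ center U) (x : U) : U →* U :=
  MonoidHom.mk' (fun y => ⁅x, y⁆) (PGroupClassTwo.comm_mul_right h x)

omit [Finite U] in
theorem ker_commHom (h : ∀ x y : U, ⁅x, y⁆ ∈ center U) (x : U) : (commHom h x).ker = centralizer {x} := by
  ext y
  rw [MonoidHom.mem_ker, mem_centralizer_singleton_iff]
  change ⁅x, y⁆ = 1 ↔ _
  rw [commutatorElement_eq_one_iff_mul_comm, eq_comm]

theorem card_le_of_comm (h : ∀ x y : U, ⁅x, y⁆ ∈ center U) (x : U) (H Z₁ : Subgroup U)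
    (hH : ∀ y ∈ H, ⁅x, y⁆ ∈ Z₁) : Nat.card H ≤ Nat.card Z₁ * Nat.card (H ⊓ centralizer {x} : Subgroup U) := by
  have h1 := SubgroupTools.card_map_mul_card_inf_ker (commHom h x) H
  rw [ker_commHom] at h1
  rw [← h1]
  apply Nat.mul_le_mul_right
  apply Subgroup.card_le_of_le
  rintro _ ⟨y, hy, rfl⟩
  exact hH y hy

omit [Finite U] in
theorem isMulCommutative_sup_zpowers {A : Subgroup U} (hA : IsMulCommutative A) {w : U}
    (hw : w ∈ centralizer (A : Set U)) : IsMulCommutative (A ⊔ zpowers w : Subgroup U) := by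
  rw [← le_centralizer_iff_isMulCommutative] at hA ⊢
  have h1 : A ≤ centralizer ((A ⊔ zpowers w : Subgroup U) : Set U) := by
    rw [le_centralizer_iff]
    exact sup_le hA (zpowers_le.mpr hw)
  refine sup_le h1 ?_
  rw [le_centralizer_iff]
  refine sup_le ?_ ?_
  · rw [le_centralizer_iff]; exact zpowers_le.mpr hw
  · rw [le_centralizer_iff_isMulCommutative]; infer_instance

omit [Finite U] in
theorem lt_sup_zpowers {A : Subgroup U} {w : U} (hw : w ∉ A) : A < A ⊔ zpowers w :=
  lt_of_le_of_ne le_sup_left fun h => hw (by rw [h]; exact mem_sup_right (mem_zpowers w))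

theorem card_lt (hZ : Nat.card (center U) = 4) (hsq : ∀ x : U, x ^ 2 ∈ center U)
    (hinv : ∀ x : U, x ^ 2 = 1 → x ∈ center U) : Nat.card U < 256 := by
  by_contra hge
  push Not at hge
  have hc := comm_mem_center hsq
  have hab := card_abelian_le hZ hsq hinv
  obtain ⟨x, hx⟩ : ∃ x : U, x ∉ center U := by
    by_contra hcon
    push Not at hcon
    have h1 : center U = ⊤ := eq_top_iff.mpr fun x _ => hcon x
    rw [h1, card_top] at hZ
    omega
  set H : Subgroup U := centralizer {x} with hH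
  have hZH : center U ≤ H := center_le_centralizer _
  have hxH : x ∈ H := mem_centralizer_singleton_iff.mpr rfl
  have hHmem : ∀ y ∈ H, ⁅y, x⁆ = 1 := by
    intro y hy
    rw [commutatorElement_eq_one_iff_mul_comm]
    exact mem_centralizer_singleton_iff.mp hy
  have hH64 : 64 ≤ Nat.card H := by
    have h1 := card_le_of_comm hc x ⊤ (center U) (fun y _ => hc x y)
    rw [card_top, hZ, top_inf_eq, ← hH] at h1
    omega
  set T₁ : Subgroup U := center U ⊔ zpowers x with hT₁
  have hZc : IsMulCommutative (center U) := inferInstance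
  have hT₁c : IsMulCommutative T₁ := isMulCommutative_sup_zpowers hZc (by
    rw [mem_centralizer_iff]
    intro z hz
    exact (mem_center_iff.mp hz x).symm)
  have hT₁8 : 8 ≤ Nat.card T₁ := by
    have := two_mul_card_le (lt_sup_zpowers hx)
    rw [hZ] at this
    exact this
  have hT₁H : T₁ ≤ H := sup_le hZH (zpowers_le.mpr hxH)
  have hcT₁ : ∀ y ∈ H, y ∈ centralizer (T₁ : Set U) := by
    intro y hy
    have h1 : T₁ ≤ centralizer {y} := by
      refine sup_le (center_le_centralizer _) (zpowers_le.mpr ?_)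
      rw [mem_centralizer_singleton_iff]
      exact (mem_centralizer_singleton_iff.mp hy).symm
    rw [mem_centralizer_iff]
    intro t ht
    exact (mem_centralizer_singleton_iff.mp (h1 ht))
  have hT₂c : ∀ y ∈ H, IsMulCommutative (T₁ ⊔ zpowers y : Subgroup U) := fun y hy =>
    isMulCommutative_sup_zpowers hT₁c (hcT₁ y hy)
  have hT₂16 : ∀ y ∈ H, y ∉ T₁ → 16 ≤ Nat.card (T₁ ⊔ zpowers y : Subgroup U) := by
    intro y hy hyT
    have := two_mul_card_le (lt_sup_zpowers hyT)
    omega
  have hT₂H : ∀ y ∈ H, T₁ ⊔ zpowers y ≤ H := fun y hy => sup_le hT₁H (zpowers_le.mpr hy)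
  have hkey : ∀ y ∈ H, y ∉ T₁ → Nat.card (H ⊓ centralizer {y} : Subgroup U) ≤ 16 := by
    intro y hy hyT
    by_contra hgt
    push Not at hgt
    obtain ⟨w, hw, hwT⟩ : ∃ w ∈ H ⊓ centralizer {y}, w ∉ T₁ ⊔ zpowers y := by
      by_contra hcon
      push Not at hcon
      have h1 : H ⊓ centralizer {y} ≤ T₁ ⊔ zpowers y := hcon
      have h2 := Subgroup.card_le_of_le h1
      have h3 := hab _ (hT₂c y hy)
      omega
    have hwc : w ∈ centralizer ((T₁ ⊔ zpowers y : Subgroup U) : Set U) := by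
      have h1 : T₁ ⊔ zpowers y ≤ centralizer {w} := by
        refine sup_le ?_ (zpowers_le.mpr ?_)
        · intro t ht
          rw [mem_centralizer_singleton_iff]
          exact (mem_centralizer_iff.mp (hcT₁ w hw.1) t ht)
        · rw [mem_centralizer_singleton_iff]
          exact (mem_centralizer_singleton_iff.mp hw.2).symm
      rw [mem_centralizer_iff]
      intro t ht
      exact (mem_centralizer_singleton_iff.mp (h1 ht))
    have h1 := hab _ (isMulCommutative_sup_zpowers (hT₂c y hy) hwc)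
    have h2 := two_mul_card_le (lt_sup_zpowers hwT)
    have h3 := hT₂16 y hy hyT
    omega
  have hex : ∃ y ∈ H, y ∉ T₁ := by
    by_contra hcon
    push Not at hcon
    have h1 := Subgroup.card_le_of_le (show H ≤ T₁ from hcon)
    have h2 := hab _ hT₁c
    omega
  obtain ⟨y₁, hy₁, hy₁T⟩ := hex
  have hHle : Nat.card H ≤ 64 := by
    have h1 := card_le_of_comm hc y₁ H (center U) (fun y _ => hc y₁ y)
    have h2 := hkey y₁ hy₁ hy₁T
    rw [hZ] at h1
    omega
  -- Z₁
  obtain ⟨Z₁, hZ₁, hZ₁c⟩ : ∃ Z₁ : Subgroup U, Z₁ ≤ center U ∧ Nat.card Z₁ = 2 := by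
    have : Fact (Nat.Prime 2) := ⟨Nat.prime_two⟩
    obtain ⟨z, hz⟩ := exists_prime_orderOf_dvd_card' (G := center U) 2 (by rw [hZ]; norm_num)
    refine ⟨zpowers (z : U), zpowers_le.mpr z.2, ?_⟩
    rw [Nat.card_zpowers, Subgroup.orderOf_coe, hz]
  have hidx : Z₁.relIndex (center U) = 2 := by
    have := SubgroupTools.card_mul_relIndex_of_le hZ₁
    rw [hZ₁c, hZ] at this
    omega
  have hmul : ∀ a ∈ center U, ∀ b ∈ center U, (a ∈ Z₁ ↔ b ∈ Z₁) → a * b ∈ Z₁ := by
    intro a ha b hb h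
    have h1 : (Z₁.subgroupOf (center U)).index = 2 := hidx
    have h2 := (Subgroup.mul_mem_iff_of_index_two h1 (a := ⟨a, ha⟩) (b := ⟨b, hb⟩)).mpr (by
      rw [mem_subgroupOf, mem_subgroupOf]; exact h)
    rw [mem_subgroupOf] at h2
    exact h2
  -- D
  let D : U → Subgroup U := fun u => Z₁.comap (commHom hc u)
  have hDmem : ∀ u v, v ∈ D u ↔ ⁅u, v⁆ ∈ Z₁ := fun u v => Iff.rfl
  have hno : ∀ y ∈ H, y ∉ T₁ → ¬ H ≤ D y := by
    intro y hy hyT hD
    have h1 := card_le_of_comm hc y H Z₁ (fun v hv => (hDmem y v).mp (hD hv))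
    have h2 := hkey y hy hyT
    rw [hZ₁c] at h1
    omega
  have h32 : ∀ y ∈ H, y ∉ T₁ → Nat.card (H ⊓ D y : Subgroup U) = 32 := by
    intro y hy hyT
    have h1 := SubgroupTools.card_mul_relIndex (D y) H
    have h2 : (D y).relIndex H ≤ 2 := by
      change (Z₁.comap (commHom hc y)).relIndex H ≤ 2
      rw [relIndex_comap, ← hidx]
      apply relIndex_le_of_le_right
      · rintro _ ⟨v, _, rfl⟩
        exact hc y v
      · rw [hidx]; norm_num
    have h3 : (D y).relIndex H ≠ 1 := by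
      rw [Ne, relIndex_eq_one]
      exact hno y hy hyT
    have h4 : (D y).relIndex H ≠ 0 := by
      intro h0
      rw [h0, mul_zero] at h1
      exact Nat.card_pos.ne h1
    have h5 : (D y).relIndex H = 2 := by omega
    rw [h5, inf_comm] at h1
    omega
  have h32₁ := h32 y₁ hy₁ hy₁T
  obtain ⟨y₂, ⟨hy₂, hy₂D⟩, hy₂T⟩ : ∃ y₂ ∈ H ⊓ D y₁, y₂ ∉ T₁ ⊔ zpowers y₁ := by
    by_contra hcon
    push Not at hcon
    have h1 := Subgroup.card_le_of_le (show H ⊓ D y₁ ≤ T₁ ⊔ zpowers y₁ from hcon)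
    have h2 := hab _ (hT₂c y₁ hy₁)
    omega
  have hy₂T₁ : y₂ ∉ T₁ := fun h => hy₂T (mem_sup_left h)
  have h32₂ := h32 y₂ hy₂ hy₂T₁
  set T₃ : Subgroup U := (T₁ ⊔ zpowers y₁) ⊔ zpowers y₂ with hT₃
  have hT₃32 : 32 ≤ Nat.card T₃ := by
    have h1 := two_mul_card_le (lt_sup_zpowers hy₂T)
    have h2 := hT₂16 y₁ hy₁ hy₁T
    rw [← hT₃] at h1
    omega
  have hT₁D : ∀ y ∈ H, T₁ ≤ D y := by
    intro y hy t ht
    rw [hDmem]
    have h1 := mem_centralizer_iff.mp (hcT₁ y hy) t ht
    rw [commutatorElement_eq_one_iff_mul_comm.mpr h1.symm]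
    exact one_mem _
  have hself : ∀ y, y ∈ D y := by
    intro y
    rw [hDmem, commutatorElement_self]
    exact one_mem _
  have hy₁D : y₁ ∈ D y₂ := by
    rw [hDmem, ← commutatorElement_inv]
    exact inv_mem ((hDmem _ _).mp hy₂D)
  have hT₃H : T₃ ≤ H := sup_le (hT₂H y₁ hy₁) (zpowers_le.mpr hy₂)
  have hT₃1 : T₃ ≤ H ⊓ D y₁ := le_inf hT₃H
    (sup_le (sup_le (hT₁D y₁ hy₁) (zpowers_le.mpr (hself y₁))) (zpowers_le.mpr hy₂D))
  have hT₃2 : T₃ ≤ H ⊓ D y₂ := le_inf hT₃H
    (sup_le (sup_le (hT₁D y₂ hy₂) (zpowers_le.mpr hy₁D)) (zpowers_le.mpr (hself y₂)))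
  have hE1 : T₃ = H ⊓ D y₁ := Subgroup.eq_of_le_of_card_ge hT₃1 (by rw [h32₁]; exact hT₃32)
  have hE2 : T₃ = H ⊓ D y₂ := Subgroup.eq_of_le_of_card_ge hT₃2 (by rw [h32₂]; exact hT₃32)
  have hyT : y₁ * y₂ ∉ T₁ := by
    intro h
    apply hy₂T
    have h1 : y₁⁻¹ * (y₁ * y₂) ∈ T₁ ⊔ zpowers y₁ :=
      mul_mem (inv_mem (mem_sup_right (mem_zpowers y₁))) (mem_sup_left h)
    rwa [inv_mul_cancel_left] at h1
  refine hno (y₁ * y₂) (mul_mem hy₁ hy₂) hyT ?_
  intro h hh
  rw [hDmem, PGroupClassTwo.comm_mul_left hc]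
  apply hmul _ (hc _ _) _ (hc _ _)
  rw [← hDmem, ← hDmem]
  constructor
  · intro h1
    have h2 : h ∈ H ⊓ D y₁ := ⟨hh, h1⟩
    rw [← hE1, hE2] at h2
    exact h2.2
  · intro h1
    have h2 : h ∈ H ⊓ D y₂ := ⟨hh, h1⟩
    rw [← hE2, hE1] at h2
    exact h2.2

end type

section ambient

variable {X : Type*} [Group X] [Finite X]

/-- the conjugation action of `D` on `U \ Z` -/
theorem card_dvd_of_centralizer_le {D U Z : Subgroup X} (hDU : D ≤ normalizer (U : Set X))
    (hDZ : D ≤ normalizer (Z : Set X)) (hZU : Z ≤ U)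
    (h : ∀ g ∈ D, g ≠ 1 → ∀ x ∈ U, g * x * g⁻¹ = x → x ∈ Z) : Nat.card D ∣ Nat.card U - Nat.card Z := by
  classical
  let S := {x : X // x ∈ U ∧ x ∉ Z}
  let act : MulAction D S :=
    { smul := fun g x => ⟨g * x * (g : X)⁻¹, LocBase.conj_mem_of_le_normalizer hDU g.2 x.2.1, fun hx => x.2.2 (by
        have := LocBase.conj_mem_of_le_normalizer' hDZ g.2 hx
        simpa [mul_assoc] using this)⟩
      one_smul := fun x => Subtype.ext (by
        change (1 : D) * (x : X) * ((1 : D) : X)⁻¹ = x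
        simp)
      mul_smul := fun a b x => Subtype.ext (by
        change ((a * b : D) : X) * x * ((a * b : D) : X)⁻¹ = a * (b * x * (b : X)⁻¹) * (a : X)⁻¹
        rw [Subgroup.coe_mul]; group) }
  have h1 : Nat.card D ∣ Nat.card S := by
    apply H70Frattini.card_dvd_of_free
    intro a x hax
    by_contra ha
    have h2 : (a : X) * x * (a : X)⁻¹ = x := congrArg Subtype.val hax
    exact x.2.2 (h a a.2 (fun h => ha (Subtype.ext h)) x x.2.1 h2)
  have h2 : Nat.card U = Nat.card Z + Nat.card S := by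
    have e : U ≃ Z ⊕ S :=
      { toFun := fun u => if hu : (u : X) ∈ Z then Sum.inl ⟨u, hu⟩ else Sum.inr ⟨u, u.2, hu⟩
        invFun := fun s => match s with
          | Sum.inl z => ⟨z.1, hZU z.2⟩
          | Sum.inr s => ⟨s.1, s.2.1⟩
        left_inv := fun u => by
          by_cases hu : (u : X) ∈ Z <;> simp [hu]
        right_inv := fun s => by
          rcases s with z | s
          · simp
          · simp [s.2.2] }
    rw [Nat.card_congr e, Nat.card_sum]
  rw [h2, Nat.add_sub_cancel_left]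
  exact h1

/-- commuting with a nontrivial power of `d` implies commuting with `t`, the power of order 3. -/
theorem commute_of_zpowers {d x : X} {n : ℕ} (hd : orderOf d = 3 ^ n) {g : X} (hg : g ∈ zpowers d) (hg1 : g ≠ 1)
    (hx : Commute g x) : Commute (d ^ 3 ^ (n - 1)) x := by
  obtain ⟨k, rfl⟩ := (mem_powers_iff_mem_zpowers.mpr hg : g ∈ Submonoid.powers d)
  have hg1 : d ^ k ≠ 1 := hg1
  have hx : Commute (d ^ k) x := hx
  have hk : ¬ 3 ^ n ∣ k := by
    rw [← hd]
    exact fun h => hg1 (orderOf_dvd_iff_pow_eq_one.mp h)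
  have hk0 : k ≠ 0 := by rintro rfl; exact hk (dvd_zero _)
  obtain ⟨a, m, hm, hkm⟩ := Nat.exists_eq_pow_mul_and_not_dvd hk0 3 (by norm_num)
  have ha : a < n := by
    by_contra hge
    push Not at hge
    exact hk (hkm ▸ (pow_dvd_pow 3 hge).mul_right m)
  have h1 : Commute ((d ^ 3 ^ (n - 1)) ^ m) x := by
    have e : (d ^ 3 ^ (n - 1)) ^ m = (d ^ k) ^ (3 ^ (n - 1 - a)) := by
      rw [← pow_mul, ← pow_mul, hkm]
      congr 1
      have : 3 ^ (n - 1) = 3 ^ a * 3 ^ (n - 1 - a) := by
        rw [← pow_add]; congr 1; omega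
      rw [this]; ring
    rw [e]
    exact hx.pow_left _
  have h2 : (d ^ 3 ^ (n - 1)) ^ 3 = 1 := by
    rw [← pow_mul, ← pow_succ, show n - 1 + 1 = n by omega, ← hd]
    exact pow_orderOf_eq_one d
  have h3 : ((d ^ 3 ^ (n - 1)) ^ m) ^ m = d ^ 3 ^ (n - 1) := by
    rw [← pow_mul]
    have h4 : m * m % 3 = 1 := by
      have : m % 3 = 1 ∨ m % 3 = 2 := by omega
      rcases this with h | h <;> simp [Nat.mul_mod, h]
    obtain ⟨q, hq⟩ : ∃ q, m * m = 3 * q + 1 := ⟨m * m / 3, by omega⟩
    rw [hq, pow_add, pow_mul, h2, one_pow, one_mul, pow_one]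
  rw [← h3]
  exact h1.pow_left m

theorem card_le_four {P : Subgroup X} (hrank : ∀ V : Subgroup X, V ≤ P → IsMulCommutative V → PRankLE 2 2 V)
    {V : Subgroup X} (hVP : V ≤ P) (hV : IsMulCommutative V) (hV2 : ∀ v ∈ V, v ^ 2 = 1) : Nat.card V ≤ 4 := by
  have h1 := hrank V hVP hV ⊤ (by
    rw [isMulCommutative_iff_of_setLike]
    intro a _ b _
    exact isMulCommutative_iff.mp hV a b) (fun a _ => Subtype.ext (by simpa using hV2 a a.2))
  rwa [card_top] at h1

theorem orderOf_eq_three (d : X) (n : ℕ) (hn : 1 ≤ n) (hd : orderOf d = 3 ^ n) (P : Subgroup X)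
    (hP : IsPGroup 2 P) (hdP : d ∈ normalizer (P : Set X)) (hfaith : zpowers d ⊓ centralizer (P : Set X) = ⊥)
    (hfpf : P ⊓ centralizer {d} = ⊥)
    (hrank : ∀ V : Subgroup X, V ≤ P → IsMulCommutative V → PRankLE 2 2 V) : orderOf d = 3 := by
  by_contra hne
  have h2p : Fact (Nat.Prime 2) := ⟨Nat.prime_two⟩
  have hn2 : 2 ≤ n := by
    rcases Nat.lt_or_ge n 2 with h | h
    · exfalso
      have : n = 1 := by omega
      rw [this, pow_one] at hd
      exact hne hd
    · exact h
  set t := d ^ 3 ^ (n - 1) with ht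
  have hto : orderOf t = 3 := by
    rw [ht, orderOf_pow_of_dvd (by positivity) (by rw [hd]; exact pow_dvd_pow 3 (by omega)), hd]
    rw [Nat.pow_div (by omega) (by norm_num)]
    rw [show n - (n - 1) = 1 by omega, pow_one]
  set B := zpowers d with hB
  set A := zpowers t with hA
  have hAB : A ≤ B := zpowers_le.mpr (pow_mem (mem_zpowers d) _)
  have hBc : IsMulCommutative B := inferInstance
  have hAn : B ≤ normalizer (A : Set X) := AbGen.le_normalizer_of_abelian hBc hAB
  have hBP : B ≤ normalizer (P : Set X) := zpowers_le.mpr hdP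
  have hPA : ⁅P, A⁆ ≠ ⊥ := by
    intro h
    rw [commutator_eq_bot_iff_le_centralizer, le_centralizer_iff] at h
    have h1 : A ≤ ⊥ := by rw [← hfaith]; exact le_inf hAB h
    have h2 : t = 1 := by
      have := h1 (mem_zpowers t)
      rwa [mem_bot] at this
    rw [h2, orderOf_one] at hto
    norm_num at hto
  obtain ⟨U, ⟨hUP, hBU, hUA⟩, hUmin⟩ : ∃ U : Subgroup X, (U ≤ P ∧ B ≤ normalizer (U : Set X) ∧ ⁅U, A⁆ ≠ ⊥) ∧
      ∀ V : Subgroup X, (V ≤ P ∧ B ≤ normalizer (V : Set X) ∧ ⁅V, A⁆ ≠ ⊥) → V ≤ U → V = U := by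
    obtain ⟨U, hU, hmin⟩ := (Set.toFinite {U : Subgroup X | U ≤ P ∧ B ≤ normalizer (U : Set X) ∧
      ⁅U, A⁆ ≠ ⊥}).exists_minimal ⟨P, le_rfl, hBP, hPA⟩
    exact ⟨U, hU, fun V hV hVU => le_antisymm hVU (hmin hV hVU)⟩
  have hUp : IsPGroup 2 U := hP.to_le hUP
  obtain ⟨hUA', hcase, -, -, hlast⟩ := HHRed.main (p := 2) B A U hUp hBU hAB hAn
    (by rw [hA, Nat.card_zpowers, hto]; norm_num) hUA (fun V hV hBV => by
      by_contra hcon
      exact hV.ne (hUmin V ⟨hV.le.trans hUP, hBV, hcon⟩ hV.le))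
  set Z : Subgroup X := ⁅U, U⁆ with hZ
  have hZU : Z ≤ U := H62Basic.commutator_self_le U
  have hBZ : B ≤ normalizer (Z : Set X) := LocBase.le_normalizer_commutator hBU hBU
  -- fixed points of t lie in Z
  have hfix : U ⊓ centralizer (A : Set X) ≤ Z := by
    apply hlast
    · refine lt_of_le_of_ne inf_le_left fun h => hUA ?_
      rw [commutator_eq_bot_iff_le_centralizer]
      exact inf_eq_left.mp h
    · exact LocBase.le_normalizer_inf hBU (LocBase.le_normalizer_centralizer hAn)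
  have hdvd : 3 ^ n ∣ Nat.card U - Nat.card Z := by
    rw [← hd, ← Nat.card_zpowers]
    apply card_dvd_of_centralizer_le hBU hBZ hZU
    intro g hg hg1 x hx hgx
    have h1 : Commute g x := by
      rw [mul_inv_eq_iff_eq_mul] at hgx
      exact hgx
    have h2 : Commute t x := commute_of_zpowers hd hg hg1 h1
    have h3 : x ∈ centralizer (A : Set X) := by
      rw [mem_centralizer_iff]
      rintro _ ⟨k, rfl⟩
      exact (h2.zpow_left k).eq
    exact hfix ⟨hx, h3⟩
  have h9 : 9 ∣ Nat.card U - Nat.card Z := (pow_dvd_pow 3 hn2 : 3 ^ 2 ∣ 3 ^ n).trans hdvd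
  have hZne : Z ≠ U := by
    intro h
    apply hUA
    have hnil := hUp.isNilpotent
    have h1 : U = ⊥ := by
      by_contra hne'
      have h2 := GroupUtil.eq_bot_of_le_commutator (P := U) (Q := U) le_rfl h.ge
      exact hne' h2
    rw [h1, commutator_bot_left]
  rcases hcase with hel | ⟨hsp, hnc⟩
  · -- elementary abelian
    have hZ1 : Z = ⊥ := by
      rw [hZ, commutator_eq_bot_iff_le_centralizer, le_centralizer_iff_isMulCommutative]
      exact hel.1
    have h4 : Nat.card U ≤ 4 := card_le_four hrank hUP hel.1 hel.2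
    rw [hZ1, card_bot] at h9
    have hU1 : Nat.card U ≠ 1 := by
      intro h
      apply hZne
      rw [hZ1, card_eq_one.mp h]
    have hpos : 0 < Nat.card U := Nat.card_pos
    omega
  · -- special
    have hZmap : (center ↥U).map U.subtype = Z := by
      rw [← hsp.2.2, map_subtype_commutator]
    have hZcard : Nat.card Z = Nat.card (center ↥U) := by
      rw [← hZmap, card_map_of_injective U.subtype_injective]
    have hZcomm : IsMulCommutative Z := by
      rw [← hZmap, isMulCommutative_iff_of_setLike]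
      rintro _ ⟨a, ha, rfl⟩ _ ⟨b, hb, rfl⟩
      rw [← map_mul, ← map_mul, mem_center_iff.mp ha b]
    have hZ2 : ∀ z ∈ Z, z ^ 2 = 1 := by
      rw [← hZmap]
      rintro _ ⟨a, ha, rfl⟩
      rw [← map_pow, PGroupClassTwo.center_pow_of_special hsp ha, map_one]
    have hZ4 : Nat.card Z ≤ 4 := card_le_four hrank (hZU.trans hUP) hZcomm hZ2
    obtain ⟨k, hk⟩ := IsPGroup.iff_card.mp (hUp.to_le hZU)
    have hZ1 : Nat.card Z ≠ 1 := by
      intro h
      apply hnc
      rw [card_eq_one, hZ, commutator_eq_bot_iff_le_centralizer, le_centralizer_iff_isMulCommutative] at h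
      exact h
    have hZ2' : Nat.card Z ≠ 2 := by
      intro h
      obtain ⟨z, hz1, hz⟩ : ∃ z : X, z ≠ 1 ∧ z ∈ Z := by
        have h1 : Z ≠ ⊥ := by
          intro h1; rw [h1, card_bot] at h; omega
        obtain ⟨z, hz⟩ := Subgroup.ne_bot_iff_exists_ne_one.mp h1
        exact ⟨z, fun h => hz (Subtype.ext h), z.2⟩
      have h2 : ∀ w ∈ Z, w = 1 ∨ w = z := by
        intro w hw
        by_contra hcon
        push Not at hcon
        have h3 : ({1, z, w} : Set X) ⊆ (Z : Set X) := by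
          rintro y (rfl | rfl | rfl)
          · exact one_mem _
          · exact hz
          · exact hw
        have h4 : Set.ncard ({1, z, w} : Set X) = 3 := by
          rw [Set.ncard_eq_three]
          exact ⟨1, z, w, hz1.symm, hcon.1.symm, hcon.2.symm, rfl⟩
        have h5 := Set.ncard_le_ncard h3 (Set.toFinite _)
        rw [h4] at h5
        have h6 : Set.ncard (Z : Set X) = 2 := h
        omega
      have h3 : d * z * d⁻¹ ∈ Z := LocBase.conj_mem_of_le_normalizer hBZ (mem_zpowers d) hz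
      rcases h2 _ h3 with h4 | h4
      · apply hz1
        have : z = d⁻¹ * (d * z * d⁻¹) * d := by group
        rw [this, h4]; group
      · apply hz1
        have h6 : z ∈ centralizer {d} := by
          rw [mem_centralizer_singleton_iff]
          rw [mul_inv_eq_iff_eq_mul] at h4
          exact h4.symm
        have h5 : z ∈ P ⊓ centralizer {d} := ⟨hUP (hZU hz), h6⟩
        rw [hfpf, mem_bot] at h5
        exact h5
    have hZeq : Nat.card Z = 4 := by
      rcases k with _ | _ | _ | k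
      · exact absurd (by simpa using hk) hZ1
      · exact absurd (by simpa using hk) hZ2'
      · simpa using hk
      · exfalso
        have h1 : 2 ^ (k + 1 + 1 + 1) ≥ 8 := by
          have h2 := Nat.one_le_two_pow (n := k)
          rw [pow_succ, pow_succ, pow_succ]; omega
        rw [hk] at hZ4
        omega
    have hsq : ∀ x : U, x ^ 2 ∈ center U := PGroupClassTwo.pow_mem_center_of_special hsp
    have hinv : ∀ x : U, x ^ 2 = 1 → x ∈ center U := by
      intro x hx
      by_contra hxc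
      have hVc : IsMulCommutative (center U ⊔ zpowers x : Subgroup U) := by
        apply isMulCommutative_sup_zpowers inferInstance
        rw [mem_centralizer_iff]
        intro z hz
        exact (mem_center_iff.mp hz x).symm
      have hV8 := two_mul_card_le (lt_sup_zpowers hxc)
      have hV2 : ∀ v ∈ center U ⊔ zpowers x, v ^ 2 = 1 := by
        intro v hv
        obtain ⟨c, hc, w, hw, rfl⟩ := (mem_sup_of_normal_left).mp hv
        have h1 : c ^ 2 = 1 := PGroupClassTwo.center_pow_of_special hsp hc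
        obtain ⟨j, rfl⟩ := mem_zpowers_iff.mp hw
        have h2 : Commute c (x ^ j) := (mem_center_iff.mp hc (x ^ j)).symm
        rw [h2.mul_pow, h1, one_mul, ← zpow_natCast, ← zpow_mul, mul_comm, zpow_mul]
        simp [hx]
      have h3 : Nat.card ((center U ⊔ zpowers x : Subgroup U).map U.subtype) ≤ 4 := by
        apply card_le_four hrank ((map_subtype_le _).trans hUP)
        · rw [isMulCommutative_iff_of_setLike]
          rintro _ ⟨a, ha, rfl⟩ _ ⟨b, hb, rfl⟩
          rw [← map_mul, ← map_mul, isMulCommutative_iff_of_setLike.mp hVc a ha b hb]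
        · rintro _ ⟨a, ha, rfl⟩
          rw [← map_pow, hV2 a ha, map_one]
      rw [card_map_of_injective U.subtype_injective] at h3
      omega
    have hlt := card_lt (U := ↥U) (hZcard ▸ hZeq) hsq hinv
    obtain ⟨j, hj⟩ := IsPGroup.iff_card.mp hUp
    have h8 : Nat.card Z < Nat.card U := GroupUtil.card_lt_card (lt_of_le_of_ne hZU hZne)
    rw [hZeq] at h8 h9
    rw [hj] at hlt h8 h9
    have hj8 : j < 8 := by
      by_contra hge
      push Not at hge
      have : 2 ^ 8 ≤ 2 ^ j := Nat.pow_le_pow_right (by norm_num) hge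
      omega
    interval_cases j <;> omega

/-- an invariant subgroup of order 2 is centralized -/
theorem card_ne_two_of_fpf {V : Subgroup X} {g : X} (hgV : g ∈ normalizer (V : Set X))
    (hfix : V ⊓ centralizer {g} = ⊥) : Nat.card V ≠ 2 := by
  intro h
  have h1 : V ≠ ⊥ := by
    intro h1; rw [h1, card_bot] at h; omega
  obtain ⟨z', hz'⟩ := Subgroup.ne_bot_iff_exists_ne_one.mp h1
  obtain ⟨z, hz⟩ := z'
  have hz1 : z ≠ 1 := fun h => hz' (Subtype.ext h)
  have h2 : ∀ w ∈ V, w = 1 ∨ w = z := by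
    intro w hw
    by_contra hcon
    push Not at hcon
    have h3 : ({1, z, w} : Set X) ⊆ (V : Set X) := by
      rintro y (rfl | rfl | rfl)
      · exact one_mem _
      · exact hz
      · exact hw
    have h4 : Set.ncard ({1, z, w} : Set X) = 3 := by
      rw [Set.ncard_eq_three]
      exact ⟨1, z, w, hz1.symm, hcon.1.symm, hcon.2.symm, rfl⟩
    have h5 := Set.ncard_le_ncard h3 (Set.toFinite _)
    rw [h4] at h5
    have h6 : Set.ncard (V : Set X) = 2 := h
    omega
  have h3 : g * z * g⁻¹ ∈ V := (mem_normalizer_iff.mp hgV z).mp hz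
  rcases h2 _ h3 with h4 | h4
  · apply hz1
    have : z = g⁻¹ * (g * z * g⁻¹) * g := by group
    rw [this, h4]; group
  · apply hz1
    have h6 : z ∈ centralizer {g} := by
      rw [mem_centralizer_singleton_iff]
      rw [mul_inv_eq_iff_eq_mul] at h4
      exact h4.symm
    have h5 : z ∈ V ⊓ centralizer {g} := ⟨hz, h6⟩
    rw [hfix, mem_bot] at h5
    exact h5

theorem isPGroup_of_elementary {V : Subgroup X} (hV : IsElementaryAbelian 2 V) : IsPGroup 2 V := fun v =>
  ⟨1, Subtype.ext (by simpa using hV.2 v v.2)⟩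

/-- rank at most two: an invariant elementary abelian subgroup without fixed points. -/
theorem eq_of_invariant (hR : ∀ E : Subgroup X, IsElementaryAbelian 2 E → Nat.card E ≤ 4) {V V' : Subgroup X}
    (hV : IsElementaryAbelian 2 V) {g : X} (hfix : V ⊓ centralizer {g} = ⊥) (hV' : V' ≤ V) (hV'1 : V' ≠ ⊥)
    (hgV' : g ∈ normalizer (V' : Set X)) : V' = V := by
  have h2p : Fact (Nat.Prime 2) := ⟨Nat.prime_two⟩
  have h1 : Nat.card V' ≠ 2 := card_ne_two_of_fpf hgV' (by
    rw [eq_bot_iff, ← hfix]; exact inf_le_inf_right _ hV')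
  have hp := (isPGroup_of_elementary hV).to_le hV'
  obtain ⟨k, hk⟩ := IsPGroup.iff_card.mp hp
  apply Subgroup.eq_of_le_of_card_ge hV'
  apply (hR V hV).trans
  have hk0 : k ≠ 0 := by
    rintro rfl
    rw [pow_zero] at hk
    exact hV'1 (card_eq_one.mp hk)
  have hk1 : k ≠ 1 := by
    rintro rfl
    rw [pow_one] at hk
    exact h1 hk
  rw [hk]
  calc 4 = 2 ^ 2 := by norm_num
    _ ≤ 2 ^ k := Nat.pow_le_pow_right (by norm_num) (by omega)

theorem omega_le (hR : ∀ E : Subgroup X, IsElementaryAbelian 2 E → Nat.card E ≤ 4) {P V : Subgroup X}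
    (hP : IsPGroup 2 P) (hVP : V ≤ P) (hV : IsElementaryAbelian 2 V) (hV1 : V ≠ ⊥) {g : X}
    (hgP : g ∈ normalizer (P : Set X)) (hgV : g ∈ normalizer (V : Set X)) (hfix : V ⊓ centralizer {g} = ⊥) :
    (∀ x ∈ P, x ^ 2 = 1 → x ∈ V) ∧ P ≤ centralizer (V : Set X) ∧ P ⊓ centralizer {g} = ⊥ := by
  have h2p : Fact (Nat.Prime 2) := ⟨Nat.prime_two⟩
  have hVp := isPGroup_of_elementary hV
  set N : Subgroup X := P ⊓ normalizer (V : Set X) with hN
  have hVN : V ≤ N := le_inf hVP le_normalizer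
  have hgz : zpowers g ≤ normalizer (N : Set X) :=
    LocBase.le_normalizer_inf (zpowers_le.mpr hgP) ((zpowers_le.mpr hgV).trans le_normalizer)
  have hcen : V ⊓ centralizer (N : Set X) = V := by
    apply eq_of_invariant hR hV hfix inf_le_left
    · exact PAct.inf_centralizer_ne_bot (hP.to_le inf_le_left) hVp hV1 inf_le_right
    · exact LocBase.le_normalizer_inf (zpowers_le.mpr hgV) (LocBase.le_normalizer_centralizer hgz)
        (mem_zpowers g)
  have hNV : N ≤ centralizer (V : Set X) := by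
    rw [le_centralizer_iff]
    exact inf_eq_left.mp hcen
  have hV4 : Nat.card V = 4 := by
    have h1 := card_ne_two_of_fpf hgV hfix
    have h2 := hR V hV
    obtain ⟨k, hk⟩ := IsPGroup.iff_card.mp hVp
    have h3 : Nat.card V ≠ 1 := fun h => hV1 (card_eq_one.mp h)
    rcases k with _ | _ | _ | k
    · exact absurd (by simpa using hk) h3
    · exact absurd (by simpa using hk) h1
    · simpa using hk
    · exfalso
      have h1 : 2 ^ (k + 1 + 1 + 1) ≥ 8 := by
        have h2 := Nat.one_le_two_pow (n := k)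
        rw [pow_succ, pow_succ, pow_succ]; omega
      rw [hk] at h2
      omega
  have hinv : ∀ x ∈ N, x ^ 2 = 1 → x ∈ V := by
    intro x hx hx2
    by_contra hxV
    have h1 := two_mul_card_le (lt_sup_zpowers hxV)
    have hxc : x ∈ centralizer (V : Set X) := hNV hx
    have hc : IsMulCommutative (V ⊔ zpowers x : Subgroup X) := isMulCommutative_sup_zpowers hV.1 hxc
    have h2 : IsElementaryAbelian 2 (V ⊔ zpowers x) := by
      refine ⟨hc, ?_⟩
      intro v hv
      have hle : zpowers x ≤ normalizer (V : Set X) := by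
        rw [zpowers_le]; exact hx.2
      obtain ⟨c, hc', w, hw, rfl⟩ := (GroupUtil.mem_sup_of_le_normalizer' hle).mp hv
      obtain ⟨j, rfl⟩ := mem_zpowers_iff.mp hw
      have h2 : Commute c (x ^ j) := (show Commute c x from mem_centralizer_iff.mp hxc c hc').zpow_right j
      rw [h2.mul_pow, hV.2 c hc', one_mul, ← zpow_natCast, ← zpow_mul, mul_comm, zpow_mul]
      simp [hx2]
    have h3 := hR _ h2
    omega
  have hNP : N = P := by
    by_contra hne
    have hlt : N < P := lt_of_le_of_ne inf_le_left hne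
    have h1 := GroupUtil.lt_inf_normalizer_of_isPGroup hP hlt
    apply h1.not_ge
    rintro y ⟨hyP, hyN⟩
    refine ⟨hyP, ?_⟩
    apply GroupUtil.mem_normalizer_of_conj_le
    intro v hv
    apply hinv _ ((mem_normalizer_iff.mp hyN v).mp (hVN hv))
    rw [conj_pow, hV.2 v hv]; group
  rw [hNP] at hinv hNV
  refine ⟨hinv, hNV, ?_⟩
  by_contra hne
  have h1 : IsPGroup 2 ↥(P ⊓ centralizer {g}) := hP.to_le inf_le_left
  obtain ⟨z, hz, -, hzo⟩ := PAct.exists_fixed_orderOf_eq h1 h1 hne le_normalizer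
  have h2 : z ∈ V := hinv z hz.1 (by rw [← hzo]; exact pow_orderOf_eq_one z)
  have h3 : z ∈ V ⊓ centralizer {g} := ⟨h2, hz.2⟩
  rw [hfix, mem_bot] at h3
  rw [h3, orderOf_one] at hzo
  omega

end ambient

end Cfsg.Agent.Lib.H62Rank2
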