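import Mathlib
import Cfsg.Agent.Lib.SL2Tori
import Cfsg.Agent.Lib.SL2Basic
import Cfsg.Agent.Lib.CoprimeAction
import Cfsg.Agent.Lib.QuatSylow
import Cfsg.Agent.Lib.SLTwoThree
import Cfsg.Agent.Lib.UniqueInvolution
import Cfsg.Agent.Lib.PAct
import Cfsg.Agent.Lib.GroupUtil

/-!
# `p`-elements of `SL₂(F)` acting on `p'`-subgroups, `F` of odd characteristic `p`
-/

set_option autoImplicit false

namespace Cfsg.Agent.Lib.H62SL2P

open Subgroup Matrix Cfsg.Agent.Lib.SL2Basic Cfsg.Agent.Lib.SL2Tori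

section

variable {F : Type*} [Field F]

local notation "SL2" => Matrix.SpecialLinearGroup (Fin 2) F
local notation "M2" => Matrix (Fin 2) (Fin 2) F

theorem tr_eq_two_of_pow {p : ℕ} [hp : Fact p.Prime] [CharP F p] {a : SL2} {k : ℕ} (h : a ^ p ^ k = 1) : tr a = 2 := by
  have hc : CharP M2 p := inferInstance
  have h1 : ((a : M2) - 1) ^ p ^ k = 0 := by
    rw [sub_pow_char_pow_of_commute p k (Commute.one_right (a : M2))]
    have : (a : M2) ^ p ^ k = 1 := by
      have := congrArg (fun B : SL2 => (B : M2)) h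
      simpa using this
    rw [this, one_pow, sub_self]
  have h2 : IsNilpotent ((a : M2) - 1) := ⟨_, h1⟩
  have h3 := Matrix.isNilpotent_trace_of_isNilpotent h2
  rw [isNilpotent_iff_eq_zero, Matrix.trace_sub, trace_eq, Matrix.trace_one] at h3
  simp at h3
  exact sub_eq_zero.mp h3

theorem pow_eq_one_of_tr {p : ℕ} [hp : Fact p.Prime] [CharP F p] {x : SL2} (h : tr x = 2) : x ^ p = 1 := by
  have h1 := sq_eq x
  rw [h] at h1
  have h2 : ((x : M2) - 1) ^ 2 = 0 := by
    rw [pow_two, sub_mul, mul_sub, h1, mul_one, one_mul, two_smul]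
    abel
  have hc : CharP M2 p := inferInstance
  have h3 : ((x : M2) - 1) ^ p = 0 := by
    obtain ⟨m, hm⟩ : ∃ m, p = 2 + m := ⟨p - 2, by have := hp.out.two_le; omega⟩
    rw [hm, pow_add, h2, zero_mul]
  rw [sub_pow_char_of_commute p (Commute.one_right (x : M2)), one_pow, sub_eq_zero] at h3
  apply Subtype.ext
  simpa using h3

theorem eq_of_tr {p : ℕ} [hp : Fact p.Prime] [CharP F p] (hp2 : p ≠ 2) {x : SL2}
    (hx : (orderOf x).Coprime p) (h : tr x = 2 ∨ tr x = -2) : x = 1 ∨ x = -1 := by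
  have h2 : (2 : F) ≠ 0 := by
    have := (CharP.cast_eq_zero_iff F p 2).not.mpr (fun hd => hp2 ((Nat.prime_dvd_prime_iff_eq hp.out Nat.prime_two).mp hd))
    exact_mod_cast this
  have key : x ^ (2 * p) = 1 := by
    rcases h with h | h
    · rw [mul_comm, pow_mul, pow_eq_one_of_tr h, one_pow]
    · have h3 : (-x) ^ p = 1 := pow_eq_one_of_tr (by rw [tr_neg, h, neg_neg])
      have h4 : (-x) ^ (2 * p) = 1 := by rw [mul_comm, pow_mul, h3, one_pow]
      rwa [pow_mul, neg_sq, ← pow_mul] at h4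
  have h4 : orderOf x ∣ 2 := by
    have := orderOf_dvd_of_pow_eq_one key
    exact hx.dvd_of_dvd_mul_right this
  have h5 : x ^ 2 = 1 := orderOf_dvd_iff_pow_eq_one.mp h4
  exact eq_one_or_neg_one_of_sq h2 (by rw [← pow_two]; exact h5)

theorem two_ne {p : ℕ} [hp : Fact p.Prime] [CharP F p] (hp2 : p ≠ 2) : (2 : F) ≠ 0 := by
  have := (CharP.cast_eq_zero_iff F p 2).not.mpr (fun hd => hp2 ((Nat.prime_dvd_prime_iff_eq hp.out Nat.prime_two).mp hd))
  exact_mod_cast this

/-- a `p'`-element commuting with a nontrivial `p`-element is central. -/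
theorem eq_of_commute {p : ℕ} [hp : Fact p.Prime] [CharP F p] (hp2 : p ≠ 2) {a y : SL2} {k : ℕ} (ha : a ^ p ^ k = 1)
    (ha1 : a ≠ 1) (hy : (orderOf y).Coprime p) (hc : Commute a y) : y = 1 ∨ y = -1 := by
  have h2 := two_ne (F := F) hp2
  have htr := tr_eq_two_of_pow ha
  have hcen : a ∉ Subgroup.center SL2 := by
    rw [mem_center_iff']
    rintro (h | h)
    · exact ha1 h
    · rw [h, tr_neg, tr_one] at htr
      apply mul_ne_zero h2 h2
      linear_combination -htr
  obtain ⟨α, β, h⟩ := (commute_iff' hcen).mp hc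
  obtain ⟨h3, h4⟩ := tr_of_eq h
  rw [htr] at h3 h4
  apply eq_of_tr hp2 hy
  have h5 : (α + β - 1) * (α + β + 1) = 0 := by linear_combination h4
  rcases mul_eq_zero.mp h5 with h6 | h6
  · left; rw [h3]; linear_combination 2 * h6
  · right; rw [h3]; linear_combination 2 * h6

/-- if `a` is a nontrivial `p`-element, `x` a `p'`-element commuting with `a x a⁻¹` then `x` is central. -/
theorem eq_of_commute_conj {p : ℕ} [hp : Fact p.Prime] [CharP F p] (hp2 : p ≠ 2) {a x : SL2} {k : ℕ}
    (ha : a ^ p ^ k = 1) (ha1 : a ≠ 1) (hx : (orderOf x).Coprime p) (hc : Commute x (a * x * a⁻¹)) :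
    x = 1 ∨ x = -1 := by
  have h2 := two_ne (F := F) hp2
  by_contra hcon
  have hcen : x ∉ Subgroup.center SL2 := by rw [mem_center_iff']; exact hcon
  obtain ⟨α, β, h⟩ := (commute_iff' hcen).mp hc
  obtain ⟨h3, h4⟩ := tr_of_eq h
  rw [tr_conj] at h3
  have h5 : (1 - β) * ((1 + β) * ((tr x - 2) * (tr x + 2))) = 0 := by
    have h6 : 2 * α = tr x - β * tr x := by linear_combination -h3
    have h7 : 4 * (α ^ 2 + α * β * tr x + β ^ 2) = 4 := by rw [h4]; ring
    have h8 : (2 * α) ^ 2 + 2 * (2 * α) * β * tr x + 4 * β ^ 2 = 4 := by linear_combination h7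
    rw [h6] at h8
    linear_combination h8
  rcases mul_eq_zero.mp h5 with h6 | h6
  · -- β = 1
    have hβ : β = 1 := by linear_combination -h6
    have hα : α = 0 := by
      rw [hβ] at h3
      have : 2 * α = 0 := by linear_combination -h3
      exact (mul_eq_zero.mp this).resolve_left h2
    rw [hα, hβ, zero_smul, one_smul, zero_add] at h
    have h7 : a * x * a⁻¹ = x := Subtype.ext h
    rw [mul_inv_eq_iff_eq_mul] at h7
    exact hcon (eq_of_commute hp2 ha ha1 hx h7)
  rcases mul_eq_zero.mp h6 with h7 | h7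
  · -- β = -1
    have hβ : β = -1 := by linear_combination h7
    have hα : α = tr x := by
      rw [hβ] at h3
      have : 2 * (α - tr x) = 0 := by linear_combination -h3
      exact sub_eq_zero.mp ((mul_eq_zero.mp this).resolve_left h2)
    have h8 : a * x * a⁻¹ = x⁻¹ := by
      apply Subtype.ext
      rw [h, hα, hβ, coe_inv_eq, neg_smul, one_smul, sub_eq_add_neg]
    have h9 : Commute (a ^ 2) x := by
      have h10 : a ^ 2 * x * (a ^ 2)⁻¹ = x := by
        calc a ^ 2 * x * (a ^ 2)⁻¹ = a * (a * x * a⁻¹) * a⁻¹ := by rw [pow_two]; group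
          _ = a * x⁻¹ * a⁻¹ := by rw [h8]
          _ = (a * x * a⁻¹)⁻¹ := by group
          _ = x := by rw [h8, inv_inv]
      rw [mul_inv_eq_iff_eq_mul] at h10
      exact h10
    have h10 : (a ^ 2) ^ p ^ k = 1 := by rw [← pow_mul, mul_comm, pow_mul, ha, one_pow]
    have h11 : a ^ 2 ≠ 1 := by
      intro h
      have h12 : orderOf a ∣ 2 := orderOf_dvd_of_pow_eq_one h
      have h13 : orderOf a ∣ p ^ k := orderOf_dvd_of_pow_eq_one ha
      have h14 : (2 : ℕ).Coprime (p ^ k) := Nat.Coprime.pow_right _ ((Nat.coprime_primes Nat.prime_two hp.out).mpr hp2.symm)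
      have h15 : orderOf a = 1 := Nat.eq_one_of_dvd_coprimes h14 h12 h13
      exact ha1 (orderOf_eq_one_iff.mp h15)
    exact hcon (eq_of_commute hp2 h10 h11 hx h9)
  · apply hcon
    apply eq_of_tr hp2 hx
    rcases mul_eq_zero.mp h7 with h8 | h8
    · left; linear_combination h8
    · right; linear_combination h8

variable [Finite F]

theorem main {p : ℕ} [hp : Fact p.Prime] [CharP F p] (hp2 : p ≠ 2) {a : SL2} {k : ℕ} (ha : a ^ p ^ k = 1)
    (R : Subgroup SL2) (hR : (Nat.card R).Coprime p) (haR : a ∈ normalizer (R : Set SL2))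
    (hnt : a ∉ centralizer (R : Set SL2)) :
    p = 3 ∧ Nonempty (↥R ≃* QuaternionGroup 2) ∧
      Nonempty (↥(R ⊔ zpowers a) ≃* Matrix.SpecialLinearGroup (Fin 2) (ZMod 3)) := by
  have h2 := two_ne (F := F) hp2
  have ha1 : a ≠ 1 := by
    rintro rfl
    exact hnt (one_mem _)
  have hAp : IsPGroup p (zpowers a) := by
    rw [IsPGroup.iff_card]
    rw [Nat.card_zpowers]
    obtain ⟨j, _, hj⟩ := (Nat.dvd_prime_pow hp.out).mp (orderOf_dvd_of_pow_eq_one ha)
    exact ⟨j, hj⟩
  have hAR : zpowers a ≤ normalizer (R : Set SL2) := zpowers_le.mpr haR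
  have hcop : (Nat.card (zpowers a)).Coprime (Nat.card R) := by
    obtain ⟨j, hj⟩ := IsPGroup.iff_card.mp hAp
    rw [hj]
    exact Nat.Coprime.pow_left _ hR.symm
  have hxp : ∀ x ∈ R, (orderOf x).Coprime p := fun x hx =>
    Nat.Coprime.coprime_dvd_left (by
      rw [← Nat.card_zpowers]; exact card_dvd_of_le (zpowers_le.mpr hx)) hR
  -- R is a 2-group
  have hR2 : IsPGroup 2 R := by
    rw [IsPGroup.iff_card]
    have hall : ∀ r : ℕ, r.Prime → r ∣ Nat.card R → r = 2 := by
      intro r hr hrd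
      by_contra hr2
      have hrf : Fact r.Prime := ⟨hr⟩
      obtain ⟨S, hSR, hSr, hSi, hAS⟩ := CoprimeAction.exists_invariant_sylow hAR hcop (Or.inl inferInstance) r
      have hS1 : S ≠ ⊥ := by
        rintro rfl
        rw [relIndex_bot_left] at hSi
        exact hSi hrd
      -- center of S
      obtain ⟨x, hx, hxc, hxo⟩ := PAct.exists_fixed_orderOf_eq hSr hSr hS1 le_normalizer
      have hax : a * x * a⁻¹ ∈ S := (mem_normalizer_iff.mp (hAS (mem_zpowers a)) x).mp hx
      have hcomm : Commute x (a * x * a⁻¹) := (hxc _ hax).symm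
      rcases eq_of_commute_conj hp2 ha ha1 (hxp x (hSR hx)) hcomm with h | h
      · rw [h, orderOf_one] at hxo
        exact hr.one_lt.ne hxo
      · have h3 : x ^ 2 = 1 := by rw [h]; simp
        have h4 := orderOf_dvd_of_pow_eq_one h3
        rw [hxo] at h4
        exact hr2 ((Nat.prime_dvd_prime_iff_eq hr Nat.prime_two).mp h4)
    refine ⟨_, Nat.eq_prime_pow_of_unique_prime_dvd Nat.card_pos.ne' (fun {r} hr hrd => hall r hr hrd)⟩
  have hinv : ∀ u ∈ R, ∀ v ∈ R, orderOf u = 2 → orderOf v = 2 → u = v := by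
    have key : ∀ u : SL2, orderOf u = 2 → u = -1 := by
      intro u hu
      have h3 : u ^ 2 = 1 := by
        have h4 := pow_orderOf_eq_one u
        rwa [hu] at h4
      rcases eq_one_or_neg_one_of_sq h2 (by rw [← pow_two]; exact h3) with h | h
      · rw [h, orderOf_one] at hu; omega
      · exact h
    intro u _ v _ hu hv
    rw [key u hu, key v hv]
  have hodd : Nat.Coprime (orderOf a) 2 := by
    refine Nat.Coprime.coprime_dvd_left (orderOf_dvd_of_pow_eq_one ha) ?_
    exact Nat.Coprime.pow_left _ ((Nat.coprime_primes hp.out Nat.prime_two).mpr hp2)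
  obtain ⟨x, hx, y, hy, hx4, hsq, hconj, hgx, hgy, hcard⟩ := QuatSylow.quaternion_action hR2 hinv hodd haR hnt
  have hgw : a * (x * y) * a⁻¹ = x := by
    calc a * (x * y) * a⁻¹ = (a * x * a⁻¹) * (a * y * a⁻¹) := by group
      _ = y * (x * y) := by rw [hgx, hgy]
      _ = (y * x * y⁻¹) * y ^ 2 := by rw [pow_two]; group
      _ = x := by rw [hconj, hsq, pow_two]; group
  have hc3x : a ^ 3 * x * (a ^ 3)⁻¹ = x := by
    calc a ^ 3 * x * (a ^ 3)⁻¹ = a * (a * (a * x * a⁻¹) * a⁻¹) * a⁻¹ := by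
          rw [pow_succ, pow_two]; group
      _ = x := by rw [hgx, hgy, hgw]
  have ha3 : a ^ 3 = 1 := by
    by_contra hne
    rw [mul_inv_eq_iff_eq_mul] at hc3x
    have h3 := eq_of_commute hp2 (a := a ^ 3) (k := k) (by rw [← pow_mul, mul_comm, pow_mul, ha, one_pow]) hne
      (hxp x hx) hc3x
    rcases h3 with h3 | h3
    · rw [h3, orderOf_one] at hx4; omega
    · have h4 : x ^ 2 = 1 := by rw [h3]; simp
      have h5 := orderOf_dvd_of_pow_eq_one h4
      rw [hx4] at h5
      exact absurd (Nat.le_of_dvd (by norm_num) h5) (by norm_num)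
  have hao : orderOf a = 3 := by
    have h3 := orderOf_dvd_of_pow_eq_one ha3
    rcases (Nat.dvd_prime Nat.prime_three).mp h3 with h | h
    · exact absurd (orderOf_eq_one_iff.mp h) ha1
    · exact h
  have hp3 : p = 3 := by
    have h3 := orderOf_dvd_of_pow_eq_one ha
    rw [hao] at h3
    exact ((Nat.prime_dvd_prime_iff_eq Nat.prime_three hp.out).mp (Nat.prime_three.dvd_of_dvd_pow h3)).symm
  have hxne : x ≠ x⁻¹ := by
    intro h
    have h7 : x ^ 2 = 1 := by rw [pow_two]; nth_rewrite 1 [h]; group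
    have h8 := orderOf_dvd_of_pow_eq_one h7
    rw [hx4] at h8
    exact absurd (Nat.le_of_dvd (by norm_num) h8) (by norm_num)
  refine ⟨hp3, ?_, ?_⟩
  · -- quaternion
    rcases UniqueInvolution.isCyclic_or_quaternion hR2 (by
      intro u v hu hv
      have h3 : (u : SL2) = v := hinv u u.2 v v.2 (by rw [Subgroup.orderOf_coe]; exact hu)
        (by rw [Subgroup.orderOf_coe]; exact hv)
      rw [Subtype.ext h3]
      exact mem_zpowers v) with hcyc | ⟨-, n, hn, ⟨e⟩⟩
    · exfalso
      have hcm := hcyc.commutative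
      have h3 : y * x = x * y := congrArg Subtype.val (isMulCommutative_iff.mp hcm (⟨y, hy⟩ : R) ⟨x, hx⟩)
      apply hxne
      rw [← hconj, h3]; group
    · have h3 := Nat.card_congr e.toEquiv
      rw [hcard, Nat.card_eq_fintype_card, QuaternionGroup.card] at h3
      have h4 : 2 ^ n = 2 := by omega
      rw [h4] at e
      exact ⟨e⟩
  · -- SL(2,3)
    have hrel : SLTwoThree.Rel x y a :=
      ⟨by rw [← hx4]; exact pow_orderOf_eq_one x, hsq, hconj, hgx, hgy, ha3⟩
    set H : Subgroup SL2 := R ⊔ zpowers a with hH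
    have haH : a ∈ H := mem_sup_right (mem_zpowers a)
    have hxH : x ∈ H := mem_sup_left hx
    have hyH : y ∈ H := mem_sup_left hy
    have hxy : zpowers x ⊔ zpowers y = R := by
      have hle : zpowers x ⊔ zpowers y ≤ R := by
        rw [sup_le_iff, zpowers_le, zpowers_le]; exact ⟨hx, hy⟩
      apply Subgroup.eq_of_le_of_card_ge hle
      have h1 : zpowers x < zpowers x ⊔ zpowers y := by
        refine lt_of_le_of_ne le_sup_left ?_
        intro heq
        have hyx : y ∈ zpowers x := heq ▸ mem_sup_right (mem_zpowers y)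
        obtain ⟨i, hi⟩ := hyx
        simp only at hi
        rw [← hi] at hconj
        exact hxne (by
          calc x = x ^ i * x * (x ^ i)⁻¹ := by group
            _ = x⁻¹ := hconj)
      have h3 := GroupUtil.card_lt_card h1
      have h4 := Subgroup.card_dvd_of_le h1.le
      rw [Nat.card_zpowers, hx4] at h3 h4
      obtain ⟨m, hm⟩ := h4
      rw [hcard]
      omega
    have hHcard : Nat.card H = 24 := by
      rw [hH, SubgroupTools.card_sup_of_coprime hAR hcop.symm, hcard, Nat.card_zpowers, hao]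
    apply SLTwoThree.equiv_SL (x := (⟨x, hxH⟩ : H)) (y := ⟨y, hyH⟩) (g := ⟨a, haH⟩)
    · exact ⟨Subtype.ext hrel.x4, Subtype.ext hrel.sq, Subtype.ext hrel.conj, Subtype.ext hrel.gx,
        Subtype.ext hrel.gy, Subtype.ext hrel.g3⟩
    · exact hHcard
    · have h3 : (Subgroup.closure {(⟨x, hxH⟩ : H), ⟨y, hyH⟩, ⟨a, haH⟩}).map H.subtype = H := by
        rw [MonoidHom.map_closure]
        apply le_antisymm
        · rw [closure_le]
          rintro _ ⟨u, hu, rfl⟩
          exact u.2
        · have hmem : ∀ u ∈ ({(⟨x, hxH⟩ : H), ⟨y, hyH⟩, ⟨a, haH⟩} : Set H),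
              (u : SL2) ∈ Subgroup.closure (H.subtype '' {(⟨x, hxH⟩ : H), ⟨y, hyH⟩, ⟨a, haH⟩}) :=
            fun u hu => subset_closure ⟨u, hu, rfl⟩
          nth_rewrite 1 [hH]
          rw [← hxy, sup_le_iff, sup_le_iff, zpowers_le, zpowers_le, zpowers_le]
          exact ⟨⟨hmem ⟨x, hxH⟩ (by simp), hmem ⟨y, hyH⟩ (by simp)⟩, hmem ⟨a, haH⟩ (by simp)⟩
      apply Subgroup.map_injective H.subtype_injective
      rw [h3, ← MonoidHom.range_eq_map, Subgroup.range_subtype]

end

end Cfsg.Agent.Lib.H62SL2P
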