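import Mathlib
import Cfsg.Agent.Lib.CoprimeAction
import Cfsg.Agent.Lib.CoprimeAction2
import Cfsg.Agent.Lib.AbGen
import Cfsg.Agent.Lib.LocBase
import Cfsg.Agent.Lib.GroupUtil
import Cfsg.Agent.Lib.Fitting
import Cfsg.Agent.Lib.PNilp
import Cfsg.Agent.Lib.PSolvDual
import Cfsg.Agent.Lib.H32PSolv
import Cfsg.Agent.Lib.H70Frattini
import Cfsg.Agent.Lib.FrakH
import Cfsg.Agent.Lib.PIrred

/-!
# Subgroups generated by two conjugates of a `p`-subgroup (`p`-soluble groups)
-/

set_option autoImplicit false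

namespace Cfsg.Agent.Lib.H62TwoConj

open scoped commutatorElement Pointwise
open Subgroup Cfsg
open Cfsg.Agent.Lib.LocBase (le_normalizer_sup le_normalizer_inf le_normalizer_commutator
  le_normalizer_centralizer commutator_le_left_of_le pRes map_pResidual pRes_le isPGroup_mono mem_map_conj
  pCoreOf_le le_pCoreOf isPGroup_pCoreOf le_normalizer_pCoreOf)

variable {X : Type*} [Group X] [Finite X] {p : ℕ} [Fact p.Prime]

/-- a complement-type fact: for `A` a `p`-group normalizing the `p'`-group `U` and `u ∈ U` normalizing `A`,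
`u` centralizes `A`. -/
theorem mem_centralizer_of_mem_normalizer {A U : Subgroup X} (hcop : (Nat.card A).Coprime (Nat.card U))
    (hAU : A ≤ normalizer (U : Set X)) {u : X} (hu : u ∈ U) (hun : u ∈ normalizer (A : Set X)) :
    u ∈ centralizer (A : Set X) := by
  have hbot : A ⊓ U = ⊥ := SubgroupTools.inf_eq_bot_of_coprime' hcop
  rw [mem_centralizer_iff]
  intro a ha
  have h1 : u * a * u⁻¹ ∈ A := (mem_normalizer_iff.mp hun a).mp ha
  have h2 : a * u⁻¹ * a⁻¹ ∈ U := (mem_normalizer_iff.mp (hAU ha) u⁻¹).mp (U.inv_mem hu)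
  have h3 : u * a * u⁻¹ * a⁻¹ ∈ A ⊓ U := by
    refine ⟨A.mul_mem h1 (A.inv_mem ha), ?_⟩
    have : u * a * u⁻¹ * a⁻¹ = u * (a * u⁻¹ * a⁻¹) := by group
    rw [this]
    exact U.mul_mem hu h2
  rw [hbot, mem_bot] at h3
  have h4 : u * a * u⁻¹ = a := by
    rw [mul_inv_eq_one] at h3
    exact h3
  rw [mul_inv_eq_iff_eq_mul] at h4
  exact h4.symm

/-- in `X`: `A` elementary abelian acting nontrivially on a `p'`-group `K`. -/
theorem exists_pair {A K : Subgroup X} (hA : IsMulCommutative A) (hexp : ∀ a ∈ A, a ^ p = 1)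
    (hAp : IsPGroup p A) (hAK : A ≤ normalizer (K : Set X)) (hK : (Nat.card K).Coprime p) (hne : ⁅K, A⁆ ≠ ⊥) :
    ∃ B U : Subgroup X, B ≤ A ∧ B.relIndex A = p ∧ U ≤ K ∧ U ≤ centralizer (B : Set X) ∧
      A ≤ normalizer (U : Set X) ∧ ⁅U, A⁆ ≠ ⊥ ∧
      ∀ u ∈ U, u ∉ centralizer (A : Set X) → A ⊔ A.map (MulAut.conj u).toMonoidHom = U ⊔ A := by
  have hp : p.Prime := Fact.out
  obtain ⟨n, hn⟩ := IsPGroup.iff_card.mp hAp
  have hcop : (Nat.card A).Coprime (Nat.card K) := by
    rw [hn]; exact Nat.Coprime.pow_left _ hK.symm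
  -- choose B
  obtain ⟨B, hBC, hB1⟩ : ∃ B ∈ AbGen.CoCyc A, ⁅K ⊓ centralizer (B : Set X), A⁆ ≠ ⊥ := by
    by_contra hcon
    push Not at hcon
    apply hne
    rw [← AbGen.iSup_commutator_eq hA hAK hcop, eq_bot_iff]
    exact iSup₂_le fun B hB => (hcon B hB).le
  obtain ⟨hBA, a, ha, haB⟩ := hBC
  have hAB : A ≤ normalizer (B : Set X) := AbGen.le_normalizer_of_abelian hA hBA
  have hACK : A ≤ normalizer ((K ⊓ centralizer (B : Set X) : Subgroup X) : Set X) :=
    le_normalizer_inf hAK (le_normalizer_centralizer hAB)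
  have hBneA : B ≠ A := by
    rintro rfl
    apply hB1
    rw [commutator_eq_bot_iff_le_centralizer]
    exact inf_le_right
  have hidx : B.relIndex A = p := by
    have h1 : B.relIndex A ∣ p := by
      have h2 := SubgroupTools.card_sup_mul_card_inf ((zpowers_le.mpr ha).trans hAB)
      rw [haB, Nat.card_zpowers, ← SubgroupTools.card_mul_relIndex_of_le hBA, mul_assoc] at h2
      have h3 := Nat.eq_of_mul_eq_mul_left Nat.card_pos h2
      exact (Dvd.intro _ h3).trans (orderOf_dvd_of_pow_eq_one (hexp a ha))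
    rcases (Nat.dvd_prime hp).mp h1 with h3 | h3
    · exact absurd (le_antisymm hBA (relIndex_eq_one.mp h3)) hBneA
    · exact h3
  -- choose U minimal
  obtain ⟨U, ⟨hU1, hU2, hU3⟩, hUmin⟩ : ∃ U : Subgroup X, (U ≤ K ⊓ centralizer (B : Set X) ∧
      A ≤ normalizer (U : Set X) ∧ ⁅U, A⁆ ≠ ⊥) ∧ ∀ V : Subgroup X, (V ≤ K ⊓ centralizer (B : Set X) ∧
      A ≤ normalizer (V : Set X) ∧ ⁅V, A⁆ ≠ ⊥) → V ≤ U → V = U := by
    obtain ⟨U, hU, hmin⟩ := (Set.toFinite {U : Subgroup X | U ≤ K ⊓ centralizer (B : Set X) ∧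
      A ≤ normalizer (U : Set X) ∧ ⁅U, A⁆ ≠ ⊥}).exists_minimal
      ⟨K ⊓ centralizer (B : Set X), le_rfl, hACK, hB1⟩
    exact ⟨U, hU, fun V hV hVU => le_antisymm hVU (hmin hV hVU)⟩
  refine ⟨B, U, hBA, hidx, hU1.trans inf_le_left, hU1.trans inf_le_right, hU2, hU3, ?_⟩
  intro u hu huc
  set L : Subgroup X := A ⊔ A.map (MulAut.conj u).toMonoidHom with hL
  have hLU : L ≤ U ⊔ A := by
    refine sup_le le_sup_right ?_
    rintro _ ⟨b, hb, rfl⟩
    exact mul_mem (mul_mem (mem_sup_left hu) (mem_sup_right hb)) (inv_mem (mem_sup_left hu))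
  have hded : (U ⊓ L) ⊔ A = L := by
    apply le_antisymm (sup_le inf_le_right le_sup_left)
    intro x hx
    obtain ⟨v, hv, b, hb, rfl⟩ := (GroupUtil.mem_sup_of_le_normalizer' hU2).mp (hLU hx)
    have hvL : v ∈ L := by
      have h1 : v * b * b⁻¹ ∈ L := mul_mem hx (inv_mem (mem_sup_left hb))
      rwa [mul_inv_cancel_right] at h1
    exact mul_mem (mem_sup_left ⟨hv, hvL⟩) (mem_sup_right hb)
  have hAL : A ≤ normalizer ((U ⊓ L : Subgroup X) : Set X) :=
    le_normalizer_inf hU2 ((le_sup_left : A ≤ L).trans le_normalizer)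
  by_cases h0 : ⁅U ⊓ L, A⁆ = ⊥
  · exfalso
    apply huc
    have hcopU : (Nat.card A).Coprime (Nat.card U) :=
      Nat.Coprime.coprime_dvd_right (card_dvd_of_le (hU1.trans inf_le_left)) hcop
    refine mem_centralizer_of_mem_normalizer hcopU hU2 hu ?_
    -- A is normal in L
    have hLA : L ≤ normalizer (A : Set X) := by
      rw [← hded]
      exact sup_le ((commutator_eq_bot_iff_le_centralizer.mp h0).trans (GroupUtil.centralizer_le_normalizer A))
        le_normalizer
    -- A^u A is a p-group of order at most |A|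
    apply GroupUtil.mem_normalizer_of_conj_le
    intro b hb
    by_contra hbA
    have hAu : A.map (MulAut.conj u).toMonoidHom ≤ L := le_sup_right
    have hp2 : IsPGroup p ↥L := by
      rw [hL]
      exact hAp.to_sup_of_normal_left' (hAp.map _) (hAu.trans hLA)
    have hUL : U ⊓ L = ⊥ := by
      have h1 : (Nat.card (U ⊓ L : Subgroup X)).Coprime p :=
        Nat.Coprime.coprime_dvd_left (card_dvd_of_le (inf_le_left.trans (hU1.trans inf_le_left))) hK
      have h2 : IsPGroup p ↥(U ⊓ L) := isPGroup_mono hp2 inf_le_right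
      obtain ⟨k, hk⟩ := IsPGroup.iff_card.mp h2
      rw [hk] at h1
      rw [← card_eq_one, hk]
      rcases Nat.eq_zero_or_pos k with rfl | hkpos
      · simp
      · exact absurd h1 (by
          rw [Nat.coprime_pow_left_iff hkpos, Nat.coprime_self]
          exact hp.one_lt.ne')
    rw [hUL, bot_sup_eq] at hded
    apply hbA
    rw [hded]
    exact hAu ⟨b, hb, rfl⟩
  · have h1 : U ⊓ L = U := hUmin _ ⟨inf_le_left.trans hU1, hAL, h0⟩ inf_le_left
    rw [← hded, h1]

/-- `⁅R, A⁆` is normalized by `R` and `A`. -/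
theorem sup_le_normalizer_commutator {G : Type*} [Group G] {R A : Subgroup G} :
    R ⊔ A ≤ normalizer ((⁅R, A⁆ : Subgroup G) : Set G) :=
  sup_le (normalizer_commutator_ge_left _ _) (normalizer_commutator_ge_right _ _)

/-- the main theorem in terms of a surjection with `p`-kernel. -/
theorem main {M : Type*} [Group M] [Finite M] (π : M →* X) (hπ : Function.Surjective π)
    (hker : IsPGroup p π.ker) {A : Subgroup M} {B₀ U : Subgroup X} (hBA : B₀ ≤ A.map π)
    (hA : IsMulCommutative (A.map π)) (hAp : IsPGroup p A)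
    (hidx : B₀.relIndex (A.map π) = p) (hUp : (Nat.card U).Coprime p) (hUB : U ≤ centralizer (B₀ : Set X))
    (hAU : A.map π ≤ normalizer (U : Set X)) (hne : ⁅U, A.map π⁆ ≠ ⊥)
    (hmain : ∀ u ∈ U, u ∉ centralizer (A.map π : Set X) →
      A.map π ⊔ (A.map π).map (MulAut.conj u).toMonoidHom = U ⊔ A.map π) :
    ∃ x : M, π x ∈ U ∧ x ∈ pRes p (A ⊔ A.map (MulAut.conj x).toMonoidHom) ∧
      (pRes p (A ⊔ A.map (MulAut.conj x).toMonoidHom)).map π = U ∧
      ⁅pRes p (A ⊔ A.map (MulAut.conj x).toMonoidHom), A⁆ = pRes p (A ⊔ A.map (MulAut.conj x).toMonoidHom) ∧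
      (A ⊓ pCoreOf p (A ⊔ A.map (MulAut.conj x).toMonoidHom)).relIndex A = p ∧
      ⁅A ⊓ pCoreOf p (A ⊔ A.map (MulAut.conj x).toMonoidHom), A ⊔ A.map (MulAut.conj x).toMonoidHom⁆ ≤ π.ker := by
  have hp : p.Prime := Fact.out
  obtain ⟨u₀, hu₀, hu₀c⟩ : ∃ u ∈ U, u ∉ centralizer (A.map π : Set X) := by
    by_contra hcon
    push Not at hcon
    exact hne (commutator_eq_bot_iff_le_centralizer.mpr hcon)
  obtain ⟨x₀, rfl⟩ := hπ u₀
  -- images of conjugates
  have hconj : ∀ x : M, (A.map (MulAut.conj x).toMonoidHom).map π =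
      (A.map π).map (MulAut.conj (π x)).toMonoidHom := by
    intro x
    rw [Subgroup.map_map, Subgroup.map_map]
    congr 1
    ext m
    simp
  obtain ⟨x₁, ⟨hx₁, hx₁c⟩, hmin⟩ : ∃ x : M, (π x ∈ U ∧ π x ∉ centralizer (A.map π : Set X)) ∧
      ∀ y : M, (π y ∈ U ∧ π y ∉ centralizer (A.map π : Set X)) →
        Nat.card (A ⊔ A.map (MulAut.conj x).toMonoidHom : Subgroup M) ≤
          Nat.card (A ⊔ A.map (MulAut.conj y).toMonoidHom : Subgroup M) := by
    obtain ⟨x, hx, hm⟩ := Set.exists_min_image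
      {x : M | π x ∈ U ∧ π x ∉ centralizer (A.map π : Set X)}
      (fun x => Nat.card (A ⊔ A.map (MulAut.conj x).toMonoidHom : Subgroup M)) (Set.toFinite _) ⟨x₀, hu₀, hu₀c⟩
    exact ⟨x, hx, hm⟩
  -- O^p (U A) = U
  have hUA : pRes p (U ⊔ A.map π) = U := by
    apply le_antisymm (FrakH.pRes_sup_le (hAp.map π) hAU)
    intro v hv
    exact LocBase.mem_pRes (mem_sup_left hv)
      (Nat.Coprime.coprime_dvd_left (by rw [← Nat.card_zpowers]; exact card_dvd_of_le (zpowers_le.mpr hv)) hUp)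
  have himg : ∀ x : M, π x ∈ U → π x ∉ centralizer (A.map π : Set X) →
      (A ⊔ A.map (MulAut.conj x).toMonoidHom).map π = U ⊔ A.map π := by
    intro x h1 h2
    rw [Subgroup.map_sup, hconj, hmain _ h1 h2]
  have hres : ∀ x : M, π x ∈ U → π x ∉ centralizer (A.map π : Set X) →
      (pRes p (A ⊔ A.map (MulAut.conj x).toMonoidHom)).map π = U := by
    intro x h1 h2
    rw [PIrred.pRes_map, himg x h1 h2, hUA]
  -- replace x₁ by y
  obtain ⟨y, hy, hyx⟩ : π x₁ ∈ (pRes p (A ⊔ A.map (MulAut.conj x₁).toMonoidHom)).map π := by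
    rw [hres x₁ hx₁ hx₁c]; exact hx₁
  have hyU : π y ∈ U := by rw [hyx]; exact hx₁
  have hyc : π y ∉ centralizer (A.map π : Set X) := by rw [hyx]; exact hx₁c
  have hLy : A ⊔ A.map (MulAut.conj y).toMonoidHom = A ⊔ A.map (MulAut.conj x₁).toMonoidHom := by
    apply Subgroup.eq_of_le_of_card_ge _ (hmin y ⟨hyU, hyc⟩)
    refine sup_le le_sup_left ?_
    have hyL := pRes_le _ _ hy
    rintro _ ⟨b, hb, rfl⟩
    exact mul_mem (mul_mem hyL (mem_sup_left hb)) (inv_mem hyL)
  set L : Subgroup M := A ⊔ A.map (MulAut.conj y).toMonoidHom with hL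
  rw [← hLy] at hy
  have hAL : A ≤ L := le_sup_left
  have hLn : L ≤ normalizer (pRes p L : Set M) := LocBase.le_normalizer_pRes p L
  -- B
  set B : Subgroup M := A ⊓ B₀.comap π with hB
  have hBL : ⁅B, L⁆ ≤ π.ker := by
    rw [← Subgroup.map_eq_bot_iff, Subgroup.map_commutator, commutator_eq_bot_iff_le_centralizer,
      himg y hyU hyc, le_centralizer_iff]
    have h1 : B.map π ≤ B₀ := by
      rintro _ ⟨b, hb, rfl⟩
      exact hb.2
    refine (sup_le hUB ?_).trans (centralizer_le h1)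
    intro a ha
    rw [mem_centralizer_iff]
    intro b hb
    exact isMulCommutative_iff_of_setLike.mp hA b (hBA hb) a ha
  have hBcore : B ≤ pCoreOf p L := by
    have hkN : π.ker.Normal := inferInstance
    have hkn : ∀ l : M, ∀ k ∈ π.ker, l * k * l⁻¹ ∈ π.ker := fun l k hk => hkN.conj_mem k hk l
    have hLP : L ≤ normalizer (((π.ker ⊓ L) ⊔ B : Subgroup M) : Set M) := by
      intro l hl
      apply LocBase.mem_normalizer_of_map_conj_le
      rw [Subgroup.map_sup]
      refine sup_le ?_ ?_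
      · rintro _ ⟨k, hk, rfl⟩
        exact mem_sup_left ⟨hkn l k hk.1, L.mul_mem (L.mul_mem hl hk.2) (L.inv_mem hl)⟩
      · rintro _ ⟨b, hb, rfl⟩
        have h1 : (MulAut.conj l).toMonoidHom b = ⁅l, b⁆ * b := by
          simp [commutatorElement_def]
        rw [h1]
        have h2 : ⁅l, b⁆ ∈ π.ker := by
          have h3 := hBL (commutator_mem_commutator hb hl)
          rw [← commutatorElement_inv]
          exact inv_mem h3
        have h4 : ⁅l, b⁆ ∈ L := by
          rw [commutatorElement_def]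
          exact mul_mem (mul_mem (mul_mem hl (hAL hb.1)) (inv_mem hl)) (inv_mem (hAL hb.1))
        exact mul_mem (mem_sup_left ⟨h2, h4⟩) (mem_sup_right hb)
    have hBn : B ≤ normalizer ((π.ker ⊓ L : Subgroup M) : Set M) :=
      (inf_le_left.trans hAL).trans (le_normalizer_inf (by
        rw [normalizer_eq_top_iff.mpr hkN]; exact le_top) le_normalizer)
    have hPp : IsPGroup p ↥((π.ker ⊓ L) ⊔ B) :=
      LocBase.isPGroup_sup (isPGroup_mono hker inf_le_left) (isPGroup_mono hAp inf_le_left) hBn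
    exact le_sup_right.trans (le_pCoreOf (sup_le inf_le_right (inf_le_left.trans hAL)) hLP hPp)
  have hBidx : B.relIndex A = p := by
    rw [hB, inf_comm, inf_relIndex_right, relIndex_comap, hidx]
  have hBD : B ≤ A ⊓ pCoreOf p L := le_inf inf_le_left hBcore
  have hDidx : (A ⊓ pCoreOf p L).relIndex A = p := by
    have h1 : (A ⊓ pCoreOf p L).relIndex A ∣ p := by
      have h0 := relIndex_mul_relIndex _ _ _ hBD inf_le_left
      rw [hBidx] at h0
      exact Dvd.intro_left _ h0
    rcases (Nat.dvd_prime hp).mp h1 with h2 | h2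
    · exfalso
      have hAD : A ≤ pCoreOf p L := (relIndex_eq_one.mp h2).trans inf_le_right
      apply hne
      have h3 : ⁅U, A.map π⁆ ≤ U := commutator_le_left_of_le hAU
      have h4 : ⁅U, A.map π⁆ ≤ (pCoreOf p L).map π := by
        rw [← hres y hyU hyc, ← Subgroup.map_commutator]
        apply Subgroup.map_mono
        exact (commutator_mono (pRes_le p L) hAD).trans
          (LocBase.commutator_le_right_of_le (le_normalizer_pCoreOf p L))
      have h5 : U ⊓ (pCoreOf p L).map π = ⊥ := by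
        apply SubgroupTools.inf_eq_bot_of_coprime'
        obtain ⟨k, hk⟩ := IsPGroup.iff_card.mp ((isPGroup_pCoreOf p L).map π)
        rw [hk]
        exact hUp.pow_right k
      rw [eq_bot_iff, ← h5]
      exact le_inf h3 h4
    · exact h2
  have hBeq : B = A ⊓ pCoreOf p L := by
    apply Subgroup.eq_of_le_of_card_ge hBD
    have h1 := SubgroupTools.card_mul_relIndex_of_le (inf_le_left : B ≤ A)
    have h2 := SubgroupTools.card_mul_relIndex_of_le (inf_le_left : A ⊓ pCoreOf p L ≤ A)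
    rw [hBidx] at h1
    rw [hDidx] at h2
    exact (Nat.eq_of_mul_eq_mul_right hp.pos (h2.trans h1.symm)).le
  refine ⟨y, hyU, hy, hres y hyU hyc, ?_, hDidx, by rw [← hBeq]; exact hBL⟩
  · -- [R, A] = R
    have hRA : L ≤ pRes p L ⊔ A := by
      refine sup_le le_sup_right ?_
      rintro _ ⟨b, hb, rfl⟩
      exact mul_mem (mul_mem (mem_sup_left hy) (mem_sup_right hb)) (inv_mem (mem_sup_left hy))
    have hLN : L ≤ normalizer ((⁅pRes p L, A⁆ : Subgroup M) : Set M) := hRA.trans sup_le_normalizer_commutator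
    have hLNA : L ≤ ⁅pRes p L, A⁆ ⊔ A := by
      refine sup_le le_sup_right ?_
      rintro _ ⟨b, hb, rfl⟩
      have h1 : (MulAut.conj y).toMonoidHom b = ⁅y, b⁆ * b := by
        simp [commutatorElement_def]
      rw [h1]
      exact mul_mem (mem_sup_left (commutator_mem_commutator hy hb)) (mem_sup_right hb)
    apply le_antisymm (commutator_le_left_of_le (hAL.trans hLn))
    exact (LocBase.pRes_mono hLNA).trans (FrakH.pRes_sup_le hAp (hAL.trans hLN))

end Cfsg.Agent.Lib.H62TwoConj
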