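import Cfsg.Agent.Lib.H64LL
import Cfsg.Agent.Lib.Gaschutz
import Cfsg.Agent.S1004

/-! S3105, piece G (helper47): Gaschütz splitting. -/

set_option autoImplicit false

namespace Cfsg.Agent.Lib.H64L

open Subgroup Cfsg

universe u v

theorem closure_d4 : closure ({DihedralGroup.r 1, DihedralGroup.sr 0} : Set (DihedralGroup 4)) = ⊤ := by
  rw [eq_top_iff]
  have hr : ∀ i : ZMod 4, DihedralGroup.r i ∈ closure ({DihedralGroup.r 1, DihedralGroup.sr 0} : Set (DihedralGroup 4)) := by
    intro i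
    have h1 : (DihedralGroup.r i : DihedralGroup 4) = (DihedralGroup.r 1) ^ i.val := by
      rw [DihedralGroup.r_one_pow, ZMod.natCast_zmod_val]
    rw [h1]
    exact pow_mem (subset_closure (by simp)) _
  rintro (i | i) -
  · exact hr i
  · have h1 : (DihedralGroup.sr i : DihedralGroup 4) = DihedralGroup.sr 0 * DihedralGroup.r i := by
      rw [DihedralGroup.sr_mul_r, zero_add]
    rw [h1]
    exact mul_mem (subset_closure (by simp)) (hr i)

theorem IsL.exists_cs {L : Type v} [Group L] [Finite L] (hL : IsL L) : ∃ (T : Subgroup L) (c s : L),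
    closure {c, s} = T ∧ ¬ 2 ∣ T.index ∧ orderOf c = 4 ∧ orderOf s = 2 ∧ s * c * s⁻¹ = c⁻¹ ∧ orderOf (s * c) = 2 := by
  have := hL.simple
  have : Fact (Nat.Prime 2) := ⟨by norm_num⟩
  obtain ⟨T⟩ : Nonempty (Sylow 2 L) := inferInstance
  obtain ⟨⟨e⟩, -, -⟩ := S1004.result hL.card T
  let f : DihedralGroup 4 →* L := (T : Subgroup L).subtype.comp e.symm.toMonoidHom
  have hf : Function.Injective f := (Subtype.val_injective).comp e.symm.injective
  have ho : ∀ x, orderOf (f x) = orderOf x := fun x => orderOf_injective f hf x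
  refine ⟨T, f (DihedralGroup.r 1), f (DihedralGroup.sr 0), ?_, T.not_dvd_index, ?_, ?_, ?_, ?_⟩
  · have h1 : f.range = (T : Subgroup L) := by
      rw [MonoidHom.range_comp]
      have : e.symm.toMonoidHom.range = ⊤ := MonoidHom.range_eq_top.2 e.symm.surjective
      rw [this, ← MonoidHom.range_eq_map, Subgroup.range_subtype]
    rw [← h1, MonoidHom.range_eq_map, ← closure_d4, MonoidHom.map_closure]
    congr 1
    rw [Set.image_pair]
  · rw [ho, DihedralGroup.orderOf_r_one]
  · rw [ho, DihedralGroup.orderOf_sr]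
  · rw [← map_mul, ← map_inv, ← map_inv, ← map_mul]
    congr 1
  · rw [← map_mul, ho, DihedralGroup.sr_mul_r, DihedralGroup.orderOf_sr]

theorem split_two_aux {M : Type u} {L : Type v} [Group M] [Group L] [Finite M] (hL : IsL L) {π : M →* L}
    (hs : Function.Surjective π) (hc : Nat.card π.ker = 2) (h4 : ∀ g : M, orderOf (π g) = 4 → g ^ 4 = 1) :
    ∃ H : Subgroup M, H ⊓ π.ker = ⊥ ∧ H ⊔ π.ker = ⊤ := by
  haveI : Finite L := Finite.of_surjective π hs
  have hk2 : ∀ k ∈ π.ker, k ^ 2 = 1 := by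
    intro k hk
    have h1 : (⟨k, hk⟩ : π.ker) ^ Nat.card π.ker = 1 := pow_card_eq_one'
    rw [hc] at h1
    exact congrArg Subtype.val h1
  have hkk : ∀ k ∈ π.ker, ∀ l ∈ π.ker, k ≠ 1 → l ≠ 1 → k = l := by
    intro k hk l hl h1 h2
    by_contra hkl
    classical
    have h3 : ({⟨k, hk⟩, ⟨l, hl⟩, 1} : Finset π.ker).card = 3 := by
      apply Finset.card_eq_three.2
      refine ⟨_, _, _, ?_, ?_, ?_, rfl⟩
      · exact fun h => hkl (congrArg Subtype.val h)
      · exact fun h => h1 (congrArg Subtype.val h)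
      · exact fun h => h2 (congrArg Subtype.val h)
    haveI : Fintype π.ker := Fintype.ofFinite _
    have h4 := Finset.card_le_univ ({⟨k, hk⟩, ⟨l, hl⟩, 1} : Finset π.ker)
    rw [h3, ← Nat.card_eq_fintype_card, hc] at h4
    omega
  have hkc : ∀ k ∈ π.ker, ∀ g : M, g * k = k * g := by
    intro k hk g
    by_cases h1 : k = 1
    · rw [h1, mul_one, one_mul]
    · have h2 : g * k * g⁻¹ ∈ π.ker := (inferInstance : π.ker.Normal).conj_mem k hk g
      have h3 : g * k * g⁻¹ ≠ 1 := by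
        intro h
        apply h1
        have := congrArg (fun x => g⁻¹ * x * g) h
        simpa [mul_assoc] using this
      have h4 := hkk _ h2 k hk h3 h1
      rw [mul_inv_eq_iff_eq_mul] at h4
      exact h4
  have h2 : ∀ g : M, orderOf (π g) = 2 → g ^ 2 = 1 := by
    intro g hg
    obtain ⟨c, hc4, hcg⟩ := hL.sqrt_inv hg
    obtain ⟨a, rfl⟩ := hs c
    have h5 := h4 a hc4
    have hk : (a ^ 2)⁻¹ * g ∈ π.ker := by
      rw [MonoidHom.mem_ker, map_mul, map_inv, map_pow, hcg, inv_mul_cancel]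
    obtain ⟨k, hkd⟩ : ∃ k, k = (a ^ 2)⁻¹ * g := ⟨_, rfl⟩
    rw [← hkd] at hk
    have hg2 : g = a ^ 2 * k := by rw [hkd]; group
    have hcom : Commute (a ^ 2) k := hkc k hk _
    rw [hg2, hcom.mul_pow, hk2 k hk, mul_one, ← pow_mul, h5]
  obtain ⟨T, c, s, hT, hTi, hc4, hs2, hsc, hsc2⟩ := hL.exists_cs
  obtain ⟨a, ha⟩ := hs c
  obtain ⟨b, hb⟩ := hs s
  have ha4 : a ^ 4 = 1 := h4 a (by rw [ha, hc4])
  have hb2 : b ^ 2 = 1 := h2 b (by rw [hb, hs2])
  have hba2 : (b * a) ^ 2 = 1 := h2 (b * a) (by rw [map_mul, ha, hb, hsc2])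
  have hbi : b⁻¹ = b := by
    rw [inv_eq_iff_mul_eq_one, ← pow_two, hb2]
  have hbab : b * a * b⁻¹ = a⁻¹ := by
    rw [pow_two] at hba2
    have h5 : b * a * b = a⁻¹ := by
      rw [eq_inv_iff_mul_eq_one]
      rw [← hba2]; group
    rw [hbi, h5]
  have hbz : ∀ i : ℤ, a ^ i * b = b * a ^ (-i) := by
    intro i
    have h5 : b * a ^ (-i) * b⁻¹ = a ^ i := by
      have h6 : (b * a * b⁻¹) ^ (-i) = b * a ^ (-i) * b⁻¹ := by
        rw [conj_zpow]
      rw [← h6, hbab, inv_zpow', neg_neg]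
    rw [← h5]; group
  have hform : ∀ x ∈ closure ({a, b} : Set M), ∃ i : ℤ, x = a ^ i ∨ x = b * a ^ i := by
    intro x hx
    induction hx using Subgroup.closure_induction with
    | mem y hy =>
      rcases hy with rfl | hy
      · exact ⟨1, Or.inl (zpow_one _).symm⟩
      · rw [Set.mem_singleton_iff] at hy
        exact ⟨0, Or.inr (by rw [hy, zpow_zero, mul_one])⟩
    | one => exact ⟨0, Or.inl (zpow_zero _).symm⟩
    | mul y z _ _ hy hz =>
      obtain ⟨i, hi⟩ := hy
      obtain ⟨j, hj⟩ := hz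
      rcases hi with rfl | rfl <;> rcases hj with rfl | rfl
      · exact ⟨i + j, Or.inl (zpow_add _ _ _).symm⟩
      · refine ⟨-i + j, Or.inr ?_⟩
        rw [← mul_assoc, hbz, mul_assoc, ← zpow_add]
      · refine ⟨i + j, Or.inr ?_⟩
        rw [mul_assoc, ← zpow_add]
      · refine ⟨-i + j, Or.inl ?_⟩
        rw [mul_assoc, ← mul_assoc (a ^ i), hbz, mul_assoc, ← zpow_add, ← mul_assoc, ← pow_two, hb2, one_mul]
    | inv y _ hy =>
      obtain ⟨i, hi⟩ := hy
      rcases hi with rfl | rfl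
      · exact ⟨-i, Or.inl (zpow_neg _ _).symm⟩
      · refine ⟨i, Or.inr ?_⟩
        rw [mul_inv_rev, ← zpow_neg, hbi, hbz, neg_neg]
  have hAK : closure ({a, b} : Set M) ⊓ π.ker = ⊥ := by
    rw [eq_bot_iff]
    rintro x ⟨hx1, hx2⟩
    rw [Subgroup.mem_bot]
    have hx2 : π x = 1 := hx2
    obtain ⟨i, hi⟩ := hform x hx1
    rcases hi with rfl | rfl
    · rw [map_zpow, ha] at hx2
      have h5 : (orderOf c : ℤ) ∣ i := orderOf_dvd_iff_zpow_eq_one.2 hx2
      rw [hc4] at h5
      obtain ⟨j, rfl⟩ := h5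
      rw [zpow_mul]
      have : a ^ ((4 : ℕ) : ℤ) = 1 := by rw [zpow_natCast, ha4]
      rw [this, one_zpow]
    · exfalso
      rw [map_mul, map_zpow, ha, hb] at hx2
      have h5 : s = c ^ (-i) := by
        rw [zpow_neg, eq_inv_iff_mul_eq_one, hx2]
      have h6 : s * c * s⁻¹ = c := by
        rw [h5]; group
      rw [h6] at hsc
      have h7 : c ^ 2 = 1 := by
        rw [pow_two]
        nth_rewrite 1 [hsc]
        rw [inv_mul_cancel]
      have h8 := orderOf_dvd_of_pow_eq_one h7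
      rw [hc4] at h8
      omega
  have hmap : (closure ({a, b} : Set M)).map π = T := by
    rw [MonoidHom.map_closure, Set.image_pair, ha, hb, hT]
  have hU : π.ker ⊔ closure ({a, b} : Set M) = T.comap π := by
    rw [← hmap, Subgroup.comap_map_eq, sup_comm]
  have hcop : (Nat.card π.ker).Coprime (T.comap π).index := by
    rw [hc, Subgroup.index_comap_of_surjective _ hs]
    exact (Nat.Prime.coprime_iff_not_dvd Nat.prime_two).2 hTi
  haveI : IsMulCommutative π.ker := ⟨⟨fun x y => Subtype.ext (hkc y y.2 x)⟩⟩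
  obtain ⟨H, hH⟩ := Cfsg.Agent.Lib.Gaschutz.exists_complement π.ker (T.comap π) (by rw [← hU]; exact le_sup_left) hcop _ hAK hU
  refine ⟨H, ?_, ?_⟩
  · rw [inf_comm]; exact hH.disjoint.eq_bot
  · rw [sup_comm]; exact hH.sup_eq_top

variable {Y : Type u} {L : Type v} [Group Y] [Group L]

theorem split_two [Finite Y] (hL : IsL L) {π : Y →* L} (hs : Function.Surjective π) (hp : IsPGroup 2 π.ker)
    {R : Subgroup Y} (hR : R.Normal) (hRP : R ≤ π.ker) (hc : Nat.card π.ker = 2 * Nat.card R)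
    (h4 : ∀ g : Y, orderOf (π g) = 4 → g ^ 4 ∈ R) : ∃ Y1 : Subgroup Y, Y1 ⊓ π.ker = R ∧ Y1 ⊔ π.ker = ⊤ := by
  have hq : ∀ y : Y, QuotientGroup.lift R π hRP (QuotientGroup.mk' R y) = π y := fun y => rfl
  have hs' : Function.Surjective (QuotientGroup.lift R π hRP) := by
    intro l
    obtain ⟨y, hy⟩ := hs l
    exact ⟨QuotientGroup.mk' R y, hy⟩
  have hsm := QuotientGroup.mk'_surjective R
  have hkc : (QuotientGroup.lift R π hRP).ker.comap (QuotientGroup.mk' R) = π.ker := by
    ext y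
    rfl
  have hk : (QuotientGroup.lift R π hRP).ker = π.ker.map (QuotientGroup.mk' R) := by
    rw [← hkc, Subgroup.map_comap_eq_self_of_surjective hsm]
  have hcard : Nat.card (QuotientGroup.lift R π hRP).ker = 2 := by
    have h1 := Subgroup.card_mul_index (QuotientGroup.lift R π hRP).ker
    have h2 := Subgroup.card_mul_index π.ker
    have h3 : (QuotientGroup.lift R π hRP).ker.index = π.ker.index := by
      rw [← hkc, Subgroup.index_comap_of_surjective _ hsm]
    have h4 := Subgroup.card_eq_card_quotient_mul_card_subgroup R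
    rw [h3] at h1
    rw [hc, h4, ← h1] at h2
    have h5 : 0 < Nat.card R := Nat.card_pos
    have h6 : 0 < π.ker.index := Nat.pos_of_ne_zero Subgroup.index_ne_zero_of_finite
    have h7 : (Nat.card R * π.ker.index) * 2 = (Nat.card R * π.ker.index) * Nat.card (QuotientGroup.lift R π hRP).ker := by
      calc _ = 2 * Nat.card R * π.ker.index := by ring
        _ = _ := h2
        _ = _ := by ring
    exact (Nat.eq_of_mul_eq_mul_left (Nat.mul_pos h5 h6) h7).symm
  obtain ⟨H, hH1, hH2⟩ := split_two_aux hL hs' hcard (by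
    intro g hg
    obtain ⟨y, rfl⟩ := hsm g
    rw [hq] at hg
    rw [← map_pow]
    exact (QuotientGroup.eq_one_iff _).2 (h4 y hg))
  refine ⟨H.comap (QuotientGroup.mk' R), ?_, ?_⟩
  · rw [← hkc, ← Subgroup.comap_inf, hH1]
    exact QuotientGroup.ker_mk' R
  · have h1 : (H ⊔ (QuotientGroup.lift R π hRP).ker).comap (QuotientGroup.mk' R) = ⊤ := by rw [hH2, Subgroup.comap_top]
    rw [← h1, ← Subgroup.comap_sup_eq _ _ _ hsm, hkc]

end Cfsg.Agent.Lib.H64L
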