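import Cfsg.Agent.Lib.H64LN

/-! S3105, piece N2: linear algebra over the field with 2 elements in dimension 3 (helper31). -/

set_option autoImplicit false
set_option linter.all false

namespace Cfsg.Agent.Lib.H64L

open Subgroup Cfsg Cfsg.Agent.Lib.SectRank Cfsg.Agent.Lib.H50Five

universe u v
variable {Y : Type u} {L : Type v} [Group Y] [Group L]

/-- an automorphism of order 4 of an elementary abelian group of order 8 is a full Jordan block. -/
theorem n2_abs {V : Type*} [CommGroup V] [Finite V] (hc : Nat.card V = 8) (hsq : ∀ v : V, v ^ 2 = 1) (σ : V →* V)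
    (h4 : ∀ v, σ (σ (σ (σ v))) = v) (h2 : ∃ v, σ (σ v) ≠ v) (x : V) (hx : σ x = x) : ∃ y, σ (σ y) * y⁻¹ = x := by
  have hinv : ∀ v : V, v⁻¹ = v := fun v => by
    rw [inv_eq_iff_mul_eq_one, ← pow_two, hsq]
  let T : V →* V := σ * (MonoidHom.id V)⁻¹
  have hT : ∀ v, T v = σ v * v := fun v => by
    show σ v * v⁻¹ = _
    rw [hinv]
  have hTT : ∀ v, T (T v) = σ (σ v) * v := by
    intro v
    rw [hT, hT, map_mul]
    have : σ (σ v) * σ v * (σ v * v) = σ (σ v) * (σ v) ^ 2 * v := by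
      rw [pow_two]; group
    rw [this, hsq, mul_one]
  have hT4 : ∀ v, T (T (T (T v))) = 1 := by
    intro v
    rw [hTT, hTT, map_mul, map_mul, h4]
    have : v * σ (σ v) * (σ (σ v) * v) = v * (σ (σ v)) ^ 2 * v := by rw [pow_two]; group
    rw [this, hsq, mul_one, ← pow_two, hsq]
  have hTT1 : ∃ v, T (T v) ≠ 1 := by
    obtain ⟨v, hv⟩ := h2
    refine ⟨v, fun h => hv ?_⟩
    rw [hTT, mul_eq_one_iff_eq_inv, hinv] at h
    exact h
  let R1 : Subgroup V := T.range
  let R2 : Subgroup V := (T.comp T).range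
  have h21 : R2 ≤ R1 := by
    rintro _ ⟨y, rfl⟩
    exact ⟨T y, rfl⟩
  have hcard1 : Nat.card T.ker * Nat.card R1 = 8 := by
    rw [← hc, ← Subgroup.index_ker]
    rw [Subgroup.card_mul_index]
  have hR1 : R1 ≠ ⊤ := by
    intro h
    obtain ⟨v, hv⟩ := hTT1
    have hs : Function.Surjective T := MonoidHom.range_eq_top.mp h
    obtain ⟨w, hw⟩ := hs v
    obtain ⟨w', hw'⟩ := hs w
    apply hv
    rw [← hw, ← hw']
    exact hT4 w'
  have hR2 : R2 ≠ R1 := by
    intro h
    obtain ⟨v, hv⟩ := hTT1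
    have h1 : ∀ w, ∃ w', T w = T (T w') := by
      intro w
      have : T w ∈ R2 := by rw [h]; exact ⟨w, rfl⟩
      obtain ⟨w', hw'⟩ := this
      exact ⟨w', hw'.symm⟩
    obtain ⟨w1, hw1⟩ := h1 v
    obtain ⟨w2, hw2⟩ := h1 w1
    apply hv
    rw [hw1, hw2]
    exact hT4 w2
  have hR2' : R2 ≠ ⊥ := by
    intro h
    obtain ⟨v, hv⟩ := hTT1
    apply hv
    have : T (T v) ∈ R2 := ⟨v, rfl⟩
    rw [h] at this
    exact this
  have hd1 : Nat.card R1 ∣ 8 := by rw [← hc]; exact Subgroup.card_subgroup_dvd_card R1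
  have hd2 : Nat.card R2 ∣ Nat.card R1 := Subgroup.card_dvd_of_le h21
  have hn1 : Nat.card R1 ≠ 8 := fun h => hR1 (Subgroup.eq_top_of_card_eq R1 (by rw [h, hc]))
  have hn2 : Nat.card R2 ≠ Nat.card R1 := fun h => hR2 (Subgroup.eq_of_le_of_card_ge h21 (by rw [h]))
  have hn3 : Nat.card R2 ≠ 1 := fun h => hR2' (Subgroup.eq_bot_of_card_eq R2 h)
  have hd2' : Nat.card R2 ∣ 8 := hd2.trans hd1
  have key : Nat.card R1 = 4 ∧ Nat.card R2 = 2 := by
    have h8 : (8 : ℕ) = 2 ^ 3 := by norm_num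
    rw [h8] at hd1 hd2'
    obtain ⟨i, hi, hi'⟩ := (Nat.dvd_prime_pow Nat.prime_two).mp hd1
    obtain ⟨j, hj, hj'⟩ := (Nat.dvd_prime_pow Nat.prime_two).mp hd2'
    rw [hi'] at hn1 hn2 hd2 ⊢
    rw [hj'] at hn2 hn3 hd2 ⊢
    have hij : j ≤ i := (Nat.pow_dvd_pow_iff_le_right (by norm_num)).mp hd2
    interval_cases i <;> interval_cases j <;> simp_all
  have hker : Nat.card T.ker = 2 := by
    rw [key.1] at hcard1
    omega
  have hle : R2 ≤ T.ker := by
    -- `T R2 < R2`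
    let R3 : Subgroup V := R2.map T
    have h32 : R3 ≤ R2 := by
      rintro _ ⟨_, ⟨y, rfl⟩, rfl⟩
      exact ⟨T y, rfl⟩
    have hd3 : Nat.card R3 ∣ 2 := by rw [← key.2]; exact Subgroup.card_dvd_of_le h32
    rcases (Nat.dvd_prime Nat.prime_two).mp hd3 with h | h
    · have := Subgroup.eq_bot_of_card_eq R3 h
      intro y hy
      have : T y ∈ R3 := ⟨y, hy, rfl⟩
      rw [Subgroup.eq_bot_of_card_eq R3 h] at this
      exact this
    · exfalso
      have h3 : R3 = R2 := Subgroup.eq_of_le_of_card_ge h32 (by rw [h, key.2])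
      obtain ⟨v, hv⟩ := hTT1
      have h1 : ∀ y ∈ R2, ∃ z ∈ R2, T z = y := by
        intro y hy
        rw [← h3] at hy
        obtain ⟨z, hz, hz'⟩ := hy
        exact ⟨z, hz, hz'⟩
      obtain ⟨z, ⟨w, hw⟩, hz'⟩ := h1 (T (T v)) ⟨v, rfl⟩
      obtain ⟨z1, ⟨w1, hw1⟩, hz1'⟩ := h1 z ⟨w, hw⟩
      apply hv
      rw [← hz', ← hz1', ← hw1]
      exact hT4 w1
  have heq : R2 = T.ker := Subgroup.eq_of_le_of_card_ge hle (by rw [hker, key.2])
  have hxk : x ∈ T.ker := by
    show T x = 1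
    rw [hT, hx, ← pow_two, hsq]
  rw [← heq] at hxk
  obtain ⟨y, hy⟩ := hxk
  refine ⟨y, ?_⟩
  rw [hinv, ← hTT]
  exact hy

section four

variable [Finite Y] {π : Y →* L} {K W : Subgroup Y}

theorem n2_mk_conj (nK : K.Normal) (g x : Y) :
    g * x * g⁻¹ * x⁻¹ ∈ K ↔ (QuotientGroup.mk' K g) * (QuotientGroup.mk' K x) * (QuotientGroup.mk' K g)⁻¹ =
      QuotientGroup.mk' K x := by
  have hq : ∀ a : Y, a ∈ K ↔ QuotientGroup.mk' K a = 1 := fun a => by
    rw [← MonoidHom.mem_ker, QuotientGroup.ker_mk']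
  rw [hq, map_mul, map_mul, map_mul, map_inv, map_inv, mul_inv_eq_one]

theorem Nat8.card_map (N : Nat8 π K W) [K.Normal] : Nat.card (W.map (QuotientGroup.mk' K)) = 8 := by
  have h1 := Subgroup.card_mul_index (K.subgroupOf W)
  have h2 : Nat.card (K.subgroupOf W) = Nat.card K := Nat.card_congr (Subgroup.subgroupOfEquivOfLe N.le).toEquiv
  have h3 : (K.subgroupOf W).index = Nat.card (W.map (QuotientGroup.mk' K)) := by
    have : K.subgroupOf W = ((QuotientGroup.mk' K).comp W.subtype).ker := by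
      ext x
      simp [Subgroup.mem_subgroupOf, MonoidHom.mem_ker]
    rw [this, Subgroup.index_ker]
    congr 1
    rw [MonoidHom.range_comp, Subgroup.range_subtype]
  rw [h2, h3, N.card] at h1
  have hK : 0 < Nat.card K := Nat.card_pos
  have : Nat.card K * Nat.card (W.map (QuotientGroup.mk' K)) = Nat.card K * 8 := by rw [h1]; ring
  exact Nat.eq_of_mul_eq_mul_left hK this

theorem Nat8.four (hL : IsL L) (hs : Function.Surjective π)
    (N : Nat8 π K W) {g x : Y} (hg : orderOf (π g) = 4) (hx : x ∈ W) (h : g * x * g⁻¹ * x⁻¹ ∈ K) :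
    ∃ y ∈ W, x * (g ^ 2 * y * (g ^ 2)⁻¹ * y⁻¹)⁻¹ ∈ K := by
  have nK := N.nK
  have nW := N.nW
  let q := QuotientGroup.mk' K
  let V : Subgroup (Y ⧸ K) := W.map q
  have nV : V.Normal := nW.map q (QuotientGroup.mk'_surjective K)
  have hq : ∀ a : Y, q a = 1 ↔ a ∈ K := fun a => by
    rw [← MonoidHom.mem_ker, QuotientGroup.ker_mk']
  have hsq : ∀ v : V, v ^ 2 = 1 := by
    rintro ⟨_, ⟨w, hw, rfl⟩⟩
    apply Subtype.ext
    show (q w) ^ 2 = 1
    rw [← map_pow, hq]
    exact N.sq w hw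
  have hcomm : ∀ a b : V, a * b = b * a := by
    intro a b
    have h1 := hsq (a * b)
    have ha := hsq a
    have hb := hsq b
    rw [pow_two] at h1 ha hb
    calc a * b = (a * b)⁻¹ := by rw [eq_inv_iff_mul_eq_one]; exact h1
      _ = b⁻¹ * a⁻¹ := mul_inv_rev a b
      _ = b * a := by rw [inv_eq_of_mul_eq_one_right hb, inv_eq_of_mul_eq_one_right ha]
  let _ : CommGroup V := { (inferInstance : Group V) with mul_comm := hcomm }
  let σ : V →* V := (MulAut.conjNormal (q g) : MulAut V).toMonoidHom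
  have hσ : ∀ w : V, ((σ w : V) : Y ⧸ K) = q g * w * (q g)⁻¹ := fun w => MulAut.conjNormal_apply (q g) w
  have hσ2 : ∀ w : V, ((σ (σ w) : V) : Y ⧸ K) = q (g ^ 2) * w * (q (g ^ 2))⁻¹ := fun w => by
    rw [hσ, hσ, map_pow, pow_two]; group
  have hσ4 : ∀ w : V, ((σ (σ (σ (σ w))) : V) : Y ⧸ K) = q (g ^ 4) * w * (q (g ^ 4))⁻¹ := fun w => by
    rw [hσ2, hσ2]
    have : g ^ 4 = g ^ 2 * g ^ 2 := by rw [← pow_add]
    rw [this, map_mul]; group
  have h4k : g ^ 4 ∈ π.ker := by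
    rw [MonoidHom.mem_ker, map_pow, ← hg, pow_orderOf_eq_one]
  have h2k : g ^ 2 ∉ π.ker := by
    rw [MonoidHom.mem_ker, map_pow]
    intro h2
    have := orderOf_dvd_of_pow_eq_one h2
    rw [hg] at this
    norm_num at this
  obtain ⟨y, hy⟩ := n2_abs (V := V) N.card_map hsq σ (by
      rintro ⟨_, ⟨w, hw, rfl⟩⟩
      apply Subtype.ext
      rw [hσ4]
      exact (n2_mk_conj nK (g ^ 4) w).mp (N.triv _ h4k w hw)) (by
      by_contra hcon
      push Not at hcon
      apply h2k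
      apply N.faithful hL hs
      intro w hw
      rw [n2_mk_conj nK]
      have := congrArg Subtype.val (hcon ⟨q w, ⟨w, hw, rfl⟩⟩)
      rw [hσ2] at this
      exact this) ⟨q x, ⟨x, hx, rfl⟩⟩ (by
      apply Subtype.ext
      rw [hσ]
      exact (n2_mk_conj nK g x).mp h)
  obtain ⟨_, ⟨y, hyW, rfl⟩⟩ := y
  refine ⟨y, hyW, ?_⟩
  have h5 : ((σ (σ ⟨q y, ⟨y, hyW, rfl⟩⟩) : V) : Y ⧸ K) * (q y)⁻¹ = q x := congrArg Subtype.val hy
  rw [hσ2] at h5
  have h6 : q (g ^ 2) * q y * (q (g ^ 2))⁻¹ * (q y)⁻¹ = q x := h5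
  rw [← hq, map_mul, map_inv, map_mul, map_mul, map_mul, map_inv, map_inv, h6, mul_inv_cancel]

end four

section klein

theorem n2_span {V : Type*} [CommGroup V] [Finite V] (hc : Nat.card V = 8) (hsq : ∀ v : V, v ^ 2 = 1) {a b c : V}
    (h1 : a ≠ 1) (h2 : b ≠ 1) (h3 : c ≠ 1) (h4 : a * b ≠ 1) (h5 : a * c ≠ 1) (h6 : b * c ≠ 1) (h7 : a * b * c ≠ 1)
    (x : V) : ∃ i j k : ℕ, x = a ^ i * b ^ j * c ^ k := by
  have hpow : ∀ (x : V) (s t : ZMod 2), x ^ (s + t).val = x ^ s.val * x ^ t.val := by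
    intro x s t
    rw [ZMod.val_add, ← pow_add]
    exact (pow_eq_pow_mod _ (hsq x)).symm
  have hac : ∀ p q r s t w : V, p * q * (r * s) * (t * w) = p * r * t * (q * s * w) := by
    intro p q r s t w
    rw [mul_mul_mul_comm p q r s, mul_mul_mul_comm]
  let φ : Multiplicative (ZMod 2 × ZMod 2 × ZMod 2) →* V := MonoidHom.mk'
    (fun t => a ^ (Multiplicative.toAdd t).1.val * b ^ (Multiplicative.toAdd t).2.1.val *
      c ^ (Multiplicative.toAdd t).2.2.val) (by
      intro s t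
      show a ^ ((Multiplicative.toAdd s).1 + (Multiplicative.toAdd t).1).val *
        b ^ ((Multiplicative.toAdd s).2.1 + (Multiplicative.toAdd t).2.1).val *
        c ^ ((Multiplicative.toAdd s).2.2 + (Multiplicative.toAdd t).2.2).val = _
      rw [hpow, hpow, hpow]
      exact hac _ _ _ _ _ _)
  have hinj : Function.Injective φ := by
    rw [injective_iff_map_eq_one]
    intro t ht
    have h0 : ∀ t : ZMod 2 × ZMod 2 × ZMod 2, a ^ t.1.val * b ^ t.2.1.val * c ^ t.2.2.val = 1 → t = 0 := by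
      rintro ⟨i, j, k⟩ h
      have h01 : ∀ i : ZMod 2, i = 0 ∨ i = 1 := by decide
      have hi := h01 i
      have hj := h01 j
      have hk := h01 k
      have hv1 : (1 : ZMod 2).val = 1 := rfl
      have hv0 : (0 : ZMod 2).val = 0 := rfl
      rcases hi with rfl | rfl <;> rcases hj with rfl | rfl <;> rcases hk with rfl | rfl <;>
        simp only [hv1, hv0, pow_zero, pow_one, one_mul, mul_one] at h
      · rfl
      · exact absurd h h3
      · exact absurd h h2
      · exact absurd h h6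
      · exact absurd h h1
      · exact absurd h h5
      · exact absurd h h4
      · exact absurd h h7
    exact h0 _ ht
  have hcd : Nat.card (Multiplicative (ZMod 2 × ZMod 2 × ZMod 2)) = 8 := by
    show Nat.card (ZMod 2 × ZMod 2 × ZMod 2) = 8
    rw [Nat.card_prod, Nat.card_prod, Nat.card_zmod]
  have hb : Function.Bijective φ := by
    rw [Nat.bijective_iff_injective_and_card]
    exact ⟨hinj, by rw [hcd, hc]⟩
  obtain ⟨t, ht⟩ := hb.2 x
  exact ⟨_, _, _, ht.symm⟩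

/-- the subgroup `{1, x, y, xy}`. -/
theorem n2_four_group {L : Type*} [Group L] {x y : L} (hx : x ^ 2 = 1) (hy : y ^ 2 = 1) (hxy : x * y = y * x) (hx1 : x ≠ 1)
    (hy1 : y ≠ 1) (hne : x ≠ y) : ∃ A : Subgroup L, Nat.card A = 4 ∧ (∀ a ∈ A, a ^ 2 = 1) ∧
      ∀ a ∈ A, a = 1 ∨ a = x ∨ a = y ∨ a = x * y := by
  have hx' : x * x = 1 := by rw [← pow_two, hx]
  have hy' : y * y = 1 := by rw [← pow_two, hy]
  have hxi : x⁻¹ = x := inv_eq_of_mul_eq_one_right hx'
  have hyi : y⁻¹ = y := inv_eq_of_mul_eq_one_right hy'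
  have e1 : x * (x * y) = y := by rw [← mul_assoc, hx', one_mul]
  have e2 : y * (x * y) = x := by rw [hxy, ← mul_assoc, hy', one_mul]
  have e3 : x * y * x = y := by rw [hxy, mul_assoc, hx', mul_one]
  have e4 : x * y * y = x := by rw [mul_assoc, hy', mul_one]
  have e5 : x * y * (x * y) = 1 := by rw [← mul_assoc, e3, hy']
  let A : Subgroup L :=
    { carrier := {1, x, y, x * y}
      mul_mem' := by
        intro a b ha hb
        simp only [Set.mem_insert_iff, Set.mem_singleton_iff] at ha hb ⊢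
        rcases ha with rfl | rfl | rfl | rfl <;> rcases hb with rfl | rfl | rfl | rfl <;>
          simp [hx', hy', e1, e2, e3, e4, e5, ← hxy]
      one_mem' := by simp
      inv_mem' := by
        intro a ha
        simp only [Set.mem_insert_iff, Set.mem_singleton_iff] at ha ⊢
        rcases ha with rfl | rfl | rfl | rfl
        · simp
        · simp [hxi]
        · simp [hyi]
        · right; right; right; rw [mul_inv_rev, hxi, hyi, hxy] }
  have hmem : ∀ a ∈ A, a = 1 ∨ a = x ∨ a = y ∨ a = x * y := fun a ha => ha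
  refine ⟨A, ?_, ?_, hmem⟩
  · have h1 : (1 : L) ∉ ({x, y, x * y} : Set L) := by
      simp only [Set.mem_insert_iff, Set.mem_singleton_iff]
      rintro (h | h | h)
      · exact hx1 h.symm
      · exact hy1 h.symm
      · apply hne
        rw [← hyi, ← mul_eq_one_iff_eq_inv]
        exact h.symm
    have h2 : x ∉ ({y, x * y} : Set L) := by
      simp only [Set.mem_insert_iff, Set.mem_singleton_iff]
      rintro (h | h)
      · exact hne h
      · exact hy1 (left_eq_mul.mp h)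
    have h3 : y ∉ ({x * y} : Set L) := by
      simp only [Set.mem_singleton_iff]
      intro h
      exact hx1 (right_eq_mul.mp h)
    show Nat.card ({1, x, y, x * y} : Set L) = 4
    rw [Nat.card_coe_set_eq, Set.ncard_insert_of_notMem h1, Set.ncard_insert_of_notMem h2, Set.ncard_insert_of_notMem h3,
      Set.ncard_singleton]
  · intro a ha
    rcases hmem a ha with rfl | rfl | rfl | rfl
    · simp
    · exact hx
    · exact hy
    · rw [pow_two]; exact e5

theorem Nat8.klein [Finite Y] (hL : IsL L) {π : Y →* L} (hs : Function.Surjective π) {K W : Subgroup Y}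
    (N : Nat8 π K W) : ∃ A : Subgroup L, Nat.card A = 4 ∧ (∀ a ∈ A, a ^ 2 = 1) ∧ ∃ v ∈ W, v ∉ K ∧
      (∀ g : Y, π g ∈ A → ∀ x ∈ W, g * x * g⁻¹ * x⁻¹ ∈ K ∨ g * x * g⁻¹ * x⁻¹ * v⁻¹ ∈ K) ∧
      (∀ c : Y, orderOf (π c) = 4 → π c ^ 2 ∈ A → ∀ x ∈ W, c * x * c⁻¹ * x⁻¹ ∈ K → x ∈ K ∨ x * v⁻¹ ∈ K) := by
  have nK := N.nK
  have nW := N.nW
  let q := QuotientGroup.mk' K
  let V : Subgroup (Y ⧸ K) := W.map q
  have nV : V.Normal := nW.map q (QuotientGroup.mk'_surjective K)
  have hq : ∀ a : Y, q a = 1 ↔ a ∈ K := fun a => by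
    rw [← MonoidHom.mem_ker, QuotientGroup.ker_mk']
  have hqe : ∀ a b : Y, a * b⁻¹ ∈ K ↔ q a = q b := fun a b => by
    rw [← hq, map_mul, map_inv, mul_inv_eq_one]
  have hsq : ∀ v : V, v ^ 2 = 1 := by
    rintro ⟨_, ⟨w, hw, rfl⟩⟩
    apply Subtype.ext
    show (q w) ^ 2 = 1
    rw [← map_pow, hq]
    exact N.sq w hw
  have hcomm : ∀ a b : V, a * b = b * a := by
    intro a b
    have h1 := hsq (a * b)
    have ha := hsq a
    have hb := hsq b
    rw [pow_two] at h1 ha hb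
    calc a * b = (a * b)⁻¹ := by rw [eq_inv_iff_mul_eq_one]; exact h1
      _ = b⁻¹ * a⁻¹ := mul_inv_rev a b
      _ = b * a := by rw [inv_eq_of_mul_eq_one_right hb, inv_eq_of_mul_eq_one_right ha]
  let _ : CommGroup V := { (inferInstance : Group V) with mul_comm := hcomm }
  -- a basis `v, p, r`
  obtain ⟨v0, hv0W, hv0K⟩ : ∃ v ∈ W, v ∉ K := by
    obtain ⟨g, x, hx, h⟩ := N.nt
    refine ⟨x, hx, fun hxK => h ?_⟩
    have := nK.conj_mem x hxK g
    exact K.mul_mem this (K.inv_mem hxK)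
  obtain ⟨p, hp, r, hr, hI⟩ := N.exists_ind hv0W hv0K
  obtain ⟨i1, i2, i3, i4, i5, i6, i7⟩ := hI
  have hne : ∀ a : Y, a ∉ K → q a ≠ 1 := fun a h h' => h ((hq a).mp h')
  have hVc : ∀ a ∈ W, ∀ b ∈ W, q a * q b = q b * q a := fun a ha b hb =>
    congrArg Subtype.val (hcomm ⟨q a, ⟨a, ha, rfl⟩⟩ ⟨q b, ⟨b, hb, rfl⟩⟩)
  have hVs : ∀ a ∈ W, q a * q a = 1 := fun a ha => by
    rw [← map_mul, hq, ← pow_two]; exact N.sq a ha
  have hspan : ∀ x ∈ W, ∃ i j k : ℕ, q x = q v0 ^ i * q p ^ j * q r ^ k := by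
    intro x hx
    obtain ⟨i, j, k, h⟩ := n2_span (V := V) N.card_map hsq (a := ⟨q v0, ⟨v0, hv0W, rfl⟩⟩) (b := ⟨q p, ⟨p, hp, rfl⟩⟩)
      (c := ⟨q r, ⟨r, hr, rfl⟩⟩)
      (fun h => hne _ i1 (congrArg Subtype.val h))
      (fun h => hne _ i2 (congrArg Subtype.val h))
      (fun h => hne _ i3 (congrArg Subtype.val h))
      (fun h => hne _ i4 (by rw [map_mul]; exact congrArg Subtype.val h))
      (fun h => hne _ i5 (by rw [map_mul]; exact congrArg Subtype.val h))
      (fun h => hne _ i6 (by rw [map_mul]; exact congrArg Subtype.val h))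
      (fun h => hne _ i7 (by rw [map_mul, map_mul]; exact congrArg Subtype.val h)) ⟨q x, ⟨x, hx, rfl⟩⟩
    exact ⟨i, j, k, congrArg Subtype.val h⟩
  -- two transvections
  have hInd1 : Ind K v0 p r := ⟨i1, i2, i3, i4, i5, i6, i7⟩
  have qne : ∀ a : Y, q a ≠ 1 → a ∉ K := fun a h h' => h ((hq a).mpr h')
  have hInd2 : Ind K v0 p (r * v0) := by
    refine ⟨i1, i2, ?_, i4, ?_, ?_, ?_⟩
    · apply qne
      rw [map_mul, hVc r hr v0 hv0W, ← map_mul]
      exact hne _ i5
    · apply qne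
      rw [map_mul, map_mul, hVc r hr v0 hv0W, ← mul_assoc, hVs v0 hv0W, one_mul]
      exact hne _ i3
    · apply qne
      rw [map_mul, map_mul, hVc r hr v0 hv0W, ← mul_assoc, hVc p hp v0 hv0W, ← map_mul, ← map_mul]
      exact hne _ i7
    · apply qne
      rw [map_mul, map_mul, map_mul, hVc r hr v0 hv0W, ← mul_assoc, hVc v0 hv0W p hp, mul_assoc (q p), hVs v0 hv0W,
        mul_one, ← map_mul]
      exact hne _ i6
  have hInd3 : Ind K v0 (p * v0) r := by
    refine ⟨i1, ?_, i3, ?_, i5, ?_, ?_⟩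
    · apply qne
      rw [map_mul, hVc p hp v0 hv0W, ← map_mul]
      exact hne _ i4
    · apply qne
      rw [map_mul, map_mul, hVc p hp v0 hv0W, ← mul_assoc, hVs v0 hv0W, one_mul]
      exact hne _ i2
    · apply qne
      rw [map_mul, map_mul, hVc p hp v0 hv0W, ← map_mul, ← map_mul]
      exact hne _ i7
    · apply qne
      rw [map_mul, map_mul, map_mul, hVc p hp v0 hv0W, ← mul_assoc, hVs v0 hv0W, one_mul, ← map_mul]
      exact hne _ i6
  obtain ⟨a, ha1, ha2, ha3⟩ := N.trans hL hs hv0W hp hr hv0W hp (W.mul_mem hr hv0W) hInd1 hInd2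
  obtain ⟨b, hb1, hb2, hb3⟩ := N.trans hL hs hv0W hp hr hv0W (W.mul_mem hp hv0W) hr hInd1 hInd3
  rw [hqe, map_mul, map_mul, map_inv] at ha1 ha2 ha3 hb1 hb2 hb3
  rw [map_mul q r v0] at ha3
  rw [map_mul q p v0] at hb2
  have huu := hVs v0 hv0W
  have hext : ∀ f g : (Y ⧸ K) →* (Y ⧸ K), f (q v0) = g (q v0) → f (q p) = g (q p) → f (q r) = g (q r) →
      ∀ x ∈ W, f (q x) = g (q x) := by
    intro f g e1 e2 e3 x hx
    obtain ⟨i, j, k, h⟩ := hspan x hx
    rw [h, map_mul, map_mul, map_pow, map_pow, map_pow, map_mul, map_mul, map_pow, map_pow, map_pow, e1, e2, e3]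
  have hfaith : ∀ g : Y, q g * q v0 * (q g)⁻¹ = q v0 → q g * q p * (q g)⁻¹ = q p → q g * q r * (q g)⁻¹ = q r →
      π g = 1 := by
    intro g e1 e2 e3
    have := N.faithful hL hs (g := g) (by
      intro x hx
      rw [hqe, map_mul, map_mul, map_inv]
      exact hext (MulAut.conj (q g)).toMonoidHom (MonoidHom.id _) e1 e2 e3 x hx)
    exact this
  have hu2 : ∀ n : ℕ, q v0 ^ n = 1 ∨ q v0 ^ n = q v0 := by
    intro n
    rcases Nat.even_or_odd' n with ⟨m, rfl | rfl⟩
    · left; rw [pow_mul, pow_two, huu, one_pow]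
    · right; rw [pow_succ, pow_mul, pow_two, huu, one_pow, one_mul]
  let P : Y → Prop := fun g => q g * q v0 * (q g)⁻¹ = q v0 ∧ ∀ x ∈ W, ∃ n : ℕ, q g * q x * (q g)⁻¹ = q x * q v0 ^ n
  have hPa : P a := by
    refine ⟨ha1, fun x hx => ?_⟩
    obtain ⟨i, j, k, h⟩ := hspan x hx
    refine ⟨k, ?_⟩
    have h1 : q a * q x * (q a)⁻¹ = q v0 ^ i * q p ^ j * (q r * q v0) ^ k := by
      have e : MulAut.conj (q a) (q x) = MulAut.conj (q a) (q v0) ^ i * MulAut.conj (q a) (q p) ^ j *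
          MulAut.conj (q a) (q r) ^ k := by
        rw [h, map_mul, map_mul, map_pow, map_pow, map_pow]
      rw [MulAut.conj_apply, MulAut.conj_apply, MulAut.conj_apply, MulAut.conj_apply, ha1, ha2, ha3] at e
      exact e
    have hc : Commute (q r) (q v0) := hVc r hr v0 hv0W
    rw [h1, hc.mul_pow, h, ← mul_assoc]
  have hPb : P b := by
    refine ⟨hb1, fun x hx => ?_⟩
    obtain ⟨i, j, k, h⟩ := hspan x hx
    refine ⟨j, ?_⟩
    have h1 : q b * q x * (q b)⁻¹ = q v0 ^ i * (q p * q v0) ^ j * q r ^ k := by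
      have e : MulAut.conj (q b) (q x) = MulAut.conj (q b) (q v0) ^ i * MulAut.conj (q b) (q p) ^ j *
          MulAut.conj (q b) (q r) ^ k := by
        rw [h, map_mul, map_mul, map_pow, map_pow, map_pow]
      rw [MulAut.conj_apply, MulAut.conj_apply, MulAut.conj_apply, MulAut.conj_apply, hb1, hb2, hb3] at e
      exact e
    have hc : Commute (q p) (q v0) := hVc p hp v0 hv0W
    have hc2 : Commute (q r) (q v0) := hVc r hr v0 hv0W
    rw [h1, hc.mul_pow, h, mul_assoc (q v0 ^ i), mul_assoc (q p ^ j), ← (hc2.pow_pow k j).eq]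
    group
  have hPmul : ∀ g h : Y, P g → P h → P (g * h) := by
    intro g h hg hh
    constructor
    · rw [map_mul]
      calc q g * q h * q v0 * (q g * q h)⁻¹ = q g * (q h * q v0 * (q h)⁻¹) * (q g)⁻¹ := by group
        _ = q v0 := by rw [hh.1, hg.1]
    · intro x hx
      obtain ⟨n, hn⟩ := hh.2 x hx
      obtain ⟨m, hm⟩ := hg.2 x hx
      refine ⟨m + n, ?_⟩
      rw [map_mul]
      calc q g * q h * q x * (q g * q h)⁻¹ = q g * (q h * q x * (q h)⁻¹) * (q g)⁻¹ := by group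
        _ = (q g * q x * (q g)⁻¹) * (q g * q v0 ^ n * (q g)⁻¹) := by rw [hn]; group
        _ = (q g * q x * (q g)⁻¹) * (q g * q v0 * (q g)⁻¹) ^ n := by rw [conj_pow]
        _ = q x * q v0 ^ (m + n) := by rw [hg.1, hm, pow_add, mul_assoc]
  have hPk : ∀ g ∈ π.ker, P g := by
    intro g hg
    have h1 : ∀ x ∈ W, q g * q x * (q g)⁻¹ = q x := by
      intro x hx
      have := N.triv g hg x hx
      rw [hqe, map_mul, map_mul, map_inv] at this
      exact this
    refine ⟨h1 v0 hv0W, fun x hx => ⟨0, ?_⟩⟩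
    rw [h1 x hx, pow_zero, mul_one]
  -- relations
  have ra : π a ^ 2 = 1 := by
    rw [← map_pow]
    have e : ∀ x y z : Y, q a * q x * (q a)⁻¹ = q y → q a * q y * (q a)⁻¹ = q z →
        q (a ^ 2) * q x * (q (a ^ 2))⁻¹ = q z := by
      intro x y z h1 h2
      rw [pow_two, map_mul, ← h2, ← h1]; group
    apply hfaith
    · exact e v0 v0 v0 ha1 ha1
    · exact e p p p ha2 ha2
    · refine e r (r * v0) r (by rw [ha3, map_mul]) ?_
      rw [map_mul]
      calc q a * (q r * q v0) * (q a)⁻¹ = (q a * q r * (q a)⁻¹) * (q a * q v0 * (q a)⁻¹) := by group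
        _ = q r := by rw [ha3, ha1, mul_assoc, huu, mul_one]
  have rb : π b ^ 2 = 1 := by
    rw [← map_pow]
    have e : ∀ x y z : Y, q b * q x * (q b)⁻¹ = q y → q b * q y * (q b)⁻¹ = q z →
        q (b ^ 2) * q x * (q (b ^ 2))⁻¹ = q z := by
      intro x y z h1 h2
      rw [pow_two, map_mul, ← h2, ← h1]; group
    apply hfaith
    · exact e v0 v0 v0 hb1 hb1
    · refine e p (p * v0) p (by rw [hb2, map_mul]) ?_
      rw [map_mul]
      calc q b * (q p * q v0) * (q b)⁻¹ = (q b * q p * (q b)⁻¹) * (q b * q v0 * (q b)⁻¹) := by group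
        _ = q p := by rw [hb2, hb1, mul_assoc, huu, mul_one]
    · exact e r r r hb3 hb3
  have rab : π a * π b = π b * π a := by
    rw [← map_mul, ← map_mul, ← mul_inv_eq_one, ← map_inv, ← map_mul]
    have e : ∀ x y : Y, q (a * b) * q x * (q (a * b))⁻¹ = q y → q (b * a) * q x * (q (b * a))⁻¹ = q y →
        q (b * a) * q x * (q (b * a))⁻¹ = q (a * b) * q x * (q (a * b))⁻¹ := by
      intro x y h1 h2
      rw [h1, h2]
    have key : ∀ x ∈ W, q (b * a) * q x * (q (b * a))⁻¹ = q (a * b) * q x * (q (a * b))⁻¹ := by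
      have e1 : ∀ g h x : Y, q (g * h) * q x * (q (g * h))⁻¹ = q g * (q h * q x * (q h)⁻¹) * (q g)⁻¹ := by
        intro g h x; rw [map_mul]; group
      have e2 : ∀ g x y : Y, q g * (q x * q y) * (q g)⁻¹ = (q g * q x * (q g)⁻¹) * (q g * q y * (q g)⁻¹) := by
        intro g x y; group
      apply hext (MulAut.conj (q (b * a))).toMonoidHom (MulAut.conj (q (a * b))).toMonoidHom
      · show q (b * a) * q v0 * (q (b * a))⁻¹ = q (a * b) * q v0 * (q (a * b))⁻¹
        rw [e1, e1, ha1, hb1, ha1]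
      · show q (b * a) * q p * (q (b * a))⁻¹ = q (a * b) * q p * (q (a * b))⁻¹
        rw [e1, e1, ha2, hb2, e2, ha2, ha1]
      · show q (b * a) * q r * (q (b * a))⁻¹ = q (a * b) * q r * (q (a * b))⁻¹
        rw [e1, e1, ha3, hb3, e2, hb3, hb1, ha3]
    have hsw : ∀ x ∈ W, ∃ y ∈ W, q y = (q (b * a))⁻¹ * q x * q (b * a) := by
      intro x hx
      refine ⟨(b * a)⁻¹ * x * (b * a), ?_, ?_⟩
      · have := nW.conj_mem x hx (b * a)⁻¹
        rw [inv_inv] at this
        exact this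
      · rw [map_mul, map_mul, map_inv]
    have hfin : ∀ x ∈ W, q (a * b * (b * a)⁻¹) * q x * (q (a * b * (b * a)⁻¹))⁻¹ = q x := by
      intro x hx
      obtain ⟨y, hy, hy'⟩ := hsw x hx
      have h1 := key y hy
      rw [hy'] at h1
      have h2 : q x = q (b * a) * ((q (b * a))⁻¹ * q x * q (b * a)) * (q (b * a))⁻¹ := by group
      calc q (a * b * (b * a)⁻¹) * q x * (q (a * b * (b * a)⁻¹))⁻¹
          = q (a * b) * ((q (b * a))⁻¹ * q x * q (b * a)) * (q (a * b))⁻¹ := by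
            rw [map_mul q (a * b), map_inv]; group
        _ = q x := by rw [← h1]; group
    exact hfaith _ (hfin v0 hv0W) (hfin p hp) (hfin r hr)
  have hqv : q v0 ≠ 1 := hne v0 hv0K
  have na : π a ≠ 1 := by
    intro h
    have h1 := N.triv a h r hr
    rw [hqe, map_mul, map_mul, map_inv, ha3] at h1
    exact hqv (mul_eq_left.mp h1)
  have nb : π b ≠ 1 := by
    intro h
    have h1 := N.triv b h p hp
    rw [hqe, map_mul, map_mul, map_inv, hb2] at h1
    exact hqv (mul_eq_left.mp h1)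
  have nab : π a ≠ π b := by
    intro h
    have h1 : a⁻¹ * b ∈ π.ker := by
      rw [MonoidHom.mem_ker, map_mul, map_inv, h, inv_mul_cancel]
    have h2 := N.triv _ h1 p hp
    rw [hqe, map_mul, map_mul, map_inv, map_mul, map_inv] at h2
    have h3 : q b * q p * (q b)⁻¹ = q a * q p * (q a)⁻¹ := by
      calc q b * q p * (q b)⁻¹ = q a * ((q a)⁻¹ * q b * q p * ((q a)⁻¹ * q b)⁻¹) * (q a)⁻¹ := by group
        _ = q a * q p * (q a)⁻¹ := by rw [h2]
    rw [hb2, ha2] at h3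
    exact hqv (mul_eq_left.mp h3)
  obtain ⟨A, hA4, hA2, hAm⟩ := n2_four_group ra rb rab na nb nab
  have hAP : ∀ g : Y, π g ∈ A → P g := by
    intro g hg
    have aux : ∀ g0 : Y, P g0 → π g = π g0 → P g := by
      intro g0 h0 he
      have h1 : g0⁻¹ * g ∈ π.ker := by
        rw [MonoidHom.mem_ker, map_mul, map_inv, he, inv_mul_cancel]
      have h2 := hPmul g0 _ h0 (hPk _ h1)
      rwa [mul_inv_cancel_left] at h2
    rcases hAm _ hg with h | h | h | h
    · exact hPk g h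
    · exact aux a hPa h
    · exact aux b hPb h
    · exact aux (a * b) (hPmul a b hPa hPb) (by rw [h, map_mul])
  have h3 : ∀ g : Y, π g ∈ A → ∀ x ∈ W, g * x * g⁻¹ * x⁻¹ ∈ K ∨ g * x * g⁻¹ * x⁻¹ * v0⁻¹ ∈ K := by
    intro g hg x hx
    obtain ⟨n, hn⟩ := (hAP g hg).2 x hx
    rcases hu2 n with h | h
    · left
      rw [hqe, map_mul, map_mul, map_inv, hn, h, mul_one]
    · right
      rw [hqe, map_mul, map_mul, map_mul, map_inv, map_inv, hn, h, hVc x hx v0 hv0W, mul_inv_cancel_right]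
  refine ⟨A, hA4, hA2, v0, hv0W, hv0K, h3, ?_⟩
  intro c hc hcA x hx hcx
  obtain ⟨y, hy, hxy⟩ := N.four hL hs hc hx hcx
  have h4 := h3 (c ^ 2) (by rw [map_pow]; exact hcA) y hy
  rw [hqe] at hxy
  rcases h4 with h | h
  · left
    rw [← hq, hxy, hq]
    exact h
  · right
    rw [hqe] at h ⊢
    rw [hxy, h]

end klein

end Cfsg.Agent.Lib.H64L
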