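import Cfsg.Agent.Lib.H64LV
import Cfsg.Agent.Lib.H64LN2
import Cfsg.Agent.Lib.H64LO
import Cfsg.Agent.Lib.H64LG

/-! S3105, piece BA: the abelian case (helper29). -/

set_option autoImplicit false

namespace Cfsg.Agent.Lib.H64L

open Subgroup Cfsg Cfsg.Agent.Lib.SectRank Cfsg.Agent.Lib.H50Five

universe u v
variable {Y : Type u} {L : Type v} [Group Y] [Group L]

namespace BA

theorem rank_sub {p k : ℕ} (h : RankIn p k (⊤ : Subgroup Y)) (Q : Subgroup Y) : RankIn p k (⊤ : Subgroup ↥Q) := by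
  rw [← rankIn_map Q.subtype Q.subtype_injective]
  exact h.mono le_top

theorem card_sup_mul [Finite Y] (A B : Subgroup Y) [B.Normal] :
    Nat.card (A ⊔ B : Subgroup Y) * Nat.card (A ⊓ B : Subgroup Y) = Nat.card A * Nat.card B := by
  have h1 := relIndex_mul_relIndex (⊥ : Subgroup Y) B (A ⊔ B) bot_le le_sup_right
  have h2 := relIndex_mul_relIndex (⊥ : Subgroup Y) (A ⊓ B) A bot_le inf_le_left
  rw [relIndex_bot_left, relIndex_bot_left] at h1 h2
  rw [relIndex_sup_right] at h1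
  rw [inf_relIndex_left] at h2
  rw [← h1, ← h2]; ring

/-- a subgroup of order twice that of `A` containing `A` is `A ∪ zA` -/
theorem cover {A B : Subgroup Y} [Finite Y] (hAB : A ≤ B) (hc : Nat.card B = 2 * Nat.card A) {x y : Y} (hx : x ∈ B) (hy : y ∈ B)
    (hxA : x ∉ A) (hyA : y ∉ A) : x * y⁻¹ ∈ A := by
  have hidx : A.relIndex B = 2 := by
    have h5 := relIndex_mul_relIndex (⊥ : Subgroup Y) A B bot_le hAB
    rw [relIndex_bot_left, relIndex_bot_left, hc] at h5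
    have h6 : 0 < Nat.card A := Nat.card_pos
    exact Nat.eq_of_mul_eq_mul_left h6 (by rw [h5]; ring)
  have h6 : (A.subgroupOf B).index = 2 := hidx
  have h7 := (Subgroup.mul_mem_iff_of_index_two h6 (a := ⟨x, hx⟩) (b := ⟨y⁻¹, inv_mem hy⟩))
  have h8 : (⟨x, hx⟩ * ⟨y⁻¹, inv_mem hy⟩ : B) ∈ A.subgroupOf B := by
    rw [h7]
    rw [mem_subgroupOf, mem_subgroupOf]
    constructor
    · intro h; exact absurd h hxA
    · intro h; exact absurd ((inv_mem_iff).mp h) hyA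
  exact h8

/-- `A ≤ B` normal, `|B| = 2 |A|`: `Y` acts trivially on `B / A` -/
theorem comm_cover {A B : Subgroup Y} [Finite Y] (nA : A.Normal) (nB : B.Normal) (hAB : A ≤ B)
    (hc : Nat.card B = 2 * Nat.card A) (g : Y) {x : Y} (hx : x ∈ B) : g * x * g⁻¹ * x⁻¹ ∈ A := by
  by_cases hxA : x ∈ A
  · exact mul_mem (nA.conj_mem x hxA g) (inv_mem hxA)
  · refine cover hAB hc (nB.conj_mem x hx g) hx ?_ hxA
    intro h
    apply hxA
    have := nA.conj_mem _ h g⁻¹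
    have h5 : g⁻¹ * (g * x * g⁻¹) * g⁻¹⁻¹ = x := by group
    rwa [h5] at this

/-- the case of a `Y`-normal subgroup of order 2 in `Z` outside `M` -/
theorem case_quot [Finite Y] {π : Y →* L} {M Z : Subgroup Y} (B : Beta π M)
    (hab : ∀ x ∈ π.ker, ∀ y ∈ π.ker, x * y = y * x) (nZ : Z.Normal) (hMZ : M ≤ Z) (hZ : Z ≤ π.ker) (cZ : Nat.card Z = 16)
    (sqZ : ∀ x ∈ Z, x ^ 2 = 1) (inv : ∀ x ∈ π.ker, x ^ 2 = 1 → x ∈ Z)
    (noalpha : ∀ (Y1 : Type u) [Group Y1] [Finite Y1] (π1 : Y1 →* L) (M1 : Subgroup Y1), Function.Surjective π1 →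
      RankIn 2 4 (⊤ : Subgroup Y1) → Homo π1.ker M1 → (∃ g : Y1, ∃ m ∈ M1, g * m * g⁻¹ * m⁻¹ ≠ 1) → False)
    {Z0 : Subgroup Y} (n0 : Z0.Normal) (h0 : Z0 ≤ Z) (c0 : Nat.card Z0 = 2) (hd : Z0 ⊓ M = ⊥) : False := by
  have h0P : Z0 ≤ π.ker := h0.trans hZ
  have hs := QuotientGroup.mk'_surjective Z0
  refine noalpha (Y ⧸ Z0) (ql Z0 h0P) (Z.map (QuotientGroup.mk' Z0)) (ql_surj B.surj Z0 h0P) (rankIn_quot Z0 B.rank) ?_ ?_
  · rw [ker_ql]
    refine ⟨(inferInstance : π.ker.Normal).map _ hs, nZ.map _ hs, map_mono hZ, ?_, ?_, ?_, ?_, ?_, ?_⟩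
    · rintro _ ⟨x, hx, rfl⟩ _ ⟨y, hy, rfl⟩
      rw [← map_mul, ← map_mul, hab x hx y hy]
    · have := card_map_mk h0P
      rw [c0, B.cP] at this
      omega
    · have := card_map_mk h0
      rw [c0, cZ] at this
      omega
    · rintro _ ⟨x, hx, rfl⟩
      rw [← map_pow]
      apply mem_map_of_mem
      apply hMZ
      rw [← B.sqP]
      exact sq_mem hx
    · rintro _ ⟨x, hx, rfl⟩
      rw [← map_pow, sqZ x hx, map_one]
    · rintro _ ⟨x, hx, rfl⟩ h
      apply mem_map_of_mem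
      rw [← map_pow] at h
      have h1 : x ^ 2 ∈ Z0 := (QuotientGroup.eq_one_iff _).mp h
      have h2 : x ^ 2 ∈ M := by rw [← B.sqP]; exact sq_mem hx
      have h3 : x ^ 2 ∈ Z0 ⊓ M := ⟨h1, h2⟩
      rw [hd, mem_bot] at h3
      exact inv x hx h3
  · obtain ⟨g, m, hm, hgm⟩ := B.nt
    refine ⟨QuotientGroup.mk' Z0 g, QuotientGroup.mk' Z0 m, mem_map_of_mem _ (hMZ hm), ?_⟩
    rw [← map_inv, ← map_inv, ← map_mul, ← map_mul, ← map_mul]
    intro h
    apply hgm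
    have h1 : g * m * g⁻¹ * m⁻¹ ∈ Z0 := (QuotientGroup.eq_one_iff _).mp h
    have h2 : g * m * g⁻¹ * m⁻¹ ∈ M := mul_mem (B.nM.conj_mem m hm g) (inv_mem hm)
    have h3 : g * m * g⁻¹ * m⁻¹ ∈ Z0 ⊓ M := ⟨h1, h2⟩
    rwa [hd, mem_bot] at h3

/-- the case of a subgroup `Y1` with `Y1 ⊓ P = E` homocyclic -/
theorem case_sub [Finite Y] {π : Y →* L} {M E : Subgroup Y} (B : Beta π M)
    (noalpha : ∀ (Y1 : Type u) [Group Y1] [Finite Y1] (π1 : Y1 →* L) (M1 : Subgroup Y1), Function.Surjective π1 →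
      RankIn 2 4 (⊤ : Subgroup Y1) → Homo π1.ker M1 → (∃ g : Y1, ∃ m ∈ M1, g * m * g⁻¹ * m⁻¹ ≠ 1) → False)
    (H : Homo E M) (hE : E ≤ π.ker) (Y1 : Subgroup Y) (h1 : Y1 ⊓ π.ker = E) (h2 : Y1 ⊔ π.ker = ⊤) : False := by
  have hdec : ∀ y : Y, ∃ a ∈ Y1, ∃ p ∈ π.ker, a * p = y := by
    intro y
    have this := (Subgroup.mul_normal Y1 π.ker)
    have hy' : y ∈ ((Y1 ⊔ π.ker : Subgroup Y) : Set Y) := by rw [h2]; exact mem_top y
    rw [this] at hy'
    obtain ⟨a, ha, p, hp, hap⟩ := hy'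
    exact ⟨a, ha, p, hp, hap⟩
  have hEY : E ≤ Y1 := by rw [← h1]; exact inf_le_left
  have hk : (π.comp Y1.subtype).ker = E.subgroupOf Y1 := by
    ext x
    rw [MonoidHom.mem_ker, mem_subgroupOf]
    constructor
    · intro h
      have : (x : Y) ∈ Y1 ⊓ π.ker := ⟨x.2, h⟩
      rwa [h1] at this
    · intro h; exact hE h
  refine noalpha ↥Y1 (π.comp Y1.subtype) (M.subgroupOf Y1) ?_ (rank_sub B.rank Y1) ?_ ?_
  · intro a
    obtain ⟨y, rfl⟩ := B.surj a
    obtain ⟨a, ha, p, hp, rfl⟩ := hdec y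
    refine ⟨⟨a, ha⟩, ?_⟩
    change π a = π (a * p)
    rw [map_mul, (MonoidHom.mem_ker).mp hp, mul_one]
  · rw [hk]
    have nE := H.nE
    have nM := H.nM
    refine ⟨inferInstance, inferInstance, ?_, ?_, ?_, ?_, ?_, ?_, ?_⟩
    · intro x hx; exact H.le hx
    · intro x hx y hy
      exact Subtype.ext (H.ab x hx y hy)
    · rw [Nat.card_congr (subgroupOfEquivOfLe hEY).toEquiv, H.cE]
    · rw [Nat.card_congr (subgroupOfEquivOfLe (H.le.trans hEY)).toEquiv, H.cM]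
    · intro x hx; exact H.sqE x hx
    · intro x hx; exact Subtype.ext (H.sqM x hx)
    · intro x hx h; exact H.inv x hx (congrArg Subtype.val h)
  · obtain ⟨g, m, hm, hgm⟩ := B.nt
    obtain ⟨a, ha, p, hp, rfl⟩ := hdec g
    refine ⟨⟨a, ha⟩, ⟨m, hEY (H.le hm)⟩, hm, ?_⟩
    intro h
    apply hgm
    have h3 : a * m * a⁻¹ * m⁻¹ = 1 := congrArg Subtype.val h
    have h4 : p * m = m * p := (B.cent m hm p hp).symm
    calc a * p * m * (a * p)⁻¹ * m⁻¹ = a * (p * m) * p⁻¹ * a⁻¹ * m⁻¹ := by group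
      _ = a * m * a⁻¹ * m⁻¹ := by rw [h4]; group
      _ = 1 := h3

end BA

theorem beta_ab [Finite Y] (hL : IsL L) {π : Y →* L} {M Z : Subgroup Y} (B : Beta π M)
    (hab : ∀ x ∈ π.ker, ∀ y ∈ π.ker, x * y = y * x) (nZ : Z.Normal) (hMZ : M ≤ Z) (hZ : Z ≤ π.ker) (cZ : Nat.card Z = 16)
    (sqZ : ∀ x ∈ Z, x ^ 2 = 1) (inv : ∀ x ∈ π.ker, x ^ 2 = 1 → x ∈ Z)
    (noalpha : ∀ (Y1 : Type u) [Group Y1] [Finite Y1] (π1 : Y1 →* L) (M1 : Subgroup Y1), Function.Surjective π1 →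
      RankIn 2 4 (⊤ : Subgroup Y1) → Homo π1.ker M1 → (∃ g : Y1, ∃ m ∈ M1, g * m * g⁻¹ * m⁻¹ ≠ 1) → False) : False := by
  have nM := B.nM
  have nP : π.ker.Normal := inferInstance
  have F2 : Fact (Nat.Prime 2) := ⟨Nat.prime_two⟩
  have hfL := hL.finite
  -- modules
  have N0 : Nat8 π ⊥ M :=
    { nK := inferInstance
      nW := nM
      le := bot_le
      card := by rw [B.cM, Subgroup.card_bot]
      sq := fun x hx => by rw [B.sqM x hx]; exact one_mem _
      triv := fun p hp x hx => by rw [hab p hp x (B.le hx)]; simp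
      nt := by
        obtain ⟨g, m, hm, h⟩ := B.nt
        exact ⟨g, m, hm, fun h1 => h ((mem_bot).mp h1)⟩ }
  have V1 : Nat16 π ⊥ Z :=
    { nK := inferInstance
      nW := nZ
      le := bot_le
      card := by rw [cZ, Subgroup.card_bot]
      sq := fun x hx => by rw [sqZ x hx]; exact one_mem _
      triv := fun p hp x hx => by rw [hab p hp x (hZ hx)]; simp
      nt := by
        obtain ⟨g, m, hm, h⟩ := B.nt
        exact ⟨g, m, hMZ hm, fun h1 => h ((mem_bot).mp h1)⟩ }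
  have hsqP : ∀ x ∈ π.ker, x ^ 2 ∈ M := fun x hx => by rw [← B.sqP]; exact sq_mem hx
  have V2 : Nat16 π M π.ker :=
    { nK := nM
      nW := nP
      le := B.le
      card := by rw [B.cP, B.cM]
      sq := hsqP
      triv := fun p hp x hx => by rw [hab p hp x hx]; simp
      nt := by
        by_contra hcon
        push Not at hcon
        obtain ⟨g, m, hm, h⟩ := B.nt
        have h1 : H50Five.sq π.ker ≤ centralizer {g} := by
          rw [sq_le_iff]
          intro x hx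
          rw [mem_centralizer_singleton_iff]
          have h2 := hcon g x hx
          have h3 : g * x * g⁻¹ ∈ π.ker := nP.conj_mem x hx g
          have h4 : (g * x * g⁻¹ * x⁻¹) ^ 2 = 1 := B.sqM _ h2
          have h5 : (g * x * g⁻¹ * x⁻¹) ^ 2 = g * x ^ 2 * g⁻¹ * (x ^ 2)⁻¹ := by
            have h6 := hab (g * x * g⁻¹) h3 x⁻¹ (inv_mem hx)
            rw [pow_two, pow_two]
            calc g * x * g⁻¹ * x⁻¹ * (g * x * g⁻¹ * x⁻¹) = (g * x * g⁻¹) * (x⁻¹ * (g * x * g⁻¹)) * x⁻¹ := by group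
              _ = (g * x * g⁻¹) * ((g * x * g⁻¹) * x⁻¹) * x⁻¹ := by rw [h6]
              _ = g * (x * x) * g⁻¹ * (x * x)⁻¹ := by group
          rw [h5, mul_inv_eq_one, mul_inv_eq_iff_eq_mul] at h4
          exact h4.symm
        rw [B.sqP] at h1
        apply h
        have h2 := mem_centralizer_singleton_iff.mp (h1 hm)
        rw [← h2]; group }
  -- first application
  rcases orb hL B.surj V1 with ⟨N, hN, hNZ, htr, hfp⟩ | ⟨Z0, hZ0, _, c0, _⟩
  swap
  · have n0 := hZ0.nK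
    rw [Subgroup.card_bot, mul_one] at c0
    refine BA.case_quot B hab nZ hMZ hZ cZ sqZ inv noalpha n0 hZ0.le c0 ?_
    rcases N0.irr hL B.surj (R := Z0 ⊓ M) inferInstance bot_le inf_le_right with h | h
    · exact h
    · exfalso
      have h1 : M ≤ Z0 := inf_eq_right.mp h
      have h2 := card_le_of_le h1
      rw [B.cM, c0] at h2
      omega
  -- `N = M`
  have hNM : N = M := by
    have nN := hN.nW
    have cN : Nat.card N = 8 := by rw [hN.card, Subgroup.card_bot]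
    rcases N0.irr hL B.surj (R := N ⊓ M) inferInstance bot_le inf_le_right with h | h
    · exfalso
      have h1 : Nat.card (N ⊔ M : Subgroup Y) ≤ Nat.card Z := card_le_of_le (sup_le hNZ hMZ)
      have h2 := BA.card_sup_mul N M
      rw [h, Subgroup.card_bot, cN, B.cM] at h2
      rw [cZ] at h1
      omega
    · have h1 : M ≤ N := inf_eq_right.mp h
      exact (eq_of_le_of_card_ge h1 (by rw [cN, B.cM])).symm
  subst hNM
  -- the elements of `Z ∖ M` and elements of order 2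
  have hfp2 : ∀ g : Y, orderOf (π g) = 2 → ∀ x ∈ Z, x ∉ N → g * x * g⁻¹ * x⁻¹ ≠ 1 := by
    intro g hg x hx hxN h
    exact hfp g (Or.inl hg) x hx hxN (by rw [h]; exact one_mem _)
  have cZ2 : Nat.card Z = 2 * Nat.card N := by rw [cZ, B.cM]
  obtain ⟨z, hz, hzN⟩ : ∃ z ∈ Z, z ∉ N := by
    by_contra hcon
    push Not at hcon
    have h1 := card_le_of_le (show Z ≤ N from hcon)
    rw [cZ, B.cM] at h1
    omega
  have hZN : ∀ g : Y, ∀ x ∈ Z, g * x * g⁻¹ * x⁻¹ ∈ N := fun g x hx => BA.comm_cover nM nZ hMZ cZ2 g hx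
  rcases orb hL B.surj V2 with ⟨E, hE, hEP, htr', hfp'⟩ | ⟨Z', hZ', hNZ', cZ', hcases⟩
  · by_cases hzE : z ∈ E
    · have hZE : Z ≤ E := by
        intro x hx
        by_cases hxN : x ∈ N
        · exact hE.le hxN
        · have h1 := BA.cover hMZ cZ2 hx hz hxN hzN
          have h2 := mul_mem (hE.le h1) hzE
          simpa using h2
      have cE : Nat.card E = 64 := by rw [hE.card, B.cM]
      rcases hE.irr hL B.surj nZ hMZ hZE with h | h
      · rw [h, B.cM] at cZ; omega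
      · rw [h, cE] at cZ; omega
    · obtain ⟨s, hs⟩ := hL.exists_order 2 (by norm_num)
      obtain ⟨g, rfl⟩ := B.surj s
      exact hfp' g (Or.inl hs) z (hZ hz) hzE (hZN g z hz)
  -- `Z' = Z`
  have hZZ : Z' = Z := by
    have nZ' := hZ'.nK
    rcases hZ'.irr hL B.surj (R := Z ⊔ Z') inferInstance le_sup_right (sup_le hZ hZ'.le) with h | h
    · have h1 : Z ≤ Z' := by rw [← h]; exact le_sup_left
      exact (eq_of_le_of_card_ge h1 (by rw [cZ', B.cM, cZ])).symm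
    · exfalso
      have h1 := BA.card_sup_mul Z Z'
      rw [h, B.cP, cZ, cZ', B.cM] at h1
      have h2 : Nat.card N ≤ Nat.card (Z ⊓ Z' : Subgroup Y) := card_le_of_le (le_inf hMZ hNZ')
      rw [B.cM] at h2
      omega
  subst hZZ
  rcases hcases with ⟨E, hE, hEP, hinf, hsup⟩ | hA2
  swap
  · obtain ⟨x, hx, hxZ⟩ : ∃ x ∈ π.ker, x ∉ Z' := by
      by_contra hcon
      push Not at hcon
      have h1 := card_le_of_le (show π.ker ≤ Z' from hcon)
      rw [cZ, B.cP] at h1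
      omega
    obtain ⟨g, hg, h1, h2⟩ := hA2 x hx hxZ
    refine hfp2 g hg _ h1 h2 ?_
    have hg2 : g ^ 2 ∈ π.ker := by rw [MonoidHom.mem_ker, map_pow, ← hg, pow_orderOf_eq_one]
    have h3 := hab _ hg2 x hx
    have h4 := sqZ _ h1
    have h5 : g * (g * x * g⁻¹ * x⁻¹) * g⁻¹ = (g * x * g⁻¹ * x⁻¹)⁻¹ := by
      have h6 : g ^ 2 * x * (g ^ 2)⁻¹ = x := by rw [h3]; group
      calc g * (g * x * g⁻¹ * x⁻¹) * g⁻¹ = (g ^ 2 * x * (g ^ 2)⁻¹) * (g * x⁻¹ * g⁻¹) := by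
            simp only [pow_two]; group
        _ = (g * x * g⁻¹ * x⁻¹)⁻¹ := by rw [h6]; group
    rw [h5]
    rw [pow_two] at h4
    rw [← mul_inv_rev, h4, inv_one]
  -- `E` is homocyclic
  have cE : Nat.card E = 64 := by rw [hE.card, B.cM]
  have HE : Homo E N :=
    { nE := hE.nW
      nM := nM
      le := hE.le
      ab := fun x hx y hy => hab x (hEP hx) y (hEP hy)
      cE := cE
      cM := B.cM
      sqE := hE.sq
      sqM := B.sqM
      inv := fun x hx h => by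
        rw [← hinf]
        exact ⟨hx, inv x (hEP hx) h⟩ }
  have hp2 : IsPGroup 2 π.ker := IsPGroup.of_card (n := 7) (by rw [B.cP]; norm_num)
  have nE := hE.nW
  have h4 : ∀ g : Y, orderOf (π g) = 4 → g ^ 4 ∈ E := by
    intro g hg
    by_contra hgE
    have hg4 : g ^ 4 ∈ π.ker := by rw [MonoidHom.mem_ker, map_pow, ← hg, pow_orderOf_eq_one]
    have hg2 : orderOf (π (g ^ 2)) = 2 := by
      rw [map_pow, orderOf_pow' _ (by norm_num), hg]; norm_num
    obtain ⟨x, hx, e, he, hxe⟩ : ∃ x ∈ Z', ∃ e ∈ E, x * e = g ^ 4 := by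
      have h1 := (Subgroup.mul_normal Z' E)
      have h2 : g ^ 4 ∈ ((Z' ⊔ E : Subgroup Y) : Set Y) := by
        rw [sup_comm, hsup]; exact hg4
      rw [h1] at h2
      obtain ⟨x, hx, e, he, h⟩ := h2
      exact ⟨x, hx, e, he, h⟩
    have hxN : x ∉ N := by
      intro h
      apply hgE
      rw [← hxe]
      exact mul_mem (hE.le h) he
    have heP := hEP he
    have hxP := hZ hx
    have hcg : g * (x * e) * g⁻¹ = x * e := by rw [hxe]; group
    have hct : g ^ 2 * (x * e) * (g ^ 2)⁻¹ = x * e := by rw [hxe]; group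
    have hgx : g * x * g⁻¹ * x⁻¹ ∈ N := hZN g x hx
    have hge : g * e * g⁻¹ * e⁻¹ ∈ N := by
      have h1 : g * e * g⁻¹ * e⁻¹ = (g * x * g⁻¹)⁻¹ * (x * e) * e⁻¹ := by
        have h2 : (g * x * g⁻¹) * (g * e * g⁻¹) = x * e := by rw [← hcg]; group
        rw [← h2]; group
      have h3 : (g * x * g⁻¹)⁻¹ * (x * e) * e⁻¹ = (x * (g * x * g⁻¹)⁻¹) := by
        have h4 := hab x hxP _ (inv_mem (nP.conj_mem x hxP g))
        rw [h4]; group
      rw [h1, h3]
      have h5 : x * (g * x * g⁻¹)⁻¹ = (g * x * g⁻¹ * x⁻¹)⁻¹ := by group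
      rw [h5]
      exact inv_mem hgx
    obtain ⟨y, hy, hey⟩ := hE.four hL B.surj hg he hge
    set t := g ^ 2 with ht
    have hyP := hEP hy
    have htt : t ^ 2 ∈ π.ker := by
      have : t ^ 2 = g ^ 4 := by rw [ht, ← pow_mul]
      rw [this]; exact hg4
    have htyP : t * y * t⁻¹ ∈ π.ker := nP.conj_mem y hyP t
    have hu : t * (t * y * t⁻¹ * y) * t⁻¹ = t * y * t⁻¹ * y := by
      have h1 : t ^ 2 * y * (t ^ 2)⁻¹ = y := by rw [hab _ htt y hyP]; group
      calc t * (t * y * t⁻¹ * y) * t⁻¹ = (t ^ 2 * y * (t ^ 2)⁻¹) * (t * y * t⁻¹) := by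
            simp only [pow_two]; group
        _ = y * (t * y * t⁻¹) := by rw [h1]
        _ = t * y * t⁻¹ * y := hab y hyP _ htyP
    have hm' : e * (t * y * t⁻¹ * y)⁻¹ ∈ N := by
      have h1 : e * (t * y * t⁻¹ * y)⁻¹ = (e * (t * y * t⁻¹ * y⁻¹)⁻¹) * (y ^ 2)⁻¹ := by
        have h2 := hab _ (inv_mem htyP) (y ^ 2)⁻¹ (inv_mem (pow_mem hyP 2))
        calc e * (t * y * t⁻¹ * y)⁻¹ = e * y * ((y ^ 2)⁻¹ * (t * y * t⁻¹)⁻¹) := by
              simp only [pow_two]; group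
          _ = e * y * ((t * y * t⁻¹)⁻¹ * (y ^ 2)⁻¹) := by rw [h2]
          _ = _ := by group
      rw [h1]
      exact mul_mem hey (inv_mem (hE.sq y hy))
    refine hfp2 t hg2 (x * (e * (t * y * t⁻¹ * y)⁻¹)) (mul_mem hx (hMZ hm')) ?_ ?_
    · intro h
      apply hxN
      have h1 := mul_mem h (inv_mem hm')
      rwa [mul_assoc x, mul_inv_cancel, mul_one] at h1
    · have h1 : t * (x * (e * (t * y * t⁻¹ * y)⁻¹)) * t⁻¹ =
          (t * (x * e) * t⁻¹) * (t * (t * y * t⁻¹ * y) * t⁻¹)⁻¹ := by group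
      rw [h1, hct, hu]; group
  obtain ⟨Y1, h1, h2⟩ := split_two hL B.surj hp2 hE.nW hEP (by rw [B.cP, cE]) h4
  exact BA.case_sub B noalpha HE hEP Y1 h1 h2

end Cfsg.Agent.Lib.H64L
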