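import Cfsg.Agent.Lib.H65BI

/-! `beta_inv` for the `L₃(2)`-radical theorem (proved in `H65BI`). -/

set_option autoImplicit false

namespace Cfsg.Agent.Lib.H64L

open Subgroup Cfsg Cfsg.Agent.Lib.SectRank

universe u v

variable {Y : Type u} {L : Type v} [Group Y] [Group L]

theorem beta_inv [Finite Y] (hL : IsL L) {π : Y →* L} {M E : Subgroup Y} (B : Beta π M) (H : Homo E M) (hE : E ≤ π.ker)
    {z : Y} (hz : z ∈ π.ker) (hzE : z ∉ E) (hi : ∀ x ∈ E, z * x * z⁻¹ = x⁻¹)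
    (noalpha : ∀ (Y1 : Type u) [Group Y1] [Finite Y1] (π1 : Y1 →* L) (M1 : Subgroup Y1), Function.Surjective π1 →
      RankIn 2 4 (⊤ : Subgroup Y1) → Homo π1.ker M1 → (∃ g : Y1, ∃ m ∈ M1, g * m * g⁻¹ * m⁻¹ ≠ 1) → False) : False :=
  Cfsg.Agent.Lib.H65BI.beta_inv hL B H hE hz hzE hi noalpha

end Cfsg.Agent.Lib.H64L
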