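import Cfsg.Agent.Lib.H64LA
import Cfsg.Agent.S1004
import Cfsg.Agent.S1005
import Cfsg.Agent.S1006

/-! S3105, piece LF: facts on the simple group of order 168 (helper23) -/

set_option autoImplicit false

namespace Cfsg.Agent.Lib.H64L

open Subgroup Cfsg Cfsg.Agent.Lib.SectRank Cfsg.Agent.Lib.H50Five

universe u v
variable {L : Type v} [Group L]

theorem IsL.exists_four [Finite L] (hL : IsL L) : ∃ c : L, orderOf c = 4 := by
  haveI := hL.simple
  have h := (Cfsg.Agent.S1006.result hL.card).2.2.1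
  by_contra hc
  push Not at hc
  haveI : IsEmpty {g : L // orderOf g = 4} := ⟨fun g => hc g.1 g.2⟩
  rw [Nat.card_of_isEmpty] at h
  omega

theorem IsL.conj_inv [Finite L] (hL : IsL L) {s t : L} (hs : orderOf s = 2) (ht : orderOf t = 2) :
    ∃ g : L, g * s * g⁻¹ = t := by
  haveI := hL.simple
  exact isConj_iff.1 ((Cfsg.Agent.S1005.result hL.card).2.2 s t hs ht)

theorem IsL.conj_four [Finite L] (hL : IsL L) {c d : L} (hc : orderOf c = 4) (hd : orderOf d = 4) :
    ∃ g : L, g * c * g⁻¹ = d := by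
  haveI := hL.simple
  exact isConj_iff.1 ((Cfsg.Agent.S1006.result hL.card).2.2.2.1 c d hc hd)

theorem ord_conj (g c : L) : orderOf (g * c * g⁻¹) = orderOf c := by
  have h := orderOf_injective (MulAut.conj g).toMonoidHom (MulAut.conj g).injective c
  exact h

theorem ord_sq {c : L} (hc : orderOf c = 4) : orderOf (c ^ 2) = 2 := by
  rw [orderOf_pow' c (by norm_num), hc]; rfl

theorem IsL.sqrt_inv [Finite L] (hL : IsL L) {t : L} (ht : orderOf t = 2) : ∃ c : L, orderOf c = 4 ∧ c ^ 2 = t := by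
  obtain ⟨c, hc⟩ := hL.exists_four
  obtain ⟨g, hg⟩ := hL.conj_inv (ord_sq hc) ht
  refine ⟨g * c * g⁻¹, by rw [ord_conj, hc], ?_⟩
  rw [← hg, pow_two, pow_two]; group

theorem IsL.exists_seven [Finite L] (hL : IsL L) : ∃ f : L, orderOf f = 7 := by
  haveI := hL.simple
  have h := (Cfsg.Agent.S1006.result hL.card).2.2.2.2.1
  by_contra hc
  push Not at hc
  haveI : IsEmpty {g : L // orderOf g = 7} := ⟨fun g => hc g.1 g.2⟩
  rw [Nat.card_of_isEmpty] at h
  omega

theorem IsL.inverted [Finite L] (hL : IsL L) {c : L} (hc : orderOf c = 4) : ∃ s : L, orderOf s = 2 ∧ s * c * s⁻¹ = c⁻¹ := by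
  haveI := hL.simple
  haveI : Fact (Nat.Prime 2) := ⟨Nat.prime_two⟩
  obtain ⟨T⟩ : Nonempty (Sylow 2 L) := inferInstance
  obtain ⟨⟨e⟩, -, hT⟩ := Cfsg.Agent.S1004.result hL.card T
  let z : T := e.symm (DihedralGroup.r 2)
  have hz1 : (z : L) ≠ 1 := by
    intro h
    have h1 : z = 1 := Subtype.ext h
    have h2 : e z = 1 := by rw [h1, map_one]
    rw [MulEquiv.apply_symm_apply] at h2
    exact absurd h2 (by decide)
  have hzc : ∀ t ∈ (T : Subgroup L), t * z = z * t := by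
    intro t ht
    have h1 : e ⟨t, ht⟩ * DihedralGroup.r 2 = DihedralGroup.r 2 * e ⟨t, ht⟩ := by
      generalize e ⟨t, ht⟩ = x
      revert x
      decide
    have h2 : (⟨t, ht⟩ : T) * z = z * ⟨t, ht⟩ := by
      apply e.injective
      rw [map_mul, map_mul, MulEquiv.apply_symm_apply]
      exact h1
    exact congrArg Subtype.val h2
  have hz2 : orderOf (z : L) = 2 := by
    rw [Subgroup.orderOf_coe, ← orderOf_injective e.toMonoidHom e.injective z]
    show orderOf (e z) = 2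
    rw [MulEquiv.apply_symm_apply]
    exact orderOf_eq_prime (by decide) (by decide)
  have hC := hT z z.2 hz1 hzc
  obtain ⟨g, hg⟩ := hL.conj_inv (ord_sq hc) hz2
  have hc'z : (g * c * g⁻¹) ^ 2 = (z : L) := by rw [← hg, pow_two, pow_two]; group
  have hc'T : g * c * g⁻¹ ∈ (T : Subgroup L) := by
    rw [← hC, mem_centralizer_singleton_iff, ← hc'z]
    rw [pow_two]; group
  have hc' : orderOf (g * c * g⁻¹) = 4 := by rw [ord_conj, hc]
  have ho : orderOf (e ⟨g * c * g⁻¹, hc'T⟩) = 4 := by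
    have h1 := orderOf_injective e.toMonoidHom e.injective ⟨g * c * g⁻¹, hc'T⟩
    have h2 : orderOf (⟨g * c * g⁻¹, hc'T⟩ : T) = 4 := by rw [Subgroup.orderOf_mk, hc']
    exact h1.trans h2
  have hinv : DihedralGroup.sr 0 * e ⟨g * c * g⁻¹, hc'T⟩ * (DihedralGroup.sr 0)⁻¹ = (e ⟨g * c * g⁻¹, hc'T⟩)⁻¹ := by
    generalize e ⟨g * c * g⁻¹, hc'T⟩ = x at ho
    cases x with
    | r i => simp
    | sr i =>
      rw [DihedralGroup.orderOf_sr] at ho
      omega
  let s : T := e.symm (DihedralGroup.sr 0)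
  have hs : (s : L) * (g * c * g⁻¹) * (s : L)⁻¹ = (g * c * g⁻¹)⁻¹ := by
    have h1 : s * ⟨g * c * g⁻¹, hc'T⟩ * s⁻¹ = (⟨g * c * g⁻¹, hc'T⟩ : T)⁻¹ := by
      apply e.injective
      rw [map_mul, map_mul, map_inv, map_inv, MulEquiv.apply_symm_apply]
      exact hinv
    exact congrArg Subtype.val h1
  have hs2 : orderOf (s : L) = 2 := by
    rw [Subgroup.orderOf_coe, ← orderOf_injective e.toMonoidHom e.injective s]
    show orderOf (e s) = 2
    rw [MulEquiv.apply_symm_apply, DihedralGroup.orderOf_sr]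
  refine ⟨g⁻¹ * s * g, ?_, ?_⟩
  · have := ord_conj g⁻¹ (s : L)
    rw [inv_inv] at this
    rw [this, hs2]
  · calc g⁻¹ * s * g * c * (g⁻¹ * s * g)⁻¹ = g⁻¹ * ((s : L) * (g * c * g⁻¹) * (s : L)⁻¹) * g := by group
      _ = g⁻¹ * (g * c * g⁻¹)⁻¹ * g := by rw [hs]
      _ = c⁻¹ := by group

theorem IsL.eq_top_of_index [Finite L] (hL : IsL L) {H : Subgroup L} (h : H.index < 7) : H = ⊤ := by
  haveI := hL.simple
  by_contra hH
  have hk : (MulAction.toPermHom L (L ⧸ H)).ker = ⊥ := by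
    rcases (inferInstance : (MulAction.toPermHom L (L ⧸ H)).ker.Normal).eq_bot_or_eq_top with h1 | h1
    · exact h1
    · exfalso
      apply hH
      rw [← Subgroup.normalCore_eq_ker] at h1
      rw [eq_top_iff, ← h1]
      exact Subgroup.normalCore_le H
  have hinj : Function.Injective (MulAction.toPermHom L (L ⧸ H)) := (MonoidHom.ker_eq_bot_iff _).1 hk
  have h1 : Nat.card L ∣ Nat.card (Equiv.Perm (L ⧸ H)) := Subgroup.card_dvd_of_injective _ hinj
  rw [hL.card, Nat.card_perm] at h1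
  have h2 : (7 : ℕ) ∣ (Nat.card (L ⧸ H)).factorial := dvd_trans (by norm_num) h1
  rw [(by norm_num : Nat.Prime 7).dvd_factorial] at h2
  have h3 : Nat.card (L ⧸ H) = H.index := rfl
  omega

end Cfsg.Agent.Lib.H64L
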