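import Cfsg.Agent.Lib.H64LC
import Cfsg.Agent.Lib.H64LL
import Cfsg.Agent.Lib.H64LN2

set_option autoImplicit false

namespace Cfsg.Agent.Lib.H64L

open Subgroup Cfsg Cfsg.Agent.Lib.SectRank Cfsg.Agent.Lib.H50Five
open scoped Pointwise

universe u v
variable {Y : Type u} {L : Type v} [Group Y] [Group L]

namespace C48

variable {π : Y →* L} {Ω : Subgroup Y} {m : Y}

theorem prod_mem58 (C : C48 π Ω m) {x y : Y} (hx : x ∈ π.ker) (hy : y ∈ π.ker) (hx' : x ∉ Ω) (hy' : y ∉ Ω) : x * y ∈ Ω := by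
  by_contra h
  have h1 := C.sqP (x * y) (mul_mem hx hy) h
  have h2 : (x * y) ^ 2 = x ^ 2 * y ^ 2 := by
    have h3 := C.ab x hx y hy
    calc (x * y) ^ 2 = x * (y * x) * y := by rw [pow_two]; group
      _ = x * (x * y) * y := by rw [← h3]
      _ = x ^ 2 * y ^ 2 := by rw [pow_two, pow_two]; group
  rw [C.sqP x hx hx', C.sqP y hy hy', ← pow_two, C.sqΩ m C.mΩ] at h2
  exact C.m1 (h1.symm.trans h2)

/-- `Y` acts trivially on `P / Ω` -/
theorem comm_mem58 (C : C48 π Ω m) {x : Y} (hx : x ∈ π.ker) (g : Y) : g * x * g⁻¹ * x⁻¹ ∈ Ω := by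
  haveI := C.nΩ
  by_cases h : x ∈ Ω
  · exact mul_mem (C.nΩ.conj_mem x h g) (inv_mem h)
  · apply C.prod_mem58 ((MonoidHom.normal_ker π).conj_mem x hx g) (inv_mem hx)
    · intro h1
      apply h
      have := C.nΩ.conj_mem _ h1 g⁻¹
      have h2 : g⁻¹ * (g * x * g⁻¹) * g⁻¹⁻¹ = x := by group
      rwa [h2] at this
    · intro h1
      exact h (inv_mem_iff.1 h1)

theorem leM58 (C : C48 π Ω m) : zpowers m ≤ Ω := by
  rw [zpowers_le]; exact C.mΩ

end C48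

/-- squares in `N`, `N` normalized: commutators in `N` -/
theorem comm_of_sq_mem58 {N H : Subgroup Y} (hsq : ∀ x ∈ H, x ^ 2 ∈ N) (hn : ∀ h ∈ H, ∀ x ∈ N, h * x * h⁻¹ ∈ N) :
    ∀ x ∈ H, ∀ y ∈ H, x * y * x⁻¹ * y⁻¹ ∈ N := by
  intro x hx y hy
  have h1 : x * y * x⁻¹ * y⁻¹ = (x * y) ^ 2 * (y⁻¹ * (x ^ 2)⁻¹ * y⁻¹⁻¹) * (y ^ 2)⁻¹ := by
    simp only [pow_two]; group
  rw [h1]
  exact mul_mem (mul_mem (hsq _ (mul_mem hx hy)) (hn _ (inv_mem hy) _ (inv_mem (hsq x hx)))) (inv_mem (hsq y hy))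

/-- fourth powers modulo `Ω` -/
theorem C48.four_mem58 {π : Y →* L} {Ω : Subgroup Y} {m : Y} (C : C48 π Ω m) [Finite L] (hL : IsL L) {c d : Y}
    (hc : orderOf (π c) = 4) (h4 : c ^ 4 ∈ Ω) (hd : orderOf (π d) = 4) : d ^ 4 ∈ Ω := by
  haveI := C.nΩ
  obtain ⟨l, hl⟩ := hL.conj_four hc hd
  obtain ⟨g, rfl⟩ := C.surj l
  set c1 := g * c * g⁻¹ with hc1
  have hp : c1⁻¹ * d ∈ π.ker := by
    rw [MonoidHom.mem_ker, map_mul, map_inv, hc1, map_mul, map_mul, map_inv, hl]; group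
  set p := c1⁻¹ * d with hpdef
  have hdp : d = c1 * p := by rw [hpdef]; group
  have h41 : c1 ^ 4 ∈ Ω := by
    rw [hc1, conj_pow]
    exact C.nΩ.conj_mem _ h4 g
  have hcomm : ∀ x : Y, (QuotientGroup.mk' Ω) x * (QuotientGroup.mk' Ω) p = (QuotientGroup.mk' Ω) p * (QuotientGroup.mk' Ω) x := by
    intro x
    have h1 := (QuotientGroup.eq_one_iff _).2 (C.comm_mem58 hp x)
    have h2 : (QuotientGroup.mk' Ω) (x * p * x⁻¹ * p⁻¹) = 1 := h1
    rw [map_mul, map_mul, map_mul, map_inv, map_inv] at h2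
    have h3 := mul_inv_eq_one.1 h2
    exact mul_inv_eq_iff_eq_mul.1 h3
  have hp2 : (QuotientGroup.mk' Ω) p ^ 2 = 1 := by
    rw [← map_pow]
    refine (QuotientGroup.eq_one_iff _).2 ?_
    by_cases h : p ∈ Ω
    · exact pow_mem h 2
    · rw [C.sqP p hp h]; exact C.mΩ
  have h5 : (QuotientGroup.mk' Ω) (d ^ 4) = 1 := by
    rw [hdp, map_pow, map_mul, (show Commute _ _ from hcomm c1).mul_pow, ← map_pow]
    have h6 : (QuotientGroup.mk' Ω) (c1 ^ 4) = 1 := (QuotientGroup.eq_one_iff _).2 h41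
    rw [h6, one_mul, show (4 : ℕ) = 2 * 2 from rfl, pow_mul, hp2, one_pow]
  exact (QuotientGroup.eq_one_iff _).1 h5

theorem c4_even [Finite Y] (hL : IsL L) {π : Y →* L} {Ω : Subgroup Y} {m z : Y} (C : C48 π Ω m) (hz : z ∈ π.ker) (hzΩ : z ∉ Ω)
    (hzc : ∀ g : Y, g * z = z * g) {c : Y} (hc : orderOf (π c) = 4) (h4 : c ^ 4 ∈ Ω) : False := by
  haveI := C.nΩ
  haveI : Finite L := Nat.finite_of_card_ne_zero (by rw [hL.card]; norm_num)
  -- every element of `P` is `ω` or `z ω`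
  have hdec : ∀ x ∈ π.ker, ∃ ω ∈ Ω, x = ω ∨ x = z * ω := by
    intro x hx
    by_cases h : x ∈ Ω
    · exact ⟨x, h, Or.inl rfl⟩
    · exact ⟨z⁻¹ * x, C.prod_mem58 (inv_mem hz) hx (fun h1 => hzΩ (inv_mem_iff.1 h1)) h, Or.inr (by group)⟩
  have hcommz : ∀ g ω : Y, g * (z * ω) * g⁻¹ * (z * ω)⁻¹ = g * ω * g⁻¹ * ω⁻¹ := by
    intro g ω
    have h1 : g * (z * ω) = z * (g * ω) := by rw [← mul_assoc, hzc g, mul_assoc]
    have h2 : (z * ω)⁻¹ = ω⁻¹ * z⁻¹ := by group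
    have h3 : ∀ y : Y, z * y * z⁻¹ = y := by intro y; rw [← hzc y]; group
    calc g * (z * ω) * g⁻¹ * (z * ω)⁻¹ = z * (g * ω * g⁻¹ * ω⁻¹) * z⁻¹ := by rw [h1, h2]; group
      _ = _ := h3 _
  have N1 : Nat8 π (zpowers m) Ω := C.nat8 hL
  obtain ⟨A, cA, sqA, v, hv, hvK, hA1, hA2⟩ := N1.klein hL C.surj
  have hv2 : v ^ 2 = 1 := C.sqΩ v hv
  have hmv : m * v = v * m := (C.mc v).symm
  -- the subgroup K5
  let K5 : Subgroup Y := zpowers m ⊔ zpowers v
  haveI := C.nM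
  have hmem : ∀ x : Y, (x ∈ zpowers m ∨ x * v⁻¹ ∈ zpowers m) → x ∈ K5 := by
    rintro x (h | h)
    · exact (le_sup_left : zpowers m ≤ K5) h
    · have := mul_mem ((le_sup_left : zpowers m ≤ K5) h) ((le_sup_right : zpowers v ≤ K5) (mem_zpowers v))
      rwa [inv_mul_cancel_right] at this
  have hK5le : K5 ≤ Ω := sup_le C.leM58 (by rw [zpowers_le]; exact hv)
  have hK5c : Nat.card K5 ≤ 4 := by
    have h1 : Nat.card K5 ≤ Nat.card (zpowers m) * Nat.card (zpowers v) := by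
      have h3 : Nat.card K5 = Nat.card ((zpowers v : Set Y) * (zpowers m : Set Y) : Set Y) := by
        rw [← Subgroup.mul_normal (zpowers v) (zpowers m)]
        show Nat.card ↥(zpowers m ⊔ zpowers v) = _
        rw [sup_comm]; rfl
      rw [h3, mul_comm]
      exact Set.natCard_mul_le
    have h2 : Nat.card (zpowers v) ≤ 2 := by
      rw [Nat.card_zpowers]; exact orderOf_le_of_pow_eq_one (by norm_num) hv2
    rw [C.cardM] at h1
    omega
  let H : Subgroup Y := A.comap π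
  have hPH : π.ker ≤ H := by
    intro x hx
    show π x ∈ A
    rw [MonoidHom.mem_ker.1 hx]; exact one_mem _
  have hH : ∀ g ∈ H, ∀ x ∈ π.ker, g * x * g⁻¹ * x⁻¹ ∈ K5 := by
    intro g hg x hx
    obtain ⟨ω, hω, rfl | rfl⟩ := hdec x hx
    · exact hmem _ (hA1 g hg _ hω)
    · rw [hcommz]; exact hmem _ (hA1 g hg _ hω)
  have hsqP : ∀ x ∈ π.ker, x ^ 2 ∈ K5 := fun x hx => (le_sup_left : zpowers m ≤ K5) (C.nat16.sq x hx)
  have hsq : ∀ x ∈ H, x ^ 2 ∈ K5 := by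
    intro x hx
    by_cases h1 : π x = 1
    · exact hsqP x h1
    · have ho : orderOf (π x) = 2 := orderOf_eq_prime (sqA _ hx) h1
      obtain ⟨l, hl4, hl⟩ := hL.sqrt_inv ho
      obtain ⟨e, rfl⟩ := C.surj l
      have he4 : e ^ 4 ∈ Ω := C.four_mem58 hL hc h4 hl4
      have he5 : e ^ 4 ∈ K5 := by
        apply hmem
        apply hA2 e hl4 (by rw [hl]; exact hx) _ he4
        have : e * e ^ 4 * e⁻¹ * (e ^ 4)⁻¹ = 1 := by group
        rw [this]; exact one_mem _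
      set t := e ^ 2 with ht
      have hp : t⁻¹ * x ∈ π.ker := by
        rw [MonoidHom.mem_ker, map_mul, map_inv, ht, map_pow, hl, inv_mul_cancel]
      have hx2 : x ^ 2 = e ^ 4 * ((t⁻¹ * (t⁻¹ * x) * t⁻¹⁻¹ * (t⁻¹ * x)⁻¹) * (t⁻¹ * x) ^ 2) := by
        have h8 : ∀ s y : Y, y ^ 2 = (s * s) * ((s⁻¹ * (s⁻¹ * y) * s⁻¹⁻¹ * (s⁻¹ * y)⁻¹) * (s⁻¹ * y) ^ 2) := by
          intro s y; simp only [pow_two]; group
        have h9 : e ^ 4 = t * t := by rw [ht]; group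
        rw [h9]; exact h8 t x
      rw [hx2]
      refine mul_mem he5 (mul_mem (hH _ (inv_mem ?_) _ hp) (hsqP _ hp))
      show π t ∈ A
      rw [ht, map_pow, hl]; exact hx
  have hn : ∀ h ∈ H, ∀ x ∈ K5, h * x * h⁻¹ ∈ K5 := by
    intro h hh x hx
    have := mul_mem (hH h hh x (C.le (hK5le hx))) hx
    rwa [inv_mul_cancel_right] at this
  have hr := C.rank K5 H (hK5le.trans (C.le.trans hPH)) le_top hsq (comm_of_sq_mem58 hsq hn)
  have cH : Nat.card H = 128 := by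
    have h1 := H.card_mul_index
    have h2 : H.index = A.index := Subgroup.index_comap_of_surjective A C.surj
    have h3 := A.card_mul_index
    have h4' := π.ker.card_mul_index
    rw [Subgroup.index_ker, MonoidHom.range_eq_top.2 C.surj, Subgroup.card_top, hL.card, C.cP] at h4'
    rw [hL.card, cA] at h3
    rw [h2, ← h4', show A.index = 42 by omega] at h1
    omega
  have h7 : Nat.card K5 * K5.relIndex H = Nat.card H := by
    have := Subgroup.relIndex_mul_relIndex ⊥ K5 H bot_le (hK5le.trans (C.le.trans hPH))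
    rwa [Subgroup.relIndex_bot_left, Subgroup.relIndex_bot_left] at this
  rw [cH] at h7
  nlinarith

end Cfsg.Agent.Lib.H64L
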