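import Cfsg.Agent.Lib.H64LC
import Cfsg.Agent.Lib.H64LL
import Cfsg.Agent.Lib.H64LN
import Cfsg.Agent.Lib.H64LO

set_option autoImplicit false

namespace Cfsg.Agent.Lib.H64L

open Subgroup Cfsg Cfsg.Agent.Lib.SectRank Cfsg.Agent.Lib.H50Five
open scoped Pointwise

universe u v
variable {Y : Type u} {L : Type v} [Group Y] [Group L]

/-- an element with at most two conjugates `z`, `z'` that commutes with `ker π` is central -/
theorem central_of_two58 [Finite Y] [Finite L] (hL : IsL L) {π : Y →* L} (hs : Function.Surjective π) {z z' : Y}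
    (h1 : ∀ p ∈ π.ker, p * z * p⁻¹ = z) (h2 : ∀ g : Y, g * z * g⁻¹ = z ∨ g * z * g⁻¹ = z')
    (h3 : z' ≠ z) (h4 : ∀ g : Y, g * z * g⁻¹ = z' → g * z' * g⁻¹ = z) (g : Y) : g * z = z * g := by
  let C : Subgroup Y := centralizer {z}
  have hC : ∀ x : Y, x ∈ C ↔ x * z * x⁻¹ = z := by
    intro x
    rw [mem_centralizer_singleton_iff]
    exact ⟨fun h => by rw [h]; group, fun h => mul_inv_eq_iff_eq_mul.1 h⟩
  by_cases hall : ∀ x : Y, x ∈ C
  · exact mul_inv_eq_iff_eq_mul.1 ((hC g).1 (hall g))
  · exfalso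
    push Not at hall
    obtain ⟨a, ha⟩ := hall
    have ha' : a * z * a⁻¹ = z' := by
      rcases h2 a with h | h
      · exact absurd ((hC a).2 h) ha
      · exact h
    have hidx : C.index = 2 := by
      rw [index_eq_two_iff]
      refine ⟨a, fun b => ?_⟩
      have e1 : b * a * z * (b * a)⁻¹ = b * z' * b⁻¹ := by rw [← ha']; group
      rcases h2 b with h | h
      · right
        refine ⟨(hC b).2 h, fun h5 => ?_⟩
        rw [hC, e1] at h5
        exact h3 (mul_left_cancel (mul_right_cancel (h5.trans h.symm)))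
      · left
        refine ⟨(hC _).2 (by rw [e1]; exact h4 b h), fun h5 => ?_⟩
        rw [hC, h] at h5
        exact h3 h5
    have hker : π.ker ≤ C := fun p hp => (hC p).2 (h1 p hp)
    have h6 : (C.map π).index ∣ 2 := by
      rw [← hidx]; exact Subgroup.index_map_dvd C hs
    have h7 := hL.eq_top_of_index (lt_of_le_of_lt (Nat.le_of_dvd (by norm_num) h6) (by norm_num))
    have h8 : C = ⊤ := by
      have h9 := Subgroup.comap_map_eq_self hker
      rw [h7, Subgroup.comap_top] at h9
      exact h9.symm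
    apply ha
    rw [h8]; exact mem_top a

theorem cl [Finite Y] (hL : IsL L) {π : Y →* L} {Ω : Subgroup Y} {m : Y} (C : C48 π Ω m)
    (noc4 : ∀ z ∈ π.ker, z ∉ Ω → (∀ g : Y, g * z = z * g) → False) :
    ∀ g : Y, orderOf (π g) = 4 → g ^ 4 ∈ Ω := by
  classical
  have hfL : Finite L := Nat.finite_of_card_ne_zero (by rw [hL.card]; norm_num)
  have hkerN : π.ker.Normal := inferInstance
  rcases orb hL C.surj C.nat16 with ⟨N, N8, hNP, -, hfpf⟩ | ⟨Z, Z8, hKZ, cZ, -⟩
  · -- `N = Ω`
    have hN : N = Ω := by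
      have hnn : (N ⊓ Ω).Normal := by
        have := N8.nW; have := C.nΩ
        infer_instance
      have hKΩ : zpowers m ≤ Ω := by rw [zpowers_le]; exact C.mΩ
      have cN : Nat.card N = 16 := by rw [N8.card, C.cardM]
      rcases N8.irr hL C.surj hnn (le_inf N8.le hKΩ) inf_le_left with h | h
      · exfalso
        have h1 : Nat.card N * Nat.card Ω ≤ Nat.card ↥(N ⊓ Ω) * Nat.card π.ker := by
          have h2 := Subgroup.relIndex_mul_relIndex ⊥ (N ⊓ Ω) N bot_le inf_le_left
          rw [Subgroup.relIndex_bot_left, Subgroup.relIndex_bot_left, Subgroup.inf_relIndex_left] at h2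
          have h3 := Subgroup.relIndex_mul_relIndex ⊥ Ω π.ker bot_le C.le
          rw [Subgroup.relIndex_bot_left, Subgroup.relIndex_bot_left] at h3
          have h4 : Ω.relIndex N ≤ Ω.relIndex π.ker := Subgroup.relIndex_le_of_le_right hNP (by
            intro h5; rw [h5, mul_zero, C.cP] at h3; norm_num at h3)
          rw [← h2, ← h3, mul_assoc, mul_comm (Ω.relIndex N)]
          exact Nat.mul_le_mul_left _ (Nat.mul_le_mul_left _ h4)
        rw [h, C.cardM, C.cP, cN, C.cΩ] at h1
        norm_num at h1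
      · have h1 : N ≤ Ω := inf_eq_left.1 h
        exact Subgroup.eq_of_le_of_card_ge h1 (by rw [cN, C.cΩ])
    intro g hg
    by_contra h
    have hk : g ^ 4 ∈ π.ker := by rw [MonoidHom.mem_ker, map_pow, ← hg, pow_orderOf_eq_one]
    apply hfpf g (Or.inr hg) (g ^ 4) hk (by rw [hN]; exact h)
    have : g * g ^ 4 * g⁻¹ * (g ^ 4)⁻¹ = 1 := by group
    rw [this]; exact one_mem _
  · exfalso
    have cZ4 : Nat.card Z = 4 := by rw [cZ, C.cardM]
    have hZP : Z ≤ π.ker := Z8.le
    have hZn : Z.Normal := Z8.nK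
    have hZΩ : ¬ Z ≤ Ω := by
      intro h
      rcases Z8.irr hL C.surj C.nΩ h C.le with h1 | h1
      · have := C.cΩ; rw [h1, cZ4] at this; norm_num at this
      · have := C.cΩ; rw [h1, C.cP] at this; norm_num at this
    obtain ⟨z, hzZ, hzΩ⟩ := SetLike.not_le_iff_exists.1 hZΩ
    have hzP := hZP hzZ
    have hz2 : z ^ 2 = m := C.sqP z hzP hzΩ
    have hm2 : m ^ 2 = 1 := C.m2
    have hoz : orderOf z = 4 := by
      have h1 : z ^ 4 = 1 := by rw [show (4 : ℕ) = 2 * 2 from rfl, pow_mul, hz2, hm2]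
      have h2 : orderOf z ∣ 2 ^ 2 := orderOf_dvd_of_pow_eq_one h1
      obtain ⟨k, hk, hk'⟩ := (Nat.dvd_prime_pow Nat.prime_two).1 h2
      interval_cases k
      · exfalso
        have := pow_orderOf_eq_one z
        rw [hk'] at this
        apply hzΩ; rw [pow_zero, pow_one] at this; rw [this]; exact one_mem _
      · exfalso
        have := pow_orderOf_eq_one z
        rw [hk', pow_one, hz2] at this
        exact C.m1 this
      · exact hk'
    have hZz : zpowers z = Z := by
      apply Subgroup.eq_of_le_of_card_ge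
      · rw [zpowers_le]; exact hzZ
      · rw [cZ4, Nat.card_zpowers, hoz]
    have hz3 : z ^ 3 = z * m := by rw [pow_succ', hz2]
    have hconj : ∀ g : Y, g * z * g⁻¹ = z ∨ g * z * g⁻¹ = z * m := by
      intro g
      have h1 : g * z * g⁻¹ ∈ zpowers z := by rw [hZz]; exact hZn.conj_mem z hzZ g
      have h2 : g * z * g⁻¹ ∉ Ω := by
        intro h
        apply hzΩ
        have := C.nΩ.conj_mem _ h g⁻¹
        have h3 : g⁻¹ * (g * z * g⁻¹) * g⁻¹⁻¹ = z := by group
        rwa [h3] at this
      rw [← mem_powers_iff_mem_zpowers, mem_powers_iff_mem_range_orderOf, hoz] at h1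
      simp only [Finset.mem_image, Finset.mem_range] at h1
      obtain ⟨i, hi, h1⟩ := h1
      interval_cases i
      · exfalso; apply h2; rw [← h1, pow_zero]; exact one_mem _
      · left; rw [← h1, pow_one]
      · exfalso; apply h2; rw [← h1, hz2]; exact C.mΩ
      · right; rw [← h1, hz3]
    apply noc4 z hzP hzΩ
    apply central_of_two58 hL C.surj (z' := z * m) _ hconj
    · intro h
      exact C.m1 (mul_eq_left.1 h)
    · intro g hg
      have h1 : g * (z * m) * g⁻¹ = (g * z * g⁻¹) * m := by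
        rw [← mul_assoc, mul_assoc (g * z) m g⁻¹, ← C.mc g⁻¹]; group
      rw [h1, hg, mul_assoc, ← pow_two, hm2, mul_one]
    · intro p hp
      rw [C.ab p hp z hzP]; group

end Cfsg.Agent.Lib.H64L
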