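import Cfsg.Agent.Lib.H37C4O
import Cfsg.Agent.Lib.H64LN
import Cfsg.Agent.Lib.H64LL
import Cfsg.Agent.Lib.H64LO

/-!
# S3105, piece C4O (odd case)
-/

set_option autoImplicit false

namespace Cfsg.Agent.Lib.H64L

open Subgroup Cfsg

universe u v
variable {Y : Type u} {L : Type v} [Group Y] [Group L]

theorem c4_odd [Finite Y] (hL : IsL L) {π : Y →* L} {Ω : Subgroup Y} {m z : Y} (C : C48 π Ω m) (hz : z ∈ π.ker) (hzΩ : z ∉ Ω)
    (hzc : ∀ g : Y, g * z = z * g) {c : Y} (hc : orderOf (π c) = 4) (h4 : c ^ 4 ∉ Ω) : False := by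
  haveI : Finite L := Finite.of_surjective _ C.surj
  refine H37C4O.core C hz hzΩ hzc (fun K W N g h => N.faithful hL C.surj h) (fun K W N R hR h1 h2 => N.irr hL C.surj hR h1 h2)
    (fun t ht => hL.sqrt_inv ht) (fun c d h1 h2 => hL.conj_four h1 h2) (fun s t h1 h2 => hL.conj_inv h1 h2) (fun c h => hL.inverted h)
    ?_ hc h4
  exact orb hL C.surj (H37C4O.nat16 C hz hzΩ hzc)

end Cfsg.Agent.Lib.H64L
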