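import Cfsg.Agent.Lib.H64LA

/-! S3105: the determinant of the action on a homocyclic group of type (4,4,4) (helper64). -/

set_option autoImplicit false

namespace Cfsg.Agent.Lib.H64L

open Subgroup Cfsg Cfsg.Agent.Lib.SectRank Cfsg.Agent.Lib.H50Five

universe u v
variable {Y : Type u} [Group Y]

theorem Homo.mul_mem_iff {E M : Subgroup Y} (H : Homo E M) {x : Y} (hx : x ∈ E) (k : ℕ) :
    x ^ (2 * k) ∈ M := by
  rw [pow_mul]
  exact pow_mem (H.sqE x hx) k

/-- the elements of `E` in a coset of `M` -/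
theorem Homo.card_coset [Finite Y] {E M : Subgroup Y} (H : Homo E M) (a : Y) :
    {x : Y | x * a⁻¹ ∈ M}.ncard = 8 := by
  rw [← H.cM]
  have h1 : {x : Y | x * a⁻¹ ∈ M} = (fun m : Y => m * a) '' (M : Set Y) := by
    ext x
    constructor
    · intro hx
      exact ⟨x * a⁻¹, hx, by simp⟩
    · rintro ⟨m, hm, rfl⟩
      change m * a * a⁻¹ ∈ M
      simpa using hm
  rw [h1, Set.ncard_image_of_injective _ (mul_left_injective a)]
  rfl

theorem Homo.exists_ind [Finite Y] {E M : Subgroup Y} (H : Homo E M) :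
    ∃ a ∈ E, ∃ b ∈ E, ∃ c ∈ E, Ind M a b c := by
  have hE : (E : Set Y).ncard = 64 := H.cE
  -- first element
  have h1 : ∃ a ∈ E, a ∉ M := by
    by_contra hcon
    push Not at hcon
    have h2 : E ≤ M := hcon
    have h3 := Subgroup.card_le_of_le h2
    rw [H.cE, H.cM] at h3
    omega
  obtain ⟨a, ha, haM⟩ := h1
  have h2 : ∃ b ∈ E, b ∉ {x : Y | x * (1 : Y)⁻¹ ∈ M} ∪ {x : Y | x * a⁻¹ ∈ M} := by
    by_contra hcon
    push Not at hcon
    have h3 : (E : Set Y) ⊆ {x : Y | x * (1 : Y)⁻¹ ∈ M} ∪ {x : Y | x * a⁻¹ ∈ M} := hcon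
    have h4 := Set.ncard_le_ncard h3 (Set.toFinite _)
    have h5 := Set.ncard_union_le {x : Y | x * (1 : Y)⁻¹ ∈ M} {x : Y | x * a⁻¹ ∈ M}
    rw [H.card_coset, H.card_coset] at h5
    omega
  obtain ⟨b, hb, hbM⟩ := h2
  rw [Set.mem_union, not_or] at hbM
  obtain ⟨hb1, hb2⟩ := hbM
  have h3 : ∃ c ∈ E, c ∉ ({x : Y | x * (1 : Y)⁻¹ ∈ M} ∪ {x : Y | x * a⁻¹ ∈ M}) ∪
      ({x : Y | x * b⁻¹ ∈ M} ∪ {x : Y | x * (a * b)⁻¹ ∈ M}) := by
    by_contra hcon
    push Not at hcon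
    have h3 : (E : Set Y) ⊆ ({x : Y | x * (1 : Y)⁻¹ ∈ M} ∪ {x : Y | x * a⁻¹ ∈ M}) ∪
      ({x : Y | x * b⁻¹ ∈ M} ∪ {x : Y | x * (a * b)⁻¹ ∈ M}) := hcon
    have h4 := Set.ncard_le_ncard h3 (Set.toFinite _)
    have h5 := Set.ncard_union_le ({x : Y | x * (1 : Y)⁻¹ ∈ M} ∪ {x : Y | x * a⁻¹ ∈ M})
      ({x : Y | x * b⁻¹ ∈ M} ∪ {x : Y | x * (a * b)⁻¹ ∈ M})
    have h6 := Set.ncard_union_le {x : Y | x * (1 : Y)⁻¹ ∈ M} {x : Y | x * a⁻¹ ∈ M}
    have h7 := Set.ncard_union_le {x : Y | x * b⁻¹ ∈ M} {x : Y | x * (a * b)⁻¹ ∈ M}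
    rw [H.card_coset, H.card_coset] at h6 h7
    omega
  obtain ⟨c, hc, hcM⟩ := h3
  simp only [Set.mem_union, not_or, Set.mem_setOf_eq] at hcM
  obtain ⟨⟨hc1, hc2⟩, hc3, hc4⟩ := hcM
  have hb1' : b * (1 : Y)⁻¹ ∉ M := hb1
  have hb2' : b * a⁻¹ ∉ M := hb2
  rw [inv_one, mul_one] at hb1' hc1
  -- `x * y⁻¹ ∈ M ↔ y * x ∈ M`
  have key : ∀ x ∈ E, ∀ y ∈ E, y * x ∈ M → x * y⁻¹ ∈ M := by
    intro x hx y hy h
    have h1 : x * y⁻¹ = (y * x) * (y ^ 2)⁻¹ := by
      rw [H.ab y hy x hx, pow_two]; group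
    rw [h1]
    exact mul_mem h (inv_mem (H.sqE y hy))
  refine ⟨a, ha, b, hb, c, hc, haM, hb1', hc1, ?_, ?_, ?_, ?_⟩
  · intro h; exact hb2' (key b hb a ha h)
  · intro h; exact hc2 (key c hc a ha h)
  · intro h; exact hc3 (key c hc b hb h)
  · intro h; exact hc4 (key c hc (a * b) (mul_mem ha hb) h)

section
variable {E M : Subgroup Y}

/-- the parities -/
theorem Homo.even_of_mem (H : Homo E M) {a b c : Y} (ha : a ∈ E) (hb : b ∈ E) (hc : c ∈ E) (hi : Ind M a b c)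
    {i j k : ℕ} (h : a ^ i * b ^ j * c ^ k ∈ M) : Even i ∧ Even j ∧ Even k := by
  obtain ⟨h1, h2, h3, h4, h5, h6, h7⟩ := hi
  have red : ∀ x ∈ E, ∀ n : ℕ, ∃ m ∈ M, x ^ n = x ^ (n % 2) * m := by
    intro x hx n
    refine ⟨x ^ (2 * (n / 2)), ?_, ?_⟩
    · rw [pow_mul]; exact pow_mem (H.sqE x hx) _
    · rw [← pow_add]; congr 1; omega
  obtain ⟨m1, hm1, e1⟩ := red a ha i
  obtain ⟨m2, hm2, e2⟩ := red b hb j
  obtain ⟨m3, hm3, e3⟩ := red c hc k
  have hE := H.le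
  have e4 : a ^ i * b ^ j * c ^ k = (a ^ (i % 2) * b ^ (j % 2) * c ^ (k % 2)) * (m1 * m2 * m3) := by
    rw [e1, e2, e3]
    have c1 : m1 * b ^ (j % 2) = b ^ (j % 2) * m1 := H.ab _ (hE hm1) _ (pow_mem hb _)
    have c2 : (m1 * m2) * c ^ (k % 2) = c ^ (k % 2) * (m1 * m2) := H.ab _ (hE (mul_mem hm1 hm2)) _ (pow_mem hc _)
    calc a ^ (i % 2) * m1 * (b ^ (j % 2) * m2) * (c ^ (k % 2) * m3)
        = a ^ (i % 2) * (m1 * b ^ (j % 2)) * m2 * c ^ (k % 2) * m3 := by group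
      _ = a ^ (i % 2) * b ^ (j % 2) * ((m1 * m2) * c ^ (k % 2)) * m3 := by rw [c1]; group
      _ = _ := by rw [c2]; group
  have h8 : a ^ (i % 2) * b ^ (j % 2) * c ^ (k % 2) ∈ M := by
    rw [e4] at h
    exact (mul_mem_cancel_right (mul_mem (mul_mem hm1 hm2) hm3)).mp h
  rw [Nat.even_iff, Nat.even_iff, Nat.even_iff]
  rcases Nat.mod_two_eq_zero_or_one i with hi | hi <;> rcases Nat.mod_two_eq_zero_or_one j with hj | hj <;>
    rcases Nat.mod_two_eq_zero_or_one k with hk | hk <;> rw [hi, hj, hk] at h8 <;>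
    simp only [pow_zero, pow_one, one_mul, mul_one] at h8 <;> first | exact ⟨hi, hj, hk⟩ | exact absurd h8 ‹_›

theorem Homo.pow_four (H : Homo E M) {x : Y} (hx : x ∈ E) : x ^ 4 = 1 := by
  have := H.sqM _ (H.sqE x hx)
  rw [← pow_mul] at this
  exact this

theorem Homo.four_dvd (H : Homo E M) {a b c : Y} (ha : a ∈ E) (hb : b ∈ E) (hc : c ∈ E) (hi : Ind M a b c)
    {i j k : ℕ} (h : a ^ i * b ^ j * c ^ k = 1) : 4 ∣ i ∧ 4 ∣ j ∧ 4 ∣ k := by
  obtain ⟨⟨i', hi'⟩, ⟨j', hj'⟩, ⟨k', hk'⟩⟩ := H.even_of_mem ha hb hc hi (by rw [h]; exact one_mem _)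
  have h1 : (a ^ i' * b ^ j' * c ^ k') ^ 2 = 1 := by
    rw [← h, hi', hj', hk', pow_two]
    have c1 : c ^ k' * (a ^ i' * b ^ j') = (a ^ i' * b ^ j') * c ^ k' :=
      H.ab _ (pow_mem hc _) _ (mul_mem (pow_mem ha _) (pow_mem hb _))
    have c2 : b ^ j' * a ^ i' = a ^ i' * b ^ j' := H.ab _ (pow_mem hb _) _ (pow_mem ha _)
    calc a ^ i' * b ^ j' * c ^ k' * (a ^ i' * b ^ j' * c ^ k')
        = a ^ i' * b ^ j' * (c ^ k' * (a ^ i' * b ^ j')) * c ^ k' := by group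
      _ = a ^ i' * (b ^ j' * a ^ i') * b ^ j' * c ^ k' * c ^ k' := by rw [c1]; group
      _ = a ^ i' * a ^ i' * (b ^ j' * b ^ j') * (c ^ k' * c ^ k') := by rw [c2]; group
      _ = _ := by rw [← pow_add, ← pow_add, ← pow_add]
  have h2 := H.inv _ (mul_mem (mul_mem (pow_mem ha _) (pow_mem hb _)) (pow_mem hc _)) h1
  obtain ⟨⟨i2, hi2⟩, ⟨j2, hj2⟩, ⟨k2, hk2⟩⟩ := H.even_of_mem ha hb hc hi h2
  refine ⟨?_, ?_, ?_⟩ <;> omega

/-- the commutative group structure -/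
@[reducible] def Homo.cg (H : Homo E M) : CommGroup E :=
  { (inferInstance : Group E) with mul_comm := fun a b => Subtype.ext (H.ab a a.2 b b.2) }

theorem exists_det [Finite Y] (H : Homo E M) : ∃ χ : Y →* (ZMod 4)ˣ,
    (∀ e ∈ E, χ e = 1) ∧ (∀ z : Y, (∀ x ∈ E, z * x * z⁻¹ = x⁻¹) → χ z = -1) ∧
    (∀ (g e0 e1 e2 : Y) (A : Matrix (Fin 3) (Fin 3) ℕ), e0 ∈ E → e1 ∈ E → e2 ∈ E → Ind M e0 e1 e2 →
      g * e0 * g⁻¹ = e0 ^ A 0 0 * e1 ^ A 1 0 * e2 ^ A 2 0 → g * e1 * g⁻¹ = e0 ^ A 0 1 * e1 ^ A 1 1 * e2 ^ A 2 1 →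
      g * e2 * g⁻¹ = e0 ^ A 0 2 * e1 ^ A 1 2 * e2 ^ A 2 2 →
      (χ g : ZMod 4) = (A.map (Nat.cast : ℕ → ZMod 4)).det) := by
  classical
  have F14 : Fact (1 < 4) := ⟨by norm_num⟩
  let _ : CommGroup E := H.cg
  have hEn := H.nE
  have h4 : ∀ x : Additive E, 4 • x = 0 := by
    intro x
    change Additive.ofMul ((Additive.toMul x) ^ 4) = 0
    have : (Additive.toMul x) ^ 4 = 1 := Subtype.ext (H.pow_four (Additive.toMul x).2)
    rw [this]; rfl
  let _ : Module (ZMod 4) (Additive E) := AddCommGroup.zmodModule h4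
  -- the action
  let act : Y → (Additive E →+ Additive E) := fun g => MonoidHom.toAdditive (MulAut.conjNormal g : MulAut E).toMonoidHom
  have hact : ∀ (g : Y) (x : E), act g (Additive.ofMul x) = Additive.ofMul (⟨g * x * g⁻¹, hEn.conj_mem x x.2 g⟩ : E) :=
    fun g x => rfl
  let δ : Y →* Module.End (ZMod 4) (Additive E) :=
    { toFun := fun g => (act g).toZModLinearMap 4
      map_one' := by
        apply LinearMap.ext
        intro x
        change act 1 x = x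
        obtain ⟨x, rfl⟩ := Additive.ofMul.surjective x
        rw [hact]
        congr 1
        apply Subtype.ext
        change 1 * (x : Y) * 1⁻¹ = x
        group
      map_mul' := by
        intro a b
        apply LinearMap.ext
        intro x
        change act (a * b) x = act a (act b x)
        obtain ⟨x, rfl⟩ := Additive.ofMul.surjective x
        rw [hact, hact, hact]
        congr 1
        apply Subtype.ext
        change a * b * x * (a * b)⁻¹ = a * (b * x * b⁻¹) * a⁻¹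
        group }
  have hδ : ∀ (g : Y) (x : E), δ g (Additive.ofMul x) = Additive.ofMul (⟨g * x * g⁻¹, hEn.conj_mem x x.2 g⟩ : E) :=
    fun g x => rfl
  let χ : Y →* (ZMod 4)ˣ := ((LinearMap.det : Module.End (ZMod 4) (Additive E) →* ZMod 4).comp δ).toHomUnits
  have hχ : ∀ g, (χ g : ZMod 4) = LinearMap.det (δ g) := fun g => rfl
  -- bases
  have hbasis : ∀ a b c : E, Ind M (a : Y) b c → ∃ B : Module.Basis (Fin 3) (ZMod 4) (Additive E),
      B 0 = Additive.ofMul a ∧ B 1 = Additive.ofMul b ∧ B 2 = Additive.ofMul c := by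
    intro a b c hi
    let v : Fin 3 → Additive E := ![Additive.ofMul a, Additive.ofMul b, Additive.ofMul c]
    let φ : (Fin 3 → ZMod 4) →ₗ[ZMod 4] Additive E := Fintype.linearCombination (ZMod 4) v
    have hφ : ∀ f : Fin 3 → ZMod 4, φ f = Additive.ofMul (a ^ (f 0).val * b ^ (f 1).val * c ^ (f 2).val) := by
      intro f
      rw [Fintype.linearCombination_apply, Fin.sum_univ_three]
      have hs : ∀ (n : ZMod 4) (x : Additive E), n • x = n.val • x := by
        intro n x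
        conv_lhs => rw [← ZMod.natCast_zmod_val n]
        exact Nat.cast_smul_eq_nsmul (ZMod 4) n.val x
      rw [hs, hs, hs]
      rfl
    have hinj : Function.Injective φ := by
      rw [← LinearMap.ker_eq_bot, LinearMap.ker_eq_bot']
      intro f hf
      rw [hφ] at hf
      have h5 : (a : Y) ^ (f 0).val * (b : Y) ^ (f 1).val * (c : Y) ^ (f 2).val = 1 := by
        have h6 : a ^ (f 0).val * b ^ (f 1).val * c ^ (f 2).val = 1 := Additive.ofMul.injective hf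
        exact congrArg Subtype.val h6
      obtain ⟨h6, h7, h8⟩ := H.four_dvd a.2 b.2 c.2 hi h5
      funext i
      have hz : ∀ x : ZMod 4, 4 ∣ x.val → x = 0 := by decide
      fin_cases i
      · exact hz _ h6
      · exact hz _ h7
      · exact hz _ h8
    have hcard : Nat.card (Fin 3 → ZMod 4) = Nat.card (Additive E) := by
      have : Nat.card (Additive E) = 64 := H.cE
      rw [this, Nat.card_eq_fintype_card, Fintype.card_fun, ZMod.card, Fintype.card_fin]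
      norm_num
    have hbij : Function.Bijective φ := by
      rw [Nat.bijective_iff_injective_and_card]
      exact ⟨hinj, hcard⟩
    let e := LinearEquiv.ofBijective φ hbij
    refine ⟨Module.Basis.ofEquivFun e.symm, ?_, ?_, ?_⟩
    · rw [Module.Basis.coe_ofEquivFun]
      change φ (Pi.single 0 1) = _
      rw [hφ]
      simp [show (1 : ZMod 4).val = 1 from rfl]
    · rw [Module.Basis.coe_ofEquivFun]
      change φ (Pi.single 1 1) = _
      rw [hφ]
      simp [show (1 : ZMod 4).val = 1 from rfl]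
    · rw [Module.Basis.coe_ofEquivFun]
      change φ (Pi.single 2 1) = _
      rw [hφ]
      simp [show (1 : ZMod 4).val = 1 from rfl]
  refine ⟨χ, ?_, ?_, ?_⟩
  · intro e he
    apply Units.ext
    rw [hχ]
    have h5 : δ e = 1 := by
      apply LinearMap.ext
      intro x
      obtain ⟨x, rfl⟩ := Additive.ofMul.surjective x
      rw [hδ]
      change _ = Additive.ofMul x
      congr 1
      apply Subtype.ext
      change e * x * e⁻¹ = x
      rw [H.ab e he x x.2]; group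
    rw [h5, map_one]; rfl
  · intro z hz
    apply Units.ext
    rw [hχ]
    obtain ⟨a, ha, b, hb, c, hc, hi⟩ := H.exists_ind
    obtain ⟨B, -⟩ := hbasis ⟨a, ha⟩ ⟨b, hb⟩ ⟨c, hc⟩ hi
    have h5 : δ z = (-1 : ZMod 4) • (1 : Module.End (ZMod 4) (Additive E)) := by
      apply LinearMap.ext
      intro x
      obtain ⟨x, rfl⟩ := Additive.ofMul.surjective x
      rw [hδ]
      rw [neg_one_smul]
      change _ = -Additive.ofMul x
      change _ = Additive.ofMul x⁻¹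
      congr 1
      apply Subtype.ext
      exact hz x x.2
    have hfree : Module.Free (ZMod 4) (Additive E) := Module.Free.of_basis B
    rw [h5, LinearMap.det_smul, Module.finrank_eq_card_basis B, map_one, Fintype.card_fin]
    rfl
  · intro g e0 e1 e2 A h0 h1 h2 hi g0 g1 g2
    obtain ⟨B, b0, b1, b2⟩ := hbasis ⟨e0, h0⟩ ⟨e1, h1⟩ ⟨e2, h2⟩ hi
    rw [hχ, ← LinearMap.det_toMatrix B]
    congr 1
    have hBj : ∀ j : Fin 3, δ g (B j) = ∑ i, ((A i j : ℕ) : ZMod 4) • B i := by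
      intro j
      rw [Fin.sum_univ_three, Nat.cast_smul_eq_nsmul, Nat.cast_smul_eq_nsmul, Nat.cast_smul_eq_nsmul, b0, b1, b2]
      fin_cases j
      · change δ g (B 0) = _
        rw [b0, hδ]
        change _ = Additive.ofMul ((⟨e0, h0⟩ : E) ^ A 0 0 * (⟨e1, h1⟩ : E) ^ A 1 0 * (⟨e2, h2⟩ : E) ^ A 2 0)
        congr 1
        exact Subtype.ext g0
      · change δ g (B 1) = _
        rw [b1, hδ]
        change _ = Additive.ofMul ((⟨e0, h0⟩ : E) ^ A 0 1 * (⟨e1, h1⟩ : E) ^ A 1 1 * (⟨e2, h2⟩ : E) ^ A 2 1)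
        congr 1
        exact Subtype.ext g1
      · change δ g (B 2) = _
        rw [b2, hδ]
        change _ = Additive.ofMul ((⟨e0, h0⟩ : E) ^ A 0 2 * (⟨e1, h1⟩ : E) ^ A 1 2 * (⟨e2, h2⟩ : E) ^ A 2 2)
        congr 1
        exact Subtype.ext g2
    ext i j
    rw [LinearMap.toMatrix_apply, hBj j, map_sum, Matrix.map_apply, Finsupp.finsetSum_apply]
    simp [Finsupp.single_apply]

end

end Cfsg.Agent.Lib.H64L
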