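import Mathlib

/-! S3105, piece iso48 (helper47). -/

set_option autoImplicit false

namespace Cfsg.Agent.Lib.H64L

open Subgroup

theorem iso48 {P : Type*} [Group P] [Finite P] (Ω : Subgroup P) (m : P) (hc : Nat.card P = 32) (hΩ : Nat.card Ω = 16)
    (hab : ∀ x y : P, x * y = y * x) (hsq : ∀ x ∈ Ω, x ^ 2 = 1) (hm : m ∈ Ω) (hm1 : m ≠ 1) (hx : ∀ x, x ∉ Ω → x ^ 2 = m) :
    Nonempty (P ≃* Multiplicative (ZMod 4) × (Fin 3 → Multiplicative (ZMod 2))) := by
  classical
  let _ : CommGroup P := { (inferInstance : Group P) with mul_comm := hab }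
  -- the element of order 4
  obtain ⟨z, hz⟩ : ∃ z, z ∉ Ω := by
    by_contra h
    push Not at h
    have : Ω = ⊤ := by rw [eq_top_iff]; exact fun x _ => h x
    rw [this, Subgroup.card_top, hc] at hΩ
    norm_num at hΩ
  have hz2 : z ^ 2 = m := hx z hz
  have hz4 : z ^ 4 = 1 := by rw [show 4 = 2 * 2 by norm_num, pow_mul, hz2, hsq m hm]
  let _ : Module (ZMod 2) (Additive Ω) := AddCommGroup.zmodModule (n := 2) (by
    intro x
    apply Additive.toMul.injective
    apply Subtype.ext
    have := hsq (Additive.toMul x : Ω) (Additive.toMul x : Ω).2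
    simpa using this)
  let m' : Additive Ω := Additive.ofMul ⟨m, hm⟩
  have hm' : m' ≠ 0 := by
    intro h
    apply hm1
    have := congrArg (fun y : Additive Ω => ((Additive.toMul y : Ω) : P)) h
    simpa [m'] using this
  obtain ⟨C, hC⟩ := Submodule.exists_isCompl (Submodule.span (ZMod 2) {m'})
  have hfr : Module.finrank (ZMod 2) (Additive Ω) = 4 := by
    have h1 := Module.natCard_eq_pow_finrank (K := ZMod 2) (V := Additive Ω)
    have h2 : Nat.card (Additive Ω) = 16 := hΩ
    have h3 : Nat.card (ZMod 2) = 2 := by simp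
    rw [h2, h3, show 16 = 2 ^ 4 by norm_num] at h1
    exact (Nat.pow_right_injective (le_refl 2) h1).symm
  have hfC : Module.finrank (ZMod 2) C = 3 := by
    have h1 := Submodule.finrank_add_eq_of_isCompl hC
    rw [finrank_span_singleton hm', hfr] at h1
    omega
  let b := Module.finBasisOfFinrankEq (ZMod 2) C hfC
  let g1 : Multiplicative (ZMod 4) →* P :=
    AddMonoidHom.toMultiplicativeLeft (ZMod.lift 4 ⟨zmultiplesHom (Additive P) (Additive.ofMul z), by
      change (4 : ℤ) • Additive.ofMul z = 0
      apply Additive.toMul.injective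
      simpa using hz4⟩)
  let g2 : (Fin 3 → Multiplicative (ZMod 2)) →* P :=
    { toFun := fun f => ((Additive.toMul ((b.equivFun.symm (fun i => Multiplicative.toAdd (f i)) : C) : Additive Ω) : Ω) : P)
      map_one' := by
        have : (fun i : Fin 3 => Multiplicative.toAdd ((1 : Fin 3 → Multiplicative (ZMod 2)) i)) = 0 := rfl
        rw [this, map_zero]
        rfl
      map_mul' := by
        intro x y
        have : (fun i : Fin 3 => Multiplicative.toAdd ((x * y) i)) =
          (fun i : Fin 3 => Multiplicative.toAdd (x i)) + (fun i : Fin 3 => Multiplicative.toAdd (y i)) := rfl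
        rw [this, map_add]
        rfl }
  have hg1 : ∀ k : ZMod 4, g1 (Multiplicative.ofAdd k) = z ^ k.val := by
    intro k
    change Additive.toMul (ZMod.lift 4 _ k) = z ^ k.val
    conv_lhs => rw [← ZMod.natCast_zmod_val k]
    have : ((k.val : ℕ) : ZMod 4) = (((k.val : ℕ) : ℤ) : ZMod 4) := by simp
    rw [this, ZMod.lift_coe]
    exact zpow_natCast z k.val
  have hg2 : ∀ f, ∃ c : C, g2 f = ((Additive.toMul (c : Additive Ω) : Ω) : P) ∧ (c = 0 → f = 1) := by
    intro f
    refine ⟨b.equivFun.symm (fun i => Multiplicative.toAdd (f i)), rfl, ?_⟩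
    intro h
    have h1 := b.equivFun.symm.injective (h.trans (map_zero b.equivFun.symm).symm)
    funext i
    have h2 := congrFun h1 i
    exact h2
  let φ : Multiplicative (ZMod 4) × (Fin 3 → Multiplicative (ZMod 2)) →* P := g1.coprod g2
  have hφ : Function.Injective φ := by
    rw [injective_iff_map_eq_one]
    rintro ⟨a, f⟩ h
    obtain ⟨c, hc1, hc2⟩ := hg2 f
    change g1 a * g2 f = 1 at h
    obtain ⟨k, rfl⟩ : ∃ k, Multiplicative.ofAdd k = a := ⟨Multiplicative.toAdd a, rfl⟩
    rw [hg1, hc1] at h
    have hcΩ : ((Additive.toMul (c : Additive Ω) : Ω) : P) ∈ Ω := (Additive.toMul (c : Additive Ω) : Ω).2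
    have hkΩ : z ^ k.val ∈ Ω := by
      rw [mul_eq_one_iff_eq_inv] at h
      rw [h]
      exact inv_mem hcΩ
    have hz2Ω : z ^ 2 ∈ Ω := by rw [hz2]; exact hm
    have hk4 : k.val < 4 := ZMod.val_lt k
    have hk : k.val = 0 ∨ k.val = 2 := by
      rcases (by omega : k.val = 0 ∨ k.val = 1 ∨ k.val = 2 ∨ k.val = 3) with h1 | h1 | h1 | h1
      · exact Or.inl h1
      · rw [h1, pow_one] at hkΩ; exact absurd hkΩ hz
      · exact Or.inr h1
      · exfalso
        apply hz
        rw [h1, pow_succ] at hkΩ
        exact (Subgroup.mul_mem_cancel_left Ω hz2Ω).1 hkΩ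
    rcases hk with h1 | h1
    · rw [h1, pow_zero, one_mul] at h
      have h2 : c = 0 := by
        apply Subtype.ext
        apply Additive.toMul.injective
        apply Subtype.ext
        simpa using h
      rw [hc2 h2]
      have h3 : k = 0 := (ZMod.val_eq_zero k).1 h1
      rw [h3]
      rfl
    · exfalso
      rw [h1, hz2] at h
      have h2 : m' + (c : Additive Ω) = 0 := by
        apply Additive.toMul.injective
        apply Subtype.ext
        simpa [m'] using h
      have h3 : m' ∈ C := by
        have : m' = -(c : Additive Ω) := by rw [eq_neg_iff_add_eq_zero, h2]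
        rw [this]
        exact C.neg_mem c.2
      exact hm' ((Submodule.disjoint_def.1 hC.disjoint) m' (Submodule.mem_span_singleton_self m') h3)
  have hcard : Nat.card (Multiplicative (ZMod 4) × (Fin 3 → Multiplicative (ZMod 2))) = Nat.card P := by
    rw [hc, Nat.card_prod, Nat.card_pi]
    simp
  exact ⟨(MulEquiv.ofBijective φ ((Nat.bijective_iff_injective_and_card φ).2 ⟨hφ, hcard⟩)).symm⟩

end Cfsg.Agent.Lib.H64L
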