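import Cfsg.Agent.Lib.H53MLA2
import Cfsg.Agent.Lib.H64LD

/-! S3105 piece MLA: `exists_inv`. -/

set_option autoImplicit false

namespace Cfsg.Agent.Lib.H64L

open Subgroup

universe u v
variable {Y : Type u} {L : Type v} [Group Y] [Group L]

theorem exists_inv [Finite Y] (hL : IsL L) {π : Y →* L} (hs : Function.Surjective π) {M : Subgroup Y}
    (H : Homo π.ker M) (N : Nat8 π M π.ker) : ∃ t : Y, t ^ 2 = 1 ∧ t ∉ π.ker :=
  exists_inv_of_det hL hs H N (exists_det H)

end Cfsg.Agent.Lib.H64L
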