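import Cfsg.Agent.Lib.H66MLB
import Cfsg.Agent.Lib.H64LN

/-! S3105, piece MLB (helper66): `ml_b` -/

set_option autoImplicit false

namespace Cfsg.Agent.Lib.H64L

open Subgroup Cfsg Cfsg.Agent.Lib.SectRank Cfsg.Agent.Lib.H50Five

universe u v
variable {Y : Type u} {L : Type v} [Group Y] [Group L]

theorem ml_b [Finite Y] (hL : IsL L) {π : Y →* L} (hs : Function.Surjective π) (hr : RankIn 2 4 (⊤ : Subgroup Y))
    {M : Subgroup Y} (H : Homo π.ker M) (N : Nat8 π M π.ker) {t : Y} (ht : t ^ 2 = 1) (ht' : t ∉ π.ker) : False :=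
  H66ML.ml_b_of hr H (fun _ hg => N.faithful hL hs hg)
    (fun _ _ _ _ _ _ ha hb hc ha' hb' hc' h h' => N.trans hL hs ha hb hc ha' hb' hc' h h') ht ht'

end Cfsg.Agent.Lib.H64L
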