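import Cfsg.Agent.Lib.H64LC
import Cfsg.Agent.Lib.H50FiveC

/-! S3105: quotients of the main situation, `|P/℧(P)| ∈ {8, 16}` (helper64). -/

set_option autoImplicit false

namespace Cfsg.Agent.Lib.H64L

open Subgroup Cfsg Cfsg.Agent.Lib.SectRank Cfsg.Agent.Lib.H50Five

universe u v
variable {Y : Type u} {L : Type v} [Group Y] [Group L] {π : Y →* L}

/-- `π` on `Y / M` -/
def ql (M : Subgroup Y) [M.Normal] (hM : M ≤ π.ker) : Y ⧸ M →* L := QuotientGroup.lift M π hM

theorem ql_mk (M : Subgroup Y) [M.Normal] (hM : M ≤ π.ker) (y : Y) : ql M hM (QuotientGroup.mk' M y) = π y := rfl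

theorem ql_surj (hs : Function.Surjective π) (M : Subgroup Y) [M.Normal] (hM : M ≤ π.ker) :
    Function.Surjective (ql M hM) := by
  intro a
  obtain ⟨y, hy⟩ := hs a
  exact ⟨QuotientGroup.mk' M y, hy⟩

theorem ker_ql (M : Subgroup Y) [M.Normal] (hM : M ≤ π.ker) : (ql M hM).ker = π.ker.map (QuotientGroup.mk' M) := by
  ext x
  obtain ⟨y, rfl⟩ := QuotientGroup.mk'_surjective M x
  rw [MonoidHom.mem_ker, ql_mk]
  constructor
  · intro h
    exact mem_map_of_mem _ h
  · rintro ⟨z, hz, hzy⟩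
    have h1 : π z = π y := by rw [← ql_mk M hM, ← ql_mk M hM, hzy]
    rw [← h1]; exact hz

theorem sq_ker_ql (M : Subgroup Y) [M.Normal] (hM : M ≤ π.ker) :
    H50Five.sq (ql M hM).ker = (H50Five.sq π.ker).map (QuotientGroup.mk' M) := by
  rw [ker_ql, sq_map]

theorem Sit.quot (S : Sit π) (M : Subgroup Y) [M.Normal] (hM : M ≤ H50Five.sq π.ker) :
    Sit (ql M (hM.trans (sq_le π.ker))) := by
  have hMP := hM.trans (sq_le π.ker)
  constructor
  · exact ql_surj S.surj M _
  · rw [ker_ql]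
    exact S.pg.map _
  · exact rankIn_quot M S.rank
  · intro f h
    obtain ⟨g, rfl⟩ := QuotientGroup.mk'_surjective M f
    rw [ker_ql, mem_map_mk hMP]
    apply S.free
    intro x hx
    have h2 := h (QuotientGroup.mk' M x) (by rw [ker_ql]; exact mem_map_of_mem _ hx)
    rw [sq_ker_ql, ← map_inv, ← map_inv, ← map_mul, ← map_mul, ← map_mul, mem_map_mk hM] at h2
    exact h2

theorem Sit.idx [Finite Y] (S : Sit π) : (H50Five.sq π.ker).relIndex π.ker ≤ 16 := by
  have := S.rank (H50Five.sq π.ker) π.ker (sq_le _) le_top (fun x hx => sq_mem hx) (fun x hx y hy => comm_mem hx hy)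
  exact this

theorem IsL.finite (hL : IsL L) : Finite L := Nat.finite_of_card_ne_zero (by rw [hL.card]; norm_num)

theorem IsL.exists_order (hL : IsL L) (p : ℕ) [hp : Fact p.Prime] (h : p ∣ 168) : ∃ f : L, orderOf f = p := by
  have := hL.finite
  exact exists_prime_orderOf_dvd_card' p (by rw [hL.card]; exact h)

/-- an element of order 7 acts trivially on a set of cosets with few elements -/
theorem Sit.card_cases [Finite Y] (hL : IsL L) (S : Sit π) :
    Nat.card π.ker = 8 * Nat.card (H50Five.sq π.ker) ∨ Nat.card π.ker = 16 * Nat.card (H50Five.sq π.ker) := by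
  have F2 : Fact (Nat.Prime 2) := ⟨Nat.prime_two⟩
  have F7 : Fact (Nat.Prime 7) := ⟨by norm_num⟩
  have hK : (H50Five.sq π.ker).Normal := sq_normal inferInstance
  have hPn : π.ker.Normal := inferInstance
  have h1 := S.idx
  have h2 := relIndex_mul_relIndex (⊥ : Subgroup Y) (H50Five.sq π.ker) π.ker bot_le (sq_le _)
  rw [relIndex_bot_left, relIndex_bot_left] at h2
  have h3 : ∃ k, (H50Five.sq π.ker).relIndex π.ker = 2 ^ k := by
    obtain ⟨a, ha⟩ := IsPGroup.iff_card.mp S.pg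
    rw [ha] at h2
    obtain ⟨k, _, hk⟩ := (Nat.dvd_prime_pow Nat.prime_two).mp (Dvd.intro_left _ h2)
    exact ⟨k, hk⟩
  obtain ⟨k, hk⟩ := h3
  rw [hk] at h1 h2
  have hk4 : k ≤ 4 := by
    by_contra hcon
    have : 2 ^ 5 ≤ 2 ^ k := Nat.pow_le_pow_right (by norm_num) (by omega)
    omega
  by_cases hk3 : 3 ≤ k
  · have : k = 3 ∨ k = 4 := by omega
    rcases this with rfl | rfl
    · left; rw [← h2]; ring
    · right; rw [← h2]; ring
  exfalso
  -- the action of an element of order 7 on the cosets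
  obtain ⟨f₀, hf₀⟩ := hL.exists_order 7 (by norm_num)
  obtain ⟨f, rfl⟩ := S.surj f₀
  have hf7 : f ^ 7 ∈ π.ker := by
    rw [MonoidHom.mem_ker, map_pow, ← hf₀, pow_orderOf_eq_one]
  let m := QuotientGroup.mk' (H50Five.sq π.ker)
  let V := π.ker.map m
  have hVn : V.Normal := hPn.map m (QuotientGroup.mk'_surjective _)
  have hVc : Nat.card V = 2 ^ k := by
    have h4 := card_map_mk (sq_le π.ker) (K := π.ker)
    have h5 : 0 < Nat.card (H50Five.sq π.ker) := Nat.card_pos
    rw [← h2] at h4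
    exact Nat.eq_of_mul_eq_mul_left h5 h4
  let σ : Equiv.Perm V := (MulAut.conjNormal (m f) : MulAut V).toEquiv
  have hσ : ∀ (x : V), ((σ x : V) : Y ⧸ H50Five.sq π.ker) = m f * x * (m f)⁻¹ := fun x => rfl
  have hσn : ∀ (n : ℕ) (x : V), (((σ ^ n) x : V) : Y ⧸ H50Five.sq π.ker) = (m f) ^ n * x * ((m f) ^ n)⁻¹ := by
    intro n
    induction n with
    | zero => intro x; simp
    | succ n ih =>
      intro x
      rw [pow_succ, Equiv.Perm.mul_apply, ih, hσ, pow_succ]
      group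
  have h7 : σ ^ 7 = 1 := by
    ext x
    rw [hσn]
    obtain ⟨y, hy, hyx⟩ := x.2
    change _ = (x : Y ⧸ H50Five.sq π.ker)
    rw [← hyx, ← map_pow, ← map_inv, ← map_mul, ← map_mul]
    have h8 : f ^ 7 * y * (f ^ 7)⁻¹ * y⁻¹ ∈ H50Five.sq π.ker := comm_mem hf7 hy
    have h9 : m (f ^ 7 * y * (f ^ 7)⁻¹ * y⁻¹) = 1 := (QuotientGroup.eq_one_iff _).mpr h8
    rw [map_mul, map_inv, mul_inv_eq_one] at h9
    exact h9
  have h8 : orderOf σ ∣ 7 := orderOf_dvd_of_pow_eq_one h7
  have hσ1 : σ = 1 := by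
    rcases (Nat.dvd_prime (by norm_num)).mp h8 with h | h
    · exact orderOf_eq_one_iff.mp h
    · exfalso
      have h9 : orderOf σ ∣ Nat.card (Equiv.Perm V) := orderOf_dvd_natCard σ
      rw [h, Nat.card_perm, hVc] at h9
      have : k = 0 ∨ k = 1 ∨ k = 2 := by omega
      rcases this with rfl | rfl | rfl
      · exact absurd h9 (by decide)
      · exact absurd h9 (by decide)
      · exact absurd h9 (by decide)
  have h9 : f ∈ π.ker := by
    apply S.free
    intro x hx
    have h10 : ((σ ⟨m x, mem_map_of_mem m hx⟩ : V) : Y ⧸ H50Five.sq π.ker) = m x := by rw [hσ1]; rfl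
    rw [hσ] at h10
    change m f * m x * (m f)⁻¹ = m x at h10
    rw [← mul_inv_eq_one, ← map_inv, ← map_inv, ← map_mul, ← map_mul, ← map_mul] at h10
    exact (QuotientGroup.eq_one_iff _).mp h10
  rw [MonoidHom.mem_ker] at h9
  rw [h9, orderOf_one] at hf₀
  exact absurd hf₀ (by norm_num)

theorem Sit.nt (hL : IsL L) (S : Sit π) : ∃ g : Y, ∃ x ∈ π.ker, g * x * g⁻¹ * x⁻¹ ∉ H50Five.sq π.ker := by
  by_contra hcon
  push Not at hcon
  have F7 : Fact (Nat.Prime 7) := ⟨by norm_num⟩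
  obtain ⟨f₀, hf₀⟩ := hL.exists_order 7 (by norm_num)
  obtain ⟨f, rfl⟩ := S.surj f₀
  have h := S.free f (hcon f)
  rw [MonoidHom.mem_ker] at h
  rw [h, orderOf_one] at hf₀
  exact absurd hf₀ (by norm_num)

theorem Sit.nat8 (hL : IsL L) (S : Sit π) (h : Nat.card π.ker = 8 * Nat.card (H50Five.sq π.ker)) :
    Nat8 π (H50Five.sq π.ker) π.ker where
  nK := sq_normal inferInstance
  nW := inferInstance
  le := sq_le _
  card := h
  sq := fun x hx => sq_mem hx
  triv := fun p hp x hx => comm_mem hp hx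
  nt := S.nt hL

theorem Sit.nat16 (hL : IsL L) (S : Sit π) (h : Nat.card π.ker = 16 * Nat.card (H50Five.sq π.ker)) :
    Nat16 π (H50Five.sq π.ker) π.ker where
  nK := sq_normal inferInstance
  nW := inferInstance
  le := sq_le _
  card := h
  sq := fun x hx => sq_mem hx
  triv := fun p hp x hx => comm_mem hp hx
  nt := S.nt hL

end Cfsg.Agent.Lib.H64L
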