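import Cfsg.Agent.Lib.H22BC
import Cfsg.Agent.Lib.H22LIN
import Cfsg.Agent.Lib.H24T2
import Cfsg.Agent.Lib.H64LA
import Cfsg.Agent.Lib.H64LBA
import Cfsg.Agent.Lib.H64LBI
import Cfsg.Agent.Lib.H64LC
import Cfsg.Agent.Lib.H64LCE
import Cfsg.Agent.Lib.H64LCL
import Cfsg.Agent.Lib.H64LD
import Cfsg.Agent.Lib.H64LG
import Cfsg.Agent.Lib.H64LIso
import Cfsg.Agent.Lib.H64LL
import Cfsg.Agent.Lib.H64LMA
import Cfsg.Agent.Lib.H64LMB
import Cfsg.Agent.Lib.H64LMN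
import Cfsg.Agent.Lib.H64LN
import Cfsg.Agent.Lib.H64LN2
import Cfsg.Agent.Lib.H64LO
import Cfsg.Agent.Lib.H64LV
import Cfsg.Agent.Lib.H64LCO

/-! S3105: assembly (helper64). -/

set_option autoImplicit false

namespace Cfsg.Agent.Lib.H64L

open Subgroup Cfsg Cfsg.Agent.Lib.SectRank Cfsg.Agent.Lib.H50Five

universe u v
variable {Y : Type u} {L : Type v} [Group Y] [Group L] {π : Y →* L}

/-! ### Homo -/

theorem sq_class {E M : Subgroup Y} (H : Homo E M) {x k : Y} (hx : x ∈ E) (hk : k ∈ M) : (k * x) ^ 2 = x ^ 2 := by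
  have h1 : k * x = x * k := H.ab k (H.le hk) x hx
  have h2 : k ^ 2 = 1 := H.sqM k hk
  calc (k * x) ^ 2 = k * (x * k) * x := by rw [pow_two]; group
    _ = k ^ 2 * x ^ 2 := by rw [← h1, pow_two, pow_two]; group
    _ = x ^ 2 := by rw [h2, one_mul]

/-- squaring is onto `M` -/
theorem Homo.exists_sq [Finite Y] {E M : Subgroup Y} (H : Homo E M) {m : Y} (hm : m ∈ M) : ∃ x ∈ E, x ^ 2 = m := by
  have hmul : ∀ a b : E, a * b = b * a := fun a b => Subtype.ext (H.ab a a.2 b b.2)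
  let φ : E →* M := MonoidHom.mk' (fun x => (⟨(x : Y) ^ 2, H.sqE x x.2⟩ : M)) (by
    intro a b
    apply Subtype.ext
    change ((a : Y) * b) ^ 2 = (a : Y) ^ 2 * (b : Y) ^ 2
    have := H.ab a a.2 b b.2
    calc ((a : Y) * b) ^ 2 = a * (b * a) * b := by rw [pow_two]; group
      _ = (a : Y) ^ 2 * (b : Y) ^ 2 := by rw [← this, pow_two, pow_two]; group)
  have hker : Nat.card φ.ker = 8 := by
    rw [← H.cM]
    apply Nat.card_congr
    refine ⟨fun x => ⟨x.1, ?_⟩, fun x => ⟨⟨x.1, H.le x.2⟩, ?_⟩, fun x => rfl, fun x => rfl⟩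
    · apply H.inv _ x.1.2
      have := x.2
      rw [MonoidHom.mem_ker] at this
      exact congrArg Subtype.val this
    · rw [MonoidHom.mem_ker]
      exact Subtype.ext (H.sqM x.1 x.2)
  have h1 := Subgroup.card_eq_card_quotient_mul_card_subgroup φ.ker
  rw [hker, H.cE] at h1
  have h2 : Nat.card φ.range = 8 := by
    rw [← Nat.card_congr (QuotientGroup.quotientKerEquivRange φ).toEquiv]
    omega
  have h3 : φ.range = ⊤ := by
    apply Subgroup.eq_top_of_card_eq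
    rw [h2, H.cM]
  have h4 : (⟨m, hm⟩ : M) ∈ φ.range := by rw [h3]; exact mem_top _
  obtain ⟨x, hx⟩ := h4
  exact ⟨x, x.2, congrArg Subtype.val hx⟩

theorem Homo.nat8 [Finite Y] {M : Subgroup Y} (H : Homo π.ker M)
    (nt : ∃ g : Y, ∃ m ∈ M, g * m * g⁻¹ * m⁻¹ ≠ 1) : Nat8 π M π.ker where
  nK := H.nM
  nW := H.nE
  le := H.le
  card := by rw [H.cE, H.cM]
  sq := H.sqE
  triv := by
    intro p hp x hx
    rw [H.ab p hp x hx]
    simp
  nt := by
    by_contra hcon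
    push Not at hcon
    obtain ⟨g, m, hm, h⟩ := nt
    apply h
    obtain ⟨x, hx, rfl⟩ := H.exists_sq hm
    have h1 := hcon g x hx
    have h2 := sq_class H hx h1
    have h3 : g * x * g⁻¹ * x⁻¹ * x = g * x * g⁻¹ := by group
    rw [h3] at h2
    have h4 : g * x ^ 2 * g⁻¹ = (g * x * g⁻¹) ^ 2 := by simp only [pow_two]; group
    rw [h4, h2]; group

theorem no_alpha (hL : IsL L) (Y1 : Type u) [Group Y1] [Finite Y1] (π1 : Y1 →* L) (M1 : Subgroup Y1)
    (hs : Function.Surjective π1) (hr : RankIn 2 4 (⊤ : Subgroup Y1)) (H : Homo π1.ker M1)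
    (nt : ∃ g : Y1, ∃ m ∈ M1, g * m * g⁻¹ * m⁻¹ ≠ 1) : False := by
  have N := H.nat8 nt
  obtain ⟨t, ht, ht'⟩ := exists_inv hL hs H N
  exact ml_b hL hs hr H N ht ht'

theorem no_beta [Finite Y] (hL : IsL L) {M : Subgroup Y} (B : Beta π M) : False := by
  rcases beta_cases hL B with ⟨E, H, hE, z, hz, hzE, hi⟩ | ⟨hab, Z, nZ, hMZ, hZ, cZ, sqZ, inv⟩
  · exact beta_inv hL B H hE hz hzE hi (fun Y1 _ _ π1 M1 a b c d => no_alpha hL Y1 π1 M1 a b c d)
  · exact beta_ab hL B hab nZ hMZ hZ cZ sqZ inv (fun Y1 _ _ π1 M1 a b c d => no_alpha hL Y1 π1 M1 a b c d)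

theorem no_c4 [Finite Y] (hL : IsL L) {Ω : Subgroup Y} {m : Y} (C : C48 π Ω m) {z : Y} (hz : z ∈ π.ker)
    (hzΩ : z ∉ Ω) (hzc : ∀ g : Y, g * z = z * g) : False := by
  have := hL.finite
  obtain ⟨c₀, hc₀⟩ := hL.exists_four
  obtain ⟨c, rfl⟩ := C.surj c₀
  by_cases h4 : c ^ 4 ∈ Ω
  · exact c4_even hL C hz hzΩ hzc hc₀ h4
  · exact c4_odd hL C hz hzΩ hzc hc₀ h4

/-! ### modules from central subgroups -/

theorem nat8_bot {M : Subgroup Y} (hM : M.Normal) (hc : Nat.card M = 8)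
    (hcent : ∀ m ∈ M, ∀ x ∈ π.ker, m * x = x * m) (hsq : ∀ m ∈ M, m ^ 2 = 1)
    (nt : ∃ g : Y, ∃ m ∈ M, g * m * g⁻¹ * m⁻¹ ≠ 1) : Nat8 π (⊥ : Subgroup Y) M where
  nK := inferInstance
  nW := hM
  le := bot_le
  card := by rw [hc, Subgroup.card_bot]
  sq := by
    intro x hx
    rw [hsq x hx]; exact one_mem _
  triv := by
    intro p hp x hx
    rw [← hcent x hx p hp, mem_bot]
    group
  nt := by
    obtain ⟨g, m, hm, h⟩ := nt
    exact ⟨g, m, hm, by rwa [mem_bot]⟩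

theorem no_alpha8 [Finite Y] (hL : IsL L) (S : Sit π) {M : Subgroup Y} (hM : M.Normal) (hsqM : H50Five.sq π.ker = M)
    (hcent : ∀ m ∈ M, ∀ x ∈ π.ker, m * x = x * m) (hsq : ∀ m ∈ M, m ^ 2 = 1) (hc : Nat.card M = 8)
    (nt : ∃ g : Y, ∃ m ∈ M, g * m * g⁻¹ * m⁻¹ ≠ 1) (h64 : Nat.card π.ker = 64) : False := by
  have N1 : Nat8 π M π.ker := by
    have := S.nat8 hL (by rw [hsqM, hc, h64])
    rwa [hsqM] at this
  have N2 := nat8_bot hM hc hcent hsq nt
  have hMP : M ≤ π.ker := by rw [← hsqM]; exact sq_le _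
  have hk : ∀ x ∈ π.ker, ∀ k ∈ M, (x * k) ^ 2 = x ^ 2 := by
    intro x hx k hk
    have h1 := hcent k hk x hx
    calc (x * k) ^ 2 = x * (k * x) * k := by rw [pow_two]; group
      _ = x ^ 2 * k ^ 2 := by rw [h1, pow_two, pow_two]; group
      _ = x ^ 2 := by rw [hsq k hk, mul_one]
  have hM2 : ∀ x ∈ π.ker, x ^ 2 ∈ M := fun x hx => by rw [← hsqM]; exact sq_mem hx
  have hinv : ∀ x ∈ π.ker, x ^ 2 = 1 → x ∈ M := by
    intro x hx h1
    by_contra hxM
    have hall : ∀ y ∈ π.ker, y ^ 2 = 1 := by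
      intro y hy
      by_cases hyM : y ∈ M
      · exact hsq y hyM
      obtain ⟨g, hg⟩ := N1.trans1 hL S.surj hx hy hxM hyM
      have h2 : y = (g * x * g⁻¹ * y⁻¹)⁻¹ * (g * x * g⁻¹) := by group
      have h3 : (g * x * g⁻¹) ^ 2 = 1 := by
        have : (g * x * g⁻¹) ^ 2 = g * x ^ 2 * g⁻¹ := by simp only [pow_two]; group
        rw [this, h1]; simp
      have hgx : g * x * g⁻¹ ∈ π.ker := (inferInstance : π.ker.Normal).conj_mem x hx g
      have h4 : y = (g * x * g⁻¹) * (g * x * g⁻¹ * y⁻¹)⁻¹ := by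
        conv_lhs => rw [h2]
        exact hcent _ (inv_mem hg) _ hgx
      rw [h4, hk _ hgx _ (inv_mem hg), h3]
    have h5 : H50Five.sq π.ker ≤ ⊥ := sq_le_iff.mpr fun y hy => by rw [hall y hy]; exact one_mem _
    rw [hsqM] at h5
    have h6 := Subgroup.card_le_of_le h5
    rw [hc, Subgroup.card_bot] at h6
    omega
  have hab := lin hL S.surj N1 N2 hM2 hk hinv
  have H : Homo π.ker M :=
    { nE := inferInstance, nM := hM, le := hMP, ab := hab, cE := h64, cM := hc, sqE := hM2, sqM := hsq, inv := hinv }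
  exact no_alpha hL Y π M S.surj S.rank H nt

end Cfsg.Agent.Lib.H64L
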