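import Cfsg.Agent.Lib.H64LFin

/-! S3105: the case `P/M ≅ C₄ × E₈` (helper64). -/

set_option autoImplicit false

namespace Cfsg.Agent.Lib.H64L

open Subgroup Cfsg Cfsg.Agent.Lib.SectRank Cfsg.Agent.Lib.H50Five

universe u v
variable {Y : Type u} {L : Type v} [Group Y] [Group L] {π : Y →* L}

/-! ### restriction to a subgroup `Y1` with `Y1 ⊔ ker π = ⊤` -/

theorem res_surj [Finite Y] (hs : Function.Surjective π) {Y1 : Subgroup Y} (h : Y1 ⊔ π.ker = ⊤) :
    Function.Surjective (π.comp Y1.subtype) := by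
  intro a
  obtain ⟨y, rfl⟩ := hs a
  have hy : y ∈ Y1 ⊔ π.ker := by rw [h]; exact mem_top y
  rw [← SetLike.mem_coe, Subgroup.mul_normal, Set.mem_mul] at hy
  obtain ⟨y1, hy1, p, hp, rfl⟩ := hy
  refine ⟨⟨y1, hy1⟩, ?_⟩
  change π y1 = π (y1 * p)
  rw [map_mul, MonoidHom.mem_ker.mp hp, mul_one]

theorem res_ker {Y1 R : Subgroup Y} (h : Y1 ⊓ π.ker = R) (x : Y1) : x ∈ (π.comp Y1.subtype).ker ↔ (x : Y) ∈ R := by
  rw [MonoidHom.mem_ker, ← h, mem_inf]
  constructor
  · intro hx
    exact ⟨x.2, hx⟩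
  · intro hx
    exact hx.2

theorem res_ker_eq {Y1 R : Subgroup Y} (h : Y1 ⊓ π.ker = R) : (π.comp Y1.subtype).ker = R.subgroupOf Y1 := by
  ext x
  rw [res_ker h, mem_subgroupOf]

theorem card_subgroupOf {Y1 R : Subgroup Y} (h : R ≤ Y1) : Nat.card (R.subgroupOf Y1) = Nat.card R :=
  Nat.card_congr (Subgroup.subgroupOfEquivOfLe h).toEquiv

theorem rank_sub {Y1 : Subgroup Y} (h : RankIn 2 4 (⊤ : Subgroup Y)) : RankIn 2 4 (⊤ : Subgroup Y1) := by
  apply rankIn_of_sectional
  rw [sectional_subgroup_iff]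
  exact h.mono le_top

theorem res_nt [Finite Y] {Y1 M : Subgroup Y} (h : Y1 ⊔ π.ker = ⊤) (hM : M ≤ Y1)
    (hcent : ∀ m ∈ M, ∀ x ∈ π.ker, m * x = x * m) (nt : ∃ g : Y, ∃ m ∈ M, g * m * g⁻¹ * m⁻¹ ≠ 1) :
    ∃ g : Y1, ∃ m ∈ M.subgroupOf Y1, g * m * g⁻¹ * m⁻¹ ≠ 1 := by
  obtain ⟨g, m, hm, hne⟩ := nt
  have hy : g ∈ Y1 ⊔ π.ker := by rw [h]; exact mem_top g
  rw [← SetLike.mem_coe, Subgroup.mul_normal, Set.mem_mul] at hy
  obtain ⟨y1, hy1, p, hp, rfl⟩ := hy
  refine ⟨⟨y1, hy1⟩, ⟨m, hM hm⟩, hm, ?_⟩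
  intro h1
  apply hne
  have h2 : y1 * m * y1⁻¹ * m⁻¹ = 1 := congrArg Subtype.val h1
  have h3 : p * m * p⁻¹ = m := by rw [← hcent m hm p hp]; group
  calc y1 * p * m * (y1 * p)⁻¹ * m⁻¹ = y1 * (p * m * p⁻¹) * y1⁻¹ * m⁻¹ := by group
    _ = 1 := by rw [h3, h2]

/-- the quotient `P/M` is not of type `C48` -/
theorem no_gamma [Finite Y] (hL : IsL L) (S : Sit π) {M : Subgroup Y} [hM : M.Normal] (hMs : M ≤ H50Five.sq π.ker)
    (hcent : ∀ m ∈ M, ∀ x ∈ π.ker, m * x = x * m) (hsqM : ∀ m ∈ M, m ^ 2 = 1)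
    (hc : Nat.card M = 2 ∨ (Nat.card M = 8 ∧ ∃ g : Y, ∃ m ∈ M, g * m * g⁻¹ * m⁻¹ ≠ 1))
    {Ω' : Subgroup (Y ⧸ M)} {m' : Y ⧸ M} (C : C48 (ql M (hMs.trans (sq_le π.ker))) Ω' m') : False := by
  have hMP := hMs.trans (sq_le π.ker)
  have hPn : π.ker.Normal := inferInstance
  let mk := QuotientGroup.mk' M
  have hmk1 : ∀ x : Y, mk x = 1 ↔ x ∈ M := fun x => QuotientGroup.eq_one_iff x
  have hkers : ∀ x : Y, mk x ∈ (ql M hMP).ker ↔ x ∈ π.ker := fun x => Iff.rfl
  have hcl := cl hL C (fun z hz hzΩ hzc => no_c4 hL C hz hzΩ hzc)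
  set R : Subgroup Y := Ω'.comap mk with hR
  have memR : ∀ x : Y, x ∈ R ↔ mk x ∈ Ω' := fun x => mem_comap
  have hRn : R.Normal := C.nΩ.comap mk
  have hMR : M ≤ R := by
    intro x hx
    rw [memR, (hmk1 x).mpr hx]; exact one_mem _
  have hRP : R ≤ π.ker := by
    intro x hx
    exact (hkers x).mp (C.le ((memR x).mp hx))
  have hmapR : R.map mk = Ω' := Subgroup.map_comap_eq_self_of_surjective (QuotientGroup.mk'_surjective M) Ω'
  have hcR : Nat.card R = 16 * Nat.card M := by
    have h1 := card_map_mk hMR (K := R)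
    rw [hmapR, C.cΩ] at h1
    omega
  have hcP : Nat.card π.ker = 32 * Nat.card M := by
    have h1 := card_map_mk hMP (K := π.ker)
    rw [← ker_ql M hMP, C.cP] at h1
    omega
  have h4 : ∀ g : Y, orderOf (π g) = 4 → g ^ 4 ∈ R := by
    intro g hg
    rw [memR, map_pow]
    exact hcl (mk g) hg
  have hsqR : ∀ x ∈ R, x ^ 2 ∈ M := by
    intro x hx
    rw [← hmk1, map_pow]
    exact C.sqΩ _ ((memR x).mp hx)
  obtain ⟨Y1, hY1, hY1'⟩ := split_two hL S.surj S.pg hRn hRP (by rw [hcR, hcP]; omega) h4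
  have hRY : R ≤ Y1 := by rw [← hY1]; exact inf_le_left
  have hs1 := res_surj S.surj hY1'
  have hk1 := res_ker_eq hY1
  have hcard1 : Nat.card (π.comp Y1.subtype).ker = 16 * Nat.card M := by
    rw [hk1, card_subgroupOf hRY, hcR]
  set M1 : Subgroup Y1 := M.subgroupOf Y1 with hM1
  have hM1n : M1.Normal := hM.subgroupOf Y1
  have hMY : M ≤ Y1 := hMR.trans hRY
  have hcM1 : Nat.card M1 = Nat.card M := card_subgroupOf hMY
  have hM1k : M1 ≤ (π.comp Y1.subtype).ker := by
    intro x hx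
    rw [res_ker hY1]
    exact hMR hx
  have hcent1 : ∀ m ∈ M1, ∀ x ∈ (π.comp Y1.subtype).ker, m * x = x * m := by
    intro m hm x hx
    rw [res_ker hY1] at hx
    exact Subtype.ext (hcent m hm x (hRP hx))
  have hsqM1 : ∀ m ∈ M1, m ^ 2 = 1 := fun m hm => Subtype.ext (hsqM m hm)
  have hsq1 : H50Five.sq (π.comp Y1.subtype).ker ≤ M1 := by
    rw [sq_le_iff]
    intro x hx
    rw [res_ker hY1] at hx
    exact hsqR x hx
  have hr1 : RankIn 2 4 (⊤ : Subgroup Y1) := rank_sub S.rank
  have hne1 : H50Five.sq (π.comp Y1.subtype).ker ≠ ⊥ := by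
    intro h
    have h1 : ∀ x ∈ (π.comp Y1.subtype).ker, x ^ 2 = 1 := by
      intro x hx
      have := sq_mem hx
      rwa [h, mem_bot] at this
    have h2 := card_le_of_exp hr1 h1
    rw [hcard1] at h2
    rcases hc with h | ⟨h, _⟩ <;> omega
  rcases hc with hc | ⟨hc, nt⟩
  · -- `|M| = 2`
    have hsqeq : H50Five.sq (π.comp Y1.subtype).ker = M1 := by
      apply le_antisymm hsq1
      have h1 : 1 < Nat.card (H50Five.sq (π.comp Y1.subtype).ker) := (one_lt_card_iff_ne_bot _).mpr hne1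
      have h2 := Subgroup.eq_of_le_of_card_ge hsq1 (by rw [hcM1, hc]; omega)
      rw [h2]
    have S1 : Sit (π.comp Y1.subtype) := by
      refine ⟨hs1, ?_, hr1, ?_⟩
      · rw [hk1]
        exact (S.pg.to_le hRP).of_equiv (Subgroup.subgroupOfEquivOfLe hRY).symm
      · intro g hg
        have h1 : mk (g : Y) ∈ (ql M hMP).ker := by
          apply (C.nat8 hL).faithful hL C.surj
          intro x hx
          obtain ⟨y, rfl⟩ := QuotientGroup.mk'_surjective M x
          have hyR : y ∈ R := hx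
          have h2 := hg ⟨y, hRY hyR⟩ ((res_ker hY1 _).mpr hyR)
          rw [hsqeq] at h2
          have h3 : (g : Y) * y * (g : Y)⁻¹ * y⁻¹ ∈ M := h2
          have h4 : mk ((g : Y) * y * (g : Y)⁻¹ * y⁻¹) = 1 := (hmk1 _).mpr h3
          rw [map_mul, map_mul, map_mul, map_inv, map_inv] at h4
          change mk (g : Y) * mk y * (mk (g : Y))⁻¹ * (mk y)⁻¹ ∈ _
          rw [h4]; exact one_mem _
        exact h1
    obtain ⟨Ω1, m1, C1⟩ := two_case hL S1 (by rw [hsqeq, hcM1, hc])
    -- the subgroup `Φ` of order 4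
    obtain ⟨φ, hφ⟩ := QuotientGroup.mk'_surjective M m'
    have hφR : φ ∈ R := by rw [memR]; change mk φ ∈ Ω'; rw [show mk φ = m' from hφ]; exact C.mΩ
    have hφM : φ ∉ M := by
      intro h
      apply C.m1
      rw [← hφ]
      exact (hmk1 φ).mpr h
    obtain ⟨m, hmM, hm1, hmall⟩ := two_elts hc
    have hmcent : ∀ g : Y, g * m = m * g := fun g => central_of_two hM hc g m hmM
    have hconj : ∀ g : Y, g * φ * g⁻¹ = φ ∨ g * φ * g⁻¹ = φ * m := by
      intro g
      have h1 : mk (φ⁻¹ * (g * φ * g⁻¹)) = 1 := by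
        rw [map_mul, map_mul, map_mul, map_inv, map_inv]
        rw [show mk φ = m' from hφ, C.mc (mk g)]
        group
      rcases hmall _ ((hmk1 _).mp h1) with h | h
      · left
        rw [inv_mul_eq_one] at h; exact h.symm
      · right
        rw [inv_mul_eq_iff_eq_mul] at h; exact h
    -- `m` as an element of `Y1`
    let m₁ : Y1 := ⟨m, hMY hmM⟩
    let φ₁ : Y1 := ⟨φ, hRY hφR⟩
    have hM1mem : ∀ x : Y1, x ∈ M1 ↔ x = 1 ∨ x = m₁ := by
      intro x
      rw [hM1, mem_subgroupOf]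
      constructor
      · intro h
        rcases hmall _ h with h | h
        · left; exact Subtype.ext h
        · right; exact Subtype.ext h
      · rintro (rfl | rfl)
        · exact one_mem _
        · exact hmM
    have hm1M : m1 ∈ M1 := by
      -- `m1` is a square of an element of the kernel
      have hex : ∃ x ∈ (π.comp Y1.subtype).ker, x ∉ Ω1 := by
        by_contra hcon
        push Not at hcon
        have h1 : (π.comp Y1.subtype).ker ≤ Ω1 := hcon
        have h2 := Subgroup.card_le_of_le h1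
        rw [C1.cP, C1.cΩ] at h2
        omega
      obtain ⟨x, hx, hxΩ⟩ := hex
      rw [← C1.sqP x hx hxΩ]
      exact hsq1 (sq_mem hx)
    have hm1eq : m1 = m₁ := by
      rcases (hM1mem m1).mp hm1M with h | h
      · exact absurd h C1.m1
      · exact h
    have hφk : φ₁ ∈ (π.comp Y1.subtype).ker := (res_ker hY1 _).mpr hφR
    have hφΩ : φ₁ ∉ Ω1 := by
      intro hφΩ
      let Φ : Subgroup Y1 := closure {φ₁, m₁}
      have hΦmem : ∀ x ∈ Φ, (x : Y1) = 1 ∨ x = m₁ ∨ x = φ₁ ∨ x = φ₁ * m₁ := by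
        have hφ2 : φ₁ ^ 2 = 1 := C1.sqΩ _ hφΩ
        have hm2 : m₁ ^ 2 = 1 := Subtype.ext (hsqM m hmM)
        have hcm : φ₁ * m₁ = m₁ * φ₁ := Subtype.ext (hmcent φ)
        intro x hx
        induction hx using closure_induction with
        | mem x hx =>
          rcases hx with rfl | hx
          · right; right; left; rfl
          · rw [Set.mem_singleton_iff] at hx; right; left; exact hx
        | one => left; rfl
        | mul x y _ _ hx hy =>
          have e1 : φ₁ * φ₁ = 1 := by rw [← pow_two]; exact hφ2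
          have e2 : m₁ * m₁ = 1 := by rw [← pow_two]; exact hm2
          have e3 : φ₁ * m₁ * m₁ = φ₁ := by rw [mul_assoc, e2, mul_one]
          have e4 : φ₁ * (φ₁ * m₁) = m₁ := by rw [← mul_assoc, e1, one_mul]
          have e5 : m₁ * (φ₁ * m₁) = φ₁ := by rw [hcm, ← mul_assoc, e2, one_mul]
          have e6 : φ₁ * m₁ * φ₁ = m₁ := by rw [hcm, mul_assoc, e1, mul_one]
          have e7 : φ₁ * m₁ * (φ₁ * m₁) = 1 := by rw [← mul_assoc, e6, e2]
          rcases hx with rfl | rfl | rfl | rfl <;> rcases hy with rfl | rfl | rfl | rfl <;>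
            simp [e1, e2, e3, e4, e5, e6, e7, ← hcm]
        | inv x _ hx =>
          have hmi : m₁⁻¹ = m₁ := by rw [inv_eq_iff_mul_eq_one, ← pow_two]; exact hm2
          have hφi : φ₁⁻¹ = φ₁ := by rw [inv_eq_iff_mul_eq_one, ← pow_two]; exact hφ2
          rcases hx with rfl | rfl | rfl | rfl
          · left; simp
          · right; left; exact hmi
          · right; right; left; exact hφi
          · right; right; right; rw [mul_inv_rev, hmi, hφi, hcm]
      have hΦn : Φ.Normal := by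
        constructor
        have hcl : Φ ≤ Φ := le_rfl
        intro x hx g
        have hmg : g * m₁ * g⁻¹ = m₁ := by
          have : g * m₁ = m₁ * g := Subtype.ext (hmcent g)
          rw [this]; group
        have hφg : g * φ₁ * g⁻¹ = φ₁ ∨ g * φ₁ * g⁻¹ = φ₁ * m₁ := by
          rcases hconj g with h | h
          · left; exact Subtype.ext h
          · right; exact Subtype.ext h
        have hφin : φ₁ ∈ Φ := subset_closure (by simp)
        have hmin : m₁ ∈ Φ := subset_closure (by simp)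
        have hφg' : g * φ₁ * g⁻¹ ∈ Φ := by
          rcases hφg with h | h
          · rw [h]; exact hφin
          · rw [h]; exact mul_mem hφin hmin
        rcases hΦmem x hx with rfl | rfl | rfl | rfl
        · simp
        · rw [hmg]; exact hmin
        · exact hφg'
        · have : g * (φ₁ * m₁) * g⁻¹ = (g * φ₁ * g⁻¹) * (g * m₁ * g⁻¹) := by group
          rw [this, hmg]
          exact mul_mem hφg' hmin
      have hMΦ : zpowers m1 ≤ Φ := by
        rw [zpowers_le, hm1eq]
        exact subset_closure (by simp)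
      have hΦΩ : Φ ≤ Ω1 := by
        rw [closure_le]
        rintro x (rfl | hx)
        · exact hφΩ
        · rw [Set.mem_singleton_iff] at hx
          rw [hx, ← hm1eq]; exact C1.mΩ
      rcases (C1.nat8 hL).irr hL C1.surj hΦn hMΦ hΦΩ with h | h
      · have h1 : φ₁ ∈ zpowers m1 := by rw [← h]; exact subset_closure (by simp)
        rw [C1.memM] at h1
        rcases h1 with h1 | h1
        · exact hφM (by rw [show φ = 1 from congrArg Subtype.val h1]; exact one_mem _)
        · apply hφM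
          have : φ = m := by
            rw [hm1eq] at h1
            exact congrArg Subtype.val h1
          rw [this]; exact hmM
      · -- `|Ω1| ≤ 4`
        have h1 : Nat.card Ω1 ≤ 4 := by
          rw [← h]
          have hsub : (Φ : Set Y1) ⊆ {1, m₁, φ₁, φ₁ * m₁} := by
            intro x hx
            rcases hΦmem x hx with h | h | h | h <;> simp [h]
          have h2 : (Φ : Set Y1).ncard ≤ ({1, m₁, φ₁, φ₁ * m₁} : Set Y1).ncard :=
            Set.ncard_le_ncard hsub (Set.toFinite _)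
          have h3 : ({1, m₁, φ₁, φ₁ * m₁} : Set Y1).ncard ≤ 4 := by
            refine (Set.ncard_insert_le _ _).trans ?_
            have := Set.ncard_insert_le m₁ ({φ₁, φ₁ * m₁} : Set Y1)
            have h5 := Set.ncard_insert_le φ₁ ({φ₁ * m₁} : Set Y1)
            have h6 := Set.ncard_singleton (φ₁ * m₁)
            omega
          have h4 : Nat.card Φ = (Φ : Set Y1).ncard := rfl
          omega
        rw [C1.cΩ] at h1
        omega
    -- `φ₁` is central
    have hφc : ∀ g : Y1, g * φ₁ = φ₁ * g := by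
      have hm2 : m1 ^ 2 = 1 := C1.m2
      have hcomm : ∀ g : Y1, g * φ₁ * g⁻¹ * φ₁⁻¹ ∈ zpowers m1 := by
        intro g
        rw [C1.memM, hm1eq]
        rcases hconj g with h | h
        · left
          apply Subtype.ext
          change (g : Y) * φ * (g : Y)⁻¹ * φ⁻¹ = 1
          rw [h]; group
        · right
          apply Subtype.ext
          change (g : Y) * φ * (g : Y)⁻¹ * φ⁻¹ = m
          rw [h, hmcent φ]; group
      have hzc : ∀ a b : zpowers m1, a * b = b * a := by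
        intro a b
        apply Subtype.ext
        change (a : Y1) * b = b * a
        rcases (C1.memM _).mp a.2 with h | h
        · rw [h, one_mul, mul_one]
        · rw [h]; exact (C1.mc _).symm
      let _ : CommGroup (zpowers m1) := { (inferInstance : Group (zpowers m1)) with mul_comm := hzc }
      let χ : Y1 →* zpowers m1 :=
        MonoidHom.mk' (fun g => ⟨g * φ₁ * g⁻¹ * φ₁⁻¹, hcomm g⟩) (by
          intro a b
          apply Subtype.ext
          change a * b * φ₁ * (a * b)⁻¹ * φ₁⁻¹ = (a * φ₁ * a⁻¹ * φ₁⁻¹) * (b * φ₁ * b⁻¹ * φ₁⁻¹)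
          obtain hb | hb := (C1.memM _).mp (hcomm b)
          · have h1 : b * φ₁ * b⁻¹ = φ₁ := by rwa [mul_inv_eq_one] at hb
            calc a * b * φ₁ * (a * b)⁻¹ * φ₁⁻¹ = a * (b * φ₁ * b⁻¹) * a⁻¹ * φ₁⁻¹ := by group
              _ = _ := by rw [h1, mul_inv_cancel, mul_one]
          · have h1 : b * φ₁ * b⁻¹ = m1 * φ₁ := by rwa [mul_inv_eq_iff_eq_mul] at hb
            calc a * b * φ₁ * (a * b)⁻¹ * φ₁⁻¹ = a * (b * φ₁ * b⁻¹) * a⁻¹ * φ₁⁻¹ := by group
              _ = (a * m1) * φ₁ * a⁻¹ * φ₁⁻¹ := by rw [h1]; group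
              _ = m1 * (a * φ₁ * a⁻¹ * φ₁⁻¹) := by rw [C1.mc a]; group
              _ = (a * φ₁ * a⁻¹ * φ₁⁻¹) * m1 := (C1.mc _).symm
              _ = _ := by rw [hb])
      intro g
      have h1 := hL.hom_trivial' hs1 χ (by
        intro p hp
        apply Subtype.ext
        change p * φ₁ * p⁻¹ * φ₁⁻¹ = 1
        rw [C1.ab p hp φ₁ hφk]
        group) g
      have h2 : g * φ₁ * g⁻¹ * φ₁⁻¹ = 1 := congrArg Subtype.val h1
      rwa [mul_inv_eq_one, mul_inv_eq_iff_eq_mul] at h2
    exact no_c4 hL C1 hφk hφΩ hφc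
  · -- `|M| = 8`
    have nt1 := res_nt hY1' hMY hcent nt
    have N2 := nat8_bot (π := π.comp Y1.subtype) hM1n (by rw [hcM1, hc]) hcent1 hsqM1 nt1
    have hsqn : (H50Five.sq (π.comp Y1.subtype).ker).Normal := sq_normal inferInstance
    have hsqeq : H50Five.sq (π.comp Y1.subtype).ker = M1 := by
      rcases N2.irr hL hs1 hsqn bot_le hsq1 with h | h
      · exact absurd h hne1
      · exact h
    have B : Beta (π.comp Y1.subtype) M1 :=
      { surj := hs1, rank := hr1, nM := hM1n, le := hM1k, cP := by rw [hcard1, hc], cM := by rw [hcM1, hc],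
        sqP := hsqeq, cent := hcent1, sqM := hsqM1, nt := nt1 }
    exact no_beta hL B

end Cfsg.Agent.Lib.H64L
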