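import Cfsg.Agent.Lib.H64LA
import Cfsg.Agent.Lib.H64LC
import Cfsg.Agent.Lib.PAct

/-! S3105, piece MN (helper65): a normal subgroup of order 2 or 8 inside the squares. -/

set_option autoImplicit false

namespace Cfsg.Agent.Lib.H65MN

open Subgroup Cfsg Cfsg.Agent.Lib.SectRank Cfsg.Agent.Lib.H50Five Cfsg.Agent.Lib.H64L

universe u v
variable {Y : Type u} {L : Type v} [Group Y] [Group L]

/-- `min_normal`, with the consequence of `orb` used as hypothesis. -/
theorem min_normal_aux [Finite Y] (hL : IsL L) {π : Y →* L} (S : H64L.Sit π) (hne : H50Five.sq π.ker ≠ ⊥)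
    (horb : ∀ W : Subgroup Y, Nat16 π ⊥ W → (∃ N : Subgroup Y, Nat8 π ⊥ N ∧ N ≤ W) ∨
      (∃ Z : Subgroup Y, Z.Normal ∧ Z ≤ W ∧ Nat.card Z = 2)) :
    ∃ M : Subgroup Y, M.Normal ∧ M ≤ H50Five.sq π.ker ∧ (∀ m ∈ M, ∀ x ∈ π.ker, m * x = x * m) ∧ (∀ m ∈ M, m ^ 2 = 1) ∧
      (Nat.card M = 2 ∨ (Nat.card M = 8 ∧ ∃ g : Y, ∃ m ∈ M, g * m * g⁻¹ * m⁻¹ ≠ 1)) := by
  have hPn : π.ker.Normal := inferInstance
  have hN := sq_normal hPn
  have F2 : Fact (Nat.Prime 2) := ⟨Nat.prime_two⟩
  have F7 : Fact (Nat.Prime 7) := ⟨by norm_num⟩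
  have hLf : Finite L := Nat.finite_of_card_ne_zero (by rw [hL.card]; norm_num)
  have hsim := hL.simple
  -- the subgroup `Z`
  let Z : Subgroup Y :=
    { carrier := {x | x ∈ sq π.ker ∧ (∀ y ∈ π.ker, x * y = y * x) ∧ x ^ 2 = 1}
      one_mem' := ⟨one_mem _, fun y _ => by simp, by simp⟩
      mul_mem' := by
        rintro a b ⟨ha, ha1, ha2⟩ ⟨hb, hb1, hb2⟩
        refine ⟨mul_mem ha hb, fun y hy => by rw [mul_assoc, hb1 y hy, ← mul_assoc, ha1 y hy, mul_assoc], ?_⟩
        have h1 := hb1 a (sq_le _ ha)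
        calc (a * b) ^ 2 = a * (b * a) * b := by simp only [pow_two]; group
          _ = a * (a * b) * b := by rw [h1]
          _ = a ^ 2 * b ^ 2 := by simp only [pow_two]; group
          _ = 1 := by rw [ha2, hb2, one_mul]
      inv_mem' := by
        rintro a ⟨ha, ha1, ha2⟩
        refine ⟨inv_mem ha, fun y hy => ?_, by rw [inv_pow, ha2, inv_one]⟩
        rw [inv_mul_eq_iff_eq_mul, ← mul_assoc, ha1 y hy]; group }
  have memZ : ∀ x, x ∈ Z ↔ x ∈ sq π.ker ∧ (∀ y ∈ π.ker, x * y = y * x) ∧ x ^ 2 = 1 := fun x => Iff.rfl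
  have hZn : Z.Normal := by
    constructor
    intro x hx g
    rw [memZ] at hx ⊢
    refine ⟨hN.conj_mem x hx.1 g, fun y hy => ?_, ?_⟩
    · have h1 := hx.2.1 _ (hPn.conj_mem y hy g⁻¹)
      calc g * x * g⁻¹ * y = g * (x * (g⁻¹ * y * g⁻¹⁻¹)) * g⁻¹ := by group
        _ = g * ((g⁻¹ * y * g⁻¹⁻¹) * x) * g⁻¹ := by rw [h1]
        _ = _ := by group
    · calc (g * x * g⁻¹) ^ 2 = g * x ^ 2 * g⁻¹ := by simp only [pow_two]; group
        _ = 1 := by rw [hx.2.2]; group
  have hZK : Z ≤ sq π.ker := fun x hx => hx.1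
  have hZe : ∀ x ∈ Z, x ^ 2 = 1 := fun x hx => hx.2.2
  have hKp : IsPGroup 2 (sq π.ker) := S.pg.to_le (sq_le _)
  have hZp : IsPGroup 2 Z := hKp.to_le hZK
  have hZ1 : Z ≠ ⊥ := by
    obtain ⟨z, hz, hzc, hzo⟩ := PAct.exists_fixed_orderOf_eq S.pg hKp hne (by
      rw [normalizer_eq_top]; exact le_top)
    intro h
    have h1 : z ∈ Z := ⟨hz, fun y hy => (hzc y hy).symm, by rw [← hzo]; exact pow_orderOf_eq_one z⟩
    rw [h, mem_bot] at h1
    rw [h1, orderOf_one] at hzo
    norm_num at hzo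
  have hZ16 := card_le_of_exp S.rank hZe
  have fin : ∀ M : Subgroup Y, M.Normal → M ≤ Z → (Nat.card M = 2 ∨ (Nat.card M = 8 ∧ ∃ g : Y, ∃ m ∈ M, g * m * g⁻¹ * m⁻¹ ≠ 1)) →
      ∃ M : Subgroup Y, M.Normal ∧ M ≤ H50Five.sq π.ker ∧ (∀ m ∈ M, ∀ x ∈ π.ker, m * x = x * m) ∧ (∀ m ∈ M, m ^ 2 = 1) ∧
      (Nat.card M = 2 ∨ (Nat.card M = 8 ∧ ∃ g : Y, ∃ m ∈ M, g * m * g⁻¹ * m⁻¹ ≠ 1)) := fun M hM hMZ h =>
    ⟨M, hM, hMZ.trans hZK, fun m hm => (hMZ hm).2.1, fun m hm => (hMZ hm).2.2, h⟩
  by_cases hR : ∃ z ∈ Z, z ≠ 1 ∧ ∀ g : Y, g * z = z * g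
  · obtain ⟨z, hz, hz1, hc⟩ := hR
    have hM2 : Nat.card (zpowers z) = 2 := by
      rw [Nat.card_zpowers]; exact orderOf_eq_prime (hZe z hz) hz1
    refine fin (zpowers z) ?_ (by rw [zpowers_le]; exact hz) (Or.inl hM2)
    constructor
    intro x hx g
    obtain ⟨k, rfl⟩ := mem_zpowers_iff.1 hx
    have : g * z ^ k * g⁻¹ = z ^ k := by
      have h1 : Commute g z := hc g
      rw [(h1.zpow_right k).eq]; group
    rw [this]; exact hx
  · push Not at hR
    -- the action is not trivial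
    obtain ⟨z0, hz0, hz01⟩ : ∃ z ∈ Z, z ≠ 1 := by
      by_contra hcon
      push Not at hcon
      apply hZ1
      rw [eq_bot_iff]
      intro x hx
      rw [mem_bot]
      exact hcon x hx
    obtain ⟨g0, hg0⟩ := hR z0 hz0 hz01
    have hnt : g0 * z0 * g0⁻¹ * z0⁻¹ ≠ 1 := by
      intro h
      apply hg0
      calc g0 * z0 = g0 * z0 * g0⁻¹ * z0⁻¹ * z0 * g0 := by group
        _ = z0 * g0 := by rw [h, one_mul]
    -- kernel of the action
    have hcen : ∀ g : Y, (∀ x ∈ Z, g * x = x * g) → g ∈ π.ker := by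
      intro g hg
      have hRn : (centralizer (Z : Set Y)).Normal := inferInstance
      have hmn : ((centralizer (Z : Set Y)).map π).Normal := hRn.map π S.surj
      rcases hmn.eq_bot_or_eq_top with h | h
      · have h1 : π g ∈ (centralizer (Z : Set Y)).map π := mem_map_of_mem π (mem_centralizer_iff.2 fun x hx => (hg x hx).symm)
        rw [h, mem_bot] at h1
        exact h1
      · exfalso
        have h1 : π g0 ∈ (centralizer (Z : Set Y)).map π := by rw [h]; exact mem_top _
        obtain ⟨c, hc, hce⟩ := h1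
        have h2 : c⁻¹ * g0 ∈ π.ker := by
          rw [MonoidHom.mem_ker, map_mul, map_inv, hce, inv_mul_cancel]
        have h3 := hz0.2.1 _ h2
        have h4 : z0 * c = c * z0 := mem_centralizer_iff.1 hc z0 hz0
        apply hg0
        calc g0 * z0 = c * ((c⁻¹ * g0) * z0) := by group
          _ = c * (z0 * (c⁻¹ * g0)) := by rw [h3]
          _ = (c * z0) * (c⁻¹ * g0) := by group
          _ = (z0 * c) * (c⁻¹ * g0) := by rw [h4]
          _ = z0 * g0 := by group
    -- an element of order 7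
    obtain ⟨l, hl⟩ := exists_prime_orderOf_dvd_card' (G := L) 7 (by rw [hL.card]; norm_num)
    obtain ⟨f, rfl⟩ := S.surj l
    have hfk : f ∉ π.ker := by
      intro h
      rw [MonoidHom.mem_ker] at h
      rw [h, orderOf_one] at hl
      norm_num at hl
    -- `|Z| ≥ 8`
    have h8 : 8 ≤ Nat.card Z := by
      by_contra hlt
      push Not at hlt
      apply hfk
      apply hcen
      -- `f ^ 7` acts trivially, the permutation of `Z` by `f` has order dividing 7 and 7!
      let σ : MulAut Z := MulAut.conjNormal f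
      have hσ7 : σ ^ 7 = 1 := by
        have h7 : f ^ 7 ∈ π.ker := by
          rw [MonoidHom.mem_ker, map_pow, ← hl]; exact pow_orderOf_eq_one _
        have : σ ^ 7 = MulAut.conjNormal (f ^ 7) := by rw [map_pow]
        rw [this]
        ext ⟨x, hx⟩
        rw [MulAut.conjNormal_apply]
        have := hx.2.1 _ h7
        change f ^ 7 * x * (f ^ 7)⁻¹ = x
        rw [← this]; group
      have hone : σ = 1 := by
        let τ : Equiv.Perm {x : Z // x ≠ 1} := (σ.toEquiv).subtypeEquiv (fun x => by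
          constructor
          · intro h h'; exact h (σ.map_eq_one_iff.1 h')
          · intro h h'; exact h (σ.map_eq_one_iff.2 h'))
        have hτ7 : τ ^ 7 = 1 := by
          have h1 : ∀ n : ℕ, ∀ x : {x : Z // x ≠ 1}, ((τ ^ n) x : Z) = (σ ^ n) (x : Z) := by
            intro n
            induction n with
            | zero => intro x; rfl
            | succ n ih =>
              intro x
              rw [pow_succ, pow_succ, Equiv.Perm.mul_apply, ih, MulAut.mul_apply]
              rfl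
          ext x
          rw [h1, hσ7]; rfl
        have hdvd := orderOf_dvd_of_pow_eq_one hτ7
        rcases (Nat.dvd_prime F7.out).1 hdvd with h | h
        · rw [orderOf_eq_one_iff] at h
          ext x
          by_cases hx : x = 1
          · rw [hx, map_one, map_one]
          · have h2 : τ ⟨x, hx⟩ = ⟨x, hx⟩ := by rw [h]; rfl
            have h3 := congrArg Subtype.val h2
            exact congrArg Subtype.val h3
        · exfalso
          have h2 : orderOf τ ∣ Nat.card (Equiv.Perm {x : Z // x ≠ 1}) := orderOf_dvd_natCard τ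
          have hc1 : Nat.card {x : Z // x ≠ 1} ≤ 6 := by
            have : Nat.card {x : Z // x ≠ 1} < Nat.card Z := by
              haveI : Fintype Z := Fintype.ofFinite Z
              classical
              rw [Nat.card_eq_fintype_card, Nat.card_eq_fintype_card]
              exact Fintype.card_subtype_lt (x := (1 : Z)) (by simp)
            omega
          rw [h, Nat.card_perm] at h2
          have h3 := h2.trans (Nat.factorial_dvd_factorial hc1)
          norm_num [Nat.factorial] at h3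
      intro x hx
      have h1 : σ ⟨x, hx⟩ = ⟨x, hx⟩ := by rw [hone]; rfl
      have h2 : f * x * f⁻¹ = x := congrArg Subtype.val h1
      rw [mul_inv_eq_iff_eq_mul] at h2
      exact h2
    obtain ⟨n, hn⟩ := (IsPGroup.iff_card).1 hZp
    have hn' : n = 3 ∨ n = 4 := by
      rw [hn] at h8 hZ16
      have h1 : 3 ≤ n := by
        by_contra h; push Not at h
        have : (2:ℕ) ^ n ≤ 2 ^ 2 := Nat.pow_le_pow_right (by norm_num) (by omega)
        omega
      have h2 : n ≤ 4 := by
        by_contra h; push Not at h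
        have : (2:ℕ) ^ 5 ≤ 2 ^ n := Nat.pow_le_pow_right (by norm_num) (by omega)
        omega
      omega
    rcases hn' with rfl | rfl
    · exact fin Z hZn le_rfl (Or.inr ⟨by rw [hn]; norm_num, g0, z0, hz0, hnt⟩)
    · have h16 : Nat16 π ⊥ Z := by
        refine ⟨inferInstance, hZn, bot_le, by rw [hn, card_bot]; norm_num, fun x hx => by rw [hZe x hx]; exact one_mem _,
          fun p hp x hx => ?_, g0, z0, hz0, by rw [mem_bot]; exact hnt⟩
        rw [mem_bot, ← hx.2.1 p hp]; group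
      rcases horb Z h16 with ⟨N, hN8, hNZ⟩ | ⟨M, hMn, hMZ, hM2⟩
      · refine fin N hN8.nW hNZ (Or.inr ⟨by rw [hN8.card, card_bot], ?_⟩)
        obtain ⟨g, x, hx, hgx⟩ := hN8.nt
        exact ⟨g, x, hx, by rwa [mem_bot] at hgx⟩
      · exact fin M hMn hMZ (Or.inl hM2)

end Cfsg.Agent.Lib.H65MN
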