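import Cfsg.Agent.Lib.H64LO
import Cfsg.Agent.Lib.H65MN

/-! `min_normal` for the `L₃(2)`-radical theorem. -/

set_option autoImplicit false
set_option linter.all false

namespace Cfsg.Agent.Lib.H64L

open Subgroup Cfsg Cfsg.Agent.Lib

universe u v

variable {Y : Type u} {L : Type v} [Group Y] [Group L]

theorem min_normal [Finite Y] (hL : IsL L) {π : Y →* L} (S : Sit π) (hne : H50Five.sq π.ker ≠ ⊥) :
    ∃ M : Subgroup Y, M.Normal ∧ M ≤ H50Five.sq π.ker ∧ (∀ m ∈ M, ∀ x ∈ π.ker, m * x = x * m) ∧ (∀ m ∈ M, m ^ 2 = 1) ∧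
      (Nat.card M = 2 ∨ (Nat.card M = 8 ∧ ∃ g : Y, ∃ m ∈ M, g * m * g⁻¹ * m⁻¹ ≠ 1)) := by
  refine H65MN.min_normal_aux hL S hne fun W V => ?_
  rcases orb hL S.surj V with ⟨N, hN, hNW, -, -⟩ | ⟨Z, hZ, -, hc, -⟩
  · exact Or.inl ⟨N, hN, hNW⟩
  · refine Or.inr ⟨Z, hZ.nK, hZ.le, ?_⟩
    rw [hc]; simp

end Cfsg.Agent.Lib.H64L
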