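import Cfsg.Agent.Lib.H64LGam
import Cfsg.Agent.Lib.ClSeven
import Cfsg.Agent.Lib.ClSLn
import Cfsg.Agent.Lib.H50FiveG

/-! S3105: the induction and the final statement (helper64). -/

set_option autoImplicit false

namespace Cfsg.Agent.Lib.H64L

open Subgroup Cfsg Cfsg.Agent.Lib.SectRank Cfsg.Agent.Lib.H50Five

universe u v

theorem bound {L : Type v} [Group L] (hL : IsL L) (n : ℕ) : ∀ {Y : Type u} [Group Y] [Finite Y] (π : Y →* L),
    Nat.card Y = n → Sit π → H50Five.sq π.ker = ⊥ ∨ ∃ (Ω : Subgroup Y) (m : Y), C48 π Ω m := by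
  induction n using Nat.strong_induction_on with
  | _ n ih =>
  intro Y _ _ π hn S
  by_cases hne : H50Five.sq π.ker = ⊥
  · left; exact hne
  right
  obtain ⟨M, hM, hMs, hcent, hsqM, hc⟩ := min_normal hL S hne
  have hMP := hMs.trans (sq_le π.ker)
  have hcM : 1 < Nat.card M := by rcases hc with h | ⟨h, _⟩ <;> omega
  have S' := S.quot M hMs
  have hlt : Nat.card (Y ⧸ M) < n := by
    have h2 := Subgroup.card_eq_card_quotient_mul_card_subgroup M
    have h4 : 0 < Nat.card (Y ⧸ M) := Nat.card_pos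
    rw [← hn, h2]
    nlinarith
  rcases ih _ hlt (ql M hMP) rfl S' with h | ⟨Ω', m', C⟩
  · -- `sq P = M`
    have hsq : H50Five.sq π.ker = M := by
      rw [sq_ker_ql] at h
      apply le_antisymm _ hMs
      intro x hx
      have h1 : QuotientGroup.mk' M x ∈ (H50Five.sq π.ker).map (QuotientGroup.mk' M) := mem_map_of_mem _ hx
      rw [h, mem_bot] at h1
      exact (QuotientGroup.eq_one_iff x).mp h1
    rcases hc with hc | ⟨hc, nt⟩
    · exact two_case hL S (by rw [hsq, hc])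
    · exfalso
      rcases S.card_cases hL with h1 | h1
      · rw [hsq, hc] at h1
        exact no_alpha8 hL S hM hsq hcent hsqM hc nt h1
      · rw [hsq, hc] at h1
        exact no_beta hL
          { surj := S.surj, rank := S.rank, nM := hM, le := hMP, cP := h1, cM := hc, sqP := hsq, cent := hcent,
            sqM := hsqM, nt := nt }
  · exact (no_gamma hL S hMs hcent hsqM hc C).elim

theorem isL_psl {F : Type*} [Field F] [Fintype F] (hF : Fintype.card F = 2) :
    IsL (Matrix.ProjectiveSpecialLinearGroup (Fin 3) F) := by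
  classical
  constructor
  · exact ClSLn.isSimpleGroup_PSL (by norm_num) (fun h => by omega)
  · have h := ClSLn.card_PSL_formula (F := F) (q := 2) hF 3 (by norm_num)
    simp [Finset.prod_range_succ, -Nat.card_eq_fintype_card] at h
    omega

/-- the hypotheses of the situation follow from `C_Y(P) ≤ P` -/
theorem sit_of {Y : Type u} {L : Type v} [Group Y] [Finite Y] [Group L] (hL : IsL L) {π : Y →* L}
    (surj : Function.Surjective π) (pg : IsPGroup 2 π.ker)
    (rank : RankIn 2 4 (⊤ : Subgroup Y)) (hC : ∀ g : Y, (∀ x ∈ π.ker, g * x = x * g) → g ∈ π.ker) : Sit π := by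
  have hPn : π.ker.Normal := inferInstance
  have hN := sq_normal hPn
  have F7 : Fact (Nat.Prime 7) := ⟨by norm_num⟩
  have F2 : Fact (Nat.Prime 2) := ⟨Nat.prime_two⟩
  refine ⟨surj, pg, rank, ?_⟩
  intro g hg
  -- the kernel of the action on `P/℧(P)`
  let R : Subgroup Y :=
    { carrier := {y | ∀ x ∈ π.ker, y * x * y⁻¹ * x⁻¹ ∈ H50Five.sq π.ker}
      one_mem' := by intro x hx; simp
      mul_mem' := by
        intro a b ha hb x hx
        have h1 : a * b * x * (a * b)⁻¹ * x⁻¹ = a * (b * x * b⁻¹ * x⁻¹) * a⁻¹ * (a * x * a⁻¹ * x⁻¹) := by group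
        rw [h1]
        exact mul_mem (hN.conj_mem _ (hb x hx) a) (ha x hx)
      inv_mem' := by
        intro a ha x hx
        have h1 : a⁻¹ * x * a⁻¹⁻¹ * x⁻¹ = a⁻¹ * (a * x * a⁻¹ * x⁻¹)⁻¹ * a⁻¹⁻¹ := by group
        rw [h1]
        exact hN.conj_mem _ (inv_mem (ha x hx)) a⁻¹ }
  have memR : ∀ y, y ∈ R ↔ ∀ x ∈ π.ker, y * x * y⁻¹ * x⁻¹ ∈ H50Five.sq π.ker := fun y => Iff.rfl
  have hRn : R.Normal := by
    constructor
    intro a ha y
    rw [memR] at ha ⊢
    intro x hx
    have h1 := ha (y⁻¹ * x * y⁻¹⁻¹) (hPn.conj_mem x hx y⁻¹)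
    have h2 := hN.conj_mem _ h1 y
    have h3 : y * (a * (y⁻¹ * x * y⁻¹⁻¹) * a⁻¹ * (y⁻¹ * x * y⁻¹⁻¹)⁻¹) * y⁻¹ = y * a * y⁻¹ * x * (y * a * y⁻¹)⁻¹ * x⁻¹ := by
      group
    rwa [h3] at h2
  have hPR : π.ker ≤ R := fun p hp x hx => comm_mem hp hx
  have hsimp := hL.simple
  rcases (hRn.map π surj).eq_bot_or_eq_top with h | h
  · have h1 : π g ∈ R.map π := mem_map_of_mem π hg
    rw [h, mem_bot] at h1
    exact h1
  · exfalso
    have hRtop : ∀ y : Y, y ∈ R := by
      intro y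
      have h1 : π y ∈ R.map π := by rw [h]; exact mem_top _
      obtain ⟨r, hr, hry⟩ := h1
      have h2 : r⁻¹ * y ∈ π.ker := by rw [MonoidHom.mem_ker, map_mul, map_inv, hry]; group
      have h3 := mul_mem hr (hPR h2)
      simpa using h3
    have hLf := hL.finite
    have h7 : 7 ∣ Nat.card Y := by
      have h1 : Nat.card L ∣ Nat.card Y := Subgroup.card_dvd_of_surjective π surj
      rw [hL.card] at h1
      exact (by norm_num : 7 ∣ 168).trans h1
    obtain ⟨f, hf⟩ := exists_prime_orderOf_dvd_card' 7 h7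
    have h1 := centralizes_of_sq pg (g := f) (by rw [hf]; norm_num) (hRtop f)
    have h2 := hC f h1
    obtain ⟨k, hk⟩ := pg ⟨f, h2⟩
    have h3 : f ^ 2 ^ k = 1 := congrArg Subtype.val hk
    have h4 := orderOf_dvd_of_pow_eq_one h3
    rw [hf] at h4
    have h5 := (Nat.Prime.dvd_of_dvd_pow (by norm_num) h4)
    omega

theorem s3105 {X : Type u} [Group X] [Finite X] (hc : Cfsg.IsPConstrained 2 X) (hO : Cfsg.oddCore X = ⊥)
    (h4 : Cfsg.SectionalPRankLE 2 4 X) {F : Type*} [Field F] [Fintype F] (hF : Fintype.card F = 2)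
    (hQ : Nonempty (X ⧸ Cfsg.pCore 2 X ≃* Matrix.ProjectiveSpecialLinearGroup (Fin 3) F)) :
    (Cfsg.IsElementaryAbelian 2 (Cfsg.pCore 2 X) ∧ (Nat.card ↥(Cfsg.pCore 2 X) = 8 ∨ Nat.card ↥(Cfsg.pCore 2 X) = 16)) ∨
      Nonempty (↥(Cfsg.pCore 2 X) ≃* Multiplicative (ZMod 4) × (Fin 3 → Multiplicative (ZMod 2))) := by
  have F2 : Fact (Nat.Prime 2) := ⟨Nat.prime_two⟩
  have hC := (PConstraint.isPConstrained_iff_of_pPrimeCore_eq_bot hO).mp hc
  obtain ⟨e⟩ := hQ
  have hL := isL_psl hF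
  set P₀ : Subgroup X := pCore 2 X with hP₀
  have hP₀p : IsPGroup 2 P₀ := H32Cores.pCore_isPGroup 2
  let π : X →* Matrix.ProjectiveSpecialLinearGroup (Fin 3) F := e.toMonoidHom.comp (QuotientGroup.mk' P₀)
  have surj : Function.Surjective π := e.surjective.comp (QuotientGroup.mk'_surjective P₀)
  have hker : π.ker = P₀ := by
    ext y
    rw [MonoidHom.mem_ker]
    change e (QuotientGroup.mk' P₀ y) = 1 ↔ _
    rw [map_eq_one_iff e e.injective]
    exact QuotientGroup.eq_one_iff y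
  have S : Sit π := by
    apply sit_of hL surj
    · rw [hker]; exact hP₀p
    · exact rankIn_of_sectional h4
    · intro g hg
      rw [hker] at hg ⊢
      apply hC
      rw [mem_centralizer_iff]
      intro x hx
      exact (hg x hx).symm
  rcases bound hL _ π rfl S with h | ⟨Ω, m, C⟩
  · left
    have hexp : ∀ x ∈ P₀, x ^ 2 = 1 := by
      intro x hx
      have h2 : x ^ 2 ∈ H50Five.sq π.ker := sq_mem (by rw [hker]; exact hx)
      rwa [h, mem_bot] at h2
    refine ⟨⟨⟨⟨fun x y => Subtype.ext (comm_of_sq hexp x x.2 y y.2)⟩⟩, hexp⟩, ?_⟩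
    have h1 := S.card_cases hL
    rw [h, hker, Subgroup.card_bot] at h1
    omega
  · right
    obtain ⟨i⟩ := iso48 (P := π.ker) (Ω.subgroupOf π.ker) ⟨m, C.le C.mΩ⟩ C.cP (by rw [card_subgroupOf C.le, C.cΩ])
      (fun x y => Subtype.ext (C.ab x x.2 y y.2)) (fun x hx => Subtype.ext (C.sqΩ x hx)) C.mΩ
      (fun h => C.m1 (congrArg Subtype.val h)) (fun x hx => Subtype.ext (C.sqP x x.2 hx))
    exact ⟨(MulEquiv.subgroupCongr hker).symm.trans i⟩

end Cfsg.Agent.Lib.H64L
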