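import Mathlib

/-!
# The principal ideal theorem: the transfer `G → G'/G''` is trivial (helper64)
-/

set_option autoImplicit false

namespace Cfsg.Agent.Lib.H64PIT

open Module

variable {G : Type*} [Group G] [Finite G]

/-- the augmentation -/
noncomputable def aug (Q : Type*) [CommGroup Q] : MonoidAlgebra ℤ Q →+* ℤ :=
  (MonoidAlgebra.lift ℤ ℤ Q 1 : MonoidAlgebra ℤ Q →ₐ[ℤ] ℤ).toRingHom

theorem aug_single {Q : Type*} [CommGroup Q] (q : Q) (n : ℤ) : aug Q (MonoidAlgebra.single q n) = n := by
  show (MonoidAlgebra.lift ℤ ℤ Q 1 : MonoidAlgebra ℤ Q →ₐ[ℤ] ℤ) _ = n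
  rw [MonoidAlgebra.lift_single]
  simp

/-- the determinant trick -/
theorem exists_det {N : Type*} [AddCommGroup N] [Module (MonoidAlgebra ℤ (Abelianization G)) N] (F : G → N)
    (hF : ∀ g h : G, F (g * h) = MonoidAlgebra.single (Abelianization.of h) (1 : ℤ) • F g + F h) :
    ∃ d : MonoidAlgebra ℤ (Abelianization G), (aug (Abelianization G) d).natAbs = Nat.card (Abelianization G) ∧
      ∀ g, d • F g = 0 := by
  classical
  have := Fintype.ofFinite G
  set Q := Abelianization G with hQ
  set S := MonoidAlgebra ℤ Q with hS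
  let I : Ideal S := RingHom.ker (aug Q)
  let M : Submodule S N := Submodule.span S (Set.range F)
  have hF1 : F 1 = 0 := by
    have h1 := hF 1 1
    rw [mul_one, map_one] at h1
    have h2 : (MonoidAlgebra.single (1 : Q) (1 : ℤ) : S) = 1 := rfl
    rw [h2, one_smul] at h1
    exact left_eq_add.1 h1
  have hmk : ∀ g h : G, (I • M).mkQ (F (g * h)) = (I • M).mkQ (F g) + (I • M).mkQ (F h) := by
    intro g h
    rw [← map_add, ← sub_eq_zero, ← map_sub, Submodule.mkQ_apply, Submodule.Quotient.mk_eq_zero, hF]
    have h1 : (MonoidAlgebra.single (Abelianization.of h) (1 : ℤ) • F g + F h) - (F g + F h) =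
        (MonoidAlgebra.single (Abelianization.of h) (1 : ℤ) - (1 : S)) • F g := by
      rw [sub_smul, one_smul]; abel
    rw [h1]
    refine Submodule.smul_mem_smul ?_ (Submodule.subset_span ⟨g, rfl⟩)
    show aug Q _ = 0
    rw [map_sub, map_one, aug_single, sub_self]
  let D : G →* Multiplicative (N ⧸ (I • M)) :=
    { toFun := fun g => Multiplicative.ofAdd ((I • M).mkQ (F g))
      map_one' := by
        show Multiplicative.ofAdd ((I • M).mkQ (F 1)) = 1
        rw [hF1, map_zero]; rfl
      map_mul' := fun g h => by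
        show Multiplicative.ofAdd ((I • M).mkQ (F (g * h))) = _
        rw [hmk]; rfl }
  let Dbar : Additive Q →+ (N ⧸ (I • M)) := (Abelianization.lift D).toAdditiveLeft
  have hDbar : ∀ g : G, Dbar (Additive.ofMul (Abelianization.of g)) = (I • M).mkQ (F g) := by
    intro g
    show Multiplicative.toAdd ((Abelianization.lift D) (Abelianization.of g)) = _
    rw [Abelianization.lift_apply_of]
    rfl
  let ψ : (G → ℤ) →ₗ[ℤ] Additive Q := Fintype.linearCombination ℤ (fun g => Additive.ofMul (Abelianization.of g))
  have hψ : ∀ v, ψ v = ∑ g, v g • Additive.ofMul (Abelianization.of g) := fun v => rfl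
  have hψs : Function.Surjective ψ := by
    intro q
    obtain ⟨g, hg⟩ := QuotientGroup.mk_surjective (Additive.toMul q)
    refine ⟨Pi.single g 1, ?_⟩
    rw [hψ, Finset.sum_eq_single g]
    · rw [Pi.single_eq_same, one_smul]
      show Additive.ofMul (QuotientGroup.mk g) = q
      rw [hg]; rfl
    · intro b _ hb
      rw [Pi.single_eq_of_ne hb, zero_smul]
    · intro h; exact absurd (Finset.mem_univ g) h
  let K := LinearMap.ker ψ
  have hcard : Nat.card ((G → ℤ) ⧸ K) = Nat.card Q :=
    Nat.card_congr ((LinearMap.quotKerEquivOfSurjective ψ hψs).toEquiv.trans Additive.toMul)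
  have hindex : K.toAddSubgroup.index ≠ 0 := by
    have h1 : K.toAddSubgroup.index = Nat.card ((G → ℤ) ⧸ K) := rfl
    rw [h1, hcard]
    exact Nat.card_pos.ne'
  obtain ⟨e⟩ := Int.submodule_toAddSubgroup_index_ne_zero_iff.1 hindex
  let bK : Basis G ℤ K := Basis.ofEquivFun e
  have hdet := Submodule.natAbs_det_basis_change (Pi.basisFun ℤ G) K bK
  rw [hcard, Module.Basis.det_apply] at hdet
  have hrel : ∀ k, ∃ a : G →₀ S, (∀ i, a i ∈ I) ∧ (a.sum fun i c => c • F i) = ∑ g, ((bK k : G → ℤ) g) • F g := by
    intro k
    have h1 : ∑ g, ((bK k : G → ℤ) g) • F g ∈ I • M := by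
      rw [← Submodule.Quotient.mk_eq_zero, ← Submodule.mkQ_apply, map_sum]
      have h2 : Dbar (ψ (bK k)) = 0 := by
        have : ψ (bK k : G → ℤ) = 0 := (bK k).2
        rw [this, map_zero]
      rw [hψ, map_sum] at h2
      rw [← h2]
      refine Finset.sum_congr rfl fun g _ => ?_
      rw [map_zsmul, map_zsmul, hDbar]
    obtain ⟨a, ha, h2⟩ := (Submodule.mem_ideal_smul_span_iff_exists_sum I F _).1 h1
    exact ⟨a, ha, h2⟩
  choose a haI ha using hrel
  let μ : Matrix G G S := fun g k => (algebraMap ℤ S ((bK k : G → ℤ) g)) - a k g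
  have hμ : ∀ k, ∑ g, μ g k • F g = 0 := by
    intro k
    have h1 : ∑ g, a k g • F g = ∑ g, ((bK k : G → ℤ) g) • F g := by
      rw [← ha k, Finsupp.sum_fintype]
      intro i; rw [zero_smul]
    have h2 : ∀ g, (algebraMap ℤ S ((bK k : G → ℤ) g)) • F g = ((bK k : G → ℤ) g) • F g := by
      intro g
      rw [eq_intCast, Int.cast_smul_eq_zsmul]
    simp only [μ, sub_smul, Finset.sum_sub_distrib, h2, h1, sub_self]
  refine ⟨μ.det, ?_, ?_⟩
  · rw [← hdet]
    congr 1
    rw [RingHom.map_det]
    congr 1
    ext g k
    rw [RingHom.mapMatrix_apply, Matrix.map_apply, Basis.toMatrix_apply]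
    show aug Q ((algebraMap ℤ S ((bK k : G → ℤ) g)) - a k g) = _
    rw [map_sub, (haI k g : aug Q (a k g) = 0), sub_zero, eq_intCast, map_intCast]
    simp
  · intro j
    have h1 : ∑ g, (μ * μ.adjugate) g j • F g = 0 := by
      have h2 : ∀ g, (μ * μ.adjugate) g j • F g = ∑ k, μ.adjugate k j • (μ g k • F g) := by
        intro g
        rw [Matrix.mul_apply, Finset.sum_smul]
        refine Finset.sum_congr rfl fun k _ => ?_
        rw [smul_smul, mul_comm]
      rw [Finset.sum_congr rfl fun g _ => h2 g, Finset.sum_comm]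
      refine Finset.sum_eq_zero fun k _ => ?_
      rw [← Finset.smul_sum, hμ, smul_zero]
    rw [Matrix.mul_adjugate, Finset.sum_eq_single j] at h1
    · rw [Matrix.smul_apply, Matrix.one_apply_eq, smul_eq_mul, mul_one] at h1
      exact h1
    · intro g _ hg
      rw [Matrix.smul_apply, Matrix.one_apply_ne hg, smul_zero, zero_smul]
    · intro h; exact absurd (Finset.mem_univ j) h

/-- with the norm element: if `F` is a cocycle then the norm kills it -/
theorem norm_smul {N : Type*} [AddCommGroup N] [Module (MonoidAlgebra ℤ (Abelianization G)) N] (F : G → N)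
    (hF : ∀ g h : G, F (g * h) = MonoidAlgebra.single (Abelianization.of h) (1 : ℤ) • F g + F h) (g : G) :
    ∃ d : MonoidAlgebra ℤ (Abelianization G), (∀ q, d.coeff q = d.coeff 1) ∧ (d.coeff 1).natAbs = 1 ∧ d • F g = 0 := by
  classical
  have := Fintype.ofFinite (Abelianization G)
  let F' : G → N × MonoidAlgebra ℤ (Abelianization G) :=
    fun g => (F g, MonoidAlgebra.single (Abelianization.of g) (1 : ℤ) - 1)
  have hF' : ∀ g h : G, F' (g * h) = MonoidAlgebra.single (Abelianization.of h) (1 : ℤ) • F' g + F' h := by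
    intro g h
    refine Prod.ext (hF g h) ?_
    show MonoidAlgebra.single (Abelianization.of (g * h)) (1 : ℤ) - 1 =
      MonoidAlgebra.single (Abelianization.of h) (1 : ℤ) * (MonoidAlgebra.single (Abelianization.of g) (1 : ℤ) - 1) +
        (MonoidAlgebra.single (Abelianization.of h) (1 : ℤ) - 1)
    rw [mul_sub, mul_one, MonoidAlgebra.single_mul_single, mul_one, map_mul, mul_comm (Abelianization.of h)]
    abel
  obtain ⟨d, hd1, hd2⟩ := exists_det F' hF'
  have hinv : ∀ q, d.coeff q = d.coeff 1 := by
    intro q
    obtain ⟨h, rfl⟩ := QuotientGroup.mk_surjective q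
    have h1 : d * (MonoidAlgebra.single (Abelianization.of h) (1 : ℤ) - 1) = 0 := congrArg Prod.snd (hd2 h)
    rw [mul_sub, mul_one, sub_eq_zero] at h1
    have h2 := congrArg (fun x : MonoidAlgebra ℤ (Abelianization G) => x.coeff (Abelianization.of h)) h1
    have h3 : (d * MonoidAlgebra.single (Abelianization.of h) (1 : ℤ)).coeff (Abelianization.of h) = d.coeff 1 * 1 :=
      MonoidAlgebra.coeff_mul_single_eq_coeff_mul 1 (fun m' _ => mul_eq_right)
    rw [mul_one] at h3
    exact (h3.symm.trans h2).symm
  refine ⟨d, hinv, ?_, congrArg Prod.fst (hd2 g)⟩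
  have h1 : aug (Abelianization G) d = Nat.card (Abelianization G) * d.coeff 1 := by
    show (MonoidAlgebra.lift ℤ ℤ _ 1 : MonoidAlgebra ℤ (Abelianization G) →ₐ[ℤ] ℤ) d = _
    rw [MonoidAlgebra.lift_apply, Finsupp.sum_fintype _ _ (fun _ => by simp)]
    simp only [MonoidHom.one_apply, smul_eq_mul, mul_one]
    rw [Finset.sum_congr rfl fun q _ => hinv q, Finset.sum_const, Finset.card_univ, Nat.card_eq_fintype_card, nsmul_eq_mul]
  rw [h1, Int.natAbs_mul, Int.natAbs_natCast] at hd1
  exact Nat.eq_of_mul_eq_mul_left Nat.card_pos (by rw [hd1, mul_one])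

/-- functions on the abelianization, with translation -/
def Fn (G : Type*) [Group G] (B : Type*) : Type _ := Abelianization G → B

variable (G) in
/-- translation -/
def trans (B : Type*) [AddCommGroup B] : Abelianization G →* Module.End ℤ (Abelianization G → B) where
  toFun q := LinearMap.funLeft ℤ B (fun x => q * x)
  map_one' := by
    apply LinearMap.ext
    intro φ
    funext x
    show φ (1 * x) = φ x
    rw [one_mul]
  map_mul' q r := by
    apply LinearMap.ext
    intro φ
    funext x
    show φ (q * r * x) = φ (r * (q * x))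
    rw [← mul_assoc, mul_comm r q]

theorem transfer_sum (B : Type*) [AddCommGroup B] (f : G → Abelianization G → B)
    (hf : ∀ (g h : G) (x : Abelianization G), f (g * h) x = f g (Abelianization.of h * x) + f h x) (g : G) :
    ∑ᶠ x, f g x = 0 := by
  classical
  have := Fintype.ofFinite (Abelianization G)
  let Φ : MonoidAlgebra ℤ (Abelianization G) →ₐ[ℤ] Module.End ℤ (Abelianization G → B) :=
    MonoidAlgebra.lift ℤ _ _ (trans G B)
  let _ : Module (MonoidAlgebra ℤ (Abelianization G)) (Abelianization G → B) :=
    Module.compHom _ Φ.toRingHom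
  have hsmul : ∀ (d : MonoidAlgebra ℤ (Abelianization G)) (φ : Abelianization G → B) (x : Abelianization G),
      (d • φ) x = ∑ q, d.coeff q • φ (q * x) := by
    intro d φ x
    show (Φ d φ) x = _
    simp only [Φ]
    rw [MonoidAlgebra.lift_apply, Finsupp.sum_fintype _ _ (fun _ => by simp)]
    rw [LinearMap.sum_apply, Finset.sum_apply]
    rfl
  obtain ⟨d, hd1, hd2, hd3⟩ := norm_smul (N := Abelianization G → B) f (by
    intro g h
    funext x
    rw [Pi.add_apply, hsmul, hf, Finset.sum_eq_single (Abelianization.of h)]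
    · simp
    · intro b _ hb
      rw [MonoidAlgebra.coeff_single, Finsupp.single_eq_of_ne hb, zero_smul]
    · intro h; exact absurd (Finset.mem_univ _) h) g
  have h1 := congrFun hd3 1
  rw [hsmul, Pi.zero_apply] at h1
  simp only [hd1, mul_one] at h1
  rw [← Finset.smul_sum] at h1
  rw [finsum_eq_sum_of_fintype]
  rcases Int.natAbs_eq (d.coeff 1) with h2 | h2
  · rw [h2, hd2] at h1
    simpa using h1
  · rw [h2, hd2] at h1
    simpa using h1

open Subgroup Subgroup.leftTransversals in
/-- **Principal ideal theorem.** -/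
theorem transfer_eq_one :
    MonoidHom.transfer (Abelianization.of : ↥(commutator G) →* Abelianization ↥(commutator G)) =
      (1 : G →* Abelianization ↥(commutator G)) := by
  classical
  have := Fintype.ofFinite (Abelianization G)
  let T : (commutator G).LeftTransversal := default
  let t : Abelianization G → G := fun x => (T.2.leftQuotientEquiv x : G)
  have ht : ∀ x, (Abelianization.of (t x) : Abelianization G) = x := fun x => T.2.leftQuotientEquiv.symm_apply_apply x
  have hmem : ∀ (g : G) (x : Abelianization G), (t (Abelianization.of g * x))⁻¹ * g * t x ∈ commutator G := by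
    intro g x
    have h1 : (Abelianization.of ((t (Abelianization.of g * x))⁻¹ * g * t x) : Abelianization G) = 1 := by
      rw [map_mul, map_mul, map_inv, ht, ht, mul_assoc, inv_mul_cancel]
    exact (QuotientGroup.eq_one_iff _).1 h1
  let f : G → Abelianization G → Additive (Abelianization ↥(commutator G)) := fun g x =>
    Additive.ofMul (Abelianization.of ⟨_, hmem g x⟩)
  have hf : ∀ (g h : G) (x : Abelianization G), f (g * h) x = f g (Abelianization.of h * x) + f h x := by
    intro g h x
    show Additive.ofMul _ = Additive.ofMul _ + Additive.ofMul _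
    rw [← ofMul_mul, ← map_mul]
    congr 2
    apply Subtype.ext
    show (t (Abelianization.of (g * h) * x))⁻¹ * (g * h) * t x =
      (t (Abelianization.of g * (Abelianization.of h * x)))⁻¹ * g * t (Abelianization.of h * x) *
        ((t (Abelianization.of h * x))⁻¹ * h * t x)
    rw [map_mul, mul_assoc (Abelianization.of g)]
    group
  ext g
  have h1 := transfer_sum _ f hf g
  rw [finsum_eq_sum_of_fintype] at h1
  rw [MonoidHom.transfer_def _ T, MonoidHom.one_apply]
  unfold diff
  simp only []
  let _ := (commutator G).fintypeQuotientOfFiniteIndex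
  have h2 : ∏ x, Additive.toMul (f g x) = 1 := by
    rw [← toMul_sum, h1]; rfl
  refine Eq.trans ?_ h2
  refine (Fintype.prod_equiv (M := Abelianization (commutator G)) (ι := Abelianization G) (κ := G ⧸ commutator G)
    (Equiv.mulLeft (Abelianization.of g) : Abelianization G ≃ Abelianization G) _ _ ?_).symm
  intro x
  show Abelianization.of _ = Abelianization.of _
  congr 1
  apply Subtype.ext
  show (t (Abelianization.of g * x))⁻¹ * g * t x = (T.2.leftQuotientEquiv (Abelianization.of g * x) : G)⁻¹ *
    ((g • T).2.leftQuotientEquiv (Abelianization.of g * x) : G)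
  have h3 : g⁻¹ • (show G ⧸ commutator G from Abelianization.of g * x) = (show G ⧸ commutator G from x) := by
    show (Abelianization.of g⁻¹ : Abelianization G) * (Abelianization.of g * x) = x
    rw [map_inv, inv_mul_cancel_left]
  have h4 := smul_apply_eq_smul_apply_inv_smul g T (show G ⧸ commutator G from Abelianization.of g * x)
  rw [h3] at h4
  rw [mul_assoc]
  exact congrArg (fun z => (t (Abelianization.of g * x))⁻¹ * z) h4.symm

end Cfsg.Agent.Lib.H64PIT
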