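import Cfsg.Agent.Lib.ClassGraph
import Cfsg.Agent.Lib.ClassSizeCounting
import Cfsg.Agent.Lib.CoprimeAction2
import Cfsg.Agent.Lib.CycNorm
import Cfsg.Agent.Lib.ConjCover
import Cfsg.Agent.Lib.H70Basic

/-!
# The class sizes of the `p`-singular elements (helper64)
-/

set_option autoImplicit false

namespace Cfsg.Agent.Lib.H64PSing

open Subgroup
open Cfsg.Agent.Lib.ClassGraph Cfsg.Agent.Lib.SubgroupTools

universe u

variable {G : Type u} [Group G]

theorem mem_cent_iff {x g : G} : g ∈ centralizer ({x} : Set G) ↔ Commute g x := by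
  rw [mem_centralizer_singleton_iff]; rfl

section basic

variable [Finite G]

/-- if one conjugate of `x` commutes with `y` and the class sizes are coprime then all do -/
theorem commute_all {x y : G} (h : (cs x).Coprime (cs y)) {g : G} (hg : Commute (g * x * g⁻¹) y) (k : G) :
    Commute (k * x * k⁻¹) y := by
  -- `k = b g a` with `a ∈ C(x)`, `b ∈ C(y)`
  have h' : ((centralizer ({y} : Set G))).index.Coprime (centralizer ({g * x * g⁻¹} : Set G)).index := by
    have := cs_conj g x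
    unfold cs at this h
    rw [this]; exact h.symm
  obtain ⟨b, hb, a, ha, hab⟩ := HallConverse.exists_mul_of_coprime_index h' (k * g⁻¹)
  rw [mem_cent_iff] at ha hb
  have h1 : k * x * k⁻¹ = b * (g * x * g⁻¹) * b⁻¹ := by
    have h2 : k = b * a * g := by rw [hab]; group
    rw [h2]
    have h3 : a * (g * x * g⁻¹) * a⁻¹ = g * x * g⁻¹ := by rw [ha.eq]; group
    calc b * a * g * x * (b * a * g)⁻¹ = b * (a * (g * x * g⁻¹) * a⁻¹) * b⁻¹ := by group
      _ = _ := by rw [h3]
  have h4 : y = b * y * b⁻¹ := by rw [hb.eq]; group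
  rw [h1, h4]
  show (b * (g * x * g⁻¹) * b⁻¹) * (b * y * b⁻¹) = (b * y * b⁻¹) * (b * (g * x * g⁻¹) * b⁻¹)
  calc (b * (g * x * g⁻¹) * b⁻¹) * (b * y * b⁻¹) = b * ((g * x * g⁻¹) * y) * b⁻¹ := by group
    _ = b * (y * (g * x * g⁻¹)) * b⁻¹ := by rw [hg.eq]
    _ = _ := by group

/-- a `p`-element commutes with a conjugate of an element whose class size is prime to `p` -/
theorem exists_commute (p : ℕ) [hp : Fact p.Prime] {x u : G} (hx : ¬ p ∣ cs x) (hu : ∃ k, orderOf u = p ^ k) :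
    ∃ g : G, Commute (g * x * g⁻¹) u := by
  obtain ⟨Q, hQ⟩ := ClassSizeCounting.exists_sylow_le_centralizer p x hx
  have h1 : IsPGroup p (zpowers u) := by
    obtain ⟨k, hk⟩ := hu
    exact IsPGroup.of_card (n := k) (by rw [Nat.card_zpowers, hk])
  obtain ⟨R, hR⟩ := h1.exists_le_sylow
  obtain ⟨g, hg⟩ := MulAction.exists_smul_eq G Q R
  refine ⟨g, ?_⟩
  have h2 : u ∈ (R : Subgroup G) := hR (mem_zpowers u)
  rw [← hg, Sylow.coe_subgroup_smul, mem_pointwise_smul_iff_inv_smul_mem] at h2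
  have h3 := mem_cent_iff.1 (hQ h2)
  have h4 : (MulAut.conj g)⁻¹ • u = g⁻¹ * u * g := by
    rw [← map_inv, MulAut.smul_def, MulAut.conj_apply, inv_inv]
  rw [h4] at h3
  have h5 : u = g * (g⁻¹ * u * g) * g⁻¹ := by group
  rw [h5]
  show (g * x * g⁻¹) * (g * (g⁻¹ * u * g) * g⁻¹) = (g * (g⁻¹ * u * g) * g⁻¹) * (g * x * g⁻¹)
  calc (g * x * g⁻¹) * (g * (g⁻¹ * u * g) * g⁻¹) = g * (x * (g⁻¹ * u * g)) * g⁻¹ := by group
    _ = g * ((g⁻¹ * u * g) * x) * g⁻¹ := by rw [h3.eq]
    _ = _ := by group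

theorem cs_mul_dvd {x y : G} (h : (cs x).Coprime (cs y)) : cs (x * y) ∣ cs x * cs y := by
  unfold cs at *
  rw [← HallConverse.index_inf_of_coprime h]
  apply index_dvd_of_le
  intro g hg
  obtain ⟨h1, h2⟩ := mem_inf.1 hg
  rw [mem_cent_iff] at h1 h2 ⊢
  exact h1.mul_right h2

/-- if `cs (a * b) = cs a` and the class sizes are coprime, then `a^G [b, G] = a^G` -/
theorem isConj_mul_nc {a b : G} (hab : cs (a * b) = cs a) (h : (cs a).Coprime (cs b)) {x : G} (hx : x ∈ nc b) :
    ∀ a', IsConj a a' → IsConj a (a' * x) := by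
  have key : ∀ x : G, (∀ a', IsConj a a' → IsConj a (a' * x)) → ∀ n : ℕ, ∀ a', IsConj a a' → IsConj a (a' * x ^ n) := by
    intro x hx n
    induction n with
    | zero => intro a' ha'; rwa [pow_zero, mul_one]
    | succ n ih => intro a' ha'; rw [pow_succ, ← mul_assoc]; exact hx _ (ih a' ha')
  unfold nc normalClosure at hx
  induction hx using closure_induction with
  | mem x hx =>
    obtain ⟨s, ⟨g, rfl⟩, hs⟩ := Group.mem_conjugatesOfSet_iff.1 hx
    obtain ⟨k, rfl⟩ := isConj_iff.1 hs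
    intro a' ha'
    have h1 : IsConj b (k * g * b * (k * g)⁻¹) := isConj_iff.2 ⟨k * g, rfl⟩
    have h2 : IsConj b⁻¹ (k * b⁻¹ * k⁻¹) := isConj_iff.2 ⟨k, rfl⟩
    have h3 := isConj_mul h ha' h1
    have h4 : (cs (a * b)).Coprime (cs b⁻¹) := by rw [hab, cs_inv]; exact h
    have h5 := isConj_mul h4 h3 h2
    rw [mul_inv_cancel_right] at h5
    have h6 : a' * (k * g * b * (k * g)⁻¹) * (k * b⁻¹ * k⁻¹) = a' * (k * (g * b * g⁻¹ * b⁻¹) * k⁻¹) := by group
    rwa [h6] at h5
  | one => intro a' ha'; rwa [mul_one]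
  | mul x y _ _ hx hy => intro a' ha'; rw [← mul_assoc]; exact hy _ (hx a' ha')
  | inv x _ hx =>
    intro a' ha'
    have h1 := key x hx (orderOf x - 1) a' ha'
    have h2 : x ^ (orderOf x - 1) = x⁻¹ := by
      rw [eq_inv_iff_mul_eq_one, ← pow_succ, Nat.sub_add_cancel (orderOf_pos x), pow_orderOf_eq_one]
    rwa [h2] at h1

theorem card_nc_dvd {a b : G} (hab : cs (a * b) = cs a) (h : (cs a).Coprime (cs b)) : Nat.card (nc b) ∣ cs a := by
  let T : Set G := {x | IsConj a x}
  have hT : (QuotientGroup.mk : G → G ⧸ nc b) ⁻¹' ((QuotientGroup.mk : G → G ⧸ nc b) '' T) = T := by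
    apply Set.Subset.antisymm
    · rintro y ⟨t, ht, hty⟩
      have h1 := isConj_mul_nc hab h (QuotientGroup.eq.1 hty) t ht
      rwa [mul_inv_cancel_left] at h1
    · exact fun x hx => ⟨x, hx, rfl⟩
  have h1 := Nat.card_congr (QuotientGroup.preimageMkEquivSubgroupProdSet (nc b) ((QuotientGroup.mk : G → G ⧸ nc b) '' T))
  rw [hT, Nat.card_prod] at h1
  rw [← card_isConj]
  exact ⟨_, h1⟩

/-- if `b` is a `p`-element central modulo the normal `p'`-subgroup `N`, then `cs b ∣ |N|` -/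
theorem cs_dvd_card (p : ℕ) [hp : Fact p.Prime] {b : G} (hb : ∃ k, orderOf b = p ^ k) (N : Subgroup G) [hN : N.Normal]
    (hNb : ∀ g : G, g * b * g⁻¹ * b⁻¹ ∈ N) (hcop : ¬ p ∣ Nat.card N) : cs b ∣ Nat.card N := by
  obtain ⟨k, hk⟩ := hb
  have hAN : zpowers b ≤ normalizer (N : Set G) := by
    rw [normalizer_eq_top]; exact le_top
  have hc : (Nat.card (zpowers b)).Coprime (Nat.card N) := by
    rw [Nat.card_zpowers, hk]
    exact Nat.Coprime.pow_left k ((Nat.Prime.coprime_iff_not_dvd hp.out).2 hcop)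
  have hsol : Group.IsSolvable (zpowers b) := inferInstance
  have htop : centralizer ({b} : Set G) ⊔ N = ⊤ := by
    rw [eq_top_iff]
    intro g _
    obtain ⟨c, hc1, hc2⟩ := CoprimeAction.exists_mem_centralizer_of_quotient hAN hc (Or.inl hsol) g
      (by rw [normalizer_eq_top]; exact mem_top _) (by
        intro a ha
        obtain ⟨n, rfl⟩ := mem_zpowers_iff.1 ha
        have h1 : (QuotientGroup.mk' N) b ∈ center (G ⧸ N) := by
          rw [mem_center_iff]
          intro g'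
          obtain ⟨g', rfl⟩ := QuotientGroup.mk'_surjective N g'
          have h2 := (QuotientGroup.eq_one_iff _).2 (hNb g')
          have h3 : (QuotientGroup.mk' N) (g' * b * g'⁻¹ * b⁻¹) = 1 := h2
          rw [map_mul, map_mul, map_mul, map_inv, map_inv, mul_inv_eq_one, mul_inv_eq_iff_eq_mul] at h3
          exact h3
        have h2 := zpow_mem h1 n
        rw [mem_center_iff] at h2
        have h3 := h2 ((QuotientGroup.mk' N) g)
        refine (QuotientGroup.eq_one_iff _).1 ?_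
        show (QuotientGroup.mk' N) (b ^ n * g * (b ^ n)⁻¹ * g⁻¹) = 1
        rw [map_mul, map_mul, map_mul, map_inv, map_inv, mul_inv_eq_one, mul_inv_eq_iff_eq_mul, map_zpow, h3])
    have h1 : g = c * (g⁻¹ * c)⁻¹ := by group
    rw [h1]
    refine mul_mem (mem_sup_left ?_) (mem_sup_right (inv_mem hc2))
    rw [mem_centralizer_singleton_iff]
    have := mem_centralizer_iff.1 hc1 b (mem_zpowers b)
    exact this.symm
  have h1 : (centralizer ({b} : Set G)).index = (centralizer ({b} : Set G)).relIndex N := by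
    rw [← relIndex_top_right, ← htop, sup_comm]
    have h2 := H32Cores.card_sup_mul_card_inf (centralizer ({b} : Set G)) N
    have h3 := card_mul_relIndex_of_le (le_sup_right : centralizer ({b} : Set G) ≤ N ⊔ centralizer ({b} : Set G))
    have h4 := card_mul_relIndex_of_le (inf_le_right : centralizer ({b} : Set G) ⊓ N ≤ N)
    rw [inf_relIndex_right] at h4
    rw [sup_comm] at h2
    rw [← h3, ← h4] at h2
    have h5 : 0 < Nat.card (centralizer ({b} : Set G)) := Nat.card_pos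
    have h6 : 0 < Nat.card (centralizer ({b} : Set G) ⊓ N : Subgroup G) := Nat.card_pos
    have h7 : (Nat.card (centralizer ({b} : Set G)) * Nat.card (centralizer ({b} : Set G) ⊓ N : Subgroup G)) *
        (centralizer ({b} : Set G)).relIndex (N ⊔ centralizer ({b} : Set G)) =
        (Nat.card (centralizer ({b} : Set G)) * Nat.card (centralizer ({b} : Set G) ⊓ N : Subgroup G)) *
        (centralizer ({b} : Set G)).relIndex N := by
      linear_combination h2
    exact Nat.eq_of_mul_eq_mul_left (Nat.mul_pos h5 h6) h7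
  unfold cs
  rw [h1]
  have h4 := card_mul_relIndex_of_le (inf_le_right : centralizer ({b} : Set G) ⊓ N ≤ N)
  rw [inf_relIndex_right] at h4
  exact ⟨_, by rw [mul_comm]; exact h4.symm⟩

/-- a normal subgroup `N` with `|N|` coprime to the class size of `x` centralizes `x` -/
theorem le_centralizer_of_coprime {x : G} (N : Subgroup G) [N.Normal] {m : ℕ} (hN : Nat.card N ∣ m)
    (h : (cs x).Coprime m) : N ≤ centralizer ({x} : Set G) := by
  rw [← relIndex_eq_one]
  refine Nat.eq_one_of_dvd_coprimes h (ClassPow.relIndex_dvd_index _ _) ?_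
  refine dvd_trans ?_ hN
  rw [← card_mul_relIndex_of_le (inf_le_right : centralizer ({x} : Set G) ⊓ N ≤ N), inf_relIndex_right]
  exact dvd_mul_left _ _

end basic

/-- `u` is a `p`-element -/
def PEl (p : ℕ) (u : G) : Prop := ∃ k, orderOf u = p ^ k

theorem PEl.dvd {p : ℕ} {u : G} (h : PEl p u) (hu : u ≠ 1) : p ∣ orderOf u := by
  obtain ⟨k, hk⟩ := h
  rw [hk]
  apply dvd_pow_self
  rintro rfl
  rw [pow_zero, orderOf_eq_one_iff] at hk
  exact hu hk

theorem PEl.mul {p : ℕ} (hp : p.Prime) {u v : G} (hu : PEl p u) (hv : PEl p v) (h : Commute u v) : PEl p (u * v) := by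
  obtain ⟨k, hk⟩ := hu
  obtain ⟨l, hl⟩ := hv
  have h1 : (u * v) ^ (p ^ (k + l)) = 1 := by
    rw [h.mul_pow, pow_add, pow_mul, ← hk, pow_orderOf_eq_one, one_pow, one_mul, mul_comm (orderOf u), pow_mul, ← hl,
      pow_orderOf_eq_one, one_pow]
  exact ((Nat.dvd_prime_pow hp).1 (orderOf_dvd_of_pow_eq_one h1)).imp fun m hm => hm.2

theorem PEl.conj {p : ℕ} {u : G} (hu : PEl p u) (g : G) : PEl p (g * u * g⁻¹) := by
  obtain ⟨k, hk⟩ := hu
  refine ⟨k, ?_⟩
  rw [← hk]
  exact orderOf_injective (MulAut.conj g).toMonoidHom (MulAut.conj g).injective u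

theorem PEl.inv {p : ℕ} {u : G} (hu : PEl p u) : PEl p u⁻¹ := by
  obtain ⟨k, hk⟩ := hu
  exact ⟨k, by rw [orderOf_inv, hk]⟩

/-- the final counting argument -/
theorem count {P : Type*} [Group P] [Finite P] (Z D : Subgroup P) (hZ : Z ≤ center P) (hZ1 : Z ≠ ⊥) (hD : D ⊓ Z = ⊥)
    (h : ∀ w, w ∉ Z → ∃ a, a * w * a⁻¹ ∈ D) : Z = ⊤ := by
  classical
  have hZn : Z.Normal := ⟨fun z hz g => by
    have := mem_center_iff.1 (hZ hz) g
    rw [this, mul_inv_cancel_right]; exact hz⟩
  set E := D ⊔ Z with hE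
  have hcE : Nat.card E = Nat.card D * Nat.card Z := by
    have := H32Cores.card_sup_mul_card_inf D Z
    rwa [hD, card_bot, mul_one] at this
  have hcP : Nat.card E * Nat.card (P ⧸ E) = Nat.card P := card_mul_index E
  have hnotin : ∀ (q : P) (d : {d : D // d ≠ 1}), q * (d.1 : P) * q⁻¹ ∉ Z := by
    intro q d hq
    have h1 : (d.1 : P) ∈ Z := by
      have := hZn.conj_mem _ hq q⁻¹
      have h2 : q⁻¹ * (q * (d.1 : P) * q⁻¹) * q⁻¹⁻¹ = d.1 := by group
      rwa [h2] at this
    have h2 : (d.1 : P) ∈ D ⊓ Z := ⟨d.1.2, h1⟩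
    rw [hD, mem_bot] at h2
    exact d.2 (Subtype.ext h2)
  let f : (P ⧸ E) × {d : D // d ≠ 1} → {w : P // ¬ w ∈ Z} := fun qd =>
    ⟨qd.1.out * (qd.2.1 : P) * qd.1.out⁻¹, hnotin _ _⟩
  have hf : Function.Surjective f := by
    rintro ⟨w, hw⟩
    obtain ⟨a, ha⟩ := h w hw
    -- `w = a⁻¹ d a`
    obtain ⟨e, he⟩ := QuotientGroup.mk_out_eq_mul E a⁻¹
    have heE : (e : P) ∈ D ⊔ Z := e.2
    rw [mem_sup_of_normal_right] at heE
    obtain ⟨d', hd', z, hz, hdz⟩ := heE
    have hz' : ∀ g : P, g * z = z * g := fun g => mem_center_iff.1 (hZ hz) g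
    have h1 : (QuotientGroup.mk a⁻¹ : P ⧸ E).out = a⁻¹ * (d' * z) := by rw [he, hdz]
    have hmem : d'⁻¹ * (a * w * a⁻¹) * d' ∈ D := D.mul_mem (D.mul_mem (D.inv_mem hd') ha) hd'
    have hne : (⟨d'⁻¹ * (a * w * a⁻¹) * d', hmem⟩ : D) ≠ 1 := by
      intro h2
      have h3 : d'⁻¹ * (a * w * a⁻¹) * d' = 1 := congrArg Subtype.val h2
      have h4 : w = 1 := by
        have h5 : w = a⁻¹ * d' * (d'⁻¹ * (a * w * a⁻¹) * d') * d'⁻¹ * a := by group
        rw [h5, h3]; group
      exact hw (by rw [h4]; exact one_mem _)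
    refine ⟨(QuotientGroup.mk a⁻¹, ⟨⟨d'⁻¹ * (a * w * a⁻¹) * d', hmem⟩, hne⟩), ?_⟩
    apply Subtype.ext
    show (QuotientGroup.mk a⁻¹ : P ⧸ E).out * (d'⁻¹ * (a * w * a⁻¹) * d') * (QuotientGroup.mk a⁻¹ : P ⧸ E).out⁻¹ = w
    rw [h1]
    have h6 : a⁻¹ * (d' * z) * (d'⁻¹ * (a * w * a⁻¹) * d') * (a⁻¹ * (d' * z))⁻¹ =
        a⁻¹ * d' * (z * (d'⁻¹ * (a * w * a⁻¹) * d')) * z⁻¹ * d'⁻¹ * a := by group
    rw [h6, ← hz' (d'⁻¹ * (a * w * a⁻¹) * d')]
    group
  have h1 := Nat.card_le_card_of_surjective f hf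
  rw [Nat.card_prod] at h1
  have h2 : Nat.card Z + Nat.card {w : P // ¬ w ∈ Z} = Nat.card P := by
    rw [← Nat.card_sum]
    exact Nat.card_congr (Equiv.sumCompl (fun w : P => w ∈ Z))
  have h3 : 1 + Nat.card {d : D // d ≠ 1} = Nat.card D := by
    rw [← Nat.card_congr (Equiv.sumCompl (fun d : D => d = 1)), Nat.card_sum]
    congr 1
    exact (Nat.card_unique).symm
  have h4 : 2 ≤ Nat.card Z := by
    have h5 : Nat.card Z ≠ 1 := fun h => hZ1 (Subgroup.card_eq_one.1 h)
    have h6 : 0 < Nat.card Z := Nat.card_pos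
    omega
  set m := Nat.card (P ⧸ E)
  set z := Nat.card Z
  set d := Nat.card {d : D // d ≠ 1}
  set w := Nat.card {w : P // ¬ w ∈ Z}
  have hm : 0 < m := Nat.card_pos
  rw [← h3] at hcE
  rw [hcE] at hcP
  -- `z + w = (1 + d) z m`, `w ≤ m d`, `z ≥ 2`
  have h7 : z + w = (1 + d) * z * m := by rw [h2, hcP]
  have h8 : (1 + d) * z * m ≤ z + m * d := by rw [← h7]; omega
  -- so `m = 1` and `d = 0`
  have h9 : d = 0 := by
    by_contra hd
    have : 1 ≤ d := Nat.one_le_iff_ne_zero.2 hd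
    nlinarith [Nat.mul_le_mul this h4, Nat.mul_le_mul hm h4, Nat.mul_le_mul (Nat.mul_le_mul this h4) hm]
  rw [h9] at h8 h7 h1
  rw [mul_zero, Nat.le_zero] at h1
  have h10 : IsEmpty {w : P // ¬ w ∈ Z} := (Nat.card_eq_zero.1 h1).resolve_right (by
    rw [not_infinite_iff_finite]; infer_instance)
  rw [eq_top_iff]
  intro g _
  by_contra hg
  exact h10.false ⟨g, hg⟩

section main

variable [Finite G]

/-- the configuration to be excluded -/
structure Bad (p : ℕ) (x y : G) : Prop where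
  hx : PEl p x
  hy : PEl p y
  hx1 : cs x ≠ 1
  hy1 : cs y ≠ 1
  hZ : ∀ u : G, PEl p u → u ≠ 1 → cs u ≠ 1
  hyp : ∀ w : G, p ∣ orderOf w → (cs w).Coprime (cs x) ∨ (cs w).Coprime (cs y)
  hpx : ¬ p ∣ cs x

omit [Finite G] in
theorem cs_one : cs (1 : G) = 1 := cs_eq_one_iff.2 (one_mem _)

namespace Bad

variable {p : ℕ} [hp : Fact p.Prime] {x y : G} (B : Bad p x y)

include B

omit [Finite G] hp in
theorem x_ne : x ≠ 1 := fun h => B.hx1 (by rw [h]; exact cs_one)

omit [Finite G] hp in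
theorem y_ne : y ≠ 1 := fun h => B.hy1 (by rw [h]; exact cs_one)

omit [Finite G] hp in
theorem cop : (cs x).Coprime (cs y) := by
  rcases B.hyp x (B.hx.dvd B.x_ne) with h | h
  · exact absurd ((Nat.coprime_self _).1 h) B.hx1
  · exact h

theorem comm' (g : G) : Commute (g * x * g⁻¹) y := by
  obtain ⟨k, hk⟩ := exists_commute p B.hpx B.hy
  exact commute_all B.cop hk g

theorem comm (g k : G) : Commute (g * x * g⁻¹) (k * y * k⁻¹) := by
  have h := B.comm' (k⁻¹ * g)
  have h1 : g * x * g⁻¹ = k * ((k⁻¹ * g) * x * (k⁻¹ * g)⁻¹) * k⁻¹ := by group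
  rw [h1]
  exact h.map (MulAut.conj k).toMonoidHom

theorem comm_one : Commute x y := by
  have := B.comm' 1
  simpa using this

theorem xy_ne : x * y ≠ 1 := by
  intro h
  have h1 : y = x⁻¹ := by rw [eq_inv_iff_mul_eq_one, B.comm_one.symm.eq, h]
  have h2 := B.cop
  rw [h1, cs_inv, Nat.coprime_self] at h2
  exact B.hx1 h2

theorem xy_pel : PEl p (x * y) := B.hx.mul hp.out B.hy B.comm_one

theorem xy_not_cop_y : ¬ (cs (x * y)).Coprime (cs y) := by
  intro h
  have h1 : cs (x * y) ∣ cs x := h.dvd_of_dvd_mul_right (cs_mul_dvd B.cop)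
  have h2 : cs (x * y) = cs x := le_antisymm (Nat.le_of_dvd (Nat.pos_of_ne_zero (by
    unfold cs; exact index_ne_zero_of_finite)) h1) (cs_le_mul B.cop)
  have h3 := card_nc_dvd h2 B.cop
  have h4 : ¬ p ∣ Nat.card (nc y) := fun h4 => B.hpx (h4.trans h3)
  have h5 := cs_dvd_card p B.hy (nc y) (mem_nc y) h4
  exact B.hy1 (Nat.eq_one_of_dvd_coprimes B.cop (h5.trans h3) dvd_rfl)

theorem cs_xy : cs (y * x) = cs y := by
  have h0 : (cs (x * y)).Coprime (cs x) := (B.hyp _ (B.xy_pel.dvd B.xy_ne)).resolve_right B.xy_not_cop_y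
  have h1 : cs (x * y) ∣ cs y := h0.dvd_of_dvd_mul_left (cs_mul_dvd B.cop)
  rw [B.comm_one.eq] at h1
  exact le_antisymm (Nat.le_of_dvd (Nat.pos_of_ne_zero (by
    unfold cs; exact index_ne_zero_of_finite)) h1) (cs_le_mul B.cop.symm)

theorem nc_dvd : Nat.card (nc x) ∣ cs y := card_nc_dvd B.cs_xy B.cop.symm

theorem p_dvd_y : p ∣ cs y := by
  by_contra hcon
  have h4 : ¬ p ∣ Nat.card (nc x) := fun h4 => hcon (h4.trans B.nc_dvd)
  have h5 := cs_dvd_card p B.hx (nc x) (mem_nc x) h4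
  exact B.hx1 (Nat.eq_one_of_dvd_coprimes B.cop dvd_rfl (h5.trans B.nc_dvd))

/-- `(F1)` -/
theorem f1 {u : G} (hu : p ∣ orderOf u) (hpu : p ∣ cs u) : (cs u).Coprime (cs x) := by
  refine (B.hyp u hu).resolve_right fun h => ?_
  exact hp.out.one_lt.ne' (Nat.dvd_one.1 ((Nat.coprime_iff_gcd_eq_one.1 h) ▸ Nat.dvd_gcd hpu B.p_dvd_y))

theorem nc_le : nc x ≤ centralizer ({x} : Set G) := le_centralizer_of_coprime (nc x) B.nc_dvd B.cop

/-- the conjugates of `x` commute -/
theorem comm_conj (g k : G) : Commute (g * x * g⁻¹) (k * x * k⁻¹) := by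
  have h1 : Commute ((k⁻¹ * g) * x * (k⁻¹ * g)⁻¹ * x⁻¹) x := mem_cent_iff.1 (B.nc_le (mem_nc x (k⁻¹ * g)))
  have h2 : Commute ((k⁻¹ * g) * x * (k⁻¹ * g)⁻¹) x := by
    have h3 := h1.mul_left (Commute.refl x)
    rwa [inv_mul_cancel_right] at h3
  have h4 := h2.map (MulAut.conj k).toMonoidHom
  have h5 : (MulAut.conj k).toMonoidHom ((k⁻¹ * g) * x * (k⁻¹ * g)⁻¹) = g * x * g⁻¹ := by
    show k * ((k⁻¹ * g) * x * (k⁻¹ * g)⁻¹) * k⁻¹ = g * x * g⁻¹
    group
  rw [h5] at h4
  exact h4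

end Bad

omit [Finite G] in
theorem mem_C {x g : G} : g ∈ centralizer ((normalClosure {x} : Subgroup G) : Set G) ↔ ∀ k : G, Commute g (k * x * k⁻¹) := by
  constructor
  · intro h k
    have h1 : k * x * k⁻¹ ∈ normalClosure {x} :=
      normalClosure_normal.conj_mem _ (subset_normalClosure (Set.mem_singleton x)) k
    exact (mem_centralizer_iff.1 h _ h1).symm
  · intro h
    rw [mem_centralizer_iff]
    intro a ha
    have h1 : normalClosure {x} ≤ centralizer ({g} : Set G) := by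
      unfold normalClosure
      rw [closure_le]
      intro b hb
      obtain ⟨s, hs, hb⟩ := Group.mem_conjugatesOfSet_iff.1 hb
      obtain ⟨k, rfl⟩ := isConj_iff.1 hb
      rw [Set.mem_singleton_iff] at hs
      subst hs
      exact mem_cent_iff.2 (h k).symm
    exact (mem_cent_iff.1 (h1 ha))

namespace Bad

variable {p : ℕ} [hp : Fact p.Prime] {x y : G} (B : Bad p x y)

include B

theorem A_comm {a b : G} (ha : a ∈ normalClosure {x}) (hb : b ∈ normalClosure {x}) : Commute a b := by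
  have h1 : normalClosure {x} ≤ centralizer ((normalClosure {x} : Subgroup G) : Set G) := by
    rw [normalClosure, closure_le, ← normalClosure]
    intro b hb
    obtain ⟨s, hs, hb⟩ := Group.mem_conjugatesOfSet_iff.1 hb
    obtain ⟨k, rfl⟩ := isConj_iff.1 hb
    rw [Set.mem_singleton_iff] at hs
    subst hs
    rw [SetLike.mem_coe, mem_C]
    intro l
    exact B.comm_conj k l
  exact mem_centralizer_iff.1 (h1 hb) a ha

theorem A_pGroup : IsPGroup p (normalClosure {x} : Subgroup G) := by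
  have key : ∀ a ∈ (normalClosure {x} : Subgroup G), PEl p a := by
    intro a ha
    unfold normalClosure at ha
    induction ha using closure_induction with
    | mem b hb =>
      obtain ⟨s, hs, hb⟩ := Group.mem_conjugatesOfSet_iff.1 hb
      obtain ⟨k, rfl⟩ := isConj_iff.1 hb
      rw [Set.mem_singleton_iff] at hs
      subst hs
      exact B.hx.conj k
    | one => exact ⟨0, by simp⟩
    | mul a b ha hb iha ihb => exact iha.mul hp.out ihb (B.A_comm ha hb)
    | inv a _ ih => exact ih.inv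
  rw [IsPGroup.iff_orderOf]
  rintro ⟨a, ha⟩
  obtain ⟨k, hk⟩ := key a ha
  exact ⟨k, by rw [← hk, orderOf_mk]⟩

theorem dvd_of_not_mem {g : G} (hg : g ∉ centralizer ((normalClosure {x} : Subgroup G) : Set G)) : p ∣ cs g := by
  obtain ⟨n, hn⟩ := IsPGroup.iff_card.1 B.A_pGroup
  have h1 : (centralizer ({g} : Set G)).relIndex (normalClosure {x}) ∣ p ^ n := by
    rw [← hn, ← card_mul_relIndex_of_le (inf_le_right : centralizer ({g} : Set G) ⊓ (normalClosure {x}) ≤ normalClosure {x}),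
      inf_relIndex_right]
    exact dvd_mul_left _ _
  obtain ⟨m, -, hm⟩ := (Nat.dvd_prime_pow hp.out).1 h1
  have h2 : m ≠ 0 := by
    rintro rfl
    rw [pow_zero, relIndex_eq_one] at hm
    apply hg
    rw [mem_centralizer_iff]
    intro a ha
    exact mem_cent_iff.1 (hm ha)
  have h3 : (centralizer ({g} : Set G)).relIndex (normalClosure {x}) ∣ cs g := ClassPow.relIndex_dvd_index _ _
  rw [hm] at h3
  exact (dvd_pow_self p h2).trans h3

theorem not_dvd_of_commute {t k : G} (ht : (orderOf t).Coprime p) (h : Commute t (k * x * k⁻¹)) : ¬ p ∣ cs t := by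
  intro hpt
  have h0 : (orderOf t).Coprime (orderOf (k * x * k⁻¹)) := by
    obtain ⟨n, hn⟩ := B.hx.conj k
    rw [hn]
    exact Nat.Coprime.pow_right n ht
  have h1 := H70Basic.centralizer_mul_of_coprime h h0
  have h2 : cs t ∣ cs (t * (k * x * k⁻¹)) := cs_dvd_of_le (by rw [h1]; exact inf_le_left)
  have h3 : cs (k * x * k⁻¹) ∣ cs (t * (k * x * k⁻¹)) := cs_dvd_of_le (by rw [h1]; exact inf_le_right)
  rw [cs_conj] at h3
  have h4 : p ∣ orderOf (t * (k * x * k⁻¹)) := by
    rw [h.orderOf_mul_eq_mul_orderOf_of_coprime h0]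
    refine Dvd.dvd.mul_left ((B.hx.conj k).dvd ?_) _
    intro h5
    rw [conj_eq_one_iff] at h5
    exact B.x_ne h5
  have h5 := B.f1 h4 (hpt.trans h2)
  exact B.hx1 (Nat.eq_one_of_dvd_coprimes h5 h3 dvd_rfl)

theorem mem_C_of_commute {t k : G} (ht : (orderOf t).Coprime p) (h : Commute t (k * x * k⁻¹)) :
    t ∈ centralizer ((normalClosure {x} : Subgroup G) : Set G) := by
  by_contra hcon
  exact B.not_dvd_of_commute ht h (B.dvd_of_not_mem hcon)

theorem centralizer_nc_le : centralizer ((nc x : Subgroup G) : Set G) ≤ centralizer ((normalClosure {x} : Subgroup G) : Set G) := by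
  set D := centralizer ((nc x : Subgroup G) : Set G) with hD
  have hDn : D.Normal := inferInstance
  let f : D →* nc x :=
    { toFun := fun d => ⟨d * x * (d : G)⁻¹ * x⁻¹, mem_nc x d⟩
      map_one' := by apply Subtype.ext; simp
      map_mul' := by
        rintro ⟨d, hd⟩ ⟨e, he⟩
        apply Subtype.ext
        show (d * e) * x * (d * e)⁻¹ * x⁻¹ = (d * x * d⁻¹ * x⁻¹) * (e * x * e⁻¹ * x⁻¹)
        have h1 := mem_centralizer_iff.1 hd _ (mem_nc x e)
        have h2 : (e * x * e⁻¹ * x⁻¹) ∈ centralizer ({x} : Set G) := B.nc_le (mem_nc x e)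
        rw [mem_cent_iff] at h2
        have h2' := mem_centralizer_iff.1 hd _ (mem_nc x e)
        have h5 : (d * x * d⁻¹ * x⁻¹) * (e * x * e⁻¹ * x⁻¹) = (e * x * e⁻¹ * x⁻¹) * (d * x * d⁻¹ * x⁻¹) := by
          have h6 : Commute (e * x * e⁻¹ * x⁻¹) d := h1
          exact (((h6.mul_right h2).mul_right h6.inv_right).mul_right h2.inv_right).eq.symm
        rw [h5]
        calc (d * e) * x * (d * e)⁻¹ * x⁻¹ = d * (e * x * e⁻¹ * x⁻¹) * x * d⁻¹ * x⁻¹ := by group
          _ = (e * x * e⁻¹ * x⁻¹) * d * x * d⁻¹ * x⁻¹ := by rw [← h1]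
          _ = _ := by group }
  have hker : f.ker = (centralizer ({x} : Set G)).subgroupOf D := by
    ext ⟨d, hd⟩
    rw [MonoidHom.mem_ker, mem_subgroupOf, mem_cent_iff]
    constructor
    · intro h
      have h1 : d * x * d⁻¹ * x⁻¹ = 1 := congrArg Subtype.val h
      rw [mul_inv_eq_one, mul_inv_eq_iff_eq_mul] at h1
      exact h1
    · intro h
      apply Subtype.ext
      show d * x * d⁻¹ * x⁻¹ = 1
      rw [mul_inv_eq_one, mul_inv_eq_iff_eq_mul]
      exact h
  have h1 : (centralizer ({x} : Set G)).relIndex D ∣ Nat.card (nc x) := by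
    unfold relIndex
    rw [← hker, index_ker]
    exact card_subgroup_dvd_card _
  have h2 : (centralizer ({x} : Set G)).relIndex D = 1 :=
    Nat.eq_one_of_dvd_coprimes B.cop (ClassPow.relIndex_dvd_index _ _) (h1.trans B.nc_dvd)
  rw [relIndex_eq_one] at h2
  intro g hg
  rw [mem_C]
  intro k
  have h3 : k⁻¹ * g * k ∈ D := by
    have := hDn.conj_mem g hg k⁻¹
    rwa [inv_inv] at this
  have h4 := (mem_cent_iff.1 (h2 h3)).map (MulAut.conj k).toMonoidHom
  have h5 : (MulAut.conj k).toMonoidHom (k⁻¹ * g * k) = g := by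
    show k * (k⁻¹ * g * k) * k⁻¹ = g
    group
  rw [h5] at h4
  exact h4

theorem pel_mem_C {u : G} (hu : PEl p u) : u ∈ centralizer ((normalClosure {x} : Subgroup G) : Set G) := by
  by_contra hcon
  have hu1 : u ≠ 1 := by rintro rfl; exact hcon (one_mem _)
  have h1 : ¬ (cs u).Coprime (cs x) := by
    intro h
    obtain ⟨g, hg⟩ := exists_commute p B.hpx hu
    apply hcon
    rw [mem_C]
    intro k
    exact (commute_all h.symm hg k).symm
  have h2 := (B.hyp u (hu.dvd hu1)).resolve_left h1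
  have h3 : ¬ p ∣ cs u := by
    intro h3
    exact hp.out.one_lt.ne' (Nat.eq_one_of_dvd_coprimes h2 h3 B.p_dvd_y)
  obtain ⟨g, hg⟩ := exists_commute p h3 B.hy
  have h4 : ∀ k : G, Commute u (k * y * k⁻¹) := by
    intro k
    have h5 := (commute_all h2 hg k⁻¹).map (MulAut.conj k).toMonoidHom
    have h6 : (MulAut.conj k).toMonoidHom (k⁻¹ * u * k⁻¹⁻¹) = u := by
      show k * (k⁻¹ * u * k⁻¹⁻¹) * k⁻¹ = u
      group
    rw [h6] at h5
    exact h5
  apply hcon
  apply B.centralizer_nc_le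
  rw [mem_centralizer_iff]
  intro n hn
  have h5 := isConj_mul_nc B.cs_xy B.cop.symm hn y (IsConj.refl y)
  obtain ⟨k, hk⟩ := isConj_iff.1 h5
  have h6 := h4 k
  rw [hk] at h6
  have h7 := h4 1
  rw [one_mul, inv_one, mul_one] at h7
  have h8 : Commute u n := by
    have := h7.inv_right.mul_right h6
    rwa [inv_mul_cancel_left] at this
  exact h8.eq.symm

theorem le_C {P : Subgroup G} (hP : IsPGroup p P) : P ≤ centralizer ((normalClosure {x} : Subgroup G) : Set G) := by
  intro u hu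
  apply B.pel_mem_C
  obtain ⟨k, hk⟩ := IsPGroup.iff_orderOf.1 hP ⟨u, hu⟩
  exact ⟨k, by rw [← hk, orderOf_mk]⟩

theorem centralizer_eq : centralizer ({x} : Set G) = centralizer ((normalClosure {x} : Subgroup G) : Set G) := by
  apply le_antisymm
  · intro g hg
    rw [mem_cent_iff] at hg
    obtain ⟨a, b, ha, hb, hab⟩ := CycNorm.exists_parts p hp.out g
    rw [hab]
    refine mul_mem (B.pel_mem_C ha) (B.mem_C_of_commute (k := 1) hb ?_)
    rw [one_mul, inv_one, mul_one]
    exact hg.pow_left b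
  · exact centralizer_le (Set.singleton_subset_iff.2 (subset_normalClosure (Set.mem_singleton x)))

open Cfsg.Agent.Lib.RelSylow in
theorem C_le {P : Subgroup G} (hP : IsSyl p P ⊤) : centralizer ((normalClosure {x} : Subgroup G) : Set G) ≤
    P ⊔ (centralizer ((normalClosure {x} : Subgroup G) : Set G) ⊓ centralizer (P : Set G)) := by
  set C := centralizer ((normalClosure {x} : Subgroup G) : Set G) with hC
  set H := P ⊔ (C ⊓ centralizer (P : Set G)) with hH
  have hPC : P ≤ C := B.le_C hP.2.1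
  have key : H.subgroupOf C = ⊤ := by
    apply ConjCover.eq_top_of_forall_conj
    rintro ⟨g, hg⟩
    obtain ⟨a, b, ha, hb, hab⟩ := CycNorm.exists_parts p hp.out g
    have htx : Commute (g ^ b) (1 * x * 1⁻¹) := by
      rw [one_mul, inv_one, mul_one]
      rw [← B.centralizer_eq] at hC
      exact (mem_cent_iff.1 (hC ▸ hg)).pow_left b
    have hpt := B.not_dvd_of_commute hb htx
    obtain ⟨Q₀, hQ₀⟩ := ClassSizeCounting.exists_sylow_le_centralizer p (g ^ b) hpt
    have hQ₀t := isSyl_top_iff Q₀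
    have hQ₀S := hQ₀t.of_le hQ₀ le_top
    have h1 : IsPGroup p (zpowers (g ^ a)) := by
      obtain ⟨k, hk⟩ := ha
      exact IsPGroup.of_card (n := k) (by rw [Nat.card_zpowers, hk])
    have h2 : zpowers (g ^ a) ≤ centralizer ({g ^ b} : Set G) := by
      rw [zpowers_le, mem_cent_iff]
      exact (Commute.refl g).pow_pow a b
    obtain ⟨Q, hgQ, hQ⟩ := exists_isSyl_ge h1 h2
    have hQt : IsSyl p Q ⊤ := isSyl_of_card_ge hQ₀t hQ.2.1 le_top (hQ.card_le hQ₀S.2.1 hQ₀S.1)
    have hQC : Q ≤ C := B.le_C hQ.2.1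
    obtain ⟨m, hm, hmQ⟩ := (hP.of_le hPC le_top).conj (hQt.of_le hQC le_top)
    refine ⟨⟨m, hm⟩, ?_⟩
    rw [mem_subgroupOf]
    show m⁻¹ * g * m ∈ H
    have h3 : m⁻¹ * g ^ a * m ∈ P := by
      have h4 := hgQ (mem_zpowers (g ^ a))
      rw [← hmQ, mem_conj_iff] at h4
      exact h4
    have h4 : m⁻¹ * g ^ b * m ∈ centralizer (P : Set G) := by
      rw [mem_centralizer_iff]
      intro u hu
      have h5 : m * u * m⁻¹ ∈ Q := by
        rw [← hmQ, mem_conj_iff]
        have : m⁻¹ * (m * u * m⁻¹) * m = u := by group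
        rw [this]; exact hu
      have h6 := mem_cent_iff.1 (hQ.1 h5)
      calc u * (m⁻¹ * g ^ b * m) = m⁻¹ * ((m * u * m⁻¹) * g ^ b) * m := by group
        _ = m⁻¹ * (g ^ b * (m * u * m⁻¹)) * m := by rw [h6.eq]
        _ = _ := by group
    have h5 : m⁻¹ * g * m = (m⁻¹ * g ^ a * m) * (m⁻¹ * g ^ b * m) := by
      conv_lhs => rw [hab]
      group
    rw [h5]
    refine mul_mem (mem_sup_left h3) (mem_sup_right ⟨?_, h4⟩)
    exact C.mul_mem (C.mul_mem (C.inv_mem hm) (C.pow_mem hg b)) hm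
  intro g hg
  have : (⟨g, hg⟩ : C) ∈ H.subgroupOf C := by rw [key]; exact mem_top _
  exact this

open Cfsg.Agent.Lib.RelSylow in
theorem normal {P : Subgroup G} (hP : IsSyl p P ⊤) : P.Normal := by
  rw [← normalizer_eq_top_iff, eq_top_iff]
  intro g _
  rw [mem_normalizer_iff_map]
  have h1 : IsSyl p (P.map (MulAut.conj g).toMonoidHom) ⊤ := hP.conj_isSyl' (by
    rw [normalizer_eq_top]; exact mem_top _)
  obtain ⟨m, hm, hmP⟩ := (hP.of_le (B.le_C hP.2.1) le_top).conj (h1.of_le (B.le_C h1.2.1) le_top)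
  rw [← hmP]
  rw [← mem_normalizer_iff_map]
  have h2 := B.C_le hP hm
  have h3 : P ⊔ (centralizer ((normalClosure {x} : Subgroup G) : Set G) ⊓ centralizer (P : Set G)) ≤
      normalizer (P : Set G) :=
    sup_le le_normalizer (inf_le_right.trans (centralizer_le_normalizer _))
  exact h3 h2

open Cfsg.Agent.Lib.RelSylow in
theorem p_dvd_of_not_mem {P : Subgroup G} (hP : IsSyl p P ⊤) {w : G} (hw : w ∉ centralizer (P : Set G)) : p ∣ cs w := by
  by_contra hcon
  obtain ⟨Q, hQ⟩ := ClassSizeCounting.exists_sylow_le_centralizer p w hcon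
  have hPn := B.normal hP
  have h1 : P = Q := by
    obtain ⟨m, -, hm⟩ := hP.conj (isSyl_top_iff Q)
    rw [← hm]
    have : m ∈ normalizer (P : Set G) := by rw [normalizer_eq_top]; exact mem_top _
    exact (mem_normalizer_iff_map.1 this).symm
  rw [← h1] at hQ
  apply hw
  rw [mem_centralizer_iff]
  intro u hu
  exact mem_cent_iff.1 (hQ hu)

open Cfsg.Agent.Lib.RelSylow in
theorem cs_dvd_card_P {P : Subgroup G} (hP : IsSyl p P ⊤) {w : G} (hwP : w ∈ P) (hw : w ∉ centralizer (P : Set G)) :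
    cs w ∣ Nat.card P := by
  have hPn := B.normal hP
  have hpw := B.p_dvd_of_not_mem hP hw
  have hwp : PEl p w := by
    obtain ⟨k, hk⟩ := IsPGroup.iff_orderOf.1 hP.2.1 ⟨w, hwP⟩
    exact ⟨k, by rw [← hk, orderOf_mk]⟩
  have hw1 : w ≠ 1 := by rintro rfl; exact hw (one_mem _)
  have hcop := B.f1 (hwp.dvd hw1) hpw
  set C := centralizer ((normalClosure {x} : Subgroup G) : Set G) with hC
  have hCx : C.index = cs x := by
    unfold cs; rw [B.centralizer_eq]
  have h1 : (centralizer ({w} : Set G) ⊓ C).index = cs w * C.index :=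
    HallConverse.index_inf_of_coprime (by rw [hCx]; exact hcop)
  have h2 : (centralizer ({w} : Set G) ⊓ C).index ∣ (C ⊓ centralizer (P : Set G)).index := by
    apply index_dvd_of_le
    refine le_inf (inf_le_right.trans ?_) inf_le_left
    exact centralizer_le (Set.singleton_subset_iff.2 hwP)
  set E := C ⊓ centralizer (P : Set G) with hE
  have h3 : E ⊔ P = C := by
    apply le_antisymm (sup_le inf_le_left (B.le_C hP.2.1))
    rw [sup_comm]
    exact B.C_le hP
  have h4 := H32Cores.card_sup_mul_card_inf E P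
  rw [h3] at h4
  have h5 := card_mul_index C
  have h6 := card_mul_index E
  have h7 : E.index ∣ C.index * Nat.card P := by
    have hEpos : 0 < Nat.card E := Nat.card_pos
    refine Nat.dvd_of_mul_dvd_mul_left hEpos ?_
    refine ⟨Nat.card (E ⊓ P : Subgroup G), ?_⟩
    rw [h6, ← h5]
    linear_combination C.index * h4.symm
  have h8 : cs w * C.index ∣ Nat.card P * C.index := by
    rw [← h1, mul_comm (Nat.card P)]
    exact h2.trans h7
  exact Nat.dvd_of_mul_dvd_mul_right (Nat.pos_of_ne_zero index_ne_zero_of_finite) h8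

open Cfsg.Agent.Lib.RelSylow in
theorem false : False := by
  obtain ⟨P, hP⟩ := exists_syl p (⊤ : Subgroup G)
  have hPn := B.normal hP
  have hPi : ¬ p ∣ P.index := by
    have := hP.2.2
    rwa [relIndex_top_right] at this
  obtain ⟨n, hn⟩ := IsPGroup.iff_card.1 hP.2.1
  have hcopr : ∀ S : Subgroup G, (Nat.card (P ⊓ S : Subgroup G)).Coprime (P.relIndex S) := by
    intro S
    have h1 : Nat.card (P ⊓ S : Subgroup G) ∣ p ^ n := by rw [← hn]; exact card_dvd_of_le inf_le_left
    have h2 : P.relIndex S ∣ P.index := relIndex_dvd_index_of_normal P S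
    refine Nat.Coprime.coprime_dvd_left h1 (Nat.Coprime.coprime_dvd_right h2 ?_)
    exact Nat.Coprime.pow_left n ((Nat.Prime.coprime_iff_not_dvd hp.out).2 hPi)
  have hNorm : ∀ S : Subgroup G, S ≤ normalizer (P : Set G) := by
    intro S; rw [normalizer_eq_top]; exact le_top
  obtain ⟨K, -, hK1, hK2, hK3⟩ := CoprimeAction.exists_complement_rel (hNorm ⊤) (hcopr ⊤)
  rw [inf_top_eq] at hK3
  rw [relIndex_top_right] at hK1
  have hcPK : (Nat.card P).Coprime P.index := by
    rw [hn]; exact Nat.Coprime.pow_left n ((Nat.Prime.coprime_iff_not_dvd hp.out).2 hPi)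
  have hsol : Group.IsSolvable P := by
    have := hP.2.1.isNilpotent
    infer_instance
  have hmain : ∀ w ∈ P, w ∉ centralizer (P : Set G) → ∃ a ∈ P, a * w * a⁻¹ ∈ centralizer (K : Set G) := by
    intro w hwP hw
    have hcw := B.cs_dvd_card_P hP hwP hw
    obtain ⟨H, hH0, hH1, hH2, hH3⟩ := CoprimeAction.exists_complement_rel (hNorm (centralizer ({w} : Set G)))
      (hcopr (centralizer ({w} : Set G)))
    have h1 := card_mul_relIndex P (centralizer ({w} : Set G))
    have h2 : Nat.card (centralizer ({w} : Set G)) * cs w = Nat.card G := card_mul_index _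
    have h3 := card_mul_index P
    rw [← h1, ← hH1, ← h3] at h2
    have h4 : P.index ∣ Nat.card H := by
      have h5 : P.index ∣ (Nat.card (P ⊓ centralizer ({w} : Set G) : Subgroup G) * cs w) * Nat.card H :=
        ⟨Nat.card P, by linear_combination h2⟩
      refine Nat.Coprime.dvd_of_dvd_mul_left ?_ h5
      refine Nat.Coprime.mul_right ?_ ?_
      · exact (Nat.Coprime.coprime_dvd_left (card_dvd_of_le inf_le_left) hcPK).symm
      · exact (Nat.Coprime.coprime_dvd_left hcw hcPK).symm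
    have h5 : Nat.card H ∣ P.index := by rw [hH1]; exact relIndex_dvd_index_of_normal P _
    have h6 : Nat.card H = P.index := Nat.dvd_antisymm h5 h4
    have h7 : P ⊔ H = ⊤ := by
      have h8 := H32Cores.card_sup_mul_card_inf H P
      rw [inf_comm, hH2, card_bot, mul_one, h6, mul_comm, h3, sup_comm] at h8
      exact eq_top_of_card_eq _ h8
    obtain ⟨a, ha, haK⟩ := SchurZassenhaus.conj_of_solvable (N := P) (H := H) (K := K) (hNorm _) (hNorm _)
      (by rw [h7, hK3]) (by rw [h6]; exact hcPK) (by rw [hK1]; exact hcPK) (Or.inl hsol)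
    refine ⟨a, ha, ?_⟩
    rw [mem_centralizer_iff]
    intro k hk
    have hk' : k ∈ K := hk
    rw [← haK, mem_conj_smul] at hk'
    have h9 := mem_cent_iff.1 (hH0 hk')
    calc k * (a * w * a⁻¹) = a * ((a⁻¹ * k * a) * w) * a⁻¹ := by group
      _ = a * (w * (a⁻¹ * k * a)) * a⁻¹ := by rw [h9.eq]
      _ = _ := by group
  -- the count
  have hxP : x ∈ P := by
    have h1 : IsPGroup p (zpowers x) := by
      obtain ⟨k, hk⟩ := B.hx
      exact IsPGroup.of_card (n := k) (by rw [Nat.card_zpowers, hk])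
    obtain ⟨m, -, hm⟩ := hP.exists_conj_le h1 le_top
    rw [mem_normalizer_iff_map.1 (hNorm ⊤ (mem_top m))] at hm
    exact hm (mem_zpowers x)
  have hyP : y ∈ P := by
    have h1 : IsPGroup p (zpowers y) := by
      obtain ⟨k, hk⟩ := B.hy
      exact IsPGroup.of_card (n := k) (by rw [Nat.card_zpowers, hk])
    obtain ⟨m, -, hm⟩ := hP.exists_conj_le h1 le_top
    rw [mem_normalizer_iff_map.1 (hNorm ⊤ (mem_top m))] at hm
    exact hm (mem_zpowers y)
  have hxc : x ∈ centralizer (P : Set G) := by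
    by_contra hcon
    exact B.hpx (B.p_dvd_of_not_mem hP hcon)
  have hyc : y ∉ centralizer (P : Set G) := by
    intro hcon
    have h1 : P ≤ centralizer ({y} : Set G) := by
      intro u hu
      rw [mem_cent_iff]
      exact mem_centralizer_iff.1 hcon u hu
    obtain ⟨Q, hQ⟩ := hP.toSylow
    exact ClassSizeCounting.not_dvd_of_sylow_le_centralizer p y Q (hQ ▸ h1) B.p_dvd_y
  have hcount := count (P := P) ((centralizer (P : Set G)).subgroupOf P) ((centralizer (K : Set G)).subgroupOf P) ?_ ?_ ?_ ?_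
  · have h1 : (⟨y, hyP⟩ : P) ∈ (centralizer (P : Set G)).subgroupOf P := by rw [hcount]; exact mem_top _
    exact hyc h1
  · rintro ⟨z, hz⟩ hzc
    rw [mem_center_iff]
    rintro ⟨g, hg⟩
    exact Subtype.ext (mem_centralizer_iff.1 hzc g hg)
  · intro h
    have h1 : (⟨x, hxP⟩ : P) ∈ (centralizer (P : Set G)).subgroupOf P := hxc
    rw [h, mem_bot] at h1
    exact B.x_ne (congrArg Subtype.val h1)
  · rw [eq_bot_iff]
    rintro ⟨d, hd⟩ ⟨hd1, hd2⟩
    have hd1' : d ∈ centralizer (K : Set G) := hd1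
    have hd2' : d ∈ centralizer (P : Set G) := hd2
    rw [mem_bot]
    by_contra hne
    have hdp : PEl p d := by
      obtain ⟨k, hk⟩ := IsPGroup.iff_orderOf.1 hP.2.1 ⟨d, hd⟩
      exact ⟨k, by rw [← hk, orderOf_mk]⟩
    refine B.hZ d hdp (fun h => hne (Subtype.ext h)) ?_
    rw [cs_eq_one_iff]
    have h1 : P ⊔ K ≤ centralizer ({d} : Set G) := by
      refine sup_le ?_ ?_
      · intro u hu
        rw [mem_cent_iff]
        exact mem_centralizer_iff.1 hd2' u hu
      · intro u hu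
        rw [mem_cent_iff]
        exact mem_centralizer_iff.1 hd1' u hu
    rw [hK3] at h1
    rw [mem_center_iff]
    intro g
    exact mem_cent_iff.1 (h1 (mem_top g))
  · rintro ⟨w, hw⟩ hwc
    obtain ⟨a, ha, h⟩ := hmain w hw (fun h => hwc h)
    exact ⟨⟨a, ha⟩, h⟩

end Bad

/-- two `p`-singular elements are linked by a third one -/
theorem linked (p : ℕ) [hp : Fact p.Prime] (hZ : ¬ p ∣ Nat.card (center G)) {x y : G} (hx : p ∣ orderOf x)
    (hy : p ∣ orderOf y) : ∃ w : G, p ∣ orderOf w ∧ ¬ (cs w).Coprime (cs x) ∧ ¬ (cs w).Coprime (cs y) := by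
  by_contra hcon
  have hZ' : ∀ u : G, PEl p u → u ≠ 1 → cs u ≠ 1 := by
    intro u hu hu1 h
    rw [cs_eq_one_iff] at h
    apply hZ
    have h1 : orderOf (⟨u, h⟩ : center G) ∣ Nat.card (center G) := orderOf_dvd_natCard _
    rw [orderOf_mk] at h1
    exact (hu.dvd hu1).trans h1
  have hpart : ∀ x : G, p ∣ orderOf x → ∃ x' : G, PEl p x' ∧ x' ≠ 1 ∧ cs x' ∣ cs x := by
    intro x hx
    obtain ⟨a, b, ha, hb, hab⟩ := CycNorm.exists_parts p hp.out x
    refine ⟨x ^ a, ha, ?_, cs_dvd_of_mem_zpowers (pow_mem (mem_zpowers x) a)⟩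
    intro h
    rw [h, one_mul] at hab
    rw [← hab] at hb
    exact hp.out.one_lt.ne' (Nat.eq_one_of_dvd_coprimes hb hx dvd_rfl)
  obtain ⟨x', hx', hx1, hxx⟩ := hpart x hx
  obtain ⟨y', hy', hy1, hyy⟩ := hpart y hy
  have hyp : ∀ w : G, p ∣ orderOf w → (cs w).Coprime (cs x') ∨ (cs w).Coprime (cs y') := by
    intro w hw
    by_contra hc
    push Not at hc
    exact hcon ⟨w, hw, fun h => hc.1 (Nat.Coprime.coprime_dvd_right hxx h), fun h => hc.2 (Nat.Coprime.coprime_dvd_right hyy h)⟩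
  by_cases hpx : p ∣ cs x'
  · have hcop : (cs x').Coprime (cs y') := by
      rcases hyp x' (hx'.dvd hx1) with h | h
      · exact absurd ((Nat.coprime_self _).1 h) (hZ' x' hx' hx1)
      · exact h
    have hpy : ¬ p ∣ cs y' := fun h => hp.out.one_lt.ne' (Nat.eq_one_of_dvd_coprimes hcop hpx h)
    exact (Bad.mk hy' hx' (hZ' y' hy' hy1) (hZ' x' hx' hx1) hZ' (fun w hw => (hyp w hw).symm) hpy).false
  · exact (Bad.mk hx' hy' (hZ' x' hx' hx1) (hZ' y' hy' hy1) hZ' hyp hpx).false

end main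

end Cfsg.Agent.Lib.H64PSing
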