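import Cfsg.Agent.Lib.H64LA
import Cfsg.Agent.Lib.H64LD

/-! S3105, piece BI (helper65): the inverted case. -/

set_option autoImplicit false

namespace Cfsg.Agent.Lib.H65BI

open Subgroup Cfsg Cfsg.Agent.Lib.SectRank Cfsg.Agent.Lib.H50Five Cfsg.Agent.Lib.H64L

universe u v
variable {Y : Type u} {L : Type v} [Group Y] [Group L]

theorem units4 (c : (ZMod 4)ˣ) : c = 1 ∨ c = -1 := by
  revert c; decide

theorem beta_inv [Finite Y] (_hL : IsL L) {π : Y →* L} {M E : Subgroup Y} (B : Beta π M) (H : Homo E M) (hE : E ≤ π.ker)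
    {z : Y} (hz : z ∈ π.ker) (hzE : z ∉ E) (hi : ∀ x ∈ E, z * x * z⁻¹ = x⁻¹)
    (noalpha : ∀ (Y1 : Type u) [Group Y1] [Finite Y1] (π1 : Y1 →* L) (M1 : Subgroup Y1), Function.Surjective π1 →
      RankIn 2 4 (⊤ : Subgroup Y1) → Homo π1.ker M1 → (∃ g : Y1, ∃ m ∈ M1, g * m * g⁻¹ * m⁻¹ ≠ 1) → False) : False := by
  obtain ⟨χ, hχE, hχz, -⟩ := exists_det H
  have hz1 : χ z = -1 := hχz z hi
  have hne : (-1 : (ZMod 4)ˣ) ≠ 1 := by decide
  have hidx : (E.subgroupOf π.ker).index = 2 := by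
    have h3 := relIndex_mul_relIndex (⊥ : Subgroup Y) E π.ker bot_le hE
    rw [relIndex_bot_left, relIndex_bot_left, H.cE, B.cP] at h3
    change E.relIndex π.ker = 2
    omega
  -- `ker χ ⊓ ker π = E`
  have hcap : ∀ x ∈ π.ker, χ x = 1 → x ∈ E := by
    intro x hx h1
    by_contra hxE
    have h2 := mul_mem_iff_of_index_two hidx (a := ⟨x, hx⟩) (b := ⟨z, hz⟩)
    simp only [mem_subgroupOf, MulMemClass.mk_mul_mk] at h2
    have h3 : x * z ∈ E := h2.2 ⟨fun h => absurd h hxE, fun h => absurd h hzE⟩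
    have h4 := hχE _ h3
    rw [map_mul, h1, one_mul, hz1] at h4
    exact hne h4
  -- lifting modulo `z`
  have hlift : ∀ g : Y, ∃ g' : Y, χ g' = 1 ∧ (g' = g ∨ g' = g * z) := by
    intro g
    rcases units4 (χ g) with h | h
    · exact ⟨g, h, Or.inl rfl⟩
    · exact ⟨g * z, by rw [map_mul, h, hz1]; decide, Or.inr rfl⟩
  have hMY : M ≤ χ.ker := fun m hm => hχE m (H.le hm)
  have hEY : E ≤ χ.ker := fun m hm => hχE m hm
  let π1 : χ.ker →* L := π.comp χ.ker.subtype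
  have hk : π1.ker = E.subgroupOf χ.ker := by
    ext x
    rw [mem_subgroupOf]
    constructor
    · intro hx
      exact hcap _ hx x.2
    · intro hx
      exact hE hx
  refine noalpha χ.ker π1 (M.subgroupOf χ.ker) ?_ ?_ ?_ ?_
  · intro l
    obtain ⟨g, rfl⟩ := B.surj l
    obtain ⟨g', h1, h2⟩ := hlift g
    refine ⟨⟨g', h1⟩, ?_⟩
    change π g' = π g
    rcases h2 with rfl | rfl
    · rfl
    · rw [map_mul, (MonoidHom.mem_ker).1 hz, mul_one]
  · rw [← rankIn_map χ.ker.subtype χ.ker.subtype_injective]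
    exact B.rank.mono le_top
  · refine ⟨inferInstance, ?_, ?_, ?_, ?_, ?_, ?_, ?_, ?_⟩
    · have := H.nM
      infer_instance
    · rw [hk]
      intro x hx
      exact H.le hx
    · intro x hx y hy
      rw [hk] at hx hy
      exact Subtype.ext (H.ab _ hx _ hy)
    · rw [hk, ← H.cE]
      exact Nat.card_congr (subgroupOfEquivOfLe hEY).toEquiv
    · rw [← H.cM]
      exact Nat.card_congr (subgroupOfEquivOfLe hMY).toEquiv
    · intro x hx
      rw [hk] at hx
      exact H.sqE _ hx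
    · intro x hx
      exact Subtype.ext (H.sqM _ hx)
    · intro x hx h
      rw [hk] at hx
      exact H.inv _ hx (congrArg Subtype.val h)
  · obtain ⟨g, m, hm, hgm⟩ := B.nt
    obtain ⟨g', h1, h2⟩ := hlift g
    refine ⟨⟨g', h1⟩, ⟨m, hMY hm⟩, hm, ?_⟩
    intro h
    apply hgm
    have h3 : g' * m * g'⁻¹ * m⁻¹ = 1 := congrArg Subtype.val h
    rcases h2 with rfl | rfl
    · exact h3
    · have h4 := B.cent m hm z hz
      calc g * m * g⁻¹ * m⁻¹ = g * (m * z) * z⁻¹ * g⁻¹ * m⁻¹ := by group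
        _ = g * (z * m) * z⁻¹ * g⁻¹ * m⁻¹ := by rw [h4]
        _ = (g * z) * m * (g * z)⁻¹ * m⁻¹ := by group
        _ = 1 := h3

end Cfsg.Agent.Lib.H65BI
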