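import Mathlib
import Cfsg.Agent.Lib.H64LA

/-! S3105, piece MLB (helper66): no involution outside a homocyclic group `4^3`, rank 4. -/

set_option autoImplicit false

namespace Cfsg.Agent.Lib.H66ML

open Subgroup Cfsg Cfsg.Agent.Lib.SubgroupTools Cfsg.Agent.Lib.SectRank Cfsg.Agent.Lib.H50Five Cfsg.Agent.Lib.H64L

universe u v
variable {Y : Type u} {L : Type v} [Group Y] [Group L]

/-- adding one element to an elementary section -/
theorem step {G : Type*} [Group G] {N H : Subgroup G} (hE : Elem 2 N H) {t : G} (h2 : t ^ 2 ∈ N)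
    (hc : ∀ h ∈ H, t * h * t⁻¹ * h⁻¹ ∈ N) (ht : t ∉ H) :
    ∃ H' : Subgroup G, Elem 2 N H' ∧ H ≤ H' ∧ t ∈ H' ∧ N.relIndex H' = 2 * N.relIndex H ∧
      ∀ x, x ∈ H' ↔ x ∈ H ∨ x * t⁻¹ ∈ H := by
  obtain ⟨hNH, hsq, hcm⟩ := hE
  have hconj : ∀ h ∈ H, t * h * t⁻¹ ∈ H := by
    intro h hh
    have := mul_mem (hNH (hc h hh)) hh
    rwa [inv_mul_cancel_right] at this
  have hn : ∀ h ∈ H, ∀ n ∈ N, h * n * h⁻¹ ∈ N := by
    intro h hh n hn
    have := mul_mem (hcm h hh n (hNH hn)) hn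
    rwa [inv_mul_cancel_right] at this
  have htN : ∀ n ∈ N, t * n * t⁻¹ ∈ N := by
    intro n hn
    have := mul_mem (hc n (hNH hn)) hn
    rwa [inv_mul_cancel_right] at this
  have ht2 : t * t ∈ H := by rw [← pow_two]; exact hNH h2
  have hclosed : ∀ x y : G, (x ∈ H ∨ x * t⁻¹ ∈ H) → (y ∈ H ∨ y * t⁻¹ ∈ H) → (x * y ∈ H ∨ x * y * t⁻¹ ∈ H) := by
    rintro x y (hx | hx) (hy | hy)
    · exact Or.inl (mul_mem hx hy)
    · right; rw [mul_assoc]; exact mul_mem hx hy
    · right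
      have e : x * y * t⁻¹ = (x * t⁻¹) * (t * y * t⁻¹) := by group
      rw [e]; exact mul_mem hx (hconj y hy)
    · left
      have e : x * y = (x * t⁻¹) * (t * (y * t⁻¹) * t⁻¹) * (t * t) := by group
      rw [e]; exact mul_mem (mul_mem hx (hconj _ hy)) ht2
  have hinv : ∀ x : G, (x ∈ H ∨ x * t⁻¹ ∈ H) → (x⁻¹ ∈ H ∨ x⁻¹ * t⁻¹ ∈ H) := by
    rintro x (hx | hx)
    · exact Or.inl (inv_mem hx)
    · right
      have e : x⁻¹ * t⁻¹ = (t * (x * t⁻¹) * t⁻¹ * (t * t))⁻¹ := by group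
      rw [e]; exact inv_mem (mul_mem (hconj _ hx) ht2)
  let H' : Subgroup G :=
    { carrier := {x | x ∈ H ∨ x * t⁻¹ ∈ H}
      mul_mem' := fun {x y} hx hy => hclosed x y hx hy
      one_mem' := Or.inl (one_mem _)
      inv_mem' := fun {x} hx => hinv x hx }
  have hmem : ∀ x, x ∈ H' ↔ x ∈ H ∨ x * t⁻¹ ∈ H := fun x => Iff.rfl
  have hle : H ≤ H' := fun x hx => Or.inl hx
  have htH : t ∈ H' := by
    right; rw [mul_inv_cancel]; exact one_mem _
  have hck : ∀ k ∈ H, ∀ h ∈ H, (h * t) * k * (h * t)⁻¹ * k⁻¹ ∈ N := by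
    intro k hk h hh
    have e : (h * t) * k * (h * t)⁻¹ * k⁻¹ = (h * (t * k * t⁻¹ * k⁻¹) * h⁻¹) * (h * k * h⁻¹ * k⁻¹) := by group
    rw [e]; exact mul_mem (hn h hh _ (hc k hk)) (hcm h hh k hk)
  refine ⟨H', ⟨hNH.trans hle, ?_, ?_⟩, hle, htH, ?_, hmem⟩
  · rintro x (hx | hx)
    · exact hsq x hx
    · have e : x ^ 2 = ((x * t⁻¹) * (t * (x * t⁻¹) * t⁻¹ * (x * t⁻¹)⁻¹) * (x * t⁻¹)⁻¹) * (x * t⁻¹) ^ 2 * t ^ 2 := by
        rw [pow_two x, pow_two (x * t⁻¹)]; group
      rw [e]; exact mul_mem (mul_mem (hn _ hx _ (hc _ hx)) (hsq _ hx)) h2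
  · rintro x (hx | hx) y (hy | hy)
    · exact hcm x hx y hy
    · have := inv_mem (hck x hx _ hy)
      have e : ((y * t⁻¹ * t) * x * (y * t⁻¹ * t)⁻¹ * x⁻¹)⁻¹ = x * y * x⁻¹ * y⁻¹ := by group
      rwa [e] at this
    · have := hck y hy _ hx
      rwa [inv_mul_cancel_right] at this
    · -- x = h t, y = k t
      have e : x * y * x⁻¹ * y⁻¹ = ((x * t⁻¹) * (t * ((y * t⁻¹) * (x * t⁻¹)⁻¹) * t⁻¹ * ((y * t⁻¹) * (x * t⁻¹)⁻¹)⁻¹) * (x * t⁻¹)⁻¹) *
        ((x * t⁻¹) * (y * t⁻¹) * (x * t⁻¹)⁻¹ * (y * t⁻¹)⁻¹) := by group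
      rw [e]
      exact mul_mem (hn _ hx _ (hc _ (mul_mem hy (inv_mem hx)))) (hcm _ hx _ hy)
  · have h1 : H.relIndex H' = 2 := by
      rw [relIndex_eq_two_iff]
      refine ⟨t⁻¹, inv_mem htH, ?_⟩
      rintro b (hb | hb)
      · right
        refine ⟨hb, fun h => ht ?_⟩
        have := mul_mem (inv_mem hb) h
        rw [inv_mul_cancel_left] at this
        exact (inv_mem_iff).1 this
      · left
        refine ⟨hb, fun h => ht ?_⟩
        have := mul_mem (inv_mem h) hb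
        rw [inv_mul_cancel_left] at this
        exact (inv_mem_iff).1 this
    rw [← relIndex_mul_relIndex N H H' hNH hle, h1, mul_comm]

/-- `x ∈ M ∪ v M` -/
def InD (M : Subgroup Y) (v x : Y) : Prop := x ∈ M ∨ x * v⁻¹ ∈ M

/-- the main data -/
structure Dat (E M : Subgroup Y) (t v p r : Y) : Prop where
  hv : v ∈ E
  hp : p ∈ E
  hr : r ∈ E
  ind : Ind M v p r
  tv : t * v * t⁻¹ = v⁻¹
  tp : t * p * t⁻¹ * p⁻¹ ∈ M
  tr : t * r * t⁻¹ * r⁻¹ = v
  tx : ∀ x ∈ E, InD M v (t * x * t⁻¹ * x⁻¹)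
  dec : ∀ x ∈ E, InD M v x ∨ InD M v (x * r⁻¹) ∨ InD M v (x * p⁻¹) ∨ InD M v (x * p⁻¹ * r⁻¹)

theorem exists_dat [Finite Y] {E M : Subgroup Y} (H : Homo E M)
    (faithful : ∀ g : Y, (∀ x ∈ E, g * x * g⁻¹ * x⁻¹ ∈ M) → g ∈ E)
    {t : Y} (ht : t ^ 2 = 1) (ht' : t ∉ E) : ∃ v p r : Y, Dat E M t v p r := by
  obtain ⟨nE, nM, le, ab, cE, cM, sqE, sqM, inv⟩ := H
  have htt : t * t = 1 := by rw [← pow_two]; exact ht
  have hti : t⁻¹ = t := inv_eq_of_mul_eq_one_left htt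
  have hφE : ∀ x ∈ E, t * x * t⁻¹ * x⁻¹ ∈ E := fun x hx => mul_mem (nE.conj_mem x hx t) (inv_mem hx)
  set q := QuotientGroup.mk' M with hq
  have hq1 : ∀ x, q x = 1 ↔ x ∈ M := fun x => QuotientGroup.eq_one_iff x
  set f : Y → Y ⧸ M := fun x => q (t * x * t⁻¹ * x⁻¹) with hf
  have fmul : ∀ x ∈ E, ∀ y ∈ E, f (x * y) = f x * f y := by
    intro x hx y hy
    simp only [hf]
    rw [← map_mul]
    congr 1
    have h1 := ab x hx (t * y * t⁻¹ * y⁻¹) (hφE y hy)
    calc t * (x * y) * t⁻¹ * (x * y)⁻¹ = t * x * t⁻¹ * x⁻¹ * (x * (t * y * t⁻¹ * y⁻¹)) * x⁻¹ := by group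
      _ = t * x * t⁻¹ * x⁻¹ * (t * y * t⁻¹ * y⁻¹) := by rw [h1]; group
  have fM : ∀ x ∈ M, f x = 1 := fun x hx => (hq1 _).2 (mul_mem (nM.conj_mem x hx t) (inv_mem hx))
  have hinv : ∀ x, t * (t * x * t⁻¹ * x⁻¹) * t⁻¹ = (t * x * t⁻¹ * x⁻¹)⁻¹ := by
    intro x
    calc t * (t * x * t⁻¹ * x⁻¹) * t⁻¹ = (t * t) * x * t⁻¹ * x⁻¹ * t⁻¹ := by group
      _ = x * t * x⁻¹ * t⁻¹ := by rw [htt, hti]; group
      _ = _ := by group
  have ff : ∀ x ∈ E, f (t * x * t⁻¹ * x⁻¹) = 1 := by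
    intro x hx
    simp only [hf]
    rw [hinv, hq1, ← mul_inv_rev, ← pow_two]
    exact inv_mem (sqE _ (hφE x hx))
  obtain ⟨r, hrE, hr⟩ : ∃ r ∈ E, t * r * t⁻¹ * r⁻¹ ∉ M := by
    by_contra hcon
    push Not at hcon
    exact ht' (faithful t hcon)
  set v := t * r * t⁻¹ * r⁻¹ with hv
  have hvE : v ∈ E := hφE r hrE
  have fv : f v = 1 := ff r hrE
  have fr : f r = q v := rfl
  have hqv : q v ≠ 1 := fun h => hr ((hq1 _).1 h)
  have qsq : ∀ x ∈ E, q x * q x = 1 := by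
    intro x hx
    rw [← map_mul, hq1, ← pow_two]; exact sqE x hx
  have comE : ∀ x ∈ E, ∀ y ∈ E, x * y * x⁻¹ * y⁻¹ = 1 := by
    intro x hx y hy
    rw [ab x hx y hy]; group
  have E0 : Elem 2 M M := ⟨le_rfl, fun x hx => pow_mem hx 2, fun x hx y hy => by
    rw [comE x (le hx) y (le hy)]; exact one_mem _⟩
  obtain ⟨H1, E1, le1, vH1, i1, m1⟩ := step E0 (sqE v hvE) (fun h hh => by
    rw [comE v hvE h (le hh)]; exact one_mem _) hr
  have H1E : H1 ≤ E := by
    intro x hx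
    rcases (m1 x).1 hx with h | h
    · exact le h
    · have := mul_mem (le h) hvE
      rwa [inv_mul_cancel_right] at this
  have fH1 : ∀ x ∈ H1, f x = 1 := by
    intro x hx
    rcases (m1 x).1 hx with h | h
    · exact fM x h
    · have h1 := fmul _ (le h) v hvE
      rw [inv_mul_cancel_right, fM _ h, fv, one_mul] at h1
      exact h1
  have hrH1 : r ∉ H1 := fun h => hqv (by rw [← fr]; exact fH1 r h)
  obtain ⟨H2, E2, le2, rH2, i2, m2⟩ := step E1 (sqE r hrE) (fun h hh => by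
    rw [comE r hrE h (H1E hh)]; exact one_mem _) hrH1
  have H2E : H2 ≤ E := by
    intro x hx
    rcases (m2 x).1 hx with h | h
    · exact H1E h
    · have := mul_mem (H1E h) hrE
      rwa [inv_mul_cancel_right] at this
  rw [relIndex_self] at i1
  have c2 : Nat.card H2 = 32 := by
    have h1 := card_mul_relIndex_of_le (le1.trans le2)
    rw [← h1, i2, i1, cM]
  have dec : ∀ c ∈ E, c ∉ H2 → ∀ x ∈ E, x ∈ H2 ∨ x * c⁻¹ ∈ H2 := by
    intro c hc hc2
    obtain ⟨H3, E3, le3, cH3, i3, m3⟩ := step E2 (sqE c hc) (fun h hh => by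
      rw [comE c hc h (H2E hh)]; exact one_mem _) hc2
    have H3E : H3 ≤ E := by
      intro x hx
      rcases (m3 x).1 hx with h | h
      · exact H2E h
      · have := mul_mem (H2E h) hc
        rwa [inv_mul_cancel_right] at this
    have c3 : Nat.card H3 = 64 := by
      have h1 := card_mul_relIndex_of_le ((le1.trans le2).trans le3)
      rw [← h1, i3, i2, i1, cM]
    have e3 : H3 = E := eq_of_le_of_card_ge H3E (by rw [c3, cE])
    intro x hx
    rw [← e3] at hx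
    exact (m3 x).1 hx
  obtain ⟨c, hcE, hc2⟩ : ∃ c ∈ E, c ∉ H2 := by
    by_contra hcon
    push Not at hcon
    have := card_le_of_le (show E ≤ H2 from hcon)
    omega
  have fH2 : ∀ x ∈ H2, f x = 1 ∨ f x = q v := by
    intro x hx
    rcases (m2 x).1 hx with h | h
    · exact Or.inl (fH1 x h)
    · have h1 := fmul _ (H1E h) r hrE
      rw [inv_mul_cancel_right, fH1 _ h, one_mul] at h1
      exact Or.inr h1
  -- `f c ∈ {1, V}`
  have fc : f c = 1 ∨ f c = q v := by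
    rcases dec c hcE hc2 _ (hφE c hcE) with h | h
    · rcases (m2 _).1 h with h' | h'
      · rcases (m1 _).1 h' with h'' | h''
        · exact Or.inl ((hq1 _).2 h'')
        · right
          have := (hq1 _).2 h''
          rw [map_mul, map_inv, mul_inv_eq_one] at this
          exact this
      · exfalso
        have h1 := fmul _ (H1E h') r hrE
        rw [inv_mul_cancel_right, fH1 _ h', one_mul, ff c hcE] at h1
        exact hqv h1.symm
    · have h1 := fmul _ (H2E h) c hcE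
      rw [inv_mul_cancel_right, ff c hcE] at h1
      rcases fH2 _ h with h2 | h2
      · rw [h2, one_mul] at h1; exact Or.inl h1.symm
      · rw [h2] at h1
        right
        have h3 : q v * q v = q v * f c := by rw [← h1]; exact qsq v hvE
        exact (mul_left_cancel h3).symm
  have tx : ∀ x ∈ E, f x = 1 ∨ f x = q v := by
    intro x hx
    rcases dec c hcE hc2 x hx with h | h
    · exact fH2 x h
    · have h1 := fmul _ (H2E h) c hcE
      rw [inv_mul_cancel_right] at h1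
      rw [h1]
      rcases fH2 _ h with h2 | h2 <;> rcases fc with h3 | h3 <;> rw [h2, h3]
      · left; rw [one_mul]
      · right; rw [one_mul]
      · right; rw [mul_one]
      · left; exact qsq v hvE
  obtain ⟨p, hpE, hp2, fp⟩ : ∃ p ∈ E, p ∉ H2 ∧ f p = 1 := by
    rcases fc with h | h
    · exact ⟨c, hcE, hc2, h⟩
    · refine ⟨c * r, mul_mem hcE hrE, fun h1 => hc2 ?_, ?_⟩
      · have := mul_mem h1 (inv_mem rH2)
        rwa [mul_inv_cancel_right] at this
      · rw [fmul c hcE r hrE, h]; exact qsq v hvE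
  refine ⟨v, p, r, hvE, hpE, hrE, ?_, hinv r, (hq1 _).1 fp, rfl, ?_, ?_⟩
  · have vH2 : v ∈ H2 := le2 vH1
    have MH2 : M ≤ H2 := le1.trans le2
    refine ⟨hr, fun h => hp2 (MH2 h), fun h => hrH1 (le1 h), fun h => hp2 ?_, fun h => hrH1 ?_, fun h => hp2 ?_,
      fun h => hp2 ?_⟩
    · have := mul_mem (inv_mem vH2) (MH2 h)
      rwa [inv_mul_cancel_left] at this
    · have := mul_mem (inv_mem vH1) (le1 h)
      rwa [inv_mul_cancel_left] at this
    · have := mul_mem (MH2 h) (inv_mem rH2)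
      rwa [mul_inv_cancel_right] at this
    · have := mul_mem (inv_mem vH2) (mul_mem (MH2 h) (inv_mem rH2))
      rwa [mul_inv_cancel_right, inv_mul_cancel_left] at this
  · intro x hx
    rcases tx x hx with h | h
    · exact Or.inl ((hq1 _).1 h)
    · right
      rw [← hq1, map_mul, map_inv, mul_inv_eq_one]; exact h
  · intro x hx
    rcases dec p hpE hp2 x hx with h | h
    · rcases (m2 _).1 h with h' | h'
      · exact Or.inl ((m1 _).1 h')
      · exact Or.inr (Or.inl ((m1 _).1 h'))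
    · rcases (m2 _).1 h with h' | h'
      · exact Or.inr (Or.inr (Or.inl ((m1 _).1 h')))
      · exact Or.inr (Or.inr (Or.inr ((m1 _).1 h')))

theorem ml_b' [Finite Y] {E M : Subgroup Y} (H : Homo E M) (hr : RankIn 2 4 (⊤ : Subgroup Y))
    (faithful : ∀ g : Y, (∀ x ∈ E, g * x * g⁻¹ * x⁻¹ ∈ M) → g ∈ E)
    (trans : ∀ a ∈ E, ∀ b ∈ E, ∀ c ∈ E, ∀ a' ∈ E, ∀ b' ∈ E, ∀ c' ∈ E, Ind M a b c → Ind M a' b' c' →
      ∃ g : Y, g * a * g⁻¹ * a'⁻¹ ∈ M ∧ g * b * g⁻¹ * b'⁻¹ ∈ M ∧ g * c * g⁻¹ * c'⁻¹ ∈ M)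
    {t : Y} (ht : t ^ 2 = 1) (ht' : t ∉ E) : False := by
  obtain ⟨v, p, r, hv, hp, hr', ind, tv, tp, tr, tx, dec⟩ := exists_dat H faithful ht ht'
  obtain ⟨nE, nM, le, ab, cE, cM, sqE, sqM, inv⟩ := H
  have htt : t * t = 1 := by rw [← pow_two]; exact ht
  have hti : t⁻¹ = t := inv_eq_of_mul_eq_one_left htt
  set q := QuotientGroup.mk' M with hq
  have hq1 : ∀ x, q x = 1 ↔ x ∈ M := fun x => QuotientGroup.eq_one_iff x
  have qsq : ∀ x ∈ E, q x * q x = 1 := by
    intro x hx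
    rw [← map_mul, hq1, ← pow_two]; exact sqE x hx
  have qinv : ∀ x ∈ E, (q x)⁻¹ = q x := fun x hx => inv_eq_of_mul_eq_one_left (qsq x hx)
  have qcom : ∀ x ∈ E, ∀ y ∈ E, q x * q y = q y * q x := by
    intro x hx y hy
    rw [← map_mul, ab x hx y hy, map_mul]
  have comE : ∀ x ∈ E, ∀ y ∈ E, x * y * x⁻¹ * y⁻¹ = 1 := by
    intro x hx y hy
    rw [ab x hx y hy]; group
  obtain ⟨i1, i2, i3, i4, i5, i6, i7⟩ := ind
  have hind : Ind M v p r := ⟨i1, i2, i3, i4, i5, i6, i7⟩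
  rw [← hq1] at i1 i2 i3 i4 i5 i6 i7
  rw [map_mul] at i4 i5 i6 i7
  rw [map_mul] at i7
  -- second basis
  have hind' : Ind M v r (p * r) := by
    refine ⟨hind.1, hind.2.2.1, hind.2.2.2.2.2.1, hind.2.2.2.2.1, ?_, ?_, ?_⟩
    · rw [← mul_assoc]; exact hind.2.2.2.2.2.2
    · rw [← hq1, map_mul, map_mul, qcom p hp r hr', ← mul_assoc, qsq r hr', one_mul]; exact i2
    · rw [← hq1, map_mul, map_mul, map_mul, qcom p hp r hr', mul_assoc, ← mul_assoc (q r) (q r), qsq r hr', one_mul]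
      exact i4
  obtain ⟨y, y1, y2, y3⟩ := trans v hv p hp r hr' v hv r hr' (p * r) (mul_mem hp hr') hind hind'
  have gen : ∀ C : Subgroup Y, M ≤ C → v ∈ C → p ∈ C → r ∈ C → ∀ x ∈ E, x ∈ C := by
    intro C hM hvC hpC hrC x hx
    have key : ∀ z, InD M v z → z ∈ C := by
      rintro z (h | h)
      · exact hM h
      · have := mul_mem (hM h) hvC
        rwa [inv_mul_cancel_right] at this
    rcases dec x hx with h | h | h | h
    · exact key _ h
    · have := mul_mem (key _ h) hrC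
      rwa [inv_mul_cancel_right] at this
    · have := mul_mem (key _ h) hpC
      rwa [inv_mul_cancel_right] at this
    · have := mul_mem (mul_mem (key _ h) hrC) hpC
      rwa [inv_mul_cancel_right, inv_mul_cancel_right] at this
  have fixall : ∀ g : Y, SemiconjBy (q g) (q v) (q v) → SemiconjBy (q g) (q p) (q p) →
      SemiconjBy (q g) (q r) (q r) → g ∈ E := by
    intro g h1 h2 h3
    apply faithful
    intro x hx
    have hxC : x ∈ (centralizer {q g}).comap q := by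
      apply gen _ _ _ _ _ x hx
      · intro m hm
        rw [mem_comap, (hq1 m).2 hm]; exact one_mem _
      · rw [mem_comap, mem_centralizer_singleton_iff]; exact h1.eq.symm
      · rw [mem_comap, mem_centralizer_singleton_iff]; exact h2.eq.symm
      · rw [mem_comap, mem_centralizer_singleton_iff]; exact h3.eq.symm
    rw [mem_comap, mem_centralizer_singleton_iff] at hxC
    rw [← hq1, map_mul, map_mul, map_mul, map_inv, map_inv, ← hxC]
    group
  -- actions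
  have TV : SemiconjBy (q t) (q v) (q v) := by
    have h1 : q t * q v * (q t)⁻¹ = q v := by
      rw [← map_mul, ← map_inv, ← map_mul, tv, map_inv, qinv v hv]
    exact mul_inv_eq_iff_eq_mul.1 h1
  have TP : SemiconjBy (q t) (q p) (q p) := by
    have h1 : q t * q p * (q t)⁻¹ * (q p)⁻¹ = 1 := by
      rw [← map_mul, ← map_inv, ← map_mul, ← map_inv, ← map_mul, hq1]; exact tp
    exact mul_inv_eq_iff_eq_mul.1 (mul_inv_eq_one.1 h1)
  have TR : SemiconjBy (q t) (q r) (q v * q r) := by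
    have h1 : q t * q r * (q t)⁻¹ * (q r)⁻¹ = q v := by
      rw [← map_mul, ← map_inv, ← map_mul, ← map_inv, ← map_mul, tr]
    exact mul_inv_eq_iff_eq_mul.1 (mul_inv_eq_iff_eq_mul.1 h1)
  have toS : ∀ a b : Y, y * a * y⁻¹ * b⁻¹ ∈ M → SemiconjBy (q y) (q a) (q b) := by
    intro a b h
    rw [← hq1, map_mul, map_mul, map_mul, map_inv, map_inv] at h
    exact mul_inv_eq_iff_eq_mul.1 (mul_inv_eq_one.1 h)
  have ZV := toS v v y1
  have ZP := toS p r y2
  have ZR := toS r (p * r) y3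
  rw [map_mul] at ZR
  -- inverse of Z
  have ZiV : SemiconjBy (q y)⁻¹ (q v) (q v) := ZV.inv_symm_left
  have ZiR : SemiconjBy (q y)⁻¹ (q r) (q p) := ZP.inv_symm_left
  have ZiP : SemiconjBy (q y)⁻¹ (q p) (q r * q p) := by
    have h1 := ZR.inv_symm_left.mul_right ZiR
    rw [mul_assoc, qsq r hr', mul_one] at h1
    exact h1
  set b := y * t * y⁻¹ with hb
  set s := y * b * y⁻¹ with hs
  have qb : q b = q y * q t * (q y)⁻¹ := by rw [hb, map_mul, map_mul, map_inv]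
  have qs : q s = q y * q b * (q y)⁻¹ := by rw [hs, map_mul, map_mul, map_inv]
  have BV : SemiconjBy (q b) (q v) (q v) := by
    rw [qb]; exact (ZV.mul_left TV).mul_left ZiV
  have BR : SemiconjBy (q b) (q r) (q r) := by
    rw [qb]; exact (ZP.mul_left TP).mul_left ZiR
  have BP : SemiconjBy (q b) (q p) (q v * q p) := by
    rw [qb]
    have h1 : SemiconjBy (q t) (q r * q p) (q v * q r * q p) := TR.mul_right TP
    have h2 : SemiconjBy (q y) (q v * q r * q p) (q v * (q p * q r) * q r) := (ZV.mul_right ZR).mul_right ZP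
    have h3 := (h2.mul_left h1).mul_left ZiP
    rw [mul_assoc (q v), mul_assoc (q p), qsq r hr', mul_one] at h3
    exact h3
  have SV : SemiconjBy (q s) (q v) (q v) := by
    rw [qs]; exact (ZV.mul_left BV).mul_left ZiV
  have SR : SemiconjBy (q s) (q r) (q v * q r) := by
    rw [qs]
    exact ((ZV.mul_right ZP).mul_left BP).mul_left ZiR
  have SP : SemiconjBy (q s) (q p) (q v * q p) := by
    rw [qs]
    have h1 : SemiconjBy (q b) (q r * q p) (q r * (q v * q p)) := BR.mul_right BP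
    have h2 : SemiconjBy (q y) (q r * (q v * q p)) ((q p * q r) * (q v * q r)) := ZR.mul_right (ZV.mul_right ZP)
    have h3 := (h2.mul_left h1).mul_left ZiP
    have e : (q p * q r) * (q v * q r) = q v * q p := by
      rw [qcom v hv r hr', mul_assoc, ← mul_assoc (q r) (q r), qsq r hr', one_mul, qcom p hp v hv]
    rwa [e] at h3
  -- θ
  set θ := t * b * s with hθ
  have θE : θ ∈ E := by
    apply fixall
    · rw [hθ, map_mul, map_mul]; exact (TV.mul_left BV).mul_left SV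
    · rw [hθ, map_mul, map_mul]
      have h1 : SemiconjBy (q b) (q v * q p) (q v * (q v * q p)) := BV.mul_right BP
      rw [← mul_assoc, qsq v hv, one_mul] at h1
      exact (TP.mul_left h1).mul_left SP
    · rw [hθ, map_mul, map_mul]
      have h1 : SemiconjBy (q b) (q v * q r) (q v * q r) := BV.mul_right BR
      have h2 : SemiconjBy (q t) (q v * q r) (q v * (q v * q r)) := TV.mul_right TR
      rw [← mul_assoc, qsq v hv, one_mul] at h2
      exact (h2.mul_left h1).mul_left SR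
  have y3E : y * y * y ∈ E := by
    apply fixall
    · rw [map_mul, map_mul]; exact (ZV.mul_left ZV).mul_left ZV
    · rw [map_mul, map_mul]
      have h1 : SemiconjBy (q y) (q p * q r) (q r * (q p * q r)) := ZP.mul_right ZR
      have e : q r * (q p * q r) = q p := by
        rw [qcom p hp r hr', ← mul_assoc, qsq r hr', one_mul]
      rw [e] at h1
      exact (h1.mul_left ZR).mul_left ZP
    · rw [map_mul, map_mul]
      have h1 : SemiconjBy (q y) (q p * q r) (q r * (q p * q r)) := ZP.mul_right ZR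
      have e : q r * (q p * q r) = q p := by
        rw [qcom p hp r hr', ← mul_assoc, qsq r hr', one_mul]
      rw [e] at h1
      exact (ZP.mul_left h1).mul_left ZR
  -- the subgroup D
  have E0 : Elem 2 M M := ⟨le_rfl, fun x hx => pow_mem hx 2, fun x hx y hy => by
    rw [comE x (le hx) y (le hy)]; exact one_mem _⟩
  obtain ⟨D, ED, leD, vD, iD, mD⟩ := step E0 (sqE v hv) (fun h hh => by
    rw [comE v hv h (le hh)]; exact one_mem _) hind.1
  have DE : D ≤ E := by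
    intro x hx
    rcases (mD x).1 hx with h | h
    · exact le h
    · have := mul_mem (le h) hv
      rwa [inv_mul_cancel_right] at this
  have yD : ∀ d ∈ D, y * d * y⁻¹ ∈ D := by
    intro d hd
    rw [mD] at hd ⊢
    rcases hd with h | h
    · exact Or.inl (nM.conj_mem d h y)
    · right
      have e : y * d * y⁻¹ * v⁻¹ = (y * (d * v⁻¹) * y⁻¹) * (y * v * y⁻¹ * v⁻¹) := by group
      rw [e]; exact mul_mem (nM.conj_mem _ h y) y1
  have yiD : ∀ d ∈ D, y⁻¹ * d * y ∈ D := by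
    intro d hd
    rw [mD] at hd ⊢
    rcases hd with h | h
    · left
      have := nM.conj_mem d h y⁻¹
      rwa [inv_inv] at this
    · right
      have e : y⁻¹ * d * y * v⁻¹ = (y⁻¹ * (d * v⁻¹) * y⁻¹⁻¹) * (y⁻¹ * (y * v * y⁻¹ * v⁻¹)⁻¹ * y⁻¹⁻¹) := by group
      rw [e]; exact mul_mem (nM.conj_mem _ h y⁻¹) (nM.conj_mem _ (inv_mem y1) y⁻¹)
  have tED : ∀ x ∈ E, t * x * t⁻¹ * x⁻¹ ∈ D := fun x hx => (mD _).2 (tx x hx)
  have tD : ∀ d ∈ D, t * d * t⁻¹ ∈ D := by
    intro d hd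
    have := mul_mem (tED d (DE hd)) hd
    rwa [inv_mul_cancel_right] at this
  have bD : ∀ d ∈ D, b * d * b⁻¹ ∈ D := by
    intro d hd
    have e : b * d * b⁻¹ = y * (t * (y⁻¹ * d * y) * t⁻¹) * y⁻¹ := by rw [hb]; group
    rw [e]; exact yD _ (tD _ (yiD _ hd))
  have sD : ∀ d ∈ D, s * d * s⁻¹ ∈ D := by
    intro d hd
    have e : s * d * s⁻¹ = y * (b * (y⁻¹ * d * y) * b⁻¹) * y⁻¹ := by rw [hs]; group
    rw [e]; exact yD _ (bD _ (yiD _ hd))
  have yθ : y * θ * y⁻¹ * θ⁻¹ ∈ D := by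
    have e1 : y * θ * y⁻¹ * θ⁻¹ = (b * (s * ((y * y * y) * t * (y * y * y)⁻¹ * t⁻¹) * s⁻¹) * b⁻¹) *
        ((b * s) * t * (b * s)⁻¹ * t⁻¹) := by
      rw [hθ, hs, hb]; group
    have d1 : (y * y * y) * t * (y * y * y)⁻¹ * t⁻¹ ∈ D := by
      have := inv_mem (tED _ y3E)
      have e : ∀ z : Y, (t * z * t⁻¹ * z⁻¹)⁻¹ = z * t * z⁻¹ * t⁻¹ := fun z => by group
      rwa [e] at this
    have d2 : (b * s) * t * (b * s)⁻¹ * t⁻¹ ∈ D := by
      have e : (b * s) * t * (b * s)⁻¹ * t⁻¹ = t⁻¹ * (t * θ * t⁻¹ * θ⁻¹)⁻¹ * t := by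
        rw [hθ]; group
      rw [e]
      have := tD _ (inv_mem (tED _ θE))
      rw [hti] at this ⊢
      exact this
    rw [e1]
    exact mul_mem (bD _ (sD _ d1)) d2
  have mDq : ∀ x ∈ D, q x = 1 ∨ q x = q v := by
    intro x hx
    rcases (mD x).1 hx with h | h
    · exact Or.inl ((hq1 _).2 h)
    · right
      have := (hq1 _).2 h
      rw [map_mul, map_inv, mul_inv_eq_one] at this
      exact this
  have nofix : ∀ d ∈ D, ∀ z ∈ E, y * (d * z) * y⁻¹ * (d * z)⁻¹ ∈ D →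
      q y * q z * (q y)⁻¹ = q z ∨ q y * q z * (q y)⁻¹ = q v * q z := by
    intro d hd z hz h
    have h1 : y * z * y⁻¹ * z⁻¹ ∈ D := by
      have e : y * z * y⁻¹ * z⁻¹ = (y * d⁻¹ * y⁻¹) * (y * (d * z) * y⁻¹ * (d * z)⁻¹) * d := by group
      rw [e]; exact mul_mem (mul_mem (yD _ (inv_mem hd)) h) hd
    rcases mDq _ h1 with h2 | h2
    · left
      rw [map_mul, map_mul, map_mul, map_inv, map_inv, mul_inv_eq_one] at h2
      exact h2
    · right
      rw [map_mul, map_mul, map_mul, map_inv, map_inv, mul_inv_eq_iff_eq_mul] at h2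
      exact h2
  have sc : ∀ {a b c : Y ⧸ M}, SemiconjBy a b c → a * b * a⁻¹ = c := fun h => mul_inv_eq_iff_eq_mul.2 h.eq
  have vp_ne : q p ≠ q v := fun h => i4 (by rw [h]; exact qsq v hv)
  have vr_ne : q r ≠ q v := fun h => i5 (by rw [h]; exact qsq v hv)
  have θD : θ ∈ D := by
    rcases dec θ θE with h | h | h | h
    · exact (mD _).2 h
    · exfalso
      have h1 := nofix _ ((mD _).2 h) r hr' (by rw [inv_mul_cancel_right]; exact yθ)
      rw [sc ZR] at h1
      rcases h1 with h1 | h1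
      · exact i2 (mul_eq_right.1 h1)
      · exact vp_ne (mul_right_cancel h1)
    · exfalso
      have h1 := nofix _ ((mD _).2 h) p hp (by rw [inv_mul_cancel_right]; exact yθ)
      rw [sc ZP] at h1
      rcases h1 with h1 | h1
      · exact i6 (by rw [h1]; exact qsq p hp)
      · exact i7 (by rw [h1, mul_assoc (q v), ← mul_assoc (q p), qcom p hp v hv, mul_assoc (q v) (q p), qsq p hp,
          mul_one, qsq v hv])
    · exfalso
      have h1 := nofix _ ((mD _).2 h) (r * p) (mul_mem hr' hp) (by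
        have e : θ * p⁻¹ * r⁻¹ * (r * p) = θ := by group
        rw [e]; exact yθ)
      rw [map_mul, sc (ZR.mul_right ZP), mul_assoc, qsq r hr', mul_one] at h1
      rcases h1 with h1 | h1
      · exact i3 (right_eq_mul.1 h1)
      · rw [← mul_assoc] at h1
        exact i5 (right_eq_mul.1 h1)
  -- w
  set w := v ^ 2 with hw
  have wM : w ∈ M := sqE v hv
  have wne : w ≠ 1 := fun h => hind.1 (inv v hv h)
  have cN : Nat.card (zpowers w) = 2 := by
    rw [Nat.card_zpowers]; exact orderOf_eq_prime (sqM w wM) wne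
  have NM : zpowers w ≤ M := by rw [zpowers_le]; exact wM
  have wN : w ∈ zpowers w := mem_zpowers w
  have iN : (zpowers w).relIndex M = 4 := by
    have := card_mul_relIndex_of_le NM
    rw [cN, cM] at this
    omega
  have yw : y * w * y⁻¹ = w := by
    have e : y * w * y⁻¹ = (y * v * y⁻¹ * v⁻¹ * v) ^ 2 := by
      rw [hw, inv_mul_cancel_right, conj_pow]
    rw [e, (show Commute (y * v * y⁻¹ * v⁻¹) v from ab _ (le y1) v hv).mul_pow, sqM _ y1, one_mul]
  have yN : ∀ n ∈ zpowers w, y * n * y⁻¹ ∈ zpowers w := by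
    intro n hn
    obtain ⟨k, rfl⟩ := mem_zpowers_iff.1 hn
    rw [← conj_zpow, yw]; exact hn
  have sqN : ∀ d ∈ D, d ^ 2 ∈ zpowers w := by
    intro d hd
    rcases (mD d).1 hd with h | h
    · rw [sqM d h]; exact one_mem _
    · have e : d ^ 2 = (d * v⁻¹ * v) ^ 2 := by rw [inv_mul_cancel_right]
      rw [e, (show Commute (d * v⁻¹) v from ab _ (le h) v hv).mul_pow, sqM _ h, one_mul]
      exact wN
  have Msq : ∀ m ∈ M, ∃ e ∈ E, e ^ 2 = m := by
    let φ : E →* M :=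
      { toFun := fun x => ⟨x.1 ^ 2, sqE x.1 x.2⟩
        map_one' := by ext; simp
        map_mul' := fun x y => by
          ext
          simp only [Subgroup.coe_mul]
          exact (show Commute x.1 y.1 from ab _ x.2 _ y.2).mul_pow 2 }
    have hk : φ.ker = M.subgroupOf E := by
      ext x
      rw [MonoidHom.mem_ker, mem_subgroupOf]
      constructor
      · intro h
        exact inv _ x.2 (congrArg Subtype.val h)
      · intro h
        exact Subtype.ext (sqM _ h)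
    have hc1 : Nat.card φ.ker = 8 := by
      rw [hk, Nat.card_congr (subgroupOfEquivOfLe le).toEquiv, cM]
    have hc2 := φ.ker.card_mul_index
    rw [index_ker, hc1, cE] at hc2
    have hc3 : Nat.card φ.range = Nat.card M := by rw [cM]; omega
    have htop : φ.range = ⊤ := eq_top_of_card_eq _ hc3
    intro m hm
    have : (⟨m, hm⟩ : M) ∈ φ.range := by rw [htop]; exact mem_top _
    obtain ⟨x, hx⟩ := this
    exact ⟨x.1, x.2, congrArg Subtype.val hx⟩
  have tDN : ∀ d ∈ D, t * d * t⁻¹ * d⁻¹ ∈ zpowers w := by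
    have hM : ∀ m ∈ M, t * m * t⁻¹ * m⁻¹ ∈ zpowers w := by
      intro m hm
      obtain ⟨e, he, rfl⟩ := Msq m hm
      have hc := tED e he
      have h1 := ab _ (DE hc) e he
      have e1 : t * e ^ 2 * t⁻¹ * (e ^ 2)⁻¹ = (t * e * t⁻¹ * e⁻¹) ^ 2 := by
        have e2 : t * e ^ 2 * t⁻¹ * (e ^ 2)⁻¹ = (t * e * t⁻¹ * e⁻¹) * (e * (t * e * t⁻¹ * e⁻¹)) * e⁻¹ := by
          rw [pow_two]; group
        rw [e2, ← h1, pow_two]; group
      rw [e1]; exact sqN _ hc
    intro d hd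
    rcases (mD d).1 hd with h | h
    · exact hM d h
    · have e1 : t * d * t⁻¹ * d⁻¹ = (t * (d * v⁻¹) * t⁻¹ * (d * v⁻¹)⁻¹) * ((d * v⁻¹) * (t * v * t⁻¹ * v⁻¹) * (d * v⁻¹)⁻¹) := by
        group
      have e2 : (d * v⁻¹) * (t * v * t⁻¹ * v⁻¹) * (d * v⁻¹)⁻¹ = w⁻¹ := by
        have e3 : t * v * t⁻¹ * v⁻¹ = w⁻¹ := by rw [tv, hw]; group
        rw [e3, ab _ (le h) _ (le (inv_mem wM))]; group
      rw [e1, e2]
      exact mul_mem (hM _ h) (inv_mem wN)
  have bDN : ∀ d ∈ D, b * d * b⁻¹ * d⁻¹ ∈ zpowers w := by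
    intro d hd
    have e : b * d * b⁻¹ * d⁻¹ = y * (t * (y⁻¹ * d * y) * t⁻¹ * (y⁻¹ * d * y)⁻¹) * y⁻¹ := by rw [hb]; group
    rw [e]; exact yN _ (tDN _ (yiD _ hd))
  have sDN : ∀ d ∈ D, s * d * s⁻¹ * d⁻¹ ∈ zpowers w := by
    intro d hd
    have e : s * d * s⁻¹ * d⁻¹ = y * (b * (y⁻¹ * d * y) * b⁻¹ * (y⁻¹ * d * y)⁻¹) * y⁻¹ := by rw [hs]; group
    rw [e]; exact yN _ (bDN _ (yiD _ hd))
  have bb : b * b = 1 := by
    have e : b * b = y * (t * t) * y⁻¹ := by rw [hb]; group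
    rw [e, htt]; group
  have ss : s * s = 1 := by
    have e : s * s = y * (b * b) * y⁻¹ := by rw [hs]; group
    rw [e, bb]; group
  have hbi : b⁻¹ = b := inv_eq_of_mul_eq_one_left bb
  have tb2 : (t * b) * (t * b) ∈ zpowers w := by
    have e : t * b = θ * s := by rw [hθ, mul_assoc, ss, mul_one]
    have e1 : (t * b) * (t * b) = (s * θ * s⁻¹ * θ⁻¹) * θ ^ 2 := by
      have h1 := ab _ (DE ((mD _).2 (Or.inl (NM (sDN θ θD))))) θ θE
      have e2 : θ * s * (θ * s) = θ * (s * θ * s⁻¹ * θ⁻¹) * θ * (s * s) := by group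
      rw [e, e2, ss, mul_one, ← h1, pow_two]; group
    rw [e1]; exact mul_mem (sDN θ θD) (sqN θ θD)
  have bt : b * t * b⁻¹ * t⁻¹ ∈ zpowers w := by
    have h1 := inv_mem tb2
    have e : ((t * b) * (t * b))⁻¹ = b * t * b⁻¹ * t⁻¹ := by
      rw [mul_inv_rev, mul_inv_rev, hti, hbi]; group
    rwa [e] at h1
  -- the chain
  have F0 : Elem 2 (zpowers w) M := ⟨NM, fun x hx => by rw [sqM x hx]; exact one_mem _, fun x hx y hy => by
    rw [comE x (le hx) y (le hy)]; exact one_mem _⟩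
  obtain ⟨H1, F1, l1, vH1, j1, n1⟩ := step F0 (show v ^ 2 ∈ zpowers w from wN) (fun h hh => by
    rw [comE v hv h (le hh)]; exact one_mem _) hind.1
  have H1D : ∀ x, x ∈ H1 ↔ x ∈ D := fun x => (n1 x).trans (mD x).symm
  obtain ⟨H2, F2, l2, tH2, j2, n2⟩ := step F1 (t := t) (by rw [ht]; exact one_mem _) (fun h hh => tDN h ((H1D h).1 hh))
    (fun h => ht' (DE ((H1D t).1 h)))
  have hnD : ∀ d ∈ D, ∀ n ∈ zpowers w, d * n * d⁻¹ ∈ zpowers w := by
    intro d hd n hn
    rw [ab d (DE hd) n (le (NM hn)), mul_inv_cancel_right]; exact hn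
  have bH2 : ∀ h ∈ H2, b * h * b⁻¹ * h⁻¹ ∈ zpowers w := by
    intro h hh
    rcases (n2 h).1 hh with h1 | h1
    · exact bDN h ((H1D h).1 h1)
    · have h1 := (H1D _).1 h1
      have e : b * h * b⁻¹ * h⁻¹ = (b * (h * t⁻¹) * b⁻¹ * (h * t⁻¹)⁻¹) * ((h * t⁻¹) * (b * t * b⁻¹ * t⁻¹) * (h * t⁻¹)⁻¹) := by
        group
      rw [e]
      exact mul_mem (bDN _ h1) (hnD _ h1 _ bt)
  have bE : b ∉ E := by
    intro h
    apply ht'
    have := nE.conj_mem b h y⁻¹
    have e : y⁻¹ * b * y⁻¹⁻¹ = t := by rw [hb]; group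
    rwa [e] at this
  have bnH2 : b ∉ H2 := by
    intro h
    rcases (n2 b).1 h with h1 | h1
    · exact bE (DE ((H1D b).1 h1))
    · have h1 := DE ((H1D _).1 h1)
      have h2 := qcom _ h1 p hp
      rw [map_mul, map_inv] at h2
      have h3 : SemiconjBy (q b) (q p) (q p) := by
        have h4 : SemiconjBy (q b * (q t)⁻¹) (q p) (q p) := h2
        have h5 := h4.mul_left TP
        rwa [inv_mul_cancel_right] at h5
      have h6 := BP.eq
      rw [h3.eq] at h6
      have h7 := mul_right_cancel h6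
      exact i1 (right_eq_mul.1 h7)
  obtain ⟨H3, F3, l3, bH3, j3, n3⟩ := step F2 (t := b) (by rw [pow_two, bb]; exact one_mem _) bH2 bnH2
  have := hr.le F3 le_top
  rw [j3, j2, j1, iN] at this
  norm_num at this

/-- piece MLB of S3105 -/
theorem ml_b_of [Finite Y] {π : Y →* L} (hr : RankIn 2 4 (⊤ : Subgroup Y))
    {M : Subgroup Y} (H : Homo π.ker M)
    (faithful : ∀ g : Y, (∀ x ∈ π.ker, g * x * g⁻¹ * x⁻¹ ∈ M) → g ∈ π.ker)
    (trans : ∀ a b c a' b' c' : Y, a ∈ π.ker → b ∈ π.ker → c ∈ π.ker → a' ∈ π.ker → b' ∈ π.ker → c' ∈ π.ker →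
      Ind M a b c → Ind M a' b' c' →
      ∃ g : Y, g * a * g⁻¹ * a'⁻¹ ∈ M ∧ g * b * g⁻¹ * b'⁻¹ ∈ M ∧ g * c * g⁻¹ * c'⁻¹ ∈ M)
    {t : Y} (ht : t ^ 2 = 1) (ht' : t ∉ π.ker) : False :=
  ml_b' H hr faithful (fun a ha b hb c hc a' ha' b' hb' c' hc' => trans a b c a' b' c' ha hb hc ha' hb' hc') ht ht'

end Cfsg.Agent.Lib.H66ML
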