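import Cfsg.Agent.Lib.FiO8C
import Cfsg.Agent.Lib.SympGen
import Cfsg.Agent.Lib.ClOrthSimple

/-!
# The centralizer of a reflection in `O⁺₂ₘ₊₂(2)` is `2 × Sp₂ₘ(2)` (piece G1 of S5472, helper67)
-/

set_option autoImplicit false
set_option linter.all false

namespace Cfsg.Agent.Lib.H67O8Stab

open Cfsg.Agent.Lib.Quad QuadraticMap Module Cfsg.Agent.Lib.ClOrthSiegel Cfsg.Agent.Lib.ClOmega
open Cfsg.Agent.Lib.SympMat (sympForm_apply sympForm_swap mem_iff transvection_mem transvection_mulVec eq_zero_of_sympForm)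

/-- the space -/
abbrev Vm (m : ℕ) := Fin m ⊕ Fin m → ZMod 2
/-- the form -/
noncomputable abbrev QQ (m : ℕ) : QuadraticForm (ZMod 2) (Vm m) := quadPlus m (ZMod 2)
/-- the symplectic group -/
abbrev SpM (m : ℕ) := ↥(Matrix.symplecticGroup (Fin m) (ZMod 2))

variable {m : ℕ}

/-- embedding -/
def emb : Vm m →ₗ[ZMod 2] Vm (m + 1) where
  toFun u := Sum.elim (Fin.cons 0 (fun i => u (.inl i))) (Fin.cons 0 (fun i => u (.inr i)))
  map_add' u u' := by
    funext x
    rcases x with x | x <;> refine Fin.cases ?_ (fun i => ?_) x <;> simp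
  map_smul' c u := by
    funext x
    rcases x with x | x <;> refine Fin.cases ?_ (fun i => ?_) x <;> simp

/-- projection -/
def prj : Vm (m + 1) →ₗ[ZMod 2] Vm m where
  toFun x := Sum.elim (fun i => x (.inl i.succ)) (fun i => x (.inr i.succ))
  map_add' u u' := by
    funext x
    rcases x with x | x <;> rfl
  map_smul' c u := by
    funext x
    rcases x with x | x <;> rfl

/-- the vector -/
def v0 : Vm (m + 1) := Sum.elim (Fin.cons 1 (fun _ => 0)) (Fin.cons 1 (fun _ => 0))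

theorem prj_emb (u : Vm m) : prj (emb u) = u := by
  funext x
  rcases x with x | x <;> rfl

theorem prj_v0 : prj (v0 : Vm (m + 1)) = 0 := by
  funext x
  rcases x with x | x <;> rfl

theorem Q_apply (n : ℕ) (x : Vm n) : QQ n x = ∑ i, x (.inl i) * x (.inr i) := rfl

theorem Q_emb (u : Vm m) : QQ (m + 1) (emb u) = QQ m u := by
  rw [Q_apply, Q_apply, Fin.sum_univ_succ]
  have h0 : (emb u : Vm (m + 1)) (.inl 0) = 0 := rfl
  rw [h0, zero_mul, zero_add]
  rfl

theorem Q_v0 : QQ (m + 1) v0 = 1 := by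
  rw [Q_apply, Fin.sum_univ_succ]
  have h0 : (v0 : Vm (m + 1)) (.inl 0) = 1 := rfl
  have h1 : (v0 : Vm (m + 1)) (.inr 0) = 1 := rfl
  rw [h0, h1, mul_one]
  have h2 : ∀ i : Fin m, (v0 : Vm (m + 1)) (.inl i.succ) * (v0 : Vm (m + 1)) (.inr i.succ) = 0 := fun i => by
    show (0 : ZMod 2) * 0 = 0
    rfl
  rw [Finset.sum_eq_zero fun i _ => h2 i, add_zero]

theorem polar_apply (n : ℕ) (x y : Vm n) : polar (QQ n) x y = ∑ i, (x (.inl i) * y (.inr i) + x (.inr i) * y (.inl i)) :=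
  polar_quadPlus x y

theorem polar_v0 (x : Vm (m + 1)) : polar (QQ (m + 1)) v0 x = x (.inl 0) + x (.inr 0) := by
  rw [polar_apply, Fin.sum_univ_succ]
  have h0 : (v0 : Vm (m + 1)) (.inl 0) = 1 := rfl
  have h1 : (v0 : Vm (m + 1)) (.inr 0) = 1 := rfl
  rw [h0, h1, one_mul, one_mul]
  have h2 : ∀ i : Fin m, (v0 : Vm (m + 1)) (.inl i.succ) * x (.inr i.succ) + (v0 : Vm (m + 1)) (.inr i.succ) * x (.inl i.succ) = 0 := fun i => by
    show (0 : ZMod 2) * _ + 0 * _ = 0
    ring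
  rw [Finset.sum_eq_zero fun i _ => h2 i, add_zero, add_comm]

theorem polar_emb (u u' : Vm m) : polar (QQ (m + 1)) (emb u) (emb u') = sympForm m (ZMod 2) u u' := by
  rw [polar_apply, Fin.sum_univ_succ, sympForm_apply]
  have h0 : (emb u : Vm (m + 1)) (.inl 0) = 0 := rfl
  have h1 : (emb u : Vm (m + 1)) (.inr 0) = 0 := rfl
  rw [h0, h1, zero_mul, zero_mul, zero_add, zero_add]
  apply Finset.sum_congr rfl
  intro i _
  show u (.inl i) * u' (.inr i) + u (.inr i) * u' (.inl i) = _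
  rw [CharTwo.sub_eq_add, add_comm]

theorem decomp {x : Vm (m + 1)} (h : polar (QQ (m + 1)) v0 x = 0) : x = x (.inl 0) • v0 + emb (prj x) := by
  rw [polar_v0] at h
  have h' : x (.inr 0) = x (.inl 0) := by
    generalize x (.inl 0) = a at h ⊢
    generalize x (.inr 0) = b at h ⊢
    revert a b
    decide
  funext y
  rcases y with y | y <;> refine Fin.cases ?_ (fun i => ?_) y
  · show x (.inl 0) = x (.inl 0) * 1 + 0
    ring
  · show x (.inl i.succ) = x (.inl 0) * 0 + x (.inl i.succ)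
    ring
  · show x (.inr 0) = x (.inl 0) * 1 + 0
    rw [h']; ring
  · show x (.inr i.succ) = x (.inl 0) * 0 + x (.inr i.succ)
    ring

theorem polar_v0_emb (u : Vm m) : polar (QQ (m + 1)) v0 (emb u) = 0 := by
  rw [polar_v0]
  show (0 : ZMod 2) + 0 = 0
  rfl

theorem polar_v0_v0 : polar (QQ (m + 1)) v0 v0 = 0 := by
  rw [polar_v0]
  show (1 : ZMod 2) + 1 = 0
  rfl

/-- the induced map -/
def bar (g : Vm (m + 1) ≃ₗ[ZMod 2] Vm (m + 1)) : Vm m →ₗ[ZMod 2] Vm m := prj ∘ₗ g.toLinearMap ∘ₗ emb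

theorem bar_apply (g : Vm (m + 1) ≃ₗ[ZMod 2] Vm (m + 1)) (u : Vm m) : bar g u = prj (g (emb u)) := rfl

section

variable {g h : Vm (m + 1) ≃ₗ[ZMod 2] Vm (m + 1)}

theorem g_emb (hg : g ∈ O (QQ (m + 1))) (hv : g v0 = v0) (u : Vm m) :
    g (emb u) = (g (emb u)) (.inl 0) • v0 + emb (bar g u) := by
  apply decomp
  have h1 := O_polar hg v0 (emb u)
  rw [hv, polar_v0_emb] at h1
  exact h1

theorem bar_mul (hg : g ∈ O (QQ (m + 1))) (hv : g v0 = v0) (hh : h ∈ O (QQ (m + 1))) (hv' : h v0 = v0) (u : Vm m) :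
    bar (g * h) u = bar g (bar h u) := by
  rw [bar_apply]
  show prj (g (h (emb u))) = _
  rw [g_emb hh hv' u, map_add, map_smul, hv, map_add, map_smul, prj_v0, smul_zero, zero_add]
  rfl

theorem bar_symp (hg : g ∈ O (QQ (m + 1))) (hv : g v0 = v0) (u u' : Vm m) :
    sympForm m (ZMod 2) (bar g u) (bar g u') = sympForm m (ZMod 2) u u' := by
  have h1 := O_polar hg (emb u) (emb u')
  rw [g_emb hg hv u, g_emb hg hv u', polar_add_left, polar_add_right, polar_add_right, polar_smul_left, polar_smul_left,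
    polar_smul_right, polar_smul_right, polar_v0_v0, polar_v0_emb, polar_comm _ (emb _) v0, polar_v0_emb, polar_emb, polar_emb] at h1
  simpa using h1

end

theorem one_ne : QQ (m + 1) v0 ≠ 0 := by
  rw [Q_v0]; decide

/-- the reflection in the orthogonal group -/
noncomputable def r0 : ↥(O (QQ (m + 1))) := ⟨refl (QQ (m + 1)) v0, refl_mem _⟩

theorem r0_apply (x : Vm (m + 1)) : (r0 : ↥(O (QQ (m + 1)))).1 x = x + polar (QQ (m + 1)) v0 x • v0 := by
  show refl (QQ (m + 1)) v0 x = _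
  rw [refl_apply one_ne, Q_v0, inv_one, one_mul, sub_eq_add_neg, ← neg_smul]
  congr 2
  generalize polar (QQ (m + 1)) v0 x = a
  revert a
  decide

theorem mem_cent_iff (g : ↥(O (QQ (m + 1)))) : g ∈ Subgroup.centralizer ({r0} : Set ↥(O (QQ (m + 1)))) ↔ g.1 v0 = v0 := by
  rw [Subgroup.mem_centralizer_singleton_iff]
  constructor
  · intro h
    let e0 : Vm (m + 1) := Pi.single (.inl 0) 1
    have hp : polar (QQ (m + 1)) v0 e0 = 1 := by
      rw [polar_v0]
      show (Pi.single (.inl 0) 1 : Vm (m + 1)) (.inl 0) + (Pi.single (.inl 0) 1 : Vm (m + 1)) (.inr 0) = 1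
      simp
    have h1 : g.1 (r0.1 e0) = r0.1 (g.1 e0) := by
      have h2 := congrArg (fun z : ↥(O (QQ (m + 1))) => z.1 e0) h
      exact h2
    rw [r0_apply, r0_apply, hp, one_smul, map_add] at h1
    have h2 : g.1 v0 = polar (QQ (m + 1)) v0 (g.1 e0) • v0 := add_left_cancel h1
    have h3 : polar (QQ (m + 1)) v0 (g.1 e0) = 0 ∨ polar (QQ (m + 1)) v0 (g.1 e0) = 1 := by
      generalize polar (QQ (m + 1)) v0 (g.1 e0) = a
      revert a
      decide
    rcases h3 with h3 | h3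
    · rw [h3, zero_smul] at h2
      have h4 : QQ (m + 1) (g.1 v0) = QQ (m + 1) v0 := g.2 v0
      rw [h2, Q_v0, QuadraticMap.map_zero] at h4
      exact absurd h4 (by decide)
    · rw [h3, one_smul] at h2
      exact h2
  · intro h
    apply Subtype.ext
    show g.1 * refl (QQ (m + 1)) v0 = refl (QQ (m + 1)) v0 * g.1
    have h1 := refl_conj g.2 v0
    rw [h] at h1
    exact mul_inv_eq_iff_eq_mul.1 h1

/-- the map to the symplectic group -/
noncomputable def Ψ : ↥(Subgroup.centralizer ({r0} : Set ↥(O (QQ (m + 1))))) →* SpM m where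
  toFun g := ⟨LinearMap.toMatrix' (bar g.1.1), by
    rw [mem_iff]
    intro u v
    rw [LinearMap.toMatrix'_mulVec, LinearMap.toMatrix'_mulVec]
    exact bar_symp g.1.2 ((mem_cent_iff g.1).1 g.2) u v⟩
  map_one' := by
    apply Subtype.ext
    show LinearMap.toMatrix' (bar 1) = 1
    have : bar (1 : Vm (m + 1) ≃ₗ[ZMod 2] Vm (m + 1)) = LinearMap.id := LinearMap.ext fun u => prj_emb u
    rw [this, LinearMap.toMatrix'_id]
  map_mul' g h := by
    apply Subtype.ext
    show LinearMap.toMatrix' (bar (g.1.1 * h.1.1)) = LinearMap.toMatrix' (bar g.1.1) * LinearMap.toMatrix' (bar h.1.1)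
    rw [← LinearMap.toMatrix'_comp]
    congr 1
    exact LinearMap.ext fun u => bar_mul g.1.2 ((mem_cent_iff g.1).1 g.2) h.1.2 ((mem_cent_iff h.1).1 h.2) u

theorem Ψ_mulVec (g : ↥(Subgroup.centralizer ({r0} : Set ↥(O (QQ (m + 1)))))) (u : Vm m) :
    (Ψ g : Matrix (Fin m ⊕ Fin m) (Fin m ⊕ Fin m) (ZMod 2)).mulVec u = bar g.1.1 u :=
  LinearMap.toMatrix'_mulVec _ _

/-- the Dickson invariant -/
noncomputable def dk (hR : R (QQ (m + 1)) = O (QQ (m + 1))) : ↥(O (QQ (m + 1))) →* Multiplicative (ZMod 2) where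
  toFun g := Multiplicative.ofAdd ((finrank (ZMod 2) (mov g.1) : ℕ) : ZMod 2)
  map_one' := by
    show Multiplicative.ofAdd ((finrank (ZMod 2) (mov (1 : Vm (m + 1) ≃ₗ[ZMod 2] Vm (m + 1))) : ℕ) : ZMod 2) = 1
    rw [mov_one, finrank_bot, Nat.cast_zero]
    rfl
  map_mul' g h := by
    have hg : g.1 ∈ R (QQ (m + 1)) := by rw [hR]; exact g.2
    have hh : h.1 ∈ R (QQ (m + 1)) := by rw [hR]; exact h.2
    have key : Even (finrank (ZMod 2) (mov (g.1 * h.1))) ↔ (Even (finrank (ZMod 2) (mov g.1)) ↔ Even (finrank (ZMod 2) (mov h.1))) :=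
      nd_quadPlus.even_mov_mul hg hh
    rw [← ofAdd_add]
    congr 1
    show ((finrank (ZMod 2) (mov (g.1 * h.1)) : ℕ) : ZMod 2) = _
    rw [← Nat.cast_add, ZMod.natCast_eq_natCast_iff']
    rw [Nat.even_iff, Nat.even_iff, Nat.even_iff] at key
    omega

theorem dk_apply (hR : R (QQ (m + 1)) = O (QQ (m + 1))) (g : ↥(O (QQ (m + 1)))) :
    dk hR g = Multiplicative.ofAdd ((finrank (ZMod 2) (mov g.1) : ℕ) : ZMod 2) := rfl

theorem dk_r0 (hR : R (QQ (m + 1)) = O (QQ (m + 1))) : dk hR r0 = Multiplicative.ofAdd 1 := by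
  rw [dk_apply]
  have h := (nd_quadPlus (F := ZMod 2) (m := m + 1)).even_mov_list [v0] (by
    intro v hv
    rw [List.mem_singleton] at hv
    rw [hv]
    exact one_ne)
  rw [List.map_singleton, List.prod_singleton, List.length_singleton] at h
  have h1 : ¬ Even (finrank (ZMod 2) (mov (refl (QQ (m + 1)) v0))) := by
    rw [h]; decide
  congr 1
  show ((finrank (ZMod 2) (mov (refl (QQ (m + 1)) v0)) : ℕ) : ZMod 2) = 1
  rw [Nat.not_even_iff] at h1
  have h2 : ((1 : ℕ) : ZMod 2) = 1 := Nat.cast_one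
  rw [← h2, ZMod.natCast_eq_natCast_iff', h1]

theorem inj (hR : R (QQ (m + 1)) = O (QQ (m + 1))) (g : ↥(Subgroup.centralizer ({r0} : Set ↥(O (QQ (m + 1))))))
    (h1 : dk hR g.1 = 1) (h2 : Ψ g = 1) : g = 1 := by
  have hv := (mem_cent_iff g.1).1 g.2
  have hb : ∀ u : Vm m, bar g.1.1 u = u := by
    intro u
    rw [← Ψ_mulVec, h2]
    exact Matrix.one_mulVec u
  have he : ∀ u : Vm m, g.1.1 (emb u) = emb u := by
    intro u
    have h3 := g_emb g.1.2 hv u
    rw [hb] at h3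
    have h4 : QQ (m + 1) (g.1.1 (emb u)) = QQ (m + 1) (emb u) := g.1.2 _
    rw [h3, Q_add, Q_smul, Q_v0, polar_smul_left, polar_v0_emb, smul_zero, mul_one, add_zero] at h4
    have h5 : (g.1.1 (emb u)) (.inl 0) = 0 := by
      have h6 : (g.1.1 (emb u)) (.inl 0) * (g.1.1 (emb u)) (.inl 0) = 0 := by
        exact add_eq_right.1 h4
      exact mul_self_eq_zero.1 h6
    rw [h5, zero_smul, zero_add] at h3
    exact h3
  have hfix : perp (QQ (m + 1)) (ZMod 2 ∙ (v0 : Vm (m + 1))) ≤ fixS g.1.1 := by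
    intro x hx
    rw [mem_perp_singleton] at hx
    rw [mem_fixS, decomp hx, map_add, map_smul, hv, he]
  have hd : finrank (ZMod 2) (mov g.1.1) ≤ 1 := by
    have h3 : finrank (ZMod 2) (mov g.1.1) + finrank (ZMod 2) (fixS g.1.1) = finrank (ZMod 2) (Vm (m + 1)) := finrank_mov_add_fixS g.1.1
    have h4 : finrank (ZMod 2) (ZMod 2 ∙ (v0 : Vm (m + 1))) + finrank (ZMod 2) (perp (QQ (m + 1)) (ZMod 2 ∙ (v0 : Vm (m + 1)))) =
        finrank (ZMod 2) (Vm (m + 1)) :=
      (nd_quadPlus (F := ZMod 2) (m := m + 1)).finrank_add_finrank_perp (ZMod 2 ∙ (v0 : Vm (m + 1)))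
    have h5 : finrank (ZMod 2) (perp (QQ (m + 1)) (ZMod 2 ∙ (v0 : Vm (m + 1)))) ≤ finrank (ZMod 2) (fixS g.1.1) := Submodule.finrank_mono hfix
    have h6 : finrank (ZMod 2) (ZMod 2 ∙ (v0 : Vm (m + 1))) ≤ 1 := by
      have := finrank_span_le_card (R := ZMod 2) ({v0} : Set (Vm (m + 1)))
      simpa using this
    omega
  have hz : finrank (ZMod 2) (mov g.1.1) = 0 := by
    rw [dk_apply] at h1
    have h3 : ((finrank (ZMod 2) (mov g.1.1) : ℕ) : ZMod 2) = 0 := h1
    interval_cases h : finrank (ZMod 2) (mov g.1.1)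
    · rfl
    · exact absurd h3 (by decide)
  have h3 : mov g.1.1 = ⊥ := Submodule.finrank_eq_zero.1 hz
  rw [mov_eq_bot] at h3
  exact Subtype.ext (Subtype.ext h3)

/-- the element inducing a transvection -/
theorem exists_tv (w : Vm m) (c : ZMod 2) : ∃ g : ↥(Subgroup.centralizer ({r0} : Set ↥(O (QQ (m + 1))))),
    (Ψ g : Matrix (Fin m ⊕ Fin m) (Fin m ⊕ Fin m) (ZMod 2)) = sympTransvection m w c := by
  have hc : c = 0 ∨ c = 1 := by revert c; decide
  rcases hc with rfl | rfl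
  · refine ⟨1, ?_⟩
    rw [map_one]
    show (1 : Matrix (Fin m ⊕ Fin m) (Fin m ⊕ Fin m) (ZMod 2)) = _
    unfold sympTransvection
    rw [zero_smul, add_zero]
  · set k : ZMod 2 := 1 + QQ m w with hk
    set x : Vm (m + 1) := k • v0 + emb w with hx
    have hQx : QQ (m + 1) x = 1 := by
      rw [hx, Q_add, Q_smul, Q_v0, polar_smul_left, polar_v0_emb, smul_zero, mul_one, add_zero, Q_emb, hk]
      generalize QQ m w = a
      revert a
      decide
    have hx0 : QQ (m + 1) x ≠ 0 := by rw [hQx]; decide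
    have hp : polar (QQ (m + 1)) x v0 = 0 := by
      rw [hx, polar_add_left, polar_smul_left, polar_v0_v0, smul_zero, zero_add, polar_comm, polar_v0_emb]
    refine ⟨⟨⟨refl (QQ (m + 1)) x, refl_mem _⟩, ?_⟩, ?_⟩
    · rw [mem_cent_iff]
      exact refl_of_perp hp
    · apply Matrix.ext_of_mulVec_single
      intro i
      rw [Ψ_mulVec, transvection_mulVec, one_mul, bar_apply]
      show prj (refl (QQ (m + 1)) x (emb _)) = _
      rw [refl_apply hx0, hQx, inv_one, one_mul, map_sub, map_smul, prj_emb, hx, map_add, map_smul, prj_v0, smul_zero, zero_add,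
        prj_emb, polar_add_left, polar_smul_left, polar_v0_emb, smul_zero, zero_add, polar_emb, sympForm_swap, neg_smul, sub_neg_eq_add]

theorem Ψ_surj : Function.Surjective (Ψ : ↥(Subgroup.centralizer ({r0} : Set ↥(O (QQ (m + 1))))) →* SpM m) := by
  rw [← MonoidHom.range_eq_top, eq_top_iff, ← SympGen.closure_transvections m (ZMod 2), Subgroup.closure_le]
  rintro A ⟨w, c, hA⟩
  obtain ⟨g, hg⟩ := exists_tv w c
  exact ⟨g, Subtype.ext (hg.trans hA.symm)⟩

theorem r0_mem : (r0 : ↥(O (QQ (m + 1)))) ∈ Subgroup.centralizer ({r0} : Set ↥(O (QQ (m + 1)))) := by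
  rw [mem_cent_iff, r0_apply, polar_v0_v0, zero_smul, add_zero]

theorem Ψ_r0 : Ψ (⟨r0, r0_mem⟩ : ↥(Subgroup.centralizer ({r0} : Set ↥(O (QQ (m + 1)))))) = 1 := by
  apply Subtype.ext
  apply Matrix.ext_of_mulVec_single
  intro i
  rw [Ψ_mulVec, bar_apply]
  show prj (r0.1 (emb _)) = _
  rw [r0_apply, polar_v0_emb, zero_smul, add_zero, prj_emb]
  exact (Matrix.one_mulVec _).symm

theorem fin2 : ∀ (s a : Multiplicative (ZMod 2)), ¬ a = s → a * Multiplicative.ofAdd 1 = s := by decide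

theorem iso0 (hR : R (QQ (m + 1)) = O (QQ (m + 1))) :
    Nonempty (↥(Subgroup.centralizer ({r0} : Set ↥(O (QQ (m + 1))))) ≃* Multiplicative (ZMod 2) × SpM m) := by
  let f : ↥(Subgroup.centralizer ({r0} : Set ↥(O (QQ (m + 1))))) →* Multiplicative (ZMod 2) × SpM m :=
    ((dk hR).comp (Subgroup.subtype _)).prod Ψ
  refine ⟨MulEquiv.ofBijective f ⟨?_, ?_⟩⟩
  · rw [injective_iff_map_eq_one]
    intro g hg
    exact inj hR g (congrArg Prod.fst hg) (congrArg Prod.snd hg)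
  · rintro ⟨s, A⟩
    obtain ⟨g, hg⟩ := Ψ_surj A
    by_cases hs : dk hR g.1 = s
    · exact ⟨g, Prod.ext hs hg⟩
    · let r1 : ↥(Subgroup.centralizer ({r0} : Set ↥(O (QQ (m + 1))))) := ⟨r0, r0_mem⟩
      have e1 : dk hR (g * r1).1 = s := by
        have h1 : (g * r1).1 = g.1 * r0 := rfl
        rw [h1, map_mul, dk_r0]
        exact fin2 _ _ hs
      have e2 : Ψ (g * r1) = A := by
        rw [map_mul, hg]
        have h2 : Ψ r1 = 1 := Ψ_r0
        rw [h2, mul_one]
      refine ⟨g * r1, ?_⟩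
      show (dk hR (g * r1).1, Ψ (g * r1)) = (s, A)
      rw [e1, e2]

/-- the centre of the symplectic group over the field with two elements is trivial -/
theorem center_bot : Subgroup.center (SpM m) = ⊥ := by
  rw [eq_bot_iff]
  intro A hA
  rw [Subgroup.mem_center_iff] at hA
  rw [Subgroup.mem_bot]
  apply Subtype.ext
  apply Matrix.ext_of_mulVec_single
  intro i
  set w : Vm m := Pi.single i 1 with hw
  have h1 := congrArg (fun z : SpM m => (z : Matrix (Fin m ⊕ Fin m) (Fin m ⊕ Fin m) (ZMod 2))) (hA ⟨sympTransvection m w 1, transvection_mem w 1⟩)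
  have h2 : ∀ x : Vm m, (A : Matrix (Fin m ⊕ Fin m) (Fin m ⊕ Fin m) (ZMod 2)).mulVec x + sympForm m (ZMod 2) ((A : Matrix (Fin m ⊕ Fin m) (Fin m ⊕ Fin m) (ZMod 2)).mulVec x) w • w =
      (A : Matrix (Fin m ⊕ Fin m) (Fin m ⊕ Fin m) (ZMod 2)).mulVec x + sympForm m (ZMod 2) x w • (A : Matrix (Fin m ⊕ Fin m) (Fin m ⊕ Fin m) (ZMod 2)).mulVec w := by
    intro x
    have h3 := congrArg (fun M : Matrix (Fin m ⊕ Fin m) (Fin m ⊕ Fin m) (ZMod 2) => M.mulVec x) h1
    have h4 : (sympTransvection m w 1 * (A : Matrix (Fin m ⊕ Fin m) (Fin m ⊕ Fin m) (ZMod 2))).mulVec x =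
        ((A : Matrix (Fin m ⊕ Fin m) (Fin m ⊕ Fin m) (ZMod 2)) * sympTransvection m w 1).mulVec x := h3
    rw [← Matrix.mulVec_mulVec, ← Matrix.mulVec_mulVec, transvection_mulVec, transvection_mulVec, one_mul, one_mul, Matrix.mulVec_add,
      Matrix.mulVec_smul] at h4
    exact h4
  have h5 : ∃ x : Vm m, sympForm m (ZMod 2) x w = 1 := by
    by_contra hcon
    push Not at hcon
    have h6 : w = 0 := by
      apply eq_zero_of_sympForm (F := ZMod 2)
      intro v
      have h7 := hcon v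
      rw [sympForm_swap]
      generalize sympForm m (ZMod 2) v w = a at h7 ⊢
      revert a
      decide
    have h8 := congrFun h6 i
    rw [hw, Pi.single_eq_same] at h8
    exact one_ne_zero (α := ZMod 2) h8
  obtain ⟨x, hx⟩ := h5
  have h9 := add_left_cancel (h2 x)
  rw [hx, one_smul] at h9
  have h10 : sympForm m (ZMod 2) ((A : Matrix (Fin m ⊕ Fin m) (Fin m ⊕ Fin m) (ZMod 2)).mulVec x) w = 0 ∨
      sympForm m (ZMod 2) ((A : Matrix (Fin m ⊕ Fin m) (Fin m ⊕ Fin m) (ZMod 2)).mulVec x) w = 1 := by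
    generalize sympForm m (ZMod 2) ((A : Matrix (Fin m ⊕ Fin m) (Fin m ⊕ Fin m) (ZMod 2)).mulVec x) w = a
    revert a
    decide
  show (A : Matrix (Fin m ⊕ Fin m) (Fin m ⊕ Fin m) (ZMod 2)).mulVec w = (1 : Matrix (Fin m ⊕ Fin m) (Fin m ⊕ Fin m) (ZMod 2)).mulVec w
  rw [Matrix.one_mulVec]
  rcases h10 with h10 | h10
  · rw [h10, zero_smul] at h9
    -- `A w = 0` is impossible
    have h11 := (mem_iff.1 A.2) x w
    rw [← h9, hx] at h11
    rw [SympMat.sympForm_swap] at h11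
    have h12 : sympForm m (ZMod 2) (0 : Vm m) ((A : Matrix (Fin m ⊕ Fin m) (Fin m ⊕ Fin m) (ZMod 2)).mulVec x) = 0 := by
      rw [sympForm_apply]
      apply Finset.sum_eq_zero
      intro i _
      show (0 : ZMod 2) * _ - 0 * _ = 0
      ring
    rw [h12] at h11
    exact absurd h11 (by decide)
  · rw [h10, one_smul] at h9
    exact h9.symm

theorem psp : Nonempty (SpM m ≃* Cfsg.PSp m (ZMod 2)) :=
  ⟨(QuotientGroup.quotientBot (G := SpM m)).symm.trans (QuotientGroup.quotientMulEquivOfEq center_bot.symm)⟩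

/-- centralizers of conjugate elements -/
theorem cent_conj {G : Type*} [Group G] (t a b : G) (h : t * a * t⁻¹ = b) :
    Nonempty (↥(Subgroup.centralizer ({b} : Set G)) ≃* ↥(Subgroup.centralizer ({a} : Set G))) := by
  have h1 : (Subgroup.centralizer ({a} : Set G)).map (MulAut.conj t).toMonoidHom = Subgroup.centralizer ({b} : Set G) := by
    ext x
    rw [Subgroup.mem_map_equiv, Subgroup.mem_centralizer_singleton_iff, Subgroup.mem_centralizer_singleton_iff, ← h]
    show (MulAut.conj t).symm x * a = a * (MulAut.conj t).symm x ↔ _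
    rw [MulAut.conj_symm_apply]
    constructor
    · intro h2
      calc x * (t * a * t⁻¹) = t * ((t⁻¹ * x * t) * a) * t⁻¹ := by group
        _ = t * (a * (t⁻¹ * x * t)) * t⁻¹ := by rw [h2]
        _ = t * a * t⁻¹ * x := by group
    · intro h2
      calc t⁻¹ * x * t * a = t⁻¹ * (x * (t * a * t⁻¹)) * t := by group
        _ = t⁻¹ * (t * a * t⁻¹ * x) * t := by rw [h2]
        _ = a * (t⁻¹ * x * t) := by group
  exact ⟨(((Subgroup.centralizer ({a} : Set G)).equivMapOfInjective (MulAut.conj t).toMonoidHom (MulAut.conj t).injective).trans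
    (MulEquiv.subgroupCongr h1)).symm⟩

theorem stab8 (v : Fin 4 ⊕ Fin 4 → ZMod 2) (hv : quadPlus 4 (ZMod 2) v = 1) (r : ↥(O (quadPlus 4 (ZMod 2))))
    (hr : (r : (Fin 4 ⊕ Fin 4 → ZMod 2) ≃ₗ[ZMod 2] (Fin 4 ⊕ Fin 4 → ZMod 2)) = refl (quadPlus 4 (ZMod 2)) v) :
    Nonempty (↥(Subgroup.centralizer ({r} : Set ↥(O (quadPlus 4 (ZMod 2))))) ≃* Multiplicative (ZMod 2) × Cfsg.PSp 3 (ZMod 2)) := by
  have hR : R (QQ (3 + 1)) = O (QQ (3 + 1)) := FiO8.hQ8.R_eq_O FiO8.hgen8
  have hv0 : (v0 : Vm (3 + 1)) ≠ 0 := by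
    intro h
    have h1 := Q_v0 (m := 3)
    rw [h, QuadraticMap.map_zero] at h1
    exact absurd h1 (by decide)
  have hvne : v ≠ 0 := by
    rintro rfl
    rw [QuadraticMap.map_zero] at hv
    exact absurd hv (by decide)
  obtain ⟨t, ht, htv⟩ := Om_map_one FiO8.hQ8 hR (frame_of_HP (hpPlus 4)) (i := 0) (j := 1) (l := 2) (by decide) (by decide)
    (by decide) hv0 hvne (by rw [Q_v0]; exact hv.symm)
  have htO : t ∈ O (QQ (3 + 1)) := Om_le ht
  have h1 : (⟨t, htO⟩ : ↥(O (QQ (3 + 1)))) * r0 * (⟨t, htO⟩ : ↥(O (QQ (3 + 1))))⁻¹ = r := by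
    apply Subtype.ext
    show t * refl (QQ (3 + 1)) v0 * t⁻¹ = _
    rw [hr, refl_conj htO, htv]
  obtain ⟨e1⟩ := cent_conj _ _ _ h1
  obtain ⟨e2⟩ := iso0 (m := 3) hR
  obtain ⟨e3⟩ := psp (m := 3)
  exact ⟨e1.trans (e2.trans (MulEquiv.prodCongr (MulEquiv.refl _) e3))⟩

end Cfsg.Agent.Lib.H67O8Stab
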