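import Cfsg.Agent.Lib.LowDimP

/-! Hodge star on alternating `4 × 4` matrices. -/

set_option autoImplicit false

namespace Cfsg.Agent.Lib.LowDimH

open Matrix Cfsg.Agent.Lib Cfsg.Agent.Lib.LowDimB Cfsg.Agent.Lib.LowDimP

variable {K : Type*} [Field K]

/-- Hodge star -/
def hs (X : M4 K) : M4 K := alt4 (X 2 3) (-X 1 3) (X 1 2) (X 0 3) (-X 0 2) (X 0 1)

theorem hs_alt4 (a b c d e f : K) : hs (alt4 a b c d e f) = alt4 f (-e) d c (-b) a := by
  simp [hs, alt4]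

theorem hs_transvection {i j : Fin 4} (hij : i ≠ j) (c : K) {X : M4 K} (hX : X ∈ W K) :
    (Matrix.transvection i j c)ᵀ * hs (Matrix.transvection i j c * X * (Matrix.transvection i j c)ᵀ)
      * Matrix.transvection i j c = hs X := by
  rw [eq_alt4 hX]
  generalize X 0 1 = x1
  generalize X 0 2 = x2
  generalize X 0 3 = x3
  generalize X 1 2 = x4
  generalize X 1 3 = x5
  generalize X 2 3 = x6
  rw [hs_alt4]
  have key : ∀ (T : M4 K) (Y : M4 K), Y = T * alt4 x1 x2 x3 x4 x5 x6 * Tᵀ →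
      (∀ k l, (Tᵀ * alt4 (Y 2 3) (-Y 1 3) (Y 1 2) (Y 0 3) (-Y 0 2) (Y 0 1) * T) k l =
        alt4 x6 (-x5) x4 x3 (-x2) x1 k l) →
      Tᵀ * hs (T * alt4 x1 x2 x3 x4 x5 x6 * Tᵀ) * T = alt4 x6 (-x5) x4 x3 (-x2) x1 := by
    intro T Y hY h
    ext k l
    rw [← hY, hs]
    exact h k l
  apply key _ _ rfl
  intro k l
  fin_cases i <;> fin_cases j <;>
    first
    | exact absurd rfl hij
    | (fin_cases k <;> fin_cases l <;>
       (simp [Matrix.mul_apply, Fin.sum_univ_four, alt4, Matrix.transvection, Matrix.one_apply, Matrix.single_apply] <;>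
        try ring))

theorem hs_SL (A : SpecialLinearGroup (Fin 4) K) :
    ∀ X ∈ W K, A.1ᵀ * hs (A.1 * X * A.1ᵀ) * A.1 = hs X := by
  refine ClSLn.transvection_induction
    (P := fun A => ∀ X ∈ W K, A.1ᵀ * hs (A.1 * X * A.1ᵀ) * A.1 = hs X) ?_ ?_ A
  · intro i j hij c X hX
    exact hs_transvection hij c hX
  · intro A B hA hB X hX
    have h1 : (A * B).1 * X * ((A * B).1)ᵀ = A.1 * (B.1 * X * B.1ᵀ) * A.1ᵀ := by
      show (A.1 * B.1) * X * (A.1 * B.1)ᵀ = _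
      rw [transpose_mul]
      simp only [mul_assoc]
    rw [h1]
    have h2 := hA _ (congr_mem B.1 hX)
    have h3 := hB X hX
    show (A.1 * B.1)ᵀ * hs (A.1 * (B.1 * X * B.1ᵀ) * A.1ᵀ) * (A.1 * B.1) = hs X
    calc (A.1 * B.1)ᵀ * hs (A.1 * (B.1 * X * B.1ᵀ) * A.1ᵀ) * (A.1 * B.1)
        = B.1ᵀ * (A.1ᵀ * hs (A.1 * (B.1 * X * B.1ᵀ) * A.1ᵀ) * A.1) * B.1 := by
          rw [transpose_mul]; simp only [mul_assoc]
      _ = hs X := by rw [h2, h3]

end Cfsg.Agent.Lib.LowDimH
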