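import Cfsg.Agent.Lib.H89MV5
import Cfsg.Agent.Lib.ClOmega
import Cfsg.Agent.S0303
/-
The isometry group of the elliptic quadratic form in dimension six over the field with two elements is the automorphism
group of `PSU_4(2)` (helper89).
-/
set_option autoImplicit false
set_option linter.all false

namespace Cfsg.Agent.Lib.H89MO

open Cfsg Cfsg.Agent.Lib.Quad QuadraticMap Module

abbrev I6 := (Fin 2 ⊕ Fin 2) ⊕ Fin 2

/-- the form -/
noncomputable abbrev Qm : QuadraticForm (ZMod 2) (I6 → ZMod 2) := quadMinus 2 (ZMod 2) 1 1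

abbrev OO : Type := ↥(Cfsg.isometryGroup (ZMod 2) (Cfsg.quadFormMinus 2 (ZMod 2) 1 1))
abbrev Omm : Subgroup OO := Cfsg.Omega (ZMod 2) (Cfsg.quadFormMinus 2 (ZMod 2) 1 1)

theorem hab : ∀ z₁ z₂ : ZMod 2, z₁ ^ 2 + 1 * z₁ * z₂ + 1 * z₂ ^ 2 = 0 → z₁ = 0 ∧ z₂ = 0 := by decide

theorem card_OO : Nat.card OO = 51840 := by
  have h := ClOrthOrd.card_isometryGroup (quadMinus 2 (ZMod 2) 1 1)
  rw [coe_quadMinus] at h
  rw [h, ClOrthOrd.card_O_minus hab]
  simp only [ZMod.card, Finset.prod_range_succ, Finset.prod_range_zero]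
  norm_num

theorem cq (x : I6 → ZMod 2) : Qm x = Cfsg.quadFormMinus 2 (ZMod 2) 1 1 x := congrFun (coe_quadMinus _ _ _ _) x

theorem nd : Nd Qm := nd_quadMinus (by decide)

theorem index_Omm : Omm.index = 2 := by
  have h := index_Omega_even (Q := quadMinus 2 (ZMod 2) 1 1) nd (ClOmega.genHyp_minus 2 le_rfl 1 1)
    (by rw [Module.finrank_pi]; simp)
  rw [coe_quadMinus] at h
  exact h

theorem card_Omm : Nat.card Omm = 25920 := by
  have h := Subgroup.card_mul_index Omm
  rw [index_Omm, card_OO] at h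
  omega

theorem center_Omm {F : Type} [Field F] [Fintype F] (hF : Fintype.card F = 2 ^ 2) : Subgroup.center Omm = ⊥ := by
  obtain ⟨e⟩ := Cfsg.Agent.S0303.result (F := ZMod 2) (K := F) (q := 2) (ZMod.card 2) hF 1 1 hab
  have h1 : Nat.card (POmega (ZMod 2) (quadFormMinus 2 (ZMod 2) 1 1)) = 25920 := by
    rw [Nat.card_congr e.toEquiv, H89MV.card_PSU42 hF]
  have h2 := Subgroup.card_eq_card_quotient_mul_card_subgroup (Subgroup.center Omm)
  have h3 : Nat.card (Omm ⧸ Subgroup.center Omm) = 25920 := h1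
  rw [h3, card_Omm] at h2
  have h4 : Nat.card (Subgroup.center Omm) = 1 := by omega
  exact Subgroup.card_eq_one.1 h4

theorem iso_Omm {F : Type} [Field F] [Fintype F] (hF : Fintype.card F = 2 ^ 2) : Nonempty (Omm ≃* PSU 4 F 2) := by
  obtain ⟨e⟩ := Cfsg.Agent.S0303.result (F := ZMod 2) (K := F) (q := 2) (ZMod.card 2) hF 1 1 hab
  have h5 := center_Omm hF
  have e2 : Omm ≃* Omm ⧸ Subgroup.center Omm :=
    MulEquiv.ofBijective (QuotientGroup.mk' (Subgroup.center Omm))
      ⟨(MonoidHom.ker_eq_bot_iff _).1 (by rw [QuotientGroup.ker_mk', h5]), QuotientGroup.mk'_surjective _⟩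
  exact ⟨e2.trans e⟩

/-- an isometry commuting with all isometries is trivial -/
theorem central_one {g : (I6 → ZMod 2) ≃ₗ[ZMod 2] (I6 → ZMod 2)} (hg : g ∈ O Qm) (hc : ∀ h ∈ O Qm, g * h = h * g) :
    g = 1 := by
  have h1 : ∀ u, Qm u ≠ 0 → g u = u := by
    intro u hu
    have h2 := refl_conj hg u
    rw [hc _ (refl_mem u), mul_inv_cancel_right] at h2
    have hu' : Qm (g u) ≠ 0 := by rw [hg]; exact hu
    have hu0 : u ≠ 0 := by
      rintro rfl
      exact hu (QuadraticMap.map_zero _)
    -- a vector not orthogonal to `u`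
    obtain ⟨x, hx⟩ : ∃ x, polar Qm u x ≠ 0 := by
      by_contra hcon
      exact hu0 (nd.1 u fun y => by
        by_contra hy
        exact hcon ⟨y, hy⟩)
    have h3 : refl Qm u x = refl Qm (g u) x := by rw [← h2]
    rw [refl_apply hu, refl_apply hu'] at h3
    have h4 : ∀ c : ZMod 2, c ≠ 0 → c = 1 := by decide
    have h5 : (Qm u)⁻¹ * polar Qm u x = 1 := by
      rw [h4 _ hu, h4 _ hx, inv_one, mul_one]
    rw [h5, one_smul] at h3
    have h6 := sub_right_injective h3
    have h7 : ∀ c : ZMod 2, c = 0 ∨ c = 1 := by decide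
    rcases h7 ((Qm (g u))⁻¹ * polar Qm (g u) x) with h8 | h8
    · rw [h8, zero_smul] at h6
      exact absurd h6 hu0
    · rw [h8, one_smul] at h6
      exact h6.symm
  have hn : Qm (Pi.single (Sum.inr 0) 1) ≠ 0 := by
    rw [cq]
    decide
  have hs : ∀ i : I6, i ≠ Sum.inr 0 → Cfsg.quadFormMinus 2 (ZMod 2) 1 1 (Pi.single i 1 + Pi.single (Sum.inr 0) 1) ≠ 0 ∨
      Cfsg.quadFormMinus 2 (ZMod 2) 1 1 (Pi.single i 1) ≠ 0 := by decide
  have h9 : ∀ i : I6, g (Pi.single i 1) = Pi.single i 1 := by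
    intro i
    by_cases hi : i = Sum.inr 0
    · rw [hi]
      exact h1 _ hn
    · rcases hs i hi with h | h
      · have h10 := h1 (Pi.single i 1 + Pi.single (Sum.inr 0) 1) (by
          rw [cq]
          exact h)
        rw [map_add, h1 _ hn] at h10
        exact add_right_cancel h10
      · apply h1
        rw [cq]
        exact h
  apply LinearEquiv.toLinearMap_injective
  apply LinearMap.pi_ext'
  intro i
  apply LinearMap.ext_ring
  exact h9 i

instance : Finite OO := by
  apply Nat.finite_of_card_ne_zero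
  rw [card_OO]
  norm_num

theorem conj_inj {F : Type} [Field F] [Fintype F] (hF : Fintype.card F = 2 ^ 2) :
    Function.Injective (MulAut.conjNormal : OO →* MulAut Omm) := by
  rw [injective_iff_map_eq_one]
  intro g hg
  have key : ∀ g : OO, MulAut.conjNormal (H := Omm) g = 1 → ∀ h ∈ Omm, g * h = h * g := by
    intro g hg h hh
    have h1 : MulAut.conjNormal (H := Omm) g ⟨h, hh⟩ = ⟨h, hh⟩ := by rw [hg]; rfl
    have h2 : g * h * g⁻¹ = h := congrArg Subtype.val h1
    exact mul_inv_eq_iff_eq_mul.1 h2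
  have hker : ∀ g : OO, MulAut.conjNormal (H := Omm) g = 1 → g ∈ Omm → g = 1 := by
    intro g hg hgO
    have h1 : (⟨g, hgO⟩ : Omm) ∈ Subgroup.center Omm := by
      rw [Subgroup.mem_center_iff]
      intro h
      exact Subtype.ext (key g hg h h.2).symm
    rw [center_Omm hF, Subgroup.mem_bot] at h1
    exact congrArg Subtype.val h1
  -- two elements of the kernel outside the commutator subgroup agree
  have hix := Subgroup.index_eq_two_iff.1 index_Omm
  by_cases hgO : g ∈ Omm
  · exact hker g hg hgO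
  · have hcent : ∀ h : OO, g * h = h * g := by
      intro h
      have h1 : MulAut.conjNormal (H := Omm) (h * g * h⁻¹) = 1 := by
        rw [map_mul, map_mul, hg, mul_one, map_inv, mul_inv_cancel]
      have hn : Omm.Normal := inferInstance
      have h2 : h * g * h⁻¹ ∉ Omm := by
        intro h3
        have := hn.conj_mem _ h3 h⁻¹
        rw [inv_inv] at this
        have e : h⁻¹ * (h * g * h⁻¹) * h = g := by group
        rw [e] at this
        exact hgO this
      have h3 : (h * g * h⁻¹) * g⁻¹ ∈ Omm := by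
        have := (Subgroup.mul_mem_iff_of_index_two index_Omm (a := h * g * h⁻¹) (b := g⁻¹)).2
          ⟨fun h4 => absurd h4 h2, fun h4 => absurd (inv_mem_iff.1 h4) hgO⟩
        exact this
      have h4 : (h * g * h⁻¹) * g⁻¹ = 1 := hker _ (by rw [map_mul, h1, map_inv, hg, inv_one, mul_one]) h3
      have h5 : h * g * h⁻¹ = g := mul_inv_eq_one.1 h4
      exact (mul_inv_eq_iff_eq_mul.1 h5).symm
    -- transfer to the orthogonal group
    have hcoe : (⇑Qm : (I6 → ZMod 2) → ZMod 2) = Cfsg.quadFormMinus 2 (ZMod 2) 1 1 := coe_quadMinus _ _ _ _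
    have main : ∀ (q : (I6 → ZMod 2) → ZMod 2) (hq : ⇑Qm = q) (g : ↥(Cfsg.isometryGroup (ZMod 2) q)),
        (∀ h, g * h = h * g) → g = 1 := by
      rintro q rfl g hg
      have h6 : (toO Qm g : (I6 → ZMod 2) ≃ₗ[ZMod 2] (I6 → ZMod 2)) = 1 := by
        apply central_one (toO Qm g).2
        intro h hh
        have h7 := hg ((toO Qm).symm ⟨h, hh⟩)
        have h8 := congrArg (toO Qm) h7
        rw [map_mul, map_mul, MulEquiv.apply_symm_apply] at h8
        exact congrArg Subtype.val h8
      apply (toO Qm).injective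
      rw [map_one]
      exact Subtype.ext h6
    exact main _ hcoe g hcent

theorem iso_aut {F : Type} [Field F] [Fintype F] (hF : Fintype.card F = 2 ^ 2) :
    Nonempty (OO ≃* MulAut (PSU 4 F 2)) := by
  obtain ⟨e⟩ := iso_Omm hF
  let f : OO →* MulAut (PSU 4 F 2) := (MulAut.congr e).toMonoidHom.comp MulAut.conjNormal
  have hinj : Function.Injective f := (MulAut.congr e).injective.comp (conj_inj hF)
  haveI : Finite (PSU 4 F 2) := by
    apply Nat.finite_of_card_ne_zero
    rw [H89MV.card_PSU42 hF]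
    norm_num
  haveI : Finite (MulAut (PSU 4 F 2)) := Finite.of_injective (fun e : MulAut (PSU 4 F 2) => (e : PSU 4 F 2 → PSU 4 F 2))
    (fun a b h => MulEquiv.ext fun x => congrFun h x)
  have h1 : Nat.card OO ≤ Nat.card (MulAut (PSU 4 F 2)) := Nat.card_le_card_of_injective _ hinj
  have h2 : Nat.card (MulAut (PSU 4 F 2)) = Nat.card OO := by
    have := H89MV.card_aut42 hF
    rw [card_OO] at h1 ⊢
    omega
  have h3 : Function.Bijective f := by
    rw [Nat.bijective_iff_injective_and_card]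
    exact ⟨hinj, h2.symm⟩
  exact ⟨MulEquiv.ofBijective f h3⟩

end Cfsg.Agent.Lib.H89MO
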