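import Cfsg.Agent.Lib.FiO8A
import Cfsg.Agent.Lib.H89GD
import Cfsg.Agent.Lib.H89MO
import Cfsg.Agent.Lib.Fi22OutA

/-!
# A subgroup generated by seven transpositions, mapped onto the orthogonal group `O₆⁻(2)`
-/

set_option autoImplicit false
set_option linter.all false
set_option maxRecDepth 100000

namespace Cfsg.Agent.Lib.H67Pi

open Cfsg.Agent.Lib.BenesPerm Cfsg.Agent.Lib.BenesAct Cfsg.Agent.Lib.BenesWord
open Cfsg.Agent.Lib.CoxBridge (mem_wordGrp_of_nth stepsW)
open Cfsg.Agent.Lib.CosetInst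
open Cfsg.Agent.Lib.Fi22Out (rc pt) 
open Cfsg.Agent.Lib.SliceK4 (allK allK_spec)
open Cfsg.Agent.Lib.Quad QuadraticMap Module Cfsg.Agent.Lib.ClOrthSiegel Cfsg.Agent.Lib.ClOmega Cfsg.Agent.Lib.GoursatHom
open Cfsg.Agent.Lib.FiThB (P)
open Cfsg.Agent.Lib.FiO8 (bz bz_xor bz_and sel testBit_sel tv tv_spec)
open Cfsg.Agent.Lib.H89GA (LE tw K72 R72 PLs PL0 PL1 PL2 PL3 PL4 PL5 vb tb6 st72)
open Cfsg.Agent.Lib.TransLanes
open Cfsg.Agent.Lib.H89MO (I6 Qm OO cq nd)

local notation "nets" => Cfsg.Agent.Lib.Fi22NetsA.nets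
local notation "xx" => Cfsg.Agent.Lib.Fi22Out.xx

/-- the subgroup -/
abbrev K : Subgroup P := Subgroup.closure {t | ∃ e ∈ K72, t = Wx xx (tw e)}

/-- the words -/
def KWs : List (List ℕ) := K72.map tw

theorem k_inv : invK nets KWs R72 = true := by decide +kernel
theorem k_reach : reachK nets (stepsW KWs st72) (2 ^ 0) (fun V => Nat.beq V R72) = true := by decide +kernel

section

variable {φ : P →* Equiv.Perm ℕ} 

theorem map_K (hφ : ∀ c, φ (xx c) = sperm nets c) : K.map φ = wordGrp nets KWs := by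
  rw [MonoidHom.map_closure]
  unfold wordGrp
  congr 1
  have hw : ∀ w : List ℕ, φ (Wx xx w) = (w.map (sperm nets)).prod := by
    intro w
    rw [Wx, map_list_prod, List.map_map]
    congr 1
    apply List.map_congr_left
    intro c _
    exact hφ c
  ext p
  simp only [Set.mem_image, Set.mem_setOf_eq, KWs, List.mem_map]
  constructor
  · rintro ⟨_, ⟨e, he, rfl⟩, rfl⟩
    exact ⟨_, ⟨e, he, rfl⟩, hw _⟩
  · rintro ⟨_, ⟨e, he, rfl⟩, rfl⟩
    exact ⟨_, ⟨e, he, rfl⟩, hw _⟩

theorem orb (C' : Ctx xx φ nets 12 3510 9 pt rc) (j : ℕ) : (∃ h ∈ K, φ h 0 = j) ↔ R72.testBit j = true := by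
  have hreach := k_reach
  rw [reachK_eq] at hreach
  rw [← orbit_eq (LaneTools.hok C'.hns) k_inv (steps := stepsW KWs st72) ?_ (Nat.eq_of_beq_eq_true hreach) j, ← map_K C'.hφ]
  · constructor
    · rintro ⟨h, hh, e⟩; exact ⟨φ h, Subgroup.mem_map_of_mem φ hh, e⟩
    · rintro ⟨_, ⟨h, hh, rfl⟩, e⟩; exact ⟨h, hh, e⟩
  · intro w hw
    obtain ⟨i, _, rfl⟩ := List.mem_map.mp hw
    exact mem_wordGrp_of_nth _ _

end

/-! ### vectors -/

/-- the space -/
abbrev V := I6 → ZMod 2

/-- position of a coordinate -/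
def pos : I6 → ℕ
  | .inl (.inl k) => k.val
  | .inl (.inr k) => 2 + k.val
  | .inr k => 4 + k.val

theorem pos_lt : ∀ x : I6, pos x < 6 := by decide

/-- the vector at a lane -/
noncomputable def vec (i : ℕ) : V := fun x => bz ((PLs.getD (pos x) 0).testBit i)

/-- vector of a list of bits -/
def vl (b : List Bool) : V := fun x => bz (b.getD (pos x) false)

/-- swapped coordinates -/
def sw : List Bool → List Bool
  | [a, b, c, d, e, f] => [c, d, a, b, f, e]
  | _ => []

/-- bits of a code -/
def dl (n : ℕ) : List Bool := [n.testBit 0, n.testBit 1, n.testBit 2, n.testBit 3, n.testBit 4, n.testBit 5]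

/-- the form on bits -/
def qb : List Bool → Bool
  | [a, b, c, d, e, f] => (a && c) ^^ ((b && d) ^^ (e ^^ ((e && f) ^^ f)))
  | _ => false

/-- check for one code -/
noncomputable def chk (n : ℕ) : Bool :=
  force (Nat.land (Nat.shiftRight tb6 (12 * n)) 4095) fun i =>
    !(qb (dl n)) || (R72.testBit i && decide (dl n = PLs.map (fun p => p.testBit i)))

theorem c1 : allK 64 chk = true := by decide +kernel

theorem s_all : (K72.zip vb).all (fun p => tv nets (tw p.1) (sel (sw p.2) PLs) R72 p.2 PLs && (qb p.2 && p.2.length == 6)) = true := by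
  decide +kernel

theorem Q_vl (a b c d e f : Bool) : Qm (vl [a, b, c, d, e, f]) = bz (qb [a, b, c, d, e, f]) := by
  rw [cq]
  unfold Cfsg.quadFormMinus
  rw [Fin.sum_univ_two]
  simp only [qb, bz_xor, bz_and]
  change bz a * bz c + bz b * bz d + (bz e ^ 2 + 1 * bz e * bz f + 1 * bz f ^ 2) = _
  have h : ∀ z : ZMod 2, z ^ 2 = z := by decide
  rw [h, h]
  ring

theorem dl_surj (x : V) : ∃ n, n < 64 ∧ vl (dl n) = x := by
  have hb : ∀ z : ZMod 2, ∃ b : Bool, bz b = z := by decide
  choose b hb using fun j => hb (x j)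
  have key : ∀ a b c d e f : Bool, ∃ n : Fin 64, dl n = [a, b, c, d, e, f] := by decide +kernel
  obtain ⟨n, hn⟩ := key (b (.inl (.inl 0))) (b (.inl (.inl 1))) (b (.inl (.inr 0))) (b (.inl (.inr 1))) (b (.inr 0)) (b (.inr 1))
  refine ⟨n, n.2, ?_⟩
  rw [hn]
  funext j
  rw [← hb j]
  rcases j with (j | j) | j <;> fin_cases j <;> rfl

theorem nonsing_pt (v : V) (hv : Qm v = 1) : ∃ i, R72.testBit i = true ∧ vec i = v := by
  obtain ⟨n, hn, rfl⟩ := dl_surj v
  have h := allK_spec c1 n hn
  unfold chk at h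
  rw [force_eq] at h
  simp only [Bool.or_eq_true, decide_eq_true_eq, Bool.and_eq_true, Bool.not_eq_true'] at h
  rcases h with h | ⟨h1, h2⟩
  · exfalso
    have h3 : Qm (vl (dl n)) = bz (qb (dl n)) := Q_vl _ _ _ _ _ _
    rw [h3, h] at hv
    exact absurd hv (by decide)
  · refine ⟨_, h1, ?_⟩
    rw [h2]
    funext j
    unfold vec vl
    rcases j with (j | j) | j <;> fin_cases j <;> rfl

/-- the lanes -/
noncomputable abbrev X : Set ℕ := {i | R72.testBit i = true}
/-- the action -/
noncomputable abbrev ρ : ↥(O Qm) →* (V ≃ₗ[ZMod 2] V) := (O Qm).subtype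

theorem polar_sel {b : List Bool} (hb : b.length = 6) (i : ℕ) : polar Qm (vl b) (vec i) = bz ((sel (sw b) PLs).testBit i) := by
  match b, hb with
  | [a0, a1, a2, a3, a4, a5], _ =>
    rw [testBit_sel]
    change polar (Cfsg.quadFormMinus 2 (ZMod 2) 1 1) _ _ = _
    rw [polar_quadMinus, Fin.sum_univ_two]
    have e : (sw [a0, a1, a2, a3, a4, a5]).zip PLs = [(a2, PL0), (a3, PL1), (a0, PL2), (a1, PL3), (a5, PL4), (a4, PL5)] := rfl
    rw [e]
    simp only [List.map_cons, List.map_nil, List.sum_cons, List.sum_nil, add_zero]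
    have h2 : (2 : ZMod 2) = 0 := by decide
    rw [h2]
    change (bz a0 * bz (PL2.testBit i) + bz a2 * bz (PL0.testBit i)) + (bz a1 * bz (PL3.testBit i) + bz a3 * bz (PL1.testBit i)) +
      (0 * bz a4 * bz (PL4.testBit i) + 1 * (bz a4 * bz (PL5.testBit i) + bz a5 * bz (PL4.testBit i)) + 0 * 1 * bz a5 * bz (PL5.testBit i)) = _
    ring

theorem mt_of {φ : P →* Equiv.Perm ℕ} (C' : Ctx xx φ nets 12 3510 9 pt rc) {w : List ℕ} {b : List Bool} (hb : b.length = 6)
    (hq : qb b = true) (h : tv nets w (sel (sw b) PLs) R72 b PLs = true) :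
    Mt X vec ρ (φ (Wx xx w)) ⟨refl Qm (vl b), refl_mem _⟩ := by
  intro i hi
  refine ⟨1, one_ne_zero, ?_⟩
  rw [one_smul]
  change refl Qm (vl b) (vec i) = _
  have hQ : Qm (vl b) = 1 := by
    match b, hb, hq with
    | [a0, a1, a2, a3, a4, a5], _, hq =>
      rw [Q_vl, hq]; rfl
  rw [refl_apply (by rw [hQ]; decide), hQ, polar_sel hb, C'.φ_word]
  have h1 := tv_spec (LaneTools.hok C'.hns) b PLs h i hi
  funext x
  have hx : pos x < b.length := by
    rw [hb]
    exact pos_lt x
  have h2 := h1 (pos x) hx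
  change vec i x - (1⁻¹ * bz _) * bz (b.getD (pos x) false) = bz ((PLs.getD (pos x) 0).testBit _)
  rw [h2, inv_one, one_mul]
  change bz _ - bz _ * bz (b.getD (pos x) false) = _
  generalize bz ((PLs.getD (pos x) 0).testBit i) = z1
  generalize bz ((sel (sw b) PLs).testBit i) = z2
  generalize bz (b.getD (pos x) false) = z3
  revert z1 z2 z3
  decide

theorem gens_data {e : LE} (he : e ∈ K72) : ∃ b : List Bool, b.length = 6 ∧ qb b = true ∧
    tv nets (tw e) (sel (sw b) PLs) R72 b PLs = true := by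
  have hz : e ∈ (K72.zip vb).map Prod.fst := by
    rw [List.map_fst_zip (by decide)]
    exact he
  obtain ⟨p, hp, rfl⟩ := List.mem_map.1 hz
  have h := List.all_eq_true.1 s_all p hp
  simp only [Bool.and_eq_true, beq_iff_eq] at h
  exact ⟨p.2, h.2.2, h.2.1, h.1⟩

theorem gens_ok {φ : P →* Equiv.Perm ℕ} (C' : Ctx xx φ nets 12 3510 9 pt rc) :
    ∀ t ∈ {t | ∃ e ∈ K72, t = Wx xx (tw e)}, ∃ s : ↥(O Qm), Mt X vec ρ (φ t) s := by
  rintro t ⟨e, he, rfl⟩
  obtain ⟨b, hb, hq, h⟩ := gens_data he
  exact ⟨_, mt_of C' hb hq h⟩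

theorem K_X {φ : P →* Equiv.Perm ℕ} (C' : Ctx xx φ nets 12 3510 9 pt rc) : ∀ h ∈ K, ∀ i ∈ X, φ h i ∈ X := by
  intro h hh i hi
  obtain ⟨g, hg, rfl⟩ := (orb C' i).mpr hi
  exact (orb C' _).mp ⟨h * g, K.mul_mem hh hg, by rw [map_mul]; rfl⟩

/-- a spanning set of nonsingular vectors -/
theorem ext_of (f g : V →ₗ[ZMod 2] V) (h : ∀ v, Qm v = 1 → f v = g v) : f = g := by
  have hq : ∀ a b c d e f' : Bool, qb [a, b, c, d, e, f'] = true → f (vl [a, b, c, d, e, f']) = g (vl [a, b, c, d, e, f']) :=
    fun a b c d e f' hh => h _ (by rw [Q_vl, hh]; rfl)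
  apply (Pi.basisFun (ZMod 2) I6).ext
  intro i
  rw [Pi.basisFun_apply]
  have key : ∀ u v : V, f u = g u → f v = g v → Pi.single i 1 = u + v → f (Pi.single i 1) = g (Pi.single i 1) := by
    intro u v hu hv he
    rw [he, map_add, map_add, hu, hv]
  rcases i with (i | i) | i
  · fin_cases i
    · exact key _ _ (hq true false false false true false (by decide)) (hq false false false false true false (by decide)) (by decide)
    · exact key _ _ (hq false true false false true false (by decide)) (hq false false false false true false (by decide)) (by decide)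
  · fin_cases i
    · exact key _ _ (hq false false true false true false (by decide)) (hq false false false false true false (by decide)) (by decide)
    · exact key _ _ (hq false false false true true false (by decide)) (hq false false false false true false (by decide)) (by decide)
  · fin_cases i
    · exact key _ _ (hq false false false false true true (by decide)) (hq false false false false false true (by decide)) (by decide)
    · exact key _ _ (hq false false false false true true (by decide)) (hq false false false false true false (by decide)) (by decide)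

theorem hR : R Qm = O Qm := nd.R_eq_O (ClOmega.genHyp_minus 2 le_rfl 1 1)

theorem c0 : K72.head? = some (0, 0, []) := rfl

theorem exists_pi' {φ : P →* Equiv.Perm ℕ} (C' : Ctx xx φ nets 12 3510 9 pt rc) :
    ∃ π : ↥K →* ↥(O Qm), Function.Surjective π ∧ ∀ h : ↥K, π h = 1 ↔ ∀ i, R72.testBit i = true →
      ∀ k < 6, (PLs.getD k 0).testBit (φ h i) = (PLs.getD k 0).testBit i := by
  have hX := K_X C'
  obtain ⟨π, hπ, hall⟩ := match_hom (X := X) (pt := vec) (ρ := ρ) φ K hX _ rfl (gens_ok C') (⊥ : Subgroup ↥(O Qm))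
    (by
      intro s hs
      rw [Subgroup.mem_bot]
      apply Subtype.ext
      apply LinearEquiv.toLinearMap_injective
      apply ext_of
      intro v hv
      obtain ⟨i, hi, rfl⟩ := nonsing_pt v hv
      obtain ⟨c, hc, h1⟩ := hs i hi
      have hc1 : c = 1 := by
        revert hc
        generalize c = c'
        revert c'
        decide
      rw [hc1, one_smul] at h1
      exact h1)
  let e : (↥(O Qm) ⧸ (⊥ : Subgroup ↥(O Qm))) ≃* ↥(O Qm) := QuotientGroup.quotientBot
  have he : ∀ s : ↥(O Qm), e (QuotientGroup.mk s) = s := fun s => rfl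
  have hval : ∀ (h : ↥K) (s : ↥(O Qm)), Mt X vec ρ (φ h) s → e (π h) = s := by
    intro h s hs
    rw [hπ h s hs, he]
  refine ⟨e.toMonoidHom.comp π, ?_, ?_⟩
  · rw [← MonoidHom.range_eq_top]
    have hX0 : (0 : ℕ) ∈ X := (orb C' 0).mp ⟨1, K.one_mem, by rw [map_one]; rfl⟩
    -- the transposition of lane 0
    have h1 : ∀ v, Qm v = 1 → (⟨refl Qm v, refl_mem v⟩ : ↥(O Qm)) ∈ (e.toMonoidHom.comp π).range := by
      intro v hv
      obtain ⟨i, hi, rfl⟩ := nonsing_pt v hv
      have m1 := mt_of C' (w := tw (0, 0, [])) (b := [false, false, false, false, false, true]) rfl (by decide)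
        (by
          have h := List.all_eq_true.1 s_all ((0, 0, []), [false, false, false, false, false, true]) (by
            unfold K72 vb
            exact List.mem_cons_self)
          simp only [Bool.and_eq_true, beq_iff_eq] at h
          exact h.1)
      have hm : Wx xx (tw (0, 0, [])) ∈ K := Subgroup.subset_closure ⟨(0, 0, []), by unfold K72; exact List.mem_cons_self, rfl⟩
      -- the vector at lane 0
      have hv0 : vec 0 = vl [false, false, false, false, false, true] := by
        have hb : ∀ j, j < 6 → (PLs.getD j 0).testBit 0 = [false, false, false, false, false, true].getD j false := by decide +kernel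
        funext x
        change bz _ = bz _
        rw [hb _ (pos_lt x)]
      obtain ⟨g, hg, hgi⟩ := (orb C' i).mpr hi
      obtain ⟨s, hs⟩ := hall ⟨g, hg⟩
      obtain ⟨c, hc, h2⟩ := hs 0 hX0
      have hc1 : c = 1 := by
        revert hc
        generalize c = c'
        revert c'
        decide
      rw [hc1, one_smul] at h2
      change (s : V ≃ₗ[ZMod 2] V) (vec 0) = vec (φ g 0) at h2
      rw [hgi, hv0] at h2
      refine ⟨⟨g, hg⟩ * ⟨_, hm⟩ * ⟨g, hg⟩⁻¹, ?_⟩
      change e (π _) = _
      rw [map_mul, map_mul, map_inv, map_mul, map_mul, map_inv, hval _ s hs, hval ⟨_, hm⟩ _ m1]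
      apply Subtype.ext
      change (s : V ≃ₗ[ZMod 2] V) * refl Qm (vl [false, false, false, false, false, true]) * (s : V ≃ₗ[ZMod 2] V)⁻¹ = refl Qm (vec i)
      rw [refl_conj s.2, h2]
    have h2 : (O Qm) ≤ ((e.toMonoidHom.comp π).range).map (O Qm).subtype := by
      conv_lhs => rw [← hR]
      unfold R
      rw [Subgroup.closure_le]
      rintro _ ⟨v, hv, rfl⟩
      have hv1 : Qm v = 1 := by
        revert hv
        generalize Qm v = z
        revert z
        decide
      exact ⟨_, h1 v hv1, rfl⟩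
    rw [eq_top_iff]
    intro s _
    obtain ⟨s', hs', h3⟩ := h2 s.2
    have h4 : s' = s := Subtype.ext h3
    rw [← h4]; exact hs'
  · intro h
    constructor
    · intro hh i hi k hk
      obtain ⟨s, hs⟩ := hall h
      have h1 : s = 1 := by rw [← hval h s hs]; exact hh
      rw [h1] at hs
      obtain ⟨c, hc, h2⟩ := hs i hi
      have hc1 : c = 1 := by
        revert hc
        generalize c = c'
        revert c'
        decide
      rw [hc1, one_smul] at h2
      change vec i = vec (φ h i) at h2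
      have hbz : ∀ a b : Bool, bz a = bz b → a = b := by decide
      obtain ⟨x, rfl⟩ : ∃ x : I6, pos x = k := by
        have : ∀ k : Fin 6, ∃ x : I6, pos x = k := by decide
        exact this ⟨k, hk⟩
      exact hbz _ _ (congrFun h2 x).symm
    · intro hh
      apply hval h 1
      intro i hi
      refine ⟨1, one_ne_zero, ?_⟩
      rw [one_smul]
      change vec i = vec (φ h i)
      funext x
      change bz _ = bz _
      rw [hh i hi (pos x) (pos_lt x)]

theorem exists_pi {φ : P →* Equiv.Perm ℕ} (C' : Ctx xx φ nets 12 3510 9 pt rc) :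
    ∃ π : ↥K →* OO, Function.Surjective π ∧ ∀ h : ↥K, π h = 1 ↔ ∀ i, R72.testBit i = true →
      ∀ k < 6, (PLs.getD k 0).testBit (φ h i) = (PLs.getD k 0).testBit i := by
  obtain ⟨π, h1, h2⟩ := exists_pi' C'
  let e : ↥(O Qm) ≃* OO := (toO Qm).symm
  refine ⟨e.toMonoidHom.comp π, ?_, ?_⟩
  · exact e.surjective.comp h1
  · intro h
    rw [← h2 h]
    change e (π h) = 1 ↔ _
    exact e.map_eq_one_iff

end Cfsg.Agent.Lib.H67Pi
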