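import Mathlib
import Cfsg.Agent.Lib.Cores2
import Cfsg.Agent.Lib.PLength
import Cfsg.Agent.Lib.PLengthOne
import Cfsg.Agent.Lib.CoprimeAction2
import Cfsg.Agent.Lib.H32PSolv
import Cfsg.Agent.Lib.Burnside
import Cfsg.Agent.Lib.HBBasic

/-!
# Groups of exponent 6 (helper70)
-/

set_option autoImplicit false
open Subgroup Cfsg

namespace Cfsg.Agent.Lib.H70Exp6

section RingLemma

variable {R : Type*} [Ring R]

theorem ring_aux {a b W W1 W2 : R} (hab : a * b = 1) (ha : a * a + a + 1 = 0)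
    (h1 : W1 * a = a * W) (h2 : W2 * a = a * W1) (hW : W * W = 1) (hW2 : W2 * W2 = 1) (hc : W * W2 = W2 * W) :
    W * W1 - W * W2 + W2 * W1 - 1 = 0 := by
  have e1 : (W1 - W2) * a = W2 - W := by
    have e2 : (a * a + a + 1) * W = 0 := by rw [ha, zero_mul]
    have e3 : a * a * W = W2 * (a * a) := by
      rw [mul_assoc, ← h1, ← mul_assoc, ← h2, mul_assoc]
    have e4 : a * a = -a - 1 := by
      have : a * a = (a * a + a + 1) - a - 1 := by abel
      rw [this, ha]; abel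
    rw [add_mul, add_mul, e3, one_mul, ← h1, e4] at e2
    have e5 : W2 * (-a - 1) = -(W2 * a) - W2 := by noncomm_ring
    rw [e5] at e2
    have e6 : (W1 - W2) * a = (-(W2 * a) - W2 + W1 * a + W) + (W2 - W) := by noncomm_ring
    rw [e6, e2, zero_add]
  have e7 : (W + W2) * (W1 - W2) = 0 := by
    have e8 : (W + W2) * (W1 - W2) * a = 0 := by
      rw [mul_assoc, e1]
      have : (W + W2) * (W2 - W) = W * W2 - W * W + W2 * W2 - W2 * W := by noncomm_ring
      rw [this, hW, hW2, hc]; abel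
    calc (W + W2) * (W1 - W2) = (W + W2) * (W1 - W2) * (a * b) := by rw [hab, mul_one]
      _ = ((W + W2) * (W1 - W2) * a) * b := by noncomm_ring
      _ = 0 := by rw [e8, zero_mul]
  have e9 : (W + W2) * (W1 - W2) = W * W1 - W * W2 + W2 * W1 - W2 * W2 := by noncomm_ring
  rw [e9, hW2] at e7
  exact e7

theorem ring_lemma (h2 : ∀ x : R, x + x = 0 → x = 0) {a b W W1 W2 : R} (hab : a * b = 1) (ha : a * a + a + 1 = 0)
    (h1 : W1 * a = a * W) (h2' : W2 * a = a * W1) (h3 : W * a = a * W2) (hW : W * W = 1) (hW1 : W1 * W1 = 1)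
    (hW2 : W2 * W2 = 1) (hc : W * W2 = W2 * W) (hc1 : W1 * W = W * W1) (hc2 : W2 * W1 = W1 * W2) : W1 * W2 = 1 := by
  have e1 := ring_aux hab ha h1 h2' hW hW2 hc
  have e2 := ring_aux hab ha h2' h3 hW1 hW hc1
  have e3 : (W1 * W2 - 1) + (W1 * W2 - 1) = 0 := by
    have : (W1 * W2 - 1) + (W1 * W2 - 1) = (W * W1 - W * W2 + W2 * W1 - 1) + (W1 * W2 - W1 * W + W * W2 - 1) := by
      rw [hc1, hc2]; abel
    rw [this, e1, e2, add_zero]
  exact sub_eq_zero.1 (h2 _ e3)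

end RingLemma

section Exponent

variable {G : Type*} [Group G]

theorem pow_six_quot (h : ∀ x : G, x ^ 6 = 1) (N : Subgroup G) [N.Normal] : ∀ x : G ⧸ N, x ^ 6 = 1 := by
  intro x
  obtain ⟨y, rfl⟩ := QuotientGroup.mk_surjective x
  rw [← QuotientGroup.mk_pow, h, QuotientGroup.mk_one]

theorem sq_eq_one_of_two (h : ∀ x : G, x ^ 6 = 1) {x : G} (hx : ∃ k : ℕ, x ^ 2 ^ k = 1) : x ^ 2 = 1 := by
  obtain ⟨k, hk⟩ := hx
  have h1 : orderOf x ∣ Nat.gcd 6 (2 ^ k) := Nat.dvd_gcd (orderOf_dvd_of_pow_eq_one (h x)) (orderOf_dvd_of_pow_eq_one hk)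
  apply orderOf_dvd_iff_pow_eq_one.1
  refine h1.trans ?_
  have h2 : Nat.gcd 6 (2 ^ k) = Nat.gcd 2 (2 ^ k) := by
    have : Nat.Coprime 3 (2 ^ k) := Nat.Coprime.pow_right k (by norm_num)
    rw [show 6 = 3 * 2 by norm_num]
    exact Nat.Coprime.gcd_mul_left_cancel 2 this
  rw [h2]; exact Nat.gcd_dvd_left _ _

theorem cube_eq_one_of_three (h : ∀ x : G, x ^ 6 = 1) {x : G} (hx : ∃ k : ℕ, x ^ 3 ^ k = 1) : x ^ 3 = 1 := by
  obtain ⟨k, hk⟩ := hx
  have h1 : orderOf x ∣ Nat.gcd 6 (3 ^ k) := Nat.dvd_gcd (orderOf_dvd_of_pow_eq_one (h x)) (orderOf_dvd_of_pow_eq_one hk)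
  apply orderOf_dvd_iff_pow_eq_one.1
  refine h1.trans ?_
  have h2 : Nat.gcd 6 (3 ^ k) = Nat.gcd 3 (3 ^ k) := by
    have : Nat.Coprime 2 (3 ^ k) := Nat.Coprime.pow_right k (by norm_num)
    rw [show 6 = 2 * 3 by norm_num]
    exact Nat.Coprime.gcd_mul_left_cancel 3 this
  rw [h2]; exact Nat.gcd_dvd_left _ _

theorem comm_of_sq {X : Type*} [Group X] (h : ∀ x : X, x ^ 2 = 1) (x y : X) : x * y = y * x := by
  have h2 : ∀ z : X, z⁻¹ = z := fun z => inv_eq_of_mul_eq_one_left (by rw [← pow_two]; exact h z)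
  calc x * y = (x * y)⁻¹ := (h2 _).symm
    _ = y⁻¹ * x⁻¹ := mul_inv_rev _ _
    _ = y * x := by rw [h2, h2]

theorem card_eq [Finite G] (h : ∀ x : G, x ^ 6 = 1) : ∃ a b : ℕ, Nat.card G = 2 ^ a * 3 ^ b := by
  have hsub : (Nat.card G).factorization.support ⊆ {2, 3} := by
    intro p hp
    rw [Nat.support_factorization, Nat.mem_primeFactors] at hp
    have : Fact p.Prime := ⟨hp.1⟩
    obtain ⟨x, hx⟩ := exists_prime_orderOf_dvd_card' p hp.2.1
    have h1 : p ∣ 6 := hx ▸ orderOf_dvd_of_pow_eq_one (h x)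
    rw [show 6 = 2 * 3 by norm_num, hp.1.dvd_mul, Nat.prime_dvd_prime_iff_eq hp.1 Nat.prime_two,
      Nat.prime_dvd_prime_iff_eq hp.1 Nat.prime_three] at h1
    simpa using h1
  refine ⟨(Nat.card G).factorization 2, (Nat.card G).factorization 3, ?_⟩
  conv_lhs => rw [← Nat.prod_factorization_pow_eq_self (Nat.card_pos (α := G)).ne']
  rw [Finsupp.prod_of_support_subset _ hsub _ (by simp), Finset.prod_pair (by norm_num)]

theorem solvable [Finite G] (h : ∀ x : G, x ^ 6 = 1) : Group.IsSolvable G := by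
  obtain ⟨a, b, hab⟩ := card_eq h
  exact Cfsg.Agent.Lib.Burnside.isSolvable_of_card_eq _ 2 3 a b Nat.prime_two Nat.prime_three hab rfl

end Exponent

section Core

variable {Γ : Type*} [Group Γ]

theorem core [Finite Γ] (h : ∀ x : Γ, x ^ 6 = 1) (V : Subgroup Γ) [hVn : V.Normal]
    (hVc : centralizer (V : Set Γ) ≤ V) (hVab : ∀ a ∈ V, ∀ b ∈ V, a * b = b * a) (hV3 : ∀ v ∈ V, v ^ 3 = 1)
    (hX : pCore 3 (Γ ⧸ V) = ⊥) : ¬ 3 ∣ V.index := by
  have h3 : Fact (Nat.Prime 3) := ⟨Nat.prime_three⟩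
  have h2 : Fact (Nat.Prime 2) := ⟨Nat.prime_two⟩
  intro hdvd
  have hsolv : Group.IsSolvable Γ := solvable h
  have hsolvX : Group.IsSolvable (Γ ⧸ V) := inferInstance
  have h6X := pow_six_quot h V
  -- an element of order 3
  obtain ⟨x, hx⟩ := exists_prime_orderOf_dvd_card' (G := Γ ⧸ V) 3 (by rw [← index_eq_card]; exact hdvd)
  obtain ⟨g₀, rfl⟩ := QuotientGroup.mk_surjective x
  set g := g₀ ^ 4 with hg
  have hgX : (QuotientGroup.mk g : Γ ⧸ V) = QuotientGroup.mk g₀ := by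
    rw [hg, QuotientGroup.mk_pow]
    have : (QuotientGroup.mk g₀ : Γ ⧸ V) ^ 3 = 1 := by rw [← hx]; exact pow_orderOf_eq_one _
    rw [show 4 = 3 + 1 by norm_num, pow_succ, this, one_mul]
  have hg3 : g ^ 3 = 1 := by
    rw [hg, ← pow_mul, show 4 * 3 = 6 * 2 by norm_num, pow_mul, h, one_pow]
  -- the cores of `Γ / V`
  have hcore : pPrimeCore 2 (Γ ⧸ V) = ⊥ := by
    rw [eq_bot_iff, ← hX]
    have hc := Cores.coprime_card_pPrimeCore 2 (Γ ⧸ V)
    apply Cores.le_pCore inferInstance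
    intro y
    refine ⟨1, ?_⟩
    rw [pow_one]
    have h4 : orderOf y ∣ Nat.card (pPrimeCore 2 (Γ ⧸ V)) := orderOf_dvd_natCard y
    have h5 : orderOf y ∣ 6 := orderOf_dvd_of_pow_eq_one (Subtype.ext (by
      rw [Subgroup.coe_pow, h6X]; rfl))
    have h6 : (orderOf y).Coprime 2 := Nat.Coprime.coprime_dvd_left h4 hc
    rw [show 6 = 2 * 3 by norm_num] at h5
    exact orderOf_dvd_iff_pow_eq_one.1 (h6.dvd_of_dvd_mul_left h5)
  have hcent := Cores.centralizer_pCore_le (G := Γ ⧸ V) (p := 2) hcore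
  -- the action on `V`
  let _ : CommGroup V := { (inferInstance : Group V) with mul_comm := fun a b => Subtype.ext (hVab a a.2 b b.2) }
  let ρ : Γ → AddMonoid.End (Additive V) := fun t => MonoidHom.toAdditive (MulAut.conjNormal t : V ≃* V).toMonoidHom
  have hρ : ∀ t (v : V), ρ t (Additive.ofMul v) = Additive.ofMul (MulAut.conjNormal t v : V) := fun t v => rfl
  have hmul : ∀ s t, ρ (s * t) = ρ s * ρ t := by
    intro s t
    ext v
    change ((MulAut.conjNormal (s * t) (Additive.toMul v) : V) : Γ) = _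
    rw [map_mul]; rfl
  have hone : ∀ t, ρ t = 1 ↔ t ∈ V := by
    intro t
    constructor
    · intro ht
      apply hVc
      rw [mem_centralizer_iff]
      intro v hv
      have h4 : ρ t (Additive.ofMul ⟨v, hv⟩) = Additive.ofMul ⟨v, hv⟩ := by rw [ht]; rfl
      have h5 : t * v * t⁻¹ = v := by
        have h6 : ((MulAut.conjNormal t (⟨v, hv⟩ : V) : V) : Γ) = v := congrArg (fun z => ((Additive.toMul z : V) : Γ)) h4
        rwa [MulAut.conjNormal_apply] at h6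
      rw [mul_inv_eq_iff_eq_mul] at h5
      exact h5.symm
    · intro ht
      ext v
      change ((MulAut.conjNormal t (Additive.toMul v) : V) : Γ) = ((Additive.toMul v : V) : Γ)
      rw [MulAut.conjNormal_apply, hVab t ht _ (Additive.toMul v).2, mul_inv_cancel_right]
  have htwo : ∀ x : AddMonoid.End (Additive V), x + x = 0 → x = 0 := by
    intro x hx
    ext v
    have h4 : x v + x v = 0 := by
      have := congrArg (fun f : AddMonoid.End (Additive V) => f v) hx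
      exact this
    have h5 : x v + x v + x v = 0 := by
      have h7 : (Additive.toMul (x v)) ^ 3 = 1 := Subtype.ext (hV3 _ (Additive.toMul (x v)).2)
      have h8 : Additive.ofMul ((Additive.toMul (x v)) ^ 3) = 0 := by rw [h7]; rfl
      rw [pow_three] at h8
      have h9 : x v + (x v + x v) = 0 := h8
      rw [add_assoc]; exact h9
    rw [h4, zero_add] at h5
    rw [h5]; rfl
  have hρ1 : ρ 1 = 1 := (hone 1).2 V.one_mem
  -- the quadratic relation
  have hquad : ρ g * ρ g + ρ g + 1 = 0 := by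
    ext v
    set u : V := Additive.toMul v with hu
    change ((MulAut.conjNormal g (MulAut.conjNormal g u) : V) : Γ) * ((MulAut.conjNormal g u : V) : Γ) * (u : Γ) = 1
    rw [MulAut.conjNormal_apply, MulAut.conjNormal_apply]
    -- `(u g)^3 = 1`
    have h4 : ((u : Γ) * g) ^ 3 = 1 := by
      apply cube_eq_one_of_three h
      refine ⟨2, ?_⟩
      have h5 : (QuotientGroup.mk (((u : Γ) * g) ^ 3) : Γ ⧸ V) = 1 := by
        rw [QuotientGroup.mk_pow, QuotientGroup.mk_mul, (QuotientGroup.eq_one_iff (u : Γ)).2 u.2, one_mul,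
          ← QuotientGroup.mk_pow, hg3, QuotientGroup.mk_one]
      rw [QuotientGroup.eq_one_iff] at h5
      rw [show 3 ^ 2 = 3 * 3 by norm_num, pow_mul]
      exact hV3 _ h5
    have h5 : (u : Γ) * (g * u * g⁻¹) * (g * (g * u * g⁻¹) * g⁻¹) = 1 := by
      have h6 : (u : Γ) * (g * u * g⁻¹) * (g * (g * u * g⁻¹) * g⁻¹) = ((u : Γ) * g) ^ 3 * (g ^ 3)⁻¹ := by
        rw [pow_three, pow_three]; group
      rw [h6, h4, hg3]; simp
    have hm1 : g * u * g⁻¹ ∈ V := hVn.conj_mem _ u.2 g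
    have hm2 : g * (g * u * g⁻¹) * g⁻¹ ∈ V := hVn.conj_mem _ hm1 g
    rw [← h5, hVab _ (mul_mem u.2 hm1) _ hm2, hVab _ u.2 _ hm1, mul_assoc]
  -- `g` centralizes `O_2(Γ / V)`
  have hgc : (QuotientGroup.mk g : Γ ⧸ V) ∈ centralizer (pCore 2 (Γ ⧸ V) : Set (Γ ⧸ V)) := by
    rw [mem_centralizer_iff]
    intro w hw
    obtain ⟨w, rfl⟩ := QuotientGroup.mk_surjective w
    have hsq : ∀ y ∈ pCore 2 (Γ ⧸ V), y ^ 2 = 1 := by
      intro y hy
      apply sq_eq_one_of_two h6X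
      obtain ⟨k, hk⟩ := Cores.isPGroup_pCore 2 (Γ ⧸ V) ⟨y, hy⟩
      exact ⟨k, congrArg Subtype.val hk⟩
    have hcomm : ∀ y ∈ pCore 2 (Γ ⧸ V), ∀ z ∈ pCore 2 (Γ ⧸ V), y * z = z * y := by
      intro y hy z hz
      have := comm_of_sq (X := pCore 2 (Γ ⧸ V)) (fun x => Subtype.ext (hsq x x.2)) ⟨y, hy⟩ ⟨z, hz⟩
      exact congrArg Subtype.val this
    have hn : (pCore 2 (Γ ⧸ V)).Normal := inferInstance
    set w1 := g * w * g⁻¹ with hw1
    set w2 := g * w1 * g⁻¹ with hw2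
    have m0 : (QuotientGroup.mk w : Γ ⧸ V) ∈ pCore 2 (Γ ⧸ V) := hw
    have m1 : (QuotientGroup.mk w1 : Γ ⧸ V) ∈ pCore 2 (Γ ⧸ V) := by
      rw [hw1, QuotientGroup.mk_mul, QuotientGroup.mk_mul, QuotientGroup.mk_inv]
      exact hn.conj_mem _ m0 _
    have m2 : (QuotientGroup.mk w2 : Γ ⧸ V) ∈ pCore 2 (Γ ⧸ V) := by
      rw [hw2, QuotientGroup.mk_mul, QuotientGroup.mk_mul, QuotientGroup.mk_inv]
      exact hn.conj_mem _ m1 _
    have hρeq : ∀ s t : Γ, (QuotientGroup.mk s : Γ ⧸ V) = QuotientGroup.mk t → ρ s = ρ t := by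
      intro s t hst
      have h4 : s⁻¹ * t ∈ V := QuotientGroup.eq.1 hst
      have h5 : ρ t = ρ s * ρ (s⁻¹ * t) := by rw [← hmul]; congr 1; group
      rw [h5, (hone _).2 h4, mul_one]
    have hρsq : ∀ t : Γ, (QuotientGroup.mk t : Γ ⧸ V) ∈ pCore 2 (Γ ⧸ V) → ρ t * ρ t = 1 := by
      intro t ht
      rw [← hmul, hone, ← QuotientGroup.eq_one_iff, QuotientGroup.mk_mul, ← pow_two]
      exact hsq _ ht
    have hρcomm : ∀ s t : Γ, (QuotientGroup.mk s : Γ ⧸ V) ∈ pCore 2 (Γ ⧸ V) →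
        (QuotientGroup.mk t : Γ ⧸ V) ∈ pCore 2 (Γ ⧸ V) → ρ s * ρ t = ρ t * ρ s := by
      intro s t hs ht
      rw [← hmul, ← hmul]
      apply hρeq
      rw [QuotientGroup.mk_mul, QuotientGroup.mk_mul]
      exact hcomm _ hs _ ht
    have key := ring_lemma htwo (a := ρ g) (b := ρ g⁻¹) (W := ρ w) (W1 := ρ w1) (W2 := ρ w2)
      (by rw [← hmul, mul_inv_cancel, hρ1]) hquad
      (by rw [← hmul, ← hmul, hw1]; congr 1; group)
      (by rw [← hmul, ← hmul, hw2]; congr 1; group)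
      (by
        rw [← hmul, ← hmul, hw2, hw1]
        congr 1
        have h4 : g * (g * (g * w * g⁻¹) * g⁻¹) = g ^ 3 * w * (g ^ 3)⁻¹ * g := by
          rw [pow_three]; group
        rw [h4, hg3]; simp)
      (hρsq _ m0) (hρsq _ m1) (hρsq _ m2) (hρcomm _ _ m0 m2) (hρcomm _ _ m1 m0) (hρcomm _ _ m2 m1)
    rw [← hmul, hone, ← QuotientGroup.eq_one_iff, QuotientGroup.mk_mul] at key
    have h4 : (QuotientGroup.mk w1 : Γ ⧸ V) = QuotientGroup.mk w2 := by
      have h5 := hsq _ m2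
      rw [pow_two] at h5
      exact mul_right_cancel (key.trans h5.symm)
    have h5 : (QuotientGroup.mk w : Γ ⧸ V) = QuotientGroup.mk w1 := by
      have h6 : (QuotientGroup.mk w2 : Γ ⧸ V) = QuotientGroup.mk g * QuotientGroup.mk w1 * (QuotientGroup.mk g)⁻¹ := by
        rw [hw2]; rfl
      have h7 : (QuotientGroup.mk w1 : Γ ⧸ V) = QuotientGroup.mk g * QuotientGroup.mk w * (QuotientGroup.mk g)⁻¹ := by
        rw [hw1]; rfl
      rw [← h4] at h6
      nth_rewrite 1 [h7] at h6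
      exact mul_left_cancel (mul_right_cancel h6)
    have h7 : (QuotientGroup.mk w1 : Γ ⧸ V) = QuotientGroup.mk g * QuotientGroup.mk w * (QuotientGroup.mk g)⁻¹ := by
      rw [hw1]; rfl
    rw [← h5] at h7
    rw [eq_mul_inv_iff_mul_eq] at h7
    exact h7
  have hgO := hcent hgc
  obtain ⟨k, hk⟩ := Cores.isPGroup_pCore 2 (Γ ⧸ V) ⟨_, hgO⟩
  have h4 : (QuotientGroup.mk g : Γ ⧸ V) ^ 2 ^ k = 1 := congrArg Subtype.val hk
  rw [hgX] at h4
  have h5 := orderOf_dvd_of_pow_eq_one h4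
  rw [hx] at h5
  have := (Nat.prime_dvd_prime_iff_eq Nat.prime_three Nat.prime_two).1 (Nat.prime_three.dvd_of_dvd_pow h5)
  omega

end Core

section Final

universe w

variable {G : Type w} [Group G]

theorem not_dvd_three [Finite G] (h : ∀ x : G, x ^ 6 = 1) (hO : pPrimeCore 3 G = ⊥) : ¬ 3 ∣ (pCore 3 G).index := by
  have h3 : Fact (Nat.Prime 3) := ⟨Nat.prime_three⟩
  have hsolv : Group.IsSolvable G := solvable h
  set V₀ := pCore 3 G with hV₀
  have hV₀n : V₀.Normal := inferInstance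
  have hV₀p : IsPGroup 3 V₀ := Cores.isPGroup_pCore 3 G
  have hcent : centralizer (V₀ : Set G) ≤ V₀ := Cores.centralizer_pCore_le hO
  have hV₀3 : ∀ v ∈ V₀, v ^ 3 = 1 := by
    intro v hv
    obtain ⟨k, hk⟩ := hV₀p ⟨v, hv⟩
    exact cube_eq_one_of_three h ⟨k, congrArg Subtype.val hk⟩
  set Φ : Subgroup G := (frattini V₀).map V₀.subtype with hΦ
  have hΦn : Φ.Normal := inferInstance
  have hΦV : Φ ≤ V₀ := map_subtype_le _
  set V : Subgroup (G ⧸ Φ) := V₀.map (QuotientGroup.mk' Φ) with hV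
  have hVn : V.Normal := hV₀n.map _ (QuotientGroup.mk'_surjective Φ)
  -- the elements acting trivially on `V₀ / Φ`
  set D : Subgroup G := (centralizer (V : Set (G ⧸ Φ))).comap (QuotientGroup.mk' Φ) with hD
  have hDn : D.Normal := inferInstance
  have hDmem : ∀ x ∈ D, ∀ v ∈ V₀, x * v * x⁻¹ * v⁻¹ ∈ Φ := by
    intro x hx v hv
    rw [hD, mem_comap, mem_centralizer_iff] at hx
    have h1 := hx (QuotientGroup.mk' Φ v) ⟨v, hv, rfl⟩
    rw [← map_mul, ← map_mul] at h1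
    have h2 := QuotientGroup.eq.1 h1
    have h4 : x * v * x⁻¹ * v⁻¹ = (v * x) * ((v * x)⁻¹ * (x * v)) * (v * x)⁻¹ := by group
    rw [h4]
    exact hΦn.conj_mem _ h2 _
  have hDV : D ≤ V₀ := by
    apply Cores.le_pCore hDn
    intro x
    refine ⟨1, Subtype.ext ?_⟩
    change (x : G) ^ 3 ^ 1 = 1
    rw [pow_one]
    have hy2 : ((x : G) ^ 3) ^ 2 = 1 := by rw [← pow_mul]; exact h x
    have hyD : (x : G) ^ 3 ∈ D := D.pow_mem x.2 3
    have hZ : zpowers ((x : G) ^ 3) ≤ D := by rw [zpowers_le]; exact hyD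
    have h1 := CoprimeAction2.le_centralizer_of_frattini (A := zpowers ((x : G) ^ 3)) (K := V₀)
      (by rw [normalizer_eq_top V₀]; exact le_top)
      (by
        obtain ⟨k, hk⟩ := IsPGroup.iff_card.1 (hV₀p.to_subgroup (frattini V₀))
        rw [hk, Nat.card_zpowers]
        apply Nat.Coprime.pow_right
        exact Nat.Coprime.coprime_dvd_left (orderOf_dvd_of_pow_eq_one hy2) (by norm_num))
      (fun a ha k hk => hDmem a (hZ ha) k hk)
    have h2 : (x : G) ^ 3 ∈ V₀ := hcent (h1 (mem_zpowers _))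
    have h4 := hV₀3 _ h2
    have h5 : ((x : G) ^ 3) ^ 3 = ((x : G) ^ 3) ^ 2 * (x : G) ^ 3 := pow_succ _ 2
    rw [h5, hy2, one_mul] at h4
    exact h4
  have hidx : V.index = V₀.index := by
    rw [hV, index_map, QuotientGroup.ker_mk', sup_eq_left.2 hΦV,
      MonoidHom.range_eq_top.2 (QuotientGroup.mk'_surjective Φ), index_top, mul_one]
  rw [← hidx]
  refine core (pow_six_quot h Φ) V ?_ ?_ ?_ ?_
  · intro y hy
    obtain ⟨x, rfl⟩ := QuotientGroup.mk_surjective y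
    exact ⟨x, hDV hy, rfl⟩
  · rintro _ ⟨a, ha, rfl⟩ _ ⟨b, hb, rfl⟩
    rw [← map_mul, ← map_mul]
    apply QuotientGroup.eq.2
    have h1 : (a * b)⁻¹ * (b * a) ∈ (commutator V₀).map V₀.subtype := by
      refine ⟨(⟨b, hb⟩⁻¹ : V₀) * (⟨a, ha⟩⁻¹ : V₀) * ⟨b, hb⟩ * ⟨a, ha⟩, ?_, ?_⟩
      · have := commutator_mem_commutator (mem_top (⟨b, hb⟩⁻¹ : V₀)) (mem_top (⟨a, ha⟩⁻¹ : V₀))
        rw [commutatorElement_def, inv_inv, inv_inv] at this
        exact this
      · change b⁻¹ * a⁻¹ * b * a = (a * b)⁻¹ * (b * a)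
        group
    exact (Subgroup.map_mono (HBBasic.commutator_le_frattini hV₀p)) h1
  · rintro _ ⟨v, hv, rfl⟩
    rw [← map_pow, hV₀3 v hv, map_one]
  · -- `O_3` of the quotient
    let e : (G ⧸ Φ) ⧸ V ≃* G ⧸ V₀ := QuotientGroup.quotientQuotientEquivQuotient Φ V₀ hΦV
    have h1 := Cores.map_pCore_equiv 3 e.symm
    have h0 : pCore 3 (G ⧸ V₀) = ⊥ := Cores.pCore_quotient_pCore 3 G
    rw [h0, Subgroup.map_bot] at h1
    exact h1.symm

theorem not_dvd_two [Finite G] (h : ∀ x : G, x ^ 6 = 1) (hO : pPrimeCore 2 G = ⊥) : ¬ 2 ∣ (pCore 2 G).index := by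
  have h2 : Fact (Nat.Prime 2) := ⟨Nat.prime_two⟩
  have hsolv : Group.IsSolvable G := solvable h
  have hcent : centralizer (pCore 2 G : Set G) ≤ pCore 2 G := Cores.centralizer_pCore_le hO
  obtain ⟨P⟩ : Nonempty (Sylow 2 G) := inferInstance
  have hle : pCore 2 G ≤ (P : Subgroup G) := by
    obtain ⟨Q, hQ⟩ := (Cores.isPGroup_pCore 2 G).exists_le_sylow
    obtain ⟨g, hg⟩ := MulAction.exists_smul_eq G Q P
    have h1 : (pCore 2 G) ≤ (Q : Subgroup G) := hQ
    rw [← hg, Sylow.coe_subgroup_smul]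
    intro x hx
    have h4 : g⁻¹ * x * g ∈ (Q : Subgroup G) := h1 (by
      have := (inferInstance : (pCore 2 G).Normal).conj_mem x hx g⁻¹
      rwa [inv_inv] at this)
    have h5 := Subgroup.smul_mem_pointwise_smul _ (MulAut.conj g) _ h4
    have h6 : MulAut.conj g • (g⁻¹ * x * g) = x := by
      rw [MulAut.smul_def, MulAut.conj_apply]; group
    rwa [h6] at h5
  have hPle : (P : Subgroup G) ≤ pCore 2 G := by
    refine le_trans ?_ hcent
    intro x hx
    rw [mem_centralizer_iff]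
    intro y hy
    have hsq : ∀ z : P, z ^ 2 = 1 := by
      intro z
      obtain ⟨k, hk⟩ := P.isPGroup' z
      exact Subtype.ext (sq_eq_one_of_two h ⟨k, congrArg Subtype.val hk⟩)
    exact congrArg Subtype.val (comm_of_sq hsq ⟨y, hle hy⟩ ⟨x, hx⟩)
  rw [le_antisymm hle hPle]
  exact P.not_dvd_index

theorem pLength_of {p : ℕ} [Fact p.Prime] [Finite G] (h : ∀ x : G, x ^ 6 = 1)
    (hkey : ∀ (Q : Type w) [Group Q] [Finite Q], (∀ x : Q, x ^ 6 = 1) → pPrimeCore p Q = ⊥ → ¬ p ∣ (pCore p Q).index) :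
    PLengthLE p 1 G := by
  apply PLength.pLengthLE_of_coprime (pPrimeCore p G) (Cores.coprime_card_pPrimeCore p G)
  have h1 := hkey (G ⧸ pPrimeCore p G) (pow_six_quot h _) (Cores.pPrimeCore_quotient_pPrimeCore p G)
  exact PLengthOne.pLengthLE_of_normal h1 (PLengthOne.pLengthLE_of_isPGroup (Cores.isPGroup_pCore p _))

theorem main [Finite G] (h : ∀ x : G, x ^ 6 = 1) : PLengthLE 2 1 G ∧ PLengthLE 3 1 G := by
  have h2 : Fact (Nat.Prime 2) := ⟨Nat.prime_two⟩
  have h3 : Fact (Nat.Prime 3) := ⟨Nat.prime_three⟩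
  exact ⟨pLength_of h fun Q _ _ hQ hO => not_dvd_two hQ hO, pLength_of h fun Q _ _ hQ hO => not_dvd_three hQ hO⟩

end Final

end Cfsg.Agent.Lib.H70Exp6
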