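import Mathlib
import Cfsg.Agent.Lib.FrobDvd

/-!
# Generalised Frobenius theorem (helper70)

`gcd_dvd_card_isConj` : `gcd (h * n) |G|` divides `#{x : x ^ n ∼ c}` where `h` is the size of the class of `c`.
-/

set_option autoImplicit false
open Subgroup Cfsg.Agent.Lib.FrobDvd

namespace Cfsg.Agent.Lib.H70FrobGen

universe u

theorem card_fiber {G : Type*} [Group G] [Finite G] (c : G) (n : ℕ) :
    Nat.card {x : G // IsConj c (x ^ n)} = (centralizer ({c} : Set G)).index *
      Nat.card {x : centralizer ({c} : Set G) // x ^ n = ⟨c, mem_centralizer_singleton_iff.2 rfl⟩} := by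
  classical
  let f : {x : G // IsConj c (x ^ n)} → (ConjClasses.mk c).carrier := fun x =>
    ⟨x.1 ^ n, by
      rw [ConjClasses.mem_carrier_iff_mk_eq, ConjClasses.mk_eq_mk_iff_isConj]
      exact x.2.symm⟩
  rw [← card_class c]
  refine card_eq_mul_of_fibers f _ ?_
  rintro ⟨b, hb⟩
  have hb' : IsConj c b := by
    rw [ConjClasses.mem_carrier_iff_mk_eq, ConjClasses.mk_eq_mk_iff_isConj] at hb
    exact hb.symm
  obtain ⟨g, hg⟩ := isConj_iff.1 hb'
  symm
  refine Nat.card_congr (Equiv.ofBijective (fun x => ⟨⟨g * (x.1 : G) * g⁻¹, ?_⟩, ?_⟩) ⟨?_, ?_⟩)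
  · rw [conj_pow]
    have h1 : (x.1 : G) ^ n = c := congrArg Subtype.val x.2
    rw [h1, hg]; exact hb'
  · apply Subtype.ext
    change (g * (x.1 : G) * g⁻¹) ^ n = b
    rw [conj_pow]
    have h1 : (x.1 : G) ^ n = c := congrArg Subtype.val x.2
    rw [h1, hg]
  · intro x y hxy
    have h1 : g * (x.1 : G) * g⁻¹ = g * (y.1 : G) * g⁻¹ := congrArg (fun z => (z.1.1 : G)) hxy
    apply Subtype.ext
    apply Subtype.ext
    simpa using h1
  · rintro ⟨⟨x, hx⟩, hxb⟩
    have h1 : x ^ n = b := congrArg Subtype.val hxb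
    have h2 : (g⁻¹ * x * g) ^ n = c := by
      have h3 := conj_pow (i := n) (a := g⁻¹) (b := x)
      rw [inv_inv] at h3
      rw [h3, h1, ← hg]; group
    refine ⟨⟨⟨g⁻¹ * x * g, ?_⟩, ?_⟩, ?_⟩
    · rw [mem_centralizer_singleton_iff]
      nth_rewrite 2 [← h2]
      nth_rewrite 1 [← h2]
      rw [← pow_succ, ← pow_succ']
    · apply Subtype.ext
      exact h2
    · apply Subtype.ext
      apply Subtype.ext
      change g * (g⁻¹ * x * g) * g⁻¹ = x
      group

theorem dvd_invariant {G : Type*} [Group G] [Finite G] (n d : ℕ)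
    (h : ∀ c : G, d ∣ Nat.card {x : G // IsConj c (x ^ n)}) (D : Set G)
    (hD : ∀ a b : G, IsConj a b → a ∈ D → b ∈ D) : d ∣ Nat.card {x : G // x ^ n ∈ D} := by
  refine dvd_card_of_fibers (fun x : {x : G // x ^ n ∈ D} => ConjClasses.mk (x.1 ^ n)) d ?_
  intro b
  obtain ⟨c, rfl⟩ := ConjClasses.exists_rep b
  by_cases hc : c ∈ D
  · have : Nat.card {a : {x : G // x ^ n ∈ D} // ConjClasses.mk (a.1 ^ n) = ConjClasses.mk c} =
        Nat.card {x : G // IsConj c (x ^ n)} := by
      refine Nat.card_congr ⟨fun a => ⟨a.1.1, ?_⟩, fun x => ⟨⟨x.1, hD _ _ x.2 hc⟩, ?_⟩, fun a => rfl, fun x => rfl⟩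
      · exact (ConjClasses.mk_eq_mk_iff_isConj.1 a.2).symm
      · exact ConjClasses.mk_eq_mk_iff_isConj.2 x.2.symm
    rw [this]; exact h c
  · have : IsEmpty {a : {x : G // x ^ n ∈ D} // ConjClasses.mk (a.1 ^ n) = ConjClasses.mk c} := by
      refine ⟨fun a => hc ?_⟩
      exact hD _ _ (ConjClasses.mk_eq_mk_iff_isConj.1 a.2) a.1.2
    rw [Nat.card_of_isEmpty]; exact dvd_zero d

theorem orderOf_of_pow_eq {G : Type*} [Group G] [Finite G] {p : ℕ} (hp : p.Prime) (e : ℕ) {c x : G}
    (hc : p ∣ orderOf c) (hx : x ^ p ^ e = c) : orderOf x = p ^ e * orderOf c := by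
  have h1 : orderOf c = orderOf x / Nat.gcd (orderOf x) (p ^ e) := by rw [← hx, orderOf_pow]
  have h2 : Nat.gcd (orderOf x) (p ^ e) ∣ orderOf x := Nat.gcd_dvd_left _ _
  have h3 : Nat.gcd (orderOf x) (p ^ e) * orderOf c = orderOf x := by
    rw [h1, Nat.mul_div_cancel' h2]
  obtain ⟨f, hfe, hf⟩ := (Nat.dvd_prime_pow hp).1 (Nat.gcd_dvd_right (orderOf x) (p ^ e))
  rcases hfe.lt_or_eq with h4 | h4
  · exfalso
    have h5 : p ^ (f + 1) ∣ Nat.gcd (orderOf x) (p ^ e) := by
      apply Nat.dvd_gcd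
      · rw [← h3, hf, pow_succ]
        exact mul_dvd_mul_left _ hc
      · exact pow_dvd_pow p h4
    rw [hf] at h5
    have := (Nat.pow_dvd_pow_iff_le_right hp.one_lt).1 h5
    omega
  · rw [← h3, hf, h4]

theorem dvd_of_dvd_orderOf {G : Type*} [Group G] [Finite G] {p : ℕ} (hp : p.Prime) (e : ℕ) {c : G}
    (hc : p ∣ orderOf c) : p ^ e ∣ Nat.card {x : G // x ^ p ^ e = c} := by
  classical
  refine dvd_card_of_fibers (fun x : {x : G // x ^ p ^ e = c} => zpowers x.1) _ ?_
  intro Z
  rcases isEmpty_or_nonempty {a : {x : G // x ^ p ^ e = c} // zpowers a.1 = Z} with h0 | ⟨⟨⟨x₀, hx₀⟩, rfl⟩⟩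
  · rw [Nat.card_of_isEmpty]; exact dvd_zero _
  · have hord := orderOf_of_pow_eq hp e hc hx₀
    have h1 := gcd_dvd_card (G := zpowers x₀) (p ^ e)
    rw [Nat.card_zpowers, hord, Nat.gcd_mul_right_right] at h1
    refine h1.trans (dvd_of_eq ?_)
    refine Nat.card_congr (Equiv.ofBijective (fun z => ⟨⟨x₀ * (z.1 : G), ?_⟩, ?_⟩) ⟨?_, ?_⟩)
    · have hcomm : Commute x₀ (z.1 : G) := by
        obtain ⟨k, hk⟩ := mem_zpowers_iff.1 z.1.2
        rw [← hk]; exact Commute.self_zpow x₀ k
      rw [hcomm.mul_pow, hx₀]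
      have : ((z.1 : zpowers x₀) : G) ^ p ^ e = 1 := congrArg Subtype.val z.2
      rw [this, mul_one]
    · have hcomm : Commute x₀ (z.1 : G) := by
        obtain ⟨k, hk⟩ := mem_zpowers_iff.1 z.1.2
        rw [← hk]; exact Commute.self_zpow x₀ k
      have h2 : (x₀ * (z.1 : G)) ^ p ^ e = c := by
        rw [hcomm.mul_pow, hx₀]
        have : ((z.1 : zpowers x₀) : G) ^ p ^ e = 1 := congrArg Subtype.val z.2
        rw [this, mul_one]
      refine Subgroup.eq_of_le_of_card_ge ?_ ?_
      · rw [zpowers_le]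
        exact mul_mem (mem_zpowers x₀) z.1.2
      · change Nat.card (zpowers x₀) ≤ Nat.card (zpowers (x₀ * (z.1 : G)))
        rw [Nat.card_zpowers, Nat.card_zpowers, hord, orderOf_of_pow_eq hp e hc h2]
    · intro z w hzw
      have h2 : x₀ * (z.1 : G) = x₀ * (w.1 : G) := congrArg (fun z => (z.1.1 : G)) hzw
      apply Subtype.ext
      apply Subtype.ext
      exact mul_left_cancel h2
    · rintro ⟨⟨x, hx⟩, hxZ⟩
      have hxZ' : zpowers x = zpowers x₀ := hxZ
      have hmem : x₀⁻¹ * x ∈ zpowers x₀ := by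
        refine mul_mem (inv_mem (mem_zpowers x₀)) ?_
        rw [← hxZ']; exact mem_zpowers x
      have hcomm : Commute x₀ x := by
        have : x ∈ zpowers x₀ := by rw [← hxZ']; exact mem_zpowers x
        obtain ⟨k, hk⟩ := mem_zpowers_iff.1 this
        rw [← hk]; exact Commute.self_zpow x₀ k
      refine ⟨⟨⟨x₀⁻¹ * x, hmem⟩, ?_⟩, ?_⟩
      · apply Subtype.ext
        change (x₀⁻¹ * x) ^ p ^ e = 1
        rw [hcomm.inv_left.mul_pow, inv_pow, hx₀, hx, inv_mul_cancel]
      · apply Subtype.ext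
        apply Subtype.ext
        change x₀ * (x₀⁻¹ * x) = x
        group

/-- central case, prime power exponent -/
theorem central_prime_pow {G : Type*} [Group G] [Finite G] {p : ℕ} (hp : p.Prime) (e : ℕ) {c : G}
    (hc : c ∈ center G) : Nat.gcd (p ^ e) (Nat.card G) ∣ Nat.card {x : G // x ^ p ^ e = c} := by
  by_cases h : p ∣ orderOf c
  · exact (Nat.gcd_dvd_left _ _).trans (dvd_of_dvd_orderOf hp e h)
  · have hcop : (orderOf c).Coprime (p ^ e) := (Nat.Coprime.pow_left e ((Nat.Prime.coprime_iff_not_dvd hp).2 h)).symm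
    obtain ⟨k, hk⟩ := exists_pow_eq_self_of_coprime hcop.symm
    -- `(c ^ p ^ e) ^ k = c`
    set d := c ^ k with hd
    have hd1 : d ^ p ^ e = c := by rw [hd, ← pow_mul, mul_comm, pow_mul, hk]
    have hdc : d ∈ center G := (center G).pow_mem hc k
    have hcomm : ∀ x : G, Commute d x := fun x => (mem_center_iff.1 hdc x).symm
    refine (gcd_dvd_card (G := G) (p ^ e)).trans (dvd_of_eq ?_)
    refine Nat.card_congr ⟨fun x => ⟨d * x.1, ?_⟩, fun x => ⟨d⁻¹ * x.1, ?_⟩, fun x => ?_, fun x => ?_⟩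
    · rw [(hcomm _).mul_pow, hd1, x.2, mul_one]
    · rw [(hcomm _).inv_left.mul_pow, inv_pow, hd1, x.2, inv_mul_cancel]
    · apply Subtype.ext; simp
    · apply Subtype.ext; simp

theorem key (N : ℕ) : ∀ (G : Type u) [Group G] [Finite G], Nat.card G = N → ∀ (n : ℕ) (c : G),
    Nat.gcd ((centralizer ({c} : Set G)).index * n) (Nat.card G) ∣ Nat.card {x : G // IsConj c (x ^ n)} := by
  induction N using Nat.strong_induction_on with
  | _ N IH =>
  intro G _ _ hG n
  -- the non central case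
  have hnc : ∀ (n : ℕ) (c : G), c ∉ center G →
      Nat.gcd ((centralizer ({c} : Set G)).index * n) (Nat.card G) ∣ Nat.card {x : G // IsConj c (x ^ n)} := by
    intro n c hc
    have hlt : Nat.card (centralizer ({c} : Set G)) < N := by
      rw [← hG]
      refine lt_of_le_of_ne (Subgroup.card_le_card_group _) fun h => hc ?_
      have h1 := (Subgroup.card_eq_iff_eq_top _).1 h
      rw [mem_center_iff]
      intro g
      have : g ∈ centralizer ({c} : Set G) := by rw [h1]; exact mem_top g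
      rw [mem_centralizer_singleton_iff] at this
      exact this
    have h1 := IH _ hlt (centralizer ({c} : Set G)) rfl n ⟨c, mem_centralizer_singleton_iff.2 rfl⟩
    have hcen : (⟨c, mem_centralizer_singleton_iff.2 rfl⟩ : centralizer ({c} : Set G)) ∈
        center (centralizer ({c} : Set G)) := by
      rw [mem_center_iff]
      rintro ⟨g, hg⟩
      apply Subtype.ext
      exact mem_centralizer_singleton_iff.1 hg
    have h2 : (centralizer ({(⟨c, mem_centralizer_singleton_iff.2 rfl⟩ : centralizer ({c} : Set G))} :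
        Set (centralizer ({c} : Set G)))).index = 1 := by
      rw [index_eq_one, eq_top_iff]
      intro g _
      rw [mem_centralizer_singleton_iff]
      exact mem_center_iff.1 hcen g
    rw [h2, one_mul] at h1
    have h3 : Nat.card {x : centralizer ({c} : Set G) // IsConj
        (⟨c, mem_centralizer_singleton_iff.2 rfl⟩ : centralizer ({c} : Set G)) (x ^ n)} =
        Nat.card {x : centralizer ({c} : Set G) // x ^ n = ⟨c, mem_centralizer_singleton_iff.2 rfl⟩} := by
      refine Nat.card_congr (Equiv.subtypeEquivRight fun x => ?_)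
      constructor
      · intro h
        obtain ⟨g, hg⟩ := isConj_iff.1 h
        rw [← hg, mem_center_iff.1 hcen g, mul_inv_cancel_right]
      · intro h; rw [h]
    rw [h3] at h1
    rw [card_fiber, ← (centralizer ({c} : Set G)).card_mul_index, mul_comm (Nat.card _), Nat.gcd_mul_left]
    exact mul_dvd_mul_left _ h1
  induction n using Nat.strong_induction_on with
  | _ n ihn =>
  intro c
  by_cases hc : c ∈ center G
  swap
  · exact hnc n c hc
  have hi : (centralizer ({c} : Set G)).index = 1 := by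
    rw [index_eq_one, eq_top_iff]
    intro g _
    rw [mem_centralizer_singleton_iff]
    exact mem_center_iff.1 hc g
  have hcc : ∀ y : G, IsConj c y ↔ y = c := by
    intro y
    constructor
    · intro h
      obtain ⟨g, hg⟩ := isConj_iff.1 h
      rw [← hg, mem_center_iff.1 hc g, mul_inv_cancel_right]
    · rintro rfl; exact IsConj.refl _
  rw [hi, one_mul]
  rcases Nat.eq_zero_or_pos n with rfl | hn
  · rw [Nat.gcd_zero_left]
    simp only [pow_zero]
    by_cases h1 : IsConj c 1
    · refine dvd_of_eq ?_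
      exact Nat.card_congr (Equiv.subtypeUnivEquiv fun x : G => h1).symm
    · have : IsEmpty {x : G // IsConj c (1 : G)} := ⟨fun x => h1 x.2⟩
      rw [@Nat.card_of_isEmpty _ this]; exact dvd_zero _
  · by_cases hpp : n = 1 ∨ IsPrimePow n
    · rcases hpp with rfl | hpp
      · rw [Nat.gcd_one_left]; exact one_dvd _
      · obtain ⟨p, e, hp, he, rfl⟩ := (isPrimePow_nat_iff _).1 hpp
        rw [Nat.card_congr (Equiv.subtypeEquivRight fun x : G => hcc (x ^ p ^ e))]
        exact central_prime_pow hp e hc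
    · push Not at hpp
      obtain ⟨hn1, hpp⟩ := hpp
      -- factor `n = n₁ n₂`
      obtain ⟨n₁, n₂, hcop, h1, h2, rfl⟩ : ∃ n₁ n₂ : ℕ, n₁.Coprime n₂ ∧ 1 < n₁ ∧ 1 < n₂ ∧ n = n₁ * n₂ := by
        obtain ⟨p, hp, hpn⟩ := Nat.exists_prime_and_dvd hn1
        refine ⟨ordProj[p] n, ordCompl[p] n, ?_, ?_, ?_, (Nat.ordProj_mul_ordCompl_eq_self n p).symm⟩
        · exact Nat.Coprime.pow_left _ (Nat.coprime_ordCompl hp hn.ne')
        · exact Nat.one_lt_pow (hp.factorization_pos_of_dvd hn.ne' hpn).ne' hp.one_lt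
        · rcases Nat.lt_or_ge 1 (ordCompl[p] n) with h | h
          · exact h
          · exfalso
            have h3 : ordCompl[p] n = 1 := le_antisymm h (Nat.ordCompl_pos p hn.ne')
            have h4 := Nat.ordProj_mul_ordCompl_eq_self n p
            rw [h3, mul_one] at h4
            apply hpp
            rw [isPrimePow_nat_iff]
            exact ⟨p, _, hp, hp.factorization_pos_of_dvd hn.ne' hpn, h4⟩
      have hstep : ∀ a b : ℕ, a < n₁ * n₂ → a * b = n₁ * n₂ →
          Nat.gcd a (Nat.card G) ∣ Nat.card {x : G // IsConj c (x ^ (n₁ * n₂))} := by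
        intro a b ha hab
        have h3 : ∀ d : G, Nat.gcd a (Nat.card G) ∣ Nat.card {x : G // IsConj d (x ^ a)} := by
          intro d
          refine (Nat.gcd_dvd_gcd_of_dvd_left _ (dvd_mul_left a _)).trans (ihn a ha d)
        have h4 := dvd_invariant a _ h3 {y : G | y ^ b = c} ?_
        · refine h4.trans (dvd_of_eq (Nat.card_congr (Equiv.subtypeEquivRight fun x => ?_)))
          rw [hcc, ← hab, pow_mul]; rfl
        · intro y z hyz hy
          obtain ⟨g, hg⟩ := isConj_iff.1 hyz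
          change z ^ b = c
          have hy' : y ^ b = c := hy
          rw [← hg, conj_pow, hy', mem_center_iff.1 hc g, mul_inv_cancel_right]
      rw [Nat.gcd_comm, Nat.Coprime.gcd_mul _ hcop, Nat.gcd_comm _ n₁, Nat.gcd_comm _ n₂]
      exact Nat.Coprime.mul_dvd_of_dvd_of_dvd
        (Nat.Coprime.coprime_dvd_left (Nat.gcd_dvd_left _ _) (Nat.Coprime.coprime_dvd_right (Nat.gcd_dvd_left _ _) hcop))
        (hstep n₁ n₂ (by nlinarith) rfl) (hstep n₂ n₁ (by nlinarith) (mul_comm _ _))

/-- **Frobenius** : `gcd (h n) |G| ∣ #{x : x ^ n ∼ c}` -/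
theorem gcd_dvd_card_isConj {G : Type*} [Group G] [Finite G] (c : G) (n : ℕ) :
    Nat.gcd (Nat.card {y : G // IsConj c y} * n) (Nat.card G) ∣ Nat.card {x : G // IsConj c (x ^ n)} := by
  have h1 : Nat.card {y : G // IsConj c y} = (centralizer ({c} : Set G)).index := by
    rw [← card_class]
    refine Nat.card_congr (Equiv.subtypeEquivRight fun y => ?_)
    rw [ConjClasses.mem_carrier_iff_mk_eq, ConjClasses.mk_eq_mk_iff_isConj]
    exact ⟨fun h => h.symm, fun h => h.symm⟩
  rw [h1]
  exact key _ G rfl n c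

end Cfsg.Agent.Lib.H70FrobGen
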