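import Mathlib
import Cfsg.Agent.Lib.FrobDvd
import Cfsg.Agent.Lib.MinNormSolv

/-!
# Frobenius' conjecture for solvable groups (helper70)
-/

set_option autoImplicit false
open Subgroup Cfsg.Agent.Lib.FrobDvd

namespace Cfsg.Agent.Lib.H70FrobSolv

universe u

theorem of_subset {G : Type*} [Group G] [Finite G] {n : ℕ} (hcount : Nat.card {x : G // x ^ n = 1} = n)
    (H : Subgroup G) (hH : ∀ x ∈ H, x ^ n = 1) (hc : Nat.card H = n) :
    H.Normal ∧ (H : Set G) = {x : G | x ^ n = 1} := by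
  have h1 : (H : Set G) = {x : G | x ^ n = 1} := by
    apply Set.eq_of_subset_of_ncard_le
    · intro x hx; exact hH x hx
    · change Nat.card {x : G // x ^ n = 1} ≤ Nat.card H
      rw [hcount, hc]
    · exact Set.toFinite _
  refine ⟨⟨fun x hx g => ?_⟩, h1⟩
  have h2 : x ∈ {x : G | x ^ n = 1} := by rw [← h1]; exact hx
  have h3 : g * x * g⁻¹ ∈ {x : G | x ^ n = 1} := by
    change (g * x * g⁻¹) ^ n = 1
    rw [conj_pow, (h2 : x ^ n = 1)]; group
  rw [← h1] at h3
  exact h3

theorem card_preimage {G : Type*} [Group G] [Finite G] (K : Subgroup G) [K.Normal] (m : ℕ) :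
    Nat.card {x : G // x ^ m ∈ K} = Nat.card {y : G ⧸ K // y ^ m = 1} * Nat.card K := by
  refine card_eq_mul_of_fibers (fun x : {x : G // x ^ m ∈ K} =>
    (⟨(QuotientGroup.mk x.1 : G ⧸ K), by
      rw [← QuotientGroup.mk_pow, QuotientGroup.eq_one_iff]; exact x.2⟩ : {y : G ⧸ K // y ^ m = 1})) _ ?_
  rintro ⟨y, hy⟩
  obtain ⟨x, rfl⟩ := QuotientGroup.mk_surjective y
  have hx : x ^ m ∈ K := by rw [← QuotientGroup.mk_pow, QuotientGroup.eq_one_iff] at hy; exact hy
  symm
  refine Nat.card_congr (Equiv.ofBijective (fun k => ⟨⟨x * k.1, ?_⟩, ?_⟩) ⟨?_, ?_⟩)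
  · rw [← QuotientGroup.eq_one_iff, QuotientGroup.mk_pow, QuotientGroup.mk_mul,
      (QuotientGroup.eq_one_iff (k.1)).2 k.2, mul_one]
    exact hy
  · apply Subtype.ext
    change (QuotientGroup.mk (x * (k : G)) : G ⧸ K) = QuotientGroup.mk x
    rw [QuotientGroup.mk_mul, (QuotientGroup.eq_one_iff (k.1)).2 k.2, mul_one]
  · intro k l hkl
    have : x * (k : G) = x * (l : G) := congrArg (fun z => (z.1.1 : G)) hkl
    exact Subtype.ext (mul_left_cancel this)
  · rintro ⟨⟨z, hz⟩, hzx⟩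
    have h1 : (QuotientGroup.mk z : G ⧸ K) = QuotientGroup.mk x := congrArg Subtype.val hzx
    refine ⟨⟨x⁻¹ * z, QuotientGroup.eq.1 h1.symm⟩, ?_⟩
    apply Subtype.ext
    apply Subtype.ext
    change x * (x⁻¹ * z) = z
    group

theorem aux (N : ℕ) : ∀ (G : Type u) [Group G] [Finite G] [Group.IsSolvable G], Nat.card G = N → ∀ n : ℕ,
    n ∣ Nat.card G → Nat.card {x : G // x ^ n = 1} = n →
    ∃ H : Subgroup G, H.Normal ∧ (H : Set G) = {x : G | x ^ n = 1} := by
  induction N using Nat.strong_induction_on with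
  | _ N IH =>
  intro G _ _ _ hG n hn hcount
  rcases subsingleton_or_nontrivial G with hsub | hnt
  · refine ⟨⊥, inferInstance, ?_⟩
    ext x
    simp only [coe_bot, Set.mem_singleton_iff, Set.mem_setOf_eq]
    exact ⟨fun _ => Subsingleton.elim _ _, fun _ => Subsingleton.elim _ _⟩
  obtain ⟨p, K, hp, hK, hKc, hKab, hKp⟩ := Lib.SubgroupTools.exists_characteristic_elementary G
  have hKn : K.Normal := inferInstance
  obtain ⟨i, hi, hcK⟩ := Lib.MinNormSolv.card_eq_prime_pow hK hp hKp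
  have hpos : 0 < Nat.card G := Nat.card_pos
  have hnpos : 0 < n := Nat.pos_of_dvd_of_pos hn hpos
  have hcQ : Nat.card G = Nat.card (G ⧸ K) * Nat.card K := Subgroup.card_eq_card_quotient_mul_card_subgroup K
  have hlt : Nat.card (G ⧸ K) < N := by
    rw [← hG, hcQ, hcK]
    have h1 : 1 < p ^ i := Nat.one_lt_pow hi.ne' hp.one_lt
    have h2 : 0 < Nat.card (G ⧸ K) := Nat.card_pos
    nlinarith
  have hsolvQ : Group.IsSolvable (G ⧸ K) := inferInstance
  by_cases hpn : p ∣ n
  · -- case 1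
    set j := n.factorization p with hj
    set s := ordCompl[p] n with hs
    have hjs : p ^ j * s = n := Nat.ordProj_mul_ordCompl_eq_self n p
    have hjpos : 0 < j := hp.factorization_pos_of_dvd hnpos.ne' hpn
    have hcops : Nat.Coprime s (p ^ i) := (Nat.Coprime.pow_left i (Nat.coprime_ordCompl hp hnpos.ne')).symm
    have hgen : ∀ m : ℕ, m * p ∣ n → Nat.card {y : G ⧸ K // y ^ m = 1} * p ^ i ≤ n := by
      intro m hm
      rw [← hcK, ← card_preimage K m, ← hcount]
      conv_rhs => rw [hcount]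
      refine (Nat.card_le_card_of_injective (β := {x : G // x ^ n = 1}) (fun x => ⟨x.1, ?_⟩) ?_).trans hcount.le
      · obtain ⟨r, hr⟩ := hm
        rw [hr, pow_mul, pow_mul, hKp _ x.2, one_pow]
      · intro x y hxy
        exact Subtype.ext (congrArg (fun z => (z.1 : G)) hxy)
    have hij : i ≤ j := by
      have h1 : s ∣ Nat.card (G ⧸ K) := by
        refine hcops.dvd_of_dvd_mul_right ?_
        rw [← hcK, ← hcQ]
        exact (Dvd.intro_left _ hjs).trans hn
      have h2 := frobenius_dvd (G := G ⧸ K) s h1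
      have h3 : s ≤ Nat.card {y : G ⧸ K // y ^ s = 1} := by
        refine Nat.le_of_dvd ?_ h2
        have : Nonempty {y : G ⧸ K // y ^ s = 1} := ⟨⟨1, one_pow _⟩⟩
        exact Nat.card_pos
      have h4 := hgen s (by
        rw [← hjs, mul_comm (p ^ j)]
        exact mul_dvd_mul_left _ (dvd_pow_self p hjpos.ne'))
      have hspos : 0 < s := Nat.ordCompl_pos p hnpos.ne'
      have h5 : s * p ^ i ≤ s * p ^ j := by
        calc s * p ^ i ≤ Nat.card {y : G ⧸ K // y ^ s = 1} * p ^ i := Nat.mul_le_mul_right _ h3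
          _ ≤ n := h4
          _ = s * p ^ j := by rw [← hjs, mul_comm]
      exact (Nat.pow_le_pow_iff_right hp.one_lt).1 (Nat.le_of_mul_le_mul_left h5 hspos)
    obtain ⟨n', hn'⟩ : p ^ i ∣ n := by
      rw [← hjs]
      exact (pow_dvd_pow p hij).trans (dvd_mul_right _ _)
    have hppos : 0 < p ^ i := pow_pos hp.pos i
    have hn'Q : n' ∣ Nat.card (G ⧸ K) := by
      have h1 : p ^ i * n' ∣ p ^ i * Nat.card (G ⧸ K) := by
        rw [← hn', mul_comm (p ^ i), ← hcK, ← hcQ]
        exact hn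
      exact Nat.dvd_of_mul_dvd_mul_left hppos h1
    have hdvd : n' * p ∣ n := by
      rw [hn', mul_comm (p ^ i)]
      exact mul_dvd_mul_left _ (dvd_pow_self p hi.ne')
    have h1 := hgen n' hdvd
    have h2 : Nat.card {y : G ⧸ K // y ^ n' = 1} ≤ n' := by
      have : p ^ i * Nat.card {y : G ⧸ K // y ^ n' = 1} ≤ p ^ i * n' := by
        rw [← hn', mul_comm]; exact h1
      exact Nat.le_of_mul_le_mul_left this hppos
    have h3 : Nat.card {y : G ⧸ K // y ^ n' = 1} = n' := by
      refine le_antisymm h2 (Nat.le_of_dvd ?_ (frobenius_dvd n' hn'Q))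
      have : Nonempty {y : G ⧸ K // y ^ n' = 1} := ⟨⟨1, one_pow _⟩⟩
      exact Nat.card_pos
    obtain ⟨H', hH'n, hH'⟩ := IH _ hlt (G ⧸ K) rfl n' hn'Q h3
    have hmem : ∀ y : G ⧸ K, y ∈ H' ↔ y ^ n' = 1 := by
      intro y
      rw [← SetLike.mem_coe, hH']; rfl
    refine ⟨H'.comap (QuotientGroup.mk' K), of_subset hcount _ ?_ ?_⟩
    · intro x hx
      rw [mem_comap, hmem, ← map_pow, QuotientGroup.mk'_apply, QuotientGroup.eq_one_iff] at hx
      obtain ⟨r, hr⟩ := hdvd
      rw [hr, pow_mul, pow_mul, hKp _ hx, one_pow]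
    · have h4 : Nat.card (H'.comap (QuotientGroup.mk' K)) = Nat.card {x : G // x ^ n' ∈ K} := by
        refine Nat.card_congr (Equiv.subtypeEquivRight fun x => ?_)
        rw [mem_comap, hmem, ← map_pow, QuotientGroup.mk'_apply, QuotientGroup.eq_one_iff]
      rw [h4, card_preimage, h3, hcK, hn', mul_comm]
  · -- case 2
    have hcop : Nat.Coprime n p := ((Nat.Prime.coprime_iff_not_dvd hp).2 hpn).symm
    have hnQ : n ∣ Nat.card (G ⧸ K) := by
      refine (Nat.Coprime.pow_right i hcop).dvd_of_dvd_mul_right ?_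
      rw [← hcK, ← hcQ]; exact hn
    obtain ⟨m, hm1, hm2⟩ := Nat.chineseRemainder hcop 1 0
    have hsurj : Function.Surjective (fun x : {x : G // x ^ n = 1} =>
        (⟨QuotientGroup.mk x.1, by rw [← QuotientGroup.mk_pow, x.2, QuotientGroup.mk_one]⟩ :
          {y : G ⧸ K // y ^ n = 1})) := by
      rintro ⟨y, hy⟩
      obtain ⟨x, rfl⟩ := QuotientGroup.mk_surjective y
      have hx : x ^ n ∈ K := by rw [← QuotientGroup.mk_pow, QuotientGroup.eq_one_iff] at hy; exact hy
      have hpm : p ∣ m := (Nat.modEq_zero_iff_dvd).1 hm2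
      refine ⟨⟨x ^ m, ?_⟩, ?_⟩
      · obtain ⟨r, hr⟩ := hpm
        rw [← pow_mul, mul_comm, hr, ← mul_assoc, pow_mul, pow_mul, hKp _ hx, one_pow]
      · apply Subtype.ext
        change (QuotientGroup.mk (x ^ m) : G ⧸ K) = QuotientGroup.mk x
        rw [QuotientGroup.mk_pow]
        conv_rhs => rw [← pow_one (QuotientGroup.mk x : G ⧸ K)]
        rw [pow_eq_pow_iff_modEq]
        exact hm1.of_dvd (orderOf_dvd_of_pow_eq_one hy)
    have h2 : Nat.card {y : G ⧸ K // y ^ n = 1} ≤ n := by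
      rw [← hcount]
      conv_lhs => rw [hcount]
      exact Nat.card_le_card_of_surjective _ hsurj
    have h3 : Nat.card {y : G ⧸ K // y ^ n = 1} = n := by
      refine le_antisymm h2 (Nat.le_of_dvd ?_ (frobenius_dvd n hnQ))
      have : Nonempty {y : G ⧸ K // y ^ n = 1} := ⟨⟨1, one_pow _⟩⟩
      exact Nat.card_pos
    obtain ⟨H', hH'n, hH'⟩ := IH _ hlt (G ⧸ K) rfl n hnQ h3
    have hmem : ∀ y : G ⧸ K, y ∈ H' ↔ y ^ n = 1 := by
      intro y
      rw [← SetLike.mem_coe, hH']; rfl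
    set H := H'.comap (QuotientGroup.mk' K) with hH
    have hcH : Nat.card H = n * p ^ i := by
      have h4 : Nat.card H = Nat.card {x : G // x ^ n ∈ K} := by
        refine Nat.card_congr (Equiv.subtypeEquivRight fun x => ?_)
        rw [hH, mem_comap, hmem, ← map_pow, QuotientGroup.mk'_apply, QuotientGroup.eq_one_iff]
      rw [h4, card_preimage, h3, hcK]
    have hKH : K ≤ H := by
      intro x hx
      rw [hH, mem_comap, QuotientGroup.mk'_apply, (QuotientGroup.eq_one_iff x).2 hx]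
      exact one_mem _
    have hcKH : Nat.card (K.subgroupOf H) = p ^ i := by
      rw [Nat.card_congr (subgroupOfEquivOfLe hKH).toEquiv, hcK]
    have hidx : (K.subgroupOf H).index = n := by
      have h5 := (K.subgroupOf H).card_mul_index
      rw [hcKH, hcH, mul_comm] at h5
      exact Nat.eq_of_mul_eq_mul_right (pow_pos hp.pos i) h5
    obtain ⟨C, hC⟩ := exists_right_complement'_of_coprime (N := K.subgroupOf H)
      (by rw [hcKH, hidx]; exact (Nat.Coprime.pow_right i hcop).symm)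
    have hcC : Nat.card C = n := by
      have h6 := hC.card_mul
      rw [hcKH, hcH, mul_comm] at h6
      exact Nat.eq_of_mul_eq_mul_right (pow_pos hp.pos i) h6
    refine ⟨C.map H.subtype, of_subset hcount _ ?_ ?_⟩
    · rintro _ ⟨x, hx, rfl⟩
      have h7 : (⟨x, hx⟩ : C) ^ n = 1 := by
        rw [← hcC]; exact pow_card_eq_one'
      have h8 : x ^ n = 1 := congrArg Subtype.val h7
      rw [← map_pow, h8, map_one]
    · rw [Subgroup.card_map_of_injective H.subtype_injective, hcC]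

end Cfsg.Agent.Lib.H70FrobSolv
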