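import Mathlib
import Cfsg.Prelude.Def_Transfer
import Cfsg.Prelude.Def_BaumannBlocks
import Cfsg.Agent.Lib.Tate
import Cfsg.Agent.Lib.H70Basic
import Cfsg.Agent.Lib.H70Frattini

/-!
# The Hall–Wielandt theorem (helper70)

Cocycles `c : L → Ω → A` on an `L`-set with values in a commutative group.
-/

set_option autoImplicit false
open Subgroup MulAction
open scoped commutatorElement

namespace Cfsg.Agent.Lib.H70HallWielandt

section Cocycle

variable {L Ω A : Type*} [Group L] [MulAction L Ω] [CommGroup A]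

def IsCocycle (c : L → Ω → A) : Prop := ∀ (g h : L) (ω : Ω), c (g * h) ω = c g (h • ω) * c h ω

theorem IsCocycle.one {c : L → Ω → A} (hc : IsCocycle c) (ω : Ω) : c 1 ω = 1 := by
  have h := hc 1 1 ω
  rw [one_mul, one_smul] at h
  exact (mul_eq_left.1 h.symm)

theorem IsCocycle.pow {c : L → Ω → A} (hc : IsCocycle c) (u : L) (k : ℕ) (ω : Ω) :
    c (u ^ k) ω = ∏ i ∈ Finset.range k, c u (u ^ i • ω) := by
  induction k with
  | zero => simp [hc.one]
  | succ k ih => rw [pow_succ', hc, ih, Finset.prod_range_succ, mul_comm]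

theorem IsCocycle.prod_mul [DecidableEq Ω] {c : L → Ω → A} (hc : IsCocycle c) (S : Finset Ω) {g h : L}
    (hh : ∀ ω ∈ S, h • ω ∈ S) : ∏ ω ∈ S, c (g * h) ω = (∏ ω ∈ S, c g ω) * ∏ ω ∈ S, c h ω := by
  simp only [hc g h]
  rw [Finset.prod_mul_distrib]
  congr 1
  have h1 : S.image (fun ω => h • ω) = S := by
    apply Finset.eq_of_subset_of_card_le
    · intro x hx
      rw [Finset.mem_image] at hx
      obtain ⟨ω, hω, rfl⟩ := hx
      exact hh ω hω
    · rw [Finset.card_image_of_injective _ (MulAction.injective h)]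
  conv_rhs => rw [← h1]
  rw [Finset.prod_image (fun x _ y _ hxy => MulAction.injective h hxy)]

/-- cycle lemma -/
theorem IsCocycle.prod_eq_one_of_no_fixed [DecidableEq Ω] [Finite L] {c : L → Ω → A} (hc : IsCocycle c) {u : L}
    (hk : ∀ (ω : Ω) (k : ℕ), 1 < k → k ∣ orderOf u → u ^ k • ω = ω → c (u ^ k) ω = 1) (n : ℕ) :
    ∀ S : Finset Ω, S.card = n → (∀ ω ∈ S, u • ω ∈ S) → (∀ ω ∈ S, u • ω ≠ ω) → ∏ ω ∈ S, c u ω = 1 := by
  induction n using Nat.strong_induction_on with
  | _ n ih =>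
  intro S hS hst hnf
  rcases S.eq_empty_or_nonempty with h0 | ⟨ω₀, hω₀⟩
  · rw [h0, Finset.prod_empty]
  set k := Function.minimalPeriod (u • ·) ω₀ with hkdef
  have hper : Function.IsPeriodicPt (u • ·) (orderOf u) ω₀ := by
    change ((u • ·)^[orderOf u]) ω₀ = ω₀
    rw [smul_iterate, pow_orderOf_eq_one]
    exact one_smul _ _
  have hkpos : 0 < k := Function.minimalPeriod_pos_of_mem_periodicPts ⟨orderOf u, orderOf_pos u, hper⟩
  have hkdvd : k ∣ orderOf u := hper.minimalPeriod_dvd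
  have hkfix : u ^ k • ω₀ = ω₀ := by
    have := Function.isPeriodicPt_minimalPeriod (u • ·) ω₀
    change ((u • ·)^[k]) ω₀ = ω₀ at this
    rwa [smul_iterate] at this
  have hk1 : 1 < k := by
    rcases Nat.lt_or_ge 1 k with h | h
    · exact h
    · exfalso
      have : k = 1 := by omega
      rw [this, pow_one] at hkfix
      exact hnf ω₀ hω₀ hkfix
  set T := (Finset.range k).image (fun i => u ^ i • ω₀) with hT
  have hinj : Set.InjOn (fun i => u ^ i • ω₀) (Finset.range k : Set ℕ) := by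
    intro i hi j hj hij
    simp only [Finset.coe_range, Set.mem_Iio] at hi hj
    have h1 : ((u • ·)^[i]) ω₀ = ((u • ·)^[j]) ω₀ := by
      rw [smul_iterate, smul_iterate]; exact hij
    exact (Function.iterate_eq_iterate_iff_of_lt_minimalPeriod hi hj).1 h1
  have hpowS : ∀ i : ℕ, u ^ i • ω₀ ∈ S := by
    intro i
    induction i with
    | zero => simpa using hω₀
    | succ i ihi => rw [pow_succ', mul_smul]; exact hst _ ihi
  have hTS : T ⊆ S := by
    intro x hx
    rw [hT, Finset.mem_image] at hx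
    obtain ⟨i, _, rfl⟩ := hx
    exact hpowS i
  have hTst : ∀ x, u • x ∈ T → x ∈ T := by
    intro x hx
    rw [hT, Finset.mem_image] at hx ⊢
    obtain ⟨i, hi, hx⟩ := hx
    rw [Finset.mem_range] at hi
    rcases Nat.eq_zero_or_pos i with h0 | h0
    · refine ⟨k - 1, Finset.mem_range.2 (by omega), ?_⟩
      apply MulAction.injective u
      change u • (u ^ (k - 1) • ω₀) = u • x
      rw [← hx, h0, pow_zero, one_smul, smul_smul, ← pow_succ', Nat.sub_add_cancel hkpos, hkfix]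
    · refine ⟨i - 1, Finset.mem_range.2 (by omega), ?_⟩
      apply MulAction.injective u
      change u • (u ^ (i - 1) • ω₀) = u • x
      rw [← hx, smul_smul, ← pow_succ', Nat.sub_add_cancel h0]
  rw [← Finset.prod_sdiff hTS]
  have h1 : ∏ ω ∈ T, c u ω = 1 := by
    rw [hT, Finset.prod_image hinj, ← hc.pow]
    exact hk ω₀ k hk1 hkdvd hkfix
  have h2 : ∏ ω ∈ S \ T, c u ω = 1 := by
    apply ih (S \ T).card _ (S \ T) rfl
    · intro ω hω
      rw [Finset.mem_sdiff] at hω ⊢
      exact ⟨hst ω hω.1, fun h => hω.2 (hTst ω h)⟩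
    · intro ω hω
      exact hnf ω (Finset.mem_sdiff.1 hω).1
    · rw [← hS]
      apply Finset.card_lt_card
      refine ⟨Finset.sdiff_subset, fun h => ?_⟩
      have h3 : ω₀ ∈ T := by
        rw [hT, Finset.mem_image]
        exact ⟨0, Finset.mem_range.2 hkpos, by simp⟩
      exact (Finset.mem_sdiff.1 (h hω₀)).2 h3
  rw [h1, h2, mul_one]

end Cocycle

/-- Newton's formula in a commutative group -/
theorem newton {A : Type*} [CommGroup A] (b : ℕ → ℕ → A) (hb : ∀ j i, b j (i + 1) = b j i * b (j + 1) i)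
    (n : ℕ) : ∀ j, ∏ i ∈ Finset.range n, b j i = ∏ k ∈ Finset.range n, b (j + k) 0 ^ n.choose (k + 1) := by
  induction n with
  | zero => intro j; simp
  | succ n ih =>
    intro j
    rw [Finset.prod_range_succ']
    simp only [hb]
    rw [Finset.prod_mul_distrib, ih j, ih (j + 1)]
    have h1 : ∀ k, b (j + k) 0 ^ (n + 1).choose (k + 1) = b (j + k) 0 ^ n.choose k * b (j + k) 0 ^ n.choose (k + 1) := by
      intro k
      rw [← pow_add, Nat.choose_succ_succ]
    simp only [h1]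
    rw [Finset.prod_mul_distrib, Finset.prod_range_succ' (fun k => b (j + k) 0 ^ n.choose k),
      Finset.prod_range_succ (fun k => b (j + k) 0 ^ n.choose (k + 1)), Nat.choose_succ_self, pow_zero, mul_one,
      Nat.choose_zero_right, pow_one, add_zero]
    have h2 : ∀ k, j + 1 + k = j + (k + 1) := by intro k; ring
    simp only [h2]
    rw [mul_comm (∏ k ∈ Finset.range n, b (j + k) 0 ^ n.choose (k + 1)), mul_right_comm]

/-- iterated commutators `[u, z, …, z]` -/
def D {G : Type*} [Group G] (u z : G) (j : ℕ) : G := (fun y : G => y⁻¹ * z⁻¹ * y * z)^[j] u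

theorem D_succ {G : Type*} [Group G] (u z : G) (j : ℕ) : z⁻¹ * D u z j * z = D u z j * D u z (j + 1) := by
  have h : D u z (j + 1) = (D u z j)⁻¹ * z⁻¹ * D u z j * z := by
    unfold D
    rw [Function.iterate_succ_apply']
  rw [h]; group

section Orbit

variable {L Ω A : Type*} [Group L] [Finite L] [MulAction L Ω] [CommGroup A]

theorem orbit_lemma [DecidableEq Ω] {p : ℕ} [hp : Fact p.Prime] (hL : IsPGroup p L) (hA : ∀ a : A, a ^ p = 1)
    {c : L → Ω → A} (hc : IsCocycle c) {u : L} (Q : Subgroup L) [Q.Normal] (htop : zpowers u ⊔ Q = ⊤)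
    (hD : ∀ z ∈ Q, D u z (p - 1) = 1)
    (hk : ∀ (ω : Ω) (k : ℕ), 1 < k → k ∣ orderOf u → u ^ k • ω = ω → c (u ^ k) ω = 1)
    (S : Finset Ω) (ω₁ : Ω) (hS : ∀ ω, ω ∈ S ↔ ω ∈ orbit L ω₁)
    (hQ : ∀ ω ∈ S, ∃ z ∈ Q, z • ω ≠ ω) : ∏ ω ∈ S, c u ω = 1 := by
  classical
  have hSst : ∀ g : L, ∀ ω ∈ S, g • ω ∈ S := by
    intro g ω hω
    rw [hS] at hω ⊢
    obtain ⟨x, rfl⟩ := hω
    exact ⟨g * x, mul_smul _ _ _⟩
  by_cases hfix : ∀ ω ∈ S, u • ω ≠ ω
  · exact hc.prod_eq_one_of_no_fixed hk _ S rfl (hSst u) hfix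
  push Not at hfix
  obtain ⟨ω₀, hω₀, hu₀⟩ := hfix
  have hS' : ∀ ω, ω ∈ S ↔ ω ∈ orbit L ω₀ := by
    intro ω
    rw [hS]
    have h1 : orbit L ω₀ = orbit L ω₁ := by
      rw [orbit_eq_iff]; exact (hS ω₀).1 hω₀
    rw [h1]
  set R := stabilizer L ω₀ with hR
  have huR : u ∈ R := hu₀
  have hRtop : R ≠ ⊤ := by
    intro h
    obtain ⟨z, hz, hz2⟩ := hQ ω₀ hω₀
    apply hz2
    have : z ∈ R := by rw [h]; trivial
    exact this
  obtain ⟨M, hM, hRM⟩ := (eq_top_or_exists_le_coatom R).resolve_left hRtop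
  have hMn : M.Normal := Cfsg.Agent.Lib.H70Frattini.coatom_normal hL hM
  have hMi : M.index = p := Cfsg.Agent.Lib.H70Frattini.coatom_index hL hM
  obtain ⟨z, hzQ, hzM⟩ : ∃ z ∈ Q, z ∉ M := by
    by_contra hcon
    push Not at hcon
    apply hM.1
    rw [eq_top_iff, ← htop]
    exact sup_le (by rw [zpowers_le]; exact hRM huR) hcon
  -- `L = ⋃ z^i M`
  have hcard : Nat.card (L ⧸ M) = p := by rw [← index_eq_card]; exact hMi
  have hzne : (z : L ⧸ M) ≠ 1 := by rwa [Ne, QuotientGroup.eq_one_iff]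
  have hzord : orderOf (z : L ⧸ M) = p := by
    have h1 : orderOf (z : L ⧸ M) ∣ p := by rw [← hcard]; exact orderOf_dvd_natCard _
    rcases (Nat.dvd_prime hp.out).1 h1 with h | h
    · exact absurd (orderOf_eq_one_iff.1 h) hzne
    · exact h
  have hcover : ∀ g : L, ∃ i < p, ∃ m ∈ M, g = z ^ i * m := by
    intro g
    have h1 : (g : L ⧸ M) ∈ zpowers (z : L ⧸ M) := by
      have h2 : zpowers (z : L ⧸ M) = ⊤ := by
        apply Subgroup.eq_top_of_card_eq
        rw [Nat.card_zpowers, hzord, hcard]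
      rw [h2]; trivial
    rw [mem_zpowers_iff_mem_range_orderOf, hzord, Finset.mem_image] at h1
    obtain ⟨i, hi, hig⟩ := h1
    refine ⟨i, Finset.mem_range.1 hi, (z ^ i)⁻¹ * g, ?_, by group⟩
    rw [← QuotientGroup.eq, QuotientGroup.mk_pow]
    exact hig
  -- the block `S₀`
  set S₀ := S.filter (fun ω => ∃ m ∈ M, m • ω₀ = ω) with hS₀
  have hS₀mem : ∀ ω, ω ∈ S₀ ↔ ∃ m ∈ M, m • ω₀ = ω := by
    intro ω
    rw [hS₀, Finset.mem_filter]
    refine ⟨fun h => h.2, fun h => ⟨?_, h⟩⟩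
    obtain ⟨m, _, rfl⟩ := h
    rw [hS']
    exact mem_orbit _ _
  have hS₀st : ∀ m ∈ M, ∀ ω ∈ S₀, m • ω ∈ S₀ := by
    intro m hm ω hω
    rw [hS₀mem] at hω ⊢
    obtain ⟨m', hm', rfl⟩ := hω
    exact ⟨m * m', mul_mem hm hm', mul_smul _ _ _⟩
  set F : L → A := fun m => ∏ ω ∈ S₀, c m ω with hF
  have hFmul : ∀ m, ∀ m' ∈ M, F (m * m') = F m * F m' := by
    intro m m' hm'
    exact hc.prod_mul S₀ (hS₀st m' hm')
  -- decomposition of the product over `S`
  have hprod : ∀ v ∈ M, ∏ ω ∈ S, c v ω = ∏ i ∈ Finset.range p, ∏ ω ∈ S₀, c v (z ^ i • ω) := by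
    intro v _
    rw [← Finset.prod_product']
    symm
    refine Finset.prod_bij (fun x _ => z ^ x.1 • x.2) ?_ ?_ ?_ ?_
    · intro x hx
      rw [Finset.mem_product] at hx
      exact hSst _ _ (Finset.mem_filter.1 hx.2).1
    · rintro ⟨i, ω⟩ hx ⟨j, ω'⟩ hy hxy
      rw [Finset.mem_product, Finset.mem_range] at hx hy
      simp only at hx hy hxy
      obtain ⟨m, hm, rfl⟩ := (hS₀mem ω).1 hx.2
      obtain ⟨m', hm', rfl⟩ := (hS₀mem ω').1 hy.2
      have h1 : (z ^ j * m')⁻¹ * (z ^ i * m) ∈ R := by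
        have e1 : (z ^ i * m) • ω₀ = (z ^ j * m') • ω₀ := by rw [mul_smul, mul_smul, hxy]
        rw [hR, mem_stabilizer_iff, mul_smul, e1, inv_smul_smul]
      have h2 := hRM h1
      have h3 : ((z ^ j : L) : L ⧸ M) = ((z ^ i : L) : L ⧸ M) := by
        rw [QuotientGroup.eq]
        have h4 : (z ^ j)⁻¹ * z ^ i = m' * ((z ^ j * m')⁻¹ * (z ^ i * m)) * m⁻¹ := by group
        rw [h4]
        exact mul_mem (mul_mem hm' h2) (inv_mem hm)
      rw [QuotientGroup.mk_pow, QuotientGroup.mk_pow, pow_inj_mod, hzord, Nat.mod_eq_of_lt hy.1,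
        Nat.mod_eq_of_lt hx.1] at h3
      subst h3
      rw [Prod.mk.injEq]
      exact ⟨rfl, MulAction.injective _ hxy⟩
    · intro ω hω
      rw [hS'] at hω
      obtain ⟨g, rfl⟩ := hω
      obtain ⟨i, hi, m, hm, rfl⟩ := hcover g
      refine ⟨(i, m • ω₀), Finset.mem_product.2 ⟨Finset.mem_range.2 hi, (hS₀mem _).2 ⟨m, hm, rfl⟩⟩, ?_⟩
      simp only
      rw [mul_smul]
    · intro x _
      rfl
  have hconj : ∀ v ∈ M, ∀ i : ℕ, ∏ ω ∈ S₀, c v (z ^ i • ω) = F ((z ^ i)⁻¹ * v * z ^ i) := by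
    intro v hv i
    have hm : (z ^ i)⁻¹ * v * z ^ i ∈ M := by
      have := hMn.conj_mem v hv (z ^ i)⁻¹
      simpa using this
    have h1 : ∀ ω, c v (z ^ i • ω) = c (z ^ i) (((z ^ i)⁻¹ * v * z ^ i) • ω) * c ((z ^ i)⁻¹ * v * z ^ i) ω *
        (c (z ^ i) ω)⁻¹ := by
      intro ω
      have e1 : v * z ^ i = z ^ i * ((z ^ i)⁻¹ * v * z ^ i) := by group
      have e2 := hc v (z ^ i) ω
      rw [e1, hc] at e2
      rw [e2, mul_inv_cancel_right]
    simp only [h1]
    rw [Finset.prod_mul_distrib, Finset.prod_mul_distrib, Finset.prod_inv_distrib]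
    have h2 : ∏ ω ∈ S₀, c (z ^ i) (((z ^ i)⁻¹ * v * z ^ i) • ω) = ∏ ω ∈ S₀, c (z ^ i) ω := by
      have h3 := hc.prod_mul (g := z ^ i) S₀ (hS₀st _ hm)
      simp only [hc (z ^ i)] at h3
      rw [Finset.prod_mul_distrib] at h3
      exact mul_right_cancel h3
    rw [h2]
    rw [mul_right_comm, mul_inv_cancel, one_mul]
  rw [hprod u (hRM huR)]
  simp only [hconj u (hRM huR)]
  -- Newton
  have hDM : ∀ j, D u z j ∈ M := by
    intro j
    induction j with
    | zero => exact hRM huR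
    | succ j ih =>
      have h1 := D_succ u z j
      have h2 : D u z (j + 1) = (D u z j)⁻¹ * (z⁻¹ * D u z j * z) := by rw [h1]; group
      rw [h2]
      have h3 := hMn.conj_mem _ ih z⁻¹
      rw [inv_inv] at h3
      exact mul_mem (inv_mem ih) h3
  have hN := newton (fun j i => F ((z ^ i)⁻¹ * D u z j * z ^ i)) (by
    intro j i
    rw [← hFmul]
    · congr 1
      have h1 := D_succ u z j
      calc (z ^ (i + 1))⁻¹ * D u z j * z ^ (i + 1) = (z ^ i)⁻¹ * (z⁻¹ * D u z j * z) * z ^ i := by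
            rw [pow_succ']; group
        _ = (z ^ i)⁻¹ * (D u z j * D u z (j + 1)) * z ^ i := by rw [h1]
        _ = _ := by group
    · have := hMn.conj_mem _ (hDM (j + 1)) (z ^ i)⁻¹
      simpa using this) p 0
  have hD0 : D u z 0 = u := rfl
  simp only [hD0] at hN
  rw [hN]
  apply Finset.prod_eq_one
  intro k hk'
  rw [Finset.mem_range] at hk'
  rw [zero_add]
  rcases Nat.lt_or_ge (k + 1) p with h | h
  · obtain ⟨r, hr⟩ := hp.out.dvd_choose_self (by omega : k + 1 ≠ 0) h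
    rw [hr, pow_mul, hA, one_pow]
  · have hk2 : k = p - 1 := by omega
    have h1 : F 1 = 1 := Finset.prod_eq_one (fun ω _ => hc.one ω)
    have h2 : (z ^ 0)⁻¹ * D u z k * z ^ 0 = 1 := by
      rw [hk2, hD z hzQ]; simp
    rw [h2, h1, one_pow]

end Orbit

section Main

variable {G : Type*} [Group G]

theorem smul_out_mem {H : Subgroup G} (g : G) (ω : G ⧸ H) : (g • ω).out⁻¹ * g * ω.out ∈ H := by
  rw [mul_assoc, ← QuotientGroup.eq, QuotientGroup.out_eq']
  conv_lhs => rw [← QuotientGroup.out_eq' ω]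
  rfl

/-- standard cocycle of `G` on `G ⧸ H` -/
noncomputable def cc {H : Subgroup G} {A : Type*} [CommGroup A] (δ : H →* A) (g : G) (ω : G ⧸ H) : A :=
  δ ⟨(g • ω).out⁻¹ * g * ω.out, smul_out_mem g ω⟩

theorem isCocycle_cc {H : Subgroup G} {A : Type*} [CommGroup A] (δ : H →* A) : IsCocycle (cc δ) := by
  intro g h ω
  unfold cc
  rw [← map_mul]
  congr 1
  apply Subtype.ext
  change ((g * h) • ω).out⁻¹ * (g * h) * ω.out = ((g • h • ω).out⁻¹ * g * (h • ω).out) * ((h • ω).out⁻¹ * h * ω.out)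
  rw [mul_smul]; group

theorem exists_conj_sylow {G : Type*} [Group G] [Finite G] {p : ℕ} [Fact p.Prime] (S : Sylow p G) (T : Subgroup G)
    (hT : IsPGroup p T) : ∃ y : G, ∀ t ∈ T, y * t * y⁻¹ ∈ (S : Subgroup G) := by
  obtain ⟨S', hS'⟩ := hT.exists_le_sylow
  obtain ⟨y, hy⟩ := MulAction.exists_smul_eq G S' S
  refine ⟨y, fun t ht => ?_⟩
  rw [← hy, Sylow.coe_subgroup_smul]
  exact Subgroup.smul_mem_pointwise_smul _ (MulAut.conj y) _ (hS' ht)

theorem D_coe {L : Subgroup G} (u z : L) (j : ℕ) : ((D u z j : L) : G) = D (u : G) (z : G) j := by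
  unfold D
  induction j with
  | zero => rfl
  | succ j ih =>
    rw [Function.iterate_succ_apply', Function.iterate_succ_apply', ← ih]
    simp

theorem weaklyClosed_normalizer {W P : Subgroup G} (hW : Cfsg.IsWeaklyClosed W P) :
    P ≤ normalizer (W : Set G) := by
  intro x hx
  rw [mem_normalizer_iff_map_conj_eq]
  apply hW.2
  rintro _ ⟨w, hw, rfl⟩
  exact mul_mem (mul_mem hx (hW.1 hw)) (inv_mem hx)

theorem main [Finite G] {p : ℕ} [hp : Fact p.Prime] (P : Sylow p G) (Q : Subgroup G)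
    (hQ : Cfsg.IsWeaklyClosed Q (P : Subgroup G))
    (hD : ∀ u ∈ (P : Subgroup G), ∀ z ∈ Q, D u z (p - 1) = 1) {A : Type*} [CommGroup A]
    (hA : ∀ a : A, a ^ p = 1) (H : Subgroup G) (hH : H = normalizer (Q : Set G)) (δ : H →* A) (n : ℕ) :
    ∀ (u : G) (hu : u ∈ H), (∃ k : ℕ, u ^ p ^ k = 1) → u ∈ commutator G → orderOf u = n →
      δ ⟨u, hu⟩ = 1 := by
  classical
  induction n using Nat.strong_induction_on with
  | _ n ih =>
  have hPH : (P : Subgroup G) ≤ H := hH ▸ weaklyClosed_normalizer hQ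
  -- reduction to `u ∈ P`
  suffices hmain : ∀ (u : G) (hu : u ∈ (P : Subgroup G)), u ∈ commutator G → orderOf u = n → δ ⟨u, hPH hu⟩ = 1 by
    intro u hu huk huc hun
    obtain ⟨y, hy⟩ := exists_conj_sylow (P.subtype hPH) (zpowers (⟨u, hu⟩ : H)) (by
      obtain ⟨k, hk⟩ := huk
      obtain ⟨j, _, hj⟩ := (Nat.dvd_prime_pow hp.out).1 (orderOf_dvd_of_pow_eq_one hk)
      apply IsPGroup.of_card (n := j)
      rw [Nat.card_zpowers, ← Subgroup.orderOf_coe, hj])
    have h1 : (y : G) * u * (y : G)⁻¹ ∈ (P : Subgroup G) := hy _ (mem_zpowers _)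
    have h2 := hmain _ h1 ((inferInstance : (commutator G).Normal).conj_mem u huc y) (by
      rw [← hun]
      exact (MulAut.conj (y : G)).orderOf_eq u)
    have h3 : (⟨(y : G) * u * (y : G)⁻¹, hPH h1⟩ : H) = y * ⟨u, hu⟩ * y⁻¹ := rfl
    rw [h3, map_mul, map_mul, map_inv, mul_right_comm, mul_inv_cancel, one_mul] at h2
    exact h2
  intro u hu huc hun
  have : Fintype (G ⧸ H) := Fintype.ofFinite _
  -- the transfer
  let V : G →* A :=
    { toFun := fun g => ∏ ω : G ⧸ H, cc δ g ω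
      map_one' := Finset.prod_eq_one (fun ω _ => (isCocycle_cc δ).one ω)
      map_mul' := fun g h => (isCocycle_cc δ).prod_mul Finset.univ (fun _ _ => Finset.mem_univ _) }
  have hV : V u = 1 := Abelianization.commutator_subset_ker V huc
  change ∏ ω : G ⧸ H, cc δ u ω = 1 at hV
  set base : G ⧸ H := ((1 : G) : G ⧸ H) with hbase
  have hbfix : ∀ g ∈ H, g • base = base := by
    intro g hg
    change ((g * 1 : G) : G ⧸ H) = ((1 : G) : G ⧸ H)
    rw [mul_one]
    exact (QuotientGroup.eq.2 (by simpa using hg)).symm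
  have hout : base.out ∈ H := by
    have h1 : ((base.out : G) : G ⧸ H) = ((1 : G) : G ⧸ H) := QuotientGroup.out_eq' base
    have h2 := QuotientGroup.eq.1 h1.symm
    simpa using h2
  have hcbase : cc δ u base = δ ⟨u, hPH hu⟩ := by
    unfold cc
    have h1 : (⟨(u • base).out⁻¹ * u * base.out, smul_out_mem u base⟩ : H) =
        ⟨base.out, hout⟩⁻¹ * ⟨u, hPH hu⟩ * ⟨base.out, hout⟩ := by
      apply Subtype.ext
      change (u • base).out⁻¹ * u * base.out = base.out⁻¹ * u * base.out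
      rw [hbfix u (hPH hu)]
    rw [h1, map_mul, map_mul, map_inv, mul_right_comm, inv_mul_cancel, one_mul]
  rw [← Finset.mul_prod_erase Finset.univ _ (Finset.mem_univ base), hcbase] at hV
  suffices hrest : ∏ ω ∈ Finset.univ.erase base, cc δ u ω = 1 by
    rwa [hrest, mul_one] at hV
  -- the group `L`
  set L : Subgroup G := zpowers u ⊔ Q with hL
  have hLP : L ≤ (P : Subgroup G) := sup_le (by rwa [zpowers_le]) hQ.1
  have hLH : L ≤ H := hLP.trans hPH
  have huL : u ∈ L := mem_sup_left (mem_zpowers u)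
  have hQL : Q ≤ L := le_sup_right
  have hQ'n : (Q.subgroupOf L).Normal := by
    constructor
    intro x hx g
    have hg := hLH g.2
    rw [hH] at hg
    exact (mem_normalizer_iff.1 hg x).1 hx
  rw [← Finset.prod_fiberwise (Finset.univ.erase base) (fun ω => (Quotient.mk (orbitRel L (G ⧸ H)) ω)) (cc δ u)]
  apply Finset.prod_eq_one
  intro O _
  set S := (Finset.univ.erase base).filter (fun ω => Quotient.mk (orbitRel L (G ⧸ H)) ω = O) with hS
  rcases S.eq_empty_or_nonempty with h0 | ⟨ω₁, hω₁⟩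
  · rw [h0, Finset.prod_empty]
  have hω₁' := hω₁
  rw [hS, Finset.mem_filter, Finset.mem_erase] at hω₁'
  obtain ⟨⟨hω₁b, -⟩, hω₁O⟩ := hω₁'
  have hSmem : ∀ ω, ω ∈ S ↔ ω ∈ orbit L ω₁ := by
    intro ω
    rw [hS, Finset.mem_filter, Finset.mem_erase]
    constructor
    · rintro ⟨_, h2⟩
      rw [← hω₁O] at h2
      exact Quotient.exact h2
    · intro h
      refine ⟨⟨?_, Finset.mem_univ _⟩, ?_⟩
      · rintro rfl
        apply hω₁b
        obtain ⟨g, hg⟩ := h
        have h1 : (g : G) • ω₁ = base := hg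
        have h2 : ω₁ = (g : G)⁻¹ • base := by rw [← h1, inv_smul_smul]
        rw [h2, hbfix _ (inv_mem (hLH g.2))]
      · rw [← hω₁O]
        exact Quotient.sound h
  have hcoc : IsCocycle (fun (g : L) (ω : G ⧸ H) => cc δ (g : G) ω) := fun g h ω => isCocycle_cc δ g h ω
  refine orbit_lemma (p := p) (L := L) (P.isPGroup'.to_le hLP) hA hcoc (u := ⟨u, huL⟩) (Q.subgroupOf L) ?_ ?_ ?_ S ω₁ hSmem ?_
  · apply map_injective L.subtype_injective
    rw [Subgroup.map_sup, MonoidHom.map_zpowers, subgroupOf_map_subtype, inf_eq_left.2 hQL,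
      ← MonoidHom.range_eq_map, range_subtype]
    rfl
  · intro z hz
    apply Subtype.ext
    rw [D_coe]
    exact hD u hu z hz
  · intro ω k hk hkd hfix
    change cc δ (u ^ k) ω = 1
    have hfix' : u ^ k • ω = ω := hfix
    unfold cc
    have hkd' : k ∣ orderOf u := by
      have := hkd
      rwa [← Subgroup.orderOf_coe] at this
    have hmem : ω.out⁻¹ * u ^ k * ω.out ∈ H := by
      have := smul_out_mem (u ^ k) ω
      rwa [hfix'] at this
    have h1 : (⟨(u ^ k • ω).out⁻¹ * u ^ k * ω.out, smul_out_mem (u ^ k) ω⟩ : H) =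
        ⟨ω.out⁻¹ * u ^ k * ω.out, hmem⟩ := by
      apply Subtype.ext
      change (u ^ k • ω).out⁻¹ * u ^ k * ω.out = _
      rw [hfix']
    rw [h1]
    have hord : orderOf (ω.out⁻¹ * u ^ k * ω.out) = orderOf u / k := by
      have h2 : orderOf (ω.out⁻¹ * u ^ k * ω.out) = orderOf (u ^ k) := by
        have := (MulAut.conj ω.out⁻¹).orderOf_eq (u ^ k)
        simpa using this
      rw [h2, orderOf_pow_of_dvd (by omega) hkd']
    refine ih (orderOf u / k) ?_ _ hmem ?_ ?_ hord
    · rw [← hun]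
      exact Nat.div_lt_self (orderOf_pos u) hk
    · obtain ⟨j, hj⟩ := P.isPGroup' ⟨u, hu⟩
      have hj' : u ^ p ^ j = 1 := congrArg Subtype.val hj
      refine ⟨j, ?_⟩
      have h3 : (ω.out⁻¹ * u ^ k * ω.out) ^ p ^ j = ω.out⁻¹ * (u ^ k) ^ p ^ j * ω.out := by
        have := conj_pow (i := p ^ j) (a := ω.out⁻¹) (b := u ^ k)
        simpa using this
      rw [h3, ← pow_mul, mul_comm k, pow_mul, hj', one_pow]; simp
    · have := (inferInstance : (commutator G).Normal).conj_mem _ ((commutator G).pow_mem huc k) ω.out⁻¹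
      simpa using this
  · intro ω hω
    by_contra hcon
    push Not at hcon
    have hωb : ω ≠ base := by
      have := (Finset.mem_filter.1 hω).1
      exact (Finset.mem_erase.1 this).1
    apply hωb
    set x := ω.out with hx
    have h1 : ∀ z ∈ Q, x⁻¹ * z * x ∈ H := by
      intro z hz
      have h2 : z • ω = ω := hcon ⟨z, hQL hz⟩ hz
      have := smul_out_mem z ω
      rwa [h2] at this
    -- conjugate `x⁻¹ Q x` into `P`
    set T : Subgroup H := (Q.map (MulAut.conj x⁻¹).toMonoidHom).subgroupOf H with hT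
    have hTp : IsPGroup p T := by
      have h2 : IsPGroup p (Q.map (MulAut.conj x⁻¹).toMonoidHom) := (P.isPGroup'.to_le hQ.1).map _
      exact h2.comap_subtype
    obtain ⟨y, hy⟩ := exists_conj_sylow (P.subtype hPH) T hTp
    have h3 : Q.map (MulAut.conj ((y : G) * x⁻¹)).toMonoidHom ≤ (P : Subgroup G) := by
      rintro _ ⟨z, hz, rfl⟩
      have h4 : (⟨x⁻¹ * z * x, h1 z hz⟩ : H) ∈ T := by
        rw [hT, mem_subgroupOf]
        exact ⟨z, hz, by simp⟩
      have h5 := hy _ h4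
      have h6 : (y : G) * (x⁻¹ * z * x) * (y : G)⁻¹ ∈ (P : Subgroup G) := h5
      have h7 : (MulAut.conj ((y : G) * x⁻¹)).toMonoidHom z = (y : G) * (x⁻¹ * z * x) * (y : G)⁻¹ := by
        simp only [MulEquiv.coe_toMonoidHom, MulAut.conj_apply]
        group
      rw [h7]; exact h6
    have h4 : (y : G) * x⁻¹ ∈ H :=
      hH.ge (mem_normalizer_iff_map_conj_eq.2 (hQ.2 _ h3))
    have h5 : x ∈ H := by
      have h6 := mul_mem (inv_mem h4) y.2
      have h7 : ((y : G) * x⁻¹)⁻¹ * (y : G) = x := by group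
      rwa [h7] at h6
    rw [← QuotientGroup.out_eq' ω]
    exact (QuotientGroup.eq.2 (by simpa using h5)).symm

theorem main_all [Finite G] {p : ℕ} [hp : Fact p.Prime] (P : Sylow p G) (Q : Subgroup G)
    (hQ : Cfsg.IsWeaklyClosed Q (P : Subgroup G))
    (hD : ∀ u ∈ (P : Subgroup G), ∀ z ∈ Q, D u z (p - 1) = 1) {A : Type*} [CommGroup A]
    (hA : ∀ a : A, a ^ p = 1) (H : Subgroup G) (hH : H = normalizer (Q : Set G)) (δ : H →* A)
    (h : H) (hc : (h : G) ∈ commutator G) : δ h = 1 := by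
  have hpos : orderOf h ≠ 0 := (orderOf_pos h).ne'
  set m := ordCompl[p] (orderOf h) with hm
  have h1 : δ (h ^ m) = 1 := by
    have := main P Q hQ hD hA H hH δ (orderOf ((h : G) ^ m)) ((h : G) ^ m) (H.pow_mem h.2 m)
      ⟨(orderOf h).factorization p, ?_⟩ ((commutator G).pow_mem hc m) rfl
    · exact this
    · rw [← pow_mul, hm, mul_comm, Nat.ordProj_mul_ordCompl_eq_self, ← Subgroup.coe_pow, pow_orderOf_eq_one]
      rfl
  rw [map_pow] at h1
  have h2 : Nat.Coprime m p := (Nat.coprime_ordCompl hp.out hpos).symm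
  have h3 : orderOf (δ h) ∣ Nat.gcd m p := Nat.dvd_gcd (orderOf_dvd_of_pow_eq_one h1) (orderOf_dvd_of_pow_eq_one (hA _))
  rw [h2] at h3
  exact orderOf_eq_one_iff.1 (Nat.dvd_one.1 h3)

theorem sup_commutator_eq_top [Finite G] {p : ℕ} [hp : Fact p.Prime] (P : Sylow p G) (Q : Subgroup G)
    (hQ : Cfsg.IsWeaklyClosed Q (P : Subgroup G)) : normalizer (Q : Set G) ⊔ commutator G = ⊤ := by
  have hPQ : normalizer ((P : Subgroup G) : Set G) ≤ normalizer (Q : Set G) := by
    intro x hx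
    rw [mem_normalizer_iff_map_conj_eq] at hx ⊢
    apply hQ.2
    exact (Subgroup.map_mono hQ.1).trans hx.le
  have hN : (commutator G ⊔ (P : Subgroup G)).Normal := by
    constructor
    intro x hx g
    have h1 : ⁅g, x⁆ ∈ commutator G := Subgroup.commutator_mem_commutator (mem_top _) (mem_top _)
    have h2 : g * x * g⁻¹ = ⁅g, x⁆ * x := by rw [commutatorElement_def]; group
    rw [h2]
    exact mul_mem (mem_sup_left h1) hx
  have h1 := Sylow.normalizer_sup_eq_top' (N := commutator G ⊔ (P : Subgroup G)) P le_sup_right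
  rw [eq_top_iff, ← h1]
  refine sup_le (hPQ.trans le_sup_left) (sup_le le_sup_right ?_)
  exact (weaklyClosed_normalizer hQ).trans le_sup_left

/-- **Hall–Wielandt** -/
theorem hall_wielandt [Finite G] {p : ℕ} [hp : Fact p.Prime] (P : Sylow p G) (Q : Subgroup G)
    (hQ : Cfsg.IsWeaklyClosed Q (P : Subgroup G))
    (hD : ∀ u ∈ (P : Subgroup G), ∀ z ∈ Q, D u z (p - 1) = 1) :
    Cfsg.pResidualOf p (normalizer (Q : Set G)) = Cfsg.pResidual p G ⊓ normalizer (Q : Set G) := by
  have hidx : ¬ p ∣ (normalizer (Q : Set G)).index := by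
    intro h
    have h1 := Subgroup.index_dvd_of_le (weaklyClosed_normalizer hQ)
    exact P.not_dvd_index (h.trans h1)
  have := Cfsg.Agent.Lib.Tate.tate (p := p) (normalizer (Q : Set G)) hidx ?_
  · rw [Cfsg.pResidualOf, ← this, inf_comm]
  · intro δ
    set f : (normalizer (Q : Set G)) →* Abelianization G :=
      Abelianization.of.comp (normalizer (Q : Set G)).subtype with hf
    have hsurj : Function.Surjective f := by
      intro a
      obtain ⟨g, rfl⟩ := QuotientGroup.mk_surjective a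
      have hg : g ∈ normalizer (Q : Set G) ⊔ commutator G := by
        rw [sup_commutator_eq_top P Q hQ]; exact mem_top _
      obtain ⟨y, hy, z, hz, rfl⟩ := Subgroup.mem_sup_of_normal_right.1 hg
      refine ⟨⟨y, hy⟩, ?_⟩
      exact QuotientGroup.eq.2 (by simpa using hz)
    have hker : f.ker ≤ δ.ker := by
      intro x hx
      rw [MonoidHom.mem_ker] at hx ⊢
      have hx' : (x : G) ∈ commutator G := by
        rw [← Abelianization.ker_of G]
        exact hx
      refine main_all P Q hQ hD (A := Multiplicative (ZMod p)) ?_ _ rfl δ x hx'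
      intro a
      change Multiplicative.ofAdd (p • a.toAdd) = 1
      simp
    refine ⟨(f.liftOfSurjective hsurj ⟨δ, hker⟩).comp Abelianization.of, fun x => ?_⟩
    exact f.liftOfRightInverse_comp_apply _ (Function.rightInverse_surjInv hsurj) ⟨δ, hker⟩ x

end Main

end Cfsg.Agent.Lib.H70HallWielandt
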