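import Cfsg.Agent.Lib.H70MT0
import Cfsg.Agent.S0713

/-! S4220, piece MT-32 (helper63). -/

set_option autoImplicit false

namespace Cfsg.Agent.Lib.H70MT_32
open Equiv Cfsg.Agent.Lib.H70MT

variable {α : Type*} [Fintype α] [DecidableEq α] {G P : Subgroup (Perm α)} {D : Finset α} {k p r : ℕ}

theorem D_iff (h : Dt G P D k p r) (x : α) : x ∈ D ↔ ∀ u ∈ P, u x = x := by
  refine ⟨fun hx u hu => h.fix u hu x hx, fun hx => ?_⟩
  by_contra hD
  have h1 := h.orb x hD
  have h2 : MulAction.orbit P x = {x} := by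
    ext y
    rw [MulAction.mem_orbit_iff, Set.mem_singleton_iff]
    constructor
    · rintro ⟨u, rfl⟩
      exact hx u.1 u.2
    · rintro rfl
      exact ⟨1, one_smul _ _⟩
  rw [h2, Set.ncard_singleton] at h1
  exact h.pr.one_lt.ne h1

theorem conj_P {g : Perm α} (hg : g ∈ NN G P) {u : Perm α} (hu : u ∈ P) : g * u * g⁻¹ ∈ P :=
  (Subgroup.mem_normalizer_iff.1 hg.2 u).1 hu

theorem conj_P' {g : Perm α} (hg : g ∈ NN G P) {u : Perm α} (hu : u ∈ P) : g⁻¹ * u * g ∈ P := by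
  have := conj_P (Subgroup.inv_mem _ hg) hu
  rwa [inv_inv] at this

theorem map_D (h : Dt G P D k p r) {g : Perm α} (hg : g ∈ NN G P) {x : α} (hx : x ∈ D) : g x ∈ D := by
  rw [D_iff h] at hx ⊢
  intro u hu
  have h1 := hx _ (conj_P' hg hu)
  have h2 : g ((g⁻¹ * u * g) x) = u (g x) := by
    simp [Perm.mul_apply]
  rw [← h2, h1]

theorem notD (h : Dt G P D k p r) {g : Perm α} (hg : g ∈ NN G P) {x : α} (hx : x ∉ D) : g x ∉ D := by
  intro h1
  have h2 := map_D h (Subgroup.inv_mem _ hg) h1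
  have h3 : g⁻¹ (g x) = x := g.symm_apply_apply x
  rw [h3] at h2
  exact hx h2

theorem P_le (h : Dt G P D k p r) {u : Perm α} (hu : u ∈ P) : u ∈ NN G P :=
  ⟨h.PG hu, Subgroup.le_normalizer hu⟩

theorem mem_orb {x y : α} : y ∈ MulAction.orbit P x ↔ ∃ u ∈ P, u x = y := by
  rw [MulAction.mem_orbit_iff]
  constructor
  · rintro ⟨u, hu⟩; exact ⟨u.1, u.2, hu⟩
  · rintro ⟨u, hu, hx⟩; exact ⟨⟨u, hu⟩, hx⟩

theorem two_orb (h : Dt G P D 2 p 3) {x y z : α} (hx : x ∉ D) (hy : y ∉ D) (hz : z ∉ D) :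
    z ∈ MulAction.orbit P x ∨ z ∈ MulAction.orbit P y ∨ y ∈ MulAction.orbit P x := by
  classical
  by_contra hcon
  push Not at hcon
  obtain ⟨h1, h2, h3⟩ := hcon
  have hdis : ∀ a b : α, b ∉ MulAction.orbit P a → Disjoint (MulAction.orbit P a) (MulAction.orbit P b) := by
    intro a b hab
    rw [Set.disjoint_left]
    intro c hc hc'
    apply hab
    have e1 := MulAction.orbit_eq_iff.2 hc
    have e2 := MulAction.orbit_eq_iff.2 hc'
    rw [← e1, e2]
    exact MulAction.mem_orbit_self b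
  have d1 := hdis x z h1
  have d2 := hdis y z h2
  have d3 := hdis x y h3
  have hsub : ((MulAction.orbit P x ∪ MulAction.orbit P y) ∪ MulAction.orbit P z) ⊆ ((Dᶜ : Finset α) : Set α) := by
    have key : ∀ a, a ∉ D → MulAction.orbit P a ⊆ ((Dᶜ : Finset α) : Set α) := by
      intro a ha b hb
      obtain ⟨u, hu, rfl⟩ := mem_orb.1 hb
      rw [Finset.mem_coe, Finset.mem_compl]
      exact notD h (P_le h hu) ha
    exact Set.union_subset (Set.union_subset (key x hx) (key y hy)) (key z hz)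
  have hc := Set.ncard_le_ncard hsub (Set.toFinite _)
  rw [Set.ncard_union_eq (Set.disjoint_union_left.2 ⟨d1, d2⟩) (Set.toFinite _) (Set.toFinite _),
    Set.ncard_union_eq d3 (Set.toFinite _) (Set.toFinite _), h.orb x hx, h.orb y hy, h.orb z hz,
    Set.ncard_coe_finset, Finset.card_compl, h.card, h.hD] at hc
  have := h.pr.pos
  omega

theorem index_stab (h : Dt G P D k p r) {x : α} (hx : x ∉ D) : (MulAction.stabilizer P x).index = p := by
  rw [MulAction.index_stabilizer, h.orb x hx]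

theorem stab_normal (h : Dt G P D k p r) {x : α} (hx : x ∉ D) : (MulAction.stabilizer P x).Normal := by
  apply Subgroup.normal_of_index_eq_minFac_card
  rw [index_stab h hx]
  haveI : Fact p.Prime := ⟨h.pr⟩
  obtain ⟨n, hn⟩ := IsPGroup.iff_card.1 h.hP
  have hd : p ∣ Nat.card P := by
    have := Subgroup.index_dvd_card (MulAction.stabilizer P x)
    rwa [index_stab h hx] at this
  rw [hn]
  rcases Nat.eq_zero_or_pos n with rfl | hn0
  · rw [hn, pow_zero] at hd
    exact absurd (Nat.dvd_one.1 hd) h.pr.one_lt.ne'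
  · rw [Nat.Prime.pow_minFac h.pr hn0.ne']

theorem preprim (h : Dt G P D 2 p 3) : MulAction.IsPreprimitive G α := by
  have h4 : MulAction.IsMultiplyPretransitive G α 4 := h.tr
  have h2 : MulAction.IsMultiplyPretransitive G α 2 := by
    refine MulAction.isMultiplyPretransitive_of_le (n := 4) (by norm_num) ?_
    rw [Nat.card_eq_fintype_card, h.card]
    have := h.pr.two_le
    omega
  exact MulAction.isPreprimitive_of_is_two_pretransitive h2

/-- case 1 -/
theorem case1 (h : Dt G P D 2 p 3) {u : Perm α} (hu : u ∈ P) (hu1 : u ≠ 1) {y : α} (hy : y ∉ D) (huy : u y = y) :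
    alternatingGroup α ≤ G := by
  classical
  have hyn := stab_normal h hy
  have fixy : ∀ w ∈ MulAction.orbit P y, u w = w := by
    intro w hw
    obtain ⟨v, hv, rfl⟩ := mem_orb.1 hw
    have h1 : (⟨u, hu⟩ : P) ∈ MulAction.stabilizer P y := huy
    have h2 := hyn.conj_mem _ h1 (⟨v, hv⟩ : P)⁻¹
    rw [inv_inv, MulAction.mem_stabilizer_iff] at h2
    have h3 : (v⁻¹ * u * v) y = y := h2
    rw [Perm.mul_apply, Perm.mul_apply] at h3
    exact (Perm.inv_eq_iff_eq.1 h3)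
  obtain ⟨z, hz⟩ : ∃ z, u z ≠ z := by
    by_contra hcon
    push Not at hcon
    exact hu1 (Equiv.ext hcon)
  have hzD : z ∉ D := fun hc => hz (h.fix u hu z hc)
  have hzy : z ∉ MulAction.orbit P y := fun hc => hz (fixy z hc)
  have hzn := stab_normal h hzD
  haveI : Fact p.Prime := ⟨h.pr⟩
  have gen : ∀ w ∈ MulAction.orbit P z, ∃ i : ℤ, (u ^ i) z = w := by
    intro w hw
    obtain ⟨v, hv, rfl⟩ := mem_orb.1 hw
    have hcq : Nat.card (P ⧸ MulAction.stabilizer P z) = p := index_stab h hzD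
    have hne : ((⟨u, hu⟩ : P) : P ⧸ MulAction.stabilizer P z) ≠ 1 := by
      intro hc
      exact hz ((QuotientGroup.eq_one_iff _).1 hc)
    have hmem := mem_zpowers_of_prime_card hcq hne (g' := ((⟨v, hv⟩ : P) : P ⧸ MulAction.stabilizer P z))
    obtain ⟨i, hi⟩ := Subgroup.mem_zpowers_iff.1 hmem
    refine ⟨i, ?_⟩
    rw [← QuotientGroup.mk_zpow, QuotientGroup.eq, MulAction.mem_stabilizer_iff] at hi
    have h3 : ((u ^ i)⁻¹ * v) z = z := hi
    rw [Perm.mul_apply, Perm.inv_eq_iff_eq] at h3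
    exact h3.symm
  have hsup : ∀ w, u w ≠ w ↔ w ∈ MulAction.orbit P z := by
    intro w
    constructor
    · intro hw
      have hwD : w ∉ D := fun hc => hw (h.fix u hu w hc)
      have hwy : w ∉ MulAction.orbit P y := fun hc => hw (fixy w hc)
      rcases two_orb h hy hzD hwD with h1 | h1 | h1
      · exact absurd h1 hwy
      · exact h1
      · exact absurd h1 hzy
    · intro hw hc
      obtain ⟨i, rfl⟩ := gen w hw
      apply hz
      have h1 : u ((u ^ i) z) = (u ^ i) (u z) := by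
        rw [← Perm.mul_apply, ← Perm.mul_apply, ← zpow_one_add, add_comm, zpow_add_one]
      rw [h1] at hc
      exact (u ^ i).injective hc
  have hcyc : u.IsCycle := by
    refine ⟨z, hz, fun w hw => ?_⟩
    obtain ⟨i, hi⟩ := gen w ((hsup w).1 hw)
    exact ⟨i, hi⟩
  have hcard : u.support.card = p := by
    rw [← h.orb z hzD, ← Set.ncard_coe_finset]
    congr 1
    ext w
    rw [Finset.mem_coe, Perm.mem_support]
    exact hsup w
  have hp3 : 3 ≤ p := h.kp
  refine Cfsg.Agent.S0713.result G (preprim h) h.pr ?_ ?_ hcyc hcard (h.PG hu)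
  · rw [h.card]; omega
  · rw [h.card]; omega

theorem sq_orb (h : Dt G P D 2 p 3) {g : Perm α} (hg : g ∈ NN G P) {x : α} (hx : x ∉ D) :
    ∃ u ∈ P, (g * g) x = u x := by
  have hy : g x ∉ D := notD h hg hx
  have hz : g (g x) ∉ D := notD h hg hy
  have key : g x ∈ MulAction.orbit P x → ∃ u ∈ P, (g * g) x = u x := by
    intro h1
    obtain ⟨v, hv, hvx⟩ := mem_orb.1 h1
    refine ⟨g * v * g⁻¹ * v, P.mul_mem (conj_P hg hv) hv, ?_⟩
    rw [Perm.mul_apply, Perm.mul_apply (g * v * g⁻¹), hvx, Perm.mul_apply (g * v), Perm.mul_apply g v]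
    have h3 : g⁻¹ (g x) = x := g.symm_apply_apply x
    rw [h3, hvx]
  rcases two_orb h hx hy hz with h1 | h1 | h1
  · obtain ⟨v, hv, hvx⟩ := mem_orb.1 h1
    exact ⟨v, hv, hvx.symm⟩
  · apply key
    obtain ⟨v, hv, hvx⟩ := mem_orb.1 h1
    rw [mem_orb]
    refine ⟨g⁻¹ * v * g, conj_P' hg hv, ?_⟩
    rw [Perm.mul_apply, Perm.mul_apply, hvx]
    exact g.symm_apply_apply (g x)
  · exact key h1

/-- case 2 -/
theorem case2 (h : Dt G P D 2 p 3) (hp : 5 ≤ p) (hA : ∀ u ∈ TT G P D, ∀ x ∉ D, (u ^ p) x = x)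
    (hfree : ∀ u ∈ P, ∀ y ∉ D, u y = y → u = 1) : alternatingGroup α ≤ G := by
  classical
  haveI : Fact p.Prime := ⟨h.pr⟩
  -- a point outside
  obtain ⟨y, hy⟩ : ∃ y, y ∉ D := by
    by_contra hcon
    push Not at hcon
    have h1 : D = Finset.univ := Finset.eq_univ_iff_forall.2 hcon
    have h2 := h.hD
    rw [h1, Finset.card_univ, h.card] at h2
    omega
  have hcP : Nat.card P = p := by
    have h1 := index_stab h hy
    have h2 : MulAction.stabilizer P y = ⊥ := by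
      rw [Subgroup.eq_bot_iff_forall]
      intro u hu
      exact Subtype.ext (hfree u.1 u.2 y hy hu)
    rw [h2, Subgroup.index_bot] at h1
    exact h1
  haveI : Nontrivial P := by
    rw [← Finite.one_lt_card_iff_nontrivial, hcP]
    exact h.pr.one_lt
  obtain ⟨w0, hw0⟩ := exists_ne (1 : P)
  have hgen : ∀ w ∈ P, ∃ j : ℤ, (w0 : Perm α) ^ j = w := by
    intro w hw
    have hm := mem_zpowers_of_prime_card hcP hw0 (g' := ⟨w, hw⟩)
    obtain ⟨j, hj⟩ := Subgroup.mem_zpowers_iff.1 hm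
    exact ⟨j, congrArg Subtype.val hj⟩
  have hpow : ∀ a ∈ NN G P, ∃ i : ℤ, ∀ w ∈ P, a * w * a⁻¹ = w ^ i := by
    intro a ha
    obtain ⟨i, hi⟩ := hgen _ (conj_P ha w0.2)
    refine ⟨i, fun w hw => ?_⟩
    obtain ⟨j, rfl⟩ := hgen w hw
    rw [← conj_zpow, ← hi, ← zpow_mul, ← zpow_mul, mul_comm]
  have hcom : ∀ a ∈ NN G P, ∀ b ∈ NN G P, ∀ w ∈ P, (a⁻¹ * b⁻¹ * a * b) * w = w * (a⁻¹ * b⁻¹ * a * b) := by
    intro a ha b hb w hw
    obtain ⟨i, hi⟩ := hpow a ha
    obtain ⟨j, hj⟩ := hpow b hb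
    have h1 : a * b * w * b⁻¹ * a⁻¹ = b * a * w * a⁻¹ * b⁻¹ := by
      have e1 : a * b * w * b⁻¹ * a⁻¹ = a * (b * w * b⁻¹) * a⁻¹ := by group
      have e2 : b * a * w * a⁻¹ * b⁻¹ = b * (a * w * a⁻¹) * b⁻¹ := by group
      rw [e1, e2, hj w hw, hi w hw, hi _ (P.zpow_mem hw j), hj _ (P.zpow_mem hw i), ← zpow_mul, ← zpow_mul, mul_comm]
    have h2 : (a⁻¹ * b⁻¹ * a * b) * w = (b * a)⁻¹ * (a * b * w * b⁻¹ * a⁻¹) * (a * b) := by group
    rw [h2, h1]
    group
  -- the three points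
  obtain ⟨x1, x2, x3, h12, h13, h23, hDe⟩ := Finset.card_eq_three.1 h.hD
  have m1 : x1 ∈ D := by rw [hDe]; simp
  have m2 : x2 ∈ D := by rw [hDe]; simp
  have m3 : x3 ∈ D := by rw [hDe]; simp
  have hout : ∀ a b : α, a ∈ D → b ∈ D → ∀ x ∉ D, swap a b x = x := by
    intro a b ha hb x hx
    apply swap_apply_of_ne_of_ne
    · rintro rfl; exact hx ha
    · rintro rfl; exact hx hb
  obtain ⟨a, haG, haN, hax⟩ := h.wit (swap x1 x2) (hout x1 x2 m1 m2)
  obtain ⟨b, hbG, hbN, hbx⟩ := h.wit (swap x2 x3) (hout x2 x3 m2 m3)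
  have ha : a ∈ NN G P := ⟨haG, haN⟩
  have hb : b ∈ NN G P := ⟨hbG, hbN⟩
  have a1 : a x1 = x2 := by rw [hax x1 m1, swap_apply_left]
  have a2 : a x2 = x1 := by rw [hax x2 m2, swap_apply_right]
  have a3 : a x3 = x3 := by rw [hax x3 m3, swap_apply_of_ne_of_ne h13.symm h23.symm]
  have b1 : b x1 = x1 := by rw [hbx x1 m1, swap_apply_of_ne_of_ne h12 h13]
  have b2 : b x2 = x3 := by rw [hbx x2 m2, swap_apply_left]
  have b3 : b x3 = x2 := by rw [hbx x3 m3, swap_apply_right]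
  have ai1 : a⁻¹ x1 = x2 := by rw [Perm.inv_eq_iff_eq, a2]
  have ai2 : a⁻¹ x2 = x1 := by rw [Perm.inv_eq_iff_eq, a1]
  have ai3 : a⁻¹ x3 = x3 := by rw [Perm.inv_eq_iff_eq, a3]
  have bi1 : b⁻¹ x1 = x1 := by rw [Perm.inv_eq_iff_eq, b1]
  have bi2 : b⁻¹ x2 = x3 := by rw [Perm.inv_eq_iff_eq, b3]
  have bi3 : b⁻¹ x3 = x2 := by rw [Perm.inv_eq_iff_eq, b2]
  set g : Perm α := a⁻¹ * b⁻¹ * a * b with hgdef
  have hg : g ∈ NN G P := Subgroup.mul_mem _ (Subgroup.mul_mem _ (Subgroup.mul_mem _ (Subgroup.inv_mem _ ha) (Subgroup.inv_mem _ hb)) ha) hb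
  have g1 : g x1 = x3 := by
    rw [hgdef, Perm.mul_apply, Perm.mul_apply, Perm.mul_apply, b1, a1, bi2, ai3]
  have g2 : g x2 = x1 := by
    rw [hgdef, Perm.mul_apply, Perm.mul_apply, Perm.mul_apply, b2, a3, bi3, ai2]
  have g3 : g x3 = x2 := by
    rw [hgdef, Perm.mul_apply, Perm.mul_apply, Perm.mul_apply, b3, a2, bi1, ai1]
  set c : Perm α := swap x1 x2 * swap x1 x3 with hcdef
  have hc3 : c.IsThreeCycle := Perm.isThreeCycle_swap_mul_swap_same h12 h13 h23
  have c1 : c x1 = x3 := by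
    rw [hcdef, Perm.mul_apply, swap_apply_left, swap_apply_of_ne_of_ne h13.symm h23.symm]
  have c2 : c x2 = x1 := by
    rw [hcdef, Perm.mul_apply, swap_apply_of_ne_of_ne h12.symm h23, swap_apply_right]
  have c3 : c x3 = x2 := by
    rw [hcdef, Perm.mul_apply, swap_apply_right, swap_apply_left]
  have hcD : ∀ x ∈ D, c x ∈ D ∧ g x = c x := by
    intro x hx
    rw [hDe, Finset.mem_insert, Finset.mem_insert, Finset.mem_singleton] at hx
    rcases hx with rfl | rfl | rfl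
    · rw [c1, g1]; exact ⟨m3, rfl⟩
    · rw [c2, g2]; exact ⟨m1, rfl⟩
    · rw [c3, g3]; exact ⟨m2, rfl⟩
  have hpows : ∀ n : ℕ, ∀ x ∈ D, (c ^ n) x ∈ D ∧ (g ^ n) x = (c ^ n) x := by
    intro n
    induction n with
    | zero => intro x hx; simp [hx]
    | succ n ih =>
      intro x hx
      obtain ⟨k1, k2⟩ := ih x hx
      obtain ⟨k3, k4⟩ := hcD _ k1
      have e1 : (g ^ (n + 1)) x = g ((g ^ n) x) := by rw [pow_succ']; rfl
      have e2 : (c ^ (n + 1)) x = c ((c ^ n) x) := by rw [pow_succ']; rfl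
      rw [e1, e2, k2]
      exact ⟨k3, k4⟩
  have hcout : ∀ n : ℕ, ∀ x ∉ D, (c ^ n) x = x := by
    intro n x hx
    have h1 : c x = x := by
      rw [hcdef, Perm.mul_apply, hout x1 x3 m1 m3 x hx, hout x1 x2 m1 m2 x hx]
    induction n with
    | zero => simp
    | succ n ih => rw [pow_succ, Perm.mul_apply, h1, ih]
  have hu : g * g ∈ TT G P D := by
    refine ⟨⟨Subgroup.mul_mem _ hg hg, fun x hx => sq_orb h hg hx⟩, ?_⟩
    change g * g ∈ Subgroup.centralizer (P : Set (Perm α))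
    rw [Subgroup.mem_centralizer_iff]
    intro w hw
    have h1 := hcom a ha b hb w hw
    rw [← hgdef] at h1
    rw [← mul_assoc, ← h1, mul_assoc, ← h1, ← mul_assoc]
  have ht : g ^ (2 * p) = c ^ (2 * p) := by
    ext x
    by_cases hx : x ∈ D
    · exact (hpows _ x hx).2
    · rw [hcout _ x hx, pow_mul, pow_two]
      exact hA _ hu x hx
  have htG : c ^ (2 * p) ∈ G := by
    rw [← ht]
    exact G.pow_mem hg.1 _
  have h3c : c ^ 3 = 1 := by
    have := hc3.orderOf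
    rw [← this, pow_orderOf_eq_one]
  have hp3 : p % 3 ≠ 0 := by
    intro hc0
    have h1 : 3 ∣ p := Nat.dvd_of_mod_eq_zero hc0
    have h2 := (Nat.prime_dvd_prime_iff_eq Nat.prime_three h.pr).1 h1
    omega
  have hmod : c ^ (2 * p) = c ^ ((2 * p) % 3) := by
    conv_lhs => rw [← Nat.div_add_mod (2 * p) 3, pow_add, pow_mul, h3c, one_pow, one_mul]
  have hcG : c ∈ G := by
    have hcase : (2 * p) % 3 = 1 ∨ (2 * p) % 3 = 2 := by omega
    rcases hcase with h1 | h1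
    · rw [hmod, h1, pow_one] at htG
      exact htG
    · rw [hmod, h1] at htG
      have h2 : c = (c ^ 2)⁻¹ := by
        rw [eq_inv_iff_mul_eq_one, ← pow_succ']
        exact h3c
      rw [h2]
      exact G.inv_mem htG
  exact Perm.alternatingGroup_le_of_isPreprimitive_of_isThreeCycle_mem (preprim h) hc3 hcG

/-- MT-32 -/
theorem final_32 (h : Dt G P D 2 p 3) (hp : 5 ≤ p) (hA : ∀ u ∈ TT G P D, ∀ x ∉ D, (u ^ p) x = x) : alternatingGroup α ≤ G := by
  by_cases hc : ∃ u ∈ P, u ≠ 1 ∧ ∃ y, y ∉ D ∧ u y = y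
  · obtain ⟨u, hu, hu1, y, hy, huy⟩ := hc
    exact case1 h hu hu1 hy huy
  · refine case2 h hp hA ?_
    intro u hu y hy huy
    by_contra hne
    exact hc ⟨u, hu, hne, y, hy, huy⟩

end Cfsg.Agent.Lib.H70MT_32
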