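import Cfsg.Agent.Lib.H70MT0
import Cfsg.Agent.S0713

/-! # S4220, piece MT-32 (helper35, second seat) -/

set_option autoImplicit false

namespace Cfsg.Agent.Lib.H70MT_32b

open Equiv Cfsg.Agent.Lib.H70MT

variable {α : Type*} [Fintype α] [DecidableEq α] {G P : Subgroup (Perm α)} {D : Finset α} {k p r : ℕ}

theorem preprim (h : Dt G P D k p r) : MulAction.IsPreprimitive G α := by
  have h1 := h.tr
  have hk := h.kr
  have hk1 := h.k1
  have hkp := h.kp
  have hc := h.card
  have h2 : MulAction.IsMultiplyPretransitive G α 2 := by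
    apply MulAction.isMultiplyPretransitive_of_le (n := r + 1) (by omega)
    rw [Nat.card_eq_fintype_card, hc]
    have : 1 ≤ k * p := Nat.mul_pos (by omega) (by omega)
    omega
  exact MulAction.isPreprimitive_of_is_two_pretransitive h2

theorem stab_normal (h : Dt G P D k p r) {x : α} (hx : x ∉ D) :
    (MulAction.stabilizer P x).Normal ∧ (MulAction.stabilizer P x).index = p := by
  have hp := h.pr
  have : Fact p.Prime := ⟨hp⟩
  have h1 : (MulAction.stabilizer P x).index = p := by rw [MulAction.index_stabilizer, h.orb x hx]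
  refine ⟨?_, h1⟩
  apply Subgroup.normal_of_index_eq_minFac_card
  obtain ⟨n, hn⟩ := IsPGroup.iff_card.1 h.hP
  rw [h1, hn]
  rw [hp.pow_minFac]
  rintro rfl
  have h2 := Subgroup.index_dvd_card (MulAction.stabilizer P x)
  rw [h1, hn, pow_zero] at h2
  exact hp.one_lt.ne' (Nat.dvd_one.1 h2)

theorem fix_orbit (h : Dt G P D k p r) {x : α} (hx : x ∉ D) {g : Perm α} (hg : g ∈ P) (hgx : g x = x) {u : Perm α}
    (hu : u ∈ P) : g (u x) = u x := by
  have h1 := (stab_normal h hx).1
  have h2 : (⟨g, hg⟩ : P) ∈ MulAction.stabilizer P x := hgx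
  have h3 := h1.conj_mem _ h2 (⟨u, hu⟩⁻¹ : P)
  have h4 : (u⁻¹ * g * u) x = x := by
    have h5 : ((⟨u, hu⟩⁻¹ : P) * ⟨g, hg⟩ * (⟨u, hu⟩⁻¹ : P)⁻¹) • x = x := h3
    rw [inv_inv] at h5
    exact h5
  rw [Perm.mul_apply, Perm.mul_apply, Perm.inv_eq_iff_eq] at h4
  exact h4

theorem pow_orbit (h : Dt G P D k p r) (g : Perm α) (hg : g ∈ P) : g ^ p = 1 := by
  apply Equiv.ext
  intro x
  by_cases hx : x ∈ D
  · exact h.fix _ (P.pow_mem hg p) x hx
  · obtain ⟨h1, h2⟩ := stab_normal h hx
    have h3 := (MulAction.stabilizer P x).pow_index_mem (⟨g, hg⟩ : P)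
    rw [h2] at h3
    exact h3

theorem orbit_not_mem (h : Dt G P D k p r) {x y : α} (hx : x ∉ D) (hy : y ∈ MulAction.orbit P x) : y ∉ D := by
  intro hyD
  obtain ⟨u, rfl⟩ := hy
  have h1 := h.fix _ (P.inv_mem u.2) _ hyD
  apply hx
  have h2 : (u : Perm α)⁻¹ ((u : Perm α) x) = x := by simp
  have h1' : (u : Perm α)⁻¹ ((u : Perm α) x) = (u : Perm α) x := h1
  have h3 : (u : Perm α) x = x := by rw [← h1']; exact h2
  have h4 : (u : Perm α) x ∈ D := hyD
  rwa [h3] at h4

theorem two_orbits (h : Dt G P D 2 p r) {x y z : α} (hx : x ∉ D) (hy : y ∉ D) (hz : z ∉ D) :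
    y ∈ MulAction.orbit P x ∨ z ∈ MulAction.orbit P x ∨ z ∈ MulAction.orbit P y := by
  classical
  by_contra hcon
  push Not at hcon
  obtain ⟨h1, h2, h3⟩ := hcon
  have d1 : Disjoint (MulAction.orbit P x) (MulAction.orbit P y) := by
    rw [Set.disjoint_left]
    intro w hw hw'
    apply h1
    rw [← MulAction.orbit_eq_iff] at hw hw' ⊢
    rw [← hw', hw]
  have d2 : Disjoint (MulAction.orbit P x ∪ MulAction.orbit P y) (MulAction.orbit P z) := by
    rw [Set.disjoint_left]
    rintro w (hw | hw) hw'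
    · apply h2
      rw [← MulAction.orbit_eq_iff] at hw hw' ⊢
      rw [← hw', hw]
    · apply h3
      rw [← MulAction.orbit_eq_iff] at hw hw' ⊢
      rw [← hw', hw]
  have d3 : Disjoint (MulAction.orbit P x ∪ MulAction.orbit P y ∪ MulAction.orbit P z) (D : Set α) := by
    rw [Set.disjoint_left]
    rintro w ((hw | hw) | hw) hw'
    · exact orbit_not_mem h hx hw hw'
    · exact orbit_not_mem h hy hw hw'
    · exact orbit_not_mem h hz hw hw'
  have c1 := Set.ncard_union_eq d3
  rw [Set.ncard_union_eq d2, Set.ncard_union_eq d1, h.orb x hx, h.orb y hy, h.orb z hz, Set.ncard_coe_finset, h.hD] at c1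
  have c2 : (MulAction.orbit P x ∪ MulAction.orbit P y ∪ MulAction.orbit P z ∪ (D : Set α)).ncard ≤ Nat.card α :=
    Set.ncard_le_card _
  rw [c1, Nat.card_eq_fintype_card, h.card] at c2
  have := h.pr.pos
  omega

theorem case_one (h : Dt G P D 2 p 3) {g : Perm α} (hg : g ∈ P) (hg1 : g ≠ 1) {x : α} (hx : x ∉ D) (hgx : g x = x) :
    alternatingGroup α ≤ G := by
  classical
  have hp := h.pr
  have : Fact p.Prime := ⟨hp⟩
  have h1 : ∃ y, g y ≠ y := by
    by_contra hcon
    push Not at hcon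
    exact hg1 (Equiv.ext hcon)
  obtain ⟨y, hy⟩ := h1
  have hyD : y ∉ D := fun hc => hy (h.fix g hg y hc)
  have hyx : y ∉ MulAction.orbit P x := by
    rintro ⟨u, rfl⟩
    exact hy (fix_orbit h hx hg hgx u.2)
  have hsup : (g.support : Set α) = MulAction.orbit P y := by
    ext z
    rw [Finset.mem_coe, Perm.mem_support]
    constructor
    · intro hz
      have hzD : z ∉ D := fun hc => hz (h.fix g hg z hc)
      rcases two_orbits h hx hyD hzD with h2 | h2 | h2
      · exact absurd h2 hyx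
      · obtain ⟨u, rfl⟩ := h2
        exact absurd (fix_orbit h hx hg hgx u.2) hz
      · exact h2
    · rintro ⟨u, rfl⟩ hz
      apply hy
      have h2 : (u : Perm α) y ∉ D := orbit_not_mem h hyD ⟨u, rfl⟩
      have h3 := fix_orbit h h2 hg hz (P.inv_mem u.2)
      simpa using h3
  have hcard : g.support.card = p := by
    rw [← Set.ncard_coe_finset, hsup, h.orb y hyD]
  have hord : orderOf g = p := orderOf_eq_prime (pow_orbit h g hg) hg1
  have hcyc : g.IsCycle := by
    apply Perm.isCycle_of_prime_order (by rw [hord]; exact hp)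
    rw [hcard, hord]
    have := hp.pos
    omega
  have hc := h.card
  have h2 := hp.two_le
  exact Cfsg.Agent.S0713.result G (preprim h) hp (by omega) (by omega) hcyc hcard (h.PG hg)

theorem case_two (h : Dt G P D 2 p 3) (hp5 : 5 ≤ p) (hA : ∀ u ∈ TT G P D, ∀ x ∉ D, (u ^ p) x = x)
    (hfree : ∀ g ∈ P, g ≠ 1 → ∀ x ∉ D, g x ≠ x) : alternatingGroup α ≤ G := by
  classical
  have hp := h.pr
  have : Fact p.Prime := ⟨hp⟩
  have hx : ∃ x, x ∉ D := by
    by_contra hcon
    push Not at hcon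
    have h1 : D = Finset.univ := Finset.eq_univ_iff_forall.2 hcon
    have h2 := h.hD
    rw [h1, Finset.card_univ, h.card] at h2
    omega
  obtain ⟨x, hx⟩ := hx
  have hPc : Nat.card P = p := by
    have h1 := (MulAction.stabilizer P x).card_mul_index
    have h2 : MulAction.stabilizer P x = ⊥ := by
      rw [eq_bot_iff]
      intro g hg
      rw [Subgroup.mem_bot]
      by_contra hne
      exact hfree g g.2 (fun hc => hne (Subtype.ext hc)) x hx hg
    rw [(stab_normal h hx).2, h2, Subgroup.card_bot, one_mul] at h1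
    exact h1.symm
  have hcyc : IsCyclic P := isCyclic_of_prime_card hPc
  have hcomm : ∀ f f' : MulAut P, f * f' = f' * f := by
    intro f f'
    apply (IsCyclic.mulAutMulEquiv P).injective
    rw [map_mul, map_mul, mul_comm]
  -- commutators in `N` centralize `P`
  have hcc : ∀ a ∈ NN G P, ∀ b ∈ NN G P, a * b * a⁻¹ * b⁻¹ ∈ Subgroup.centralizer (P : Set (Perm α)) := by
    intro a ha b hb
    have ha' : a ∈ Subgroup.normalizer (P : Set (Perm α)) := ha.2
    have hb' : b ∈ Subgroup.normalizer (P : Set (Perm α)) := hb.2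
    have h1 : P.normalizerMonoidHom (⟨a, ha'⟩ * ⟨b, hb'⟩) = P.normalizerMonoidHom (⟨b, hb'⟩ * ⟨a, ha'⟩) := by
      rw [map_mul, map_mul, hcomm]
    rw [Subgroup.mem_centralizer_iff]
    intro y hy
    have h2 : ∀ w (hw : w ∈ P), a * b * w * (a * b)⁻¹ = b * a * w * (b * a)⁻¹ := by
      intro w hw
      have h3 := congrArg (fun f : MulAut P => ((f ⟨w, hw⟩ : P) : Perm α)) h1
      exact h3
    have h4 : (b * a)⁻¹ * y * (b * a) ∈ P := by
      have h5 := (Subgroup.mem_normalizer_iff.1 (Subgroup.inv_mem _ (Subgroup.mul_mem _ hb' ha')) y).1 hy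
      rwa [inv_inv] at h5
    have h5 := h2 _ h4
    have h6 : b * a * ((b * a)⁻¹ * y * (b * a)) * (b * a)⁻¹ = y := by group
    rw [h6] at h5
    have h7 : a * b * a⁻¹ * b⁻¹ * y * (a * b * a⁻¹ * b⁻¹)⁻¹ = y := by
      calc a * b * a⁻¹ * b⁻¹ * y * (a * b * a⁻¹ * b⁻¹)⁻¹
          = a * b * ((b * a)⁻¹ * y * (b * a)) * (a * b)⁻¹ := by group
        _ = y := h5
    calc y * (a * b * a⁻¹ * b⁻¹) = (a * b * a⁻¹ * b⁻¹ * y * (a * b * a⁻¹ * b⁻¹)⁻¹) * (a * b * a⁻¹ * b⁻¹) := by rw [h7]
      _ = a * b * a⁻¹ * b⁻¹ * y := by group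
  -- the three points
  obtain ⟨d0, d1, d2, h01, h02, h12, hDe⟩ := Finset.card_eq_three.1 h.hD
  have hm0 : d0 ∈ D := by rw [hDe]; simp
  have hm1 : d1 ∈ D := by rw [hDe]; simp
  have hm2 : d2 ∈ D := by rw [hDe]; simp
  obtain ⟨a, haG, haN, ha⟩ := h.wit (swap d0 d1) (by
    intro z hz
    exact swap_apply_of_ne_of_ne (fun hc => hz (hc ▸ hm0)) (fun hc => hz (hc ▸ hm1)))
  obtain ⟨b, hbG, hbN, hb⟩ := h.wit (swap d0 d2) (by
    intro z hz
    exact swap_apply_of_ne_of_ne (fun hc => hz (hc ▸ hm0)) (fun hc => hz (hc ▸ hm2)))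
  have haNN : a ∈ NN G P := ⟨haG, haN⟩
  have hbNN : b ∈ NN G P := ⟨hbG, hbN⟩
  set g := a * b * a⁻¹ * b⁻¹ with hg
  have hgC := hcc a haNN b hbNN
  have hgN : g ∈ NN G P := Subgroup.mul_mem _ (Subgroup.mul_mem _ (Subgroup.mul_mem _ haNN hbNN) (Subgroup.inv_mem _ haNN)) (Subgroup.inv_mem _ hbNN)
  -- values on D
  have a0 : a d0 = d1 := by rw [ha d0 hm0, swap_apply_left]
  have a1 : a d1 = d0 := by rw [ha d1 hm1, swap_apply_right]
  have a2 : a d2 = d2 := by rw [ha d2 hm2, swap_apply_of_ne_of_ne h02.symm h12.symm]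
  have b0 : b d0 = d2 := by rw [hb d0 hm0, swap_apply_left]
  have b2 : b d2 = d0 := by rw [hb d2 hm2, swap_apply_right]
  have b1 : b d1 = d1 := by rw [hb d1 hm1, swap_apply_of_ne_of_ne h01.symm h12]
  have ai0 : a⁻¹ d0 = d1 := by rw [Perm.inv_eq_iff_eq]; exact a1.symm
  have ai1 : a⁻¹ d1 = d0 := by rw [Perm.inv_eq_iff_eq]; exact a0.symm
  have ai2 : a⁻¹ d2 = d2 := by rw [Perm.inv_eq_iff_eq]; exact a2.symm
  have bi0 : b⁻¹ d0 = d2 := by rw [Perm.inv_eq_iff_eq]; exact b2.symm
  have bi2 : b⁻¹ d2 = d0 := by rw [Perm.inv_eq_iff_eq]; exact b0.symm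
  have bi1 : b⁻¹ d1 = d1 := by rw [Perm.inv_eq_iff_eq]; exact b1.symm
  have g0' : g d0 = d1 := by rw [hg]; simp only [Perm.mul_apply, bi0, ai2, b2, a0]
  have g1' : g d1 = d2 := by rw [hg]; simp only [Perm.mul_apply, bi1, ai1, b0, a2]
  have g2' : g d2 = d0 := by rw [hg]; simp only [Perm.mul_apply, bi2, ai0, b1, a1]
  have g3 : ∀ z ∈ D, (g ^ 3) z = z := by
    intro z hz
    have e : g ^ 3 = g * g * g := by rw [pow_succ, pow_two]
    rw [e, Perm.mul_apply, Perm.mul_apply]
    rw [hDe] at hz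
    simp only [Finset.mem_insert, Finset.mem_singleton] at hz
    rcases hz with rfl | rfl | rfl
    · rw [g0', g1', g2']
    · rw [g1', g2', g0']
    · rw [g2', g0', g1']
  -- g permutes the orbits
  have horb : ∀ {z w : α}, w ∈ MulAction.orbit P z → g w ∈ MulAction.orbit P (g z) := by
    rintro z w ⟨u, rfl⟩
    refine ⟨u, ?_⟩
    have h1 := Subgroup.mem_centralizer_iff.1 hgC u u.2
    have h2 := congrArg (fun s : Perm α => s z) h1
    exact h2
  have hginv : ∀ z, z ∉ D → g z ∉ D := by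
    intro z hz hc
    apply hz
    -- use that `g` maps `D` onto `D`
    rw [hDe] at hc ⊢
    simp only [Finset.mem_insert, Finset.mem_singleton] at hc ⊢
    rcases hc with hc | hc | hc
    · right; right; exact g.injective (by rw [hc, g2'])
    · left; exact g.injective (by rw [hc, g0'])
    · right; left; exact g.injective (by rw [hc, g1'])
  have hK : g ^ 2 ∈ KK G P D := by
    refine mem_KK.2 ⟨Subgroup.pow_mem _ hgN 2, fun z hz => ?_⟩
    have hz1 := hginv z hz
    have hz2 := hginv _ hz1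
    have e2 : (g ^ 2) z = g (g z) := by rw [pow_two, Perm.mul_apply]
    have key : g (g z) ∈ MulAction.orbit P z := by
      rcases two_orbits h hz hz1 hz2 with h1 | h1 | h1
      · have h2 := horb h1
        rw [← MulAction.orbit_eq_iff] at h1 h2 ⊢
        rw [h2, h1]
      · exact h1
      · have h2 : g z ∈ MulAction.orbit P z := by
          obtain ⟨u, hu⟩ := h1
          refine ⟨u, ?_⟩
          apply g.injective
          have h3 := Subgroup.mem_centralizer_iff.1 hgC u u.2
          have h4 := congrArg (fun s : Perm α => s z) h3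
          have h5 : (u : Perm α) (g z) = g ((u : Perm α) z) := h4
          have h6 : (u : Perm α) (g z) = g (g z) := hu
          show g ((u : Perm α) z) = g (g z)
          rw [← h5, h6]
        have h3 := horb h2
        rw [← MulAction.orbit_eq_iff] at h2 h3 ⊢
        rw [h3, h2]
    obtain ⟨u, hu⟩ := key
    exact ⟨u, u.2, by rw [e2]; exact hu.symm⟩
  have hT : g ^ 2 ∈ TT G P D := ⟨hK, Subgroup.pow_mem _ hgC 2⟩
  have hout : ∀ z ∉ D, ((g ^ 2) ^ p) z = z := hA _ hT
  -- the three-cycle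
  set t := (g ^ 2) ^ p with ht
  have htG : t ∈ G := Subgroup.pow_mem _ (Subgroup.pow_mem _ hgN.1 2) p
  have htc : t.IsThreeCycle := by
    have h3 : t ^ 3 = 1 := by
      apply Equiv.ext
      intro z
      by_cases hz : z ∈ D
      · have e : t ^ 3 = (g ^ 3) ^ (2 * p) := by rw [ht, ← pow_mul, ← pow_mul, ← pow_mul]; congr 1; ring
        rw [e]
        have h1 : ∀ m : ℕ, ((g ^ 3) ^ m) z = z := by
          intro m
          induction m with
          | zero => rfl
          | succ m ih => rw [pow_succ, Perm.mul_apply, g3 z hz, ih]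
        exact h1 _
      · have h1 : ∀ m : ℕ, (t ^ m) z = z := by
          intro m
          induction m with
          | zero => rfl
          | succ m ih => rw [pow_succ, Perm.mul_apply, hout z hz, ih]
        exact h1 _
    have hne : t d0 ≠ d0 := by
      intro hc
      -- 2p mod 3 is nonzero
      have hp3 : p % 3 ≠ 0 := by
        intro h0
        have h1 : 3 ∣ p := Nat.dvd_of_mod_eq_zero h0
        have h2 := (Nat.prime_dvd_prime_iff_eq Nat.prime_three hp).1 h1
        omega
      have h1 : ∀ m : ℕ, (g ^ (3 * m)) d0 = d0 := by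
        intro m
        rw [pow_mul]
        induction m with
        | zero => rfl
        | succ m ih => rw [pow_succ, Perm.mul_apply, g3 d0 hm0, ih]
      have h2 : t = g ^ (2 * p) := by rw [ht, ← pow_mul]
      have h3 : (2 * p) % 3 = 1 ∨ (2 * p) % 3 = 2 := by omega
      rcases h3 with h3 | h3
      · have h4 : 2 * p = 1 + 3 * (2 * p / 3) := by omega
        rw [h2, h4, pow_add, Perm.mul_apply, h1, pow_one, g0'] at hc
        exact h01 hc.symm
      · have h4 : 2 * p = 2 + 3 * (2 * p / 3) := by omega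
        rw [h2, h4, pow_add, Perm.mul_apply, h1, pow_two, Perm.mul_apply, g0', g1'] at hc
        exact h02 hc.symm
    have hne1 : t ≠ 1 := by rintro hc; rw [hc] at hne; exact hne rfl
    have hord : orderOf t = 3 := orderOf_eq_prime h3 hne1
    have hsupp : t.support ⊆ D := by
      intro z hz
      rw [Perm.mem_support] at hz
      by_contra hzD
      exact hz (hout z hzD)
    have hle : t.support.card ≤ 3 := by rw [← h.hD]; exact Finset.card_le_card hsupp
    have hcyc : t.IsCycle := by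
      apply Perm.isCycle_of_prime_order (by rw [hord]; exact Nat.prime_three)
      rw [hord]; omega
    show t.cycleType = {3}
    rw [hcyc.cycleType, ← hcyc.orderOf, hord]
  exact Perm.alternatingGroup_le_of_isPreprimitive_of_isThreeCycle_mem (preprim h) htc htG

theorem final_32 (h : Dt G P D 2 p 3) (hp : 5 ≤ p) (hA : ∀ u ∈ TT G P D, ∀ x ∉ D, (u ^ p) x = x) :
    alternatingGroup α ≤ G := by
  by_cases hcase : ∃ g ∈ P, g ≠ 1 ∧ ∃ x, x ∉ D ∧ g x = x
  · obtain ⟨g, hg, hg1, x, hx, hgx⟩ := hcase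
    exact case_one h hg hg1 hx hgx
  · push Not at hcase
    exact case_two h hp hA hcase

end Cfsg.Agent.Lib.H70MT_32b
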