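import Cfsg.Agent.S0713

set_option autoImplicit false
set_option maxRecDepth 4000

namespace Cfsg.Agent.Lib.H70MT_9

open Equiv

theorem mm {G : Subgroup (Perm (Fin 9))} {w w' : Perm (Fin 9)} (h : w' = w) (hw : w' ∈ G) : w ∈ G := h ▸ hw

def X : Perm (Fin 9) := swap 0 1 * swap 1 2 * (swap 3 4 * swap 4 5)

def cj (a b c d e f : Fin 9) : Perm (Fin 9) := swap a b * swap b c * (swap d e * swap e f)

theorem conj_x (g : Perm (Fin 9)) : g * X * g⁻¹ = cj (g 0) (g 1) (g 2) (g 3) (g 4) (g 5) := by
  unfold X cj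
  simp only [Equiv.swap_apply_apply]
  group

theorem t5 : ∀ i : Fin 9, i ≠ 0 → i ≠ 1 → i ≠ 2 → i ≠ 3 → i = 4 ∨ i = 5 ∨ i = 6 ∨ i = 7 ∨ i = 8 := by decide

theorem t678 : ∀ i : Fin 9, i ≠ 0 → i ≠ 1 → i ≠ 2 → i ≠ 3 → i ≠ 4 → i ≠ 5 → i = 6 ∨ i = 7 ∨ i = 8 := by
  intro i; fin_cases i <;> simp

theorem nev (g : Perm (Fin 9)) {i j u : Fin 9} (h : i ≠ j) (hj : g j = u) : g i ≠ u :=
  fun e => h (g.injective (e.trans hj.symm))

theorem ext9 (g W : Perm (Fin 9)) (h0 : g 0 = W 0) (h1 : g 1 = W 1) (h2 : g 2 = W 2) (h3 : g 3 = W 3) (h4 : g 4 = W 4)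
    (h5 : g 5 = W 5) (h6 : g 6 = W 6) (h7 : g 7 = W 7) (h8 : g 8 = W 8) : g = W :=
  Equiv.ext fun t => by fin_cases t <;> assumption

theorem trans4 {G : Subgroup (Perm (Fin 9))} (hG : MulAction.IsMultiplyPretransitive G (Fin 9) 4) (e : Fin 4 ↪ Fin 9) :
    ∃ g ∈ G, g 0 = e 0 ∧ g 1 = e 1 ∧ g 2 = e 2 ∧ g 3 = e 3 := by
  obtain ⟨g, hg⟩ := hG.exists_smul_eq (⟨![0, 1, 2, 3], by decide⟩ : Fin 4 ↪ Fin 9) e
  refine ⟨g.1, g.2, ?_, ?_, ?_, ?_⟩
  · exact DFunLike.congr_fun hg 0
  · exact DFunLike.congr_fun hg 1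
  · exact DFunLike.congr_fun hg 2
  · exact DFunLike.congr_fun hg 3

theorem close5 {G : Subgroup (Perm (Fin 9))} (hG : MulAction.IsPreprimitive G (Fin 9)) (w : Perm (Fin 9)) (hw : w ∈ G)
    (h1 : w ≠ 1) (h5 : w * w * w * w * w = 1) : alternatingGroup (Fin 9) ≤ G := by
  have : Fact (Nat.Prime 5) := ⟨by norm_num⟩
  have ho : orderOf w = 5 := orderOf_eq_prime (by rw [← h5]; simp [pow_succ]) h1
  have hc : w.IsCycle := Equiv.Perm.isCycle_of_prime_order' (by rw [ho]; norm_num) (by rw [ho]; simp)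
  exact Cfsg.Agent.S0713.result G hG (p := 5) (by norm_num) (by simp) (by simp) hc (by rw [← hc.orderOf, ho]) hw

theorem close3 {G : Subgroup (Perm (Fin 9))} (hG : MulAction.IsPreprimitive G (Fin 9)) (a b c : Fin 9)
    (h : a ≠ b ∧ a ≠ c ∧ b ≠ c) (hw : swap a b * swap b c ∈ G) : alternatingGroup (Fin 9) ≤ G := by
  refine Equiv.Perm.alternatingGroup_le_of_isPreprimitive_of_isThreeCycle_mem hG ?_ hw
  rw [swap_comm a b]
  exact Equiv.Perm.isThreeCycle_swap_mul_swap_same h.1.symm h.2.2 h.2.1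

theorem stg {G : Subgroup (Perm (Fin 9))} (hG : MulAction.IsMultiplyPretransitive G (Fin 9) 4) (hP : MulAction.IsPreprimitive G (Fin 9)) (hx : X ∈ G)
    (h22 : ∀ a b c d : Fin 9, (a ≠ b ∧ a ≠ c ∧ a ≠ d ∧ b ≠ c ∧ b ≠ d ∧ c ≠ d) → swap a b * swap c d ∈ G → alternatingGroup (Fin 9) ≤ G) :
    alternatingGroup (Fin 9) ≤ G ∨ swap (0 : Fin 9) 1 * swap (4 : Fin 9) 5 * swap (6 : Fin 9) 7 ∈ G ∨ swap (0 : Fin 9) 1 * swap (4 : Fin 9) 5 * swap (6 : Fin 9) 8 ∈ G ∨ swap (0 : Fin 9) 1 * swap (4 : Fin 9) 5 * swap (7 : Fin 9) 8 ∈ G := by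
  obtain ⟨g, hg, h0, h1, h2, h3⟩ := trans4 hG ⟨![1, 0, 2, 3], by decide⟩
  replace h0 : g 0 = 1 := h0
  replace h1 : g 1 = 0 := h1
  replace h2 : g 2 = 2 := h2
  replace h3 : g 3 = 3 := h3
  have hw : cj (g 0) (g 1) (g 2) (g 3) (g 4) (g 5) ∈ G := by
    rw [← conj_x]; exact G.mul_mem (G.mul_mem hg hx) (G.inv_mem hg)
  rw [h0, h1, h2, h3] at hw
  rcases t5 (g 4) (nev g (j := 1) (by decide) h1) (nev g (j := 0) (by decide) h0) (nev g (j := 2) (by decide) h2) (nev g (j := 3) (by decide) h3) with h4 | h4 | h4 | h4 | h4 <;>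
  rcases t5 (g 5) (nev g (j := 1) (by decide) h1) (nev g (j := 0) (by decide) h0) (nev g (j := 2) (by decide) h2) (nev g (j := 3) (by decide) h3) with h5 | h5 | h5 | h5 | h5 <;> rw [h4, h5] at hw
  · exact absurd (g.injective (h4.trans h5.symm)) (by decide)
  · exact Or.inl (close3 hP 3 5 4 (by decide) (mm (by decide +kernel) (G.mul_mem hx hw)))
  · exact Or.inl (h22 3 5 4 6 (by decide) (mm (by decide +kernel) (G.mul_mem hx hw)))
  · exact Or.inl (h22 3 5 4 7 (by decide) (mm (by decide +kernel) (G.mul_mem hx hw)))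
  · exact Or.inl (h22 3 5 4 8 (by decide) (mm (by decide +kernel) (G.mul_mem hx hw)))
  · rcases t678 (g 6) (nev g (j := 1) (by decide) h1) (nev g (j := 0) (by decide) h0) (nev g (j := 2) (by decide) h2) (nev g (j := 3) (by decide) h3) (nev g (j := 5) (by decide) h5) (nev g (j := 4) (by decide) h4) with h6 | h6 | h6 <;>
    rcases t678 (g 7) (nev g (j := 1) (by decide) h1) (nev g (j := 0) (by decide) h0) (nev g (j := 2) (by decide) h2) (nev g (j := 3) (by decide) h3) (nev g (j := 5) (by decide) h5) (nev g (j := 4) (by decide) h4) with h7 | h7 | h7 <;>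
    rcases t678 (g 8) (nev g (j := 1) (by decide) h1) (nev g (j := 0) (by decide) h0) (nev g (j := 2) (by decide) h2) (nev g (j := 3) (by decide) h3) (nev g (j := 5) (by decide) h5) (nev g (j := 4) (by decide) h4) with h8 | h8 | h8
    · exact absurd (g.injective (h6.trans h7.symm)) (by decide)
    · exact absurd (g.injective (h6.trans h7.symm)) (by decide)
    · exact absurd (g.injective (h6.trans h7.symm)) (by decide)
    · exact absurd (g.injective (h6.trans h8.symm)) (by decide)
    · exact absurd (g.injective (h7.trans h8.symm)) (by decide)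
    · have hg2 : swap (0 : Fin 9) 1 * swap (4 : Fin 9) 5 ∈ G := mm (ext9 g (swap (0 : Fin 9) 1 * swap (4 : Fin 9) 5) (h0.trans (by decide)) (h1.trans (by decide)) (h2.trans (by decide)) (h3.trans (by decide)) (h4.trans (by decide)) (h5.trans (by decide)) (h6.trans (by decide)) (h7.trans (by decide)) (h8.trans (by decide))) hg
      exact Or.inl (h22 0 1 4 5 (by decide) (mm (by decide +kernel) hg2))
    · exact absurd (g.injective (h6.trans h8.symm)) (by decide)
    · exact Or.inr (Or.inr (Or.inr (mm (ext9 g (swap (0 : Fin 9) 1 * swap (4 : Fin 9) 5 * swap (7 : Fin 9) 8) (h0.trans (by decide)) (h1.trans (by decide)) (h2.trans (by decide)) (h3.trans (by decide)) (h4.trans (by decide)) (h5.trans (by decide)) (h6.trans (by decide)) (h7.trans (by decide)) (h8.trans (by decide))) hg)))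
    · exact absurd (g.injective (h7.trans h8.symm)) (by decide)
    · exact absurd (g.injective (h7.trans h8.symm)) (by decide)
    · exact absurd (g.injective (h6.trans h8.symm)) (by decide)
    · exact Or.inr (Or.inl (mm (ext9 g (swap (0 : Fin 9) 1 * swap (4 : Fin 9) 5 * swap (6 : Fin 9) 7) (h0.trans (by decide)) (h1.trans (by decide)) (h2.trans (by decide)) (h3.trans (by decide)) (h4.trans (by decide)) (h5.trans (by decide)) (h6.trans (by decide)) (h7.trans (by decide)) (h8.trans (by decide))) hg))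
    · exact absurd (g.injective (h6.trans h7.symm)) (by decide)
    · exact absurd (g.injective (h6.trans h7.symm)) (by decide)
    · exact absurd (g.injective (h6.trans h7.symm)) (by decide)
    · have hg2 : swap (0 : Fin 9) 1 * swap (4 : Fin 9) 5 * swap (6 : Fin 9) 7 * swap (7 : Fin 9) 8 ∈ G := mm (ext9 g (swap (0 : Fin 9) 1 * swap (4 : Fin 9) 5 * swap (6 : Fin 9) 7 * swap (7 : Fin 9) 8) (h0.trans (by decide)) (h1.trans (by decide)) (h2.trans (by decide)) (h3.trans (by decide)) (h4.trans (by decide)) (h5.trans (by decide)) (h6.trans (by decide)) (h7.trans (by decide)) (h8.trans (by decide))) hg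
      exact Or.inl (close3 hP 6 8 7 (by decide) (mm (by decide +kernel) (G.mul_mem hg2 hg2)))
    · exact absurd (g.injective (h6.trans h8.symm)) (by decide)
    · exact absurd (g.injective (h7.trans h8.symm)) (by decide)
    · exact absurd (g.injective (h7.trans h8.symm)) (by decide)
    · have hg2 : swap (0 : Fin 9) 1 * swap (4 : Fin 9) 5 * swap (6 : Fin 9) 8 * swap (8 : Fin 9) 7 ∈ G := mm (ext9 g (swap (0 : Fin 9) 1 * swap (4 : Fin 9) 5 * swap (6 : Fin 9) 8 * swap (8 : Fin 9) 7) (h0.trans (by decide)) (h1.trans (by decide)) (h2.trans (by decide)) (h3.trans (by decide)) (h4.trans (by decide)) (h5.trans (by decide)) (h6.trans (by decide)) (h7.trans (by decide)) (h8.trans (by decide))) hg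
      exact Or.inl (close3 hP 6 7 8 (by decide) (mm (by decide +kernel) (G.mul_mem hg2 hg2)))
    · exact absurd (g.injective (h6.trans h8.symm)) (by decide)
    · exact Or.inr (Or.inr (Or.inl (mm (ext9 g (swap (0 : Fin 9) 1 * swap (4 : Fin 9) 5 * swap (6 : Fin 9) 8) (h0.trans (by decide)) (h1.trans (by decide)) (h2.trans (by decide)) (h3.trans (by decide)) (h4.trans (by decide)) (h5.trans (by decide)) (h6.trans (by decide)) (h7.trans (by decide)) (h8.trans (by decide))) hg)))
    · exact absurd (g.injective (h7.trans h8.symm)) (by decide)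
    · exact absurd (g.injective (h6.trans h8.symm)) (by decide)
    · exact absurd (g.injective (h6.trans h7.symm)) (by decide)
    · exact absurd (g.injective (h6.trans h7.symm)) (by decide)
    · exact absurd (g.injective (h6.trans h7.symm)) (by decide)
  · exact absurd (g.injective (h4.trans h5.symm)) (by decide)
  · exact Or.inl (close3 hP 4 5 6 (by decide) (mm (by decide +kernel) (G.mul_mem hx hw)))
  · exact Or.inl (close3 hP 4 5 7 (by decide) (mm (by decide +kernel) (G.mul_mem hx hw)))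
  · exact Or.inl (close3 hP 4 5 8 (by decide) (mm (by decide +kernel) (G.mul_mem hx hw)))
  · exact Or.inl (close3 hP 3 6 5 (by decide) (mm (by decide +kernel) (G.mul_mem hx hw)))
  · exact Or.inl (h22 3 6 4 5 (by decide) (mm (by decide +kernel) (G.mul_mem hx hw)))
  · exact absurd (g.injective (h4.trans h5.symm)) (by decide)
  · exact Or.inl (close5 hP _ (G.mul_mem hx hw) (by decide +kernel) (by decide +kernel))
  · exact Or.inl (close5 hP _ (G.mul_mem hx hw) (by decide +kernel) (by decide +kernel))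
  · exact Or.inl (close3 hP 3 7 5 (by decide) (mm (by decide +kernel) (G.mul_mem hx hw)))
  · exact Or.inl (h22 3 7 4 5 (by decide) (mm (by decide +kernel) (G.mul_mem hx hw)))
  · exact Or.inl (close5 hP _ (G.mul_mem hx hw) (by decide +kernel) (by decide +kernel))
  · exact absurd (g.injective (h4.trans h5.symm)) (by decide)
  · exact Or.inl (close5 hP _ (G.mul_mem hx hw) (by decide +kernel) (by decide +kernel))
  · exact Or.inl (close3 hP 3 8 5 (by decide) (mm (by decide +kernel) (G.mul_mem hx hw)))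
  · exact Or.inl (h22 3 8 4 5 (by decide) (mm (by decide +kernel) (G.mul_mem hx hw)))
  · exact Or.inl (close5 hP _ (G.mul_mem hx hw) (by decide +kernel) (by decide +kernel))
  · exact Or.inl (close5 hP _ (G.mul_mem hx hw) (by decide +kernel) (by decide +kernel))
  · exact absurd (g.injective (h4.trans h5.symm)) (by decide)

theorem sty {G : Subgroup (Perm (Fin 9))} (hG : MulAction.IsMultiplyPretransitive G (Fin 9) 4) (hP : MulAction.IsPreprimitive G (Fin 9)) (hx : X ∈ G)
    (h22 : ∀ a b c d : Fin 9, (a ≠ b ∧ a ≠ c ∧ a ≠ d ∧ b ≠ c ∧ b ≠ d ∧ c ≠ d) → swap a b * swap c d ∈ G → alternatingGroup (Fin 9) ≤ G) :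
    alternatingGroup (Fin 9) ≤ G ∨ swap (0 : Fin 9) 1 * swap (1 : Fin 9) 2 * swap (6 : Fin 9) 7 * swap (7 : Fin 9) 8 ∈ G ∨ swap (0 : Fin 9) 1 * swap (1 : Fin 9) 2 * swap (6 : Fin 9) 8 * swap (8 : Fin 9) 7 ∈ G := by
  obtain ⟨g, hg, h0, h1, h2, h3⟩ := trans4 hG ⟨![1, 2, 0, 3], by decide⟩
  replace h0 : g 0 = 1 := h0
  replace h1 : g 1 = 2 := h1
  replace h2 : g 2 = 0 := h2
  replace h3 : g 3 = 3 := h3
  have hw : cj (g 0) (g 1) (g 2) (g 3) (g 4) (g 5) ∈ G := by
    rw [← conj_x]; exact G.mul_mem (G.mul_mem hg hx) (G.inv_mem hg)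
  rw [h0, h1, h2, h3] at hw
  rcases t5 (g 4) (nev g (j := 2) (by decide) h2) (nev g (j := 0) (by decide) h0) (nev g (j := 1) (by decide) h1) (nev g (j := 3) (by decide) h3) with h4 | h4 | h4 | h4 | h4 <;>
  rcases t5 (g 5) (nev g (j := 2) (by decide) h2) (nev g (j := 0) (by decide) h0) (nev g (j := 1) (by decide) h1) (nev g (j := 3) (by decide) h3) with h5 | h5 | h5 | h5 | h5 <;> rw [h4, h5] at hw
  · exact absurd (g.injective (h4.trans h5.symm)) (by decide)
  · rcases t678 (g 6) (nev g (j := 2) (by decide) h2) (nev g (j := 0) (by decide) h0) (nev g (j := 1) (by decide) h1) (nev g (j := 3) (by decide) h3) (nev g (j := 4) (by decide) h4) (nev g (j := 5) (by decide) h5) with h6 | h6 | h6 <;>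
    rcases t678 (g 7) (nev g (j := 2) (by decide) h2) (nev g (j := 0) (by decide) h0) (nev g (j := 1) (by decide) h1) (nev g (j := 3) (by decide) h3) (nev g (j := 4) (by decide) h4) (nev g (j := 5) (by decide) h5) with h7 | h7 | h7 <;>
    rcases t678 (g 8) (nev g (j := 2) (by decide) h2) (nev g (j := 0) (by decide) h0) (nev g (j := 1) (by decide) h1) (nev g (j := 3) (by decide) h3) (nev g (j := 4) (by decide) h4) (nev g (j := 5) (by decide) h5) with h8 | h8 | h8
    · exact absurd (g.injective (h6.trans h7.symm)) (by decide)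
    · exact absurd (g.injective (h6.trans h7.symm)) (by decide)
    · exact absurd (g.injective (h6.trans h7.symm)) (by decide)
    · exact absurd (g.injective (h6.trans h8.symm)) (by decide)
    · exact absurd (g.injective (h7.trans h8.symm)) (by decide)
    · have hg2 : swap (0 : Fin 9) 1 * swap (1 : Fin 9) 2 ∈ G := mm (ext9 g (swap (0 : Fin 9) 1 * swap (1 : Fin 9) 2) (h0.trans (by decide)) (h1.trans (by decide)) (h2.trans (by decide)) (h3.trans (by decide)) (h4.trans (by decide)) (h5.trans (by decide)) (h6.trans (by decide)) (h7.trans (by decide)) (h8.trans (by decide))) hg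
      exact Or.inl (close3 hP 0 1 2 (by decide) (mm (by decide +kernel) hg2))
    · exact absurd (g.injective (h6.trans h8.symm)) (by decide)
    · have hg2 : swap (0 : Fin 9) 1 * swap (1 : Fin 9) 2 * swap (7 : Fin 9) 8 ∈ G := mm (ext9 g (swap (0 : Fin 9) 1 * swap (1 : Fin 9) 2 * swap (7 : Fin 9) 8) (h0.trans (by decide)) (h1.trans (by decide)) (h2.trans (by decide)) (h3.trans (by decide)) (h4.trans (by decide)) (h5.trans (by decide)) (h6.trans (by decide)) (h7.trans (by decide)) (h8.trans (by decide))) hg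
      exact Or.inl (close3 hP 0 2 1 (by decide) (mm (by decide +kernel) (G.mul_mem hg2 hg2)))
    · exact absurd (g.injective (h7.trans h8.symm)) (by decide)
    · exact absurd (g.injective (h7.trans h8.symm)) (by decide)
    · exact absurd (g.injective (h6.trans h8.symm)) (by decide)
    · have hg2 : swap (0 : Fin 9) 1 * swap (1 : Fin 9) 2 * swap (6 : Fin 9) 7 ∈ G := mm (ext9 g (swap (0 : Fin 9) 1 * swap (1 : Fin 9) 2 * swap (6 : Fin 9) 7) (h0.trans (by decide)) (h1.trans (by decide)) (h2.trans (by decide)) (h3.trans (by decide)) (h4.trans (by decide)) (h5.trans (by decide)) (h6.trans (by decide)) (h7.trans (by decide)) (h8.trans (by decide))) hg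
      exact Or.inl (close3 hP 0 2 1 (by decide) (mm (by decide +kernel) (G.mul_mem hg2 hg2)))
    · exact absurd (g.injective (h6.trans h7.symm)) (by decide)
    · exact absurd (g.injective (h6.trans h7.symm)) (by decide)
    · exact absurd (g.injective (h6.trans h7.symm)) (by decide)
    · exact Or.inr (Or.inl (mm (ext9 g (swap (0 : Fin 9) 1 * swap (1 : Fin 9) 2 * swap (6 : Fin 9) 7 * swap (7 : Fin 9) 8) (h0.trans (by decide)) (h1.trans (by decide)) (h2.trans (by decide)) (h3.trans (by decide)) (h4.trans (by decide)) (h5.trans (by decide)) (h6.trans (by decide)) (h7.trans (by decide)) (h8.trans (by decide))) hg))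
    · exact absurd (g.injective (h6.trans h8.symm)) (by decide)
    · exact absurd (g.injective (h7.trans h8.symm)) (by decide)
    · exact absurd (g.injective (h7.trans h8.symm)) (by decide)
    · exact Or.inr (Or.inr (mm (ext9 g (swap (0 : Fin 9) 1 * swap (1 : Fin 9) 2 * swap (6 : Fin 9) 8 * swap (8 : Fin 9) 7) (h0.trans (by decide)) (h1.trans (by decide)) (h2.trans (by decide)) (h3.trans (by decide)) (h4.trans (by decide)) (h5.trans (by decide)) (h6.trans (by decide)) (h7.trans (by decide)) (h8.trans (by decide))) hg))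
    · exact absurd (g.injective (h6.trans h8.symm)) (by decide)
    · have hg2 : swap (0 : Fin 9) 1 * swap (1 : Fin 9) 2 * swap (6 : Fin 9) 8 ∈ G := mm (ext9 g (swap (0 : Fin 9) 1 * swap (1 : Fin 9) 2 * swap (6 : Fin 9) 8) (h0.trans (by decide)) (h1.trans (by decide)) (h2.trans (by decide)) (h3.trans (by decide)) (h4.trans (by decide)) (h5.trans (by decide)) (h6.trans (by decide)) (h7.trans (by decide)) (h8.trans (by decide))) hg
      exact Or.inl (close3 hP 0 2 1 (by decide) (mm (by decide +kernel) (G.mul_mem hg2 hg2)))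
    · exact absurd (g.injective (h7.trans h8.symm)) (by decide)
    · exact absurd (g.injective (h6.trans h8.symm)) (by decide)
    · exact absurd (g.injective (h6.trans h7.symm)) (by decide)
    · exact absurd (g.injective (h6.trans h7.symm)) (by decide)
    · exact absurd (g.injective (h6.trans h7.symm)) (by decide)
  · exact Or.inl (close3 hP 0 1 2 (by decide) (mm (by decide +kernel) (G.mul_mem (G.mul_mem hx hw) (G.mul_mem hx hw))))
  · exact Or.inl (close3 hP 0 1 2 (by decide) (mm (by decide +kernel) (G.mul_mem (G.mul_mem hx hw) (G.mul_mem hx hw))))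
  · exact Or.inl (close3 hP 0 1 2 (by decide) (mm (by decide +kernel) (G.mul_mem (G.mul_mem hx hw) (G.mul_mem hx hw))))
  · exact Or.inl (close3 hP 0 2 1 (by decide) (mm (by decide +kernel) (G.mul_mem hx hw)))
  · exact absurd (g.injective (h4.trans h5.symm)) (by decide)
  · exact Or.inl (h22 3 6 4 5 (by decide) (mm (by decide +kernel) (G.mul_mem hx (G.inv_mem hw))))
  · exact Or.inl (h22 3 7 4 5 (by decide) (mm (by decide +kernel) (G.mul_mem hx (G.inv_mem hw))))
  · exact Or.inl (h22 3 8 4 5 (by decide) (mm (by decide +kernel) (G.mul_mem hx (G.inv_mem hw))))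
  · exact Or.inl (h22 3 5 4 6 (by decide) (mm (by decide +kernel) (G.mul_mem hx (G.inv_mem hw))))
  · exact Or.inl (close3 hP 0 1 2 (by decide) (mm (by decide +kernel) (G.mul_mem (G.mul_mem hx hw) (G.mul_mem hx hw))))
  · exact absurd (g.injective (h4.trans h5.symm)) (by decide)
  · exact Or.inl (close5 hP _ (G.mul_mem (G.mul_mem (G.mul_mem hx hw) (G.mul_mem hx hw)) (G.mul_mem hx hw)) (by decide +kernel) (by decide +kernel))
  · exact Or.inl (close5 hP _ (G.mul_mem (G.mul_mem (G.mul_mem hx hw) (G.mul_mem hx hw)) (G.mul_mem hx hw)) (by decide +kernel) (by decide +kernel))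
  · exact Or.inl (h22 3 5 4 7 (by decide) (mm (by decide +kernel) (G.mul_mem hx (G.inv_mem hw))))
  · exact Or.inl (close3 hP 0 1 2 (by decide) (mm (by decide +kernel) (G.mul_mem (G.mul_mem hx hw) (G.mul_mem hx hw))))
  · exact Or.inl (close5 hP _ (G.mul_mem (G.mul_mem (G.mul_mem hx hw) (G.mul_mem hx hw)) (G.mul_mem hx hw)) (by decide +kernel) (by decide +kernel))
  · exact absurd (g.injective (h4.trans h5.symm)) (by decide)
  · exact Or.inl (close5 hP _ (G.mul_mem (G.mul_mem (G.mul_mem hx hw) (G.mul_mem hx hw)) (G.mul_mem hx hw)) (by decide +kernel) (by decide +kernel))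
  · exact Or.inl (h22 3 5 4 8 (by decide) (mm (by decide +kernel) (G.mul_mem hx (G.inv_mem hw))))
  · exact Or.inl (close3 hP 0 1 2 (by decide) (mm (by decide +kernel) (G.mul_mem (G.mul_mem hx hw) (G.mul_mem hx hw))))
  · exact Or.inl (close5 hP _ (G.mul_mem (G.mul_mem (G.mul_mem hx hw) (G.mul_mem hx hw)) (G.mul_mem hx hw)) (by decide +kernel) (by decide +kernel))
  · exact Or.inl (close5 hP _ (G.mul_mem (G.mul_mem (G.mul_mem hx hw) (G.mul_mem hx hw)) (G.mul_mem hx hw)) (by decide +kernel) (by decide +kernel))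
  · exact absurd (g.injective (h4.trans h5.symm)) (by decide)

theorem nine_of {G : Subgroup (Perm (Fin 9))} (hG : MulAction.IsMultiplyPretransitive G (Fin 9) 4) (hP : MulAction.IsPreprimitive G (Fin 9)) (hx : X ∈ G)
    (h22 : ∀ a b c d : Fin 9, (a ≠ b ∧ a ≠ c ∧ a ≠ d ∧ b ≠ c ∧ b ≠ d ∧ c ≠ d) → swap a b * swap c d ∈ G → alternatingGroup (Fin 9) ≤ G) :
    alternatingGroup (Fin 9) ≤ G := by
  rcases stg hG hP hx h22 with h | hgg
  · exact h
  rcases sty hG hP hx h22 with h | hyy
  · exact h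
  obtain ⟨g, hg, h0, h1, h2, h3⟩ := trans4 hG ⟨![0, 1, 3, 2], by decide⟩
  replace h0 : g 0 = 0 := h0
  replace h1 : g 1 = 1 := h1
  replace h2 : g 2 = 3 := h2
  replace h3 : g 3 = 2 := h3
  have hv : cj (g 0) (g 1) (g 2) (g 3) (g 4) (g 5) ∈ G := by
    rw [← conj_x]; exact G.mul_mem (G.mul_mem hg hx) (G.inv_mem hg)
  rw [h0, h1, h2, h3] at hv
  rcases t5 (g 4) (nev g (j := 0) (by decide) h0) (nev g (j := 1) (by decide) h1) (nev g (j := 3) (by decide) h3) (nev g (j := 2) (by decide) h2) with h4 | h4 | h4 | h4 | h4 <;>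
  rcases t5 (g 5) (nev g (j := 0) (by decide) h0) (nev g (j := 1) (by decide) h1) (nev g (j := 3) (by decide) h3) (nev g (j := 2) (by decide) h2) with h5 | h5 | h5 | h5 | h5 <;> rw [h4, h5] at hv
  · exact absurd (g.injective (h4.trans h5.symm)) (by decide)
  · exact h22 0 4 2 3 (by decide) (mm (by decide +kernel) (G.mul_mem hx (G.inv_mem hv)))
  · exact h22 2 5 3 6 (by decide) (mm (by decide +kernel) (G.mul_mem (G.mul_mem hx (G.inv_mem hv)) (G.mul_mem hx (G.inv_mem hv))))
  · exact h22 2 5 3 7 (by decide) (mm (by decide +kernel) (G.mul_mem (G.mul_mem hx (G.inv_mem hv)) (G.mul_mem hx (G.inv_mem hv))))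
  · exact h22 2 5 3 8 (by decide) (mm (by decide +kernel) (G.mul_mem (G.mul_mem hx (G.inv_mem hv)) (G.mul_mem hx (G.inv_mem hv))))
  · exact close5 hP _ (G.mul_mem hx hv) (by decide +kernel) (by decide +kernel)
  · exact absurd (g.injective (h4.trans h5.symm)) (by decide)
  · rcases hgg with hg3 | hg3 | hg3
    · exact close5 hP _ (G.mul_mem (G.mul_mem hv hg3) (G.mul_mem hv hg3)) (by decide +kernel) (by decide +kernel)
    · exact close5 hP _ (G.mul_mem (G.mul_mem hv hg3) (G.mul_mem hv hg3)) (by decide +kernel) (by decide +kernel)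
    · exact h22 2 4 5 6 (by decide) (mm (by decide +kernel) (G.mul_mem (G.mul_mem hv hg3) (G.mul_mem hv hg3)))
  · rcases hgg with hg3 | hg3 | hg3
    · exact close5 hP _ (G.mul_mem (G.mul_mem hv hg3) (G.mul_mem hv hg3)) (by decide +kernel) (by decide +kernel)
    · exact h22 2 4 5 7 (by decide) (mm (by decide +kernel) (G.mul_mem (G.mul_mem hv hg3) (G.mul_mem hv hg3)))
    · exact close5 hP _ (G.mul_mem (G.mul_mem hv hg3) (G.mul_mem hv hg3)) (by decide +kernel) (by decide +kernel)
  · rcases hgg with hg3 | hg3 | hg3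
    · exact h22 2 4 5 8 (by decide) (mm (by decide +kernel) (G.mul_mem (G.mul_mem hv hg3) (G.mul_mem hv hg3)))
    · exact close5 hP _ (G.mul_mem (G.mul_mem hv hg3) (G.mul_mem hv hg3)) (by decide +kernel) (by decide +kernel)
    · exact close5 hP _ (G.mul_mem (G.mul_mem hv hg3) (G.mul_mem hv hg3)) (by decide +kernel) (by decide +kernel)
  · rcases hgg with hg3 | hg3 | hg3
    · exact close5 hP _ (G.mul_mem (G.mul_mem hv hg3) (G.mul_mem hv hg3)) (by decide +kernel) (by decide +kernel)
    · exact close5 hP _ (G.mul_mem (G.mul_mem hv hg3) (G.mul_mem hv hg3)) (by decide +kernel) (by decide +kernel)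
    · exact h22 2 4 5 6 (by decide) (mm (by decide +kernel) (G.mul_mem (G.mul_mem hv hg3) (G.mul_mem hv hg3)))
  · exact h22 0 5 4 6 (by decide) (mm (by decide +kernel) (G.mul_mem (G.mul_mem hx (G.inv_mem hv)) (G.mul_mem hx (G.inv_mem hv))))
  · exact absurd (g.injective (h4.trans h5.symm)) (by decide)
  · rcases hyy with hy | hy
    · exact close3 hP 1 2 6 (by decide) (mm (by decide +kernel) (G.mul_mem (G.mul_mem hv hy) (G.mul_mem hv hy)))
    · exact h22 1 8 2 6 (by decide) (mm (by decide +kernel) (G.mul_mem (G.mul_mem hv hy) (G.mul_mem hv hy)))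
  · rcases hyy with hy | hy
    · exact h22 1 7 2 6 (by decide) (mm (by decide +kernel) (G.mul_mem (G.mul_mem hv hy) (G.mul_mem hv hy)))
    · exact close3 hP 1 2 6 (by decide) (mm (by decide +kernel) (G.mul_mem (G.mul_mem hv hy) (G.mul_mem hv hy)))
  · rcases hgg with hg3 | hg3 | hg3
    · exact close5 hP _ (G.mul_mem (G.mul_mem hv hg3) (G.mul_mem hv hg3)) (by decide +kernel) (by decide +kernel)
    · exact h22 2 4 5 7 (by decide) (mm (by decide +kernel) (G.mul_mem (G.mul_mem hv hg3) (G.mul_mem hv hg3)))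
    · exact close5 hP _ (G.mul_mem (G.mul_mem hv hg3) (G.mul_mem hv hg3)) (by decide +kernel) (by decide +kernel)
  · exact h22 0 5 4 7 (by decide) (mm (by decide +kernel) (G.mul_mem (G.mul_mem hx (G.inv_mem hv)) (G.mul_mem hx (G.inv_mem hv))))
  · rcases hyy with hy | hy
    · exact h22 1 8 2 7 (by decide) (mm (by decide +kernel) (G.mul_mem (G.mul_mem hv hy) (G.mul_mem hv hy)))
    · exact close3 hP 1 2 7 (by decide) (mm (by decide +kernel) (G.mul_mem (G.mul_mem hv hy) (G.mul_mem hv hy)))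
  · exact absurd (g.injective (h4.trans h5.symm)) (by decide)
  · rcases hyy with hy | hy
    · exact close3 hP 1 2 7 (by decide) (mm (by decide +kernel) (G.mul_mem (G.mul_mem hv hy) (G.mul_mem hv hy)))
    · exact h22 1 6 2 7 (by decide) (mm (by decide +kernel) (G.mul_mem (G.mul_mem hv hy) (G.mul_mem hv hy)))
  · rcases hgg with hg3 | hg3 | hg3
    · exact h22 2 4 5 8 (by decide) (mm (by decide +kernel) (G.mul_mem (G.mul_mem hv hg3) (G.mul_mem hv hg3)))
    · exact close5 hP _ (G.mul_mem (G.mul_mem hv hg3) (G.mul_mem hv hg3)) (by decide +kernel) (by decide +kernel)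
    · exact close5 hP _ (G.mul_mem (G.mul_mem hv hg3) (G.mul_mem hv hg3)) (by decide +kernel) (by decide +kernel)
  · exact h22 0 5 4 8 (by decide) (mm (by decide +kernel) (G.mul_mem (G.mul_mem hx (G.inv_mem hv)) (G.mul_mem hx (G.inv_mem hv))))
  · rcases hyy with hy | hy
    · exact close3 hP 1 2 8 (by decide) (mm (by decide +kernel) (G.mul_mem (G.mul_mem hv hy) (G.mul_mem hv hy)))
    · exact h22 1 7 2 8 (by decide) (mm (by decide +kernel) (G.mul_mem (G.mul_mem hv hy) (G.mul_mem hv hy)))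
  · rcases hyy with hy | hy
    · exact h22 1 6 2 8 (by decide) (mm (by decide +kernel) (G.mul_mem (G.mul_mem hv hy) (G.mul_mem hv hy)))
    · exact close3 hP 1 2 8 (by decide) (mm (by decide +kernel) (G.mul_mem (G.mul_mem hv hy) (G.mul_mem hv hy)))
  · exact absurd (g.injective (h4.trans h5.symm)) (by decide)

theorem dbl9 {G : Subgroup (Perm (Fin 9))} (hG : MulAction.IsMultiplyPretransitive G (Fin 9) 4) (hP : MulAction.IsPreprimitive G (Fin 9))
    (a b c d : Fin 9) (hd : a ≠ b ∧ a ≠ c ∧ a ≠ d ∧ b ≠ c ∧ b ≠ d ∧ c ≠ d) (h : swap a b * swap c d ∈ G) :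
    alternatingGroup (Fin 9) ≤ G := by
  obtain ⟨hab, hac, had, hbc, hbd, hcd⟩ := hd
  obtain ⟨e, he⟩ : ∃ e : Fin 9, e ∉ ({a, b, c, d} : Finset (Fin 9)) := by
    by_contra hcon
    push Not at hcon
    have h1 : (Finset.univ : Finset (Fin 9)) ⊆ {a, b, c, d} := fun x _ => hcon x
    have h2 := Finset.card_le_card h1
    have h3 : ({a, b, c, d} : Finset (Fin 9)).card ≤ 4 := Finset.card_le_four
    simp at h2
    omega
  simp only [Finset.mem_insert, Finset.mem_singleton, not_or] at he
  obtain ⟨hea, heb, hec, hed⟩ := he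
  have i1 : Function.Injective ![a, b, c, d] := by
    intro i j hij
    fin_cases i <;> fin_cases j <;> simp_all
  have i2 : Function.Injective ![a, b, c, e] := by
    intro i j hij
    fin_cases i <;> fin_cases j <;> simp_all
  obtain ⟨g, hg⟩ := hG.exists_smul_eq (⟨![a, b, c, d], i1⟩ : Fin 4 ↪ Fin 9) ⟨![a, b, c, e], i2⟩
  have g0 : g.1 a = a := DFunLike.congr_fun hg 0
  have g1 : g.1 b = b := DFunLike.congr_fun hg 1
  have g2 : g.1 c = c := DFunLike.congr_fun hg 2
  have g3 : g.1 d = e := DFunLike.congr_fun hg 3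
  have hw : g.1 * (swap a b * swap c d) * g.1⁻¹ ∈ G := G.mul_mem (G.mul_mem g.2 h) (G.inv_mem g.2)
  have he : g.1 * (swap a b * swap c d) * g.1⁻¹ = swap a b * swap c e := by
    have e1 : swap a b = g.1 * swap a b * g.1⁻¹ := by
      rw [← Equiv.swap_apply_apply, g0, g1]
    have e2 : swap c e = g.1 * swap c d * g.1⁻¹ := by
      rw [← Equiv.swap_apply_apply, g2, g3]
    rw [e2]
    nth_rewrite 2 [e1]
    group
  rw [he] at hw
  have hc : swap c d * swap a b = swap a b * swap c d := by
    have : Perm.Disjoint (swap c d) (swap a b) := by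
      rw [Perm.disjoint_iff_disjoint_support, Perm.support_swap hcd, Perm.support_swap hab]
      simp only [Finset.disjoint_left, Finset.mem_insert, Finset.mem_singleton]
      rintro x (rfl | rfl) (rfl | rfl) <;> simp_all
    exact this.commute.eq
  refine close3 hP d c e ⟨hcd.symm, Ne.symm hed, Ne.symm hec⟩ (mm ?_ (G.mul_mem h hw))
  calc swap a b * swap c d * (swap a b * swap c e) = swap a b * (swap c d * swap a b) * swap c e := by group
    _ = (swap a b * swap a b) * swap c d * swap c e := by rw [hc]; group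
    _ = swap d c * swap c e := by rw [swap_mul_self, one_mul, swap_comm c d]

/-- MT-9 -/
theorem nine (G : Subgroup (Perm (Fin 9))) (hG : MulAction.IsMultiplyPretransitive G (Fin 9) 4)
    (h : swap (0 : Fin 9) 1 * swap 1 2 * (swap 3 4 * swap 4 5) ∈ G) : alternatingGroup (Fin 9) ≤ G := by
  have h2 : MulAction.IsMultiplyPretransitive G (Fin 9) 2 :=
    MulAction.isMultiplyPretransitive_of_le (n := 4) (by norm_num) (by simp)
  have hP : MulAction.IsPreprimitive G (Fin 9) := MulAction.isPreprimitive_of_is_two_pretransitive h2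
  exact nine_of hG hP h (fun a b c d hd hw => dbl9 hG hP a b c d hd hw)

end Cfsg.Agent.Lib.H70MT_9
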