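import Cfsg.Agent.Lib.H70MT_D
import Cfsg.Agent.S0713

set_option autoImplicit false
set_option linter.all false
set_option maxRecDepth 100000
set_option synthInstance.maxSize 100000
set_option synthInstance.maxHeartbeats 2000000
set_option maxHeartbeats 2000000

namespace Cfsg.Agent.Lib.H70MT_9h11

open Equiv

def X (a b c d e f : Fin 9) : Perm (Fin 9) := swap a b * swap b c * (swap d e * swap e f)

def sup (w : Perm (Fin 9)) : ℕ := (Finset.univ.filter (fun i => w i ≠ i)).card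

def bad (w : Perm (Fin 9)) : Bool :=
  (sup w == 4 && decide (∀ i, w (w i) = i)) || sup w == 3 || (sup w == 5 && decide (∀ i, w (w (w (w (w i)))) = i))

theorem dt_of (w : Perm (Fin 9)) (h2 : ∀ i, w (w i) = i) (hs : w.support.card = 4) :
    ∃ a b c d : Fin 9, a ≠ b ∧ a ≠ c ∧ a ≠ d ∧ b ≠ c ∧ b ≠ d ∧ c ≠ d ∧ w = swap a b * swap c d := by
  obtain ⟨a, ha⟩ : w.support.Nonempty := by rw [← Finset.card_pos, hs]; norm_num
  have ha' : w a ≠ a := Equiv.Perm.mem_support.1 ha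
  have hb : w a ∈ w.support := Equiv.Perm.apply_mem_support.2 ha
  have hc1 : ((w.support.erase a).erase (w a)).card = 2 := by
    rw [Finset.card_erase_of_mem (Finset.mem_erase.2 ⟨ha', hb⟩), Finset.card_erase_of_mem ha, hs]
  obtain ⟨c, hc⟩ : ((w.support.erase a).erase (w a)).Nonempty := by rw [← Finset.card_pos, hc1]; norm_num
  rw [Finset.mem_erase, Finset.mem_erase] at hc
  obtain ⟨hcb, hca, hcs⟩ := hc
  have hc' : w c ≠ c := Equiv.Perm.mem_support.1 hcs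
  have hda : w c ≠ a := by
    intro h
    apply hcb
    rw [← h, h2]
  have hdb : w c ≠ w a := fun h => hca (w.injective h)
  have hsub : ({a, w a, c, w c} : Finset (Fin 9)) = w.support := by
    apply Finset.eq_of_subset_of_card_le
    · intro y hy
      simp only [Finset.mem_insert, Finset.mem_singleton] at hy
      rcases hy with rfl | rfl | rfl | rfl
      · exact ha
      · exact hb
      · exact hcs
      · exact Equiv.Perm.apply_mem_support.2 hcs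
    · rw [hs, Finset.card_insert_of_notMem, Finset.card_insert_of_notMem, Finset.card_insert_of_notMem, Finset.card_singleton]
      · simpa using hc'.symm
      · simp only [Finset.mem_insert, Finset.mem_singleton, not_or]; exact ⟨hcb.symm, hdb.symm⟩
      · simp only [Finset.mem_insert, Finset.mem_singleton, not_or]; exact ⟨ha'.symm, hca.symm, hda.symm⟩
  refine ⟨a, w a, c, w c, ha'.symm, hca.symm, hda.symm, hcb.symm, hdb.symm, hc'.symm, ?_⟩
  ext1 y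
  rw [Equiv.Perm.mul_apply]
  by_cases h1 : y = a
  · subst h1
    rw [swap_apply_of_ne_of_ne hca.symm hda.symm, swap_apply_left]
  by_cases h3 : y = w a
  · subst h3
    rw [swap_apply_of_ne_of_ne hcb.symm hdb.symm, swap_apply_right, h2]
  by_cases h4 : y = c
  · subst h4
    rw [swap_apply_left, swap_apply_of_ne_of_ne hda hdb]
  by_cases h5 : y = w c
  · subst h5
    rw [swap_apply_right, swap_apply_of_ne_of_ne hca hcb, h2]
  · rw [swap_apply_of_ne_of_ne h4 h5, swap_apply_of_ne_of_ne h1 h3]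
    by_contra hne
    have : y ∈ w.support := Equiv.Perm.mem_support.2 hne
    rw [← hsub] at this
    simp only [Finset.mem_insert, Finset.mem_singleton] at this
    tauto

theorem of_bad (G : Subgroup (Perm (Fin 9))) (hG : MulAction.IsMultiplyPretransitive G (Fin 9) 4)
    (w : Perm (Fin 9)) (hw : w ∈ G) (hb : bad w = true) : alternatingGroup (Fin 9) ≤ G := by
  have hsup : w.support.card = sup w := by
    unfold sup
    congr 1
  have h2 : MulAction.IsMultiplyPretransitive G (Fin 9) 2 :=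
    MulAction.isMultiplyPretransitive_of_le (n := 4) (by norm_num) (by simp)
  have hprim : MulAction.IsPreprimitive G (Fin 9) := MulAction.isPreprimitive_of_is_two_pretransitive h2
  unfold bad at hb
  simp only [Bool.or_eq_true, Bool.and_eq_true, beq_iff_eq, decide_eq_true_eq] at hb
  rcases hb with (⟨h4, hsq⟩ | h3) | ⟨h5, hf⟩
  · obtain ⟨a, b, c, d, hab, hac, had, hbc, hbd, hcd, rfl⟩ := dt_of w hsq (hsup.trans h4)
    exact Cfsg.Agent.Lib.H70MT_D.dbl G hG (by simp) a b c d hab hac had hbc hbd hcd hw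
  · have h6 : w.IsThreeCycle := card_support_eq_three_iff.1 (hsup.trans h3)
    exact Equiv.Perm.alternatingGroup_le_of_isPreprimitive_of_isThreeCycle_mem hprim h6 hw
  · have hw1 : w ≠ 1 := by
      rintro rfl
      rw [Equiv.Perm.support_one, Finset.card_empty] at hsup
      omega
    have h7 : orderOf w = 5 := by
      have : Fact (Nat.Prime 5) := ⟨by norm_num⟩
      apply orderOf_eq_prime _ hw1
      ext i
      have := hf i
      simp only [pow_succ, pow_zero, one_mul, Equiv.Perm.mul_apply, Equiv.Perm.one_apply]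
      exact congrArg Fin.val this
    have hcyc : w.IsCycle := by
      apply Equiv.Perm.isCycle_of_prime_order
      · rw [h7]; norm_num
      · rw [h7, hsup, h5]; norm_num
    exact Cfsg.Agent.S0713.result G hprim (p := 5) (by norm_num) (by simp) (by simp) hcyc (hsup.trans h5) hw

theorem c1 : ∀ c d : Fin 9, c ≠ d → c ≠ 0 → c ≠ 1 → c ≠ 2 → c ≠ 8 → d ≠ 0 → d ≠ 1 → d ≠ 2 → d ≠ 8 →
    bad (X 0 1 2 3 4 5 * (X 0 1 2 8 c d)⁻¹) = true ∨ (c = 6 ∧ d = 7) ∨ (c = 7 ∧ d = 6) := by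
  decide +kernel

theorem c3 : ∀ e f : Fin 9, e ≠ f → e ≠ 0 → e ≠ 1 → e ≠ 2 → e ≠ 3 → f ≠ 0 → f ≠ 1 → f ≠ 2 → f ≠ 3 →
    bad (X 0 1 2 3 4 5 * X 1 0 2 3 e f) = true ∨ (e = 5 ∧ f = 4) := by
  decide +kernel

theorem c3a : ∀ b b' : Fin 9, b ≠ 0 → b ≠ 1 → b ≠ 2 → b ≠ 3 → b ≠ 4 → b ≠ 5 → b' ≠ 0 → b' ≠ 1 → b' ≠ 2 → b' ≠ 3 → b' ≠ 4 →
    bad (X 0 1 3 2 5 b * X 1 0 3 2 4 b') = true := by
  decide +kernel

theorem c3b : ∀ a a' : Fin 9, a ≠ 0 → a ≠ 1 → a ≠ 2 → a ≠ 3 → a ≠ 4 → a ≠ 5 → a' ≠ 0 → a' ≠ 1 → a' ≠ 2 → a' ≠ 3 → a' ≠ 5 →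
    bad (X 0 1 3 2 a 4 * X 1 0 3 2 a' 5) = true := by
  decide +kernel

theorem c4 : ∀ a b : Fin 9, a ≠ b → a ≠ 0 → a ≠ 1 → a ≠ 2 → a ≠ 3 → b ≠ 0 → b ≠ 1 → b ≠ 2 → b ≠ 3 →
    bad (X 0 1 2 3 4 5 * (X 0 1 3 2 a b)⁻¹) = true ∨ bad (X 0 1 2 3 4 5 * X 0 1 3 2 a b) = true ∨
    bad (X 0 1 2 3 4 5 * (X 0 1 3 2 a b)⁻¹ * (X 0 1 2 3 4 5 * (X 0 1 3 2 a b)⁻¹)) = true ∨
    (a = 5 ∧ b ≠ 4 ∧ b ≠ 5) ∨ (b = 4 ∧ a ≠ 4 ∧ a ≠ 5) ∨ (a ≠ 4 ∧ a ≠ 5 ∧ b ≠ 4 ∧ b ≠ 5) := by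
  decide +kernel

theorem c5 : ∀ a b : Fin 9, a ≠ b → a ≠ 0 → a ≠ 1 → a ≠ 2 → a ≠ 3 → a ≠ 4 → a ≠ 5 → b ≠ 0 → b ≠ 1 → b ≠ 2 → b ≠ 3 → b ≠ 4 → b ≠ 5 →
    (bad (X 0 1 3 2 a b * (X 0 1 2 8 6 7)⁻¹) = true ∨
      bad (X 0 1 3 2 a b * X 0 1 2 8 6 7 * (X 0 1 3 2 a b * X 0 1 2 8 6 7)) = true) ∧
    (bad (X 0 1 3 2 a b * (X 0 1 2 8 7 6)⁻¹) = true ∨
      bad (X 0 1 3 2 a b * X 0 1 2 8 7 6 * (X 0 1 3 2 a b * X 0 1 2 8 7 6)) = true) := by
  decide +kernel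

theorem tr (G : Subgroup (Perm (Fin 9))) (hG : MulAction.IsMultiplyPretransitive G (Fin 9) 4)
    (s t : Fin 4 → Fin 9) (hs : Function.Injective s) (ht : Function.Injective t) :
    ∃ g ∈ G, ∀ i, g (s i) = t i := by
  obtain ⟨g, hg⟩ := hG.exists_smul_eq (⟨s, hs⟩ : Fin 4 ↪ Fin 9) ⟨t, ht⟩
  refine ⟨g, g.2, fun i => ?_⟩
  exact congrArg (fun f : Fin 4 ↪ Fin 9 => f i) hg

theorem cj (g : Perm (Fin 9)) (a b c d e f : Fin 9) :
    g * X a b c d e f * g⁻¹ = X (g a) (g b) (g c) (g d) (g e) (g f) := by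
  unfold X
  simp only [swap_apply_apply]
  group

theorem nine (G : Subgroup (Perm (Fin 9))) (hG : MulAction.IsMultiplyPretransitive G (Fin 9) 4)
    (h : swap (0 : Fin 9) 1 * swap 1 2 * (swap 3 4 * swap 4 5) ∈ G) : alternatingGroup (Fin 9) ≤ G := by
  by_contra hcon
  have hb : ∀ w ∈ G, bad w = true → False := fun w hw hbad => hcon (of_bad G hG w hw hbad)
  have hx : X 0 1 2 3 4 5 ∈ G := h
  have hcj : ∀ g ∈ G, ∀ a b c d e f : Fin 9, X a b c d e f ∈ G → X (g a) (g b) (g c) (g d) (g e) (g f) ∈ G := by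
    intro g hg a b c d e f hX
    rw [← cj]
    exact G.mul_mem (G.mul_mem hg hX) (G.inv_mem hg)
  -- u
  obtain ⟨g1, hg1, hg1'⟩ := tr G hG ![0, 1, 2, 3] ![0, 1, 2, 8] (by decide) (by decide)
  have a0 : g1 0 = 0 := hg1' 0
  have a1 : g1 1 = 1 := hg1' 1
  have a2 : g1 2 = 2 := hg1' 2
  have a3 : g1 3 = 8 := hg1' 3
  have hu := hcj g1 hg1 0 1 2 3 4 5 hx
  rw [a0, a1, a2, a3] at hu
  have hne : ∀ (g : Perm (Fin 9)) (i j : Fin 9), i ≠ j → g i ≠ g j := fun g i j hij he => hij (g.injective he)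
  have hcd := c1 (g1 4) (g1 5) (hne _ _ _ (by decide)) (by rw [← a0]; exact hne _ _ _ (by decide))
    (by rw [← a1]; exact hne _ _ _ (by decide)) (by rw [← a2]; exact hne _ _ _ (by decide))
    (by rw [← a3]; exact hne _ _ _ (by decide)) (by rw [← a0]; exact hne _ _ _ (by decide))
    (by rw [← a1]; exact hne _ _ _ (by decide)) (by rw [← a2]; exact hne _ _ _ (by decide))
    (by rw [← a3]; exact hne _ _ _ (by decide))
  have hcd' : (g1 4 = 6 ∧ g1 5 = 7) ∨ (g1 4 = 7 ∧ g1 5 = 6) := by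
    rcases hcd with h1 | h1
    · exact (hb _ (G.mul_mem hx (G.inv_mem hu)) h1).elim
    · exact h1
  -- v
  obtain ⟨g2, hg2, hg2'⟩ := tr G hG ![0, 1, 2, 3] ![0, 1, 3, 2] (by decide) (by decide)
  have b0 : g2 0 = 0 := hg2' 0
  have b1 : g2 1 = 1 := hg2' 1
  have b2 : g2 2 = 3 := hg2' 2
  have b3 : g2 3 = 2 := hg2' 3
  have hv := hcj g2 hg2 0 1 2 3 4 5 hx
  rw [b0, b1, b2, b3] at hv
  have n45 : g2 4 ≠ g2 5 := hne _ _ _ (by decide)
  have n40 : g2 4 ≠ 0 := by rw [← b0]; exact hne _ _ _ (by decide)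
  have n41 : g2 4 ≠ 1 := by rw [← b1]; exact hne _ _ _ (by decide)
  have n43 : g2 4 ≠ 3 := by rw [← b2]; exact hne _ _ _ (by decide)
  have n42 : g2 4 ≠ 2 := by rw [← b3]; exact hne _ _ _ (by decide)
  have n50 : g2 5 ≠ 0 := by rw [← b0]; exact hne _ _ _ (by decide)
  have n51 : g2 5 ≠ 1 := by rw [← b1]; exact hne _ _ _ (by decide)
  have n53 : g2 5 ≠ 3 := by rw [← b2]; exact hne _ _ _ (by decide)
  have n52 : g2 5 ≠ 2 := by rw [← b3]; exact hne _ _ _ (by decide)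
  generalize g2 4 = a at *
  generalize g2 5 = b at *
  -- g
  obtain ⟨g, hg, hg'⟩ := tr G hG ![0, 1, 2, 3] ![1, 0, 2, 3] (by decide) (by decide)
  have d0 : g 0 = 1 := hg' 0
  have d1 : g 1 = 0 := hg' 1
  have d2 : g 2 = 2 := hg' 2
  have d3 : g 3 = 3 := hg' 3
  have hy := hcj g hg 0 1 2 3 4 5 hx
  rw [d0, d1, d2, d3] at hy
  have he := c3 (g 4) (g 5) (hne _ _ _ (by decide)) (by rw [← d1]; exact hne _ _ _ (by decide))
    (by rw [← d0]; exact hne _ _ _ (by decide)) (by rw [← d2]; exact hne _ _ _ (by decide))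
    (by rw [← d3]; exact hne _ _ _ (by decide)) (by rw [← d1]; exact hne _ _ _ (by decide))
    (by rw [← d0]; exact hne _ _ _ (by decide)) (by rw [← d2]; exact hne _ _ _ (by decide))
    (by rw [← d3]; exact hne _ _ _ (by decide))
  have he' : g 4 = 5 ∧ g 5 = 4 := by
    rcases he with h1 | h1
    · exact (hb _ (G.mul_mem hx hy) h1).elim
    · exact h1
  have hvg := hcj g hg 0 1 3 2 a b hv
  rw [d0, d1, d2, d3] at hvg
  have ga : ∀ i, i ≠ 0 → i ≠ 1 → i ≠ 2 → i ≠ 3 → g i ≠ 0 ∧ g i ≠ 1 ∧ g i ≠ 2 ∧ g i ≠ 3 := by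
    intro i h0 h1 h2 h3
    refine ⟨?_, ?_, ?_, ?_⟩
    · have q := hne g i 1 h1
      rwa [d1] at q
    · have q := hne g i 0 h0
      rwa [d0] at q
    · have q := hne g i 2 h2
      rwa [d2] at q
    · have q := hne g i 3 h3
      rwa [d3] at q
  rcases c4 a b n45 n40 n41 n42 n43 n50 n51 n52 n53 with h1 | h1 | h1 | h1 | h1 | h1
  · exact hb _ (G.mul_mem hx (G.inv_mem hv)) h1
  · exact hb _ (G.mul_mem hx hv) h1
  · exact hb _ (G.mul_mem (G.mul_mem hx (G.inv_mem hv)) (G.mul_mem hx (G.inv_mem hv))) h1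
  · obtain ⟨rfl, h4, h5⟩ := h1
    rw [he'.2] at hvg
    obtain ⟨q0, q1, q2, q3⟩ := ga b n50 n51 n52 n53
    have q4 : g b ≠ 4 := by rw [← he'.2]; exact hne _ _ _ h5
    exact hb _ (G.mul_mem hv hvg) (c3a b (g b) n50 n51 n52 n53 h4 h5 q0 q1 q2 q3 q4)
  · obtain ⟨rfl, h4, h5⟩ := h1
    rw [he'.1] at hvg
    obtain ⟨q0, q1, q2, q3⟩ := ga a n40 n41 n42 n43
    have q5 : g a ≠ 5 := by rw [← he'.1]; exact hne _ _ _ h4
    exact hb _ (G.mul_mem hv hvg) (c3b a (g a) n40 n41 n42 n43 h4 h5 q0 q1 q2 q3 q5)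
  · obtain ⟨h4, h5, h6, h7⟩ := h1
    have hc := c5 a b n45 n40 n41 n42 n43 h4 h5 n50 n51 n52 n53 h6 h7
    rcases hcd' with ⟨e1, e2⟩ | ⟨e1, e2⟩
    · rw [e1, e2] at hu
      rcases hc.1 with h8 | h8
      · exact hb _ (G.mul_mem hv (G.inv_mem hu)) h8
      · exact hb _ (G.mul_mem (G.mul_mem hv hu) (G.mul_mem hv hu)) h8
    · rw [e1, e2] at hu
      rcases hc.2 with h8 | h8
      · exact hb _ (G.mul_mem hv (G.inv_mem hu)) h8
      · exact hb _ (G.mul_mem (G.mul_mem hv hu) (G.mul_mem hv hu)) h8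

end Cfsg.Agent.Lib.H70MT_9h11
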