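import Cfsg.Agent.Lib.H70MT0
import Cfsg.Agent.S4219

set_option autoImplicit false
set_option linter.all false

namespace Cfsg.Agent.Lib.H70MT_E
open Equiv Cfsg.Agent.Lib.H70MT

variable {α : Type*} [Fintype α] [DecidableEq α]

theorem exists_Dt (G : Subgroup (Perm α)) {k p r : ℕ} (hp : p.Prime) (hn : Fintype.card α = k * p + r) (hk : 1 ≤ k) (hpk : k < p)
    (hrk : k < r) (hG : MulAction.IsMultiplyPretransitive G α (r + 1)) :
    ∃ (P : Subgroup (Perm α)) (D : Finset α), Dt G P D k p r := by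
  haveI : Fact p.Prime := ⟨hp⟩
  have hkp : 1 ≤ k * p := Nat.mul_pos hk hp.pos
  have hGr : MulAction.IsMultiplyPretransitive G α r :=
    MulAction.isMultiplyPretransitive_of_le (n := r + 1) (Nat.le_succ r) (by
      rw [Nat.card_eq_fintype_card]; omega)
  obtain ⟨x⟩ : Nonempty (Fin r ↪ α) := Function.Embedding.nonempty_of_card_le (by
    rw [Fintype.card_fin]; omega)
  let D : Finset α := Finset.univ.map x
  have hDm : ∀ y, y ∈ D ↔ ∃ i, x i = y := by intro y; simp [D]
  let H := MulAction.stabilizer G x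
  have hHx : ∀ h : H, ∀ i, ((h : G) : Perm α) (x i) = x i := by
    intro h i
    have h1 : (h : G) • x = x := h.2
    exact congrArg (fun f : Fin r ↪ α => f i) h1
  obtain ⟨P0⟩ : Nonempty (Sylow p H) := inferInstance
  let Q : Subgroup G := (P0 : Subgroup H).map H.subtype
  let P : Subgroup (Perm α) := Q.map G.subtype
  have hPmem : ∀ g, g ∈ P ↔ ∃ h : H, h ∈ (P0 : Subgroup H) ∧ ((h : G) : Perm α) = g := by
    intro g
    constructor
    · rintro ⟨_, ⟨h, hh, rfl⟩, rfl⟩
      exact ⟨h, hh, rfl⟩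
    · rintro ⟨h, hh, rfl⟩
      exact ⟨_, ⟨h, hh, rfl⟩, rfl⟩
  have hPG : P ≤ G := by
    rintro _ ⟨g, _, rfl⟩
    exact g.2
  have hPp : IsPGroup p P := (P0.isPGroup'.map H.subtype).map G.subtype
  have hfix : ∀ g ∈ P, ∀ y ∈ D, g y = y := by
    intro g hg y hy
    obtain ⟨h, _, rfl⟩ := (hPmem g).1 hg
    obtain ⟨i, rfl⟩ := (hDm y).1 hy
    exact hHx h i
  -- the `H`-orbit
  have htrans : ∀ y y', y ∉ D → y' ∉ D → ∃ h : H, ((h : G) : Perm α) y = y' := by
    intro y y' hy hy'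
    have hyr : y ∉ Set.range x := fun ⟨i, hi⟩ => hy ((hDm y).2 ⟨i, hi⟩)
    have hyr' : y' ∉ Set.range x := fun ⟨i, hi⟩ => hy' ((hDm y').2 ⟨i, hi⟩)
    let a : Fin (r + 1) ↪ α := ⟨Fin.snoc (α := fun _ => α) x y,
      Fin.snoc_injective_of_injective x.injective hyr⟩
    let b : Fin (r + 1) ↪ α := ⟨Fin.snoc (α := fun _ => α) x y',
      Fin.snoc_injective_of_injective x.injective hyr'⟩
    obtain ⟨g, hg⟩ := hG.exists_smul_eq a b
    have h1 : ∀ i : Fin (r + 1), (g : Perm α) (Fin.snoc (α := fun _ => α) x y i) =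
        Fin.snoc (α := fun _ => α) x y' i := fun i =>
      congrArg (fun f : Fin (r + 1) ↪ α => f i) hg
    have h2 : ∀ i : Fin r, (g : Perm α) (x i) = x i := by
      intro i
      have h3 := h1 (Fin.castSucc i)
      rwa [Fin.snoc_castSucc, Fin.snoc_castSucc] at h3
    have h3 : (g : Perm α) y = y' := by
      have h4 := h1 (Fin.last r)
      rwa [Fin.snoc_last, Fin.snoc_last] at h4
    refine ⟨⟨g, ?_⟩, h3⟩
    rw [MulAction.mem_stabilizer_iff]
    ext i
    exact h2 i
  have horbH : ∀ y, y ∉ D → (MulAction.orbit H y) = ((Dᶜ : Finset α) : Set α) := by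
    intro y hy
    ext y'
    simp only [Finset.coe_compl, Set.mem_compl_iff, Finset.mem_coe]
    constructor
    · rintro ⟨h, rfl⟩ h1
      obtain ⟨i, hi⟩ := (hDm _).1 h1
      apply hy
      rw [hDm]
      refine ⟨i, ?_⟩
      have h2 : ((h : G) : Perm α) (x i) = ((h : G) : Perm α) y := by
        rw [hHx h i]; exact hi
      exact ((h : G) : Perm α).injective h2
    · intro h1
      obtain ⟨h, hh⟩ := htrans y y' hy h1
      exact ⟨h, hh⟩
  have hDc : (Dᶜ : Finset α).card = k * p := by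
    rw [Finset.card_compl, hn]
    simp [D]
  have horbHc : ∀ y, y ∉ D → (MulAction.orbit H y).ncard = k * p := by
    intro y hy
    rw [horbH y hy, Set.ncard_coe_finset, hDc]
  have horb : ∀ y ∉ D, (MulAction.orbit P y).ncard = p := by
    intro y hy
    obtain ⟨m, hm⟩ := hPp.card_orbit y
    rw [Nat.card_coe_set_eq] at hm
    have hsub : MulAction.orbit P y ⊆ ((Dᶜ : Finset α) : Set α) := by
      rintro _ ⟨g, rfl⟩
      obtain ⟨h, _, hg⟩ := (hPmem _).1 g.2
      rw [← horbH y hy]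
      refine ⟨h, ?_⟩
      change ((h : G) : Perm α) y = (g : Perm α) y
      rw [hg]
    have hle : (MulAction.orbit P y).ncard ≤ k * p := by
      rw [← hDc, ← Set.ncard_coe_finset]
      exact Set.ncard_le_ncard hsub (Set.toFinite _)
    have hm2 : m < 2 := by
      by_contra h1
      push Not at h1
      have h2 : p ^ 2 ≤ p ^ m := Nat.pow_le_pow_right hp.pos h1
      have h3 : k * p < p * p := Nat.mul_lt_mul_of_pos_right hpk hp.pos
      rw [hm] at hle
      nlinarith
    have hm0 : m ≠ 0 := by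
      rintro rfl
      rw [pow_zero] at hm
      have h1 : ∀ g ∈ P, g y = y := by
        obtain ⟨w, hw⟩ := Set.ncard_eq_one.1 hm
        intro g hg
        have h2 : y ∈ MulAction.orbit P y := MulAction.mem_orbit_self y
        have h3 : g y ∈ MulAction.orbit P y := ⟨⟨g, hg⟩, rfl⟩
        rw [hw, Set.mem_singleton_iff] at h2 h3
        rw [h3, h2]
      have h2 : (P0 : Subgroup H) ≤ MulAction.stabilizer H y := by
        intro h hh
        rw [MulAction.mem_stabilizer_iff]
        exact h1 _ ((hPmem _).2 ⟨h, hh, rfl⟩)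
      have h3 : (MulAction.stabilizer H y).index = k * p := by
        rw [MulAction.index_stabilizer, horbHc y hy]
      have h4 := Subgroup.index_dvd_of_le h2
      rw [h3] at h4
      exact P0.not_dvd_index ((Dvd.intro_left k rfl).trans h4)
    have hm1 : m = 1 := by omega
    rw [hm, hm1, pow_one]
  refine ⟨P, D, hp, hk, hpk, hrk, hn, hG, hPG, hPp, by simp [D], hfix, horb, ?_⟩
  -- Witt
  intro σ hσ
  have hσD : ∀ i, σ (x i) ∈ D := by
    intro i
    by_contra h1
    have h2 := σ.injective (hσ _ h1)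
    rw [h2] at h1
    exact h1 ((hDm _).2 ⟨i, rfl⟩)
  let b : Fin r ↪ α := x.trans σ.toEmbedding
  have hfp : ∀ y ∈ D, y ∈ MulAction.fixedPoints Q α := by
    rintro y hy ⟨q, hq⟩
    exact hfix (q : Perm α) ⟨q, hq, rfl⟩ y hy
  obtain ⟨g, hgN, hg⟩ := Cfsg.Agent.S4219.result hGr x P0 x b
    (fun i => hfp _ ((hDm _).2 ⟨i, rfl⟩)) (fun i => hfp _ (hσD i))
  refine ⟨g, g.2, ?_, ?_⟩
  · rw [Subgroup.mem_normalizer_iff] at hgN ⊢
    intro h
    constructor
    · rintro ⟨q, hq, rfl⟩
      exact ⟨g * q * g⁻¹, (hgN q).1 hq, rfl⟩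
    · intro h1
      have h2 : (g : Perm α) * h * (g : Perm α)⁻¹ ∈ G := hPG h1
      have h3 : h ∈ G := by
        have h4 := G.mul_mem (G.mul_mem (G.inv_mem g.2) h2) g.2
        have h5 : (g : Perm α)⁻¹ * ((g : Perm α) * h * (g : Perm α)⁻¹) * (g : Perm α) = h := by group
        rwa [h5] at h4
      refine ⟨⟨h, h3⟩, ?_, rfl⟩
      apply (hgN ⟨h, h3⟩).2
      obtain ⟨q, hq, hqe⟩ := h1
      have h6 : g * ⟨h, h3⟩ * g⁻¹ = q := Subtype.ext hqe.symm
      rw [h6]; exact hq
  · intro y hy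
    obtain ⟨i, rfl⟩ := (hDm y).1 hy
    exact congrArg (fun f : Fin r ↪ α => f i) hg

end Cfsg.Agent.Lib.H70MT_E
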