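import Cfsg.Agent.Lib.H70MT0
import Cfsg.Agent.S0713

/-! S4220 piece MT-J (helper66) -/

set_option autoImplicit false

namespace Cfsg.Agent.Lib.H70MT_J

open Equiv Cfsg.Agent.Lib.H70MT

variable {α : Type*} [Fintype α] [DecidableEq α] {G P : Subgroup (Perm α)} {D : Finset α} {k p r : ℕ}

theorem final_one (h : Dt G P D 1 p r) (hr : 3 ≤ r) : alternatingGroup α ≤ G := by
  classical
  have hp := h.pr
  haveI : Fact p.Prime := ⟨hp⟩
  have hc := h.card
  rw [one_mul] at hc
  have hp2 := hp.two_le
  have hcompl : (Dᶜ : Finset α).card = p := by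
    rw [Finset.card_compl, h.hD, hc]; omega
  obtain ⟨x, hx⟩ : (Dᶜ : Finset α).Nonempty := by
    rw [← Finset.card_pos, hcompl]; omega
  have hx' : x ∉ D := Finset.mem_compl.1 hx
  have ho := h.orb x hx'
  have hdvd : p ∣ Nat.card P := by
    rw [← ho]
    have h1 := MulAction.index_stabilizer (G := P) (x := x)
    rw [← h1]
    exact Subgroup.index_dvd_card _
  obtain ⟨g, hg⟩ := exists_prime_orderOf_dvd_card' (G := P) p hdvd
  have hgo : orderOf (g : Perm α) = p := by rw [Subgroup.orderOf_coe, hg]
  have hsup : (g : Perm α).support ⊆ (Dᶜ : Finset α) := by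
    intro y hy
    rw [Finset.mem_compl]
    intro hyD
    exact (Perm.mem_support.1 hy) (h.fix g g.2 y hyD)
  have hsc : (g : Perm α).support.card ≤ p := by
    rw [← hcompl]; exact Finset.card_le_card hsup
  have hcyc : (g : Perm α).IsCycle := by
    apply Perm.isCycle_of_prime_order
    · rw [hgo]; exact hp
    · rw [hgo]; omega
  have hsc2 : (g : Perm α).support.card = p := by
    rw [← hcyc.orderOf, hgo]
  haveI h2 : MulAction.IsMultiplyPretransitive G α 2 := by
    haveI := h.tr
    exact MulAction.isMultiplyPretransitive_of_le (n := r + 1) (by omega) (by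
      rw [Nat.card_eq_fintype_card, hc]
      omega)
  have hprim : MulAction.IsPreprimitive G α := MulAction.isPreprimitive_of_is_two_pretransitive h2
  exact Cfsg.Agent.S0713.result G hprim hp (by omega) (by omega) hcyc hsc2 (h.PG g.2)

end Cfsg.Agent.Lib.H70MT_J
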