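import Cfsg.Agent.Lib.H70MT0
import Cfsg.Agent.Lib.H70MT_42
import Cfsg.Agent.Lib.H70MT_9r
import Cfsg.Agent.Lib.H70MT_A
import Cfsg.Agent.Lib.H70MT_B
import Cfsg.Agent.Lib.H70MT_D
import Cfsg.Agent.Lib.H70MT_E
import Cfsg.Agent.Lib.H70MT_J
import Cfsg.Agent.Lib.H70MT_K2
import Cfsg.Agent.Lib.H70MT_K43
import Cfsg.Agent.Lib.H70MT_K5

/-! # S4220: assembly (helper70) -/

set_option autoImplicit false
set_option linter.all false

namespace Cfsg.Agent.Lib.H70MT_X

open Equiv Cfsg.Agent.Lib.H70MT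

theorem pre4 {α : Type*} [Fintype α] [DecidableEq α] {G : Subgroup (Perm α)} {r : ℕ} (hr : 3 ≤ r)
    (h : MulAction.IsMultiplyPretransitive G α (r + 1)) (hc : r + 1 ≤ Fintype.card α) : MulAction.IsMultiplyPretransitive G α 4 := by
  haveI := h
  exact MulAction.isMultiplyPretransitive_of_le' (m := 4) (n := r + 1) (by omega) (by
    rw [ENat.card_eq_coe_fintype_card]; exact_mod_cast hc)

/-- everything, with the last pieces as hypotheses -/
theorem main {α : Type*} [Fintype α] [DecidableEq α]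
    (hC : ∀ (G P : Subgroup (Perm α)) (D : Finset α) (k p r : ℕ), Dt G P D k p r → ∀ u ∈ KK G P D, ∀ v ∈ KK G P D, u * v * u⁻¹ * v⁻¹ ∈ TT G P D)
    (h32 : ∀ (G P : Subgroup (Perm α)) (D : Finset α) (p : ℕ), Dt G P D 2 p 3 → 5 ≤ p → (∀ u ∈ TT G P D, ∀ x ∉ D, (u ^ p) x = x) → alternatingGroup α ≤ G)
    (h43 : ∀ (G P : Subgroup (Perm α)) (D : Finset α) (p : ℕ), Dt G P D 3 p 4 →
      (∀ σ : Perm α, (∀ x ∉ D, σ x = x) → (∃ a b c d : α, [a, b, c, d].Nodup ∧ σ = swap a b * swap c d) → ∃ g ∈ KK G P D, ∀ x ∈ D, g x = σ x) →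
      (∀ u ∈ TT G P D, ∀ x ∉ D, (u ^ p) x = x) →
      (∀ a b c d : α, a ≠ b → a ≠ c → a ≠ d → b ≠ c → b ≠ d → c ≠ d → swap a b * swap c d ∈ G → alternatingGroup α ≤ G) →
      alternatingGroup α ≤ G)
    (h9 : ∀ G : Subgroup (Perm (Fin 9)), MulAction.IsMultiplyPretransitive G (Fin 9) 4 →
      swap (0 : Fin 9) 1 * swap 1 2 * (swap 3 4 * swap 4 5) ∈ G → alternatingGroup (Fin 9) ≤ G)
    (G : Subgroup (Equiv.Perm α)) {k p r : ℕ} (hp : p.Prime) (hn : Fintype.card α = k * p + r) (hk : 1 ≤ k) (hpk : k < p) (hrk : k < r)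
    (hex : ¬ (k = 1 ∧ r = 2)) (hG : MulAction.IsMultiplyPretransitive G α (r + 1)) : alternatingGroup α ≤ G := by
  obtain ⟨P, D, h⟩ := H70MT_E.exists_Dt G hp hn hk hpk hrk hG
  have hkp : 1 ≤ k * p := Nat.mul_pos hk hp.pos
  have hkp2 : p ≤ k * p := Nat.le_mul_of_pos_left p hk
  have hp2 := hp.two_le
  rcases Nat.lt_or_ge r 5 with hr | hr
  · have hr3 : 3 ≤ r := by
      by_contra hcon
      apply hex
      omega
    have h4 : MulAction.IsMultiplyPretransitive G α 4 := pre4 hr3 hG (by omega)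
    have hdbl : ∀ a b c d : α, a ≠ b → a ≠ c → a ≠ d → b ≠ c → b ≠ d → c ≠ d → swap a b * swap c d ∈ G → alternatingGroup α ≤ G :=
      fun a b c d hab hac had hbc hbd hcd hs => H70MT_D.dbl G h4 (by omega) a b c d hab hac had hbc hbd hcd hs
    have hk3 : k = 1 ∨ k = 2 ∨ k = 3 := by omega
    rcases hk3 with rfl | rfl | rfl
    · exact H70MT_J.final_one h hr3
    · have : r = 3 ∨ r = 4 := by omega
      rcases this with rfl | rfl
      · have hp3 : p = 3 ∨ 5 ≤ p := by
          rcases Nat.lt_or_ge p 5 with h5 | h5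
          · left
            have : p = 3 ∨ p = 4 := by omega
            rcases this with h6 | h6
            · exact h6
            · rw [h6] at hp; exact absurd hp (by norm_num)
          · exact Or.inr h5
        rcases hp3 with rfl | hp5
        · exact H70MT_9r.final_323 h h9
        · exact h32 G P D p h hp5 (fun u hu x hx => H70MT_A.pow_out h hu x hx)
      · exact H70MT_42.final_42 h (fun σ h1 h2 => H70MT_K2.kk_two h le_rfl σ h1 h2) (hC G P D _ _ _ h)
          (fun u hu x hx => H70MT_A.pow_out h hu x hx) hdbl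
    · have : r = 4 := by omega
      subst this
      exact h43 G P D p h (fun σ h1 h2 => H70MT_K43.kk_43 h σ h1 h2) (fun u hu x hx => H70MT_A.pow_out h hu x hx) hdbl
  · exact H70MT_B.final_big h hr (fun σ h1 h2 => H70MT_K5.kk_big h hr σ h1 h2) (hC G P D _ _ _ h)
      (fun u hu v hv x hx => H70MT_A.comm_out h hu hv x hx)

end Cfsg.Agent.Lib.H70MT_X
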