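import Cfsg.Agent.Lib.CoprimeGen
import Cfsg.Agent.Lib.H31Local
import Cfsg.Agent.Lib.RelSylow

/-!
# Groups acted on by `C_q × C_q` with abelian centralizers (S4323), part 1 (helper70)
-/

set_option autoImplicit false

namespace Cfsg.Agent.Lib.H70SqA

open Subgroup Cfsg.Agent.Lib.SubgroupTools Cfsg.Agent.Lib.CoprimeAction Cfsg.Agent.Lib.CoprimeAction2 Cfsg.Agent.Lib.CoprimeGen

open scoped commutatorElement

universe u

section Abs

/-- Frobenius type action on an abelian group: if `b` acts fixed point freely on `Y` and `Y` centralises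
`C_W(b)`, then `Y` centralises `W`. -/
theorem frob_abs {N W : Type*} [Group N] [CommGroup W] [Finite W] (ρ : N →* MulAut W) (Y : Subgroup N)
    [Finite Y] (b : N) {q : ℕ} (hq : q.Prime) (hbq : b ^ q = 1) (hbY : ∀ y ∈ Y, b * y * b⁻¹ ∈ Y)
    (hfix : ∀ y ∈ Y, y * b = b * y → y = 1) (hcop : (Nat.card W).Coprime (Nat.card Y))
    (hcen : ∀ w, ρ b w = w → ∀ y ∈ Y, ρ y w = w) : ∀ y ∈ Y, ∀ w, ρ y w = w := by
  classical
  haveI : Fintype Y := Fintype.ofFinite _
  intro z hz w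
  -- powers of b
  have hbiY : ∀ i : ℕ, ∀ y ∈ Y, b ^ i * y * (b ^ i)⁻¹ ∈ Y := by
    intro i
    induction i with
    | zero => intro y hy; simpa using hy
    | succ n ih =>
      intro y hy
      have h1 := hbY _ (ih y hy)
      have h2 : b ^ (n + 1) * y * (b ^ (n + 1))⁻¹ = b * (b ^ n * y * (b ^ n)⁻¹) * b⁻¹ := by
        rw [pow_succ']; group
      rw [h2]; exact h1
  -- fixed points of powers
  have hfixi : ∀ i : ℕ, 0 < i → i < q → ∀ y ∈ Y, y * b ^ i = b ^ i * y → y = 1 := by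
    intro i hi hiq y hy hyb
    apply hfix y hy
    have hcq : Nat.Coprime i q := by
      rw [Nat.coprime_comm]; exact (Nat.Prime.coprime_iff_not_dvd hq).2 (Nat.not_dvd_of_pos_of_lt hi hiq)
    obtain ⟨k, hk⟩ : ∃ k : ℕ, (b ^ i) ^ k = b := by
      have ho : orderOf b ∣ q := orderOf_dvd_of_pow_eq_one hbq
      have hc : (orderOf b).Coprime i := (Nat.Coprime.coprime_dvd_left ho hcq.symm)
      exact exists_pow_eq_self_of_coprime hc.symm
    have hcomm : Commute y (b ^ i) := hyb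
    have := hcomm.pow_right k
    rw [hk] at this
    exact this
  -- the averaged elements
  let s : W → W := fun u => ∏ i ∈ Finset.range q, ρ (b ^ i) u
  have hs : ∀ u, ρ b (s u) = s u := by
    intro u
    simp only [s, map_prod]
    have h1 : ∀ i, ρ b (ρ (b ^ i) u) = ρ (b ^ (i + 1)) u := by
      intro i
      rw [pow_succ', map_mul]; rfl
    simp only [h1]
    have h2 := Finset.prod_range_succ (fun i => ρ (b ^ i) u) q
    have h3 := Finset.prod_range_succ' (fun i => ρ (b ^ i) u) q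
    rw [h3] at h2
    rw [hbq] at h2
    simp only [pow_zero] at h2
    exact mul_right_cancel h2
  have hsY : ∀ u, ∀ y ∈ Y, ρ y (s u) = s u := fun u y hy => hcen _ (hs u) y hy
  -- `t y = ∏_i ρ (y b^i y⁻¹) w`
  let t : Y → W := fun y => ∏ i ∈ Finset.range q, ρ ((y : N) * b ^ i * (y : N)⁻¹) w
  have ht : ∀ y : Y, t y = s (ρ (y : N)⁻¹ w) := by
    intro y
    have h1 : t y = ρ (y : N) (s (ρ (y : N)⁻¹ w)) := by
      simp only [t, s, map_prod]
      apply Finset.prod_congr rfl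
      intro i _
      rw [map_mul, map_mul]; rfl
    rw [h1, hsY _ _ y.2]
  have htz : ∀ y : Y, ρ z (t y) = t y := fun y => by rw [ht]; exact hsY _ _ hz
  -- the sum over Y
  have hF : ρ z (∏ y : Y, t y) = ∏ y : Y, t y := by
    rw [map_prod]; exact Finset.prod_congr rfl fun y _ => htz y
  have hswap : (∏ y : Y, t y) = ∏ i ∈ Finset.range q, ∏ y : Y, ρ ((y : N) * b ^ i * (y : N)⁻¹) w :=
    Finset.prod_comm
  have hqpos : 0 < q := hq.pos
  obtain ⟨q', rfl⟩ : ∃ q', q = q' + 1 := ⟨q - 1, by omega⟩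
  rw [hswap, Finset.prod_range_succ'] at hF
  -- the terms with i > 0 are fixed by z
  have hterm : ∀ i < q', ρ z (∏ y : Y, ρ ((y : N) * b ^ (i + 1) * (y : N)⁻¹) w) =
      ∏ y : Y, ρ ((y : N) * b ^ (i + 1) * (y : N)⁻¹) w := by
    intro i hi
    let σ : Y → Y := fun y => ⟨(y : N) * (b ^ (i + 1) * (y : N)⁻¹ * (b ^ (i + 1))⁻¹),
      mul_mem y.2 (hbiY _ _ (inv_mem y.2))⟩
    have hinj : Function.Injective σ := by
      intro y y' hyy
      have h1 : (y : N) * (b ^ (i + 1) * (y : N)⁻¹ * (b ^ (i + 1))⁻¹) =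
        (y' : N) * (b ^ (i + 1) * (y' : N)⁻¹ * (b ^ (i + 1))⁻¹) := congrArg Subtype.val hyy
      have h2 : ((y' : N)⁻¹ * y) * b ^ (i + 1) = b ^ (i + 1) * ((y' : N)⁻¹ * y) := by
        have h3 := congrArg (fun x => (y' : N)⁻¹ * x * b ^ (i + 1) * y) h1
        beta_reduce at h3
        have h4 : (y' : N)⁻¹ * ((y : N) * (b ^ (i + 1) * (y : N)⁻¹ * (b ^ (i + 1))⁻¹)) * b ^ (i + 1) * y =
          ((y' : N)⁻¹ * y) * b ^ (i + 1) := by group
        have h5 : (y' : N)⁻¹ * ((y' : N) * (b ^ (i + 1) * (y' : N)⁻¹ * (b ^ (i + 1))⁻¹)) * b ^ (i + 1) * y =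
          b ^ (i + 1) * ((y' : N)⁻¹ * y) := by group
        rw [h4, h5] at h3
        exact h3
      have h6 := hfixi (i + 1) (Nat.succ_pos i) (by omega) _ (mul_mem (inv_mem y'.2) y.2) h2
      exact Subtype.ext (inv_mul_eq_one.1 h6).symm
    have hbij : Function.Bijective σ := Finite.injective_iff_bijective.1 hinj
    have h7 : (∏ y : Y, ρ ((y : N) * b ^ (i + 1) * (y : N)⁻¹) w) =
        ∏ y : Y, ρ (y : N) (ρ (b ^ (i + 1)) w) := by
      rw [← Function.Bijective.prod_comp hbij (fun y : Y => ρ (y : N) (ρ (b ^ (i + 1)) w))]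
      apply Finset.prod_congr rfl
      intro y _
      have : ((y : N) * b ^ (i + 1) * (y : N)⁻¹) = (σ y : N) * b ^ (i + 1) := by
        simp only [σ]; group
      rw [this, map_mul]; rfl
    rw [h7, map_prod]
    have hz' : Function.Bijective (fun y : Y => (⟨z, hz⟩ : Y) * y) := Group.mulLeft_bijective _
    rw [← Function.Bijective.prod_comp hz' (fun y : Y => ρ (y : N) (ρ (b ^ (i + 1)) w))]
    apply Finset.prod_congr rfl
    intro y _
    simp only [Subgroup.coe_mul, map_mul]; rfl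
  have hrest : ρ z (∏ i ∈ Finset.range q', ∏ y : Y, ρ ((y : N) * b ^ (i + 1) * (y : N)⁻¹) w) =
      ∏ i ∈ Finset.range q', ∏ y : Y, ρ ((y : N) * b ^ (i + 1) * (y : N)⁻¹) w := by
    rw [map_prod]
    exact Finset.prod_congr rfl fun i hi => hterm i (Finset.mem_range.1 hi)
  rw [map_mul, hrest] at hF
  have hF2 := mul_left_cancel hF
  simp only [pow_zero, mul_one, mul_inv_cancel, map_one, MulAut.one_apply, Finset.prod_const,
    Finset.card_univ] at hF2
  rw [map_pow] at hF2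
  have h8 : ((ρ z w) * w⁻¹) ^ Nat.card Y = 1 := by
    rw [mul_pow, Nat.card_eq_fintype_card, hF2, ← mul_pow, mul_inv_cancel, one_pow]
  have h9 : (ρ z w) * w⁻¹ = 1 := by
    have h10 : orderOf ((ρ z w) * w⁻¹) ∣ Nat.card Y := orderOf_dvd_of_pow_eq_one h8
    have h11 : orderOf ((ρ z w) * w⁻¹) ∣ Nat.card W := orderOf_dvd_natCard _
    exact orderOf_eq_one_iff.1 (Nat.eq_one_of_dvd_coprimes hcop h11 h10)
  exact mul_inv_eq_one.1 h9

end Abs

section Amb

variable {G : Type u} [Group G] [Finite G]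

/-- ambient form of `frob_abs` -/
theorem frob_ab {V Y : Subgroup G} {b : G} {q : ℕ} (hq : q.Prime) (hbq : b ^ q = 1)
    (hV : ∀ x ∈ V, ∀ y ∈ V, x * y = y * x) (hbV : b ∈ normalizer (V : Set G))
    (hYV : Y ≤ normalizer (V : Set G)) (hbY : b ∈ normalizer (Y : Set G))
    (hfix : ∀ y ∈ Y, y * b = b * y → y = 1) (hcop : (Nat.card V).Coprime (Nat.card Y))
    (hcen : ∀ v ∈ V, v * b = b * v → ∀ y ∈ Y, y * v = v * y) : Y ≤ centralizer (V : Set G) := by
  classical
  let _ : CommGroup V := { (inferInstance : Group V) with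
    mul_comm := fun x y => Subtype.ext (hV x x.2 y y.2) }
  let N := normalizer (V : Set G)
  let ρ : N →* MulAut V := V.normalizerMonoidHom
  have hρ : ∀ (n : N) (v : V), ((ρ n v : V) : G) = n * v * (n : G)⁻¹ := fun n v => rfl
  have key := frob_abs ρ (Y.subgroupOf N) (⟨b, hbV⟩ : N) hq (Subtype.ext (by simpa using hbq))
    (by
      intro y hy
      rw [mem_subgroupOf] at hy ⊢
      exact (mem_normalizer_iff.mp hbY _).mp hy)
    (by
      intro y hy h
      rw [mem_subgroupOf] at hy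
      have := hfix _ hy (congrArg Subtype.val h)
      exact Subtype.ext this)
    (by
      rw [card_subgroupOf_of_le hYV]; exact hcop)
    (by
      intro w hw y hy
      rw [mem_subgroupOf] at hy
      have h1 : b * (w : G) * b⁻¹ = w := congrArg Subtype.val hw
      have h2 := hcen w w.2 (by rw [← mul_inv_eq_iff_eq_mul.1 h1]) y hy
      apply Subtype.ext
      rw [hρ, h2, mul_assoc, mul_inv_cancel, mul_one])
  intro y hy
  rw [mem_centralizer_iff]
  intro v hv
  have h3 := key ⟨y, hYV hy⟩ (mem_subgroupOf.2 hy) ⟨v, hv⟩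
  have h4 : y * v * y⁻¹ = v := congrArg Subtype.val h3
  rw [mul_inv_eq_iff_eq_mul] at h4
  exact h4.symm

/-! ### the quotient `N(D)/D` -/

/-- the group `N(D)/D` -/
abbrev Qt (D : Subgroup G) := ↥(normalizer (D : Set G)) ⧸ D.subgroupOf (normalizer (D : Set G))

/-- the projection `N(D) → N(D)/D` -/
abbrev pr (D : Subgroup G) : ↥(normalizer (D : Set G)) →* Qt D :=
  QuotientGroup.mk' (D.subgroupOf (normalizer (D : Set G)))

/-- image of a subgroup in `N(D)/D` -/
def im (D L : Subgroup G) : Subgroup (Qt D) := (L.subgroupOf (normalizer (D : Set G))).map (pr D)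

omit [Finite G] in
theorem mem_im {D L : Subgroup G} {x : Qt D} :
    x ∈ im D L ↔ ∃ l, ∃ hl : l ∈ normalizer (D : Set G), l ∈ L ∧ pr D ⟨l, hl⟩ = x := by
  constructor
  · rintro ⟨⟨l, hl⟩, h1, rfl⟩
    exact ⟨l, hl, h1, rfl⟩
  · rintro ⟨l, hl, h1, rfl⟩
    exact ⟨⟨l, hl⟩, h1, rfl⟩

omit [Finite G] in
theorem pr_mem_im {D L : Subgroup G} {l : G} (hl : l ∈ normalizer (D : Set G)) (h : l ∈ L) :
    pr D ⟨l, hl⟩ ∈ im D L := mem_im.2 ⟨l, hl, h, rfl⟩

omit [Finite G] in
theorem pr_eq_one {D : Subgroup G} {x : G} (hx : x ∈ normalizer (D : Set G)) :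
    pr D ⟨x, hx⟩ = 1 ↔ x ∈ D := by
  rw [QuotientGroup.mk'_apply, QuotientGroup.eq_one_iff, mem_subgroupOf]

omit [Finite G] in
theorem pr_eq_iff {D : Subgroup G} {x y : G} (hx : x ∈ normalizer (D : Set G))
    (hy : y ∈ normalizer (D : Set G)) : pr D ⟨x, hx⟩ = pr D ⟨y, hy⟩ ↔ x⁻¹ * y ∈ D := by
  rw [QuotientGroup.mk'_apply, QuotientGroup.mk'_apply, QuotientGroup.eq, mem_subgroupOf]; rfl

omit [Finite G] in
theorem im_mono {D L M : Subgroup G} (h : L ≤ M) : im D L ≤ im D M :=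
  map_mono (comap_mono h)

omit [Finite G] in
theorem pr_mem_im_iff {D L : Subgroup G} {x : G} (hx : x ∈ normalizer (D : Set G)) (hDL : D ≤ L) :
    pr D ⟨x, hx⟩ ∈ im D L ↔ x ∈ L := by
  constructor
  · intro h
    obtain ⟨l, hl, h1, h2⟩ := mem_im.1 h
    have h3 := hDL ((pr_eq_iff hl hx).1 h2)
    have := mul_mem h1 h3
    rwa [mul_inv_cancel_left] at this
  · exact pr_mem_im hx

omit [Finite G] in
theorem im_eq_bot {D L : Subgroup G} (hL : L ≤ normalizer (D : Set G)) : im D L = ⊥ ↔ L ≤ D := by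
  constructor
  · intro h x hx
    have := pr_mem_im (hL hx) hx
    rw [h, mem_bot, pr_eq_one] at this
    exact this
  · intro h
    rw [eq_bot_iff]
    intro x hx
    obtain ⟨l, hl, h1, rfl⟩ := mem_im.1 hx
    rw [mem_bot, pr_eq_one]
    exact h h1

omit [Finite G] in
theorem im_le_normalizer {D L M : Subgroup G} (h : L ≤ normalizer (M : Set G)) :
    im D L ≤ normalizer (im D M : Set (Qt D)) := by
  rintro _ hx
  obtain ⟨l, hl, h1, rfl⟩ := mem_im.1 hx
  rw [mem_normalizer_iff]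
  intro y
  constructor
  · intro hy
    obtain ⟨m, hm, h2, rfl⟩ := mem_im.1 hy
    refine mem_im.2 ⟨l * m * l⁻¹, mul_mem (mul_mem hl hm) (inv_mem hl),
      (mem_normalizer_iff.1 (h h1) m).1 h2, ?_⟩
    rfl
  · intro hy
    obtain ⟨m, hm, h2, h3⟩ := mem_im.1 hy
    refine mem_im.2 ⟨l⁻¹ * m * l, mul_mem (mul_mem (inv_mem hl) hm) hl, ?_, ?_⟩
    · rw [mem_normalizer_iff.1 (h h1)]
      have : l * (l⁻¹ * m * l) * l⁻¹ = m := by group
      rwa [this]
    · have h4 : pr D ⟨l⁻¹ * m * l, mul_mem (mul_mem (inv_mem hl) hm) hl⟩ =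
        (pr D ⟨l, hl⟩)⁻¹ * pr D ⟨m, hm⟩ * pr D ⟨l, hl⟩ := rfl
      rw [h4, h3]; group

theorem card_im_dvd {D L : Subgroup G} : Nat.card (im D L) ∣ Nat.card L := by
  unfold im
  refine (card_map_dvd _ _).trans ?_
  rw [card_subgroupOf]
  exact card_dvd_of_le inf_le_left

omit [Finite G] in
theorem im_isPGroup {D L : Subgroup G} {p : ℕ} (h : IsPGroup p L) : IsPGroup p (im D L) :=
  (h.comap_of_injective _ (subtype_injective _)).map _

omit [Finite G] in
theorem im_commutator {D L M : Subgroup G} (hL : L ≤ normalizer (D : Set G))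
    (hM : M ≤ normalizer (D : Set G)) : ⁅im D L, im D M⁆ = im D ⁅L, M⁆ := by
  unfold im
  rw [← Subgroup.map_commutator]
  congr 1
  apply map_injective (subtype_injective (normalizer (D : Set G)))
  rw [Subgroup.map_commutator, map_subgroupOf_eq_of_le hL, map_subgroupOf_eq_of_le hM,
    map_subgroupOf_eq_of_le ((commutator_le_sup _ _).trans (sup_le hL hM))]

omit [Finite G] in
/-- pullback of a subgroup of `N(D)/D` -/
theorem exists_pullback {D : Subgroup G} (X : Subgroup (Qt D)) :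
    ∃ L : Subgroup G, D ≤ L ∧ L ≤ normalizer (D : Set G) ∧ im D L = X := by
  refine ⟨(X.comap (pr D)).map (normalizer (D : Set G)).subtype, ?_, map_subtype_le _, ?_⟩
  · intro d hd
    refine ⟨⟨d, le_normalizer hd⟩, ?_, rfl⟩
    show pr D ⟨d, le_normalizer hd⟩ ∈ X
    rw [(pr_eq_one (le_normalizer hd)).2 hd]; exact one_mem _
  · show (((X.comap (pr D)).map (normalizer (D : Set G)).subtype).comap
      (normalizer (D : Set G)).subtype).map (pr D) = X
    rw [comap_map_eq_self_of_injective (subtype_injective _),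
      map_comap_eq_self_of_surjective (QuotientGroup.mk'_surjective _)]

/-! ### the context -/

/-- `A ≅ C_q × C_q` acts coprimely on `H` and `C_H(a)` is abelian for `1 ≠ a ∈ A`. -/
structure Ctx0 (q : ℕ) (A H : Subgroup G) : Prop where
  hq : q.Prime
  card : Nat.card A = q ^ 2
  comm : ∀ a ∈ A, ∀ b ∈ A, a * b = b * a
  pow : ∀ a ∈ A, a ^ q = 1
  norm : A ≤ normalizer (H : Set G)
  cop : ¬ q ∣ Nat.card H
  ab : ∀ a ∈ A, a ≠ 1 → ∀ x ∈ H, ∀ y ∈ H, x * a = a * x → y * a = a * y → x * y = y * x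

/-- ... and moreover `C_H(A) = 1`. -/
structure Ctx (q : ℕ) (A H : Subgroup G) : Prop extends Ctx0 q A H where
  fpf : ∀ x ∈ H, (∀ a ∈ A, x * a = a * x) → x = 1

variable {q : ℕ} {A H : Subgroup G}

namespace Ctx0

theorem cop' (h : Ctx0 q A H) : (Nat.card A).Coprime (Nat.card H) := by
  rw [h.card]
  exact Nat.Coprime.pow_left 2 ((Nat.Prime.coprime_iff_not_dvd h.hq).2 h.cop)

theorem cop_of_le (h : Ctx0 q A H) {K : Subgroup G} (hK : K ≤ H) : (Nat.card A).Coprime (Nat.card K) :=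
  Nat.Coprime.coprime_dvd_right (card_dvd_of_le hK) h.cop'

theorem solvA (h : Ctx0 q A H) : Group.IsSolvable A :=
  Group.isSolvable_of_comm fun a b => Subtype.ext (h.comm a a.2 b b.2)

theorem isMulComm (h : Ctx0 q A H) : IsMulCommutative A :=
  isMulCommutative_iff_of_setLike.mpr fun a ha b hb => h.comm a ha b hb

theorem orderOf_eq (h : Ctx0 q A H) {a : G} (ha : a ∈ A) (ha1 : a ≠ 1) : orderOf a = q := by
  have := Fact.mk h.hq
  exact orderOf_eq_prime (h.pow a ha) ha1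

theorem notCyclic (h : Ctx0 q A H) : ¬ IsCyclic A := by
  intro hc
  obtain ⟨g, hg⟩ := IsCyclic.exists_ofOrder_eq_natCard (α := A)
  rw [h.card] at hg
  have h1 : orderOf g ∣ q := orderOf_dvd_of_pow_eq_one (Subtype.ext (h.pow g g.2))
  rw [hg] at h1
  have h2 := Nat.le_of_dvd h.hq.pos h1
  have h3 := h.hq.one_lt
  nlinarith

theorem restrict (h : Ctx0 q A H) {K : Subgroup G} (hK : K ≤ H) (hAK : A ≤ normalizer (K : Set G)) :
    Ctx0 q A K where
  hq := h.hq
  card := h.card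
  comm := h.comm
  pow := h.pow
  norm := hAK
  cop := fun hd => h.cop (hd.trans (card_dvd_of_le hK))
  ab := fun a ha ha1 x hx y hy => h.ab a ha ha1 x (hK hx) y (hK hy)

/-- generation by the centralizers -/
theorem gen_le (h : Ctx0 q A H) {K L : Subgroup G} (hK : K ≤ H) (hAK : A ≤ normalizer (K : Set G))
    (hgen : ∀ a ∈ A, a ≠ 1 → ∀ x ∈ K, x * a = a * x → x ∈ L) : K ≤ L := by
  rw [← iSup_centralizer_eq h.isMulComm h.notCyclic hAK (h.cop_of_le hK)]
  apply iSup₂_le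
  rintro a ⟨ha, ha1⟩ x ⟨hx, hxa⟩
  exact hgen a ha ha1 x hx (mem_centralizer_iff.1 hxa a rfl).symm

theorem comm_of_two (h : Ctx0 q A H) {a b : G} (ha : a ∈ A) (ha1 : a ≠ 1) (hb : b ∈ A)
    (hab : b ∉ zpowers a) {x : G} (hxa : x * a = a * x) (hxb : x * b = b * x) :
    ∀ c ∈ A, x * c = c * x := by
  set B := zpowers a ⊔ zpowers b with hB
  have hBA : B ≤ A := sup_le (by rw [zpowers_le]; exact ha) (by rw [zpowers_le]; exact hb)
  have h1 : Nat.card (zpowers a) = q := by rw [Nat.card_zpowers, h.orderOf_eq ha ha1]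
  have h2 : Nat.card B ∣ q ^ 2 := h.card ▸ card_dvd_of_le hBA
  have h3 : q ∣ Nat.card B := by rw [← h1]; exact card_dvd_of_le le_sup_left
  have h4 : Nat.card B ≠ q := by
    intro h5
    have h6 : zpowers a = B := eq_of_le_of_card_ge le_sup_left (by rw [h1, h5])
    apply hab
    rw [h6]; exact (le_sup_right : zpowers b ≤ B) (mem_zpowers b)
  have h5 : Nat.card B = q ^ 2 := by
    obtain ⟨k, hk, hk2⟩ := (Nat.dvd_prime_pow h.hq).1 h2
    interval_cases k
    · rw [hk2] at h3; simp at h3; exact absurd h3 h.hq.one_lt.ne'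
    · rw [pow_one] at hk2; exact absurd hk2 h4
    · exact hk2
  have h6 : B = A := eq_of_le_of_card_ge hBA (by rw [h5, h.card])
  intro c hc
  rw [← h6] at hc
  have h7 : B ≤ centralizer {x} := by
    apply sup_le
    · rw [zpowers_le, mem_centralizer_iff]
      rintro _ rfl; exact hxa
    · rw [zpowers_le, mem_centralizer_iff]
      rintro _ rfl; exact hxb
  exact mem_centralizer_iff.1 (h7 hc) x rfl

/-- lifting fixed points of a single element -/
theorem lift (h : Ctx0 q A H) {D : Subgroup G} (hD : D ≤ H) {a x : G} (ha : a ∈ A)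
    (haD : a ∈ normalizer (D : Set G)) (hx : x⁻¹ * (a * x * a⁻¹) ∈ D) :
    ∃ d ∈ D, (x * d) * a = a * (x * d) := by
  obtain ⟨d, hd, hc⟩ := exists_mul_commute (D := D) haD (by
    refine Nat.Coprime.coprime_dvd_left ?_ (h.cop_of_le hD)
    have := orderOf_dvd_natCard (⟨a, ha⟩ : A)
    rwa [Subgroup.orderOf_mk] at this) hx
  exact ⟨d, hd, (mem_centralizer_iff.1 hc a rfl).symm⟩

theorem disj (h : Ctx0 q A H) {D : Subgroup G} (hD : D ≤ H) {a : G} (ha : a ∈ A) (haD : a ∈ D) :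
    a = 1 := by
  have := inf_eq_bot_of_coprime' (h.cop_of_le hD)
  have h2 : a ∈ A ⊓ D := ⟨ha, haD⟩
  rw [this] at h2
  exact h2

theorem quot (h : Ctx0 q A H) {D : Subgroup G} (hD : D ≤ H) (hAD : A ≤ normalizer (D : Set G))
    (hHD : H ≤ normalizer (D : Set G)) : Ctx0 q (im D A) (im D H) where
  hq := h.hq
  card := by
    unfold im
    rw [card_map_of_disjoint_ker, card_subgroupOf_of_le hAD, h.card]
    rw [QuotientGroup.ker_mk', disjoint_iff, eq_bot_iff]
    rintro ⟨x, hx⟩ ⟨h1, h2⟩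
    exact Subtype.ext (h.disj hD (mem_subgroupOf.1 h1) (mem_subgroupOf.1 h2))
  comm := by
    intro a ha b hb
    obtain ⟨a, ha', h1, rfl⟩ := mem_im.1 ha
    obtain ⟨b, hb', h2, rfl⟩ := mem_im.1 hb
    rw [← map_mul, ← map_mul]
    congr 1
    exact Subtype.ext (h.comm a h1 b h2)
  pow := by
    intro a ha
    obtain ⟨a, ha', h1, rfl⟩ := mem_im.1 ha
    rw [← map_pow]
    have : (⟨a, ha'⟩ : normalizer (D : Set G)) ^ q = 1 := Subtype.ext (h.pow a h1)
    rw [this, map_one]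
  norm := im_le_normalizer h.norm
  cop := fun hd => h.cop (hd.trans card_im_dvd)
  ab := by
    intro a ha ha1 x hx y hy hxa hya
    obtain ⟨a, ha', h1, rfl⟩ := mem_im.1 ha
    obtain ⟨x, hx', h2, rfl⟩ := mem_im.1 hx
    obtain ⟨y, hy', h3, rfl⟩ := mem_im.1 hy
    have ha2 : a ≠ 1 := by
      rintro rfl
      exact ha1 ((pr_eq_one _).2 (one_mem _))
    have aux : ∀ z (hz : z ∈ normalizer (D : Set G)), pr D ⟨z, hz⟩ * pr D ⟨a, ha'⟩ =
        pr D ⟨a, ha'⟩ * pr D ⟨z, hz⟩ → z⁻¹ * (a * z * a⁻¹) ∈ D := by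
      intro z hz hza
      rw [← pr_eq_iff hz (mul_mem (mul_mem ha' hz) (inv_mem ha'))]
      have : pr D ⟨a * z * a⁻¹, mul_mem (mul_mem ha' hz) (inv_mem ha')⟩ =
        pr D ⟨a, ha'⟩ * pr D ⟨z, hz⟩ * (pr D ⟨a, ha'⟩)⁻¹ := rfl
      rw [this, ← hza, mul_inv_cancel_right]
    obtain ⟨d, hd, hxd⟩ := h.lift hD h1 ha' (aux x hx' hxa)
    obtain ⟨e, he, hye⟩ := h.lift hD h1 ha' (aux y hy' hya)
    have hc := h.ab a h1 ha2 _ (mul_mem h2 (hD hd)) _ (mul_mem h3 (hD he)) hxd hye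
    have e1 : pr D ⟨x, hx'⟩ = pr D ⟨x * d, mul_mem hx' (le_normalizer hd)⟩ := by
      rw [pr_eq_iff, inv_mul_cancel_left]; exact hd
    have e2 : pr D ⟨y, hy'⟩ = pr D ⟨y * e, mul_mem hy' (le_normalizer he)⟩ := by
      rw [pr_eq_iff, inv_mul_cancel_left]; exact he
    rw [e1, e2, ← map_mul, ← map_mul]
    congr 1
    exact Subtype.ext hc

end Ctx0

namespace Ctx

theorem restrict (h : Ctx q A H) {K : Subgroup G} (hK : K ≤ H) (hAK : A ≤ normalizer (K : Set G)) :
    Ctx q A K where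
  toCtx0 := h.toCtx0.restrict hK hAK
  fpf := fun x hx => h.fpf x (hK hx)

theorem quot (h : Ctx q A H) {D : Subgroup G} (hD : D ≤ H) (hAD : A ≤ normalizer (D : Set G))
    (hHD : H ≤ normalizer (D : Set G)) : Ctx q (im D A) (im D H) where
  toCtx0 := h.toCtx0.quot hD hAD hHD
  fpf := by
    intro x hx hxA
    obtain ⟨x, hx', h2, rfl⟩ := mem_im.1 hx
    have h3 : ∀ a ∈ A, x⁻¹ * (a * x * a⁻¹) ∈ D := by
      intro a ha
      have h4 := hxA _ (pr_mem_im (hAD ha) ha)
      rw [← pr_eq_iff hx' (mul_mem (mul_mem (hAD ha) hx') (inv_mem (hAD ha)))]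
      have : pr D ⟨a * x * a⁻¹, mul_mem (mul_mem (hAD ha) hx') (inv_mem (hAD ha))⟩ =
        pr D ⟨a, hAD ha⟩ * pr D ⟨x, hx'⟩ * (pr D ⟨a, hAD ha⟩)⁻¹ := rfl
      rw [this, ← h4, mul_inv_cancel_right]
    obtain ⟨d, hd, hc⟩ := exists_mul_mem_centralizer hAD (h.toCtx0.cop_of_le hD) (Or.inl h.solvA) x h3
    have h5 := h.fpf (x * d) (mul_mem h2 (hD hd)) fun a ha => (mem_centralizer_iff.1 hc a ha).symm
    rw [pr_eq_one]
    rw [mul_eq_one_iff_eq_inv.1 h5]; exact inv_mem hd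

theorem two (h : Ctx q A H) {a b : G} (ha : a ∈ A) (ha1 : a ≠ 1) (hb : b ∈ A)
    (hab : b ∉ zpowers a) {x : G} (hx : x ∈ H) (hxa : x * a = a * x) (hxb : x * b = b * x) : x = 1 :=
  h.fpf x hx (h.toCtx0.comm_of_two ha ha1 hb hab hxa hxb)

end Ctx

end Amb

end Cfsg.Agent.Lib.H70SqA
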