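import Cfsg.Agent.Lib.H70SqA

/-!
# Groups acted on by `C_q × C_q` with abelian centralizers (S4323), part 2 (helper70)
-/

set_option autoImplicit false

namespace Cfsg.Agent.Lib.H70SqB

open Subgroup Cfsg.Agent.Lib.SubgroupTools Cfsg.Agent.Lib.CoprimeAction Cfsg.Agent.Lib.CoprimeAction2
  Cfsg.Agent.Lib.CoprimeGen Cfsg.Agent.Lib.H70SqA

open scoped commutatorElement Pointwise

universe u

variable {G : Type u} [Group G] [Finite G] {q : ℕ} {A H : Subgroup G}

/-- the elements of `K` commuting with `a` -/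
abbrev cf (K : Subgroup G) (a : G) : Subgroup G := K ⊓ centralizer {a}

omit [Finite G] in
theorem mem_cf {K : Subgroup G} {a x : G} : x ∈ cf K a ↔ x ∈ K ∧ x * a = a * x := by
  rw [mem_inf]
  constructor
  · rintro ⟨h1, h2⟩
    exact ⟨h1, (mem_centralizer_iff.1 h2 a rfl).symm⟩
  · rintro ⟨h1, h2⟩
    refine ⟨h1, mem_centralizer_iff.2 ?_⟩
    rintro _ rfl
    exact h2.symm

theorem norm_cf (h : Ctx0 q A H) {K : Subgroup G} (hAK : A ≤ normalizer (K : Set G)) {a : G}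
    (ha : a ∈ A) : A ≤ normalizer ((cf K a : Subgroup G) : Set G) := by
  intro b hb
  have hba := h.comm b hb a ha
  have key : ∀ c ∈ A, ∀ x ∈ cf K a, c * x * c⁻¹ ∈ cf K a := by
    intro c hc x hx
    rw [mem_cf] at hx ⊢
    refine ⟨(mem_normalizer_iff.1 (hAK hc) x).1 hx.1, ?_⟩
    have h1 := h.comm c hc a ha
    have h2 : c⁻¹ * a = a * c⁻¹ := by
      rw [inv_mul_eq_iff_eq_mul, ← mul_assoc, h1, mul_assoc, mul_inv_cancel, mul_one]
    calc c * x * c⁻¹ * a = c * x * (c⁻¹ * a) := by group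
      _ = c * (x * a) * c⁻¹ := by rw [h2]; group
      _ = (c * a) * x * c⁻¹ := by rw [hx.2]; group
      _ = a * (c * x * c⁻¹) := by rw [h1]; group
  rw [mem_normalizer_iff]
  intro x
  constructor
  · exact key b hb x
  · intro hx
    have := key b⁻¹ (inv_mem hb) _ hx
    have e : b⁻¹ * (b * x * b⁻¹) * b⁻¹⁻¹ = x := by group
    rwa [e] at this

omit [Finite G] in
/-- from the quotient back to the group -/
theorem comm_of_im {D Y V : Subgroup G} (hYD : Y ≤ normalizer (D : Set G))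
    (hVD : V ≤ normalizer (D : Set G)) (h : im D Y ≤ centralizer (im D V : Set (Qt D))) :
    ⁅V, Y⁆ ≤ D := by
  rw [← im_eq_bot ((commutator_le_sup _ _).trans (sup_le hVD hYD)), ← im_commutator hVD hYD,
    commutator_comm, commutator_eq_bot_iff_le_centralizer]
  exact h

omit [Finite G] in
theorem pr_comm_iff {D : Subgroup G} {x a : G} (hx : x ∈ normalizer (D : Set G))
    (ha : a ∈ normalizer (D : Set G)) :
    pr D ⟨x, hx⟩ * pr D ⟨a, ha⟩ = pr D ⟨a, ha⟩ * pr D ⟨x, hx⟩ ↔ x⁻¹ * (a * x * a⁻¹) ∈ D := by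
  rw [← pr_eq_iff hx (mul_mem (mul_mem ha hx) (inv_mem ha))]
  have : pr D ⟨a * x * a⁻¹, mul_mem (mul_mem ha hx) (inv_mem ha)⟩ =
    pr D ⟨a, ha⟩ * pr D ⟨x, hx⟩ * (pr D ⟨a, ha⟩)⁻¹ := rfl
  rw [this]
  constructor
  · intro h; rw [← h, mul_inv_cancel_right]
  · intro h; rw [eq_mul_inv_iff_mul_eq] at h; exact h

theorem not_dvd_of_p {p r : ℕ} (hp : p.Prime) (hr : r.Prime) (hpr : p ≠ r) {X : Subgroup G}
    (hX : IsPGroup p X) : ¬ r ∣ Nat.card X := by
  intro hd
  have := Fact.mk hp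
  obtain ⟨k, hk⟩ := IsPGroup.iff_card.1 hX
  rw [hk] at hd
  exact hpr ((Nat.prime_dvd_prime_iff_eq hr hp).1 (hr.dvd_of_dvd_pow hd)).symm

theorem cop_p {r : ℕ} (hr : r.Prime) {V Y : Subgroup G} (hV : IsPGroup r V) (hY : ¬ r ∣ Nat.card Y) :
    (Nat.card V).Coprime (Nat.card Y) := by
  have := Fact.mk hr
  obtain ⟨k, hk⟩ := IsPGroup.iff_card.1 hV
  rw [hk]
  exact Nat.Coprime.pow_left _ ((Nat.Prime.coprime_iff_not_dvd hr).2 hY)

omit [Finite G] in
theorem le_norm_comm {L V : Subgroup G} (h : L ≤ normalizer (V : Set G)) :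
    L ≤ normalizer ((⁅V, V⁆ : Subgroup G) : Set G) := by
  intro g hg
  rw [mem_normalizer_iff_conj_smul]
  have h1 := (mem_normalizer_iff_conj_smul (H := V)).1 (h hg)
  have h2 : ∀ X : Subgroup G, MulAut.conj g • X = X.map (MulAut.conj g).toMonoidHom := fun X => rfl
  rw [h2] at h1 ⊢
  rw [Subgroup.map_commutator, h1]

theorem comm_lt {r : ℕ} [Fact r.Prime] {V : Subgroup G} (hV : IsPGroup r V) (h : V ≠ ⊥) :
    ⁅V, V⁆ < V := commutator_lt_of_pgroup hV hV le_normalizer h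

/-- **Lemma 1.** `Y ≤ C(a)`, `b ∈ A ∖ ⟨a⟩`, `Y` centralises `C_V(b)`: then `Y` centralises `V`. -/
theorem lem1 (h : Ctx q A H) {a b : G} (ha : a ∈ A) (ha1 : a ≠ 1) (hb : b ∈ A)
    (hab : b ∉ zpowers a) {r : ℕ} (hr : r.Prime) {Y : Subgroup G} (hY : Y ≤ H)
    (hYa : ∀ y ∈ Y, y * a = a * y) (hAY : A ≤ normalizer (Y : Set G)) (hYr : ¬ r ∣ Nat.card Y)
    (n : ℕ) : ∀ V : Subgroup G, Nat.card V = n → V ≤ H → IsPGroup r V → A ≤ normalizer (V : Set G) →
    Y ≤ normalizer (V : Set G) → (∀ v ∈ V, v * b = b * v → ∀ y ∈ Y, y * v = v * y) →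
    Y ≤ centralizer (V : Set G) := by
  have := Fact.mk hr
  induction n using Nat.strong_induction_on with
  | _ n ih =>
  intro V hn hV hVr hAV hYV hcen
  by_cases hV1 : V = ⊥
  · subst hV1
    intro y _
    rw [mem_centralizer_iff]
    rintro v hv
    rw [SetLike.mem_coe, mem_bot] at hv
    subst hv; simp
  set D := ⁅V, V⁆ with hD
  have hDV : D < V := comm_lt hVr hV1
  have hAD : A ≤ normalizer (D : Set G) := le_norm_comm hAV
  have hYD : Y ≤ normalizer (D : Set G) := le_norm_comm hYV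
  have hVD : V ≤ normalizer (D : Set G) := le_norm_comm le_normalizer
  have hcD : Y ≤ centralizer (D : Set G) := by
    refine ih (Nat.card D) ?_ D rfl (hDV.le.trans hV) (hVr.to_le hDV.le) hAD hYD
      (fun v hv => hcen v (hDV.le hv))
    rw [← hn]
    have h1 := card_mul_relIndex_of_le hDV.le
    have h2 : D.relIndex V ≠ 1 := fun h0 => hDV.not_ge (relIndex_eq_one.mp h0)
    have h3 : 0 < Nat.card D := Nat.card_pos
    have h4 : D.relIndex V ≠ 0 := by
      intro h0; rw [h0, mul_zero] at h1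
      have : 0 < Nat.card V := Nat.card_pos
      omega
    have h5 : 2 ≤ D.relIndex V := by omega
    nlinarith
  have hcopVY := cop_p hr hVr hYr
  have hsub : im D Y ≤ centralizer (im D V : Set (Qt D)) := by
    have hbD := hAD hb
    refine frob_ab (b := pr D ⟨b, hbD⟩) h.hq ?_ ?_ ?_ ?_ ?_ ?_ ?_ ?_
    · rw [← map_pow]
      have : (⟨b, hbD⟩ : normalizer (D : Set G)) ^ q = 1 := Subtype.ext (h.pow b hb)
      rw [this, map_one]
    · intro x hx y hy
      have h1 : im D V ≤ centralizer (im D V : Set (Qt D)) := by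
        rw [← commutator_eq_bot_iff_le_centralizer, im_commutator hVD hVD, im_eq_bot]
        exact hDV.le.trans hVD
      exact mem_centralizer_iff.1 (h1 hy) x hx
    · exact im_le_normalizer hAV (pr_mem_im hbD hb)
    · exact im_le_normalizer hYV
    · exact im_le_normalizer hAY (pr_mem_im hbD hb)
    · intro y hy hyb
      obtain ⟨y, hy', h1, rfl⟩ := mem_im.1 hy
      rw [pr_comm_iff] at hyb
      have h2 : y⁻¹ * (b * y * b⁻¹) ∈ Y :=
        mul_mem (inv_mem h1) ((mem_normalizer_iff.1 (hAY hb) y).1 h1)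
      have h3 : y⁻¹ * (b * y * b⁻¹) = 1 := by
        have h4 := inf_eq_bot_of_coprime' (Nat.Coprime.coprime_dvd_left (card_dvd_of_le hDV.le) hcopVY)
        have h5 : y⁻¹ * (b * y * b⁻¹) ∈ D ⊓ Y := ⟨hyb, h2⟩
        rw [h4] at h5; exact h5
      have h6 : y * b = b * y := by
        rw [inv_mul_eq_one, eq_mul_inv_iff_mul_eq] at h3; exact h3
      have h7 := h.two ha ha1 hb hab (hY h1) (hYa y h1) h6
      rw [pr_eq_one, h7]; exact one_mem _
    · exact Nat.Coprime.coprime_dvd_left card_im_dvd (Nat.Coprime.coprime_dvd_right card_im_dvd hcopVY)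
    · intro v hv hvb y hy
      obtain ⟨y, hy', h1, rfl⟩ := mem_im.1 hy
      obtain ⟨v, hv', h2, rfl⟩ := mem_im.1 hv
      rw [pr_comm_iff] at hvb
      obtain ⟨d, hd, hvd⟩ := h.toCtx0.lift (hDV.le.trans hV) hb hbD hvb
      have h3 := hcen (v * d) (mul_mem h2 (hDV.le hd)) hvd y h1
      have e1 : pr D ⟨v, hv'⟩ = pr D ⟨v * d, mul_mem hv' (le_normalizer hd)⟩ := by
        rw [pr_eq_iff, inv_mul_cancel_left]; exact hd
      rw [e1, ← map_mul, ← map_mul]
      congr 1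
      exact Subtype.ext h3
  have h1 : ⁅V, Y⁆ ≤ D := comm_of_im hYD hVD hsub
  have hsV : Group.IsSolvable V := by
    have := hVr.isNilpotent
    infer_instance
  have h2 := le_centralizer_of_series (A := Y) (K := V) (N := D) hYV hcopVY.symm (Or.inr hsV) h1
    (le_centralizer_iff.1 hcD)
  exact le_centralizer_iff.1 h2

/-- Lemma 1, final form -/
theorem lem1' (h : Ctx q A H) {a b : G} (ha : a ∈ A) (ha1 : a ≠ 1) (hb : b ∈ A)
    (hab : b ∉ zpowers a) {r : ℕ} (hr : r.Prime) {V Y : Subgroup G} (hV : V ≤ H) (hY : Y ≤ H)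
    (hVr : IsPGroup r V) (hAV : A ≤ normalizer (V : Set G))
    (hYa : ∀ y ∈ Y, y * a = a * y) (hAY : A ≤ normalizer (Y : Set G)) (hYr : ¬ r ∣ Nat.card Y)
    (hYV : Y ≤ normalizer (V : Set G)) (hcen : ∀ v ∈ V, v * b = b * v → ∀ y ∈ Y, y * v = v * y) :
    Y ≤ centralizer (V : Set G) :=
  lem1 h ha ha1 hb hab hr hY hYa hAY hYr _ V rfl hV hVr hAV hYV hcen

theorem not_mem_symm (h : Ctx0 q A H) {a b : G} (ha : a ∈ A) (ha1 : a ≠ 1) (hb : b ∈ A)
    (hab : b ∉ zpowers a) : a ∉ zpowers b := by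
  intro hba
  have h1 : zpowers a ≤ zpowers b := by rw [zpowers_le]; exact hba
  have h2 : Nat.card (zpowers a) = q := by rw [Nat.card_zpowers, h.orderOf_eq ha ha1]
  have hb1 : b ≠ 1 := by rintro rfl; exact hab (one_mem _)
  have h3 : Nat.card (zpowers b) = q := by rw [Nat.card_zpowers, h.orderOf_eq hb hb1]
  have h4 := eq_of_le_of_card_ge h1 (by rw [h2, h3])
  apply hab
  rw [h4]; exact mem_zpowers b

/-- commuting with a generator of `⟨d⟩` -/
theorem comm_of_zpowers (h : Ctx0 q A H) {c d x : G} (hd : d ∈ A) (hc1 : c ≠ 1)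
    (hcd : c ∈ zpowers d) (hx : x * c = c * x) : x * d = d * x := by
  have hd1 : d ≠ 1 := by
    rintro rfl
    rw [zpowers_one_eq_bot, mem_bot] at hcd
    exact hc1 hcd
  have hcA : c ∈ A := (zpowers_le.2 hd) hcd
  have hdc : d ∈ zpowers c := by
    by_contra hno
    exact not_mem_symm h hcA hc1 hd hno hcd
  obtain ⟨k, rfl⟩ := mem_zpowers_iff.1 hdc
  exact (Commute.zpow_right (show Commute x c from hx) k)

omit [Finite G] in
theorem le_norm_comm2 {L V W : Subgroup G} (hV : L ≤ normalizer (V : Set G))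
    (hW : L ≤ normalizer (W : Set G)) : L ≤ normalizer ((⁅V, W⁆ : Subgroup G) : Set G) := by
  intro g hg
  rw [mem_normalizer_iff_conj_smul]
  have h1 := (mem_normalizer_iff_conj_smul (H := V)).1 (hV hg)
  have h1' := (mem_normalizer_iff_conj_smul (H := W)).1 (hW hg)
  have h2 : ∀ X : Subgroup G, MulAut.conj g • X = X.map (MulAut.conj g).toMonoidHom := fun X => rfl
  rw [h2] at h1 h1' ⊢
  rw [Subgroup.map_commutator, h1, h1']

omit [Finite G] in
theorem le_norm_sup {L V W : Subgroup G} (hV : L ≤ normalizer (V : Set G))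
    (hW : L ≤ normalizer (W : Set G)) : L ≤ normalizer ((V ⊔ W : Subgroup G) : Set G) := by
  intro g hg
  rw [mem_normalizer_iff_conj_smul, conj_smul_sup]
  rw [(mem_normalizer_iff_conj_smul (H := V)).1 (hV hg), (mem_normalizer_iff_conj_smul (H := W)).1 (hW hg)]

omit [Finite G] in
theorem le_norm_inf {L V W : Subgroup G} (hV : L ≤ normalizer (V : Set G))
    (hW : L ≤ normalizer (W : Set G)) : L ≤ normalizer ((V ⊓ W : Subgroup G) : Set G) := by
  intro g hg
  rw [mem_normalizer_iff_conj_smul, conj_smul_inf]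
  rw [(mem_normalizer_iff_conj_smul (H := V)).1 (hV hg), (mem_normalizer_iff_conj_smul (H := W)).1 (hW hg)]

omit [Finite G] in
theorem le_norm_cent {L U : Subgroup G} (h : L ≤ normalizer (U : Set G)) :
    L ≤ normalizer ((centralizer (U : Set G) : Subgroup G) : Set G) := by
  have key : ∀ g ∈ normalizer (U : Set G), ∀ x ∈ centralizer (U : Set G),
      g * x * g⁻¹ ∈ centralizer (U : Set G) := by
    intro g hg x hx
    rw [mem_centralizer_iff] at hx ⊢
    intro u hu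
    have h1 : g⁻¹ * u * g ∈ U := by
      have := (mem_normalizer_iff.1 (inv_mem hg) u).1 hu
      rwa [inv_inv] at this
    have h2 := hx _ h1
    calc u * (g * x * g⁻¹) = g * ((g⁻¹ * u * g) * x) * g⁻¹ := by group
      _ = g * (x * (g⁻¹ * u * g)) * g⁻¹ := by rw [h2]
      _ = g * x * g⁻¹ * u := by group
  intro g hg
  rw [mem_normalizer_iff]
  intro x
  refine ⟨key g (h hg) x, fun hx => ?_⟩
  have := key g⁻¹ (inv_mem (h hg)) _ hx
  have e : g⁻¹ * (g * x * g⁻¹) * g⁻¹⁻¹ = x := by group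
  rwa [e] at this

/-- **Lemma 3**, abelian case: `P' ` centralises `V`. -/
theorem lem3ab (h : Ctx q A H) {r s : ℕ} (hr : r.Prime) (hs : s.Prime) (hrs : r ≠ s)
    {V P : Subgroup G} (hV : V ≤ H) (hP : P ≤ H) (hVr : IsPGroup r V) (hPs : IsPGroup s P)
    (hAV : A ≤ normalizer (V : Set G)) (hAP : A ≤ normalizer (P : Set G))
    (hPV : P ≤ normalizer (V : Set G)) (hVab : ∀ x ∈ V, ∀ y ∈ V, x * y = y * x) (n : ℕ) :
    ∀ Z : Subgroup G, Nat.card Z = n → Z ≤ ⁅P, P⁆ → P ≤ normalizer (Z : Set G) →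
    A ≤ normalizer (Z : Set G) → Z ≤ centralizer (V : Set G) := by
  have := Fact.mk hr
  have := Fact.mk hs
  have : IsMulCommutative V := isMulCommutative_iff_of_setLike.mpr hVab
  induction n using Nat.strong_induction_on with
  | _ n ih =>
  intro Z hn hZ hPZ hAZ
  by_cases hZ1 : Z = ⊥
  · subst hZ1; exact bot_le
  have hPP : ⁅P, P⁆ ≤ P := le_normalizer_iff_commutator_le_left.mp le_normalizer
  have hZP : Z ≤ P := hZ.trans hPP
  have hZs : IsPGroup s Z := hPs.to_le hZP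
  have hlt : ⁅Z, P⁆ < Z := commutator_lt_of_pgroup hPs hZs hPZ hZ1
  have hcardlt : Nat.card (⁅Z, P⁆ : Subgroup G) < Nat.card Z := by
    rcases lt_or_ge (Nat.card (⁅Z, P⁆ : Subgroup G)) (Nat.card Z) with h0 | h0
    · exact h0
    · exact absurd (eq_of_le_of_card_ge hlt.le h0) hlt.ne
  have hZPc : ⁅Z, P⁆ ≤ centralizer (V : Set G) :=
    ih _ (by rw [← hn]; exact hcardlt) _ rfl (hlt.le.trans hZ)
      (le_norm_comm2 hPZ le_normalizer) (le_norm_comm2 hAZ hAP)
  have hcopVs : ∀ X : Subgroup G, X ≤ P → (Nat.card X).Coprime (Nat.card V) := by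
    intro X hX
    exact (cop_p hr hVr (not_dvd_of_p hs hr hrs.symm (hPs.to_le hX))).symm
  apply h.toCtx0.gen_le (hZP.trans hP) hAZ
  intro d hd hd1 z hz hzd
  set Zd := cf Z d with hZd
  have hZdZ : Zd ≤ Z := inf_le_left
  have hzZd : z ∈ Zd := mem_cf.2 ⟨hz, hzd⟩
  have hAZd : A ≤ normalizer (Zd : Set G) := norm_cf h.toCtx0 hAZ hd
  set U := ⁅V, Zd⁆ with hU
  have hZdV : Zd ≤ normalizer (V : Set G) := (hZdZ.trans hZP).trans hPV
  have hUV : U ≤ V := le_normalizer_iff_commutator_le_left.mp hZdV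
  have hAU : A ≤ normalizer (U : Set G) := le_norm_comm2 hAV hAZd
  have hPU : P ≤ normalizer (U : Set G) := by
    have key : ∀ p ∈ P, ∀ u ∈ U, p * u * p⁻¹ ∈ U := by
      intro p hp
      have h1 : U ≤ U.comap (MulAut.conj p).toMonoidHom := by
        rw [hU, commutator_le]
        intro v hv y hy
        show p * ⁅v, y⁆ * p⁻¹ ∈ U
        have hv' : p * v * p⁻¹ ∈ V := (mem_normalizer_iff.1 (hPV hp) v).1 hv
        have hc : ⁅y⁻¹, p⁆ ∈ centralizer (V : Set G) :=
          hZPc (commutator_mem_commutator (inv_mem (hZdZ hy)) hp)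
        have hc2 := (mem_centralizer_iff.1 hc (p * v * p⁻¹)⁻¹ (inv_mem hv'))
        have h3 : p * ⁅v, y⁆ * p⁻¹ = ⁅p * v * p⁻¹, y⁆ := by
          have e1 : p * y * p⁻¹ = y * ⁅y⁻¹, p⁆ := by
            rw [commutatorElement_def]; group
          have e2 : p * ⁅v, y⁆ * p⁻¹ = (p * v * p⁻¹) * (p * y * p⁻¹) * (p * v * p⁻¹)⁻¹ * (p * y * p⁻¹)⁻¹ := by
            rw [commutatorElement_def]; group
          rw [e2, e1]
          calc (p * v * p⁻¹) * (y * ⁅y⁻¹, p⁆) * (p * v * p⁻¹)⁻¹ * (y * ⁅y⁻¹, p⁆)⁻¹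
              = (p * v * p⁻¹) * y * (⁅y⁻¹, p⁆ * (p * v * p⁻¹)⁻¹) * (⁅y⁻¹, p⁆)⁻¹ * y⁻¹ := by group
            _ = (p * v * p⁻¹) * y * ((p * v * p⁻¹)⁻¹ * ⁅y⁻¹, p⁆) * (⁅y⁻¹, p⁆)⁻¹ * y⁻¹ := by rw [hc2]
            _ = ⁅p * v * p⁻¹, y⁆ := by rw [commutatorElement_def]; group
        rw [h3, hU]
        exact commutator_mem_commutator hv' hy
      intro u hu
      exact h1 hu
    intro p hp
    rw [mem_normalizer_iff]
    intro u
    refine ⟨key p hp u, fun hu => ?_⟩
    have := key p⁻¹ (inv_mem hp) _ hu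
    have e : p⁻¹ * (p * u * p⁻¹) * p⁻¹⁻¹ = u := by group
    rwa [e] at this
  -- fixed points of `d` on `U`
  have hfixU : ∀ u ∈ U, u * d = d * u → u = 1 := by
    intro u hu hud
    have h1 : u ∈ V ⊓ centralizer (Zd : Set G) := by
      refine ⟨hUV hu, mem_centralizer_iff.2 ?_⟩
      intro y hy
      have hy' := mem_cf.1 hy
      exact (h.ab d hd hd1 u (hV (hUV hu)) y (hP (hZP hy'.1)) hud hy'.2).symm
    have h2 := inf_commutator_eq_bot_of_abelian (A := Zd) (V := V) hZdV (hcopVs Zd (hZdZ.trans hZP))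
    have h3 : u ∈ (V ⊓ centralizer (Zd : Set G)) ⊓ ⁅V, Zd⁆ := ⟨h1, hu⟩
    rw [h2] at h3
    exact h3
  have hcentc : ∀ c ∈ A, c ≠ 1 → c ∉ zpowers d → cf P c ≤ centralizer (U : Set G) := by
    intro c hc hc1 hcd
    have hdc := not_mem_symm h.toCtx0 hd hd1 hc hcd
    refine lem1' h hc hc1 hd hdc hr (hUV.trans hV) (inf_le_left.trans hP) (hVr.to_le hUV) hAU ?_
      (norm_cf h.toCtx0 hAP hc) (not_dvd_of_p hs hr hrs.symm (hPs.to_le inf_le_left))
      (inf_le_left.trans hPU) ?_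
    · intro y hy; exact (mem_cf.1 hy).2
    · intro v hv hvd y _
      rw [hfixU v hv hvd]; simp
  -- `P' ≤ C(U)`
  have hPc : ⁅P, P⁆ ≤ centralizer (U : Set G) := by
    set NU := P ⊓ centralizer (U : Set G) with hNU
    have hPNU : P ≤ NU ⊔ cf P d := by
      apply h.toCtx0.gen_le hP hAP
      intro c hc hc1 x hx hxc
      by_cases hcd : c ∈ zpowers d
      · exact (le_sup_right : cf P d ≤ _) (mem_cf.2 ⟨hx, comm_of_zpowers h.toCtx0 hd hc1 hcd hxc⟩)
      · exact (le_sup_left : NU ≤ _) ⟨hx, hcentc c hc hc1 hcd (mem_cf.2 ⟨hx, hxc⟩)⟩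
    have hNUn : cf P d ≤ normalizer (NU : Set G) :=
      inf_le_left.trans (le_norm_inf le_normalizer (le_norm_cent hPU))
    have hact : ∀ x ∈ P, ∃ p ∈ cf P d, ∀ u ∈ U, x * u * x⁻¹ = p * u * p⁻¹ := by
      intro x hx
      have h1 := hPNU hx
      rw [mem_sup_of_le_normalizer hNUn] at h1
      obtain ⟨n', hn', p, hp, rfl⟩ := h1
      refine ⟨p, hp, fun u hu => ?_⟩
      have h2 : p * u * p⁻¹ ∈ U := (mem_normalizer_iff.1 (hPU (mem_cf.1 hp).1) u).1 hu
      have h3 := mem_centralizer_iff.1 hn'.2 _ h2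
      calc n' * p * u * (n' * p)⁻¹ = n' * (p * u * p⁻¹) * n'⁻¹ := by group
        _ = p * u * p⁻¹ := by rw [← h3]; group
    rw [commutator_le]
    intro x hx y hy
    rw [mem_centralizer_iff]
    intro u hu
    obtain ⟨p1, hp1, h1⟩ := hact x hx
    obtain ⟨p2, hp2, h2⟩ := hact y hy
    have hp12 : p1 * p2 = p2 * p1 := h.ab d hd hd1 p1 (hP (mem_cf.1 hp1).1) p2 (hP (mem_cf.1 hp2).1)
      (mem_cf.1 hp1).2 (mem_cf.1 hp2).2
    have hU1 : ∀ w ∈ U, (x * y) * w * (x * y)⁻¹ = (p1 * p2) * w * (p1 * p2)⁻¹ := by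
      intro w hw
      have h3 : y * w * y⁻¹ ∈ U := (mem_normalizer_iff.1 (hPU hy) w).1 hw
      calc (x * y) * w * (x * y)⁻¹ = x * (y * w * y⁻¹) * x⁻¹ := by group
        _ = p1 * (y * w * y⁻¹) * p1⁻¹ := h1 _ h3
        _ = p1 * (p2 * w * p2⁻¹) * p1⁻¹ := by rw [h2 w hw]
        _ = (p1 * p2) * w * (p1 * p2)⁻¹ := by group
    have hU2 : ∀ w ∈ U, (y * x) * w * (y * x)⁻¹ = (p2 * p1) * w * (p2 * p1)⁻¹ := by
      intro w hw
      have h3 : x * w * x⁻¹ ∈ U := (mem_normalizer_iff.1 (hPU hx) w).1 hw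
      calc (y * x) * w * (y * x)⁻¹ = y * (x * w * x⁻¹) * y⁻¹ := by group
        _ = p2 * (x * w * x⁻¹) * p2⁻¹ := h2 _ h3
        _ = p2 * (p1 * w * p1⁻¹) * p2⁻¹ := by rw [h1 w hw]
        _ = (p2 * p1) * w * (p2 * p1)⁻¹ := by group
    -- apply to `w = (y x)⁻¹ u (y x)`
    have hw : (y * x)⁻¹ * u * (y * x) ∈ U := by
      have := (mem_normalizer_iff.1 (inv_mem (hPU (mul_mem hy hx))) u).1 hu
      rwa [inv_inv] at this
    have e1 := hU1 _ hw
    have e2 := hU2 _ hw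
    rw [hp12, ← e2] at e1
    have e3 : (y * x) * ((y * x)⁻¹ * u * (y * x)) * (y * x)⁻¹ = u := by group
    rw [e3] at e1
    rw [commutatorElement_def]
    have e4 : x * y * ((y * x)⁻¹ * u * (y * x)) * (x * y)⁻¹ = (x * y * x⁻¹ * y⁻¹) * u * (x * y * x⁻¹ * y⁻¹)⁻¹ := by
      group
    rw [e4, mul_inv_eq_iff_eq_mul] at e1
    exact e1.symm
  have hfin : ⁅U, Zd⁆ = ⊥ := by
    rw [commutator_comm, commutator_eq_bot_iff_le_centralizer]
    exact (hZdZ.trans hZ).trans hPc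
  have hsV : Group.IsSolvable V := by
    have := hVr.isNilpotent
    infer_instance
  have h4 := commutator_eq_bot_of_commutator_commutator (A := Zd) (K := V) hZdV
    (hcopVs Zd (hZdZ.trans hZP)) (Or.inr hsV) hfin
  rw [commutator_comm, commutator_eq_bot_iff_le_centralizer] at h4
  exact h4 hzZd

/-- **Lemma 3**: `P'` centralises `V`. -/
theorem lem3 (n : ℕ) : ∀ {G : Type u} [Group G] [Finite G] {q : ℕ} {A H : Subgroup G} (_ : Ctx q A H)
    {r s : ℕ} (_ : r.Prime) (_ : s.Prime) (_ : r ≠ s)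
    {V P : Subgroup G} (_ : Nat.card V = n) (_ : V ≤ H) (_ : P ≤ H) (_ : IsPGroup r V) (_ : IsPGroup s P)
    (_ : A ≤ normalizer (V : Set G)) (_ : A ≤ normalizer (P : Set G))
    (_ : P ≤ normalizer (V : Set G)), ⁅P, P⁆ ≤ centralizer (V : Set G) := by
  induction n using Nat.strong_induction_on with
  | _ n ih =>
  intro G _ _ q A H h r s hr hs hrs V P hn hV hP hVr hPs hAV hAP hPV
  have := Fact.mk hr
  by_cases hV1 : V = ⊥
  · subst hV1
    rw [← commutator_eq_bot_iff_le_centralizer, commutator_bot_right]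
  set D := ⁅V, V⁆ with hD
  have hDV : D < V := comm_lt hVr hV1
  have hAD : A ≤ normalizer (D : Set G) := le_norm_comm hAV
  have hPD : P ≤ normalizer (D : Set G) := le_norm_comm hPV
  have hVD : V ≤ normalizer (D : Set G) := le_norm_comm le_normalizer
  have hcardlt : Nat.card D < Nat.card V := by
    rcases lt_or_ge (Nat.card D) (Nat.card V) with h0 | h0
    · exact h0
    · exact absurd (eq_of_le_of_card_ge hDV.le h0) hDV.ne
  have hcD := ih (Nat.card D) (by rw [← hn]; exact hcardlt) h hr hs hrs rfl (hDV.le.trans hV) hP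
    (hVr.to_le hDV.le) hPs hAD hAP hPD
  have hK : V ⊔ P ≤ H := sup_le hV hP
  have h1 := (h.restrict hK (le_norm_sup hAV hAP)).quot (hDV.le.trans le_sup_left) hAD (sup_le hVD hPD)
  have h2 := lem3ab h1 hr hs hrs (V := im D V) (P := im D P) (im_mono le_sup_left)
    (im_mono le_sup_right) (im_isPGroup hVr) (im_isPGroup hPs) (im_le_normalizer hAV)
    (im_le_normalizer hAP) (im_le_normalizer hPV) (by
      intro x hx y hy
      have h1 : im D V ≤ centralizer (im D V : Set (Qt D)) := by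
        rw [← commutator_eq_bot_iff_le_centralizer, im_commutator hVD hVD, im_eq_bot]
        exact hDV.le.trans hVD
      exact mem_centralizer_iff.1 (h1 hy) x hx) _ _ rfl le_rfl (le_norm_comm le_normalizer)
      (le_norm_comm (im_le_normalizer hAP))
  have hPP : ⁅P, P⁆ ≤ P := le_normalizer_iff_commutator_le_left.mp le_normalizer
  rw [im_commutator hPD hPD] at h2
  have h3 : ⁅V, ⁅P, P⁆⁆ ≤ D := comm_of_im (hPP.trans hPD) hVD h2
  have hsV : Group.IsSolvable V := by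
    have := hVr.isNilpotent
    infer_instance
  have hcop : (Nat.card (⁅P, P⁆ : Subgroup G)).Coprime (Nat.card V) :=
    (cop_p hr hVr (not_dvd_of_p hs hr hrs.symm (hPs.to_le hPP))).symm
  have h4 := le_centralizer_of_series (A := ⁅P, P⁆) (K := V) (N := D) (hPP.trans hPV) hcop
    (Or.inr hsV) h3 (le_centralizer_iff.1 hcD)
  exact le_centralizer_iff.1 h4

end Cfsg.Agent.Lib.H70SqB
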