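import Cfsg.Agent.Lib.H70SqB

/-!
# Groups acted on by `C_q × C_q` with abelian centralizers (S4323), part 3 (helper70)
-/

set_option autoImplicit false
set_option maxHeartbeats 200000

namespace Cfsg.Agent.Lib.H70SqC

open Subgroup Cfsg.Agent.Lib.SubgroupTools Cfsg.Agent.Lib.CoprimeAction Cfsg.Agent.Lib.CoprimeAction2
  Cfsg.Agent.Lib.CoprimeGen Cfsg.Agent.Lib.H70SqA Cfsg.Agent.Lib.H70SqB

open scoped commutatorElement Pointwise

universe u

variable {G : Type u} [Group G] [Finite G] {q : ℕ} {A H : Subgroup G}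

omit [Finite G] in
theorem le_norm_of_conj {L W : Subgroup G} (h : ∀ g ∈ L, ∀ x ∈ W, g * x * g⁻¹ ∈ W) :
    L ≤ normalizer (W : Set G) := by
  intro g hg
  rw [mem_normalizer_iff]
  intro x
  refine ⟨h g hg x, fun hx => ?_⟩
  have := h g⁻¹ (inv_mem hg) _ hx
  have e : g⁻¹ * (g * x * g⁻¹) * g⁻¹⁻¹ = x := by group
  rwa [e] at this

omit [Finite G] in
theorem le_norm_iSup {ι : Sort*} {L : Subgroup G} {W : ι → Subgroup G}
    (h : ∀ i, L ≤ normalizer (W i : Set G)) : L ≤ normalizer ((⨆ i, W i : Subgroup G) : Set G) := by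
  apply le_norm_of_conj
  intro g hg
  have h1 : (⨆ i, W i) ≤ (⨆ i, W i).comap (MulAut.conj g).toMonoidHom := by
    apply iSup_le
    intro i x hx
    exact (le_iSup W i) ((mem_normalizer_iff.1 (h i hg) x).1 hx)
  intro x hx
  exact h1 hx

omit [Finite G] in
theorem mem_sup_n {E V : Subgroup G} (h : E ≤ normalizer (V : Set G)) {x : G} :
    x ∈ E ⊔ V ↔ ∃ e ∈ E, ∃ v ∈ V, e * v = x := by
  rw [sup_comm]; exact mem_sup_of_le_normalizer' h

/-- the situation of Lemma 4 -/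
structure Sit (q : ℕ) (A H : Subgroup G) (r s : ℕ) (V K : Subgroup G) : Prop where
  h : Ctx q A H
  hr : r.Prime
  hs : s.Prime
  hrs : r ≠ s
  hV : V ≤ H
  hK : K ≤ H
  hVr : IsPGroup r V
  hKs : IsPGroup s K
  hVab : ∀ x ∈ V, ∀ y ∈ V, x * y = y * x
  hKab : ∀ x ∈ K, ∀ y ∈ K, x * y = y * x
  hAV : A ≤ normalizer (V : Set G)
  hAK : A ≤ normalizer (K : Set G)
  hKV : K ≤ normalizer (V : Set G)
  faith : ∀ x ∈ K, (∀ v ∈ V, v * x = x * v) → x = 1

namespace Sit

variable {r s : ℕ} {V K : Subgroup G}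

theorem cop (S : Sit q A H r s V K) {X Y : Subgroup G} (hX : X ≤ V) (hY : Y ≤ K) :
    (Nat.card X).Coprime (Nat.card Y) := by
  have := Fact.mk S.hr
  exact cop_p S.hr (S.hVr.to_le hX) (not_dvd_of_p S.hs S.hr S.hrs.symm (S.hKs.to_le hY))

/-- `[V, K_d]` -/
abbrev UU (_ : Sit q A H r s V K) (d : G) : Subgroup G := ⁅V, cf K d⁆

theorem UU_le (S : Sit q A H r s V K) (d : G) : S.UU d ≤ V :=
  le_normalizer_iff_commutator_le_left.mp (inf_le_left.trans S.hKV)

theorem K_norm_cf (S : Sit q A H r s V K) (d : G) : K ≤ normalizer ((cf K d : Subgroup G) : Set G) := by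
  apply le_norm_of_conj
  intro g hg x hx
  have h1 := S.hKab g hg x (mem_cf.1 hx).1
  rw [h1, mul_assoc, mul_inv_cancel, mul_one]; exact hx

theorem K_norm_UU (S : Sit q A H r s V K) (d : G) : K ≤ normalizer (S.UU d : Set G) :=
  le_norm_comm2 S.hKV (S.K_norm_cf d)

theorem A_norm_UU (S : Sit q A H r s V K) {d : G} (hd : d ∈ A) : A ≤ normalizer (S.UU d : Set G) :=
  le_norm_comm2 S.hAV (norm_cf S.h.toCtx0 S.hAK hd)

theorem fixU (S : Sit q A H r s V K) {d : G} (hd : d ∈ A) (hd1 : d ≠ 1) :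
    ∀ u ∈ S.UU d, u * d = d * u → u = 1 := by
  intro u hu hud
  have : IsMulCommutative V := isMulCommutative_iff_of_setLike.mpr S.hVab
  have h1 : u ∈ V ⊓ centralizer ((cf K d : Subgroup G) : Set G) := by
    refine ⟨S.UU_le d hu, mem_centralizer_iff.2 ?_⟩
    intro y hy
    have hy' := mem_cf.1 hy
    exact (S.h.ab d hd hd1 u (S.hV (S.UU_le d hu)) y (S.hK hy'.1) hud hy'.2).symm
  have h2 := inf_commutator_eq_bot_of_abelian (A := cf K d) (V := V) (inf_le_left.trans S.hKV)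
    (S.cop le_rfl inf_le_left).symm
  have h3 : u ∈ (V ⊓ centralizer ((cf K d : Subgroup G) : Set G)) ⊓ ⁅V, cf K d⁆ := ⟨h1, hu⟩
  rw [h2] at h3
  exact h3

theorem stepA (S : Sit q A H r s V K) {c d : G} (hc : c ∈ A) (hc1 : c ≠ 1) (hd : d ∈ A)
    (hd1 : d ≠ 1) (hcd : c ∉ zpowers d) : cf K c ≤ centralizer (S.UU d : Set G) := by
  have := Fact.mk S.hr
  have hdc := not_mem_symm S.h.toCtx0 hd hd1 hc hcd
  refine lem1' S.h hc hc1 hd hdc S.hr ((S.UU_le d).trans S.hV) (inf_le_left.trans S.hK)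
    (S.hVr.to_le (S.UU_le d)) (S.A_norm_UU hd) ?_ (norm_cf S.h.toCtx0 S.hAK hc)
    (not_dvd_of_p S.hs S.hr S.hrs.symm (S.hKs.to_le inf_le_left)) (inf_le_left.trans (S.K_norm_UU d)) ?_
  · intro y hy; exact (mem_cf.1 hy).2
  · intro v hv hvd y _
    rw [S.fixU hd hd1 v hv hvd]; simp

theorem stepC (S : Sit q A H r s V K) {c : G} (hc : c ∈ A) (x : G) (hx : x ∈ K)
    (hxU : ∀ d ∈ A, d ≠ 1 → d ∉ zpowers c → x ∈ centralizer (S.UU d : Set G)) : x ∈ cf K c := by
  have := Fact.mk S.hr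
  let W : Subgroup G := ⨆ d : {d : G // d ∈ A ∧ d ≠ 1 ∧ d ∉ zpowers c}, S.UU d
  set B : Subgroup G := K ⊓ centralizer (W : Set G) with hB
  have hAW : A ≤ normalizer (W : Set G) := le_norm_iSup fun d => S.A_norm_UU d.2.1
  have hAB : A ≤ normalizer (B : Set G) := le_norm_inf S.hAK (le_norm_cent hAW)
  have hBK : B ≤ K := inf_le_left
  have hmain : B ≤ cf K c := by
    apply S.h.toCtx0.gen_le (hBK.trans S.hK) hAB
    intro e he he1 y hy hye
    by_cases hec : e ∈ zpowers c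
    · exact mem_cf.2 ⟨hBK hy, comm_of_zpowers S.h.toCtx0 hc he1 hec hye⟩
    · have hyK : y ∈ K := hBK hy
      have hycf : zpowers y ≤ cf K e := by rw [zpowers_le]; exact mem_cf.2 ⟨hyK, hye⟩
      have hyU : y ∈ centralizer (S.UU e : Set G) :=
        centralizer_le (show (S.UU e : Set G) ⊆ W from
          (le_iSup (fun d : {d : G // d ∈ A ∧ d ≠ 1 ∧ d ∉ zpowers c} => S.UU d) ⟨e, he, he1, hec⟩)) hy.2
      have hzK : zpowers y ≤ K := by rw [zpowers_le]; exact hyK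
      have h1 : ⁅⁅V, zpowers y⁆, zpowers y⁆ = ⊥ := by
        rw [commutator_comm, commutator_eq_bot_iff_le_centralizer, zpowers_le]
        exact centralizer_le (commutator_mono le_rfl hycf) hyU
      have hsV : Group.IsSolvable V := by
        have := S.hVr.isNilpotent
        infer_instance
      have h2 := commutator_eq_bot_of_commutator_commutator (A := zpowers y) (K := V)
        (hzK.trans S.hKV) (S.cop le_rfl hzK).symm (Or.inr hsV) h1
      rw [commutator_comm, commutator_eq_bot_iff_le_centralizer, zpowers_le] at h2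
      have h3 := S.faith y hyK fun v hv => mem_centralizer_iff.1 h2 v hv
      rw [h3]; exact one_mem _
  apply hmain
  refine ⟨hx, ?_⟩
  have hW : W ≤ centralizer {x} := by
    apply iSup_le
    rintro ⟨d, hd, hd1, hdc⟩ w hw
    rw [mem_centralizer_iff]
    rintro _ rfl
    exact (mem_centralizer_iff.1 (hxU d hd hd1 hdc) w hw).symm
  show x ∈ centralizer (W : Set G)
  rw [mem_centralizer_iff]
  intro w hw
  exact (mem_centralizer_iff.1 (hW hw) x rfl).symm

theorem stepB (S : Sit q A H r s V K) {a : G} (ha : a ∈ A) (ha1 : a ≠ 1) {Y : Subgroup G}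
    (hY : Y ≤ H) (hYa : ∀ y ∈ Y, y * a = a * y)
    (hYV : Y ≤ normalizer (V : Set G)) (hYK : Y ≤ normalizer ((K ⊔ V : Subgroup G) : Set G))
    {c : G} (hc : c ∈ A) (hc1 : c ≠ 1) (hca : c ∉ zpowers a) {y : G} (hy : y ∈ Y) {k : G} (hk : k ∈ cf K c) :
    y * k * y⁻¹ ∈ cf K c ⊔ V := by
  classical
  set Kc := cf K c with hKc
  have hKcK : Kc ≤ K := inf_le_left
  have hyV : y ∈ normalizer (V : Set G) := hYV hy
  set E : Subgroup G := Kc.map (MulAut.conj y).toMonoidHom with hE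
  have hmemE : ∀ x, x ∈ E ↔ ∃ k ∈ Kc, y * k * y⁻¹ = x := fun x => by
    rw [hE, mem_map]; rfl
  have hEV : E ≤ normalizer (V : Set G) := by
    intro x hx
    obtain ⟨k, hk, rfl⟩ := (hmemE x).1 hx
    exact mul_mem (mul_mem hyV (S.hKV (hKcK hk))) (inv_mem hyV)
  set Kst : Subgroup G := K ⊓ (E ⊔ V) with hKst
  have hform : ∀ x ∈ Kst, ∃ k ∈ Kc, ∃ v ∈ V, x = y * k * y⁻¹ * v := by
    rintro x ⟨_, hx⟩
    obtain ⟨e, he, v, hv, hev⟩ := (mem_sup_n hEV).1 hx
    obtain ⟨k, hk, rfl⟩ := (hmemE e).1 he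
    exact ⟨k, hk, v, hv, hev.symm⟩
  have hKstK : Kst ≤ K := inf_le_left
  have hKV1 : ∀ x ∈ K, x ∈ V → x = 1 := by
    intro x hx hxV
    exact S.faith x hx fun v hv => S.hVab v hv x hxV
  -- `Kst` centralises all the `U_d`
  have hcent : ∀ d ∈ A, d ≠ 1 → d ∉ zpowers c → Kst ≤ centralizer (S.UU d : Set G) := by
    intro d hd hd1 hdc
    have hcd := not_mem_symm S.h.toCtx0 hc hc1 hd hdc
    have hKcU : Kc ≤ centralizer (S.UU d : Set G) := S.stepA hc hc1 hd hd1 hcd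
    by_cases hda : d ∈ zpowers a
    · -- `Y` normalises `U_d`
      have hYU : Y ≤ normalizer (S.UU d : Set G) := by
        apply le_norm_comm2 hYV
        apply le_norm_of_conj
        intro g hg x hx
        have hx' := mem_cf.1 hx
        have h1 := S.h.ab a ha ha1 g (hY hg) x (S.hK hx'.1) (hYa g hg)
          (comm_of_zpowers S.h.toCtx0 ha hd1 hda hx'.2)
        rw [h1, mul_assoc, mul_inv_cancel, mul_one]; exact hx
      intro x hx
      obtain ⟨k, hk, v, hv, rfl⟩ := hform x hx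
      refine mul_mem ?_ ?_
      · rw [mem_centralizer_iff]
        intro u hu
        have h1 : y⁻¹ * u * y ∈ S.UU d := by
          have := (mem_normalizer_iff.1 (inv_mem (hYU hy)) u).1 hu
          rwa [inv_inv] at this
        have h2 := mem_centralizer_iff.1 (hKcU hk) _ h1
        calc u * (y * k * y⁻¹) = y * ((y⁻¹ * u * y) * k) * y⁻¹ := by group
          _ = y * (k * (y⁻¹ * u * y)) * y⁻¹ := by rw [h2]
          _ = y * k * y⁻¹ * u := by group
      · rw [mem_centralizer_iff]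
        intro u hu
        exact S.hVab u (S.UU_le d hu) v hv
    · -- Frobenius argument
      refine frob_ab (b := a) S.h.hq (S.h.pow a ha) (fun x hx z hz => S.hVab x (S.UU_le d hx) z (S.UU_le d hz))
        (S.A_norm_UU hd ha) (hKstK.trans (S.K_norm_UU d)) ?_ ?_ (S.cop (S.UU_le d) hKstK) ?_
      · -- a normalises Kst
        have hya : y * a = a * y := hYa y hy
        have hEa : zpowers a ≤ normalizer (E : Set G) := by
          apply le_norm_of_conj
          intro g hg x hx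
          obtain ⟨k, hk, rfl⟩ := (hmemE x).1 hx
          have hgA : g ∈ A := (zpowers_le.2 ha) hg
          have hgy : g * y = y * g := by
            obtain ⟨n, rfl⟩ := mem_zpowers_iff.1 hg
            exact (Commute.zpow_right (show Commute y a from hya) n).symm
          rw [hmemE]
          refine ⟨g * k * g⁻¹, (mem_normalizer_iff.1 (norm_cf S.h.toCtx0 S.hAK hc hgA) k).1 hk, ?_⟩
          calc y * (g * k * g⁻¹) * y⁻¹ = (y * g) * k * (y * g)⁻¹ := by group
            _ = (g * y) * k * (g * y)⁻¹ := by rw [hgy]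
            _ = g * (y * k * y⁻¹) * g⁻¹ := by group
        have hzA : zpowers a ≤ A := zpowers_le.2 ha
        exact le_norm_inf (hzA.trans S.hAK) (le_norm_sup hEa (hzA.trans S.hAV)) (mem_zpowers a)
      · -- a is fixed point free on Kst
        intro x hx hxa
        obtain ⟨k, hk, v, hv, hxe⟩ := hform x hx
        have hya : a * y = y * a := (hYa y hy).symm
        have h1 : a * x * a⁻¹ = x := by rw [← hxa, mul_inv_cancel_right]
        have h2 : a * x * a⁻¹ = y * (a * k * a⁻¹) * y⁻¹ * (a * v * a⁻¹) := by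
          rw [hxe]
          calc a * (y * k * y⁻¹ * v) * a⁻¹ = (a * y) * k * (a * y)⁻¹ * (a * v * a⁻¹) := by group
            _ = (y * a) * k * (y * a)⁻¹ * (a * v * a⁻¹) := by rw [hya]
            _ = _ := by group
        have hav : a * v * a⁻¹ ∈ V := (mem_normalizer_iff.1 (S.hAV ha) v).1 hv
        have hak : a * k * a⁻¹ ∈ K := (mem_normalizer_iff.1 (S.hAK ha) k).1 (hKcK hk)
        have h3 : k⁻¹ * (a * k * a⁻¹) ∈ V := by
          have h4 : y * (k⁻¹ * (a * k * a⁻¹)) * y⁻¹ ∈ V := by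
            have h5 : y * (a * k * a⁻¹) * y⁻¹ * (a * v * a⁻¹) = y * k * y⁻¹ * v := by
              rw [← h2, h1, hxe]
            have h6 : y * (k⁻¹ * (a * k * a⁻¹)) * y⁻¹ = v * (a * v * a⁻¹)⁻¹ := by
              have h7 := congrArg (fun z => y * k⁻¹ * y⁻¹ * z * (a * v * a⁻¹)⁻¹) h5
              beta_reduce at h7
              calc y * (k⁻¹ * (a * k * a⁻¹)) * y⁻¹ =
                  y * k⁻¹ * y⁻¹ * (y * (a * k * a⁻¹) * y⁻¹ * (a * v * a⁻¹)) * (a * v * a⁻¹)⁻¹ := by group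
                _ = y * k⁻¹ * y⁻¹ * (y * k * y⁻¹ * v) * (a * v * a⁻¹)⁻¹ := h7
                _ = v * (a * v * a⁻¹)⁻¹ := by group
            rw [h6]; exact mul_mem hv (inv_mem hav)
          exact (mem_normalizer_iff.1 hyV _).2 h4
        have h8 := hKV1 _ (mul_mem (inv_mem (hKcK hk)) hak) h3
        have h9 : k * a = a * k := by
          rw [inv_mul_eq_one, eq_mul_inv_iff_mul_eq] at h8; exact h8
        have h10 := S.h.two ha ha1 hc hca (S.hK (hKcK hk)) h9 (mem_cf.1 hk).2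
        subst h10
        have h11 : x = v := by rw [hxe]; group
        exact hKV1 x (hKstK hx) (h11 ▸ hv)
      · intro w hw hwa x hx
        obtain ⟨k, hk, v, hv, rfl⟩ := hform x hx
        have h1 : w * y = y * w := S.h.ab a ha ha1 w (S.hV (S.UU_le d hw)) y (hY hy) hwa (hYa y hy)
        have h2 : w * k = k * w := mem_centralizer_iff.1 (hKcU hk) w hw
        have h3 : w * v = v * w := S.hVab w (S.UU_le d hw) v hv
        have h4 : Commute w (y * k * y⁻¹ * v) :=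
          ((Commute.mul_right (Commute.mul_right h1 h2) (Commute.inv_right h1))).mul_right h3
        exact h4.eq.symm
  have hKstc : Kst ≤ Kc := fun x hx => S.stepC hc x (hKstK hx) fun d hd hd1 hdc => hcent d hd hd1 hdc hx
  -- conclusion
  have h1 : y * k * y⁻¹ ∈ K ⊔ V :=
    (mem_normalizer_iff.1 (hYK hy) k).1 ((le_sup_left : K ≤ K ⊔ V) (hKcK hk))
  obtain ⟨x, hx, v, hv, hxv⟩ := (mem_sup_n S.hKV).1 h1
  have h2 : x ∈ Kst := by
    refine ⟨hx, ?_⟩
    have h3 : x = (y * k * y⁻¹) * v⁻¹ := by rw [← hxv]; group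
    rw [h3]
    exact mul_mem ((le_sup_left : E ≤ E ⊔ V) ((hmemE _).2 ⟨k, hk, rfl⟩))
      ((le_sup_right : V ≤ E ⊔ V) (inv_mem hv))
  rw [← hxv]
  exact mul_mem ((le_sup_left : Kc ≤ Kc ⊔ V) (hKstc h2)) ((le_sup_right : V ≤ Kc ⊔ V) hv)

/-- **Lemma 4a** -/
theorem lem4a (S : Sit q A H r s V K) {a : G} (ha : a ∈ A) (ha1 : a ≠ 1) {Y : Subgroup G}
    (hY : Y ≤ H) (hYa : ∀ y ∈ Y, y * a = a * y) (hAY : A ≤ normalizer (Y : Set G))
    (hYV : Y ≤ normalizer (V : Set G)) (hYK : Y ≤ normalizer ((K ⊔ V : Subgroup G) : Set G)) :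
    ⁅K, Y⁆ ≤ V := by
  classical
  let L : Subgroup G :=
    { carrier := {x | x ∈ K ∧ ∀ y ∈ Y, x * y * x⁻¹ * y⁻¹ ∈ V}
      one_mem' := ⟨one_mem _, fun y _ => by simp⟩
      mul_mem' := by
        rintro x x' ⟨hx, h1⟩ ⟨hx', h2⟩
        refine ⟨mul_mem hx hx', fun y hy => ?_⟩
        have e : x * x' * y * (x * x')⁻¹ * y⁻¹ = (x * (x' * y * x'⁻¹ * y⁻¹) * x⁻¹) * (x * y * x⁻¹ * y⁻¹) := by
          group
        rw [e]
        exact mul_mem ((mem_normalizer_iff.1 (S.hKV hx) _).1 (h2 y hy)) (h1 y hy)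
      inv_mem' := by
        rintro x ⟨hx, h1⟩
        refine ⟨inv_mem hx, fun y hy => ?_⟩
        have e : x⁻¹ * y * x⁻¹⁻¹ * y⁻¹ = x⁻¹ * (x * y * x⁻¹ * y⁻¹)⁻¹ * x⁻¹⁻¹ := by group
        rw [e]
        exact (mem_normalizer_iff.1 (S.hKV (inv_mem hx)) _).1 (inv_mem (h1 y hy)) }
  have hmain : K ≤ L := by
    apply S.h.toCtx0.gen_le S.hK S.hAK
    intro c hc hc1 k hk hkc
    refine ⟨hk, ?_⟩
    by_cases hca : c ∈ zpowers a
    · intro y hy
      have h1 := S.h.ab a ha ha1 k (S.hK hk) y (hY hy) (comm_of_zpowers S.h.toCtx0 ha hc1 hca hkc) (hYa y hy)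
      rw [h1, mul_assoc, mul_assoc, mul_inv_cancel_left, mul_inv_cancel]; exact one_mem _
    · -- every element of `Y` is `y⁻¹ (c y c⁻¹)`
      have hcY : ∀ y ∈ Y, c * y * c⁻¹ ∈ Y := fun y hy => (mem_normalizer_iff.1 (hAY hc) y).1 hy
      let f : Y → Y := fun y => ⟨(y : G)⁻¹ * (c * y * c⁻¹), mul_mem (inv_mem y.2) (hcY y y.2)⟩
      have hinj : Function.Injective f := by
        intro y y' hyy
        have h1 : (y : G)⁻¹ * (c * y * c⁻¹) = (y' : G)⁻¹ * (c * y' * c⁻¹) := congrArg Subtype.val hyy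
        have h2 : ((y' : G) * (y : G)⁻¹) * c = c * ((y' : G) * (y : G)⁻¹) := by
          have h3 : (y' : G) * ((y : G)⁻¹ * (c * y * c⁻¹)) * (c * (y : G)⁻¹) =
              (y' : G) * ((y' : G)⁻¹ * (c * y' * c⁻¹)) * (c * (y : G)⁻¹) := by rw [h1]
          have h4 : (y' : G) * ((y : G)⁻¹ * (c * y * c⁻¹)) * (c * (y : G)⁻¹) = ((y' : G) * (y : G)⁻¹) * c := by
            group
          have h5 : (y' : G) * ((y' : G)⁻¹ * (c * y' * c⁻¹)) * (c * (y : G)⁻¹) = c * ((y' : G) * (y : G)⁻¹) := by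
            group
          rw [h4, h5] at h3; exact h3
        have h6 : (y' : G) * (y : G)⁻¹ ∈ Y := mul_mem y'.2 (inv_mem y.2)
        have h7 := S.h.two ha ha1 hc hca (hY h6) (hYa _ h6) h2
        exact Subtype.ext (mul_inv_eq_one.1 h7).symm
      have hsurj : Function.Surjective f := Finite.surjective_of_injective hinj
      intro z hz
      obtain ⟨⟨y, hy⟩, hyz⟩ := hsurj ⟨z, hz⟩
      have hz' : z = y⁻¹ * (c * y * c⁻¹) := (congrArg Subtype.val hyz).symm
      have hkcf : k ∈ cf K c := mem_cf.2 ⟨hk, hkc⟩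
      have h1 := S.stepB ha ha1 hY hYa hYV hYK hc hc1 hca hy hkcf
      obtain ⟨k', hk', v', hv', h2⟩ := (mem_sup_n (E := cf K c) (inf_le_left.trans S.hKV)).1 h1
      have hk'c := (mem_cf.1 hk').2
      have h3 : (c * y * c⁻¹) * k * (c * y * c⁻¹)⁻¹ = k' * (c * v' * c⁻¹) := by
        calc (c * y * c⁻¹) * k * (c * y * c⁻¹)⁻¹ = c * y * (c⁻¹ * (k * c)) * y⁻¹ * c⁻¹ := by group
          _ = c * y * (c⁻¹ * (c * k)) * y⁻¹ * c⁻¹ := by rw [hkc]
          _ = c * (y * k * y⁻¹) * c⁻¹ := by group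
          _ = c * (k' * v') * c⁻¹ := by rw [h2]
          _ = (c * k') * v' * c⁻¹ := by group
          _ = (k' * c) * v' * c⁻¹ := by rw [hk'c]
          _ = k' * (c * v' * c⁻¹) := by group
      have hcv : c * v' * c⁻¹ ∈ V := (mem_normalizer_iff.1 (S.hAV hc) v').1 hv'
      have h4 : z * k * z⁻¹ = k * (y⁻¹ * (v'⁻¹ * (c * v' * c⁻¹)) * y) := by
        calc z * k * z⁻¹ = y⁻¹ * ((c * y * c⁻¹) * k * (c * y * c⁻¹)⁻¹) * y := by rw [hz']; group
          _ = y⁻¹ * (k' * (c * v' * c⁻¹)) * y := by rw [h3]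
          _ = y⁻¹ * (k' * v') * y * (y⁻¹ * (v'⁻¹ * (c * v' * c⁻¹)) * y) := by group
          _ = y⁻¹ * (y * k * y⁻¹) * y * (y⁻¹ * (v'⁻¹ * (c * v' * c⁻¹)) * y) := by rw [h2]
          _ = _ := by group
      have h5 : y⁻¹ * (v'⁻¹ * (c * v' * c⁻¹)) * y ∈ V := by
        have := (mem_normalizer_iff.1 (inv_mem (hYV hy)) _).1 (mul_mem (inv_mem hv') hcv)
        rwa [inv_inv] at this
      have h6 : k * z * k⁻¹ * z⁻¹ = k * (z * k * z⁻¹)⁻¹ := by group
      rw [h6, h4]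
      have h7 : k * (k * (y⁻¹ * (v'⁻¹ * (c * v' * c⁻¹)) * y))⁻¹ =
          k * (y⁻¹ * (v'⁻¹ * (c * v' * c⁻¹)) * y)⁻¹ * k⁻¹ := by group
      rw [h7]
      exact (mem_normalizer_iff.1 (S.hKV hk) _).1 (inv_mem h5)
  rw [commutator_le]
  intro k hk y hy
  rw [commutatorElement_def]
  exact (hmain hk).2 y hy

end Sit

end Cfsg.Agent.Lib.H70SqC
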