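import Cfsg.Agent.Lib.H70SqC
import Cfsg.Agent.Lib.H70Frattini
import Cfsg.Agent.Lib.Cores2
import Cfsg.Agent.Lib.PCoreTools
import Cfsg.Agent.Lib.CopHall

/-!
# Groups acted on by `C_q × C_q` with abelian centralizers (S4323), part 4 (helper70)
-/

set_option autoImplicit false
set_option maxHeartbeats 400000

namespace Cfsg.Agent.Lib.H70SqD

open Subgroup Cfsg Cfsg.Agent.Lib.SubgroupTools Cfsg.Agent.Lib.CoprimeAction Cfsg.Agent.Lib.CoprimeAction2
  Cfsg.Agent.Lib.CoprimeGen Cfsg.Agent.Lib.H70SqA Cfsg.Agent.Lib.H70SqB Cfsg.Agent.Lib.H70SqC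
  Cfsg.Agent.Lib.H31Local Cfsg.Agent.Lib.RelSylow

open scoped commutatorElement Pointwise

universe u

variable {G : Type u} [Group G] [Finite G] {q : ℕ} {A H : Subgroup G}

/-- **Lemma 4** -/
theorem lem4 (h : Ctx q A H) {r s : ℕ} (hr : r.Prime) (hs : s.Prime) (hrs : r ≠ s)
    {R0 S Y : Subgroup G} (hR : R0 ≤ H) (hS : S ≤ H) (hRr : IsPGroup r R0) (hSs : IsPGroup s S)
    (hSab : ∀ x ∈ S, ∀ y ∈ S, x * y = y * x)
    (hAR : A ≤ normalizer (R0 : Set G)) (hAS : A ≤ normalizer (S : Set G))
    (hSR : S ≤ normalizer (R0 : Set G)) (hfaith : ∀ x ∈ S, (∀ v ∈ R0, v * x = x * v) → x = 1)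
    {a : G} (ha : a ∈ A) (ha1 : a ≠ 1) (hY : Y ≤ H) (hYa : ∀ y ∈ Y, y * a = a * y)
    (hAY : A ≤ normalizer (Y : Set G)) (hYR : Y ≤ normalizer (R0 : Set G))
    (hYS : Y ≤ normalizer ((S ⊔ R0 : Subgroup G) : Set G)) : ⁅S, Y⁆ ≤ R0 := by
  have := Fact.mk hr
  have := Fact.mk hs
  set D := ⁅R0, R0⁆ with hD
  have hDR : D ≤ R0 := le_normalizer_iff_commutator_le_left.mp le_normalizer
  have hAD : A ≤ normalizer (D : Set G) := le_norm_comm hAR
  have hRD : R0 ≤ normalizer (D : Set G) := le_norm_comm le_normalizer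
  have hSD : S ≤ normalizer (D : Set G) := le_norm_comm hSR
  have hYD : Y ≤ normalizer (D : Set G) := le_norm_comm hYR
  have hK : (R0 ⊔ S) ⊔ Y ≤ H := sup_le (sup_le hR hS) hY
  have h1 := (h.restrict hK (le_norm_sup (le_norm_sup hAR hAS) hAY)).quot
    (hDR.trans (le_sup_left.trans le_sup_left)) hAD (sup_le (sup_le hRD hSD) hYD)
  have hSit : Sit q (im D A) (im D ((R0 ⊔ S) ⊔ Y)) r s (im D R0) (im D S) :=
    { h := h1
      hr := hr
      hs := hs
      hrs := hrs
      hV := im_mono (le_sup_left.trans le_sup_left)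
      hK := im_mono (le_sup_right.trans le_sup_left)
      hVr := im_isPGroup hRr
      hKs := im_isPGroup hSs
      hVab := by
        intro x hx y hy
        have h1 : im D R0 ≤ centralizer (im D R0 : Set (Qt D)) := by
          rw [← commutator_eq_bot_iff_le_centralizer, im_commutator hRD hRD, im_eq_bot]
          exact hDR.trans hRD
        exact mem_centralizer_iff.1 (h1 hy) x hx
      hKab := by
        intro x hx y hy
        obtain ⟨x, hx', h2, rfl⟩ := mem_im.1 hx
        obtain ⟨y, hy', h3, rfl⟩ := mem_im.1 hy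
        rw [← map_mul, ← map_mul]
        congr 1
        exact Subtype.ext (hSab x h2 y h3)
      hAV := im_le_normalizer hAR
      hAK := im_le_normalizer hAS
      hKV := im_le_normalizer hSR
      faith := by
        intro x hx hxv
        obtain ⟨x, hx', h2, rfl⟩ := mem_im.1 hx
        have hz : zpowers (pr D ⟨x, hx'⟩) ≤ centralizer (im D R0 : Set (Qt D)) := by
          rw [zpowers_le, mem_centralizer_iff]
          exact hxv
        have h3 : zpowers x ≤ centralizer (R0 : Set G) := by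
          have hxR : x ∈ normalizer (R0 : Set G) := hSR h2
          refine le_centralizer_of_frattini (A := zpowers x) (K := R0) (zpowers_le.2 hxR) ?_ ?_
          · have h4 : Nat.card (frattini ↥R0) ∣ Nat.card R0 := card_subgroup_dvd_card _
            refine Nat.Coprime.coprime_dvd_right h4 ?_
            exact (cop_p hr hRr (not_dvd_of_p hs hr hrs.symm (hSs.to_le (zpowers_le.2 h2)))).symm
          · intro y hy k hk
            obtain ⟨n, rfl⟩ := mem_zpowers_iff.1 hy
            have hyD : x ^ n ∈ normalizer (D : Set G) := zpow_mem hx' n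
            have h5 : pr D ⟨x ^ n, hyD⟩ ∈ zpowers (pr D ⟨x, hx'⟩) := by
              refine mem_zpowers_iff.2 ⟨n, ?_⟩
              rw [← map_zpow]
              congr 1
            have h6 := mem_centralizer_iff.1 (hz h5) _ (pr_mem_im (hRD hk) hk)
            rw [pr_comm_iff] at h6
            have h7 : x ^ n * k * (x ^ n)⁻¹ * k⁻¹ ∈ D := by
              have e : x ^ n * k * (x ^ n)⁻¹ * k⁻¹ = k * (k⁻¹ * (x ^ n * k * (x ^ n)⁻¹)) * k⁻¹ := by group
              rw [e]
              exact (mem_normalizer_iff.1 (hRD hk) _).1 h6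
            have h8 : D ≤ (frattini ↥R0).map R0.subtype := by
              rw [hD, ← Subgroup.map_subtype_commutator]
              exact map_mono (H70Frattini.commutator_le_frattini hRr)
            exact h8 h7
        have h4 := hfaith x h2 fun v hv => mem_centralizer_iff.1 (h3 (mem_zpowers x)) v hv
        rw [pr_eq_one, h4]; exact one_mem _ }
  have hsup : im D (S ⊔ R0) = im D S ⊔ im D R0 := by
    unfold im
    rw [← Subgroup.map_sup, subgroupOf_sup hSD hRD]
  have h2 := hSit.lem4a (a := pr D ⟨a, hAD ha⟩) (Y := im D Y) (pr_mem_im _ ha) (by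
      intro h0
      rw [pr_eq_one] at h0
      exact ha1 (h.toCtx0.disj (hDR.trans hR) ha h0))
    (im_mono le_sup_right) (by
      intro y hy
      obtain ⟨y, hy', h3, rfl⟩ := mem_im.1 hy
      rw [← map_mul, ← map_mul]
      congr 1
      exact Subtype.ext (hYa y h3))
    (im_le_normalizer hAY) (im_le_normalizer hYR) (by
      rw [← hsup]; exact im_le_normalizer hYS)
  rw [im_commutator hSD hYD] at h2
  have hc : ⁅S, Y⁆ ≤ normalizer (D : Set G) := (commutator_le_sup _ _).trans (sup_le hSD hYD)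
  intro x hx
  exact (pr_mem_im_iff (hc hx) hDR).1 (h2 (pr_mem_im (hc hx) hx))

/-! ### `{r,s}`-groups -/

/-- all prime divisors of `|X|` are `r` or `s` -/
def TP (r s : ℕ) (X : Subgroup G) : Prop := ∀ t : ℕ, t.Prime → t ∣ Nat.card X → t = r ∨ t = s

theorem TP.mono {r s : ℕ} {X Y : Subgroup G} (h : TP r s X) (hYX : Y ≤ X) : TP r s Y :=
  fun t ht hd => h t ht (hd.trans (card_dvd_of_le hYX))

omit [Finite G] in
theorem TP.symm {r s : ℕ} {X : Subgroup G} (h : TP r s X) : TP s r X :=
  fun t ht hd => (h t ht hd).symm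

theorem normal_sup {H : Type u} [Group H] [Finite H] [Group.IsSolvable H] {r s : ℕ} (hr : r.Prime)
    (hs : s.Prime) (hrs : r ≠ s) (hpi : ∀ t : ℕ, t.Prime → t ∣ Nat.card H → t = r ∨ t = s)
    (P : Sylow s H) (hab : ∀ a ∈ P, ∀ b ∈ P, a * b = b * a) : ((P : Subgroup H) ⊔ pCore r H).Normal := by
  have := Fact.mk hr
  have := Fact.mk hs
  set N := pCore r H with hN
  set f := QuotientGroup.mk' N with hf
  have hfs : Function.Surjective f := QuotientGroup.mk'_surjective _
  have hsol : Group.IsSolvable (H ⧸ N) := inferInstance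
  have h0 : pPrimeCore s (H ⧸ N) = ⊥ := by
    rw [eq_bot_iff, ← Cores.pCore_quotient_pCore r H]
    apply Cores.le_pCore inferInstance
    have hdvd : Nat.card (pPrimeCore s (H ⧸ N)) ∣ Nat.card H :=
      (card_subgroup_dvd_card _).trans (card_quotient_dvd_card N)
    have hcop := Cores.coprime_card_pPrimeCore s (H ⧸ N)
    have hr' : ∀ t : ℕ, t.Prime → t ∣ Nat.card (pPrimeCore s (H ⧸ N)) → t = r := by
      intro t ht hd
      rcases hpi t ht (hd.trans hdvd) with h1 | h1
      · exact h1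
      · exfalso
        subst h1
        exact ht.one_lt.ne' (Nat.dvd_one.1 (hcop ▸ Nat.dvd_gcd hd dvd_rfl))
    apply IsPGroup.iff_card.2
    exact ⟨_, Nat.eq_prime_pow_of_unique_prime_dvd Nat.card_pos.ne' (fun {d} hd hdd => hr' d hd hdd)⟩
  let Q : Sylow s (H ⧸ N) := P.mapSurjective hfs
  have hQab : ∀ a ∈ Q, ∀ b ∈ Q, a * b = b * a := by
    rintro _ ⟨a, ha, rfl⟩ _ ⟨b, hb, rfl⟩
    show f a * f b = f b * f a
    rw [← map_mul, ← map_mul, hab a ha b hb]
  have hQ := Cores.sylow_eq_pCore_of_abelian h0 Q hQab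
  have hQn : (Q : Subgroup (H ⧸ N)).Normal := by rw [hQ]; infer_instance
  have h1 : (P : Subgroup H) ⊔ N = (Q : Subgroup (H ⧸ N)).comap f := by
    change _ = ((P : Subgroup H).map f).comap f
    rw [Subgroup.comap_map_eq, hf, QuotientGroup.ker_mk']
  rw [h1]; infer_instance

theorem norm_OOf (p : ℕ) (M : Subgroup G) : normalizer (M : Set G) ≤ normalizer (OOf p M : Set G) :=
  PCoreTools.normalizer_le_of_characteristic (PCoreTools.pCore_characteristic p ↥M)

theorem solvable_centralizer_FOf {M : Subgroup G} (hM : Group.IsSolvable M) :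
    M ⊓ centralizer (FOf M : Set G) ≤ FOf M := by
  rintro x ⟨hxM, hx⟩
  have h1 : (⟨x, hxM⟩ : M) ∈ centralizer (fittingSubgroup ↥M : Set ↥M) := by
    rw [mem_centralizer_iff]
    intro y hy
    exact Subtype.ext (mem_centralizer_iff.1 hx (y : G) ⟨y, hy, rfl⟩)
  exact ⟨_, Cores.centralizer_fittingSubgroup_le h1, rfl⟩

end Cfsg.Agent.Lib.H70SqD
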