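import Cfsg.Agent.Lib.H70SqD

/-!
# Groups acted on by `C_q × C_q` with abelian centralizers (S4323), part 5 (helper70)
-/

set_option autoImplicit false
set_option maxHeartbeats 400000

namespace Cfsg.Agent.Lib.H70SqE

open Subgroup Cfsg Cfsg.Agent.Lib.SubgroupTools Cfsg.Agent.Lib.CoprimeAction Cfsg.Agent.Lib.CoprimeAction2
  Cfsg.Agent.Lib.CoprimeGen Cfsg.Agent.Lib.H70SqA Cfsg.Agent.Lib.H70SqB Cfsg.Agent.Lib.H70SqC
  Cfsg.Agent.Lib.H70SqD Cfsg.Agent.Lib.H31Local Cfsg.Agent.Lib.RelSylow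

open scoped commutatorElement Pointwise

universe u

variable {G : Type u} [Group G] [Finite G] {q : ℕ} {A H : Subgroup G}

theorem OOf_eq_bot_of_not_dvd {p : ℕ} (hp : p.Prime) {M : Subgroup G} (h : ¬ p ∣ Nat.card M) :
    OOf p M = ⊥ := by
  have := Fact.mk hp
  rcases (isPGroup_OOf p M).card_eq_or_dvd with h1 | h1
  · exact Subgroup.card_eq_one.1 h1
  · exact absurd (h1.trans (card_dvd_of_le (OOf_le p M))) h

theorem FOf_eq_of_TP {r s : ℕ} (hr : r.Prime) (hs : s.Prime) {M : Subgroup G} (hM : TP r s M)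
    (h0 : OOf s M = ⊥) : FOf M = OOf r M := by
  have := Fact.mk hr
  apply le_antisymm
  · rw [FOf_eq_iSup]
    apply iSup_le
    intro p
    by_cases hpr : (p : ℕ) = r
    · rw [hpr]
    · by_cases hps : (p : ℕ) = s
      · rw [hps, h0]; exact bot_le
      · rw [OOf_eq_bot_of_not_dvd p.2 (fun hd => by
          rcases hM _ p.2 hd with h | h
          · exact hpr h
          · exact hps h)]
        exact bot_le
  · exact OOf_le_FOf r M

theorem isSyl_le_OOf {r : ℕ} (hr : r.Prime) {P M : Subgroup G} (hP : IsSyl r P M) : OOf r M ≤ P := by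
  have := Fact.mk hr
  obtain ⟨Q, hQ1, hQ2⟩ := hP.exists_sylow
  rw [← hQ1]
  exact map_mono (Cores.pCore_le_sylow Q)

/-- `H` of order `r^a s^b` is generated by its Sylow subgroups -/
theorem eq_sup_of_TP {r s : ℕ} {M P S : Subgroup G} (hM : TP r s M) (hP : IsSyl r P M)
    (hS : IsSyl s S M) : M = P ⊔ S := by
  have hle : P ⊔ S ≤ M := sup_le hP.1 hS.1
  apply le_antisymm _ hle
  rw [← relIndex_eq_one]
  by_contra hne
  obtain ⟨p, hp, hd⟩ := Nat.exists_prime_and_dvd hne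
  have h1 : (P ⊔ S).relIndex M ∣ Nat.card M := relIndex_dvd_card _ _
  rcases hM p hp (hd.trans h1) with h | h
  · subst h
    exact hP.2.2 (hd.trans (relIndex_dvd_of_le_left M le_sup_left))
  · subst h
    exact hS.2.2 (hd.trans (relIndex_dvd_of_le_left M le_sup_right))

/-- **Lemma F2** -/
theorem lemF2 (h : Ctx q A H) (hsol : Group.IsSolvable H) {r s : ℕ} (hr : r.Prime) (hs : s.Prime)
    (hrs : r ≠ s) (hTP : TP r s H) (h0 : OOf s H = ⊥) {P : Subgroup G} (hP : IsSyl r P H)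
    (hAP : A ≤ normalizer (P : Set G)) : H ≤ normalizer (P : Set G) := by
  have := Fact.mk hr
  have := Fact.mk hs
  obtain ⟨S, hS1, hS2, hS3, hAS⟩ := exists_invariant_sylow h.norm h.cop' (Or.inl h.toCtx0.solvA) s
  have hS : IsSyl s S H := ⟨hS1, hS2, hS3⟩
  set R0 := OOf r H with hR0
  have hR0H : R0 ≤ H := OOf_le r H
  have hR0r : IsPGroup r R0 := isPGroup_OOf r H
  have hHR0 : H ≤ normalizer (R0 : Set G) := le_normalizer_OOf r H
  have hAR0 : A ≤ normalizer (R0 : Set G) := h.norm.trans (norm_OOf r H)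
  have hF : FOf H = R0 := FOf_eq_of_TP hr hs hTP h0
  have hcen : H ⊓ centralizer (R0 : Set G) ≤ R0 := by
    have := solvable_centralizer_FOf hsol
    rwa [hF] at this
  have hdisj : ∀ x ∈ S, x ∈ R0 → x = 1 := by
    intro x hx hx'
    have h1 := inf_eq_bot_of_coprime' (cop_p hr hR0r (not_dvd_of_p hs hr hrs.symm hS2))
    have h2 : x ∈ R0 ⊓ S := ⟨hx', hx⟩
    rw [h1] at h2; exact h2
  have hSab : ∀ x ∈ S, ∀ y ∈ S, x * y = y * x := by
    have h1 := lem3 _ h hr hs hrs rfl hR0H hS1 hR0r hS2 hAR0 hAS (hS1.trans hHR0)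
    have hSS : ⁅S, S⁆ ≤ S := le_normalizer_iff_commutator_le_left.mp le_normalizer
    have h2 : ⁅S, S⁆ = ⊥ := by
      rw [eq_bot_iff]
      intro x hx
      exact hdisj x (hSS hx) (hcen ⟨hS1 (hSS hx), h1 hx⟩)
    intro x hx y hy
    rw [commutator_eq_bot_iff_le_centralizer] at h2
    exact mem_centralizer_iff.1 (h2 hy) x hx
  have hHSR : H ≤ normalizer ((S ⊔ R0 : Subgroup G) : Set G) := by
    obtain ⟨Q, hQ1, hQ2⟩ := hS.exists_sylow
    have h1 := normal_sup (H := ↥H) hr hs hrs hTP Q (by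
      intro a ha b hb
      have ha' : a ∈ S.subgroupOf H := by rw [← hQ2]; exact ha
      have hb' : b ∈ S.subgroupOf H := by rw [← hQ2]; exact hb
      exact Subtype.ext (hSab _ (mem_subgroupOf.1 ha') _ (mem_subgroupOf.1 hb')))
    have h2 : S ⊔ R0 = ((Q : Subgroup H) ⊔ pCore r H).map H.subtype := by
      rw [Subgroup.map_sup, hQ1]; rfl
    rw [h2]
    exact Cores.le_normalizer_map_subtype _
  have hR0P : R0 ≤ P := isSyl_le_OOf hr hP
  have hSP : S ≤ normalizer (P : Set G) := by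
    apply le_norm_of_conj
    intro y hy
    have h1 : P ≤ P.comap (MulAut.conj y).toMonoidHom := by
      apply h.toCtx0.gen_le hP.1 hAP
      intro a ha ha1 x hx hxa
      show y * x * y⁻¹ ∈ P
      have h2 := lem4 h hr hs hrs hR0H hS1 hR0r hS2 hSab hAR0 hAS (hS1.trans hHR0) (by
          intro z hz hzc
          exact hdisj z hz (hcen ⟨hS1 hz, mem_centralizer_iff.2 hzc⟩)) ha ha1
        (Y := cf P a) (inf_le_left.trans hP.1) (fun z hz => (mem_cf.1 hz).2) (norm_cf h.toCtx0 hAP ha)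
        ((inf_le_left.trans hP.1).trans hHR0) ((inf_le_left.trans hP.1).trans hHSR)
      have h3 : ⁅y, x⁆ ∈ R0 := h2 (commutator_mem_commutator hy (mem_cf.2 ⟨hx, hxa⟩))
      have e : y * x * y⁻¹ = ⁅y, x⁆ * x := by rw [commutatorElement_def]; group
      rw [e]
      exact mul_mem (hR0P h3) hx
    intro x hx
    exact h1 hx
  rw [eq_sup_of_TP hTP hP hS]
  exact sup_le le_normalizer hSP

/-- `O_s(H/O_s(H)) = 1` -/
theorem OOf_im {s : ℕ} (hs : s.Prime) : OOf s (im (OOf s H) H) = ⊥ := by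
  have := Fact.mk hs
  set D := OOf s H with hD
  have hHD : H ≤ normalizer (D : Set G) := le_normalizer_OOf s H
  obtain ⟨L, hDL, hLD, hL⟩ := exists_pullback (D := D) (OOf s (im D H))
  have hLH : L ≤ H := by
    intro x hx
    have h1 := pr_mem_im (hLD hx) hx
    rw [hL] at h1
    exact (pr_mem_im_iff (hLD hx) (OOf_le s H)).1 (OOf_le s _ h1)
  have hHL : H ≤ normalizer (L : Set G) := by
    apply le_norm_of_conj
    intro g hg x hx
    have h1 := pr_mem_im (hLD hx) hx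
    rw [hL] at h1
    have h2 := (mem_normalizer_iff.1 (le_normalizer_OOf s (im D H) (pr_mem_im (hHD hg) hg)) _).1 h1
    rw [← hL] at h2
    exact (pr_mem_im_iff (mul_mem (mul_mem (hHD hg) (hLD hx)) (inv_mem (hHD hg))) hDL).1 h2
  have hLs : IsPGroup s L := by
    have h1 : IsPGroup s (im D L) := by rw [hL]; exact isPGroup_OOf s _
    intro x
    obtain ⟨k, hk⟩ := h1 ⟨_, pr_mem_im (hLD x.2) x.2⟩
    have h2 : (pr D ⟨x, hLD x.2⟩) ^ s ^ k = 1 := congrArg Subtype.val hk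
    rw [← map_pow] at h2
    have h3 : (x : G) ^ s ^ k ∈ D := by
      have h4 := (pr_eq_one (D := D) (x := (x : G) ^ s ^ k) (pow_mem (hLD x.2) _)).1 h2
      exact h4
    obtain ⟨l, hl⟩ := isPGroup_OOf s H ⟨_, h3⟩
    refine ⟨k + l, Subtype.ext ?_⟩
    have h5 : ((x : G) ^ s ^ k) ^ s ^ l = 1 := congrArg Subtype.val hl
    show (x : G) ^ s ^ (k + l) = 1
    rw [pow_add, pow_mul]
    exact h5
  have h1 : L ≤ D := le_OOf hLH hHL hLs
  rw [← hL, im_eq_bot hLD]
  exact h1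

theorem relIndex_subgroupOf' {P K N : Subgroup G} (hK : K ≤ N) :
    (P.subgroupOf N).relIndex (K.subgroupOf N) = P.relIndex K := by
  rw [← relIndex_map_map_of_injective _ _ (subtype_injective N), subgroupOf_map_subtype,
    subgroupOf_map_subtype, inf_eq_left.2 hK, ← inf_relIndex_right (P ⊓ N) K, inf_assoc,
    inf_eq_right.2 hK, inf_relIndex_right]

theorem isSyl_im {r : ℕ} (hr : r.Prime) {D P K : Subgroup G} (hP : IsSyl r P K)
    (hK : K ≤ normalizer (D : Set G)) : IsSyl r (im D P) (im D K) := by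
  have := Fact.mk hr
  apply IsSyl.map
  refine ⟨comap_mono hP.1, hP.2.1.comap_of_injective _ (subtype_injective _), ?_⟩
  rw [relIndex_subgroupOf' hK]
  exact hP.2.2

/-- **F0** -/
theorem lemF0 (h : Ctx q A H) (hsol : Group.IsSolvable H) {r s : ℕ} (hr : r.Prime) (hs : s.Prime)
    (hrs : r ≠ s) (hTP : TP r s H) {P : Subgroup G} (hP : IsSyl r P H)
    (hAP : A ≤ normalizer (P : Set G)) : H ≤ normalizer ((P ⊔ OOf s H : Subgroup G) : Set G) := by
  have := Fact.mk hr
  have := Fact.mk hs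
  set D := OOf s H with hD
  have hHD : H ≤ normalizer (D : Set G) := le_normalizer_OOf s H
  have hDH : D ≤ H := OOf_le s H
  have hAD : A ≤ normalizer (D : Set G) := h.norm.trans (norm_OOf s H)
  have h1 := h.quot hDH hAD hHD
  have hsolim : Group.IsSolvable (im D H) := by
    have h2 : Group.IsSolvable (H.subgroupOf (normalizer (D : Set G))) := isSolvable_subgroupOf _ hsol
    have h3 := (pr D).subgroupMap (H.subgroupOf (normalizer (D : Set G)))
    exact Group.isSolvable_of_surjective ((pr D).subgroupMap_surjective (H.subgroupOf (normalizer (D : Set G))))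
  have h2 := lemF2 h1 hsolim hr hs hrs (fun t ht hd => hTP t ht (hd.trans card_im_dvd))
    (OOf_im hs) (isSyl_im hr hP hHD) (im_le_normalizer hAP)
  have hPD : P ≤ normalizer (D : Set G) := hP.1.trans hHD
  have hPDN : P ⊔ D ≤ normalizer (D : Set G) := sup_le hPD le_normalizer
  have h3 : im D (P ⊔ D) = im D P := by
    apply le_antisymm _ (im_mono le_sup_left)
    rintro _ hx
    obtain ⟨x, hx', h4, rfl⟩ := mem_im.1 hx
    rw [sup_comm, mem_sup_of_le_normalizer hPD] at h4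
    obtain ⟨d, hd, p, hp, rfl⟩ := h4
    refine mem_im.2 ⟨p, hPD hp, hp, ?_⟩
    rw [pr_eq_iff]
    have h5 := (mem_normalizer_iff.1 (inv_mem (hPD hp)) d).1 hd
    rw [inv_inv] at h5
    rw [← mul_assoc]; exact h5
  apply le_norm_of_conj
  intro g hg x hx
  have h4 := pr_mem_im (hPDN hx) hx
  rw [h3] at h4
  have h5 := (mem_normalizer_iff.1 (h2 (pr_mem_im (hHD hg) hg)) _).1 h4
  rw [← h3] at h5
  exact (pr_mem_im_iff (mul_mem (mul_mem (hHD hg) (hPDN hx)) (inv_mem (hHD hg))) le_sup_right).1 h5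

/-- **F1** -/
theorem lemF1 (h : Ctx q A H) (hsol : Group.IsSolvable H) {r s : ℕ} (hr : r.Prime) (hs : s.Prime)
    (hrs : r ≠ s) (hTP : TP r s H) {S : Subgroup G} (hS : IsSyl s S H)
    (hAS : A ≤ normalizer (S : Set G)) : S ⊓ centralizer (OOf r H : Set G) ≤ OOf s H := by
  have := Fact.mk hr
  have := Fact.mk hs
  set R0 := OOf r H with hR0
  have hHR0 : H ≤ normalizer (R0 : Set G) := le_normalizer_OOf r H
  have hHN := lemF0 h hsol hs hr hrs.symm hTP.symm hS hAS
  rw [← hR0] at hHN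
  have hcop := cop_p hr (isPGroup_OOf r H) (not_dvd_of_p hs hr hrs.symm hS.2.1)
  rw [← hR0] at hcop
  have hcopel : ∀ x ∈ R0, ∀ n : ℕ, x ^ s ^ n = 1 → x = 1 := by
    intro x hx n hn
    obtain ⟨k, hk⟩ := IsPGroup.iff_orderOf.1 (isPGroup_OOf r H) ⟨x, hx⟩
    rw [Subgroup.orderOf_mk] at hk
    have h1 : orderOf x ∣ s ^ n := orderOf_dvd_of_pow_eq_one hn
    have h2 : (r ^ k).Coprime (s ^ n) := ((Nat.coprime_primes hr hs).2 hrs).pow _ _
    rw [← hk] at h2
    exact orderOf_eq_one_iff.1 (Nat.eq_one_of_dvd_coprimes h2 dvd_rfl h1)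
  apply le_OOf (inf_le_left.trans hS.1) _ (hS.2.1.to_le inf_le_left)
  apply le_norm_of_conj
  intro g hg x hx
  set y := g * x * g⁻¹ with hy
  have hyC : y ∈ centralizer (R0 : Set G) :=
    (mem_normalizer_iff.1 (le_norm_cent hHR0 hg) x).1 hx.2
  have hyN : y ∈ S ⊔ R0 := (mem_normalizer_iff.1 (hHN hg) x).1 ((le_sup_left : S ≤ S ⊔ R0) hx.1)
  have hSR0 : S ≤ normalizer (R0 : Set G) := hS.1.trans hHR0
  rw [sup_comm, mem_sup_of_le_normalizer hSR0] at hyN
  obtain ⟨z, hz, t, ht, hzt⟩ := hyN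
  have h1 : z * y = y * z := mem_centralizer_iff.1 hyC z hz
  have h2 : z * t = t * z := by
    rw [← hzt] at h1
    have : z * (z * t) = z * (t * z) := by rw [h1]; group
    exact mul_left_cancel this
  obtain ⟨k, hk⟩ := IsPGroup.iff_orderOf.1 hS.2.1 ⟨x, hx.1⟩
  obtain ⟨l, hl⟩ := IsPGroup.iff_orderOf.1 hS.2.1 ⟨t, ht⟩
  rw [Subgroup.orderOf_mk] at hk hl
  have hyk : y ^ s ^ (k + l) = 1 := by
    rw [hy, conj_pow, pow_add, pow_mul, ← hk, pow_orderOf_eq_one, one_pow, mul_one, mul_inv_cancel]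
  have htk : t ^ s ^ (k + l) = 1 := by
    rw [pow_add, mul_comm, pow_mul, ← hl, pow_orderOf_eq_one, one_pow]
  have hzk : z ^ s ^ (k + l) = 1 := by
    rw [← hzt, (show Commute z t from h2).mul_pow, htk, mul_one] at hyk
    exact hyk
  have hz1 := hcopel z hz _ hzk
  rw [hz1, one_mul] at hzt
  exact ⟨hzt ▸ ht, hyC⟩

end Cfsg.Agent.Lib.H70SqE
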