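import Cfsg.Agent.Lib.H70SqE

/-!
# Groups acted on by `C_q × C_q` with abelian centralizers (S4323), part 6 (helper70)
-/

set_option autoImplicit false
set_option maxHeartbeats 400000

namespace Cfsg.Agent.Lib.H70SqF

open Subgroup Cfsg Cfsg.Agent.Lib.SubgroupTools Cfsg.Agent.Lib.CoprimeAction Cfsg.Agent.Lib.CoprimeAction2
  Cfsg.Agent.Lib.CoprimeGen Cfsg.Agent.Lib.H70SqA Cfsg.Agent.Lib.H70SqB Cfsg.Agent.Lib.H70SqC
  Cfsg.Agent.Lib.H70SqD Cfsg.Agent.Lib.H70SqE Cfsg.Agent.Lib.H31Local Cfsg.Agent.Lib.RelSylow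

open scoped commutatorElement Pointwise

universe u

variable {G : Type u} [Group G] [Finite G] {q : ℕ} {A H : Subgroup G}

omit [Finite G] in
theorem cent_norm {X : Subgroup G} : centralizer (X : Set G) ≤ normalizer (X : Set G) := by
  apply le_norm_of_conj
  intro g hg x hx
  have h1 := mem_centralizer_iff.1 hg x hx
  rwa [← h1, mul_inv_cancel_right]

/-- normalizers grow in `p`-groups -/
theorem eq_of_norm_le {p : ℕ} (hp : p.Prime) {P Q : Subgroup G} (hP : IsPGroup p P) (hQP : Q ≤ P)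
    (h : P ⊓ normalizer (Q : Set G) ≤ Q) : Q = P := by
  have := Fact.mk hp
  have hnil : Group.IsNilpotent P := hP.isNilpotent
  by_contra hne
  have h1 : Q.subgroupOf P < ⊤ := by
    rw [lt_top_iff_ne_top]
    intro h
    exact hne (le_antisymm hQP (subgroupOf_eq_top.mp h))
  have h2 := Group.normalizerCondition_of_isNilpotent (G := P) (Q.subgroupOf P) h1
  obtain ⟨x, hx1, hx2⟩ := SetLike.exists_of_lt h2
  apply hx2
  rw [mem_subgroupOf]
  apply h
  refine mem_inf.2 ⟨x.2, ?_⟩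
  rw [mem_normalizer_iff]
  intro r
  have h3 := mem_normalizer_iff.mp hx1
  constructor
  · intro hr
    exact (h3 ⟨r, hQP hr⟩).mp hr
  · intro hr
    have h4 : r ∈ P := by
      have h5 := P.mul_mem (P.mul_mem (P.inv_mem x.2) (hQP hr)) x.2
      have h6 : (x : G)⁻¹ * ((x : G) * r * (x : G)⁻¹) * x = r := by group
      rwa [h6] at h5
    exact (h3 ⟨r, h4⟩).mpr hr

/-- the unique invariant Sylow subgroup contains all the invariant `r`-subgroups -/
theorem le_syl (h : Ctx q A H) {r : ℕ} (hr : r.Prime) {R U : Subgroup G} (hR : IsSyl r R H)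
    (hAR : A ≤ normalizer (R : Set G)) (hU : U ≤ H) (hUr : IsPGroup r U)
    (hAU : A ≤ normalizer (U : Set G)) : U ≤ R := by
  have := Fact.mk hr
  obtain ⟨P, hUP, hP1, hP2, hP3, hAP⟩ := exists_invariant_sylow_ge h.norm h.cop' (Or.inl h.toCtx0.solvA)
    hU hUr hAU
  obtain ⟨c, hc, hcR⟩ := invariant_sylow_conj h.norm h.cop' (Or.inl h.toCtx0.solvA) hR.1 hP1 hR.2.1
    hP2 hR.2.2 hP3 hAR hAP
  have hc1 : c = 1 := h.fpf c hc.1 fun a ha => (mem_centralizer_iff.1 hc.2 a ha).symm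
  rw [hc1, conj_smul_one] at hcR
  rw [hcR]; exact hUP

theorem TP_of_isPGroup_left {r s : ℕ} (hr : r.Prime) {U : Subgroup G} (hU : IsPGroup r U) :
    TP r s U := by
  intro t ht hd
  left
  by_contra hne
  exact not_dvd_of_p hr ht (fun h => hne h.symm) hU hd

theorem TP_of_isPGroup_right {r s : ℕ} (hs : s.Prime) {U : Subgroup G} (hU : IsPGroup s U) :
    TP r s U := (TP_of_isPGroup_left hs hU).symm

theorem TP_sup {r s : ℕ} {U V : Subgroup G} (hU : TP r s U) (hV : TP r s V)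
    (h : V ≤ normalizer (U : Set G)) : TP r s (U ⊔ V) := by
  intro t ht hd
  have h1 : t ∣ Nat.card U * Nat.card V := by
    rw [← card_sup_mul_card_inf h]; exact hd.mul_right _
  rcases ht.dvd_mul.1 h1 with h2 | h2
  · exact hU t ht h2
  · exact hV t ht h2

theorem exists_hall_univ (h : Ctx q A H) {K : Subgroup G} (hK : K ≤ H) (hAK : A ≤ normalizer (K : Set G))
    (hs : Group.IsSolvable K) (r s : ℕ) : ∃ L : Subgroup G, L ≤ K ∧ TP r s L ∧ A ≤ normalizer (L : Set G) ∧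
    ∀ U : Subgroup G, U ≤ K → TP r s U → A ≤ normalizer (U : Set G) → U ≤ L := by
  have hcop := h.toCtx0.cop_of_le hK
  obtain ⟨L, hL, hAL⟩ := CopHall.exists_invariant_hall hAK hcop hs ({r, s} : Set ℕ)
  refine ⟨L, hL.1, ?_, hAL, ?_⟩
  · intro t ht hd
    exact hL.2.1 t ht hd
  · intro U hUK hU hAU
    obtain ⟨P, hP, hAP, hUP⟩ := CopHall.exists_invariant_hall_ge hAK hcop hs ({r, s} : Set ℕ) U hUK hAU
      (fun t ht hd => hU t ht hd)
    obtain ⟨c, hc, hcP⟩ := CopHall.invariant_hall_conj hAK hcop hs hL hAL hP hAP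
    have hc1 : c = 1 := h.fpf c (hK hc.1) fun a ha => (mem_centralizer_iff.1 hc.2 a ha).symm
    rw [hc1, conj_one] at hcP
    rw [← hcP]; exact hUP

/-- a minimal counterexample -/
structure MinC (q : ℕ) (A H : Subgroup G) : Prop extends Ctx q A H where
  nsol : ¬ Group.IsSolvable H
  prop : ∀ K : Subgroup G, K ≤ H → K ≠ H → A ≤ normalizer (K : Set G) → Group.IsSolvable K
  simp : ∀ N : Subgroup G, N ≤ H → A ≤ normalizer (N : Set G) → H ≤ normalizer (N : Set G) →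
    N = ⊥ ∨ N = H

/-- the invariant `{r,s}`-subgroups -/
structure Fm (A H : Subgroup G) (r s : ℕ) (M : Subgroup G) : Prop where
  le : M ≤ H
  inv : A ≤ normalizer (M : Set G)
  tp : TP r s M

omit [Finite G] in
theorem Fm.symm {r s : ℕ} {M : Subgroup G} (h : Fm A H r s M) : Fm A H s r M :=
  ⟨h.le, h.inv, h.tp.symm⟩

theorem Fm.mono {r s : ℕ} {M L : Subgroup G} (h : Fm A H r s M) (hL : L ≤ M)
    (hAL : A ≤ normalizer (L : Set G)) : Fm A H r s L :=
  ⟨hL.trans h.le, hAL, h.tp.mono hL⟩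

/-- maximal invariant `{r,s}`-subgroups -/
structure Mx (A H : Subgroup G) (r s : ℕ) (M : Subgroup G) : Prop where
  fm : Fm A H r s M
  mx : ∀ L, Fm A H r s L → M ≤ L → L = M

omit [Finite G] in
theorem Mx.symm {r s : ℕ} {M : Subgroup G} (h : Mx A H r s M) : Mx A H s r M :=
  ⟨h.fm.symm, fun L hL => h.mx L hL.symm⟩

theorem exists_mx {r s : ℕ} {L : Subgroup G} (hL : Fm A H r s L) : ∃ M, Mx A H r s M ∧ L ≤ M := by
  obtain ⟨M, ⟨hM, hLM⟩, hmax⟩ := Set.Finite.exists_maximalFor (fun X : Subgroup G => Nat.card X)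
    {X : Subgroup G | Fm A H r s X ∧ L ≤ X} (Set.toFinite _) ⟨L, hL, le_rfl⟩
  refine ⟨M, ⟨hM, fun K hK hMK => ?_⟩, hLM⟩
  have h1 := hmax ⟨hK, hLM.trans hMK⟩ (Nat.card_le_card_of_injective _ (inclusion_injective hMK))
  exact (eq_of_le_of_card_ge hMK h1).symm

/-- the situation of the main argument -/
structure Pair (q : ℕ) (A H : Subgroup G) (r s : ℕ) (R S : Subgroup G) : Prop extends MinC q A H where
  hr : r.Prime
  hs : s.Prime
  hrs : r ≠ s
  hR : IsSyl r R H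
  hS : IsSyl s S H
  aR : A ≤ normalizer (R : Set G)
  aS : A ≤ normalizer (S : Set G)
  ntp : ¬ TP r s (R ⊔ S)

namespace Pair

variable {r s : ℕ} {R S M L W : Subgroup G}

omit [Finite G] in
theorem symm (P : Pair q A H r s R S) : Pair q A H s r S R where
  toMinC := P.toMinC
  hr := P.hs
  hs := P.hr
  hrs := P.hrs.symm
  hR := P.hS
  hS := P.hR
  aR := P.aS
  aS := P.aR
  ntp := fun h => P.ntp (by rw [sup_comm]; exact h.symm)

theorem fmR (P : Pair q A H r s R S) : Fm A H r s R := ⟨P.hR.1, P.aR, TP_of_isPGroup_left P.hr P.hR.2.1⟩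
theorem fmS (P : Pair q A H r s R S) : Fm A H r s S := ⟨P.hS.1, P.aS, TP_of_isPGroup_right P.hs P.hS.2.1⟩

theorem ne_top (P : Pair q A H r s R S) (hM : Fm A H r s M) : M ≠ H := by
  rintro rfl
  exact P.ntp (hM.tp.mono (sup_le P.hR.1 P.hS.1))

theorem not_both (P : Pair q A H r s R S) (hM : Fm A H r s M) (h1 : R ≤ M) (h2 : S ≤ M) : False :=
  P.ntp (hM.tp.mono (sup_le h1 h2))

theorem solv (P : Pair q A H r s R S) (hM : Fm A H r s M) : Group.IsSolvable M :=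
  P.prop M hM.le (P.ne_top hM) hM.inv

theorem ctx (P : Pair q A H r s R S) (hM : Fm A H r s M) : Ctx q A M := P.toCtx.restrict hM.le hM.inv

/-- the invariant Hall subgroup of `N(W)` -/
theorem exists_hall (P : Pair q A H r s R S) (hW : Fm A H r s W) (hW1 : W ≠ ⊥) :
    ∃ L0, Fm A H r s L0 ∧ L0 ≤ normalizer (W : Set G) ∧
      ∀ L, Fm A H r s L → L ≤ normalizer (W : Set G) → L ≤ L0 := by
  set K := H ⊓ normalizer (W : Set G) with hK
  have hAK : A ≤ normalizer (K : Set G) :=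
    le_norm_inf P.norm (hW.inv.trans le_normalizer)
  have hKH : K ≠ H := by
    intro h1
    have h2 : H ≤ normalizer (W : Set G) := by rw [← h1]; exact inf_le_right
    rcases P.simp W hW.le hW.inv h2 with h3 | h3
    · exact hW1 h3
    · exact P.ne_top hW h3
  obtain ⟨L0, h1, h2, h3, h4⟩ := exists_hall_univ P.toCtx (K := K) inf_le_left hAK
    (P.prop K inf_le_left hKH hAK) r s
  exact ⟨L0, ⟨h1.trans inf_le_left, h3, h2⟩, h1.trans inf_le_right,
    fun L hL hLW => h4 L (le_inf hL.le hLW) hL.tp hL.inv⟩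

/-- **Lemma N** -/
theorem nrm (P : Pair q A H r s R S) (hM : Mx A H r s M) (hW : Fm A H r s W) (hW1 : W ≠ ⊥)
    (hMW : M ≤ normalizer (W : Set G)) (hL : Fm A H r s L) (hLW : L ≤ normalizer (W : Set G)) :
    L ≤ M := by
  obtain ⟨L0, h1, h2, h3⟩ := P.exists_hall hW hW1
  rw [← hM.mx L0 h1 (h3 M hM.fm hMW)]
  exact h3 L hL hLW

end Pair

/-- centre of a subgroup, in the ambient group -/
def zc (X : Subgroup G) : Subgroup G := X ⊓ centralizer (X : Set G)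

omit [Finite G] in
theorem zc_le (X : Subgroup G) : zc X ≤ X := inf_le_left

omit [Finite G] in
theorem le_norm_zc (X : Subgroup G) : normalizer (X : Set G) ≤ normalizer (zc X : Set G) :=
  le_norm_inf le_rfl (le_norm_cent le_rfl)

theorem zc_ne_bot {r : ℕ} (hr : r.Prime) {X : Subgroup G} (hX : IsPGroup r X) (h : X ≠ ⊥) :
    zc X ≠ ⊥ := by
  have := Fact.mk hr
  have hnt : Nontrivial X := (Subgroup.nontrivial_iff_ne_bot X).2 h
  have h1 := hX.center_nontrivial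
  obtain ⟨⟨⟨z, hzX⟩, hz⟩, hz1⟩ := exists_ne (1 : center X)
  intro h0
  apply hz1
  have h2 : z ∈ zc X := by
    refine ⟨hzX, mem_centralizer_iff.2 fun y hy => ?_⟩
    exact congrArg Subtype.val (mem_center_iff.1 hz ⟨y, hy⟩)
  rw [h0, mem_bot] at h2
  apply Subtype.ext
  apply Subtype.ext
  exact h2

namespace Pair

variable {r s : ℕ} {R S M L W H1 Dr Ds : Subgroup G}

theorem fmO (P : Pair q A H r s R S) (hM : Fm A H r s M) (t : ℕ) : Fm A H r s (OOf t M) :=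
  hM.mono (OOf_le t M) (hM.inv.trans (norm_OOf t M))

theorem fmZ (P : Pair q A H r s R S) (hM : Fm A H r s M) (t : ℕ) : Fm A H r s (zc (OOf t M)) :=
  (P.fmO hM t).mono (zc_le _) ((P.fmO hM t).inv.trans (le_norm_zc _))

/-- half of the basic step -/
theorem U1half (P : Pair q A H r s R S) (hM : Mx A H r s M) (hXr : OOf r M ≠ ⊥) (hXs : OOf s M ≠ ⊥)
    (hH1 : Fm A H r s H1) (hDr : Dr ≤ OOf r M) (hDs : Ds ≤ OOf s M) (hZr : zc (OOf r M) ≤ Dr)
    (hZs : zc (OOf s M) ≤ Ds) (hADr : A ≤ normalizer (Dr : Set G)) (hADs : A ≤ normalizer (Ds : Set G))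
    (hDrH : Dr ≤ H1) (hDsH : Ds ≤ H1) : Dr ≤ OOf r H1 ∧ OOf s H1 ≤ M := by
  have := Fact.mk P.hr
  have := Fact.mk P.hs
  have hMXr : M ≤ normalizer (OOf r M : Set G) := le_normalizer_OOf r M
  have hMXs : M ≤ normalizer (OOf s M : Set G) := le_normalizer_OOf s M
  have hXrs : OOf r M ≤ centralizer (OOf s M : Set G) := OOf_le_centralizer_OOf P.hrs M
  have hXr' := isPGroup_OOf r M
  have hXs' := isPGroup_OOf s M
  set Y := OOf s H1 with hY
  have hHY : H1 ≤ normalizer (Y : Set G) := le_normalizer_OOf s H1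
  have hYs : IsPGroup s Y := isPGroup_OOf s H1
  have hfY : Fm A H r s Y := P.fmO hH1 s
  -- `C_Y(Ds) ≤ M`
  have hfC : Fm A H r s (Y ⊓ centralizer (Ds : Set G)) :=
    hfY.mono inf_le_left (le_norm_inf hfY.inv (le_norm_cent hADs))
  have hCM : Y ⊓ centralizer (Ds : Set G) ≤ M := by
    apply P.nrm hM (P.fmZ hM.fm s) (zc_ne_bot P.hs hXs' hXs) (hMXs.trans (le_norm_zc _)) hfC
    exact (inf_le_right.trans (centralizer_le hZs)).trans cent_norm
  have hcen : Dr ≤ centralizer (Y : Set G) := by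
    refine thompson_PxQ (P := Ds) (Q := Dr) (hXs'.to_le hDs) ?_ ?_ _ Y rfl hYs (hDsH.trans hHY)
      (hDrH.trans hHY) ?_
    · obtain ⟨k, hk⟩ := IsPGroup.iff_card.1 (hXr'.to_le hDr)
      rw [hk]
      exact Nat.Coprime.pow_left _ ((Nat.coprime_primes P.hr P.hs).2 P.hrs)
    · rw [← le_centralizer_iff]
      exact hDr.trans (hXrs.trans (centralizer_le hDs))
    · intro x hx
      rw [mem_centralizer_iff]
      intro y hy
      have hxM := hCM hx
      have h1 : ⁅x, y⁆ ∈ OOf r M := by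
        rw [commutatorElement_def]
        exact mul_mem ((mem_normalizer_iff.1 (hMXr hxM) y).1 (hDr hy)) (inv_mem (hDr hy))
      have h2 : ⁅x, y⁆ ∈ Y := by
        rw [commutatorElement_def, mul_assoc, mul_assoc]
        refine mul_mem hx.1 ?_
        rw [← mul_assoc]
        exact (mem_normalizer_iff.1 (hHY (hDrH hy)) _).1 (inv_mem hx.1)
      have h3 := inf_eq_bot_of_coprime' (cop_p P.hr hXr' (not_dvd_of_p P.hs P.hr P.hrs.symm hYs))
      have h4 : ⁅x, y⁆ ∈ OOf r M ⊓ Y := ⟨h1, h2⟩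
      rw [h3, mem_bot, commutatorElement_eq_one_iff_mul_comm] at h4
      exact h4.symm
  refine ⟨?_, ?_⟩
  · obtain ⟨Q, hQ1, hQ2, hQ3, hAQ⟩ := exists_invariant_sylow (P.ctx hH1).norm (P.ctx hH1).cop'
      (Or.inl P.toCtx.toCtx0.solvA) r
    have hDQ : Dr ≤ Q := le_syl (P.ctx hH1) P.hr ⟨hQ1, hQ2, hQ3⟩ hAQ hDrH (hXr'.to_le hDr) hADr
    exact (le_inf hDQ hcen).trans (lemF1 (P.ctx hH1) (P.solv hH1) P.hs P.hr P.hrs.symm hH1.tp.symm
      ⟨hQ1, hQ2, hQ3⟩ hAQ)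
  · apply P.nrm hM (P.fmZ hM.fm r) (zc_ne_bot P.hr hXr' hXr) (hMXr.trans (le_norm_zc _)) hfY
    exact ((le_centralizer_iff.1 hcen).trans (centralizer_le hZr)).trans cent_norm

theorem U1 (P : Pair q A H r s R S) (hM : Mx A H r s M) (hXr : OOf r M ≠ ⊥) (hXs : OOf s M ≠ ⊥)
    (hH1 : Fm A H r s H1) (hDr : Dr ≤ OOf r M) (hDs : Ds ≤ OOf s M) (hZr : zc (OOf r M) ≤ Dr)
    (hZs : zc (OOf s M) ≤ Ds) (hADr : A ≤ normalizer (Dr : Set G)) (hADs : A ≤ normalizer (Ds : Set G))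
    (hDrH : Dr ≤ H1) (hDsH : Ds ≤ H1) :
    Dr ≤ OOf r H1 ∧ Ds ≤ OOf s H1 ∧ OOf r H1 ≤ M ∧ OOf s H1 ≤ M := by
  obtain ⟨h1, h2⟩ := P.U1half hM hXr hXs hH1 hDr hDs hZr hZs hADr hADs hDrH hDsH
  obtain ⟨h3, h4⟩ := P.symm.U1half hM.symm hXs hXr hH1.symm hDs hDr hZs hZr hADs hADr hDsH hDrH
  exact ⟨h1, h3, h4, h2⟩

/-- **uniqueness** -/
theorem U0 (P : Pair q A H r s R S) (hM : Mx A H r s M) (hXr : OOf r M ≠ ⊥) (hXs : OOf s M ≠ ⊥)
    (hH1 : Fm A H r s H1) (hZr : zc (OOf r M) ≤ H1) (hZs : zc (OOf s M) ≤ H1) : H1 ≤ M := by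
  obtain ⟨H2, hH2, h12⟩ := exists_mx hH1
  refine h12.trans ?_
  replace hZr := hZr.trans h12
  replace hZs := hZs.trans h12
  obtain ⟨a1, a2, a3, a4⟩ := P.U1 hM hXr hXs hH2.fm (zc_le _) (zc_le _) le_rfl le_rfl
    (P.fmZ hM.fm r).inv (P.fmZ hM.fm s).inv hZr hZs
  have hYr : OOf r H2 ≠ ⊥ := fun h0 =>
    zc_ne_bot P.hr (isPGroup_OOf r M) hXr (le_bot_iff.1 (h0 ▸ a1))
  have hYs : OOf s H2 ≠ ⊥ := fun h0 =>
    zc_ne_bot P.hs (isPGroup_OOf s M) hXs (le_bot_iff.1 (h0 ▸ a2))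
  obtain ⟨b1, b2, b3, b4⟩ := P.U1 hH2 hYr hYs hM.fm le_rfl le_rfl (zc_le _) (zc_le _)
    (P.fmO hH2.fm r).inv (P.fmO hH2.fm s).inv a3 a4
  obtain ⟨c1, c2, c3, c4⟩ := P.U1 hM hXr hXs hH2.fm le_rfl le_rfl (zc_le _) (zc_le _)
    (P.fmO hM.fm r).inv (P.fmO hM.fm s).inv b3 b4
  have heq : OOf r M = OOf r H2 := le_antisymm c1 b1
  apply P.nrm hM (P.fmO hM.fm r) hXr (le_normalizer_OOf r M) hH2.fm
  rw [heq]
  exact le_normalizer_OOf r H2

theorem U2 (P : Pair q A H r s R S) (hM : Mx A H r s M) (hXr : OOf r M ≠ ⊥) (hXs : OOf s M ≠ ⊥)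
    (hW : Fm A H r s W) (hW1 : W ≠ ⊥) (hZr : zc (OOf r M) ≤ normalizer (W : Set G))
    (hZs : zc (OOf s M) ≤ normalizer (W : Set G)) (hL : Fm A H r s L)
    (hLW : L ≤ normalizer (W : Set G)) : L ≤ M := by
  obtain ⟨L0, h1, h2, h3⟩ := P.exists_hall hW hW1
  exact (h3 L hL hLW).trans (P.U0 hM hXr hXs h1 (h3 _ (P.fmZ hM.fm r) hZr) (h3 _ (P.fmZ hM.fm s) hZs))

end Pair

/-- if the fixed points outside `⟨b⟩` lie in `C`, then `[K,b] ≤ C` -/
theorem comm_le_of_gen (h : Ctx0 q A H) {K C : Subgroup G} (hK : K ≤ H) (hAK : A ≤ normalizer (K : Set G))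
    (hAC : A ≤ normalizer (C : Set G)) (hKC : K ≤ normalizer (C : Set G)) {b : G} (hb : b ∈ A)
    (hgen : ∀ c ∈ A, c ≠ 1 → c ∉ zpowers b → cf K c ≤ C) : ⁅K, zpowers b⁆ ≤ C := by
  have h1 : K ≤ C ⊔ cf K b := by
    apply h.gen_le hK hAK
    intro c hc hc1 x hx hxc
    by_cases hcb : c ∈ zpowers b
    · exact (le_sup_right : cf K b ≤ _) (mem_cf.2 ⟨hx, comm_of_zpowers h hb hc1 hcb hxc⟩)
    · exact (le_sup_left : C ≤ _) (hgen c hc hc1 hcb (mem_cf.2 ⟨hx, hxc⟩))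
  rw [commutator_le]
  intro x hx y hy
  have h2 := h1 hx
  rw [mem_sup_of_le_normalizer (inf_le_left.trans hKC : cf K b ≤ normalizer (C : Set G))] at h2
  obtain ⟨c, hc, k, hk, rfl⟩ := h2
  have hky : k * y = y * k := by
    obtain ⟨n, rfl⟩ := mem_zpowers_iff.1 hy
    exact Commute.zpow_right (show Commute k b from (mem_cf.1 hk).2) n
  have hyA : y ∈ A := zpowers_le.2 hb hy
  have e : ⁅c * k, y⁆ = c * (y * c⁻¹ * y⁻¹) := by
    rw [commutatorElement_def]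
    calc c * k * y * (c * k)⁻¹ * y⁻¹ = c * (k * y) * k⁻¹ * c⁻¹ * y⁻¹ := by group
      _ = c * (y * c⁻¹ * y⁻¹) := by rw [hky]; group
  rw [e]
  exact mul_mem hc ((mem_normalizer_iff.1 (hAC hyA) _).1 (inv_mem hc))

end Cfsg.Agent.Lib.H70SqF
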