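import Cfsg.Agent.Lib.H70SqF
import Cfsg.Agent.Lib.PNilp

/-!
# Groups acted on by `C_q × C_q` with abelian centralizers (S4323), part 7 (helper70)
-/

set_option autoImplicit false
set_option maxHeartbeats 400000

namespace Cfsg.Agent.Lib.H70SqG

open Subgroup Cfsg Cfsg.Agent.Lib.SubgroupTools Cfsg.Agent.Lib.CoprimeAction Cfsg.Agent.Lib.CoprimeAction2
  Cfsg.Agent.Lib.CoprimeGen Cfsg.Agent.Lib.H70SqA Cfsg.Agent.Lib.H70SqB Cfsg.Agent.Lib.H70SqC
  Cfsg.Agent.Lib.H70SqD Cfsg.Agent.Lib.H70SqE Cfsg.Agent.Lib.H70SqF Cfsg.Agent.Lib.H31Local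
  Cfsg.Agent.Lib.RelSylow

open scoped commutatorElement Pointwise

universe u

variable {G : Type u} [Group G] [Finite G] {q : ℕ} {A H : Subgroup G}

omit [Finite G] in
theorem cent_le_norm {X Y : Subgroup G} (h : Y ≤ X) :
    centralizer (X : Set G) ≤ normalizer (Y : Set G) := by
  refine le_trans ?_ (cent_norm (X := Y))
  exact centralizer_le h

theorem cf_comm (h : Ctx0 q A H) {K L : Subgroup G} (hK : K ≤ H) (hL : L ≤ H) {a : G} (ha : a ∈ A)
    (ha1 : a ≠ 1) : cf K a ≤ centralizer (cf L a : Set G) := by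
  intro x hx
  rw [mem_centralizer_iff]
  intro y hy
  have h1 := mem_cf.1 hx
  have h2 := mem_cf.1 hy
  exact h.ab a ha ha1 y (hL h2.1) x (hK h1.1) h2.2 h1.2

theorem exists_not_mem_zpowers (h : Ctx0 q A H) (a : G) : ∃ b ∈ A, b ∉ zpowers a := by
  by_contra hno
  push Not at hno
  have h1 : A ≤ zpowers a := hno
  apply h.notCyclic
  have : IsCyclic ↥(A.subgroupOf (zpowers a)) := inferInstance
  exact isCyclic_of_surjective (subgroupOfEquivOfLe h1).toMonoidHom (subgroupOfEquivOfLe h1).surjective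

namespace Pair

open H70SqF.Pair

variable {r s : ℕ} {R S M L W : Subgroup G}

/-- **Claim 2** -/
theorem claim2 (P : Pair q A H r s R S) (hM : Mx A H r s M) (hXr : OOf r M ≠ ⊥) (hXs : OOf s M ≠ ⊥) :
    S ≤ M := by
  have := Fact.mk P.hr
  have := Fact.mk P.hs
  have h0 := P.toCtx.toCtx0
  set S0 := S ⊓ M with hS0
  have hAS0 : A ≤ normalizer (S0 : Set G) := le_norm_inf P.aS hM.fm.inv
  have hS0S : S0 ≤ S := inf_le_left
  have hMXr : M ≤ normalizer (OOf r M : Set G) := le_normalizer_OOf r M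
  have hXrs : OOf r M ≤ centralizer (OOf s M : Set G) := OOf_le_centralizer_OOf P.hrs M
  have hXr' := isPGroup_OOf r M
  have hXs' := isPGroup_OOf s M
  have hXrH : OOf r M ≤ H := (P.fmO hM.fm r).le
  have hXsH : OOf s M ≤ H := (P.fmO hM.fm s).le
  have hXsS : OOf s M ≤ S := le_syl P.toCtx P.hs P.hS P.aS hXsH hXs' (P.fmO hM.fm s).inv
  have hXsS0 : OOf s M ≤ S0 := le_inf hXsS (OOf_le s M)
  set N1 := S ⊓ normalizer (S0 : Set G) with hN1
  have hAN1 : A ≤ normalizer (N1 : Set G) := le_norm_inf P.aS (hAS0.trans le_normalizer)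
  have hN1S : N1 ≤ S := inf_le_left
  have hN1H : N1 ≤ H := hN1S.trans P.hS.1
  suffices hN1M : N1 ≤ M by
    have h1 := eq_of_norm_le P.hs P.hS.2.1 hS0S (le_inf hN1S hN1M)
    rw [← h1]; exact inf_le_right
  apply h0.gen_le hN1H hAN1
  intro a ha ha1 g hg hga
  have hgS := hN1S hg
  have hZr : zc (OOf r M) ≤ OOf r M := zc_le _
  have hZs : zc (OOf s M) ≤ OOf s M := zc_le _
  by_cases hc1 : cf (OOf r M) a = ⊥
  · by_cases hc2 : cf (OOf s M) a = ⊥
    · -- the main case
      have hfix : ∀ x ∈ OOf r M, x * a = a * x → x = 1 := by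
        intro x hx hxa
        have : x ∈ cf (OOf r M) a := mem_cf.2 ⟨hx, hxa⟩
        rw [hc1] at this
        exact this
      set C1 := S0 ⊓ centralizer (OOf r M : Set G) with hC1
      have hAC1 : A ≤ normalizer (C1 : Set G) :=
        le_norm_inf hAS0 (le_norm_cent (P.fmO hM.fm r).inv)
      have hS0C1 : S0 ≤ normalizer (C1 : Set G) :=
        le_norm_inf le_normalizer (le_norm_cent (inf_le_right.trans hMXr))
      have hE1 : ⁅S0, zpowers a⁆ ≤ C1 := by
        apply comm_le_of_gen h0 (hS0S.trans P.hS.1) hAS0 hAC1 hS0C1 ha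
        intro c hc hc1' hca
        refine le_inf inf_le_left ?_
        refine lem1' P.toCtx hc hc1' ha (not_mem_symm h0 ha ha1 hc hca) P.hr hXrH
          ((inf_le_left.trans hS0S).trans P.hS.1) hXr' (P.fmO hM.fm r).inv
          (fun y hy => (mem_cf.1 hy).2) (norm_cf h0 hAS0 hc)
          (not_dvd_of_p P.hs P.hr P.hrs.symm (P.hS.2.1.to_le (inf_le_left.trans hS0S)))
          ((inf_le_left.trans inf_le_right).trans hMXr) ?_
        intro v hv hva y _
        rw [hfix v hv hva]; simp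
      set E1 := ⁅S0, zpowers a⁆ with hE1def
      have hzA : zpowers a ≤ A := zpowers_le.2 ha
      have hXsE : OOf s M ≤ E1 := by
        have h1 := commutator_sup_centralizer (A := zpowers a) (K := OOf s M)
          (hzA.trans (P.fmO hM.fm s).inv)
          (Nat.Coprime.coprime_dvd_left (card_dvd_of_le hzA) (h0.cop_of_le hXsH))
          (Or.inl inferInstance)
        have h2 : OOf s M ⊓ centralizer (zpowers a : Set G) = ⊥ := by
          rw [eq_bot_iff, ← hc2]
          exact inf_le_inf le_rfl (centralizer_le (by simp))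
        rw [h2, sup_bot_eq] at h1
        rw [← h1]
        exact commutator_mono hXsS0 le_rfl
      have hAE1 : A ≤ normalizer (E1 : Set G) := by
        apply le_norm_comm2 hAS0
        apply le_norm_of_conj
        intro g hg x hx
        rw [h0.comm g hg x (hzA hx), mul_inv_cancel_right]; exact hx
      have hfE1 : Fm A H r s E1 := P.fmS.mono (hE1.trans (inf_le_left.trans hS0S)) hAE1
      have hE1ne : E1 ≠ ⊥ := fun h1 => hXs (le_bot_iff.1 (h1 ▸ hXsE))
      have hL : cf N1 a ≤ M := by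
        apply P.U2 hM hXr hXs hfE1 hE1ne
        · exact (hZr.trans (le_centralizer_iff.1 (hE1.trans inf_le_right))).trans cent_norm
        · exact (hZs.trans hXsE).trans le_normalizer
        · exact P.fmS.mono (inf_le_left.trans hN1S) (norm_cf h0 hAN1 ha)
        · apply le_norm_comm2 (inf_le_left.trans inf_le_right)
          apply le_norm_of_conj
          intro g hg x hx
          obtain ⟨n, rfl⟩ := mem_zpowers_iff.1 hx
          have h1 : g * a ^ n = a ^ n * g := Commute.zpow_right (show Commute g a from (mem_cf.1 hg).2) n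
          rw [h1, mul_inv_cancel_right]; exact hx
      exact hL (mem_cf.2 ⟨hg, hga⟩)
    · have hT : Fm A H r s (cf (OOf s M) a) :=
        (P.fmO hM.fm s).mono inf_le_left (norm_cf h0 (P.fmO hM.fm s).inv ha)
      have hL : cf S a ≤ M := by
        apply P.U2 hM hXr hXs hT hc2
        · exact (hZr.trans hXrs).trans (cent_le_norm inf_le_left)
        · exact (inf_le_right : zc (OOf s M) ≤ centralizer (OOf s M : Set G)).trans (cent_le_norm inf_le_left)
        · exact P.fmS.mono inf_le_left (norm_cf h0 P.aS ha)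
        · exact (cf_comm h0 P.hS.1 hXsH ha ha1).trans cent_norm
      exact hL (mem_cf.2 ⟨hgS, hga⟩)
  · have hT : Fm A H r s (cf (OOf r M) a) :=
      (P.fmO hM.fm r).mono inf_le_left (norm_cf h0 (P.fmO hM.fm r).inv ha)
    have hL : cf S a ≤ M := by
      apply P.U2 hM hXr hXs hT hc1
      · exact (inf_le_right : zc (OOf r M) ≤ centralizer (OOf r M : Set G)).trans (cent_le_norm inf_le_left)
      · exact (hZs.trans (le_centralizer_iff.1 hXrs)).trans (cent_le_norm inf_le_left)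
      · exact P.fmS.mono inf_le_left (norm_cf h0 P.aS ha)
      · exact (cf_comm h0 P.hS.1 hXrH ha ha1).trans cent_norm
    exact hL (mem_cf.2 ⟨hgS, hga⟩)

theorem F2half (P : Pair q A H r s R S) (hM : Mx A H r s M) (hM1 : M ≠ ⊥) (hXs : OOf s M = ⊥) :
    M ≤ normalizer (R : Set G) := by
  have := Fact.mk P.hr
  have := Fact.mk P.hs
  have hctx := P.ctx hM.fm
  have hsol := P.solv hM.fm
  obtain ⟨Q, hQ1, hQ2, hQ3, hAQ⟩ := exists_invariant_sylow hctx.norm hctx.cop'
      (Or.inl P.toCtx.toCtx0.solvA) r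
  have hQ : IsSyl r Q M := ⟨hQ1, hQ2, hQ3⟩
  have hMQ := lemF2 hctx hsol P.hr P.hs P.hrs hM.fm.tp hXs hQ hAQ
  have hQne : Q ≠ ⊥ := by
    intro h0
    have hnt : Nontrivial M := (Subgroup.nontrivial_iff_ne_bot M).2 hM1
    have h1 := Cores.fittingSubgroup_ne_bot (G := ↥M)
    apply h1
    have h2 : FOf M = ⊥ := by
      rw [FOf_eq_of_TP P.hr P.hs hM.fm.tp hXs, eq_bot_iff, ← h0]
      exact isSyl_le_OOf P.hr hQ
    unfold FOf at h2
    rwa [map_eq_bot_iff_of_injective _ M.subtype_injective] at h2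
  have hfQ : Fm A H r s Q := hM.fm.mono hQ1 hAQ
  have hQR : Q ≤ R := le_syl P.toCtx P.hr P.hR P.aR hfQ.le hQ2 hAQ
  have hN : R ⊓ normalizer (Q : Set G) ≤ Q := by
    have hA : A ≤ normalizer ((R ⊓ normalizer (Q : Set G) : Subgroup G) : Set G) :=
      le_norm_inf P.aR (hAQ.trans le_normalizer)
    have h1 : R ⊓ normalizer (Q : Set G) ≤ M :=
      P.nrm hM hfQ hQne hMQ (P.fmR.mono inf_le_left hA) inf_le_right
    exact le_syl hctx P.hr hQ hAQ h1 (P.hR.2.1.to_le inf_le_left) hA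
  rw [← eq_of_norm_le P.hr P.hR.2.1 hQR hN]
  exact hMQ

theorem bot_not_mx (P : Pair q A H r s R S) (hM : Mx A H r s M) : M ≠ ⊥ := by
  rintro rfl
  apply P.ntp
  have h1 := hM.mx R P.fmR bot_le
  have h2 := hM.mx S P.fmS bot_le
  rw [h1, h2, sup_bot_eq]
  exact hM.fm.tp

theorem F2 (P : Pair q A H r s R S) (hL : Fm A H r s L) :
    L ≤ normalizer (R : Set G) ∨ L ≤ normalizer (S : Set G) := by
  obtain ⟨M, hM, hLM⟩ := exists_mx hL
  have hM1 := bot_not_mx P hM
  by_cases hXs : OOf s M = ⊥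
  · exact Or.inl (hLM.trans (F2half P hM hM1 hXs))
  · by_cases hXr : OOf r M = ⊥
    · exact Or.inr (hLM.trans (F2half P.symm hM.symm hM1 hXr))
    · exact (P.not_both hM.fm (claim2 P.symm hM.symm hXs hXr) (claim2 P hM hXr hXs)).elim

theorem R_not (P : Pair q A H r s R S) (h : R ≤ normalizer (S : Set G)) : False := by
  apply P.ntp
  rw [sup_comm]
  exact TP_sup P.fmS.tp P.fmR.tp h

theorem F3 (P : Pair q A H r s R S) (hL : Fm A H r s L) (hR : R ≤ L) : L ≤ normalizer (R : Set G) := by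
  rcases F2 P hL with h | h
  · exact h
  · exact (R_not P (hR.trans h)).elim

/-- `S* = N_S(R)` -/
def Sst (_ : Pair q A H r s R S) : Subgroup G := S ⊓ normalizer (R : Set G)
/-- `R* = N_R(S)` -/
def Rst (_ : Pair q A H r s R S) : Subgroup G := R ⊓ normalizer (S : Set G)

theorem fmSst (P : Pair q A H r s R S) : Fm A H r s (Sst P) :=
  P.fmS.mono inf_le_left (le_norm_inf P.aS (P.aR.trans le_normalizer))

theorem comm_st (P : Pair q A H r s R S) : Sst P ≤ centralizer (Rst P : Set G) := by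
  intro x hx
  rw [mem_centralizer_iff]
  intro y hy
  have h1 : ⁅x, y⁆ ∈ R := by
    rw [commutatorElement_def]
    exact mul_mem ((mem_normalizer_iff.1 hx.2 y).1 hy.1) (inv_mem hy.1)
  have h2 : ⁅x, y⁆ ∈ S := by
    rw [commutatorElement_def, mul_assoc, mul_assoc]
    refine mul_mem hx.1 ?_
    rw [← mul_assoc]
    exact (mem_normalizer_iff.1 hy.2 _).1 (inv_mem hx.1)
  have h3 := inf_eq_bot_of_coprime' (cop_p P.hr P.hR.2.1 (not_dvd_of_p P.hs P.hr P.hrs.symm P.hS.2.1))
  have h4 : ⁅x, y⁆ ∈ R ⊓ S := ⟨h1, h2⟩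
  rw [h3, mem_bot, commutatorElement_eq_one_iff_mul_comm] at h4
  exact h4.symm

theorem S_ne (P : Pair q A H r s R S) : ¬ S ≤ Sst P := by
  intro h
  exact R_not P.symm (h.trans inf_le_right)

/-- **Claim 4** -/
theorem claim4 (P : Pair q A H r s R S) (h : Sst P ≤ centralizer (R : Set G)) : Sst P = ⊥ := by
  by_contra hne
  obtain ⟨L0, h1, h2, h3⟩ := P.exists_hall (fmSst P) hne
  have h4 : R ≤ L0 := h3 R P.fmR ((le_centralizer_iff.1 h).trans cent_norm)
  have h5 := F3 P h1 h4
  have hA : A ≤ normalizer ((S ⊓ normalizer (Sst P : Set G) : Subgroup G) : Set G) :=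
    le_norm_inf P.aS ((fmSst P).inv.trans le_normalizer)
  have h6 : S ⊓ normalizer (Sst P : Set G) ≤ L0 := h3 _ (P.fmS.mono inf_le_left hA) inf_le_right
  have h7 := eq_of_norm_le P.hs P.hS.2.1 (inf_le_left : Sst P ≤ S) (le_inf inf_le_left (h6.trans h5))
  exact S_ne P h7.ge

/-- **Claim 5** -/
theorem claim5 (P : Pair q A H r s R S) {a : G} (ha : a ∈ A) (ha1 : a ≠ 1) :
    cf S a ≤ Sst P ∨ cf R a ≤ Rst P := by
  have h0 := P.toCtx.toCtx0
  have hR := P.fmR.mono (inf_le_left : cf R a ≤ R) (norm_cf h0 P.aR ha)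
  have hS := P.fmS.mono (inf_le_left : cf S a ≤ S) (norm_cf h0 P.aS ha)
  have hL : Fm A H r s (cf R a ⊔ cf S a) :=
    ⟨sup_le hR.le hS.le, le_norm_sup hR.inv hS.inv, TP_sup hR.tp hS.tp
      ((cf_comm h0 P.hS.1 P.hR.1 ha ha1).trans cent_norm)⟩
  rcases F2 P hL with h | h
  · exact Or.inl (le_inf inf_le_left (le_sup_right.trans h))
  · exact Or.inr (le_inf inf_le_left (le_sup_left.trans h))

end Pair

end Cfsg.Agent.Lib.H70SqG
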