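import Cfsg.Agent.Lib.H72KrekninNil
import Mathlib

/-!
Lie rings with a fixed-point-free automorphism of prime order (helper72).
-/

set_option autoImplicit false
open scoped TensorProduct

namespace Cfsg.Agent.Lib.H72Kreknin

section Eigen

variable {p : ℕ} [hp : Fact p.Prime] {R : Type*} [CommRing R] {L : Type*} [LieRing L] [LieAlgebra R L] (φ : L →ₗ[R] L)
variable (A : Type*) [CommRing A] [Algebra R A] {ζ : A}

theorem baseChange_lie (hφ : ∀ x y, φ ⁅x, y⁆ = ⁅φ x, φ y⁆) (x y : A ⊗[R] L) :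
    φ.baseChange A ⁅x, y⁆ = ⁅φ.baseChange A x, φ.baseChange A y⁆ := by
  induction x using TensorProduct.induction_on with
  | zero => rw [zero_lie, map_zero, zero_lie]
  | tmul a x =>
    induction y using TensorProduct.induction_on with
    | zero => rw [lie_zero, map_zero, lie_zero]
    | tmul b y =>
      rw [LieAlgebra.ExtendScalars.bracket_tmul, LinearMap.baseChange_tmul, LinearMap.baseChange_tmul,
        LinearMap.baseChange_tmul, LieAlgebra.ExtendScalars.bracket_tmul, hφ]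
    | add a b ha hb => rw [lie_add, map_add, map_add, lie_add, ha, hb]
  | add a b ha hb => rw [add_lie, map_add, map_add, add_lie, ha, hb]

/-- eigenspaces -/
def eig (ζ : A) (j : ZMod p) : AddSubgroup (A ⊗[R] L) where
  carrier := {x | φ.baseChange A x = ζ ^ j.val • x}
  zero_mem' := by simp
  add_mem' := fun {a b} ha hb => by
    simp only [Set.mem_ofPred_eq] at ha hb ⊢
    rw [map_add, ha, hb, smul_add]
  neg_mem' := fun {a} ha => by
    simp only [Set.mem_ofPred_eq] at ha ⊢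
    rw [map_neg, ha, smul_neg]

theorem mem_eig {j : ZMod p} {x : A ⊗[R] L} : x ∈ eig φ A ζ j ↔ φ.baseChange A x = ζ ^ j.val • x := Iff.rfl

theorem pow_val_add (hζ : IsPrimitiveRoot ζ p) (i j : ZMod p) : ζ ^ (i + j).val = ζ ^ i.val * ζ ^ j.val := by
  rw [ZMod.val_add, ← pow_add, ← pow_mod_orderOf ζ (i.val + j.val), ← hζ.eq_orderOf]

theorem graded_eig [Module.Free R A] (hζ : IsPrimitiveRoot ζ p) (hφ : ∀ x y, φ ⁅x, y⁆ = ⁅φ x, φ y⁆) (hfix : ∀ x, φ x = x → x = 0) :
    Graded (eig (p := p) φ A ζ) := by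
  constructor
  · intro i j x hx y hy
    rw [mem_eig] at hx hy ⊢
    rw [baseChange_lie φ A hφ, hx, hy, smul_lie, lie_smul, smul_smul, pow_val_add A hζ]
  · rw [eq_bot_iff]
    intro x hx
    rw [mem_eig, ZMod.val_zero, pow_zero, one_smul] at hx
    rw [AddSubgroup.mem_bot]
    have hinj : Function.Injective (φ - LinearMap.id : L →ₗ[R] L) := by
      rw [injective_iff_map_eq_zero]
      intro a ha
      rw [LinearMap.sub_apply, LinearMap.id_apply, sub_eq_zero] at ha
      exact hfix a ha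
    have h1 := Module.Flat.lTensor_preserves_injective_linearMap (M := A) (φ - LinearMap.id : L →ₗ[R] L) hinj
    apply h1
    rw [map_zero, LinearMap.lTensor_sub, LinearMap.sub_apply, LinearMap.lTensor_id, LinearMap.id_apply, sub_eq_zero]
    exact hx

theorem iSup_eig [IsDomain A] (hζ : IsPrimitiveRoot ζ p) (hφp : ∀ x, φ^[p] x = x) {N : ℕ} (hN : N.Coprime p)
    (hNx : ∀ x : L, N • x = 0) : ⨆ j, eig (p := p) φ A ζ j = ⊤ := by
  set Φ := φ.baseChange A with hΦ
  have hp1 : 1 < p := hp.out.one_lt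
  have hΦp : ∀ x, (Φ ^ p) x = x := by
    intro x
    have h1 : φ ^ p = LinearMap.id := by
      ext x
      rw [Module.End.pow_apply, hφp, LinearMap.id_apply]
    have h2 : Φ ^ p = (φ ^ p).baseChange A := by rw [hΦ, LinearMap.baseChange_pow]
    rw [h2, h1, LinearMap.baseChange_id, LinearMap.id_apply]
  have hNM : ∀ x : A ⊗[R] L, N • x = 0 := by
    intro x
    induction x using TensorProduct.induction_on with
    | zero => rw [smul_zero]
    | tmul a x => rw [TensorProduct.smul_tmul', TensorProduct.smul_tmul, hNx, TensorProduct.tmul_zero]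
    | add a b ha hb => rw [smul_add, ha, hb, add_zero]
  set ζ' := ζ ^ (p - 1) with hζ'
  have hζζ : ζ * ζ' = 1 := by
    rw [hζ', ← pow_succ', Nat.sub_add_cancel hp1.le, hζ.pow_eq_one]
  have hζ1 : IsPrimitiveRoot ζ' p := by
    apply hζ.pow_of_coprime
    exact (Nat.coprime_self_sub_left hp1.le).2 (Nat.coprime_one_left p)
  have hdiv : ∀ x : A ⊗[R] L, ∃ y : A ⊗[R] L, x = (p : A) • y := by
    intro x
    have hb := Nat.gcd_eq_gcd_ab N p
    rw [hN] at hb
    refine ⟨(N.gcdB p : ℤ) • x, ?_⟩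
    have h1 : ((N : ℤ) * N.gcdA p) • x = 0 := by
      rw [mul_comm, mul_smul, natCast_zsmul, hNM, smul_zero]
    have h2 : x = ((1 : ℕ) : ℤ) • x := by rw [Nat.cast_one, one_smul]
    rw [hb, add_smul, h1, zero_add, mul_smul, natCast_zsmul] at h2
    rw [Nat.cast_smul_eq_nsmul]
    exact h2
  rw [eq_top_iff]
  intro x _
  obtain ⟨y, rfl⟩ := hdiv x
  have hproj : ∀ j : ZMod p, (∑ k ∈ Finset.range p, ζ' ^ (j.val * k) • (Φ ^ k) y) ∈ eig (p := p) φ A ζ j := by
    intro j
    rw [mem_eig, ← hΦ, map_sum, Finset.smul_sum]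
    have h1 : ∀ k ∈ Finset.range p, Φ (ζ' ^ (j.val * k) • (Φ ^ k) y) =
        ζ ^ j.val • (ζ' ^ (j.val * (k + 1)) • (Φ ^ (k + 1)) y) := by
      intro k _
      rw [map_smul, pow_succ' Φ, Module.End.mul_apply, smul_smul, mul_add, mul_one, pow_add, mul_comm (ζ' ^ (j.val * k)),
        ← mul_assoc, ← mul_pow, hζζ, one_pow, one_mul]
    rw [Finset.sum_congr rfl h1, ← Finset.smul_sum, ← Finset.smul_sum]
    congr 1
    set g : ℕ → A ⊗[R] L := fun k => ζ' ^ (j.val * k) • (Φ ^ k) y with hg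
    have h2 : g p = g 0 := by
      rw [hg]
      simp only [mul_zero, pow_zero, Module.End.one_apply]
      rw [hΦp, mul_comm, pow_mul, hζ1.pow_eq_one, one_pow]
    have h3 := Finset.sum_range_succ g p
    rw [Finset.sum_range_succ', h2] at h3
    exact add_right_cancel h3
  have hsum : (p : A) • y = ∑ j : ZMod p, ∑ k ∈ Finset.range p, ζ' ^ (j.val * k) • (Φ ^ k) y := by
    rw [Finset.sum_comm]
    have h1 : ∀ k ∈ Finset.range p, (∑ j : ZMod p, ζ' ^ (j.val * k) • (Φ ^ k) y) = if k = 0 then (p : A) • y else 0 := by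
      intro k hk
      rw [← Finset.sum_smul]
      have h2 : (∑ j : ZMod p, ζ' ^ (j.val * k)) = ∑ j ∈ Finset.range p, (ζ' ^ k) ^ j := by
        rw [Finset.sum_range]
        refine Fintype.sum_equiv (ZMod.finEquiv p).toEquiv.symm _ _ ?_
        intro j
        rw [← pow_mul ζ' k, mul_comm k]
        congr 2
        obtain ⟨i, rfl⟩ := (ZMod.finEquiv p).toEquiv.surjective j
        rw [Equiv.symm_apply_apply]
        cases p with
        | zero => exact absurd hp1 (by omega)
        | succ p => rfl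
      rw [h2]
      split_ifs with h
      · subst h
        rw [pow_zero, pow_zero, Module.End.one_apply]
        simp
      · have hk' := Finset.mem_range.1 hk
        have h3 : IsPrimitiveRoot (ζ' ^ k) p := hζ1.pow_of_coprime k
          (Nat.Coprime.symm ((Nat.Prime.coprime_iff_not_dvd hp.out).2 fun hd => by
            have := Nat.le_of_dvd (Nat.pos_of_ne_zero h) hd
            omega))
        rw [h3.geom_sum_eq_zero hp1, zero_smul]
    rw [Finset.sum_congr rfl h1, Finset.sum_ite_eq' (Finset.range p) 0 (fun _ => (p : A) • y),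
      if_pos (Finset.mem_range.2 hp.out.pos)]
  rw [hsum]
  exact sum_mem fun j _ => AddSubgroup.mem_iSup_of_mem j (hproj j)

theorem one_tmul_mem (k : ℕ) {x : L} (hx : x ∈ lcsL L k) : (1 : A) ⊗ₜ[R] x ∈ lcsL (A ⊗[R] L) k := by
  induction k generalizing x with
  | zero => exact AddSubgroup.mem_top _
  | succ k ih =>
    change x ∈ AddSubgroup.closure {z | ∃ x ∈ lcsL L k, ∃ y : L, ⁅x, y⁆ = z} at hx
    change (1 : A) ⊗ₜ[R] x ∈ AddSubgroup.closure {z | ∃ x ∈ lcsL (A ⊗[R] L) k, ∃ y : A ⊗[R] L, ⁅x, y⁆ = z}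
    induction hx using AddSubgroup.closure_induction with
    | mem z hz =>
      obtain ⟨x, hx, y, rfl⟩ := hz
      apply AddSubgroup.subset_closure
      refine ⟨1 ⊗ₜ x, ih hx, 1 ⊗ₜ y, ?_⟩
      rw [LieAlgebra.ExtendScalars.bracket_tmul, one_mul]
    | zero => rw [TensorProduct.tmul_zero]; exact zero_mem _
    | add a b _ _ ha hb => rw [TensorProduct.tmul_add]; exact add_mem ha hb
    | neg a _ ha => rw [TensorProduct.tmul_neg]; exact neg_mem ha

theorem lcsL_eq_bot_of_ext [Module.Free R A] [Nontrivial A] {k : ℕ} (h : lcsL (A ⊗[R] L) k = ⊥) :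
    lcsL L k = ⊥ := by
  rw [eq_bot_iff]
  intro x hx
  have h1 := one_tmul_mem (R := R) A k hx
  rw [h, AddSubgroup.mem_bot] at h1
  rw [AddSubgroup.mem_bot]
  exact Module.FaithfullyFlat.tensorProduct_mk_injective (A := R) (B := A) L
    (h1.trans (TensorProduct.tmul_zero L (1 : A)).symm)

end Eigen

theorem exists_ring (p : ℕ) [NeZero p] : ∃ (K : Type) (_ : Field K) (_ : NumberField K)
    (ζ : NumberField.RingOfIntegers K), IsPrimitiveRoot ζ p := by
  have h := CyclotomicField.isCyclotomicExtension p ℚ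
  have h1 := @IsCyclotomicExtension.zeta_spec p _ ℚ (CyclotomicField p ℚ) _ _ _ h
  exact ⟨CyclotomicField p ℚ, inferInstance, inferInstance, _, h1.toInteger_isPrimitiveRoot⟩

theorem main {p : ℕ} [hp : Fact p.Prime] {L : Type*} [LieRing L] (φ : L →ₗ[ℤ] L)
    (hφ : ∀ x y, φ ⁅x, y⁆ = ⁅φ x, φ y⁆) (hfix : ∀ x, φ x = x → x = 0) (hφp : ∀ x, φ^[p] x = x)
    {N : ℕ} (hN : N.Coprime p) (hNx : ∀ x : L, N • x = 0) :
    lcsL L (∑ j ∈ Finset.range (2 ^ (p - 1) - 1), (p - 1) ^ j) = ⊥ ∧ (p = 3 → lcsL L 2 = ⊥) := by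
  haveI : NeZero p := ⟨hp.out.ne_zero⟩
  obtain ⟨K, _, _, ζ, hζ⟩ := exists_ring p
  let A := NumberField.RingOfIntegers K
  have h1 := graded_eig (R := ℤ) φ A hζ hφ hfix
  have h2 := iSup_eig (R := ℤ) φ A hζ hφp hN hNx
  refine ⟨lcsL_eq_bot_of_ext (R := ℤ) A (lcsL_eq_bot h1 h2), ?_⟩
  rintro rfl
  exact lcsL_eq_bot_of_ext (R := ℤ) A (lcsL_three h1 h2)

end Cfsg.Agent.Lib.H72Kreknin
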