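import Cfsg.Agent.Lib.H72GrLie
import Cfsg.Agent.Lib.H72Eigen
import Mathlib

/-!
Automorphisms acting on the associated Lie ring of a group; the theorem of Higman, Kreknin and Kostrikin (helper72).
-/

set_option autoImplicit false
open scoped commutatorElement DirectSum

namespace Cfsg.Agent.Lib.H72GrLie

variable {G : Type*} [Group G]

theorem map_mem (f : G →* G) {n : ℕ} {g : G} (hg : g ∈ Γ G n) : f g ∈ Γ G n := by
  have h : ∀ n : ℕ, ∀ g ∈ (⊤ : Subgroup G).lowerCentralSeries n, f g ∈ (⊤ : Subgroup G).lowerCentralSeries n := by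
    intro n
    induction n with
    | zero => intro g _; exact Subgroup.mem_top _
    | succ n ih =>
      intro g hg
      have h1 : (⊤ : Subgroup G).lowerCentralSeries (n + 1) ≤ ((⊤ : Subgroup G).lowerCentralSeries (n + 1)).comap f := by
        rw [Subgroup.lowerCentralSeries_succ, Subgroup.commutator_le]
        intro a ha b _
        rw [Subgroup.mem_comap, map_commutatorElement]
        exact Subgroup.commutator_mem_commutator (ih a ha) (Subgroup.mem_top _)
      exact h1 hg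
  exact h (n - 1) g hg

/-- restriction -/
def resΓ (f : G →* G) (n : ℕ) : ↥(Γ G n) →* ↥(Γ G n) where
  toFun a := ⟨f a, map_mem f a.2⟩
  map_one' := by ext; exact map_one f
  map_mul' a b := by ext; exact map_mul f _ _

/-- induced map on the factors -/
def mapA (f : G →* G) (n : ℕ) : A G n →+ A G n :=
  MonoidHom.toAdditive (QuotientGroup.map _ _ (resΓ f n) (by
    intro a ha
    rw [Subgroup.mem_subgroupOf] at ha
    rw [Subgroup.mem_comap, Subgroup.mem_subgroupOf]
    exact map_mem f ha) : Q G n →* Q G n)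

theorem mapA_mk (f : G →* G) (n : ℕ) (a : ↥(Γ G n)) : mapA f n (mk a) = mk (resΓ f n a) := rfl

/-- induced map on the Lie ring -/
def mapL (f : G →* G) : L G →+ L G := (DirectSum.map (mapA f) : (⨁ n, A G n) →+ ⨁ n, A G n)

theorem mapL_ι (f : G →* G) {n : ℕ} {g : G} (hg : g ∈ Γ G n) : mapL f (ι n g) = ι n (f g) := by
  rw [ι_of hg, ι_of (map_mem f hg)]
  exact DirectSum.map_of (mapA f) n _

theorem mapL_lie (f : G →* G) (x y : L G) : mapL f ⁅x, y⁆ = ⁅mapL f x, mapL f y⁆ := by
  induction x using induction with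
  | h0 => rw [zero_lie, map_zero, zero_lie]
  | h1 n g hg =>
    induction y using induction with
    | h0 => rw [lie_zero, map_zero, lie_zero]
    | h1 m h hh =>
      rw [lie_ι hg hh, mapL_ι f hg, mapL_ι f hh, lie_ι (map_mem f hg) (map_mem f hh), mapL_ι f (comm_mem hg hh),
        map_commutatorElement]
    | h2 a b ha hb => rw [lie_add, map_add, map_add, lie_add, ha, hb]
  | h2 a b ha hb => rw [add_lie, map_add, map_add, add_lie, ha, hb]

theorem mapL_fix (f : G →* G) (hf : ∀ n, ∀ g ∈ Γ G n, g⁻¹ * f g ∈ Γ G (n + 1) → g ∈ Γ G (n + 1)) {x : L G}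
    (hx : mapL f x = x) : x = 0 := by
  have h1 : ∀ n, ∀ a : A G n, mapA f n a = a → a = 0 := by
    intro n a ha
    induction a using mk_ind with
    | h g =>
    rw [mapA_mk, eq_comm, mk_eq] at ha
    have h2 := hf n g g.2 ha
    rw [← mk_one, mk_eq]
    show (g : G)⁻¹ * ((1 : ↥(Γ G n)) : G) ∈ Γ G (n + 1)
    rw [OneMemClass.coe_one, mul_one]
    exact inv_mem h2
  refine DFinsupp.ext (β := fun n => A G n) fun n => ?_
  apply h1
  have h2 := congrArg (fun z : ⨁ n, A G n => z n) hx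
  exact (DirectSum.map_apply (mapA f) n x).symm.trans h2

theorem mapL_iterate_ι (f : G →* G) (k n : ℕ) {g : G} (hg : g ∈ Γ G n) : (mapL f)^[k] (ι n g) = ι n (f^[k] g) := by
  induction k generalizing g with
  | zero => rfl
  | succ k ih => rw [Function.iterate_succ_apply, Function.iterate_succ_apply, mapL_ι f hg, ih (map_mem f hg)]

theorem mapL_iterate (f : G →* G) (k : ℕ) (hf : ∀ g, f^[k] g = g) (x : L G) : (mapL f)^[k] x = x := by
  induction x using induction with
  | h0 => rw [iterate_map_zero]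
  | h1 n g hg => rw [mapL_iterate_ι f k n hg, hf]
  | h2 a b ha hb => rw [iterate_map_add, ha, hb]

theorem nsmul_ι {n : ℕ} {g : G} (hg : g ∈ Γ G n) (k : ℕ) : k • ι n g = ι n (g ^ k) := by
  induction k with
  | zero => rw [zero_smul, pow_zero, ι_one]
  | succ k ih => rw [succ_nsmul, ih, pow_succ, ι_mul (pow_mem hg k) hg]

theorem nsmul_eq_zero {N : ℕ} (hN : ∀ g : G, g ^ N = 1) (x : L G) : N • x = 0 := by
  induction x using induction with
  | h0 => rw [smul_zero]
  | h1 n g hg => rw [nsmul_ι hg, hN, ι_one]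
  | h2 a b ha hb => rw [smul_add, ha, hb, add_zero]

theorem ι_mem_lcsL (n : ℕ) {g : G} (hg : g ∈ Γ G (n + 1)) : ι (n + 1) g ∈ H72Kreknin.lcsL (L G) n := by
  induction n generalizing g with
  | zero => exact AddSubgroup.mem_top _
  | succ n ih =>
    have h1 : (⊤ : Subgroup G).lowerCentralSeries (n + 1) = ⁅(⊤ : Subgroup G).lowerCentralSeries n, ⊤⁆ := rfl
    change g ∈ (⊤ : Subgroup G).lowerCentralSeries (n + 1) at hg
    change _ ∈ AddSubgroup.closure {z | ∃ x ∈ H72Kreknin.lcsL (L G) n, ∃ y : L G, ⁅x, y⁆ = z}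
    have h2 : ∀ g ∈ (⊤ : Subgroup G).lowerCentralSeries (n + 1), g ∈ Γ G (n + 1 + 1) := fun g hg => hg
    rw [Subgroup.mem_lowerCentralSeries_succ_iff] at hg
    have h3 : g ∈ Γ G (n + 1 + 1) ∧
        ι (n + 1 + 1) g ∈ AddSubgroup.closure {z | ∃ x ∈ H72Kreknin.lcsL (L G) n, ∃ y : L G, ⁅x, y⁆ = z} := by
      induction hg using Subgroup.closure_induction with
      | mem z hz =>
        obtain ⟨x, hx, y, _, rfl⟩ := hz
        have hy : y ∈ Γ G 1 := Subgroup.mem_top y
        have hx' : x ∈ Γ G (n + 1) := hx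
        refine ⟨comm_mem hx' hy, AddSubgroup.subset_closure ⟨ι (n + 1) x, ih hx', ι 1 y, ?_⟩⟩
        exact lie_ι hx' hy
      | one => exact ⟨one_mem _, by rw [ι_one]; exact zero_mem _⟩
      | mul a b _ _ ha hb => exact ⟨mul_mem ha.1 hb.1, by rw [ι_mul ha.1 hb.1]; exact add_mem ha.2 hb.2⟩
      | inv a _ ha => exact ⟨inv_mem ha.1, by rw [ι_inv ha.1]; exact neg_mem ha.2⟩
    exact h3.2

theorem lcs_le_of_lcsL {n : ℕ} (h : H72Kreknin.lcsL (L G) n = ⊥) :
    (⊤ : Subgroup G).lowerCentralSeries n ≤ (⊤ : Subgroup G).lowerCentralSeries (n + 1) := by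
  intro g hg
  have h1 := ι_mem_lcsL n (g := g) hg
  rw [h, AddSubgroup.mem_bot] at h1
  exact (ι_eq_zero (n := n + 1) hg).1 h1

theorem lcs_eq_bot [Group.IsNilpotent G] {n : ℕ}
    (h : (⊤ : Subgroup G).lowerCentralSeries n ≤ (⊤ : Subgroup G).lowerCentralSeries (n + 1)) :
    (⊤ : Subgroup G).lowerCentralSeries n = ⊥ := by
  have h1 : ∀ k, (⊤ : Subgroup G).lowerCentralSeries n ≤ (⊤ : Subgroup G).lowerCentralSeries (n + k) := by
    intro k
    induction k with
    | zero => exact le_rfl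
    | succ k ih =>
      refine h.trans ?_
      rw [Subgroup.lowerCentralSeries_succ, ← add_assoc, Subgroup.lowerCentralSeries_succ]
      exact Subgroup.commutator_mono ih le_rfl
  obtain ⟨c, hc⟩ := nilpotent_iff_lowerCentralSeries.1 (inferInstance : Group.IsNilpotent G)
  rw [eq_bot_iff, ← hc]
  exact (h1 c).trans (Subgroup.lowerCentralSeries_antitone ⊤ (Nat.le_add_left c n))

/-- fixed points on the factors of a finite group -/
theorem factor_fix [Finite G] (f : G →* G) (hf : ∀ g, f g = g → g = 1) (n : ℕ) (g : G)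
    (hg : g⁻¹ * f g ∈ Γ G (n + 1)) : g ∈ Γ G (n + 1) := by
  set N := Γ G (n + 1)
  let u : ↥N → ↥N := fun y => ⟨(y : G)⁻¹ * f y, mul_mem (inv_mem y.2) (map_mem f y.2)⟩
  have hinj : Function.Injective u := by
    intro y z hyz
    have h1 : (y : G)⁻¹ * f y = (z : G)⁻¹ * f z := congrArg Subtype.val hyz
    have h2 : f (y * (z : G)⁻¹) = y * (z : G)⁻¹ := by
      have h3 : f y = y * ((z : G)⁻¹ * f z) := by rw [← h1]; group
      rw [map_mul, map_inv, h3]; group
    have h4 := hf _ h2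
    exact Subtype.ext (mul_inv_eq_one.1 h4)
  obtain ⟨y, hy⟩ := (Finite.injective_iff_surjective.1 hinj) ⟨g⁻¹ * f g, hg⟩
  have h1 : (y : G)⁻¹ * f y = g⁻¹ * f g := congrArg Subtype.val hy
  have h2 : f (g * (y : G)⁻¹) = g * (y : G)⁻¹ := by
    have h3 : f g = g * ((y : G)⁻¹ * f y) := by rw [h1]; group
    rw [map_mul, map_inv, h3]; group
  have h4 := hf _ h2
  rw [mul_inv_eq_one.1 h4]
  exact y.2

theorem main [Finite G] [Group.IsNilpotent G] {p : ℕ} [hp : Fact p.Prime] (f : G →* G)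
    (hf : ∀ g, f g = g → g = 1) (hfp : ∀ g, f^[p] g = g) (hco : (Nat.card G).Coprime p) :
    (⊤ : Subgroup G).lowerCentralSeries (∑ j ∈ Finset.range (2 ^ (p - 1) - 1), (p - 1) ^ j) = ⊥ ∧
      (p = 3 → (⊤ : Subgroup G).lowerCentralSeries 2 = ⊥) := by
  have h := H72Kreknin.main (p := p) (L := L G) (mapL f).toIntLinearMap (mapL_lie f)
    (fun x hx => mapL_fix f (fun n g _ h => factor_fix f hf n g h) hx) (mapL_iterate f p hfp) hco
    (nsmul_eq_zero fun g => pow_card_eq_one')
  exact ⟨lcs_eq_bot (lcs_le_of_lcsL h.1), fun hp3 => lcs_eq_bot (lcs_le_of_lcsL (h.2 hp3))⟩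

end Cfsg.Agent.Lib.H72GrLie
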