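import Cfsg.Agent.Lib.HBBasic
import Mathlib

/-!
The Lie ring associated with the lower central series of a group (helper72).
-/

set_option autoImplicit false
open scoped commutatorElement DirectSum

namespace Cfsg.Agent.Lib.H72GrLie

variable (G : Type*) [Group G]

/-- `Γ 0 = Γ 1 = G`, `Γ (n + 1) = [Γ n, G]` -/
def Γ (n : ℕ) : Subgroup G := (⊤ : Subgroup G).lowerCentralSeries (n - 1)

instance (n : ℕ) : (Γ G n).Normal := by unfold Γ; infer_instance

theorem Γ_zero : Γ G 0 = ⊤ := rfl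
theorem Γ_one : Γ G 1 = ⊤ := rfl
theorem Γ_succ (n : ℕ) : Γ G (n + 1) = (⊤ : Subgroup G).lowerCentralSeries n := rfl

theorem Γ_anti : Antitone (Γ G) := by
  intro m n h
  exact Subgroup.lowerCentralSeries_antitone ⊤ (by omega)

theorem lcs_eq_chain (n : ℕ) : (⊤ : Subgroup G).lowerCentralSeries n = HBBasic.chain ⊤ n := by
  induction n with
  | zero => rfl
  | succ n ih => rw [Subgroup.lowerCentralSeries_succ, ih]; rfl

theorem Γ_comm (i j : ℕ) : ⁅Γ G i, Γ G j⁆ ≤ Γ G (i + j) := by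
  rcases Nat.eq_zero_or_pos i with rfl | hi
  · rw [zero_add]; exact Subgroup.commutator_le_right _ _
  rcases Nat.eq_zero_or_pos j with rfl | hj
  · rw [add_zero]; exact Subgroup.commutator_le_left _ _
  obtain ⟨i, rfl⟩ := Nat.exists_eq_succ_of_ne_zero hi.ne'
  obtain ⟨j, rfl⟩ := Nat.exists_eq_succ_of_ne_zero hj.ne'
  have h := HBBasic.commutator_lowerCentralSeries_le j ((⊤ : Subgroup G).lowerCentralSeries i)
  refine h.trans ?_
  rw [lcs_eq_chain, HBBasic.chain_chain, ← lcs_eq_chain]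
  exact Subgroup.lowerCentralSeries_antitone ⊤ (by omega)

variable {G}

theorem comm_mem {i j : ℕ} {g h : G} (hg : g ∈ Γ G i) (hh : h ∈ Γ G j) : ⁅g, h⁆ ∈ Γ G (i + j) :=
  Γ_comm G i j (Subgroup.commutator_mem_commutator hg hh)

theorem comm_mem' {i j k : ℕ} (hk : i + j = k) {g h : G} (hg : g ∈ Γ G i) (hh : h ∈ Γ G j) : ⁅g, h⁆ ∈ Γ G k :=
  hk ▸ comm_mem hg hh

theorem comm_mem_succ {n : ℕ} {g : G} (x : G) (hg : g ∈ Γ G n) : ⁅x, g⁆ ∈ Γ G (n + 1) :=
  comm_mem' (add_comm 1 n) (show x ∈ Γ G 1 from Subgroup.mem_top x) hg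

theorem comm_mem_succ' {n : ℕ} {g : G} (x : G) (hg : g ∈ Γ G n) : ⁅g, x⁆ ∈ Γ G (n + 1) :=
  comm_mem' rfl hg (show x ∈ Γ G 1 from Subgroup.mem_top x)

variable (G) in
/-- the factors -/
abbrev Q (n : ℕ) : Type _ := ↥(Γ G n) ⧸ (Γ G (n + 1)).subgroupOf (Γ G n)

theorem q_eq {n : ℕ} {a b : ↥(Γ G n)} : (a : Q G n) = (b : Q G n) ↔ (a : G)⁻¹ * b ∈ Γ G (n + 1) := by
  rw [QuotientGroup.eq, Subgroup.mem_subgroupOf]
  rfl

instance (n : ℕ) : CommGroup (Q G n) :=
  { (inferInstance : Group (Q G n)) with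
    mul_comm := by
      intro a b
      induction a using QuotientGroup.induction_on with
      | H a =>
      induction b using QuotientGroup.induction_on with
      | H b =>
      rw [← QuotientGroup.mk_mul, ← QuotientGroup.mk_mul, q_eq]
      have h := comm_mem_succ (b⁻¹ : G) (inv_mem a.2)
      have e : ⁅(b⁻¹ : G), (a⁻¹ : G)⁆ = ((a * b : ↥(Γ G n)) : G)⁻¹ * (b * a : ↥(Γ G n)) := by
        rw [commutatorElement_def, Subgroup.coe_mul, Subgroup.coe_mul]; group
      rwa [← e] }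

variable (G) in
/-- the factors, additively -/
abbrev A (n : ℕ) : Type _ := Additive (Q G n)

/-- the class of an element -/
def mk {n : ℕ} (a : ↥(Γ G n)) : A G n := Additive.ofMul (a : Q G n)

theorem mk_eq {n : ℕ} {a b : ↥(Γ G n)} : mk a = mk b ↔ (a : G)⁻¹ * b ∈ Γ G (n + 1) := q_eq

theorem mk_mul {n : ℕ} (a b : ↥(Γ G n)) : mk (a * b) = mk a + mk b := rfl

theorem mk_one {n : ℕ} : mk (1 : ↥(Γ G n)) = 0 := rfl

theorem mk_ind {n : ℕ} {P : A G n → Prop} (h : ∀ a, P (mk a)) (x : A G n) : P x := by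
  obtain ⟨a, rfl⟩ := QuotientGroup.mk_surjective (s := (Γ G (n + 1)).subgroupOf (Γ G n)) x.toMul
  exact h a

/-- bracket of homogeneous elements -/
def brA {i j : ℕ} (a : A G i) (b : A G j) : A G (i + j) :=
  Quotient.liftOn₂' a.toMul b.toMul (fun g h => mk (⟨⁅(g : G), (h : G)⁆, comm_mem g.2 h.2⟩ : ↥(Γ G (i + j)))) (by
    intro g h g' h' hg hh
    have hg1 : (g : G)⁻¹ * g' ∈ Γ G (i + 1) := q_eq.1 (Quotient.sound' hg)
    have hh1 : (h : G)⁻¹ * h' ∈ Γ G (j + 1) := q_eq.1 (Quotient.sound' hh)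
    show mk _ = mk _
    rw [mk_eq]
    show ⁅(g : G), (h : G)⁆⁻¹ * ⁅(g' : G), (h' : G)⁆ ∈ _
    set c := (g : G)⁻¹ * g' with hc
    set d := (h : G)⁻¹ * h' with hd
    have e1 : (g' : G) = g * c := by rw [hc]; group
    have e2 : (h' : G) = h * d := by rw [hd]; group
    have h1 : ⁅c, (h : G) * d⁆ ∈ Γ G (i + j + 1) :=
      comm_mem' (by ring) hg1 (mul_mem h.2 (Γ_anti G (Nat.le_succ j) hh1))
    have h2 : ⁅(g : G), d⁆ ∈ Γ G (i + j + 1) := comm_mem' (by ring) g.2 hh1
    have e3 : ⁅(g : G), (h : G)⁆⁻¹ * ⁅(g' : G), (h' : G)⁆ =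
        (⁅(g : G), (h : G)⁆⁻¹ * (g * ⁅c, (h : G) * d⁆ * (g : G)⁻¹) * ⁅(g : G), (h : G)⁆) * (h * ⁅(g : G), d⁆ * (h : G)⁻¹) := by
      rw [e1, e2]; simp only [commutatorElement_def]; group
    rw [e3]
    apply mul_mem
    · have := (inferInstance : (Γ G (i + j + 1)).Normal).conj_mem _
        ((inferInstance : (Γ G (i + j + 1)).Normal).conj_mem _ h1 (g : G)) ⁅(g : G), (h : G)⁆⁻¹
      rwa [inv_inv] at this
    · exact (inferInstance : (Γ G (i + j + 1)).Normal).conj_mem _ h2 (h : G))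

theorem brA_mk {i j : ℕ} (g : ↥(Γ G i)) (h : ↥(Γ G j)) :
    brA (mk g) (mk h) = mk (⟨⁅(g : G), (h : G)⁆, comm_mem g.2 h.2⟩ : ↥(Γ G (i + j))) := rfl

theorem brA_add {i j : ℕ} (a : A G i) (b c : A G j) : brA a (b + c) = brA a b + brA a c := by
  induction a using mk_ind with
  | h g =>
  induction b using mk_ind with
  | h h =>
  induction c using mk_ind with
  | h k =>
  rw [← mk_mul, brA_mk, brA_mk, brA_mk, ← mk_mul, mk_eq]
  show ⁅(g : G), (h * k : G)⁆⁻¹ * (⁅(g : G), (h : G)⁆ * ⁅(g : G), (k : G)⁆) ∈ _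
  have e : ⁅(g : G), (h * k : G)⁆⁻¹ * (⁅(g : G), (h : G)⁆ * ⁅(g : G), (k : G)⁆) = ⁅(h : G), ⁅(g : G), (k : G)⁆⁻¹⁆ := by
    simp only [commutatorElement_def]; group
  rw [e]
  exact comm_mem_succ _ (inv_mem (comm_mem g.2 k.2))

theorem add_brA {i j : ℕ} (a b : A G i) (c : A G j) : brA (a + b) c = brA a c + brA b c := by
  induction a using mk_ind with
  | h g =>
  induction b using mk_ind with
  | h h =>
  induction c using mk_ind with
  | h k =>
  rw [← mk_mul, brA_mk, brA_mk, brA_mk, add_comm (mk _) (mk _), ← mk_mul, mk_eq]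
  show ⁅(g * h : G), (k : G)⁆⁻¹ * (⁅(h : G), (k : G)⁆ * ⁅(g : G), (k : G)⁆) ∈ _
  have e : ⁅(g * h : G), (k : G)⁆⁻¹ * (⁅(h : G), (k : G)⁆ * ⁅(g : G), (k : G)⁆) =
      ⁅(g : G), (k : G)⁆⁻¹ * ⁅(g : G), ⁅(h : G), (k : G)⁆⁻¹⁆ * ⁅(g : G), (k : G)⁆⁻¹⁻¹ := by
    simp only [commutatorElement_def]; group
  rw [e]
  exact (inferInstance : (Γ G (i + j + 1)).Normal).conj_mem _
    (comm_mem_succ _ (inv_mem (comm_mem h.2 k.2))) _

theorem brA_zero {i j : ℕ} (a : A G i) : brA a (0 : A G j) = 0 := by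
  have h := brA_add a (0 : A G j) 0
  rw [add_zero] at h
  exact left_eq_add.1 h

theorem zero_brA {i j : ℕ} (b : A G j) : brA (0 : A G i) b = 0 := by
  have h := add_brA (0 : A G i) 0 b
  rw [add_zero] at h
  exact left_eq_add.1 h

instance : DirectSum.GNonUnitalNonAssocSemiring (A G) where
  mul := brA
  mul_zero a := brA_zero a
  zero_mul b := zero_brA b
  mul_add := brA_add
  add_mul := add_brA

/-! ### the Lie ring -/

variable (G) in
/-- the associated Lie ring -/
def L : Type _ := ⨁ n, A G n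

instance : AddCommGroup (L G) := inferInstanceAs (AddCommGroup (⨁ n, A G n))

/-- the product -/
def br (x y : L G) : L G := (DirectSum.mulHom (A G) x y : ⨁ n, A G n)

theorem br_add (x y z : L G) : br x (y + z) = br x y + br x z := map_add (DirectSum.mulHom (A G) x) y z

theorem add_br (x y z : L G) : br (x + y) z = br x z + br y z := by
  unfold br
  exact congrArg (fun f => f z) (map_add (DirectSum.mulHom (A G)) x y)

theorem br_zero (x : L G) : br x 0 = 0 := map_zero (DirectSum.mulHom (A G) x)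

theorem zero_br (x : L G) : br 0 x = 0 := by
  unfold br
  exact congrArg (fun f => f x) (map_zero (DirectSum.mulHom (A G)))

open scoped Classical in
/-- the class of an element in degree `n` (zero for elements outside `Γ n`) -/
noncomputable def ι (n : ℕ) (g : G) : L G :=
  if h : g ∈ Γ G n then (DirectSum.of (A G) n (mk ⟨g, h⟩) : ⨁ n, A G n) else 0

theorem ι_of {n : ℕ} {g : G} (h : g ∈ Γ G n) : ι n g = (DirectSum.of (A G) n (mk ⟨g, h⟩) : ⨁ n, A G n) := dif_pos h

theorem ι_mul {n : ℕ} {g h : G} (hg : g ∈ Γ G n) (hh : h ∈ Γ G n) : ι n (g * h) = ι n g + ι n h := by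
  rw [ι_of hg, ι_of hh, ι_of (mul_mem hg hh)]
  exact map_add (DirectSum.of (A G) n) (mk ⟨g, hg⟩) (mk ⟨h, hh⟩)

theorem ι_eq_zero {n : ℕ} {g : G} (hg : g ∈ Γ G n) : ι n g = 0 ↔ g ∈ Γ G (n + 1) := by
  rw [ι_of hg]
  constructor
  · intro h
    have h1 := DirectSum.of_injective (β := A G) n (h.trans (map_zero (DirectSum.of (A G) n)).symm)
    rw [← mk_one, mk_eq] at h1
    have h2 : (g : G)⁻¹ * ((1 : ↥(Γ G n)) : G) ∈ Γ G (n + 1) := h1
    rw [OneMemClass.coe_one, mul_one] at h2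
    exact inv_mem_iff.1 h2
  · intro h
    have h1 : mk (⟨g, hg⟩ : ↥(Γ G n)) = 0 := by
      rw [← mk_one, mk_eq]
      show (g : G)⁻¹ * ((1 : ↥(Γ G n)) : G) ∈ Γ G (n + 1)
      rw [OneMemClass.coe_one, mul_one]
      exact inv_mem h
    rw [h1]
    exact map_zero (DirectSum.of (A G) n)

theorem ι_one (n : ℕ) : ι n (1 : G) = 0 := (ι_eq_zero (one_mem _)).2 (one_mem _)

theorem ι_inv {n : ℕ} {g : G} (hg : g ∈ Γ G n) : ι n g⁻¹ = - ι n g := by
  have h := ι_mul hg (inv_mem hg)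
  rw [mul_inv_cancel, ι_one] at h
  exact (neg_eq_of_add_eq_zero_right h.symm).symm

theorem br_ι {i j : ℕ} {g h : G} (hg : g ∈ Γ G i) (hh : h ∈ Γ G j) : br (ι i g) (ι j h) = ι (i + j) ⁅g, h⁆ := by
  rw [ι_of hg, ι_of hh, ι_of (comm_mem hg hh)]
  exact DirectSum.mulHom_of_of (A := A G) _ _

theorem ι_conj {n : ℕ} {g : G} (x : G) (hg : g ∈ Γ G n) : ι n (x * g * x⁻¹) = ι n g := by
  have e : x * g * x⁻¹ = ⁅x, g⁆ * g := by simp only [commutatorElement_def]; group
  have h1 := comm_mem_succ x hg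
  rw [e, ι_mul (Γ_anti G (Nat.le_succ n) h1) hg, (ι_eq_zero (Γ_anti G (Nat.le_succ n) h1)).2 h1, zero_add]

theorem induction {P : L G → Prop} (h0 : P 0) (h1 : ∀ n, ∀ g ∈ Γ G n, P (ι n g)) (h2 : ∀ x y, P x → P y → P (x + y))
    (x : L G) : P x := by
  refine DirectSum.induction_on (motive := P) x h0 ?_ (fun x y => h2 x y)
  intro n a
  induction a using mk_ind with
  | h g =>
  have := h1 n g g.2
  rwa [ι_of g.2] at this

theorem br_skew (x y : L G) : br x y + br y x = 0 := by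
  induction x using induction with
  | h0 => rw [br_zero, zero_br, add_zero]
  | h1 n g hg =>
    induction y using induction with
    | h0 => rw [br_zero, zero_br, add_zero]
    | h1 m h hh =>
      rw [br_ι hg hh, br_ι hh hg, add_comm m n, ← ι_mul (comm_mem hg hh) (comm_mem' (add_comm m n) hh hg)]
      have e : ⁅g, h⁆ * ⁅h, g⁆ = 1 := by simp only [commutatorElement_def]; group
      rw [e, ι_one]
    | h2 x y hx hy =>
      rw [br_add, add_br]
      calc _ = (br (ι n g) x + br x (ι n g)) + (br (ι n g) y + br y (ι n g)) := by abel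
        _ = 0 := by rw [hx, hy, add_zero]
  | h2 a b ha hb =>
    rw [br_add, add_br]
    calc _ = (br a y + br y a) + (br b y + br y b) := by abel
      _ = 0 := by rw [ha, hb, add_zero]

theorem br_self (x : L G) : br x x = 0 := by
  induction x using induction with
  | h0 => rw [br_zero]
  | h1 n g hg => rw [br_ι hg hg, commutatorElement_self, ι_one]
  | h2 a b ha hb =>
    rw [br_add, add_br, add_br, ha, hb, zero_add, add_zero, add_comm]
    exact br_skew a b

theorem jacobi_ι {i j k : ℕ} {x y z : G} (hx : x ∈ Γ G i) (hy : y ∈ Γ G j) (hz : z ∈ Γ G k) :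
    br (br (ι i x) (ι j y)) (ι k z) + br (br (ι j y) (ι k z)) (ι i x) + br (br (ι k z) (ι i x)) (ι j y) = 0 := by
  have key : ∀ {i j k : ℕ} {x y z : G}, x ∈ Γ G i → y ∈ Γ G j → z ∈ Γ G k →
      br (br (ι i x) (ι j y)) (ι k z) = - ι (i + j + k) (y⁻¹ * ⁅⁅x⁻¹, y⁆⁻¹, z⁻¹⁆ * y) := by
    intro i j k x y z hx hy hz
    have h1 := comm_mem (inv_mem hx) hy
    have h2 := ι_conj y⁻¹ (comm_mem (inv_mem h1) (inv_mem hz))
    rw [inv_inv] at h2
    rw [h2, ← br_ι (inv_mem h1) (inv_mem hz), ι_inv h1, ι_inv hz, ← br_ι (inv_mem hx) hy, ι_inv hx]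
    have hneg : ∀ a b : L G, br (-a) b = - br a b := by
      intro a b
      have := add_br (-a) a b
      rw [neg_add_cancel, zero_br] at this
      exact eq_neg_of_add_eq_zero_left this.symm
    have hneg' : ∀ a b : L G, br a (-b) = - br a b := by
      intro a b
      have := br_add a (-b) b
      rw [neg_add_cancel, br_zero] at this
      exact eq_neg_of_add_eq_zero_left this.symm
    rw [hneg, hneg, hneg', hneg, neg_neg, neg_neg]
  rw [key hx hy hz, key hy hz hx, key hz hx hy]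
  have e1 : j + k + i = i + j + k := by ring
  have e2 : k + i + j = i + j + k := by ring
  rw [e1, e2, ← neg_add, ← neg_add, neg_eq_zero]
  have c : ∀ {i j k l : ℕ} {x y z : G}, i + j + k = l → x ∈ Γ G i → y ∈ Γ G j → z ∈ Γ G k →
      y⁻¹ * ⁅⁅x⁻¹, y⁆⁻¹, z⁻¹⁆ * y ∈ Γ G l := by
    intro i j k l x y z hl hx hy hz
    have h2 := comm_mem' hl (inv_mem (comm_mem (inv_mem hx) hy)) (inv_mem hz)
    have h3 := (inferInstance : (Γ G l).Normal).conj_mem _ h2 y⁻¹
    rwa [inv_inv] at h3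
  rw [← ι_mul (c rfl hx hy hz) (c e1 hy hz hx), ← ι_mul (mul_mem (c rfl hx hy hz) (c e1 hy hz hx)) (c e2 hz hx hy)]
  have e : y⁻¹ * ⁅⁅x⁻¹, y⁆⁻¹, z⁻¹⁆ * y * (z⁻¹ * ⁅⁅y⁻¹, z⁆⁻¹, x⁻¹⁆ * z) * (x⁻¹ * ⁅⁅z⁻¹, x⁆⁻¹, y⁻¹⁆ * x) = 1 := by
    simp only [commutatorElement_def]; group
  rw [e, ι_one]

theorem jacobi (x y z : L G) : br (br x y) z + br (br y z) x + br (br z x) y = 0 := by
  induction x using induction with
  | h0 => simp only [br_zero, zero_br, add_zero]
  | h1 i x hx =>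
    induction y using induction with
    | h0 => simp only [br_zero, zero_br, add_zero]
    | h1 j y hy =>
      induction z using induction with
      | h0 => simp only [br_zero, zero_br, add_zero]
      | h1 k z hz => exact jacobi_ι hx hy hz
      | h2 a b ha hb =>
        simp only [br_add, add_br]
        have := congrArg₂ (· + ·) ha hb
        simp only [add_zero] at this
        rw [← this]; abel
    | h2 a b ha hb =>
      simp only [br_add, add_br]
      have := congrArg₂ (· + ·) ha hb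
      simp only [add_zero] at this
      rw [← this]; abel
  | h2 a b ha hb =>
    simp only [br_add, add_br]
    have := congrArg₂ (· + ·) ha hb
    simp only [add_zero] at this
    rw [← this]; abel

instance : LieRing (L G) where
  bracket := br
  add_lie := add_br
  lie_add := br_add
  lie_self := br_self
  leibniz_lie x y z := by
    show br x (br y z) = br (br x y) z + br y (br x z)
    have h1 := jacobi x y z
    have h2 := br_skew x (br y z)
    have h3 := br_skew y (br x z)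
    have h4 := br_skew x z
    have h5 : br (br z x) y = - br (br x z) y := by
      have := add_br (br x z) (br z x) y
      rw [h4, zero_br] at this
      exact eq_neg_of_add_eq_zero_right this.symm
    have h6 : br x (br y z) = - br (br y z) x := eq_neg_of_add_eq_zero_left h2
    have h7 : br y (br x z) = - br (br x z) y := eq_neg_of_add_eq_zero_left h3
    rw [h6, h7, ← h5, eq_comm, ← sub_eq_zero, sub_neg_eq_add]
    rw [← h1]; abel

theorem lie_ι {i j : ℕ} {g h : G} (hg : g ∈ Γ G i) (hh : h ∈ Γ G j) : ⁅ι i g, ι j h⁆ = ι (i + j) ⁅g, h⁆ := br_ι hg hh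

end Cfsg.Agent.Lib.H72GrLie
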