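import Mathlib

/-!
Kreknin's theorem and the Higman–Kreknin–Kostrikin bound for Lie rings graded by `ZMod n` with trivial
component of degree `0` (helper72).
-/

set_option autoImplicit false

namespace Cfsg.Agent.Lib.H72Kreknin

variable {L : Type*} [LieRing L]

section Families

variable {n : ℕ}

/-- the family of brackets of two families of additive subgroups -/
def brF (X Y : ZMod n → AddSubgroup L) : ZMod n → AddSubgroup L := fun i =>
  AddSubgroup.closure {z | ∃ a b : ZMod n, a + b = i ∧ ∃ x ∈ X a, ∃ y ∈ Y b, ⁅x, y⁆ = z}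

theorem mem_brF {X Y : ZMod n → AddSubgroup L} {a b i : ZMod n} (h : a + b = i) {x y : L} (hx : x ∈ X a)
    (hy : y ∈ Y b) : ⁅x, y⁆ ∈ brF X Y i :=
  AddSubgroup.subset_closure ⟨a, b, h, x, hx, y, hy, rfl⟩

theorem brF_le {X Y : ZMod n → AddSubgroup L} {i : ZMod n} {Z : AddSubgroup L}
    (h : ∀ a b : ZMod n, a + b = i → ∀ x ∈ X a, ∀ y ∈ Y b, ⁅x, y⁆ ∈ Z) : brF X Y i ≤ Z := by
  rw [brF, AddSubgroup.closure_le]
  rintro z ⟨a, b, hab, x, hx, y, hy, rfl⟩
  exact h a b hab x hx y hy

theorem brF_mono {X Y X' Y' : ZMod n → AddSubgroup L} (h : ∀ i, X i ≤ X' i) (h' : ∀ i, Y i ≤ Y' i) (i : ZMod n) :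
    brF X Y i ≤ brF X' Y' i :=
  brF_le fun _ _ hab _ hx _ hy => mem_brF hab (h _ hx) (h' _ hy)

/-- graded families with trivial component of degree zero -/
structure Graded (E : ZMod n → AddSubgroup L) : Prop where
  mul : ∀ i j, ∀ x ∈ E i, ∀ y ∈ E j, ⁅x, y⁆ ∈ E (i + j)
  zero : E 0 = ⊥

/-- the derived family -/
def der (E : ZMod n → AddSubgroup L) : ZMod n → AddSubgroup L := brF E E

theorem Graded.der_le {E : ZMod n → AddSubgroup L} (hE : Graded E) (i : ZMod n) : der E i ≤ E i :=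
  brF_le fun a b hab x hx y hy => hab ▸ hE.mul a b x hx y hy

theorem Graded.der {E : ZMod n → AddSubgroup L} (hE : Graded E) : Graded (der E) := by
  refine ⟨fun i j x hx y hy => ?_, ?_⟩
  · exact mem_brF rfl (hE.der_le i hx) (hE.der_le j hy)
  · rw [eq_bot_iff, ← hE.zero]
    exact hE.der_le 0

theorem Graded.iterate {E : ZMod n → AddSubgroup L} (hE : Graded E) (m : ℕ) : Graded (H72Kreknin.der^[m] E) := by
  induction m with
  | zero => exact hE
  | succ m ih => rw [Function.iterate_succ_apply']; exact ih.der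

theorem Graded.iterate_le {E : ZMod n → AddSubgroup L} (hE : Graded E) (m : ℕ) (i : ZMod n) :
    (H72Kreknin.der^[m] E) i ≤ E i := by
  induction m with
  | zero => exact le_rfl
  | succ m ih =>
    rw [Function.iterate_succ_apply']
    exact ((hE.iterate m).der_le i).trans ih

/-- the family generated by the components of degree `> k` -/
def Gen (k : ℕ) (E : ZMod n → AddSubgroup L) : ZMod n → AddSubgroup L := fun i =>
  ⨅ (F : ZMod n → AddSubgroup L) (_ : (∀ j, k < j.val → E j ≤ F j) ∧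
    ∀ i j, ∀ x ∈ F i, ∀ y ∈ F j, ⁅x, y⁆ ∈ F (i + j)), F i

theorem gen_le {k : ℕ} {E F : ZMod n → AddSubgroup L} (h1 : ∀ j, k < j.val → E j ≤ F j)
    (h2 : ∀ i j, ∀ x ∈ F i, ∀ y ∈ F j, ⁅x, y⁆ ∈ F (i + j)) (i : ZMod n) : Gen k E i ≤ F i :=
  iInf₂_le F ⟨h1, h2⟩

theorem le_gen {k : ℕ} {E : ZMod n → AddSubgroup L} {j : ZMod n} (hj : k < j.val) : E j ≤ Gen k E j :=
  le_iInf₂ fun _ hF => hF.1 j hj

theorem gen_mul {k : ℕ} {E : ZMod n → AddSubgroup L} {i j : ZMod n} {x y : L} (hx : x ∈ Gen k E i)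
    (hy : y ∈ Gen k E j) : ⁅x, y⁆ ∈ Gen k E (i + j) := by
  rw [Gen, AddSubgroup.mem_iInf]
  intro F
  rw [AddSubgroup.mem_iInf]
  intro hF
  exact hF.2 i j x (gen_le hF.1 hF.2 i hx) y (gen_le hF.1 hF.2 j hy)

variable [NeZero n]

theorem key {E : ZMod n → AddSubgroup L} (hE : Graded E) {k : ℕ} (hk : k + 1 < n) {i j : ZMod n}
    (hij : i + j = ((k + 1 : ℕ) : ZMod n)) {x y : L} (hx : x ∈ E i) (hy : y ∈ Gen k E j) :
    ⁅x, y⁆ ∈ Gen (k + 1) E ((k + 1 : ℕ) : ZMod n) := by
  let F : ZMod n → AddSubgroup L := fun j =>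
    { carrier := {y | y ∈ E j ∧ ∀ i, ∀ x ∈ E i, i + j = ((k + 1 : ℕ) : ZMod n) →
        ⁅x, y⁆ ∈ Gen (k + 1) E ((k + 1 : ℕ) : ZMod n)}
      zero_mem' := ⟨zero_mem _, fun i x _ _ => by rw [lie_zero]; exact zero_mem _⟩
      add_mem' := fun {a b} ha hb => ⟨add_mem ha.1 hb.1, fun i x hx h => by
        rw [lie_add]; exact add_mem (ha.2 i x hx h) (hb.2 i x hx h)⟩
      neg_mem' := fun {a} ha => ⟨neg_mem ha.1, fun i x hx h => by
        rw [lie_neg]; exact neg_mem (ha.2 i x hx h)⟩ }
  have h1 : ∀ j, k < j.val → E j ≤ F j := by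
    intro j hj y hy
    refine ⟨hy, fun i x hx hij => ?_⟩
    have hkv : ((k + 1 : ℕ) : ZMod n).val = k + 1 := ZMod.val_natCast_of_lt hk
    rcases Nat.lt_or_ge (k + 1) j.val with h | h
    · have hi : k + 1 < i.val := by
        by_contra hcon
        push Not at hcon
        have h2 := ZMod.val_add i j
        rw [hij, hkv] at h2
        have hjn := ZMod.val_lt j
        rcases Nat.lt_or_ge (i.val + j.val) n with h3 | h3
        · rw [Nat.mod_eq_of_lt h3] at h2; omega
        · rw [Nat.mod_eq_sub_mod h3, Nat.mod_eq_of_lt (by omega)] at h2; omega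
      rw [← hij]
      exact gen_mul (le_gen hi hx) (le_gen h hy)
    · have hjk : j = ((k + 1 : ℕ) : ZMod n) := by
        apply ZMod.val_injective
        rw [hkv]; omega
      have hi : i = 0 := by rw [hjk] at hij; exact add_eq_right.1 hij
      rw [hi, hE.zero, AddSubgroup.mem_bot] at hx
      rw [hx, zero_lie]
      exact zero_mem _
  have h2 : ∀ i j, ∀ x ∈ F i, ∀ y ∈ F j, ⁅x, y⁆ ∈ F (i + j) := by
    rintro i j b hb c hc
    refine ⟨hE.mul i j b hb.1 c hc.1, fun a x hx h => ?_⟩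
    have e1 : ⁅x, ⁅b, c⁆⁆ = ⁅⁅x, b⁆, c⁆ - ⁅⁅x, c⁆, b⁆ := by
      rw [leibniz_lie, ← lie_skew b ⁅x, c⁆]; abel
    rw [e1]
    apply sub_mem
    · exact hc.2 (a + i) _ (hE.mul a i x hx b hb.1) (by rw [add_assoc]; exact h)
    · exact hb.2 (a + j) _ (hE.mul a j x hx c hc.1) (by rw [add_assoc, add_comm j i]; exact h)
  exact (gen_le h1 h2 j hy).2 i x hx hij

theorem iterate_le_gen (k : ℕ) (hk : k < n) : ∀ {E : ZMod n → AddSubgroup L}, Graded E → ∀ i,
    (der^[2 ^ k - 1] E) i ≤ Gen k E i := by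
  induction k with
  | zero =>
    intro E hE i
    rw [pow_zero, Nat.sub_self, Function.iterate_zero, id]
    rcases Nat.eq_zero_or_pos i.val with h | h
    · rw [(ZMod.val_eq_zero i).1 h, hE.zero]; exact bot_le
    · exact le_gen h
  | succ k ih =>
    intro E hE i
    have ih := @ih (by omega)
    set m := 2 ^ k with hm
    have hm1 : 1 ≤ m := Nat.one_le_two_pow
    set N := der^[m] E with hN
    have hNg : Graded N := hE.iterate m
    have hNk : N ((k + 1 : ℕ) : ZMod n) ≤ Gen (k + 1) E ((k + 1 : ℕ) : ZMod n) := by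
      have e : N = der (der^[m - 1] E) := by
        rw [hN, ← Function.iterate_succ_apply' der, Nat.succ_eq_add_one, Nat.sub_add_cancel hm1]
      rw [e]
      apply brF_le
      intro a b hab x hx y hy
      exact key hE (by omega) hab (hE.iterate_le _ _ hx) (ih hE b hy)
    have h1 : ∀ i, Gen k N i ≤ Gen (k + 1) E i := by
      apply gen_le
      · intro j hj
        rcases Nat.lt_or_ge (k + 1) j.val with h | h
        · exact (hE.iterate_le _ _).trans (le_gen h)
        · have hjk : j = ((k + 1 : ℕ) : ZMod n) := by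
            apply ZMod.val_injective
            rw [ZMod.val_natCast_of_lt (by omega)]; omega
          rw [hjk]; exact hNk
      · intro i j x hx y hy
        exact gen_mul hx hy
    have h2 := (ih hNg i).trans (h1 i)
    have h3 : der^[m - 1] N = der^[2 ^ (k + 1) - 1] E := by
      rw [hN, ← Function.iterate_add_apply, pow_succ]
      congr 1
      omega
    rw [h3] at h2
    exact h2

/-- **Kreknin's theorem**: a `ZMod n`-graded Lie ring with trivial component of degree zero is solvable of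
derived length at most `2 ^ (n - 1) - 1`. -/
theorem kreknin {E : ZMod n → AddSubgroup L} (hE : Graded E) (i : ZMod n) : (der^[2 ^ (n - 1) - 1] E) i = ⊥ := by
  rw [eq_bot_iff]
  have hn : 0 < n := NeZero.pos n
  refine (iterate_le_gen (n - 1) (by omega) hE i).trans (gen_le (F := fun _ => ⊥) ?_ ?_ i)
  · intro j hj
    have := ZMod.val_lt j
    omega
  · intro i j x hx y _
    rw [AddSubgroup.mem_bot] at hx ⊢
    rw [hx, zero_lie]

end Families

end Cfsg.Agent.Lib.H72Kreknin
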