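import Cfsg.Agent.Lib.H72Kreknin
import Mathlib

/-!
Nilpotency of Lie rings graded by `ZMod p` with trivial component of degree `0`: the bound of Kreknin and
Kostrikin (helper72).
-/

set_option autoImplicit false

namespace Cfsg.Agent.Lib.H72Kreknin

variable {L : Type*} [LieRing L] {n : ℕ}

/-- iterated brackets with homogeneous elements -/
def lb (x : L) : List (ZMod n × L) → L
  | [] => x
  | a :: l => lb ⁅x, a.2⁆ l

theorem lb_nil (x : L) : lb x ([] : List (ZMod n × L)) = x := rfl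
theorem lb_cons (x : L) (a : ZMod n × L) (l : List (ZMod n × L)) : lb x (a :: l) = lb ⁅x, a.2⁆ l := rfl

theorem lb_append (x : L) (l l' : List (ZMod n × L)) : lb x (l ++ l') = lb (lb x l) l' := by
  induction l generalizing x with
  | nil => rfl
  | cons a l ih => rw [List.cons_append, lb_cons, lb_cons, ih]

theorem lb_add (x y : L) (l : List (ZMod n × L)) : lb (x + y) l = lb x l + lb y l := by
  induction l generalizing x y with
  | nil => rfl
  | cons a l ih => rw [lb_cons, lb_cons, lb_cons, add_lie, ih]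

theorem lb_zero (l : List (ZMod n × L)) : lb (0 : L) l = 0 := by
  induction l with
  | nil => rfl
  | cons a l ih => rw [lb_cons, zero_lie, ih]

theorem lb_sub (x y : L) (l : List (ZMod n × L)) : lb (x - y) l = lb x l - lb y l := by
  have h := lb_add (x - y) y l
  rw [sub_add_cancel] at h
  rw [h, add_sub_cancel_right]

/-- ideal families -/
structure Ideal' (E X : ZMod n → AddSubgroup L) : Prop where
  le : ∀ i, X i ≤ E i
  mul : ∀ i j, ∀ x ∈ X i, ∀ y ∈ E j, ⁅x, y⁆ ∈ X (i + j)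

theorem Ideal'.refl {E : ZMod n → AddSubgroup L} (hE : Graded E) : Ideal' E E := ⟨fun _ => le_rfl, hE.mul⟩

theorem Ideal'.mul' {E X : ZMod n → AddSubgroup L} (h : Ideal' E X) {i j : ZMod n} {x y : L} (hx : x ∈ E i)
    (hy : y ∈ X j) : ⁅x, y⁆ ∈ X (i + j) := by
  rw [← lie_skew, add_comm i j]
  exact neg_mem (h.mul j i y hy x hx)

theorem Ideal'.brF {E X Y : ZMod n → AddSubgroup L} (hE : Graded E) (hX : Ideal' E X) (hY : Ideal' E Y) :
    Ideal' E (H72Kreknin.brF X Y) := by
  have hle : ∀ i, H72Kreknin.brF X Y i ≤ E i := fun i =>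
    brF_le fun a b hab x hx y hy => hab ▸ hE.mul a b x (hX.le a hx) y (hY.le b hy)
  refine ⟨hle, ?_⟩
  intro i j x hx y hy
  induction hx using AddSubgroup.closure_induction with
  | mem z hz =>
    obtain ⟨a, b, hab, x, hx, w, hw, rfl⟩ := hz
    have e1 : ⁅⁅x, w⁆, y⁆ = ⁅x, ⁅w, y⁆⁆ + ⁅⁅x, y⁆, w⁆ := by
      rw [leibniz_lie x w y, ← lie_skew ⁅x, y⁆ w]; abel
    rw [e1]
    apply add_mem
    · exact mem_brF (by rw [← hab, add_assoc]) hx (hY.mul b j w hw y hy)
    · exact mem_brF (by rw [← hab]; ring) (hX.mul a j x hx y hy) hw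
  | zero => rw [zero_lie]; exact zero_mem _
  | add a b _ _ ha hb => rw [add_lie]; exact add_mem ha hb
  | neg a _ ha => rw [neg_lie]; exact neg_mem ha

theorem Ideal'.iterate {E : ZMod n → AddSubgroup L} (hE : Graded E) (s : ℕ) : Ideal' E (der^[s] E) := by
  induction s with
  | zero => exact Ideal'.refl hE
  | succ s ih => rw [Function.iterate_succ_apply']; exact ih.brF hE ih

theorem brF_le_left {E X Y : ZMod n → AddSubgroup L} (hX : Ideal' E X) (hY : ∀ i, Y i ≤ E i) (i : ZMod n) :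
    brF X Y i ≤ X i :=
  brF_le fun a b hab x hx y hy => hab ▸ hX.mul a b x hx y (hY b hy)

/-- iterated brackets of a family with another one -/
def itF (X J : ZMod n → AddSubgroup L) (k : ℕ) : ZMod n → AddSubgroup L := (fun Z => brF Z J)^[k] X

theorem itF_zero (X J : ZMod n → AddSubgroup L) : itF X J 0 = X := rfl

theorem itF_succ (X J : ZMod n → AddSubgroup L) (k : ℕ) : itF X J (k + 1) = brF (itF X J k) J := by
  rw [itF, Function.iterate_succ_apply']; rfl

theorem itF_add (X J : ZMod n → AddSubgroup L) (k l : ℕ) : itF X J (k + l) = itF (itF X J k) J l := by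
  rw [itF, itF, itF, add_comm, Function.iterate_add_apply]

theorem itF_mono {X X' J J' : ZMod n → AddSubgroup L} (h : ∀ i, X i ≤ X' i) (h' : ∀ i, J i ≤ J' i) (k : ℕ) :
    ∀ i, itF X J k i ≤ itF X' J' k i := by
  induction k with
  | zero => exact h
  | succ k ih => intro i; rw [itF_succ, itF_succ]; exact brF_mono ih h' i

theorem Ideal'.itF {E X J : ZMod n → AddSubgroup L} (hE : Graded E) (hX : Ideal' E X) (hJ : Ideal' E J) (k : ℕ) :
    Ideal' E (H72Kreknin.itF X J k) := by
  induction k with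
  | zero => exact hX
  | succ k ih => rw [itF_succ]; exact ih.brF hE hJ

/-- sum of degrees -/
def dg (l : List (ZMod n × L)) : ZMod n := (l.map Prod.fst).sum

theorem dg_cons (a : ZMod n × L) (l : List (ZMod n × L)) : dg (a :: l) = a.1 + dg l := by
  simp [dg]

theorem dg_append (l l' : List (ZMod n × L)) : dg (l ++ l') = dg l + dg l' := by
  simp [dg]

theorem lb_mem {E X : ZMod n → AddSubgroup L} (hX : Ideal' E X) {u : ZMod n} {x : L} (hx : x ∈ X u)
    (l : List (ZMod n × L)) (hl : ∀ a ∈ l, a.2 ∈ E a.1) : lb x l ∈ X (u + dg l) := by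
  induction l generalizing u x with
  | nil => rw [lb_nil, dg, List.map_nil, List.sum_nil, add_zero]; exact hx
  | cons a l ih =>
    rw [lb_cons, dg_cons, ← add_assoc]
    exact ih (hX.mul u a.1 x hx a.2 (hl a (by simp))) (fun b hb => hl b (by simp [hb]))

theorem perm_mem {E X J : ZMod n → AddSubgroup L} (hE : Graded E) (hX : Ideal' E X) (hJ : Ideal' E J)
    {l l' : List (ZMod n × L)} (h : l.Perm l') : ∀ {u : ZMod n} {x : L}, x ∈ X u → (∀ a ∈ l, a.2 ∈ J a.1) →
    lb x l - lb x l' ∈ brF X (brF J J) (u + dg l) := by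
  induction h with
  | nil => intro u x _ _; rw [sub_self]; exact zero_mem _
  | @cons a l l' _ ih =>
    intro u x hx hl
    rw [lb_cons, lb_cons, dg_cons, ← add_assoc]
    exact ih (hX.mul u a.1 x hx a.2 (hJ.le _ (hl a (by simp)))) (fun b hb => hl b (by simp [hb]))
  | swap a b l =>
    intro u x hx hl
    have hb := hl b (by simp)
    have ha := hl a (by simp)
    rw [lb_cons, lb_cons, lb_cons, lb_cons, ← lb_sub, dg_cons, dg_cons]
    have e1 : ⁅⁅x, b.2⁆, a.2⁆ - ⁅⁅x, a.2⁆, b.2⁆ = ⁅x, ⁅b.2, a.2⁆⁆ := by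
      rw [leibniz_lie x b.2 a.2, ← lie_skew ⁅x, a.2⁆ b.2]; abel
    rw [e1]
    have hT : Ideal' E (brF X (brF J J)) := hX.brF hE (hJ.brF hE hJ)
    have h1 : ⁅x, ⁅b.2, a.2⁆⁆ ∈ brF X (brF J J) (u + (b.1 + a.1)) := mem_brF rfl hx (mem_brF rfl hb ha)
    have h2 := lb_mem hT h1 l (fun c hc => hJ.le _ (hl c (by simp [hc])))
    have e2 : u + (b.1 + a.1) + dg l = u + (b.1 + (a.1 + dg l)) := by ring
    rw [e2] at h2
    exact h2
  | @trans l l' l'' h1 _ ih1 ih2 =>
    intro u x hx hl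
    have e : dg l' = dg l := by
      unfold dg
      exact (h1.map Prod.fst).symm.sum_eq
    have h3 := ih2 hx (fun a ha => hl a (h1.mem_iff.2 ha))
    rw [e] at h3
    have h4 := add_mem (ih1 hx hl) h3
    rwa [sub_add_sub_cancel] at h4

section Prime

variable {p : ℕ} [hp : Fact p.Prime]

open scoped Pointwise in
/-- subset sums of `k` nonzero elements of `ZMod p` -/
theorem subset_sums (l : List (ZMod p × L)) (hl : ∀ a ∈ l, a.1 ≠ 0) : ∃ s : Finset (ZMod p),
    min p (l.length + 1) ≤ s.card ∧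
      ∀ t ∈ s, ∃ l₁ l₂ : List (ZMod p × L), l.Perm (l₁ ++ l₂) ∧ dg l₁ = t := by
  induction l with
  | nil =>
    refine ⟨{0}, by simp, ?_⟩
    intro t ht
    rw [Finset.mem_singleton] at ht
    exact ⟨[], [], List.Perm.refl _, by rw [ht]; rfl⟩
  | cons a l ih =>
    obtain ⟨s, hs, hs2⟩ := ih (fun b hb => hl b (by simp [hb]))
    have ha := hl a (by simp)
    have hp1 : 0 < p := hp.out.pos
    have hsne : s.Nonempty := by
      rw [← Finset.card_pos]
      exact lt_of_lt_of_le (by simp [hp1]) hs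
    have h0 : ({0, a.1} : Finset (ZMod p)).Nonempty := ⟨0, by simp⟩
    refine ⟨{0, a.1} + s, ?_, ?_⟩
    · have h1 := ZMod.cauchy_davenport hp.out h0 hsne
      rw [Finset.card_pair ha.symm] at h1
      refine le_trans ?_ h1
      rw [List.length_cons]
      omega
    · intro t ht
      obtain ⟨b, hb, c, hc, rfl⟩ := Finset.mem_add.1 ht
      obtain ⟨l₁, l₂, hp, hd⟩ := hs2 c hc
      rw [Finset.mem_insert, Finset.mem_singleton] at hb
      rcases hb with rfl | rfl
      · refine ⟨l₁, a :: l₂, ?_, by rw [hd, zero_add]⟩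
        exact (hp.cons a).trans List.perm_middle.symm
      · exact ⟨a :: l₁, l₂, hp.cons a, by rw [dg_cons, hd]⟩

theorem lb_vanish {E X J : ZMod p → AddSubgroup L} (hE : Graded E) (hX : Ideal' E X) (hJ : Ideal' E J)
    {u : ZMod p} {x : L} (hx : x ∈ X u) (l : List (ZMod p × L)) (hl : ∀ a ∈ l, a.2 ∈ J a.1)
    (hlen : p ≤ l.length + 1) : lb x l ∈ brF X (brF J J) (u + dg l) := by
  by_cases h0 : ∀ a ∈ l, a.1 ≠ 0
  · obtain ⟨s, hs, hs2⟩ := subset_sums l h0
    have hsu : s = Finset.univ := by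
      apply Finset.eq_univ_of_card
      rw [ZMod.card]
      apply le_antisymm
      · have := Finset.card_le_univ s
        rwa [ZMod.card] at this
      · rwa [min_eq_left hlen] at hs
    obtain ⟨l₁, l₂, hperm, hd⟩ := hs2 (-u) (hsu ▸ Finset.mem_univ _)
    have h1 := perm_mem hE hX hJ hperm hx hl
    have hl1 : ∀ a ∈ l₁, a.2 ∈ E a.1 := fun a ha => hJ.le _ (hl a (hperm.mem_iff.2 (by simp [ha])))
    have h2 := lb_mem hX hx l₁ hl1
    rw [hd, add_neg_cancel] at h2
    have h3 : lb x l₁ = 0 := by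
      have := hX.le 0 h2
      rwa [hE.zero, AddSubgroup.mem_bot] at this
    rw [lb_append, h3, lb_zero, sub_zero] at h1
    exact h1
  · push Not at h0
    obtain ⟨a, ha, ha0⟩ := h0
    obtain ⟨l₁, l₂, rfl⟩ := List.append_of_mem ha
    have h1 : a.2 = 0 := by
      have := hJ.le _ (hl a ha)
      rwa [ha0, hE.zero, AddSubgroup.mem_bot] at this
    have h2 : lb x (l₁ ++ a :: l₂) = 0 := by
      rw [lb_append, lb_cons, h1, lie_zero, lb_zero]
    rw [h2]
    exact zero_mem _

theorem itF_le_of_lb {E X J T : ZMod p → AddSubgroup L} (k : ℕ)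
    (h : ∀ u, ∀ x ∈ X u, ∀ l : List (ZMod p × L), (∀ a ∈ l, a.2 ∈ J a.1) → l.length = k → lb x l ∈ T (u + dg l))
    (i : ZMod p) : itF X J k i ≤ T i := by
  induction k generalizing X i with
  | zero =>
    intro x hx
    rw [itF_zero] at hx
    have := h i x hx [] (by simp) rfl
    rwa [lb_nil, dg, List.map_nil, List.sum_nil, add_zero] at this
  | succ k ih =>
    rw [add_comm k 1, itF_add, itF_succ, itF_zero]
    refine ih (X := brF X J) ?_ i
    intro u x hx l hl hlen
    induction hx using AddSubgroup.closure_induction with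
    | mem z hz =>
      obtain ⟨a, b, hab, x, hx, w, hw, rfl⟩ := hz
      have := h a x hx ((b, w) :: l) (by
        intro c hc
        rcases List.mem_cons.1 hc with rfl | hc
        · exact hw
        · exact hl c hc) (by rw [List.length_cons, hlen])
      rw [lb_cons, dg_cons, ← add_assoc, hab] at this
      exact this
    | zero => rw [lb_zero]; exact zero_mem _
    | add a b _ _ ha hb => rw [lb_add]; exact add_mem ha hb
    | neg a _ ha =>
      have h1 := lb_sub 0 a l
      rw [zero_sub, lb_zero, zero_sub] at h1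
      rw [h1]; exact neg_mem ha

theorem itF_vanish {E X J : ZMod p → AddSubgroup L} (hE : Graded E) (hX : Ideal' E X) (hJ : Ideal' E J)
    (i : ZMod p) : itF X J (p - 1) i ≤ brF X (brF J J) i := by
  have hp1 : 0 < p := hp.out.pos
  exact itF_le_of_lb (E := E) (p - 1) (fun u x hx l hl hlen => lb_vanish hE hX hJ hx l hl (by omega)) i

theorem itF_mul_le {E X J : ZMod p → AddSubgroup L} (hE : Graded E) (hX : Ideal' E X) (hJ : Ideal' E J) (r : ℕ)
    (i : ZMod p) : itF X J ((p - 1) * r) i ≤ itF X (brF J J) r i := by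
  induction r generalizing i with
  | zero => exact le_rfl
  | succ r ih =>
    rw [Nat.mul_succ, itF_add, itF_succ]
    refine (itF_mono ih (fun _ => le_rfl) (p - 1) i).trans ?_
    exact itF_vanish hE (hX.itF hE (hJ.brF hE hJ) r) hJ i

theorem itF_pow_le {E : ZMod p → AddSubgroup L} (hE : Graded E) (s d : ℕ) (hd : d ≤ s) (i : ZMod p) :
    itF (der^[s] E) (der^[s - d] E) ((p - 1) ^ d) i ≤ (der^[s + 1] E) i := by
  induction d generalizing i with
  | zero =>
    rw [pow_zero, Nat.sub_zero, Function.iterate_succ_apply']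
    exact le_rfl
  | succ d ih =>
    rw [pow_succ']
    refine (itF_mul_le hE (Ideal'.iterate hE s) (Ideal'.iterate hE _) _ i).trans ?_
    have e : brF (der^[s - (d + 1)] E) (der^[s - (d + 1)] E) = der^[s - d] E := by
      have : s - d = s - (d + 1) + 1 := by omega
      rw [this, Function.iterate_succ_apply']; rfl
    rw [e]
    exact ih (by omega) i

/-- the Kreknin–Kostrikin bound -/
theorem itF_sum_le {E : ZMod p → AddSubgroup L} (hE : Graded E) (s : ℕ) (i : ZMod p) :
    itF E E (∑ j ∈ Finset.range s, (p - 1) ^ j) i ≤ (der^[s] E) i := by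
  induction s generalizing i with
  | zero => exact le_rfl
  | succ s ih =>
    rw [Finset.sum_range_succ, itF_add]
    refine (itF_mono ih (fun _ => le_rfl) _ i).trans ?_
    have := itF_pow_le hE s s le_rfl i
    rwa [Nat.sub_self] at this

theorem itF_eq_bot {E : ZMod p → AddSubgroup L} (hE : Graded E) (i : ZMod p) :
    itF E E (∑ j ∈ Finset.range (2 ^ (p - 1) - 1), (p - 1) ^ j) i = ⊥ := by
  rw [eq_bot_iff, ← kreknin hE i]
  exact itF_sum_le hE _ i

end Prime

/-- degree `3` -/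
theorem itF_three {E : ZMod 3 → AddSubgroup L} (hE : Graded E) (i : ZMod 3) : itF E E 2 i = ⊥ := by
  rw [eq_bot_iff]
  refine itF_le_of_lb (p := 3) (E := E) (T := fun _ => ⊥) 2 ?_ i
  intro u x hx l hl hlen
  obtain ⟨a, b, rfl⟩ := List.length_eq_two.1 hlen
  have ha := hl a (by simp)
  have hb := hl b (by simp)
  rw [AddSubgroup.mem_bot, lb_cons, lb_cons, lb_nil]
  have h0 : ∀ {u v : ZMod 3} {x y : L}, x ∈ E u → y ∈ E v → u + v = 0 → ⁅x, y⁆ = 0 := by
    intro u v x y hx hy huv
    have := hE.mul u v x hx y hy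
    rwa [huv, hE.zero, AddSubgroup.mem_bot] at this
  have hz : ∀ {u : ZMod 3} {x : L}, x ∈ E u → u = 0 → x = 0 := by
    intro u x hx hu
    rwa [hu, hE.zero, AddSubgroup.mem_bot] at hx
  have cases : ∀ u v w : ZMod 3, u = 0 ∨ v = 0 ∨ w = 0 ∨ u + v = 0 ∨ u + v + w = 0 ∨ (v + w = 0 ∧ u + w = 0) := by
    decide
  rcases cases u a.1 b.1 with h | h | h | h | h | ⟨h, h'⟩
  · rw [hz hx h, zero_lie, zero_lie]
  · rw [hz ha h, lie_zero, zero_lie]
  · rw [hz hb h, lie_zero]
  · rw [h0 hx ha h, zero_lie]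
  · exact h0 (hE.mul _ _ _ hx _ ha) hb h
  · have e1 : ⁅⁅x, a.2⁆, b.2⁆ = ⁅x, ⁅a.2, b.2⁆⁆ + ⁅⁅x, b.2⁆, a.2⁆ := by
      rw [leibniz_lie x a.2 b.2, ← lie_skew ⁅x, b.2⁆ a.2]; abel
    rw [e1, h0 ha hb h, h0 hx hb h', lie_zero, zero_lie, add_zero]

/-- the lower central series of a Lie ring -/
def lcsL (L : Type*) [LieRing L] : ℕ → AddSubgroup L
  | 0 => ⊤
  | k + 1 => AddSubgroup.closure {z | ∃ x ∈ lcsL L k, ∃ y : L, ⁅x, y⁆ = z}

theorem lcsL_le {E : ZMod n → AddSubgroup L} (hE : ⨆ i, E i = ⊤) (k : ℕ) : lcsL L k ≤ ⨆ i, itF E E k i := by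
  induction k with
  | zero => rw [itF_zero, hE]; exact le_top
  | succ k ih =>
    rw [lcsL, AddSubgroup.closure_le]
    rintro z ⟨x, hx, y, rfl⟩
    have hx' := ih hx
    have hy : y ∈ ⨆ i, E i := hE ▸ AddSubgroup.mem_top y
    show ⁅x, y⁆ ∈ ⨆ i, itF E E (k + 1) i
    refine AddSubgroup.iSup_induction _ (C := fun x => ⁅x, y⁆ ∈ ⨆ i, itF E E (k + 1) i) hx' ?_ ?_ ?_
    · intro i x hx
      refine AddSubgroup.iSup_induction _ (C := fun y => ⁅x, y⁆ ∈ ⨆ i, itF E E (k + 1) i) hy ?_ ?_ ?_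
      · intro j y hy
        apply AddSubgroup.mem_iSup_of_mem (i + j)
        rw [itF_succ]
        exact mem_brF rfl hx hy
      · rw [lie_zero]; exact zero_mem _
      · intro a b ha hb
        rw [lie_add]; exact add_mem ha hb
    · rw [zero_lie]; exact zero_mem _
    · intro a b ha hb
      rw [add_lie]; exact add_mem ha hb

theorem lcsL_eq_bot {p : ℕ} [Fact p.Prime] {E : ZMod p → AddSubgroup L} (hE : Graded E) (hE' : ⨆ i, E i = ⊤) :
    lcsL L (∑ j ∈ Finset.range (2 ^ (p - 1) - 1), (p - 1) ^ j) = ⊥ := by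
  rw [eq_bot_iff]
  refine (lcsL_le hE' _).trans (iSup_le fun i => ?_)
  rw [itF_eq_bot hE i]

theorem lcsL_three {E : ZMod 3 → AddSubgroup L} (hE : Graded E) (hE' : ⨆ i, E i = ⊤) : lcsL L 2 = ⊥ := by
  rw [eq_bot_iff]
  refine (lcsL_le hE' _).trans (iSup_le fun i => ?_)
  rw [itF_three hE i]

end Cfsg.Agent.Lib.H72Kreknin
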