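import Cfsg.Agent.Lib.GLAMain

/-!
Groups acting without eigenvalue of order `p - 1` on an abelian `p`-group: basic lemmas, and the statement
`PZ` proved by induction (`Z ≤ Z(J(S))` controls strong fusion).  (helper72)
-/

set_option autoImplicit false
set_option linter.unusedSectionVars false

namespace Cfsg.Agent.Lib.H72Ng

open Cfsg.Agent.Lib.CFSylow Cfsg.Agent.Lib.CFFusion Cfsg.Agent.Lib.CFControl
  Cfsg.Agent.Lib.CFLocal Cfsg.Agent.Lib.CFCore Cfsg.Agent.Lib.CFSection Cfsg.Agent.Lib.CFMin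
  Cfsg.Agent.Lib.CFMain Cfsg.Agent.Lib.CFRed Cfsg.Agent.Lib.CFStmt
  Cfsg.Agent.Lib.GLARed Cfsg.Agent.Lib.ClosedPS Cfsg.Agent.Lib.ThompsonJ Cfsg.Agent.Lib.ZJThm
  Cfsg.Agent.Lib.GLAMain

universe u

/-- `a` generates the multiplicative group modulo `p`. -/
def Gen (p a : ℕ) : Prop := orderOf (a : ZMod p) = p - 1

/-- no element of `N` acts on a nontrivial element of `E` as a power by a generator modulo `p`. -/
def NG {X : Type*} [Group X] (p : ℕ) (N E : Subgroup X) : Prop :=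
  ∀ a, Gen p a → ∀ n ∈ N, ∀ c ∈ E, n * c * n⁻¹ = c ^ a → c = 1

section basic
variable {X : Type*} [Group X] {p : ℕ}

theorem NG.mono {N N' E E' : Subgroup X} (h : NG p N E) (hN : N' ≤ N) (hE : E' ≤ E) : NG p N' E' :=
  fun a ha n hn c hc he => h a ha n (hN hn) c (hE hc) he

/-- eigenvectors lift -/
theorem lift_eig [Finite X] {E E' : Subgroup X} (hE : E ≤ Subgroup.centralizer (E : Set X)) (hE' : E' ≤ E)
    {n : X} (hn : n ∈ nz E) (hn' : n ∈ nz E') {a : ℕ}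
    (h : ∀ c ∈ E, n * c * n⁻¹ = c ^ a → c = 1) {c : X} (hc : c ∈ E)
    (hcE : n * c * n⁻¹ * (c ^ a)⁻¹ ∈ E') : c ∈ E' := by
  have hcomm : ∀ x ∈ E, ∀ y ∈ E, x * y = y * x := fun x hx y hy => by
    have := Subgroup.mem_centralizer_iff.1 (hE hx) y hy
    exact this.symm
  have hmem : ∀ x ∈ E, n * x * n⁻¹ ∈ E := fun x hx => (Subgroup.mem_normalizer_iff.1 hn x).1 hx
  have hmem' : ∀ x ∈ E', n * x * n⁻¹ ∈ E' := fun x hx => (Subgroup.mem_normalizer_iff.1 hn' x).1 hx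
  let ψ : X → X := fun x => n * x * n⁻¹ * (x ^ a)⁻¹
  have hψE : ∀ x ∈ E, ψ x ∈ E := fun x hx => mul_mem (hmem x hx) (inv_mem (pow_mem hx a))
  have hψE' : ∀ x ∈ E', ψ x ∈ E' := fun x hx => mul_mem (hmem' x hx) (inv_mem (pow_mem hx a))
  have hinj : ∀ x ∈ E, ∀ y ∈ E, ψ x = ψ y → x = y := by
    intro x hx y hy hxy
    have h1 : x * y⁻¹ = 1 := by
      apply h _ (mul_mem hx (inv_mem hy))
      have e1 : (x * y⁻¹) ^ a = x ^ a * (y ^ a)⁻¹ := by
        rw [(show Commute x y⁻¹ from hcomm x hx _ (inv_mem hy)).mul_pow, inv_pow]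
      have e2 : n * (x * y⁻¹) * n⁻¹ = (n * x * n⁻¹) * (n * y * n⁻¹)⁻¹ := by group
      have e3 : n * x * n⁻¹ = ψ x * x ^ a := by show _ = n * x * n⁻¹ * (x ^ a)⁻¹ * x ^ a; group
      have e4 : n * y * n⁻¹ = ψ y * y ^ a := by show _ = n * y * n⁻¹ * (y ^ a)⁻¹ * y ^ a; group
      rw [e1, e2, e3, e4, hxy]
      have c1 := hcomm _ (hψE y hy) _ (mul_mem (pow_mem hx a) (inv_mem (pow_mem hy a)))
      calc ψ y * x ^ a * (ψ y * y ^ a)⁻¹ = ψ y * (x ^ a * (y ^ a)⁻¹) * (ψ y)⁻¹ := by group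
        _ = (x ^ a * (y ^ a)⁻¹) * ψ y * (ψ y)⁻¹ := by rw [c1]
        _ = _ := by group
    exact mul_inv_eq_one.1 h1
  -- surjectivity on `E'`
  let f : E' → E' := fun x => ⟨ψ x, hψE' x x.2⟩
  have hf : Function.Injective f := by
    intro x y hxy
    exact Subtype.ext (hinj x (hE' x.2) y (hE' y.2) (congrArg Subtype.val hxy))
  obtain ⟨y, hy⟩ := (Finite.surjective_of_injective hf) ⟨ψ c, hcE⟩
  have := hinj _ (hE' y.2) _ hc (congrArg Subtype.val hy)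
  rw [← this]; exact y.2

theorem NG.lift [Finite X] {N E E' : Subgroup X} (h : NG p N E)
    (hE : E ≤ Subgroup.centralizer (E : Set X)) (hE' : E' ≤ E)
    {n : X} (hnN : n ∈ N) (hn : n ∈ nz E) (hn' : n ∈ nz E') {a : ℕ} (ha : Gen p a) {c : X} (hc : c ∈ E)
    (hcE : n * c * n⁻¹ * (c ^ a)⁻¹ ∈ E') : c ∈ E' :=
  lift_eig hE hE' hn hn' (fun c hc he => h a ha n hnN c hc he) hc hcE

/-- closure under products -/
theorem NG.sup [Finite X] {N D E₁ E₂ : Subgroup X} (hD : D ≤ Subgroup.centralizer (D : Set X))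
    (h1D : E₁ ≤ D) (h2D : E₂ ≤ D) (hN1 : N ≤ nz E₁) (hN2 : N ≤ nz E₂) (h1 : NG p N E₁) (h2 : NG p N E₂) :
    NG p N (E₁ ⊔ E₂) := by
  intro a ha n hn c hc he
  have hcomm : ∀ x ∈ D, ∀ y ∈ D, x * y = y * x := fun x hx y hy =>
    (Subgroup.mem_centralizer_iff.1 (hD hx) y hy).symm
  have h21 : E₁ ≤ nz E₂ := by
    refine le_trans ?_ (centralizer_le_normalizer E₂)
    exact (h1D.trans hD).trans (Subgroup.centralizer_le h2D)
  obtain ⟨x, hx, y, hy, rfl⟩ := (mem_sup_of_le_nz h21).1 hc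
  have hx1 := (Subgroup.mem_normalizer_iff.1 (hN1 hn) x).1 hx
  have hy2 := (Subgroup.mem_normalizer_iff.1 (hN2 hn) y).1 hy
  have e1 : (x * y) ^ a = x ^ a * y ^ a := (show Commute x y from hcomm x (h1D hx) y (h2D hy)).mul_pow a
  have e2 : n * (x * y) * n⁻¹ = (n * x * n⁻¹) * (n * y * n⁻¹) := by group
  rw [e1, e2] at he
  have hkey : n * y * n⁻¹ * (y ^ a)⁻¹ ∈ E₁ ⊓ E₂ := by
    refine Subgroup.mem_inf.2 ⟨?_, E₂.mul_mem hy2 (E₂.inv_mem (E₂.pow_mem hy a))⟩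
    have e3 : n * y * n⁻¹ * (y ^ a)⁻¹ = (n * x * n⁻¹)⁻¹ * x ^ a := by
      calc n * y * n⁻¹ * (y ^ a)⁻¹ = (n * x * n⁻¹)⁻¹ * ((n * x * n⁻¹) * (n * y * n⁻¹)) * (y ^ a)⁻¹ := by group
        _ = (n * x * n⁻¹)⁻¹ * (x ^ a * y ^ a) * (y ^ a)⁻¹ := by rw [he]
        _ = _ := by group
    have e4 : (n * x * n⁻¹)⁻¹ * x ^ a ∈ E₁ := E₁.mul_mem (E₁.inv_mem hx1) (E₁.pow_mem hx a)
    rw [← e3] at e4
    exact e4
  have hnI : n ∈ nz (E₁ ⊓ E₂) := by
    rw [mem_normalizer, cj_inf, mem_normalizer.1 (hN1 hn), mem_normalizer.1 (hN2 hn)]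
  have hyI : y ∈ E₁ ⊓ E₂ :=
    h2.lift ((h2D.trans hD).trans (Subgroup.centralizer_le h2D)) inf_le_right hn (hN2 hn) hnI ha hy hkey
  apply h1 a ha n hn _ (mul_mem hx hyI.1)
  rw [e1, e2, he]

end basic

/-- the statement proved by induction -/
def PZ (p : ℕ) (X : Type u) [Group X] : Prop :=
  ∀ S Z : Subgroup X, SylIn p S ⊤ → Z ≤ zj S → nz (zj S) ≤ nz Z → NG p (nz Z) Z → SF Z ⊤ S

section zjfacts
variable {p : ℕ} [Fact p.Prime] {X : Type u} [Group X] [Finite X]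

theorem zj_le (S : Subgroup X) : zj S ≤ S := (fam_ab (p := 2)).ZJ_le_self S

theorem zj_comm (S : Subgroup X) : zj S ≤ Subgroup.centralizer (zj S : Set X) := (fam_ab (p := 2)).ZJ_comm S

theorem nz_le_nz_zj (S : Subgroup X) : nz S ≤ nz (zj S) := (fam_ab (p := 2)).normalizer_le S

theorem zj_cj (g : X) (S : Subgroup X) : zj (cj g S) = cj g (zj S) :=
  (fam_ab (p := 2)).ZJ_map (MulAut.conj g) S

theorem le_nz_zj (S : Subgroup X) : S ≤ nz (zj S) :=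
  Subgroup.le_normalizer.trans (nz_le_nz_zj S)

theorem center_le_zj (S : Subgroup X) : S ⊓ cz S ≤ zj S := by
  intro x hx
  show x ∈ (sInf (maxIn (fun A => IsMulCommutative A) S) : Subgroup X)
  rw [Subgroup.mem_sInf]
  intro A hA
  exact mem_of_centralizes_ab hA hx.1 (Subgroup.centralizer_le hA.1 hx.2)

theorem zj_sub {H T : Subgroup X} (hT : SylIn p T H) : (zj (T.subgroupOf H)).map H.subtype = zj T := by
  have := ind_sub (p := p) isChar_Wab hT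
  rwa [ind_eq, ind_eq] at this

theorem sub_comm {E D : Subgroup X} (hD : D ≤ Subgroup.centralizer (D : Set X)) (h : E ≤ D) :
    E ≤ Subgroup.centralizer (E : Set X) := (h.trans hD).trans (Subgroup.centralizer_le h)

/-- strong fusion in a subgroup -/
theorem sf_sub {H T Z : Subgroup X} (hTH : T ≤ H) (hZH : Z ≤ H)
    (h : SF (Z.subgroupOf H) ⊤ (T.subgroupOf H)) : SF Z H T := by
  intro B hB x hx hle
  have hB' : B.subgroupOf H ≤ T.subgroupOf H := Subgroup.comap_mono hB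
  have hle' : cj (⟨x, hx⟩ : H) (B.subgroupOf H) ≤ T.subgroupOf H := by
    rintro _ ⟨b, hb, rfl⟩
    rw [SetLike.mem_coe, Subgroup.mem_subgroupOf] at hb
    rw [Subgroup.mem_subgroupOf]
    exact hle (conj_mem_cj hb)
  obtain ⟨y, hy, c, hc, e⟩ := h _ hB' ⟨x, hx⟩ (Subgroup.mem_top _) hle'
  refine ⟨y, ⟨y.2, ?_⟩, c, ?_, congrArg Subtype.val e⟩
  · have h1 := Subgroup.le_normalizer_map (H := Z.subgroupOf H) H.subtype ⟨y, hy.2, rfl⟩
    rwa [Subgroup.map_subgroupOf_eq_of_le hZH] at h1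
  · rw [Subgroup.mem_centralizer_iff] at hc ⊢
    intro b hb
    exact congrArg Subtype.val (hc ⟨b, hTH (hB hb)⟩ hb)

/-- `PZ` for a subgroup -/
theorem sf_of_PZ {H : Subgroup X} (hP : PZ p ↥H) {T Z : Subgroup X} (hT : SylIn p T H)
    (hZ : Z ≤ zj T) (hn : H ⊓ nz (zj T) ≤ nz Z) (hNG : NG p (H ⊓ nz Z) Z) : SF Z H T := by
  have hZT : Z ≤ T := hZ.trans (zj_le T)
  have hZH : Z ≤ H := hZT.trans hT.le
  apply sf_sub hT.le hZH
  have hnz : ∀ y : H, y ∈ nz (Z.subgroupOf H) → (y : X) ∈ nz Z := by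
    intro y hy
    have h1 := Subgroup.le_normalizer_map (H := Z.subgroupOf H) H.subtype ⟨y, hy, rfl⟩
    rwa [Subgroup.map_subgroupOf_eq_of_le hZH] at h1
  refine hP _ _ (sylIn_sub hT) ?_ ?_ ?_
  · intro z hz
    rw [Subgroup.mem_subgroupOf] at hz
    have h1 := hZ hz
    rw [← zj_sub hT] at h1
    obtain ⟨y, hy, hyz⟩ := h1
    have : y = z := Subtype.ext hyz
    rwa [← this]
  · intro y hy
    have h1 : (y : X) ∈ nz (zj T) := by
      have := Subgroup.le_normalizer_map (H := zj (T.subgroupOf H)) H.subtype ⟨y, hy, rfl⟩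
      rwa [zj_sub hT] at this
    have h2 := hn ⟨y.2, h1⟩
    rw [Subgroup.mem_normalizer_iff] at h2 ⊢
    intro z
    rw [Subgroup.mem_subgroupOf, Subgroup.mem_subgroupOf]
    exact h2 z
  · intro a ha n hnn c hc he
    rw [Subgroup.mem_subgroupOf] at hc
    apply Subtype.ext
    exact hNG a ha n ⟨n.2, hnz n hnn⟩ c hc (congrArg Subtype.val he)

end zjfacts

end Cfsg.Agent.Lib.H72Ng
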