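import Cfsg.Agent.Lib.H72NgMat
import Cfsg.Agent.Lib.GLAMod

/-!
Two quadratic elements: a torus element with eigenvalues `a`, `a⁻¹`, `a` a generator modulo `p`. (helper72)
-/

set_option autoImplicit false
set_option linter.unusedSectionVars false

namespace Cfsg.Agent.Lib.H72NgMod

open Cfsg.Agent.Lib.GLAQuad Cfsg.Agent.Lib.H72NgMat Polynomial

variable {p : ℕ} [hp : Fact p.Prime] {W : Type*} [AddCommGroup W] [Module (ZMod p) W]
  {X : Type*} [Group X]

section basic
variable {α β : Module.End (ZMod p) W}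

theorem commute_aeval {θ γ : Module.End (ZMod p) W} (h : θ * γ = γ * θ) (r : (ZMod p)[X]) (w : W) :
    γ (aeval θ r w) = aeval θ r (γ w) := by
  have h1 : Commute (aeval θ r) γ := by
    induction r using Polynomial.induction_on' with
    | add a b ha hb => rw [map_add]; exact ha.add_left hb
    | monomial n c =>
      rw [aeval_monomial]
      exact (Algebra.commute_algebraMap_left c γ).mul_left ((show Commute θ γ from h).pow_left n)
  have := congrArg (fun f : Module.End (ZMod p) W => f w) h1.eq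
  exact this.symm

theorem cc_apply_ker (u : W) (hu : α u = 0) : α (β u) = cc α β u := by
  show α (β u) = α (β u) + β (α u)
  rw [hu, map_zero, add_zero]

theorem aeval_eq_of_mk {f : (ZMod p)[X]} {θ : Module.End (ZMod p) W} {u : W} (hf : aeval θ f u = 0)
    {r r' : (ZMod p)[X]} (h : AdjoinRoot.mk f r = AdjoinRoot.mk f r') : aeval θ r u = aeval θ r' u := by
  rw [AdjoinRoot.mk_eq_mk] at h
  obtain ⟨q, hq⟩ := h
  have h1 : aeval θ (r - r') u = 0 := by
    rw [hq, mul_comm, map_mul, Module.End.mul_apply, hf, map_zero]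
  rw [map_sub, LinearMap.sub_apply] at h1
  exact sub_eq_zero.1 h1

end basic

/-- the compatible pairs -/
def Comp (ρ : X →* Module.End (ZMod p) W) (α β : Module.End (ZMod p) W) (f : (ZMod p)[X])
    [Fact (Irreducible f)] (g : Matrix.SpecialLinearGroup (Fin 2) (AdjoinRoot f)) (m : X) : Prop :=
  ∀ u : W, α u = 0 → aeval (cc α β) f u = 0 → ∀ r s r' s' : (ZMod p)[X],
    AdjoinRoot.mk f r' = g 0 0 * AdjoinRoot.mk f r + g 0 1 * AdjoinRoot.mk f s →
    AdjoinRoot.mk f s' = g 1 0 * AdjoinRoot.mk f r + g 1 1 * AdjoinRoot.mk f s →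
    ρ m (aeval (cc α β) r u + β (aeval (cc α β) s u)) = aeval (cc α β) r' u + β (aeval (cc α β) s' u)

theorem comp_mul {ρ : X →* Module.End (ZMod p) W} {α β : Module.End (ZMod p) W} {f : (ZMod p)[X]}
    [Fact (Irreducible f)] {g g' : Matrix.SpecialLinearGroup (Fin 2) (AdjoinRoot f)} {m m' : X}
    (h : Comp ρ α β f g m) (h' : Comp ρ α β f g' m') : Comp ρ α β f (g * g') (m * m') := by
  intro u hu hfu r s r'' s'' h1 h2
  obtain ⟨r', hr'⟩ := AdjoinRoot.mk_surjective (g' 0 0 * AdjoinRoot.mk f r + g' 0 1 * AdjoinRoot.mk f s)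
  obtain ⟨s', hs'⟩ := AdjoinRoot.mk_surjective (g' 1 0 * AdjoinRoot.mk f r + g' 1 1 * AdjoinRoot.mk f s)
  have e1 := h' u hu hfu r s r' s' hr' hs'
  rw [map_mul, Module.End.mul_apply, e1]
  apply h u hu hfu
  · rw [h1, hr', hs', Matrix.SpecialLinearGroup.coe_mul, Matrix.mul_apply, Matrix.mul_apply,
      Fin.sum_univ_two, Fin.sum_univ_two]
    ring
  · rw [h2, hr', hs', Matrix.SpecialLinearGroup.coe_mul, Matrix.mul_apply, Matrix.mul_apply,
      Fin.sum_univ_two, Fin.sum_univ_two]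
    ring

theorem comp_one {ρ : X →* Module.End (ZMod p) W} {α β : Module.End (ZMod p) W} {f : (ZMod p)[X]}
    [Fact (Irreducible f)] : Comp ρ α β f 1 1 := by
  intro u hu hfu r s r' s' h1 h2
  have h1' : AdjoinRoot.mk f r' = AdjoinRoot.mk f r := by simpa using h1
  have h2' : AdjoinRoot.mk f s' = AdjoinRoot.mk f s := by simpa using h2
  rw [map_one, Module.End.one_apply, aeval_eq_of_mk hfu h1', aeval_eq_of_mk hfu h2']

theorem comp_inv {ρ : X →* Module.End (ZMod p) W} {α β : Module.End (ZMod p) W} {f : (ZMod p)[X]}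
    [Fact (Irreducible f)] {g : Matrix.SpecialLinearGroup (Fin 2) (AdjoinRoot f)} {m : X}
    (h : Comp ρ α β f g m) : Comp ρ α β f g⁻¹ m⁻¹ := by
  intro u hu hfu r s r' s' h1 h2
  have hg : g * g⁻¹ = 1 := mul_inv_cancel g
  have hmat : (g : Matrix (Fin 2) (Fin 2) (AdjoinRoot f)) * ((g⁻¹ : Matrix.SpecialLinearGroup (Fin 2) (AdjoinRoot f)) :
      Matrix (Fin 2) (Fin 2) (AdjoinRoot f)) = 1 := by
    rw [← Matrix.SpecialLinearGroup.coe_mul, hg]; rfl
  have e00 : g 0 0 * g⁻¹ 0 0 + g 0 1 * g⁻¹ 1 0 = 1 := by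
    have := congrFun (congrFun hmat 0) 0
    rwa [Matrix.mul_apply, Fin.sum_univ_two, Matrix.one_apply_eq] at this
  have e01 : g 0 0 * g⁻¹ 0 1 + g 0 1 * g⁻¹ 1 1 = 0 := by
    have := congrFun (congrFun hmat 0) 1
    rwa [Matrix.mul_apply, Fin.sum_univ_two, Matrix.one_apply_ne (by decide)] at this
  have e10 : g 1 0 * g⁻¹ 0 0 + g 1 1 * g⁻¹ 1 0 = 0 := by
    have := congrFun (congrFun hmat 1) 0
    rwa [Matrix.mul_apply, Fin.sum_univ_two, Matrix.one_apply_ne (by decide)] at this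
  have e11 : g 1 0 * g⁻¹ 0 1 + g 1 1 * g⁻¹ 1 1 = 1 := by
    have := congrFun (congrFun hmat 1) 1
    rwa [Matrix.mul_apply, Fin.sum_univ_two, Matrix.one_apply_eq] at this
  have h3 := h u hu hfu r' s' r s (by
    rw [h1, h2]
    linear_combination (-(AdjoinRoot.mk f r)) * e00 - (AdjoinRoot.mk f s) * e01) (by
    rw [h1, h2]
    linear_combination (-(AdjoinRoot.mk f r)) * e10 - (AdjoinRoot.mk f s) * e11)
  rw [← h3, ← Module.End.mul_apply, ← map_mul, inv_mul_cancel, map_one, Module.End.one_apply]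

variable (ρ : X →* Module.End (ZMod p) W) {x y : X}

theorem comp_up (hx : (ρ x - 1) * (ρ x - 1) = 0) (hy : (ρ y - 1) * (ρ y - 1) = 0) (f : (ZMod p)[X])
    [Fact (Irreducible f)] : Comp ρ (ρ x - 1) (ρ y - 1) f (up (AdjoinRoot.root f)) x := by
  intro u hu hfu r s r' s' h1 h2
  set α := ρ x - 1 with hα
  set β := ρ y - 1 with hβ
  have hca : ∀ r : (ZMod p)[X], α (aeval (cc α β) r u) = 0 := by
    intro r
    rw [commute_aeval (cc_comm_left hx), hu, map_zero]
  have e1 : ρ x = 1 + α := by rw [hα]; abel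
  have h1' : AdjoinRoot.mk f r' = AdjoinRoot.mk f (r + Polynomial.X * s) := by
    rw [h1, map_add, map_mul, AdjoinRoot.mk_X]
    show (1 : AdjoinRoot f) * _ + AdjoinRoot.root f * _ = _
    ring
  have h2' : AdjoinRoot.mk f s' = AdjoinRoot.mk f s := by
    rw [h2]
    show (0 : AdjoinRoot f) * _ + 1 * _ = _
    ring
  rw [aeval_eq_of_mk hfu h1', aeval_eq_of_mk hfu h2', e1]
  rw [LinearMap.add_apply, Module.End.one_apply, map_add α, hca r, zero_add, cc_apply_ker _ (hca s), map_add,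
    LinearMap.add_apply, map_mul, aeval_X, Module.End.mul_apply]
  abel

theorem comp_lo (hx : (ρ x - 1) * (ρ x - 1) = 0) (hy : (ρ y - 1) * (ρ y - 1) = 0) (f : (ZMod p)[X])
    [Fact (Irreducible f)] : Comp ρ (ρ x - 1) (ρ y - 1) f lo y := by
  intro u hu hfu r s r' s' h1 h2
  set α := ρ x - 1 with hα
  set β := ρ y - 1 with hβ
  have e1 : ρ y = 1 + β := by rw [hβ]; abel
  have hbb : ∀ w, β (β w) = 0 := fun w => congrArg (fun f : Module.End (ZMod p) W => f w) hy
  have h1' : AdjoinRoot.mk f r' = AdjoinRoot.mk f r := by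
    rw [h1]
    show (1 : AdjoinRoot f) * _ + 0 * _ = _
    ring
  have h2' : AdjoinRoot.mk f s' = AdjoinRoot.mk f (r + s) := by
    rw [h2, map_add]
    show (1 : AdjoinRoot f) * _ + 1 * _ = _
    ring
  rw [aeval_eq_of_mk hfu h1', aeval_eq_of_mk hfu h2', e1]
  rw [LinearMap.add_apply, Module.End.one_apply, map_add β, hbb, add_zero, map_add, LinearMap.add_apply, map_add]
  abel

/-- **the torus element** -/
theorem exists_torus (hp2 : p ≠ 2) (hx : (ρ x - 1) * (ρ x - 1) = 0) (hy : (ρ y - 1) * (ρ y - 1) = 0)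
    (f : (ZMod p)[X]) (hf : Irreducible f) (hfX : ¬ f ∣ Polynomial.X) {n : ℕ} (hn : orderOf (n : ZMod p) = p - 1) :
    ∃ m ∈ Subgroup.closure {x, y}, ∀ u : W, (ρ x - 1) u = 0 → aeval (cc (ρ x - 1) (ρ y - 1)) f u = 0 →
      ρ m u = (n : ZMod p) • u ∧ ρ m ((ρ y - 1) u) = (n : ZMod p)⁻¹ • (ρ y - 1) u := by
  have : Fact (Irreducible f) := ⟨hf⟩
  have hp1 : 0 < p - 1 := by have := hp.out.two_le; omega
  have hn0' : (n : ZMod p) ≠ 0 := by
    intro h
    rw [h] at hn
    have : (0 : ZMod p) ^ (p - 1) = 1 := by rw [← hn]; exact pow_orderOf_eq_one _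
    rw [zero_pow hp1.ne'] at this
    exact zero_ne_one this
  have hroot : AdjoinRoot.root f ≠ 0 := by
    intro h
    apply hfX
    rw [← AdjoinRoot.mk_eq_zero, AdjoinRoot.mk_X, h]
  have hcast : ∀ c : ZMod p, AdjoinRoot.mk f (C c) = algebraMap (ZMod p) (AdjoinRoot f) c := fun c => rfl
  have hn0 : (n : AdjoinRoot f) ≠ 0 := by
    have : (n : AdjoinRoot f) = algebraMap (ZMod p) (AdjoinRoot f) (n : ZMod p) := by rw [map_natCast]
    rw [this]
    exact (_root_.map_ne_zero _).2 hn0'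
  have hdg := dg_mem_root f hp2 hroot hn hn0
  -- the group of compatible pairs
  let K : Subgroup (Matrix.SpecialLinearGroup (Fin 2) (AdjoinRoot f) × X) :=
    { carrier := {gm | Comp ρ (ρ x - 1) (ρ y - 1) f gm.1 gm.2 ∧ gm.2 ∈ Subgroup.closure {x, y}}
      one_mem' := ⟨comp_one, one_mem _⟩
      mul_mem' := fun {a b} ha hb => ⟨comp_mul ha.1 hb.1, mul_mem ha.2 hb.2⟩
      inv_mem' := fun {a} ha => ⟨comp_inv ha.1, inv_mem ha.2⟩ }
  have hle : Subgroup.closure {up (AdjoinRoot.root f), lo} ≤ K.map (MonoidHom.fst _ _) := by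
    rw [Subgroup.closure_le]
    rintro g (rfl | hg)
    · exact ⟨(_, x), ⟨comp_up ρ hx hy f, Subgroup.subset_closure (by simp)⟩, rfl⟩
    · rw [Set.mem_singleton_iff.1 hg]
      exact ⟨(_, y), ⟨comp_lo ρ hx hy f, Subgroup.subset_closure (by simp)⟩, rfl⟩
  obtain ⟨⟨g, m⟩, ⟨hgm, hm⟩, hg⟩ := hle hdg
  simp only [MonoidHom.coe_fst] at hg
  subst hg
  have hinv : ((n : ZMod p)⁻¹ : ZMod p) * n = 1 := inv_mul_cancel₀ hn0'
  refine ⟨m, hm, fun u hu hfu => ⟨?_, ?_⟩⟩
  · have h1 := hgm u hu hfu 1 0 (C (n : ZMod p)) 0 (by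
      rw [map_one, map_zero, hcast, map_natCast]
      show (n : AdjoinRoot f) = n * 1 + 0 * 0
      ring) (by
      rw [map_one, map_zero]
      show (0 : AdjoinRoot f) = 0 * 1 + (n : AdjoinRoot f)⁻¹ * 0
      ring)
    simp only [map_one, Module.End.one_apply, map_zero, LinearMap.zero_apply, add_zero, aeval_C] at h1
    rw [h1]
    rfl
  · have h1 := hgm u hu hfu 0 1 0 (C ((n : ZMod p)⁻¹)) (by
      rw [map_one, map_zero]
      show (0 : AdjoinRoot f) = n * 0 + 0 * 1
      ring) (by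
      rw [map_one, map_zero, hcast, map_inv₀, map_natCast]
      show (n : AdjoinRoot f)⁻¹ = 0 * 0 + (n : AdjoinRoot f)⁻¹ * 1
      ring)
    simp only [map_one, Module.End.one_apply, map_zero, LinearMap.zero_apply, zero_add, aeval_C] at h1
    rw [h1]
    show (ρ y - 1) ((n : ZMod p)⁻¹ • u) = _
    rw [map_smul]

/-- an eigenvector-like vector for an irreducible polynomial -/
theorem exists_factor [Finite W] (θ : Module.End (ZMod p) W) {v : W} (hv : v ≠ 0) :
    ∃ f g : (ZMod p)[X], Irreducible f ∧ aeval θ g v ≠ 0 ∧ aeval θ f (aeval θ g v) = 0 := by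
  classical
  have key : ∀ l : List (ZMod p)[X], (∀ f ∈ l, Irreducible f) → aeval θ l.prod v = 0 →
      ∃ f g : (ZMod p)[X], Irreducible f ∧ aeval θ g v ≠ 0 ∧ aeval θ f (aeval θ g v) = 0 := by
    intro l
    induction l with
    | nil =>
      intro _ h
      simp at h
      exact absurd h hv
    | cons f l ih =>
      intro hl h
      by_cases h0 : aeval θ l.prod v = 0
      · exact ih (fun g hg => hl g (List.mem_cons_of_mem _ hg)) h0
      · refine ⟨f, l.prod, hl f (List.mem_cons_self), h0, ?_⟩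
        rw [List.prod_cons, map_mul] at h
        exact h
  have hfd : Module.Finite (ZMod p) W := Module.Finite.of_finite
  have hq0 : minpoly (ZMod p) θ ≠ 0 := minpoly.ne_zero (Algebra.IsIntegral.isIntegral θ)
  obtain ⟨u, hu⟩ := UniqueFactorizationMonoid.factors_prod hq0
  refine key (UniqueFactorizationMonoid.factors (minpoly (ZMod p) θ)).toList ?_ ?_
  · intro f hf
    exact UniqueFactorizationMonoid.irreducible_of_factor f (Multiset.mem_toList.1 hf)
  · rw [Multiset.prod_toList]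
    have h1 : aeval θ (minpoly (ZMod p) θ) = 0 := minpoly.aeval (ZMod p) θ
    rw [← hu, map_mul] at h1
    have h2 : aeval θ ((u⁻¹ : (ZMod p)[X]ˣ) : (ZMod p)[X]) * aeval θ (u : (ZMod p)[X]) = 1 := by
      rw [← map_mul, Units.inv_mul, map_one]
    have h3 : aeval θ (UniqueFactorizationMonoid.factors (minpoly (ZMod p) θ)).prod = 0 := by
      have h4 : Commute (aeval θ (UniqueFactorizationMonoid.factors (minpoly (ZMod p) θ)).prod)
          (aeval θ (u : (ZMod p)[X])) := by
        show _ * _ = _ * _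
        rw [← map_mul, ← map_mul, mul_comm]
      rw [h4.eq] at h1
      calc aeval θ (UniqueFactorizationMonoid.factors (minpoly (ZMod p) θ)).prod
          = (aeval θ ((u⁻¹ : (ZMod p)[X]ˣ) : (ZMod p)[X]) * aeval θ (u : (ZMod p)[X])) *
            aeval θ (UniqueFactorizationMonoid.factors (minpoly (ZMod p) θ)).prod := by rw [h2, one_mul]
        _ = 0 := by rw [mul_assoc, h1, mul_zero]
    rw [h3]; rfl

end Cfsg.Agent.Lib.H72NgMod
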