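import Cfsg.Agent.Lib.H72NgUni
import Cfsg.Agent.Lib.H72NgInf
import Cfsg.Agent.Lib.H72NgMod

/-!
A chief factor moved by the group, containing the image of an element of `Z`. (helper72)
-/

set_option autoImplicit false
set_option linter.unusedSectionVars false

namespace Cfsg.Agent.Lib.H72NgChief

open Subgroup Cfsg.Agent.Lib.QuadSection
open scoped commutatorElement

universe u

section lin
variable {p : ℕ} [hp : Fact p.Prime] {X : Type*} [Group X] [Finite X] {W : Type*} [AddCommGroup W]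
  [Module (ZMod p) W] [Finite W]

theorem exists_quot (ρ : X →* Module.End (ZMod p) W) {S : Subgroup X} (hS : ¬ p ∣ S.index) {b : W}
    (hb : ∀ s ∈ S, ρ s b = b) (hnb : ∃ g, ρ g b ≠ b)
    (hgen : ∀ U : Submodule (ZMod p) W, (∀ g, ∀ w ∈ U, ρ g w ∈ U) → b ∈ U → U = ⊤) :
    ∃ U₀ : Submodule (ZMod p) W, (∀ g, ∀ w ∈ U₀, ρ g w ∈ U₀) ∧ b ∉ U₀ ∧
      (∀ U' : Submodule (ZMod p) W, (∀ g, ∀ w ∈ U', ρ g w ∈ U') → U₀ ≤ U' → U' = U₀ ∨ U' = ⊤) ∧
      ∃ g w, ρ g w - w ∉ U₀ := by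
  classical
  let F : Submodule (ZMod p) W :=
    { carrier := {w | ∀ g, ρ g w = w}
      zero_mem' := fun g => map_zero _
      add_mem' := fun {v w} hv hw g => by rw [map_add, hv g, hw g]
      smul_mem' := fun c w hw g => by rw [map_smul, hw g] }
  let 𝒰 : Set (Submodule (ZMod p) W) := {U | (∀ g, ∀ w ∈ U, ρ g w ∈ U) ∧ F ≤ U ∧ b ∉ U}
  have hF : F ∈ 𝒰 := by
    refine ⟨?_, le_rfl, ?_⟩
    · intro g w hw h
      rw [hw g, hw h]
    · intro h
      obtain ⟨g, hg⟩ := hnb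
      exact hg (h g)
  obtain ⟨U₀, hmax⟩ := (Set.toFinite 𝒰).exists_maximal ⟨F, hF⟩
  have hU₀ := hmax.prop
  refine ⟨U₀, hU₀.1, hU₀.2.2, ?_, ?_⟩
  · intro U' hU' hle
    by_cases hbU : b ∈ U'
    · exact Or.inr (hgen U' hU' hbU)
    · left
      exact le_antisymm (hmax.le_of_ge ⟨hU', hU₀.2.1.trans hle, hbU⟩ hle) hle
  · by_contra hcon
    push Not at hcon
    apply hU₀.2.2
    have hwd : ∀ a c : X, a⁻¹ * c ∈ S → ρ a b = ρ c b := by
      intro a c hac
      have h1 : c = a * (a⁻¹ * c) := by group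
      rw [h1, map_mul, Module.End.mul_apply, hb _ hac]
    let f : X ⧸ S → W := Quotient.lift (fun g => ρ g b) (fun a c hac => hwd a c (QuotientGroup.leftRel_apply.1 hac))
    have hf : ∀ g : X, f (g : X ⧸ S) = ρ g b := fun g => rfl
    have := Fintype.ofFinite (X ⧸ S)
    have hτ : ∀ h : X, ρ h (∑ q, f q) = ∑ q, f q := by
      intro h
      rw [map_sum]
      refine Fintype.sum_bijective (fun q : X ⧸ S => h • q) (MulAction.bijective h) _ _ ?_
      intro q
      obtain ⟨g, rfl⟩ := QuotientGroup.mk_surjective q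
      show ρ h (f (g : X ⧸ S)) = f ((h * g : X) : X ⧸ S)
      rw [hf, hf, map_mul]; rfl
    have h1 : (∑ q, f q) ∈ U₀ := hU₀.2.1 hτ
    have h2 : (∑ q, (f q - b)) ∈ U₀ := by
      refine sum_mem fun q _ => ?_
      obtain ⟨g, rfl⟩ := QuotientGroup.mk_surjective q
      rw [hf]
      exact hcon g b
    rw [Finset.sum_sub_distrib, Finset.sum_const, Finset.card_univ] at h2
    have h3 : (Fintype.card (X ⧸ S)) • b ∈ U₀ := by
      have := U₀.sub_mem h1 h2
      rwa [sub_sub_cancel] at this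
    have h4 : (Fintype.card (X ⧸ S) : ZMod p) ≠ 0 := by
      rw [Ne, ZMod.natCast_eq_zero_iff, Fintype.card_eq_nat_card]
      exact hS
    rw [← Nat.cast_smul_eq_nsmul (ZMod p)] at h3
    exact (Submodule.smul_mem_iff U₀ h4).1 h3

end lin

variable {p : ℕ} [hp : Fact p.Prime] {X : Type u} [Group X] [Finite X]

theorem exists_module {S D B : Subgroup X} (hD : D.Normal) (hB : B.Normal) (hBS : B ≤ S)
    (hS : ¬ p ∣ S.index) (hDB : D ≤ B) {z : X} (hzB : z ∈ B)
    (hzS : ∀ s ∈ S, ⁅s, z⁆ ∈ D) (hzp : z ^ p ∈ D) (hzX : ∃ g : X, ⁅g, z⁆ ∉ D) :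
    ∃ (V V₀ : Subgroup X) (hV : V.Normal) (_ : V₀.Normal) (W : Type u) (_ : AddCommGroup W) (_ : Module (ZMod p) W)
      (_ : Finite W) (π : V →* Multiplicative W) (ρ : X →* Module.End (ZMod p) W) (hzV : z ∈ V),
      V ≤ B ∧ V₀ ≤ V ∧ Function.Surjective π ∧ (∀ v : V, π v = 1 ↔ (v : X) ∈ V₀) ∧
      (∀ (g : X) (v : V), ρ g (Multiplicative.toAdd (π v)) =
        Multiplicative.toAdd (π ⟨g * v * g⁻¹, hV.conj_mem v v.2 g⟩)) ∧
      (∀ U : Submodule (ZMod p) W, (∀ g : X, ∀ w ∈ U, ρ g w ∈ U) → U = ⊥ ∨ U = ⊤) ∧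
      Multiplicative.toAdd (π ⟨z, hzV⟩) ≠ 0 ∧ (∀ s ∈ S, ρ s (Multiplicative.toAdd (π ⟨z, hzV⟩)) =
        Multiplicative.toAdd (π ⟨z, hzV⟩)) ∧ ∃ g, ρ g ≠ 1 := by
  classical
  let q := QuotientGroup.mk' D
  have hq : ∀ {x : X}, q x = 1 ↔ x ∈ D := fun {x} => QuotientGroup.eq_one_iff x
  -- the group `K`
  let K : Subgroup X := (centralizer ((B.map q : Subgroup (X ⧸ D)) : Set (X ⧸ D))).comap q ⊓ B
  have hBq : (B.map q).Normal := hB.map _ (QuotientGroup.mk'_surjective D)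
  have hKn : K.Normal := by
    have h2 : ((centralizer ((B.map q : Subgroup (X ⧸ D)) : Set (X ⧸ D))).comap q).Normal := inferInstance
    exact inferInstance
  have hKc : ∀ x ∈ K, ∀ y ∈ B, q x * q y = q y * q x := by
    intro x hx y hy
    exact (mem_centralizer_iff.1 hx.1 (q y) ⟨y, hy, rfl⟩).symm
  have hDK : D ≤ K := by
    intro d hd
    refine ⟨?_, hDB hd⟩
    show q d ∈ centralizer _
    rw [hq.2 hd]; exact one_mem _
  let E : Subgroup X :=
    { carrier := {x | x ∈ K ∧ x ^ p ∈ D}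
      one_mem' := ⟨one_mem _, by rw [one_pow]; exact one_mem _⟩
      mul_mem' := by
        rintro x y ⟨hx, hx'⟩ ⟨hy, hy'⟩
        refine ⟨mul_mem hx hy, ?_⟩
        rw [← hq, map_pow, map_mul, (show Commute (q x) (q y) from hKc x hx y hy.2).mul_pow, ← map_pow,
          ← map_pow, hq.2 hx', hq.2 hy', one_mul]
      inv_mem' := by
        rintro x ⟨hx, hx'⟩
        exact ⟨inv_mem hx, by rw [inv_pow]; exact inv_mem hx'⟩ }
  have hEn : E.Normal := by
    constructor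
    rintro x ⟨hx, hx'⟩ g
    refine ⟨hKn.conj_mem x hx g, ?_⟩
    rw [conj_pow]
    exact hD.conj_mem _ hx' g
  have hzE : z ∈ E := by
    refine ⟨⟨?_, hzB⟩, hzp⟩
    show q z ∈ centralizer _
    rw [mem_centralizer_iff]
    rintro _ ⟨y, hy, rfl⟩
    have h1 := hq.2 (hzS y (hBS hy))
    rw [map_commutatorElement, commutatorElement_eq_one_iff_mul_comm] at h1
    exact h1
  have hDE : D ≤ E := fun d hd => ⟨hDK hd, pow_mem hd p⟩
  set V : Subgroup X := normalClosure {z} ⊔ D with hVdef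
  have hV : V.Normal := inferInstance
  have hVE : V ≤ E := sup_le (normalClosure_le_normal (Set.singleton_subset_iff.2 hzE)) hDE
  have hDV : D ≤ V := le_sup_right
  have hzV : z ∈ V := mem_sup_left (subset_normalClosure rfl)
  have hcomm : ∀ x ∈ V, ∀ y ∈ V, ⁅x, y⁆ ∈ D := by
    intro x hx y hy
    rw [← hq, map_commutatorElement, commutatorElement_eq_one_iff_mul_comm]
    exact hKc x (hVE hx).1 y (hVE hy).1.2
  obtain ⟨W₁, _, _, _, π₁, hπ₁, hker₁⟩ := exists_W (p := p) hDV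
    (by rw [normalizer_eq_top]; exact le_top : V ≤ normalizer (D : Set X)) hcomm (fun x hx => (hVE hx).2)
  obtain ⟨ρ₀, hρ₀⟩ := exists_rep (p := p) (X := V) (H := ⊤) (by rw [normalizer_eq_top]) π₁ hπ₁ (by
    intro g x hx
    rw [hker₁] at hx ⊢
    exact hD.conj_mem _ hx _)
  let ρ₁ : X →* Module.End (ZMod p) W₁ := ρ₀.comp (Subgroup.topEquiv (G := X)).symm.toMonoidHom
  have hρ₁ : ∀ (g : X) (v : V), ρ₁ g (Multiplicative.toAdd (π₁ v)) =
        Multiplicative.toAdd (π₁ ⟨g * v * g⁻¹, hV.conj_mem v v.2 g⟩) := fun g v => hρ₀ _ v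
  have hsurj₁ : ∀ w : W₁, ∃ x : V, w = Multiplicative.toAdd (π₁ x) := by
    intro w
    obtain ⟨x, hx⟩ := hπ₁ (Multiplicative.ofAdd w)
    exact ⟨x, by rw [hx]; rfl⟩
  have hact : ∀ (g : X) (v : V), ρ₁ g (Multiplicative.toAdd (π₁ v)) = Multiplicative.toAdd (π₁ v) ↔ ⁅g, (v : X)⁆ ∈ D := by
    intro g v
    rw [hρ₁]
    have h1 : (⟨g * v * g⁻¹, hV.conj_mem v v.2 g⟩ : V) = ⟨g * v * g⁻¹ * (v : X)⁻¹, mul_mem (hV.conj_mem v v.2 g) (inv_mem v.2)⟩ * v := by
      apply Subtype.ext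
      show g * v * g⁻¹ = g * v * g⁻¹ * (v : X)⁻¹ * v
      group
    constructor
    · intro h
      have h2 : π₁ ⟨g * v * g⁻¹, hV.conj_mem v v.2 g⟩ = π₁ v := congrArg Multiplicative.ofAdd h
      rw [h1, map_mul] at h2
      have h3 := mul_eq_right.1 h2
      rw [hker₁] at h3
      exact h3
    · intro h
      have h3 : π₁ ⟨g * v * g⁻¹ * (v : X)⁻¹, mul_mem (hV.conj_mem v v.2 g) (inv_mem v.2)⟩ = 1 := by
        rw [hker₁]; exact h
      rw [h1, map_mul, h3, one_mul]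
  obtain ⟨U₀, hinv, hbU, hirr, g₁, w₁, hgw⟩ := exists_quot ρ₁ hS (b := Multiplicative.toAdd (π₁ ⟨z, hzV⟩))
    (fun s hs => (hact s ⟨z, hzV⟩).2 (hzS s hs))
    (by obtain ⟨g, hg⟩ := hzX; exact ⟨g, fun h => hg ((hact g ⟨z, hzV⟩).1 h)⟩)
    (by
      intro U hU hbU
      -- the preimage contains `z` and is normal
      let N : Subgroup X :=
        { carrier := {x | ∃ hx : x ∈ V, Multiplicative.toAdd (π₁ ⟨x, hx⟩) ∈ U}
          one_mem' := ⟨one_mem _, by
            have : (⟨1, one_mem V⟩ : V) = 1 := rfl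
            rw [this, map_one]; exact U.zero_mem⟩
          mul_mem' := by
            rintro x y ⟨hx, hx'⟩ ⟨hy, hy'⟩
            refine ⟨mul_mem hx hy, ?_⟩
            have : (⟨x * y, mul_mem hx hy⟩ : V) = ⟨x, hx⟩ * ⟨y, hy⟩ := rfl
            rw [this, map_mul]
            exact U.add_mem hx' hy'
          inv_mem' := by
            rintro x ⟨hx, hx'⟩
            refine ⟨inv_mem hx, ?_⟩
            have : (⟨x⁻¹, inv_mem hx⟩ : V) = (⟨x, hx⟩ : V)⁻¹ := rfl
            rw [this, map_inv]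
            exact U.neg_mem hx' }
      have hNn : N.Normal := by
        constructor
        rintro x ⟨hx, hx'⟩ g
        have h1 := hU g _ hx'
        rw [hρ₁] at h1
        exact ⟨_, h1⟩
      have hVN : V ≤ N := by
        refine sup_le (normalClosure_le_normal (Set.singleton_subset_iff.2 ⟨hzV, hbU⟩)) ?_
        intro d hd
        refine ⟨hDV hd, ?_⟩
        rw [(hker₁ ⟨d, hDV hd⟩).2 hd]; exact U.zero_mem
      rw [eq_top_iff]
      intro w _
      obtain ⟨x, rfl⟩ := hsurj₁ w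
      obtain ⟨_, h⟩ := hVN x.2
      exact h)
  -- the quotient module
  let ρ : X →* Module.End (ZMod p) (W₁ ⧸ U₀) :=
    { toFun := fun g => U₀.mapQ U₀ (ρ₁ g) (fun w hw => hinv g w hw)
      map_one' := by
        apply LinearMap.ext
        intro w
        obtain ⟨w, rfl⟩ := Submodule.mkQ_surjective U₀ w
        show U₀.mapQ U₀ (ρ₁ 1) _ (Submodule.Quotient.mk w) = _
        rw [Submodule.mapQ_apply, map_one]; rfl
      map_mul' := fun g h => by
        apply LinearMap.ext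
        intro w
        obtain ⟨w, rfl⟩ := Submodule.mkQ_surjective U₀ w
        show U₀.mapQ U₀ (ρ₁ (g * h)) _ (Submodule.Quotient.mk w) = _
        rw [Submodule.mapQ_apply, map_mul]; rfl }
  have hρmk : ∀ g w, ρ g (Submodule.Quotient.mk w) = Submodule.Quotient.mk (ρ₁ g w) := fun g w => rfl
  let π : V →* Multiplicative (W₁ ⧸ U₀) :=
    { toFun := fun v => Multiplicative.ofAdd (Submodule.Quotient.mk (Multiplicative.toAdd (π₁ v)))
      map_one' := by rw [map_one]; rfl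
      map_mul' := fun v w => by rw [map_mul]; rfl }
  have hπmk : ∀ v, Multiplicative.toAdd (π v) = Submodule.Quotient.mk (Multiplicative.toAdd (π₁ v)) := fun v => rfl
  have hρπ : ∀ (g : X) (v : V), ρ g (Multiplicative.toAdd (π v)) =
        Multiplicative.toAdd (π ⟨g * v * g⁻¹, hV.conj_mem v v.2 g⟩) := by
    intro g v
    rw [hπmk, hρmk, hρ₁, hπmk]
  have hπ1 : ∀ v, π v = 1 ↔ Multiplicative.toAdd (π₁ v) ∈ U₀ := by
    intro v
    rw [← Submodule.Quotient.mk_eq_zero U₀]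
    exact Iff.rfl
  let V₀ : Subgroup X := (π.ker).map V.subtype
  have hV₀ : ∀ v : V, π v = 1 ↔ (v : X) ∈ V₀ := by
    intro v
    constructor
    · intro h; exact ⟨v, h, rfl⟩
    · rintro ⟨v', hv', e⟩
      have : v' = v := Subtype.ext e
      rw [← this]; exact hv'
  have hV₀V : V₀ ≤ V := by rintro _ ⟨v, _, rfl⟩; exact v.2
  have hV₀n : V₀.Normal := by
    constructor
    intro x hx g
    have hxV := hV₀V hx
    have h1 := (hV₀ ⟨x, hxV⟩).2 hx
    have h2 := hρπ g ⟨x, hxV⟩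
    rw [h1] at h2
    have h3 : π ⟨g * x * g⁻¹, hV.conj_mem x hxV g⟩ = 1 := by
      have : Multiplicative.toAdd (π ⟨g * x * g⁻¹, hV.conj_mem x hxV g⟩) = 0 := by
        rw [← h2]; exact map_zero _
      exact congrArg Multiplicative.ofAdd this
    exact (hV₀ _).1 h3
  have hfinW : Finite (W₁ ⧸ U₀) := Finite.of_surjective _ (Submodule.mkQ_surjective U₀)
  refine ⟨V, V₀, hV, hV₀n, W₁ ⧸ U₀, inferInstance, inferInstance, hfinW, π, ρ, hzV,
    hVE.trans (fun x hx => hx.1.2), hV₀V, ?_, hV₀, hρπ, ?_, ?_, ?_, ?_⟩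
  · intro w
    obtain ⟨w', hw'⟩ := Submodule.mkQ_surjective U₀ (Multiplicative.toAdd w)
    obtain ⟨x, rfl⟩ := hsurj₁ w'
    exact ⟨x, congrArg Multiplicative.ofAdd hw'⟩
  · intro U hU
    rcases hirr (U.comap U₀.mkQ) (fun g w hw => hU g _ hw) (by
      intro w hw
      rw [Submodule.mem_comap, Submodule.mkQ_apply, (Submodule.Quotient.mk_eq_zero U₀).2 hw]
      exact U.zero_mem) with h | h
    · left
      rw [eq_bot_iff]
      intro w hw
      obtain ⟨w, rfl⟩ := Submodule.mkQ_surjective U₀ w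
      have : w ∈ U.comap U₀.mkQ := hw
      rw [h] at this
      exact (Submodule.mem_bot _).2 ((Submodule.Quotient.mk_eq_zero U₀).2 this)
    · right
      rw [eq_top_iff]
      intro w _
      obtain ⟨w, rfl⟩ := Submodule.mkQ_surjective U₀ w
      have : w ∈ U.comap U₀.mkQ := by rw [h]; trivial
      exact this
  · intro h
    exact hbU ((Submodule.Quotient.mk_eq_zero U₀).1 h)
  · intro s hs
    rw [hπmk, hρmk, (hact s ⟨z, hzV⟩).2 (hzS s hs)]
  · refine ⟨g₁, fun h => hgw ?_⟩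
    have h1 := hρmk g₁ w₁
    rw [h, Module.End.one_apply] at h1
    exact (Submodule.Quotient.eq U₀).1 h1.symm

end Cfsg.Agent.Lib.H72NgChief
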