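import Cfsg.Agent.Lib.H72NgChief

/-!
The constrained case: `Z` is normal. (helper72)
-/

set_option autoImplicit false
set_option linter.unusedSectionVars false

namespace Cfsg.Agent.Lib.H72Ng

open Cfsg.Agent.Lib.CFSylow Cfsg.Agent.Lib.CFFusion Cfsg.Agent.Lib.CFControl
  Cfsg.Agent.Lib.CFLocal Cfsg.Agent.Lib.CFCore Cfsg.Agent.Lib.CFSection Cfsg.Agent.Lib.CFMin
  Cfsg.Agent.Lib.CFMain Cfsg.Agent.Lib.CFRed Cfsg.Agent.Lib.CFStmt
  Cfsg.Agent.Lib.GLARed Cfsg.Agent.Lib.ClosedPS Cfsg.Agent.Lib.ThompsonJ Cfsg.Agent.Lib.ZJThm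
  Cfsg.Agent.Lib.GLAMain Cfsg.Agent.Lib.GLAQuad
open scoped commutatorElement

universe u
variable {p : ℕ} [hp : Fact p.Prime] {X : Type u} [Group X] [Finite X] {S Z : Subgroup X}

/-- an element of `Z ∩ B` central modulo the normal core. -/
theorem Hyp.exists_z (H : Hyp p S Z) {B : Subgroup X} (hBn : B.Normal) (hBS : B ≤ S)
    (hnn : ¬ Z ⊓ B ≤ (Z ⊓ B).normalCore) :
    ∃ z ∈ Z ⊓ B, z ∉ (Z ⊓ B).normalCore ∧ (∀ s ∈ S, ⁅s, z⁆ ∈ (Z ⊓ B).normalCore) ∧
      z ^ p ∈ (Z ⊓ B).normalCore := by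
  set D := (Z ⊓ B).normalCore with hD
  let q := QuotientGroup.mk' D
  have hq : ∀ {x : X}, q x = 1 ↔ x ∈ D := fun {x} => QuotientGroup.eq_one_iff x
  have hSZ : S ≤ nz Z := (le_nz_zj S).trans H.hn
  have hSZB : S ≤ nz (Z ⊓ B) := by
    intro s hs
    rw [mem_normalizer, cj_inf, mem_normalizer.1 (hSZ hs), show cj s B = B from cj_normal]
  have hne : (Z ⊓ B).map q ≠ ⊥ := by
    intro h
    rw [Subgroup.map_eq_bot_iff, QuotientGroup.ker_mk'] at h
    exact hnn h
  have hpS : IsPGroup p (S.map q) := H.hS.isPGroup.map q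
  have hle : (Z ⊓ B).map q ≤ S.map q := Subgroup.map_mono (inf_le_right.trans hBS)
  have hd : p ∣ Nat.card ((Z ⊓ B).map q) := by
    obtain ⟨n, hn⟩ := IsPGroup.iff_card.mp (hpS.to_le hle)
    rw [hn]
    apply dvd_pow_self
    rintro rfl
    rw [pow_zero] at hn
    exact hne (Subgroup.card_eq_one.mp hn)
  obtain ⟨_, ⟨z, hz, rfl⟩, hz1, hz2⟩ := H32PGroup.exists_fixed_of_normalizes hpS
    ((Subgroup.map_mono hSZB).trans (Subgroup.le_normalizer_map q)) hd
  obtain ⟨k, hk⟩ := IsPGroup.iff_orderOf.1 hpS ⟨q z, hle ⟨z, hz, rfl⟩⟩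
  rw [Subgroup.orderOf_mk] at hk
  have hk0 : k ≠ 0 := by
    rintro rfl
    rw [pow_zero, orderOf_eq_one_iff] at hk
    exact hz1 hk
  obtain ⟨m, rfl⟩ := Nat.exists_eq_succ_of_ne_zero hk0
  refine ⟨z ^ p ^ m, pow_mem hz _, ?_, ?_, ?_⟩
  · rw [← hq, map_pow]
    intro h
    have h1 := orderOf_dvd_of_pow_eq_one h
    rw [hk] at h1
    have h2 := Nat.le_of_dvd (pow_pos hp.out.pos m) h1
    exact absurd h2 (not_le.2 (Nat.pow_lt_pow_right hp.out.one_lt (Nat.lt_succ_self m)))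
  · intro s hs
    rw [← hq, map_commutatorElement, commutatorElement_eq_one_iff_mul_comm, map_pow]
    exact (show Commute (q s) (q z) from hz2 (q s) ⟨s, hs, rfl⟩).pow_right _
  · rw [← hq, ← pow_mul, ← pow_succ, map_pow, ← hk, pow_orderOf_eq_one]

theorem quad_conj {W : Type*} [AddCommGroup W] [Module (ZMod p) W] {ρ : X →* Module.End (ZMod p) W}
    {a b : X} (h : (ρ a - 1) * (ρ b - 1) = 0) (g : X) :
    (ρ (g * a * g⁻¹) - 1) * (ρ (g * b * g⁻¹) - 1) = 0 := by
  have e : ∀ c, ρ (g * c * g⁻¹) - 1 = ρ g * (ρ c - 1) * ρ g⁻¹ := by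
    intro c
    have h1 : ρ g * ρ g⁻¹ = 1 := by rw [← map_mul, mul_inv_cancel, map_one]
    calc ρ (g * c * g⁻¹) - 1 = ρ g * ρ c * ρ g⁻¹ - ρ g * ρ g⁻¹ := by rw [map_mul, map_mul, h1]
      _ = _ := by noncomm_ring
  have h2 : ρ g⁻¹ * ρ g = 1 := by rw [← map_mul, inv_mul_cancel, map_one]
  rw [e, e]
  calc ρ g * (ρ a - 1) * ρ g⁻¹ * (ρ g * (ρ b - 1) * ρ g⁻¹)
      = ρ g * (ρ a - 1) * (ρ g⁻¹ * ρ g) * (ρ b - 1) * ρ g⁻¹ := by noncomm_ring
    _ = ρ g * ((ρ a - 1) * (ρ b - 1)) * ρ g⁻¹ := by rw [h2]; noncomm_ring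
    _ = 0 := by rw [h]; simp

/-- the stabilizer of a vector -/
def stv {W : Type*} [AddCommGroup W] [Module (ZMod p) W] (ρ : X →* Module.End (ZMod p) W) (w : W) : Subgroup X where
  carrier := {g | ρ g w = w}
  one_mem' := by show ρ 1 w = w; rw [map_one]; rfl
  mul_mem' := fun {a b} ha hb => by
    show ρ (a * b) w = w
    rw [map_mul, Module.End.mul_apply, show ρ b w = w from hb, show ρ a w = w from ha]
  inv_mem' := fun {a} ha => by
    show ρ a⁻¹ w = w
    conv_lhs => rw [← show ρ a w = w from ha]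
    rw [← Module.End.mul_apply, ← map_mul, inv_mul_cancel, map_one]; rfl

theorem exists_gen (p : ℕ) [hp : Fact p.Prime] : ∃ n : ℕ, Gen p n := by
  obtain ⟨g, hg⟩ := IsCyclic.exists_generator (α := (ZMod p)ˣ)
  refine ⟨(g : ZMod p).val, ?_⟩
  unfold Gen
  rw [ZMod.natCast_zmod_val, orderOf_units, orderOf_eq_card_of_forall_mem_zpowers hg,
    Nat.card_eq_fintype_card, ZMod.card_units]

theorem Gen.ne_zero {n : ℕ} (hn : Gen p n) : (n : ZMod p) ≠ 0 := by
  intro h
  unfold Gen at hn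
  rw [h] at hn
  have hp1 : 0 < p - 1 := by have := hp.out.two_le; omega
  have : (0 : ZMod p) ^ (p - 1) = 1 := by rw [← hn]; exact pow_orderOf_eq_one _
  rw [zero_pow hp1.ne'] at this
  exact zero_ne_one this

theorem Gen.inv {n : ℕ} (hn : Gen p n) : ∃ n' : ℕ, Gen p n' ∧ (n' : ZMod p) = (n : ZMod p)⁻¹ := by
  refine ⟨((n : ZMod p)⁻¹).val, ?_, ZMod.natCast_zmod_val _⟩
  have h0 := hn.ne_zero
  unfold Gen at *
  rw [ZMod.natCast_zmod_val]
  have : ((n : ZMod p)⁻¹ : ZMod p) = ((Units.mk0 _ h0)⁻¹ : (ZMod p)ˣ) := rfl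
  rw [this, orderOf_units, orderOf_inv, ← orderOf_units]
  exact hn

theorem Hyp.normal (H : Hyp p S Z) (hp2 : p ≠ 2) : Z.Normal := by
  classical
  by_contra hnn
  have hQn : (Cfsg.pCore p X).Normal := pCore_normal p X
  have hQp : IsPGroup p (Cfsg.pCore p X) := pCore_isPGroup
  have hF : Fam p (fun A : Subgroup X => IsMulCommutative A) := fam_ab
  have hS' : RelSylow.IsSyl p S ⊤ := H.hS
  obtain ⟨B, A, hBn, hBp, hB1, hA, hBAA, hnot⟩ := H72NgInf.exists_BA' hF hS' hp2 H.hZ H.hn H.hC hnn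
  set Q := Cfsg.pCore p X with hQ
  have hSp := H.hS.isPGroup
  have hAS : A ≤ S := hA.1
  have hAb : Ab p A := ab_of_max H.hS hA
  have hQS : Q ≤ S := pCore_le H.hS
  have hBQ : B ≤ Q := le_pCore hBn hBp
  have hBS : B ≤ S := hBQ.trans hQS
  have hAQ : ¬ A ≤ Q := by
    intro h
    exact hnot (h.trans (PStab.le_Dcore_of_isPGroup hQn (hQp.map _)))
  have hSZ : S ≤ nz Z := (le_nz_zj S).trans H.hn
  have hZS : Z ≤ S := H.hZ.trans (zj_le S)
  have hZc : Z ≤ cz Z := sub_comm (zj_comm S) H.hZ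
  -- the core
  have hcore : ¬ Z ⊓ B ≤ (Z ⊓ B).normalCore := by
    intro h
    have e : Z ⊓ B = (Z ⊓ B).normalCore := le_antisymm h (Subgroup.normalCore_le _)
    have hn' : (Z ⊓ B).Normal := by rw [e]; infer_instance
    have h1 : B = Z ⊓ B := by
      rw [← hB1]
      exact le_antisymm (Subgroup.normalClosure_le_normal le_rfl) Subgroup.subset_normalClosure
        |>.trans (by rw [hB1])
    apply hnot
    refine le_trans ?_ (PStab.le_Dcore _)
    have h2 := Subgroup.le_centralizer_iff_isMulCommutative.2 hA.2.1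
    refine h2.trans (Subgroup.centralizer_le ?_)
    rw [h1]
    exact inf_le_left.trans (H.hZ.trans (ZJ_le hA))
  obtain ⟨z, hz, hzD, hzS, hzp⟩ := H.exists_z hBn hBS hcore
  have hDle : (Z ⊓ B).normalCore ≤ Z ⊓ B := Subgroup.normalCore_le _
  have hDn : (Z ⊓ B).normalCore.Normal := inferInstance
  set D := (Z ⊓ B).normalCore with hD
  have hzX : ∃ g : X, ⁅g, z⁆ ∉ D := by
    by_contra hcon
    push Not at hcon
    apply hzD
    have h1 : (D ⊔ Subgroup.zpowers z).Normal := by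
      have key : ∀ g : X, cj g (D ⊔ Subgroup.zpowers z) ≤ D ⊔ Subgroup.zpowers z := by
        intro g
        rw [cj_sup, show cj g D = D from cj_normal]
        refine sup_le le_sup_left ?_
        rw [cj_le_iff, Subgroup.zpowers_le, mem_cj, inv_inv]
        have e : g * z * g⁻¹ = ⁅g, z⁆ * z := by rw [commutatorElement_def]; group
        rw [e]
        exact mul_mem (Subgroup.mem_sup_left (hcon g)) (Subgroup.mem_sup_right (Subgroup.mem_zpowers z))
      constructor
      intro x hx g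
      exact key g (conj_mem_cj hx)
    have h2 : D ⊔ Subgroup.zpowers z ≤ Z ⊓ B := sup_le hDle (by rwa [Subgroup.zpowers_le])
    exact (Subgroup.normal_le_normalCore.2 h2) (Subgroup.mem_sup_right (Subgroup.mem_zpowers z))
  have hSi : ¬ p ∣ S.index := by
    have := H.hS.not_dvd
    rwa [Subgroup.relIndex_top_right] at this
  obtain ⟨V, V₀, hV, hV₀, W, _, _, _, π, ρ, hzV, hVB, hV₀V, hπ, hker, hρ, hirr, hb0, hbS, hnt⟩ :=
    H72NgChief.exists_module hDn hBn hBS hSi (hDle.trans inf_le_right) hz.2 hzS hzp hzX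
  set b := Multiplicative.toAdd (π ⟨z, hzV⟩) with hb
  have hWnt : Nontrivial W := ⟨b, 0, hb0⟩
  have hρQ := GLAStab.trivial_of_normal ρ hirr hQn hQp
  -- no fixed vectors
  have hfix : ∀ w : W, w ≠ 0 → ∃ g, ρ g w ≠ w := by
    intro w hw
    by_contra hcon
    push Not at hcon
    let F : Submodule (ZMod p) W :=
      { carrier := {w | ∀ g, ρ g w = w}
        zero_mem' := fun g => map_zero _
        add_mem' := fun {v w} hv hw g => by rw [map_add, hv g, hw g]
        smul_mem' := fun c w hw g => by rw [map_smul, hw g] }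
    rcases hirr F (by intro g w hw h; rw [hw g, hw h]) with h | h
    · have h1 : w ∈ F := hcon
      rw [h, Submodule.mem_bot] at h1
      exact hw h1
    · obtain ⟨g, hg⟩ := hnt
      apply hg
      apply LinearMap.ext
      intro v
      have : v ∈ F := by rw [h]; trivial
      exact this g
  -- the main consequence of uniqueness
  have hstab : ∀ (k : X) (w : W), w ≠ 0 → (∀ a ∈ cj k A, ρ a w = w) → stv ρ w ≤ nz (cj k Z) := by
    intro k w hw hfixw
    refine H.MX (hAb.cj k) ?_ (cj_mono hAS) ?_ ?_ ?_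
    · intro h
      apply hAQ
      rwa [cj_le_iff, show cj k⁻¹ (Cfsg.pCore p X) = Cfsg.pCore p X from cj_normal] at h
    · intro h
      obtain ⟨g, hg⟩ := hfix w hw
      have : g ∈ stv ρ w := by rw [h]; exact Subgroup.mem_top g
      exact hg this
    · intro x hx
      show ρ x w = w
      rw [hρQ x hx]; rfl
    · exact hfixw
  -- another conjugate
  obtain ⟨g, hg⟩ : ∃ g, g ∉ nz Z := by
    by_contra hcon
    push Not at hcon
    apply hnn
    rw [← nz_eq_top_iff, eq_top_iff]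
    intro g _; exact hcon g
  have hnzZt : nz Z ≠ ⊤ := fun h => hg (by rw [h]; exact Subgroup.mem_top g)
  have hSgZ : cj g S ≤ nz (cj g Z) := by rw [← cj_nz]; exact cj_mono hSZ
  have hsylg : SylIn p (cj g S) ⊤ := by
    have := H.hS.conj g
    rwa [cj_top] at this
  have hQcj : ∀ k, Cfsg.pCore p X ≤ nz (cj k Z) := by
    intro k
    refine (H.Qle k).trans ?_
    rw [← cj_nz]; exact cj_mono hSZ
  have hgAQ : ¬ cj g A ≤ Cfsg.pCore p X := by
    intro h
    apply hAQ
    rwa [cj_le_iff, show cj g⁻¹ (Cfsg.pCore p X) = Cfsg.pCore p X from cj_normal] at h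
  obtain ⟨x, hxA, hx⟩ : ∃ x ∈ A, x ∉ nz (cj g Z) := by
    by_contra hcon
    push Not at hcon
    have h1 : nz (cj g Z) ≤ nz (cj 1 Z) := by
      refine H.MX hAb hAQ (g := 1) (by rw [cj_one]; exact hAS) ?_ (hQcj g) (fun a ha => hcon a ha)
      rw [← cj_nz]
      intro h
      apply hnzZt
      apply cj_injective g
      rw [h, cj_top]
    rw [cj_one] at h1
    have hs1 : SylIn p (cj g S) (nz Z) := hsylg.of_le (hSgZ.trans h1) le_top
    have hs2 : SylIn p S (nz Z) := H.hS.of_le hSZ le_top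
    obtain ⟨n, hn, hne⟩ := hs1.exists_conj_eq hs2
    rw [cj_cj] at hne
    have h2 := H.cj_Z_of (g := n * g) (h := 1) (by rw [hne, cj_one])
    rw [cj_one, ← mem_normalizer] at h2
    apply hg
    have h3 := mul_mem (inv_mem hn) h2
    simpa using h3
  obtain ⟨y, hyA, hy⟩ : ∃ y ∈ cj g A, y ∉ nz Z := by
    by_contra hcon
    push Not at hcon
    have h1 : nz Z ≤ nz (cj g Z) := by
      refine H.MX (hAb.cj g) hgAQ (cj_mono hAS) hnzZt ?_ (fun a ha => hcon a ha)
      have := hQcj 1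
      rwa [cj_one] at this
    have hs1 : SylIn p S (nz (cj g Z)) := H.hS.of_le (hSZ.trans h1) le_top
    have hs2 : SylIn p (cj g S) (nz (cj g Z)) := hsylg.of_le hSgZ le_top
    obtain ⟨n, hn, hne⟩ := hs1.exists_conj_eq hs2
    have h2 := H.cj_Z_of hne
    have h3 : cj n⁻¹ (cj g Z) = Z := by rw [← h2, cj_inv_cj]
    rw [mem_normalizer.1 (inv_mem hn)] at h3
    exact hg (mem_normalizer.2 h3)
  -- quadratic action
  have hq1 : ∀ a ∈ A, ∀ c ∈ A, (ρ a - 1) * (ρ c - 1) = 0 := fun a ha c hc =>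
    GLAStab.quad_rep (hV := hV) hVB hπ hρ hBAA ha hc
  have hq2 : ∀ a ∈ cj g A, ∀ c ∈ cj g A, (ρ a - 1) * (ρ c - 1) = 0 := by
    rintro _ ⟨a, ha, rfl⟩ _ ⟨c, hc, rfl⟩
    exact quad_conj (hq1 a ha c hc) g
  have hxx := hq1 x hxA x hxA
  have hyy := hq2 y hyA y hyA
  set α := ρ x - 1 with hα
  set β := ρ y - 1 with hβ
  have hαA : ∀ w, ∀ a ∈ A, ρ a (α w) = α w := by
    intro w a ha
    have := congrArg (fun f : Module.End (ZMod p) W => f w) (hq1 a ha x hxA)
    have h2 : ρ a (α w) - α w = 0 := this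
    exact sub_eq_zero.1 h2
  have hβA : ∀ w, ∀ a ∈ cj g A, ρ a (β w) = β w := by
    intro w a ha
    have := congrArg (fun f : Module.End (ZMod p) W => f w) (hq2 a ha y hyA)
    have h2 : ρ a (β w) - β w = 0 := this
    exact sub_eq_zero.1 h2
  have hαα : ∀ w, α (α w) = 0 := fun w => congrArg (fun f : Module.End (ZMod p) W => f w) hxx
  have K1 : ∀ w, α (β w) = 0 → β w = 0 := by
    intro w hw
    by_contra h0
    apply hx
    apply hstab g (β w) h0 (hβA w)
    show ρ x (β w) = β w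
    exact sub_eq_zero.1 hw
  have K2 : ∀ w, β (α w) = 0 → α w = 0 := by
    intro w hw
    by_contra h0
    apply hy
    have := hstab 1 (α w) h0 (by rw [cj_one]; exact hαA w)
    rw [cj_one] at this
    apply this
    show ρ y (α w) = α w
    exact sub_eq_zero.1 hw
  have hαb : α b = 0 := by
    show ρ x b - b = 0
    rw [hbS x (hAS hxA), sub_self]
  have hβb : β b ≠ 0 := by
    intro h
    apply hy
    have := hstab 1 b hb0 (by rw [cj_one]; exact fun a ha => hbS a (hAS ha))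
    rw [cj_one] at this
    apply this
    show ρ y b = b
    exact sub_eq_zero.1 h
  set θ := cc α β with hθ
  have hθα : ∀ w, θ (α w) = α (θ w) := fun w =>
    congrArg (fun f : Module.End (ZMod p) W => f w) (cc_comm_left (β := β) hxx)
  have hθb : θ b = α (β b) := by
    show α (β b) + β (α b) = _
    rw [hαb, map_zero, add_zero]
  have hθb0 : θ b ≠ 0 := by
    rw [hθb]
    intro h
    exact hβb (K1 b h)
  obtain ⟨f, r, hf, hu0, hfu⟩ := H72NgMod.exists_factor θ hθb0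
  -- `u = r(θ) θ b`
  have hαr : ∀ (r : Polynomial (ZMod p)) w, α (Polynomial.aeval θ r w) = Polynomial.aeval θ r (α w) :=
    fun r w => H72NgMod.commute_aeval (cc_comm_left hxx) r w
  have hθr : ∀ (r : Polynomial (ZMod p)) w, θ (Polynomial.aeval θ r w) = Polynomial.aeval θ r (θ w) :=
    fun r w => H72NgMod.commute_aeval rfl r w
  set v := Polynomial.aeval θ r b with hv
  have hαv : α v = 0 := by rw [hv, hαr, hαb, map_zero]
  have hu : Polynomial.aeval θ r (θ b) = α (β v) := by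
    rw [← hθr, ← hv]
    show α (β v) + β (α v) = _
    rw [hαv, map_zero, add_zero]
  set u := Polynomial.aeval θ r (θ b) with hudef
  have hαu : α u = 0 := by rw [hu]; exact hαα _
  have hfX : ¬ f ∣ Polynomial.X := by
    intro h
    have h1 : Associated f Polynomial.X := hf.associated_of_dvd Polynomial.irreducible_X h
    obtain ⟨c, hc⟩ := h1
    have h2 : θ u = 0 := by
      have h3 : Polynomial.aeval θ (Polynomial.X : Polynomial (ZMod p)) u = 0 := by
        rw [← hc, mul_comm, map_mul, Module.End.mul_apply, hfu, map_zero]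
      rwa [Polynomial.aeval_X] at h3
    have h3 : α (β u) = 0 := by
      have : θ u = α (β u) + β (α u) := rfl
      rw [this, hαu, map_zero, add_zero] at h2
      exact h2
    have h4 : β u = 0 := K1 u h3
    rw [hu] at h4
    exact hu0 (by rw [hu]; exact K2 _ h4)
  obtain ⟨n, hn⟩ := exists_gen p
  obtain ⟨t, ht, htu⟩ := H72NgMod.exists_torus ρ hp2 hxx hyy f hf hfX hn
  have htu1 : ρ t u = (n : ZMod p) • u := (htu u hαu hfu).1
  -- `t` normalises `Z`
  have htZ : t ∈ nz Z := by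
    have hY : GLAStab.stab ρ (Submodule.span (ZMod p) {u}) ≤ nz (cj 1 Z) := by
      refine H.MX hAb hAQ (by rw [cj_one]; exact hAS) ?_ ?_ ?_
      · intro htop
        rcases hirr (Submodule.span (ZMod p) {u}) (by
          intro k w hw
          have : k ∈ GLAStab.stab ρ (Submodule.span (ZMod p) {u}) := by rw [htop]; exact Subgroup.mem_top k
          exact (GLAStab.mem_stab.1 this w).1 hw) with h | h
        · rw [Submodule.span_singleton_eq_bot] at h
          exact hu0 h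
        · have h1 : v ∈ Submodule.span (ZMod p) {u} := by rw [h]; trivial
          have h2 : β v ∈ Submodule.span (ZMod p) {u} := by rw [h]; trivial
          obtain ⟨c, hc⟩ := Submodule.mem_span_singleton.1 h2
          apply hu0
          rw [hu, ← hc, map_smul, hαu, smul_zero]
      · intro k hk
        apply GLAStab.mem_stab_of_trivial
        intro w _
        rw [hρQ k hk]; rfl
      · intro a ha
        apply GLAStab.mem_stab_of_trivial
        intro w hw
        obtain ⟨c, rfl⟩ := Submodule.mem_span_singleton.1 hw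
        rw [map_smul, hu, hαA _ a ha]
    rw [cj_one] at hY
    apply hY
    rw [GLAStab.mem_stab]
    intro w
    have hn0 := hn.ne_zero
    constructor
    · intro hw
      obtain ⟨c, rfl⟩ := Submodule.mem_span_singleton.1 hw
      rw [map_smul, htu1]
      exact Submodule.smul_mem _ _ (Submodule.smul_mem _ _ (Submodule.mem_span_singleton_self u))
    · intro hw
      obtain ⟨c, hc⟩ := Submodule.mem_span_singleton.1 hw
      have h1 : ρ t ((c * (n : ZMod p)⁻¹) • u) = ρ t w := by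
        rw [map_smul, htu1, smul_smul, mul_assoc, inv_mul_cancel₀ hn0, mul_one, hc]
      have h2 : w = (c * (n : ZMod p)⁻¹) • u := by
        have h3 := congrArg (fun z => ρ t⁻¹ z) h1
        simp only [← Module.End.mul_apply, ← map_mul, inv_mul_cancel, map_one, Module.End.one_apply] at h3
        exact h3.symm
      rw [h2]
      exact Submodule.smul_mem _ _ (Submodule.mem_span_singleton_self u)
  -- the image of `Z ∩ V`
  let Zb : Set W := {w | ∃ (c : X) (hc : c ∈ V), c ∈ Z ∧ w = Multiplicative.toAdd (π ⟨c, hc⟩)}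
  have hbZ : b ∈ Zb := ⟨z, hzV, hz.1, rfl⟩
  have hZbt : ∀ w ∈ Zb, ρ t w ∈ Zb := by
    rintro _ ⟨c, hcV, hcZ, rfl⟩
    refine ⟨t * c * t⁻¹, hV.conj_mem c hcV t, (Subgroup.mem_normalizer_iff.1 htZ c).1 hcZ, ?_⟩
    rw [hρ]
  have hZbs : ∀ v ∈ Zb, ∀ w ∈ Zb, v - w ∈ Zb := by
    rintro _ ⟨c, hcV, hcZ, rfl⟩ _ ⟨d, hdV, hdZ, rfl⟩
    refine ⟨c * d⁻¹, mul_mem hcV (inv_mem hdV), mul_mem hcZ (inv_mem hdZ), ?_⟩
    have e : (⟨c * d⁻¹, mul_mem hcV (inv_mem hdV)⟩ : V) = ⟨c, hcV⟩ * (⟨d, hdV⟩ : V)⁻¹ := rfl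
    rw [e, map_mul, map_inv, sub_eq_add_neg]; rfl
  have hZbn : ∀ (k : ℕ), ∀ w ∈ Zb, (k : ZMod p) • w ∈ Zb := by
    rintro k _ ⟨c, hcV, hcZ, rfl⟩
    refine ⟨c ^ k, pow_mem hcV k, pow_mem hcZ k, ?_⟩
    have e : (⟨c ^ k, pow_mem hcV k⟩ : V) = (⟨c, hcV⟩ : V) ^ k := rfl
    rw [e, map_pow, Nat.cast_smul_eq_nsmul]; rfl
  have heig : ∀ k : ℕ, Gen p k → ∀ w ∈ Zb, ρ t w = (k : ZMod p) • w → w = 0 := by
    rintro k hk _ ⟨c, hcV, hcZ, rfl⟩ he
    have hE : Z ⊓ V ≤ cz (Z ⊓ V) := (inf_le_left.trans hZc).trans (Subgroup.centralizer_le inf_le_left)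
    have hcc : c ∈ Z ⊓ V₀ := by
      refine (H.hNG.mono le_rfl (inf_le_left : Z ⊓ V ≤ Z)).lift hE (inf_le_inf_left Z hV₀V) htZ ?_ ?_ hk
        ⟨hcZ, hcV⟩ ?_
      · rw [mem_normalizer, cj_inf, mem_normalizer.1 htZ, show cj t V = V from cj_normal]
      · rw [mem_normalizer, cj_inf, mem_normalizer.1 htZ, show cj t V₀ = V₀ from cj_normal]
      · refine Subgroup.mem_inf.2 ⟨mul_mem ((Subgroup.mem_normalizer_iff.1 htZ c).1 hcZ) (inv_mem (pow_mem hcZ k)), ?_⟩
        have h1 : π (⟨t * c * t⁻¹, hV.conj_mem c hcV t⟩ * ((⟨c, hcV⟩ : V) ^ k)⁻¹) = 1 := by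
          rw [map_mul, map_inv, map_pow]
          rw [hρ, Nat.cast_smul_eq_nsmul] at he
          have h2 : π ⟨t * c * t⁻¹, hV.conj_mem c hcV t⟩ = π ⟨c, hcV⟩ ^ k := congrArg Multiplicative.ofAdd he
          rw [h2, mul_inv_cancel]
        rw [hker] at h1
        exact h1
    have h3 := (hker ⟨c, hcV⟩).2 hcc.2
    rw [h3]; rfl
  obtain ⟨n', hn', hnn'⟩ := hn.inv
  -- the operator
  let Dt : W → W := fun w => ρ t (ρ t w - (n : ZMod p) • w) - (n' : ZMod p) • (ρ t w - (n : ZMod p) • w)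
  have hstep : ∀ k : ℕ, ∀ w ∈ Zb, ρ t w - (k : ZMod p) • w ∈ Zb := fun k w hw =>
    hZbs _ (hZbt w hw) _ (hZbn k w hw)
  have hDtZ : ∀ w ∈ Zb, Dt w ∈ Zb := fun w hw => hstep n' _ (hstep n w hw)
  have hinj1 : ∀ k : ℕ, Gen p k → ∀ v ∈ Zb, ∀ w ∈ Zb, ρ t v - (k : ZMod p) • v = ρ t w - (k : ZMod p) • w → v = w := by
    intro k hk v hv w hw he
    have h1 := heig k hk (v - w) (hZbs v hv w hw) (by
      rw [map_sub, smul_sub]
      have h2 : ρ t v - ρ t w = (ρ t v - (k : ZMod p) • v) - (ρ t w - (k : ZMod p) • w) +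
          ((k : ZMod p) • v - (k : ZMod p) • w) := by abel
      rw [h2, he, sub_self, zero_add])
    exact sub_eq_zero.1 h1
  have hinj : ∀ v ∈ Zb, ∀ w ∈ Zb, Dt v = Dt w → v = w := by
    intro v hv w hw he
    exact hinj1 n hn v hv w hw (hinj1 n' hn' _ (hstep n v hv) _ (hstep n w hw) he)
  let e : Zb → Zb := fun w => ⟨Dt w, hDtZ w w.2⟩
  have he : Function.Bijective e := by
    have h1 : Function.Injective e := fun v w hvw => Subtype.ext (hinj v v.2 w w.2 (congrArg Subtype.val hvw))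
    exact ⟨h1, Finite.surjective_of_injective h1⟩
  let E := Equiv.ofBijective e he
  have hord : 0 < orderOf E := orderOf_pos E
  have hEb : ∀ m : ℕ, (((E ^ m) ⟨b, hbZ⟩ : Zb) : W) = Dt^[m] b := by
    intro m
    induction m with
    | zero => rfl
    | succ m ih =>
      rw [pow_succ', Equiv.Perm.mul_apply, Function.iterate_succ_apply', ← ih]
      rfl
  have hDtN : Dt^[orderOf E] b = b := by
    rw [← hEb, pow_orderOf_eq_one]; rfl
  have hθt : ∀ w, θ (ρ t w) = ρ t (θ w) := by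
    intro w
    have h1 := (good_of_mem ρ hxx hyy ht).comm_cc hxx hyy
    exact congrArg (fun f : Module.End (ZMod p) W => f w) h1
  have hcomm : ∀ (T : Module.End (ZMod p) W), (∀ w, T (ρ t w) = ρ t (T w)) → ∀ m w, T (Dt^[m] w) = Dt^[m] (T w) := by
    intro T hT m
    induction m with
    | zero => intro w; rfl
    | succ m ih =>
      intro w
      rw [Function.iterate_succ_apply', Function.iterate_succ_apply', ← ih]
      show T (ρ t (ρ t (Dt^[m] w) - (n : ZMod p) • Dt^[m] w) - (n' : ZMod p) • (ρ t (Dt^[m] w) - (n : ZMod p) • Dt^[m] w)) =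
        ρ t (ρ t (T (Dt^[m] w)) - (n : ZMod p) • T (Dt^[m] w)) - (n' : ZMod p) • (ρ t (T (Dt^[m] w)) - (n : ZMod p) • T (Dt^[m] w))
      simp only [map_sub, map_smul, hT]
  have hr : ∀ w, (Polynomial.aeval θ r) (ρ t w) = ρ t (Polynomial.aeval θ r w) := by
    intro w
    exact (H72NgMod.commute_aeval (θ := θ) (γ := ρ t) (by
      apply LinearMap.ext; intro w; exact hθt w) r w).symm
  have h1 : Dt^[orderOf E] u = u := by
    rw [hudef, ← hcomm _ hr, ← hcomm _ hθt, hDtN]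
  have h2 : Dt u = 0 := by
    show ρ t (ρ t u - (n : ZMod p) • u) - (n' : ZMod p) • (ρ t u - (n : ZMod p) • u) = 0
    rw [htu1, sub_self, map_zero, smul_zero, sub_zero]
  have hDt0 : Dt 0 = 0 := by
    show ρ t (ρ t 0 - (n : ZMod p) • (0 : W)) - (n' : ZMod p) • (ρ t 0 - (n : ZMod p) • (0 : W)) = 0
    rw [map_zero, smul_zero, sub_zero, map_zero, smul_zero, sub_zero]
  obtain ⟨m, hm⟩ := Nat.exists_eq_succ_of_ne_zero hord.ne'
  rw [hm, Function.iterate_succ_apply, h2] at h1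
  have h3 : Dt^[m] 0 = 0 := by
    clear hm h1
    induction m with
    | zero => rfl
    | succ m ih => rw [Function.iterate_succ_apply, hDt0, ih]
  rw [h3] at h1
  exact hu0 h1.symm

end Cfsg.Agent.Lib.H72Ng
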