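import Cfsg.Agent.Lib.H72NgMain
import Cfsg.Agent.Lib.GLAMain
import Cfsg.Agent.Lib.QdCtrl

/-!
A property of finite groups implying that the group `F(p)` is involved. (helper72)
-/

set_option autoImplicit false
set_option linter.unusedSectionVars false

namespace Cfsg.Agent.Lib.H72NgF

open Cfsg.Agent.Lib.CFSylow Cfsg.Agent.Lib.CFFusion Cfsg.Agent.Lib.CFControl
  Cfsg.Agent.Lib.CFLocal Cfsg.Agent.Lib.CFCore Cfsg.Agent.Lib.CFSection Cfsg.Agent.Lib.CFMin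
  Cfsg.Agent.Lib.CFMain Cfsg.Agent.Lib.CFRed Cfsg.Agent.Lib.CFStmt
  Cfsg.Agent.Lib.GLARed Cfsg.Agent.Lib.GLAStab

universe u
variable {p : ℕ} [hp : Fact p.Prime]

abbrev SL3 (p : ℕ) [Fact p.Prime] := Matrix.SpecialLinearGroup (Fin 3) (ZMod p)

/-- the unitriangular matrices -/
def Mm {K : Type*} [Field K] (i α β : K) : Matrix (Fin 3) (Fin 3) K := !![1, i, α; 0, 1, β; 0, 0, 1]

/-- the diagonal matrices -/
def Tm {K : Type*} [Field K] (a : K) : Matrix (Fin 3) (Fin 3) K := !![a, 0, 0; 0, a⁻¹, 0; 0, 0, 1]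

theorem det_Mm {K : Type*} [Field K] (i α β : K) : (Mm i α β).det = 1 := by
  rw [Mm, Matrix.det_fin_three]; simp

theorem det_Tm {K : Type*} [Field K] (a : K) (ha : a ≠ 0) : (Tm a).det = 1 := by
  rw [Tm, Matrix.det_fin_three]; simp [ha]

theorem Mm_mul {K : Type*} [Field K] (i α β i' α' β' : K) :
    Mm i α β * Mm i' α' β' = Mm (i + i') (α + α' + i * β') (β + β') := by
  ext j k
  fin_cases j <;> fin_cases k <;> simp [Mm, Matrix.mul_apply, Fin.sum_univ_three] <;> ring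

theorem Mm_zero {K : Type*} [Field K] : Mm (0 : K) 0 0 = 1 := by
  ext j k
  fin_cases j <;> fin_cases k <;> simp [Mm]

theorem Tm_mul {K : Type*} [Field K] (a b : K) : Tm a * Tm b = Tm (a * b) := by
  ext j k
  fin_cases j <;> fin_cases k <;> simp [Tm, Matrix.mul_apply, Fin.sum_univ_three, mul_comm]

theorem Tm_one {K : Type*} [Field K] : Tm (1 : K) = 1 := by
  ext j k
  fin_cases j <;> fin_cases k <;> simp [Tm]

theorem Tm_Mm {K : Type*} [Field K] {a : K} (ha : a ≠ 0) (i α β : K) :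
    Tm a * Mm i α β = Mm (a * a * i) (a * α) (a⁻¹ * β) * Tm a := by
  ext j k
  fin_cases j <;> fin_cases k <;> simp [Tm, Mm, Matrix.mul_apply, Fin.sum_univ_three] <;> field_simp

theorem Mm_Tm {K : Type*} [Field K] (i α β a : K) :
    Mm i α β * Tm a = !![a, i * a⁻¹, α; 0, a⁻¹, β; 0, 0, 1] := by
  ext j k
  fin_cases j <;> fin_cases k <;> simp [Tm, Mm, Matrix.mul_apply, Fin.sum_univ_three]

/-- the unitriangular matrices -/
def M (i α β : ZMod p) : SL3 p := ⟨Mm i α β, det_Mm i α β⟩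

/-- the diagonal matrices -/
def T (a : (ZMod p)ˣ) : SL3 p := ⟨Tm (a : ZMod p), det_Tm _ a.ne_zero⟩

theorem M_mul (i α β i' α' β' : ZMod p) : M i α β * M i' α' β' = M (i + i') (α + α' + i * β') (β + β') :=
  Subtype.ext (Mm_mul _ _ _ _ _ _)

theorem M_zero : (M 0 0 0 : SL3 p) = 1 := Subtype.ext Mm_zero

theorem T_mul (a b : (ZMod p)ˣ) : T (a * b) = T a * T b := Subtype.ext (by
  show Tm _ = Tm _ * Tm _
  rw [Tm_mul, Units.val_mul])

theorem T_one : (T 1 : SL3 p) = 1 := Subtype.ext (by show Tm _ = 1; rw [Units.val_one, Tm_one])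

/-- as a homomorphism -/
def Th : (ZMod p)ˣ →* SL3 p := ⟨⟨T, T_one⟩, T_mul⟩

theorem T_zpow (a : (ZMod p)ˣ) (k : ℤ) : T a ^ k = T (a ^ k) := ((Th (p := p)).map_zpow a k).symm
theorem T_pow (a : (ZMod p)ˣ) (k : ℕ) : T a ^ k = T (a ^ k) := ((Th (p := p)).map_pow a k).symm
theorem T_inv (a : (ZMod p)ˣ) : (T a)⁻¹ = T a⁻¹ := ((Th (p := p)).map_inv a).symm

theorem T_M (a : (ZMod p)ˣ) (i α β : ZMod p) :
    T a * M i α β * (T a)⁻¹ = M ((a : ZMod p) * (a : ZMod p) * i) ((a : ZMod p) * α) ((a : ZMod p)⁻¹ * β) := by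
  rw [mul_inv_eq_iff_eq_mul]
  exact Subtype.ext (Tm_Mm a.ne_zero i α β)

theorem M_T (a : (ZMod p)ˣ) (i α β : ZMod p) :
    ((M i α β * T a : SL3 p) : Matrix (Fin 3) (Fin 3) (ZMod p)) =
      !![(a : ZMod p), i * (a : ZMod p)⁻¹, α; 0, (a : ZMod p)⁻¹, β; 0, 0, 1] := Mm_Tm i α β a

theorem M_inv (i α β : ZMod p) : (M i α β)⁻¹ = M (-i) (-α + i * β) (-β) := by
  rw [inv_eq_iff_mul_eq_one, M_mul, ← M_zero]; congr 1 <;> ring

theorem M_inj {i α β i' α' β' : ZMod p} (h : M i α β = M i' α' β') : i = i' ∧ α = α' ∧ β = β' := by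
  have h1 := fun j k => congrArg (fun A : SL3 p => (A : Matrix (Fin 3) (Fin 3) (ZMod p)) j k) h
  exact ⟨h1 0 1, h1 0 2, h1 1 2⟩

/-- the group `F(p)` is generated by the matrices above, indeed is covered by their products -/
theorem exists_MT {m : SL3 p} (hm : m ∈ Cfsg.fOver (ZMod p)) : ∃ i α β a, m = M i α β * T a := by
  -- the set is a subgroup
  let F : Subgroup (SL3 p) :=
    { carrier := {m | ∃ i α β a, m = M i α β * T a}
      one_mem' := ⟨0, 0, 0, 1, by rw [M_zero, T_one, mul_one]⟩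
      mul_mem' := by
        rintro _ _ ⟨i, α, β, a, rfl⟩ ⟨i', α', β', a', rfl⟩
        exact ⟨_, _, _, a * a', by
          rw [show M i α β * T a * (M i' α' β' * T a') = M i α β * (T a * M i' α' β' * (T a)⁻¹) * (T a * T a') by
            group, T_M, M_mul, ← T_mul]⟩
      inv_mem' := by
        rintro _ ⟨i, α, β, a, rfl⟩
        have h2 := T_M a⁻¹ (-i) (-α + i * β) (-β)
        exact ⟨_, _, _, a⁻¹, by
          rw [mul_inv_rev, M_inv, T_inv, ← h2]; group⟩ }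
  have hle : Cfsg.fOver (ZMod p) ≤ F := by
    unfold Cfsg.fOver
    rw [Subgroup.closure_le]
    rintro A ⟨h10, h20, h21, h22⟩
    have hdet := A.det_coe
    rw [Matrix.det_fin_three, h10, h20, h21, h22] at hdet
    have h2 : A.1 0 0 * A.1 1 1 = 1 := by
      have : A.1 0 0 * A.1 1 1 * 1 - A.1 0 0 * A.1 1 2 * 0 - A.1 0 1 * 0 * 1 + A.1 0 1 * A.1 1 2 * 0 + A.1 0 2 * 0 * 0 - A.1 0 2 * A.1 1 1 * 0 = 1 := hdet
      simpa using this
    let a : (ZMod p)ˣ := ⟨A.1 0 0, A.1 1 1, h2, by rw [mul_comm]; exact h2⟩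
    have ha1 : (a : ZMod p)⁻¹ = A.1 1 1 := by
      rw [← Units.val_inv_eq_inv_val]; rfl
    refine ⟨A.1 0 1 * A.1 0 0, A.1 0 2, A.1 1 2, a, ?_⟩
    apply Subtype.ext
    rw [M_T, ha1]
    have e : A.1 0 1 * A.1 0 0 * A.1 1 1 = A.1 0 1 := by rw [mul_assoc, h2, mul_one]
    rw [e]
    ext j k
    fin_cases j <;> fin_cases k
    · rfl
    · rfl
    · rfl
    · exact h10
    · rfl
    · rfl
    · exact h20
    · exact h21
    · exact h22
  exact hle hm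

theorem M_mem (i α β : ZMod p) : M i α β ∈ Cfsg.fOver (ZMod p) := Subgroup.subset_closure ⟨rfl, rfl, rfl, rfl⟩

theorem T_mem (a : (ZMod p)ˣ) : T a ∈ Cfsg.fOver (ZMod p) := Subgroup.subset_closure ⟨rfl, rfl, rfl, rfl⟩

/-- the property -/
def RF (p : ℕ) [Fact p.Prime] (X : Type u) [Group X] : Prop :=
  ∃ (Γ : Subgroup (X × SL3 p)) (g : X) (a : (ZMod p)ˣ), (∀ b, b ∈ Subgroup.zpowers a) ∧
    IsPGroup p (Γ.map (MonoidHom.fst X (SL3 p))) ∧ (∀ m, ((1 : X), m) ∈ Γ → m = 1) ∧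
    (∀ i α β, ∃ x, (x, M i α β) ∈ Γ) ∧ (∀ q ∈ Γ, (g, T a) * q * (g, T a)⁻¹ ∈ Γ)

theorem RF_mono : Mono (RF.{u} p) := by
  rintro X Y _ _ _ _ f hf ⟨Γ, g, a, ha, hp, h1, hM, hg⟩
  refine ⟨Γ.map (f.prodMap (MonoidHom.id _)), f g, a, ha, ?_, ?_, ?_, ?_⟩
  · have : (Γ.map (f.prodMap (MonoidHom.id _))).map (MonoidHom.fst Y (SL3 p)) =
        (Γ.map (MonoidHom.fst X (SL3 p))).map f := by
      rw [Subgroup.map_map, Subgroup.map_map]; rfl
    rw [this]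
    exact hp.map f
  · rintro m ⟨⟨x, m'⟩, hx, he⟩
    have he1 : f x = 1 := congrArg Prod.fst he
    have he2 : m' = m := congrArg Prod.snd he
    have hx1 : x = 1 := hf (by rw [he1, map_one])
    subst hx1; subst he2
    exact h1 _ hx
  · intro i α β
    obtain ⟨x, hx⟩ := hM i α β
    exact ⟨f x, ⟨(x, M i α β), hx, rfl⟩⟩
  · rintro _ ⟨q, hq, rfl⟩
    refine ⟨(g, T a) * q * (g, T a)⁻¹, hg q hq, ?_⟩
    rw [map_mul, map_mul, map_inv]; rfl

theorem RF_quot (X Y : Type u) [Group X] [Group Y] [Finite X] [Finite Y] (f : X →* Y)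
    (hf : Function.Surjective f) (h : RF p Y) : RF p X := by
  obtain ⟨Γ, g, a, ha, hp, h1, hM, hg⟩ := h
  set Q := Γ.map (MonoidHom.fst Y (SL3 p)) with hQ
  set L := Q.comap f with hL
  obtain ⟨P, hP⟩ := exists_sylIn p L
  have hLQ : L.map f = Q := Subgroup.map_comap_eq_self_of_surjective hf Q
  -- `P` covers `Q`
  have hPQ : P.map f = Q := by
    have h2 := SylIn.map_surj (f.subgroupMap_surjective L) (sylIn_sub hP)
    have h3 : IsPGroup p (⊤ : Subgroup ↥(L.map f)) := by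
      have h4 : IsPGroup p ↥(L.map f) := by rw [hLQ]; exact hp
      exact h4.of_equiv Subgroup.topEquiv.symm
    have h5 := h2.eq_of_le le_top h3 le_rfl
    apply le_antisymm
    · rw [← hLQ]; exact Subgroup.map_mono hP.le
    · intro y hy
      rw [← hLQ] at hy
      have h6 : (⟨y, hy⟩ : ↥(L.map f)) ∈ (P.subgroupOf L).map (f.subgroupMap L) := by rw [h5]; trivial
      obtain ⟨x, hx, he⟩ := h6
      exact ⟨x, hx, congrArg Subtype.val he⟩
  obtain ⟨g₀, rfl⟩ := hf g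
  have hgQ : cj (f g₀) Q ≤ Q := by
    rintro _ ⟨_, ⟨q, hq, rfl⟩, rfl⟩
    exact ⟨_, hg q hq, rfl⟩
  have hgL : cj g₀ L = L := by
    apply cj_eq_of_le _ le_rfl
    rintro _ ⟨x, hx, rfl⟩
    show f (g₀ * x * g₀⁻¹) ∈ Q
    rw [map_mul, map_mul, map_inv]
    exact hgQ ⟨f x, hx, rfl⟩
  obtain ⟨h, hh, hhP⟩ := hP.exists_conj_eq (hgL ▸ hP.conj g₀)
  have hfh : f h ∈ P.map f := by rw [hPQ]; exact hh
  obtain ⟨q, hq, hqh⟩ := hfh
  set g' := (h * q⁻¹)⁻¹ * g₀ with hg'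
  have hg'P : cj g' P = P := by
    rw [hg', ← cj_cj, ← hhP, cj_cj, mul_inv_rev, inv_inv, mul_assoc, inv_mul_cancel, mul_one]
    exact mem_normalizer.1 (Subgroup.le_normalizer hq)
  have hfg' : f g' = f g₀ := by
    rw [hg', map_mul, map_inv, map_mul, map_inv, hqh, mul_inv_cancel, inv_one, one_mul]
  refine ⟨Γ.comap (f.prodMap (MonoidHom.id _)) ⊓ P.prod ⊤, g', a, ha, ?_, ?_, ?_, ?_⟩
  · refine hP.isPGroup.to_le ?_
    rintro _ ⟨x, hx, rfl⟩
    exact hx.2.1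
  · intro m hm
    apply h1
    have h3 : (f 1, m) ∈ Γ := hm.1
    rwa [map_one] at h3
  · intro i α β
    obtain ⟨y, hy⟩ := hM i α β
    have hyQ : y ∈ P.map f := by rw [hPQ]; exact ⟨_, hy, rfl⟩
    obtain ⟨x, hx, rfl⟩ := hyQ
    exact ⟨x, hy, hx, trivial⟩
  · rintro ⟨x, m⟩ ⟨hx1, hx2⟩
    refine ⟨?_, ?_, trivial⟩
    · have h3 := hg _ hx1
      show (f (g' * x * g'⁻¹), _) ∈ Γ
      rw [map_mul, map_mul, map_inv, hfg']
      exact h3
    · show g' * x * g'⁻¹ ∈ P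
      rw [← hg'P]
      exact ⟨x, hx2.1, rfl⟩

theorem RF_fus (X : Type u) [Group X] [Finite X] (S V : Subgroup X) (hS : SylIn p S ⊤) (hSV : S ≤ nz V)
    (hSF : SF V ⊤ S) (h : RF p X) : RF p ↥(nz V) := by
  obtain ⟨Γ, g, a, ha, hp', h1, hM, hg⟩ := h
  set Q := Γ.map (MonoidHom.fst X (SL3 p)) with hQ
  obtain ⟨h, -, hhS⟩ := hS.exists_conj_le hp' le_top
  have hgQ : cj g Q ≤ Q := by
    rintro _ ⟨_, ⟨q, hq, rfl⟩, rfl⟩
    exact ⟨_, hg q hq, rfl⟩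
  have hgQ' : cj g Q = Q := cj_eq_of_le hgQ le_rfl
  obtain ⟨x, hx, c, hc, he⟩ := hSF (cj h Q) hhS (h * g * h⁻¹) (Subgroup.mem_top _) (by
    rw [cj_cj, inv_mul_cancel_right, ← cj_cj, hgQ']; exact hhS)
  refine ⟨Γ.comap (((MulAut.conj h⁻¹).toMonoidHom.comp (nz V).subtype).prodMap (MonoidHom.id _)), ⟨x, hx.2⟩, a, ha,
    ?_, ?_, ?_, ?_⟩
  · have hle : (Γ.comap (((MulAut.conj h⁻¹).toMonoidHom.comp (nz V).subtype).prodMap (MonoidHom.id (SL3 p)))).map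
        (MonoidHom.fst _ (SL3 p)) ≤ Q.comap ((MulAut.conj h⁻¹).toMonoidHom.comp (nz V).subtype) := by
      rintro _ ⟨q, hq, rfl⟩
      exact ⟨_, hq, rfl⟩
    refine IsPGroup.to_le ?_ hle
    exact hp'.comap_of_injective _ ((MulAut.conj h⁻¹).injective.comp (nz V).subtype_injective)
  · intro m hm
    apply h1
    have h3 : (h⁻¹ * 1 * h⁻¹⁻¹, m) ∈ Γ := hm
    rwa [mul_one, inv_inv, inv_mul_cancel] at h3
  · intro i α β
    obtain ⟨y, hy⟩ := hM i α β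
    have hyQ : h * y * h⁻¹ ∈ cj h Q := ⟨y, ⟨_, hy, rfl⟩, rfl⟩
    refine ⟨⟨h * y * h⁻¹, hSV (hhS hyQ)⟩, ?_⟩
    show (h⁻¹ * (h * y * h⁻¹) * h⁻¹⁻¹, M i α β) ∈ Γ
    have e : h⁻¹ * (h * y * h⁻¹) * h⁻¹⁻¹ = y := by group
    rw [e]; exact hy
  · rintro ⟨y, m⟩ hy
    have hy' : (h⁻¹ * (y : X) * h⁻¹⁻¹, m) ∈ Γ := hy
    show (h⁻¹ * (x * (y : X) * x⁻¹) * h⁻¹⁻¹, T a * m * (T a)⁻¹) ∈ Γ
    have h3 := hg _ hy'
    have hyc : (y : X) ∈ cj h Q := by
      rw [mem_cj]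
      refine ⟨_, hy', ?_⟩
      show h⁻¹ * (y : X) * h⁻¹⁻¹ = _
      rw [inv_inv]
    have hcy := Subgroup.mem_centralizer_iff.1 hc _ hyc
    have e1 : x = h * g * h⁻¹ * c⁻¹ := by rw [he]; group
    have e2 : c⁻¹ * (y : X) * c = y := by rw [mul_assoc, hcy]; group
    have e3 : h⁻¹ * (x * (y : X) * x⁻¹) * h⁻¹⁻¹ = g * (h⁻¹ * (y : X) * h⁻¹⁻¹) * g⁻¹ := by
      calc h⁻¹ * (x * (y : X) * x⁻¹) * h⁻¹⁻¹ = g * h⁻¹ * (c⁻¹ * (y : X) * c) * h * g⁻¹ := by rw [e1]; group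
        _ = _ := by rw [e2]; group
    rw [e3]
    exact h3

theorem RF_climb : Climb p (RF.{u} p) := ⟨RF_mono, RF_quot, RF_fus⟩

/-- a good exponent -/
theorem exists_exp (a : (ZMod p)ˣ) (n : ℕ) (hn : n ≠ 0) : ∃ N : ℕ, a ^ N = a ∧
    ∀ (G : Type u) [Group G] (g : G), orderOf g = n → (orderOf (g ^ N)).Coprime p := by
  have hco : Nat.Coprime (p - 1) (p ^ n.factorization p) := by
    apply Nat.Coprime.pow_right
    have h1 := Nat.coprime_self_sub_left (m := 1) (n := p) hp.out.one_lt.le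
    exact h1.2 (Nat.coprime_one_left p)
  obtain ⟨N, hN1, hN2⟩ := Nat.chineseRemainder hco 1 0
  refine ⟨N, ?_, ?_⟩
  · have h1 : a ^ N = a ^ 1 := by
      rw [pow_eq_pow_iff_modEq]
      refine hN1.of_dvd ?_
      rw [← ZMod.card_units p]
      exact orderOf_dvd_card
    rwa [pow_one] at h1
  · intro G _ g hg
    obtain ⟨k, rfl⟩ := (Nat.modEq_zero_iff_dvd).1 hN2
    rw [pow_mul]
    have h2 : (orderOf (g ^ p ^ n.factorization p)).Coprime p := by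
      rw [orderOf_pow_of_dvd (pow_ne_zero _ hp.out.ne_zero) (hg ▸ Nat.ordProj_dvd n p), hg]
      exact (Nat.coprime_ordCompl hp.out hn).symm
    exact Nat.Coprime.coprime_dvd_left (orderOf_pow_dvd _) h2

theorem involves_of_RF (X : Type u) [Group X] [Finite X] (h : RF p X) :
    Cfsg.Involves ↥(Cfsg.fOver (ZMod p)) X := by
  obtain ⟨Γ, g, a, ha, hp', h1, hM, hg⟩ := h
  obtain ⟨N, hN1, hN2⟩ := exists_exp a (orderOf g) (orderOf_pos g).ne'
  set w : X × SL3 p := (g, T a) ^ N with hw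
  have hw1 : w.1 = g ^ N := rfl
  have hw2 : w.2 = T a := by
    show T a ^ N = T a
    rw [T_pow, hN1]
  have hnz : (g, T a) ∈ nz Γ := by
    apply mem_normalizer_of_le
    rintro _ ⟨q, hq, rfl⟩
    exact hg q hq
  have hwnz : Subgroup.zpowers w ≤ nz Γ := by
    rw [Subgroup.zpowers_le]
    exact pow_mem hnz N
  have hmem : ∀ x : X × SL3 p, x ∈ Subgroup.zpowers w ⊔ Γ ↔ ∃ b ∈ Subgroup.zpowers w, ∃ s ∈ Γ, b * s = x :=
    fun x => mem_sup_of_le_nz hwnz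
  have hcop : (orderOf (g ^ N)).Coprime p := hN2 X g rfl
  have hpow2 : ∀ k : ℤ, (w ^ k).2 = T (a ^ k) := by
    intro k
    show w.2 ^ k = _
    rw [hw2, T_zpow]
  have hinj : ∀ m, ((1 : X), m) ∈ Subgroup.zpowers w ⊔ Γ → m = 1 := by
    intro m hm
    obtain ⟨b, hb, q, hq, he⟩ := (hmem _).1 hm
    obtain ⟨k, rfl⟩ := Subgroup.mem_zpowers_iff.1 hb
    have he1 : (g ^ N) ^ k * q.1 = 1 := congrArg Prod.fst he
    have he2 : (w ^ k).2 * q.2 = m := congrArg Prod.snd he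
    have hq1 : q.1 = 1 := by
      obtain ⟨n, hn⟩ := hp' ⟨q.1, ⟨q, hq, rfl⟩⟩
      have hn' : q.1 ^ p ^ n = 1 := congrArg Subtype.val hn
      have h3 : q.1 = ((g ^ N) ^ k)⁻¹ := by rw [eq_inv_iff_mul_eq_one, ← he1]; exact (by
        have : q.1 * (g ^ N) ^ k = 1 := by
          rw [mul_eq_one_iff_eq_inv] at he1 ⊢
          rw [he1, inv_inv]
        rw [this, he1])
      have h4 : q.1 ^ orderOf (g ^ N) = 1 := by
        rw [h3, inv_pow, ← zpow_natCast, ← zpow_mul, mul_comm, zpow_mul, zpow_natCast, pow_orderOf_eq_one, one_zpow,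
          inv_one]
      have h5 : orderOf q.1 ∣ 1 := by
        have := Nat.dvd_gcd (orderOf_dvd_of_pow_eq_one h4) (orderOf_dvd_of_pow_eq_one hn')
        rwa [Nat.Coprime.gcd_eq_one (Nat.Coprime.pow_right n hcop)] at this
      rwa [Nat.dvd_one, orderOf_eq_one_iff] at h5
    have hq2 : q.2 = 1 := by
      apply h1
      rw [← hq1]; exact hq
    have hgk : (g ^ N) ^ k = 1 := by rwa [hq1, mul_one] at he1
    obtain ⟨x, hx⟩ := hM 0 0 1
    have h6 : w ^ k * (x, M 0 0 1) * (w ^ k)⁻¹ ∈ Γ := by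
      have := (Subgroup.mem_normalizer_iff.1 (hwnz (zpow_mem (Subgroup.mem_zpowers w) k)) (x, M 0 0 1)).1 hx
      exact this
    have e6 : w ^ k * (x, M 0 0 1) * (w ^ k)⁻¹ = (x, M 0 0 (((a ^ k : (ZMod p)ˣ) : ZMod p)⁻¹)) := by
      have hfst : (w ^ k).1 = 1 := hgk
      apply Prod.ext
      · show (w ^ k).1 * x * ((w ^ k).1)⁻¹ = x
        rw [hfst, one_mul, inv_one, mul_one]
      · show (w ^ k).2 * M 0 0 1 * ((w ^ k).2)⁻¹ = _
        rw [hpow2, T_M, mul_zero, mul_zero, mul_one]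
    rw [e6] at h6
    have h7 := mul_mem h6 (inv_mem hx)
    have e7 : (x, M 0 0 (((a ^ k : (ZMod p)ˣ) : ZMod p)⁻¹)) * ((x, M 0 0 1) : X × SL3 p)⁻¹ =
        (1, M 0 0 (((a ^ k : (ZMod p)ˣ) : ZMod p)⁻¹) * (M 0 0 1)⁻¹) := by
      apply Prod.ext
      · exact mul_inv_cancel x
      · rfl
    rw [e7] at h7
    have h8 := h1 _ h7
    rw [mul_inv_eq_one] at h8
    have h9 := (M_inj h8).2.2
    have h10 : ((a ^ k : (ZMod p)ˣ) : ZMod p) = 1 := by rwa [inv_eq_one] at h9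
    have h11 : a ^ k = 1 := Units.ext h10
    rw [← he2, hpow2, h11, T_one, one_mul, hq2]
  -- the subgroup
  set Δ : Subgroup (X × SL3 p) := (Subgroup.zpowers w ⊔ Γ) ⊓ (Cfsg.fOver (ZMod p)).comap (MonoidHom.snd X (SL3 p))
    with hΔ
  let f1 : Δ →* X := (MonoidHom.fst X (SL3 p)).comp Δ.subtype
  have hf1 : Function.Injective f1 := by
    rw [injective_iff_map_eq_one]
    rintro ⟨⟨x, m⟩, hx⟩ hx1
    have hx1' : x = 1 := hx1
    subst hx1'
    have := hinj m hx.1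
    subst this
    rfl
  let f2 : Δ →* ↥(Cfsg.fOver (ZMod p)) := ((MonoidHom.snd X (SL3 p)).comp Δ.subtype).codRestrict _ (fun x => x.2.2)
  have hf2 : Function.Surjective f2 := by
    rintro ⟨m, hm⟩
    obtain ⟨i, α, β, b, rfl⟩ := exists_MT hm
    obtain ⟨x, hx⟩ := hM i α β
    obtain ⟨k, rfl⟩ := Subgroup.mem_zpowers_iff.1 (ha b)
    have h3 : (x, M i α β) * w ^ k ∈ Subgroup.zpowers w ⊔ Γ :=
      mul_mem (Subgroup.mem_sup_right hx) (Subgroup.mem_sup_left (zpow_mem (Subgroup.mem_zpowers w) k))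
    have h4 : ((x, M i α β) * w ^ k).2 = M i α β * T (a ^ k) := by
      show M i α β * (w ^ k).2 = _
      rw [hpow2]
    refine ⟨⟨_, h3, ?_⟩, Subtype.ext h4⟩
    show ((x, M i α β) * w ^ k).2 ∈ Cfsg.fOver (ZMod p)
    rw [h4]; exact hm
  refine QdCtrl.involves_trans (QdCtrl.involves_of_surjective f2 hf2) ?_
  rw [QdCtrl.involves_iff]
  exact ⟨f1.range, (MonoidHom.ofInjective hf1).symm.toMonoidHom, (MonoidHom.ofInjective hf1).symm.surjective⟩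

end Cfsg.Agent.Lib.H72NgF
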