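import Cfsg.Agent.Lib.H72NgF
import Cfsg.Agent.Lib.CoprimeAction

/-!
The key step for the property `RF`. (helper72)
-/

set_option autoImplicit false
set_option linter.unusedSectionVars false

namespace Cfsg.Agent.Lib.H72NgF

open Cfsg.Agent.Lib.CFSylow Cfsg.Agent.Lib.CFFusion Cfsg.Agent.Lib.CFControl
  Cfsg.Agent.Lib.CFLocal Cfsg.Agent.Lib.CFCore Cfsg.Agent.Lib.CFSection Cfsg.Agent.Lib.CFMin
  Cfsg.Agent.Lib.CFMain Cfsg.Agent.Lib.CFRed Cfsg.Agent.Lib.CFStmt
  Cfsg.Agent.Lib.GLARed Cfsg.Agent.Lib.GLAStab Cfsg.Agent.Lib.GLAQuad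

universe u
variable {p : ℕ} [hp : Fact p.Prime]

section module
variable {K : Type u} [Group K] {W : Type u} [AddCommGroup W] [Module (ZMod p) W]
  {ρ : K →* Module.End (ZMod p) W} {w c : W}

theorem rho_inv {k : K} {u v : W} (h : ρ k u = v) : ρ k⁻¹ v = u := by
  rw [← h, ← Module.End.mul_apply, ← map_mul, inv_mul_cancel, map_one]; rfl

theorem rho_mul (k l : K) (u : W) : ρ (k * l) u = ρ k (ρ l u) := by rw [map_mul]; rfl

theorem conj_act {s k : K} {b : ZMod p} (hb : b ≠ 0) (hsw : ρ s w = b⁻¹ • w) (hsc : ρ s c = b • c) {i : ZMod p}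
    (hkw : ρ k w = w + i • c) (hkc : ρ k c = c) :
    ρ (s * k * s⁻¹) w = w + (b * b * i) • c ∧ ρ (s * k * s⁻¹) c = c := by
  have h1 : ρ s⁻¹ w = b • w := rho_inv (by rw [map_smul, hsw, smul_smul, mul_inv_cancel₀ hb, one_smul])
  have h2 : ρ s⁻¹ c = b⁻¹ • c := rho_inv (by rw [map_smul, hsc, smul_smul, inv_mul_cancel₀ hb, one_smul])
  constructor
  · rw [rho_mul, rho_mul, h1, map_smul, map_smul, hkw, map_add, map_smul, hsw, hsc, smul_add, smul_smul, smul_smul,
      smul_smul, mul_inv_cancel₀ hb, one_smul]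
    congr 2; ring
  · rw [rho_mul, rho_mul, h2, map_smul, map_smul, hkc, hsc, smul_smul, inv_mul_cancel₀ hb, one_smul]

theorem pow_act {s : K} {b : ZMod p} (hsw : ρ s w = b⁻¹ • w) (hsc : ρ s c = b • c) (n : ℕ) :
    ρ (s ^ n) w = (b ^ n)⁻¹ • w ∧ ρ (s ^ n) c = b ^ n • c := by
  induction n with
  | zero => simp
  | succ n ih =>
    constructor
    · rw [pow_succ, rho_mul, hsw, map_smul, ih.1, smul_smul, pow_succ, mul_inv, mul_comm]
    · rw [pow_succ, rho_mul, hsc, map_smul, ih.2, smul_smul, pow_succ, mul_comm]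

theorem mul_act {k l : K} {i j : ZMod p} (hkw : ρ k w = w + i • c) (hkc : ρ k c = c) (hlw : ρ l w = w + j • c)
    (hlc : ρ l c = c) : ρ (k * l) w = w + (i + j) • c ∧ ρ (k * l) c = c := by
  constructor
  · rw [rho_mul, hlw, map_add, map_smul, hkw, hkc, add_smul, add_assoc]
  · rw [rho_mul, hlc, hkc]

theorem inv_act {k : K} {i : ZMod p} (hkw : ρ k w = w + i • c) (hkc : ρ k c = c) :
    ρ k⁻¹ w = w + (-i) • c ∧ ρ k⁻¹ c = c := by
  refine ⟨rho_inv ?_, rho_inv hkc⟩
  rw [map_add, map_smul, hkw, hkc, neg_smul]; abel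

theorem npow_act {k : K} {i : ZMod p} (hkw : ρ k w = w + i • c) (hkc : ρ k c = c) (n : ℕ) :
    ρ (k ^ n) w = w + ((n : ZMod p) * i) • c ∧ ρ (k ^ n) c = c := by
  induction n with
  | zero => simp
  | succ n ih =>
    have h := mul_act ih.1 ih.2 hkw hkc
    rw [← pow_succ] at h
    refine ⟨?_, h.2⟩
    rw [h.1]; congr 2; push_cast; ring

variable (ρ w c) in
/-- the elements acting trivially -/
def N0 : Subgroup K where
  carrier := {k | ρ k w = w ∧ ρ k c = c}
  one_mem' := ⟨by rw [map_one]; rfl, by rw [map_one]; rfl⟩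
  mul_mem' := fun {k l} hk hl => ⟨by rw [rho_mul, hl.1, hk.1], by rw [rho_mul, hl.2, hk.2]⟩
  inv_mem' := fun {k} hk => ⟨rho_inv hk.1, rho_inv hk.2⟩

variable (ρ w c) in
/-- the elements acting unipotently -/
def N1 : Subgroup K where
  carrier := {k | ∃ i : ZMod p, ρ k w = w + i • c ∧ ρ k c = c}
  one_mem' := ⟨0, by rw [map_one, zero_smul, add_zero]; rfl, by rw [map_one]; rfl⟩
  mul_mem' := fun {k l} hk hl => by
    obtain ⟨i, h1, h2⟩ := hk
    obtain ⟨j, h3, h4⟩ := hl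
    exact ⟨_, mul_act h1 h2 h3 h4⟩
  inv_mem' := fun {k} hk => by
    obtain ⟨i, h1, h2⟩ := hk
    exact ⟨_, inv_act h1 h2⟩

/-- the `p`-part -/
theorem exists_ppart [Finite K] (x : K) : ∃ m : ℕ, (m : ZMod p) = 1 ∧ ∃ k, (x ^ m) ^ p ^ k = 1 := by
  have hx := (orderOf_pos x).ne'
  have hco : Nat.Coprime p (orderOf x / p ^ (orderOf x).factorization p) := Nat.coprime_ordCompl hp.out hx
  obtain ⟨N, hN1, hN2⟩ := Nat.chineseRemainder hco 1 0
  refine ⟨N, ?_, (orderOf x).factorization p, ?_⟩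
  · have := (ZMod.natCast_eq_natCast_iff _ _ _).2 hN1
    rwa [Nat.cast_one] at this
  · obtain ⟨k, rfl⟩ := (Nat.modEq_zero_iff_dvd).1 hN2
    rw [← pow_mul]
    apply orderOf_dvd_iff_pow_eq_one.1
    have h := Nat.ordProj_mul_ordCompl_eq_self (orderOf x) p
    refine ⟨k, ?_⟩
    calc orderOf x / p ^ (orderOf x).factorization p * k * p ^ (orderOf x).factorization p
        = (p ^ (orderOf x).factorization p * (orderOf x / p ^ (orderOf x).factorization p)) * k := by ring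
      _ = _ := by rw [h]

theorem half_pow (hp2 : p ≠ 2) {a : (ZMod p)ˣ} (ha : ∀ b, b ∈ Subgroup.zpowers a) :
    (a : ZMod p) ^ ((p - 1) / 2) = -1 := by
  have h1 : orderOf a = p - 1 := by
    rw [orderOf_eq_card_of_forall_mem_zpowers ha, Nat.card_eq_fintype_card, ZMod.card_units]
  have hodd : Odd p := hp.out.odd_of_ne_two hp2
  obtain ⟨j, hj⟩ := hodd
  have hp3 : 3 ≤ p := by have := hp.out.two_le; omega
  have h2 : (p - 1) / 2 * 2 = p - 1 := by omega
  have h3 : ((a : ZMod p) ^ ((p - 1) / 2)) ^ 2 = 1 := by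
    rw [← pow_mul, h2, ← h1, ← Units.val_pow_eq_pow_val, pow_orderOf_eq_one, Units.val_one]
  rw [sq, mul_self_eq_one_iff] at h3
  rcases h3 with h | h
  · exfalso
    have h4 : a ^ ((p - 1) / 2) = 1 := Units.ext (by rw [Units.val_pow_eq_pow_val, h, Units.val_one])
    have h5 := Nat.le_of_dvd (by omega) (orderOf_dvd_of_pow_eq_one h4)
    rw [h1] at h5
    omega
  · exact h

theorem RF_of_module (hp2 : p ≠ 2) [Finite K] {V : Subgroup K} (hV : V.Normal) (hVp : IsPGroup p V)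
    (π : V →* Multiplicative W) (hπ : Function.Surjective π)
    (hρ : ∀ (g : K) (v : V), ρ g (Multiplicative.toAdd (π v)) =
        Multiplicative.toAdd (π ⟨g * v * g⁻¹, hV.conj_mem v v.2 g⟩)) (htriv : ∀ v ∈ V, ρ v = 1)
    {x t : K} {a : (ZMod p)ˣ} (ha : ∀ b, b ∈ Subgroup.zpowers a) (hc : c ≠ 0) (hxw : ρ x w = w + c)
    (hxc : ρ x c = c) (htw : ρ t w = (a : ZMod p)⁻¹ • w) (htc : ρ t c = (a : ZMod p) • c) : RF p K := by
  have ha0 : (a : ZMod p) ≠ 0 := a.ne_zero
  obtain ⟨P, hP⟩ := exists_sylIn p (N1 ρ w c)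
  have hVN0 : V ≤ N0 ρ w c := fun v hv => ⟨by rw [htriv v hv]; rfl, by rw [htriv v hv]; rfl⟩
  have hN01 : N0 ρ w c ≤ N1 ρ w c := fun k hk => ⟨0, by rw [hk.1, zero_smul, add_zero], hk.2⟩
  have hVP : V ≤ P := by
    have h1 : IsPGroup p (P ⊔ V : Subgroup K) := hP.isPGroup.to_sup_of_normal_right hVp
    have h2 := hP.eq_of_le le_sup_left h1 (sup_le hP.le (hVN0.trans hN01))
    rw [h2]; exact le_sup_right
  -- an element of `P` acting as `x`
  obtain ⟨q₁, hq₁P, hq₁w, hq₁c⟩ : ∃ q ∈ P, ρ q w = w + (1 : ZMod p) • c ∧ ρ q c = c := by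
    obtain ⟨m, hm, k, hk⟩ := exists_ppart (p := p) x
    have hxm := npow_act (ρ := ρ) (k := x) (i := 1) (by rw [one_smul]; exact hxw) hxc m
    rw [hm, one_mul] at hxm
    have hpg : IsPGroup p (Subgroup.zpowers (x ^ m)) := by
      rintro ⟨y, hy⟩
      obtain ⟨j, rfl⟩ := Subgroup.mem_zpowers_iff.1 hy
      refine ⟨k, Subtype.ext ?_⟩
      show ((x ^ m) ^ j) ^ p ^ k = 1
      rw [← zpow_natCast, ← zpow_mul, mul_comm, zpow_mul, zpow_natCast, hk, one_zpow]
    obtain ⟨y, ⟨j, hy1, hy2⟩, hyP⟩ := hP.exists_conj_le hpg (by rw [Subgroup.zpowers_le]; exact ⟨1, hxm⟩)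
    refine ⟨y * x ^ m * y⁻¹, hyP ⟨x ^ m, Subgroup.mem_zpowers _, rfl⟩, ?_⟩
    have h1 := inv_act hy1 hy2
    have h2 := mul_act (mul_act hy1 hy2 hxm.1 hxm.2).1 (mul_act hy1 hy2 hxm.1 hxm.2).2 h1.1 h1.2
    refine ⟨?_, h2.2⟩
    rw [h2.1]; congr 2; ring
  -- `t` adjusted
  have hcjN1 : cj t (N1 ρ w c) = N1 ρ w c := by
    apply cj_eq_of_le _ le_rfl
    rintro _ ⟨k, ⟨i, h1, h2⟩, rfl⟩
    exact ⟨_, conj_act ha0 htw htc h1 h2⟩
  obtain ⟨h, ⟨j, hh1, hh2⟩, hhP⟩ := hP.exists_conj_eq (hcjN1 ▸ hP.conj t)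
  have hq2 := npow_act hq₁w hq₁c j.val
  rw [mul_one, ZMod.natCast_zmod_val] at hq2
  have hq3 := inv_act hq2.1 hq2.2
  set k := h * (q₁ ^ j.val)⁻¹ with hk
  have hk0 : ρ k w = w ∧ ρ k c = c := by
    have h1 := mul_act hh1 hh2 hq3.1 hq3.2
    rw [add_neg_cancel, zero_smul, add_zero] at h1
    exact h1
  have hkP : cj k P = cj t P := by
    rw [← hhP, hk, ← cj_cj]
    congr 1
    exact mem_normalizer.1 (Subgroup.le_normalizer (inv_mem (pow_mem hq₁P _)))
  set t' := k⁻¹ * t with ht'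
  have ht'P : t' ∈ nz P := by
    rw [mem_normalizer, ht', ← cj_cj, ← hkP, cj_inv_cj]
  have ht'w : ρ t' w = (a : ZMod p)⁻¹ • w := by rw [ht', rho_mul, htw, map_smul, rho_inv hk0.1]
  have ht'c : ρ t' c = (a : ZMod p) • c := by rw [ht', rho_mul, htc, map_smul, rho_inv hk0.2]
  obtain ⟨N, hN1, hN2⟩ := exists_exp.{u} a (orderOf t') (orderOf_pos t').ne'
  set s := t' ^ N with hs
  have hsP : s ∈ nz P := pow_mem ht'P N
  have hsco : (orderOf s).Coprime p := hN2 K t' rfl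
  have haN : (a : ZMod p) ^ N = a := by rw [← Units.val_pow_eq_pow_val, hN1]
  have hsact := pow_act ht'w ht'c N
  rw [← hs, haN] at hsact
  obtain ⟨hsw, hsc⟩ := hsact
  -- the involution
  set z := s ^ ((p - 1) / 2) with hz
  have hzact := pow_act hsw hsc ((p - 1) / 2)
  rw [← hz, half_pow hp2 ha] at hzact
  obtain ⟨hzw, hzc⟩ := hzact
  have hsz : Commute s z := (Commute.refl s).pow_right _
  have hzP : z ∈ nz P := pow_mem hsP _
  -- the centralizer
  have hb : ∀ b ∈ Subgroup.zpowers z, b ∈ nz P ∧ ∃ e : ZMod p, e ≠ 0 ∧ e * e = 1 ∧ ρ b w = e⁻¹ • w ∧ ρ b c = e • c := by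
    intro b hb
    obtain ⟨n, rfl⟩ := (mem_powers_iff_mem_zpowers.2 hb : b ∈ Submonoid.powers z)
    refine ⟨pow_mem hzP n, (-1) ^ n, ?_, ?_, pow_act hzw hzc n⟩
    · exact pow_ne_zero _ (neg_ne_zero.2 one_ne_zero)
    · rw [← mul_pow]; simp
  obtain ⟨d, hd, hdc⟩ := CoprimeAction.exists_mul_mem_centralizer (A := Subgroup.zpowers z) (D := P ⊓ N0 ρ w c)
    (by
      intro b hbz
      obtain ⟨h1, e, he0, hee, h2, h3⟩ := hb b hbz
      rw [mem_normalizer, cj_inf, mem_normalizer.1 h1]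
      congr 1
      apply cj_eq_of_le _ le_rfl
      rintro _ ⟨k, ⟨h4, h5⟩, rfl⟩
      have := conj_act he0 h2 h3 (i := 0) (by rw [h4, zero_smul, add_zero]) h5
      rw [mul_zero, zero_smul, add_zero] at this
      exact this)
    (by
      rw [Nat.card_zpowers]
      obtain ⟨n, hn⟩ := IsPGroup.iff_card.1 (hP.isPGroup.to_le (inf_le_left : P ⊓ N0 ρ w c ≤ P))
      rw [hn]
      exact Nat.Coprime.pow_right n (Nat.Coprime.coprime_dvd_left (orderOf_pow_dvd _) hsco))
    (Or.inl (Group.isSolvable_of_comm fun a b => (isMulCommutative_iff.mp inferInstance) a b)) q₁ (by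
      intro b hbz
      obtain ⟨h1, e, he0, hee, h2, h3⟩ := hb b hbz
      refine ⟨P.mul_mem (P.inv_mem hq₁P) ((Subgroup.mem_normalizer_iff.1 h1 q₁).1 hq₁P), ?_⟩
      have h4 := conj_act he0 h2 h3 hq₁w hq₁c
      rw [hee, one_mul] at h4
      have h5 := inv_act hq₁w hq₁c
      have h6 := mul_act h5.1 h5.2 h4.1 h4.2
      rw [neg_add_cancel, zero_smul, add_zero] at h6
      exact h6)
  set l := q₁ * d with hl
  have hlP : l ∈ P := mul_mem hq₁P hd.1
  have hlz : l * z = z * l := (Subgroup.mem_centralizer_iff.1 hdc z (Subgroup.mem_zpowers z)).symm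
  have hlact : ρ l w = w + (1 : ZMod p) • c ∧ ρ l c = c := by
    constructor
    · rw [hl, rho_mul, hd.2.1, hq₁w]
    · rw [hl, rho_mul, hd.2.2, hq₁c]
  -- the graph
  let Γ : Subgroup (K × SL3 p) :=
    { carrier := {q | ∃ e : V, ∃ l ∈ P, l * z = z * l ∧ ∃ i α β : ZMod p, q.1 = e * l ∧
        Multiplicative.toAdd (π e) = α • c + β • w ∧ (ρ l w = w + i • c ∧ ρ l c = c) ∧ q.2 = M i α β}
      one_mem' := by
        refine ⟨1, 1, one_mem _, by rw [one_mul, mul_one], 0, 0, 0, ?_, ?_, ⟨?_, ?_⟩, ?_⟩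
        · simp
        · rw [map_one]; simp
        · rw [map_one]; simp
        · rw [map_one]; simp
        · rw [M_zero]; rfl
      mul_mem' := by
        rintro ⟨q1, q2⟩ ⟨q1', q2'⟩ ⟨e, l, hl, hlz, i, α, β, h1, h2, h3, h4⟩ ⟨e', l', hl', hlz', i', α', β', h1', h2', h3', h4'⟩
        simp only at h1 h4 h1' h4'
        subst h1 h4 h1' h4'
        refine ⟨e * ⟨l * e' * l⁻¹, hV.conj_mem e' e'.2 l⟩, l * l', mul_mem hl hl', ?_, _, _, _, ?_, ?_,
          mul_act h3.1 h3.2 h3'.1 h3'.2, M_mul _ _ _ _ _ _⟩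
        · rw [mul_assoc, hlz', ← mul_assoc, hlz, mul_assoc]
        · show (e : K) * l * (e' * l') = e * (l * e' * l⁻¹) * (l * l')
          group
        · rw [map_mul, toAdd_mul, ← hρ, h2, h2', map_add, map_smul, map_smul, h3.1, h3.2]
          simp only [smul_add, add_smul, smul_smul]
          rw [mul_comm i β']
          abel
      inv_mem' := by
        rintro ⟨q1, q2⟩ ⟨e, l, hl, hlz, i, α, β, h1, h2, h3, h4⟩
        simp only at h1 h4
        subst h1 h4
        have h5 := inv_act h3.1 h3.2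
        refine ⟨⟨l⁻¹ * (e⁻¹ : V) * l⁻¹⁻¹, hV.conj_mem _ (e⁻¹).2 l⁻¹⟩, l⁻¹, inv_mem hl, ?_, _, _, _, ?_, ?_, h5, M_inv _ _ _⟩
        · rw [inv_mul_eq_iff_eq_mul, ← mul_assoc, hlz, mul_assoc, mul_inv_cancel, mul_one]
        · show ((e : K) * l)⁻¹ = l⁻¹ * (e : K)⁻¹ * l⁻¹⁻¹ * l⁻¹
          group
        · rw [← hρ, map_inv π e, toAdd_inv, h2, map_neg, map_add, map_smul, map_smul, h5.1, h5.2]
          simp only [smul_add, add_smul, smul_smul, neg_smul, neg_add, smul_neg, neg_mul, mul_neg]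
          rw [mul_comm β i]
          abel }
  refine ⟨Γ, s, a, ha, ?_, ?_, ?_, ?_⟩
  · refine hP.isPGroup.to_le ?_
    rintro _ ⟨q, ⟨e, l, hl, -, i, α, β, h1, -⟩, rfl⟩
    show q.1 ∈ P
    rw [h1]; exact mul_mem (hVP e.2) hl
  · rintro m ⟨e, l, hl, hlz, i, α, β, h1, h2, h3, h4⟩
    have hel : (1 : K) = e * l := h1
    have hle : l = (e : K)⁻¹ := by rw [eq_inv_iff_mul_eq_one, mul_eq_one_comm]; exact hel.symm
    have hez : z * (e : K) * z⁻¹ = e := by
      have : l⁻¹ = (e : K) := by rw [hle, inv_inv]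
      rw [← this]
      have h5 : z * l⁻¹ = l⁻¹ * z := by
        rw [eq_inv_mul_iff_mul_eq, ← mul_assoc, hlz, mul_assoc, mul_inv_cancel, mul_one]
      rw [h5, mul_assoc, mul_inv_cancel, mul_one]
    have h5 := hρ z e
    have h6 : (⟨z * e * z⁻¹, hV.conj_mem e e.2 z⟩ : V) = e := Subtype.ext hez
    rw [h6, h2, map_add, map_smul, map_smul, hzw, hzc] at h5
    have h20 : (2 : ZMod p) ≠ 0 := by
      intro h
      have h21 : ((2 : ℕ) : ZMod p) = 0 := by exact_mod_cast h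
      rw [ZMod.natCast_eq_zero_iff] at h21
      exact hp2 ((Nat.prime_dvd_prime_iff_eq hp.out Nat.prime_two).1 h21)
    have h7 : α • c + β • w = 0 := by
      have h8 : (2 : ZMod p) • (α • c + β • w) = 0 := by
        rw [two_smul]
        nth_rewrite 1 [← h5]
        simp only [inv_neg, inv_one, neg_smul, one_smul, smul_neg]
        abel
      exact (smul_eq_zero.1 h8).resolve_left h20
    have hβ : β = 0 := by
      have h8 := congrArg (ρ x) h7
      rw [map_add, map_smul, map_smul, hxw, hxc, map_zero, smul_add, ← add_assoc, h7, zero_add] at h8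
      exact (smul_eq_zero.1 h8).resolve_right hc
    have hα : α = 0 := by
      rw [hβ, zero_smul, add_zero] at h7
      exact (smul_eq_zero.1 h7).resolve_right hc
    have hi : i = 0 := by
      have h8 : ρ l = 1 := by
        apply htriv
        rw [hle]; exact inv_mem e.2
      have h9 := h3.1
      rw [h8] at h9
      have h10 : i • c = 0 := by
        have : w = w + i • c := h9
        simpa using this
      exact (smul_eq_zero.1 h10).resolve_right hc
    have h4' : m = M i α β := h4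
    rw [h4', hi, hα, hβ, M_zero]
  · intro i α β
    obtain ⟨e, he⟩ := hπ (Multiplicative.ofAdd (α • c + β • w))
    have h1 := npow_act hlact.1 hlact.2 i.val
    rw [mul_one, ZMod.natCast_zmod_val] at h1
    refine ⟨e * l ^ i.val, e, l ^ i.val, pow_mem hlP _, ?_, i, α, β, rfl, ?_, h1, rfl⟩
    · exact ((show Commute l z from hlz).pow_left _)
    · rw [he]; rfl
  · rintro ⟨q1, q2⟩ ⟨e, l, hl, hlz, i, α, β, h1, h2, h3, h4⟩
    simp only at h1 h4
    subst h1 h4
    refine ⟨⟨s * e * s⁻¹, hV.conj_mem e e.2 s⟩, s * l * s⁻¹, (Subgroup.mem_normalizer_iff.1 hsP l).1 hl, ?_,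
      (a : ZMod p) * a * i, (a : ZMod p) * α, (a : ZMod p)⁻¹ * β, ?_, ?_, conj_act ha0 hsw hsc h3.1 h3.2, ?_⟩
    · have h5 : Commute s⁻¹ z := hsz.inv_left
      rw [mul_assoc, h5.eq, ← mul_assoc, mul_assoc s l z, hlz, ← mul_assoc, hsz.eq, mul_assoc, mul_assoc, mul_assoc]
    · show s * ((e : K) * l) * s⁻¹ = s * e * s⁻¹ * (s * l * s⁻¹)
      group
    · rw [← hρ, h2, map_add, map_smul, map_smul, hsw, hsc, smul_smul, smul_smul, mul_comm α, mul_comm β]
    · exact T_M a i α β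

end module

/-- **The key step.** -/
theorem RF_key (hp2 : p ≠ 2) : Key p (RF.{u} p) := by
  intro X _ _ B A hBn hB hA hBAA hnot
  obtain ⟨x, hxA, hx⟩ := SetLike.not_le_iff_exists.1 hnot
  obtain ⟨g, h, hh, hcop, hne⟩ := GLAPair.exists_pair (p := p) hx
  obtain ⟨V, hV, W, _, _, _, π, ρ, hVB, hπ, hρ, hW, hirr, hρh⟩ := GLAPair.exists_chief hB hcop hne
  have hq : ∀ a ∈ A, ∀ b ∈ A, (ρ a - 1) * (ρ b - 1) = 0 := fun a ha b hb =>
    quad_rep (hV := hV) hVB hπ hρ hBAA ha hb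
  have hxx := hq x hxA x hxA
  have hyy := quad_conj' hxx g
  set y := g * x * g⁻¹ with hy
  have hN : ∀ N, cc (ρ x - 1) (ρ y - 1) ^ N ≠ 0 := by
    intro N hN
    obtain ⟨k, hk⟩ := GLAMod.pow_eq_one_of_nilp ρ hxx hyy hN hh
    exact hρh k hk
  obtain ⟨U, hU0, hUinv, hUc, -⟩ := GLAMod.exists_submodule ρ hxx hyy hN
  set α := ρ x - 1 with hα
  set β := ρ y - 1 with hβ
  have hαα : ∀ w, α (α w) = 0 := fun w => congrArg (fun f : Module.End (ZMod p) W => f w) hxx
  have hββ : ∀ w, β (β w) = 0 := fun w => congrArg (fun f : Module.End (ZMod p) W => f w) hyy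
  have hcc : ∀ w, cc α β w = α (β w) + β (α w) := fun w => rfl
  have hUα : ∀ w ∈ U, α w ∈ U := fun w hw =>
    U.sub_mem (hUinv x (Subgroup.subset_closure (Set.mem_insert _ _)) w hw) hw
  have hUβ : ∀ w ∈ U, β w ∈ U := fun w hw =>
    U.sub_mem (hUinv y (Subgroup.subset_closure (Set.mem_insert_of_mem _ rfl)) w hw) hw
  have hαcc : cc α β * α = α * cc α β := by
    apply LinearMap.ext; intro w
    show α (β (α w)) + β (α (α w)) = α (α (β w) + β (α w))
    rw [hαα, map_zero, add_zero, map_add, hαα, zero_add]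
  obtain ⟨u₀, hu₀, hu₀0⟩ := (Submodule.ne_bot_iff U).1 hU0
  -- a vector of `U` killed by `α`
  obtain ⟨v₀, hv₀U, hv₀0, hv₀α⟩ : ∃ v ∈ U, v ≠ 0 ∧ α v = 0 := by
    by_cases h1 : α u₀ = 0
    · exact ⟨u₀, hu₀, hu₀0, h1⟩
    · exact ⟨α u₀, hUα _ hu₀, h1, hαα _⟩
  obtain ⟨f, r, hf, hr0, hfr⟩ := H72NgMod.exists_factor (cc α β) hv₀0
  set v₁ := Polynomial.aeval (cc α β) r v₀ with hv₁
  have hUcc : ∀ w ∈ U, cc α β w ∈ U := fun w hw => U.add_mem (hUα _ (hUβ _ hw)) (hUβ _ (hUα _ hw))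
  have hUr : ∀ (q : Polynomial (ZMod p)) (w : W), w ∈ U → Polynomial.aeval (cc α β) q w ∈ U := by
    intro q
    induction q using Polynomial.induction_on' with
    | add a b ha hb => intro w hw; rw [map_add]; exact U.add_mem (ha w hw) (hb w hw)
    | monomial n c =>
      intro w hw
      rw [Polynomial.aeval_monomial]
      have h1 : ∀ n : ℕ, ((cc α β) ^ n) w ∈ U := by
        intro n
        induction n with
        | zero => exact hw
        | succ n ih => rw [pow_succ']; exact hUcc _ ih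
      have h2 : ((algebraMap (ZMod p) (Module.End (ZMod p) W)) c * (cc α β) ^ n) w = c • ((cc α β) ^ n) w := rfl
      rw [h2]
      exact U.smul_mem _ (h1 n)
  have hv₁U : v₁ ∈ U := hUr r v₀ hv₀U
  have hv₁α : α v₁ = 0 := by
    rw [hv₁, H72NgMod.commute_aeval hαcc, hv₀α, map_zero]
  have hfX : ¬ f ∣ Polynomial.X := by
    rintro ⟨q, hq⟩
    apply hr0
    apply hUc _ hv₁U
    have h1 : Polynomial.aeval (cc α β) (Polynomial.X : Polynomial (ZMod p)) v₁ = 0 := by
      rw [hq, mul_comm, map_mul, Module.End.mul_apply, hfr, map_zero]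
    rwa [Polynomial.aeval_X] at h1
  obtain ⟨n, hn⟩ := H72Ng.exists_gen p
  obtain ⟨t, ht, htact⟩ := H72NgMod.exists_torus ρ hp2 hxx hyy f hf hfX hn
  set c := cc α β v₁ with hc
  set w := β v₁ with hw
  have hc0 : c ≠ 0 := fun h => hr0 (hUc _ hv₁U h)
  have hαw : α w = c := H72NgMod.cc_apply_ker v₁ hv₁α
  have hxw : ρ x w = w + c := by
    rw [← hαw, hα, LinearMap.sub_apply]
    show ρ x w = w + (ρ x w - w)
    abel
  have hxc : ρ x c = c := by
    have h1 : α c = 0 := by rw [← hαw]; exact hαα w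
    exact sub_eq_zero.1 h1
  have htw : ρ t w = (n : ZMod p)⁻¹ • w := (htact v₁ hv₁α hfr).2
  have hαc : α c = 0 := by rw [← hαw]; exact hαα w
  have hfc : Polynomial.aeval (cc α β) f c = 0 := by
    rw [hc, ← H72NgMod.commute_aeval (θ := cc α β) (γ := cc α β) rfl, hfr, map_zero]
  have htc : ρ t c = (n : ZMod p) • c := (htact c hαc hfc).1
  -- the generator
  have hn0 : (n : ZMod p) ≠ 0 := H72Ng.Gen.ne_zero hn
  let a : (ZMod p)ˣ := Units.mk0 (n : ZMod p) hn0
  have ha : ∀ b, b ∈ Subgroup.zpowers a := by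
    have h1 : orderOf a = Nat.card (ZMod p)ˣ := by
      rw [Nat.card_eq_fintype_card, ZMod.card_units, ← orderOf_units]
      exact hn
    have h2 : Subgroup.zpowers a = ⊤ := by
      apply Subgroup.eq_top_of_card_eq
      rw [Nat.card_zpowers, h1]
    intro b; rw [h2]; trivial
  have htriv := trivial_of_normal ρ hirr hBn hB
  have hcent : ∀ k ∈ Subgroup.centralizer (B : Set X), ρ k = 1 := by
    intro k hk
    apply LinearMap.ext
    intro w
    obtain ⟨v, hv⟩ := hπ (Multiplicative.ofAdd w)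
    have hw : w = Multiplicative.toAdd (π v) := by rw [hv]; rfl
    subst hw
    rw [hρ]
    have : (⟨k * v * k⁻¹, hV.conj_mem v v.2 k⟩ : V) = v := by
      apply Subtype.ext
      show k * (v : X) * k⁻¹ = v
      rw [Subgroup.mem_centralizer_iff] at hk
      rw [← hk v (hVB v.2)]; group
    rw [this]; rfl
  set L : Submodule (ZMod p) W := Submodule.span (ZMod p) {c} with hL
  have hstabL : ∀ k : X, ∀ e : ZMod p, e ≠ 0 → ρ k c = e • c → k ∈ stab ρ L := by
    intro k e he hk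
    rw [mem_stab]
    intro v
    constructor
    · intro hv
      obtain ⟨b, rfl⟩ := Submodule.mem_span_singleton.1 hv
      rw [map_smul, hk, smul_smul]
      exact Submodule.mem_span_singleton.2 ⟨_, rfl⟩
    · intro hv
      obtain ⟨b, hb⟩ := Submodule.mem_span_singleton.1 hv
      have h1 : ρ k ((b * e⁻¹) • c) = ρ k v := by
        rw [map_smul, hk, smul_smul, mul_assoc, inv_mul_cancel₀ he, mul_one, hb]
      have h2 : (b * e⁻¹) • c = v := by
        have h3 := rho_inv (ρ := ρ) (k := k) h1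
        have h4 : ρ k⁻¹ (ρ k v) = v := rho_inv (ρ := ρ) rfl
        rw [← h3, h4]
      rw [← h2]
      exact Submodule.mem_span_singleton.2 ⟨_, rfl⟩
  refine ⟨stab ρ L, ?_, ?_, ?_, ?_⟩
  · intro htop
    have hinv : ∀ g : X, ∀ w ∈ L, ρ g w ∈ L := by
      intro g w hw
      have : g ∈ stab ρ L := by rw [htop]; exact Subgroup.mem_top g
      exact (this w).1 hw
    rcases hirr L hinv with h0 | h0
    · rw [hL, Submodule.span_singleton_eq_bot] at h0
      exact hc0 h0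
    · have hwL : w ∈ L := by rw [h0]; trivial
      obtain ⟨b, hb⟩ := Submodule.mem_span_singleton.1 hwL
      apply hc0
      rw [← hαw, ← hb, map_smul, hαc, smul_zero]
  · intro a ha
    apply hstabL a 1 one_ne_zero
    have := congrArg (fun f : Module.End (ZMod p) W => f w) (hq a ha x hxA)
    have h2 : ρ a (α w) - α w = 0 := this
    rw [one_smul, ← hαw]
    exact sub_eq_zero.1 h2
  · intro b hb
    apply hstabL b 1 one_ne_zero
    rw [htriv b hb, one_smul]; rfl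
  · intro K hBK hK
    have htY : t ∈ stab ρ L := hstabL t n hn0 htc
    have hxY : x ∈ stab ρ L := hstabL x 1 one_ne_zero (by rw [hxc, one_smul])
    obtain ⟨c₁, hc₁, t', ht', e₁⟩ := hK t htY
    obtain ⟨c₂, hc₂, x', hx', e₂⟩ := hK x hxY
    have hρt : ρ t' = ρ t := by rw [e₁, map_mul, hcent c₁ hc₁, one_mul]
    have hρx : ρ x' = ρ x := by rw [e₂, map_mul, hcent c₂ hc₂, one_mul]
    have hVK : V ≤ K := hVB.trans hBK
    have hV' : (V.subgroupOf K).Normal := inferInstance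
    have hVp : IsPGroup p (V.subgroupOf K) := (hB.to_le hVB).comap_of_injective K.subtype K.subtype_injective
    refine RF_of_module (p := p) (K := K) (V := V.subgroupOf K) (W := W) (ρ := ρ.comp K.subtype) (w := w) (c := c)
      (x := ⟨x', hx'⟩) (t := ⟨t', ht'⟩) (a := a) hp2 hV' hVp
      (π.comp ((Subgroup.subgroupOfEquivOfLe hVK).toMonoidHom)) ?_ ?_ ?_ ha hc0 ?_ ?_ ?_ ?_
    · exact hπ.comp (Subgroup.subgroupOfEquivOfLe hVK).surjective
    · intro g v
      exact hρ g _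
    · intro v hv
      exact htriv v (hVB hv)
    · show ρ x' w = _
      rw [hρx, hxw]
    · show ρ x' c = _
      rw [hρx, hxc]
    · show ρ t' w = _
      rw [hρt, htw]; rfl
    · show ρ t' c = _
      rw [hρt, htc]; rfl

end Cfsg.Agent.Lib.H72NgF
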