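import Cfsg.Agent.Lib.H72NgQuot
import Cfsg.Agent.Lib.H32PGroup

/-!
`PZ`: the case where `C(O_p) ≰ O_p`.  (helper72)
-/

set_option autoImplicit false
set_option linter.unusedSectionVars false

namespace Cfsg.Agent.Lib.H72Ng

open Cfsg.Agent.Lib.CFSylow Cfsg.Agent.Lib.CFFusion Cfsg.Agent.Lib.CFControl
  Cfsg.Agent.Lib.CFLocal Cfsg.Agent.Lib.CFCore Cfsg.Agent.Lib.CFSection Cfsg.Agent.Lib.CFMin
  Cfsg.Agent.Lib.CFMain Cfsg.Agent.Lib.CFRed Cfsg.Agent.Lib.CFStmt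
  Cfsg.Agent.Lib.GLARed Cfsg.Agent.Lib.ClosedPS Cfsg.Agent.Lib.ThompsonJ Cfsg.Agent.Lib.ZJThm
  Cfsg.Agent.Lib.GLAMain

universe u
variable {p : ℕ} [Fact p.Prime] {X : Type u} [Group X] [Finite X]

theorem reach_of_sf {S Z H : Subgroup X} (h : SF Z H S) {B : Subgroup X} (hB : B ≤ S) {x : X} (hx : x ∈ H)
    (hle : cj x B ≤ S) : Reach {⊤ ⊓ nz Z} S B x := by
  obtain ⟨y, hy, c, hc, rfl⟩ := h B hB x hx hle
  exact .step (.one hB hc) rfl ⟨Subgroup.mem_top _, hy.2⟩ hle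

theorem step_non (IH : ∀ (Y : Type u) [Group Y] [Finite Y], Nat.card Y < Nat.card X → PZ p Y)
    (hO : Cfsg.pPrimeCore p X = ⊥) (hQ0 : Cfsg.pCore p X ≠ ⊥)
    (hC : ¬ cz (Cfsg.pCore p X) ≤ Cfsg.pCore p X) : PZ p X := by
  intro S Z hS hZ hn hNG
  have hQn : (Cfsg.pCore p X).Normal := pCore_normal p X
  have hSp := hS.isPGroup
  have hStop : S ≠ ⊤ := by
    rintro rfl
    apply hC
    have : (⊤ : Subgroup X) ≤ Cfsg.pCore p X := le_pCore inferInstance hS.isPGroup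
    exact le_top.trans this
  have hSZ : S ≤ nz Z := (le_nz_zj S).trans hn
  have hZS : Z ≤ S := hZ.trans (zj_le S)
  have hZc : Z ≤ Subgroup.centralizer (Z : Set X) := sub_comm (zj_comm S) hZ
  have hsf : ∀ H : Subgroup X, S ≤ H → H ≠ ⊤ → SF Z H S := fun H hSH hH =>
    sf_of_PZ (IH _ (card_subgroup_lt hH)) (hS.of_le hSH le_top) hZ (inf_le_right.trans hn)
      (hNG.mono inf_le_right le_rfl)
  have hsub : ∀ H : Subgroup X, S ≤ H → H ≠ ⊤ → ∀ B : Subgroup X, B ≤ S → ∀ h ∈ H,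
      cj h B ≤ S → Reach {⊤ ⊓ nz Z} S B h := fun H hSH hH B hB h hh hle =>
    reach_of_sf (hsf H hSH hH) hB hh hle
  have hΦ := isFus_reach {⊤ ⊓ nz Z} S
  have hcent : ∀ B : Subgroup X, B ≤ S → ∀ g ∈ cz B, Reach {⊤ ⊓ nz Z} S B g :=
    fun B hB g hg => .one hB hg
  rw [sf_iff_reach]
  intro B hB g _ hg
  refine skeleton hS hO hC hΦ hsub ?_ B hB g hg
  intro hCS B hBS hQB hBn g hg
  have hgB : cj g B ≤ S := by rw [mem_normalizer.1 hg]; exact hBS
  set Q := Cfsg.pCore p X with hQ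
  have hQS : Q ≤ S := pCore_le hS
  by_cases hSQ : S = Q
  · have hB : B = S := le_antisymm hBS (hSQ ▸ hQB)
    subst hB
    have h1 : g ∈ B ⊔ cz B := by
      rw [← hSQ] at hCS
      rw [sup_comm, hCS]; exact Subgroup.mem_top g
    have h2 := fus_closure hΦ (hcent B le_rfl 1 (one_mem _)) (E := cz B)
      (fun e he => ⟨centralizer_le_normalizer B he, hcent B le_rfl e he⟩)
      (M := B) (fun e he => ⟨Subgroup.le_normalizer he, hsub B le_rfl hStop B le_rfl e he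
        (by rw [mem_normalizer.1 (Subgroup.le_normalizer he)])⟩) g h1
    exact h2.2
  by_cases hZQ : Z ≤ Q
  · have hg' : g ∈ nz Z := by
      have h1 : cz Q ⊔ S ≤ nz Z := sup_le ((Subgroup.centralizer_le hZQ).trans (centralizer_le_normalizer Z)) hSZ
      rw [hCS] at h1
      exact h1 (Subgroup.mem_top g)
    have h2 : Reach {⊤ ⊓ nz Z} S B (g * 1) :=
      .step (.one hBS (one_mem _)) rfl ⟨Subgroup.mem_top _, hg'⟩ (by simpa using hgB)
    simpa using h2
  set π := QuotientGroup.mk' Q with hπ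
  have hpi : Function.Surjective π := QuotientGroup.mk'_surjective _
  have hker : ∀ {x : X}, π x = 1 ↔ x ∈ Q := fun {x} => by
    rw [← MonoidHom.mem_ker, QuotientGroup.ker_mk']
  have hS' : SylIn p (S.map π) ⊤ := SylIn.map_surj hpi hS
  obtain ⟨eU, hSU, hneU⟩ := preimage_props (𝓦 := {Wab}) (h𝓦 (isChar_Wab (p := p))) hS hSQ (Set.mem_singleton _)
  rw [ind_eq] at eU hSU hneU
  set U := (zj (S.map π)).comap π with hU
  have hUS : U ≤ S := by
    intro x hx
    have h1 : π x ∈ S.map π := zj_le _ hx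
    obtain ⟨s, hs, hsx⟩ := h1
    have h2 : s⁻¹ * x ∈ Q := by rw [← hker, map_mul, map_inv, hsx, inv_mul_cancel]
    have h3 : x = s * (s⁻¹ * x) := by group
    rw [h3]; exact mul_mem hs (hQS h2)
  have hUn : nz U ≤ nz (Z ⊓ U) := by
    intro n hnU
    obtain ⟨x, hx, c, hc, rfl⟩ := hsf (nz U) hSU hneU U hUS n hnU (by rw [mem_normalizer.1 hnU]; exact hUS)
    rw [mem_normalizer, ← cj_cj]
    have h1 : cj c (Z ⊓ U) = Z ⊓ U := cj_of_centralizer (Subgroup.centralizer_le inf_le_right hc)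
    rw [h1, cj_inf, mem_normalizer.1 hx.1, mem_normalizer.1 hx.2]
  have hQU : Q ≤ U := by
    intro x hx
    show π x ∈ zj (S.map π)
    rw [hker.2 hx]; exact one_mem _
  -- the subgroup of the quotient
  have hne1 : ¬ Z ⊓ U ≤ Q := by
    have h1 : Z.map π ≠ ⊥ := by
      intro h
      rw [Subgroup.map_eq_bot_iff, QuotientGroup.ker_mk'] at h
      exact hZQ h
    have hnorm : S.map π ≤ nz (Z.map π) := (Subgroup.map_mono hSZ).trans (Subgroup.le_normalizer_map π)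
    -- a nontrivial central element
    have hSπp : IsPGroup p (S.map π) := hSp.map π
    have h2 : ∃ z ∈ Z.map π, z ∈ cz (S.map π) ∧ z ≠ 1 := by
      have hd : p ∣ Nat.card (Z.map π) := by
        obtain ⟨n, hn⟩ := IsPGroup.iff_card.mp (hSπp.to_le (Subgroup.map_mono hZS))
        rw [hn]
        apply dvd_pow_self
        rintro rfl
        rw [pow_zero] at hn
        exact h1 (Subgroup.card_eq_one.mp hn)
      obtain ⟨z, hz, hz1, hz2⟩ := H32PGroup.exists_fixed_of_normalizes hSπp hnorm hd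
      refine ⟨z, hz, ?_, hz1⟩
      rw [Subgroup.mem_centralizer_iff]
      exact hz2
    obtain ⟨z, ⟨z, hz, rfl⟩, hzc, hz1⟩ := h2
    intro hle
    apply hz1
    rw [hker]
    apply hle
    refine ⟨hz, ?_⟩
    show π z ∈ zj (S.map π)
    exact center_le_zj _ ⟨⟨z, hZS hz, rfl⟩, hzc⟩
  have eV : ((Z ⊓ U).map π).comap π = (Z ⊓ U) ⊔ Q := by
    rw [hπ, QuotientGroup.comap_map_mk', sup_comm]
  have eVn : nz (((Z ⊓ U).map π).comap π) = (nz ((Z ⊓ U).map π)).comap π :=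
    (Subgroup.comap_normalizer_eq_of_surjective _ hpi).symm
  have hSV : S ≤ nz (((Z ⊓ U).map π).comap π) := by
    rw [eVn, ← Subgroup.map_le_iff_le_comap]
    exact (Subgroup.map_mono (hSU.trans hUn)).trans (Subgroup.le_normalizer_map π)
  have hneV : nz (((Z ⊓ U).map π).comap π) ≠ ⊤ := by
    intro h
    rw [nz_eq_top_iff, eV] at h
    apply hne1
    refine le_sup_left.trans (le_pCore h (hSp.to_le (sup_le (inf_le_left.trans hZS) hQS)))
  refine caseB hS hCS hSV hneV ?_ hΦ hcent hStop hsub hBS hQB hBn hgB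
  refine IH _ (card_quotient_lt hQ0) _ _ hS' ?_ ?_ ?_
  · refine (Subgroup.map_mono inf_le_right).trans ?_
    rw [hU, Subgroup.map_comap_eq_self_of_surjective hpi]
  · intro y hy
    obtain ⟨n, rfl⟩ := hpi y
    have h1 : n ∈ nz U := by rw [eU]; exact hy
    exact Subgroup.le_normalizer_map π ⟨n, hUn h1, rfl⟩
  · intro a ha y hy c hc he
    obtain ⟨n, rfl⟩ := hpi y
    obtain ⟨c, hc, rfl⟩ := hc
    have hn1 : n ∈ nz (((Z ⊓ U).map π).comap π) := by rw [eVn]; exact hy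
    have hU1S : ((Z ⊓ U).map π).comap π ≤ S := by rw [eV]; exact sup_le (inf_le_left.trans hZS) hQS
    obtain ⟨x, hx, d, hd, rfl⟩ := hsf _ hSV hneV _ hU1S n hn1 (by rw [mem_normalizer.1 hn1]; exact hU1S)
    have hcU1 : c ∈ ((Z ⊓ U).map π).comap π := ⟨c, hc, rfl⟩
    have h1 : x * d * c * (x * d)⁻¹ = x * c * x⁻¹ := by
      have := mem_centralizer.1 hd c hcU1
      calc x * d * c * (x * d)⁻¹ = x * (d * c * d⁻¹) * x⁻¹ := by group
        _ = _ := by rw [this]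
    have h2 : x * c * x⁻¹ * (c ^ a)⁻¹ ∈ Z ⊓ Q := by
      refine Subgroup.mem_inf.2 ⟨mul_mem ((Subgroup.mem_normalizer_iff.1 hx.2 c).1 hc.1) (inv_mem (pow_mem hc.1 a)), ?_⟩
      rw [← hker, ← h1, map_mul, map_mul, map_mul, map_inv, map_inv, map_pow, he, mul_inv_cancel]
    have hxQ : x ∈ nz (Z ⊓ Q) := by
      rw [mem_normalizer, cj_inf, mem_normalizer.1 hx.2]
      congr 1
      exact cj_normal
    have h3 := hNG.lift hZc inf_le_left hx.2 hx.2 hxQ ha hc.1 h2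
    exact hker.2 h3.2

end Cfsg.Agent.Lib.H72Ng
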