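import Cfsg.Agent.Lib.H72NgBase

/-!
`PZ`: quotients by `p'`-groups, and the case where `C(O_p) ≰ O_p`.  (helper72)
-/

set_option autoImplicit false
set_option linter.unusedSectionVars false

namespace Cfsg.Agent.Lib.H72Ng

open Cfsg.Agent.Lib.CFSylow Cfsg.Agent.Lib.CFFusion Cfsg.Agent.Lib.CFControl
  Cfsg.Agent.Lib.CFLocal Cfsg.Agent.Lib.CFCore Cfsg.Agent.Lib.CFSection Cfsg.Agent.Lib.CFMin
  Cfsg.Agent.Lib.CFMain Cfsg.Agent.Lib.CFRed Cfsg.Agent.Lib.CFStmt
  Cfsg.Agent.Lib.GLARed Cfsg.Agent.Lib.ClosedPS Cfsg.Agent.Lib.ThompsonJ Cfsg.Agent.Lib.ZJThm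
  Cfsg.Agent.Lib.GLAMain

universe u
variable {p : ℕ} [Fact p.Prime] {X : Type u} [Group X] [Finite X]

theorem PZ_of_pPrime {N : Subgroup X} [N.Normal] (hN : ¬ p ∣ Nat.card N) (h : PZ p (X ⧸ N)) : PZ p X := by
  intro S Z hS hZ hn hNG
  set π := QuotientGroup.mk' N with hπ
  have hker : ∀ {x : X}, π x = 1 ↔ x ∈ N := fun {x} => by
    rw [← MonoidHom.mem_ker, QuotientGroup.ker_mk']
  have hsurj : Function.Surjective π := QuotientGroup.mk'_surjective N
  have hS' : SylIn p (S.map π) ⊤ := SylIn.map_surj hsurj hS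
  have hzS : Z ≤ S := hZ.trans (zj_le S)
  have hZp : IsPGroup p Z := hS.isPGroup.to_le hzS
  have hzjp : IsPGroup p (zj S) := hS.isPGroup.to_le (zj_le S)
  have e : zj (S.map π) = (zj S).map π := by
    have := induced_map (isChar_Wab (p := p)) π hS.isPGroup (fun s hs h' =>
        pgroup_inf_eq_one hN hS.isPGroup (hker.1 h') hs)
    rwa [ind_eq, ind_eq] at this
  have hSZ : S ≤ nz Z := (le_nz_zj S).trans hn
  have hmapnz : nz (Z.map π) ≤ (nz Z).map π := nz_map_le hN hZp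
  have hSF := h (S.map π) (Z.map π) hS' (by rw [e]; exact Subgroup.map_mono hZ) ?_ ?_
  · intro B hB g _ hg
    obtain ⟨x, hx, c, hc, hgx⟩ := hSF (B.map π) (Subgroup.map_mono hB) (π g) (Subgroup.mem_top _)
      (by rw [cj_map]; exact Subgroup.map_mono hg)
    obtain ⟨m, hm, rfl⟩ := hmapnz hx.2
    have himg : ∀ b ∈ B, π (m * b * m⁻¹) = π (g * b * g⁻¹) := by
      intro b hb
      have h1 := mem_centralizer.1 hc (π b) ⟨b, hb, rfl⟩
      rw [map_mul, map_mul, map_mul, map_mul, map_inv, map_inv, hgx]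
      calc π m * π b * (π m)⁻¹ = π m * (c * π b * c⁻¹) * (π m)⁻¹ := by rw [h1]
        _ = _ := by group
    have h2 : cj m B ≤ (S ⊔ N) ⊓ nz Z := by
      refine le_inf ?_ ?_
      · rintro _ ⟨b, hb, rfl⟩
        have h3 : (g * b * g⁻¹)⁻¹ * (m * b * m⁻¹) ∈ N := by
          apply hker.1
          rw [map_mul, map_inv, himg b hb, inv_mul_cancel]
        have h4 : g * b * g⁻¹ ∈ S := hg (conj_mem_cj hb)
        have h5 : m * b * m⁻¹ = (g * b * g⁻¹) * ((g * b * g⁻¹)⁻¹ * (m * b * m⁻¹)) := by group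
        show m * b * m⁻¹ ∈ S ⊔ N
        rw [h5]
        exact mul_mem (Subgroup.mem_sup_left h4) (Subgroup.mem_sup_right h3)
      · calc cj m B ≤ cj m (nz Z) := cj_mono (hB.trans hSZ)
          _ = nz Z := mem_normalizer.1 (Subgroup.le_normalizer hm)
    have h3 : SylIn p S ((S ⊔ N) ⊓ nz Z) :=
      (sylIn_sup hN hS.isPGroup).of_le (le_inf le_sup_left hSZ) inf_le_left
    obtain ⟨z, hz, hz'⟩ := h3.exists_conj_le (isPGroup_cj (hS.isPGroup.to_le hB)) h2
    obtain ⟨s, hs, n, hnN, rfl⟩ := (mem_sup_of_le_nz (le_nz_of_normal _)).1 hz.1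
    have hnV : n ∈ nz Z := by
      have := mul_mem (inv_mem (hSZ hs)) hz.2
      simpa using this
    rw [← cj_cj, cj_le_iff (g := s)] at hz'
    rw [show cj s⁻¹ S = S from mem_normalizer.1 (Subgroup.le_normalizer (inv_mem hs)), cj_cj] at hz'
    refine ⟨n * m, ⟨Subgroup.mem_top _, mul_mem hnV hm⟩, (n * m)⁻¹ * g, ?_, by group⟩
    rw [mem_centralizer]
    intro b hb
    have h4 : (n * m) * b * (n * m)⁻¹ = g * b * g⁻¹ := by
      have h5 : (n * m) * b * (n * m)⁻¹ ∈ S := hz' (conj_mem_cj hb)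
      have h6 : g * b * g⁻¹ ∈ S := hg (conj_mem_cj hb)
      have h7 : π ((n * m) * b * (n * m)⁻¹ * (g * b * g⁻¹)⁻¹) = 1 := by
        have h8 : (n * m) * b * (n * m)⁻¹ = n * (m * b * m⁻¹) * n⁻¹ := by group
        rw [map_mul, map_inv, h8, map_mul, map_mul, map_inv, hker.2 hnN, himg b hb]
        group
      exact mul_inv_eq_one.1 (pgroup_inf_eq_one hN hS.isPGroup (hker.1 h7) (mul_mem h5 (inv_mem h6)))
    calc (n * m)⁻¹ * g * b * ((n * m)⁻¹ * g)⁻¹ = (n * m)⁻¹ * (g * b * g⁻¹) * (n * m) := by group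
      _ = b := by rw [← h4]; group
  · rw [e]
    refine (nz_map_le hN hzjp).trans ((Subgroup.map_mono hn).trans ?_)
    exact Subgroup.le_normalizer_map π
  · intro a ha y hy c hc he
    obtain ⟨m, hm, rfl⟩ := hmapnz hy
    obtain ⟨c, hc, rfl⟩ := hc
    have h1 : m * c * m⁻¹ * (c ^ a)⁻¹ = 1 := by
      apply pgroup_inf_eq_one hN hZp (x := m * c * m⁻¹ * (c ^ a)⁻¹)
      · apply hker.1
        rw [map_mul, map_mul, map_mul, map_inv, map_inv, map_pow, he, mul_inv_cancel]
      · exact mul_mem ((Subgroup.mem_normalizer_iff.1 hm c).1 hc) (inv_mem (pow_mem hc a))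
    rw [hNG a ha m hm c hc (mul_inv_eq_one.1 h1), map_one]

/-- Case `X = C(Q) S`, strong fusion, for one subgroup of the quotient. -/
theorem caseB [hQn : (Cfsg.pCore p X).Normal] {S : Subgroup X} (hS : SylIn p S ⊤)
    (hCS : cz (Cfsg.pCore p X) ⊔ S = ⊤) {V : Subgroup (X ⧸ Cfsg.pCore p X)}
    (hSV : S ≤ nz (V.comap (QuotientGroup.mk' (Cfsg.pCore p X))))
    (hne : nz (V.comap (QuotientGroup.mk' (Cfsg.pCore p X))) ≠ ⊤)
    (hquot : SF V ⊤ (S.map (QuotientGroup.mk' (Cfsg.pCore p X))))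
    {Φ : Subgroup X → X → Prop} (hΦ : IsFus S Φ)
    (hcent : ∀ B : Subgroup X, B ≤ S → ∀ g ∈ cz B, Φ B g) (hStop : S ≠ ⊤)
    (hsub : ∀ H : Subgroup X, S ≤ H → H ≠ ⊤ → ∀ B : Subgroup X, B ≤ S → ∀ h ∈ H, cj h B ≤ S → Φ B h)
    {B : Subgroup X} (hBS : B ≤ S) (hQB : Cfsg.pCore p X ≤ B)
    (hBn : SylIn p (S ⊓ nz B) (nz B)) {g : X} (hg : cj g B ≤ S) : Φ B g := by
  set Q := Cfsg.pCore p X with hQ
  set π := QuotientGroup.mk' Q with hπ
  have hpi : Function.Surjective π := QuotientGroup.mk'_surjective _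
  have hS' : SylIn p (S.map π) ⊤ := SylIn.map_surj hpi hS
  obtain ⟨m, hm, c, hc, hgm⟩ := hquot (B.map π) (Subgroup.map_mono hBS) (π g) (Subgroup.mem_top _)
    (by rw [cj_map]; exact Subgroup.map_mono hg)
  have hQS : Q ≤ S := pCore_le hS
  -- centralizing part
  have key : ∀ x : X, π x ∈ cz (B.map π) → Φ B x := by
    intro x hy
    set D := (cz (B.map π)).comap π with hD
    have hDB : ∀ d ∈ D, ∀ b ∈ B, b⁻¹ * (d * b * d⁻¹) ∈ Q := by
      intro d hd b hb
      rw [← mem_comap_pi (N := Q)]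
      have h2 : π d ∈ cz (B.map π) := hd
      have h3 := mem_centralizer.1 h2 (π b) ⟨b, hb, rfl⟩
      simp only [map_mul, map_inv]
      rw [h3, inv_mul_cancel]
    have hDn : D ≤ nz B := by
      rw [le_normalizer_iff]
      intro d hd b hb
      have h2 := hDB d hd b hb
      have : d * b * d⁻¹ = b * (b⁻¹ * (d * b * d⁻¹)) := by group
      rw [this]
      exact mul_mem hb (hQB h2)
    have hDnorm : nz B ≤ nz D := by
      have h2 : nz (B.map π) ≤ nz (cz (B.map π)) := by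
        intro m hm
        rw [mem_normalizer] at hm ⊢
        rw [cj_centralizer, hm]
      have h3 : nz B ≤ (nz (B.map π)).comap π := by
        rw [← Subgroup.map_le_iff_le_comap]
        exact Subgroup.le_normalizer_map π
      refine h3.trans ((Subgroup.comap_mono h2).trans ?_)
      rw [hD]
      exact (Subgroup.comap_normalizer_eq_of_surjective _ hpi).le
    have hT : SylIn p (S ⊓ nz B ⊓ D) D := hBn.inf_normal hDn hDnorm
    have hle : D ≤ (D ⊓ cz B) ⊔ (S ⊓ nz B ⊓ D) := by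
      refine le_sup_of_pprime hT inf_le_left ?_ ?_
      · rw [le_normalizer_iff]
        intro a ha b hb
        refine Subgroup.mem_inf.2 ⟨mul_mem (mul_mem ha hb.1) (inv_mem ha), ?_⟩
        have h2 : cz B = cj a (cz B) := by
          rw [cj_centralizer, mem_normalizer.1 (hDn ha)]
        rw [h2]
        exact conj_mem_cj hb.2
      · intro d hd hord
        refine Subgroup.mem_inf.2 ⟨hd, ?_⟩
        rw [mem_centralizer]
        refine coprime_centralizes (hS.isPGroup.to_le hBS) hQB hord ?_ (hDB d hd)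
        -- `d` centralizes `Q`
        have h2 : d ∈ cz Q := by
          have hCn : (cz Q).Normal := cz_normal hQn
          have h3 : IsPGroup p (X ⧸ cz Q) := by
            intro z
            obtain ⟨z, rfl⟩ := QuotientGroup.mk'_surjective (cz Q) z
            have h4 : z ∈ cz Q ⊔ S := hCS ▸ Subgroup.mem_top z
            rw [sup_comm] at h4
            obtain ⟨s, hs, c, hc, rfl⟩ := (mem_sup_of_le_nz (le_nz_of_normal _)).1 h4
            obtain ⟨k, hk⟩ := hS.isPGroup ⟨s, hs⟩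
            refine ⟨k, ?_⟩
            rw [map_mul, (mem_comap_pi (N := cz Q)).2 hc, mul_one, ← map_pow]
            have h5 : s ^ p ^ k = 1 := by simpa using congrArg Subtype.val hk
            rw [h5, map_one]
          rw [← mem_comap_pi (N := cz Q)]
          obtain ⟨k, hk⟩ := h3 (QuotientGroup.mk' (cz Q) d)
          have h6 : orderOf (QuotientGroup.mk' (cz Q) d) ∣ orderOf d :=
            orderOf_map_dvd _ d
          have h5 : orderOf (QuotientGroup.mk' (cz Q) d) ∣ 1 := by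
            have := Nat.dvd_gcd h6 (orderOf_dvd_of_pow_eq_one hk)
            rwa [Nat.Coprime.gcd_eq_one (Nat.Coprime.pow_right k hord)] at this
          rwa [Nat.dvd_one, orderOf_eq_one_iff] at h5
        exact mem_centralizer.1 h2
    have hxD : x ∈ D := hy
    have h2 := fus_closure hΦ (hcent B hBS 1 (one_mem _)) (E := S ⊓ nz B ⊓ D)
      (fun e he => ⟨he.1.2, hsub S le_rfl hStop B hBS e he.1.1
        (by rw [mem_normalizer.1 he.1.2]; exact hBS)⟩)
      (M := D ⊓ cz B) (fun e he => ⟨hDn he.1, hcent B hBS e he.2⟩) x (hle hxD)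
    exact h2.2
  obtain ⟨m₀, rfl⟩ := hpi m
  have hm₀ : m₀ ∈ nz (V.comap π) := by
    rw [← show (nz V).comap π = nz (V.comap π) from Subgroup.comap_normalizer_eq_of_surjective _ hpi]
    exact hm.2
  have h1 : Φ B (m₀⁻¹ * g) := by
    apply key
    rw [map_mul, map_inv, hgm, inv_mul_cancel_left]
    exact hc
  have h4 : g = m₀ * (m₀⁻¹ * g) := by group
  rw [h4]
  refine hΦ.mul h1 ?_
  refine hsub _ hSV hne _ (hΦ.dom h1).2 m₀ hm₀ ?_
  rw [cj_cj, ← h4]
  exact hg

end Cfsg.Agent.Lib.H72Ng
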