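import Cfsg.Agent.Lib.H72NgCon
import Cfsg.Agent.Lib.H72NgNon
import Cfsg.Agent.Lib.H72NgQuot

/-!
If `N(ZJ(S))` has no eigenvalue of order `p - 1` on `ZJ(S)` then `ZJ(S)` controls strong fusion. (helper72)
-/

set_option autoImplicit false
set_option linter.unusedSectionVars false

namespace Cfsg.Agent.Lib.H72Ng

open Cfsg.Agent.Lib.CFSylow Cfsg.Agent.Lib.CFFusion Cfsg.Agent.Lib.CFControl
  Cfsg.Agent.Lib.CFLocal Cfsg.Agent.Lib.CFCore Cfsg.Agent.Lib.CFSection Cfsg.Agent.Lib.CFMin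
  Cfsg.Agent.Lib.CFMain Cfsg.Agent.Lib.CFRed Cfsg.Agent.Lib.CFStmt
  Cfsg.Agent.Lib.GLARed Cfsg.Agent.Lib.ClosedPS Cfsg.Agent.Lib.ThompsonJ Cfsg.Agent.Lib.ZJThm
  Cfsg.Agent.Lib.GLAMain

universe u
variable {p : ℕ} [hp : Fact p.Prime] {X : Type u} [Group X] [Finite X]

theorem PZ_step (hp2 : p ≠ 2) (IH : ∀ (Y : Type u) [Group Y] [Finite Y], Nat.card Y < Nat.card X → PZ p Y) :
    PZ p X := by
  have hOn : (Cfsg.pPrimeCore p X).Normal := pPrimeCore_normal p X
  by_cases hO : Cfsg.pPrimeCore p X = ⊥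
  swap
  · exact PZ_of_pPrime (pPrimeCore_not_dvd (p := p) (G := X)) (IH _ (card_quotient_lt hO))
  by_cases hQ : Cfsg.pCore p X = ⊥
  · exact step_triv IH hQ
  by_cases hC : cz (Cfsg.pCore p X) ≤ Cfsg.pCore p X
  swap
  · exact step_non IH hO hQ hC
  intro S Z hS hZ hn hNG
  have H : Hyp p S Z := ⟨IH, hC, hS, hZ, hn, hNG⟩
  have hZn := H.normal hp2
  intro B _ h hh _
  refine ⟨h, ⟨Subgroup.mem_top _, ?_⟩, 1, one_mem _, by simp⟩
  rw [nz_eq_top_iff.2 hZn]; exact Subgroup.mem_top _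

theorem PZ_all (hp2 : p ≠ 2) : ∀ (X : Type u) [Group X] [Finite X], PZ p X := by
  have key : ∀ n : ℕ, ∀ (X : Type u) [Group X] [Finite X], Nat.card X = n → PZ p X := by
    intro n
    induction n using Nat.strong_induction_on with
    | _ n ih =>
      intro X _ _ hX
      exact PZ_step hp2 (fun Y _ _ hY => ih _ (hX ▸ hY) Y rfl)
  intro X _ _
  exact key _ X rfl

/-- the index computation -/
theorem relIndex_eq {K C : Subgroup X} (hC : Nat.card C = p) {a : ℕ} (ha : Gen p a) {n : X} (hnK : n ∈ K)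
    {c : X} (hc : c ∈ C) (hc1 : c ≠ 1) (he : n * c * n⁻¹ = c ^ a) :
    (K ⊓ Subgroup.centralizer (C : Set X)).relIndex (K ⊓ nz C) = p - 1 := by
  have hco : orderOf c = p := by
    have h1 : orderOf c ∣ p := by
      rw [← hC]
      have := orderOf_dvd_natCard (⟨c, hc⟩ : C)
      rwa [Subgroup.orderOf_mk] at this
    rcases (Nat.dvd_prime hp.out).1 h1 with h | h
    · exact absurd (orderOf_eq_one_iff.1 h) hc1
    · exact h
  have hCz : C = Subgroup.zpowers c := by
    symm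
    apply Subgroup.eq_of_le_of_card_ge (by rwa [Subgroup.zpowers_le])
    rw [hC, Nat.card_zpowers, hco]
  have hcyc : IsCyclic C := isCyclic_of_prime_card hC
  let φ : ↥(K ⊓ nz C) →* MulAut C := C.normalizerMonoidHom.comp (Subgroup.inclusion inf_le_right)
  have hφ : ∀ (x : ↥(K ⊓ nz C)) (y : C), ((φ x y : C) : X) = x * y * x⁻¹ := fun x y => rfl
  have hker : φ.ker = (K ⊓ Subgroup.centralizer (C : Set X)).subgroupOf (K ⊓ nz C) := by
    ext x
    rw [MonoidHom.mem_ker, Subgroup.mem_subgroupOf]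
    constructor
    · intro h
      refine ⟨x.2.1, ?_⟩
      show (x : X) ∈ Subgroup.centralizer (C : Set X)
      rw [Subgroup.mem_centralizer_iff]
      intro y hy
      have h1 := congrArg (fun f : MulAut C => ((f ⟨y, hy⟩ : C) : X)) h
      simp only [hφ] at h1
      have h2 : (x : X) * y * (x : X)⁻¹ = y := h1
      calc y * x = (x * y * (x : X)⁻¹) * x := by rw [h2]
        _ = _ := by group
    · intro h
      have h2 := Subgroup.mem_centralizer_iff.1 h.2
      apply MulEquiv.ext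
      intro y
      apply Subtype.ext
      rw [hφ]
      show (x : X) * y * (x : X)⁻¹ = y
      rw [← h2 y y.2]; group
  have hnC : n ∈ nz C := by
    rw [mem_normalizer]
    apply Subgroup.eq_of_le_of_card_ge
    · rw [hCz]
      rintro _ ⟨y, hy, rfl⟩
      obtain ⟨i, rfl⟩ := Subgroup.mem_zpowers_iff.1 hy
      show n * c ^ i * n⁻¹ ∈ _
      rw [← conj_zpow, he]
      exact zpow_mem (pow_mem (Subgroup.mem_zpowers c) a) i
    · rw [card_cj]
  rw [Subgroup.relIndex, ← hker, Subgroup.index_ker]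
  apply Nat.dvd_antisymm
  · have h1 := Subgroup.card_subgroup_dvd_card φ.range
    rwa [IsCyclic.card_mulAut, hC, Nat.totient_prime hp.out] at h1
  · have h1 : orderOf (φ ⟨n, hnK, hnC⟩) ∣ Nat.card φ.range := by
      exact Subgroup.orderOf_dvd_natCard φ.range ⟨_, rfl⟩
    refine dvd_trans ?_ h1
    rw [← (show orderOf (a : ZMod p) = p - 1 from ha)]
    apply orderOf_dvd_of_pow_eq_one
    set m := orderOf (φ ⟨n, hnK, hnC⟩) with hm
    have h2 : ∀ k : ℕ, n ^ k * c * (n ^ k)⁻¹ = c ^ a ^ k := by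
      intro k
      induction k with
      | zero => simp
      | succ k ih =>
        rw [pow_succ', pow_succ]
        calc n * n ^ k * c * (n * n ^ k)⁻¹ = n * (n ^ k * c * (n ^ k)⁻¹) * n⁻¹ := by group
          _ = (n * c * n⁻¹) ^ a ^ k := by rw [ih, conj_pow]
          _ = c ^ (a ^ k * a) := by rw [he, ← pow_mul, mul_comm]
    have h3 : φ (⟨n, hnK, hnC⟩ ^ m) = 1 := by rw [map_pow, hm, pow_orderOf_eq_one]
    have h4 := congrArg (fun f : MulAut C => ((f ⟨c, hc⟩ : C) : X)) h3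
    have h5 : n ^ m * c * (n ^ m)⁻¹ = c := h4
    rw [h2] at h5
    have h6 : c ^ a ^ m = c ^ 1 := by rw [pow_one]; exact h5
    rw [pow_eq_pow_iff_modEq, hco] at h6
    have h7 := (ZMod.natCast_eq_natCast_iff _ _ _).2 h6
    push_cast at h7
    exact h7

/-- if `ZJ(S)` does not control strong fusion, then `N(ZJ(S))` acts as the full automorphism group on a subgroup of order
`p` of `ZJ(S)`. -/
theorem exists_C (hp2 : p ≠ 2) {S : Subgroup X} (hS : SylIn p S ⊤) (h : ¬ SF (zj S) ⊤ S) :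
    ∃ C : Subgroup X, C ≤ zj S ∧ Nat.card C = p ∧
      (nz (zj S) ⊓ Subgroup.centralizer (C : Set X)).relIndex (nz (zj S) ⊓ nz C) = p - 1 := by
  by_contra hcon
  apply h
  refine PZ_all hp2 X S (zj S) hS le_rfl le_rfl ?_
  intro a ha n hn c hc he
  by_contra hc1
  apply hcon
  obtain ⟨k, hk⟩ := IsPGroup.iff_orderOf.1 (hS.isPGroup.to_le (zj_le S)) ⟨c, hc⟩
  rw [Subgroup.orderOf_mk] at hk
  have hk0 : k ≠ 0 := by
    rintro rfl
    rw [pow_zero, orderOf_eq_one_iff] at hk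
    exact hc1 hk
  obtain ⟨m, rfl⟩ := Nat.exists_eq_succ_of_ne_zero hk0
  have ho : orderOf (c ^ p ^ m) = p := by
    rw [orderOf_pow_of_dvd (pow_ne_zero _ hp.out.ne_zero) (by rw [hk]; exact pow_dvd_pow p (Nat.le_succ m)), hk,
      Nat.succ_eq_add_one, pow_succ, Nat.mul_div_cancel_left _ (pow_pos hp.out.pos m)]
  have hC : Nat.card (Subgroup.zpowers (c ^ p ^ m)) = p := by rw [Nat.card_zpowers, ho]
  refine ⟨Subgroup.zpowers (c ^ p ^ m), ?_, hC, ?_⟩
  · rw [Subgroup.zpowers_le]; exact pow_mem hc _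
  · refine relIndex_eq hC ha hn (Subgroup.mem_zpowers _) ?_ ?_
    · intro h1
      rw [h1, orderOf_one] at ho
      exact hp.out.one_lt.ne ho
    · rw [← conj_pow, he, ← pow_mul, ← pow_mul, mul_comm]

end Cfsg.Agent.Lib.H72Ng
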