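import Cfsg.Agent.S0801
import Mathlib.RingTheory.AdjoinRoot
import Mathlib.RingTheory.PowerBasis
import Mathlib.FieldTheory.Finite.Basic

/-!
The diagonal matrix `diag(a, a⁻¹)`, `a` a generator of the multiplicative group of the prime field, lies in
`⟨(1 λ; 0 1), (1 0; 1 1)⟩` (from Dickson's lemma). (helper72)
-/

set_option autoImplicit false

namespace Cfsg.Agent.Lib.H72NgMat

open Matrix Polynomial

theorem zmod3 : ∀ z : ZMod 3, z * z = 1 → z ≠ 1 → z = -1 := by decide

variable {p : ℕ} [hp : Fact p.Prime]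

/-- the two unipotent matrices -/
def up {F : Type*} [Field F] (l : F) : SpecialLinearGroup (Fin 2) F := ⟨!![1, l; 0, 1], by simp⟩
def lo {F : Type*} [Field F] : SpecialLinearGroup (Fin 2) F := ⟨!![1, 0; 1, 1], by simp⟩
def dg {F : Type*} [Field F] (a : F) (ha : a ≠ 0) : SpecialLinearGroup (Fin 2) F :=
  ⟨!![a, 0; 0, a⁻¹], by simp [ha]⟩

theorem eq_neg_one_of_sq {F : Type*} [Field F] (h2 : (2 : F) ≠ 0) {g : SpecialLinearGroup (Fin 2) F}
    (hg : g * g = 1) (hne : g ≠ 1) : (g : Matrix (Fin 2) (Fin 2) F) = -1 := by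
  have hdet : (g 0 0) * (g 1 1) - (g 0 1) * (g 1 0) = 1 := by
    have := g.2
    rwa [Matrix.det_fin_two] at this
  have h00 : (g 0 0) * (g 0 0) + (g 0 1) * (g 1 0) = 1 := by
    have := congrArg (fun m : SpecialLinearGroup (Fin 2) F => (m : Matrix (Fin 2) (Fin 2) F) 0 0) hg
    simpa [Matrix.mul_apply, Fin.sum_univ_two] using this
  have h01 : (g 0 0) * (g 0 1) + (g 0 1) * (g 1 1) = 0 := by
    have := congrArg (fun m : SpecialLinearGroup (Fin 2) F => (m : Matrix (Fin 2) (Fin 2) F) 0 1) hg
    simpa [Matrix.mul_apply, Fin.sum_univ_two] using this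
  have h10 : (g 1 0) * (g 0 0) + (g 1 1) * (g 1 0) = 0 := by
    have := congrArg (fun m : SpecialLinearGroup (Fin 2) F => (m : Matrix (Fin 2) (Fin 2) F) 1 0) hg
    simpa [Matrix.mul_apply, Fin.sum_univ_two] using this
  have h11 : (g 1 0) * (g 0 1) + (g 1 1) * (g 1 1) = 1 := by
    have := congrArg (fun m : SpecialLinearGroup (Fin 2) F => (m : Matrix (Fin 2) (Fin 2) F) 1 1) hg
    simpa [Matrix.mul_apply, Fin.sum_univ_two] using this
  set a := g 0 0
  set b := g 0 1
  set c := g 1 0
  set d := g 1 1
  have htr : a + d ≠ 0 := by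
    intro h
    have e1 : d = -a := by linear_combination h
    rw [e1] at hdet
    apply h2
    linear_combination -hdet - h00
  have hb : b = 0 := by
    have : b * (a + d) = 0 := by linear_combination h01
    rcases mul_eq_zero.1 this with h | h
    · exact h
    · exact absurd h htr
  have hc : c = 0 := by
    have : c * (a + d) = 0 := by linear_combination h10
    rcases mul_eq_zero.1 this with h | h
    · exact h
    · exact absurd h htr
  rw [hb, hc] at hdet h00
  have had : a = d := by
    have h3 : a * (a - d) = 0 := by linear_combination h00 - hdet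
    have ha0 : a ≠ 0 := by
      rintro h
      rw [h] at hdet
      simp at hdet
    rcases mul_eq_zero.1 h3 with h | h
    · exact absurd h ha0
    · exact sub_eq_zero.1 h
  have h1 : (a - 1) * (a + 1) = 0 := by linear_combination h00
  rcases mul_eq_zero.1 h1 with h | h
  · exfalso
    apply hne
    have ha1 : a = 1 := sub_eq_zero.1 h
    ext i j
    fin_cases i <;> fin_cases j
    · exact ha1
    · exact hb
    · exact hc
    · exact had.symm.trans ha1
  · have ha1 : a = -1 := by linear_combination h
    ext i j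
    fin_cases i <;> fin_cases j
    · show a = _; simp [ha1]
    · show b = _; simp [hb]
    · show c = _; simp [hc]
    · show d = _; simp [← had, ha1]

theorem dg_mem (hp2 : p ≠ 2) {F : Type*} [Field F] [Finite F] [CharP F p] {l : F} (hl : l ≠ 0)
    (hgen : Subfield.closure ({l} : Set F) = ⊤) {a : F} {n : ℕ} (hn : orderOf (n : ZMod p) = p - 1)
    (ha : a = (n : F)) (ha0 : a ≠ 0) : dg a ha0 ∈ Subgroup.closure {up l, lo} := by
  classical
  have := Fintype.ofFinite F
  have h2 : (2 : F) ≠ 0 := by
    intro h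
    have h1 : ((2 : ℕ) : F) = 0 := by exact_mod_cast h
    rw [CharP.cast_eq_zero_iff F p] at h1
    exact hp2 ((Nat.prime_dvd_prime_iff_eq hp.out Nat.prime_two).1 h1)
  have hset : {g : SpecialLinearGroup (Fin 2) F | (g : Matrix (Fin 2) (Fin 2) F) = !![1, 0; 1, 1] ∨
      (g : Matrix (Fin 2) (Fin 2) F) = !![1, l; 0, 1]} = {up l, lo} := by
    ext g
    simp only [Set.mem_setOf_eq, Set.mem_insert_iff, Set.mem_singleton_iff]
    constructor
    · rintro (h | h)
      · right; exact Subtype.ext h
      · left; exact Subtype.ext h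
    · rintro (h | h)
      · right; rw [h]; rfl
      · left; rw [h]; rfl
  have hS := Cfsg.Agent.S0801.result h2 l hl hgen
  rw [hset] at hS
  rcases hS with ⟨h, -⟩ | ⟨hc, -, h⟩
  · rw [h]; exact Subgroup.mem_top _
  · -- the exceptional case
    have hp3 : p = 3 := by
      obtain ⟨k, hk⟩ := FiniteField.card' F
      have h9 : p ∣ 9 := by
        rw [← hc]
        obtain ⟨m, hm, hm2⟩ := FiniteField.card F p
        rw [hm2]
        exact dvd_pow_self p m.ne_zero
      have h9' : (9 : ℕ) = 3 ^ 2 := by norm_num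
      rw [h9'] at h9
      exact (Nat.prime_dvd_prime_iff_eq hp.out Nat.prime_three).1 (hp.out.dvd_of_dvd_pow h9)
    subst hp3
    obtain ⟨g, hg⟩ := exists_prime_orderOf_dvd_card' (G := Subgroup.closure {up l, (lo : SpecialLinearGroup (Fin 2) F)}) 2
      (by rw [h]; norm_num)
    have hg2 : (g : SpecialLinearGroup (Fin 2) F) * g = 1 := by
      have := pow_orderOf_eq_one g
      rw [hg, sq] at this
      exact congrArg Subtype.val this
    have hg1 : (g : SpecialLinearGroup (Fin 2) F) ≠ 1 := by
      intro h1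
      have : g = 1 := Subtype.ext h1
      rw [this, orderOf_one] at hg
      exact absurd hg (by norm_num)
    have h3 := eq_neg_one_of_sq h2 hg2 hg1
    have hn3 : (n : ZMod 3) = -1 := by
      have h4 : ∀ z : ZMod 3, orderOf z = 2 → z = -1 := by
        intro z hz
        have h5 := pow_orderOf_eq_one z
        rw [hz] at h5
        have h6 : z ≠ 1 := by
          rintro rfl
          rw [orderOf_one] at hz
          exact absurd hz (by norm_num)
        rw [sq] at h5
        exact zmod3 z h5 h6
      exact h4 _ hn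
    have ha1 : a = -1 := by
      rw [ha]
      have h5 : ((n + 1 : ℕ) : ZMod 3) = 0 := by push_cast; rw [hn3]; ring
      rw [ZMod.natCast_eq_zero_iff] at h5
      have h6 : ((n + 1 : ℕ) : F) = 0 := (CharP.cast_eq_zero_iff F 3 _).2 h5
      push_cast at h6
      linear_combination h6
    have h7 : dg a ha0 = (g : SpecialLinearGroup (Fin 2) F) := by
      apply Subtype.ext
      show !![a, 0; 0, a⁻¹] = (g : Matrix (Fin 2) (Fin 2) F)
      rw [h3, ha1]
      ext i j
      fin_cases i <;> fin_cases j <;> simp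
    rw [h7]; exact g.2

section adj
variable (f : (ZMod p)[X]) [hf : Fact (Irreducible f)]

instance : Finite (AdjoinRoot f) := by
  have h1 : Module.Finite (ZMod p) (AdjoinRoot f) := (AdjoinRoot.powerBasis hf.out.ne_zero).finite
  exact Module.finite_of_finite (ZMod p)

instance : CharP (AdjoinRoot f) p :=
  charP_of_injective_algebraMap (algebraMap (ZMod p) (AdjoinRoot f)).injective p

theorem closure_root : Subfield.closure ({AdjoinRoot.root f} : Set (AdjoinRoot f)) = ⊤ := by
  rw [eq_top_iff]
  intro z _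
  obtain ⟨g, rfl⟩ := AdjoinRoot.mk_surjective z
  set K := Subfield.closure ({AdjoinRoot.root f} : Set (AdjoinRoot f))
  have hr : AdjoinRoot.root f ∈ K := Subfield.subset_closure rfl
  rw [← AdjoinRoot.aeval_eq, Polynomial.aeval_eq_sum_range]
  refine sum_mem fun i _ => ?_
  rw [Algebra.smul_def]
  refine mul_mem ?_ (pow_mem hr i)
  have : algebraMap (ZMod p) (AdjoinRoot f) (g.coeff i) = ((g.coeff i).val : AdjoinRoot f) := by
    conv_lhs => rw [← ZMod.natCast_zmod_val (g.coeff i)]
    rw [map_natCast]
  rw [this]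
  exact natCast_mem K _

theorem dg_mem_root (hp2 : p ≠ 2) (h0 : AdjoinRoot.root f ≠ 0) {n : ℕ} (hn : orderOf (n : ZMod p) = p - 1)
    (hn0 : (n : AdjoinRoot f) ≠ 0) :
    dg (n : AdjoinRoot f) hn0 ∈ Subgroup.closure {up (AdjoinRoot.root f), lo} :=
  dg_mem hp2 h0 (closure_root f) hn rfl hn0

end adj

end Cfsg.Agent.Lib.H72NgMat
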