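import Cfsg.Agent.Lib.H72NgNon

/-!
`PZ`: the case `O_p = 1`.  (helper72)
-/

set_option autoImplicit false
set_option linter.unusedSectionVars false

namespace Cfsg.Agent.Lib.H72Ng

open Cfsg.Agent.Lib.CFSylow Cfsg.Agent.Lib.CFFusion Cfsg.Agent.Lib.CFControl
  Cfsg.Agent.Lib.CFLocal Cfsg.Agent.Lib.CFCore Cfsg.Agent.Lib.CFSection Cfsg.Agent.Lib.CFMin
  Cfsg.Agent.Lib.CFMain Cfsg.Agent.Lib.CFRed Cfsg.Agent.Lib.CFStmt
  Cfsg.Agent.Lib.GLARed Cfsg.Agent.Lib.ClosedPS Cfsg.Agent.Lib.ThompsonJ Cfsg.Agent.Lib.ZJThm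
  Cfsg.Agent.Lib.GLAMain

universe u
variable {p : ℕ} [Fact p.Prime] {X : Type u} [Group X] [Finite X]

/-- the Frattini argument for `NG` -/
theorem NG_frat {H P Z : Subgroup X} (hP : SylIn p P H) (hZ : Z ≤ zj P) (hHZ : H ≤ nz Z)
    (h : NG p (nz (zj P)) Z) : NG p H Z := by
  intro a ha n hn c hc he
  have hCH : H ≤ nz (H ⊓ cz Z) := by
    intro x hx
    rw [mem_normalizer, cj_inf, mem_normalizer.1 (Subgroup.le_normalizer hx), cj_centralizer,
      mem_normalizer.1 (hHZ hx)]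
  obtain ⟨l, hl, m, hm, rfl⟩ := frattini (hP.inf_normal inf_le_left hCH) inf_le_left hCH hn
  have hF : Fam 2 (fun A : Subgroup X => IsMulCommutative A) := fam_ab
  have hJ : J (fun A : Subgroup X => IsMulCommutative A) P ≤ P ⊓ (H ⊓ cz Z) := by
    refine sSup_le ?_
    intro A hA
    refine le_inf hA.1 (le_inf (hA.1.trans hP.le) ?_)
    have h2 := Subgroup.le_centralizer_iff_isMulCommutative.2 hA.2.1
    exact h2.trans (Subgroup.centralizer_le (hZ.trans (ZJ_le hA)))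
  have hmax := maxIn_eq_of_J_le (hF.nonempty P) (inf_le_left : P ⊓ (H ⊓ cz Z) ≤ P) hJ
  have hzj : zj (P ⊓ (H ⊓ cz Z)) = zj P := by unfold zj ZJ; rw [hmax]
  have hm' : m ∈ nz (zj P) := by
    rw [← hzj]; exact nz_le_nz_zj _ hm.2
  refine h a ha m hm' c hc ?_
  have h1 : m * c * m⁻¹ ∈ Z := (Subgroup.mem_normalizer_iff.1 (hHZ hm.1) c).1 hc
  have h2 := mem_centralizer.1 hl.2 _ h1
  rw [← he]
  calc m * c * m⁻¹ = l * (m * c * m⁻¹) * l⁻¹ := h2.symm
    _ = _ := by group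

/-- the subgroups of `Z(J(P))` we want -/
def Good (p : ℕ) (P E : Subgroup X) : Prop :=
  E ≤ zj P ∧ nz (zj P) ≤ nz E ∧ NG p (nz (zj P)) E

theorem exists_good (P : Subgroup X) : ∃ E, Good p P E ∧ ∀ E', Good p P E' → E' ≤ E := by
  classical
  have hne : {E | Good p P E}.Nonempty := by
    refine ⟨⊥, bot_le, ?_, ?_⟩
    · rw [show nz (⊥ : Subgroup X) = ⊤ from Subgroup.normalizer_eq_top _]; exact le_top
    · intro a _ n _ c hc _
      exact Subgroup.mem_bot.1 hc
  obtain ⟨E, hE, hmax⟩ := Set.exists_max_image {E | Good p P E} (fun E => Nat.card E) (Set.toFinite _) hne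
  refine ⟨E, hE, fun E' hE' => ?_⟩
  have h1 : Good p P (E ⊔ E') := by
    refine ⟨sup_le hE.1 hE'.1, ?_, NG.sup (zj_comm P) hE.1 hE'.1 hE.2.1 hE'.2.1 hE.2.2 hE'.2.2⟩
    intro x hx
    rw [mem_normalizer, cj_sup, mem_normalizer.1 (hE.2.1 hx), mem_normalizer.1 (hE'.2.1 hx)]
  have h2 := eq_of_le_of_card_le (le_sup_left : E ≤ E ⊔ E') (hmax _ h1)
  rw [h2]; exact le_sup_right

noncomputable def Zb (p : ℕ) [Fact p.Prime] (P : Subgroup X) : Subgroup X := Classical.choose (exists_good (p := p) P)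

theorem Zb_good (P : Subgroup X) : Good p P (Zb p P) := (Classical.choose_spec (exists_good (p := p) P)).1

theorem le_Zb {P E : Subgroup X} (h : Good p P E) : E ≤ Zb p P :=
  (Classical.choose_spec (exists_good (p := p) P)).2 E h

theorem NG_cj {N E : Subgroup X} (g : X) (h : NG p N E) : NG p (cj g N) (cj g E) := by
  intro a ha n hn c hc he
  rw [mem_cj] at hn hc
  have h1 := h a ha _ hn _ hc (by
    have e1 : g⁻¹ * n * g * (g⁻¹ * c * g) * (g⁻¹ * n * g)⁻¹ = g⁻¹ * (n * c * n⁻¹) * g := by group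
    rw [e1, he]
    have := conj_pow (i := a) (a := g⁻¹) (b := c)
    rw [inv_inv] at this
    exact this.symm)
  have e : c = g * (g⁻¹ * c * g) * g⁻¹ := by group
  rw [e, h1]; group

theorem Good_cj {P E : Subgroup X} (g : X) (h : Good p P E) : Good p (cj g P) (cj g E) := by
  refine ⟨?_, ?_, ?_⟩
  · rw [zj_cj]; exact cj_mono h.1
  · rw [zj_cj, ← cj_nz, ← cj_nz]; exact cj_mono h.2.1
  · rw [zj_cj, ← cj_nz]; exact NG_cj g h.2.2

theorem Zb_cj (g : X) (P : Subgroup X) : Zb p (cj g P) = cj g (Zb p P) := by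
  apply le_antisymm
  · have h1 := Good_cj g⁻¹ (Zb_good (p := p) (cj g P))
    rw [cj_inv_cj] at h1
    have h2 := le_Zb h1
    rw [cj_le_iff, inv_inv] at h2
    exact h2
  · exact le_Zb (Good_cj g (Zb_good P))

open Classical in
/-- the modified functor -/
noncomputable def Wt (p : ℕ) [Fact p.Prime] (S Z P : Subgroup X) : Subgroup X :=
  if h : ∃ g, P = cj g S then cj (Classical.choose h) Z
  else if Zb p P = ⊥ then zj P else Zb p P

theorem Wt_syl {S Z : Subgroup X} (hn : nz S ≤ nz Z) (g : X) : Wt p S Z (cj g S) = cj g Z := by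
  have h : ∃ g', cj g S = cj g' S := ⟨g, rfl⟩
  unfold Wt
  rw [dif_pos h]
  have h1 := Classical.choose_spec h
  generalize Classical.choose h = k at h1 ⊢
  have h2 : k⁻¹ * g ∈ nz S := by
    rw [mem_normalizer, ← cj_cj, h1, cj_inv_cj]
  have h3 := mem_normalizer.1 (hn h2)
  rw [← cj_cj, cj_eq_iff, inv_inv] at h3
  exact h3.symm

theorem Wt_self {S Z : Subgroup X} (hn : nz S ≤ nz Z) : Wt p S Z S = Z := by
  have := Wt_syl (p := p) hn 1
  rwa [cj_one, cj_one] at this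

theorem zj_ne_bot {P : Subgroup X} (hP : IsPGroup p P) (h : P ≠ ⊥) : zj P ≠ ⊥ := by
  have := functor_ne_bot (isConjugacyFunctor_induced (X := X) (isChar_Wab (p := p))) hP h
  rwa [ind_eq] at this

theorem Wt_functor {S Z : Subgroup X} (hn : nz S ≤ nz Z) (hZS : Z ≤ S) (hZ : Z ≠ ⊥) :
    Cfsg.IsConjugacyFunctor p (Wt p S Z) := by
  intro P hP
  refine ⟨?_, ?_, ?_⟩
  · by_cases h : ∃ g, P = cj g S
    · obtain ⟨g, rfl⟩ := h
      rw [Wt_syl hn]; exact cj_mono hZS
    · unfold Wt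
      rw [dif_neg h]
      split_ifs
      · exact zj_le P
      · exact (Zb_good P).1.trans (zj_le P)
  · intro hne
    by_cases h : ∃ g, P = cj g S
    · obtain ⟨g, rfl⟩ := h
      rw [Wt_syl hn]; exact cj_ne_bot hZ
    · unfold Wt
      rw [dif_neg h]
      split_ifs with h2
      · exact zj_ne_bot hP hne
      · exact h2
  · intro g
    show Wt p S Z (cj g P) = cj g (Wt p S Z P)
    by_cases h : ∃ g, P = cj g S
    · obtain ⟨k, rfl⟩ := h
      rw [cj_cj, Wt_syl hn, Wt_syl hn, cj_cj]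
    · have h' : ¬ ∃ k, cj g P = cj k S := by
        rintro ⟨k, hk⟩
        apply h
        refine ⟨g⁻¹ * k, ?_⟩
        rw [← cj_cj, ← hk, cj_inv_cj]
      unfold Wt
      rw [dif_neg h, dif_neg h', Zb_cj, zj_cj]
      by_cases h2 : Zb p P = ⊥
      · rw [if_pos h2, if_pos (by rw [h2, cj_bot])]
      · rw [if_neg h2, if_neg (cj_ne_bot h2)]

open Classical in
theorem Wt_neg {S Z P : Subgroup X} (h : ¬ ∃ g, P = cj g S) :
    Wt p S Z P = if Zb p P = ⊥ then zj P else Zb p P := by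
  unfold Wt; rw [dif_neg h]

theorem step_triv (IH : ∀ (Y : Type u) [Group Y] [Finite Y], Nat.card Y < Nat.card X → PZ p Y)
    (hQ0 : Cfsg.pCore p X = ⊥) : PZ p X := by
  intro S Z hS hZ hn hNG
  have hSp := hS.isPGroup
  have hSZ : S ≤ nz Z := (le_nz_zj S).trans hn
  have hZS : Z ≤ S := hZ.trans (zj_le S)
  by_cases hZb : Z = ⊥
  · subst hZb
    intro B _ h hh _
    refine ⟨h, ⟨Subgroup.mem_top _, ?_⟩, 1, one_mem _, by simp⟩
    rw [show nz (⊥ : Subgroup X) = ⊤ from Subgroup.normalizer_eq_top _]; exact Subgroup.mem_top _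
  have hnS : nz S ≤ nz Z := (nz_le_nz_zj S).trans hn
  have hW := Wt_functor (p := p) hnS hZS hZb
  have hWS := Wt_self (p := p) hnS
  set W := Wt p S Z with hWdef
  have hNG' : NG p (nz (zj S)) Z := hNG.mono hn le_rfl
  -- `Z ∩ Z(S)` is nontrivial
  have hZ0 : ∃ z ∈ Z ⊓ cz S, z ≠ 1 := by
    have hd : p ∣ Nat.card Z := by
      obtain ⟨n, hn⟩ := IsPGroup.iff_card.mp (hSp.to_le hZS)
      rw [hn]
      apply dvd_pow_self
      rintro rfl
      rw [pow_zero] at hn
      exact hZb (Subgroup.card_eq_one.mp hn)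
    obtain ⟨z, hz, hz1, hz2⟩ := H32PGroup.exists_fixed_of_normalizes hSp hSZ hd
    exact ⟨z, Subgroup.mem_inf.2 ⟨hz, Subgroup.mem_centralizer_iff.2 hz2⟩, hz1⟩
  have hcard : ∀ U : Subgroup X, U ≠ ⊥ → IsPGroup p U → nz U ≠ ⊤ := by
    intro U hU hUp h
    have h1 := le_pCore (p := p) (nz_eq_top_iff.1 h) hUp
    rw [hQ0, le_bot_iff] at h1
    exact hU h1
  rw [← hWS]
  apply sf_of_wellPlaced hW hS
  intro T hTne hT
  set D := Cfsg.functorTower W S T with hD
  have hTS := hT.1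
  have hsyl : ∀ i, SylIn p (S ⊓ nz (D i)) (nz (D i)) := wellPlaced_sylIn hSp hT
  have hDne : ∀ i, D i ≠ ⊥ := fun i => tower_ne_bot hW hSp hTS hTne i
  have hDS : ∀ i, D i ≤ S := fun i => tower_le hW hSp hTS i
  have hDp : ∀ i, IsPGroup p (D i) := fun i => hSp.to_le (hDS i)
  -- strong fusion from the claim
  have hsf : ∀ i, W (S ⊓ nz (D i)) ≤ zj (S ⊓ nz (D i)) → nz (zj (S ⊓ nz (D i))) ≤ nz (W (S ⊓ nz (D i))) →
      NG p (nz (zj (S ⊓ nz (D i)))) (W (S ⊓ nz (D i))) →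
      NG p (nz (D i) ⊓ nz (W (S ⊓ nz (D i)))) (W (S ⊓ nz (D i))) ∧
      SF (W (S ⊓ nz (D i))) (nz (D i)) (S ⊓ nz (D i)) := by
    intro i h1 h2 h3
    have h4 : NG p (nz (D i) ⊓ nz (W (S ⊓ nz (D i)))) (W (S ⊓ nz (D i))) := by
      refine NG_frat (P := S ⊓ nz (D i)) ?_ h1 inf_le_right h3
      refine (hsyl i).of_le (le_inf inf_le_right ?_) inf_le_left
      exact le_nz_functor hW (hSp.to_le inf_le_left)
    exact ⟨h4, sf_of_PZ (IH _ (card_subgroup_lt (hcard _ (hDne i) (hDp i)))) (hsyl i) h1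
      (inf_le_right.trans h2) h4⟩
  have claim : ∀ j i, i + j = Nat.card S + 1 → W (S ⊓ nz (D i)) ≤ zj (S ⊓ nz (D i)) ∧
      nz (zj (S ⊓ nz (D i))) ≤ nz (W (S ⊓ nz (D i))) ∧
      NG p (nz (zj (S ⊓ nz (D i)))) (W (S ⊓ nz (D i))) ∧ Z ⊓ cz S ≤ W (S ⊓ nz (D i)) := by
    have hfull : ∀ i, S ⊓ nz (D i) = S → W (S ⊓ nz (D i)) ≤ zj (S ⊓ nz (D i)) ∧
        nz (zj (S ⊓ nz (D i))) ≤ nz (W (S ⊓ nz (D i))) ∧
        NG p (nz (zj (S ⊓ nz (D i)))) (W (S ⊓ nz (D i))) ∧ Z ⊓ cz S ≤ W (S ⊓ nz (D i)) := by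
      intro i hi
      rw [hi, hWS]
      exact ⟨hZ, hn, hNG', inf_le_left⟩
    intro j
    induction j with
    | zero =>
      intro i hi
      exact hfull i (tower_stab hW hSp T i (by omega))
    | succ j ih =>
      intro i hi
      by_cases hconj : ∃ g, S ⊓ nz (D i) = cj g S
      · apply hfull
        obtain ⟨g, hg⟩ := hconj
        apply eq_of_le_of_card_le inf_le_left
        rw [hg, card_cj]
      obtain ⟨a1, a2, a3, a4⟩ := ih (i + 1) (by omega)
      obtain ⟨hng, hSF⟩ := hsf (i + 1) a1 a2 a3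
      have hDi : D (i + 1) = W (S ⊓ nz (D i)) := rfl
      have hWi := Wt_neg (p := p) (Z := Z) hconj
      rw [← hWdef] at hWi
      set P := S ⊓ nz (D i) with hP
      set P' := S ⊓ nz (D (i + 1)) with hP'
      have hPP' : P ≤ P' := tower_norm_le hW hSp T i
      have hnzD : nz (zj P) ≤ nz (D (i + 1)) := by
        rw [hDi, hWi]
        split_ifs
        · exact le_rfl
        · exact (Zb_good P).2.1
      have hdec : ∀ n ∈ nz (zj P), ∃ x ∈ nz (D (i + 1)) ⊓ nz (W P'), cj x (zj P) = zj P ∧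
          ∀ c ∈ zj P, n * c * n⁻¹ = x * c * x⁻¹ := by
        intro n hnn
        have hle : zj P ≤ P' := (zj_le P).trans hPP'
        obtain ⟨x, hx, c, hc, rfl⟩ := hSF (zj P) hle n (hnzD hnn) (by rw [mem_normalizer.1 hnn]; exact hle)
        refine ⟨x, hx, ?_, ?_⟩
        · have h1 := mem_normalizer.1 hnn
          rwa [← cj_cj, cj_of_centralizer hc] at h1
        · intro d hd
          have := mem_centralizer.1 hc d hd
          calc x * c * d * (x * c)⁻¹ = x * (c * d * c⁻¹) * x⁻¹ := by group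
            _ = _ := by rw [this]
      have hgood : Good p P (zj P ⊓ W P') := by
        refine ⟨inf_le_left, ?_, ?_⟩
        · intro n hnn
          obtain ⟨x, hx, hx1, hx2⟩ := hdec n hnn
          have h3 : cj n (zj P ⊓ W P') = cj x (zj P ⊓ W P') := by
            ext y
            constructor
            · rintro ⟨c, hc, rfl⟩
              exact ⟨c, hc, (hx2 c hc.1).symm⟩
            · rintro ⟨c, hc, rfl⟩
              exact ⟨c, hc, hx2 c hc.1⟩
          rw [mem_normalizer, h3, cj_inf, hx1, mem_normalizer.1 hx.2]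
        · intro a ha n hnn c hc he
          obtain ⟨x, hx, hx1, hx2⟩ := hdec n hnn
          rw [hx2 c hc.1] at he
          exact hng a ha x hx c hc.2 he
      have hle1 : zj P ⊓ W P' ≤ Zb p P := le_Zb hgood
      have hZc : Z ⊓ cz S ≤ zj P := by
        refine le_trans (le_inf ?_ ?_) (center_le_zj P)
        · refine le_inf (inf_le_left.trans hZS) ?_
          exact inf_le_right.trans ((Subgroup.centralizer_le (hDS i)).trans (centralizer_le_normalizer _))
        · exact inf_le_right.trans (Subgroup.centralizer_le inf_le_left)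
      have hZle : Z ⊓ cz S ≤ Zb p P := (le_inf hZc a4).trans hle1
      have hZbne : Zb p P ≠ ⊥ := by
        intro h
        obtain ⟨z, hz, hz1⟩ := hZ0
        have := hZle hz
        rw [h, Subgroup.mem_bot] at this
        exact hz1 this
      rw [if_neg hZbne] at hWi
      rw [hWi]
      exact ⟨(Zb_good P).1, (Zb_good P).2.1, (Zb_good P).2.2, hZle⟩
  obtain ⟨a1, a2, a3, -⟩ := claim (Nat.card S + 1) 0 (by omega)
  exact (hsf 0 a1 a2 a3).2

end Cfsg.Agent.Lib.H72Ng
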