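import Cfsg.Agent.Lib.H72NgTower

/-!
The constrained case: uniqueness of the conjugate of `Z` attached to a large abelian `p`-subgroup. (helper72)
-/

set_option autoImplicit false
set_option linter.unusedSectionVars false

namespace Cfsg.Agent.Lib.H72Ng

open Cfsg.Agent.Lib.CFSylow Cfsg.Agent.Lib.CFFusion Cfsg.Agent.Lib.CFControl
  Cfsg.Agent.Lib.CFLocal Cfsg.Agent.Lib.CFCore Cfsg.Agent.Lib.CFSection Cfsg.Agent.Lib.CFMin
  Cfsg.Agent.Lib.CFMain Cfsg.Agent.Lib.CFRed Cfsg.Agent.Lib.CFStmt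
  Cfsg.Agent.Lib.GLARed Cfsg.Agent.Lib.ClosedPS Cfsg.Agent.Lib.ThompsonJ Cfsg.Agent.Lib.ZJThm
  Cfsg.Agent.Lib.GLAMain

universe u
variable {p : ℕ} [Fact p.Prime] {X : Type u} [Group X] [Finite X]

/-- abelian `p`-subgroups of `X` of the largest order -/
def Ab (p : ℕ) (A : Subgroup X) : Prop :=
  IsPGroup p A ∧ IsMulCommutative A ∧ ∀ B : Subgroup X, IsPGroup p B → IsMulCommutative B → Nat.card B ≤ Nat.card A

/-- `J` -/
abbrev JJ (T : Subgroup X) : Subgroup X := J (fun A : Subgroup X => IsMulCommutative A) T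

theorem Ab.cj {A : Subgroup X} (h : Ab p A) (g : X) : Ab p (cj g A) := by
  refine ⟨isPGroup_cj h.1, ?_, fun B hB hBa => ?_⟩
  · exact (comm_map_iff (f := (MulAut.conj g).toMonoidHom) (MulAut.conj g).injective A).1 h.2.1
  · rw [card_cj]; exact h.2.2 B hB hBa

theorem ab_of_max {S A : Subgroup X} (hS : SylIn p S ⊤) (hA : A ∈ maxIn (fun A : Subgroup X => IsMulCommutative A) S) :
    Ab p A := by
  refine ⟨hS.isPGroup.to_le hA.1, hA.2.1, fun B hB hBa => ?_⟩
  obtain ⟨g, -, hg⟩ := hS.exists_conj_le hB le_top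
  have h1 := hA.2.2 _ hg ((comm_map_iff (f := (MulAut.conj g).toMonoidHom) (MulAut.conj g).injective B).1 hBa)
  rwa [card_cj] at h1

theorem max_of_ab {T A : Subgroup X} (hT : IsPGroup p T) (hA : Ab p A) (hAT : A ≤ T) :
    A ∈ maxIn (fun A : Subgroup X => IsMulCommutative A) T :=
  ⟨hAT, hA.2.1, fun B hB hBa => hA.2.2 B (hT.to_le hB) hBa⟩

theorem ab_of_max' {T A A₀ : Subgroup X} (hT : IsPGroup p T) (hA₀ : Ab p A₀) (hA₀T : A₀ ≤ T)
    (hA : A ∈ maxIn (fun A : Subgroup X => IsMulCommutative A) T) : Ab p A :=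
  ⟨hT.to_le hA.1, hA.2.1, fun B hB hBa => (hA₀.2.2 B hB hBa).trans (hA.2.2 A₀ hA₀T hA₀.2.1)⟩

theorem JJ_le_iff {T K A₀ : Subgroup X} (hT : IsPGroup p T) (hA₀ : Ab p A₀) (hA₀T : A₀ ≤ T) :
    JJ T ≤ K ↔ ∀ A, Ab p A → A ≤ T → A ≤ K := by
  constructor
  · intro h A hA hAT
    exact (le_J (max_of_ab hT hA hAT)).trans h
  · intro h
    exact sSup_le fun A hA => h A (ab_of_max' hT hA₀ hA₀T hA) hA.1

theorem JJ_cj (g : X) (T : Subgroup X) : JJ (cj g T) = cj g (JJ T) :=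
  J_map (f := (MulAut.conj g).toMonoidHom) (MulAut.conj g).injective (fun A => comm_map_iff (MulAut.conj g).injective A) T

theorem nz_le_JJ (T : Subgroup X) : nz T ≤ nz (JJ T) := by
  intro x hx
  rw [mem_normalizer] at hx ⊢
  rw [← JJ_cj, hx]

theorem nz_JJ_le (T : Subgroup X) : nz (JJ T) ≤ nz (zj T) := by
  have e : zj T = JJ T ⊓ cz (JJ T) := ZJ_ab_eq T
  intro x hx
  rw [e, mem_normalizer, cj_inf, cj_centralizer, mem_normalizer.1 hx]

theorem zj_anti {T T' A₀ : Subgroup X} (hT' : IsPGroup p T') (hTT : T ≤ T') (hA₀ : Ab p A₀) (hA₀T : A₀ ≤ T) :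
    zj T' ≤ zj T := by
  have hT := hT'.to_le hTT
  refine sInf_le_sInf fun A hA => ?_
  have h1 := ab_of_max' hT hA₀ hA₀T hA
  exact max_of_ab hT' h1 (hA.1.trans hTT)

section con
variable {S Z : Subgroup X}

/-- the hypotheses -/
structure Hyp (p : ℕ) [Fact p.Prime] (S Z : Subgroup X) : Prop where
  IH : ∀ (Y : Type u) [Group Y] [Finite Y], Nat.card Y < Nat.card X → PZ p Y
  hC : cz (Cfsg.pCore p X) ≤ Cfsg.pCore p X
  hS : SylIn p S ⊤
  hZ : Z ≤ zj S
  hn : nz (zj S) ≤ nz Z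
  hNG : NG p (nz Z) Z

variable (H : Hyp p S Z)
include H

theorem Hyp.Qle (g : X) : Cfsg.pCore p X ≤ cj g S := by
  have hQn : (Cfsg.pCore p X).Normal := pCore_normal p X
  rw [le_cj_iff, show cj g⁻¹ (Cfsg.pCore p X) = Cfsg.pCore p X from cj_normal]
  exact pCore_le H.hS

theorem Hyp.pg (g : X) : IsPGroup p (cj g S) := isPGroup_cj H.hS.isPGroup

theorem Hyp.sub {Y R Z' : Subgroup X} (hY : Y ≠ ⊤) (hQY : Cfsg.pCore p X ≤ Y) (hR : SylIn p R Y)
    (hZ' : Z' ≤ zj R) (hn' : Y ⊓ nz (zj R) ≤ nz Z') (hNG' : NG p (Y ⊓ nz Z') Z') : Y ≤ nz Z' := by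
  have hQn : (Cfsg.pCore p X).Normal := pCore_normal p X
  have hSF := sf_of_PZ (H.IH _ (card_subgroup_lt hY)) hR hZ' hn' hNG'
  have hQR : Cfsg.pCore p X ≤ R := by
    have h1 : IsPGroup p (R ⊔ Cfsg.pCore p X : Subgroup X) := hR.isPGroup.to_sup_of_normal_right pCore_isPGroup
    have h2 := hR.eq_of_le le_sup_left h1 (sup_le hR.le hQY)
    rw [h2]; exact le_sup_right
  have hRZ : R ≤ nz Z' := (le_inf hR.le (le_nz_zj R)).trans hn'
  intro y hy
  obtain ⟨x, hx, c, hc, rfl⟩ := hSF _ hQR y hy (by rw [cj_normal]; exact hQR)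
  exact mul_mem hx.2 (hRZ (hQR (H.hC hc)))

theorem Hyp.cj_Z_of {g h : X} (he : cj g S = cj h S) : cj g Z = cj h Z := by
  have h1 : h⁻¹ * g ∈ nz S := by rw [mem_normalizer, ← cj_cj, he, cj_inv_cj]
  have h2 := mem_normalizer.1 (H.hn (nz_le_nz_zj S h1))
  rw [← cj_cj, cj_eq_iff, inv_inv] at h2
  exact h2

theorem Hyp.nz_cj (g : X) : nz (zj (cj g S)) ≤ nz (cj g Z) := by
  rw [zj_cj, ← cj_nz, ← cj_nz]; exact cj_mono H.hn

/-- uniqueness -/
def Un (S Z T : Subgroup X) : Prop := ∀ g h : X, T ≤ cj g S → T ≤ cj h S → cj g Z = cj h Z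

omit H in
theorem Un.mono {T T' : Subgroup X} (h : Un S Z T) (hTT : T ≤ T') : Un S Z T' :=
  fun g k hg hk => h g k (hTT.trans hg) (hTT.trans hk)

/-- the main use of uniqueness -/
theorem Hyp.FR {Y R T₀ A : Subgroup X} {k : X} (hY : Y ≠ ⊤) (hQY : Cfsg.pCore p X ≤ Y) (hR : SylIn p R Y)
    (hRk : R ≤ cj k S) (hA : Ab p A) (hAR : A ≤ R) (hU : Un S Z T₀) (hT₀ : T₀ ≤ JJ R ⊔ Cfsg.pCore p X) :
    Y ≤ nz (cj k Z) := by
  have hQn : (Cfsg.pCore p X).Normal := pCore_normal p X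
  refine H.sub hY hQY hR ?_ ?_ ?_
  · refine le_trans ?_ (zj_anti (H.pg k) hRk hA hAR)
    rw [zj_cj]; exact cj_mono H.hZ
  · intro n hn
    have hRH : R ≤ Y ⊓ nz (zj R) := le_inf hR.le (le_nz_zj R)
    have hRs : SylIn p R (Y ⊓ nz (zj R)) := hR.of_le hRH inf_le_left
    have hCH : Y ⊓ nz (zj R) ≤ nz ((Y ⊓ nz (zj R)) ⊓ cz (zj R)) := by
      intro x hx
      rw [mem_normalizer, cj_inf, mem_normalizer.1 (Subgroup.le_normalizer hx), cj_centralizer,
        mem_normalizer.1 hx.2]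
    obtain ⟨l, hl, m, hm, rfl⟩ := frattini (hRs.inf_normal inf_le_left hCH) inf_le_left hCH hn
    have hZk : cj k Z ≤ zj R := by
      refine le_trans ?_ (zj_anti (H.pg k) hRk hA hAR)
      rw [zj_cj]; exact cj_mono H.hZ
    have hl' : l ∈ nz (cj k Z) := centralizer_le_normalizer _ (Subgroup.centralizer_le hZk hl.2)
    refine mul_mem hl' ?_
    have hJC : JJ R ≤ R ⊓ ((Y ⊓ nz (zj R)) ⊓ cz (zj R)) := by
      refine sSup_le fun A' hA' => ?_
      refine le_inf hA'.1 (le_inf (hA'.1.trans hRH) ?_)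
      have h2 := Subgroup.le_centralizer_iff_isMulCommutative.2 hA'.2.1
      exact h2.trans (Subgroup.centralizer_le (ZJ_le hA'))
    set C := R ⊓ ((Y ⊓ nz (zj R)) ⊓ cz (zj R)) with hC
    have hU' : Un S Z (C ⊔ Cfsg.pCore p X) := hU.mono (hT₀.trans (sup_le_sup_right hJC _))
    have hCk : C ⊔ Cfsg.pCore p X ≤ cj k S := sup_le (inf_le_left.trans hRk) (H.Qle k)
    have hm2 : cj m (C ⊔ Cfsg.pCore p X) = C ⊔ Cfsg.pCore p X := by
      rw [cj_sup, mem_normalizer.1 hm.2, show cj m (Cfsg.pCore p X) = Cfsg.pCore p X from cj_normal]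
    have h3 := hU' (m * k) k (by
      rw [← cj_cj, ← hm2]
      exact cj_mono hCk) hCk
    rw [mem_normalizer, cj_cj]
    exact h3
  · have h1 := NG_cj k H.hNG
    rw [cj_nz] at h1
    exact h1.mono inf_le_right le_rfl

/-- the uniqueness theorem, special form -/
theorem Hyp.unique_aux : ∀ (n : ℕ) (T A : Subgroup X), IsPGroup p T → Cfsg.pCore p X ≤ T → Ab p A → A ≤ T →
    ¬ A ≤ Cfsg.pCore p X → T ≤ JJ T ⊔ Cfsg.pCore p X → Nat.card X - Nat.card T = n → Un S Z T := by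
  have hQn : (Cfsg.pCore p X).Normal := pCore_normal p X
  set Q := Cfsg.pCore p X with hQ
  intro n
  induction n using Nat.strong_induction_on with
  | _ n ih =>
  intro T A hTp hQT hA hAT hAQ hTJ hcard
  have hJT : JJ T ≤ T := J_le
  have hTeq : T = JJ T ⊔ Q := le_antisymm hTJ (sup_le hJT hQT)
  have hnzJ : nz (JJ T) ≤ nz T := by
    intro x hx
    rw [mem_normalizer]
    conv_lhs => rw [hTeq]
    rw [cj_sup, mem_normalizer.1 hx, show cj x Q = Q from cj_normal, ← hTeq]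
  have hYt : nz T ≠ ⊤ := by
    intro h
    exact hAQ (hAT.trans (le_pCore (nz_eq_top_iff.1 h) hTp))
  have hQY : Q ≤ nz T := hQT.trans Subgroup.le_normalizer
  have hTX : ∀ T' : Subgroup X, Nat.card T' ≤ Nat.card X := fun T' => by
    have := card_le_of_le (le_top : T' ≤ ⊤); rwa [Subgroup.card_top] at this
  -- (α)
  have hα : ∀ g, T ≤ cj g S → JJ (cj g S ⊓ nz T) ≤ T → cj g S ≤ nz T := by
    intro g hTg hJ
    have hNp : IsPGroup p (cj g S ⊓ nz T : Subgroup X) := (H.pg g).to_le inf_le_left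
    have hTN : T ≤ cj g S ⊓ nz T := le_inf hTg Subgroup.le_normalizer
    have hJe : JJ (cj g S ⊓ nz T) = JJ T := by
      apply le_antisymm
      · rw [JJ_le_iff hNp hA (hAT.trans hTN)]
        intro A' hA' hA'N
        exact le_J (max_of_ab hTp hA' ((le_J (max_of_ab hNp hA' hA'N)).trans hJ))
      · rw [JJ_le_iff hTp hA hAT]
        intro A' hA' hA'T
        exact le_J (max_of_ab hNp hA' (hA'T.trans hTN))
    have h1 : nz (cj g S ⊓ nz T) ≤ nz T := by
      refine (nz_le_JJ _).trans ?_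
      rw [hJe]; exact hnzJ
    have h2 := eq_of_inf_normalizer_le (H.pg g) (inf_le_left : cj g S ⊓ nz T ≤ cj g S)
      (inf_le_inf_left _ h1)
    rw [← h2]; exact inf_le_right
  by_cases hI : ∃ g, T ≤ cj g S ∧ JJ (cj g S ⊓ nz T) ≤ T
  · -- case I
    obtain ⟨g, hTg, hJg⟩ := hI
    have hgY := hα g hTg hJg
    rw [inf_eq_left.2 hgY] at hJg
    have hJe : JJ (cj g S) = JJ T := by
      apply le_antisymm
      · rw [JJ_le_iff (H.pg g) hA (hAT.trans hTg)]
        intro A' hA' hA'N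
        exact le_J (max_of_ab hTp hA' ((le_J (max_of_ab (H.pg g) hA' hA'N)).trans hJg))
      · rw [JJ_le_iff hTp hA hAT]
        intro A' hA' hA'T
        exact le_J (max_of_ab (H.pg g) hA' (hA'T.trans hTg))
    have hSg : SylIn p (cj g S) (nz T) := by
      have := H.hS.conj g
      rw [cj_top] at this
      exact this.of_le hgY le_top
    have claim : ∀ h, T ≤ cj h S → cj h Z = cj g Z := by
      intro h hTh
      have hNp : IsPGroup p (cj h S ⊓ nz T : Subgroup X) := (H.pg h).to_le inf_le_left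
      obtain ⟨y, hy, hyle⟩ := hSg.exists_conj_le hNp inf_le_right
      have hTN : T ≤ cj h S ⊓ nz T := le_inf hTh Subgroup.le_normalizer
      have hJh : JJ (cj h S ⊓ nz T) ≤ T := by
        rw [JJ_le_iff hNp hA (hAT.trans hTN)]
        intro A' hA' hA'N
        have h1 : cj y A' ≤ cj g S := (cj_mono hA'N).trans hyle
        have h2 : cj y A' ≤ T := (le_J (max_of_ab (H.pg g) (hA'.cj y) h1)).trans hJg
        rw [cj_le_iff, mem_normalizer.1 (inv_mem hy)] at h2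
        exact h2
      have hhY := hα h hTh hJh
      rw [inf_eq_left.2 hhY] at hyle
      have h3 : cj y (cj h S) = cj g S := eq_of_le_of_card_le hyle (by rw [card_cj, card_cj, card_cj])
      rw [cj_cj] at h3
      have h4 := H.cj_Z_of h3
      have h5 : y ∈ nz (cj g Z) := by
        apply H.nz_cj g
        apply nz_JJ_le
        rw [hJe]
        exact nz_le_JJ T hy
      rw [← cj_cj, cj_eq_iff, mem_normalizer.1 (inv_mem h5)] at h4
      exact h4
    intro g1 g2 h1 h2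
    rw [claim g1 h1, claim g2 h2]
  · -- case II
    push Not at hI
    -- uniqueness for the larger subgroups
    have hbig : ∀ g, T ≤ cj g S → Un S Z (JJ (cj g S ⊓ nz T) ⊔ Q) := by
      intro g hTg
      have hNp : IsPGroup p (cj g S ⊓ nz T : Subgroup X) := (H.pg g).to_le inf_le_left
      have hTN : T ≤ cj g S ⊓ nz T := le_inf hTg Subgroup.le_normalizer
      obtain ⟨T', hT'⟩ : ∃ T', T' = JJ (cj g S ⊓ nz T) ⊔ Q := ⟨_, rfl⟩
      rw [← hT']
      have hT'S : T' ≤ cj g S := by rw [hT']; exact sup_le (J_le.trans inf_le_left) (H.Qle g)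
      have hT'p : IsPGroup p T' := (H.pg g).to_le hT'S
      have hJJ : JJ T ≤ JJ (cj g S ⊓ nz T) := by
        rw [JJ_le_iff hTp hA hAT]
        intro A' hA' hA'T
        exact le_J (max_of_ab hNp hA' (hA'T.trans hTN))
      have hJ1 : JJ (cj g S ⊓ nz T) ≤ T' := by rw [hT']; exact le_sup_left
      have hQ1 : Q ≤ T' := by rw [hT']; exact le_sup_right
      have hTT' : T ≤ T' := hTJ.trans (sup_le (hJJ.trans hJ1) hQ1)
      have hlt : T < T' := by
        refine lt_of_le_of_ne hTT' ?_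
        intro h
        apply hI g hTg
        exact hJ1.trans h.ge
      have hc := card_lt_of_lt hlt
      have hJT' : JJ (cj g S ⊓ nz T) ≤ JJ T' := by
        rw [JJ_le_iff hNp hA (hAT.trans hTN)]
        intro A' hA' hA'N
        exact le_J (max_of_ab hT'p hA' ((le_J (max_of_ab hNp hA' hA'N)).trans hJ1))
      have h1 := hTX T'
      have h2 : T' ≤ JJ T' ⊔ Q := by
        refine hT'.le.trans (sup_le (hJT'.trans le_sup_left) le_sup_right)
      exact ih (Nat.card X - Nat.card T') (by omega) T' A hT'p hQ1 hA (hAT.trans hTT') hAQ h2 rfl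
    intro g1 g2 h1 h2
    have hN1p : IsPGroup p (cj g1 S ⊓ nz T : Subgroup X) := (H.pg g1).to_le inf_le_left
    obtain ⟨R, hR, hR1⟩ := exists_sylIn_ge hN1p (inf_le_right : cj g1 S ⊓ nz T ≤ nz T)
    obtain ⟨k, -, hk⟩ := H.hS.exists_conj_le hR.isPGroup le_top
    have hRk : R ≤ cj k⁻¹ S := by rw [le_cj_iff, inv_inv]; exact hk
    have hTN1 : T ≤ cj g1 S ⊓ nz T := le_inf h1 Subgroup.le_normalizer
    have hZ1 : cj g1 Z = cj k⁻¹ Z := by
      apply hbig g1 h1
      · exact sup_le (J_le.trans inf_le_left) (H.Qle g1)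
      · exact sup_le (J_le.trans (hR1.trans hRk)) (H.Qle _)
    have hJR : JJ (cj g1 S ⊓ nz T) ≤ JJ R := by
      rw [JJ_le_iff hN1p hA (hAT.trans hTN1)]
      intro A' hA' hA'N
      exact le_J (max_of_ab hR.isPGroup hA' (hA'N.trans hR1))
    have hYZ : nz T ≤ nz (cj k⁻¹ Z) :=
      H.FR hYt hQY hR hRk hA ((hAT.trans hTN1).trans hR1) (hbig g1 h1) (sup_le_sup_right hJR _)
    have hN2p : IsPGroup p (cj g2 S ⊓ nz T : Subgroup X) := (H.pg g2).to_le inf_le_left
    obtain ⟨y, hy, hyR⟩ := hR.exists_conj_le hN2p inf_le_right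
    have hZ2 : cj g2 Z = cj (y⁻¹ * k⁻¹) Z := by
      apply hbig g2 h2
      · exact sup_le (J_le.trans inf_le_left) (H.Qle g2)
      · refine sup_le (J_le.trans ?_) (H.Qle _)
        rw [← cj_cj, le_cj_iff, inv_inv]
        exact hyR.trans hRk
    rw [hZ1, hZ2, ← cj_cj, mem_normalizer.1 (hYZ (inv_mem hy))]

theorem Hyp.unique {A : Subgroup X} (hA : Ab p A) (hAQ : ¬ A ≤ Cfsg.pCore p X) {g₀ : X} (hg₀ : A ≤ cj g₀ S) :
    Un S Z (A ⊔ Cfsg.pCore p X) := by
  have hle : A ⊔ Cfsg.pCore p X ≤ cj g₀ S := sup_le hg₀ (H.Qle g₀)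
  have hp' : IsPGroup p (A ⊔ Cfsg.pCore p X : Subgroup X) := (H.pg g₀).to_le hle
  refine H.unique_aux _ _ A hp' le_sup_right hA le_sup_left hAQ ?_ rfl
  exact sup_le_sup_right (le_J (max_of_ab hp' hA le_sup_left)) _

/-- every proper subgroup containing `Q A` normalises the conjugate of `Z`. -/
theorem Hyp.MX {A Y : Subgroup X} (hA : Ab p A) (hAQ : ¬ A ≤ Cfsg.pCore p X) {g : X} (hg : A ≤ cj g S)
    (hY : Y ≠ ⊤) (hQY : Cfsg.pCore p X ≤ Y) (hAY : A ≤ Y) : Y ≤ nz (cj g Z) := by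
  obtain ⟨R, hR, hAR⟩ := exists_sylIn_ge hA.1 hAY
  obtain ⟨k, -, hk⟩ := H.hS.exists_conj_le hR.isPGroup le_top
  have hRk : R ≤ cj k⁻¹ S := by rw [le_cj_iff, inv_inv]; exact hk
  have hU := H.unique hA hAQ hg
  have h1 : cj g Z = cj k⁻¹ Z := hU g k⁻¹ (sup_le hg (H.Qle g)) (sup_le (hAR.trans hRk) (H.Qle _))
  rw [h1]
  exact H.FR hY hQY hR hRk hA hAR hU (sup_le_sup_right (le_J (max_of_ab hR.isPGroup hA hAR)) _)

end con

end Cfsg.Agent.Lib.H72Ng
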