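import Cfsg.Prelude.Def_Classical
import Cfsg.Prelude.Def_EvenType

/-!
# The conclusion about the outer involutions of a group with a distinguished set
-/

set_option autoImplicit false

namespace Cfsg.Agent.Lib.H89GA

open Cfsg

/-- the conclusion -/
def Stmt (G : Type*) [Group G] (D : Set G) : Prop :=
  ∃ (s : MulAut G) (a b : G) (Cs : Subgroup G), orderOf s = 2 ∧ s ∉ (MulAut.conj : G →* MulAut G).range ∧ (∀ g : G, g ∈ Cs ↔ s g = g) ∧ Nonempty (↥Cs ≃* MulAut (Cfsg.Omega (ZMod 2) (Cfsg.quadFormPlus 4 (ZMod 2)))) ∧ a ∈ D ∧ b ∈ D ∧ a ≠ b ∧ Commute a b ∧ s a = a ∧ s b = b ∧ (∀ t : MulAut G, orderOf t = 2 → t ∉ (MulAut.conj : G →* MulAut G).range → (IsConj t s ∨ IsConj t (s * MulAut.conj a) ∨ IsConj t (s * MulAut.conj (a * b)))) ∧ ¬ IsConj s (s * MulAut.conj a) ∧ ¬ IsConj s (s * MulAut.conj (a * b)) ∧ ¬ IsConj (s * MulAut.conj a) (s * MulAut.conj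 (a * b)) ∧ (∀ g : G, (s * MulAut.conj a) g = g ↔ g ∈ Cs ⊓ Subgroup.centralizer ({a} : Set G)) ∧ Nonempty (↥(Cs ⊓ Subgroup.centralizer ({a} : Set G)) ≃* Multiplicative (ZMod 2) × Cfsg.PSp 3 (ZMod 2)) ∧ ∃ Csab O : Subgroup G, (∀ g : G, g ∈ Csab ↔ (s * MulAut.conj (a * b)) g = g) ∧ O = (Cfsg.pCore 2 ↥Csab).map Csab.subtype ∧ Cfsg.IsElementaryAbelian 2 O ∧ Nat.card O = 64 ∧ ∃ _ : (O.subgroupOf Csab).Normal, Nonempty (↥Csab ⧸ O.subgroupOf Csab ≃* Cfsg.isometryGroup (ZMod 2) (Cfsg.quadFormMinus 2 (ZMod 2) 1 1))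

end Cfsg.Agent.Lib.H89GA
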