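import Cfsg.Agent.Lib.H89GC2
import Cfsg.Agent.Lib.H89GA0
import Cfsg.Agent.Lib.Fi22OutE

/-!
# The action of automorphisms of the presented group `Fi₂₂` on lanes
-/

set_option autoImplicit false
set_option linter.all false

namespace Cfsg.Agent.Lib.H89GA

open Cfsg.Spor Cfsg.Agent.Lib.BenesPerm Cfsg.Agent.Lib.BenesAct Cfsg.Agent.Lib.BenesWord Cfsg.Agent.Lib.BenesPlane
open Cfsg.Agent.Lib.Fi22NetsA Cfsg.Agent.Lib.LaneTools Cfsg.Agent.Lib.TransLanes Cfsg.Agent.Lib.Fi22Out

/-- the group -/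
abbrev P : Type := GF

instance finP : Finite P := fin_GF
instance finA : Finite (MulAut P) := fin_Aut

/-- the action on lanes -/
noncomputable def φ : P →* Equiv.Perm ℕ := Classical.choose exists_ctx
theorem CC : Ctx xx φ nets 12 3510 9 pt rc := (Classical.choose_spec exists_ctx).1

/-- the involution of a lane -/
noncomputable def T (l : ℕ) : P := CC.T l

theorem c_nets : netsCheck (2 ^ 12) nets = true := CC.hns

theorem T_map {l : ℕ} (hl : l < 3510) (g : P) : T (φ g l) = g * T l * g⁻¹ := CC.T_map hl g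
theorem T_inj {l m : ℕ} (hl : l < 3510) (hm : m < 3510) (h : T l = T m) : l = m := CC.T_inj hl hm h
theorem T_sq {l : ℕ} (hl : l < 3510) : T l * T l = 1 := CC.T_sq hl
theorem φ_lt (g : P) {l : ℕ} (hl : l < 3510) : φ g l < 3510 := CC.hlt g l hl
theorem fix_iff {l : ℕ} (hl : l < 3510) (g : P) : φ g l = l ↔ g * T l = T l * g := CC.fix_iff hl g
theorem T_pt {c : ℕ} (hc : c < 9) : T (pt c) = xx c := CC.T_pt hc
theorem φ_word (w : List ℕ) (i : ℕ) : φ (Wx xx w) i = wfn nets w i := CC.φ_word w i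
theorem exists_lane {l : ℕ} (hl : l < 3510) : ∃ g : P, φ g 0 = l := CC.htr l hl

/-- the diagram automorphism -/
noncomputable def aut : MulAut P := Classical.choose exists_aut
theorem aut_x {c : ℕ} (hc : c < 9) : aut (xx c) = xx (sw c) := Classical.choose_spec exists_aut c hc

/-- letters in the automorphism group -/
noncomputable def yy (c : ℕ) : MulAut P := if c < 9 then MulAut.conj (xx c) else if c = 9 then aut else 1

theorem yy_lt {c : ℕ} (hc : c < 9) : yy c = MulAut.conj (xx c) := if_pos hc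
theorem yy_nine : yy 9 = aut := by unfold yy; rw [if_neg (by norm_num), if_pos rfl]

/-- lane action of an automorphism -/
def Lact (α : MulAut P) (f : ℕ → ℕ) : Prop := ∀ l, l < 3510 → f l < 3510 ∧ α (T l) = T (f l)

theorem Lact_conj (g : P) : Lact (MulAut.conj g) (φ g) := fun l hl => ⟨φ_lt g hl, by rw [T_map hl]; rfl⟩

theorem φ_aut (g : P) : φ (aut g) = tp * φ g * tp⁻¹ := by
  have h2 : φ.comp (aut : P →* P) = (MulAut.conj tp).toMonoidHom.comp φ := by
    apply MonoidHom.eq_of_eqOn_dense closure_xx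
    rintro _ ⟨c, hc, rfl⟩
    show φ (aut (xx c)) = tp * φ (xx c) * tp⁻¹
    rw [aut_x hc, CC.hφ, CC.hφ, tp_conj c hc]
    have h3 := hx2 (sw c) (sw_lt hc)
    have h4 : sperm nets (sw c) * sperm nets (sw c) = 1 := by rw [← CC.hφ, ← map_mul, h3, map_one]
    exact eq_inv_of_mul_eq_one_left h4
  exact DFunLike.congr_fun h2 g

theorem tp_lt {l : ℕ} (hl : l < 3510) : tp l < 3510 := by
  obtain ⟨g, rfl⟩ := exists_lane hl
  have h : tp (φ g 0) = φ (aut g) (pt 6) := by
    rw [φ_aut]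
    have ht0 : tp (pt 0) = pt 6 := by rw [tp_apply]; exact laneK_spec ns2_check tau_pt
    rw [← ht0, Equiv.Perm.mul_apply, Equiv.Perm.mul_apply]
    have e2 : tp⁻¹ (tp (pt 0)) = pt 0 := by rw [← Equiv.Perm.mul_apply, inv_mul_cancel]; rfl
    rw [e2]; rfl
  rw [h]
  exact φ_lt _ (pt_lt 6 (by norm_num))

theorem Lact_aut : Lact aut (wfn ns2 [9]) := by
  intro l hl
  have h0 : wfn ns2 [9] l = tp l := (tp_apply l).symm
  rw [h0]
  refine ⟨tp_lt hl, ?_⟩
  obtain ⟨g, rfl⟩ := exists_lane hl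
  have ht0 : tp (pt 0) = pt 6 := by rw [tp_apply]; exact laneK_spec ns2_check tau_pt
  have h : tp (φ g 0) = φ (aut g) (pt 6) := by
    rw [φ_aut, ← ht0, Equiv.Perm.mul_apply, Equiv.Perm.mul_apply]
    have e2 : tp⁻¹ (tp (pt 0)) = pt 0 := by rw [← Equiv.Perm.mul_apply, inv_mul_cancel]; rfl
    rw [e2]; rfl
  rw [h, T_map (pt_lt 6 (by norm_num)), T_map (by norm_num), map_mul, map_mul, map_inv]
  have h1 : T 0 = xx 0 := T_pt (c := 0) (by norm_num)
  rw [h1, aut_x (by norm_num), T_pt (by norm_num)]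
  rfl

theorem Lact_mul {α β : MulAut P} {f g : ℕ → ℕ} (h1 : Lact α f) (h2 : Lact β g) : Lact (α * β) (fun l => f (g l)) := by
  intro l hl
  obtain ⟨a1, a2⟩ := h2 l hl
  obtain ⟨b1, b2⟩ := h1 _ a1
  exact ⟨b1, by rw [MulAut.mul_apply, a2, b2]⟩

theorem Lact_one : Lact 1 id := fun l hl => ⟨hl, rfl⟩

theorem Lact_letter {c : ℕ} (hc : c < 10) : Lact (yy c) (wfn ns2 [c]) := by
  rcases Nat.lt_or_ge c 9 with h | h
  · rw [yy_lt h]
    have h1 : ∀ l, wfn ns2 [c] l = φ (xx c) l := by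
      intro l
      rw [CC.hφ, ← sperm_ns2 c h]
      have h2 := prod_sperm_apply (ns := ns2) (hok ns2_check) [c] l
      rw [List.map_cons, List.map_nil, List.prod_singleton] at h2
      exact h2.symm
    intro l hl
    rw [h1]
    exact Lact_conj _ l hl
  · have h9 : c = 9 := by omega
    subst h9
    rw [yy_nine]; exact Lact_aut

theorem Lact_word : ∀ (w : List ℕ), (∀ c ∈ w, c < 10) → Lact (Wx yy w) (wfn ns2 w)
  | [], _ => Lact_one
  | c :: w, h => by
    rw [Wx_cons]
    have h1 := Lact_mul (Lact_letter (h c List.mem_cons_self)) (Lact_word w (fun d hd => h d (List.mem_cons_of_mem _ hd)))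
    have h2 : wfn ns2 (c :: w) = fun l => wfn ns2 [c] (wfn ns2 w l) := by
      funext l; exact wfn_append ns2 [c] w l
    rw [h2]; exact h1

/-- words in the letters of the group -/
theorem Wx_conj : ∀ (w : List ℕ), (∀ c ∈ w, c < 9) → Wx yy w = MulAut.conj (Wx xx w)
  | [], _ => (map_one _).symm
  | c :: w, h => by
    rw [Wx_cons, Wx_cons, map_mul, yy_lt (h c List.mem_cons_self), Wx_conj w (fun d hd => h d (List.mem_cons_of_mem _ hd))]

/-- automorphisms agreeing on lanes are equal -/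
theorem ext_lanes {α β : MulAut P} (h : ∀ l, l < 3510 → α (T l) = β (T l)) : α = β := by
  have h2 : (α : P →* P) = (β : P →* P) := by
    apply MonoidHom.eq_of_eqOn_dense closure_xx
    rintro _ ⟨c, hc, rfl⟩
    show α (xx c) = β (xx c)
    rw [← T_pt hc]
    exact h _ (pt_lt c hc)
  ext x
  exact DFunLike.congr_fun h2 x

theorem one_of_rel {w : List ℕ} (hw : ∀ c ∈ w, c < 10) (h : relK ns2 12 w = true) : Wx yy w = 1 := by
  apply ext_lanes
  intro l hl
  rw [(Lact_word w hw l hl).2, wfn_of_relK ns2_check rfl h]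
  rfl

/-- every automorphism permutes the involutions of the lanes -/
theorem exists_act (α : MulAut P) : ∃ f : ℕ → ℕ, Lact α f := by
  have h : ∀ l, l < 3510 → ∃ m, m < 3510 ∧ α (T l) = T m := by
    intro l hl
    obtain ⟨m, hm, h1⟩ := char_letters CC α 0 (by norm_num)
    obtain ⟨g, rfl⟩ := exists_lane hl
    refine ⟨φ (α g) m, φ_lt _ hm, ?_⟩
    have h2 : T 0 = xx 0 := T_pt (c := 0) (by norm_num)
    rw [T_map (by norm_num), map_mul, map_mul, map_inv, T_map hm, h2, h1]; rfl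
  classical
  choose! f hf using h
  exact ⟨f, hf⟩

theorem commute_iff {l m : ℕ} (hl : l < 3510) (hm : m < 3510) : Commute (T l) (T m) ↔ φ (T l) m = m :=
  (fix_iff hm (T l)).symm

/-- involution of a lane entry -/
theorem T_entry {e : LE} (h : leK e = true) : e.1 < 3510 ∧ T e.1 = Wx xx (tw e) ∧ (∀ c ∈ tw e, c < 9) := by
  unfold leK at h
  rw [bandK_eq_true, bandK_eq_true] at h
  obtain ⟨h1, h2, h3⟩ := h
  have hc : e.2.1 < 9 := Nat.le_of_ble_eq_true h2
  have hw := letK_spec h1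
  have h4 := CC.T_word hc (laneK_spec c_nets h3)
  refine ⟨h4.1, ?_, ?_⟩
  · show CC.T e.1 = _
    rw [h4.2]
    unfold tw
    rw [Wx_append, Wx_cons, Wx_reverse (fun c hc' => hx2 c (hw c hc')), mul_assoc]
  · intro c hc'
    unfold tw at hc'
    rcases List.mem_append.1 hc' with h5 | h5
    · exact hw c h5
    · rcases List.mem_cons.1 h5 with rfl | h6
      · exact hc
      · exact hw c (List.mem_reverse.1 h6)

theorem lesK_spec : ∀ {l : List LE}, lesK l = true → ∀ e ∈ l, leK e = true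
  | [], _, e, he => absurd he (by simp)
  | e' :: l, h, e, he => by
    change bandK (leK e') (lesK l) = true at h
    rw [bandK_eq_true] at h
    rcases List.mem_cons.1 he with rfl | he
    · exact h.1
    · exact lesK_spec h.2 e he

/-- the outer involution -/
noncomputable def s : MulAut P := Wx yy ws

theorem ws_lt : ∀ c ∈ ws, c < 10 := by decide +kernel
theorem wsa_lt : ∀ c ∈ wsa, c < 10 := by decide +kernel
theorem wsab_lt : ∀ c ∈ wsab, c < 10 := by decide +kernel

theorem s_sq : s * s = 1 := by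
  have h := one_of_rel (w := ws ++ ws) (fun c hc => by
    rcases List.mem_append.1 hc with h | h
    · exact ws_lt c h
    · exact ws_lt c h) ss_rel
  rwa [Wx_append] at h

theorem Tz : T 0 = xx 0 := T_pt (c := 0) (by norm_num)
theorem T40 : T 40 = xx 4 := T_pt (c := 4) (by norm_num)

theorem Lact_s : Lact s (wfn ns2 ws) := Lact_word ws ws_lt

theorem sa_eq : s * MulAut.conj (T 0) = Wx yy wsa := by
  unfold wsa s
  rw [Wx_append, Tz, Wx_cons, Wx_nil, mul_one, yy_lt (by norm_num)]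

theorem sab_eq : s * MulAut.conj (T 0 * T 40) = Wx yy wsab := by
  unfold wsab s
  rw [Wx_append, Tz, T40, Wx_cons, Wx_cons, Wx_nil, mul_one, yy_lt (by norm_num), yy_lt (by norm_num), map_mul]

theorem Lact_sa : Lact (s * MulAut.conj (T 0)) (wfn ns2 wsa) := by rw [sa_eq]; exact Lact_word _ wsa_lt
theorem Lact_sab : Lact (s * MulAut.conj (T 0 * T 40)) (wfn ns2 wsab) := by rw [sab_eq]; exact Lact_word _ wsab_lt

/-- fixed lanes of `s` -/
theorem s_fix {l : ℕ} (hl : l < 3510) : R360.testBit l = true ↔ s (T l) = T l := by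
  rw [(Lact_s l hl).2, fixOK_spec ns2_check n_le fix360 hl]
  exact ⟨fun h => by rw [h], fun h => T_inj (Lact_s l hl).1 hl h⟩

theorem sa_fix {l : ℕ} (hl : l < 3510) : R64.testBit l = true ↔ (s * MulAut.conj (T 0)) (T l) = T l := by
  rw [(Lact_sa l hl).2, fixOK_spec ns2_check n_le fix64 hl]
  exact ⟨fun h => by rw [h], fun h => T_inj (Lact_sa l hl).1 hl h⟩

theorem sab_fix {l : ℕ} (hl : l < 3510) : R72.testBit l = true ↔ (s * MulAut.conj (T 0 * T 40)) (T l) = T l := by
  rw [(Lact_sab l hl).2, fixOK_spec ns2_check n_le fix72 hl]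
  exact ⟨fun h => by rw [h], fun h => T_inj (Lact_sab l hl).1 hl h⟩

theorem s_T0 : s (T 0) = T 0 := (s_fix (by norm_num)).1 (by decide +kernel)
theorem s_T40 : s (T 40) = T 40 := (s_fix (by norm_num)).1 (by decide +kernel)

theorem s_not_inner : s ∉ (MulAut.conj : P →* MulAut P).range := by
  rintro ⟨g, hg⟩
  have h1 : s = MulAut.conj (Wx xx gw) * aut * (MulAut.conj (Wx xx gw))⁻¹ := by
    have hgw := letK_spec gw_let
    unfold s ws
    rw [Wx_append, Wx_cons, yy_nine, Wx_conj gw hgw, Wx_conj gw.reverse (fun c hc => hgw c (List.mem_reverse.1 hc)),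
      Wx_reverse (fun c hc => hx2 c (hgw c hc)), map_inv, mul_assoc]
  have h2 : aut = MulAut.conj ((Wx xx gw)⁻¹ * g * Wx xx gw) := by
    rw [map_mul, map_mul, hg, h1, map_inv]; group
  apply not_inner ((Wx xx gw)⁻¹ * g * Wx xx gw)
  intro c hc
  rw [← aut_x hc, h2]
  rfl

theorem s_ne : s ≠ 1 := fun h => s_not_inner (by rw [h]; exact ⟨1, map_one _⟩)
theorem s_order : orderOf s = 2 := orderOf_eq_prime (by rw [pow_two]; exact s_sq) s_ne

/-- an orbit check -/
theorem reach_spec {W : List (List ℕ)} {H : Subgroup P} (hW : ∀ w ∈ W, Wx xx w ∈ H) {st : List ℕ} {p M : ℕ}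
    (h : reachK nets (stp W st) (2 ^ p) (fun V => Nat.beq V M) = true) {i : ℕ} (hi : M.testBit i = true) :
    ∃ g ∈ H, φ g p = i := by
  rw [reachK_eq] at h
  have h1 := Nat.eq_of_beq_eq_true h
  rw [← h1] at hi
  refine reach_subset (hok c_nets) (O := fun i => ∃ g ∈ H, φ g p = i) (stp W st) ?_ (2 ^ p) ?_ i hi
  · intro w hw j hj
    obtain ⟨g, hg, hj⟩ := hj
    obtain ⟨k, hk, rfl⟩ := List.mem_map.1 hw
    have hm : Wx xx (W.getD k []) ∈ H := by
      rcases Nat.lt_or_ge k W.length with h2 | h2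
      · rw [List.getD_eq_getElem _ _ h2]; exact hW _ (List.getElem_mem h2)
      · rw [List.getD_eq_default _ _ h2]; exact H.one_mem
    refine ⟨(Wx xx (W.getD k []))⁻¹ * g, H.mul_mem (H.inv_mem hm) hg, ?_⟩
    rw [map_mul, map_inv, Equiv.Perm.mul_apply, hj, Equiv.Perm.inv_eq_iff_eq, φ_word]
  · intro j hj
    rw [Nat.testBit_two_pow, decide_eq_true_eq] at hj
    exact ⟨1, H.one_mem, by rw [map_one]; exact hj⟩

end Cfsg.Agent.Lib.H89GA
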