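import Cfsg.Agent.Lib.H73BaseC
import Cfsg.Agent.Lib.H89GA1

/-!
# The group generated by a base of the presented group `Fi₂₂` acts regularly (helper73 for helper89)
-/

set_option autoImplicit false
set_option linter.all false
set_option maxRecDepth 100000

namespace Cfsg.Agent.Lib.H73Base

open Cfsg.Spor Cfsg.Agent.Lib.BenesPerm Cfsg.Agent.Lib.BenesAct Cfsg.Agent.Lib.BenesWord Cfsg.Agent.Lib.BenesPlane
open Cfsg.Agent.Lib.Fi22NetsA Cfsg.Agent.Lib.LaneTools Cfsg.Agent.Lib.TransLanes Cfsg.Agent.Lib.Fi22Out Cfsg.Agent.Lib.H89GA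

/-- entries of the base -/
abbrev bt (n : ℕ) : LE := BT.getD n (0, 0, [])
/-- involutions of the base -/
noncomputable abbrev tb (n : ℕ) : P := T (BL.getD n 0)

theorem bl_lt : ∀ n < 22, BL.getD n 0 < 3510 := by decide +kernel
theorem bt_mem : ∀ n < 22, bt n ∈ BT := by decide +kernel
theorem zip_mem : ∀ n < 22, (bt n, cd.getD n 0) ∈ BT.zip cd := by decide +kernel
theorem zip_mem' : ∀ n < 22, (bt n, FBm.getD n 0) ∈ BT.zip FBm := by decide +kernel
theorem ck_mem : ∀ k < 10, (k, CMs.getD k 0) ∈ CK := by decide +kernel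
theorem bb : ∀ i < 22, ∀ j < 22, (FBm.getD i 0).testBit (BL.getD j 0) = true := by decide +kernel
theorem gle : lesK gtL = true := by decide +kernel
theorem gt_mem : ∀ j < 23, gtL.getD j (0, 0, []) ∈ gtL := by decide +kernel
theorem gt1 : ∀ j < 22, (gtL.getD j (0, 0, [])).1 = BL.getD j 0 := by decide +kernel
theorem gt22 : (gtL.getD 22 (0, 0, [])).1 = 75 := by decide +kernel
theorem cl_75 : CL.testBit 75 = true := by decide +kernel
theorem cm_75 : ∀ k < 10, (CMs.getD k 0).testBit 75 = false := by decide +kernel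
theorem bits : (List.range 1024).all (fun x => Nat.beq ((List.range 10).foldr (fun k a => Nat.xor (if x.testBit k then 2 ^ k else 0) a) 0) x) =
    true := by decide +kernel

theorem tb_eq {n : ℕ} (hn : n < 22) : tb n = Wx xx (tw (bt n)) := by
  have h := T_entry (lesK_spec le_BT (bt n) (bt_mem n hn))
  rw [tb, ← bt_bl n hn]
  exact h.2.1

theorem φ_tb {n : ℕ} (hn : n < 22) (l : ℕ) : φ (tb n) l = wfn nets (tw (bt n)) l := by
  rw [tb_eq hn, φ_word]

theorem cwK_spec {w : List ℕ} {c : ℕ} : ∀ {l : List (ℕ × ℕ)}, cwK w c l = true → ∀ e ∈ l,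
    appW nets w e.2 = e.2 ^^^ (if c.testBit e.1 then CL else 0)
  | [], _, e, he => absurd he (by simp)
  | e' :: l, h, e, he => by
    change bandK (walkK nets w e'.2 (fun V => Nat.beq V (Nat.xor e'.2 (Bool.rec (motive := fun _ => ℕ) 0 CL (Nat.testBit c e'.1)))))
      (cwK w c l) = true at h
    rw [bandK_eq_true] at h
    rcases List.mem_cons.1 he with rfl | he
    · have h1 := h.1
      rw [walkK_eq] at h1
      have h2 := Nat.eq_of_beq_eq_true h1
      rw [h2]
      show Nat.xor e.2 _ = Nat.xor e.2 _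
      congr 1
      cases c.testBit e.1 <;> rfl
    · exact cwK_spec h.2 e he

theorem cwsK_spec : ∀ {l : List (LE × ℕ)}, cwsK l = true → ∀ e ∈ l, cwK (tw e.1) e.2 CK = true ∧ appW nets (tw e.1) CL = CL
  | [], _, e, he => absurd he (by simp)
  | e' :: l, h, e, he => by
    change bandK (cwK (tw e'.1) e'.2 CK) (bandK (walkK nets (tw e'.1) CL (fun V => Nat.beq V CL)) (cwsK l)) = true at h
    rw [bandK_eq_true, bandK_eq_true] at h
    obtain ⟨h1, h2, h3⟩ := h
    rcases List.mem_cons.1 he with rfl | he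
    · rw [walkK_eq] at h2
      exact ⟨h1, Nat.eq_of_beq_eq_true h2⟩
    · exact cwsK_spec h3 e he

theorem fbK_spec : ∀ {l : List (LE × ℕ)}, fbK l = true → ∀ e ∈ l, fixOK nets (tw e.1) 12 3510 e.2 = true
  | [], _, e, he => absurd he (by simp)
  | e' :: l, h, e, he => by
    change bandK (fixOK nets (tw e'.1) 12 3510 e'.2) (fbK l) = true at h
    rw [bandK_eq_true] at h
    rcases List.mem_cons.1 he with rfl | he
    · exact h.1
    · exact fbK_spec h.2 e he

theorem fb_iff {n l : ℕ} (hn : n < 22) (hl : l < 3510) : (FBm.getD n 0).testBit l = true ↔ Commute (tb n) (T l) := by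
  have h := fixOK_spec c_nets n_le (fbK_spec fb _ (zip_mem' n hn)) hl
  rw [h, commute_iff (bl_lt n hn) hl, φ_tb hn]

theorem orK_testBit : ∀ (l : List ℕ) (i : ℕ), (orK l).testBit i = true ↔ ∃ a ∈ l, a.testBit i = true
  | [], i => by
    show (0 : ℕ).testBit i = true ↔ _
    simp
  | a :: l, i => by
    change (a ||| orK l).testBit i = true ↔ _
    rw [Nat.testBit_or, Bool.or_eq_true, orK_testBit l i]
    constructor
    · rintro (h | ⟨b, hb, h⟩)
      · exact ⟨a, List.mem_cons_self, h⟩
      · exact ⟨b, List.mem_cons_of_mem _ hb, h⟩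
    · rintro ⟨b, hb, h⟩
      rcases List.mem_cons.1 hb with rfl | hb
      · exact Or.inl h
      · exact Or.inr ⟨b, hb, h⟩

theorem fbm_len : FBm.length = 22 := by decide +kernel
theorem cms_len : CMs.length = 10 := by decide +kernel

theorem cl_iff {l : ℕ} (hl : l < 3510) : CL.testBit l = true ↔ ∀ n < 22, ¬ Commute (tb n) (T l) := by
  have h1 : (2 ^ 3510 - 1) ^^^ orK FBm = CL := Nat.eq_of_beq_eq_true cl_eq
  rw [← h1, Nat.testBit_xor, Nat.testBit_two_pow_sub_one]
  have h2 : decide (l < 3510) = true := by simpa using hl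
  rw [h2]
  constructor
  · intro h n hn hc
    have h3 := (fb_iff hn hl).2 hc
    have h4 : (orK FBm).testBit l = true := (orK_testBit _ _).2 ⟨_, by
      rw [List.getD_eq_getElem _ _ (by rw [fbm_len]; exact hn)]
      exact List.getElem_mem _, h3⟩
    rw [h4] at h
    simp at h
  · intro h
    have h4 : (orK FBm).testBit l = false := by
      rw [Bool.eq_false_iff]
      intro h5
      obtain ⟨a, ha, hal⟩ := (orK_testBit _ _).1 h5
      obtain ⟨n, hn, rfl⟩ := List.mem_iff_getElem.1 ha
      have hn' : n < 22 := by rw [fbm_len] at hn; exact hn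
      apply h n hn'
      rw [← fb_iff hn' hl, List.getD_eq_getElem _ _ hn]
      exact hal
    rw [h4]; rfl

theorem eq_l0 {l : ℕ} (h : CL.testBit l = true) (hc : ∀ k < 10, (CMs.getD k 0).testBit l = false) : l = 75 := by
  have h1 : CL ^^^ (CL &&& orK CMs) = 2 ^ 75 := Nat.eq_of_beq_eq_true l0_eq
  have h2 : (orK CMs).testBit l = false := by
    rw [Bool.eq_false_iff]
    intro h5
    obtain ⟨a, ha, hal⟩ := (orK_testBit _ _).1 h5
    obtain ⟨n, hn, rfl⟩ := List.mem_iff_getElem.1 ha
    have hn' : n < 10 := by rw [cms_len] at hn; exact hn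
    have h6 := hc n hn'
    rw [List.getD_eq_getElem _ _ hn, hal] at h6
    exact absurd h6 (by simp)
  have h3 : (CL ^^^ (CL &&& orK CMs)).testBit l = true := by
    rw [Nat.testBit_xor, Nat.testBit_and, h, h2]; rfl
  rw [h1, Nat.testBit_two_pow, decide_eq_true_eq] at h3
  exact h3.symm

/-- elements of the group of the base with their coordinates -/
structure Co (g : P) (x : ℕ) : Prop where
  cm : ∀ n < 22, Commute g (tb n)
  cl : ∀ l, CL.testBit l = true → CL.testBit (φ g l) = true
  co : ∀ l, CL.testBit l = true → ∀ k < 10, (CMs.getD k 0).testBit (φ g l) = (((CMs.getD k 0).testBit l) ^^ (x.testBit k))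

theorem Co.one : Co 1 0 := by
  refine ⟨fun n hn => Commute.one_left _, fun l hl => by rw [map_one]; exact hl, fun l hl k hk => ?_⟩
  rw [map_one]
  simp

theorem Co.mul {g h : P} {x y : ℕ} (hg : Co g x) (hh : Co h y) : Co (g * h) (x ^^^ y) := by
  refine ⟨fun n hn => (hg.cm n hn).mul_left (hh.cm n hn), fun l hl => ?_, fun l hl k hk => ?_⟩
  · rw [map_mul, Equiv.Perm.mul_apply]
    exact hg.cl _ (hh.cl _ hl)
  · rw [map_mul, Equiv.Perm.mul_apply, hg.co _ (hh.cl _ hl) k hk, hh.co l hl k hk, Nat.testBit_xor]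
    cases (CMs.getD k 0).testBit l <;> cases x.testBit k <;> cases y.testBit k <;> rfl

theorem Co.tb {n : ℕ} (hn : n < 22) : Co (tb n) (cd.getD n 0) := by
  obtain ⟨h1, h2⟩ := cwsK_spec cws _ (zip_mem n hn)
  refine ⟨fun m hm => (fb_iff hn (bl_lt m hm)).1 (bb n hn m hm), fun l hl => ?_, fun l hl k hk => ?_⟩
  · rw [φ_tb hn, ← testBit_appW (hok c_nets), h2]
    exact hl
  · have h3 := cwK_spec h1 _ (ck_mem k hk)
    rw [φ_tb hn, ← testBit_appW (hok c_nets), h3, Nat.testBit_xor]
    congr 1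
    show (if (cd.getD n 0).testBit k = true then CL else 0).testBit l = _
    cases (cd.getD n 0).testBit k
    · simp
    · simpa using hl

/-- automorphisms fixing the involutions of the base and one more are trivial -/
theorem gen {β : MulAut P} (h1 : ∀ n < 22, β (tb n) = tb n) (h2 : β (T 75) = T 75) : β = 1 := by
  have hfix : ∀ j < 23, β (T (gtL.getD j (0, 0, [])).1) = T (gtL.getD j (0, 0, [])).1 := by
    intro j hj
    rcases Nat.lt_or_ge j 22 with h | h
    · rw [gt1 j h]; exact h1 j h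
    · have : j = 22 := by omega
      subst this
      rw [gt22]; exact h2
  have hW : ∀ j < 23, β (Wx xx (tw (gtL.getD j (0, 0, [])))) = Wx xx (tw (gtL.getD j (0, 0, []))) := by
    intro j hj
    have h := T_entry (lesK_spec gle _ (gt_mem j hj))
    rw [← h.2.1]
    exact hfix j hj
  have hgp : ∀ p : List ℕ, (∀ j ∈ p, j < 23) → β (Wx xx (gpW p)) = Wx xx (gpW p) := by
    intro p
    induction p with
    | nil => intro _; exact map_one β
    | cons j p ih =>
      intro h
      have e : gpW (j :: p) = tw (gtL.getD j (0, 0, [])) ++ gpW p := List.flatMap_cons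
      rw [e, Wx_append, map_mul, hW j (h j List.mem_cons_self), ih (fun i hi => h i (List.mem_cons_of_mem _ hi))]
  have h3 : (β : P →* P) = ((1 : MulAut P) : P →* P) := by
    apply MonoidHom.eq_of_eqOn_dense closure_xx
    rintro _ ⟨c, hc, rfl⟩
    show β (xx c) = xx c
    obtain ⟨g1, g2⟩ := gp_lt c hc
    have hl : (gtL.getD (GP.getD c (0, [])).1 (0, 0, [])).1 < 3510 := (T_entry (lesK_spec gle _ (gt_mem _ g1))).1
    have h4 : T (pt c) = Wx xx (gpW (GP.getD c (0, [])).2) * T (gtL.getD (GP.getD c (0, [])).1 (0, 0, [])).1 *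
        (Wx xx (gpW (GP.getD c (0, [])).2))⁻¹ := by
      rw [← T_map hl, φ_word, laneK_spec c_nets (gp c hc)]
    rw [← T_pt hc, h4, map_mul, map_mul, map_inv, hgp _ g2, hfix _ g1]
  ext x
  exact DFunLike.congr_fun h3 x

theorem conj_one {g : P} (h : MulAut.conj g = 1) : g = 1 := by
  apply hcen CC g
  intro x
  have h1 : g * x * g⁻¹ = x := DFunLike.congr_fun h x
  exact mul_inv_eq_iff_eq_mul.1 h1

theorem Co.eq_one {g : P} (h : Co g 0) : g = 1 := by
  apply conj_one
  have h0 : φ g 75 = 75 := eq_l0 (h.cl 75 cl_75) (fun k hk => by rw [h.co 75 cl_75 k hk, cm_75 k hk]; simp)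
  apply gen
  · intro n hn
    rw [MulAut.conj_apply, (h.cm n hn).eq, mul_inv_cancel_right]
  · rw [MulAut.conj_apply, ← T_map (by norm_num), h0]

theorem Co.sq {g : P} {x : ℕ} (h : Co g x) : g * g = 1 := by
  have := h.mul h
  rw [Nat.xor_self] at this
  exact this.eq_one

theorem Co.inj {g h : P} {x : ℕ} (hg : Co g x) (hh : Co h x) : g = h := by
  have := hg.mul hh
  rw [Nat.xor_self] at this
  have h1 := this.eq_one
  have h2 := hg.sq
  exact (mul_left_cancel (h2.trans h1.symm))

theorem Co.prod (a : ℕ → P) (c : ℕ → ℕ) : ∀ (L : List ℕ), (∀ k ∈ L, Co (a k) (c k)) →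
    Co ((L.map a).prod) (L.foldr (fun k s => Nat.xor (c k) s) 0)
  | [], _ => Co.one
  | k :: L, h => by
    rw [List.map_cons, List.prod_cons, List.foldr_cons]
    exact (h k List.mem_cons_self).mul (Co.prod a c L (fun j hj => h j (List.mem_cons_of_mem _ hj)))

/-- the element with given coordinates -/
noncomputable def mm (x : ℕ) : P := ((List.range 10).map (fun k => if x.testBit k then T (BL.getD (bs.getD k 0) 0) else 1)).prod

theorem co_mm {x : ℕ} (hx : x < 1024) : Co (mm x) x := by
  have h := Co.prod (fun k => if x.testBit k then T (BL.getD (bs.getD k 0) 0) else 1) (fun k => if x.testBit k then 2 ^ k else 0)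
    (List.range 10) (by
      intro k hk
      have hk' := List.mem_range.1 hk
      show Co (if x.testBit k then T (BL.getD (bs.getD k 0) 0) else 1) (if x.testBit k then 2 ^ k else 0)
      cases x.testBit k
      · exact Co.one
      · have h1 := Co.tb (bs_lt k hk')
        rw [cd_bs k hk'] at h1
        exact h1)
  have h1 := List.all_eq_true.1 bits x (List.mem_range.2 hx)
  rw [Nat.eq_of_beq_eq_true h1] at h
  exact h

theorem s_tb {n : ℕ} (hn : n < 22) : s (tb n) = tb (sB.getD n 0) := by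
  rw [tb, (Lact_s _ (bl_lt n hn)).2, laneK_spec ns2_check (sact n hn)]

theorem co_smm (x : ℕ) : Co (s (mm x)) (Sx x) := by
  have h := Co.prod (fun k => s (if x.testBit k then T (BL.getD (bs.getD k 0) 0) else 1))
    (fun k => if x.testBit k then cd.getD (sB.getD (bs.getD k 0) 0) 0 else 0)
    (List.range 10) (by
      intro k hk
      have hk' := List.mem_range.1 hk
      show Co (s (if x.testBit k then T (BL.getD (bs.getD k 0) 0) else 1)) (if x.testBit k then cd.getD (sB.getD (bs.getD k 0) 0) 0 else 0)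
      cases x.testBit k
      · show Co (s 1) 0
        rw [map_one]
        exact Co.one
      · show Co (s (tb (bs.getD k 0))) (cd.getD (sB.getD (bs.getD k 0) 0) 0)
        rw [s_tb (bs_lt k hk')]
        exact Co.tb (sb_lt _ (bs_lt k hk')))
  have e : s (mm x) = ((List.range 10).map (fun k => s (if x.testBit k then T (BL.getD (bs.getD k 0) 0) else 1))).prod := by
    unfold mm
    rw [map_list_prod, List.map_map]
    rfl
  rw [e]
  exact h

theorem exists_bits (b : ℕ → Bool) : ∀ n, ∃ x < 2 ^ n, ∀ k < n, x.testBit k = b k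
  | 0 => ⟨0, by norm_num, fun k hk => absurd hk (by omega)⟩
  | n + 1 => by
    obtain ⟨x, hx, h⟩ := exists_bits b n
    refine ⟨x ||| (if b n then 2 ^ n else 0), ?_, ?_⟩
    · apply Nat.or_lt_two_pow
      · exact lt_of_lt_of_le hx (Nat.pow_le_pow_right (by norm_num) (by omega))
      · split_ifs
        · exact Nat.pow_lt_pow_right (by norm_num) (by omega)
        · positivity
    · intro k hk
      rw [Nat.testBit_or]
      rcases Nat.lt_or_ge k n with h1 | h1
      · rw [h k h1]
        have : (if b n then 2 ^ n else 0).testBit k = false := by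
          split_ifs
          · rw [Nat.testBit_two_pow]
            simpa using (by omega : ¬ n = k)
          · simp
        rw [this, Bool.or_false]
      · have : k = n := by omega
        subst this
        rw [Nat.testBit_lt_two_pow hx, Bool.false_or]
        cases b k <;> simp

/-- **automorphisms fixing the involutions of the base** -/
theorem cent_base (α : MulAut P) (h : ∀ i < 22, α (T (BL.getD i 0)) = T (BL.getD i 0)) : ∃ x < 1024, α = MulAut.conj (mm x) := by
  obtain ⟨f, hf⟩ := exists_act α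
  obtain ⟨hm, hm'⟩ := hf 75 (by norm_num)
  obtain ⟨m, hme⟩ : ∃ m, m = f 75 := ⟨_, rfl⟩
  rw [← hme] at hm hm'
  have hCL : CL.testBit m = true := by
    rw [cl_iff hm]
    intro n hn hc
    refine (cl_iff (by norm_num)).1 cl_75 n hn ?_
    apply α.injective
    rw [map_mul, map_mul, h n hn, hm']
    exact hc
  obtain ⟨x, hx, hxk⟩ := exists_bits (fun k => (CMs.getD k 0).testBit m) 10
  have C := co_mm hx
  have h0 : φ (mm x) m = 75 := eq_l0 (C.cl m hCL) (fun k hk => by rw [C.co m hCL k hk, hxk k hk, Bool.xor_self])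
  refine ⟨x, hx, ?_⟩
  have hβ : MulAut.conj (mm x) * α = 1 := by
    apply gen
    · intro n hn
      rw [MulAut.mul_apply, h n hn, MulAut.conj_apply, (C.cm n hn).eq, mul_inv_cancel_right]
    · rw [MulAut.mul_apply, hm', MulAut.conj_apply, ← T_map hm, h0]
  have h1 : α = (MulAut.conj (mm x))⁻¹ := eq_inv_of_mul_eq_one_right hβ
  rw [h1, ← map_inv, inv_eq_of_mul_eq_one_left C.sq]

theorem s_conj (g : P) : s * MulAut.conj g = MulAut.conj (s g) * s := by
  ext y
  show s (g * y * g⁻¹) = s g * s y * (s g)⁻¹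
  rw [map_mul, map_mul, map_inv]

theorem fin_aux {τ k1 : MulAut P} {v k2 o : P} (h1 : k1 * τ * k1⁻¹ = MulAut.conj v * s) (hv : s v = v) (hk : s k2 = k2)
    (ho : k2 * v * k2⁻¹ = o) : (MulAut.conj k2 * k1) * τ * (MulAut.conj k2 * k1)⁻¹ = s * MulAut.conj o := by
  have e1 : s o = o := by rw [← ho, map_mul, map_mul, map_inv, hk, hv]
  calc (MulAut.conj k2 * k1) * τ * (MulAut.conj k2 * k1)⁻¹ = MulAut.conj k2 * (k1 * τ * k1⁻¹) * (MulAut.conj k2)⁻¹ := by group
    _ = MulAut.conj k2 * MulAut.conj v * (s * MulAut.conj k2⁻¹) := by rw [h1, ← map_inv]; group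
    _ = MulAut.conj (k2 * v * k2⁻¹) * s := by
      rw [s_conj, map_inv s, hk, map_mul, map_mul]; group
    _ = s * MulAut.conj o := by rw [ho, s_conj, e1]

theorem fl'_mem : ∀ i ∈ FL', i ∈ FL := by decide +kernel
theorem fl_lt : ∀ i ∈ FL, BL.getD i 0 < 3510 := by decide +kernel

/-- **the last step** -/
theorem final_v (tr1 : ∀ l < 3510, R360.testBit l = true → ∃ k : P, s k = k ∧ k * T l * k⁻¹ = T 0)
    (tr2 : ∀ l < 3510, R63.testBit l = true → ∃ k : P, s k = k ∧ k * T 0 * k⁻¹ = T 0 ∧ k * T l * k⁻¹ = T 40)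
    (x : ℕ) (hx : x < 1024) (h : (MulAut.conj (mm x) * s) * (MulAut.conj (mm x) * s) = 1) :
    ∃ (k : MulAut P) (o : P), k * (MulAut.conj (mm x) * s) * k⁻¹ = s * MulAut.conj o ∧ (o = 1 ∨ o = T 0 ∨ o = T 0 * T 40) := by
  have C := co_mm hx
  have CS := co_smm x
  have h1 : mm x * s (mm x) = 1 := by
    apply conj_one
    calc MulAut.conj (mm x * s (mm x)) = MulAut.conj (mm x) * (MulAut.conj (s (mm x)) * s) * s := by
          rw [map_mul, mul_assoc, mul_assoc (MulAut.conj (s (mm x))), s_sq, mul_one]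
      _ = MulAut.conj (mm x) * (s * MulAut.conj (mm x)) * s := by rw [s_conj]
      _ = (MulAut.conj (mm x) * s) * (MulAut.conj (mm x) * s) := by group
      _ = 1 := h
  have hSx : Sx x < 1024 := Nat.le_of_ble_eq_true (List.all_eq_true.1 sx_lt x (List.mem_range.2 hx))
  have h2 : Sx x = x := by
    apply Nat.eq_of_testBit_eq
    intro k
    rcases Nat.lt_or_ge k 10 with hk | hk
    · have h3 := (C.mul CS).co 75 cl_75 k hk
      rw [h1, map_one, Equiv.Perm.one_apply, cm_75 k hk, Nat.testBit_xor] at h3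
      revert h3
      cases x.testBit k <;> cases (Sx x).testBit k <;> simp
    · have hb : ∀ j < 1024, j.testBit k = false := fun j hj =>
        Nat.testBit_lt_two_pow (lt_of_lt_of_le hj (by
          calc 1024 = 2 ^ 10 := by norm_num
            _ ≤ 2 ^ k := Nat.pow_le_pow_right (by norm_num) hk))
      rw [hb _ hSx, hb _ hx]
  have h3 := List.all_eq_true.1 lin x (List.mem_range.2 hx)
  have h4 : (YL.any (fun y => RL.any (fun r => Nat.beq x (Nat.xor y (Nat.xor r (Sx y)))))) = true := by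
    have h5 : Nat.beq (Sx x) x = true := by rw [h2]; exact Nat.beq_refl x
    rw [h5] at h3
    simpa using h3
  obtain ⟨y, hy, h5⟩ := List.any_eq_true.1 h4
  obtain ⟨r, hr, h6⟩ := List.any_eq_true.1 h5
  have hxy : x = y ^^^ (r ^^^ Sx y) := Nat.eq_of_beq_eq_true h6
  have hy' := yl_lt y hy
  have Cy := co_mm hy'
  have CSy := co_smm y
  have Cv : Co (mm y * mm x * s (mm y)) r := by
    have := (Cy.mul C).mul CSy
    have e : (y ^^^ x) ^^^ Sx y = r := by
      rw [hxy]
      apply Nat.eq_of_testBit_eq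
      intro i
      simp only [Nat.testBit_xor]
      cases y.testBit i <;> cases r.testBit i <;> cases (Sx y).testBit i <;> rfl
    rwa [e] at this
  have hk1 : MulAut.conj (mm y) * (MulAut.conj (mm x) * s) * (MulAut.conj (mm y))⁻¹ = MulAut.conj (mm y * mm x * s (mm y)) * s := by
    rw [← map_inv, inv_eq_of_mul_eq_one_left Cy.sq, mul_assoc, mul_assoc (MulAut.conj (mm x)), s_conj, map_mul, map_mul]
    group
  obtain ⟨v, hv⟩ : ∃ v, v = mm y * mm x * s (mm y) := ⟨_, rfl⟩
  rw [← hv] at Cv hk1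
  have hcase : r = 0 ∨ (∃ i ∈ FL, r = cd.getD i 0) ∨ (∃ i ∈ FL', r = Nat.xor (cd.getD 0 0) (cd.getD i 0)) := by
    rcases List.mem_cons.1 hr with h7 | h7
    · exact Or.inl h7
    · rcases List.mem_append.1 h7 with h8 | h8
      · obtain ⟨i, hi, h9⟩ := List.mem_map.1 h8
        exact Or.inr (Or.inl ⟨i, hi, h9.symm⟩)
      · obtain ⟨i, hi, h9⟩ := List.mem_map.1 h8
        exact Or.inr (Or.inr ⟨i, hi, h9.symm⟩)
  rcases hcase with rfl | ⟨i, hi, rfl⟩ | ⟨i, hi, rfl⟩
  · have hv1 : v = 1 := Cv.eq_one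
    refine ⟨MulAut.conj 1 * MulAut.conj (mm y), 1, fin_aux hk1 (by rw [hv1, map_one]) (map_one s) (by rw [hv1]; group), Or.inl rfl⟩
  · obtain ⟨h22, hsb⟩ := fl_fix i hi
    have hv1 : v = tb i := Cv.inj (Co.tb h22)
    obtain ⟨k, hk, hko⟩ := tr1 _ (bl_lt i h22) (fl_r360 i hi)
    refine ⟨MulAut.conj k * MulAut.conj (mm y), T 0, fin_aux hk1 (by rw [hv1, s_tb h22, hsb]) hk (by rw [hv1]; exact hko),
      Or.inr (Or.inl rfl)⟩
  · obtain ⟨h22, hsb⟩ := fl_fix i (fl'_mem i hi)
    have hv1 : v = T 0 * tb i := Cv.inj ((Co.tb (n := 0) (by norm_num)).mul (Co.tb h22))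
    obtain ⟨k, hk, hk0, hko⟩ := tr2 _ (bl_lt i h22) (fl_r63 i hi)
    refine ⟨MulAut.conj k * MulAut.conj (mm y), T 0 * T 40, fin_aux hk1 (by rw [hv1, map_mul, s_T0, s_tb h22, hsb]) hk (by
      rw [hv1]
      calc k * (T 0 * tb i) * k⁻¹ = (k * T 0 * k⁻¹) * (k * tb i * k⁻¹) := by group
        _ = T 0 * T 40 := by rw [hk0, hko]), Or.inr (Or.inr rfl)⟩

end Cfsg.Agent.Lib.H73Base
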