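import Cfsg.Agent.Lib.H89GC2

/-!
# Checks: the regular action of the group of the base (helper73 for helper89)
-/

set_option autoImplicit false
set_option linter.all false
set_option maxRecDepth 100000

namespace Cfsg.Agent.Lib.H73Base

open Cfsg.Agent.Lib.BenesPerm Cfsg.Agent.Lib.BenesAct Cfsg.Agent.Lib.BenesWord Cfsg.Agent.Lib.BenesPlane
open Cfsg.Agent.Lib.Fi22NetsA Cfsg.Agent.Lib.LaneTools Cfsg.Agent.Lib.TransLanes Cfsg.Agent.Lib.Fi22Out Cfsg.Agent.Lib.H89GA

/-- coordinates with their index -/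
noncomputable def CK : List (ℕ × ℕ) := [(0, CM0), (1, CM1), (2, CM2), (3, CM3), (4, CM4), (5, CM5), (6, CM6), (7, CM7), (8, CM8), (9, CM9)]

/-- the shift of the coordinates -/
noncomputable def cwK (w : List ℕ) (c : ℕ) (l : List (ℕ × ℕ)) : Bool :=
  List.rec (motive := fun _ => Bool) true
    (fun e _ ih => bandK (walkK nets w e.2 (fun V => Nat.beq V (Nat.xor e.2 (Bool.rec (motive := fun _ => ℕ) 0 CL (Nat.testBit c e.1))))) ih) l

noncomputable def cwsK (l : List (LE × ℕ)) : Bool :=
  List.rec (motive := fun _ => Bool) true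
    (fun e _ ih => bandK (cwK (tw e.1) e.2 CK) (bandK (walkK nets (tw e.1) CL (fun V => Nat.beq V CL)) ih)) l

theorem cws : cwsK (BT.zip cd) = true := by decide +kernel

/-- union of masks -/
noncomputable def orK (l : List ℕ) : ℕ := List.rec (motive := fun _ => ℕ) 0 (fun a _ ih => Nat.lor a ih) l

theorem cl_eq : Nat.beq (Nat.xor (Nat.sub (Nat.pow 2 3510) 1) (orK FBm)) CL = true := by decide +kernel
theorem l0_eq : Nat.beq (Nat.xor CL (Nat.land CL (orK CMs))) (Nat.pow 2 75) = true := by decide +kernel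

/-- the generating lanes -/
def gtL : List LE := BT ++ [lt0]
/-- word of a path -/
def gpW (p : List ℕ) : List ℕ := p.flatMap (fun j => tw (gtL.getD j (0, 0, [])))

theorem gp : ∀ c < 9, laneK nets (gpW (GP.getD c (0, [])).2) (gtL.getD (GP.getD c (0, [])).1 (0, 0, [])).1 (pt c) = true := by
  decide +kernel

theorem gp_lt : ∀ c < 9, (GP.getD c (0, [])).1 < 23 ∧ ∀ j ∈ (GP.getD c (0, [])).2, j < 23 := by decide +kernel

theorem sact : ∀ n < 22, laneK ns2 ws (BL.getD n 0) (BL.getD (sB.getD n 0) 0) = true := by decide +kernel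

theorem bt_bl : ∀ n < 22, (BT.getD n (0, 0, [])).1 = BL.getD n 0 := by decide +kernel
theorem sb_lt : ∀ n < 22, sB.getD n 0 < 22 := by decide +kernel
theorem bs_lt : ∀ n < 10, bs.getD n 0 < 22 := by decide +kernel
theorem cd_bs : ∀ n < 10, cd.getD (bs.getD n 0) 0 = 2 ^ n := by decide +kernel
theorem cd_lt : ∀ n < 22, cd.getD n 0 < 1024 := by decide +kernel

/-- the linear map on coordinates -/
def Sx (x : ℕ) : ℕ :=
  (List.range 10).foldr (fun k a => Nat.xor (if x.testBit k then cd.getD (sB.getD (bs.getD k 0) 0) 0 else 0) a) 0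

/-- representatives -/
def YL : List ℕ := [0, 2, 32, 34, 256, 258, 288, 290]
/-- the fixed members of the base -/
def FL : List ℕ := [0, 2, 3, 6, 7, 12, 19, 20]
/-- the fixed members of the base but the first -/
def FL' : List ℕ := [2, 3, 6, 7, 12, 19, 20]

/-- the coordinates to reach -/
def RL : List ℕ := 0 :: (FL.map (fun i => cd.getD i 0) ++ FL'.map (fun i => Nat.xor (cd.getD 0 0) (cd.getD i 0)))

theorem lin : (List.range 1024).all (fun x => Bool.or (Bool.not (Nat.beq (Sx x) x))
    (YL.any (fun y => RL.any (fun r => Nat.beq x (Nat.xor y (Nat.xor r (Sx y))))))) = true := by decide +kernel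

theorem yl_lt : ∀ y ∈ YL, y < 1024 := by decide +kernel
theorem fl_fix : ∀ i ∈ FL, i < 22 ∧ sB.getD i 0 = i := by decide +kernel
theorem fl_r360 : ∀ i ∈ FL, R360.testBit (BL.getD i 0) = true := by decide +kernel
theorem fl_r63 : ∀ i ∈ FL', R63.testBit (BL.getD i 0) = true := by decide +kernel
theorem sx_lt : (List.range 1024).all (fun x => Nat.blt (Sx x) 1024) = true := by decide +kernel

end Cfsg.Agent.Lib.H73Base
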