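import Mathlib

/-!
(helper43) counting multiplicity functions `ZMod r → ℕ` invariant under a subgroup of the units.
-/

set_option autoImplicit false

namespace Cfsg.Agent.Lib.PrCount

section Bars

variable (α : Type*) [Fintype α]

theorem card_sum_eq (n : ℕ) : Nat.card {P : α → ℕ // ∑ i, P i = n} = (Fintype.card α + n - 1).choose n := by
  classical
  rw [← Nat.card_congr (Sym.equivNatSumOfFintype α n), Nat.card_eq_fintype_card, Sym.card_sym_eq_choose]

theorem card_sum_le (M : ℕ) : Nat.card {P : α → ℕ // ∑ i, P i ≤ M} = (M + Fintype.card α).choose (Fintype.card α) := by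
  classical
  have e : {P : α → ℕ // ∑ i, P i ≤ M} ≃ {P : Option α → ℕ // ∑ i, P i = M} :=
    { toFun := fun P => ⟨fun o => o.elim (M - ∑ i, P.1 i) P.1, by
        rw [Fintype.sum_option]
        exact Nat.sub_add_cancel P.2⟩
      invFun := fun P => ⟨fun i => P.1 (some i), by
        have h := P.2
        rw [Fintype.sum_option] at h
        show ∑ i, P.1 (some i) ≤ M
        omega⟩
      left_inv := fun P => rfl
      right_inv := by
        rintro ⟨P, hP⟩
        apply Subtype.ext
        funext o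
        have h := hP
        rw [Fintype.sum_option] at h
        cases o with
        | none =>
          show M - ∑ i, P (some i) = P none
          omega
        | some a => rfl }
  rw [Nat.card_congr e, card_sum_eq, Fintype.card_option]
  have h1 : Fintype.card α + 1 + M - 1 = M + Fintype.card α := by omega
  rw [h1]
  exact Nat.choose_symm_add

theorem card_mul_sum_le {k : ℕ} (hk : 0 < k) (n : ℕ) :
    Nat.card {P : α → ℕ // k * ∑ i, P i ≤ n} = (n / k + Fintype.card α).choose (Fintype.card α) := by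
  rw [← card_sum_le]
  refine Nat.card_congr (Equiv.subtypeEquivRight fun P => ?_)
  rw [Nat.le_div_iff_mul_le hk, mul_comm]

theorem card_mul_sum_eq {k : ℕ} (hk : 0 < k) (hα : 0 < Fintype.card α) (n : ℕ) :
    Nat.card {P : α → ℕ // k * ∑ i, P i = n} =
      if k ∣ n then (n / k + Fintype.card α - 1).choose (Fintype.card α - 1) else 0 := by
  split_ifs with h
  · obtain ⟨M, rfl⟩ := h
    rw [Nat.mul_div_cancel_left _ hk]
    have e1 : Nat.card {P : α → ℕ // k * ∑ i, P i = k * M} = Nat.card {P : α → ℕ // ∑ i, P i = M} :=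
      Nat.card_congr (Equiv.subtypeEquivRight fun P => Nat.mul_right_inj hk.ne')
    rw [e1, card_sum_eq]
    obtain ⟨N, hN⟩ : ∃ N, Fintype.card α = N + 1 := ⟨Fintype.card α - 1, by omega⟩
    rw [hN]
    have e2 : N + 1 + M - 1 = M + N := by omega
    have e3 : M + (N + 1) - 1 = M + N := by omega
    rw [e2, e3, Nat.add_sub_cancel, Nat.choose_symm_add]
  · have : IsEmpty {P : α → ℕ // k * ∑ i, P i = n} := ⟨fun P => h ⟨_, P.2.symm⟩⟩
    exact Nat.card_of_isEmpty

end Bars

section Inv

variable {r : ℕ} [Fact r.Prime] (H : Subgroup (ZMod r)ˣ)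

/-- invariant multiplicity functions -/
def IsInv (m : ZMod r → ℕ) : Prop := ∀ h ∈ H, ∀ k : ZMod r, m (h * k) = m k

/-- invariant functions are functions on orbits -/
noncomputable def invEquiv : {m : ZMod r → ℕ // IsInv H m} ≃ ℕ × ((ZMod r)ˣ ⧸ H → ℕ) := by
  classical
  exact
  { toFun := fun m => (m.1 0, fun ω => Quotient.liftOn' ω (fun u : (ZMod r)ˣ => m.1 (u : ZMod r)) (by
      intro u v huv
      rw [QuotientGroup.leftRel_apply] at huv
      show m.1 (u : ZMod r) = m.1 (v : ZMod r)
      have h1 := m.2 _ huv (u : ZMod r)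
      rw [← Units.val_mul, mul_comm (u⁻¹ * v) u, mul_inv_cancel_left] at h1
      exact h1.symm))
    invFun := fun p => ⟨fun k => if h : k = 0 then p.1 else p.2 (QuotientGroup.mk (Units.mk0 k h)), by
      intro h hh k
      show (if h' : (h : ZMod r) * k = 0 then p.1 else p.2 (QuotientGroup.mk (Units.mk0 _ h'))) =
        (if h' : k = 0 then p.1 else p.2 (QuotientGroup.mk (Units.mk0 k h')))
      by_cases hk : k = 0
      · rw [dif_pos hk, dif_pos (by rw [hk, mul_zero])]
      · have hk' : (h : ZMod r) * k ≠ 0 := mul_ne_zero h.ne_zero hk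
        rw [dif_neg hk, dif_neg hk']
        refine congrArg p.2 ?_
        rw [QuotientGroup.eq]
        have : (Units.mk0 _ hk' : (ZMod r)ˣ) = h * Units.mk0 k hk := Units.ext rfl
        rw [this, mul_inv_rev, mul_assoc, mul_comm (h⁻¹), ← mul_assoc, inv_mul_cancel, one_mul]
        exact H.inv_mem hh⟩
    left_inv := by
      rintro ⟨m, hm⟩
      apply Subtype.ext
      funext k
      show (if h : k = 0 then m 0 else m (Units.mk0 k h : (ZMod r)ˣ)) = m k
      by_cases hk : k = 0
      · rw [dif_pos hk, hk]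
      · rw [dif_neg hk]; rfl
    right_inv := by
      rintro ⟨a, c⟩
      refine Prod.ext ?_ ?_
      · show (if h : (0 : ZMod r) = 0 then a else c (QuotientGroup.mk (Units.mk0 0 h))) = a
        rw [dif_pos rfl]
      · funext ω
        obtain ⟨u, rfl⟩ := QuotientGroup.mk_surjective ω
        show (if h : (u : ZMod r) = 0 then a else c (QuotientGroup.mk (Units.mk0 (u : ZMod r) h))) = c (QuotientGroup.mk u)
        rw [dif_neg u.ne_zero, Units.mk0_val] }

theorem invEquiv_fst (m : {m : ZMod r → ℕ // IsInv H m}) : (invEquiv H m).1 = m.1 0 := rfl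

theorem invEquiv_snd (m : {m : ZMod r → ℕ // IsInv H m}) (u : (ZMod r)ˣ) :
    (invEquiv H m).2 (QuotientGroup.mk u) = m.1 u := rfl

variable [Fintype ((ZMod r)ˣ ⧸ H)]

theorem sum_mk (c : (ZMod r)ˣ ⧸ H → ℕ) : ∑ u : (ZMod r)ˣ, c (QuotientGroup.mk u) = Nat.card H * ∑ ω, c ω := by
  classical
  rw [← Finset.sum_fiberwise (s := Finset.univ) (g := fun u : (ZMod r)ˣ => (QuotientGroup.mk u : (ZMod r)ˣ ⧸ H)),
    Finset.mul_sum]
  refine Finset.sum_congr rfl fun ω _ => ?_
  rw [Finset.sum_congr rfl (g := fun _ => c ω) (fun u hu => by rw [(Finset.mem_filter.1 hu).2]), Finset.sum_const,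
    smul_eq_mul]
  congr 1
  obtain ⟨v, rfl⟩ := QuotientGroup.mk_surjective ω
  have := Fintype.ofFinite H
  rw [Nat.card_eq_fintype_card, ← Finset.card_univ (α := H)]
  symm
  refine Finset.card_bij (fun h _ => v * (h : (ZMod r)ˣ)) ?_ ?_ ?_
  · intro h _
    rw [Finset.mem_filter]
    refine ⟨Finset.mem_univ _, ?_⟩
    rw [QuotientGroup.eq, mul_inv_rev, mul_assoc, inv_mul_cancel, mul_one]
    exact H.inv_mem h.2
  · intro a _ b _ hab
    exact Subtype.ext (mul_left_cancel hab)
  · intro u hu
    have h1 := (Finset.mem_filter.1 hu).2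
    rw [QuotientGroup.eq] at h1
    refine ⟨⟨v⁻¹ * u, ?_⟩, Finset.mem_univ _, mul_inv_cancel_left v u⟩
    have := H.inv_mem h1
    rwa [mul_inv_rev, inv_inv] at this

omit [Fintype ((ZMod r)ˣ ⧸ H)] in
theorem sum_split (m : ZMod r → ℕ) : ∑ k, m k = m 0 + ∑ u : (ZMod r)ˣ, m u := by
  classical
  rw [← Finset.add_sum_erase _ _ (Finset.mem_univ (0 : ZMod r))]
  congr 1
  symm
  refine Finset.sum_bij (fun (u : (ZMod r)ˣ) _ => (u : ZMod r)) ?_ ?_ ?_ ?_
  · intro u _
    exact Finset.mem_erase.2 ⟨u.ne_zero, Finset.mem_univ _⟩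
  · intro a _ b _ hab
    exact Units.ext hab
  · intro k hk
    exact ⟨Units.mk0 k (Finset.ne_of_mem_erase hk), Finset.mem_univ _, rfl⟩
  · intro _ _; rfl

theorem sum_inv (m : {m : ZMod r → ℕ // IsInv H m}) : ∑ k, m.1 k = (invEquiv H m).1 + Nat.card H * ∑ ω, (invEquiv H m).2 ω := by
  rw [← sum_mk, sum_split]
  rfl

theorem card_orbits : Fintype.card ((ZMod r)ˣ ⧸ H) * Nat.card H = r - 1 := by
  have h1 := Subgroup.card_eq_card_quotient_mul_card_subgroup H
  rw [Nat.card_eq_fintype_card (α := (ZMod r)ˣ), ZMod.card_units, Nat.card_eq_fintype_card (α := (ZMod r)ˣ ⧸ H)] at h1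
  exact h1.symm

theorem card_inv (n : ℕ) : Nat.card {m : ZMod r → ℕ // IsInv H m ∧ ∑ k, m k = n} =
    (n / Nat.card H + Fintype.card ((ZMod r)ˣ ⧸ H)).choose (Fintype.card ((ZMod r)ˣ ⧸ H)) := by
  rw [← card_mul_sum_le _ (Nat.card_pos (α := H))]
  have e1 : {m : ZMod r → ℕ // IsInv H m ∧ ∑ k, m k = n} ≃
      {m : {m : ZMod r → ℕ // IsInv H m} // ∑ k, m.1 k = n} :=
    (Equiv.subtypeSubtypeEquivSubtypeInter (IsInv H) (fun m => ∑ k, m k = n)).symm
  rw [Nat.card_congr e1]
  refine Nat.card_congr ?_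
  exact
    { toFun := fun m => ⟨(invEquiv H m.1).2, by
        have := m.2
        rw [sum_inv] at this
        omega⟩
      invFun := fun c => ⟨(invEquiv H).symm (n - Nat.card H * ∑ i, c.1 i, c.1), by
        rw [sum_inv, Equiv.apply_symm_apply]
        exact Nat.sub_add_cancel c.2⟩
      left_inv := by
        rintro ⟨m, hm⟩
        apply Subtype.ext
        show (invEquiv H).symm (n - Nat.card H * ∑ i, (invEquiv H m).2 i, (invEquiv H m).2) = m
        rw [Equiv.symm_apply_eq]
        rw [sum_inv] at hm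
        refine Prod.ext ?_ rfl
        show n - Nat.card H * ∑ i, (invEquiv H m).2 i = (invEquiv H m).1
        omega
      right_inv := by
        rintro ⟨c, hc⟩
        apply Subtype.ext
        show (invEquiv H ((invEquiv H).symm (n - Nat.card H * ∑ i, c i, c))).2 = c
        rw [Equiv.apply_symm_apply] }

theorem card_inv_zero (n : ℕ) : Nat.card {m : ZMod r → ℕ // (IsInv H m ∧ ∑ k, m k = n) ∧ m 0 = 0} =
    if Nat.card H ∣ n then (n / Nat.card H + Fintype.card ((ZMod r)ˣ ⧸ H) - 1).choose
      (Fintype.card ((ZMod r)ˣ ⧸ H) - 1) else 0 := by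
  rw [← card_mul_sum_eq _ (Nat.card_pos (α := H)) Fintype.card_pos]
  have e1 : {m : ZMod r → ℕ // (IsInv H m ∧ ∑ k, m k = n) ∧ m 0 = 0} ≃
      {m : {m : ZMod r → ℕ // IsInv H m} // ∑ k, m.1 k = n ∧ m.1 0 = 0} :=
    (Equiv.subtypeEquivRight fun m => by rw [and_assoc]).trans
      (Equiv.subtypeSubtypeEquivSubtypeInter (IsInv H) (fun m => ∑ k, m k = n ∧ m 0 = 0)).symm
  rw [Nat.card_congr e1]
  refine Nat.card_congr ?_
  exact
    { toFun := fun m => ⟨(invEquiv H m.1).2, by
        have := m.2.1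
        rw [sum_inv, invEquiv_fst, m.2.2, zero_add] at this
        exact this⟩
      invFun := fun c => ⟨(invEquiv H).symm (0, c.1), by
        rw [sum_inv, Equiv.apply_symm_apply]
        refine ⟨by rw [zero_add]; exact c.2, ?_⟩
        rw [← invEquiv_fst, Equiv.apply_symm_apply]⟩
      left_inv := by
        rintro ⟨m, hm, hm0⟩
        apply Subtype.ext
        show (invEquiv H).symm (0, (invEquiv H m).2) = m
        rw [Equiv.symm_apply_eq]
        refine Prod.ext ?_ rfl
        exact hm0.symm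
      right_inv := by
        rintro ⟨c, hc⟩
        apply Subtype.ext
        show (invEquiv H ((invEquiv H).symm (0, c))).2 = c
        rw [Equiv.apply_symm_apply] }

end Inv

end Cfsg.Agent.Lib.PrCount
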