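import Mathlib
import Cfsg.Agent.Lib.SSCount

/-!
(helper43) eigenvalue multiplicities of matrices of prime order.
-/

set_option autoImplicit false
set_option linter.unusedSectionVars false

namespace Cfsg.Agent.Lib.PrCount

open Polynomial Module
open scoped MatrixGroups

section Root

variable {L : Type*} [Field L] {r : ℕ} [hr : Fact r.Prime] {ζ : L} (hζ : IsPrimitiveRoot ζ r)

/-- the `k`-th root of unity -/
def zp (ζ : L) (k : ZMod r) : L := ζ ^ k.val

include hζ

theorem zp_natCast (n : ℕ) : zp ζ (n : ZMod r) = ζ ^ n := by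
  rw [zp, ZMod.val_natCast]
  exact (pow_eq_pow_mod n hζ.pow_eq_one).symm

theorem zp_mul_natCast (k : ZMod r) (n : ℕ) : zp ζ ((n : ZMod r) * k) = zp ζ k ^ n := by
  have h1 : k = ((k.val : ℕ) : ZMod r) := (ZMod.natCast_zmod_val k).symm
  nth_rw 1 [h1]
  rw [← Nat.cast_mul, zp_natCast hζ, zp, ← pow_mul, mul_comm]

theorem zp_mul_val (c k : ZMod r) : zp ζ (c * k) = zp ζ k ^ c.val := by
  have h1 : c = ((c.val : ℕ) : ZMod r) := (ZMod.natCast_zmod_val c).symm
  nth_rw 1 [h1]
  exact zp_mul_natCast hζ _ _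

theorem zp_add (a b : ZMod r) : zp ζ (a + b) = zp ζ a * zp ζ b := by
  have h1 : a = ((a.val : ℕ) : ZMod r) := (ZMod.natCast_zmod_val a).symm
  have h2 : b = ((b.val : ℕ) : ZMod r) := (ZMod.natCast_zmod_val b).symm
  nth_rw 1 [h1]
  nth_rw 1 [h2]
  rw [← Nat.cast_add, zp_natCast hζ, pow_add]; rfl

theorem zp_zero : zp ζ (0 : ZMod r) = 1 := by
  have := zp_natCast hζ 0
  rwa [Nat.cast_zero, pow_zero] at this

theorem zp_neg (a : ZMod r) : zp ζ (-a) = (zp ζ a)⁻¹ := by
  have h1 := zp_add hζ (-a) a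
  rw [neg_add_cancel, zp_zero hζ] at h1
  exact eq_inv_of_mul_eq_one_left h1.symm

theorem zp_pow (a : ZMod r) : zp ζ a ^ r = 1 := by
  rw [zp, ← pow_mul, mul_comm, pow_mul, hζ.pow_eq_one, one_pow]

theorem zp_ne_zero (a : ZMod r) : zp ζ a ≠ 0 := by
  intro h
  have := zp_pow hζ a
  rw [h, zero_pow hr.out.ne_zero] at this
  exact zero_ne_one this

theorem zp_injective : Function.Injective (zp ζ : ZMod r → L) := by
  intro a b h
  have h1 := hζ.pow_inj (ZMod.val_lt a) (ZMod.val_lt b) h
  exact ZMod.val_injective r h1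

theorem exists_zp {x : L} (hx : x ^ r = 1) : ∃ k : ZMod r, x = zp ζ k := by
  have := NeZero.of_pos hr.out.pos
  obtain ⟨i, hi, rfl⟩ := hζ.eq_pow_of_pow_eq_one hx
  exact ⟨i, (zp_natCast hζ i).symm⟩

/-- polynomials with prescribed multiplicities -/
noncomputable def fp (ζ : L) (m : ZMod r → ℕ) : L[X] := ∏ k : ZMod r, (X - C (zp ζ k)) ^ m k

omit hζ in
theorem fp_monic (m : ZMod r → ℕ) : (fp ζ m).Monic := monic_prod_of_monic _ _ fun k _ => (monic_X_sub_C _).pow _

omit hζ in
theorem fp_natDegree (m : ZMod r → ℕ) : (fp ζ m).natDegree = ∑ k, m k := by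
  rw [fp, natDegree_prod_of_monic _ _ fun k _ => (monic_X_sub_C _).pow _]
  refine Finset.sum_congr rfl fun k _ => ?_
  rw [natDegree_pow, natDegree_X_sub_C, mul_one]

omit hζ in
theorem fp_roots (m : ZMod r → ℕ) : (fp ζ m).roots = ∑ k : ZMod r, m k • ({zp ζ k} : Multiset L) := by
  rw [fp, roots_prod]
  · rw [Multiset.bind, Finset.sum_eq_multiset_sum]
    rw [Multiset.join]
    congr 1
    refine Multiset.map_congr rfl fun k _ => ?_
    rw [roots_pow, roots_X_sub_C]
  · exact Finset.prod_ne_zero_iff.2 fun k _ => pow_ne_zero _ (X_sub_C_ne_zero _)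

theorem fp_count [DecidableEq L] (m : ZMod r → ℕ) (k : ZMod r) : (fp ζ m).roots.count (zp ζ k) = m k := by
  rw [fp_roots, Multiset.count_sum', Finset.sum_eq_single k]
  · rw [Multiset.count_nsmul, Multiset.count_singleton_self, mul_one]
  · intro j _ hj
    rw [Multiset.count_nsmul, Multiset.count_singleton, if_neg (fun h => hj (zp_injective hζ h).symm), mul_zero]
  · intro h; exact absurd (Finset.mem_univ _) h

theorem fp_root_pow (m : ZMod r → ℕ) {x : L} (hx : x ∈ (fp ζ m).roots) : x ^ r = 1 := by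
  rw [fp_roots, Multiset.mem_sum] at hx
  obtain ⟨k, -, hk⟩ := hx
  have h1 := Multiset.mem_of_mem_nsmul hk
  rw [Multiset.mem_singleton] at h1
  rw [h1]; exact zp_pow hζ k

/-- polynomials whose roots are `r`-th roots of unity -/
theorem eq_fp [IsAlgClosed L] [DecidableEq L] {P : L[X]} (hP : P.Monic) (h : ∀ x ∈ P.roots, x ^ r = 1) :
    P = fp ζ (fun k : ZMod r => P.roots.count (zp ζ k)) := by
  have h1 := (IsAlgClosed.splits P).eq_prod_roots_of_monic hP
  rw [Finset.prod_multiset_map_count] at h1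
  nth_rw 1 [h1]
  rw [fp]
  have h2 : P.roots.toFinset ⊆ Finset.univ.image (zp ζ : ZMod r → L) := by
    intro x hx
    obtain ⟨k, hk⟩ := exists_zp hζ (h x (Multiset.mem_toFinset.1 hx))
    rw [Finset.mem_image]
    exact ⟨k, Finset.mem_univ _, hk.symm⟩
  rw [Finset.prod_subset h2, Finset.prod_image]
  · intro a _ b _ hab; exact zp_injective hζ hab
  · intro x _ hx
    rw [Multiset.mem_toFinset, ← Multiset.count_eq_zero] at hx
    rw [hx, pow_zero]

omit hζ in
theorem card_roots_eq [IsAlgClosed L] {P : L[X]} : P.roots.card = P.natDegree :=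
  ((IsAlgClosed.splits P).natDegree_eq_card_roots).symm

theorem sum_count [IsAlgClosed L] [DecidableEq L] {P : L[X]} (hP : P.Monic) (h : ∀ x ∈ P.roots, x ^ r = 1) :
    ∑ k : ZMod r, P.roots.count (zp ζ k) = P.natDegree := by
  have h1 := congrArg natDegree (eq_fp hζ hP h)
  rw [fp_natDegree] at h1
  exact h1.symm

omit hζ in
theorem count_map_hom [IsAlgClosed L] [DecidableEq L] (φ : L →+* L) (P : L[X]) (x : L) :
    (P.map φ).roots.count (φ x) = P.roots.count x := by
  rw [(IsAlgClosed.splits P).roots_map φ, Multiset.count_map_eq_count' _ _ φ.injective]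

end Root

section Rev

variable {L : Type*} [Field L] [IsAlgClosed L]

theorem roots_reverse (s : Multiset L) (hs : (0 : L) ∉ s) :
    ((s.map fun a => X - C a).prod).reverse.roots = s.map fun a => a⁻¹ := by
  induction s using Multiset.induction_on with
  | empty =>
    have h1 : (1 : L[X]).reverse = 1 := by
      ext i
      rw [coeff_reverse, natDegree_one]
      rcases i with _ | i
      · rw [revAt_le (by omega)]
      · rw [revAt_eq_self_of_lt (by omega)]
    rw [Multiset.map_zero, Multiset.prod_zero, Multiset.map_zero, h1, roots_one]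
    rfl
  | cons a s ih =>
    rw [Multiset.mem_cons, not_or] at hs
    rw [Multiset.map_cons, Multiset.prod_cons, reverse_mul_of_domain, Multiset.map_cons]
    have ha : a ≠ 0 := fun h => hs.1 h.symm
    have h1 : (X - C a).reverse = C (-a) * (X - C a⁻¹) := by
      have h2 : (X - C a : L[X]) = C 1 * X + C (-a) := by rw [C_1, one_mul, C_neg]; ring
      have h3 : (C (-a) * (X - C a⁻¹) : L[X]) = C (-a) * X + C 1 := by
        rw [mul_sub, ← C_mul, neg_mul, mul_inv_cancel₀ ha, C_neg, C_neg]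
        ring
      rw [h3, h2]
      ext i
      rw [coeff_reverse]
      have hd : (C 1 * X + C (-a) : L[X]).natDegree = 1 := natDegree_linear one_ne_zero
      rw [hd]
      rcases i with _ | _ | i
      · rw [revAt_le (by omega)]
        simp
      · rw [revAt_le (by omega)]
        simp [coeff_one]
      · rw [revAt_eq_self_of_lt (by omega)]
        simp [coeff_X, coeff_one]
    have hne1 : (C (-a) * (X - C a⁻¹) : L[X]) ≠ 0 :=
      mul_ne_zero (C_ne_zero.2 (neg_ne_zero.2 ha)) (X_sub_C_ne_zero _)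
    have hne2 : ((s.map fun a => X - C a).prod).reverse ≠ 0 := by
      rw [Ne, reverse_eq_zero]
      exact (monic_multiset_prod_of_monic _ _ fun a _ => monic_X_sub_C a).ne_zero
    rw [h1, roots_mul (mul_ne_zero hne1 hne2), ih hs.2, roots_C_mul _ (neg_ne_zero.2 ha), roots_X_sub_C]
    rfl

theorem roots_charpoly_inv {ι : Type*} [Fintype ι] [DecidableEq ι] (M : Matrix ι ι L) (h : IsUnit M) :
    M⁻¹.charpoly.roots = M.charpoly.roots.map fun a => a⁻¹ := by
  rw [Matrix.charpoly_inv M h, ← Matrix.reverse_charpoly]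
  have hdet : M.det ≠ 0 := ((Matrix.isUnit_iff_isUnit_det M).1 h).ne_zero
  have h1 : ((-1 : L[X]) ^ Fintype.card ι * C (Ring.inverse M.det)) = C ((-1) ^ Fintype.card ι * M.det⁻¹) := by
    rw [Ring.inverse_eq_inv', C_mul, C_pow, C_neg, C_1]
  rw [h1, roots_C_mul _ (mul_ne_zero (pow_ne_zero _ (neg_ne_zero.2 one_ne_zero)) (inv_ne_zero hdet))]
  nth_rw 1 [(IsAlgClosed.splits M.charpoly).eq_prod_roots_of_monic (Matrix.charpoly_monic M)]
  apply roots_reverse
  intro h0
  have h2 := (mem_roots'.1 h0).2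
  apply hdet
  rw [Matrix.det_eq_sign_charpoly_coeff, coeff_zero_eq_eval_zero, h2.eq_zero, mul_zero]

end Rev

section Mat

variable {F : Type*} [Field F] {L : Type*} [Field L] [IsAlgClosed L] [Algebra F L] {r : ℕ} [hr : Fact r.Prime]
  {ζ : L} (hζ : IsPrimitiveRoot ζ r) {ι : Type*} [Fintype ι] [DecidableEq ι]

/-- the characteristic polynomial over `L` -/
noncomputable def cp (L : Type*) [Field L] [Algebra F L] (A : Matrix ι ι F) : L[X] := A.charpoly.map (algebraMap F L)

omit [IsAlgClosed L] in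
theorem cp_eq (A : Matrix ι ι F) : cp L A = (A.map (algebraMap F L)).charpoly := (Matrix.charpoly_map A _).symm

omit [IsAlgClosed L] in
theorem cp_monic (A : Matrix ι ι F) : (cp L A).Monic := (Matrix.charpoly_monic A).map _

omit [IsAlgClosed L] in
theorem cp_natDegree (A : Matrix ι ι F) : (cp L A).natDegree = Fintype.card ι := by
  rw [cp, natDegree_map, Matrix.charpoly_natDegree_eq_dim]

/-- multiplicity of the eigenvalue `ζ ^ k` -/
noncomputable def mu (ζ : L) (A : Matrix ι ι F) (k : ZMod r) : ℕ := by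
  classical exact (cp L A).roots.count (zp ζ k)

theorem mu_def [DecidableEq L] (A : Matrix ι ι F) (k : ZMod r) : mu ζ A k = (cp L A).roots.count (zp ζ k) := by
  unfold mu
  congr!

/-- all eigenvalues are `r`-th roots of unity -/
def RR (L : Type*) [Field L] [Algebra F L] (r : ℕ) (A : Matrix ι ι F) : Prop := ∀ x ∈ (cp L A).roots, x ^ r = 1

theorem RR_of_pow {A : Matrix ι ι F} (hA : A ^ r = 1) : RR L r A := by
  intro x hx
  have h1 := (mem_roots'.1 hx).2
  rw [cp_eq] at h1
  set M := A.map (algebraMap F L) with hM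
  have h2 : M ^ r = 1 := by
    rw [hM, ← Matrix.map_pow, hA, Matrix.map_one _ (map_zero _) (map_one _)]
  have h3 : Module.End.HasEigenvalue (Matrix.toLin' M) x := by
    rw [Module.End.hasEigenvalue_iff_isRoot_charpoly, Matrix.charpoly_toLin']
    exact h1
  obtain ⟨v, hv⟩ := h3.exists_hasEigenvector
  have h4 : (Matrix.toLin' M ^ r) v = x ^ r • v := hv.pow_apply r
  rw [← Matrix.toLin'_pow, h2, Matrix.toLin'_one, LinearMap.id_apply] at h4
  have h5 : (x ^ r - 1) • v = 0 := by rw [sub_smul, one_smul, ← h4, sub_self]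
  have h6 := (smul_eq_zero.1 h5).resolve_right hv.2
  exact sub_eq_zero.1 h6

include hζ

theorem cp_eq_fp {A : Matrix ι ι F} (hA : RR L r A) : cp L A = fp ζ (mu ζ A : ZMod r → ℕ) := by
  classical
  have h := eq_fp hζ (cp_monic A) hA
  exact h

theorem sum_mu {A : Matrix ι ι F} (hA : RR L r A) : ∑ k : ZMod r, mu ζ A k = Fintype.card ι := by
  classical
  have h := sum_count hζ (cp_monic A) hA
  rw [cp_natDegree] at h
  rw [← h]
  exact Finset.sum_congr rfl fun k _ => mu_def A k

theorem charpoly_eq {A B : Matrix ι ι F} (hA : RR L r A) (hB : RR L r B) (h : ∀ k : ZMod r, mu ζ A k = mu ζ B k) :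
    A.charpoly = B.charpoly := by
  have h1 : cp L A = cp L B := by
    rw [cp_eq_fp hζ hA, cp_eq_fp hζ hB]
    congr 1
    funext k
    exact h k
  exact map_injective _ (algebraMap F L).injective h1

omit hζ in
theorem mu_congr {A B : Matrix ι ι F} (h : A.charpoly = B.charpoly) (k : ZMod r) : mu ζ A k = mu ζ B k := by
  rw [mu, mu, cp, cp, h]

omit hζ in
theorem RR_congr {A B : Matrix ι ι F} (h : A.charpoly = B.charpoly) (hA : RR L r A) : RR L r B := by
  intro x hx
  apply hA
  rw [cp, h]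
  exact hx

/-- eigenvalues of the inverse -/
theorem mu_inv {A : Matrix ι ι F} (hu : IsUnit A) (k : ZMod r) : mu ζ A⁻¹ (-k) = mu ζ A k := by
  classical
  rw [mu_def, mu_def, cp_eq, cp_eq]
  have h1 : (A⁻¹).map (algebraMap F L) = (A.map (algebraMap F L))⁻¹ := by
    symm
    apply Matrix.inv_eq_left_inv
    rw [← Matrix.map_mul, Matrix.nonsing_inv_mul _ ((Matrix.isUnit_iff_isUnit_det A).1 hu),
      Matrix.map_one _ (map_zero _) (map_one _)]
  have h2 : IsUnit (A.map (algebraMap F L)) := hu.map (RingHom.mapMatrix (algebraMap F L))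
  rw [h1, roots_charpoly_inv _ h2, zp_neg hζ]
  exact Multiset.count_map_eq_count' _ _ inv_injective _

/-- eigenvalues of field twists -/
theorem mu_map (τ : F →+* F) (q : ℕ) (φ : L →+* L) (hφ : ∀ x : F, φ (algebraMap F L x) = algebraMap F L (τ x))
    (hφζ : ∀ k : ZMod r, φ (zp ζ k) = zp ζ k ^ q) (A : Matrix ι ι F) (k : ZMod r) :
    mu ζ (A.map τ) ((q : ZMod r) * k) = mu ζ A k := by
  classical
  rw [mu_def, mu_def, zp_mul_natCast hζ, ← hφζ, ← count_map_hom φ (cp L A)]
  congr 2
  rw [cp, cp, Matrix.charpoly_map, Polynomial.map_map, Polynomial.map_map]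
  congr 1
  ext x
  exact (hφ x).symm

end Mat

end Cfsg.Agent.Lib.PrCount
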