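import Mathlib
import Cfsg.Agent.Lib.PrCount1
import Cfsg.Agent.Lib.PrCount2

/-!
(helper43) matrices of prime order over finite fields: Frobenius, existence, conjugacy.
-/

set_option autoImplicit false
set_option linter.unusedSectionVars false

namespace Cfsg.Agent.Lib.PrCount

open Polynomial Module
open scoped MatrixGroups

section Fin

variable {F : Type*} [Field F] [Fintype F] {L : Type*} [Field L] [IsAlgClosed L] [Algebra F L] {r : ℕ}
  [hr : Fact r.Prime] {ζ : L} (hζ : IsPrimitiveRoot ζ r)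

theorem exists_frob (p : ℕ) [hp : Fact p.Prime] [CharP F p] (a : ℕ) :
    ∃ φ : L →+* L, ∀ x, φ x = x ^ (p ^ a) := by
  have : CharP L p := charP_of_injective_algebraMap (algebraMap F L).injective p
  exact ⟨iterateFrobenius L p a, fun x => iterateFrobenius_def p a x⟩

theorem mem_range_of_pow {x : L} (hx : x ^ Fintype.card F = x) : ∃ a : F, algebraMap F L a = x := by
  have h1 : (X ^ Fintype.card F - X : F[X]) = ((X ^ Fintype.card F - X : F[X]).roots.map fun a => X - C a).prod := by
    refine (Splits.eq_prod_roots_of_monic ?_ ?_)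
    · rw [splits_iff_card_roots, FiniteField.roots_X_pow_card_sub_X]
      rw [FiniteField.X_pow_card_sub_X_natDegree_eq F Fintype.one_lt_card]
      rfl
    · exact monic_X_pow_sub (by rw [degree_X]; exact_mod_cast Fintype.one_lt_card)
  have h2 := congrArg (fun P : F[X] => (P.map (algebraMap F L)).eval x) h1
  simp only [Polynomial.map_sub, map_X, Polynomial.map_pow, eval_sub, eval_pow, eval_X] at h2
  rw [hx, sub_self, Polynomial.map_multiset_prod, eval_multiset_prod, eq_comm, Multiset.prod_eq_zero_iff,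
    Multiset.map_map, Multiset.map_map, Multiset.mem_map] at h2
  obtain ⟨a, -, ha⟩ := h2
  simp only [Function.comp_apply, Polynomial.map_sub, map_X, map_C, eval_sub, eval_X, eval_C] at ha
  exact ⟨a, (sub_eq_zero.1 ha).symm⟩

include hζ

/-- Galois invariance -/
theorem mu_card {ι : Type*} [Fintype ι] [DecidableEq ι] (A : Matrix ι ι F) (k : ZMod r) :
    mu ζ A ((Fintype.card F : ZMod r) * k) = mu ζ A k := by
  obtain ⟨p, hpF⟩ := CharP.exists F
  have hp : Fact p.Prime := ⟨CharP.char_is_prime F p⟩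
  obtain ⟨a, -, ha⟩ := FiniteField.card F p
  obtain ⟨φ, hφ⟩ := exists_frob (F := F) (L := L) p a
  rw [← ha] at hφ
  have h := mu_map hζ (RingHom.id F) (Fintype.card F) φ (fun x => by
    rw [hφ, ← map_pow, FiniteField.pow_card]; rfl) (fun k => hφ _) A k
  have e : A.map (RingHom.id F) = A := by ext i j; rfl
  rwa [e] at h

/-- the polynomial is defined over `F` -/
theorem exists_poly {m : ZMod r → ℕ} (hm : ∀ k, m ((Fintype.card F : ZMod r) * k) = m k)
    (hq : ((Fintype.card F : ℕ) : ZMod r) ≠ 0) : ∃ f : F[X], f.map (algebraMap F L) = fp ζ m := by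
  classical
  obtain ⟨p, hpF⟩ := CharP.exists F
  have hp : Fact p.Prime := ⟨CharP.char_is_prime F p⟩
  obtain ⟨a, -, ha⟩ := FiniteField.card F p
  obtain ⟨φ, hφ⟩ := exists_frob (F := F) (L := L) p a
  rw [← ha] at hφ
  have h1 : (fp ζ m).map φ = fp ζ m := by
    rw [fp, Polynomial.map_prod]
    have h2 : ∀ k : ZMod r, ((X - C (zp ζ k)) ^ m k : L[X]).map φ =
        (X - C (zp ζ ((Fintype.card F : ZMod r) * k))) ^ m ((Fintype.card F : ZMod r) * k) := by
      intro k
      rw [Polynomial.map_pow, Polynomial.map_sub, map_X, map_C, hφ, zp_mul_natCast hζ, hm]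
    rw [Finset.prod_congr rfl fun k _ => h2 k]
    exact Fintype.prod_bijective (fun k => (Fintype.card F : ZMod r) * k)
      (mulLeft_bijective₀ _ hq) _ _ fun k => rfl
  have h3 : fp ζ m ∈ lifts (algebraMap F L) := by
    rw [lifts_iff_coeff_lifts]
    intro n
    have h4 := congrArg (fun P : L[X] => P.coeff n) h1
    simp only [coeff_map] at h4
    rw [hφ] at h4
    exact mem_range_of_pow h4
  exact (mem_lifts _).1 h3

/-- a semisimple matrix whose eigenvalues are `r`-th roots of unity has `r`-th power one -/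
theorem pow_of_RR {ι : Type*} [Fintype ι] [DecidableEq ι] {A : Matrix ι ι F} {N : ℕ} (hN : (N : F) ≠ 0)
    (hA : A ^ N = 1) (hR : RR L r A) : A ^ r = 1 := by
  classical
  have h1 : minpoly F A ∣ X ^ N - 1 := minpoly.dvd F A (by simp [hA])
  have h2 : Squarefree (X ^ N - 1 : F[X]) := by
    have h3 : (X ^ N - C (1 : F)).Separable := separable_X_pow_sub_C 1 hN one_ne_zero
    rw [C_1] at h3
    exact h3.squarefree
  have h3 : Squarefree (minpoly F A) := h2.squarefree_of_dvd h1
  have h4 : A.charpoly ∣ (X ^ r - 1) ^ (Fintype.card ι + 1) := by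
    rw [← map_dvd_map' (algebraMap F L)]
    have h5 : A.charpoly.map (algebraMap F L) = fp ζ (mu ζ A : ZMod r → ℕ) := cp_eq_fp hζ hR
    rw [h5, Polynomial.map_pow, Polynomial.map_sub, Polynomial.map_pow, map_X, Polynomial.map_one]
    have h6 : (X ^ r - 1 : L[X]) = ∏ k : ZMod r, (X - C (zp ζ k)) := by
      rw [X_pow_sub_one_eq_prod hr.out.pos hζ]
      rw [← Finset.prod_image (s := Finset.univ) (g := fun k : ZMod r => zp ζ k) (f := fun x => X - C x)
        (fun a _ b _ hab => zp_injective hζ hab)]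
      refine Finset.prod_congr ?_ fun _ _ => rfl
      ext x
      rw [mem_nthRootsFinset hr.out.pos, Finset.mem_image]
      constructor
      · intro hx
        obtain ⟨k, hk⟩ := exists_zp hζ hx
        exact ⟨k, Finset.mem_univ _, hk.symm⟩
      · rintro ⟨k, -, rfl⟩
        exact zp_pow hζ k
    rw [h6, ← Finset.prod_pow, fp]
    apply Finset.prod_dvd_prod_of_dvd
    intro k _
    apply pow_dvd_pow
    have h7 := sum_mu hζ hR
    calc mu ζ A k ≤ ∑ k : ZMod r, mu ζ A k := Finset.single_le_sum (fun _ _ => Nat.zero_le _) (Finset.mem_univ k)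
      _ ≤ Fintype.card ι + 1 := by rw [h7]; omega
  have h5 : minpoly F A ∣ (X ^ r - 1) ^ (Fintype.card ι + 1) := (Matrix.minpoly_dvd_charpoly A).trans h4
  have h6 : minpoly F A ∣ X ^ r - 1 := (h3.dvd_pow_iff_dvd (Nat.succ_ne_zero _)).1 h5
  have h7 := aeval_eq_zero_of_dvd_aeval_eq_zero h6 (minpoly.aeval F A)
  simpa [sub_eq_zero] using h7

theorem RR_of_cp {ι : Type*} [Fintype ι] [DecidableEq ι] {A : Matrix ι ι F} {m : ZMod r → ℕ}
    (h : A.charpoly.map (algebraMap F L) = fp ζ m) : RR L r A ∧ ∀ k, mu ζ A k = m k := by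
  classical
  have h1 : cp L A = fp ζ m := h
  refine ⟨?_, ?_⟩
  · intro x hx
    rw [h1] at hx
    exact fp_root_pow hζ m hx
  · intro k
    rw [mu_def, h1, fp_count hζ]

/-- existence in `GL_n` -/
theorem exists_GL (p : ℕ) [Fact p.Prime] [CharP F p] {n : ℕ} {m : ZMod r → ℕ}
    (hm : ∀ k, m ((Fintype.card F : ZMod r) * k) = m k)
    (hq : ((Fintype.card F : ℕ) : ZMod r) ≠ 0) (hs : ∑ k, m k = n) :
    ∃ g : GL (Fin n) F, g ^ r = 1 ∧ (g : Matrix (Fin n) (Fin n) F).charpoly.map (algebraMap F L) = fp ζ m ∧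
      ∀ k, mu ζ (g : Matrix (Fin n) (Fin n) F) k = m k := by
  obtain ⟨f, hf⟩ := exists_poly hζ hm hq
  have hfm : f.Monic := by
    have := fp_monic (ζ := ζ) m
    rw [← hf] at this
    exact monic_of_injective (algebraMap F L).injective this
  have hfd : f.natDegree = n := by
    have := fp_natDegree (ζ := ζ) m
    rw [← hf, natDegree_map, hs] at this
    exact this
  have hf0 : f.coeff 0 ≠ 0 := by
    intro h0
    have h1 : (f.map (algebraMap F L)).coeff 0 = 0 := by rw [coeff_map, h0, map_zero]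
    rw [hf, coeff_zero_eq_eval_zero, fp, eval_prod, Finset.prod_eq_zero_iff] at h1
    obtain ⟨k, -, hk⟩ := h1
    rw [eval_pow, eval_sub, eval_X, eval_C, zero_sub] at hk
    rcases Nat.eq_zero_or_pos (m k) with h2 | h2
    · rw [h2, pow_zero] at hk
      exact one_ne_zero hk
    · rw [pow_eq_zero_iff h2.ne', neg_eq_zero] at hk
      exact zp_ne_zero hζ k hk
  have hmem : f ∈ (fun g : GL (Fin n) F => (g : Matrix (Fin n) (Fin n) F).charpoly) '' {g | (orderOf g).Coprime p} := by
    rw [SSCount.image_GL p n]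
    exact ⟨hfm, hfd, hf0⟩
  obtain ⟨g, hg, hgf⟩ := hmem
  change (g : Matrix (Fin n) (Fin n) F).charpoly = f at hgf
  have h1 := RR_of_cp hζ (A := (g : Matrix (Fin n) (Fin n) F)) (m := m) (by rw [hgf, hf])
  refine ⟨g, ?_, by rw [hgf, hf], h1.2⟩
  apply Units.ext
  rw [Units.val_pow_eq_pow_val, Units.val_one]
  exact pow_of_RR hζ (SSClass.cast_ne_zero_of_coprime p hg)
    (by rw [← Units.val_pow_eq_pow_val, pow_orderOf_eq_one]; rfl) h1.1

omit hζ in
/-- conjugacy in `GL_n` -/
theorem orderOf_coprime (p : ℕ) [Fact p.Prime] [CharP F p] (hrp : r ≠ p) {G : Type*} [Group G] {g : G} (hg : g ^ r = 1) :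
    (orderOf g).Coprime p :=
  Nat.Coprime.coprime_dvd_left (orderOf_dvd_of_pow_eq_one hg)
    ((Nat.coprime_primes hr.out Fact.out).2 hrp)

theorem conj_iff (p : ℕ) [Fact p.Prime] [CharP F p] (hrp : r ≠ p) {n : ℕ} {g h : GL (Fin n) F} (hg : g ^ r = 1)
    (hh : h ^ r = 1) : IsConj g h ↔
      ∀ k : ZMod r, mu ζ (g : Matrix (Fin n) (Fin n) F) k = mu ζ (h : Matrix (Fin n) (Fin n) F) k := by
  have hg' : (g : Matrix (Fin n) (Fin n) F) ^ r = 1 := by rw [← Units.val_pow_eq_pow_val, hg]; rfl
  have hh' : (h : Matrix (Fin n) (Fin n) F) ^ r = 1 := by rw [← Units.val_pow_eq_pow_val, hh]; rfl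
  constructor
  · intro hc k
    apply mu_congr
    obtain ⟨c, hc⟩ := isConj_iff.1 hc
    rw [← hc]
    rw [Units.val_mul, Units.val_mul, Matrix.coe_units_inv]
    exact (Matrix.charpoly_units_conj c _).symm
  · intro hk
    exact SSClass.conj_GL p g h (orderOf_coprime (F := F) p hrp hg) (orderOf_coprime (F := F) p hrp hh)
      (charpoly_eq hζ (RR_of_pow hg') (RR_of_pow hh') hk)

end Fin

end Cfsg.Agent.Lib.PrCount
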