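import Mathlib
import Cfsg.Agent.Lib.PrCount3

/-!
(helper43) counting classes of elements of prime order: general lemma.
-/

set_option autoImplicit false
set_option linter.unusedSectionVars false

namespace Cfsg.Agent.Lib.PrCount

open Polynomial Module
open scoped MatrixGroups

section Gen

variable {F : Type*} [Field F] [Fintype F] {L : Type*} [Field L] [IsAlgClosed L] [Algebra F L] {r : ℕ}
  [hr : Fact r.Prime] {ζ : L} (hζ : IsPrimitiveRoot ζ r) {ι : Type*} [Fintype ι] [DecidableEq ι]

include hζ in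
theorem mu_one (k : ZMod r) : mu ζ (1 : Matrix ι ι F) k = if k = 0 then Fintype.card ι else 0 := by
  have h1 : (1 : Matrix ι ι F).charpoly = (X - C 1) ^ Fintype.card ι := by
    rw [Matrix.charpoly_one]; simp
  have h2 : (1 : Matrix ι ι F).charpoly.map (algebraMap F L) =
      fp ζ (fun k : ZMod r => if k = 0 then Fintype.card ι else 0) := by
    rw [h1, fp, Finset.prod_eq_single (0 : ZMod r)]
    · rw [if_pos rfl, zp_zero hζ, Polynomial.map_pow, Polynomial.map_sub, map_X, map_C, map_one]
    · intro b _ hb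
      rw [if_neg hb, pow_zero]
    · intro h; exact absurd (Finset.mem_univ _) h
  exact (RR_of_cp hζ h2).2 k

include hζ in
theorem conj_iff' (p : ℕ) [Fact p.Prime] [CharP F p] (hrp : r ≠ p) {g h : GL ι F} (hg : g ^ r = 1)
    (hh : h ^ r = 1) : IsConj g h ↔
      ∀ k : ZMod r, mu ζ (g : Matrix ι ι F) k = mu ζ (h : Matrix ι ι F) k := by
  classical
  let e : ι ≃ Fin (Fintype.card ι) := Fintype.equivFin ι
  let E : GL ι F ≃* GL (Fin (Fintype.card ι)) F := Units.mapEquiv (Matrix.reindexRingEquiv F e).toMulEquiv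
  have hE : ∀ x : GL ι F, (E x : Matrix (Fin (Fintype.card ι)) (Fin (Fintype.card ι)) F) = Matrix.reindex e e (x : Matrix ι ι F) := fun x => rfl
  have hmu : ∀ (x : GL ι F) (k : ZMod r), mu ζ (E x : Matrix (Fin (Fintype.card ι)) (Fin (Fintype.card ι)) F) k = mu ζ (x : Matrix ι ι F) k := by
    intro x k
    rw [mu, mu, cp, cp, hE, Matrix.charpoly_reindex]
  have h1 := conj_iff hζ p hrp (g := E g) (h := E h) (by rw [← map_pow, hg, map_one]) (by rw [← map_pow, hh, map_one])
  simp only [hmu] at h1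
  rw [← h1]
  constructor
  · intro hc; exact E.toMonoidHom.map_isConj hc
  · intro hc
    have := E.symm.toMonoidHom.map_isConj hc
    simpa using this

include hζ in
/-- counting classes of elements of order `r` in a group of matrices controlled by `GL` -/
theorem count_general (p : ℕ) [Fact p.Prime] [CharP F p] (hrp : r ≠ p) {G : Type*} [Group G] [Finite G]
    (f : G →* GL ι F) (hf : Function.Injective f)
    (hconj : ∀ g h : G, orderOf g = r → orderOf h = r → IsConj (f g) (f h) → IsConj g h)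
    (M : Set (ZMod r → ℕ))
    (hM : ∀ m : ZMod r → ℕ, m ∈ M ↔ ∃ g : G, g ^ r = 1 ∧ ∀ k, mu ζ (f g : Matrix ι ι F) k = m k) :
    Nat.card {C : ConjClasses G // ∃ g : G, ConjClasses.mk g = C ∧ orderOf g = r} = Nat.card M - 1 := by
  classical
  let χ : G → ZMod r → ℕ := fun g k => mu ζ (f g : Matrix ι ι F) k
  have hmap : ∀ {g : G}, g ^ r = 1 → f g ^ r = 1 := fun {g} hg => by rw [← map_pow, hg, map_one]
  have hord : ∀ {g : G}, orderOf g = r → g ^ r = 1 := fun {g} hg => by rw [← hg, pow_orderOf_eq_one]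
  rw [SSCount.classes_card (fun g : G => orderOf g = r) χ]
  · -- the image
    let m0 : ZMod r → ℕ := χ 1
    have hm0 : m0 ∈ M := (hM m0).2 ⟨1, one_pow r, fun k => rfl⟩
    have himg : χ '' {g | orderOf g = r} = M \ {m0} := by
      ext m
      constructor
      · rintro ⟨g, hg, rfl⟩
        refine ⟨(hM _).2 ⟨g, hord hg, fun k => rfl⟩, ?_⟩
        intro h
        have h1 : χ g = χ 1 := h
        have h2 : IsConj (f g) (f 1) := by
          rw [conj_iff' hζ p hrp (hmap (hord hg)) (hmap (one_pow r))]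
          exact fun k => congrFun h1 k
        rw [map_one] at h2
        have h3 : f g = 1 := by
          obtain ⟨c, hc⟩ := isConj_iff.1 h2
          have : f g = c⁻¹ * 1 * c := by rw [← hc]; group
          rw [this]; group
        have h4 : g = 1 := hf (by rw [h3, map_one])
        have h5 : orderOf g = r := hg
        rw [h4, orderOf_one] at h5
        exact hr.out.one_lt.ne h5
      · rintro ⟨hm, hne⟩
        obtain ⟨g, hg, hgm⟩ := (hM m).1 hm
        refine ⟨g, ?_, funext hgm⟩
        apply orderOf_eq_prime hg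
        rintro rfl
        exact hne (funext fun k => (hgm k).symm)
    rw [himg, Nat.card_coe_set_eq, Nat.card_coe_set_eq, Set.ncard_sdiff_singleton_of_mem hm0]
  · intro g h hgh
    funext k
    obtain ⟨c, hc⟩ := isConj_iff.1 hgh
    show mu ζ (f g : Matrix ι ι F) k = mu ζ (f h : Matrix ι ι F) k
    apply mu_congr
    rw [← hc, map_mul, map_mul, map_inv, Units.val_mul, Units.val_mul, Matrix.coe_units_inv]
    exact (Matrix.charpoly_units_conj (f c) _).symm
  · intro g h hg hh hχ
    apply hconj g h hg hh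
    rw [conj_iff' hζ p hrp (hmap (hord hg)) (hmap (hord hh))]
    exact fun k => congrFun hχ k

end Gen

section Ord

variable {r : ℕ} [hr : Fact r.Prime]

theorem isInv_zpowers {u : (ZMod r)ˣ} {m : ZMod r → ℕ} : IsInv (Subgroup.zpowers u) m ↔ ∀ k : ZMod r, m (u * k) = m k := by
  constructor
  · intro h k
    exact h u (Subgroup.mem_zpowers u) k
  · intro h x hx
    rw [Subgroup.zpowers_eq_closure] at hx
    induction hx using Subgroup.closure_induction with
    | mem x hx =>
      rw [Set.mem_singleton_iff] at hx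
      rw [hx]; exact h
    | one => intro k; rw [Units.val_one, one_mul]
    | mul x y _ _ hx hy =>
      intro k
      rw [Units.val_mul, mul_assoc, hx, hy]
    | inv x _ hx =>
      intro k
      rw [← hx, ← mul_assoc, ← Units.val_mul, mul_inv_cancel, Units.val_one, one_mul]

theorem unit_sq {x : (ZMod r)ˣ} (h : x ^ 2 = 1) : x = 1 ∨ x = -1 := by
  have h1 : ((x : ZMod r)) ^ 2 = 1 := by rw [← Units.val_pow_eq_pow_val, h, Units.val_one]
  rcases sq_eq_one_iff.1 h1 with h2 | h2
  · exact Or.inl (Units.ext h2)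
  · exact Or.inr (Units.ext h2)

theorem neg_one_ne (hr2 : r ≠ 2) : (-1 : (ZMod r)ˣ) ≠ 1 := by
  intro h
  have h1 : (-1 : ZMod r) = 1 := by
    have := congrArg Units.val h
    rwa [Units.val_neg, Units.val_one] at this
  have : Fact (2 < r) := ⟨lt_of_le_of_ne hr.out.two_le (Ne.symm hr2)⟩
  exact ZMod.neg_one_ne_one h1

theorem ord_neg_odd (hr2 : r ≠ 2) {x : (ZMod r)ˣ} (h : Odd (orderOf x)) : orderOf (-x) = 2 * orderOf x := by
  have h1 : orderOf (-1 : (ZMod r)ˣ) = 2 := orderOf_eq_prime (by rw [neg_one_sq]) (neg_one_ne hr2)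
  have h2 : (-x) = (-1) * x := by rw [neg_one_mul]
  rw [h2, (Commute.all (-1 : (ZMod r)ˣ) x).orderOf_mul_eq_mul_orderOf_of_coprime, h1]
  rw [h1]
  exact Nat.coprime_two_left.2 h

theorem pow_half {x : (ZMod r)ˣ} (h : Even (orderOf x)) : x ^ (orderOf x / 2) = -1 := by
  obtain ⟨j, hj⟩ := h
  have hpos := orderOf_pos x
  have e : orderOf x / 2 = j := by omega
  rw [e]
  rcases unit_sq (x := x ^ j) (by rw [← pow_mul, mul_two, ← hj, pow_orderOf_eq_one]) with h1 | h1
  · exfalso
    have := Nat.le_of_dvd (by omega) (orderOf_dvd_of_pow_eq_one h1)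
    omega
  · exact h1

theorem dvd_two_neg (x : (ZMod r)ˣ) : orderOf x ∣ 2 * orderOf (-x) := by
  apply orderOf_dvd_of_pow_eq_one
  have h1 : x ^ 2 = (-x) ^ 2 := (neg_sq x).symm
  rw [pow_mul, h1, ← pow_mul, mul_comm, pow_mul, pow_orderOf_eq_one, one_pow]

theorem ord_neg_two {x : (ZMod r)ˣ} (h : orderOf x % 4 = 2) : orderOf (-x) = orderOf x / 2 := by
  have he : Even (orderOf x) := by rw [Nat.even_iff]; omega
  apply Nat.dvd_antisymm
  · apply orderOf_dvd_of_pow_eq_one
    have ho : Odd (orderOf x / 2) := by rw [Nat.odd_iff]; omega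
    rw [ho.neg_pow, pow_half he, neg_neg]
  · have h1 := dvd_two_neg x
    obtain ⟨j, hj⟩ := he
    have e : orderOf x / 2 = j := by omega
    rw [e]
    rw [hj, ← two_mul] at h1
    exact Nat.dvd_of_mul_dvd_mul_left (by norm_num) h1

theorem ord_neg_four (hr2 : r ≠ 2) {x : (ZMod r)ˣ} (h : orderOf x % 4 = 0) : orderOf (-x) = orderOf x := by
  have he : Even (orderOf x) := by rw [Nat.even_iff]; omega
  have hpos := orderOf_pos x
  have h1 : orderOf (-x) ∣ orderOf x := by
    apply orderOf_dvd_of_pow_eq_one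
    rw [he.neg_pow, pow_orderOf_eq_one]
  have h2 := dvd_two_neg x
  obtain ⟨a, ha⟩ := h1
  obtain ⟨b, hb⟩ := h2
  have hpos' := orderOf_pos (-x)
  have hab : a * b = 2 := by
    have : orderOf (-x) * (a * b) = orderOf (-x) * 2 := by
      rw [← mul_assoc, ← ha, ← hb, mul_comm]
    exact Nat.eq_of_mul_eq_mul_left hpos' this
  have ha2 : a ∣ 2 := ⟨b, hab.symm⟩
  rcases (Nat.dvd_prime Nat.prime_two).1 ha2 with h3 | h3
  · rw [h3, mul_one] at ha; exact ha.symm
  · exfalso
    rw [h3] at ha
    have h4 : orderOf x / 2 = orderOf (-x) := by omega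
    have h5 := pow_half he
    have h6 : Even (orderOf (-x)) := by rw [Nat.even_iff]; omega
    rw [h4] at h5
    have h7 : (-x) ^ orderOf (-x) = x ^ orderOf (-x) := h6.neg_pow x
    rw [pow_orderOf_eq_one, h5] at h7
    exact neg_one_ne hr2 h7.symm

end Ord

end Cfsg.Agent.Lib.PrCount
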