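import Mathlib
import Cfsg.Agent.Lib.PrCount4
import Cfsg.Agent.Lib.SpCount
import Cfsg.Agent.Lib.QuadEmb67
import Cfsg.Agent.Lib.QuadBridge
import Cfsg.Agent.Lib.QuadForms
import Cfsg.Agent.Lib.FormConj3

/-!
(helper43) orthogonal groups: multiplicity functions of elements of odd prime order.
-/

set_option autoImplicit false
set_option linter.unusedSectionVars false

namespace Cfsg.Agent.Lib.PrCount

open Polynomial Module
open scoped MatrixGroups

section Pal

variable {F : Type*} [Field F] [Fintype F] {L : Type*} [Field L] [IsAlgClosed L] [Algebra F L] {r : ℕ}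
  [hr : Fact r.Prime] {ζ : L} (hζ : IsPrimitiveRoot ζ r)

theorem exists_Sp_PAL (p : ℕ) [Fact p.Prime] [CharP F p] {d : ℕ} {f : F[X]} (hf : SpCount.PAL d f) :
    ∃ g : ↥(Matrix.symplecticGroup (Fin d) F), (orderOf g).Coprime p ∧
      (g : Matrix (Fin d ⊕ Fin d) (Fin d ⊕ Fin d) F).charpoly = f := by
  classical
  set I := (fun g : ↥(Matrix.symplecticGroup (Fin d) F) => (g : Matrix (Fin d ⊕ Fin d) (Fin d ⊕ Fin d) F).charpoly) ''
      {g | (orderOf g).Coprime p} with hI
  have hsub : I ⊆ {f : F[X] | SpCount.PAL d f} := by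
    rintro _ ⟨g, _, rfl⟩
    exact SpCount.charpoly_PAL g.2
  have hcard : Nat.card I = Fintype.card F ^ d := SpCount.card_image p
  have heq : I = {f : F[X] | SpCount.PAL d f} := by
    apply Set.eq_of_subset_of_ncard_le hsub _ SpCount.PAL_finite
    rw [← Nat.card_coe_set_eq, ← Nat.card_coe_set_eq, hcard, ← Nat.card_eq_fintype_card]
    exact SpCount.card_PAL_le
  have hfI : f ∈ I := by rw [heq]; exact hf
  obtain ⟨g, hg, hgf⟩ := hfI
  exact ⟨g, hg, hgf⟩

include hζ

theorem prod_zp (hr2 : r ≠ 2) {m : ZMod r → ℕ} (hm : ∀ k, m (-k) = m k) : ∏ k : ZMod r, zp ζ k ^ m k = 1 := by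
  set P := ∏ k : ZMod r, zp ζ k ^ m k with hP
  have h0 : P = ∏ k : ZMod r, (zp ζ k)⁻¹ ^ m k := by
    rw [hP, ← Equiv.prod_comp (Equiv.neg (ZMod r))]
    refine Finset.prod_congr rfl fun k _ => ?_
    rw [Equiv.neg_apply, hm, zp_neg hζ]
  have h1 : P * P = 1 := by
    nth_rw 1 [h0]
    rw [hP, ← Finset.prod_mul_distrib]
    apply Finset.prod_eq_one
    intro k _
    rw [← mul_pow, inv_mul_cancel₀ (zp_ne_zero hζ k), one_pow]
  have h2 : P ^ r = 1 := by
    rw [hP, ← Finset.prod_pow]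
    apply Finset.prod_eq_one
    intro k _
    rw [← pow_mul, mul_comm, pow_mul, zp_pow hζ, one_pow]
  have hodd : Odd r := hr.out.odd_of_ne_two hr2
  obtain ⟨j, hj⟩ := hodd
  rw [hj, pow_succ, pow_mul, pow_two, h1, one_pow, one_mul] at h2
  exact h2

theorem reverse_fp (hr2 : r ≠ 2) {m : ZMod r → ℕ} (hm : ∀ k, m (-k) = m k) (he : Even (∑ k, m k)) :
    (fp ζ m).reverse = fp ζ m := by
  classical
  have hmon := fp_monic (ζ := ζ) m
  have h0 : (0 : L) ∉ (fp ζ m).roots := by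
    intro h
    have := fp_root_pow hζ m h
    rw [zero_pow hr.out.ne_zero] at this
    exact zero_ne_one this
  have hprod := (IsAlgClosed.splits (fp ζ m)).eq_prod_roots_of_monic hmon
  have h1 : (fp ζ m).reverse.roots = (fp ζ m).roots.map fun a => a⁻¹ := by
    nth_rw 1 [hprod]
    exact roots_reverse _ h0
  have h2 : ((fp ζ m).roots.map fun a => a⁻¹) = (fp ζ m).roots := by
    rw [fp_roots]
    rw [← Multiset.coe_mapAddMonoidHom, map_sum]
    rw [← Equiv.sum_comp (Equiv.neg (ZMod r))]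
    refine Finset.sum_congr rfl fun k _ => ?_
    rw [Equiv.neg_apply, hm, map_nsmul, Multiset.coe_mapAddMonoidHom, Multiset.map_singleton, zp_neg hζ, inv_inv]
  have h3 : (fp ζ m).coeff 0 = 1 := by
    rw [coeff_zero_eq_eval_zero, fp, eval_prod]
    have h4 : ∀ k : ZMod r, eval 0 ((X - C (zp ζ k)) ^ m k) = (-1) ^ m k * zp ζ k ^ m k := by
      intro k
      rw [eval_pow, eval_sub, eval_X, eval_C, zero_sub, neg_pow]
    rw [Finset.prod_congr rfl fun k _ => h4 k, Finset.prod_mul_distrib, prod_zp hζ hr2 hm, mul_one,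
      Finset.prod_pow_eq_pow_sum, he.neg_one_pow]
  have h5 : (fp ζ m).reverse.leadingCoeff = 1 := by
    rw [reverse_leadingCoeff, trailingCoeff, natTrailingDegree_eq_zero.2 (Or.inr (by rw [h3]; exact one_ne_zero)), h3]
  have h6 := (IsAlgClosed.splits (fp ζ m).reverse).eq_prod_roots_of_monic h5
  rw [h6, h1, h2]
  exact hprod.symm

theorem pal_of_fp (hr2 : r ≠ 2) {m : ZMod r → ℕ} (hm : ∀ k, m (-k) = m k) {d : ℕ} (hd : ∑ k, m k = 2 * d) {f : F[X]}
    (hf : f.map (algebraMap F L) = fp ζ m) : SpCount.PAL d f := by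
  have hinj := (algebraMap F L).injective
  have hdeg : f.natDegree = 2 * d := by
    have := fp_natDegree (ζ := ζ) m
    rw [← hf, natDegree_map, hd] at this
    exact this
  refine ⟨monic_of_injective hinj (by rw [hf]; exact fp_monic m), hdeg, ?_⟩
  intro i hi
  apply hinj
  rw [← coeff_map, ← coeff_map, hf]
  have h1 := congrArg (fun P : L[X] => P.coeff i) (reverse_fp hζ hr2 hm (by rw [hd]; exact even_two_mul d))
  rw [coeff_reverse, fp_natDegree, hd, revAt_le hi] at h1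
  exact h1

/-- symplectic matrices with prescribed multiplicities -/
theorem exists_Sp (p : ℕ) [Fact p.Prime] [CharP F p] (hr2 : r ≠ 2) {m : ZMod r → ℕ} (hm : ∀ k, m (-k) = m k)
    (hm' : ∀ k, m ((Fintype.card F : ZMod r) * k) = m k) (hq : ((Fintype.card F : ℕ) : ZMod r) ≠ 0)
    {d : ℕ} (hd : ∑ k, m k = 2 * d) :
    ∃ A ∈ Matrix.symplecticGroup (Fin d) F, A ^ r = 1 ∧ A.charpoly.map (algebraMap F L) = fp ζ m := by
  obtain ⟨f, hf⟩ := exists_poly hζ hm' hq
  obtain ⟨g, hg, hgf⟩ := exists_Sp_PAL p (pal_of_fp hζ hr2 hm hd hf)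
  refine ⟨g, g.2, ?_, by rw [hgf, hf]⟩
  have h1 := RR_of_cp hζ (A := (g : Matrix (Fin d ⊕ Fin d) (Fin d ⊕ Fin d) F)) (m := m) (by rw [hgf, hf])
  exact pow_of_RR hζ (SSClass.cast_ne_zero_of_coprime p hg)
    (by
      have : (g ^ orderOf g : ↥(Matrix.symplecticGroup (Fin d) F)) = 1 := pow_orderOf_eq_one g
      exact congrArg Subtype.val this) h1.1

end Pal

end Cfsg.Agent.Lib.PrCount
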