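import Mathlib
import Cfsg.Agent.Lib.PrCountO

/-!
(helper43) orthogonal groups: multiplicity functions of elements of odd prime order, part 2.
-/

set_option autoImplicit false
set_option linter.unusedSectionVars false

namespace Cfsg.Agent.Lib.PrCount

open Polynomial Module Matrix QuadraticMap Cfsg.Agent.Lib.Quad Cfsg.Agent.Lib.QuadD67 Cfsg.Agent.Lib.QuadEmb67
  Cfsg.Agent.Lib.OReal67

section C

variable {F : Type*} [Field F]

/-- invariant quadratic forms for symplectic matrices of odd order without eigenvalue 1 -/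
theorem exists_form {d r : ℕ} (hr : Odd r) {A : Matrix (Fin d ⊕ Fin d) (Fin d ⊕ Fin d) F} (hA : A ∈ Matrix.symplecticGroup (Fin d) F)
    (hAr : A ^ r = 1) (h1 : ∀ v, A *ᵥ v = v → v = 0) :
    ∃ Q' : QuadraticForm F (Fin d ⊕ Fin d → F), Nd Q' ∧ ∀ v, Q' (A *ᵥ v) = Q' v := by
  set J := Matrix.J (Fin d) F with hJ
  have hAJ : Aᵀ * J * A = J := SymplecticGroup.mem_iff'.1 hA
  have hJT : Jᵀ = -J := Matrix.J_transpose _ _
  have hval : ∀ x y : Fin d ⊕ Fin d → F, Matrix.toLinearMap₂' F (J * A) x y = x ⬝ᵥ (J * A) *ᵥ y := fun x y =>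
    Matrix.toLinearMap₂'_apply' _ _ _
  refine ⟨LinearMap.BilinMap.toQuadraticMap (Matrix.toLinearMap₂' F (J * A)), ?_, ?_⟩
  · apply nd_of
    intro x hx
    have h2 : ∀ y, y ⬝ᵥ ((J * A - Aᵀ * J) *ᵥ x) = 0 := by
      intro y
      have h3 := hx y
      rw [LinearMap.BilinMap.polar_toQuadraticMap, hval, hval] at h3
      rw [← h3, sub_mulVec, dotProduct_sub, add_comm, sub_eq_add_neg]
      congr 1
      have h4 : x ⬝ᵥ (J * A) *ᵥ y = y ⬝ᵥ (J * A)ᵀ *ᵥ x := by
        rw [dotProduct_mulVec, ← mulVec_transpose, dotProduct_comm]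
      rw [h4, transpose_mul, hJT, mul_neg, neg_mulVec, dotProduct_neg]
    have h3 : (J * A - Aᵀ * J) *ᵥ x = 0 := by
      rw [← dotProduct_eq_zero_iff]
      intro y
      rw [dotProduct_comm]
      exact h2 y
    rw [sub_mulVec, sub_eq_zero] at h3
    have h4 : (Aᵀ * J) *ᵥ (A *ᵥ (A *ᵥ x)) = (Aᵀ * J) *ᵥ x := by
      rw [mulVec_mulVec, hAJ, mulVec_mulVec]
      exact h3
    have hdet : IsUnit (Aᵀ * J).det := by
      have h5 : (Aᵀ * J * A).det ≠ 0 := by rw [hAJ]; exact (Matrix.isUnit_det_J (Fin d) F).ne_zero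
      rw [det_mul] at h5
      exact isUnit_iff_ne_zero.2 (left_ne_zero_of_mul h5)
    have h5 : A *ᵥ (A *ᵥ x) = x := Matrix.mulVec_injective_of_isUnit ((Matrix.isUnit_iff_isUnit_det _).2 hdet) h4
    apply h1
    obtain ⟨j, hj⟩ := hr
    have h6 : ∀ j : ℕ, (A ^ (2 * j)) *ᵥ x = x := by
      intro j
      induction j with
      | zero => rw [mul_zero, pow_zero, one_mulVec]
      | succ k ih => rw [mul_add, mul_one, pow_add, ← mulVec_mulVec, pow_two, ← mulVec_mulVec, h5, ih]
    have h7 : (A ^ r) *ᵥ x = x := by rw [hAr, one_mulVec]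
    rw [hj, pow_succ', ← mulVec_mulVec, h6] at h7
    exact h7
  · intro v
    rw [LinearMap.BilinMap.toQuadraticMap_apply, LinearMap.BilinMap.toQuadraticMap_apply, hval, hval]
    have h2 : (A *ᵥ v) ⬝ᵥ (J * A) *ᵥ (A *ᵥ v) = v ⬝ᵥ (Aᵀ * J * A * A) *ᵥ v := by
      rw [mulVec_mulVec, ← vecMul_transpose A v, ← dotProduct_mulVec, mulVec_mulVec]
      simp only [Matrix.mul_assoc]
    rw [h2, hAJ]

end C

section D

variable {F : Type*} [Field F] [Finite F] {V V' : Type*} [AddCommGroup V] [Module F V] [FiniteDimensional F V]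
  [AddCommGroup V'] [Module F V'] [FiniteDimensional F V']

theorem exists_O {Q : QuadraticForm F V} {Q' : QuadraticForm F V'} (hQ : Nd Q) (hQ' : Nd Q') (A : Module.End F V')
    (hA : ∀ v, Q' (A v) = Q' v) {r : ℕ} (hAr : A ^ r = 1) (f : V' →ₗ[F] V) (hf : ∀ x, Q (f x) = Q' x) :
    ∃ g : Module.End F V, (∀ v, Q (g v) = Q v) ∧ g ^ r = 1 ∧
      g.charpoly = A.charpoly * (X - 1) ^ (finrank F V - finrank F V') := by
  have hinj := inj_of_nd hQ' hf
  set W := LinearMap.range f with hW
  have hpol : ∀ x y, polar Q (f x) (f y) = polar Q' x y := fun x y => polar_map f hf x y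
  have hdim : finrank F W = finrank F V' := LinearMap.finrank_range_of_inj hinj
  have hcompl : IsCompl W (perp Q W) := by
    rw [Submodule.isCompl_iff_disjoint _ _ (hQ.finrank_add_finrank_perp W).ge, Submodule.disjoint_def]
    rintro _ ⟨v, rfl⟩ hv
    have h1 : v = 0 := by
      apply hQ'.eq_zero
      intro y
      rw [← hpol]
      exact mem_perp'.1 hv _ ⟨y, rfl⟩
    rw [h1, map_zero]
  let e : (V' × perp Q W) ≃ₗ[F] V := ((LinearEquiv.ofInjective f hinj).prodCongr (LinearEquiv.refl F _)).trans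
    (Submodule.prodEquivOfIsCompl W (perp Q W) hcompl)
  have he : ∀ x, e x = f x.1 + x.2 := fun x => by
    show Submodule.prodEquivOfIsCompl W (perp Q W) hcompl _ = _
    rw [Submodule.coe_prodEquivOfIsCompl']
    rfl
  have hQe : ∀ x, Q (e x) = Q' x.1 + Q x.2 := by
    intro x
    rw [he, Q_add, hf, mem_perp.1 x.2.2 (f x.1) ⟨x.1, rfl⟩, add_zero]
  have hperp : finrank F (perp Q W) = finrank F V - finrank F V' := by
    rw [hQ.finrank_perp, hdim]
  refine ⟨e.conj (A.prodMap 1), ?_, ?_, ?_⟩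
  · intro v
    obtain ⟨x, rfl⟩ := e.surjective v
    rw [LinearEquiv.conj_apply_apply, e.symm_apply_apply, hQe, hQe]
    show Q' (A x.1) + Q x.2 = _
    rw [hA]
  · have h1 : ∀ k : ℕ, (e.conj (A.prodMap 1)) ^ k = e.conj ((A ^ k).prodMap 1) := by
      intro k
      induction k with
      | zero =>
        rw [pow_zero, pow_zero]
        apply LinearMap.ext
        intro v
        obtain ⟨x, rfl⟩ := e.surjective v
        rw [LinearEquiv.conj_apply_apply, e.symm_apply_apply]
        rfl
      | succ k ih =>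
        rw [pow_succ, ih, pow_succ]
        apply LinearMap.ext
        intro v
        obtain ⟨x, rfl⟩ := e.surjective v
        rw [Module.End.mul_apply, LinearEquiv.conj_apply_apply e (A.prodMap 1), e.symm_apply_apply, LinearEquiv.conj_apply_apply, e.symm_apply_apply,
          LinearEquiv.conj_apply_apply, e.symm_apply_apply]
        rfl
    rw [h1, hAr]
    apply LinearMap.ext
    intro v
    obtain ⟨x, rfl⟩ := e.surjective v
    rw [LinearEquiv.conj_apply_apply, e.symm_apply_apply]
    rfl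
  · rw [LinearEquiv.charpoly_conj, LinearMap.charpoly_prodMap, LinearMap.charpoly_one, hperp]

end D

section E

variable {F : Type*} [Field F] [Fintype F] {V : Type*} [AddCommGroup V] [Module F V] [FiniteDimensional F V]

/-- semiregular isometries determine the sign -/
theorem sign_mod {Q : QuadraticForm F V} (hQ : Nd Q) {r : ℕ} [hr : Fact r.Prime] (hq : ((Fintype.card F : ℕ) : ZMod r) ≠ 0) {N : ℕ}
    (hV : finrank F V = 2 * N) {s : ℤ} (hs : D Q = s * (Nat.card F : ℤ) ^ N) (g : V → V) (hg : ∀ v, Q (g v) = Q v)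
    (hgr : ∀ v, g^[r] v = v) (h1 : ∀ v, g v = v → v = 0) : ((Fintype.card F : ZMod r)) ^ N = (s : ZMod r) := by
  classical
  have hfin : Finite V := Module.finite_of_finite F
  have hft : Fintype {v : V // Q v = 1} := Fintype.ofFinite _
  have hdvd : r ∣ NN Q 1 := by
    let f : Function.End {v : V // Q v = 1} := fun v => ⟨g v.1, by rw [hg]; exact v.2⟩
    have hf : ∀ (k : ℕ) (v : {v : V // Q v = 1}), ((f ^ k) v).1 = g^[k] v.1 := by
      intro k
      induction k with
      | zero => intro v; rfl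
      | succ k ih =>
        intro v
        rw [pow_succ, Function.iterate_succ_apply]
        exact ih (f v)
    have hfr : f ^ r ^ 1 = 1 := by
      funext v
      apply Subtype.ext
      rw [pow_one, hf, hgr]
      rfl
    have h2 := Equiv.Perm.card_fixedPoints_modEq hfr
    have h3 : Fintype.card (Function.fixedPoints f) = 0 := by
      rw [Fintype.card_eq_zero_iff]
      refine ⟨fun v => ?_⟩
      have h4 : g v.1.1 = v.1.1 := congrArg Subtype.val v.2
      have h5 := h1 _ h4
      have h6 := v.1.2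
      rw [h5, QuadraticMap.map_zero] at h6
      exact zero_ne_one h6
    rw [h3] at h2
    rw [NN, Nat.card_eq_fintype_card]
    exact (Nat.modEq_zero_iff_dvd).1 h2
  have hcard := card_bal (bal hQ (by rw [hV]; exact even_two_mul N))
  have hVc : Nat.card V = Fintype.card F ^ (2 * N) := by
    rw [Module.natCard_eq_pow_finrank (K := F), hV, Nat.card_eq_fintype_card]
  rw [Nat.card_eq_fintype_card (α := F)] at hs hcard
  rw [hVc] at hcard
  rw [D] at hs
  obtain ⟨c, hc⟩ := hdvd
  have h2 : ((Fintype.card F : ℕ) : ℤ) * (NN Q 1 : ℤ) = (Fintype.card F : ℤ) ^ N * ((Fintype.card F : ℤ) ^ N - s) := by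
    have h3 : ((Fintype.card F ^ (2 * N) : ℕ) : ℤ) = (Fintype.card F : ℤ) ^ N * (Fintype.card F : ℤ) ^ N := by
      push_cast; ring
    rw [h3] at hcard
    linear_combination hcard - hs
  have h3 := congrArg (fun z : ℤ => (z : ZMod r)) h2
  simp only [hc, Int.cast_mul, Int.cast_natCast, Nat.cast_mul, Int.cast_pow, Int.cast_sub] at h3
  rw [CharP.cast_eq_zero (ZMod r) r, zero_mul, mul_zero] at h3
  rcases mul_eq_zero.1 h3.symm with h4 | h4
  · exact absurd h4 (pow_ne_zero N hq)
  · exact sub_eq_zero.1 h4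

end E

end Cfsg.Agent.Lib.PrCount
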