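import Mathlib
import Cfsg.Agent.Lib.PrCountO2

/-!
(helper43) orthogonal groups: multiplicity functions of elements of odd prime order, part 3.
-/

set_option autoImplicit false
set_option linter.unusedSectionVars false

namespace Cfsg.Agent.Lib.PrCount

open Polynomial Module Matrix QuadraticMap Cfsg.Agent.Lib.Quad Cfsg.Agent.Lib.QuadD67 Cfsg.Agent.Lib.QuadEmb67
  Cfsg.Agent.Lib.OReal67

section A

variable {F : Type*} [Field F] {L : Type*} [Field L] [IsAlgClosed L] [Algebra F L] {r : ℕ}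
  [hr : Fact r.Prime] {ζ : L} (hζ : IsPrimitiveRoot ζ r)

include hζ

theorem mu_zero_iff {κ : Type*} [Fintype κ] [DecidableEq κ] (A : Matrix κ κ F) :
    mu ζ A (0 : ZMod r) = 0 ↔ ∀ v, A *ᵥ v = v → v = 0 := by
  classical
  rw [mu_def, zp_zero hζ, Multiset.count_eq_zero, mem_roots (cp_monic A).ne_zero, IsRoot.def, cp,
    ← map_one (algebraMap F L), eval_map_apply, ← (algebraMap F L).map_zero, (algebraMap F L).injective.eq_iff,
    Matrix.eval_charpoly, map_one, ← Matrix.exists_mulVec_eq_zero_iff]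
  push Not
  refine forall_congr' fun v => ?_
  rw [sub_mulVec, one_mulVec, sub_ne_zero]
  constructor
  · intro h h1
    by_contra h2
    exact h h2 h1.symm
  · intro h h1 h2
    exact h1 (h h2.symm)

theorem mu_neg_of_form {κ : Type*} [Fintype κ] [DecidableEq κ] {M G : Matrix κ κ F} (hG : IsUnit G) (h : Mᵀ * G * M = G) (k : ZMod r) :
    mu ζ M (-k) = mu ζ M k := by
  have hM : IsUnit M := by
    rw [isUnit_iff_isUnit_det] at hG ⊢
    rw [← h, det_mul] at hG
    exact isUnit_of_mul_isUnit_right hG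
  have hdM := (isUnit_iff_isUnit_det M).1 hM
  have hdG := (isUnit_iff_isUnit_det G).1 hG
  have h1 : M⁻¹ = G⁻¹ * Mᵀ * G := by
    apply Matrix.inv_eq_left_inv
    rw [Matrix.mul_assoc, Matrix.mul_assoc, ← Matrix.mul_assoc Mᵀ, h, Matrix.nonsing_inv_mul _ hdG]
  have h2 : (M⁻¹).charpoly = M.charpoly := by
    obtain ⟨U, rfl⟩ := hG
    rw [h1, Matrix.charpoly_units_conj' U, Matrix.charpoly_transpose]
  have h3 := mu_inv hζ hM k
  rw [mu_congr h2] at h3
  exact h3

omit hζ in
theorem fp_update [DecidableEq (ZMod r)] (hζ : IsPrimitiveRoot ζ r) (m : ZMod r → ℕ) : fp ζ (Function.update m 0 0) * (X - C 1) ^ m 0 = fp ζ m := by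
  rw [fp, fp, ← Finset.mul_prod_erase _ _ (Finset.mem_univ (0 : ZMod r)), ← Finset.mul_prod_erase _ _ (Finset.mem_univ (0 : ZMod r)),
    Function.update_self, pow_zero, one_mul, zp_zero hζ, mul_comm]
  congr 1
  refine Finset.prod_congr rfl fun k hk => ?_
  rw [Function.update_of_ne (Finset.ne_of_mem_erase hk)]

end A

section Main

variable {F : Type*} [Field F] [Fintype F] {L : Type*} [Field L] [IsAlgClosed L] [Algebra F L] {r : ℕ}
  [hr : Fact r.Prime] {ζ : L} (hζ : IsPrimitiveRoot ζ r) {ι : Type} [Fintype ι] [DecidableEq ι]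

/-- the condition on multiplicity functions -/
def OCond (Q : QuadraticForm F (ι → F)) (m : ZMod r → ℕ) : Prop :=
  (∀ k, m (-k) = m k) ∧ (∀ k, m ((Fintype.card F : ZMod r) * k) = m k) ∧ ∑ k, m k = Fintype.card ι ∧
    (m 0 = 0 → ∀ (N : ℕ) (s : ℤ), Fintype.card ι = 2 * N → D Q = s * (Fintype.card F : ℤ) ^ N →
      (Fintype.card F : ZMod r) ^ N = (s : ZMod r))

include hζ

theorem ocond_of_mem {Q : QuadraticForm F (ι → F)} (hQ : Nd Q) (hq : ((Fintype.card F : ℕ) : ZMod r) ≠ 0)
    {g : GL ι F} (hg : g ∈ Cfsg.isometryGroup F ⇑Q) (hgr : g ^ r = 1) : OCond Q (fun k : ZMod r => mu ζ (g : Matrix ι ι F) k) := by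
  have hg' : ∀ v, Q ((g : Matrix ι ι F) *ᵥ v) = Q v := mem_isometryGroup.1 hg
  have hgr' : (g : Matrix ι ι F) ^ r = 1 := by rw [← Units.val_pow_eq_pow_val, hgr]; rfl
  refine ⟨?_, ?_, ?_, ?_⟩
  · intro k
    set G : Matrix ι ι F := LinearMap.toMatrix₂' F (polarBilin Q) with hGdef
    have hG : ∀ x y, polar Q x y = x ⬝ᵥ G *ᵥ y := by
      intro x y
      have h1 : Matrix.toLinearMap₂' F G = polarBilin Q := Matrix.toLinearMap₂'_toMatrix' _
      have h2 : polarBilin Q x y = x ⬝ᵥ G *ᵥ y := by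
        rw [← h1, Matrix.toLinearMap₂'_apply']
      exact h2
    have hGu : IsUnit G := by
      rw [isUnit_iff_isUnit_det, isUnit_iff_ne_zero, Ne, ← Matrix.exists_mulVec_eq_zero_iff]
      rintro ⟨v, hv0, hv⟩
      apply hv0
      apply hQ.eq_zero
      intro y
      rw [polar_comm, hG, hv, dotProduct_zero]
    apply mu_neg_of_form hζ hGu
    have h3 : ∀ x y, x ⬝ᵥ (((g : Matrix ι ι F)ᵀ * G * (g : Matrix ι ι F)) *ᵥ y) = x ⬝ᵥ G *ᵥ y := by
      intro x y
      rw [← hG, ← polar_map (Matrix.toLin' (g : Matrix ι ι F)) hg' x y, hG, Matrix.toLin'_apply, Matrix.toLin'_apply,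
        ← vecMul_transpose (g : Matrix ι ι F) x, ← dotProduct_mulVec, mulVec_mulVec, mulVec_mulVec, Matrix.mul_assoc]
    apply matrix_ext_of_mulVec
    intro y
    rw [← sub_eq_zero, ← dotProduct_eq_zero_iff]
    intro x
    rw [dotProduct_comm, dotProduct_sub, h3, sub_self]
  · intro k
    exact mu_card hζ _ k
  · exact sum_mu hζ (RR_of_pow hgr')
  · intro h0 N s hN hs
    have h1 := (mu_zero_iff hζ (g : Matrix ι ι F)).1 h0
    refine sign_mod hQ hq (N := N) (s := s) (by rw [Module.finrank_pi, hN]) (by rw [Nat.card_eq_fintype_card]; exact hs)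
      (fun v => (g : Matrix ι ι F) *ᵥ v) hg' ?_ h1
    intro v
    have h2 : ∀ k : ℕ, (fun v => (g : Matrix ι ι F) *ᵥ v)^[k] v = ((g : Matrix ι ι F) ^ k) *ᵥ v := by
      intro k
      induction k with
      | zero => rw [Function.iterate_zero_apply, pow_zero, one_mulVec]
      | succ k ih => rw [Function.iterate_succ_apply', ih, pow_succ', ← mulVec_mulVec]
    rw [h2, hgr', one_mulVec]

omit hζ in
theorem sum_even (hr2 : r ≠ 2) {m : ZMod r → ℕ} (hm : ∀ k, m (-k) = m k) (h0 : m 0 = 0) : Even (∑ k, m k) := by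
  classical
  rw [← Finset.add_sum_erase _ _ (Finset.mem_univ (0 : ZMod r)), h0, zero_add, Nat.even_iff, Finset.sum_nat_mod]
  rw [← Nat.even_iff]
  have h2 : (2 : ZMod r) ≠ 0 := by
    intro h
    have h1 : ((2 : ℕ) : ZMod r) = 0 := by exact_mod_cast h
    rw [ZMod.natCast_eq_zero_iff] at h1
    exact hr2 ((Nat.prime_dvd_prime_iff_eq hr.out Nat.prime_two).1 h1)
  have key : ((∑ k ∈ Finset.univ.erase (0 : ZMod r), m k : ℕ) : ZMod 2) = 0 := by
    rw [Nat.cast_sum]
    apply Finset.sum_involution (fun k _ => -k)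
    · intro k _
      rw [hm]
      exact CharTwo.add_self_eq_zero _
    · intro k hk _ h
      apply Finset.ne_of_mem_erase hk
      have h3 : (2 : ZMod r) * k = 0 := by linear_combination -h
      exact (mul_eq_zero.1 h3).resolve_left h2
    · intro k _
      exact neg_neg k
    · intro k hk
      rw [Finset.mem_erase] at hk ⊢
      exact ⟨neg_ne_zero.2 hk.1, Finset.mem_univ _⟩
  rw [ZMod.natCast_eq_zero_iff] at key
  rw [Nat.even_iff, ← Finset.sum_nat_mod]
  omega

theorem exists_of_ocond (p : ℕ) [Fact p.Prime] [CharP F p] (hr2 : r ≠ 2) {Q : QuadraticForm F (ι → F)} (hQ : Nd Q)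
    (hq : ((Fintype.card F : ℕ) : ZMod r) ≠ 0) {m : ZMod r → ℕ} (hm : OCond Q m) :
    ∃ g : GL ι F, g ∈ Cfsg.isometryGroup F ⇑Q ∧ g ^ r = 1 ∧ ∀ k, mu ζ (g : Matrix ι ι F) k = m k := by
  classical
  obtain ⟨hm1, hm2, hm3, hm4⟩ := hm
  set m' := Function.update m 0 0 with hm'
  have hm'0 : m' 0 = 0 := Function.update_self _ _ _
  have hm'1 : ∀ k, m' (-k) = m' k := by
    intro k
    by_cases hk : k = 0
    · rw [hk, neg_zero]
    · rw [hm', Function.update_of_ne (neg_ne_zero.2 hk), Function.update_of_ne hk, hm1]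
  have hm'2 : ∀ k, m' ((Fintype.card F : ZMod r) * k) = m' k := by
    intro k
    by_cases hk : k = 0
    · rw [hk, mul_zero]
    · rw [hm', Function.update_of_ne (mul_ne_zero hq hk), Function.update_of_ne hk, hm2]
  have hsum : m 0 + ∑ k, m' k = Fintype.card ι := by
    rw [← hm3, ← Finset.add_sum_erase _ _ (Finset.mem_univ (0 : ZMod r)), hm'0, zero_add,
      ← Finset.add_sum_erase _ m (Finset.mem_univ (0 : ZMod r))]
    congr 1
    refine Finset.sum_congr rfl fun k hk => ?_
    rw [hm', Function.update_of_ne (Finset.ne_of_mem_erase hk)]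
  obtain ⟨d, hd⟩ := sum_even hr2 hm'1 hm'0
  rw [← two_mul] at hd
  obtain ⟨A, hA, hAr, hAm⟩ := exists_Sp hζ p hr2 hm'1 hm'2 hq hd
  have hA0 : ∀ v, A *ᵥ v = v → v = 0 := by
    rw [← mu_zero_iff hζ, (RR_of_cp hζ hAm).2, hm'0]
  have hodd : Odd r := hr.out.odd_of_ne_two hr2
  obtain ⟨Q', hQ', hQA⟩ := exists_form hodd hA hAr hA0
  have hfr' : finrank F (Fin d ⊕ Fin d → F) = 2 * d := by
    rw [Module.finrank_pi, Fintype.card_sum, Fintype.card_fin, two_mul]
  have hfr : finrank F (ι → F) = Fintype.card ι := Module.finrank_pi _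
  have hemb : ∃ f : (Fin d ⊕ Fin d → F) →ₗ[F] (ι → F), ∀ x, Q (f x) = Q' x := by
    apply emb hQ hQ'
    rcases Nat.eq_zero_or_pos (m 0) with h0 | h0
    · right
      refine ⟨by rw [hfr, hfr']; omega, by rw [hfr]; exact ⟨d, by omega⟩, ?_⟩
      obtain ⟨s, hs, hsD⟩ := exists_sign hQ (N := d) (by rw [hfr]; omega)
      obtain ⟨s', hs', hsD'⟩ := exists_sign hQ' (N := d) hfr'
      have h1 : ((Fintype.card F : ZMod r)) ^ d = (s : ZMod r) := hm4 h0 d s (by omega) (by rw [hsD, Nat.card_eq_fintype_card])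
      have h2 : ((Fintype.card F : ZMod r)) ^ d = (s' : ZMod r) := by
        refine sign_mod hQ' hq hfr' hsD' (fun v => A *ᵥ v) hQA ?_ hA0
        intro v
        have h2 : ∀ k : ℕ, (fun v => A *ᵥ v)^[k] v = (A ^ k) *ᵥ v := by
          intro k
          induction k with
          | zero => rw [Function.iterate_zero_apply, pow_zero, one_mulVec]
          | succ k ih => rw [Function.iterate_succ_apply', ih, pow_succ', ← mulVec_mulVec]
        rw [h2, hAr, one_mulVec]
      have h3 : (s : ZMod r) = (s' : ZMod r) := h1.symm.trans h2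
      have h2' : (1 : ZMod r) ≠ -1 := by
        intro h
        have h1 : ((2 : ℕ) : ZMod r) = 0 := by push_cast; linear_combination h
        rw [ZMod.natCast_eq_zero_iff] at h1
        exact hr2 ((Nat.prime_dvd_prime_iff_eq hr.out Nat.prime_two).1 h1)
      have h4 : s = s' := by
        rcases hs with rfl | ⟨rfl, -⟩ <;> rcases hs' with rfl | ⟨rfl, -⟩
        · rfl
        · exfalso; push_cast at h3; exact h2' h3
        · exfalso; push_cast at h3; exact h2' h3.symm
        · rfl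
      rw [hsD, hsD', h4]
    · left
      rw [hfr, hfr']
      omega
  obtain ⟨f, hf⟩ := hemb
  obtain ⟨g, hg1, hg2, hg3⟩ := exists_O hQ hQ' (Matrix.toLin' A) (fun v => by rw [Matrix.toLin'_apply]; exact hQA v)
    (r := r) (by rw [← Matrix.toLin'_pow, hAr, Matrix.toLin'_one]; rfl) f hf
  let G := ofO (ofMap_mem hQ g hg1)
  have hGm : ((G : GL ι F) : Matrix ι ι F) = LinearMap.toMatrix' g := by
    apply matrix_ext_of_mulVec
    intro v
    rw [LinearMap.toMatrix'_mulVec]
    exact ofO_mulVec (ofMap_mem hQ g hg1) v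
  refine ⟨G, G.2, ?_, ?_⟩
  · apply Units.ext
    have h5 : ∀ k : ℕ, (LinearMap.toMatrix' g) ^ k = LinearMap.toMatrix' (g ^ k) := by
      intro k
      induction k with
      | zero => rw [pow_zero, pow_zero]; exact LinearMap.toMatrix'_one.symm
      | succ k ih => rw [pow_succ, ih, ← LinearMap.toMatrix'_mul, pow_succ]
    rw [Units.val_pow_eq_pow_val, hGm, h5, hg2]
    exact LinearMap.toMatrix'_one
  · intro k
    refine (RR_of_cp hζ (m := m) ?_).2 k
    rw [hGm, ← Matrix.charpoly_toLin', Matrix.toLin'_toMatrix', hg3, Matrix.charpoly_toLin', Polynomial.map_mul, hAm,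
      Polynomial.map_pow, Polynomial.map_sub, map_X, Polynomial.map_one, hfr, hfr', ← fp_update hζ m, C_1]
    congr 2
    omega

end Main

end Cfsg.Agent.Lib.PrCount
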