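import Mathlib
import Cfsg.Agent.Lib.PrCountO3

/-!
(helper43) orthogonal groups: counting classes of elements of odd prime order.
-/

set_option autoImplicit false
set_option linter.unusedSectionVars false

namespace Cfsg.Agent.Lib.PrCount

open Polynomial Module Matrix QuadraticMap Cfsg.Agent.Lib.Quad Cfsg.Agent.Lib.QuadD67 Cfsg.Agent.Lib.QuadEmb67
  Cfsg.Agent.Lib.OReal67

section Conj

variable {F : Type*} [Field F] [Fintype F] {r : ℕ} [hr : Fact r.Prime] {ι : Type} [Fintype ι] [DecidableEq ι]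

theorem hconj_O (p : ℕ) [Fact p.Prime] [CharP F p] (hr2 : r ≠ 2) (hrp : r ≠ p) {Q : QuadraticForm F (ι → F)} (hQ : Nd Q)
    (g h : ↥(Cfsg.isometryGroup F ⇑Q)) (hg : orderOf g = r) (hc : IsConj (g : GL ι F) (h : GL ι F)) : IsConj g h := by
  obtain ⟨c, hc⟩ := isConj_iff.1 hc
  have hpow : ∀ (k : ℕ) (x : ι → F), ((toLE (g : GL ι F)).toLinearMap ^ k) x = toLE ((g : GL ι F) ^ k) x := by
    intro k
    induction k with
    | zero => intro x; rw [pow_zero, pow_zero, map_one]; rfl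
    | succ k ih =>
      intro x
      rw [pow_succ, Module.End.mul_apply, ih, pow_succ, map_mul]; rfl
  have hmul : ∀ (a b : GL ι F) (x : ι → F), toLE (a * b) x = toLE a (toLE b x) := by
    intro a b x
    rw [map_mul]; rfl
  obtain ⟨w, hwO, hw⟩ := FormConj3.exists_conj (p := p) Q hQ (toLE (g : GL ι F)).toLinearMap (toLE (h : GL ι F)).toLinearMap
    (fun x => (mem_isometryGroup_iff_toLE.1 g.2) x) (fun x => (mem_isometryGroup_iff_toLE.1 h.2) x) r (hr.out.odd_of_ne_two hr2)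
    (fun h => hrp ((Nat.prime_dvd_prime_iff_eq Fact.out hr.out).1 h).symm)
    (by
      refine LinearMap.ext fun x => ?_
      rw [hpow]
      have : (g : GL ι F) ^ r = 1 := by
        have h1 : g ^ r = 1 := by rw [← hg, pow_orderOf_eq_one]
        exact congrArg Subtype.val h1
      rw [this, map_one]; rfl)
    (toLE c) (fun x => by
      show toLE c (toLE (g : GL ι F) x) = toLE (h : GL ι F) (toLE c x)
      rw [← hmul, ← hmul, ← hc]
      congr 2
      group)
  rw [isConj_iff]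
  refine ⟨ofO hwO, ?_⟩
  apply Subtype.ext
  show ((ofO hwO : ↥(Cfsg.isometryGroup F ⇑Q)) : GL ι F) * (g : GL ι F) * ((ofO hwO : ↥(Cfsg.isometryGroup F ⇑Q)) : GL ι F)⁻¹ = (h : GL ι F)
  rw [mul_inv_eq_iff_eq_mul]
  apply toLE.injective
  apply LinearEquiv.ext
  intro x
  rw [hmul, hmul, toLE_ofO]
  exact hw x

end Conj

section DD

variable {F : Type*} [Field F] [Fintype F]

theorem D_quadPlus (m : ℕ) : D (quadPlus m F) = (Fintype.card F : ℤ) ^ m := by
  have h := (plus_iff (Q := quadPlus m F) nd_quadPlus (N := m) finrank_plus).1 ?_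
  · rwa [Nat.card_eq_fintype_card] at h
  · let f : (Fin m → F) →ₗ[F] (Fin m ⊕ Fin m → F) :=
      { toFun := fun v => Sum.elim v 0
        map_add' := fun x y => by
          funext s
          rcases s with i | i <;> simp
        map_smul' := fun c x => by
          funext s
          rcases s with i | i <;> simp }
    have hf : Function.Injective f := by
      intro x y h
      funext i
      exact congrFun h (Sum.inl i)
    refine ⟨LinearMap.range f, ?_, ?_⟩
    · rintro _ ⟨v, rfl⟩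
      show Cfsg.quadFormPlus m F (Sum.elim v 0) = 0
      simp [Cfsg.quadFormPlus]
    · rw [LinearMap.finrank_range_of_inj hf, finrank_plus, Module.finrank_pi, Fintype.card_fin]

theorem D_quadMinus (m : ℕ) {a c : F} (hac : ∀ z₁ z₂ : F, z₁ ^ 2 + a * z₁ * z₂ + c * z₂ ^ 2 = 0 → z₁ = 0 ∧ z₂ = 0) :
    D (quadMinus m F a c) = (-1) * (Fintype.card F : ℤ) ^ (m + 1) := by
  have hdisc := disc_ne_zero_of_anisotropic hac
  have hQ0 : ∀ v : (Fin 0 ⊕ Fin 0) ⊕ Fin 2 → F, quadMinus 0 F a c v = v (.inr 0) ^ 2 + a * v (.inr 0) * v (.inr 1) + c * v (.inr 1) ^ 2 := by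
    intro v
    show Cfsg.quadFormMinus 0 F a c v = _
    simp [Cfsg.quadFormMinus]
  have h0 := plane_D (Q := quadMinus 0 F a c) (nd_quadMinus hdisc) (by rw [finrank_minus]) (by
    intro x hx
    rw [hQ0] at hx
    have h1 := hac _ _ hx
    funext s
    rcases s with (i | i) | i
    · exact i.elim0
    · exact i.elim0
    · fin_cases i
      · exact h1.1
      · exact h1.2)
  let e : (((Fin m ⊕ Fin m) ⊕ Fin 2) → F) ≃ₗ[F] ((Fin m ⊕ Fin m) → F) × (((Fin 0 ⊕ Fin 0) ⊕ Fin 2) → F) :=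
    (LinearEquiv.sumArrowLequivProdArrow _ _ F F).trans ((LinearEquiv.refl F _).prodCongr
      (LinearEquiv.funCongrLeft F F (Equiv.emptySum (Fin 0 ⊕ Fin 0) (Fin 2))))
  have he : ∀ v, ((quadPlus m F).prod (quadMinus 0 F a c)) (e v) = quadMinus m F a c v := by
    intro v
    rw [QuadraticMap.prod_apply, hQ0]
    rfl
  rw [← D_congr e he, D_prod (bal nd_quadPlus (by rw [finrank_plus]; exact even_two_mul m)) h0.1, h0.2, D_quadPlus, Nat.card_eq_fintype_card]
  ring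

end DD

section Cnt

variable {F : Type*} [Field F] [Fintype F] {r : ℕ} [hr : Fact r.Prime] {ι : Type} [Fintype ι] [DecidableEq ι]
  {Q : QuadraticForm F (ι → F)} {H : Subgroup (ZMod r)ˣ}

theorem ocond_odd (hH : ∀ m : ZMod r → ℕ, IsInv H m ↔ (∀ k, m (-k) = m k) ∧ ∀ k, m ((Fintype.card F : ZMod r) * k) = m k)
    (hn : Odd (Fintype.card ι)) (m : ZMod r → ℕ) : OCond Q m ↔ (IsInv H m ∧ ∑ k, m k = Fintype.card ι) := by
  rw [hH, OCond]
  constructor
  · rintro ⟨h1, h2, h3, -⟩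
    exact ⟨⟨h1, h2⟩, h3⟩
  · rintro ⟨⟨h1, h2⟩, h3⟩
    refine ⟨h1, h2, h3, ?_⟩
    intro _ N s hN
    rw [hN] at hn
    exact absurd (even_two_mul N) (Nat.not_even_iff_odd.2 hn)

theorem ocond_even (hH : ∀ m : ZMod r → ℕ, IsInv H m ↔ (∀ k, m (-k) = m k) ∧ ∀ k, m ((Fintype.card F : ZMod r) * k) = m k)
    {N : ℕ} {s : ℤ} (hn : Fintype.card ι = 2 * N) (hD : D Q = s * (Fintype.card F : ℤ) ^ N) (m : ZMod r → ℕ) :
    OCond Q m ↔ ((IsInv H m ∧ ∑ k, m k = 2 * N) ∧ (m 0 = 0 → (Fintype.card F : ZMod r) ^ N = (s : ZMod r))) := by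
  rw [hH, OCond, hn]
  constructor
  · rintro ⟨h1, h2, h3, h4⟩
    exact ⟨⟨⟨h1, h2⟩, h3⟩, fun h => h4 h N s rfl hD⟩
  · rintro ⟨⟨⟨h1, h2⟩, h3⟩, h4⟩
    refine ⟨h1, h2, h3, ?_⟩
    intro h0 N' s' hN hD'
    have hNN : N' = N := by omega
    subst hNN
    rw [hD] at hD'
    have h5 : (0 : ℤ) < (Fintype.card F : ℤ) ^ N' := pow_pos (by exact_mod_cast Fintype.card_pos) _
    have h6 : s = s' := mul_right_cancel₀ h5.ne' hD'
    rw [← h6]
    exact h4 h0

theorem card_ocond_even (hH : ∀ m : ZMod r → ℕ, IsInv H m ↔ (∀ k, m (-k) = m k) ∧ ∀ k, m ((Fintype.card F : ZMod r) * k) = m k)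
    {N : ℕ} {s : ℤ} (hn : Fintype.card ι = 2 * N) (hD : D Q = s * (Fintype.card F : ℤ) ^ N) :
    Nat.card {m : ZMod r → ℕ | OCond Q m} = Nat.card {m : ZMod r → ℕ // IsInv H m ∧ ∑ k, m k = 2 * N} -
      (if (Fintype.card F : ZMod r) ^ N = (s : ZMod r) then 0 else
        Nat.card {m : ZMod r → ℕ // (IsInv H m ∧ ∑ k, m k = 2 * N) ∧ m 0 = 0}) := by
  classical
  split_ifs with hs
  · rw [Nat.sub_zero]
    refine Nat.card_congr (Equiv.subtypeEquivRight fun m => ?_)
    show OCond Q m ↔ _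
    rw [ocond_even hH hn hD]
    exact ⟨fun h => h.1, fun h => ⟨h, fun _ => hs⟩⟩
  · have h1 : {m : ZMod r → ℕ | OCond Q m} = {m : ZMod r → ℕ | IsInv H m ∧ ∑ k, m k = 2 * N} \ {m : ZMod r → ℕ | (IsInv H m ∧ ∑ k, m k = 2 * N) ∧ m 0 = 0} := by
      ext m
      show OCond Q m ↔ (IsInv H m ∧ ∑ k, m k = 2 * N) ∧ ¬ ((IsInv H m ∧ ∑ k, m k = 2 * N) ∧ m 0 = 0)
      rw [ocond_even hH hn hD]
      constructor
      · rintro ⟨h1, h2⟩
        exact ⟨h1, fun h3 => hs (h2 h3.2)⟩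
      · rintro ⟨h1, h2⟩
        exact ⟨h1, fun h3 => absurd ⟨h1, h3⟩ h2⟩
    have hfin : {m : ZMod r → ℕ | IsInv H m ∧ ∑ k, m k = 2 * N}.Finite := by
      apply Set.Finite.subset (Set.finite_Iic (fun _ : ZMod r => 2 * N))
      rintro m ⟨-, hm⟩ k
      rw [← hm]
      exact Finset.single_le_sum (fun _ _ => Nat.zero_le _) (Finset.mem_univ k)
    have h2 : {m : ZMod r → ℕ | (IsInv H m ∧ ∑ k, m k = 2 * N) ∧ m 0 = 0} ⊆ {m : ZMod r → ℕ | IsInv H m ∧ ∑ k, m k = 2 * N} := fun m hm => hm.1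
    rw [h1, Nat.card_coe_set_eq, Set.ncard_sdiff h2 (hfin.subset h2)]
    rfl

end Cnt

section Final

variable {F : Type*} [Field F] [Fintype F] {r : ℕ} [hr : Fact r.Prime] {ι : Type} [Fintype ι] [DecidableEq ι]
  {Q : QuadraticForm F (ι → F)}

theorem classes_O (p : ℕ) [Fact p.Prime] [CharP F p] (hr2 : r ≠ 2) (hrp : r ≠ p) (hQ : Nd Q)
    (hq : ((Fintype.card F : ℕ) : ZMod r) ≠ 0) :
    Nat.card {C : ConjClasses ↥(Cfsg.isometryGroup F ⇑Q) // ∃ g : ↥(Cfsg.isometryGroup F ⇑Q), ConjClasses.mk g = C ∧ orderOf g = r} =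
      Nat.card {m : ZMod r → ℕ | OCond Q m} - 1 := by
  classical
  have hrK : ((r : ℕ) : AlgebraicClosure F) ≠ 0 := by
    have : CharP (AlgebraicClosure F) p := charP_of_injective_algebraMap (algebraMap F (AlgebraicClosure F)).injective p
    rw [Ne, CharP.cast_eq_zero_iff _ p]
    intro h
    exact hrp ((Nat.prime_dvd_prime_iff_eq Fact.out hr.out).1 h).symm
  have : NeZero ((r : ℕ) : AlgebraicClosure F) := ⟨hrK⟩
  obtain ⟨ζ, hζ⟩ := HasEnoughRootsOfUnity.exists_primitiveRoot (AlgebraicClosure F) r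
  refine count_general (F := F) hζ p hrp (Cfsg.isometryGroup F ⇑Q).subtype (Subgroup.subtype_injective _)
    (fun g h hg _ hc => hconj_O p hr2 hrp hQ g h hg hc) {m : ZMod r → ℕ | OCond Q m} ?_
  intro m
  constructor
  · intro hm
    obtain ⟨g, hg, hgr, hgm⟩ := exists_of_ocond hζ p hr2 hQ hq hm
    exact ⟨⟨g, hg⟩, Subtype.ext hgr, hgm⟩
  · rintro ⟨g, hgr, hgm⟩
    have h1 := ocond_of_mem hζ hQ hq g.2 (congrArg Subtype.val hgr)
    have h2 : (fun k : ZMod r => mu ζ ((g : GL ι F) : Matrix ι ι F) k) = m := funext hgm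
    rw [h2] at h1
    exact h1

variable {i t : ℕ} {u : (ZMod r)ˣ}

theorem inv_odd (hu : (u : ZMod r) = (Fintype.card F : ZMod r)) (hi : Odd (orderOf u)) (m : ZMod r → ℕ) :
    IsInv (Subgroup.zpowers (-u)) m ↔ (∀ k, m (-k) = m k) ∧ ∀ k, m ((Fintype.card F : ZMod r) * k) = m k := by
  rw [isInv_zpowers, Units.val_neg, hu]
  constructor
  · intro h
    have h1 : ∀ k, m (-k) = m k := by
      have h2 : ∀ (j : ℕ) (k : ZMod r), m ((-(Fintype.card F : ZMod r)) ^ j * k) = m k := by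
        intro j
        induction j with
        | zero => intro k; rw [pow_zero, one_mul]
        | succ j ih => intro k; rw [pow_succ', mul_assoc, h, ih]
      intro k
      have h3 := h2 (orderOf u) k
      have h4 : (Fintype.card F : ZMod r) ^ orderOf u = 1 := by
        rw [← hu, ← Units.val_pow_eq_pow_val, pow_orderOf_eq_one, Units.val_one]
      rwa [hi.neg_pow, h4, neg_one_mul] at h3
    refine ⟨h1, fun k => ?_⟩
    rw [← h k, ← h1, neg_mul]
  · rintro ⟨h1, h2⟩ k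
    rw [neg_mul, h1, h2]

theorem inv_even (hu : (u : ZMod r) = (Fintype.card F : ZMod r)) (hi : Even (orderOf u)) (m : ZMod r → ℕ) :
    IsInv (Subgroup.zpowers u) m ↔ (∀ k, m (-k) = m k) ∧ ∀ k, m ((Fintype.card F : ZMod r) * k) = m k := by
  rw [isInv_zpowers, hu]
  constructor
  · intro h
    refine ⟨?_, h⟩
    have h2 : ∀ (j : ℕ) (k : ZMod r), m ((Fintype.card F : ZMod r) ^ j * k) = m k := by
      intro j
      induction j with
      | zero => intro k; rw [pow_zero, one_mul]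
      | succ j ih => intro k; rw [pow_succ', mul_assoc, h, ih]
    intro k
    have h3 := h2 (orderOf u / 2) k
    have h4 : (Fintype.card F : ZMod r) ^ (orderOf u / 2) = -1 := by
      rw [← hu, ← Units.val_pow_eq_pow_val, pow_half hi, Units.val_neg, Units.val_one]
    rwa [h4, neg_one_mul] at h3
  · rintro ⟨-, h2⟩
    exact h2

theorem orb_odd (hr2 : r ≠ 2) (hi : i = orderOf u) (ht : t * i = r - 1) (ho : Odd i) [Fintype ((ZMod r)ˣ ⧸ Subgroup.zpowers (-u))] :
    Nat.card (Subgroup.zpowers (-u)) = 2 * i ∧ Fintype.card ((ZMod r)ˣ ⧸ Subgroup.zpowers (-u)) = t / 2 := by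
  have h1 : Nat.card (Subgroup.zpowers (-u)) = 2 * i := by
    rw [Nat.card_zpowers, hi]
    exact ord_neg_odd hr2 (by rw [← hi]; exact ho)
  refine ⟨h1, ?_⟩
  have h2 := card_orbits (Subgroup.zpowers (-u))
  rw [h1] at h2
  have hi0 : 0 < i := by rw [hi]; exact orderOf_pos u
  have h3 : (Fintype.card ((ZMod r)ˣ ⧸ Subgroup.zpowers (-u)) * 2) * i = t * i := by rw [ht, ← h2]; ring
  have h4 := Nat.eq_of_mul_eq_mul_right hi0 h3
  omega

theorem orb_even (hi : i = orderOf u) (ht : t * i = r - 1) [Fintype ((ZMod r)ˣ ⧸ Subgroup.zpowers u)] :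
    Nat.card (Subgroup.zpowers u) = i ∧ Fintype.card ((ZMod r)ˣ ⧸ Subgroup.zpowers u) = t := by
  have h1 : Nat.card (Subgroup.zpowers u) = i := by
    rw [Nat.card_zpowers, hi]
  refine ⟨h1, ?_⟩
  have h2 := card_orbits (Subgroup.zpowers u)
  rw [h1] at h2
  have hi0 : 0 < i := by rw [hi]; exact orderOf_pos u
  exact Nat.eq_of_mul_eq_mul_right hi0 (by rw [h2, ht])

theorem final_odd (p : ℕ) [Fact p.Prime] [CharP F p] (hr2 : r ≠ 2) (hrp : r ≠ p) (hQ : Nd Q)
    (hu : (u : ZMod r) = (Fintype.card F : ZMod r)) (hi : i = orderOf u) (ht : t * i = r - 1) (hn : Odd (Fintype.card ι)) :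
    Nat.card {C : ConjClasses ↥(Cfsg.isometryGroup F ⇑Q) // ∃ g : ↥(Cfsg.isometryGroup F ⇑Q), ConjClasses.mk g = C ∧ orderOf g = r} =
      if Odd i then Nat.choose (Fintype.card ι / (2 * i) + t / 2) (t / 2) - 1 else Nat.choose (Fintype.card ι / i + t) t - 1 := by
  classical
  rw [classes_O p hr2 hrp hQ (by rw [← hu]; exact u.ne_zero)]
  split_ifs with ho
  · have := Fintype.ofFinite ((ZMod r)ˣ ⧸ Subgroup.zpowers (-u))
    obtain ⟨h1, h2⟩ := orb_odd hr2 hi ht ho
    have h3 : Nat.card {m : ZMod r → ℕ | OCond Q m} = Nat.card {m : ZMod r → ℕ // IsInv (Subgroup.zpowers (-u)) m ∧ ∑ k, m k = Fintype.card ι} :=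
      Nat.card_congr (Equiv.subtypeEquivRight fun m => ocond_odd (inv_odd hu (by rw [← hi]; exact ho)) hn m)
    rw [h3, card_inv, h1, h2]
  · have := Fintype.ofFinite ((ZMod r)ˣ ⧸ Subgroup.zpowers u)
    obtain ⟨h1, h2⟩ := orb_even hi ht
    have h3 : Nat.card {m : ZMod r → ℕ | OCond Q m} = Nat.card {m : ZMod r → ℕ // IsInv (Subgroup.zpowers u) m ∧ ∑ k, m k = Fintype.card ι} :=
      Nat.card_congr (Equiv.subtypeEquivRight fun m => ocond_odd (inv_even hu (by rw [← hi]; exact Nat.not_odd_iff_even.1 ho)) hn m)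
    rw [h3, card_inv, h1, h2]

theorem final_even (p : ℕ) [Fact p.Prime] [CharP F p] (hr2 : r ≠ 2) (hrp : r ≠ p) (hQ : Nd Q)
    (hu : (u : ZMod r) = (Fintype.card F : ZMod r)) (hi : i = orderOf u) (ht : t * i = r - 1)
    {N : ℕ} {s : ℤ} (hn : Fintype.card ι = 2 * N) (hD : D Q = s * (Fintype.card F : ℤ) ^ N) :
    Nat.card {C : ConjClasses ↥(Cfsg.isometryGroup F ⇑Q) // ∃ g : ↥(Cfsg.isometryGroup F ⇑Q), ConjClasses.mk g = C ∧ orderOf g = r} =
      if Odd i then Nat.choose (N / i + t / 2) (t / 2) - 1 - (if (u : ZMod r) ^ N = (s : ZMod r) then 0 else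
          if i ∣ N then Nat.choose (N / i + t / 2 - 1) (t / 2 - 1) else 0)
        else Nat.choose (2 * N / i + t) t - 1 - (if (u : ZMod r) ^ N = (s : ZMod r) then 0 else
          if i ∣ 2 * N then Nat.choose (2 * N / i + t - 1) (t - 1) else 0) := by
  classical
  rw [classes_O p hr2 hrp hQ (by rw [← hu]; exact u.ne_zero)]
  by_cases ho : Odd i
  · rw [if_pos ho]
    have := Fintype.ofFinite ((ZMod r)ˣ ⧸ Subgroup.zpowers (-u))
    obtain ⟨h1, h2⟩ := orb_odd hr2 hi ht ho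
    rw [card_ocond_even (inv_odd hu (by rw [← hi]; exact ho)) hn hD, card_inv, card_inv_zero, h1, h2, Nat.sub_right_comm,
      Nat.mul_div_mul_left _ _ (by norm_num), hu]
    simp only [Nat.mul_dvd_mul_iff_left (by norm_num : 0 < 2)]
  · rw [if_neg ho]
    have := Fintype.ofFinite ((ZMod r)ˣ ⧸ Subgroup.zpowers u)
    obtain ⟨h1, h2⟩ := orb_even hi ht
    rw [card_ocond_even (inv_even hu (by rw [← hi]; exact Nat.not_odd_iff_even.1 ho)) hn hD, card_inv, card_inv_zero, h1, h2, Nat.sub_right_comm, hu]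

end Final

end Cfsg.Agent.Lib.PrCount
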