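import Mathlib
import Cfsg.Agent.Lib.PrCountO4
import Cfsg.Agent.Lib.SympSpec

/-! (helper76) classes of elements of odd prime order in symplectic groups. -/

set_option autoImplicit false
set_option linter.unusedSectionVars false

namespace Cfsg.Agent.Lib.H76SpCnt

open Polynomial Module Matrix Cfsg.Agent.Lib.PrCount Cfsg.Agent.Lib.SympMat

variable {F : Type*} [Field F] [Fintype F] {r : ℕ} [hr : Fact r.Prime] {m : ℕ}

/-- the inclusion in `GL` -/
def toGL (m : ℕ) (F : Type*) [Field F] : ↥(Matrix.symplecticGroup (Fin m) F) →* GL (Fin m ⊕ Fin m) F :=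
  MonoidHom.toHomUnits (Matrix.symplecticGroup (Fin m) F).subtype

omit [Fintype F] in
theorem toGL_val (g : ↥(Matrix.symplecticGroup (Fin m) F)) : (toGL m F g : Matrix (Fin m ⊕ Fin m) (Fin m ⊕ Fin m) F) = g := rfl

omit [Fintype F] in
theorem toGL_inj : Function.Injective (toGL m F) := fun g h hgh => Subtype.ext (congrArg Units.val hgh)

theorem hconj (p : ℕ) [Fact p.Prime] [CharP F p] (hr2 : r ≠ 2) (hrp : r ≠ p)
    (g h : ↥(Matrix.symplecticGroup (Fin m) F)) (hg : orderOf g = r) (hc : IsConj (toGL m F g) (toGL m F h)) : IsConj g h := by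
  obtain ⟨c, hc⟩ := isConj_iff.1 hc
  have hcg : (c : Matrix (Fin m ⊕ Fin m) (Fin m ⊕ Fin m) F) * (g : Matrix (Fin m ⊕ Fin m) (Fin m ⊕ Fin m) F) =
      (h : Matrix (Fin m ⊕ Fin m) (Fin m ⊕ Fin m) F) * c := by
    have h1 : c * toGL m F g = toGL m F h * c := by rw [← hc]; group
    exact congrArg Units.val h1
  have hgr : (g : Matrix (Fin m ⊕ Fin m) (Fin m ⊕ Fin m) F) ^ r = 1 := by
    have h1 : g ^ r = 1 := by rw [← hg, pow_orderOf_eq_one]
    exact congrArg Subtype.val h1
  let f : Module.End F (Fin m ⊕ Fin m → F) := Matrix.toLin' (g : Matrix (Fin m ⊕ Fin m) (Fin m ⊕ Fin m) F)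
  let C : Module.End F (Fin m ⊕ Fin m → F) := Matrix.toLin' (c : Matrix (Fin m ⊕ Fin m) (Fin m ⊕ Fin m) F)
  have hf : ∀ x, f x = (g : Matrix (Fin m ⊕ Fin m) (Fin m ⊕ Fin m) F) *ᵥ x := fun x => rfl
  have hC : ∀ x, C x = (c : Matrix (Fin m ⊕ Fin m) (Fin m ⊕ Fin m) F) *ᵥ x := fun x => rfl
  have hgi := mem_iff.mp g.2
  have hhi := mem_iff.mp h.2
  have hCf : ∀ x, C (f x) = (h : Matrix (Fin m ⊕ Fin m) (Fin m ⊕ Fin m) F) *ᵥ C x := by
    intro x
    rw [hC, hf, hC, Matrix.mulVec_mulVec, Matrix.mulVec_mulVec, hcg]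
  have hCinj : Function.Injective C := by
    intro x y hxy
    have h1 := congrArg (fun z => ((c⁻¹ : GL (Fin m ⊕ Fin m) F) : Matrix (Fin m ⊕ Fin m) (Fin m ⊕ Fin m) F) *ᵥ z) hxy
    simp only [hC, Matrix.mulVec_mulVec, ← Units.val_mul, inv_mul_cancel, Units.val_one, Matrix.one_mulVec] at h1
    exact h1
  have hCsurj : Function.Surjective C := LinearMap.injective_iff_surjective.1 hCinj
  have hfr : f ^ r = 1 := by
    show (Matrix.toLin' (g : Matrix (Fin m ⊕ Fin m) (Fin m ⊕ Fin m) F)) ^ r = 1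
    rw [← Matrix.toLin'_pow, hgr, Matrix.toLin'_one]; rfl
  have halt : ∀ x, B m F x x = 0 := fun x => sympForm_self x
  have hnd : ∀ x, (∀ y, B m F x y = 0) → x = 0 := fun x hx => eq_zero_of_sympForm hx
  obtain ⟨d, hd1, hd2⟩ := FormConj2.exists_alt (B m F) ((B m F).compl₁₂ C C) halt (fun x => halt (C x)) hnd
    (fun x hx => hCinj (by
      rw [map_zero]
      apply hnd
      intro y
      obtain ⟨z, rfl⟩ := hCsurj y
      exact hx z)) f (fun x y => hgi x y)
    (fun x y => by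
      show B m F (C (f x)) (C (f y)) = B m F (C x) (C y)
      rw [hCf, hCf]
      exact hhi _ _)
    (by
      intro l hl x hx
      have hpr : ¬ p ∣ r := fun h => hrp ((Nat.prime_dvd_prime_iff_eq Fact.out hr.out).1 h).symm
      by_cases hp2 : p = 2
      · have hl1 : l = 1 := by
          have h2 : (2 : F) = 0 := by
            have := CharP.cast_eq_zero F p
            rw [hp2] at this
            exact_mod_cast this
          have h3 : (l - 1) * (l - 1) = 0 := by linear_combination hl + (1 - l) * h2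
          exact sub_eq_zero.1 (mul_self_eq_zero.1 h3)
        rw [hl1, one_smul, one_smul] at hx
        rw [hl1, one_smul]
        exact FormConj3.semisimple_one (p := p) f r hpr hfr x hx
      · have h1 := FormConj3.semisimple_one (p := p) (l • f) (2 * r)
          (by
            intro h
            rcases (Nat.Prime.dvd_mul Fact.out).1 h with h | h
            · exact hp2 ((Nat.prime_dvd_prime_iff_eq Fact.out Nat.prime_two).1 h)
            · exact hpr h)
          (by
            rw [_root_.smul_pow, mul_comm 2 r, pow_mul f, hfr, one_pow, mul_comm r 2, pow_mul, pow_two, hl, one_pow, one_smul]) x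
          (by
            have e1 : (l • f) x - x = l • (f x - l • x) := by
              rw [LinearMap.smul_apply, smul_sub, smul_smul, hl, one_smul]
            rw [e1, LinearMap.smul_apply, map_smul, hx, smul_smul, smul_smul, hl, one_mul])
        rw [LinearMap.smul_apply] at h1
        have h2 := congrArg (fun z => l • z) h1
        simp only [smul_smul, hl, one_smul] at h2
        exact h2)
  have hdinj : Function.Injective d := by
    rw [injective_iff_map_eq_zero]
    intro x hx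
    apply hCinj
    rw [map_zero]
    apply hnd
    intro y
    obtain ⟨z, rfl⟩ := hCsurj y
    have h1 := hd1 x z
    rw [hx, map_zero, LinearMap.zero_apply] at h1
    exact h1.symm
  have hdbij : Function.Bijective d := ⟨hdinj, LinearMap.injective_iff_surjective.1 hdinj⟩
  let e := LinearEquiv.ofBijective d hdbij
  have he : ∀ x, e x = d x := fun x => rfl
  let w : Module.End F (Fin m ⊕ Fin m → F) := C ∘ₗ (e.symm : (Fin m ⊕ Fin m → F) →ₗ[F] (Fin m ⊕ Fin m → F))
  have hw : ∀ x, w (d x) = C x := by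
    intro x
    show C (e.symm (d x)) = C x
    rw [← he, LinearEquiv.symm_apply_apply]
  have hwM : ∀ x, (LinearMap.toMatrix' w) *ᵥ x = w x := fun x => LinearMap.toMatrix'_mulVec w x
  have hwS : LinearMap.toMatrix' w ∈ Matrix.symplecticGroup (Fin m) F := by
    rw [mem_iff]
    intro u v
    obtain ⟨x, rfl⟩ := hdbij.2 u
    obtain ⟨y, rfl⟩ := hdbij.2 v
    rw [hwM, hwM, hw, hw]
    exact (hd1 x y).symm
  rw [isConj_iff]
  refine ⟨⟨LinearMap.toMatrix' w, hwS⟩, ?_⟩
  rw [mul_inv_eq_iff_eq_mul]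
  apply Subtype.ext
  show LinearMap.toMatrix' w * (g : Matrix (Fin m ⊕ Fin m) (Fin m ⊕ Fin m) F) = (h : Matrix (Fin m ⊕ Fin m) (Fin m ⊕ Fin m) F) * LinearMap.toMatrix' w
  apply Matrix.toLin'.injective
  apply LinearMap.ext
  intro u
  obtain ⟨x, rfl⟩ := hdbij.2 u
  rw [Matrix.toLin'_apply, Matrix.toLin'_apply, ← Matrix.mulVec_mulVec, ← Matrix.mulVec_mulVec, hwM, hwM, hw]
  have h1 : (g : Matrix (Fin m ⊕ Fin m) (Fin m ⊕ Fin m) F) *ᵥ d x = d (f x) := (hd2 x).symm
  rw [h1, hw, hCf]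

/-- the invariant -/
theorem classes_Sp (p : ℕ) [Fact p.Prime] [CharP F p] (hr2 : r ≠ 2) (hrp : r ≠ p)
    (hq : ((Fintype.card F : ℕ) : ZMod r) ≠ 0) :
    Nat.card {C : ConjClasses ↥(Matrix.symplecticGroup (Fin m) F) // ∃ g : ↥(Matrix.symplecticGroup (Fin m) F), ConjClasses.mk g = C ∧ orderOf g = r} =
      Nat.card {f : ZMod r → ℕ | ((∀ k, f (-k) = f k) ∧ ∀ k, f ((Fintype.card F : ZMod r) * k) = f k) ∧ ∑ k, f k = 2 * m} - 1 := by
  classical
  have hrK : ((r : ℕ) : AlgebraicClosure F) ≠ 0 := by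
    have : CharP (AlgebraicClosure F) p := charP_of_injective_algebraMap (algebraMap F (AlgebraicClosure F)).injective p
    rw [Ne, CharP.cast_eq_zero_iff _ p]
    intro h
    exact hrp ((Nat.prime_dvd_prime_iff_eq Fact.out hr.out).1 h).symm
  have : NeZero ((r : ℕ) : AlgebraicClosure F) := ⟨hrK⟩
  obtain ⟨ζ, hζ⟩ := HasEnoughRootsOfUnity.exists_primitiveRoot (AlgebraicClosure F) r
  refine count_general (F := F) hζ p hrp (toGL m F) toGL_inj
    (fun g h hg _ hc => hconj p hr2 hrp g h hg hc) _ ?_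
  intro f
  constructor
  · rintro ⟨⟨h1, h2⟩, h3⟩
    obtain ⟨A, hA, hAr, hAf⟩ := exists_Sp hζ p hr2 h1 h2 hq h3
    refine ⟨⟨A, hA⟩, Subtype.ext hAr, ?_⟩
    intro k
    show mu ζ A k = f k
    rw [mu_def, cp, hAf, fp_count hζ]
  · rintro ⟨g, hgr, hgm⟩
    have hgr' : (g : Matrix (Fin m ⊕ Fin m) (Fin m ⊕ Fin m) F) ^ r = 1 := congrArg Subtype.val hgr
    have hJ : (g : Matrix (Fin m ⊕ Fin m) (Fin m ⊕ Fin m) F)ᵀ * Matrix.J (Fin m) F * (g : Matrix (Fin m ⊕ Fin m) (Fin m ⊕ Fin m) F) = Matrix.J (Fin m) F :=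
      SymplecticGroup.mem_iff'.1 g.2
    have hJu : IsUnit (Matrix.J (Fin m) F) := (Matrix.isUnit_iff_isUnit_det _).2 (Matrix.isUnit_det_J (Fin m) F)
    refine ⟨⟨fun k => ?_, fun k => ?_⟩, ?_⟩
    · rw [← hgm, ← hgm]
      exact mu_neg_of_form hζ hJu hJ k
    · rw [← hgm, ← hgm]
      exact mu_card hζ _ k
    · have h4 := sum_mu hζ (RR_of_pow (L := AlgebraicClosure F) (r := r) hgr')
      rw [Fintype.card_sum, Fintype.card_fin, ← two_mul] at h4
      rw [← h4]
      exact Finset.sum_congr rfl fun k _ => (hgm k).symm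

end Cfsg.Agent.Lib.H76SpCnt
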