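import Cfsg.Agent.Lib.SL2Half
import Cfsg.Agent.Lib.SL2Count
import Cfsg.Prelude.Def_Blocks

set_option autoImplicit false
universe u
open Cfsg Classical Matrix ComplexConjugate

namespace Cfsg.Agent.Lib.H77Mc

open Cfsg.Agent.Lib.SL2Basic Cfsg.Agent.Lib.SL2Tori Cfsg.Agent.Lib.SL2Int Cfsg.Agent.Lib.SL2Ind
open Cfsg.Agent.Lib.CharBasic Cfsg.Agent.Lib.LinChar Cfsg.Agent.Lib.SL2Ortho
open Cfsg.Agent.Lib.SL2Class Cfsg.Agent.Lib.SL2Vals Cfsg.Agent.Lib.SL2Deg Cfsg.Agent.Lib.SL2Count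

theorem charDegree_of {G : Type u} [Group G] {χ : G → ℂ} {d : ℕ} (h : χ 1 = d) : charDegree χ = d := by
  unfold charDegree
  rw [h, Complex.natCast_re, Nat.floor_natCast]

variable {F : Type u} [Field F] [Finite F] [Fintype (Matrix.SpecialLinearGroup (Fin 2) F)]

local notation "SL2" => Matrix.SpecialLinearGroup (Fin 2) F

theorem unique_of_card {X : Type*} [Finite X] {P : X → Prop} (h : Nat.card {x // P x} = 2) {a b c : X}
    (ha : P a) (hb : P b) (hc : P c) (hba : b ≠ a) (hca : c ≠ a) : b = c := by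
  by_contra hbc
  have h3 : ({a, b, c} : Set X).ncard = 3 := by
    rw [Set.ncard_eq_three]
    exact ⟨a, b, c, hba.symm, hca.symm, hbc, rfl⟩
  have h4 : ({a, b, c} : Set X).ncard ≤ ({x | P x} : Set X).ncard := by
    apply Set.ncard_le_ncard _ (Set.toFinite _)
    rintro x (rfl | rfl | rfl) <;> assumption
  have h5 : ({x | P x} : Set X).ncard = 2 := h
  omega

theorem types (hodd : Odd (Nat.card F)) : ∃ T0 T1 T2 T3 T4 T5 : Set (IrrCharacter SL2),
    T0.ncard ≤ 1 ∧ T1.ncard ≤ 1 ∧ 2 * T2.ncard ≤ Nat.card F - 3 ∧ 2 * T3.ncard ≤ Nat.card F - 1 ∧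
    T4.ncard ≤ 2 ∧ T5.ncard ≤ 2 ∧
    ∀ χ : IrrCharacter SL2, ∃ d : ℕ, charDegree (χ : SL2 → ℂ) = d ∧
      ((χ ∈ T0 ∧ d = 1) ∨ (χ ∈ T1 ∧ d = Nat.card F) ∨ (χ ∈ T2 ∧ d = Nat.card F + 1) ∨
        (χ ∈ T3 ∧ d + 1 = Nat.card F) ∨ (χ ∈ T4 ∧ 2 * d = Nat.card F + 1) ∨
        (χ ∈ T5 ∧ 2 * d + 1 = Nat.card F)) := by
  obtain ⟨A₀, h0⟩ := exists_isEll (F := F)
  have hfin := finite_homC (F := F) h0
  have hcyc := C_cyclic h0
  have hA2 : Nat.card {α : MulChar F ℂ // α ^ 2 = 1} = 2 := card_mulChar_sq_one hodd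
  have hT2 : Nat.card {θ : Subgroup.centralizer ({A₀} : Set (Matrix.SpecialLinearGroup (Fin 2) F)) →* ℂˣ //
      θ ^ 2 = 1} = 2 := by
    apply card_sq_one_even
    rw [C_card h0]
    obtain ⟨k, hk⟩ := hodd
    exact ⟨k + 1, by omega⟩
  have hfa : Finite (MulChar F ℂ) := by
    apply Nat.finite_of_card_ne_zero
    rw [card_mulChar]
    have : 1 < Nat.card F := Finite.one_lt_card
    omega
  refine ⟨{χ | (χ : SL2 → ℂ) = 1}, {χ | (χ : SL2 → ℂ) = St},
    {χ | ∃ α : MulChar F ℂ, α ^ 2 ≠ 1 ∧ (χ : SL2 → ℂ) = R α},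
    {χ | ∃ θ : Subgroup.centralizer ({A₀} : Set (Matrix.SpecialLinearGroup (Fin 2) F)) →* ℂˣ,
        θ ^ 2 ≠ 1 ∧ (χ : SL2 → ℂ) = cusp θ},
    {χ | ∃ α : MulChar F ℂ, α ^ 2 = 1 ∧ α ≠ 1 ∧ classInner (χ : SL2 → ℂ) (R α) ≠ 0},
    {χ | ∃ θ : Subgroup.centralizer ({A₀} : Set (Matrix.SpecialLinearGroup (Fin 2) F)) →* ℂˣ,
        θ ^ 2 = 1 ∧ θ ≠ 1 ∧ classInner (χ : SL2 → ℂ) (cusp θ) ≠ 0}, ?_, ?_, ?_, ?_, ?_, ?_, ?_⟩
  · rw [Set.ncard_le_one (Set.toFinite _)]
    intro a ha b hb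
    exact Subtype.ext (ha.trans hb.symm)
  · rw [Set.ncard_le_one (Set.toFinite _)]
    intro a ha b hb
    exact Subtype.ext (ha.trans hb.symm)
  · have h := card_ps (F := F)
    rw [card_alpha_odd hodd] at h
    exact h.le
  · have h := card_cusp (F := F) h0
    rw [card_theta_odd h0 hodd] at h
    exact h.le
  · by_cases hex : ∃ α : MulChar F ℂ, α ^ 2 = 1 ∧ α ≠ 1
    · obtain ⟨α, h1, h2⟩ := hex
      have h := card_half_ps (F := F) h1
      refine le_trans (Set.ncard_le_ncard (t := {χ : IrrCharacter SL2 | classInner (χ : SL2 → ℂ) (R α) ≠ 0})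
        ?_ (Set.toFinite _)) h.le
      rintro χ ⟨β, hb1, hb2, hb3⟩
      have : β = α := unique_of_card hA2 (a := 1) (by simp) hb1 h1 hb2 h2
      rw [this] at hb3
      exact hb3
    · rw [(Set.ncard_eq_zero (Set.toFinite _)).2]
      · omega
      · rw [Set.eq_empty_iff_forall_notMem]
        rintro χ ⟨β, hb1, hb2, -⟩
        exact hex ⟨β, hb1, hb2⟩
  · by_cases hex : ∃ θ : Subgroup.centralizer ({A₀} : Set (Matrix.SpecialLinearGroup (Fin 2) F)) →* ℂˣ,
        θ ^ 2 = 1 ∧ θ ≠ 1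
    · obtain ⟨α, h1, h2⟩ := hex
      have h := card_half_cusp (F := F) h0 h1 h2
      refine le_trans (Set.ncard_le_ncard (t := {χ : IrrCharacter SL2 | classInner (χ : SL2 → ℂ) (cusp α) ≠ 0})
        ?_ (Set.toFinite _)) h.le
      rintro χ ⟨β, hb1, hb2, hb3⟩
      have : β = α := unique_of_card hT2 (a := 1) (by ext x; simp) hb1 h1 hb2 h2
      rw [this] at hb3
      exact hb3
    · rw [(Set.ncard_eq_zero (Set.toFinite _)).2]
      · omega
      · rw [Set.eq_empty_iff_forall_notMem]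
        rintro χ ⟨β, hb1, hb2, -⟩
        exact hex ⟨β, hb1, hb2⟩
  · intro χ
    obtain ⟨d, hd, h⟩ := classify' h0 χ.2
    refine ⟨d, charDegree_of hd, ?_⟩
    rcases h with h | h | h | h | h | h
    · exact Or.inl h
    · exact Or.inr (Or.inl h)
    · exact Or.inr (Or.inr (Or.inl h))
    · exact Or.inr (Or.inr (Or.inr (Or.inl h)))
    · exact Or.inr (Or.inr (Or.inr (Or.inr (Or.inl h))))
    · exact Or.inr (Or.inr (Or.inr (Or.inr (Or.inr h))))

theorem ub {m : ℕ} (hm : Nat.card F = 2 * m + 1) (P : ℕ → Prop) :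
    ({χ | P (charDegree (χ : SL2 → ℂ))} : Set (IrrCharacter SL2)).ncard ≤
      (if P 1 then 1 else 0) + (if P (2 * m + 1) then 1 else 0) + (if P (2 * m + 2) then m - 1 else 0) +
      (if P (2 * m) then m else 0) + (if P (m + 1) then 2 else 0) + (if P m then 2 else 0) := by
  obtain ⟨T0, T1, T2, T3, T4, T5, h0, h1, h2, h3, h4, h5, hT⟩ := types (F := F) ⟨m, hm⟩
  have hsub : ({χ | P (charDegree (χ : SL2 → ℂ))} : Set (IrrCharacter SL2)) ⊆
      (if P 1 then T0 else ∅) ∪ (if P (2 * m + 1) then T1 else ∅) ∪ (if P (2 * m + 2) then T2 else ∅) ∪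
      (if P (2 * m) then T3 else ∅) ∪ (if P (m + 1) then T4 else ∅) ∪ (if P m then T5 else ∅) := by
    intro χ hχ
    obtain ⟨d, hd, h⟩ := hT χ
    change P (charDegree (χ : SL2 → ℂ)) at hχ
    rw [hd] at hχ
    simp only [Set.mem_union]
    rcases h with ⟨h, hd'⟩ | ⟨h, hd'⟩ | ⟨h, hd'⟩ | ⟨h, hd'⟩ | ⟨h, hd'⟩ | ⟨h, hd'⟩
    · rw [hd'] at hχ
      simp [hχ, h]
    · rw [hd', hm] at hχ
      simp [hχ, h]
    · rw [hd', hm] at hχ
      simp [show P (2 * m + 2) from hχ, h]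
    · rw [show d = 2 * m by omega] at hχ
      simp [hχ, h]
    · rw [show d = m + 1 by omega] at hχ
      simp [hχ, h]
    · rw [show d = m by omega] at hχ
      simp [hχ, h]
  have haux : ∀ (p : Prop) (T : Set (IrrCharacter SL2)) (k : ℕ), T.ncard ≤ k →
      (if p then T else ∅ : Set (IrrCharacter SL2)).ncard ≤ if p then k else 0 := by
    intro p T k hk
    split_ifs
    · exact hk
    · simp
  refine (Set.ncard_le_ncard hsub (Set.toFinite _)).trans ?_
  refine (Set.ncard_union_le _ _).trans (add_le_add ?_ (haux _ _ _ h5))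
  refine (Set.ncard_union_le _ _).trans (add_le_add ?_ (haux _ _ _ h4))
  refine (Set.ncard_union_le _ _).trans (add_le_add ?_ (haux _ _ _ (by omega)))
  refine (Set.ncard_union_le _ _).trans (add_le_add ?_ (haux _ _ _ (by omega)))
  exact (Set.ncard_union_le _ _).trans (add_le_add (haux _ _ _ h0) (haux _ _ _ h1))

/-- the number of irreducible characters of `SL₂(q)`, `q = 2m+1`, whose degree satisfies `P` -/
theorem count {m : ℕ} (hm : Nat.card F = 2 * m + 1) (P : ℕ → Prop) :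
    Nat.card {χ : IrrCharacter SL2 // P (charDegree (χ : SL2 → ℂ))} =
      (if P 1 then 1 else 0) + (if P (2 * m + 1) then 1 else 0) + (if P (2 * m + 2) then m - 1 else 0) +
      (if P (2 * m) then m else 0) + (if P (m + 1) then 2 else 0) + (if P m then 2 else 0) := by
  have h1 := ub hm P
  have h2 := ub hm (fun d => ¬ P d)
  have hodd : Odd (Nat.card F) := ⟨m, hm⟩
  have h20 : (2 : F) ≠ 0 := by
    have := Fintype.ofFinite F
    exact two_ne_zero_of_odd (by rwa [← Nat.card_eq_fintype_card])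
  have h3 : ({χ | P (charDegree (χ : SL2 → ℂ))} : Set (IrrCharacter SL2)).ncard +
      ({χ | ¬ P (charDegree (χ : SL2 → ℂ))} : Set (IrrCharacter SL2)).ncard = 2 * m + 5 := by
    have h4 : ({χ | ¬ P (charDegree (χ : SL2 → ℂ))} : Set (IrrCharacter SL2)) =
        ({χ | P (charDegree (χ : SL2 → ℂ))} : Set (IrrCharacter SL2))ᶜ := rfl
    rw [h4, Set.ncard_add_ncard_compl, card_irr, card_conjClasses, hm, card_Zs_odd h20]
    omega
  have h5 : Nat.card {χ : IrrCharacter SL2 // P (charDegree (χ : SL2 → ℂ))} =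
      ({χ | P (charDegree (χ : SL2 → ℂ))} : Set (IrrCharacter SL2)).ncard := rfl
  have hm1 : 1 ≤ m := by
    have : 1 < Nat.card F := Finite.one_lt_card
    omega
  rw [h5]
  apply le_antisymm h1
  have haux : ∀ (p : Prop) (i1 : Decidable p) (i2 : Decidable (¬ p)) (k : ℕ),
      (@ite ℕ p i1 k 0) + (@ite ℕ (¬ p) i2 k 0) = k := by
    intro p _ _ k
    by_cases hp : p <;> simp [hp]
  have a1 := haux (P 1) (propDecidable _) (propDecidable _) 1
  have a2 := haux (P (2 * m + 1)) (propDecidable _) (propDecidable _) 1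
  have a3 := haux (P (2 * m + 2)) (propDecidable _) (propDecidable _) (m - 1)
  have a4 := haux (P (2 * m)) (propDecidable _) (propDecidable _) m
  have a5 := haux (P (m + 1)) (propDecidable _) (propDecidable _) 2
  have a6 := haux (P m) (propDecidable _) (propDecidable _) 2
  omega

end Cfsg.Agent.Lib.H77Mc
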