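import Cfsg.Agent.Lib.H77Mc
import Cfsg.Agent.Lib.CharDegrees
import Cfsg.Agent.Lib.GlaubStep
import Cfsg.Agent.S2430
import Cfsg.Agent.S2431
import Cfsg.Agent.S2437

set_option autoImplicit false
universe u
open Cfsg Classical Matrix ComplexConjugate commutatorElement

namespace Cfsg.Agent.Lib.H77Mc2

open Cfsg.Agent.Lib.SL2Basic Cfsg.Agent.Lib.SL2Tori Cfsg.Agent.Lib.SL2Int
open Cfsg.Agent.Lib.CharBasic Cfsg.Agent.Lib.H77Mc

section general
variable {N : Type u} [Group N]

theorem charDegree_spec {χ : N → ℂ} (hχ : IsIrrCharacter N χ) : χ 1 = (charDegree χ : ℂ) ∧ 0 < charDegree χ := by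
  obtain ⟨n, hn, h⟩ := hχ.exists_degree
  rw [charDegree_of h]
  exact ⟨h, hn⟩

theorem degree_dvd_index [Finite N] (Q : Subgroup N) [Q.Normal] (hab : ∀ a ∈ Q, ∀ b ∈ Q, a * b = b * a)
    (χ : IrrCharacter N) : charDegree (χ : N → ℂ) ∣ Q.index :=
  Cfsg.Agent.Lib.CharDegrees.ito χ.2 Q hab _ (charDegree_spec χ.2).1

theorem degree_dvd_card [Finite N] (χ : IrrCharacter N) : charDegree (χ : N → ℂ) ∣ Nat.card N := by
  have h := degree_dvd_index (⊥ : Subgroup N) (by
    intro a ha b hb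
    rw [Subgroup.mem_bot] at ha hb
    rw [ha, hb]) χ
  rwa [Subgroup.index_bot] at h

theorem card_of_abelian [Finite N] {ℓ : ℕ} (Q : Subgroup N) [Q.Normal] (hab : ∀ a ∈ Q, ∀ b ∈ Q, a * b = b * a)
    (hidx : ¬ ℓ ∣ Q.index) :
    Nat.card {ψ : IrrCharacter N // ¬ ℓ ∣ charDegree (ψ : N → ℂ)} = Nat.card (ConjClasses N) := by
  rw [← card_irr]
  apply Nat.card_congr
  exact Equiv.subtypeUnivEquiv (fun ψ h => hidx (h.trans (degree_dvd_index Q hab ψ)))

theorem card_congr_irr {M : Type u} [Group M] (e : M ≃* N) (P : ℕ → Prop) :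
    Nat.card {ψ : IrrCharacter N // P (charDegree (ψ : N → ℂ))} =
      Nat.card {ψ : IrrCharacter M // P (charDegree (ψ : M → ℂ))} := by
  apply Nat.card_congr
  refine Equiv.subtypeEquiv (Cfsg.Agent.Lib.GlaubCorr.irrCongr e) ?_
  intro ψ
  have : charDegree ((Cfsg.Agent.Lib.GlaubCorr.irrCongr e ψ : IrrCharacter M) : M → ℂ) = charDegree (ψ : N → ℂ) := by
    unfold charDegree
    change ⌊((ψ : N → ℂ) (e 1)).re⌋₊ = _
    rw [map_one]
  rw [this]

end general

section normalizer
variable {G : Type u} [Group G] [Finite G] {ℓ : ℕ} [Fact ℓ.Prime]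

theorem card_sylow_abelian (S : Sylow ℓ G) (hab : ∀ a ∈ S, ∀ b ∈ S, a * b = b * a) :
    Nat.card {ψ : IrrCharacter (Subgroup.normalizer ((S : Subgroup G) : Set G)) //
      ¬ ℓ ∣ charDegree (ψ : Subgroup.normalizer ((S : Subgroup G) : Set G) → ℂ)} =
    Nat.card (ConjClasses (Subgroup.normalizer ((S : Subgroup G) : Set G))) := by
  have hle : (S : Subgroup G) ≤ Subgroup.normalizer ((S : Subgroup G) : Set G) := Subgroup.le_normalizer
  apply card_of_abelian ((S : Subgroup G).subgroupOf (Subgroup.normalizer ((S : Subgroup G) : Set G)))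
  · intro a ha b hb
    exact Subtype.ext (hab _ ha _ hb)
  · have := (S.subtype hle).not_dvd_index
    exact this

theorem card_bot (S : Sylow ℓ G) (h : ¬ ℓ ∣ Nat.card G) (P : ℕ → Prop) :
    Nat.card {ψ : IrrCharacter G // P (charDegree (ψ : G → ℂ))} =
    Nat.card {ψ : IrrCharacter (Subgroup.normalizer ((S : Subgroup G) : Set G)) //
      P (charDegree (ψ : Subgroup.normalizer ((S : Subgroup G) : Set G) → ℂ))} := by
  have h1 : (S : Subgroup G) = ⊥ := by
    obtain ⟨n, hn⟩ := IsPGroup.iff_card.1 S.isPGroup'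
    have h2 : Nat.card (S : Subgroup G) ∣ Nat.card G := Subgroup.card_subgroup_dvd_card _
    rw [hn] at h2
    have hn0 : n = 0 := by
      by_contra hn0
      exact h ((dvd_pow_self ℓ hn0).trans h2)
    rw [hn0, pow_zero] at hn
    exact Subgroup.card_eq_one.1 hn
  have h2 : Subgroup.normalizer ((S : Subgroup G) : Set G) = ⊤ := by
    rw [h1]
    exact Subgroup.normalizer_eq_top_iff.2 inferInstance
  exact card_congr_irr ((MulEquiv.subgroupCongr h2).trans Subgroup.topEquiv) P

end normalizer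

theorem card_classes_congr {M N : Type u} [Group M] [Group N] [Finite M] [Finite N] (e : M ≃* N) :
    Nat.card (ConjClasses M) = Nat.card (ConjClasses N) := by
  rw [← card_irr, ← card_irr]
  exact (Nat.card_congr (Cfsg.Agent.Lib.GlaubCorr.irrCongr e)).symm

section torus
variable {F : Type u} [Field F] [Fintype F]
local notation "SL2" => Matrix.SpecialLinearGroup (Fin 2) F

theorem rhs_torus (hodd : Odd (Fintype.card F)) (ℓ : ℕ) [Fact ℓ.Prime] (hℓ : ℓ ≠ 2)
    (S : Sylow ℓ SL2) (hdvd : ℓ ∣ Fintype.card F - 1 ∨ ℓ ∣ Fintype.card F + 1) :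
    Nat.card {ψ : IrrCharacter (Subgroup.normalizer ((S : Subgroup SL2) : Set SL2)) //
      ¬ ℓ ∣ charDegree (ψ : Subgroup.normalizer ((S : Subgroup SL2) : Set SL2) → ℂ)} =
    Nat.card (Subgroup.centralizer ((S : Subgroup SL2) : Set SL2)) / 2 + 3 := by
  obtain ⟨g, h4, hg1, hk, hC, hN⟩ := Cfsg.Agent.S2430.main hodd ℓ hℓ S hdvd
  have h2 := two_ne_zero_of_odd hodd
  have hnc := not_mem_center_of_tr h4
  have hSC : ∀ x ∈ S, x ∈ Subgroup.centralizer ({g} : Set SL2) := by
    intro x hx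
    have hx' : x ∈ Subgroup.normalizer ((S : Subgroup SL2) : Set SL2) := Subgroup.le_normalizer hx
    rw [hN, mem_normalizer_centralizer_iff h4] at hx'
    rw [Subgroup.mem_centralizer_singleton_iff]
    rcases hx' with h | h
    · exact mul_inv_eq_iff_eq_mul.1 h
    · exfalso
      have h5 := sq_of_inverts h2 h4 h
      have h6 : x ^ 4 = 1 := by
        have : x ^ 4 = (x * x) * (x * x) := by rw [← pow_two x, ← pow_add]
        rw [this, h5]; simp
      obtain ⟨j, hj⟩ := S.isPGroup' ⟨x, hx⟩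
      have hj' : x ^ (ℓ ^ j) = 1 := congrArg Subtype.val hj
      have h7 : orderOf x ∣ Nat.gcd 4 (ℓ ^ j) :=
        Nat.dvd_gcd (orderOf_dvd_of_pow_eq_one h6) (orderOf_dvd_of_pow_eq_one hj')
      have h8 : Nat.gcd 4 (ℓ ^ j) = 1 := by
        have : Nat.Coprime 2 ℓ := (Nat.coprime_primes Nat.prime_two Fact.out).2 hℓ.symm
        exact Nat.Coprime.pow 2 j this
      rw [h8, Nat.dvd_one, orderOf_eq_one_iff] at h7
      rw [h7] at h
      apply ne_inv_of_tr h4
      simpa using h
  rw [card_sylow_abelian S (fun a ha b hb => centralizer_comm hnc (hSC a ha) (hSC b hb)), hN, hC,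
    card_conjClasses_normalizer h2 h4]

theorem mem_normalizer_US {g : SL2} : g ∈ Subgroup.normalizer ((Cfsg.Agent.Lib.ClSL2.US F : Subgroup SL2) : Set SL2) ↔
    (g : Matrix (Fin 2) (Fin 2) F) 1 0 = 0 := by
  constructor
  · intro h
    have h1 := ((Subgroup.mem_normalizer_iff.1 h) (Cfsg.Agent.Lib.ClSL2.uS 1)).1 (Cfsg.Agent.Lib.ClSL2.uS_mem 1)
    rw [Cfsg.Agent.Lib.ClSL2.mem_US] at h1
    obtain ⟨e00, e01, e10, e11⟩ := conj_entries g (Cfsg.Agent.Lib.ClSL2.uS (1 : F)) (by simp)
    rw [h1.2.1, Cfsg.Agent.Lib.ClSL2.coe_uS] at e10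
    simp only [Matrix.of_apply, Matrix.cons_val', Matrix.cons_val_zero, Matrix.cons_val_one,
      Matrix.cons_val_fin_one] at e10
    have : (g : Matrix (Fin 2) (Fin 2) F) 1 0 ^ 2 = 0 := by linear_combination e10
    exact pow_eq_zero_iff two_ne_zero |>.1 this
  · intro h
    have h2 : g ∈ (Subgroup.normalizer (Cfsg.Agent.Lib.ClSL2.UG F : Set (GL (Fin 2) F))).comap Matrix.SpecialLinearGroup.toGL := by
      rw [Subgroup.mem_comap, Cfsg.Agent.Lib.ClSL2.mem_normalizer_UG]
      exact h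
    exact Subgroup.le_normalizer_comap _ h2

theorem US_comm : ∀ a ∈ Cfsg.Agent.Lib.ClSL2.US F, ∀ b ∈ Cfsg.Agent.Lib.ClSL2.US F, a * b = b * a := by
  intro a ha b hb
  obtain ⟨x, rfl⟩ := Cfsg.Agent.Lib.ClSL2.exists_uS ha
  obtain ⟨y, rfl⟩ := Cfsg.Agent.Lib.ClSL2.exists_uS hb
  apply Subtype.ext
  rw [Matrix.SpecialLinearGroup.coe_mul, Matrix.SpecialLinearGroup.coe_mul, Cfsg.Agent.Lib.ClSL2.coe_uS, Cfsg.Agent.Lib.ClSL2.coe_uS]
  ext i j
  fin_cases i <;> fin_cases j <;> simp [Matrix.mul_apply, Fin.sum_univ_two, add_comm]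

theorem rhs_char (hodd : Odd (Fintype.card F)) (ℓ : ℕ) [hl : Fact ℓ.Prime] (S : Sylow ℓ SL2) (hd : ℓ ∣ Fintype.card F) :
    Nat.card {ψ : IrrCharacter (Subgroup.normalizer ((S : Subgroup SL2) : Set SL2)) //
      ¬ ℓ ∣ charDegree (ψ : Subgroup.normalizer ((S : Subgroup SL2) : Set SL2) → ℂ)} =
    Fintype.card F + 3 := by
  obtain ⟨p, hp⟩ := CharP.exists F
  have hpp : Fact p.Prime := ⟨CharP.char_is_prime F p⟩
  have hlp : ℓ = p := by
    obtain ⟨n, hn, hc⟩ := FiniteField.card F p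
    rw [hc] at hd
    exact (Nat.prime_dvd_prime_iff_eq hl.out hn).1 (hl.out.dvd_of_dvd_pow hd)
  subst hlp
  obtain ⟨g, hg⟩ := MulAction.exists_smul_eq SL2 (Cfsg.Agent.Lib.ClSL2.sylowUS F ℓ) S
  have hg' : (S : Subgroup SL2) = (Cfsg.Agent.Lib.ClSL2.US F).map (MulAut.conj g).toMonoidHom := by
    rw [← hg]
    rfl
  rw [card_sylow_abelian S, ← Cfsg.Agent.S2437.result hodd]
  · have hN : Subgroup.normalizer ((S : Subgroup SL2) : Set SL2) =
        ((Cfsg.upperTriangularGL 2 F).comap Matrix.SpecialLinearGroup.toGL).map (MulAut.conj g).toMonoidHom := by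
      rw [hg', ← Subgroup.map_equiv_normalizer_eq]
      congr 1
      ext x
      rw [mem_normalizer_US, mem_bor]
    exact card_classes_congr ((MulEquiv.subgroupCongr hN).trans ((MulAut.conj g).subgroupMap _).symm)
  · intro a ha b hb
    have ha' : a ∈ (S : Subgroup SL2) := ha
    have hb' : b ∈ (S : Subgroup SL2) := hb
    rw [hg'] at ha' hb'
    obtain ⟨x, hx, rfl⟩ := ha'
    obtain ⟨y, hy, rfl⟩ := hb'
    rw [← map_mul, ← map_mul, US_comm x hx y hy]

end torus

section two
variable {N : Type u} [Group N] [Finite N]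

theorem odd_of_pow_two {n : ℕ} (hN : Nat.card N = 2 ^ n) (hidx : (commutator N).index = 4) :
    Nat.card {ψ : IrrCharacter N // ¬ 2 ∣ charDegree (ψ : N → ℂ)} = 4 := by
  rw [← hidx, ← card_linear]
  apply Nat.card_congr
  refine Equiv.subtypeEquivRight ?_
  intro ψ
  obtain ⟨h1, h2⟩ := charDegree_spec ψ.2
  rw [h1]
  have h3 := degree_dvd_card ψ
  rw [hN, Nat.dvd_prime_pow Nat.prime_two] at h3
  obtain ⟨j, hj, hd⟩ := h3
  rw [hd]
  constructor
  · intro h
    rcases Nat.eq_zero_or_pos j with h0 | h0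
    · simp [h0]
    · exact absurd (dvd_pow_self 2 h0.ne') h
  · intro h h'
    have h4 : (2 ^ j : ℕ) = 1 := by exact_mod_cast h
    rw [h4] at h'
    norm_num at h'

theorem odd_24 (hN : Nat.card N = 24) (hidx : ¬ 2 ∣ (commutator N).index) :
    Nat.card {ψ : IrrCharacter N // ¬ 2 ∣ charDegree (ψ : N → ℂ)} = 4 := by
  have h1 : ∑ ψ : IrrCharacter N, charDegree (ψ : N → ℂ) ^ 2 = 24 := by
    have h := sum_degree_sq (G := N)
    rw [hN] at h
    have h' : ((∑ ψ : IrrCharacter N, charDegree (ψ : N → ℂ) ^ 2 : ℕ) : ℂ) = ((24 : ℕ) : ℂ) := by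
      rw [← h]
      push_cast
      apply Finset.sum_congr rfl
      intro χ _
      rw [(charDegree_spec χ.2).1]
    exact_mod_cast h'
  have h2 : Nat.card {ψ : IrrCharacter N // ¬ 2 ∣ charDegree (ψ : N → ℂ)} =
      ∑ ψ : IrrCharacter N, if ¬ 2 ∣ charDegree (ψ : N → ℂ) then 1 else 0 := by
    rw [Nat.card_eq_fintype_card, Fintype.card_subtype, Finset.card_filter]
  have h3 : (commutator N).index = ∑ ψ : IrrCharacter N, if charDegree (ψ : N → ℂ) = 1 then 1 else 0 := by
    rw [← card_linear, Nat.card_eq_fintype_card, Fintype.card_subtype, Finset.card_filter]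
    apply Finset.sum_congr rfl
    intro χ _
    have h4 : ((χ : N → ℂ) 1 = 1) ↔ charDegree (χ : N → ℂ) = 1 := by
      rw [(charDegree_spec χ.2).1]
      norm_cast
    simp only [h4]
  have h5 : ∃ K : ℕ, ∑ ψ : IrrCharacter N, charDegree (ψ : N → ℂ) ^ 2 = 4 * K +
      ∑ ψ : IrrCharacter N, if ¬ 2 ∣ charDegree (ψ : N → ℂ) then 1 else 0 := by
    have h6 : ∀ ψ : IrrCharacter N, ∃ k : ℕ, charDegree (ψ : N → ℂ) ^ 2 = 4 * k +
        if ¬ 2 ∣ charDegree (ψ : N → ℂ) then 1 else 0 := by
      intro ψ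
      rcases Nat.even_or_odd' (charDegree (ψ : N → ℂ)) with ⟨k, hk | hk⟩
      · refine ⟨k ^ 2, ?_⟩
        rw [hk, if_neg (by simp)]
        ring
      · refine ⟨k ^ 2 + k, ?_⟩
        rw [hk, if_pos (by omega)]
        ring
    choose k hk using h6
    refine ⟨∑ ψ : IrrCharacter N, k ψ, ?_⟩
    rw [Finset.mul_sum, ← Finset.sum_add_distrib]
    exact Finset.sum_congr rfl (fun ψ _ => hk ψ)
  have h6 : 9 * (∑ ψ : IrrCharacter N, if ¬ 2 ∣ charDegree (ψ : N → ℂ) then 1 else 0) ≤
      (∑ ψ : IrrCharacter N, charDegree (ψ : N → ℂ) ^ 2) +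
        8 * ∑ ψ : IrrCharacter N, if charDegree (ψ : N → ℂ) = 1 then 1 else 0 := by
    rw [Finset.mul_sum, Finset.mul_sum, ← Finset.sum_add_distrib]
    apply Finset.sum_le_sum
    intro ψ _
    by_cases ho : 2 ∣ charDegree (ψ : N → ℂ)
    · simp [ho]
    · by_cases h1 : charDegree (ψ : N → ℂ) = 1
      · simp [h1]
      · have h7 : 3 ≤ charDegree (ψ : N → ℂ) := by omega
        simp only [ho, h1, if_false, not_false_iff, if_true]
        nlinarith
  have h7 : (∑ ψ : IrrCharacter N, if charDegree (ψ : N → ℂ) = 1 then 1 else 0) ≤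
      ∑ ψ : IrrCharacter N, if ¬ 2 ∣ charDegree (ψ : N → ℂ) then 1 else 0 := by
    apply Finset.sum_le_sum
    intro ψ _
    by_cases h1 : charDegree (ψ : N → ℂ) = 1
    · simp [h1]
    · simp [h1]
  have h8 : (commutator N).index ∣ 24 := hN ▸ Subgroup.index_dvd_card _
  obtain ⟨K, hK⟩ := h5
  rw [h1, ← h2] at hK
  rw [h1, ← h2, ← h3] at h6
  rw [← h2, ← h3] at h7
  have h9 : (commutator N).index = 1 ∨ (commutator N).index = 3 := by
    have h10 : (commutator N).index ≤ 24 := Nat.le_of_dvd (by norm_num) h8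
    interval_cases h : (commutator N).index <;> omega
  omega

theorem index_odd (hN : Nat.card N = 24) (Q : Subgroup N) [Q.Normal] (hQ : Nat.card Q = 8) (z : N)
    (hinv : ∀ y : N, y * y = 1 → y = 1 ∨ y = z) (hzc : ∀ y, z * y = y * z)
    (hC : ∀ x : N, x ^ 3 = 1 → (∀ y ∈ Q, x * y = y * x) → x = 1) : ¬ 2 ∣ (commutator N).index := by
  intro h2
  have hQi : Q.index = 3 := by
    have := Q.card_mul_index
    rw [hN, hQ] at this
    omega
  have hDQ : ¬ Q ≤ commutator N := by
    intro h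
    have := h2.trans (Subgroup.index_dvd_of_le h)
    rw [hQi] at this
    omega
  have hD8 : Nat.card (commutator N ⊓ Q : Subgroup N) ∣ 8 := hQ ▸ Subgroup.card_dvd_of_le inf_le_right
  have hD4 : Nat.card (commutator N ⊓ Q : Subgroup N) ∣ 2 ^ 2 := by
    have h3 : Nat.card (commutator N ⊓ Q : Subgroup N) ≠ 8 := by
      intro h
      apply hDQ
      have : commutator N ⊓ Q = Q := Subgroup.eq_of_le_of_card_ge inf_le_right (by rw [h, hQ])
      rw [← this]
      exact inf_le_left
    rw [show 8 = 2 ^ 3 by norm_num, Nat.dvd_prime_pow Nat.prime_two] at hD8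
    obtain ⟨j, hj, hd⟩ := hD8
    rw [hd] at h3 ⊢
    have : j ≠ 3 := by rintro rfl; norm_num at h3
    exact pow_dvd_pow 2 (by omega)
  have hpow : ∀ d ∈ commutator N ⊓ Q, d ^ 4 = 1 := by
    intro d hd
    have h3 : orderOf (⟨d, hd⟩ : (commutator N ⊓ Q : Subgroup N)) ∣ 4 := (orderOf_dvd_natCard _).trans hD4
    rw [Subgroup.orderOf_mk] at h3
    exact orderOf_dvd_iff_pow_eq_one.1 h3
  obtain ⟨x, hx⟩ := exists_prime_orderOf_dvd_card' 3 (G := N) (by rw [hN]; norm_num)
  have hx3 : x ^ 3 = 1 := by rw [← hx]; exact pow_orderOf_eq_one x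
  have hxxx : x * x * x = 1 := by rw [← hx3, pow_succ, pow_two]
  have hDn : (commutator N ⊓ Q).Normal := inferInstance
  have hxD : ∀ d ∈ commutator N ⊓ Q, x * d * x⁻¹ = d := by
    intro d hd
    by_cases hd1 : d = 1
    · rw [hd1]; group
    by_cases hdz : d = z
    · rw [hdz, ← hzc]; group
    have hdd : d * d ≠ 1 := by
      intro h
      rcases hinv d h with h | h
      · exact hd1 h
      · exact hdz h
    have hd4 : (d * d) * (d * d) = 1 := by
      have := hpow d hd
      rw [← this, ← pow_two d, ← pow_add]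
    have hddz : d * d = z := by
      rcases hinv _ hd4 with h | h
      · exact absurd h hdd
      · exact h
    have hzD : z ∈ commutator N ⊓ Q := hddz ▸ mul_mem hd hd
    have hz1 : z ≠ 1 := by rw [← hddz]; exact hdd
    have hzz : z * z = 1 := by rw [← hddz]; exact hd4
    have hzi : z⁻¹ = z := inv_eq_of_mul_eq_one_left hzz
    have he : x * d * x⁻¹ ∈ commutator N ⊓ Q := hDn.conj_mem d hd x
    by_contra hne
    have he1 : x * d * x⁻¹ ≠ 1 := by
      intro h
      rw [conj_eq_one_iff] at h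
      exact hd1 h
    have hez : x * d * x⁻¹ ≠ z := by
      intro h
      apply hdz
      have : d = x⁻¹ * (x * d * x⁻¹) * x := by group
      rw [this, h, mul_assoc, hzc]
      group
    have hei : x * d * x⁻¹ ≠ d⁻¹ := by
      intro h
      have e1 : x * (x * d * x⁻¹) * x⁻¹ = d := by
        rw [h]
        have : x * d⁻¹ * x⁻¹ = (x * d * x⁻¹)⁻¹ := by group
        rw [this, h, inv_inv]
      have e2 : x * x * x * d * (x * x * x)⁻¹ = x * (x * (x * d * x⁻¹) * x⁻¹) * x⁻¹ := by group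
      rw [e1, h, hxxx, one_mul, inv_one, mul_one] at e2
      apply hdd
      nth_rewrite 1 [e2]
      exact inv_mul_cancel d
    have hdi1 : d⁻¹ ≠ 1 := by rwa [ne_eq, inv_eq_one]
    have hdiz : d⁻¹ ≠ z := by
      intro h
      apply hdz
      rw [← inv_inv d, h, hzi]
    have hdid : d⁻¹ ≠ d := by
      intro h
      apply hdd
      nth_rewrite 1 [← h]
      exact inv_mul_cancel d
    have hc : ({1, z, d, d⁻¹, x * d * x⁻¹} : Finset N).card = 5 := by
      rw [Finset.card_insert_of_notMem, Finset.card_insert_of_notMem, Finset.card_insert_of_notMem,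
        Finset.card_insert_of_notMem, Finset.card_singleton]
      · rw [Finset.mem_singleton]; exact hei.symm
      · rw [Finset.mem_insert, Finset.mem_singleton]
        rintro (h | h)
        · exact hdid h.symm
        · exact hne h.symm
      · rw [Finset.mem_insert, Finset.mem_insert, Finset.mem_singleton]
        rintro (h | h | h)
        · exact hdz h.symm
        · exact hdiz h.symm
        · exact hez h.symm
      · rw [Finset.mem_insert, Finset.mem_insert, Finset.mem_insert, Finset.mem_singleton]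
        rintro (h | h | h | h)
        · exact hz1 h.symm
        · exact hd1 h.symm
        · exact hdi1 h.symm
        · exact he1 h.symm
    have hsub : (({1, z, d, d⁻¹, x * d * x⁻¹} : Finset N) : Set N) ⊆ ((commutator N ⊓ Q : Subgroup N) : Set N) := by
      intro y hy
      simp only [Finset.coe_insert, Finset.coe_singleton, Set.mem_insert_iff, Set.mem_singleton_iff] at hy
      rcases hy with rfl | rfl | rfl | rfl | rfl
      · exact one_mem _
      · exact hzD
      · exact hd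
      · exact inv_mem hd
      · exact he
    have h5 := Set.ncard_le_ncard hsub (Set.toFinite _)
    rw [Set.ncard_coe_finset, hc] at h5
    have h6 : ((commutator N ⊓ Q : Subgroup N) : Set N).ncard = Nat.card (commutator N ⊓ Q : Subgroup N) := rfl
    rw [h6] at h5
    have h7 := Nat.le_of_dvd (by norm_num) hD4
    omega
  have hx1 : x = 1 := by
    apply hC x hx3
    intro y hy
    have hc : x * y * x⁻¹ * y⁻¹ ∈ commutator N ⊓ Q := by
      refine ⟨?_, ?_⟩
      · exact Subgroup.commutator_mem_commutator (Subgroup.mem_top x) (Subgroup.mem_top y)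
      · exact Q.mul_mem ((inferInstance : Q.Normal).conj_mem y hy x) (Q.inv_mem hy)
    obtain ⟨c, hcdef⟩ : ∃ c, c = x * y * x⁻¹ * y⁻¹ := ⟨_, rfl⟩
    rw [← hcdef] at hc
    have h3 := hxD c hc
    have h4 : x * y * x⁻¹ = c * y := by rw [hcdef]; group
    have h5 : x * (x * y * x⁻¹) * x⁻¹ = c * c * y := by
      rw [h4]
      have : x * (c * y) * x⁻¹ = (x * c * x⁻¹) * (x * y * x⁻¹) := by group
      rw [this, h3, h4]; group
    have h6 : x * (x * (x * y * x⁻¹) * x⁻¹) * x⁻¹ = c * c * c * y := by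
      rw [h5]
      have : x * (c * c * y) * x⁻¹ = (x * c * x⁻¹) * (x * c * x⁻¹) * (x * y * x⁻¹) := by group
      rw [this, h3, h4]; group
    have h7 : x * x * x * y * (x * x * x)⁻¹ = x * (x * (x * y * x⁻¹) * x⁻¹) * x⁻¹ := by group
    rw [h6, hxxx, one_mul, inv_one, mul_one] at h7
    have h8 : c * c * c = 1 := by
      have : c * c * c = (c * c * c * y) * y⁻¹ := by group
      rw [this, ← h7, mul_inv_cancel]
    have h9 := hpow c hc
    have h10 : c = 1 := by
      have : c ^ 4 = (c * c * c) * c := by simp only [pow_succ, pow_zero, one_mul]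
      rw [this, h8, one_mul] at h9
      exact h9
    rw [h10, one_mul] at h4
    exact mul_inv_eq_iff_eq_mul.1 h4
  rw [hx1, orderOf_one] at hx
  norm_num at hx

theorem quat_comm (n : ℕ) [NeZero n] : (commutator (QuaternionGroup n)).index = 4 := by
  have hmem : ∀ i : ZMod (2 * n), (QuaternionGroup.a (2 * i) : QuaternionGroup n) ∈ Subgroup.zpowers (QuaternionGroup.a 2 : QuaternionGroup n) := by
    intro i
    refine ⟨i.val, ?_⟩
    have h1 : (QuaternionGroup.a 2 : QuaternionGroup n) = (QuaternionGroup.a 1) ^ 2 := by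
      rw [QuaternionGroup.a_one_pow]; norm_cast
    have : NeZero (2 * n) := ⟨mul_ne_zero two_ne_zero (NeZero.ne n)⟩
    simp only [zpow_natCast]
    rw [h1, ← pow_mul, QuaternionGroup.a_one_pow]
    push_cast
    rw [ZMod.natCast_zmod_val]
  have hle : commutator (QuaternionGroup n) = Subgroup.zpowers (QuaternionGroup.a 2 : QuaternionGroup n) := by
    apply le_antisymm
    · rw [commutator_def, Subgroup.commutator_le]
      intro g _ h _
      rw [commutatorElement_def]
      rcases g with i | i <;> rcases h with j | j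
      · have : (QuaternionGroup.a i : QuaternionGroup n) * QuaternionGroup.a j * (QuaternionGroup.a i)⁻¹ * (QuaternionGroup.a j)⁻¹ = 1 := by
          rw [QuaternionGroup.a_mul_a, add_comm, ← QuaternionGroup.a_mul_a]; group
        rw [this]; exact one_mem _
      · have : (QuaternionGroup.a i : QuaternionGroup n) * QuaternionGroup.xa j * (QuaternionGroup.a i)⁻¹ * (QuaternionGroup.xa j)⁻¹ = QuaternionGroup.a (2 * i) := by
          rw [mul_inv_eq_iff_eq_mul, mul_inv_eq_iff_eq_mul, QuaternionGroup.a_mul_xa, QuaternionGroup.a_mul_xa,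
            QuaternionGroup.xa_mul_a]
          congr 1; ring
        rw [this]; exact hmem _
      · have : (QuaternionGroup.xa i : QuaternionGroup n) * QuaternionGroup.a j * (QuaternionGroup.xa i)⁻¹ * (QuaternionGroup.a j)⁻¹ = QuaternionGroup.a (2 * (- j)) := by
          rw [mul_inv_eq_iff_eq_mul, mul_inv_eq_iff_eq_mul, QuaternionGroup.a_mul_a, QuaternionGroup.a_mul_xa,
            QuaternionGroup.xa_mul_a]
          congr 1; ring
        rw [this]; exact hmem _
      · have : (QuaternionGroup.xa i : QuaternionGroup n) * QuaternionGroup.xa j * (QuaternionGroup.xa i)⁻¹ * (QuaternionGroup.xa j)⁻¹ = QuaternionGroup.a (2 * (j - i)) := by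
          rw [mul_inv_eq_iff_eq_mul, mul_inv_eq_iff_eq_mul, QuaternionGroup.xa_mul_xa, QuaternionGroup.a_mul_xa,
            QuaternionGroup.xa_mul_xa]
          congr 1; ring
        rw [this]; exact hmem _
    · rw [Subgroup.zpowers_le]
      have : (QuaternionGroup.a 2 : QuaternionGroup n) = ⁅(QuaternionGroup.a 1 : QuaternionGroup n), QuaternionGroup.xa 0⁆ := by
        rw [commutatorElement_def, eq_comm, mul_inv_eq_iff_eq_mul, mul_inv_eq_iff_eq_mul, QuaternionGroup.a_mul_xa,
          QuaternionGroup.a_mul_xa, QuaternionGroup.xa_mul_a]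
        congr 1; ring
      rw [this]
      exact Subgroup.commutator_mem_commutator (Subgroup.mem_top _) (Subgroup.mem_top _)
  have hn : 0 < n := Nat.pos_of_ne_zero (NeZero.ne n)
  have hcard : Nat.card (Subgroup.zpowers (QuaternionGroup.a 2 : QuaternionGroup n)) = n := by
    have h1 : (QuaternionGroup.a 2 : QuaternionGroup n) = (QuaternionGroup.a 1) ^ 2 := by
      rw [QuaternionGroup.a_one_pow]; norm_cast
    rw [Nat.card_zpowers, h1, orderOf_pow' _ two_ne_zero, QuaternionGroup.orderOf_a_one, Nat.gcd_comm,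
      Nat.gcd_mul_right_right, Nat.mul_div_cancel_left n two_pos]
  have h := (commutator (QuaternionGroup n)).card_mul_index
  rw [hle] at h ⊢
  rw [hcard, Nat.card_eq_fintype_card, QuaternionGroup.card, mul_comm] at h
  exact Nat.eq_of_mul_eq_mul_right hn h

end two


section final
variable {F : Type u} [Field F] [Fintype F]
local notation "SL2" => Matrix.SpecialLinearGroup (Fin 2) F

theorem index_congr {G : Type*} {H : Type*} [Group G] [Group H] (e : G ≃* H) :
    (commutator G).index = (commutator H).index :=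
  Nat.card_congr (MulEquiv.abelianizationCongr e).toEquiv

theorem rhs_two (hodd : Odd (Fintype.card F)) (S : Sylow 2 SL2) :
    Nat.card {ψ : IrrCharacter (Subgroup.normalizer ((S : Subgroup SL2) : Set SL2)) //
      ¬ 2 ∣ charDegree (ψ : Subgroup.normalizer ((S : Subgroup SL2) : Set SL2) → ℂ)} = 4 := by
  obtain ⟨hC, h17, h35⟩ := Cfsg.Agent.S2431.result hodd S
  have h2 := two_ne_zero_of_odd hodd
  have hcases : (Fintype.card F % 8 = 1 ∨ Fintype.card F % 8 = 7) ∨ (Fintype.card F % 8 = 3 ∨ Fintype.card F % 8 = 5) := by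
    obtain ⟨j, hj⟩ := hodd
    omega
  rcases hcases with hq | hq
  · have hN := h17 hq
    rw [card_congr_irr (MulEquiv.subgroupCongr hN).symm (fun d => ¬ 2 ∣ d)]
    obtain ⟨n, hn⟩ := IsPGroup.iff_card.1 S.isPGroup'
    apply odd_of_pow_two hn
    obtain ⟨k, A, W, hk, ⟨e⟩, -⟩ := Cfsg.Agent.S2431.gens hodd S
    have hne : NeZero (2 ^ k) := ⟨by positivity⟩
    rw [← quat_comm (2 ^ k)]
    exact index_congr e
  · have hN := h35 hq
    obtain ⟨m, hm⟩ : ∃ m, Fintype.card F ^ 2 - 1 = 8 * m ∧ ¬ 2 ∣ m := by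
      obtain ⟨a, ha⟩ : ∃ a, Fintype.card F = 8 * a + 3 ∨ Fintype.card F = 8 * a + 5 := ⟨Fintype.card F / 8, by omega⟩
      rcases ha with ha | ha
      · refine ⟨8 * a ^ 2 + 6 * a + 1, ?_, by omega⟩
        rw [ha, show (8 * a + 3) ^ 2 = 8 * (8 * a ^ 2 + 6 * a + 1) + 1 by ring, Nat.add_sub_cancel]
      · refine ⟨8 * a ^ 2 + 10 * a + 3, ?_, by omega⟩
        rw [ha, show (8 * a + 5) ^ 2 = 8 * (8 * a ^ 2 + 10 * a + 3) + 1 by ring, Nat.add_sub_cancel]
    have hq2 : ¬ 2 ∣ Fintype.card F := by omega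
    have hmq : ¬ 2 ∣ Fintype.card F * m := fun h => ((Nat.Prime.dvd_mul Nat.prime_two).1 h).elim hq2 hm.2
    have hcard' : Nat.card S = 8 :=
      Cfsg.Agent.Lib.ClSLn.card_sylow_eq_of_mul 2 S 8 3 (Fintype.card F * m) (by norm_num) hmq (by rw [Cfsg.Agent.Lib.ClSL2.card_SL2 rfl, hm.1]; ring)
    rw [hcard'] at hN
    have hle : (S : Subgroup SL2) ≤ Subgroup.normalizer ((S : Subgroup SL2) : Set SL2) := Subgroup.le_normalizer
    have hzm : (-1 : SL2) ∈ Subgroup.center SL2 := by rw [mem_center_iff']; exact Or.inr rfl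
    have hzN : (-1 : SL2) ∈ Subgroup.normalizer ((S : Subgroup SL2) : Set SL2) := by
      rw [Subgroup.mem_normalizer_iff]
      intro x
      have : (-1 : SL2) * x * (-1)⁻¹ = x := by
        rw [← (Subgroup.mem_center_iff.1 hzm x)]; group
      rw [this]
    have hQ : Nat.card ((S : Subgroup SL2).subgroupOf (Subgroup.normalizer ((S : Subgroup SL2) : Set SL2))) = 8 := by
      rw [← hcard']
      exact Nat.card_congr (Subgroup.subgroupOfEquivOfLe hle).toEquiv
    apply odd_24 hN
    apply index_odd hN ((S : Subgroup SL2).subgroupOf (Subgroup.normalizer ((S : Subgroup SL2) : Set SL2))) hQ ⟨-1, hzN⟩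
    · rintro ⟨y, hy⟩ h
      have h' : y * y = 1 := congrArg Subtype.val h
      rcases eq_one_or_neg_one_of_sq h2 h' with h3 | h3
      · exact Or.inl (Subtype.ext h3)
      · exact Or.inr (Subtype.ext h3)
    · rintro ⟨y, hy⟩
      exact Subtype.ext (Subgroup.mem_center_iff.1 hzm y).symm
    · rintro ⟨x, hx⟩ h3 hcomm
      have hx3 : x ^ 3 = 1 := congrArg Subtype.val h3
      have hxC : x ∈ Subgroup.centralizer ((S : Subgroup SL2) : Set SL2) := by
        rw [Subgroup.mem_centralizer_iff]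
        intro s hs
        exact (congrArg Subtype.val (hcomm ⟨s, hle hs⟩ hs)).symm
      rw [hC, mem_center_iff'] at hxC
      apply Subtype.ext
      rcases hxC with h | h
      · exact h
      · exfalso
        rw [h] at hx3
        have h5 : (-1 : SL2) ^ 3 = -1 := by simp [pow_succ]
        rw [h5] at hx3
        have h6 := congrArg (fun M : SL2 => (M : Matrix (Fin 2) (Fin 2) F) 0 0) hx3
        simp at h6
        apply h2
        linear_combination -h6

theorem main (hodd : Odd (Fintype.card F)) (ℓ : ℕ) [hl : Fact ℓ.Prime] (S : Sylow ℓ SL2) :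
    Nat.card {χ : IrrCharacter SL2 // ¬ ℓ ∣ charDegree (χ : SL2 → ℂ)} =
      Nat.card {ψ : IrrCharacter (Subgroup.normalizer ((S : Subgroup SL2) : Set SL2)) //
        ¬ ℓ ∣ charDegree (ψ : Subgroup.normalizer ((S : Subgroup SL2) : Set SL2) → ℂ)} := by
  have hft : Fintype SL2 := Fintype.ofFinite _
  by_cases hdvd : ℓ ∣ Nat.card SL2
  swap
  · exact card_bot S hdvd (fun d => ¬ ℓ ∣ d)
  obtain ⟨m, hm⟩ := hodd
  have hodd : Odd (Fintype.card F) := ⟨m, hm⟩
  have hmn : Nat.card F = 2 * m + 1 := by rw [Nat.card_eq_fintype_card]; exact hm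
  have hq1 : 1 < Fintype.card F := Fintype.one_lt_card
  have hm1 : 1 ≤ m := by omega
  rw [Cfsg.Agent.Lib.H77Mc.count hmn (fun d => ¬ ℓ ∣ d)]
  by_cases h2 : ℓ = 2
  · subst h2
    rw [rhs_two hodd S]
    have e1 : ¬ 2 ∣ 1 := by omega
    have e2 : ¬ 2 ∣ 2 * m + 1 := by omega
    have e3 : 2 ∣ 2 * m + 2 := by omega
    have e4 : 2 ∣ 2 * m := by omega
    rcases Nat.even_or_odd' m with ⟨k, hk | hk⟩
    · have e5 : ¬ 2 ∣ m + 1 := by omega
      have e6 : 2 ∣ m := by omega
      simp only [e1, e2, e3, e4, e5, e6, not_true_eq_false, not_false_eq_true, if_true, if_false]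
    · have e5 : 2 ∣ m + 1 := by omega
      have e6 : ¬ 2 ∣ m := by omega
      simp only [e1, e2, e3, e4, e5, e6, not_true_eq_false, not_false_eq_true, if_true, if_false]
  have hl3 : 3 ≤ ℓ := by
    have := hl.out.two_le
    omega
  have e1 : ¬ ℓ ∣ 1 := by
    intro h
    have := Nat.le_of_dvd one_pos h
    omega
  have e2' : ¬ ℓ ∣ 2 := by
    intro h
    have := Nat.le_of_dvd two_pos h
    omega
  rw [card_SL2', hmn] at hdvd
  rcases (Nat.Prime.dvd_mul hl.out).1 hdvd with h | h
  · -- defining characteristic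
    rw [rhs_char hodd ℓ S (by rw [hm]; exact h), hm]
    have e2 : ¬ ℓ ∣ m := fun hd => e1 ((Nat.dvd_add_right (hd.mul_left 2)).1 h)
    have e3 : ¬ ℓ ∣ m + 1 := by
      intro hd
      have h3 : ℓ ∣ (2 * m + 1) + 1 := by
        have := hd.mul_left 2
        rwa [show 2 * (m + 1) = (2 * m + 1) + 1 by ring] at this
      exact e1 ((Nat.dvd_add_right h).1 h3)
    have e4 : ¬ ℓ ∣ 2 * m := fun hd => ((Nat.Prime.dvd_mul hl.out).1 hd).elim e2' e2
    have e5 : ¬ ℓ ∣ 2 * m + 2 := by
      intro hd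
      rw [show 2 * m + 2 = 2 * (m + 1) by ring] at hd
      exact ((Nat.Prime.dvd_mul hl.out).1 hd).elim e2' e3
    simp only [e1, h, e2, e3, e4, e5, not_true_eq_false, not_false_eq_true, if_true, if_false]
    omega
  rcases (Nat.Prime.dvd_mul hl.out).1 h with h | h
  · -- ℓ ∣ q - 1
    rw [Nat.add_sub_cancel] at h
    have e2 : ℓ ∣ m := ((Nat.Prime.dvd_mul hl.out).1 h).resolve_left e2'
    have e3 : ¬ ℓ ∣ m + 1 := fun hd => e1 ((Nat.dvd_add_right e2).1 hd)
    have e4 : ¬ ℓ ∣ 2 * m + 1 := fun hd => e1 ((Nat.dvd_add_right h).1 hd)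
    have e5 : ¬ ℓ ∣ 2 * m + 2 := fun hd => e2' ((Nat.dvd_add_right h).1 hd)
    have hd : ℓ ∣ Fintype.card F - 1 := by rw [hm, Nat.add_sub_cancel]; exact h
    rw [rhs_torus hodd ℓ h2 S (Or.inl hd), ((Cfsg.Agent.S2430.result hodd ℓ h2 S).1 hd).1, hm]
    simp only [e1, h, e2, e3, e4, e5, not_true_eq_false, not_false_eq_true, if_true, if_false]
    omega
  · -- ℓ ∣ q + 1
    have h' : ℓ ∣ 2 * m + 2 := h
    have e2 : ℓ ∣ m + 1 := by
      rw [show 2 * m + 2 = 2 * (m + 1) by ring] at h'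
      exact ((Nat.Prime.dvd_mul hl.out).1 h').resolve_left e2'
    have e3 : ¬ ℓ ∣ m := fun hd => e1 ((Nat.dvd_add_right hd).1 e2)
    have e4 : ¬ ℓ ∣ 2 * m + 1 := fun hd => e1 ((Nat.dvd_add_right hd).1 h')
    have e5 : ¬ ℓ ∣ 2 * m := fun hd => e2' ((Nat.dvd_add_right hd).1 h')
    have hd : ℓ ∣ Fintype.card F + 1 := by rw [hm]; exact h
    rw [rhs_torus hodd ℓ h2 S (Or.inr hd), ((Cfsg.Agent.S2430.result hodd ℓ h2 S).2 hd).1, hm]
    simp only [e1, h', e2, e3, e4, e5, not_true_eq_false, not_false_eq_true, if_true, if_false]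
    omega

end final

end Cfsg.Agent.Lib.H77Mc2
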