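import Mathlib

/-!
MacWilliams four generator theorem, part 1 (helper81): Alperin's theorem for exponent 4 and the rank
bound for 2-groups whose elements of order dividing 4 are central.
-/

set_option autoImplicit false

namespace Cfsg.Agent.Lib.H81Mac1

open Subgroup
open scoped commutatorElement

universe u

section
variable {G : Type u} [Group G]

/-- extending a normal subgroup by one element which is central of order 2 modulo it -/
theorem ext_union (A : Subgroup G) [hA : A.Normal] (x : G) (hx2 : x ^ 2 ∈ A)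
    (hg : ∀ g, g * x * g⁻¹ * x⁻¹ ∈ A) :
    ∃ B : Subgroup G, B.Normal ∧ A ≤ B ∧ x ∈ B ∧ ∀ b ∈ B, b ∈ A ∨ b * x⁻¹ ∈ A := by
  refine ⟨(zpowers (QuotientGroup.mk' A x)).comap (QuotientGroup.mk' A), ?_, ?_, ?_, ?_⟩
  · have hn : (zpowers (QuotientGroup.mk' A x)).Normal := by
      constructor
      rintro n ⟨k, rfl⟩ g
      obtain ⟨g, rfl⟩ := QuotientGroup.mk'_surjective A g
      have h1 : (QuotientGroup.mk' A g) * (QuotientGroup.mk' A x) * (QuotientGroup.mk' A g)⁻¹ =
          QuotientGroup.mk' A x := by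
        rw [← map_mul, ← map_inv, ← map_mul]
        rw [← mul_inv_eq_one, ← map_inv, ← map_mul]
        exact (QuotientGroup.eq_one_iff _).2 (hg g)
      refine ⟨k, ?_⟩
      simp only
      rw [← conj_zpow, h1]
    exact hn.comap _
  · intro a ha
    rw [mem_comap]
    have : QuotientGroup.mk' A a = 1 := (QuotientGroup.eq_one_iff _).2 ha
    rw [this]; exact one_mem _
  · rw [mem_comap]; exact mem_zpowers _
  · intro b hb
    rw [mem_comap] at hb
    obtain ⟨k, hk⟩ := hb
    simp only at hk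
    have h2 : (QuotientGroup.mk' A x) ^ (2 : ℤ) = 1 := by
      rw [← map_zpow]
      exact (QuotientGroup.eq_one_iff _).2 (by exact_mod_cast hx2)
    rcases Int.even_or_odd' k with ⟨m, rfl | rfl⟩
    · left
      rw [zpow_mul, h2, one_zpow] at hk
      exact (QuotientGroup.eq_one_iff _).1 hk.symm
    · right
      rw [zpow_add, zpow_mul, h2, one_zpow, one_mul, zpow_one] at hk
      refine (QuotientGroup.eq_one_iff _).1 ?_
      change QuotientGroup.mk' A (b * x⁻¹) = 1
      rw [map_mul, ← hk, ← map_mul, mul_inv_cancel, map_one]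

/-- In a nilpotent group `[N, G] A < N` if `A < N`. -/
theorem commutator_sup_lt [Group.IsNilpotent G] (N A : Subgroup G) [N.Normal] [hA : A.Normal] (h : A < N) :
    ⁅N, (⊤ : Subgroup G)⁆ ⊔ A < N := by
  have hle : ⁅N, (⊤ : Subgroup G)⁆ ⊔ A ≤ N := sup_le (commutator_le_left N ⊤) h.le
  refine lt_of_le_of_ne hle fun heq => ?_
  have key : ∀ n, N ≤ (⊤ : Subgroup G).lowerCentralSeries n ⊔ A := by
    intro n
    induction n with
    | zero => rw [Subgroup.lowerCentralSeries_zero]; exact le_sup_of_le_left le_top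
    | succ n ih =>
      calc N = ⁅N, (⊤ : Subgroup G)⁆ ⊔ A := heq.symm
        _ ≤ ⁅(⊤ : Subgroup G).lowerCentralSeries n ⊔ A, (⊤ : Subgroup G)⁆ ⊔ A :=
          sup_le_sup_right (commutator_mono ih le_rfl) A
        _ ≤ (⊤ : Subgroup G).lowerCentralSeries (n + 1) ⊔ A := by
          refine sup_le ?_ le_sup_right
          rw [commutator_le]
          intro g1 h1 g2 _
          obtain ⟨s, hs, a, ha, rfl⟩ := Subgroup.mem_sup_of_normal_right.1 h1
          have e : ⁅s * a, g2⁆ = s * (a * (g2 * a⁻¹ * g2⁻¹)) * s⁻¹ * ⁅s, g2⁆ := by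
            simp only [commutatorElement_def]; group
          rw [e]
          refine mul_mem (mem_sup_right (hA.conj_mem _ (mul_mem ha (hA.conj_mem _ (inv_mem ha) _)) _)) ?_
          refine mem_sup_left ?_
          rw [Subgroup.lowerCentralSeries_succ]
          exact commutator_mem_commutator hs (mem_top _)
  obtain ⟨n, hn⟩ := (Subgroup.nilpotent_iff_lowerCentralSeries (G := G)).1 inferInstance
  have := key n
  rw [hn, bot_sup_eq] at this
  exact absurd this (not_le_of_gt h)


theorem exists_maxA [Finite G] (P : Subgroup G → Prop) (h1 : P ⊥) :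
    ∃ A : Subgroup G, P A ∧ ∀ B : Subgroup G, P B → A ≤ B → B = A := by
  obtain ⟨A, hA⟩ := Set.Finite.exists_maximal (s := {A : Subgroup G | P A}) (Set.toFinite _) ⟨⊥, h1⟩
  exact ⟨A, hA.1, fun B hB hAB => le_antisymm (hA.2 hB hAB) hAB⟩

theorem exists_maxA' [Finite G] (P : Subgroup G → Prop) (A₀ : Subgroup G) (h1 : P A₀) :
    ∃ A : Subgroup G, P A ∧ ∀ B : Subgroup G, P B → A ≤ B → B = A := by
  obtain ⟨A, hA⟩ := Set.Finite.exists_maximal (s := {A : Subgroup G | P A}) (Set.toFinite _) ⟨A₀, h1⟩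
  exact ⟨A, hA.1, fun B hB hAB => le_antisymm (hA.2 hB hAB) hAB⟩

theorem exists_minA [Finite G] (P : Subgroup G → Prop) (A₀ : Subgroup G) (h1 : P A₀) :
    ∃ A : Subgroup G, P A ∧ ∀ B : Subgroup G, P B → B ≤ A → B = A := by
  obtain ⟨A, hA⟩ := Set.Finite.exists_minimal (s := {A : Subgroup G | P A}) (Set.toFinite _) ⟨A₀, h1⟩
  exact ⟨A, hA.1, fun B hB hAB => le_antisymm hAB (hA.2 hB hAB)⟩

/-- **Alperin** for exponent 4: if `A` is maximal among the abelian normal subgroups of exponent
dividing 4 of a finite 2-group, then elements of `C(A)` of order dividing 4 lie in `A`. -/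
theorem alperin [Finite G] (hG : IsPGroup 2 G) (A : Subgroup G) [hAn : A.Normal]
    (hab : ∀ a ∈ A, ∀ b ∈ A, a * b = b * a) (h4 : ∀ a ∈ A, a ^ 4 = 1)
    (hmax : ∀ B : Subgroup G, (B.Normal ∧ (∀ a ∈ B, ∀ b ∈ B, a * b = b * a) ∧ ∀ a ∈ B, a ^ 4 = 1) →
      A ≤ B → B = A)
    (k : G) (hk : ∀ a ∈ A, k * a = a * k) (hk4 : k ^ 4 = 1) : k ∈ A := by
  by_contra hkA
  haveI : Fact (Nat.Prime 2) := ⟨Nat.prime_two⟩
  haveI : Group.IsNilpotent G := hG.isNilpotent
  set K := centralizer (A : Set G) with hK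
  have hKn : K.Normal := inferInstance
  have memK : ∀ x, x ∈ K ↔ ∀ a ∈ A, a * x = x * a := fun x => mem_centralizer_iff
  have hAK : A ≤ K := fun a ha => (memK a).2 fun b hb => hab b hb a ha
  have hkK : k ∈ K := (memK k).2 fun a ha => (hk a ha).symm
  obtain ⟨N, ⟨hNn, hAN, hNK, x, hxN, hxA, hx4⟩, hmin⟩ := exists_minA (fun N : Subgroup G => N.Normal ∧ A ≤ N ∧
    N ≤ K ∧ ∃ x ∈ N, x ∉ A ∧ x ^ 4 = 1) K ⟨hKn, hAK, le_rfl, k, hkK, hkA, hk4⟩
  have hlt : A < N := lt_of_le_of_ne hAN (by rintro rfl; exact hxA hxN)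
  set N' := ⁅N, (⊤ : Subgroup G)⁆ ⊔ A with hN'
  have hN'lt : N' < N := commutator_sup_lt N A hlt
  have hN'n : N'.Normal := by rw [hN']; infer_instance
  have hN' : ∀ t ∈ N', t ^ 4 = 1 → t ∈ A := by
    intro t ht ht4
    by_contra htA
    have := hmin N' ⟨hN'n, le_sup_right, hN'lt.le.trans hNK, t, ht, htA, ht4⟩ hN'lt.le
    exact hN'lt.ne this
  -- wlog x ^ 2 ∈ A
  obtain ⟨x, hxN, hxA, hx4, hx2⟩ : ∃ x ∈ N, x ∉ A ∧ x ^ 4 = 1 ∧ x ^ 2 ∈ A := by
    by_cases h : x ^ 2 ∈ A
    · exact ⟨x, hxN, hxA, hx4, h⟩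
    · refine ⟨x ^ 2, pow_mem hxN 2, h, ?_, ?_⟩
      · rw [← pow_mul, show 2 * 4 = 4 * 2 from rfl, pow_mul, hx4, one_pow]
      · rw [← pow_mul, show 2 * 2 = 4 from rfl, hx4]; exact one_mem _
  have hcomm : ∀ g, g * x * g⁻¹ * x⁻¹ ∈ A := by
    intro g
    set w := g * x * g⁻¹ * x⁻¹ with hw
    have hwN' : w ∈ N' := by
      refine mem_sup_left ?_
      have : ⁅x, g⁆⁻¹ ∈ ⁅N, (⊤ : Subgroup G)⁆ := inv_mem (commutator_mem_commutator hxN (mem_top g))
      rw [commutatorElement_inv, commutatorElement_def] at this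
      exact this
    set x' := g * x * g⁻¹ with hx'
    have hx'2 : x' ^ 2 ∈ A := by rw [hx', conj_pow]; exact hAn.conj_mem _ hx2 g
    have hx'4 : x' ^ 4 = 1 := by rw [hx', conj_pow, hx4]; group
    have hxK := hNK hxN
    have hx'K : x' ∈ K := hKn.conj_mem _ hxK g
    have cx : ∀ a ∈ A, a * x = x * a := (memK x).1 hxK
    have cx' : ∀ a ∈ A, a * x' = x' * a := (memK x').1 hx'K
    have hwK : w ∈ K := mul_mem hx'K (inv_mem hxK)
    have cw : ∀ a ∈ A, a * w = w * a := (memK w).1 hwK
    set c := x' ^ 2 * (x ^ 2)⁻¹ with hc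
    have hcA : c ∈ A := mul_mem hx'2 (inv_mem hx2)
    -- x⁻¹ w⁻¹ ... : x w x⁻¹ = c w⁻¹
    have hrel : x * w * x⁻¹ = c * w⁻¹ := by
      have e1 : x * w * x⁻¹ = x * x' * (x ^ 2)⁻¹ := by rw [hw]; group
      have e2 : c * w⁻¹ = x' ^ 2 * ((x ^ 2)⁻¹ * x) * x'⁻¹ := by rw [hc, hw]; group
      rw [e1, e2, cx _ (inv_mem hx2)]
      have e3 : x' ^ 2 * (x * (x ^ 2)⁻¹) * x'⁻¹ = (x' ^ 2 * x) * ((x ^ 2)⁻¹ * x'⁻¹) := by group
      rw [e3, cx _ hx'2]
      have e4 : (x ^ 2)⁻¹ * x'⁻¹ = x'⁻¹ * (x ^ 2)⁻¹ := by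
        have := cx' _ (inv_mem hx2)
        have h5 : x'⁻¹ * ((x ^ 2)⁻¹ * x') * x'⁻¹ = x'⁻¹ * (x' * (x ^ 2)⁻¹) * x'⁻¹ := by rw [this]
        simpa [mul_assoc] using h5.symm
      rw [e4]; group
    have hc2 : c ^ 2 = 1 := by
      have hcm : Commute (x' ^ 2) ((x ^ 2)⁻¹) := hab _ hx'2 _ (inv_mem hx2)
      rw [hc, hcm.mul_pow, inv_pow, ← pow_mul, ← pow_mul, show 2 * 2 = 4 from rfl, hx4, hx'4]; simp
    by_contra hwA
    -- minimal k with w ^ 2 ^ k ∈ A
    have hex : ∃ k, w ^ 2 ^ k ∈ A := by
      obtain ⟨k, hk⟩ := hG w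
      exact ⟨k, by rw [hk]; exact one_mem _⟩
    classical
    set j := Nat.find hex with hj
    have hj0 : j ≠ 0 := by
      intro h0
      have := Nat.find_spec hex
      rw [← hj, h0] at this
      simp at this
      exact hwA this
    obtain ⟨i, hi⟩ := Nat.exists_eq_succ_of_ne_zero hj0
    have hyA : w ^ 2 ^ i ∉ A := Nat.find_min hex (by omega)
    have hy2A : (w ^ 2 ^ i) ^ 2 ∈ A := by
      have := Nat.find_spec hex
      rw [← hj, hi, Nat.succ_eq_add_one, pow_succ, pow_mul] at this
      exact this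
    set m := 2 ^ i with hm
    set y := w ^ m with hy
    have hyK : y ∈ K := pow_mem hwK m
    have hcw : Commute c w := cw c hcA
    have h1 : x * y * x⁻¹ = c ^ m * y⁻¹ := by
      rw [hy, ← conj_pow, hrel, (hcw.inv_right).mul_pow, inv_pow]
    have h2 : x * y ^ 2 * x⁻¹ = y ^ 2 := by
      rw [← cx _ hy2A]; group
    have h3 : x * y ^ 2 * x⁻¹ = (y ^ 2)⁻¹ := by
      rw [← conj_pow, h1]
      have h4 : Commute (c ^ m) y⁻¹ := by
        have : Commute c y := (memK y).1 hyK c hcA
        exact (this.inv_right).pow_left m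
      rw [h4.mul_pow, ← pow_mul, mul_comm m 2, pow_mul, hc2, one_pow, one_mul, inv_pow]
    have h4 : y ^ 4 = 1 := by
      rw [h2] at h3
      have : y ^ 2 * y ^ 2 = 1 := by
        nth_rewrite 1 [h3]; group
      rw [← pow_add] at this; exact this
    exact hyA (hN' y (pow_mem hwN' m) h4)
  obtain ⟨B, hBn, hAB, hxB, hBe⟩ := ext_union A x hx2 hcomm
  have hxK := hNK hxN
  have cx : ∀ a ∈ A, a * x = x * a := (memK x).1 hxK
  have hBform : ∀ b ∈ B, ∃ a ∈ A, b = a ∨ b = a * x := by
    intro b hb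
    rcases hBe b hb with h | h
    · exact ⟨b, h, Or.inl rfl⟩
    · exact ⟨b * x⁻¹, h, Or.inr (by group)⟩
  have := hmax B ⟨hBn, ?_, ?_⟩ hAB
  · exact hxA (this ▸ hxB)
  · intro b hb c hc
    obtain ⟨a, ha, h1⟩ := hBform b hb
    obtain ⟨a', ha', h2⟩ := hBform c hc
    have e1 := hab a ha a' ha'
    have e2 := cx a ha
    have e3 := cx a' ha'
    rcases h1 with rfl | rfl <;> rcases h2 with rfl | rfl
    · exact e1
    · calc b * (a' * x) = (b * a') * x := by group
        _ = a' * (b * x) := by rw [e1]; group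
        _ = a' * x * b := by rw [e2]; group
    · calc a * x * c = a * (x * c) := by group
        _ = (a * c) * x := by rw [← e3]; group
        _ = c * (a * x) := by rw [e1]; group
    · calc a * x * (a' * x) = a * (x * a') * x := by group
        _ = (a * a') * x * x := by rw [← e3]; group
        _ = a' * (a * x) * x := by rw [e1]; group
        _ = a' * (x * a) * x := by rw [e2]
        _ = a' * x * (a * x) := by group
  · intro b hb
    obtain ⟨a, ha, rfl | rfl⟩ := hBform b hb
    · exact h4 _ ha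
    · have : Commute a x := cx a ha
      rw [this.mul_pow, h4 a ha, hx4, one_mul]

end

/-! ### rank bound -/

section
variable {L : Type u} [Group L]

theorem comm_sq_aux [Group.IsNilpotent L] (h4 : ∀ x : L, x ^ 4 = 1 → ∀ y, x * y = y * x) (x y : L)
    (hx : x ^ 8 = 1) : (x⁻¹ * (y * x * y⁻¹)) ^ 2 = 1 := by
  obtain ⟨m, hm⟩ := (Subgroup.nilpotent_iff_lowerCentralSeries (G := L)).1 inferInstance
  have key : ∀ j ≤ m, ∀ x y : L, x ^ 8 = 1 → x⁻¹ * (y * x * y⁻¹) ∈ (⊤ : Subgroup L).lowerCentralSeries (m - j) →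
      (x⁻¹ * (y * x * y⁻¹)) ^ 2 = 1 := by
    intro j
    induction j with
    | zero =>
      intro _ x y _ h
      rw [Nat.sub_zero, hm, mem_bot] at h
      rw [h, one_pow]
    | succ j ih =>
      intro hj x y hx h
      set c := x⁻¹ * (y * x * y⁻¹) with hc
      have hx2 : ∀ z, x ^ 2 * z = z * x ^ 2 := h4 _ (by rw [← pow_mul, show 2 * 4 = 8 from rfl, hx])
      have e1 : x * c = y * x * y⁻¹ := by rw [hc]; group
      have e2 : (x * c) ^ 2 = x ^ 2 := by
        rw [e1, conj_pow, ← hx2 y]; group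
      have e3 : c * x * c = x := by
        have : x * (c * x * c) = x * x := by
          have := e2
          rw [pow_two, pow_two] at this
          rw [← this]; group
        exact mul_left_cancel this
      -- d = x⁻¹ (c x c⁻¹) = c⁻²
      have e4 : x⁻¹ * (c * x * c⁻¹) = c⁻¹ ^ 2 := by
        have : c * x = x * c⁻¹ := by
          calc c * x = c * x * c * c⁻¹ := by group
            _ = x * c⁻¹ := by rw [e3]
        rw [this]; group
      have h5 : x⁻¹ * (c * x * c⁻¹) ∈ (⊤ : Subgroup L).lowerCentralSeries (m - j) := by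
        have : m - j = (m - (j + 1)) + 1 := by omega
        rw [this, Subgroup.lowerCentralSeries_succ]
        have h6 : ⁅c, x⁻¹⁆⁻¹ ∈ ⁅(⊤ : Subgroup L).lowerCentralSeries (m - (j + 1)), (⊤ : Subgroup L)⁆ :=
          inv_mem (commutator_mem_commutator h (mem_top _))
        rw [commutatorElement_inv, commutatorElement_def, inv_inv] at h6
        have : x⁻¹ * c * x * c⁻¹ = x⁻¹ * (c * x * c⁻¹) := by group
        rw [← this]; exact h6
      have h6 := ih (by omega) x c hx h5
      rw [e4, ← pow_mul, show 2 * 2 = 4 from rfl, inv_pow, inv_eq_one] at h6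
      have h7 := h4 c h6 x
      have h8 : c * c = 1 := by
        have : x * (c * c) = x := by
          calc x * (c * c) = (x * c) * c := by group
            _ = c * x * c := by rw [h7]
            _ = x := e3
        exact mul_eq_left.1 this
      rw [pow_two, h8]
  refine key m le_rfl x y hx ?_
  rw [Nat.sub_self, Subgroup.lowerCentralSeries_zero]
  exact mem_top _

/-- elements of order dividing 2, when they are central -/
def Om (h : ∀ x : L, x ^ 2 = 1 → ∀ y, x * y = y * x) : Subgroup L where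
  carrier := {x | x ^ 2 = 1}
  one_mem' := one_pow 2
  mul_mem' := by
    intro a b ha hb
    have : Commute a b := h a ha b
    simp only [Set.mem_setOf_eq] at *
    rw [this.mul_pow, ha, hb, one_mul]
  inv_mem' := by
    intro a ha
    simp only [Set.mem_setOf_eq] at *
    rw [inv_pow, ha, inv_one]

theorem mem_Om (h : ∀ x : L, x ^ 2 = 1 → ∀ y, x * y = y * x) (x : L) : x ∈ Om h ↔ x ^ 2 = 1 := Iff.rfl

end

theorem rank_aux (n : ℕ) : ∀ (L : Type u) [Group L] [Finite L], Nat.card L = n → IsPGroup 2 L →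
    (∀ x : L, x ^ 4 = 1 → ∀ y, x * y = y * x) → ∀ N : Subgroup L, (∀ x : L, x ^ 2 ∈ N) →
    (∀ g x : L, g * x * g⁻¹ * x⁻¹ ∈ N) → N.index ≤ Nat.card {x : L // x ^ 2 = 1} := by
  induction n using Nat.strong_induction_on with
  | _ n ih =>
  intro L _ _ hn hL h4 N hN2 hNc
  have : Fact (Nat.Prime 2) := ⟨Nat.prime_two⟩
  have : Group.IsNilpotent L := hL.isNilpotent
  have h2 : ∀ x : L, x ^ 2 = 1 → ∀ y, x * y = y * x := fun x hx => h4 x (by
    rw [show 4 = 2 * 2 from rfl, pow_mul, hx, one_pow])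
  set V := Om h2 with hV
  have hcV : Nat.card {x : L // x ^ 2 = 1} = Nat.card V := rfl
  rw [hcV]
  have hVn : V.Normal := by
    constructor
    intro v hv g
    have : g * v * g⁻¹ = v := by rw [← h2 v hv g]; group
    rw [this]; exact hv
  by_cases htr : Nat.card L = 1
  · have : N.index ≤ 1 := by
      have := Subgroup.index_dvd_card N
      rw [htr] at this
      exact Nat.le_of_dvd one_pos this
    exact this.trans Nat.card_pos
  have hV1 : V ≠ ⊥ := by
    intro hb
    have hd : 2 ∣ Nat.card L := by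
      obtain ⟨k, hk⟩ := IsPGroup.iff_card.1 hL
      rw [hk]
      refine dvd_pow_self 2 ?_
      rintro rfl
      rw [pow_zero] at hk; exact htr hk
    obtain ⟨x, hx⟩ := exists_prime_orderOf_dvd_card' 2 hd
    have : x ∈ V := (mem_Om h2 x).2 (by rw [← hx, pow_orderOf_eq_one])
    rw [hb, mem_bot] at this
    rw [this, orderOf_one] at hx
    exact absurd hx (by norm_num)
  by_cases hVN : V ≤ N
  · -- quotient by V
    have hc8 : ∀ x : L, x ^ 8 = 1 → ∀ y, (x⁻¹ * (y * x * y⁻¹)) ^ 2 = 1 := fun x hx y => comm_sq_aux h4 x y hx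
    have hlt : Nat.card (L ⧸ V) < n := by
      rw [← hn]
      have h1 := Subgroup.card_mul_index V
      have h3 : 1 < Nat.card V := (Subgroup.one_lt_card_iff_ne_bot V).2 hV1
      have h5 : 0 < V.index := Nat.pos_of_ne_zero V.index_ne_zero_of_finite
      change V.index < _
      nlinarith
    have hnn : N.Normal := by
      constructor
      intro x hx g
      have := mul_mem (hNc g x) hx
      have e : g * x * g⁻¹ * x⁻¹ * x = g * x * g⁻¹ := by group
      rwa [e] at this
    have h5 := ih _ hlt (L ⧸ V) rfl (hL.to_quotient V) ?_ (N.map (QuotientGroup.mk' V)) ?_ ?_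
    · have e1 : (N.map (QuotientGroup.mk' V)).index = N.index := by
        rw [Subgroup.index_map_eq _ (QuotientGroup.mk'_surjective V)]
        rw [QuotientGroup.ker_mk']; exact hVN
      rw [e1] at h5
      refine h5.trans ?_
      rw [← hcV]
      refine Nat.card_le_card_of_injective
        (fun x : {x : L ⧸ V // x ^ 2 = 1} => (⟨(Quotient.out x.1) ^ 2, ?_⟩ : {x : L // x ^ 2 = 1})) ?_
      · have h6 : (Quotient.out x.1) ^ 2 ∈ V := by
          rw [← QuotientGroup.eq_one_iff, QuotientGroup.mk_pow, QuotientGroup.out_eq']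
          exact x.2
        exact h6
      · intro x y hxy
        have h6 : (Quotient.out x.1) ^ 2 = (Quotient.out y.1) ^ 2 := congrArg Subtype.val hxy
        have hx2 : (Quotient.out x.1) ^ 2 ∈ V := by
          rw [← QuotientGroup.eq_one_iff, QuotientGroup.mk_pow, QuotientGroup.out_eq']
          exact x.2
        have hx4 : (Quotient.out x.1) ^ 4 = 1 := by
          rw [show 4 = 2 * 2 from rfl, pow_mul]; exact hx2
        have hcm : Commute (Quotient.out x.1)⁻¹ (Quotient.out y.1) := by
          have : Commute (Quotient.out x.1) (Quotient.out y.1) := h4 _ hx4 _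
          exact this.inv_left
        have h7 : (Quotient.out x.1)⁻¹ * (Quotient.out y.1) ∈ V := by
          change _ ^ 2 = 1
          rw [hcm.mul_pow, inv_pow, h6]; simp
        apply Subtype.ext
        rw [← QuotientGroup.out_eq' x.1, ← QuotientGroup.out_eq' y.1]
        exact QuotientGroup.eq.2 h7
    · intro x hx y
      induction x using QuotientGroup.induction_on with
      | H x =>
      induction y using QuotientGroup.induction_on with
      | H y =>
      rw [← QuotientGroup.mk_pow, QuotientGroup.eq_one_iff] at hx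
      have hx8 : x ^ 8 = 1 := by
        rw [show 8 = 4 * 2 from rfl, pow_mul]; exact hx
      rw [← QuotientGroup.mk_mul, ← QuotientGroup.mk_mul, QuotientGroup.eq]
      have := hc8 x hx8 y⁻¹
      have e : (x * y)⁻¹ * (y * x) = y⁻¹ * (x⁻¹ * (y * x * y⁻¹)) * y := by group
      have e' : (x * y)⁻¹ * (y * x) ∈ V := by
        rw [e]
        have h9 := hVn.conj_mem _ ((mem_Om h2 _).2 (hc8 x hx8 y)) y⁻¹
        rwa [inv_inv] at h9
      exact e'
    · intro x
      induction x using QuotientGroup.induction_on with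
      | H x => exact ⟨x ^ 2, hN2 x, rfl⟩
    · intro x y
      induction x using QuotientGroup.induction_on with
      | H x =>
      induction y using QuotientGroup.induction_on with
      | H y => exact ⟨x * y * x⁻¹ * y⁻¹, hNc x y, rfl⟩
  · obtain ⟨v, hvV, hvN⟩ := SetLike.not_le_iff_exists.1 hVN
    obtain ⟨M, ⟨hNM, hvM⟩, hmax⟩ := exists_maxA' (fun M : Subgroup L => N ≤ M ∧ v ∉ M) N ⟨le_rfl, hvN⟩
    have hMn : M.Normal := by
      constructor
      intro x hx g
      have := mul_mem (hNM (hNc g x)) hx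
      have e : g * x * g⁻¹ * x⁻¹ * x = g * x * g⁻¹ := by group
      rwa [e] at this
    have hdich : ∀ x, x ∉ M → v * x⁻¹ ∈ M := by
      intro x hx
      obtain ⟨B, _, hMB, hxB, hB⟩ := ext_union M x (hNM (hN2 x)) (fun g => hNM (hNc g x))
      by_contra hcon
      have hvB : v ∉ B := fun h => by
        rcases hB v h with h | h
        · exact hvM h
        · exact hcon h
      exact hx ((hmax B ⟨hNM.trans hMB, hvB⟩ hMB) ▸ hxB)
    have hMtop : M ≠ ⊤ := fun h => hvM (h ▸ mem_top v)
    have hMcard : Nat.card M < n := by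
      rw [← hn]
      refine lt_of_le_of_ne (Nat.le_of_dvd Nat.card_pos (Subgroup.card_subgroup_dvd_card M)) fun h => ?_
      exact hMtop ((Subgroup.card_eq_iff_eq_top M).1 h)
    have hMi : M.index = 2 := by
      rw [Subgroup.index_eq_two_iff]
      refine ⟨v, fun x => ?_⟩
      by_cases hx : x ∈ M
      · right
        refine ⟨hx, fun h => hvM ?_⟩
        have := mul_mem (inv_mem hx) h
        simpa using this
      · left
        refine ⟨?_, hx⟩
        have hvi : v * v = 1 := by
          have := (mem_Om h2 v).1 hvV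
          rwa [pow_two] at this
        have h1 := hdich x hx
        have h3 : x * v⁻¹ ∈ M := by
          have := inv_mem h1
          simpa using this
        have h5 : v⁻¹ = v := by
          rw [inv_eq_iff_mul_eq_one]; exact hvi
        rwa [h5] at h3
    have h5 := ih _ hMcard M rfl (hL.to_subgroup M) ?_ (N.subgroupOf M) ?_ ?_
    · have e1 : N.index = 2 * (N.subgroupOf M).index := by
        have := Subgroup.relIndex_mul_index hNM
        rw [hMi] at this
        rw [← this, mul_comm]; rfl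
      rw [e1]
      have h6 : Nat.card {x : M // x ^ 2 = 1} ≤ Nat.card (V ⊓ M : Subgroup L) := by
        refine Nat.card_le_card_of_injective
          (fun x : {x : M // x ^ 2 = 1} => (⟨(x.1 : L), ?_, x.1.2⟩ : (V ⊓ M : Subgroup L))) ?_
        · have := x.2
          change (x.1 : L) ^ 2 = 1
          rw [← Subgroup.coe_pow, this]; rfl
        · intro x y hxy
          apply Subtype.ext
          apply Subtype.ext
          exact congrArg (fun z : (V ⊓ M : Subgroup L) => (z : L)) hxy
      have h7 : 2 * Nat.card (V ⊓ M : Subgroup L) ≤ Nat.card V := by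
        obtain ⟨c, hc⟩ := Subgroup.card_dvd_of_le (inf_le_left : V ⊓ M ≤ V)
        have hne : Nat.card (V ⊓ M : Subgroup L) ≠ Nat.card V := by
          intro h
          have : V ⊓ M = V := Subgroup.eq_of_le_of_card_ge inf_le_left h.ge
          exact hvM ((inf_eq_left.1 this) hvV)
        have hc2 : 2 ≤ c := by
          have hp : 0 < Nat.card V := Nat.card_pos
          rcases c with _ | _ | c
          · simp at hc; omega
          · simp at hc; exact absurd hc.symm hne
          · omega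
        rw [hc]
        nlinarith [Nat.card_pos (α := (V ⊓ M : Subgroup L))]
      calc 2 * (N.subgroupOf M).index ≤ 2 * Nat.card {x : M // x ^ 2 = 1} := by omega
        _ ≤ 2 * Nat.card (V ⊓ M : Subgroup L) := by omega
        _ ≤ Nat.card V := h7
    · intro x hx y
      apply Subtype.ext
      refine h4 (x : L) ?_ (y : L)
      rw [← Subgroup.coe_pow, hx]; rfl
    · intro x
      rw [mem_subgroupOf]
      exact hN2 x
    · intro x y
      rw [mem_subgroupOf]
      exact hNc x y

end Cfsg.Agent.Lib.H81Mac1
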