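import Mathlib
import Cfsg.Agent.Lib.H81Mac1

/-!
MacWilliams four generator theorem, part 2 (helper81): the action of `C(V)` on `A`, key lemma.
-/

set_option autoImplicit false

namespace Cfsg.Agent.Lib.H81Mac2

open Subgroup Cfsg.Agent.Lib.H81Mac1

universe u

structure Set4 (G : Type u) [Group G] where
  A : Subgroup G
  V : Subgroup G
  K : Subgroup G
  N0 : Subgroup G
  An : A.Normal
  Vn : V.Normal
  Kn : K.Normal
  N0n : N0.Normal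
  ab : ∀ a ∈ A, ∀ b ∈ A, a * b = b * a
  A4 : ∀ a ∈ A, a ^ 4 = 1
  memV : ∀ x, x ∈ V ↔ x ∈ A ∧ x ^ 2 = 1
  memK : ∀ x, x ∈ K ↔ ∀ a ∈ A, a * x = x * a
  memN0 : ∀ x, x ∈ N0 ↔ ∀ v ∈ V, v * x = x * v
  alp : ∀ k ∈ K, k ^ 4 = 1 → k ∈ A

def Dl {G : Type u} [Group G] (x a : G) : G := x * a * x⁻¹ * a⁻¹

namespace Set4

variable {G : Type u} [Group G] (S : Set4 G)

theorem VA {x : G} (h : x ∈ S.V) : x ∈ S.A := ((S.memV x).1 h).1

theorem V2 {x : G} (h : x ∈ S.V) : x ^ 2 = 1 := ((S.memV x).1 h).2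

theorem AK {x : G} (h : x ∈ S.A) : x ∈ S.K := (S.memK x).2 fun a ha => S.ab a ha x h

theorem VK {x : G} (h : x ∈ S.V) : x ∈ S.K := S.AK (S.VA h)

theorem KN {x : G} (h : x ∈ S.K) : x ∈ S.N0 := (S.memN0 x).2 fun v hv => (S.memK x).1 h v (S.VA hv)

theorem AN {x : G} (h : x ∈ S.A) : x ∈ S.N0 := S.KN (S.AK h)

theorem cAK {a k : G} (ha : a ∈ S.A) (hk : k ∈ S.K) : a * k = k * a := (S.memK k).1 hk a ha

theorem cVN {v x : G} (hv : v ∈ S.V) (hx : x ∈ S.N0) : v * x = x * v := (S.memN0 x).1 hx v hv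

theorem conjA {a : G} (g : G) (ha : a ∈ S.A) : g * a * g⁻¹ ∈ S.A := S.An.conj_mem _ ha g

theorem conjV {a : G} (g : G) (ha : a ∈ S.V) : g * a * g⁻¹ ∈ S.V := S.Vn.conj_mem _ ha g

theorem conjK {a : G} (g : G) (ha : a ∈ S.K) : g * a * g⁻¹ ∈ S.K := S.Kn.conj_mem _ ha g

theorem sqA {a : G} (ha : a ∈ S.A) : a ^ 2 ∈ S.V :=
  (S.memV _).2 ⟨pow_mem ha 2, by rw [← pow_mul]; exact S.A4 a ha⟩

theorem Dl_mem {x a : G} (hx : x ∈ S.N0) (ha : a ∈ S.A) : Dl x a ∈ S.V := by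
  have h1 := S.conjA x ha
  refine (S.memV _).2 ⟨mul_mem h1 (inv_mem ha), ?_⟩
  have hc : Commute (x * a * x⁻¹) a⁻¹ := S.ab _ h1 _ (inv_mem ha)
  unfold Dl
  rw [hc.mul_pow, conj_pow, ← S.cVN (S.sqA ha) hx, inv_pow]
  group

theorem Dl_eq (x a : G) : x * a * x⁻¹ = Dl x a * a := by unfold Dl; group

theorem Dl_mul_left {x y a : G} (hx : x ∈ S.N0) (hy : y ∈ S.N0) (ha : a ∈ S.A) :
    Dl (x * y) a = Dl x a * Dl y a := by
  have h1 : Dl (x * y) a = x * (Dl y a) * (a * x⁻¹ * a⁻¹) := by unfold Dl; group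
  rw [h1, ← S.cVN (S.Dl_mem hy ha) hx]
  have h2 : Dl y a * x * (a * x⁻¹ * a⁻¹) = Dl y a * Dl x a := by unfold Dl; group
  rw [h2]
  exact S.ab _ (S.VA (S.Dl_mem hy ha)) _ (S.VA (S.Dl_mem hx ha))

theorem Dl_mul_right {x a b : G} (hx : x ∈ S.N0) (ha : a ∈ S.A) (hb : b ∈ S.A) :
    Dl x (a * b) = Dl x a * Dl x b := by
  have h1 : Dl x (a * b) = Dl x a * (a * (Dl x b) * a⁻¹) := by unfold Dl; group
  rw [h1, S.ab a ha _ (S.VA (S.Dl_mem hx hb))]; group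

theorem Dl_V {x v : G} (hx : x ∈ S.N0) (hv : v ∈ S.V) : Dl x v = 1 := by
  unfold Dl; rw [← S.cVN hv hx]; group

theorem Dl_K {k a : G} (hk : k ∈ S.K) (ha : a ∈ S.A) : Dl k a = 1 := by
  unfold Dl; rw [← S.cAK ha hk]; group

theorem K_of_Dl {x : G} (h : ∀ a ∈ S.A, Dl x a = 1) : x ∈ S.K := by
  refine (S.memK x).2 fun a ha => ?_
  have := h a ha
  unfold Dl at this
  rw [mul_inv_eq_one, mul_inv_eq_iff_eq_mul] at this
  exact this.symm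

theorem Dl_mulK {x k a : G} (hx : x ∈ S.N0) (hk : k ∈ S.K) (ha : a ∈ S.A) : Dl (k * x) a = Dl x a := by
  rw [S.Dl_mul_left (S.KN hk) hx ha, S.Dl_K hk ha, one_mul]

theorem Dl_mulK' {x k a : G} (hx : x ∈ S.N0) (hk : k ∈ S.K) (ha : a ∈ S.A) : Dl (x * k) a = Dl x a := by
  rw [S.Dl_mul_left hx (S.KN hk) ha, S.Dl_K hk ha, mul_one]

theorem sqK {x : G} (hx : x ∈ S.N0) : x ^ 2 ∈ S.K := by
  refine S.K_of_Dl fun a ha => ?_
  rw [pow_two, S.Dl_mul_left hx hx ha, ← pow_two]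
  exact S.V2 (S.Dl_mem hx ha)

/-- elements of `N0` are the same modulo `K` iff they act in the same way -/
theorem div_mem_K {x y : G} (hx : x ∈ S.N0) (hy : y ∈ S.N0) (h : ∀ a ∈ S.A, Dl x a = Dl y a) :
    x * y⁻¹ ∈ S.K := by
  refine S.K_of_Dl fun a ha => ?_
  rw [S.Dl_mul_left hx (inv_mem hy) ha, h a ha, ← S.Dl_mul_left hy (inv_mem hy) ha, mul_inv_cancel]
  unfold Dl; group

def Nd (x : G) : Prop := x ∈ S.N0 ∧ ∀ a ∈ S.A, Dl x a = 1 → a ∈ S.V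

variable {S}

theorem Nd.comm_mem (hG : IsPGroup 2 G) {x : G} (hx : S.Nd x) {k : G} (hk : k ∈ S.K) (hc : k * x = x * k) :
    k ∈ S.V := by
  by_cases h2 : k ^ 2 = 1
  · exact (S.memV k).2 ⟨S.alp k hk (by rw [show 4 = 2 * 2 from rfl, pow_mul, h2, one_pow]), h2⟩
  exfalso
  classical
  have hex : ∃ j, k ^ 2 ^ j = 1 := hG k
  set j := Nat.find hex with hj
  have hspec : k ^ 2 ^ j = 1 := Nat.find_spec hex
  have hj2 : 2 ≤ j := by
    by_contra hlt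
    have : j = 0 ∨ j = 1 := by omega
    rcases this with h | h
    · rw [h] at hspec; simp at hspec; apply h2; rw [hspec, one_pow]
    · rw [h] at hspec; simp at hspec; exact h2 hspec
  obtain ⟨i, hi⟩ := Nat.exists_eq_add_of_le hj2
  set t := k ^ 2 ^ i with ht
  have ht4 : t ^ 4 = 1 := by
    rw [ht, ← pow_mul, show 2 ^ i * 4 = 2 ^ (2 + i) by rw [pow_add]; ring, ← hi]; exact hspec
  have ht2 : t ^ 2 ≠ 1 := by
    rw [ht, ← pow_mul, ← pow_succ]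
    exact Nat.find_min hex (by omega)
  have htA : t ∈ S.A := S.alp t (pow_mem hk _) ht4
  have hct : Commute t x := (show Commute k x from hc).pow_left _
  have : t ∈ S.V := hx.2 t htA (by unfold Dl; rw [← hct.eq]; group)
  exact ht2 (S.V2 this)

theorem Nd.sq (hG : IsPGroup 2 G) {x : G} (hx : S.Nd x) : x ^ 2 ∈ S.V :=
  hx.comm_mem hG (S.sqK hx.1) (by rw [← pow_succ, ← pow_succ'])

theorem Nd.mulK {x k : G} (hx : S.Nd x) (hk : k ∈ S.K) : S.Nd (k * x) :=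
  ⟨mul_mem (S.KN hk) hx.1, fun a ha h => hx.2 a ha (by rwa [S.Dl_mulK hx.1 hk ha] at h)⟩

theorem Nd.inv_mod (hG : IsPGroup 2 G) {z k : G} (hz : S.Nd z) (hk : k ∈ S.K) : k * (z * k * z⁻¹) ∈ S.V := by
  have h1 := (hz.mulK hk).sq hG
  have h2 := hz.sq hG
  have e : k * (z * k * z⁻¹) = (k * z) ^ 2 * (z ^ 2)⁻¹ := by rw [pow_two, pow_two]; group
  rw [e]
  exact mul_mem h1 (inv_mem h2)

theorem Nd.KV (hG : IsPGroup 2 G) {z : G} (hz : S.Nd z) {k l : G} (hk : k ∈ S.K) (hl : l ∈ S.K) :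
    k * l * k⁻¹ * l⁻¹ ∈ S.V := by
  have h1 := hz.inv_mod hG hk
  have h2 := hz.inv_mod hG hl
  have h3 := hz.inv_mod hG (mul_mem hk hl)
  -- k l (z k z⁻¹)(z l z⁻¹) with z k z⁻¹ = k⁻¹ v, z l z⁻¹ = l⁻¹ w
  have e : k * l * k⁻¹ * l⁻¹ = (k * l * (z * (k * l) * z⁻¹)) * (l * (z * l * z⁻¹))⁻¹ *
      (l * (k * (z * k * z⁻¹))⁻¹ * l⁻¹) := by
    -- both sides
    have h4 : k * (z * k * z⁻¹) * l = l * (k * (z * k * z⁻¹)) := S.cVN h1 (S.KN hl)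
    have h5 : (z * k * z⁻¹) = k⁻¹ * (k * (z * k * z⁻¹)) := by group
    have h6 : z * (k * l) * z⁻¹ = (z * k * z⁻¹) * (z * l * z⁻¹) := by group
    rw [h6]
    have h7 : k * l * (z * k * z⁻¹ * (z * l * z⁻¹)) * (l * (z * l * z⁻¹))⁻¹ =
        k * l * (z * k * z⁻¹) * l⁻¹ := by group
    rw [h7]
    have h8 : k * l * (z * k * z⁻¹) * l⁻¹ = k * l * k⁻¹ * ((k * (z * k * z⁻¹)) * l⁻¹) := by group
    rw [h8]
    have h9 : (k * (z * k * z⁻¹)) * l⁻¹ = l⁻¹ * (k * (z * k * z⁻¹)) := S.cVN h1 (S.KN (inv_mem hl))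
    rw [h9]
    have h10 : l * (k * (z * k * z⁻¹))⁻¹ * l⁻¹ = (k * (z * k * z⁻¹))⁻¹ := by
      have := S.cVN (inv_mem h1) (S.KN hl)
      rw [← this]; group
    rw [h10]; group
  rw [e]
  refine mul_mem (mul_mem h3 (inv_mem h2)) (S.conjV l (inv_mem h1))

theorem Nd.cent (hG : IsPGroup 2 G) {z z' k : G} (hz : S.Nd z) (hz' : S.Nd z') (hk : k ∈ S.K) :
    (z * z') * k * (z * z')⁻¹ * k⁻¹ ∈ S.V := by
  -- z' k z'⁻¹ = k⁻¹ v; z k⁻¹ v z⁻¹ = (z k z⁻¹)⁻¹ v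
  have h1 := hz'.inv_mod hG hk
  have h2 := hz.inv_mod hG hk
  have e : (z * z') * k * (z * z')⁻¹ * k⁻¹ = (z * k * z⁻¹)⁻¹ * (z * (k * (z' * k * z'⁻¹)) * z⁻¹) * k⁻¹ := by group
  rw [e, ← S.cVN h1 hz.1]
  have e2 : (z * k * z⁻¹)⁻¹ * (k * (z' * k * z'⁻¹) * z * z⁻¹) * k⁻¹ =
      (z * k * z⁻¹)⁻¹ * ((k * (z' * k * z'⁻¹)) * k⁻¹) := by group
  rw [e2, S.cVN h1 (S.KN (inv_mem hk))]
  have e3 : (z * k * z⁻¹)⁻¹ * (k⁻¹ * (k * (z' * k * z'⁻¹))) = (k * (z * k * z⁻¹))⁻¹ * (k * (z' * k * z'⁻¹)) := by group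
  rw [e3]
  exact mul_mem (inv_mem h2) h1

/-- **Key lemma.** -/
theorem KL [Finite G] (hno : ∀ E : Subgroup G, E.Normal → (∀ a ∈ E, ∀ b ∈ E, a * b = b * a) →
      (∀ a ∈ E, a ^ 2 = 1) → Nat.card E ≤ 4) (cV : Nat.card S.V = 4) (cA : Nat.card S.A = 16)
    (y : G) (hy : y ∈ S.N0) (hyK : y ∉ S.K) (hy2 : y ^ 2 ∈ S.V) (cent : ∀ k ∈ S.K, Dl y k ∈ S.V)
    (inv : ∀ a ∈ S.A, a ^ 2 * Dl y a = 1 → a ^ 2 = 1) (fix : ∀ g, g * y * g⁻¹ * y⁻¹ ∈ S.K) : False := by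
  have cAA : ∀ a ∈ S.A, ∀ b ∈ S.A, Commute a b := S.ab
  let φ : S.A →* S.V :=
    { toFun := fun a => ⟨(a : G) ^ 2 * Dl y a, mul_mem (S.sqA a.2) (S.Dl_mem hy a.2)⟩
      map_one' := by apply Subtype.ext; simp [Dl]
      map_mul' := by
        rintro ⟨a, ha⟩ ⟨b, hb⟩
        apply Subtype.ext
        change (a * b) ^ 2 * Dl y (a * b) = a ^ 2 * Dl y a * (b ^ 2 * Dl y b)
        rw [(cAA a ha b hb).mul_pow, S.Dl_mul_right hy ha hb]
        have := (cAA _ (pow_mem hb 2) _ (S.VA (S.Dl_mem hy ha))).eq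
        calc a ^ 2 * b ^ 2 * (Dl y a * Dl y b) = a ^ 2 * (b ^ 2 * Dl y a) * Dl y b := by group
          _ = a ^ 2 * (Dl y a * b ^ 2) * Dl y b := by rw [this]
          _ = _ := by group }
  have hφ : ∀ a : S.A, ((φ a : S.V) : G) = (a : G) ^ 2 * Dl y a := fun a => rfl
  have hker : Nat.card φ.ker ≤ 4 := by
    rw [← cV]
    refine Nat.card_le_card_of_injective (fun x : φ.ker => (⟨(x.1 : G), ?_⟩ : S.V)) ?_
    · have h1 := x.2
      rw [MonoidHom.mem_ker] at h1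
      have h2 : ((x.1 : G)) ^ 2 * Dl y x.1 = 1 := by rw [← hφ, h1]; rfl
      exact (S.memV _).2 ⟨x.1.2, inv _ x.1.2 h2⟩
    · intro x z h
      apply Subtype.ext
      apply Subtype.ext
      exact congrArg (fun w : S.V => (w : G)) h
  have hrange : φ.range = ⊤ := by
    apply Subgroup.eq_top_of_card_eq
    have h1 := Subgroup.card_mul_index φ.ker
    rw [Subgroup.index_ker, cA] at h1
    have h2 : Nat.card φ.range ≤ Nat.card S.V := Nat.card_le_card_of_injective _ Subtype.val_injective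
    rw [cV] at h2 ⊢
    have h3 : 0 < Nat.card φ.ker := Nat.card_pos
    by_contra hne
    have h4 : Nat.card φ.range ≤ 3 := by omega
    nlinarith
  obtain ⟨⟨a, ha⟩, hav⟩ : ∃ a : S.A, φ a = ⟨(y ^ 2)⁻¹, inv_mem hy2⟩ := by
    have : (⟨(y ^ 2)⁻¹, inv_mem hy2⟩ : S.V) ∈ φ.range := by rw [hrange]; exact mem_top _
    exact this
  have hav' : a ^ 2 * Dl y a = (y ^ 2)⁻¹ := by
    have := congrArg (fun w : S.V => (w : G)) hav
    exact this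
  set y1 := a * y with hy1
  have hy1N : y1 ∈ S.N0 := mul_mem (S.AN ha) hy
  have hy1K : y1 ∉ S.K := fun h => hyK (by
    have := mul_mem (inv_mem (S.AK ha)) h
    simpa [hy1] using this)
  have hd := S.Dl_mem hy ha
  have hy1s : y1 ^ 2 = 1 := by
    have e : y1 ^ 2 = a * (y * a * y⁻¹) * y ^ 2 := by rw [hy1, pow_two, pow_two]; group
    rw [e, Dl_eq, (cAA _ (S.VA hd) _ ha).eq, ← mul_assoc, ← pow_two, hav']
    group
  have hy1D : ∀ k ∈ S.K, Dl y1 k = Dl y k := by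
    intro k hk
    have e : Dl y1 k = a * (y * k * y⁻¹) * a⁻¹ * k⁻¹ := by rw [hy1]; unfold Dl; group
    rw [e, S.cAK ha (S.conjK y hk)]
    unfold Dl; group
  have hcom : ∀ g, g * y1 * g⁻¹ * y1⁻¹ ∈ S.V := by
    intro g
    set s := g * y1 * g⁻¹ * y1⁻¹ with hs
    have hsK : s ∈ S.K := by
      have e : s = (g * a * g⁻¹) * (g * y * g⁻¹ * y⁻¹) * a⁻¹ := by rw [hs, hy1]; group
      rw [e]
      exact mul_mem (mul_mem (S.AK (S.conjA g ha)) (fix g)) (inv_mem (S.AK ha))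
    have h1 : (s * y1) ^ 2 = 1 := by
      have e : s * y1 = g * y1 * g⁻¹ := by rw [hs]; group
      rw [e, conj_pow, hy1s]; group
    have hdv : Dl y s ∈ S.V := cent s hsK
    have h2 : s ^ 2 * Dl y s = 1 := by
      have e : (s * y1) ^ 2 = s * (y1 * s * y1⁻¹) * y1 ^ 2 := by rw [pow_two, pow_two]; group
      rw [e, hy1s, mul_one, Dl_eq, hy1D s hsK, S.cAK (S.VA hdv) hsK] at h1
      rw [pow_two, mul_assoc, h1]
    have h3 : s ^ 2 ∈ S.V := by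
      rw [mul_eq_one_iff_eq_inv] at h2
      rw [h2]; exact inv_mem hdv
    have h4 : s ∈ S.A := S.alp s hsK (by rw [show 4 = 2 * 2 from rfl, pow_mul]; exact S.V2 h3)
    exact (S.memV s).2 ⟨h4, inv s h4 h2⟩
  haveI := S.Vn
  obtain ⟨B, hBn, hVB, hyB, hB⟩ := ext_union S.V y1 (by rw [hy1s]; exact one_mem _) hcom
  have hform : ∀ b ∈ B, ∃ v ∈ S.V, b = v ∨ b = v * y1 := by
    intro b hb
    rcases hB b hb with h | h
    · exact ⟨b, h, Or.inl rfl⟩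
    · exact ⟨b * y1⁻¹, h, Or.inr (by group)⟩
  have h1 := hno B hBn ?_ ?_
  · have hlt : S.V < B := lt_of_le_of_ne hVB (by
      intro h
      rw [← h] at hyB
      exact hy1K (S.VK hyB))
    have h2 : Nat.card S.V < Nat.card B := by
      refine lt_of_le_of_ne (Nat.le_of_dvd Nat.card_pos (Subgroup.card_dvd_of_le hVB)) fun h => ?_
      exact hlt.ne (Subgroup.eq_of_le_of_card_ge hVB h.ge)
    omega
  · intro b hb c hc
    obtain ⟨v, hv, h1⟩ := hform b hb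
    obtain ⟨w, hw, h2⟩ := hform c hc
    have c1 : Commute v w := S.ab _ (S.VA hv) _ (S.VA hw)
    have c2 : Commute v y1 := S.cVN hv hy1N
    have c3 : Commute w y1 := S.cVN hw hy1N
    change Commute b c
    rcases h1 with rfl | rfl <;> rcases h2 with rfl | rfl
    · exact c1
    · exact c1.mul_right c2
    · exact c1.mul_left c3.symm
    · exact (c1.mul_right c2).mul_left (c3.symm.mul_right (Commute.refl _))
  · intro b hb
    obtain ⟨v, hv, rfl | rfl⟩ := hform b hb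
    · exact S.V2 hv
    · have c2 : Commute v y1 := S.cVN hv hy1N
      rw [c2.mul_pow, S.V2 hv, hy1s, one_mul]

/-- Key lemma, version with a square modulo `V`. -/
theorem KL2 [Finite G] (hno : ∀ E : Subgroup G, E.Normal → (∀ a ∈ E, ∀ b ∈ E, a * b = b * a) →
      (∀ a ∈ E, a ^ 2 = 1) → Nat.card E ≤ 4) (cV : Nat.card S.V = 4) (cA : Nat.card S.A = 16)
    (hKV : ∀ k ∈ S.K, ∀ l ∈ S.K, k * l * k⁻¹ * l⁻¹ ∈ S.V)
    (y k : G) (hk : k ∈ S.K) (hy : y ∈ S.N0) (hyK : y ∉ S.K) (hy2 : y ^ 2 * (k ^ 2)⁻¹ ∈ S.V)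
    (cent : ∀ k ∈ S.K, Dl y k ∈ S.V)
    (inv : ∀ a ∈ S.A, a ^ 2 * Dl y a = 1 → a ^ 2 = 1) (fix : ∀ g, g * y * g⁻¹ * y⁻¹ ∈ S.K) : False := by
  refine KL hno cV cA (k⁻¹ * y) (mul_mem (S.KN (inv_mem hk)) hy) ?_ ?_ ?_ ?_ ?_
  · intro h
    exact hyK (by simpa using mul_mem hk h)
  · have e : (k⁻¹ * y) ^ 2 = k⁻¹ * (y * k⁻¹ * y⁻¹) * y ^ 2 := by rw [pow_two, pow_two]; group
    have hd := cent _ (inv_mem hk)
    rw [e, Dl_eq]
    have e2 : k⁻¹ * (Dl y k⁻¹ * k⁻¹) * y ^ 2 = (k⁻¹ * Dl y k⁻¹ * k⁻¹⁻¹) * ((k ^ 2)⁻¹ * (y ^ 2 * (k ^ 2)⁻¹) * (k ^ 2)⁻¹⁻¹) := by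
      rw [pow_two, pow_two]; group
    rw [e2]
    exact mul_mem (S.conjV _ hd) (S.conjV _ hy2)
  · intro l hl
    have e : Dl (k⁻¹ * y) l = (k⁻¹ * Dl y l * k⁻¹⁻¹) * (k⁻¹ * l * k⁻¹⁻¹ * l⁻¹) := by unfold Dl; group
    rw [e]
    exact mul_mem (S.conjV _ (cent l hl)) (hKV _ (inv_mem hk) l hl)
  · intro a ha h
    rw [S.Dl_mulK hy (inv_mem hk) ha] at h
    exact inv a ha h
  · intro g
    have e : g * (k⁻¹ * y) * g⁻¹ * (k⁻¹ * y)⁻¹ = (g * k⁻¹ * g⁻¹) * (g * y * g⁻¹ * y⁻¹) * k := by group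
    rw [e]
    exact mul_mem (mul_mem (S.conjK g (inv_mem hk)) (fix g)) hk

end Set4

end Cfsg.Agent.Lib.H81Mac2
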