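import Mathlib
import Cfsg.Agent.Lib.H81Mac2

/-!
MacWilliams four generator theorem, part 3 (helper81): coordinates.
-/

set_option autoImplicit false

namespace Cfsg.Agent.Lib.H81Mac3

open Subgroup Cfsg.Agent.Lib.H81Mac1 Cfsg.Agent.Lib.H81Mac2

universe u

abbrev M4 := ZMod 2 × ZMod 2 × ZMod 2 × ZMod 2

theorem z2 (i : ZMod 2) : i = 0 ∨ i = 1 := by revert i; decide

theorem z11 : (1 + 1 : ZMod 2) = 0 := by decide

def pw {G : Type u} [Group G] (e : G) (i : ZMod 2) : G := if i = 0 then 1 else e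

theorem pw_zero {G : Type u} [Group G] (e : G) : pw e 0 = 1 := by simp [pw]

theorem pw_one {G : Type u} [Group G] (e : G) : pw e 1 = e := by simp [pw]

theorem pw_add {G : Type u} [Group G] {e : G} (he : e ^ 2 = 1) (i j : ZMod 2) : pw e (i + j) = pw e i * pw e j := by
  rcases z2 i with rfl | rfl <;> rcases z2 j with rfl | rfl
  · simp [pw_zero]
  · simp [pw_zero]
  · simp [pw_zero]
  · rw [z11, pw_zero, pw_one, ← pow_two, he]

structure Bas {G : Type u} [Group G] (S : Set4 G) where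
  e1 : G
  e2 : G
  a1 : G
  a2 : G
  he1 : e1 ∈ S.V
  ne1 : e1 ≠ 1
  c1 : ∀ g, g * e1 = e1 * g
  he2 : e2 ∈ S.V
  ne2 : e2 ≠ 1
  ne12 : e2 ≠ e1
  ha1 : a1 ∈ S.A
  ha2 : a2 ∈ S.A
  sq1 : a1 ^ 2 = e1
  sq2 : a2 ^ 2 = e2
  hV4 : ∀ v ∈ S.V, v = 1 ∨ v = e1 ∨ v = e2 ∨ v = e1 * e2

open Classical in
noncomputable def Bas.X {G : Type u} [Group G] {S : Set4 G} (b : Bas S) (v : G) : ZMod 2 :=
  if v = 1 ∨ v = b.e2 then 0 else 1

open Classical in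
noncomputable def Bas.Y {G : Type u} [Group G] {S : Set4 G} (b : Bas S) (v : G) : ZMod 2 :=
  if v = 1 ∨ v = b.e1 then 0 else 1

namespace Bas

variable {G : Type u} [Group G] {S : Set4 G} (b : Bas S)

theorem e12 : b.e1 * b.e2 ≠ 1 := by
  intro h
  have h1 : b.e1⁻¹ = b.e2 := inv_eq_of_mul_eq_one_right h
  have h2 : b.e1⁻¹ = b.e1 := by
    rw [inv_eq_iff_mul_eq_one, ← pow_two]; exact S.V2 b.he1
  exact b.ne12 (by rw [← h1, h2])

theorem e12' : b.e1 * b.e2 ≠ b.e1 := fun h => b.ne2 (mul_eq_left.1 h)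

theorem e12'' : b.e1 * b.e2 ≠ b.e2 := fun h => b.ne1 (mul_eq_right.1 h)

theorem X1 : b.X 1 = 0 := by simp [X]
theorem Y1 : b.Y 1 = 0 := by simp [Y]
theorem Xe1 : b.X b.e1 = 1 := by
  have h := b.ne1; have h' := b.ne12.symm
  simp [X, h, h']
theorem Ye1 : b.Y b.e1 = 0 := by simp [Y]
theorem Xe2 : b.X b.e2 = 0 := by simp [X]
theorem Ye2 : b.Y b.e2 = 1 := by
  have h := b.ne2; have h' := b.ne12
  simp [Y, h, h']
theorem Xe12 : b.X (b.e1 * b.e2) = 1 := by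
  have h := b.e12; have h' := b.e12''
  simp only [X, h, h', or_self, if_false]
theorem Ye12 : b.Y (b.e1 * b.e2) = 1 := by
  have h := b.e12; have h' := b.e12'
  simp only [Y, h, h', or_self, if_false]

theorem com12 : b.e1 * b.e2 = b.e2 * b.e1 := (b.c1 b.e2).symm

theorem XY_mul {v w : G} (hv : v ∈ S.V) (hw : w ∈ S.V) : b.X (v * w) = b.X v + b.X w ∧ b.Y (v * w) = b.Y v + b.Y w := by
  have s1 : b.e1 * b.e1 = 1 := by rw [← pow_two]; exact S.V2 b.he1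
  have s2 : b.e2 * b.e2 = 1 := by rw [← pow_two]; exact S.V2 b.he2
  have t1 : b.e1 * (b.e1 * b.e2) = b.e2 := by rw [← mul_assoc, s1, one_mul]
  have t2 : b.e2 * (b.e1 * b.e2) = b.e1 := by rw [b.com12, ← mul_assoc, s2, one_mul]
  have t3 : b.e1 * b.e2 * b.e1 = b.e2 := by rw [b.com12, mul_assoc, s1, mul_one]
  have t4 : b.e1 * b.e2 * b.e2 = b.e1 := by rw [mul_assoc, s2, mul_one]
  have t5 : b.e1 * b.e2 * (b.e1 * b.e2) = 1 := by rw [← mul_assoc, t3, s2]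
  have t6 : b.e2 * b.e1 = b.e1 * b.e2 := b.com12.symm
  rcases b.hV4 v hv with rfl | rfl | rfl | rfl <;> rcases b.hV4 w hw with rfl | rfl | rfl | rfl <;>
    simp only [mul_one, one_mul, s1, s2, t1, t2, t3, t4, t5, t6, X1, Y1, Xe1, Ye1, Xe2, Ye2, Xe12, Ye12,
      z11, add_zero, zero_add, and_self]

theorem X_mul {v w : G} (hv : v ∈ S.V) (hw : w ∈ S.V) : b.X (v * w) = b.X v + b.X w := (b.XY_mul hv hw).1
theorem Y_mul {v w : G} (hv : v ∈ S.V) (hw : w ∈ S.V) : b.Y (v * w) = b.Y v + b.Y w := (b.XY_mul hv hw).2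

theorem eq_one {v : G} (hv : v ∈ S.V) (h1 : b.X v = 0) (h2 : b.Y v = 0) : v = 1 := by
  rcases b.hV4 v hv with rfl | rfl | rfl | rfl
  · rfl
  · rw [Xe1] at h1; exact absurd h1 (by decide)
  · rw [Ye2] at h2; exact absurd h2 (by decide)
  · rw [Xe12] at h1; exact absurd h1 (by decide)

theorem ext {v w : G} (hv : v ∈ S.V) (hw : w ∈ S.V) (h1 : b.X v = b.X w) (h2 : b.Y v = b.Y w) : v = w := by
  rw [← mul_inv_eq_one]
  have hwi : w⁻¹ = w := by rw [inv_eq_iff_mul_eq_one, ← pow_two]; exact S.V2 hw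
  rw [hwi]
  refine b.eq_one (mul_mem hv hw) ?_ ?_
  · rw [b.X_mul hv hw, h1]; generalize b.X w = t; revert t; decide
  · rw [b.Y_mul hv hw, h2]; generalize b.Y w = t; revert t; decide

theorem X_pw {v : G} (i : ZMod 2) : b.X (pw v i) = i * b.X v := by
  rcases z2 i with rfl | rfl
  · rw [pw_zero, X1, zero_mul]
  · rw [pw_one, one_mul]

theorem Y_pw {v : G} (i : ZMod 2) : b.Y (pw v i) = i * b.Y v := by
  rcases z2 i with rfl | rfl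
  · rw [pw_zero, Y1, zero_mul]
  · rw [pw_one, one_mul]

/-- the matrix -/
noncomputable def mu (x : G) : M4 := (b.X (Dl x b.a1), b.Y (Dl x b.a1), b.X (Dl x b.a2), b.Y (Dl x b.a2))

theorem mu_mul {x y : G} (hx : x ∈ S.N0) (hy : y ∈ S.N0) : b.mu (x * y) = b.mu x + b.mu y := by
  unfold mu
  rw [S.Dl_mul_left hx hy b.ha1, S.Dl_mul_left hx hy b.ha2,
    b.X_mul (S.Dl_mem hx b.ha1) (S.Dl_mem hy b.ha1), b.Y_mul (S.Dl_mem hx b.ha1) (S.Dl_mem hy b.ha1),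
    b.X_mul (S.Dl_mem hx b.ha2) (S.Dl_mem hy b.ha2), b.Y_mul (S.Dl_mem hx b.ha2) (S.Dl_mem hy b.ha2)]
  rfl

theorem decomp {a : G} (ha : a ∈ S.A) :
    ∃ v ∈ S.V, a = v * (pw b.a1 (b.X (a ^ 2)) * pw b.a2 (b.Y (a ^ 2))) := by
  set i := b.X (a ^ 2) with hi
  set j := b.Y (a ^ 2) with hj
  have h1 : pw b.a1 i ∈ S.A := by
    rcases z2 i with h | h <;> rw [h]
    · rw [pw_zero]; exact one_mem _
    · rw [pw_one]; exact b.ha1
  have h2 : pw b.a2 j ∈ S.A := by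
    rcases z2 j with h | h <;> rw [h]
    · rw [pw_zero]; exact one_mem _
    · rw [pw_one]; exact b.ha2
  have h3 : (pw b.a1 i) ^ 2 = pw b.e1 i := by
    rcases z2 i with h | h <;> rw [h]
    · rw [pw_zero, pw_zero, one_pow]
    · rw [pw_one, pw_one, b.sq1]
  have h4 : (pw b.a2 j) ^ 2 = pw b.e2 j := by
    rcases z2 j with h | h <;> rw [h]
    · rw [pw_zero, pw_zero, one_pow]
    · rw [pw_one, pw_one, b.sq2]
  have h5 : pw b.e1 i ∈ S.V := by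
    rw [← h3]; exact S.sqA h1
  have h6 : pw b.e2 j ∈ S.V := by
    rw [← h4]; exact S.sqA h2
  have h7 : (pw b.a1 i * pw b.a2 j) ^ 2 = a ^ 2 := by
    have hc : Commute (pw b.a1 i) (pw b.a2 j) := S.ab _ h1 _ h2
    rw [hc.mul_pow, h3, h4]
    refine b.ext (mul_mem h5 h6) (S.sqA ha) ?_ ?_
    · rw [b.X_mul h5 h6, X_pw, X_pw, Xe1, Xe2, ← hi]; simp
    · rw [b.Y_mul h5 h6, Y_pw, Y_pw, Ye1, Ye2, ← hj]; simp
  have h8 := mul_mem h1 h2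
  refine ⟨a * (pw b.a1 i * pw b.a2 j)⁻¹, (S.memV _).2 ⟨mul_mem ha (inv_mem h8), ?_⟩, by group⟩
  have hc : Commute a (pw b.a1 i * pw b.a2 j)⁻¹ := S.ab _ ha _ (inv_mem h8)
  rw [hc.mul_pow, inv_pow, h7, mul_inv_cancel]

theorem Dl_coord {x a : G} (hx : x ∈ S.N0) (ha : a ∈ S.A) :
    b.X (Dl x a) = b.X (a ^ 2) * (b.mu x).1 + b.Y (a ^ 2) * (b.mu x).2.2.1 ∧
    b.Y (Dl x a) = b.X (a ^ 2) * (b.mu x).2.1 + b.Y (a ^ 2) * (b.mu x).2.2.2 := by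
  obtain ⟨v, hv, hav⟩ := b.decomp ha
  set i := b.X (a ^ 2) with hi
  set j := b.Y (a ^ 2) with hj
  have key1 : ∀ (i : ZMod 2), pw b.a1 i ∈ S.A ∧ Dl x (pw b.a1 i) = pw (Dl x b.a1) i := by
    intro i
    rcases z2 i with h | h <;> rw [h]
    · rw [pw_zero, pw_zero]; exact ⟨one_mem _, S.Dl_V hx (one_mem _)⟩
    · rw [pw_one, pw_one]; exact ⟨b.ha1, rfl⟩
  have key2 : ∀ (i : ZMod 2), pw b.a2 i ∈ S.A ∧ Dl x (pw b.a2 i) = pw (Dl x b.a2) i := by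
    intro i
    rcases z2 i with h | h <;> rw [h]
    · rw [pw_zero, pw_zero]; exact ⟨one_mem _, S.Dl_V hx (one_mem _)⟩
    · rw [pw_one, pw_one]; exact ⟨b.ha2, rfl⟩
  have h1 : Dl x a = pw (Dl x b.a1) i * pw (Dl x b.a2) j := by
    rw [hav, S.Dl_mul_right hx (S.VA hv) (mul_mem (key1 i).1 (key2 j).1), S.Dl_V hx hv, one_mul,
      S.Dl_mul_right hx (key1 i).1 (key2 j).1, (key1 i).2, (key2 j).2]
  have m1 : pw (Dl x b.a1) i ∈ S.V := by rw [← (key1 i).2]; exact S.Dl_mem hx (key1 i).1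
  have m2 : pw (Dl x b.a2) j ∈ S.V := by rw [← (key2 j).2]; exact S.Dl_mem hx (key2 j).1
  rw [h1, b.X_mul m1 m2, b.Y_mul m1 m2, X_pw, X_pw, Y_pw, Y_pw]
  exact ⟨rfl, rfl⟩

theorem mu_K {x : G} (hx : x ∈ S.N0) : b.mu x = 0 ↔ x ∈ S.K := by
  constructor
  · intro h
    refine S.K_of_Dl fun a ha => ?_
    obtain ⟨h1, h2⟩ := b.Dl_coord hx ha
    rw [h] at h1 h2
    refine b.eq_one (S.Dl_mem hx ha) ?_ ?_
    · rw [h1]; simp
    · rw [h2]; simp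
  · intro h
    unfold mu
    rw [S.Dl_K h b.ha1, S.Dl_K h b.ha2, X1, Y1]
    rfl

def det (m : M4) : ZMod 2 := m.1 * m.2.2.2 + m.2.1 * m.2.2.1

theorem nd_aux : ∀ m : M4, det m = 1 → ∀ i j : ZMod 2, i * m.1 + j * m.2.2.1 = 0 → i * m.2.1 + j * m.2.2.2 = 0 →
    i = 0 ∧ j = 0 := by decide

theorem nd {x : G} (hx : x ∈ S.N0) (h : det (b.mu x) = 1) : S.Nd x := by
  refine ⟨hx, fun a ha h1 => ?_⟩
  obtain ⟨h2, h3⟩ := b.Dl_coord hx ha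
  rw [h1] at h2 h3
  rw [X1] at h2
  rw [Y1] at h3
  obtain ⟨h4, h5⟩ := nd_aux _ h _ _ h2.symm h3.symm
  exact (S.memV a).2 ⟨ha, b.eq_one (S.sqA ha) h4 h5⟩

theorem inv_aux : ∀ m : M4, det (m + (1, 0, 0, 1)) = 1 → ∀ i j : ZMod 2, i + (i * m.1 + j * m.2.2.1) = 0 →
    j + (i * m.2.1 + j * m.2.2.2) = 0 → i = 0 ∧ j = 0 := by decide

theorem inv_of {y : G} (hy : y ∈ S.N0) (h : det (b.mu y + (1, 0, 0, 1)) = 1) :
    ∀ a ∈ S.A, a ^ 2 * Dl y a = 1 → a ^ 2 = 1 := by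
  intro a ha h1
  obtain ⟨h2, h3⟩ := b.Dl_coord hy ha
  have h4 := b.X_mul (S.sqA ha) (S.Dl_mem hy ha)
  have h5 := b.Y_mul (S.sqA ha) (S.Dl_mem hy ha)
  rw [h1, X1, h2] at h4
  rw [h1, Y1, h3] at h5
  obtain ⟨h6, h7⟩ := inv_aux _ h _ _ h4.symm h5.symm
  exact b.eq_one (S.sqA ha) h6 h7

theorem N0_iff (g : G) : g ∈ S.N0 ↔ g * b.e2 = b.e2 * g := by
  rw [S.memN0]
  constructor
  · intro h; exact (h _ b.he2).symm
  · intro h v hv
    have h1 := b.c1 g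
    rcases b.hV4 v hv with rfl | rfl | rfl | rfl
    · simp
    · exact h1.symm
    · exact h.symm
    · have c1 : Commute g b.e1 := h1
      have c2 : Commute g b.e2 := h
      exact (c1.mul_right c2).symm

theorem conj_e2 {g : G} (hg : g ∉ S.N0) : g * b.e2 * g⁻¹ = b.e1 * b.e2 := by
  rcases b.hV4 _ (S.conjV g b.he2) with h | h | h | h
  · exact absurd ((conj_eq_one_iff).1 h) b.ne2
  · exfalso
    have : b.e2 = g⁻¹ * b.e1 * g := by rw [← h]; group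
    apply b.ne12
    rw [this, mul_assoc, ← b.c1 g]; group
  · exfalso
    apply hg
    rw [b.N0_iff]
    rwa [mul_inv_eq_iff_eq_mul] at h
  · exact h

theorem conj_coord {g v : G} (hg : g ∉ S.N0) (hv : v ∈ S.V) :
    b.X (g * v * g⁻¹) = b.X v + b.Y v ∧ b.Y (g * v * g⁻¹) = b.Y v := by
  have h1 : g * b.e1 * g⁻¹ = b.e1 := by rw [b.c1]; group
  have h2 := b.conj_e2 hg
  have h3 : g * (b.e1 * b.e2) * g⁻¹ = b.e2 := by
    have : g * (b.e1 * b.e2) * g⁻¹ = (g * b.e1 * g⁻¹) * (g * b.e2 * g⁻¹) := by group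
    rw [this, h1, h2, ← mul_assoc, ← pow_two, S.V2 b.he1, one_mul]
  rcases b.hV4 v hv with rfl | rfl | rfl | rfl
  · rw [mul_one, mul_inv_cancel, X1, Y1]; exact ⟨rfl, rfl⟩
  · rw [h1, Xe1, Ye1]; exact ⟨by decide, rfl⟩
  · rw [h2, Xe12, Ye12, Xe2, Ye2]; exact ⟨by decide, rfl⟩
  · rw [h3, Xe12, Ye12, Xe2, Ye2]; exact ⟨by decide, rfl⟩

def cj (m : M4) : M4 := (m.1 + m.2.1, m.2.1, m.1 + m.2.1 + m.2.2.1 + m.2.2.2, m.2.1 + m.2.2.2)

theorem cj_aux : ∀ p q r s : ZMod 2, (p + q, q, (p + r) + (q + s), q + s) = cj (p, q, r, s) := by decide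

theorem mu_conj {g x : G} (hg : g ∉ S.N0) (hx : x ∈ S.N0) : b.mu (g * x * g⁻¹) = cj (b.mu x) := by
  have hgi : g⁻¹ ∉ S.N0 := fun h => hg (by simpa using inv_mem h)
  have e : ∀ a, Dl (g * x * g⁻¹) a = g * Dl x (g⁻¹ * a * g⁻¹⁻¹) * g⁻¹ := by intro a; unfold Dl; group
  have A1 := S.conjA g⁻¹ b.ha1
  have A2 := S.conjA g⁻¹ b.ha2
  have s1 : (g⁻¹ * b.a1 * g⁻¹⁻¹) ^ 2 = b.e1 := by
    rw [conj_pow, b.sq1, b.c1]; group
  have s2 : (g⁻¹ * b.a2 * g⁻¹⁻¹) ^ 2 = b.e1 * b.e2 := by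
    rw [conj_pow, b.sq2, b.conj_e2 hgi]
  obtain ⟨c1, c2⟩ := b.Dl_coord hx A1
  obtain ⟨c3, c4⟩ := b.Dl_coord hx A2
  rw [s1, Xe1, Ye1, one_mul, zero_mul, add_zero] at c1 c2
  rw [s2, Xe12, Ye12, one_mul, one_mul] at c3 c4
  have d1 := b.conj_coord hg (S.Dl_mem hx A1)
  have d2 := b.conj_coord hg (S.Dl_mem hx A2)
  rw [c1, c2] at d1
  rw [c3, c4] at d2
  have : b.mu (g * x * g⁻¹) = (b.X (g * Dl x (g⁻¹ * b.a1 * g⁻¹⁻¹) * g⁻¹), b.Y (g * Dl x (g⁻¹ * b.a1 * g⁻¹⁻¹) * g⁻¹),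
      b.X (g * Dl x (g⁻¹ * b.a2 * g⁻¹⁻¹) * g⁻¹), b.Y (g * Dl x (g⁻¹ * b.a2 * g⁻¹⁻¹) * g⁻¹)) := by
    unfold mu; rw [e, e]
  rw [this, d1.1, d1.2, d2.1, d2.2]
  exact cj_aux _ _ _ _

theorem mu_inv {x : G} (hx : x ∈ S.N0) : b.mu x⁻¹ = b.mu x := by
  have h := b.mu_mul hx (inv_mem hx)
  rw [mul_inv_cancel, (b.mu_K (one_mem _)).2 (one_mem _)] at h
  generalize b.mu x⁻¹ = m at *
  generalize b.mu x = n at *
  revert m n; decide

theorem mu_conj' {g x : G} (hg : g ∈ S.N0) (hx : x ∈ S.N0) : b.mu (g * x * g⁻¹) = b.mu x := by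
  rw [b.mu_mul (mul_mem hg hx) (inv_mem hg), b.mu_mul hg hx, b.mu_inv hg]
  generalize b.mu g = m
  generalize b.mu x = n
  revert m n; decide

theorem fix_of {y : G} (hy : y ∈ S.N0) (h : (∀ g, g ∈ S.N0) ∨ cj (b.mu y) = b.mu y) :
    ∀ g, g * y * g⁻¹ * y⁻¹ ∈ S.K := by
  intro g
  have h1 : g * y * g⁻¹ ∈ S.N0 := S.N0n.conj_mem _ hy g
  rw [← b.mu_K (mul_mem h1 (inv_mem hy)), b.mu_mul h1 (inv_mem hy), b.mu_inv hy]
  have h2 : b.mu (g * y * g⁻¹) = b.mu y := by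
    by_cases hg : g ∈ S.N0
    · exact b.mu_conj' hg hy
    · rw [b.mu_conj hg hy]
      rcases h with h | h
      · exact absurd (h g) hg
      · exact h
  rw [h2]
  generalize b.mu y = n
  revert n; decide

end Bas

end Cfsg.Agent.Lib.H81Mac3
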