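import Mathlib
import Cfsg.Agent.Lib.H81Mac3

/-!
MacWilliams four generator theorem, part 4 (helper81): the large case.
-/

set_option autoImplicit false

namespace Cfsg.Agent.Lib.H81Mac4

open Subgroup Cfsg.Agent.Lib.H81Mac1 Cfsg.Agent.Lib.H81Mac2 Cfsg.Agent.Lib.H81Mac3

universe u

theorem card_mul_rel {G : Type u} [Group G] {N H : Subgroup G} (h : N ≤ H) :
    Nat.card N * N.relIndex H = Nat.card H := by
  have := Subgroup.relIndex_mul_relIndex (⊥ : Subgroup G) N H bot_le h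
  rw [relIndex_bot_left, relIndex_bot_left] at this
  exact this

section
variable {G : Type u} [Group G] {S : Set4 G} (b : Bas S) {B : Type} [AddCommGroup B]

/-- elements of `N0` whose matrix is killed by `f` -/
def pre (f : M4 →+ B) : Subgroup G where
  carrier := {x | x ∈ S.N0 ∧ f (b.mu x) = 0}
  one_mem' := ⟨one_mem _, by rw [(b.mu_K (one_mem _)).2 (one_mem _), map_zero]⟩
  mul_mem' := by
    rintro x y ⟨hx, hx'⟩ ⟨hy, hy'⟩
    exact ⟨mul_mem hx hy, by rw [b.mu_mul hx hy, map_add, hx', hy', add_zero]⟩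
  inv_mem' := by
    rintro x ⟨hx, hx'⟩
    exact ⟨inv_mem hx, by rw [b.mu_inv hx, hx']⟩

theorem mem_pre (f : M4 →+ B) (x : G) : x ∈ pre b f ↔ x ∈ S.N0 ∧ f (b.mu x) = 0 := Iff.rfl

def img (f : M4 →+ B) (H : Subgroup G) : Set B := {c | ∃ x ∈ H, f (b.mu x) = c}

theorem card_split [Finite G] (f : M4 →+ B) {H : Subgroup G} (hH : H ≤ S.N0) :
    Nat.card H = Nat.card (H ⊓ pre b f : Subgroup G) * Nat.card (img b f H) ∧
      ∀ [Finite B], Nat.card (img b f H) ∣ Nat.card B := by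
  let ψ : H →* Multiplicative B :=
    { toFun := fun x => Multiplicative.ofAdd (f (b.mu x))
      map_one' := by
        rw [Subgroup.coe_one, (b.mu_K (one_mem _)).2 (one_mem _), map_zero]; rfl
      map_mul' := by
        rintro ⟨x, hx⟩ ⟨y, hy⟩
        change Multiplicative.ofAdd (f (b.mu (x * y))) = _
        rw [b.mu_mul (hH hx) (hH hy), map_add, ofAdd_add] }
  have hker : ψ.ker = (H ⊓ pre b f).subgroupOf H := by
    ext x
    rw [MonoidHom.mem_ker, mem_subgroupOf, mem_inf, mem_pre]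
    constructor
    · intro h
      exact ⟨x.2, hH x.2, Multiplicative.ofAdd.injective h⟩
    · intro h
      change Multiplicative.ofAdd (f (b.mu x)) = 1
      rw [h.2.2]; rfl
  have hck : Nat.card ψ.ker = Nat.card (H ⊓ pre b f : Subgroup G) := by
    rw [hker]
    exact Nat.card_congr (subgroupOfEquivOfLe inf_le_left).toEquiv
  have hcr : Nat.card ψ.range = Nat.card (img b f H) := by
    refine Nat.card_congr (Equiv.subtypeEquiv Multiplicative.toAdd ?_)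
    intro a
    constructor
    · rintro ⟨x, rfl⟩
      exact ⟨x, x.2, rfl⟩
    · rintro ⟨x, hx, h⟩
      exact ⟨⟨x, hx⟩, Multiplicative.toAdd.injective h⟩
  constructor
  · rw [← hck, ← hcr, ← index_ker, card_mul_index]
  · intro _
    rw [← hcr]
    exact Subgroup.card_subgroup_dvd_card _

def idf : M4 →+ M4 := AddMonoidHom.id M4

theorem pre_id : pre b idf = S.K := by
  ext x
  rw [mem_pre]
  constructor
  · rintro ⟨h1, h2⟩; exact (b.mu_K h1).1 h2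
  · intro h; exact ⟨S.KN h, (b.mu_K (S.KN h)).2 h⟩

/-- squares in abelian-by-`V` subgroups of `K` -/
theorem squares [Finite G] (cV : Nat.card S.V = 4)
    (hKV : ∀ k ∈ S.K, ∀ l ∈ S.K, k * l * k⁻¹ * l⁻¹ ∈ S.V) (H1 N1 : Subgroup G) (hHK : H1 ≤ S.K)
    (hN : N1 ≤ H1) (hsq : ∀ x ∈ H1, x ^ 2 ∈ N1) (hc : 4 * Nat.card N1 ≤ Nat.card H1) :
    ∀ n ∈ N1, ∃ k ∈ H1, n * (k ^ 2)⁻¹ ∈ S.V := by
  have := S.Vn
  let φ : H1 →* G ⧸ S.V :=
    { toFun := fun k => QuotientGroup.mk ((k : G) ^ 2)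
      map_one' := by simp
      map_mul' := by
        rintro ⟨k, hk⟩ ⟨l, hl⟩
        change (QuotientGroup.mk ((k * l) ^ 2) : G ⧸ S.V) = QuotientGroup.mk (k ^ 2) * QuotientGroup.mk (l ^ 2)
        rw [← QuotientGroup.mk_mul, QuotientGroup.eq]
        have e : ((k * l) ^ 2)⁻¹ * (k ^ 2 * l ^ 2) = l⁻¹ * (k⁻¹ * l⁻¹ * k⁻¹⁻¹ * l⁻¹⁻¹) * l⁻¹⁻¹ := by
          rw [pow_two, pow_two, pow_two]; group
        rw [e]
        exact S.conjV _ (hKV _ (inv_mem (hHK hk)) _ (inv_mem (hHK hl))) }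
  have hφ : ∀ k : H1, φ k = QuotientGroup.mk ((k : G) ^ 2) := fun k => rfl
  -- kernel
  have hker : Nat.card φ.ker ≤ Nat.card (H1 ⊓ S.A : Subgroup G) := by
    refine Nat.card_le_card_of_injective (fun x : φ.ker => (⟨(x.1 : G), x.1.2, ?_⟩ : (H1 ⊓ S.A : Subgroup G))) ?_
    · have h1 := x.2
      rw [MonoidHom.mem_ker, hφ, QuotientGroup.eq_one_iff] at h1
      exact S.alp _ (hHK x.1.2) (by rw [show 4 = 2 * 2 from rfl, pow_mul]; exact S.V2 h1)
    · intro x z h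
      apply Subtype.ext
      apply Subtype.ext
      exact congrArg (fun w : (H1 ⊓ S.A : Subgroup G) => (w : G)) h
  let χ : (H1 ⊓ S.A : Subgroup G) →* (N1 ⊓ S.V : Subgroup G) :=
    { toFun := fun a => ⟨(a : G) ^ 2, hsq _ a.2.1, S.sqA a.2.2⟩
      map_one' := by apply Subtype.ext; simp
      map_mul' := by
        rintro ⟨a, ha⟩ ⟨c, hc⟩
        apply Subtype.ext
        have h : Commute a c := S.ab a ha.2 c hc.2
        exact h.mul_pow 2 }
  have hχ : Nat.card χ.ker ≤ 4 := by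
    rw [← cV]
    refine Nat.card_le_card_of_injective (fun x : χ.ker => (⟨(x.1 : G), ?_⟩ : S.V)) ?_
    · have h1 := x.2
      rw [MonoidHom.mem_ker] at h1
      have h2 : (x.1 : G) ^ 2 = 1 := congrArg (fun w : (N1 ⊓ S.V : Subgroup G) => (w : G)) h1
      exact (S.memV _).2 ⟨x.1.2.2, h2⟩
    · intro x z h
      apply Subtype.ext
      apply Subtype.ext
      exact congrArg (fun w : S.V => (w : G)) h
  have h1 : Nat.card (H1 ⊓ S.A : Subgroup G) ≤ 4 * Nat.card (N1 ⊓ S.V : Subgroup G) := by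
    rw [← card_mul_index χ.ker, index_ker]
    have : Nat.card χ.range ≤ Nat.card (N1 ⊓ S.V : Subgroup G) :=
      Nat.card_le_card_of_injective _ Subtype.val_injective
    exact Nat.mul_le_mul hχ this
  have h2 : Nat.card N1 = Nat.card (N1 ⊓ S.V : Subgroup G) * Nat.card (N1.map (QuotientGroup.mk' S.V)) := by
    have h3 := relIndex_ker (K := N1) (QuotientGroup.mk' S.V)
    rw [QuotientGroup.ker_mk'] at h3
    rw [← h3, ← card_mul_rel (inf_le_left : N1 ⊓ S.V ≤ N1), inf_relIndex_left]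
  have h3 : φ.range ≤ N1.map (QuotientGroup.mk' S.V) := by
    rintro _ ⟨k, rfl⟩
    exact ⟨(k : G) ^ 2, hsq _ k.2, rfl⟩
  have h4 : Nat.card H1 = Nat.card φ.ker * Nat.card φ.range := by
    rw [← index_ker, card_mul_index]
  have h5 : Nat.card (N1.map (QuotientGroup.mk' S.V)) ≤ Nat.card φ.range := by
    have p1 : 0 < Nat.card (H1 ⊓ S.A : Subgroup G) := Nat.card_pos
    have p2 : 0 < Nat.card (N1 ⊓ S.V : Subgroup G) := Nat.card_pos
    -- 4 |N1∩V| |map| = 4 |N1| ≤ |H1| ≤ |H1∩A| |range| ≤ 4 |N1∩V| |range|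
    have q1 : Nat.card H1 ≤ 4 * Nat.card (N1 ⊓ S.V : Subgroup G) * Nat.card φ.range := by
      rw [h4]; exact Nat.mul_le_mul_right _ (hker.trans h1)
    have q2 : 4 * Nat.card (N1 ⊓ S.V : Subgroup G) * Nat.card (N1.map (QuotientGroup.mk' S.V)) ≤
        4 * Nat.card (N1 ⊓ S.V : Subgroup G) * Nat.card φ.range := by
      rw [mul_assoc, ← h2]; omega
    exact Nat.le_of_mul_le_mul_left q2 (by positivity)
  have h6 : φ.range = N1.map (QuotientGroup.mk' S.V) := Subgroup.eq_of_le_of_card_ge h3 h5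
  intro n hn
  have h7 : (QuotientGroup.mk' S.V) n ∈ φ.range := by rw [h6]; exact ⟨n, hn, rfl⟩
  obtain ⟨k, hk⟩ := h7
  refine ⟨k, k.2, ?_⟩
  rw [hφ] at hk
  have h8 := QuotientGroup.eq.1 hk
  have e : n * ((k : G) ^ 2)⁻¹ = (k : G) ^ 2 * (((k : G) ^ 2)⁻¹ * n) * ((k : G) ^ 2)⁻¹ := by group
  rw [e]
  exact S.conjV _ h8

end

section
variable {G : Type u} [Group G] [Finite G] {S : Set4 G} (b : Bas S)

/-- the hypotheses on the group -/
structure Hyp (S : Set4 G) : Prop where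
  hG : IsPGroup 2 G
  hno : ∀ E : Subgroup G, E.Normal → (∀ a ∈ E, ∀ b ∈ E, a * b = b * a) → (∀ a ∈ E, a ^ 2 = 1) → Nat.card E ≤ 4
  cV : Nat.card S.V = 4
  cA : Nat.card S.A = 16

variable (hy : Hyp S)
include hy

theorem finish (hKV : ∀ k ∈ S.K, ∀ l ∈ S.K, k * l * k⁻¹ * l⁻¹ ∈ S.V)
    (y k : G) (hk : k ∈ S.K) (hyN : y ∈ S.N0) (h0 : b.mu y ≠ 0) (h1 : Bas.det (b.mu y + (1, 0, 0, 1)) = 1)
    (hfix : (∀ g, g ∈ S.N0) ∨ Bas.cj (b.mu y) = b.mu y) (hy2 : y ^ 2 * (k ^ 2)⁻¹ ∈ S.V)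
    (cent : ∀ k ∈ S.K, Dl y k ∈ S.V) : False :=
  Set4.KL2 hy.hno hy.cV hy.cA hKV y k hk hyN (fun h => h0 ((b.mu_K hyN).2 h)) hy2 cent
    (b.inv_of hyN h1) (b.fix_of hyN hfix)

/-- if `K ≠ A` then the invertible matrices have a common fixed vector -/
theorem fixv (hKA : ∃ k ∈ S.K, k ∉ S.A) : ∃ i j : ZMod 2, (i, j) ≠ (0, 0) ∧
    (∀ z, S.Nd z → i * (b.mu z).1 + j * (b.mu z).2.2.1 = i ∧ i * (b.mu z).2.1 + j * (b.mu z).2.2.2 = j) ∧
    ((∀ g, g ∈ S.N0) ∨ (∀ z, S.Nd z → (i + j) * (b.mu z).1 + j * (b.mu z).2.2.1 = i + j ∧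
      (i + j) * (b.mu z).2.1 + j * (b.mu z).2.2.2 = j)) := by
  obtain ⟨k0, hk0K, hk0A, hk02⟩ : ∃ k ∈ S.K, k ∉ S.A ∧ k ^ 2 ∈ S.A := by
    obtain ⟨k, hk, hkA⟩ := hKA
    classical
    have hex : ∃ j, k ^ 2 ^ j ∈ S.A := by
      obtain ⟨j, hj⟩ := hy.hG k
      exact ⟨j, by rw [hj]; exact one_mem _⟩
    have hj0 : Nat.find hex ≠ 0 := by
      intro h0
      have := Nat.find_spec hex
      rw [h0] at this
      simp at this
      exact hkA this
    obtain ⟨i, hi⟩ := Nat.exists_eq_succ_of_ne_zero hj0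
    refine ⟨k ^ 2 ^ i, pow_mem hk _, Nat.find_min hex (by omega), ?_⟩
    have := Nat.find_spec hex
    rw [hi, Nat.succ_eq_add_one, pow_succ, pow_mul] at this
    exact this
  have key : ∀ k ∈ S.K, k ^ 2 ∈ S.A → ∀ z, S.Nd z →
      b.X ((k ^ 2) ^ 2) * (b.mu z).1 + b.Y ((k ^ 2) ^ 2) * (b.mu z).2.2.1 = b.X ((k ^ 2) ^ 2) ∧
      b.X ((k ^ 2) ^ 2) * (b.mu z).2.1 + b.Y ((k ^ 2) ^ 2) * (b.mu z).2.2.2 = b.Y ((k ^ 2) ^ 2) := by
    intro k hk hk2 z hz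
    obtain ⟨h1, h2⟩ := b.Dl_coord hz.1 hk2
    rw [← h1, ← h2]
    -- Dl z (k^2) = (k^2)^2
    have h3 := hz.inv_mod hy.hG hk
    have h4 : Dl z (k ^ 2) = (k ^ 2) ^ 2 := by
      have h5 : z * k * z⁻¹ = k⁻¹ * (k * (z * k * z⁻¹)) := by group
      set v := k * (z * k * z⁻¹) with hv
      have h6 : Commute v k⁻¹ := S.cAK (S.VA h3) (inv_mem hk)
      have h7 : z * k ^ 2 * z⁻¹ = (k ^ 2)⁻¹ := by
        rw [← conj_pow, h5, h6.symm.mul_pow, S.V2 h3, mul_one, inv_pow]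
      have h8 : Dl z (k ^ 2) = ((k ^ 2) ^ 2)⁻¹ := by
        unfold Dl; rw [h7, pow_two (k ^ 2)]; group
      rw [h8, inv_eq_iff_mul_eq_one, ← pow_two]
      exact S.V2 (S.sqA hk2)
    rw [h4]
    exact ⟨rfl, rfl⟩
  refine ⟨b.X ((k0 ^ 2) ^ 2), b.Y ((k0 ^ 2) ^ 2), ?_, key k0 hk0K hk02, ?_⟩
  · intro h
    have h1 := congrArg Prod.fst h
    have h2 := congrArg Prod.snd h
    have h3 := b.eq_one (S.sqA hk02) h1 h2
    have h4 : k0 ^ 2 ∈ S.V := (S.memV _).2 ⟨hk02, h3⟩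
    exact hk0A (S.alp _ hk0K (by rw [show 4 = 2 * 2 from rfl, pow_mul]; exact h3))
  · by_cases hg : ∀ g, g ∈ S.N0
    · exact Or.inl hg
    · right
      push Not at hg
      obtain ⟨g, hg⟩ := hg
      intro z hz
      have h1 := key (g * k0 * g⁻¹) (S.conjK g hk0K) (by rw [conj_pow]; exact S.conjA g hk02) z hz
      have e : ((g * k0 * g⁻¹) ^ 2) ^ 2 = g * ((k0 ^ 2) ^ 2) * g⁻¹ := by rw [conj_pow, conj_pow]
      obtain ⟨h2, h3⟩ := b.conj_coord hg (S.sqA hk02)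
      rw [e, h2, h3] at h1
      exact h1

theorem B1 {x y : G} (hx : S.Nd x) (hyy : S.Nd y) (hc : Dl x y ∈ S.K) : Dl (x * y) (Dl x y) = 1 := by
  have hx2 := hx.sq hy.hG
  have hy2 := hyy.sq hy.hG
  set w := (y * x ^ 2 * y⁻¹) * y ^ 2 with hw
  have hwV : w ∈ S.V := mul_mem (S.conjV y hx2) hy2
  have e : (x * y) ^ 2 = Dl x y * w := by rw [hw]; unfold Dl; rw [pow_two, pow_two, pow_two]; group
  have e2 : Dl x y = (x * y) ^ 2 * w⁻¹ := by rw [e]; group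
  have hcw : Commute w (x * y) := S.cVN hwV (mul_mem hx.1 hyy.1)
  have h3 : Commute (x * y) (Dl x y) := by
    rw [e2]
    exact (Commute.refl (x * y)).pow_right 2 |>.mul_right hcw.symm.inv_right
  unfold Dl at h3 ⊢
  rw [h3.eq]; group

include b in
theorem comm_K {x y : G} (hx : x ∈ S.N0) (hyy : y ∈ S.N0) : Dl x y ∈ S.K := by
  have h1 : x * y * x⁻¹ ∈ S.N0 := S.N0n.conj_mem _ hyy x
  refine (b.mu_K (mul_mem h1 (inv_mem hyy))).1 ?_
  rw [b.mu_mul h1 (inv_mem hyy), b.mu_inv hyy, b.mu_conj' hx hyy]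
  generalize b.mu y = n
  revert n; decide

include b in
theorem B2 (hKA : ∀ k ∈ S.K, k ∈ S.A) {x y1 y2 : G} (hx : S.Nd x) (h1 : S.Nd y1) (h2 : S.Nd y2)
    (h12 : S.Nd (y1 * y2)) (hc : Dl x y1 ∈ S.V) : Dl x y2 ∈ S.V := by
  set c := Dl x y2 with hcd
  have hcK : c ∈ S.K := comm_K b hy hx.1 h2.1
  have hcA := hKA c hcK
  have e1 : Dl (x * y2) c = 1 := B1 hy hx h2 hcK
  have e2 : Dl (x * (y1 * y2)) (Dl x (y1 * y2)) = 1 := B1 hy hx h12 (comm_K b hy hx.1 h12.1)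
  have hv : Dl x y1 * Dl y1 c ∈ S.V := mul_mem hc (S.Dl_mem h1.1 hcA)
  have e3 : Dl x (y1 * y2) = (Dl x y1 * Dl y1 c) * c := by rw [hcd]; unfold Dl; group
  have hN := mul_mem hx.1 (mul_mem h1.1 h2.1)
  rw [e3, S.Dl_mul_right hN (S.VA hv) hcA, S.Dl_V hN hv, one_mul,
    S.Dl_mul_left hx.1 (mul_mem h1.1 h2.1) hcA, S.Dl_mul_left h1.1 h2.1 hcA] at e2
  rw [S.Dl_mul_left hx.1 h2.1 hcA] at e1
  have m1 := S.Dl_mem hx.1 hcA
  have m2 := S.Dl_mem h1.1 hcA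
  have m3 := S.Dl_mem h2.1 hcA
  have hcc : Commute (Dl x c) (Dl y1 c) := S.ab _ (S.VA m1) _ (S.VA m2)
  have e4 : Dl y1 c * (Dl x c * Dl y2 c) = 1 := by
    rw [← mul_assoc, ← hcc.eq, mul_assoc]; exact e2
  rw [e1, mul_one] at e4
  exact h1.2 c hcA e4

end

end Cfsg.Agent.Lib.H81Mac4
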