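import Mathlib
import Cfsg.Agent.Lib.H81Mac4

/-!
MacWilliams four generator theorem, part 5 (helper81): the large case, conclusion.
-/

set_option autoImplicit false

namespace Cfsg.Agent.Lib.H81Mac5

open Subgroup Cfsg.Agent.Lib.H81Mac1 Cfsg.Agent.Lib.H81Mac2 Cfsg.Agent.Lib.H81Mac3 Cfsg.Agent.Lib.H81Mac4

universe u

abbrev Z22 := ZMod 2 × ZMod 2

def fF : M4 →+ Z22 := AddMonoidHom.mk' (fun m => (m.2.1 + m.2.2.1, m.1 + m.2.1 + m.2.2.2)) (by decide)
def fT : M4 →+ Z22 := AddMonoidHom.mk' (fun m => (m.1 + m.2.2.2, m.1 + m.2.1 + m.2.2.1)) (by decide)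
def fL : M4 →+ Z22 := AddMonoidHom.mk' (fun m => (m.1, m.2.2.2)) (by decide)
def fX : M4 →+ Z22 := AddMonoidHom.mk' (fun m => (m.2.2.1, m.1 + m.2.1 + m.2.2.2)) (by decide)
def fY : M4 →+ Z22 := AddMonoidHom.mk' (fun m => (m.1 + m.2.2.1, m.1 + m.2.2.2)) (by decide)
def fD : M4 →+ M4 := AddMonoidHom.mk' (fun m => m + Bas.cj m) (by decide)

theorem dF : ∀ m : M4, m ≠ 0 → fF m = 0 → Bas.det m = 1 := by decide
theorem dT : ∀ m : M4, m ≠ 0 → fT m = 0 → Bas.det m = 1 := by decide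
theorem dX : ∀ m : M4, m ≠ 0 → fX m = 0 → m = (1, 0, 0, 1) ∨ m + Bas.cj m = (1, 0, 0, 1) := by decide
theorem dY : ∀ m : M4, m ≠ 0 → fY m = 0 → m = (1, 0, 1, 1) ∨ m + Bas.cj m = (1, 0, 1, 1) := by decide
set_option synthInstance.maxHeartbeats 2000000 in
set_option synthInstance.maxSize 20000 in
set_option maxRecDepth 100000 in
set_option maxHeartbeats 4000000 in
theorem dFT : ∀ m n : M4, m ≠ 0 → n ≠ 0 → fF m = 0 → fT n = 0 → m ≠ n := by decide
set_option synthInstance.maxHeartbeats 2000000 in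
set_option synthInstance.maxSize 20000 in
set_option maxRecDepth 100000 in
set_option maxHeartbeats 4000000 in
theorem dfix : ∀ m n : M4, Bas.det m = 1 → Bas.det n = 1 → m ≠ n → ∀ i j : ZMod 2, (i, j) ≠ (0, 0) →
    i * m.1 + j * m.2.2.1 = i ∧ i * m.2.1 + j * m.2.2.2 = j →
    i * n.1 + j * n.2.2.1 = i ∧ i * n.2.1 + j * n.2.2.2 = j →
    m + n ≠ 0 ∧ Bas.det (m + n + (1, 0, 0, 1)) = 1 := by decide
set_option synthInstance.maxHeartbeats 2000000 in
set_option synthInstance.maxSize 20000 in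
set_option maxRecDepth 100000 in
set_option maxHeartbeats 4000000 in
theorem dfix2 : ∀ m n : M4, Bas.det m = 1 → Bas.det n = 1 → m ≠ n → ∀ i j : ZMod 2, (i, j) ≠ (0, 0) →
    i * m.1 + j * m.2.2.1 = i ∧ i * m.2.1 + j * m.2.2.2 = j →
    i * n.1 + j * n.2.2.1 = i ∧ i * n.2.1 + j * n.2.2.2 = j →
    (i + j) * m.1 + j * m.2.2.1 = i + j ∧ (i + j) * m.2.1 + j * m.2.2.2 = j →
    (i + j) * n.1 + j * n.2.2.1 = i + j ∧ (i + j) * n.2.1 + j * n.2.2.2 = j →
    Bas.cj (m + n) = m + n := by decide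
theorem domega : ∀ i j : ZMod 2, (i, j) ≠ (0, 0) →
    ¬ (i * (0 : ZMod 2) + j * 1 = i ∧ i * 1 + j * 1 = j) := by decide
set_option synthInstance.maxHeartbeats 2000000 in
set_option synthInstance.maxSize 20000 in
set_option maxRecDepth 100000 in
set_option maxHeartbeats 4000000 in
theorem dL : ∀ m m0 : M4, m ≠ 0 → fL m = 0 → m0 ≠ 0 → fF m0 = 0 →
    Bas.det (m + (1, 0, 0, 1)) = 1 ∨ Bas.det (m0 + (1, 0, 0, 1)) = 1 ∨
      (m0 + m ≠ 0 ∧ Bas.det (m0 + m + (1, 0, 0, 1)) = 1) := by decide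

section
variable {G : Type u} [Group G] [Finite G] {S : Set4 G} (b : Bas S)

theorem exists_in {H : Subgroup G} (hH : H ≤ S.N0) (h8 : 8 * Nat.card (H ⊓ S.K : Subgroup G) ≤ Nat.card H)
    (f : M4 →+ Z22) : ∃ x ∈ H, b.mu x ≠ 0 ∧ f (b.mu x) = 0 := by
  by_contra hcon
  push Not at hcon
  obtain ⟨h1, h2⟩ := card_split b f hH
  have h3 : Nat.card (img b f H) ≤ 4 := by
    have := Nat.card_le_card_of_injective (Subtype.val : img b f H → Z22) Subtype.val_injective
    rwa [show Nat.card Z22 = 4 by simp [Z22]] at this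
  have h4 : H ⊓ pre b f ≤ H ⊓ S.K := by
    intro x hx
    refine ⟨hx.1, ?_⟩
    by_contra hxK
    exact hcon x hx.1 (fun h => hxK ((b.mu_K (hH hx.1)).1 h)) hx.2.2
  have h5 : Nat.card (H ⊓ pre b f : Subgroup G) ≤ Nat.card (H ⊓ S.K : Subgroup G) :=
    Nat.le_of_dvd Nat.card_pos (Subgroup.card_dvd_of_le h4)
  have h6 : 0 < Nat.card (H ⊓ S.K : Subgroup G) := Nat.card_pos
  have h7 := Nat.mul_le_mul h5 h3
  omega

variable (hy : Hyp S)
include b hy

theorem argB (hKA : ∀ k ∈ S.K, k ∈ S.A) {g : G} (hg : g ∉ S.N0) {H : Subgroup G} (hH : H ≤ S.N0)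
    (h8 : 8 * Nat.card (H ⊓ S.K : Subgroup G) ≤ Nat.card H) {x0 y0 : G} (hx0 : x0 ∈ S.N0) (hy0 : y0 ∈ S.N0)
    (hx1 : b.mu x0 ≠ 0) (hx2 : fF (b.mu x0) = 0) (hy1 : b.mu y0 ≠ 0) (hy2 : fT (b.mu y0) = 0)
    (hc : Dl x0 y0 ∈ S.V) : False := by
  have hN : ∀ x ∈ H, g * x * g⁻¹ ∈ S.N0 := fun x hx => S.N0n.conj_mem _ (hH hx) g
  obtain ⟨X, hXN, hX⟩ : ∃ X ∈ S.N0, b.mu X = (1, 0, 0, 1) := by
    obtain ⟨x, hx, h1, h2⟩ := exists_in b hH h8 fX
    rcases dX _ h1 h2 with h | h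
    · exact ⟨x, hH hx, h⟩
    · exact ⟨x * (g * x * g⁻¹), mul_mem (hH hx) (hN x hx), by
        rw [b.mu_mul (hH hx) (hN x hx), b.mu_conj hg (hH hx), h]⟩
  obtain ⟨Y, hYN, hY⟩ : ∃ Y ∈ S.N0, b.mu Y = (1, 0, 1, 1) := by
    obtain ⟨x, hx, h1, h2⟩ := exists_in b hH h8 fY
    rcases dY _ h1 h2 with h | h
    · exact ⟨x, hH hx, h⟩
    · exact ⟨x * (g * x * g⁻¹), mul_mem (hH hx) (hN x hx), by
        rw [b.mu_mul (hH hx) (hN x hx), b.mu_conj hg (hH hx), h]⟩
  have ndX : S.Nd X := b.nd hXN (by rw [hX]; decide)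
  have ndY : S.Nd Y := b.nd hYN (by rw [hY]; decide)
  have ndx0 : S.Nd x0 := b.nd hx0 (dF _ hx1 hx2)
  have ndy0 : S.Nd y0 := b.nd hy0 (dT _ hy1 hy2)
  -- replacing modulo K = A
  have repl : ∀ x ∈ S.N0, ∀ y ∈ S.N0, ∀ z ∈ S.N0, b.mu y = b.mu z → Dl x y ∈ S.V → Dl x z ∈ S.V := by
    intro x hx y hy' z hz hyz h
    have hk : z * y⁻¹ ∈ S.K := by
      refine (b.mu_K (mul_mem hz (inv_mem hy'))).1 ?_
      rw [b.mu_mul hz (inv_mem hy'), b.mu_inv hy', hyz]
      generalize b.mu z = n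
      revert n; decide
    have hkA := hKA _ hk
    have e : Dl x z = Dl x (z * y⁻¹) * ((z * y⁻¹) * Dl x y * (z * y⁻¹)⁻¹) := by unfold Dl; group
    rw [e]
    exact mul_mem (S.Dl_mem hx hkA) (S.conjV _ h)
  have step1 : Dl x0 Y ∈ S.V := by
    by_cases heq : b.mu y0 = b.mu Y
    · exact repl x0 hx0 y0 hy0 Y hYN heq hc
    · refine B2 b hy hKA ndx0 ndy0 ndY (b.nd (mul_mem hy0 hYN) ?_) hc
      rw [b.mu_mul hy0 hYN]
      refine dT _ (fun h => heq ?_) ?_
      · have h2 : ∀ m n : M4, m + n = 0 → m = n := by decide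
        exact h2 _ _ h
      · rw [map_add, hy2, hY]; decide
  have step2 : Dl Y x0 ∈ S.V := by
    have e : Dl Y x0 = (Dl x0 Y)⁻¹ := by unfold Dl; group
    rw [e]; exact inv_mem step1
  have step3 : Dl Y X ∈ S.V := by
    by_cases heq : b.mu x0 = b.mu X
    · exact repl Y hYN x0 hx0 X hXN heq step2
    · refine B2 b hy hKA ndY ndx0 ndX (b.nd (mul_mem hx0 hXN) ?_) step2
      rw [b.mu_mul hx0 hXN]
      refine dF _ (fun h => heq ?_) ?_
      · have h2 : ∀ m n : M4, m + n = 0 → m = n := by decide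
        exact h2 _ _ h
      · rw [map_add, hx2, hX]; decide
  have hmu : b.mu (X * Y) = (0, 0, 1, 0) := by
    rw [b.mu_mul hXN hYN, hX, hY]; decide
  have hKV : ∀ k ∈ S.K, ∀ l ∈ S.K, k * l * k⁻¹ * l⁻¹ ∈ S.V := by
    intro k hk l hl
    rw [S.ab k (hKA k hk) l (hKA l hl)]
    have : l * k * k⁻¹ * l⁻¹ = 1 := by group
    rw [this]; exact one_mem _
  refine finish b hy hKV (X * Y) 1 (one_mem _) (mul_mem hXN hYN) ?_ ?_ (Or.inr ?_) ?_ ?_
  · rw [hmu]; decide
  · rw [hmu]; decide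
  · rw [hmu]; decide
  · have e : (X * Y) ^ 2 * ((1 : G) ^ 2)⁻¹ = (Dl Y X)⁻¹ * ((Y * X ^ 2 * Y⁻¹) * Y ^ 2) := by
      unfold Dl; rw [one_pow, pow_two, pow_two, pow_two]; group
    rw [e]
    exact mul_mem (inv_mem step3) (mul_mem (S.conjV Y (ndX.sq hy.hG)) (ndY.sq hy.hG))
  · intro k hk
    exact S.Dl_mem (mul_mem hXN hYN) (hKA k hk)

/-- case (a) : `H ≤ C(V)` -/
theorem caseA (H N : Subgroup G) (hNH : N ≤ H) (hsq : ∀ x ∈ H, x ^ 2 ∈ N)
    (hcm : ∀ x ∈ H, ∀ y ∈ H, x * y * x⁻¹ * y⁻¹ ∈ N) (hbig : 32 * Nat.card N ≤ Nat.card H)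
    (hrank : Nat.card (H ⊓ S.K : Subgroup G) ≤ 4 * Nat.card (N ⊓ S.K : Subgroup G)) (hH : H ≤ S.N0) : False := by
  set N1 := N ⊓ S.K with hN1
  set H1 := H ⊓ S.K with hH1
  have hN1H1 : N1 ≤ H1 := inf_le_inf_right _ hNH
  have hcN : Nat.card N1 ≤ Nat.card N := Nat.le_of_dvd Nat.card_pos (Subgroup.card_dvd_of_le inf_le_left)
  have h8 : 8 * Nat.card H1 ≤ Nat.card H := by omega
  have hN1V : 0 < Nat.card N1 := Nat.card_pos
  have hy2 : ∀ y ∈ H, y ^ 2 ∈ N1 := fun y hyH => ⟨hsq y hyH, S.sqK (hH hyH)⟩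
  have hcm1 : ∀ x ∈ H, ∀ y ∈ H, Dl x y ∈ N1 := fun x hx y hy' => ⟨hcm x hx y hy', comm_K b hy (hH hx) (hH hy')⟩
  obtain ⟨x0, hx0, hx1, hx2⟩ := exists_in b hH h8 fF
  obtain ⟨y0, hy0, hy1, hy2'⟩ := exists_in b hH h8 fT
  have ndx0 : S.Nd x0 := b.nd (hH hx0) (dF _ hx1 hx2)
  have ndy0 : S.Nd y0 := b.nd (hH hy0) (dT _ hy1 hy2')
  have hKV : ∀ k ∈ S.K, ∀ l ∈ S.K, k * l * k⁻¹ * l⁻¹ ∈ S.V := fun k hk l hl => ndx0.KV hy.hG hk hl
  obtain ⟨hs1, hs2⟩ := card_split b idf hH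
  rw [pre_id, ← hH1] at hs1
  have hdvd : Nat.card (img b idf H) ∣ 16 := by
    have := hs2
    rwa [show Nat.card M4 = 16 by simp [M4]] at this
  by_cases h16 : Nat.card (img b idf H) = 16
  · -- all matrices occur
    have hall : ∀ m : M4, ∃ x ∈ H, b.mu x = m := by
      intro m
      have huniv : img b idf H = Set.univ := by
        apply Set.eq_univ_of_forall
        have hinj : Function.Bijective (Subtype.val : img b idf H → M4) := by
          have hci : Nat.card M4 = 16 := by simp [M4]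
          refine (Nat.bijective_iff_injective_and_card _).2 ⟨Subtype.val_injective, ?_⟩
          rw [h16, hci]
        intro x
        obtain ⟨y, rfl⟩ := hinj.2 x
        exact y.2
      have : m ∈ img b idf H := by rw [huniv]; exact Set.mem_univ m
      exact this
    obtain ⟨w, hw, hwm⟩ := hall (0, 1, 1, 1)
    have ndw : S.Nd w := b.nd (hH hw) (by rw [hwm]; decide)
    by_cases hKA : ∃ k ∈ S.K, k ∉ S.A
    · obtain ⟨i, j, hij, h1, -⟩ := fixv b hy hKA
      have h2 := h1 w ndw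
      rw [hwm] at h2
      exact domega i j hij h2
    · push Not at hKA
      by_cases hGN : ∀ g, g ∈ S.N0
      · refine finish b hy hKV w 1 (one_mem _) (hH hw) ?_ ?_ (Or.inl hGN) ?_ ?_
        · rw [hwm]; decide
        · rw [hwm]; decide
        · rw [one_pow, inv_one, mul_one]; exact ndw.sq hy.hG
        · intro k hk; exact S.Dl_mem (hH hw) (hKA k hk)
      · push Not at hGN
        obtain ⟨g, hg⟩ := hGN
        obtain ⟨y1, hy1H, hy1m⟩ := hall (1, 0, 1, 1)
        obtain ⟨y2, hy2H, hy2m⟩ := hall (1, 1, 0, 1)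
        have c1 := hcm1 x0 hx0 y1 hy1H
        have c2 := hcm1 x0 hx0 y2 hy2H
        by_cases hc1 : Dl x0 y1 ∈ S.V
        · exact argB b hy hKA hg hH h8 (hH hx0) (hH hy1H) hx1 hx2 (by rw [hy1m]; decide) (by rw [hy1m]; decide) hc1
        by_cases hc2 : Dl x0 y2 ∈ S.V
        · exact argB b hy hKA hg hH h8 (hH hx0) (hH hy2H) hx1 hx2 (by rw [hy2m]; decide) (by rw [hy2m]; decide) hc2
        have hA1 := hKA _ c1.2
        have hA2 := hKA _ c2.2
        have hc12 : Dl x0 y1 * Dl x0 y2 ∈ S.V := by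
          by_contra hc12
          -- squares
          have q1 : (Dl x0 y1) ^ 2 ∈ S.V := S.sqA hA1
          have q2 : (Dl x0 y2) ^ 2 ∈ S.V := S.sqA hA2
          have n1 : (Dl x0 y1) ^ 2 ≠ 1 := fun h => hc1 ((S.memV _).2 ⟨hA1, h⟩)
          have n2 : (Dl x0 y2) ^ 2 ≠ 1 := fun h => hc2 ((S.memV _).2 ⟨hA2, h⟩)
          have hcomm : Commute (Dl x0 y1) (Dl x0 y2) := S.ab _ hA1 _ hA2
          have n3 : (Dl x0 y1) ^ 2 * (Dl x0 y2) ^ 2 ≠ 1 := fun h =>
            hc12 ((S.memV _).2 ⟨mul_mem hA1 hA2, by rw [hcomm.mul_pow, h]⟩)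
          have i1 : (Dl x0 y1) ^ 2 ∈ N1 := pow_mem c1 2
          have i2 : (Dl x0 y2) ^ 2 ∈ N1 := pow_mem c2 2
          have n4 : (Dl x0 y1) ^ 2 ≠ (Dl x0 y2) ^ 2 := by
            intro h
            apply n3
            rw [h, ← pow_two]; exact S.V2 q2
          have hVN : S.V ≤ N1 := by
            have hd : (({1, (Dl x0 y1) ^ 2, (Dl x0 y2) ^ 2, (Dl x0 y1) ^ 2 * (Dl x0 y2) ^ 2} : Set G)) = (S.V : Set G) := by
              refine Set.eq_of_subset_of_ncard_le ?_ ?_ (Set.toFinite _)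
              · intro v hv
                simp only [Set.mem_insert_iff, Set.mem_singleton_iff] at hv
                rcases hv with rfl | rfl | rfl | rfl
                · exact one_mem _
                · exact q1
                · exact q2
                · exact mul_mem q1 q2
              · have hcv : (S.V : Set G).ncard = 4 := hy.cV
                rw [hcv]
                rw [Set.ncard_insert_of_notMem, Set.ncard_insert_of_notMem, Set.ncard_insert_of_notMem, Set.ncard_singleton]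
                · rw [Set.mem_singleton_iff]
                  intro h
                  exact n1 (mul_eq_right.1 h.symm)
                · simp only [Set.mem_insert_iff, Set.mem_singleton_iff, not_or]
                  refine ⟨n4, fun h => n2 (mul_eq_left.1 h.symm)⟩
                · simp only [Set.mem_insert_iff, Set.mem_singleton_iff, not_or]
                  exact ⟨n1.symm, n2.symm, n3.symm⟩
            intro v hv
            have : v ∈ (({1, (Dl x0 y1) ^ 2, (Dl x0 y2) ^ 2, (Dl x0 y1) ^ 2 * (Dl x0 y2) ^ 2} : Set G)) := by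
              rw [hd]; exact hv
            simp only [Set.mem_insert_iff, Set.mem_singleton_iff] at this
            rcases this with rfl | rfl | rfl | rfl
            · exact one_mem _
            · exact i1
            · exact i2
            · exact mul_mem i1 i2
          -- card N1 ≤ 8
          have hc16 : Nat.card H1 ≤ 16 := by
            rw [← hy.cA]
            exact Nat.le_of_dvd Nat.card_pos (Subgroup.card_dvd_of_le (fun k hk => hKA k hk.2))
          have hcN8 : Nat.card N1 ≤ 8 := by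
            rw [h16] at hs1
            omega
          have hrel : S.V.relIndex N1 = 2 := by
            have h1 := card_mul_rel hVN
            rw [hy.cV] at h1
            have h2 : S.V.relIndex N1 ≠ 1 := fun h => hc1 (Subgroup.relIndex_eq_one.1 h c1)
            have h3 : S.V.relIndex N1 ≠ 0 := by
              intro h; rw [h] at h1; omega
            omega
          have h5 : (S.V.subgroupOf N1).index = 2 := hrel
          have h6 := Subgroup.mul_mem_iff_of_index_two h5 (a := ⟨Dl x0 y1, c1⟩) (b := ⟨Dl x0 y2, c2⟩)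
          apply hc12
          have h7 : (⟨Dl x0 y1, c1⟩ * ⟨Dl x0 y2, c2⟩ : N1) ∈ S.V.subgroupOf N1 := by
            rw [h6]
            simp only [mem_subgroupOf]
            exact ⟨fun h => absurd h hc1, fun h => absurd h hc2⟩
          exact h7
        refine argB b hy hKA hg hH h8 (hH hx0) (hH (mul_mem hy1H hy2H)) hx1 hx2 ?_ ?_ ?_
        · rw [b.mu_mul (hH hy1H) (hH hy2H), hy1m, hy2m]; decide
        · rw [b.mu_mul (hH hy1H) (hH hy2H), hy1m, hy2m]; decide
        · have e : Dl x0 (y1 * y2) = Dl x0 y1 * (Dl y1 (Dl x0 y2) * Dl x0 y2) := by unfold Dl; group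
          have hd := S.Dl_mem (hH hy1H) hA2
          have hcm' : Commute (Dl x0 y1) (Dl y1 (Dl x0 y2)) := S.ab _ hA1 _ (S.VA hd)
          rw [e, ← mul_assoc, hcm'.eq, mul_assoc]
          exact mul_mem hd hc12
  · -- card (img) ≤ 8
    have hle8 : Nat.card (img b idf H) ≤ 8 := by
      have h1 : Nat.card (img b idf H) ≤ 16 := Nat.le_of_dvd (by norm_num) hdvd
      generalize Nat.card (img b idf H) = c at hdvd h16 h1
      interval_cases c <;> revert hdvd h16 <;> decide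
    have h4 : 4 * Nat.card N1 ≤ Nat.card H1 := by
      have : Nat.card H ≤ Nat.card H1 * 8 := by rw [hs1]; exact Nat.mul_le_mul_left _ hle8
      omega
    have hSQ := squares hy.cV hKV H1 N1 inf_le_right hN1H1 (fun x hx => hy2 x hx.1) h4
    by_cases hKA : ∃ k ∈ S.K, k ∉ S.A
    · obtain ⟨i, j, hij, h1, h2⟩ := fixv b hy hKA
      have hne := dFT _ _ hx1 hy1 hx2 hy2'
      have dx := dF _ hx1 hx2
      have dy := dT _ hy1 hy2'
      obtain ⟨h3, h5⟩ := dfix _ _ dx dy hne i j hij (h1 x0 ndx0) (h1 y0 ndy0)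
      obtain ⟨k, hk, hk2⟩ := hSQ _ (hy2 _ (mul_mem hx0 hy0))
      refine finish b hy hKV (x0 * y0) k hk.2 (hH (mul_mem hx0 hy0)) ?_ ?_ ?_ hk2 ?_
      · rw [b.mu_mul (hH hx0) (hH hy0)]; exact h3
      · rw [b.mu_mul (hH hx0) (hH hy0)]; exact h5
      · rcases h2 with h2 | h2
        · exact Or.inl h2
        · right
          rw [b.mu_mul (hH hx0) (hH hy0)]
          exact dfix2 _ _ dx dy hne i j hij (h1 x0 ndx0) (h1 y0 ndy0) (h2 x0 ndx0) (h2 y0 ndy0)
      · intro k hk; exact ndx0.cent hy.hG ndy0 hk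
    · push Not at hKA
      have hNV : ∀ n ∈ N1, n ∈ S.V := by
        intro n hn
        obtain ⟨k, hk, hk2⟩ := hSQ n hn
        have := mul_mem hk2 (S.sqA (hKA k hk.2))
        simpa using this
      by_cases hGN : ∀ g, g ∈ S.N0
      · have fin : ∀ y ∈ H, b.mu y ≠ 0 → Bas.det (b.mu y + (1, 0, 0, 1)) = 1 → False := by
          intro y hyH h1 h2
          refine finish b hy hKV y 1 (one_mem _) (hH hyH) h1 h2 (Or.inl hGN) ?_ ?_
          · rw [one_pow, inv_one, mul_one]; exact hNV _ (hy2 y hyH)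
          · intro k hk; exact S.Dl_mem (hH hyH) (hKA k hk)
        obtain ⟨x, hx, h1, h2⟩ := exists_in b hH h8 fL
        rcases dL _ _ h1 h2 hx1 hx2 with h3 | h3 | h3
        · exact fin x hx h1 h3
        · exact fin x0 hx0 hx1 h3
        · refine fin (x0 * x) (mul_mem hx0 hx) ?_ ?_
          · rw [b.mu_mul (hH hx0) (hH hx)]; exact h3.1
          · rw [b.mu_mul (hH hx0) (hH hx)]; exact h3.2
      · push Not at hGN
        obtain ⟨g, hg⟩ := hGN
        exact argB b hy hKA hg hH h8 (hH hx0) (hH hy0) hx1 hx2 hy1 hy2' (hNV _ (hcm1 x0 hx0 y0 hy0))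

end

end Cfsg.Agent.Lib.H81Mac5
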