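import Mathlib
import Cfsg.Agent.Lib.H81Mac5

/-!
MacWilliams four generator theorem, part 6 (helper81): case (b), the small case.
-/

set_option autoImplicit false

namespace Cfsg.Agent.Lib.H81Mac6

open Subgroup Cfsg.Agent.Lib.H81Mac1 Cfsg.Agent.Lib.H81Mac2 Cfsg.Agent.Lib.H81Mac3 Cfsg.Agent.Lib.H81Mac4
  Cfsg.Agent.Lib.H81Mac5

universe u

/-- index two count -/
theorem card_half {G : Type u} [Group G] [Finite G] (H N0 : Subgroup G)
    (h : ∀ g k, g ∉ N0 → k ∉ N0 → g * k⁻¹ ∈ N0) : Nat.card H ≤ 2 * Nat.card (H ⊓ N0 : Subgroup G) := by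
  classical
  by_cases hH : H ≤ N0
  · rw [inf_eq_left.2 hH]; omega
  obtain ⟨g, hgH, hg⟩ := SetLike.not_le_iff_exists.1 hH
  have h1 : Nat.card H ≤ Nat.card ((H ⊓ N0 : Subgroup G) × Bool) := by
    refine Nat.card_le_card_of_injective (fun x : H =>
      if hx : (x : G) ∈ N0 then ((⟨x, x.2, hx⟩ : (H ⊓ N0 : Subgroup G)), true)
      else ((⟨x * g⁻¹, H.mul_mem x.2 (H.inv_mem hgH), h _ _ hx hg⟩ : (H ⊓ N0 : Subgroup G)), false)) ?_
    intro x y hxy
    dsimp only at hxy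
    by_cases hx : (x : G) ∈ N0 <;> by_cases hy : (y : G) ∈ N0
    · rw [dif_pos hx, dif_pos hy] at hxy
      have := congrArg (fun w : (H ⊓ N0 : Subgroup G) × Bool => (w.1 : G)) hxy
      exact Subtype.ext this
    · rw [dif_pos hx, dif_neg hy] at hxy
      have := congrArg Prod.snd hxy
      simp at this
    · rw [dif_neg hx, dif_pos hy] at hxy
      have := congrArg Prod.snd hxy
      simp at this
    · rw [dif_neg hx, dif_neg hy] at hxy
      have := congrArg (fun w : (H ⊓ N0 : Subgroup G) × Bool => (w.1 : G)) hxy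
      exact Subtype.ext (mul_right_cancel this)
  rw [Nat.card_prod, show Nat.card Bool = 2 by simp] at h1
  omega

theorem ex_e1 {G : Type u} [Group G] [Finite G] (hG : IsPGroup 2 G) (V : Subgroup G) [V.Normal]
    (hV : V ≠ ⊥) : ∃ e ∈ V, e ≠ 1 ∧ ∀ g, g * e = e * g := by
  haveI : Fact (Nat.Prime 2) := ⟨Nat.prime_two⟩
  haveI : Group.IsNilpotent G := hG.isNilpotent
  obtain ⟨M, ⟨hMn, hM1, hMV⟩, hmin⟩ := exists_minA (fun M : Subgroup G => M.Normal ∧ M ≠ ⊥ ∧ M ≤ V) V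
    ⟨inferInstance, hV, le_rfl⟩
  have hlt := commutator_sup_lt M ⊥ (bot_lt_iff_ne_bot.2 hM1)
  rw [sup_bot_eq] at hlt
  have hc : ⁅M, (⊤ : Subgroup G)⁆ = ⊥ := by
    by_contra hne
    exact hlt.ne (hmin _ ⟨inferInstance, hne, hlt.le.trans hMV⟩ hlt.le)
  obtain ⟨e, heM, he1⟩ : ∃ e ∈ M, e ≠ 1 := by
    by_contra hcon
    push Not at hcon
    exact hM1 ((Subgroup.eq_bot_iff_forall M).2 hcon)
  refine ⟨e, hMV heM, he1, fun g => ?_⟩
  have h1 := commutator_mem_commutator heM (mem_top g)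
  rw [hc, mem_bot, commutatorElement_eq_one_iff_mul_comm] at h1
  exact h1.symm

section
variable {G : Type u} [Group G] [Finite G] (S : Set4 G)

theorem ex_e12 (hG : IsPGroup 2 G) (cV : Nat.card S.V = 4) : ∃ e1 ∈ S.V, ∃ e2 ∈ S.V, e1 ≠ 1 ∧
    (∀ g, g * e1 = e1 * g) ∧ e2 ≠ 1 ∧ e2 ≠ e1 ∧ (∀ v ∈ S.V, v = 1 ∨ v = e1 ∨ v = e2 ∨ v = e1 * e2) := by
  haveI := S.Vn
  have hV : S.V ≠ ⊥ := by
    intro h
    rw [h] at cV
    simp at cV
  obtain ⟨e1, he1, ne1, c1⟩ := ex_e1 hG S.V hV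
  have cV' : (S.V : Set G).ncard = 4 := cV
  obtain ⟨e2, he2, hn⟩ : ∃ e2 ∈ (S.V : Set G), e2 ∉ ({1, e1} : Set G) := by
    refine Set.exists_mem_notMem_of_ncard_lt_ncard ?_ (Set.toFinite _)
    rw [cV', Set.ncard_pair ne1.symm]; norm_num
  simp only [Set.mem_insert_iff, Set.mem_singleton_iff, not_or] at hn
  obtain ⟨ne2, ne12⟩ := hn
  refine ⟨e1, he1, e2, he2, ne1, c1, ne2, ne12, ?_⟩
  have n3 : e1 * e2 ≠ 1 := by
    intro h
    have h1 : e1⁻¹ = e2 := inv_eq_of_mul_eq_one_right h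
    have h2 : e1⁻¹ = e1 := by
      rw [inv_eq_iff_mul_eq_one, ← pow_two]; exact S.V2 he1
    exact ne12 (by rw [← h1, h2])
  have hd : (({1, e1, e2, e1 * e2} : Set G)) = (S.V : Set G) := by
    refine Set.eq_of_subset_of_ncard_le ?_ ?_ (Set.toFinite _)
    · intro v hv
      simp only [Set.mem_insert_iff, Set.mem_singleton_iff] at hv
      rcases hv with rfl | rfl | rfl | rfl
      · exact one_mem _
      · exact he1
      · exact he2
      · exact mul_mem he1 he2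
    · rw [cV']
      rw [Set.ncard_insert_of_notMem, Set.ncard_insert_of_notMem, Set.ncard_insert_of_notMem, Set.ncard_singleton]
      · rw [Set.mem_singleton_iff]
        intro h
        exact ne1 (mul_eq_right.1 h.symm)
      · simp only [Set.mem_insert_iff, Set.mem_singleton_iff, not_or]
        exact ⟨fun h => ne12 h.symm, fun h => ne2 (mul_eq_left.1 h.symm)⟩
      · simp only [Set.mem_insert_iff, Set.mem_singleton_iff, not_or]
        exact ⟨ne1.symm, fun h => ne2 h.symm, n3.symm⟩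
  intro v hv
  have : v ∈ (({1, e1, e2, e1 * e2} : Set G)) := by rw [hd]; exact hv
  simpa only [Set.mem_insert_iff, Set.mem_singleton_iff] using this

/-- squaring as a homomorphism -/
def sqHom : S.A →* S.V where
  toFun := fun a => ⟨(a : G) ^ 2, S.sqA a.2⟩
  map_one' := by apply Subtype.ext; simp
  map_mul' := by
    rintro ⟨a, ha⟩ ⟨c, hc⟩
    apply Subtype.ext
    have h : Commute a c := S.ab a ha c hc
    exact h.mul_pow 2

theorem card_sq : Nat.card S.A = Nat.card S.V * Nat.card (sqHom S).range := by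
  have h1 := Subgroup.card_mul_index (sqHom S).ker
  rw [index_ker] at h1
  rw [← h1]
  congr 1
  refine Nat.card_congr ?_
  exact
    { toFun := fun x => ⟨(x.1 : G), by
        have h1 := x.2
        rw [MonoidHom.mem_ker] at h1
        have h2 : (x.1 : G) ^ 2 = 1 := congrArg (fun w : S.V => (w : G)) h1
        exact (S.memV _).2 ⟨x.1.2, h2⟩⟩
      invFun := fun v => ⟨⟨v, S.VA v.2⟩, by
        rw [MonoidHom.mem_ker]
        apply Subtype.ext
        exact S.V2 v.2⟩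
      left_inv := fun x => rfl
      right_inv := fun v => rfl }

theorem ex_bas (hy : Hyp S) : Nonempty (Bas S) := by
  obtain ⟨e1, he1, e2, he2, ne1, c1, ne2, ne12, hV4⟩ := ex_e12 S hy.hG hy.cV
  have h1 := card_sq S
  rw [hy.cA, hy.cV] at h1
  have h2 : (sqHom S).range = ⊤ := by
    apply Subgroup.eq_top_of_card_eq
    rw [hy.cV]; omega
  have h3 : ∀ v ∈ S.V, ∃ a ∈ S.A, a ^ 2 = v := by
    intro v hv
    have : (⟨v, hv⟩ : S.V) ∈ (sqHom S).range := by rw [h2]; exact mem_top _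
    obtain ⟨a, ha⟩ := this
    exact ⟨a, a.2, congrArg (fun w : S.V => (w : G)) ha⟩
  obtain ⟨a1, ha1, sq1⟩ := h3 e1 he1
  obtain ⟨a2, ha2, sq2⟩ := h3 e2 he2
  exact ⟨⟨e1, e2, a1, a2, he1, ne1, c1, he2, ne2, ne12, ha1, ha2, sq1, sq2, hV4⟩⟩

theorem ind2 (hG : IsPGroup 2 G) (cV : Nat.card S.V = 4) : ∀ g k, g ∉ S.N0 → k ∉ S.N0 → g * k⁻¹ ∈ S.N0 := by
  obtain ⟨e1, he1, e2, he2, ne1, c1, ne2, ne12, hV4⟩ := ex_e12 S hG cV
  have key : ∀ g, g * e2 = e2 * g → g ∈ S.N0 := by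
    intro g h
    rw [S.memN0]
    intro v hv
    have h1 := c1 g
    rcases hV4 v hv with rfl | rfl | rfl | rfl
    · simp
    · exact h1.symm
    · exact h.symm
    · have c1 : Commute g e1 := h1
      have c2 : Commute g e2 := h
      exact (c1.mul_right c2).symm
  have key2 : ∀ g, g ∉ S.N0 → g * e2 * g⁻¹ = e1 * e2 := by
    intro g hg
    rcases hV4 _ (S.conjV g he2) with h | h | h | h
    · exact absurd ((conj_eq_one_iff).1 h) ne2
    · exfalso
      have : e2 = g⁻¹ * e1 * g := by rw [← h]; group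
      apply ne12
      rw [this, mul_assoc, ← c1 g]; group
    · exfalso
      apply hg
      apply key
      rwa [mul_inv_eq_iff_eq_mul] at h
    · exact h
  intro g k hg hk
  have hki : k⁻¹ ∉ S.N0 := fun h => hk (by simpa using inv_mem h)
  have e1c : g * e1 * g⁻¹ = e1 := by rw [c1]; group
  apply key
  have h1 : (g * k⁻¹) * e2 * (g * k⁻¹)⁻¹ = e2 := by
    have e : (g * k⁻¹) * e2 * (g * k⁻¹)⁻¹ = g * (k⁻¹ * e2 * k⁻¹⁻¹) * g⁻¹ := by group
    rw [e, key2 _ hki]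
    have e' : g * (e1 * e2) * g⁻¹ = (g * e1 * g⁻¹) * (g * e2 * g⁻¹) := by group
    rw [e', e1c, key2 _ hg, ← mul_assoc, ← pow_two, S.V2 he1, one_mul]
  rwa [mul_inv_eq_iff_eq_mul] at h1

/-- rank bound for subgroups of `K` -/
theorem rankK (hG : IsPGroup 2 G) (H1 N1 : Subgroup G) (hH : H1 ≤ S.K) (hN : N1 ≤ H1)
    (hsq : ∀ x ∈ H1, x ^ 2 ∈ N1) (hcm : ∀ x ∈ H1, ∀ y ∈ H1, x * y * x⁻¹ * y⁻¹ ∈ N1) :
    Nat.card H1 ≤ Nat.card S.V * Nat.card N1 := by
  have h1 := rank_aux (Nat.card H1) H1 rfl (hG.to_subgroup H1) ?_ (N1.subgroupOf H1) ?_ ?_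
  · have h2 : Nat.card {x : H1 // x ^ 2 = 1} ≤ Nat.card S.V := by
      refine Nat.card_le_card_of_injective (fun x => (⟨(x.1 : G), ?_⟩ : S.V)) ?_
      · have h3 : (x.1 : G) ^ 2 = 1 := congrArg (fun w : H1 => (w : G)) x.2
        exact (S.memV _).2 ⟨S.alp _ (hH x.1.2) (by rw [show 4 = 2 * 2 from rfl, pow_mul, h3, one_pow]), h3⟩
      · intro x z h
        apply Subtype.ext
        apply Subtype.ext
        exact congrArg (fun w : S.V => (w : G)) h
    have h3 := card_mul_rel hN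
    have h4 : N1.relIndex H1 ≤ Nat.card S.V := h1.trans h2
    rw [← h3, mul_comm (Nat.card S.V)]
    exact Nat.mul_le_mul_left _ h4
  · intro x hx y
    apply Subtype.ext
    have h3 : (x : G) ^ 4 = 1 := congrArg (fun w : H1 => (w : G)) hx
    exact S.cAK (S.alp _ (hH x.2) h3) (hH y.2)
  · intro x
    exact hsq x x.2
  · intro g x
    exact hcm g g.2 x x.2

/-- the small case -/
theorem small (hG : IsPGroup 2 G)
    (hno : ∀ E : Subgroup G, E.Normal → (∀ a ∈ E, ∀ b ∈ E, a * b = b * a) → (∀ a ∈ E, a ^ 2 = 1) → Nat.card E ≤ 4)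
    (hsm : ¬ (Nat.card S.V = 4 ∧ Nat.card S.A = 16))
    (H N : Subgroup G) (hNH : N ≤ H) (hsq : ∀ x ∈ H, x ^ 2 ∈ N)
    (hcm : ∀ x ∈ H, ∀ y ∈ H, x * y * x⁻¹ * y⁻¹ ∈ N) (hbig : 32 * Nat.card N ≤ Nat.card H) : False := by
  haveI : Fact (Nat.Prime 2) := ⟨Nat.prime_two⟩
  have hV4 : Nat.card S.V ≤ 4 := hno S.V S.Vn (fun a ha b hb => S.ab a (S.VA ha) b (S.VA hb)) (fun a ha => S.V2 ha)
  have hVc : Nat.card S.V = 1 ∨ Nat.card S.V = 2 ∨ Nat.card S.V = 4 := by
    obtain ⟨n, hn⟩ := IsPGroup.iff_card.1 (hG.to_subgroup S.V)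
    rw [hn] at hV4 ⊢
    have : n ≤ 2 := by
      by_contra h
      have : 2 ^ 3 ≤ 2 ^ n := Nat.pow_le_pow_right (by norm_num) (by omega)
      omega
    interval_cases n <;> simp
  have hcs := card_sq S
  have hdv : Nat.card (sqHom S).range ∣ Nat.card S.V := Subgroup.card_subgroup_dvd_card _
  have hr2 : Nat.card (sqHom S).range ≤ 2 := by
    by_contra h
    apply hsm
    rcases hVc with h1 | h1 | h1
    · rw [h1] at hdv; have := Nat.le_of_dvd (by norm_num) hdv; omega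
    · rw [h1] at hdv; have := Nat.le_of_dvd (by norm_num) hdv; omega
    · rw [h1] at hdv
      refine ⟨h1, ?_⟩
      rw [hcs, h1]
      have h2 := Nat.le_of_dvd (by norm_num) hdv
      generalize Nat.card (sqHom S).range = c at h hdv h2
      interval_cases c
      · omega
      · rfl
  have hVA : S.V ≤ S.A := fun x hx => S.VA hx
  have hrel := card_mul_rel hVA
  have hVpos : 0 < Nat.card S.V := Nat.card_pos
  have hrel2 : S.V.relIndex S.A ≤ 2 := by
    rw [hcs] at hrel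
    rw [Nat.eq_of_mul_eq_mul_left hVpos hrel]
    exact hr2
  obtain ⟨a, haA, ha⟩ : ∃ a ∈ S.A, ∀ c ∈ S.A, c ∈ S.V ∨ c * a⁻¹ ∈ S.V := by
    by_cases hle : S.A ≤ S.V
    · exact ⟨1, one_mem _, fun c hc => Or.inl (hle hc)⟩
    · obtain ⟨a, haA, haV⟩ := SetLike.not_le_iff_exists.1 hle
      have hi : (S.V.subgroupOf S.A).index = 2 := by
        have h1 : S.V.relIndex S.A ≠ 1 := fun h => hle (Subgroup.relIndex_eq_one.1 h)
        have h2 : S.V.relIndex S.A ≠ 0 := by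
          intro h; rw [h] at hrel
          have : 0 < Nat.card S.A := Nat.card_pos
          omega
        change S.V.relIndex S.A = 2
        omega
      refine ⟨a, haA, fun c hc => ?_⟩
      by_cases hcV : c ∈ S.V
      · exact Or.inl hcV
      · right
        have h6 := Subgroup.mul_mem_iff_of_index_two hi (a := ⟨c, hc⟩) (b := ⟨a⁻¹, inv_mem haA⟩)
        have h7 : (⟨c, hc⟩ * ⟨a⁻¹, inv_mem haA⟩ : S.A) ∈ S.V.subgroupOf S.A := by
          rw [h6]
          simp only [mem_subgroupOf]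
          exact ⟨fun h => absurd h hcV, fun h => absurd (by simpa using inv_mem h) haV⟩
        exact h7
  have hind : ∀ g k, g ∉ S.N0 → k ∉ S.N0 → g * k⁻¹ ∈ S.N0 := by
    by_cases h4 : Nat.card S.V = 4
    · exact ind2 S hG h4
    · intro g k hg
      exfalso
      apply hg
      rw [S.memN0]
      have hle2 : Nat.card S.V ≤ 2 := by omega
      intro v hv
      by_cases hv1 : v = 1
      · rw [hv1]; simp
      have h5 : g * v * g⁻¹ = v := by
        by_contra hne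
        have h6 : g * v * g⁻¹ ≠ 1 := fun h => hv1 (conj_eq_one_iff.1 h)
        have h7 : ({1, v, g * v * g⁻¹} : Set G) ⊆ (S.V : Set G) := by
          intro x hx
          simp only [Set.mem_insert_iff, Set.mem_singleton_iff] at hx
          rcases hx with rfl | rfl | rfl
          · exact one_mem _
          · exact hv
          · exact S.conjV g hv
        have h8 := Set.ncard_le_ncard h7 (Set.toFinite _)
        have h9 : (S.V : Set G).ncard ≤ 2 := hle2
        rw [Set.ncard_insert_of_notMem, Set.ncard_pair (fun h => hne h.symm)] at h8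
        · omega
        · simp only [Set.mem_insert_iff, Set.mem_singleton_iff, not_or]
          exact ⟨fun h => hv1 h.symm, fun h => h6 h.symm⟩
      rw [mul_inv_eq_iff_eq_mul] at h5
      exact h5.symm
  set H0 := H ⊓ S.N0 with hH0
  have c1 : Nat.card H ≤ 2 * Nat.card H0 := card_half H S.N0 hind
  let ψ : H0 →* S.V :=
    { toFun := fun x => ⟨Dl (x : G) a, S.Dl_mem x.2.2 haA⟩
      map_one' := by apply Subtype.ext; simp [Dl]
      map_mul' := by
        rintro ⟨x, hx⟩ ⟨y, hy⟩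
        apply Subtype.ext
        exact S.Dl_mul_left hx.2 hy.2 haA }
  have hψ : ∀ x : H0, ((ψ x : S.V) : G) = Dl (x : G) a := fun x => rfl
  have hker : ψ.ker = (H ⊓ S.K).subgroupOf H0 := by
    ext x
    rw [MonoidHom.mem_ker, mem_subgroupOf, mem_inf]
    constructor
    · intro h
      refine ⟨x.2.1, S.K_of_Dl fun c hc => ?_⟩
      have h1 : Dl (x : G) a = 1 := by rw [← hψ, h]; rfl
      rcases ha c hc with h2 | h2
      · exact S.Dl_V x.2.2 h2
      · have e : c = c * a⁻¹ * a := by group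
        rw [e, S.Dl_mul_right x.2.2 (S.VA h2) haA, S.Dl_V x.2.2 h2, h1, one_mul]
    · intro h
      apply Subtype.ext
      rw [hψ, S.Dl_K h.2 haA]; rfl
  have hck : Nat.card ψ.ker = Nat.card (H ⊓ S.K : Subgroup G) := by
    rw [hker]
    exact Nat.card_congr (subgroupOfEquivOfLe (inf_le_inf_left _ fun x hx => S.KN hx)).toEquiv
  have c2 : Nat.card H0 = Nat.card (H ⊓ S.K : Subgroup G) * Nat.card ψ.range := by
    rw [← hck, ← index_ker, card_mul_index]
  have c3 : Nat.card ψ.range ≤ Nat.card S.V := Nat.card_le_card_of_injective _ Subtype.val_injective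
  have c4 : Nat.card (H ⊓ S.K : Subgroup G) ≤ Nat.card S.V * Nat.card (N ⊓ S.K : Subgroup G) := by
    refine rankK S hG _ _ inf_le_right (inf_le_inf_right _ hNH) ?_ ?_
    · intro x hx; exact ⟨hsq x hx.1, pow_mem hx.2 2⟩
    · intro x hx y hy
      exact ⟨hcm x hx.1 y hy.1, S.K.mul_mem (S.K.mul_mem (S.K.mul_mem hx.2 hy.2) (S.K.inv_mem hx.2)) (S.K.inv_mem hy.2)⟩
  have c5 : Nat.card (N ⊓ S.K : Subgroup G) ≤ Nat.card N :=
    Nat.le_of_dvd Nat.card_pos (Subgroup.card_dvd_of_le inf_le_left)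
  have p1 : 0 < Nat.card (N ⊓ S.K : Subgroup G) := Nat.card_pos
  have p2 : 0 < Nat.card (H ⊓ S.K : Subgroup G) := Nat.card_pos
  -- all equalities
  have hV : Nat.card S.V = 4 ∧ Nat.card N = Nat.card (N ⊓ S.K : Subgroup G) ∧ Nat.card H = 2 * Nat.card H0 ∧
      Nat.card ψ.range = 4 := by
    set r := Nat.card ψ.range
    set v := Nat.card S.V
    set n1 := Nat.card (N ⊓ S.K : Subgroup G)
    set n := Nat.card N
    set h1 := Nat.card (H ⊓ S.K : Subgroup G)
    set h0 := Nat.card H0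
    set hh := Nat.card H
    have q1 : h0 ≤ (v * n1) * v := by rw [c2]; exact Nat.mul_le_mul c4 c3
    rcases hVc with e | e | e
    · rw [e] at q1; omega
    · rw [e] at q1; omega
    · rw [e] at q1 c3 c4
      have q2 : n = n1 := by omega
      have q3 : hh = 2 * h0 := by omega
      refine ⟨e, q2, q3, ?_⟩
      have q4 : h0 = 16 * n1 := by omega
      by_contra hne
      have q5 : r ≤ 3 := by omega
      have q6 : h1 * r ≤ (4 * n1) * 3 := Nat.mul_le_mul c4 q5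
      omega
  obtain ⟨v4, hN, hHH, hr⟩ := hV
  have hNK : N ≤ S.K := by
    have := Subgroup.eq_of_le_of_card_ge (inf_le_left : N ⊓ S.K ≤ N) hN.le
    rw [← this]; exact inf_le_right
  obtain ⟨g, hgH, hg⟩ : ∃ g ∈ H, g ∉ S.N0 := by
    by_contra hcon
    push Not at hcon
    have : H0 = H := inf_eq_left.2 hcon
    rw [this] at hHH
    have : 0 < Nat.card H := Nat.card_pos
    omega
  have hrt : ψ.range = ⊤ := by
    apply Subgroup.eq_top_of_card_eq
    rw [hr, v4]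
  apply hg
  rw [S.memN0]
  intro v hv
  have h1 : (⟨v, hv⟩ : S.V) ∈ ψ.range := by rw [hrt]; exact mem_top _
  obtain ⟨x, hx⟩ := h1
  have hx' : Dl (x : G) a = v := congrArg (fun w : S.V => (w : G)) hx
  have hxN := x.2.2
  have hxH := x.2.1
  have hva : (g⁻¹ * a * g⁻¹⁻¹) * a⁻¹ ∈ S.V := by
    rcases ha _ (S.conjA g⁻¹ haA) with h | h
    · have haV : a ∈ S.V := by
        have := S.conjV g h
        have e : g * (g⁻¹ * a * g⁻¹⁻¹) * g⁻¹ = a := by group
        rwa [e] at this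
      exact mul_mem h (inv_mem haV)
    · exact h
  have h2 : Dl (g * x * g⁻¹) a = g * Dl (x : G) a * g⁻¹ := by
    have e : Dl (g * x * g⁻¹) a = g * Dl (x : G) (g⁻¹ * a * g⁻¹⁻¹) * g⁻¹ := by unfold Dl; group
    have e2 : g⁻¹ * a * g⁻¹⁻¹ = (g⁻¹ * a * g⁻¹⁻¹) * a⁻¹ * a := by group
    rw [e, e2, S.Dl_mul_right hxN (S.VA hva) haA, S.Dl_V hxN hva, one_mul]
  have h3 : Dl (g * x * g⁻¹) a = Dl (x : G) a := by
    have e : g * x * g⁻¹ = (g * x * g⁻¹ * (x : G)⁻¹) * x := by group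
    rw [e]
    exact S.Dl_mulK hxN (hNK (hcm g hgH x hxH)) haA
  rw [h3, hx'] at h2
  rw [eq_mul_inv_iff_mul_eq] at h2
  exact h2

variable {S}

/-- case (b) -/
theorem caseB (b : Bas S) (hy : Hyp S) (H N : Subgroup G) (hNH : N ≤ H) (hsq : ∀ x ∈ H, x ^ 2 ∈ N)
    (hcm : ∀ x ∈ H, ∀ y ∈ H, x * y * x⁻¹ * y⁻¹ ∈ N) (hbig : 32 * Nat.card N ≤ Nat.card H)
    (hrank : Nat.card (H ⊓ S.K : Subgroup G) ≤ 4 * Nat.card (N ⊓ S.K : Subgroup G)) (hH : ¬ H ≤ S.N0) : False := by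
  obtain ⟨g, hgH, hg⟩ := SetLike.not_le_iff_exists.1 hH
  set H0 := H ⊓ S.N0 with hH0
  have c1 : Nat.card H ≤ 2 * Nat.card H0 := card_half H S.N0 (ind2 S hy.hG hy.cV)
  obtain ⟨s1, -⟩ := card_split b fD (H := H0) inf_le_right
  set P := N ⊓ S.N0 with hP
  obtain ⟨s2, -⟩ := card_split b idf (H := P) inf_le_right
  rw [pre_id] at s2
  have hPK : P ⊓ S.K = N ⊓ S.K := by
    apply le_antisymm
    · exact fun x hx => ⟨hx.1.1, hx.2⟩
    · exact fun x hx => ⟨⟨hx.1, S.KN hx.2⟩, hx.2⟩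
  rw [hPK] at s2
  set Hc := H0 ⊓ pre b fD with hHc
  obtain ⟨s3, -⟩ := card_split b idf (H := Hc) (inf_le_left.trans inf_le_right)
  rw [pre_id] at s3
  have hHcK : Hc ⊓ S.K = H ⊓ S.K := by
    apply le_antisymm
    · exact fun x hx => ⟨hx.1.1.1, hx.2⟩
    · intro x hx
      refine ⟨⟨⟨hx.1, S.KN hx.2⟩, S.KN hx.2, ?_⟩, hx.2⟩
      rw [(b.mu_K (S.KN hx.2)).2 hx.2, map_zero]
  rw [hHcK] at s3
  -- img fD H0 ⊆ img idf P
  have hi1 : Nat.card (img b fD H0) ≤ Nat.card (img b idf P) := by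
    refine Nat.card_mono (Set.toFinite _) ?_
    rintro c ⟨x, hx, rfl⟩
    have hgx : g * x * g⁻¹ ∈ S.N0 := S.N0n.conj_mem _ hx.2 g
    refine ⟨g * x * g⁻¹ * x⁻¹, ⟨hcm g hgH x hx.1, S.N0.mul_mem hgx (S.N0.inv_mem hx.2)⟩, ?_⟩
    rw [b.mu_mul hgx (inv_mem hx.2), b.mu_inv hx.2, b.mu_conj hg hx.2]
    change Bas.cj (b.mu x) + b.mu x = b.mu x + Bas.cj (b.mu x)
    exact add_comm _ _
  have hsub : img b idf Hc ⊆ ({0, (1, 0, 0, 1), (0, 0, 1, 0), (1, 0, 1, 1)} : Set M4) := by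
    rintro c ⟨x, hx, rfl⟩
    have h1 : fD (b.mu x) = 0 := hx.2.2
    change b.mu x ∈ _
    generalize b.mu x = m at h1
    have : ∀ m : M4, fD m = 0 → m = 0 ∨ m = (1, 0, 0, 1) ∨ m = (0, 0, 1, 0) ∨ m = (1, 0, 1, 1) := by decide
    simpa using this m h1
  have h4 : ({0, (1, 0, 0, 1), (0, 0, 1, 0), (1, 0, 1, 1)} : Set M4).ncard = 4 := by
    rw [Set.ncard_insert_of_notMem, Set.ncard_insert_of_notMem, Set.ncard_insert_of_notMem, Set.ncard_singleton]
    · rw [Set.mem_singleton_iff]; decide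
    · simp only [Set.mem_insert_iff, Set.mem_singleton_iff]; decide
    · simp only [Set.mem_insert_iff, Set.mem_singleton_iff]; decide
  have hi2 : (img b idf Hc).ncard ≤ 4 := by
    rw [← h4]
    exact Set.ncard_le_ncard hsub (Set.toFinite _)
  have hi2' : Nat.card (img b idf Hc) ≤ 4 := hi2
  have c5 : Nat.card P ≤ Nat.card N := Nat.le_of_dvd Nat.card_pos (Subgroup.card_dvd_of_le inf_le_left)
  have p1 : 0 < Nat.card (N ⊓ S.K : Subgroup G) := Nat.card_pos
  have p2 : 0 < Nat.card (H ⊓ S.K : Subgroup G) := Nat.card_pos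
  have p3 : 0 < Nat.card P := Nat.card_pos
  have hfin : (img b idf Hc).ncard = 4 ∧ 4 * Nat.card (N ⊓ S.K : Subgroup G) ≤ Nat.card (H ⊓ S.K : Subgroup G) := by
    change Nat.card (img b idf Hc) = 4 ∧ _
    set i := Nat.card (img b idf Hc)
    set j := Nat.card (img b idf P)
    set l := Nat.card (img b fD H0)
    set n1 := Nat.card (N ⊓ S.K : Subgroup G)
    set h1 := Nat.card (H ⊓ S.K : Subgroup G)
    set p := Nat.card P
    set n := Nat.card N
    set hc := Nat.card Hc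
    set h0 := Nat.card H0
    set hh := Nat.card H
    -- 32 n1 j = 32 p ≤ 32 n ≤ hh ≤ 2 h0 = 2 hc l ≤ 2 h1 i j
    have q0 : 0 < j := by
      by_contra h
      have : j = 0 := by omega
      rw [this, mul_zero] at s2
      omega
    have q1 : 32 * n1 * j ≤ 2 * (h1 * i) * j := by
      calc 32 * n1 * j = 32 * p := by rw [s2]; ring
        _ ≤ 32 * n := Nat.mul_le_mul_left _ c5
        _ ≤ hh := hbig
        _ ≤ 2 * h0 := c1
        _ = 2 * (h1 * i) * l := by rw [s1, s3]; ring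
        _ ≤ 2 * (h1 * i) * j := Nat.mul_le_mul_left _ hi1
    have q2 : 32 * n1 ≤ 2 * (h1 * i) := Nat.le_of_mul_le_mul_right q1 q0
    have q3 : 16 * n1 ≤ h1 * i := by omega
    constructor
    · by_contra hne
      have : i ≤ 3 := by omega
      have : h1 * i ≤ (4 * n1) * 3 := Nat.mul_le_mul hrank this
      omega
    · have : h1 * i ≤ h1 * 4 := Nat.mul_le_mul_left _ hi2'
      omega
  obtain ⟨hi4, h4n⟩ := hfin
  have himg : img b idf Hc = ({0, (1, 0, 0, 1), (0, 0, 1, 0), (1, 0, 1, 1)} : Set M4) :=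
    Set.eq_of_subset_of_ncard_le hsub (by rw [hi4, h4]) (Set.toFinite _)
  obtain ⟨X, hX, hXm⟩ : ∃ x ∈ Hc, b.mu x = (1, 0, 0, 1) := by
    have : ((1, 0, 0, 1) : M4) ∈ img b idf Hc := by rw [himg]; simp
    exact this
  obtain ⟨Y, hY, hYm⟩ : ∃ x ∈ Hc, b.mu x = (1, 0, 1, 1) := by
    have : ((1, 0, 1, 1) : M4) ∈ img b idf Hc := by rw [himg]; simp
    exact this
  have hXN : X ∈ S.N0 := hX.1.2
  have hYN : Y ∈ S.N0 := hY.1.2
  have ndX : S.Nd X := b.nd hXN (by rw [hXm]; decide)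
  have ndY : S.Nd Y := b.nd hYN (by rw [hYm]; decide)
  have hKV : ∀ k ∈ S.K, ∀ l ∈ S.K, k * l * k⁻¹ * l⁻¹ ∈ S.V := fun k hk l hl => ndX.KV hy.hG hk hl
  have hXYN : X * Y ∈ S.N0 := mul_mem hXN hYN
  have hmu : b.mu (X * Y) = (0, 0, 1, 0) := by
    rw [b.mu_mul hXN hYN, hXm, hYm]; decide
  have hsqN : (X * Y) ^ 2 ∈ N ⊓ S.K := ⟨hsq _ (mul_mem hX.1.1 hY.1.1), S.sqK hXYN⟩
  obtain ⟨k, hk, hk2⟩ := squares hy.cV hKV (H ⊓ S.K) (N ⊓ S.K) inf_le_right (inf_le_inf_right _ hNH)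
    (fun x hx => ⟨hsq x hx.1, pow_mem hx.2 2⟩) h4n _ hsqN
  refine finish b hy hKV (X * Y) k hk.2 hXYN ?_ ?_ (Or.inr ?_) hk2 ?_
  · rw [hmu]; decide
  · rw [hmu]; decide
  · rw [hmu]; decide
  · intro k hk; exact ndX.cent hy.hG ndY hk

end

/-- **MacWilliams**, counting form -/
theorem main {G : Type u} [Group G] [Finite G] (hG : IsPGroup 2 G)
    (hno : ∀ E : Subgroup G, E.Normal → (∀ a ∈ E, ∀ b ∈ E, a * b = b * a) → (∀ a ∈ E, a ^ 2 = 1) → Nat.card E ≤ 4)
    (H N : Subgroup G) (hNH : N ≤ H) (hsq : ∀ x ∈ H, x ^ 2 ∈ N)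
    (hcm : ∀ x ∈ H, ∀ y ∈ H, x * y * x⁻¹ * y⁻¹ ∈ N) (hbig : 32 * Nat.card N ≤ Nat.card H) : False := by
  obtain ⟨A, ⟨hAn, hab, hA4⟩, hmax⟩ := exists_maxA (fun B : Subgroup G => B.Normal ∧
    (∀ a ∈ B, ∀ b ∈ B, a * b = b * a) ∧ ∀ a ∈ B, a ^ 4 = 1) ⟨inferInstance, by
      intro a ha b hb
      rw [mem_bot] at ha hb
      rw [ha, hb], by
      intro a ha
      rw [mem_bot] at ha
      rw [ha, one_pow]⟩
  let V : Subgroup G :=
    { carrier := {x | x ∈ A ∧ x ^ 2 = 1}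
      one_mem' := ⟨one_mem _, one_pow 2⟩
      mul_mem' := by
        rintro x y ⟨hx, hx2⟩ ⟨hy, hy2⟩
        have : Commute x y := hab x hx y hy
        exact ⟨mul_mem hx hy, by rw [this.mul_pow, hx2, hy2, one_mul]⟩
      inv_mem' := by
        rintro x ⟨hx, hx2⟩
        exact ⟨inv_mem hx, by rw [inv_pow, hx2, inv_one]⟩ }
  have hVn : V.Normal := by
    constructor
    rintro x ⟨hx, hx2⟩ g
    exact ⟨hAn.conj_mem _ hx g, by rw [conj_pow, hx2]; group⟩
  let S : Set4 G :=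
    { A := A
      V := V
      K := centralizer (A : Set G)
      N0 := centralizer (V : Set G)
      An := hAn
      Vn := hVn
      Kn := inferInstance
      N0n := inferInstance
      ab := hab
      A4 := hA4
      memV := fun x => Iff.rfl
      memK := fun x => mem_centralizer_iff
      memN0 := fun x => mem_centralizer_iff
      alp := fun k hk hk4 => alperin hG A hab hA4 hmax k (fun a ha => (mem_centralizer_iff.1 hk a ha).symm) hk4 }
  by_cases hsm : Nat.card S.V = 4 ∧ Nat.card S.A = 16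
  · have hy : Hyp S := ⟨hG, hno, hsm.1, hsm.2⟩
    obtain ⟨b⟩ := ex_bas S hy
    have hrank : Nat.card (H ⊓ S.K : Subgroup G) ≤ 4 * Nat.card (N ⊓ S.K : Subgroup G) := by
      rw [← hsm.1]
      refine rankK S hG _ _ inf_le_right (inf_le_inf_right _ hNH) ?_ ?_
      · intro x hx; exact ⟨hsq x hx.1, pow_mem hx.2 2⟩
      · intro x hx y hy
        exact ⟨hcm x hx.1 y hy.1, S.K.mul_mem (S.K.mul_mem (S.K.mul_mem hx.2 hy.2) (S.K.inv_mem hx.2)) (S.K.inv_mem hy.2)⟩
    by_cases hH : H ≤ S.N0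
    · exact caseA b hy H N hNH hsq hcm hbig hrank hH
    · exact caseB b hy H N hNH hsq hcm hbig hrank hH
  · exact small S hG hno hsm H N hNH hsq hcm hbig

end Cfsg.Agent.Lib.H81Mac6
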