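import Mathlib
import Cfsg.Agent.Lib.H81Mac6
import Cfsg.Agent.Lib.SectRank

/-!
Harada's lemma on a centralizer with Sylow 2-subgroup dihedral/quasi-dihedral times four-group (helper81).
-/

set_option autoImplicit false

namespace Cfsg.Agent.Lib.H81Har

open Subgroup Cfsg.Agent.Lib.SectRank
open scoped commutatorElement

universe u

section
variable {P : Type u} [Group P] [Finite P]

theorem class_count (H T : Subgroup P) (b : P) (C : Set P) (hC : ∀ h ∈ H, h * b * h⁻¹ ∈ C)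
    (hT : ∀ h ∈ H, h * b = b * h → h ∈ T) : Nat.card H ≤ Nat.card C * Nat.card T := by
  classical
  have hch : ∀ c : C, ∃ r : P, (∃ h ∈ H, h * b * h⁻¹ = c) → r ∈ H ∧ r * b * r⁻¹ = c := by
    intro c
    by_cases h : ∃ h ∈ H, h * b * h⁻¹ = c
    · obtain ⟨r, hr, hrc⟩ := h
      exact ⟨r, fun _ => ⟨hr, hrc⟩⟩
    · exact ⟨1, fun h' => absurd h' h⟩
  choose r hr using hch
  rw [← Nat.card_prod]
  refine Nat.card_le_card_of_injective (fun h : H =>
    ((⟨h * b * h⁻¹, hC h h.2⟩ : C), (⟨(r ⟨h * b * h⁻¹, hC h h.2⟩)⁻¹ * h, ?_⟩ : T))) ?_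
  · obtain ⟨h1, h2⟩ := hr ⟨h * b * h⁻¹, hC h h.2⟩ ⟨h, h.2, rfl⟩
    refine hT _ (H.mul_mem (H.inv_mem h1) h.2) ?_
    set s := r ⟨h * b * h⁻¹, hC h h.2⟩ with hs
    change s * b * s⁻¹ = (h : P) * b * (h : P)⁻¹ at h2
    calc s⁻¹ * h * b = s⁻¹ * (h * b * (h : P)⁻¹) * h := by group
      _ = s⁻¹ * (s * b * s⁻¹) * h := by rw [h2]
      _ = b * (s⁻¹ * h) := by group
  · intro h h' e
    obtain ⟨e1, e2⟩ := Prod.mk.inj e
    have e3 := congrArg (fun x : T => (x : P)) e2
    dsimp only at e3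
    rw [e1] at e3
    exact Subtype.ext (mul_left_cancel e3)

/-- a section which contains an element with small centralizer -/
theorem count_of_mem {H N T : Subgroup P} (hcm : ∀ x ∈ H, ∀ y ∈ H, x * y * x⁻¹ * y⁻¹ ∈ N) {b : P} (hb : b ∈ H)
    (hC : ∀ s, s * b = b * s → s ∈ T) : Nat.card H ≤ Nat.card N * Nat.card T := by
  have h1 := class_count H T b {x | x * b⁻¹ ∈ N} (fun h hh => hcm h hh b hb) (fun h _ => hC h)
  have h2 : Nat.card {x | x * b⁻¹ ∈ N} ≤ Nat.card N :=
    Nat.card_le_card_of_injective (fun x : {x | x * b⁻¹ ∈ N} => (⟨x * b⁻¹, x.2⟩ : N)) (by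
      intro x y h
      have := congrArg (fun z : N => (z : P)) h
      exact Subtype.ext (mul_right_cancel this))
  exact h1.trans (Nat.mul_le_mul_right _ h2)

theorem exists_mem {B H Y : Subgroup P} (hBY : B ≤ Y) (hHY : H ≤ Y) (hB : Nat.card B = 4)
    (hH : Nat.card Y < 4 * Nat.card H) : ∃ b ∈ B, b ∈ H ∧ b ≠ 1 := by
  by_contra hcon
  push Not at hcon
  have h1 : Nat.card (B × H) ≤ Nat.card Y := by
    refine Nat.card_le_card_of_injective (fun x : B × H =>
      (⟨(x.1 : P) * x.2, mul_mem (hBY x.1.2) (hHY x.2.2)⟩ : Y)) ?_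
    rintro ⟨b, h⟩ ⟨b', h'⟩ e
    have e1 : (b : P) * h = b' * h' := congrArg (fun z : Y => (z : P)) e
    have e2 : (b' : P)⁻¹ * b = h' * (h : P)⁻¹ := by
      rw [eq_mul_inv_iff_mul_eq, mul_assoc, e1]; group
    have e3 : (b' : P)⁻¹ * b = 1 := by
      refine hcon _ (mul_mem (inv_mem b'.2) b.2) ?_
      rw [e2]; exact mul_mem h'.2 (inv_mem h.2)
    have e4 : (b' : P) = b := by rwa [inv_mul_eq_one] at e3
    rw [e3] at e2
    have e5 : (h' : P) = h := by rw [eq_comm, mul_inv_eq_one] at e2; exact e2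
    exact Prod.ext (Subtype.ext e4.symm) (Subtype.ext e5.symm)
  rw [Nat.card_prod, hB] at h1
  omega

theorem card_half' (H N0 : Subgroup P) (h : ∀ g ∈ H, ∀ k ∈ H, g ∉ N0 → k ∉ N0 → g * k⁻¹ ∈ N0) :
    Nat.card H ≤ 2 * Nat.card (H ⊓ N0 : Subgroup P) := by
  classical
  by_cases hH : H ≤ N0
  · rw [inf_eq_left.2 hH]; omega
  obtain ⟨g, hgH, hg⟩ := SetLike.not_le_iff_exists.1 hH
  have h1 : Nat.card H ≤ Nat.card ((H ⊓ N0 : Subgroup P) × Bool) := by
    refine Nat.card_le_card_of_injective (fun x : H =>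
      if hx : (x : P) ∈ N0 then ((⟨x, x.2, hx⟩ : (H ⊓ N0 : Subgroup P)), true)
      else ((⟨x * g⁻¹, H.mul_mem x.2 (H.inv_mem hgH), h _ x.2 _ hgH hx hg⟩ : (H ⊓ N0 : Subgroup P)), false)) ?_
    intro x y hxy
    dsimp only at hxy
    by_cases hx : (x : P) ∈ N0 <;> by_cases hy : (y : P) ∈ N0
    · rw [dif_pos hx, dif_pos hy] at hxy
      have := congrArg (fun w : (H ⊓ N0 : Subgroup P) × Bool => (w.1 : P)) hxy
      exact Subtype.ext this
    · rw [dif_pos hx, dif_neg hy] at hxy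
      have := congrArg Prod.snd hxy
      simp at this
    · rw [dif_neg hx, dif_pos hy] at hxy
      have := congrArg Prod.snd hxy
      simp at this
    · rw [dif_neg hx, dif_neg hy] at hxy
      have := congrArg (fun w : (H ⊓ N0 : Subgroup P) × Bool => (w.1 : P)) hxy
      exact Subtype.ext (mul_right_cancel this)
  rw [Nat.card_prod, show Nat.card Bool = 2 by simp] at h1
  omega

/-! ### conjugates -/

def cj (g : P) (T : Subgroup P) : Subgroup P := T.map (MulAut.conj g).toMonoidHom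

theorem mem_cj (g : P) (T : Subgroup P) (x : P) : x ∈ cj g T ↔ g⁻¹ * x * g ∈ T := by
  unfold cj
  rw [mem_map]
  constructor
  · rintro ⟨y, hy, rfl⟩
    have : g⁻¹ * ((MulAut.conj g).toMonoidHom y) * g = y := by
      change g⁻¹ * (g * y * g⁻¹) * g = y
      group
    rw [this]; exact hy
  · intro h
    refine ⟨_, h, ?_⟩
    change g * (g⁻¹ * x * g) * g⁻¹ = x
    group

theorem card_cj (g : P) (T : Subgroup P) : Nat.card (cj g T) = Nat.card T :=
  Subgroup.card_map_of_injective (MulAut.conj g).injective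

/-- the situation of an elementary abelian subgroup of order 16 -/
structure E (T B : Subgroup P) : Prop where
  hBT : B ≤ T
  ab : ∀ a ∈ T, ∀ b ∈ T, a * b = b * a
  sq : ∀ a ∈ T, a ^ 2 = 1
  cT : Nat.card T = 16
  cB : Nat.card B = 4
  hC : ∀ b ∈ B, b ≠ 1 → ∀ s, s * b = b * s → s ∈ T

theorem E.cjj {T B : Subgroup P} (h : E T B) (g : P) : E (cj g T) (cj g B) where
  hBT := fun x hx => (mem_cj g T x).2 (h.hBT ((mem_cj g B x).1 hx))
  ab := fun a ha b hb => by
    have := h.ab _ ((mem_cj g T a).1 ha) _ ((mem_cj g T b).1 hb)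
    have e : g⁻¹ * (a * b) * g = g⁻¹ * (b * a) * g := by
      calc g⁻¹ * (a * b) * g = (g⁻¹ * a * g) * (g⁻¹ * b * g) := by group
        _ = (g⁻¹ * b * g) * (g⁻¹ * a * g) := this
        _ = _ := by group
    exact mul_left_cancel (mul_right_cancel e)
  sq := fun a ha => by
    have := h.sq _ ((mem_cj g T a).1 ha)
    have e : (g⁻¹ * a * g) ^ 2 = g⁻¹ * a ^ 2 * g := by rw [pow_two, pow_two]; group
    rw [e] at this
    have e2 : a ^ 2 = g * (g⁻¹ * a ^ 2 * g) * g⁻¹ := by group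
    rw [e2, this]; group
  cT := by rw [card_cj, h.cT]
  cB := by rw [card_cj, h.cB]
  hC := fun b hb hb1 s hs => by
    rw [mem_cj]
    refine h.hC _ ((mem_cj g B b).1 hb) (fun h1 => hb1 ?_) _ ?_
    · have e2 : b = g * (g⁻¹ * b * g) * g⁻¹ := by group
      rw [e2, h1]; group
    · calc (g⁻¹ * s * g) * (g⁻¹ * b * g) = g⁻¹ * (s * b) * g := by group
        _ = g⁻¹ * (b * s) * g := by rw [hs]
        _ = _ := by group

/-- an abelian subgroup meeting `T` in at least 8 elements lies in `T` -/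
theorem E.le_of {T B A : Subgroup P} (h : E T B) (hA : ∀ a ∈ A, ∀ b ∈ A, a * b = b * a)
    (h8 : 16 < 4 * Nat.card (A ⊓ T : Subgroup P)) : A ≤ T := by
  obtain ⟨b, hb, hbA, hb1⟩ := exists_mem h.hBT (inf_le_right : A ⊓ T ≤ T) h.cB (by rw [h.cT]; exact h8)
  exact fun a ha => h.hC b hb hb1 a (hA a ha b hbA.1)

theorem E.normal_card (hP : IsPGroup 2 P) {T B : Subgroup P} (h : E T B) [hT : T.Normal] : Nat.card P ≤ 64 := by
  have : Fact (Nat.Prime 2) := ⟨Nat.prime_two⟩
  have : Group.IsNilpotent P := hP.isNilpotent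
  have hT1 : T ≠ ⊥ := by
    intro hb
    have := h.cT
    rw [hb] at this
    simp at this
  have hlt := Cfsg.Agent.Lib.H81Mac1.commutator_sup_lt T ⊥ (bot_lt_iff_ne_bot.2 hT1)
  rw [sup_bot_eq] at hlt
  set C := ⁅T, (⊤ : Subgroup P)⁆ with hC
  obtain ⟨n, hn⟩ := IsPGroup.iff_card.1 ((hP.to_subgroup T).to_subgroup (C.subgroupOf T))
  have hcC : Nat.card (C.subgroupOf T) = Nat.card C := Nat.card_congr (subgroupOfEquivOfLe hlt.le).toEquiv
  have hn3 : n ≤ 3 := by
    by_contra hcon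
    have h1 : 2 ^ 4 ≤ 2 ^ n := Nat.pow_le_pow_right (by norm_num) (by omega)
    have h2 : Nat.card T ≤ Nat.card C := by rw [h.cT, ← hcC, hn]; omega
    exact hlt.ne (Subgroup.eq_of_le_of_card_ge hlt.le h2)
  obtain ⟨K, hK, hCK⟩ := Sylow.exists_subgroup_card_pow_prime_le 2 (n := n) (m := 3)
    (by rw [h.cT]; decide) (C.subgroupOf T) hn hn3
  set X := K.map T.subtype with hX
  have hXT : X ≤ T := by
    rintro _ ⟨x, _, rfl⟩; exact x.2
  have cX : Nat.card X = 8 := by
    rw [hX, Subgroup.card_map_of_injective T.subtype_injective, hK]; norm_num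
  have hCX : C ≤ X := by
    intro x hx
    exact ⟨⟨x, hlt.le hx⟩, hCK (by rw [mem_subgroupOf]; exact hx), rfl⟩
  obtain ⟨b, hb, hbX, hb1⟩ := exists_mem h.hBT hXT h.cB (by rw [h.cT, cX]; norm_num)
  have h1 := class_count ⊤ T b {x | x ∈ X ∧ x ≠ 1} ?_ (fun s _ => h.hC b hb hb1 s)
  · have h2 : Nat.card {x | x ∈ X ∧ x ≠ 1} ≤ 7 := by
      have h3 : {x | x ∈ X ∧ x ≠ 1} = (X : Set P) \ {1} := by ext x; simp
      rw [h3]
      change ((X : Set P) \ {1}).ncard ≤ 7
      rw [Set.ncard_diff_singleton_of_mem (one_mem X)]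
      have : (X : Set P).ncard = 8 := cX
      omega
    have h3 : Nat.card (⊤ : Subgroup P) = Nat.card P := Subgroup.card_top
    rw [h3, h.cT] at h1
    have h4 : Nat.card P ≤ 112 := by
      calc Nat.card P ≤ _ := h1
        _ ≤ 7 * 16 := Nat.mul_le_mul_right _ h2
    obtain ⟨e, he⟩ := IsPGroup.iff_card.1 hP
    rw [he] at h4 ⊢
    have : e ≤ 6 := by
      by_contra hcon
      have h1 : 2 ^ 7 ≤ 2 ^ e := Nat.pow_le_pow_right (by norm_num) (by omega)
      omega
    calc 2 ^ e ≤ 2 ^ 6 := Nat.pow_le_pow_right (by norm_num) this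
      _ = 64 := by norm_num
  · intro g _
    constructor
    · have h2 := commutator_mem_commutator (h.hBT hb) (mem_top g)
      have h3 : ⁅b, g⁆⁻¹ ∈ X := X.inv_mem (hCX h2)
      rw [commutatorElement_inv, commutatorElement_def] at h3
      have := X.mul_mem h3 hbX
      have e : g * b * g⁻¹ * b⁻¹ * b = g * b * g⁻¹ := by group
      rwa [e] at this
    · intro h2
      exact hb1 (conj_eq_one_iff.1 h2)

theorem E.subgroupOf {T B N : Subgroup P} (h : E T B) (hT : T ≤ N) : E (T.subgroupOf N) (B.subgroupOf N) where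
  hBT := fun x hx => h.hBT hx
  ab := fun a ha b hb => Subtype.ext (h.ab a ha b hb)
  sq := fun a ha => Subtype.ext (h.sq a ha)
  cT := by rw [← h.cT]; exact Nat.card_congr (subgroupOfEquivOfLe hT).toEquiv
  cB := by rw [← h.cB]; exact Nat.card_congr (subgroupOfEquivOfLe (h.hBT.trans hT)).toEquiv
  hC := fun b hb hb1 s hs => h.hC b hb (fun h1 => hb1 (Subtype.ext h1)) s (congrArg (fun z : N => (z : P)) hs)

/-- **the E16 case** -/
theorem E.rank (hP : IsPGroup 2 P) {T B : Subgroup P} (h : E T B) (H N : Subgroup P)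
    (hsq : ∀ x ∈ H, x ^ 2 ∈ N)
    (hcm : ∀ x ∈ H, ∀ y ∈ H, x * y * x⁻¹ * y⁻¹ ∈ N) (hbig : 32 * Nat.card N ≤ Nat.card H) : False := by
  have : Fact (Nat.Prime 2) := ⟨Nat.prime_two⟩
  have : Group.IsNilpotent P := hP.isNilpotent
  have hNpos : 0 < Nat.card N := Nat.card_pos
  have key1 : Nat.card P < 4 * Nat.card H → False := by
    intro hlt
    obtain ⟨b, hb, hbH, hb1⟩ := exists_mem (Y := ⊤) (le_top : B ≤ ⊤) (le_top : H ≤ ⊤) h.cB
      (by rw [Subgroup.card_top]; exact hlt)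
    have := count_of_mem hcm hbH (h.hC b hb hb1)
    rw [h.cT] at this
    omega
  have hcH : 32 ≤ Nat.card H := by omega
  have hnc : NormalizerCondition P := Group.normalizerCondition_of_isNilpotent
  set N1 := normalizer (T : Set P) with hN1
  have hTN : T ≤ N1 := le_normalizer
  have cN1 : Nat.card N1 ≤ 64 := by
    have hn : (T.subgroupOf N1).Normal := by rw [hN1]; infer_instance
    exact (h.subgroupOf hTN).normal_card (hP.to_subgroup N1)
  by_cases hN1t : N1 = ⊤
  · have : Nat.card P ≤ 64 := by rw [← Subgroup.card_top (G := P), ← hN1t]; exact cN1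
    exact key1 (by omega)
  set M1 := normalizer (N1 : Set P) with hM1
  have hNM : N1 < M1 := hnc N1 (lt_top_iff_ne_top.2 hN1t)
  obtain ⟨g, hgM, hgN⟩ := SetLike.exists_of_lt hNM
  set Tg := cj g T with hTg
  set Bg := cj g B with hBg
  have hg : E Tg Bg := h.cjj g
  -- characterization of the normalizers by one inclusion
  have normT : ∀ m, cj m T = T → m ∈ N1 := by
    intro m hm
    refine mem_normalizer_fintype fun n hn => ?_
    have : m * n * m⁻¹ ∈ cj m T := (mem_cj _ _ _).2 (by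
      have : m⁻¹ * (m * n * m⁻¹) * m = n := by group
      rw [this]; exact hn)
    rwa [hm] at this
  have hle : ∀ m ∈ M1, cj m T ≤ N1 := by
    intro m hm x hx
    have h1 := hTN ((mem_cj m T x).1 hx)
    have h2 := (mem_normalizer_iff.1 hm _).1 h1
    have e : m * (m⁻¹ * x * m) * m⁻¹ = x := by group
    rwa [e] at h2
  have hne : Tg ≠ T := fun h1 => hgN (normT g h1)
  -- the product
  have hBTg : ∀ b ∈ B, b ∈ Tg → b = 1 := by
    intro b hb hbT
    by_contra hb1
    apply hne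
    refine Subgroup.eq_of_le_of_card_ge (fun x hx => h.hC b hb hb1 x (hg.ab x hx b hbT)) ?_
    rw [h.cT, hg.cT]
  have hprod : ∀ n ∈ N1, ∃ b ∈ B, ∃ s ∈ Tg, n = b * s := by
    let f : B × Tg → N1 := fun x => ⟨(x.1 : P) * x.2, mul_mem (hTN (h.hBT x.1.2)) (hle g hgM x.2.2)⟩
    have hf : Function.Injective f := by
      rintro ⟨b, s⟩ ⟨b', s'⟩ e
      have e1 : (b : P) * s = b' * s' := congrArg (fun z : N1 => (z : P)) e
      have e2 : (b' : P)⁻¹ * b = s' * (s : P)⁻¹ := by
        rw [eq_mul_inv_iff_mul_eq, mul_assoc, e1]; group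
      have e3 : (b' : P)⁻¹ * b = 1 := by
        refine hBTg _ (mul_mem (inv_mem b'.2) b.2) ?_
        rw [e2]; exact mul_mem s'.2 (inv_mem s.2)
      have e4 : (b' : P) = b := by rwa [inv_mul_eq_one] at e3
      rw [e3] at e2
      have e5 : (s' : P) = s := by rw [eq_comm, mul_inv_eq_one] at e2; exact e2
      exact Prod.ext (Subtype.ext e4.symm) (Subtype.ext e5.symm)
    have hb : Function.Bijective f := by
      refine (Nat.bijective_iff_injective_and_card f).2 ⟨hf, ?_⟩
      have h1 : Nat.card (B × Tg) ≤ Nat.card N1 := Nat.card_le_card_of_injective f hf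
      have h2 : Nat.card (B × Tg) = 64 := by rw [Nat.card_prod, h.cB, hg.cT]
      omega
    intro n hn
    obtain ⟨⟨b, s⟩, hbs⟩ := hb.2 ⟨n, hn⟩
    exact ⟨b, b.2, s, s.2, (congrArg (fun z : N1 => (z : P)) hbs).symm⟩
  have hinv : ∀ n ∈ N1, n ^ 2 = 1 → n ∈ T ∨ n ∈ Tg := by
    intro n hn hn2
    obtain ⟨b, hb, s, hs, rfl⟩ := hprod n hn
    by_cases hb1 : b = 1
    · right; rw [hb1, one_mul]; exact hs
    · left
      have hb2 := h.sq b (h.hBT hb)
      have hs2 := hg.sq s hs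
      have hc : s * b = b * s := by
        rw [pow_two] at hb2 hs2 hn2
        calc s * b = b * b * (s * b) * (s * s) := by rw [hb2, hs2]; group
          _ = b * (b * s * (b * s)) * s := by group
          _ = b * s := by rw [hn2]; group
      exact mul_mem (h.hBT hb) (h.hC b hb hb1 s hc)
  -- elementary abelian subgroups
  have hel : ∀ A : Subgroup P, (∀ a ∈ A, ∀ b ∈ A, a * b = b * a) → (∀ a ∈ A, a ^ 2 = 1) →
      8 ≤ Nat.card (A ⊓ N1 : Subgroup P) → A ≤ T ∨ A ≤ Tg := by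
    intro A hA hA2 h8
    have h1 : A ⊓ N1 ≤ T ∨ A ⊓ N1 ≤ Tg := by
      by_contra hcon
      push Not at hcon
      obtain ⟨⟨a, haA, haT⟩, ⟨c, hcA, hcT⟩⟩ := And.intro (SetLike.not_le_iff_exists.1 hcon.1) (SetLike.not_le_iff_exists.1 hcon.2)
      have ha := (hinv a haA.2 (hA2 a haA.1)).resolve_left haT
      have hc := (hinv c hcA.2 (hA2 c hcA.1)).resolve_right hcT
      rcases hinv (a * c) (mul_mem haA.2 hcA.2) (hA2 _ (mul_mem haA.1 hcA.1)) with h2 | h2
      · exact haT (by simpa using mul_mem h2 (inv_mem hc))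
      · exact hcT (by simpa using mul_mem (inv_mem ha) h2)
    rcases h1 with h1 | h1
    · left
      apply h.le_of hA
      have : A ⊓ N1 ≤ A ⊓ T := le_inf inf_le_left h1
      have := Nat.le_of_dvd Nat.card_pos (Subgroup.card_dvd_of_le this)
      omega
    · right
      apply hg.le_of hA
      have : A ⊓ N1 ≤ A ⊓ Tg := le_inf inf_le_left h1
      have := Nat.le_of_dvd Nat.card_pos (Subgroup.card_dvd_of_le this)
      omega
  have hel16 : ∀ T' B' : Subgroup P, E T' B' → 8 ≤ Nat.card (T' ⊓ N1 : Subgroup P) → T' = T ∨ T' = Tg := by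
    intro T' B' h' h8
    rcases hel T' h'.ab h'.sq h8 with h1 | h1
    · left; exact Subgroup.eq_of_le_of_card_ge h1 (by rw [h.cT, h'.cT])
    · right; exact Subgroup.eq_of_le_of_card_ge h1 (by rw [hg.cT, h'.cT])
  have hcjM : ∀ m ∈ M1, cj m T = T ∨ cj m T = Tg := by
    intro m hm
    refine hel16 _ _ (h.cjj m) ?_
    rw [inf_eq_left.2 (hle m hm), (h.cjj m).cT]; norm_num
  have hcjcj : ∀ a b : P, cj a (cj b T) = cj (a * b) T := by
    intro a b
    ext x
    rw [mem_cj, mem_cj, mem_cj]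
    have e : b⁻¹ * (a⁻¹ * x * a) * b = (a * b)⁻¹ * x * (a * b) := by group
    rw [e]
  have hcj1 : cj (1 : P) T = T := by
    ext x; rw [mem_cj]; simp
  have hM2 : ∀ a ∈ M1, ∀ k ∈ M1, a ∉ N1 → k ∉ N1 → a * k⁻¹ ∈ N1 := by
    intro a ha k hk haN hkN
    have key : ∀ m ∈ M1, m ∉ N1 → cj m⁻¹ T = Tg := by
      intro m hm hmN
      refine (hcjM _ (inv_mem hm)).resolve_left fun h1 => hmN ?_
      have := normT _ h1
      simpa using inv_mem this
    have h1 := key a ha haN
    have h2 := key k hk hkN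
    have h3 : cj (k * a⁻¹) T = T := by
      rw [← hcjcj, h1, ← h2, hcjcj, mul_inv_cancel, hcj1]
    have := inv_mem (normT _ h3)
    simpa using this
  have hMt : M1 = ⊤ := by
    by_contra hMt
    have hMM := hnc M1 (lt_top_iff_ne_top.2 hMt)
    obtain ⟨k, hk, hkM⟩ := SetLike.exists_of_lt hMM
    apply hkM
    have hcjle : ∀ X : Subgroup P, X ≤ M1 → cj k X ≤ M1 := by
      intro X hX x hx
      have h2 := (mem_normalizer_iff.1 hk _).1 (hX ((mem_cj k X x).1 hx))
      have e : k * (k⁻¹ * x * k) * k⁻¹ = x := by group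
      rwa [e] at h2
    have h8 : ∀ X : Subgroup P, X ≤ M1 → Nat.card X = 16 → 8 ≤ Nat.card (X ⊓ N1 : Subgroup P) := by
      intro X hX hX16
      have := card_half' X N1 (fun a ha b hb => hM2 a (hX ha) b (hX hb))
      omega
    have c1 : cj k T ≤ N1 := by
      have h1 := hcjle T (hTN.trans hNM.le)
      rcases hel16 _ _ (h.cjj k) (h8 _ h1 (h.cjj k).cT) with h2 | h2
      · rw [h2]; exact hTN
      · rw [h2]; exact hle g hgM
    have c2 : cj k Tg ≤ N1 := by
      have h1 := hcjle Tg ((hle g hgM).trans hNM.le)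
      rcases hel16 _ _ (hg.cjj k) (h8 _ h1 (hg.cjj k).cT) with h2 | h2
      · rw [h2]; exact hTN
      · rw [h2]; exact hle g hgM
    refine mem_normalizer_fintype fun n hn => ?_
    obtain ⟨b, hb, s, hs, rfl⟩ := hprod n hn
    have e : k * (b * s) * k⁻¹ = (k * b * k⁻¹) * (k * s * k⁻¹) := by group
    rw [e]
    refine mul_mem (c1 ((mem_cj _ _ _).2 ?_)) (c2 ((mem_cj _ _ _).2 ?_))
    · have : k⁻¹ * (k * b * k⁻¹) * k = b := by group
      rw [this]; exact h.hBT hb
    · have : k⁻¹ * (k * s * k⁻¹) * k = s := by group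
      rw [this]; exact hs
  have hM2' : ∀ a k : P, a ∉ N1 → k ∉ N1 → a * k⁻¹ ∈ N1 := by
    intro a k
    exact hM2 a (by rw [hMt]; exact mem_top _) k (by rw [hMt]; exact mem_top _)
  have cP : Nat.card P ≤ 128 := by
    have := card_half' ⊤ N1 (fun a _ b _ => hM2' a b)
    rw [top_inf_eq, Subgroup.card_top] at this
    omega
  by_cases hN : Nat.card N = 1
  · have hNb : N = ⊥ := Subgroup.card_eq_one.1 hN
    rw [hNb] at hsq hcm
    have hab : ∀ a ∈ H, ∀ b ∈ H, a * b = b * a := by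
      intro a ha b hb
      have := hcm a ha b hb
      rw [mem_bot, mul_inv_eq_one, mul_inv_eq_iff_eq_mul] at this
      exact this
    have h16 := card_half' H N1 (fun a _ b _ => hM2' a b)
    rcases hel H hab (fun a ha => by simpa using hsq a ha) (by omega) with h1 | h1
    · have := Nat.le_of_dvd Nat.card_pos (Subgroup.card_dvd_of_le h1)
      rw [h.cT] at this; omega
    · have := Nat.le_of_dvd Nat.card_pos (Subgroup.card_dvd_of_le h1)
      rw [hg.cT] at this; omega
  · exact key1 (by omega)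

end

end Cfsg.Agent.Lib.H81Har
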