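import Mathlib
import Cfsg.Agent.Lib.H81Har

/-!
Harada's lemma, part 2 (helper81).
-/

set_option autoImplicit false

namespace Cfsg.Agent.Lib.H81Har2

open Subgroup Cfsg.Agent.Lib.SectRank Cfsg.Agent.Lib.H81Har
open scoped commutatorElement

universe u

section
variable {P : Type u} [Group P] [Finite P]

theorem odd_pow (hP : IsPGroup 2 P) {w : P} {j : ℤ} (hj : Odd j) (h : w ^ j = 1) : w = 1 := by
  obtain ⟨n, hn⟩ := hP w
  have h1 : (orderOf w : ℤ) ∣ j := orderOf_dvd_iff_zpow_eq_one.2 h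
  have h2 : orderOf w ∣ 2 ^ n := orderOf_dvd_of_pow_eq_one hn
  obtain ⟨k, hk, hk2⟩ := (Nat.dvd_prime_pow Nat.prime_two).1 h2
  rcases Nat.eq_zero_or_pos k with h0 | h0
  · rw [h0, pow_zero] at hk2
    exact orderOf_eq_one_iff.1 hk2
  · exfalso
    have h3 : (2 : ℤ) ∣ j := by
      refine dvd_trans ?_ h1
      rw [hk2]
      exact_mod_cast dvd_pow_self 2 (by omega)
    rw [Int.odd_iff] at hj
    omega

theorem card_sq_zpowers (c : P) : Nat.card {d : zpowers c // d ^ 2 = 1} ≤ 2 := by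
  classical
  have : Fintype (zpowers c) := Fintype.ofFinite _
  have h := IsCyclic.card_pow_eq_one_le (α := zpowers c) (n := 2) (by norm_num)
  rw [Nat.card_eq_fintype_card, Fintype.card_subtype]
  exact h

structure F (T D B : Subgroup P) (c y : P) (j : ℤ) : Prop where
  hDT : D ≤ T
  hBT : B ≤ T
  sup : D ⊔ B = T
  cen : ∀ b ∈ B, ∀ t ∈ T, b * t = t * b
  sqB : ∀ b ∈ B, b ^ 2 = 1
  cB : Nat.card B = 4
  hC : ∀ b ∈ B, b ≠ 1 → ∀ s, s * b = b * s → s ∈ T
  hc : c ∈ D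
  hy : y ∈ D
  cD : Nat.card D = 2 * orderOf c
  jodd : Odd j
  rel : y * c * y⁻¹ = c ^ (2 * j + 1)

variable {T D B : Subgroup P} {c y : P} {j : ℤ}

theorem F.dec (h : F T D B c y j) {t : P} (ht : t ∈ T) : ∃ d ∈ D, ∃ b ∈ B, t = d * b := by
  have hn : B ≤ normalizer (D : Set P) :=
    le_normalizer_of_commute fun a ha b hb => (h.cen b hb a (h.hDT ha)).symm
  rw [← h.sup] at ht
  obtain ⟨d, hd, b, hb, e⟩ := (Cfsg.Agent.Lib.SubgroupTools.mem_sup_of_le_normalizer hn).1 ht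
  exact ⟨d, hd, b, hb, e.symm⟩

theorem F.zD (h : F T D B c y j) : zpowers c ≤ D := by
  rw [zpowers_le]; exact h.hc

theorem F.idx (h : F T D B c y j) : ((zpowers c).subgroupOf D).index = 2 := by
  have h1 := Cfsg.Agent.Lib.H81Mac4.card_mul_rel h.zD
  rw [h.cD, Nat.card_zpowers, mul_comm] at h1
  have : 0 < orderOf c := orderOf_pos c
  exact Nat.eq_of_mul_eq_mul_right this h1

theorem F.mulz (h : F T D B c y j) {a b : P} (ha : a ∈ D) (hb : b ∈ D) (ha' : a ∉ zpowers c)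
    (hb' : b ∉ zpowers c) : a * b ∈ zpowers c := by
  have h6 := Subgroup.mul_mem_iff_of_index_two h.idx (a := ⟨a, ha⟩) (b := ⟨b, hb⟩)
  have h7 : (⟨a, ha⟩ * ⟨b, hb⟩ : D) ∈ (zpowers c).subgroupOf D := by
    rw [h6]
    simp only [mem_subgroupOf]
    exact ⟨fun h => absurd h ha', fun h => absurd h hb'⟩
  exact h7

theorem F.ync (h : F T D B c y j) (hP : IsPGroup 2 P) (hc2 : c ^ 2 ≠ 1) : y * c ≠ c * y := by
  intro h1
  have h2 := h.rel
  have h3 : y * c * y⁻¹ = c := by rw [h1]; group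
  rw [h3] at h2
  have h4 : (c ^ 2) ^ j = 1 := by
    rw [← zpow_natCast, ← zpow_mul]
    have : c ^ (2 * j + 1) = c ^ (2 * j) * c := by rw [zpow_add, zpow_one]
    rw [this] at h2
    have := mul_eq_right.1 h2.symm
    exact this
  exact hc2 (odd_pow hP h.jodd h4)

/-- the center of `D` -/
theorem F.cenD (h : F T D B c y j) (hP : IsPGroup 2 P) (hc2 : c ^ 2 ≠ 1) {z : P} (hz : z ∈ D)
    (h1 : z * c = c * z) (h2 : z * y = y * z) : z ∈ zpowers c ∧ z ^ 2 = 1 := by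
  have hync := h.ync hP hc2
  have hyz : y ∉ zpowers c := by
    rintro ⟨i, hi⟩
    apply hync
    rw [← hi]
    exact ((Commute.refl c).zpow_left i).eq
  have hzz : z ∈ zpowers c := by
    by_contra hcon
    have h3 := h.mulz hz (inv_mem h.hy) hcon (fun h' => hyz (by simpa using inv_mem h'))
    obtain ⟨i, hi⟩ := h3
    have hi' : c ^ i = z * y⁻¹ := hi
    apply hync
    have c1 : Commute (z * y⁻¹) c := by rw [← hi']; exact (Commute.refl c).zpow_left i
    have c2 : Commute z c := h1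
    have c3 : Commute (z⁻¹ * (z * y⁻¹)) c := c2.inv_left.mul_left c1
    have e : z⁻¹ * (z * y⁻¹) = y⁻¹ := by group
    rw [e] at c3
    have c4 := c3.inv_left
    rw [inv_inv] at c4
    exact c4.eq
  refine ⟨hzz, ?_⟩
  obtain ⟨i, hi⟩ := hzz
  have hi' : c ^ i = z := hi
  have e1 : y * z * y⁻¹ = z := by rw [← h2]; group
  have e2 : y * z * y⁻¹ = (c ^ (2 * j + 1)) ^ i := by rw [← hi', ← conj_zpow, h.rel]
  apply odd_pow hP h.jodd
  rw [e1, ← hi', ← zpow_mul] at e2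
  rw [← hi', ← zpow_natCast, ← zpow_mul, ← zpow_mul]
  have e3 : c ^ ((2 * j + 1) * i) = c ^ (i * (((2 : ℕ) : ℤ) * j)) * c ^ i := by
    rw [← zpow_add]; congr 1; push_cast; ring
  rw [e3] at e2
  exact mul_eq_right.1 e2.symm

/-- the elements `z b` -/
def Zc (B : Subgroup P) (c : P) : Set P := {t | ∃ d ∈ zpowers c, d ^ 2 = 1 ∧ ∃ b ∈ B, t = d * b}

theorem card_Zc (B : Subgroup P) (c : P) : Nat.card (Zc B c) ≤ 2 * Nat.card B := by
  have h1 : Nat.card (Zc B c) ≤ Nat.card ({d : zpowers c // d ^ 2 = 1} × B) := by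
    refine Nat.card_le_card_of_surjective (fun x : {d : zpowers c // d ^ 2 = 1} × B =>
      (⟨((x.1.1 : zpowers c) : P) * x.2, x.1.1, x.1.1.2, congrArg (fun z : zpowers c => (z : P)) x.1.2, x.2, x.2.2, rfl⟩ : Zc B c)) ?_
    rintro ⟨t, d, hd, hd2, b, hb, rfl⟩
    exact ⟨⟨⟨⟨d, hd⟩, Subtype.ext hd2⟩, ⟨b, hb⟩⟩, rfl⟩
  rw [Nat.card_prod] at h1
  exact h1.trans (Nat.mul_le_mul_right _ (card_sq_zpowers c))

/-- **Step 3** : `T` is everything if `c ^ 2 ≠ 1` -/
theorem F.top (hP : IsPGroup 2 P) (h : F T D B c y j) (hc2 : c ^ 2 ≠ 1) : T = ⊤ := by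
  by_contra hT
  have : Fact (Nat.Prime 2) := ⟨Nat.prime_two⟩
  have : Group.IsNilpotent P := hP.isNilpotent
  have hnc : NormalizerCondition P := Group.normalizerCondition_of_isNilpotent
  obtain ⟨u, huN, huT, hu2⟩ : ∃ u ∈ normalizer (T : Set P), u ∉ T ∧ u ^ 2 ∈ T := by
    obtain ⟨u, huN, huT⟩ := SetLike.exists_of_lt (hnc T (lt_top_iff_ne_top.2 hT))
    classical
    have hex : ∃ k, u ^ 2 ^ k ∈ T := by
      obtain ⟨k, hk⟩ := hP u
      exact ⟨k, by rw [hk]; exact one_mem _⟩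
    have hj0 : Nat.find hex ≠ 0 := by
      intro h0
      have := Nat.find_spec hex
      rw [h0] at this
      simp at this
      exact huT this
    obtain ⟨i, hi⟩ := Nat.exists_eq_succ_of_ne_zero hj0
    refine ⟨u ^ 2 ^ i, pow_mem huN _, Nat.find_min hex (by omega), ?_⟩
    have := Nat.find_spec hex
    rw [hi, Nat.succ_eq_add_one, pow_succ, pow_mul] at this
    exact this
  have hconj : ∀ t, t ∈ T → u * t * u⁻¹ ∈ T := fun t ht => (mem_normalizer_iff.1 huN t).1 ht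
  have hconj' : ∀ t, t ∈ T → u⁻¹ * t * u ∈ T := fun t ht => by
    rw [(mem_normalizer_iff.1 huN _)]
    have e : u * (u⁻¹ * t * u) * u⁻¹ = t := by group
    rw [e]; exact ht
  -- centrality of conjugates
  have hcu : ∀ b ∈ B, ∀ t ∈ T, (u * b * u⁻¹) * t = t * (u * b * u⁻¹) := by
    intro b hb t ht
    have := h.cen b hb _ (hconj' t ht)
    calc (u * b * u⁻¹) * t = u * (b * (u⁻¹ * t * u)) * u⁻¹ := by group
      _ = u * ((u⁻¹ * t * u) * b) * u⁻¹ := by rw [this]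
      _ = t * (u * b * u⁻¹) := by group
  have hfix : ∀ b ∈ B, u * (b * (u * b * u⁻¹)) = (b * (u * b * u⁻¹)) * u := by
    intro b hb
    have h1 := h.cen b hb _ hu2
    have h2 := h.cen b hb _ (hconj b (h.hBT hb))
    rw [h2]
    calc u * (u * b * u⁻¹ * b) = u ^ 2 * b * (u⁻¹ * b) := by rw [pow_two]; group
      _ = b * u ^ 2 * (u⁻¹ * b) := by rw [h1]
      _ = b * (u * b * u⁻¹) * u := by rw [pow_two]; group
      _ = _ := by rw [h2]
  have hcentr : ∀ b ∈ B, ∀ b' ∈ B, b * (u * b * u⁻¹) * b' ∈ Zc B c := by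
    intro b hb b' hb'
    set t := b * (u * b * u⁻¹) * b' with ht
    have htT : t ∈ T := T.mul_mem (T.mul_mem (h.hBT hb) (hconj b (h.hBT hb))) (h.hBT hb')
    have htc : ∀ s ∈ T, Commute t s := by
      intro s hs
      have c1 : Commute b s := h.cen b hb s hs
      have c2 : Commute (u * b * u⁻¹) s := hcu b hb s hs
      have c3 : Commute b' s := h.cen b' hb' s hs
      exact (c1.mul_left c2).mul_left c3
    obtain ⟨d, hd, b₁, hb₁, e⟩ := h.dec htT
    have hdc : ∀ s ∈ T, Commute d s := by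
      intro s hs
      have e1 : d = t * b₁⁻¹ := by rw [e]; group
      rw [e1]
      have c3 : Commute b₁ s := h.cen b₁ hb₁ s hs
      exact (htc s hs).mul_left c3.inv_left
    obtain ⟨h1, h2⟩ := h.cenD hP hc2 hd (hdc c (h.hDT h.hc)) (hdc y (h.hDT h.hy))
    exact ⟨d, h1, h2, b₁, hb₁, e⟩
  have h16 : Nat.card (B × B) ≤ Nat.card (Zc B c) := by
    refine Nat.card_le_card_of_injective (fun x : B × B =>
      (⟨(x.1 : P) * (u * x.1 * u⁻¹) * x.2, hcentr x.1 x.1.2 x.2 x.2.2⟩ : Zc B c)) ?_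
    rintro ⟨⟨b, hb⟩, ⟨b', hb'⟩⟩ ⟨⟨e, he⟩, ⟨e', he'⟩⟩ heq
    have h1 : b * (u * b * u⁻¹) * b' = e * (u * e * u⁻¹) * e' := congrArg (fun z : Zc B c => (z : P)) heq
    have hbi : ∀ b ∈ B, b⁻¹ = b := by
      intro b hb
      rw [inv_eq_iff_mul_eq_one, ← pow_two]; exact h.sqB b hb
    -- f = φ(e⁻¹ b)
    have hg : e⁻¹ * b ∈ B := B.mul_mem (B.inv_mem he) hb
    have h2 : (e⁻¹ * b) * (u * (e⁻¹ * b) * u⁻¹) = e' * b'⁻¹ := by
      have c1 := hcu e⁻¹ (B.inv_mem he) b (h.hBT hb)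
      have c2 := h.cen e⁻¹ (B.inv_mem he) b (h.hBT hb)
      calc (e⁻¹ * b) * (u * (e⁻¹ * b) * u⁻¹) = e⁻¹ * (b * (u * e⁻¹ * u⁻¹)) * (u * b * u⁻¹) := by group
        _ = e⁻¹ * ((u * e⁻¹ * u⁻¹) * b) * (u * b * u⁻¹) := by rw [c1]
        _ = (e⁻¹ * (u * e⁻¹ * u⁻¹)) * (b * (u * b * u⁻¹) * b') * b'⁻¹ := by group
        _ = (e⁻¹ * (u * e⁻¹ * u⁻¹)) * (e * (u * e * u⁻¹) * e') * b'⁻¹ := by rw [h1]
        _ = e⁻¹ * ((u * e⁻¹ * u⁻¹) * e) * (u * e * u⁻¹) * (e' * b'⁻¹) := by group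
        _ = e⁻¹ * (e * (u * e⁻¹ * u⁻¹)) * (u * e * u⁻¹) * (e' * b'⁻¹) := by
            rw [hcu e⁻¹ (B.inv_mem he) e (h.hBT he)]
        _ = e' * b'⁻¹ := by group
    have h3 : e' * b'⁻¹ = 1 := by
      by_contra hne
      have hm : e' * b'⁻¹ ∈ B := B.mul_mem he' (B.inv_mem hb')
      apply huT
      apply h.hC _ hm hne
      rw [← h2]
      exact hfix _ hg
    have h4 : e⁻¹ * b = 1 := by
      by_contra hne
      apply huT
      apply h.hC _ hg hne
      rw [h3] at h2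
      have h5 : u * (e⁻¹ * b) * u⁻¹ = (e⁻¹ * b) := by
        rw [mul_eq_one_iff_inv_eq] at h2
        rw [← h2, hbi _ hg]
      rwa [mul_inv_eq_iff_eq_mul] at h5
    have h5 : e = b := by rwa [inv_mul_eq_one] at h4
    have h6 : e' = b' := by rwa [mul_inv_eq_one] at h3
    exact Prod.ext (Subtype.ext h5.symm) (Subtype.ext h6.symm)
  rw [Nat.card_prod, h.cB] at h16
  have h8 := card_Zc B c
  rw [h.cB] at h8
  omega

/-- **Step 2** : the rank of `D × B` -/
theorem F.rank (hP : IsPGroup 2 P) (h : F T D B c y j) (hT : T = ⊤) (H N : Subgroup P) (hNH : N ≤ H)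
    (hsq : ∀ x ∈ H, x ^ 2 ∈ N)
    (hcm : ∀ x ∈ H, ∀ y ∈ H, x * y * x⁻¹ * y⁻¹ ∈ N) (hbig : 32 * Nat.card N ≤ Nat.card H) : False := by
  have hall : ∀ x, x ∈ T := fun x => by rw [hT]; exact mem_top _
  set A0 := zpowers c ⊔ B with hA0
  have hn : B ≤ normalizer ((zpowers c : Subgroup P) : Set P) :=
    le_normalizer_of_commute fun a ha b hb => (h.cen b hb a (hall a)).symm
  have hdec : ∀ x ∈ A0, ∃ d ∈ zpowers c, ∃ b ∈ B, x = d * b := by
    intro x hx
    obtain ⟨d, hd, b, hb, e⟩ := (Cfsg.Agent.Lib.SubgroupTools.mem_sup_of_le_normalizer hn).1 hx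
    exact ⟨d, hd, b, hb, e.symm⟩
  have hbc : ∀ b ∈ B, ∀ x, Commute b x := fun b hb x => h.cen b hb x (hall x)
  have hab : ∀ x ∈ A0, ∀ z ∈ A0, Commute x z := by
    intro x hx z hz
    obtain ⟨d, hd, b, hb, rfl⟩ := hdec x hx
    obtain ⟨d', hd', b', hb', rfl⟩ := hdec z hz
    have c1 : Commute d d' := by
      obtain ⟨i, rfl⟩ := hd
      obtain ⟨k, rfl⟩ := hd'
      exact ((Commute.refl c).zpow_left i).zpow_right k
    exact (c1.mul_right (hbc b' hb' d).symm).mul_left ((hbc b hb _))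
  have hidx : ∀ g ∈ H, ∀ k ∈ H, g ∉ A0 → k ∉ A0 → g * k⁻¹ ∈ A0 := by
    intro g _ k _ hg hk
    obtain ⟨d, hd, b, hb, rfl⟩ := h.dec (hall g)
    obtain ⟨d', hd', b', hb', rfl⟩ := h.dec (hall k)
    have h1 : d ∉ zpowers c := fun h' => hg (A0.mul_mem (mem_sup_left h') (mem_sup_right hb))
    have h2 : d' ∉ zpowers c := fun h' => hk (A0.mul_mem (mem_sup_left h') (mem_sup_right hb'))
    have h3 := h.mulz hd (inv_mem hd') h1 (fun h' => h2 (by simpa using inv_mem h'))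
    have e : d * b * (d' * b')⁻¹ = (d * d'⁻¹) * (b * b'⁻¹) := by
      have c1 := hbc (b * b'⁻¹) (mul_mem hb (inv_mem hb')) d'⁻¹
      calc d * b * (d' * b')⁻¹ = d * ((b * b'⁻¹) * d'⁻¹) := by group
        _ = d * (d'⁻¹ * (b * b'⁻¹)) := by rw [c1.eq]
        _ = _ := by group
    rw [e]
    exact mul_mem (mem_sup_left h3) (mem_sup_right (mul_mem hb (inv_mem hb')))
  have h2 := card_half' H A0 hidx
  set L := H ⊓ A0 with hL
  have h3 := Cfsg.Agent.Lib.H81Mac1.rank_aux (Nat.card L) L rfl (hP.to_subgroup L) ?_ (N.subgroupOf L) ?_ ?_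
  · have h4 : Nat.card {x : L // x ^ 2 = 1} ≤ Nat.card (Zc B c) := by
      refine Nat.card_le_card_of_injective (fun x => (⟨(x.1 : P), ?_⟩ : Zc B c)) ?_
      · have h5 : (x.1 : P) ^ 2 = 1 := congrArg (fun w : L => (w : P)) x.2
        obtain ⟨d, hd, b, hb, e⟩ := hdec _ x.1.2.2
        refine ⟨d, hd, ?_, b, hb, e⟩
        rw [e, (hbc b hb d).symm.mul_pow, h.sqB b hb, mul_one] at h5
        exact h5
      · intro x z h'
        apply Subtype.ext
        apply Subtype.ext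
        exact congrArg (fun w : Zc B c => (w : P)) h'
    have h5 := card_Zc B c
    rw [h.cB] at h5
    have h6 : Nat.card (N ⊓ L : Subgroup P) * (N ⊓ L).relIndex L = Nat.card L :=
      Cfsg.Agent.Lib.H81Mac4.card_mul_rel inf_le_right
    rw [inf_relIndex_right] at h6
    have h7 : N.relIndex L ≤ 8 := h3.trans (h4.trans h5)
    have h8 : Nat.card (N ⊓ L : Subgroup P) ≤ Nat.card N :=
      Nat.le_of_dvd Nat.card_pos (Subgroup.card_dvd_of_le inf_le_left)
    have h9 : Nat.card L ≤ Nat.card N * 8 := by rw [← h6]; exact Nat.mul_le_mul h8 h7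
    have : 0 < Nat.card N := Nat.card_pos
    omega
  · intro x _ z
    exact Subtype.ext (hab x x.2.2 z z.2.2)
  · intro x; exact hsq x x.2.1
  · intro g x; exact hcm g g.2.1 x x.2.1

end

/-- counting form suffices -/
theorem rankIn_of_count {P : Type u} [Group P] [Finite P] (hP : IsPGroup 2 P)
    (h : ∀ H N : Subgroup P, N ≤ H → (∀ x ∈ H, x ^ 2 ∈ N) → (∀ x ∈ H, ∀ y ∈ H, x * y * x⁻¹ * y⁻¹ ∈ N) →
      32 * Nat.card N ≤ Nat.card H → False) : RankIn 2 4 (⊤ : Subgroup P) := by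
  intro N H hNH _ hsq hcm
  by_contra hcon
  push Not at hcon
  have : Fact (Nat.Prime 2) := ⟨Nat.prime_two⟩
  obtain ⟨n, hn⟩ := (hP.to_subgroup H).index (N.subgroupOf H)
  have h1 : N.relIndex H = 2 ^ n := hn
  have h2 : 5 ≤ n := by
    by_contra hlt
    have : 2 ^ n ≤ 2 ^ 4 := Nat.pow_le_pow_right (by norm_num) (by omega)
    omega
  have h3 : 32 ≤ N.relIndex H := by
    rw [h1]
    calc 32 = 2 ^ 5 := by norm_num
      _ ≤ 2 ^ n := Nat.pow_le_pow_right (by norm_num) h2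
  have h4 := Cfsg.Agent.Lib.H81Mac4.card_mul_rel hNH
  refine h H N hNH hsq hcm ?_
  rw [← h4, mul_comm]
  exact Nat.mul_le_mul_left _ h3

/-- The sectional rank is determined by a Sylow subgroup. -/
theorem rank_of_sylow {G : Type u} [Group G] [Finite G] (S : Sylow 2 G) (hS : RankIn 2 4 (S : Subgroup G)) :
    RankIn 2 4 (⊤ : Subgroup G) := by
  have : Fact (Nat.Prime 2) := ⟨Nat.prime_two⟩
  intro N H hNH _ hsq hcm
  obtain ⟨P0⟩ : Nonempty (Sylow 2 H) := inferInstance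
  set P1 := (P0 : Subgroup H).map H.subtype with hP1
  have hP1H : P1 ≤ H := by rintro _ ⟨x, _, rfl⟩; exact x.2
  have hP1p : IsPGroup 2 P1 := P0.isPGroup'.map _
  obtain ⟨S', hS'⟩ := hP1p.exists_le_sylow
  obtain ⟨g, hg⟩ := MulAction.exists_smul_eq G S S'
  have hr : RankIn 2 4 (S' : Subgroup G) := by
    have h1 : (S' : Subgroup G) = (S : Subgroup G).map (MulAut.conj g).toMonoidHom := by
      rw [← hg]; rfl
    rw [h1, rankIn_map _ (MulAut.conj g).injective]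
    exact hS
  have h16 : (N ⊓ P1).relIndex P1 ≤ 2 ^ 4 := by
    refine hr (N ⊓ P1) P1 inf_le_right hS' ?_ ?_
    · intro x hx
      exact ⟨hsq x (hP1H hx), pow_mem hx 2⟩
    · intro x hx y hy
      exact ⟨hcm x (hP1H hx) y (hP1H hy), P1.mul_mem (P1.mul_mem (P1.mul_mem hx hy) (P1.inv_mem hx)) (P1.inv_mem hy)⟩
  -- the index is a power of 2
  have hn : (N.subgroupOf H).Normal := by
    constructor
    intro n hn g
    rw [mem_subgroupOf] at hn ⊢
    have h1 := hcm g g.2 n n.2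
    have h2 := N.mul_mem h1 hn
    simpa [mul_assoc] using h2
  have hp : IsPGroup 2 (H ⧸ N.subgroupOf H) := by
    intro x
    induction x using QuotientGroup.induction_on with
    | H x =>
      refine ⟨1, ?_⟩
      rw [pow_one, ← QuotientGroup.mk_pow, QuotientGroup.eq_one_iff]
      exact hsq x x.2
  obtain ⟨r, hr2⟩ := IsPGroup.iff_card.1 hp
  have hr3 : N.relIndex H = 2 ^ r := hr2
  have hodd : ¬ 2 ∣ P1.relIndex H := by
    have h1 : P1.relIndex H = (P0 : Subgroup H).index := by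
      have : P1.subgroupOf H = (P0 : Subgroup H) := by
        rw [hP1]
        ext x
        rw [mem_subgroupOf, mem_map]
        constructor
        · rintro ⟨y, hy, hyx⟩
          have : y = x := Subtype.ext hyx
          rwa [← this]
        · intro hx; exact ⟨x, hx, rfl⟩
      unfold relIndex
      rw [this]
    rw [h1]
    exact P0.not_dvd_index
  have e1 : (N ⊓ P1).relIndex P1 * P1.relIndex H = (N ⊓ P1).relIndex H :=
    Subgroup.relIndex_mul_relIndex _ _ _ inf_le_right hP1H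
  have e2 : (N ⊓ P1).relIndex N * N.relIndex H = (N ⊓ P1).relIndex H :=
    Subgroup.relIndex_mul_relIndex _ _ _ inf_le_left hNH
  have e3 : N.relIndex H ∣ (N ⊓ P1).relIndex P1 * P1.relIndex H := by
    rw [e1, ← e2]; exact dvd_mul_left _ _
  have hcop : Nat.Coprime (N.relIndex H) (P1.relIndex H) := by
    rw [hr3]
    exact Nat.Coprime.pow_left r ((Nat.Prime.coprime_iff_not_dvd Nat.prime_two).2 hodd)
  have e4 := hcop.dvd_of_dvd_mul_right e3
  have e5 : (N ⊓ P1).relIndex P1 ≠ 0 := by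
    intro h0
    have h1 := Cfsg.Agent.Lib.H81Mac4.card_mul_rel (inf_le_right : N ⊓ P1 ≤ P1)
    rw [h0, mul_zero] at h1
    exact Nat.card_pos.ne h1
  exact (Nat.le_of_dvd (Nat.pos_of_ne_zero e5) e4).trans h16

end Cfsg.Agent.Lib.H81Har2
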