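import Cfsg.Agent.Lib.HigmanLin
import Mathlib.GroupTheory.PGroup

/-! S3776 (helper81): base file for Higman's theorem on 2-groups with a solvable group of automorphisms
transitive on the involutions. -/

set_option autoImplicit false
set_option linter.all false

namespace Cfsg.Agent.Lib.H81Suz

open Cfsg.Agent.Lib.HigmanLin (mon cj)

universe u

variable {G : Type u} [Group G] [Finite G]

structure Setup (Y : Subgroup (MulAut G)) : Prop where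
  two : IsPGroup 2 G
  cen : ∀ x : G, x ^ 2 = 1 → ∀ y, x * y = y * x
  trans : ∀ x y : G, x ≠ 1 → x ^ 2 = 1 → y ≠ 1 → y ^ 2 = 1 → ∃ a ∈ Y, a x = y

def Yinv (Y : Subgroup (MulAut G)) (H : Subgroup G) : Prop := ∀ a ∈ Y, ∀ x ∈ H, a x ∈ H

structure Coord (Y : Subgroup (MulAut G)) {F : Type} [Field F] [Fintype F] (e : G → F) : Prop where
  add : ∀ x y : G, x ^ 2 = 1 → y ^ 2 = 1 → e (x * y) = e x + e y
  inj : ∀ x : G, x ^ 2 = 1 → e x = 0 → x = 1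
  surj : ∀ v : F, ∃ x : G, x ^ 2 = 1 ∧ e x = v
  semi : ∀ a ∈ Y, ∃ (b : F) (φ : F ≃+* F), b ≠ 0 ∧ ∀ x : G, x ^ 2 = 1 → e (a x) = b * φ (e x)
  transF : ∀ b : F, b ≠ 0 → ∃ a ∈ Y, ∃ φ : F ≃+* F, ∀ x : G, x ^ 2 = 1 → e (a x) = b * φ (e x)
  card4 : 4 ≤ Fintype.card F

/-- everything that is used in the group theoretic part -/
structure Ctx (Y : Subgroup (MulAut G)) {F : Type} [Field F] [Fintype F] [CharP F 2] [Fintype (F ≃+* F)]
    (e : G → F) (K : Subgroup Fˣ) : Prop extends Setup Y, Coord Y e where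
  K_act : ∀ u ∈ K, ∃ a ∈ Y, ∀ x : G, x ^ 2 = 1 → e (a x) = (u : F) * e x
  alt : ∀ B : F → F → F, (∀ x y z, B (x + y) z = B x z + B y z) → (∀ x y z, B x (y + z) = B x y + B x z) →
    (∀ x, B x x = 0) → (∀ u ∈ K, ∀ x y, B ((u : F) * x) ((u : F) * y) = (u : F) * B x y) → ∀ x y, B x y = 0
  mono : ∀ S : AddSubgroup (F →+ F), (∀ u ∈ K, ∀ b ∈ S, cj (u : F) b ∈ S) → ∀ b ∈ S,
    ∃ co : (F ≃+* F) → F, (∀ x, b x = ∑ σ : F ≃+* F, co σ * σ x) ∧ ∀ σ, mon (co σ) σ ∈ S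
  n3 : ∀ σ τ : F ≃+* F, σ ≠ τ → (∀ u ∈ K, σ (u : F) * τ (u : F) = (u : F) * ((u : F) * (u : F))) →
    σ = RingEquiv.refl F ∨ τ = RingEquiv.refl F ∨ (Fintype.card F = 64 ∧
      ((∀ x, σ x = x ^ 8) ∧ (∀ x, τ x = x ^ 16) ∨ (∀ x, σ x = x ^ 16) ∧ (∀ x, τ x = x ^ 8)))

/-- minimal counterexample -/
structure MinCE (Y : Subgroup (MulAut G)) (H : Subgroup G) : Prop where
  inv : Yinv Y H
  na : ∃ x ∈ H, ∃ y ∈ H, x * y ≠ y * x
  big : ∃ x ∈ H, x ^ 4 ≠ 1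
  ih : ∀ X : Subgroup G, X ≤ H → Yinv Y X → X ≠ H → (∀ x ∈ X, ∀ y ∈ X, x * y = y * x) ∨ ∀ x ∈ X, x ^ 4 = 1

structure HasA (Y : Subgroup (MulAut G)) (H A : Subgroup G) : Prop where
  le : A ≤ H
  inv : Yinv Y A
  comm : ∀ x ∈ A, ∀ y ∈ A, x * y = y * x
  self : ∀ x ∈ H, (∀ a ∈ A, x * a = a * x) → x ∈ A
  sq : ∀ x ∈ H, x ^ 2 ∈ A
  four : ∃ a ∈ A, a ^ 2 ≠ 1

/-! ### base lemmas -/

variable {Y : Subgroup (MulAut G)}

/-- a nontrivial element of a 2-group has a power which is an involution -/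
theorem Setup.exists_invol (h : Setup Y) {x : G} (hx : x ≠ 1) : ∃ k : ℕ, x ^ (2 ^ k) ≠ 1 ∧ (x ^ (2 ^ k)) ^ 2 = 1 := by
  obtain ⟨k, hk⟩ := h.two x
  have hex : ∃ k : ℕ, x ^ (2 ^ k) = 1 := ⟨k, hk⟩
  classical
  set m := Nat.find hex with hm
  have h1 : x ^ (2 ^ m) = 1 := Nat.find_spec hex
  have hm0 : m ≠ 0 := by
    intro h0
    rw [h0] at h1
    apply hx
    simpa using h1
  obtain ⟨j, hj⟩ := Nat.exists_eq_succ_of_ne_zero hm0
  refine ⟨j, ?_, ?_⟩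
  · exact Nat.find_min hex (m := j) (by omega)
  · rw [← pow_mul, ← pow_succ, ← Nat.succ_eq_add_one, ← hj]; exact h1

/-- a nontrivial `Y`-invariant subgroup contains all involutions -/
theorem Setup.mem_of_sq (h : Setup Y) {X : Subgroup G} (hX : Yinv Y X) (hne : X ≠ ⊥) {v : G} (hv : v ^ 2 = 1) : v ∈ X := by
  by_cases h1 : v = 1
  · rw [h1]; exact X.one_mem
  obtain ⟨x, hx, hx1⟩ : ∃ x ∈ X, x ≠ 1 := by
    by_contra hcon
    push Not at hcon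
    exact hne ((Subgroup.eq_bot_iff_forall X).mpr hcon)
  obtain ⟨k, hk1, hk2⟩ := h.exists_invol hx1
  obtain ⟨a, ha, hav⟩ := h.trans _ v hk1 hk2 h1 hv
  rw [← hav]
  exact hX a ha _ (X.pow_mem hx _)

/-- powers in an abelian `Y`-invariant subgroup -/
theorem Setup.pow_surj (h : Setup Y) {X : Subgroup G} (hX : Yinv Y X) (hab : ∀ x ∈ X, ∀ y ∈ X, x * y = y * x) {j : ℕ}
    (hne : ∃ a ∈ X, a ^ (2 ^ j) ≠ 1) {v : G} (hv : v ^ 2 = 1) : ∃ c ∈ X, c ^ (2 ^ j) = v := by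
  obtain ⟨a, ha, ha1⟩ := hne
  by_cases h1 : v = 1
  · exact ⟨1, X.one_mem, by rw [one_pow, h1]⟩
  obtain ⟨k, hk1, hk2⟩ := h.exists_invol ha1
  obtain ⟨y, hy, hyv⟩ := h.trans _ v hk1 hk2 h1 hv
  refine ⟨y (a ^ (2 ^ k)), hX y hy _ (X.pow_mem ha _), ?_⟩
  rw [← map_pow, ← pow_mul, mul_comm, pow_mul]
  exact hyv

/-- an abelian `Y`-invariant subgroup is homocyclic -/
theorem Setup.homocyclic (h : Setup Y) {X : Subgroup G} (hX : Yinv Y X) (hab : ∀ x ∈ X, ∀ y ∈ X, x * y = y * x) {k : ℕ}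
    (hne : ∃ a ∈ X, a ^ (2 ^ k) ≠ 1) : ∀ j : ℕ, j ≤ k + 1 → ∀ a ∈ X, a ^ (2 ^ j) = 1 → ∃ c ∈ X, c ^ (2 ^ (k + 1 - j)) = a := by
  intro j
  induction j with
  | zero =>
    intro _ a ha h1
    refine ⟨1, X.one_mem, ?_⟩
    rw [one_pow]
    simpa using h1.symm
  | succ j ih =>
    intro hj a ha h1
    have h2 : (a ^ (2 ^ j)) ^ 2 = 1 := by rw [← pow_mul, ← pow_succ]; exact h1
    obtain ⟨c₀, hc₀, hc⟩ := h.pow_surj hX hab hne h2
    have e1 : (c₀ ^ (2 ^ (k - j))) ^ (2 ^ j) = a ^ (2 ^ j) := by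
      rw [← pow_mul, ← pow_add, show k - j + j = k by omega, hc]
    have hm : c₀ ^ (2 ^ (k - j)) ∈ X := X.pow_mem hc₀ _
    have e2 : (a * (c₀ ^ (2 ^ (k - j)))⁻¹) ^ (2 ^ j) = 1 := by
      have hcomm : Commute a (c₀ ^ (2 ^ (k - j)))⁻¹ := hab _ ha _ (X.inv_mem hm)
      rw [hcomm.mul_pow, inv_pow, e1, mul_inv_cancel]
    obtain ⟨c₂, hc₂, e3⟩ := ih (by omega) _ (X.mul_mem ha (X.inv_mem hm)) e2
    refine ⟨c₂ ^ 2 * c₀, X.mul_mem (X.pow_mem hc₂ _) hc₀, ?_⟩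
    have hcomm : Commute (c₂ ^ 2) c₀ := hab _ (X.pow_mem hc₂ _) _ hc₀
    rw [hcomm.mul_pow, ← pow_mul, show 2 * 2 ^ (k + 1 - (j + 1)) = 2 ^ (k + 1 - j) by
      rw [show k + 1 - j = (k + 1 - (j + 1)) + 1 by omega, pow_succ]; ring, e3,
      show k + 1 - (j + 1) = k - j by omega]
    group

/-- in a nonabelian `Y`-invariant group of exponent 4 the centre consists of involutions -/
theorem Setup.center_sq (h : Setup Y) {X : Subgroup G} (hX : Yinv Y X) (h4 : ∀ x ∈ X, x ^ 4 = 1)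
    (hna : ∃ x ∈ X, ∃ y ∈ X, x * y ≠ y * x) {z : G} (hz : z ∈ X) (hc : ∀ x ∈ X, z * x = x * z) : z ^ 2 = 1 := by
  by_contra hz2
  obtain ⟨x, hx, y, hy, hxy⟩ := hna
  apply hxy
  let Z : Subgroup G :=
    { carrier := {z | z ∈ X ∧ ∀ x ∈ X, z * x = x * z}
      one_mem' := ⟨X.one_mem, fun x _ => by rw [one_mul, mul_one]⟩
      mul_mem' := by
        rintro a b ⟨ha, ha'⟩ ⟨hb, hb'⟩
        refine ⟨X.mul_mem ha hb, fun x hx => ?_⟩
        rw [mul_assoc, hb' x hx, ← mul_assoc, ha' x hx, mul_assoc]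
      inv_mem' := by
        rintro a ⟨ha, ha'⟩
        refine ⟨X.inv_mem ha, fun x hx => ?_⟩
        rw [inv_mul_eq_iff_eq_mul, ← mul_assoc, ha' x hx, mul_assoc, mul_inv_cancel, mul_one] }
  have hZinv : Yinv Y Z := by
    rintro a ha w ⟨hw, hw'⟩
    refine ⟨hX a ha w hw, fun x hx => ?_⟩
    have h1 : a⁻¹ x ∈ X := hX a⁻¹ (Y.inv_mem ha) x hx
    have h2 := congrArg a (hw' _ h1)
    rw [map_mul, map_mul] at h2
    have h3 : a (a⁻¹ x) = x := by rw [← MulAut.mul_apply, mul_inv_cancel, MulAut.one_apply]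
    rw [h3] at h2
    exact h2
  have hZab : ∀ x ∈ Z, ∀ y ∈ Z, x * y = y * x := fun x hx y hy => hx.2 y hy.1
  obtain ⟨w, hw, hw2⟩ := h.pow_surj hZinv hZab (j := 1) ⟨z, ⟨hz, hc⟩, by simpa using hz2⟩
    (v := x ^ 2) (by rw [← pow_mul]; exact h4 x hx)
  have hcw : Commute x w⁻¹ := Commute.inv_right (show Commute x w from (hw.2 x hx).symm)
  have h5 : (x * w⁻¹) ^ 2 = 1 := by
    rw [hcw.mul_pow, inv_pow]
    have : w ^ 2 = x ^ 2 := by simpa using hw2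
    rw [this, mul_inv_cancel]
  have h6 := h.cen _ h5 y
  have h7 : x = (x * w⁻¹) * w := by group
  rw [h7, mul_assoc, hw.2 y hy, ← mul_assoc, h6, mul_assoc]

end Cfsg.Agent.Lib.H81Suz
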