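import Mathlib

/-!
# S3776, piece A: sums of two powers of two modulo `(2 ^ n - 1) / d` (helper99)
-/

set_option autoImplicit false

namespace Cfsg.Agent.Lib.H81Suz

theorem A_pair_le {a b c e : ℕ} (hab : a ≤ b) (hce : c ≤ e) (h : 2 ^ a + 2 ^ b = 2 ^ c + 2 ^ e) : a = c ∧ b = e := by
  have p : ∀ {x y : ℕ}, x ≤ y → 2 ^ x ≤ 2 ^ y := fun h => Nat.pow_le_pow_right (by norm_num) h
  have hpos : ∀ x : ℕ, 0 < 2 ^ x := fun x => Nat.pos_of_ne_zero (by positivity)
  have hbe : b = e := by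
    rcases lt_trichotomy b e with hlt | heq | hgt
    · exfalso
      have h1 := p hab
      have h2 := p (Nat.succ_le_of_lt hlt)
      rw [Nat.succ_eq_add_one, pow_succ] at h2
      have h3 := hpos c
      omega
    · exact heq
    · exfalso
      have h1 := p hce
      have h2 := p (Nat.succ_le_of_lt hgt)
      rw [Nat.succ_eq_add_one, pow_succ] at h2
      have h3 := hpos a
      omega
  subst hbe
  refine ⟨?_, rfl⟩
  exact Nat.pow_right_injective (le_refl 2) (by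
    show 2 ^ a = 2 ^ c
    omega)

theorem A_pair {a b c e : ℕ} (h : 2 ^ a + 2 ^ b = 2 ^ c + 2 ^ e) : (a = c ∧ b = e) ∨ (a = e ∧ b = c) := by
  rcases le_total a b with h1 | h1 <;> rcases le_total c e with h2 | h2
  · left; exact A_pair_le h1 h2 h
  · right
    have := A_pair_le h1 h2 (by omega)
    exact this
  · right
    have := A_pair_le h1 h2 (by omega)
    exact ⟨this.2, this.1⟩
  · left
    have := A_pair_le h1 h2 (by omega)
    exact ⟨this.2, this.1⟩

theorem A_eq2 {m A B C E : ℕ} (h : A + B ≡ C + E [MOD m]) (hA : 1 ≤ A) (hB : 1 ≤ B) (hC : 1 ≤ C) (hE : 1 ≤ E)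
    (h1 : 2 * A ≤ m + 1) (h2 : 2 * B ≤ m + 1) (h3 : 2 * C ≤ m + 1) (h4 : 2 * E ≤ m + 1) : A + B = C + E := by
  have h5 := (Nat.modEq_iff_dvd.1 h)
  have h6 : (((C + E : ℕ) : ℤ) - ((A + B : ℕ) : ℤ)) = 0 := by
    apply Int.eq_zero_of_abs_lt_dvd h5
    rw [abs_lt]
    constructor <;> omega
  omega

theorem A_inj {n x r r' : ℕ} (hr : r < n) (hr' : r' < n) (h : (x + r) % n = (x + r') % n) : r = r' := by
  have h1 : x + r ≡ x + r' [MOD n] := h
  exact (Nat.ModEq.add_left_cancel' x h1).eq_of_lt_of_lt hr hr'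

theorem A_bad (n g x : ℕ) (hg : g ≤ n) : ((Finset.range n).filter (fun r => n - g ≤ (x + r) % n)).card ≤ g := by
  rcases Nat.eq_zero_or_pos n with h0 | hn
  · subst h0; simp
  have : ((Finset.range n).filter (fun r => n - g ≤ (x + r) % n)).card ≤ (Finset.Ico (n - g) n).card := by
    apply Finset.card_le_card_of_injOn (fun r => (x + r) % n)
    · intro r hr
      rw [Finset.mem_coe, Finset.mem_filter] at hr
      rw [Finset.mem_coe, Finset.mem_Ico]
      exact ⟨hr.2, Nat.mod_lt _ hn⟩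
    · intro r hr r' hr' h
      rw [Finset.mem_coe, Finset.mem_filter, Finset.mem_range] at hr hr'
      exact A_inj hr.1 hr'.1 h
  rw [Nat.card_Ico] at this
  omega

theorem A_good {n g : ℕ} (hg : 4 * g < n) (a b c e : ℕ) : ∃ r, (a + r) % n < n - g ∧ (b + r) % n < n - g ∧
    (c + r) % n < n - g ∧ (e + r) % n < n - g := by
  by_contra hcon
  push Not at hcon
  have hsub : Finset.range n ⊆ ((Finset.range n).filter (fun r => n - g ≤ (a + r) % n)) ∪
      ((Finset.range n).filter (fun r => n - g ≤ (b + r) % n)) ∪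
      ((Finset.range n).filter (fun r => n - g ≤ (c + r) % n)) ∪
      ((Finset.range n).filter (fun r => n - g ≤ (e + r) % n)) := by
    intro r hr
    simp only [Finset.mem_union, Finset.mem_filter]
    have := hcon r
    by_cases h1 : n - g ≤ (a + r) % n
    · exact Or.inl (Or.inl (Or.inl ⟨hr, h1⟩))
    by_cases h2 : n - g ≤ (b + r) % n
    · exact Or.inl (Or.inl (Or.inr ⟨hr, h2⟩))
    by_cases h3 : n - g ≤ (c + r) % n
    · exact Or.inl (Or.inr ⟨hr, h3⟩)
    exact Or.inr ⟨hr, this (not_le.1 h1) (not_le.1 h2) (not_le.1 h3)⟩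
  have h1 := Finset.card_le_card hsub
  rw [Finset.card_range] at h1
  have h2 := (Finset.card_union_le (((Finset.range n).filter (fun r => n - g ≤ (a + r) % n)) ∪
      ((Finset.range n).filter (fun r => n - g ≤ (b + r) % n)) ∪
      ((Finset.range n).filter (fun r => n - g ≤ (c + r) % n))) ((Finset.range n).filter (fun r => n - g ≤ (e + r) % n)))
  have h3 := (Finset.card_union_le (((Finset.range n).filter (fun r => n - g ≤ (a + r) % n)) ∪
      ((Finset.range n).filter (fun r => n - g ≤ (b + r) % n)))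
      ((Finset.range n).filter (fun r => n - g ≤ (c + r) % n)))
  have h4 := (Finset.card_union_le ((Finset.range n).filter (fun r => n - g ≤ (a + r) % n))
      ((Finset.range n).filter (fun r => n - g ≤ (b + r) % n)))
  have ba := A_bad n g a (by omega)
  have bb := A_bad n g b (by omega)
  have bc := A_bad n g c (by omega)
  have be := A_bad n g e (by omega)
  omega

theorem A_pow {n m : ℕ} (h1 : 2 ^ n ≡ 1 [MOD m]) (x r : ℕ) : 2 ^ ((x + r) % n) ≡ 2 ^ r * 2 ^ x [MOD m] := by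
  have h2 : 2 ^ (x + r) ≡ 2 ^ ((x + r) % n) [MOD m] := by
    conv_lhs => rw [← Nat.div_add_mod (x + r) n, pow_add, pow_mul]
    have h3 := (h1.pow ((x + r) / n)).mul_right (2 ^ ((x + r) % n))
    rwa [one_pow, one_mul] at h3
  have h4 : 2 ^ r * 2 ^ x = 2 ^ (x + r) := by rw [pow_add, mul_comm]
  rw [h4]
  exact h2.symm

set_option linter.unusedVariables false in
theorem A_core {n d m g : ℕ} (hm : d * m = 2 ^ n - 1) {a b c e : ℕ} (ha : a < n) (hb : b < n)
    (hc : c < n) (he : e < n) (h : 2 ^ a + 2 ^ b ≡ 2 ^ c + 2 ^ e [MOD m]) (hg : 4 * g < n) (hdg : d < 2 ^ g) :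
    (a = c ∧ b = e) ∨ (a = e ∧ b = c) := by
  have hn : 0 < n := by omega
  have h2n : 1 ≤ 2 ^ n := Nat.one_le_two_pow
  have h1 : 2 ^ n ≡ 1 [MOD m] := by
    apply Nat.ModEq.symm
    rw [Nat.modEq_iff_dvd' h2n, ← hm]
    exact Dvd.intro_left d rfl
  have hd0 : 0 < d := by
    rcases Nat.eq_zero_or_pos d with h0 | h0
    · exfalso
      subst h0
      have : 2 ^ 1 ≤ 2 ^ n := Nat.pow_le_pow_right (by norm_num) hn
      omega
    · exact h0
  have hmg : 2 ^ (n - g) ≤ m := by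
    have e1 : 2 ^ g * 2 ^ (n - g) = 2 ^ n := by rw [← pow_add]; congr 1; omega
    have e2 : d * 2 ^ (n - g) < 2 ^ g * 2 ^ (n - g) := Nat.mul_lt_mul_of_pos_right hdg (by positivity)
    have e3 : d * 2 ^ (n - g) ≤ d * m := by rw [hm]; omega
    exact Nat.le_of_mul_le_mul_left e3 hd0
  obtain ⟨r, ra, rb, rc, re⟩ := A_good hg a b c e
  have key : 2 ^ ((a + r) % n) + 2 ^ ((b + r) % n) ≡ 2 ^ ((c + r) % n) + 2 ^ ((e + r) % n) [MOD m] := by
    have e1 := (A_pow h1 a r).add (A_pow h1 b r)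
    have e2 := (A_pow h1 c r).add (A_pow h1 e r)
    rw [← mul_add] at e1 e2
    exact (e1.trans (h.mul_left (2 ^ r))).trans e2.symm
  have hg0 : n - g = (n - g - 1) + 1 := by omega
  have bd : ∀ x, x < n - g → 2 * 2 ^ x ≤ m := by
    intro x hx
    have : 2 ^ x ≤ 2 ^ (n - g - 1) := Nat.pow_le_pow_right (by norm_num) (by omega)
    rw [hg0, pow_succ] at hmg
    omega
  have pos : ∀ x : ℕ, 1 ≤ 2 ^ x := fun x => Nat.one_le_two_pow
  have hEq := A_eq2 key (pos _) (pos _) (pos _) (pos _) ((bd _ ra).trans (Nat.le_succ m)) ((bd _ rb).trans (Nat.le_succ m))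
    ((bd _ rc).trans (Nat.le_succ m)) ((bd _ re).trans (Nat.le_succ m))
  have inj : ∀ {x y : ℕ}, x < n → y < n → (x + r) % n = (y + r) % n → x = y := by
    intro x y hx hy hxy
    rw [add_comm x, add_comm y] at hxy
    exact A_inj hx hy hxy
  rcases A_pair hEq with ⟨e1, e2⟩ | ⟨e1, e2⟩
  · exact Or.inl ⟨inj ha hc e1, inj hb he e2⟩
  · exact Or.inr ⟨inj ha he e1, inj hb hc e2⟩

theorem A_small : ∀ n : Fin 21, ∀ d : Fin 21, 2 ≤ (n : ℕ) ∧ 2 ≤ (d : ℕ) ∧ (n : ℕ) % d = 0 ∧ (2 ^ (n : ℕ) - 1) % (d : ℕ) = 0 →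
    ((n : ℕ) = 6 ∧ (d : ℕ) = 3) ∨ (8 < (n : ℕ) ∧ (d : ℕ) < 4) ∨ (12 < (n : ℕ) ∧ (d : ℕ) < 8) ∨
      (16 < (n : ℕ) ∧ (d : ℕ) < 16) := by
  decide +kernel

theorem A_four {g : ℕ} (hg : 5 ≤ g) : 4 * g + 4 < 2 ^ g := by
  induction g, hg using Nat.le_induction with
  | base => norm_num
  | succ k hk ih => rw [pow_succ]; omega

theorem arith_two_pow {n d m : ℕ} (hn : 2 ≤ n) (hd : d ∣ n) (hm : d * m = 2 ^ n - 1) {a b c e : ℕ} (ha : a < n) (hb : b < n)
    (hc : c < n) (he : e < n) (h : 2 ^ a + 2 ^ b ≡ 2 ^ c + 2 ^ e [MOD m]) :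
    (a = c ∧ b = e) ∨ (a = e ∧ b = c) ∨ (n = 6 ∧ m = 21) := by
  have key : (∃ g, 4 * g < n ∧ d < 2 ^ g) → (a = c ∧ b = e) ∨ (a = e ∧ b = c) ∨ (n = 6 ∧ m = 21) := by
    rintro ⟨g, h1, h2⟩
    rcases A_core hm ha hb hc he h h1 h2 with h3 | h3
    · exact Or.inl h3
    · exact Or.inr (Or.inl h3)
  have hdn : d ≤ n := Nat.le_of_dvd (by omega) hd
  have hd0 : 0 < d := Nat.pos_of_dvd_of_pos hd (by omega)
  rcases Nat.lt_or_ge d 2 with hd1 | hd2
  · have hd1 : d = 1 := by omega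
    subst hd1
    rw [one_mul] at hm
    have pos : ∀ x : ℕ, 1 ≤ 2 ^ x := fun x => Nat.one_le_two_pow
    have bd : ∀ x, x < n → 2 * 2 ^ x ≤ m + 1 := by
      intro x hx
      have : 2 ^ (x + 1) ≤ 2 ^ n := Nat.pow_le_pow_right (by norm_num) hx
      rw [pow_succ] at this
      have := pos n
      omega
    have hEq := A_eq2 h (pos _) (pos _) (pos _) (pos _) (bd _ ha) (bd _ hb) (bd _ hc) (bd _ he)
    rcases A_pair hEq with h3 | h3
    · exact Or.inl h3
    · exact Or.inr (Or.inl h3)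
  · rcases Nat.lt_or_ge n 21 with hn21 | hn21
    · rcases A_small ⟨n, hn21⟩ ⟨d, by omega⟩ ⟨hn, hd2, Nat.mod_eq_zero_of_dvd hd,
        Nat.mod_eq_zero_of_dvd ⟨m, hm.symm⟩⟩ with ⟨h6, h3⟩ | hg | hg | hg
      all_goals simp only at *
      · right; right
        subst h6; subst h3
        refine ⟨rfl, ?_⟩
        norm_num at hm
        omega
      · exact key ⟨2, by omega, by norm_num; omega⟩
      · exact key ⟨3, by omega, by norm_num; omega⟩
      · exact key ⟨4, by omega, by norm_num; omega⟩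
    · apply key
      refine ⟨(n - 1) / 4, by omega, ?_⟩
      have := A_four (g := (n - 1) / 4) (by omega)
      omega

end Cfsg.Agent.Lib.H81Suz
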