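import Mathlib.FieldTheory.Finite.Basic
import Mathlib.RingTheory.IntegralDomain
import Mathlib.Algebra.CharP.Algebra
import Mathlib.Tactic
import Cfsg.Agent.Lib.H81SuzA

/-! S3776, piece F (helper3): consequences of the arithmetic lemma for field automorphisms. -/

set_option autoImplicit false
set_option linter.all false

namespace Cfsg.Agent.Lib.H81Suz

variable {F : Type} [Field F] [Fintype F] [CharP F 2]

theorem F_frob {n : ℕ} (hF : Fintype.card F = 2 ^ n) (s : F ≃+* F) : ∃ i, i < n ∧ ∀ x, s x = x ^ (2 ^ i) := by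
  classical
  haveI : Fact (Nat.Prime 2) := ⟨Nat.prime_two⟩
  letI : Algebra (ZMod 2) F := ZMod.algebra F 2
  have hfr : Module.finrank (ZMod 2) F = n := by
    have h1 := Module.card_eq_pow_finrank (K := ZMod 2) (V := F)
    rw [hF, ZMod.card] at h1
    exact (Nat.pow_right_injective le_rfl h1).symm
  let t : Gal(F/(ZMod 2)) := AlgEquiv.ofRingEquiv (f := s) (fun r => by
    have : (s : F →+* F).comp (algebraMap (ZMod 2) F) = algebraMap (ZMod 2) F := Subsingleton.elim _ _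
    exact congrArg (fun f : ZMod 2 →+* F => f r) this)
  obtain ⟨k, hk⟩ := (FiniteField.bijective_frobeniusAlgEquivOfAlgebraic_pow (ZMod 2) F).2 t
  refine ⟨k.1, hfr ▸ k.2, fun x => ?_⟩
  have h1 : s x = t x := rfl
  rw [h1, ← hk]
  change (FiniteField.frobeniusAlgEquivOfAlgebraic (ZMod 2) F ^ k.1) x = _
  rw [AlgEquiv.coe_pow, FiniteField.coe_frobeniusAlgEquivOfAlgebraic_iterate, ZMod.card]

theorem F_gen {m : ℕ} (K : Subgroup Fˣ) (hm : Nat.card K = m) : ∃ u : Fˣ, u ∈ K ∧ orderOf u = m ∧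
    ∀ A B : ℕ, (u : F) ^ A = (u : F) ^ B → A ≡ B [MOD m] := by
  obtain ⟨g, hg⟩ := IsCyclic.exists_generator (α := K)
  have ho : orderOf (g : Fˣ) = m := by
    rw [← hm, Subgroup.orderOf_coe]
    exact orderOf_eq_card_of_forall_mem_zpowers hg
  refine ⟨g, g.2, ho, fun A B h => ?_⟩
  rw [← ho]
  apply pow_eq_pow_iff_modEq.mp
  ext
  simpa using h

theorem F_mod_one {n d m : ℕ} (hm : d * m = 2 ^ n - 1) (k : ℕ) : 2 ^ k ≡ 2 ^ (k % n) [MOD m] := by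
  have h1 : 2 ^ n ≡ 1 [MOD m] := by
    have h0 : 1 ≤ 2 ^ n := Nat.one_le_two_pow
    have : 1 ≡ 2 ^ n [MOD m] := (Nat.modEq_iff_dvd' h0).mpr ⟨d, by rw [← hm, mul_comm]⟩
    exact this.symm
  have h2 : 2 ^ k = (2 ^ n) ^ (k / n) * 2 ^ (k % n) := by
    rw [← pow_mul, ← pow_add, Nat.div_add_mod]
  calc 2 ^ k = (2 ^ n) ^ (k / n) * 2 ^ (k % n) := h2
    _ ≡ 1 ^ (k / n) * 2 ^ (k % n) [MOD m] := (h1.pow _).mul_right _
    _ = 2 ^ (k % n) := by rw [one_pow, one_mul]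

theorem fld_n2 {n d : ℕ} (hF : Fintype.card F = 2 ^ n) (hn : 2 ≤ n) (K : Subgroup Fˣ) (hK : d * Nat.card K = 2 ^ n - 1)
    (hd : d ∣ n) (σ τ : F ≃+* F) (h : ∀ u ∈ K, σ (u : F) * τ (u : F) = (u : F)) : σ = τ := by
  obtain ⟨i, hi, hσ⟩ := F_frob hF σ
  obtain ⟨j, hj, hτ⟩ := F_frob hF τ
  obtain ⟨u, hu, ho, hmod⟩ := F_gen K rfl
  have h1 := h u hu
  rw [hσ, hτ, ← pow_add] at h1
  have h2 : 2 ^ i + 2 ^ j ≡ 1 [MOD Nat.card K] := hmod _ _ (by rw [h1, pow_one])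
  have h3 : 2 ^ ((i + 1) % n) + 2 ^ ((j + 1) % n) ≡ 2 ^ 0 + 2 ^ 0 [MOD Nat.card K] := by
    have e1 := (F_mod_one hK (i + 1)).symm.add (F_mod_one hK (j + 1)).symm
    refine e1.trans ?_
    have e2 := h2.mul_left 2
    have e3 : 2 ^ (i + 1) + 2 ^ (j + 1) = 2 * (2 ^ i + 2 ^ j) := by ring
    rw [e3]
    simpa using e2
  have hij : i = j := by
    rcases arith_two_pow hn hd hK (Nat.mod_lt _ (by omega)) (Nat.mod_lt _ (by omega)) (by omega : 0 < n) (by omega : 0 < n) h3 with ⟨h4, h5⟩ | ⟨h4, h5⟩ | ⟨h4, h5⟩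
    · have a1 : i + 1 = n := by
        by_contra hne
        rw [Nat.mod_eq_of_lt (by omega)] at h4
        omega
      have a2 : j + 1 = n := by
        by_contra hne
        rw [Nat.mod_eq_of_lt (by omega)] at h5
        omega
      omega
    · have a1 : i + 1 = n := by
        by_contra hne
        rw [Nat.mod_eq_of_lt (by omega)] at h4
        omega
      have a2 : j + 1 = n := by
        by_contra hne
        rw [Nat.mod_eq_of_lt (by omega)] at h5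
        omega
      omega
    · subst h4
      rw [h5] at h2
      have hdec : ∀ i < 6, ∀ j < 6, (2 ^ i + 2 ^ j) % 21 = 1 % 21 → i = j := by decide
      exact hdec i hi j hj h2
  ext x
  rw [hσ, hτ, hij]

theorem fld_u1 {n d : ℕ} (hF : Fintype.card F = 2 ^ n) (hn : 2 ≤ n) (K : Subgroup Fˣ) (hK : d * Nat.card K = 2 ^ n - 1)
    (hd : d ∣ n) (ρ σ τ : F ≃+* F) (h : ∀ u ∈ K, ρ (u : F) * τ (u : F) = (u : F) * ρ (σ (u : F))) : σ = τ := by
  obtain ⟨a, ha, hρ⟩ := F_frob hF ρ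
  obtain ⟨c, hc, hσ⟩ := F_frob hF σ
  obtain ⟨b, hb, hτ⟩ := F_frob hF τ
  obtain ⟨u, hu, ho, hmod⟩ := F_gen K rfl
  have h1 := h u hu
  rw [hσ, hτ, hρ, hρ, ← pow_add, ← pow_mul, ← pow_add] at h1
  have h2 : 2 ^ a + 2 ^ b ≡ 2 ^ 0 + 2 ^ ((a + c) % n) [MOD Nat.card K] := by
    have e0 : 2 ^ a + 2 ^ b ≡ 1 + 2 ^ (a + c) [MOD Nat.card K] := by
      apply hmod
      rw [h1, add_comm a c, pow_add (u : F) 1, pow_one]
    exact e0.trans ((Nat.ModEq.refl _).add (F_mod_one hK (a + c)))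
  have hbc : b = c := by
    rcases arith_two_pow hn hd hK ha hb (by omega : 0 < n) (Nat.mod_lt _ (by omega)) h2 with ⟨h4, h5⟩ | ⟨h4, h5⟩ | ⟨h4, h5⟩
    · subst h4
      rw [zero_add, Nat.mod_eq_of_lt hc] at h5
      exact h5
    · subst h5
      by_contra hne
      rcases lt_or_ge (a + c) n with h6 | h6
      · rw [Nat.mod_eq_of_lt h6] at h4
        omega
      · rw [Nat.mod_eq_sub_mod h6, Nat.mod_eq_of_lt (by omega)] at h4
        omega
    · subst h4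
      rw [h5] at h2
      have hdec : ∀ a < 6, ∀ b < 6, ∀ c < 6, (2 ^ a + 2 ^ b) % 21 = (2 ^ 0 + 2 ^ ((a + c) % 6)) % 21 → b = c := by decide
      exact hdec a ha b hb c hc h2
  ext x
  rw [hσ, hτ, hbc]

theorem fld_n3 {n d : ℕ} (hF : Fintype.card F = 2 ^ n) (hn : 2 ≤ n) (K : Subgroup Fˣ) (hK : d * Nat.card K = 2 ^ n - 1)
    (hd : d ∣ n) (σ τ : F ≃+* F) (hne : σ ≠ τ)
    (h : ∀ u ∈ K, σ (u : F) * τ (u : F) = (u : F) * ((u : F) * (u : F))) :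
    σ = RingEquiv.refl F ∨ τ = RingEquiv.refl F ∨ (Fintype.card F = 64 ∧
      ((∀ x, σ x = x ^ 8) ∧ (∀ x, τ x = x ^ 16) ∨ (∀ x, σ x = x ^ 16) ∧ (∀ x, τ x = x ^ 8))) := by
  obtain ⟨i, hi, hσ⟩ := F_frob hF σ
  obtain ⟨j, hj, hτ⟩ := F_frob hF τ
  obtain ⟨u, hu, ho, hmod⟩ := F_gen K rfl
  have h1 := h u hu
  rw [hσ, hτ, ← pow_add] at h1
  have h2 : 2 ^ i + 2 ^ j ≡ 2 ^ 0 + 2 ^ 1 [MOD Nat.card K] := hmod _ _ (by rw [h1]; ring)
  have r0 : ∀ s : F ≃+* F, (∀ x, s x = x ^ (2 ^ 0)) → s = RingEquiv.refl F := by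
    intro s hs
    ext x
    rw [hs, pow_zero, pow_one]; rfl
  rcases arith_two_pow hn hd hK hi hj (by omega : 0 < n) (by omega : 1 < n) h2 with ⟨h4, h5⟩ | ⟨h4, h5⟩ | ⟨h4, h5⟩
  · subst h4
    exact Or.inl (r0 _ hσ)
  · subst h5
    exact Or.inr (Or.inl (r0 _ hτ))
  · subst h4
    rw [h5] at h2
    have hdec : ∀ i < 6, ∀ j < 6, (2 ^ i + 2 ^ j) % 21 = (2 ^ 0 + 2 ^ 1) % 21 → i = 0 ∨ j = 0 ∨ (i = 3 ∧ j = 4) ∨ (i = 4 ∧ j = 3) := by decide
    rcases hdec i hi j hj h2 with h6 | h6 | ⟨h6, h7⟩ | ⟨h6, h7⟩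
    · subst h6
      exact Or.inl (r0 _ hσ)
    · subst h6
      exact Or.inr (Or.inl (r0 _ hτ))
    · subst h6 h7
      exact Or.inr (Or.inr ⟨by rw [hF]; norm_num, Or.inl ⟨fun x => by rw [hσ]; norm_num, fun x => by rw [hτ]; norm_num⟩⟩)
    · subst h6 h7
      exact Or.inr (Or.inr ⟨by rw [hF]; norm_num, Or.inr ⟨fun x => by rw [hσ]; norm_num, fun x => by rw [hτ]; norm_num⟩⟩)

end Cfsg.Agent.Lib.H81Suz
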