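import Cfsg.Agent.Lib.H81Suz0

/-! S3776, piece L (helper70): additive subgroups of `F →+ F` stable under conjugation by `K`. -/

set_option autoImplicit false
set_option linter.all false
set_option maxHeartbeats 400000

namespace Cfsg.Agent.Lib.H81Suz

open Cfsg Cfsg.Agent.Lib.HigmanLin Polynomial

section
variable {F : Type} [Field F] [Fintype F] [CharP F 2]

/-- coefficient vectors to additive maps -/
def Lsum [Fintype (F ≃+* F)] : ((F ≃+* F) → F) →+ (F →+ F) where
  toFun := fun c => ∑ σ : F ≃+* F, mon (c σ) σ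
  map_zero' := by
    ext x
    simp [AddMonoidHom.finset_sum_apply, mon_apply]
  map_add' := by
    intro c d
    ext x
    simp [AddMonoidHom.finset_sum_apply, mon_apply, add_mul, Finset.sum_add_distrib]

theorem Lsum_apply [Fintype (F ≃+* F)] (c : (F ≃+* F) → F) (x : F) :
    Lsum c x = ∑ σ : F ≃+* F, c σ * σ x := by
  change (∑ σ : F ≃+* F, mon (c σ) σ) x = _
  rw [AddMonoidHom.finset_sum_apply]
  rfl

theorem Lsum_cj [Fintype (F ≃+* F)] (κ : F) (hκ : κ ≠ 0) (c : (F ≃+* F) → F) :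
    Lsum (fun σ => κ / σ κ * c σ) = cj κ (Lsum c) := by
  ext x
  rw [Lsum_apply, cj_apply, Lsum_apply, Finset.mul_sum]
  refine Finset.sum_congr rfl fun σ _ => ?_
  have : σ κ ≠ 0 := fun h => hκ ((map_eq_zero σ).1 h)
  rw [map_mul, map_inv₀]
  field_simp

theorem Lpoly [Fintype (F ≃+* F)] [Algebra (ZMod 2) F] (S : AddSubgroup (F →+ F)) (κ : F) (hκ : κ ≠ 0)
    (hinv : ∀ b ∈ S, cj κ b ∈ S) (p : (ZMod 2)[X]) : ∀ c : (F ≃+* F) → F, Lsum c ∈ S →
      Lsum (fun σ => aeval (κ / σ κ) p * c σ) ∈ S := by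
  induction p using Polynomial.induction_on with
  | C a =>
    intro c hc
    have h2 : ∀ a : ZMod 2, a = 0 ∨ a = 1 := by decide
    rcases h2 a with rfl | rfl
    · have : (fun σ : F ≃+* F => aeval (κ / σ κ) (C (0 : ZMod 2)) * c σ) = 0 := by
        funext σ
        simp
      rw [this, map_zero]
      exact S.zero_mem
    · have : (fun σ : F ≃+* F => aeval (κ / σ κ) (C (1 : ZMod 2)) * c σ) = c := by
        funext σ
        simp
      rw [this]
      exact hc
  | add p q hp hq =>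
    intro c hc
    have : (fun σ : F ≃+* F => aeval (κ / σ κ) (p + q) * c σ) =
        (fun σ => aeval (κ / σ κ) p * c σ) + (fun σ => aeval (κ / σ κ) q * c σ) := by
      funext σ
      simp [add_mul]
    rw [this, map_add]
    exact S.add_mem (hp c hc) (hq c hc)
  | monomial n a ih =>
    intro c hc
    have h1 := ih c hc
    have h2 := hinv _ h1
    rw [← Lsum_cj κ hκ] at h2
    have : (fun σ : F ≃+* F => aeval (κ / σ κ) (C a * X ^ (n + 1)) * c σ) =
        (fun σ => κ / σ κ * (aeval (κ / σ κ) (C a * X ^ n) * c σ)) := by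
      funext σ
      simp only [map_mul, map_pow, aeval_X, aeval_C]
      ring
    rw [this]
    exact h2

theorem mono_K [Fintype (F ≃+* F)] (K : Subgroup Fˣ)
    (u1 : ∀ ρ σ τ : F ≃+* F, (∀ u ∈ K, ρ (u : F) * τ (u : F) = (u : F) * ρ (σ (u : F))) → σ = τ)
    (S : AddSubgroup (F →+ F)) (hinv : ∀ u ∈ K, ∀ b ∈ S, cj (u : F) b ∈ S) : ∀ b ∈ S,
    ∃ co : (F ≃+* F) → F, (∀ x, b x = ∑ σ : F ≃+* F, co σ * σ x) ∧ ∀ σ, mon (co σ) σ ∈ S := by
  classical
  letI : Algebra (ZMod 2) F := ZMod.algebra F 2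
  haveI : Fact (Nat.Prime 2) := ⟨Nat.prime_two⟩
  intro b hb
  obtain ⟨co, hco⟩ := S1140.span_all b
  refine ⟨co, hco, ?_⟩
  have hbS : Lsum co ∈ S := by
    have : Lsum co = b := by
      ext x
      rw [Lsum_apply, hco]
    rw [this]
    exact hb
  obtain ⟨⟨u, huK⟩, hu⟩ := IsCyclic.exists_generator (α := K)
  set κ : F := (u : F) with hκ
  have hκ0 : κ ≠ 0 := u.ne_zero
  have hs0 : ∀ σ : F ≃+* F, σ κ ≠ 0 := fun σ h => hκ0 ((map_eq_zero σ).1 h)
  have hint : ∀ x : F, IsIntegral (ZMod 2) x := fun x => Algebra.IsIntegral.isIntegral x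
  -- distinct automorphisms have distinct minimal polynomials
  have hsep : ∀ σ τ : F ≃+* F, σ ≠ τ → aeval (κ / σ κ) (minpoly (ZMod 2) (κ / τ κ)) ≠ 0 := by
    intro σ τ hne h0
    have h1 : minpoly (ZMod 2) (κ / τ κ) = minpoly (ZMod 2) (κ / σ κ) :=
      minpoly.eq_of_irreducible_of_monic (minpoly.irreducible (hint _)) h0 (minpoly.monic (hint _))
    rw [eq_comm, Normal.minpoly_eq_iff_mem_orbit] at h1
    obtain ⟨ρ, hρ⟩ := h1
    have hρ' : ρ (κ / τ κ) = κ / σ κ := hρ
    apply hne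
    symm
    apply u1 ρ.toRingEquiv τ σ
    intro v hv
    obtain ⟨n, hn⟩ := Subgroup.mem_zpowers_iff.1 (hu ⟨v, hv⟩)
    have hvn : (v : F) = κ ^ n := by
      have := congrArg (fun w : K => ((w : Fˣ) : F)) hn
      simp only [Subgroup.coe_zpow, Units.val_zpow_eq_zpow_val] at this
      exact this.symm
    have hb1 : ρ κ * σ κ = κ * ρ (τ κ) := by
      rw [map_div₀, div_eq_div_iff] at hρ'
      · exact hρ'
      · intro h
        exact hs0 τ ((map_eq_zero ρ).1 h)
      · exact hs0 σ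
    change ρ (v : F) * σ (v : F) = (v : F) * ρ (τ (v : F))
    rw [hvn, map_zpow₀, map_zpow₀, map_zpow₀, map_zpow₀, ← mul_zpow, ← mul_zpow, hb1]
  intro σ
  let P : (ZMod 2)[X] := ∏ τ ∈ Finset.univ.erase σ, minpoly (ZMod 2) (κ / τ κ)
  have hP1 : aeval (κ / σ κ) P ≠ 0 := by
    rw [map_prod]
    apply Finset.prod_ne_zero_iff.2
    intro τ hτ
    exact hsep σ τ (fun h => (Finset.mem_erase.1 hτ).1 h.symm)
  have hP2 : ∀ τ, τ ≠ σ → aeval (κ / τ κ) P = 0 := by
    intro τ hτ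
    rw [map_prod]
    apply Finset.prod_eq_zero (Finset.mem_erase.2 ⟨hτ, Finset.mem_univ _⟩)
    exact minpoly.aeval _ _
  have hq : 0 < Fintype.card F - 1 := by
    have := Fintype.one_lt_card (α := F)
    omega
  have h3 := Lpoly S κ hκ0 (hinv u huK) (P ^ (Fintype.card F - 1)) co hbS
  have h4 : (fun τ : F ≃+* F => aeval (κ / τ κ) (P ^ (Fintype.card F - 1)) * co τ) =
      Pi.single σ (co σ) := by
    funext τ
    by_cases hτ : τ = σ
    · subst hτ
      rw [Pi.single_eq_same, map_pow, FiniteField.pow_card_sub_one_eq_one _ hP1, one_mul]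
    · rw [Pi.single_eq_of_ne hτ, map_pow, hP2 τ hτ, zero_pow hq.ne', zero_mul]
  rw [h4] at h3
  have h5 : Lsum (Pi.single σ (co σ)) = mon (co σ) σ := by
    ext x
    rw [Lsum_apply, mon_apply]
    simp [Pi.single_apply]
  rw [← h5]
  exact h3

end

end Cfsg.Agent.Lib.H81Suz
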