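import Cfsg.Agent.Lib.HigmanLin

/-! S3776, piece N (helper42): an alternating `K`-equivariant biadditive map vanishes. -/

set_option autoImplicit false
set_option linter.all false

namespace Cfsg.Agent.Lib.H81Suz

open Cfsg Cfsg.Agent.Lib.HigmanLin

section
variable {F : Type} [Field F] [Fintype F] [CharP F 2]

theorem N_indep2 [Fintype (F ≃+* F)] (d : (F ≃+* F) → (F ≃+* F) → F)
    (h : ∀ x y : F, ∑ σ : F ≃+* F, ∑ τ : F ≃+* F, d σ τ * (σ x * τ y) = 0) : ∀ σ τ, d σ τ = 0 := by
  intro σ τ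
  have h1 : ∀ y : F, (fun σ : F ≃+* F => ∑ τ : F ≃+* F, d σ τ * τ y) = 0 := by
    intro y
    apply indep
    intro x
    have := h x y
    rw [← this]
    refine Finset.sum_congr rfl fun σ _ => ?_
    rw [Finset.sum_mul]
    refine Finset.sum_congr rfl fun τ _ => ?_
    ring
  have h2 : (fun τ : F ≃+* F => d σ τ) = 0 := by
    apply indep
    intro y
    exact congrFun (h1 y) σ
  exact congrFun h2 τ

theorem alt_zero (K : Subgroup Fˣ) (n2 : ∀ σ τ : F ≃+* F, (∀ u ∈ K, σ (u : F) * τ (u : F) = (u : F)) → σ = τ)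
    (B : F → F → F) (h1 : ∀ x y z, B (x + y) z = B x z + B y z) (h2 : ∀ x y z, B x (y + z) = B x y + B x z)
    (h3 : ∀ x, B x x = 0) (h4 : ∀ u ∈ K, ∀ x y, B ((u : F) * x) ((u : F) * y) = (u : F) * B x y) : ∀ x y, B x y = 0 := by
  classical
  haveI : Finite (F ≃+* F) :=
    Finite.of_injective (fun σ : F ≃+* F => (σ : F → F)) DFunLike.coe_injective
  letI : Fintype (F ≃+* F) := Fintype.ofFinite _
  haveI : Fact (Nat.Prime 2) := ⟨Nat.prime_two⟩
  let Bm : F →+ F →+ F := AddMonoidHom.mk' (fun x => AddMonoidHom.mk' (fun y => B x y) (fun y z => h2 x y z))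
    (fun x y => by ext z; exact h1 x y z)
  have hBm : ∀ x y, Bm x y = B x y := fun x y => rfl
  obtain ⟨s, c, hc⟩ := (S1140.result (F := F)).2.2 Bm
  let d : (F ≃+* F) → (F ≃+* F) → F := fun σ τ => if (σ, τ) ∈ s then c (σ, τ) else 0
  have hd : ∀ x y, B x y = ∑ σ : F ≃+* F, ∑ τ : F ≃+* F, d σ τ * (σ x * τ y) := by
    intro x y
    rw [← hBm, hc x y, ← Finset.sum_product']
    rw [Finset.univ_product_univ]
    have : ∀ p : (F ≃+* F) × (F ≃+* F), d p.1 p.2 * (p.1 x * p.2 y) =
        if p ∈ s then c p * (p.1 x * p.2 y) else 0 := by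
      rintro ⟨σ, τ⟩
      simp only [d]
      split_ifs <;> simp
    rw [Finset.sum_congr rfl fun p _ => this p]
    rw [Finset.sum_ite_mem, Finset.univ_inter]
  have hoff : ∀ σ τ, σ ≠ τ → d σ τ = 0 := by
    intro σ τ hne
    by_contra hd0
    apply hne
    apply n2
    intro u hu
    have h5 := N_indep2 (fun σ τ => d σ τ * (σ (u : F) * τ (u : F) - (u : F))) (by
      intro x y
      have h6 := h4 u hu x y
      rw [hd, hd, Finset.mul_sum] at h6
      rw [← sub_eq_zero, ← Finset.sum_sub_distrib] at h6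
      rw [← h6]
      refine Finset.sum_congr rfl fun σ _ => ?_
      rw [Finset.mul_sum, ← Finset.sum_sub_distrib]
      refine Finset.sum_congr rfl fun τ _ => ?_
      rw [map_mul, map_mul]
      ring) σ τ
    rcases mul_eq_zero.1 h5 with h | h
    · exact absurd h hd0
    · exact sub_eq_zero.1 h
  have hdiag : ∀ x y, B x y = ∑ σ : F ≃+* F, d σ σ * (σ x * σ y) := by
    intro x y
    rw [hd]
    refine Finset.sum_congr rfl fun σ _ => ?_
    rw [Finset.sum_eq_single σ]
    · intro τ _ hne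
      rw [hoff σ τ hne.symm, zero_mul]
    · intro h; exact absurd (Finset.mem_univ _) h
  have hz : (fun σ : F ≃+* F => d σ σ) = 0 := by
    apply indep
    intro z
    obtain ⟨x, hx⟩ := (frobeniusEquiv F 2).surjective z
    have hx' : x * x = z := by
      rw [← hx, frobeniusEquiv_apply, frobenius_def, pow_two]
    rw [← hx']
    have := h3 x
    rw [hdiag] at this
    rw [← this]
    refine Finset.sum_congr rfl fun σ _ => ?_
    rw [map_mul]
  intro x y
  rw [hdiag]
  refine Finset.sum_eq_zero fun σ _ => ?_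
  have := congrFun hz σ
  simp only [Pi.zero_apply] at this
  rw [this, zero_mul]

end

end Cfsg.Agent.Lib.H81Suz
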