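import Cfsg.Agent.Lib.H81Suz0

/-!
# S3776, piece P (helper99)
-/

set_option autoImplicit false
set_option linter.all false

namespace Cfsg.Agent.Lib.H81Suz

open Cfsg.Agent.Lib.HigmanLin

universe u

variable {G : Type u} [Group G] [Finite G] {Y : Subgroup (MulAut G)}
variable {F : Type} [Field F] [Fintype F] [CharP F 2] [Fintype (F ≃+* F)] {e : G → F} {K : Subgroup Fˣ} {H A : Subgroup G}

theorem noncentral_case (C : Ctx Y e K) (M : MinCE Y H) {N : Subgroup G} (hN : Yinv Y N) (hNH : N ≤ H)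
    (h2 : ∃ n ∈ N, n ^ 2 ≠ 1) (hcomm : ∀ n ∈ N, ∀ x ∈ H, (n * x * n⁻¹ * x⁻¹) ^ 2 = 1)
    (hsq : ∀ n ∈ N, ∀ x ∈ H, n * x ^ 2 = x ^ 2 * n) (hab : ∀ n ∈ N, ∀ m ∈ N, n * m = m * n)
    (hnc : ∃ n ∈ N, ∃ x ∈ H, n * x ≠ x * n) : ∃ A, HasA Y H A := by
  let A : Subgroup G :=
    { carrier := {z | z ∈ H ∧ ∀ n ∈ N, z * n = n * z}
      one_mem' := ⟨H.one_mem, fun x _ => by rw [one_mul, mul_one]⟩
      mul_mem' := by
        rintro a b ⟨ha, ha'⟩ ⟨hb, hb'⟩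
        refine ⟨H.mul_mem ha hb, fun x hx => ?_⟩
        rw [mul_assoc, hb' x hx, ← mul_assoc, ha' x hx, mul_assoc]
      inv_mem' := by
        rintro a ⟨ha, ha'⟩
        refine ⟨H.inv_mem ha, fun x hx => ?_⟩
        rw [inv_mul_eq_iff_eq_mul, ← mul_assoc, ha' x hx, mul_assoc, mul_inv_cancel, mul_one] }
  have hNA : N ≤ A := fun n hn => ⟨hNH hn, fun m hm => hab n hn m hm⟩
  have hAinv : Yinv Y A := by
    rintro a ha w ⟨hw, hw'⟩
    refine ⟨M.inv a ha w hw, fun x hx => ?_⟩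
    have h1 : a⁻¹ x ∈ N := hN a⁻¹ (Y.inv_mem ha) x hx
    have h2 := congrArg a (hw' _ h1)
    rw [map_mul, map_mul] at h2
    have h3 : a (a⁻¹ x) = x := by rw [← MulAut.mul_apply, mul_inv_cancel, MulAut.one_apply]
    rw [h3] at h2
    exact h2
  have hAle : A ≤ H := fun x hx => hx.1
  have hAne : A ≠ H := by
    intro hEq
    obtain ⟨n, hn, x, hx, hnx⟩ := hnc
    rw [← hEq] at hx
    exact hnx (hx.2 n hn).symm
  obtain ⟨n, hn, hn2⟩ := h2
  have hAab : ∀ x ∈ A, ∀ y ∈ A, x * y = y * x := by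
    rcases M.ih A hAle hAinv hAne with h | h
    · exact h
    · by_contra hna
      push Not at hna
      obtain ⟨x, hx, y, hy, hxy⟩ := hna
      exact hn2 (C.toSetup.center_sq hAinv h ⟨x, hx, y, hy, hxy⟩ (hNA hn) (fun x hx => (hx.2 n hn).symm))
  exact ⟨A, hAle, hAinv, hAab, fun x hx h => ⟨hx, fun m hm => h m (hNA hm)⟩,
    fun x hx => ⟨H.pow_mem hx 2, fun m hm => (hsq m hm x hx).symm⟩, ⟨n, hNA hn, hn2⟩⟩

end Cfsg.Agent.Lib.H81Suz
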