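import Cfsg.Agent.Lib.H81Suz0

/-! S3776 (plan of helper81), piece Q: the central case (helper23). -/

set_option autoImplicit false
set_option linter.all false

namespace Cfsg.Agent.Lib.H81Suz

open Cfsg.Agent.Lib.HigmanLin (mon cj)

universe u

variable {G : Type u} [Group G] [Finite G] {Y : Subgroup (MulAut G)}

/-- the centre of `H` -/
def QZ (H : Subgroup G) : Subgroup G :=
  { carrier := {z | z ∈ H ∧ ∀ x ∈ H, z * x = x * z}
    one_mem' := ⟨H.one_mem, fun x _ => by rw [one_mul, mul_one]⟩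
    mul_mem' := by
      rintro a b ⟨ha, ha'⟩ ⟨hb, hb'⟩
      refine ⟨H.mul_mem ha hb, fun x hx => ?_⟩
      rw [mul_assoc, hb' x hx, ← mul_assoc, ha' x hx, mul_assoc]
    inv_mem' := by
      rintro a ⟨ha, ha'⟩
      refine ⟨H.inv_mem ha, fun x hx => ?_⟩
      rw [inv_mul_eq_iff_eq_mul, ← mul_assoc, ha' x hx, mul_assoc, mul_inv_cancel, mul_one] }

theorem Q_aut {a : MulAut G} (x : G) : a (a⁻¹ x) = x := by rw [← MulAut.mul_apply, mul_inv_cancel, MulAut.one_apply]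

theorem QZ_inv {H : Subgroup G} (hX : Yinv Y H) : Yinv Y (QZ H) := by
  rintro a ha w ⟨hw, hw'⟩
  refine ⟨hX a ha w hw, fun x hx => ?_⟩
  have h1 : a⁻¹ x ∈ H := hX a⁻¹ (Y.inv_mem ha) x hx
  have h2 := congrArg a (hw' _ h1)
  rw [map_mul, map_mul, Q_aut] at h2
  exact h2

theorem QZ_conj {H : Subgroup G} {c x : G} (hc : c ∈ QZ H) (hx : x ∈ H) : x * c * x⁻¹ = c := by
  rw [← hc.2 x hx, mul_inv_cancel_right]

/-- the second centre, squares in the centre -/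
def QN (H : Subgroup G) : Subgroup G :=
  { carrier := {x | x ∈ H ∧ x ^ 2 ∈ QZ H ∧ ∀ h ∈ H, x * h * x⁻¹ * h⁻¹ ∈ QZ H}
    one_mem' := ⟨H.one_mem, by rw [one_pow]; exact (QZ H).one_mem, fun x _ => by
      rw [one_mul, inv_one, mul_one, mul_inv_cancel]; exact (QZ H).one_mem⟩
    mul_mem' := by
      rintro x y ⟨hx, hx2, hxc⟩ ⟨hy, hy2, hyc⟩
      refine ⟨H.mul_mem hx hy, ?_, fun h hh => ?_⟩
      · have e1 : (x * y) ^ 2 = x ^ 2 * (x⁻¹ * (x * y * x⁻¹ * y⁻¹)⁻¹ * x⁻¹⁻¹) * y ^ 2 := by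
          simp only [pow_two]; group
        rw [e1, QZ_conj ((QZ H).inv_mem (hxc y hy)) (H.inv_mem hx)]
        exact (QZ H).mul_mem ((QZ H).mul_mem hx2 ((QZ H).inv_mem (hxc y hy))) hy2
      · have e1 : x * y * h * (x * y)⁻¹ * h⁻¹ = (x * (y * h * y⁻¹ * h⁻¹) * x⁻¹) * (x * h * x⁻¹ * h⁻¹) := by group
        rw [e1, QZ_conj (hyc h hh) hx]
        exact (QZ H).mul_mem (hyc h hh) (hxc h hh)
    inv_mem' := by
      rintro x ⟨hx, hx2, hxc⟩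
      refine ⟨H.inv_mem hx, by rw [inv_pow]; exact (QZ H).inv_mem hx2, fun h hh => ?_⟩
      have e1 : x⁻¹ * h * x⁻¹⁻¹ * h⁻¹ = x⁻¹ * (x * h * x⁻¹ * h⁻¹)⁻¹ * x⁻¹⁻¹ := by group
      rw [e1, QZ_conj ((QZ H).inv_mem (hxc h hh)) (H.inv_mem hx)]
      exact (QZ H).inv_mem (hxc h hh) }

theorem QN_inv {H : Subgroup G} (hX : Yinv Y H) : Yinv Y (QN H) := by
  rintro a ha w ⟨hw, hw2, hwc⟩
  refine ⟨hX a ha w hw, ?_, fun x hx => ?_⟩
  · rw [← map_pow]; exact QZ_inv hX a ha _ hw2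
  · have h1 : a⁻¹ x ∈ H := hX a⁻¹ (Y.inv_mem ha) x hx
    have h2 := QZ_inv hX a ha _ (hwc _ h1)
    simpa only [map_mul, map_inv, Q_aut] using h2

theorem QZ_le_QN (H : Subgroup G) : QZ H ≤ QN H := by
  intro z hz
  refine ⟨hz.1, (QZ H).pow_mem hz 2, fun h hh => ?_⟩
  rw [hz.2 h hh, mul_inv_cancel_right, mul_inv_cancel]
  exact (QZ H).one_mem

/-- commutators of `QN` are involutions -/
theorem QN_sq {H : Subgroup G} {n x : G} (hn : n ∈ QN H) (hx : x ∈ H) : (n * x * n⁻¹ * x⁻¹) ^ 2 = 1 := by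
  obtain ⟨hnH, hn2, hnc⟩ := hn
  have e1 : (n * (n * x * n⁻¹ * x⁻¹) * n⁻¹) * (n * x * n⁻¹ * x⁻¹) = n ^ 2 * x * (n ^ 2)⁻¹ * x⁻¹ := by
    simp only [pow_two]; group
  rw [QZ_conj (hnc x hx) hnH, hn2.2 x hx, mul_inv_cancel_right, mul_inv_cancel] at e1
  rw [pow_two]; exact e1

theorem QN_comm_sq {H : Subgroup G} {n x : G} (hn : n ∈ QN H) (hx : x ∈ H) : n * x ^ 2 = x ^ 2 * n := by
  have h1 := QN_sq hn hx
  have hc := hn.2.2 x hx
  obtain ⟨c, hcd⟩ : ∃ c, c = n * x * n⁻¹ * x⁻¹ := ⟨_, rfl⟩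
  rw [← hcd] at h1 hc
  have e1 : n * x = c * x * n := by rw [hcd]; group
  calc n * x ^ 2 = (n * x) * x := by rw [pow_two, mul_assoc]
    _ = c * x * n * x := by rw [e1]
    _ = c * x * (n * x) := by simp only [mul_assoc]
    _ = c * x * (c * x * n) := by rw [e1]
    _ = c * (x * c) * x * n := by simp only [mul_assoc]
    _ = (c ^ 2) * x ^ 2 * n := by rw [← hc.2 x hx]; simp only [pow_two, mul_assoc]
    _ = x ^ 2 * n := by rw [h1, one_mul]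

/-- a nonabelian 2-group has an element of `QN` outside the centre -/
theorem exists_QN (h2 : IsPGroup 2 G) {H : Subgroup G} (hna : ∃ x ∈ H, ∃ y ∈ H, x * y ≠ y * x) :
    ∃ n ∈ QN H, ∃ x ∈ H, n * x ≠ x * n := by
  haveI : Fact (Nat.Prime 2) := ⟨Nat.prime_two⟩
  have hH : IsPGroup 2 H := h2.to_subgroup H
  have hne : Subgroup.center H ≠ ⊤ := by
    intro htop
    obtain ⟨x, hx, y, hy, hxy⟩ := hna
    apply hxy
    have h1 : (⟨x, hx⟩ : H) ∈ Subgroup.center H := by rw [htop]; trivial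
    have h3 := Subgroup.mem_center_iff.1 h1 ⟨y, hy⟩
    exact (congrArg Subtype.val h3).symm
  haveI : Nontrivial (H ⧸ Subgroup.center H) := QuotientGroup.nontrivial_iff.2 hne
  have hq : IsPGroup 2 (H ⧸ Subgroup.center H) := hH.to_quotient _
  haveI := hq.center_nontrivial
  obtain ⟨⟨c, hc⟩, hc1⟩ := exists_ne (1 : Subgroup.center (H ⧸ Subgroup.center H))
  have hc1' : c ≠ 1 := fun h => hc1 (Subtype.ext h)
  obtain ⟨k, hk⟩ := hq c
  have hex : ∃ k : ℕ, c ^ (2 ^ k) = 1 := ⟨k, hk⟩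
  classical
  have hm0 : Nat.find hex ≠ 0 := by
    intro h0
    have := Nat.find_spec hex
    rw [h0, pow_zero, pow_one] at this
    exact hc1' this
  obtain ⟨j, hj⟩ := Nat.exists_eq_succ_of_ne_zero hm0
  have hd1 : c ^ (2 ^ j) ≠ 1 := Nat.find_min hex (m := j) (by omega)
  have hd2 : (c ^ (2 ^ j)) ^ 2 = 1 := by
    rw [← pow_mul, ← pow_succ, ← Nat.succ_eq_add_one, ← hj]; exact Nat.find_spec hex
  have hd3 : c ^ (2 ^ j) ∈ Subgroup.center (H ⧸ Subgroup.center H) := Subgroup.pow_mem _ hc _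
  obtain ⟨d, hd⟩ : ∃ d, d = c ^ (2 ^ j) := ⟨_, rfl⟩
  rw [← hd] at hd1 hd2 hd3
  obtain ⟨x, rfl⟩ := QuotientGroup.mk_surjective d
  have hmem : ∀ z : H, z ∈ Subgroup.center H → (z : G) ∈ QZ H := by
    intro z hz
    refine ⟨z.2, fun y hy => ?_⟩
    exact (congrArg Subtype.val (Subgroup.mem_center_iff.1 hz ⟨y, hy⟩)).symm
  refine ⟨x, ⟨x.2, ?_, fun h hh => ?_⟩, ?_⟩
  · have e1 : ((x ^ 2 : H) : H ⧸ Subgroup.center H) = 1 := by rw [QuotientGroup.mk_pow]; exact hd2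
    rw [QuotientGroup.eq_one_iff] at e1
    exact hmem _ e1
  · have e1 := Subgroup.mem_center_iff.1 hd3 ((⟨h, hh⟩ : H) : H ⧸ Subgroup.center H)
    have e2 : ((x * ⟨h, hh⟩ * x⁻¹ * (⟨h, hh⟩ : H)⁻¹ : H) : H ⧸ Subgroup.center H) = 1 := by
      rw [QuotientGroup.mk_mul, QuotientGroup.mk_mul, QuotientGroup.mk_mul, QuotientGroup.mk_inv, QuotientGroup.mk_inv, ← e1,
        mul_inv_cancel_right, mul_inv_cancel]
    rw [QuotientGroup.eq_one_iff] at e2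
    exact hmem _ e2
  · by_contra hcon
    push Not at hcon
    apply hd1
    rw [QuotientGroup.eq_one_iff, Subgroup.mem_center_iff]
    intro g
    exact Subtype.ext (hcon g g.2).symm

/-- the exponent of the centre -/
theorem exists_exp (h2 : IsPGroup 2 G) (Z : Subgroup G) (hz : ∃ z ∈ Z, z ^ 2 ≠ 1) :
    ∃ k : ℕ, 1 ≤ k ∧ (∃ a ∈ Z, a ^ (2 ^ k) ≠ 1) ∧ ∀ a ∈ Z, a ^ (2 ^ (k + 1)) = 1 := by
  classical
  obtain ⟨m, hm⟩ := h2.exists_card_eq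
  have hex : ∃ k : ℕ, ∀ a ∈ Z, a ^ (2 ^ (k + 1)) = 1 := by
    refine ⟨m, fun a _ => ?_⟩
    rw [pow_succ, pow_mul, ← hm, pow_card_eq_one', one_pow]
  obtain ⟨z, hz, hz2⟩ := hz
  have hk0 : Nat.find hex ≠ 0 := by
    intro h0
    have := Nat.find_spec hex z hz
    rw [h0] at this
    exact hz2 (by simpa using this)
  obtain ⟨j, hj⟩ := Nat.exists_eq_succ_of_ne_zero hk0
  refine ⟨Nat.find hex, by omega, ?_, Nat.find_spec hex⟩
  have := Nat.find_min hex (m := j) (by omega)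
  push Not at this
  obtain ⟨a, ha, ha1⟩ := this
  exact ⟨a, ha, by rw [hj]; exact ha1⟩

variable {F : Type} [Field F] [Fintype F] [CharP F 2] [Fintype (F ≃+* F)] {e : G → F} {K : Subgroup Fˣ} {H A : Subgroup G}

theorem Q_einj (C : Ctx Y e K) {v w : G} (hv : v ^ 2 = 1) (hw : w ^ 2 = 1) (h : e v = e w) : v = w := by
  have h1 : e (v * w) = 0 := by rw [C.add v w hv hw, h, CharTwo.add_self_eq_zero]
  have h3 : (v * w) ^ 2 = 1 := by
    have hc : Commute v w := C.cen v hv w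
    rw [hc.mul_pow, hv, hw, one_mul]
  have h4 := C.inj _ h3 h1
  have h5 : w * w = 1 := by rw [← pow_two]; exact hw
  calc v = v * (w * w) := by rw [h5, mul_one]
    _ = w := by rw [← mul_assoc, h4, one_mul]

theorem central_case (C : Ctx Y e K) (M : MinCE Y H) (hz : ∃ z ∈ H, z ^ 2 ≠ 1 ∧ ∀ x ∈ H, z * x = x * z) :
    ∃ N : Subgroup G, Yinv Y N ∧ N ≤ H ∧ (∃ n ∈ N, n ^ 2 ≠ 1) ∧ (∀ n ∈ N, ∀ x ∈ H, (n * x * n⁻¹ * x⁻¹) ^ 2 = 1) ∧
      (∀ n ∈ N, ∀ x ∈ H, n * x ^ 2 = x ^ 2 * n) ∧ (∀ n ∈ N, ∀ m ∈ N, n * m = m * n) ∧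
      ∃ n ∈ N, ∃ x ∈ H, n * x ≠ x * n := by
  obtain ⟨z, hzH, hz2, hzc⟩ := hz
  have hzZ : z ∈ QZ H := ⟨hzH, hzc⟩
  have hNinv : Yinv Y (QN H) := QN_inv M.inv
  obtain ⟨n₀, hn₀, x₀, hx₀, hnx⟩ := exists_QN C.two M.na
  refine ⟨QN H, hNinv, fun x hx => hx.1, ⟨z, QZ_le_QN H hzZ, hz2⟩, fun n hn x hx => QN_sq hn hx,
    fun n hn x hx => QN_comm_sq hn hx, ?_, n₀, hn₀, x₀, hx₀, hnx⟩
  obtain ⟨k, hk1, hka, hkb⟩ := exists_exp C.two (QZ H) ⟨z, hzZ, hz2⟩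
  have hZab : ∀ x ∈ QZ H, ∀ y ∈ QZ H, x * y = y * x := fun x hx y hy => hx.2 y hy.1
  obtain ⟨f, hf⟩ : ∃ f : G → G, f = fun x => x ^ (2 ^ (k + 1)) := ⟨_, rfl⟩
  have hfx : ∀ x, f x = (x ^ 2) ^ (2 ^ k) := fun x => by rw [hf, ← pow_mul, ← pow_succ']
  have hfmul : ∀ x ∈ QN H, ∀ y ∈ QN H, f (x * y) = f x * f y := by
    intro x hx y hy
    have e1 : (x * y) ^ 2 = x ^ 2 * (x⁻¹ * (x * y * x⁻¹ * y⁻¹)⁻¹ * x⁻¹⁻¹) * y ^ 2 := by
      simp only [pow_two]; group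
    rw [QZ_conj ((QZ H).inv_mem (hx.2.2 y hy.1)) (H.inv_mem hx.1)] at e1
    have hd := (QZ H).inv_mem (hx.2.2 y hy.1)
    have hd2 : ((x * y * x⁻¹ * y⁻¹)⁻¹) ^ 2 = 1 := by rw [inv_pow, QN_sq hx hy.1, inv_one]
    obtain ⟨d, hdd⟩ : ∃ d, d = (x * y * x⁻¹ * y⁻¹)⁻¹ := ⟨_, rfl⟩
    rw [← hdd] at e1 hd hd2
    have c1 : Commute (x ^ 2) d := hZab _ hx.2.1 _ hd
    have c2 : Commute (x ^ 2 * d) (y ^ 2) := hZab _ ((QZ H).mul_mem hx.2.1 hd) _ hy.2.1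
    have hdk : d ^ (2 ^ k) = 1 := by
      obtain ⟨j, rfl⟩ : ∃ j, k = j + 1 := ⟨k - 1, by omega⟩
      rw [pow_succ', pow_mul, hd2, one_pow]
    rw [hfx, hfx, hfx, e1, c2.mul_pow, c1.mul_pow, hdk, mul_one]
  have hfV : ∀ x ∈ QN H, f x ^ 2 = 1 := by
    intro x hx
    rw [hfx, ← pow_mul, ← pow_succ]
    exact hkb _ hx.2.1
  have hfinv : ∀ x ∈ QN H, f x⁻¹ = (f x)⁻¹ := fun x hx => by rw [hf]; exact inv_pow _ _
  -- the kernel
  have hker : ∀ x ∈ QN H, f x = 1 → x ∈ QZ H := by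
    intro x hx h1
    rw [hfx] at h1
    obtain ⟨c, hc, hc2⟩ := C.toSetup.homocyclic (QZ_inv M.inv) hZab hka k (by omega) _ hx.2.1 h1
    rw [show k + 1 - k = 1 by omega, pow_one] at hc2
    have hcx : Commute x c⁻¹ := Commute.inv_right (show Commute x c from (hc.2 x hx.1).symm)
    have h5 : (x * c⁻¹) ^ 2 = 1 := by
      rw [hcx.mul_pow, inv_pow, hc2, mul_inv_cancel]
    refine ⟨hx.1, fun y hy => ?_⟩
    have h6 := C.cen _ h5 y
    have h7 : x = (x * c⁻¹) * c := by group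
    rw [h7, mul_assoc, hc.2 y hy, ← mul_assoc, h6, mul_assoc]
  -- equal values
  have hval : ∀ x ∈ QN H, ∀ x' ∈ QN H, e (f x) = e (f x') → ∃ c ∈ QZ H, x = c * x' := by
    intro x hx x' hx' h1
    have h3 := Q_einj C (hfV x hx) (hfV x' hx') h1
    refine ⟨x * x'⁻¹, ?_, by group⟩
    apply hker _ ((QN H).mul_mem hx ((QN H).inv_mem hx'))
    rw [hfmul _ hx _ ((QN H).inv_mem hx'), hfinv _ hx', h3, mul_inv_cancel]
  -- the commutator
  obtain ⟨cm, hcm⟩ : ∃ cm : G → G → G, cm = fun x y => x * y * x⁻¹ * y⁻¹ := ⟨_, rfl⟩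
  have hcmd : ∀ x y, cm x y = x * y * x⁻¹ * y⁻¹ := fun x y => by rw [hcm]
  have hcmV : ∀ x ∈ QN H, ∀ y ∈ QN H, (cm x y) ^ 2 = 1 := fun x hx y hy => by rw [hcmd]; exact QN_sq hx hy.1
  have hcm1 : ∀ x ∈ QN H, ∀ y ∈ QN H, ∀ w ∈ QN H, cm (x * y) w = cm x w * cm y w := by
    intro x hx y hy w hw
    have e1 : cm (x * y) w = (x * cm y w * x⁻¹) * cm x w := by simp only [hcmd]; group
    have hc := hy.2.2 w hw.1
    rw [← hcmd] at hc
    rw [e1, QZ_conj hc hx.1]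
    exact C.cen _ (hcmV y hy w hw) _
  have hcm2 : ∀ x y, cm x y = (cm y x)⁻¹ := fun x y => by simp only [hcmd]; group
  have hcm3 : ∀ x ∈ QN H, ∀ y ∈ QN H, ∀ w ∈ QN H, cm w (x * y) = cm w x * cm w y := by
    intro x hx y hy w hw
    rw [hcm2, hcm1 x hx y hy w hw, mul_inv_rev, ← hcm2, ← hcm2]
    exact C.cen _ (hcmV w hw y hy) _
  have hcm4 : ∀ c ∈ QZ H, ∀ w ∈ QN H, cm c w = 1 := by
    intro c hc w hw
    rw [hcmd, hc.2 w hw.1, mul_inv_cancel_right, mul_inv_cancel]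
  have hcong1 : ∀ x ∈ QN H, ∀ x' ∈ QN H, ∀ w ∈ QN H, e (f x) = e (f x') → cm x w = cm x' w := by
    intro x hx x' hx' w hw h1
    obtain ⟨c, hc, rfl⟩ := hval x hx x' hx' h1
    rw [hcm1 c (QZ_le_QN H hc) x' hx' w hw, hcm4 c hc w hw, one_mul]
  have hcong2 : ∀ x ∈ QN H, ∀ x' ∈ QN H, ∀ w ∈ QN H, e (f x) = e (f x') → cm w x = cm w x' := by
    intro x hx x' hx' w hw h1
    rw [hcm2, hcong1 x hx x' hx' w hw h1, ← hcm2]
  -- surjectivity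
  have hsurj : ∀ v : F, ∃ n ∈ QN H, e (f n) = v := by
    intro v
    obtain ⟨x, hx2, hxv⟩ := C.surj v
    by_cases hx1 : x = 1
    · exact ⟨1, (QN H).one_mem, by rw [hf]; simp only [one_pow]; rw [← hxv, hx1]⟩
    have hfn0 : f n₀ ≠ 1 := fun h => hnx ((hker n₀ hn₀ h).2 x₀ hx₀)
    obtain ⟨a, ha, hax⟩ := C.trans (f n₀) x hfn0 (hfV n₀ hn₀) hx1 hx2
    refine ⟨a n₀, hNinv a ha n₀ hn₀, ?_⟩
    rw [← hxv, ← hax, hf]
    simp only [map_pow]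
  choose n hn hne using hsurj
  -- the form
  have hB := C.alt (fun v w => e (cm (n v) (n w))) (fun x y w => ?_) (fun x y w => ?_) (fun x => ?_) (fun u hu x y => ?_)
  · intro x hx y hy
    have h1 := hB (e (f x)) (e (f y))
    have h3 : cm (n (e (f x))) (n (e (f y))) = cm x y := by
      rw [hcong1 _ (hn _) x hx _ (hn _) (hne _), hcong2 _ (hn _) y hy x hx (hne _)]
    rw [h3] at h1
    have h4 := C.inj _ (hcmV x hx y hy) h1
    rw [hcmd, mul_inv_eq_one, mul_inv_eq_iff_eq_mul] at h4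
    exact h4
  · have h1 : e (f (n (x + y))) = e (f (n x * n y)) := by
      rw [hne, hfmul _ (hn x) _ (hn y), C.add _ _ (hfV _ (hn x)) (hfV _ (hn y)), hne, hne]
    rw [hcong1 _ (hn _) _ ((QN H).mul_mem (hn x) (hn y)) _ (hn _) h1, hcm1 _ (hn _) _ (hn _) _ (hn _),
      C.add _ _ (hcmV _ (hn _) _ (hn _)) (hcmV _ (hn _) _ (hn _))]
  · have h1 : e (f (n (y + w))) = e (f (n y * n w)) := by
      rw [hne, hfmul _ (hn y) _ (hn w), C.add _ _ (hfV _ (hn y)) (hfV _ (hn w)), hne, hne]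
    rw [hcong2 _ (hn _) _ ((QN H).mul_mem (hn y) (hn w)) _ (hn _) h1, hcm3 _ (hn _) _ (hn _) _ (hn _),
      C.add _ _ (hcmV _ (hn _) _ (hn _)) (hcmV _ (hn _) _ (hn _))]
  · have h1 : cm (n x) (n x) = 1 := by rw [hcmd, mul_inv_cancel_right, mul_inv_cancel]
    have h3 := C.add 1 1 (one_pow 2) (one_pow 2)
    rw [one_mul] at h3
    rw [h1]
    have : e 1 + 0 = e 1 + e 1 := by rw [add_zero]; exact h3
    exact (add_left_cancel this).symm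
  · obtain ⟨a, ha, hau⟩ := C.K_act u hu
    have h1 : ∀ v, e (f (n ((u : F) * v))) = e (f (a (n v))) := by
      intro v
      have h3 : f (a (n v)) = a (f (n v)) := by rw [hf]; simp only [map_pow]
      rw [hne, h3, hau _ (hfV _ (hn v)), hne]
    have hm : ∀ v, a (n v) ∈ QN H := fun v => hNinv a ha _ (hn v)
    rw [hcong1 _ (hn _) _ (hm x) _ (hn _) (h1 x), hcong2 _ (hn _) _ (hm y) _ (hm x) (h1 y)]
    have h3 : cm (a (n x)) (a (n y)) = a (cm (n x) (n y)) := by simp only [hcmd, map_mul, map_inv]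
    rw [h3, hau _ (hcmV _ (hn _) _ (hn _))]

end Cfsg.Agent.Lib.H81Suz
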