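import Cfsg.Agent.Lib.H81Suz0
import Cfsg.Agent.Lib.H32PGroup

/-! S3776, piece R (helper42): the subgroup `N`. -/

set_option autoImplicit false
set_option linter.all false

namespace Cfsg.Agent.Lib.H81Suz

open Cfsg Cfsg.Agent.Lib.HigmanLin

universe u

variable {G : Type u} [Group G] [Finite G] {Y : Subgroup (MulAut G)}

theorem R_comm_mul {n m x : G} (hm : ∀ y : G, (m * x * m⁻¹ * x⁻¹) * y = y * (m * x * m⁻¹ * x⁻¹)) :
    (n * m) * x * (n * m)⁻¹ * x⁻¹ = (m * x * m⁻¹ * x⁻¹) * (n * x * n⁻¹ * x⁻¹) := by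
  have h1 : (n * m) * x * (n * m)⁻¹ * x⁻¹ = n * (m * x * m⁻¹ * x⁻¹) * (x * n⁻¹ * x⁻¹) := by group
  rw [h1, ← hm n]
  group

theorem R_sq {v w : G} (hv : v ^ 2 = 1) (hw : w ^ 2 = 1) (h : v * w = w * v) : (v * w) ^ 2 = 1 := by
  have : Commute v w := h
  rw [this.mul_pow, hv, hw, one_mul]

theorem R_inv {n x : G} (h : (n * x * n⁻¹ * x⁻¹) ^ 2 = 1) (hc : ∀ y : G, (n * x * n⁻¹ * x⁻¹) * y = y * (n * x * n⁻¹ * x⁻¹)) :
    (n⁻¹ * x * n⁻¹⁻¹ * x⁻¹) ^ 2 = 1 := by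
  have h1 : n⁻¹ * x * n⁻¹⁻¹ * x⁻¹ = (n * x * n⁻¹ * x⁻¹)⁻¹ := by
    have h2 : n⁻¹ * x * n⁻¹⁻¹ * x⁻¹ = n⁻¹ * (n * x * n⁻¹ * x⁻¹)⁻¹ * n := by group
    rw [h2]
    have h3 : (n * x * n⁻¹ * x⁻¹)⁻¹ * n = n * (n * x * n⁻¹ * x⁻¹)⁻¹ := by
      have : Commute (n * x * n⁻¹ * x⁻¹) n := hc n
      exact this.inv_left
    rw [mul_assoc, h3, ← mul_assoc, inv_mul_cancel, one_mul]
  rw [h1, inv_pow, h, inv_one]

/-- the subgroup generated by the squares of `H` -/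
def Rsq (H : Subgroup G) : Subgroup G := Subgroup.closure {y | ∃ x ∈ H, x ^ 2 = y}

theorem Rsq_le (H : Subgroup G) : Rsq H ≤ H := by
  rw [Rsq, Subgroup.closure_le]
  rintro y ⟨x, hx, rfl⟩
  exact H.pow_mem hx _

theorem Rsq_mem {H : Subgroup G} {x : G} (hx : x ∈ H) : x ^ 2 ∈ Rsq H := Subgroup.subset_closure ⟨x, hx, rfl⟩

theorem Rsq_inv {H : Subgroup G} (hH : Yinv Y H) : Yinv Y (Rsq H) := by
  intro a ha x hx
  have h1 : Rsq H ≤ (Rsq H).comap a.toMonoidHom := by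
    rw [Rsq, Subgroup.closure_le]
    rintro y ⟨x, hx, rfl⟩
    show a (x ^ 2) ∈ Rsq H
    rw [map_pow]
    exact Rsq_mem (hH a ha x hx)
  exact h1 hx

theorem Rsq_conj {H : Subgroup G} {g : G} (hg : g ∈ H) {x : G} (hx : x ∈ Rsq H) : g * x * g⁻¹ ∈ Rsq H := by
  have h1 : Rsq H ≤ (Rsq H).comap (MulAut.conj g).toMonoidHom := by
    rw [Rsq, Subgroup.closure_le]
    rintro y ⟨x, hx, rfl⟩
    show MulAut.conj g (x ^ 2) ∈ Rsq H
    rw [map_pow]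
    exact Rsq_mem (by rw [MulAut.conj_apply]; exact H.mul_mem (H.mul_mem hg hx) (H.inv_mem hg))
  exact h1 hx

def RN (S : Setup Y) (H : Subgroup G) : Subgroup G where
  carrier := {n | n ∈ Rsq H ∧ ∀ x ∈ H, (n * x * n⁻¹ * x⁻¹) ^ 2 = 1}
  one_mem' := ⟨Subgroup.one_mem _, fun x _ => by simp⟩
  mul_mem' := by
    rintro n m ⟨hn, hn'⟩ ⟨hm, hm'⟩
    refine ⟨Subgroup.mul_mem _ hn hm, fun x hx => ?_⟩
    rw [R_comm_mul (S.cen _ (hm' x hx))]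
    exact R_sq (hm' x hx) (hn' x hx) (S.cen _ (hm' x hx) _)
  inv_mem' := by
    rintro n ⟨hn, hn'⟩
    refine ⟨Subgroup.inv_mem _ hn, fun x hx => R_inv (hn' x hx) (S.cen _ (hn' x hx))⟩

theorem RN_inv (S : Setup Y) {H : Subgroup G} (hH : Yinv Y H) : Yinv Y (RN S H) := by
  rintro a ha n ⟨hn, hn'⟩
  refine ⟨Rsq_inv hH a ha n hn, fun x hx => ?_⟩
  have h1 : a⁻¹ x ∈ H := hH a⁻¹ (Y.inv_mem ha) x hx
  have h2 := congrArg a (hn' _ h1)
  have h3 : a (a⁻¹ x) = x := by rw [← MulAut.mul_apply, mul_inv_cancel, MulAut.one_apply]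
  rw [map_one, map_pow, map_mul, map_mul, map_mul, map_inv, map_inv, h3] at h2
  exact h2

section
variable {F : Type} [Field F] [Fintype F] [CharP F 2] [Fintype (F ≃+* F)] {e : G → F} {K : Subgroup Fˣ} {H A : Subgroup G}

theorem exists_N (C : Ctx Y e K) (M : MinCE Y H) :
    ∃ N : Subgroup G, Yinv Y N ∧ N ≤ H ∧ (∃ n ∈ N, n ^ 2 ≠ 1) ∧ (∀ n ∈ N, ∀ x ∈ H, (n * x * n⁻¹ * x⁻¹) ^ 2 = 1) ∧
      (∀ n ∈ N, ∀ x ∈ H, n * x ^ 2 = x ^ 2 * n) ∧ (∀ n ∈ N, ∀ m ∈ N, n * m = m * n) := by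
  classical
  have S : Setup Y := C.toSetup
  have hcom : ∀ n ∈ RN S H, ∀ x ∈ H, n * x ^ 2 = x ^ 2 * n := by
    rintro n ⟨hn, hn'⟩ x hx
    have h1 := S.cen _ (hn' x hx)
    have h2 : n * x * n⁻¹ = (n * x * n⁻¹ * x⁻¹) * x := by group
    have h3 : n * x ^ 2 * n⁻¹ = (n * x * n⁻¹) ^ 2 := by
      rw [pow_two, pow_two]; group
    have h4 : Commute (n * x * n⁻¹ * x⁻¹) x := h1 x
    rw [h2, h4.mul_pow, hn' x hx, one_mul] at h3
    exact mul_inv_eq_iff_eq_mul.1 h3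
  refine ⟨RN S H, RN_inv S M.inv, fun n hn => Rsq_le H hn.1, ?_, fun n hn x hx => hn.2 x hx, hcom, ?_⟩
  · -- existence
    haveI : Fact (Nat.Prime 2) := ⟨Nat.prime_two⟩
    let V : Subgroup H :=
      { carrier := {x | (x : G) ^ 2 = 1}
        one_mem' := by simp
        mul_mem' := by
          intro a b ha hb
          exact R_sq ha hb (S.cen _ ha _)
        inv_mem' := by
          intro a ha
          show ((a⁻¹ : H) : G) ^ 2 = 1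
          rw [Subgroup.coe_inv, inv_pow, show (a : G) ^ 2 = 1 from ha, inv_one] }
    have hVc : ∀ v : H, v ∈ V → ∀ y : H, v * y = y * v := fun v hv y => Subtype.ext (S.cen _ hv _)
    haveI hVn : V.Normal := ⟨fun v hv g => by
      have : g * v * g⁻¹ = v := by rw [← hVc v hv g, mul_assoc, mul_inv_cancel, mul_one]
      rw [this]; exact hv⟩
    let D : Subgroup H := (Rsq H).subgroupOf H
    haveI hDn : D.Normal := ⟨fun v hv g => by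
      rw [Subgroup.mem_subgroupOf] at hv ⊢
      push_cast
      exact Rsq_conj g.2 hv⟩
    have hlt : V < V ⊔ D := by
      refine lt_of_le_of_ne le_sup_left ?_
      intro h
      obtain ⟨x, hx, hx4⟩ := M.big
      apply hx4
      have h1 : (⟨x ^ 2, H.pow_mem hx 2⟩ : H) ∈ D := by
        rw [Subgroup.mem_subgroupOf]
        exact Rsq_mem hx
      have h2 : (⟨x ^ 2, H.pow_mem hx 2⟩ : H) ∈ V := by
        rw [h]; exact (le_sup_right : D ≤ V ⊔ D) h1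
      have h3 : (x ^ 2) ^ 2 = 1 := h2
      rw [← pow_mul] at h3
      exact h3
    obtain ⟨d, hd, hdV, hdc⟩ := H32PGroup.exists_central_mod (S.two.to_subgroup H) V (V ⊔ D) hlt
    obtain ⟨v, hv, s, hs, rfl⟩ := Subgroup.mem_sup_of_normal_left.1 hd
    rw [Subgroup.mem_subgroupOf] at hs
    refine ⟨(s : G), ⟨hs, fun x hx => ?_⟩, ?_⟩
    · have h1 := hdc ⟨x, hx⟩
      have h2 : (⟨x, hx⟩ : H) * (v * s) * (⟨x, hx⟩ : H)⁻¹ * (v * s)⁻¹ =
          (⟨x, hx⟩ : H) * s * (⟨x, hx⟩ : H)⁻¹ * s⁻¹ := by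
        have e1 := hVc v hv ⟨x, hx⟩
        calc (⟨x, hx⟩ : H) * (v * s) * (⟨x, hx⟩ : H)⁻¹ * (v * s)⁻¹
            = ((⟨x, hx⟩ : H) * v) * s * (⟨x, hx⟩ : H)⁻¹ * s⁻¹ * v⁻¹ := by group
          _ = v * ((⟨x, hx⟩ : H) * s * (⟨x, hx⟩ : H)⁻¹ * s⁻¹) * v⁻¹ := by rw [← e1]; group
          _ = (⟨x, hx⟩ : H) * s * (⟨x, hx⟩ : H)⁻¹ * s⁻¹ := by
            rw [hVc v hv, mul_assoc, mul_inv_cancel, mul_one]
      rw [h2] at h1
      have h3 : ((x * (s : G) * x⁻¹ * (s : G)⁻¹) : G) ^ 2 = 1 := h1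
      have h4 : (s : G) * x * (s : G)⁻¹ * x⁻¹ = (x * (s : G) * x⁻¹ * (s : G)⁻¹)⁻¹ := by group
      rw [h4, inv_pow, h3, inv_one]
    · intro h5
      exact hdV (V.mul_mem hv h5)
  · rintro n hn m ⟨hm, hm'⟩
    have h1 : Rsq H ≤ Subgroup.centralizer {n} := by
      rw [Rsq, Subgroup.closure_le]
      rintro y ⟨x, hx, rfl⟩
      rw [SetLike.mem_coe, Subgroup.mem_centralizer_iff]
      intro z hz
      rw [Set.mem_singleton_iff] at hz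
      rw [hz]
      exact hcom n hn x hx
    have h2 := h1 hm
    rw [Subgroup.mem_centralizer_iff] at h2
    exact h2 n (Set.mem_singleton n)

end

end Cfsg.Agent.Lib.H81Suz
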