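import Cfsg.Agent.Lib.H81Suz0

/-! S3776 piece S (helper19): the case of a large central `Ω₂(A)`. -/

set_option autoImplicit false
set_option linter.all false

namespace Cfsg.Agent.Lib.H81Suz

universe u

variable {G : Type u} [Group G] [Finite G] {Y : Subgroup (MulAut G)}

theorem S_cm {H A : Subgroup G} (hA : HasA Y H A) {x y : G} (hx : x ∈ H) (hy : y ∈ H) : x * y * x⁻¹ * y⁻¹ ∈ A := by
  have e1 : x * y * x⁻¹ * y⁻¹ = (x * y) ^ 2 * (y⁻¹ * x⁻¹ * y) ^ 2 * (y⁻¹) ^ 2 := by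
    simp only [pow_two]; group
  rw [e1]
  exact A.mul_mem (A.mul_mem (hA.sq _ (H.mul_mem hx hy))
    (hA.sq _ (H.mul_mem (H.mul_mem (H.inv_mem hy) (H.inv_mem hx)) hy))) (hA.sq _ (H.inv_mem hy))

theorem S_bil {H A : Subgroup G} (hA : HasA Y H A) {a b x : G} (ha : a ∈ A) (hb : b ∈ A) (hx : x ∈ H) :
    (a * b) * x * (a * b)⁻¹ * x⁻¹ = (a * x * a⁻¹ * x⁻¹) * (b * x * b⁻¹ * x⁻¹) := by
  have h1 : b * x * b⁻¹ * x⁻¹ ∈ A := S_cm hA (hA.le hb) hx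
  have h2 : a * x * a⁻¹ * x⁻¹ ∈ A := S_cm hA (hA.le ha) hx
  rw [hA.comm _ h2 _ h1]
  have e1 : (a * b) * x * (a * b)⁻¹ * x⁻¹ = (a * (b * x * b⁻¹ * x⁻¹)) * (x * a⁻¹ * x⁻¹) := by group
  rw [e1, hA.comm _ ha _ h1]
  group

theorem S_sqc {H A : Subgroup G} (hA : HasA Y H A) {a x : G} (ha : a ∈ A) (hx : x ∈ H) :
    a ^ 2 * x * (a ^ 2)⁻¹ * x⁻¹ = (a * x * a⁻¹ * x⁻¹) ^ 2 := by
  rw [pow_two, pow_two, S_bil hA ha ha hx]

theorem S_exp (h : Setup Y) {A : Subgroup G} (h8 : ∃ a ∈ A, a ^ 4 ≠ 1) :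
    ∃ m, 2 ≤ m ∧ (∃ a ∈ A, a ^ (2 ^ m) ≠ 1) ∧ ∀ a ∈ A, a ^ (2 ^ (m + 1)) = 1 := by
  classical
  haveI : Fact (Nat.Prime 2) := ⟨Nat.prime_two⟩
  obtain ⟨N, hN⟩ := IsPGroup.iff_card.mp h.two
  have hex : ∃ N, ∀ a ∈ A, a ^ (2 ^ N) = 1 := ⟨N, fun a _ => by rw [← hN]; exact pow_card_eq_one'⟩
  obtain ⟨a0, ha0, ha4⟩ := h8
  have hspec := Nat.find_spec hex
  have h3 : 3 ≤ Nat.find hex := by
    by_contra hcon
    apply ha4
    have h1 := hspec a0 ha0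
    have h2 : Nat.find hex + (2 - Nat.find hex) = 2 := by omega
    calc a0 ^ 4 = a0 ^ (2 ^ (Nat.find hex + (2 - Nat.find hex))) := by rw [h2]; norm_num
      _ = 1 := by rw [pow_add, pow_mul, h1, one_pow]
  obtain ⟨m, hm⟩ : ∃ m, Nat.find hex = m + 1 := ⟨Nat.find hex - 1, by omega⟩
  refine ⟨m, by omega, ?_, ?_⟩
  · have h4 := Nat.find_min hex (m := m) (by omega)
    push Not at h4
    exact h4
  · rw [hm] at hspec; exact hspec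

/-- step of the induction on the level -/
theorem S_step (h : Setup Y) {H A : Subgroup G} (hA : HasA Y H A)
    (hcen : ∀ a ∈ A, a ^ 4 = 1 → ∀ x ∈ H, a * x = x * a) {m : ℕ} (hne : ∃ a ∈ A, a ^ (2 ^ m) ≠ 1) {j : ℕ} (hj : j + 1 ≤ m)
    (hP : ∀ a ∈ A, a ^ (2 ^ j) = 1 → ∀ x ∈ H, a * x = x * a) :
    ∀ a ∈ A, a ^ (2 ^ (j + 1)) = 1 → ∀ x ∈ H, a * x = x * a := by
  intro a ha ha1 x hx
  obtain ⟨c, hc, hca⟩ := h.homocyclic hA.inv hA.comm hne (j + 1) (by omega) a ha ha1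
  have e1 : m + 1 - (j + 1) = (m - j - 1) + 1 := by omega
  set b := c ^ (2 ^ (m - j - 1)) with hb
  have hbA : b ∈ A := A.pow_mem hc _
  have hb2 : b ^ 2 = a := by
    rw [hb, ← pow_mul, ← pow_succ, ← e1]; exact hca
  have hw : b * x * b⁻¹ * x⁻¹ ∈ A := S_cm hA (hA.le hbA) hx
  have hw2 : (b * x * b⁻¹ * x⁻¹) ^ 2 = a * x * a⁻¹ * x⁻¹ := by rw [← S_sqc hA hbA hx, hb2]
  have hw4 : (b * x * b⁻¹ * x⁻¹) ^ 4 = 1 := by
    have h1 : (b * x * b⁻¹ * x⁻¹) ^ 4 = ((b * x * b⁻¹ * x⁻¹) ^ 2) ^ 2 := by rw [← pow_mul]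
    rw [h1, hw2, ← S_sqc hA ha hx]
    have h2 : a ^ 2 * x = x * a ^ 2 := hP _ (A.pow_mem ha 2) (by rw [← pow_mul, ← pow_succ']; exact ha1) x hx
    rw [h2]; group
  have hwc := hcen _ hw hw4 x hx
  have hx2 : b * x ^ 2 = x ^ 2 * b := hA.comm _ hbA _ (hA.sq x hx)
  have h3 : (b * x * b⁻¹ * x⁻¹) ^ 2 = 1 := by
    have h4 : b * x ^ 2 * b⁻¹ * (x ^ 2)⁻¹ = 1 := by rw [hx2]; group
    have h5 : b * x ^ 2 * b⁻¹ * (x ^ 2)⁻¹ = (b * x * b⁻¹ * x⁻¹) * (x * (b * x * b⁻¹ * x⁻¹) * x⁻¹) := by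
      simp only [pow_two]; group
    rw [h5, ← hwc, mul_inv_cancel_right] at h4
    rw [pow_two]; exact h4
  rw [hw2] at h3
  have h6 : a * x * a⁻¹ = x := by
    rw [mul_inv_eq_one] at h3; exact h3
  rw [mul_inv_eq_iff_eq_mul] at h6
  exact h6

/-- the central case: `H` has commutators of order dividing four, squares outside `A` have maximal order -/
theorem S_main (h : Setup Y) {H A : Subgroup G} (hA : HasA Y H A)
    (hcen : ∀ a ∈ A, a ^ 4 = 1 → ∀ x ∈ H, a * x = x * a) {m : ℕ} (hm : 2 ≤ m) (hne : ∃ a ∈ A, a ^ (2 ^ m) ≠ 1)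
    (hall : ∀ a ∈ A, a ^ (2 ^ (m + 1)) = 1) (hP : ∀ a ∈ A, a ^ (2 ^ m) = 1 → ∀ x ∈ H, a * x = x * a) :
    (∀ a ∈ A, ∀ x ∈ H, (a * x * a⁻¹ * x⁻¹) ^ 2 = 1) ∧
    (∀ x ∈ H, (x ^ 2) ^ (2 ^ m) = 1 → x ∈ A) ∧
    (∀ x ∈ H, ∀ y ∈ H, ((x * y) ^ 2) ^ (2 ^ m) = (x ^ 2) ^ (2 ^ m) * (y ^ 2) ^ (2 ^ m)) := by
  have hV : ∀ a ∈ A, ∀ x ∈ H, (a * x * a⁻¹ * x⁻¹) ^ 2 = 1 := by
    intro a ha x hx
    rw [← S_sqc hA ha hx, hP _ (A.pow_mem ha 2) (by rw [← pow_mul, ← pow_succ']; exact hall a ha) x hx]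
    group
  have h1 : ∃ a ∈ A, a ^ (2 ^ 1) ≠ 1 := by
    obtain ⟨a, ha, ha1⟩ := hne
    refine ⟨a, ha, fun hcon => ha1 ?_⟩
    have e1 : 2 ^ m = 2 ^ 1 * 2 ^ (m - 1) := by rw [← pow_add]; congr 1; omega
    rw [e1, pow_mul, hcon, one_pow]
  have hAne : A ≠ ⊥ := by
    rintro rfl
    obtain ⟨a, ha, ha1⟩ := hne
    rw [Subgroup.mem_bot] at ha
    rw [ha, one_pow] at ha1
    exact ha1 rfl
  have hS : ∀ x ∈ H, ∀ c ∈ A, x ^ 2 = c ^ 2 → x ∈ A := by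
    intro x hx c hc hxc
    -- w = x⁻¹ c⁻¹ x c
    have hw2 : (x⁻¹ * c⁻¹ * x * c) ^ 2 = 1 := by
      have h2 := hV _ (A.inv_mem hc) _ (H.inv_mem hx)
      have e1 : (x⁻¹ * c⁻¹ * x * c) = (c⁻¹ * x⁻¹ * c⁻¹⁻¹ * x⁻¹⁻¹)⁻¹ := by group
      rw [e1, inv_pow, h2, inv_one]
    have hwA : x⁻¹ * c⁻¹ * x * c ∈ A := h.mem_of_sq hA.inv hAne hw2
    obtain ⟨b, hb, hbw⟩ := h.pow_surj hA.inv hA.comm h1 hw2
    rw [pow_one] at hbw
    have hb4 : b ^ 4 = 1 := by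
      have e1 : b ^ 4 = (b ^ 2) ^ 2 := by rw [← pow_mul]
      rw [e1, hbw, hw2]
    have hbx := hcen b hb hb4 x hx
    have hbc := hcen b hb hb4 c (hA.le hc)
    have hwc := h.cen _ hw2
    -- y = x c⁻¹ b
    have hy2 : (x * c⁻¹ * b) ^ 2 = 1 := by
      have c1 : Commute b (x * c⁻¹) := by
        have q1 : Commute b x := hbx
        have q2 : Commute b c := hbc
        exact q1.mul_right q2.inv_right
      rw [c1.symm.mul_pow, hbw]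
      have e2 : (x * c⁻¹) ^ 2 = x ^ 2 * (x⁻¹ * c⁻¹ * x * c) * (c ^ 2)⁻¹ := by
        simp only [pow_two]; group
      rw [e2, hxc, ← hwc (c ^ 2), mul_inv_cancel_right, ← pow_two, hw2]
    have hyA : x * c⁻¹ * b ∈ A := h.mem_of_sq hA.inv hAne hy2
    have e3 : x = x * c⁻¹ * b * b⁻¹ * c := by group
    rw [e3]
    exact A.mul_mem (A.mul_mem hyA (A.inv_mem hb)) hc
  have hF : ∀ x ∈ H, (x ^ 2) ^ (2 ^ m) = 1 → x ∈ A := by
    intro x hx hx1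
    obtain ⟨c, hc, hcx⟩ := h.homocyclic hA.inv hA.comm hne m (by omega) (x ^ 2) (hA.sq x hx) hx1
    rw [show m + 1 - m = 1 by omega, pow_one] at hcx
    exact hS x hx c hc hcx.symm
  refine ⟨hV, hF, ?_⟩
  have h4 : ∀ x ∈ H, ∀ y ∈ H, (x * y * x⁻¹ * y⁻¹) ^ 4 = 1 := by
    intro x hx y hy
    have hc : x * y * x⁻¹ * y⁻¹ ∈ A := S_cm hA hx hy
    have q1 : ((x ^ 2) * y * (x ^ 2)⁻¹ * y⁻¹) ^ 2 = 1 := hV _ (hA.sq x hx) y hy
    have q2 : ((x * y * x⁻¹ * y⁻¹) * x * (x * y * x⁻¹ * y⁻¹)⁻¹ * x⁻¹) ^ 2 = 1 := hV _ hc x hx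
    set c := x * y * x⁻¹ * y⁻¹ with hcdef
    have e1 : (x ^ 2) * y * (x ^ 2)⁻¹ * y⁻¹ = (c * x * c⁻¹ * x⁻¹)⁻¹ * (c * c) := by
      rw [hcdef, pow_two]
      simp only [mul_inv_rev, inv_inv, mul_assoc, inv_mul_cancel_left, mul_inv_cancel_left]
    have e2 : c * c = (c * x * c⁻¹ * x⁻¹) * ((x ^ 2) * y * (x ^ 2)⁻¹ * y⁻¹) := by rw [e1]; group
    have e3 : c ^ 4 = (c * c) ^ 2 := by rw [← pow_two, ← pow_mul]
    have cm : Commute (c * x * c⁻¹ * x⁻¹) ((x ^ 2) * y * (x ^ 2)⁻¹ * y⁻¹) := h.cen _ q2 _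
    rw [e3, e2, cm.mul_pow, q1, q2, one_mul]
  intro x hx y hy
  have hc : x⁻¹ * y * x⁻¹⁻¹ * y⁻¹ ∈ A := S_cm hA (H.inv_mem hx) hy
  have hc4 := h4 _ (H.inv_mem hx) y hy
  have hcm : (x⁻¹ * y * x⁻¹⁻¹ * y⁻¹) ^ (2 ^ m) = 1 := by
    have e1 : 2 ^ m = 4 * 2 ^ (m - 2) := by
      rw [show (4 : ℕ) = 2 ^ 2 by norm_num, ← pow_add]; congr 1; omega
    rw [e1, pow_mul, hc4, one_pow]
  have e1 : (x * y) ^ 2 = x ^ 2 * (x⁻¹ * y * x⁻¹⁻¹ * y⁻¹) * y ^ 2 := by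
    simp only [pow_two]; group
  have hx2 := hA.sq x hx
  have hy2 := hA.sq y hy
  have c1 : Commute (x ^ 2 * (x⁻¹ * y * x⁻¹⁻¹ * y⁻¹)) (y ^ 2) := hA.comm _ (A.mul_mem hx2 hc) _ hy2
  have c2 : Commute (x ^ 2) (x⁻¹ * y * x⁻¹⁻¹ * y⁻¹) := hA.comm _ hx2 _ hc
  rw [e1, c1.mul_pow, c2.mul_pow, hcm, mul_one]

section
variable {F : Type} [Field F] [Fintype F] [CharP F 2] [Fintype (F ≃+* F)] {e : G → F} {K : Subgroup Fˣ} {H A : Subgroup G}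

/-- piece S -/
theorem big_central (C : Ctx Y e K) (M : MinCE Y H) (hA : HasA Y H A) (h8 : ∃ a ∈ A, a ^ 4 ≠ 1)
    (hcen : ∀ a ∈ A, a ^ 4 = 1 → ∀ x ∈ H, a * x = x * a) : False := by
  classical
  have h : Setup Y := C.toSetup
  obtain ⟨m, hm, hne, hall⟩ := S_exp h h8
  have hP : ∀ a ∈ A, a ^ (2 ^ m) = 1 → ∀ x ∈ H, a * x = x * a := by
    have key : ∀ j, 2 ≤ j → j ≤ m → ∀ a ∈ A, a ^ (2 ^ j) = 1 → ∀ x ∈ H, a * x = x * a := by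
      intro j hj
      induction j, hj using Nat.le_induction with
      | base => intro _ a ha h1; exact hcen a ha (by simpa using h1)
      | succ j hj ih => intro hjm; exact S_step h hA hcen hne hjm (ih (by omega))
    exact key m hm le_rfl
  obtain ⟨hV, hF, hhom⟩ := S_main h hA hcen hm hne hall hP
  -- some element of `H` is not in `A`
  obtain ⟨x0, hx0, hx0A⟩ : ∃ x ∈ H, x ∉ A := by
    by_contra hcon
    push Not at hcon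
    obtain ⟨x, hx, y, hy, hxy⟩ := M.na
    exact hxy (hA.comm x (hcon x hx) y (hcon y hy))
  have hfV : ∀ x ∈ H, ((x ^ 2) ^ (2 ^ m)) ^ 2 = 1 := by
    intro x hx
    rw [← pow_mul, ← pow_succ]
    exact hall _ (hA.sq x hx)
  have hgV : ∀ a ∈ A, (a ^ (2 ^ m)) ^ 2 = 1 := by
    intro a ha
    rw [← pow_mul, ← pow_succ]
    exact hall _ ha
  have hx01 : (x0 ^ 2) ^ (2 ^ m) ≠ 1 := fun hcon => hx0A (hF x0 hx0 hcon)
  -- surjectivity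
  have e1 : e 1 = 0 := by
    have := C.toCoord.add 1 1 (one_pow 2) (one_pow 2)
    rw [mul_one] at this
    exact left_eq_add.mp this
  have hsf : ∀ s : F, ∃ x ∈ H, e ((x ^ 2) ^ (2 ^ m)) = s := by
    intro s
    by_cases hs : s = 0
    · exact ⟨1, H.one_mem, by rw [one_pow, one_pow, e1, hs]⟩
    obtain ⟨v, hv, hvs⟩ := C.toCoord.surj s
    have hv1 : v ≠ 1 := by rintro rfl; rw [e1] at hvs; exact hs hvs.symm
    obtain ⟨α, hα, hαv⟩ := h.trans _ v hx01 (hfV x0 hx0) hv1 hv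
    exact ⟨α x0, M.inv α hα x0 hx0, by rw [← map_pow, ← map_pow, hαv, hvs]⟩
  have hsg : ∀ s : F, ∃ a ∈ A, e (a ^ (2 ^ m)) = s := by
    intro s
    obtain ⟨v, hv, hvs⟩ := C.toCoord.surj s
    obtain ⟨a, ha, hav⟩ := h.pow_surj hA.inv hA.comm hne hv
    exact ⟨a, ha, by rw [hav, hvs]⟩
  have hei : ∀ v w : G, v ^ 2 = 1 → w ^ 2 = 1 → e v = e w → v = w := by
    intro v w hv hw hvw
    have hvw1 : (v * w) ^ 2 = 1 := by
      have c1 : Commute v w := h.cen v hv w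
      rw [c1.mul_pow, hv, hw, one_mul]
    have h2 : e (v * w) = 0 := by
      rw [C.toCoord.add v w hv hw, hvw, CharTwo.add_self_eq_zero]
    have h3 := C.toCoord.inj _ hvw1 h2
    have h4 : w * w = 1 := by rw [← pow_two]; exact hw
    calc v = v * w * w := by rw [mul_assoc, h4, mul_one]
      _ = w := by rw [h3, one_mul]
  -- well-definedness
  have hwd1 : ∀ a ∈ A, ∀ x ∈ H, ∀ y ∈ H, e ((x ^ 2) ^ (2 ^ m)) = e ((y ^ 2) ^ (2 ^ m)) →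
      a * x * a⁻¹ * x⁻¹ = a * y * a⁻¹ * y⁻¹ := by
    intro a ha x hx y hy hxy
    have h1 := hei _ _ (hfV x hx) (hfV y hy) hxy
    have h2 : ((x * y⁻¹) ^ 2) ^ (2 ^ m) = 1 := by
      rw [hhom x hx _ (H.inv_mem hy), h1, ← hhom y hy _ (H.inv_mem hy), mul_inv_cancel, one_pow, one_pow]
    have h3 := hF _ (H.mul_mem hx (H.inv_mem hy)) h2
    obtain ⟨c, hc, hcx⟩ : ∃ c ∈ A, x = c * y := ⟨x * y⁻¹, h3, by group⟩
    have h4 : (a * y * a⁻¹ * y⁻¹) ∈ A := S_cm hA (hA.le ha) hy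
    have e2 : a * (c * y) * a⁻¹ * (c * y)⁻¹ = (a * c) * (y * a⁻¹ * y⁻¹) * c⁻¹ := by group
    rw [hcx, e2, hA.comm a ha c hc]
    have e3 : c * a * (y * a⁻¹ * y⁻¹) * c⁻¹ = c * (a * y * a⁻¹ * y⁻¹) * c⁻¹ := by group
    rw [e3, hA.comm c hc _ h4, mul_inv_cancel_right]
  have hwd2 : ∀ x ∈ H, ∀ a ∈ A, ∀ b ∈ A, e (a ^ (2 ^ m)) = e (b ^ (2 ^ m)) →
      a * x * a⁻¹ * x⁻¹ = b * x * b⁻¹ * x⁻¹ := by
    intro x hx a ha b hb hab
    have h1 := hei _ _ (hgV a ha) (hgV b hb) hab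
    have h2 : (a * b⁻¹) ^ (2 ^ m) = 1 := by
      have c1 : Commute a b⁻¹ := hA.comm _ ha _ (A.inv_mem hb)
      rw [c1.mul_pow, inv_pow, h1, mul_inv_cancel]
    have h3 := hP _ (A.mul_mem ha (A.inv_mem hb)) h2 x hx
    have h4 : (a * b⁻¹) * x * (a * b⁻¹)⁻¹ * x⁻¹ = 1 := by rw [h3]; group
    have h5 := S_bil hA (A.mul_mem ha (A.inv_mem hb)) hb hx
    rw [h4, one_mul, inv_mul_cancel_right] at h5
    exact h5
  -- the form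
  choose X hXH hX using hsf
  choose T hTA hT using hsg
  let B : F → F → F := fun s t => e (T t * X s * (T t)⁻¹ * (X s)⁻¹)
  have hB : ∀ x ∈ H, ∀ a ∈ A, B (e ((x ^ 2) ^ (2 ^ m))) (e (a ^ (2 ^ m))) = e (a * x * a⁻¹ * x⁻¹) := by
    intro x hx a ha
    show e _ = e _
    congr 1
    rw [hwd1 _ (hTA _) _ (hXH _) x hx (hX _), hwd2 x hx _ (hTA _) a ha (hT _)]
  have hmul1 : ∀ a ∈ A, ∀ x ∈ H, ∀ y ∈ H, e (a * (x * y) * a⁻¹ * (x * y)⁻¹) = e (a * x * a⁻¹ * x⁻¹) + e (a * y * a⁻¹ * y⁻¹) := by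
    intro a ha x hx y hy
    rw [← C.toCoord.add _ _ (hV a ha x hx) (hV a ha y hy)]
    congr 1
    have e2 : a * (x * y) * a⁻¹ * (x * y)⁻¹ = (a * x * a⁻¹) * (a * y * a⁻¹ * y⁻¹) * x⁻¹ := by group
    rw [e2, mul_assoc, h.cen _ (hV a ha y hy) x⁻¹]
    group
  have hadd1 : ∀ x y z, B (x + y) z = B x z + B y z := by
    intro x y z
    have q := hB (X x * X y) (H.mul_mem (hXH x) (hXH y)) (T z) (hTA z)
    rw [hhom _ (hXH x) _ (hXH y), C.toCoord.add _ _ (hfV _ (hXH x)) (hfV _ (hXH y)), hX, hX, hT,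
      hmul1 _ (hTA z) _ (hXH x) _ (hXH y)] at q
    exact q
  have hadd2 : ∀ x y z, B x (y + z) = B x y + B x z := by
    intro x y z
    have q := hB (X x) (hXH x) (T y * T z) (A.mul_mem (hTA y) (hTA z))
    have c1 : Commute (T y) (T z) := hA.comm _ (hTA y) _ (hTA z)
    rw [c1.mul_pow, C.toCoord.add _ _ (hgV _ (hTA y)) (hgV _ (hTA z)), hX, hT, hT, S_bil hA (hTA y) (hTA z) (hXH x),
      C.toCoord.add _ _ (hV _ (hTA y) _ (hXH x)) (hV _ (hTA z) _ (hXH x))] at q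
    exact q
  have hself : ∀ x, B x x = 0 := by
    intro x
    have q := hB (X x) (hXH x) ((X x) ^ 2) (hA.sq _ (hXH x))
    rw [hX] at q
    rw [q]
    have e2 : (X x) ^ 2 * X x * ((X x) ^ 2)⁻¹ * (X x)⁻¹ = 1 := by group
    rw [e2, e1]
  have hequi : ∀ u ∈ K, ∀ x y, B ((u : F) * x) ((u : F) * y) = (u : F) * B x y := by
    intro u hu x y
    obtain ⟨α, hα, hαu⟩ := C.K_act u hu
    have q := hB (α (X x)) (M.inv α hα _ (hXH x)) (α (T y)) (hA.inv α hα _ (hTA y))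
    rw [← map_pow, ← map_pow, hαu _ (hfV _ (hXH x)), ← map_pow, hαu _ (hgV _ (hTA y)), hX, hT, ← map_inv, ← map_inv,
      ← map_mul, ← map_mul, ← map_mul, hαu _ (hV _ (hTA y) _ (hXH x))] at q
    exact q
  have hzero := C.alt B hadd1 hadd2 hself hequi
  -- conclusion
  apply hx0A
  refine hA.self x0 hx0 (fun a ha => ?_)
  have h1 := hB x0 hx0 a ha
  rw [hzero] at h1
  have h2 := C.toCoord.inj _ (hV a ha x0 hx0) h1.symm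
  rw [mul_inv_eq_one, mul_inv_eq_iff_eq_mul] at h2
  exact h2.symm

end

end Cfsg.Agent.Lib.H81Suz
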