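import Cfsg.Agent.Lib.H81Suz0

/-! S3776, piece T (helper10): the case `A` of exponent at least 8 with a noncentral element of
order 4. -/

set_option autoImplicit false
set_option linter.all false

namespace Cfsg.Agent.Lib.H81Suz

open Cfsg Cfsg.Agent.Lib.HigmanLin

universe u

variable {G : Type u} [Group G] [Finite G] {Y : Subgroup (MulAut G)} {H A : Subgroup G}

/-- commutators of elements of `H` are in `A` -/
theorem T_comm_mem (hA : HasA Y H A) {x y : G} (hx : x ∈ H) (hy : y ∈ H) :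
    x * y * x⁻¹ * y⁻¹ ∈ A := by
  have h : x * y * x⁻¹ * y⁻¹ = (x * y) ^ 2 * (y⁻¹ * x⁻¹ * y) ^ 2 * (y⁻¹) ^ 2 := by
    simp only [pow_two]; group
  rw [h]
  exact A.mul_mem (A.mul_mem (hA.sq _ (H.mul_mem hx hy))
    (hA.sq _ (H.mul_mem (H.mul_mem (H.inv_mem hy) (H.inv_mem hx)) hy))) (hA.sq _ (H.inv_mem hy))

theorem T_conj_mem (hA : HasA Y H A) {a x : G} (ha : a ∈ A) (hx : x ∈ H) :
    x * a * x⁻¹ ∈ A := by
  have h : x * a * x⁻¹ = (x * a * x⁻¹ * a⁻¹) * a := by group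
  rw [h]
  exact A.mul_mem (T_comm_mem hA hx (hA.le ha)) ha

theorem T_sq (hA : HasA Y H A) {a x : G} (ha : a ∈ A) (hx : x ∈ H) :
    (a * x * a⁻¹ * x⁻¹) ^ 2 = a ^ 2 * x * (a ^ 2)⁻¹ * x⁻¹ := by
  have h1 : x * a⁻¹ * x⁻¹ ∈ A := T_conj_mem hA (A.inv_mem ha) hx
  have h2 : Commute a (x * a⁻¹ * x⁻¹) := hA.comm _ ha _ h1
  have h3 : a * x * a⁻¹ * x⁻¹ = a * (x * a⁻¹ * x⁻¹) := by group
  rw [h3, h2.mul_pow]
  simp only [pow_two]; group

/-- the commutator of an element of order at most 4 is in `V` -/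
theorem T_comm_V (C : Setup Y) (hA : HasA Y H A) {a x : G} (ha : a ∈ A) (h4 : a ^ 4 = 1) (hx : x ∈ H) :
    (a * x * a⁻¹ * x⁻¹) ^ 2 = 1 := by
  rw [T_sq hA ha hx]
  have h1 : (a ^ 2) ^ 2 = 1 := by rw [← pow_mul]; exact h4
  rw [C.cen _ h1 x]
  group

/-- additivity of the commutator in the first variable -/
theorem T_mul_left (C : Setup Y) (hA : HasA Y H A) {a c x : G} (ha : a ∈ A) (hc : c ∈ A) (h4 : c ^ 4 = 1)
    (hx : x ∈ H) : (a * c) * x * (a * c)⁻¹ * x⁻¹ = (a * x * a⁻¹ * x⁻¹) * (c * x * c⁻¹ * x⁻¹) := by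
  have h1 := C.cen _ (T_comm_V C hA hc h4 hx) (x * a⁻¹ * x⁻¹)
  calc (a * c) * x * (a * c)⁻¹ * x⁻¹ = a * ((c * x * c⁻¹ * x⁻¹) * (x * a⁻¹ * x⁻¹)) := by group
    _ = a * ((x * a⁻¹ * x⁻¹) * (c * x * c⁻¹ * x⁻¹)) := by rw [h1]
    _ = _ := by group

/-- additivity of the commutator in the second variable -/
theorem T_mul_right (C : Setup Y) (hA : HasA Y H A) {a x y : G} (ha : a ∈ A) (h4 : a ^ 4 = 1)
    (hx : x ∈ H) (hy : y ∈ H) :
    a * (x * y) * a⁻¹ * (x * y)⁻¹ = (a * x * a⁻¹ * x⁻¹) * (a * y * a⁻¹ * y⁻¹) := by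
  have h1 := C.cen _ (T_comm_V C hA ha h4 hy) x⁻¹
  calc a * (x * y) * a⁻¹ * (x * y)⁻¹ = a * x * a⁻¹ * ((a * y * a⁻¹ * y⁻¹) * x⁻¹) := by group
    _ = a * x * a⁻¹ * (x⁻¹ * (a * y * a⁻¹ * y⁻¹)) := by rw [h1]
    _ = _ := by group

section

variable {F : Type} [Field F] [Fintype F] [CharP F 2] {e : G → F}

theorem T_e_one (C : Coord Y e) : e 1 = 0 := by
  have h := C.add 1 1 (by simp) (by simp)
  rw [mul_one] at h
  have h2 := congrArg (fun t => t - e 1) h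
  simpa using h2.symm

theorem T_e_inj (C : Coord Y e) (D : Setup Y) {x y : G} (hx : x ^ 2 = 1) (hy : y ^ 2 = 1) (h : e x = e y) : x = y := by
  have h1 : e (x * y) = 0 := by
    rw [C.add x y hx hy, h]
    exact CharTwo.add_self_eq_zero _
  have hxy : (x * y) ^ 2 = 1 := by
    have hc : Commute x y := D.cen x hx y
    rw [hc.mul_pow, hx, hy, mul_one]
  have h2 := C.inj _ hxy h1
  have h3 : y * y = 1 := by rw [← pow_two]; exact hy
  calc x = x * (y * y) := by rw [h3, mul_one]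
    _ = (x * y) * y := by rw [mul_assoc]
    _ = y := by rw [h2, one_mul]

/-- the relation between elements of `H` and additive maps -/
def TP (A : Subgroup G) (e : G → F) (x : G) (b : F →+ F) : Prop :=
  ∀ a ∈ A, a ^ 4 = 1 → b (e (a ^ 2)) = e (a * x * a⁻¹ * x⁻¹)

theorem T_exists_b (C : Coord Y e) (D : Setup Y) (hA : HasA Y H A) {x : G} (hx : x ∈ H) :
    ∃ b : F →+ F, TP A e x b := by
  have hq : ∀ v : F, ∃ c ∈ A, c ^ 4 = 1 ∧ e (c ^ 2) = v := by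
    intro v
    obtain ⟨g, hg, hgv⟩ := C.surj v
    obtain ⟨c, hc, hc2⟩ := D.pow_surj hA.inv hA.comm (j := 1) (by simpa using hA.four) hg
    rw [pow_one] at hc2
    refine ⟨c, hc, ?_, by rw [hc2, hgv]⟩
    calc c ^ 4 = (c ^ 2) ^ 2 := by rw [← pow_mul]
      _ = 1 := by rw [hc2, hg]
  choose q hqA hq4 hqe using hq
  have key : ∀ a ∈ A, a ^ 4 = 1 → e (q (e (a ^ 2)) * x * (q (e (a ^ 2)))⁻¹ * x⁻¹) = e (a * x * a⁻¹ * x⁻¹) := by
    intro a ha h4
    set c := q (e (a ^ 2)) with hc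
    have h1 : c ^ 2 = a ^ 2 := by
      apply T_e_inj C D
      · rw [← pow_mul]; exact hq4 _
      · rw [← pow_mul]; exact h4
      · exact hqe _
    have hcA : c ∈ A := hqA _
    have hca : Commute c a⁻¹ := hA.comm _ hcA _ (A.inv_mem ha)
    have h2 : (c * a⁻¹) ^ 2 = 1 := by
      rw [hca.mul_pow, h1, inv_pow, mul_inv_cancel]
    have h3 := D.cen _ h2 (a * x * a⁻¹)
    have h4 : c * x * c⁻¹ * x⁻¹ = a * x * a⁻¹ * x⁻¹ := by
      calc c * x * c⁻¹ * x⁻¹ = ((c * a⁻¹) * (a * x * a⁻¹)) * (c * a⁻¹)⁻¹ * x⁻¹ := by group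
        _ = ((a * x * a⁻¹) * (c * a⁻¹)) * (c * a⁻¹)⁻¹ * x⁻¹ := by rw [h3]
        _ = _ := by group
    rw [h4]
  refine ⟨AddMonoidHom.mk' (fun v => e (q v * x * (q v)⁻¹ * x⁻¹)) ?_, ?_⟩
  · intro v w
    have h1 : e ((q v * q w) ^ 2) = v + w := by
      have hc : Commute (q v) (q w) := hA.comm _ (hqA v) _ (hqA w)
      rw [hc.mul_pow, C.add, hqe, hqe]
      · rw [← pow_mul]; exact hq4 _
      · rw [← pow_mul]; exact hq4 _
    have h4 : (q v * q w) ^ 4 = 1 := by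
      have hc : Commute (q v) (q w) := hA.comm _ (hqA v) _ (hqA w)
      rw [hc.mul_pow, hq4, hq4, one_mul]
    have h2 := key (q v * q w) (A.mul_mem (hqA v) (hqA w)) h4
    rw [h1] at h2
    show e _ = e _ + e _
    rw [h2, T_mul_left D hA (hqA v) (hqA w) (hq4 w) hx, C.add]
    · exact T_comm_V D hA (hqA v) (hq4 v) hx
    · exact T_comm_V D hA (hqA w) (hq4 w) hx
  · intro a ha h4
    exact key a ha h4

/-- the additive group of the maps `b_x` -/
def TS (C : Coord Y e) (D : Setup Y) (hA : HasA Y H A) : AddSubgroup (F →+ F) where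
  carrier := {b | ∃ x ∈ H, TP A e x b}
  zero_mem' := by
    refine ⟨1, H.one_mem, ?_⟩
    intro a ha h4
    have h1 : a * 1 * a⁻¹ * 1⁻¹ = 1 := by group
    rw [h1, T_e_one C]
    rfl
  add_mem' := by
    rintro b b' ⟨x, hx, hb⟩ ⟨y, hy, hb'⟩
    refine ⟨x * y, H.mul_mem hx hy, ?_⟩
    intro a ha h4
    rw [T_mul_right D hA ha h4 hx hy, C.add _ _ (T_comm_V D hA ha h4 hx) (T_comm_V D hA ha h4 hy),
      ← hb a ha h4, ← hb' a ha h4]
    rfl
  neg_mem' := by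
    rintro b ⟨x, hx, hb⟩
    refine ⟨x, hx, ?_⟩
    intro a ha h4
    show -(b _) = _
    rw [hb a ha h4]
    exact CharTwo.neg_eq _

theorem T_idem (C : Coord Y e) (D : Setup Y) (hA : HasA Y H A) (h8 : ∃ a ∈ A, a ^ 4 ≠ 1) {b : F →+ F}
    (hb : b ∈ TS C D hA) : ∀ v, b (b v) = b v := by
  obtain ⟨x, hx, hb⟩ := hb
  intro v
  obtain ⟨g, hg, hgv⟩ := C.surj v
  obtain ⟨c, hc, hc4⟩ := D.pow_surj hA.inv hA.comm (j := 2) (by simpa using h8) hg
  have hc4' : c ^ 4 = g := hc4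
  set w := c * x * c⁻¹ * x⁻¹ with hw
  have hwA : w ∈ A := T_comm_mem hA (hA.le hc) hx
  have hw2 : w ^ 2 = c ^ 2 * x * (c ^ 2)⁻¹ * x⁻¹ := T_sq hA hc hx
  have hc2A : c ^ 2 ∈ A := A.pow_mem hc 2
  have hc24 : (c ^ 2) ^ 4 = 1 := by
    calc (c ^ 2) ^ 4 = (c ^ 4) ^ 2 := by rw [← pow_mul, ← pow_mul]
      _ = 1 := by rw [hc4', hg]
  have hc22 : (c ^ 2) ^ 2 = g := by rw [← pow_mul]; exact hc4'
  have h1 : b v = e (w ^ 2) := by
    rw [← hgv, ← hc22, hb _ hc2A hc24, hw2]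
  have hw4 : w ^ 4 = 1 := by
    calc w ^ 4 = (w ^ 2) ^ 2 := by rw [← pow_mul]
      _ = 1 := by rw [hw2]; exact T_comm_V D hA hc2A hc24 hx
  have h2 : c * x ^ 2 = x ^ 2 * c := hA.comm _ hc _ (hA.sq x hx)
  have h3 : w * (x * w * x⁻¹) = 1 := by
    calc w * (x * w * x⁻¹) = (c * x ^ 2) * c⁻¹ * (x ^ 2)⁻¹ := by
          rw [hw]; simp only [pow_two]; group
      _ = 1 := by rw [h2]; group
  have h4 : w * x * w⁻¹ * x⁻¹ = w ^ 2 := by
    have h5 : x * w * x⁻¹ = w⁻¹ := (inv_eq_of_mul_eq_one_right h3).symm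
    calc w * x * w⁻¹ * x⁻¹ = w * (x * w * x⁻¹)⁻¹ := by group
      _ = w ^ 2 := by rw [h5, inv_inv, pow_two]
  rw [h1, hb _ hwA hw4, h4]

end

section

variable {F : Type} [Field F] [Fintype F] [CharP F 2] [Fintype (F ≃+* F)] {e : G → F} {K : Subgroup Fˣ}

theorem T_cj (C : Ctx Y e K) (hA : HasA Y H A) (M : Yinv Y H) : ∀ u ∈ K, ∀ b ∈ TS C.toCoord C.toSetup hA,
    cj (u : F) b ∈ TS C.toCoord C.toSetup hA := by
  rintro u hu b ⟨x, hx, hb⟩
  obtain ⟨y, hy, hyu⟩ := C.K_act u hu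
  refine ⟨y x, M y hy x hx, ?_⟩
  intro a ha h4
  have hinv : y (y⁻¹ a) = a := by rw [← MulAut.mul_apply, mul_inv_cancel, MulAut.one_apply]
  set c := y⁻¹ a with hc
  have hcA : c ∈ A := hA.inv _ (Y.inv_mem hy) a ha
  have hc4 : c ^ 4 = 1 := by rw [hc, ← map_pow, h4, map_one]
  have hc2 : (c ^ 2) ^ 2 = 1 := by rw [← pow_mul]; exact hc4
  rw [cj_apply]
  have h1 : e (a ^ 2) = (u : F) * e (c ^ 2) := by
    rw [← hyu _ hc2, map_pow, hinv]
  have h2 : a * y x * a⁻¹ * (y x)⁻¹ = y (c * x * c⁻¹ * x⁻¹) := by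
    rw [map_mul, map_mul, map_mul, map_inv, map_inv, hinv]
  rw [h1, h2, hyu _ (T_comm_V C.toSetup hA hcA hc4 hx), ← hb c hcA hc4]
  have h3 : ((u : F))⁻¹ * ((u : F) * e (c ^ 2)) = e (c ^ 2) := by
    rw [← mul_assoc, inv_mul_cancel₀ u.ne_zero, one_mul]
  rw [h3]

/-- the maps are `0` or the identity -/
theorem T_zero_or_id (C : Ctx Y e K) (hA : HasA Y H A) (M : Yinv Y H) (h8 : ∃ a ∈ A, a ^ 4 ≠ 1) {b : F →+ F}
    (hb : b ∈ TS C.toCoord C.toSetup hA) : (∀ v, b v = 0) ∨ ∀ v, b v = v := by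
  classical
  obtain ⟨co, h1, h2⟩ := C.mono (TS C.toCoord C.toSetup hA) (T_cj C hA M) b hb
  have h3 : ∀ σ : F ≃+* F, co σ = 0 ∨ (σ = RingEquiv.refl F ∧ co σ = 1) := by
    intro σ
    by_cases h0 : co σ = 0
    · exact Or.inl h0
    right
    have h4 := T_idem C.toCoord C.toSetup hA h8 (h2 σ)
    have h5 : ∀ v, co σ * σ v = v := by
      intro v
      have h6 := h4 v
      rw [mon_apply, mon_apply] at h6
      exact σ.injective (mul_left_cancel₀ h0 h6)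
    have h7 : co σ = 1 := by simpa using h5 1
    refine ⟨?_, h7⟩
    ext v
    have := h5 v
    rw [h7, one_mul] at this
    exact this
  have h8' : ∀ v, b v = co (RingEquiv.refl F) * v := by
    intro v
    rw [h1 v, Finset.sum_eq_single (RingEquiv.refl F)]
    · rfl
    · intro σ _ hσ
      rcases h3 σ with h | ⟨h, _⟩
      · rw [h, zero_mul]
      · exact absurd h hσ
    · intro h
      exact absurd (Finset.mem_univ _) h
  rcases h3 (RingEquiv.refl F) with h | ⟨_, h⟩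
  · left; intro v; rw [h8' v, h, zero_mul]
  · right; intro v; rw [h8' v, h, one_mul]

/-- **piece T** -/
theorem big_noncentral (C : Ctx Y e K) (M : MinCE Y H) (hA : HasA Y H A) (h8 : ∃ a ∈ A, a ^ 4 ≠ 1)
    (hnc : ∃ a ∈ A, a ^ 4 = 1 ∧ ∃ x ∈ H, a * x ≠ x * a) : False := by
  classical
  have D : Setup Y := C.toSetup
  -- the centralizer of `A_2`
  let H0 : Subgroup G :=
    { carrier := {x | x ∈ H ∧ ∀ a ∈ A, a ^ 4 = 1 → a * x = x * a}
      one_mem' := ⟨H.one_mem, fun a _ _ => by rw [one_mul, mul_one]⟩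
      mul_mem' := by
        rintro x y ⟨hx, hx'⟩ ⟨hy, hy'⟩
        refine ⟨H.mul_mem hx hy, fun a ha h4 => ?_⟩
        rw [← mul_assoc, hx' a ha h4, mul_assoc, hy' a ha h4, mul_assoc]
      inv_mem' := by
        rintro x ⟨hx, hx'⟩
        refine ⟨H.inv_mem hx, fun a ha h4 => ?_⟩
        have h1 : Commute a x := hx' a ha h4
        exact h1.inv_right }
  have hH0le : H0 ≤ H := fun x hx => hx.1
  have hH0inv : Yinv Y H0 := by
    rintro y hy x ⟨hx, hx'⟩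
    refine ⟨M.inv y hy x hx, fun a ha h4 => ?_⟩
    have hinv : y (y⁻¹ a) = a := by rw [← MulAut.mul_apply, mul_inv_cancel, MulAut.one_apply]
    have h1 := hx' (y⁻¹ a) (hA.inv _ (Y.inv_mem hy) a ha) (by rw [← map_pow, h4, map_one])
    have h2 := congrArg y h1
    rw [map_mul, map_mul, hinv] at h2
    exact h2
  have hAH0 : A ≤ H0 := fun x hx => ⟨hA.le hx, fun a ha _ => hA.comm a ha x hx⟩
  have hne : H0 ≠ H := by
    intro h
    obtain ⟨a, ha, h4, x, hx, hax⟩ := hnc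
    rw [← h] at hx
    exact hax (hx.2 a ha h4)
  have hH0A : ∀ x ∈ H0, x ∈ A := by
    intro x hx
    rcases M.ih H0 hH0le hH0inv hne with h | h
    · exact hA.self x hx.1 (fun a ha => h x hx a (hAH0 ha))
    · obtain ⟨a, ha, ha8⟩ := h8
      exact absurd (h a (hAH0 ha)) ha8
  -- action of the elements outside `A`
  have key : ∀ x ∈ H, x ∉ A → ∀ a ∈ A, a ^ 4 = 1 → a * x * a⁻¹ * x⁻¹ = a ^ 2 := by
    intro x hx hxA
    obtain ⟨b, hb⟩ := T_exists_b C.toCoord D hA hx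
    have hbS : b ∈ TS C.toCoord C.toSetup hA := ⟨x, hx, hb⟩
    rcases T_zero_or_id C hA M.inv h8 hbS with h | h
    · exfalso
      apply hxA
      apply hH0A
      refine ⟨hx, fun a ha h4 => ?_⟩
      have h1 := hb a ha h4
      rw [h] at h1
      have h2 := C.inj _ (T_comm_V D hA ha h4 hx) h1.symm
      have h3 : a * x = (a * x * a⁻¹ * x⁻¹) * (x * a) := by group
      rw [h3, h2, one_mul]
    · intro a ha h4
      have h1 := hb a ha h4
      rw [h] at h1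
      refine (T_e_inj C.toCoord D ?_ (T_comm_V D hA ha h4 hx) h1).symm
      rw [← pow_mul]; exact h4
  have hmul : ∀ x ∈ H, x ∉ A → ∀ y ∈ H, y ∉ A → x * y ∈ A := by
    intro x hx hxA y hy hyA
    apply hH0A
    refine ⟨H.mul_mem hx hy, fun a ha h4 => ?_⟩
    have h1 := T_mul_right D hA ha h4 hx hy
    rw [key x hx hxA a ha h4, key y hy hyA a ha h4, ← pow_add, h4] at h1
    have h3 : a * (x * y) = (a * (x * y) * a⁻¹ * (x * y)⁻¹) * ((x * y) * a) := by group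
    rw [h3, h1, one_mul]
  have hsqV : ∀ x ∈ H, x ∉ A → x ^ 4 = 1 := by
    intro x hx hxA
    by_contra h4
    obtain ⟨k, hk1, hk2⟩ := D.exists_invol h4
    have hu : (x ^ 2) ^ (2 ^ k) ∈ A := A.pow_mem (hA.sq x hx) _
    have hu2 : ((x ^ 2) ^ (2 ^ k)) ^ 2 = (x ^ 4) ^ (2 ^ k) := by
      rw [← pow_mul, ← pow_mul, ← pow_mul]
      congr 1
      ring
    have hu4 : ((x ^ 2) ^ (2 ^ k)) ^ 4 = 1 := by
      calc ((x ^ 2) ^ (2 ^ k)) ^ 4 = (((x ^ 2) ^ (2 ^ k)) ^ 2) ^ 2 := by rw [← pow_mul _ 2 2]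
        _ = 1 := by rw [hu2, hk2]
    have h1 := key x hx hxA _ hu hu4
    rw [hu2] at h1
    apply hk1
    rw [← h1, ← pow_mul]
    have hc : Commute (x ^ (2 * 2 ^ k)) x := (Commute.refl x).pow_left _
    rw [hc.eq]
    group
  have hsq1 : ∀ x ∈ H, x ∉ A → x ^ 2 ≠ 1 := by
    intro x hx hxA h
    apply hxA
    exact hA.self x hx (fun a _ => D.cen x h a)
  -- an element outside `A`
  obtain ⟨x, hx, hxA⟩ : ∃ x ∈ H, x ∉ A := by
    obtain ⟨a, ha, h4, x, hx, hax⟩ := hnc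
    exact ⟨x, hx, fun h => hax (hA.comm a ha x h)⟩
  have hxi : x⁻¹ ∉ A := fun h => hxA (by simpa using A.inv_mem h)
  have ht2 : (x ^ 2) ^ 2 = 1 := by rw [← pow_mul]; exact hsqV x hx hxA
  have ht1 : x ^ 2 ≠ 1 := hsq1 x hx hxA
  have hxa : ∀ a ∈ A, x * a ∉ A := by
    intro a ha h
    apply hxA
    have : x = (x * a) * a⁻¹ := by group
    rw [this]
    exact A.mul_mem h (A.inv_mem ha)
  have hcov : ∀ v : G, v ^ 2 = 1 → v ≠ 1 → ∃ a ∈ A, (x * a) ^ 2 = v := by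
    intro v hv hv1
    obtain ⟨y, hy, hyv⟩ := D.trans _ v ht1 ht2 hv1 hv
    have hyx : y x ∈ H := M.inv y hy x hx
    have hyxA : y x ∉ A := by
      intro h
      apply hxA
      have h1 := hA.inv _ (Y.inv_mem hy) _ h
      have h2 : y⁻¹ (y x) = x := by rw [← MulAut.mul_apply, inv_mul_cancel, MulAut.one_apply]
      rw [h2] at h1
      exact h1
    refine ⟨x⁻¹ * y x, hmul _ (H.inv_mem hx) hxi _ hyx hyxA, ?_⟩
    rw [mul_inv_cancel_left, ← map_pow, hyv]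
  -- `psi`
  have hpsi : ∀ a ∈ A, (x * a) ^ 2 = x ^ 2 * (x⁻¹ * a * x * a) := by
    intro a _
    simp only [pow_two]; group
  have hpsimul : ∀ a ∈ A, ∀ b ∈ A, x⁻¹ * (a * b) * x * (a * b) = (x⁻¹ * a * x * a) * (x⁻¹ * b * x * b) := by
    intro a ha b hb
    have h1 : x⁻¹ * b * x ∈ A := by
      have := T_conj_mem hA hb (H.inv_mem hx)
      rwa [inv_inv] at this
    have h2 := hA.comm _ h1 _ ha
    calc x⁻¹ * (a * b) * x * (a * b) = (x⁻¹ * a * x) * ((x⁻¹ * b * x) * a) * b := by group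
      _ = (x⁻¹ * a * x) * (a * (x⁻¹ * b * x)) * b := by rw [h2]
      _ = _ := by group
  have hpsiV : ∀ a ∈ A, (x⁻¹ * a * x * a) ^ 2 = 1 := by
    intro a ha
    have h1 : x⁻¹ * a * x * a = (x ^ 2)⁻¹ * (x * a) ^ 2 := by
      simp only [pow_two]; group
    have h2 : ((x * a) ^ 2) ^ 2 = 1 := by
      rw [← pow_mul]; exact hsqV _ (H.mul_mem hx (hA.le ha)) (hxa a ha)
    have hc : Commute ((x ^ 2)⁻¹) ((x * a) ^ 2) := (show Commute (x ^ 2) _ from D.cen _ ht2 _).inv_left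
    rw [h1, hc.mul_pow, h2, inv_pow, ht2, inv_one, one_mul]
  have hI : ∀ a ∈ A, x⁻¹ * a * x * a = 1 := by
    intro a ha
    by_contra hne1
    obtain ⟨b, hb, hbv⟩ := hcov _ (hpsiV a ha) hne1
    rw [hpsi b hb] at hbv
    -- x^2 psi b = psi a
    have h1 := hpsimul b hb a⁻¹ (A.inv_mem ha)
    have h2 : (x⁻¹ * a⁻¹ * x * a⁻¹) = (x⁻¹ * a * x * a)⁻¹ := by
      have h3 := hpsimul a ha a⁻¹ (A.inv_mem ha)
      have h4 : x⁻¹ * (a * a⁻¹) * x * (a * a⁻¹) = 1 := by group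
      rw [h4] at h3
      exact (inv_eq_of_mul_eq_one_right h3.symm).symm
    have h5 : (x * (b * a⁻¹)) ^ 2 = 1 := by
      rw [hpsi _ (A.mul_mem hb (A.inv_mem ha)), h1, ← mul_assoc, hbv, h2, mul_inv_cancel]
    exact hsq1 _ (H.mul_mem hx (hA.le (A.mul_mem hb (A.inv_mem ha)))) (hxa _ (A.mul_mem hb (A.inv_mem ha))) h5
  have hF : ∀ v : F, v ≠ 0 → v = e (x ^ 2) := by
    intro v hv
    obtain ⟨g, hg, hgv⟩ := C.surj v
    have hg1 : g ≠ 1 := by
      intro h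
      apply hv
      rw [← hgv, h, T_e_one C.toCoord]
    obtain ⟨a, ha, hag⟩ := hcov g hg hg1
    rw [hpsi a ha, hI a ha, mul_one] at hag
    rw [← hgv, hag]
  have hcard : Fintype.card F ≤ 2 := by
    have h1 : (Finset.univ : Finset F) ⊆ {0, e (x ^ 2)} := by
      intro v _
      by_cases hv : v = 0
      · simp [hv]
      · have := hF v hv
        simp [← this]
    calc Fintype.card F = (Finset.univ : Finset F).card := rfl
      _ ≤ ({0, e (x ^ 2)} : Finset F).card := Finset.card_le_card h1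
      _ ≤ 2 := Finset.card_le_two
  have := C.card4
  omega

end

end Cfsg.Agent.Lib.H81Suz
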