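import Cfsg.Agent.Lib.H81Suz0

/-! S3776, piece U (helper81): the case of an abelian self-centralizing subgroup of exponent 4. -/

set_option autoImplicit false
set_option linter.all false

namespace Cfsg.Agent.Lib.H81Suz

open Cfsg.Agent.Lib.HigmanLin (mon cj mon_apply cj_apply)

universe u

variable {G : Type u} [Group G] [Finite G] {Y : Subgroup (MulAut G)}
variable {F : Type} [Field F] [Fintype F] [CharP F 2] [Fintype (F ≃+* F)] {e : G → F} {K : Subgroup Fˣ} {H A : Subgroup G}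

/-! ### general lemmas on the coordinate -/

theorem Ctx.e_one (C : Ctx Y e K) : e 1 = 0 := by
  have := C.add 1 1 (one_pow 2) (one_pow 2)
  rw [mul_one] at this
  exact left_eq_add.mp this

theorem Ctx.mul_sq (C : Ctx Y e K) {x y : G} (hx : x ^ 2 = 1) (hy : y ^ 2 = 1) : (x * y) ^ 2 = 1 := by
  have h : Commute x y := C.cen x hx y
  rw [h.mul_pow, hx, hy, one_mul]

theorem Ctx.inv_eq (C : Ctx Y e K) {x : G} (hx : x ^ 2 = 1) : x⁻¹ = x := by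
  rw [inv_eq_iff_mul_eq_one, ← pow_two]; exact hx

theorem Ctx.e_inj (C : Ctx Y e K) {x y : G} (hx : x ^ 2 = 1) (hy : y ^ 2 = 1) (h : e x = e y) : x = y := by
  have h1 : e (x * y) = 0 := by
    rw [C.add x y hx hy, h]; exact CharTwo.add_self_eq_zero _
  have h2 := C.inj _ (C.mul_sq hx hy) h1
  rw [mul_eq_one_iff_eq_inv, C.inv_eq hy] at h2
  exact h2

theorem Ctx.e_act (C : Ctx Y e K) {g : MulAut G} (hg : g ∈ Y) : ∃ (β : F) (φ : F ≃+* F), β ≠ 0 ∧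
    ∀ x : G, x ^ 2 = 1 → e (g x) = β * φ (e x) := C.semi g hg

/-! ### commutators -/

theorem HasA.comm_mem (hA : HasA Y H A) {x y : G} (hx : x ∈ H) (hy : y ∈ H) : x * y * x⁻¹ * y⁻¹ ∈ A := by
  have h1 : x * y * x⁻¹ * y⁻¹ = (x * y) ^ 2 * (y⁻¹ * x⁻¹ * y) ^ 2 * (y⁻¹) ^ 2 := by
    simp only [pow_two]; group
  rw [h1]
  exact A.mul_mem (A.mul_mem (hA.sq _ (H.mul_mem hx hy))
    (hA.sq _ (H.mul_mem (H.mul_mem (H.inv_mem hy) (H.inv_mem hx)) hy))) (hA.sq _ (H.inv_mem hy))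

theorem HasA.conj_mem (hA : HasA Y H A) {x a : G} (hx : x ∈ H) (ha : a ∈ A) : x * a * x⁻¹ ∈ A := by
  have h1 : x * a * x⁻¹ = (x * a * x⁻¹ * a⁻¹) * a := by group
  rw [h1]
  exact A.mul_mem (hA.comm_mem hx (hA.le ha)) ha

/-- `c(x,y) = x⁻¹ y x y⁻¹` lies in `A` -/
theorem HasA.cc_mem (hA : HasA Y H A) {x y : G} (hx : x ∈ H) (hy : y ∈ H) : x⁻¹ * y * x * y⁻¹ ∈ A := by
  have := hA.comm_mem (H.inv_mem hx) hy
  rwa [inv_inv] at this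

theorem Ctx.sq_sq (C : Ctx Y e K) (h4 : ∀ a ∈ A, a ^ 4 = 1) {a : G} (ha : a ∈ A) : (a ^ 2) ^ 2 = 1 := by
  rw [← pow_mul]; exact h4 a ha

theorem Ctx.com_sq (C : Ctx Y e K) (hA : HasA Y H A) (h4 : ∀ a ∈ A, a ^ 4 = 1) {a x : G} (ha : a ∈ A) (hx : x ∈ H) :
    (a * x * a⁻¹ * x⁻¹) ^ 2 = 1 := by
  have h1 : a * x * a⁻¹ * x⁻¹ = a * (x * a⁻¹ * x⁻¹) := by group
  have hm : x * a⁻¹ * x⁻¹ ∈ A := hA.conj_mem hx (A.inv_mem ha)
  have hc : Commute a (x * a⁻¹ * x⁻¹) := hA.comm _ ha _ hm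
  rw [h1, hc.mul_pow]
  have h2 : (x * a⁻¹ * x⁻¹) ^ 2 = x * (a ^ 2)⁻¹ * x⁻¹ := by
    rw [conj_pow, inv_pow]
  rw [h2]
  have h3 : (a ^ 2) * x = x * a ^ 2 := C.cen _ (C.sq_sq h4 ha) x
  have h5 : x * (a ^ 2)⁻¹ * x⁻¹ = (a ^ 2)⁻¹ := by
    rw [mul_inv_eq_iff_eq_mul, eq_inv_mul_iff_mul_eq, ← mul_assoc, h3, mul_assoc, mul_inv_cancel, mul_one]
  rw [h5, mul_inv_cancel]

/-- every involution is the square of an element of `A` -/
theorem Ctx.ex_sq (C : Ctx Y e K) (hA : HasA Y H A) (v : F) : ∃ a ∈ A, e (a ^ 2) = v := by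
  obtain ⟨y, hy, hyv⟩ := C.surj v
  obtain ⟨a, ha, hay⟩ := C.toSetup.pow_surj hA.inv hA.comm (j := 1) (by simpa using hA.four) hy
  refine ⟨a, ha, ?_⟩
  have : a ^ 2 = y := by simpa using hay
  rw [this, hyv]

/-- the defining property of the additive map attached to `x` -/
def BB (e : G → F) (A : Subgroup G) (x : G) (b : F →+ F) : Prop := ∀ a ∈ A, b (e (a ^ 2)) = e (a * x * a⁻¹ * x⁻¹)

theorem Ctx.com_eq (C : Ctx Y e K) (hA : HasA Y H A) (h4 : ∀ a ∈ A, a ^ 4 = 1) {a a' x : G} (ha : a ∈ A) (ha' : a' ∈ A)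
    (hx : x ∈ H) (h : e (a ^ 2) = e (a' ^ 2)) : a * x * a⁻¹ * x⁻¹ = a' * x * a'⁻¹ * x⁻¹ := by
  have h1 : a ^ 2 = a' ^ 2 := C.e_inj (C.sq_sq h4 ha) (C.sq_sq h4 ha') h
  set z := a'⁻¹ * a with hz
  have hc : Commute a'⁻¹ a := hA.comm _ (A.inv_mem ha') _ ha
  have hz2 : z ^ 2 = 1 := by
    rw [hz, hc.mul_pow, inv_pow, h1, inv_mul_cancel]
  have ha2 : a = a' * z := by rw [hz]; group
  have hzx : z * x = x * z := C.cen z hz2 x
  rw [ha2]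
  calc a' * z * x * (a' * z)⁻¹ * x⁻¹ = a' * (z * x) * z⁻¹ * a'⁻¹ * x⁻¹ := by group
    _ = a' * x * a'⁻¹ * x⁻¹ := by rw [hzx]; group

theorem com_mul_left {a b x : G} (h : ∀ y : G, (b * x * b⁻¹ * x⁻¹) * y = y * (b * x * b⁻¹ * x⁻¹)) :
    (a * b) * x * (a * b)⁻¹ * x⁻¹ = (a * x * a⁻¹ * x⁻¹) * (b * x * b⁻¹ * x⁻¹) := by
  have h1 : (a * b) * x * (a * b)⁻¹ * x⁻¹ = a * ((b * x * b⁻¹ * x⁻¹) * (x * a⁻¹ * x⁻¹)) := by group
  rw [h1, h]; group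

theorem com_mul_right {a x y : G} (h : ∀ z : G, (a * y * a⁻¹ * y⁻¹) * z = z * (a * y * a⁻¹ * y⁻¹)) :
    a * (x * y) * a⁻¹ * (x * y)⁻¹ = (a * x * a⁻¹ * x⁻¹) * (a * y * a⁻¹ * y⁻¹) := by
  have h1 : a * (x * y) * a⁻¹ * (x * y)⁻¹ = (a * x * a⁻¹ * x⁻¹) * (x * ((a * y * a⁻¹ * y⁻¹)) * x⁻¹) := by group
  rw [h1, ← h x]; group

theorem Ctx.exists_b (C : Ctx Y e K) (hA : HasA Y H A) (h4 : ∀ a ∈ A, a ^ 4 = 1) {x : G} (hx : x ∈ H) :
    ∃ b : F →+ F, BB e A x b := by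
  choose s hs hse using C.ex_sq hA
  have key : ∀ a ∈ A, e (s (e (a ^ 2)) * x * (s (e (a ^ 2)))⁻¹ * x⁻¹) = e (a * x * a⁻¹ * x⁻¹) := by
    intro a ha
    rw [C.com_eq hA h4 (hs _) ha hx (hse _)]
  have hcen : ∀ a ∈ A, ∀ y : G, (a * x * a⁻¹ * x⁻¹) * y = y * (a * x * a⁻¹ * x⁻¹) := fun a ha y =>
    C.cen _ (C.com_sq hA h4 ha hx) y
  refine ⟨{ toFun := fun v => e (s v * x * (s v)⁻¹ * x⁻¹), map_zero' := ?_, map_add' := ?_ }, fun a ha => key a ha⟩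
  · have h1 := key 1 A.one_mem
    rw [one_pow, C.e_one] at h1
    rw [h1]
    have : (1 : G) * x * 1⁻¹ * x⁻¹ = 1 := by group
    rw [this, C.e_one]
  · intro v w
    have h1 := key (s v * s w) (A.mul_mem (hs v) (hs w))
    have hc : Commute (s v) (s w) := hA.comm _ (hs v) _ (hs w)
    rw [hc.mul_pow, C.add _ _ (C.sq_sq h4 (hs v)) (C.sq_sq h4 (hs w)), hse, hse, com_mul_left (hcen _ (hs w)),
      C.add _ _ (C.com_sq hA h4 (hs v) hx) (C.com_sq hA h4 (hs w) hx)] at h1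
    exact h1

theorem Ctx.b_unique (C : Ctx Y e K) (hA : HasA Y H A) {x : G} {b b' : F →+ F} (h : BB e A x b) (h' : BB e A x b') : b = b' := by
  ext v
  obtain ⟨a, ha, rfl⟩ := C.ex_sq hA v
  rw [h a ha, h' a ha]

theorem Ctx.b_mul (C : Ctx Y e K) (hA : HasA Y H A) (h4 : ∀ a ∈ A, a ^ 4 = 1) {x y : G} (hx : x ∈ H) (hy : y ∈ H)
    {b b' : F →+ F} (h : BB e A x b) (h' : BB e A y b') : BB e A (x * y) (b + b') := by
  intro a ha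
  rw [AddMonoidHom.add_apply, h a ha, h' a ha, com_mul_right (fun z => C.cen _ (C.com_sq hA h4 ha hy) z),
    C.add _ _ (C.com_sq hA h4 ha hx) (C.com_sq hA h4 ha hy)]

theorem Ctx.b_A (C : Ctx Y e K) (hA : HasA Y H A) {x : G} (hx : x ∈ A) : BB e A x 0 := by
  intro a ha
  have : a * x * a⁻¹ * x⁻¹ = 1 := by rw [hA.comm a ha x hx]; group
  rw [this, C.e_one]; rfl

theorem Ctx.b_inv (C : Ctx Y e K) (hA : HasA Y H A) (h4 : ∀ a ∈ A, a ^ 4 = 1) {x : G} (hx : x ∈ H) {b : F →+ F}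
    (h : BB e A x b) : BB e A x⁻¹ b := by
  obtain ⟨b', hb'⟩ := C.exists_b hA h4 (H.inv_mem hx)
  have h1 := C.b_mul hA h4 hx (H.inv_mem hx) h hb'
  rw [mul_inv_cancel] at h1
  have h2 := C.b_unique hA h1 (C.b_A hA A.one_mem)
  have h3 : b' = b := by
    ext v
    have := DFunLike.congr_fun h2 v
    rw [AddMonoidHom.add_apply, AddMonoidHom.zero_apply] at this
    rw [add_eq_zero_iff_eq_neg, CharTwo.neg_eq] at this
    exact this.symm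
  rw [← h3]; exact hb'

theorem Ctx.b_zero (C : Ctx Y e K) (hA : HasA Y H A) (h4 : ∀ a ∈ A, a ^ 4 = 1) {x : G} (hx : x ∈ H) (h : BB e A x 0) : x ∈ A := by
  apply hA.self x hx
  intro a ha
  have h1 := h a ha
  have h2 := C.inj _ (C.com_sq hA h4 ha hx) h1.symm
  rw [mul_inv_eq_one, mul_inv_eq_iff_eq_mul] at h2
  exact h2.symm

theorem Ctx.b_act (C : Ctx Y e K) (hA : HasA Y H A) (h4 : ∀ a ∈ A, a ^ 4 = 1) {x : G} (hx : x ∈ H) {g : MulAut G} (hg : g ∈ Y)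
    {β : F} {φ : F ≃+* F} (hgβ : ∀ x : G, x ^ 2 = 1 → e (g x) = β * φ (e x)) {b b' : F →+ F} (h : BB e A x b)
    (h' : BB e A (g x) b') (w : F) : b' (β * φ w) = β * φ (b w) := by
  obtain ⟨a, ha, rfl⟩ := C.ex_sq hA w
  rw [h a ha, ← hgβ _ (C.sq_sq h4 ha), ← hgβ _ (C.com_sq hA h4 ha hx), map_pow, h' (g a) (hA.inv g hg a ha)]
  simp only [map_mul, map_inv]

end Cfsg.Agent.Lib.H81Suz
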