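import Cfsg.Agent.Lib.H81SuzU

/-! S3776, piece U, part 2 (helper81): the quadratic map `x ↦ x⁴`. -/

set_option autoImplicit false
set_option linter.all false

namespace Cfsg.Agent.Lib.H81Suz

open Cfsg.Agent.Lib.HigmanLin (mon cj mon_apply cj_apply)

universe u

variable {G : Type u} [Group G] [Finite G] {Y : Subgroup (MulAut G)}
variable {F : Type} [Field F] [Fintype F] [CharP F 2] [Fintype (F ≃+* F)] {e : G → F} {K : Subgroup Fˣ} {H A : Subgroup G}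

/-- `c(x,y)²` -/
def cc (x y : G) : G := (x⁻¹ * y * x * y⁻¹) ^ 2

/-- the bilinear form -/
def bt (e : G → F) (x y : G) : F := e (cc x y)

theorem Ctx.cc_sq (C : Ctx Y e K) (hA : HasA Y H A) (h4 : ∀ a ∈ A, a ^ 4 = 1) {x y : G} (hx : x ∈ H) (hy : y ∈ H) :
    (cc x y) ^ 2 = 1 := C.sq_sq h4 (hA.cc_mem hx hy)

theorem Ctx.q4 (C : Ctx Y e K) (hA : HasA Y H A) (h4 : ∀ a ∈ A, a ^ 4 = 1) {x : G} (hx : x ∈ H) : (x ^ 4) ^ 2 = 1 := by
  have : (x ^ 4) ^ 2 = (x ^ 2) ^ 4 := by rw [← pow_mul, ← pow_mul]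
  rw [this]
  exact h4 _ (hA.sq x hx)

theorem Ctx.q_mul (C : Ctx Y e K) (hA : HasA Y H A) (h4 : ∀ a ∈ A, a ^ 4 = 1) {x y : G} (hx : x ∈ H) (hy : y ∈ H) :
    e ((x * y) ^ 4) = e (x ^ 4) + e (y ^ 4) + bt e x y := by
  have h1 : (x * y) ^ 2 = x ^ 2 * (x⁻¹ * y * x * y⁻¹) * y ^ 2 := by simp only [pow_two]; group
  have hm := hA.cc_mem hx hy
  have c1 : Commute (x ^ 2 * (x⁻¹ * y * x * y⁻¹)) (y ^ 2) :=
    hA.comm _ (A.mul_mem (hA.sq x hx) hm) _ (hA.sq y hy)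
  have c2 : Commute (x ^ 2) (x⁻¹ * y * x * y⁻¹) := hA.comm _ (hA.sq x hx) _ hm
  have h2 : (x * y) ^ 4 = x ^ 4 * cc x y * y ^ 4 := by
    have : (x * y) ^ 4 = ((x * y) ^ 2) ^ 2 := by rw [← pow_mul]
    rw [this, h1, c1.mul_pow, c2.mul_pow, ← pow_mul, ← pow_mul]
    rfl
  rw [h2, C.add _ _ (C.mul_sq (C.q4 hA h4 hx) (C.cc_sq hA h4 hx hy)) (C.q4 hA h4 hy),
    C.add _ _ (C.q4 hA h4 hx) (C.cc_sq hA h4 hx hy)]
  unfold bt
  ring

theorem Ctx.bt_mul_left (C : Ctx Y e K) (hA : HasA Y H A) (h4 : ∀ a ∈ A, a ^ 4 = 1) {x x' y : G} (hx : x ∈ H) (hx' : x' ∈ H)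
    (hy : y ∈ H) : bt e (x * x') y = bt e x y + bt e x' y := by
  have hm := hA.cc_mem hx hy
  have hm' := hA.cc_mem hx' hy
  have h1 : (x * x')⁻¹ * y * (x * x') * y⁻¹ = (x'⁻¹ * (x⁻¹ * y * x * y⁻¹) * x'⁻¹⁻¹) * (x'⁻¹ * y * x' * y⁻¹) := by group
  have hm2 : x'⁻¹ * (x⁻¹ * y * x * y⁻¹) * x'⁻¹⁻¹ ∈ A := hA.conj_mem (H.inv_mem hx') hm
  have c1 : Commute (x'⁻¹ * (x⁻¹ * y * x * y⁻¹) * x'⁻¹⁻¹) (x'⁻¹ * y * x' * y⁻¹) := hA.comm _ hm2 _ hm'
  have h2 : cc (x * x') y = cc x y * cc x' y := by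
    unfold cc
    rw [h1, c1.mul_pow, conj_pow]
    congr 1
    have := C.cen _ (C.sq_sq h4 hm) x'⁻¹
    rw [← this]; group
  unfold bt
  rw [h2, C.add _ _ (C.cc_sq hA h4 hx hy) (C.cc_sq hA h4 hx' hy)]

theorem Ctx.bt_mul_right (C : Ctx Y e K) (hA : HasA Y H A) (h4 : ∀ a ∈ A, a ^ 4 = 1) {x y y' : G} (hx : x ∈ H) (hy : y ∈ H)
    (hy' : y' ∈ H) : bt e x (y * y') = bt e x y + bt e x y' := by
  have hm := hA.cc_mem hx hy
  have hm' := hA.cc_mem hx hy'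
  have h1 : x⁻¹ * (y * y') * x * (y * y')⁻¹ = (x⁻¹ * y * x * y⁻¹) * (y * (x⁻¹ * y' * x * y'⁻¹) * y⁻¹) := by group
  have hm2 : y * (x⁻¹ * y' * x * y'⁻¹) * y⁻¹ ∈ A := hA.conj_mem hy hm'
  have c1 : Commute (x⁻¹ * y * x * y⁻¹) (y * (x⁻¹ * y' * x * y'⁻¹) * y⁻¹) := hA.comm _ hm _ hm2
  have h2 : cc x (y * y') = cc x y * cc x y' := by
    unfold cc
    rw [h1, c1.mul_pow, conj_pow]
    congr 1
    have := C.cen _ (C.sq_sq h4 hm') y
    rw [← this]; group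
  unfold bt
  rw [h2, C.add _ _ (C.cc_sq hA h4 hx hy) (C.cc_sq hA h4 hx hy')]

theorem Ctx.bt_A_right (C : Ctx Y e K) (hA : HasA Y H A) (h4 : ∀ a ∈ A, a ^ 4 = 1) {x a : G} (hx : x ∈ H) (ha : a ∈ A) :
    bt e x a = 0 := by
  have h1 : cc x a = 1 := by
    have h2 := C.com_sq hA h4 ha (H.inv_mem hx)
    have h3 : x⁻¹ * a * x * a⁻¹ = (a * x⁻¹ * a⁻¹ * x⁻¹⁻¹)⁻¹ := by group
    unfold cc
    rw [h3, inv_pow, h2, inv_one]
  unfold bt
  rw [h1, C.e_one]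

theorem Ctx.bt_A_left (C : Ctx Y e K) (hA : HasA Y H A) (h4 : ∀ a ∈ A, a ^ 4 = 1) {a y : G} (ha : a ∈ A) (hy : y ∈ H) :
    bt e a y = 0 := by
  have h1 : cc a y = 1 := by
    have h2 := C.com_sq hA h4 (A.inv_mem ha) hy
    have h3 : a⁻¹ * y * a * y⁻¹ = a⁻¹ * y * a⁻¹⁻¹ * y⁻¹ := by group
    unfold cc
    rw [h3, h2]
  unfold bt
  rw [h1, C.e_one]

/-- `b_x(q(x)) = 0` -/
theorem Ctx.b_q (C : Ctx Y e K) (hA : HasA Y H A) {x : G} (hx : x ∈ H) {b : F →+ F} (h : BB e A x b) : b (e (x ^ 4)) = 0 := by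
  have h1 := h (x ^ 2) (hA.sq x hx)
  have h2 : x ^ 2 * x * (x ^ 2)⁻¹ * x⁻¹ = 1 := by simp only [pow_two]; group
  rw [h2, C.e_one, ← pow_mul] at h1
  exact h1

theorem Ctx.bt_act (C : Ctx Y e K) (hA : HasA Y H A) (h4 : ∀ a ∈ A, a ^ 4 = 1) {x y : G} (hx : x ∈ H) (hy : y ∈ H) {g : MulAut G}
    {β : F} {φ : F ≃+* F} (hgβ : ∀ x : G, x ^ 2 = 1 → e (g x) = β * φ (e x)) : bt e (g x) (g y) = β * φ (bt e x y) := by
  unfold bt
  rw [← hgβ _ (C.cc_sq hA h4 hx hy)]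
  congr 1
  unfold cc
  simp only [map_mul, map_inv, map_pow]

/-- if `b_x` is a monomial then `x⁴ = 1` -/
theorem Ctx.q_mon (C : Ctx Y e K) (hA : HasA Y H A) (h4 : ∀ a ∈ A, a ^ 4 = 1) {x : G} (hx : x ∈ H) {α : F} {σ : F ≃+* F}
    (h : BB e A x (mon α σ)) : x ^ 4 = 1 := by
  by_cases hα : α = 0
  · have h0 : mon α σ = 0 := by
      ext w; rw [mon_apply, hα, zero_mul]; rfl
    rw [h0] at h
    exact h4 x (C.b_zero hA h4 hx h)
  · have h1 := C.b_q hA hx h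
    rw [mon_apply, mul_eq_zero, or_iff_right hα, map_eq_zero] at h1
    exact C.inj _ (C.q4 hA h4 hx) h1

theorem mon_add (α α' : F) (σ : F ≃+* F) : mon α σ + mon α' σ = mon (α + α') σ := by
  ext w
  rw [AddMonoidHom.add_apply, mon_apply, mon_apply, mon_apply, add_mul]

/-- the basic relation -/
theorem Ctx.rel (C : Ctx Y e K) (hA : HasA Y H A) (h4 : ∀ a ∈ A, a ^ 4 = 1) {x y : G} (hx : x ∈ H) (hy : y ∈ H)
    {α γ : F} {σ τ : F ≃+* F} (hbx : BB e A x (mon α σ)) (hby : BB e A y (mon γ τ)) :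
    α * σ (bt e x y) + γ * τ (bt e x y) = 0 := by
  have h1 := C.b_q hA (H.mul_mem hx hy) (C.b_mul hA h4 hx hy hbx hby)
  rw [C.q_mul hA h4 hx hy, C.q_mon hA h4 hx hbx, C.q_mon hA h4 hy hby, C.e_one, zero_add, zero_add,
    AddMonoidHom.add_apply, mon_apply, mon_apply] at h1
  exact h1

theorem Ctx.rel_left (C : Ctx Y e K) (hA : HasA Y H A) (h4 : ∀ a ∈ A, a ^ 4 = 1) {x x' y : G} (hx : x ∈ H) (hx' : x' ∈ H)
    (hy : y ∈ H) {α α' γ : F} {σ τ : F ≃+* F} (hbx : BB e A x (mon α σ)) (hbx' : BB e A x' (mon α' σ))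
    (hby : BB e A y (mon γ τ)) : α * σ (bt e x' y) = α' * σ (bt e x y) := by
  have r1 := C.rel hA h4 hx hy hbx hby
  have r2 := C.rel hA h4 hx' hy hbx' hby
  have hb := C.b_mul hA h4 hx hx' hbx hbx'
  rw [mon_add] at hb
  have r3 := C.rel hA h4 (H.mul_mem hx hx') hy hb hby
  rw [C.bt_mul_left hA h4 hx hx' hy, map_add, map_add] at r3
  have h2 := CharTwo.add_self_eq_zero (α' * σ (bt e x y))
  linear_combination r3 - r1 - r2 - h2

theorem Ctx.rel_right (C : Ctx Y e K) (hA : HasA Y H A) (h4 : ∀ a ∈ A, a ^ 4 = 1) {x y y' : G} (hx : x ∈ H) (hy : y ∈ H)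
    (hy' : y' ∈ H) {α γ γ' : F} {σ τ : F ≃+* F} (hbx : BB e A x (mon α σ)) (hby : BB e A y (mon γ τ))
    (hby' : BB e A y' (mon γ' τ)) : γ * τ (bt e x y') = γ' * τ (bt e x y) := by
  have r1 := C.rel hA h4 hx hy hbx hby
  have r2 := C.rel hA h4 hx hy' hbx hby'
  have hb := C.b_mul hA h4 hy hy' hby hby'
  rw [mon_add] at hb
  have r3 := C.rel hA h4 hx (H.mul_mem hy hy') hbx hb
  rw [C.bt_mul_right hA h4 hx hy hy', map_add, map_add] at r3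
  have h2 := CharTwo.add_self_eq_zero (γ' * τ (bt e x y))
  linear_combination r3 - r1 - r2 - h2

/-- the component of the identity automorphism is trivial -/
theorem Ctx.no_refl (C : Ctx Y e K) (M : MinCE Y H) (hA : HasA Y H A) (h4 : ∀ a ∈ A, a ^ 4 = 1) {x : G} (hx : x ∈ H)
    {α : F} (hbx : BB e A x (mon α (RingEquiv.refl F))) : x ∈ A := by
  by_contra hxA
  have hx4 := C.q_mon hA h4 hx hbx
  have hx2 : (x ^ 2) ^ 2 = 1 := by rw [← pow_mul]; exact hx4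
  have hV : ∀ v : G, v ^ 2 = 1 → v ∈ A := fun v hv => C.toSetup.mem_of_sq hA.inv (by
    obtain ⟨a, ha, ha2⟩ := hA.four
    rintro rfl
    rw [Subgroup.mem_bot] at ha
    rw [ha, one_pow] at ha2
    exact ha2 rfl) hv
  -- squares in the coset
  have hsq : ∀ (x : G), x ∈ H → ∀ α : F, BB e A x (mon α (RingEquiv.refl F)) → (x ^ 2) ^ 2 = 1 → ∀ a ∈ A,
      ((x * a) ^ 2) ^ 2 = 1 ∧ e ((x * a) ^ 2) = e (x ^ 2) + (1 + α) * e (a ^ 2) := by
    intro x hx α hbx hx2 a ha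
    have h1 : (x * a) ^ 2 = x ^ 2 * ((a * x⁻¹ * a⁻¹ * x⁻¹⁻¹)⁻¹ * a ^ 2) := by simp only [pow_two]; group
    have hz := C.com_sq hA h4 ha (H.inv_mem hx)
    have ha2 := C.sq_sq h4 ha
    rw [C.inv_eq hz] at h1
    refine ⟨by rw [h1]; exact C.mul_sq hx2 (C.mul_sq hz ha2), ?_⟩
    rw [h1, C.add _ _ hx2 (C.mul_sq hz ha2), C.add _ _ hz ha2]
    have h2 := C.b_inv hA h4 hx hbx a ha
    rw [← h2, mon_apply]
    show e (x ^ 2) + (α * e (a ^ 2) + e (a ^ 2)) = _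
    ring
  have hα : ∀ (x : G), x ∈ H → x ∉ A → ∀ α : F, BB e A x (mon α (RingEquiv.refl F)) → (x ^ 2) ^ 2 = 1 → α = 1 := by
    intro x hx hxA α hbx hx2
    by_contra hα
    have h10 : (1 : F) + α ≠ 0 := by
      intro h0
      apply hα
      rw [add_eq_zero_iff_eq_neg, CharTwo.neg_eq] at h0
      exact h0.symm
    obtain ⟨a, ha, hae⟩ := C.ex_sq hA (e (x ^ 2) / (1 + α))
    obtain ⟨h1, h2⟩ := hsq x hx α hbx hx2 a ha
    rw [hae, mul_div_cancel₀ _ h10, CharTwo.add_self_eq_zero] at h2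
    have h3 := C.inj _ h1 h2
    apply hxA
    have h5 := hV _ h3
    have h6 : x = (x * a) * a⁻¹ := by group
    rw [h6]
    exact A.mul_mem h5 (A.inv_mem ha)
  have hα1 : α = 1 := hα x hx hxA α hbx hx2
  subst hα1
  -- `x²` is fixed by `Y`
  have hfix : ∀ g ∈ Y, g (x ^ 2) = x ^ 2 := by
    intro g hg
    obtain ⟨β, φ, hβ, hgβ⟩ := C.semi g hg
    have hgx : g x ∈ H := M.inv g hg x hx
    obtain ⟨b', hb'⟩ := C.exists_b hA h4 hgx
    have hb1 : b' = mon 1 (RingEquiv.refl F) := by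
      ext w
      obtain ⟨w', hw'⟩ := φ.surjective (w / β)
      have h1 := C.b_act hA h4 hx hg hgβ hbx hb' w'
      rw [hw', mul_div_cancel₀ _ hβ, mon_apply, one_mul] at h1
      rw [h1, mon_apply, one_mul]
      show β * φ w' = w
      rw [hw', mul_div_cancel₀ _ hβ]
    rw [hb1] at hb'
    have h2 := C.b_mul hA h4 (H.inv_mem hx) hgx (C.b_inv hA h4 hx hbx) hb'
    have h3 : mon (1 : F) (RingEquiv.refl F) + mon 1 (RingEquiv.refl F) = 0 := by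
      rw [mon_add, CharTwo.add_self_eq_zero]
      ext w; rw [mon_apply, zero_mul]; rfl
    rw [h3] at h2
    have h5 := C.b_zero hA h4 (H.mul_mem (H.inv_mem hx) hgx) h2
    have h6 : g x = x * (x⁻¹ * g x) := by group
    obtain ⟨h7, h8⟩ := hsq x hx 1 hbx hx2 _ h5
    rw [← h6] at h7 h8
    rw [CharTwo.add_self_eq_zero, zero_mul, add_zero] at h8
    rw [map_pow]
    exact C.e_inj h7 hx2 h8
  have hx21 : x ^ 2 ≠ 1 := fun h => hxA (hV x h)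
  have hall : ∀ v : G, v ^ 2 = 1 → v = 1 ∨ v = x ^ 2 := by
    intro v hv
    by_cases h1 : v = 1
    · exact Or.inl h1
    · obtain ⟨g, hg, hgv⟩ := C.trans _ v hx21 hx2 h1 hv
      right
      rw [← hgv, hfix g hg]
  have hcard : Fintype.card F ≤ 2 := by
    classical
    have h1 : (Finset.univ : Finset F) ⊆ {0, e (x ^ 2)} := by
      intro v _
      obtain ⟨y, hy, rfl⟩ := C.surj v
      rcases hall y hy with rfl | rfl
      · rw [C.e_one]; simp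
      · simp
    have h2 := Finset.card_le_card h1
    exact h2.trans Finset.card_le_two
  have := C.card4
  omega

end Cfsg.Agent.Lib.H81Suz
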