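import Cfsg.Agent.Lib.H81SuzU2

/-! S3776, piece U, part 3 (helper81): conclusion. -/

set_option autoImplicit false
set_option linter.all false

namespace Cfsg.Agent.Lib.H81Suz

open Cfsg.Agent.Lib.HigmanLin (mon cj mon_apply cj_apply)

universe u

section
variable {F : Type} [Field F] [Fintype F]

theorem aut_pow (σ : F ≃+* F) : ∃ k : ℕ, k ≠ 0 ∧ ∀ x, σ x = x ^ k := by
  obtain ⟨g, hg⟩ := IsCyclic.exists_generator (α := Fˣ)
  have h1 : σ (g : F) ≠ 0 := by simp
  obtain ⟨k, hk⟩ := (mem_powers_iff_mem_zpowers).mpr (hg (Units.mk0 _ h1))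
  have hk' : g ^ k = Units.mk0 _ h1 := hk
  have hN : g ^ (Nat.card Fˣ) = 1 := pow_card_eq_one'
  refine ⟨k + Nat.card Fˣ, by have := Nat.card_pos (α := Fˣ); omega, ?_⟩
  have hk2 : g ^ (k + Nat.card Fˣ) = Units.mk0 _ h1 := by rw [pow_add, hN, mul_one, hk']
  intro x
  by_cases hx : x = 0
  · subst hx
    rw [map_zero, zero_pow]
    have := Nat.card_pos (α := Fˣ)
    omega
  · obtain ⟨j, hj⟩ := (mem_powers_iff_mem_zpowers).mpr (hg (Units.mk0 x hx))
    have hj' : ((g : F)) ^ j = x := by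
      have := congrArg (Units.val) (show g ^ j = Units.mk0 x hx from hj)
      simpa using this
    have hk3 : ((g : F)) ^ (k + Nat.card Fˣ) = σ g := by
      have := congrArg (Units.val) hk2
      simpa using this
    rw [← hj', map_pow, ← hk3, ← pow_mul, ← pow_mul, mul_comm]

theorem aut_comm (σ φ : F ≃+* F) (x : F) : σ (φ x) = φ (σ x) := by
  obtain ⟨k, -, hk⟩ := aut_pow σ
  rw [hk, hk, map_pow]

end

variable {G : Type u} [Group G] [Finite G] {Y : Subgroup (MulAut G)}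
variable {F : Type} [Field F] [Fintype F] [CharP F 2] [Fintype (F ≃+* F)] {e : G → F} {K : Subgroup Fˣ} {H A : Subgroup G}

theorem Ctx.act_mon (C : Ctx Y e K) (M : MinCE Y H) (hA : HasA Y H A) (h4 : ∀ a ∈ A, a ^ 4 = 1) {x : G} (hx : x ∈ H)
    {g : MulAut G} (hg : g ∈ Y) {β : F} {φ : F ≃+* F} (hβ : β ≠ 0) (hgβ : ∀ x : G, x ^ 2 = 1 → e (g x) = β * φ (e x))
    {α : F} {σ : F ≃+* F} (h : BB e A x (mon α σ)) : BB e A (g x) (mon (β * φ α / σ β) σ) := by
  obtain ⟨b', hb'⟩ := C.exists_b hA h4 (M.inv g hg x hx)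
  have h1 : b' = mon (β * φ α / σ β) σ := by
    ext w
    obtain ⟨w', hw'⟩ := φ.surjective (w / β)
    have h2 := C.b_act hA h4 hx hg hgβ h hb' w'
    have h3 : β * φ w' = w := by rw [hw', mul_div_cancel₀ _ hβ]
    have hσβ : σ β ≠ 0 := by simpa using hβ
    rw [h3, mon_apply, map_mul, ← aut_comm σ φ, hw', map_div₀] at h2
    rw [h2, mon_apply]
    field_simp
  rw [← h1]; exact hb'

theorem Ctx.bt_symm (C : Ctx Y e K) (hA : HasA Y H A) (h4 : ∀ a ∈ A, a ^ 4 = 1) {x y : G} (hx : x ∈ H) (hy : y ∈ H) :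
    bt e x y = bt e y x := by
  have h1 := C.q_mul hA h4 hx hy
  have h2 := C.q_mul hA h4 hy hx
  have h3 : (y * x) ^ 4 = (x * y) ^ 4 := by
    have h5 : (y * x) ^ 4 = y * (x * y) ^ 4 * y⁻¹ := by
      rw [← conj_pow]; congr 1; group
    rw [h5, ← C.cen _ (C.q4 hA h4 (H.mul_mem hx hy)) y]; group
  rw [h3, h1] at h2
  have h6 : e (x ^ 4) + e (y ^ 4) + bt e x y = e (x ^ 4) + e (y ^ 4) + bt e y x := by
    rw [h2]; ring
  exact add_left_cancel h6

/-- the exceptional case `q = 64` -/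
theorem Ctx.exc (C : Ctx Y e K) (M : MinCE Y H) (hA : HasA Y H A) (h4 : ∀ a ∈ A, a ^ 4 = 1) {x y : G} (hx : x ∈ H)
    (hy : y ∈ H) {α γ : F} {σ τ : F ≃+* F} (hbx : BB e A x (mon α σ)) (hby : BB e A y (mon γ τ)) (hα : α ≠ 0)
    (hB : bt e x y ≠ 0) (hF : Fintype.card F = 64) (hσ : ∀ z, σ.symm z = z ^ 8) (hτ : ∀ z, τ.symm z = z ^ 16) : False := by
  have h64 : ∀ z : F, z ^ 64 = z := by
    intro z
    have := FiniteField.pow_card z
    rwa [hF] at this
  have h63 : ∀ z : F, z ≠ 0 → z ^ 63 = 1 := by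
    intro z hz
    have := FiniteField.pow_card_sub_one_eq_one z hz
    rwa [hF] at this
  have hσ' : ∀ z, σ z = z ^ 8 := by
    intro z
    have h1 : (σ z) ^ 8 = z := by rw [← hσ, RingEquiv.symm_apply_apply]
    calc σ z = (σ z) ^ 64 := (h64 _).symm
      _ = ((σ z) ^ 8) ^ 8 := by rw [← pow_mul]
      _ = z ^ 8 := by rw [h1]
  have hτ' : ∀ z, τ z = z ^ 4 := by
    intro z
    have h1 : (τ z) ^ 16 = z := by rw [← hτ, RingEquiv.symm_apply_apply]
    calc τ z = (τ z) ^ 64 := (h64 _).symm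
      _ = ((τ z) ^ 16) ^ 4 := by rw [← pow_mul]
      _ = z ^ 4 := by rw [h1]
  -- the key equation
  have key : ∀ b : F, b ≠ 0 → ∃ φ : F ≃+* F, φ (α ^ 21) = b ^ 21 * α ^ 21 := by
    intro b hb
    obtain ⟨g, hg, φ, hgφ⟩ := C.transF b hb
    have hm := C.act_mon M hA h4 hx hg hb hgφ hbx
    have hgx := M.inv g hg x hx
    have r0 := C.rel hA h4 hx hy hbx hby
    have r1 := C.rel hA h4 hgx hy hm hby
    have r2 := C.rel_left hA h4 hx hgx hy hbx hm hby
    have hφα : φ α ≠ 0 := by simpa using hα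
    set α' := b * φ α / σ b with hα'
    have hα'0 : α' ≠ 0 := by
      rw [hα']
      have : σ b ≠ 0 := by simpa using hb
      exact div_ne_zero (mul_ne_zero hb hφα) this
    set t := α' / α with ht
    have ht0 : t ≠ 0 := div_ne_zero hα'0 hα
    have hα't : α' = t * α := by rw [ht]; field_simp
    set B := bt e x y with hBdef
    set B' := bt e (g x) y with hB'def
    have e1 : σ B' = t * σ B := by
      apply mul_left_cancel₀ hα
      rw [r2, hα't]; ring
    have e2 : B' = σ.symm t * B := by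
      apply σ.injective
      rw [e1, map_mul, RingEquiv.apply_symm_apply]
    have e3 : τ B' = τ (σ.symm t) * τ B := by rw [e2, map_mul]
    have hσB : σ B ≠ 0 := by simpa using hB
    have e4 : (t ^ 2 + τ (σ.symm t)) * (α * σ B) = 0 := by
      rw [e1, e3, hα't] at r1
      have h2 := CharTwo.add_self_eq_zero (τ (σ.symm t) * (α * σ B))
      linear_combination r1 - τ (σ.symm t) * r0 + h2
    have e5 : t ^ 2 + τ (σ.symm t) = 0 := by
      rcases mul_eq_zero.mp e4 with h | h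
      · exact h
      · exact absurd h (mul_ne_zero hα hσB)
    have e6 : t ^ 2 = t ^ 32 := by
      rw [add_eq_zero_iff_eq_neg, CharTwo.neg_eq, hσ, hτ', ← pow_mul] at e5
      exact e5
    have e7 : t ^ 30 = 1 := by
      apply mul_left_cancel₀ (pow_ne_zero 2 ht0)
      rw [← pow_add, mul_one]; exact e6.symm
    have e8 : t ^ 3 = 1 := by
      have h1 := h63 t ht0
      have h2 : t ^ 63 = (t ^ 30) ^ 2 * t ^ 3 := by ring
      rw [h2, e7, one_pow, one_mul] at h1
      exact h1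
    refine ⟨φ, ?_⟩
    have e9 : (b * φ α) ^ 3 = (b ^ 8 * α) ^ 3 := by
      have h1 : b * φ α = t * (b ^ 8 * α) := by
        rw [ht, hα', hσ']
        field_simp
      rw [h1, mul_pow, e8, one_mul]
    have e10 : (φ α) ^ 3 = b ^ 21 * α ^ 3 := by
      apply mul_left_cancel₀ (pow_ne_zero 3 hb)
      rw [← mul_pow, e9]; ring
    have e11 : (φ α) ^ 21 = b ^ 147 * α ^ 21 := by
      have : (φ α) ^ 21 = ((φ α) ^ 3) ^ 7 := by rw [← pow_mul]
      rw [this, e10]; ring
    have e12 : b ^ 147 = b ^ 21 := by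
      have : b ^ 147 = (b ^ 63) ^ 2 * b ^ 21 := by ring
      rw [this, h63 b hb, one_pow, one_mul]
    rw [map_pow, e11, e12]
  -- a generator
  obtain ⟨g, hg⟩ := IsCyclic.exists_generator (α := Fˣ)
  have hog : orderOf g = 63 := by
    classical
    rw [orderOf_eq_card_of_forall_mem_zpowers hg, Nat.card_eq_fintype_card, Fintype.card_units, hF]
  set ω : F := ((g : F)) ^ 21 with hω
  have hω1 : ω ≠ 1 := by
    intro h
    have : g ^ 21 = 1 := by
      ext; rw [Units.val_pow_eq_pow_val]; exact h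
    have := orderOf_dvd_of_pow_eq_one this
    rw [hog] at this
    norm_num at this
  have hω3 : ω ^ 3 = 1 := by
    rw [hω, ← pow_mul]; exact h63 _ g.ne_zero
  have hsum : 1 + ω + ω ^ 2 = 0 := by
    have h1 : (ω - 1) * (1 + ω + ω ^ 2) = 0 := by linear_combination hω3
    rcases mul_eq_zero.mp h1 with h | h
    · exact absurd (sub_eq_zero.mp h) hω1
    · exact h
  set u := α ^ 21 with hu
  have hu3 : u ^ 3 = 1 := by
    rw [hu, ← pow_mul]; exact h63 α hα
  have hroots : (u - 1) * ((u - ω) * (u - ω ^ 2)) = 0 := by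
    linear_combination hu3 + (u - u ^ 2) * hsum + (u - 1) * hω3
  obtain ⟨φ₁, h1⟩ := key g g.ne_zero
  obtain ⟨φ₂, h2⟩ := key (g ^ 2) (pow_ne_zero 2 g.ne_zero)
  have h2' : φ₂ u = ω ^ 2 * u := by rw [h2, hω]; ring
  have h1' : φ₁ u = ω * u := h1
  rcases mul_eq_zero.mp hroots with h | h
  · have hu1 : u = 1 := sub_eq_zero.mp h
    rw [hu1, map_one, mul_one] at h1'
    exact hω1 h1'.symm
  rcases mul_eq_zero.mp h with h | h
  · have hu1 : u = ω := sub_eq_zero.mp h
    rw [hu1] at h2'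
    have h3 : φ₂ ω = 1 := by rw [h2']; linear_combination hω3
    exact hω1 (φ₂.injective (by rw [h3, map_one]))
  · have hu1 : u = ω ^ 2 := sub_eq_zero.mp h
    rw [hu1] at h1'
    have h3 : φ₁ (ω ^ 2) = 1 := by rw [h1']; linear_combination hω3
    have h5 : ω ^ 2 = 1 := φ₁.injective (by rw [h3, map_one])
    apply hω1
    linear_combination hω3 - ω * h5


/-- the components attached to different automorphisms commute modulo involutions -/
theorem Ctx.bt_zero (C : Ctx Y e K) (M : MinCE Y H) (hA : HasA Y H A) (h4 : ∀ a ∈ A, a ^ 4 = 1) {x y : G} (hx : x ∈ H)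
    (hy : y ∈ H) {α γ : F} {σ τ : F ≃+* F} (hbx : BB e A x (mon α σ)) (hby : BB e A y (mon γ τ)) (hne : σ ≠ τ) :
    bt e x y = 0 := by
  by_contra hB
  have hxA : x ∉ A := fun h => hB (C.bt_A_left hA h4 h hy)
  have hyA : y ∉ A := fun h => hB (C.bt_A_right hA h4 hx h)
  have hα : α ≠ 0 := by
    rintro rfl
    apply hxA
    have h0 : mon (0 : F) σ = 0 := by ext w; rw [mon_apply, zero_mul]; rfl
    rw [h0] at hbx
    exact C.b_zero hA h4 hx hbx
  have hγ : γ ≠ 0 := by
    rintro rfl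
    apply hyA
    have h0 : mon (0 : F) τ = 0 := by ext w; rw [mon_apply, zero_mul]; rfl
    rw [h0] at hby
    exact C.b_zero hA h4 hy hby
  have hK : ∀ u ∈ K, σ.symm (u : F) * τ.symm (u : F) = (u : F) * ((u : F) * (u : F)) := by
    intro u hu
    obtain ⟨g, hg, hgu⟩ := C.K_act u hu
    have hu0 : (u : F) ≠ 0 := u.ne_zero
    have hgu' : ∀ x : G, x ^ 2 = 1 → e (g x) = (u : F) * (RingEquiv.refl F) (e x) := hgu
    have hmx := C.act_mon M hA h4 hx hg hu0 hgu' hbx
    have hmy := C.act_mon M hA h4 hy hg hu0 hgu' hby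
    have hgx := M.inv g hg x hx
    have hgy := M.inv g hg y hy
    have r1 := C.rel_left hA h4 hx hgx hgy hbx hmx hmy
    have r2 := C.rel_right hA h4 hx hy hgy hbx hby hmy
    have r3 := C.bt_act hA h4 hx hy hgu'
    simp only [RingEquiv.refl_apply] at r1 r2 r3
    set B0 := bt e x y with hB0
    set B1 := bt e x (g y) with hB1
    set B2 := bt e (g x) (g y) with hB2
    have hσu : σ (u : F) ≠ 0 := by simp
    have hτu : τ (u : F) ≠ 0 := by simp
    have e1 : σ B2 * σ (u : F) = (u : F) * σ B1 := by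
      apply mul_left_cancel₀ hα
      calc α * (σ B2 * σ (u : F)) = (α * σ B2) * σ (u : F) := by ring
        _ = ((u : F) * α / σ (u : F) * σ B1) * σ (u : F) := by rw [r1]
        _ = α * ((u : F) * σ B1) := by field_simp
    have e2 : τ B1 * τ (u : F) = (u : F) * τ B0 := by
      apply mul_left_cancel₀ hγ
      calc γ * (τ B1 * τ (u : F)) = (γ * τ B1) * τ (u : F) := by ring
        _ = ((u : F) * γ / τ (u : F) * τ B0) * τ (u : F) := by rw [r2]
        _ = γ * ((u : F) * τ B0) := by field_simp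
    have e3 : B2 * (u : F) = σ.symm (u : F) * B1 := by
      have := congrArg σ.symm e1
      rwa [map_mul, map_mul, RingEquiv.symm_apply_apply, RingEquiv.symm_apply_apply, RingEquiv.symm_apply_apply] at this
    have e4 : B1 * (u : F) = τ.symm (u : F) * B0 := by
      have := congrArg τ.symm e2
      rwa [map_mul, map_mul, RingEquiv.symm_apply_apply, RingEquiv.symm_apply_apply, RingEquiv.symm_apply_apply] at this
    apply mul_right_cancel₀ hB
    rw [r3] at e3
    calc σ.symm (u : F) * τ.symm (u : F) * B0 = σ.symm (u : F) * (τ.symm (u : F) * B0) := by ring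
      _ = σ.symm (u : F) * (B1 * (u : F)) := by rw [e4]
      _ = (σ.symm (u : F) * B1) * (u : F) := by ring
      _ = ((u : F) * B0 * (u : F)) * (u : F) := by rw [e3]
      _ = (u : F) * ((u : F) * (u : F)) * B0 := by ring
  have hne' : σ.symm ≠ τ.symm := by
    intro h
    apply hne
    rw [← RingEquiv.symm_symm σ, h, RingEquiv.symm_symm]
  rcases C.n3 σ.symm τ.symm hne' hK with h | h | ⟨hF, ⟨h8, h16⟩ | ⟨h16, h8⟩⟩
  · have hσ : σ = RingEquiv.refl F := by
      rw [← RingEquiv.symm_symm σ, h]; rfl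
    subst hσ
    exact hxA (C.no_refl M hA h4 hx hbx)
  · have hτ : τ = RingEquiv.refl F := by
      rw [← RingEquiv.symm_symm τ, h]; rfl
    subst hτ
    exact hyA (C.no_refl M hA h4 hy hby)
  · exact C.exc M hA h4 hx hy hbx hby hα hB hF h8 h16
  · have hB' : bt e y x ≠ 0 := by rw [← C.bt_symm hA h4 hx hy]; exact hB
    exact C.exc M hA h4 hy hx hby hbx hγ hB' hF h8 h16

theorem exp_four (C : Ctx Y e K) (M : MinCE Y H) (hA : HasA Y H A) (h4 : ∀ a ∈ A, a ^ 4 = 1) : False := by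
  classical
  obtain ⟨x, hx, hx4⟩ := M.big
  apply hx4
  let S : AddSubgroup (F →+ F) :=
    { carrier := {b | ∃ x ∈ H, BB e A x b}
      zero_mem' := ⟨1, H.one_mem, C.b_A hA A.one_mem⟩
      add_mem' := by
        rintro a b ⟨x, hx, hax⟩ ⟨y, hy, hby⟩
        exact ⟨x * y, H.mul_mem hx hy, C.b_mul hA h4 hx hy hax hby⟩
      neg_mem' := by
        rintro a ⟨x, hx, hax⟩
        refine ⟨x, hx, ?_⟩
        have : -a = a := by
          ext w
          rw [AddMonoidHom.neg_apply, CharTwo.neg_eq]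
        rw [this]; exact hax }
  have hS : ∀ u ∈ K, ∀ b ∈ S, cj (u : F) b ∈ S := by
    rintro u hu b ⟨z, hz, hbz⟩
    obtain ⟨g, hg, hgu⟩ := C.K_act u hu
    have hgu' : ∀ x : G, x ^ 2 = 1 → e (g x) = (u : F) * (RingEquiv.refl F) (e x) := hgu
    obtain ⟨b', hb'⟩ := C.exists_b hA h4 (M.inv g hg z hz)
    have h1 : b' = cj (u : F) b := by
      ext w
      have h2 := C.b_act hA h4 hz hg hgu' hbz hb' ((u : F)⁻¹ * w)
      simp only [RingEquiv.refl_apply] at h2
      rw [mul_inv_cancel_left₀ u.ne_zero] at h2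
      rw [h2, cj_apply]
    exact ⟨g z, M.inv g hg z hz, by rw [← h1]; exact hb'⟩
  obtain ⟨b, hb⟩ := C.exists_b hA h4 hx
  obtain ⟨co, hco, hmem⟩ := C.mono S hS b ⟨x, hx, hb⟩
  choose xs hxs hxsb using hmem
  have key : ∀ T : Finset (F ≃+* F), ∃ p ∈ H, BB e A p (∑ σ ∈ T, mon (co σ) σ) ∧ e (p ^ 4) = 0 ∧
      ∀ τ ∉ T, ∀ y ∈ H, ∀ γ : F, BB e A y (mon γ τ) → bt e p y = 0 := by
    intro T
    induction T using Finset.induction_on with
    | empty =>
      refine ⟨1, H.one_mem, ?_, ?_, ?_⟩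
      · rw [Finset.sum_empty]; exact C.b_A hA A.one_mem
      · rw [one_pow, C.e_one]
      · intro τ _ y hy γ _
        exact C.bt_A_left hA h4 A.one_mem hy
    | insert σ T hσ ih =>
      obtain ⟨p, hp, hpb, hp4, hpt⟩ := ih
      refine ⟨p * xs σ, H.mul_mem hp (hxs σ), ?_, ?_, ?_⟩
      · rw [Finset.sum_insert hσ, add_comm]
        exact C.b_mul hA h4 hp (hxs σ) hpb (hxsb σ)
      · rw [C.q_mul hA h4 hp (hxs σ), hp4, C.q_mon hA h4 (hxs σ) (hxsb σ), C.e_one,
          hpt σ hσ (xs σ) (hxs σ) (co σ) (hxsb σ)]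
        ring
      · intro τ hτ y hy γ hγ
        rw [Finset.mem_insert, not_or] at hτ
        rw [C.bt_mul_left hA h4 hp (hxs σ) hy, hpt τ hτ.2 y hy γ hγ,
          C.bt_zero M hA h4 (hxs σ) hy (hxsb σ) hγ (Ne.symm hτ.1), add_zero]
  obtain ⟨p, hp, hpb, hp4, -⟩ := key Finset.univ
  have hbp : b = ∑ σ : F ≃+* F, mon (co σ) σ := by
    ext w
    rw [hco, AddMonoidHom.finset_sum_apply]
    rfl
  rw [← hbp] at hpb
  have h5 := C.b_mul hA h4 (H.inv_mem hp) hx (C.b_inv hA h4 hp hpb) hb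
  have h6 : b + b = 0 := by
    ext w
    rw [AddMonoidHom.add_apply, CharTwo.add_self_eq_zero]; rfl
  rw [h6] at h5
  have h7 := C.b_zero hA h4 (H.mul_mem (H.inv_mem hp) hx) h5
  have h8 : x = p * (p⁻¹ * x) := by group
  have h9 := C.q_mul hA h4 hp (hA.le h7)
  rw [← h8, hp4, h4 _ h7, C.e_one, C.bt_A_right hA h4 hp h7, add_zero, add_zero] at h9
  exact C.inj _ (C.q4 hA h4 hx) h9

end Cfsg.Agent.Lib.H81Suz
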