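import Cfsg.Agent.Lib.H81Suz0
import Cfsg.Agent.Lib.FrattiniQuot

/-! S3776, piece Z (helper3): the final step. -/

set_option autoImplicit false
set_option linter.all false

open scoped commutatorElement

namespace Cfsg.Agent.Lib.H81Suz

theorem final_step {G : Type*} [Group G] [Finite G] (h2 : IsPGroup 2 G) (hna : ¬ IsMulCommutative G) (Y : Subgroup (MulAut G))
    (h : Setup Y) (h4 : ∀ x : G, x ^ 4 = 1) :
    commutator G = frattini G ∧ frattini G = Subgroup.center G ∧ ∀ x : G, x ∈ Subgroup.center G ↔ x ^ 2 = 1 := by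
  haveI : Fact (Nat.Prime 2) := ⟨Nat.prime_two⟩
  have hna' : ∃ x : G, ∃ y : G, x * y ≠ y * x := by
    by_contra hcon
    push Not at hcon
    exact hna ⟨⟨hcon⟩⟩
  have hc : ∀ x : G, x ∈ Subgroup.center G ↔ x ^ 2 = 1 := by
    intro x
    constructor
    · intro hx
      obtain ⟨a, b, hab⟩ := hna'
      refine h.center_sq (X := ⊤) (fun _ _ _ _ => Subgroup.mem_top _) (fun x _ => h4 x)
        ⟨a, Subgroup.mem_top _, b, Subgroup.mem_top _, hab⟩ (Subgroup.mem_top x) (fun y _ => ?_)
      exact ((Subgroup.mem_center_iff.mp hx) y).symm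
    · intro hx
      rw [Subgroup.mem_center_iff]
      intro y
      exact (h.cen x hx y).symm
  have h5 : Subgroup.center G ≤ commutator G := by
    intro v hv
    refine h.mem_of_sq (X := commutator G) ?_ ?_ ((hc v).mp hv)
    · intro a _ x hx
      have h6 : (commutator G).map a.toMonoidHom ≤ commutator G :=
        Subgroup.characteristic_iff_map_le.mp inferInstance a
      exact h6 (Subgroup.mem_map_of_mem _ hx)
    · intro h0
      obtain ⟨a, b, hab⟩ := hna'
      apply hab
      have h7 : ⁅a, b⁆ ∈ commutator G := Subgroup.commutator_mem_commutator (Subgroup.mem_top a) (Subgroup.mem_top b)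
      rw [h0, Subgroup.mem_bot] at h7
      exact commutatorElement_eq_one_iff_mul_comm.mp h7
  have h6 : commutator G ≤ frattini G := Cfsg.Agent.Lib.H70Frattini.commutator_le_frattini h2
  have h7 : frattini G ≤ Subgroup.center G := Cfsg.Agent.Lib.FrattiniQuot.frattini_le_of_squares _ fun a => by
    rw [hc, ← pow_mul]
    exact h4 a
  exact ⟨le_antisymm h6 (h7.trans h5), le_antisymm h7 (h5.trans h6), hc⟩

end Cfsg.Agent.Lib.H81Suz
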