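import Cfsg.Agent.Lib.H97FaI

set_option autoImplicit false
set_option linter.unusedVariables false

/-! # S5443: the stabilizer of `u2` in `K0` (helper87) -/

namespace Cfsg.Agent.Lib.H87U30

open Matrix Cfsg Cfsg.Agent.Lib.K4 Cfsg.Agent.Lib.HermMat Cfsg.Agent.Lib.ClThreeTransU Cfsg.Agent.Lib.SU6K4
open Cfsg.Agent.Lib.U43 Cfsg.Agent.Lib.H97Fa Cfsg.Agent.Lib.H97FaF Cfsg.Agent.Lib.H97FaG

/-- the stabilizer of `u2` in `K0` -/
def St : Subgroup G where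
  carrier := {g | g ∈ K0 ∧ mt g *ᵥ u2 = u2}
  one_mem' := ⟨K0.one_mem, by rw [mt_one, Matrix.one_mulVec]⟩
  mul_mem' := by
    rintro a b ⟨ha, ha'⟩ ⟨hb, hb'⟩
    exact ⟨K0.mul_mem ha hb, by rw [mt_mul, ← Matrix.mulVec_mulVec, hb', ha']⟩
  inv_mem' := by
    rintro a ⟨ha, ha'⟩
    refine ⟨K0.inv_mem ha, ?_⟩
    conv_lhs => rw [← ha']
    rw [Matrix.mulVec_mulVec, ← mt_mul, inv_mul_cancel, mt_one, Matrix.one_mulVec]

theorem mem_St {g : G} : g ∈ St ↔ g ∈ K0 ∧ mt g *ᵥ u2 = u2 := Iff.rfl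

/-- swap of the coordinates 2 and 5 -/
def sw (v : V6) : V6 := fun i => v (Equiv.swap 2 5 i)

end Cfsg.Agent.Lib.H87U30
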