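import Cfsg.Agent.Lib.H97FaG
set_option autoImplicit false
open Matrix Cfsg Cfsg.Agent.Lib.K4 Cfsg.Agent.Lib.HermMat Cfsg.Agent.Lib.ClThreeTransU Cfsg.Agent.Lib.SU6K4
open Cfsg.Agent.Lib.U43 Cfsg.Agent.Lib.H97Fa Cfsg.Agent.Lib.H97FaF Cfsg.Agent.Lib.H97FaG

namespace Cfsg.Agent.Lib.H97FbC4

theorem card_four : 1215 ≤ (Ob K0 w4).ncard := by
  classical
  let F : Finset (Fin 6) → Finset V6 := fun s =>
    Fintype.piFinset (fun i => if i ∈ s then Finset.univ.erase (0 : K4) else {0})
  have hF : ∀ s v, v ∈ F s → sup v = s := by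
    intro s v hv
    ext i
    rw [mem_sup]
    have := (Fintype.mem_piFinset.1 hv) i
    by_cases hi : i ∈ s
    · simpa [hi] using this
    · simpa [hi] using this
  have hc : ∀ s, s ∈ Finset.powersetCard 4 (Finset.univ : Finset (Fin 6)) → (F s).card = 81 := by
    intro s hs
    have h4 : s.card = 4 := (Finset.mem_powersetCard.1 hs).2
    have h1 : ∀ i : Fin 6, (if i ∈ s then Finset.univ.erase (0 : K4) else {0}).card =
        if i ∈ s then 3 else 1 := by
      intro i
      by_cases hi : i ∈ s
      · rw [if_pos hi, if_pos hi]; decide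
      · rw [if_neg hi, if_neg hi]; rfl
    show (Fintype.piFinset _).card = 81
    rw [Fintype.card_piFinset, Finset.prod_congr rfl (fun i _ => h1 i), Finset.prod_ite_mem,
      Finset.univ_inter, Finset.prod_const, h4]
    norm_num
  have hsub : (((Finset.powersetCard 4 (Finset.univ : Finset (Fin 6))).biUnion F : Finset V6) : Set V6) ⊆
      Ob K0 w4 := by
    intro v hv
    obtain ⟨s, hs, hv⟩ := Finset.mem_biUnion.1 (Finset.mem_coe.1 hv)
    apply rl_four
    rw [hF s v hv]
    exact (Finset.mem_powersetCard.1 hs).2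
  have hcard : ((Finset.powersetCard 4 (Finset.univ : Finset (Fin 6))).biUnion F).card = 1215 := by
    rw [Finset.card_biUnion, Finset.sum_congr rfl hc, Finset.sum_const, Finset.card_powersetCard]
    · rfl
    · intro s _ t _ hst
      rw [Function.onFun, Finset.disjoint_left]
      intro v hv hv'
      exact hst ((hF s v hv).symm.trans (hF t v hv'))
  rw [← hcard, ← Set.ncard_coe_finset]
  exact Set.ncard_le_ncard hsub (Set.toFinite _)

end Cfsg.Agent.Lib.H97FbC4
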