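import Cfsg.Agent.Lib.H97FaG
import Cfsg.Agent.Lib.H97FbC4

/-! Piece U3-A of S5443 (helper30): the orbit lengths of `K0` on isotropic vectors. -/

set_option autoImplicit false
set_option linter.unusedVariables false
open Matrix Cfsg Cfsg.Agent.Lib.K4 Cfsg.Agent.Lib.HermMat Cfsg.Agent.Lib.ClThreeTransU Cfsg.Agent.Lib.SU6K4
open Cfsg.Agent.Lib.U43 Cfsg.Agent.Lib.H97Fa Cfsg.Agent.Lib.H97FaF Cfsg.Agent.Lib.H97FaG

namespace Cfsg.Agent.Lib.H87U3A

theorem b6_key {c : ZMod 3} (v : V6) (hv : ∀ k, v k ≠ 0) (hp : ∏ k, v k = e c) : Rl K0 v (b6 c) := by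
  obtain ⟨d, hd, h⟩ := rl_six hv
  rw [hp] at hd
  rw [e_inj _ _ hd]; exact h

theorem b0 : Rl K0 (b6 0) u2 := by
  have h1 : Rl K0 (![1, om', om, 1, om, om'] : V6) u2 := ⟨Q 2 3, Q23_mem, funext Q23_u2⟩
  exact (b6_key _ (by decide) prod_a).symm.trans h1

theorem b1 : Rl K0 (b6 1) w4 := by
  have h1 : Rl K0 (![1, om', om, om', om', 1] : V6) (![0, 0, 1, 1, 1, om'] : V6) := ⟨Q 2 3, Q23_mem, funext Q23_a⟩
  exact ((b6_key _ (by decide) prod_b).symm.trans h1).trans (rl_four (by decide +kernel))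

theorem b2 : Rl K0 (b6 2) w4 := by
  have h1 : Rl K0 (![1, om', om, om, 1, om] : V6) (![0, 0, 1, 1, 1, om] : V6) := ⟨Q 2 3, Q23_mem, funext Q23_b⟩
  exact ((b6_key _ (by decide) prod_c).symm.trans h1).trans (rl_four (by decide +kernel))

def vec (c : ZMod 3) (a : Fin 5 → ZMod 3) : V6 :=
  fun k => e (Fin.snoc (α := fun _ => ZMod 3) a (c - ∑ i, a i) k)

theorem e_ne_zero : ∀ c : ZMod 3, e c ≠ 0 := by decide

theorem vec_inj (c : ZMod 3) : Function.Injective (vec c) := by
  intro a a' h
  funext i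
  have h1 := congrFun h (Fin.castSucc i)
  have h2 := e_inj _ _ h1
  rwa [Fin.snoc_castSucc, Fin.snoc_castSucc] at h2

theorem vec_ne (c : ZMod 3) (a : Fin 5 → ZMod 3) (k : Fin 6) : vec c a k ≠ 0 := e_ne_zero _

theorem vec_prod (c : ZMod 3) (a : Fin 5 → ZMod 3) : ∏ k, vec c a k = e c := by
  have h : e (∑ k : Fin 6, (Fin.snoc (α := fun _ => ZMod 3) a (c - ∑ i, a i) k : ZMod 3)) = ∏ k, vec c a k := e_sum _ _
  rw [← h, Fin.sum_univ_castSucc]
  congr 1
  simp only [Fin.snoc_castSucc, Fin.snoc_last]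
  ring

theorem vec_rl (c : ZMod 3) (a : Fin 5 → ZMod 3) : Rl K0 (vec c a) (b6 c) :=
  b6_key _ (vec_ne c a) (vec_prod c a)

open scoped Classical in
noncomputable def cls (c : ZMod 3) : Finset V6 := Finset.univ.image (vec c)

theorem card_cls (c : ZMod 3) : (cls c).card = 243 := by
  classical
  rw [cls, Finset.card_image_of_injective _ (vec_inj c), Finset.card_univ, Fintype.card_fun, ZMod.card, Fintype.card_fin]
  norm_num

theorem mem_cls {c : ZMod 3} {v : V6} (h : v ∈ cls c) : (sup v).card = 6 ∧ ∏ k, v k = e c ∧ Rl K0 v (b6 c) := by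
  classical
  rw [cls, Finset.mem_image] at h
  obtain ⟨a, -, rfl⟩ := h
  refine ⟨?_, vec_prod c a, vec_rl c a⟩
  have : sup (vec c a) = Finset.univ := by
    ext i
    simp [mem_sup, vec_ne]
  rw [this]
  rfl

/-- vectors with given support -/
def Fs (s : Finset (Fin 6)) : Finset V6 :=
  Fintype.piFinset (fun i => if i ∈ s then Finset.univ.erase (0 : K4) else {0})

theorem sup_Fs (s : Finset (Fin 6)) (v : V6) (hv : v ∈ Fs s) : sup v = s := by
  ext i
  rw [mem_sup]
  have := (Fintype.mem_piFinset.1 hv) i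
  by_cases hi : i ∈ s
  · simpa [hi] using this
  · simpa [hi] using this

theorem card_Fs (s : Finset (Fin 6)) : (Fs s).card = 3 ^ s.card := by
  have h1 : ∀ i : Fin 6, (if i ∈ s then Finset.univ.erase (0 : K4) else {0}).card =
      if i ∈ s then 3 else 1 := by
    intro i
    by_cases hi : i ∈ s
    · rw [if_pos hi, if_pos hi]; decide
    · rw [if_neg hi, if_neg hi]; rfl
  rw [Fs, Fintype.card_piFinset, Finset.prod_congr rfl (fun i _ => h1 i), Finset.prod_ite_mem,
    Finset.univ_inter, Finset.prod_const]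

open scoped Classical in
noncomputable def W (m : ℕ) : Finset V6 := (Finset.powersetCard m (Finset.univ : Finset (Fin 6))).biUnion Fs

theorem card_W (m : ℕ) : (W m).card = Nat.choose 6 m * 3 ^ m := by
  classical
  rw [W, Finset.card_biUnion, Finset.sum_congr rfl (fun s hs => by
    rw [card_Fs, (Finset.mem_powersetCard.1 hs).2]), Finset.sum_const, Finset.card_powersetCard]
  · rfl
  · intro s _ t _ hst
    rw [Function.onFun, Finset.disjoint_left]
    intro v hv hv'
    exact hst ((sup_Fs s v hv).symm.trans (sup_Fs t v hv'))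

theorem mem_W {m : ℕ} {v : V6} (h : v ∈ W m) : (sup v).card = m := by
  classical
  rw [W, Finset.mem_biUnion] at h
  obtain ⟨s, hs, hv⟩ := h
  rw [sup_Fs s v hv]
  exact (Finset.mem_powersetCard.1 hs).2

theorem low_u2 : 378 ≤ (Ob K0 u2).ncard := by
  classical
  have hsub : ((W 2 ∪ cls 0 : Finset V6) : Set V6) ⊆ Ob K0 u2 := by
    intro v hv
    rw [Finset.coe_union] at hv
    rcases hv with hv | hv
    · exact rl_two (mem_W (Finset.mem_coe.1 hv))
    · exact (mem_cls (Finset.mem_coe.1 hv)).2.2.trans b0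
  have hcard : (W 2 ∪ cls 0 : Finset V6).card = 378 := by
    rw [Finset.card_union_of_disjoint, card_W, card_cls]
    · rfl
    · rw [Finset.disjoint_left]
      intro v hv hv'
      have h1 := mem_W hv
      have h2 := (mem_cls hv').1
      omega
  rw [← hcard, ← Set.ncard_coe_finset]
  exact Set.ncard_le_ncard hsub (Set.toFinite _)

theorem low_w4 : 1701 ≤ (Ob K0 w4).ncard := by
  classical
  have hsub : ((W 4 ∪ (cls 1 ∪ cls 2) : Finset V6) : Set V6) ⊆ Ob K0 w4 := by
    intro v hv
    rw [Finset.coe_union, Finset.coe_union] at hv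
    rcases hv with hv | hv | hv
    · exact rl_four (mem_W (Finset.mem_coe.1 hv))
    · exact (mem_cls (Finset.mem_coe.1 hv)).2.2.trans b1
    · exact (mem_cls (Finset.mem_coe.1 hv)).2.2.trans b2
  have hcard : (W 4 ∪ (cls 1 ∪ cls 2) : Finset V6).card = 1701 := by
    rw [Finset.card_union_of_disjoint, Finset.card_union_of_disjoint, card_W, card_cls, card_cls]
    · rfl
    · rw [Finset.disjoint_left]
      intro v hv hv'
      have h1 := (mem_cls hv).2.1
      have h2 := (mem_cls hv').2.1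
      rw [h1] at h2
      have h3 := e_inj _ _ h2
      exact absurd h3 (by decide)
    · rw [Finset.disjoint_left]
      intro v hv hv'
      have h1 := mem_W hv
      rw [Finset.mem_union] at hv'
      rcases hv' with hv' | hv'
      · have h2 := (mem_cls hv').1
        omega
      · have h2 := (mem_cls hv').1
        omega
  rw [← hcard, ← Set.ncard_coe_finset]
  exact Set.ncard_le_ncard hsub (Set.toFinite _)

theorem card_K0' : Nat.card K0 = 9797760 := by
  classical
  have : Fact (Nat.Prime 3) := ⟨Nat.prime_three⟩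
  have hft : Fintype (GaloisField 3 2) := Fintype.ofFinite _
  have h9 : Fintype.card (GaloisField 3 2) = 9 := by
    rw [← Nat.card_eq_fintype_card, GaloisField.card 3 2 (by norm_num)]
    norm_num
  exact card_good h9 (good_K0 (GaloisField 3 2) h9)

theorem ncard_Ob : (Ob K0 u2).ncard = 378 ∧ (Ob K0 w4).ncard = 1701 := by
  have hI : {v : V6 | Iso v} = Ob K0 u2 ∪ Ob K0 w4 := by
    ext v
    constructor
    · intro hv; exact cover hv
    · rintro (⟨g, -, rfl⟩ | ⟨g, -, rfl⟩)
      · exact iso_u2.map g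
      · exact iso_w4.map g
  have hd : ¬ Rl K0 u2 w4 := by
    intro hd
    have he : Ob K0 u2 = Ob K0 w4 := by
      ext v
      exact ⟨fun h => h.trans hd, fun h => h.trans hd.symm⟩
    rw [he, Set.union_self] at hI
    have h3 := card_Ob_dvd K0 w4
    rw [← hI, ncard_Iso, card_K0'] at h3
    revert h3; decide
  have hdis : Disjoint (Ob K0 u2) (Ob K0 w4) := by
    rw [Set.disjoint_left]
    intro v hv hv'
    exact hd ((Rl.symm hv).trans hv')
  have h3 := Set.ncard_union_eq hdis (Set.toFinite _) (Set.toFinite _)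
  rw [← hI, ncard_Iso] at h3
  have h4 := low_u2
  have h5 := low_w4
  omega

end Cfsg.Agent.Lib.H87U3A
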