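import Cfsg.Agent.Lib.U43I

set_option autoImplicit false
set_option linter.style.haveILetI false
set_option linter.unusedVariables false
set_option linter.unusedSectionVars false

/-! # The three classes of triple covers of `U₄(3)` inside `SU₆(2)` -/

namespace Cfsg.Agent.Lib.U43

open Matrix Cfsg Cfsg.Agent.Lib.K4 Cfsg.Agent.Lib.HermMat Cfsg.Agent.Lib.ClThreeTransU Cfsg.Agent.Lib.SU6K4
open Cfsg.Agent.Lib.Quad Subgroup

theorem card_G : Nat.card (SU 6 K4 2) = 27590492160 := by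
  have h := ClUnitary.card_SU (n := 6) SU6K4.hF (by norm_num)
  have h2 : (2 : ℕ) ^ (6 * (6 - 1) / 2) * ∏ i ∈ Finset.range 6, (if Even i then 2 ^ (i + 1) + 1 else 2 ^ (i + 1) - 1) = 82771476480 := by
    decide +kernel
  rw [h2] at h
  omega

/-! ## diagonal automorphisms -/

/-- diagonal matrices -/
def DD (u : Fin 6 → ZMod 3) : Matrix (Fin 6) (Fin 6) K4 := Matrix.diagonal fun i => e (u i)

theorem DD_mul (u v : Fin 6 → ZMod 3) : DD u * DD v = DD (u + v) := by
  unfold DD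
  rw [Matrix.diagonal_mul_diagonal]
  congr 1
  ext i
  rw [Pi.add_apply, e_add]

theorem DD_zero : DD 0 = 1 := by
  unfold DD
  rw [← Matrix.diagonal_one]
  rfl

theorem DD_herm (u : Fin 6 → ZMod 3) (x y : Fin 6 → K4) :
    hermForm 6 K4 2 (DD u *ᵥ x) (DD u *ᵥ y) = hermForm 6 K4 2 x y := by
  rw [hermForm_def, hermForm_def]
  apply Finset.sum_congr rfl
  intro i _
  unfold DD
  rw [Matrix.mulVec_diagonal, Matrix.mulVec_diagonal]
  linear_combination (x i * y i ^ 2) * e_norm (u i)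

theorem DD_neg_mul (u : Fin 6 → ZMod 3) : DD (-u) * DD u = 1 := by rw [DD_mul, neg_add_cancel, DD_zero]
theorem DD_mul_neg (u : Fin 6 → ZMod 3) : DD u * DD (-u) = 1 := by rw [DD_mul, add_neg_cancel, DD_zero]

/-- conjugation by a diagonal matrix -/
def cj (u : Fin 6 → ZMod 3) : G →* G where
  toFun g := ⟨⟨DD u * mt g * DD (-u), by
    rw [Matrix.det_mul, Matrix.det_mul, mul_right_comm, ← Matrix.det_mul, DD_mul_neg, Matrix.det_one, one_mul]
    exact (g : SpecialLinearGroup (Fin 6) K4).2⟩, fun x y => by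
      change hermForm 6 K4 2 ((DD u * mt g * DD (-u)) *ᵥ x) ((DD u * mt g * DD (-u)) *ᵥ y) = _
      rw [← Matrix.mulVec_mulVec, ← Matrix.mulVec_mulVec, ← Matrix.mulVec_mulVec, ← Matrix.mulVec_mulVec, DD_herm]
      have h := g.2 (DD (-u) *ᵥ x) (DD (-u) *ᵥ y)
      exact h.trans (DD_herm _ _ _)⟩
  map_one' := by
    apply ext_mt
    change DD u * 1 * DD (-u) = 1
    rw [mul_one, DD_mul_neg]
  map_mul' g h := by
    apply ext_mt
    change DD u * (mt g * mt h) * DD (-u) = DD u * mt g * DD (-u) * (DD u * mt h * DD (-u))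
    have : DD u * mt g * DD (-u) * (DD u * mt h * DD (-u)) = DD u * mt g * (DD (-u) * DD u) * mt h * DD (-u) := by
      simp only [mul_assoc]
    rw [this, DD_neg_mul, mul_one]
    simp only [mul_assoc]

theorem mt_cj (u : Fin 6 → ZMod 3) (g : G) : mt (cj u g) = DD u * mt g * DD (-u) := rfl

theorem mt_cj_apply (u : Fin 6 → ZMod 3) (g : G) (i j : Fin 6) : mt (cj u g) i j = e (u i) * mt g i j * e (-u j) := by
  rw [mt_cj]
  unfold DD
  rw [Matrix.mul_diagonal, Matrix.diagonal_mul]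
  rfl

theorem cj_cj (u v : Fin 6 → ZMod 3) (g : G) : cj u (cj v g) = cj (u + v) g := by
  apply ext_mt
  rw [mt_cj, mt_cj, mt_cj]
  have : DD u * (DD v * mt g * DD (-v)) * DD (-u) = (DD u * DD v) * mt g * (DD (-v) * DD (-u)) := by
    simp only [mul_assoc]
  rw [this, DD_mul, DD_mul, neg_add_rev]

theorem cj_zero (g : G) : cj 0 g = g := by
  apply ext_mt
  rw [mt_cj, neg_zero, DD_zero, one_mul, mul_one]

theorem cj_inj (u : Fin 6 → ZMod 3) : Function.Injective (cj u) := by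
  intro g h hgh
  have := congrArg (cj (-u)) hgh
  rwa [cj_cj, cj_cj, neg_add_cancel, cj_zero, cj_zero] at this

theorem cj_mo (u : Fin 6 → ZMod 3) (a : A0) (σ : Pm) : ∃ b, cj u (mo a σ) = mo b σ := by
  have hs : ∑ i, (a.1 i + (u i - u (σ⁻¹ i))) = 0 := by
    rw [Finset.sum_add_distrib, a.2, Finset.sum_sub_distrib, Equiv.sum_comp σ⁻¹ u, sub_self, add_zero]
  refine ⟨⟨fun i => a.1 i + (u i - u (σ⁻¹ i)), hs⟩, ?_⟩
  apply ext_mt
  ext i j
  rw [mt_cj_apply, mt_mo, mt_mo, monM_apply, monM_apply]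
  split_ifs with h
  · subst h
    change _ = e (a.1 (σ j) + (u (σ j) - u (σ⁻¹ (σ j))))
    rw [← e_add, ← e_add, inv_app]
    congr 1
    ring
  · rw [mul_zero, zero_mul]

theorem cj_M0 {u : Fin 6 → ZMod 3} {g : G} (h : g ∈ M0) : cj u g ∈ M0 := by
  obtain ⟨a, σ, hσ, rfl⟩ := h
  obtain ⟨b, hb⟩ := cj_mo u a σ
  rw [hb]
  exact ⟨b, σ, hσ, rfl⟩

/-- the exponents -/
def uu (l : ZMod 3) : Fin 6 → ZMod 3 := Pi.single 3 l
def yq (l : ZMod 3) : Fin 8 := (![3, 5, 7] : Fin 3 → Fin 8) l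

theorem cj_Q (l : ZMod 3) : cj (uu l) (Q 2 3) = Q 2 (yq l) := by
  apply ext_mt
  ext i j
  rw [mt_cj_apply]
  change e _ * bd (q 2) (q 3) i j * e _ = bd (q 2) (q (yq l)) i j
  have h1 : ∀ (l : ZMod 3) (i j : Fin 3), e (uu l (lo i)) * q 2 i j = q 2 i j * e (uu l (lo j)) := by decide +kernel
  have h2 : ∀ (l : ZMod 3) (i j : Fin 3), e (uu l (hi i)) * q 3 i j = q (yq l) i j * e (uu l (hi j)) := by decide +kernel
  rcases six i with ⟨i, rfl⟩ | ⟨i, rfl⟩ <;> rcases six j with ⟨j, rfl⟩ | ⟨j, rfl⟩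
  · rw [bd_lo, bd_lo, h1, mul_assoc, ← e_add, add_neg_cancel, e_zero, mul_one]
  · rw [bd_lh, bd_lh, mul_zero, zero_mul]
  · rw [bd_hl, bd_hl, mul_zero, zero_mul]
  · rw [bd_hi, bd_hi, h2, mul_assoc, ← e_add, add_neg_cancel, e_zero, mul_one]

theorem cj_p2 (l : ZMod 3) : cj (uu l) (mo 0 p2) = mo 0 p2 := by
  apply ext_mt
  ext i j
  rw [mt_cj_apply, mt_mo, monM_apply]
  split_ifs with h
  · have h1 : ∀ (l : ZMod 3) (j : Fin 6), uu l (p2 j) = uu l j := by decide
    rw [← e_add, ← e_add, h, h1]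
    congr 1
    ring
  · rw [mul_zero, zero_mul]

/-! ## the three subgroups -/

/-- the three subgroups -/
def KK (l : ZMod 3) : Subgroup G := K0.map (cj (uu l))

theorem M0_le_KK (l : ZMod 3) : M0 ≤ KK l := by
  intro g hg
  refine ⟨cj (-uu l) g, M0_le_K0 (cj_M0 hg), ?_⟩
  rw [cj_cj, add_neg_cancel, cj_zero]

theorem Q_mem_KK (l : ZMod 3) : Q 2 (yq l) ∈ KK l := ⟨Q 2 3, Q23_mem, cj_Q l⟩

theorem p2_notMem_KK (l : ZMod 3) : mo 0 p2 ∉ KK l := by
  rintro ⟨g, hg, h⟩
  rw [← cj_p2 l] at h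
  exact p2_notMem (cj_inj _ h ▸ hg)

theorem KK_le {l : ZMod 3} {K : Subgroup G} (h1 : M0 ≤ K) (h2 : Q 2 (yq l) ∈ K) : KK l ≤ K := by
  unfold KK
  rw [Subgroup.map_le_iff_le_comap]
  apply le_of_gen
  · intro g hg
    exact h1 (cj_M0 hg)
  · rw [Subgroup.mem_comap, cj_Q]; exact h2

theorem card_KK (l : ZMod 3) : Nat.card (KK l) = Nat.card K0 := Subgroup.card_map_of_injective (cj_inj _)

theorem N0_eq : N0 = K0 := by
  apply le_antisymm _ K0_le_N0
  unfold N0
  rw [sup_le_iff, Subgroup.zpowers_le]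
  exact ⟨M0_le_K0, Q23_mem⟩

theorem p2_KK {l : ZMod 3} {n : G} (h : n ∈ KK l) : mo 0 p2 * n * mo 0 p2 ∈ KK l := by
  obtain ⟨m, hm, rfl⟩ := h
  have h1 : m ∈ N0 := K0_le_N0 hm
  refine ⟨mo 0 p2 * m * mo 0 p2, ?_, ?_⟩
  · have := p2_norm h1
    rw [N0_eq] at this
    exact this
  · rw [map_mul, map_mul, cj_p2]

theorem conj_le_of_mem {K : Subgroup G} {g : G} (hg : g ∈ K) : K.map (MulAut.conj g).toMonoidHom = K := by
  ext x
  constructor
  · rintro ⟨y, hy, rfl⟩
    exact K.mul_mem (K.mul_mem hg hy) (K.inv_mem hg)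
  · intro hx
    refine ⟨g⁻¹ * x * g, K.mul_mem (K.mul_mem (K.inv_mem hg) hx) hg, ?_⟩
    change g * (g⁻¹ * x * g) * g⁻¹ = x
    group

theorem conj_conj (K : Subgroup G) (g h : G) : (K.map (MulAut.conj g).toMonoidHom).map (MulAut.conj h).toMonoidHom =
    K.map (MulAut.conj (h * g)).toMonoidHom := by
  rw [Subgroup.map_map]
  congr 1
  ext x : 1
  change h * (g * x * g⁻¹) * h⁻¹ = h * g * x * (h * g)⁻¹
  group

theorem mono_KK {l : ZMod 3} {g : G} (hg : g ∈ Mn ⊤) : (KK l).map (MulAut.conj g).toMonoidHom = KK l := by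
  obtain ⟨a, σ, -, rfl⟩ := hg
  by_cases h : Equiv.Perm.sign σ = 1
  · exact conj_le_of_mem (M0_le_KK l (mo_mem_M0.2 h))
  · have h1 : Equiv.Perm.sign σ = -1 := (Int.units_eq_one_or _).resolve_left h
    have h2 : mo a σ = mo a (σ * p2⁻¹) * mo 0 p2 := by
      rw [mo_mul, act_zero, add_zero, inv_mul_cancel_right]
    rw [h2, ← conj_conj]
    have h3 : (KK l).map (MulAut.conj (mo 0 p2)).toMonoidHom = KK l := by
      apply Subgroup.eq_of_le_of_card_ge
      · rintro _ ⟨x, hx, rfl⟩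
        have := p2_KK hx
        change mo 0 p2 * x * (mo 0 p2)⁻¹ ∈ KK l
        rw [p2_inv]
        exact this
      · rw [Subgroup.card_map_of_injective (MulAut.conj _).injective]
    rw [h3]
    apply conj_le_of_mem
    apply M0_le_KK
    apply mo_mem_M0.2
    rw [Equiv.Perm.sign_mul, Equiv.Perm.sign_inv, h1, sign_p2]
    decide

theorem KK_inj {l m : ZMod 3} (h : KK l = KK m) : l = m := by
  by_contra hne
  apply p2_notMem_KK l
  have h1 := Q_mem_KK l
  have h2 := Q_mem_KK m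
  rw [← h] at h2
  have h3 := (KK l).mul_mem ((KK l).mul_mem ((KK l).mul_mem h1 h1) h1) h2
  have h4 := (KK l).mul_mem h3 h3
  rw [Q_mul, Q_mul, Q_mul, Q_mul] at h4
  have h5 : ∀ l m : ZMod 3, l ≠ m → qm (qm (qm (qm (yq l) (yq l)) (yq l)) (yq m)) (qm (qm (qm (yq l) (yq l)) (yq l)) (yq m)) = 1 := by
    decide +kernel
  rw [h5 l m hne, show qm (qm (qm (qm 2 2) 2) 2) (qm (qm (qm 2 2) 2) 2) = 0 from by decide, Q01] at h4
  exact h4

/-! ## Sylow arguments -/

theorem fact_G : (Nat.card (SU 6 K4 2)).factorization 3 = 7 := by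
  rw [card_G]
  have h : (27590492160 : ℕ) = 3 ^ 7 * 12615680 := by norm_num
  rw [h, Nat.factorization_mul (by norm_num) (by norm_num), Finsupp.add_apply, Nat.Prime.factorization_pow (by norm_num),
    Finsupp.single_eq_same, Nat.factorization_eq_zero_of_not_dvd (by norm_num)]

theorem sylow_conj' {H : Type*} [Group H] [Finite H] {n : ℕ} (hH : (Nat.card H).factorization 3 ≤ n) {A B : Subgroup H}
    (cA : Nat.card A = 3 ^ n) (cB : Nat.card B = 3 ^ n) : ∃ k : H, A.map (MulAut.conj k).toMonoidHom = B := by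
  haveI : Fact (Nat.Prime 3) := ⟨by norm_num⟩
  have h1 : 3 ^ n ∣ Nat.card H := cA ▸ Subgroup.card_subgroup_dvd_card A
  have h2 : (Nat.card H).factorization 3 = n := by
    apply le_antisymm hH
    exact (Nat.Prime.pow_dvd_iff_le_factorization (by norm_num) Nat.card_pos.ne').1 h1
  let PA : Sylow 3 H := Sylow.ofCard A (by rw [cA, h2])
  let PB : Sylow 3 H := Sylow.ofCard B (by rw [cB, h2])
  obtain ⟨k, hk⟩ := MulAction.exists_smul_eq H PA PB
  refine ⟨k, ?_⟩
  have h3 := congrArg (fun P : Sylow 3 H => (P : Subgroup H)) hk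
  rw [show ((PB : Sylow 3 H) : Subgroup H) = B from rfl] at h3
  rw [← h3]
  rfl

theorem sylow_conj {K A B : Subgroup G} (hA : A ≤ K) (hB : B ≤ K) (cA : Nat.card A = 3 ^ 7) (cB : Nat.card B = 3 ^ 7) :
    ∃ k ∈ K, A.map (MulAut.conj k).toMonoidHom = B := by
  have hK : (Nat.card K).factorization 3 ≤ 7 := by
    rw [← fact_G]
    exact (Nat.factorization_le_iff_dvd Nat.card_pos.ne' Nat.card_pos.ne').2 (Subgroup.card_subgroup_dvd_card K) 3
  have cA' : Nat.card (A.subgroupOf K) = 3 ^ 7 := by rw [← cA]; exact Nat.card_congr (Subgroup.subgroupOfEquivOfLe hA).toEquiv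
  have cB' : Nat.card (B.subgroupOf K) = 3 ^ 7 := by rw [← cB]; exact Nat.card_congr (Subgroup.subgroupOfEquivOfLe hB).toEquiv
  obtain ⟨k, hk⟩ := sylow_conj' hK cA' cB'
  refine ⟨k, k.2, ?_⟩
  apply Subgroup.eq_of_le_of_card_ge
  · rintro _ ⟨x, hx, rfl⟩
    have h1 : (MulAut.conj k).toMonoidHom ⟨x, hA hx⟩ ∈ (B.subgroupOf K) := by
      rw [← hk]
      exact ⟨_, hx, rfl⟩
    exact h1
  · rw [Subgroup.card_map_of_injective (MulAut.conj _).injective, cA, cB]

theorem conj_T {h : G} (hS : S.map (MulAut.conj h).toMonoidHom = S) : h ∈ Mn ⊤ := by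
  have hT : T.map (MulAut.conj h).toMonoidHom = T := by
    apply uniq_T
    · intro x hx
      rw [← hS]
      exact Subgroup.map_mono T_le_S hx
    · rw [Subgroup.card_map_of_injective (MulAut.conj _).injective, card_T]
    · rintro _ ⟨x, hx, rfl⟩ _ ⟨y, hy, rfl⟩
      have h1 : x * y = y * x := by
        obtain ⟨a, rfl⟩ := mem_T.1 hx
        obtain ⟨b, rfl⟩ := mem_T.1 hy
        rw [mo_mul, mo_mul, act_one, act_one, add_comm]
      rw [← map_mul, ← map_inv, ← map_mul, ← map_inv, ← map_mul, h1, mul_inv_cancel_right, mul_inv_cancel, map_one]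
      exact Z0.one_mem
  apply norm_T
  intro t ht
  have h1 : (MulAut.conj h).toMonoidHom t ∈ T.map (MulAut.conj h).toMonoidHom := ⟨t, ht, rfl⟩
  rw [hT] at h1
  exact h1

theorem not_conj {l m : ZMod 3} {g : G} (h : (KK l).map (MulAut.conj g).toMonoidHom = KK m) : l = m := by
  have h1 : S.map (MulAut.conj g).toMonoidHom ≤ KK m := by
    rw [← h]
    exact Subgroup.map_mono (S_le_M0.trans (M0_le_KK l))
  obtain ⟨k, hk, h2⟩ := sylow_conj h1 (S_le_M0.trans (M0_le_KK m))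
    (by rw [Subgroup.card_map_of_injective (MulAut.conj _).injective, card_S]) card_S
  rw [conj_conj] at h2
  have h3 := conj_T h2
  apply KK_inj
  rw [← mono_KK h3, ← conj_conj, h, conj_le_of_mem hk]

/-! ## the properties of the subgroups -/

/-- the property of a subgroup -/
def Good (F9 : Type) [Field F9] (K : Type*) [Group K] : Prop :=
  Nat.card (Subgroup.center K) = 3 ∧ Nonempty (K ⧸ Subgroup.center K ≃* Cfsg.PSU 4 F9 3)

theorem Good.congr {F9 : Type} [Field F9] {K L : Type*} [Group K] [Group L] (φ : K ≃* L) (h : Good F9 K) : Good F9 L := by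
  obtain ⟨h1, ⟨h2⟩⟩ := h
  exact ⟨(Nat.card_congr (Subgroup.centerCongr φ).toEquiv).symm.trans h1, ⟨(SUTransport.quotCenterCongr φ.symm).trans h2⟩⟩

theorem ker_θ : θ.ker = Subgroup.center K0 := by
  ext x
  rw [MonoidHom.mem_ker, θ_eq_one, Subgroup.mem_center_iff]
  constructor
  · intro h g
    apply Subtype.ext
    have h1 := Z0_central h (g : G)
    change (g : G) * x = x * g
    rw [← h1]
    nth_rw 2 [h1]
    rw [inv_mul_cancel_right]
  · intro h
    apply cent_mod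
    intro s hs
    have := congrArg Subtype.val (h ⟨s, M0_le_K0 hs⟩)
    change s * (x : G) = x * s at this
    rw [← this, mul_inv_cancel_right, mul_inv_cancel]
    exact Z0.one_mem

theorem good_K0 (F9 : Type) [Field F9] [Fintype F9] (hF9 : Fintype.card F9 = 9) : Good F9 K0 := by
  refine ⟨by rw [← ker_θ, card_ker_θ], ?_⟩
  obtain ⟨e⟩ := PO_equiv F9 hF9
  exact ⟨((QuotientGroup.quotientMulEquivOfEq ker_θ.symm).trans
    (QuotientGroup.quotientKerEquivOfSurjective θ (θ_surjective F9 hF9))).trans e⟩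

theorem good_KK (F9 : Type) [Field F9] [Fintype F9] (hF9 : Fintype.card F9 = 9) (l : ZMod 3) : Good F9 (KK l) :=
  (good_K0 F9 hF9).congr (K0.equivMapOfInjective _ (cj_inj _))

theorem exists_hom {F9 : Type} [Field F9] [Fintype F9] (hF9 : Fintype.card F9 = 9) {K : Subgroup G} (h : Good F9 K) :
    ∃ f : K →* PO, Function.Surjective f ∧ f.ker = Subgroup.center K := by
  obtain ⟨h1, ⟨h2⟩⟩ := h
  obtain ⟨e⟩ := PO_equiv F9 hF9
  refine ⟨(h2.trans e.symm).toMonoidHom.comp (QuotientGroup.mk' _), ?_, ?_⟩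
  · exact (h2.trans e.symm).surjective.comp (QuotientGroup.mk'_surjective _)
  · ext x
    rw [MonoidHom.mem_ker]
    change (h2.trans e.symm) (QuotientGroup.mk' _ x) = 1 ↔ _
    rw [EmbeddingLike.map_eq_one_iff, ← MonoidHom.mem_ker, QuotientGroup.ker_mk']

theorem card_K0 (F9 : Type) [Field F9] [Fintype F9] (hF9 : Fintype.card F9 = 9) : Nat.card K0 = 3 * Nat.card PO := by
  have h := Subgroup.card_mul_index θ.ker
  rw [Subgroup.index_ker, MonoidHom.range_eq_top.2 (θ_surjective F9 hF9), Subgroup.card_top, card_ker_θ] at h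
  exact h.symm

theorem card_K {F9 : Type} [Field F9] [Fintype F9] (hF9 : Fintype.card F9 = 9) {K : Subgroup G} (h : Good F9 K) :
    Nat.card K = Nat.card K0 := by
  obtain ⟨f, hf, hk⟩ := exists_hom hF9 h
  have h3 := Subgroup.card_mul_index f.ker
  rw [Subgroup.index_ker, MonoidHom.range_eq_top.2 hf, Subgroup.card_top, hk, h.1] at h3
  rw [card_K0 F9 hF9, h3]

theorem exists_sit {F9 : Type} [Field F9] [Fintype F9] (hF9 : Fintype.card F9 = 9) {K : Subgroup G} (h : Good F9 K)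
    (hS : S ≤ K) : ∃ f : K →* PO, Sit K f := by
  obtain ⟨f, hf, hk⟩ := exists_hom hF9 h
  have hc : ∀ g : K, f g = 1 → ∀ x : K, g * x = x * g := by
    intro g hg x
    have : g ∈ Subgroup.center K := by rw [← hk]; exact hg
    exact (Subgroup.mem_center_iff.1 this x).symm
  have hkS : ∀ g : K, f g = 1 → (g : G) ∈ S := by
    intro g hg
    apply T_le_S
    apply cent_T
    intro t ht
    exact congrArg Subtype.val (hc g hg ⟨t, hS (T_le_S ht)⟩)
  have c3 : Nat.card f.ker = 3 := by rw [hk, h.1]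
  have c1 : Nat.card (im f S) = 3 ^ 6 := by
    have := card_im hf hS hkS
    rw [card_S, c3] at this
    omega
  have c2 : Nat.card (im θ S) = 3 ^ 6 := by
    have := card_im (θ_surjective F9 hF9) S_le_K0 (fun g hg => T_le_S (Z0_le_T (θ_eq_one.1 hg)))
    rw [card_S, card_ker_θ] at this
    omega
  haveI : Finite PO := Finite.of_surjective _ (θ_surjective F9 hF9)
  have h4 : (Nat.card PO).factorization 3 ≤ 6 := by
    have h5 : (Nat.card K0).factorization 3 ≤ 7 := by
      rw [← fact_G]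
      exact (Nat.factorization_le_iff_dvd Nat.card_pos.ne' Nat.card_pos.ne').2 (Subgroup.card_subgroup_dvd_card K0) 3
    rw [card_K0 F9 hF9, Nat.factorization_mul (by norm_num) Nat.card_pos.ne', Finsupp.add_apply,
      Nat.Prime.factorization_self (by norm_num)] at h5
    omega
  obtain ⟨k, hk2⟩ := sylow_conj' h4 c1 c2
  have hker : ∀ g : K, (MulAut.conj k).toMonoidHom.comp f g = 1 ↔ f g = 1 := by
    intro g
    change (MulAut.conj k) (f g) = 1 ↔ _
    rw [EmbeddingLike.map_eq_one_iff]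
  refine ⟨(MulAut.conj k).toMonoidHom.comp f, ?_, ?_, ?_, hS, ?_⟩
  · exact (MulAut.conj k).surjective.comp hf
  · have : ((MulAut.conj k).toMonoidHom.comp f).ker = f.ker := by
      ext g
      exact hker g
    rw [this]
    exact c3
  · intro g hg
    exact hc g ((hker g).1 hg)
  · unfold im
    rw [← Subgroup.map_map]
    exact hk2

theorem classify {F9 : Type} [Field F9] [Fintype F9] (hF9 : Fintype.card F9 = 9) {K : Subgroup G} (h : Good F9 K) :
    ∃ g : G, ∃ l : ZMod 3, K.map (MulAut.conj g).toMonoidHom = KK l := by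
  haveI : Fact (Nat.Prime 3) := ⟨by norm_num⟩
  have h1 : 3 ^ 7 ∣ Nat.card K := by
    rw [card_K hF9 h, ← card_S]
    exact Subgroup.card_dvd_of_le S_le_K0
  obtain ⟨A, hA⟩ := Sylow.exists_subgroup_card_pow_prime 3 h1
  obtain ⟨g, -, hg⟩ := sylow_conj (K := ⊤) (A := A.map K.subtype) (B := S) le_top le_top
    (by rw [Subgroup.card_map_of_injective K.subtype_injective, hA]) card_S
  set K' := K.map (MulAut.conj g).toMonoidHom with hK'
  have hSK : S ≤ K' := by
    rw [← hg]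
    apply Subgroup.map_mono
    rintro _ ⟨x, -, rfl⟩
    exact x.2
  have hgood : Good F9 K' := h.congr (K.equivMapOfInjective _ (MulAut.conj g).injective)
  obtain ⟨f, hf⟩ := exists_sit hF9 hgood hSK
  have hM := hf.M0_le F9 hF9
  have key : ∀ l, Q 2 (yq l) ∈ K' → K' = KK l := by
    intro l hl
    symm
    apply Subgroup.eq_of_le_of_card_ge (KK_le hM hl)
    rw [card_K hF9 hgood, card_KK]
  rcases hf.exists_elt F9 hF9 with h2 | h2 | h2
  · exact ⟨g, 0, key 0 h2⟩
  · exact ⟨g, 1, key 1 h2⟩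
  · exact ⟨g, 2, key 2 h2⟩

end Cfsg.Agent.Lib.U43
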