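import Cfsg.Agent.Lib.H87U30
import Cfsg.Agent.Lib.U43J

set_option autoImplicit false
set_option linter.unusedVariables false

open Matrix Cfsg Cfsg.Agent.Lib.K4 Cfsg.Agent.Lib.HermMat Cfsg.Agent.Lib.ClThreeTransU Cfsg.Agent.Lib.SU6K4
open Cfsg.Agent.Lib.U43 Cfsg.Agent.Lib.H97Fa Cfsg.Agent.Lib.H97FaF Cfsg.Agent.Lib.H97FaG Cfsg.Agent.Lib.H97FaI Cfsg.Agent.Lib.LargeExtra
open Cfsg.Agent.Lib.H87U30

namespace Cfsg.Agent.Lib.H87U3B

theorem card_St (hA : (Ob K0 u2).ncard = 378) : Nat.card St = 25920 := by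
  have hK : Nat.card K0 = 9797760 := by
    let _ : Fintype (GaloisField 3 2) := Fintype.ofFinite _
    have hF9 : Fintype.card (GaloisField 3 2) = 9 := by
      rw [← Nat.card_eq_fintype_card, GaloisField.card 3 2 (by norm_num)]
      norm_num
    exact card_good hF9 (good_K0 (GaloisField 3 2) hF9)
  let _ : MulAction K0 V6 :=
    { smul := fun g v => Matrix.mulVec (ClThreeTransU.mt (g : G)) v
      one_smul := fun v => Matrix.one_mulVec v
      mul_smul := fun g h v => by
        change Matrix.mulVec (ClThreeTransU.mt ((g * h : K0) : G)) v = Matrix.mulVec (ClThreeTransU.mt (g : G)) (Matrix.mulVec (ClThreeTransU.mt (h : G)) v)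
        rw [Matrix.mulVec_mulVec]; rfl }
  have h1 : Ob K0 u2 = MulAction.orbit K0 u2 := by
    ext v
    constructor
    · rintro ⟨g, hg, rfl⟩; exact ⟨⟨g, hg⟩, rfl⟩
    · rintro ⟨⟨g, hg⟩, rfl⟩; exact ⟨g, hg, rfl⟩
  have h2 : (MulAction.orbit K0 u2).ncard = (MulAction.stabilizer K0 u2).index := by
    rw [← Nat.card_coe_set_eq]
    exact Nat.card_congr (MulAction.orbitEquivQuotientStabilizer K0 u2)
  have h3 : St = (MulAction.stabilizer K0 u2).map K0.subtype := by
    ext g
    rw [mem_St]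
    constructor
    · rintro ⟨hg, hg2⟩
      exact ⟨⟨g, hg⟩, hg2, rfl⟩
    · rintro ⟨x, hx, rfl⟩
      exact ⟨x.2, hx⟩
  have h4 : Nat.card St = Nat.card (MulAction.stabilizer K0 u2) := by
    rw [h3]
    exact Subgroup.card_map_of_injective K0.subtype_injective
  have h5 := Subgroup.card_mul_index (MulAction.stabilizer K0 u2)
  rw [← h2, ← h1, hA, ← h4, hK] at h5
  have h6 : (9797760 : ℕ) = 25920 * 378 := by norm_num
  rw [h6] at h5
  exact Nat.eq_of_mul_eq_mul_right (by norm_num) h5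

end Cfsg.Agent.Lib.H87U3B
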