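import Cfsg.Agent.Lib.H87U30
import Cfsg.Agent.Lib.ClUnitary2

/-! S5443 piece U3-C (helper75): the stabilizer of `u2` in `K0` is `PSU₄(2)`. -/

set_option autoImplicit false
set_option linter.unusedVariables false

open Matrix Cfsg Cfsg.Agent.Lib.K4 Cfsg.Agent.Lib.HermMat Cfsg.Agent.Lib.ClThreeTransU Cfsg.Agent.Lib.SU6K4
open Cfsg.Agent.Lib.U43 Cfsg.Agent.Lib.H97Fa Cfsg.Agent.Lib.H97FaF Cfsg.Agent.Lib.H97FaG Cfsg.Agent.Lib.H87U30

namespace Cfsg.Agent.Lib.H87U3C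

theorem c_add_self : ∀ x : K4, x + x = 0 := by decide
theorem c_neg : ∀ x : K4, -x = x := by decide
theorem c_eq_of_add : ∀ x y : K4, x + y = 0 → y = x := by decide
theorem c_two : (2 : K4) = 0 := by decide
theorem c_eq1 : ∀ x y : K4, x + y = 1 → y = 1 + x := by decide

/-- index map -/
def jj : Fin 4 → Fin 6 := ![0, 1, 3, 4]

theorem u2_jj : ∀ i, u2 (jj i) = 0 := by decide
theorem u2_2 : u2 2 = 1 := rfl
theorem u2_5 : u2 5 = 1 := rfl

/-- matrices fixing `u2` and its polar -/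
structure Fx (A : Matrix (Fin 6) (Fin 6) K4) : Prop where
  r : ∀ i, A i 2 + A i 5 = u2 i
  c : ∀ k, A 2 k + A 5 k = u2 k

theorem Fx.r5 {A : Matrix (Fin 6) (Fin 6) K4} (h : Fx A) (i : Fin 4) : A (jj i) 5 = A (jj i) 2 :=
  c_eq_of_add _ _ (by rw [h.r, u2_jj])
theorem Fx.c5 {A : Matrix (Fin 6) (Fin 6) K4} (h : Fx A) (i : Fin 4) : A 5 (jj i) = A 2 (jj i) :=
  c_eq_of_add _ _ (by rw [h.c, u2_jj])

theorem sum6 (f : Fin 6 → K4) : ∑ i, f i = (∑ i : Fin 4, f (jj i)) + (f 2 + f 5) := by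
  rw [Fin.sum_univ_six, Fin.sum_univ_four]
  change f 0 + f 1 + f 2 + f 3 + f 4 + f 5 = f 0 + f 1 + f 3 + f 4 + (f 2 + f 5)
  ring

theorem Fx.mul_sub {A B : Matrix (Fin 6) (Fin 6) K4} (hA : Fx A) (hB : Fx B) :
    (A * B).submatrix jj jj = A.submatrix jj jj * B.submatrix jj jj := by
  ext i k
  rw [Matrix.submatrix_apply, Matrix.mul_apply, Matrix.mul_apply, sum6, hA.r5 i, hB.c5 k, c_add_self, add_zero]
  rfl

/-- lift of a vector -/
def lf (x : Fin 4 → K4) : V6 := ![x 0, x 1, 0, x 2, x 3, 0]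
theorem lf_jj (x : Fin 4 → K4) (i : Fin 4) : lf x (jj i) = x i := by fin_cases i <;> rfl
theorem lf_2 (x : Fin 4 → K4) : lf x 2 = 0 := rfl
theorem lf_5 (x : Fin 4 → K4) : lf x 5 = 0 := rfl

theorem Fx.mulVec_lf {A : Matrix (Fin 6) (Fin 6) K4} (x : Fin 4 → K4) (i : Fin 4) :
    (A *ᵥ lf x) (jj i) = (A.submatrix jj jj *ᵥ x) i := by
  rw [Matrix.mulVec, dotProduct, sum6, lf_2, lf_5, mul_zero, mul_zero, add_zero, add_zero, Matrix.mulVec, dotProduct]
  apply Finset.sum_congr rfl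
  intro k _
  rw [lf_jj]; rfl

theorem Fx.mulVec_25 {A : Matrix (Fin 6) (Fin 6) K4} (hA : Fx A) (x : Fin 4 → K4) : (A *ᵥ lf x) 5 = (A *ᵥ lf x) 2 := by
  rw [Matrix.mulVec, Matrix.mulVec, dotProduct, dotProduct, sum6, sum6, lf_2, lf_5]
  simp only [mul_zero, add_zero]
  apply Finset.sum_congr rfl
  intro k _
  rw [hA.c5]

theorem herm64 (u v : V6) (hu : u 5 = u 2) (hv : v 5 = v 2) :
    hermForm 6 K4 2 u v = hermForm 4 K4 2 (fun i => u (jj i)) (fun i => v (jj i)) := by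
  rw [hermForm_def, hermForm_def, sum6, hu, hv, c_add_self, add_zero]

theorem Fx.herm {A : Matrix (Fin 6) (Fin 6) K4} (hA : Fx A)
    (hf : ∀ x y, hermForm 6 K4 2 (A *ᵥ x) (A *ᵥ y) = hermForm 6 K4 2 x y) (x y : Fin 4 → K4) :
    hermForm 4 K4 2 (A.submatrix jj jj *ᵥ x) (A.submatrix jj jj *ᵥ y) = hermForm 4 K4 2 x y := by
  have h1 := hf (lf x) (lf y)
  rw [herm64 _ _ (hA.mulVec_25 x) (hA.mulVec_25 y), herm64 _ _ rfl rfl] at h1
  simp only [Fx.mulVec_lf, lf_jj] at h1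
  exact h1

theorem fx_of {A : Matrix (Fin 6) (Fin 6) K4} (hf : ∀ x y, hermForm 6 K4 2 (A *ᵥ x) (A *ᵥ y) = hermForm 6 K4 2 x y)
    (hu : A *ᵥ u2 = u2) : Fx A := by
  constructor
  · intro i
    have h1 := congrFun hu i
    rw [Matrix.mulVec, dotProduct, sum6, u2_2, u2_5] at h1
    simp only [u2_jj, mul_zero, Finset.sum_const_zero, zero_add, mul_one] at h1
    exact h1
  · intro k
    have h1 := hf (Pi.single k 1) u2
    rw [hu, hermForm_def, hermForm_def, sum6, u2_2, u2_5] at h1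
    simp only [u2_jj, one_pow, mul_one, Matrix.mulVec_single_one, Matrix.col_apply] at h1
    rw [Finset.sum_eq_single k] at h1
    · have hz : ∀ i : Fin 4, A (jj i) k * (0 : K4) ^ 2 = 0 := by
        intro i; rw [zero_pow (by norm_num), mul_zero]
      rw [Finset.sum_eq_zero (fun i _ => hz i), zero_add] at h1
      rw [h1, Pi.single_eq_same, one_mul]
      have : ∀ k, u2 k ^ 2 = u2 k := by decide
      exact this k
    · intro i _ hik
      rw [Pi.single_eq_of_ne hik, zero_mul]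
    · intro h; exact absurd (Finset.mem_univ k) h

theorem Fx.det {A : Matrix (Fin 6) (Fin 6) K4} (hA : Fx A) : (A.submatrix jj jj).det = A.det := by
  have m1 : (-1 : K4) = 1 := rfl
  set B1 := A.updateCol 5 (fun k => A k 5 + A k 2) with hB1
  have d1 : B1.det = A.det := Matrix.det_updateCol_add_self A (by decide)
  set B2 := B1.updateRow 5 (B1 5 + B1 2) with hB2
  have d2 : B2.det = B1.det := Matrix.det_updateRow_add_self B1 (by decide)
  have e1 : ∀ i k, k ≠ 5 → B1 i k = A i k := fun i k hk => by rw [hB1, Matrix.updateCol_ne hk]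
  have e1' : ∀ i, B1 i 5 = u2 i := fun i => by rw [hB1, Matrix.updateCol_self, add_comm, hA.r]
  have e2 : ∀ i k, i ≠ 5 → B2 i k = B1 i k := fun i k hi => by rw [hB2, Matrix.updateRow_ne hi]
  have e2' : ∀ k, k ≠ 5 → B2 5 k = u2 k := fun k hk => by
    rw [hB2, Matrix.updateRow_self, Pi.add_apply, e1 _ _ hk, e1 _ _ hk, add_comm, hA.c]
  have e3 : B2 5 5 = 0 := by
    rw [hB2, Matrix.updateRow_self, Pi.add_apply, e1', e1']; rfl
  rw [← d1, ← d2, Matrix.det_succ_column B2 5, Fin.sum_univ_six]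
  have c0 : B2 0 5 = 0 := by rw [e2 _ _ (by decide), e1']; rfl
  have c1 : B2 1 5 = 0 := by rw [e2 _ _ (by decide), e1']; rfl
  have c2 : B2 2 5 = 1 := by rw [e2 _ _ (by decide), e1']; rfl
  have c3 : B2 3 5 = 0 := by rw [e2 _ _ (by decide), e1']; rfl
  have c4 : B2 4 5 = 0 := by rw [e2 _ _ (by decide), e1']; rfl
  rw [c0, c1, c2, c3, c4, e3, m1]
  simp only [one_pow, mul_zero, zero_mul, zero_add, add_zero, mul_one, one_mul]
  set B3 := B2.submatrix (Fin.succAbove 2) (Fin.succAbove 5) with hB3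
  rw [Matrix.det_succ_row B3 4, Fin.sum_univ_five]
  have s0 : B3 4 0 = 0 := by change B2 5 0 = 0; rw [e2' _ (by decide)]; rfl
  have s1 : B3 4 1 = 0 := by change B2 5 1 = 0; rw [e2' _ (by decide)]; rfl
  have s2 : B3 4 2 = 1 := by change B2 5 2 = 1; rw [e2' _ (by decide)]; rfl
  have s3 : B3 4 3 = 0 := by change B2 5 3 = 0; rw [e2' _ (by decide)]; rfl
  have s4 : B3 4 4 = 0 := by change B2 5 4 = 0; rw [e2' _ (by decide)]; rfl
  rw [s0, s1, s2, s3, s4, m1]
  simp only [one_pow, mul_zero, zero_mul, zero_add, add_zero, mul_one, one_mul]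
  congr 1
  ext i k
  have g1 : ∀ i : Fin 4, (Fin.succAbove 2 (Fin.succAbove (4 : Fin 5) i) : Fin 6) = jj i := by decide
  have g2 : ∀ i : Fin 4, (Fin.succAbove 5 (Fin.succAbove (2 : Fin 5) i) : Fin 6) = jj i := by decide
  have g3 : ∀ i : Fin 4, jj i ≠ 5 := by decide
  rw [Matrix.submatrix_apply, Matrix.submatrix_apply, hB3, Matrix.submatrix_apply, g1, g2, e2 _ _ (g3 i), e1 _ _ (g3 k)]

theorem Fx.sq {A : Matrix (Fin 6) (Fin 6) K4} (hA : Fx A) (h1 : A.submatrix jj jj = 1) :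
    ∃ t : K4, ∀ v : V6, A *ᵥ (A *ᵥ v) = v + (t * (v 2 + v 5)) • u2 := by
  have ej : ∀ i k : Fin 4, A (jj i) (jj k) = if i = k then 1 else 0 := fun i k => by
    have := congrFun (congrFun h1 i) k
    rw [Matrix.submatrix_apply, Matrix.one_apply] at this
    exact this
  have h25 : A 2 5 = 1 + A 2 2 := c_eq1 _ _ (by rw [hA.r]; rfl)
  have h52 : A 5 2 = 1 + A 2 2 := c_eq1 _ _ (by rw [hA.c]; rfl)
  have h55 : A 5 5 = A 2 2 := by
    have := c_eq1 _ _ (show A 5 2 + A 5 5 = 1 by rw [hA.r]; rfl)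
    rw [this, h52, ← add_assoc, c_add_self, zero_add]
  have vj : ∀ (v : V6) (i : Fin 4), (A *ᵥ v) (jj i) = v (jj i) + A (jj i) 2 * (v 2 + v 5) := by
    intro v i
    rw [Matrix.mulVec, dotProduct, sum6, hA.r5]
    have : ∑ k : Fin 4, A (jj i) (jj k) * v (jj k) = v (jj i) := by
      simp only [ej, ite_mul, one_mul, zero_mul, Finset.sum_ite_eq, Finset.mem_univ, if_true]
    rw [this]; ring
  have v2 : ∀ v : V6, (A *ᵥ v) 2 = (∑ k : Fin 4, A 2 (jj k) * v (jj k)) + A 2 2 * (v 2 + v 5) + v 5 := by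
    intro v
    rw [Matrix.mulVec, dotProduct, sum6, h25]; ring
  have v5 : ∀ v : V6, (A *ᵥ v) 5 = (∑ k : Fin 4, A 2 (jj k) * v (jj k)) + A 2 2 * (v 2 + v 5) + v 2 := by
    intro v
    rw [Matrix.mulVec, dotProduct, sum6, h52, h55]
    simp only [hA.c5]; ring
  have vs : ∀ v : V6, (A *ᵥ v) 2 + (A *ᵥ v) 5 = v 2 + v 5 := by
    intro v
    rw [v2, v5]
    linear_combination ((∑ k : Fin 4, A 2 (jj k) * v (jj k)) + A 2 2 * (v 2 + v 5)) * c_two
  refine ⟨∑ k : Fin 4, A 2 (jj k) * A (jj k) 2, fun v => ?_⟩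
  set s := v 2 + v 5 with hs
  have w2 : (∑ k : Fin 4, A 2 (jj k) * (A *ᵥ v) (jj k)) =
      (∑ k : Fin 4, A 2 (jj k) * v (jj k)) + (∑ k : Fin 4, A 2 (jj k) * A (jj k) 2) * s := by
    rw [Finset.sum_mul, ← Finset.sum_add_distrib]
    apply Finset.sum_congr rfl
    intro k _
    rw [vj]; ring
  have key : ∀ i : Fin 6, (A *ᵥ (A *ᵥ v)) i = v i + (∑ k : Fin 4, A 2 (jj k) * A (jj k) 2) * s * u2 i := by
    have hall : ∀ i : Fin 6, i = 2 ∨ i = 5 ∨ ∃ j : Fin 4, i = jj j := by decide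
    intro i
    rcases hall i with rfl | rfl | ⟨j, rfl⟩
    · rw [v2, vs, w2, v5, u2_2]
      linear_combination ((∑ k : Fin 4, A 2 (jj k) * v (jj k)) + A 2 2 * s) * c_two
    · rw [v5, vs, w2, v2, u2_5]
      linear_combination ((∑ k : Fin 4, A 2 (jj k) * v (jj k)) + A 2 2 * s) * c_two
    · rw [vj, vs, vj, u2_jj, mul_zero, add_zero]
      linear_combination (A (jj j) 2 * s) * c_two
  funext i
  rw [key i, Pi.add_apply, Pi.smul_apply, smul_eq_mul]

theorem Fx.pow_four {A : Matrix (Fin 6) (Fin 6) K4} (hA : Fx A) (h1 : A.submatrix jj jj = 1) : A ^ 4 = 1 := by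
  obtain ⟨t, ht⟩ := hA.sq h1
  have h2 : ∀ v : V6, (A ^ 4) *ᵥ v = v := by
    intro v
    have e : A ^ 4 = A * (A * (A * A)) := by rw [pow_succ', pow_succ', pow_succ', pow_one]
    rw [e, ← Matrix.mulVec_mulVec, ← Matrix.mulVec_mulVec, ← Matrix.mulVec_mulVec, ht v, ht]
    funext i
    simp only [Pi.add_apply, Pi.smul_apply, smul_eq_mul, u2_2, u2_5]
    linear_combination (t * (v 2 + v 5) * u2 i + t * t * (v 2 + v 5) * u2 i) * c_two
  apply Matrix.toLin'.injective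
  apply LinearMap.ext
  intro v
  rw [Matrix.toLin'_apply, Matrix.toLin'_apply, h2, Matrix.one_mulVec]

end Cfsg.Agent.Lib.H87U3C

namespace Cfsg.Agent.Lib.H87U3C

theorem fx_mt {g : G} (hu : mt g *ᵥ u2 = u2) : Fx (mt g) := fx_of (fun x y => g.2 x y) hu

/-- the action on `u2^⊥ / u2` -/
def toSU (g : St) : SU 4 K4 2 :=
  ⟨⟨(mt (g : G)).submatrix jj jj, by rw [(fx_mt g.2.2).det]; exact (g : G).1.2⟩,
    fun x y => (fx_mt g.2.2).herm (fun x y => (g : G).2 x y) x y⟩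

/-- the action on `u2^⊥ / u2` as a homomorphism -/
def homSU : St →* SU 4 K4 2 where
  toFun := toSU
  map_one' := by
    apply Subtype.ext
    apply Subtype.ext
    change (mt (1 : G)).submatrix jj jj = 1
    have hj : ∀ i k, jj i = jj k → i = k := by decide
    exact Matrix.submatrix_one jj (fun i k h => hj i k h)
  map_mul' := by
    intro g h
    apply Subtype.ext
    apply Subtype.ext
    exact (fx_mt g.2.2).mul_sub (fx_mt h.2.2)

theorem homSU_ker {g : St} (hg : homSU g = 1) : (g : G) ^ 4 = 1 := by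
  have h1 : (mt (g : G)).submatrix jj jj = 1 := congrArg (fun z : SU 4 K4 2 => ((z : Matrix.SpecialLinearGroup (Fin 4) K4) : Matrix (Fin 4) (Fin 4) K4)) hg
  have h2 := (fx_mt g.2.2).pow_four h1
  apply Subtype.ext
  apply Subtype.ext
  change (mt (g : G)) ^ 4 = 1
  exact h2

theorem card_SU42 : Nat.card (SU 4 K4 2) = 25920 := by
  have h := ClUnitary.card_SU (F := K4) (q := 2) (n := 4) SU6K4.hF (by norm_num)
  simp only [Finset.prod_range_succ, Finset.prod_range_zero] at h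
  norm_num [Nat.even_iff] at h
  omega

theorem center_SU42 : Subgroup.center (SU 4 K4 2) = ⊥ := by
  have h := ClUnitary.card_center_SU (F := K4) (q := 2) (n := 4) SU6K4.hF (by norm_num)
  have h1 : Nat.gcd 4 (2 + 1) = 1 := by decide
  rw [h1] at h
  exact Subgroup.eq_bot_of_card_eq _ h

theorem St_iso (hN : ∀ (P : Subgroup G) (_ : P ≤ K0) (_ : IsPGroup 2 P) (_ : ∀ g ∈ P, mt g *ᵥ u2 = u2)
    (_ : ∀ k ∈ K0, mt k *ᵥ u2 = u2 → ∀ g ∈ P, k * g * k⁻¹ ∈ P), P = ⊥) (hc : Nat.card St = 25920) :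
    Nonempty (St ≃* PSU 4 K4 2) := by
  have hker : homSU.ker = ⊥ := by
    have hP := hN (homSU.ker.map St.subtype) (by
      rintro _ ⟨g, _, rfl⟩; exact g.2.1) (by
      rintro ⟨_, g, hg, rfl⟩
      refine ⟨2, ?_⟩
      apply Subtype.ext
      exact homSU_ker hg) (by
      rintro _ ⟨g, _, rfl⟩; exact g.2.2) (by
      rintro k hk hku _ ⟨g, hg, rfl⟩
      refine ⟨(⟨k, hk, hku⟩ : St) * g * (⟨k, hk, hku⟩ : St)⁻¹, ?_, rfl⟩
      exact (inferInstance : homSU.ker.Normal).conj_mem g hg _)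
    rw [Subgroup.map_eq_bot_iff_of_injective _ St.subtype_injective] at hP
    exact hP
  have hinj : Function.Injective homSU := (MonoidHom.ker_eq_bot_iff _).mp hker
  have hfin : Finite (SU 4 K4 2) := Nat.finite_of_card_ne_zero (by rw [card_SU42]; norm_num)
  have hbij : Function.Bijective homSU := by
    rw [Nat.bijective_iff_injective_and_card]
    exact ⟨hinj, by rw [hc, card_SU42]⟩
  exact ⟨(MulEquiv.ofBijective homSU hbij).trans
    ((QuotientGroup.quotientMulEquivOfEq center_SU42).trans QuotientGroup.quotientBot).symm⟩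

end Cfsg.Agent.Lib.H87U3C
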