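import Cfsg.Agent.Lib.H87U30

/-!
# S5443, piece U3-C (helper44, backup)
-/

set_option autoImplicit false
set_option linter.unusedVariables false
set_option linter.unusedSimpArgs false

namespace Cfsg.Agent.Lib.H87U3C2

open Matrix Cfsg Cfsg.Agent.Lib.K4 Cfsg.Agent.Lib.HermMat Cfsg.Agent.Lib.ClThreeTransU Cfsg.Agent.Lib.SU6K4
open Cfsg.Agent.Lib.U43 Cfsg.Agent.Lib.H97Fa Cfsg.Agent.Lib.H97FaF Cfsg.Agent.Lib.H97FaG Cfsg.Agent.Lib.H87U30

def im : Fin 4 → Fin 6 := ![0, 1, 3, 4]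

theorem two0 : (2 : K4) = 0 := by decide
theorem add_self (x : K4) : x + x = 0 := by revert x; decide

theorem sum6 (f : Fin 6 → K4) : ∑ k, f k = (∑ j : Fin 4, f (im j)) + (f 2 + f 5) := by
  rw [Fin.sum_univ_six, Fin.sum_univ_four]
  change _ = (f 0 + f 1 + f 3 + f 4) + (f 2 + f 5)
  ring

theorem u2_im : ∀ j, u2 (im j) = 0 := by decide
theorem u2_2 : u2 2 = 1 := rfl
theorem u2_5 : u2 5 = 1 := rfl

theorem vec_apply (u : G) (x : V6) (k : Fin 6) : (mt u *ᵥ x) k = ∑ l, mt u k l * x l := rfl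

section

variable {g : G} (hg : mt g *ᵥ u2 = u2)
include hg

theorem c1 (i : Fin 6) : mt g i 2 + mt g i 5 = u2 i := by
  have h1 := congrFun hg i
  rw [← h1, vec_apply, sum6]
  simp only [u2_im, u2_2, u2_5, mul_zero, mul_one, Finset.sum_const_zero, zero_add]

theorem r1 (j : Fin 6) : mt g 2 j + mt g 5 j = u2 j := by
  have h1 : hermForm 6 K4 2 (mt g *ᵥ Pi.single j 1) (mt g *ᵥ u2) = hermForm 6 K4 2 (Pi.single j 1) u2 := g.2 _ _
  rw [hg, hermForm_def, hermForm_def] at h1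
  have e1 : ∀ m, (mt g *ᵥ Pi.single j 1) m = mt g m j := fun m => by
    rw [Matrix.mulVec_single_one]; rfl
  simp only [e1] at h1
  rw [sum6, Finset.sum_eq_single j (fun b _ hb => by rw [Pi.single_eq_of_ne hb, zero_mul]) (by simp), Pi.single_eq_same, one_mul] at h1
  simp only [u2_im, u2_2, u2_5, mul_one, one_pow] at h1
  have h2 : ∀ x : K4, x * 0 ^ 2 = 0 := by decide
  simp only [h2, Finset.sum_const_zero, zero_add] at h1
  rw [h1]
  have h3 : ∀ j, u2 j ^ 2 = u2 j := by decide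
  exact h3 j

theorem ceq (i : Fin 4) : mt g (im i) 2 + mt g (im i) 5 = 0 := by rw [c1 hg, u2_im]
theorem req (j : Fin 4) : mt g 2 (im j) + mt g 5 (im j) = 0 := by rw [r1 hg, u2_im]

end

def sm (g : G) : Matrix (Fin 4) (Fin 4) K4 := (mt g).submatrix im im

theorem sm_apply (g : G) (i j : Fin 4) : sm g i j = mt g (im i) (im j) := rfl

theorem sm_one : sm 1 = 1 := by
  ext i j
  rw [sm_apply, H97FaF.mt_one, Matrix.one_apply, Matrix.one_apply]
  have : ∀ i j : Fin 4, im i = im j ↔ i = j := by decide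
  simp only [this]

theorem sm_mul {g h : G} (hg : mt g *ᵥ u2 = u2) (hh : mt h *ᵥ u2 = u2) : sm (g * h) = sm g * sm h := by
  ext i j
  rw [sm_apply, H97FaF.mt_mul, Matrix.mul_apply, Matrix.mul_apply, sum6]
  have E1 := ceq hg i
  have E2 := req hh j
  simp only [sm_apply]
  have two := two0
  linear_combination (mt g (im i) 2) * E2 + (mt h 5 (im j)) * E1 - (mt g (im i) 2) * (mt h 5 (im j)) * two

def ex (x : Fin 4 → K4) : V6 := ![x 0, x 1, 0, x 2, x 3, 0]
theorem ex_im (x : Fin 4 → K4) (j : Fin 4) : ex x (im j) = x j := by fin_cases j <;> rfl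
theorem ex_2 (x : Fin 4 → K4) : ex x 2 = 0 := rfl
theorem ex_5 (x : Fin 4 → K4) : ex x 5 = 0 := rfl

theorem mt_ex (g : G) (x : Fin 4 → K4) (k : Fin 6) : (mt g *ᵥ ex x) k = ∑ j : Fin 4, mt g k (im j) * x j := by
  rw [vec_apply, sum6, ex_2, ex_5, mul_zero, mul_zero, add_zero, add_zero]
  simp only [ex_im]

theorem sm_herm {g : G} (hg : mt g *ᵥ u2 = u2) (x y : Fin 4 → K4) :
    hermForm 4 K4 2 (sm g *ᵥ x) (sm g *ᵥ y) = hermForm 4 K4 2 x y := by
  have h1 : hermForm 6 K4 2 (mt g *ᵥ ex x) (mt g *ᵥ ex y) = hermForm 6 K4 2 (ex x) (ex y) := g.2 _ _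
  have h25 : ∀ x, (mt g *ᵥ ex x) 5 = (mt g *ᵥ ex x) 2 := fun x => by
    rw [mt_ex, mt_ex]
    refine Finset.sum_congr rfl fun j _ => ?_
    have := req hg j
    have e : mt g 5 (im j) = mt g 2 (im j) := by
      have two := two0
      linear_combination this - (mt g 2 (im j)) * two
    rw [e]
  have him : ∀ x (j : Fin 4), (mt g *ᵥ ex x) (im j) = (sm g *ᵥ x) j := fun x j => by
    rw [mt_ex]; rfl
  rw [hermForm_def, hermForm_def, sum6, sum6, h25, h25, add_self, add_zero, ex_2, ex_5, zero_mul, zero_mul, add_zero, add_zero] at h1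
  simp only [him, ex_im] at h1
  rw [hermForm_def, hermForm_def]
  exact h1

noncomputable def ee : Fin 4 ⊕ Fin 2 ≃ Fin 6 := Equiv.ofBijective (Sum.elim im ![2, 5]) (by decide)

theorem sm_det {g : G} (hg : mt g *ᵥ u2 = u2) : (sm g).det = 1 := by
  have h1 : (mt g).det = 1 := (g : SpecialLinearGroup (Fin 6) K4).2
  rw [← Matrix.det_submatrix_equiv_self ee, ← Matrix.fromBlocks_toBlocks ((mt g).submatrix ee ee)] at h1
  set A := ((mt g).submatrix ee ee).toBlocks₁₁ with hA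
  set B := ((mt g).submatrix ee ee).toBlocks₁₂ with hB
  set C := ((mt g).submatrix ee ee).toBlocks₂₁ with hC
  set D := ((mt g).submatrix ee ee).toBlocks₂₂ with hD
  have hAs : A = sm g := rfl
  have a1 := c1 hg 2
  have a2 := c1 hg 5
  have a3 := r1 hg 2
  have a4 := r1 hg 5
  rw [u2_2] at a1 a3
  rw [u2_5] at a2 a4
  have two := two0
  have D00 : D 0 0 = mt g 2 2 := rfl
  have D01 : D 0 1 = mt g 2 5 := rfl
  have D10 : D 1 0 = mt g 5 2 := rfl
  have D11 : D 1 1 = mt g 5 5 := rfl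
  have b1 : mt g 2 5 = 1 + mt g 2 2 := by linear_combination a1 - (mt g 2 2) * two
  have b2 : mt g 5 2 = 1 + mt g 2 2 := by linear_combination a3 - (mt g 2 2) * two
  have b3 : mt g 5 5 = mt g 2 2 := by linear_combination a2 - b2 - (mt g 2 2) * two
  have hDD : D * D = 1 := by
    ext i j
    rw [Matrix.mul_apply, Fin.sum_univ_two]
    fin_cases i <;> fin_cases j <;> simp only [Fin.zero_eta, Fin.mk_one, Fin.isValue, D00, D01, D10, D11, b1, b2, b3,
      Matrix.one_apply_eq] <;> generalize mt g 2 2 = t <;> revert t <;> decide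
  let _ : Invertible D := ⟨D, hDD, hDD⟩
  have hdet : D.det = 1 := by
    rw [Matrix.det_fin_two, D00, D01, D10, D11, b1, b2, b3]
    generalize mt g 2 2 = t
    revert t; decide
  have hinv : ⅟D = D := rfl
  have hBDC : B * D * C = 0 := by
    ext i j
    have B0 : B i 0 = mt g (im i) 2 := rfl
    have B1 : B i 1 = mt g (im i) 5 := rfl
    have C0 : C 0 j = mt g 2 (im j) := rfl
    have C1 : C 1 j = mt g 5 (im j) := rfl
    have E1 := ceq hg i
    have E2 := req hg j
    have e1 : mt g (im i) 5 = mt g (im i) 2 := by linear_combination E1 - (mt g (im i) 2) * two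
    have e2 : mt g 5 (im j) = mt g 2 (im j) := by linear_combination E2 - (mt g 2 (im j)) * two
    rw [Matrix.mul_apply, Fin.sum_univ_two, Matrix.mul_apply, Matrix.mul_apply, Fin.sum_univ_two, Fin.sum_univ_two, B0, B1, C0, C1,
      D00, D01, D10, D11, b1, b2, b3, e1, e2, Matrix.zero_apply]
    linear_combination ((mt g (im i) 2) * (mt g 2 (im j)) * (1 + 2 * mt g 2 2)) * two
  rw [Matrix.det_fromBlocks₂₂, hdet, hinv, hBDC, sub_zero, one_mul, hAs] at h1
  exact h1

noncomputable def Am : St →* SU 4 K4 2 where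
  toFun g := ⟨⟨sm g.1, sm_det g.2.2⟩, sm_herm g.2.2⟩
  map_one' := by
    apply Subtype.ext; apply Subtype.ext
    exact sm_one
  map_mul' g h := by
    apply Subtype.ext; apply Subtype.ext
    exact sm_mul g.2.2 h.2.2

theorem mt_Am (g : St) : ((Am g).1.1 : Matrix (Fin 4) (Fin 4) K4) = sm g.1 := rfl

theorem pow_four {g : G} (hg : mt g *ᵥ u2 = u2) (h : sm g = 1) : g ^ 4 = 1 := by
  set N : Matrix (Fin 6) (Fin 6) K4 := mt g + 1 with hN
  have hNv : ∀ x, N *ᵥ x = mt g *ᵥ x + x := fun x => by rw [hN, add_mulVec, one_mulVec]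
  have mself : ∀ X : Matrix (Fin 6) (Fin 6) K4, X + X = 0 := fun X => by
    ext i j; exact add_self _
  have two := two0
  have L1 : ∀ x, (N *ᵥ x) 5 = (N *ᵥ x) 2 := fun x => by
    rw [hNv]
    change (mt g *ᵥ x) 5 + x 5 = (mt g *ᵥ x) 2 + x 2
    have h1 : (mt g *ᵥ x) 2 + (mt g *ᵥ x) 5 = x 2 + x 5 := by
      rw [vec_apply, vec_apply, ← Finset.sum_add_distrib]
      simp only [← add_mul, r1 hg]
      rw [sum6]
      simp only [u2_im, u2_2, u2_5, zero_mul, one_mul, Finset.sum_const_zero, zero_add]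
    linear_combination h1 + (x 5 - (mt g *ᵥ x) 2) * two
  have L2 : ∀ y : V6, y 5 = y 2 → ∃ c : K4, N *ᵥ y = c • u2 := fun y hy => by
    refine ⟨(N *ᵥ y) 2, ?_⟩
    have h0 : ∀ i : Fin 4, (N *ᵥ y) (im i) = 0 := fun i => by
      rw [hNv]
      change (mt g *ᵥ y) (im i) + y (im i) = 0
      rw [vec_apply, sum6]
      have E1 := ceq hg i
      have : ∑ j : Fin 4, mt g (im i) (im j) * y (im j) = y (im i) := by
        have h2 : ∀ j, mt g (im i) (im j) = (1 : Matrix (Fin 4) (Fin 4) K4) i j := fun j => by rw [← h]; rfl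
        simp only [h2, Matrix.one_apply, ite_mul, one_mul, zero_mul]
        rw [Finset.sum_ite_eq Finset.univ i (fun j => y (im j)), if_pos (Finset.mem_univ _)]
      rw [this, hy]
      linear_combination (y 2) * E1 + (y (im i)) * two
    have hcases : ∀ k : Fin 6, k = 2 ∨ k = 5 ∨ ∃ i, k = im i := by decide
    funext k
    rcases hcases k with rfl | rfl | ⟨i, rfl⟩
    · rw [Pi.smul_apply, u2_2, smul_eq_mul, mul_one]
    · rw [Pi.smul_apply, u2_5, smul_eq_mul, mul_one, L1]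
    · rw [Pi.smul_apply, u2_im, smul_eq_mul, mul_zero, h0]
  have L3 : N *ᵥ u2 = 0 := by
    rw [hNv, hg]
    funext k; exact add_self _
  have hN3 : N * (N * N) = 0 := by
    apply Matrix.ext_of_mulVec_single
    intro i
    rw [← Matrix.mulVec_mulVec, ← Matrix.mulVec_mulVec, Matrix.zero_mulVec]
    obtain ⟨c, hc⟩ := L2 (N *ᵥ Pi.single i 1) (L1 _)
    rw [hc, Matrix.mulVec_smul, L3, smul_zero]
  have hg1 : mt g = 1 + N := by
    rw [hN, add_comm (mt g) 1, ← add_assoc, mself, zero_add]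
  have h2 : mt g * mt g = 1 + N * N := by
    rw [hg1]
    have : (1 + N) * (1 + N) = 1 + N * N + (N + N) := by noncomm_ring
    rw [this, mself, add_zero]
  have h4 : mt g * mt g * (mt g * mt g) = 1 := by
    rw [h2]
    have : (1 + N * N) * (1 + N * N) = 1 + (N * N + N * N) + N * (N * (N * N)) := by noncomm_ring
    rw [this, mself, hN3, mul_zero, add_zero, add_zero]
  apply ext_mt
  rw [show g ^ 4 = g * g * (g * g) by simp only [pow_succ, pow_zero, one_mul, mul_assoc]]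
  exact h4

theorem card_SU42 : Nat.card (SU 4 K4 2) = 25920 := by
  have h := ClUnitary.card_SU (F := K4) (q := 2) (n := 4) SU6K4.hF (by norm_num)
  simp only [Finset.prod_range_succ, Finset.prod_range_zero] at h
  norm_num [Nat.even_iff] at h
  omega

theorem card_PSU42' : Nat.card (PSU 4 K4 2) = 25920 := by
  have h := ClUnitary.card_PSU (F := K4) (q := 2) (n := 4) SU6K4.hF (by norm_num)
  have h1 : Nat.gcd 4 (2 + 1) = 1 := by decide
  rw [h1] at h
  simp only [Finset.prod_range_succ, Finset.prod_range_zero] at h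
  norm_num [Nat.even_iff] at h
  omega

theorem ker_four {g : St} (h : g ∈ Am.ker) : (g : G) ^ 4 = 1 := by
  refine pow_four g.2.2 ?_
  rw [← mt_Am, (MonoidHom.mem_ker.1 h)]
  rfl

theorem conj_map (L : Subgroup St) [hL : L.Normal] {g : St} (hg : g ∈ L) (k : St) :
    (k : G) * (St.subtype g) * (k : G)⁻¹ ∈ L.map St.subtype :=
  ⟨k * g * k⁻¹, hL.conj_mem g hg k, rfl⟩

theorem Am_inj (hN : ∀ (P : Subgroup G) (hPK : P ≤ K0) (hP2 : IsPGroup 2 P) (hfix : ∀ g ∈ P, mt g *ᵥ u2 = u2)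
    (hn : ∀ k ∈ K0, mt k *ᵥ u2 = u2 → ∀ g ∈ P, k * g * k⁻¹ ∈ P), P = ⊥) : Function.Injective Am := by
  have h1 : Am.ker.map St.subtype = ⊥ := by
    apply hN
    · rintro _ ⟨g, -, rfl⟩
      exact g.2.1
    · rintro ⟨x, hx⟩
      obtain ⟨g, hg, hgx⟩ := hx
      refine ⟨2, Subtype.ext ?_⟩
      have h2 := ker_four hg
      have h3 : (g : G) = x := hgx
      rw [h3] at h2
      exact h2
    · rintro _ ⟨g, -, rfl⟩
      exact g.2.2
    · intro k hk hk2 x hx
      obtain ⟨g, hg, hgx⟩ := hx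
      have h1 := conj_map Am.ker hg ⟨k, hk, hk2⟩
      rw [← hgx]
      exact h1
  rw [Subgroup.map_eq_bot_iff_of_injective _ St.subtype_injective] at h1
  exact (MonoidHom.ker_eq_bot_iff _).1 h1

theorem St_iso (hN : ∀ (P : Subgroup G) (hPK : P ≤ K0) (hP2 : IsPGroup 2 P) (hfix : ∀ g ∈ P, mt g *ᵥ u2 = u2)
    (hn : ∀ k ∈ K0, mt k *ᵥ u2 = u2 → ∀ g ∈ P, k * g * k⁻¹ ∈ P), P = ⊥) (hc : Nat.card St = 25920) :
    Nonempty (St ≃* PSU 4 K4 2) := by
  have hbij : Function.Bijective Am := (Nat.bijective_iff_injective_and_card _).2 ⟨Am_inj hN, hc.trans card_SU42.symm⟩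
  have hs : Function.Surjective ((QuotientGroup.mk' (Subgroup.center (SU 4 K4 2))).comp Am) :=
    (QuotientGroup.mk'_surjective _).comp hbij.2
  exact ⟨MulEquiv.ofBijective _ ((Nat.bijective_iff_surjective_and_card _).2 ⟨hs, hc.trans card_PSU42'.symm⟩)⟩

end Cfsg.Agent.Lib.H87U3C2
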