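import Cfsg.Agent.Lib.H97FaI
import Cfsg.Agent.Lib.H87U30

/-! S5443, piece U3-D (helper1): additive involutions of `V6` commuting with the stabilizer of `u2` -/

set_option autoImplicit false
set_option linter.all false

open Matrix Cfsg Cfsg.Agent.Lib.K4 Cfsg.Agent.Lib.HermMat Cfsg.Agent.Lib.ClThreeTransU Cfsg.Agent.Lib.SU6K4
open Cfsg.Agent.Lib.U43 Cfsg.Agent.Lib.H97Fa Cfsg.Agent.Lib.H97FaF Cfsg.Agent.Lib.H97FaG Cfsg.Agent.Lib.H97FaI Cfsg.Agent.Lib.LargeExtra
open Cfsg.Agent.Lib.H87U30

namespace Cfsg.Agent.Lib.H87U3D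

/-- basis vectors -/
def E (i : Fin 6) : V6 := fun k => if k = i then 1 else 0

theorem E_self (i : Fin 6) : E i i = 1 := if_pos rfl
theorem E_ne {i k : Fin 6} (h : k ≠ i) : E i k = 0 := if_neg h

theorem sum_E (v : V6) : v = ∑ i, v i • E i := by
  funext k
  rw [Finset.sum_apply]
  simp only [Pi.smul_apply, smul_eq_mul, E]
  rw [Finset.sum_eq_single k]
  · rw [if_pos rfl, mul_one]
  · intro b _ hb
    rw [if_neg (Ne.symm hb), mul_zero]
  · intro h; exact absurd (Finset.mem_univ _) h

theorem e_E (a : Fin 6 → ZMod 3) (i : Fin 6) : (fun k => e (a k) * E i k) = e (a i) • E i := by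
  funext k
  simp only [Pi.smul_apply, smul_eq_mul]
  by_cases h : k = i
  · rw [h]
  · rw [E_ne h, mul_zero, mul_zero]

theorem K4_cases : ∀ x : K4, x = 0 ∨ x = 1 ∨ x = om ∨ x = om' := by decide
theorem om_add : (1 : K4) + om = om' := by decide
theorem e_ne : ∀ x : ZMod 3, x ≠ 1 → ∀ w : K4, e x * w = om * w → w = 0 := by decide
theorem e_ne2 : ∀ x : ZMod 3, x ≠ 2 → ∀ w : K4, e x * w = om' * w → w = 0 := by decide
theorem e_ne0 : ∀ x : ZMod 3, x ≠ 0 → ∀ w : K4, e x * w = w → w = 0 := by decide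
theorem sq_one : ∀ x : K4, x * x = 1 → x = 1 := by decide
theorem parity2 : ∀ a b : K4, Even ((if (1 : K4) ≠ 0 then 1 else 0) + (if a ≠ 0 then 1 else 0) + (if b ≠ 0 then 1 else 0) : ℕ) →
    Even ((if (1 : K4) ≠ 0 then 1 else 0) + (if 1 + a ≠ 0 then 1 else 0) + (if 1 + b ≠ 0 then 1 else 0) : ℕ) →
    (a = 1 ∧ b = 0) ∨ (a = 0 ∧ b = 1) := by decide

/-- isotropy of a vector supported on 0, 2, 5 -/
theorem herm3 (x a b : K4) : hermForm 6 K4 2 (x • E 0 + a • E 2 + b • E 5) (x • E 0 + a • E 2 + b • E 5) = 0 ↔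
    Even ((if x ≠ 0 then 1 else 0) + (if a ≠ 0 then 1 else 0) + (if b ≠ 0 then 1 else 0) : ℕ) := by
  rw [herm_iff, sup, Finset.card_filter]
  rw [Fin.sum_univ_six]
  have h0 : (x • E 0 + a • E 2 + b • E 5) 0 = x := by simp [E]
  have h1 : (x • E 0 + a • E 2 + b • E 5) 1 = 0 := by simp [E]
  have h2 : (x • E 0 + a • E 2 + b • E 5) 2 = a := by simp [E]
  have h3 : (x • E 0 + a • E 2 + b • E 5) 3 = 0 := by simp [E]
  have h4 : (x • E 0 + a • E 2 + b • E 5) 4 = 0 := by simp [E]
  have h5 : (x • E 0 + a • E 2 + b • E 5) 5 = b := by simp [E]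
  rw [h0, h1, h2, h3, h4, h5]
  simp only [ne_eq, not_true_eq_false, if_false, add_zero]

theorem cent_form (c : V6 ≃+ V6) (hc2 : ∀ v, c (c v) = v) (hq : ∀ v, hermForm 6 K4 2 v v = 0 → hermForm 6 K4 2 (c v) (c v) = 0)
    (hcomm : ∀ g ∈ K0, mt g *ᵥ u2 = u2 → ∀ v, c (mt g *ᵥ v) = mt g *ᵥ (c v)) (hu : c u2 = u2)
    (hω : (∀ v, c (om • v) = om • c v) ∨ (∀ v, c (om • v) = om' • c v)) : (∀ v, c v = v) ∨ (∀ v, c v = sw v) := by
  have hD : ∀ (a : Fin 6 → ZMod 3), ∑ i, a i = 0 → a 2 = 0 → a 5 = 0 → ∀ v : V6,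
      c (fun k => e (a k) * v k) = fun k => e (a k) * c v k := by
    intro a ha h2 h5 v
    have hmul : ∀ v : V6, mt (mo ⟨a, mem_A0.2 ha⟩ 1) *ᵥ v = fun k => e (a k) * v k := by
      intro v
      funext k
      rw [mo_mulVec, inv_one, Equiv.Perm.one_apply]
    have hfix : mt (mo ⟨a, mem_A0.2 ha⟩ 1) *ᵥ u2 = u2 := by
      rw [hmul]
      funext k
      rw [u2_eq]
      by_cases hk : k = 2 ∨ k = 5
      · rw [if_pos hk, mul_one]
        rcases hk with hk | hk
        · rw [hk, h2]; exact e_zero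
        · rw [hk, h5]; exact e_zero
      · rw [if_neg hk, mul_zero]
    have := hcomm _ (M0_le_K0 (mo_mem_M0.2 (Equiv.Perm.sign_one))) hfix v
    rw [hmul, hmul] at this
    exact this
  rcases hω with hω | hω
  · -- linear case
    have hsm : ∀ (x : K4) (v : V6), c (x • v) = x • c v := by
      intro x v
      rcases K4_cases x with rfl | rfl | rfl | rfl
      · rw [zero_smul, zero_smul, map_zero]
      · rw [one_smul, one_smul]
      · exact hω v
      · rw [← om_add, add_smul, add_smul, map_add, one_smul, one_smul, hω]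
    have hlin : ∀ v, c v = ∑ i, v i • c (E i) := by
      intro v
      conv_lhs => rw [sum_E v, map_sum]
      exact Finset.sum_congr rfl fun i _ => hsm _ _
    -- eigenvector equation
    have hev : ∀ (a : Fin 6 → ZMod 3), ∑ i, a i = 0 → a 2 = 0 → a 5 = 0 → ∀ i k,
        e (a k) * c (E i) k = e (a i) * c (E i) k := by
      intro a ha h2 h5 i k
      have := congrFun (hD a ha h2 h5 (E i)) k
      rw [e_E, hsm] at this
      simpa using this.symm
    have hone : ∀ i, (∃ a : Fin 6 → ZMod 3, ∑ i, a i = 0 ∧ a 2 = 0 ∧ a 5 = 0 ∧ a i = 1 ∧ ∀ k, k ≠ i → a k ≠ 1) → c (E i) = E i := by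
      rintro i ⟨a, ha, h2, h5, hi, hk⟩
      have h0 : ∀ k, k ≠ i → c (E i) k = 0 := by
        intro k hki
        apply e_ne (a k) (hk k hki)
        rw [hev a ha h2 h5 i k, hi]; rfl
      have h1 : c (E i) = (c (E i) i) • E i := by
        funext k
        simp only [Pi.smul_apply, smul_eq_mul]
        by_cases h : k = i
        · rw [h, E_self, mul_one]
        · rw [h0 k h, E_ne h, mul_zero]
      have h3 : c (c (E i)) = (c (E i) i * c (E i) i) • E i := by
        conv_lhs => rw [h1]
        rw [hsm]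
        conv_lhs => rw [h1]
        rw [smul_smul]
        simp only [Pi.smul_apply, smul_eq_mul, E_self, mul_one]
      rw [hc2] at h3
      have h4 : c (E i) i * c (E i) i = 1 := by
        have := congrFun h3 i
        simp only [Pi.smul_apply, smul_eq_mul, E_self, mul_one] at this
        exact this.symm
      rw [h1, sq_one _ h4, one_smul]
    have c0 : c (E 0) = E 0 := hone 0 ⟨![1, 2, 0, 0, 0, 0], by decide, by decide, by decide, by decide, by decide⟩
    have c1 : c (E 1) = E 1 := hone 1 ⟨![2, 1, 0, 0, 0, 0], by decide, by decide, by decide, by decide, by decide⟩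
    have c3 : c (E 3) = E 3 := hone 3 ⟨![2, 0, 0, 1, 0, 0], by decide, by decide, by decide, by decide, by decide⟩
    have c4 : c (E 4) = E 4 := hone 4 ⟨![2, 0, 0, 0, 1, 0], by decide, by decide, by decide, by decide, by decide⟩
    have hz : ∀ k, (∃ a : Fin 6 → ZMod 3, ∑ i, a i = 0 ∧ a 2 = 0 ∧ a 5 = 0 ∧ a k ≠ 0) → c (E 2) k = 0 := by
      rintro k ⟨a, ha, h2, h5, hk⟩
      apply e_ne0 (a k) hk
      rw [hev a ha h2 h5 2 k, h2, e_zero, one_mul]
    have z0 := hz 0 ⟨![1, 2, 0, 0, 0, 0], by decide, by decide, by decide, by decide⟩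
    have z1 := hz 1 ⟨![2, 1, 0, 0, 0, 0], by decide, by decide, by decide, by decide⟩
    have z3 := hz 3 ⟨![2, 0, 0, 1, 0, 0], by decide, by decide, by decide, by decide⟩
    have z4 := hz 4 ⟨![2, 0, 0, 0, 1, 0], by decide, by decide, by decide, by decide⟩
    set al := c (E 2) 2 with hal
    set be := c (E 2) 5 with hbe
    have c2 : c (E 2) = al • E 2 + be • E 5 := by
      funext k
      simp only [Pi.add_apply, Pi.smul_apply, smul_eq_mul]
      fin_cases k
      · show c (E 2) 0 = al * E 2 0 + be * E 5 0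
        rw [z0, E_ne (by decide), E_ne (by decide), mul_zero, mul_zero, add_zero]
      · show c (E 2) 1 = al * E 2 1 + be * E 5 1
        rw [z1, E_ne (by decide), E_ne (by decide), mul_zero, mul_zero, add_zero]
      · show c (E 2) 2 = al * E 2 2 + be * E 5 2
        rw [E_self, E_ne (by decide), mul_one, mul_zero, add_zero]
      · show c (E 2) 3 = al * E 2 3 + be * E 5 3
        rw [z3, E_ne (by decide), E_ne (by decide), mul_zero, mul_zero, add_zero]
      · show c (E 2) 4 = al * E 2 4 + be * E 5 4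
        rw [z4, E_ne (by decide), E_ne (by decide), mul_zero, mul_zero, add_zero]
      · show c (E 2) 5 = al * E 2 5 + be * E 5 5
        rw [E_self, E_ne (by decide), mul_one, mul_zero, zero_add]
    have hu2 : u2 = E 2 + E 5 := by decide
    have two : ∀ v : V6, v + v = 0 := by
      intro v; funext k
      have : ∀ x : K4, x + x = 0 := by decide
      exact this (v k)
    have c5 : c (E 5) = (1 + al) • E 2 + (1 + be) • E 5 := by
      have h1 : c (E 2) + c (E 5) = E 2 + E 5 := by rw [← map_add, ← hu2, hu]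
      have h2 : c (E 5) = c (E 2) + (E 2 + E 5) := by
        rw [← h1, ← add_assoc, two, zero_add]
      rw [h2, c2, add_smul, add_smul, one_smul, one_smul]
      abel
    have q1 := hq ((1 : K4) • E 0 + (1 : K4) • E 2 + (0 : K4) • E 5) ((herm3 1 1 0).2 (by decide))
    have q2 := hq ((1 : K4) • E 0 + (0 : K4) • E 2 + (1 : K4) • E 5) ((herm3 1 0 1).2 (by decide))
    have r1 : c ((1 : K4) • E 0 + (1 : K4) • E 2 + (0 : K4) • E 5) = (1 : K4) • E 0 + al • E 2 + be • E 5 := by
      rw [map_add, map_add, hsm, hsm, hsm, zero_smul, add_zero, one_smul, one_smul, c0, c2, one_smul, add_assoc]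
    have r2 : c ((1 : K4) • E 0 + (0 : K4) • E 2 + (1 : K4) • E 5) = (1 : K4) • E 0 + (1 + al) • E 2 + (1 + be) • E 5 := by
      rw [map_add, map_add, hsm, hsm, hsm, zero_smul, add_zero, one_smul, one_smul, c0, c5, one_smul, add_assoc]
    rw [r1, herm3] at q1
    rw [r2, herm3] at q2
    rcases parity2 al be q1 q2 with ⟨h1, h2⟩ | ⟨h1, h2⟩
    · left
      intro v
      rw [h1, h2, one_smul, zero_smul, add_zero] at c2
      have c5' : c (E 5) = E 5 := by
        rw [c5, h1, h2, add_zero, one_smul]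
        have : (1 : K4) + 1 = 0 := by decide
        rw [this, zero_smul, zero_add]
      rw [hlin v]
      conv_rhs => rw [sum_E v]
      rw [Fin.sum_univ_six, Fin.sum_univ_six, c0, c1, c2, c3, c4, c5']
    · right
      intro v
      rw [h1, h2, one_smul, zero_smul, zero_add] at c2
      have c5' : c (E 5) = E 2 := by
        rw [c5, h1, h2, add_zero, one_smul]
        have : (1 : K4) + 1 = 0 := by decide
        rw [this, zero_smul, add_zero]
      rw [hlin v]
      conv_rhs => rw [sum_E (sw v)]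
      rw [Fin.sum_univ_six, Fin.sum_univ_six, c0, c1, c2, c3, c4, c5']
      have s0 : sw v 0 = v 0 := rfl
      have s1 : sw v 1 = v 1 := rfl
      have s2 : sw v 2 = v 5 := rfl
      have s3 : sw v 3 = v 3 := rfl
      have s4 : sw v 4 = v 4 := rfl
      have s5 : sw v 5 = v 2 := rfl
      rw [s0, s1, s2, s3, s4, s5]
      abel
  · -- semilinear case
    exfalso
    have hk : ∀ (a : Fin 6 → ZMod 3), ∑ i, a i = 0 → a 2 = 0 → a 5 = 0 → a 0 = 1 → ∀ k, a k ≠ 2 → c (E 0) k = 0 := by
      intro a ha h2 h5 h0 k hk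
      apply e_ne2 (a k) hk
      have := congrFun (hD a ha h2 h5 (E 0)) k
      rw [e_E, h0, show e 1 = om from rfl, hω] at this
      simpa using this.symm
    have h01 := hk ![1, 2, 0, 0, 0, 0] (by decide) (by decide) (by decide) (by decide)
    have h03 := hk ![1, 0, 0, 2, 0, 0] (by decide) (by decide) (by decide) (by decide)
    have hz : c (E 0) = 0 := by
      funext k
      fin_cases k
      · exact h01 0 (by decide)
      · exact h03 1 (by decide)
      · exact h01 2 (by decide)
      · exact h01 3 (by decide)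
      · exact h01 4 (by decide)
      · exact h01 5 (by decide)
    have h0 : E 0 = 0 := by rw [← hc2 (E 0), hz, map_zero]
    have := congrFun h0 0
    rw [E_self] at this
    exact absurd this (by decide)

end Cfsg.Agent.Lib.H87U3D
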