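import Cfsg.Agent.Lib.H97FaI

set_option autoImplicit false
set_option linter.unusedVariables false

open Matrix Cfsg Cfsg.Agent.Lib.K4 Cfsg.Agent.Lib.HermMat Cfsg.Agent.Lib.ClThreeTransU Cfsg.Agent.Lib.SU6K4
open Cfsg.Agent.Lib.U43 Cfsg.Agent.Lib.H97Fa Cfsg.Agent.Lib.H97FaF Cfsg.Agent.Lib.H97FaG Cfsg.Agent.Lib.H97FaI Cfsg.Agent.Lib.LargeExtra

universe u

namespace Cfsg.Agent.Lib.H87U3E

theorem mo_zc (c : ZMod 3) (x : V6) : mt (mo (zc c) 1) *ᵥ x = e c • x := by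
  ext i
  rw [mo_mulVec]
  rfl

theorem omega {H : Type u} [Group H] {ζ : H} {Q : Subgroup H} {V : Type u} [AddCommGroup V] {q : V → ZMod 2} {b : V → V → ZMod 2}
    {ρ : H →* AddMonoid.End V} {π : Q → V} {M : Subgroup H} {Φ : V6 ≃+ V} {R : M →* G} (D : Dat ζ Q q b ρ π M Φ R)
    (hR : R.range = K0) (h : H) : (∀ v, ρ h (Φ (om • v)) = Φ (om • Φ.symm (ρ h (Φ v)))) ∨ (∀ v, ρ h (Φ (om • v)) = Φ (om' • Φ.symm (ρ h (Φ v)))) := by
  have hn := D.nM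
  have hz : mo (zc 1) 1 ∈ R.range := by
    rw [hR]
    exact T_le_K0 (Z0_le_T ⟨1, rfl⟩)
  obtain ⟨m, hm⟩ := hz
  -- `Q` is normal (kernel of `ρ`)
  have hQ : ∀ g x : H, x ∈ Q → g * x * g⁻¹ ∈ Q := by
    intro g x hx
    rw [← D.ker] at hx ⊢
    rw [map_mul, map_mul, hx, mul_one, ← map_mul, mul_inv_cancel, map_one]
  set m' : M := ⟨h * m * h⁻¹, hn.conj_mem _ m.2 h⟩ with hm'
  have hc : ∀ s ∈ M0, R m' * s * (R m')⁻¹ * s⁻¹ ∈ Z0 := by
    intro s hs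
    have hs' : s ∈ R.range := by rw [hR]; exact M0_le_K0 hs
    obtain ⟨k, rfl⟩ := hs'
    let k' : M := ⟨h⁻¹ * k * h, by
      have := hn.conj_mem _ k.2 h⁻¹
      rwa [inv_inv] at this⟩
    have h1 : R m * R k' * (R m)⁻¹ * (R k')⁻¹ = 1 := by
      have h2 := Z0_central (g := R m) (by rw [hm]; exact ⟨1, rfl⟩) (R k')
      rw [h2, mul_inv_cancel]
    rw [← map_mul, ← map_inv, ← map_mul, ← map_inv, ← map_mul, D.kerR] at h1
    have h3 := hQ h _ h1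
    have h4 : (h * ((m * k' * m⁻¹ * k'⁻¹ : M) : H) * h⁻¹) = ((m' * k * m'⁻¹ * k⁻¹ : M) : H) := by
      simp only [Subgroup.coe_mul, Subgroup.coe_inv, hm', k']
      group
    rw [h4, ← D.kerR] at h3
    rw [map_mul, map_mul, map_mul, map_inv, map_inv] at h3
    rw [h3]
    exact Z0.one_mem
  obtain ⟨c, hcc⟩ := cent_mod hc
  have key : ∀ v, ρ h (Φ (om • v)) = Φ (e c • Φ.symm (ρ h (Φ v))) := by
    intro v
    have e1 : om • v = mt (R m) *ᵥ v := by rw [hm, mo_zc]; rfl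
    have e2 : e c • Φ.symm (ρ h (Φ v)) = mt (R m') *ᵥ Φ.symm (ρ h (Φ v)) := by rw [hcc, mo_zc]
    rw [e1, e2, D.rep, D.rep, Φ.apply_symm_apply]
    have e3 : ρ h (ρ m (Φ v)) = ρ (h * m) (Φ v) := by rw [map_mul ρ h m]; rfl
    have e4 : ρ m' (ρ h (Φ v)) = ρ (m' * h) (Φ v) := by rw [map_mul ρ (m' : H) h]; rfl
    rw [e3, e4]
    have e5 : h * (m : H) = (m' : H) * h := by
      rw [hm']
      simp
    rw [e5]
  have hc0 : c ≠ 0 := by
    rintro rfl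
    have h1 : R m' = 1 := by rw [hcc, ← mo_one]; rfl
    rw [D.kerR] at h1
    have h2 := hQ h⁻¹ _ h1
    have h3 : h⁻¹ * (m' : H) * h⁻¹⁻¹ = m := by
      rw [hm']
      simp only [inv_inv]
      group
    rw [h3, ← D.kerR, hm, ← mo_one] at h2
    have h4 := (mo_inj h2).1
    have h5 : (zc 1).1 0 = (0 : A0).1 0 := by rw [h4]
    revert h5
    decide
  have h12 : ∀ c : ZMod 3, c ≠ 0 → c = 1 ∨ c = 2 := by decide
  have hc3 : c = 1 ∨ c = 2 := h12 c hc0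
  rcases hc3 with rfl | rfl
  · left
    intro v
    exact key v
  · right
    intro v
    exact key v

end Cfsg.Agent.Lib.H87U3E
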