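import Cfsg.Agent.Lib.H97Fa0

/-!
# S5440: piece B, an orthonormal basis over `F_4` (helper44)
-/

set_option autoImplicit false

namespace Cfsg.Agent.Lib.H97FaB

open Matrix Cfsg Cfsg.Agent.Lib.K4 Cfsg.Agent.Lib.HermMat Cfsg.Agent.Lib.ClThreeTransU Cfsg.Agent.Lib.SU6K4
open Cfsg.Agent.Lib.H97Fa
open Cfsg.Agent.Lib Cfsg.Agent.Lib.LargeExtra

theorem zcases : ∀ c : ZMod 2, c = 0 ∨ c = 1 := by decide

/-- coordinates of `K4` -/
def c0 (c : K4) : ZMod 2 := if c = 1 ∨ c = om' then 1 else 0
def c1 (c : K4) : ZMod 2 := if c = om ∨ c = om' then 1 else 0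

theorem c0_add : ∀ c d : K4, c0 (c + d) = c0 c + c0 d := by decide +kernel
theorem c1_add : ∀ c d : K4, c1 (c + d) = c1 c + c1 d := by decide +kernel
theorem c0_om : ∀ c : K4, c0 (om * c) = c1 c := by decide +kernel
theorem c1_om : ∀ c : K4, c1 (om * c) = c0 c + c1 c := by decide +kernel
theorem c_inj : ∀ c : K4, c0 c = 0 → c1 c = 0 → c = 0 := by decide +kernel

/-- the norm -/
def nm (c : K4) : ZMod 2 := c0 c + c1 c + c0 c * c1 c

/-- the map from the prime field -/
def pr2 (c : ZMod 2) : K4 := if c = 0 then 0 else 1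
theorem pr2_add : ∀ c d : ZMod 2, pr2 (c + d) = pr2 c + pr2 d := by decide +kernel
theorem pr2_zero : pr2 0 = 0 := by decide +kernel
theorem pr2_eq : ∀ c : ZMod 2, pr2 c = 0 ↔ c = 0 := by decide +kernel
theorem pr2_nm : ∀ c : K4, pr2 (nm c) = c * c ^ 2 := by decide +kernel

section

variable {V : Type*} [AddCommGroup V] {q : V → ZMod 2} {b : V → V → ZMod 2} (h : QS q b) (x : V →+ V)

include h

theorem b_self (v : V) : b v v = 0 := by
  have h1 := h.add v v
  have h2 := h.add 0 0
  have h3 : b 0 0 = 0 := by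
    have := h.badd 0 0 0
    rw [add_zero] at this
    exact (left_eq_add.1 this)
  rw [h3, add_zero, add_zero] at h2
  have h4 : q 0 = 0 := left_eq_add.1 h2
  rw [h.two, h4] at h1
  have h5 : q v + q v = 0 := CharTwo.add_self_eq_zero _
  rw [h5, zero_add] at h1
  exact h1.symm

theorem q_zero : q 0 = 0 := by
  have h1 := h.add 0 0
  rw [b_self h, add_zero, add_zero] at h1
  exact left_eq_add.1 h1

/-- linear in the first variable -/
def bl (w : V) : V →+ ZMod 2 := AddMonoidHom.mk' (fun u => b u w) (fun u v => h.badd u v w)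

theorem b_zero (w : V) : b 0 w = 0 := (bl h w).map_zero

theorem b_sum {ι : Type*} (s : Finset ι) (u : ι → V) (w : V) : b (∑ i ∈ s, u i) w = ∑ i ∈ s, b (u i) w :=
  map_sum (bl h w) u s

/-- sums of orthogonal vectors -/
theorem q_sum {ι : Type*} [DecidableEq ι] (s : Finset ι) (u : ι → V) (hu : ∀ i j, i ≠ j → b (u i) (u j) = 0) :
    q (∑ i ∈ s, u i) = ∑ i ∈ s, q (u i) := by
  induction s using Finset.induction_on with
  | empty => rw [Finset.sum_empty, Finset.sum_empty, q_zero h]
  | insert a s ha ih =>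
    have h1 : ∑ i ∈ s, b (u i) (u a) = 0 :=
      Finset.sum_eq_zero fun i hi => hu i a (fun hia => ha (hia ▸ hi))
    rw [Finset.sum_insert ha, Finset.sum_insert ha, h.add, ih, h.symm, b_sum h, h1, add_zero]

/-- orthonormal families -/
def Orth (q : V → ZMod 2) (b : V → V → ZMod 2) (x : V →+ V) {k : ℕ} (v : Fin k → V) : Prop :=
  (∀ i, q (v i) = 1) ∧ ∀ i j, i ≠ j → b (v i) (v j) = 0 ∧ b (v i) (x (v j)) = 0

omit h in
/-- multiples -/
def e (c : ZMod 2) (v : V) : V := if c = 0 then 0 else v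

omit h in
theorem e_zero (v : V) : e 0 v = 0 := if_pos rfl
omit h in
theorem e_one (v : V) : e 1 v = v := if_neg one_ne_zero

theorem b_e (c : ZMod 2) (v w : V) : b (e c v) w = c * b v w := by
  rcases zcases c with rfl | rfl
  · rw [e_zero, b_zero h, zero_mul]
  · rw [e_one, one_mul]

theorem q_e (c : ZMod 2) (v : V) : q (e c v) = c * q v := by
  rcases zcases c with rfl | rfl
  · rw [e_zero, q_zero h, zero_mul]
  · rw [e_one, one_mul]

theorem e_add (c d : ZMod 2) (v : V) : e (c + d) v = e c v + e d v := by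
  rcases zcases c with rfl | rfl <;> rcases zcases d with rfl | rfl
  · rw [add_zero, e_zero, add_zero]
  · rw [zero_add, e_zero, e_one, zero_add]
  · rw [add_zero, e_zero, e_one, add_zero]
  · rw [e_one, h.two, CharTwo.add_self_eq_zero, e_zero]

omit h in
theorem e_add' (c : ZMod 2) (u v : V) : e c (u + v) = e c u + e c v := by
  rcases zcases c with rfl | rfl
  · rw [e_zero, e_zero, e_zero, add_zero]
  · rw [e_one, e_one, e_one]

omit h in
theorem x_e (x : V →+ V) (c : ZMod 2) (v : V) : x (e c v) = e c (x v) := by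
  rcases zcases c with rfl | rfl
  · rw [e_zero, e_zero, map_zero]
  · rw [e_one, e_one]

variable (hx : ∀ v, x (x v) + x v + v = 0) (hq : ∀ v, q (x v) = q v)

include hx in
theorem xx (v : V) : x (x v) = x v + v := by
  have h1 := hx v
  rw [add_assoc] at h1
  have h2 : x (x v) = -(x v + v) := eq_neg_of_add_eq_zero_left h1
  rw [h2, neg_eq_iff_add_eq_zero]
  exact h.two _

include hq in
theorem b_x (u w : V) : b (x u) (x w) = b u w := by
  have h1 := h.add (x u) (x w)
  rw [← map_add, hq, hq, hq, h.add] at h1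
  exact (add_left_cancel h1).symm

include hx hq in
theorem b_vx {v : V} (hv : q v = 1) : b v (x v) = 1 := by
  have h1 := h.add v (x v)
  rw [add_comm v (x v), ← xx h x hx v, hq, hq, hv, CharTwo.add_self_eq_zero, zero_add] at h1
  exact h1.symm

include hx hq in
theorem step [Finite V] {k : ℕ} {v : Fin k → V} (hv : Orth q b x v) (hc : 4 ^ k < Nat.card V) :
    ∃ w, q w = 1 ∧ ∀ i, b w (v i) = 0 ∧ b w (x (v i)) = 0 := by
  classical
  by_contra hcon
  push Not at hcon
  have h0 : ∀ w, (∀ i, b w (v i) = 0 ∧ b w (x (v i)) = 0) → q w = 0 := by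
    intro w hw
    rcases zcases (q w) with h1 | h1
    · exact h1
    · obtain ⟨i, hi⟩ := hcon w h1
      exact absurd (hw i).2 (hi (hw i).1)
  obtain ⟨u, hu0, hu⟩ : ∃ u : V, u ≠ 0 ∧ ∀ i, b u (v i) = 0 ∧ b u (x (v i)) = 0 := by
    have h1 : ¬ Function.Injective (fun (u : V) (i : Fin k) => ((b u (v i), b u (x (v i))) : ZMod 2 × ZMod 2)) := by
      intro hinj
      have h2 := Nat.card_le_card_of_injective _ hinj
      rw [Nat.card_eq_fintype_card (α := Fin k → ZMod 2 × ZMod 2), Fintype.card_fun, Fintype.card_prod,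
        ZMod.card, Fintype.card_fin] at h2
      norm_num at h2
      omega
    rw [Function.Injective] at h1
    push Not at h1
    obtain ⟨u1, u2, h3, h4⟩ := h1
    refine ⟨u1 + u2, fun h5 => h4 ?_, fun i => ?_⟩
    · have h6 : u1 = -u2 := eq_neg_of_add_eq_zero_left h5
      rw [h6, neg_eq_iff_add_eq_zero]
      exact h.two _
    · have h5 := congrFun h3 i
      rw [Prod.mk.injEq] at h5
      rw [h.badd, h.badd, h5.1, h5.2]
      exact ⟨CharTwo.add_self_eq_zero _, CharTwo.add_self_eq_zero _⟩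
  apply hu0
  apply h.nd
  intro v'
  obtain ⟨P, hP⟩ : ∃ P, P = ∑ i, (e (b v' (x (v i))) (v i) + e (b v' (v i)) (x (v i))) := ⟨_, rfl⟩
  have hterm : ∀ i j, b (e (b v' (x (v i))) (v i) + e (b v' (v i)) (x (v i))) (v j) = if i = j then b v' (v j) else 0 := by
    intro i j
    rw [h.badd, b_e h, b_e h, h.symm (x (v i)) (v j)]
    by_cases hij : i = j
    · subst hij
      rw [if_pos rfl, b_self h, b_vx h x hx hq (hv.1 i), mul_zero, zero_add, mul_one]
    · rw [if_neg hij, (hv.2 i j hij).1, (hv.2 j i (Ne.symm hij)).2, mul_zero, mul_zero, add_zero]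
  have hterm' : ∀ i j, b (e (b v' (x (v i))) (v i) + e (b v' (v i)) (x (v i))) (x (v j)) = if i = j then b v' (x (v j)) else 0 := by
    intro i j
    rw [h.badd, b_e h, b_e h, b_x h x hq]
    by_cases hij : i = j
    · subst hij
      rw [if_pos rfl, b_self h, b_vx h x hx hq (hv.1 i), mul_zero, mul_one, add_zero]
    · rw [if_neg hij, (hv.2 i j hij).1, (hv.2 i j hij).2, mul_zero, mul_zero, add_zero]
  have hw : ∀ i, b (v' + P) (v i) = 0 ∧ b (v' + P) (x (v i)) = 0 := by
    intro j
    rw [h.badd, h.badd, hP, b_sum h, b_sum h]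
    simp only [hterm, hterm', Finset.sum_ite_eq', Finset.mem_univ, if_true]
    exact ⟨CharTwo.add_self_eq_zero _, CharTwo.add_self_eq_zero _⟩
  have huP : b u P = 0 := by
    rw [hP, h.symm, b_sum h]
    apply Finset.sum_eq_zero
    intro i _
    rw [h.badd, b_e h, b_e h, h.symm _ u, h.symm _ u, (hu i).1, (hu i).2, mul_zero, mul_zero, add_zero]
  have huw : b u (v' + P) = 0 := by
    have h1 := h.add u (v' + P)
    rw [h0 u hu, h0 _ hw, h0 (u + (v' + P)) (fun i => ?_), add_zero, zero_add] at h1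
    · exact h1.symm
    · rw [h.badd u, h.badd u, (hu i).1, (hu i).2, (hw i).1, (hw i).2]
      exact ⟨add_zero _, add_zero _⟩
  rw [h.badd', huP, add_zero] at huw
  exact huw

include hx hq in
theorem exists_orth [Finite V] (k : ℕ) (hc : 4 ^ k ≤ Nat.card V) : ∃ v : Fin k → V, Orth q b x v := by
  induction k with
  | zero => exact ⟨Fin.elim0, fun i => i.elim0, fun i => i.elim0⟩
  | succ k ih =>
    have h4 : 4 ^ k < 4 ^ (k + 1) := Nat.pow_lt_pow_right (by norm_num) (Nat.lt_succ_self k)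
    obtain ⟨v, hv⟩ := ih (le_of_lt (lt_of_lt_of_le h4 hc))
    obtain ⟨w, hw1, hw⟩ := step h x hx hq hv (lt_of_lt_of_le h4 hc)
    have hw' : ∀ i, b (v i) (x w) = 0 := by
      intro i
      rw [← b_x h x hq, xx h x hx w, h.badd', b_x h x hq, h.symm (v i) w, (hw i).1, zero_add, h.symm,
        (hw i).2]
    refine ⟨Fin.cons w v, fun i => ?_, fun i j hij => ?_⟩
    · refine Fin.cases ?_ (fun i => ?_) i
      · exact hw1
      · exact hv.1 i
    · revert hij
      refine Fin.cases ?_ (fun i => ?_) i <;> refine Fin.cases ?_ (fun j => ?_) j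
      · intro hij; exact absurd rfl hij
      · intro _
        simp only [Fin.cons_zero, Fin.cons_succ]
        exact hw j
      · intro _
        simp only [Fin.cons_zero, Fin.cons_succ]
        exact ⟨by rw [h.symm]; exact (hw i).1, hw' i⟩
      · intro hij
        simp only [Fin.cons_succ]
        exact hv.2 i j (fun hh => hij (by rw [hh]))

end

theorem exists_basis {V : Type*} [AddCommGroup V] [Finite V] {q : V → ZMod 2} {b : V → V → ZMod 2} (h : QS q b) (x : V →+ V)
    (hx : ∀ v, x (x v) + x v + v = 0) (hq : ∀ v, q (x v) = q v) (hc : Nat.card V = 2 ^ 12) :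
    ∃ Φ : (Fin 6 → K4) ≃+ V, (∀ a, Φ (om • a) = x (Φ a)) ∧ ∀ a, q (Φ a) = 0 ↔ hermForm 6 K4 2 a a = 0 := by
  classical
  obtain ⟨v, hv⟩ := exists_orth h x hx hq 6 (by rw [hc]; norm_num)
  let t : K4 → Fin 6 → V := fun c i => e (c0 c) (v i) + e (c1 c) (x (v i))
  have ht : ∀ c i, t c i = e (c0 c) (v i) + e (c1 c) (x (v i)) := fun _ _ => rfl
  let Φ₀ : (Fin 6 → K4) →+ V := AddMonoidHom.mk' (fun a => ∑ i, t (a i) i) (by
    intro a a'
    rw [← Finset.sum_add_distrib]
    apply Finset.sum_congr rfl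
    intro i _
    rw [ht, ht, ht, Pi.add_apply, c0_add, c1_add, e_add h, e_add h]
    abel)
  have hΦ₀ : ∀ a, Φ₀ a = ∑ i, t (a i) i := fun _ => rfl
  have htb : ∀ c i j, b (t c i) (v j) = if i = j then c1 c else 0 := by
    intro c i j
    rw [ht, h.badd, b_e h, b_e h, h.symm (x (v i)) (v j)]
    by_cases hij : i = j
    · subst hij
      rw [if_pos rfl, b_self h, b_vx h x hx hq (hv.1 i), mul_zero, zero_add, mul_one]
    · rw [if_neg hij, (hv.2 i j hij).1, (hv.2 j i (Ne.symm hij)).2, mul_zero, mul_zero, add_zero]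
  have htb' : ∀ c i j, b (t c i) (x (v j)) = if i = j then c0 c else 0 := by
    intro c i j
    rw [ht, h.badd, b_e h, b_e h, b_x h x hq]
    by_cases hij : i = j
    · subst hij
      rw [if_pos rfl, b_self h, b_vx h x hx hq (hv.1 i), mul_zero, mul_one, add_zero]
    · rw [if_neg hij, (hv.2 i j hij).1, (hv.2 i j hij).2, mul_zero, mul_zero, add_zero]
  have hinj : Function.Injective Φ₀ := by
    rw [injective_iff_map_eq_zero]
    intro a ha
    funext j
    have h1 : b (Φ₀ a) (v j) = c1 (a j) := by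
      rw [hΦ₀, b_sum h]
      simp only [htb, Finset.sum_ite_eq', Finset.mem_univ, if_true]
    have h2 : b (Φ₀ a) (x (v j)) = c0 (a j) := by
      rw [hΦ₀, b_sum h]
      simp only [htb', Finset.sum_ite_eq', Finset.mem_univ, if_true]
    rw [ha, b_zero h] at h1 h2
    exact c_inj _ h2.symm h1.symm
  have hcard : Nat.card (Fin 6 → K4) = Nat.card V := by
    rw [hc, Nat.card_eq_fintype_card, Fintype.card_fun, card_K4, Fintype.card_fin]
    norm_num
  have hbij : Function.Bijective Φ₀ := (Nat.bijective_iff_injective_and_card _).2 ⟨hinj, hcard⟩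
  refine ⟨AddEquiv.ofBijective Φ₀ hbij, fun a => ?_, fun a => ?_⟩
  · show Φ₀ (om • a) = x (Φ₀ a)
    rw [hΦ₀, hΦ₀, map_sum]
    apply Finset.sum_congr rfl
    intro i _
    rw [ht, ht, Pi.smul_apply, smul_eq_mul, c0_om, c1_om, map_add, x_e, x_e, xx h x hx, e_add h, e_add']
    abel
  · show q (Φ₀ a) = 0 ↔ _
    have h1 : q (Φ₀ a) = ∑ i, nm (a i) := by
      rw [hΦ₀, q_sum h]
      · apply Finset.sum_congr rfl
        intro i _
        rw [ht, h.add, q_e h, q_e h, b_e h, h.symm, b_e h, h.symm, b_vx h x hx hq (hv.1 i), hq, hv.1 i, nm]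
        ring
      · intro i j hij
        rw [ht (a j) j, h.badd', h.symm, b_e h, h.symm, htb, h.symm (t (a i) i), b_e h, h.symm (x (v j)), htb',
          if_neg hij, if_neg hij, mul_zero, mul_zero, add_zero]
    have h2 : hermForm 6 K4 2 a a = pr2 (q (Φ₀ a)) := by
      rw [h1, hermForm]
      have h3 : ∀ s : Finset (Fin 6), pr2 (∑ i ∈ s, nm (a i)) = ∑ i ∈ s, a i * a i ^ 2 := by
        intro s
        induction s using Finset.induction_on with
        | empty => rw [Finset.sum_empty, Finset.sum_empty, pr2_zero]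
        | insert j s hj ih => rw [Finset.sum_insert hj, Finset.sum_insert hj, pr2_add, ih, pr2_nm]
      exact (h3 _).symm
    rw [h2, pr2_eq]

end Cfsg.Agent.Lib.H97FaB
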