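import Cfsg.Agent.Lib.H97Fa0

/-!
# S5440, piece C (helper35): the representation on `K4^6`
-/

set_option autoImplicit false

namespace Cfsg.Agent.Lib.H97FaC

open Matrix Cfsg Cfsg.Agent.Lib.K4 Cfsg.Agent.Lib.HermMat Cfsg.Agent.Lib.ClThreeTransU Cfsg.Agent.Lib.SU6K4 Cfsg.Agent.Lib.H97Fa
open Cfsg.Agent.Lib Cfsg.Agent.Lib.LargeExtra

theorem k_cases : ∀ c : K4, c = 0 ∨ c = 1 ∨ c = om ∨ c = om * om := by decide +kernel

theorem k_sq : ∀ c : K4, c ^ 2 = c → c = 0 ∨ c = 1 := by decide +kernel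

theorem k_pol : ∀ D E : K4, D + D ^ 2 = E + E ^ 2 → om ^ 2 * D + om * D ^ 2 = om ^ 2 * E + om * E ^ 2 → D = E := by decide +kernel

theorem om6 : om ^ 6 = 1 := by decide +kernel

theorem herm01 (a : Fin 6 → K4) : hermForm 6 K4 2 a a = 0 ∨ hermForm 6 K4 2 a a = 1 :=
  k_sq _ (hermForm_swap hF a a)

theorem herm_pol (c : K4) (a b : Fin 6 → K4) : hermForm 6 K4 2 (a + c • b) (a + c • b) =
    hermForm 6 K4 2 a a + (c ^ 2 * hermForm 6 K4 2 a b + c * (hermForm 6 K4 2 a b) ^ 2) + c * (c ^ 2 * hermForm 6 K4 2 b b) := by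
  rw [hermForm_add_left, hermForm_add_right hF, hermForm_add_right hF, hermForm_smul_right, hermForm_smul_left, hermForm_smul_left,
    hermForm_smul_right, hermForm_swap hF]
  ring

theorem herm_of_diag (T : (Fin 6 → K4) →ₗ[K4] (Fin 6 → K4))
    (h : ∀ a, hermForm 6 K4 2 (T a) (T a) = hermForm 6 K4 2 a a) (a b : Fin 6 → K4) :
    hermForm 6 K4 2 (T a) (T b) = hermForm 6 K4 2 a b := by
  have key : ∀ c : K4, c ^ 2 * hermForm 6 K4 2 (T a) (T b) + c * (hermForm 6 K4 2 (T a) (T b)) ^ 2 =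
      c ^ 2 * hermForm 6 K4 2 a b + c * (hermForm 6 K4 2 a b) ^ 2 := by
    intro c
    have h1 := h (a + c • b)
    rw [map_add, map_smul, herm_pol, herm_pol, h a, h b] at h1
    exact add_left_cancel (add_right_cancel h1)
  have h1 := key 1
  have h2 := key om
  rw [one_pow, one_mul, one_mul, one_mul, one_mul] at h1
  exact k_pol _ _ h1 h2

/-- the operators -/
noncomputable def opr {V : Type*} [AddCommGroup V] (x : V →+ V) (Φ : (Fin 6 → K4) ≃+ V) (hΦ : ∀ a, Φ (om • a) = x (Φ a))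
    (t : V →+ V) (ht : ∀ v, t (x v) = x (t v)) : (Fin 6 → K4) →ₗ[K4] (Fin 6 → K4) where
  toFun a := Φ.symm (t (Φ a))
  map_add' a b := by simp
  map_smul' c a := by
    have hom : ∀ a, Φ.symm (t (Φ (om • a))) = om • Φ.symm (t (Φ a)) := by
      intro a
      apply Φ.injective
      rw [Φ.apply_symm_apply, hΦ, hΦ, ht, Φ.apply_symm_apply]
    show Φ.symm (t (Φ (c • a))) = c • Φ.symm (t (Φ a))
    rcases k_cases c with rfl | rfl | rfl | rfl
    · simp
    · simp
    · exact hom a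
    · rw [mul_smul, hom, hom, mul_smul]

theorem opr_apply {V : Type*} [AddCommGroup V] (x : V →+ V) (Φ : (Fin 6 → K4) ≃+ V) (hΦ : ∀ a, Φ (om • a) = x (Φ a))
    (t : V →+ V) (ht : ∀ v, t (x v) = x (t v)) (a : Fin 6 → K4) : opr x Φ hΦ t ht a = Φ.symm (t (Φ a)) := rfl

theorem exists_rep {V : Type*} [AddCommGroup V] {q : V → ZMod 2} {b : V → V → ZMod 2} (h : QS q b) (x : V →+ V)
    (Φ : (Fin 6 → K4) ≃+ V) (hΦ : ∀ a, Φ (om • a) = x (Φ a)) (hΦq : ∀ a, q (Φ a) = 0 ↔ hermForm 6 K4 2 a a = 0)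
    {M : Type*} [Group M] (ρ : M →* AddMonoid.End V) (hρx : ∀ m v, ρ m (x v) = x (ρ m v)) (hρq : ∀ m v, q (ρ m v) = q v)
    (x0 : M) (hx0 : ∀ v, ρ x0 v = x v) (hf : ∀ f : M →* K4ˣ, f x0 = 1 → f = 1) :
    ∃ R : M →* SU 6 K4 2, ∀ m a, Φ (mt (R m) *ᵥ a) = ρ m (Φ a) := by
  let T : M → ((Fin 6 → K4) →ₗ[K4] (Fin 6 → K4)) := fun m => opr x Φ hΦ (ρ m) (hρx m)
  have hT : ∀ m a, T m a = Φ.symm (ρ m (Φ a)) := fun m a => rfl
  have hTq : ∀ m a, hermForm 6 K4 2 (T m a) (T m a) = hermForm 6 K4 2 a a := by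
    intro m a
    have h1 : hermForm 6 K4 2 (T m a) (T m a) = 0 ↔ hermForm 6 K4 2 a a = 0 := by
      rw [← hΦq, ← hΦq, hT, Φ.apply_symm_apply, hρq]
    rcases herm01 (T m a) with h2 | h2 <;> rcases herm01 a with h3 | h3
    · rw [h2, h3]
    · rw [h1.mp h2] at h3; exact absurd h3 (by decide +kernel)
    · rw [h1.mpr h3] at h2; exact absurd h2 (by decide +kernel)
    · rw [h2, h3]
  have hT1 : T 1 = LinearMap.id := by
    apply LinearMap.ext; intro a
    rw [hT, map_one]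
    show Φ.symm (Φ a) = a
    exact Φ.symm_apply_apply a
  have hTm : ∀ m m', T (m * m') = (T m).comp (T m') := by
    intro m m'
    apply LinearMap.ext; intro a
    rw [LinearMap.comp_apply, hT, hT, hT, map_mul, Φ.apply_symm_apply]
    rfl
  let W : M →* Matrix (Fin 6) (Fin 6) K4 :=
    { toFun := fun m => LinearMap.toMatrix' (T m)
      map_one' := by
        rw [hT1]; exact LinearMap.toMatrix'_id
      map_mul' := by
        intro m m'
        rw [hTm]; exact LinearMap.toMatrix'_comp _ _ }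
  have hW : ∀ m a, W m *ᵥ a = T m a := by
    intro m a
    exact LinearMap.toMatrix'_mulVec (T m) a
  have hx0W : W x0 = om • (1 : Matrix (Fin 6) (Fin 6) K4) := by
    have h1 : T x0 = om • LinearMap.id := by
      apply LinearMap.ext; intro a
      rw [hT, hx0, ← hΦ, Φ.symm_apply_apply]; rfl
    show LinearMap.toMatrix' (T x0) = _
    rw [h1, map_smul, LinearMap.toMatrix'_id]
  obtain ⟨f, hfm⟩ : ∃ f : M →* K4ˣ, ∀ m, ((f m : K4ˣ) : K4) = (W m).det := by
    refine ⟨(Matrix.detMonoidHom.comp W).toHomUnits, fun m => ?_⟩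
    rw [MonoidHom.coe_toHomUnits, MonoidHom.comp_apply, Matrix.coe_detMonoidHom]
  have hf1 : f = 1 := by
    apply hf
    apply Units.ext
    rw [hfm, hx0W, Matrix.det_smul, Matrix.det_one, mul_one, Fintype.card_fin, om6, Units.val_one]
  have hdet : ∀ m, (W m).det = 1 := by
    intro m
    rw [← hfm, hf1, MonoidHom.one_apply, Units.val_one]
  have hpres : ∀ m a b, hermForm 6 K4 2 (W m *ᵥ a) (W m *ᵥ b) = hermForm 6 K4 2 a b := by
    intro m a b
    rw [hW, hW]
    exact herm_of_diag (T m) (hTq m) a b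
  let R : M →* SU 6 K4 2 :=
    { toFun := fun m => ⟨⟨W m, hdet m⟩, fun u v => hpres m u v⟩
      map_one' := by
        apply Subtype.ext; apply Subtype.ext
        exact map_one W
      map_mul' := by
        intro m m'
        apply Subtype.ext; apply Subtype.ext
        exact map_mul W m m' }
  refine ⟨R, ?_⟩
  intro m a
  have h1 : mt (R m) *ᵥ a = T m a := hW m a
  rw [h1, hT, Φ.apply_symm_apply]

end Cfsg.Agent.Lib.H97FaC
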