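import Mathlib
import Cfsg.Agent.Lib.SU6K4
import Cfsg.Agent.Lib.LargeExtra

/-!
# S5440 (helper97): definitions for the action of `3·U₄(3)` on `2^{12}`
-/

set_option autoImplicit false

namespace Cfsg.Agent.Lib.H97Fa

/-- a quadratic space over the field with two elements, written additively -/
structure QS {V : Type*} [AddCommGroup V] (q : V → ZMod 2) (b : V → V → ZMod 2) : Prop where
  two : ∀ v : V, v + v = 0
  add : ∀ u v, q (u + v) = q u + q v + b u v
  badd : ∀ u v w, b (u + v) w = b u w + b v w
  nd : ∀ u, (∀ v, b u v = 0) → u = 0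

theorem QS.symm {V : Type*} [AddCommGroup V] {q : V → ZMod 2} {b : V → V → ZMod 2} (h : QS q b) (u v : V) :
    b u v = b v u := by
  have h1 := h.add u v
  have h2 := h.add v u
  rw [add_comm v u, h1] at h2
  have : q u + q v = q v + q u := add_comm _ _
  rw [this] at h2
  exact add_left_cancel h2

theorem QS.badd' {V : Type*} [AddCommGroup V] {q : V → ZMod 2} {b : V → V → ZMod 2} (h : QS q b) (u v w : V) :
    b u (v + w) = b u v + b u w := by
  rw [h.symm u, h.badd, h.symm v, h.symm w]

end Cfsg.Agent.Lib.H97Fa
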