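import Cfsg.Agent.Lib.H97Fa0
import Cfsg.Agent.Lib.U43J

/-!
# S5440, piece D1 (helper97): the Heisenberg pattern in `PSU₄(3)`
-/

set_option autoImplicit false
set_option linter.unusedVariables false
set_option linter.unusedSimpArgs false

namespace Cfsg.Agent.Lib.H97FaD1

open Matrix Cfsg Cfsg.Agent.Lib.K4 Cfsg.Agent.Lib.HermMat Cfsg.Agent.Lib.ClThreeTransU Cfsg.Agent.Lib.SU6K4
open Cfsg.Agent.Lib.U43 Cfsg.Agent.Lib.H97Fa

def aa : A0 := ⟨![0, 1, 2, 0, 0, 0], by rw [mem_A0]; decide⟩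
def cc : A0 := ⟨![0, 0, 0, 0, 1, 2], by rw [mem_A0]; decide⟩

theorem sσ1 : Equiv.Perm.sign σ1 = 1 := by decide +kernel
theorem sσ2 : Equiv.Perm.sign σ2⁻¹ = 1 := by decide +kernel

/-- elements of the monomial group as elements of `K0` -/
def mk (a : A0) (σ : Pm) (h : Equiv.Perm.sign σ = 1) : K0 := ⟨mo a σ, M0_le_K0 (mo_mem_M0.2 h)⟩

theorem mk_mul (a b : A0) (σ τ : Pm) (h h') : mk a σ h * mk b τ h' = mk (a + act σ b) (σ * τ) (by rw [Equiv.Perm.sign_mul, h, h', one_mul]) :=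
  Subtype.ext (mo_mul a b σ τ)

theorem mk_congr {a b : A0} {σ τ : Pm} (h h') (e1 : a = b) (e2 : σ = τ) : mk a σ h = mk b τ h' := by subst e1; subst e2; rfl

abbrev s1 : Equiv.Perm.sign (1 : Pm) = 1 := Equiv.Perm.sign_one

def ea : K0 := mk aa 1 s1
def eb : K0 := mk 0 σ1 sσ1
def ec : K0 := mk cc 1 s1
def ed : K0 := mk 0 σ2⁻¹ sσ2
def zA : A0 := aa - act σ1 aa
def zC : A0 := cc - act σ2⁻¹ cc
def ez : K0 := mk zA 1 s1
def ez' : K0 := mk zC 1 s1

theorem val_dec {a b : A0} (h : ∀ i, a.1 i = b.1 i) : a = b := Subtype.ext (funext h)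

theorem eab : ea * eb = ez * (eb * ea) := by
  unfold ea eb ez
  rw [mk_mul, mk_mul, mk_mul]
  exact mk_congr _ _ (val_dec (by decide +kernel)) (by decide +kernel)

theorem ecd : ec * ed = ez' * (ed * ec) := by
  unfold ec ed ez'
  rw [mk_mul, mk_mul, mk_mul]
  exact mk_congr _ _ (val_dec (by decide +kernel)) (by decide +kernel)

theorem comm_of {a b : A0} {σ τ : Pm} (h h') (e1 : a + act σ b = b + act τ a) (e2 : σ * τ = τ * σ) : mk a σ h * mk b τ h' = mk b τ h' * mk a σ h := by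
  rw [mk_mul, mk_mul]
  exact mk_congr _ _ e1 e2

theorem eaz : ea * ez = ez * ea := comm_of _ _ (val_dec (by decide +kernel)) (by decide +kernel)
theorem ebz : eb * ez = ez * eb := comm_of _ _ (val_dec (by decide +kernel)) (by decide +kernel)
theorem ecz : ec * ez = ez * ec := comm_of _ _ (val_dec (by decide +kernel)) (by decide +kernel)
theorem edz : ed * ez = ez * ed := comm_of _ _ (val_dec (by decide +kernel)) (by decide +kernel)
theorem eac : ea * ec = ec * ea := comm_of _ _ (val_dec (by decide +kernel)) (by decide +kernel)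
theorem ead : ea * ed = ed * ea := comm_of _ _ (val_dec (by decide +kernel)) (by decide +kernel)
theorem ebc : eb * ec = ec * eb := comm_of _ _ (val_dec (by decide +kernel)) (by decide +kernel)
theorem ebd : eb * ed = ed * eb := comm_of _ _ (val_dec (by decide +kernel)) (by decide +kernel)

theorem cube {a : A0} {σ : Pm} (h) (e1 : (a + act σ (a + act σ a)) = 0) (e2 : σ * (σ * σ) = 1) : mk a σ h ^ 3 = 1 := by
  rw [pow_succ', pow_two, mk_mul, mk_mul]
  refine (mk_congr _ s1 e1 e2).trans ?_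
  exact Subtype.ext mo_one

theorem ea3 : ea ^ 3 = 1 := cube _ (val_dec (by decide +kernel)) (by decide +kernel)
theorem eb3 : eb ^ 3 = 1 := cube _ (val_dec (by decide +kernel)) (by decide +kernel)
theorem ec3 : ec ^ 3 = 1 := cube _ (val_dec (by decide +kernel)) (by decide +kernel)
theorem ed3 : ed ^ 3 = 1 := cube _ (val_dec (by decide +kernel)) (by decide +kernel)
theorem ez3 : ez ^ 3 = 1 := cube _ (val_dec (by decide +kernel)) (by decide +kernel)

theorem ez_ne : θ ez ≠ 1 := by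
  rw [Ne, θ_eq_one]
  change ¬ (mo zA 1 ∈ Z0)
  rw [mo_mem_Z0]
  rintro ⟨-, c, hc⟩
  have h0 := congrFun (congrArg Subtype.val hc) 0
  have h3 := congrFun (congrArg Subtype.val hc) 3
  have h1 : zA.1 0 = zA.1 3 := h0.trans h3.symm
  revert h1
  decide +kernel

theorem ezz : θ ez' = θ ez := by
  have h : θ (ez' * ez⁻¹) = 1 := by
    rw [θ_eq_one]
    change mo zC 1 * (mo zA 1)⁻¹ ∈ Z0
    rw [mo_inv, mo_mul, mo_mem_Z0]
    refine ⟨by simp, zC.1 0 - zA.1 0, val_dec ?_⟩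
    decide +kernel
  rw [map_mul, map_inv] at h
  exact mul_inv_eq_one.1 h

theorem exists_heis (F9 : Type) [Field F9] [Fintype F9] (hF9 : Fintype.card F9 = 9) :
    ∃ a b c d z : PSU 4 F9 3, z ≠ 1 ∧ a ^ 3 = 1 ∧ b ^ 3 = 1 ∧ c ^ 3 = 1 ∧ d ^ 3 = 1 ∧ z ^ 3 = 1 ∧ a * b = z * (b * a) ∧ c * d = z * (d * c) ∧
      a * z = z * a ∧ b * z = z * b ∧ c * z = z * c ∧ d * z = z * d ∧ a * c = c * a ∧ a * d = d * a ∧ b * c = c * b ∧ b * d = d * b := by
  obtain ⟨ε⟩ := PO_equiv F9 hF9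
  set f : K0 →* PSU 4 F9 3 := ε.toMonoidHom.comp θ with hf
  have hz : f ez' = f ez := congrArg ε ezz
  refine ⟨f ea, f eb, f ec, f ed, f ez, ?_, ?_, ?_, ?_, ?_, ?_, ?_, ?_, ?_, ?_, ?_, ?_, ?_, ?_, ?_, ?_⟩
  · intro h
    exact ez_ne (ε.injective (h.trans (map_one ε).symm))
  · rw [← map_pow, ea3, map_one]
  · rw [← map_pow, eb3, map_one]
  · rw [← map_pow, ec3, map_one]
  · rw [← map_pow, ed3, map_one]
  · rw [← map_pow, ez3, map_one]
  · rw [← map_mul, eab, map_mul, map_mul]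
  · rw [← map_mul, ecd, map_mul, map_mul, hz]
  · rw [← map_mul, eaz, map_mul]
  · rw [← map_mul, ebz, map_mul]
  · rw [← map_mul, ecz, map_mul]
  · rw [← map_mul, edz, map_mul]
  · rw [← map_mul, eac, map_mul]
  · rw [← map_mul, ead, map_mul]
  · rw [← map_mul, ebc, map_mul]
  · rw [← map_mul, ebd, map_mul]

end Cfsg.Agent.Lib.H97FaD1
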