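import Cfsg.Agent.Lib.H97Fa0

/-!
# S5440-PLAN piece D2 (helper78): no faithful `3^{1+4}` on an elementary 2-group of order `< 2^{18}`
-/

set_option autoImplicit false

namespace Cfsg.Agent.Lib.H97FaD2

theorem card_cube {V : Type*} [AddCommGroup V] (h2 : ∀ v : V, v + v = 0) (K K0 : AddSubgroup V)
    (a b z : AddMonoid.End V) (ha : ∀ v, a (a (a v)) = v) (hb : ∀ v, b (b (b v)) = v) (hz : ∀ v, z (z (z v)) = v)
    (hab : ∀ v, a (b v) = z (b (a v))) (haz : ∀ v, a (z v) = z (a v)) (hbz : ∀ v, b (z v) = z (b v))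
    (hK : ∀ v ∈ K, v + z v + z (z v) = 0) (hKa : ∀ v ∈ K, a v ∈ K) (hKb : ∀ v ∈ K, b v ∈ K)
    (hKz : ∀ v ∈ K, z v ∈ K) (hK0 : ∀ v, v ∈ K0 ↔ v ∈ K ∧ a v = v) :
    Nat.card K = (Nat.card K0) ^ 3 := by
  have hneg : ∀ v : V, -v = v := fun v => neg_eq_of_add_eq_zero_left (h2 v)
  have hmem : ∀ p : K0 × K0 × K0, (p.1 : V) + b (p.2.1 : V) + b (b (p.2.2 : V)) ∈ K := fun p =>
    K.add_mem (K.add_mem ((hK0 _).1 p.1.2).1 (hKb _ ((hK0 _).1 p.2.1.2).1))
      (hKb _ (hKb _ ((hK0 _).1 p.2.2.2).1))
  let Ψ : (K0 × K0 × K0) →+ K :=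
    { toFun := fun p => ⟨(p.1 : V) + b (p.2.1 : V) + b (b (p.2.2 : V)), hmem p⟩
      map_zero' := by
        apply Subtype.ext
        simp
      map_add' := by
        intro p q
        apply Subtype.ext
        simp only [Prod.fst_add, Prod.snd_add, AddSubgroup.coe_add, map_add]
        abel }
  have hab2 : ∀ v, a (b (b v)) = z (z (b (b (a v)))) := by
    intro v
    rw [hab, hab, hbz]
  have hinj : Function.Injective Ψ := by
    rw [injective_iff_map_eq_zero]
    rintro ⟨⟨u, hu⟩, ⟨v, hv⟩, ⟨w, hw⟩⟩ h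
    have h0 : u + b v + b (b w) = 0 := congrArg Subtype.val h
    obtain ⟨huK, hua⟩ := (hK0 u).1 hu
    obtain ⟨hvK, hva⟩ := (hK0 v).1 hv
    obtain ⟨hwK, hwa⟩ := (hK0 w).1 hw
    have h1 : u + z (b v) + z (z (b (b w))) = 0 := by
      have := congrArg a h0
      rw [map_add, map_add, map_zero, hua, hab, hva, hab2, hwa] at this
      exact this
    have h3 : u + z (z (b v)) + z (b (b w)) = 0 := by
      have := congrArg a h1
      rw [map_add, map_add, map_zero, hua, haz, hab, hva, haz, haz, hab2, hwa, hz] at this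
      exact this
    have kv := hK _ (hKb _ hvK)
    have kw := hK _ (hKb _ (hKb _ hwK))
    have ku := hK _ huK
    have e0 : u = 0 := by
      have : u + (b v + z (b v) + z (z (b v))) + (b (b w) + z (b (b w)) + z (z (b (b w)))) + (u + u) = 0 := by
        have e : (u + b v + b (b w)) + (u + z (b v) + z (z (b (b w)))) + (u + z (z (b v)) + z (b (b w))) = 0 := by
          rw [h0, h1, h3]; simp
        rw [← e]; abel
      rw [kv, kw, h2, add_zero, add_zero, add_zero] at this
      exact this
    subst e0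
    rw [zero_add] at h0 h1 h3
    -- b v = b (b w),  z b v = z z b b w
    have e1 : b v = b (b w) := by
      have := eq_neg_of_add_eq_zero_left h0
      rwa [hneg] at this
    have e2 : z (b v) = z (z (b (b w))) := by
      have := eq_neg_of_add_eq_zero_left h1
      rwa [hneg] at this
    have e3 : b v = z (b v) := by
      have := congrArg (fun t => z (z t)) e2
      change z (z (z (b v))) = z (z (z (z (b (b w))))) at this
      rw [hz, hz, ← e1] at this
      exact this
    have e4 : b v = 0 := by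
      rw [← e3, ← e3, h2, zero_add] at kv
      exact kv
    have e5 : v = 0 := by
      have := congrArg (fun t => b (b t)) e4
      change b (b (b v)) = b (b 0) at this
      rw [hb, map_zero, map_zero] at this
      exact this
    have e6 : w = 0 := by
      rw [e4] at e1
      have := congrArg b e1
      rw [hb, map_zero] at this
      exact this.symm
    subst e5
    subst e6
    rfl
  have hsurj : Function.Surjective Ψ := by
    rintro ⟨v, hv⟩
    have m1 := hKa _ hv
    have m2 := hKa _ m1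
    have q0 : v + a v + a (a v) ∈ K0 := by
      rw [hK0]
      refine ⟨K.add_mem (K.add_mem hv m1) m2, ?_⟩
      rw [map_add, map_add, ha]
      abel
    have q1 : b (b (v + z (z (a v)) + z (a (a v)))) ∈ K0 := by
      rw [hK0]
      refine ⟨hKb _ (hKb _ (K.add_mem (K.add_mem hv (hKz _ (hKz _ m1))) (hKz _ m2))), ?_⟩
      have aX : a (v + z (z (a v)) + z (a (a v))) = a v + z (z (a (a v))) + z v := by
        simp only [map_add, haz, ha]
      have zX : z (z (a v + z (z (a (a v))) + z v)) = v + z (z (a v)) + z (a (a v)) := by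
        rw [map_add, map_add, map_add, map_add, hz, hz]
        abel
      rw [hab2, aX, ← hbz, ← hbz, ← hbz, ← hbz, zX]
    have q2 : b (v + z (a v) + z (z (a (a v)))) ∈ K0 := by
      rw [hK0]
      refine ⟨hKb _ (K.add_mem (K.add_mem hv (hKz _ m1)) (hKz _ (hKz _ m2))), ?_⟩
      have aX : a (v + z (a v) + z (z (a (a v)))) = a v + z (a (a v)) + z (z v) := by
        simp only [map_add, haz, ha]
      have zX : z (a v + z (a (a v)) + z (z v)) = v + z (a v) + z (z (a (a v))) := by
        rw [map_add, map_add, hz]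
        abel
      rw [hab, aX, ← hbz, zX]
    refine ⟨(⟨_, q0⟩, ⟨_, q1⟩, ⟨_, q2⟩), ?_⟩
    apply Subtype.ext
    change (v + a v + a (a v)) + b (b (b (v + z (z (a v)) + z (a (a v))))) + b (b (b (v + z (a v) + z (z (a (a v)))))) = v
    rw [hb, hb]
    have k1 := hK _ m1
    have k2 := hK _ m2
    have : (v + a v + a (a v)) + (v + z (z (a v)) + z (a (a v))) + (v + z (a v) + z (z (a (a v)))) =
        (v + v) + v + (a v + z (a v) + z (z (a v))) + (a (a v) + z (a (a v)) + z (z (a (a v)))) := by abel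
    rw [this, k1, k2, h2, zero_add, add_zero, add_zero]
  rw [← Nat.card_congr (Equiv.ofBijective Ψ ⟨hinj, hsurj⟩), Nat.card_prod, Nat.card_prod]
  ring

theorem heis {V : Type*} [AddCommGroup V] [Finite V] (h2 : ∀ v : V, v + v = 0) (hc : Nat.card V < 2 ^ 18)
    {a b c d z : AddMonoid.End V} (ha : a ^ 3 = 1) (hb : b ^ 3 = 1) (hc3 : c ^ 3 = 1) (hd : d ^ 3 = 1) (hz : z ^ 3 = 1)
    (hab : a * b = z * (b * a)) (hcd : c * d = z * (d * c))
    (haz : a * z = z * a) (hbz : b * z = z * b) (hcz : c * z = z * c) (hdz : d * z = z * d)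
    (hac : a * c = c * a) (had : a * d = d * a) (hbc : b * c = c * b) (hbd : b * d = d * b) : z = 1 := by
  have cube : ∀ f : AddMonoid.End V, f ^ 3 = 1 → ∀ v, f (f (f v)) = v := by
    intro f hf v
    have := DFunLike.congr_fun hf v
    simpa [pow_succ] using this
  have comm : ∀ f g : AddMonoid.End V, f * g = g * f → ∀ v, f (g v) = g (f v) := by
    intro f g h v
    exact DFunLike.congr_fun h v
  by_contra hne
  -- the subgroup K
  let K : AddSubgroup V := (1 + z + z * z : AddMonoid.End V).ker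
  have hKmem : ∀ v, v ∈ K ↔ v + z v + z (z v) = 0 := by
    intro v
    rfl
  let K0 : AddSubgroup V := K ⊓ (a - 1 : AddMonoid.End V).ker
  have hK0 : ∀ v, v ∈ K0 ↔ v ∈ K ∧ a v = v := by
    intro v
    constructor
    · rintro ⟨h1, h3⟩
      have h3' : a v - v = 0 := h3
      exact ⟨h1, sub_eq_zero.1 h3'⟩
    · rintro ⟨h1, h3⟩
      exact ⟨h1, (show a v - v = 0 from sub_eq_zero.2 h3)⟩
  let K1 : AddSubgroup V := K0 ⊓ (c - 1 : AddMonoid.End V).ker
  have hK1 : ∀ v, v ∈ K1 ↔ v ∈ K0 ∧ c v = v := by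
    intro v
    constructor
    · rintro ⟨h1, h3⟩
      have h3' : c v - v = 0 := h3
      exact ⟨h1, sub_eq_zero.1 h3'⟩
    · rintro ⟨h1, h3⟩
      exact ⟨h1, (show c v - v = 0 from sub_eq_zero.2 h3)⟩
  have pres : ∀ f : AddMonoid.End V, f * z = z * f → ∀ v ∈ K, f v ∈ K := by
    intro f hf v hv
    have cf := comm f z hf
    rw [hKmem] at hv ⊢
    rw [← cf, ← cf, ← map_add, ← map_add, hv, map_zero]
  have pres0 : ∀ f : AddMonoid.End V, f * z = z * f → a * f = f * a → ∀ v ∈ K0, f v ∈ K0 := by
    intro f hf hfa v hv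
    rw [hK0] at hv ⊢
    refine ⟨pres f hf v hv.1, ?_⟩
    rw [comm a f hfa, hv.2]
  have r1 : Nat.card K = (Nat.card K0) ^ 3 :=
    card_cube h2 K K0 a b z (cube a ha) (cube b hb) (cube z hz) (fun v => DFunLike.congr_fun hab v)
      (comm a z haz) (comm b z hbz) (fun v hv => (hKmem v).1 hv) (pres a haz) (pres b hbz) (pres z rfl) hK0
  have r2 : Nat.card K0 = (Nat.card K1) ^ 3 :=
    card_cube h2 K0 K1 c d z (cube c hc3) (cube d hd) (cube z hz) (fun v => DFunLike.congr_fun hcd v)
      (comm c z hcz) (comm d z hdz) (fun v hv => (hKmem v).1 ((hK0 v).1 hv).1) (pres0 c hcz hac) (pres0 d hdz had)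
      (pres0 z rfl haz) hK1
  -- K is nontrivial
  have hKne : K ≠ ⊥ := by
    intro hbot
    apply hne
    ext v
    have hw : v + z v ∈ K := by
      rw [hKmem, map_add, map_add, cube z hz]
      have : v + z v + (z v + z (z v)) + (z (z v) + v) = (v + v) + (z v + z v) + (z (z v) + z (z v)) := by abel
      rw [this, h2 v, h2 (z v), h2 (z (z v))]
      simp
    rw [hbot, AddSubgroup.mem_bot] at hw
    have := eq_neg_of_add_eq_zero_right hw
    rw [this]
    exact neg_eq_of_add_eq_zero_left (h2 v)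
  have hKc : 1 < Nat.card K := by
    rw [← AddSubgroup.one_lt_card_iff_ne_bot] at hKne
    exact hKne
  have hK1c : 1 < Nat.card K1 := by
    by_contra hcon
    have h1 : Nat.card K1 = 1 := by
      have : 0 < Nat.card K1 := Nat.card_pos
      omega
    have h5 : Nat.card K = 1 := by
      rw [r1, r2, h1, one_pow, one_pow]
    omega
  have hK1ne : K1 ≠ ⊥ := (AddSubgroup.one_lt_card_iff_ne_bot K1).1 hK1c
  obtain ⟨⟨w, hw⟩, hw0'⟩ := AddSubgroup.ne_bot_iff_exists_ne_zero.1 hK1ne
  have hw0 : w ≠ 0 := fun h => hw0' (Subtype.ext h)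
  have hwz : w + z w + z (z w) = 0 := (hKmem w).1 ((hK0 w).1 ((hK1 w).1 hw).1).1
  have zne : z w ≠ w := by
    intro h
    rw [h, h, h2, zero_add] at hwz
    exact hw0 hwz
  have z0 : ∀ v, v ≠ 0 → z v ≠ 0 := by
    intro v hv h
    apply hv
    rw [← cube z hz v, h, map_zero, map_zero]
  have hK1z : ∀ v ∈ K1, z v ∈ K1 := by
    intro v hv
    rw [hK1] at hv ⊢
    refine ⟨pres0 z rfl haz v hv.1, ?_⟩
    rw [comm c z hcz, hv.2]
  have four : 4 ≤ Nat.card K1 := by
    let f : Fin 4 → K1 := ![0, ⟨w, hw⟩, ⟨z w, hK1z _ hw⟩, ⟨z (z w), hK1z _ (hK1z _ hw)⟩]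
    have hzz : z (z w) ≠ z w := by
      intro h
      apply zne
      have := congrArg (fun t => z (z t)) h
      simp only [cube z hz] at this
      rw [this] at h
      rw [← this]
      exact this.symm ▸ this
    have hzz' : z (z w) ≠ w := by
      intro h
      apply zne
      have := congrArg z h
      rw [cube z hz] at this
      exact this.symm
    have hf : Function.Injective f := by
      have e : ∀ i j : Fin 4, (f i : V) = f j → i = j := by
        have v0 : (f 0 : V) = 0 := rfl
        have v1 : (f 1 : V) = w := rfl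
        have v2 : (f 2 : V) = z w := rfl
        have v3 : (f 3 : V) = z (z w) := rfl
        intro i j
        fin_cases i <;> fin_cases j <;> simp [f] <;> first | exact fun h => absurd h.symm hw0 | exact fun h => absurd h hw0 | exact fun h => absurd h zne | exact fun h => absurd h.symm zne | exact fun h => absurd h hzz | exact fun h => absurd h.symm hzz | exact fun h => absurd h hzz' | exact fun h => absurd h.symm hzz' | exact fun h => absurd h (z0 _ hw0) | exact fun h => absurd h.symm (z0 _ hw0) | exact fun h => absurd h (z0 _ (z0 _ hw0)) | exact fun h => absurd h.symm (z0 _ (z0 _ hw0))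
      intro i j h
      exact e i j (congrArg Subtype.val h)
    have := Nat.card_le_card_of_injective f hf
    simpa using this
  have hKV : Nat.card K ≤ Nat.card V := Nat.card_le_card_of_injective _ K.subtype_injective
  rw [r1, r2] at hKV
  have : 4 ^ 9 ≤ ((Nat.card K1) ^ 3) ^ 3 := by
    rw [← pow_mul]
    exact Nat.pow_le_pow_left four 9
  norm_num at this hc
  omega

end Cfsg.Agent.Lib.H97FaD2
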