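import Mathlib

set_option autoImplicit false
set_option linter.all false
set_option maxHeartbeats 400000

namespace Cfsg.Agent.Lib.H97FaD3

/-- the additive endomorphisms as linear maps over `ZMod 2` -/
noncomputable def rep {W : Type*} [AddCommGroup W] [Module (ZMod 2) W] {P : Type*} [Group P] (ρ : P →* AddMonoid.End W) :
    P →* (W →ₗ[ZMod 2] W) where
  toFun p := (ρ p : W →+ W).toZModLinearMap 2
  map_one' := by
    rw [map_one]
    rfl
  map_mul' p p' := by
    rw [map_mul]
    rfl

theorem dvd_prod {W : Type*} [AddCommGroup W] [Finite W] (h2 : ∀ v : W, v + v = 0) (hc : Nat.card W ≤ 2 ^ 10)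
    {P : Type*} [Group P] [Finite P] (ρ : P →* AddMonoid.End W) (hρ : Function.Injective ρ) :
    ∃ k, k ≤ 10 ∧ Nat.card P ∣ ∏ i : Fin k, (2 ^ k - 2 ^ (i : ℕ)) := by
  letI : Module (ZMod 2) W := AddCommGroup.zmodModule (n := 2) (fun v => by rw [two_nsmul]; exact h2 v)
  haveI : Module.Finite (ZMod 2) W := Module.Finite.of_finite
  haveI : Fintype W := Fintype.ofFinite W
  refine ⟨Module.finrank (ZMod 2) W, ?_, ?_⟩
  · have hW : Nat.card W = 2 ^ Module.finrank (ZMod 2) W := by
      rw [Nat.card_eq_fintype_card, Module.card_eq_pow_finrank (K := ZMod 2) (V := W), ZMod.card]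
    rw [hW] at hc
    exact (Nat.pow_le_pow_iff_right (by norm_num)).1 hc
  · let e : W ≃ₗ[ZMod 2] (Fin (Module.finrank (ZMod 2) W) → ZMod 2) := (Module.finBasis (ZMod 2) W).equivFun
    let f : P →* (W →ₗ[ZMod 2] W)ˣ := (rep ρ).toHomUnits
    have hf : Function.Injective f := by
      intro p p' h
      apply hρ
      have h1 : (rep ρ p : W →ₗ[ZMod 2] W) = rep ρ p' := by
        have := congrArg (fun u : (W →ₗ[ZMod 2] W)ˣ => (u : W →ₗ[ZMod 2] W)) h
        simpa [f] using this
      ext v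
      exact congrArg (fun g : W →ₗ[ZMod 2] W => g v) h1
    have hGL : Nat.card (W →ₗ[ZMod 2] W)ˣ = Nat.card (Matrix.GeneralLinearGroup (Fin (Module.finrank (ZMod 2) W)) (ZMod 2)) := by
      refine Nat.card_congr ?_
      exact (Equiv.trans (LinearMap.GeneralLinearGroup.congrLinearEquiv e).toEquiv
        (Matrix.GeneralLinearGroup.toLin (n := Fin _) (R := ZMod 2)).symm.toEquiv)
    have hdvd : Nat.card P ∣ Nat.card (W →ₗ[ZMod 2] W)ˣ := by
      haveI : Finite (W →ₗ[ZMod 2] W) := by
        apply Finite.of_injective (fun g : W →ₗ[ZMod 2] W => (g : W → W))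
        exact DFunLike.coe_injective
      exact Subgroup.card_dvd_of_injective f hf
    rw [hGL, Matrix.card_GL_field, ZMod.card] at hdvd
    exact hdvd

theorem not_dvd {W : Type*} [AddCommGroup W] [Finite W] (h2 : ∀ v : W, v + v = 0) (hc : Nat.card W ≤ 2 ^ 10)
    {P : Type*} [Group P] [Finite P] (ρ : P →* AddMonoid.End W) (hρ : Function.Injective ρ) : ¬ 3 ^ 7 ∣ Nat.card P := by
  obtain ⟨k, hk, hd⟩ := dvd_prod h2 hc ρ hρ
  intro h7
  have h := h7.trans hd
  revert h
  interval_cases k <;> simp only [Fin.prod_univ_succ, Fin.prod_univ_zero, Fin.val_zero, Fin.val_succ] <;> norm_num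

end Cfsg.Agent.Lib.H97FaD3
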