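import Mathlib
import Cfsg.Agent.Lib.H97Fa0
import Cfsg.Agent.Lib.U43J
import Cfsg.Agent.Lib.H97FaD2
import Cfsg.Agent.Lib.H97FaD3
import Cfsg.Agent.Lib.H97FaD1

/-! S5440, piece D4 (helper12). -/

set_option autoImplicit false
set_option linter.all false

open Matrix Cfsg Cfsg.Agent.Lib.K4 Cfsg.Agent.Lib.HermMat Cfsg.Agent.Lib.ClThreeTransU Cfsg.Agent.Lib.SU6K4 Cfsg.Agent.Lib.H97Fa
open Cfsg.Agent.Lib Cfsg.Agent.Lib.LargeExtra

namespace Cfsg.Agent.Lib.H97FaD4

universe u v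

/-- restriction of an action on an additive group to an invariant subgroup -/
def res {V : Type*} [AddCommGroup V] {L : Type*} [Group L] (ρ : L →* AddMonoid.End V) (C : AddSubgroup V)
    (h : ∀ l, ∀ v ∈ C, ρ l v ∈ C) : L →* AddMonoid.End C where
  toFun l :=
    { toFun := fun c => ⟨ρ l (c : V), h l c c.2⟩
      map_zero' := Subtype.ext (map_zero (ρ l))
      map_add' := fun a b => Subtype.ext (map_add (ρ l) (a : V) (b : V)) }
  map_one' := by
    ext c
    show ρ 1 (c : V) = c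
    rw [map_one]
    rfl
  map_mul' a b := by
    ext c
    show (ρ (a * b)) (c : V) = (ρ a) ((ρ b) (c : V))
    rw [map_mul]
    rfl

theorem res_apply {V : Type*} [AddCommGroup V] {L : Type*} [Group L] (ρ : L →* AddMonoid.End V) (C : AddSubgroup V)
    (h : ∀ l, ∀ v ∈ C, ρ l v ∈ C) (l : L) (c : C) : ((res ρ C h l c : C) : V) = ρ l (c : V) := rfl

/-- an endomorphism with cube 1 and no fixed vector -/
theorem card_mod_three {W : Type*} [AddCommGroup W] [Finite W] (f : W → W) (hf : ∀ w, f (f (f w)) = w)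
    (h0 : f 0 = 0) (hfix : ∀ w, f w = w → w = 0) : Nat.card W % 3 = 1 := by
  classical
  haveI : Fintype W := Fintype.ofFinite W
  haveI : Fact (Nat.Prime 3) := ⟨by norm_num⟩
  let g : Function.End W := f
  have h1 : g ^ 3 ^ 1 = 1 := by
    funext w
    exact hf w
  have h2 := Equiv.Perm.card_fixedPoints_modEq (p := 3) (n := 1) h1
  have h3 : Fintype.card (Function.fixedPoints g) = 1 := by
    rw [Fintype.card_eq_one_iff]
    refine ⟨⟨0, h0⟩, ?_⟩
    rintro ⟨w, hw⟩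
    exact Subtype.ext (hfix w hw)
  rw [h3] at h2
  rw [Nat.card_eq_fintype_card]
  exact h2

theorem num {c w k : ℕ} (hk : k ≤ 12) (hw : w = 2 ^ k) (h : c * w = 2 ^ 12) (hm : w % 3 = 1) (h1 : 1 < c) (h2 : 1 < w) :
    c ≤ 2 ^ 10 ∧ w ≤ 2 ^ 10 := by
  subst hw
  interval_cases k <;> first | (exfalso; omega) | (constructor <;> omega)

theorem fpf_of (F9 : Type) [Field F9] [Fintype F9] (hF9 : Fintype.card F9 = 9) (hsimp : IsSimpleGroup (PSU 4 F9 3))
    (hcard : 3 ^ 6 ∣ Nat.card (PSU 4 F9 3))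
    (D1 : ∃ a b c d z : PSU 4 F9 3, z ≠ 1 ∧ a ^ 3 = 1 ∧ b ^ 3 = 1 ∧ c ^ 3 = 1 ∧ d ^ 3 = 1 ∧ z ^ 3 = 1 ∧ a * b = z * (b * a) ∧ c * d = z * (d * c) ∧
      a * z = z * a ∧ b * z = z * b ∧ c * z = z * c ∧ d * z = z * d ∧ a * c = c * a ∧ a * d = d * a ∧ b * c = c * b ∧ b * d = d * b)
    (D2 : ∀ (V : Type u) [AddCommGroup V] [Finite V], (∀ v : V, v + v = 0) → Nat.card V < 2 ^ 18 →
      ∀ {a b c d z : AddMonoid.End V}, a ^ 3 = 1 → b ^ 3 = 1 → c ^ 3 = 1 → d ^ 3 = 1 → z ^ 3 = 1 →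
      a * b = z * (b * a) → c * d = z * (d * c) →
      a * z = z * a → b * z = z * b → c * z = z * c → d * z = z * d →
      a * c = c * a → a * d = d * a → b * c = c * b → b * d = d * b → z = 1)
    (D3 : ∀ (W : Type u) [AddCommGroup W] [Finite W], (∀ v : W, v + v = 0) → Nat.card W ≤ 2 ^ 10 →
      ∀ (P : Type v) [Group P] [Finite P] (ρ : P →* AddMonoid.End W), Function.Injective ρ → ¬ 3 ^ 7 ∣ Nat.card P)
    {V : Type u} [AddCommGroup V] [Finite V]
    (h2 : ∀ v : V, v + v = 0) (hc : Nat.card V = 2 ^ 12) {L : Type v} [Group L] [Finite L] (ρ : L →* AddMonoid.End V)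
    (hinj : Function.Injective ρ) (X : Subgroup L) [X.Normal] (hX : Nat.card X = 3) (hXc : X ≤ Subgroup.center L)
    (hiso : Nonempty (L ⧸ X ≃* PSU 4 F9 3)) (x : L) (hx : x ∈ X) (hx1 : x ≠ 1) : ∀ v, ρ x v = v → v = 0 := by
  classical
  haveI := hsimp
  obtain ⟨e⟩ := hiso
  have hx3 : x ^ 3 = 1 := by
    have h1 : (⟨x, hx⟩ : X) ^ Nat.card X = 1 := pow_card_eq_one'
    rw [hX] at h1
    exact congrArg Subtype.val h1
  have hcen : ∀ l : L, l * x = x * l := fun l => Subgroup.mem_center_iff.mp (hXc hx) l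
  have hmul : ∀ (a b : L) (v : V), ρ (a * b) v = ρ a (ρ b v) := by
    intro a b v
    rw [map_mul]
    rfl
  have hone : ∀ v : V, ρ 1 v = v := by
    intro v
    rw [map_one]
    rfl
  have hxl : ∀ (l : L) (v : V), ρ x (ρ l v) = ρ l (ρ x v) := by
    intro l v
    rw [← hmul, ← hmul, hcen]
  have hxxx : ∀ v : V, ρ x (ρ x (ρ x v)) = v := by
    intro v
    rw [← hmul, ← hmul, ← pow_two, ← pow_succ, hx3, hone]
  let C : AddSubgroup V :=
    { carrier := {v | ρ x v = v}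
      zero_mem' := map_zero _
      add_mem' := by
        intro a b ha hb
        show ρ x (a + b) = a + b
        rw [map_add, show ρ x a = a from ha, show ρ x b = b from hb]
      neg_mem' := by
        intro a ha
        show ρ x (-a) = -a
        rw [map_neg, show ρ x a = a from ha] }
  let W : AddSubgroup V :=
    { carrier := {v | v + ρ x v + ρ x (ρ x v) = 0}
      zero_mem' := by
        show (0 : V) + ρ x 0 + ρ x (ρ x 0) = 0
        rw [map_zero, map_zero, add_zero, add_zero]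
      add_mem' := by
        intro a b ha hb
        show (a + b) + ρ x (a + b) + ρ x (ρ x (a + b)) = 0
        rw [map_add, map_add]
        have h3 : (a + ρ x a + ρ x (ρ x a)) + (b + ρ x b + ρ x (ρ x b)) = 0 := by
          rw [show a + ρ x a + ρ x (ρ x a) = 0 from ha, show b + ρ x b + ρ x (ρ x b) = 0 from hb, add_zero]
        rw [← h3]
        abel
      neg_mem' := by
        intro a ha
        show (-a) + ρ x (-a) + ρ x (ρ x (-a)) = 0
        rw [map_neg, map_neg]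
        have h3 : -(a + ρ x a + ρ x (ρ x a)) = 0 := by
          rw [show a + ρ x a + ρ x (ρ x a) = 0 from ha, neg_zero]
        rw [← h3]
        abel }
  have hC : ∀ v, v ∈ C ↔ ρ x v = v := fun v => Iff.rfl
  have hW : ∀ v, v ∈ W ↔ v + ρ x v + ρ x (ρ x v) = 0 := fun v => Iff.rfl
  have hCW : ∀ v, v ∈ C → v ∈ W → v = 0 := by
    intro v h3 h4
    rw [hC] at h3
    rw [hW, h3, h3, h2, zero_add] at h4
    exact h4
  have hinvC : ∀ l : L, ∀ v ∈ C, ρ l v ∈ C := by
    intro l v hv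
    rw [hC] at hv ⊢
    rw [hxl, hv]
  have hinvW : ∀ l : L, ∀ v ∈ W, ρ l v ∈ W := by
    intro l v hv
    rw [hW] at hv ⊢
    rw [hxl, hxl, ← map_add, ← map_add, hv, map_zero]
  have hdec : ∀ v : V, ∃ c ∈ C, ∃ w ∈ W, v = c + w := by
    intro v
    refine ⟨v + ρ x v + ρ x (ρ x v), ?_, ρ x v + ρ x (ρ x v), ?_, ?_⟩
    · rw [hC, map_add, map_add, hxxx]
      abel
    · rw [hW, map_add, map_add, hxxx]
      have h3 : ρ x v + ρ x (ρ x v) + (ρ x (ρ x v) + v) + (v + ρ x v) =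
          (ρ x v + ρ x v) + (ρ x (ρ x v) + ρ x (ρ x v)) + (v + v) := by abel
      rw [h3]
      simp only [h2, add_zero]
    · have h3 : v + ρ x v + ρ x (ρ x v) + (ρ x v + ρ x (ρ x v)) =
          v + (ρ x v + ρ x v) + (ρ x (ρ x v) + ρ x (ρ x v)) := by abel
      rw [h3, h2 (ρ x v), h2 (ρ x (ρ x v)), add_zero, add_zero]
  have hcardCW : Nat.card C * Nat.card W = 2 ^ 12 := by
    rw [← Nat.card_prod, ← hc]
    refine Nat.card_congr (Equiv.ofBijective (fun p : C × W => (p.1 : V) + p.2) ⟨?_, ?_⟩)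
    · rintro ⟨c, w⟩ ⟨c', w'⟩ h3
      have h3' : (c : V) + w = c' + w' := h3
      have h4 : (c : V) - c' = w' - w := by
        rw [sub_eq_sub_iff_add_eq_add, h3', add_comm]
      have h5 : (c : V) - c' = 0 := hCW _ (C.sub_mem c.2 c'.2) (by rw [h4]; exact W.sub_mem w'.2 w.2)
      have h6 : (w' : V) - w = 0 := by rw [← h4, h5]
      exact Prod.ext (Subtype.ext (sub_eq_zero.mp h5)) (Subtype.ext (sub_eq_zero.mp h6).symm)
    · intro v
      obtain ⟨c, hc', w, hw, rfl⟩ := hdec v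
      exact ⟨(⟨c, hc'⟩, ⟨w, hw⟩), rfl⟩
  by_contra hcon
  push Not at hcon
  obtain ⟨c0, hc0, hc00⟩ := hcon
  have hWne : ∃ w ∈ W, w ≠ 0 := by
    by_contra h3
    push Not at h3
    apply hx1
    apply hinj
    rw [map_one]
    ext v
    obtain ⟨c, hc', w, hw, rfl⟩ := hdec v
    rw [h3 w hw, add_zero]
    exact hc'
  obtain ⟨w0, hw0, hw00⟩ := hWne
  have hWmod : Nat.card W % 3 = 1 := by
    apply card_mod_three (fun w : W => (⟨ρ x w, hinvW x w w.2⟩ : W))
    · intro w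
      exact Subtype.ext (hxxx w)
    · exact Subtype.ext (map_zero (ρ x))
    · intro w hw
      have h3 : ρ x (w : V) = w := congrArg Subtype.val hw
      exact Subtype.ext (hCW _ h3 w.2)
  haveI : Finite C := inferInstance
  haveI : Finite W := inferInstance
  have hC1 : 1 < Nat.card C := by
    rw [Finite.one_lt_card_iff_nontrivial]
    exact ⟨⟨⟨c0, hc0⟩, 0, fun h3 => hc00 (congrArg Subtype.val h3)⟩⟩
  have hW1 : 1 < Nat.card W := by
    rw [Finite.one_lt_card_iff_nontrivial]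
    exact ⟨⟨⟨w0, hw0⟩, 0, fun h3 => hw00 (congrArg Subtype.val h3)⟩⟩
  obtain ⟨k, hk, hWk⟩ : ∃ k ≤ 12, Nat.card W = 2 ^ k := (Nat.dvd_prime_pow Nat.prime_two).mp (Dvd.intro_left _ hcardCW)
  have hbounds : Nat.card C ≤ 2 ^ 10 ∧ Nat.card W ≤ 2 ^ 10 := by
    exact num hk hWk hcardCW hWmod hC1 hW1
  -- the kernel on W
  let ρW : L →* AddMonoid.End W := res ρ W hinvW
  have hρW : ∀ l : L, l ∈ ρW.ker ↔ ∀ w ∈ W, ρ l w = w := by
    intro l
    rw [MonoidHom.mem_ker]
    constructor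
    · intro h3 w hw
      have h4 : ρW l ⟨w, hw⟩ = (1 : AddMonoid.End W) ⟨w, hw⟩ := by rw [h3]
      exact congrArg Subtype.val h4
    · intro h3
      ext w
      exact h3 w w.2
  have hxN : x ∉ ρW.ker := by
    intro h3
    rw [hρW] at h3
    exact hw00 (hCW _ (h3 w0 hw0) hw0)
  have hinf : ρW.ker ⊓ X = ⊥ := by
    by_contra h3
    have h4 : Nat.card (ρW.ker ⊓ X : Subgroup L) ∣ 3 := by
      rw [← hX]
      exact Subgroup.card_dvd_of_le inf_le_right
    have h5 : Nat.card (ρW.ker ⊓ X : Subgroup L) ≠ 1 := fun h6 => h3 (Subgroup.card_eq_one.mp h6)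
    have h6 := ((Nat.dvd_prime (by norm_num : Nat.Prime 3)).mp h4).resolve_left h5
    have h7 : ρW.ker ⊓ X = X := Subgroup.eq_of_le_of_card_ge inf_le_right (by rw [h6, hX])
    apply hxN
    have : x ∈ ρW.ker ⊓ X := by rw [h7]; exact hx
    exact this.1
  have hLcard : 3 ^ 7 ∣ Nat.card L := by
    rw [← X.card_mul_index, hX]
    have h3 : X.index = Nat.card (PSU 4 F9 3) := by
      rw [← Nat.card_congr e.toEquiv]
      rfl
    rw [h3, pow_succ, mul_comm]
    exact Nat.mul_dvd_mul_left 3 hcard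
  have hNX : ¬ ρW.ker ≤ X := by
    intro h3
    have h4 : ρW.ker = ⊥ := by
      rw [← hinf]
      exact (inf_eq_left.mpr h3).symm
    exact D3 W (fun w => Subtype.ext (h2 w)) hbounds.2 L ρW ((MonoidHom.ker_eq_bot_iff _).mp h4) hLcard
  -- N maps onto PSU
  let τ : ρW.ker →* PSU 4 F9 3 := (e.toMonoidHom.comp (QuotientGroup.mk' X)).comp ρW.ker.subtype
  have hτinj : Function.Injective τ := by
    rw [injective_iff_map_eq_one]
    rintro ⟨l, hl⟩ h3
    have h4 : e (QuotientGroup.mk l) = 1 := h3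
    rw [map_eq_one_iff e e.injective, QuotientGroup.eq_one_iff] at h4
    have h5 : l ∈ ρW.ker ⊓ X := ⟨hl, h4⟩
    rw [hinf, Subgroup.mem_bot] at h5
    exact Subtype.ext h5
  have hτsurj : Function.Surjective τ := by
    have h3 : (ρW.ker.map (e.toMonoidHom.comp (QuotientGroup.mk' X))).Normal :=
      Subgroup.Normal.map inferInstance _ (e.surjective.comp (QuotientGroup.mk'_surjective X))
    rcases hsimp.eq_bot_or_eq_top_of_normal _ h3 with h4 | h4
    · exfalso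
      apply hNX
      intro l hl
      have h5 : e (QuotientGroup.mk l) ∈ ρW.ker.map (e.toMonoidHom.comp (QuotientGroup.mk' X)) := ⟨l, hl, rfl⟩
      rw [h4, Subgroup.mem_bot, map_eq_one_iff e e.injective, QuotientGroup.eq_one_iff] at h5
      exact h5
    · intro y
      have h5 : y ∈ ρW.ker.map (e.toMonoidHom.comp (QuotientGroup.mk' X)) := by rw [h4]; trivial
      obtain ⟨l, hl, rfl⟩ := h5
      exact ⟨⟨l, hl⟩, rfl⟩
  let θ : PSU 4 F9 3 ≃* ρW.ker := (MulEquiv.ofBijective τ ⟨hτinj, hτsurj⟩).symm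
  let ρC : L →* AddMonoid.End C := res ρ C hinvC
  let η : PSU 4 F9 3 →* AddMonoid.End C := (ρC.comp ρW.ker.subtype).comp θ.toMonoidHom
  have hη : ∀ y, η y = 1 → y = 1 := by
    intro y hy
    have h3 : ∀ c ∈ C, ρ (θ y : L) c = c := by
      intro c hc'
      have h4 : η y ⟨c, hc'⟩ = (1 : AddMonoid.End C) ⟨c, hc'⟩ := by rw [hy]
      exact congrArg Subtype.val h4
    have h4 : (θ y : L) = 1 := by
      apply hinj
      rw [map_one]
      ext v
      obtain ⟨c, hc', w, hw, rfl⟩ := hdec v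
      rw [map_add, h3 c hc', (hρW _).mp (θ y).2 w hw]
      rfl
    have h5 : θ y = 1 := Subtype.ext h4
    exact (map_eq_one_iff θ θ.injective).mp h5
  obtain ⟨a, b, c, d, z, hz1, ha, hb, hc3, hd, hz, h01, h02, h03, h04, h05, h06, h07, h08, h09, h10⟩ := D1
  apply hz1
  apply hη
  refine D2 C (fun w => Subtype.ext (h2 w)) (lt_of_le_of_lt hbounds.1 (by norm_num)) (a := η a) (b := η b) (c := η c)
    (d := η d) (z := η z) ?_ ?_ ?_ ?_ ?_ ?_ ?_ ?_ ?_ ?_ ?_ ?_ ?_ ?_ ?_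
  · rw [← map_pow, ha, map_one]
  · rw [← map_pow, hb, map_one]
  · rw [← map_pow, hc3, map_one]
  · rw [← map_pow, hd, map_one]
  · rw [← map_pow, hz, map_one]
  · rw [← map_mul, h01, map_mul, map_mul]
  · rw [← map_mul, h02, map_mul, map_mul]
  · rw [← map_mul, h03, map_mul]
  · rw [← map_mul, h04, map_mul]
  · rw [← map_mul, h05, map_mul]
  · rw [← map_mul, h06, map_mul]
  · rw [← map_mul, h07, map_mul]
  · rw [← map_mul, h08, map_mul]
  · rw [← map_mul, h09, map_mul]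
  · rw [← map_mul, h10, map_mul]

/-- **piece D4** -/
theorem fpf (F9 : Type) [Field F9] [Fintype F9] (hF9 : Fintype.card F9 = 9) (hsimp : IsSimpleGroup (PSU 4 F9 3))
    (hcard : 3 ^ 6 ∣ Nat.card (PSU 4 F9 3)) {V : Type*} [AddCommGroup V] [Finite V]
    (h2 : ∀ v : V, v + v = 0) (hc : Nat.card V = 2 ^ 12) {L : Type*} [Group L] [Finite L] (ρ : L →* AddMonoid.End V)
    (hinj : Function.Injective ρ) (X : Subgroup L) [X.Normal] (hX : Nat.card X = 3) (hXc : X ≤ Subgroup.center L)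
    (hiso : Nonempty (L ⧸ X ≃* PSU 4 F9 3)) (x : L) (hx : x ∈ X) (hx1 : x ≠ 1) : ∀ v, ρ x v = v → v = 0 :=
  fpf_of F9 hF9 hsimp hcard (H97FaD1.exists_heis F9 hF9)
    (fun V _ _ h2 hc _ _ _ _ _ ha hb hc3 hd hz h1 h3 h4 h5 h6 h7 h8 h9 h10 h11 =>
      H97FaD2.heis h2 hc ha hb hc3 hd hz h1 h3 h4 h5 h6 h7 h8 h9 h10 h11)
    (fun W _ _ h2 hc P _ _ ρ hρ => H97FaD3.not_dvd h2 hc ρ hρ)
    h2 hc ρ hinj X hX hXc hiso x hx hx1

end Cfsg.Agent.Lib.H97FaD4
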