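import Cfsg.Agent.Lib.H97Fa0
import Cfsg.Agent.Lib.U43J

/-!
# S5440, piece F (helper97): orbits of `3·U₄(3)` on the isotropic vectors of `SU₆(2)`
-/

set_option autoImplicit false
set_option linter.unusedVariables false
set_option linter.unusedSimpArgs false

namespace Cfsg.Agent.Lib.H97FaF

open Matrix Cfsg Cfsg.Agent.Lib.K4 Cfsg.Agent.Lib.HermMat Cfsg.Agent.Lib.ClThreeTransU Cfsg.Agent.Lib.SU6K4
open Cfsg.Agent.Lib.U43 Cfsg.Agent.Lib.H97Fa

abbrev V6 := Fin 6 → K4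

/-- the isotropic nonzero vectors -/
def Iso (v : V6) : Prop := v ≠ 0 ∧ hermForm 6 K4 2 v v = 0

theorem norm_eq (x : K4) : x * x ^ 2 = if x = 0 then 0 else 1 := by revert x; decide

theorem herm_eq (v : V6) : hermForm 6 K4 2 v v = ∑ i, if v i = 0 then (0 : K4) else 1 := by
  rw [hermForm_def]
  exact Finset.sum_congr rfl fun i _ => norm_eq (v i)

/-- the support -/
def sup (v : V6) : Finset (Fin 6) := Finset.univ.filter fun i => v i ≠ 0

theorem mem_sup {v : V6} {i : Fin 6} : i ∈ sup v ↔ v i ≠ 0 := by simp [sup]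

theorem cast_zero : ∀ n : ℕ, n ≤ 6 → ((n : K4) = 0 ↔ Even n) := by
  intro n hn
  have h : ∀ n : Fin 7, ((n.1 : K4) = 0 ↔ Even n.1) := by decide
  exact h ⟨n, by omega⟩

theorem card_sup_le (v : V6) : (sup v).card ≤ 6 := by
  have := Finset.card_le_univ (sup v)
  simpa using this

theorem herm_iff (v : V6) : hermForm 6 K4 2 v v = 0 ↔ Even (sup v).card := by
  rw [← cast_zero _ (card_sup_le v), herm_eq, sup, Finset.card_filter, Nat.cast_sum]
  have : (∑ i, if v i = 0 then (0 : K4) else 1) = ∑ i : Fin 6, ((if v i ≠ 0 then 1 else 0 : ℕ) : K4) := by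
    refine Finset.sum_congr rfl fun i _ => ?_
    by_cases h : v i = 0 <;> simp [h]
  rw [this]

/-- exponents of a vector with a zero coordinate -/
theorem exists_diag {v : V6} {k0 : Fin 6} (h : v k0 = 0) : ∃ a : A0, ∀ k, v k = e (a.1 k) * (if v k = 0 then 0 else 1) := by
  have hf : ∀ k, ∃ c, v k ≠ 0 → e c = v k := fun k => by
    by_cases hk : v k = 0
    · exact ⟨0, fun h => absurd hk h⟩
    · obtain ⟨c, hc⟩ := e_surj (v k) hk; exact ⟨c, fun _ => hc⟩
  choose f hf using hf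
  refine ⟨⟨fun k => if k = k0 then - ∑ j ∈ Finset.univ.erase k0, f j else f k, ?_⟩, fun k => ?_⟩
  · rw [mem_A0, ← Finset.add_sum_erase _ _ (Finset.mem_univ k0), if_pos rfl]
    have : ∑ x ∈ Finset.univ.erase k0, (if x = k0 then - ∑ j ∈ Finset.univ.erase k0, f j else f x) = ∑ x ∈ Finset.univ.erase k0, f x :=
      Finset.sum_congr rfl fun x hx => by rw [if_neg (Finset.ne_of_mem_erase hx)]
    rw [this, neg_add_cancel]
  · by_cases hk : v k = 0
    · rw [if_pos hk, mul_zero, hk]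
    · rw [if_neg hk, mul_one]
      have hk0 : k ≠ k0 := fun h' => hk (h' ▸ h)
      change v k = e (if k = k0 then _ else f k)
      rw [if_neg hk0, hf k hk]

/-- the base vectors -/
def u2 : V6 := ![0, 0, 1, 0, 0, 1]
def w4 : V6 := ![1, 1, 0, 1, 1, 0]
def b6 (c : ZMod 3) : V6 := ![e c, 1, 1, 1, 1, 1]

theorem perm0 : ∀ i j : Fin 6, i ≠ j → (Equiv.swap (Equiv.swap 2 i 5) j * Equiv.swap 2 i) 2 = i ∧
    (Equiv.swap (Equiv.swap 2 i 5) j * Equiv.swap 2 i) 5 = j := by decide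

theorem exists_perm {i j : Fin 6} (h : i ≠ j) : ∃ σ : Pm, Equiv.Perm.sign σ = 1 ∧ σ 2 = i ∧ σ 5 = j := by
  obtain ⟨h1, h2⟩ := perm0 i j h
  set σ := Equiv.swap (Equiv.swap 2 i 5) j * Equiv.swap 2 i with hσ
  rcases Int.units_eq_one_or (Equiv.Perm.sign σ) with hs | hs
  · exact ⟨σ, hs, h1, h2⟩
  · refine ⟨σ * Equiv.swap 0 1, ?_, ?_, ?_⟩
    · rw [Equiv.Perm.sign_mul, hs, Equiv.Perm.sign_swap (by decide)]; rfl
    · rw [Equiv.Perm.mul_apply, show Equiv.swap (0 : Fin 6) 1 2 = 2 by decide, h1]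
    · rw [Equiv.Perm.mul_apply, show Equiv.swap (0 : Fin 6) 1 5 = 5 by decide, h2]

theorem u2_eq : ∀ k : Fin 6, u2 k = if k = 2 ∨ k = 5 then 1 else 0 := by decide
theorem w4_eq : ∀ k : Fin 6, w4 k = if k = 2 ∨ k = 5 then 0 else 1 := by decide

/-- the orbit relation -/
def Rl (K : Subgroup G) (v w : V6) : Prop := ∃ g ∈ K, mt g *ᵥ w = v

theorem mt_one : mt (1 : G) = 1 := rfl
theorem mt_mul (g h : G) : mt (g * h) = mt g * mt h := rfl

theorem Rl.refl (K : Subgroup G) (v : V6) : Rl K v v := ⟨1, K.one_mem, by rw [mt_one, Matrix.one_mulVec]⟩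
theorem Rl.trans {K : Subgroup G} {u v w : V6} (h : Rl K u v) (h' : Rl K v w) : Rl K u w := by
  obtain ⟨g, hg, rfl⟩ := h
  obtain ⟨k, hk, rfl⟩ := h'
  exact ⟨g * k, K.mul_mem hg hk, by rw [mt_mul, Matrix.mulVec_mulVec]⟩
theorem Rl.symm {K : Subgroup G} {u v : V6} (h : Rl K u v) : Rl K v u := by
  obtain ⟨g, hg, rfl⟩ := h
  refine ⟨g⁻¹, K.inv_mem hg, ?_⟩
  rw [Matrix.mulVec_mulVec, ← mt_mul, inv_mul_cancel, mt_one, Matrix.one_mulVec]

theorem rl_two {v : V6} (h : (sup v).card = 2) : Rl K0 v u2 := by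
  obtain ⟨i, j, hij, hs⟩ := Finset.card_eq_two.1 h
  obtain ⟨σ, hσ, h1, h2⟩ := exists_perm hij
  have hv : ∀ k, v k = 0 ↔ ¬ (k = i ∨ k = j) := fun k => by
    have : k ∈ sup v ↔ k = i ∨ k = j := by rw [hs]; simp
    rw [mem_sup] at this
    rw [← this, not_not]
  obtain ⟨k0, hk0⟩ : ∃ k0, v k0 = 0 := by
    by_contra hc
    push Not at hc
    have : sup v = Finset.univ := Finset.eq_univ_iff_forall.2 fun k => mem_sup.2 (hc k)
    rw [this] at h; simp at h
  obtain ⟨a, ha⟩ := exists_diag hk0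
  refine ⟨mo a σ, M0_le_K0 (mo_mem_M0.2 hσ), funext fun k => ?_⟩
  rw [mo_mulVec, ha k, u2_eq]
  congr 1
  have e1 : (σ⁻¹ k = 2 ∨ σ⁻¹ k = 5) ↔ (k = i ∨ k = j) := by
    rw [Equiv.Perm.inv_eq_iff_eq, Equiv.Perm.inv_eq_iff_eq, h1, h2]
  by_cases hk : k = i ∨ k = j
  · rw [if_pos (e1.2 hk), if_neg (fun h => (hv k).1 h hk)]
  · rw [if_neg (fun h => hk (e1.1 h)), if_pos ((hv k).2 hk)]

theorem rl_four {v : V6} (h : (sup v).card = 4) : Rl K0 v w4 := by
  have hc : (sup v)ᶜ.card = 2 := by rw [Finset.card_compl, h]; rfl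
  obtain ⟨i, j, hij, hs⟩ := Finset.card_eq_two.1 hc
  obtain ⟨σ, hσ, h1, h2⟩ := exists_perm hij
  have hv : ∀ k, v k = 0 ↔ (k = i ∨ k = j) := fun k => by
    have : k ∈ (sup v)ᶜ ↔ k = i ∨ k = j := by rw [hs]; simp
    rw [Finset.mem_compl, mem_sup, not_not] at this
    exact this
  obtain ⟨a, ha⟩ := exists_diag ((hv i).2 (Or.inl rfl))
  refine ⟨mo a σ, M0_le_K0 (mo_mem_M0.2 hσ), funext fun k => ?_⟩
  rw [mo_mulVec, ha k, w4_eq]
  congr 1
  have e1 : (σ⁻¹ k = 2 ∨ σ⁻¹ k = 5) ↔ (k = i ∨ k = j) := by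
    rw [Equiv.Perm.inv_eq_iff_eq, Equiv.Perm.inv_eq_iff_eq, h1, h2]
  by_cases hk : k = i ∨ k = j
  · rw [if_pos (e1.2 hk), if_pos ((hv k).2 hk)]
  · rw [if_neg (fun h => hk (e1.1 h)), if_neg (fun h => hk ((hv k).1 h))]

theorem b6_eq (c : ZMod 3) (k : Fin 6) : b6 c k = if k = 0 then e c else 1 := by
  fin_cases k <;> rfl

theorem rl_six {v : V6} (h : ∀ k, v k ≠ 0) : ∃ c, (∏ k, v k = e c) ∧ Rl K0 v (b6 c) := by
  choose f hf using fun k => e_surj (v k) (h k)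
  refine ⟨∑ k, f k, by rw [e_sum]; exact Finset.prod_congr rfl fun k _ => (hf k).symm, ?_⟩
  have hA : (fun k => f k - if k = 0 then ∑ k, f k else 0) ∈ A0 := by
    rw [mem_A0, Finset.sum_sub_distrib, Finset.sum_ite_eq' Finset.univ (0 : Fin 6) (fun _ => ∑ k, f k)]
    simp
  refine ⟨mo ⟨_, hA⟩ 1, M0_le_K0 (mo_mem_M0.2 (Equiv.Perm.sign_one)), funext fun k => ?_⟩
  rw [mo_mulVec, inv_one, Equiv.Perm.one_apply, b6_eq, ← hf k]
  change e (f k - if k = 0 then ∑ k, f k else 0) * _ = _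
  by_cases hk : k = 0
  · rw [if_pos hk, if_pos hk, ← e_add, sub_add_cancel]
  · rw [if_neg hk, if_neg hk, sub_zero, mul_one]

theorem Q23_u2 : ∀ k : Fin 6, (mt (Q 2 3) *ᵥ u2) k = (![1, om', om, 1, om, om'] : V6) k := by decide +kernel
theorem Q23_a : ∀ k : Fin 6, (mt (Q 2 3) *ᵥ ![0, 0, 1, 1, 1, om']) k = (![1, om', om, om', om', 1] : V6) k := by decide +kernel
theorem Q23_b : ∀ k : Fin 6, (mt (Q 2 3) *ᵥ ![0, 0, 1, 1, 1, om]) k = (![1, om', om, om, 1, om] : V6) k := by decide +kernel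

theorem prod_a : ∏ k, (![1, om', om, 1, om, om'] : V6) k = e 0 := by decide +kernel
theorem prod_b : ∏ k, (![1, om', om, om', om', 1] : V6) k = e 1 := by decide +kernel
theorem prod_c : ∏ k, (![1, om', om, om, 1, om] : V6) k = e 2 := by decide +kernel

theorem b6_cases (c : ZMod 3) : Rl K0 (b6 c) u2 ∨ Rl K0 (b6 c) w4 := by
  have key : ∀ (v : V6), (∀ k, v k ≠ 0) → ∏ k, v k = e c → Rl K0 v (b6 c) := fun v hv hp => by
    obtain ⟨d, hd, h⟩ := rl_six hv
    rw [hp] at hd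
    rw [e_inj _ _ hd]; exact h
  have hc : ∀ c : ZMod 3, c = 0 ∨ c = 1 ∨ c = 2 := by decide
  rcases hc c with rfl | rfl | rfl
  · left
    have h1 : Rl K0 (![1, om', om, 1, om, om'] : V6) u2 := ⟨Q 2 3, Q23_mem, funext Q23_u2⟩
    exact (key _ (by decide) prod_a).symm.trans h1
  · right
    have h1 : Rl K0 (![1, om', om, om', om', 1] : V6) (![0, 0, 1, 1, 1, om'] : V6) := ⟨Q 2 3, Q23_mem, funext Q23_a⟩
    exact ((key _ (by decide) prod_b).symm.trans h1).trans (rl_four (by decide +kernel))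
  · right
    have h1 : Rl K0 (![1, om', om, om, 1, om] : V6) (![0, 0, 1, 1, 1, om] : V6) := ⟨Q 2 3, Q23_mem, funext Q23_b⟩
    exact ((key _ (by decide) prod_c).symm.trans h1).trans (rl_four (by decide +kernel))

/-- at most two orbits -/
theorem cover {v : V6} (h : Iso v) : Rl K0 v u2 ∨ Rl K0 v w4 := by
  have h1 := (herm_iff v).1 h.2
  have h2 := card_sup_le v
  have h3 : (sup v).card ≠ 0 := fun hc => h.1 (funext fun k => by
    by_contra hk
    have : k ∈ sup v := mem_sup.2 hk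
    rw [Finset.card_eq_zero.1 hc] at this
    exact absurd this (Finset.notMem_empty _))
  have h4 : (sup v).card = 2 ∨ (sup v).card = 4 ∨ (sup v).card = 6 := by
    obtain ⟨m, hm⟩ := h1; omega
  rcases h4 with h4 | h4 | h4
  · exact Or.inl (rl_two h4)
  · exact Or.inr (rl_four h4)
  · have h5 : sup v = Finset.univ := by
      rw [← Finset.card_eq_iff_eq_univ, h4]; rfl
    obtain ⟨c, -, hc⟩ := rl_six (fun k => mem_sup.1 (h5 ▸ Finset.mem_univ k))
    rcases b6_cases c with h | h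
    · exact Or.inl (hc.trans h)
    · exact Or.inr (hc.trans h)

/-- sign character -/
def sg (x : K4) : ℤ := if x = 0 then 1 else -1

theorem sum_sg : ∑ x : K4, sg x = -2 := by decide

theorem prod_sg (v : V6) : ∏ i, sg (v i) = (-1) ^ (sup v).card := by
  have : ∀ i, sg (v i) = if v i ≠ 0 then -1 else 1 := fun i => by
    unfold sg
    by_cases h : v i = 0 <;> simp [h]
  rw [Finset.prod_congr rfl fun i _ => this i, sup, Finset.prod_ite, Finset.prod_const, Finset.prod_const_one, mul_one]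

theorem card_even : (Finset.univ.filter fun v : V6 => Even (sup v).card).card = 2080 := by
  have h1 : ∑ v : V6, ∏ i, sg (v i) = 64 := by
    have h := Finset.prod_univ_sum (fun _ : Fin 6 => (Finset.univ : Finset K4)) (fun _ x => sg x)
    rw [Fintype.piFinset_univ] at h
    rw [← h]
    simp only [sum_sg]
    simp
  have h2 : ∑ v : V6, ∏ i, sg (v i) = ∑ v : V6, (if Even (sup v).card then (1 : ℤ) else -1) := by
    refine Finset.sum_congr rfl fun v _ => ?_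
    rw [prod_sg]
    by_cases h : Even (sup v).card
    · rw [if_pos h, h.neg_one_pow]
    · rw [if_neg h, (Nat.not_even_iff_odd.1 h).neg_one_pow]
  rw [h2, Finset.sum_ite, Finset.sum_const, Finset.sum_const] at h1
  have h3 := Finset.card_filter_add_card_filter_not (s := (Finset.univ : Finset V6)) (fun v => Even (sup v).card)
  have h4 : (Finset.univ : Finset V6).card = 4096 := by
    rw [Finset.card_univ, Fintype.card_pi]
    simp only [Finset.prod_const, Finset.card_univ, Fintype.card_fin]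
    rw [show Fintype.card K4 = 4 from rfl]
    norm_num
  rw [h4] at h3
  rw [nsmul_eq_mul, nsmul_eq_mul] at h1
  omega

theorem ncard_Iso : Set.ncard {v : V6 | Iso v} = 2079 := by
  have h1 : {v : V6 | Iso v} = ↑((Finset.univ.filter fun v : V6 => Even (sup v).card).erase 0) := by
    ext v
    simp only [Set.mem_setOf_eq, Finset.coe_erase, Finset.coe_filter, Finset.mem_univ, true_and, Set.mem_diff,
      Set.mem_singleton_iff]
    rw [Iso, herm_iff]; tauto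
  rw [h1, Set.ncard_coe_finset, Finset.card_erase_of_mem, card_even]
  rw [Finset.mem_filter]
  refine ⟨Finset.mem_univ _, ?_⟩
  have : sup (0 : V6) = ∅ := by
    ext k; rw [mem_sup]; simp
  rw [this]; simp

/-! ## transport to arbitrary subgroups -/

theorem Iso.map {v : V6} (h : Iso v) (g : G) : Iso (mt g *ᵥ v) := by
  refine ⟨fun h0 => h.1 ?_, ?_⟩
  · have : mt g⁻¹ *ᵥ (mt g *ᵥ v) = v := by rw [Matrix.mulVec_mulVec, ← mt_mul, inv_mul_cancel, mt_one, Matrix.one_mulVec]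
    rw [← this, h0, Matrix.mulVec_zero]
  · rw [← h.2]; exact g.2 v v

theorem DD_vec (u : Fin 6 → ZMod 3) (v : V6) : DD (-u) *ᵥ (DD u *ᵥ v) = v := by
  rw [Matrix.mulVec_mulVec, DD_neg_mul, Matrix.one_mulVec]

theorem DD_vec' (u : Fin 6 → ZMod 3) (v : V6) : DD u *ᵥ (DD (-u) *ᵥ v) = v := by
  rw [Matrix.mulVec_mulVec, DD_mul_neg, Matrix.one_mulVec]

theorem Iso.DD {v : V6} (h : Iso v) (u : Fin 6 → ZMod 3) : Iso (U43.DD u *ᵥ v) := by
  refine ⟨fun h0 => h.1 ?_, ?_⟩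
  · rw [← DD_vec u v, h0, Matrix.mulVec_zero]
  · rw [DD_herm]; exact h.2

theorem iso_u2 : Iso u2 := ⟨by decide, by decide +kernel⟩
theorem iso_w4 : Iso w4 := ⟨by decide, by decide +kernel⟩

theorem card_psu (F9 : Type) [Field F9] [Fintype F9] (hF9 : Fintype.card F9 = 9) : Nat.card (PSU 4 F9 3) = 3265920 := by
  have h := ClUnitary.card_PSU (F := F9) (n := 4) (q := 3) (by rw [hF9]; norm_num) (by norm_num)
  simp only [Finset.prod_range_succ, Finset.prod_range_zero] at h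
  norm_num at h
  have h2 : ¬ Even 1 := by decide
  have h4 : ¬ Even 3 := by decide
  omega

theorem card_good {F9 : Type} [Field F9] [Fintype F9] (hF9 : Fintype.card F9 = 9) {R : Type*} [Group R] [Finite R] (h : Good F9 R) :
    Nat.card R = 9797760 := by
  obtain ⟨h1, ⟨e⟩⟩ := h
  have h2 := Subgroup.card_eq_card_quotient_mul_card_subgroup (Subgroup.center R)
  rw [h1, Nat.card_congr e.toEquiv, card_psu F9 hF9] at h2
  exact h2

/-- piece F -/
theorem two_orbits {F9 : Type} [Field F9] [Fintype F9] (hF9 : Fintype.card F9 = 9) (R : Subgroup G) (h : Good F9 R) :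
    ∃ s t : V6, Iso s ∧ Iso t ∧ (∀ v, Iso v → Rl R v s ∨ Rl R v t) ∧ Nat.card R = 9797760 ∧
      ∃ (g : G) (u : Fin 6 → ZMod 3), s = mt g⁻¹ *ᵥ (DD u *ᵥ u2) ∧ t = mt g⁻¹ *ᵥ (DD u *ᵥ w4) ∧
        R.map (MulAut.conj g).toMonoidHom = K0.map (cj u) := by
  obtain ⟨g, l, hg⟩ := classify hF9 h
  have key : ∀ v w : V6, Rl K0 (DD (-uu l) *ᵥ (mt g *ᵥ v)) w → Rl R v (mt g⁻¹ *ᵥ (DD (uu l) *ᵥ w)) := by
    rintro v w ⟨y, hy, hyw⟩
    have h1 : cj (uu l) y ∈ R.map (MulAut.conj g).toMonoidHom := by rw [hg]; exact ⟨y, hy, rfl⟩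
    obtain ⟨x, hx, hxy⟩ := h1
    refine ⟨x, hx, ?_⟩
    have h2 : x = g⁻¹ * cj (uu l) y * g := by
      rw [← hxy]
      change x = g⁻¹ * (g * x * g⁻¹) * g
      group
    have h3 : x * g⁻¹ = g⁻¹ * cj (uu l) y := by rw [h2]; group
    rw [Matrix.mulVec_mulVec, ← mt_mul, h3, mt_mul, ← Matrix.mulVec_mulVec, mt_cj, ← Matrix.mulVec_mulVec,
      ← Matrix.mulVec_mulVec, DD_vec, hyw, DD_vec', Matrix.mulVec_mulVec, ← mt_mul, inv_mul_cancel, mt_one, Matrix.one_mulVec]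
  refine ⟨mt g⁻¹ *ᵥ (DD (uu l) *ᵥ u2), mt g⁻¹ *ᵥ (DD (uu l) *ᵥ w4), (iso_u2.DD _).map _, (iso_w4.DD _).map _, ?_,
    card_good hF9 h, g, uu l, rfl, rfl, hg⟩
  intro v hv
  rcases cover ((hv.map g).DD (-uu l)) with h1 | h1
  · exact Or.inl (key _ _ h1)
  · exact Or.inr (key _ _ h1)

/-! ## the Heisenberg pattern -/

def ha0 : A0 := ⟨![0, 1, 2, 0, 0, 0], by rw [mem_A0]; decide⟩
def hc0 : A0 := ⟨![0, 0, 0, 0, 1, 2], by rw [mem_A0]; decide⟩
def hz0 : A0 := ⟨![1, 1, 1, 0, 0, 0], by rw [mem_A0]; decide⟩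
def hz1 : A0 := ⟨![0, 0, 0, 2, 2, 2], by rw [mem_A0]; decide⟩

end Cfsg.Agent.Lib.H97FaF
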