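import Cfsg.Agent.Lib.H97Fa0
import Cfsg.Agent.Lib.H97FaF

/-!
# S5440, group theory of the assembly (helper97)
-/

set_option autoImplicit false
set_option linter.unusedVariables false
set_option linter.unusedSimpArgs false

namespace Cfsg.Agent.Lib.H97FaG

open Cfsg Cfsg.Agent.Lib.K4 Cfsg.Agent.Lib.U43 Cfsg.Agent.Lib.H97Fa Cfsg.Agent.Lib.H97FaF Subgroup

variable {F9 : Type} [Field F9] [Fintype F9] (hF9 : Fintype.card F9 = 9)

include hF9 in
theorem simple_psu : IsSimpleGroup (PSU 4 F9 3) :=
  S0283.result (F := F9) (q := 3) (by rw [hF9]; norm_num) 4 (by norm_num) (by norm_num)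

/-- the situation: a normal subgroup of order three with quotient `PSU₄(3)` -/
theorem X_central {L : Type*} [Group L] [Finite L] (X : Subgroup L) [X.Normal] (hX : Nat.card X = 3)
    (hsimp : IsSimpleGroup (L ⧸ X)) (hcard : Nat.card (L ⧸ X) = 3265920) : X ≤ center L := by
  have hcy : IsCyclic X := isCyclic_of_prime_card hX (p := 3)
  -- the centralizer
  set C : Subgroup L := centralizer (X : Set L) with hC
  have hCn : C.Normal := inferInstance
  have hXC : X ≤ C := by
    intro x hx
    rw [hC, mem_centralizer_iff]
    intro y hy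
    obtain ⟨g, hg⟩ := hcy.exists_generator
    obtain ⟨i, hi⟩ := hg ⟨x, hx⟩
    obtain ⟨j, hj⟩ := hg ⟨y, hy⟩
    have e1 : x = ((g ^ i : X) : L) := (congrArg Subtype.val hi).symm
    have e2 : y = ((g ^ j : X) : L) := (congrArg Subtype.val hj).symm
    rw [e1, e2, ← Subgroup.coe_mul, ← Subgroup.coe_mul, ← zpow_add, ← zpow_add, add_comm]
  have hn : (C.map (QuotientGroup.mk' X)).Normal := hCn.map _ (QuotientGroup.mk'_surjective X)
  rcases hn.eq_bot_or_eq_top with h | h
  · exfalso
    have hCX : C = X := by
      apply le_antisymm _ hXC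
      intro c hc
      have : QuotientGroup.mk' X c ∈ C.map (QuotientGroup.mk' X) := ⟨c, hc, rfl⟩
      rw [h, mem_bot] at this
      exact (QuotientGroup.eq_one_iff c).1 this
    -- L / X embeds in Aut X
    have h1 : Nat.card (L ⧸ C) ≤ Nat.card (MulAut X) := by
      have hker : (MulAut.conjNormal (H := X)).ker = C := by
        ext g
        rw [MonoidHom.mem_ker, hC, mem_centralizer_iff]
        constructor
        · intro hg x hx
          have := congrArg (fun f : MulAut X => ((f ⟨x, hx⟩ : X) : L)) hg
          simp only [MulAut.conjNormal_apply, MulAut.one_apply] at this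
          exact (mul_inv_eq_iff_eq_mul.1 this).symm
        · intro hg
          ext x
          simp only [MulAut.conjNormal_apply, MulAut.one_apply]
          rw [← hg x x.2]; group
      rw [← hker, Nat.card_congr (QuotientGroup.quotientKerEquivRange (MulAut.conjNormal (H := X))).toEquiv]
      exact Nat.card_le_card_of_injective _ Subtype.val_injective
    have h2 : Nat.card (MulAut X) ≤ 2 := by
      rw [IsCyclic.card_mulAut, hX]
      decide
    rw [hCX, hcard] at h1
    omega
  · intro x hx
    have hCt : C = ⊤ := by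
      rw [eq_top_iff]
      intro g _
      have : QuotientGroup.mk' X g ∈ C.map (QuotientGroup.mk' X) := by rw [h]; trivial
      obtain ⟨c, hc, hcg⟩ := this
      have h3 : c⁻¹ * g ∈ X := QuotientGroup.eq.1 hcg
      have : g = c * (c⁻¹ * g) := by group
      rw [this]
      exact C.mul_mem hc (hXC h3)
    rw [mem_center_iff]
    intro g
    have : g ∈ C := by rw [hCt]; trivial
    exact ((mem_centralizer_iff.1 this) x hx).symm

theorem center_eq {L : Type*} [Group L] [Finite L] (X : Subgroup L) [X.Normal] (hXc : X ≤ center L)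
    (hsimp : IsSimpleGroup (L ⧸ X)) (hcard : Nat.card (L ⧸ X) = 3265920) : center L = X := by
  apply le_antisymm _ hXc
  have hn : ((center L).map (QuotientGroup.mk' X)).Normal :=
    Normal.map inferInstance _ (QuotientGroup.mk'_surjective X)
  rcases hn.eq_bot_or_eq_top with h | h
  · intro c hc
    have : QuotientGroup.mk' X c ∈ (center L).map (QuotientGroup.mk' X) := ⟨c, hc, rfl⟩
    rw [h, mem_bot] at this
    exact (QuotientGroup.eq_one_iff c).1 this
  · exfalso
    have hcomm : ∀ a b : L ⧸ X, a * b = b * a := by
      intro a b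
      have ha : a ∈ (center L).map (QuotientGroup.mk' X) := by rw [h]; trivial
      obtain ⟨c, hc, rfl⟩ := ha
      induction b using QuotientGroup.induction_on with
      | H g =>
        change QuotientGroup.mk' X c * QuotientGroup.mk' X g = QuotientGroup.mk' X g * QuotientGroup.mk' X c
        rw [← map_mul, ← map_mul, (mem_center_iff.1 hc g)]
    let _ : CommGroup (L ⧸ X) := { (inferInstance : Group (L ⧸ X)) with mul_comm := hcomm }
    have hp := IsSimpleGroup.prime_card (α := L ⧸ X)
    rw [hcard] at hp
    exact absurd hp (by norm_num)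

/-- homomorphisms to the units of the field with four elements -/
theorem hom_trivial {M : Type*} [Group M] [Finite M] (N' : Subgroup M) [N'.Normal] (hsimp : IsSimpleGroup (M ⧸ N'))
    (hcard : Nat.card (M ⧸ N') = 3265920) (f : M →* K4ˣ) (hf : ∀ x ∈ N', f x = 1) : f = 1 := by
  set g := QuotientGroup.lift N' f hf with hg
  have hk : g.ker.Normal := inferInstance
  rcases hk.eq_bot_or_eq_top with h | h
  · exfalso
    have hinj : Function.Injective g := (MonoidHom.ker_eq_bot_iff g).1 h
    have h1 := Nat.card_le_card_of_injective g hinj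
    rw [hcard, Nat.card_eq_fintype_card] at h1
    have h2 : Fintype.card K4ˣ = 3 := by
      rw [Fintype.card_units]; rfl
    omega
  · ext m
    have : (m : M ⧸ N') ∈ g.ker := by rw [h]; trivial
    rw [MonoidHom.mem_ker] at this
    exact congrArg Units.val (this : f m = 1)

/-! ## the two orbits are not fused -/

/-- the orbit as a set -/
def Ob (R : Subgroup G) (s : V6) : Set V6 := {v | Rl R v s}

theorem card_Ob_dvd (R : Subgroup G) (s : V6) : (Ob R s).ncard ∣ Nat.card R := by
  let _ : MulAction R V6 :=
    { smul := fun g v => Matrix.mulVec (ClThreeTransU.mt (g : G)) v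
      one_smul := fun v => Matrix.one_mulVec v
      mul_smul := fun g h v => by
        change Matrix.mulVec (ClThreeTransU.mt ((g * h : R) : G)) v = Matrix.mulVec (ClThreeTransU.mt (g : G)) (Matrix.mulVec (ClThreeTransU.mt (h : G)) v)
        rw [Matrix.mulVec_mulVec]; rfl }
  have h1 : Ob R s = MulAction.orbit R s := by
    ext v
    constructor
    · rintro ⟨g, hg, rfl⟩; exact ⟨⟨g, hg⟩, rfl⟩
    · rintro ⟨⟨g, hg⟩, rfl⟩; exact ⟨g, hg, rfl⟩
  rw [h1]
  have h2 : (MulAction.orbit R s).ncard = (MulAction.stabilizer R s).index := by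
    rw [← Nat.card_coe_set_eq]
    exact Nat.card_congr (MulAction.orbitEquivQuotientStabilizer R s)
  rw [h2]
  exact Subgroup.index_dvd_card _

theorem not_conj {R : Subgroup G} {s t : V6} (hs : Iso s) (ht : Iso t) (hcov : ∀ v, Iso v → Rl R v s ∨ Rl R v t)
    (hcard : Nat.card R = 9797760) (τ : V6 ≃ V6) (h1 : ∀ v w, Rl R v w → Rl R (τ v) (τ w))
    (h2 : ∀ v w, Rl R (τ v) (τ w) → Rl R v w) (hst : τ s = t) : False := by
  have hI : {v : V6 | Iso v} = Ob R s ∪ Ob R t := by
    ext v
    constructor
    · intro hv; exact hcov v hv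
    · rintro (⟨g, -, rfl⟩ | ⟨g, -, rfl⟩)
      · exact hs.map g
      · exact ht.map g
  have him : τ '' (Ob R s) = Ob R t := by
    ext v
    constructor
    · rintro ⟨w, hw, rfl⟩
      have := h1 _ _ hw
      rw [hst] at this
      exact this
    · intro hv
      refine ⟨τ.symm v, h2 _ _ ?_, τ.apply_symm_apply v⟩
      rw [τ.apply_symm_apply, hst]; exact hv
  have hc : (Ob R t).ncard = (Ob R s).ncard := by rw [← him, Set.ncard_image_of_injective _ τ.injective]
  by_cases hd : Rl R s t
  · have he : Ob R s = Ob R t := by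
      ext v
      exact ⟨fun h => h.trans hd, fun h => h.trans hd.symm⟩
    rw [he, Set.union_self] at hI
    have h3 := card_Ob_dvd R t
    rw [← hI, ncard_Iso, hcard] at h3
    revert h3; decide
  · have hdis : Disjoint (Ob R s) (Ob R t) := by
      rw [Set.disjoint_left]
      intro v hv hv'
      exact hd ((Rl.symm hv).trans hv')
    have h3 := Set.ncard_union_eq hdis (Set.toFinite _) (Set.toFinite _)
    rw [← hI, ncard_Iso, hc] at h3
    omega

end Cfsg.Agent.Lib.H97FaG
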