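import Cfsg.Agent.Lib.H97FaA
import Cfsg.Agent.Lib.H97FaG
import Cfsg.Agent.Lib.LargeExtra7

/-!
# S5440, orbits on involutions (helper97)
-/

set_option autoImplicit false
set_option linter.unusedVariables false
set_option linter.unusedSimpArgs false

universe u

namespace Cfsg.Agent.Lib.H97FaI

open Matrix Cfsg Cfsg.Agent.Lib.K4 Cfsg.Agent.Lib.HermMat Cfsg.Agent.Lib.ClThreeTransU Cfsg.Agent.Lib.SU6K4
open Cfsg.Agent.Lib.U43 Cfsg.Agent.Lib.H97Fa Cfsg.Agent.Lib.H97FaF Cfsg.Agent.Lib.H97FaG Cfsg.Agent.Lib.LargeExtra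

/-- everything we know -/
structure Dat {H : Type u} [Group H] (ζ : H) (Q : Subgroup H) {V : Type u} [AddCommGroup V] (q : V → ZMod 2) (b : V → V → ZMod 2)
    (ρ : H →* AddMonoid.End V) (π : Q → V) (M : Subgroup H) (Φ : V6 ≃+ V) (R : M →* G) : Prop where
  ex : ExData Q ζ
  qs : QS q b
  qinv : ∀ g v, q (ρ g v) = q v
  ker : ∀ g, ρ g = 1 ↔ g ∈ Q
  surj : Function.Surjective π
  eqv : ∀ r s : Q, π r = π s ↔ ((r : H) = s ∨ (r : H) = ζ * s)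
  mul : ∀ r s, π (r * s) = π r + π s
  qπ : ∀ r : Q, q (π r) = 0 ↔ (r : H) * r = 1
  act : ∀ (g : H) (r s : Q), (s : H) = g * r * g⁻¹ → ρ g (π r) = π s
  nM : M.Normal
  QM : Q ≤ M
  idx : M.index = 2
  qΦ : ∀ a, q (Φ a) = 0 ↔ hermForm 6 K4 2 a a = 0
  rep : ∀ m a, Φ (mt (R m) *ᵥ a) = ρ m (Φ a)
  good : ∃ (F9 : Type) (_ : Field F9) (_ : Fintype F9), Fintype.card F9 = 9 ∧ Good F9 R.range
  kerR : ∀ m : M, R m = 1 ↔ (m : H) ∈ Q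

variable {H : Type u} [Group H] {ζ : H} {Q : Subgroup H} {V : Type u} [AddCommGroup V] {q : V → ZMod 2} {b : V → V → ZMod 2}
    {ρ : H →* AddMonoid.End V} {π : Q → V} {M : Subgroup H} {Φ : V6 ≃+ V} {R : M →* G}

theorem Dat.rl (D : Dat ζ Q q b ρ π M Φ R) {v w : V6} : Rl R.range v w ↔ ∃ m : M, ρ m (Φ w) = Φ v := by
  constructor
  · rintro ⟨_, ⟨m, rfl⟩, rfl⟩; exact ⟨m, (D.rep m w).symm⟩
  · rintro ⟨m, hm⟩
    refine ⟨R m, ⟨m, rfl⟩, Φ.injective ?_⟩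
    rw [D.rep, hm]

/-- the coordinates of an element of `Q` -/
noncomputable def co (π : Q → V) (Φ : V6 ≃+ V) (r : Q) : V6 := Φ.symm (π r)

theorem Dat.π_one (D : Dat ζ Q q b ρ π M Φ R) : π 1 = 0 := by
  have := D.mul 1 1
  rw [mul_one] at this
  exact left_eq_add.1 this

theorem Dat.iso (D : Dat ζ Q q b ρ π M Φ R) (r : Q) : Iso (co π Φ r) ↔ orderOf (r : H) = 2 ∧ (r : H) ≠ ζ := by
  have h0 : co π Φ r = 0 ↔ ((r : H) = 1 ∨ (r : H) = ζ) := by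
    unfold co
    rw [EmbeddingLike.map_eq_zero_iff, ← D.π_one, D.eqv, Subgroup.coe_one, mul_one]
  have h1 : hermForm 6 K4 2 (co π Φ r) (co π Φ r) = 0 ↔ (r : H) * r = 1 := by
    rw [← D.qΦ, co, Φ.apply_symm_apply, D.qπ]
  unfold Iso
  rw [Ne, h0, h1, orderOf_eq_prime_iff, pow_two]
  tauto

/-- conjugation by elements of `H` -/
theorem Dat.conj_iff (D : Dat ζ Q q b ρ π M Φ R) [hn : Q.Normal] (h : H) (r s : Q) (hr : (r : H) ≠ 1) (hrz : (r : H) ≠ ζ) :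
    ρ h (π r) = π s → ∃ k ∈ Q, (h * k) * r * (h * k)⁻¹ = s := by
  intro hs
  have h1 := D.act h r ⟨h * r * h⁻¹, hn.conj_mem _ r.2 h⟩ rfl
  rw [hs, D.eqv] at h1
  rcases h1 with h1 | h1
  · exact ⟨1, Q.one_mem, by rw [mul_one]; exact h1.symm⟩
  · obtain ⟨k, hk, hkr⟩ := D.ex.exists_conj r.2 hr hrz
    refine ⟨k, hk, ?_⟩
    have h2 : h * ζ = ζ * h := by
      have h3 := D.act h ⟨ζ, D.ex.mem⟩ ⟨h * ζ * h⁻¹, hn.conj_mem _ D.ex.mem h⟩ rfl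
      have h4 : π ⟨ζ, D.ex.mem⟩ = 0 := by
        rw [← D.π_one, D.eqv]; right; rw [Subgroup.coe_one, mul_one]
      rw [h4, map_zero, ← D.π_one, eq_comm, D.eqv] at h3
      rcases h3 with h3 | h3
      · exfalso
        rw [Subgroup.coe_one] at h3
        apply D.ex.ne
        have : h * ζ * h⁻¹ = 1 := h3
        have h5 : ζ = h⁻¹ * (h * ζ * h⁻¹) * h := by group
        rw [h5, this]; group
      · rw [Subgroup.coe_one, mul_one] at h3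
        have : h * ζ * h⁻¹ = ζ := h3
        exact mul_inv_eq_iff_eq_mul.1 this
    calc h * k * r * (h * k)⁻¹ = h * (k * r * k⁻¹) * h⁻¹ := by group
      _ = h * (ζ * r) * h⁻¹ := by rw [hkr]
      _ = (h * ζ) * r * h⁻¹ := by group
      _ = ζ * (h * r * h⁻¹) := by rw [h2]; group
      _ = s := h1.symm

/-- the permutation of the vectors induced by an element -/
noncomputable def τ (ρ : H →* AddMonoid.End V) (Φ : V6 ≃+ V) (h : H) : V6 ≃ V6 where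
  toFun v := Φ.symm (ρ h (Φ v))
  invFun v := Φ.symm (ρ h⁻¹ (Φ v))
  left_inv v := by
    have : ρ h⁻¹ (ρ h (Φ v)) = Φ v := by
      have h1 : ρ (h⁻¹ * h) (Φ v) = ρ h⁻¹ (ρ h (Φ v)) := by rw [map_mul]; rfl
      rw [← h1, inv_mul_cancel, map_one]; rfl
    simp only [AddEquiv.apply_symm_apply, this, AddEquiv.symm_apply_apply]
  right_inv v := by
    have : ρ h (ρ h⁻¹ (Φ v)) = Φ v := by
      have h1 : ρ (h * h⁻¹) (Φ v) = ρ h (ρ h⁻¹ (Φ v)) := by rw [map_mul]; rfl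
      rw [← h1, mul_inv_cancel, map_one]; rfl
    simp only [AddEquiv.apply_symm_apply, this, AddEquiv.symm_apply_apply]

theorem Φ_τ (h : H) (v : V6) : Φ (τ ρ Φ h v) = ρ h (Φ v) := Φ.apply_symm_apply _

theorem Dat.τ_rl (D : Dat ζ Q q b ρ π M Φ R) (h : H) {v w : V6} (hvw : Rl R.range v w) : Rl R.range (τ ρ Φ h v) (τ ρ Φ h w) := by
  rw [D.rl] at hvw ⊢
  obtain ⟨m, hm⟩ := hvw
  have hn := D.nM
  refine ⟨⟨h * m * h⁻¹, hn.conj_mem _ m.2 h⟩, ?_⟩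
  rw [Φ_τ, Φ_τ, ← hm]
  have h1 : ρ (h * m * h⁻¹) (ρ h (Φ w)) = ρ (h * m * h⁻¹ * h) (Φ w) := by rw [map_mul ρ (h * m * h⁻¹) h]; rfl
  have h2 : ρ h (ρ m (Φ w)) = ρ (h * m) (Φ w) := by rw [map_mul ρ h m]; rfl
  change ρ (h * m * h⁻¹) (ρ h (Φ w)) = _
  rw [h1, h2, inv_mul_cancel_right]

theorem Dat.τ_rl' (D : Dat ζ Q q b ρ π M Φ R) (h : H) {v w : V6} (hvw : Rl R.range (τ ρ Φ h v) (τ ρ Φ h w)) : Rl R.range v w := by
  have h1 := D.τ_rl h⁻¹ hvw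
  have h2 : ∀ v, τ ρ Φ h⁻¹ (τ ρ Φ h v) = v := fun v => (τ ρ Φ h).symm_apply_apply v
  rwa [h2, h2] at h1

/-- two orbits -/
theorem Dat.main (D : Dat ζ Q q b ρ π M Φ R) [hn : Q.Normal] : ∃ s t : H, s ∈ Q ∧ t ∈ Q ∧ orderOf s = 2 ∧ orderOf t = 2 ∧
    s ≠ ζ ∧ t ≠ ζ ∧ (¬ ∃ h : H, h * s * h⁻¹ = t) ∧ ∀ x : H, x ∈ Q → orderOf x = 2 → x ≠ ζ →
      (∃ h : H, h * s * h⁻¹ = x) ∨ ∃ h : H, h * t * h⁻¹ = x := by
  obtain ⟨F9, _, _, hF9, hg⟩ := D.good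
  obtain ⟨s, t, hs, ht, hcov, hcard, -⟩ := two_orbits hF9 R.range hg
  obtain ⟨r, hr⟩ := D.surj (Φ s)
  obtain ⟨k, hk⟩ := D.surj (Φ t)
  have hrs : co π Φ r = s := by rw [co, hr, Φ.symm_apply_apply]
  have hkt : co π Φ k = t := by rw [co, hk, Φ.symm_apply_apply]
  have hr2 := (D.iso r).1 (hrs ▸ hs)
  have hk2 := (D.iso k).1 (hkt ▸ ht)
  have ne1 : ∀ {y : H}, orderOf y = 2 → y ≠ 1 := fun h e => by rw [e, orderOf_one] at h; omega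
  refine ⟨r, k, r.2, k.2, hr2.1, hk2.1, hr2.2, hk2.2, ?_, ?_⟩
  · rintro ⟨h, hh⟩
    have h1 := D.act h r k hh.symm
    have h2 : τ ρ Φ h s = t := by
      apply Φ.injective
      rw [Φ_τ, ← hr, h1, hk]
    exact not_conj hs ht hcov hcard (τ ρ Φ h) (fun v w => D.τ_rl h) (fun v w => D.τ_rl' h) h2
  · intro x hx hx2 hxz
    have hi := (D.iso ⟨x, hx⟩).2 ⟨hx2, hxz⟩
    have h1 : Φ (co π Φ ⟨x, hx⟩) = π ⟨x, hx⟩ := Φ.apply_symm_apply _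
    rcases hcov _ hi with h | h
    · left
      obtain ⟨m, hm⟩ := D.rl.1 h
      rw [h1, ← hr] at hm
      obtain ⟨j, hj, hj2⟩ := D.conj_iff m r ⟨x, hx⟩ (ne1 hr2.1) hr2.2 hm
      exact ⟨m * j, hj2⟩
    · right
      obtain ⟨m, hm⟩ := D.rl.1 h
      rw [h1, ← hk] at hm
      obtain ⟨j, hj, hj2⟩ := D.conj_iff m k ⟨x, hx⟩ (ne1 hk2.1) hk2.2 hm
      exact ⟨m * j, hj2⟩

end Cfsg.Agent.Lib.H97FaI
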