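import Cfsg.Agent.Lib.H97FaA
import Cfsg.Agent.Lib.H97FaB
import Cfsg.Agent.Lib.H97FaC
import Cfsg.Agent.Lib.H97FaI
import Cfsg.Agent.Lib.LargeExtra7
import Cfsg.Agent.Lib.H97FaD4

/-!
# S5440, assembly (helper97)
-/

set_option autoImplicit false
set_option linter.unusedVariables false
set_option linter.unusedSimpArgs false

universe u

namespace Cfsg.Agent.Lib.H97FaH

open Matrix Cfsg Cfsg.Agent.Lib.K4 Cfsg.Agent.Lib.HermMat Cfsg.Agent.Lib.ClThreeTransU Cfsg.Agent.Lib.SU6K4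
open Cfsg.Agent.Lib.U43 Cfsg.Agent.Lib.H97Fa Cfsg.Agent.Lib.H97FaF Cfsg.Agent.Lib.H97FaG Cfsg.Agent.Lib.H97FaI Cfsg.Agent.Lib.LargeExtra

theorem exists_dat {H : Type u} [Group H] [Finite H] (ζ : H) (Q : Subgroup H) [hQn : Q.Normal] (hE : ExData Q ζ)
    (hcent : ∀ g : H, (∀ q ∈ Q, q * g = g * q) → g = 1 ∨ g = ζ) (hcard : Nat.card Q = 2 ^ 13)
    (N M : Subgroup H) [hN : N.Normal] [hM : M.Normal] (hQN : Q ≤ N) (hNM : N ≤ M) (hcN : Nat.card N = 3 * Nat.card Q)
    (K : Type) [Field K] [Fintype K] (hK : Fintype.card K = 9) (e : M ⧸ N.subgroupOf M ≃* PSU 4 K 3) (hidx : M.index = 2) :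
    ∃ (V : Type u) (_ : AddCommGroup V) (_ : Finite V) (q : V → ZMod 2) (b : V → V → ZMod 2) (ρ : H →* AddMonoid.End V)
      (π : Q → V) (Φ : V6 ≃+ V) (R : M →* G), Dat ζ Q q b ρ π M Φ R := by
  obtain ⟨V, iV, iF, q, b, ρ, π, hqs, hcV, hqinv, hker, hsurj, heqv, hmul, hqπ, hact⟩ := H97FaA.setup ζ Q hE hcent hcard
  have : Fact (Nat.Prime 3) := ⟨Nat.prime_three⟩
  obtain ⟨x, hx3⟩ := exists_prime_orderOf_dvd_card' (G := N) 3 (by rw [hcN]; exact Dvd.intro _ rfl)
  have hx3' : orderOf (x : H) = 3 := by rw [Subgroup.orderOf_coe, hx3]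
  have hxQ : (x : H) ∉ Q := by
    intro h
    have h1 : orderOf (⟨(x : H), h⟩ : Q) = 3 := by rw [← Subgroup.orderOf_coe]; exact hx3'
    have h2 := orderOf_dvd_natCard (⟨(x : H), h⟩ : Q)
    rw [h1, hcard] at h2
    revert h2; decide
  -- the quotient
  set Q' := Q.subgroupOf M with hQ'
  set N' := N.subgroupOf M with hN'
  have hQN' : Q' ≤ N' := fun m hm => hQN hm
  have : N'.Normal := inferInstance
  have : Q'.Normal := inferInstance
  set ρM : M →* AddMonoid.End V := ρ.comp M.subtype with hρM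
  have hρMa : ∀ m : M, ρM m = ρ m := fun m => rfl
  set ρL : M ⧸ Q' →* AddMonoid.End V := QuotientGroup.lift Q' ρM (fun m hm => (hker m).2 hm) with hρL
  have hρLa : ∀ m : M, ρL (m : M ⧸ Q') = ρ m := fun m => rfl
  have hinj : Function.Injective ρL := by
    rw [← MonoidHom.ker_eq_bot_iff, eq_bot_iff]
    intro l hl
    induction l using QuotientGroup.induction_on with
    | H m =>
      rw [MonoidHom.mem_ker, hρLa] at hl
      exact Subgroup.mem_bot.2 ((QuotientGroup.eq_one_iff m).2 ((hker m).1 hl))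
  set X : Subgroup (M ⧸ Q') := N'.map (QuotientGroup.mk' Q') with hX
  have hXn : X.Normal := Subgroup.Normal.map ‹N'.Normal› _ (QuotientGroup.mk'_surjective Q')
  have hXcard : Nat.card X = 3 := by
    have h1 : Nat.card N' = 3 * 2 ^ 13 := by
      rw [Nat.card_congr (Subgroup.subgroupOfEquivOfLe hNM).toEquiv, hcN, hcard]
    have h2 : Nat.card Q' = 2 ^ 13 := by
      rw [Nat.card_congr (Subgroup.subgroupOfEquivOfLe (hQN.trans hNM)).toEquiv, hcard]
    have h3 : Nat.card X * Nat.card (Q'.subgroupOf N') = Nat.card N' := by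
      have e2 : ((QuotientGroup.mk' Q').comp N'.subtype).ker = Q'.subgroupOf N' := by
        ext m
        exact QuotientGroup.eq_one_iff (m : M)
      have e3 : ((QuotientGroup.mk' Q').comp N'.subtype).range = X := by
        rw [MonoidHom.range_comp, Subgroup.range_subtype]
      have e4 := Subgroup.index_ker ((QuotientGroup.mk' Q').comp N'.subtype)
      rw [e2, e3] at e4
      rw [← e4]
      exact Subgroup.index_mul_card _
    rw [Nat.card_congr (Subgroup.subgroupOfEquivOfLe hQN').toEquiv, h2, h1] at h3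
    exact Nat.eq_of_mul_eq_mul_right (by norm_num) h3
  have eX : (M ⧸ Q') ⧸ X ≃* PSU 4 K 3 := (QuotientGroup.quotientQuotientEquivQuotient Q' N' hQN').trans e
  have hsP := simple_psu (F9 := K) hK
  have hcP := card_psu K hK
  have hsX : IsSimpleGroup ((M ⧸ Q') ⧸ X) := eX.isSimpleGroup
  have hcX : Nat.card ((M ⧸ Q') ⧸ X) = 3265920 := by rw [Nat.card_congr eX.toEquiv, hcP]
  have hXc : X ≤ Subgroup.center (M ⧸ Q') := X_central X hXcard hsX hcX
  have hce : Subgroup.center (M ⧸ Q') = X := center_eq X hXc hsX hcX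
  -- the element of order three
  set x0 : M := ⟨x, hNM x.2⟩ with hx0
  have hx0X : (x0 : M ⧸ Q') ∈ X := ⟨x0, x.2, rfl⟩
  have hx01 : (x0 : M ⧸ Q') ≠ 1 := fun h => hxQ ((QuotientGroup.eq_one_iff x0).1 h)
  have hfpf : ∀ v, ρ x v = v → v = 0 :=
    H97FaD4.fpf K hK hsP (by rw [hcP]; decide) hqs.two hcV ρL hinj X hXcard hXc ⟨eX⟩ x0 hx0X hx01
  have hρ3 : ∀ v, ρ x (ρ x (ρ x v)) = v := by
    intro v
    have h1 : ρ ((x : H) ^ 3) = 1 := by rw [← hx3', pow_orderOf_eq_one, map_one]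
    have h2 := congrArg (fun f : AddMonoid.End V => f v) h1
    rw [pow_succ', pow_two, map_mul, map_mul] at h2
    exact h2
  set xx : V →+ V := ρ x with hxx
  have hxx1 : ∀ v, xx (xx v) + xx v + v = 0 := by
    intro v
    apply hfpf
    change xx (xx (xx v) + xx v + v) = _
    rw [map_add, map_add]
    have : xx (xx (xx v)) = v := hρ3 v
    rw [this]; abel
  obtain ⟨Φ, hΦx, hΦq⟩ := H97FaB.exists_basis hqs xx hxx1 (fun v => hqinv _ v) hcV
  have hcomm : ∀ (m : M) v, ρM m (xx v) = xx (ρM m v) := by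
    intro m v
    have h1 : (m : M ⧸ Q') * (x0 : M ⧸ Q') = (x0 : M ⧸ Q') * (m : M ⧸ Q') := Subgroup.mem_center_iff.1 (hXc hx0X) _
    have h2 := congrArg (fun f : AddMonoid.End V => f v) (congrArg ρL h1)
    rw [map_mul, map_mul] at h2
    exact h2
  have hsN : IsSimpleGroup (M ⧸ N') := e.isSimpleGroup
  have hcN2 : Nat.card (M ⧸ N') = 3265920 := by rw [Nat.card_congr e.toEquiv, hcP]
  have hf : ∀ f : M →* K4ˣ, f x0 = 1 → f = 1 := by
    intro f hfx
    apply hom_trivial N' hsN hcN2 f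
    have hu3 : ∀ w : K4ˣ, w ^ 3 = 1 := by decide
    have hfQ : ∀ m ∈ Q', f m = 1 := by
      intro m hm
      have h1 : (m : H) ^ 4 = 1 := by
        rcases hE.qsq m hm with h | h
        · rw [show 4 = 2 * 2 by rfl, pow_mul, pow_two (m : H), h, one_pow]
        · rw [show 4 = 2 * 2 by rfl, pow_mul, pow_two (m : H), h, pow_two, hE.sq]
      have h2 : m ^ 4 = 1 := Subtype.ext h1
      have h3 : f m ^ 4 = 1 := by rw [← map_pow, h2, map_one]
      rw [show 4 = 3 + 1 by rfl, pow_succ, hu3, one_mul] at h3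
      exact h3
    -- every element of X is a power of x0
    intro m hm
    have hmX : (m : M ⧸ Q') ∈ X := ⟨m, hm, rfl⟩
    have hz : (⟨(m : M ⧸ Q'), hmX⟩ : X) ∈ Subgroup.zpowers (⟨(x0 : M ⧸ Q'), hx0X⟩ : X) :=
      mem_zpowers_of_prime_card (p := 3) hXcard (fun h => hx01 (congrArg Subtype.val h))
    obtain ⟨i, hi⟩ := Subgroup.mem_zpowers_iff.1 hz
    have hi' : ((x0 ^ i : M) : M ⧸ Q') = (m : M ⧸ Q') := congrArg Subtype.val hi
    have h4 : (x0 ^ i)⁻¹ * m ∈ Q' := QuotientGroup.eq.1 hi'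
    have h5 := hfQ _ h4
    rw [map_mul, map_inv, map_zpow, hfx, _root_.one_zpow, inv_one, one_mul] at h5
    exact h5
  obtain ⟨R, hR⟩ := H97FaC.exists_rep hqs xx Φ hΦx hΦq ρM hcomm (fun m v => hqinv _ v) x0 (fun v => rfl) hf
  have hkR : ∀ m : M, R m = 1 ↔ (m : H) ∈ Q := by
    intro m
    rw [← hker]
    constructor
    · intro h
      apply AddMonoidHom.ext
      intro v
      have := hR m (Φ.symm v)
      rw [h, H97FaF.mt_one, Matrix.one_mulVec, Φ.apply_symm_apply] at this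
      exact this.symm
    · intro h
      apply ext_mt
      rw [H97FaF.mt_one]
      refine Matrix.ext_of_mulVec_single fun i => ?_
      rw [Matrix.one_mulVec]
      apply Φ.injective
      rw [hR, hρMa, h]; rfl
  refine ⟨V, iV, iF, q, b, ρ, π, Φ, R, hE, hqs, hqinv, hker, hsurj, heqv, hmul, hqπ, hact, hM, hQN.trans hNM, hidx, hΦq, hR,
    ⟨K, inferInstance, inferInstance, hK, ?_⟩, hkR⟩
  have hkerR : R.ker = Q' := by
    ext m; rw [MonoidHom.mem_ker, hkR]; rfl
  have eR : M ⧸ Q' ≃* R.range := (QuotientGroup.quotientMulEquivOfEq hkerR.symm).trans (QuotientGroup.quotientKerEquivRange R)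
  refine Good.congr eR ⟨by rw [hce]; exact hXcard, ⟨(QuotientGroup.quotientMulEquivOfEq hce).trans eX⟩⟩

theorem pack {G' : Type*} [Group G'] [Finite G'] {z : G'} (hz : orderOf z = 2)
    {Q : Subgroup (Subgroup.centralizer ({z} : Set G'))}
    (hF : generalizedFittingSubgroup ↥(Subgroup.centralizer ({z} : Set G')) = Q) (hQ : IsExtraspecial 2 Q) :
    ExData Q (⟨z, Subgroup.mem_centralizer_singleton_iff.2 rfl⟩ : Subgroup.centralizer ({z} : Set G')) ∧
    ∀ g : Subgroup.centralizer ({z} : Set G'), (∀ q ∈ Q, q * g = g * q) → g = 1 ∨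
      g = ⟨z, Subgroup.mem_centralizer_singleton_iff.2 rfl⟩ := by
  have hp := preLarge_of_setting' hz hF hQ
  obtain ⟨z', hz'⟩ := exists_exData hQ
  have hmem : (⟨z, Subgroup.mem_centralizer_singleton_iff.2 rfl⟩ : Subgroup.centralizer ({z} : Set G')) ∈ Q := by
    obtain ⟨y, hy, hyz⟩ := hp.mem
    have : y = ⟨z, Subgroup.mem_centralizer_singleton_iff.2 rfl⟩ := Subtype.ext hyz
    rwa [this] at hy
  have hzz : z' = ⟨z, Subgroup.mem_centralizer_singleton_iff.2 rfl⟩ := by
    rcases hz'.center _ hmem (fun x _ => Subtype.ext ((Subgroup.mem_centralizer_singleton_iff.1 x.2).symm)) with h | h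
    · exfalso
      have : z = 1 := congrArg Subtype.val h
      rw [this, orderOf_one] at hz
      omega
    · exact h.symm
  refine ⟨hzz ▸ hz', fun g hg => ?_⟩
  have h1 := hp.cent (g : G') (by
    rintro _ ⟨y, hy, rfl⟩
    exact congrArg Subtype.val (hg y hy))
  rcases h1 with h1 | h1
  · exact Or.inl (Subtype.ext h1)
  · exact Or.inr (Subtype.ext h1)

end Cfsg.Agent.Lib.H97FaH
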