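import Cfsg.Agent.Lib.H97FaI
import Cfsg.Agent.Lib.H97FaH

set_option autoImplicit false
set_option linter.unusedVariables false

/-! S5443, piece U3-E (helper57, backup): elements of `H` are semilinear. -/

namespace Cfsg.Agent.Lib.H87U3E2

open Matrix Cfsg Cfsg.Agent.Lib.K4 Cfsg.Agent.Lib.HermMat Cfsg.Agent.Lib.ClThreeTransU Cfsg.Agent.Lib.SU6K4
open Cfsg.Agent.Lib.U43 Cfsg.Agent.Lib.H97Fa Cfsg.Agent.Lib.H97FaF Cfsg.Agent.Lib.H97FaG Cfsg.Agent.Lib.H97FaI Cfsg.Agent.Lib.LargeExtra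

universe u

theorem mt_zc (c : ZMod 3) (v : V6) : mt (mo (zc c) 1) *ᵥ v = e c • v := by
  funext i
  rw [mo_mulVec]
  rfl

theorem omega {H : Type u} [Group H] {ζ : H} {Q : Subgroup H} {V : Type u} [AddCommGroup V] {q : V → ZMod 2} {b : V → V → ZMod 2}
    {ρ : H →* AddMonoid.End V} {π : Q → V} {M : Subgroup H} {Φ : V6 ≃+ V} {R : M →* G} (D : Dat ζ Q q b ρ π M Φ R)
    (hR : R.range = K0) (h : H) : (∀ v, ρ h (Φ (om • v)) = Φ (om • Φ.symm (ρ h (Φ v)))) ∨ (∀ v, ρ h (Φ (om • v)) = Φ (om' • Φ.symm (ρ h (Φ v)))) := by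
  have hz0 : mo (zc 1) 1 ∈ Z0 := ⟨1, rfl⟩
  have hz0K : mo (zc 1) 1 ∈ R.range := by rw [hR]; exact T_le_K0 (Z0_le_T hz0)
  obtain ⟨m, hm⟩ := hz0K
  have hact : ∀ v, ρ m (Φ v) = Φ (om • v) := by
    intro v
    rw [← D.rep, hm, mt_zc]
    rfl
  have hconjQ : ∀ g : H, ∀ x ∈ Q, g * x * g⁻¹ ∈ Q := by
    intro g x hx
    rw [← D.ker] at hx ⊢
    rw [map_mul, map_mul, hx, mul_one, ← map_mul, mul_inv_cancel, map_one]
  have hm' : h * m * h⁻¹ ∈ M := D.nM.conj_mem m m.2 h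
  have hgZ : R ⟨h * m * h⁻¹, hm'⟩ ∈ Z0 := by
    apply cent_mod
    intro s hs
    have hsK : s ∈ R.range := by rw [hR]; exact M0_le_K0 hs
    obtain ⟨n, rfl⟩ := hsK
    have hn' : h⁻¹ * n * h ∈ M := by
      have := D.nM.conj_mem n n.2 h⁻¹
      rwa [inv_inv] at this
    have h1 : R (m * ⟨h⁻¹ * n * h, hn'⟩ * m⁻¹ * (⟨h⁻¹ * n * h, hn'⟩)⁻¹) = 1 := by
      rw [map_mul, map_mul, map_mul, map_inv, map_inv, hm, Z0_central hz0, mul_inv_cancel]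
    rw [D.kerR] at h1
    have h2 := hconjQ h _ h1
    have h3 : R (⟨h * m * h⁻¹, hm'⟩ * n * (⟨h * m * h⁻¹, hm'⟩)⁻¹ * n⁻¹) = 1 := by
      rw [D.kerR]
      have e1 : ((⟨h * m * h⁻¹, hm'⟩ * n * (⟨h * m * h⁻¹, hm'⟩)⁻¹ * n⁻¹ : M) : H) =
          h * ((m * ⟨h⁻¹ * n * h, hn'⟩ * m⁻¹ * (⟨h⁻¹ * n * h, hn'⟩)⁻¹ : M) : H) * h⁻¹ := by
        simp only [Subgroup.coe_mul, Subgroup.coe_inv]
        group
      rw [e1]; exact h2
    rw [map_mul, map_mul, map_mul, map_inv, map_inv] at h3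
    rw [h3]
    exact Z0.one_mem
  obtain ⟨c, hc⟩ := hgZ
  have key : ∀ v, ρ h (Φ (om • v)) = Φ (e c • Φ.symm (ρ h (Φ v))) := by
    intro v
    have e1 : ρ (h * m * h⁻¹) (Φ (Φ.symm (ρ h (Φ v)))) = Φ (e c • Φ.symm (ρ h (Φ v))) := by
      have := D.rep ⟨h * m * h⁻¹, hm'⟩ (Φ.symm (ρ h (Φ v)))
      rw [hc, mt_zc] at this
      exact this.symm
    rw [← e1, Φ.apply_symm_apply, ← hact]
    have e2 : ρ (h * m * h⁻¹) * ρ h = ρ h * ρ m := by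
      rw [← map_mul, ← map_mul]; congr 1; group
    exact (congrArg (fun f : AddMonoid.End V => f (Φ v)) e2).symm
  have hc0 : c ≠ 0 := by
    rintro rfl
    have h4 : R ⟨h * m * h⁻¹, hm'⟩ = 1 := by rw [hc]; exact mo_one
    rw [D.kerR] at h4
    have h5 := hconjQ h⁻¹ _ h4
    have h6 : h⁻¹ * (h * m * h⁻¹) * h⁻¹⁻¹ = (m : H) := by group
    have h7 : (m : H) ∈ Q := by rw [← h6]; exact h5
    rw [← D.kerR, hm] at h7
    have h8 := mo_inj (h7.trans mo_one.symm)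
    have h9 := congrFun (congrArg Subtype.val h8.1) 0
    exact absurd h9 (by decide)
  have hall : ∀ c : ZMod 3, c ≠ 0 → c = 1 ∨ c = 2 := by decide
  have hc12 : c = 1 ∨ c = 2 := hall c hc0
  rcases hc12 with rfl | rfl
  · left; intro v; exact key v
  · right; intro v; exact key v

end Cfsg.Agent.Lib.H87U3E2
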