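import Cfsg.Agent.Lib.H97FaI
import Cfsg.Agent.Lib.H87U30

/-!
# S5443, piece U3-F (helper90): the swap of two coordinates is not induced
-/

set_option autoImplicit false
set_option linter.unusedVariables false
set_option linter.unusedSimpArgs false
set_option maxRecDepth 100000

universe u

namespace Cfsg.Agent.Lib.H87U3F

open Matrix Cfsg Cfsg.Agent.Lib.K4 Cfsg.Agent.Lib.HermMat Cfsg.Agent.Lib.ClThreeTransU Cfsg.Agent.Lib.SU6K4
open Cfsg.Agent.Lib.U43 Cfsg.Agent.Lib.H97Fa Cfsg.Agent.Lib.H97FaF Cfsg.Agent.Lib.H97FaG Cfsg.Agent.Lib.H97FaI Cfsg.Agent.Lib.LargeExtra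
open Cfsg.Agent.Lib.H87U30

theorem a6_aux : ∀ y : Equiv.Perm (Fin 6), y ^ 6 = 1 → y ^ 2 = 1 ∨ y ^ 3 = 1 ∨ Equiv.Perm.sign y ≠ 1 := by
  decide +kernel

theorem a6 : ∀ y : Equiv.Perm (Fin 6), y ^ 6 = 1 → Equiv.Perm.sign y = 1 → y ^ 2 = 1 ∨ y ^ 3 = 1 := by
  intro y h6 hs
  rcases a6_aux y h6 with h | h | h
  · exact Or.inl h
  · exact Or.inr h
  · exact absurd hs h

/-- the 3-cycle -/
def c3 : Pm := Equiv.swap 0 1 * Equiv.swap 1 3

theorem sign_c3 : Equiv.Perm.sign c3 = 1 := by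
  rw [c3, Equiv.Perm.sign_mul, Equiv.Perm.sign_swap (by decide), Equiv.Perm.sign_swap (by decide)]; rfl

/-- the exponents of the diagonal element -/
def dd : A0 := ⟨![0, 0, 1, 0, 0, 2], by rw [mem_A0]; decide⟩

/-- the action of `h m` on the coordinates -/
def pp (i : Fin 6) : Fin 6 := c3⁻¹ (Equiv.swap 2 5 i)

theorem pp6 : ∀ i, pp (pp (pp (pp (pp (pp i))))) = i := by decide
theorem pp3 : ∀ i, pp (pp (pp i)) = Equiv.swap 2 5 i := by decide
theorem pp4 : pp (pp (pp (pp 0))) ≠ 0 := by decide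

/-- the action of the diagonal element -/
def dv (v : V6) : V6 := fun i => e (dd.1 i) * v i

/-- the composite -/
def tv (v : V6) : V6 := sw (dv (dv (sw (dv v))))

theorem tv_ne : tv (tv fun _ => 1) 2 ≠ (fun _ => (1 : K4)) (2 : Fin 6) := by decide +kernel

theorem dv3 (v : V6) : dv (dv (dv v)) = v := by
  funext i
  change e (dd.1 i) * (e (dd.1 i) * (e (dd.1 i) * v i)) = v i
  rw [← mul_assoc, ← mul_assoc, ← e_add, ← e_add]
  have : ∀ x : ZMod 3, x + x + x = 0 := by decide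
  rw [this, e_zero, one_mul]

variable {H : Type u} [Group H] {ζ : H} {Q : Subgroup H} {V : Type u} [AddCommGroup V] {q : V → ZMod 2} {b : V → V → ZMod 2}
    {ρ : H →* AddMonoid.End V} {π : Q → V} {M : Subgroup H} {Φ : V6 ≃+ V} {R : M →* G}

theorem ρ_mul (ρ : H →* AddMonoid.End V) (a c : H) (x : V) : ρ (a * c) x = ρ a (ρ c x) := by rw [map_mul]; rfl

theorem mem_Q (D : Dat ζ Q q b ρ π M Φ R) {k : H} (h : ∀ v, ρ k (Φ v) = Φ v) : k ∈ Q := by
  rw [← D.ker]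
  ext x
  have := h (Φ.symm x)
  rw [Φ.apply_symm_apply] at this
  exact this

theorem of_mem_Q (D : Dat ζ Q q b ρ π M Φ R) {k : H} (h : k ∈ Q) (v : V6) : ρ k (Φ v) = Φ v := by
  rw [(D.ker k).2 h]; rfl

-- U3-F
theorem no_swap {H : Type u} [Group H] {ζ : H} {Q : Subgroup H} [Q.Normal] {V : Type u} [AddCommGroup V] {q : V → ZMod 2} {b : V → V → ZMod 2}
    {ρ : H →* AddMonoid.End V} {π : Q → V} {M : Subgroup H} {Φ : V6 ≃+ V} {R : M →* G} (D : Dat ζ Q q b ρ π M Φ R)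
    (hR : R.range = K0) (h : H) (hsw : ∀ v, ρ h (Φ v) = Φ (sw v)) (X E : Subgroup (H ⧸ Q))
    (hX : ∀ k : H, (QuotientGroup.mk' Q k) ∈ X ↔ ρ k (Φ w4) = Φ w4) (hEX : E ≤ X) (hn : ∀ x ∈ X, ∀ y ∈ E, x * y * x⁻¹ ∈ E)
    (hE : ∀ y ∈ E, y * y = 1) (hA : ∃ _ : (E.subgroupOf X).Normal, Nonempty (↥X ⧸ E.subgroupOf X ≃* alternatingGroup (Fin 6))) : False := by
  obtain ⟨hNor, ⟨eA⟩⟩ := hA
  have hc : mo 0 c3 ∈ R.range := by rw [hR]; exact M0_le_K0 (mo_mem_M0.2 sign_c3)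
  have hd : mo dd 1 ∈ R.range := by rw [hR]; exact M0_le_K0 (mo_mem_M0.2 Equiv.Perm.sign_one)
  obtain ⟨m, hm⟩ := hc
  obtain ⟨m', hm'⟩ := hd
  have am : ∀ v, ρ m (Φ v) = Φ (fun i => v (c3⁻¹ i)) := by
    intro v
    rw [← D.rep, hm]
    refine congrArg Φ (funext fun i => ?_)
    rw [mo_mulVec]
    change e 0 * _ = _
    rw [e_zero, one_mul]
  have am' : ∀ v, ρ m' (Φ v) = Φ (dv v) := by
    intro v
    rw [← D.rep, hm']
    refine congrArg Φ (funext fun i => ?_)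
    rw [mo_mulVec]
    rfl
  have ahm : ∀ v, ρ (h * m) (Φ v) = Φ (fun i => v (pp i)) := by
    intro v
    rw [ρ_mul, am, hsw]
    rfl
  set k := h * (m : H) with hk
  have a2 : ∀ v, ρ (k ^ 2) (Φ v) = Φ (fun i => v (pp (pp i))) := by
    intro v; rw [pow_two, ρ_mul, ahm, ahm]
  have a3 : ∀ v, ρ (k ^ 3) (Φ v) = Φ (sw v) := by
    intro v; rw [pow_succ, ρ_mul, ahm, a2]
    refine congrArg Φ (funext fun i => ?_)
    change v (pp (pp (pp i))) = v (Equiv.swap 2 5 i)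
    rw [pp3]
  have a4 : ∀ v, ρ (k ^ 4) (Φ v) = Φ (fun i => v (pp (pp (pp (pp i))))) := by
    intro v
    rw [show k ^ 4 = k ^ 2 * k ^ 2 by group, ρ_mul, a2, a2]
  have a6' : k ^ 6 ∈ Q := by
    apply mem_Q D
    intro v
    rw [show k ^ 6 = k ^ 2 * k ^ 4 by group, ρ_mul, a4, a2]
    refine congrArg Φ (funext fun i => ?_)
    change v (pp (pp (pp (pp (pp (pp i)))))) = v i
    rw [pp6]
  have hkX : QuotientGroup.mk' Q k ∈ X := by
    rw [hX, ahm]
    refine congrArg Φ (funext fun i => ?_)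
    revert i; decide
  have hmX : QuotientGroup.mk' Q (m' : H) ∈ X := by
    rw [hX, am']
    refine congrArg Φ (funext fun i => ?_)
    revert i; decide +kernel
  -- the image in `A₆`
  set x : X := ⟨QuotientGroup.mk' Q k, hkX⟩ with hx
  have hx6 : x ^ 6 = 1 := by
    apply Subtype.ext
    change (QuotientGroup.mk' Q k) ^ 6 = 1
    rw [← map_pow]
    exact (QuotientGroup.eq_one_iff _).2 a6'
  set y : alternatingGroup (Fin 6) := eA (QuotientGroup.mk' _ x) with hy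
  have hy6 : y ^ 6 = 1 := by
    rw [hy, ← map_pow, ← map_pow, hx6, map_one, map_one]
  have hcase := a6 (y : Equiv.Perm (Fin 6)) (by
    have := congrArg Subtype.val hy6
    exact this) (Equiv.Perm.mem_alternatingGroup.1 y.2)
  have hmem : ∀ n : ℕ, (y : Equiv.Perm (Fin 6)) ^ n = 1 → QuotientGroup.mk' Q (k ^ n) ∈ E := by
    intro n hn'
    have h1 : y ^ n = 1 := Subtype.ext hn'
    rw [hy, ← map_pow, ← map_pow, EmbeddingLike.map_eq_one_iff] at h1
    have h2 : x ^ n ∈ E.subgroupOf X := (QuotientGroup.eq_one_iff _).1 h1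
    rw [Subgroup.mem_subgroupOf] at h2
    rw [map_pow]
    exact h2
  rcases hcase with h2 | h3
  · have h4 := hE _ (hmem 2 h2)
    rw [← map_mul] at h4
    have h5 : k ^ 2 * k ^ 2 ∈ Q := (QuotientGroup.eq_one_iff _).1 h4
    have h6 : k ^ 4 ∈ Q := by
      rw [show k ^ 4 = k ^ 2 * k ^ 2 by group]; exact h5
    have h7 := of_mem_Q D h6 (Pi.single 0 1)
    rw [a4] at h7
    have h8 := congrFun (Φ.injective h7) 0
    rw [Pi.single_eq_of_ne pp4, Pi.single_eq_same] at h8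
    exact zero_ne_one h8
  · have h4 := hmem 3 h3
    have hm3 : (m' : H) ^ 3 ∈ Q := by
      apply mem_Q D
      intro v
      rw [pow_succ, pow_two, ρ_mul, ρ_mul, am', am', am', dv3]
    have h5 := hn _ (X.pow_mem hmX 2) _ h4
    have h6 : ((QuotientGroup.mk' Q (m' : H)) ^ 2)⁻¹ = QuotientGroup.mk' Q (m' : H) := by
      rw [inv_eq_iff_mul_eq_one, ← pow_succ, ← map_pow]
      exact (QuotientGroup.eq_one_iff _).2 hm3
    rw [h6] at h5
    have h7 := hE _ (E.mul_mem h4 h5)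
    rw [← map_pow, ← map_mul, ← map_mul, ← map_mul, ← map_mul] at h7
    have h8 := (QuotientGroup.eq_one_iff _).1 h7
    have h9 : ∀ v, ρ (k ^ 3 * ((m' : H) ^ 2 * k ^ 3 * m')) (Φ v) = Φ (tv v) := by
      intro v
      rw [pow_two, ρ_mul, ρ_mul, ρ_mul, ρ_mul, am', a3, am', am', a3]
      rfl
    have h10 := of_mem_Q D h8 (fun _ => 1)
    rw [ρ_mul, h9, h9] at h10
    exact tv_ne (congrFun (Φ.injective h10) 2)

end Cfsg.Agent.Lib.H87U3F
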