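import Cfsg.Agent.Lib.H87U30
import Cfsg.Agent.Lib.H97FaI

/-! S5443, piece U3-N (helper83). -/

set_option autoImplicit false
set_option linter.unusedVariables false

open Matrix Cfsg Cfsg.Agent.Lib.K4 Cfsg.Agent.Lib.HermMat Cfsg.Agent.Lib.ClThreeTransU Cfsg.Agent.Lib.SU6K4
open Cfsg.Agent.Lib.U43 Cfsg.Agent.Lib.H97Fa Cfsg.Agent.Lib.H97FaF Cfsg.Agent.Lib.H97FaG Cfsg.Agent.Lib.H97FaI Cfsg.Agent.Lib.LargeExtra
open Cfsg.Agent.Lib.H87U30

universe u

namespace Cfsg.Agent.Lib.H87U3N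

theorem equiv_of_ker {A B C : Type*} [Group A] [Group B] [Group C] (f : A →* B) (g : A →* C)
    (hf : Function.Surjective f) (hg : Function.Surjective g) (h : f.ker = g.ker) : Nonempty (B ≃* C) :=
  ⟨(QuotientGroup.quotientKerEquivOfSurjective f hf).symm.trans
    ((QuotientGroup.quotientMulEquivOfEq h).trans (QuotientGroup.quotientKerEquivOfSurjective g hg))⟩

theorem N_iso {H : Type u} [Group H] {ζ : H} {Q : Subgroup H} [Q.Normal] {V : Type u} [AddCommGroup V] {q : V → ZMod 2} {b : V → V → ZMod 2}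
    {ρ : H →* AddMonoid.End V} {π : Q → V} {M : Subgroup H} {Φ : V6 ≃+ V} {R : M →* G} (D : Dat ζ Q q b ρ π M Φ R)
    (hR : R.range = K0) (S : Subgroup H) (hS : ∀ h, h ∈ S ↔ ρ h (Φ u2) = Φ u2) (Sb : Subgroup (H ⧸ Q)) (hSb : Sb = S.map (QuotientGroup.mk' Q)) :
    ∃ N : Subgroup Sb, N.Normal ∧ Nonempty (N ≃* St) ∧ ∀ (h : H) (hh : QuotientGroup.mk' Q h ∈ Sb), (⟨QuotientGroup.mk' Q h, hh⟩ : Sb) ∈ N ↔ h ∈ M := by
  classical
  have hnM : M.Normal := D.nM
  have hQS : Q ≤ S := by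
    intro x hx
    rw [hS, (D.ker x).2 hx]
    rfl
  have hmM : ∀ h : H, QuotientGroup.mk' Q h ∈ M.map (QuotientGroup.mk' Q) ↔ h ∈ M := by
    intro h
    constructor
    · rintro ⟨m, hm, hmh⟩
      have h1 : m⁻¹ * h ∈ Q := QuotientGroup.eq.1 hmh
      have h2 := M.mul_mem hm (D.QM h1)
      rwa [mul_inv_cancel_left] at h2
    · intro hh
      exact ⟨h, hh, rfl⟩
  have hmS : ∀ h : H, QuotientGroup.mk' Q h ∈ Sb ↔ h ∈ S := by
    intro h
    rw [hSb]
    constructor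
    · rintro ⟨m, hm, hmh⟩
      have h1 : m⁻¹ * h ∈ Q := QuotientGroup.eq.1 hmh
      have h2 := S.mul_mem hm (hQS h1)
      rwa [mul_inv_cancel_left] at h2
    · intro hh
      exact ⟨h, hh, rfl⟩
  have hNn : (M.map (QuotientGroup.mk' Q)).Normal := hnM.map _ (QuotientGroup.mk'_surjective Q)
  refine ⟨(M.map (QuotientGroup.mk' Q)).subgroupOf Sb, hNn.subgroupOf Sb, ?_, ?_⟩
  · -- the common cover
    let A : Subgroup H := S ⊓ M
    have hfix : ∀ m : M, (m : H) ∈ S ↔ mt (R m) *ᵥ u2 = u2 := by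
      intro m
      rw [hS, ← D.rep]
      exact Φ.injective.eq_iff
    let g : A →* St :=
      { toFun := fun a => ⟨R ⟨a.1, a.2.2⟩, mem_St.2 ⟨by rw [← hR]; exact ⟨_, rfl⟩, (hfix ⟨a.1, a.2.2⟩).1 a.2.1⟩⟩
        map_one' := Subtype.ext (map_one R)
        map_mul' := fun x y => Subtype.ext (map_mul R ⟨x.1, x.2.2⟩ ⟨y.1, y.2.2⟩) }
    let f : A →* ((M.map (QuotientGroup.mk' Q)).subgroupOf Sb) :=
      { toFun := fun a => ⟨⟨QuotientGroup.mk' Q a.1, (hmS a.1).2 a.2.1⟩, Subgroup.mem_subgroupOf.2 ((hmM a.1).2 a.2.2)⟩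
        map_one' := Subtype.ext (Subtype.ext (map_one (QuotientGroup.mk' Q)))
        map_mul' := fun x y => Subtype.ext (Subtype.ext (map_mul (QuotientGroup.mk' Q) x.1 y.1)) }
    refine equiv_of_ker f g ?_ ?_ ?_
    · rintro ⟨⟨x, hx⟩, hx'⟩
      obtain ⟨h, rfl⟩ := QuotientGroup.mk'_surjective Q x
      have h1 : h ∈ S := (hmS h).1 hx
      have h2 : h ∈ M := (hmM h).1 (Subgroup.mem_subgroupOf.1 hx')
      exact ⟨⟨h, h1, h2⟩, rfl⟩
    · rintro ⟨x, hx⟩
      have hx1 := mem_St.1 hx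
      rw [← hR] at hx1
      obtain ⟨⟨m', hm⟩, hm2⟩ := hx1
      subst hm
      exact ⟨⟨m'.1, (hfix m').2 hm2, m'.2⟩, rfl⟩
    · ext a
      rw [MonoidHom.mem_ker, MonoidHom.mem_ker]
      have h1 : g a = 1 ↔ (a : H) ∈ Q := by
        rw [← D.kerR ⟨a.1, a.2.2⟩]
        constructor
        · intro h; exact congrArg Subtype.val h
        · intro h; exact Subtype.ext h
      have h2 : f a = 1 ↔ (a : H) ∈ Q := by
        rw [← QuotientGroup.eq_one_iff]
        constructor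
        · intro h; exact congrArg (fun z => (z.1.1 : H ⧸ Q)) h
        · intro h; exact Subtype.ext (Subtype.ext h)
      rw [h1, h2]
  · intro h hh
    rw [Subgroup.mem_subgroupOf]
    exact hmM h

end Cfsg.Agent.Lib.H87U3N
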