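import Cfsg.Agent.Lib.H97FaI
import Cfsg.Agent.Lib.H87U30

set_option autoImplicit false
set_option linter.unusedVariables false

open Matrix Cfsg Cfsg.Agent.Lib.K4 Cfsg.Agent.Lib.HermMat Cfsg.Agent.Lib.ClThreeTransU Cfsg.Agent.Lib.SU6K4
open Cfsg.Agent.Lib.U43 Cfsg.Agent.Lib.H97Fa Cfsg.Agent.Lib.H97FaF Cfsg.Agent.Lib.H97FaG Cfsg.Agent.Lib.H97FaI Cfsg.Agent.Lib.LargeExtra
open Cfsg.Agent.Lib.H87U30

universe u

namespace Cfsg.Agent.Lib.H87U3P

variable {H : Type u} [Group H] {ζ : H} {Q : Subgroup H} {V : Type u} [AddCommGroup V] {q : V → ZMod 2} {b : V → V → ZMod 2}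
    {ρ : H →* AddMonoid.End V} {π : Q → V} {M : Subgroup H} {Φ : V6 ≃+ V} {R : M →* G}

theorem ob_eq {v w : V6} (h : Rl K0 v w) : Ob K0 v = Ob K0 w := by
  ext x
  exact ⟨fun hx => Rl.trans hx h, fun hx => Rl.trans hx (Rl.symm h)⟩

theorem iso_τ (D : Dat ζ Q q b ρ π M Φ R) (h : H) {v : V6} (hv : Iso v) : Iso (τ ρ Φ h v) := by
  refine ⟨fun h0 => hv.1 ?_, ?_⟩
  · have h1 : Φ (τ ρ Φ h v) = 0 := by rw [h0, map_zero]
    rw [Φ_τ] at h1
    have h2 : ρ h⁻¹ (ρ h (Φ v)) = Φ v := by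
      have h3 : ρ (h⁻¹ * h) (Φ v) = ρ h⁻¹ (ρ h (Φ v)) := by rw [map_mul]; rfl
      rw [← h3, inv_mul_cancel, map_one]; rfl
    rw [h1, map_zero] at h2
    exact (EmbeddingLike.map_eq_zero_iff (f := Φ)).1 h2.symm
  · rw [← D.qΦ, Φ_τ, D.qinv, D.qΦ]
    exact hv.2

theorem orb_eq (D : Dat ζ Q q b ρ π M Φ R) (hR : R.range = K0) {v : V6} (hv : Iso v)
    (hcards : (Ob K0 u2).ncard = 378 ∧ (Ob K0 w4).ncard = 1701) (h : H) : Rl K0 (τ ρ Φ h v) v := by
  have key : (Ob K0 (τ ρ Φ h v)).ncard = (Ob K0 v).ncard := by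
    have him : τ ρ Φ h '' (Ob K0 v) = Ob K0 (τ ρ Φ h v) := by
      ext x
      constructor
      · rintro ⟨w, hw, rfl⟩
        have hw' : Rl R.range w v := by rw [hR]; exact hw
        have := D.τ_rl h hw'
        rw [hR] at this
        exact this
      · intro hx
        refine ⟨(τ ρ Φ h).symm x, ?_, (τ ρ Φ h).apply_symm_apply x⟩
        have h1 : Rl R.range (τ ρ Φ h ((τ ρ Φ h).symm x)) (τ ρ Φ h v) := by
          rw [(τ ρ Φ h).apply_symm_apply, hR]; exact hx
        have := D.τ_rl' h h1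
        rw [hR] at this
        exact this
    rw [← him, Set.ncard_image_of_injective _ (τ ρ Φ h).injective]
  rcases cover hv with h1 | h1 <;> rcases cover (iso_τ D h hv) with h2 | h2
  · exact Rl.trans h2 (Rl.symm h1)
  · exfalso
    rw [ob_eq h1, ob_eq h2, hcards.1, hcards.2] at key
    omega
  · exfalso
    rw [ob_eq h1, ob_eq h2, hcards.1, hcards.2] at key
    omega
  · exact Rl.trans h2 (Rl.symm h1)

theorem card_stab {H : Type u} [Group H] [Finite H] {ζ : H} {Q : Subgroup H} [Q.Normal] {V : Type u} [AddCommGroup V] {q : V → ZMod 2} {b : V → V → ZMod 2}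
    {ρ : H →* AddMonoid.End V} {π : Q → V} {M : Subgroup H} {Φ : V6 ≃+ V} {R : M →* G} (D : Dat ζ Q q b ρ π M Φ R)
    (hR : R.range = K0) (v : V6) (hv : Iso v) (hcards : (Ob K0 u2).ncard = 378 ∧ (Ob K0 w4).ncard = 1701)
    (S : Subgroup H) (hS : ∀ h, h ∈ S ↔ ρ h (Φ v) = Φ v) : Nat.card (S.map (QuotientGroup.mk' Q)) * (Ob K0 v).ncard = 19595520 := by
  have hQS : Q ≤ S := by
    intro x hx
    rw [hS, (D.ker x).2 hx]; rfl
  -- orbit-stabilizer
  let _ : MulAction H V6 :=
    { smul := fun h v => τ ρ Φ h v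
      one_smul := fun v => by
        change Φ.symm (ρ 1 (Φ v)) = v
        rw [map_one]; exact Φ.symm_apply_apply v
      mul_smul := fun g h v => by
        change Φ.symm (ρ (g * h) (Φ v)) = Φ.symm (ρ g (Φ (Φ.symm (ρ h (Φ v)))))
        rw [map_mul, Φ.apply_symm_apply]; rfl }
  have hst : MulAction.stabilizer H v = S := by
    ext h
    rw [MulAction.mem_stabilizer_iff, hS]
    constructor
    · intro h1
      have h2 : τ ρ Φ h v = v := h1
      rw [← Φ_τ, h2]
    · intro h1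
      exact Φ.injective (by change Φ (τ ρ Φ h v) = Φ v; rw [Φ_τ, h1])
  have horb : MulAction.orbit H v = Ob K0 v := by
    ext x
    constructor
    · rintro ⟨h, rfl⟩
      exact orb_eq D hR hv hcards h
    · intro hx
      have hx' : Rl R.range x v := by rw [hR]; exact hx
      obtain ⟨m, hm⟩ := D.rl.1 hx'
      refine ⟨(m : H), Φ.injective ?_⟩
      change Φ (τ ρ Φ (m : H) v) = Φ x
      rw [Φ_τ, hm]
  have h1 : (Ob K0 v).ncard = S.index := by
    rw [← horb, ← hst, ← Nat.card_coe_set_eq]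
    exact Nat.card_congr (MulAction.orbitEquivQuotientStabilizer H v)
  have h2 : S.index * Nat.card S = Nat.card H := S.index_mul_card
  have h3 : Nat.card (S.map (QuotientGroup.mk' Q)) * Nat.card Q = Nat.card S := by
    have e1 : (S.map (QuotientGroup.mk' Q)).index = S.index := by
      rw [Subgroup.index_map, QuotientGroup.ker_mk', sup_eq_left.2 hQS]
      have : (QuotientGroup.mk' Q).range = ⊤ := MonoidHom.range_eq_top.2 (QuotientGroup.mk'_surjective Q)
      rw [this, Subgroup.index_top, mul_one]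
    have e2 : (S.map (QuotientGroup.mk' Q)).index * Nat.card (S.map (QuotientGroup.mk' Q)) = Nat.card (H ⧸ Q) :=
      Subgroup.index_mul_card _
    have e3 : Nat.card H = Nat.card (H ⧸ Q) * Nat.card Q := Subgroup.card_eq_card_quotient_mul_card_subgroup Q
    have e4 : 0 < S.index := Nat.pos_of_ne_zero Subgroup.index_ne_zero_of_finite
    apply Nat.eq_of_mul_eq_mul_left e4
    rw [h2, e3, ← e2, e1]; ring
  have h4 : Nat.card R.range * Nat.card R.ker = Nat.card M := by
    rw [Subgroup.card_eq_card_quotient_mul_card_subgroup R.ker,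
      Nat.card_congr (QuotientGroup.quotientKerEquivRange R).toEquiv]
  have h5 : Nat.card R.ker = Nat.card Q := by
    have e : R.ker = Q.subgroupOf M := by
      ext m
      rw [MonoidHom.mem_ker, D.kerR, Subgroup.mem_subgroupOf]
    rw [e]
    exact Nat.card_congr (Subgroup.subgroupOfEquivOfLe D.QM).toEquiv
  obtain ⟨F9, _, _, hF9, hg⟩ := D.good
  have h6 : Nat.card R.range = 9797760 := card_good hF9 hg
  have h7 : M.index * Nat.card M = Nat.card H := M.index_mul_card
  rw [D.idx] at h7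
  have hQp : 0 < Nat.card Q := Nat.card_pos
  apply Nat.eq_of_mul_eq_mul_right hQp
  calc Nat.card (S.map (QuotientGroup.mk' Q)) * (Ob K0 v).ncard * Nat.card Q
      = S.index * (Nat.card (S.map (QuotientGroup.mk' Q)) * Nat.card Q) := by rw [h1]; ring
    _ = 2 * Nat.card M := by rw [h3, h2, h7]
    _ = 19595520 * Nat.card Q := by rw [← h4, h5, h6]; ring

end Cfsg.Agent.Lib.H87U3P
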