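import Cfsg.Agent.Lib.H97FaI

/-! S5443, piece X (helper10) -/

set_option autoImplicit false
set_option linter.unusedVariables false
open Matrix Cfsg Cfsg.Agent.Lib.K4 Cfsg.Agent.Lib.HermMat Cfsg.Agent.Lib.ClThreeTransU Cfsg.Agent.Lib.SU6K4
open Cfsg.Agent.Lib.U43 Cfsg.Agent.Lib.H97Fa Cfsg.Agent.Lib.H97FaF Cfsg.Agent.Lib.H97FaG Cfsg.Agent.Lib.H97FaI Cfsg.Agent.Lib.LargeExtra

universe u

namespace Cfsg.Agent.Lib.H87U3X

theorem mem_X {H : Type u} [Group H] {ζ : H} {Q : Subgroup H} [Q.Normal] {V : Type u} [AddCommGroup V] {q : V → ZMod 2} {b : V → V → ZMod 2}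
    {ρ : H →* AddMonoid.End V} {π : Q → V} {M : Subgroup H} {Φ : V6 ≃+ V} {R : M →* G} (D : Dat ζ Q q b ρ π M Φ R)
    (r : Q) (h1 : (r : H) ≠ 1) (hz : (r : H) ≠ ζ) (C : Subgroup H) (hC : ∀ h, h ∈ C ↔ h * r = r * h) (k : H) :
    QuotientGroup.mk' Q k ∈ C.map (QuotientGroup.mk' Q) ↔ ρ k (π r) = π r := by
  constructor
  · rintro ⟨c, hc, hck⟩
    have hc' : c * r = r * c := (hC c).1 hc
    have h2 : c⁻¹ * k ∈ Q := QuotientGroup.eq.1 hck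
    have h3 : ρ (c⁻¹ * k) = 1 := (D.ker _).2 h2
    have h4 : ρ c (π r) = π r := D.act c r r (by rw [hc', mul_inv_cancel_right])
    have h5 : ρ k = ρ c * ρ (c⁻¹ * k) := by rw [← map_mul, mul_inv_cancel_left]
    rw [h5, h3, mul_one, h4]
  · intro h
    obtain ⟨k', hk', h2⟩ := D.conj_iff k r r h1 hz h
    refine ⟨k * k', (hC _).2 (mul_inv_eq_iff_eq_mul.1 h2), ?_⟩
    refine QuotientGroup.eq.2 ?_
    rw [_root_.mul_inv_rev, inv_mul_cancel_right]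
    exact Q.inv_mem hk'

end Cfsg.Agent.Lib.H87U3X
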