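import Cfsg.Agent.Lib.H89MO
import Cfsg.Agent.Lib.K4

/-! S5443, piece Z (helper10) -/

set_option autoImplicit false
set_option linter.unusedVariables false
open Matrix Cfsg Cfsg.Agent.Lib.K4

universe u

namespace Cfsg.Agent.Lib.H87U3Z

theorem fin {Γ : Type u} [Group Γ] [Finite Γ] (N : Subgroup Γ) [N.Normal] (e : Nonempty (N ≃* PSU 4 K4 2)) (hc : Nat.card Γ = 51840)
    (hC : ∀ x : Γ, x ∉ N → x * x = 1 → (∀ n ∈ N, x * n = n * x) → False) :
    Nonempty (Γ ≃* Cfsg.isometryGroup (ZMod 2) (Cfsg.quadFormMinus 2 (ZMod 2) 1 1)) := by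
  have hF : Fintype.card K4 = 2 ^ 2 := by rw [card_K4]; norm_num
  obtain ⟨e⟩ := e
  obtain ⟨e2⟩ := H89MO.iso_Omm hF
  obtain ⟨e3⟩ := H89MO.iso_aut hF
  -- the centre of N is trivial
  have hZ : ∀ x ∈ N, (∀ n ∈ N, x * n = n * x) → x = 1 := by
    intro x hx h
    have h1 : e2.symm (e ⟨x, hx⟩) ∈ Subgroup.center (H89MO.Omm) := by
      rw [Subgroup.mem_center_iff]
      intro g
      have h2 : (⟨x, hx⟩ : N) * (e.symm (e2 g)) = (e.symm (e2 g)) * ⟨x, hx⟩ :=
        Subtype.ext (h _ (e.symm (e2 g)).2)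
      have h3 := congrArg (fun w => e2.symm (e w)) h2
      simp only [map_mul, MulEquiv.apply_symm_apply, MulEquiv.symm_apply_apply] at h3
      exact h3.symm
    rw [H89MO.center_Omm hF, Subgroup.mem_bot] at h1
    have h4 : (⟨x, hx⟩ : N) = 1 := by
      apply e.injective
      apply e2.symm.injective
      rw [h1, map_one, map_one]
    exact congrArg Subtype.val h4
  have hcN : Nat.card N = 25920 := by rw [Nat.card_congr e.toEquiv, H89MV.card_PSU42 hF]
  have hix : N.index = 2 := by
    have := Subgroup.card_mul_index N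
    rw [hcN, hc] at this
    omega
  let f : Γ →* MulAut (PSU 4 K4 2) := (MulAut.congr e).toMonoidHom.comp MulAut.conjNormal
  have hcomm : ∀ x : Γ, MulAut.conjNormal (H := N) x = 1 → ∀ n ∈ N, x * n = n * x := by
    intro g hg h hh
    have h1 : MulAut.conjNormal (H := N) g ⟨h, hh⟩ = ⟨h, hh⟩ := by rw [hg]; rfl
    have h2 : g * h * g⁻¹ = h := congrArg Subtype.val h1
    exact mul_inv_eq_iff_eq_mul.1 h2
  have hinj : Function.Injective f := by
    refine (MulAut.congr e).injective.comp ?_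
    rw [injective_iff_map_eq_one]
    intro x hx
    have h1 := hcomm x hx
    by_cases hxN : x ∈ N
    · exact hZ x hxN h1
    · exfalso
      have h2 : x * x ∈ N := Subgroup.mul_self_mem_of_index_two hix x
      have h3 : x * x = 1 := by
        apply hZ _ h2
        intro n hn
        rw [mul_assoc, h1 n hn, ← mul_assoc, h1 n hn, mul_assoc]
      exact hC x hxN h3 h1
  have h3 : Function.Bijective f := by
    haveI : Finite (MulAut (PSU 4 K4 2)) := Finite.of_equiv _ e3.toEquiv
    rw [Nat.bijective_iff_injective_and_card]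
    refine ⟨hinj, ?_⟩
    rw [hc, ← Nat.card_congr e3.toEquiv, H89MO.card_OO]
  exact ⟨(MulEquiv.ofBijective f h3).trans e3.symm⟩

end Cfsg.Agent.Lib.H87U3Z
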