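import Cfsg.Agent.Lib.H89CN

/-!
# Explicit actions on the fixed classes of the Leech lattice modulo 2 (helper89)
-/

set_option autoImplicit false
set_option linter.all false

namespace Cfsg.Agent.Lib.H89Act

open Cfsg Cfsg.Agent.Lib.Golay Cfsg.Agent.Lib.LeechMin Cfsg.Agent.Lib.H89LeechMat Cfsg.Agent.Lib.H89Mon1
  Cfsg.Agent.Lib.LeechQuot Cfsg.Agent.Lib.LeechOrder Cfsg.Agent.Lib.H89Mono Cfsg.Agent.Lib.H89FixRank
  Cfsg.Agent.Lib.H89FixTab Cfsg.Agent.Lib.LeechFrame Cfsg.Agent.Lib.H89Q2 Cfsg.Agent.Lib.H89Stab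
  Cfsg.Agent.Lib.LeechTrans Cfsg.Agent.Lib.LeechCo2 Cfsg.Agent.Lib.H89CN
open scoped Pointwise

/-- the classes -/
noncomputable def XX (U : List ℕ) (r a : ℕ) : Q2 := q2 (cmb U r a)

theorem XX_xor (U : List ℕ) (r a b : ℕ) : XX U r (a ^^^ b) = XX U r a + XX U r b := q2_cmb_xor _ _ _ _

theorem XX_zero (U : List ℕ) (r : ℕ) : XX U r 0 = 0 := by
  have := XX_xor U r 0 0
  rw [Nat.xor_self, q2_self] at this
  exact this

theorem XX_two (U : List ℕ) {r j : ℕ} (hj : j < r) : XX U r (2 ^ j) = q2 (lw (U.getD j 0)) := by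
  unfold XX cmb
  rw [Finset.sum_eq_single j]
  · rw [Nat.testBit_two_pow_self, if_pos rfl]
  · intro k _ hk
    rw [Nat.testBit_two_pow_of_ne (Ne.symm hk), if_neg (by simp)]
  · intro h; exact absurd (Finset.mem_range.2 hj) h

theorem XX_sum (U : List ℕ) (r a : ℕ) :
    XX U r a = ∑ j ∈ Finset.range r, if a.testBit j = true then XX U r (2 ^ j) else 0 := by
  have h1 : XX U r a = (QuotientAddGroup.mk' D2) (cmb U r a) := rfl
  rw [h1]
  unfold cmb
  rw [map_sum]
  apply Finset.sum_congr rfl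
  intro k hk
  split_ifs with h
  · rw [XX_two U (Finset.mem_range.1 hk)]; rfl
  · exact map_zero _

/-- the linear map with given images of the basis -/
def lin (r : ℕ) (A : List ℕ) (a : ℕ) : ℕ :=
  Nat.rec (motive := fun _ => ℕ) 0 (fun j ih => cond (Nat.testBit a j) (Nat.xor ih (A.getD j 0)) ih) r

theorem XX_lin (U : List ℕ) (r n : ℕ) (A : List ℕ) (a : ℕ) :
    XX U r (lin n A a) = ∑ j ∈ Finset.range n, if a.testBit j = true then XX U r (A.getD j 0) else 0 := by
  induction n with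
  | zero => exact XX_zero U r
  | succ n ih =>
    rw [Finset.sum_range_succ, ← ih]
    show XX U r (cond (Nat.testBit a n) (Nat.xor (lin n A a) (A.getD n 0)) (lin n A a)) = _
    cases h : Nat.testBit a n
    · rw [cond_false, if_neg (by simp), add_zero]
    · rw [cond_true, if_pos rfl]
      exact XX_xor U r _ _

theorem smul_XX {U : List ℕ} {r : ℕ} {g : Co0} {A : List ℕ} (hA : ∀ j < r, g • XX U r (2 ^ j) = XX U r (A.getD j 0)) (a : ℕ) :
    g • XX U r a = XX U r (lin r A a) := by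
  rw [XX_lin, XX_sum]
  show a2 g (∑ j ∈ Finset.range r, if a.testBit j = true then XX U r (2 ^ j) else 0) = _
  rw [map_sum]
  apply Finset.sum_congr rfl
  intro j hj
  split_ifs with h
  · exact hA j (Finset.mem_range.1 hj)
  · exact map_zero _

theorem lin_lt {r : ℕ} {A : List ℕ} (hA : ∀ j < r, A.getD j 0 < 2 ^ r) (a : ℕ) : lin r A a < 2 ^ r := by
  have h : ∀ n ≤ r, lin n A a < 2 ^ r := by
    intro n hn
    induction n with
    | zero => exact Nat.two_pow_pos r
    | succ n ih =>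
      show (cond (Nat.testBit a n) (Nat.xor (lin n A a) (A.getD n 0)) (lin n A a)) < 2 ^ r
      cases h : Nat.testBit a n
      · exact ih (by omega)
      · exact Nat.xor_lt_two_pow (ih (by omega)) (hA n (by omega))
  exact h r le_rfl

/-! ### the dual basis -/

def dualOK (r : ℕ) (U W : List ℕ) : Bool := allLt r fun i => cond (latC (W.getD i 0)) (allLt r fun j =>
  decide (Int.emod (Int.ediv (idot (U.getD j 0) (W.getD i 0)) 8) 2 = if i = j then 1 else 0)) false

theorem zmod_of_emod {t : ℤ} {b : Bool} (h : t % 2 = cond b 1 0) : ((t : ℤ) : ZMod 2) = if b = true then 1 else 0 := by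
  have h4 : ((t : ℤ) : ZMod 2) = ((t % 2 : ℤ) : ZMod 2) := by
    rw [ZMod.intCast_eq_intCast_iff_dvd_sub]
    have := Int.emod_add_mul_ediv t 2
    exact ⟨-(t / 2), by omega⟩
  rw [h4, h]
  cases b <;> simp

theorem dual_spec {r : ℕ} {U W : List ℕ} (hU : ∀ k < r, latC (U.getD k 0) = true) (h : dualOK r U W = true) {i j : ℕ}
    (hi : i < r) (hj : j < r) : fB (lw (W.getD i 0)) (XX U r (2 ^ j)) = if i = j then 1 else 0 := by
  obtain ⟨h1, h2⟩ := cond_false_eq.mp (allLt_iff.mp h i hi)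
  have h3 := of_decide_eq_true (allLt_iff.mp h2 j hj)
  rw [XX_two U hj, fB_q2, dt_apply, coe_lw (hU j hj), coe_lw h1, idot_eq]
  have h4 : idot (U.getD j 0) (W.getD i 0) / 8 % 2 = cond (decide (i = j)) 1 0 := by
    have : Int.emod (Int.ediv (idot (U.getD j 0) (W.getD i 0)) 8) 2 = idot (U.getD j 0) (W.getD i 0) / 8 % 2 := rfl
    rw [this] at h3
    rw [h3]
    by_cases hij : i = j
    · rw [if_pos hij, decide_eq_true hij]; rfl
    · rw [if_neg hij, decide_eq_false hij]; rfl
  rw [zmod_of_emod h4]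
  simp

theorem bit_XX {r : ℕ} {U W : List ℕ} (hU : ∀ k < r, latC (U.getD k 0) = true) (h : dualOK r U W = true) {i : ℕ}
    (hi : i < r) (a : ℕ) : fB (lw (W.getD i 0)) (XX U r a) = if a.testBit i = true then 1 else 0 := by
  rw [XX_sum, map_sum, Finset.sum_eq_single i]
  · split_ifs with h1
    · rw [dual_spec hU h hi hi, if_pos rfl]
    · exact map_zero _
  · intro k hk hki
    split_ifs with h1
    · rw [dual_spec hU h hi (Finset.mem_range.1 hk), if_neg (Ne.symm hki)]
    · exact map_zero _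
  · intro h; exact absurd (Finset.mem_range.2 hi) h

theorem bits_ext {r a b : ℕ} (ha : a < 2 ^ r) (hb : b < 2 ^ r) (h : ∀ i < r, a.testBit i = b.testBit i) : a = b := by
  apply Nat.eq_of_testBit_eq
  intro i
  by_cases hi : i < r
  · exact h i hi
  · rw [Nat.testBit_eq_false_of_lt (lt_of_lt_of_le ha (Nat.pow_le_pow_right (by norm_num) (by omega))),
      Nat.testBit_eq_false_of_lt (lt_of_lt_of_le hb (Nat.pow_le_pow_right (by norm_num) (by omega)))]

theorem ite_bool_inj {b b' : Bool} (h : (if b = true then (1 : ZMod 2) else 0) = if b' = true then 1 else 0) : b = b' := by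
  revert h; cases b <;> cases b' <;> decide

section
variable {c r n : ℕ} {ob st U S W : List ℕ} (hM : inM c = true) (ho : orbOK c r n ob st = true)
  (ht : tabOK c r U S = true) (hd : dualOK r U W = true)
include hM ho ht hd

theorem eq_XX {x : Q2} (hx : x ∈ FixS (pC c hM)) {a : ℕ} (ha : a < 2 ^ r)
    (h : ∀ i < r, fB (lw (W.getD i 0)) x = if a.testBit i = true then 1 else 0) : x = XX U r a := by
  obtain ⟨b, hb, rfl⟩ := exists_cmb hM ho ht hx
  have : b = a := bits_ext hb ha fun i hi => by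
    apply ite_bool_inj
    rw [← h i hi, ← bit_XX (fun k hk => tab_U ht hk) hd hi]
    rfl
  rw [this]; rfl

end

/-! ### monomial elements -/

/-- inner product of the image of a coded vector with a coded vector -/
def mdot (s m a w : ℕ) : ℤ := zs 24 fun i => cond (Nat.testBit m (img s i)) (Int.neg (Int.mul (dv a i) (dv w (img s i))))
  (Int.mul (dv a i) (dv w (img s i)))

theorem dt_mono {s m a w : ℕ} (hs : valid s = true) (ha : latC a = true) (hw : latC w = true) {g : Co0}
    (hg : ∀ v : leechLattice, ((g • v : leechLattice) : GolayPt → ℤ) = signedPerm (toPerm s) (mset m) v) :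
    dt (g • lw a) (lw w) = mdot s m a w := by
  rw [dt_apply, hg, coe_lw ha, coe_lw hw]
  unfold mdot dotInt
  rw [zs_eq, ← sum_ix, ← Equiv.sum_comp (toPerm s)]
  apply Finset.sum_congr rfl
  intro p _
  rw [signedPerm_apply]
  have h1 : vv w (toPerm s p) = dv w (img s (ix p)) := by
    unfold vv
    rw [ix_toPerm hs]
  have h2 : (toPerm s)⁻¹ (toPerm s p) = p := Equiv.symm_apply_apply _ _
  have h3 : toPerm s p ∈ mset m ↔ Nat.testBit m (img s (ix p)) = true := by
    rw [mem_mset, ix_toPerm hs]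
  rw [h1]
  cases h4 : Nat.testBit m (img s (ix p))
  · rw [h4] at h3
    have h5 : toPerm s p ∉ mset m := fun h => by simpa using h3.1 h
    simp only [chi, cond_false, h2, h5, if_false]
    show _ = dv a (ix p) * _
    simp [vv]
  · rw [h4] at h3
    have h5 : toPerm s p ∈ mset m := h3.2 rfl
    simp only [chi, cond_true, h2, h5, if_true]
    show _ = - (dv a (ix p) * _)
    simp [vv]

def actOK (s m r : ℕ) (U W A : List ℕ) : Bool := allLt r fun j => cond (Nat.blt (A.getD j 0) (2 ^ r))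
  (allLt r fun i => decide (Int.emod (Int.ediv (mdot s m (U.getD j 0) (W.getD i 0)) 8) 2 =
    cond (Nat.testBit (A.getD j 0) i) 1 0)) false

theorem act_lt {s m r : ℕ} {U W A : List ℕ} (h : actOK s m r U W A = true) {j : ℕ} (hj : j < r) : A.getD j 0 < 2 ^ r := by
  have h1 := (cond_false_eq.mp (allLt_iff.mp h j hj)).1
  rwa [Nat.blt_eq] at h1

section
variable {c r n : ℕ} {ob st U S W : List ℕ} (hM : inM c = true) (ho : orbOK c r n ob st = true)
  (ht : tabOK c r U S = true) (hd : dualOK r U W = true)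
include hM ho ht hd

theorem act_spec {s m : ℕ} {A : List ℕ} (h : actOK s m r U W A = true) (hs : valid s = true) {g : Co0}
    (hg : ∀ v : leechLattice, ((g • v : leechLattice) : GolayPt → ℤ) = signedPerm (toPerm s) (mset m) v)
    (hc : g * pC c hM = pC c hM * g) {j : ℕ} (hj : j < r) : g • XX U r (2 ^ j) = XX U r (A.getD j 0) := by
  obtain ⟨h1, h2⟩ := cond_false_eq.mp (allLt_iff.mp h j hj)
  have hx : g • XX U r (2 ^ j) ∈ FixS (pC c hM) := smul_mem_FixS hc (cmb_mem_FixS hM ht _)
  refine eq_XX hM ho ht hd hx (act_lt h hj) fun i hi => ?_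
  have h3 := of_decide_eq_true (allLt_iff.mp h2 i hi)
  rw [XX_two U hj, smul_q2, fB_q2, dt_mono hs (tab_U ht hj) (cond_false_eq.mp (allLt_iff.mp hd i hi)).1 hg]
  exact zmod_of_emod h3

end

/-! ### blocks of classes -/

/-- the classes with index in a bit set -/
def Bk (U : List ℕ) (r M : ℕ) : Set Q2 := {x | ∃ a < 2 ^ r, Nat.testBit M a = true ∧ x = XX U r a}

def blkOK (r : ℕ) (A : List ℕ) (M M' : ℕ) : Bool :=
  allLt (2 ^ r) fun a => cond (Nat.testBit M a) (Nat.testBit M' (lin r A a)) true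

section
variable {c r n : ℕ} {ob st U S W : List ℕ} (hM : inM c = true) (ho : orbOK c r n ob st = true)
  (ht : tabOK c r U S = true) (hd : dualOK r U W = true)
include ht

theorem XX_inj {a b : ℕ} (ha : a < 2 ^ r) (hb : b < 2 ^ r) (h : XX U r a = XX U r b) : a = b := cmb_inj ht ha hb h

theorem mem_Bk {M a : ℕ} (ha : a < 2 ^ r) : XX U r a ∈ Bk U r M ↔ Nat.testBit M a = true := by
  constructor
  · rintro ⟨b, hb, h, e⟩
    rw [XX_inj ht ha hb e]; exact h
  · intro h; exact ⟨a, ha, h, rfl⟩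

theorem ncard_Bk (M : ℕ) : (Bk U r M).ncard = cntLt (2 ^ r) (fun a => Nat.testBit M a) := by
  rw [cntLt_eq]
  have h1 : Bk U r M = (fun a => XX U r a) '' (((Finset.range (2 ^ r)).filter fun a => Nat.testBit M a = true : Finset ℕ) : Set ℕ) := by
    ext x
    constructor
    · rintro ⟨a, ha, h, rfl⟩
      exact ⟨a, by rw [Finset.mem_coe, Finset.mem_filter, Finset.mem_range]; exact ⟨ha, h⟩, rfl⟩
    · rintro ⟨a, ha, rfl⟩
      rw [Finset.mem_coe, Finset.mem_filter, Finset.mem_range] at ha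
      exact ⟨a, ha.1, ha.2, rfl⟩
  rw [h1, Set.InjOn.ncard_image, Set.ncard_coe_finset]
  intro a ha b hb h
  rw [Finset.mem_coe, Finset.mem_filter, Finset.mem_range] at ha hb
  exact XX_inj ht ha.1 hb.1 h

theorem smul_Bk {A : List ℕ} {M M' : ℕ} (h : blkOK r A M M' = true) (hlt : ∀ j < r, A.getD j 0 < 2 ^ r)
    (hcard : cntLt (2 ^ r) (fun a => Nat.testBit M a) = cntLt (2 ^ r) (fun a => Nat.testBit M' a)) {g : Co0}
    (hA : ∀ j < r, g • XX U r (2 ^ j) = XX U r (A.getD j 0)) : g • Bk U r M = Bk U r M' := by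
  haveI : Finite Q2 := finite_Q2
  refine Set.eq_of_subset_of_ncard_le ?_ ?_ (Set.toFinite _)
  · rintro _ ⟨x, ⟨a, ha, h1, rfl⟩, rfl⟩
    have h2 := allLt_iff.mp h a ha
    rw [h1, cond_true] at h2
    exact ⟨lin r A a, lin_lt hlt a, h2, smul_XX hA a⟩
  · have : (g • Bk U r M).ncard = (Bk U r M).ncard := Set.ncard_image_of_injective _ (MulAction.injective g)
    rw [this, ncard_Bk ht, ncard_Bk ht, hcard]

end

theorem negOne_smul2 (x : Q2) : negOne • x = x := by
  obtain ⟨v, rfl⟩ := QuotientAddGroup.mk_surjective x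
  show q2 (negOne • v) = q2 v
  rw [negOne_smul, q2_eq_iff]
  exact ⟨-v, by abel⟩

theorem smul_FixS {β : Co0} {x : Q2} (hx : x ∈ FixS β) : β • x = x := by
  obtain ⟨v, hv, rfl⟩ := hx
  show β • q2 v = q2 v
  rw [smul_q2, mem_FL.1 hv]

theorem negOne_ne_one : negOne ≠ 1 := by
  intro h
  have h1 : negOne • ef none = ef none := by rw [h, one_smul]
  rw [negOne_smul] at h1
  have h2 := congrFun (congrArg Subtype.val h1) none
  have h3 : (-(ef none : GolayPt → ℤ)) none = (ef none : GolayPt → ℤ) none := h2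
  rw [coe_ef, Pi.neg_apply, Pi.single_eq_same] at h3
  norm_num at h3

theorem negOne_ne_zpow {β : Co0} {p : ℕ} (hp : Odd p) (hβ : β ^ p = 1) (k : ℤ) : negOne ≠ β ^ k := by
  intro h
  have h1 : negOne ^ p = negOne := by
    obtain ⟨m, hm⟩ := hp
    rw [hm, pow_succ, pow_mul, pow_two, negOne_sq, one_pow, one_mul]
  have h2 : negOne ^ p = 1 := by
    rw [h, ← zpow_natCast, ← zpow_mul, mul_comm, zpow_mul, zpow_natCast, hβ, one_zpow]
  exact negOne_ne_one (h1.symm.trans h2)

/-- code of a monomial element commuting with a coordinate permutation, together with its action on the classes -/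
def elOK (c s m r : ℕ) (U W A : List ℕ) : Bool :=
  cond (inM s) (cond (Nat.beq (mulC s c) (mulC c s)) (cond (cond (cond (isCode m) (Nat.blt m 16777216) false)
    (Nat.beq (imgM c m) m) false) (actOK s m r U W A) false) false) false

theorem exists_el {c r n : ℕ} {ob st U S W : List ℕ} (hM : inM c = true) (ho : orbOK c r n ob st = true)
    (ht : tabOK c r U S = true) (hd : dualOK r U W = true) {s m : ℕ} {A : List ℕ} (h : elOK c s m r U W A = true) :
    ∃ g : Co0, g * pC c hM = pC c hM * g ∧ g ∈ N ∧ (∀ j < r, g • XX U r (2 ^ j) = XX U r (A.getD j 0)) ∧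
      ∀ j < r, A.getD j 0 < 2 ^ r := by
  obtain ⟨h1, h⟩ := cond_false_eq.mp h
  obtain ⟨h2, h⟩ := cond_false_eq.mp h
  obtain ⟨h3, h⟩ := cond_false_eq.mp h
  obtain ⟨h4, h5⟩ := cond_false_eq.mp h3
  obtain ⟨h6, h7⟩ := cond_false_eq.mp h4
  rw [Nat.blt_eq] at h7
  have hS : mset m ∈ Sup := (mset_mem_supports_iff h7).2 h6
  have hcm : toPerm s * toPerm c = toPerm c * toPerm s := by
    rw [← toPerm_mulC (valid_of_inM h1) (valid_of_inM hM), Nat.eq_of_beq_eq_true h2,
      toPerm_mulC (valid_of_inM hM) (valid_of_inM h1)]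
  have hfx : toPerm c • mset m = mset m := by
    rw [toPerm_smul_mset (valid_of_inM hM), Nat.eq_of_beq_eq_true h5]
  have hc : mo (toPerm s) (toPerm_mem_M24 h1) (mset m) hS * pC c hM = pC c hM * mo (toPerm s) (toPerm_mem_M24 h1) (mset m) hS :=
    mo_comm _ _ (toPerm_mem_M24 hM) hcm hfx
  exact ⟨_, hc, mo_mem _ _, fun j hj => act_spec hM ho ht hd h (valid_of_inM h1) (fun v => rfl) hc hj,
    fun j hj => act_lt h hj⟩

end Cfsg.Agent.Lib.H89Act
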