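import Cfsg.Agent.Lib.H89Stab

/-!
# Centralizers of coordinate permutations in `Co0`: the action on the classes of type 4 (helper89)
-/

set_option autoImplicit false
set_option linter.all false

namespace Cfsg.Agent.Lib.H89CN

open Cfsg Cfsg.Agent.Lib.Golay Cfsg.Agent.Lib.LeechMin Cfsg.Agent.Lib.H89LeechMat Cfsg.Agent.Lib.H89Mon1
  Cfsg.Agent.Lib.LeechQuot Cfsg.Agent.Lib.LeechOrder Cfsg.Agent.Lib.H89Mono Cfsg.Agent.Lib.H89FixRank
  Cfsg.Agent.Lib.H89FixTab Cfsg.Agent.Lib.LeechFrame Cfsg.Agent.Lib.H89Q2 Cfsg.Agent.Lib.H89Stab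
  Cfsg.Agent.Lib.LeechTrans Cfsg.Agent.Lib.LeechCo2
open scoped Pointwise

/-- monomial elements -/
def mo (σ : Equiv.Perm GolayPt) (hσ : σ ∈ M24) (c : Finset GolayPt) (hc : c ∈ Sup) : Co0 :=
  ⟨mono σ hσ c hc, mono_mem _ _ _ _⟩

theorem mo_smul {σ : Equiv.Perm GolayPt} (hσ : σ ∈ M24) {c : Finset GolayPt} (hc : c ∈ Sup) (v : leechLattice) :
    ((mo σ hσ c hc • v : leechLattice) : GolayPt → ℤ) = signedPerm σ c v := rfl

theorem mo_mem {σ : Equiv.Perm GolayPt} (hσ : σ ∈ M24) {c : Finset GolayPt} (hc : c ∈ Sup) : mo σ hσ c hc ∈ N :=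
  ⟨σ, hσ, c, hc, fun v => rfl⟩

theorem mo_comm {σ τ : Equiv.Perm GolayPt} (hσ : σ ∈ M24) {c : Finset GolayPt} (hc : c ∈ Sup) (hτ : τ ∈ M24)
    (h : σ * τ = τ * σ) (h2 : τ • c = c) :
    mo σ hσ c hc * permHom ⟨τ, hτ⟩ = permHom ⟨τ, hτ⟩ * mo σ hσ c hc := by
  apply ext_smul
  intro v
  apply Subtype.ext
  rw [mul_smul, mul_smul, mo_smul, permHom_smul, permHom_smul, mo_smul, signedPerm_signedPerm, signedPerm_signedPerm]
  show signedPerm (σ * τ) (symmDiff c (σ • (∅ : Finset GolayPt))) v = signedPerm (τ * σ) (symmDiff ∅ (τ • c)) v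
  rw [h, h2, Finset.smul_finset_empty]
  congr 1
  exact (symmDiff_bot c).trans (bot_symmDiff c).symm

theorem stab_ge {c : ℕ} (hM : inM c = true) {F : List ℕ} (hnd : F.Nodup)
    (hF : (F.all fun o => cond (cond (isCode o) (Nat.blt o 16777216) false) (Nat.beq (imgM c o) o) false) = true)
    (P : Subgroup (Equiv.Perm GolayPt)) (hP : ∀ σ ∈ P, σ ∈ M24 ∧ σ * toPerm c = toPerm c * σ) :
    Nat.card P * F.length ≤ Nat.card (MulAction.stabilizer (Subgroup.centralizer ({pC c hM} : Set Co0)) p1) := by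
  have hF' : ∀ i : Fin F.length, isCode (F.get i) = true ∧ F.get i < 2 ^ 24 ∧ imgM c (F.get i) = F.get i := by
    intro i
    obtain ⟨h1, h2⟩ := cond_false_eq.mp (List.all_eq_true.mp hF (F.get i) (List.get_mem F i))
    obtain ⟨h3, h4⟩ := cond_false_eq.mp h1
    exact ⟨h3, by rw [Nat.blt_eq] at h4; exact h4, Nat.eq_of_beq_eq_true h2⟩
  have hS : ∀ i : Fin F.length, mset (F.get i) ∈ Sup := fun i => (mset_mem_supports_iff (hF' i).2.1).2 (hF' i).1
  have hfx : ∀ i : Fin F.length, toPerm c • mset (F.get i) = mset (F.get i) := by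
    intro i
    rw [toPerm_smul_mset (valid_of_inM hM), (hF' i).2.2]
  let f : P × Fin F.length → MulAction.stabilizer (Subgroup.centralizer ({pC c hM} : Set Co0)) p1 := fun x =>
    ⟨⟨mo x.1.1 (hP _ x.1.2).1 (mset (F.get x.2)) (hS x.2), Subgroup.mem_centralizer_singleton_iff.2
      (mo_comm _ _ (toPerm_mem_M24 hM) (hP _ x.1.2).2 (hfx x.2))⟩,
      mem_N_iff_p1.1 (mo_mem _ _)⟩
  have hf : Function.Injective f := by
    intro x y h
    have h1 : mo x.1.1 (hP _ x.1.2).1 (mset (F.get x.2)) (hS x.2) = mo y.1.1 (hP _ y.1.2).1 (mset (F.get y.2)) (hS y.2) :=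
      congrArg (fun t => ((t : MulAction.stabilizer (Subgroup.centralizer ({pC c hM} : Set Co0)) p1).1.1)) h
    obtain ⟨h2, h3⟩ := signedPerm_inj (σ := x.1.1) (τ := y.1.1) (c := mset (F.get x.2)) (d := mset (F.get y.2))
      fun v => by rw [← mo_smul (hP _ x.1.2).1 (hS x.2), ← mo_smul (hP _ y.1.2).1 (hS y.2), h1]
    have h4 := mset_injOn (hF' x.2).2.1 (hF' y.2).2.1 h3
    exact Prod.ext (Subtype.ext h2) (hnd.get_inj_iff.1 h4)
  have h1 := Nat.card_le_card_of_injective f hf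
  rwa [Nat.card_prod, Nat.card_fin] at h1

theorem card_eq {c : ℕ} (hM : inM c = true) :
    Nat.card (Subgroup.centralizer ({pC c hM} : Set Co0)) =
    Nat.card (MulAction.stabilizer (Subgroup.centralizer ({pC c hM} : Set Co0)) p1) *
      (MulAction.orbit (Subgroup.centralizer ({pC c hM} : Set Co0)) p1).ncard := by
  rw [← MulAction.index_stabilizer, Subgroup.card_mul_index]

/-- order of the monomial group -/
theorem card_N : Nat.card N = 4096 * 244823040 := by
  rw [← card_stab_cross]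
  refine Nat.card_congr (Equiv.subtypeEquivRight fun g => ?_)
  constructor
  · rintro ⟨σ, hσ, c, hc, h⟩ v hv
    rw [h]; exact mono_stdCross hv
  · intro h
    exact exists_mono h

/-- an element of `N` of prime order `p` whose square does not divide `|N|` can be moved to `β`, together with the
standard class -/
theorem exists_conj {β : Co0} {p : ℕ} [Fact p.Prime] (hN : β ∈ N) (hβ : orderOf β = p)
    (hp : (Nat.card N).factorization p = 1) {x : Q2} (hx : x ∈ T4 β) :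
    ∃ h : Co0, ∃ k : ℤ, h * β ^ k * h⁻¹ = β ∧ h • x = p1 := by
  obtain ⟨hx1, v, hv, hvx⟩ := hx
  have hv' : sqNorm (v : GolayPt → ℤ) = 64 := hv
  obtain ⟨g, hg⟩ := transitive (v := v) (w := ef none) (by
    intro h
    have : (v : GolayPt → ℤ) = 0 := congrArg Subtype.val h
    rw [this] at hv'; simp [sqNorm] at hv') (le_of_eq hv') (by rw [coe_ef, sqNorm_single]; exact hv'.trans (by norm_num))
  have hgx : g • x = p1 := by rw [← hvx, smul_q2, hg]; rfl
  have hβx : β • x = x := by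
    obtain ⟨w, hw, hwx⟩ := hx1
    rw [← hwx]
    show β • q2 w = q2 w
    rw [smul_q2, mem_FL.1 hw]
  have hγ : g * β * g⁻¹ ∈ N := by
    rw [mem_N_iff_p1, mul_smul, mul_smul, ← hgx, inv_smul_smul, hβx]
  have hoγ : orderOf (g * β * g⁻¹) = p := by
    rw [← hβ]
    exact orderOf_injective (MulAut.conj g).toMonoidHom (MulAut.conj g).injective β
  obtain ⟨n, hn, k, hk⟩ := conj_of_card hγ hN hoγ hβ hp
  refine ⟨n * g, k, ?_, ?_⟩
  · have : (g * β * g⁻¹) ^ k = g * β ^ k * g⁻¹ := by rw [conj_zpow]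
    rw [this] at hk
    calc n * g * β ^ k * (n * g)⁻¹ = n * (g * β ^ k * g⁻¹) * n⁻¹ := by group
      _ = β := hk
  · rw [mul_smul, hgx]
    exact mem_N_iff_p1.1 hn

end Cfsg.Agent.Lib.H89CN
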