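import Cfsg.Agent.Lib.LeechOrder
import Cfsg.Agent.Lib.GolayPairs
import Cfsg.Agent.Lib.LeechCo2b

/-!
A normal 2-subgroup of the stabilizer in `Co0` of a minimal vector is trivial (helper89).
-/

set_option autoImplicit false
set_option linter.all false

namespace Cfsg.Agent.Lib.H89Co2Core

open Cfsg Cfsg.Agent.Lib.Golay Cfsg.Agent.Lib.LeechMin Cfsg.Agent.Lib.LeechTrans Cfsg.Agent.Lib.LeechCo2
  Cfsg.Agent.Lib.LeechFrame Cfsg.Agent.Lib.LeechOrder
open scoped Pointwise

theorem oct0_card : (mset 8536111).card = 8 := by decide +kernel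

theorem oct0_Sup : mset 8536111 ∈ Sup := oct0_mem.1

/-- octads containing `s` and avoiding `t` -/
theorem exists_sep {s t : Finset GolayPt} (hd : Disjoint s t) (hc : s.card + t.card ≤ 5) :
    ∃ o ∈ Sup, o.card = 8 ∧ s ⊆ o ∧ Disjoint t o := by
  obtain ⟨s', hs', hs'c⟩ := Finset.exists_subset_card_eq (s := mset 8536111) (n := s.card) (by rw [oct0_card]; omega)
  obtain ⟨t', ht', ht'c⟩ := Finset.exists_subset_card_eq (s := (mset 8536111)ᶜ) (n := t.card) (by
    rw [Finset.card_compl, card_pt, oct0_card]; omega)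
  have hd' : Disjoint s' t' := by
    rw [Finset.disjoint_left]
    intro x hx hx'
    exact (Finset.mem_compl.1 (ht' hx')) (hs' hx)
  obtain ⟨g, hg, h1, h2⟩ := exists_smul_pair (s := s) (t := t) (s' := s') (t' := t') hs'c.symm ht'c.symm
    (by rw [Finset.disjoint_iff_inter_eq_empty.1 hd, Finset.disjoint_iff_inter_eq_empty.1 hd'])
    (by rw [Finset.card_union_of_disjoint hd]; exact hc)
  refine ⟨g⁻¹ • mset 8536111, smul_mem_Sup (M24.inv_mem hg) oct0_Sup, ?_, ?_, ?_⟩
  · rw [Finset.card_smul_finset, oct0_card]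
  · intro x hx
    rw [← Finset.smul_mem_smul_finset_iff g, smul_inv_smul]
    apply hs'
    rw [← h1]
    exact Finset.smul_mem_smul_finset hx
  · rw [Finset.disjoint_left]
    intro x hx hx'
    have h3 : g • x ∈ mset 8536111 := by
      rw [← Finset.smul_mem_smul_finset_iff g, smul_inv_smul] at hx'
      exact hx'
    have h4 : g • x ∈ t' := by
      rw [← h2]; exact Finset.smul_mem_smul_finset hx
    exact (Finset.mem_compl.1 (ht' h4)) h3

/-- the pair of opposite vectors -/
def Pp (w : leechLattice) : Set leechLattice := {w, -w}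

theorem smul_Pp (g : Co0) (w : leechLattice) : g • Pp w = Pp (g • w) := by
  unfold Pp
  rw [Set.smul_set_insert, Set.smul_set_singleton, smul_neg']

theorem Pp_eq_iff {v w : leechLattice} : Pp v = Pp w ↔ v = w ∨ v = -w := by
  unfold Pp
  constructor
  · intro h
    have h1 : v ∈ ({w, -w} : Set leechLattice) := by rw [← h]; exact Set.mem_insert _ _
    exact h1
  · rintro (rfl | rfl)
    · rfl
    · rw [neg_neg, Set.pair_comm]

def Om (a b : GolayPt) : Set (Set leechLattice) :=
  {S | ∃ w : leechLattice, sqNorm (w : GolayPt → ℤ) = 32 ∧ dotInt (uF a b) (w : GolayPt → ℤ) = 0 ∧ S = Pp w}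

theorem finite_norm32 : {v : leechLattice | sqNorm (v : GolayPt → ℤ) = 32}.Finite := by
  apply Set.finite_of_ncard_ne_zero
  rw [ncard_norm_L, LeechCount.ncard_norm32]
  norm_num

instance finite_Om (a b : GolayPt) : Finite (Om a b) := by
  apply Set.Finite.to_subtype
  apply (finite_norm32.image Pp).subset
  rintro S ⟨w, hw, -, rfl⟩
  exact ⟨w, hw, rfl⟩

/-- the sign changes fixing `a` and `b` -/
def Sg (a b : GolayPt) : Subgroup Co0 where
  carrier := {g | ∃ c ∈ Sup, a ∉ c ∧ b ∉ c ∧ ∀ v : leechLattice, ((g • v : leechLattice) : GolayPt → ℤ) = signedPerm 1 c v}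
  one_mem' := ⟨∅, GolayCoset.empty_mem, by simp, by simp, fun v => by rw [one_smul, signedPerm_one_empty]⟩
  mul_mem' := by
    rintro g h ⟨c, hc, ha, hb, h1⟩ ⟨d, hd, ha', hb', h2⟩
    refine ⟨symmDiff c d, symmDiff_mem_supports hc hd, ?_, ?_, fun v => ?_⟩
    · rw [Finset.mem_symmDiff]; tauto
    · rw [Finset.mem_symmDiff]; tauto
    · rw [mul_smul, h1, h2, signedPerm_signedPerm, one_smul, one_mul]
  inv_mem' := by
    rintro g ⟨c, hc, ha, hb, h1⟩
    refine ⟨c, hc, ha, hb, fun v => ?_⟩
    have h2 := h1 (g⁻¹ • v)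
    rw [smul_inv_smul] at h2
    rw [h2, signedPerm_signedPerm, one_smul, one_mul, symmDiff_self]
    exact (signedPerm_one_empty _).symm

theorem sp_one (c : Finset GolayPt) (x : GolayPt → ℤ) (i : GolayPt) :
    signedPerm 1 c x i = (1 - 2 * chi c i) * x i := signedPerm_apply _ _ _ _

theorem smul_ext {g h : Co0} (H : ∀ v : leechLattice, g • v = h • v) : g = h :=
  Subtype.ext (Equiv.ext H)

theorem Sg_isPGroup (a b : GolayPt) : IsPGroup 2 (Sg a b) := by
  rintro ⟨g, c, hc, ha, hb, h1⟩
  refine ⟨1, Subtype.ext ?_⟩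
  show g ^ (2 ^ 1) = 1
  rw [pow_one, pow_two]
  apply smul_ext
  intro v
  apply Subtype.ext
  rw [mul_smul, h1, h1, signedPerm_signedPerm, one_smul, one_mul, symmDiff_self, one_smul]
  exact signedPerm_one_empty _

section
variable {a b : GolayPt} (hab : a ≠ b)

theorem Sg_fix {g : Co0} (hg : g ∈ Sg a b) : g • uu hab = uu hab := by
  obtain ⟨c, hc, ha, hb, h1⟩ := hg
  apply Subtype.ext
  rw [h1]
  show signedPerm 1 c (uF a b) = uF a b
  rw [signedPerm_uF]
  funext i
  show (1 - 2 * chi c i) * uF a b i = uF a b i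
  rw [uF_apply]
  by_cases h2 : i = a
  · subst h2; simp [chi, ha]
  · by_cases h3 : i = b
    · subst h3; simp [chi, hb]
    · simp [h2, h3]

theorem dot_uu_smul {g : Co0} (hg : g • uu hab = uu hab) (w : leechLattice) :
    dotInt (uF a b) ((g • w : leechLattice) : GolayPt → ℤ) = dotInt (uF a b) (w : GolayPt → ℤ) := by
  have := dot_smul g (uu hab) w
  rw [hg] at this
  exact this

/-- the action on the pairs orthogonal to `u` -/
@[instance_reducible] def actOm (K : Subgroup Co0) (hK : ∀ k ∈ K, k • uu hab = uu hab) : MulAction K (Om a b) where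
  smul k S := ⟨(k : Co0) • (S : Set leechLattice), by
    obtain ⟨w, h1, h2, h3⟩ := S.2
    refine ⟨(k : Co0) • w, (sqNorm_smul _ _).trans h1, (dot_uu_smul hab (hK _ k.2) w).trans h2, ?_⟩
    rw [h3, smul_Pp]⟩
  one_smul S := Subtype.ext (one_smul Co0 (S : Set leechLattice))
  mul_smul k l S := Subtype.ext (mul_smul (k : Co0) (l : Co0) (S : Set leechLattice))

/-- `4 e_a + 4 e_b` -/
def qq : leechLattice := ⟨Pi.single a 4 + Pi.single b 4, LeechMod.four_single_add_mem hab⟩

theorem qq_apply (i : GolayPt) : (qq hab : GolayPt → ℤ) i = (if i = a then 4 else 0) + (if i = b then 4 else 0) := by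
  show (Pi.single a 4 + Pi.single b 4 : GolayPt → ℤ) i = _
  simp only [Pi.add_apply, Pi.single_apply]

theorem dot_eq_comm (x y : GolayPt → ℤ) : dotInt x y = dotInt y x := dot_comm x y

theorem dot_qq (x : GolayPt → ℤ) : dotInt (qq hab : GolayPt → ℤ) x = 4 * (x a + x b) := by
  unfold dotInt
  simp only [qq_apply, add_mul, ite_mul, zero_mul, Finset.sum_add_distrib, Finset.sum_ite_eq', Finset.mem_univ,
    if_true]
  ring

theorem sqNorm_eq_dot (x : GolayPt → ℤ) : sqNorm x = dotInt x x := by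
  unfold sqNorm dotInt; exact Finset.sum_congr rfl fun i _ => by ring

theorem sqNorm_qq : sqNorm (qq hab : GolayPt → ℤ) = 32 := by
  rw [sqNorm_eq_dot, dot_qq, qq_apply, qq_apply]
  simp [hab, hab.symm]

theorem dot_u_qq : dotInt (uF a b) (qq hab : GolayPt → ℤ) = 0 := by
  rw [dot_uF, qq_apply, qq_apply]
  simp [hab, hab.symm]

/-- the pairs fixed by the sign changes -/
theorem fixed_Sg {w : leechLattice} (hw : sqNorm (w : GolayPt → ℤ) = 32) (hd : dotInt (uF a b) (w : GolayPt → ℤ) = 0)
    (h : ∀ g ∈ Sg a b, g • w = w ∨ g • w = -w) : w = qq hab ∨ w = -qq hab := by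
  have h0 : ∀ i, i ≠ a → i ≠ b → (w : GolayPt → ℤ) i = 0 := by
    intro i hia hib
    by_contra hi
    have h1 : ∀ j, j ≠ i → (w : GolayPt → ℤ) j = 0 := by
      intro j hj
      obtain ⟨o, ho, -, h2, h3⟩ := exists_sep (s := {i}) (t := {a, b, j})
        (by rw [Finset.disjoint_singleton_left]; simp [hia, hib, hj.symm])
        (by rw [Finset.card_singleton]; have := Finset.card_le_three (a := a) (b := b) (c := j); omega)
      rw [Finset.disjoint_left] at h3
      have ha : a ∉ o := h3 (by simp)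
      have hb : b ∉ o := h3 (by simp)
      have hj' : j ∉ o := h3 (by simp)
      have hi' : i ∈ o := h2 (Finset.mem_singleton_self i)
      have hg : (⟨mono 1 M24.one_mem o ho, mono_mem _ _ _ _⟩ : Co0) ∈ Sg a b := ⟨o, ho, ha, hb, fun v => rfl⟩
      rcases h _ hg with h4 | h4
      · have h5 := congrFun (congrArg Subtype.val h4) i
        have h6 : signedPerm 1 o w i = (w : GolayPt → ℤ) i := h5
        rw [sp_one] at h6
        simp [chi, hi'] at h6
        omega
      · have h5 := congrFun (congrArg Subtype.val h4) j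
        have h6 : signedPerm 1 o w j = - (w : GolayPt → ℤ) j := h5
        rw [sp_one] at h6
        simp [chi, hj'] at h6
        omega
    have h2 : sqNorm (w : GolayPt → ℤ) = (w : GolayPt → ℤ) i ^ 2 := by
      unfold sqNorm
      rw [Finset.sum_eq_single_of_mem i (Finset.mem_univ _)]
      intro j _ hj
      rw [h1 j hj]; ring
    rw [hw] at h2
    have h3 : (w : GolayPt → ℤ) i ≤ 5 := by nlinarith
    have h4 : -5 ≤ (w : GolayPt → ℤ) i := by nlinarith
    generalize (w : GolayPt → ℤ) i = t at *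
    interval_cases t <;> omega
  rw [dot_uF] at hd
  have hab' : (w : GolayPt → ℤ) a = (w : GolayPt → ℤ) b := by omega
  have h2 : sqNorm (w : GolayPt → ℤ) = (w : GolayPt → ℤ) a ^ 2 + (w : GolayPt → ℤ) b ^ 2 := by
    unfold sqNorm
    rw [← Finset.sum_pair hab (f := fun i => (w : GolayPt → ℤ) i ^ 2)]
    symm
    apply Finset.sum_subset (Finset.subset_univ _)
    intro i _ hi
    rw [Finset.mem_insert, Finset.mem_singleton, not_or] at hi
    rw [h0 i hi.1 hi.2]; ring
  rw [hw, ← hab'] at h2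
  have h3 : ((w : GolayPt → ℤ) a - 4) * ((w : GolayPt → ℤ) a + 4) = 0 := by nlinarith
  rcases mul_eq_zero.1 h3 with h4 | h4
  · left
    apply Subtype.ext
    funext i
    rw [qq_apply]
    by_cases h5 : i = a
    · subst h5; rw [if_pos rfl, if_neg hab]; omega
    · by_cases h6 : i = b
      · subst h6; rw [if_neg h5, if_pos rfl]; omega
      · rw [if_neg h5, if_neg h6, h0 i h5 h6]; rfl
  · right
    apply Subtype.ext
    funext i
    show _ = - ((qq hab : GolayPt → ℤ) i)
    rw [qq_apply]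
    by_cases h5 : i = a
    · subst h5; rw [if_pos rfl, if_neg hab]; omega
    · by_cases h6 : i = b
      · subst h6; rw [if_neg h5, if_pos rfl]; omega
      · rw [if_neg h5, if_neg h6, h0 i h5 h6]; rfl

theorem Sg_qq {g : Co0} (hg : g ∈ Sg a b) : g • qq hab = qq hab := by
  obtain ⟨c, hc, ha, hb, h1⟩ := hg
  apply Subtype.ext
  rw [h1]
  funext i
  rw [signedPerm_apply]
  show (1 - 2 * chi c i) * (qq hab : GolayPt → ℤ) i = _
  rw [qq_apply]
  by_cases h2 : i = a
  · subst h2; simp [chi, ha]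
  · by_cases h3 : i = b
    · subst h3; simp [chi, hb]
    · simp [h2, h3]

include hab in
/-- the number of pairs orthogonal to `u` is odd -/
theorem odd_Om : Nat.card (Om a b) ≡ 1 [MOD 2] := by
  letI := actOm hab (Sg a b) (fun k hk => Sg_fix hab hk)
  haveI : Fact (Nat.Prime 2) := ⟨Nat.prime_two⟩
  have h1 := (Sg_isPGroup a b).card_modEq_card_fixedPoints (Om a b)
  have h2 : Nat.card (MulAction.fixedPoints (Sg a b) (Om a b)) = 1 := by
    rw [Nat.card_eq_one_iff_unique]
    refine ⟨⟨?_⟩, ⟨⟨⟨Pp (qq hab), qq hab, sqNorm_qq hab, dot_u_qq hab, rfl⟩, ?_⟩⟩⟩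
    · have key : ∀ x : MulAction.fixedPoints (Sg a b) (Om a b), ((x : Om a b) : Set leechLattice) = Pp (qq hab) := by
        rintro ⟨⟨S, w, hw, hd, rfl⟩, hx⟩
        show Pp w = Pp (qq hab)
        rw [Pp_eq_iff]
        apply fixed_Sg hab hw hd
        intro g hg
        have h3 := congrArg Subtype.val (hx ⟨g, hg⟩)
        have h4 : g • Pp w = Pp w := h3
        rw [smul_Pp, Pp_eq_iff] at h4
        exact h4
      intro x y
      apply Subtype.ext
      apply Subtype.ext
      rw [key x, key y]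
    · intro g
      apply Subtype.ext
      show (g : Co0) • Pp (qq hab) = Pp (qq hab)
      rw [smul_Pp, Sg_qq hab g.2]
  rw [h2] at h1
  exact h1

/-- a normal 2-subgroup of the stabilizer fixes all pairs orthogonal to `u` -/
theorem fix_pairs {K : Subgroup Co0} (hK : IsPGroup 2 K) (hfix : ∀ k ∈ K, k • uu hab = uu hab)
    (hnorm : ∀ g : Co0, g • uu hab = uu hab → ∀ k ∈ K, g * k * g⁻¹ ∈ K) {w : leechLattice}
    (hw : sqNorm (w : GolayPt → ℤ) = 32) (hd : dotInt (uF a b) (w : GolayPt → ℤ) = 0) {k : Co0} (hk : k ∈ K) :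
    k • w = w ∨ k • w = -w := by
  letI := actOm hab K hfix
  haveI : Fact (Nat.Prime 2) := ⟨Nat.prime_two⟩
  have h1 := hK.card_modEq_card_fixedPoints (Om a b)
  have h2 := (odd_Om hab).symm.trans h1
  have h3 : Nat.card (MulAction.fixedPoints K (Om a b)) ≠ 0 := by
    intro h; rw [h] at h2; exact absurd h2 (by decide)
  obtain ⟨⟨⟨S, w1, hw1, hd1, rfl⟩, hx⟩⟩ := (Nat.card_ne_zero.1 h3).1
  have h4 : ∀ k ∈ K, k • w1 = w1 ∨ k • w1 = -w1 := by
    intro k hk
    have h4 : k • Pp w1 = Pp w1 := congrArg Subtype.val (hx ⟨k, hk⟩)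
    rwa [smul_Pp, Pp_eq_iff] at h4
  have h5 : ∃ g : Co0, g • uu hab = uu hab ∧ (g • w1 = w ∨ g • w1 = -w) := by
    rcases trans0 (hab := hab) hw1 hw hd1 hd with ⟨g, h5, h6⟩ | ⟨g, h5, h6⟩
    · exact ⟨g, h5, Or.inl h6⟩
    · exact ⟨g, h5, Or.inr h6⟩
  obtain ⟨g, hg, hgw⟩ := h5
  have h6 := hnorm g⁻¹ (by rw [inv_smul_eq_iff]; exact hg.symm) k hk
  have h7 : k • g • w1 = g • (g⁻¹ * k * g⁻¹⁻¹) • w1 := by
    rw [← mul_smul, ← mul_smul]; congr 1; group
  have h8 : k • (g • w1) = g • w1 ∨ k • (g • w1) = -(g • w1) := by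
    rw [h7]
    rcases h4 _ h6 with h9 | h9
    · left; rw [h9]
    · right; rw [h9, smul_neg']
  rcases hgw with h9 | h9
  · rw [h9] at h8; exact h8
  · rw [h9, smul_neg', neg_neg] at h8
    rcases h8 with h8 | h8
    · left; exact neg_injective h8
    · right; exact neg_eq_iff_eq_neg.1 h8

/-- proportional vectors: the sign is the same for nonorthogonal vectors -/
theorem sign_eq {k : Co0} {v w : leechLattice} {e f : ℤ} (he : e = 1 ∨ e = -1) (hf : f = 1 ∨ f = -1)
    (hv : k • v = e • v) (hw : k • w = f • w) (hd : dotInt (v : GolayPt → ℤ) (w : GolayPt → ℤ) ≠ 0) : e = f := by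
  have h1 := dot_smul k v w
  rw [hv, hw] at h1
  have h2 : dotInt ((e • v : leechLattice) : GolayPt → ℤ) ((f • w : leechLattice) : GolayPt → ℤ) =
      e * f * dotInt (v : GolayPt → ℤ) (w : GolayPt → ℤ) := by
    unfold dotInt
    rw [Finset.mul_sum]
    apply Finset.sum_congr rfl
    intro i _
    show (e • (v : GolayPt → ℤ)) i * (f • (w : GolayPt → ℤ)) i = _
    simp only [Pi.smul_apply, smul_eq_mul]; ring
  rw [h2] at h1
  have h3 : (e * f - 1) * dotInt (v : GolayPt → ℤ) (w : GolayPt → ℤ) = 0 := by linarith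
  rcases mul_eq_zero.1 h3 with h4 | h4
  · rcases he with rfl | rfl <;> rcases hf with rfl | rfl <;> omega
  · exact absurd h4 hd

theorem dot_ef (i : GolayPt) (x : GolayPt → ℤ) : dotInt (ef i : GolayPt → ℤ) x = 8 * x i := by
  rw [coe_ef, dot_single]

theorem dot_smul_int (e : ℤ) (v : leechLattice) (x : GolayPt → ℤ) :
    dotInt ((e • v : leechLattice) : GolayPt → ℤ) x = e * dotInt (v : GolayPt → ℤ) x := by
  unfold dotInt
  rw [Finset.mul_sum]
  apply Finset.sum_congr rfl
  intro i _
  show (e • (v : GolayPt → ℤ)) i * x i = _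
  simp only [Pi.smul_apply, smul_eq_mul]; ring

theorem dot_eig {k : Co0} {v : leechLattice} {e : ℤ} (he : e = 1 ∨ e = -1) (hv : k • v = e • v) (w : leechLattice) :
    dotInt (v : GolayPt → ℤ) ((k • w : leechLattice) : GolayPt → ℤ) = e * dotInt (v : GolayPt → ℤ) (w : GolayPt → ℤ) := by
  have h1 := dot_smul k v w
  rw [hv, dot_smul_int] at h1
  rcases he with rfl | rfl <;> linarith

theorem smul_int_add {k : Co0} {v w : leechLattice} {e : ℤ} (hv : k • v = e • v) (hw : k • w = e • w) :
    k • (v + w) = e • (v + w) := by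
  rw [smul_add', hv, hw, smul_add]

/-- an automorphism fixing `u` and all pairs orthogonal to `u` is trivial -/
theorem eq_one_of_pairs_uu {k : Co0} (hku : k • uu hab = uu hab)
    (hp : ∀ w : leechLattice, sqNorm (w : GolayPt → ℤ) = 32 → dotInt (uF a b) (w : GolayPt → ℤ) = 0 →
      k • w = w ∨ k • w = -w) : k = 1 := by
  have hsg : ∀ w : leechLattice, sqNorm (w : GolayPt → ℤ) = 32 → dotInt (uF a b) (w : GolayPt → ℤ) = 0 →
      ∃ e : ℤ, (e = 1 ∨ e = -1) ∧ k • w = e • w := by
    intro w hw hd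
    rcases hp w hw hd with h | h
    · exact ⟨1, Or.inl rfl, by rw [one_smul]; exact h⟩
    · exact ⟨-1, Or.inr rfl, by rw [neg_smul, one_smul]; exact h⟩
  -- an octad through `a`, `b`, `c`
  obtain ⟨c, -, hca, hcb⟩ := exists_mem_not (B := Finset.univ) (by rw [Finset.card_univ, card_pt]; norm_num) a b
  obtain ⟨C, hC, hC8, hsub, -⟩ := exists_sep (s := {a, b, c}) (t := ∅) (Finset.disjoint_empty_right _)
    (by have := Finset.card_le_three (a := a) (b := b) (c := c); simp; omega)
  have haC : a ∈ C := hsub (by simp)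
  have hbC : b ∈ C := hsub (by simp)
  have hcC : c ∈ C := hsub (by simp)
  let r : leechLattice := ⟨fun i => 2 * chi C i, two_chi_mem hC⟩
  have hr : ∀ i, (r : GolayPt → ℤ) i = 2 * chi C i := fun i => rfl
  have hchi1 : ∀ {i}, i ∈ C → chi C i = 1 := fun h => by simp [chi, h]
  have hchi0 : ∀ {i}, i ∉ C → chi C i = 0 := fun h => by simp [chi, h]
  have hrn : sqNorm (r : GolayPt → ℤ) = 32 := by
    unfold sqNorm
    have : ∀ i, (r : GolayPt → ℤ) i ^ 2 = 4 * chi C i := by
      intro i
      rw [hr]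
      rcases chi_cases C i with ⟨-, h⟩ | ⟨-, h⟩ <;> rw [h] <;> norm_num
    rw [Finset.sum_congr rfl fun i _ => this i, ← Finset.mul_sum, sum_chi, hC8]; norm_num
  have hrd : dotInt (uF a b) (r : GolayPt → ℤ) = 0 := by
    rw [dot_uF, hr, hr, hchi1 haC, hchi1 hbC]; norm_num
  obtain ⟨e, he, hre⟩ := hsg r hrn hrd
  have hq : k • qq hab = e • qq hab := by
    obtain ⟨f, hf, hqf⟩ := hsg _ (sqNorm_qq hab) (dot_u_qq hab)
    have : f = e := sign_eq hf he hqf hre (by rw [dot_qq, hr, hr, hchi1 haC, hchi1 hbC]; norm_num)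
    rw [← this]; exact hqf
  have hef : ∀ i, i ≠ a → i ≠ b → k • ef i = e • ef i := by
    intro i hia hib
    obtain ⟨j, hja, hjb, hij, hone⟩ : ∃ j, j ≠ a ∧ j ≠ b ∧ i ≠ j ∧ ¬ (i ∈ C ↔ j ∈ C) := by
      by_cases hiC : i ∈ C
      · obtain ⟨j, hj⟩ : ∃ j, j ∉ C := by
          by_contra hcon
          push Not at hcon
          have : C = Finset.univ := Finset.eq_univ_of_forall hcon
          rw [this, Finset.card_univ, card_pt] at hC8
          omega
        refine ⟨j, ?_, ?_, ?_, ?_⟩
        · rintro rfl; exact hj haC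
        · rintro rfl; exact hj hbC
        · rintro rfl; exact hj hiC
        · tauto
      · refine ⟨c, hca, hcb, ?_, by tauto⟩
        rintro rfl; exact hiC hcC
    have h1 : dotInt (uF a b) (qq hij : GolayPt → ℤ) = 0 := by
      rw [dot_uF, qq_apply, qq_apply]; simp [hia.symm, hib.symm, hja.symm, hjb.symm]
    have h2 : dotInt (uF a b) (uu hij : GolayPt → ℤ) = 0 := by
      show dotInt (uF a b) (uF i j) = 0
      rw [dot_uF, uF_apply, uF_apply]; simp [hia.symm, hib.symm, hja.symm, hjb.symm]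
    obtain ⟨f, hf, hpf⟩ := hsg _ (sqNorm_qq hij) h1
    obtain ⟨f', hf', hmf⟩ := hsg (uu hij) (sqNorm_uF hij) h2
    have hfe : f = e := sign_eq hf he hpf hre (by
      rw [dot_qq, hr, hr]
      rcases chi_cases C i with ⟨g1, g2⟩ | ⟨g1, g2⟩ <;> rcases chi_cases C j with ⟨g3, g4⟩ | ⟨g3, g4⟩ <;> rw [g2, g4]
      · tauto
      · norm_num
      · norm_num
      · tauto)
    have hfe' : f' = e := sign_eq hf' he hmf hre (by
      show dotInt (uF i j) (r : GolayPt → ℤ) ≠ 0
      rw [dot_uF, hr, hr]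
      rcases chi_cases C i with ⟨g1, g2⟩ | ⟨g1, g2⟩ <;> rcases chi_cases C j with ⟨g3, g4⟩ | ⟨g3, g4⟩ <;> rw [g2, g4]
      · tauto
      · norm_num
      · norm_num
      · tauto)
    rw [hfe] at hpf
    rw [hfe'] at hmf
    have h3 : ef i = qq hij + uu hij := by
      apply Subtype.ext
      funext l
      show (Pi.single i 8 : GolayPt → ℤ) l = (qq hij : GolayPt → ℤ) l + uF i j l
      rw [qq_apply, uF_apply, Pi.single_apply]
      split_ifs <;> norm_num
    rw [h3]
    exact smul_int_add hpf hmf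
  rcases he with he1 | he1
  · -- the identity
    rw [he1] at hq hef
    have hu : k • uu hab = (1 : ℤ) • uu hab := by rw [one_smul]; exact hku
    have hall : ∀ i, k • ef i = (1 : ℤ) • ef i := by
      intro i
      by_cases hia : i = a
      · subst hia
        have h3 : ef i = qq hab + uu hab := by
          apply Subtype.ext
          funext l
          show (Pi.single i 8 : GolayPt → ℤ) l = (qq hab : GolayPt → ℤ) l + uF i b l
          rw [qq_apply, uF_apply, Pi.single_apply]
          split_ifs <;> norm_num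
        rw [h3]; exact smul_int_add hq hu
      · by_cases hib : i = b
        · subst hib
          have h3 : ef i + uu hab = qq hab := by
            apply Subtype.ext
            funext l
            show (Pi.single i 8 : GolayPt → ℤ) l + uF a i l = (qq hab : GolayPt → ℤ) l
            rw [qq_apply, uF_apply, Pi.single_apply]
            split_ifs <;> norm_num
          have h4 := hq
          rw [← h3, smul_add', smul_add, hu] at h4
          exact add_right_cancel h4
        · exact hef i hia hib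
    apply smul_ext
    intro v
    rw [one_smul]
    apply Subtype.ext
    funext i
    have h5 := dot_eig (Or.inl rfl) (hall i) v
    rw [dot_ef, dot_ef] at h5
    linarith
  · exfalso
    rw [he1] at hq hef
    obtain ⟨D, hD, hD8, haD, hbD⟩ := exists_sep (s := {a}) (t := {b}) (by rw [Finset.disjoint_singleton]; exact hab)
      (by simp)
    have haD' : a ∈ D := haD (Finset.mem_singleton_self a)
    have hbD' : b ∉ D := Finset.disjoint_left.1 hbD (Finset.mem_singleton_self b)
    let w : leechLattice := ⟨fun i => 2 * chi D i, two_chi_mem hD⟩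
    have hw : ∀ i, (w : GolayPt → ℤ) i = 2 * chi D i := fun i => rfl
    have hwa : (w : GolayPt → ℤ) a = 2 := by rw [hw]; simp [chi, haD']
    have hwb : (w : GolayPt → ℤ) b = 0 := by rw [hw]; simp [chi, hbD']
    have h1 : ∀ i, i ≠ a → i ≠ b → ((k • w : leechLattice) : GolayPt → ℤ) i = - (w : GolayPt → ℤ) i := by
      intro i hia hib
      have h5 := dot_eig (Or.inr rfl) (hef i hia hib) w
      rw [dot_ef, dot_ef] at h5
      linarith
    have h2 := dot_eig (Or.inr rfl) hq w
    rw [dot_qq, dot_qq, hwa, hwb] at h2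
    have h3 := dot_uu_smul hab hku w
    rw [dot_uF, dot_uF, hwa, hwb] at h3
    have h4 : ((k • w : leechLattice) : GolayPt → ℤ) a = 0 := by linarith
    have h5 : ((k • w : leechLattice) : GolayPt → ℤ) b = -2 := by linarith
    set y : leechLattice := k • w + w with hy
    have hya : (y : GolayPt → ℤ) a = 2 := by
      show ((k • w : leechLattice) : GolayPt → ℤ) a + (w : GolayPt → ℤ) a = 2
      rw [h4, hwa]; norm_num
    have hyb : (y : GolayPt → ℤ) b = -2 := by
      show ((k • w : leechLattice) : GolayPt → ℤ) b + (w : GolayPt → ℤ) b = -2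
      rw [h5, hwb]; norm_num
    have hy0 : ∀ i, i ≠ a → i ≠ b → (y : GolayPt → ℤ) i = 0 := by
      intro i hia hib
      show ((k • w : leechLattice) : GolayPt → ℤ) i + (w : GolayPt → ℤ) i = 0
      rw [h1 i hia hib]; ring
    have hyn : sqNorm (y : GolayPt → ℤ) = 8 := by
      have : sqNorm (y : GolayPt → ℤ) = (y : GolayPt → ℤ) a ^ 2 + (y : GolayPt → ℤ) b ^ 2 := by
        unfold sqNorm
        rw [← Finset.sum_pair hab (f := fun i => (y : GolayPt → ℤ) i ^ 2)]
        symm
        apply Finset.sum_subset (Finset.subset_univ _)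
        intro i _ hi
        rw [Finset.mem_insert, Finset.mem_singleton, not_or] at hi
        rw [hy0 i hi.1 hi.2]; ring
      rw [this, hya, hyb]; norm_num
    have h6 := min_norm y.2 (by intro h; rw [h] at hya; simp at hya)
    omega

/-- **O₂ of the stabilizer of a minimal vector is trivial.** -/
theorem core_uu {K : Subgroup Co0} (hK : IsPGroup 2 K) (hfix : ∀ k ∈ K, k • uu hab = uu hab)
    (hnorm : ∀ g : Co0, g • uu hab = uu hab → ∀ k ∈ K, g * k * g⁻¹ ∈ K) : K = ⊥ := by
  rw [Subgroup.eq_bot_iff_forall]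
  intro k hk
  exact eq_one_of_pairs_uu hab (hfix k hk) fun w hw hd => fix_pairs hab hK hfix hnorm hw hd hk

end

/-- an automorphism fixing `v` and all pairs orthogonal to `v` is trivial -/
theorem eq_one_of_pairs {v : leechLattice} (hv : sqNorm (v : GolayPt → ℤ) = 32) {k : Co0} (hkv : k • v = v)
    (hp : ∀ w : leechLattice, sqNorm (w : GolayPt → ℤ) = 32 → dotInt (v : GolayPt → ℤ) (w : GolayPt → ℤ) = 0 →
      k • w = w ∨ k • w = -w) : k = 1 := by
  obtain ⟨g, hg⟩ := exists_uu hv ne_pts
  have h1 : g * k * g⁻¹ = 1 := by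
    apply eq_one_of_pairs_uu ne_pts
    · rw [← hg, mul_smul, mul_smul, inv_smul_smul, hkv]
    · intro w hw hd
      have h2 := dot_smul g⁻¹ (uu ne_pts) w
      rw [← hg, inv_smul_smul] at h2
      have h3 : dotInt ((g • v : leechLattice) : GolayPt → ℤ) (w : GolayPt → ℤ) = 0 := by rw [hg]; exact hd
      rw [h3] at h2
      rcases hp (g⁻¹ • w) ((sqNorm_smul _ _).trans hw) h2 with h | h
      · left; rw [mul_smul, mul_smul, h, smul_inv_smul]
      · right; rw [mul_smul, mul_smul, h, smul_neg', smul_inv_smul]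
  have h2 : k = g⁻¹ * (g * k * g⁻¹) * g := by group
  rw [h2, h1]; group

/-- **O₂ of the stabilizer of a minimal vector is trivial.** -/
theorem core {v : leechLattice} (hv : sqNorm (v : GolayPt → ℤ) = 32) {K : Subgroup Co0} (hK : IsPGroup 2 K)
    (hfix : ∀ k ∈ K, k • v = v) (hnorm : ∀ g : Co0, g • v = v → ∀ k ∈ K, g * k * g⁻¹ ∈ K) : K = ⊥ := by
  obtain ⟨g, hg⟩ := exists_uu hv ne_pts
  have h1 : K.map (MulAut.conj g).toMonoidHom = ⊥ := by
    apply core_uu ne_pts
    · exact hK.map _
    · rintro _ ⟨k, hk, rfl⟩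
      show (g * k * g⁻¹) • uu ne_pts = _
      rw [← hg, mul_smul, mul_smul, inv_smul_smul, hfix k hk]
    · rintro h hh _ ⟨k, hk, rfl⟩
      refine ⟨(g⁻¹ * h * g) * k * (g⁻¹ * h * g)⁻¹, ?_, ?_⟩
      · apply hnorm _ _ k hk
        rw [mul_smul, mul_smul, hg, hh, ← hg, inv_smul_smul]
      · show g * ((g⁻¹ * h * g) * k * (g⁻¹ * h * g)⁻¹) * g⁻¹ = h * (g * k * g⁻¹) * h⁻¹
        group
  rwa [Subgroup.map_eq_bot_iff_of_injective _ (MulAut.conj g).injective] at h1

end Cfsg.Agent.Lib.H89Co2Core
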