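import Cfsg.Agent.Lib.H89MU2
/-
Elementary abelian 2-groups of isometries of a hermitian space over the field with four elements:
additive subgroups on which the form takes values in the prime field (helper89).
-/
set_option autoImplicit false
set_option linter.all false

namespace Cfsg.Agent.Lib.H89EA

open Module Cfsg Cfsg.Agent.Lib.UnTrans Cfsg.Agent.Lib.UnBridge Cfsg.Agent.Lib.U6Class
open Cfsg.Agent.Lib.SpTrans (isom mem_isom)

/-- additive maps of an elementary abelian 2-group into `ZMod 2` -/
theorem card_hom_le {Q : Type*} [AddCommGroup Q] [Finite Q] (h2 : ∀ x : Q, x + x = 0) :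
    Nat.card (Q →+ ZMod 2) ≤ Nat.card Q := by
  letI : Module (ZMod 2) Q := AddCommGroup.zmodModule (n := 2) (fun x => by rw [two_nsmul]; exact h2 x)
  haveI : Module.Finite (ZMod 2) Q := Module.Finite.of_finite
  have h1 : Nat.card (Q →+ ZMod 2) ≤ Nat.card (Module.Dual (ZMod 2) Q) := by
    haveI : Finite (Module.Dual (ZMod 2) Q) := Finite.of_injective (fun g : Module.Dual (ZMod 2) Q => (g : Q → ZMod 2))
      (fun a b h => LinearMap.ext fun x => congrFun h x)
    apply Nat.card_le_card_of_injective (fun g : Q →+ ZMod 2 => (g.toZModLinearMap 2 : Q →ₗ[ZMod 2] ZMod 2))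
    intro a b h
    ext x
    exact congrArg (fun g : Q →ₗ[ZMod 2] ZMod 2 => g x) h
  refine h1.trans (le_of_eq ?_)
  rw [Module.natCard_eq_pow_finrank (K := ZMod 2) (V := Module.Dual (ZMod 2) Q),
    Module.natCard_eq_pow_finrank (K := ZMod 2) (V := Q), Subspace.dual_finrank_eq]

/-- totally isotropic subgroups for a nondegenerate pairing have order at most the square root -/
theorem card_sq_le {V : Type*} [AddCommGroup V] [Finite V] (h2 : ∀ x : V, x + x = 0) (B : V →+ V →+ ZMod 2)
    (hB : ∀ x, (∀ y, B x y = 0) → x = 0) (U : AddSubgroup V) (hU : ∀ x ∈ U, ∀ y ∈ U, B x y = 0) :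
    Nat.card U * Nat.card U ≤ Nat.card V := by
  have h1 : Nat.card U ≤ Nat.card (V ⧸ U) := by
    haveI : Finite ((V ⧸ U) →+ ZMod 2) := Finite.of_injective (fun g : (V ⧸ U) →+ ZMod 2 => (g : (V ⧸ U) → ZMod 2))
      (fun a b h => AddMonoidHom.ext fun x => congrFun h x)
    refine le_trans ?_ (card_hom_le (Q := V ⧸ U) ?_)
    · apply Nat.card_le_card_of_injective (fun u : U => QuotientAddGroup.lift U (B u) (fun x hx => hU u u.2 x hx))
      intro a b h
      apply Subtype.ext
      have h3 : ∀ y, B ((a : V) - b) y = 0 := by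
        intro y
        have h4 := DFunLike.congr_fun h (QuotientAddGroup.mk y : V ⧸ U)
        have h5 : B a y = B b y := h4
        rw [map_sub, AddMonoidHom.sub_apply, h5, sub_self]
      exact sub_eq_zero.1 (hB _ h3)
    · intro x
      obtain ⟨x, rfl⟩ := QuotientAddGroup.mk_surjective x
      rw [← QuotientAddGroup.mk_add, h2, QuotientAddGroup.mk_zero]
  calc Nat.card U * Nat.card U ≤ Nat.card (V ⧸ U) * Nat.card U := Nat.mul_le_mul_right _ h1
    _ = Nat.card V := (AddSubgroup.card_eq_card_quotient_mul_card_addSubgroup U).symm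

variable {F : Type} [Field F] [Fintype F] [CharP F 2]

/-- an additive map to `ZMod 2` whose kernel is the prime field -/
theorem exists_tz (hF : Fintype.card F = 2 ^ 2) : ∃ t : F →+ ZMod 2, ∀ c, t c = 0 ↔ sig hF c = c := by
  classical
  obtain ⟨ω, h0, h1, hω, hc⟩ := H89MU.exists_omega hF
  have hch : ∀ x : F, x + x = 0 := fun x => CharTwo.add_self_eq_zero x
  have hω1 : ω + 1 ≠ 0 := by
    intro h
    apply h1
    calc ω = ω + 1 + 1 := by rw [add_assoc, hch, add_zero]
      _ = 1 := by rw [h, zero_add]
  have hω2 : ω + 1 ≠ 1 := by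
    intro h
    exact h0 (add_eq_right.1 h)
  have s1 : (1 : F) ≠ 0 := one_ne_zero
  have e1 : (1 : F) + ω = ω + 1 := add_comm _ _
  have e2 : ω + ω = 0 := hch _
  have e3 : ω + (ω + 1) = 1 := by rw [← add_assoc, hch, zero_add]
  have e4 : ω + 1 + ω = 1 := by rw [add_comm, e3]
  have e5 : ω + 1 + 1 = ω := by rw [add_assoc, hch, add_zero]
  have e6 : (1 : F) + (ω + 1) = ω := by rw [add_comm, e5]
  have e7 : ω + 1 + (ω + 1) = 0 := hch _
  have e8 : (1 : F) + 1 = 0 := hch _
  let t : F → ZMod 2 := fun c => if c = 0 ∨ c = 1 then 0 else 1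
  have t0 : t 0 = 0 := by simp [t]
  have t1 : t 1 = 0 := by simp [t]
  have t2 : t ω = 1 := by simp [t, h0, h1]
  have t3 : t (ω + 1) = 1 := by simp [t, hω1, hω2]
  have hz : (1 : ZMod 2) + 1 = 0 := by decide
  refine ⟨⟨⟨t, t0⟩, ?_⟩, ?_⟩
  · intro x y
    show t (x + y) = t x + t y
    rcases hc x with rfl | rfl | rfl | rfl <;> rcases hc y with rfl | rfl | rfl | rfl <;>
      simp only [zero_add, add_zero, e1, e2, e3, e4, e5, e6, e7, e8, t0, t1, t2, t3, hz]
  · intro c
    show t c = 0 ↔ _
    constructor
    · intro h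
      rcases hc c with rfl | rfl | rfl | rfl
      · exact map_zero _
      · exact map_one _
      · rw [t2] at h; exact absurd h (by decide)
      · rw [t3] at h; exact absurd h (by decide)
    · intro h
      rcases H89MU.fix_cases hF c h with rfl | rfl
      · exact t0
      · exact t1

variable {V : Type*} [AddCommGroup V] [Module F V] [FiniteDimensional F V] {f : V → V → F}

/-- if all multiples of a value are fixed then it is zero -/
theorem eq_zero_of_fixed (hF : Fintype.card F = 2 ^ 2) {c : F} (h : ∀ a : F, sig hF (a * c) = a * c) : c = 0 := by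
  obtain ⟨ω, h0, h1, hω, hc⟩ := H89MU.exists_omega hF
  have e1 := h 1
  rw [one_mul] at e1
  rcases H89MU.fix_cases hF c e1 with h2 | rfl
  · exact h2
  · exfalso
    have e2 := h ω
    rw [mul_one] at e2
    rcases H89MU.fix_cases hF ω e2 with h3 | h3
    · exact h0 h3
    · exact h1 h3

/-- additive subgroups on which the form takes values in the prime field -/
theorem card_sub_le (hF : Fintype.card F = 2 ^ 2) (H : HS (sig hF) f) (hnd : Nd f (⊤ : Submodule F V)) {m : ℕ}
    (hm : finrank F V = 2 * m) (U : AddSubgroup V) (hU : ∀ x ∈ U, ∀ y ∈ U, sig hF (f x y) = f x y) :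
    Nat.card U ≤ 2 ^ (2 * m) := by
  obtain ⟨t, ht⟩ := exists_tz hF
  haveI : Finite V := Module.finite_of_finite F
  have h2 : ∀ x : V, x + x = 0 := by
    intro x
    rw [← two_smul F x, CharTwo.two_eq_zero, zero_smul]
  let B : V →+ V →+ ZMod 2 :=
    { toFun := fun x =>
        { toFun := fun y => t (f x y)
          map_zero' := by rw [H.zero_right, map_zero]
          map_add' := fun y z => by rw [H.add_right, map_add] }
      map_zero' := by
        apply AddMonoidHom.ext
        intro y
        show t (f 0 y) = 0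
        rw [H.zero_left, map_zero]
      map_add' := fun x y => by
        apply AddMonoidHom.ext
        intro z
        show t (f (x + y) z) = t (f x z) + t (f y z)
        rw [H.add_left, map_add] }
  have hB : ∀ x, (∀ y, B x y = 0) → x = 0 := by
    intro x hx
    by_contra hne
    obtain ⟨y, _, hy⟩ := hnd x trivial hne
    apply hy
    apply eq_zero_of_fixed hF
    intro a
    have h3 : t (f x (sig hF a • y)) = 0 := hx _
    rw [ht, H.smul_right, sig_inv] at h3
    exact h3
  have h4 := card_sq_le h2 B hB U (fun x hx y hy => (ht _).2 (hU x hx y hy))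
  have h5 : Nat.card V = (2 ^ (2 * m)) * (2 ^ (2 * m)) := by
    rw [Module.natCard_eq_pow_finrank (K := F) (V := V), hm, Nat.card_eq_fintype_card, hF, ← pow_mul, ← pow_add]
    congr 1
    ring
  rw [h5] at h4
  by_contra hcon
  push Not at hcon
  exact absurd h4 (not_le.2 (Nat.mul_lt_mul'' hcon hcon))

end Cfsg.Agent.Lib.H89EA
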