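import Cfsg.Agent.Lib.H89EA0
/-
Elementary abelian 2-groups of isometries of a hermitian space over the field with four elements:
splitting off a hyperbolic plane (helper89).
-/
set_option autoImplicit false
set_option linter.all false

namespace Cfsg.Agent.Lib.H89EA

open Module Cfsg Cfsg.Agent.Lib.UnTrans Cfsg.Agent.Lib.UnBridge Cfsg.Agent.Lib.U6Class
open Cfsg.Agent.Lib.SpTrans (isom mem_isom)

universe v

variable {F : Type} [Field F] [Fintype F] [CharP F 2]
variable {V : Type v} [AddCommGroup V] [Module F V] {f : V → V → F}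

theorem fadd_self (x : F) : x + x = 0 := CharTwo.add_self_eq_zero x

theorem vadd_self (F : Type) [Field F] [CharP F 2] {V : Type v} [AddCommGroup V] [Module F V] (x : V) : x + x = 0 := by
  rw [← two_smul F x, CharTwo.two_eq_zero, zero_smul]

/-- a 2-group of linear maps fixes a nonzero vector of every nonzero invariant subspace -/
theorem exists_fixed [FiniteDimensional F V] {A : Subgroup (V ≃ₗ[F] V)} (hA : IsPGroup 2 A) (W : Submodule F V)
    (hW : ∀ a ∈ A, ∀ w ∈ W, a w ∈ W) (hne : W ≠ ⊥) : ∃ w ∈ W, w ≠ 0 ∧ ∀ a ∈ A, a w = w := by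
  haveI : Finite V := Module.finite_of_finite F
  letI : MulAction A W :=
    { smul := fun a w => ⟨a.1 w, hW _ a.2 _ w.2⟩
      one_smul := fun w => rfl
      mul_smul := fun a b w => rfl }
  have hdvd : 2 ∣ Nat.card W := by
    haveI : Nontrivial W := (Submodule.nontrivial_iff_ne_bot).2 hne
    have h1 : 0 < finrank F W := Module.finrank_pos
    rw [Module.natCard_eq_pow_finrank (K := F) (V := W)]
    have h2 : 2 ∣ Nat.card F := by
      have h3 : ((Fintype.card F : ℕ) : F) = 0 := Nat.cast_card_eq_zero F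
      rw [Nat.card_eq_fintype_card]
      exact (CharP.cast_eq_zero_iff F 2 _).1 h3
    exact dvd_pow h2 (by omega)
  have h0 : (0 : W) ∈ MulAction.fixedPoints A W := by
    intro a
    exact Subtype.ext (map_zero a.1)
  obtain ⟨b, hb, hb0⟩ := hA.exists_fixed_point_of_prime_dvd_card_of_fixed_point W hdvd h0
  refine ⟨b, b.2, ?_, ?_⟩
  · intro h
    exact hb0 (Subtype.ext h.symm)
  · intro a ha
    exact congrArg Subtype.val (hb ⟨a, ha⟩)

theorem isPGroup_of_sq {G : Type*} [Group G] (A : Subgroup G) (h : ∀ a ∈ A, a * a = 1) : IsPGroup 2 A := by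
  intro a
  refine ⟨1, ?_⟩
  rw [pow_one, pow_two]
  exact Subtype.ext (h a a.2)

theorem exists_fixed_iso [FiniteDimensional F V] (hF : Fintype.card F = 2 ^ 2) (H : HS (sig hF) f) (h2 : 2 ≤ finrank F V)
    {A : Subgroup (V ≃ₗ[F] V)} (hA : A ≤ isom f) (hsq : ∀ a ∈ A, a * a = 1) :
    ∃ e : V, e ≠ 0 ∧ f e e = 0 ∧ ∀ a ∈ A, a e = e := by
  have hp := isPGroup_of_sq A hsq
  have htop : (⊤ : Submodule F V) ≠ ⊥ := by
    intro h
    have h1 : finrank F (⊤ : Submodule F V) = 0 := by rw [h]; exact finrank_bot F V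
    rw [finrank_top] at h1
    omega
  obtain ⟨v, _, hv0, hv⟩ := exists_fixed hp ⊤ (fun _ _ _ _ => trivial) htop
  by_cases hvv : f v v = 0
  · exact ⟨v, hv0, hvv, hv⟩
  · have hv1 : f v v = 1 := (H89MU.fix_cases hF _ (H.self_fixed v)).resolve_left hvv
    have hker : LinearMap.ker (H.fl v) ≠ ⊥ := by
      intro h
      have h1 := LinearMap.finrank_range_add_finrank_ker (H.fl v)
      rw [h, finrank_bot] at h1
      have h3 : finrank F (LinearMap.range (H.fl v)) ≤ finrank F F := Submodule.finrank_le _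
      rw [finrank_self] at h3
      omega
    obtain ⟨u, hu, hu0, hu2⟩ := exists_fixed hp (LinearMap.ker (H.fl v)) (by
      intro a ha w hw
      rw [LinearMap.mem_ker, H.fl_apply] at hw ⊢
      rw [← hv a ha, hA ha, hw]) hker
    rw [LinearMap.mem_ker, H.fl_apply] at hu
    by_cases huu : f u u = 0
    · exact ⟨u, hu0, huu, hu2⟩
    · have hu1 : f u u = 1 := (H89MU.fix_cases hF _ (H.self_fixed u)).resolve_left huu
      refine ⟨v + u, ?_, ?_, ?_⟩
      · intro h
        have h1 : u = v := by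
          calc u = v + v + u := by rw [vadd_self F, zero_add]
            _ = v + (v + u) := by rw [add_assoc]
            _ = v := by rw [h, add_zero]
        rw [h1] at hu
        exact hvv hu
      · rw [H.add_left, H.add_right, H.add_right, hv1, hu1, hu, H.symm_zero hu, add_zero, zero_add, fadd_self]
      · intro a ha
        rw [map_add, hv a ha, hu2 a ha]

/-- hyperbolic partner -/
theorem exists_pair (hF : Fintype.card F = 2 ^ 2) (H : HS (sig hF) f) (hnd : Nd f (⊤ : Submodule F V)) {e : V} (he0 : e ≠ 0)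
    (hee : f e e = 0) : ∃ y, f e y = 1 ∧ f y y = 0 := by
  obtain ⟨z, _, hz⟩ := hnd e trivial he0
  have h1 : f e (sig hF (f e z)⁻¹ • z) = 1 := by
    rw [H.smul_right, H.inv, inv_mul_cancel₀ hz]
  obtain ⟨y0, h1⟩ : ∃ y0, f e y0 = 1 := ⟨_, h1⟩
  have h1' : f y0 e = 1 := by rw [H.herm, h1, map_one]
  obtain ⟨b, hb⟩ := H.exists_trace (f y0 y0) (H.self_fixed y0)
  refine ⟨y0 + b • e, ?_, ?_⟩
  · rw [H.add_right, H.smul_right, hee, mul_zero, add_zero, h1]
  · rw [H.add_left, H.add_right, H.add_right, H.smul_left, H.smul_left, H.smul_right, H.smul_right, hee, h1, h1', mul_zero,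
      mul_zero, add_zero, mul_one, mul_one]
    rw [add_assoc, add_comm (sig hF b) b, hb, fadd_self]

/-- data of a hyperbolic pair -/
structure Hyp (hF : Fintype.card F = 2 ^ 2) (f : V → V → F) (e y : V) : Prop where
  H : HS (sig hF) f
  nd : Nd f (⊤ : Submodule F V)
  e0 : e ≠ 0
  ee : f e e = 0
  ey : f e y = 1
  yy : f y y = 0

namespace Hyp

variable {hF : Fintype.card F = 2 ^ 2} {e y : V} (C : Hyp hF f e y)
include C

theorem ye : f y e = 1 := by rw [C.H.herm, C.ey, map_one]

/-- the orthogonal complement of the hyperbolic plane -/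
noncomputable def PP : Submodule F V := LinearMap.ker (C.H.fl e) ⊓ LinearMap.ker (C.H.fl y)

theorem mem_PP {x : V} : x ∈ C.PP ↔ f x e = 0 ∧ f x y = 0 := by
  unfold PP
  rw [Submodule.mem_inf, LinearMap.mem_ker, LinearMap.mem_ker, C.H.fl_apply, C.H.fl_apply]

/-- the restricted form -/
noncomputable def ff : C.PP → C.PP → F := fun a b => f a b

theorem ff_apply (a b : C.PP) : C.ff a b = f a b := rfl

theorem ff_HS : HS (sig hF) C.ff :=
  ⟨C.H.inv, C.H.ne, C.H.norm, fun x y z => C.H.add_left _ _ _, fun c x y => C.H.smul_left _ _ _, fun x y => C.H.herm _ _⟩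

theorem pj_mem (x : V) : x + f x y • e + f x e • y ∈ C.PP := by
  rw [C.mem_PP]
  constructor
  · rw [C.H.add_left, C.H.add_left, C.H.smul_left, C.H.smul_left, C.ee, C.ye, mul_zero, add_zero, mul_one, fadd_self]
  · rw [C.H.add_left, C.H.add_left, C.H.smul_left, C.H.smul_left, C.ey, C.yy, mul_zero, add_zero, mul_one, fadd_self]

/-- the projection -/
noncomputable def pj : V →ₗ[F] C.PP where
  toFun x := ⟨x + f x y • e + f x e • y, C.pj_mem x⟩
  map_add' a b := by
    apply Subtype.ext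
    show (a + b) + f (a + b) y • e + f (a + b) e • y = (a + f a y • e + f a e • y) + (b + f b y • e + f b e • y)
    rw [C.H.add_left, C.H.add_left, add_smul, add_smul]
    abel
  map_smul' c a := by
    apply Subtype.ext
    show c • a + f (c • a) y • e + f (c • a) e • y = c • (a + f a y • e + f a e • y)
    rw [C.H.smul_left, C.H.smul_left, smul_add, smul_add, mul_smul, mul_smul]

theorem pj_apply (x : V) : ((C.pj x : C.PP) : V) = x + f x y • e + f x e • y := rfl

theorem pj_e : C.pj e = 0 := by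
  apply Subtype.ext
  rw [C.pj_apply, C.ey, C.ee, one_smul, zero_smul, add_zero, vadd_self F]
  rfl

theorem pj_y : C.pj y = 0 := by
  apply Subtype.ext
  rw [C.pj_apply, C.yy, C.ye, one_smul, zero_smul, add_zero, vadd_self F]
  rfl

theorem pj_self (w : C.PP) : C.pj w = w := by
  apply Subtype.ext
  obtain ⟨h1, h2⟩ := C.mem_PP.1 w.2
  rw [C.pj_apply, h1, h2, zero_smul, zero_smul, add_zero, add_zero]

theorem decomp (x : V) : x = (C.pj x : V) + f x y • e + f x e • y := by
  rw [C.pj_apply]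
  have h1 := vadd_self F (f x y • e)
  have h2 := vadd_self F (f x e • y)
  calc x = x + (f x y • e + f x y • e) + (f x e • y + f x e • y) := by rw [h1, h2, add_zero, add_zero]
    _ = _ := by abel

/-- the dimension of the complement -/
noncomputable def equiv : V ≃ₗ[F] C.PP × (F × F) where
  toFun x := (C.pj x, (f x y, f x e))
  invFun p := (p.1 : V) + p.2.1 • e + p.2.2 • y
  map_add' a b := by
    rw [map_add, C.H.add_left, C.H.add_left]
    rfl
  map_smul' c a := by
    rw [map_smul, C.H.smul_left, C.H.smul_left]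
    rfl
  left_inv x := (C.decomp x).symm
  right_inv p := by
    obtain ⟨w, α, β⟩ := p
    obtain ⟨h1, h2⟩ := C.mem_PP.1 w.2
    have e1 : C.pj ((w : V) + α • e + β • y) = w := by
      rw [map_add, map_add, map_smul, map_smul, C.pj_e, C.pj_y, C.pj_self, smul_zero, smul_zero, add_zero, add_zero]
    have e2 : f ((w : V) + α • e + β • y) y = α := by
      rw [C.H.add_left, C.H.add_left, C.H.smul_left, C.H.smul_left, h2, C.ey, C.yy, mul_zero, add_zero, zero_add, mul_one]
    have e3 : f ((w : V) + α • e + β • y) e = β := by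
      rw [C.H.add_left, C.H.add_left, C.H.smul_left, C.H.smul_left, h1, C.ee, C.ye, mul_zero, zero_add, zero_add, mul_one]
    show (C.pj ((w : V) + α • e + β • y), (f ((w : V) + α • e + β • y) y, f ((w : V) + α • e + β • y) e)) = (w, (α, β))
    rw [e1, e2, e3]

theorem finrank_PP [FiniteDimensional F V] : finrank F V = finrank F C.PP + 2 := by
  rw [C.equiv.finrank_eq, Module.finrank_prod, Module.finrank_prod, finrank_self]

theorem ff_nd : Nd C.ff (⊤ : Submodule F C.PP) := by
  intro x _ hx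
  obtain ⟨h1, h2⟩ := C.mem_PP.1 x.2
  have hx' : (x : V) ≠ 0 := fun h => hx (Subtype.ext h)
  obtain ⟨z, _, hz⟩ := C.nd x trivial hx'
  refine ⟨C.pj z, trivial, ?_⟩
  rw [C.ff_apply, C.pj_apply, C.H.add_right, C.H.add_right, C.H.smul_right, C.H.smul_right, h1, h2, mul_zero, mul_zero, add_zero,
    add_zero]
  exact hz

/-- isometries fixing `e` -/
theorem g_perp {g : V ≃ₗ[F] V} (hg : g ∈ isom f) (he : g e = e) (x : V) : f (g x) e = f x e := by
  conv_lhs => rw [← he]
  exact hg x e

/-- the induced linear map -/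
noncomputable def Tl (g : V ≃ₗ[F] V) : C.PP →ₗ[F] C.PP := C.pj.comp ((g : V →ₗ[F] V).comp C.PP.subtype)

theorem Tl_apply (g : V ≃ₗ[F] V) (w : C.PP) : C.Tl g w = C.pj (g w) := rfl

theorem g_PP {g : V ≃ₗ[F] V} (hg : g ∈ isom f) (he : g e = e) (w : C.PP) : g w = (C.Tl g w : V) + f (g w) y • e := by
  have h1 := C.decomp (g w)
  rw [C.g_perp hg he, (C.mem_PP.1 w.2).1, zero_smul, add_zero] at h1
  exact h1

theorem Tl_mul {g h : V ≃ₗ[F] V} (hh : h ∈ isom f) (hge : g e = e) (hhe : h e = e) (w : C.PP) :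
    C.Tl (g * h) w = C.Tl g (C.Tl h w) := by
  rw [C.Tl_apply, LinearEquiv.mul_apply, C.g_PP hh hhe w, map_add, map_smul, hge, map_add, map_smul, C.pj_e, smul_zero, add_zero]
  rfl

theorem Tl_one (w : C.PP) : C.Tl 1 w = w := C.pj_self w

theorem Tl_isom {g : V ≃ₗ[F] V} (hg : g ∈ isom f) (he : g e = e) (v w : C.PP) : C.ff (C.Tl g v) (C.Tl g w) = C.ff v w := by
  have h1 := hg v w
  rw [C.g_PP hg he v, C.g_PP hg he w, C.H.add_left, C.H.add_right, C.H.add_right, C.H.smul_left, C.H.smul_left, C.H.smul_right,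
    C.H.smul_right, C.ee, (C.mem_PP.1 (C.Tl g v).2).1, C.H.symm_zero (C.mem_PP.1 (C.Tl g w).2).1] at h1
  simp only [mul_zero, add_zero] at h1
  exact h1

/-- the induced homomorphism -/
noncomputable def phi (A : Subgroup (V ≃ₗ[F] V)) (hA : A ≤ isom f) (hAe : ∀ a ∈ A, a e = e) : A →* (C.PP ≃ₗ[F] C.PP) :=
  MonoidHom.mk' (fun a => LinearEquiv.ofLinear (C.Tl a.1) (C.Tl a.1⁻¹)
      (LinearMap.ext fun w => by
        show C.Tl a.1 (C.Tl a.1⁻¹ w) = w
        rw [← C.Tl_mul (hA (inv_mem a.2)) (hAe _ a.2) (hAe _ (inv_mem a.2)), mul_inv_cancel, C.Tl_one])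
      (LinearMap.ext fun w => by
        show C.Tl a.1⁻¹ (C.Tl a.1 w) = w
        rw [← C.Tl_mul (hA a.2) (hAe _ (inv_mem a.2)) (hAe _ a.2), inv_mul_cancel, C.Tl_one]))
    (fun a b => LinearEquiv.ext fun w => by
      show C.Tl (a.1 * b.1) w = C.Tl a.1 (C.Tl b.1 w)
      exact C.Tl_mul (hA b.2) (hAe _ a.2) (hAe _ b.2) w)

theorem phi_apply (A : Subgroup (V ≃ₗ[F] V)) (hA : A ≤ isom f) (hAe : ∀ a ∈ A, a e = e) (a : A) (w : C.PP) :
    C.phi A hA hAe a w = C.Tl a.1 w := rfl

end Hyp

end Cfsg.Agent.Lib.H89EA
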