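import Cfsg.Agent.Lib.H89EA1
/-
Elementary abelian 2-groups of isometries of a hermitian space over the field with four elements:
the kernel of the action on the complement, and the induction (helper89).
-/
set_option autoImplicit false
set_option linter.all false

namespace Cfsg.Agent.Lib.H89EA

open Module Cfsg Cfsg.Agent.Lib.UnTrans Cfsg.Agent.Lib.UnBridge Cfsg.Agent.Lib.U6Class
open Cfsg.Agent.Lib.SpTrans (isom mem_isom)

universe v

variable {F : Type} [Field F] [Fintype F] [CharP F 2]
variable {V : Type v} [AddCommGroup V] [Module F V] {f : V → V → F}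

namespace Hyp

variable {hF : Fintype.card F = 2 ^ 2} {e y : V} (C : Hyp hF f e y)
include C

/-- the vector of an isometry -/
noncomputable def uu (g : V ≃ₗ[F] V) : C.PP := C.pj (g y)

theorem g_y {g : V ≃ₗ[F] V} (hg : g ∈ isom f) (he : g e = e) : g y = (C.uu g : V) + f (g y) y • e + y := by
  have h1 := C.decomp (g y)
  rw [C.g_perp hg he y, C.ye, one_smul] at h1
  exact h1

/-- the coefficient of `e` -/
theorem coeff {g : V ≃ₗ[F] V} (hg : g ∈ isom f) (he : g e = e) (w w' : C.PP) (ν : F) (h : g w = (w' : V) + ν • e) :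
    ν = f w' (C.uu g) := by
  have h1 := hg w y
  rw [h, C.g_y hg he, (C.mem_PP.1 w.2).2] at h1
  obtain ⟨a1, a2⟩ := C.mem_PP.1 w'.2
  have a3 := C.H.symm_zero (C.mem_PP.1 (C.uu g).2).1
  rw [C.H.add_left, C.H.add_right, C.H.add_right, C.H.smul_left, C.H.smul_right, a1, a2, C.H.add_right, C.H.add_right,
    C.H.smul_right, a3, C.ee, C.ey] at h1
  simp only [mul_zero, add_zero, zero_add, mul_one] at h1
  have h2 : f (w' : V) (C.uu g) + f (w' : V) (C.uu g) = 0 := fadd_self _
  calc ν = f (w' : V) (C.uu g) + f (w' : V) (C.uu g) + ν := by rw [h2, zero_add]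
    _ = f (w' : V) (C.uu g) + (f (w' : V) (C.uu g) + ν) := by rw [add_assoc]
    _ = f (w' : V) (C.uu g) := by rw [h1, add_zero]

theorem k_PP {g : V ≃ₗ[F] V} (hg : g ∈ isom f) (he : g e = e) (hk : ∀ w : C.PP, C.Tl g w = w) (w : C.PP) :
    g w = (w : V) + f w (C.uu g) • e := by
  have h1 := C.g_PP hg he w
  rw [hk w] at h1
  rw [← C.coeff hg he w w _ h1]
  exact h1

/-- commuting isometries, one of them trivial on the complement -/
theorem comm_rel {a k : V ≃ₗ[F] V} (ha : a ∈ isom f) (hae : a e = e) (hk : k ∈ isom f) (hke : k e = e)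
    (hT : ∀ w : C.PP, C.Tl k w = w) (hc : a * k = k * a) :
    a (C.uu k) = (C.uu k : V) + f (C.uu a) (C.uu k) • e ∧ sig hF (f (C.uu a) (C.uu k)) = f (C.uu a) (C.uu k) := by
  have h1 : a (k y) = k (a y) := by
    rw [← LinearEquiv.mul_apply, hc, LinearEquiv.mul_apply]
  rw [C.g_y hk hke, map_add, map_add, map_smul, hae] at h1
  have h2 : k (a y) = ((C.uu a : V) + f (C.uu a) (C.uu k) • e) + f (a y) y • e + ((C.uu k : V) + f (k y) y • e + y) := by
    rw [← C.g_y hk hke]
    conv_lhs => rw [C.g_y ha hae]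
    rw [map_add, map_add, map_smul, hke, C.k_PP hk hke hT]
  rw [h2] at h1
  have h3 : a (C.uu k) = (C.uu k : V) + f (C.uu a) (C.uu k) • e := by
    have h4 : a y = (C.uu a : V) + f (a y) y • e + y := C.g_y ha hae
    have h5 : a (C.uu k) + f (k y) y • e + ((C.uu a : V) + f (a y) y • e + y) =
        (C.uu a : V) + f (C.uu a) (C.uu k) • e + f (a y) y • e + ((C.uu k : V) + f (k y) y • e + y) := by
      rw [← h4]; exact h1
    have h6 : a (C.uu k) + (f (k y) y • e + ((C.uu a : V) + f (a y) y • e + y)) =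
        (C.uu k : V) + f (C.uu a) (C.uu k) • e + (f (k y) y • e + ((C.uu a : V) + f (a y) y • e + y)) := by
      rw [← add_assoc, h5]
      abel
    exact add_right_cancel h6
  refine ⟨h3, ?_⟩
  have h4 := C.coeff ha hae (C.uu k) (C.uu k) _ h3
  rw [← C.H.herm]
  exact h4.symm

end Hyp

/-- the kernel bound -/
theorem Hyp.kernel [FiniteDimensional F V] {hF : Fintype.card F = 2 ^ 2} {e y : V} (C : Hyp hF f e y) {m : ℕ}
    (hm : finrank F C.PP = 2 * m) (K : Subgroup (V ≃ₗ[F] V)) (hK : K ≤ isom f) (hKe : ∀ k ∈ K, k e = e)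
    (hKT : ∀ k ∈ K, ∀ w : C.PP, C.Tl k w = w) (hcomm : ∀ k ∈ K, ∀ l ∈ K, k * l = l * k) :
    Nat.card K ≤ 2 ^ (2 * m + 1) ∧ (Nat.card K = 2 ^ (2 * m + 1) → ∃ U : AddSubgroup C.PP, Nat.card U = 2 ^ (2 * m) ∧
      ∀ u ∈ U, ∃ k ∈ K, C.uu k = u) := by
  classical
  haveI : Finite V := Module.finite_of_finite F
  haveI : Finite (V ≃ₗ[F] V) := Finite.of_injective (fun g : V ≃ₗ[F] V => (g : V → V)) (fun a b h => LinearEquiv.ext fun x => congrFun h x)
  have hmul : ∀ k ∈ K, ∀ l ∈ K, C.uu (k * l) = C.uu k + C.uu l := by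
    intro k hk l hl
    unfold Hyp.uu
    rw [LinearEquiv.mul_apply]
    conv_lhs => rw [C.g_y (hK hl) (hKe l hl)]
    have e1 : k ((C.uu l : V) + f (l y) y • e + y) = k (C.uu l) + f (l y) y • e + k y := by
      rw [map_add, map_add, map_smul, hKe k hk]
    rw [e1, map_add, map_add, map_smul, C.pj_e, smul_zero, add_zero, add_comm]
    congr 1
    exact hKT k hk (C.uu l)
  let ρ : Additive K →+ C.PP :=
    { toFun := fun k => C.uu (Additive.toMul k).1
      map_zero' := by
        have h := hmul 1 (one_mem _) 1 (one_mem _)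
        rw [mul_one] at h
        exact (left_eq_add.1 h)
      map_add' := fun k l => hmul _ k.toMul.2 _ l.toMul.2 }
  have hU : ∀ x ∈ ρ.range, ∀ z ∈ ρ.range, sig hF (C.ff x z) = C.ff x z := by
    rintro x ⟨k, rfl⟩ z ⟨l, rfl⟩
    exact (C.comm_rel (hK k.toMul.2) (hKe _ k.toMul.2) (hK l.toMul.2) (hKe _ l.toMul.2) (hKT _ l.toMul.2)
      (hcomm _ k.toMul.2 _ l.toMul.2)).2
  have h1 : Nat.card ρ.range ≤ 2 ^ (2 * m) := card_sub_le hF C.ff_HS C.ff_nd hm ρ.range hU
  have h2 : Nat.card ρ.ker ≤ 2 := by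
    have hinj : Function.Injective (fun k : ρ.ker => (decide (f ((Additive.toMul k.1).1 y) y = 0) : Bool)) := by
      have key : ∀ k : ρ.ker, (f ((Additive.toMul k.1).1 y) y = 0 ∨ f ((Additive.toMul k.1).1 y) y = 1) ∧
          (Additive.toMul k.1).1 y = f ((Additive.toMul k.1).1 y) y • e + y ∧ ∀ w : C.PP, (Additive.toMul k.1).1 w = w := by
        rintro ⟨k, hk⟩
        have hk0 : C.uu (Additive.toMul k).1 = 0 := hk
        have hkK := (Additive.toMul k).2
        have h3 := C.g_y (hK hkK) (hKe _ hkK)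
        have h4 : ((C.uu (Additive.toMul k).1 : C.PP) : V) = 0 := by rw [hk0]; rfl
        rw [h4, zero_add] at h3
        refine ⟨?_, h3, ?_⟩
        · have h5 := hK hkK y y
          have h6 : f (f ((Additive.toMul k).1 y) y • e + y) (f ((Additive.toMul k).1 y) y • e + y) = f y y := by
            rw [← h3]; exact h5
          rw [C.H.add_left, C.H.add_right, C.H.add_right, C.H.smul_left, C.H.smul_left, C.H.smul_right, C.H.smul_right, C.ee,
            C.ey, C.ye, C.yy] at h6
          simp only [mul_zero, zero_add, mul_one, add_zero] at h6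
          apply H89MU.fix_cases hF
          have h7 := fadd_self (f ((Additive.toMul k).1 y) y)
          have h8 : sig hF (f ((Additive.toMul k).1 y) y) = (f ((Additive.toMul k).1 y) y + f ((Additive.toMul k).1 y) y) +
            sig hF (f ((Additive.toMul k).1 y) y) := by rw [h7, zero_add]
          rw [h8, add_assoc, h6, add_zero]
        · intro w
          have h5 := C.k_PP (hK hkK) (hKe _ hkK) (hKT _ hkK) w
          rw [h4, C.H.zero_right, zero_smul, add_zero] at h5
          exact h5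
      intro k l hkl
      obtain ⟨k1, k2, k3⟩ := key k
      obtain ⟨l1, l2, l3⟩ := key l
      have h5 : f ((Additive.toMul k.1).1 y) y = f ((Additive.toMul l.1).1 y) y := by
        have h' : (decide (f ((Additive.toMul k.1).1 y) y = 0) : Bool) = decide (f ((Additive.toMul l.1).1 y) y = 0) := hkl
        by_cases h6 : f ((Additive.toMul k.1).1 y) y = 0
        · rw [decide_eq_true h6] at h'
          rw [h6, of_decide_eq_true h'.symm]
        · rw [decide_eq_false h6] at h'
          rw [k1.resolve_left h6, l1.resolve_left (of_decide_eq_false h'.symm)]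
      apply Subtype.ext
      apply Additive.toMul.injective
      apply Subtype.ext
      apply LinearEquiv.ext
      intro x
      rw [C.decomp x, map_add, map_add, map_smul, map_smul, map_add, map_add, map_smul, map_smul, k3, l3,
        hKe _ (Additive.toMul k.1).2, hKe _ (Additive.toMul l.1).2, k2, l2, h5]
    have := Nat.card_le_card_of_injective _ hinj
    rwa [Nat.card_eq_fintype_card (α := Bool), Fintype.card_bool] at this
  have h3 : Nat.card K = Nat.card ρ.range * Nat.card ρ.ker := by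
    have h4 := AddSubgroup.card_eq_card_quotient_mul_card_addSubgroup ρ.ker
    rw [Nat.card_congr (QuotientAddGroup.quotientKerEquivRange ρ).toEquiv] at h4
    rw [← h4]
    exact Nat.card_congr Additive.ofMul
  have h5 : (2 : ℕ) ^ (2 * m + 1) = 2 ^ (2 * m) * 2 := pow_succ _ _
  refine ⟨?_, ?_⟩
  · rw [h3, h5]
    exact Nat.mul_le_mul h1 h2
  · intro h6
    refine ⟨ρ.range, ?_, ?_⟩
    · rw [h3, h5] at h6
      by_contra hne
      have h7 : Nat.card ρ.range < 2 ^ (2 * m) := lt_of_le_of_ne h1 hne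
      have h8 : Nat.card ρ.range * Nat.card ρ.ker < 2 ^ (2 * m) * 2 := by
        have hpos : 0 < Nat.card ρ.ker := Nat.card_pos
        calc Nat.card ρ.range * Nat.card ρ.ker < 2 ^ (2 * m) * Nat.card ρ.ker := Nat.mul_lt_mul_of_pos_right h7 hpos
          _ ≤ 2 ^ (2 * m) * 2 := Nat.mul_le_mul_left _ h2
      omega
    · rintro u ⟨k, rfl⟩
      exact ⟨_, (Additive.toMul k).2, rfl⟩

end Cfsg.Agent.Lib.H89EA
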