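import Cfsg.Agent.Lib.H89EA2
/-
Elementary abelian 2-groups of isometries of a hermitian space over the field with four elements:
the bound and the case of equality (helper89).
-/
set_option autoImplicit false
set_option linter.all false

namespace Cfsg.Agent.Lib.H89EA

open Module Cfsg Cfsg.Agent.Lib.UnTrans Cfsg.Agent.Lib.UnBridge Cfsg.Agent.Lib.U6Class
open Cfsg.Agent.Lib.SpTrans (isom mem_isom)

universe v

variable {F : Type} [Field F] [Fintype F] [CharP F 2]
variable {V : Type v} [AddCommGroup V] [Module F V] {f : V → V → F}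

/-- vectors orthogonal to a half-dimensional totally isotropic space lie in it -/
theorem mem_of_perp [FiniteDimensional F V] {hF : Fintype.card F = 2 ^ 2} (H : HS (sig hF) f) (hnd : Nd f (⊤ : Submodule F V))
    {m : ℕ} (hm : finrank F V = 2 * m) {W : Submodule F V} (hW : finrank F W = m) (hiso : ∀ x ∈ W, ∀ z ∈ W, f x z = 0)
    {x : V} (hx : ∀ w ∈ W, f x w = 0) : x ∈ W := by
  let Wp : Submodule F V :=
    { carrier := {x | ∀ w ∈ W, f x w = 0}
      add_mem' := fun {a b} ha hb w hw => by rw [H.add_left, ha w hw, hb w hw, add_zero]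
      zero_mem' := fun w _ => H.zero_left w
      smul_mem' := fun c a ha w hw => by rw [H.smul_left, ha w hw, mul_zero] }
  have hle : W ≤ Wp := fun x hx w hw => hiso x hx w hw
  let b := Module.finBasis F W
  have hlin : LinearIndependent F (fun i => H.fl (b i : V)) := by
    rw [Fintype.linearIndependent_iff]
    intro c hc i
    have h1 : ∀ v : V, f v (∑ i, sig hF (c i) • (b i : V)) = 0 := by
      intro v
      have h2 := DFunLike.congr_fun hc v
      rw [LinearMap.sum_apply] at h2
      have h3 : ∀ s : Finset (Fin (finrank F W)), f v (∑ i ∈ s, sig hF (c i) • (b i : V)) = ∑ i ∈ s, (c i • H.fl (b i : V)) v := by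
        intro s
        classical
        induction s using Finset.induction_on with
        | empty => rw [Finset.sum_empty, Finset.sum_empty, H.zero_right]
        | insert a s ha ih =>
          rw [Finset.sum_insert ha, Finset.sum_insert ha, H.add_right, H.smul_right, sig_inv, ih]
          rfl
      rw [h3]
      exact h2
    have h4 : (∑ i, sig hF (c i) • (b i : V)) = 0 := by
      by_contra hne
      obtain ⟨v, _, hv⟩ := hnd _ trivial hne
      exact hv (H.symm_zero (h1 v))
    have h5 : (∑ i, sig hF (c i) • b i) = 0 := by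
      apply Subtype.ext
      have h6 : ((∑ i, sig hF (c i) • b i : W) : V) = ∑ i, sig hF (c i) • (b i : V) := by simp
      rw [h6, h4]
      rfl
    have h6 := Fintype.linearIndependent_iff.1 b.linearIndependent _ h5 i
    have h7 : sig hF (sig hF (c i)) = 0 := by rw [h6, map_zero]
    rwa [sig_inv] at h7
  have h1 : finrank F (Submodule.span F (Set.range fun i => H.fl (b i : V))) = m := by
    rw [finrank_span_eq_card hlin, Fintype.card_fin, hW]
  have h2 := Subspace.finrank_add_finrank_dualCoannihilator_eq (Submodule.span F (Set.range fun i => H.fl (b i : V)))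
  have h3 : Wp ≤ (Submodule.span F (Set.range fun i => H.fl (b i : V))).dualCoannihilator := by
    intro x hx
    rw [Submodule.mem_dualCoannihilator]
    intro φ hφ
    induction hφ using Submodule.span_induction with
    | mem φ hφ =>
      obtain ⟨i, rfl⟩ := hφ
      exact hx _ (b i).2
    | zero => rfl
    | add φ ψ _ _ h1 h2 => rw [LinearMap.add_apply, h1, h2, add_zero]
    | smul c φ _ h1 => rw [LinearMap.smul_apply, h1, smul_zero]
  have h4 : finrank F Wp ≤ finrank F W := by
    have h5 := Submodule.finrank_mono h3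
    omega
  have h5 : W = Wp := Submodule.eq_of_le_of_finrank_le hle h4
  rw [h5]
  exact hx

/-- a group generated by commuting involutions is elementary -/
theorem closure_sq {G : Type*} [Group G] {S : Set G} (h1 : ∀ s ∈ S, s * s = 1) (h2 : ∀ s ∈ S, ∀ t ∈ S, s * t = t * s) :
    ∀ b ∈ Subgroup.closure S, b * b = 1 := by
  have h3 : ∀ b ∈ Subgroup.closure S, ∀ s ∈ S, Commute s b := by
    intro b hb s hs
    induction hb using Subgroup.closure_induction with
    | mem y hy => exact h2 s hs y hy
    | one => exact Commute.one_right _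
    | mul x y _ _ hx hy => exact hx.mul_right hy
    | inv x _ hx => exact hx.inv_right
  have h4 : ∀ b ∈ Subgroup.closure S, ∀ c ∈ Subgroup.closure S, Commute c b := by
    intro b hb c hc
    induction hc using Subgroup.closure_induction with
    | mem y hy => exact h3 b hb y hy
    | one => exact Commute.one_left _
    | mul x y _ _ hx hy => exact hx.mul_left hy
    | inv x _ hx => exact hx.inv_left
  intro b hb
  induction hb using Subgroup.closure_induction with
  | mem y hy => exact h1 y hy
  | one => exact one_mul 1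
  | mul x y hx hy ihx ihy =>
    have := (h4 x hx y hy).eq
    calc x * y * (x * y) = x * (y * x) * y := by group
      _ = x * (x * y) * y := by rw [this]
      _ = (x * x) * (y * y) := by group
      _ = 1 := by rw [ihx, ihy, one_mul]
  | inv x _ ihx =>
    have : x⁻¹ * x⁻¹ = (x * x)⁻¹ := by group
    rw [this, ihx, inv_one]

theorem comm_of_sq {G : Type*} [Group G] {A : Subgroup G} (h : ∀ a ∈ A, a * a = 1) {a b : G} (ha : a ∈ A) (hb : b ∈ A) :
    a * b = b * a := by
  have h1 := h _ (mul_mem ha hb)
  have h2 := h a ha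
  have h3 := h b hb
  calc a * b = a * b * (b * a * (b * a)) := by rw [h _ (mul_mem hb ha), mul_one]
    _ = a * (b * b) * a * (b * a) := by group
    _ = b * a := by rw [h3, mul_one, h2, one_mul]

section
variable [FiniteDimensional F V]

/-- a transvection commuting with a maximal group lies in it -/
theorem tr_mem_of_max {hF : Fintype.card F = 2 ^ 2} (H : HS (sig hF) f) {m : ℕ}
    (hbd : ∀ B : Subgroup (V ≃ₗ[F] V), B ≤ isom f → (∀ b ∈ B, b * b = 1) → Nat.card B ≤ 2 ^ (m ^ 2))
    {A : Subgroup (V ≃ₗ[F] V)} (hA : A ≤ isom f) (hsq : ∀ a ∈ A, a * a = 1) (hc : Nat.card A = 2 ^ (m ^ 2)) {w : V}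
    (hw : f w w = 0) (hfix : ∀ a ∈ A, a w = w) : tr H w hw ∈ A := by
  haveI : Finite V := Module.finite_of_finite F
  haveI : Finite (V ≃ₗ[F] V) := Finite.of_injective (fun g : V ≃ₗ[F] V => (g : V → V)) (fun a b h => LinearEquiv.ext fun x => congrFun h x)
  have ht2 : tr H w hw * tr H w hw = 1 := by
    apply LinearEquiv.ext
    intro x
    show tr H w hw (tr H w hw x) = x
    rw [tr_apply, tr_apply, H.add_left, H.smul_left, hw, mul_zero, add_zero, add_assoc, vadd_self F, add_zero]
  have hcomm : ∀ a ∈ A, a * tr H w hw = tr H w hw * a := by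
    intro a ha
    apply LinearEquiv.ext
    intro x
    show a (tr H w hw x) = tr H w hw (a x)
    have h1 : f (a x) w = f x w := by
      conv_lhs => rw [← hfix a ha]
      exact hA ha x w
    rw [tr_apply, tr_apply, map_add, map_smul, hfix a ha, h1]
  let B := Subgroup.closure ((A : Set (V ≃ₗ[F] V)) ∪ {tr H w hw})
  have hAB : A ≤ B := fun a ha => Subgroup.subset_closure (Or.inl ha)
  have hB1 : B ≤ isom f := by
    rw [Subgroup.closure_le]
    rintro s (hs | rfl)
    · exact hA hs
    · exact tr_mem_isom H w hw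
  have hB2 : ∀ b ∈ B, b * b = 1 := by
    apply closure_sq
    · rintro s (hs | rfl)
      · exact hsq s hs
      · exact ht2
    · rintro s (hs | rfl) t (ht | rfl)
      · exact comm_of_sq hsq hs ht
      · exact hcomm s hs
      · exact (hcomm t ht).symm
      · rfl
  have h1 := hbd B hB1 hB2
  have h2 : A = B := by
    apply Subgroup.eq_of_le_of_card_ge hAB
    rw [hc]
    exact h1
  rw [h2]
  exact Subgroup.subset_closure (Or.inr rfl)

end

/-- the bound, with equality only for pointwise stabilizers of maximal totally isotropic spaces -/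
theorem main (hF : Fintype.card F = 2 ^ 2) : ∀ (m : ℕ) {V : Type v} [AddCommGroup V] [Module F V] [FiniteDimensional F V]
    {f : V → V → F} (H : HS (sig hF) f) (hnd : Nd f (⊤ : Submodule F V)) (hm : finrank F V = 2 * m)
    (A : Subgroup (V ≃ₗ[F] V)) (hA : A ≤ isom f) (hsq : ∀ a ∈ A, a * a = 1),
    Nat.card A ≤ 2 ^ (m ^ 2) ∧ (Nat.card A = 2 ^ (m ^ 2) → ∃ W : Submodule F V, finrank F W = m ∧
      (∀ x ∈ W, ∀ z ∈ W, f x z = 0) ∧ ∀ a ∈ A, ∀ w ∈ W, a w = w) := by
  intro m
  induction m with
  | zero =>
    intro V _ _ _ f H hnd hm A hA hsq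
    haveI : Subsingleton V := by
      rw [Nat.mul_zero] at hm
      exact finrank_zero_iff.1 hm
    have h1 : ∀ a b : V ≃ₗ[F] V, a = b := fun a b => LinearEquiv.ext fun x => Subsingleton.elim _ _
    haveI : Subsingleton (V ≃ₗ[F] V) := ⟨h1⟩
    refine ⟨?_, fun _ => ⟨⊥, finrank_bot F V, ?_, ?_⟩⟩
    · have : Nat.card A = 1 := Nat.card_unique
      rw [this]
      norm_num
    · intro x hx z hz
      rw [(Submodule.mem_bot F).1 hx, H.zero_left]
    · intro a _ w _
      exact Subsingleton.elim _ _
  | succ m ih =>
    intro V _ _ _ f H hnd hm A hA hsq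
    haveI : Finite V := Module.finite_of_finite F
    haveI : Finite (V ≃ₗ[F] V) := Finite.of_injective (fun g : V ≃ₗ[F] V => (g : V → V)) (fun a b h => LinearEquiv.ext fun x => congrFun h x)
    obtain ⟨e, he0, hee, hAe⟩ := exists_fixed_iso hF H (by omega) hA hsq
    obtain ⟨y, hey, hyy⟩ := exists_pair hF H hnd he0 hee
    have C : Hyp hF f e y := ⟨H, hnd, he0, hee, hey, hyy⟩
    have hm' : finrank F C.PP = 2 * m := by
      have := C.finrank_PP
      omega
    let φ := C.phi A hA hAe
    have hR1 : φ.range ≤ isom C.ff := by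
      rintro _ ⟨a, rfl⟩ v w
      exact C.Tl_isom (hA a.2) (hAe _ a.2) v w
    have hR2 : ∀ b ∈ φ.range, b * b = 1 := by
      rintro _ ⟨a, rfl⟩
      rw [← map_mul]
      have : a * a = 1 := Subtype.ext (hsq a a.2)
      rw [this, map_one]
    obtain ⟨b1, b2⟩ := ih C.ff_HS C.ff_nd hm' φ.range hR1 hR2
    let K : Subgroup (V ≃ₗ[F] V) := φ.ker.map A.subtype
    have hKA : K ≤ A := Subgroup.map_subtype_le _
    have hKT : ∀ k ∈ K, ∀ w : C.PP, C.Tl k w = w := by
      rintro _ ⟨k, hk, rfl⟩ w
      have : φ k = 1 := hk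
      have h1 : φ k w = w := by rw [this]; rfl
      exact h1
    have hcardK : Nat.card K = Nat.card φ.ker := by
      exact Nat.card_congr (Subgroup.equivMapOfInjective _ _ A.subtype_injective).toEquiv.symm
    obtain ⟨k1, k2⟩ := C.kernel hm' K (hKA.trans hA) (fun k hk => hAe k (hKA hk)) hKT
      (fun k hk l hl => comm_of_sq hsq (hKA hk) (hKA hl))
    have hcard : Nat.card A = Nat.card φ.range * Nat.card K := by
      have h4 := Subgroup.card_eq_card_quotient_mul_card_subgroup φ.ker
      rw [Nat.card_congr (QuotientGroup.quotientKerEquivRange φ).toEquiv, ← hcardK] at h4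
      exact h4
    have hpow : (2 : ℕ) ^ ((m + 1) ^ 2) = 2 ^ (m ^ 2) * 2 ^ (2 * m + 1) := by
      rw [← pow_add]
      congr 1
      ring
    refine ⟨?_, ?_⟩
    · rw [hcard, hpow]
      exact Nat.mul_le_mul b1 k1
    · intro heq
      rw [hcard, hpow] at heq
      have hKpos : 0 < Nat.card K := Nat.card_pos
      have e1 : Nat.card φ.range = 2 ^ (m ^ 2) := by
        by_contra hne
        have h7 : Nat.card φ.range < 2 ^ (m ^ 2) := lt_of_le_of_ne b1 hne
        have : Nat.card φ.range * Nat.card K < 2 ^ (m ^ 2) * 2 ^ (2 * m + 1) :=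
          lt_of_lt_of_le (Nat.mul_lt_mul_of_pos_right h7 hKpos) (Nat.mul_le_mul_left _ k1)
        omega
      have e2 : Nat.card K = 2 ^ (2 * m + 1) := by
        rw [e1] at heq
        exact Nat.eq_of_mul_eq_mul_left (pow_pos (by norm_num) _) heq
      obtain ⟨W', w1, w2, w3⟩ := b2 e1
      obtain ⟨U, u1, u2⟩ := k2 e2
      -- the fixed space of the image is `W'`
      have hfixW : ∀ x : C.PP, (∀ b ∈ φ.range, b x = x) → x ∈ W' := by
        intro x hx
        apply mem_of_perp C.ff_HS C.ff_nd hm' w1 w2
        intro w hw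
        have hww := w2 w hw w hw
        have ht := tr_mem_of_max C.ff_HS (fun B hB hB2 => (ih C.ff_HS C.ff_nd hm' B hB hB2).1) hR1 hR2 e1 hww
          (fun b hb => w3 b hb w hw)
        have h5 := hx _ ht
        rw [tr_apply] at h5
        have h6 : C.ff x w • w = 0 := by
          have h7 : x + C.ff x w • w = x + 0 := by rw [add_zero]; exact h5
          exact add_left_cancel h7
        rcases smul_eq_zero.1 h6 with h8 | h8
        · exact h8
        · rw [h8, C.ff_HS.zero_right]
      -- relation between an element of `A` and an element of the kernel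
      have hrel : ∀ a ∈ A, ∀ k ∈ K, a (C.uu k) = (C.uu k : V) + f (C.uu a) (C.uu k) • e ∧
          sig hF (f (C.uu a) (C.uu k)) = f (C.uu a) (C.uu k) := by
        intro a ha k hk
        exact C.comm_rel (hA ha) (hAe a ha) (hA (hKA hk)) (hAe k (hKA hk)) (hKT k hk) (comm_of_sq hsq ha (hKA hk))
      have hUW : ∀ u ∈ U, u ∈ W' := by
        intro u hu
        obtain ⟨k, hk, rfl⟩ := u2 u hu
        apply hfixW
        rintro _ ⟨a, rfl⟩
        show C.Tl a.1 (C.uu k) = C.uu k
        rw [C.Tl_apply, (hrel a.1 a.2 k hk).1, map_add, map_smul, C.pj_e, smul_zero, add_zero, C.pj_self]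
      have hU' : ∀ w ∈ W', w ∈ U := by
        have h1 : Nat.card W'.toAddSubgroup = 2 ^ (2 * m) := by
          show Nat.card W' = _
          rw [Module.natCard_eq_pow_finrank (K := F) (V := W'), w1, Nat.card_eq_fintype_card, hF, ← pow_mul]
        have h2 : U ≤ W'.toAddSubgroup := fun u hu => hUW u hu
        have h3 : U = W'.toAddSubgroup := by
          apply AddSubgroup.eq_of_le_of_card_ge h2
          rw [h1, u1]
        intro w hw
        rw [h3]
        exact hw
      have hfu : ∀ a ∈ A, ∀ w : C.PP, w ∈ W' → f (C.uu a) w = 0 := by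
        intro a ha w hw
        apply eq_zero_of_fixed hF
        intro c
        have hw' : sig hF c • w ∈ W' := W'.smul_mem _ hw
        obtain ⟨k, hk, hkw⟩ := u2 _ (hU' _ hw')
        have h1 := (hrel a ha k hk).2
        rw [hkw] at h1
        have h2 : f (C.uu a) ((sig hF c • w : C.PP) : V) = c * f (C.uu a) w := by
          show f (C.uu a) (sig hF c • (w : V)) = _
          rw [C.H.smul_right, sig_inv]
        rw [h2] at h1
        exact h1
      have haw : ∀ a ∈ A, ∀ w : C.PP, w ∈ W' → a w = w := by
        intro a ha w hw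
        obtain ⟨k, hk, rfl⟩ := u2 _ (hU' _ hw)
        rw [(hrel a ha k hk).1, hfu a ha _ hw, zero_smul, add_zero]
      refine ⟨W'.map C.PP.subtype ⊔ Submodule.span F {e}, ?_, ?_, ?_⟩
      · have h1 : finrank F (W'.map C.PP.subtype) = m := by
          rw [Submodule.finrank_map_subtype_eq]
          exact w1
        have h2 : finrank F (Submodule.span F {e}) = 1 := finrank_span_singleton he0
        have h3 : W'.map C.PP.subtype ⊓ Submodule.span F {e} = ⊥ := by
          rw [eq_bot_iff]
          rintro x ⟨⟨w, hw, rfl⟩, hx2⟩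
          obtain ⟨c, hc⟩ := Submodule.mem_span_singleton.1 hx2
          have h4 := (C.mem_PP.1 w.2).2
          have h5 : f (c • e) y = 0 := by rw [hc]; exact h4
          rw [C.H.smul_left, C.ey, mul_one] at h5
          rw [Submodule.mem_bot, ← hc, h5, zero_smul]
        have h4 := Submodule.finrank_sup_add_finrank_inf_eq (W'.map C.PP.subtype) (Submodule.span F {e})
        rw [h3, finrank_bot, h1, h2] at h4
        omega
      · intro x hx z hz
        obtain ⟨_, ⟨a, ha, rfl⟩, p, hp, rfl⟩ := Submodule.mem_sup.1 hx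
        obtain ⟨_, ⟨b, hb, rfl⟩, q, hq, rfl⟩ := Submodule.mem_sup.1 hz
        obtain ⟨c, rfl⟩ := Submodule.mem_span_singleton.1 hp
        obtain ⟨d, rfl⟩ := Submodule.mem_span_singleton.1 hq
        have h1 : f (a : V) (b : V) = 0 := w2 a ha b hb
        have h2 := (C.mem_PP.1 a.2).1
        have h3 := C.H.symm_zero (C.mem_PP.1 b.2).1
        show f ((a : V) + c • e) ((b : V) + d • e) = 0
        rw [C.H.add_left, C.H.add_right, C.H.add_right, C.H.smul_left, C.H.smul_left, C.H.smul_right, C.H.smul_right, C.ee, h1, h2, h3]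
        simp
      · intro a ha x hx
        obtain ⟨_, ⟨w, hw, rfl⟩, p, hp, rfl⟩ := Submodule.mem_sup.1 hx
        obtain ⟨c, rfl⟩ := Submodule.mem_span_singleton.1 hp
        show a ((w : V) + c • e) = (w : V) + c • e
        rw [map_add, map_smul, hAe a ha, haw a ha w hw]

end Cfsg.Agent.Lib.H89EA
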