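import Cfsg.Agent.Lib.H89EA3
import Cfsg.Agent.Lib.U6Invol
/-
Elementary abelian 2-subgroups of the unitary group of dimension six over the field with four elements (helper89).
-/
set_option autoImplicit false
set_option linter.all false

namespace Cfsg.Agent.Lib.H89EA

open Module Cfsg Cfsg.Agent.Lib.UnTrans Cfsg.Agent.Lib.UnBridge Cfsg.Agent.Lib.U6Class
open Cfsg.Agent.Lib.SpTrans (isom mem_isom)

universe v w

variable {F : Type} [Field F] [Fintype F] [CharP F 2] {V : Type v} [AddCommGroup V] [Module F V] {f : V → V → F}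
  {hF : Fintype.card F = 2 ^ 2} {H : HS (sig hF) f} {G₁ : Type w} [Group G₁] {π : SS f →* G₁} {D : Set G₁}

theorem exists_ne (S : Setup H G₁ π D) : ∃ x : V, x ≠ 0 := by
  by_contra hcon
  push Not at hcon
  have h6 := S.dim
  have : Subsingleton V := ⟨fun a b => by rw [hcon a, hcon b]⟩
  rw [Module.finrank_zero_of_subsingleton] at h6
  omega

/-- lifts with square one are unique -/
theorem uniq_lift (S : Setup H G₁ π D) {s t : SS f} (hs : s * s = 1) (ht : t * t = 1) (h : π s = π t) : s = t := by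
  obtain ⟨μ, hμ⟩ := (S.eq_iff s t).1 h
  have h1 : ∀ x, (s : V ≃ₗ[F] V) ((s : V ≃ₗ[F] V) x) = x := fun x => by
    have : ((s * s : SS f) : V ≃ₗ[F] V) x = x := by rw [hs]; rfl
    exact this
  have h2 : ∀ x, (t : V ≃ₗ[F] V) ((t : V ≃ₗ[F] V) x) = x := fun x => by
    have : ((t * t : SS f) : V ≃ₗ[F] V) x = x := by rw [ht]; rfl
    exact this
  obtain ⟨x, hx⟩ := exists_ne S
  have h3 : (μ * μ) • x = x := by
    have := h1 x
    rw [hμ, hμ x, map_smul, h2, smul_smul] at this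
    exact this
  have h4 : (μ * μ - 1) • x = 0 := by rw [sub_smul, h3, one_smul, sub_self]
  have h5 : μ * μ - 1 = 0 := by
    rcases smul_eq_zero.1 h4 with h | h
    · exact h
    · exact absurd h hx
  have h6 : (μ - 1) * (μ - 1) = 0 := by
    have h7 : (μ - 1) * (μ - 1) = (μ * μ - 1) - (μ + μ) + (1 + 1) := by ring
    rw [h7, h5, fadd_self μ, fadd_self (1 : F)]
    ring
  have h7 : μ = 1 := sub_eq_zero.1 (mul_self_eq_zero.1 h6)
  apply Subtype.ext
  apply LinearEquiv.ext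
  intro x
  rw [hμ, h7, one_smul]

theorem comm_lift (S : Setup H G₁ π D) {s t : SS f} (hs : s * s = 1) (ht : t * t = 1) (h : π s * π t = π t * π s) :
    s * t = t * s := by
  have h1 : s * t * s⁻¹ = t := by
    apply uniq_lift S _ ht
    · rw [map_mul, map_mul, map_inv, h, mul_inv_cancel_right]
    · calc s * t * s⁻¹ * (s * t * s⁻¹) = s * (t * t) * s⁻¹ := by group
        _ = 1 := by rw [ht]; group
  calc s * t = s * t * s⁻¹ * s := by group
    _ = t * s := by rw [h1]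

/-- the subgroup of square-one lifts -/
def Bh (S : Setup H G₁ π D) (B : Subgroup G₁) (hB : ∀ b ∈ B, b * b = 1) : Subgroup (SS f) where
  carrier := {s | π s ∈ B ∧ s * s = 1}
  one_mem' := ⟨by rw [map_one]; exact B.one_mem, mul_one 1⟩
  mul_mem' := by
    rintro s t ⟨hs, hs2⟩ ⟨ht, ht2⟩
    refine ⟨by rw [map_mul]; exact B.mul_mem hs ht, ?_⟩
    have hc := comm_lift S hs2 ht2 (comm_of_sq hB hs ht)
    calc s * t * (s * t) = s * (t * s) * t := by group
      _ = (s * s) * (t * t) := by rw [← hc]; group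
      _ = 1 := by rw [hs2, ht2, mul_one]
  inv_mem' := by
    rintro s ⟨hs, hs2⟩
    refine ⟨by rw [map_inv]; exact B.inv_mem hs, ?_⟩
    have : s⁻¹ = s := inv_eq_of_mul_eq_one_left hs2
    rw [this]; exact hs2

theorem mem_Bh {S : Setup H G₁ π D} {B : Subgroup G₁} {hB : ∀ b ∈ B, b * b = 1} {s : SS f} :
    s ∈ Bh S B hB ↔ π s ∈ B ∧ s * s = 1 := Iff.rfl

theorem card_Bh (S : Setup H G₁ π D) (B : Subgroup G₁) (hB : ∀ b ∈ B, b * b = 1) :
    Nat.card (Bh S B hB) = Nat.card B := by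
  refine Nat.card_congr (Equiv.ofBijective (fun s => ⟨π s.1, s.2.1⟩) ⟨?_, ?_⟩)
  · rintro ⟨s, hs⟩ ⟨t, ht⟩ h
    have h' : π s = π t := congrArg Subtype.val h
    exact Subtype.ext (uniq_lift S hs.2 ht.2 h')
  · rintro ⟨b, hb⟩
    obtain ⟨s, hs, hs2⟩ := S.lift_invol (hB b hb)
    refine ⟨⟨s, by rw [mem_Bh, hs]; exact ⟨hb, Subtype.ext (LinearEquiv.ext hs2)⟩⟩, Subtype.ext hs⟩

/-- the group of linear maps attached to an elementary abelian subgroup -/
def Bl (S : Setup H G₁ π D) (B : Subgroup G₁) (hB : ∀ b ∈ B, b * b = 1) : Subgroup (V ≃ₗ[F] V) :=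
  (Bh S B hB).map (SS f).subtype

theorem Bl_le (S : Setup H G₁ π D) (B : Subgroup G₁) (hB : ∀ b ∈ B, b * b = 1) : Bl S B hB ≤ isom f := by
  rintro _ ⟨s, _, rfl⟩
  exact s.2.1

theorem Bl_sq (S : Setup H G₁ π D) (B : Subgroup G₁) (hB : ∀ b ∈ B, b * b = 1) : ∀ a ∈ Bl S B hB, a * a = 1 := by
  rintro _ ⟨s, hs, rfl⟩
  have := hs.2
  exact congrArg Subtype.val this

theorem card_Bl (S : Setup H G₁ π D) (B : Subgroup G₁) (hB : ∀ b ∈ B, b * b = 1) :
    Nat.card (Bl S B hB) = Nat.card B := by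
  rw [← card_Bh S B hB]
  exact Nat.card_congr ((Bh S B hB).equivMapOfInjective (SS f).subtype (Subgroup.subtype_injective _)).symm.toEquiv

/-- an elementary abelian subgroup has order at most `2 ^ 9` -/
theorem bound (S : Setup H G₁ π D) (B : Subgroup G₁) (hB : ∀ b ∈ B, b * b = 1) : Nat.card B ≤ 2 ^ 9 := by
  haveI := S.fin
  rw [← card_Bl S B hB]
  exact (main hF 3 H S.nd (by rw [S.dim]) (Bl S B hB) (Bl_le S B hB) (Bl_sq S B hB)).1

/-- the members of the class attached to the vectors of a subspace -/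
def TW (S : Setup H G₁ π D) (W : Submodule F V) : Set G₁ :=
  {b | ∃ (w : V) (hw : f w w = 0), w ∈ W ∧ w ≠ 0 ∧ P π H S.fin w hw = b}

theorem mem_closure_of_sum (S : Setup H G₁ π D) (W : Submodule F V) : ∀ (r : ℕ) (a : Fin r → V)
    (haa : ∀ i j, f (a i) (a j) = 0) (haW : ∀ i, a i ∈ W) (ha0 : ∀ i, a i ≠ 0) (s : SS f)
    (hs : ∀ v, (s : V ≃ₗ[F] V) v = v + ∑ i, f v (a i) • a i), π s ∈ Subgroup.closure (TW S W) := by
  haveI := S.fin
  intro r
  induction r with
  | zero =>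
    intro a _ _ _ s hs
    have : s = 1 := by
      apply Subtype.ext
      apply LinearEquiv.ext
      intro x
      rw [hs, Fin.sum_univ_zero, add_zero]
      rfl
    rw [this, map_one]
    exact Subgroup.one_mem _
  | succ r ih =>
    intro a haa haW ha0 s hs
    set t : SS f := ⟨tr H (a 0) (haa 0 0), tr_mem H (a 0) (haa 0 0)⟩ with ht
    have h1 : π (t * s) ∈ Subgroup.closure (TW S W) := by
      refine ih (fun i => a i.succ) (fun i j => haa _ _) (fun i => haW _) (fun i => ha0 _) (t * s) ?_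
      intro v
      show tr H (a 0) (haa 0 0) ((s : V ≃ₗ[F] V) v) = _
      rw [tr_apply]
      have h2 : f ((s : V ≃ₗ[F] V) v) (a 0) = f v (a 0) := by
        rw [hs, H.add_left]
        have h3 : f (∑ i, f v (a i) • a i) (a 0) = 0 := by
          have h4 : ∀ (T : Finset (Fin (r + 1))), f (∑ i ∈ T, f v (a i) • a i) (a 0) = 0 := by
            intro T
            induction T using Finset.induction_on with
            | empty => rw [Finset.sum_empty, H.zero_left]
            | insert i T hi ih' => rw [Finset.sum_insert hi, H.add_left, ih', H.smul_left, haa, mul_zero, add_zero]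
          exact h4 _
        rw [h3, add_zero]
      rw [h2, hs, Fin.sum_univ_succ]
      have h5 := vadd_self F (f v (a 0) • a 0)
      calc v + (f v (a 0) • a 0 + ∑ i : Fin r, f v (a i.succ) • a i.succ) + f v (a 0) • a 0
          = v + (∑ i : Fin r, f v (a i.succ) • a i.succ) + (f v (a 0) • a 0 + f v (a 0) • a 0) := by abel
        _ = _ := by rw [h5, add_zero]
    have h2 : π t ∈ Subgroup.closure (TW S W) :=
      Subgroup.subset_closure ⟨a 0, haa 0 0, haW 0, ha0 0, rfl⟩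
    have h3 : π s = (π t)⁻¹ * π (t * s) := by rw [map_mul]; group
    rw [h3]
    exact Subgroup.mul_mem _ (Subgroup.inv_mem _ h2) h1

/-- a pointwise stabilizer element is a product of transvections -/
theorem mem_closure_of_fix (S : Setup H G₁ π D) {W : Submodule F V} (hW : finrank F W = 3)
    (hiso : ∀ x ∈ W, ∀ z ∈ W, f x z = 0) {s : SS f} (hfix : ∀ w ∈ W, (s : V ≃ₗ[F] V) w = w) :
    π s ∈ Subgroup.closure (TW S W) := by
  haveI := S.fin
  have aa := vadd_self F (V := V)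
  have hsi : ∀ x y, f ((s : V ≃ₗ[F] V) x) ((s : V ≃ₗ[F] V) y) = f x y := s.2.1
  have hN : ∀ x, (s : V ≃ₗ[F] V) x + x ∈ W := by
    intro x
    refine mem_of_perp H S.nd (m := 3) (by rw [S.dim]) hW hiso ?_
    intro w hw
    rw [H.add_left]
    have h1 : f ((s : V ≃ₗ[F] V) x) w = f x w := by
      conv_lhs => rw [← hfix w hw]
      exact hsi x w
    rw [h1, fadd_self]
  have hss : ∀ x, (s : V ≃ₗ[F] V) ((s : V ≃ₗ[F] V) x) = x := by
    intro x
    have h1 := hfix _ (hN x)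
    rw [map_add] at h1
    have h2 : (s : V ≃ₗ[F] V) ((s : V ≃ₗ[F] V) x) + (s : V ≃ₗ[F] V) x + (s : V ≃ₗ[F] V) x =
        (s : V ≃ₗ[F] V) x + x + (s : V ≃ₗ[F] V) x := by rw [h1]
    rw [add_assoc, aa, add_zero] at h2
    rw [h2]
    calc (s : V ≃ₗ[F] V) x + x + (s : V ≃ₗ[F] V) x = x + ((s : V ≃ₗ[F] V) x + (s : V ≃ₗ[F] V) x) := by abel
      _ = x := by rw [aa, add_zero]
  obtain ⟨r, t, a, b, c, hdim', hN', haa, hab, hbb, hac, hbc, hcc⟩ := normal_vectors H S.nd (((s : V ≃ₗ[F] V) : V →ₗ[F] V) + LinearMap.id)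
    (by
      intro v
      show (s : V ≃ₗ[F] V) ((s : V ≃ₗ[F] V) v + v) + ((s : V ≃ₗ[F] V) v + v) = 0
      rw [hfix _ (hN v)]
      exact aa _)
    (by
      intro u v
      show f ((s : V ≃ₗ[F] V) u + u) v = f u ((s : V ≃ₗ[F] V) v + v)
      rw [H.add_left, H.add_right]
      congr 1
      rw [← hsi ((s : V ≃ₗ[F] V) u) v, hss])
  have hs' : ∀ v, (s : V ≃ₗ[F] V) v = v + ∑ i, f v (a i) • a i := by
    intro v
    have h1 : (s : V ≃ₗ[F] V) v + v = ∑ i, f v (a i) • a i := hN' v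
    rw [← h1]
    have : v + ((s : V ≃ₗ[F] V) v + v) = (s : V ≃ₗ[F] V) v + (v + v) := by abel
    rw [this, aa, add_zero]
  have haW : ∀ j, a j ∈ W := by
    intro j
    have h1 : (s : V ≃ₗ[F] V) (b j) + b j = ∑ i, f (b j) (a i) • a i := hN' (b j)
    have h2 : ∀ i, f (b j) (a i) = if i = j then 1 else 0 := by
      intro i
      rw [H.herm, hab]
      split_ifs
      · exact map_one _
      · exact map_zero _
    have h3 : ∑ i, f (b j) (a i) • a i = a j := by
      rw [Finset.sum_eq_single j]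
      · rw [h2, if_pos rfl, one_smul]
      · intro i _ hi
        rw [h2, if_neg hi, zero_smul]
      · intro h; exact absurd (Finset.mem_univ j) h
    rw [← h3, ← h1]
    exact hN _
  have ha0 : ∀ i, a i ≠ 0 := by
    intro i h
    have := hab i i
    rw [h, H.zero_left, if_pos rfl] at this
    exact zero_ne_one this
  exact mem_closure_of_sum S W r a haa haW ha0 s hs'

/-- **structure of the elementary abelian subgroups of order `2 ^ 9`** -/
theorem struct (S : Setup H G₁ π D) (B : Subgroup G₁) (hB : ∀ b ∈ B, b * b = 1) (hc : Nat.card B = 2 ^ 9) :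
    ∃ W : Submodule F V, finrank F W = 3 ∧ (∀ x ∈ W, ∀ z ∈ W, f x z = 0) ∧
      TW S W ⊆ B ∧ B = Subgroup.closure (TW S W) ∧ (∀ t ∈ D, (∀ b ∈ TW S W, Commute b t) → t ∈ TW S W) := by
  haveI := S.fin
  have hm : finrank F V = 2 * 3 := by rw [S.dim]
  have hbd : ∀ C : Subgroup (V ≃ₗ[F] V), C ≤ isom f → (∀ b ∈ C, b * b = 1) → Nat.card C ≤ 2 ^ (3 ^ 2) :=
    fun C h1 h2 => (main hF 3 H S.nd hm C h1 h2).1
  have hcl : Nat.card (Bl S B hB) = 2 ^ (3 ^ 2) := by rw [card_Bl, hc]; norm_num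
  obtain ⟨W, hW3, hiso, hfix⟩ := (main hF 3 H S.nd hm (Bl S B hB) (Bl_le S B hB) (Bl_sq S B hB)).2 hcl
  have hTW : TW S W ⊆ B := by
    rintro b ⟨w, hw, hwW, hw0, rfl⟩
    have h1 := tr_mem_of_max H hbd (Bl_le S B hB) (Bl_sq S B hB) hcl hw (fun a ha => hfix a ha w hwW)
    obtain ⟨s, hs, hs'⟩ := h1
    have h2 : (⟨tr H w hw, tr_mem H w hw⟩ : SS f) = s := Subtype.ext hs'.symm
    show π ⟨tr H w hw, _⟩ ∈ B
    rw [h2]
    exact hs.1
  refine ⟨W, hW3, hiso, hTW, le_antisymm ?_ ((Subgroup.closure_le _).2 hTW), ?_⟩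
  · intro b hb
    obtain ⟨s, hs, hs2⟩ := S.lift_invol (hB b hb)
    have hsB : s ∈ Bh S B hB := by
      rw [mem_Bh, hs]; exact ⟨hb, Subtype.ext (LinearEquiv.ext hs2)⟩
    rw [← hs]
    exact mem_closure_of_fix S hW3 hiso (fun w hw => hfix _ ⟨s, hsB, rfl⟩ w hw)
  · intro t ht h
    obtain ⟨v, hv, hv0, rfl⟩ := S.lift ht
    refine ⟨v, hv, ?_, hv0, rfl⟩
    refine mem_of_perp H S.nd hm hW3 hiso ?_
    intro w hw
    by_cases hw0 : w = 0
    · rw [hw0, H.zero_right]
    · have hww := hiso w hw w hw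
      have h1 := h _ ⟨w, hww, hw, hw0, rfl⟩
      rw [S.commute_iff] at h1
      exact H.symm_zero h1

end Cfsg.Agent.Lib.H89EA
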