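import Cfsg.Agent.Lib.H89EA4
/-
Maximal elementary abelian 2-subgroups of the unitary group of dimension six over the field with four elements: existence
from a hyperbolic basis, number of transvections (helper89).
-/
set_option autoImplicit false
set_option linter.all false

namespace Cfsg.Agent.Lib.H89EA

open Module Cfsg Cfsg.Agent.Lib.UnTrans Cfsg.Agent.Lib.UnBridge Cfsg.Agent.Lib.U6Class
open Cfsg.Agent.Lib.SpTrans (isom mem_isom)

universe v w

variable {F : Type} [Field F] [Fintype F] [CharP F 2] {V : Type v} [AddCommGroup V] [Module F V] {f : V → V → F}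
  {hF : Fintype.card F = 2 ^ 2} {H : HS (sig hF) f} {G₁ : Type w} [Group G₁] {π : SS f →* G₁} {D : Set G₁}

/-- an element of square one lies in the special group -/
theorem det_one_of_sq [FiniteDimensional F V] {g : V ≃ₗ[F] V} (hg : g * g = 1) :
    LinearMap.det ((g : V ≃ₗ[F] V) : V →ₗ[F] V) = 1 := by
  have h1 : LinearMap.det ((g : V ≃ₗ[F] V) : V →ₗ[F] V) * LinearMap.det ((g : V ≃ₗ[F] V) : V →ₗ[F] V) = 1 := by
    rw [← LinearMap.det_comp]
    have : ((g : V ≃ₗ[F] V) : V →ₗ[F] V) ∘ₗ ((g : V ≃ₗ[F] V) : V →ₗ[F] V) = LinearMap.id := by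
      ext x
      show (g * g) x = x
      rw [hg]; rfl
    rw [this, LinearMap.det_id]
  set μ := LinearMap.det ((g : V ≃ₗ[F] V) : V →ₗ[F] V) with hμ
  have h6 : (μ - 1) * (μ - 1) = 0 := by
    have h7 : (μ - 1) * (μ - 1) = (μ * μ - 1) - (μ + μ) + (1 + 1) := by ring
    rw [h7, h1, fadd_self μ, fadd_self (1 : F)]
    ring
  exact sub_eq_zero.1 (mul_self_eq_zero.1 h6)

/-- two opposite totally isotropic triples -/
structure HB (f : V → V → F) (w y : Fin 3 → V) : Prop where
  ww : ∀ i j, f (w i) (w j) = 0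
  yy : ∀ i j, f (y i) (y j) = 0
  wy : ∀ i j, f (w i) (y j) = if i = j then 1 else 0

namespace HB

variable {w y : Fin 3 → V} (E : HB f w y)
include E

theorem yw (H : HS (sig hF) f) (i j : Fin 3) : f (y i) (w j) = if i = j then 1 else 0 := by
  rw [H.herm, E.wy]
  by_cases h : i = j
  · rw [if_pos h, if_pos h.symm, map_one]
  · rw [if_neg h, if_neg (Ne.symm h), map_zero]

theorem swap (H : HS (sig hF) f) : HB f y w := ⟨E.yy, E.ww, fun i j => E.yw H i j⟩

theorem f_sum_y (H : HS (sig hF) f) (c : Fin 3 → F) (j : Fin 3) : f (∑ i, c i • w i) (y j) = c j := by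
  rw [Fin.sum_univ_three]
  simp only [H.add_left, H.smul_left, E.wy]
  fin_cases j <;> simp

theorem indep (H : HS (sig hF) f) : LinearIndependent F w := by
  rw [Fintype.linearIndependent_iff]
  intro c hc i
  rw [← E.f_sum_y H c i, hc, H.zero_left]

theorem finrank_span (H : HS (sig hF) f) : finrank F (Submodule.span F (Set.range w)) = 3 := by
  rw [finrank_span_eq_card (E.indep H), Fintype.card_fin]

theorem mem_span {x : V} : x ∈ Submodule.span F (Set.range w) ↔ ∃ c : Fin 3 → F, ∑ i, c i • w i = x :=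
  Submodule.mem_span_range_iff_exists_fun F

theorem span_iso (H : HS (sig hF) f) : ∀ x ∈ Submodule.span F (Set.range w), ∀ z ∈ Submodule.span F (Set.range w), f x z = 0 := by
  intro x hx z hz
  obtain ⟨c, rfl⟩ := E.mem_span.1 hx
  obtain ⟨d, rfl⟩ := E.mem_span.1 hz
  simp only [Fin.sum_univ_three, H.add_left, H.add_right, H.smul_left, H.smul_right, E.ww, mul_zero, add_zero]

end HB

/-- the nilpotent part of the isometry attached to a hermitian matrix -/
noncomputable def NN (H : HS (sig hF) f) (w : Fin 3 → V) (c : Fin 3 → Fin 3 → F) : V →ₗ[F] V :=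
  ∑ i, ∑ j, c i j • (H.fl (w i)).smulRight (w j)

theorem NN_apply (H : HS (sig hF) f) (w : Fin 3 → V) (c : Fin 3 → Fin 3 → F) (x : V) :
    NN H w c x = ∑ i, ∑ j, (f x (w i) * c i j) • w j := by
  simp only [NN, LinearMap.sum_apply, LinearMap.smul_apply, LinearMap.smulRight_apply, HS.fl_apply, smul_smul]
  refine Finset.sum_congr rfl fun i _ => Finset.sum_congr rfl fun j _ => ?_
  rw [mul_comm]

theorem NN_w {w : Fin 3 → V} (H : HS (sig hF) f) (hw : ∀ i j, f (w i) (w j) = 0) (c : Fin 3 → Fin 3 → F) (x : V) (k : Fin 3) :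
    f (NN H w c x) (w k) = 0 := by
  rw [NN_apply]
  simp only [Fin.sum_univ_three, H.add_left, H.smul_left, hw, mul_zero, add_zero]

theorem NN_NN {w : Fin 3 → V} (H : HS (sig hF) f) (hw : ∀ i j, f (w i) (w j) = 0) (c : Fin 3 → Fin 3 → F) (x : V) :
    NN H w c (NN H w c x) = 0 := by
  rw [NN_apply]
  simp only [NN_w H hw, zero_mul, zero_smul, Finset.sum_const_zero]

theorem NN_adj (H : HS (sig hF) f) (w : Fin 3 → V) {c : Fin 3 → Fin 3 → F} (hc : ∀ i j, c i j = sig hF (c j i)) (x z : V) :
    f (NN H w c x) z = f x (NN H w c z) := by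
  rw [NN_apply, NN_apply]
  have e : ∀ i, sig hF (f z (w i)) = f (w i) z := fun i => (H.herm _ _).symm
  have c00 := hc 0 0
  have c01 := hc 0 1
  have c02 := hc 0 2
  have c10 := hc 1 0
  have c11 := hc 1 1
  have c12 := hc 1 2
  have c20 := hc 2 0
  have c21 := hc 2 1
  have c22 := hc 2 2
  simp only [Fin.sum_univ_three, H.add_left, H.smul_left, H.add_right, H.smul_right, map_mul, e]
  rw [← c00, ← c01, ← c02, ← c10, ← c11, ← c12, ← c20, ← c21, ← c22]
  ring

/-- the isometry attached to a hermitian matrix -/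
noncomputable def gm (H : HS (sig hF) f) {w : Fin 3 → V} (hw : ∀ i j, f (w i) (w j) = 0) (c : Fin 3 → Fin 3 → F) : V ≃ₗ[F] V :=
  LinearEquiv.ofInvolutive (LinearMap.id + NN H w c) (by
    intro x
    show x + NN H w c x + NN H w c (x + NN H w c x) = x
    rw [map_add, NN_NN H hw, add_zero, add_assoc, vadd_self F, add_zero])

theorem gm_apply (H : HS (sig hF) f) {w : Fin 3 → V} (hw : ∀ i j, f (w i) (w j) = 0) (c : Fin 3 → Fin 3 → F) (x : V) :
    gm H hw c x = x + NN H w c x := rfl

theorem gm_sq (H : HS (sig hF) f) {w : Fin 3 → V} (hw : ∀ i j, f (w i) (w j) = 0) (c : Fin 3 → Fin 3 → F) :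
    gm H hw c * gm H hw c = 1 := by
  ext x
  show gm H hw c (gm H hw c x) = x
  rw [gm_apply, gm_apply, map_add, NN_NN H hw, add_zero, add_assoc, vadd_self F, add_zero]

theorem gm_isom (H : HS (sig hF) f) {w : Fin 3 → V} (hw : ∀ i j, f (w i) (w j) = 0) {c : Fin 3 → Fin 3 → F}
    (hc : ∀ i j, c i j = sig hF (c j i)) : gm H hw c ∈ isom f := by
  intro x z
  rw [gm_apply, gm_apply, H.add_left, H.add_right, H.add_right]
  have h1 : f (NN H w c x) (NN H w c z) = 0 := by
    rw [NN_adj H w hc, NN_NN H hw, H.zero_right]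
  rw [h1, add_zero, NN_adj H w hc x z, add_assoc, fadd_self, add_zero]

theorem gm_mem [FiniteDimensional F V] (H : HS (sig hF) f) {w : Fin 3 → V} (hw : ∀ i j, f (w i) (w j) = 0) {c : Fin 3 → Fin 3 → F}
    (hc : ∀ i j, c i j = sig hF (c j i)) : gm H hw c ∈ SS f :=
  mem_SS.2 ⟨gm_isom H hw hc, det_one_of_sq (gm_sq H hw c)⟩

theorem gm_fix (H : HS (sig hF) f) {w : Fin 3 → V} (hw : ∀ i j, f (w i) (w j) = 0) (c : Fin 3 → Fin 3 → F) {x : V}
    (hx : x ∈ Submodule.span F (Set.range w)) : gm H hw c x = x := by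
  obtain ⟨d, rfl⟩ := (Submodule.mem_span_range_iff_exists_fun F).1 hx
  rw [gm_apply, NN_apply]
  have : ∀ i, f (∑ k, d k • w k) (w i) = 0 := by
    intro i
    simp only [Fin.sum_univ_three, H.add_left, H.smul_left, hw, mul_zero, add_zero]
  simp only [this, zero_mul, zero_smul, Finset.sum_const_zero, add_zero]

theorem gm_coeff (H : HS (sig hF) f) {w y : Fin 3 → V} (E : HB f w y) (c : Fin 3 → Fin 3 → F) (k l : Fin 3) :
    f (gm H E.ww c (y k)) (y l) = c k l := by
  rw [gm_apply, NN_apply, H.add_left, E.yy, zero_add]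
  have e := fun i j => E.yw H i j
  simp only [Fin.sum_univ_three, H.add_left, H.smul_left, E.wy, e]
  fin_cases k <;> fin_cases l <;> simp

/-- squares in the group generated by the transvections of a totally isotropic subspace -/
theorem TW_sq (S : Setup H G₁ π D) {W : Submodule F V} (hiso : ∀ x ∈ W, ∀ z ∈ W, f x z = 0) :
    ∀ b ∈ Subgroup.closure (TW S W), b * b = 1 := by
  apply closure_sq
  · rintro _ ⟨w, hw, hwW, hw0, rfl⟩
    have h1 := S.three.1.1 _ (S.P_mem w hw hw0)
    have h2 := pow_orderOf_eq_one (P π H S.fin w hw)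
    rw [h1, pow_two] at h2
    exact h2
  · rintro _ ⟨w, hw, hwW, hw0, rfl⟩ _ ⟨v, hv, hvW, hv0, rfl⟩
    exact (S.commute_iff hw hv).2 (hiso w hwW v hvW)

/-- the parameters of a hermitian matrix -/
noncomputable def hmat (hF : Fintype.card F = 2 ^ 2) (p : (F × F × F) × (Bool × Bool × Bool)) : Fin 3 → Fin 3 → F :=
  ![![if p.2.1 then 1 else 0, p.1.1, p.1.2.1], ![sig hF p.1.1, if p.2.2.1 then 1 else 0, p.1.2.2],
    ![sig hF p.1.2.1, sig hF p.1.2.2, if p.2.2.2 then 1 else 0]]

theorem hmat_herm (hF : Fintype.card F = 2 ^ 2) (p : (F × F × F) × (Bool × Bool × Bool)) (i j : Fin 3) :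
    hmat hF p i j = sig hF (hmat hF p j i) := by
  have hi : ∀ a, sig hF (sig hF a) = a := sig_inv hF
  have h01 : ∀ b : Bool, sig hF (if b then 1 else 0) = (if b then 1 else 0) := by
    intro b; cases b <;> simp
  fin_cases i <;> fin_cases j <;> simp [hmat, hi] <;> (try (split_ifs <;> simp))

theorem hmat_inj (hF : Fintype.card F = 2 ^ 2) : Function.Injective (hmat (F := F) hF) := by
  rintro ⟨⟨a, b, c⟩, ⟨x, y, z⟩⟩ ⟨⟨a', b', c'⟩, ⟨x', y', z'⟩⟩ h
  have h01 : a = a' := congrFun (congrFun h 0) 1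
  have h02 : b = b' := congrFun (congrFun h 0) 2
  have h12 : c = c' := congrFun (congrFun h 1) 2
  have hb : ∀ {s t : Bool}, ((if s then 1 else 0 : F) = if t then 1 else 0) → s = t := by
    intro s t h
    cases s <;> cases t <;> simp_all
  have h00 : x = x' := hb (congrFun (congrFun h 0) 0)
  have h11 : y = y' := hb (congrFun (congrFun h 1) 1)
  have h22 : z = z' := hb (congrFun (congrFun h 2) 2)
  subst h01 h02 h12 h00 h11 h22
  rfl

/-- **order of the group generated by the transvections of a totally isotropic 3-space** -/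
theorem card_closure [Finite G₁] (S : Setup H G₁ π D) {w y : Fin 3 → V} (E : HB f w y) :
    Nat.card (Subgroup.closure (TW S (Submodule.span F (Set.range w)))) = 2 ^ 9 := by
  haveI := S.fin
  apply le_antisymm (bound S _ (TW_sq S (E.span_iso H)))
  have hmem : ∀ p : (F × F × F) × (Bool × Bool × Bool),
      π ⟨gm H E.ww (hmat hF p), gm_mem H E.ww (hmat_herm hF p)⟩ ∈ Subgroup.closure (TW S (Submodule.span F (Set.range w))) := by
    intro p
    exact mem_closure_of_fix S (E.finrank_span H) (E.span_iso H) (fun x hx => gm_fix H E.ww _ hx)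
  have hinj : Function.Injective (fun p : (F × F × F) × (Bool × Bool × Bool) =>
      (⟨_, hmem p⟩ : Subgroup.closure (TW S (Submodule.span F (Set.range w))))) := by
    intro p q h
    have h1 := congrArg Subtype.val h
    have h2 := uniq_lift S (Subtype.ext (gm_sq H E.ww _)) (Subtype.ext (gm_sq H E.ww _)) h1
    have h3 : gm H E.ww (hmat hF p) = gm H E.ww (hmat hF q) := congrArg Subtype.val h2
    apply hmat_inj hF
    funext k l
    rw [← gm_coeff H E (hmat hF p) k l, h3, gm_coeff H E]
  have h := Nat.card_le_card_of_injective _ hinj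
  have hc : Nat.card ((F × F × F) × (Bool × Bool × Bool)) = 2 ^ 9 := by
    rw [Nat.card_eq_fintype_card]
    simp only [Fintype.card_prod, hF, Fintype.card_bool]
    norm_num
  rw [hc] at h
  exact h

/-- **the number of transvections in a maximal elementary abelian subgroup** -/
theorem ncard_TW (S : Setup H G₁ π D) {W : Submodule F V} (hW : finrank F W = 3) (hiso : ∀ x ∈ W, ∀ z ∈ W, f x z = 0) :
    (TW S W).ncard = 21 := by
  classical
  haveI := S.fin
  haveI : Finite V := Module.finite_of_finite F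
  haveI : Fintype V := Fintype.ofFinite V
  set N : Finset V := Finset.univ.filter (fun x => x ∈ W ∧ x ≠ 0) with hN
  have hNc : N.card = 63 := by
    have h1 : Nat.card W = 4 ^ 3 := by
      rw [Module.natCard_eq_pow_finrank (K := F) (V := W), hW, Nat.card_eq_fintype_card, hF]
      norm_num
    have h2 : (Finset.univ.filter (fun x : V => x ∈ W)).card = 64 := by
      rw [← Fintype.card_subtype, ← Nat.card_eq_fintype_card]
      exact h1
    have h3 : N = (Finset.univ.filter (fun x : V => x ∈ W)).erase 0 := by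
      ext x
      simp only [hN, Finset.mem_filter, Finset.mem_univ, true_and, Finset.mem_erase]
      tauto
    rw [h3, Finset.card_erase_of_mem (by simp), h2]
  set p : V → G₁ := fun x => if hx : f x x = 0 then P π H S.fin x hx else 1 with hp
  have hpe : ∀ x ∈ N, ∃ hx : f x x = 0, p x = P π H S.fin x hx := by
    intro x hx
    have hx' := (Finset.mem_filter.1 hx).2
    have h0 := hiso x hx'.1 x hx'.1
    exact ⟨h0, by rw [hp]; exact dif_pos h0⟩
  have hTW : TW S W = ↑(N.image p) := by
    ext b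
    rw [Finset.coe_image]
    constructor
    · rintro ⟨w, hw, hwW, hw0, rfl⟩
      have hwN : w ∈ N := by rw [hN]; simp [hwW, hw0]
      refine ⟨w, Finset.mem_coe.2 hwN, ?_⟩
      obtain ⟨h, h'⟩ := hpe w hwN
      exact h'
    · rintro ⟨w, hw, rfl⟩
      have hw' := (Finset.mem_filter.1 (Finset.mem_coe.1 hw)).2
      obtain ⟨h, h'⟩ := hpe w (Finset.mem_coe.1 hw)
      exact ⟨w, h, hw'.1, hw'.2, h'.symm⟩
  rw [hTW, Set.ncard_coe_finset]
  have hfib : ∀ b ∈ N.image p, (N.filter (fun x => p x = b)).card = 3 := by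
    intro b hb
    obtain ⟨w, hw, rfl⟩ := Finset.mem_image.1 hb
    have hw' := (Finset.mem_filter.1 hw).2
    obtain ⟨hww, hpw⟩ := hpe w hw
    have h1 : N.filter (fun x => p x = p w) = ((Finset.univ.filter (fun c : F => c ≠ 0)).image (fun c => c • w)) := by
      ext x
      simp only [Finset.mem_filter, Finset.mem_image, Finset.mem_univ, true_and]
      constructor
      · rintro ⟨hx, hxe⟩
        obtain ⟨hxx, hpx⟩ := hpe x hx
        have hx' := (Finset.mem_filter.1 hx).2
        rw [hpx, hpw] at hxe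
        obtain ⟨c, hc, hcc⟩ := S.P_inj hxx hww hx'.2 hxe
        exact ⟨c, hc, hcc.symm⟩
      · rintro ⟨c, hc, rfl⟩
        have hcN : c • w ∈ N := by
          rw [hN]
          simp [W.smul_mem c hw'.1, hc, hw'.2]
        refine ⟨hcN, ?_⟩
        obtain ⟨hxx, hpx⟩ := hpe _ hcN
        rw [hpx, hpw]
        exact S.P_smul hc hww hxx
    rw [h1, Finset.card_image_of_injective]
    · have h2 : (Finset.univ.filter (fun c : F => c ≠ 0)) = Finset.univ.erase 0 := by
        ext c; simp
      rw [h2, Finset.card_erase_of_mem (Finset.mem_univ _), Finset.card_univ, hF]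
      norm_num
    · intro a b hab
      exact smul_left_injective F hw'.2 hab
  have h1 : N.card = ∑ b ∈ N.image p, (N.filter (fun x => p x = b)).card :=
    Finset.card_eq_sum_card_image p N
  rw [Finset.sum_congr rfl hfib, Finset.sum_const, smul_eq_mul, hNc] at h1
  omega

end Cfsg.Agent.Lib.H89EA
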