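import Cfsg.Agent.Lib.H89EA5
import Cfsg.Agent.Lib.ThompsonJ
/-
Double covers of the unitary group of dimension six over the field with four elements: maximal elementary abelian
2-subgroups (helper89).
-/
set_option autoImplicit false
set_option linter.all false

namespace Cfsg.Agent.Lib.H89EB

open Module Cfsg Cfsg.Agent.Lib.UnTrans Cfsg.Agent.Lib.UnBridge Cfsg.Agent.Lib.U6Class Cfsg.Agent.Lib.H89EA
open Cfsg.Agent.Lib.SpTrans (isom mem_isom)

universe v w w'

/-- a double cover with a class lifting the class `D` -/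
structure Cov {C : Type w'} {Q : Type w} [Group C] [Group Q] (φ : C →* Q) (d : C) (D : Set Q) (E : Set C) : Prop where
  surj : Function.Surjective φ
  ker : ∀ x, φ x = 1 ↔ x = 1 ∨ x = d
  d1 : d ≠ 1
  dd : d * d = 1
  sq : ∀ e ∈ E, e * e = 1
  im : ∀ e ∈ E, φ e ∈ D
  lift : ∀ t ∈ D, ∃ e ∈ E, φ e = t
  uniq : ∀ e ∈ E, e * d ∉ E
  conj : ∀ g, ∀ e ∈ E, g * e * g⁻¹ ∈ E
  comm : ∀ e ∈ E, ∀ e' ∈ E, φ e * φ e' = φ e' * φ e → e * e' = e' * e

namespace Cov

variable {C : Type w'} {Q : Type w} [Group C] [Group Q] {φ : C →* Q} {d : C} {D : Set Q} {E : Set C} (K : Cov φ d D E)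
include K

theorem dc (x : C) : d * x = x * d := by
  have h1 : φ (x * d * x⁻¹) = 1 := by
    rw [map_mul, map_mul, (K.ker d).2 (Or.inr rfl), mul_one, map_inv, mul_inv_cancel]
  rcases (K.ker _).1 h1 with h | h
  · exfalso
    apply K.d1
    have : d = x⁻¹ * (x * d * x⁻¹) * x := by group
    rw [this, h]; group
  · have : x * d = (x * d * x⁻¹) * x := by group
    rw [this, h]

theorem eq_or {x y : C} (h : φ x = φ y) : x = y ∨ x = y * d := by
  have h1 : φ (y⁻¹ * x) = 1 := by rw [map_mul, map_inv, h, inv_mul_cancel]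
  rcases (K.ker _).1 h1 with h2 | h2
  · left
    have : x = y * (y⁻¹ * x) := by group
    rw [this, h2, mul_one]
  · right
    have : x = y * (y⁻¹ * x) := by group
    rw [this, h2]

theorem phi_inj {e e' : C} (he : e ∈ E) (he' : e' ∈ E) (h : φ e = φ e') : e = e' := by
  rcases K.eq_or h with h1 | h1
  · exact h1
  · exfalso
    rw [h1] at he
    exact K.uniq e' he' he

theorem phi_d : φ d = 1 := (K.ker d).2 (Or.inr rfl)

theorem comm_iff {e e' : C} (he : e ∈ E) (he' : e' ∈ E) : Commute e e' ↔ Commute (φ e) (φ e') :=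
  ⟨fun h => h.map φ, fun h => K.comm e he e' he' h⟩

theorem card_ker_le (A : Subgroup C) : Nat.card (φ.comp A.subtype).ker ≤ 2 := by
  have h1 : Nat.card ({1, d} : Set C) ≤ 2 := by
    have := Set.ncard_insert_le (1 : C) ({d} : Set C)
    rw [Set.ncard_singleton] at this
    exact this
  refine le_trans (Nat.card_le_card_of_injective (β := ({1, d} : Set C)) (fun x => ⟨((x : A) : C), ?_⟩) ?_) h1
  · have := (K.ker ((x : A) : C)).1 x.2
    rcases this with h | h
    · exact Or.inl h
    · exact Or.inr h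
  · intro x y h
    have h' : ((x : A) : C) = ((y : A) : C) := congrArg (fun z : ({1, d} : Set C) => (z : C)) h
    exact Subtype.ext (Subtype.ext h')

theorem card_eq (A : Subgroup C) : Nat.card A = Nat.card (φ.comp A.subtype).ker * Nat.card (A.map φ) := by
  have h1 : Nat.card A = Nat.card (φ.comp A.subtype).ker * (φ.comp A.subtype).ker.index :=
    (Subgroup.card_mul_index _).symm
  rw [Subgroup.index_ker] at h1
  rw [h1]
  congr 1
  have : (φ.comp A.subtype).range = A.map φ := by
    rw [MonoidHom.range_comp, Subgroup.range_subtype]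
  rw [this]

theorem sq_map {A : Subgroup C} (hA : ∀ a ∈ A, a * a = 1) : ∀ b ∈ A.map φ, b * b = 1 := by
  rintro _ ⟨a, ha, rfl⟩
  rw [← map_mul, hA a ha, map_one]

end Cov

section

variable {F : Type} [Field F] [Fintype F] [CharP F 2] {V : Type v} [AddCommGroup V] [Module F V] {f : V → V → F}
  {hF : Fintype.card F = 2 ^ 2} {H : HS (sig hF) f} {C : Type w'} {Q : Type w} [Group C] [Group Q]
  {π : SS f →* Q} {D : Set Q} {φ : C →* Q} {d : C} {E : Set C}

/-- the lifts of the members of the class attached to a subspace -/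
def EW (E : Set C) (φ : C →* Q) (S : Setup H Q π D) (W : Submodule F V) : Set C := {e | e ∈ E ∧ φ e ∈ TW S W}

theorem card_le (K : Cov φ d D E) (S : Setup H Q π D) (A : Subgroup C) (hA : ∀ a ∈ A, a * a = 1) :
    Nat.card A ≤ 2 ^ 10 := by
  rw [K.card_eq A]
  have h1 := K.card_ker_le A
  have h2 := bound S _ (K.sq_map hA)
  calc _ ≤ 2 * 2 ^ 9 := Nat.mul_le_mul h1 h2
    _ = 2 ^ 10 := by norm_num

theorem d_mem (K : Cov φ d D E) (S : Setup H Q π D) (A : Subgroup C) (hA : ∀ a ∈ A, a * a = 1) (hc : Nat.card A = 2 ^ 10) :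
    d ∈ A ∧ Nat.card (A.map φ) = 2 ^ 9 := by
  have h0 := K.card_eq A
  have h1 := K.card_ker_le A
  have h2 := bound S _ (K.sq_map hA)
  rw [hc] at h0
  have h3 : Nat.card (φ.comp A.subtype).ker = 2 := by
    by_contra hne
    have h4 : Nat.card (φ.comp A.subtype).ker ≤ 1 := by omega
    have : Nat.card (φ.comp A.subtype).ker * Nat.card (A.map φ) ≤ 1 * 2 ^ 9 := Nat.mul_le_mul h4 h2
    rw [← h0] at this
    norm_num at this
  refine ⟨?_, ?_⟩
  · haveI : Finite (φ.comp A.subtype).ker := Nat.finite_of_card_ne_zero (by rw [h3]; norm_num)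
    haveI : Nontrivial (φ.comp A.subtype).ker := by
      apply Finite.one_lt_card_iff_nontrivial.1
      rw [h3]
      norm_num
    obtain ⟨x, hx⟩ := exists_ne (1 : (φ.comp A.subtype).ker)
    rcases (K.ker ((x : A) : C)).1 x.2 with h | h
    · exact absurd (Subtype.ext (Subtype.ext h)) hx
    · rw [← h]; exact (x : A).2
  · rw [h3] at h0
    omega

theorem EW_sq (K : Cov φ d D E) (S : Setup H Q π D) {W : Submodule F V} (hiso : ∀ x ∈ W, ∀ z ∈ W, f x z = 0) :
    ∀ b ∈ Subgroup.closure (insert d (EW E φ S W)), b * b = 1 := by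
  apply closure_sq
  · rintro x (rfl | hx)
    · exact K.dd
    · exact K.sq x hx.1
  · rintro x hx y hy
    rcases hx with rfl | hx
    · exact K.dc y
    · rcases hy with rfl | hy
      · exact (K.dc x).symm
      · refine K.comm x hx.1 y hy.1 ?_
        obtain ⟨u, hu, huW, _, hu'⟩ := hx.2
        obtain ⟨t, ht, htW, _, ht'⟩ := hy.2
        rw [← hu', ← ht']
        exact (S.commute_iff hu ht).2 (hiso u huW t htW)

theorem map_closure_EW (K : Cov φ d D E) (S : Setup H Q π D) (W : Submodule F V) :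
    (Subgroup.closure (insert d (EW E φ S W))).map φ = Subgroup.closure (TW S W) := by
  rw [MonoidHom.map_closure]
  apply le_antisymm
  · rw [Subgroup.closure_le]
    rintro _ ⟨x, rfl | hx, rfl⟩
    · rw [K.phi_d]; exact Subgroup.one_mem _
    · exact Subgroup.subset_closure hx.2
  · apply Subgroup.closure_mono
    intro t ht
    have ht' := ht
    obtain ⟨u, hu, huW, hu0, rfl⟩ := ht'
    obtain ⟨e, he, hee⟩ := K.lift _ (S.P_mem u hu hu0)
    exact ⟨e, Or.inr ⟨he, by rw [hee]; exact ht⟩, hee⟩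

/-- **structure of the maximal elementary abelian subgroups** -/
theorem structC (K : Cov φ d D E) (S : Setup H Q π D) (A : Subgroup C) (hA : ∀ a ∈ A, a * a = 1) (hc : Nat.card A = 2 ^ 10) :
    ∃ W : Submodule F V, finrank F W = 3 ∧ (∀ x ∈ W, ∀ z ∈ W, f x z = 0) ∧
      A = Subgroup.closure (insert d (EW E φ S W)) ∧ {e | e ∈ E ∧ e ∈ A} = EW E φ S W ∧
      (∀ x ∈ E, (∀ y ∈ EW E φ S W, Commute y x) → x ∈ EW E φ S W) ∧ (EW E φ S W).ncard = 21 := by
  obtain ⟨hdA, hc9⟩ := d_mem K S A hA hc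
  obtain ⟨W, hW3, hiso, hTW, hcl, hmax⟩ := struct S _ (K.sq_map hA) hc9
  have hmax' : ∀ x ∈ E, (∀ y ∈ EW E φ S W, Commute y x) → x ∈ EW E φ S W := by
    intro x hx h
    refine ⟨hx, hmax _ (K.im x hx) ?_⟩
    intro b hb
    have hb' := hb
    obtain ⟨u, hu, huW, hu0, rfl⟩ := hb'
    obtain ⟨e, he, hee⟩ := K.lift _ (S.P_mem u hu hu0)
    rw [← hee]
    exact (h e ⟨he, by rw [hee]; exact hb⟩).map φ
  have hEA : EW E φ S W ⊆ A := by
    intro e he
    obtain ⟨a, ha, hae⟩ := hTW he.2
    rcases K.eq_or hae with h | h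
    · rw [← h]; exact ha
    · have : e = a * d := by rw [h, mul_assoc, K.dd, mul_one]
      rw [this]; exact A.mul_mem ha hdA
  refine ⟨W, hW3, hiso, ?_, ?_, hmax', ?_⟩
  · apply le_antisymm
    · intro a ha
      have h1 : φ a ∈ (Subgroup.closure (insert d (EW E φ S W))).map φ := by
        rw [map_closure_EW K S W, ← hcl]
        exact ⟨a, ha, rfl⟩
      obtain ⟨b, hb, hba⟩ := h1
      rcases K.eq_or hba.symm with h | h
      · rw [h]; exact hb
      · rw [h]
        exact Subgroup.mul_mem _ hb (Subgroup.subset_closure (Or.inl rfl))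
    · rw [Subgroup.closure_le]
      rintro x (rfl | hx)
      · exact hdA
      · exact hEA hx
  · ext e
    constructor
    · rintro ⟨he, heA⟩
      apply hmax' e he
      intro y hy
      exact comm_of_sq hA (hEA hy) heA
    · intro he
      exact ⟨he.1, hEA he⟩
  · rw [← ncard_TW S hW3 hiso]
    have : TW S W = φ '' EW E φ S W := by
      ext t
      constructor
      · intro ht
        have ht' := ht
        obtain ⟨u, hu, huW, hu0, rfl⟩ := ht'
        obtain ⟨e, he, hee⟩ := K.lift _ (S.P_mem u hu hu0)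
        exact ⟨e, ⟨he, by rw [hee]; exact ht⟩, hee⟩
      · rintro ⟨e, he, rfl⟩
        exact he.2
    rw [this, Set.ncard_image_of_injOn]
    intro e he e' he' h
    exact K.phi_inj he.1 he'.1 h

/-- **existence** -/
theorem existsA [Finite C] [Finite Q] (K : Cov φ d D E) (S : Setup H Q π D) {w y : Fin 3 → V} (B : HB f w y) :
    (∀ b ∈ Subgroup.closure (insert d (EW E φ S (Submodule.span F (Set.range w)))), b * b = 1) ∧
    Nat.card (Subgroup.closure (insert d (EW E φ S (Submodule.span F (Set.range w))))) = 2 ^ 10 := by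
  have hsq := EW_sq K S (B.span_iso H)
  refine ⟨hsq, ?_⟩
  rw [K.card_eq, map_closure_EW K S, card_closure S B]
  have h1 := K.card_ker_le (Subgroup.closure (insert d (EW E φ S (Submodule.span F (Set.range w)))))
  have h2 : 2 ≤ Nat.card (φ.comp (Subgroup.closure (insert d (EW E φ S (Submodule.span F (Set.range w))))).subtype).ker := by
    have h3 : Nontrivial (φ.comp (Subgroup.closure (insert d (EW E φ S (Submodule.span F (Set.range w))))).subtype).ker := by
      refine ⟨⟨⟨⟨d, Subgroup.subset_closure (Or.inl rfl)⟩, K.phi_d⟩, 1, ?_⟩⟩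
      intro h
      exact K.d1 (congrArg (fun x => ((x : Subgroup.closure (insert d (EW E φ S (Submodule.span F (Set.range w))))) : C)) (congrArg Subtype.val h))
    exact Finite.one_lt_card
  have h3 : Nat.card (φ.comp (Subgroup.closure (insert d (EW E φ S (Submodule.span F (Set.range w))))).subtype).ker = 2 := le_antisymm h1 h2
  rw [h3]
  norm_num

end

/-- the Thompson subgroup when the maximal elementary abelian subgroup is unique -/
theorem thompson_eq {G : Type w} [Group G] [Finite G] {T A : Subgroup G} (hAT : A ≤ T) (hA : ∀ a ∈ A, a * a = 1)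
    (hmax : ∀ B ≤ T, (∀ b ∈ B, b * b = 1) → Nat.card B ≤ Nat.card A)
    (huniq : ∀ B ≤ T, (∀ b ∈ B, b * b = 1) → Nat.card B = Nat.card A → B = A) : Cfsg.thompsonSubgroupOf 2 T = A := by
  have hel : ∀ B : Subgroup G, Cfsg.IsElementaryAbelian 2 B ↔ ∀ b ∈ B, b * b = 1 := by
    intro B
    rw [ThompsonJ.elemAb_iff]
    constructor
    · rintro ⟨_, h⟩ b hb
      rw [← pow_two]; exact h b hb
    · intro h
      refine ⟨?_, fun b hb => by rw [pow_two]; exact h b hb⟩
      intro b hb
      rw [Subgroup.mem_centralizer_iff]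
      intro c hc
      exact comm_of_sq h hc hb
  rw [ThompsonJ.thompsonSubgroupOf_eq]
  apply le_antisymm
  · apply sSup_le
    rintro B ⟨hBT, hB, hBm⟩
    have h1 := hBm A hAT ((hel A).2 hA)
    have h2 := hmax B hBT ((hel B).1 hB)
    rw [huniq B hBT ((hel B).1 hB) (le_antisymm h2 h1)]
  · apply le_sSup
    exact ⟨hAT, (hel A).2 hA, fun B hB hB' => hmax B hB ((hel B).1 hB')⟩

/-- an explicit hyperbolic basis -/
theorem exists_HB {F : Type} [Field F] [Fintype F] [CharP F 2] (hF : Fintype.card F = 2 ^ 2) :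
    ∃ w y : Fin 3 → (Fin 6 → F), HB (hermForm 6 F 2) w y := by
  obtain ⟨ω, h0, h1, hall⟩ := f4_omega (F := F) (by rw [hF]; norm_num)
  have hc : (2 : F) = 0 := CharTwo.two_eq_zero
  have hω : ω ^ 2 = ω + 1 := by
    rcases hall (ω ^ 2) with h | h | h | h
    · exact absurd (pow_eq_zero_iff (two_ne_zero) |>.1 h) h0
    · exfalso
      apply h1
      have h2 : (ω - 1) * (ω - 1) = 0 := by
        have : (ω - 1) * (ω - 1) = ω ^ 2 + 1 - 2 * ω := by ring
        rw [this, h, hc, zero_mul, sub_zero, CharTwo.add_self_eq_zero]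
      exact sub_eq_zero.1 (mul_self_eq_zero.1 h2)
    · exfalso
      apply h1
      have h2 : ω * (ω - 1) = 0 := by
        have : ω * (ω - 1) = ω ^ 2 - ω := by ring
        rw [this, h, sub_self]
      rcases mul_eq_zero.1 h2 with h | h
      · exact absurd h h0
      · exact sub_eq_zero.1 h
    · exact h
  refine ⟨![![1, 1, 0, 0, 0, 0], ![0, 0, 1, 1, 0, 0], ![0, 0, 0, 0, 1, 1]],
    ![![ω, ω + 1, 0, 0, 0, 0], ![0, 0, ω, ω + 1, 0, 0], ![0, 0, 0, 0, ω, ω + 1]], ⟨?_, ?_, ?_⟩⟩
  · intro i j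
    rw [H89MU.f6_apply]
    have h2 : (1 : F) + 1 = 0 := CharTwo.add_self_eq_zero 1
    fin_cases i <;> fin_cases j <;> simp [h2]
  · intro i j
    rw [H89MU.f6_apply]
    have h2 : ω * ω ^ 2 + (ω + 1) * (ω + 1) ^ 2 = 0 := by
      linear_combination 3 * hω + (ω ^ 3 + 3 * ω + 2) * hc
    fin_cases i <;> fin_cases j <;> simp [h2]
  · intro i j
    rw [H89MU.f6_apply]
    have h2 : ω ^ 2 + (ω + 1) ^ 2 = 1 := by
      linear_combination (ω ^ 2 + ω) * hc
    fin_cases i <;> fin_cases j <;> simp [h2]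

end Cfsg.Agent.Lib.H89EB
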