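import Cfsg.Agent.Lib.H89EB0
import Cfsg.Agent.Lib.H89MV1
/-
Maximal elementary abelian 2-subgroups of groups of type M(22) (helper89).
-/
set_option autoImplicit false
set_option linter.all false

namespace Cfsg.Agent.Lib.H89EB

open Cfsg Cfsg.Agent.Lib.ThreeRank3 Cfsg.Agent.Lib.ThreeDescent Cfsg.Agent.Lib.ThreeQuot Cfsg.Agent.Lib.FiPar
  Cfsg.Agent.Lib.ThreeSimple Cfsg.Agent.Lib.ThreeTypes Cfsg.Agent.Lib.FiComp Cfsg.Agent.Lib.FiMu
open Cfsg.Agent.Lib.UnTrans Cfsg.Agent.Lib.UnBridge Cfsg.Agent.Lib.H89MV Cfsg.Agent.Lib.H89EA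
open Cfsg.Agent.Lib.U6Class (SS P tr)

section

variable {G : Type*} [Group G] {D : Set G} {d₁ d₂ : G} {F : Type} [Field F] [Fintype F] [CharP F 2]
  {hF : Fintype.card F = 2 ^ 2} {π : SS (hermForm 6 F 2) →* QQ D d₁}

theorem cov22 (C : Ctx D d₁ d₂ F hF π) :
    Cov (QuotientGroup.mk' (Subgroup.center (HH D d₁))) (⟨d₁, C.d1_mem⟩ : HH D d₁) (QD D d₁)
      {x : HH D d₁ | (x : G) ∈ Dd D d₁} := by
  have hsq : ∀ x ∈ D, x * x = 1 := by
    intro x hx
    have := pow_orderOf_eq_one x
    rw [C.tg.1.1 x hx, pow_two] at this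
    exact this
  refine ⟨QuotientGroup.mk'_surjective _, ?_, ?_, ?_, ?_, ?_, ?_, ?_, ?_, ?_⟩
  · intro x
    rw [QuotientGroup.mk'_apply, C.mk_one_iff]
    constructor
    · rintro (h | h)
      · exact Or.inl (Subtype.ext h)
      · exact Or.inr (Subtype.ext h)
    · rintro (h | h)
      · rw [h]; exact Or.inl rfl
      · rw [h]; exact Or.inr rfl
  · intro h
    exact C.d1_ne (congrArg Subtype.val h)
  · exact Subtype.ext (hsq d₁ C.h₁)
  · rintro ⟨e, he⟩ h
    exact Subtype.ext (hsq e h.1)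
  · rintro ⟨e, he⟩ h
    exact br_mem h
  · rintro _ ⟨e, he, rfl⟩
    exact ⟨e, he, rfl⟩
  · rintro ⟨e, he⟩ h h'
    have h1 : br D d₁ (e * d₁) h' = br D d₁ e h := by
      show (QuotientGroup.mk (⟨e * d₁, _⟩ : HH D d₁) : QQ D d₁) = QuotientGroup.mk (⟨e, _⟩ : HH D d₁)
      have h2 : (⟨e * d₁, mem_HH h'⟩ : HH D d₁) = ⟨e, mem_HH h⟩ * ⟨d₁, C.d1_mem⟩ := rfl
      rw [h2, QuotientGroup.mk_mul, C.mk_d1, mul_one]
    rw [br_inj C.tg.1 C.nc] at h1
    exact C.d1_ne (mul_left_cancel (a := e) (by rw [h1, mul_one]))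
  · rintro ⟨g, hg⟩ ⟨e, he⟩ h
    exact Dd_conj_mem C.tg.2.1 hg h
  · rintro ⟨e, he⟩ h ⟨e', he'⟩ h' hc
    have h1 : Commute (br D d₁ e h) (br D d₁ e' h') := hc
    exact Subtype.ext ((br_comm C.tg.1 h h').1 h1)

end

section

variable {G : Type*} [Group G] [Finite G] {D : Set G}

/-- the structure when the subgroup contains a member of `D` -/
theorem struct22_of_mem (hP : PSU62Simple) (hD : IsThreeTranspositionGroup D) (hprim : IsPrimitiveUnderConj D)
    (h : IsOfTypeM22 G D) {A : Subgroup G} (hA : ∀ a ∈ A, a * a = 1) {d : G} (hd : d ∈ D) (hdA : d ∈ A) :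
    Nat.card A ≤ 2 ^ 10 ∧ (Nat.card A = 2 ^ 10 → A = Subgroup.closure {x | x ∈ D ∧ x ∈ A} ∧
      (∀ x ∈ D, (∀ y ∈ D, y ∈ A → Commute y x) → x ∈ A) ∧ {x | x ∈ D ∧ x ∈ A}.ncard = 22) := by
  have hpar := (full22 hP hD hprim h).2.1
  obtain ⟨d₂, hd₂⟩ : (Dd D d).Nonempty := by
    rw [← Set.ncard_pos (Set.toFinite _), hpar.c1 d hd]; norm_num
  obtain ⟨F, _, _, _, hF, π, C⟩ := exists_ctx hP hD hprim h hd hd₂
  have K := cov22 C
  have hle : A ≤ HH D d := by
    intro a ha
    exact C.mem_HH'.2 (comm_of_sq hA ha hdA)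
  set A' : Subgroup (HH D d) := A.subgroupOf (HH D d) with hA'
  have hA'sq : ∀ a ∈ A', a * a = 1 := fun a ha => Subtype.ext (hA a ha)
  have hcard : Nat.card A' = Nat.card A := Nat.card_congr (Subgroup.subgroupOfEquivOfLe hle).toEquiv
  refine ⟨?_, ?_⟩
  · rw [← hcard]
    exact card_le K C.S A' hA'sq
  · intro hc
    obtain ⟨W, hW3, hiso, hcl, hEA, hmax, h21⟩ := structC K C.S A' hA'sq (by rw [hcard, hc])
    have hset : {x | x ∈ D ∧ x ∈ A} = insert d (Subtype.val '' (EW {x : HH D d | (x : G) ∈ Dd D d}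
        (QuotientGroup.mk' (Subgroup.center (HH D d))) C.S W)) := by
      ext x
      constructor
      · rintro ⟨hxD, hxA⟩
        by_cases hxd : x = d
        · exact Or.inl hxd
        · right
          have hxDd : x ∈ Dd D d := ⟨hxD, hxd, comm_of_sq hA hdA hxA⟩
          refine ⟨⟨x, hle hxA⟩, ?_, rfl⟩
          rw [← hEA]
          exact ⟨hxDd, hxA⟩
      · rintro (rfl | ⟨y, hy, rfl⟩)
        · exact ⟨hd, hdA⟩
        · rw [← hEA] at hy
          exact ⟨hy.1.1, hy.2⟩
    refine ⟨?_, ?_, ?_⟩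
    · apply le_antisymm
      · have h1 : A = A'.map (HH D d).subtype := by
          rw [hA', Subgroup.map_subgroupOf_eq_of_le hle]
        have h2 : A'.map (HH D d).subtype ≤ Subgroup.closure {x | x ∈ D ∧ x ∈ A} := by
          rw [hcl, MonoidHom.map_closure, Subgroup.closure_le]
          rintro _ ⟨x, hx, rfl⟩
          apply Subgroup.subset_closure
          rw [hset]
          rcases hx with rfl | hx
          · exact Or.inl rfl
          · exact Or.inr ⟨x, hx, rfl⟩
        rw [← h1] at h2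
        exact h2
      · rw [Subgroup.closure_le]
        exact fun x hx => hx.2
    · intro x hx hc'
      by_cases hxd : x = d
      · rw [hxd]; exact hdA
      · have hxd' : Commute d x := hc' d hd hdA
        have hxDd : x ∈ Dd D d := ⟨hx, hxd, hxd'⟩
        have h1 := hmax ⟨x, mem_HH hxDd⟩ hxDd (by
          intro y hy
          have hy' := hy
          rw [← hEA] at hy'
          have := hc' y hy'.1.1 hy'.2
          exact Subtype.ext this)
        rw [← hEA] at h1
        exact h1.2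
    · rw [hset, Set.ncard_insert_of_notMem]
      · rw [Set.ncard_image_of_injective _ Subtype.val_injective, h21]
      · rintro ⟨y, hy, hyd⟩
        exact hy.1.2.1 hyd

/-- a 2-group acting on a set of size not divisible by four has a small orbit -/
theorem exists_small_orbit {A : Type*} [Group A] [Finite A] (hA : IsPGroup 2 A) {X : Type*} [Finite X] [MulAction A X]
    (hX : ¬ 4 ∣ Nat.card X) : ∃ x : X, Nat.card (MulAction.orbit A x) ≤ 2 := by
  by_contra hcon
  push Not at hcon
  apply hX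
  haveI := Fintype.ofFinite (MulAction.orbitRel.Quotient A X)
  rw [Nat.card_congr (MulAction.selfEquivSigmaOrbits' A X), Nat.card_sigma]
  apply Finset.dvd_sum
  intro ω _
  obtain ⟨x, rfl⟩ := Quotient.exists_rep ω
  have h1 : Nat.card (MulAction.orbitRel.Quotient.orbit (⟦x⟧ : MulAction.orbitRel.Quotient A X)) = Nat.card (MulAction.orbit A x) := rfl
  rw [h1]
  obtain ⟨n, hn⟩ := hA.card_orbit x
  have h2 := hcon x
  rw [hn] at h2 ⊢
  have h3 : 2 ≤ n := by
    by_contra h
    have : n = 0 ∨ n = 1 := by omega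
    rcases this with rfl | rfl <;> norm_num at h2
  exact pow_dvd_pow 2 h3

/-- **an elementary abelian 2-subgroup of order at least `2 ^ 10` contains a member of `D`** -/
theorem mem22 (hP : PSU62Simple) (hD : IsThreeTranspositionGroup D) (hprim : IsPrimitiveUnderConj D)
    (h : IsOfTypeM22 G D) {A : Subgroup G} (hA : ∀ a ∈ A, a * a = 1) (hc : 2 ^ 10 ≤ Nat.card A) :
    ∃ d ∈ D, d ∈ A := by
  by_contra hcon
  push Not at hcon
  have hpar := (full22 hP hD hprim h).2.1
  have hV := VTriv_of_prim hD hprim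
  have hsq : ∀ x ∈ D, x * x = 1 := by
    intro x hx
    have := pow_orderOf_eq_one x
    rw [hD.1.1 x hx, pow_two] at this
    exact this
  -- a small orbit
  letI : MulAction A D :=
    { smul := fun a x => ⟨(a : G) * (x : G) * (a : G)⁻¹, hD.2.1 a x x.2⟩
      one_smul := fun x => Subtype.ext (by show (1 : G) * (x : G) * (1 : G)⁻¹ = x; group)
      mul_smul := fun a b x => Subtype.ext (by
        show ((a : G) * b) * (x : G) * ((a : G) * b)⁻¹ = a * (b * (x : G) * (b : G)⁻¹) * (a : G)⁻¹
        group) }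
  have hsm : ∀ (a : A) (x : D), ((a • x : D) : G) = (a : G) * x * (a : G)⁻¹ := fun a x => rfl
  have hpg : IsPGroup 2 A := isPGroup_of_sq A hA
  obtain ⟨⟨d, hd⟩, horb⟩ := exists_small_orbit (X := D) hpg (by
    rw [Nat.card_coe_set_eq, hpar.card]; norm_num)
  -- the centralizer of `d` in `A`
  set A₀ : Subgroup G := A ⊓ Subgroup.centralizer {d} with hA₀
  have hA₀mem : ∀ x, x ∈ A₀ ↔ x ∈ A ∧ Commute x d := by
    intro x
    rw [hA₀, Subgroup.mem_inf, Subgroup.mem_centralizer_singleton_iff]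
    exact Iff.rfl
  have hstab : Nat.card A ≤ 2 * Nat.card A₀ := by
    have h1 := Subgroup.card_mul_index (MulAction.stabilizer A (⟨d, hd⟩ : D))
    rw [MulAction.index_stabilizer, ← Nat.card_coe_set_eq] at h1
    have h2 : Nat.card (MulAction.stabilizer A (⟨d, hd⟩ : D)) ≤ Nat.card A₀ := by
      refine Nat.card_le_card_of_injective (fun x => ⟨((x : A) : G), ?_⟩) ?_
      · rw [hA₀mem]
        refine ⟨(x : A).2, ?_⟩
        have h3 := x.2
        rw [MulAction.mem_stabilizer_iff] at h3
        have h4 : ((x : A) : G) * d * ((x : A) : G)⁻¹ = d := congrArg Subtype.val h3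
        exact mul_inv_eq_iff_eq_mul.1 h4
      · intro x y hxy
        exact Subtype.ext (Subtype.ext (congrArg (fun z : A₀ => (z : G)) hxy))
    have h3 : Nat.card A = Nat.card (MulAction.orbit A (⟨d, hd⟩ : D)) * Nat.card (MulAction.stabilizer A (⟨d, hd⟩ : D)) := by
      rw [← h1, mul_comm]
    rw [h3]
    exact Nat.mul_le_mul horb h2
  -- the subgroup `B`
  set B : Subgroup G := A₀ ⊔ Subgroup.zpowers d with hB
  have hBcl : B = Subgroup.closure ((A₀ : Set G) ∪ {d}) := by
    rw [hB, Subgroup.closure_union, Subgroup.closure_eq, Subgroup.zpowers_eq_closure]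
  have hBsq : ∀ b ∈ B, b * b = 1 := by
    rw [hBcl]
    apply closure_sq
    · rintro s (hs | hs)
      · exact hA s ((hA₀mem s).1 hs).1
      · rw [Set.mem_singleton_iff] at hs; rw [hs]; exact hsq d hd
    · rintro s (hs | hs) t (ht | ht)
      · exact comm_of_sq hA ((hA₀mem s).1 hs).1 ((hA₀mem t).1 ht).1
      · rw [Set.mem_singleton_iff] at ht; rw [ht]; exact ((hA₀mem s).1 hs).2
      · rw [Set.mem_singleton_iff] at hs; rw [hs]; exact ((hA₀mem t).1 ht).2.symm
      · rw [Set.mem_singleton_iff] at hs ht; rw [hs, ht]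
  have hdB : d ∈ B := by rw [hB]; exact Subgroup.mem_sup_right (Subgroup.mem_zpowers d)
  have hA₀B : A₀ ≤ B := le_sup_left
  have hdA₀ : d ∉ A₀ := fun hh => hcon d hd ((hA₀mem d).1 hh).1
  have hBelem : ∀ b ∈ B, b ∈ A₀ ∨ b * d ∈ A₀ := by
    have hset : ∀ b ∈ B, b ∈ {b | b ∈ A₀ ∨ b * d ∈ A₀} := by
      intro b hb
      rw [hBcl] at hb
      induction hb using Subgroup.closure_induction with
      | mem x hx =>
        rcases hx with hx | hx
        · exact Or.inl hx
        · rw [Set.mem_singleton_iff] at hx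
          right; rw [hx, hsq d hd]; exact A₀.one_mem
      | one => exact Or.inl A₀.one_mem
      | mul x y hx hy ihx ihy =>
        have hxB : x ∈ B := by rw [hBcl]; exact hx
        have hyB : y ∈ B := by rw [hBcl]; exact hy
        rcases ihx with hx' | hx' <;> rcases ihy with hy' | hy'
        · exact Or.inl (A₀.mul_mem hx' hy')
        · right; rw [mul_assoc]; exact A₀.mul_mem hx' hy'
        · right
          have : x * y * d = x * d * y := by
            rw [mul_assoc, comm_of_sq hBsq hyB hdB, ← mul_assoc]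
          rw [this]; exact A₀.mul_mem hx' hy'
        · left
          have : x * y = (x * d) * (y * d) := by
            rw [mul_assoc x d, ← mul_assoc d y d, comm_of_sq hBsq hdB hyB, mul_assoc y d d, hsq d hd, mul_one]
          rw [this]; exact A₀.mul_mem hx' hy'
      | inv x hx ihx =>
        have hxB : x ∈ B := by rw [hBcl]; exact hx
        have : x⁻¹ = x := inv_eq_of_mul_eq_one_left (hBsq x hxB)
        rw [this]; exact ihx
    exact hset
  have hcardB : 2 * Nat.card A₀ ≤ Nat.card B := by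
    have h1 : A₀ < B := lt_of_le_of_ne hA₀B (fun h => hdA₀ (by rw [h]; exact hdB))
    have h2 := Subgroup.card_dvd_of_le hA₀B
    obtain ⟨k, hk⟩ := h2
    have hA₀pos : 0 < Nat.card A₀ := Nat.card_pos
    have hk2 : 2 ≤ k := by
      by_contra hlt
      have hk' : k = 0 ∨ k = 1 := by omega
      have hBpos : 0 < Nat.card B := Nat.card_pos
      rcases hk' with rfl | rfl
      · omega
      · rw [mul_one] at hk
        have := Subgroup.eq_of_le_of_card_ge hA₀B (le_of_eq hk)
        exact h1.ne this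
    rw [hk, mul_comm]
    exact Nat.mul_le_mul_left _ hk2
  obtain ⟨hb1, hb2⟩ := struct22_of_mem hP hD hprim h hBsq hd hdB
  have hcB : Nat.card B = 2 ^ 10 := by omega
  have hcA : Nat.card A = 2 ^ 10 := by omega
  have hcA₀ : Nat.card A₀ = 2 ^ 9 := by omega
  obtain ⟨_, _, h22⟩ := hb2 hcB
  -- an element outside `A₀`
  obtain ⟨a, haA, ha0⟩ : ∃ a ∈ A, a ∉ A₀ := by
    by_contra hcon'
    push Not at hcon'
    have : A ≤ A₀ := hcon'
    have := Subgroup.card_le_of_le this
    omega
  have had : ¬ Commute a d := fun hc' => ha0 ((hA₀mem a).2 ⟨haA, hc'⟩)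
  set e := a * d * a⁻¹ with he
  have heD : e ∈ D := hD.2.1 a d hd
  have hed : e ≠ d := by
    intro h'
    exact had (mul_inv_eq_iff_eq_mul.1 h')
  -- members of `D` in `B`
  have hkey : ∀ x ∈ D, x ∈ B → x * (a * x * a⁻¹) = d * e := by
    intro x hx hxB
    rcases hBelem x hxB with h1 | h1
    · exact absurd ((hA₀mem x).1 h1).1 (hcon x hx)
    · have h2 := (hA₀mem _).1 h1
      have hx' : x = (x * d) * d := by rw [mul_assoc, hsq d hd, mul_one]
      set a₀ := x * d with ha₀
      have hc1 : a * a₀ = a₀ * a := comm_of_sq hA haA h2.1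
      have hc2 : a₀ * d = d * a₀ := h2.2.eq
      have hsq0 : a₀ * a₀ = 1 := hA _ h2.1
      rw [hx', he]
      calc a₀ * d * (a * (a₀ * d) * a⁻¹) = (a₀ * d) * ((a * a₀) * d * a⁻¹) := by group
        _ = (a₀ * d) * ((a₀ * a) * d * a⁻¹) := by rw [hc1]
        _ = (a₀ * d * a₀) * (a * d * a⁻¹) := by group
        _ = (d * (a₀ * a₀)) * (a * d * a⁻¹) := by rw [hc2]; group
        _ = d * (a * d * a⁻¹) := by rw [hsq0, mul_one]
  -- a member of `D` in `B` other than `d`, `e`
  obtain ⟨x, ⟨hxD, hxB⟩, hxne⟩ : ∃ x ∈ {x | x ∈ D ∧ x ∈ B}, x ∉ ({d, e} : Set G) := by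
    by_contra hcon'
    push Not at hcon'
    have h1 : {x | x ∈ D ∧ x ∈ B}.ncard ≤ ({d, e} : Set G).ncard := Set.ncard_le_ncard hcon' (Set.toFinite _)
    have h2 := Set.ncard_insert_le d ({e} : Set G)
    rw [Set.ncard_singleton] at h2
    omega
  simp only [Set.mem_insert_iff, Set.mem_singleton_iff, not_or] at hxne
  have hk := hkey x hxD hxB
  have hxdc : Commute x d := comm_of_sq hBsq hxB hdB
  set x' := a * x * a⁻¹ with hx'
  have hx'D : x' ∈ D := hD.2.1 a x hxD
  by_cases hde : Commute d e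
  · -- commuting case
    have hne' : x ≠ x' := by
      intro h'
      rw [← h', hsq x hxD] at hk
      apply hed
      have : e = d⁻¹ := eq_inv_of_mul_eq_one_right hk.symm
      rw [this]
      exact inv_eq_of_mul_eq_one_left (hsq d hd)
    have hxx' : Commute x x' := by
      have h1 : (x * x') * (x * x') = 1 := by
        rw [hk]
        calc d * e * (d * e) = d * (e * d) * e := by group
          _ = d * (d * e) * e := by rw [hde.eq]
          _ = (d * d) * (e * e) := by group
          _ = 1 := by rw [hsq d hd, hsq e heD, mul_one]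
      have h2 : x * x' = (x * x')⁻¹ := (inv_eq_of_mul_eq_one_left h1).symm
      have ix : x⁻¹ = x := inv_eq_of_mul_eq_one_left (hsq x hxD)
      have ix' : x'⁻¹ = x' := inv_eq_of_mul_eq_one_left (hsq x' hx'D)
      rw [mul_inv_rev, ix, ix'] at h2
      exact h2
    rcases pair_eq hD.1 hV hxD hx'D hd heD hne' hed.symm hxx' hde hk with h1 | h1
    · exact hxne.1 h1.1
    · exact hxne.2 h1.1
  · -- the product of `e` and `x` has order six
    have hde3 : (d * e) ^ 3 = 1 := by
      rcases hD.1.2 d hd e heD with h1 | h1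
      · exact absurd (commute_of_sq (hsq d hd) (hsq e heD) h1) hde
      · exact h1
    -- `a₀ = x d` commutes with `d` and `e`
    have h1 : x * d ∈ A₀ := by
      rcases hBelem x hxB with h1 | h1
      · exact absurd ((hA₀mem x).1 h1).1 (hcon x hxD)
      · exact h1
    have h2 := (hA₀mem _).1 h1
    have hc1 : Commute (x * d) a := comm_of_sq hA h2.1 haA
    have hc2 : Commute (x * d) d := h2.2
    have hc3 : Commute (x * d) e := by
      rw [he]
      exact (hc1.mul_right hc2).mul_right hc1.inv_right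
    have h3 : x * e = (x * d) * (d * e) := by
      rw [mul_assoc x d, ← mul_assoc d d e, hsq d hd, one_mul]
    have hcc : Commute (x * d) (d * e) := hc2.mul_right hc3
    have hx2 : (x * d) * (x * d) = 1 := hA _ h2.1
    have hxd1 : x * d ≠ 1 := by
      intro h'
      apply hxne.1
      have : x = d⁻¹ := eq_inv_of_mul_eq_one_left h'
      rw [this]; exact inv_eq_of_mul_eq_one_left (hsq d hd)
    have hde1 : d * e ≠ 1 := by
      intro h'
      apply hed
      have : e = d⁻¹ := eq_inv_of_mul_eq_one_right h'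
      rw [this]; exact inv_eq_of_mul_eq_one_left (hsq d hd)
    rcases hD.1.2 x hxD e heD with h4 | h4
    · -- square one
      rw [h3, hcc.mul_pow, pow_two (x * d), hx2, one_mul] at h4
      apply hde1
      calc d * e = (d * e) ^ 3 * ((d * e) ^ 2)⁻¹ := by group
        _ = 1 := by rw [hde3, h4]; group
    · rw [h3, hcc.mul_pow, hde3, mul_one] at h4
      apply hxd1
      have hgen : ∀ y : G, y ^ 3 = 1 → y * y = 1 → y = 1 := by
        intro y h5 h6
        calc y = y ^ 3 * (y * y)⁻¹ := by group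
          _ = 1 := by rw [h5, h6]; group
      exact hgen _ h4 hx2

end

end Cfsg.Agent.Lib.H89EB
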