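import Cfsg.Agent.Lib.H89EB0
/-
Hyperbolic bases and transitivity on triples of independent totally isotropic vectors (helper89).
-/
set_option autoImplicit false
set_option linter.all false

namespace Cfsg.Agent.Lib.H89EC

open Module Cfsg Cfsg.Agent.Lib.UnTrans Cfsg.Agent.Lib.UnBridge Cfsg.Agent.Lib.U6Class Cfsg.Agent.Lib.H89EA Cfsg.Agent.Lib.H89EB
open Cfsg.Agent.Lib.SpTrans (isom mem_isom)

universe v w

variable {F : Type} [Field F] [Fintype F] [CharP F 2] {V : Type v} [AddCommGroup V] [Module F V] {f : V → V → F}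
  {hF : Fintype.card F = 2 ^ 2} {H : HS (sig hF) f} {G₁ : Type w} [Group G₁] {π : SS f →* G₁} {D : Set G₁}

/-- what is used from the setting -/
structure HV (H : HS (sig hF) f) : Prop where
  fin : FiniteDimensional F V
  nd : Nd f (⊤ : Submodule F V)
  dim : finrank F V = 6

theorem hv_of (S : Setup H G₁ π D) : HV H := ⟨S.fin, S.nd, S.dim⟩

theorem decomp (X : HV H) {w y : Fin 3 → V} (E : HB f w y) (x : V) :
    x = ∑ i, f x (y i) • w i + ∑ i, f x (w i) • y i := by
  haveI := X.fin
  set z := x + (∑ i, f x (y i) • w i + ∑ i, f x (w i) • y i) with hz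
  have hyw := fun i j => E.yw H i j
  have h1 : ∀ j, f z (w j) = 0 := by
    intro j
    rw [hz]
    simp only [Fin.sum_univ_three, H.add_left, H.smul_left, E.ww, hyw, mul_zero, zero_add, add_zero]
    fin_cases j <;> simp [fadd_self]
  have h2 : ∀ j, f z (y j) = 0 := by
    intro j
    rw [hz]
    simp only [Fin.sum_univ_three, H.add_left, H.smul_left, E.wy, E.yy, mul_zero, zero_add, add_zero]
    fin_cases j <;> simp [fadd_self]
  have h3 : z ∈ Submodule.span F (Set.range w) := by
    refine mem_of_perp H X.nd (m := 3) (by rw [X.dim]) (E.finrank_span H) (E.span_iso H) ?_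
    intro u hu
    obtain ⟨c, rfl⟩ := E.mem_span.1 hu
    simp only [Fin.sum_univ_three, H.add_right, H.smul_right, h1, mul_zero, add_zero]
  obtain ⟨c, hc⟩ := E.mem_span.1 h3
  have h4 : ∀ j, c j = 0 := by
    intro j
    rw [← E.f_sum_y H c j, hc, h2]
  have h5 : z = 0 := by
    rw [← hc]
    simp only [h4, zero_smul, Finset.sum_const_zero]
  have h6 : x + (∑ i, f x (y i) • w i + ∑ i, f x (w i) • y i) = 0 := h5
  have h7 := vadd_self F (∑ i, f x (y i) • w i + ∑ i, f x (w i) • y i)
  calc x = x + ((∑ i, f x (y i) • w i + ∑ i, f x (w i) • y i) + (∑ i, f x (y i) • w i + ∑ i, f x (w i) • y i)) := by rw [h7, add_zero]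
    _ = (x + (∑ i, f x (y i) • w i + ∑ i, f x (w i) • y i)) + (∑ i, f x (y i) • w i + ∑ i, f x (w i) • y i) := (add_assoc _ _ _).symm
    _ = _ := by rw [h6, zero_add]

/-- the linear map between two hyperbolic bases -/
noncomputable def Mm (H : HS (sig hF) f) (w y w' y' : Fin 3 → V) : V →ₗ[F] V :=
  ∑ i, ((H.fl (y i)).smulRight (w' i) + (H.fl (w i)).smulRight (y' i))

theorem Mm_apply (w y w' y' : Fin 3 → V) (x : V) :
    Mm H w y w' y' x = ∑ i, f x (y i) • w' i + ∑ i, f x (w i) • y' i := by
  simp only [Mm, LinearMap.sum_apply, LinearMap.add_apply, LinearMap.smulRight_apply, HS.fl_apply, Finset.sum_add_distrib]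

theorem Mm_w (w y : Fin 3 → V) {w' y' : Fin 3 → V} (E' : HB f w' y') (x : V) (j : Fin 3) :
    f (Mm H w y w' y' x) (w' j) = f x (w j) := by
  have hyw := fun i j => E'.yw H i j
  rw [Mm_apply]
  simp only [Fin.sum_univ_three, H.add_left, H.smul_left, E'.ww, hyw, mul_zero, zero_add, add_zero]
  fin_cases j <;> simp

theorem Mm_y (w y : Fin 3 → V) {w' y' : Fin 3 → V} (E' : HB f w' y') (x : V) (j : Fin 3) :
    f (Mm H w y w' y' x) (y' j) = f x (y j) := by
  rw [Mm_apply]
  simp only [Fin.sum_univ_three, H.add_left, H.smul_left, E'.wy, E'.yy, mul_zero, zero_add, add_zero]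
  fin_cases j <;> simp

theorem Mm_Mm (X : HV H) {w y w' y' : Fin 3 → V} (E : HB f w y) (E' : HB f w' y') (x : V) :
    Mm H w' y' w y (Mm H w y w' y' x) = x := by
  rw [Mm_apply]
  simp only [Mm_w w y E', Mm_y w y E']
  exact (decomp X E x).symm

/-- the isometry between two hyperbolic bases -/
noncomputable def ms (X : HV H) {w y w' y' : Fin 3 → V} (E : HB f w y) (E' : HB f w' y') : V ≃ₗ[F] V :=
  LinearEquiv.ofLinear (Mm H w y w' y') (Mm H w' y' w y)
    (by ext x; exact Mm_Mm X E' E x) (by ext x; exact Mm_Mm X E E' x)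

theorem ms_apply (X : HV H) {w y w' y' : Fin 3 → V} (E : HB f w y) (E' : HB f w' y') (x : V) :
    ms X E E' x = Mm H w y w' y' x := rfl

theorem ms_isom (X : HV H) {w y w' y' : Fin 3 → V} (E : HB f w y) (E' : HB f w' y') : ms X E E' ∈ isom f := by
  intro x z
  rw [ms_apply, ms_apply]
  have h1 : ∀ i, f (w' i) (Mm H w y w' y' z) = f (w i) z := by
    intro i; rw [H.herm, Mm_w w y E', ← H.herm]
  have h2 : ∀ i, f (y' i) (Mm H w y w' y' z) = f (y i) z := by
    intro i; rw [H.herm, Mm_y w y E', ← H.herm]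
  rw [Mm_apply w y w' y' x]
  conv_rhs => rw [decomp X E x]
  simp only [Fin.sum_univ_three, H.add_left, H.smul_left, h1, h2]

theorem ms_w (X : HV H) {w y w' y' : Fin 3 → V} (E : HB f w y) (E' : HB f w' y') (j : Fin 3) : ms X E E' (w j) = w' j := by
  rw [ms_apply, Mm_apply]
  simp only [Fin.sum_univ_three, E.wy, E.ww, zero_smul, add_zero]
  fin_cases j <;> simp

/-- an isometry scaling one vector of a hyperbolic basis -/
theorem exists_scale (X : HV H) {w y : Fin 3 → V} (E : HB f w y) (i : Fin 3) {c : F} (hc : sig hF c * c = 1) :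
    ∃ g ∈ isom f, (∀ j, g (w j) = if j = i then c • w j else w j) ∧
      LinearMap.det ((g : V ≃ₗ[F] V) : V →ₗ[F] V) = c * c := by
  haveI := X.fin
  obtain ⟨θ, hθ⟩ := H.exists_trace 1 (map_one _)
  have hi := H.inv
  have hyw := fun i j => E.yw H i j
  set u := w i + θ • y i with hu
  set u' := w i + sig hF θ • y i with hu'
  have huu : f u u = 1 := by
    rw [hu]
    simp only [H.add_left, H.add_right, H.smul_left, H.smul_right, E.ww, E.wy, E.yy, hyw, if_true, mul_zero, mul_one, zero_add, add_zero]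
    exact (add_comm _ _).trans hθ
  have huu' : f u' u' = 1 := by
    rw [hu']
    simp only [H.add_left, H.add_right, H.smul_left, H.smul_right, E.ww, E.wy, E.yy, hyw, if_true, mul_zero, mul_one, zero_add, add_zero, hi]
    exact hθ
  have hu'u : f u' u = 0 := by
    rw [hu, hu']
    simp only [H.add_left, H.add_right, H.smul_left, H.smul_right, E.ww, E.wy, E.yy, hyw, if_true, mul_zero, mul_one, zero_add, add_zero]
    exact fadd_self _
  set a := c + 1 with ha
  have hcond : ∀ z : V, f z z = 1 → a + sig hF a + a * sig hF a * f z z = 0 := by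
    intro z hz
    rw [hz, ha, map_add, map_one]
    have h2 : (1 : F) + 1 = 0 := fadd_self 1
    have : (c + 1) + (sig hF c + 1) + (c + 1) * (sig hF c + 1) * 1 = (sig hF c * c + 1) + (c + c) + (sig hF c + sig hF c) + (1 + 1) := by ring
    rw [this, hc, fadd_self c, fadd_self (sig hF c), h2]
    ring
  have e1 : el H u a (hcond u huu) ∈ isom f := el_mem H u a (hcond u huu)
  have e2 : el H u' a (hcond u' huu') ∈ isom f := el_mem H u' a (hcond u' huu')
  refine ⟨el H u a (hcond u huu) * el H u' a (hcond u' huu'), (isom f).mul_mem e1 e2, ?_, ?_⟩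
  · intro j
    show el H u a (hcond u huu) (el H u' a (hcond u' huu') (w j)) = _
    rw [el_apply, el_apply]
    have h1 : f (w j) u' = if j = i then θ else 0 := by
      rw [hu']
      simp only [H.add_right, H.smul_right, E.ww, E.wy, hi, zero_add]
      split_ifs <;> simp
    have h2 : f (w j) u = if j = i then sig hF θ else 0 := by
      rw [hu]
      simp only [H.add_right, H.smul_right, E.ww, E.wy, zero_add]
      split_ifs <;> simp
    rw [H.add_left, H.smul_left, hu'u, mul_zero, add_zero, h1, h2]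
    by_cases hj : j = i
    · subst hj
      simp only [if_true]
      have h3 : w j + (a * θ) • u' + (a * sig hF θ) • u = w j + (a * (θ + sig hF θ)) • w j + ((a * θ * sig hF θ) • y j + (a * θ * sig hF θ) • y j) := by
        rw [hu, hu']
        module
      rw [h3, hθ, vadd_self F, add_zero, mul_one, ha, add_smul, one_smul]
      have h4 := vadd_self F (w j)
      calc w j + (c • w j + w j) = c • w j + (w j + w j) := by abel
        _ = c • w j := by rw [h4, add_zero]
    · simp only [if_neg hj, mul_zero, zero_smul, add_zero]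
  · have h1 : ((el H u a (hcond u huu) * el H u' a (hcond u' huu') : V ≃ₗ[F] V) : V →ₗ[F] V) =
        ((el H u a (hcond u huu) : V ≃ₗ[F] V) : V →ₗ[F] V) ∘ₗ ((el H u' a (hcond u' huu') : V ≃ₗ[F] V) : V →ₗ[F] V) := rfl
    rw [h1, LinearMap.det_comp, el_det, el_det, huu, huu', mul_one, ha]
    have h2 : 1 + (c + 1) = c := by
      have : 1 + (c + 1) = c + (1 + 1) := by ring
      rw [this, fadd_self (1 : F), add_zero]
    rw [h2]

/-- **Witt**: between two hyperbolic bases, up to one scalar -/
theorem exists_ss (X : HV H) {w y w' y' : Fin 3 → V} (E : HB f w y) (E' : HB f w' y') (i : Fin 3) :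
    ∃ s : SS f, ∃ c : F, c ≠ 0 ∧ ∀ j, (s : V ≃ₗ[F] V) (w j) = if j = i then c • w' j else w' j := by
  haveI := X.fin
  set μ := LinearMap.det ((ms X E E' : V ≃ₗ[F] V) : V →ₗ[F] V) with hμ
  have hμ0 : μ ≠ 0 := (LinearEquiv.isUnit_det' (ms X E E')).ne_zero
  have hsq : ∀ c : F, sig hF c = c ^ 2 := fun c => sig_apply hF c
  have hcube : ∀ c : F, c ≠ 0 → c ^ 3 = 1 := by
    intro c hc
    have := FiniteField.pow_card_sub_one_eq_one c hc
    rw [hF] at this
    exact this
  obtain ⟨g, hg, hgw, hgd⟩ := exists_scale X E' i (c := μ) (by rw [hsq, ← pow_succ]; exact hcube μ hμ0)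
  refine ⟨⟨g * ms X E E', mem_SS.2 ⟨(isom f).mul_mem hg (ms_isom X E E'), ?_⟩⟩, μ, hμ0, ?_⟩
  · have h1 : ((g * ms X E E' : V ≃ₗ[F] V) : V →ₗ[F] V) = ((g : V ≃ₗ[F] V) : V →ₗ[F] V) ∘ₗ ((ms X E E' : V ≃ₗ[F] V) : V →ₗ[F] V) := rfl
    rw [h1, LinearMap.det_comp, hgd, ← hμ]
    have := hcube μ hμ0
    calc μ * μ * μ = μ ^ 3 := by ring
      _ = 1 := this
  · intro j
    show g (ms X E E' (w j)) = _
    rw [ms_w, hgw]

/-- **a triple of independent totally isotropic vectors extends to a hyperbolic basis** -/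
theorem exists_HBext (X : HV H) {w : Fin 3 → V} (hw : ∀ i j, f (w i) (w j) = 0) (hli : LinearIndependent F w) :
    ∃ y, HB f w y := by
  haveI := X.fin
  -- dual vectors
  set Λ : V →ₗ[F] (Fin 3 → F) := LinearMap.pi (fun i => H.fl (w i)) with hΛ
  have hΛa : ∀ x i, Λ x i = f x (w i) := fun x i => rfl
  set W := Submodule.span F (Set.range w) with hW
  have hW3 : finrank F W = 3 := by rw [hW, finrank_span_eq_card hli, Fintype.card_fin]
  have hWiso : ∀ x ∈ W, ∀ z ∈ W, f x z = 0 := by
    intro x hx z hz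
    obtain ⟨c, rfl⟩ := (Submodule.mem_span_range_iff_exists_fun F).1 hx
    obtain ⟨d, rfl⟩ := (Submodule.mem_span_range_iff_exists_fun F).1 hz
    simp only [Fin.sum_univ_three, H.add_left, H.add_right, H.smul_left, H.smul_right, hw, mul_zero, add_zero]
  have hker : LinearMap.ker Λ = W := by
    apply le_antisymm
    · intro x hx
      refine mem_of_perp H X.nd (m := 3) (by rw [X.dim]) hW3 hWiso ?_
      intro u hu
      obtain ⟨c, rfl⟩ := (Submodule.mem_span_range_iff_exists_fun F).1 hu
      have h1 : ∀ i, f x (w i) = 0 := fun i => by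
        rw [← hΛa, LinearMap.mem_ker.1 hx]; rfl
      simp only [Fin.sum_univ_three, H.add_right, H.smul_right, h1, mul_zero, add_zero]
    · intro x hx
      rw [LinearMap.mem_ker]
      funext i
      rw [hΛa]
      exact hWiso x hx _ (Submodule.subset_span ⟨i, rfl⟩)
  have hrange : LinearMap.range Λ = ⊤ := by
    apply Submodule.eq_top_of_finrank_eq
    have h1 := LinearMap.finrank_range_add_finrank_ker Λ
    rw [hker, hW3, X.dim] at h1
    rw [finrank_fin_fun]
    omega
  have hdual : ∀ j : Fin 3, ∃ y' : V, ∀ i, f y' (w i) = if j = i then 1 else 0 := by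
    intro j
    have : (fun i => if j = i then (1 : F) else 0) ∈ LinearMap.range Λ := by rw [hrange]; trivial
    obtain ⟨y', hy'⟩ := this
    exact ⟨y', fun i => by rw [← hΛa, hy']⟩
  choose y' hy' using hdual
  have hwy' : ∀ i j, f (w i) (y' j) = if i = j then 1 else 0 := by
    intro i j
    rw [H.herm, hy']
    by_cases h : j = i
    · rw [if_pos h, if_pos h.symm, map_one]
    · rw [if_neg h, if_neg (Ne.symm h), map_zero]
  have htr : ∀ i, ∃ c : F, c + sig hF c = f (y' i) (y' i) := fun i => H.exists_trace _ (H.self_fixed _)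
  choose t ht using htr
  set m := fun i j => f (y' i) (y' j) with hm
  have hmh : ∀ i j, sig hF (m i j) = m j i := fun i j => (H.herm _ _).symm
  have hi := H.inv
  refine ⟨![y' 0 + t 0 • w 0, y' 1 + m 1 0 • w 0 + t 1 • w 1, y' 2 + m 2 0 • w 0 + m 2 1 • w 1 + t 2 • w 2], ⟨hw, ?_, ?_⟩⟩
  · have h00 : f (y' 0 + t 0 • w 0) (y' 0 + t 0 • w 0) = 0 := by
      simp only [H.add_left, H.add_right, H.smul_left, H.smul_right, hw, hwy', hy', if_true, mul_zero, mul_one, add_zero]
      have := ht 0
      rw [← this]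
      have e : t 0 + sig hF (t 0) + sig hF (t 0) + t 0 = (t 0 + t 0) + (sig hF (t 0) + sig hF (t 0)) := by ring
      rw [e, fadd_self, fadd_self, add_zero]
    have h01 : f (y' 0 + t 0 • w 0) (y' 1 + m 1 0 • w 0 + t 1 • w 1) = 0 := by
      simp only [H.add_left, H.add_right, H.smul_left, H.smul_right, hw, hwy', hy', if_true, mul_zero, mul_one, add_zero]
      have e1 : f (y' 0) (y' 1) = m 0 1 := rfl
      rw [e1]
      simp [hmh, fadd_self]
    have h02 : f (y' 0 + t 0 • w 0) (y' 2 + m 2 0 • w 0 + m 2 1 • w 1 + t 2 • w 2) = 0 := by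
      simp only [H.add_left, H.add_right, H.smul_left, H.smul_right, hw, hwy', hy', if_true, mul_zero, mul_one, add_zero]
      have e1 : f (y' 0) (y' 2) = m 0 2 := rfl
      rw [e1]
      simp [hmh, fadd_self]
    have h11 : f (y' 1 + m 1 0 • w 0 + t 1 • w 1) (y' 1 + m 1 0 • w 0 + t 1 • w 1) = 0 := by
      simp only [H.add_left, H.add_right, H.smul_left, H.smul_right, hw, hwy', hy', if_true, mul_zero, mul_one, add_zero]
      rw [← ht 1]
      simp
      have e : t 1 + sig hF (t 1) + sig hF (t 1) + t 1 = (t 1 + t 1) + (sig hF (t 1) + sig hF (t 1)) := by ring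
      rw [e, fadd_self, fadd_self, add_zero]
    have h12 : f (y' 1 + m 1 0 • w 0 + t 1 • w 1) (y' 2 + m 2 0 • w 0 + m 2 1 • w 1 + t 2 • w 2) = 0 := by
      simp only [H.add_left, H.add_right, H.smul_left, H.smul_right, hw, hwy', hy', if_true, mul_zero, mul_one, add_zero]
      have e1 : f (y' 1) (y' 2) = m 1 2 := rfl
      rw [e1]
      simp [hmh, fadd_self]
    have h22 : f (y' 2 + m 2 0 • w 0 + m 2 1 • w 1 + t 2 • w 2) (y' 2 + m 2 0 • w 0 + m 2 1 • w 1 + t 2 • w 2) = 0 := by
      simp only [H.add_left, H.add_right, H.smul_left, H.smul_right, hw, hwy', hy', if_true, mul_zero, mul_one, add_zero]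
      rw [← ht 2]
      simp
      have e : t 2 + sig hF (t 2) + sig hF (t 2) + t 2 = (t 2 + t 2) + (sig hF (t 2) + sig hF (t 2)) := by ring
      rw [e, fadd_self, fadd_self, add_zero]
    intro i j
    fin_cases i <;> fin_cases j
    · exact h00
    · exact h01
    · exact h02
    · exact H.symm_zero h01
    · exact h11
    · exact h12
    · exact H.symm_zero h02
    · exact H.symm_zero h12
    · exact h22
  · intro i j
    fin_cases j <;> fin_cases i <;> simp [H.add_right, H.smul_right, hw, hwy']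

/-- **transitivity on independent totally isotropic triples, up to one scalar** -/
theorem exists_ss' (X : HV H) {w w' : Fin 3 → V} (hw : ∀ i j, f (w i) (w j) = 0) (hli : LinearIndependent F w)
    (hw' : ∀ i j, f (w' i) (w' j) = 0) (hli' : LinearIndependent F w') (i : Fin 3) :
    ∃ s : SS f, ∃ c : F, c ≠ 0 ∧ ∀ j, (s : V ≃ₗ[F] V) (w j) = if j = i then c • w' j else w' j := by
  obtain ⟨y, E⟩ := exists_HBext X hw hli
  obtain ⟨y', E'⟩ := exists_HBext X hw' hli'
  exact exists_ss X E E' i

end Cfsg.Agent.Lib.H89EC
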