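import Cfsg.Agent.Lib.H89EC0
/-
Double covers of the unitary group of dimension six over the field with four elements: lifted transvections and
their relations (helper89).
-/
set_option autoImplicit false
set_option linter.all false

namespace Cfsg.Agent.Lib.H89EC

open Module Cfsg Cfsg.Agent.Lib.UnTrans Cfsg.Agent.Lib.UnBridge Cfsg.Agent.Lib.U6Class Cfsg.Agent.Lib.H89EA Cfsg.Agent.Lib.H89EB
open Cfsg.Agent.Lib.SpTrans (isom mem_isom)

universe v w w'

/-- a central involution of a perfect group lies in every subgroup of index twice an odd number -/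
theorem no_complement {C : Type w'} [Group C] [Finite C] (hperf : commutator C = ⊤) {d : C} (hdd : d * d = 1)
    (hdc : ∀ x, d * x = x * d) {P₀ : Subgroup C} (hd : d ∉ P₀) (hidx : P₀.index % 4 = 2) : False := by
  classical
  haveI : Fintype (C ⧸ P₀) := Fintype.ofFinite _
  set σ : Equiv.Perm (C ⧸ P₀) := MulAction.toPermHom C (C ⧸ P₀) d with hσ
  have hσ2 : σ ^ 2 = 1 := by
    rw [hσ, ← map_pow, pow_two, hdd, map_one]
  have hfix : ∀ x, σ x ≠ x := by
    intro x
    obtain ⟨g, rfl⟩ := QuotientGroup.mk_surjective x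
    intro h
    have h1 : ((d * g : C) : C ⧸ P₀) = (g : C ⧸ P₀) := h
    rw [QuotientGroup.eq] at h1
    apply hd
    have h2 : (d * g)⁻¹ * g = d := by
      have : d⁻¹ = d := inv_eq_of_mul_eq_one_left hdd
      rw [mul_inv_rev, mul_assoc, this, hdc]
      group
    rwa [h2] at h1
  have hσ1 : σ ≠ 1 := by
    intro h
    exact hfix ((1 : C) : C ⧸ P₀) (by rw [h]; rfl)
  have hord : orderOf σ = 2 := orderOf_eq_prime hσ2 hσ1
  obtain ⟨n, hn⟩ := Equiv.Perm.cycleType_prime_order (σ := σ) (by rw [hord]; exact Nat.prime_two)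
  rw [hord] at hn
  have hsupp : σ.support = Finset.univ := by
    ext x
    simp only [Equiv.Perm.mem_support, Finset.mem_univ, iff_true]
    exact hfix x
  have hsum := Equiv.Perm.sum_cycleType σ
  rw [hn, hsupp, Multiset.sum_replicate, Finset.card_univ, smul_eq_mul] at hsum
  have hidx' : Fintype.card (C ⧸ P₀) = P₀.index := by
    rw [← Nat.card_eq_fintype_card]; rfl
  rw [hidx'] at hsum
  have hsign : Equiv.Perm.sign σ = -1 := by
    rw [Equiv.Perm.sign_of_cycleType, hn, Multiset.sum_replicate, Multiset.card_replicate, smul_eq_mul]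
    have hodd : Odd ((n + 1) * 2 + (n + 1)) := by
      rw [Nat.odd_iff]; omega
    exact hodd.neg_one_pow
  have h1 : ((Equiv.Perm.sign).comp (MulAction.toPermHom C (C ⧸ P₀))) d = 1 := by
    have h2 := Abelianization.commutator_subset_ker ((Equiv.Perm.sign).comp (MulAction.toPermHom C (C ⧸ P₀)))
    rw [hperf] at h2
    exact h2 (Subgroup.mem_top d)
  have h2 : Equiv.Perm.sign σ = 1 := h1
  rw [hsign] at h2
  exact absurd h2 (by decide)

section

variable {F : Type} [Field F] [Fintype F] [CharP F 2] {V : Type v} [AddCommGroup V] [Module F V] {f : V → V → F}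
  {hF : Fintype.card F = 2 ^ 2} {H : HS (sig hF) f} {C : Type w'} {Q : Type w} [Group C] [Group Q]
  {π : SS f →* Q} {D : Set Q} {φ : C →* Q} {d : C} {E : Set C}

/-- the lifted transvection with centre `v` -/
noncomputable def Te (K : Cov φ d D E) (S : Setup H Q π D) (v : V) : C :=
  haveI := Classical.propDecidable (f v v = 0 ∧ v ≠ 0)
  if h : f v v = 0 ∧ v ≠ 0 then (K.lift _ (S.P_mem v h.1 h.2)).choose else 1

theorem Te_zero (K : Cov φ d D E) (S : Setup H Q π D) : Te K S 0 = 1 := by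
  rw [Te, dif_neg]
  exact fun h => h.2 rfl

theorem Te_mem (K : Cov φ d D E) (S : Setup H Q π D) {v : V} (hv : f v v = 0) (hv0 : v ≠ 0) : Te K S v ∈ E := by
  rw [Te, dif_pos ⟨hv, hv0⟩]
  exact (K.lift _ (S.P_mem v hv hv0)).choose_spec.1

theorem phi_Te (K : Cov φ d D E) (S : Setup H Q π D) {v : V} (hv : f v v = 0) (hv0 : v ≠ 0) :
    φ (Te K S v) = P π H S.fin v hv := by
  rw [Te, dif_pos ⟨hv, hv0⟩]
  exact (K.lift _ (S.P_mem v hv hv0)).choose_spec.2

theorem Te_eq (K : Cov φ d D E) (S : Setup H Q π D) {v : V} (hv : f v v = 0) (hv0 : v ≠ 0) {e : C} (he : e ∈ E)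
    (h : φ e = P π H S.fin v hv) : Te K S v = e :=
  K.phi_inj (Te_mem K S hv hv0) he ((phi_Te K S hv hv0).trans h.symm)

theorem Te_surj (K : Cov φ d D E) (S : Setup H Q π D) {e : C} (he : e ∈ E) : ∃ v : V, f v v = 0 ∧ v ≠ 0 ∧ Te K S v = e := by
  obtain ⟨v, hv, hv0, h⟩ := S.lift (K.im e he)
  exact ⟨v, hv, hv0, Te_eq K S hv hv0 he h.symm⟩

theorem Te_smul (K : Cov φ d D E) (S : Setup H Q π D) {v : V} (hv : f v v = 0) {c : F} (hc : c ≠ 0) :
    Te K S (c • v) = Te K S v := by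
  by_cases hv0 : v = 0
  · rw [hv0, smul_zero]
  · have h1 : f (c • v) (c • v) = 0 := by rw [H.smul_left, H.smul_right, hv, mul_zero, mul_zero]
    have h2 : c • v ≠ 0 := smul_ne_zero hc hv0
    refine Te_eq K S h1 h2 (Te_mem K S hv hv0) ?_
    rw [phi_Te K S hv hv0]
    exact (S.P_smul hc hv h1).symm

theorem Te_inj (K : Cov φ d D E) (S : Setup H Q π D) {v u : V} (hv : f v v = 0) (hv0 : v ≠ 0) (hu : f u u = 0) (hu0 : u ≠ 0)
    (h : Te K S v = Te K S u) : ∃ c : F, c ≠ 0 ∧ v = c • u := by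
  have h1 := congrArg φ h
  rw [phi_Te K S hv hv0, phi_Te K S hu hu0] at h1
  exact S.P_inj hv hu hv0 h1

theorem Te_sq (K : Cov φ d D E) (S : Setup H Q π D) {v : V} (hv : f v v = 0) : Te K S v * Te K S v = 1 := by
  by_cases hv0 : v = 0
  · rw [hv0, Te_zero, mul_one]
  · exact K.sq _ (Te_mem K S hv hv0)

theorem Te_comm (K : Cov φ d D E) (S : Setup H Q π D) {v u : V} (hv : f v v = 0) (hu : f u u = 0) (h : f v u = 0) :
    Te K S v * Te K S u = Te K S u * Te K S v := by
  by_cases hv0 : v = 0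
  · rw [hv0, Te_zero, mul_one, one_mul]
  by_cases hu0 : u = 0
  · rw [hu0, Te_zero, mul_one, one_mul]
  apply K.comm _ (Te_mem K S hv hv0) _ (Te_mem K S hu hu0)
  rw [phi_Te K S hv hv0, phi_Te K S hu hu0]
  exact (S.commute_iff hv hu).2 h

theorem Te_conj (K : Cov φ d D E) (S : Setup H Q π D) {g : C} {s : SS f} (h : φ g = π s) {v : V} (hv : f v v = 0) :
    g * Te K S v * g⁻¹ = Te K S ((s : V ≃ₗ[F] V) v) := by
  by_cases hv0 : v = 0
  · rw [hv0, map_zero, Te_zero, mul_one, mul_inv_cancel]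
  · have h1 : f ((s : V ≃ₗ[F] V) v) ((s : V ≃ₗ[F] V) v) = 0 := by rw [s.2.1]; exact hv
    have h2 : (s : V ≃ₗ[F] V) v ≠ 0 := fun h' => hv0 ((s : V ≃ₗ[F] V).map_eq_zero_iff.1 h')
    symm
    refine Te_eq K S h1 h2 (K.conj g _ (Te_mem K S hv hv0)) ?_
    rw [map_mul, map_mul, map_inv, phi_Te K S hv hv0, h]
    exact S.P_conj s v hv

/-- the element of the cover above an element -/
theorem exists_phi (K : Cov φ d D E) (s : SS f) (π : SS f →* Q) : ∃ g : C, φ g = π s := K.surj (π s)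

/-! ### relations in the special unitary group -/

theorem exists_omega (hF : Fintype.card F = 2 ^ 2) : ∃ ω : F, ω ≠ 0 ∧ ω ≠ 1 ∧ ω ^ 2 = ω + 1 ∧ sig hF ω = ω + 1 ∧
    ∀ c : F, c = 0 ∨ c = 1 ∨ c = ω ∨ c = ω + 1 := by
  obtain ⟨ω, h0, h1, hall⟩ := f4_omega (F := F) (by rw [hF]; norm_num)
  have hc : (2 : F) = 0 := CharTwo.two_eq_zero
  have hω : ω ^ 2 = ω + 1 := by
    rcases hall (ω ^ 2) with h | h | h | h
    · exact absurd (pow_eq_zero_iff (two_ne_zero) |>.1 h) h0
    · exfalso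
      apply h1
      have h2 : (ω - 1) * (ω - 1) = 0 := by
        have : (ω - 1) * (ω - 1) = ω ^ 2 + 1 - 2 * ω := by ring
        rw [this, h, hc, zero_mul, sub_zero, CharTwo.add_self_eq_zero]
      exact sub_eq_zero.1 (mul_self_eq_zero.1 h2)
    · exfalso
      apply h1
      have h2 : ω * (ω - 1) = 0 := by
        have : ω * (ω - 1) = ω ^ 2 - ω := by ring
        rw [this, h, sub_self]
      rcases mul_eq_zero.1 h2 with h | h
      · exact absurd h h0
      · exact sub_eq_zero.1 h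
    · exact h
  exact ⟨ω, h0, h1, hω, by rw [sig_apply, hω], hall⟩

/-- the line relation -/
theorem line_rel (S : Setup H Q π D) {ω : F} (hω : ω ^ 2 = ω + 1) (hsω : sig hF ω = ω + 1) {u v : V} (hu : f u u = 0)
    (hv : f v v = 0) (huv : f u v = 0) (h1 : f (u + v) (u + v) = 0) (h2 : f (u + ω • v) (u + ω • v) = 0)
    (h3 : f (u + (ω + 1) • v) (u + (ω + 1) • v) = 0) :
    P π H S.fin u hu * P π H S.fin v hv * P π H S.fin (u + v) h1 * P π H S.fin (u + ω • v) h2 *
      P π H S.fin (u + (ω + 1) • v) h3 = 1 := by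
  have hvu : f v u = 0 := H.symm_zero huv
  have hch : (2 : F) = 0 := CharTwo.two_eq_zero
  simp only [P, ← map_mul]
  rw [S.ker]
  refine ⟨1, fun x => ?_⟩
  rw [one_smul]
  show tr H u hu (tr H v hv (tr H (u + v) h1 (tr H (u + ω • v) h2 (tr H (u + (ω + 1) • v) h3 x)))) = x
  simp only [tr_apply, H.add_left, H.add_right, H.smul_left, H.smul_right, hu, hv, huv, hvu, mul_zero, add_zero,
    map_add, map_one, hsω]
  set a := f x u
  set b := f x v
  calc _ = x + (2 * (2 * a + (ω + 2) * b)) • u + (2 * ((ω + 1) * a + b) + (2 * (ω ^ 2 + 2 * ω + 1)) * b) • v := by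
        module
    _ = x := by rw [hch]; simp

/-- the hyperoval relation -/
theorem hyper_rel (S : Setup H Q π D) {ω : F} (hω : ω ^ 2 = ω + 1) (hsω : sig hF ω = ω + 1) {u v z : V} (hu : f u u = 0)
    (hv : f v v = 0) (hz : f z z = 0) (huv : f u v = 0) (huz : f u z = 0) (hvz : f v z = 0)
    (h1 : f (u + v + z) (u + v + z) = 0) (h2 : f (u + ω • v + (ω + 1) • z) (u + ω • v + (ω + 1) • z) = 0)
    (h3 : f (u + (ω + 1) • v + ω • z) (u + (ω + 1) • v + ω • z) = 0) :
    P π H S.fin u hu * P π H S.fin v hv * P π H S.fin z hz * P π H S.fin (u + v + z) h1 *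
      P π H S.fin (u + ω • v + (ω + 1) • z) h2 * P π H S.fin (u + (ω + 1) • v + ω • z) h3 = 1 := by
  have hvu : f v u = 0 := H.symm_zero huv
  have hzu : f z u = 0 := H.symm_zero huz
  have hzv : f z v = 0 := H.symm_zero hvz
  have hch : (2 : F) = 0 := CharTwo.two_eq_zero
  simp only [P, ← map_mul]
  rw [S.ker]
  refine ⟨1, fun x => ?_⟩
  rw [one_smul]
  show tr H u hu (tr H v hv (tr H z hz (tr H (u + v + z) h1 (tr H (u + ω • v + (ω + 1) • z) h2
    (tr H (u + (ω + 1) • v + ω • z) h3 x))))) = x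
  simp only [tr_apply, H.add_left, H.add_right, H.smul_left, H.smul_right, hu, hv, hz, huv, hvu, huz, hzu, hvz, hzv,
    mul_zero, add_zero, map_add, map_one, hsω]
  set a := f x u
  set b := f x v
  set c := f x z
  have hω' : ω * ω = ω + 1 := by rw [← pow_two]; exact hω
  calc _ = x + (2 * (2 * a + (ω + 2) * b + (ω + 2) * c)) • u +
        (2 * ((ω + 1) * a + b + (ω * ω + 2 * ω + 1) * b + (ω * ω + 2 * ω + 1) * c)) • v +
        (2 * ((ω + 1) * a + (ω * ω + 2 * ω + 1) * b + (ω * ω + 2 * ω + 1) * c + c)) • z := by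
        module
    _ = x := by rw [hch]; simp

end

end Cfsg.Agent.Lib.H89EC
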