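import Cfsg.Agent.Lib.H89EC1
import Cfsg.Agent.Lib.FiLift91b
/-
Double covers of the unitary group of dimension six over the field with four elements: the class with line products
one; the group generated by the lifts when all hyperoval products are one (helper89).
-/
set_option autoImplicit false
set_option linter.all false

namespace Cfsg.Agent.Lib.H89EC

open Module Cfsg Cfsg.Agent.Lib.UnTrans Cfsg.Agent.Lib.UnBridge Cfsg.Agent.Lib.U6Class Cfsg.Agent.Lib.H89EA Cfsg.Agent.Lib.H89EB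
open Cfsg.Agent.Lib.SpTrans (isom mem_isom)
open Cfsg.Agent.Lib.FiLift91 (LH Rel exists_s exists_k rel_eq sq_eq comm_eq)

universe v w w'

section classes

variable {C : Type w'} {Q : Type w} [Group C] [Group Q] {φ : C →* Q} {d : C} {D : Set Q}

theorem kappa_one (hφ : Function.Surjective φ) (hker : ∀ x, φ x = 1 ↔ x = 1 ∨ x = d) (hdd : d * d = 1)
    (hcen : ∀ x, d * x = x * d) (hL : LH D) :
    (∀ x : C, φ x ∈ D → x * x = 1) ∧ (∀ x y : C, φ x ∈ D → φ y ∈ D → Commute (φ x) (φ y) → x * y = y * x) := by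
  obtain ⟨s, hs, hs'⟩ := exists_s φ hφ hdd hker hcen hL.one hL.ne hL.inv
  obtain ⟨κ, hκ, hκ'⟩ := exists_k φ hφ hdd hker hcen hL.tt
  obtain ⟨n, hn, hodd⟩ := hL.rodd
  have e6 := rel_eq φ hφ hdd hker hcen hs hκ hs' hκ' hL.r6
  have en := rel_eq φ hφ hdd hker hcen hs hκ hs' hκ' hodd
  have hs2 : s ^ 2 = 1 := by
    rcases hs with rfl | rfl
    · simp
    · rw [pow_two]; exact hdd
  have hκ2 : κ ^ 2 = 1 := by
    rcases hκ with rfl | rfl
    · simp
    · rw [pow_two]; exact hdd
  have hκ1 : κ = 1 := by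
    have h15 : Nat.choose 6 2 = 15 := by decide
    rw [h15, show s ^ 6 = (s ^ 2) ^ 3 by rw [← pow_mul], hs2, one_pow, one_mul, show κ ^ 15 = (κ ^ 2) ^ 7 * κ by
      rw [← pow_mul, ← pow_succ], hκ2, one_pow, one_mul] at e6
    exact e6
  have hs1 : s = 1 := by
    rw [hκ1, one_pow, mul_one] at en
    have : n = 2 * (n / 2) + 1 := by omega
    rw [this, pow_succ, pow_mul, hs2, one_pow, one_mul] at en
    exact en
  refine ⟨fun x hx => by rw [hs' x hx, hs1], ?_⟩
  intro x y hx hy hxy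
  by_cases h : φ x = φ y
  · have h1 := comm_eq φ hker hcen h rfl (y := y) (y' := y)
    have h2 : x * y * x⁻¹ * y⁻¹ = 1 := by rw [h1]; group
    have := congrArg (· * (y * x)) h2
    simpa [mul_assoc] using this
  · have := hκ' x y hx hy h hxy
    rw [hκ1, one_mul] at this
    exact this

theorem dcen (hker : ∀ x, φ x = 1 ↔ x = 1 ∨ x = d) (hd1 : d ≠ 1) (x : C) : d * x = x * d := by
  have h1 : φ (x * d * x⁻¹) = 1 := by
    rw [map_mul, map_mul, (hker d).2 (Or.inr rfl), mul_one, map_inv, mul_inv_cancel]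
  rcases (hker _).1 h1 with h | h
  · exfalso
    apply hd1
    have : d = x⁻¹ * (x * d * x⁻¹) * x := by group
    rw [this, h]; group
  · have : x * d = (x * d * x⁻¹) * x := by group
    rw [this, h]

/-- a conjugacy class of lifts -/
theorem cov_class (hφ : Function.Surjective φ) (hker : ∀ x, φ x = 1 ↔ x = 1 ∨ x = d) (hd1 : d ≠ 1) (hdd : d * d = 1)
    (hL : LH D) (hcm : FiPar.CM D) (hconj : ∀ g : Q, ∀ a ∈ D, g * a * g⁻¹ ∈ D) {e₀ : C} (he₀ : φ e₀ ∈ D) :
    Cov φ d D {x | ∃ g, x = g * e₀ * g⁻¹} := by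
  have hcen := dcen hker hd1
  obtain ⟨hsq, hcomm⟩ := kappa_one hφ hker hdd hcen hL
  have him : ∀ e ∈ {x | ∃ g, x = g * e₀ * g⁻¹}, φ e ∈ D := by
    rintro _ ⟨g, rfl⟩
    rw [map_mul, map_mul, map_inv]
    exact hconj _ _ he₀
  refine ⟨hφ, hker, hd1, hdd, fun e he => hsq e (him e he), him, ?_, ?_, ?_, ?_⟩
  · intro t ht
    obtain ⟨q, hq⟩ := hL.one _ he₀ t ht
    obtain ⟨g, rfl⟩ := hφ q
    exact ⟨g * e₀ * g⁻¹, ⟨g, rfl⟩, by rw [map_mul, map_mul, map_inv, hq]⟩
  · rintro e ⟨g, rfl⟩ ⟨g', hg'⟩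
    set e := g * e₀ * g⁻¹ with he
    have heD : φ e ∈ D := him e ⟨g, rfl⟩
    -- an element conjugating `e` to `e * d`
    set h := g' * g⁻¹ with hh
    have h1 : h * e * h⁻¹ = e * d := by
      rw [hg', hh, he]; group
    have h2 : Commute (φ h) (φ e) := by
      have h3 : φ h * φ e * (φ h)⁻¹ = φ e := by
        rw [← map_mul, ← map_inv, ← map_mul, h1, map_mul, (hker d).2 (Or.inr rfl), mul_one]
      exact mul_inv_eq_iff_eq_mul.1 h3
    have h4 := hcm _ heD _ h2
    -- the centralizer of `e` covers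
    have h5 : Subgroup.closure {x | x ∈ D ∧ Commute (φ e) x} ≤ (Subgroup.centralizer ({e} : Set C)).map φ := by
      rw [Subgroup.closure_le]
      rintro x ⟨hx, hxc⟩
      obtain ⟨x', rfl⟩ := hφ x
      exact ⟨x', Subgroup.mem_centralizer_singleton_iff.2 (hcomm x' e hx heD hxc.symm), rfl⟩
    obtain ⟨m, hm, hmh⟩ := h5 h4
    have hm' : m * e = e * m := Subgroup.mem_centralizer_singleton_iff.1 hm
    have h6 : h * e = e * h := by
      have h7 : φ (m⁻¹ * h) = 1 := by rw [map_mul, map_inv, hmh, inv_mul_cancel]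
      have h8 : h = m * (m⁻¹ * h) := by group
      rcases (hker _).1 h7 with h9 | h9
      · rw [h8, h9, mul_one]; exact hm'
      · rw [h8, h9, mul_assoc, hcen, ← mul_assoc, hm', mul_assoc]
    have h7 : e = e * d := by
      rw [← h1, h6]; group
    exact hd1 (mul_left_cancel (a := e) (by rw [mul_one]; exact h7.symm))
  · rintro x e ⟨g, rfl⟩
    exact ⟨x * g, by group⟩
  · intro e he e' he' hc
    exact hcomm e e' (him e he) (him e' he') hc

/-- the opposite class -/
theorem cov_mul {E : Set C} (K : Cov φ d D E) : Cov φ d D {x | x * d ∈ E} := by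
  have hcen := K.dc
  have hφd : ∀ x, φ (x * d) = φ x := fun x => by rw [map_mul, K.phi_d, mul_one]
  refine ⟨K.surj, K.ker, K.d1, K.dd, ?_, ?_, ?_, ?_, ?_, ?_⟩
  · intro e he
    have h1 := K.sq _ he
    have h2 : e * d * (e * d) = e * e := by
      calc e * d * (e * d) = e * (d * e) * d := by group
        _ = e * (e * d) * d := by rw [hcen]
        _ = e * e * (d * d) := by group
        _ = e * e := by rw [K.dd, mul_one]
    rw [← h2]; exact h1
  · intro e he
    rw [← hφd]; exact K.im _ he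
  · intro t ht
    obtain ⟨e, he, rfl⟩ := K.lift t ht
    refine ⟨e * d, ?_, hφd e⟩
    show e * d * d ∈ E
    rw [mul_assoc, K.dd, mul_one]; exact he
  · intro e he h
    have h' : e * d * d ∈ E := h
    exact K.uniq (e * d) he h'
  · intro g e he
    show g * e * g⁻¹ * d ∈ E
    have : g * e * g⁻¹ * d = g * (e * d) * g⁻¹ := by
      rw [mul_assoc, ← hcen]; group
    rw [this]
    exact K.conj g _ he
  · intro e he e' he' hc
    have h1 := K.comm _ he _ he' (by rw [hφd, hφd]; exact hc)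
    have h2 : e * d * (e' * d) = e * e' := by
      calc e * d * (e' * d) = e * (d * e') * d := by group
        _ = e * (e' * d) * d := by rw [hcen]
        _ = e * e' * (d * d) := by group
        _ = e * e' := by rw [K.dd, mul_one]
    have h3 : e' * d * (e * d) = e' * e := by
      calc e' * d * (e * d) = e' * (d * e) * d := by group
        _ = e' * (e * d) * d := by rw [hcen]
        _ = e' * e * (d * d) := by group
        _ = e' * e := by rw [K.dd, mul_one]
    rw [← h2, h1, h3]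

end classes

section

variable {F : Type} [Field F] [Fintype F] [CharP F 2] {V : Type v} [AddCommGroup V] [Module F V] {f : V → V → F}
  {hF : Fintype.card F = 2 ^ 2} {H : HS (sig hF) f} {C : Type w'} {Q : Type w} [Group C] [Group Q]
  {π : SS f →* Q} {D : Set Q} {φ : C →* Q} {d : C} {E : Set C}

/-- the product of the lifts along a line -/
noncomputable def Lam (K : Cov φ d D E) (S : Setup H Q π D) (ω : F) (u v : V) : C :=
  Te K S u * Te K S v * Te K S (u + v) * Te K S (u + ω • v) * Te K S (u + (ω + 1) • v)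

/-- the product of the lifts along a hyperoval -/
noncomputable def Hyp (K : Cov φ d D E) (S : Setup H Q π D) (ω : F) (u v z : V) : C :=
  Te K S u * Te K S v * Te K S z * Te K S (u + v + z) * Te K S (u + ω • v + (ω + 1) • z) *
    Te K S (u + (ω + 1) • v + ω • z)

theorem Lam_cases (K : Cov φ d D E) (S : Setup H Q π D) {ω : F} (hω : ω ^ 2 = ω + 1) (hsω : sig hF ω = ω + 1)
    {w : Fin 3 → V} (hw : ∀ i j, f (w i) (w j) = 0) (hli : LinearIndependent F w) :
    Lam K S ω (w 0) (w 1) = 1 ∨ Lam K S ω (w 0) (w 1) = d := by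
  have hiso : ∀ a b : F, f (a • w 0 + b • w 1) (a • w 0 + b • w 1) = 0 := by
    intro a b
    simp only [H.add_left, H.add_right, H.smul_left, H.smul_right, hw, mul_zero, add_zero]
  have hne : ∀ a b : F, (a ≠ 0 ∨ b ≠ 0) → a • w 0 + b • w 1 ≠ 0 := by
    intro a b hab h
    have h1 := Fintype.linearIndependent_iff.1 hli ![a, b, 0] (by
      rw [Fin.sum_univ_three]
      show a • w 0 + b • w 1 + (0 : F) • w 2 = 0
      rw [h, zero_smul, add_zero])
    rcases hab with hab | hab
    · exact hab (h1 0)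
    · exact hab (h1 1)
  rw [← K.ker]
  have e1 : w 0 = (1 : F) • w 0 + (0 : F) • w 1 := by rw [one_smul, zero_smul, add_zero]
  have e2 : w 1 = (0 : F) • w 0 + (1 : F) • w 1 := by rw [one_smul, zero_smul, zero_add]
  have e3 : w 0 + w 1 = (1 : F) • w 0 + (1 : F) • w 1 := by rw [one_smul, one_smul]
  have e4 : ∀ c : F, w 0 + c • w 1 = (1 : F) • w 0 + c • w 1 := by intro c; rw [one_smul]
  have i1 : f (w 0) (w 0) = 0 := hw 0 0
  have i2 : f (w 1) (w 1) = 0 := hw 1 1
  have i3 : f (w 0 + w 1) (w 0 + w 1) = 0 := by rw [e3]; exact hiso _ _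
  have i4 : ∀ c : F, f (w 0 + c • w 1) (w 0 + c • w 1) = 0 := by intro c; rw [e4]; exact hiso _ _
  have n1 : w 0 ≠ 0 := by rw [e1]; exact hne _ _ (Or.inl one_ne_zero)
  have n2 : w 1 ≠ 0 := by rw [e2]; exact hne _ _ (Or.inr one_ne_zero)
  have n3 : w 0 + w 1 ≠ 0 := by rw [e3]; exact hne _ _ (Or.inl one_ne_zero)
  have n4 : ∀ c : F, w 0 + c • w 1 ≠ 0 := by intro c; rw [e4]; exact hne _ _ (Or.inl one_ne_zero)
  rw [Lam, map_mul, map_mul, map_mul, map_mul, phi_Te K S i1 n1, phi_Te K S i2 n2, phi_Te K S i3 n3, phi_Te K S (i4 _) (n4 _),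
    phi_Te K S (i4 _) (n4 _)]
  exact line_rel S hω hsω i1 i2 (hw 0 1) i3 (i4 _) (i4 _)

theorem Hyp_cases (K : Cov φ d D E) (S : Setup H Q π D) {ω : F} (hω : ω ^ 2 = ω + 1) (hsω : sig hF ω = ω + 1)
    {w : Fin 3 → V} (hw : ∀ i j, f (w i) (w j) = 0) (hli : LinearIndependent F w) :
    Hyp K S ω (w 0) (w 1) (w 2) = 1 ∨ Hyp K S ω (w 0) (w 1) (w 2) = d := by
  have hiso : ∀ b c : F, f (w 0 + b • w 1 + c • w 2) (w 0 + b • w 1 + c • w 2) = 0 := by
    intro b c
    simp only [H.add_left, H.add_right, H.smul_left, H.smul_right, hw, mul_zero, add_zero]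
  have hne : ∀ b c : F, w 0 + b • w 1 + c • w 2 ≠ 0 := by
    intro b c h
    have h1 := Fintype.linearIndependent_iff.1 hli ![1, b, c] (by
      rw [Fin.sum_univ_three]
      show (1 : F) • w 0 + b • w 1 + c • w 2 = 0
      rw [one_smul, h])
    exact one_ne_zero (h1 0)
  have e3 : w 0 + w 1 + w 2 = w 0 + (1 : F) • w 1 + (1 : F) • w 2 := by rw [one_smul, one_smul]
  have i3 : f (w 0 + w 1 + w 2) (w 0 + w 1 + w 2) = 0 := by rw [e3]; exact hiso _ _
  have n3 : w 0 + w 1 + w 2 ≠ 0 := by rw [e3]; exact hne _ _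
  have nn : ∀ i, w i ≠ 0 := fun i => hli.ne_zero i
  rw [← K.ker]
  rw [Hyp, map_mul, map_mul, map_mul, map_mul, map_mul, phi_Te K S (hw 0 0) (nn 0), phi_Te K S (hw 1 1) (nn 1),
    phi_Te K S (hw 2 2) (nn 2), phi_Te K S i3 n3, phi_Te K S (hiso _ _) (hne _ _), phi_Te K S (hiso _ _) (hne _ _)]
  exact hyper_rel S hω hsω (hw 0 0) (hw 1 1) (hw 2 2) (hw 0 1) (hw 0 2) (hw 1 2) i3 (hiso _ _) (hiso _ _)

/-- all line products are one -/
def LineOne (K : Cov φ d D E) (S : Setup H Q π D) : Prop :=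
  ∀ ω : F, ω ^ 2 = ω + 1 → sig hF ω = ω + 1 → ∀ w : Fin 3 → V, (∀ i j, f (w i) (w j) = 0) → LinearIndependent F w →
    Lam K S ω (w 0) (w 1) = 1

theorem central_conj (K : Cov φ d D E) {x g : C} (h : x = 1 ∨ x = d) : g * x * g⁻¹ = x := by
  rcases h with rfl | rfl
  · group
  · rw [← K.dc, mul_assoc, mul_inv_cancel, mul_one]

theorem Lam_const (K : Cov φ d D E) (S : Setup H Q π D) {ω : F} (hω : ω ^ 2 = ω + 1) (hsω : sig hF ω = ω + 1)
    {w w' : Fin 3 → V} (hw : ∀ i j, f (w i) (w j) = 0) (hli : LinearIndependent F w)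
    (hw' : ∀ i j, f (w' i) (w' j) = 0) (hli' : LinearIndependent F w') :
    Lam K S ω (w 0) (w 1) = Lam K S ω (w' 0) (w' 1) := by
  obtain ⟨s, c, hc, hs⟩ := exists_ss' (hv_of S) hw hli hw' hli' 2
  obtain ⟨g, hg⟩ := K.surj (π s)
  have h0 : (s : V ≃ₗ[F] V) (w 0) = w' 0 := by rw [hs]; rfl
  have h1 : (s : V ≃ₗ[F] V) (w 1) = w' 1 := by rw [hs]; rfl
  have hiso : ∀ a b : F, f (a • w 0 + b • w 1) (a • w 0 + b • w 1) = 0 := by
    intro a b
    simp only [H.add_left, H.add_right, H.smul_left, H.smul_right, hw, mul_zero, add_zero]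
  have i3 : f (w 0 + w 1) (w 0 + w 1) = 0 := by
    have := hiso 1 1; rwa [one_smul, one_smul] at this
  have i4 : ∀ c : F, f (w 0 + c • w 1) (w 0 + c • w 1) = 0 := by
    intro c; have := hiso 1 c; rwa [one_smul] at this
  rw [← central_conj K (g := g) (Lam_cases K S hω hsω hw hli)]
  have e : g * Lam K S ω (w 0) (w 1) * g⁻¹ = (g * Te K S (w 0) * g⁻¹) * (g * Te K S (w 1) * g⁻¹) *
      (g * Te K S (w 0 + w 1) * g⁻¹) * (g * Te K S (w 0 + ω • w 1) * g⁻¹) * (g * Te K S (w 0 + (ω + 1) • w 1) * g⁻¹) := by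
    rw [Lam]; group
  rw [e, Te_conj K S hg (hw 0 0), Te_conj K S hg (hw 1 1), Te_conj K S hg i3, Te_conj K S hg (i4 _), Te_conj K S hg (i4 _)]
  simp only [map_add, map_smul, h0, h1]
  rfl

/-- **the class with line products one** -/
theorem exists_lineOne (K : Cov φ d D E) (S : Setup H Q π D) :
    LineOne K S ∨ LineOne (cov_mul K) S := by
  by_cases h : LineOne K S
  · exact Or.inl h
  right
  rw [LineOne] at h
  push Not at h
  obtain ⟨ω, hω, hsω, w, hw, hli, hne⟩ := h
  have hd : Lam K S ω (w 0) (w 1) = d := by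
    rcases Lam_cases K S hω hsω hw hli with h | h
    · exact absurd h hne
    · exact h
  intro ω' hω' hsω' w' hw' hli'
  -- the lifts of the opposite class
  have hTe : ∀ v : V, f v v = 0 → v ≠ 0 → Te (cov_mul K) S v = Te K S v * d := by
    intro v hv hv0
    refine Te_eq (cov_mul K) S hv hv0 ?_ ?_
    · show Te K S v * d * d ∈ E
      rw [mul_assoc, K.dd, mul_one]
      exact Te_mem K S hv hv0
    · rw [map_mul, K.phi_d, mul_one, phi_Te K S hv hv0]
  have hiso : ∀ a b : F, f (a • w' 0 + b • w' 1) (a • w' 0 + b • w' 1) = 0 := by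
    intro a b
    simp only [H.add_left, H.add_right, H.smul_left, H.smul_right, hw', mul_zero, add_zero]
  have hne' : ∀ a b : F, (a ≠ 0 ∨ b ≠ 0) → a • w' 0 + b • w' 1 ≠ 0 := by
    intro a b hab h
    have h1 := Fintype.linearIndependent_iff.1 hli' ![a, b, 0] (by
      rw [Fin.sum_univ_three]
      show a • w' 0 + b • w' 1 + (0 : F) • w' 2 = 0
      rw [h, zero_smul, add_zero])
    rcases hab with hab | hab
    · exact hab (h1 0)
    · exact hab (h1 1)
  have i3 : f (w' 0 + w' 1) (w' 0 + w' 1) = 0 := by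
    have := hiso 1 1; rwa [one_smul, one_smul] at this
  have i4 : ∀ c : F, f (w' 0 + c • w' 1) (w' 0 + c • w' 1) = 0 := by
    intro c; have := hiso 1 c; rwa [one_smul] at this
  have n3 : w' 0 + w' 1 ≠ 0 := by
    have := hne' 1 1 (Or.inl one_ne_zero); rwa [one_smul, one_smul] at this
  have n4 : ∀ c : F, w' 0 + c • w' 1 ≠ 0 := by
    intro c; have := hne' 1 c (Or.inl one_ne_zero); rwa [one_smul] at this
  have nn : ∀ i, w' i ≠ 0 := fun i => hli'.ne_zero i
  have hL : Lam (cov_mul K) S ω' (w' 0) (w' 1) = Lam K S ω' (w' 0) (w' 1) * d := by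
    rw [Lam, Lam, hTe _ (hw' 0 0) (nn 0), hTe _ (hw' 1 1) (nn 1), hTe _ i3 n3, hTe _ (i4 _) (n4 _), hTe _ (i4 _) (n4 _)]
    have hc := K.dc
    have hgen : ∀ a b c e g : C, a * d * (b * d) * (c * d) * (e * d) * (g * d) = a * b * c * e * g * d := by
      intro a b c e g
      calc a * d * (b * d) * (c * d) * (e * d) * (g * d) = a * (d * b) * d * c * (d * e) * d * g * d := by group
        _ = a * (b * d) * d * c * (e * d) * d * g * d := by rw [hc, hc]
        _ = a * b * (d * d) * c * e * (d * d) * g * d := by group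
        _ = a * b * c * e * g * d := by rw [K.dd]; group
    exact hgen _ _ _ _ _
  rw [hL]
  -- both choices of the cube root of unity give the same product
  have hω2 : ω' = ω ∨ ω' = ω + 1 := by
    have h1 : (ω' + ω) * (ω' + ω + 1) = 0 := by
      have hch : (2 : F) = 0 := CharTwo.two_eq_zero
      linear_combination hω' + hω + (ω' * ω + ω' + ω + 1) * hch
    rcases mul_eq_zero.1 h1 with h | h
    · left
      have : ω' = ω' + ω + ω := by rw [add_assoc, fadd_self, add_zero]
      rw [this, h, zero_add]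
    · right
      have : ω' = (ω' + ω + 1) + (ω + 1) := by
        have : (ω' + ω + 1) + (ω + 1) = ω' + (ω + ω) + (1 + 1) := by ring
        rw [this, fadd_self, fadd_self, add_zero, add_zero]
      rw [this, h, zero_add]
  have hsame : Lam K S ω' (w' 0) (w' 1) = Lam K S ω (w' 0) (w' 1) := by
    rcases hω2 with h | h
    · rw [h]
    · have h2 : (ω + 1) + 1 = ω := by rw [add_assoc, fadd_self, add_zero]
      rw [h, Lam, Lam, h2]
      have hc : Te K S (w' 0 + (ω + 1) • w' 1) * Te K S (w' 0 + ω • w' 1) = Te K S (w' 0 + ω • w' 1) * Te K S (w' 0 + (ω + 1) • w' 1) := by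
        apply Te_comm K S (i4 _) (i4 _)
        simp only [H.add_left, H.add_right, H.smul_left, H.smul_right, hw', mul_zero, add_zero]
      rw [mul_assoc _ (Te K S (w' 0 + (ω + 1) • w' 1)), hc, ← mul_assoc]
  rw [hsame, Lam_const K S hω hsω hw' hli' hw hli, hd, K.dd]

end

end Cfsg.Agent.Lib.H89EC
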