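import Cfsg.Agent.Lib.H89EC2
/-
Double covers of the unitary group of dimension six over the field with four elements: if all line and hyperoval products
of a class of lifts are one then the central involution is not in the group generated by the lifts in a totally
isotropic 3-space (helper89).
-/
set_option autoImplicit false
set_option linter.all false

namespace Cfsg.Agent.Lib.H89EC

open Module Cfsg Cfsg.Agent.Lib.UnTrans Cfsg.Agent.Lib.UnBridge Cfsg.Agent.Lib.U6Class Cfsg.Agent.Lib.H89EA Cfsg.Agent.Lib.H89EB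
open Cfsg.Agent.Lib.SpTrans (isom mem_isom)

universe v w w'

variable {F : Type} [Field F] [Fintype F] [CharP F 2] {V : Type v} [AddCommGroup V] [Module F V] {f : V → V → F}
  {hF : Fintype.card F = 2 ^ 2} {H : HS (sig hF) f} {C : Type w'} {Q : Type w} [Group C] [Group Q]
  {π : SS f →* Q} {D : Set Q} {φ : C →* Q} {d : C} {E : Set C}

/-- totally isotropic 3-spaces -/
structure TI (f : V → V → F) (W : Submodule F V) : Prop where
  dim : finrank F W = 3
  iso : ∀ x ∈ W, ∀ z ∈ W, f x z = 0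

/-- the group generated by the lifts -/
def LW (K : Cov φ d D E) (S : Setup H Q π D) (W : Submodule F V) : Subgroup C := Subgroup.closure (EW E φ S W)

theorem Te_mem_EW (K : Cov φ d D E) (S : Setup H Q π D) {W : Submodule F V} {v : V} (hv : v ∈ W) (hvv : f v v = 0) (hv0 : v ≠ 0) :
    Te K S v ∈ EW E φ S W :=
  ⟨Te_mem K S hvv hv0, v, hvv, hv, hv0, (phi_Te K S hvv hv0).symm⟩

theorem mem_EW (K : Cov φ d D E) (S : Setup H Q π D) {W : Submodule F V} {e : C} :
    e ∈ EW E φ S W ↔ ∃ v ∈ W, f v v = 0 ∧ v ≠ 0 ∧ Te K S v = e := by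
  constructor
  · rintro ⟨he, v, hvv, hv, hv0, h⟩
    exact ⟨v, hv, hvv, hv0, Te_eq K S hvv hv0 he h.symm⟩
  · rintro ⟨v, hv, hvv, hv0, rfl⟩
    exact Te_mem_EW K S hv hvv hv0

theorem Te_mem_LW (K : Cov φ d D E) (S : Setup H Q π D) {W : Submodule F V} {v : V} (hv : v ∈ W) (hvv : f v v = 0) :
    Te K S v ∈ LW K S W := by
  by_cases hv0 : v = 0
  · rw [hv0, Te_zero]; exact Subgroup.one_mem _
  · exact Subgroup.subset_closure (Te_mem_EW K S hv hvv hv0)

theorem LW_sq (K : Cov φ d D E) (S : Setup H Q π D) {W : Submodule F V} (hiso : ∀ x ∈ W, ∀ z ∈ W, f x z = 0) :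
    ∀ b ∈ LW K S W, b * b = 1 := fun b hb =>
  EW_sq K S hiso b (Subgroup.closure_mono (Set.subset_insert _ _) hb)

theorem LW_map (K : Cov φ d D E) (S : Setup H Q π D) (W : Submodule F V) :
    (LW K S W).map φ = Subgroup.closure (TW S W) := by
  rw [LW, MonoidHom.map_closure]
  congr 1
  ext t
  constructor
  · rintro ⟨e, he, rfl⟩
    exact he.2
  · intro ht
    have ht' := ht
    obtain ⟨u, hu, huW, hu0, rfl⟩ := ht'
    exact ⟨Te K S u, Te_mem_EW K S huW hu hu0, phi_Te K S hu hu0⟩

/-! ### linear algebra -/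

theorem exists_perp_ne (S : Setup H Q π D) {a b : V} (h : ∀ c : F, b ≠ c • a) : ∃ x, f x a = 0 ∧ f x b ≠ 0 := by
  by_contra hcon
  push Not at hcon
  have := H.mem_span_of_perp S.nd (w := a) (u := b) trivial trivial (fun x _ hx => hcon x hx)
  obtain ⟨c, hc⟩ := Submodule.mem_span_singleton.1 this
  exact h c hc.symm

/-- no relation of length three -/
theorem no_rel3 (S : Setup H Q π D) {a b c : V} (ha : f a a = 0) (hb : f b b = 0) (hc : f c c = 0) (ha0 : a ≠ 0)
    (hb0 : b ≠ 0) (hab : f a b = 0) (hac : f a c = 0) (h1 : ∀ t : F, b ≠ t • a) (h2 : ∀ t : F, b ≠ t • c)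
    (h : P π H S.fin a ha * P π H S.fin b hb = P π H S.fin c hc) : False := by
  rw [P, P, P, ← map_mul, S.eq_iff] at h
  obtain ⟨μ, hμ⟩ := h
  have hba : f b a = 0 := H.symm_zero hab
  have e1 : ∀ x, tr H a ha (tr H b hb x) = μ • tr H c hc x := hμ
  have h3 := e1 a
  rw [tr_apply (w := b), hab, zero_smul, add_zero, tr_apply, ha, zero_smul, add_zero, tr_apply, hac, zero_smul, add_zero] at h3
  have hμ1 : μ = 1 := by
    by_contra hne
    apply ha0
    have : (1 - μ) • a = 0 := by rw [sub_smul, one_smul, ← h3, sub_self]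
    rcases smul_eq_zero.1 this with h | h
    · exact absurd (sub_eq_zero.1 h).symm hne
    · exact h
  obtain ⟨x, hx1, hx2⟩ := exists_perp_ne S h1
  have h4 := e1 x
  rw [tr_apply, tr_apply, tr_apply, H.add_left, H.smul_left, hx1, hba, mul_zero, add_zero, zero_smul, add_zero, hμ1, one_smul] at h4
  have h5 : f x b • b = f x c • c := add_left_cancel h4
  apply h2 ((f x b)⁻¹ * f x c)
  rw [mul_smul, ← h5, smul_smul, inv_mul_cancel₀ hx2, one_smul]

/-! ### products of lifts in a totally isotropic 3-space -/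

/-- all hyperoval products are one -/
def HypOne (K : Cov φ d D E) (S : Setup H Q π D) : Prop :=
  ∀ ω : F, ω ^ 2 = ω + 1 → sig hF ω = ω + 1 → ∀ w : Fin 3 → V, (∀ i j, f (w i) (w j) = 0) → LinearIndependent F w →
    Hyp K S ω (w 0) (w 1) (w 2) = 1

theorem five_to {C : Type*} [Group C] {a b c e g : C} (h : a * b * c * e * g = 1) (he : e * e = 1) (hg : g * g = 1)
    (hc : e * g = g * e) : a * b * c = e * g := by
  have h1 : a * b * c = (e * g)⁻¹ := eq_inv_of_mul_eq_one_left (by rw [← h]; group)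
  have ie : e⁻¹ = e := inv_eq_of_mul_eq_one_left he
  have ig : g⁻¹ = g := inv_eq_of_mul_eq_one_left hg
  rw [h1, mul_inv_rev, ie, ig, hc]

theorem indep_third {W : Submodule F V} (hW : finrank F W = 3) {a b : V} (ha : a ∈ W) (hb : b ∈ W)
    (ha0 : a ≠ 0) (hab : ∀ t : F, b ≠ t • a) : ∃ c ∈ W, LinearIndependent F ![a, b, c] := by
  have h2 : LinearIndependent F ![a, b] := by
    rw [LinearIndependent.pair_iff]
    intro s t h
    by_cases ht : t = 0
    · rw [ht, zero_smul, add_zero] at h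
      rcases smul_eq_zero.1 h with h' | h'
      · exact ⟨h', ht⟩
      · exact absurd h' ha0
    · exfalso
      apply hab (-(t⁻¹ * s))
      have h3 : t • b = -(s • a) := by rw [eq_neg_iff_add_eq_zero, add_comm]; exact h
      calc b = t⁻¹ • (t • b) := by rw [smul_smul, inv_mul_cancel₀ ht, one_smul]
        _ = _ := by rw [h3, smul_neg, smul_smul, neg_smul]
  have hlt : Submodule.span F (Set.range ![a, b]) < W := by
    refine lt_of_le_of_ne ?_ ?_
    · rw [Submodule.span_le]
      rintro _ ⟨i, rfl⟩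
      fin_cases i
      · exact ha
      · exact hb
    · intro h
      have h3 := finrank_span_eq_card h2
      rw [h, hW] at h3
      simp at h3
  obtain ⟨c, hc, hcn⟩ := Set.exists_of_ssubset hlt
  refine ⟨c, hc, ?_⟩
  have h4 : LinearIndependent F (Fin.snoc ![a, b] c : Fin 3 → V) := by
    rw [linearIndependent_finSnoc]
    exact ⟨h2, hcn⟩
  convert h4 using 1
  funext i
  fin_cases i <;> rfl

section

variable {W : Submodule F V}

theorem line3 (K : Cov φ d D E) (S : Setup H Q π D) (hLO : LineOne K S) (hW : TI f W) {a b : V} (ha : a ∈ W) (hb : b ∈ W)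
    (ha0 : a ≠ 0) (hab : ∀ t : F, b ≠ t • a) {α β : F} (hα : α ≠ 0) (hβ : β ≠ 0) :
    ∃ p ∈ W, ∃ q ∈ W, Te K S a * Te K S b * Te K S (α • a + β • b) = Te K S p * Te K S q := by
  obtain ⟨ω, _, _, hω, hsω, _⟩ := exists_omega hF
  have hab' : ∀ t : F, β • b ≠ t • (α • a) := by
    intro t h
    apply hab (β⁻¹ * (t * α))
    rw [mul_smul, mul_smul, ← h, smul_smul, inv_mul_cancel₀ hβ, one_smul]
  obtain ⟨c, hc, hli⟩ := indep_third hW.dim (W.smul_mem α ha) (W.smul_mem β hb) (smul_ne_zero hα ha0) hab'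
  have hmem : ∀ i, ![α • a, β • b, c] i ∈ W := by
    intro i
    fin_cases i
    · exact W.smul_mem α ha
    · exact W.smul_mem β hb
    · exact hc
  have h1 := hLO ω hω hsω ![α • a, β • b, c] (fun i j => hW.iso _ (hmem i) _ (hmem j)) hli
  have h2 : Lam K S ω (α • a) (β • b) = 1 := h1
  rw [Lam] at h2
  have hp : (α • a + ω • (β • b)) ∈ W := W.add_mem (W.smul_mem α ha) (W.smul_mem ω (W.smul_mem β hb))
  have hq : (α • a + (ω + 1) • (β • b)) ∈ W := W.add_mem (W.smul_mem α ha) (W.smul_mem (ω + 1) (W.smul_mem β hb))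
  refine ⟨_, hp, _, hq, ?_⟩
  have h3 := five_to h2 (Te_sq K S (hW.iso _ hp _ hp)) (Te_sq K S (hW.iso _ hq _ hq))
    (Te_comm K S (hW.iso _ hp _ hp) (hW.iso _ hq _ hq) (hW.iso _ hp _ hq))
  rw [Te_smul K S (hW.iso _ ha _ ha) hα, Te_smul K S (hW.iso _ hb _ hb) hβ] at h3
  exact h3

/-- in a totally isotropic 3-space a product of four lifts is a product of three -/
theorem four_to_three (K : Cov φ d D E) (S : Setup H Q π D) (hLO : LineOne K S) (hHO : HypOne K S) (hW : TI f W) {a b c e : V}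
    (ha : a ∈ W) (hb : b ∈ W) (hc : c ∈ W) (he : e ∈ W) :
    ∃ p ∈ W, ∃ q ∈ W, ∃ r ∈ W, Te K S a * Te K S b * Te K S c * Te K S e = Te K S p * Te K S q * Te K S r := by
  have cm : ∀ {x y : V}, x ∈ W → y ∈ W → Te K S x * Te K S y = Te K S y * Te K S x := fun hx hy =>
    Te_comm K S (hW.iso _ hx _ hx) (hW.iso _ hy _ hy) (hW.iso _ hx _ hy)
  have sq : ∀ {x : V}, x ∈ W → Te K S x * Te K S x = 1 := fun hx => Te_sq K S (hW.iso _ hx _ hx)
  have sm : ∀ {x : V} (t : F), x ∈ W → Te K S (t • x) = Te K S x ∨ Te K S (t • x) = 1 := by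
    intro x t hx
    by_cases ht : t = 0
    · right; rw [ht, zero_smul, Te_zero]
    · left; exact Te_smul K S (hW.iso _ hx _ hx) ht
  have z0 : (0 : V) ∈ W := W.zero_mem
  have t0 : Te K S (0 : V) = 1 := Te_zero K S
  -- reductions
  by_cases ha0 : a = 0
  · exact ⟨b, hb, c, hc, e, he, by rw [ha0, t0, one_mul]⟩
  by_cases hb0 : b = 0
  · exact ⟨a, ha, c, hc, e, he, by rw [hb0, t0, mul_one]⟩
  by_cases hc0 : c = 0
  · exact ⟨a, ha, b, hb, e, he, by rw [hc0, t0, mul_one]⟩
  by_cases he0 : e = 0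
  · exact ⟨a, ha, b, hb, c, hc, by rw [he0, t0, mul_one]⟩
  by_cases hab : ∃ t : F, b = t • a
  · obtain ⟨t, rfl⟩ := hab
    rcases sm t ha with h | h
    · exact ⟨c, hc, e, he, 0, z0, by rw [h, sq ha, t0, one_mul, mul_one]⟩
    · exact ⟨a, ha, c, hc, e, he, by rw [h, mul_one]⟩
  by_cases hac : ∃ t : F, c = t • a
  · obtain ⟨t, rfl⟩ := hac
    rcases sm t ha with h | h
    · exact ⟨b, hb, e, he, 0, z0, by rw [h, cm ha hb, mul_assoc (Te K S b), sq ha, t0, mul_one, mul_one]⟩
    · exact ⟨a, ha, b, hb, e, he, by rw [h, mul_one]⟩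
  by_cases hbc : ∃ t : F, c = t • b
  · obtain ⟨t, rfl⟩ := hbc
    rcases sm t hb with h | h
    · exact ⟨a, ha, e, he, 0, z0, by rw [h, mul_assoc (Te K S a), sq hb, t0, mul_one, mul_one]⟩
    · exact ⟨a, ha, b, hb, e, he, by rw [h, mul_one]⟩
  by_cases hae : ∃ t : F, e = t • a
  · obtain ⟨t, rfl⟩ := hae
    rcases sm t ha with h | h
    · refine ⟨b, hb, c, hc, 0, z0, ?_⟩
      rw [h, t0, mul_one, mul_assoc (Te K S a), mul_assoc (Te K S a)]
      have h1 : Te K S b * Te K S c * Te K S a = Te K S a * (Te K S b * Te K S c) := by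
        rw [mul_assoc, cm hc ha, ← mul_assoc, cm hb ha, mul_assoc]
      rw [h1, ← mul_assoc, sq ha, one_mul]
    · exact ⟨a, ha, b, hb, c, hc, by rw [h, mul_one]⟩
  by_cases hbe : ∃ t : F, e = t • b
  · obtain ⟨t, rfl⟩ := hbe
    rcases sm t hb with h | h
    · refine ⟨a, ha, c, hc, 0, z0, ?_⟩
      rw [h, t0, mul_one, mul_assoc (Te K S a * Te K S b), cm hc hb, ← mul_assoc, mul_assoc (Te K S a), sq hb, mul_one]
    · exact ⟨a, ha, b, hb, c, hc, by rw [h, mul_one]⟩
  by_cases hce : ∃ t : F, e = t • c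
  · obtain ⟨t, rfl⟩ := hce
    rcases sm t hc with h | h
    · refine ⟨a, ha, b, hb, 0, z0, ?_⟩
      rw [h, t0, mul_one, mul_assoc (Te K S a * Te K S b), sq hc, mul_one]
    · exact ⟨a, ha, b, hb, c, hc, by rw [h, mul_one]⟩
  push Not at hab hac hbc hae hbe hce
  -- `c` in the span of `a`, `b`
  by_cases hspan : c ∈ Submodule.span F (Set.range ![a, b])
  · obtain ⟨g, hg⟩ := (Submodule.mem_span_range_iff_exists_fun F).1 hspan
    rw [Fin.sum_univ_two] at hg
    have hg' : g 0 • a + g 1 • b = c := hg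
    have h0 : g 0 ≠ 0 := by
      intro h; rw [h, zero_smul, zero_add] at hg'; exact hbc _ hg'.symm
    have h1 : g 1 ≠ 0 := by
      intro h; rw [h, zero_smul, add_zero] at hg'; exact hac _ hg'.symm
    obtain ⟨p, hp, q, hq, hpq⟩ := line3 K S hLO hW ha hb ha0 hab h0 h1
    rw [hg'] at hpq
    exact ⟨p, hp, q, hq, e, he, by rw [hpq]⟩
  · -- a basis
    have h2 : LinearIndependent F ![a, b] := by
      rw [LinearIndependent.pair_iff]
      intro s t h
      by_cases ht : t = 0
      · rw [ht, zero_smul, add_zero] at h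
        rcases smul_eq_zero.1 h with h' | h'
        · exact ⟨h', ht⟩
        · exact absurd h' ha0
      · exfalso
        apply hab (-(t⁻¹ * s))
        have h3 : t • b = -(s • a) := by rw [eq_neg_iff_add_eq_zero, add_comm]; exact h
        calc b = t⁻¹ • (t • b) := by rw [smul_smul, inv_mul_cancel₀ ht, one_smul]
          _ = _ := by rw [h3, smul_neg, smul_smul, neg_smul]
    have h4 : LinearIndependent F (Fin.snoc ![a, b] c : Fin 3 → V) := by
      rw [linearIndependent_finSnoc]
      exact ⟨h2, hspan⟩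
    have hli : LinearIndependent F ![a, b, c] := by
      convert h4 using 1
      funext i
      fin_cases i <;> rfl
    have hfin : FiniteDimensional F V := S.fin
    have hspW : Submodule.span F (Set.range ![a, b, c]) = W := by
      apply Submodule.eq_of_le_of_finrank_eq
      · rw [Submodule.span_le]
        rintro _ ⟨i, rfl⟩
        fin_cases i
        · exact ha
        · exact hb
        · exact hc
      · rw [finrank_span_eq_card hli, hW.dim, Fintype.card_fin]
    have heS : e ∈ Submodule.span F (Set.range ![a, b, c]) := by rw [hspW]; exact he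
    obtain ⟨g, hg⟩ := (Submodule.mem_span_range_iff_exists_fun F).1 heS
    rw [Fin.sum_univ_three] at hg
    have hg' : g 0 • a + g 1 • b + g 2 • c = e := hg
    by_cases g2 : g 2 = 0
    · rw [g2, zero_smul, add_zero] at hg'
      have h0 : g 0 ≠ 0 := by
        intro h; rw [h, zero_smul, zero_add] at hg'; exact hbe _ hg'.symm
      have h1 : g 1 ≠ 0 := by
        intro h; rw [h, zero_smul, add_zero] at hg'; exact hae _ hg'.symm
      obtain ⟨p, hp, q, hq, hpq⟩ := line3 K S hLO hW ha hb ha0 hab h0 h1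
      rw [hg'] at hpq
      exact ⟨p, hp, q, hq, c, hc, by rw [mul_assoc (Te K S a * Te K S b), cm hc he, ← mul_assoc, hpq]⟩
    by_cases g1 : g 1 = 0
    · rw [g1, zero_smul, add_zero] at hg'
      have h0 : g 0 ≠ 0 := by
        intro h; rw [h, zero_smul, zero_add] at hg'; exact hce _ hg'.symm
      obtain ⟨p, hp, q, hq, hpq⟩ := line3 K S hLO hW ha hc ha0 hac h0 g2
      rw [hg'] at hpq
      refine ⟨p, hp, q, hq, b, hb, ?_⟩
      rw [← hpq]
      calc Te K S a * Te K S b * Te K S c * Te K S e = Te K S a * (Te K S b * (Te K S c * Te K S e)) := by group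
        _ = Te K S a * ((Te K S c * Te K S e) * Te K S b) := by
            congr 1
            rw [← mul_assoc, cm hb hc, mul_assoc, cm hb he, ← mul_assoc]
        _ = _ := by group
    by_cases g0 : g 0 = 0
    · rw [g0, zero_smul, zero_add] at hg'
      obtain ⟨p, hp, q, hq, hpq⟩ := line3 K S hLO hW hb hc hb0 hbc g1 g2
      rw [hg'] at hpq
      refine ⟨a, ha, p, hp, q, hq, ?_⟩
      calc Te K S a * Te K S b * Te K S c * Te K S e = Te K S a * (Te K S b * Te K S c * Te K S e) := by group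
        _ = Te K S a * (Te K S p * Te K S q) := by rw [hpq]
        _ = _ := by group
    -- general position
    obtain ⟨ω, _, _, hω, hsω, _⟩ := exists_omega hF
    have hmem : ∀ i, ![g 0 • a, g 1 • b, g 2 • c] i ∈ W := by
      intro i
      fin_cases i
      · exact W.smul_mem _ ha
      · exact W.smul_mem _ hb
      · exact W.smul_mem _ hc
    have hli' : LinearIndependent F ![g 0 • a, g 1 • b, g 2 • c] := by
      rw [Fintype.linearIndependent_iff] at hli ⊢
      intro k hk
      have h5 := hli (fun i => k i * g i) (by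
        rw [Fin.sum_univ_three] at hk ⊢
        have hk' : k 0 • g 0 • a + k 1 • g 1 • b + k 2 • g 2 • c = 0 := hk
        show (k 0 * g 0) • a + (k 1 * g 1) • b + (k 2 * g 2) • c = 0
        rw [mul_smul, mul_smul, mul_smul]; exact hk')
      intro i
      have h6 := h5 i
      have hgi : g i ≠ 0 := by fin_cases i <;> assumption
      rcases mul_eq_zero.1 h6 with h | h
      · exact h
      · exact absurd h hgi
    have h7 := hHO ω hω hsω _ (fun i j => hW.iso _ (hmem i) _ (hmem j)) hli'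
    have h8 : Hyp K S ω (g 0 • a) (g 1 • b) (g 2 • c) = 1 := h7
    rw [Hyp, hg', Te_smul K S (hW.iso _ ha _ ha) g0, Te_smul K S (hW.iso _ hb _ hb) g1, Te_smul K S (hW.iso _ hc _ hc) g2] at h8
    have hp : (g 0 • a + ω • (g 1 • b) + (ω + 1) • (g 2 • c)) ∈ W :=
      W.add_mem (W.add_mem (W.smul_mem _ ha) (W.smul_mem _ (W.smul_mem _ hb))) (W.smul_mem _ (W.smul_mem _ hc))
    have hq : (g 0 • a + (ω + 1) • (g 1 • b) + ω • (g 2 • c)) ∈ W :=
      W.add_mem (W.add_mem (W.smul_mem _ ha) (W.smul_mem _ (W.smul_mem _ hb))) (W.smul_mem _ (W.smul_mem _ hc))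
    refine ⟨_, hp, _, hq, 0, z0, ?_⟩
    rw [t0, mul_one]
    set x := Te K S a * Te K S b * Te K S c * Te K S e with hx
    set y := Te K S (g 0 • a + ω • (g 1 • b) + (ω + 1) • (g 2 • c)) with hy
    set z := Te K S (g 0 • a + (ω + 1) • (g 1 • b) + ω • (g 2 • c)) with hz
    have e1 : x * y * z = 1 := h8
    have iy : y⁻¹ = y := inv_eq_of_mul_eq_one_left (sq hp)
    have iz : z⁻¹ = z := inv_eq_of_mul_eq_one_left (sq hq)
    have e2 : x = (y * z)⁻¹ := eq_inv_of_mul_eq_one_left (by rw [← mul_assoc]; exact e1)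
    rw [e2, mul_inv_rev, iy, iz]
    exact cm hq hp

theorem d_notin_E (K : Cov φ d D E) (S : Setup H Q π D) : d ∉ E := by
  intro h
  have h1 := K.im d h
  rw [K.phi_d] at h1
  have h2 := S.three.1.1 1 h1
  rw [orderOf_one] at h2
  omega

/-- **if all products are one then the central involution is not generated** -/
theorem d_notin_LW (K : Cov φ d D E) (S : Setup H Q π D) (hLO : LineOne K S) (hHO : HypOne K S) (hW : TI f W) :
    d ∉ LW K S W := by
  intro hd
  have sq : ∀ {x : V}, x ∈ W → Te K S x * Te K S x = 1 := fun hx => Te_sq K S (hW.iso _ hx _ hx)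
  have cm : ∀ {x y : V}, x ∈ W → y ∈ W → Te K S x * Te K S y = Te K S y * Te K S x := fun hx hy =>
    Te_comm K S (hW.iso _ hx _ hx) (hW.iso _ hy _ hy) (hW.iso _ hx _ hy)
  set X : Set C := {x | ∃ a ∈ W, ∃ b ∈ W, ∃ c ∈ W, x = Te K S a * Te K S b * Te K S c} with hX
  have hXmul : ∀ x ∈ LW K S W, ∀ y ∈ X, y * x ∈ X := by
    intro x hx
    rw [LW] at hx
    induction hx using Subgroup.closure_induction with
    | mem x hx =>
      rintro _ ⟨a, ha, b, hb, c, hc, rfl⟩
      obtain ⟨u, hu, huu, hu0, rfl⟩ := (mem_EW K S).1 hx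
      obtain ⟨p, hp, q, hq, r, hr, h⟩ := four_to_three K S hLO hHO hW ha hb hc hu
      exact ⟨p, hp, q, hq, r, hr, h⟩
    | one => intro y hy; rw [mul_one]; exact hy
    | mul x x' hx hx' ih ih' =>
      intro y hy
      rw [← mul_assoc]
      exact ih' _ (ih y hy)
    | inv x hx ih =>
      intro y hy
      have : x⁻¹ = x := inv_eq_of_mul_eq_one_left (LW_sq K S hW.iso x hx)
      rw [this]; exact ih y hy
  have h1 : (1 : C) ∈ X := ⟨0, W.zero_mem, 0, W.zero_mem, 0, W.zero_mem, by rw [Te_zero]; simp⟩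
  have h2 := hXmul d hd 1 h1
  rw [one_mul] at h2
  obtain ⟨a, ha, b, hb, c, hc, habc⟩ := h2
  -- a single lift is not `d`
  have one : ∀ x ∈ W, d ≠ Te K S x := by
    intro x hx h
    by_cases hx0 : x = 0
    · rw [hx0, Te_zero] at h; exact K.d1 h
    · exact d_notin_E K S (by rw [h]; exact Te_mem K S (hW.iso _ hx _ hx) hx0)
  have two : ∀ x ∈ W, ∀ y ∈ W, d ≠ Te K S x * Te K S y := by
    intro x hx y hy h
    by_cases hx0 : x = 0
    · rw [hx0, Te_zero, one_mul] at h; exact one y hy h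
    by_cases hy0 : y = 0
    · rw [hy0, Te_zero, mul_one] at h; exact one x hx h
    have h3 : φ (Te K S x) = φ (Te K S y) := by
      have h4 := congrArg φ h
      rw [K.phi_d, map_mul] at h4
      have h5 : φ (Te K S x) * φ (Te K S x) = 1 := by rw [← map_mul, sq hx, map_one]
      exact mul_left_cancel (a := φ (Te K S x)) (by rw [h5, ← h4])
    have h4 := K.phi_inj (Te_mem K S (hW.iso _ hx _ hx) hx0) (Te_mem K S (hW.iso _ hy _ hy) hy0) h3
    rw [h4, sq hy] at h
    exact K.d1 h
  by_cases ha0 : a = 0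
  · rw [ha0, Te_zero, one_mul] at habc; exact two b hb c hc habc
  by_cases hb0 : b = 0
  · rw [hb0, Te_zero, mul_one] at habc; exact two a ha c hc habc
  by_cases hc0 : c = 0
  · rw [hc0, Te_zero, mul_one] at habc; exact two a ha b hb habc
  by_cases hab : ∃ t : F, b = t • a
  · obtain ⟨t, rfl⟩ := hab
    have ht : t ≠ 0 := by rintro rfl; exact hb0 (zero_smul _ _)
    rw [Te_smul K S (hW.iso _ ha _ ha) ht, sq ha, one_mul] at habc
    exact one c hc habc
  by_cases hcb : ∃ t : F, b = t • c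
  · obtain ⟨t, rfl⟩ := hcb
    have ht : t ≠ 0 := by rintro rfl; exact hb0 (zero_smul _ _)
    rw [Te_smul K S (hW.iso _ hc _ hc) ht, mul_assoc, sq hc, mul_one] at habc
    exact one a ha habc
  push Not at hab hcb
  have haa := hW.iso _ ha _ ha
  have hbb := hW.iso _ hb _ hb
  have hcc := hW.iso _ hc _ hc
  refine no_rel3 S haa hbb hcc ha0 hb0 (hW.iso _ ha _ hb) (hW.iso _ ha _ hc) hab hcb ?_
  rw [← phi_Te K S haa ha0, ← phi_Te K S hbb hb0, ← phi_Te K S hcc hc0]
  have h4 := congrArg φ habc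
  rw [K.phi_d, map_mul, map_mul] at h4
  have h5 : φ (Te K S c) * φ (Te K S c) = 1 := by rw [← map_mul, sq hc, map_one]
  exact mul_right_cancel (b := φ (Te K S c)) (by rw [h5, ← h4])

end

end Cfsg.Agent.Lib.H89EC
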