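import Cfsg.Agent.Lib.H89EC3
/-
Double covers of the unitary group of dimension six over the field with four elements: in a perfect double cover the
central involution lies in the group generated by the lifts in a totally isotropic 3-space (helper89).
-/
set_option autoImplicit false
set_option linter.all false

namespace Cfsg.Agent.Lib.H89EC

open Module Cfsg Cfsg.Agent.Lib.UnTrans Cfsg.Agent.Lib.UnBridge Cfsg.Agent.Lib.U6Class Cfsg.Agent.Lib.H89EA Cfsg.Agent.Lib.H89EB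
open Cfsg.Agent.Lib.SpTrans (isom mem_isom)

universe v w w'

/-! ### products of 2-subgroups -/

theorem exists_prod_subgroup {C : Type*} [Group C] (L B : Subgroup C) (hL : IsPGroup 2 L) (hB : IsPGroup 2 B)
    (hn : ∀ b ∈ B, ∀ l ∈ L, b * l * b⁻¹ ∈ L) :
    ∃ P : Subgroup C, IsPGroup 2 P ∧ (∀ x, x ∈ P ↔ ∃ l ∈ L, ∃ b ∈ B, x = l * b) ∧ L ≤ P ∧ B ≤ P := by
  set P : Subgroup C :=
    { carrier := {x | ∃ l ∈ L, ∃ b ∈ B, x = l * b}
      one_mem' := ⟨1, L.one_mem, 1, B.one_mem, by simp⟩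
      mul_mem' := by
        rintro _ _ ⟨l, hl, b, hb, rfl⟩ ⟨l', hl', b', hb', rfl⟩
        exact ⟨l * (b * l' * b⁻¹), L.mul_mem hl (hn b hb l' hl'), b * b', B.mul_mem hb hb', by group⟩
      inv_mem' := by
        rintro _ ⟨l, hl, b, hb, rfl⟩
        refine ⟨b⁻¹ * l⁻¹ * b⁻¹⁻¹, hn _ (B.inv_mem hb) _ (L.inv_mem hl), b⁻¹, B.inv_mem hb, by group⟩ } with hP
  have hmem : ∀ x, x ∈ P ↔ ∃ l ∈ L, ∃ b ∈ B, x = l * b := fun x => Iff.rfl
  have hLP : L ≤ P := fun l hl => ⟨l, hl, 1, B.one_mem, by simp⟩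
  have hBP : B ≤ P := fun b hb => ⟨1, L.one_mem, b, hb, by simp⟩
  refine ⟨P, ?_, hmem, hLP, hBP⟩
  have hN : B ≤ Subgroup.normalizer (L : Set C) := by
    intro b hb
    rw [Subgroup.mem_normalizer_iff]
    intro l
    refine ⟨fun hl => hn b hb l hl, fun hl => ?_⟩
    have h1 := hn _ (B.inv_mem hb) _ hl
    have h2 : b⁻¹ * (b * l * b⁻¹) * b⁻¹⁻¹ = l := by group
    rwa [h2] at h1
  refine (IsPGroup.to_sup_of_normal_left' hL hB hN).to_le ?_
  rintro _ ⟨l, hl, b, hb, rfl⟩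
  exact Subgroup.mul_mem _ (Subgroup.mem_sup_left hl) (Subgroup.mem_sup_right hb)

variable {F : Type} [Field F] [Fintype F] [CharP F 2] {V : Type v} [AddCommGroup V] [Module F V] {f : V → V → F}
  {hF : Fintype.card F = 2 ^ 2} {H : HS (sig hF) f} {C : Type w'} {Q : Type w} [Group C] [Group Q]
  {π : SS f →* Q} {D : Set Q} {φ : C →* Q} {d : C} {E : Set C}

/-! ### lifts -/

theorem mem_closure_of_N (S : Setup H Q π D) {U : Submodule F V} {s : SS f}
    (hN : ∀ x, (s : V ≃ₗ[F] V) x + x ∈ U) (hfix : ∀ w ∈ U, (s : V ≃ₗ[F] V) w = w) :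
    π s ∈ Subgroup.closure (TW S U) := by
  haveI := S.fin
  have aa := vadd_self F (V := V)
  have hsi : ∀ x y, f ((s : V ≃ₗ[F] V) x) ((s : V ≃ₗ[F] V) y) = f x y := s.2.1
  have hss : ∀ x, (s : V ≃ₗ[F] V) ((s : V ≃ₗ[F] V) x) = x := by
    intro x
    have h1 := hfix _ (hN x)
    rw [map_add] at h1
    have h2 : (s : V ≃ₗ[F] V) ((s : V ≃ₗ[F] V) x) + (s : V ≃ₗ[F] V) x + (s : V ≃ₗ[F] V) x =
        (s : V ≃ₗ[F] V) x + x + (s : V ≃ₗ[F] V) x := by rw [h1]
    rw [add_assoc, aa, add_zero] at h2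
    rw [h2]
    calc (s : V ≃ₗ[F] V) x + x + (s : V ≃ₗ[F] V) x = x + ((s : V ≃ₗ[F] V) x + (s : V ≃ₗ[F] V) x) := by abel
      _ = x := by rw [aa, add_zero]
  obtain ⟨r, t, a, b, c, hdim', hN', haa, hab, hbb, hac, hbc, hcc⟩ := normal_vectors H S.nd (((s : V ≃ₗ[F] V) : V →ₗ[F] V) + LinearMap.id)
    (by
      intro v
      show (s : V ≃ₗ[F] V) ((s : V ≃ₗ[F] V) v + v) + ((s : V ≃ₗ[F] V) v + v) = 0
      rw [hfix _ (hN v)]
      exact aa _)
    (by
      intro u v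
      show f ((s : V ≃ₗ[F] V) u + u) v = f u ((s : V ≃ₗ[F] V) v + v)
      rw [H.add_left, H.add_right]
      congr 1
      rw [← hsi ((s : V ≃ₗ[F] V) u) v, hss])
  have hs' : ∀ v, (s : V ≃ₗ[F] V) v = v + ∑ i, f v (a i) • a i := by
    intro v
    have h1 : (s : V ≃ₗ[F] V) v + v = ∑ i, f v (a i) • a i := hN' v
    rw [← h1]
    have : v + ((s : V ≃ₗ[F] V) v + v) = (s : V ≃ₗ[F] V) v + (v + v) := by abel
    rw [this, aa, add_zero]
  have haW : ∀ j, a j ∈ U := by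
    intro j
    have h1 : (s : V ≃ₗ[F] V) (b j) + b j = ∑ i, f (b j) (a i) • a i := hN' (b j)
    have h2 : ∀ i, f (b j) (a i) = if i = j then 1 else 0 := by
      intro i
      rw [H.herm, hab]
      split_ifs
      · exact map_one _
      · exact map_zero _
    have h3 : ∑ i, f (b j) (a i) • a i = a j := by
      rw [Finset.sum_eq_single j]
      · rw [h2, if_pos rfl, one_smul]
      · intro i _ hi
        rw [h2, if_neg hi, zero_smul]
      · intro h; exact absurd (Finset.mem_univ j) h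
    rw [← h3, ← h1]
    exact hN _
  have ha0 : ∀ i, a i ≠ 0 := by
    intro i h
    have := hab i i
    rw [h, H.zero_left, if_pos rfl] at this
    exact zero_ne_one this
  exact mem_closure_of_sum S U r a haa haW ha0 s hs'

theorem fix_N (S : Setup H Q π D) {W : Submodule F V} (hW : TI f W) {s : SS f} (hfix : ∀ w ∈ W, (s : V ≃ₗ[F] V) w = w)
    (x : V) : (s : V ≃ₗ[F] V) x + x ∈ W := by
  haveI := S.fin
  have hsi : ∀ x y, f ((s : V ≃ₗ[F] V) x) ((s : V ≃ₗ[F] V) y) = f x y := s.2.1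
  refine mem_of_perp H S.nd (m := 3) (by rw [S.dim]) hW.dim hW.iso ?_
  intro w hw
  rw [H.add_left]
  have h1 : f ((s : V ≃ₗ[F] V) x) w = f x w := by
    conv_lhs => rw [← hfix w hw]
    exact hsi x w
  rw [h1, fadd_self]

/-- an isometry fixing two totally isotropic 3-spaces pointwise has a lift in both groups -/
theorem exists_lift2 (K : Cov φ d D E) (S : Setup H Q π D) {Wa Wb : Submodule F V} (ha : TI f Wa) (hb : TI f Wb) {s : SS f}
    (h1 : ∀ w ∈ Wa, (s : V ≃ₗ[F] V) w = w) (h2 : ∀ w ∈ Wb, (s : V ≃ₗ[F] V) w = w) :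
    ∃ x, x ∈ LW K S Wa ∧ x ∈ LW K S Wb ∧ φ x = π s := by
  have h3 : π s ∈ Subgroup.closure (TW S (Wa ⊓ Wb)) :=
    mem_closure_of_N S (fun x => ⟨fix_N S ha h1 x, fix_N S hb h2 x⟩) (fun w hw => h1 w hw.1)
  rw [← LW_map K S] at h3
  obtain ⟨x, hx, hx'⟩ := h3
  refine ⟨x, ?_, ?_, hx'⟩
  · refine Subgroup.closure_mono ?_ hx
    intro e he
    obtain ⟨v, hv, hvv, hv0, rfl⟩ := (mem_EW K S).1 he
    exact Te_mem_EW K S hv.1 hvv hv0
  · refine Subgroup.closure_mono ?_ hx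
    intro e he
    obtain ⟨v, hv, hvv, hv0, rfl⟩ := (mem_EW K S).1 he
    exact Te_mem_EW K S hv.2 hvv hv0

/-- elements of the group of a totally isotropic subspace fix it pointwise -/
theorem fix_of_mem (K : Cov φ d D E) (S : Setup H Q π D) {W : Submodule F V} (hiso : ∀ x ∈ W, ∀ z ∈ W, f x z = 0) {x : C}
    (hx : x ∈ LW K S W) : ∃ s : SS f, φ x = π s ∧ ∀ w ∈ W, (s : V ≃ₗ[F] V) w = w := by
  rw [LW] at hx
  induction hx using Subgroup.closure_induction with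
  | mem x hx =>
    obtain ⟨v, hv, hvv, hv0, rfl⟩ := (mem_EW K S).1 hx
    haveI := S.fin
    refine ⟨⟨tr H v hvv, tr_mem H v hvv⟩, phi_Te K S hvv hv0, ?_⟩
    intro w hw
    show tr H v hvv w = w
    rw [tr_apply, hiso w hw v hv, zero_smul, add_zero]
  | one => exact ⟨1, by rw [map_one, map_one], fun w _ => rfl⟩
  | mul x y _ _ ihx ihy =>
    obtain ⟨s, hs, hs'⟩ := ihx
    obtain ⟨t, ht, ht'⟩ := ihy
    refine ⟨s * t, by rw [map_mul, map_mul, hs, ht], fun w hw => ?_⟩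
    show (s : V ≃ₗ[F] V) ((t : V ≃ₗ[F] V) w) = w
    rw [ht' w hw, hs' w hw]
  | inv x _ ih =>
    obtain ⟨s, hs, hs'⟩ := ih
    refine ⟨s⁻¹, by rw [map_inv, map_inv, hs], fun w hw => ?_⟩
    have h1 : ((s⁻¹ : SS f) : V ≃ₗ[F] V) ((s : V ≃ₗ[F] V) w) = w := (s : V ≃ₗ[F] V).symm_apply_apply w
    rw [hs' w hw] at h1
    exact h1

/-- conjugation moves the group of a subspace -/
theorem conj_LW (K : Cov φ d D E) (S : Setup H Q π D) {W W' : Submodule F V} {g : C} {s : SS f} (hg : φ g = π s)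
    (hs : ∀ w ∈ W, (s : V ≃ₗ[F] V) w ∈ W') {x : C} (hx : x ∈ LW K S W) : g * x * g⁻¹ ∈ LW K S W' := by
  rw [LW] at hx
  induction hx using Subgroup.closure_induction with
  | mem x hx =>
    obtain ⟨v, hv, hvv, hv0, rfl⟩ := (mem_EW K S).1 hx
    rw [Te_conj K S hg hvv]
    exact Te_mem_LW K S (hs v hv) (by rw [s.2.1 v v]; exact hvv)
  | one => rw [mul_one, mul_inv_cancel]; exact Subgroup.one_mem _
  | mul x y _ _ ihx ihy =>
    have h : g * (x * y) * g⁻¹ = (g * x * g⁻¹) * (g * y * g⁻¹) := by group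
    rw [h]; exact Subgroup.mul_mem _ ihx ihy
  | inv x _ ih =>
    have h : g * x⁻¹ * g⁻¹ = (g * x * g⁻¹)⁻¹ := by group
    rw [h]; exact Subgroup.inv_mem _ ih

/-- normalizing elements stabilize the subspace -/
theorem stab_of_conj (K : Cov φ d D E) (S : Setup H Q π D) {W : Submodule F V} (hW : TI f W) {g : C} {s : SS f}
    (hg : φ g = π s) (h : ∀ x ∈ LW K S W, g * x * g⁻¹ ∈ LW K S W) : ∀ w ∈ W, (s : V ≃ₗ[F] V) w ∈ W := by
  haveI := S.fin
  intro w hw
  by_cases hw0 : w = 0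
  · rw [hw0, map_zero]; exact W.zero_mem
  have hww := hW.iso w hw w hw
  have h1 := h _ (Te_mem_LW K S hw hww)
  rw [Te_conj K S hg hww] at h1
  have hsw : f ((s : V ≃ₗ[F] V) w) ((s : V ≃ₗ[F] V) w) = 0 := by rw [s.2.1 w w]; exact hww
  have hsw0 : (s : V ≃ₗ[F] V) w ≠ 0 := by
    intro h2; exact hw0 ((map_eq_zero_iff (s : V ≃ₗ[F] V) (s : V ≃ₗ[F] V).injective).1 h2)
  refine mem_of_perp H S.nd (m := 3) (by rw [S.dim]) hW.dim hW.iso ?_
  intro u hu
  by_cases hu0 : u = 0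
  · rw [hu0, H.zero_right]
  have huu := hW.iso u hu u hu
  have h2 := comm_of_sq (LW_sq K S hW.iso) h1 (Te_mem_LW K S hu huu)
  have h3 := congrArg φ h2
  rw [map_mul, map_mul, phi_Te K S hsw hsw0, phi_Te K S huu hu0] at h3
  exact (S.commute_iff hsw huu).1 h3

/-! ### flipping a hyperbolic basis -/

theorem flip1 {w y : Fin 3 → V} (B : HB f w y) (H : HS (sig hF) f) : HB f ![w 0, y 1, y 2] ![y 0, w 1, w 2] := by
  have e := fun i j => B.yw H i j
  refine ⟨?_, ?_, ?_⟩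
  · intro i j
    fin_cases i <;> fin_cases j <;> simp [B.ww, B.yy, B.wy, e]
  · intro i j
    fin_cases i <;> fin_cases j <;> simp [B.ww, B.yy, B.wy, e]
  · intro i j
    fin_cases i <;> fin_cases j <;> simp [B.ww, B.yy, B.wy, e]

theorem flip2 {w y : Fin 3 → V} (B : HB f w y) (H : HS (sig hF) f) : HB f ![w 0, w 1, y 2] ![y 0, y 1, w 2] := by
  have e := fun i j => B.yw H i j
  refine ⟨?_, ?_, ?_⟩
  · intro i j
    fin_cases i <;> fin_cases j <;> simp [B.ww, B.yy, B.wy, e]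
  · intro i j
    fin_cases i <;> fin_cases j <;> simp [B.ww, B.yy, B.wy, e]
  · intro i j
    fin_cases i <;> fin_cases j <;> simp [B.ww, B.yy, B.wy, e]

theorem maps_span {s : V ≃ₗ[F] V} {w : Fin 3 → V} {U : Submodule F V} (h : ∀ i, s (w i) ∈ U) :
    ∀ x ∈ Submodule.span F (Set.range w), s x ∈ U := by
  intro x hx
  have h1 : Submodule.span F (Set.range w) ≤ U.comap (s : V →ₗ[F] V) := by
    rw [Submodule.span_le]
    rintro _ ⟨i, rfl⟩
    exact h i
  exact h1 hx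

theorem fix_span {s : V ≃ₗ[F] V} {w : Fin 3 → V} (h : ∀ i, s (w i) = w i) :
    ∀ x ∈ Submodule.span F (Set.range w), s x = x := by
  intro x hx
  have h1 : Submodule.span F (Set.range w) ≤ LinearMap.ker ((s : V →ₗ[F] V) - LinearMap.id) := by
    rw [Submodule.span_le]
    rintro _ ⟨i, rfl⟩
    show s (w i) - w i = 0
    rw [h i, sub_self]
  have h2 : s x - x = 0 := h1 hx
  exact sub_eq_zero.1 h2

theorem ti_span {w y : Fin 3 → V} (B : HB f w y) (H : HS (sig hF) f) : TI f (Submodule.span F (Set.range w)) :=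
  ⟨B.finrank_span H, B.span_iso H⟩

end Cfsg.Agent.Lib.H89EC
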