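import Cfsg.Agent.Lib.H89EC4
/-
Double covers of the unitary group of dimension six over the field with four elements: in a perfect double cover the
central involution lies in the group generated by the lifts in a totally isotropic 3-space, second part (helper89).
-/
set_option autoImplicit false
set_option linter.all false

namespace Cfsg.Agent.Lib.H89EC

open Module Cfsg Cfsg.Agent.Lib.UnTrans Cfsg.Agent.Lib.UnBridge Cfsg.Agent.Lib.U6Class Cfsg.Agent.Lib.H89EA Cfsg.Agent.Lib.H89EB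
open Cfsg.Agent.Lib.SpTrans (isom mem_isom)

universe v w w'

variable {F : Type} [Field F] [Fintype F] [CharP F 2] {V : Type v} [AddCommGroup V] [Module F V] {f : V → V → F}
  {hF : Fintype.card F = 2 ^ 2} {H : HS (sig hF) f} {C : Type w'} {Q : Type w} [Group C] [Group Q]
  {π : SS f →* Q} {D : Set Q} {φ : C →* Q} {d : C} {E : Set C}

section mats

variable {w y : Fin 3 → V} (B : HB f w y)

noncomputable def sa (H : HS (sig hF) f) [FiniteDimensional F V] (p : (F × F × F) × (Bool × Bool × Bool)) : SS f :=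
  ⟨gm H B.ww (hmat hF p), gm_mem H B.ww (hmat_herm hF p)⟩

noncomputable def sb (H : HS (sig hF) f) [FiniteDimensional F V] (q : F × F) : SS f :=
  ⟨gm H (flip1 B H).ww (hmat hF ((q.1, q.2, 0), (false, false, false))), gm_mem H (flip1 B H).ww (hmat_herm hF _)⟩

noncomputable def sc (H : HS (sig hF) f) [FiniteDimensional F V] (z : F) : SS f :=
  ⟨gm H (flip2 B H).ww (hmat hF ((0, 0, z), (false, false, false))), gm_mem H (flip2 B H).ww (hmat_herm hF _)⟩

variable [FiniteDimensional F V]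

theorem sa_fix (p : (F × F × F) × (Bool × Bool × Bool)) :
    ∀ x ∈ Submodule.span F (Set.range w), (sa B H p : V ≃ₗ[F] V) x = x := fun x hx => gm_fix H B.ww _ hx

theorem sb_fix (q : F × F) :
    ∀ x ∈ Submodule.span F (Set.range ![w 0, y 1, y 2]), (sb B H q : V ≃ₗ[F] V) x = x :=
  fun x hx => gm_fix H (flip1 B H).ww _ hx

theorem sc_fix (z : F) :
    ∀ x ∈ Submodule.span F (Set.range ![w 0, w 1, y 2]), (sc B H z : V ≃ₗ[F] V) x = x :=
  fun x hx => gm_fix H (flip2 B H).ww _ hx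

theorem sb_w0 (q : F × F) : (sb B H q : V ≃ₗ[F] V) (w 0) = w 0 := by
  show gm H (flip1 B H).ww _ (w 0) = _
  rw [gm_apply, NN_apply]
  simp [Fin.sum_univ_three, B.ww, B.wy]

theorem sb_w1 (q : F × F) : (sb B H q : V ≃ₗ[F] V) (w 1) = w 1 + sig hF q.1 • w 0 := by
  show gm H (flip1 B H).ww _ (w 1) = _
  rw [gm_apply, NN_apply]
  simp [Fin.sum_univ_three, B.ww, B.wy, hmat]

theorem sb_w2 (q : F × F) : (sb B H q : V ≃ₗ[F] V) (w 2) = w 2 + sig hF q.2 • w 0 := by
  show gm H (flip1 B H).ww _ (w 2) = _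
  rw [gm_apply, NN_apply]
  simp [Fin.sum_univ_three, B.ww, B.wy, hmat]

theorem sc_w0 (z : F) : (sc B H z : V ≃ₗ[F] V) (w 0) = w 0 := by
  show gm H (flip2 B H).ww _ (w 0) = _
  rw [gm_apply, NN_apply]
  simp [Fin.sum_univ_three, B.ww, B.wy]

theorem sc_w1 (z : F) : (sc B H z : V ≃ₗ[F] V) (w 1) = w 1 := by
  show gm H (flip2 B H).ww _ (w 1) = _
  rw [gm_apply, NN_apply]
  simp [Fin.sum_univ_three, B.ww, B.wy]

theorem sc_w2 (z : F) : (sc B H z : V ≃ₗ[F] V) (w 2) = w 2 + sig hF z • w 1 := by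
  show gm H (flip2 B H).ww _ (w 2) = _
  rw [gm_apply, NN_apply]
  simp [Fin.sum_univ_three, B.ww, B.wy, hmat]

theorem sc_y1 (z : F) : (sc B H z : V ≃ₗ[F] V) (y 1) = y 1 + z • y 2 := by
  have e := fun i j => B.yw H i j
  show gm H (flip2 B H).ww _ (y 1) = _
  rw [gm_apply, NN_apply]
  simp [Fin.sum_univ_three, B.ww, B.wy, B.yy, e, hmat]

theorem sc_y2 (z : F) : (sc B H z : V ≃ₗ[F] V) (y 2) = y 2 := by
  have e := fun i j => B.yw H i j
  show gm H (flip2 B H).ww _ (y 2) = _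
  rw [gm_apply, NN_apply]
  simp [Fin.sum_univ_three, B.ww, B.wy, B.yy, e, hmat]

/-- the parameters are determined by the product -/
theorem prod_inj {p p' : (F × F × F) × (Bool × Bool × Bool)} {q q' : F × F} {z z' : F} {μ : F}
    (h : ∀ x, ((sa B H p * sb B H q * sc B H z : SS f) : V ≃ₗ[F] V) x =
      μ • ((sa B H p' * sb B H q' * sc B H z' : SS f) : V ≃ₗ[F] V) x) : p = p' ∧ q = q' ∧ z = z' := by
  have e0 : ∀ i, w i ∈ Submodule.span F (Set.range w) := fun i => Submodule.subset_span ⟨i, rfl⟩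
  have hA : ∀ (p : (F × F × F) × (Bool × Bool × Bool)) (i : Fin 3), (sa B H p : V ≃ₗ[F] V) (w i) = w i :=
    fun p i => sa_fix B p _ (e0 i)
  have hx : ∀ (p : (F × F × F) × (Bool × Bool × Bool)) (q : F × F) (z : F) (x : V),
      ((sa B H p * sb B H q * sc B H z : SS f) : V ≃ₗ[F] V) x =
      (sa B H p : V ≃ₗ[F] V) ((sb B H q : V ≃ₗ[F] V) ((sc B H z : V ≃ₗ[F] V) x)) := fun _ _ _ _ => rfl
  have hli := B.indep H
  have hw0 : w 0 ≠ 0 := hli.ne_zero 0
  have hμ : μ = 1 := by
    have h1 := h (w 0)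
    rw [hx, hx, sc_w0, sc_w0, sb_w0, sb_w0, hA, hA] at h1
    have h2 : (1 - μ) • w 0 = 0 := by rw [sub_smul, one_smul, ← h1, sub_self]
    rcases smul_eq_zero.1 h2 with h3 | h3
    · exact (sub_eq_zero.1 h3).symm
    · exact absurd h3 hw0
  subst hμ
  simp only [one_smul] at h
  have hs : Function.Injective (sig hF) := (sig hF).injective
  -- first coordinate of q
  have h1 := h (w 1)
  rw [hx, hx, sc_w1, sc_w1, sb_w1, sb_w1, map_add, map_add, map_smul, map_smul, hA, hA, hA, hA] at h1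
  have h1' : sig hF q.1 = sig hF q'.1 := by
    have h2 := add_left_cancel h1
    exact smul_left_injective F hw0 h2
  have hq1 : q.1 = q'.1 := hs h1'
  have h2 := h (w 2)
  rw [hx, hx, sc_w2, sc_w2] at h2
  simp only [map_add, map_smul, sb_w1, sb_w2, hA, smul_add] at h2
  have h3 := congrArg (fun x => f x (y 1)) h2
  simp only [H.add_left, H.smul_left, B.wy] at h3
  have h3' : sig hF z = sig hF z' := by simpa using h3
  have hz : z = z' := hs h3'
  have h4 := congrArg (fun x => f x (y 0)) h2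
  simp only [H.add_left, H.smul_left, B.wy, h1', h3'] at h4
  have h4' : sig hF q.2 = sig hF q'.2 := by simpa using h4
  have hq2 : q.2 = q'.2 := hs h4'
  have hq : q = q' := Prod.ext hq1 hq2
  subst hq hz
  refine ⟨?_, rfl, rfl⟩
  have h5 : sa B H p = sa B H p' := by
    have h6 : sa B H p * sb B H q * sc B H z = sa B H p' * sb B H q * sc B H z :=
      Subtype.ext (LinearEquiv.ext h)
    exact mul_right_cancel (mul_right_cancel h6)
  apply hmat_inj hF
  funext k l
  rw [← gm_coeff H B (hmat hF p) k l]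
  have h7 : gm H B.ww (hmat hF p) = gm H B.ww (hmat hF p') := congrArg Subtype.val h5
  rw [h7, gm_coeff H B]

end mats

/-- the order of a double cover -/
theorem card_cov [Finite C] (K : Cov φ d D E) : Nat.card C = 2 * Nat.card Q := by
  have h1 : Nat.card C = Nat.card φ.ker * φ.ker.index := (Subgroup.card_mul_index _).symm
  rw [Subgroup.index_ker, MonoidHom.range_eq_top.2 K.surj, Subgroup.card_top] at h1
  have h2 : ((φ.ker : Subgroup C) : Set C) = {1, d} := by
    ext x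
    exact K.ker x
  have h3 : Nat.card φ.ker = 2 := by
    show Nat.card ((φ.ker : Subgroup C) : Set C) = 2
    rw [h2]
    exact Set.ncard_pair (Ne.symm K.d1)
  rw [h1, h3]

/-- **in a perfect double cover the central involution is a product of lifts in a totally isotropic 3-space** -/
theorem exists_d_mem [Finite C] (K : Cov φ d D E) (S : Setup H Q π D) (hperf : commutator C = ⊤)
    (hcard : Nat.card Q = 9196830720) {w y : Fin 3 → V} (B : HB f w y) : ∃ W, TI f W ∧ d ∈ LW K S W := by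
  by_contra hcon
  push Not at hcon
  haveI := S.fin
  set W0 := Submodule.span F (Set.range w) with hW0
  set W1 := Submodule.span F (Set.range ![w 0, y 1, y 2]) with hW1
  set W2 := Submodule.span F (Set.range ![w 0, w 1, y 2]) with hW2
  have T0 : TI f W0 := ti_span B H
  have T1 : TI f W1 := ti_span (flip1 B H) H
  have T2 : TI f W2 := ti_span (flip2 B H) H
  have m0 : ∀ i, w i ∈ W0 := fun i => Submodule.subset_span ⟨i, rfl⟩
  have m1 : ∀ i, (![w 0, y 1, y 2] : Fin 3 → V) i ∈ W1 := fun i => Submodule.subset_span ⟨i, rfl⟩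
  have m2 : ∀ i, (![w 0, w 1, y 2] : Fin 3 → V) i ∈ W2 := fun i => Submodule.subset_span ⟨i, rfl⟩
  have p2 : ∀ {W : Submodule F V}, TI f W → IsPGroup 2 (LW K S W) := fun hW => isPGroup_of_sq _ (LW_sq K S hW.iso)
  set L0 := LW K S W0 with hL0
  set L1 := LW K S W1 with hL1
  set L2 := LW K S W2 with hL2
  set B1 : Subgroup C := L1 ⊓ Subgroup.normalizer (L0 : Set C) with hB1
  set B2 : Subgroup C := L2 ⊓ (Subgroup.normalizer (L0 : Set C) ⊓ Subgroup.normalizer (L1 : Set C)) with hB2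
  have nm : ∀ {L : Subgroup C} {g x : C}, g ∈ Subgroup.normalizer (L : Set C) → x ∈ L → g * x * g⁻¹ ∈ L :=
    fun hg hx => ((Subgroup.mem_normalizer_iff.1 hg) _).1 hx
  obtain ⟨P1, hP1, hP1m, hL0P, hB1P⟩ := exists_prod_subgroup L0 B1 (p2 T0) ((p2 T1).to_le inf_le_left)
    (fun b hb l hl => nm hb.2 hl)
  obtain ⟨P0, hP0, hP0m, hP1P, hB2P⟩ := exists_prod_subgroup P1 B2 hP1 ((p2 T2).to_le inf_le_left) (by
    intro b hb x hx
    obtain ⟨l, hl, b1, hb1, rfl⟩ := (hP1m x).1 hx
    have h1 : b * (l * b1) * b⁻¹ = (b * l * b⁻¹) * (b * b1 * b⁻¹) := by group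
    rw [h1]
    refine (hP1m _).2 ⟨_, nm hb.2.1 hl, _, ⟨nm hb.2.2 hb1.1, ?_⟩, rfl⟩
    exact Subgroup.mul_mem _ (Subgroup.mul_mem _ hb.2.1 hb1.2) (Subgroup.inv_mem _ hb.2.1))
  -- the central involution is not in the big subgroup
  have hd : d ∉ P0 := by
    intro hd
    obtain ⟨x, hx, b2, hb2, hdx⟩ := (hP0m d).1 hd
    obtain ⟨l, hl, b1, hb1, rfl⟩ := (hP1m x).1 hx
    obtain ⟨sl, hsl, hsl'⟩ := fix_of_mem K S T0.iso hl
    obtain ⟨s1, hs1, hs1'⟩ := fix_of_mem K S T1.iso hb1.1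
    obtain ⟨s2, hs2, hs2'⟩ := fix_of_mem K S T2.iso hb2.1
    have hst1 := stab_of_conj K S T0 hs1 (fun x hx => nm hb1.2 hx)
    have h1 := congrArg φ hdx
    rw [K.phi_d, map_mul, map_mul, hsl, hs1, hs2, ← map_mul, ← map_mul, ← map_one π, S.eq_iff] at h1
    obtain ⟨μ, hμ⟩ := h1
    have e0 : ∀ x, x = μ • (sl : V ≃ₗ[F] V) ((s1 : V ≃ₗ[F] V) ((s2 : V ≃ₗ[F] V) x)) := hμ
    have a0 : (s2 : V ≃ₗ[F] V) (w 0) = w 0 := hs2' _ (m2 0)
    have a1 : (s2 : V ≃ₗ[F] V) (w 1) = w 1 := hs2' _ (m2 1)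
    have b0 : (s1 : V ≃ₗ[F] V) (w 0) = w 0 := hs1' _ (m1 0)
    have b2' : (s1 : V ≃ₗ[F] V) (y 2) = y 2 := hs1' _ (m1 2)
    have c0 : (sl : V ≃ₗ[F] V) (w 0) = w 0 := hsl' _ (m0 0)
    have hw0 : w 0 ≠ 0 := (B.indep H).ne_zero 0
    have h2 := e0 (w 0)
    rw [a0, b0, c0] at h2
    have hμ1 : μ = 1 := by
      have h3 : (1 - μ) • w 0 = 0 := by rw [sub_smul, one_smul, ← h2, sub_self]
      rcases smul_eq_zero.1 h3 with h | h
      · exact (sub_eq_zero.1 h).symm
      · exact absurd h hw0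
    rw [hμ1] at e0
    simp only [one_smul] at e0
    have h3 := e0 (w 1)
    rw [a1, hsl' _ (hst1 _ (m0 1))] at h3
    -- the factor `s1` fixes `W2` pointwise
    have g1 : ∀ x ∈ W2, (s1 : V ≃ₗ[F] V) x = x := by
      apply fix_span
      intro i
      fin_cases i
      · exact b0
      · exact h3.symm
      · exact b2'
    have gl : ∀ x ∈ W2, (sl : V ≃ₗ[F] V) x = x := by
      intro x hx
      have h4 := e0 x
      rw [hs2' x hx, g1 x hx] at h4
      exact h4.symm
    have key : ∀ {W : Submodule F V} (hW : TI f W) {x : C} {s : SS f}, x ∈ LW K S W → φ x = π s →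
        (∀ u ∈ W, (s : V ≃ₗ[F] V) u = u) → (∀ u ∈ W2, (s : V ≃ₗ[F] V) u = u) → x ∈ L2 := by
      intro W hW x s hx hxs h5 h6
      obtain ⟨x', hx', hx2, hx3⟩ := exists_lift2 K S hW T2 h5 h6
      rcases K.eq_or (hxs.trans hx3.symm) with h7 | h7
      · rw [h7]; exact hx2
      · exfalso
        apply hcon W hW
        have h8 : x'⁻¹ * x = d := by rw [h7]; group
        have h9 := Subgroup.mul_mem _ (Subgroup.inv_mem _ hx') hx
        rwa [h8] at h9
    apply hcon W2 T2
    refine (congrArg (· ∈ LW K S W2) hdx).mpr ?_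
    exact Subgroup.mul_mem _ (Subgroup.mul_mem _ (key T0 hl hsl hsl' gl) (key T1 hb1.1 hs1 hs1' g1)) hb2.1
  -- the order of the big subgroup
  have hge : 2 ^ 15 ≤ Nat.card P0 := by
    have la : ∀ p, ∃ x ∈ L0, φ x = π (sa B H p) := by
      intro p
      obtain ⟨x, hx, _, hx'⟩ := exists_lift2 K S T0 T0 (sa_fix B (H := H) p) (sa_fix B p)
      exact ⟨x, hx, hx'⟩
    have lb : ∀ q, ∃ x ∈ B1, φ x = π (sb B H q) := by
      intro q
      obtain ⟨x, hx, _, hx'⟩ := exists_lift2 K S T1 T1 (sb_fix B (H := H) q) (sb_fix B q)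
      refine ⟨x, ⟨hx, Subgroup.mem_normalizer_fintype ?_⟩, hx'⟩
      intro n hn
      refine conj_LW K S hx' ?_ hn
      apply maps_span
      intro i
      fin_cases i
      · show (sb B H q : V ≃ₗ[F] V) (w 0) ∈ W0
        rw [sb_w0]; exact m0 0
      · show (sb B H q : V ≃ₗ[F] V) (w 1) ∈ W0
        rw [sb_w1]; exact W0.add_mem (m0 1) (W0.smul_mem _ (m0 0))
      · show (sb B H q : V ≃ₗ[F] V) (w 2) ∈ W0
        rw [sb_w2]; exact W0.add_mem (m0 2) (W0.smul_mem _ (m0 0))
    have lc : ∀ z, ∃ x ∈ B2, φ x = π (sc B H z) := by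
      intro z
      obtain ⟨x, hx, _, hx'⟩ := exists_lift2 K S T2 T2 (sc_fix B (H := H) z) (sc_fix B z)
      refine ⟨x, ⟨hx, Subgroup.mem_normalizer_fintype ?_, Subgroup.mem_normalizer_fintype ?_⟩, hx'⟩
      · intro n hn
        refine conj_LW K S hx' ?_ hn
        apply maps_span
        intro i
        fin_cases i
        · show (sc B H z : V ≃ₗ[F] V) (w 0) ∈ W0
          rw [sc_w0]; exact m0 0
        · show (sc B H z : V ≃ₗ[F] V) (w 1) ∈ W0
          rw [sc_w1]; exact m0 1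
        · show (sc B H z : V ≃ₗ[F] V) (w 2) ∈ W0
          rw [sc_w2]; exact W0.add_mem (m0 2) (W0.smul_mem _ (m0 1))
      · intro n hn
        refine conj_LW K S hx' ?_ hn
        apply maps_span
        intro i
        fin_cases i
        · show (sc B H z : V ≃ₗ[F] V) (w 0) ∈ W1
          rw [sc_w0]; exact m1 0
        · show (sc B H z : V ≃ₗ[F] V) (y 1) ∈ W1
          rw [sc_y1]; exact W1.add_mem (m1 1) (W1.smul_mem _ (m1 2))
        · show (sc B H z : V ≃ₗ[F] V) (y 2) ∈ W1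
          rw [sc_y2]; exact m1 2
    choose xa hxa hxa' using la
    choose xb hxb hxb' using lb
    choose xc hxc hxc' using lc
    have hm : ∀ t : ((F × F × F) × (Bool × Bool × Bool)) × (F × F) × F, xa t.1 * xb t.2.1 * xc t.2.2 ∈ P0 := by
      intro t
      exact P0.mul_mem (P0.mul_mem (hP1P (hL0P (hxa _))) (hP1P (hB1P (hxb _)))) (hB2P (hxc _))
    have hinj : Function.Injective (fun t : ((F × F × F) × (Bool × Bool × Bool)) × (F × F) × F => (⟨_, hm t⟩ : P0)) := by
      rintro ⟨p, q, z⟩ ⟨p', q', z'⟩ h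
      have h1 : xa p * xb q * xc z = xa p' * xb q' * xc z' := congrArg Subtype.val h
      have h2 := congrArg φ h1
      rw [map_mul, map_mul, map_mul, map_mul, hxa', hxb', hxc', hxa', hxb', hxc', ← map_mul, ← map_mul, ← map_mul, ← map_mul,
        S.eq_iff] at h2
      obtain ⟨μ, hμ⟩ := h2
      obtain ⟨h3, h4, h5⟩ := prod_inj B hμ
      rw [h3, h4, h5]
    have h := Nat.card_le_card_of_injective _ hinj
    have hc : Nat.card (((F × F × F) × (Bool × Bool × Bool)) × (F × F) × F) = 2 ^ 15 := by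
      rw [Nat.card_eq_fintype_card]
      simp only [Fintype.card_prod, hF, Fintype.card_bool]
      norm_num
    rw [hc] at h
    exact h
  -- conclusion
  haveI : Fact (Nat.Prime 2) := ⟨Nat.prime_two⟩
  obtain ⟨P', hP', _, hP0P', hdP'⟩ := exists_prod_subgroup P0 (Subgroup.zpowers d) hP0 (by
      apply isPGroup_of_sq
      intro a ha
      obtain ⟨n, rfl⟩ := Subgroup.mem_zpowers_iff.1 ha
      rw [← (Commute.refl d).mul_zpow, K.dd, one_zpow]) (by
    intro b hb l hl
    obtain ⟨n, rfl⟩ := Subgroup.mem_zpowers_iff.1 hb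
    have h1 : Commute (d ^ n) l := Commute.zpow_left (K.dc l) n
    rw [h1.eq, mul_inv_cancel_right]
    exact hl)
  obtain ⟨k, hk⟩ := IsPGroup.iff_card.1 hP0
  obtain ⟨m, hm⟩ := IsPGroup.iff_card.1 hP'
  have hC := card_cov K
  rw [hcard] at hC
  have hm16 : m ≤ 16 := by
    have h1 : Nat.card P' ∣ Nat.card C := Subgroup.card_subgroup_dvd_card P'
    rw [hm, hC] at h1
    by_contra hlt
    have h2 : 2 ^ 17 ∣ 2 * 9196830720 := (pow_dvd_pow 2 (by omega : 17 ≤ m)).trans h1
    norm_num at h2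
  have hkm : k < m := by
    have h1 : Nat.card P0 < Nat.card P' := by
      have h2 : P0 < P' := lt_of_le_of_ne hP0P' (fun h => hd (by rw [h]; exact hdP' (Subgroup.mem_zpowers d)))
      exact Set.ncard_lt_ncard h2 (Set.toFinite _)
    rw [hk, hm] at h1
    exact (Nat.pow_lt_pow_iff_right (by norm_num)).1 h1
  have hk15 : 15 ≤ k := by
    rw [hk] at hge
    exact (Nat.pow_le_pow_iff_right (by norm_num)).1 hge
  have hk' : k = 15 := by omega
  refine no_complement hperf K.dd K.dc hd ?_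
  have h1 := Subgroup.card_mul_index P0
  rw [hk, hk', hC] at h1
  have h2 : P0.index = 561330 := by omega
  rw [h2]

end Cfsg.Agent.Lib.H89EC
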