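import Mathlib
/-
Fusion in an elementary abelian group of order 1024 with a point stabilizer acting with orbits 1, 21, 21, 210, 210, 560:
basic definitions and counting (helper89).
-/
set_option autoImplicit false
set_option linter.all false

namespace Cfsg.Agent.Lib.H89ED

open Finset

/-- counting the elements of an invariant set along an equivariant map onto an orbit -/
theorem fib {N α β : Type*} [Group N] [MulAction N α] [MulAction N β] [DecidableEq α] [DecidableEq β] (Z : Finset α)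
    (hZ : ∀ n : N, ∀ z ∈ Z, n • z ∈ Z) (p : α → β) (hp : ∀ (n : N) z, p (n • z) = n • p z) (O : Finset β)
    (hO : ∀ z ∈ Z, p z ∈ O) (b₀ : β) (htr : ∀ b ∈ O, ∃ n : N, n • b₀ = b) :
    Z.card = O.card * (Z.filter (fun z => p z = b₀)).card := by
  rw [Finset.card_eq_sum_card_fiberwise (f := p) (t := O) hO]
  rw [Finset.sum_congr rfl (g := fun _ => (Z.filter (fun z => p z = b₀)).card)]
  · rw [Finset.sum_const, smul_eq_mul]
  · intro b hb
    obtain ⟨n, hn⟩ := htr b hb
    refine (Finset.card_bij (fun z _ => n • z) ?_ ?_ ?_).symm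
    · intro z hz
      rw [Finset.mem_filter] at hz ⊢
      exact ⟨hZ n z hz.1, by rw [hp, hz.2, hn]⟩
    · intro z _ z' _ h
      exact smul_left_cancel n h
    · intro z hz
      rw [Finset.mem_filter] at hz
      refine ⟨n⁻¹ • z, ?_, smul_inv_smul n z⟩
      rw [Finset.mem_filter]
      exact ⟨hZ _ z hz.1, by rw [hp, hz.2, ← hn, inv_smul_smul]⟩

section

variable (N : Type*) {A : Type*} [Group N] [Group A] [MulDistribMulAction N A]

/-- the translate of a subset of the point stabilizer -/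
def Rel (d : A) (P : Finset A) (x a : A) : Prop := ∃ n : N, n • d = x ∧ ∃ p ∈ P, n • p = a

/-- invariance under the point stabilizer -/
def Inv (d : A) (P : Finset A) : Prop := ∀ n : N, n • d = d → ∀ p ∈ P, n • p ∈ P

/-- transitivity of the point stabilizer -/
def Tr (d : A) (P : Finset A) : Prop := ∀ x ∈ P, ∀ x' ∈ P, ∃ n : N, n • d = d ∧ n • x = x'

variable {N}

theorem Rel.smul {d : A} {P : Finset A} {x a : A} (h : Rel N d P x a) (m : N) : Rel N d P (m • x) (m • a) := by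
  obtain ⟨n, rfl, p, hp, rfl⟩ := h
  exact ⟨m * n, mul_smul _ _ _, p, hp, mul_smul _ _ _⟩

theorem rel_smul_iff {d : A} {P : Finset A} {x a : A} (m : N) : Rel N d P (m • x) (m • a) ↔ Rel N d P x a := by
  refine ⟨fun h => ?_, fun h => h.smul m⟩
  have := h.smul m⁻¹
  rwa [inv_smul_smul, inv_smul_smul] at this

theorem rel_d {d : A} {P : Finset A} (hP : Inv N d P) {a : A} : Rel N d P d a ↔ a ∈ P := by
  constructor
  · rintro ⟨n, hn, p, hp, rfl⟩
    exact hP n hn p hp
  · intro h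
    exact ⟨1, one_smul _ _, a, h, one_smul _ _⟩

theorem rel_iff {d : A} {P : Finset A} (hP : Inv N d P) {n : N} {x a : A} (hn : n • d = x) :
    Rel N d P x a ↔ n⁻¹ • a ∈ P := by
  rw [← rel_d hP, ← rel_smul_iff n (x := d), hn, smul_inv_smul]

variable (N)
variable [Fintype A] [DecidableEq A]

open Classical in
/-- the orbit -/
noncomputable def DD (d : A) : Finset A := univ.filter (fun x => ∃ n : N, n • d = x)

variable {N}

theorem mem_DD {d x : A} : x ∈ DD N d ↔ ∃ n : N, n • d = x := by simp [DD]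

theorem d_mem_DD (d : A) : d ∈ DD N d := mem_DD.2 ⟨1, one_smul _ _⟩

theorem smul_mem_DD {d x : A} (h : x ∈ DD N d) (m : N) : m • x ∈ DD N d := by
  obtain ⟨n, rfl⟩ := mem_DD.1 h
  exact mem_DD.2 ⟨m * n, mul_smul _ _ _⟩

theorem inv_DD {d : A} : Inv N d (DD N d) := fun n _ p hp => smul_mem_DD hp n

theorem Rel.left {d : A} {P : Finset A} {x a : A} (h : Rel N d P x a) : x ∈ DD N d := by
  obtain ⟨n, hn, _⟩ := h
  exact mem_DD.2 ⟨n, hn⟩

theorem Rel.right {d : A} {P : Finset A} {x a : A} (h : Rel N d P x a) (hP : P ⊆ DD N d) : a ∈ DD N d := by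
  obtain ⟨n, _, p, hp, rfl⟩ := h
  exact smul_mem_DD (hP hp) n

/-- a class is in the orbit or disjoint from it -/
theorem sub_or {d : A} {P Q : Finset A} (hP : Tr N d P) (hQ : Inv N d Q) : P ⊆ Q ∨ Disjoint P Q := by
  by_cases h : ∃ x ∈ P, x ∈ Q
  · left
    obtain ⟨x, hx, hxQ⟩ := h
    intro y hy
    obtain ⟨n, hn, rfl⟩ := hP x hx y hy
    exact hQ n hn x hxQ
  · right
    push Not at h
    exact Finset.disjoint_left.2 h

/-- double counting -/
theorem dcount {d : A} {P P' : Finset A} (hP : Inv N d P) (hPt : Tr N d P) (hP' : Inv N d P') (hPt' : Tr N d P')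
    {p₀ : A} (hp₀ : p₀ ∈ P) (Z : A → A → A → Prop) (hZ : ∀ (n : N) x y r, Z x y r → Z (n • x) (n • y) (n • r))
    (h1 : ∀ x y r, Z x y r → Rel N d P x y) (h2 : ∀ x y r, Z x y r → Rel N d P' y r) [DecidablePred (Z d p₀)] :
    P'.card ∣ P.card * (univ.filter (Z d p₀)).card := by
  classical
  by_cases hne : (univ.filter (Z d p₀)).card = 0
  · rw [hne, mul_zero]; exact dvd_zero _
  obtain ⟨r₀, hr₀⟩ := Finset.card_ne_zero.1 hne
  rw [Finset.mem_filter] at hr₀
  obtain ⟨g, hg, r₁, hr₁, hgr⟩ := h2 _ _ _ hr₀.2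
  set PP : Finset A → Finset (A × A) := fun P => univ.filter (fun z => Rel N d P z.1 z.2) with hPP
  have cPP : ∀ {P : Finset A}, Inv N d P → (PP P).card = (DD N d).card * P.card := by
    intro P hP
    rw [fib (N := N) (PP P) (by
      intro n z hz
      rw [hPP, Finset.mem_filter] at hz ⊢
      exact ⟨mem_univ _, hz.2.smul n⟩) Prod.fst (fun _ _ => rfl) (DD N d) (by
      intro z hz
      rw [hPP, Finset.mem_filter] at hz
      exact hz.2.left) d (fun b hb => mem_DD.1 hb)]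
    congr 1
    refine Finset.card_bij (fun z _ => z.2) ?_ ?_ ?_
    · intro z hz
      rw [Finset.mem_filter, hPP, Finset.mem_filter] at hz
      have := hz.1.2
      rw [hz.2] at this
      exact (rel_d hP).1 this
    · rintro ⟨z, z'⟩ hz ⟨w, w'⟩ hw h
      rw [Finset.mem_filter] at hz hw
      exact Prod.ext (hz.2.trans hw.2.symm) h
    · intro a ha
      refine ⟨(d, a), ?_, rfl⟩
      rw [Finset.mem_filter, hPP, Finset.mem_filter]
      exact ⟨⟨mem_univ _, (rel_d hP).2 ha⟩, rfl⟩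
  have tPP : ∀ {P : Finset A} {p : A}, Tr N d P → p ∈ P → ∀ b ∈ PP P, ∃ n : N, n • (d, p) = b := by
    rintro P p hP hp ⟨x, a⟩ hb
    rw [hPP, Finset.mem_filter] at hb
    obtain ⟨n, hn, q, hq, hna⟩ := hb.2
    obtain ⟨m, hm, hm'⟩ := hP p hp q hq
    refine ⟨n * m, Prod.ext ?_ ?_⟩
    · show (n * m) • d = x
      rw [mul_smul, hm, hn]
    · show (n * m) • p = a
      rw [mul_smul, hm', hna]
  set ZZ : Finset (A × A × A) := univ.filter (fun z => Z z.1 z.2.1 z.2.2) with hZZ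
  have hZZi : ∀ n : N, ∀ z ∈ ZZ, n • z ∈ ZZ := by
    intro n z hz
    rw [hZZ, Finset.mem_filter] at hz ⊢
    exact ⟨mem_univ _, hZ n _ _ _ hz.2⟩
  have c1 := fib (N := N) ZZ hZZi (fun z => (z.1, z.2.1)) (fun _ _ => rfl) (PP P) (by
    intro z hz
    rw [hZZ, Finset.mem_filter] at hz
    rw [hPP, Finset.mem_filter]
    exact ⟨mem_univ _, h1 _ _ _ hz.2⟩) (d, p₀) (tPP hPt hp₀)
  have c2 := fib (N := N) ZZ hZZi (fun z => (z.2.1, z.2.2)) (fun _ _ => rfl) (PP P') (by
    intro z hz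
    rw [hZZ, Finset.mem_filter] at hz
    rw [hPP, Finset.mem_filter]
    exact ⟨mem_univ _, h2 _ _ _ hz.2⟩) (d, r₁) (tPP hPt' hr₁)
  rw [cPP hP] at c1
  rw [cPP hP'] at c2
  have e1 : (ZZ.filter (fun z => (z.1, z.2.1) = (d, p₀))).card = (univ.filter (Z d p₀)).card := by
    refine Finset.card_bij (fun z _ => z.2.2) ?_ ?_ ?_
    · rintro ⟨x, y, r⟩ hz
      rw [Finset.mem_filter, hZZ, Finset.mem_filter] at hz
      obtain ⟨⟨_, hz1⟩, hz2⟩ := hz
      obtain ⟨rfl, rfl⟩ := Prod.mk.inj hz2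
      rw [Finset.mem_filter]
      exact ⟨mem_univ _, hz1⟩
    · rintro ⟨x, y, r⟩ hz ⟨x', y', r'⟩ hz' h
      rw [Finset.mem_filter] at hz hz'
      obtain ⟨rfl, rfl⟩ := Prod.mk.inj hz.2
      obtain ⟨h3, h4⟩ := Prod.mk.inj hz'.2
      have h5 : r = r' := h
      have h3' : x' = x := h3
      have h4' : y' = y := h4
      rw [h5, h3', h4']
    · intro r hr
      rw [Finset.mem_filter] at hr
      refine ⟨(d, p₀, r), ?_, rfl⟩
      rw [Finset.mem_filter, hZZ, Finset.mem_filter]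
      exact ⟨⟨mem_univ _, hr.2⟩, rfl⟩
  rw [e1] at c1
  have hD : 0 < (DD N d).card := Finset.card_pos.2 ⟨d, d_mem_DD d⟩
  rw [c1] at c2
  refine ⟨(ZZ.filter (fun z => (z.2.1, z.2.2) = (d, r₁))).card, ?_⟩
  rw [mul_assoc, mul_assoc] at c2
  exact Nat.eq_of_mul_eq_mul_left hD c2

end

end Cfsg.Agent.Lib.H89ED
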