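import Cfsg.Agent.Lib.H89ED0
/-
Fusion in an elementary abelian group of order 1024 with a point stabilizer acting with orbits 1, 21, 21, 210, 210, 560:
the classes, their sizes, first restrictions (helper89).
-/
set_option autoImplicit false
set_option linter.all false

namespace Cfsg.Agent.Lib.H89ED

open Finset

section

variable {A : Type*} [Group A] [Fintype A] [DecidableEq A]

/-- products of two different elements -/
def R2 (T : Finset A) : Finset A := T.offDiag.image (fun p => p.1 * p.2)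

/-- translates -/
def dm (d : A) (P : Finset A) : Finset A := P.image (fun x => d * x)

/-- the remaining elements -/
def R3 (d : A) (T : Finset A) : Finset A := univ \ ({1, d} ∪ T ∪ dm d T ∪ R2 T ∪ dm d (R2 T))

theorem mem_R2 {T : Finset A} {r : A} : r ∈ R2 T ↔ ∃ a ∈ T, ∃ b ∈ T, a ≠ b ∧ a * b = r := by
  rw [R2, Finset.mem_image]
  constructor
  · rintro ⟨⟨a, b⟩, h, rfl⟩
    rw [Finset.mem_offDiag] at h
    exact ⟨a, h.1, b, h.2.1, h.2.2, rfl⟩
  · rintro ⟨a, ha, b, hb, hab, rfl⟩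
    exact ⟨(a, b), Finset.mem_offDiag.2 ⟨ha, hb, hab⟩, rfl⟩

theorem mem_dm {d : A} {P : Finset A} {x : A} : x ∈ dm d P ↔ ∃ p ∈ P, d * p = x := by
  rw [dm, Finset.mem_image]

theorem card_dm (d : A) (P : Finset A) : (dm d P).card = P.card :=
  Finset.card_image_of_injective _ (mul_right_injective d)

end

/-- the hypotheses -/
structure OS (N : Type*) {A : Type*} [Group N] [Group A] [MulDistribMulAction N A] [Fintype A] [DecidableEq A]
    (d : A) (T : Finset A) : Prop where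
  cA : Fintype.card A = 1024
  sq : ∀ x : A, x * x = 1
  cT : T.card = 21
  inv : Inv N d T
  two : ∀ a ∈ T, ∀ b ∈ T, ∀ a' ∈ T, ∀ b' ∈ T, a ≠ b → a' ≠ b' → ∃ n : N, n • d = d ∧ n • a = a' ∧ n • b = b'
  d1 : d ≠ 1
  oneT : (1 : A) ∉ T
  dT : d ∉ T
  TdT : ∀ a ∈ T, d * a ∉ T
  uniq : ∀ a ∈ T, ∀ b ∈ T, ∀ a' ∈ T, ∀ b' ∈ T, a ≠ b → a * b = a' * b' → a = a' ∨ a = b'
  R2d : ∀ a ∈ T, ∀ b ∈ T, a * b ≠ d
  R2T : ∀ a ∈ T, ∀ b ∈ T, a ≠ b → a * b ∉ T
  R2dT : ∀ a ∈ T, ∀ b ∈ T, d * (a * b) ∉ T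
  R2dR2 : ∀ a ∈ T, ∀ b ∈ T, ∀ a' ∈ T, ∀ b' ∈ T, a ≠ b → a * b ≠ d * (a' * b')
  tr3 : Tr N d (R3 d T)
  col : ∀ t ∈ T, (univ.filter (fun r => r ∈ R2 T ∧ r * t ∈ R2 T)).card < 80
  fus : ∀ t ∈ T, ∃ r ∈ R2 T, ∃ n : N, n • d = d ∧ n • t = t ∧ n • r = r * t
  three : ∀ a ∈ T, ∀ b ∈ T, ∀ e ∈ T, a ≠ b → e ≠ a → e ≠ b → ∃ n₁ n₂ n₃ : N,
    (n₁ • d = d ∧ n₁ • a = a ∧ n₁ • b = b) ∧ (n₂ • d = d ∧ n₂ • a = a ∧ n₂ • b = b) ∧
    (n₃ • d = d ∧ n₃ • a = a ∧ n₃ • b = b) ∧ n₁ • e ≠ n₂ • e ∧ n₁ • e ≠ n₃ • e ∧ n₂ • e ≠ n₃ • e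
  dcl : d ∈ Subgroup.closure (T : Set A)
  nop : ∀ g : N, orderOf g = 211 ∨ orderOf g = 257 → ∃ a : A, g • a ≠ a
  mov : ∃ n : N, n • d ≠ d

namespace OS

variable {N A : Type*} [Group N] [Group A] [MulDistribMulAction N A] [Fintype A] [DecidableEq A]
  {d : A} {T : Finset A} (O : OS N d T)
include O

theorem comm (x y : A) : x * y = y * x := by
  have h1 := O.sq (x * y)
  have h2 : x * y = (x * y)⁻¹ := eq_inv_of_mul_eq_one_left h1
  rw [h2, mul_inv_rev, inv_eq_of_mul_eq_one_left (O.sq x), inv_eq_of_mul_eq_one_left (O.sq y)]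

theorem dd (x : A) : d * (d * x) = x := by rw [← mul_assoc, O.sq, one_mul]

theorem mul_self_cancel (x y : A) : x * y * x = y := by rw [O.comm x y, mul_assoc, O.sq, mul_one]

theorem mem_dm' {P : Finset A} {x : A} : x ∈ dm d P ↔ d * x ∈ P := by
  rw [mem_dm]
  constructor
  · rintro ⟨p, hp, rfl⟩; rw [O.dd]; exact hp
  · intro h; exact ⟨_, h, O.dd x⟩

theorem inv_dm {P : Finset A} (hP : Inv N d P) : Inv N d (dm d P) := by
  intro n hn p hp
  rw [O.mem_dm'] at hp ⊢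
  have h := hP n hn _ hp
  rwa [smul_mul', hn] at h

theorem tr_dm {P : Finset A} (hP : Tr N d P) : Tr N d (dm d P) := by
  intro x hx y hy
  rw [O.mem_dm'] at hx hy
  obtain ⟨n, hn, hn'⟩ := hP _ hx _ hy
  refine ⟨n, hn, ?_⟩
  rw [smul_mul', hn] at hn'
  exact mul_left_cancel hn'

theorem inv_R2 : Inv N d (R2 T) := by
  intro n hn r hr
  obtain ⟨a, ha, b, hb, hab, rfl⟩ := mem_R2.1 hr
  rw [smul_mul']
  exact mem_R2.2 ⟨_, O.inv n hn a ha, _, O.inv n hn b hb, fun h => hab (smul_left_cancel n h), rfl⟩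

theorem mem_R3 {x : A} : x ∈ R3 d T ↔ x ≠ 1 ∧ x ≠ d ∧ x ∉ T ∧ x ∉ dm d T ∧ x ∉ R2 T ∧ x ∉ dm d (R2 T) := by
  simp only [R3, Finset.mem_sdiff, Finset.mem_univ, true_and, Finset.mem_union, Finset.mem_insert, Finset.mem_singleton]
  tauto

theorem cases (x : A) : x = 1 ∨ x = d ∨ x ∈ T ∨ x ∈ dm d T ∨ x ∈ R2 T ∨ x ∈ dm d (R2 T) ∨ x ∈ R3 d T := by
  rw [O.mem_R3]
  tauto

theorem inv_iff {P : Finset A} (hP : Inv N d P) {n : N} (hn : n • d = d) {x : A} : n • x ∈ P ↔ x ∈ P := by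
  refine ⟨fun h => ?_, fun h => hP n hn x h⟩
  have h1 : n⁻¹ • d = d := by
    calc n⁻¹ • d = n⁻¹ • (n • d) := by rw [hn]
      _ = d := inv_smul_smul _ _
  have := hP _ h1 _ h
  rwa [inv_smul_smul] at this

theorem inv_R3 : Inv N d (R3 d T) := by
  intro n hn x hx
  rw [O.mem_R3] at hx ⊢
  refine ⟨?_, ?_, ?_, ?_, ?_, ?_⟩
  · intro h; exact hx.1 (smul_left_cancel n (h.trans (smul_one n).symm))
  · intro h; exact hx.2.1 (smul_left_cancel n (h.trans hn.symm))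
  · rw [O.inv_iff O.inv hn]; exact hx.2.2.1
  · rw [O.inv_iff (O.inv_dm O.inv) hn]; exact hx.2.2.2.1
  · rw [O.inv_iff O.inv_R2 hn]; exact hx.2.2.2.2.1
  · rw [O.inv_iff (O.inv_dm O.inv_R2) hn]; exact hx.2.2.2.2.2

theorem other (a : A) : ∃ b ∈ T, b ≠ a := by
  by_contra h
  push Not at h
  have h1 : T ⊆ {a} := fun x hx => Finset.mem_singleton.2 (h x hx)
  have h2 := Finset.card_le_card h1
  rw [O.cT, Finset.card_singleton] at h2
  omega

theorem tr_T : Tr N d T := by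
  intro x hx y hy
  obtain ⟨b, hb, hbx⟩ := O.other x
  obtain ⟨c, hc, hcy⟩ := O.other y
  obtain ⟨n, hn, hn', _⟩ := O.two x hx b hb y hy c hc (Ne.symm hbx) (Ne.symm hcy)
  exact ⟨n, hn, hn'⟩

theorem tr_R2 : Tr N d (R2 T) := by
  intro x hx y hy
  obtain ⟨a, ha, b, hb, hab, rfl⟩ := mem_R2.1 hx
  obtain ⟨a', ha', b', hb', hab', rfl⟩ := mem_R2.1 hy
  obtain ⟨n, hn, h1, h2⟩ := O.two a ha b hb a' ha' b' hb' hab hab'
  exact ⟨n, hn, by rw [smul_mul', h1, h2]⟩

/-! ### sizes -/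

theorem card_R2 : (R2 T).card = 210 := by
  have h1 : T.offDiag.card = 420 := by rw [Finset.offDiag_card, O.cT]
  have h2 := Finset.card_eq_sum_card_image (fun p : A × A => p.1 * p.2) T.offDiag
  have h3 : ∀ r ∈ T.offDiag.image (fun p : A × A => p.1 * p.2),
      (T.offDiag.filter (fun p : A × A => p.1 * p.2 = r)).card = 2 := by
    intro r hr
    obtain ⟨a, ha, b, hb, hab, rfl⟩ := mem_R2.1 hr
    have h4 : T.offDiag.filter (fun p : A × A => p.1 * p.2 = a * b) = {(a, b), (b, a)} := by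
      ext ⟨x, y⟩
      simp only [Finset.mem_filter, Finset.mem_offDiag, Finset.mem_insert, Finset.mem_singleton, Prod.mk.injEq]
      constructor
      · rintro ⟨⟨hx, hy, hxy⟩, h⟩
        rcases O.uniq x hx y hy a ha b hb hxy h with h5 | h5
        · left; subst h5; exact ⟨rfl, mul_left_cancel h⟩
        · right; subst h5
          rw [O.comm a x] at h
          exact ⟨rfl, mul_left_cancel h⟩
      · rintro (⟨rfl, rfl⟩ | ⟨rfl, rfl⟩)
        · exact ⟨⟨ha, hb, hab⟩, rfl⟩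
        · exact ⟨⟨hb, ha, Ne.symm hab⟩, O.comm _ _⟩
    rw [h4, Finset.card_pair]
    intro h
    exact hab (Prod.mk.inj h).1
  rw [Finset.sum_congr rfl h3, Finset.sum_const, smul_eq_mul, h1] at h2
  show (T.offDiag.image (fun p : A × A => p.1 * p.2)).card = 210
  omega

theorem one_notin_R2 : (1 : A) ∉ R2 T := by
  intro h
  obtain ⟨a, ha, b, hb, hab, h1⟩ := mem_R2.1 h
  apply hab
  have h2 : a = b⁻¹ := eq_inv_of_mul_eq_one_left h1
  rw [h2, inv_eq_of_mul_eq_one_left (O.sq b)]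

theorem dj_T_R2 {x : A} (h1 : x ∈ T) : x ∉ R2 T := by
  intro h
  obtain ⟨a, ha, b, hb, hab, rfl⟩ := mem_R2.1 h
  exact O.R2T a ha b hb hab h1

theorem dj_T_dT {x : A} (h1 : x ∈ T) : x ∉ dm d T := by
  rw [O.mem_dm']; exact O.TdT x h1

theorem dj_T_dR2 {x : A} (h1 : x ∈ T) : x ∉ dm d (R2 T) := by
  intro h
  obtain ⟨r, hr, rfl⟩ := mem_dm.1 h
  obtain ⟨a, ha, b, hb, hab, rfl⟩ := mem_R2.1 hr
  exact O.R2dT a ha b hb h1

theorem dj_R2_dR2 {x : A} (h1 : x ∈ R2 T) : x ∉ dm d (R2 T) := by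
  intro h
  obtain ⟨r, hr, h2⟩ := mem_dm.1 h
  obtain ⟨a, ha, b, hb, hab, rfl⟩ := mem_R2.1 hr
  obtain ⟨a', ha', b', hb', hab', rfl⟩ := mem_R2.1 h1
  exact O.R2dR2 a' ha' b' hb' a ha b hb hab' h2.symm

theorem dj_R2_dT {x : A} (h1 : x ∈ R2 T) : x ∉ dm d T := by
  intro h
  rw [O.mem_dm'] at h
  apply O.dj_T_dR2 h
  rw [O.mem_dm', O.dd]; exact h1

theorem dj_dT_dR2 {x : A} (h1 : x ∈ dm d T) : x ∉ dm d (R2 T) := by
  rw [O.mem_dm'] at h1 ⊢
  exact O.dj_T_R2 h1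

theorem d_notin_R2 : d ∉ R2 T := by
  intro h
  obtain ⟨a, ha, b, hb, hab, h1⟩ := mem_R2.1 h
  exact O.R2d a ha b hb h1

theorem card_R3 : (R3 d T).card = 560 := by
  have h1 : ({1, d} ∪ T ∪ dm d T ∪ R2 T ∪ dm d (R2 T) : Finset A).card = 464 := by
    rw [Finset.card_union_of_disjoint, Finset.card_union_of_disjoint, Finset.card_union_of_disjoint,
      Finset.card_union_of_disjoint, card_dm, card_dm, O.card_R2, O.cT, Finset.card_pair (Ne.symm O.d1)]
    · rw [Finset.disjoint_left]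
      intro x hx hxT
      rw [Finset.mem_insert, Finset.mem_singleton] at hx
      rcases hx with rfl | rfl
      · exact O.oneT hxT
      · exact O.dT hxT
    · rw [Finset.disjoint_left]
      intro x hx
      simp only [Finset.mem_union, Finset.mem_insert, Finset.mem_singleton] at hx
      rcases hx with (rfl | rfl) | hx
      · rw [O.mem_dm', mul_one]; exact O.dT
      · rw [O.mem_dm', O.sq]; exact O.oneT
      · exact O.dj_T_dT hx
    · rw [Finset.disjoint_left]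
      intro x hx
      simp only [Finset.mem_union, Finset.mem_insert, Finset.mem_singleton] at hx
      rcases hx with ((rfl | rfl) | hx) | hx
      · exact O.one_notin_R2
      · exact O.d_notin_R2
      · exact O.dj_T_R2 hx
      · intro h; exact O.dj_R2_dT h hx
    · rw [Finset.disjoint_left]
      intro x hx
      simp only [Finset.mem_union, Finset.mem_insert, Finset.mem_singleton] at hx
      rcases hx with (((rfl | rfl) | hx) | hx) | hx
      · rw [O.mem_dm', mul_one]; exact O.d_notin_R2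
      · rw [O.mem_dm', O.sq]; exact O.one_notin_R2
      · exact O.dj_T_dR2 hx
      · exact O.dj_dT_dR2 hx
      · exact O.dj_R2_dR2 hx
  rw [R3, Finset.card_sdiff_of_subset (Finset.subset_univ _), h1, Finset.card_univ, O.cA]

/-- `R3` is closed under multiplication by the point -/
theorem d_R3 {x : A} (h : x ∈ R3 d T) : d * x ∈ R3 d T := by
  rw [O.mem_R3] at h ⊢
  obtain ⟨h1, h2, h3, h4, h5, h6⟩ := h
  refine ⟨?_, ?_, ?_, ?_, ?_, ?_⟩
  · intro h; apply h2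
    have := O.dd x
    rw [h, mul_one] at this; exact this.symm
  · intro h; apply h1
    have := O.dd x
    rw [h, O.sq] at this; exact this.symm
  · rwa [O.mem_dm'] at h4
  · rwa [O.mem_dm', O.dd]
  · rwa [O.mem_dm'] at h6
  · rwa [O.mem_dm', O.dd]

/-- positions with respect to another point of the orbit -/
theorem cases_at {y : A} (hy : y ∈ DD N d) (x : A) : x = 1 ∨ x = y ∨ Rel N d T y x ∨ Rel N d (dm d T) y x ∨
    Rel N d (R2 T) y x ∨ Rel N d (dm d (R2 T)) y x ∨ Rel N d (R3 d T) y x := by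
  obtain ⟨n, rfl⟩ := mem_DD.1 hy
  rw [rel_iff O.inv rfl, rel_iff (O.inv_dm O.inv) rfl, rel_iff O.inv_R2 rfl, rel_iff (O.inv_dm O.inv_R2) rfl, rel_iff O.inv_R3 rfl]
  rcases O.cases (n⁻¹ • x) with h | h | h | h | h | h | h
  · left; rw [inv_smul_eq_iff, smul_one] at h; exact h
  · right; left; rw [inv_smul_eq_iff] at h; exact h
  all_goals tauto

theorem rel_dm {P : Finset A} (hP : Inv N d P) {x a : A} : Rel N d (dm d P) x a ↔ Rel N d P x (x * a) := by
  constructor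
  · rintro ⟨n, rfl, p, hp, rfl⟩
    refine ⟨n, rfl, d * p, (O.mem_dm').1 hp, ?_⟩
    rw [smul_mul']
  · rintro ⟨n, rfl, p, hp, h⟩
    refine ⟨n, rfl, d * p, mem_dm.2 ⟨p, hp, rfl⟩, ?_⟩
    rw [smul_mul', h, ← mul_assoc, ← smul_mul', O.sq, smul_one, one_mul]

/-- `T` does not meet the orbit -/
theorem LA {t : A} (ht : t ∈ T) : t ∉ DD N d := by
  classical
  intro htD
  obtain ⟨r, hr, n, hnd, hnt, hnr⟩ := O.fus t ht
  have hrt : r * t ∈ R2 T := by rw [← hnr]; exact O.inv_R2 n hnd r hr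
  have key := dcount (N := N) O.inv O.tr_T O.inv_R3 O.tr3 ht
    (fun x y r => Rel N d T x y ∧ Rel N d (R2 T) x r ∧ Rel N d (R2 T) x (r * y) ∧ Rel N d (R3 d T) y r)
    (by
      rintro m x y r ⟨h1, h2, h3, h4⟩
      refine ⟨h1.smul m, h2.smul m, ?_, h4.smul m⟩
      rw [← smul_mul']; exact h3.smul m)
    (fun x y r h => h.1) (fun x y r h => h.2.2.2)
  rw [O.card_R3, O.cT] at key
  set k := (univ.filter (fun r => Rel N d T d t ∧ Rel N d (R2 T) d r ∧ Rel N d (R2 T) d (r * t) ∧ Rel N d (R3 d T) t r)).card with hk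
  have hk80 : k < 80 := by
    refine lt_of_le_of_lt (Finset.card_le_card ?_) (O.col t ht)
    intro x hx
    rw [Finset.mem_filter] at hx ⊢
    exact ⟨mem_univ _, (rel_d O.inv_R2).1 hx.2.2.1, (rel_d O.inv_R2).1 hx.2.2.2.1⟩
  have hkpos : 0 < k := by
    refine Finset.card_pos.2 ⟨r, ?_⟩
    rw [Finset.mem_filter]
    refine ⟨mem_univ _, (rel_d O.inv).2 ht, (rel_d O.inv_R2).2 hr, (rel_d O.inv_R2).2 hrt, ?_⟩
    obtain ⟨m, hm⟩ := mem_DD.1 htD
    have aux : ∀ {P : Finset A}, Inv N d P → (∀ p ∈ P, d * p ∉ P) → ¬ Rel N d P t r := by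
      intro P hP hdP h
      have h2 := h.smul n
      rw [hnt, hnr] at h2
      rw [rel_iff hP hm] at h h2
      apply hdP _ h
      rw [smul_mul', O.comm, ← hm, inv_smul_smul] at h2
      exact h2
    rcases O.cases_at htD r with h | h | h | h | h | h | h
    · rw [h] at hr; exact absurd hr O.one_notin_R2
    · rw [h] at hr; exact absurd hr (O.dj_T_R2 ht)
    · exact absurd h (aux O.inv (fun p hp => O.TdT p hp))
    · refine absurd h (aux (O.inv_dm O.inv) (fun p hp h => ?_))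
      rw [O.mem_dm'] at hp h
      rw [O.dd] at h
      exact O.TdT _ h hp
    · exact absurd h (aux O.inv_R2 (fun p hp h => O.dj_R2_dR2 hp ((O.mem_dm').2 h)))
    · refine absurd h (aux (O.inv_dm O.inv_R2) (fun p hp h => ?_))
      rw [O.mem_dm', O.dd] at h
      exact O.dj_R2_dR2 h hp
    · exact h
  obtain ⟨l, hl⟩ := key
  omega

end OS

end Cfsg.Agent.Lib.H89ED
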