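import Cfsg.Agent.Lib.H89ED1
/-
Fusion in an elementary abelian group of order 1024 with a point stabilizer acting with orbits 1, 21, 21, 210, 210, 560:
the orbit has length 22 (helper89).
-/
set_option autoImplicit false
set_option linter.all false

namespace Cfsg.Agent.Lib.H89ED

open Finset

namespace OS

variable {N A : Type*} [Group N] [Group A] [MulDistribMulAction N A] [Fintype A] [DecidableEq A]
  {d : A} {T : Finset A} (O : OS N d T)
include O

/-- closed subsets are subgroups -/
theorem card_closed (B : Finset A) (h1 : (1 : A) ∈ B) (h2 : ∀ x ∈ B, ∀ y ∈ B, x * y ∈ B) : B.card ∣ 1024 := by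
  set S : Subgroup A :=
    { carrier := {x | x ∈ B}
      one_mem' := h1
      mul_mem' := fun {x y} hx hy => h2 x hx y hy
      inv_mem' := fun {x} hx => by
        show x⁻¹ ∈ B
        rw [inv_eq_of_mul_eq_one_left (O.sq x)]; exact hx } with hS
  have h3 : Nat.card S ∣ Nat.card A := Subgroup.card_subgroup_dvd_card S
  have h4 : Nat.card S = B.card := by
    show Nat.card {x // x ∈ B} = B.card
    rw [Nat.card_eq_fintype_card, Fintype.card_coe]
  rw [h4, Nat.card_eq_fintype_card, O.cA] at h3
  exact h3

theorem one_notin_DD : (1 : A) ∉ DD N d := by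
  intro h
  obtain ⟨n, hn⟩ := mem_DD.1 h
  exact O.d1 (smul_left_cancel n (hn.trans (smul_one n).symm))

/-- decomposition of the size of the orbit -/
theorem card_DD : (DD N d).card = 1 + ((DD N d) ∩ dm d T).card + ((DD N d) ∩ R2 T).card + ((DD N d) ∩ dm d (R2 T)).card +
    ((DD N d) ∩ R3 d T).card := by
  have h1 : DD N d = {d} ∪ ((DD N d) ∩ dm d T) ∪ ((DD N d) ∩ R2 T) ∪ ((DD N d) ∩ dm d (R2 T)) ∪ ((DD N d) ∩ R3 d T) := by
    ext x
    simp only [Finset.mem_union, Finset.mem_inter, Finset.mem_singleton]
    constructor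
    · intro hx
      rcases O.cases x with h | h | h | h | h | h | h
      · rw [h] at hx; exact absurd hx O.one_notin_DD
      · tauto
      · exact absurd hx (O.LA h)
      all_goals tauto
    · rintro ((((h | h) | h) | h) | h)
      · rw [h]; exact d_mem_DD d
      · exact h.1
      · exact h.1
      · exact h.1
      · exact h.1
  conv_lhs => rw [h1]
  rw [Finset.card_union_of_disjoint, Finset.card_union_of_disjoint, Finset.card_union_of_disjoint, Finset.card_union_of_disjoint,
    Finset.card_singleton]
  · rw [Finset.disjoint_left]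
    intro x hx h
    rw [Finset.mem_singleton] at hx
    rw [Finset.mem_inter, hx, O.mem_dm', O.sq] at h
    exact O.oneT h.2
  · rw [Finset.disjoint_left]
    intro x hx h
    simp only [Finset.mem_union, Finset.mem_singleton, Finset.mem_inter] at hx h
    rcases hx with hx | hx
    · rw [hx] at h; exact O.d_notin_R2 h.2
    · exact O.dj_R2_dT h.2 hx.2
  · rw [Finset.disjoint_left]
    intro x hx h
    simp only [Finset.mem_union, Finset.mem_singleton, Finset.mem_inter] at hx h
    rcases hx with (hx | hx) | hx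
    · rw [hx, O.mem_dm', O.sq] at h; exact O.one_notin_R2 h.2
    · exact O.dj_dT_dR2 hx.2 h.2
    · exact O.dj_R2_dR2 hx.2 h.2
  · rw [Finset.disjoint_left]
    intro x hx h
    simp only [Finset.mem_union, Finset.mem_singleton, Finset.mem_inter] at hx h
    have h3 := (O.mem_R3).1 h.2
    rcases hx with ((hx | hx) | hx) | hx
    · exact h3.2.1 hx
    · exact h3.2.2.2.1 hx.2
    · exact h3.2.2.2.2.1 hx.2
    · exact h3.2.2.2.2.2 hx.2

omit O in
theorem inter_card {P : Finset A} (hP : Tr N d P) : (P ⊆ DD N d ∧ ((DD N d) ∩ P).card = P.card) ∨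
    (Disjoint P (DD N d) ∧ ((DD N d) ∩ P).card = 0) := by
  rcases sub_or hP (inv_DD (N := N) (d := d)) with h | h
  · left; exact ⟨h, by rw [Finset.inter_eq_right.2 h]⟩
  · right
    refine ⟨h, ?_⟩
    rw [Finset.card_eq_zero, ← Finset.disjoint_iff_inter_eq_empty]
    exact h.symm

/-- the orbit together with the identity as a subgroup -/
theorem dvd_of_closed (h : ∀ y ∈ DD N d, d * y ∈ DD N d ∨ d * y = 1) : (DD N d).card + 1 ∣ 1024 := by
  have h1 : (insert 1 (DD N d)).card = (DD N d).card + 1 := Finset.card_insert_of_notMem O.one_notin_DD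
  rw [← h1]
  apply O.card_closed
  · exact Finset.mem_insert_self _ _
  · intro x hx y hy
    rw [Finset.mem_insert] at hx hy ⊢
    rcases hx with rfl | hx
    · rw [one_mul]; exact hy
    rcases hy with rfl | hy
    · rw [mul_one]; right; exact hx
    obtain ⟨n, rfl⟩ := mem_DD.1 hx
    have h2 := h _ (smul_mem_DD hy n⁻¹)
    have h3 : n • d * y = n • (d * n⁻¹ • y) := by rw [smul_mul', smul_inv_smul]
    rw [h3]
    rcases h2 with h2 | h2
    · right; exact smul_mem_DD h2 n
    · left; rw [h2, smul_one]

/-- the order of the orbit divides the order of the group -/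
theorem card_DD_dvd [Finite N] : (DD N d).card ∣ Nat.card N := by
  classical
  haveI := Fintype.ofFinite N
  have h := fib (N := N) (univ : Finset N) (fun _ _ _ => mem_univ _) (fun n => n • d) (fun m n => mul_smul m n d) (DD N d)
    (fun n _ => mem_DD.2 ⟨n, rfl⟩) d (fun b hb => mem_DD.1 hb)
  rw [Finset.card_univ, ← Nat.card_eq_fintype_card] at h
  exact ⟨_, h⟩

/-- an element of order 211 or 257 acts trivially -/
theorem triv_of_order {p : ℕ} (hp : p = 211 ∨ p = 257) {g : N} (hg : orderOf g = p) (a : A) : g • a = a := by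
  have hpp : p.Prime := by rcases hp with rfl | rfl <;> norm_num
  haveI : Fact p.Prime := ⟨hpp⟩
  have hP : IsPGroup p (Subgroup.zpowers g) :=
    IsPGroup.of_card (n := 1) (by rw [Nat.card_zpowers, hg, pow_one])
  have h1 := hP.card_modEq_card_fixedPoints A
  rw [Nat.card_eq_fintype_card, O.cA] at h1
  -- the fixed points form a subgroup
  set S : Subgroup A :=
    { carrier := MulAction.fixedPoints (Subgroup.zpowers g) A
      one_mem' := fun m => smul_one _
      mul_mem' := fun {x y} hx hy m => by rw [smul_mul', hx m, hy m]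
      inv_mem' := fun {x} hx m => by rw [smul_inv', hx m] } with hS
  have h2 : Nat.card S ∣ Nat.card A := Subgroup.card_subgroup_dvd_card S
  rw [Nat.card_eq_fintype_card (α := A), O.cA] at h2
  have h3 : Nat.card S = Nat.card (MulAction.fixedPoints (Subgroup.zpowers g) A) := rfl
  rw [← h3] at h1
  have h4 : (1024 : ℕ) = 2 ^ 10 := by norm_num
  rw [h4] at h2
  obtain ⟨i, hi, hi2⟩ := (Nat.dvd_prime_pow Nat.prime_two).1 h2
  rw [hi2] at h1
  have hi10 : i = 10 := by
    rcases hp with rfl | rfl
    · unfold Nat.ModEq at h1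
      interval_cases i <;> simp_all
    · unfold Nat.ModEq at h1
      interval_cases i <;> simp_all
  have h5 : S = ⊤ := by
    apply Subgroup.eq_top_of_card_eq
    rw [hi2, hi10, Nat.card_eq_fintype_card, O.cA]
    norm_num
  have h6 : a ∈ S := by rw [h5]; exact Subgroup.mem_top a
  exact h6 ⟨g, Subgroup.mem_zpowers g⟩

theorem card_ne_one : (DD N d).card ≠ 1 := by
  intro h
  obtain ⟨n, hn⟩ := O.mov
  rw [Finset.card_eq_one] at h
  obtain ⟨a, ha⟩ := h
  have h1 : n • d ∈ DD N d := mem_DD.2 ⟨n, rfl⟩
  have h2 : d ∈ DD N d := d_mem_DD d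
  rw [ha, Finset.mem_singleton] at h1 h2
  exact hn (h1.trans h2.symm)

/-- the class `dT` is in the orbit -/
theorem dT_sub [Finite N] : dm d T ⊆ DD N d := by
  rcases inter_card (O.tr_dm O.tr_T) with h | h
  · exact h.1
  exfalso
  have hc := O.card_DD
  rw [h.2] at hc
  have c1 := O.card_ne_one
  -- order 211 or 771
  have hcy : ∀ p, p = 211 ∨ p = 257 → p ∣ (DD N d).card → False := by
    intro p hp hdv
    have hpp : p.Prime := by rcases hp with rfl | rfl <;> norm_num
    haveI : Fact p.Prime := ⟨hpp⟩
    obtain ⟨g, hg⟩ := exists_prime_orderOf_dvd_card' p (hdv.trans O.card_DD_dvd)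
    obtain ⟨a, ha⟩ := O.nop g (by rw [hg]; exact hp)
    exact ha (O.triv_of_order hp hg a)
  rcases inter_card O.tr_R2 with h2 | h2 <;> rcases inter_card (O.tr_dm O.tr_R2) with h3 | h3 <;>
    rcases inter_card O.tr3 with h4 | h4 <;>
    rw [h2.2, h3.2, h4.2] at hc <;> (try simp only [card_dm, O.card_R2, O.card_R3] at hc)
  -- both
  · have h5 := O.dvd_of_closed (by
      intro y hy
      rcases O.cases y with h' | h' | h' | h' | h' | h' | h'
      · rw [h'] at hy; exact absurd hy O.one_notin_DD
      · right; rw [h']; exact O.sq d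
      · exact absurd hy (O.LA h')
      · exact absurd hy (Finset.disjoint_left.1 h.1 h')
      · left; exact h3.1 (mem_dm.2 ⟨y, h', rfl⟩)
      · left; exact h2.1 ((O.mem_dm').1 h')
      · left; exact h4.1 (O.d_R3 h'))
    rw [hc] at h5
    norm_num at h5
  · have h5 := O.dvd_of_closed (by
      intro y hy
      rcases O.cases y with h' | h' | h' | h' | h' | h' | h'
      · rw [h'] at hy; exact absurd hy O.one_notin_DD
      · right; rw [h']; exact O.sq d
      · exact absurd hy (O.LA h')
      · exact absurd hy (Finset.disjoint_left.1 h.1 h')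
      · left; exact h3.1 (mem_dm.2 ⟨y, h', rfl⟩)
      · left; exact h2.1 ((O.mem_dm').1 h')
      · exact absurd hy (Finset.disjoint_left.1 h4.1 h'))
    rw [hc] at h5
    norm_num at h5
  · exact hcy 257 (Or.inr rfl) ⟨3, by omega⟩
  · exact hcy 211 (Or.inl rfl) ⟨1, by omega⟩
  · exact hcy 257 (Or.inr rfl) ⟨3, by omega⟩
  · exact hcy 211 (Or.inl rfl) ⟨1, by omega⟩
  · have h5 := O.dvd_of_closed (by
      intro y hy
      rcases O.cases y with h' | h' | h' | h' | h' | h' | h'
      · rw [h'] at hy; exact absurd hy O.one_notin_DD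
      · right; rw [h']; exact O.sq d
      · exact absurd hy (O.LA h')
      · exact absurd hy (Finset.disjoint_left.1 h.1 h')
      · exact absurd hy (Finset.disjoint_left.1 h2.1 h')
      · exact absurd hy (Finset.disjoint_left.1 h3.1 h')
      · left; exact h4.1 (O.d_R3 h'))
    rw [hc] at h5
    norm_num at h5
  · exact c1 hc

end OS

end Cfsg.Agent.Lib.H89ED
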