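import Cfsg.Agent.Lib.H89ED2
/-
Fusion in an elementary abelian group of order 1024 with a point stabilizer acting with orbits 1, 21, 21, 210, 210, 560:
the orbit has length 22, second part (helper89).
-/
set_option autoImplicit false
set_option linter.all false

namespace Cfsg.Agent.Lib.H89ED

open Finset

namespace OS

variable {N A : Type*} [Group N] [Group A] [MulDistribMulAction N A] [Fintype A] [DecidableEq A]
  {d : A} {T : Finset A} (O : OS N d T)
include O

/-- the relation is symmetric -/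
theorem sym [Finite N] {x y : A} (h : Rel N d (dm d T) x y) : Rel N d (dm d T) y x := by
  classical
  have hsub := O.dT_sub
  have key : ∀ x ∈ dm d T, Rel N d (dm d T) x d := by
    set P : Finset A := univ.filter (fun x => Rel N d (dm d T) x d) with hP
    have hPi : Inv N d P := by
      intro n hn x hx
      rw [hP, Finset.mem_filter] at hx ⊢
      have := hx.2.smul n
      rw [hn] at this
      exact ⟨mem_univ _, this⟩
    set Z : Finset (A × A) := univ.filter (fun z => Rel N d (dm d T) z.1 z.2) with hZ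
    have hZi : ∀ n : N, ∀ z ∈ Z, n • z ∈ Z := by
      intro n z hz
      rw [hZ, Finset.mem_filter] at hz ⊢
      exact ⟨mem_univ _, hz.2.smul n⟩
    have c1 := fib (N := N) Z hZi Prod.fst (fun _ _ => rfl) (DD N d) (by
      intro z hz
      rw [hZ, Finset.mem_filter] at hz
      exact hz.2.left) d (fun b hb => mem_DD.1 hb)
    have c2 := fib (N := N) Z hZi Prod.snd (fun _ _ => rfl) (DD N d) (by
      intro z hz
      rw [hZ, Finset.mem_filter] at hz
      exact hz.2.right hsub) d (fun b hb => mem_DD.1 hb)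
    have e1 : (Z.filter (fun z => z.1 = d)).card = 21 := by
      rw [← O.cT, ← card_dm d T]
      refine Finset.card_bij (fun z _ => z.2) ?_ ?_ ?_
      · intro z hz
        rw [Finset.mem_filter, hZ, Finset.mem_filter] at hz
        have := hz.1.2
        rw [hz.2] at this
        exact (rel_d (O.inv_dm O.inv)).1 this
      · rintro ⟨z, z'⟩ hz ⟨w, w'⟩ hw h
        rw [Finset.mem_filter] at hz hw
        exact Prod.ext (hz.2.trans hw.2.symm) h
      · intro a ha
        refine ⟨(d, a), ?_, rfl⟩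
        rw [Finset.mem_filter, hZ, Finset.mem_filter]
        exact ⟨⟨mem_univ _, (rel_d (O.inv_dm O.inv)).2 ha⟩, rfl⟩
    have e2 : (Z.filter (fun z => z.2 = d)).card = P.card := by
      refine Finset.card_bij (fun z _ => z.1) ?_ ?_ ?_
      · intro z hz
        rw [Finset.mem_filter, hZ, Finset.mem_filter] at hz
        have := hz.1.2
        rw [hz.2] at this
        rw [hP, Finset.mem_filter]
        exact ⟨mem_univ _, this⟩
      · rintro ⟨z, z'⟩ hz ⟨w, w'⟩ hw h
        rw [Finset.mem_filter] at hz hw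
        exact Prod.ext h (hz.2.trans hw.2.symm)
      · intro a ha
        rw [hP, Finset.mem_filter] at ha
        refine ⟨(a, d), ?_, rfl⟩
        rw [Finset.mem_filter, hZ, Finset.mem_filter]
        exact ⟨⟨mem_univ _, ha.2⟩, rfl⟩
    rw [e1] at c1
    rw [e2, c1] at c2
    have hD : 0 < (DD N d).card := Finset.card_pos.2 ⟨d, d_mem_DD d⟩
    have hPc : P.card = 21 := (Nat.eq_of_mul_eq_mul_left hD c2).symm
    have big : ∀ {R : Finset A}, Tr N d R → 21 < R.card → ∀ x ∈ R, x ∉ P := by
      intro R hR hc x hx hxP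
      rcases sub_or hR hPi with h | h
      · have := Finset.card_le_card h
        omega
      · exact Finset.disjoint_left.1 h hx hxP
    have hPs : P ⊆ dm d T := by
      intro x hx
      have hx' := hx
      rw [hP, Finset.mem_filter] at hx'
      rcases O.cases x with h | h | h | h | h | h | h
      · have := hx'.2.left
        rw [h] at this; exact absurd this O.one_notin_DD
      · have := hx'.2
        rw [h, rel_d (O.inv_dm O.inv), O.mem_dm', O.sq] at this
        exact absurd this O.oneT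
      · exact absurd hx'.2.left (O.LA h)
      · exact h
      · exact absurd hx (big O.tr_R2 (by rw [O.card_R2]; norm_num) x h)
      · exact absurd hx (big (O.tr_dm O.tr_R2) (by rw [card_dm, O.card_R2]; norm_num) x h)
      · exact absurd hx (big O.tr3 (by rw [O.card_R3]; norm_num) x h)
    have hPe : P = dm d T := Finset.eq_of_subset_of_card_le hPs (by rw [card_dm, O.cT, hPc])
    intro x hx
    rw [← hPe, hP, Finset.mem_filter] at hx
    exact hx.2
  obtain ⟨n, rfl, p, hp, rfl⟩ := h
  exact (key p hp).smul n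

/-- the counting argument for pairs -/
theorem pairs_false {a b c : A} (ha : a ∈ T) (hb : b ∈ T) (hab : b ≠ a) (hy : Rel N d T (d * a) a)
    (hc : ∀ n : N, n • d = d → n • a = a → n • c = c) (h2 : Rel N d (R2 T) (d * a) (c * b))
    (hno : ∀ b' ∈ T, b' ≠ a → ¬ Rel N d T (d * a) (c * b' * a)) : False := by
  classical
  obtain ⟨m, hm, r, hr, hmr⟩ := h2
  obtain ⟨u₀, hu₀, v₀, hv₀, huv₀, rfl⟩ := mem_R2.1 hr
  set y := d * a with hydef
  have rT : ∀ {x : A}, Rel N d T y x ↔ m⁻¹ • x ∈ T := fun {x} => rel_iff O.inv hm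
  set u := m • u₀ with hu
  set v := m • v₀ with hv
  have huT : Rel N d T y u := by rw [rT, hu, inv_smul_smul]; exact hu₀
  have hvT : Rel N d T y v := by rw [rT, hv, inv_smul_smul]; exact hv₀
  have huv : u * v = c * b := by rw [← hmr, smul_mul']
  have huva : u ≠ a := by
    intro h
    apply hno b hb hab
    have h1 : c * b * a = v := by rw [← huv, h, O.mul_self_cancel]
    rw [h1]; exact hvT
  have hvua : v ≠ a := by
    intro h
    apply hno b hb hab
    have h1 : c * b * a = u := by rw [← huv, h, mul_assoc, O.sq, mul_one]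
    rw [h1]; exact huT
  set a₁ := m⁻¹ • a with ha₁
  have ha₁T : a₁ ∈ T := rT.1 hy
  have hma : m • a₁ = a := smul_inv_smul m a
  have hda : y * a = d := by rw [hydef, mul_assoc, O.sq, mul_one]
  -- elements fixing `y` and `a` also fix `d`
  have fixd : ∀ n : N, n • y = y → n • a = a → n • d = d := by
    intro n h3 h4
    rw [← hda, smul_mul', h3, h4]
  have fixy : ∀ n : N, n • d = d → n • a = a → n • y = y := by
    intro n h3 h4
    rw [hydef, smul_mul', h3, h4]
  set N' : Subgroup N := MulAction.stabilizer N d ⊓ MulAction.stabilizer N a with hN'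
  have memN' : ∀ n : N, n ∈ N' ↔ n • d = d ∧ n • a = a := fun n => Iff.rfl
  set Z : Finset (A × A) := univ.filter (fun z => z.1 ∈ T ∧ z.1 ≠ a ∧ Rel N d T y z.2 ∧ Rel N d T y (c * z.1 * z.2)) with hZ
  have hZi : ∀ n : N', ∀ z ∈ Z, n • z ∈ Z := by
    rintro ⟨n, hn⟩ ⟨z1, z2⟩ hz
    rw [hZ, Finset.mem_filter] at hz ⊢
    obtain ⟨hn1, hn2⟩ := (memN' n).1 hn
    obtain ⟨_, hz1, hz2, hz3, hz4⟩ := hz
    have hny := fixy n hn1 hn2
    refine ⟨mem_univ _, O.inv n hn1 z1 hz1, ?_, ?_, ?_⟩
    · intro h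
      apply hz2
      have : n • z1 = n • a := by rw [hn2]; exact h
      exact smul_left_cancel n this
    · have := hz3.smul n
      rw [hny] at this; exact this
    · have := hz4.smul n
      rw [hny, smul_mul', smul_mul', hc n hn1 hn2] at this; exact this
  have c1 := fib (N := N') Z hZi Prod.fst (fun _ _ => rfl) (T.erase a) (by
    intro z hz
    rw [hZ, Finset.mem_filter] at hz
    exact Finset.mem_erase.2 ⟨hz.2.2.1, hz.2.1⟩) b (by
    intro b' hb'
    rw [Finset.mem_erase] at hb'
    obtain ⟨n, h3, h4, h5⟩ := O.two a ha b hb a ha b' hb'.2 (Ne.symm hab) (Ne.symm hb'.1)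
    exact ⟨⟨n, h3, h4⟩, h5⟩)
  set TY : Finset A := univ.filter (fun u' => Rel N d T y u' ∧ u' ≠ a) with hTY
  have cTY : TY.card = 20 := by
    have h3 : (T.erase a₁).card = 20 := by rw [Finset.card_erase_of_mem ha₁T, O.cT]
    rw [← h3]
    symm
    refine Finset.card_bij (fun x _ => m • x) ?_ ?_ ?_
    · intro x hx
      rw [Finset.mem_erase] at hx
      rw [hTY, Finset.mem_filter]
      refine ⟨mem_univ _, ?_, ?_⟩
      · rw [rT, inv_smul_smul]; exact hx.2
      · intro h
        apply hx.1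
        rw [ha₁, ← h, inv_smul_smul]
    · intro x _ x' _ h; exact smul_left_cancel m h
    · intro x hx
      rw [hTY, Finset.mem_filter] at hx
      refine ⟨m⁻¹ • x, ?_, smul_inv_smul m x⟩
      rw [Finset.mem_erase]
      refine ⟨fun h => hx.2.2 (smul_left_cancel m⁻¹ h), rT.1 hx.2.1⟩
  have c2 := fib (N := N') Z hZi Prod.snd (fun _ _ => rfl) TY (by
    rintro ⟨b', u'⟩ hz
    rw [hZ, Finset.mem_filter] at hz
    rw [hTY, Finset.mem_filter]
    refine ⟨mem_univ _, hz.2.2.2.1, ?_⟩
    intro h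
    have h' : u' = a := h
    apply hno b' hz.2.1 hz.2.2.1
    have := hz.2.2.2.2
    rw [h'] at this
    exact this) u (by
    intro u' hu'
    rw [hTY, Finset.mem_filter] at hu'
    have hu'T := rT.1 hu'.2.1
    have e1 : a₁ ≠ u₀ := by
      intro h; apply huva; rw [hu, ← h, hma]
    have e2 : a₁ ≠ m⁻¹ • u' := by
      intro h; exact hu'.2.2 (smul_left_cancel m⁻¹ h.symm)
    obtain ⟨n, h3, h4, h5⟩ := O.two a₁ ha₁T u₀ hu₀ a₁ ha₁T (m⁻¹ • u') hu'T e1 e2
    have f1 : (m * n * m⁻¹) • y = y := by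
      rw [mul_smul, mul_smul, ← hm, inv_smul_smul, h3]
    have f2 : (m * n * m⁻¹) • a = a := by
      rw [mul_smul, mul_smul, ← ha₁, h4, hma]
    refine ⟨⟨m * n * m⁻¹, fixd _ f1 f2, f2⟩, ?_⟩
    show (m * n * m⁻¹) • u = u'
    rw [mul_smul, mul_smul, hu, inv_smul_smul, h5, smul_inv_smul])
  rw [Finset.card_erase_of_mem ha, O.cT] at c1
  rw [cTY] at c2
  -- the fibre over `b` has at most two elements
  have f1 : (Z.filter (fun z => z.1 = b)).card ≤ 2 := by
    have h3 : Z.filter (fun z => z.1 = b) ⊆ {(b, u), (b, v)} := by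
      rintro ⟨b', u'⟩ hz
      rw [Finset.mem_filter, hZ, Finset.mem_filter] at hz
      obtain ⟨⟨_, hz1, hz2, hz3, hz4⟩, hz5⟩ := hz
      have hb' : b' = b := hz5
      subst hb'
      have h4 : (m⁻¹ • u') * (m⁻¹ • (c * b' * u')) = u₀ * v₀ := by
        rw [← smul_mul']
        have : u' * (c * b' * u') = c * b' := by rw [O.comm u', mul_assoc, O.sq, mul_one]
        rw [this, ← huv, hu, hv, ← smul_mul', inv_smul_smul]
      have h5 : m⁻¹ • u' = u₀ ∨ m⁻¹ • u' = v₀ := by
        have h6 : u₀ = m⁻¹ • u' ∨ u₀ = m⁻¹ • (c * b' * u') :=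
          O.uniq u₀ hu₀ v₀ hv₀ _ (rT.1 hz3) _ (rT.1 hz4) huv₀ h4.symm
        rcases h6 with h6 | h6
        · left; exact h6.symm
        · right
          rw [← h6, O.comm] at h4
          exact mul_left_cancel h4
      have h7 : u' = u ∨ u' = v := by
        rcases h5 with h5 | h5
        · left; rw [hu, ← h5, smul_inv_smul]
        · right; rw [hv, ← h5, smul_inv_smul]
      rw [Finset.mem_insert, Finset.mem_singleton]
      rcases h7 with rfl | rfl
      · left; rfl
      · right; rfl
    exact (Finset.card_le_card h3).trans (Finset.card_le_two)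
  -- the fibre over `u` has at least three elements
  have f2 : 3 ≤ (Z.filter (fun z => z.2 = u)).card := by
    have e1 : u₀ ≠ a₁ := by
      intro h; apply huva; rw [hu, h, hma]
    have e2 : v₀ ≠ a₁ := by
      intro h; apply hvua; rw [hv, h, hma]
    obtain ⟨n₁, n₂, n₃, hn₁, hn₂, hn₃, d12, d13, d23⟩ := O.three a₁ ha₁T u₀ hu₀ v₀ hv₀ (Ne.symm e1) e2 (Ne.symm huv₀)
    have fx : ∀ n : N, (n • d = d ∧ n • a₁ = a₁ ∧ n • u₀ = u₀) →
        (m * n * m⁻¹) • d = d ∧ (m * n * m⁻¹) • a = a ∧ (m * n * m⁻¹) • y = y ∧ (m * n * m⁻¹) • u = u ∧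
          (m * n * m⁻¹) • v = m • (n • v₀) := by
      rintro n ⟨h3, h4, h5⟩
      have g1 : (m * n * m⁻¹) • y = y := by rw [mul_smul, mul_smul, ← hm, inv_smul_smul, h3]
      have g2 : (m * n * m⁻¹) • a = a := by rw [mul_smul, mul_smul, ← ha₁, h4, hma]
      refine ⟨fixd _ g1 g2, g2, g1, ?_, ?_⟩
      · rw [mul_smul, mul_smul, hu, inv_smul_smul, h5]
      · rw [mul_smul, mul_smul, hv, inv_smul_smul]
    have mz : ∀ n : N, (n • d = d ∧ n • a₁ = a₁ ∧ n • u₀ = u₀) → ((m * n * m⁻¹) • b, u) ∈ Z.filter (fun z => z.2 = u) := by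
      intro n hn
      obtain ⟨g1, g2, g3, g4, g5⟩ := fx n hn
      rw [Finset.mem_filter, hZ, Finset.mem_filter]
      refine ⟨⟨mem_univ _, O.inv _ g1 b hb, ?_, huT, ?_⟩, rfl⟩
      · intro h
        apply hab
        have : (m * n * m⁻¹) • b = (m * n * m⁻¹) • a := by rw [g2]; exact h
        exact smul_left_cancel _ this
      · have h3 : c * (m * n * m⁻¹) • b * u = (m * n * m⁻¹) • v := by
          have h4 : (m * n * m⁻¹) • (c * b * u) = c * (m * n * m⁻¹) • b * u := by
            rw [smul_mul', smul_mul', hc _ g1 g2, g4]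
          rw [← h4, ← huv, O.mul_self_cancel]
        show Rel N d T y (c * (m * n * m⁻¹) • b * u)
        rw [h3]
        have := hvT.smul (m * n * m⁻¹)
        rw [g3] at this
        exact this
    have ne : ∀ n n' : N, (n • d = d ∧ n • a₁ = a₁ ∧ n • u₀ = u₀) → (n' • d = d ∧ n' • a₁ = a₁ ∧ n' • u₀ = u₀) →
        n • v₀ ≠ n' • v₀ → ((m * n * m⁻¹) • b, u) ≠ ((m * n' * m⁻¹) • b, u) := by
      intro n n' hn hn' hne h
      obtain ⟨g1, g2, g3, g4, g5⟩ := fx n hn
      obtain ⟨g1', g2', g3', g4', g5'⟩ := fx n' hn'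
      apply hne
      have h3 : (m * n * m⁻¹) • b = (m * n' * m⁻¹) • b := (Prod.mk.inj h).1
      have h4 : (m * n * m⁻¹) • v = (m * n' * m⁻¹) • v := by
        have h5 : v = u * (c * b) := by rw [← huv, ← mul_assoc, O.sq, one_mul]
        rw [h5, smul_mul', smul_mul', smul_mul', smul_mul', g4, g4', hc _ g1 g2, hc _ g1' g2', h3]
      rw [g5, g5'] at h4
      exact smul_left_cancel m h4
    have h3 : ({((m * n₁ * m⁻¹) • b, u), ((m * n₂ * m⁻¹) • b, u), ((m * n₃ * m⁻¹) • b, u)} : Finset (A × A)) ⊆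
        Z.filter (fun z => z.2 = u) := by
      intro z hz
      rw [Finset.mem_insert, Finset.mem_insert, Finset.mem_singleton] at hz
      rcases hz with rfl | rfl | rfl
      · exact mz _ hn₁
      · exact mz _ hn₂
      · exact mz _ hn₃
    have h4 : ({((m * n₁ * m⁻¹) • b, u), ((m * n₂ * m⁻¹) • b, u), ((m * n₃ * m⁻¹) • b, u)} : Finset (A × A)).card = 3 := by
      rw [Finset.card_eq_three]
      exact ⟨_, _, _, ne _ _ hn₁ hn₂ d12, ne _ _ hn₁ hn₃ d13, ne _ _ hn₂ hn₃ d23, rfl⟩
    rw [← h4]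
    exact Finset.card_le_card h3
  omega

end OS

end Cfsg.Agent.Lib.H89ED
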