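import Cfsg.Agent.Lib.H89ED3
/-
Fusion in an elementary abelian group of order 1024 with a point stabilizer acting with orbits 1, 21, 21, 210, 210, 560:
the orbit has length 22, final part (helper89).
-/
set_option autoImplicit false
set_option linter.all false

namespace Cfsg.Agent.Lib.H89ED

open Finset

namespace OS

variable {N A : Type*} [Group N] [Group A] [MulDistribMulAction N A] [Fintype A] [DecidableEq A]
  {d : A} {T : Finset A} (O : OS N d T)
include O

theorem coclique_false [Finite N] (h : ∀ a ∈ T, ∀ b ∈ T, a ≠ b → ¬ Rel N d (dm d T) (d * a) (d * b)) : False := by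
  classical
  have hsub := O.dT_sub
  have inD : ∀ a ∈ T, d * a ∈ DD N d := fun a ha => hsub (mem_dm.2 ⟨a, ha, rfl⟩)
  have selfT : ∀ a ∈ T, Rel N d T (d * a) a := by
    intro a ha
    have h1 : Rel N d (dm d T) d (d * a) := (rel_d (O.inv_dm O.inv)).2 (mem_dm.2 ⟨a, ha, rfl⟩)
    have h2 := O.sym h1
    rw [O.rel_dm O.inv, O.mul_self_cancel] at h2
    exact h2
  have key : ∀ a ∈ T, ∀ b ∈ T, Rel N d T (d * a) b := by
    intro a ha b hb
    by_cases hab : b = a
    · rw [hab]; exact selfT a ha
    have hya := selfT a ha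
    have fixy : ∀ n : N, n • d = d → n • a = a → n • (d * a) = d * a := by
      intro n h3 h4
      rw [smul_mul', h3, h4]
    have hyab : ∀ b' ∈ T, b' ≠ a → ¬ Rel N d T (d * a) (b' * a) := by
      intro b' hb' hne h3
      apply h a ha b' hb' (Ne.symm hne)
      rw [O.rel_dm O.inv]
      have : d * a * (d * b') = b' * a := by
        rw [O.comm b' a, mul_assoc, ← mul_assoc a d b', O.comm a d, mul_assoc, O.dd]
      rw [this]; exact h3
    rcases O.cases_at (inD a ha) b with h1 | h1 | h1 | h1 | h1 | h1 | h1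
    · rw [h1] at hb; exact absurd hb O.oneT
    · rw [h1] at hb; exact absurd hb (O.TdT a ha)
    · exact h1
    · exact absurd (h1.right hsub) (O.LA hb)
    · exfalso
      refine O.pairs_false (c := 1) ha hb hab hya (fun n _ _ => smul_one n) (by rw [one_mul]; exact h1) ?_
      intro b' hb' hne
      rw [one_mul]
      exact hyab b' hb' hne
    · exfalso
      rw [O.rel_dm O.inv_R2] at h1
      refine O.pairs_false (c := d * a) ha hb hab hya (fun n h3 h4 => fixy n h3 h4) h1 ?_
      intro b' hb' hne h3
      have h4 : d * a * b' * a = d * b' := by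
        rw [mul_assoc, mul_assoc, ← mul_assoc a b' a, O.mul_self_cancel]
      rw [h4] at h3
      obtain ⟨n, hn, p, hp, hnp⟩ := h3
      have h5 : d * b' ∈ DD N d := inD b' hb'
      apply O.LA hp
      have h6 : p = n⁻¹ • (d * b') := by rw [← hnp, inv_smul_smul]
      rw [h6]
      exact smul_mem_DD h5 n⁻¹
    · exfalso
      have hall : ∀ b' ∈ T, b' ≠ a → Rel N d (R3 d T) (d * a) b' := by
        intro b' hb' hne
        obtain ⟨n, h3, h4, h5⟩ := O.two a ha b hb a ha b' hb' (Ne.symm hab) (Ne.symm hne)
        have h6 := h1.smul n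
        rw [fixy n h3 h4, h5] at h6
        exact h6
      have hda : d * a ∈ dm d T := mem_dm.2 ⟨a, ha, rfl⟩
      have hc := dcount (N := N) (O.inv_dm O.inv) (O.tr_dm O.tr_T) O.inv_R3 O.tr3 hda
        (fun x y r => Rel N d (dm d T) x y ∧ Rel N d T x r ∧ Rel N d (R3 d T) y r)
        (fun m x y r h3 => ⟨h3.1.smul m, h3.2.1.smul m, h3.2.2.smul m⟩) (fun x y r h3 => h3.1) (fun x y r h3 => h3.2.2)
      have he : (univ.filter (fun r => Rel N d (dm d T) d (d * a) ∧ Rel N d T d r ∧ Rel N d (R3 d T) (d * a) r)) = T.erase a := by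
        ext r
        rw [Finset.mem_filter, Finset.mem_erase, rel_d O.inv, rel_d (O.inv_dm O.inv)]
        constructor
        · rintro ⟨_, _, h3, h4⟩
          refine ⟨?_, h3⟩
          rintro rfl
          obtain ⟨n, hn⟩ := mem_DD.1 (inD r ha)
          rw [rel_iff O.inv_R3 hn] at h4
          rw [rel_iff O.inv hn] at hya
          exact ((O.mem_R3).1 h4).2.2.1 hya
        · rintro ⟨h3, h4⟩
          exact ⟨mem_univ _, hda, h4, hall r h4 h3⟩
      rw [he, Finset.card_erase_of_mem ha, card_dm, O.cT, O.card_R3] at hc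
      norm_num at hc
  -- hence the sets at adjacent points coincide
  have key2 : ∀ a ∈ T, ∀ b, Rel N d T (d * a) b ↔ b ∈ T := by
    intro a ha
    have h1 : T = univ.filter (fun b => Rel N d T (d * a) b) := by
      apply Finset.eq_of_subset_of_card_le
      · intro b hb
        rw [Finset.mem_filter]
        exact ⟨mem_univ _, key a ha b hb⟩
      · obtain ⟨n, hn⟩ := mem_DD.1 (inD a ha)
        refine Finset.card_le_card_of_injOn (fun b => n⁻¹ • b) ?_ (fun x _ x' _ h => smul_left_cancel n⁻¹ h)
        intro b hb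
        rw [Finset.mem_coe, Finset.mem_filter] at hb
        exact (rel_iff O.inv hn).1 hb.2
    intro b
    constructor
    · intro hb; rw [h1, Finset.mem_filter]; exact ⟨mem_univ _, hb⟩
    · intro hb; exact key a ha b hb
  have step : ∀ x ∈ DD N d, ∀ t, Rel N d T x t → x * t ∈ DD N d ∧ ∀ b, Rel N d T (x * t) b ↔ Rel N d T x b := by
    intro x hx t ht
    obtain ⟨n, rfl⟩ := mem_DD.1 hx
    rw [rel_iff O.inv rfl] at ht
    set a := n⁻¹ • t with ha
    have e1 : n • d * t = n • (d * a) := by rw [smul_mul', ha, smul_inv_smul]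
    rw [e1]
    refine ⟨smul_mem_DD (inD a ht) n, ?_⟩
    intro b
    have h1 : Rel N d T (n • (d * a)) b ↔ Rel N d T (d * a) (n⁻¹ • b) := by
      rw [← rel_smul_iff n (x := d * a), smul_inv_smul]
    rw [h1, key2 a ht, rel_iff O.inv rfl]
  have clo : ∀ g ∈ Subgroup.closure (T : Set A), ∀ x, (x ∈ DD N d ∧ ∀ b, Rel N d T x b ↔ b ∈ T) →
      (x * g ∈ DD N d ∧ ∀ b, Rel N d T (x * g) b ↔ b ∈ T) := by
    intro g hg
    induction hg using Subgroup.closure_induction with
    | mem g hg =>
      rintro x ⟨hx, hx'⟩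
      obtain ⟨h1, h2⟩ := step x hx g ((hx' g).2 hg)
      exact ⟨h1, fun b => (h2 b).trans (hx' b)⟩
    | one => intro x hx; rw [mul_one]; exact hx
    | mul g g' _ _ ih ih' =>
      intro x hx
      rw [← mul_assoc]
      exact ih' _ (ih x hx)
    | inv g _ ih =>
      intro x hx
      rw [inv_eq_of_mul_eq_one_left (O.sq g)]
      exact ih x hx
  have := (clo d O.dcl d ⟨d_mem_DD d, fun b => rel_d O.inv⟩).1
  rw [O.sq] at this
  exact O.one_notin_DD this

/-- the orbit is a union of blocks of size 22 -/
theorem dvd22 [Finite N] : 22 ∣ (DD N d).card := by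
  classical
  have hsub := O.dT_sub
  have hclq : ∀ a ∈ T, ∀ b ∈ T, a ≠ b → Rel N d (dm d T) (d * a) (d * b) := by
    by_contra hcon
    push Not at hcon
    obtain ⟨a, ha, b, hb, hab, hne⟩ := hcon
    apply O.coclique_false
    intro a' ha' b' hb' hab' h
    apply hne
    obtain ⟨n, h3, h4, h5⟩ := O.two a' ha' b' hb' a ha b hb hab' hab
    have := h.smul n
    rw [smul_mul', smul_mul', h3, h4, h5] at this
    exact this
  set X : A → Finset A := fun x => insert x (univ.filter (fun y => Rel N d (dm d T) x y)) with hX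
  have memX : ∀ {x z}, z ∈ X x ↔ z = x ∨ Rel N d (dm d T) x z := by
    intro x z
    rw [hX]
    simp
  have irr : ∀ {x}, ¬ Rel N d (dm d T) x x := by
    intro x h
    obtain ⟨n, hn, p, hp, hnp⟩ := h
    have h1 : p = d := smul_left_cancel n (hnp.trans hn.symm)
    rw [h1, O.mem_dm', O.sq] at hp
    exact O.oneT hp
  have cX : ∀ x ∈ DD N d, (X x).card = 22 := by
    intro x hx
    obtain ⟨n, hn⟩ := mem_DD.1 hx
    show (insert x (univ.filter (fun y => Rel N d (dm d T) x y))).card = 22
    rw [Finset.card_insert_of_notMem (by simp [irr])]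
    have h1 : (univ.filter (fun y => Rel N d (dm d T) x y)).card = (dm d T).card := by
      symm
      refine Finset.card_bij (fun y _ => n • y) ?_ ?_ ?_
      · intro y hy
        rw [Finset.mem_filter]
        exact ⟨mem_univ _, n, hn, y, hy, rfl⟩
      · intro y _ y' _ h; exact smul_left_cancel n h
      · intro y hy
        rw [Finset.mem_filter] at hy
        exact ⟨n⁻¹ • y, (rel_iff (O.inv_dm O.inv) hn).1 hy.2, smul_inv_smul n y⟩
    rw [h1, card_dm, O.cT]
  have hXe : ∀ x ∈ DD N d, ∀ y ∈ X x, X y = X x := by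
    intro x hx y hy
    rcases memX.1 hy with rfl | hxy
    · rfl
    have hyD : y ∈ DD N d := hxy.right hsub
    symm
    apply Finset.eq_of_subset_of_card_le
    · intro z hz
      rw [memX] at hz ⊢
      rcases hz with rfl | hz
      · right; exact O.sym hxy
      by_cases hzy : z = y
      · left; exact hzy
      right
      obtain ⟨n, hn⟩ := mem_DD.1 hx
      rw [rel_iff (O.inv_dm O.inv) hn] at hxy hz
      obtain ⟨a, ha, hay⟩ := mem_dm.1 hxy
      obtain ⟨b, hb, hbz⟩ := mem_dm.1 hz
      have hab : a ≠ b := by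
        rintro rfl
        apply hzy
        rw [hay] at hbz
        exact (smul_left_cancel n⁻¹ hbz).symm
      have h1 := (hclq a ha b hb hab).smul n
      rw [hay, hbz, smul_inv_smul, smul_inv_smul] at h1
      exact h1
    · rw [cX x hx, cX y hyD]
  have h1 := Finset.card_eq_sum_card_image X (DD N d)
  have h2 : ∀ c ∈ (DD N d).image X, ((DD N d).filter (fun y => X y = c)).card = 22 := by
    intro c hc
    obtain ⟨x, hx, rfl⟩ := Finset.mem_image.1 hc
    have h3 : (DD N d).filter (fun y => X y = X x) = X x := by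
      ext y
      rw [Finset.mem_filter]
      constructor
      · rintro ⟨hy, h⟩
        rw [← h, memX]; left; rfl
      · intro hy
        refine ⟨?_, hXe x hx y hy⟩
        rcases memX.1 hy with rfl | h
        · exact hx
        · exact h.right hsub
    rw [h3, cX x hx]
  rw [Finset.sum_congr rfl h2, Finset.sum_const, smul_eq_mul] at h1
  exact ⟨_, by rw [h1, mul_comm]⟩

/-- the complement argument -/
theorem compl_false (h : ∀ z, z ∉ DD N d → z ≠ 1 → d * z ∈ DD N d) : 1024 - (DD N d).card ∣ 1024 := by
  have h1 : (univ \ DD N d).card = 1024 - (DD N d).card := by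
    rw [Finset.card_sdiff_of_subset (Finset.subset_univ _), Finset.card_univ, O.cA]
  rw [← h1]
  have h2 : ∀ x ∈ DD N d, ∀ z, z ∉ DD N d → z ≠ 1 → x * z ∈ DD N d := by
    intro x hx z hz hz1
    obtain ⟨n, rfl⟩ := mem_DD.1 hx
    have h3 := h (n⁻¹ • z) (fun h4 => hz (by
      have := smul_mem_DD h4 n
      rwa [smul_inv_smul] at this)) (fun h4 => hz1 (by
      have : n • (n⁻¹ • z) = n • (1 : A) := by rw [h4]
      rwa [smul_inv_smul, smul_one] at this))
    have h4 := smul_mem_DD h3 n
    rwa [smul_mul', smul_inv_smul] at h4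
  apply O.card_closed
  · rw [Finset.mem_sdiff]; exact ⟨mem_univ _, O.one_notin_DD⟩
  · intro x hx y hy
    rw [Finset.mem_sdiff] at hx hy ⊢
    refine ⟨mem_univ _, ?_⟩
    intro hxy
    by_cases hy1 : y = 1
    · rw [hy1, mul_one] at hxy; exact hx.2 hxy
    have := h2 _ hxy y hy.2 hy1
    rw [mul_assoc, O.sq, mul_one] at this
    exact hx.2 this

/-- **the orbit** -/
theorem orbit_eq [Finite N] : DD N d = insert d (dm d T) := by
  have hsub := O.dT_sub
  have hc := O.card_DD
  have h22 := O.dvd22
  have h1 : ((DD N d) ∩ dm d T).card = 21 := by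
    rw [Finset.inter_eq_right.2 hsub, card_dm, O.cT]
  rw [h1] at hc
  have h3 : (insert d (dm d T)).card = 22 := by
    rw [Finset.card_insert_of_notMem, card_dm, O.cT]
    rw [O.mem_dm', O.sq]; exact O.oneT
  have h2 : (DD N d).card = 22 → DD N d = insert d (dm d T) := by
    intro h2
    symm
    apply Finset.eq_of_subset_of_card_le
    · intro x hx
      rw [Finset.mem_insert] at hx
      rcases hx with rfl | hx
      · exact d_mem_DD _
      · exact hsub hx
    · rw [h2, h3]
  rcases inter_card O.tr_R2 with h4 | h4 <;> rcases inter_card (O.tr_dm O.tr_R2) with h5 | h5 <;>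
    rcases inter_card O.tr3 with h6 | h6 <;>
    rw [h4.2, h5.2, h6.2] at hc <;> (try simp only [card_dm, O.card_R2, O.card_R3] at hc)
  · omega
  · omega
  · exfalso
    have h7 := O.compl_false (by
      intro z hz hz1
      rcases O.cases z with h | h | h | h | h | h | h
      · exact absurd h hz1
      · exact absurd (by rw [h]; exact d_mem_DD d) hz
      · exact hsub (mem_dm.2 ⟨z, h, rfl⟩)
      · exact absurd (hsub h) hz
      · exact absurd (h4.1 h) hz
      · exact h4.1 ((O.mem_dm').1 h)
      · exact absurd (h6.1 h) hz)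
    rw [hc] at h7
    norm_num at h7
  · omega
  · exfalso
    have h7 := O.compl_false (by
      intro z hz hz1
      rcases O.cases z with h | h | h | h | h | h | h
      · exact absurd h hz1
      · exact absurd (by rw [h]; exact d_mem_DD d) hz
      · exact hsub (mem_dm.2 ⟨z, h, rfl⟩)
      · exact absurd (hsub h) hz
      · exact h5.1 (mem_dm.2 ⟨z, h, rfl⟩)
      · exact absurd (h5.1 h) hz
      · exact absurd (h6.1 h) hz)
    rw [hc] at h7
    norm_num at h7
  · omega
  · omega
  · exact h2 (by omega)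

end OS

end Cfsg.Agent.Lib.H89ED
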