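import Cfsg.Agent.Lib.H89EC5
/-
Double covers of the unitary group of dimension six over the field with four elements: normal forms of the products of
the lifts in a totally isotropic 3-space (helper89).
-/
set_option autoImplicit false
set_option linter.all false

namespace Cfsg.Agent.Lib.H89EC

open Module Cfsg Cfsg.Agent.Lib.UnTrans Cfsg.Agent.Lib.UnBridge Cfsg.Agent.Lib.U6Class Cfsg.Agent.Lib.H89EA Cfsg.Agent.Lib.H89EB
open Cfsg.Agent.Lib.SpTrans (isom mem_isom)

universe v w w'

variable {F : Type} [Field F] [Fintype F] [CharP F 2] {V : Type v} [AddCommGroup V] [Module F V] {f : V → V → F}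
  {hF : Fintype.card F = 2 ^ 2} {H : HS (sig hF) f} {C : Type w'} {Q : Type w} [Group C] [Group Q]
  {π : SS f →* Q} {D : Set Q} {φ : C →* Q} {d : C} {E : Set C}

/-! ### linear algebra -/

theorem exists_avoid (S : Setup H Q π D) {a b p q : V} (hb : ∀ c : F, b ≠ c • a) (hp : ∀ c : F, p ≠ c • a)
    (hq : ∀ c : F, q ≠ c • a) : ∃ x, f x a = 0 ∧ f x b ≠ 0 ∧ f x p ≠ 0 ∧ f x q ≠ 0 := by
  classical
  have two : ∃ x, f x a = 0 ∧ f x b ≠ 0 ∧ f x p ≠ 0 := by
    obtain ⟨x₁, h1, h2⟩ := exists_perp_ne S hb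
    obtain ⟨x₂, h3, h4⟩ := exists_perp_ne S hp
    by_cases h5 : f x₁ p = 0
    · by_cases h6 : f x₂ b = 0
      · refine ⟨x₁ + x₂, ?_, ?_, ?_⟩
        · rw [H.add_left, h1, h3, add_zero]
        · rw [H.add_left, h6, add_zero]; exact h2
        · rw [H.add_left, h5, zero_add]; exact h4
      · exact ⟨x₂, h3, h6, h4⟩
    · exact ⟨x₁, h1, h2, h5⟩
  obtain ⟨x, h1, h2, h3⟩ := two
  obtain ⟨y, h4, h5⟩ := exists_perp_ne S hq
  by_cases h6 : f x q = 0
  · obtain ⟨t, _, ht⟩ : ∃ t ∈ (Finset.univ : Finset F), t ∉ ({0, -(f x b / f y b), -(f x p / f y p)} : Finset F) := by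
      apply Finset.exists_mem_notMem_of_card_lt_card
      rw [Finset.card_univ, hF]
      exact lt_of_le_of_lt Finset.card_le_three (by norm_num)
    simp only [Finset.mem_insert, Finset.mem_singleton, not_or] at ht
    have key : ∀ u : V, f x u ≠ 0 → t ≠ -(f x u / f y u) → f (x + t • y) u ≠ 0 := by
      intro u h7 h8 h9
      rw [H.add_left, H.smul_left] at h9
      by_cases h10 : f y u = 0
      · rw [h10, mul_zero, add_zero] at h9; exact h7 h9
      · apply h8
        field_simp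
        linear_combination h9
    refine ⟨x + t • y, ?_, key b h2 ht.2.1, key p h3 ht.2.2, ?_⟩
    · rw [H.add_left, H.smul_left, h1, h4, mul_zero, add_zero]
    · rw [H.add_left, H.smul_left, h6, zero_add]
      exact mul_ne_zero ht.1 h5
  · exact ⟨x, h1, h2, h3, h6⟩

theorem nrm (hF : Fintype.card F = 2 ^ 2) {c : F} (hc : c ≠ 0) : c * sig hF c = 1 := by
  have h1 := FiniteField.pow_card_sub_one_eq_one c hc
  rw [hF] at h1
  rw [sig_apply]
  calc c * c ^ 2 = c ^ (2 ^ 2 - 1) := by norm_num; ring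
    _ = 1 := h1

/-- uniqueness of products of two members -/
theorem uniq2 (S : Setup H Q π D) {W : Submodule F V} (hW : TI f W) {a b p q : V} (ha : a ∈ W) (hb : b ∈ W) (hp : p ∈ W)
    (hq : q ∈ W) (ha0 : a ≠ 0) (hab : ∀ c : F, b ≠ c • a)
    (h : P π H S.fin a (hW.iso _ ha _ ha) * P π H S.fin b (hW.iso _ hb _ hb) =
      P π H S.fin p (hW.iso _ hp _ hp) * P π H S.fin q (hW.iso _ hq _ hq)) :
    (∃ c : F, p = c • a) ∨ (∃ c : F, q = c • a) := by
  by_contra hcon
  push Not at hcon
  obtain ⟨x, hxa, hxb, hxp, hxq⟩ := exists_avoid S hab hcon.1 hcon.2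
  rw [P, P, P, P, ← map_mul, ← map_mul, S.eq_iff] at h
  obtain ⟨μ, hμ⟩ := h
  have e1 : ∀ x, tr H a (hW.iso _ ha _ ha) (tr H b (hW.iso _ hb _ hb) x) =
      μ • tr H p (hW.iso _ hp _ hp) (tr H q (hW.iso _ hq _ hq) x) := hμ
  have h3 := e1 a
  rw [tr_apply (w := b), hW.iso a ha b hb, zero_smul, add_zero, tr_apply, hW.iso a ha a ha, zero_smul, add_zero,
    tr_apply (w := q), hW.iso a ha q hq, zero_smul, add_zero, tr_apply, hW.iso a ha p hp, zero_smul, add_zero] at h3
  have hμ1 : μ = 1 := by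
    by_contra hne
    apply ha0
    have : (1 - μ) • a = 0 := by rw [sub_smul, one_smul, ← h3, sub_self]
    rcases smul_eq_zero.1 this with h | h
    · exact absurd (sub_eq_zero.1 h).symm hne
    · exact h
  have h4 := e1 x
  rw [hμ1, one_smul, tr_apply (w := b), tr_apply (w := a), tr_apply (w := q), tr_apply (w := p), H.add_left, H.smul_left, hxa,
    hW.iso b hb a ha, mul_zero, add_zero, zero_smul, add_zero, H.add_left, H.smul_left, hW.iso q hq p hp, mul_zero, add_zero] at h4
  have h5 : f x b • b = f x q • q + f x p • p := by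
    rw [add_assoc] at h4
    exact add_left_cancel h4
  have h6 := congrArg (fun z => f x z) h5
  simp only [H.add_right, H.smul_right] at h6
  rw [mul_comm, nrm hF hxb, mul_comm, nrm hF hxq, mul_comm, nrm hF hxp, fadd_self] at h6
  exact one_ne_zero h6

end Cfsg.Agent.Lib.H89EC
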