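import Cfsg.Agent.Lib.H89EE0
/-
Double covers of the unitary group of dimension six over the field with four elements: normal forms of the products of
the lifts in a totally isotropic 3-space, second part (helper89).
-/
set_option autoImplicit false
set_option linter.all false

namespace Cfsg.Agent.Lib.H89EC

open Module Cfsg Cfsg.Agent.Lib.UnTrans Cfsg.Agent.Lib.UnBridge Cfsg.Agent.Lib.U6Class Cfsg.Agent.Lib.H89EA Cfsg.Agent.Lib.H89EB
open Cfsg.Agent.Lib.SpTrans (isom mem_isom)

universe v w w'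

variable {F : Type} [Field F] [Fintype F] [CharP F 2] {V : Type v} [AddCommGroup V] [Module F V] {f : V → V → F}
  {hF : Fintype.card F = 2 ^ 2} {H : HS (sig hF) f} {C : Type w'} {Q : Type w} [Group C] [Group Q]
  {π : SS f →* Q} {D : Set Q} {φ : C →* Q} {d : C} {E : Set C}

/-! ### bases -/

theorem span_eq_of_li {W : Submodule F V} (hW : finrank F W = 3) {w : Fin 3 → V} (hw : ∀ i, w i ∈ W)
    (hli : LinearIndependent F w) [FiniteDimensional F V] : Submodule.span F (Set.range w) = W := by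
  apply Submodule.eq_of_le_of_finrank_eq
  · rw [Submodule.span_le]
    rintro _ ⟨i, rfl⟩
    exact hw i
  · rw [finrank_span_eq_card hli, hW, Fintype.card_fin]

theorem exists_basis {W : Submodule F V} (hW : TI f W) [FiniteDimensional F V] : ∃ w : Fin 3 → V, (∀ i, w i ∈ W) ∧ LinearIndependent F w := by
  set b := Module.finBasisOfFinrankEq F W hW.dim
  refine ⟨fun i => (b i : V), fun i => (b i).2, ?_⟩
  exact b.linearIndependent.map' W.subtype (Submodule.ker_subtype W)

theorem li_of_dual (H : HS (sig hF) f) {r : ℕ} {w y : Fin r → V} (h : ∀ i j, f (w i) (y j) = if i = j then 1 else 0) :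
    LinearIndependent F w := by
  rw [Fintype.linearIndependent_iff]
  intro c hc j
  have h1 : f (∑ i, c i • w i) (y j) = c j := by
    have h2 : ∀ (T : Finset (Fin r)), f (∑ i ∈ T, c i • w i) (y j) = ∑ i ∈ T, c i * f (w i) (y j) := by
      intro T
      induction T using Finset.induction_on with
      | empty => rw [Finset.sum_empty, Finset.sum_empty, H.zero_left]
      | insert i T hi ih => rw [Finset.sum_insert hi, Finset.sum_insert hi, H.add_left, ih, H.smul_left]
    rw [h2]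
    simp [h]
  rw [← h1, hc, H.zero_left]

/-- transitivity on independent triples, with lifts -/
theorem exists_g (K : Cov φ d D E) (S : Setup H Q π D) {W W' : Submodule F V} (hW : TI f W) (hW' : TI f W') {w w' : Fin 3 → V}
    (hw : ∀ i, w i ∈ W) (hli : LinearIndependent F w) (hw' : ∀ i, w' i ∈ W') (hli' : LinearIndependent F w') :
    ∃ (g : C) (s : SS f) (c : F), φ g = π s ∧ c ≠ 0 ∧ (s : V ≃ₗ[F] V) (w 0) = w' 0 ∧ (s : V ≃ₗ[F] V) (w 1) = w' 1 ∧
      (s : V ≃ₗ[F] V) (w 2) = c • w' 2 ∧ ∀ v ∈ W, (s : V ≃ₗ[F] V) v ∈ W' := by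
  haveI := S.fin
  obtain ⟨s, c, hc, hs⟩ := exists_ss' (hv_of S) (fun i j => hW.iso _ (hw i) _ (hw j)) hli
    (fun i j => hW'.iso _ (hw' i) _ (hw' j)) hli' 2
  obtain ⟨g, hg⟩ := K.surj (π s)
  have h0 : (s : V ≃ₗ[F] V) (w 0) = w' 0 := by rw [hs]; rfl
  have h1 : (s : V ≃ₗ[F] V) (w 1) = w' 1 := by rw [hs]; rfl
  have h2 : (s : V ≃ₗ[F] V) (w 2) = c • w' 2 := by rw [hs]; rfl
  refine ⟨g, s, c, hg, hc, h0, h1, h2, ?_⟩
  rw [← span_eq_of_li hW.dim hw hli]
  apply maps_span
  intro i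
  fin_cases i
  · show (s : V ≃ₗ[F] V) (w 0) ∈ W'
    rw [h0]; exact hw' 0
  · show (s : V ≃ₗ[F] V) (w 1) ∈ W'
    rw [h1]; exact hw' 1
  · show (s : V ≃ₗ[F] V) (w 2) ∈ W'
    rw [h2]; exact W'.smul_mem c (hw' 2)

/-- the central involution is in the group attached to every totally isotropic 3-space -/
theorem d_mem_all [Finite C] (K : Cov φ d D E) (S : Setup H Q π D) (hperf : commutator C = ⊤)
    (hcard : Nat.card Q = 9196830720) {w y : Fin 3 → V} (B : HB f w y) {W : Submodule F V} (hW : TI f W) :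
    d ∈ LW K S W := by
  haveI := S.fin
  obtain ⟨W', hW', hd⟩ := exists_d_mem K S hperf hcard B
  obtain ⟨u, hu, hul⟩ := exists_basis hW
  obtain ⟨u', hu', hul'⟩ := exists_basis hW'
  obtain ⟨g, s, c, hg, hc, _, _, _, hs⟩ := exists_g K S hW' hW hu' hul' hu hul
  have h := conj_LW K S hg hs hd
  rwa [← K.dc, mul_assoc, mul_inv_cancel, mul_one] at h

/-! ### no relation with five factors -/

theorem no_rel5 (S : Setup H Q π D) {W : Submodule F V} (hW : TI f W) {w : Fin 3 → V} (hw : ∀ i, w i ∈ W)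
    (hli : LinearIndependent F w) {p q : V} (hp : p ∈ W) (hq : q ∈ W)
    (h : P π H S.fin (w 0) (hW.iso _ (hw 0) _ (hw 0)) * P π H S.fin (w 1) (hW.iso _ (hw 1) _ (hw 1)) *
      P π H S.fin (w 2) (hW.iso _ (hw 2) _ (hw 2)) =
      P π H S.fin p (hW.iso _ hp _ hp) * P π H S.fin q (hW.iso _ hq _ hq)) : False := by
  haveI := S.fin
  obtain ⟨y, B⟩ := exists_HBext (hv_of S) (fun i j => hW.iso _ (hw i) _ (hw j)) hli
  -- a vector orthogonal to `p` and `q`
  obtain ⟨x, hxY, hx0, hxp, hxq⟩ : ∃ x ∈ Submodule.span F (Set.range y), x ≠ 0 ∧ f x p = 0 ∧ f x q = 0 := by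
    set Y := Submodule.span F (Set.range y) with hY
    have h1 : finrank F Y = 3 := (B.swap H).finrank_span H
    have h2 : LinearMap.ker (((H.fl p).prod (H.fl q)).comp Y.subtype) ≠ ⊥ := by
      apply LinearMap.ker_ne_bot_of_finrank_lt
      rw [h1, finrank_prod, finrank_self]
      norm_num
    obtain ⟨z, hz, hz0⟩ := Submodule.exists_mem_ne_zero_of_ne_bot h2
    rw [LinearMap.mem_ker] at hz
    have h3 : (f z p, f z q) = (0, 0) := hz
    obtain ⟨h4, h5⟩ := Prod.mk.inj h3
    exact ⟨z, z.2, fun h => hz0 (Subtype.ext h), h4, h5⟩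
  rw [P, P, P, P, P, ← map_mul, ← map_mul, ← map_mul, S.eq_iff] at h
  obtain ⟨μ, hμ⟩ := h
  have e1 : ∀ x, tr H (w 0) (hW.iso _ (hw 0) _ (hw 0)) (tr H (w 1) (hW.iso _ (hw 1) _ (hw 1))
      (tr H (w 2) (hW.iso _ (hw 2) _ (hw 2)) x)) = μ • tr H p (hW.iso _ hp _ hp) (tr H q (hW.iso _ hq _ hq) x) := hμ
  have fixW : ∀ {v : V} (hv : v ∈ W) {u : V}, u ∈ W → tr H v (hW.iso _ hv _ hv) u = u := by
    intro v hv u hu
    rw [tr_apply, hW.iso u hu v hv, zero_smul, add_zero]
  have h3 := e1 (w 0)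
  rw [fixW (hw 2) (hw 0), fixW (hw 1) (hw 0), fixW (hw 0) (hw 0), fixW hq (hw 0), fixW hp (hw 0)] at h3
  have hμ1 : μ = 1 := by
    by_contra hne
    apply hli.ne_zero 0
    have : (1 - μ) • w 0 = 0 := by rw [sub_smul, one_smul, ← h3, sub_self]
    rcases smul_eq_zero.1 this with h | h
    · exact absurd (sub_eq_zero.1 h).symm hne
    · exact h
  have h4 := e1 x
  rw [hμ1, one_smul, tr_apply (w := q), hxq, zero_smul, add_zero, tr_apply (w := p), hxp, zero_smul, add_zero,
    tr_apply (w := w 2), map_add, map_smul, fixW (hw 1) (hw 2), map_add, map_smul, fixW (hw 0) (hw 2),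
    tr_apply (w := w 1), map_add, map_smul, fixW (hw 0) (hw 1), tr_apply (w := w 0)] at h4
  have h5 : f x (w 0) • w 0 + f x (w 1) • w 1 + f x (w 2) • w 2 = 0 := by
    have h6 : x + (f x (w 0) • w 0 + f x (w 1) • w 1 + f x (w 2) • w 2) = x + 0 := by
      rw [add_zero, ← add_assoc, ← add_assoc]
      exact h4
    exact add_left_cancel h6
  have h6 := Fintype.linearIndependent_iff.1 hli (fun i => f x (w i)) (by rw [Fin.sum_univ_three]; exact h5)
  apply hx0
  have h7 := decomp (hv_of S) B x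
  rw [h7]
  have h8 : ∀ i, f x (y i) = 0 := by
    intro i
    exact (B.swap H).span_iso H x hxY (y i) (Submodule.subset_span ⟨i, rfl⟩)
  simp only [h6, h8, zero_smul, Finset.sum_const_zero, add_zero]

/-! ### involutions -/

/-- normal form of an isometry of order two -/
theorem nv (S : Setup H Q π D) {s : SS f} (hss : ∀ x, (s : V ≃ₗ[F] V) ((s : V ≃ₗ[F] V) x) = x) :
    ∃ (r t : ℕ) (a b : Fin r → V) (c : Fin t → V), 6 = 2 * r + t ∧
      (∀ v, (s : V ≃ₗ[F] V) v = v + ∑ i, f v (a i) • a i) ∧ (∀ i j, f (a i) (a j) = 0) ∧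
      (∀ i j, f (a i) (b j) = if i = j then 1 else 0) ∧ (∀ i j, f (b i) (b j) = 0) ∧
      (∀ i k, f (a i) (c k) = 0) ∧ (∀ i k, f (b i) (c k) = 0) ∧ (∀ k l, f (c k) (c l) = if k = l then 1 else 0) ∧
      (∀ i, (s : V ≃ₗ[F] V) (b i) + b i = a i) := by
  haveI := S.fin
  have aa := vadd_self F (V := V)
  have hsi : ∀ x y, f ((s : V ≃ₗ[F] V) x) ((s : V ≃ₗ[F] V) y) = f x y := s.2.1
  obtain ⟨r, t, a, b, c, hdim', hN', haa, hab, hbb, hac, hbc, hcc⟩ := normal_vectors H S.nd (((s : V ≃ₗ[F] V) : V →ₗ[F] V) + LinearMap.id)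
    (by
      intro v
      show (s : V ≃ₗ[F] V) ((s : V ≃ₗ[F] V) v + v) + ((s : V ≃ₗ[F] V) v + v) = 0
      rw [map_add, hss, add_comm v]
      exact aa _)
    (by
      intro u v
      show f ((s : V ≃ₗ[F] V) u + u) v = f u ((s : V ≃ₗ[F] V) v + v)
      rw [H.add_left, H.add_right]
      congr 1
      rw [← hsi ((s : V ≃ₗ[F] V) u) v, hss])
  have hs' : ∀ v, (s : V ≃ₗ[F] V) v = v + ∑ i, f v (a i) • a i := by
    intro v
    have h1 : (s : V ≃ₗ[F] V) v + v = ∑ i, f v (a i) • a i := hN' v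
    rw [← h1]
    have : v + ((s : V ≃ₗ[F] V) v + v) = (s : V ≃ₗ[F] V) v + (v + v) := by abel
    rw [this, aa, add_zero]
  refine ⟨r, t, a, b, c, by rw [← S.dim]; exact hdim', hs', haa, hab, hbb, hac, hbc, hcc, ?_⟩
  intro j
  have h1 : (s : V ≃ₗ[F] V) (b j) + b j = ∑ i, f (b j) (a i) • a i := hN' (b j)
  have h2 : ∀ i, f (b j) (a i) = if i = j then 1 else 0 := by
    intro i
    rw [H.herm, hab]
    split_ifs
    · exact map_one _
    · exact map_zero _
  rw [h1, Finset.sum_eq_single j]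
  · rw [h2, if_pos rfl, one_smul]
  · intro i _ hi
    rw [h2, if_neg hi, zero_smul]
  · intro h; exact absurd (Finset.mem_univ j) h

theorem fix_of_sum {s : SS f} (H : HS (sig hF) f) {r : ℕ} {a : Fin r → V}
    (hs : ∀ v, (s : V ≃ₗ[F] V) v = v + ∑ i, f v (a i) • a i) {v : V} (h : ∀ i, f v (a i) = 0) :
    (s : V ≃ₗ[F] V) v = v := by
  rw [hs]
  simp only [h, zero_smul, Finset.sum_const_zero, add_zero]

/-- an isometry of order two fixes a totally isotropic 3-space pointwise -/
theorem exists_fixW (S : Setup H Q π D) {s : SS f} (hss : ∀ x, (s : V ≃ₗ[F] V) ((s : V ≃ₗ[F] V) x) = x) :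
    ∃ W : Submodule F V, TI f W ∧ ∀ v ∈ W, (s : V ≃ₗ[F] V) v = v := by
  haveI := S.fin
  obtain ⟨r, t, a, b, c, hdim, hs, haa, hab, hbb, hac, hbc, hcc, _⟩ := nv S hss
  have hca : ∀ k i, f (c k) (a i) = 0 := fun k i => by rw [H.herm, hac, map_zero]
  have hcb : ∀ k i, f (c k) (b i) = 0 := fun k i => by rw [H.herm, hbc, map_zero]
  have main : ∀ w y : Fin 3 → V, (∀ i j, f (w i) (w j) = 0) → (∀ i j, f (w i) (y j) = if i = j then 1 else 0) →
      (∀ i, (s : V ≃ₗ[F] V) (w i) = w i) → ∃ W : Submodule F V, TI f W ∧ ∀ v ∈ W, (s : V ≃ₗ[F] V) v = v := by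
    intro w y hw hwy hsw
    refine ⟨Submodule.span F (Set.range w), ⟨?_, ?_⟩, fix_span hsw⟩
    · rw [finrank_span_eq_card (li_of_dual H hwy), Fintype.card_fin]
    · intro x hx z hz
      obtain ⟨p, rfl⟩ := (Submodule.mem_span_range_iff_exists_fun F).1 hx
      obtain ⟨q, rfl⟩ := (Submodule.mem_span_range_iff_exists_fun F).1 hz
      simp only [Fin.sum_univ_three, H.add_left, H.add_right, H.smul_left, H.smul_right, hw, mul_zero, add_zero]
  have hr : r = 0 ∨ r = 1 ∨ r = 2 ∨ r = 3 := by omega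
  rcases hr with rfl | rfl | rfl | rfl
  · obtain rfl : t = 6 := by omega
    refine main ![c 0 + c 1, c 2 + c 3, c 4 + c 5] ![c 0, c 2, c 4] ?_ ?_ ?_
    · intro i j
      fin_cases i <;> fin_cases j <;> simp [H.add_left, H.add_right, hcc, fadd_self]
    · intro i j
      fin_cases i <;> fin_cases j <;> simp [H.add_left, H.add_right, hcc, fadd_self]
    · intro i
      apply fix_of_sum H hs
      intro j
      exact j.elim0
  · obtain rfl : t = 4 := by omega
    refine main ![a 0, c 0 + c 1, c 2 + c 3] ![b 0, c 0, c 2] ?_ ?_ ?_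
    · intro i j
      fin_cases i <;> fin_cases j <;> simp [H.add_left, H.add_right, hcc, fadd_self, haa, hac, hca]
    · intro i j
      fin_cases i <;> fin_cases j <;> simp [H.add_left, H.add_right, hcc, fadd_self, hab, hac, hca, hcb]
    · intro i
      apply fix_of_sum H hs
      intro j
      fin_cases i <;> simp [H.add_left, haa, hca]
  · obtain rfl : t = 2 := by omega
    refine main ![a 0, a 1, c 0 + c 1] ![b 0, b 1, c 0] ?_ ?_ ?_
    · intro i j
      fin_cases i <;> fin_cases j <;> simp [H.add_left, H.add_right, hcc, fadd_self, haa, hac, hca]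
    · intro i j
      fin_cases i <;> fin_cases j <;> simp [H.add_left, H.add_right, hcc, fadd_self, hab, hac, hca, hcb]
    · intro i
      apply fix_of_sum H hs
      intro j
      fin_cases i <;> simp [H.add_left, haa, hca]
  · refine main a b haa hab ?_
    intro i
    apply fix_of_sum H hs
    intro j
    exact haa i j

/-- every involution of the double cover lies in a maximal elementary abelian subgroup -/
theorem invol_mem (K : Cov φ d D E) (S : Setup H Q π D) {x : C} (hx : x * x = 1) :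
    ∃ W : Submodule F V, TI f W ∧ x ∈ Subgroup.closure (insert d (EW E φ S W)) := by
  have h1 : φ x * φ x = 1 := by rw [← map_mul, hx, map_one]
  obtain ⟨s, hs, hss⟩ := S.lift_invol h1
  obtain ⟨W, hW, hfix⟩ := exists_fixW S hss
  refine ⟨W, hW, ?_⟩
  obtain ⟨y, hy, _, hy'⟩ := exists_lift2 K S hW hW hfix hfix
  have hyc : y ∈ Subgroup.closure (insert d (EW E φ S W)) := Subgroup.closure_mono (Set.subset_insert _ _) hy
  rcases K.eq_or (hs.symm.trans hy'.symm) with h | h
  · rw [h]; exact hyc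
  · rw [h]; exact Subgroup.mul_mem _ hyc (Subgroup.subset_closure (Set.mem_insert _ _))

end Cfsg.Agent.Lib.H89EC
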