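import Cfsg.Agent.Lib.H89EE1
/-
Double covers of the unitary group of dimension six over the field with four elements: normal forms of the products of
the lifts in a totally isotropic 3-space, third part (helper89).
-/
set_option autoImplicit false
set_option linter.all false

namespace Cfsg.Agent.Lib.H89EC

open Module Cfsg Cfsg.Agent.Lib.UnTrans Cfsg.Agent.Lib.UnBridge Cfsg.Agent.Lib.U6Class Cfsg.Agent.Lib.H89EA Cfsg.Agent.Lib.H89EB
open Cfsg.Agent.Lib.SpTrans (isom mem_isom)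

universe v w w'

variable {F : Type} [Field F] [Fintype F] [CharP F 2] {V : Type v} [AddCommGroup V] [Module F V] {f : V → V → F}
  {hF : Fintype.card F = 2 ^ 2} {H : HS (sig hF) f} {C : Type w'} {Q : Type w} [Group C] [Group Q]
  {π : SS f →* Q} {D : Set Q} {φ : C →* Q} {d : C} {E : Set C}

/-- **normal form** -/
theorem normal_form (K : Cov φ d D E) (S : Setup H Q π D) {W : Submodule F V} (hW : TI f W) {x : C} (hx : x ∈ LW K S W) :
    (x = 1 ∨ x = d) ∨ (∃ a ∈ W, a ≠ 0 ∧ (x = Te K S a ∨ x = Te K S a * d)) ∨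
    (∃ a ∈ W, ∃ b ∈ W, a ≠ 0 ∧ b ≠ 0 ∧ (∀ c : F, b ≠ c • a) ∧ (x = Te K S a * Te K S b ∨ x = Te K S a * Te K S b * d)) ∨
    (∃ w : Fin 3 → V, (∀ i, w i ∈ W) ∧ LinearIndependent F w ∧
      (x = Te K S (w 0) * Te K S (w 1) * Te K S (w 2) ∨ x = Te K S (w 0) * Te K S (w 1) * Te K S (w 2) * d)) := by
  haveI := S.fin
  have h1 : φ x * φ x = 1 := by rw [← map_mul, LW_sq K S hW.iso x hx, map_one]
  obtain ⟨s, hxs, hfix⟩ := fix_of_mem K S hW.iso hx
  have hN := fix_N S hW hfix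
  have hss : ∀ x, (s : V ≃ₗ[F] V) ((s : V ≃ₗ[F] V) x) = x := by
    intro x
    have h1 := hfix _ (hN x)
    rw [map_add] at h1
    have aa := vadd_self F (V := V)
    have h2 : (s : V ≃ₗ[F] V) ((s : V ≃ₗ[F] V) x) + (s : V ≃ₗ[F] V) x + (s : V ≃ₗ[F] V) x =
        (s : V ≃ₗ[F] V) x + x + (s : V ≃ₗ[F] V) x := by rw [h1]
    rw [add_assoc, aa, add_zero] at h2
    rw [h2]
    calc (s : V ≃ₗ[F] V) x + x + (s : V ≃ₗ[F] V) x = x + ((s : V ≃ₗ[F] V) x + (s : V ≃ₗ[F] V) x) := by abel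
      _ = x := by rw [aa, add_zero]
  obtain ⟨r, t, a, b, c, hdim, hs, haa, hab, hbb, hac, hbc, hcc, hba⟩ := nv S hss
  have haW : ∀ i, a i ∈ W := fun i => by rw [← hba]; exact hN _
  have hli := li_of_dual H hab
  have ha0 : ∀ i, a i ≠ 0 := fun i => hli.ne_zero i
  have hr : r = 0 ∨ r = 1 ∨ r = 2 ∨ r = 3 := by omega
  have he : ∀ {s' : SS f}, s = s' → φ x = π s' := fun h => by rw [hxs, h]
  rcases hr with rfl | rfl | rfl | rfl
  · left
    have h2 : s = 1 := by
      apply Subtype.ext; apply LinearEquiv.ext; intro v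
      rw [hs, Fin.sum_univ_zero, add_zero]; rfl
    exact (K.ker x).1 (by rw [he h2, map_one])
  · right; left
    have h2 : s = ⟨tr H (a 0) (haa 0 0), tr_mem H (a 0) (haa 0 0)⟩ := by
      apply Subtype.ext; apply LinearEquiv.ext; intro v
      rw [hs, Fin.sum_univ_one]
      show _ = tr H (a 0) (haa 0 0) v
      rw [tr_apply]
    refine ⟨a 0, haW 0, ha0 0, K.eq_or ?_⟩
    rw [he h2, phi_Te K S (haa 0 0) (ha0 0)]
    rfl
  · right; right; left
    have h2 : s = ⟨tr H (a 0) (haa 0 0), tr_mem H (a 0) (haa 0 0)⟩ * ⟨tr H (a 1) (haa 1 1), tr_mem H (a 1) (haa 1 1)⟩ := by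
      apply Subtype.ext; apply LinearEquiv.ext; intro v
      rw [hs, Fin.sum_univ_two]
      show _ = tr H (a 0) (haa 0 0) (tr H (a 1) (haa 1 1) v)
      rw [tr_apply (w := a 0), tr_apply, H.add_left, H.smul_left, haa, mul_zero, add_zero]
      abel
    refine ⟨a 0, haW 0, a 1, haW 1, ha0 0, ha0 1, ?_, K.eq_or ?_⟩
    · intro c hc
      have h3 := Fintype.linearIndependent_iff.1 hli ![c, -1] (by
        rw [Fin.sum_univ_two]
        show c • a 0 + (-1 : F) • a 1 = 0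
        rw [hc, neg_smul, one_smul, add_neg_cancel]) 1
      have h4 : (-1 : F) = 0 := h3
      exact one_ne_zero (neg_eq_zero.1 h4)
    · rw [he h2, map_mul, map_mul, phi_Te K S (haa 0 0) (ha0 0), phi_Te K S (haa 1 1) (ha0 1)]
      rfl
  · right; right; right
    have h2 : s = ⟨tr H (a 0) (haa 0 0), tr_mem H (a 0) (haa 0 0)⟩ * ⟨tr H (a 1) (haa 1 1), tr_mem H (a 1) (haa 1 1)⟩ *
        ⟨tr H (a 2) (haa 2 2), tr_mem H (a 2) (haa 2 2)⟩ := by
      apply Subtype.ext; apply LinearEquiv.ext; intro v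
      rw [hs, Fin.sum_univ_three]
      show _ = tr H (a 0) (haa 0 0) (tr H (a 1) (haa 1 1) (tr H (a 2) (haa 2 2) v))
      rw [tr_apply (w := a 0), tr_apply (w := a 1), tr_apply (w := a 2)]
      simp only [H.add_left, H.smul_left, haa, mul_zero, add_zero]
      abel
    refine ⟨a, haW, hli, K.eq_or ?_⟩
    rw [he h2, map_mul, map_mul, map_mul, map_mul, phi_Te K S (haa 0 0) (ha0 0), phi_Te K S (haa 1 1) (ha0 1),
      phi_Te K S (haa 2 2) (ha0 2)]
    rfl

/-- independence of the three further points of a hyperoval -/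
theorem hyper_li {w : Fin 3 → V} (hli : LinearIndependent F w) {ω : F} (hω : ω ^ 2 = ω + 1) {c : F} (hc : c ≠ 0) :
    LinearIndependent F ![w 0 + w 1 + c • w 2, w 0 + ω • w 1 + (ω + 1) • (c • w 2), w 0 + (ω + 1) • w 1 + ω • (c • w 2)] := by
  rw [Fintype.linearIndependent_iff] at hli ⊢
  intro g hg
  rw [Fin.sum_univ_three] at hg
  have hg' : g 0 • (w 0 + w 1 + c • w 2) + g 1 • (w 0 + ω • w 1 + (ω + 1) • (c • w 2)) +
      g 2 • (w 0 + (ω + 1) • w 1 + ω • (c • w 2)) = 0 := hg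
  have h1 := hli ![g 0 + g 1 + g 2, g 0 + g 1 * ω + g 2 * (ω + 1), (g 0 + g 1 * (ω + 1) + g 2 * ω) * c] (by
    rw [Fin.sum_univ_three]
    show (g 0 + g 1 + g 2) • w 0 + (g 0 + g 1 * ω + g 2 * (ω + 1)) • w 1 + ((g 0 + g 1 * (ω + 1) + g 2 * ω) * c) • w 2 = 0
    rw [← hg']
    module)
  have e0 : g 0 + g 1 + g 2 = 0 := h1 0
  have e1 : g 0 + g 1 * ω + g 2 * (ω + 1) = 0 := h1 1
  have e2 : (g 0 + g 1 * (ω + 1) + g 2 * ω) * c = 0 := h1 2
  have e2' : g 0 + g 1 * (ω + 1) + g 2 * ω = 0 := by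
    rcases mul_eq_zero.1 e2 with h | h
    · exact h
    · exact absurd h hc
  have h2 : (2 : F) = 0 := CharTwo.two_eq_zero
  have g0 : g 0 = 0 := by linear_combination e0 + e1 + e2' - (g 0 + g 1 * (ω + 1) + g 2 * (ω + 1)) * h2
  have s1 : g 1 + g 2 = 0 := by linear_combination e0 - g0
  have s2 : g 1 = 0 := by
    linear_combination e1 - g0 - (ω + 1) * s1 + g 1 * h2
  have s3 : g 2 = 0 := by linear_combination s1 - s2
  intro i
  fin_cases i
  · exact g0
  · exact s2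
  · exact s3

/-- if some hyperoval product is not one, then a product of three independent members times the central involution is
again a product of three independent members -/
theorem hyp_d (K : Cov φ d D E) (S : Setup H Q π D) (hno : ¬ HypOne K S) {W : Submodule F V} (hW : TI f W) {w : Fin 3 → V}
    (hw : ∀ i, w i ∈ W) (hli : LinearIndependent F w) :
    ∃ u : Fin 3 → V, (∀ i, u i ∈ W) ∧ LinearIndependent F u ∧
      Te K S (w 0) * Te K S (w 1) * Te K S (w 2) * d = Te K S (u 0) * Te K S (u 1) * Te K S (u 2) := by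
  rw [HypOne] at hno
  push Not at hno
  obtain ⟨ω, hω, hsω, w', hw', hli', hne⟩ := hno
  have hd : Hyp K S ω (w' 0) (w' 1) (w' 2) = d := by
    rcases Hyp_cases K S hω hsω hw' hli' with h | h
    · exact absurd h hne
    · exact h
  obtain ⟨s, c, hc, hs⟩ := exists_ss' (hv_of S) hw' hli' (fun i j => hW.iso _ (hw i) _ (hw j)) hli 2
  obtain ⟨g, hg⟩ := K.surj (π s)
  have h0 : (s : V ≃ₗ[F] V) (w' 0) = w 0 := by rw [hs]; rfl
  have h1 : (s : V ≃ₗ[F] V) (w' 1) = w 1 := by rw [hs]; rfl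
  have h2 : (s : V ≃ₗ[F] V) (w' 2) = c • w 2 := by rw [hs]; rfl
  have hiso : ∀ x y z : F, f (x • w' 0 + y • w' 1 + z • w' 2) (x • w' 0 + y • w' 1 + z • w' 2) = 0 := by
    intro x y z
    simp only [H.add_left, H.add_right, H.smul_left, H.smul_right, hw', mul_zero, add_zero]
  have c0 : w 0 ∈ W := hw 0
  have c1 : w 1 ∈ W := hw 1
  have c2 : c • w 2 ∈ W := W.smul_mem c (hw 2)
  have key : Hyp K S ω (w 0) (w 1) (c • w 2) = d := by
    have h3 : g * Hyp K S ω (w' 0) (w' 1) (w' 2) * g⁻¹ = d := by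
      rw [hd, ← K.dc, mul_assoc, mul_inv_cancel, mul_one]
    refine Eq.trans ?_ h3
    rw [Hyp, Hyp]
    have e0 := Te_conj K S hg (hw' 0 0)
    have e1 := Te_conj K S hg (hw' 1 1)
    have e2 := Te_conj K S hg (hw' 2 2)
    have e3 := Te_conj K S hg (v := w' 0 + w' 1 + w' 2) (by have := hiso 1 1 1; simpa only [one_smul] using this)
    have e4 := Te_conj K S hg (v := w' 0 + ω • w' 1 + (ω + 1) • w' 2) (by have := hiso 1 ω (ω + 1); simpa only [one_smul] using this)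
    have e5 := Te_conj K S hg (v := w' 0 + (ω + 1) • w' 1 + ω • w' 2) (by have := hiso 1 (ω + 1) ω; simpa only [one_smul] using this)
    simp only [map_add, map_smul, h0, h1, h2] at e0 e1 e2 e3 e4 e5
    rw [← e0, ← e1, ← e2, ← e3, ← e4, ← e5]
    group
  have m3 : w 0 + w 1 + c • w 2 ∈ W := W.add_mem (W.add_mem c0 c1) c2
  have m4 : w 0 + ω • w 1 + (ω + 1) • (c • w 2) ∈ W :=
    W.add_mem (W.add_mem c0 (W.smul_mem _ c1)) (W.smul_mem _ c2)
  have m5 : w 0 + (ω + 1) • w 1 + ω • (c • w 2) ∈ W :=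
    W.add_mem (W.add_mem c0 (W.smul_mem _ c1)) (W.smul_mem _ c2)
  refine ⟨_, ?_, hyper_li hli hω hc, ?_⟩
  · intro i
    fin_cases i
    · exact m3
    · exact m4
    · exact m5
  · show _ = Te K S (w 0 + w 1 + c • w 2) * Te K S (w 0 + ω • w 1 + (ω + 1) • (c • w 2)) *
      Te K S (w 0 + (ω + 1) • w 1 + ω • (c • w 2))
    have key : Te K S (w 0) * Te K S (w 1) * Te K S (w 2) * Te K S (w 0 + w 1 + c • w 2) *
        Te K S (w 0 + ω • w 1 + (ω + 1) • (c • w 2)) * Te K S (w 0 + (ω + 1) • w 1 + ω • (c • w 2)) = d := by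
      rw [← Te_smul K S (hW.iso _ (hw 2) _ (hw 2)) hc]; exact key
    have q3 := Te_sq K S (hW.iso _ m3 _ m3)
    have q4 := Te_sq K S (hW.iso _ m4 _ m4)
    have q5 := Te_sq K S (hW.iso _ m5 _ m5)
    have k34 := Te_comm K S (hW.iso _ m3 _ m3) (hW.iso _ m4 _ m4) (hW.iso _ m3 _ m4)
    have k35 := Te_comm K S (hW.iso _ m3 _ m3) (hW.iso _ m5 _ m5) (hW.iso _ m3 _ m5)
    have k45 := Te_comm K S (hW.iso _ m4 _ m4) (hW.iso _ m5 _ m5) (hW.iso _ m4 _ m5)
    set t3 := Te K S (w 0 + w 1 + c • w 2)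
    set t4 := Te K S (w 0 + ω • w 1 + (ω + 1) • (c • w 2))
    set t5 := Te K S (w 0 + (ω + 1) • w 1 + ω • (c • w 2))
    set x := Te K S (w 0) * Te K S (w 1) * Te K S (w 2)
    -- `key : x * t3 * t4 * t5 = d`
    calc x * d = x * (x * t3 * t4 * t5) := congrArg (fun z => x * z) key.symm
      _ = (x * x) * (t3 * t4 * t5) := by group
      _ = t3 * t4 * t5 := by
        have hx : x * x = 1 := by
          have hxm : x ∈ LW K S W := Subgroup.mul_mem _ (Subgroup.mul_mem _ (Te_mem_LW K S c0 (hW.iso _ c0 _ c0))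
            (Te_mem_LW K S c1 (hW.iso _ c1 _ c1))) (Te_mem_LW K S (hw 2) (hW.iso _ (hw 2) _ (hw 2)))
          exact LW_sq K S hW.iso x hxm
        rw [hx, one_mul]

end Cfsg.Agent.Lib.H89EC
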