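import Cfsg.Agent.Lib.H89EE2
import Cfsg.Agent.Lib.H89ED4
/-
Involution centralizers of type 2.U6(2): the normalizer of a maximal elementary abelian 2-subgroup of the centralizer and
its action (helper89).
-/
set_option autoImplicit false
set_option linter.all false

namespace Cfsg.Agent.Lib.H89EE

open Module Cfsg Cfsg.Agent.Lib.UnTrans Cfsg.Agent.Lib.UnBridge Cfsg.Agent.Lib.H89EA Cfsg.Agent.Lib.H89EB
open Cfsg.Agent.Lib.H89EC Cfsg.Agent.Lib.H89ED
open Cfsg.Agent.Lib.U6Class hiding TI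
open Cfsg.Agent.Lib.SpTrans (isom mem_isom)

universe v w w'

variable {F : Type} [Field F] [Fintype F] [CharP F 2] {V : Type v} [AddCommGroup V] [Module F V] {f : V → V → F}
  {hF : Fintype.card F = 2 ^ 2} {H : HS (sig hF) f} {G : Type w'} {Q : Type w} [Group G] [Group Q]
  {d₀ : G} {π : SS f →* Q} {D : Set Q} {φ : ↥(Subgroup.centralizer ({d₀} : Set G)) →* Q}
  {d : ↥(Subgroup.centralizer ({d₀} : Set G))} {E : Set ↥(Subgroup.centralizer ({d₀} : Set G))}

/-- the elementary abelian subgroup -/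
def AG (K : Cov φ d D E) (S : Setup H Q π D) (W : Submodule F V) : Subgroup G :=
  (LW K S W).map (Subgroup.centralizer ({d₀} : Set G)).subtype

theorem mem_AG (K : Cov φ d D E) (S : Setup H Q π D) {W : Submodule F V} {x : G} :
    x ∈ AG K S W ↔ ∃ y ∈ LW K S W, ((y : ↥(Subgroup.centralizer ({d₀} : Set G))) : G) = x := Iff.rfl

theorem coe_mem_AG (K : Cov φ d D E) (S : Setup H Q π D) {W : Submodule F V} {y : ↥(Subgroup.centralizer ({d₀} : Set G))} :
    (y : G) ∈ AG K S W ↔ y ∈ LW K S W := by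
  rw [mem_AG]
  constructor
  · rintro ⟨z, hz, h⟩
    rwa [← Subtype.ext h]
  · intro h; exact ⟨y, h, rfl⟩

theorem AG_sq (K : Cov φ d D E) (S : Setup H Q π D) {W : Submodule F V} (hW : TI f W) : ∀ x ∈ AG K S W, x * x = 1 := by
  rintro _ ⟨y, hy, rfl⟩
  have := LW_sq K S hW.iso y hy
  exact congrArg Subtype.val this

/-- the members of the class in the subgroup -/
noncomputable def tA (K : Cov φ d D E) (S : Setup H Q π D) {W : Submodule F V} (hW : TI f W) (v : V) (hv : v ∈ W) : AG K S W :=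
  ⟨((Te K S v : ↥(Subgroup.centralizer ({d₀} : Set G))) : G), (coe_mem_AG K S).2 (Te_mem_LW K S hv (hW.iso _ hv _ hv))⟩

theorem tA_coe (K : Cov φ d D E) (S : Setup H Q π D) {W : Submodule F V} (hW : TI f W) (v : V) (hv : v ∈ W) :
    ((tA K S hW v hv : AG K S W) : G) = (Te K S v : ↥(Subgroup.centralizer ({d₀} : Set G))) := rfl

theorem tA_eq (K : Cov φ d D E) (S : Setup H Q π D) {W : Submodule F V} (hW : TI f W) {v u : V} {hv : v ∈ W} {hu : u ∈ W} :
    tA K S hW v hv = tA K S hW u hu ↔ Te K S v = Te K S u := by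
  constructor
  · intro h; exact Subtype.ext (congrArg (fun z : AG K S W => (z : G)) h)
  · intro h; exact Subtype.ext (congrArg (fun z : ↥(Subgroup.centralizer ({d₀} : Set G)) => (z : G)) h)

theorem tA_prop (K : Cov φ d D E) (S : Setup H Q π D) {W : Submodule F V} (hW : TI f W) {v u : V} {hv : v ∈ W} {hu : u ∈ W}
    (hv0 : v ≠ 0) (hu0 : u ≠ 0) (h : tA K S hW v hv = tA K S hW u hu) : ∃ c : F, c ≠ 0 ∧ v = c • u :=
  Te_inj K S (hW.iso _ hv _ hv) hv0 (hW.iso _ hu _ hu) hu0 ((tA_eq K S hW).1 h)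

theorem tA_smul (K : Cov φ d D E) (S : Setup H Q π D) {W : Submodule F V} (hW : TI f W) {v u : V} {hv : v ∈ W} {hu : u ∈ W}
    {c : F} (hc : c ≠ 0) (h : v = c • u) : tA K S hW v hv = tA K S hW u hu := by
  rw [tA_eq, h]
  exact Te_smul K S (hW.iso _ hu _ hu) hc

variable [Finite G]

/-- lifts of stabilizing isometries normalize -/
theorem mem_norm (K : Cov φ d D E) (S : Setup H Q π D) {W : Submodule F V}
    {c : ↥(Subgroup.centralizer ({d₀} : Set G))} {s : SS f} (hc : φ c = π s) (hs : ∀ v ∈ W, (s : V ≃ₗ[F] V) v ∈ W) :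
    (c : G) ∈ Subgroup.normalizer (AG K S W : Set G) := by
  apply Subgroup.mem_normalizer_fintype
  rintro _ ⟨y, hy, rfl⟩
  exact ⟨c * y * c⁻¹, conj_LW K S hc hs hy, rfl⟩

theorem smul_coe {A : Subgroup G} (n : Subgroup.normalizer (A : Set G)) (a : A) : ((n • a : A) : G) = n * a * (n : G)⁻¹ := rfl

/-- the action of a lift -/
theorem smul_tA (K : Cov φ d D E) (S : Setup H Q π D) {W : Submodule F V} (hW : TI f W)
    {c : ↥(Subgroup.centralizer ({d₀} : Set G))} {s : SS f} (hc : φ c = π s) (hs : ∀ v ∈ W, (s : V ≃ₗ[F] V) v ∈ W)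
    {n : Subgroup.normalizer (AG K S W : Set G)} (hn : (n : G) = c) {v : V} (hv : v ∈ W) :
    n • tA K S hW v hv = tA K S hW ((s : V ≃ₗ[F] V) v) (hs v hv) := by
  apply Subtype.ext
  rw [smul_coe, tA_coe, tA_coe, hn]
  have := Te_conj K S hc (hW.iso _ hv _ hv)
  exact congrArg Subtype.val this

/-- elements of the normalizer fixing the involution come from stabilizing isometries -/
theorem exists_s (K : Cov φ d D E) (S : Setup H Q π D) {W : Submodule F V} (hW : TI f W)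
    {n : Subgroup.normalizer (AG K S W : Set G)} (hn : (n : G) * d₀ * (n : G)⁻¹ = d₀) :
    ∃ (c : ↥(Subgroup.centralizer ({d₀} : Set G))) (s : SS f), (n : G) = c ∧ φ c = π s ∧ ∀ v ∈ W, (s : V ≃ₗ[F] V) v ∈ W := by
  have hc : (n : G) ∈ Subgroup.centralizer ({d₀} : Set G) := by
    rw [Subgroup.mem_centralizer_iff]
    rintro x rfl
    have := congrArg (fun y => y * (n : G)) hn
    simp only [inv_mul_cancel_right] at this
    exact this.symm
  obtain ⟨s, hs⟩ := S.surj (φ ⟨(n : G), hc⟩)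
  refine ⟨⟨n, hc⟩, s, rfl, hs.symm, stab_of_conj K S hW hs.symm ?_⟩
  intro x hx
  rw [← coe_mem_AG K S]
  have h1 := (Subgroup.mem_normalizer_iff.1 n.2 (x : G)).1 ((coe_mem_AG K S).2 hx)
  exact h1

/-- elements realizing the maps between independent triples -/
theorem exists_n (K : Cov φ d D E) (S : Setup H Q π D) {W : Submodule F V} (hW : TI f W)
    {w w' : Fin 3 → V} (hw : ∀ i, w i ∈ W) (hli : LinearIndependent F w) (hw' : ∀ i, w' i ∈ W) (hli' : LinearIndependent F w') :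
    ∃ (n : Subgroup.normalizer (AG K S W : Set G)) (s : SS f) (c : F) (hs : ∀ v ∈ W, (s : V ≃ₗ[F] V) v ∈ W),
      (n : G) * d₀ * (n : G)⁻¹ = d₀ ∧ c ≠ 0 ∧ (s : V ≃ₗ[F] V) (w 0) = w' 0 ∧ (s : V ≃ₗ[F] V) (w 1) = w' 1 ∧
      (s : V ≃ₗ[F] V) (w 2) = c • w' 2 ∧ ∀ v (hv : v ∈ W), n • tA K S hW v hv = tA K S hW ((s : V ≃ₗ[F] V) v) (hs v hv) := by
  obtain ⟨g, s, c, hg, hc, h0, h1, h2, hs⟩ := exists_g K S hW hW hw hli hw' hli'
  refine ⟨⟨(g : G), mem_norm K S hg hs⟩, s, c, hs, ?_, hc, h0, h1, h2, ?_⟩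
  · have h4 : d₀ * (g : G) = (g : G) * d₀ := Subgroup.mem_centralizer_iff.1 g.2 d₀ rfl
    show (g : G) * d₀ * (g : G)⁻¹ = d₀
    rw [← h4, mul_inv_cancel_right]
  · intro v hv
    exact smul_tA K S hW hg hs rfl hv

end Cfsg.Agent.Lib.H89EE
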