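import Cfsg.Agent.Lib.H89EE3
/-
Involution centralizers of type 2.U6(2): the normalizer of a maximal elementary abelian 2-subgroup of the centralizer
satisfies the hypotheses of the orbit theorem (helper89).
-/
set_option autoImplicit false
set_option linter.all false

namespace Cfsg.Agent.Lib.H89EE

open Module Cfsg Cfsg.Agent.Lib.UnTrans Cfsg.Agent.Lib.UnBridge Cfsg.Agent.Lib.H89EA Cfsg.Agent.Lib.H89EB
open Cfsg.Agent.Lib.H89EC Cfsg.Agent.Lib.H89ED
open Cfsg.Agent.Lib.U6Class hiding TI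
open Cfsg.Agent.Lib.SpTrans (isom mem_isom)

universe v w w'

variable {F : Type} [Field F] [Fintype F] [CharP F 2] {V : Type v} [AddCommGroup V] [Module F V] {f : V → V → F}
  {hF : Fintype.card F = 2 ^ 2} {H : HS (sig hF) f} {G : Type w'} {Q : Type w} [Group G] [Group Q]
  {d₀ : G} {π : SS f →* Q} {D : Set Q} {φ : ↥(Subgroup.centralizer ({d₀} : Set G)) →* Q}
  {d : ↥(Subgroup.centralizer ({d₀} : Set G))} {E : Set ↥(Subgroup.centralizer ({d₀} : Set G))}

section basic

variable (K : Cov φ d D E) (S : Setup H Q π D) {W : Submodule F V} (hW : TI f W)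

theorem toC {x y : AG K S W} {x' y' : ↥(Subgroup.centralizer ({d₀} : Set G))} (hx : (x : G) = x') (hy : (y : G) = y')
    (h : x = y) : x' = y' := Subtype.ext (by rw [← hx, ← hy, h])

include hW in
theorem Te_ne_one {v : V} (hv : v ∈ W) (hv0 : v ≠ 0) : Te K S v ≠ 1 := by
  intro h
  have h1 := phi_Te K S (hW.iso _ hv _ hv) hv0
  rw [h, map_one] at h1
  have h2 := S.three.1.1 _ (S.P_mem v (hW.iso _ hv _ hv) hv0)
  rw [← h1, orderOf_one] at h2
  omega

include hW in
theorem Te_ne_d {v : V} (hv : v ∈ W) (hv0 : v ≠ 0) : Te K S v ≠ d := fun h =>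
  d_notin_E K S (by have := Te_mem K S (hW.iso _ hv _ hv) hv0; rwa [h] at this)

include hW in
theorem Te_mul_d {v u : V} (hv : v ∈ W) (hv0 : v ≠ 0) (hu : u ∈ W) (hu0 : u ≠ 0) : Te K S v ≠ Te K S u * d := fun h =>
  K.uniq _ (Te_mem K S (hW.iso _ hu _ hu) hu0) (by
    have := Te_mem K S (hW.iso _ hv _ hv) hv0
    rwa [h] at this)

include hW in
theorem Te_rel2 {a b c : V} (ha : a ∈ W) (hb : b ∈ W) (hc : c ∈ W) (ha0 : a ≠ 0) (hb0 : b ≠ 0) (hc0 : c ≠ 0)
    (hab : ∀ t : F, b ≠ t • a) (h : φ (Te K S a * Te K S b) = φ (Te K S c)) : False := by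
  have hh : ∀ {v : V}, v ∈ W → f v v = 0 := fun hv => hW.iso _ hv _ hv
  rw [map_mul, phi_Te K S (hh ha) ha0, phi_Te K S (hh hb) hb0, phi_Te K S (hh hc) hc0] at h
  refine no_rel3 S (hh ha) (hh hb) (hh hc) ha0 hb0 (hW.iso _ ha _ hb) (hW.iso _ ha _ hc) hab ?_ h
  intro t ht
  have ht0 : t ≠ 0 := by rintro rfl; exact hb0 (by rw [ht, zero_smul])
  have h1 : P π H S.fin b (hh hb) = P π H S.fin c (hh hc) := by
    rw [← phi_Te K S (hh hb) hb0, ← phi_Te K S (hh hc) hc0, ht, Te_smul K S (hh hc) ht0]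
  rw [h1] at h
  have h2 : P π H S.fin a (hh ha) = 1 := by
    have := mul_right_cancel (h.trans (one_mul _).symm)
    exact this
  have h3 := S.three.1.1 _ (S.P_mem a (hh ha) ha0)
  rw [h2, orderOf_one] at h3
  omega

include hW in
/-- uniqueness of products of two members modulo the central involution -/
theorem Te_uniq {a b p q : V} (ha : a ∈ W) (hb : b ∈ W) (hp : p ∈ W) (hq : q ∈ W) (ha0 : a ≠ 0) (hb0 : b ≠ 0) (hp0 : p ≠ 0)
    (hq0 : q ≠ 0) (hab : ∀ t : F, b ≠ t • a) (h : φ (Te K S a * Te K S b) = φ (Te K S p * Te K S q)) :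
    Te K S a = Te K S p ∨ Te K S a = Te K S q := by
  have hh : ∀ {v : V}, v ∈ W → f v v = 0 := fun hv => hW.iso _ hv _ hv
  rw [map_mul, map_mul, phi_Te K S (hh ha) ha0, phi_Te K S (hh hb) hb0, phi_Te K S (hh hp) hp0, phi_Te K S (hh hq) hq0] at h
  rcases uniq2 S hW ha hb hp hq ha0 hab h with ⟨c, hc⟩ | ⟨c, hc⟩
  · left
    have hc0 : c ≠ 0 := by rintro rfl; exact hp0 (by rw [hc, zero_smul])
    rw [hc, Te_smul K S (hh ha) hc0]
  · right
    have hc0 : c ≠ 0 := by rintro rfl; exact hq0 (by rw [hc, zero_smul])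
    rw [hc, Te_smul K S (hh ha) hc0]

include hW in
theorem not_prop {a b : V} (ha : a ∈ W) (hb0 : b ≠ 0) (h : Te K S a ≠ Te K S b) : ∀ t : F, b ≠ t • a := by
  intro t ht
  have ht0 : t ≠ 0 := by rintro rfl; exact hb0 (by rw [ht, zero_smul])
  apply h
  rw [ht, Te_smul K S (hW.iso _ ha _ ha) ht0]

end basic

section orbit

variable [Finite G] (K : Cov φ d D E) (S : Setup H Q π D) {W : Submodule F V} (hW : TI f W)

noncomputable instance ftAG : Fintype (AG K S W) := Fintype.ofFinite _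

noncomputable instance deAG : DecidableEq (AG K S W) := Classical.decEq _

open Classical in
/-- the members of the class in the elementary abelian subgroup -/
noncomputable def TT : Finset (AG K S W) :=
  Finset.univ.filter (fun x => ∃ (v : V) (hv : v ∈ W), v ≠ 0 ∧ tA K S hW v hv = x)

theorem mem_TT {x : AG K S W} : x ∈ TT K S hW ↔ ∃ (v : V) (hv : v ∈ W), v ≠ 0 ∧ tA K S hW v hv = x := by
  simp [TT]

theorem tA_mem {v : V} (hv : v ∈ W) (hv0 : v ≠ 0) : tA K S hW v hv ∈ TT K S hW := (mem_TT K S hW).2 ⟨v, hv, hv0, rfl⟩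

theorem card_TT : (TT K S hW).card = 21 := by
  have h1 : (EW E φ S W).ncard = 21 := by
    rw [← ncard_TW S hW.dim hW.iso]
    have : TW S W = φ '' EW E φ S W := by
      ext t
      constructor
      · intro ht
        have ht' := ht
        obtain ⟨u, hu, huW, hu0, rfl⟩ := ht'
        obtain ⟨e, he, hee⟩ := K.lift _ (S.P_mem u hu hu0)
        exact ⟨e, ⟨he, by rw [hee]; exact ht⟩, hee⟩
      · rintro ⟨e, he, rfl⟩
        exact he.2
    rw [this, Set.ncard_image_of_injOn]
    intro e he e' he' h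
    exact K.phi_inj he.1 he'.1 h
  rw [← Set.ncard_coe_finset]
  have h2 : (fun x : AG K S W => (x : G)) '' (TT K S hW : Set (AG K S W)) =
      (fun x : ↥(Subgroup.centralizer ({d₀} : Set G)) => (x : G)) '' (EW E φ S W) := by
    ext x
    constructor
    · rintro ⟨y, hy, rfl⟩
      obtain ⟨v, hv, hv0, rfl⟩ := (mem_TT K S hW).1 hy
      exact ⟨Te K S v, Te_mem_EW K S hv (hW.iso _ hv _ hv) hv0, rfl⟩
    · rintro ⟨e, he, rfl⟩
      obtain ⟨v, hv, hvv, hv0, rfl⟩ := (mem_EW K S).1 he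
      exact ⟨tA K S hW v hv, tA_mem K S hW hv hv0, rfl⟩
  rw [← Set.ncard_image_of_injective (TT K S hW : Set (AG K S W)) (f := fun x : AG K S W => (x : G)) Subtype.val_injective, h2,
    Set.ncard_image_of_injective _ Subtype.val_injective, h1]

/-- the order of the elementary abelian subgroup -/
theorem card_AG (hW : TI f W) (hd : d ∈ LW K S W) : Nat.card (AG K S W) = 1024 := by
  haveI := S.fin
  haveI : Finite Q := Finite.of_surjective φ K.surj
  have h1 : Nat.card (AG K S W) = Nat.card (LW K S W) :=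
    Nat.card_congr ((LW K S W).equivMapOfInjective _ (Subgroup.subtype_injective _)).symm.toEquiv
  obtain ⟨u, hu, hli⟩ := exists_basis hW
  obtain ⟨y, B⟩ := exists_HBext (hv_of S) (fun i j => hW.iso _ (hu i) _ (hu j)) hli
  have h2 := (existsA K S B).2
  rw [span_eq_of_li hW.dim hu hli] at h2
  have h3 : Subgroup.closure (insert d (EW E φ S W)) = LW K S W := by
    apply le_antisymm
    · rw [Subgroup.closure_le]
      rintro x (rfl | hx)
      · exact hd
      · exact Subgroup.subset_closure hx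
    · exact Subgroup.closure_mono (Set.subset_insert _ _)
  rw [h3] at h2
  rw [h1, h2]
  norm_num

end orbit

end Cfsg.Agent.Lib.H89EE
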