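import Cfsg.Agent.Lib.H89EE4
/-
Involution centralizers of type 2.U6(2): the normalizer of a maximal elementary abelian 2-subgroup of the centralizer
satisfies the hypotheses of the orbit theorem, second part (helper89).
-/
set_option autoImplicit false
set_option linter.all false

namespace Cfsg.Agent.Lib.H89EE

open Module Cfsg Cfsg.Agent.Lib.UnTrans Cfsg.Agent.Lib.UnBridge Cfsg.Agent.Lib.H89EA Cfsg.Agent.Lib.H89EB
open Cfsg.Agent.Lib.H89EC Cfsg.Agent.Lib.H89ED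
open Cfsg.Agent.Lib.U6Class hiding TI
open Cfsg.Agent.Lib.SpTrans (isom mem_isom)

universe v w w'

variable {F : Type} [Field F] [Fintype F] [CharP F 2] {V : Type v} [AddCommGroup V] [Module F V] {f : V → V → F}
  {hF : Fintype.card F = 2 ^ 2} {H : HS (sig hF) f} {G : Type w'} {Q : Type w} [Group G] [Group Q]
  {d₀ : G} {π : SS f →* Q} {D : Set Q} {φ : ↥(Subgroup.centralizer ({d₀} : Set G)) →* Q}
  {d : ↥(Subgroup.centralizer ({d₀} : Set G))} {E : Set ↥(Subgroup.centralizer ({d₀} : Set G))}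
  [Finite G] (K : Cov φ d D E) (S : Setup H Q π D) {W : Submodule F V} (hW : TI f W)

/-- the involution as an element of the elementary abelian subgroup -/
def dA (hd0 : (d : G) = d₀) (hdW : d ∈ LW K S W) : AG K S W := ⟨d₀, (congrArg (fun z => z ∈ AG K S W) hd0).mp ((coe_mem_AG K S).2 hdW)⟩

theorem smul_dA (hd0 : (d : G) = d₀) (hdW : d ∈ LW K S W) (n : Subgroup.normalizer (AG K S W : Set G)) :
    n • dA K S hd0 hdW = dA K S hd0 hdW ↔ (n : G) * d₀ * (n : G)⁻¹ = d₀ := by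
  constructor
  · intro h; exact congrArg (fun z : AG K S W => (z : G)) h
  · intro h; exact Subtype.ext h

theorem dA_coe (hd0 : (d : G) = d₀) (hdW : d ∈ LW K S W) : ((dA K S hd0 hdW : AG K S W) : G) = (d : G) := hd0.symm

/-- `T` is invariant -/
theorem inv_TT (hd0 : (d : G) = d₀) (hdW : d ∈ LW K S W) :
    Inv ↥(Subgroup.normalizer (AG K S W : Set G)) (dA K S hd0 hdW) (TT K S hW) := by
  intro n hn t ht
  rw [smul_dA] at hn
  obtain ⟨c, s, hnc, hcs, hs⟩ := exists_s K S hW hn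
  obtain ⟨v, hv, hv0, rfl⟩ := (mem_TT K S hW).1 ht
  rw [smul_tA K S hW hcs hs hnc hv]
  exact tA_mem K S hW (hs v hv) (fun h => hv0 ((map_eq_zero_iff (s : V ≃ₗ[F] V) (s : V ≃ₗ[F] V).injective).1 h))

/-- 2-transitivity -/
theorem two_TT (hd0 : (d : G) = d₀) (hdW : d ∈ LW K S W) : ∀ a ∈ TT K S hW, ∀ b ∈ TT K S hW, ∀ a' ∈ TT K S hW,
    ∀ b' ∈ TT K S hW, a ≠ b → a' ≠ b' → ∃ n : Subgroup.normalizer (AG K S W : Set G),
      n • dA K S hd0 hdW = dA K S hd0 hdW ∧ n • a = a' ∧ n • b = b' := by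
  intro a ha b hb a' ha' b' hb' hab hab'
  obtain ⟨u, hu, hu0, rfl⟩ := (mem_TT K S hW).1 ha
  obtain ⟨v, hv, hv0, rfl⟩ := (mem_TT K S hW).1 hb
  obtain ⟨u', hu', hu0', rfl⟩ := (mem_TT K S hW).1 ha'
  obtain ⟨v', hv', hv0', rfl⟩ := (mem_TT K S hW).1 hb'
  have h1 := not_prop K S hW hu hv0 (fun h => hab ((tA_eq K S hW).2 h))
  have h2 := not_prop K S hW hu' hv0' (fun h => hab' ((tA_eq K S hW).2 h))
  obtain ⟨z, hz, hli⟩ := indep_third hW.dim hu hv hu0 h1
  obtain ⟨z', hz', hli'⟩ := indep_third hW.dim hu' hv' hu0' h2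
  obtain ⟨n, s, c, hs, hn, hc, h3, h4, h5, h6⟩ := exists_n K S hW (w := ![u, v, z]) (w' := ![u', v', z'])
    (by intro i; fin_cases i <;> assumption) hli (by intro i; fin_cases i <;> assumption) hli'
  refine ⟨n, (smul_dA K S hd0 hdW n).2 hn, ?_, ?_⟩
  · rw [h6, tA_eq]; exact congrArg (Te K S) h3
  · rw [h6, tA_eq]; exact congrArg (Te K S) h4

/-- elements of the last class are products of three independent members -/
theorem R3_form (hno : ¬ HypOne K S) (hd0 : (d : G) = d₀) (hdW : d ∈ LW K S W) {x : AG K S W}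
    (hx : x ≠ 1 ∧ x ≠ dA K S hd0 hdW ∧ x ∉ TT K S hW ∧ x ∉ dm (dA K S hd0 hdW) (TT K S hW) ∧ x ∉ R2 (TT K S hW) ∧
      x ∉ dm (dA K S hd0 hdW) (R2 (TT K S hW))) :
    ∃ (w : Fin 3 → V) (hw : ∀ i, w i ∈ W), LinearIndependent F w ∧
      x = tA K S hW (w 0) (hw 0) * tA K S hW (w 1) (hw 1) * tA K S hW (w 2) (hw 2) := by
  obtain ⟨h1, h2, h3, h4, h5, h6⟩ := hx
  obtain ⟨y, hy, hyx⟩ := (mem_AG K S).1 x.2
  have trans : ∀ {z : AG K S W} {z' : ↥(Subgroup.centralizer ({d₀} : Set G))}, (z : G) = z' → y = z' → x = z := by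
    intro z z' hz h
    apply Subtype.ext
    rw [hz, ← h, hyx]
  have hdc : ∀ z : ↥(Subgroup.centralizer ({d₀} : Set G)), ((z * d : ↥(Subgroup.centralizer ({d₀} : Set G))) : G) = d₀ * z := by
    intro z
    rw [← K.dc z]
    show (d : G) * z = d₀ * z
    rw [hd0]
  rcases normal_form K S hW hy with (h | h) | ⟨a, ha, ha0, h | h⟩ | ⟨a, ha, b, hb, ha0, hb0, hab, h | h⟩ | ⟨w, hw, hli, h | h⟩
  · exact absurd (trans (z := 1) rfl h) h1
  · exact absurd (trans (z := dA K S hd0 hdW) (dA_coe K S hd0 hdW) h) h2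
  · exact absurd (by rw [trans (z := tA K S hW a ha) rfl h]; exact tA_mem K S hW ha ha0) h3
  · exfalso; apply h4
    rw [mem_dm]
    exact ⟨_, tA_mem K S hW ha ha0, (trans (z := dA K S hd0 hdW * tA K S hW a ha) (hdc (Te K S a)).symm h).symm⟩
  · exfalso; apply h5
    rw [mem_R2]
    refine ⟨_, tA_mem K S hW ha ha0, _, tA_mem K S hW hb hb0, ?_, (trans (z := tA K S hW a ha * tA K S hW b hb) rfl h).symm⟩
    intro h'
    obtain ⟨c, hc, hca⟩ := tA_prop K S hW ha0 hb0 h'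
    exact hab c⁻¹ (by rw [hca, smul_smul, inv_mul_cancel₀ hc, one_smul])
  · exfalso; apply h6
    rw [mem_dm]
    refine ⟨tA K S hW a ha * tA K S hW b hb, mem_R2.2 ⟨_, tA_mem K S hW ha ha0, _, tA_mem K S hW hb hb0, ?_, rfl⟩,
      (trans (z := dA K S hd0 hdW * (tA K S hW a ha * tA K S hW b hb)) (hdc (Te K S a * Te K S b)).symm h).symm⟩
    intro h'
    obtain ⟨c, hc, hca⟩ := tA_prop K S hW ha0 hb0 h'
    exact hab c⁻¹ (by rw [hca, smul_smul, inv_mul_cancel₀ hc, one_smul])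
  · exact ⟨w, hw, hli, trans (z := tA K S hW (w 0) (hw 0) * tA K S hW (w 1) (hw 1) * tA K S hW (w 2) (hw 2)) rfl h⟩
  · obtain ⟨u, hu, hul, hue⟩ := hyp_d K S hno hW hw hli
    exact ⟨u, hu, hul, trans (z := tA K S hW (u 0) (hu 0) * tA K S hW (u 1) (hu 1) * tA K S hW (u 2) (hu 2)) rfl (h.trans hue)⟩

/-- transitivity on the last class -/
theorem tr3_TT (hno : ¬ HypOne K S) (hd0 : (d : G) = d₀) (hdW : d ∈ LW K S W) {x x' : AG K S W}
    (hx : x ≠ 1 ∧ x ≠ dA K S hd0 hdW ∧ x ∉ TT K S hW ∧ x ∉ dm (dA K S hd0 hdW) (TT K S hW) ∧ x ∉ R2 (TT K S hW) ∧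
      x ∉ dm (dA K S hd0 hdW) (R2 (TT K S hW)))
    (hx' : x' ≠ 1 ∧ x' ≠ dA K S hd0 hdW ∧ x' ∉ TT K S hW ∧ x' ∉ dm (dA K S hd0 hdW) (TT K S hW) ∧ x' ∉ R2 (TT K S hW) ∧
      x' ∉ dm (dA K S hd0 hdW) (R2 (TT K S hW))) :
    ∃ n : Subgroup.normalizer (AG K S W : Set G), n • dA K S hd0 hdW = dA K S hd0 hdW ∧ n • x = x' := by
  obtain ⟨w, hw, hli, rfl⟩ := R3_form K S hW hno hd0 hdW hx
  obtain ⟨w', hw', hli', rfl⟩ := R3_form K S hW hno hd0 hdW hx'
  obtain ⟨n, s, c, hs, hn, hc, h3, h4, h5, h6⟩ := exists_n K S hW hw hli hw' hli'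
  refine ⟨n, (smul_dA K S hd0 hdW n).2 hn, ?_⟩
  rw [smul_mul', smul_mul', h6, h6, h6]
  congr 1
  · congr 1
    · rw [tA_eq, h3]
    · rw [tA_eq, h4]
  · exact tA_smul K S hW hc h5

/-- few products stay products after multiplication by a member -/
theorem col_TT : ∀ t ∈ TT K S hW, (Finset.univ.filter (fun r => r ∈ R2 (TT K S hW) ∧ r * t ∈ R2 (TT K S hW))).card < 80 := by
  classical
  haveI := S.fin
  intro t ht
  obtain ⟨u, hu, hu0, rfl⟩ := (mem_TT K S hW).1 ht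
  -- representatives
  have hrep : ∀ e : AG K S W, ∃ v : V, v ∈ W ∧ (e ∈ TT K S hW → ∃ hv : v ∈ W, v ≠ 0 ∧ tA K S hW v hv = e) := by
    intro e
    by_cases h : e ∈ TT K S hW
    · obtain ⟨v, hv, hv0, hve⟩ := (mem_TT K S hW).1 h
      exact ⟨v, hv, fun _ => ⟨hv, hv0, hve⟩⟩
    · exact ⟨0, W.zero_mem, fun h' => absurd h' h⟩
  choose rep hrepW hrep' using hrep
  set g : AG K S W × F → AG K S W := fun p => p.1 * tA K S hW (rep p.1 + p.2 • u) (W.add_mem (hrepW p.1) (W.smul_mem _ hu)) with hg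
  have hsub : Finset.univ.filter (fun r => r ∈ R2 (TT K S hW) ∧ r * tA K S hW u hu ∈ R2 (TT K S hW)) ⊆
      ((TT K S hW) ×ˢ (Finset.univ.erase (0 : F))).image g := by
    intro r hr
    rw [Finset.mem_filter] at hr
    obtain ⟨_, hr1, hr2⟩ := hr
    obtain ⟨a, ha, b, hb, hab, rfl⟩ := mem_R2.1 hr1
    obtain ⟨p, hp, q, hq, hpq, hpq'⟩ := mem_R2.1 hr2
    obtain ⟨av, hav, hav0, rfl⟩ := (mem_TT K S hW).1 ha
    obtain ⟨bv, hbv, hbv0, rfl⟩ := (mem_TT K S hW).1 hb
    obtain ⟨pv, hpv, hpv0, rfl⟩ := (mem_TT K S hW).1 hp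
    obtain ⟨qv, hqv, hqv0, rfl⟩ := (mem_TT K S hW).1 hq
    have hrel : Te K S pv * Te K S qv = Te K S av * Te K S bv * Te K S u := by
      refine toC K S (x := tA K S hW pv hpv * tA K S hW qv hqv) (y := tA K S hW av hav * tA K S hW bv hbv * tA K S hW u hu) rfl rfl hpq'
    have hne : ∀ {x y : V} (hx : x ∈ W) (hy : y ∈ W), tA K S hW x hx ≠ tA K S hW y hy → Te K S x ≠ Te K S y :=
      fun hx hy h h' => h ((tA_eq K S hW).2 h')
    have hpq2 := not_prop K S hW hpv hqv0 (hne hpv hqv hpq)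
    have sq : ∀ {x : V}, x ∈ W → Te K S x * Te K S x = 1 := fun hx => Te_sq K S (hW.iso _ hx _ hx)
    have cm : ∀ {x y : V}, x ∈ W → y ∈ W → Te K S x * Te K S y = Te K S y * Te K S x := fun hx hy =>
      Te_comm K S (hW.iso _ hx _ hx) (hW.iso _ hy _ hy) (hW.iso _ hx _ hy)
    -- `u` differs from `a` and `b`
    have hua : Te K S u ≠ Te K S av := by
      intro h
      refine Te_rel2 K S hW hpv hqv hbv hpv0 hqv0 hbv0 hpq2 ?_
      rw [hrel, h, cm hav hbv, mul_assoc, sq hav, mul_one]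
    have hub : Te K S u ≠ Te K S bv := by
      intro h
      refine Te_rel2 K S hW hpv hqv hav hpv0 hqv0 hav0 hpq2 ?_
      rw [hrel, h, mul_assoc, sq hbv, mul_one]
    have hau := not_prop K S hW hav hu0 (Ne.symm hua)
    obtain ⟨z, hz, hzli⟩ := indep_third hW.dim hav hu hav0 hau
    -- `b` is in the span of `a` and `u`
    have h2 : LinearIndependent F ![av, u] := by
      rw [LinearIndependent.pair_iff]
      intro s t h
      have h' := Fintype.linearIndependent_iff.1 hzli ![s, t, 0] (by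
        rw [Fin.sum_univ_three]
        show s • av + t • u + (0 : F) • z = 0
        rw [zero_smul, add_zero, h])
      exact ⟨h' 0, h' 1⟩
    have hbspan : bv ∈ Submodule.span F (Set.range ![av, u]) := by
      by_contra hnot
      have h4 : LinearIndependent F (Fin.snoc ![av, u] bv : Fin 3 → V) := by
        rw [linearIndependent_finSnoc]
        exact ⟨h2, hnot⟩
      have h5 : (Fin.snoc ![av, u] bv : Fin 3 → V) = ![av, u, bv] := by
        funext i; fin_cases i <;> rfl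
      rw [h5] at h4
      have hmem : ∀ i, ![av, u, bv] i ∈ W := by intro i; fin_cases i <;> assumption
      refine no_rel5 S hW hmem h4 hpv hqv ?_
      show P π H S.fin av (hW.iso _ hav _ hav) * P π H S.fin u (hW.iso _ hu _ hu) * P π H S.fin bv (hW.iso _ hbv _ hbv) =
        P π H S.fin pv (hW.iso _ hpv _ hpv) * P π H S.fin qv (hW.iso _ hqv _ hqv)
      rw [← phi_Te K S (hW.iso _ hav _ hav) hav0, ← phi_Te K S (hW.iso _ hu _ hu) hu0, ← phi_Te K S (hW.iso _ hbv _ hbv) hbv0,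
        ← phi_Te K S (hW.iso _ hpv _ hpv) hpv0, ← phi_Te K S (hW.iso _ hqv _ hqv) hqv0, ← map_mul, ← map_mul, ← map_mul, hrel]
      congr 1
      rw [mul_assoc, cm hu hbv, ← mul_assoc]
    obtain ⟨k, hk⟩ := (Submodule.mem_span_range_iff_exists_fun F).1 hbspan
    rw [Fin.sum_univ_two] at hk
    have hk' : k 0 • av + k 1 • u = bv := hk
    have hk1 : k 1 ≠ 0 := by
      intro h
      rw [h, zero_smul, add_zero] at hk'
      have hk0 : k 0 ≠ 0 := by rintro h0; rw [h0, zero_smul] at hk'; exact hbv0 hk'.symm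
      apply hab
      exact (tA_smul K S hW hk0 hk'.symm).symm
    have hk0 : k 0 ≠ 0 := by
      intro h
      rw [h, zero_smul, zero_add] at hk'
      apply hub
      rw [← hk', Te_smul K S (hW.iso _ hu _ hu) hk1]
    obtain ⟨hrW, hr0, hre⟩ := hrep' _ ha
    obtain ⟨c, hc, hca⟩ := tA_prop K S hW hr0 hav0 hre
    -- `rep = c • av`
    rw [Finset.mem_image]
    refine ⟨(tA K S hW av hav, c * (k 0)⁻¹ * k 1), ?_, ?_⟩
    · rw [Finset.mem_product]
      refine ⟨ha, ?_⟩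
      rw [Finset.mem_erase]
      exact ⟨mul_ne_zero (mul_ne_zero hc (inv_ne_zero hk0)) hk1, Finset.mem_univ _⟩
    · show tA K S hW av hav * tA K S hW _ _ = tA K S hW av hav * tA K S hW bv hbv
      congr 1
      refine tA_smul K S hW (mul_ne_zero hc (inv_ne_zero hk0)) ?_
      rw [hca, ← hk', smul_add, smul_smul, smul_smul, inv_mul_cancel_right₀ hk0]
  have hcard : ((TT K S hW) ×ˢ (Finset.univ.erase (0 : F))).card = 63 := by
    rw [Finset.card_product, card_TT, Finset.card_erase_of_mem (Finset.mem_univ _), Finset.card_univ, hF]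
    norm_num
  have h1 := (Finset.card_le_card hsub).trans Finset.card_image_le
  rw [hcard] at h1
  omega

end Cfsg.Agent.Lib.H89EE
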