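import Cfsg.Agent.Lib.H89EE5
/-
Involution centralizers of type 2.U6(2): the normalizer of a maximal elementary abelian 2-subgroup of the centralizer
satisfies the hypotheses of the orbit theorem, third part (helper89).
-/
set_option autoImplicit false
set_option linter.all false

namespace Cfsg.Agent.Lib.H89EE

open Module Cfsg Cfsg.Agent.Lib.UnTrans Cfsg.Agent.Lib.UnBridge Cfsg.Agent.Lib.H89EA Cfsg.Agent.Lib.H89EB
open Cfsg.Agent.Lib.H89EC Cfsg.Agent.Lib.H89ED
open Cfsg.Agent.Lib.U6Class hiding TI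
open Cfsg.Agent.Lib.SpTrans (isom mem_isom)

universe v w w'

variable {F : Type} [Field F] [Fintype F] [CharP F 2] {V : Type v} [AddCommGroup V] [Module F V] {f : V → V → F}
  {hF : Fintype.card F = 2 ^ 2} {H : HS (sig hF) f} {G : Type w'} {Q : Type w} [Group G] [Group Q]
  {d₀ : G} {π : SS f →* Q} {D : Set Q} {φ : ↥(Subgroup.centralizer ({d₀} : Set G)) →* Q}
  {d : ↥(Subgroup.centralizer ({d₀} : Set G))} {E : Set ↥(Subgroup.centralizer ({d₀} : Set G))}
  [Finite G] (K : Cov φ d D E) (S : Setup H Q π D) {W : Submodule F V} (hW : TI f W)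

/-- fusion of a product of two members with its product with a third one -/
theorem fus_TT (hLO : LineOne K S) (hd0 : (d : G) = d₀) (hdW : d ∈ LW K S W) : ∀ t ∈ TT K S hW, ∃ r ∈ R2 (TT K S hW),
    ∃ n : Subgroup.normalizer (AG K S W : Set G), n • dA K S hd0 hdW = dA K S hd0 hdW ∧ n • t = t ∧ n • r = r * t := by
  intro t ht
  haveI := S.fin
  obtain ⟨u, hu, hu0, rfl⟩ := (mem_TT K S hW).1 ht
  obtain ⟨ω, _, _, hω, hsω, _⟩ := exists_omega hF
  -- an independent triple
  obtain ⟨v, hv, hv0, huv⟩ : ∃ v ∈ W, v ≠ 0 ∧ ∀ c : F, v ≠ c • u := by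
    obtain ⟨b, hb, hli⟩ := exists_basis hW
    by_contra hcon
    push Not at hcon
    obtain ⟨c0, h0⟩ := hcon (b 0) (hb 0) (hli.ne_zero 0)
    obtain ⟨c1, h1⟩ := hcon (b 1) (hb 1) (hli.ne_zero 1)
    have hc0 : c0 ≠ 0 := by rintro rfl; exact hli.ne_zero 0 (by rw [h0, zero_smul])
    have h2 := Fintype.linearIndependent_iff.1 hli ![c1, -c0, 0] (by
      rw [Fin.sum_univ_three]
      show c1 • b 0 + (-c0) • b 1 + (0 : F) • b 2 = 0
      rw [h0, h1, zero_smul, add_zero, smul_smul, smul_smul, neg_mul, neg_smul, mul_comm c0 c1, add_neg_cancel]) 1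
    have h3 : -c0 = 0 := h2
    exact hc0 (neg_eq_zero.1 h3)
  obtain ⟨z, hz, hli⟩ := indep_third hW.dim hu hv hu0 huv
  have hli2 : LinearIndependent F ![v, u, z] := by
    rw [Fintype.linearIndependent_iff] at hli ⊢
    intro g hg
    rw [Fin.sum_univ_three] at hg
    have hg' : g 0 • v + g 1 • u + g 2 • z = 0 := hg
    have h := hli ![g 1, g 0, g 2] (by
      rw [Fin.sum_univ_three]
      show g 1 • u + g 0 • v + g 2 • z = 0
      rw [← hg']; abel)
    intro i
    fin_cases i
    · exact h 1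
    · exact h 0
    · exact h 2
  have hli3 : LinearIndependent F ![u, v + ω • u, z] := by
    rw [Fintype.linearIndependent_iff] at hli ⊢
    intro g hg
    rw [Fin.sum_univ_three] at hg
    have hg' : g 0 • u + g 1 • (v + ω • u) + g 2 • z = 0 := hg
    have h := hli ![g 0 + g 1 * ω, g 1, g 2] (by
      rw [Fin.sum_univ_three]
      show (g 0 + g 1 * ω) • u + g 1 • v + g 2 • z = 0
      rw [← hg']; module)
    have e0 : g 0 + g 1 * ω = 0 := h 0
    have e1 : g 1 = 0 := h 1
    have e2 : g 2 = 0 := h 2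
    intro i
    fin_cases i
    · show g 0 = 0
      rw [e1, zero_mul, add_zero] at e0; exact e0
    · exact e1
    · exact e2
  have m1 : v + u ∈ W := W.add_mem hv hu
  have m2 : v + ω • u ∈ W := W.add_mem hv (W.smul_mem _ hu)
  have m3 : v + (ω + 1) • u ∈ W := W.add_mem hv (W.smul_mem _ hu)
  have hmem : ∀ i, ![v, u, z] i ∈ W := by intro i; fin_cases i <;> assumption
  have hL : Lam K S ω v u = 1 := hLO ω hω hsω ![v, u, z] (fun i j => hW.iso _ (hmem i) _ (hmem j)) hli2
  rw [Lam] at hL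
  have sq : ∀ {x : V}, x ∈ W → Te K S x * Te K S x = 1 := fun hx => Te_sq K S (hW.iso _ hx _ hx)
  have cm : ∀ {x y : V}, x ∈ W → y ∈ W → Te K S x * Te K S y = Te K S y * Te K S x := fun hx hy =>
    Te_comm K S (hW.iso _ hx _ hx) (hW.iso _ hy _ hy) (hW.iso _ hx _ hy)
  have h5 : Te K S v * Te K S (v + u) * Te K S u = Te K S (v + ω • u) * Te K S (v + (ω + 1) • u) := by
    have h6 := five_to hL (sq m2) (sq m3) (cm m2 m3)
    rw [← h6, mul_assoc, cm m1 hu, ← mul_assoc]
  have hvu0 : v + u ≠ 0 := by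
    intro h
    exact huv (-1) (by rw [neg_smul, one_smul]; exact eq_neg_of_add_eq_zero_left h)
  have hne : tA K S hW v hv ≠ tA K S hW (v + u) m1 := by
    intro h
    obtain ⟨c, hc, hcv⟩ := tA_prop K S hW hvu0 hv0 h.symm
    -- v + u = c • v
    have h7 : u = (c - 1) • v := by rw [sub_smul, one_smul, ← hcv]; abel
    by_cases hc1 : c - 1 = 0
    · rw [hc1, zero_smul] at h7; exact hu0 h7
    · exact huv (c - 1)⁻¹ (by rw [h7, smul_smul, inv_mul_cancel₀ hc1, one_smul])
  obtain ⟨n, s, c, hs, hn, hc, g0, g1, g2, g3⟩ := exists_n K S hW (w := ![u, v, z]) (w' := ![u, v + ω • u, z])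
    (by intro i; fin_cases i <;> assumption) hli (by intro i; fin_cases i <;> assumption) hli3
  have g0' : (s : V ≃ₗ[F] V) u = u := g0
  have g1' : (s : V ≃ₗ[F] V) v = v + ω • u := g1
  refine ⟨tA K S hW v hv * tA K S hW (v + u) m1, mem_R2.2 ⟨_, tA_mem K S hW hv hv0, _, tA_mem K S hW m1 hvu0, hne, rfl⟩, n,
    (smul_dA K S hd0 hdW n).2 hn, ?_, ?_⟩
  · rw [g3, tA_eq, g0']
  · rw [smul_mul', g3, g3]
    apply Subtype.ext
    show ((Te K S ((s : V ≃ₗ[F] V) v) * Te K S ((s : V ≃ₗ[F] V) (v + u)) : ↥(Subgroup.centralizer ({d₀} : Set G))) : G) =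
      ((Te K S v * Te K S (v + u) * Te K S u : ↥(Subgroup.centralizer ({d₀} : Set G))) : G)
    rw [h5, map_add, g0', g1']
    have h8 : v + ω • u + u = v + (ω + 1) • u := by rw [add_smul, one_smul]; abel
    rw [h8]

/-- the stabilizer of two members moves a third one to at least three places -/
theorem three_TT (hd0 : (d : G) = d₀) (hdW : d ∈ LW K S W) : ∀ a ∈ TT K S hW, ∀ b ∈ TT K S hW, ∀ e ∈ TT K S hW,
    a ≠ b → e ≠ a → e ≠ b → ∃ n₁ n₂ n₃ : Subgroup.normalizer (AG K S W : Set G),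
    (n₁ • dA K S hd0 hdW = dA K S hd0 hdW ∧ n₁ • a = a ∧ n₁ • b = b) ∧
    (n₂ • dA K S hd0 hdW = dA K S hd0 hdW ∧ n₂ • a = a ∧ n₂ • b = b) ∧
    (n₃ • dA K S hd0 hdW = dA K S hd0 hdW ∧ n₃ • a = a ∧ n₃ • b = b) ∧ n₁ • e ≠ n₂ • e ∧ n₁ • e ≠ n₃ • e ∧ n₂ • e ≠ n₃ • e := by
  haveI := S.fin
  intro a ha b hb e he hab hea heb
  obtain ⟨u, hu, hu0, rfl⟩ := (mem_TT K S hW).1 ha
  obtain ⟨v, hv, hv0, rfl⟩ := (mem_TT K S hW).1 hb
  obtain ⟨x, hx, hx0, rfl⟩ := (mem_TT K S hW).1 he
  obtain ⟨ω, hω0, hω1, hω, hsω, hall⟩ := exists_omega hF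
  have huv := not_prop K S hW hu hv0 (fun h => hab ((tA_eq K S hW).2 h))
  obtain ⟨z, hz, hli⟩ := indep_third hW.dim hu hv hu0 huv
  have hne1 : (ω + 1 : F) ≠ 0 := by
    intro h; apply hω0
    have := pow_eq_zero_iff (n := 2) two_ne_zero |>.1 (hω.trans h)
    exact this
  by_cases hxs : x ∈ Submodule.span F (Set.range ![u, v])
  · -- collinear
    obtain ⟨k, hk⟩ := (Submodule.mem_span_range_iff_exists_fun F).1 hxs
    rw [Fin.sum_univ_two] at hk
    have hk' : k 0 • u + k 1 • v = x := hk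
    have hk1 : k 1 ≠ 0 := by
      intro h
      rw [h, zero_smul, add_zero] at hk'
      have hk0 : k 0 ≠ 0 := by rintro h0; rw [h0, zero_smul] at hk'; exact hx0 hk'.symm
      exact hea (tA_smul K S hW hk0 hk'.symm)
    have hk0 : k 0 ≠ 0 := by
      intro h
      rw [h, zero_smul, zero_add] at hk'
      exact heb (tA_smul K S hW hk1 hk'.symm)
    have huse : ∀ m : F, m ≠ 0 → ∃ n : Subgroup.normalizer (AG K S W : Set G), (n • dA K S hd0 hdW = dA K S hd0 hdW ∧
        n • tA K S hW u hu = tA K S hW u hu ∧ n • tA K S hW v hv = tA K S hW v hv) ∧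
        n • tA K S hW x hx = tA K S hW (k 0 • u + (k 1 * m) • v) (W.add_mem (W.smul_mem _ hu) (W.smul_mem _ hv)) := by
      intro m hm
      have hli' : LinearIndependent F ![u, m • v, z] := by
        rw [Fintype.linearIndependent_iff] at hli ⊢
        intro g hg
        rw [Fin.sum_univ_three] at hg
        have hg' : g 0 • u + g 1 • (m • v) + g 2 • z = 0 := hg
        have h := hli ![g 0, g 1 * m, g 2] (by
          rw [Fin.sum_univ_three]
          show g 0 • u + (g 1 * m) • v + g 2 • z = 0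
          rw [← hg']; module)
        have e1 : g 1 * m = 0 := h 1
        intro i
        fin_cases i
        · exact h 0
        · exact (mul_eq_zero.1 e1).resolve_right hm
        · exact h 2
      obtain ⟨n, s, c, hs, hn, hc, g0, g1, g2, g3⟩ := exists_n K S hW (w := ![u, v, z]) (w' := ![u, m • v, z])
        (by intro i; fin_cases i <;> assumption) hli (by
          intro i; fin_cases i
          · exact hu
          · exact W.smul_mem m hv
          · exact hz) hli'
      have g0' : (s : V ≃ₗ[F] V) u = u := g0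
      have g1' : (s : V ≃ₗ[F] V) v = m • v := g1
      refine ⟨n, ⟨(smul_dA K S hd0 hdW n).2 hn, ?_, ?_⟩, ?_⟩
      · rw [g3, tA_eq, g0']
      · rw [g3]; exact tA_smul K S hW hm g1'
      · rw [g3, tA_eq, ← hk', map_add, map_smul, map_smul, g0', g1', smul_smul]
    have hdist : ∀ m m' : F, m ≠ 0 → m' ≠ 0 → m ≠ m' →
        tA K S hW (k 0 • u + (k 1 * m) • v) (W.add_mem (W.smul_mem _ hu) (W.smul_mem _ hv)) ≠
        tA K S hW (k 0 • u + (k 1 * m') • v) (W.add_mem (W.smul_mem _ hu) (W.smul_mem _ hv)) := by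
      intro m m' hm hm' hmm' h
      have hnz : ∀ m : F, m ≠ 0 → k 0 • u + (k 1 * m) • v ≠ 0 := by
        intro m hm h0
        have h' := Fintype.linearIndependent_iff.1 hli ![k 0, k 1 * m, 0] (by
          rw [Fin.sum_univ_three]
          show k 0 • u + (k 1 * m) • v + (0 : F) • z = 0
          rw [zero_smul, add_zero, h0]) 0
        exact hk0 h'
      obtain ⟨c, hc, hcc⟩ := tA_prop K S hW (hnz m hm) (hnz m' hm') h
      have h' := Fintype.linearIndependent_iff.1 hli ![k 0 - c * k 0, k 1 * m - c * (k 1 * m'), 0] (by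
        rw [Fin.sum_univ_three]
        show (k 0 - c * k 0) • u + (k 1 * m - c * (k 1 * m')) • v + (0 : F) • z = 0
        rw [zero_smul, add_zero]
        have : (k 0 - c * k 0) • u + (k 1 * m - c * (k 1 * m')) • v =
          (k 0 • u + (k 1 * m) • v) - c • (k 0 • u + (k 1 * m') • v) := by module
        rw [this, ← hcc, sub_self])
      have e0 : k 0 - c * k 0 = 0 := h' 0
      have e1 : k 1 * m - c * (k 1 * m') = 0 := h' 1
      have hc1 : c = 1 := by
        have : (1 - c) * k 0 = 0 := by rw [sub_mul, one_mul]; exact e0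
        rcases mul_eq_zero.1 this with h | h
        · exact (sub_eq_zero.1 h).symm
        · exact absurd h hk0
      rw [hc1, one_mul, ← mul_sub] at e1
      rcases mul_eq_zero.1 e1 with h | h
      · exact hk1 h
      · exact hmm' (sub_eq_zero.1 h)
    obtain ⟨n₁, h1, h1'⟩ := huse 1 one_ne_zero
    obtain ⟨n₂, h2, h2'⟩ := huse ω hω0
    obtain ⟨n₃, h3, h3'⟩ := huse (ω + 1) hne1
    refine ⟨n₁, n₂, n₃, h1, h2, h3, ?_, ?_, ?_⟩
    · rw [h1', h2']; exact hdist 1 ω one_ne_zero hω0 (Ne.symm hω1)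
    · rw [h1', h3']; exact hdist 1 (ω + 1) one_ne_zero hne1 (fun h => hω0 (by
        have : ω + 1 = 0 + 1 := by rw [zero_add]; exact h.symm
        exact add_right_cancel this))
    · rw [h2', h3']; exact hdist ω (ω + 1) hω0 hne1 (fun h => one_ne_zero (α := F) (by
        have : ω + 0 = ω + 1 := by rw [add_zero]; exact h
        exact (add_left_cancel this).symm))
  · -- independent
    have h2 : LinearIndependent F ![u, v] := by
      rw [LinearIndependent.pair_iff]
      intro s t h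
      have h' := Fintype.linearIndependent_iff.1 hli ![s, t, 0] (by
        rw [Fin.sum_univ_three]
        show s • u + t • v + (0 : F) • z = 0
        rw [zero_smul, add_zero, h])
      exact ⟨h' 0, h' 1⟩
    have hlx : LinearIndependent F ![u, v, x] := by
      have h4 : LinearIndependent F (Fin.snoc ![u, v] x : Fin 3 → V) := by
        rw [linearIndependent_finSnoc]
        exact ⟨h2, hxs⟩
      have h5 : (Fin.snoc ![u, v] x : Fin 3 → V) = ![u, v, x] := by
        funext i; fin_cases i <;> rfl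
      rwa [h5] at h4
    have huse : ∀ m : F, ∃ n : Subgroup.normalizer (AG K S W : Set G), (n • dA K S hd0 hdW = dA K S hd0 hdW ∧
        n • tA K S hW u hu = tA K S hW u hu ∧ n • tA K S hW v hv = tA K S hW v hv) ∧
        n • tA K S hW x hx = tA K S hW (x + m • u) (W.add_mem hx (W.smul_mem _ hu)) := by
      intro m
      have hli' : LinearIndependent F ![u, v, x + m • u] := by
        rw [Fintype.linearIndependent_iff] at hlx ⊢
        intro g hg
        rw [Fin.sum_univ_three] at hg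
        have hg' : g 0 • u + g 1 • v + g 2 • (x + m • u) = 0 := hg
        have h := hlx ![g 0 + g 2 * m, g 1, g 2] (by
          rw [Fin.sum_univ_three]
          show (g 0 + g 2 * m) • u + g 1 • v + g 2 • x = 0
          rw [← hg']; module)
        have e0 : g 0 + g 2 * m = 0 := h 0
        have e2 : g 2 = 0 := h 2
        intro i
        fin_cases i
        · show g 0 = 0
          rw [e2, zero_mul, add_zero] at e0; exact e0
        · exact h 1
        · exact e2
      obtain ⟨n, s, c, hs, hn, hc, g0, g1, g2, g3⟩ := exists_n K S hW (w := ![u, v, x]) (w' := ![u, v, x + m • u])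
        (by intro i; fin_cases i <;> assumption) hlx (by
          intro i; fin_cases i
          · exact hu
          · exact hv
          · exact W.add_mem hx (W.smul_mem _ hu)) hli'
      refine ⟨n, ⟨(smul_dA K S hd0 hdW n).2 hn, ?_, ?_⟩, ?_⟩
      · rw [g3, tA_eq]; exact congrArg (Te K S) g0
      · rw [g3, tA_eq]; exact congrArg (Te K S) g1
      · rw [g3]; exact tA_smul K S hW hc g2
    have hnz : ∀ m : F, x + m • u ≠ 0 := by
      intro m h0
      have h' := Fintype.linearIndependent_iff.1 hlx ![m, 0, 1] (by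
        rw [Fin.sum_univ_three]
        show m • u + (0 : F) • v + (1 : F) • x = 0
        rw [zero_smul, add_zero, one_smul, add_comm, h0]) 2
      exact one_ne_zero h'
    have hdist : ∀ m m' : F, m ≠ m' → tA K S hW (x + m • u) (W.add_mem hx (W.smul_mem _ hu)) ≠
        tA K S hW (x + m' • u) (W.add_mem hx (W.smul_mem _ hu)) := by
      intro m m' hmm' h
      obtain ⟨c, hc, hcc⟩ := tA_prop K S hW (hnz m) (hnz m') h
      have h' := Fintype.linearIndependent_iff.1 hlx ![m - c * m', 0, 1 - c] (by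
        rw [Fin.sum_univ_three]
        show (m - c * m') • u + (0 : F) • v + (1 - c) • x = 0
        have : (m - c * m') • u + (0 : F) • v + (1 - c) • x = (x + m • u) - c • (x + m' • u) := by module
        rw [this, ← hcc, sub_self])
      have e0 : m - c * m' = 0 := h' 0
      have e2 : 1 - c = 0 := h' 2
      have hc1 : c = 1 := (sub_eq_zero.1 e2).symm
      rw [hc1, one_mul] at e0
      exact hmm' (sub_eq_zero.1 e0)
    obtain ⟨n₁, h1, h1'⟩ := huse 0
    obtain ⟨n₂, h2, h2'⟩ := huse 1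
    obtain ⟨n₃, h3, h3'⟩ := huse ω
    refine ⟨n₁, n₂, n₃, h1, h2, h3, ?_, ?_, ?_⟩
    · rw [h1', h2']; exact hdist 0 1 zero_ne_one
    · rw [h1', h3']; exact hdist 0 ω (Ne.symm hω0)
    · rw [h2', h3']; exact hdist 1 ω (Ne.symm hω1)

/-- the involution is generated by the class -/
theorem dcl_TT (hd0 : (d : G) = d₀) (hdW : d ∈ LW K S W) :
    dA K S hd0 hdW ∈ Subgroup.closure (TT K S hW : Set (AG K S W)) := by
  have key : ∀ y ∈ LW K S W, ∀ (hy : (y : G) ∈ AG K S W), (⟨(y : G), hy⟩ : AG K S W) ∈ Subgroup.closure (TT K S hW : Set (AG K S W)) := by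
    intro y hy
    rw [LW] at hy
    induction hy using Subgroup.closure_induction with
    | mem y hy =>
      intro hyG
      obtain ⟨v, hv, hvv, hv0, rfl⟩ := (mem_EW K S).1 hy
      exact Subgroup.subset_closure (tA_mem K S hW hv hv0)
    | one => intro _; exact Subgroup.one_mem _
    | mul y z hy' hz' ihy ihz =>
      intro hyz
      have h1 : (y : G) ∈ AG K S W := (coe_mem_AG K S).2 hy'
      have h2 : (z : G) ∈ AG K S W := (coe_mem_AG K S).2 hz'
      have h3 : (⟨((y * z : ↥(Subgroup.centralizer ({d₀} : Set G))) : G), hyz⟩ : AG K S W) = ⟨(y : G), h1⟩ * ⟨(z : G), h2⟩ := rfl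
      rw [h3]
      exact Subgroup.mul_mem _ (ihy h1) (ihz h2)
    | inv y hy' ih =>
      intro hyi
      have h1 : (y : G) ∈ AG K S W := (coe_mem_AG K S).2 hy'
      have h3 : (⟨((y⁻¹ : ↥(Subgroup.centralizer ({d₀} : Set G))) : G), hyi⟩ : AG K S W) = (⟨(y : G), h1⟩ : AG K S W)⁻¹ := rfl
      rw [h3]
      exact Subgroup.inv_mem _ (ih h1)
  have h := key d hdW ((coe_mem_AG K S).2 hdW)
  have h2 : (⟨(d : G), (coe_mem_AG K S).2 hdW⟩ : AG K S W) = dA K S hd0 hdW := Subtype.ext hd0
  rwa [h2] at h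

/-- **the hypotheses of the orbit theorem** -/
theorem os (hLO : LineOne K S) (hno : ¬ HypOne K S) (hd0 : (d : G) = d₀) (hdW : d ∈ LW K S W)
    (hcard : Nat.card Q = 9196830720)
    (hmov : ∃ n : Subgroup.normalizer (AG K S W : Set G), n • dA K S hd0 hdW ≠ dA K S hd0 hdW) :
    OS ↥(Subgroup.normalizer (AG K S W : Set G)) (dA K S hd0 hdW) (TT K S hW) := by
  have hh : ∀ {v : V}, v ∈ W → f v v = 0 := fun hv => hW.iso _ hv _ hv
  have notp : ∀ {u v : V} (hu : u ∈ W) (hv : v ∈ W), v ≠ 0 → tA K S hW u hu ≠ tA K S hW v hv → ∀ t : F, v ≠ t • u :=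
    fun hu hv hv0 h => not_prop K S hW hu hv0 (fun h' => h ((tA_eq K S hW).2 h'))
  have hoT : (1 : AG K S W) ∉ TT K S hW := by
    intro h
    obtain ⟨v, hv, hv0, h1⟩ := (mem_TT K S hW).1 h
    exact Te_ne_one K S hW hv hv0 (toC K S (x := tA K S hW v hv) (y := 1) rfl rfl h1)
  have hdT : dA K S hd0 hdW ∉ TT K S hW := by
    intro h
    obtain ⟨v, hv, hv0, h1⟩ := (mem_TT K S hW).1 h
    exact Te_ne_d K S hW hv hv0 (toC K S (x := tA K S hW v hv) (y := dA K S hd0 hdW) rfl (dA_coe K S hd0 hdW) h1)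
  have hTdT : ∀ a ∈ TT K S hW, dA K S hd0 hdW * a ∉ TT K S hW := by
    intro a ha h
    obtain ⟨v, hv, hv0, rfl⟩ := (mem_TT K S hW).1 ha
    obtain ⟨u, hu, hu0, h1⟩ := (mem_TT K S hW).1 h
    apply Te_mul_d K S hW hu hu0 hv hv0
    rw [← K.dc]
    exact toC K S (x := tA K S hW u hu) (y := dA K S hd0 hdW * tA K S hW v hv) rfl (by
      show d₀ * ((Te K S v : ↥(Subgroup.centralizer ({d₀} : Set G))) : G) = (d : G) * (Te K S v : ↥(Subgroup.centralizer ({d₀} : Set G)))
      rw [hd0]) h1
  have hd1 : dA K S hd0 hdW ≠ 1 := by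
    intro h
    exact K.d1 (toC K S (x := dA K S hd0 hdW) (y := 1) (dA_coe K S hd0 hdW) rfl h)
  have hsq : ∀ x : AG K S W, x * x = 1 := fun x => Subtype.ext (AG_sq K S hW x x.2)
  refine
    { cA := ?_
      sq := hsq
      cT := card_TT K S hW
      inv := inv_TT K S hW hd0 hdW
      two := two_TT K S hW hd0 hdW
      d1 := hd1
      oneT := hoT
      dT := hdT
      TdT := hTdT
      uniq := ?_
      R2d := ?_
      R2T := ?_
      R2dT := ?_
      R2dR2 := ?_
      tr3 := ?_
      col := col_TT K S hW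
      fus := fus_TT K S hW hLO hd0 hdW
      three := three_TT K S hW hd0 hdW
      dcl := dcl_TT K S hW hd0 hdW
      nop := ?_
      mov := hmov }
  · rw [← Nat.card_eq_fintype_card]; exact card_AG K S hW hdW
  · intro a ha b hb a' ha' b' hb' hab h
    obtain ⟨u, hu, hu0, rfl⟩ := (mem_TT K S hW).1 ha
    obtain ⟨v, hv, hv0, rfl⟩ := (mem_TT K S hW).1 hb
    obtain ⟨u', hu', hu0', rfl⟩ := (mem_TT K S hW).1 ha'
    obtain ⟨v', hv', hv0', rfl⟩ := (mem_TT K S hW).1 hb'
    have h1 := toC K S (x := tA K S hW u hu * tA K S hW v hv) (y := tA K S hW u' hu' * tA K S hW v' hv')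
      (x' := Te K S u * Te K S v) (y' := Te K S u' * Te K S v') rfl rfl h
    rcases Te_uniq K S hW hu hv hu' hv' hu0 hv0 hu0' hv0' (notp hu hv hv0 hab) (by rw [h1]) with h2 | h2
    · left; exact (tA_eq K S hW).2 h2
    · right; exact (tA_eq K S hW).2 h2
  · intro a ha b hb h
    obtain ⟨u, hu, hu0, rfl⟩ := (mem_TT K S hW).1 ha
    obtain ⟨v, hv, hv0, rfl⟩ := (mem_TT K S hW).1 hb
    have h1 := toC K S (x := tA K S hW u hu * tA K S hW v hv) (y := dA K S hd0 hdW)
      (x' := Te K S u * Te K S v) (y' := d) rfl (dA_coe K S hd0 hdW) h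
    apply Te_mul_d K S hW hu hu0 hv hv0
    rw [← K.dc]
    calc Te K S u = Te K S u * Te K S v * Te K S v := by rw [mul_assoc, Te_sq K S (hh hv), mul_one]
      _ = d * Te K S v := congrArg (fun z => z * Te K S v) h1
  · intro a ha b hb hab h
    obtain ⟨u, hu, hu0, rfl⟩ := (mem_TT K S hW).1 ha
    obtain ⟨v, hv, hv0, rfl⟩ := (mem_TT K S hW).1 hb
    obtain ⟨z, hz, hz0, h1⟩ := (mem_TT K S hW).1 h
    have h2 := toC K S (x := tA K S hW u hu * tA K S hW v hv) (y := tA K S hW z hz)
      (x' := Te K S u * Te K S v) (y' := Te K S z) rfl rfl h1.symm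
    exact Te_rel2 K S hW hu hv hz hu0 hv0 hz0 (notp hu hv hv0 hab) (by rw [h2])
  · intro a ha b hb h
    obtain ⟨u, hu, hu0, rfl⟩ := (mem_TT K S hW).1 ha
    obtain ⟨v, hv, hv0, rfl⟩ := (mem_TT K S hW).1 hb
    by_cases hab : tA K S hW u hu = tA K S hW v hv
    · rw [hab, hsq, mul_one] at h; exact hdT h
    obtain ⟨z, hz, hz0, h1⟩ := (mem_TT K S hW).1 h
    have h2 := toC K S (x := dA K S hd0 hdW * (tA K S hW u hu * tA K S hW v hv)) (y := tA K S hW z hz)
      (x' := d * (Te K S u * Te K S v)) (y' := Te K S z) (by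
        show d₀ * _ = (d : G) * _
        rw [hd0]; rfl) rfl h1.symm
    refine Te_rel2 K S hW hu hv hz hu0 hv0 hz0 (notp hu hv hv0 hab) ?_
    rw [← h2, map_mul φ d, K.phi_d, one_mul]
  · intro a ha b hb a' ha' b' hb' hab h
    obtain ⟨u, hu, hu0, rfl⟩ := (mem_TT K S hW).1 ha
    obtain ⟨v, hv, hv0, rfl⟩ := (mem_TT K S hW).1 hb
    obtain ⟨u', hu', hu0', rfl⟩ := (mem_TT K S hW).1 ha'
    obtain ⟨v', hv', hv0', rfl⟩ := (mem_TT K S hW).1 hb'
    have h1 := toC K S (x := tA K S hW u hu * tA K S hW v hv) (y := dA K S hd0 hdW * (tA K S hW u' hu' * tA K S hW v' hv'))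
      (x' := Te K S u * Te K S v) (y' := d * (Te K S u' * Te K S v')) rfl (by
        show d₀ * _ = (d : G) * _
        rw [hd0]; rfl) h
    have comm : ∀ x y : AG K S W, x * y = y * x := by
      intro x y
      have h1 := hsq (x * y)
      have h2 : x * y = (x * y)⁻¹ := eq_inv_of_mul_eq_one_left h1
      rw [h2, mul_inv_rev, inv_eq_of_mul_eq_one_left (hsq x), inv_eq_of_mul_eq_one_left (hsq y)]
    rcases Te_uniq K S hW hu hv hu' hv' hu0 hv0 hu0' hv0' (notp hu hv hv0 hab) (by rw [h1, map_mul φ d, K.phi_d, one_mul]) with h2 | h2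
    · have h3 := (tA_eq K S hW (hv := hu) (hu := hu')).2 h2
      rw [← h3] at h
      have h4 : tA K S hW v hv = dA K S hd0 hdW * tA K S hW v' hv' := by
        have : tA K S hW u hu * tA K S hW v hv = tA K S hW u hu * (dA K S hd0 hdW * tA K S hW v' hv') := by
          rw [h, ← mul_assoc, comm (dA K S hd0 hdW), mul_assoc]
        exact mul_left_cancel this
      exact hTdT _ hb' (by rw [← h4]; exact hb)
    · have h3 := (tA_eq K S hW (hv := hu) (hu := hv')).2 h2
      rw [← h3, comm (tA K S hW u' hu')] at h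
      have h4 : tA K S hW v hv = dA K S hd0 hdW * tA K S hW u' hu' := by
        have : tA K S hW u hu * tA K S hW v hv = tA K S hW u hu * (dA K S hd0 hdW * tA K S hW u' hu') := by
          rw [h, ← mul_assoc, comm (dA K S hd0 hdW), mul_assoc]
        exact mul_left_cancel this
      exact hTdT _ ha' (by rw [← h4]; exact hb)
  · intro x hx x' hx'
    refine tr3_TT K S hW hno hd0 hdW ?_ ?_
    · simp only [R3, Finset.mem_sdiff, Finset.mem_univ, true_and, Finset.mem_union, Finset.mem_insert, Finset.mem_singleton] at hx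
      tauto
    · simp only [R3, Finset.mem_sdiff, Finset.mem_univ, true_and, Finset.mem_union, Finset.mem_insert, Finset.mem_singleton] at hx'
      tauto
  · intro g hg
    by_contra hcon
    push Not at hcon
    have h1 := hcon (dA K S hd0 hdW)
    rw [smul_dA] at h1
    obtain ⟨c, s, hgc, _⟩ := exists_s K S hW h1
    have h2 : orderOf g = orderOf c := by
      rw [← Subgroup.orderOf_coe g, hgc, Subgroup.orderOf_coe c]
    have h3 : orderOf c ∣ Nat.card ↥(Subgroup.centralizer ({d₀} : Set G)) := orderOf_dvd_natCard c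
    rw [card_cov K, hcard, ← h2] at h3
    rcases hg with hg | hg
    · rw [hg] at h3; norm_num at h3
    · rw [hg] at h3; norm_num at h3

end Cfsg.Agent.Lib.H89EE
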