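import Cfsg.Agent.Lib.H89EE6
/-
Involution centralizers of type 2.U6(2): the Thompson subgroup and fusion (helper89).
-/
set_option autoImplicit false
set_option linter.all false

namespace Cfsg.Agent.Lib.H89EF

open Module Cfsg Cfsg.Agent.Lib.UnTrans Cfsg.Agent.Lib.UnBridge Cfsg.Agent.Lib.H89EA Cfsg.Agent.Lib.H89EB
open Cfsg.Agent.Lib.H89EC Cfsg.Agent.Lib.H89ED Cfsg.Agent.Lib.H89EE
open Cfsg.Agent.Lib.U6Class hiding TI
open Cfsg.Agent.Lib.SpTrans (isom mem_isom)

universe v w w'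

variable {F : Type} [Field F] [Fintype F] [CharP F 2] {V : Type v} [AddCommGroup V] [Module F V] {f : V → V → F}
  {hF : Fintype.card F = 2 ^ 2} {H : HS (sig hF) f}

section C

variable {C : Type w'} {Q : Type w} [Group C] [Group Q] {π : SS f →* Q} {D : Set Q} {φ : C →* Q} {d : C} {E : Set C}

theorem closure_eq (K : Cov φ d D E) (S : Setup H Q π D) {W : Submodule F V} (hd : d ∈ LW K S W) :
    Subgroup.closure (insert d (EW E φ S W)) = LW K S W := by
  apply le_antisymm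
  · rw [Subgroup.closure_le]
    rintro x (rfl | hx)
    · exact hd
    · exact Subgroup.subset_closure hx
  · exact Subgroup.closure_mono (Set.subset_insert _ _)

theorem card_LW [Finite C] (K : Cov φ d D E) (S : Setup H Q π D) {W : Submodule F V} (hW : TI f W) (hd : d ∈ LW K S W) :
    Nat.card (LW K S W) = 2 ^ 10 := by
  haveI := S.fin
  haveI : Finite Q := Finite.of_surjective φ K.surj
  obtain ⟨u, hu, hli⟩ := exists_basis hW
  obtain ⟨y, B⟩ := exists_HBext (hv_of S) (fun i j => hW.iso _ (hu i) _ (hu j)) hli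
  have h2 := (existsA K S B).2
  rw [span_eq_of_li hW.dim hu hli, closure_eq K S hd] at h2
  exact h2

theorem struct' (K : Cov φ d D E) (S : Setup H Q π D) (hall : ∀ W : Submodule F V, TI f W → d ∈ LW K S W)
    {B : Subgroup C} (hB : ∀ b ∈ B, b * b = 1) (hc : Nat.card B = 2 ^ 10) : ∃ W : Submodule F V, TI f W ∧ B = LW K S W := by
  obtain ⟨W, h3, hiso, h4, _⟩ := structC K S B hB hc
  exact ⟨W, ⟨h3, hiso⟩, by rw [h4, closure_eq K S (hall W ⟨h3, hiso⟩)]⟩

theorem max_comm (K : Cov φ d D E) (S : Setup H Q π D) {W : Submodule F V} (hW : TI f W) {x : C} (hx : x ∈ E)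
    (h : ∀ y ∈ EW E φ S W, y * x = x * y) : x ∈ EW E φ S W := by
  haveI := S.fin
  obtain ⟨v, hvv, hv0, rfl⟩ := Te_surj K S hx
  refine Te_mem_EW K S ?_ hvv hv0
  refine mem_of_perp H S.nd (m := 3) (by rw [S.dim]) hW.dim hW.iso ?_
  intro u hu
  by_cases hu0 : u = 0
  · rw [hu0, H.zero_right]
  have huu := hW.iso u hu u hu
  have h2 := h _ (Te_mem_EW K S hu huu hu0)
  have h3 := congrArg φ h2
  rw [map_mul, map_mul, phi_Te K S hvv hv0, phi_Te K S huu hu0] at h3
  exact H.symm_zero ((S.commute_iff huu hvv).1 h3)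

theorem conj_all [Finite C] (K : Cov φ d D E) (S : Setup H Q π D) (hall : ∀ W : Submodule F V, TI f W → d ∈ LW K S W)
    {W W' : Submodule F V} (hW : TI f W) (hW' : TI f W') : ∃ c : C, (LW K S W).map (MulAut.conj c).toMonoidHom = LW K S W' := by
  haveI := S.fin
  obtain ⟨u, hu, hul⟩ := exists_basis hW
  obtain ⟨u', hu', hul'⟩ := exists_basis hW'
  obtain ⟨g, s, c, hg, hc, _, _, _, hs⟩ := exists_g K S hW hW' hu hul hu' hul'
  refine ⟨g, ?_⟩
  have h1 : Nat.card ((LW K S W).map (MulAut.conj g).toMonoidHom) = 2 ^ 10 := by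
    rw [← card_LW K S hW (hall W hW)]
    exact Nat.card_congr ((LW K S W).equivMapOfInjective _ (MulAut.conj g).injective).symm.toEquiv
  apply Subgroup.eq_of_le_of_card_ge
  · rintro _ ⟨x, hx, rfl⟩
    exact conj_LW K S hg hs hx
  · rw [h1, card_LW K S hW' (hall W' hW')]

/-- **the Thompson subgroup of a Sylow 2-subgroup** -/
theorem thompson [Finite C] (K : Cov φ d D E) (S : Setup H Q π D) (hall : ∀ W : Submodule F V, TI f W → d ∈ LW K S W)
    {W₀ : Submodule F V} (hW₀ : TI f W₀) (T : Sylow 2 C) :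
    ∃ W : Submodule F V, TI f W ∧ Cfsg.thompsonSubgroupOf 2 (T : Subgroup C) = LW K S W := by
  haveI : Fact (Nat.Prime 2) := ⟨Nat.prime_two⟩
  -- existence
  obtain ⟨W, hW, hWT⟩ : ∃ W : Submodule F V, TI f W ∧ LW K S W ≤ (T : Subgroup C) := by
    have h1 : IsPGroup 2 (LW K S W₀) := isPGroup_of_sq _ (LW_sq K S hW₀.iso)
    obtain ⟨P, hP⟩ := h1.exists_le_sylow
    obtain ⟨g, hg⟩ := MulAction.exists_smul_eq C P T
    set B : Subgroup C := (LW K S W₀).map (MulAut.conj g).toMonoidHom with hB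
    have hBs : ∀ b ∈ B, b * b = 1 := by
      rintro _ ⟨x, hx, rfl⟩
      rw [← map_mul, LW_sq K S hW₀.iso x hx, map_one]
    have hBc : Nat.card B = 2 ^ 10 := by
      rw [← card_LW K S hW₀ (hall W₀ hW₀)]
      exact Nat.card_congr ((LW K S W₀).equivMapOfInjective _ (MulAut.conj g).injective).symm.toEquiv
    obtain ⟨W, hW, hBW⟩ := struct' K S hall hBs hBc
    refine ⟨W, hW, ?_⟩
    rw [← hBW, ← hg]
    rintro _ ⟨x, hx, rfl⟩
    exact ⟨x, hP hx, rfl⟩
  refine ⟨W, hW, thompson_eq hWT (LW_sq K S hW.iso) ?_ ?_⟩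
  · intro B _ hB
    rw [card_LW K S hW (hall W hW)]
    exact H89EB.card_le K S B hB
  · intro B hBT hB hBc
    rw [card_LW K S hW (hall W hW)] at hBc
    obtain ⟨W', hW', rfl⟩ := struct' K S hall hB hBc
    apply Subgroup.eq_of_le_of_card_ge
    · rw [LW, Subgroup.closure_le]
      intro x hx
      apply Subgroup.subset_closure
      apply max_comm K S hW hx.1
      intro y hy
      have hyT : y ∈ (T : Subgroup C) := hWT (Subgroup.subset_closure hy)
      have hxT : x ∈ (T : Subgroup C) := hBT (Subgroup.subset_closure hx)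
      apply K.comm y hy.1 x hx.1
      -- two members of the class in a 2-group commute
      have hyD := K.im y hy.1
      have hxD := K.im x hx.1
      obtain ⟨k, hk⟩ := T.isPGroup' ⟨y * x, (T : Subgroup C).mul_mem hyT hxT⟩
      have h4 : (φ y * φ x) ^ 2 ^ k = 1 := by
        have h5 : (y * x) ^ 2 ^ k = 1 := congrArg Subtype.val hk
        rw [← map_mul, ← map_pow, h5, map_one]
      have hy2 : φ y * φ y = 1 := by
        have := pow_orderOf_eq_one (φ y); rw [S.three.1.1 _ hyD, pow_two] at this; exact this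
      have hx2 : φ x * φ x = 1 := by
        have := pow_orderOf_eq_one (φ x); rw [S.three.1.1 _ hxD, pow_two] at this; exact this
      have hcm : (φ y * φ x) ^ 2 = 1 → φ y * φ x = φ x * φ y := by
        intro h5
        rw [pow_two] at h5
        have h6 : φ y * φ x = (φ y * φ x)⁻¹ := eq_inv_of_mul_eq_one_left h5
        rw [h6, mul_inv_rev, inv_eq_of_mul_eq_one_left hy2, inv_eq_of_mul_eq_one_left hx2]
      rcases S.three.1.2 _ hyD _ hxD with h | h
      · exact hcm h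
      · have h1 : orderOf (φ y * φ x) ∣ 3 := orderOf_dvd_of_pow_eq_one h
        have h2 : orderOf (φ y * φ x) ∣ 2 ^ k := orderOf_dvd_of_pow_eq_one h4
        have h3 : orderOf (φ y * φ x) ∣ 1 := by
          have : Nat.Coprime 3 (2 ^ k) := Nat.Coprime.pow_right _ (by norm_num)
          rw [← this]
          exact Nat.dvd_gcd h1 h2
        have h5 : φ y * φ x = 1 := orderOf_eq_one_iff.1 (Nat.dvd_one.1 h3)
        exact hcm (by rw [h5, one_pow])
    · rw [hBc, card_LW K S hW (hall W hW)]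

end C

section G

variable {G : Type w'} {Q : Type w} [Group G] [Group Q] [Finite G]
  {d₀ : G} {π : SS f →* Q} {D : Set Q} {φ : ↥(Subgroup.centralizer ({d₀} : Set G)) →* Q}
  {d : ↥(Subgroup.centralizer ({d₀} : Set G))} {E : Set ↥(Subgroup.centralizer ({d₀} : Set G))}

/-- **the normalizer controls the fusion of the involution** -/
theorem fusion (K : Cov φ d D E) (S : Setup H Q π D) (hd0 : (d : G) = d₀) (hall : ∀ W : Submodule F V, TI f W → d ∈ LW K S W)
    {W : Submodule F V} (hW : TI f W) {g : G} (hg : g * d₀ * g⁻¹ ∈ AG K S W) :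
    ∃ n ∈ Subgroup.normalizer (AG K S W : Set G), n * d₀ * n⁻¹ = g * d₀ * g⁻¹ := by
  have hsqA := AG_sq K S hW
  set B : Subgroup ↥(Subgroup.centralizer ({d₀} : Set G)) :=
    ((AG K S W).map (MulAut.conj g⁻¹).toMonoidHom).subgroupOf (Subgroup.centralizer ({d₀} : Set G)) with hB
  have hle : (AG K S W).map (MulAut.conj g⁻¹).toMonoidHom ≤ Subgroup.centralizer ({d₀} : Set G) := by
    rintro _ ⟨a, ha, rfl⟩
    rw [Subgroup.mem_centralizer_iff]
    rintro x rfl
    have h1 := comm_of_sq hsqA ha hg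
    show x * (g⁻¹ * a * g⁻¹⁻¹) = g⁻¹ * a * g⁻¹⁻¹ * x
    calc x * (g⁻¹ * a * g⁻¹⁻¹) = g⁻¹ * ((g * x * g⁻¹) * a) * g := by group
      _ = g⁻¹ * (a * (g * x * g⁻¹)) * g := by rw [h1]
      _ = _ := by group
  have hBs : ∀ b ∈ B, b * b = 1 := by
    intro b hb
    rw [hB, Subgroup.mem_subgroupOf] at hb
    obtain ⟨a, ha, hab⟩ := hb
    apply Subtype.ext
    show (b : G) * (b : G) = 1
    rw [← hab, ← map_mul, hsqA a ha, map_one]
  have hBc : Nat.card B = 2 ^ 10 := by
    have h1 : Nat.card B = Nat.card ((AG K S W).map (MulAut.conj g⁻¹).toMonoidHom) :=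
      Nat.card_congr (Subgroup.subgroupOfEquivOfLe hle).toEquiv
    have h2 : Nat.card ((AG K S W).map (MulAut.conj g⁻¹).toMonoidHom) = Nat.card (AG K S W) :=
      Nat.card_congr ((AG K S W).equivMapOfInjective _ (MulAut.conj g⁻¹).injective).symm.toEquiv
    rw [h1, h2, card_AG K S hW (hall W hW)]
    norm_num
  obtain ⟨W', hW', hBW⟩ := struct' K S hall hBs hBc
  obtain ⟨c, hc⟩ := conj_all K S hall hW hW'
  -- conj by `g * c` normalizes
  refine ⟨g * (c : G), ?_, ?_⟩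
  · apply Subgroup.mem_normalizer_fintype
    rintro _ ⟨y, hy, rfl⟩
    have h1 : c * y * c⁻¹ ∈ LW K S W' := by
      rw [← hc]; exact ⟨y, hy, rfl⟩
    rw [← hBW, hB, Subgroup.mem_subgroupOf] at h1
    obtain ⟨a, ha, hac⟩ := h1
    have h2 : g⁻¹ * a * g⁻¹⁻¹ = (c : G) * y * (c : G)⁻¹ := hac
    have h3 : g * (c : G) * y * (g * (c : G))⁻¹ = a := by
      calc g * (c : G) * y * (g * (c : G))⁻¹ = g * ((c : G) * y * (c : G)⁻¹) * g⁻¹ := by group
        _ = g * (g⁻¹ * a * g⁻¹⁻¹) * g⁻¹ := by rw [h2]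
        _ = a := by group
    show g * (c : G) * (y : G) * (g * (c : G))⁻¹ ∈ AG K S W
    rw [h3]; exact ha
  · have h4 : d₀ * (c : G) = (c : G) * d₀ := Subgroup.mem_centralizer_iff.1 c.2 d₀ rfl
    calc g * (c : G) * d₀ * (g * (c : G))⁻¹ = g * ((c : G) * d₀) * (c : G)⁻¹ * g⁻¹ := by group
      _ = g * (d₀ * (c : G)) * (c : G)⁻¹ * g⁻¹ := by rw [h4]
      _ = _ := by group

/-- the involution is not central in the normalizer -/
theorem moved (K : Cov φ d D E) (S : Setup H Q π D) (hd0 : (d : G) = d₀) (hall : ∀ W : Submodule F V, TI f W → d ∈ LW K S W)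
    {W : Submodule F V} (hW : TI f W)
    (hnwc : ∃ g : G, g * d₀ * g⁻¹ ∈ Subgroup.centralizer ({d₀} : Set G) ∧ g * d₀ * g⁻¹ ≠ d₀) :
    ∃ n : Subgroup.normalizer (AG K S W : Set G), n • dA K S hd0 (hall W hW) ≠ dA K S hd0 (hall W hW) := by
  obtain ⟨g, hg, hne⟩ := hnwc
  have hdd : d₀ * d₀ = 1 := by
    have h := K.dd
    have h1 := congrArg (fun z : ↥(Subgroup.centralizer ({d₀} : Set G)) => (z : G)) h
    have h2 : (d : G) * (d : G) = 1 := h1
    exact (congrArg (fun z : G => z * z) hd0).symm.trans h2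
  obtain ⟨W', hW', hx⟩ := invol_mem K S (x := ⟨g * d₀ * g⁻¹, hg⟩) (by
    apply Subtype.ext
    show g * d₀ * g⁻¹ * (g * d₀ * g⁻¹) = 1
    calc g * d₀ * g⁻¹ * (g * d₀ * g⁻¹) = g * (d₀ * d₀) * g⁻¹ := by group
      _ = 1 := by rw [hdd]; group)
  rw [closure_eq K S (hall W' hW')] at hx
  obtain ⟨c, hc⟩ := conj_all K S hall hW' hW
  have h1 : c * ⟨g * d₀ * g⁻¹, hg⟩ * c⁻¹ ∈ LW K S W := by rw [← hc]; exact ⟨_, hx, rfl⟩
  have h2 : (c : G) * g * d₀ * ((c : G) * g)⁻¹ ∈ AG K S W := by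
    have h3 := (coe_mem_AG K S).2 h1
    have h4 : ((c * ⟨g * d₀ * g⁻¹, hg⟩ * c⁻¹ : ↥(Subgroup.centralizer ({d₀} : Set G))) : G) =
        (c : G) * g * d₀ * ((c : G) * g)⁻¹ := by
      show (c : G) * (g * d₀ * g⁻¹) * (c : G)⁻¹ = _
      group
    rwa [h4] at h3
  obtain ⟨n, hn, hnd⟩ := fusion K S hd0 hall hW h2
  refine ⟨⟨n, hn⟩, ?_⟩
  rw [Ne, smul_dA]
  intro h5
  have h5' : n * d₀ * n⁻¹ = d₀ := h5
  rw [hnd] at h5'
  apply hne
  have h4 : d₀ * (c : G) = (c : G) * d₀ := Subgroup.mem_centralizer_iff.1 c.2 d₀ rfl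
  have h6 : (c : G) * (g * d₀ * g⁻¹) * (c : G)⁻¹ = d₀ := Eq.trans (by group) h5'
  calc g * d₀ * g⁻¹ = (c : G)⁻¹ * ((c : G) * (g * d₀ * g⁻¹) * (c : G)⁻¹) * (c : G) := by group
    _ = (c : G)⁻¹ * d₀ * (c : G) := by rw [h6]
    _ = (c : G)⁻¹ * (d₀ * (c : G)) := by group
    _ = (c : G)⁻¹ * ((c : G) * d₀) := by rw [h4]
    _ = d₀ := by group

end G

end Cfsg.Agent.Lib.H89EF
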