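import Cfsg.Agent.Lib.LargeExtra

/-!
# Counting centralizers in an extraspecial 2-group by a sum of signs (helper89)
-/

set_option autoImplicit false
set_option linter.all false

namespace Cfsg.Agent.Lib.H89ExCount

open Cfsg Cfsg.Agent.Lib.LargeExtra

variable {G : Type*} [Group G] {Q : Subgroup G} {z : G}

open Classical in
/-- the sign of the commutator -/
noncomputable def c (a b : G) : ℤ := if a * b = b * a then 1 else -1

theorem c_symm (a b : G) : c a b = c b a := by
  unfold c
  by_cases h : a * b = b * a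
  · rw [if_pos h, if_pos h.symm]
  · rw [if_neg h, if_neg (fun h' => h h'.symm)]

theorem c_mul (h : ExData Q z) {a b x : G} (ha : a ∈ Q) (hb : b ∈ Q) (hx : x ∈ Q) : c (a * b) x = c a x * c b x := by
  have hzz := h.sq
  have hne := h.ne
  have key : ∀ {u v : G}, u ∈ Q → v ∈ Q → ¬ u * v = v * u → u * v = z * (v * u) := by
    intro u v hu hv huv
    rcases h.comm u hu v hv with h1 | h1
    · exact absurd h1 huv
    · exact h1
  have hzx : ∀ {u : G}, u ∈ Q → u * z = z * u := fun hu => h.cen _ hu
  unfold c
  by_cases h1 : a * x = x * a <;> by_cases h2 : b * x = x * b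
  · rw [if_pos h1, if_pos h2, if_pos (by rw [mul_assoc, h2, ← mul_assoc, h1, mul_assoc])]; rfl
  · have h3 := key hb hx h2
    rw [if_pos h1, if_neg h2, if_neg]; · rfl
    intro h4
    have h5 : a * b * x = z * (x * (a * b)) := by
      calc a * b * x = a * (b * x) := by group
        _ = a * z * (x * b) := by rw [h3]; group
        _ = z * (a * x) * b := by rw [hzx ha]; group
        _ = z * (x * (a * b)) := by rw [h1]; group
    rw [h4] at h5
    exact hne (right_eq_mul.1 h5)
  · have h3 := key ha hx h1
    rw [if_neg h1, if_pos h2, if_neg]; · rfl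
    intro h4
    have h5 : a * b * x = z * (x * (a * b)) := by
      calc a * b * x = a * (b * x) := by group
        _ = (a * x) * b := by rw [h2]; group
        _ = z * (x * (a * b)) := by rw [h3]; group
    rw [h4] at h5
    exact hne (right_eq_mul.1 h5)
  · have h3 := key ha hx h1
    have h3' := key hb hx h2
    rw [if_neg h1, if_neg h2, if_pos]; · rfl
    calc a * b * x = a * (b * x) := by group
        _ = a * z * (x * b) := by rw [h3']; group
        _ = z * (a * x) * b := by rw [hzx ha]; group
        _ = (z * z) * (x * (a * b)) := by rw [h3]; group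
        _ = x * (a * b) := by rw [hzz, one_mul]

open Classical in
theorem sum_c [Finite G] (h : ExData Q z) {A : Subgroup G} (hA : A ≤ Q) {x : G} (hx : x ∈ Q) [Fintype A] :
    ∑ a : A, c (a : G) x = if (∀ a ∈ A, a * x = x * a) then (Nat.card A : ℤ) else 0 := by
  split_ifs with h1
  · rw [Finset.sum_congr rfl (g := fun _ => (1 : ℤ)) (fun a _ => by unfold c; rw [if_pos (h1 a a.2)])]
    rw [Finset.sum_const, Finset.card_univ, Nat.card_eq_fintype_card]; simp
  · push Not at h1
    obtain ⟨b, hb, hbx⟩ := h1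
    have h2 : ∑ a : A, c (a : G) x = ∑ a : A, c (((⟨b, hb⟩ : A) * a : A) : G) x :=
      (Equiv.sum_comp (Equiv.mulLeft (⟨b, hb⟩ : A)) (fun a : A => c (a : G) x)).symm
    have h3 : ∀ a : A, c (((⟨b, hb⟩ : A) * a : A) : G) x = - c (a : G) x := by
      intro a
      show c (b * (a : G)) x = _
      rw [c_mul h (hA hb) (hA a.2) hx]
      have : c b x = -1 := by unfold c; rw [if_neg hbx]
      rw [this]; ring
    rw [Finset.sum_congr rfl (fun a _ => h3 a), Finset.sum_neg_distrib] at h2
    linarith

/-- duality between centralizers -/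
theorem card_cent [Finite G] (h : ExData Q z) {A B : Subgroup G} (hA : A ≤ Q) (hB : B ≤ Q) :
    Nat.card B * Nat.card ↥(A ⊓ Subgroup.centralizer (B : Set G)) =
      Nat.card A * Nat.card ↥(B ⊓ Subgroup.centralizer (A : Set G)) := by
  classical
  haveI := Fintype.ofFinite A
  haveI := Fintype.ofFinite B
  have key : ∀ {A B : Subgroup G} (hA : A ≤ Q) (hB : B ≤ Q) [Fintype A] [Fintype B], ∑ a : A, ∑ b : B, c (b : G) (a : G) =
      Nat.card B * Nat.card ↥(A ⊓ Subgroup.centralizer (B : Set G)) := by
    intro A B hA hB _ _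
    have h1 : ∀ a : A, ∑ b : B, c (b : G) (a : G) =
        if (a : G) ∈ Subgroup.centralizer (B : Set G) then (Nat.card B : ℤ) else 0 := by
      intro a
      have h2 := sum_c h hB (hA a.2)
      have h3 : ∑ b : B, c (b : G) (a : G) = if (∀ b ∈ B, b * (a : G) = a * b) then (Nat.card B : ℤ) else 0 := by
        convert h2
      rw [h3]
      have h4 : (∀ b ∈ B, b * (a : G) = a * b) ↔ (a : G) ∈ Subgroup.centralizer (B : Set G) := by
        rw [Subgroup.mem_centralizer_iff]; rfl
      simp only [h4]
    rw [Finset.sum_congr rfl (fun a _ => h1 a), ← Finset.sum_filter, Finset.sum_const, nsmul_eq_mul, mul_comm]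
    congr 1
    rw [← Fintype.card_subtype, ← Nat.card_eq_fintype_card]
    congr 1
    exact Nat.card_congr
      { toFun := fun a => ⟨a.1.1, a.1.2, a.2⟩
        invFun := fun a => ⟨⟨a.1, a.2.1⟩, a.2.2⟩
        left_inv := fun a => rfl
        right_inv := fun a => rfl }
  have h1 := key hA hB
  have h2 := key hB hA
  rw [Finset.sum_comm] at h2
  have h3 : ∑ a : A, ∑ b : B, c (b : G) (a : G) = ∑ a : A, ∑ b : B, c (a : G) (b : G) :=
    Finset.sum_congr rfl fun a _ => Finset.sum_congr rfl fun b _ => c_symm _ _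
  rw [← h3, h1] at h2
  exact_mod_cast h2

/-- an abelian subgroup has order at most `sqrt (2 |Q|)` -/
theorem card_sq_le [Finite G] (h : ExData Q z) {D : Subgroup G} (hD : D ≤ Q) (hc : ∀ a ∈ D, ∀ b ∈ D, a * b = b * a) :
    Nat.card D * Nat.card D ≤ Nat.card Q * 2 := by
  have h1 := card_cent h (le_refl Q) hD
  have h2 : Nat.card D ≤ Nat.card ↥(Q ⊓ Subgroup.centralizer (D : Set G)) := by
    apply Subgroup.card_le_of_le
    intro x hx
    refine ⟨hD hx, ?_⟩
    exact Subgroup.mem_centralizer_iff.2 fun y hy => hc y hy x hx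
  have h3 : Nat.card ↥(D ⊓ Subgroup.centralizer (Q : Set G)) ≤ 2 := by
    have h4 : D ⊓ Subgroup.centralizer (Q : Set G) ≤ Subgroup.zpowers z := by
      rintro x ⟨hx1, hx2⟩
      have := h.center x (hD hx1) fun y hy => (Subgroup.mem_centralizer_iff.1 hx2 y hy).symm
      exact (mem_zpowers_of_sq h.sq).2 this
    refine (Subgroup.card_le_of_le h4).trans ?_
    rw [Nat.card_zpowers, h.orderOf]
  calc Nat.card D * Nat.card D ≤ Nat.card D * Nat.card ↥(Q ⊓ Subgroup.centralizer (D : Set G)) :=
        Nat.mul_le_mul_left _ h2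
    _ = Nat.card Q * Nat.card ↥(D ⊓ Subgroup.centralizer (Q : Set G)) := h1
    _ ≤ Nat.card Q * 2 := Nat.mul_le_mul_left _ h3

/-- the centralizer in `Q` of a noncentral element has index 2 -/
theorem card_centralizer [Finite G] (h : ExData Q z) {s : G} (hs : s ∈ Q) (h1 : s ≠ 1) (hz : s ≠ z) :
    2 * Nat.card ↥(Q ⊓ Subgroup.centralizer ({s} : Set G)) = Nat.card Q := by
  classical
  haveI := Fintype.ofFinite Q
  have h2 := sum_c h (le_refl Q) hs
  have h3 : ¬ ∀ a ∈ Q, a * s = s * a := by
    intro hc
    rcases h.center s hs (fun x hx => (hc x hx).symm) with h | h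
    · exact h1 h
    · exact hz h
  have h4 : ∑ a : Q, c (a : G) s = 0 := by
    convert h2
    rw [if_neg h3]
  have h5 : ∀ a : Q, c (a : G) s = 2 * (if (a : G) * s = s * a then 1 else 0) - 1 := by
    intro a; unfold c; split_ifs <;> norm_num
  rw [Finset.sum_congr rfl (fun a _ => h5 a), Finset.sum_sub_distrib, ← Finset.mul_sum, Finset.sum_boole] at h4
  simp only [Finset.sum_const, Finset.card_univ, smul_eq_mul, mul_one, nsmul_eq_mul] at h4
  have h6 : Nat.card ↥(Q ⊓ Subgroup.centralizer ({s} : Set G)) = (Finset.univ.filter fun a : Q => (a : G) * s = s * a).card := by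
    rw [← Fintype.card_subtype, ← Nat.card_eq_fintype_card]
    exact Nat.card_congr
      { toFun := fun a => ⟨⟨a.1, a.2.1⟩, Subgroup.mem_centralizer_singleton_iff.1 a.2.2⟩
        invFun := fun a => ⟨a.1.1, a.1.2, Subgroup.mem_centralizer_singleton_iff.2 a.2⟩
        left_inv := fun a => rfl
        right_inv := fun a => rfl }
  rw [h6, Nat.card_eq_fintype_card]
  have h7 : (2 : ℤ) * ((Finset.univ.filter fun a : Q => (a : G) * s = s * a).card : ℤ) = (Fintype.card Q : ℤ) := by
    linarith
  exact_mod_cast h7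

end Cfsg.Agent.Lib.H89ExCount
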