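import Cfsg.Agent.Lib.H89EF2
/-
Involution centralizers of type 2.U6(2): charts for the conjugates commuting with a conjugate (helper89).
-/
set_option autoImplicit false
set_option linter.all false

namespace Cfsg.Agent.Lib.H89FA

open Module Cfsg Cfsg.Agent.Lib.UnTrans Cfsg.Agent.Lib.UnBridge Cfsg.Agent.Lib.H89EA Cfsg.Agent.Lib.H89EB
open Cfsg.Agent.Lib.H89EC Cfsg.Agent.Lib.H89ED Cfsg.Agent.Lib.H89EE Cfsg.Agent.Lib.H89EF
open Cfsg.Agent.Lib.U6Class hiding TI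
open Cfsg.Agent.Lib.SpTrans (isom mem_isom)

universe v w w'

variable {F : Type} [Field F] [Fintype F] [CharP F 2] {V : Type v} [AddCommGroup V] [Module F V] {f : V → V → F}
  {hF : Fintype.card F = 2 ^ 2}

/-- coordinates for the members of `Δ` commuting with `d` -/
structure Chart {G : Type w'} [Group G] (H : HS (sig hF) f) (Δ : Set G) (d : G) (τ : V → G) : Prop where
  hv : HV H
  dd : d * d = 1
  dm : d ∈ Δ
  mem : ∀ v, f v v = 0 → v ≠ 0 → τ v ∈ Δ ∧ τ v ≠ d ∧ Commute (τ v) d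
  surj : ∀ x ∈ Δ, x ≠ d → Commute x d → ∃ v, f v v = 0 ∧ v ≠ 0 ∧ τ v = x
  comm : ∀ u v, f u u = 0 → u ≠ 0 → f v v = 0 → v ≠ 0 → (Commute (τ u) (τ v) ↔ f u v = 0)
  inj : ∀ u v, f u u = 0 → u ≠ 0 → f v v = 0 → v ≠ 0 → τ u = τ v → ∃ c : F, c ≠ 0 ∧ v = c • u
  smul : ∀ v, f v v = 0 → ∀ c : F, c ≠ 0 → τ (c • v) = τ v
  cj : ∀ u v, f u u = 0 → u ≠ 0 → f v v = 0 → v ≠ 0 → τ u * τ v * (τ u)⁻¹ = τ (v + f v u • u)
  act : ∀ g, Commute g d → ∃ s : SS f, ∀ v, f v v = 0 → v ≠ 0 → g * τ v * g⁻¹ = τ ((s : V ≃ₗ[F] V) v)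
  line : ∀ ω : F, ω ^ 2 = ω + 1 → sig hF ω = ω + 1 → ∀ w : Fin 3 → V, (∀ i j, f (w i) (w j) = 0) → LinearIndependent F w →
    τ (w 0) * τ (w 1) * τ (w 0 + w 1) * τ (w 0 + ω • w 1) * τ (w 0 + (ω + 1) • w 1) = d
  hyp : ∃ ω : F, ω ^ 2 = ω + 1 ∧ sig hF ω = ω + 1 ∧ ∃ w : Fin 3 → V, (∀ i j, f (w i) (w j) = 0) ∧ LinearIndependent F w ∧
    τ (w 0) * τ (w 1) * τ (w 2) * τ (w 0 + w 1 + w 2) * τ (w 0 + ω • w 1 + (ω + 1) • w 2) *
      τ (w 0 + (ω + 1) • w 1 + ω • w 2) = d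
  nf : ∀ t, t * t = 1 → Commute t d → ∃ W : Submodule F V, TI f W ∧ ((t = 1 ∨ t = d) ∨ (∃ a ∈ W, a ≠ 0 ∧ (t = τ a ∨ t = d * τ a)) ∨
    (∃ a ∈ W, ∃ b ∈ W, a ≠ 0 ∧ b ≠ 0 ∧ (∀ c : F, b ≠ c • a) ∧ (t = τ a * τ b ∨ t = d * τ a * τ b)) ∨
    (∃ w : Fin 3 → V, (∀ i, w i ∈ W) ∧ LinearIndependent F w ∧ t = τ (w 0) * τ (w 1) * τ (w 2)))
  tran : ∀ W W' : Submodule F V, TI f W → TI f W' → ∀ w w' : Fin 3 → V, (∀ i, w i ∈ W) → LinearIndependent F w → (∀ i, w' i ∈ W') →
    LinearIndependent F w' → ∃ g, Commute g d ∧ ∃ (s : SS f) (c : F), c ≠ 0 ∧ (s : V ≃ₗ[F] V) (w 0) = w' 0 ∧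
      (s : V ≃ₗ[F] V) (w 1) = w' 1 ∧ (s : V ≃ₗ[F] V) (w 2) = c • w' 2 ∧ (∀ v ∈ W, (s : V ≃ₗ[F] V) v ∈ W') ∧
      ∀ v, f v v = 0 → v ≠ 0 → g * τ v * g⁻¹ = τ ((s : V ≃ₗ[F] V) v)

theorem Chart.conjg {G : Type w'} [Group G] {H : HS (sig hF) f} {Δ : Set G} {d : G} {τ : V → G} (X : Chart H Δ d τ)
    (hΔ : ∀ g : G, ∀ x ∈ Δ, g * x * g⁻¹ ∈ Δ) (g : G) : Chart H Δ (g * d * g⁻¹) (fun v => g * τ v * g⁻¹) := by
  have hcm : ∀ a b : G, Commute (g * a * g⁻¹) (g * b * g⁻¹) ↔ Commute a b := fun a b => by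
    constructor
    · intro h
      have h1 : g * a * g⁻¹ * (g * b * g⁻¹) = g * b * g⁻¹ * (g * a * g⁻¹) := h
      have h2 : g * (a * b) * g⁻¹ = g * (b * a) * g⁻¹ := by
        calc g * (a * b) * g⁻¹ = g * a * g⁻¹ * (g * b * g⁻¹) := by group
          _ = g * b * g⁻¹ * (g * a * g⁻¹) := h1
          _ = g * (b * a) * g⁻¹ := by group
      exact mul_left_cancel (mul_right_cancel h2)
    · intro h
      show g * a * g⁻¹ * (g * b * g⁻¹) = g * b * g⁻¹ * (g * a * g⁻¹)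
      calc g * a * g⁻¹ * (g * b * g⁻¹) = g * (a * b) * g⁻¹ := by group
        _ = g * (b * a) * g⁻¹ := by rw [h.eq]
        _ = g * b * g⁻¹ * (g * a * g⁻¹) := by group
  have hinj : ∀ a b : G, g * a * g⁻¹ = g * b * g⁻¹ ↔ a = b := fun a b =>
    ⟨fun h => mul_left_cancel (mul_right_cancel h), fun h => by rw [h]⟩
  have hback : ∀ x : G, g * (g⁻¹ * x * g) * g⁻¹ = x := fun x => by group
  refine ⟨X.hv, ?_, hΔ g d X.dm, ?_, ?_, ?_, ?_, ?_, ?_, ?_, ?_, ?_, ?_, ?_⟩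
  · calc g * d * g⁻¹ * (g * d * g⁻¹) = g * (d * d) * g⁻¹ := by group
      _ = 1 := by rw [X.dd]; group
  · intro v hv hv0
    obtain ⟨h1, h2, h3⟩ := X.mem v hv hv0
    exact ⟨hΔ g _ h1, fun h => h2 ((hinj _ _).1 h), (hcm _ _).2 h3⟩
  · intro x hx hxd hxc
    have h1 : g⁻¹ * x * g ∈ Δ := by
      have := hΔ g⁻¹ x hx
      rwa [inv_inv] at this
    have h2 : g⁻¹ * x * g ≠ d := fun h => hxd (by rw [← h, hback])
    have h3 : Commute (g⁻¹ * x * g) d := (hcm _ _).1 (by rw [hback]; exact hxc)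
    obtain ⟨v, hv, hv0, hvx⟩ := X.surj _ h1 h2 h3
    exact ⟨v, hv, hv0, by show g * τ v * g⁻¹ = x; rw [hvx, hback]⟩
  · intro u v hu hu0 hv hv0
    rw [hcm]
    exact X.comm u v hu hu0 hv hv0
  · intro u v hu hu0 hv hv0 h
    exact X.inj u v hu hu0 hv hv0 ((hinj _ _).1 h)
  · intro v hv c hc
    show g * τ (c • v) * g⁻¹ = g * τ v * g⁻¹
    rw [X.smul v hv c hc]
  · intro u v hu hu0 hv hv0
    show g * τ u * g⁻¹ * (g * τ v * g⁻¹) * (g * τ u * g⁻¹)⁻¹ = g * τ (v + f v u • u) * g⁻¹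
    rw [← X.cj u v hu hu0 hv hv0]; group
  · intro k hk
    have h1 : Commute (g⁻¹ * k * g) d := (hcm _ _).1 (by rw [hback]; exact hk)
    obtain ⟨s, hs⟩ := X.act _ h1
    refine ⟨s, fun v hv hv0 => ?_⟩
    show k * (g * τ v * g⁻¹) * k⁻¹ = g * τ ((s : V ≃ₗ[F] V) v) * g⁻¹
    rw [← hs v hv hv0]; group
  · intro ω hω hsω w hw hli
    show g * τ (w 0) * g⁻¹ * (g * τ (w 1) * g⁻¹) * (g * τ (w 0 + w 1) * g⁻¹) * (g * τ (w 0 + ω • w 1) * g⁻¹) *
      (g * τ (w 0 + (ω + 1) • w 1) * g⁻¹) = g * d * g⁻¹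
    rw [← X.line ω hω hsω w hw hli]; group
  · obtain ⟨ω, hω, hsω, w, hw, hli, h⟩ := X.hyp
    refine ⟨ω, hω, hsω, w, hw, hli, ?_⟩
    show g * τ (w 0) * g⁻¹ * (g * τ (w 1) * g⁻¹) * (g * τ (w 2) * g⁻¹) * (g * τ (w 0 + w 1 + w 2) * g⁻¹) *
      (g * τ (w 0 + ω • w 1 + (ω + 1) • w 2) * g⁻¹) * (g * τ (w 0 + (ω + 1) • w 1 + ω • w 2) * g⁻¹) = g * d * g⁻¹
    rw [← h]; group
  · intro t ht htc
    have h1 : Commute (g⁻¹ * t * g) d := (hcm _ _).1 (by rw [hback]; exact htc)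
    have h2 : g⁻¹ * t * g * (g⁻¹ * t * g) = 1 := by
      calc g⁻¹ * t * g * (g⁻¹ * t * g) = g⁻¹ * (t * t) * g := by group
        _ = 1 := by rw [ht]; group
    have key : ∀ y : G, g⁻¹ * t * g = y → t = g * y * g⁻¹ := fun y h => by rw [← h, hback]
    obtain ⟨W, hW, h⟩ := X.nf _ h2 h1
    refine ⟨W, hW, ?_⟩
    rcases h with (h | h) | ⟨a, ha, ha0, h | h⟩ | ⟨a, ha, b, hb, ha0, hb0, hab, h | h⟩ | ⟨w, hw, hli, h⟩
    · left; left; rw [key _ h]; group
    · left; right; exact key _ h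
    · right; left; exact ⟨a, ha, ha0, Or.inl (key _ h)⟩
    · right; left; refine ⟨a, ha, ha0, Or.inr ?_⟩
      rw [key _ h]; group
    · right; right; left
      refine ⟨a, ha, b, hb, ha0, hb0, hab, Or.inl ?_⟩
      rw [key _ h]; group
    · right; right; left
      refine ⟨a, ha, b, hb, ha0, hb0, hab, Or.inr ?_⟩
      rw [key _ h]; group
    · right; right; right
      refine ⟨w, hw, hli, ?_⟩
      rw [key _ h]; group
  · intro W W' hW hW' w w' hw hli hw' hli'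
    obtain ⟨k, hk, s, c, hc, h0, h1, h2, h3, h4⟩ := X.tran W W' hW hW' w w' hw hli hw' hli'
    refine ⟨g * k * g⁻¹, (hcm _ _).2 hk, s, c, hc, h0, h1, h2, h3, fun v hv hv0 => ?_⟩
    show g * k * g⁻¹ * (g * τ v * g⁻¹) * (g * k * g⁻¹)⁻¹ = g * τ ((s : V ≃ₗ[F] V) v) * g⁻¹
    rw [← h4 v hv hv0]; group

section
variable {H : HS (sig hF) f} {G : Type w'} {Q : Type w} [Group G] [Group Q] [Finite G]
  {d₀ : G} {π : SS f →* Q} {D : Set Q} {φ : ↥(Subgroup.centralizer ({d₀} : Set G)) →* Q}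
  {d : ↥(Subgroup.centralizer ({d₀} : Set G))} {E : Set ↥(Subgroup.centralizer ({d₀} : Set G))}

/-- the chart at the base member -/
theorem chart₀ (K : Cov φ d D E) (S : Setup H Q π D) (hLO : LineOne K S) (hno : ¬ HypOne K S) (hd0 : (d : G) = d₀)
    (hall : ∀ W : Submodule F V, TI f W → d ∈ LW K S W) (hcard : Nat.card Q = 9196830720)
    (hnwc : ∃ g : G, g * d₀ * g⁻¹ ∈ Subgroup.centralizer ({d₀} : Set G) ∧ g * d₀ * g⁻¹ ≠ d₀) :
    Chart H (conjugatesOf d₀) d₀ (fun v => ((d * Te K S v : ↥(Subgroup.centralizer ({d₀} : Set G))) : G)) := by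
  have hdc : ∀ x : ↥(Subgroup.centralizer ({d₀} : Set G)), d * x = x * d := K.dc
  have hdd := K.dd
  have hcs := fun {W : Submodule F V} (hW : TI f W) => conj_set K S hLO hno hd0 hall hcard hnwc hW
  have hgm : ∀ g : G, Commute g d₀ ↔ g ∈ Subgroup.centralizer ({d₀} : Set G) := fun g => by
    rw [Subgroup.mem_centralizer_singleton_iff]
    exact ⟨fun h => h.eq, fun h => h⟩
  have hiso : ∀ v : V, f v v = 0 → v ≠ 0 → ∃ W : Submodule F V, TI f W ∧ v ∈ W := by
    intro v hv hv0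
    haveI := S.fin
    -- an involution fixing a space containing v: use the transvection
    obtain ⟨W, hW, hmem⟩ := invol_mem K S (x := Te K S v) (Te_sq K S hv)
    rw [closure_eq K S (hall W hW)] at hmem
    refine ⟨W, hW, ?_⟩
    have h1 : ∀ y ∈ EW E φ S W, y * Te K S v = Te K S v * y := by
      intro y hy
      have h2 : y ∈ LW K S W := Subgroup.subset_closure hy
      have h3 := LW_sq K S hW.iso
      have h4 := h3 _ (mul_mem h2 hmem)
      have h5 := h3 _ h2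
      have h6 := h3 _ hmem
      have i5 : y⁻¹ = y := inv_eq_of_mul_eq_one_left h5
      have i6 : (Te K S v)⁻¹ = Te K S v := inv_eq_of_mul_eq_one_left h6
      have i4 : (y * Te K S v)⁻¹ = y * Te K S v := inv_eq_of_mul_eq_one_left h4
      rw [← i4, mul_inv_rev, i5, i6]
    obtain ⟨u, hu, huu, hu0, hue⟩ := (mem_EW K S).1 (max_comm K S hW (Te_mem K S hv hv0) h1)
    obtain ⟨c, hc, hcu⟩ := Te_inj K S hv hv0 huu hu0 hue.symm
    rw [hcu]; exact W.smul_mem _ hu
  have hTd : ∀ v, f v v = 0 → v ≠ 0 → Te K S v ≠ 1 ∧ Te K S v ≠ d := by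
    intro v hv hv0
    obtain ⟨W, hW, hvW⟩ := hiso v hv hv0
    exact ⟨Te_ne_one K S hW hvW hv0, Te_ne_d K S hW hvW hv0⟩
  refine ⟨hv_of S, ?_, mem_conjugatesOf_self, ?_, ?_, ?_, ?_, ?_, ?_, ?_, ?_, ?_, ?_, ?_⟩
  · rw [← hd0]; exact congrArg Subtype.val hdd
  · intro v hv hv0
    obtain ⟨W, hW, hvW⟩ := hiso v hv hv0
    have h1 : ((d * Te K S v : ↥(Subgroup.centralizer ({d₀} : Set G))) : G) ∈ {x : G | x ∈ AG K S W ∧ IsConj d₀ x} := by
      rw [hcs hW]
      right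
      exact ⟨Te K S v, Te_mem_EW K S hvW hv hv0, rfl⟩
    refine ⟨h1.2, ?_, ?_⟩
    · intro h
      have h2 : d * Te K S v = d := Subtype.ext (h.trans hd0.symm)
      exact (hTd v hv hv0).1 (mul_left_cancel (h2.trans (mul_one d).symm))
    · exact (hgm _).2 (d * Te K S v).2
  · intro x hx hxd hxc
    have hxC : x ∈ Subgroup.centralizer ({d₀} : Set G) := (hgm _).1 hxc
    obtain ⟨c, hc⟩ := isConj_iff.1 (show IsConj d₀ x from hx)
    have hdd0 : d₀ * d₀ = 1 := by rw [← hd0]; exact congrArg Subtype.val hdd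
    have hxx : x * x = 1 := by
      rw [← hc]
      calc c * d₀ * c⁻¹ * (c * d₀ * c⁻¹) = c * (d₀ * d₀) * c⁻¹ := by group
        _ = 1 := by rw [hdd0]; group
    obtain ⟨W, hW, hmem⟩ := invol_mem K S (x := (⟨x, hxC⟩ : ↥(Subgroup.centralizer ({d₀} : Set G)))) (Subtype.ext hxx)
    rw [closure_eq K S (hall W hW)] at hmem
    have h1 : x ∈ {x : G | x ∈ AG K S W ∧ IsConj d₀ x} := ⟨(coe_mem_AG K S).2 hmem, hx⟩
    rw [hcs hW] at h1
    rcases h1 with h1 | ⟨y, hy, h1⟩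
    · exact absurd h1 hxd
    · obtain ⟨v, hv, hvv, hv0, rfl⟩ := (mem_EW K S).1 hy
      exact ⟨v, hvv, hv0, h1⟩
  · intro u v hu hu0 hv hv0
    constructor
    · intro h
      have h1 : (d * Te K S u) * (d * Te K S v) = (d * Te K S v) * (d * Te K S u) := Subtype.ext h
      have h2 : Te K S u * Te K S v = Te K S v * Te K S u := by
        have e1 : (d * Te K S u) * (d * Te K S v) = d * d * (Te K S u * Te K S v) := by
          rw [mul_assoc, ← mul_assoc (Te K S u), ← hdc (Te K S u)]; group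
        have e2 : (d * Te K S v) * (d * Te K S u) = d * d * (Te K S v * Te K S u) := by
          rw [mul_assoc, ← mul_assoc (Te K S v), ← hdc (Te K S v)]; group
        rw [e1, e2] at h1
        exact mul_left_cancel h1
      have h3 := (K.comm_iff (Te_mem K S hu hu0) (Te_mem K S hv hv0)).1 h2
      rw [phi_Te K S hu hu0, phi_Te K S hv hv0] at h3
      exact (S.commute_iff hu hv).1 h3
    · intro h
      have h1 := Te_comm K S hu hv h
      show ((d * Te K S u : ↥(Subgroup.centralizer ({d₀} : Set G))) : G) * _ = _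
      have h2 : (d * Te K S u) * (d * Te K S v) = (d * Te K S v) * (d * Te K S u) := by
        calc (d * Te K S u) * (d * Te K S v) = d * (Te K S u * d) * Te K S v := by group
          _ = d * (d * Te K S u) * Te K S v := by rw [← hdc (Te K S u)]
          _ = d * d * (Te K S u * Te K S v) := by group
          _ = d * d * (Te K S v * Te K S u) := by rw [h1]
          _ = d * (d * Te K S v) * Te K S u := by group
          _ = d * (Te K S v * d) * Te K S u := by rw [hdc (Te K S v)]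
          _ = (d * Te K S v) * (d * Te K S u) := by group
      exact congrArg Subtype.val h2
  · intro u v hu hu0 hv hv0 h
    have h1 : d * Te K S u = d * Te K S v := Subtype.ext h
    obtain ⟨c, hc, h2⟩ := Te_inj K S hv hv0 hu hu0 (mul_left_cancel h1).symm
    exact ⟨c, hc, h2⟩
  · intro v hv c hc
    show ((d * Te K S (c • v) : ↥(Subgroup.centralizer ({d₀} : Set G))) : G) = _
    rw [Te_smul K S hv hc]
  · intro u v hu hu0 hv hv0
    have h1 : Te K S u * Te K S v * (Te K S u)⁻¹ = Te K S (v + f v u • u) := by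
      have h2 := phi_Te K S hu hu0
      have h3 := Te_conj K S (g := Te K S u) (s := ⟨tr H u hu, @tr_mem F V _ _ _ _ _ f S.fin H u hu⟩) h2 hv
      rw [h3]
      exact congrArg (Te K S) (tr_apply H u hu v)
    have h4 : d * Te K S u * (d * Te K S v) * (d * Te K S u)⁻¹ = d * Te K S (v + f v u • u) := by
      rw [← h1, mul_inv_rev]
      calc d * Te K S u * (d * Te K S v) * ((Te K S u)⁻¹ * d⁻¹) = d * (Te K S u * d) * (Te K S v * (Te K S u)⁻¹) * d⁻¹ := by group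
        _ = d * (d * Te K S u) * (Te K S v * (Te K S u)⁻¹) * d⁻¹ := by rw [← hdc (Te K S u)]
        _ = d * (d * (Te K S u * Te K S v * (Te K S u)⁻¹)) * d⁻¹ := by group
        _ = d * ((Te K S u * Te K S v * (Te K S u)⁻¹) * d) * d⁻¹ := by rw [hdc (Te K S u * Te K S v * (Te K S u)⁻¹)]
        _ = d * (Te K S u * Te K S v * (Te K S u)⁻¹) := by group
    exact congrArg Subtype.val h4
  · intro g hg
    obtain ⟨s, hs⟩ := S.surj (φ (⟨g, (hgm g).1 hg⟩ : ↥(Subgroup.centralizer ({d₀} : Set G))))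
    refine ⟨s, fun v hv hv0 => ?_⟩
    have h1 := Te_conj K S (g := (⟨g, (hgm g).1 hg⟩ : ↥(Subgroup.centralizer ({d₀} : Set G)))) (s := s) hs.symm hv
    have h2 : (⟨g, (hgm g).1 hg⟩ : ↥(Subgroup.centralizer ({d₀} : Set G))) * (d * Te K S v) * (⟨g, (hgm g).1 hg⟩ : ↥(Subgroup.centralizer ({d₀} : Set G)))⁻¹ =
        d * Te K S ((s : V ≃ₗ[F] V) v) := by
      rw [← h1, ← mul_assoc, ← hdc]; group
    exact congrArg Subtype.val h2
  · intro ω hω hsω w hw hli
    have h1 := hLO ω hω hsω w hw hli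
    unfold Lam at h1
    have h2 : d * Te K S (w 0) * (d * Te K S (w 1)) * (d * Te K S (w 0 + w 1)) * (d * Te K S (w 0 + ω • w 1)) *
        (d * Te K S (w 0 + (ω + 1) • w 1)) = d := by
      have e : ∀ a b : ↥(Subgroup.centralizer ({d₀} : Set G)), a * (d * b) = d * (a * b) := fun a b => by
        rw [← mul_assoc, ← hdc a, mul_assoc]
      have e2 : d * (d * (d * (d * (d * (Te K S (w 0) * Te K S (w 1) * Te K S (w 0 + w 1) * Te K S (w 0 + ω • w 1) *
          Te K S (w 0 + (ω + 1) • w 1)))))) = d := by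
        rw [h1, mul_one]
        calc d * (d * (d * (d * d))) = (d * d) * (d * d) * d := by group
          _ = d := by rw [hdd]; group
      refine Eq.trans ?_ e2
      simp only [mul_assoc, e]
    exact (congrArg Subtype.val h2).trans hd0
  · unfold HypOne at hno
    push Not at hno
    obtain ⟨ω, hω, hsω, w, hw, hli, hne⟩ := hno
    refine ⟨ω, hω, hsω, w, hw, hli, ?_⟩
    have h1 : H89EC.Hyp K S ω (w 0) (w 1) (w 2) = d := (Hyp_cases K S hω hsω hw hli).resolve_left hne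
    unfold H89EC.Hyp at h1
    have e : ∀ a b : ↥(Subgroup.centralizer ({d₀} : Set G)), a * (d * b) = d * (a * b) := fun a b => by
      rw [← mul_assoc, ← hdc a, mul_assoc]
    have e2 : d * (d * (d * (d * (d * (d * (Te K S (w 0) * Te K S (w 1) * Te K S (w 2) * Te K S (w 0 + w 1 + w 2) *
        Te K S (w 0 + ω • w 1 + (ω + 1) • w 2) * Te K S (w 0 + (ω + 1) • w 1 + ω • w 2))))))) = d := by
      rw [h1]
      calc d * (d * (d * (d * (d * (d * d))))) = (d * d) * (d * d) * (d * d) * d := by group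
        _ = d := by rw [hdd]; group
    have h2 : d * Te K S (w 0) * (d * Te K S (w 1)) * (d * Te K S (w 2)) * (d * Te K S (w 0 + w 1 + w 2)) *
        (d * Te K S (w 0 + ω • w 1 + (ω + 1) • w 2)) * (d * Te K S (w 0 + (ω + 1) • w 1 + ω • w 2)) = d := by
      refine Eq.trans ?_ e2
      simp only [mul_assoc, e]
    exact (congrArg Subtype.val h2).trans hd0
  · intro t ht htc
    have htC : t ∈ Subgroup.centralizer ({d₀} : Set G) := (hgm _).1 htc
    obtain ⟨W, hW, hmem⟩ := invol_mem K S (x := (⟨t, htC⟩ : ↥(Subgroup.centralizer ({d₀} : Set G)))) (Subtype.ext ht)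
    rw [closure_eq K S (hall W hW)] at hmem
    have e : ∀ a b : ↥(Subgroup.centralizer ({d₀} : Set G)), a * (d * b) = d * (a * b) := fun a b => by
      rw [← mul_assoc, ← hdc a, mul_assoc]
    have ed : ∀ a : ↥(Subgroup.centralizer ({d₀} : Set G)), d * (d * a) = a := fun a => by rw [← mul_assoc, hdd, one_mul]
    refine ⟨W, hW, ?_⟩
    rcases normal_form K S hW hmem with (h | h) | ⟨a, ha, ha0, h | h⟩ | ⟨a, ha, b, hb, ha0, hb0, hab, h | h⟩ | ⟨w, hw, hli, h | h⟩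
    · left; left; exact congrArg Subtype.val h
    · left; right
      exact (congrArg Subtype.val h).trans hd0
    · right; left; refine ⟨a, ha, ha0, Or.inr ?_⟩
      refine (congrArg Subtype.val (h.trans (?_ : _ = d * (d * Te K S a)))).trans (congrArg (fun z : G => z * _) hd0)
      rw [ed]
    · right; left; refine ⟨a, ha, ha0, Or.inl ?_⟩
      refine congrArg Subtype.val (h.trans (?_ : _ = d * Te K S a))
      rw [hdc]
    · right; right; left
      refine ⟨a, ha, b, hb, ha0, hb0, hab, Or.inl ?_⟩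
      refine congrArg Subtype.val (h.trans (?_ : _ = (d * Te K S a) * (d * Te K S b)))
      rw [e, mul_assoc, ed]
    · right; right; left
      refine ⟨a, ha, b, hb, ha0, hb0, hab, Or.inr ?_⟩
      refine (congrArg Subtype.val (h.trans (?_ : _ = d * (d * Te K S a) * (d * Te K S b)))).trans
        (congrArg (fun z : G => z * _ * _) hd0)
      rw [e, ed, hdc]
    · right; right; right
      obtain ⟨u, hu, hliu, hue⟩ := hyp_d K S hno hW hw hli
      refine ⟨u, hu, hliu, ?_⟩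
      refine congrArg Subtype.val (h.trans (?_ : _ = (d * Te K S (u 0)) * (d * Te K S (u 1)) * (d * Te K S (u 2))))
      have e3 : Te K S (w 0) * Te K S (w 1) * Te K S (w 2) = (Te K S (u 0) * Te K S (u 1) * Te K S (u 2)) * d := by
        calc Te K S (w 0) * Te K S (w 1) * Te K S (w 2) = Te K S (w 0) * Te K S (w 1) * Te K S (w 2) * (d * d) := by
              rw [hdd, mul_one]
          _ = Te K S (w 0) * Te K S (w 1) * Te K S (w 2) * d * d := (mul_assoc _ _ _).symm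
          _ = _ := by rw [hue]
      rw [e3, ← hdc]
      simp only [mul_assoc, e, ed]
    · right; right; right
      refine ⟨w, hw, hli, ?_⟩
      refine congrArg Subtype.val (h.trans (?_ : _ = (d * Te K S (w 0)) * (d * Te K S (w 1)) * (d * Te K S (w 2))))
      rw [← hdc]
      simp only [mul_assoc, e, ed]
  · intro W W' hW hW' w w' hw hli hw' hli'
    obtain ⟨g, s, c, hg, hc, h0, h1, h2, h3⟩ := exists_g K S hW hW' hw hli hw' hli'
    refine ⟨(g : G), (hgm _).2 g.2, s, c, hc, h0, h1, h2, h3, fun v hv hv0 => ?_⟩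
    have h4 := Te_conj K S hg hv
    have h5 : g * (d * Te K S v) * g⁻¹ = d * Te K S ((s : V ≃ₗ[F] V) v) := by
      rw [← h4, ← mul_assoc, ← hdc]; group
    exact congrArg Subtype.val h5

end

end Cfsg.Agent.Lib.H89FA
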