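import Cfsg.Agent.Lib.H89FA0
import Cfsg.Agent.Lib.ClSLn
/-
Isotropic vectors of the six dimensional unitary space over the field of four elements (helper89).
-/
set_option autoImplicit false
set_option linter.all false

namespace Cfsg.Agent.Lib.H89FA

open Module Cfsg Cfsg.Agent.Lib.UnTrans Cfsg.Agent.Lib.UnBridge Cfsg.Agent.Lib.H89EA Cfsg.Agent.Lib.H89EB
open Cfsg.Agent.Lib.H89EC Cfsg.Agent.Lib.H89ED Cfsg.Agent.Lib.H89EE Cfsg.Agent.Lib.H89EF
open Cfsg.Agent.Lib.U6Class hiding TI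
open Cfsg.Agent.Lib.SpTrans (isom mem_isom)

universe v w w'

variable {F : Type} [Field F] [Fintype F] [CharP F 2] {V : Type v} [AddCommGroup V] [Module F V] {f : V → V → F}
  {hF : Fintype.card F = 2 ^ 2} {H : HS (sig hF) f}

theorem nrm1 (hF : Fintype.card F = 2 ^ 2) {c : F} (hc : c ≠ 0) : c * sig hF c = 1 := by
  obtain ⟨ω, h0, h1, h2, h3, h4⟩ := exists_omega hF
  have e2 : (1 : F) + 1 = 0 := CharTwo.add_self_eq_zero 1
  have hw : ω * (ω + 1) = 1 := by
    calc ω * (ω + 1) = ω ^ 2 + ω := by ring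
      _ = 1 + (ω + ω) := by rw [h2]; ring
      _ = 1 := by rw [CharTwo.add_self_eq_zero, add_zero]
  rcases h4 c with h | h | h | h
  · exact absurd h hc
  · rw [h, map_one, mul_one]
  · rw [h, h3, hw]
  · rw [h, map_add, map_one, h3, add_assoc, e2, add_zero, mul_comm, hw]

theorem li3 {u1 u2 u3 : V} (h0 : u1 ≠ 0) (h1 : ∀ c : F, u2 ≠ c • u1) (h2 : ∀ a b : F, u3 ≠ a • u1 + b • u2) :
    LinearIndependent F ![u1, u2, u3] := by
  rw [Fintype.linearIndependent_iff]
  intro g hg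
  rw [Fin.sum_univ_three] at hg
  change g 0 • u1 + g 1 • u2 + g 2 • u3 = 0 at hg
  have g2 : g 2 = 0 := by
    by_contra h
    apply h2 ((g 2)⁻¹ * g 0) ((g 2)⁻¹ * g 1)
    have h3 : g 2 • u3 = g 0 • u1 + g 1 • u2 := by
      have h4 := vadd_self F (g 2 • u3)
      calc g 2 • u3 = (g 0 • u1 + g 1 • u2 + g 2 • u3) + g 2 • u3 := by rw [hg, zero_add]
        _ = (g 0 • u1 + g 1 • u2) + (g 2 • u3 + g 2 • u3) := by abel
        _ = _ := by rw [h4, add_zero]
    rw [mul_smul, mul_smul, ← smul_add, ← h3, smul_smul, inv_mul_cancel₀ h, one_smul]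
  rw [g2, zero_smul, add_zero] at hg
  have g1 : g 1 = 0 := by
    by_contra h
    apply h1 ((g 1)⁻¹ * g 0)
    have h3 : g 1 • u2 = g 0 • u1 := by
      have h4 := vadd_self F (g 1 • u2)
      calc g 1 • u2 = (g 0 • u1 + g 1 • u2) + g 1 • u2 := by rw [hg, zero_add]
        _ = g 0 • u1 + (g 1 • u2 + g 1 • u2) := by abel
        _ = _ := by rw [h4, add_zero]
    rw [mul_smul, ← h3, smul_smul, inv_mul_cancel₀ h, one_smul]
  rw [g1, zero_smul, add_zero] at hg
  have g0 : g 0 = 0 := (smul_eq_zero.1 hg).resolve_right h0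
  intro i
  fin_cases i
  · exact g0
  · exact g1
  · exact g2

theorem ext1 (X : HV H) {u : V} (hu : f u u = 0) (hu0 : u ≠ 0) : ∃ v, f v v = 0 ∧ f u v = 0 ∧ ∀ c : F, v ≠ c • u := by
  haveI := X.fin
  obtain ⟨y, hy, hyy⟩ := exists_pair hF H X.nd hu0 hu
  have C : Hyp hF f u y := ⟨H, X.nd, hu0, hu, hy, hyy⟩
  have h1 := C.finrank_PP
  rw [X.dim] at h1
  obtain ⟨z, hz0, hzz, -⟩ := exists_fixed_iso hF C.ff_HS (by omega) (A := ⊥) bot_le (by
    intro a ha; rw [Subgroup.mem_bot.1 ha, one_mul])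
  obtain ⟨h2, h3⟩ := C.mem_PP.1 z.2
  refine ⟨z, hzz, H.symm_zero h2, ?_⟩
  intro c hc
  rw [hc, H.smul_left, hy, mul_one] at h3
  rw [h3, zero_smul] at hc
  exact hz0 (Subtype.ext hc)

theorem ext2 (X : HV H) {u v : V} (hu : f u u = 0) (hv : f v v = 0) (huv : f u v = 0) (hu0 : u ≠ 0) (hne : ∀ c : F, v ≠ c • u) :
    ∃ z, f z z = 0 ∧ f u z = 0 ∧ f v z = 0 ∧ LinearIndependent F ![u, v, z] := by
  haveI := X.fin
  obtain ⟨y, hy, hyy⟩ := exists_pair hF H X.nd hu0 hu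
  have C : Hyp hF f u y := ⟨H, X.nd, hu0, hu, hy, hyy⟩
  have h1 := C.finrank_PP
  rw [X.dim] at h1
  have hvu := H.symm_zero huv
  have hv0 : ((C.pj v : C.PP) : V) = v + f v y • u := by rw [C.pj_apply, hvu, zero_smul, add_zero]
  have hv0' : C.pj v ≠ 0 := by
    intro h
    rw [h] at hv0
    apply hne (f v y)
    have h4 := vadd_self F (f v y • u)
    calc v = v + (f v y • u + f v y • u) := by rw [h4, add_zero]
      _ = (v + f v y • u) + f v y • u := by abel
      _ = f v y • u := by rw [← hv0]; simp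
  have hv0i : C.ff (C.pj v) (C.pj v) = 0 := by
    rw [C.ff_apply, hv0, H.add_left, H.smul_left, H.add_right, H.add_right, H.smul_right, H.smul_right, hv, hvu, huv, hu]
    ring
  obtain ⟨y2, hy2, hyy2⟩ := exists_pair hF C.ff_HS C.ff_nd hv0' hv0i
  have C2 : Hyp hF C.ff (C.pj v) y2 := ⟨C.ff_HS, C.ff_nd, hv0', hv0i, hy2, hyy2⟩
  have h2 := C2.finrank_PP
  obtain ⟨z, hz0, hzz, -⟩ := exists_fixed_iso hF C2.ff_HS (by omega) (A := ⊥) bot_le (by
    intro a ha; rw [Subgroup.mem_bot.1 ha, one_mul])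
  obtain ⟨k1, k2⟩ := C2.mem_PP.1 z.2
  obtain ⟨k3, k4⟩ := C.mem_PP.1 (z : C.PP).2
  obtain ⟨k5, k6⟩ := C.mem_PP.1 y2.2
  rw [C.ff_apply] at k1 k2 hy2
  rw [hv0, H.add_right, H.smul_right, k3, mul_zero, add_zero] at k1
  have k7 : f v (y2 : V) = 1 := by
    rw [hv0, H.add_left, H.smul_left, H.symm_zero k5, mul_zero, add_zero] at hy2
    exact hy2
  refine ⟨((z : C.PP) : V), hzz, H.symm_zero k3, H.symm_zero k1, ?_⟩
  rw [Fintype.linearIndependent_iff]
  intro g hg
  rw [Fin.sum_univ_three] at hg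
  change g 0 • u + g 1 • v + g 2 • ((z : C.PP) : V) = 0 at hg
  have e1 : f (g 0 • u + g 1 • v + g 2 • ((z : C.PP) : V)) (y2 : V) = 0 := by rw [hg, H.zero_left]
  have e2 : f (g 0 • u + g 1 • v + g 2 • ((z : C.PP) : V)) y = 0 := by rw [hg, H.zero_left]
  rw [H.add_left, H.add_left, H.smul_left, H.smul_left, H.smul_left, H.symm_zero k5, k7, k2, mul_zero, mul_zero, mul_one,
    zero_add, add_zero] at e1
  rw [e1, zero_smul, add_zero, H.add_left, H.smul_left, H.smul_left, hy, k4, mul_one, mul_zero, add_zero] at e2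
  rw [e1, e2, zero_smul, zero_smul, zero_add, zero_add] at hg
  have g2 : g 2 = 0 := (smul_eq_zero.1 hg).resolve_right (fun h => hz0 (Subtype.ext (Subtype.ext h)))
  intro i
  fin_cases i
  · exact e2
  · exact e1
  · exact g2

/-- mutually orthogonal triples -/
theorem orth3 {u v z : V} (H : HS (sig hF) f) (hu : f u u = 0) (hv : f v v = 0) (hz : f z z = 0) (huv : f u v = 0) (huz : f u z = 0)
    (hvz : f v z = 0) : ∀ i j, f (![u, v, z] i) (![u, v, z] j) = 0 := by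
  intro i j
  fin_cases i <;> fin_cases j <;> simp [hu, hv, hz, huv, huz, hvz, H.symm_zero huv, H.symm_zero huz, H.symm_zero hvz]

theorem perp2 (X : HV H) {u v x : V} (hu : f u u = 0) (hv : f v v = 0) (huv : f u v = 0) (hu0 : u ≠ 0) (hne : ∀ c : F, v ≠ c • u)
    (h : ∀ z, f z z = 0 → z ≠ 0 → f z u = 0 → f z v = 0 → f z x = 0) : ∃ a b : F, x = a • u + b • v := by
  obtain ⟨z, hz, huz, hvz, hli⟩ := ext2 X hu hv huv hu0 hne
  have hw := orth3 H hu hv hz huv huz hvz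
  obtain ⟨y, E⟩ := exists_HBext X hw hli
  have hd := decomp X E x
  have hwi : ∀ i, f x (![u, v, z] i) = 0 := fun i => H.symm_zero (h _ (hw i i) (hli.ne_zero i) (hw i 0) (hw i 1))
  have hy2 : f x (y 2) = 0 := by
    apply H.symm_zero
    have hy0 : y 2 ≠ 0 := by
      intro h0
      have := E.wy 2 2
      rw [h0, H.zero_right] at this
      simp at this
    apply h (y 2) (E.yy 2 2) hy0
    · exact (E.yw H 2 0).trans (by simp)
    · exact (E.yw H 2 1).trans (by simp)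
  refine ⟨f x (y 0), f x (y 1), ?_⟩
  rw [Fin.sum_univ_three, Fin.sum_univ_three, hwi 0, hwi 1, hwi 2, hy2] at hd
  simpa using hd

theorem perp1 (X : HV H) {u x : V} (hu : f u u = 0) (hu0 : u ≠ 0)
    (h : ∀ z, f z z = 0 → z ≠ 0 → f z u = 0 → f z x = 0) : ∃ a : F, x = a • u := by
  obtain ⟨v, hv, huv, hne⟩ := ext1 X hu hu0
  obtain ⟨z, hz, huz, hvz, hli⟩ := ext2 X hu hv huv hu0 hne
  have hw := orth3 H hu hv hz huv huz hvz
  obtain ⟨y, E⟩ := exists_HBext X hw hli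
  have hd := decomp X E x
  have hwi : ∀ i, f x (![u, v, z] i) = 0 := fun i => H.symm_zero (h _ (hw i i) (hli.ne_zero i) (hw i 0))
  have hy : ∀ i : Fin 3, i ≠ 0 → f x (y i) = 0 := by
    intro i hi
    apply H.symm_zero
    have hy0 : y i ≠ 0 := by
      intro h0
      have := E.wy i i
      rw [h0, H.zero_right] at this
      simp at this
    apply h (y i) (E.yy i i) hy0
    exact (E.yw H i 0).trans (by rw [if_neg hi])
  refine ⟨f x (y 0), ?_⟩
  rw [Fin.sum_univ_three, Fin.sum_univ_three, hwi 0, hwi 1, hwi 2, hy 1 (by decide), hy 2 (by decide)] at hd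
  simpa using hd

theorem perp3 (X : HV H) {w : Fin 3 → V} (hw : ∀ i j, f (w i) (w j) = 0) (hli : LinearIndependent F w) {x : V}
    (h : ∀ i, f x (w i) = 0) : x ∈ Submodule.span F (Set.range w) := by
  obtain ⟨y, E⟩ := exists_HBext X hw hli
  have hd := decomp X E x
  simp only [h, zero_smul, Finset.sum_const_zero, add_zero] at hd
  rw [hd]
  exact Submodule.sum_mem _ (fun i _ => Submodule.smul_mem _ _ (Submodule.subset_span ⟨i, rfl⟩))

theorem span_orth (H : HS (sig hF) f) {w : Fin 3 → V} (hw : ∀ i j, f (w i) (w j) = 0) :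
    ∀ x ∈ Submodule.span F (Set.range w), ∀ z ∈ Submodule.span F (Set.range w), f x z = 0 := by
  intro x hx z hz
  obtain ⟨c, rfl⟩ := (Submodule.mem_span_range_iff_exists_fun F).1 hx
  obtain ⟨d, rfl⟩ := (Submodule.mem_span_range_iff_exists_fun F).1 hz
  rw [Fin.sum_univ_three, Fin.sum_univ_three]
  simp only [H.add_left, H.add_right, H.smul_left, H.smul_right, hw, mul_zero, add_zero]

/-- a common neighbour of two isotropic vectors -/
theorem common (X : HV H) {u u' : V} (hu : f u u = 0) (hu0 : u ≠ 0) (hu' : f u' u' = 0) :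
    ∃ v, f v v = 0 ∧ v ≠ 0 ∧ f v u = 0 ∧ f v u' = 0 := by
  obtain ⟨v, hv, huv, hne⟩ := ext1 X hu hu0
  obtain ⟨z, hz, huz, hvz, hli⟩ := ext2 X hu hv huv hu0 hne
  have hz0 : z ≠ 0 := hli.ne_zero 2
  by_cases h : f z u' = 0
  · exact ⟨z, hz, hz0, H.symm_zero huz, h⟩
  · have hne2 : v + (f v u' * (f z u')⁻¹) • z ≠ 0 := by
      intro h0
      have h1 := Fintype.linearIndependent_iff.1 hli ![0, 1, f v u' * (f z u')⁻¹] (by
        rw [Fin.sum_univ_three]
        show (0 : F) • u + (1 : F) • v + (f v u' * (f z u')⁻¹) • z = 0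
        rw [zero_smul, one_smul, zero_add, h0]) 1
      exact one_ne_zero h1
    refine ⟨_, ?_, hne2, ?_, ?_⟩
    · rw [H.add_left, H.add_right, H.add_right, H.smul_left, H.smul_left, H.smul_right, H.smul_right, hv, hvz, hz, H.symm_zero hvz]
      ring
    · rw [H.add_left, H.smul_left, H.symm_zero huv, H.symm_zero huz]; ring
    · rw [H.add_left, H.smul_left, mul_assoc, inv_mul_cancel₀ h, mul_one, CharTwo.add_self_eq_zero]

/-- a neighbour of three vectors -/
theorem common4 (X : HV H) {u v v' : V} (hu : f u u = 0) (hv : f v v = 0) (huv : f u v = 0) (hu0 : u ≠ 0)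
    (huv' : f u v' = 0) (hvv' : f v v' ≠ 0) : ∃ w, f w w = 0 ∧ w ≠ 0 ∧ (∀ c : F, w ≠ c • u) ∧ f w u = 0 ∧ f w v = 0 ∧ f w v' = 0 := by
  have hne : ∀ c : F, v ≠ c • u := by
    intro c hc
    rw [hc, H.smul_left, huv', mul_zero] at hvv'
    exact hvv' rfl
  obtain ⟨z, hz, huz, hvz, hli⟩ := ext2 X hu hv huv hu0 hne
  have key : ∀ c : F, z + (f z v' * (f v v')⁻¹) • v ≠ c • u := by
    intro c hc
    have h1 := Fintype.linearIndependent_iff.1 hli ![-c, f z v' * (f v v')⁻¹, 1] (by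
      rw [Fin.sum_univ_three]
      show (-c) • u + (f z v' * (f v v')⁻¹) • v + (1 : F) • z = 0
      rw [one_smul, neg_smul, ← hc]; abel) 2
    exact one_ne_zero h1
  refine ⟨z + (f z v' * (f v v')⁻¹) • v, ?_, ?_, key, ?_, ?_, ?_⟩
  · rw [H.add_left, H.add_right, H.add_right, H.smul_left, H.smul_left, H.smul_right, H.smul_right, hv, hvz, hz, H.symm_zero hvz]
    ring
  · intro h0
    exact key 0 (by rw [h0, zero_smul])
  · rw [H.add_left, H.smul_left, H.symm_zero huv, H.symm_zero huz]; ring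
  · rw [H.add_left, H.smul_left, H.symm_zero hvz, hv]; ring
  · rw [H.add_left, H.smul_left, mul_assoc, inv_mul_cancel₀ hvv', mul_one, CharTwo.add_self_eq_zero]

/-- the sign of the action on the points of the plane is trivial -/
theorem sign_one [DecidableEq F] [DecidableEq (Projectivization F (Fin 3 → F))] [Fintype (Projectivization F (Fin 3 → F))] (hF : Fintype.card F = 2 ^ 2)
    (a : (Fin 3 → F) ≃ₗ[F] (Fin 3 → F)) :
    Equiv.Perm.sign (MulAction.toPerm a : Equiv.Perm (Projectivization F (Fin 3 → F))) = 1 := by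
  let χ : ((Fin 3 → F) ≃ₗ[F] (Fin 3 → F)) →* ℤˣ := Equiv.Perm.sign.comp (MulAction.toPermHom ((Fin 3 → F) ≃ₗ[F] (Fin 3 → F)) (Projectivization F (Fin 3 → F)))
  have h1 : ∀ M : Matrix.SpecialLinearGroup (Fin 3) F, χ (Matrix.SpecialLinearGroup.toLin' M) = 1 := by
    intro M
    have h2 : (χ.comp Matrix.SpecialLinearGroup.toLin').ker = ⊤ := by
      rw [eq_top_iff, ← ClSLn.commutator_SL_eq_top (F := F) (ι := Fin 3) (by simp)]
      exact Abelianization.commutator_subset_ker _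
    have h3 : M ∈ (χ.comp Matrix.SpecialLinearGroup.toLin').ker := by rw [h2]; trivial
    exact h3
  have h2 : LinearMap.det ((a ^ 3 : (Fin 3 → F) ≃ₗ[F] (Fin 3 → F)) : (Fin 3 → F) →ₗ[F] (Fin 3 → F)) = 1 := by
    have h3 : ((a ^ 3 : (Fin 3 → F) ≃ₗ[F] (Fin 3 → F)) : (Fin 3 → F) →ₗ[F] (Fin 3 → F)) = ((a : (Fin 3 → F) →ₗ[F] (Fin 3 → F))) ^ 3 := by
      rfl
    rw [h3, map_pow]
    have h4 : LinearMap.det (a : (Fin 3 → F) →ₗ[F] (Fin 3 → F)) ≠ 0 := a.isUnit_det'.ne_zero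
    have h5 := FiniteField.pow_card_sub_one_eq_one _ h4
    rw [hF] at h5
    exact h5
  obtain ⟨M, hM⟩ : ∃ M : Matrix.SpecialLinearGroup (Fin 3) F, (M : Matrix (Fin 3) (Fin 3) F) =
      LinearMap.toMatrix' ((a ^ 3 : (Fin 3 → F) ≃ₗ[F] (Fin 3 → F)) : (Fin 3 → F) →ₗ[F] (Fin 3 → F)) :=
    ⟨⟨_, by rw [LinearMap.det_toMatrix', h2]⟩, rfl⟩
  have h3 : Matrix.SpecialLinearGroup.toLin' M = a ^ 3 := by
    apply LinearEquiv.toLinearMap_injective
    rw [Matrix.SpecialLinearGroup.toLin'_to_linearMap, hM]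
    exact Matrix.toLin'_toMatrix' _
  have h4 : χ (a ^ 3) = 1 := by rw [← h3]; exact h1 _
  rw [map_pow] at h4
  have h5 : χ a * χ a = 1 := Int.units_mul_self _
  have h6 : χ a = 1 := by
    rw [pow_succ, pow_two, h5, one_mul] at h4
    exact h4
  exact h6

end Cfsg.Agent.Lib.H89FA
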