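import Cfsg.Agent.Lib.H89FB5
/-
The commuting geometry: two members have a common neighbour, so the members are 3-transpositions (helper89).
-/
set_option autoImplicit false
set_option linter.all false

namespace Cfsg.Agent.Lib.H89FB

universe w'

variable {G : Type w'} [Group G]

variable {Δ : Set G} (X : Geo Δ)
include X

namespace Geo

theorem lemP' [Finite G] {b c y p q : G} (T : T3 Δ c y p) (hb : b ∈ Δ) (hbc : ¬ Commute b c) (hby : ¬ Commute b y) (hq : q ∈ Δ)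
    (qb : Commute b q) (hqγ : ∀ w ∈ HX Δ c y p, Commute w q)
    (hinv : ∀ w ∈ HX Δ c y p, sw b c y * w * (sw b c y)⁻¹ ∈ HX Δ c y p)
    (hnf : ∀ w ∈ HX Δ c y p, sw b c y * w * (sw b c y)⁻¹ ≠ w) : False := by
  have hbb := X.inv b hb
  have hcc := X.inv c T.mx
  have hyy := X.inv y T.my
  have B1 := X.brd hq hb T.mx qb (hqγ c T.memx) hbc
  have B2 := X.brd hq hb T.my qb (hqγ y T.memy) hby
  have htt := sw_sq hbb hcc hyy T.cxy B1 B2
  have hsc := sw_c hbb hcc hyy T.cxy B1 B2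
  have hsy := sw_y hbb hcc hyy T.cxy B1 B2
  have hcm : ∀ {a b : G}, a ∈ HX Δ c y p → b ∈ HX Δ c y p → Commute a b := fun ha hb => T.hcc ha hb
  have core : ∀ u v w, HX Δ c y p = {c, y, p, u, v, w} → [c, y, p, u, v, w].Nodup → c * y * p = u * v * w →
      sw b c y * p * (sw b c y)⁻¹ = u → False := by
    intro u v w hset hnd hprod hpu
    have mu : u ∈ HX Δ c y p := by rw [hset]; simp
    have mv : v ∈ HX Δ c y p := by rw [hset]; simp
    have mw : w ∈ HX Δ c y p := by rw [hset]; simp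
    simp only [List.nodup_cons, List.mem_cons, List.not_mem_nil, or_false, not_or] at hnd
    obtain ⟨⟨a1, a2, a3, a4, a5⟩, ⟨b1, b2, b3, b4⟩, ⟨c1, c2, c3⟩, ⟨d1, d2⟩, e1, -⟩ := hnd
    have hup : sw b c y * u * (sw b c y)⁻¹ = p := by
      rw [← hpu]
      calc sw b c y * (sw b c y * p * (sw b c y)⁻¹) * (sw b c y)⁻¹ = (sw b c y * sw b c y) * p * (sw b c y * sw b c y)⁻¹ := by group
        _ = p := by rw [htt]; simp
    have hvw : sw b c y * v * (sw b c y)⁻¹ = w := by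
      have h1 := hinv v mv
      rw [hset] at h1
      simp only [Set.mem_insert_iff, Set.mem_singleton_iff] at h1
      rcases h1 with h | h | h | h | h | h
      · exact absurd ((cj_inj _).1 (h.trans hsy.symm)).symm b3
      · exact absurd ((cj_inj _).1 (h.trans hsc.symm)).symm a4
      · exact absurd ((cj_inj _).1 (h.trans hup.symm)).symm d1
      · exact absurd ((cj_inj _).1 (h.trans hpu.symm)).symm c2
      · exact absurd h (hnf v mv)
      · exact h
    exact X.lemP hb T.mx T.my T.mz mu.1 mv.1 mw.1 hq hbc hby qb (hqγ c T.memx) (hqγ y T.memy) (hqγ p T.memz) T.cxy T.cxz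
      (hcm T.memx mu) (hcm T.memx mv) T.cyz (hcm T.memy mu) (hcm T.memy mv) (hcm T.memz mu) (hcm mv mw) hpu hvw c1 e1 hprod
  obtain ⟨x', y', z', h1, h2, h3⟩ := X.hx c y p T
  have m4 : x' ∈ HX Δ c y p := by rw [h1]; simp
  have m5 : y' ∈ HX Δ c y p := by rw [h1]; simp
  have m6 : z' ∈ HX Δ c y p := by rw [h1]; simp
  have h4 := hinv p T.memz
  have hnd := h2
  simp only [List.nodup_cons, List.mem_cons, List.not_mem_nil, or_false, not_or] at hnd
  obtain ⟨⟨a1, a2, a3, a4, a5⟩, ⟨b1, b2, b3, b4⟩, ⟨c1, c2, c3⟩, ⟨d1, d2⟩, e1, -⟩ := hnd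
  have h4' := h4
  rw [h1] at h4'
  simp only [Set.mem_insert_iff, Set.mem_singleton_iff] at h4'
  rcases h4' with h | h | h | h | h | h
  · exact absurd ((cj_inj _).1 (h.trans hsy.symm)).symm b1
  · exact absurd ((cj_inj _).1 (h.trans hsc.symm)).symm a2
  · exact hnf p T.memz h
  · exact core x' y' z' h1 h2 h3 h
  · apply core y' x' z' _ _ _ h
    · rw [h1]; ext w; simp only [Set.mem_insert_iff, Set.mem_singleton_iff]; tauto
    · simp only [List.nodup_cons, List.mem_cons, List.not_mem_nil, or_false, not_or]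
      exact ⟨⟨a1, a2, a4, a3, a5⟩, ⟨b1, b3, b2, b4⟩, ⟨c2, c1, c3⟩, ⟨Ne.symm d1, e1⟩, d2, not_false, List.nodup_nil⟩
    · rw [h3, (hcm m4 m5).eq]
  · apply core z' x' y' _ _ _ h
    · rw [h1]; ext w; simp only [Set.mem_insert_iff, Set.mem_singleton_iff]; tauto
    · simp only [List.nodup_cons, List.mem_cons, List.not_mem_nil, or_false, not_or]
      exact ⟨⟨a1, a2, a5, a3, a4⟩, ⟨b1, b4, b2, b3⟩, ⟨c3, c1, c2⟩, ⟨Ne.symm d2, Ne.symm e1⟩, d1, not_false, List.nodup_nil⟩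
    · rw [h3, ((hcm m4 m6).mul_left (hcm m5 m6)).eq, mul_assoc]

/-- two members have a common neighbour -/
theorem diam2 [Finite G] (N : Nb Δ) {a b : G} (ha : a ∈ Δ) (hb : b ∈ Δ) : ∃ w ∈ Δ, Commute a w ∧ Commute b w := by
  by_contra hcon
  push Not at hcon
  obtain ⟨c', hc', c, hc, hbc', hc'c, hca⟩ := X.path3 N hb ha
  have hbc : ¬ Commute b c := hcon c hc hca.symm
  obtain ⟨y, hy, hyc, hcyc, hya, hyc'⟩ := N.nb c hc a ha c' hc' hca.symm hc'c
  have hby : ¬ Commute b y := hcon y hy hya.symm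
  have hcy : Commute c y := hcyc.symm
  have hbb := X.inv b hb
  have hcc := X.inv c hc
  have hyy := X.inv y hy
  have B1 := X.brd hc' hb hc hbc' hc'c.symm hbc
  have B2 := X.brd hc' hb hy hbc' hyc' hby
  have htt := sw_sq hbb hcc hyy hcy B1 B2
  have hsc := sw_c hbb hcc hyy hcy B1 B2
  have hsy := sw_y hbb hcc hyy hcy B1 B2
  have hb'Δ : c * y * b * (c * y)⁻¹ ∈ Δ := X.cj _ b hb
  have hbb' : b ≠ c * y * b * (c * y)⁻¹ := by
    intro h
    have h1 : sw b c y = 1 := by rw [sw, ← h, hbb]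
    rw [h1, one_mul, inv_one, mul_one] at hsc
    exact hyc hsc.symm
  have hfb : ∀ q ∈ Δ, Commute q (sw b c y) → Commute q b := fun q hq h =>
    ((X.zst hb hb'Δ hbb' (sw_bb hbb hcc hyy hcy B1 B2)).2 q hq h).1
  obtain ⟨t, ht⟩ : ∃ t, t = sw b c y := ⟨_, rfl⟩
  rw [← ht] at htt hsc hsy hfb
  obtain ⟨a', ha'⟩ : ∃ a', a' = t * a * t⁻¹ := ⟨_, rfl⟩
  have ha'Δ : a' ∈ Δ := by rw [ha']; exact X.cj t a ha
  have ha'c : Commute a' c := by rw [ha', ← hsy]; exact (cm_conj t).2 hya.symm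
  have ha'y : Commute a' y := by rw [ha', ← hsc]; exact (cm_conj t).2 hca.symm
  have hta' : t * a' * t⁻¹ = a := by
    rw [ha']
    calc t * (t * a * t⁻¹) * t⁻¹ = (t * t) * a * (t * t)⁻¹ := by group
      _ = a := by rw [htt]; simp
  have hS4 : ∀ s ∈ ({c, y, a, a'} : Set G), t * s * t⁻¹ ∈ ({c, y, a, a'} : Set G) := by
    rintro s (h | h | h | h)
    · rw [h, hsc]; simp
    · rw [h, hsy]; simp
    · rw [h, ← ha']; simp
    · rw [Set.mem_singleton_iff.1 h, hta']; simp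
  by_cases haa' : Commute a a'
  · obtain ⟨q, hq, hqt, hqS⟩ := X.fix_over (S := {c, y, a, a'}) (by
      rintro s (h | h | h | h)
      · rw [h]; exact hc
      · rw [h]; exact hy
      · rw [h]; exact ha
      · rw [Set.mem_singleton_iff.1 h]; exact ha'Δ) (by
      have h1 : ∀ s ∈ ({c, y, a, a'} : Set G), s = c ∨ s = y ∨ s = a ∨ s = a' := fun s hs => by simpa using hs
      intro s hs s' hs'
      rcases h1 s hs with h | h | h | h <;> rcases h1 s' hs' with k | k | k | k <;> rw [h, k]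
      · exact hcy
      · exact hca
      · exact ha'c.symm
      · exact hcy.symm
      · exact hya
      · exact ha'y.symm
      · exact hca.symm
      · exact hya.symm
      · exact haa'
      · exact ha'c
      · exact ha'y
      · exact haa'.symm) htt hS4
    exact hcon q hq (hqS a (by simp)).symm (hfb q hq hqt).symm
  · obtain ⟨p, hp, hpc, hpy, pc, py, pa, pa'⟩ := N.nb4 c hc y hy (Ne.symm hyc) hcy a ha a' ha'Δ hca.symm hya.symm ha'c ha'y haa'
    have T : T3 Δ c y p := ⟨hc, hy, hp, Ne.symm hyc, Ne.symm hpc, Ne.symm hpy, hcy, pc.symm, py.symm⟩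
    obtain ⟨Y, hY⟩ : ∃ Y, Y = Subgroup.centralizer ({c, y, a, a'} : Set G) := ⟨_, rfl⟩
    have hYm : ∀ w, w ∈ Y ↔ Commute w c ∧ Commute w y ∧ Commute w a ∧ Commute w a' := by
      intro w
      rw [hY, mem_cent]
      constructor
      · intro h; exact ⟨h c (by simp), h y (by simp), h a (by simp), h a' (by simp)⟩
      · rintro ⟨h1, h2, h3, h4⟩ s hs
        rcases (show s = c ∨ s = y ∨ s = a ∨ s = a' by simpa using hs) with h | h | h | h <;> rw [h] <;> assumption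
    have htY : ∀ w ∈ Y, t * w * t⁻¹ ∈ Y := by rw [hY]; exact norm_cent htt hS4
    obtain ⟨m, hm, E, hE1, hE2, hE3, hE4⟩ := X.exists_norm' (S := HX Δ c y p) (fun x hx => hx.1) (fun x hx y hy => T.hcc hx hy)
      (fun w hw => (hYm w).2 ⟨T.hcx hw, T.hcy hw, (hw.2 a ha hca.symm hya.symm pa.symm).symm, (hw.2 a' ha'Δ ha'c ha'y pa'.symm).symm⟩)
      htt htY
    have hTm := T.conj X m
    obtain ⟨p₂, hp₂⟩ : ∃ p₂, p₂ = m * p * m⁻¹ := ⟨_, rfl⟩
    have hkey : T3 Δ c y p₂ ∧ HX Δ (m * c * m⁻¹) (m * y * m⁻¹) (m * p * m⁻¹) = HX Δ c y p₂ ∧ c ∈ E ∧ y ∈ E := by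
      have e1 := hE4 c T.memx
      have e2 := hE4 y T.memy
      rcases hm with h | h
      · obtain ⟨k1, k2, -, -⟩ := (hYm m).1 h
        rw [cj_eq_iff.2 k1, cj_eq_iff.2 k2, ← hp₂] at hTm
        rw [cj_eq_iff.2 k1] at e1
        rw [cj_eq_iff.2 k2] at e2
        rw [cj_eq_iff.2 k1, cj_eq_iff.2 k2, ← hp₂]
        exact ⟨hTm, rfl, e1, e2⟩
      · obtain ⟨k1, k2, -, -⟩ := (hYm _).1 h
        have k3 : m * y * m⁻¹ = c := by
          have h5 := cj_eq_iff.2 k1
          rw [← hsc]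
          have h6 : m * (t * c * t⁻¹) * m⁻¹ = m * t * c * (m * t)⁻¹ := by group
          rw [h6, h5]
        have k4 : m * c * m⁻¹ = y := by
          have h5 := cj_eq_iff.2 k2
          conv_lhs => rw [← hsy]
          have h6 : m * (t * y * t⁻¹) * m⁻¹ = m * t * y * (m * t)⁻¹ := by group
          rw [h6, h5]
        rw [k4, k3, ← hp₂] at hTm
        rw [k4] at e1
        rw [k3] at e2
        rw [k4, k3, ← hp₂]
        exact ⟨T3.swap hTm, HX_swap Δ c y p₂, e2, e1⟩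
    obtain ⟨T₂, hHX, hcE, hyE⟩ := hkey
    have hp₂E : p₂ ∈ E := by rw [hp₂]; exact hE4 p T.memz
    have hsub1 : ∀ w ∈ HX Δ c y p₂, w ∈ E := by
      intro w hw
      rw [← hHX] at hw
      have h5 := X.HX_conj m⁻¹ w hw
      have hback : ∀ a : G, m⁻¹ * (m * a * m⁻¹) * (m⁻¹)⁻¹ = a := fun a => by group
      rw [hback, hback, hback] at h5
      have h6 := hE4 _ h5
      have h7 : m * (m⁻¹ * w * (m⁻¹)⁻¹) * m⁻¹ = w := by group
      rwa [h7] at h6
    have hEY : ∀ w ∈ E, Commute w c ∧ Commute w y ∧ Commute w a ∧ Commute w a' := fun w hw => (hYm w).1 (hE1 w hw).2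
    have hsub2 : ∀ w ∈ E, w ∈ HX Δ c y p₂ := by
      intro w hw
      by_contra hn
      obtain ⟨w1, w2, w3, w4⟩ := hEY w hw
      obtain ⟨-, -, v3, v4⟩ := hEY p₂ hp₂E
      exact haa' (X.b4 c y p₂ T₂ w (hE1 w hw).1 w1 w2 (hE2 w hw p₂ hp₂E) hn a ha a' ha'Δ w3.symm hca.symm hya.symm v3.symm
        w4.symm ha'c ha'y v4.symm)
    have hinv : ∀ w ∈ HX Δ c y p₂, t * w * t⁻¹ ∈ HX Δ c y p₂ := fun w hw => hsub2 _ (hE3 w (hsub1 w hw))
    have hnf : ∀ w ∈ HX Δ c y p₂, t * w * t⁻¹ ≠ w := by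
      intro w hw h
      have h5 : Commute w t := (cj_eq_iff.1 h).symm
      exact hcon w hw.1 (hEY w (hsub1 w hw)).2.2.1.symm (hfb w hw.1 h5).symm
    obtain ⟨q, hq, hqt, hqS⟩ := X.fix_over (S := HX Δ c y p₂) (fun x hx => hx.1) (fun x hx y hy => T₂.hcc hx hy) htt hinv
    rw [ht] at hinv hnf
    exact X.lemP' T₂ hb hbc hby hq (hfb q hq hqt).symm (fun w hw => (hqS w hw).symm) hinv hnf

/-- 3-transpositions -/
theorem braid_all [Finite G] (N : Nb Δ) {a b : G} (ha : a ∈ Δ) (hb : b ∈ Δ) (h : ¬ Commute a b) : a * b * a = b * a * b := by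
  obtain ⟨w, hw, h1, h2⟩ := X.diam2 N ha hb
  exact X.three w hw a ha b hb h1 h2 h

end Geo

end Cfsg.Agent.Lib.H89FB
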