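import Cfsg.Agent.Lib.H89FA1
import Cfsg.Agent.Lib.H89FB6
/-
From charts to the commuting geometry: local properties (helper89).
-/
set_option autoImplicit false
set_option linter.all false

namespace Cfsg.Agent.Lib.H89FA

open Module Cfsg Cfsg.Agent.Lib.UnTrans Cfsg.Agent.Lib.UnBridge Cfsg.Agent.Lib.H89EA Cfsg.Agent.Lib.H89EB
open Cfsg.Agent.Lib.H89EC Cfsg.Agent.Lib.H89ED Cfsg.Agent.Lib.H89EE Cfsg.Agent.Lib.H89EF
open Cfsg.Agent.Lib.U6Class hiding TI
open Cfsg.Agent.Lib.SpTrans (isom mem_isom)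
open Cfsg.Agent.Lib.H89FB (T3 HX Bs)

universe v w w'

variable {F : Type} [Field F] [Fintype F] [CharP F 2] {V : Type v} [AddCommGroup V] [Module F V] {f : V → V → F}
  {hF : Fintype.card F = 2 ^ 2} {H : HS (sig hF) f} {G : Type w'} [Group G] {Δ : Set G}

/-- a class with charts -/
structure CD (H : HS (sig hF) f) (Δ : Set G) : Prop where
  ch : ∀ d ∈ Δ, ∃ τ : V → G, Chart H Δ d τ
  cj : ∀ g, ∀ x ∈ Δ, g * x * g⁻¹ ∈ Δ
  cl : ∀ x ∈ Δ, ∀ y ∈ Δ, ∃ g, g * x * g⁻¹ = y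
  ne : Δ.Nonempty

theorem exists_isov (X : HV H) : ∃ v, f v v = 0 ∧ v ≠ 0 := by
  haveI := X.fin
  obtain ⟨z, hz0, hzz, -⟩ := exists_fixed_iso hF H (by rw [X.dim]; norm_num) (A := ⊥) bot_le (by
    intro a ha; rw [Subgroup.mem_bot.1 ha, one_mul])
  exact ⟨z, hzz, hz0⟩

theorem iso_lin (H : HS (sig hF) f) {u v : V} (hu : f u u = 0) (hv : f v v = 0) (huv : f u v = 0) (a b : F) :
    f (a • u + b • v) (a • u + b • v) = 0 := by
  simp only [H.add_left, H.add_right, H.smul_left, H.smul_right, hu, hv, huv, H.symm_zero huv, mul_zero, add_zero]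

theorem perp_lin (H : HS (sig hF) f) {u v x : V} (hu : f x u = 0) (hv : f x v = 0) (a b : F) : f x (a • u + b • v) = 0 := by
  rw [H.add_right, H.smul_right, H.smul_right, hu, hv]; ring

namespace Chart

variable {d : G} {τ : V → G} (X : Chart H Δ d τ)
include X

theorem cases {x : G} (hx : x ∈ Δ) (hc : Commute x d) : x = d ∨ ∃ v, f v v = 0 ∧ v ≠ 0 ∧ τ v = x := by
  by_cases h : x = d
  · exact Or.inl h
  · exact Or.inr (X.surj x hx h hc)

theorem t3 {y z : G} (T : T3 Δ d y z) : ∃ u v, f u u = 0 ∧ f v v = 0 ∧ f u v = 0 ∧ u ≠ 0 ∧ v ≠ 0 ∧ (∀ c : F, v ≠ c • u) ∧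
    τ u = y ∧ τ v = z := by
  obtain ⟨u, hu, hu0, rfl⟩ := X.surj y T.my T.xy.symm T.cxy.symm
  obtain ⟨v, hv, hv0, rfl⟩ := X.surj z T.mz T.xz.symm T.cxz.symm
  refine ⟨u, v, hu, hv, (X.comm u v hu hu0 hv hv0).1 T.cyz, hu0, hv0, ?_, rfl, rfl⟩
  intro c hc
  have hc0 : c ≠ 0 := by rintro rfl; rw [zero_smul] at hc; exact hv0 hc
  apply T.yz
  rw [hc, X.smul u hu c hc0]

theorem mk_t3 {u v : V} (hu : f u u = 0) (hv : f v v = 0) (huv : f u v = 0) (hu0 : u ≠ 0) (hne : ∀ c : F, v ≠ c • u) :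
    T3 Δ d (τ u) (τ v) := by
  have hv0 : v ≠ 0 := fun h => hne 0 (by rw [h, zero_smul])
  obtain ⟨a1, a2, a3⟩ := X.mem u hu hu0
  obtain ⟨b1, b2, b3⟩ := X.mem v hv hv0
  refine ⟨X.dm, a1, b1, a2.symm, b2.symm, ?_, a3.symm, b3.symm, (X.comm u v hu hu0 hv hv0).2 huv⟩
  intro h
  obtain ⟨c, _, hc⟩ := X.inj u v hu hu0 hv hv0 h
  exact hne c hc

theorem hx_iff {u v : V} (hu : f u u = 0) (hv : f v v = 0) (huv : f u v = 0) (hu0 : u ≠ 0) (hne : ∀ c : F, v ≠ c • u) (w : G) :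
    w ∈ HX Δ d (τ u) (τ v) ↔ w = d ∨ ∃ a b : F, a • u + b • v ≠ 0 ∧ w = τ (a • u + b • v) := by
  have T := X.mk_t3 hu hv huv hu0 hne
  have hv0 : v ≠ 0 := fun h => hne 0 (by rw [h, zero_smul])
  constructor
  · intro hw
    rcases X.cases hw.1 (T.hcx hw) with h | ⟨x, hx, hx0, rfl⟩
    · exact Or.inl h
    · right
      obtain ⟨a, b, h⟩ := perp2 X.hv hu hv huv hu0 hne (x := x) (fun z hz hz0 h1 h2 => by
        have hm := X.mem z hz hz0
        exact (X.comm z x hz hz0 hx hx0).1 (hw.2 _ hm.1 hm.2.2 ((X.comm z u hz hz0 hu hu0).2 h1) ((X.comm z v hz hz0 hv hv0).2 h2)))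
      exact ⟨a, b, by rw [← h]; exact hx0, by rw [← h]⟩
  · rintro (rfl | ⟨a, b, h0, rfl⟩)
    · exact T.memx
    · have hi := iso_lin H hu hv huv a b
      refine ⟨(X.mem _ hi h0).1, ?_⟩
      intro p hp h1 h2 h3
      rcases X.cases hp h1 with rfl | ⟨x, hx, hx0, rfl⟩
      · exact (X.mem _ hi h0).2.2.symm
      · exact (X.comm x _ hx hx0 hi h0).2 (perp_lin H ((X.comm x u hx hx0 hu hu0).1 h2) ((X.comm x v hx hx0 hv hv0).1 h3) a b)

/-- the five points of a line -/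
theorem line5 {u v : V} (hu : f u u = 0) (hv : f v v = 0) (huv : f u v = 0) {ω : F} (hω : ∀ c : F, c = 0 ∨ c = 1 ∨ c = ω ∨ c = ω + 1)
    {a b : F} (h0 : a • u + b • v ≠ 0) : τ (a • u + b • v) = τ u ∨ τ (a • u + b • v) = τ v ∨ τ (a • u + b • v) = τ (u + v) ∨
      τ (a • u + b • v) = τ (u + ω • v) ∨ τ (a • u + b • v) = τ (u + (ω + 1) • v) := by
  by_cases hb : b = 0
  · left
    rw [hb, zero_smul, add_zero]
    have ha : a ≠ 0 := by
      intro ha; rw [ha, hb, zero_smul, zero_smul, add_zero] at h0; exact h0 rfl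
    exact X.smul u hu a ha
  by_cases ha : a = 0
  · right; left
    rw [ha, zero_smul, zero_add]
    exact X.smul v hv b hb
  · right; right
    have e : a • u + b • v = a • (u + (a⁻¹ * b) • v) := by
      rw [smul_add, smul_smul, ← mul_assoc, mul_inv_cancel₀ ha, one_mul]
    have hi := iso_lin H hu hv huv 1 (a⁻¹ * b)
    rw [one_smul] at hi
    rw [e, X.smul _ hi a ha]
    rcases hω (a⁻¹ * b) with h | h | h | h
    · exact absurd h (mul_ne_zero (inv_ne_zero ha) hb)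
    · left; rw [h, one_smul]
    · right; left; rw [h]
    · right; right; rw [h]

end Chart

namespace CD

variable (Y : CD H Δ)
include Y

theorem inv : ∀ x ∈ Δ, x * x = 1 := by
  intro x hx
  obtain ⟨τ, X⟩ := Y.ch x hx
  exact X.dd

theorem one : ∀ x ∈ Δ, x ≠ 1 := by
  rintro x hx rfl
  obtain ⟨τ, X⟩ := Y.ch 1 hx
  obtain ⟨v, hv, hv0⟩ := exists_isov X.hv
  obtain ⟨h1, h2, -⟩ := X.mem v hv hv0
  obtain ⟨g, hg⟩ := Y.cl 1 hx _ h1
  apply h2
  rw [← hg]; group

theorem three : ∀ c ∈ Δ, ∀ x ∈ Δ, ∀ y ∈ Δ, Commute x c → Commute y c → ¬ Commute x y → x * y * x = y * x * y := by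
  intro c hc x hx y hy hxc hyc hn
  obtain ⟨τ, X⟩ := Y.ch c hc
  have ix : x⁻¹ = x := inv_eq_of_mul_eq_one_left (Y.inv x hx)
  have iy : y⁻¹ = y := inv_eq_of_mul_eq_one_left (Y.inv y hy)
  rcases X.cases hx hxc with rfl | ⟨u, hu, hu0, hux⟩
  · exact absurd hyc.symm hn
  rcases X.cases hy hyc with rfl | ⟨v, hv, hv0, hvy⟩
  · exact absurd hxc hn
  have hne : f u v ≠ 0 := fun h => hn (by rw [← hux, ← hvy]; exact (X.comm u v hu hu0 hv hv0).2 h)
  have h1 := X.cj u v hu hu0 hv hv0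
  have h2 := X.cj v u hv hv0 hu hu0
  rw [hux, hvy, ix] at h1
  rw [hux, hvy, iy] at h2
  rw [h1, h2]
  have hvu : f v u = sig hF (f u v) := H.herm v u
  have hvu0 : f v u ≠ 0 := fun h => hne (H.symm_zero h)
  have hn1 : f v u * f u v = 1 := by rw [hvu, mul_comm]; exact nrm1 hF hne
  have e1 : v + f v u • u = f v u • (u + f u v • v) := by
    rw [smul_add, smul_smul, hn1, one_smul, add_comm]
  have e2 : f (u + f u v • v) (u + f u v • v) = 0 := by
    rw [H.add_left, H.add_right, H.add_right, H.smul_left, H.smul_left, H.smul_right, H.smul_right, hu, hv, ← hvu, mul_comm (f v u) (f u v)]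
    rw [mul_zero, mul_zero, add_zero, zero_add, CharTwo.add_self_eq_zero]
  rw [e1, X.smul _ e2 _ hvu0]

theorem two : ∀ a ∈ Δ, ∀ b ∈ Δ, a ≠ b → Commute a b → a * b ∉ Δ := by
  intro a ha b hb hab hc hm
  obtain ⟨τ, X⟩ := Y.ch a ha
  have haa := Y.inv a ha
  obtain ⟨u, hu, hu0, hub⟩ := X.surj b hb hab.symm hc.symm
  have h1 : Commute (a * b) a := (Commute.refl a).mul_left hc.symm
  rcases X.cases hm h1 with h | ⟨v, hv, hv0, hvm⟩
  · exact Y.one b hb (by simpa using h)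
  · obtain ⟨c, hc'⟩ := perp1 X.hv hu hu0 (x := v) (fun z hz hz0 h => by
      have hm' := X.mem z hz hz0
      apply (X.comm z v hz hz0 hv hv0).1
      rw [hvm]
      exact hm'.2.2.mul_right (by rw [← hub]; exact (X.comm z u hz hz0 hu hu0).2 h))
    have hc0 : c ≠ 0 := by rintro rfl; rw [zero_smul] at hc'; exact hv0 hc'
    rw [hc', X.smul u hu c hc0, hub] at hvm
    exact Y.one a ha (by simpa using hvm.symm)

theorem hx : ∀ x y z, T3 Δ x y z → ∃ x' y' z', HX Δ x y z = {x, y, z, x', y', z'} ∧ [x, y, z, x', y', z'].Nodup ∧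
    x * y * z = x' * y' * z' := by
  intro x y z T
  obtain ⟨τ, X⟩ := Y.ch x T.mx
  obtain ⟨u, v, hu, hv, huv, hu0, hv0, hne, rfl, rfl⟩ := X.t3 T
  obtain ⟨ω, hω0, hω1, hω, hsω, hall⟩ := exists_omega hF
  obtain ⟨z', hz', huz, hvz, hli⟩ := ext2 X.hv hu hv huv hu0 hne
  have hL : τ u * τ v * τ (u + v) * τ (u + ω • v) * τ (u + (ω + 1) • v) = x :=
    X.line ω hω hsω ![u, v, z'] (orth3 H hu hv hz' huv huz hvz) hli
  have hω10 : ω + 1 ≠ 0 := fun h => hω1 (by
    have := CharTwo.add_self_eq_zero (1 : F)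
    calc ω = ω + 1 + 1 := by rw [add_assoc, this, add_zero]
      _ = 1 := by rw [h, zero_add])
  -- the coefficients
  have hcoef : ∀ a b a' b' : F, a • u + b • v = a' • u + b' • v → a = a' ∧ b = b' := by
    intro a b a' b' h
    have h1 := Fintype.linearIndependent_iff.1 hli ![a - a', b - b', 0] (by
      rw [Fin.sum_univ_three]
      show (a - a') • u + (b - b') • v + (0 : F) • z' = 0
      rw [sub_smul, sub_smul, zero_smul, add_zero]
      calc a • u - a' • u + (b • v - b' • v) = (a • u + b • v) - (a' • u + b' • v) := by abel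
        _ = 0 := by rw [h, sub_self])
    exact ⟨sub_eq_zero.1 (h1 0), sub_eq_zero.1 (h1 1)⟩
  have h10 : ∀ b : F, u + b • v ≠ 0 := by
    intro b h
    have := (hcoef 1 b 0 0 (by rw [one_smul, h, zero_smul, zero_smul, add_zero])).1
    exact one_ne_zero this
  have hiso : ∀ b : F, f (u + b • v) (u + b • v) = 0 := fun b => by
    have := iso_lin H hu hv huv 1 b
    rwa [one_smul] at this
  -- injectivity
  have hdist : ∀ b b' : F, τ (u + b • v) = τ (u + b' • v) → b = b' := by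
    intro b b' h
    obtain ⟨c, hc0, hc⟩ := X.inj _ _ (hiso b) (h10 b) (hiso b') (h10 b') h
    rw [smul_add, smul_smul] at hc
    obtain ⟨h1, h2⟩ := hcoef 1 b' c (c * b) (by rw [one_smul]; exact hc)
    rw [← h1, one_mul] at h2
    exact h2.symm
  have hdv : ∀ b : F, τ v ≠ τ (u + b • v) := by
    intro b h
    obtain ⟨c, hc0, hc⟩ := X.inj _ _ hv hv0 (hiso b) (h10 b) h
    have := (hcoef 1 b 0 c (by rw [one_smul, zero_smul, zero_add]; exact hc)).1
    exact one_ne_zero this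
  have e0 : u + (0 : F) • v = u := by rw [zero_smul, add_zero]
  have e1 : u + (1 : F) • v = u + v := by rw [one_smul]
  have n1 : ω ≠ ω + 1 := by intro h; exact one_ne_zero (left_eq_add.1 h)
  have n2 : (1 : F) ≠ ω + 1 := fun h => hω0 (right_eq_add.1 h)
  have hxτ : ∀ b : F, x ≠ τ (u + b • v) := fun b => (X.mem _ (hiso b) (h10 b)).2.1.symm
  refine ⟨τ (u + v), τ (u + ω • v), τ (u + (ω + 1) • v), ?_, ?_, ?_⟩
  · ext w
    rw [X.hx_iff hu hv huv hu0 hne]
    simp only [Set.mem_insert_iff, Set.mem_singleton_iff]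
    constructor
    · rintro (h | ⟨a, b, h0, rfl⟩)
      · exact Or.inl h
      · right; exact X.line5 hu hv huv hall h0
    · rintro (h | h | h | h | h | h)
      · exact Or.inl h
      · exact Or.inr ⟨1, 0, by rw [one_smul, e0]; exact hu0, by rw [one_smul, e0]; exact h⟩
      · exact Or.inr ⟨0, 1, by rw [zero_smul, one_smul, zero_add]; exact hv0, by rw [zero_smul, one_smul, zero_add]; exact h⟩
      · exact Or.inr ⟨1, 1, by rw [one_smul]; exact h10 1, by rw [one_smul, e1]; exact h⟩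
      · exact Or.inr ⟨1, ω, by rw [one_smul]; exact h10 ω, by rw [one_smul]; exact h⟩
      · exact Or.inr ⟨1, ω + 1, by rw [one_smul]; exact h10 _, by rw [one_smul]; exact h⟩
  · simp only [List.nodup_cons, List.mem_cons, List.not_mem_nil, or_false, not_or]
    rw [← e1]
    refine ⟨⟨?_, ?_, ?_, ?_, ?_⟩, ⟨?_, ?_, ?_, ?_⟩, ⟨?_, ?_, ?_⟩, ⟨?_, ?_⟩, ?_, not_false, List.nodup_nil⟩
    · have := hxτ 0; rwa [e0] at this
    · exact T.xz
    · exact hxτ 1
    · exact hxτ ω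
    · exact hxτ _
    · exact T.yz
    · intro h; exact zero_ne_one (hdist 0 1 (by rw [e0]; exact h))
    · intro h; exact hω0 (hdist 0 ω (by rw [e0]; exact h)).symm
    · intro h; exact hω10 (hdist 0 _ (by rw [e0]; exact h)).symm
    · exact hdv 1
    · exact hdv ω
    · exact hdv _
    · intro h; exact hω1 (hdist 1 ω h).symm
    · intro h; exact n2 (hdist 1 _ h)
    · intro h; exact n1 (hdist ω _ h)
  · obtain ⟨p, hp⟩ : ∃ p, p = τ (u + v) * τ (u + ω • v) * τ (u + (ω + 1) • v) := ⟨_, rfl⟩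
    have h1 : τ u * τ v * p = x := by rw [hp, ← hL]; group
    have hc : ∀ {q : G}, Commute q (τ u) → Commute q (τ v) → True := fun _ _ => trivial
    have hux : Commute (τ u) x := T.cxy.symm
    have hvx : Commute (τ v) x := T.cxz.symm
    have huu := Y.inv _ T.my
    have hvv := Y.inv _ T.mz
    rw [← hp]
    have h2 : τ v * τ u * x = p := by
      rw [← h1]
      calc τ v * τ u * (τ u * τ v * p) = τ v * (τ u * τ u) * τ v * p := by group
        _ = p := by rw [huu, mul_one, hvv, one_mul]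
    rw [← h2, mul_assoc x, ((hux.mul_left hvx)).eq.symm, T.cyz.eq]

end CD

end Cfsg.Agent.Lib.H89FA
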