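import Cfsg.Agent.Lib.H89FA2
/-
From charts to the commuting geometry: hexads, bases (helper89).
-/
set_option autoImplicit false
set_option linter.all false

namespace Cfsg.Agent.Lib.H89FA

open Module Cfsg Cfsg.Agent.Lib.UnTrans Cfsg.Agent.Lib.UnBridge Cfsg.Agent.Lib.H89EA Cfsg.Agent.Lib.H89EB
open Cfsg.Agent.Lib.H89EC Cfsg.Agent.Lib.H89ED Cfsg.Agent.Lib.H89EE Cfsg.Agent.Lib.H89EF
open Cfsg.Agent.Lib.U6Class hiding TI
open Cfsg.Agent.Lib.SpTrans (isom mem_isom)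
open Cfsg.Agent.Lib.H89FB (T3 HX Bs HX_swap HX_swap' cm_conj cj_inj cj_eq_iff)

universe v w w'

variable {F : Type} [Field F] [Fintype F] [CharP F 2] {V : Type v} [AddCommGroup V] [Module F V] {f : V → V → F}
  {hF : Fintype.card F = 2 ^ 2} {H : HS (sig hF) f} {G : Type w'} [Group G] {Δ : Set G}

theorem tr_ok (H : HS (sig hF) f) {v u : V} (hv : f v v = 0) (hv0 : v ≠ 0) (hu : f u u = 0) :
    f (v + f v u • u) (v + f v u • u) = 0 ∧ v + f v u • u ≠ 0 := by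
  constructor
  · rw [H.add_left, H.add_right, H.add_right, H.smul_left, H.smul_left, H.smul_right, H.smul_right, hu, hv, H.herm u v]
    rw [mul_zero, mul_zero, add_zero, zero_add, mul_comm (f v u), CharTwo.add_self_eq_zero]
  · intro h
    have h1 : v = f v u • u := by
      have h4 := vadd_self F (f v u • u)
      calc v = (v + f v u • u) + f v u • u := by rw [add_assoc, h4, add_zero]
        _ = f v u • u := by rw [h, zero_add]
    have h2 : f v u = 0 := by rw [h1, H.smul_left, hu, mul_zero]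
    rw [h2, zero_smul] at h1
    exact hv0 h1

namespace CD

variable (Y : CD H Δ)
include Y

theorem exch : ∀ x y z, T3 Δ x y z → ∀ u ∈ HX Δ x y z, u ≠ x → u ≠ y → ∀ v ∈ Δ, Commute v x → Commute v y → Commute v u →
    Commute v z := by
  intro x y z T u hu hux huy p hp hpx hpy hpu
  obtain ⟨τ, X⟩ := Y.ch x T.mx
  obtain ⟨u0, v0, hu0, hv0, huv, hu0', hv0', hne, rfl, rfl⟩ := X.t3 T
  rcases (X.hx_iff hu0 hv0 huv hu0' hne u).1 hu with h | ⟨a, b, h0, rfl⟩
  · exact absurd h hux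
  · have hb : b ≠ 0 := by
      rintro rfl
      rw [zero_smul, add_zero] at huy h0
      apply huy
      exact X.smul u0 hu0 a (fun h => h0 (by rw [h, zero_smul]))
    rcases X.cases hp hpx with rfl | ⟨w, hw, hw0, rfl⟩
    · exact T.cxz
    · have h1 := (X.comm w u0 hw hw0 hu0 hu0').1 hpy
      have h2 := (X.comm w _ hw hw0 (iso_lin H hu0 hv0 huv a b) h0).1 hpu
      rw [H.add_right, H.smul_right, H.smul_right, h1, mul_zero, zero_add] at h2
      apply (X.comm w v0 hw hw0 hv0 hv0').2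
      rcases mul_eq_zero.1 h2 with h3 | h3
      · exfalso
        apply hb
        rw [← H.inv b, h3, map_zero]
      · exact h3

theorem li_q {x y z q : G} (T : T3 Δ x y z) (hq : q ∈ Δ) (h1 : Commute q x) (h2 : Commute q y) (h3 : Commute q z)
    (hqn : q ∉ HX Δ x y z) {τ : V → G} (X : Chart H Δ q τ) : ∃ w : Fin 3 → V, (∀ i j, f (w i) (w j) = 0) ∧ LinearIndependent F w ∧
      τ (w 0) = x ∧ τ (w 1) = y ∧ τ (w 2) = z := by
  obtain ⟨u1, hu1, h10, e1⟩ := X.surj x T.mx (fun h => hqn (by rw [← h]; exact T.memx)) h1.symm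
  obtain ⟨u2, hu2, h20, e2⟩ := X.surj y T.my (fun h => hqn (by rw [← h]; exact T.memy)) h2.symm
  obtain ⟨u3, hu3, h30, e3⟩ := X.surj z T.mz (fun h => hqn (by rw [← h]; exact T.memz)) h3.symm
  have c12 := (X.comm u1 u2 hu1 h10 hu2 h20).1 (by rw [e1, e2]; exact T.cxy)
  have c13 := (X.comm u1 u3 hu1 h10 hu3 h30).1 (by rw [e1, e3]; exact T.cxz)
  have c23 := (X.comm u2 u3 hu2 h20 hu3 h30).1 (by rw [e2, e3]; exact T.cyz)
  have n12 : ∀ c : F, u2 ≠ c • u1 := by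
    intro c hc
    have hc0 : c ≠ 0 := by rintro rfl; rw [zero_smul] at hc; exact h20 hc
    apply T.xy
    rw [← e1, ← e2, hc, X.smul u1 hu1 c hc0]
  refine ⟨![u1, u2, u3], orth3 H hu1 hu2 hu3 c12 c13 c23, li3 h10 n12 ?_, e1, e2, e3⟩
  intro a b hab
  apply hqn
  have hz : z ∈ HX Δ q x y := by
    rw [← e1, ← e2, X.hx_iff hu1 hu2 c12 h10 n12]
    right
    exact ⟨a, b, by rw [← hab]; exact h30, by rw [← hab, e3]⟩
  rw [HX_swap Δ x q y, HX_swap' Δ x y q] at hz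
  have T' : T3 Δ x y q := ⟨T.mx, T.my, hq, T.xy, fun h => hqn (by rw [← h]; exact T.memx), fun h => hqn (by rw [← h]; exact T.memy),
    T.cxy, h1.symm, h2.symm⟩
  exact ⟨hq, fun v hv k1 k2 k3 => Y.exch x y q T' z hz T.xz.symm T.yz.symm v hv k1 k2 k3⟩

theorem b4 : ∀ x y z, T3 Δ x y z → ∀ q ∈ Δ, Commute q x → Commute q y → Commute q z → q ∉ HX Δ x y z → ∀ p ∈ Δ, ∀ p' ∈ Δ,
    Commute p q → Commute p x → Commute p y → Commute p z → Commute p' q → Commute p' x → Commute p' y → Commute p' z →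
    Commute p p' := by
  intro x y z T q hq h1 h2 h3 hqn p hp p' hp' hpq k1 k2 k3 hpq' k1' k2' k3'
  obtain ⟨τ, X⟩ := Y.ch q hq
  obtain ⟨w, hw, hli, e1, e2, e3⟩ := Y.li_q T hq h1 h2 h3 hqn X
  rcases X.cases hp hpq with rfl | ⟨a, ha, ha0, rfl⟩
  · exact hpq'.symm
  rcases X.cases hp' hpq' with rfl | ⟨a', ha', ha0', rfl⟩
  · exact hpq
  have hwm := hli.ne_zero
  have key : ∀ b, f b b = 0 → b ≠ 0 → Commute (τ b) x → Commute (τ b) y → Commute (τ b) z → b ∈ Submodule.span F (Set.range w) := by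
    intro b hb hb0 m1 m2 m3
    apply perp3 X.hv hw hli
    intro i
    fin_cases i
    · exact (X.comm b _ hb hb0 (hw 0 0) (hwm 0)).1 (by rw [e1]; exact m1)
    · exact (X.comm b _ hb hb0 (hw 1 1) (hwm 1)).1 (by rw [e2]; exact m2)
    · exact (X.comm b _ hb hb0 (hw 2 2) (hwm 2)).1 (by rw [e3]; exact m3)
  exact (X.comm a a' ha ha0 ha' ha0').2 (span_orth H hw a (key a ha ha0 k1 k2 k3) a' (key a' ha' ha0' k1' k2' k3'))

theorem c3 : ∀ x y z, T3 Δ x y z → ∀ q ∈ Δ, Commute q x → Commute q y → Commute q z → q ∉ HX Δ x y z → ∀ p ∈ Δ, Commute p q →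
    Commute p (x * y * z) → Commute p x := by
  intro x y z T q hq h1 h2 h3 hqn p hp hpq hpm
  obtain ⟨τ, X⟩ := Y.ch q hq
  obtain ⟨w, hw, hli, e1, e2, e3⟩ := Y.li_q T hq h1 h2 h3 hqn X
  rcases X.cases hp hpq with rfl | ⟨a, ha, ha0, rfl⟩
  · exact h1
  have hwm := hli.ne_zero
  have key : ∀ v, f v v = 0 → v ≠ 0 → f v a = 0 → f v (∑ i, sig hF (f (w i) a) • w i) = 0 := by
    intro v hv hv0 hva
    obtain ⟨a1, a2⟩ := tr_ok H hv hv0 (hw 2 2)
    obtain ⟨b1, b2⟩ := tr_ok H a1 a2 (hw 1 1)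
    obtain ⟨c1, c2⟩ := tr_ok H b1 b2 (hw 0 0)
    have k1 := X.cj (w 2) v (hw 2 2) (hwm 2) hv hv0
    have k2 := X.cj (w 1) _ (hw 1 1) (hwm 1) a1 a2
    have k3 := X.cj (w 0) _ (hw 0 0) (hwm 0) b1 b2
    have k4 : (x * y * z) * τ v * (x * y * z)⁻¹ = τ (v + f v (w 2) • w 2 + f (v + f v (w 2) • w 2) (w 1) • w 1 +
        f (v + f v (w 2) • w 2 + f (v + f v (w 2) • w 2) (w 1) • w 1) (w 0) • w 0) := by
      rw [← k3, ← k2, ← k1, e1, e2, e3]; group
    have k5 : Commute (τ v) (τ a) := (X.comm v a hv hv0 ha ha0).2 hva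
    have k6 : Commute ((x * y * z) * τ v * (x * y * z)⁻¹) (τ a) :=
      ((hpm.symm.mul_left k5)).mul_left hpm.symm.inv_left
    rw [k4] at k6
    have k7 := (X.comm _ a c1 c2 ha ha0).1 k6
    have o21 : f (w 2) (w 1) = 0 := hw 2 1
    have o20 : f (w 2) (w 0) = 0 := hw 2 0
    have o10 : f (w 1) (w 0) = 0 := hw 1 0
    simp only [H.add_left, H.smul_left, hva, o21, o20, o10, mul_zero, add_zero, zero_add] at k7
    rw [Fin.sum_univ_three]
    simp only [H.add_right, H.smul_right, H.inv]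
    rw [← k7]; ring
  obtain ⟨c, hc⟩ := perp1 X.hv ha ha0 (x := ∑ i, sig hF (f (w i) a) • w i) key
  rw [← e1]
  apply (X.comm a _ ha ha0 (hw 0 0) (hwm 0)).2
  by_cases hc0 : c = 0
  · rw [hc0, zero_smul] at hc
    have h5 := Fintype.linearIndependent_iff.1 hli _ hc 0
    have h6 : f (w 0) a = 0 := by rw [← H.inv (f (w 0) a), h5, map_zero]
    exact H.symm_zero h6
  · have h5 : f (∑ i, sig hF (f (w i) a) • w i) (w 0) = 0 := by
      rw [Fin.sum_univ_three]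
      simp only [H.add_left, H.smul_left, hw, mul_zero, add_zero]
    rw [hc, H.smul_left] at h5
    exact (mul_eq_zero.1 h5).resolve_left hc0

theorem pair : ∀ a ∈ Δ, ∀ b ∈ Δ, ∀ c ∈ Δ, ∀ e ∈ Δ, a ≠ b → Commute a b → Commute a c → Commute a e → Commute b c → Commute b e →
    Commute c e → a * b = c * e → c = a ∨ c = b := by
  intro a ha b hb c hc e he hab cab cac cae cbc cbe cce heq
  obtain ⟨τ, X⟩ := Y.ch a ha
  have haa := Y.inv a ha
  have hbb := Y.inv b hb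
  have hcc := Y.inv c hc
  have hee := Y.inv e he
  by_contra hcon
  push Not at hcon
  obtain ⟨hca, hcb⟩ := hcon
  have hea : e ≠ a := by
    rintro rfl
    rw [cce.eq] at heq
    exact hcb (mul_left_cancel heq).symm
  have heb : e ≠ b := by
    rintro rfl
    exact hca (mul_right_cancel heq).symm
  have hce : c ≠ e := by
    rintro rfl
    rw [hcc] at heq
    apply hab
    rw [eq_inv_of_mul_eq_one_left heq, inv_eq_of_mul_eq_one_left hbb]
  obtain ⟨u, hu, hu0, e1⟩ := X.surj b hb hab.symm cab.symm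
  obtain ⟨v, hv, hv0, e2⟩ := X.surj c hc hca cac.symm
  obtain ⟨w, hw, hw0, e3⟩ := X.surj e he hea cae.symm
  have cvw := (X.comm v w hv hv0 hw hw0).1 (by rw [e2, e3]; exact cce)
  have nvw : ∀ k : F, w ≠ k • v := by
    intro k hk
    have hk0 : k ≠ 0 := by rintro rfl; rw [zero_smul] at hk; exact hw0 hk
    exact hce (by rw [← e2, ← e3, hk, X.smul v hv k hk0])
  have hbe : b = a * (c * e) := by rw [← heq, ← mul_assoc, haa, one_mul]
  obtain ⟨α, β, hαβ⟩ := perp2 X.hv hv hw cvw hv0 nvw (x := u) (fun z hz hz0 k1 k2 => by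
    apply (X.comm z u hz hz0 hu hu0).1
    rw [e1, hbe]
    refine (X.mem z hz hz0).2.2.mul_right (Commute.mul_right ?_ ?_)
    · rw [← e2]; exact (X.comm z v hz hz0 hv hv0).2 k1
    · rw [← e3]; exact (X.comm z w hz hz0 hw hw0).2 k2)
  have hα : α ≠ 0 := by
    rintro rfl
    rw [zero_smul, zero_add] at hαβ
    have hβ : β ≠ 0 := by rintro rfl; rw [zero_smul] at hαβ; exact hu0 hαβ
    exact heb (by rw [← e1, ← e3, hαβ, X.smul w hw β hβ])
  have hβ : β ≠ 0 := by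
    rintro rfl
    rw [zero_smul, add_zero] at hαβ
    exact hcb (by rw [← e1, ← e2, hαβ, X.smul v hv α hα])
  -- rescale
  obtain ⟨w', hw'⟩ : ∃ w', w' = (α⁻¹ * β) • w := ⟨_, rfl⟩
  have hk0 : α⁻¹ * β ≠ 0 := mul_ne_zero (inv_ne_zero hα) hβ
  have e3' : τ w' = e := by rw [hw', X.smul w hw _ hk0, e3]
  have hw'i : f w' w' = 0 := by rw [hw', H.smul_left, H.smul_right, hw]; ring
  have cvw' : f v w' = 0 := by rw [hw', H.smul_right, cvw, mul_zero]
  have nvw' : ∀ k : F, w' ≠ k • v := by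
    intro k hk
    apply nvw ((α⁻¹ * β)⁻¹ * k)
    rw [mul_smul, ← hk, hw', smul_smul, inv_mul_cancel₀ hk0, one_smul]
  have e1' : τ (v + w') = b := by
    have h1 : u = α • (v + w') := by rw [smul_add, hw', smul_smul, ← mul_assoc, mul_inv_cancel₀ hα, one_mul, ← hαβ]
    have h2 := iso_lin H hv hw'i cvw' 1 1
    rw [one_smul, one_smul] at h2
    rw [← e1, h1, X.smul _ h2 α hα]
  obtain ⟨ω, hω0, hω1, hω, hsω, hall⟩ := exists_omega hF
  obtain ⟨z', hz', huz, hvz, hli⟩ := ext2 X.hv hv hw'i cvw' hv0 nvw'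
  have hL : τ v * τ w' * τ (v + w') * τ (v + ω • w') * τ (v + (ω + 1) • w') = a :=
    X.line ω hω hsω ![v, w', z'] (orth3 H hv hw'i hz' cvw' huz hvz) hli
  rw [e2, e3', e1'] at hL
  have h1 : c * e * b = a := by rw [← heq, mul_assoc, hbb, mul_one]
  rw [h1] at hL
  have hiso : ∀ k : F, f (v + k • w') (v + k • w') = 0 := fun k => by
    have := iso_lin H hv hw'i cvw' 1 k
    rwa [one_smul] at this
  have hcoef : ∀ a1 b1 a2 b2 : F, a1 • v + b1 • w' = a2 • v + b2 • w' → a1 = a2 ∧ b1 = b2 := by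
    intro a1 b1 a2 b2 h
    have h1 := Fintype.linearIndependent_iff.1 hli ![a1 - a2, b1 - b2, 0] (by
      rw [Fin.sum_univ_three]
      show (a1 - a2) • v + (b1 - b2) • w' + (0 : F) • z' = 0
      rw [sub_smul, sub_smul, zero_smul, add_zero]
      calc a1 • v - a2 • v + (b1 • w' - b2 • w') = (a1 • v + b1 • w') - (a2 • v + b2 • w') := by abel
        _ = 0 := by rw [h, sub_self])
    exact ⟨sub_eq_zero.1 (h1 0), sub_eq_zero.1 (h1 1)⟩
  have h10 : ∀ k : F, v + k • w' ≠ 0 := by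
    intro k h
    have := (hcoef 1 k 0 0 (by rw [one_smul, h, zero_smul, zero_smul, add_zero])).1
    exact one_ne_zero this
  have h2 : τ (v + ω • w') * τ (v + (ω + 1) • w') = 1 := by
    rw [mul_assoc] at hL
    exact mul_eq_left.1 hL
  have h3 : τ (v + ω • w') = τ (v + (ω + 1) • w') := by
    rw [eq_inv_of_mul_eq_one_left h2]
    exact inv_eq_of_mul_eq_one_left (Y.inv _ (X.mem _ (hiso _) (h10 _)).1)
  obtain ⟨k, hk, hk'⟩ := X.inj _ _ (hiso _) (h10 _) (hiso _) (h10 _) h3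
  rw [smul_add, smul_smul] at hk'
  obtain ⟨m1, m2⟩ := hcoef 1 (ω + 1) k (k * ω) (by rw [one_smul]; exact hk')
  rw [← m1, one_mul] at m2
  exact one_ne_zero (add_eq_left.1 m2)

theorem cz : ∀ t ∈ Δ, ∀ a ∈ Δ, ∀ b ∈ Δ, ∀ p ∈ Δ, t ≠ a → t ≠ b → a ≠ b → Commute a t → Commute b t → Commute p t → Commute a b →
    Commute p (a * b) → Commute p a := by
  intro t ht a ha b hb p hp _ _ hab hat hbt hpt hc hpab
  have hD : IsThreeTranspositionSet {y : G | y ∈ Δ ∧ Commute y t} := by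
    refine ⟨?_, ?_⟩
    · rintro d ⟨hd, -⟩
      exact orderOf_eq_prime (by rw [pow_two]; exact Y.inv d hd) (Y.one d hd)
    · rintro d ⟨hd, hdt⟩ e ⟨he, het⟩
      have hdd := Y.inv d hd
      have hee := Y.inv e he
      by_cases h : Commute d e
      · left
        calc (d * e) ^ 2 = d * (e * d) * e := by rw [pow_two]; group
          _ = (d * d) * (e * e) := by rw [h.eq.symm]; group
          _ = 1 := by rw [hdd, hee, one_mul]
      · right
        have h1 := Y.three t ht d hd e he hdt het h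
        calc (d * e) ^ 3 = (d * e * d) * (e * d * e) := by rw [pow_succ, pow_two]; simp only [mul_assoc]
          _ = (d * e * d) * (d * e * d) := by rw [h1]
          _ = d * e * (d * d) * e * d := by group
          _ = 1 := by rw [hdd, mul_one, mul_assoc d e e, hee, mul_one, hdd]
  exact ((ThreeRank3.commute_mul_iff hD ⟨ha, hat⟩ ⟨hb, hbt⟩ ⟨hp, hpt⟩ hab hc).1 hpab).1

theorem nf : ∀ d ∈ Δ, ∀ t, t * t = 1 → t ≠ 1 → Commute t d → t ∈ Δ ∨ (∃ a ∈ Δ, ∃ b ∈ Δ, a ≠ b ∧ Commute a b ∧ t = a * b) ∨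
    (∃ a b c, T3 Δ a b c ∧ t = a * b * c) := by
  intro d hd t htt ht1 htd
  obtain ⟨τ, X⟩ := Y.ch d hd
  obtain ⟨W, hW, h⟩ := X.nf t htt htd
  have hnn : ∀ a b : V, (∀ c : F, b ≠ c • a) → b ≠ 0 := fun a b h h0 => h 0 (by rw [h0, zero_smul])
  rcases h with (h | h) | ⟨a, ha, ha0, h | h⟩ | ⟨a, ha, b, hb, ha0, hb0, hab, h | h⟩ | ⟨w, hw, hli, h⟩
  · exact absurd h ht1
  · left; rw [h]; exact hd
  · left; rw [h]; exact (X.mem a (hW.iso a ha a ha) ha0).1
  · right; left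
    obtain ⟨h1, h2, h3⟩ := X.mem a (hW.iso a ha a ha) ha0
    exact ⟨d, hd, τ a, h1, h2.symm, h3.symm, h⟩
  · right; left
    have T := X.mk_t3 (hW.iso a ha a ha) (hW.iso b hb b hb) (hW.iso a ha b hb) ha0 hab
    exact ⟨τ a, T.my, τ b, T.mz, T.yz, T.cyz, h⟩
  · right; right
    exact ⟨d, τ a, τ b, X.mk_t3 (hW.iso a ha a ha) (hW.iso b hb b hb) (hW.iso a ha b hb) ha0 hab, h⟩
  · right; right
    have hi : ∀ i j, f (w i) (w j) = 0 := fun i j => hW.iso _ (hw i) _ (hw j)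
    have hp : ∀ i j : Fin 3, i ≠ j → ∀ c : F, w j ≠ c • w i := by
      intro i j hij c hc
      have h1 := Fintype.linearIndependent_iff.1 hli (fun k => if k = i then c else if k = j then -1 else 0) (by
        rw [Finset.sum_eq_add_of_mem i j (Finset.mem_univ i) (Finset.mem_univ j) hij]
        · rw [if_pos rfl, if_neg hij.symm, if_pos rfl, hc, neg_smul, one_smul, add_neg_cancel]
        · rintro k - ⟨h1, h2⟩
          rw [if_neg h1, if_neg h2, zero_smul]) j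
      rw [if_neg hij.symm, if_pos rfl] at h1
      exact one_ne_zero (neg_eq_zero.1 h1)
    have T1 := X.mk_t3 (hi 0 0) (hi 1 1) (hi 0 1) (hli.ne_zero 0) (hp 0 1 (by decide))
    have T2 := X.mk_t3 (hi 0 0) (hi 2 2) (hi 0 2) (hli.ne_zero 0) (hp 0 2 (by decide))
    have T3' := X.mk_t3 (hi 1 1) (hi 2 2) (hi 1 2) (hli.ne_zero 1) (hp 1 2 (by decide))
    exact ⟨_, _, _, ⟨T1.my, T1.mz, T2.mz, T1.yz, T2.yz, T3'.yz, T1.cyz, T2.cyz, T3'.cyz⟩, h⟩

theorem nc3 : ∀ x y z, T3 Δ x y z → ∃ p ∈ Δ, ∃ p' ∈ Δ, Commute p x ∧ Commute p y ∧ Commute p z ∧ Commute p' x ∧ Commute p' y ∧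
    Commute p' z ∧ ¬ Commute p p' := by
  intro x y z T
  obtain ⟨τ, X⟩ := Y.ch x T.mx
  obtain ⟨u, v, hu, hv, huv, hu0, hv0, hne, rfl, rfl⟩ := X.t3 T
  obtain ⟨z', hz', huz, hvz, hli⟩ := ext2 X.hv hu hv huv hu0 hne
  have hw := orth3 H hu hv hz' huv huz hvz
  obtain ⟨y, E⟩ := exists_HBext X.hv hw hli
  have hz0 : z' ≠ 0 := hli.ne_zero 2
  have hzy : f z' (y 2) = 1 := (E.wy 2 2).trans (by simp)
  have hy0 : y 2 ≠ 0 := by
    intro h0
    rw [h0, H.zero_right] at hzy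
    exact zero_ne_one hzy
  have h1 := X.mem z' hz' hz0
  have h2 := X.mem (y 2) (E.yy 2 2) hy0
  have hyu : f (y 2) u = 0 := (E.yw H 2 0).trans (by simp)
  have hyv : f (y 2) v = 0 := (E.yw H 2 1).trans (by simp)
  refine ⟨τ z', h1.1, τ (y 2), h2.1, h1.2.2, (X.comm _ _ hz' hz0 hu hu0).2 (H.symm_zero huz),
    (X.comm _ _ hz' hz0 hv hv0).2 (H.symm_zero hvz), h2.2.2, (X.comm _ _ (E.yy 2 2) hy0 hu hu0).2 hyu,
    (X.comm _ _ (E.yy 2 2) hy0 hv hv0).2 hyv, ?_⟩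
  intro h
  have := (X.comm _ _ hz' hz0 (E.yy 2 2) hy0).1 h
  rw [hzy] at this
  exact one_ne_zero this

theorem nb : H89FB.Nb Δ := by
  refine ⟨?_, ?_⟩
  · intro c hc a ha a' ha' hac hac'
    obtain ⟨τ, X⟩ := Y.ch c hc
    have fin1 : ∀ v, f v v = 0 → v ≠ 0 → (∀ x, x = a ∨ x = a' → x = c ∨ ∃ u, f u u = 0 ∧ u ≠ 0 ∧ τ u = x ∧ f v u = 0) →
        ∃ y ∈ Δ, y ≠ c ∧ Commute y c ∧ Commute y a ∧ Commute y a' := by
      intro v hv hv0 h
      obtain ⟨m1, m2, m3⟩ := X.mem v hv hv0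
      have key : ∀ x, x = a ∨ x = a' → Commute (τ v) x := by
        intro x hx
        rcases h x hx with rfl | ⟨u, hu, hu0, rfl, huv⟩
        · exact m3
        · exact (X.comm v u hv hv0 hu hu0).2 huv
      exact ⟨τ v, m1, m2, m3, key a (Or.inl rfl), key a' (Or.inr rfl)⟩
    rcases X.cases ha hac with h1 | ⟨u, hu, hu0, hua⟩
    · rcases X.cases ha' hac' with h2 | ⟨u', hu', hu0', hua'⟩
      · obtain ⟨v, hv, hv0⟩ := exists_isov X.hv
        exact fin1 v hv hv0 (by rintro x (rfl | rfl); exacts [Or.inl h1, Or.inl h2])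
      · exact fin1 u' hu' hu0' (by rintro x (rfl | rfl); exacts [Or.inl h1, Or.inr ⟨u', hu', hu0', hua', hu'⟩])
    · rcases X.cases ha' hac' with h2 | ⟨u', hu', hu0', hua'⟩
      · exact fin1 u hu hu0 (by rintro x (rfl | rfl); exacts [Or.inr ⟨u, hu, hu0, hua, hu⟩, Or.inl h2])
      · obtain ⟨v, hv, hv0, h3, h4⟩ := common X.hv hu hu0 hu'
        exact fin1 v hv hv0 (by rintro x (rfl | rfl); exacts [Or.inr ⟨u, hu, hu0, hua, h3⟩, Or.inr ⟨u', hu', hu0', hua', h4⟩])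
  · intro c hc y hy hcy hcyc a ha a' ha' hac hay hac' hay' hn
    obtain ⟨τ, X⟩ := Y.ch c hc
    obtain ⟨u, hu, hu0, rfl⟩ := X.surj y hy hcy.symm hcyc.symm
    rcases X.cases ha hac with rfl | ⟨v, hv, hv0, rfl⟩
    · exact absurd hac'.symm hn
    rcases X.cases ha' hac' with rfl | ⟨v', hv', hv0', rfl⟩
    · exact absurd hac hn
    have k1 := (X.comm v u hv hv0 hu hu0).1 hay
    have k2 := (X.comm v' u hv' hv0' hu hu0).1 hay'
    have k3 : f v v' ≠ 0 := fun h => hn ((X.comm v v' hv hv0 hv' hv0').2 h)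
    obtain ⟨w, hw, hw0, hwu, m1, m2, m3⟩ := common4 X.hv hu hv (H.symm_zero k1) hu0 (H.symm_zero k2) k3
    obtain ⟨n1, n2, n3⟩ := X.mem w hw hw0
    refine ⟨τ w, n1, n2, ?_, n3, (X.comm w u hw hw0 hu hu0).2 m1, (X.comm w v hw hw0 hv hv0).2 m2, (X.comm w v' hw hw0 hv' hv0').2 m3⟩
    intro h
    obtain ⟨k, _, hk⟩ := X.inj u w hu hu0 hw hw0 h.symm
    exact hwu k hk

end CD

end Cfsg.Agent.Lib.H89FA
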