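import Cfsg.Agent.Lib.H89FA3
/-
From charts to the commuting geometry: bases (helper89).
-/
set_option autoImplicit false
set_option linter.all false

namespace Cfsg.Agent.Lib.H89FA

open Module Cfsg Cfsg.Agent.Lib.UnTrans Cfsg.Agent.Lib.UnBridge Cfsg.Agent.Lib.H89EA Cfsg.Agent.Lib.H89EB
open Cfsg.Agent.Lib.H89EC Cfsg.Agent.Lib.H89ED Cfsg.Agent.Lib.H89EE Cfsg.Agent.Lib.H89EF
open Cfsg.Agent.Lib.U6Class hiding TI
open Cfsg.Agent.Lib.SpTrans (isom mem_isom)
open Cfsg.Agent.Lib.H89FB (T3 HX Bs HX_swap HX_swap' cm_conj cj_inj cj_eq_iff)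

universe v w w'

variable {F : Type} [Field F] [Fintype F] [CharP F 2] {V : Type v} [AddCommGroup V] [Module F V] {f : V → V → F}
  {hF : Fintype.card F = 2 ^ 2} {H : HS (sig hF) f} {G : Type w'} [Group G] {Δ : Set G}

theorem base_W {B : Set G} (hB : Bs Δ B) {d : G} (hd : d ∈ B) {τ : V → G} (X : Chart H Δ d τ) :
    ∃ W : Submodule F V, TI f W ∧ ∀ x, x ∈ B ↔ x = d ∨ ∃ v ∈ W, v ≠ 0 ∧ τ v = x := by
  haveI := X.hv.fin
  have hcase : ∀ x ∈ B, x = d ∨ ∃ v, f v v = 0 ∧ v ≠ 0 ∧ τ v = x := fun x hx => X.cases (hB.sub x hx) (hB.com x hx d hd)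
  have orth : ∀ u v, f u u = 0 → u ≠ 0 → τ u ∈ B → f v v = 0 → v ≠ 0 → τ v ∈ B → f u v = 0 := fun u v hu hu0 hub hv hv0 hvb =>
    (X.comm u v hu hu0 hv hv0).1 (hB.com _ hub _ hvb)
  have key : ∀ v, f v v = 0 → v ≠ 0 → (∀ u, f u u = 0 → u ≠ 0 → τ u ∈ B → f v u = 0) → τ v ∈ B := by
    intro v hv hv0 h
    obtain ⟨m1, m2, m3⟩ := X.mem v hv hv0
    apply hB.max _ m1
    intro x hx
    rcases hcase x hx with rfl | ⟨u, hu, hu0, rfl⟩
    · exact m3
    · exact (X.comm v u hv hv0 hu hu0).2 (h u hu hu0 hx)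
  obtain ⟨u, hu, hu0, hub⟩ : ∃ u, f u u = 0 ∧ u ≠ 0 ∧ τ u ∈ B := by
    by_contra hcon
    push Not at hcon
    obtain ⟨v, hv, hv0⟩ := exists_isov X.hv
    exact hcon v hv hv0 (key v hv hv0 (fun u hu hu0 hub => absurd hub (hcon u hu hu0)))
  obtain ⟨v, hv, hv0, hvb, hne⟩ : ∃ v, f v v = 0 ∧ v ≠ 0 ∧ τ v ∈ B ∧ ∀ c : F, v ≠ c • u := by
    by_contra hcon
    push Not at hcon
    obtain ⟨v, hv, huv, hne⟩ := ext1 X.hv hu hu0
    have hv0 : v ≠ 0 := fun h => hne 0 (by rw [h, zero_smul])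
    obtain ⟨c, hc⟩ := hcon v hv hv0 (key v hv hv0 (fun u' hu' hu0' hub' => by
      obtain ⟨c, rfl⟩ := hcon u' hu' hu0' hub'
      rw [H.smul_right, H.symm_zero huv, mul_zero]))
    exact hne c hc
  have huv := orth u v hu hu0 hub hv hv0 hvb
  obtain ⟨z, hz, hz0, hzb, hnz⟩ : ∃ z, f z z = 0 ∧ z ≠ 0 ∧ τ z ∈ B ∧ ∀ a b : F, z ≠ a • u + b • v := by
    by_contra hcon
    push Not at hcon
    obtain ⟨z, hz, huz, hvz, hli⟩ := ext2 X.hv hu hv huv hu0 hne
    have hz0 : z ≠ 0 := hli.ne_zero 2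
    obtain ⟨a, b, hab⟩ := hcon z hz hz0 (key z hz hz0 (fun u' hu' hu0' hub' => by
      obtain ⟨a, b, rfl⟩ := hcon u' hu' hu0' hub'
      exact perp_lin H (H.symm_zero huz) (H.symm_zero hvz) a b))
    have h1 := Fintype.linearIndependent_iff.1 hli ![-a, -b, 1] (by
      rw [Fin.sum_univ_three]
      show (-a) • u + (-b) • v + (1 : F) • z = 0
      rw [one_smul, neg_smul, neg_smul, hab]; abel) 2
    exact one_ne_zero h1
  have hli := li3 hu0 hne hnz
  have hw := orth3 H hu hv hz huv (orth u z hu hu0 hub hz hz0 hzb) (orth v z hv hv0 hvb hz hz0 hzb)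
  have hiso := span_orth H hw
  have hmemW : ∀ v', f v' v' = 0 → v' ≠ 0 → τ v' ∈ B → v' ∈ Submodule.span F (Set.range ![u, v, z]) := by
    intro v' hv' hv0' hvb'
    apply perp3 X.hv hw hli
    intro i
    fin_cases i
    · exact orth v' u hv' hv0' hvb' hu hu0 hub
    · exact orth v' v hv' hv0' hvb' hv hv0 hvb
    · exact orth v' z hv' hv0' hvb' hz hz0 hzb
  refine ⟨Submodule.span F (Set.range ![u, v, z]), ⟨by rw [finrank_span_eq_card hli, Fintype.card_fin], hiso⟩, ?_⟩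
  intro x
  constructor
  · intro hx
    rcases hcase x hx with h | ⟨v', hv', hv0', rfl⟩
    · exact Or.inl h
    · exact Or.inr ⟨v', hmemW v' hv' hv0' hx, hv0', rfl⟩
  · rintro (rfl | ⟨v', hv', hv0', rfl⟩)
    · exact hd
    · exact key v' (hiso _ hv' _ hv') hv0' (fun u' hu' hu0' hub' => hiso _ hv' _ (hmemW u' hu' hu0' hub'))

/-- enumeration of a base -/
theorem base_enum {B : Set G} {d : G} {τ : V → G} (X : Chart H Δ d τ) {W : Submodule F V} (hW : TI f W)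
    (hBW : ∀ x, x ∈ B ↔ x = d ∨ ∃ v ∈ W, v ≠ 0 ∧ τ v = x) : ∃ (ι : (Fin 3 → F) ≃ₗ[F] W)
      (g : Option (Projectivization F (Fin 3 → F)) → G), Function.Injective g ∧ Set.range g = B ∧ g none = d ∧
        ∀ (v : Fin 3 → F) (hv : v ≠ 0), g (some (Projectivization.mk F v hv)) = τ (ι v : V) := by
  haveI := X.hv.fin
  obtain ⟨ι⟩ : Nonempty ((Fin 3 → F) ≃ₗ[F] W) :=
    FiniteDimensional.nonempty_linearEquiv_of_finrank_eq (by rw [Module.finrank_fin_fun, hW.dim])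
  have hi : ∀ v : Fin 3 → F, f (ι v : V) (ι v : V) = 0 := fun v => hW.iso _ (ι v).2 _ (ι v).2
  have h0 : ∀ v : Fin 3 → F, v ≠ 0 → ((ι v : W) : V) ≠ 0 := fun v hv h => hv (ι.injective (by rw [map_zero]; exact Subtype.ext h))
  obtain ⟨g, hg⟩ : ∃ g : Option (Projectivization F (Fin 3 → F)) → G, g = fun o => o.elim d (fun p => τ (ι p.rep : V)) := ⟨_, rfl⟩
  have hgn : g none = d := by rw [hg]; rfl
  have hgs : ∀ p, g (some p) = τ (ι p.rep : V) := fun p => by rw [hg]; rfl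
  have hgm : ∀ (v : Fin 3 → F) (hv : v ≠ 0), g (some (Projectivization.mk F v hv)) = τ (ι v : V) := by
    intro v hv
    rw [hgs]
    obtain ⟨a, ha⟩ := Projectivization.exists_smul_eq_mk_rep F v hv
    rw [← ha]
    have e : ((ι (a • v) : W) : V) = (a : F) • ((ι v : W) : V) := by
      rw [Units.smul_def, map_smul]; rfl
    rw [e, X.smul _ (hi v) _ a.ne_zero]
  have hnd : ∀ p, g (some p) ≠ d := fun p => by rw [hgs]; exact (X.mem _ (hi _) (h0 _ p.rep_nonzero)).2.1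
  refine ⟨ι, g, ?_, ?_, hgn, hgm⟩
  · intro o o' h
    rcases o with _ | p <;> rcases o' with _ | p'
    · rfl
    · rw [hgn] at h; exact absurd h.symm (hnd p')
    · rw [hgn] at h; exact absurd h (hnd p)
    · rw [hgs, hgs] at h
      obtain ⟨c, hc0, hc⟩ := X.inj _ _ (hi _) (h0 _ p.rep_nonzero) (hi _) (h0 _ p'.rep_nonzero) h
      have h1 : p'.rep = c • p.rep := by
        apply ι.injective
        rw [map_smul]
        exact Subtype.ext hc
      congr 1
      rw [← p.mk_rep, ← p'.mk_rep, Projectivization.mk_eq_mk_iff']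
      exact ⟨c⁻¹, by rw [h1, smul_smul, inv_mul_cancel₀ hc0, one_smul]⟩
  · ext x
    rw [hBW]
    constructor
    · rintro ⟨o, rfl⟩
      rcases o with _ | p
      · exact Or.inl hgn
      · exact Or.inr ⟨_, (ι p.rep).2, h0 _ p.rep_nonzero, (hgs p).symm⟩
    · rintro (rfl | ⟨v, hv, hv0, rfl⟩)
      · exact ⟨none, hgn⟩
      · have hv' : ι.symm ⟨v, hv⟩ ≠ 0 := by
          intro h
          apply hv0
          have := congrArg ι h
          rw [LinearEquiv.apply_symm_apply, map_zero] at this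
          exact congrArg Subtype.val this
        refine ⟨some (Projectivization.mk F _ hv'), ?_⟩
        rw [hgm, LinearEquiv.apply_symm_apply]

theorem bs_nonempty (hne : Δ.Nonempty) {B : Set G} (hB : Bs Δ B) : B.Nonempty := by
  by_contra h
  rw [Set.not_nonempty_iff_eq_empty] at h
  obtain ⟨z, hz⟩ := hne
  have := hB.max z hz (by rw [h]; intro x hx; exact absurd hx (Set.notMem_empty x))
  rw [h] at this
  exact this

theorem ext_in_W {W : Submodule F V} (hW : TI f W) [FiniteDimensional F V] {u : V} (hu : u ∈ W) (hu0 : u ≠ 0) :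
    ∃ w : Fin 3 → V, (∀ i, w i ∈ W) ∧ LinearIndependent F w ∧ w 0 = u := by
  obtain ⟨b, hb, hne⟩ : ∃ b ∈ W, ∀ c : F, b ≠ c • u := by
    by_contra hcon
    push Not at hcon
    have h1 : W ≤ Submodule.span F {u} := by
      intro b hb
      obtain ⟨c, hc⟩ := hcon b hb
      rw [hc]; exact Submodule.smul_mem _ _ (Submodule.mem_span_singleton_self u)
    have h2 := Submodule.finrank_mono h1
    rw [hW.dim, finrank_span_singleton hu0] at h2
    omega
  obtain ⟨c, hc, hli⟩ := indep_third hW.dim hu hb hu0 hne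
  refine ⟨![u, b, c], ?_, hli, rfl⟩
  intro i
  fin_cases i
  · exact hu
  · exact hb
  · exact hc

namespace CD

variable (Y : CD H Δ)
include Y

theorem card : ∀ B, Bs Δ B → B.ncard = 22 := by
  intro B hB
  obtain ⟨d, hd⟩ := bs_nonempty Y.ne hB
  obtain ⟨τ, X⟩ := Y.ch d (hB.sub d hd)
  obtain ⟨W, hW, hBW⟩ := base_W hB hd X
  obtain ⟨ι, g, hinj, hr, -, -⟩ := base_enum X hW hBW
  rw [← hr, ← Set.image_univ, Set.ncard_image_of_injective _ hinj, Set.ncard_univ]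
  have h1 : Nat.card (Projectivization F (Fin 3 → F)) = 21 := by
    rw [Projectivization.card_of_finrank F (Fin 3 → F) (n := 3) (Module.finrank_fin_fun F), Nat.card_eq_fintype_card, hF]
    decide
  haveI : Finite (Projectivization F (Fin 3 → F)) := Nat.finite_of_card_ne_zero (by rw [h1]; norm_num)
  rw [Finite.card_option, h1]

theorem tran : ∀ B, Bs Δ B → ∀ e ∈ B, ∀ x ∈ B, ∀ y ∈ B, x ≠ e → y ≠ e → ∃ g, Commute g e ∧ (∀ z ∈ B, g * z * g⁻¹ ∈ B) ∧
    g * x * g⁻¹ = y := by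
  intro B hB e he x hx y hy hxe hye
  obtain ⟨τ, X⟩ := Y.ch e (hB.sub e he)
  haveI := X.hv.fin
  obtain ⟨W, hW, hBW⟩ := base_W hB he X
  obtain ⟨u, hu, hu0, hux⟩ := ((hBW x).1 hx).resolve_left hxe
  obtain ⟨v, hv, hv0, hvy⟩ := ((hBW y).1 hy).resolve_left hye
  obtain ⟨w, hw, hli, hw0⟩ := ext_in_W hW hu hu0
  obtain ⟨w', hw', hli', hw0'⟩ := ext_in_W hW hv hv0
  obtain ⟨g, hg, s, c, hc, h0, -, -, hs, hact⟩ := X.tran W W hW hW w w' hw hli hw' hli'
  refine ⟨g, hg, ?_, ?_⟩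
  · intro z hz
    rcases (hBW z).1 hz with rfl | ⟨a, ha, ha0, rfl⟩
    · rw [cj_eq_iff.2 hg]; exact he
    · rw [hact a (hW.iso a ha a ha) ha0, hBW]
      right
      exact ⟨_, hs a ha, fun h => ha0 ((LinearEquiv.map_eq_zero_iff _).1 h), rfl⟩
  · rw [← hux, hact u (hW.iso u hu u hu) hu0, ← hw0, h0, hw0', hvy]

theorem odd : ∀ B, Bs Δ B → ∃ l : List G, (∀ x ∈ l, x ∈ B) ∧ Odd l.length ∧ l.prod = 1 := by
  intro B hB
  obtain ⟨d, hd⟩ := bs_nonempty Y.ne hB
  obtain ⟨τ, X⟩ := Y.ch d (hB.sub d hd)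
  haveI := X.hv.fin
  obtain ⟨W, hW, hBW⟩ := base_W hB hd X
  obtain ⟨ω, hω, hsω, w, hw, hli, hprod⟩ := X.hyp
  have hW0 : TI f (Submodule.span F (Set.range w)) := ⟨by rw [finrank_span_eq_card hli, Fintype.card_fin], span_orth H hw⟩
  have hmem : ∀ i, w i ∈ Submodule.span F (Set.range w) := fun i => Submodule.subset_span ⟨i, rfl⟩
  obtain ⟨w', hw', hli'⟩ := exists_basis hW
  obtain ⟨g, hg, s, c, hc, -, -, -, hs, hact⟩ := X.tran _ W hW0 hW w w' hmem hli hw' hli'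
  have hB1 : ∀ a b c : F, (a ≠ 0 ∨ b ≠ 0 ∨ c ≠ 0) → g * τ (a • w 0 + b • w 1 + c • w 2) * g⁻¹ ∈ B := by
    intro a b c h
    have h1 : a • w 0 + b • w 1 + c • w 2 ∈ Submodule.span F (Set.range w) :=
      add_mem (add_mem (Submodule.smul_mem _ _ (hmem 0)) (Submodule.smul_mem _ _ (hmem 1))) (Submodule.smul_mem _ _ (hmem 2))
    have h2 : a • w 0 + b • w 1 + c • w 2 ≠ 0 := by
      intro h0
      have h3 := Fintype.linearIndependent_iff.1 hli ![a, b, c] (by rw [Fin.sum_univ_three]; exact h0)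
      rcases h with h | h | h
      · exact h (h3 0)
      · exact h (h3 1)
      · exact h (h3 2)
    rw [hact _ (hW0.iso _ h1 _ h1) h2, hBW]
    right
    exact ⟨_, hs _ h1, fun h => h2 ((LinearEquiv.map_eq_zero_iff _).1 h), rfl⟩
  have k1 := hB1 1 0 0 (Or.inl one_ne_zero)
  have k2 := hB1 0 1 0 (Or.inr (Or.inl one_ne_zero))
  have k3 := hB1 0 0 1 (Or.inr (Or.inr one_ne_zero))
  have k4 := hB1 1 1 1 (Or.inl one_ne_zero)
  have k5 := hB1 1 ω (ω + 1) (Or.inl one_ne_zero)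
  have k6 := hB1 1 (ω + 1) ω (Or.inl one_ne_zero)
  simp only [one_smul, zero_smul, add_zero, zero_add] at k1 k2 k3 k4 k5 k6
  refine ⟨[g * τ (w 0) * g⁻¹, g * τ (w 1) * g⁻¹, g * τ (w 2) * g⁻¹, g * τ (w 0 + w 1 + w 2) * g⁻¹,
    g * τ (w 0 + ω • w 1 + (ω + 1) • w 2) * g⁻¹, g * τ (w 0 + (ω + 1) • w 1 + ω • w 2) * g⁻¹, d], ?_, by simp; decide, ?_⟩
  · intro x hx
    simp only [List.mem_cons, List.not_mem_nil, or_false] at hx
    rcases hx with rfl | rfl | rfl | rfl | rfl | rfl | rfl <;> assumption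
  · simp only [List.prod_cons, List.prod_nil, mul_one]
    calc _ = g * (τ (w 0) * τ (w 1) * τ (w 2) * τ (w 0 + w 1 + w 2) * τ (w 0 + ω • w 1 + (ω + 1) • w 2) *
          τ (w 0 + (ω + 1) • w 1 + ω • w 2)) * g⁻¹ * d := by group
      _ = g * d * g⁻¹ * d := by rw [hprod]
      _ = d * d := by rw [cj_eq_iff.2 hg]
      _ = 1 := X.dd

open Classical in
theorem even : ∀ B, Bs Δ B → ∀ [Fintype B], ∀ e ∈ B, ∀ g, Commute g e → ∀ σ : Equiv.Perm B, (∀ x : B, (σ x : G) = g * x * g⁻¹) →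
    Equiv.Perm.sign σ = 1 := by
  intro B hB _ e he g hg σ hσ
  obtain ⟨τ, X⟩ := Y.ch e (hB.sub e he)
  haveI := X.hv.fin
  obtain ⟨W, hW, hBW⟩ := base_W hB he X
  obtain ⟨ι, en, hinj, hr, hn, hm⟩ := base_enum X hW hBW
  obtain ⟨s, hs⟩ := X.act g hg
  have hsW : ∀ v ∈ W, (s : V ≃ₗ[F] V) v ∈ W := by
    intro v hv
    by_cases hv0 : v = 0
    · rw [hv0, map_zero]; exact W.zero_mem
    · have h1 : τ v ∈ B := (hBW _).2 (Or.inr ⟨v, hv, hv0, rfl⟩)
      have h2 := hσ ⟨τ v, h1⟩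
      have h3 : g * τ v * g⁻¹ ∈ B := by rw [← h2]; exact (σ _).2
      have hvi := hW.iso v hv v hv
      have hsi : f ((s : V ≃ₗ[F] V) v) ((s : V ≃ₗ[F] V) v) = 0 := by
        have := mem_isom.1 s.2.1 v v
        rw [this]; exact hvi
      have hs0 : (s : V ≃ₗ[F] V) v ≠ 0 := fun h => hv0 ((LinearEquiv.map_eq_zero_iff _).1 h)
      rw [hs v hvi hv0] at h3
      rcases (hBW _).1 h3 with h4 | ⟨v', hv', hv0', h4⟩
      · exact absurd h4 (X.mem _ hsi hs0).2.1
      · obtain ⟨c, _, hc⟩ := X.inj _ _ (hW.iso v' hv' v' hv') hv0' hsi hs0 h4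
        rw [hc]; exact W.smul_mem _ hv'
  let r : W →ₗ[F] W := ((s : V ≃ₗ[F] V) : V →ₗ[F] V).restrict hsW
  have hrinj : Function.Injective r := by
    intro a b h
    apply Subtype.ext
    exact (s : V ≃ₗ[F] V).injective (congrArg Subtype.val h)
  let a : (Fin 3 → F) ≃ₗ[F] (Fin 3 → F) := ι.trans ((LinearEquiv.ofInjectiveEndo r hrinj).trans ι.symm)
  have ha : ∀ v, ((ι (a v) : W) : V) = (s : V ≃ₗ[F] V) (ι v : V) := by
    intro v
    show ((ι (ι.symm (LinearEquiv.ofInjectiveEndo r hrinj (ι v))) : W) : V) = _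
    rw [LinearEquiv.apply_symm_apply]
    rfl
  haveI : Finite (Projectivization F (Fin 3 → F)) := by
    apply Nat.finite_of_card_ne_zero
    rw [Projectivization.card_of_finrank F (Fin 3 → F) (n := 3) (Module.finrank_fin_fun F), Nat.card_eq_fintype_card, hF]
    decide
  haveI := Fintype.ofFinite (Projectivization F (Fin 3 → F))
  have hs1 := sign_one hF a
  let en' : Option (Projectivization F (Fin 3 → F)) ≃ B := (Equiv.ofInjective en hinj).trans (Equiv.setCongr hr)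
  have hen' : ∀ o, ((en' o : B) : G) = en o := fun o => rfl
  have h2 : Equiv.Perm.sign ((MulAction.toPerm a : Equiv.Perm (Projectivization F (Fin 3 → F))).optionCongr) = Equiv.Perm.sign σ := by
    apply Equiv.Perm.sign_eq_sign_of_equiv _ _ en'
    intro o
    apply Subtype.ext
    rw [hen', hσ, hen']
    rcases o with _ | p
    · show en none = g * en none * g⁻¹
      rw [hn, cj_eq_iff.2 hg]
    · show en (some (a • p)) = g * en (some p) * g⁻¹
      induction p using Projectivization.ind with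
      | h v hv =>
        rw [Projectivization.smul_mk, hm, hm]
        have h4 : f (ι v : V) (ι v : V) = 0 := hW.iso _ (ι v).2 _ (ι v).2
        have h5 : ((ι v : W) : V) ≠ 0 := fun h => hv (ι.injective (by rw [map_zero]; exact Subtype.ext h))
        rw [hs _ h4 h5]
        exact congrArg τ (ha v)
  rw [← h2, Equiv.optionCongr_sign, hs1]

theorem geo : H89FB.Geo Δ where
  inv := Y.inv
  one := Y.one
  cl := Y.cl
  cj := Y.cj
  ne := Y.ne
  three := Y.three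
  card := Y.card
  even := Y.even
  tran := Y.tran
  pair := Y.pair
  two := Y.two
  odd := Y.odd
  cz := Y.cz
  nf := Y.nf
  c3 := Y.c3
  b4 := Y.b4
  hx := Y.hx
  nc3 := Y.nc3
  exch := Y.exch

end CD

end Cfsg.Agent.Lib.H89FA
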