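import Mathlib
import Cfsg.Agent.S0215
import Cfsg.Agent.Lib.CoprimeHyper
/-
An abstract commuting geometry on a class of involutions, after the residues of type 2.U6(2) (helper89).
-/
set_option autoImplicit false
set_option linter.all false

namespace Cfsg.Agent.Lib.H89FB

universe w'

variable {G : Type w'} [Group G]

/-- a maximal set of mutually commuting members -/
structure Bs (Δ : Set G) (B : Set G) : Prop where
  sub : ∀ x ∈ B, x ∈ Δ
  com : ∀ x ∈ B, ∀ y ∈ B, Commute x y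
  max : ∀ z ∈ Δ, (∀ x ∈ B, Commute z x) → z ∈ B

/-- members commuting with all members commuting with three given ones -/
def HX (Δ : Set G) (a b c : G) : Set G := {x | x ∈ Δ ∧ ∀ v ∈ Δ, Commute v a → Commute v b → Commute v c → Commute v x}

/-- three different mutually commuting members -/
structure T3 (Δ : Set G) (x y z : G) : Prop where
  mx : x ∈ Δ
  my : y ∈ Δ
  mz : z ∈ Δ
  xy : x ≠ y
  xz : x ≠ z
  yz : y ≠ z
  cxy : Commute x y
  cxz : Commute x z
  cyz : Commute y z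

open Classical in
/-- the geometry -/
structure Geo (Δ : Set G) : Prop where
  inv : ∀ x ∈ Δ, x * x = 1
  one : ∀ x ∈ Δ, x ≠ 1
  cl : ∀ x ∈ Δ, ∀ y ∈ Δ, ∃ g, g * x * g⁻¹ = y
  cj : ∀ g, ∀ x ∈ Δ, g * x * g⁻¹ ∈ Δ
  ne : Δ.Nonempty
  three : ∀ c ∈ Δ, ∀ x ∈ Δ, ∀ y ∈ Δ, Commute x c → Commute y c → ¬ Commute x y → x * y * x = y * x * y
  card : ∀ B, Bs Δ B → B.ncard = 22
  even : ∀ B, Bs Δ B → ∀ [Fintype B], ∀ e ∈ B, ∀ g, Commute g e → ∀ σ : Equiv.Perm B, (∀ x : B, (σ x : G) = g * x * g⁻¹) →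
    Equiv.Perm.sign σ = 1
  tran : ∀ B, Bs Δ B → ∀ e ∈ B, ∀ x ∈ B, ∀ y ∈ B, x ≠ e → y ≠ e → ∃ g, Commute g e ∧ (∀ z ∈ B, g * z * g⁻¹ ∈ B) ∧ g * x * g⁻¹ = y
  pair : ∀ a ∈ Δ, ∀ b ∈ Δ, ∀ c ∈ Δ, ∀ e ∈ Δ, a ≠ b → Commute a b → Commute a c → Commute a e → Commute b c → Commute b e →
    Commute c e → a * b = c * e → c = a ∨ c = b
  two : ∀ a ∈ Δ, ∀ b ∈ Δ, a ≠ b → Commute a b → a * b ∉ Δ
  odd : ∀ B, Bs Δ B → ∃ l : List G, (∀ x ∈ l, x ∈ B) ∧ Odd l.length ∧ l.prod = 1
  cz : ∀ t ∈ Δ, ∀ a ∈ Δ, ∀ b ∈ Δ, ∀ p ∈ Δ, t ≠ a → t ≠ b → a ≠ b → Commute a t → Commute b t → Commute p t → Commute a b →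
    Commute p (a * b) → Commute p a
  nf : ∀ d ∈ Δ, ∀ t, t * t = 1 → t ≠ 1 → Commute t d → t ∈ Δ ∨ (∃ a ∈ Δ, ∃ b ∈ Δ, a ≠ b ∧ Commute a b ∧ t = a * b) ∨
    (∃ a b c, T3 Δ a b c ∧ t = a * b * c)
  c3 : ∀ x y z, T3 Δ x y z → ∀ q ∈ Δ, Commute q x → Commute q y → Commute q z → q ∉ HX Δ x y z → ∀ p ∈ Δ, Commute p q →
    Commute p (x * y * z) → Commute p x
  b4 : ∀ x y z, T3 Δ x y z → ∀ q ∈ Δ, Commute q x → Commute q y → Commute q z → q ∉ HX Δ x y z → ∀ p ∈ Δ, ∀ p' ∈ Δ,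
    Commute p q → Commute p x → Commute p y → Commute p z → Commute p' q → Commute p' x → Commute p' y → Commute p' z →
    Commute p p'
  hx : ∀ x y z, T3 Δ x y z → ∃ x' y' z', HX Δ x y z = {x, y, z, x', y', z'} ∧ [x, y, z, x', y', z'].Nodup ∧
    x * y * z = x' * y' * z'
  nc3 : ∀ x y z, T3 Δ x y z → ∃ p ∈ Δ, ∃ p' ∈ Δ, Commute p x ∧ Commute p y ∧ Commute p z ∧ Commute p' x ∧ Commute p' y ∧
    Commute p' z ∧ ¬ Commute p p'
  exch : ∀ x y z, T3 Δ x y z → ∀ u ∈ HX Δ x y z, u ≠ x → u ≠ y → ∀ v ∈ Δ, Commute v x → Commute v y → Commute v u → Commute v z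

theorem cm_conj (g : G) {a b : G} : Commute (g * a * g⁻¹) (g * b * g⁻¹) ↔ Commute a b := by
  constructor
  · intro h
    have h1 : g * a * g⁻¹ * (g * b * g⁻¹) = g * b * g⁻¹ * (g * a * g⁻¹) := h
    have h2 : g * (a * b) * g⁻¹ = g * (b * a) * g⁻¹ := by
      calc g * (a * b) * g⁻¹ = g * a * g⁻¹ * (g * b * g⁻¹) := by group
        _ = g * b * g⁻¹ * (g * a * g⁻¹) := h1
        _ = g * (b * a) * g⁻¹ := by group
    exact mul_left_cancel (mul_right_cancel h2)
  · intro h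
    show g * a * g⁻¹ * (g * b * g⁻¹) = g * b * g⁻¹ * (g * a * g⁻¹)
    calc g * a * g⁻¹ * (g * b * g⁻¹) = g * (a * b) * g⁻¹ := by group
      _ = g * (b * a) * g⁻¹ := by rw [h.eq]
      _ = g * b * g⁻¹ * (g * a * g⁻¹) := by group

theorem cj_inj (g : G) {a b : G} : g * a * g⁻¹ = g * b * g⁻¹ ↔ a = b :=
  ⟨fun h => mul_left_cancel (mul_right_cancel h), fun h => by rw [h]⟩

theorem cj_eq_iff {g a : G} : g * a * g⁻¹ = a ↔ Commute g a := by
  constructor
  · intro h
    show g * a = a * g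
    calc g * a = g * a * g⁻¹ * g := by group
      _ = a * g := by rw [h]
  · intro h
    rw [h.eq]; group

variable {Δ : Set G} (X : Geo Δ)
include X

namespace Geo

theorem cjm (g x : G) : g * x * g⁻¹ ∈ Δ ↔ x ∈ Δ := by
  constructor
  · intro h
    have := X.cj g⁻¹ _ h
    have e : g⁻¹ * (g * x * g⁻¹) * (g⁻¹)⁻¹ = x := by group
    rwa [e] at this
  · exact X.cj g x

theorem bs_conj {B : Set G} (hB : Bs Δ B) (g : G) : Bs Δ ((fun x => g * x * g⁻¹) '' B) := by
  refine ⟨?_, ?_, ?_⟩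
  · rintro _ ⟨x, hx, rfl⟩; exact X.cj g x (hB.sub x hx)
  · rintro _ ⟨x, hx, rfl⟩ _ ⟨y, hy, rfl⟩
    exact (cm_conj g).2 (hB.com x hx y hy)
  · intro z hz h
    refine ⟨g⁻¹ * z * g, hB.max _ ?_ ?_, by group⟩
    · have := X.cj g⁻¹ z hz
      rwa [inv_inv] at this
    · intro x hx
      rw [← cm_conj g]
      have := h _ ⟨x, hx, rfl⟩
      have e : g * (g⁻¹ * z * g) * g⁻¹ = z := by group
      rwa [e]

theorem finite_bs {B : Set G} (hB : Bs Δ B) : B.Finite := Set.finite_of_ncard_ne_zero (by rw [X.card B hB]; norm_num)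

/-- conjugation maps a base into itself iff onto -/
theorem stab_eq {B : Set G} (hB : Bs Δ B) {g : G} (hg : ∀ x ∈ B, g * x * g⁻¹ ∈ B) : (fun x => g * x * g⁻¹) '' B = B := by
  have hfin := X.finite_bs hB
  apply Set.eq_of_subset_of_ncard_le _ _ hfin
  · rintro _ ⟨x, hx, rfl⟩; exact hg x hx
  · rw [Set.ncard_image_of_injective _ (fun a b h => (cj_inj g).1 h)]

/-- conjugation as a permutation of a base -/
theorem exists_perm {B : Set G} (hB : Bs Δ B) {g : G} (hg : ∀ x ∈ B, g * x * g⁻¹ ∈ B) :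
    ∃ σ : Equiv.Perm B, ∀ x : B, (σ x : G) = g * x * g⁻¹ := by
  have hfin : Finite B := X.finite_bs hB
  have hinj : Function.Injective (fun x : B => (⟨g * x * g⁻¹, hg x x.2⟩ : B)) := by
    intro a b h
    exact Subtype.ext ((cj_inj g).1 (congrArg Subtype.val h))
  exact ⟨Equiv.ofBijective _ ⟨hinj, Finite.injective_iff_surjective.1 hinj⟩, fun x => rfl⟩

theorem nonempty_bs {B : Set G} (hB : Bs Δ B) : B.Nonempty := by
  rw [← Set.ncard_pos (X.finite_bs hB), X.card B hB]; norm_num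

open Classical in
/-- all permutations induced on a base are even -/
theorem even_all {B : Set G} (hB : Bs Δ B) [Fintype B] {g : G} {σ : Equiv.Perm B} (hσ : ∀ x : B, (σ x : G) = g * x * g⁻¹) :
    Equiv.Perm.sign σ = 1 := by
  have hcard := X.card B hB
  by_cases hfix : ∃ e : B, σ e = e
  · obtain ⟨e, he⟩ := hfix
    have h1 : g * (e : G) * g⁻¹ = e := by rw [← hσ e, he]
    exact X.even B hB e e.2 g (cj_eq_iff.1 h1) σ hσ
  push Not at hfix
  obtain ⟨e₀, he₀⟩ := X.nonempty_bs hB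
  set e : B := ⟨e₀, he₀⟩ with hedef
  obtain ⟨e', he'⟩ : ∃ e' : B, e' = σ e := ⟨_, rfl⟩
  have hne : e' ≠ e := by rw [he']; exact hfix e
  -- a third member
  obtain ⟨c, hc, hc1, hc2⟩ : ∃ c ∈ B, c ≠ (e : G) ∧ c ≠ (e' : G) := by
    by_contra hcon
    push Not at hcon
    have hsub : B ⊆ {(e : G), (e' : G)} := by
      intro c hc
      by_cases h : c = e
      · left; exact h
      · right; exact hcon c hc h
    have h1 := Set.ncard_le_ncard hsub (Set.toFinite _)
    have h2 := Set.ncard_insert_le (e : G) {(e' : G)}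
    rw [Set.ncard_singleton] at h2
    omega
  obtain ⟨k, hk, hkB, hke⟩ := X.tran B hB c hc e' e'.2 e e.2 (Ne.symm hc2) (Ne.symm hc1)
  obtain ⟨ρ, hρ⟩ := X.exists_perm hB hkB
  have h1 : Equiv.Perm.sign ρ = 1 := X.even B hB c hc k hk ρ hρ
  have h2 : ∀ x : B, ((ρ * σ) x : G) = (k * g) * x * (k * g)⁻¹ := by
    intro x
    rw [Equiv.Perm.mul_apply, hρ, hσ]; group
  have h3 : Commute (k * g) (e : G) := by
    apply cj_eq_iff.1
    rw [← h2 e, Equiv.Perm.mul_apply, ← he', hρ, hke]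
  have h4 := X.even B hB e e.2 (k * g) h3 (ρ * σ) h2
  rw [Equiv.Perm.sign_mul, h1, one_mul] at h4
  exact h4

/-- an element of order at most two normalizing a base commutes with a member of the base -/
theorem exists_fix {B : Set G} (hB : Bs Δ B) {t : G} (htt : t * t = 1) (ht : ∀ x ∈ B, t * x * t⁻¹ ∈ B) :
    ∃ e ∈ B, Commute t e := by
  classical
  have hfin : Finite B := X.finite_bs hB
  haveI := Fintype.ofFinite B
  obtain ⟨σ, hσ⟩ := X.exists_perm hB ht
  have hs := X.even_all hB hσ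
  by_contra hcon
  push Not at hcon
  have hfix : ∀ e : B, σ e ≠ e := fun e he => hcon e e.2 (cj_eq_iff.1 (by rw [← hσ e, he]))
  have hσ2 : σ * σ = 1 := by
    ext x
    rw [Equiv.Perm.mul_apply, hσ, hσ]
    have : t * (t * (x : G) * t⁻¹) * t⁻¹ = (t * t) * x * (t * t)⁻¹ := by group
    rw [this, htt]; simp
  have hcard : Fintype.card B = 22 := by
    rw [← Nat.card_eq_fintype_card]
    have := X.card B hB
    rwa [← Nat.card_coe_set_eq] at this
  have hne : σ ≠ 1 := by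
    rintro rfl
    obtain ⟨e₀, he₀⟩ := X.nonempty_bs hB
    exact hfix ⟨e₀, he₀⟩ rfl
  have ho : orderOf σ = 2 := by
    rw [orderOf_eq_prime_iff]
    exact ⟨by rw [pow_two]; exact hσ2, hne⟩
  obtain ⟨n, hn⟩ := Equiv.Perm.cycleType_prime_order (σ := σ) (by rw [ho]; exact Nat.prime_two)
  rw [ho] at hn
  have hsup : σ.support = Finset.univ := by
    ext x
    simp [Equiv.Perm.mem_support, hfix x]
  have hsum := Equiv.Perm.sum_cycleType σ
  rw [hsup, Finset.card_univ, hcard, hn, Multiset.sum_replicate, smul_eq_mul] at hsum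
  have hn10 : n = 10 := by omega
  rw [Equiv.Perm.sign_of_cycleType, hn, hn10] at hs
  simp at hs
  exact absurd hs (by decide)

/-- members normalizing a base lie in it -/
theorem mem_of_norm {B : Set G} (hB : Bs Δ B) {p : G} (hp : p ∈ Δ) (h : ∀ x ∈ B, p * x * p⁻¹ ∈ B) : p ∈ B := by
  obtain ⟨e, he, hpe⟩ := X.exists_fix hB (X.inv p hp) h
  apply hB.max p hp
  intro x hx
  by_contra hn
  have h3 := X.three e (hB.sub e he) p hp x (hB.sub x hx) hpe (hB.com x hx e he) hn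
  have hpp := X.inv p hp
  have hxx := X.inv x (hB.sub x hx)
  have ip : p⁻¹ = p := inv_eq_of_mul_eq_one_left hpp
  have h4 := hB.com _ (h x hx) x hx
  rw [ip, h3] at h4
  have h5 : x * p * x * x = x * (x * p * x) := h4
  have h6 : x * p = p * x := by
    calc x * p = x * p * (x * x) := by rw [hxx, mul_one]
      _ = x * p * x * x := by group
      _ = x * (x * p * x) := h5
      _ = (x * x) * p * x := by group
      _ = p * x := by rw [hxx, one_mul]
  exact hn h6.symm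

/-- 2-groups containing a base normalize it -/
theorem norm_of_two [Finite G] {B : Set G} (hB : Bs Δ B) {T : Subgroup G} (hT : IsPGroup 2 T) (hBT : ∀ x ∈ B, x ∈ T) :
    ∀ t ∈ T, ∀ x ∈ B, t * x * t⁻¹ ∈ B := by
  -- the stabilizer of the base in T
  let N : Subgroup T := {
    carrier := {t | (fun x => (t : G) * x * (t : G)⁻¹) '' B = B}
    mul_mem' := by
      intro a b ha hb
      show (fun x => ((a * b : T) : G) * x * ((a * b : T) : G)⁻¹) '' B = B
      have h1 : (fun x => ((a * b : T) : G) * x * ((a * b : T) : G)⁻¹) = (fun x => (a : G) * x * (a : G)⁻¹) ∘ (fun x => (b : G) * x * (b : G)⁻¹) := by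
        funext x
        show (a : G) * b * x * ((a : G) * b)⁻¹ = a * (b * x * (b : G)⁻¹) * (a : G)⁻¹
        group
      rw [h1, Set.image_comp, show (fun x => (b : G) * x * (b : G)⁻¹) '' B = B from hb]
      exact ha
    one_mem' := by
      show (fun x => ((1 : T) : G) * x * ((1 : T) : G)⁻¹) '' B = B
      simp
    inv_mem' := by
      intro a ha
      show (fun x => ((a⁻¹ : T) : G) * x * ((a⁻¹ : T) : G)⁻¹) '' B = B
      conv_lhs => rw [← show (fun x => (a : G) * x * (a : G)⁻¹) '' B = B from ha]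
      rw [← Set.image_comp]
      have h1 : ((fun x => ((a⁻¹ : T) : G) * x * ((a⁻¹ : T) : G)⁻¹) ∘ fun x => (a : G) * x * (a : G)⁻¹) = id := by
        funext x
        show (a : G)⁻¹ * (a * x * (a : G)⁻¹) * ((a : G)⁻¹)⁻¹ = x
        group
      rw [h1, Set.image_id] }
  have hmemN : ∀ t : T, t ∈ N ↔ ∀ x ∈ B, (t : G) * x * (t : G)⁻¹ ∈ B := by
    intro t
    constructor
    · intro h x hx
      have h' : (fun x => (t : G) * x * (t : G)⁻¹) '' B = B := h
      rw [← h']; exact ⟨x, hx, rfl⟩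
    · intro h; exact X.stab_eq hB h
  have htop : N = ⊤ := by
    by_contra hne
    haveI : Finite T := inferInstance
    haveI : Fact (Nat.Prime 2) := ⟨Nat.prime_two⟩
    haveI : Group.IsNilpotent T := hT.isNilpotent
    have hlt := normalizerCondition_of_isNilpotent N (lt_top_iff_ne_top.2 hne)
    obtain ⟨g, hg, hgN⟩ := SetLike.exists_of_lt hlt
    apply hgN
    rw [hmemN]
    intro x hx
    have hxN : (⟨x, hBT x hx⟩ : T) ∈ N := by
      rw [hmemN]
      intro y hy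
      have : (x : G) * y * (x : G)⁻¹ = y := cj_eq_iff.2 (hB.com x hx y hy)
      rw [this]; exact hy
    have h1 : g * (⟨x, hBT x hx⟩ : T) * g⁻¹ ∈ N := ((Subgroup.mem_normalizer_iff.1 hg) _).1 hxN
    rw [hmemN] at h1
    exact X.mem_of_norm hB (X.cj _ x (hB.sub x hx)) h1
  intro t ht x hx
  exact (hmemN ⟨t, ht⟩).1 (by rw [htop]; trivial) x hx

end Geo

end Cfsg.Agent.Lib.H89FB
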