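import Cfsg.Agent.Lib.H89FB0
/-
The commuting geometry: products of two commuting members (helper89).
-/
set_option autoImplicit false
set_option linter.all false

namespace Cfsg.Agent.Lib.H89FB

universe w'

variable {G : Type w'} [Group G]

theorem closure_sq {S : Set G} (h2 : ∀ x ∈ S, x * x = 1) (hc : ∀ x ∈ S, ∀ y ∈ S, Commute x y) :
    (∀ x ∈ Subgroup.closure S, x * x = 1) ∧ ∀ x ∈ Subgroup.closure S, ∀ y ∈ Subgroup.closure S, Commute x y := by
  have h3 : ∀ x ∈ Subgroup.closure S, ∀ y ∈ S, Commute x y := by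
    intro x hx y hy
    induction hx using Subgroup.closure_induction with
    | mem x hx => exact hc x hx y hy
    | one => exact Commute.one_left y
    | mul a b _ _ ha hb => exact ha.mul_left hb
    | inv a _ ha => exact ha.inv_left
  have h4 : ∀ x ∈ Subgroup.closure S, ∀ y ∈ Subgroup.closure S, Commute x y := by
    intro x hx y hy
    induction hy using Subgroup.closure_induction with
    | mem y hy => exact h3 x hx y hy
    | one => exact Commute.one_right x
    | mul a b _ _ ha hb => exact ha.mul_right hb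
    | inv a _ ha => exact ha.inv_right
  refine ⟨?_, h4⟩
  intro x hx
  induction hx using Subgroup.closure_induction with
  | mem x hx => exact h2 x hx
  | one => rw [one_mul]
  | mul a b ha hb ha2 hb2 =>
    calc a * b * (a * b) = a * (b * a) * b := by group
      _ = a * (a * b) * b := by rw [(h4 a ha b hb).eq]
      _ = (a * a) * (b * b) := by group
      _ = 1 := by rw [ha2, hb2, one_mul]
  | inv a _ ha => rw [← mul_inv_rev, ha, inv_one]

theorem pgroup_of_sq {A : Subgroup G} (h : ∀ a ∈ A, a * a = 1) : IsPGroup 2 A := by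
  intro a
  exact ⟨1, by rw [pow_one, pow_two]; exact Subtype.ext (h a a.2)⟩

/-- conjugation into a 2-subgroup -/
theorem exists_syl [Finite G] {M P : Subgroup G} (hP : P ≤ M) (h1 : IsPGroup 2 P) :
    ∃ S : Sylow 2 M, (∀ p (hp : p ∈ P), (⟨p, hP hp⟩ : M) ∈ (S : Subgroup M)) ∧
      ∀ A ≤ M, IsPGroup 2 A → ∃ m ∈ M, ∀ a ∈ A, ∃ h : m * a * m⁻¹ ∈ M, (⟨m * a * m⁻¹, h⟩ : M) ∈ (S : Subgroup M) := by
  haveI : Fact (Nat.Prime 2) := ⟨Nat.prime_two⟩
  have hsub : ∀ A : Subgroup G, IsPGroup 2 A → IsPGroup 2 (A.subgroupOf M) := by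
    intro A hA
    intro x
    obtain ⟨k, hk⟩ := hA ⟨(x : M), Subgroup.mem_subgroupOf.1 x.2⟩
    refine ⟨k, ?_⟩
    have := congrArg Subtype.val hk
    apply Subtype.ext
    apply Subtype.ext
    simpa using this
  obtain ⟨S, hS⟩ := (hsub P h1).exists_le_sylow
  refine ⟨S, fun p hp => hS (Subgroup.mem_subgroupOf.2 hp), ?_⟩
  intro A hA hA2
  obtain ⟨S', hS'⟩ := (hsub A hA2).exists_le_sylow
  obtain ⟨m, hm⟩ := MulAction.exists_smul_eq M S' S
  refine ⟨m, m.2, fun a ha => ⟨M.mul_mem (M.mul_mem m.2 (hA ha)) (M.inv_mem m.2), ?_⟩⟩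
  have h2 : (⟨a, hA ha⟩ : M) ∈ (S' : Subgroup M) := hS' (Subgroup.mem_subgroupOf.2 ha)
  rw [← hm]
  have h3 : m * ⟨a, hA ha⟩ * m⁻¹ ∈ ((m • S' : Sylow 2 M) : Subgroup M) := by
    rw [Sylow.coe_subgroup_smul]
    exact Subgroup.smul_mem_pointwise_smul (⟨a, hA ha⟩ : M) (MulAut.conj m) _ h2
  exact h3

theorem mem_zp {z : G} (hzz : z * z = 1) (x : G) : x ∈ Subgroup.zpowers z ↔ x = 1 ∨ x = z := by
  constructor
  · rintro ⟨k, rfl⟩
    show z ^ k = 1 ∨ z ^ k = z
    rcases Int.even_or_odd' k with ⟨m, rfl | rfl⟩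
    · left
      rw [zpow_mul, zpow_ofNat, pow_two, hzz, one_zpow]
    · right
      rw [zpow_add, zpow_mul, zpow_ofNat, pow_two, hzz, one_zpow, one_mul, zpow_one]
  · rintro (rfl | rfl)
    · exact Subgroup.one_mem _
    · exact Subgroup.mem_zpowers x

theorem odd_sq_one {y : G} (h : Odd (orderOf y)) (h2 : y * y = 1) : y = 1 := by
  have h3 : orderOf y ∣ 2 := orderOf_dvd_of_pow_eq_one (by rw [pow_two]; exact h2)
  rcases (Nat.dvd_prime Nat.prime_two).1 h3 with h4 | h4
  · exact orderOf_eq_one_iff.1 h4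
  · rw [h4] at h; exact absurd h (by decide)

/-- the subgroup of odd order in an extension by a central involution -/
theorem odd_part [Finite G] {N : Subgroup G} {z : G} (hz : z ∈ N) (hzz : z * z = 1) (hz1 : z ≠ 1) (hc : ∀ x ∈ N, Commute z x)
    {m : ℕ} (hm : Odd m) (hcard : Nat.card N = 2 * m) :
    ∃ Y ≤ N, Odd (Nat.card Y) ∧ (∀ n ∈ N, n ∈ Y ∨ n * z ∈ Y) ∧ ∀ n ∈ N, Odd (orderOf n) → n ∈ Y := by
  obtain ⟨z', hz'⟩ : ∃ z' : N, z' = ⟨z, hz⟩ := ⟨_, rfl⟩
  have hzv : (z' : G) = z := by rw [hz']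
  have hzz' : z' * z' = 1 := Subtype.ext (by rw [Subgroup.coe_mul, hzv, hzz]; rfl)
  have hz1' : z' ≠ 1 := fun h => hz1 (by rw [← hzv, h]; rfl)
  have ho : orderOf z' = 2 := by
    haveI : Fact (Nat.Prime 2) := ⟨Nat.prime_two⟩
    exact orderOf_eq_prime (by rw [pow_two]; exact hzz') hz1'
  have hcz : ∀ x : N, z' * x = x * z' := fun x => Subtype.ext (by
    rw [Subgroup.coe_mul, Subgroup.coe_mul, hzv]; exact (hc x x.2).eq)
  haveI : (Subgroup.zpowers z').Normal := by
    refine ⟨fun n hn g => ?_⟩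
    rw [mem_zp hzz'] at hn ⊢
    rcases hn with rfl | rfl
    · left; group
    · right; rw [← hcz g]; group
  have hcz2 : Nat.card (Subgroup.zpowers z') = 2 := by rw [Nat.card_zpowers, ho]
  have hidx : (Subgroup.zpowers z').index = m := by
    have := (Subgroup.zpowers z').card_mul_index
    rw [hcz2, hcard] at this
    omega
  obtain ⟨K, hK⟩ := Subgroup.exists_right_complement'_of_coprime (N := Subgroup.zpowers z') (by
    rw [hcz2, hidx]
    exact (Nat.coprime_two_left).2 hm)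
  have hKc : Nat.card K = m := by
    rw [← hidx, hK.symm.index_eq_card]
  have key : ∀ n : N, n ∈ K ∨ n * z' ∈ K := by
    intro n
    obtain ⟨⟨a, b⟩, hab⟩ := hK.2 n
    have ha := (mem_zp hzz' _).1 a.2
    change (a : N) * (b : N) = n at hab
    rcases ha with ha | ha
    · left; rw [← hab, ha, one_mul]; exact b.2
    · right; rw [← hab, ha, hcz, mul_assoc, hzz', mul_one]; exact b.2
  refine ⟨K.map N.subtype, ?_, ?_, ?_, ?_⟩
  · rintro _ ⟨x, _, rfl⟩; exact x.2
  · rw [Nat.card_congr (K.equivMapOfInjective _ N.subtype_injective).toEquiv.symm, hKc]; exact hm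
  · intro n hn
    rcases key ⟨n, hn⟩ with h | h
    · left; exact ⟨_, h, rfl⟩
    · right; exact ⟨_, h, by show n * (z' : G) = n * z; rw [hzv]⟩
  · intro n hn hodd
    rcases key ⟨n, hn⟩ with h | h
    · exact ⟨_, h, rfl⟩
    · exfalso
      -- n * z' in K has odd order, n has odd order, z' = n⁻¹ (n z') commutes
      have h1 : ((⟨n, hn⟩ : N) * z') ^ m = 1 := by
        have := pow_card_eq_one' (x := (⟨_, h⟩ : K))
        rw [hKc] at this
        exact congrArg Subtype.val this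
      have hcm : Commute (⟨n, hn⟩ : N) z' := (hcz _).symm
      have h2 : ((⟨n, hn⟩ : N) * z') ^ (m * orderOf n) = 1 := by rw [pow_mul, h1, one_pow]
      rw [hcm.mul_pow] at h2
      have h3 : (⟨n, hn⟩ : N) ^ (m * orderOf n) = 1 := by
        apply Subtype.ext
        show n ^ (m * orderOf n) = 1
        rw [mul_comm, pow_mul, pow_orderOf_eq_one, one_pow]
      rw [h3, one_mul] at h2
      have h4 : orderOf z' ∣ m * orderOf n := orderOf_dvd_of_pow_eq_one h2
      rw [ho] at h4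
      exact (Nat.not_even_iff_odd.2 (hm.mul hodd)) (even_iff_two_dvd.2 h4)

variable {Δ : Set G} (X : Geo Δ)
include X

namespace Geo

/-- commuting sets lie in bases -/
theorem exists_bs [Finite G] {S : Set G} (hS : ∀ x ∈ S, x ∈ Δ) (hc : ∀ x ∈ S, ∀ y ∈ S, Commute x y) : ∃ B, Bs Δ B ∧ S ⊆ B := by
  obtain ⟨B, hSB, hB⟩ := (Set.toFinite {S' : Set G | (∀ x ∈ S', x ∈ Δ) ∧ ∀ x ∈ S', ∀ y ∈ S', Commute x y}).exists_le_maximal
    (a := S) ⟨hS, hc⟩
  refine ⟨B, ⟨hB.prop.1, hB.prop.2, ?_⟩, hSB⟩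
  intro z hz h
  have h1 : insert z B ∈ {S' : Set G | (∀ x ∈ S', x ∈ Δ) ∧ ∀ x ∈ S', ∀ y ∈ S', Commute x y} := by
    refine ⟨?_, ?_⟩
    · rintro x (rfl | hx)
      · exact hz
      · exact hB.prop.1 x hx
    · rintro x (rfl | hx) y (rfl | hy)
      · exact Commute.refl _
      · exact h y hy
      · exact (h x hx).symm
      · exact hB.prop.2 x hx y hy
  exact hB.le_of_ge h1 (Set.subset_insert z B) (Set.mem_insert z B)

theorem cl_sq {B : Set G} (hB : Bs Δ B) : (∀ x ∈ Subgroup.closure B, x * x = 1) ∧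
    ∀ x ∈ Subgroup.closure B, ∀ y ∈ Subgroup.closure B, Commute x y :=
  closure_sq (fun x hx => X.inv x (hB.sub x hx)) hB.com

/-- an element of order at most two normalizing a subgroup containing a base normalizes a base in it -/
theorem exists_norm [Finite G] {Y : Subgroup G} {B : Set G} (hB : Bs Δ B) (hBY : ∀ x ∈ B, x ∈ Y) {t : G} (htt : t * t = 1)
    (ht : ∀ y ∈ Y, t * y * t⁻¹ ∈ Y) : ∃ B', Bs Δ B' ∧ (∀ x ∈ B', x ∈ Y) ∧ ∀ x ∈ B', t * x * t⁻¹ ∈ B' := by
  have it : t⁻¹ = t := inv_eq_of_mul_eq_one_left htt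
  -- the product
  let M : Subgroup G := {
    carrier := {x | x ∈ Y ∨ x * t ∈ Y}
    mul_mem' := by
      rintro a b (ha | ha) (hb | hb)
      · left; exact Y.mul_mem ha hb
      · right; rw [mul_assoc]; exact Y.mul_mem ha hb
      · right
        have : a * b * t = (a * t) * (t * b * t⁻¹) := by rw [it]; calc a * b * t = a * (t * t) * b * t := by rw [htt, mul_one]
              _ = _ := by group
        rw [this]; exact Y.mul_mem ha (ht b hb)
      · left
        have : a * b = (a * t) * (t * (b * t) * t⁻¹) := by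
          calc a * b = a * (t * t) * b := by rw [htt, mul_one]
            _ = (a * t) * (t * (b * t) * t⁻¹) := by group
        rw [this]; exact Y.mul_mem ha (ht _ hb)
    one_mem' := Or.inl Y.one_mem
    inv_mem' := by
      rintro a (ha | ha)
      · left; exact Y.inv_mem ha
      · right
        have : a⁻¹ * t = t * (a * t)⁻¹ * t⁻¹ := by
          rw [mul_inv_rev, it]
          calc a⁻¹ * t = (t * t) * a⁻¹ * t := by rw [htt, one_mul]
            _ = t * (t * a⁻¹) * t := by group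
        show a⁻¹ * t ∈ Y
        rw [this]; exact ht _ (Y.inv_mem ha) }
  have hYM : ∀ y ∈ Y, y ∈ M := fun y hy => Or.inl hy
  have htM : t ∈ M := Or.inr (by rw [htt]; exact Y.one_mem)
  have hnorm : ∀ m ∈ M, ∀ y ∈ Y, m * y * m⁻¹ ∈ Y := by
    rintro m (hm | hm) y hy
    · exact Y.mul_mem (Y.mul_mem hm hy) (Y.inv_mem hm)
    · have : m * y * m⁻¹ = (m * t) * (t * y * t⁻¹) * (m * t)⁻¹ := by
        rw [mul_inv_rev]
        calc m * y * m⁻¹ = m * (t * t) * y * (t⁻¹ * t⁻¹) * m⁻¹ := by rw [htt, ← mul_inv_rev, htt]; group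
          _ = _ := by group
      rw [this]; exact Y.mul_mem (Y.mul_mem hm (ht y hy)) (Y.inv_mem hm)
  have hP : Subgroup.zpowers t ≤ M := by rw [Subgroup.zpowers_le]; exact htM
  have hP2 : IsPGroup 2 (Subgroup.zpowers t) := pgroup_of_sq (fun a ha => by
    rcases (mem_zp htt a).1 ha with rfl | rfl
    · rw [one_mul]
    · exact htt)
  obtain ⟨S, hS1, hS2⟩ := exists_syl hP hP2
  have hAM : Subgroup.closure B ≤ M := (Subgroup.closure_le M).2 (fun x hx => hYM x (hBY x hx))
  obtain ⟨m, hm, hmA⟩ := hS2 _ hAM (pgroup_of_sq (X.cl_sq hB).1)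
  set T := (S : Subgroup M).map M.subtype with hT
  have hT2 : IsPGroup 2 T := S.2.map _
  have hB' := X.bs_conj hB m
  have hBT : ∀ x ∈ (fun x => m * x * m⁻¹) '' B, x ∈ T := by
    rintro _ ⟨x, hx, rfl⟩
    obtain ⟨h, h'⟩ := hmA x (Subgroup.subset_closure hx)
    exact ⟨_, h', rfl⟩
  refine ⟨_, hB', ?_, ?_⟩
  · rintro _ ⟨x, hx, rfl⟩; exact hnorm m hm x (hBY x hx)
  · have htT : t ∈ T := ⟨_, hS1 t (Subgroup.mem_zpowers t), rfl⟩
    exact X.norm_of_two hB' hT2 hBT t htT

/-- a subgroup of index 2 contains a member of a base -/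
theorem exists_mem_index {B : Set G} (hB : Bs Δ B) {A₀ : Subgroup G} (h2 : A₀.relIndex (Subgroup.closure B) = 2) :
    ∃ e ∈ B, e ∈ A₀ := by
  by_contra hcon
  push Not at hcon
  obtain ⟨l, hl, hodd, hprod⟩ := X.odd B hB
  have key : ∀ l : List G, (∀ x ∈ l, x ∈ B) → (l.prod ∈ Subgroup.closure B ∧ (l.prod ∈ A₀ ↔ Even l.length)) := by
    intro l
    induction l with
    | nil => intro _; simp
    | cons a l ih =>
      intro h
      obtain ⟨h1, h2'⟩ := ih (fun x hx => h x (List.mem_cons_of_mem _ hx))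
      have ha : a ∈ B := h a List.mem_cons_self
      have haA : a ∈ Subgroup.closure B := Subgroup.subset_closure ha
      refine ⟨by rw [List.prod_cons]; exact mul_mem haA h1, ?_⟩
      rw [List.prod_cons, List.length_cons, Nat.even_add_one]
      have h3 := Subgroup.mul_mem_iff_of_index_two (H := A₀.subgroupOf (Subgroup.closure B)) h2
        (a := ⟨a, haA⟩) (b := ⟨l.prod, h1⟩)
      rw [Subgroup.mem_subgroupOf, Subgroup.mem_subgroupOf, Subgroup.mem_subgroupOf] at h3
      change (a * l.prod ∈ A₀ ↔ (a ∈ A₀ ↔ l.prod ∈ A₀)) at h3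
      rw [h3, h2']
      have h4 : a ∉ A₀ := hcon a ha
      tauto
  have h3 := (key l hl).2
  rw [hprod] at h3
  exact (Nat.not_even_iff_odd.2 hodd) (h3.1 (one_mem _))

end Geo

end Cfsg.Agent.Lib.H89FB
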