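import Cfsg.Agent.Lib.H89FB2
/-
The commuting geometry: orders of products; hexads (helper89).
-/
set_option autoImplicit false
set_option linter.all false

namespace Cfsg.Agent.Lib.H89FB

universe w'

variable {G : Type w'} [Group G]

theorem inv_pow_conj {a y : G} (h : a * y * a⁻¹ = y⁻¹) (n : ℕ) : a * y ^ n * a⁻¹ = (y ^ n)⁻¹ := by
  rw [← conj_pow, h, inv_pow]

/-- conjugates of an inverting element -/
theorem dih {a y : G} (h : a * y * a⁻¹ = y⁻¹) (haa : a * a = 1) (n : ℕ) : y ^ n * a * (y ^ n)⁻¹ = y ^ (2 * n) * a := by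
  have h1 := inv_pow_conj h n
  have h2 : (y ^ n)⁻¹ = a * y ^ n * a := by
    rw [← h1, inv_eq_of_mul_eq_one_left haa]
  rw [h2]
  calc y ^ n * a * (a * y ^ n * a) = y ^ n * (a * a) * y ^ n * a := by group
    _ = y ^ n * y ^ n * a := by rw [haa, mul_one]
    _ = y ^ (2 * n) * a := by rw [← pow_add, two_mul]

variable {Δ : Set G} (X : Geo Δ)
include X

namespace Geo

/-- members whose product has even order commute -/
theorem comm_of_even [Finite G] {a b : G} (ha : a ∈ Δ) (hb : b ∈ Δ) (he : Even (orderOf (a * b))) : Commute a b := by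
  have haa := X.inv a ha
  have hbb := X.inv b hb
  have ia : a⁻¹ = a := inv_eq_of_mul_eq_one_left haa
  have ib : b⁻¹ = b := inv_eq_of_mul_eq_one_left hbb
  obtain ⟨y, hy⟩ : ∃ y, y = a * b := ⟨_, rfl⟩
  rw [← hy] at he
  obtain ⟨m, hm⟩ := he
  have hpos : 0 < orderOf y := orderOf_pos y
  have hay : a * y * a⁻¹ = y⁻¹ := by
    rw [hy, ia, mul_inv_rev, ia, ib]
    calc a * (a * b) * a = (a * a) * b * a := by group
      _ = b * a := by rw [haa, one_mul]
  have hby : b * y * b⁻¹ = y⁻¹ := by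
    rw [hy, ib, mul_inv_rev, ia, ib]
    calc b * (a * b) * b = b * a * (b * b) := by group
      _ = b * a := by rw [hbb, mul_one]
  obtain ⟨t, ht⟩ : ∃ t, t = y ^ m := ⟨_, rfl⟩
  have ht1 : t ≠ 1 := by
    rw [ht]
    intro h
    have := orderOf_dvd_of_pow_eq_one h
    have := Nat.le_of_dvd (by omega) this
    omega
  have htt : t * t = 1 := by rw [ht, ← pow_add, ← hm, pow_orderOf_eq_one]
  have it : t⁻¹ = t := inv_eq_of_mul_eq_one_left htt
  have hta : Commute a t := by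
    apply cj_eq_iff.1
    rw [ht, inv_pow_conj hay, ← ht, it]
  have htb : Commute b t := by
    apply cj_eq_iff.1
    rw [ht, inv_pow_conj hby, ← ht, it]
  have hc : t * a ∈ Δ := by
    rcases Nat.even_or_odd m with ⟨j, hj⟩ | ⟨j, hj⟩
    · have h1 := dih hay haa j
      rw [ht, hj, ← two_mul, ← h1]
      exact X.cj _ a ha
    · have h1 := dih hby hbb (j + 1)
      have h2 : t * a = y ^ (2 * (j + 1)) * b := by
        rw [ht, hj]
        have : y * b = a := by rw [hy, mul_assoc, hbb, mul_one]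
        rw [show 2 * (j + 1) = (2 * j + 1) + 1 by ring, pow_succ y (2 * j + 1), mul_assoc, this]
      rw [h2, ← h1]
      exact X.cj _ b hb
  have hca : Commute a (t * a) := hta.mul_right (Commute.refl a)
  have hne : a ≠ t * a := by
    intro h
    apply ht1
    have : 1 * a = t * a := by rw [one_mul]; exact h
    exact (mul_right_cancel this).symm
  have h3 : a * (t * a) = t := by
    rw [← mul_assoc, hta.eq, mul_assoc, haa, mul_one]
  have := ((X.zst ha hc hne hca).2 b hb (by rw [h3]; exact htb)).1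
  exact this.symm

theorem comm_of_conj [Finite G] {a b : G} (ha : a ∈ Δ) (hb : b ∈ Δ) (h : Commute b (a * b * a⁻¹)) : Commute a b := by
  have haa := X.inv a ha
  have hbb := X.inv b hb
  have ia : a⁻¹ = a := inv_eq_of_mul_eq_one_left haa
  have h4 : (a * b) ^ 4 = 1 := by
    rw [ia] at h
    have e : (a * b) ^ 4 = (a * b * a) * b * ((a * b * a) * b) := by
      rw [show (4 : ℕ) = 2 + 2 by norm_num, pow_add, pow_two]; group
    rw [e]
    calc (a * b * a) * b * ((a * b * a) * b) = (a * b * a) * (b * (a * b * a)) * b := by group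
      _ = (a * b * a) * ((a * b * a) * b) * b := by rw [h.eq]
      _ = a * b * (a * a) * b * a * (b * b) := by group
      _ = 1 := by rw [haa, hbb, mul_one, mul_one, mul_assoc a b b, hbb, mul_one, haa]
  have h5 : orderOf (a * b) ∣ 4 := orderOf_dvd_of_pow_eq_one h4
  have h6 : orderOf (a * b) ∈ Nat.divisors 4 := Nat.mem_divisors.2 ⟨h5, by norm_num⟩
  have h7 : orderOf (a * b) = 1 ∨ orderOf (a * b) = 2 ∨ orderOf (a * b) = 4 := by
    have : Nat.divisors 4 = {1, 2, 4} := by decide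
    rw [this] at h6
    simpa using h6
  rcases h7 with h7 | h7 | h7
  · have h8 := orderOf_eq_one_iff.1 h7
    have : a = b := by rw [eq_inv_of_mul_eq_one_left h8, inv_eq_of_mul_eq_one_left hbb]
    rw [this]
  · exact X.comm_of_even ha hb (by rw [h7]; decide)
  · exact X.comm_of_even ha hb (by rw [h7]; decide)

end Geo

/-! ### hexads -/

omit X in
theorem HX_swap (Δ : Set G) (x y z : G) : HX Δ y x z = HX Δ x y z := by
  ext w; constructor <;> exact fun h => ⟨h.1, fun v hv h1 h2 h3 => h.2 v hv h2 h1 h3⟩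

omit X in
theorem HX_swap' (Δ : Set G) (x y z : G) : HX Δ x z y = HX Δ x y z := by
  ext w; constructor <;> exact fun h => ⟨h.1, fun v hv h1 h2 h3 => h.2 v hv h1 h3 h2⟩

namespace T3

omit X
variable {x y z : G} (T : T3 Δ x y z)
include T

theorem swap : T3 Δ y x z := ⟨T.my, T.mx, T.mz, T.xy.symm, T.yz, T.xz, T.cxy.symm, T.cyz, T.cxz⟩
theorem swap' : T3 Δ x z y := ⟨T.mx, T.mz, T.my, T.xz, T.xy, T.yz.symm, T.cxz, T.cxy, T.cyz.symm⟩

theorem memx : x ∈ HX Δ x y z := ⟨T.mx, fun v hv h1 h2 h3 => h1⟩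
theorem memy : y ∈ HX Δ x y z := ⟨T.my, fun v hv h1 h2 h3 => h2⟩
theorem memz : z ∈ HX Δ x y z := ⟨T.mz, fun v hv h1 h2 h3 => h3⟩

theorem hcx {w : G} (hw : w ∈ HX Δ x y z) : Commute w x := (hw.2 x T.mx (Commute.refl x) T.cxy T.cxz).symm
theorem hcy {w : G} (hw : w ∈ HX Δ x y z) : Commute w y := (hw.2 y T.my T.cxy.symm (Commute.refl y) T.cyz).symm
theorem hcz {w : G} (hw : w ∈ HX Δ x y z) : Commute w z := (hw.2 z T.mz T.cxz.symm T.cyz.symm (Commute.refl z)).symm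
theorem hcc {w w' : G} (hw : w ∈ HX Δ x y z) (hw' : w' ∈ HX Δ x y z) : Commute w w' :=
  hw'.2 w hw.1 (T.hcx hw) (T.hcy hw) (T.hcz hw)

theorem conj (X : Geo Δ) (g : G) : T3 Δ (g * x * g⁻¹) (g * y * g⁻¹) (g * z * g⁻¹) :=
  ⟨X.cj g _ T.mx, X.cj g _ T.my, X.cj g _ T.mz, fun h => T.xy ((cj_inj g).1 h), fun h => T.xz ((cj_inj g).1 h),
    fun h => T.yz ((cj_inj g).1 h), (cm_conj g).2 T.cxy, (cm_conj g).2 T.cxz, (cm_conj g).2 T.cyz⟩

end T3

namespace Geo

variable {x y z : G}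

omit X in
theorem of_mem3 {a b c : G} (T : T3 Δ x y z) (ha : a ∈ HX Δ x y z) (hb : b ∈ HX Δ x y z) (hc : c ∈ HX Δ x y z)
    (hab : a ≠ b) (hac : a ≠ c) (hbc : b ≠ c) : T3 Δ a b c :=
  ⟨ha.1, hb.1, hc.1, hab, hac, hbc, T.hcc ha hb, T.hcc ha hc, T.hcc hb hc⟩

theorem ex1 (T : T3 Δ x y z) {w : G} (hw : w ∈ HX Δ x y z) (hwx : w ≠ x) (hwy : w ≠ y) :
    HX Δ x y w = HX Δ x y z ∧ T3 Δ x y w := by
  refine ⟨?_, ⟨T.mx, T.my, hw.1, T.xy, hwx.symm, hwy.symm, T.cxy, (T.hcx hw).symm, (T.hcy hw).symm⟩⟩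
  ext q
  constructor
  · intro hq
    exact ⟨hq.1, fun v hv h1 h2 h3 => hq.2 v hv h1 h2 (hw.2 v hv h1 h2 h3)⟩
  · intro hq
    exact ⟨hq.1, fun v hv h1 h2 h3 => hq.2 v hv h1 h2 (X.exch x y z T w hw hwx hwy v hv h1 h2 h3)⟩

/-- three members of a hexad determine it -/
theorem eq_of_mem (T : T3 Δ x y z) {a b c : G} (ha : a ∈ HX Δ x y z) (hb : b ∈ HX Δ x y z) (hc : c ∈ HX Δ x y z)
    (hab : a ≠ b) (hac : a ≠ c) (hbc : b ≠ c) : HX Δ a b c = HX Δ x y z := by
  -- step 1: a triple containing a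
  obtain ⟨p, q, T1, h1⟩ : ∃ p q, T3 Δ a p q ∧ HX Δ a p q = HX Δ x y z := by
    by_cases hax : a = x
    · subst hax; exact ⟨y, z, T, rfl⟩
    by_cases hay : a = y
    · subst hay; exact ⟨x, z, T.swap, HX_swap Δ x a z⟩
    obtain ⟨h2, h3⟩ := X.ex1 T ha hax hay
    refine ⟨x, y, h3.swap'.swap, ?_⟩
    rw [HX_swap, HX_swap', h2]
  rw [← h1] at ha hb hc ⊢
  -- step 2
  obtain ⟨r, T2, h2⟩ : ∃ r, T3 Δ a b r ∧ HX Δ a b r = HX Δ a p q := by
    by_cases hbp : b = p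
    · subst hbp; exact ⟨q, T1, rfl⟩
    obtain ⟨h2, h3⟩ := X.ex1 T1 hb hab.symm hbp
    exact ⟨p, h3.swap', by rw [HX_swap', h2]⟩
  rw [← h2] at hc ⊢
  exact (X.ex1 T2 hc hac.symm hbc.symm).1

theorem HX_conj (g : G) : ∀ w, w ∈ HX Δ x y z → g * w * g⁻¹ ∈ HX Δ (g * x * g⁻¹) (g * y * g⁻¹) (g * z * g⁻¹) := by
  intro w hw
  refine ⟨X.cj g w hw.1, fun v hv h1 h2 h3 => ?_⟩
  have e : v = g * (g⁻¹ * v * g) * g⁻¹ := by group
  rw [e] at h1 h2 h3 ⊢
  rw [cm_conj] at h1 h2 h3 ⊢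
  refine hw.2 _ ?_ h1 h2 h3
  have := X.cj g⁻¹ v hv
  rwa [inv_inv] at this

/-- members commuting with a product of three and with one factor -/
theorem fa [Finite G] (T : T3 Δ x y z) {p : G} (hp : p ∈ Δ) (hu : Commute p (x * y * z)) (hx : Commute p x) :
    Commute p y ∧ Commute p z := by
  have h1 : Commute p (y * z) := by
    have h2 : y * z = x * (x * y * z) := by
      rw [← mul_assoc, ← mul_assoc, X.inv x T.mx, one_mul]
    rw [h2]; exact hx.mul_right hu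
  exact (X.zst T.my T.mz T.yz T.cyz).2 p hp h1

/-- the hexad as six members -/
theorem fb [Finite G] (T : T3 Δ x y z) {p : G} (hp : p ∈ Δ) (hu : Commute p (x * y * z)) {w : G} (hw : w ∈ HX Δ x y z)
    (hc : Commute p w) : Commute p x ∧ Commute p y ∧ Commute p z := by
  have hxy := T.cxy
  have hxz := T.cxz
  have hyz := T.cyz
  obtain ⟨x', y', z', h1, h2, h3⟩ := X.hx x y z T
  have hmem : ∀ v, v = x ∨ v = y ∨ v = z ∨ v = x' ∨ v = y' ∨ v = z' → v ∈ HX Δ x y z := by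
    intro v hv; rw [h1]; simpa using hv
  have key : ∀ {a b c : G}, T3 Δ a b c → a * b * c = x * y * z → HX Δ a b c = HX Δ x y z → Commute p a →
      Commute p x ∧ Commute p y ∧ Commute p z := by
    intro a b c T' he hH ha
    obtain ⟨hb, hc'⟩ := X.fa T' hp (by rw [he]; exact hu) ha
    have h4 : ∀ v ∈ HX Δ x y z, Commute p v := fun v hv => by
      rw [← hH] at hv; exact hv.2 p hp ha hb hc'
    exact ⟨h4 x T.memx, h4 y T.memy, h4 z T.memz⟩
  simp only [List.nodup_cons, List.mem_cons, List.not_mem_nil, or_false, not_or] at h2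
  obtain ⟨⟨a1, a2, a3, a4, a5⟩, ⟨b1, b2, b3, b4⟩, ⟨c1, c2, c3⟩, ⟨d1, d2⟩, e1, -⟩ := h2
  have m4 := hmem x' (by tauto)
  have m5 := hmem y' (by tauto)
  have m6 := hmem z' (by tauto)
  have T' : T3 Δ x' y' z' := of_mem3 T m4 m5 m6 d1 d2 e1
  have hH' := X.eq_of_mem T m4 m5 m6 d1 d2 e1
  have hw' := hw
  rw [h1] at hw'
  simp only [Set.mem_insert_iff, Set.mem_singleton_iff] at hw'
  rcases hw' with rfl | rfl | rfl | rfl | rfl | rfl
  · exact key T rfl rfl hc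
  · exact key T.swap (by rw [hxy.eq]) (HX_swap Δ _ _ _) hc
  · exact key T.swap'.swap (by rw [mul_assoc]; exact (hxz.mul_left hyz).eq.symm) (by rw [HX_swap, HX_swap']) hc
  · exact key T' h3.symm hH' hc
  · exact key T'.swap (by rw [T'.swap.cxy.eq, h3]) (by rw [HX_swap, hH']) hc
  · exact key T'.swap'.swap (by rw [h3, mul_assoc]; exact (T'.cxz.mul_left T'.cyz).eq.symm) (by rw [HX_swap, HX_swap', hH']) hc

/-- outside the hexad the relevant set is commutative -/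
theorem fc [Finite G] (T : T3 Δ x y z) {q : G} (hq : q ∈ Δ) (h1 : Commute q x) (h2 : Commute q y) (h3 : Commute q z)
    (hqn : q ∉ HX Δ x y z) {p p' : G} (hp : p ∈ Δ) (hp' : p' ∈ Δ) (hpq : Commute p q) (hpu : Commute p (x * y * z))
    (hpq' : Commute p' q) (hpu' : Commute p' (x * y * z)) : Commute p p' := by
  have key : ∀ p ∈ Δ, Commute p q → Commute p (x * y * z) → Commute p x ∧ Commute p y ∧ Commute p z := by
    intro p hp hpq hpu
    have h4 := X.c3 x y z T q hq h1 h2 h3 hqn p hp hpq hpu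
    exact ⟨h4, X.fa T hp hpu h4⟩
  obtain ⟨a1, a2, a3⟩ := key p hp hpq hpu
  obtain ⟨b1, b2, b3⟩ := key p' hp' hpq' hpu'
  exact X.b4 x y z T q hq h1 h2 h3 hqn p hp p' hp' hpq a1 a2 a3 hpq' b1 b2 b3

/-- two hexads with the same product and a common neighbour are equal -/
theorem ql [Finite G] {x₂ y₂ z₂ : G} (T : T3 Δ x y z) (T₂ : T3 Δ x₂ y₂ z₂) (hu : x * y * z = x₂ * y₂ * z₂) {q : G} (hq : q ∈ Δ)
    (h1 : Commute q x) (h2 : Commute q y) (h3 : Commute q z) (k1 : Commute q x₂) (k2 : Commute q y₂) (k3 : Commute q z₂) :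
    HX Δ x y z = HX Δ x₂ y₂ z₂ := by
  have hcu : ∀ {p x y z : G}, Commute p x → Commute p y → Commute p z → Commute p (x * y * z) := fun a b c => (a.mul_right b).mul_right c
  -- case 1
  have case1 : ∀ {x y z x₂ y₂ z₂ : G}, T3 Δ x y z → T3 Δ x₂ y₂ z₂ → x * y * z = x₂ * y₂ * z₂ → ∀ q ∈ Δ, Commute q x → Commute q y →
      Commute q z → Commute q x₂ → Commute q y₂ → Commute q z₂ → q ∈ HX Δ x y z → q ∈ HX Δ x₂ y₂ z₂ ∧ HX Δ x y z = HX Δ x₂ y₂ z₂ := by
    intro x y z x₂ y₂ z₂ T T₂ hu q hq h1 h2 h3 k1 k2 k3 hqm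
    have hq2 : q ∈ HX Δ x₂ y₂ z₂ := by
      by_contra hn
      obtain ⟨p, hp, p', hp', a1, a2, a3, b1, b2, b3, hpp⟩ := X.nc3 x y z T
      apply hpp
      refine X.fc T₂ hq k1 k2 k3 hn hp hp' (hqm.2 p hp a1 a2 a3) ?_ (hqm.2 p' hp' b1 b2 b3) ?_
      · rw [← hu]; exact hcu a1 a2 a3
      · rw [← hu]; exact hcu b1 b2 b3
    refine ⟨hq2, ?_⟩
    have hperp : ∀ v ∈ Δ, (Commute v x ∧ Commute v y ∧ Commute v z) ↔ (Commute v x₂ ∧ Commute v y₂ ∧ Commute v z₂) := by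
      intro v hv
      constructor
      · rintro ⟨a1, a2, a3⟩
        exact X.fb T₂ hv (by rw [← hu]; exact hcu a1 a2 a3) hq2 (hqm.2 v hv a1 a2 a3)
      · rintro ⟨a1, a2, a3⟩
        exact X.fb T hv (by rw [hu]; exact hcu a1 a2 a3) hqm (hq2.2 v hv a1 a2 a3)
    ext w
    constructor
    · intro hw
      refine ⟨hw.1, fun v hv a1 a2 a3 => ?_⟩
      obtain ⟨b1, b2, b3⟩ := (hperp v hv).2 ⟨a1, a2, a3⟩
      exact hw.2 v hv b1 b2 b3
    · intro hw
      refine ⟨hw.1, fun v hv a1 a2 a3 => ?_⟩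
      obtain ⟨b1, b2, b3⟩ := (hperp v hv).1 ⟨a1, a2, a3⟩
      exact hw.2 v hv b1 b2 b3
  by_cases hqm : q ∈ HX Δ x y z
  · exact (case1 T T₂ hu q hq h1 h2 h3 k1 k2 k3 hqm).2
  -- everything commutes
  have hqu : ∀ {a : G}, a ∈ Δ → Commute q a → Commute a (x * y * z) → ∀ {b : G}, b ∈ Δ → Commute q b → Commute b (x * y * z) →
      Commute a b := fun ha hqa hau b hb hqb hbu =>
    X.fc T hq h1 h2 h3 hqm ha hb hqa.symm hau hqb.symm hbu
  have c1 : Commute x (x * y * z) := hcu (Commute.refl x) T.cxy T.cxz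
  have d1 : Commute x₂ (x * y * z) := by rw [hu]; exact hcu (Commute.refl _) T₂.cxy T₂.cxz
  have d2 : Commute y₂ (x * y * z) := by rw [hu]; exact hcu T₂.cxy.symm (Commute.refl _) T₂.cyz
  have d3 : Commute z₂ (x * y * z) := by rw [hu]; exact hcu T₂.cxz.symm T₂.cyz.symm (Commute.refl _)
  exact (case1 T T₂ hu x T.mx (Commute.refl x) T.cxy T.cxz (hqu T.mx h1 c1 T₂.mx k1 d1) (hqu T.mx h1 c1 T₂.my k2 d2)
    (hqu T.mx h1 c1 T₂.mz k3 d3) T.memx).2

end Geo

end Cfsg.Agent.Lib.H89FB
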