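import Cfsg.Agent.Lib.H89FB3
/-
The commuting geometry: the centralizer of a product of three members normalizes the hexad (helper89).
-/
set_option autoImplicit false
set_option linter.all false

namespace Cfsg.Agent.Lib.H89FB

universe w'

variable {G : Type w'} [Group G]

theorem l6 {a b c p : G} (haa : a * a = 1) (hbb : b * b = 1) (hab : Commute a b) (hac : Commute a c) (hap : Commute a p)
    (hbc : Commute b c) : a * b * c * (b * p * a) = c * p := by
  calc a * b * c * (b * p * a) = a * (b * c * b) * p * a := by group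
    _ = a * (c * b * b) * p * a := by rw [hbc.eq]
    _ = a * (c * p) * a := by rw [mul_assoc c b b, hbb, mul_one]; group
    _ = c * p * a * a := by rw [(hac.mul_right hap).eq]
    _ = c * p := by rw [mul_assoc, haa, mul_one]

theorem l6' {a b c x : G} (haa : a * a = 1) (hbb : b * b = 1) (hab : Commute a b) (hac : Commute a c) (hbc : Commute b c) :
    a * b * c * (a * b * x) = c * x := by
  have h1 : Commute (a * b) c := hac.mul_left hbc
  have h2 : a * b * (a * b) = 1 := by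
    calc a * b * (a * b) = a * (b * a) * b := by group
      _ = a * (a * b) * b := by rw [hab.eq]
      _ = (a * a) * (b * b) := by group
      _ = 1 := by rw [haa, hbb, one_mul]
  calc a * b * c * (a * b * x) = (a * b * c) * (a * b) * x := by group
    _ = (c * (a * b)) * (a * b) * x := by rw [h1.eq]
    _ = c * (a * b * (a * b)) * x := by group
    _ = c * x := by rw [h2, mul_one]

variable {Δ : Set G} (X : Geo Δ)
include X

namespace Geo

variable {x y z : G}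

theorem third (T : T3 Δ x y z) {x' y' z' : G} (h1 : HX Δ x y z = {x, y, z, x', y', z'})
    (h2 : [x, y, z, x', y', z'].Nodup) (h3 : x * y * z = x' * y' * z') {p q : G} (hp : p ∈ HX Δ x y z) (hq : q ∈ HX Δ x y z)
    (hpq : p ≠ q) (hpx : p ≠ x) (hqx : q ≠ x) (hn : p * q * x ≠ x * y * z) :
    ∃ a ∈ HX Δ x y z, ∃ b ∈ HX Δ x y z, a ≠ b ∧ x * y * z * (p * q * x) = a * b := by
  have hcm : ∀ {a b : G}, a ∈ HX Δ x y z → b ∈ HX Δ x y z → Commute a b := fun ha hb => T.hcc ha hb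
  have hmem : ∀ v, v = x ∨ v = y ∨ v = z ∨ v = x' ∨ v = y' ∨ v = z' → v ∈ HX Δ x y z := by
    intro v hv; rw [h1]; simpa using hv
  simp only [List.nodup_cons, List.mem_cons, List.not_mem_nil, or_false, not_or] at h2
  obtain ⟨⟨a1, a2, a3, a4, a5⟩, ⟨b1, b2, b3, b4⟩, ⟨c1, c2, c3⟩, ⟨d1, d2⟩, e1, -⟩ := h2
  have mx := hmem x (by tauto)
  have my := hmem y (by tauto)
  have mz := hmem z (by tauto)
  have m4 := hmem x' (by tauto)
  have m5 := hmem y' (by tauto)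
  have m6 := hmem z' (by tauto)
  have sq : ∀ {v : G}, v ∈ HX Δ x y z → v * v = 1 := fun hv => X.inv _ hv.1
  have ky : ∀ m ∈ HX Δ x y z, z ≠ m → ∃ a ∈ HX Δ x y z, ∃ b ∈ HX Δ x y z, a ≠ b ∧ x * y * z * (y * m * x) = a * b :=
    fun m hm hne => ⟨z, mz, m, hm, hne, l6 (sq mx) (sq my) (hcm mx my) (hcm mx mz) (hcm mx hm) (hcm my mz)⟩
  have kz : ∀ m ∈ HX Δ x y z, y ≠ m → ∃ a ∈ HX Δ x y z, ∃ b ∈ HX Δ x y z, a ≠ b ∧ x * y * z * (z * m * x) = a * b :=
    fun m hm hne => ⟨y, my, m, hm, hne, by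
      have e : x * y * z = x * z * y := by rw [mul_assoc, (hcm my mz).eq, ← mul_assoc]
      rw [e]
      exact l6 (sq mx) (sq mz) (hcm mx mz) (hcm mx my) (hcm mx hm) (hcm mz my)⟩
  have k45 : ∃ a ∈ HX Δ x y z, ∃ b ∈ HX Δ x y z, a ≠ b ∧ x * y * z * (x' * y' * x) = a * b :=
    ⟨z', m6, x, mx, Ne.symm a5, by rw [h3]; exact l6' (sq m4) (sq m5) (hcm m4 m5) (hcm m4 m6) (hcm m5 m6)⟩
  have k46 : ∃ a ∈ HX Δ x y z, ∃ b ∈ HX Δ x y z, a ≠ b ∧ x * y * z * (x' * z' * x) = a * b :=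
    ⟨y', m5, x, mx, Ne.symm a4, by
      have e : x' * y' * z' = x' * z' * y' := by rw [mul_assoc, (hcm m5 m6).eq, ← mul_assoc]
      rw [h3, e]
      exact l6' (sq m4) (sq m6) (hcm m4 m6) (hcm m4 m5) (hcm m6 m5)⟩
  have k56 : ∃ a ∈ HX Δ x y z, ∃ b ∈ HX Δ x y z, a ≠ b ∧ x * y * z * (y' * z' * x) = a * b :=
    ⟨x', m4, x, mx, Ne.symm a3, by
      have e : x' * y' * z' = y' * z' * x' := by rw [mul_assoc, ((hcm m4 m5).mul_right (hcm m4 m6)).eq]
      rw [h3, e]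
      exact l6' (sq m5) (sq m6) (hcm m5 m6) (hcm m5 m4) (hcm m6 m4)⟩
  have sw : ∀ {p q : G}, p ∈ HX Δ x y z → q ∈ HX Δ x y z →
      (∃ a ∈ HX Δ x y z, ∃ b ∈ HX Δ x y z, a ≠ b ∧ x * y * z * (p * q * x) = a * b) →
      ∃ a ∈ HX Δ x y z, ∃ b ∈ HX Δ x y z, a ≠ b ∧ x * y * z * (q * p * x) = a * b := by
    intro p q hp hq h
    rw [(hcm hq hp).eq]; exact h
  have hyzx : y * z * x = x * y * z := by rw [((hcm mx my).mul_right (hcm mx mz)).eq.symm, ← mul_assoc]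
  have hzyx : z * y * x = x * y * z := by rw [(hcm mz my).eq]; exact hyzx
  have hp' := hp
  have hq' := hq
  rw [h1] at hp' hq'
  simp only [Set.mem_insert_iff, Set.mem_singleton_iff] at hp' hq'
  rcases hp' with e | e | e | e | e | e
  · exact absurd e hpx
  · rcases hq' with k | k | k | k | k | k
    · exact absurd k hqx
    · exact absurd (e.trans k.symm) hpq
    · rw [e, k] at hn; exact absurd hyzx hn
    · rw [e, k]; exact ky x' m4 c1
    · rw [e, k]; exact ky y' m5 c2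
    · rw [e, k]; exact ky z' m6 c3
  · rcases hq' with k | k | k | k | k | k
    · exact absurd k hqx
    · rw [e, k] at hn; exact absurd hzyx hn
    · exact absurd (e.trans k.symm) hpq
    · rw [e, k]; exact kz x' m4 b2
    · rw [e, k]; exact kz y' m5 b3
    · rw [e, k]; exact kz z' m6 b4
  · rcases hq' with k | k | k | k | k | k
    · exact absurd k hqx
    · rw [e, k]; exact sw my m4 (ky x' m4 c1)
    · rw [e, k]; exact sw mz m4 (kz x' m4 b2)
    · exact absurd (e.trans k.symm) hpq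
    · rw [e, k]; exact k45
    · rw [e, k]; exact k46
  · rcases hq' with k | k | k | k | k | k
    · exact absurd k hqx
    · rw [e, k]; exact sw my m5 (ky y' m5 c2)
    · rw [e, k]; exact sw mz m5 (kz y' m5 b3)
    · rw [e, k]; exact sw m4 m5 k45
    · exact absurd (e.trans k.symm) hpq
    · rw [e, k]; exact k56
  · rcases hq' with k | k | k | k | k | k
    · exact absurd k hqx
    · rw [e, k]; exact sw my m6 (ky z' m6 c3)
    · rw [e, k]; exact sw mz m6 (kz z' m6 b4)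
    · rw [e, k]; exact sw m4 m6 k46
    · rw [e, k]; exact sw m5 m6 k56
    · exact absurd (e.trans k.symm) hpq

theorem hex_norm [Finite G] (T : T3 Δ x y z) {g : G} (hg : Commute g (x * y * z)) :
    HX Δ (g * x * g⁻¹) (g * y * g⁻¹) (g * z * g⁻¹) = HX Δ x y z := by
  classical
  by_contra hne
  obtain ⟨x', y', z', h1, h2, h3⟩ := X.hx x y z T
  obtain ⟨u, hu⟩ : ∃ u, u = x * y * z := ⟨_, rfl⟩
  have hcm : ∀ {a b : G}, a ∈ HX Δ x y z → b ∈ HX Δ x y z → Commute a b := fun ha hb => T.hcc ha hb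
  have hwu : ∀ {w : G}, w ∈ HX Δ x y z → Commute w u := fun hw => by
    rw [hu]; exact ((hcm hw T.memx).mul_right (hcm hw T.memy)).mul_right (hcm hw T.memz)
  have m4 : x' ∈ HX Δ x y z := by rw [h1]; simp
  have hxx' : x ≠ x' := by
    simp only [List.nodup_cons, List.mem_cons, List.not_mem_nil, or_false, not_or] at h2
    exact h2.1.2.2.1
  have hyx' : y ≠ x' := by
    simp only [List.nodup_cons, List.mem_cons, List.not_mem_nil, or_false, not_or] at h2
    exact h2.2.1.2.1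
  have hzx' : z ≠ x' := by
    simp only [List.nodup_cons, List.mem_cons, List.not_mem_nil, or_false, not_or] at h2
    exact h2.2.2.1.1
  have hxx := X.inv x T.mx
  have hx'x' := X.inv x' m4.1
  have hcxx' : Commute x x' := hcm T.memx m4
  have ix : x⁻¹ = x := inv_eq_of_mul_eq_one_left hxx
  -- conjugates of the product
  have hprod : ∀ k, Commute k u → k * x * k⁻¹ * (k * y * k⁻¹) * (k * z * k⁻¹) = u := by
    intro k hk
    calc k * x * k⁻¹ * (k * y * k⁻¹) * (k * z * k⁻¹) = k * (x * y * z) * k⁻¹ := by group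
      _ = k * u * k⁻¹ := by rw [hu]
      _ = u := cj_eq_iff.2 hk
  have hQL : ∀ k, Commute k u → ∀ q ∈ Δ, Commute q x → Commute q y → Commute q z → Commute q (k * x * k⁻¹) →
      Commute q (k * y * k⁻¹) → Commute q (k * z * k⁻¹) → HX Δ x y z = HX Δ (k * x * k⁻¹) (k * y * k⁻¹) (k * z * k⁻¹) :=
    fun k hk q hq a1 a2 a3 b1 b2 b3 => X.ql T (T.conj X k) (by rw [hprod k hk, hu]) hq a1 a2 a3 b1 b2 b3
  -- a common neighbour suffices
  have hQx : ∀ k, Commute k u → Commute x (k * x * k⁻¹) → HX Δ x y z = HX Δ (k * x * k⁻¹) (k * y * k⁻¹) (k * z * k⁻¹) := by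
    intro k hk hc
    have h4 := X.fa (T.conj X k) T.mx (by rw [hprod k hk]; exact hwu T.memx) hc
    exact hQL k hk x T.mx (Commute.refl x) T.cxy T.cxz hc h4.1 h4.2
  obtain ⟨ρ, hρ⟩ : ∃ ρ, ρ = x * x' := ⟨_, rfl⟩
  have hρρ : ρ * ρ = 1 := by
    rw [hρ]
    calc x * x' * (x * x') = x * (x' * x) * x' := by group
      _ = x * (x * x') * x' := by rw [hcxx'.eq]
      _ = (x * x) * (x' * x') := by group
      _ = 1 := by rw [hxx, hx'x', one_mul]
  have hρΔ : ρ ∉ Δ := by rw [hρ]; exact X.two x T.mx x' m4.1 hxx' hcxx'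
  have hρu : Commute ρ u := by rw [hρ]; exact (hwu T.memx).mul_left (hwu m4)
  have huρ : u * ρ ∉ Δ := by
    intro he
    have hue : ∀ {w : G}, w ∈ HX Δ x y z → Commute w (u * ρ) := fun hw => (hwu hw).mul_right (by rw [hρ]; exact (hcm hw T.memx).mul_right (hcm hw m4))
    have h5 : y * z = u * ρ * x' := by
      rw [hρ, hu]
      calc y * z = (x * x) * (y * z) := by rw [hxx, one_mul]
        _ = x * (x * (y * z)) := by group
        _ = x * ((y * z) * x) := by rw [(T.cxy.mul_right T.cxz).eq]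
        _ = x * y * z * x := by group
        _ = x * y * z * (x * (x' * x')) := by rw [hx'x', mul_one]
        _ = x * y * z * (x * x') * x' := by group
    rcases X.pair y T.my z T.mz (u * ρ) he x' m4.1 T.yz T.cyz (hue T.memy) (hcm T.memy m4) (hue T.memz) (hcm T.memz m4)
      (hue m4).symm h5 with h6 | h6
    · rw [h6] at h5
      exact hzx' (mul_left_cancel h5)
    · rw [h6, T.cyz.eq] at h5
      exact hyx' (mul_left_cancel h5)
  have hux : u * x ∉ Δ := by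
    have h5 : u * x = y * z := by
      rw [hu]
      calc x * y * z * x = x * ((y * z) * x) := by group
        _ = x * (x * (y * z)) := by rw [(T.cxy.mul_right T.cxz).eq]
        _ = y * z := by rw [← mul_assoc, hxx, one_mul]
    rw [h5]; exact X.two y T.my z T.mz T.yz T.cyz
  rw [← hu] at hg
  obtain ⟨v, hv⟩ : ∃ v, v = g * ρ * g⁻¹ := ⟨_, rfl⟩
  have hvv : v * v = 1 := by
    rw [hv]
    calc g * ρ * g⁻¹ * (g * ρ * g⁻¹) = g * (ρ * ρ) * g⁻¹ := by group
      _ = 1 := by rw [hρρ]; group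
  have iv : v⁻¹ = v := inv_eq_of_mul_eq_one_left hvv
  have hvu : Commute v u := by
    have h5 : g * u * g⁻¹ = u := cj_eq_iff.2 hg
    rw [hv, ← h5, cm_conj]
    exact hρu
  obtain ⟨Y, hY⟩ : ∃ Y, Y = x * v := ⟨_, rfl⟩
  have hYu : Commute Y u := by rw [hY]; exact (hwu T.memx).mul_left hvu
  have hYx : x * Y * x⁻¹ = Y⁻¹ := by
    rw [hY, ix, mul_inv_rev, iv, ix, ← mul_assoc, hxx, one_mul]
  have hYv : v * Y * v⁻¹ = Y⁻¹ := by
    rw [hY, iv, mul_inv_rev, iv, ix, mul_assoc, mul_assoc, hvv, mul_one]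
  have hYv' : Y * v = x := by rw [hY, mul_assoc, hvv, mul_one]
  have hex : ∃ n, 0 < n ∧ (Y ^ n = 1 ∨ Y ^ n = u) := ⟨orderOf Y, orderOf_pos Y, Or.inl (pow_orderOf_eq_one Y)⟩
  obtain ⟨hn0, hn1⟩ := Nat.find_spec hex
  have hmin : ∀ m, m < Nat.find hex → ¬ (0 < m ∧ (Y ^ m = 1 ∨ Y ^ m = u)) := fun m hm => Nat.find_min hex hm
  generalize Nat.find hex = n at hn0 hn1 hmin
  rcases Nat.even_or_odd n with ⟨m, hm⟩ | ⟨j, hj⟩
  swap
  · -- odd order: conjugate
    have h4 := dih hYx hxx j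
    have h5 : Y ^ (2 * j) * x = Y ^ n * v := by rw [hj, pow_succ, mul_assoc, hYv']
    have h6 : Y ^ n * v ∈ Δ := by rw [← h5, ← h4]; exact X.cj _ x T.mx
    rcases hn1 with h7 | h7
    · rw [h7, one_mul, hv, X.cjm] at h6
      exact hρΔ h6
    · rw [h7, hv] at h6
      have h8 : u * (g * ρ * g⁻¹) = g * (u * ρ) * g⁻¹ := by
        calc u * (g * ρ * g⁻¹) = (u * g) * ρ * g⁻¹ := by group
          _ = (g * u) * ρ * g⁻¹ := by rw [hg.eq]
          _ = g * (u * ρ) * g⁻¹ := by group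
      rw [h8, X.cjm] at h6
      exact huρ h6
  -- even order
  obtain ⟨s, hs⟩ : ∃ s, s = Y ^ m := ⟨_, rfl⟩
  have hm0 : 0 < m := by omega
  have hs1 : s ≠ 1 := fun h => hmin m (by omega) ⟨hm0, Or.inl (by rw [← hs]; exact h)⟩
  have hsu : s ≠ u := fun h => hmin m (by omega) ⟨hm0, Or.inr (by rw [← hs]; exact h)⟩
  have hss : s * s = 1 ∨ s * s = u := by rw [hs, ← pow_add, ← hm]; exact hn1
  have hYm : ∀ k : ℕ, Commute (Y ^ k) u := fun k => hYu.pow_left k
  obtain ⟨k, hk, hr⟩ : ∃ k, Commute k u ∧ (s * x = k * x * k⁻¹ ∨ s * x = k * ρ * k⁻¹) := by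
    rcases Nat.even_or_odd m with ⟨j, hj⟩ | ⟨j, hj⟩
    · refine ⟨Y ^ j, hYm j, Or.inl ?_⟩
      rw [dih hYx hxx j, hs, hj, two_mul]
    · refine ⟨Y ^ (j + 1) * g, (hYm _).mul_left hg, Or.inr ?_⟩
      have h4 := dih hYv hvv (j + 1)
      have h5 : Y ^ (j + 1) * g * ρ * (Y ^ (j + 1) * g)⁻¹ = Y ^ (j + 1) * v * (Y ^ (j + 1))⁻¹ := by rw [hv]; group
      rw [h5, h4, show 2 * (j + 1) = (2 * j + 1) + 1 by ring, pow_succ, mul_assoc, hYv', hs, hj]
  have hxs : x * s * x⁻¹ = s⁻¹ := by rw [hs]; exact inv_pow_conj hYx m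
  have hrx : s * x * x * (s * x)⁻¹ = s * s * x := by
    have h5 : x * s⁻¹ = s * x := by
      have h6 : s = x * s⁻¹ * x⁻¹ := by rw [← hxs, ix]; calc s = (x * x) * s * (x * x) := by rw [hxx]; group
            _ = _ := by group
      calc x * s⁻¹ = x * s⁻¹ * x⁻¹ * x := by group
        _ = s * x := by rw [← h6]
    calc s * x * x * (s * x)⁻¹ = s * (x * s⁻¹) := by rw [mul_inv_rev, ix]; calc s * x * x * (x * s⁻¹) = s * (x * x) * (x * s⁻¹) := by group
            _ = _ := by rw [hxx, mul_one]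
      _ = s * (s * x) := by rw [h5]
      _ = s * s * x := by group
  have hss1 : s * s = 1 := by
    rcases hss with h | h
    · exact h
    · exfalso
      apply hux
      rw [← h, ← hrx]
      exact X.cj _ x T.mx
  have hrc : Commute (s * x) x := by
    apply cj_eq_iff.1
    rw [hrx, hss1, one_mul]
  have his : s⁻¹ = s := inv_eq_of_mul_eq_one_left hss1
  have hvs : Commute v s := by
    apply cj_eq_iff.1
    have := inv_pow_conj hYv m
    rw [← hs, his] at this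
    exact this
  -- the conjugate hexad is the same
  have hxk : Commute x (k * x * k⁻¹) := by
    rcases hr with h | h
    · rw [← h]; exact hrc.symm
    · rw [h, hρ] at hrc
      have h5 : k * (x * x') * k⁻¹ = (k * x * k⁻¹) * (k * x' * k⁻¹) := by group
      rw [h5] at hrc
      exact ((X.zst (X.cj k x T.mx) (X.cj k x' m4.1) (fun h => hxx' ((cj_inj k).1 h)) ((cm_conj k).2 hcxx')).2 x T.mx hrc.symm).1
  have hHk := hQx k hk hxk
  have hkm : ∀ w ∈ HX Δ x y z, k * w * k⁻¹ ∈ HX Δ x y z := fun w hw => by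
    have := X.HX_conj k w hw
    rwa [← hHk] at this
  have hp1 := hkm x T.memx
  have hp2 := hkm x' m4
  have hsr : s = s * x * x := by rw [mul_assoc, hxx, mul_one]
  -- v commutes with a product of at most two members of the hexad
  have hC : (∃ a ∈ HX Δ x y z, Commute v a) ∨ ∃ a ∈ HX Δ x y z, ∃ b ∈ HX Δ x y z, a ≠ b ∧ Commute v (a * b) := by
    rcases hr with h | h
    · right
      refine ⟨_, hp1, x, T.memx, ?_, ?_⟩
      · intro h5
        rw [h5] at h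
        exact hs1 (mul_right_cancel (h.trans (one_mul x).symm))
      · rw [← h, ← hsr]; exact hvs
    · have h5 : s * x = (k * x * k⁻¹) * (k * x' * k⁻¹) := by rw [h, hρ]; group
      have hpq : k * x * k⁻¹ ≠ k * x' * k⁻¹ := fun h => hxx' ((cj_inj k).1 h)
      by_cases hpx : k * x * k⁻¹ = x
      · left
        refine ⟨_, hp2, ?_⟩
        have h6 : s = k * x' * k⁻¹ := by
          rw [hsr, h5, hpx, mul_assoc, (hcm hp2 T.memx).eq, ← mul_assoc, hxx, one_mul]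
        rw [← h6]; exact hvs
      by_cases hqx : k * x' * k⁻¹ = x
      · left
        refine ⟨_, hp1, ?_⟩
        have h6 : s = k * x * k⁻¹ := by
          rw [hsr, h5, hqx, mul_assoc, hxx, mul_one]
        rw [← h6]; exact hvs
      right
      obtain ⟨a, ha, b, hb, hab, he⟩ := X.third T h1 h2 h3 hp1 hp2 hpq hpx hqx (by rw [← h5, ← hsr, ← hu]; exact hsu)
      refine ⟨a, ha, b, hb, hab, ?_⟩
      rw [← he, ← h5, ← hsr, ← hu]
      exact hvu.mul_right hvs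
  obtain ⟨a, ha, hva⟩ : ∃ a ∈ HX Δ x y z, v * a * v⁻¹ ∈ HX Δ x y z := by
    rcases hC with ⟨a, ha, h⟩ | ⟨a, ha, b, hb, hab, h⟩
    · exact ⟨a, ha, by rw [cj_eq_iff.2 h]; exact ha⟩
    · refine ⟨a, ha, ?_⟩
      rcases (X.zst ha.1 hb.1 hab (hcm ha hb)).1 v h with h4 | h4
      · rw [h4]; exact ha
      · rw [h4]; exact hb
  have hHv := hQL v hvu _ hva.1 (hcm hva T.memx) (hcm hva T.memy) (hcm hva T.memz) ((cm_conj v).2 (hcm ha T.memx))
    ((cm_conj v).2 (hcm ha T.memy)) ((cm_conj v).2 (hcm ha T.memz))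
  have hvm : ∀ w ∈ HX Δ x y z, v * w * v⁻¹ ∈ HX Δ x y z := fun w hw => by
    have := X.HX_conj v w hw
    rwa [← hHv] at this
  -- the hexad conjugate by g⁻¹
  have T'' := T.conj X g⁻¹
  have hback : ∀ a : G, g * (g⁻¹ * a * (g⁻¹)⁻¹) * g⁻¹ = a := fun a => by group
  have hgm : ∀ w ∈ HX Δ (g⁻¹ * x * (g⁻¹)⁻¹) (g⁻¹ * y * (g⁻¹)⁻¹) (g⁻¹ * z * (g⁻¹)⁻¹), g * w * g⁻¹ ∈ HX Δ x y z := fun w hw => by
    have := X.HX_conj g w hw
    rwa [hback, hback, hback] at this
  have hρm : ∀ w ∈ HX Δ (g⁻¹ * x * (g⁻¹)⁻¹) (g⁻¹ * y * (g⁻¹)⁻¹) (g⁻¹ * z * (g⁻¹)⁻¹),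
      ρ * w * ρ⁻¹ ∈ HX Δ (g⁻¹ * x * (g⁻¹)⁻¹) (g⁻¹ * y * (g⁻¹)⁻¹) (g⁻¹ * z * (g⁻¹)⁻¹) := by
    intro w hw
    have h4 := X.HX_conj g⁻¹ _ (hvm _ (hgm w hw))
    have h5 : g⁻¹ * (v * (g * w * g⁻¹) * v⁻¹) * (g⁻¹)⁻¹ = ρ * w * ρ⁻¹ := by rw [hv]; group
    rwa [h5] at h4
  have iρ : ρ⁻¹ = ρ := inv_eq_of_mul_eq_one_left hρρ
  obtain ⟨B'', hB'', hsub⟩ := X.exists_bs (S := HX Δ (g⁻¹ * x * (g⁻¹)⁻¹) (g⁻¹ * y * (g⁻¹)⁻¹) (g⁻¹ * z * (g⁻¹)⁻¹)) (fun w hw => hw.1)
    (fun w hw w' hw' => T''.hcc hw hw')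
  obtain ⟨C, hC⟩ : ∃ C, C = Subgroup.centralizer (HX Δ (g⁻¹ * x * (g⁻¹)⁻¹) (g⁻¹ * y * (g⁻¹)⁻¹) (g⁻¹ * z * (g⁻¹)⁻¹)) := ⟨_, rfl⟩
  have hCm : ∀ c, c ∈ C ↔ ∀ w ∈ HX Δ (g⁻¹ * x * (g⁻¹)⁻¹) (g⁻¹ * y * (g⁻¹)⁻¹) (g⁻¹ * z * (g⁻¹)⁻¹), Commute w c := fun c => by
    rw [hC, Subgroup.mem_centralizer_iff]
    exact ⟨fun h w hw => h w hw, fun h w hw => (h w hw).eq⟩
  obtain ⟨B', hB', hB'C, hρB'⟩ := X.exists_norm hB'' (fun b hb => (hCm b).2 (fun w hw => hB''.com w (hsub hw) b hb)) hρρ (by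
    intro c hc
    rw [hCm] at hc ⊢
    intro w hw
    have h4 := hc _ (hρm w hw)
    rw [← cm_conj ρ] at h4
    have h5 : ρ * (ρ * w * ρ⁻¹) * ρ⁻¹ = w := by
      calc ρ * (ρ * w * ρ⁻¹) * ρ⁻¹ = (ρ * ρ) * w * (ρ * ρ)⁻¹ := by group
        _ = w := by rw [hρρ]; simp
    rwa [h5] at h4)
  obtain ⟨q, hq, hρq⟩ := X.exists_fix hB' hρρ hρB'
  have hqΔ := hB'.sub q hq
  have hqc := (hCm q).1 (hB'C q hq)
  have hqx : Commute q x := by
    rw [hρ] at hρq
    exact ((X.zst T.mx m4.1 hxx' hcxx').2 q hqΔ hρq.symm).1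
  have hqu : Commute q u := by
    have hginv : Commute g⁻¹ u := hg.inv_left
    rw [← hprod g⁻¹ hginv]
    exact ((hqc _ T''.memx).symm.mul_right (hqc _ T''.memy).symm).mul_right (hqc _ T''.memz).symm
  obtain ⟨hqy, hqz⟩ := X.fa T hqΔ (by rw [← hu]; exact hqu) hqx
  have hfin := hQL g⁻¹ hg.inv_left q hqΔ hqx hqy hqz (hqc _ T''.memx).symm (hqc _ T''.memy).symm (hqc _ T''.memz).symm
  rw [← hfin] at hgm
  apply hne
  have Tg := T.conj X g
  exact X.eq_of_mem T (hgm x T.memx) (hgm y T.memy) (hgm z T.memz) Tg.xy Tg.xz Tg.yz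

/-- members commuting with a product of three commute with the hexad -/
theorem fd [Finite G] (T : T3 Δ x y z) {p : G} (hp : p ∈ Δ) (hu : Commute p (x * y * z)) :
    Commute p x ∧ Commute p y ∧ Commute p z := by
  have h1 := X.hex_norm T hu
  have h2 := X.HX_conj p x T.memx
  rw [h1] at h2
  have h3 := X.comm_of_conj hp T.mx (T.hcx h2).symm
  exact ⟨h3, X.fa T hp hu h3⟩

end Geo

end Cfsg.Agent.Lib.H89FB
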