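import Cfsg.Agent.Lib.H89FB4
/-
The commuting geometry: two members have a common neighbour (helper89).
-/
set_option autoImplicit false
set_option linter.all false

namespace Cfsg.Agent.Lib.H89FB

universe w'

variable {G : Type w'} [Group G]

/-- further properties of the geometry: common neighbours -/
structure Nb (Δ : Set G) : Prop where
  nb : ∀ c ∈ Δ, ∀ a ∈ Δ, ∀ a' ∈ Δ, Commute a c → Commute a' c → ∃ y ∈ Δ, y ≠ c ∧ Commute y c ∧ Commute y a ∧ Commute y a'
  nb4 : ∀ c ∈ Δ, ∀ y ∈ Δ, c ≠ y → Commute c y → ∀ a ∈ Δ, ∀ a' ∈ Δ, Commute a c → Commute a y → Commute a' c → Commute a' y →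
    ¬ Commute a a' → ∃ p ∈ Δ, p ≠ c ∧ p ≠ y ∧ Commute p c ∧ Commute p y ∧ Commute p a ∧ Commute p a'

theorem norm_cent {S : Set G} {t : G} (htt : t * t = 1) (hS : ∀ s ∈ S, t * s * t⁻¹ ∈ S) :
    ∀ c ∈ Subgroup.centralizer S, t * c * t⁻¹ ∈ Subgroup.centralizer S := by
  intro c hc
  rw [Subgroup.mem_centralizer_iff] at hc ⊢
  intro w hw
  have h4 : Commute (t * w * t⁻¹) c := hc _ (hS w hw)
  rw [← cm_conj t] at h4
  have h5 : t * (t * w * t⁻¹) * t⁻¹ = w := by
    calc t * (t * w * t⁻¹) * t⁻¹ = (t * t) * w * (t * t)⁻¹ := by group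
      _ = w := by rw [htt]; simp
  rw [h5] at h4
  exact h4

theorem mem_cent {S : Set G} {c : G} : c ∈ Subgroup.centralizer S ↔ ∀ w ∈ S, Commute c w := by
  rw [Subgroup.mem_centralizer_iff]
  exact ⟨fun h w hw => (show Commute w c from h w hw).symm, fun h w hw => (h w hw).symm.eq⟩

/-- two involutions that are not conjugate commute with a common involution -/
theorem exists_mid [Finite G] {b z : G} (hbb : b * b = 1) (hzz : z * z = 1) (h : ∀ k : G, k * b * k⁻¹ ≠ z) :
    ∃ t, t * t = 1 ∧ t ≠ 1 ∧ Commute t b ∧ Commute t z := by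
  have ib : b⁻¹ = b := inv_eq_of_mul_eq_one_left hbb
  have iz : z⁻¹ = z := inv_eq_of_mul_eq_one_left hzz
  obtain ⟨y, hy⟩ : ∃ y, y = z * b := ⟨_, rfl⟩
  have hby : b * y * b⁻¹ = y⁻¹ := by
    rw [hy, mul_inv_rev, iz, ib]
    calc b * (z * b) * b = b * z * (b * b) := by group
      _ = b * z := by rw [hbb, mul_one]
  have hzy : z * y * z⁻¹ = y⁻¹ := by
    rw [hy, mul_inv_rev, iz, ib]
    calc z * (z * b) * z = (z * z) * b * z := by group
      _ = b * z := by rw [hzz, one_mul]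
  rcases Nat.even_or_odd (orderOf y) with ⟨m, hm⟩ | ⟨m, hm⟩
  · have hpos : 0 < orderOf y := orderOf_pos y
    have h1 : y ^ m * y ^ m = 1 := by rw [← pow_add, ← hm, pow_orderOf_eq_one]
    have h2 : (y ^ m)⁻¹ = y ^ m := inv_eq_of_mul_eq_one_left h1
    refine ⟨y ^ m, h1, ?_, ?_, ?_⟩
    · intro h3
      have := orderOf_dvd_of_pow_eq_one h3
      have := Nat.le_of_dvd (by omega) this
      omega
    · apply Commute.symm; apply cj_eq_iff.1; rw [inv_pow_conj hby, h2]
    · apply Commute.symm; apply cj_eq_iff.1; rw [inv_pow_conj hzy, h2]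
  · exfalso
    apply h (b * y ^ m)
    have h1 := dih hby hbb m
    have h2 : y ^ (2 * m) = b * z := by
      have h3 : y ^ (2 * m) * y = 1 := by rw [← pow_succ, ← hm, pow_orderOf_eq_one]
      rw [eq_inv_of_mul_eq_one_left h3, hy, mul_inv_rev, iz, ib]
    calc b * y ^ m * b * (b * y ^ m)⁻¹ = b * (y ^ m * b * (y ^ m)⁻¹) * b⁻¹ := by group
      _ = b * (y ^ (2 * m) * b) * b⁻¹ := by rw [h1]
      _ = b * (b * z * b) * b := by rw [h2, ib]
      _ = (b * b) * z * (b * b) := by group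
      _ = z := by rw [hbb, one_mul, mul_one]

/-! ### the swapping involution -/

/-- the product of `b` and its conjugate under `c y` -/
def sw (b c y : G) : G := b * (c * y * b * (c * y)⁻¹)

section

variable {b c y : G} (hbb : b * b = 1) (hcc : c * c = 1) (hyy : y * y = 1) (hcy : Commute c y) (h1 : b * c * b = c * b * c)
  (h2 : b * y * b = y * b * y)
include hbb hcc hyy hcy h1 h2

theorem sw_eq : sw b c y = c * b * (c * y) * (c * b)⁻¹ := by
  have ib : b⁻¹ = b := inv_eq_of_mul_eq_one_left hbb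
  have ic : c⁻¹ = c := inv_eq_of_mul_eq_one_left hcc
  have iy : y⁻¹ = y := inv_eq_of_mul_eq_one_left hyy
  have hyc : y * c * y = c := by rw [hcy.symm.eq, mul_assoc, hyy, mul_one]
  rw [sw, mul_inv_rev, mul_inv_rev, ib, ic, iy]
  calc b * (c * y * b * (y * c)) = (b * c * (b * b) * y * b) * (y * c) := by rw [hbb]; group
    _ = (b * c * b) * (b * y * b) * (y * c) := by group
    _ = (c * b * c) * (y * b * y) * (y * c) := by rw [h1, h2]
    _ = c * b * (c * y) * b * (y * y) * c := by group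
    _ = c * b * (c * y) * (b * c) := by rw [hyy]; group

theorem sw_sq : sw b c y * sw b c y = 1 := by
  rw [sw_eq hbb hcc hyy hcy h1 h2]
  calc c * b * (c * y) * (c * b)⁻¹ * (c * b * (c * y) * (c * b)⁻¹) = c * b * (c * y * (c * y)) * (c * b)⁻¹ := by group
    _ = c * b * (c * (y * c) * y) * (c * b)⁻¹ := by group
    _ = c * b * ((c * c) * (y * y)) * (c * b)⁻¹ := by rw [hcy.symm.eq]; group
    _ = 1 := by rw [hcc, hyy]; group

theorem sw_bb : Commute b (c * y * b * (c * y)⁻¹) := by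
  have h3 := sw_sq hbb hcc hyy hcy h1 h2
  rw [sw] at h3
  obtain ⟨b', hb'⟩ : ∃ b', b' = c * y * b * (c * y)⁻¹ := ⟨_, rfl⟩
  rw [← hb'] at h3 ⊢
  have hb2 : b' * b' = 1 := by
    rw [hb']
    calc c * y * b * (c * y)⁻¹ * (c * y * b * (c * y)⁻¹) = c * y * (b * b) * (c * y)⁻¹ := by group
      _ = 1 := by rw [hbb]; group
  show b * b' = b' * b
  calc b * b' = b * b' * (b * b) := by rw [hbb, mul_one]
    _ = (b * b' * b) * (b' * b') * b := by rw [hb2]; group
    _ = (b * b' * (b * b')) * b' * b := by group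
    _ = b' * b := by rw [h3, one_mul]

theorem sw_b : Commute (sw b c y) b := by
  rw [sw]
  exact (Commute.refl b).mul_left (sw_bb hbb hcc hyy hcy h1 h2).symm

theorem sw_c : sw b c y * c * (sw b c y)⁻¹ = y := by
  have ib : b⁻¹ = b := inv_eq_of_mul_eq_one_left hbb
  have ic : c⁻¹ = c := inv_eq_of_mul_eq_one_left hcc
  have iy : y⁻¹ = y := inv_eq_of_mul_eq_one_left hyy
  have e1 : c * y * c = y := by rw [hcy.eq, mul_assoc, hcc, mul_one]
  have e2 : y * c * c = y := by rw [mul_assoc, hcc, mul_one]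
  rw [sw]
  simp only [mul_inv_rev, inv_inv, ib, ic, iy]
  -- `b c y b y c · c · c y b y c b`
  calc b * (c * y * b * (y * c)) * c * (c * y * (b * (y * c)) * b)
      = b * c * y * b * y * (c * c) * (c * y * b * y * c * b) := by group
    _ = b * c * y * b * (y * c * y) * b * y * c * b := by rw [hcc]; group
    _ = b * c * y * (b * c * b) * y * c * b := by rw [hcy.symm.eq, mul_assoc c y y, hyy]; group
    _ = b * c * y * (c * b * c) * y * c * b := by rw [h1]
    _ = b * (c * y * c) * b * (c * y * c) * b := by group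
    _ = b * y * b * y * b := by rw [e1]
    _ = (b * y * b) * (y * b) := by group
    _ = y * b * (y * y) * b := by rw [h2]; group
    _ = y := by rw [hyy, mul_one, mul_assoc, hbb, mul_one]

theorem sw_y : sw b c y * y * (sw b c y)⁻¹ = c := by
  have h3 := sw_sq hbb hcc hyy hcy h1 h2
  have h4 := sw_c hbb hcc hyy hcy h1 h2
  obtain ⟨t, ht⟩ : ∃ t, t = sw b c y := ⟨_, rfl⟩
  rw [← ht] at h3 h4 ⊢
  have it : t⁻¹ = t := inv_eq_of_mul_eq_one_left h3
  rw [← h4]
  calc t * (t * c * t⁻¹) * t⁻¹ = (t * t) * c * (t * t)⁻¹ := by group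
    _ = c := by rw [h3]; simp

end

variable {Δ : Set G} (X : Geo Δ)
include X

namespace Geo

/-- involutions are dominated by members -/
theorem dom [Finite G] {t : G} (htt : t * t = 1) (ht1 : t ≠ 1) : ∃ w ∈ Δ, ∀ p ∈ Δ, Commute p t → Commute p w := by
  obtain ⟨d, hd⟩ := X.ne
  obtain ⟨B, hB, -⟩ := X.exists_bs (S := {d}) (by rintro x rfl; exact hd) (by rintro x rfl y rfl; exact Commute.refl _)
  obtain ⟨B', hB', -, ht⟩ := X.exists_norm (Y := ⊤) hB (fun _ _ => trivial) htt (fun _ _ => trivial)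
  obtain ⟨e, he, hte⟩ := X.exists_fix hB' htt ht
  rcases X.nf e (hB'.sub e he) t htt ht1 hte with h | ⟨a, ha, b, hb, hab, hc, rfl⟩ | ⟨a, b, c, T, rfl⟩
  · exact ⟨t, h, fun p hp h => h⟩
  · exact ⟨a, ha, fun p hp h => ((X.zst ha hb hab hc).2 p hp h).1⟩
  · exact ⟨a, T.mx, fun p hp h => (X.fd T hp h).1⟩

/-- an invariant base over an invariant commuting set, and a fixed member -/
theorem fix_over [Finite G] {S : Set G} (hS : ∀ x ∈ S, x ∈ Δ) (hc : ∀ x ∈ S, ∀ y ∈ S, Commute x y) {t : G} (htt : t * t = 1)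
    (ht : ∀ s ∈ S, t * s * t⁻¹ ∈ S) : ∃ q ∈ Δ, Commute q t ∧ ∀ s ∈ S, Commute q s := by
  obtain ⟨B, hB, hSB⟩ := X.exists_bs hS hc
  obtain ⟨B', hB', hBY, htB⟩ := X.exists_norm (Y := Subgroup.centralizer S) hB (fun x hx => mem_cent.2 (fun s hs => hB.com x hx s (hSB hs)))
    htt (norm_cent htt ht)
  obtain ⟨q, hq, htq⟩ := X.exists_fix hB' htt htB
  exact ⟨q, hB'.sub q hq, htq.symm, mem_cent.1 (hBY q hq)⟩

theorem path3 [Finite G] (N : Nb Δ) {b x : G} (hb : b ∈ Δ) (hx : x ∈ Δ) :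
    ∃ w ∈ Δ, ∃ q ∈ Δ, Commute b w ∧ Commute w q ∧ Commute q x := by
  obtain ⟨y, hy, hyx, hcyx, -, -⟩ := N.nb x hx x hx x hx (Commute.refl x) (Commute.refl x)
  have hxx := X.inv x hx
  have hyy := X.inv y hy
  have hzz : x * y * (x * y) = 1 := by
    calc x * y * (x * y) = x * (y * x) * y := by group
      _ = (x * x) * (y * y) := by rw [hcyx.eq]; group
      _ = 1 := by rw [hxx, hyy, one_mul]
  have hzΔ := X.two x hx y hy (Ne.symm hyx) hcyx.symm
  obtain ⟨t, htt, ht1, htb, htz⟩ := exists_mid (X.inv b hb) hzz (fun k hk => hzΔ (by rw [← hk]; exact X.cj k b hb))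
  obtain ⟨w, hw, hdom⟩ := X.dom htt ht1
  have hst := (X.zst hx hy (Ne.symm hyx) hcyx.symm).1 t htz
  have hz' : t * (x * y) * t⁻¹ = x * y := cj_eq_iff.2 htz
  have hty : t * y * t⁻¹ = (t * x * t⁻¹)⁻¹ * (x * y) := by
    rw [← hz']; group
  have ix : x⁻¹ = x := inv_eq_of_mul_eq_one_left hxx
  have iy : y⁻¹ = y := inv_eq_of_mul_eq_one_left hyy
  obtain ⟨q, hq, hqt, hqS⟩ := X.fix_over (S := {x, y}) (by rintro s (rfl | rfl); exacts [hx, hy])
    (by rintro s (rfl | rfl) s' (rfl | rfl); exacts [Commute.refl _, hcyx.symm, hcyx, Commute.refl _]) htt (by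
      rcases hst with h | h
      · rintro s (rfl | rfl)
        · left; exact h
        · right
          show t * s * t⁻¹ = s
          rw [hty, h, ix, ← mul_assoc, hxx, one_mul]
      · rintro s (rfl | rfl)
        · right; exact h
        · left
          show t * s * t⁻¹ = x
          rw [hty, h, iy, hcyx.symm.eq, ← mul_assoc, hyy, one_mul])
  exact ⟨w, hw, q, hq, hdom b hb htb.symm, (hdom q hq hqt).symm, hqS x (Set.mem_insert _ _)⟩

/-- the subgroup of a product of an involution and a normalized subgroup, and a commuting set in it -/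
theorem exists_norm' [Finite G] {Y : Subgroup G} {S : Set G} (hS : ∀ x ∈ S, x ∈ Δ) (hc : ∀ x ∈ S, ∀ y ∈ S, Commute x y)
    (hSY : ∀ x ∈ S, x ∈ Y) {t : G} (htt : t * t = 1) (ht : ∀ y ∈ Y, t * y * t⁻¹ ∈ Y) :
    ∃ m, (m ∈ Y ∨ m * t ∈ Y) ∧ ∃ E : Set G, (∀ x ∈ E, x ∈ Δ ∧ x ∈ Y) ∧ (∀ x ∈ E, ∀ y ∈ E, Commute x y) ∧
      (∀ x ∈ E, t * x * t⁻¹ ∈ E) ∧ ∀ x ∈ S, m * x * m⁻¹ ∈ E := by
  have it : t⁻¹ = t := inv_eq_of_mul_eq_one_left htt
  let M : Subgroup G := {
    carrier := {x | x ∈ Y ∨ x * t ∈ Y}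
    mul_mem' := by
      rintro a b (ha | ha) (hb | hb)
      · left; exact Y.mul_mem ha hb
      · right; rw [mul_assoc]; exact Y.mul_mem ha hb
      · right
        have : a * b * t = (a * t) * (t * b * t⁻¹) := by rw [it]; calc a * b * t = a * (t * t) * b * t := by rw [htt, mul_one]
              _ = _ := by group
        rw [this]; exact Y.mul_mem ha (ht b hb)
      · left
        have : a * b = (a * t) * (t * (b * t) * t⁻¹) := by
          calc a * b = a * (t * t) * b := by rw [htt, mul_one]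
            _ = (a * t) * (t * (b * t) * t⁻¹) := by group
        rw [this]; exact Y.mul_mem ha (ht _ hb)
    one_mem' := Or.inl Y.one_mem
    inv_mem' := by
      rintro a (ha | ha)
      · left; exact Y.inv_mem ha
      · right
        have : a⁻¹ * t = t * (a * t)⁻¹ * t⁻¹ := by
          rw [mul_inv_rev, it]
          calc a⁻¹ * t = (t * t) * a⁻¹ * t := by rw [htt, one_mul]
            _ = t * (t * a⁻¹) * t := by group
        show a⁻¹ * t ∈ Y
        rw [this]; exact ht _ (Y.inv_mem ha) }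
  have hYM : ∀ y ∈ Y, y ∈ M := fun y hy => Or.inl hy
  have htM : t ∈ M := Or.inr (by rw [htt]; exact Y.one_mem)
  have hnorm : ∀ m ∈ M, ∀ y ∈ Y, m * y * m⁻¹ ∈ Y := by
    rintro m (hm | hm) y hy
    · exact Y.mul_mem (Y.mul_mem hm hy) (Y.inv_mem hm)
    · have : m * y * m⁻¹ = (m * t) * (t * y * t⁻¹) * (m * t)⁻¹ := by
        rw [mul_inv_rev]
        calc m * y * m⁻¹ = m * (t * t) * y * (t⁻¹ * t⁻¹) * m⁻¹ := by rw [htt, ← mul_inv_rev, htt]; group
          _ = _ := by group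
      rw [this]; exact Y.mul_mem (Y.mul_mem hm (ht y hy)) (Y.inv_mem hm)
  have hP : Subgroup.zpowers t ≤ M := by rw [Subgroup.zpowers_le]; exact htM
  have hP2 : IsPGroup 2 (Subgroup.zpowers t) := pgroup_of_sq (fun a ha => by
    rcases (mem_zp htt a).1 ha with rfl | rfl
    · rw [one_mul]
    · exact htt)
  obtain ⟨P, hS1, hS2⟩ := exists_syl hP hP2
  have hAM : Subgroup.closure S ≤ M := (Subgroup.closure_le M).2 (fun x hx => hYM x (hSY x hx))
  obtain ⟨m, hm, hmA⟩ := hS2 _ hAM (pgroup_of_sq (closure_sq (fun x hx => X.inv x (hS x hx)) hc).1)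
  set T := (P : Subgroup M).map M.subtype with hT
  have hT2 : IsPGroup 2 T := P.2.map _
  have htT : t ∈ T := ⟨_, hS1 t (Subgroup.mem_zpowers t), rfl⟩
  refine ⟨m, hm, {x | x ∈ Δ ∧ x ∈ Y ∧ x ∈ T}, fun x hx => ⟨hx.1, hx.2.1⟩, ?_, ?_, ?_⟩
  · rintro x ⟨hx, -, hxT⟩ y ⟨hy, -, hyT⟩
    obtain ⟨k, hk⟩ := (IsPGroup.iff_orderOf.1 hT2) ⟨x * y, T.mul_mem hxT hyT⟩
    have hk' : orderOf (x * y) = 2 ^ k := by rw [← hk, ← Subgroup.orderOf_coe]
    rcases Nat.eq_zero_or_pos k with h0 | h0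
    · rw [h0, pow_zero, orderOf_eq_one_iff] at hk'
      have : x = y := by
        rw [eq_inv_of_mul_eq_one_left hk', inv_eq_of_mul_eq_one_left (X.inv y hy)]
      rw [this]
    · exact X.comm_of_even hx hy (by rw [hk']; exact (Nat.even_pow.2 ⟨even_two, by omega⟩))
  · rintro x ⟨hx, hxY, hxT⟩
    exact ⟨X.cj t x hx, ht x hxY, T.mul_mem (T.mul_mem htT hxT) (T.inv_mem htT)⟩
  · intro x hx
    obtain ⟨h, h'⟩ := hmA x (Subgroup.subset_closure hx)
    exact ⟨X.cj m x (hS x hx), hnorm m hm x (hSY x hx), ⟨_, h', rfl⟩⟩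

/-- braid relation for members with a common neighbour -/
theorem brd {q b c : G} (hq : q ∈ Δ) (hb : b ∈ Δ) (hc : c ∈ Δ) (h1 : Commute b q) (h2 : Commute c q) (h : ¬ Commute b c) :
    b * c * b = c * b * c := X.three q hq b hb c hc h1 h2 h

theorem lemP [Finite G] {b c y p p' r r' q : G} (hb : b ∈ Δ) (hc : c ∈ Δ) (hy : y ∈ Δ) (hp : p ∈ Δ) (hp' : p' ∈ Δ) (hr : r ∈ Δ)
    (hr' : r' ∈ Δ) (hq : q ∈ Δ) (hbc : ¬ Commute b c) (hby : ¬ Commute b y) (qb : Commute b q) (qc : Commute c q) (qy : Commute y q)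
    (qp : Commute p q) (cy : Commute c y) (cp : Commute c p) (cp' : Commute c p') (cr : Commute c r)
    (yp : Commute y p) (yp' : Commute y p') (yr : Commute y r) (pp' : Commute p p') (rr' : Commute r r')
    (hp1 : sw b c y * p * (sw b c y)⁻¹ = p') (hr1 : sw b c y * r * (sw b c y)⁻¹ = r') (hpp : p ≠ p') (hrr : r ≠ r')
    (hprod : c * y * p = p' * r * r') : False := by
  have hbb := X.inv b hb
  have hcc := X.inv c hc
  have hyy := X.inv y hy
  have hp2 := X.inv p hp
  have hp'2 := X.inv p' hp'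
  have B1 := X.brd hq hb hc qb qc hbc
  have B2 := X.brd hq hb hy qb qy hby
  have hfix : ∀ {w : G}, Commute b w → Commute c w → Commute y w → sw b c y * w * (sw b c y)⁻¹ = w := by
    intro w k1 k2 k3
    apply cj_eq_iff.2
    rw [sw]
    exact k1.mul_left (((k2.mul_left k3).mul_left k1).mul_left (k2.mul_left k3).inv_left)
  have hbp : ¬ Commute b p := fun h => hpp (by rw [← hp1, hfix h cp yp])
  have B3 := X.brd hq hb hp qb qp hbp
  have C1 : Commute b (p * c * b * (p * c)⁻¹) := sw_bb hbb hp2 hcc cp.symm B3 B1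
  have C2 : Commute b (p * y * b * (p * y)⁻¹) := sw_bb hbb hp2 hyy yp.symm B3 B2
  have C3 : Commute b (sw b c y) := (sw_b hbb hcc hyy cy B1 B2).symm
  have hsc := sw_c hbb hcc hyy cy B1 B2
  obtain ⟨t, ht⟩ : ∃ t, t = sw b c y := ⟨_, rfl⟩
  rw [← ht] at hp1 hr1 C3 hsc hfix
  have e1 : p * c * t * (p * c)⁻¹ = (p * c * b * (p * c)⁻¹) * (p * y * b * (p * y)⁻¹) := by
    rw [ht, sw]
    have e2 : p * c * (c * y) = p * y := by
      calc p * c * (c * y) = p * (c * c) * y := by group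
        _ = p * y := by rw [hcc, mul_one]
    calc p * c * (b * (c * y * b * (c * y)⁻¹)) * (p * c)⁻¹ = (p * c * b * (p * c)⁻¹) * ((p * c * (c * y)) * b * (p * c * (c * y))⁻¹) := by
          group
      _ = _ := by rw [e2]
  have e3 : p * c * t * (p * c)⁻¹ * t⁻¹ = p * c * (p' * y)⁻¹ := by
    calc p * c * t * (p * c)⁻¹ * t⁻¹ = p * c * ((t * p * t⁻¹) * (t * c * t⁻¹))⁻¹ := by group
      _ = _ := by rw [hp1, hsc]
  have C4 : Commute b (p * c * (p' * y)⁻¹) := by
    rw [← e3, e1]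
    exact (C1.mul_right C2).mul_right C3.inv_right
  have e4 : p * c * (p' * y)⁻¹ = r * r' := by
    have iy : y⁻¹ = y := inv_eq_of_mul_eq_one_left hyy
    have ip' : p'⁻¹ = p' := inv_eq_of_mul_eq_one_left hp'2
    rw [mul_inv_rev, iy, ip']
    have e5 : p * c * (y * p') = p' * (c * y * p) := by
      have h5 : Commute p' (c * y * p) := (cp'.symm.mul_right yp'.symm).mul_right pp'.symm
      rw [h5.eq]
      calc p * c * (y * p') = (p * (c * y)) * p' := by group
        _ = (c * y * p) * p' := by rw [(cp.symm.mul_right yp.symm).eq]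
    rw [e5, hprod]
    calc p' * (p' * r * r') = (p' * p') * (r * r') := by group
      _ = r * r' := by rw [hp'2, one_mul]
  rw [e4] at C4
  have hbr := ((X.zst hr hr' hrr rr').2 b hb C4).1
  exact hrr (by rw [← hr1, hfix hbr cr yr])

end Geo

end Cfsg.Agent.Lib.H89FB
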