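import Cfsg.Agent.Lib.H89FA4
import Cfsg.Agent.Lib.FiPsu73
/-
Involution centralizers of type 2.U6(2): the class of the involution is a class of 3-transpositions (helper89).
-/
set_option autoImplicit false
set_option linter.all false

namespace Cfsg.Agent.Lib.H89FC

open Module Cfsg Cfsg.Agent.Lib.UnTrans Cfsg.Agent.Lib.UnBridge Cfsg.Agent.Lib.H89EA Cfsg.Agent.Lib.H89EB
open Cfsg.Agent.Lib.H89EC Cfsg.Agent.Lib.H89ED Cfsg.Agent.Lib.H89EE Cfsg.Agent.Lib.H89EF Cfsg.Agent.Lib.H89FA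
open Cfsg.Agent.Lib.U6Class hiding TI
open Cfsg.Agent.Lib.SpTrans (isom mem_isom)
open Cfsg.Agent.Lib.H89FB (T3 HX Bs HX_swap HX_swap' cm_conj cj_inj cj_eq_iff)
open Cfsg.Agent.Lib.ThreeRank3 (Dd)
open Cfsg.Agent.Lib.ThreeQuot (HH QQ NoCentral)

universe v w w'

theorem closure_cj {G : Type*} [Group G] {S T : Set G} {g : G} (h : ∀ s ∈ S, g * s * g⁻¹ ∈ T) :
    ∀ x ∈ Subgroup.closure S, g * x * g⁻¹ ∈ Subgroup.closure T := by
  intro x hx
  induction hx using Subgroup.closure_induction with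
  | mem x hx => exact Subgroup.subset_closure (h x hx)
  | one => simp
  | mul a b _ _ ha hb =>
    have : g * (a * b) * g⁻¹ = (g * a * g⁻¹) * (g * b * g⁻¹) := by group
    rw [this]; exact mul_mem ha hb
  | inv a _ ha =>
    have : g * a⁻¹ * g⁻¹ = (g * a * g⁻¹)⁻¹ := by group
    rw [this]; exact inv_mem ha

theorem quot_equiv {G : Type*} [Group G] {A B : Subgroup G} (h : A = B) (Z : Subgroup B) [hZn : Z.Normal] (hZ : Z = Subgroup.center B) :
    Nonempty ((A ⧸ Subgroup.center A) ≃* (B ⧸ Z)) := by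
  subst h
  subst hZ
  exact ⟨MulEquiv.refl _⟩

variable {F : Type} [Field F] [Fintype F] [CharP F 2] {V : Type v} [AddCommGroup V] [Module F V] {f : V → V → F}
  {hF : Fintype.card F = 2 ^ 2} {H : HS (sig hF) f} {G : Type w'} [Group G] {Δ : Set G}

section

variable (Y : CD H Δ)
include Y

theorem mem_cl {d : G} (hd : d ∈ Δ) : d ∈ Subgroup.closure (Dd Δ d) := by
  obtain ⟨τ, X⟩ := Y.ch d hd
  obtain ⟨u, hu, hu0⟩ := exists_isov X.hv
  obtain ⟨v, hv, huv, hne⟩ := ext1 X.hv hu hu0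
  obtain ⟨ω, hω0, hω1, hω, hsω, hall⟩ := exists_omega hF
  obtain ⟨z', hz', huz, hvz, hli⟩ := ext2 X.hv hu hv huv hu0 hne
  have hL : τ u * τ v * τ (u + v) * τ (u + ω • v) * τ (u + (ω + 1) • v) = d :=
    X.line ω hω hsω ![u, v, z'] (orth3 H hu hv hz' huv huz hvz) hli
  have hm : ∀ a b : F, (a ≠ 0 ∨ b ≠ 0) → τ (a • u + b • v) ∈ Subgroup.closure (Dd Δ d) := by
    intro a b hab
    have h0 : a • u + b • v ≠ 0 := by
      intro h
      have h3 := Fintype.linearIndependent_iff.1 hli ![a, b, 0] (by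
        rw [Fin.sum_univ_three]
        show a • u + b • v + (0 : F) • z' = 0
        rw [h, zero_smul, add_zero])
      rcases hab with h4 | h4
      · exact h4 (h3 0)
      · exact h4 (h3 1)
    obtain ⟨m1, m2, m3⟩ := X.mem _ (iso_lin H hu hv huv a b) h0
    exact Subgroup.subset_closure ⟨m1, m2, m3.symm⟩
  have k1 := hm 1 0 (Or.inl one_ne_zero)
  have k2 := hm 0 1 (Or.inr one_ne_zero)
  have k3 := hm 1 1 (Or.inl one_ne_zero)
  have k4 := hm 1 ω (Or.inl one_ne_zero)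
  have k5 := hm 1 (ω + 1) (Or.inl one_ne_zero)
  simp only [one_smul, zero_smul, add_zero, zero_add] at k1 k2 k3 k4 k5
  have h := mul_mem (mul_mem (mul_mem (mul_mem k1 k2) k3) k4) k5
  rwa [hL] at h

theorem cl_Dd {d : G} (hd : d ∈ Δ) : Subgroup.closure (Dd Δ d) = Subgroup.closure {x | x ∈ Δ ∧ Commute d x} := by
  apply le_antisymm
  · apply Subgroup.closure_mono
    rintro x ⟨h1, -, h2⟩
    exact ⟨h1, h2⟩
  · rw [Subgroup.closure_le]
    rintro x ⟨h1, h2⟩
    by_cases h : x = d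
    · rw [h]; exact mem_cl Y hd
    · exact Subgroup.subset_closure ⟨h1, h, h2⟩

theorem nocentral {d : G} (hd : d ∈ Δ) : NoCentral Δ d := by
  rintro x ⟨hx, hxd, hxc⟩
  obtain ⟨τ, X⟩ := Y.ch d hd
  obtain ⟨u, hu, hu0, rfl⟩ := X.surj x hx hxd hxc.symm
  obtain ⟨y, hy, hyy⟩ := exists_pair hF H X.hv.nd hu0 hu
  have hy0 : y ≠ 0 := by
    rintro rfl
    rw [H.zero_right] at hy
    exact zero_ne_one hy
  obtain ⟨m1, m2, m3⟩ := X.mem y hyy hy0
  refine ⟨τ y, ⟨m1, m2, m3.symm⟩, ?_⟩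
  intro h
  have := (X.comm u y hu hu0 hyy hy0).1 h
  rw [hy] at this
  exact one_ne_zero this

/-- members are conjugate in the group they generate -/
theorem conj_cl [Finite G] {a b : G} (ha : a ∈ Δ) (hb : b ∈ Δ) : ∃ g ∈ Subgroup.closure Δ, g * a * g⁻¹ = b := by
  have hgeo := Y.geo
  have hnc : ∀ a ∈ Δ, ∀ b ∈ Δ, ¬ Commute a b → ∃ g ∈ Subgroup.closure Δ, g * a * g⁻¹ = b := by
    intro a ha b hb h
    have h1 := hgeo.braid_all Y.nb ha hb h
    have haa := Y.inv a ha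
    have hbb := Y.inv b hb
    have ia : a⁻¹ = a := inv_eq_of_mul_eq_one_left haa
    have ib : b⁻¹ = b := inv_eq_of_mul_eq_one_left hbb
    refine ⟨a * b, mul_mem (Subgroup.subset_closure ha) (Subgroup.subset_closure hb), ?_⟩
    rw [mul_inv_rev, ia, ib]
    calc a * b * a * (b * a) = (a * b * a) * b * a := by group
      _ = b * a * (b * b) * a := by rw [h1]; group
      _ = b := by rw [hbb, mul_one, mul_assoc, haa, mul_one]
  by_cases hab : Commute a b
  swap
  · exact hnc a ha b hb hab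
  by_cases hne : a = b
  · exact ⟨1, one_mem _, by rw [hne]; simp⟩
  -- a common non-neighbour
  obtain ⟨c, hc, hcn, hca, hcb⟩ : ∃ c ∈ Δ, c ≠ a ∧ Commute c a ∧ Commute c b := by
    obtain ⟨y, h1, h2, h3, h4, -⟩ := Y.nb.nb a ha b hb b hb hab.symm hab.symm
    exact ⟨y, h1, h2, h3, h4⟩
  by_cases hcb' : c = b
  · subst hcb'
    -- c = b: take another one
    obtain ⟨τ, X⟩ := Y.ch a ha
    obtain ⟨u, hu, hu0, rfl⟩ := X.surj c hc hcn hca
    obtain ⟨v, hv, huv, hneu⟩ := ext1 X.hv hu hu0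
    have hv0 : v ≠ 0 := fun h => hneu 0 (by rw [h, zero_smul])
    obtain ⟨m1, m2, m3⟩ := X.mem v hv hv0
    obtain ⟨τ', X'⟩ := Y.ch _ m1
    have hvu : Commute (τ u) (τ v) := (X.comm u v hu hu0 hv hv0).2 huv
    have hne2 : τ u ≠ τ v := by
      intro h
      obtain ⟨k, _, hk⟩ := X.inj u v hu hu0 hv hv0 h
      exact hneu k hk
    have T : T3 Δ (τ v) a (τ u) := ⟨m1, ha, hc, m2, hne2.symm, hne, m3, hvu.symm, hab⟩
    obtain ⟨u', v', hu', hv', huv', hu0', hv0', hneq, e1, e2⟩ := X'.t3 T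
    obtain ⟨z', hz', huz', hvz', hli⟩ := ext2 X'.hv hu' hv' huv' hu0' hneq
    obtain ⟨y, E⟩ := exists_HBext X'.hv (orth3 H hu' hv' hz' huv' huz' hvz') hli
    have hyi : f (y 0 + y 1) (y 0 + y 1) = 0 := by
      rw [H.add_left, H.add_right, H.add_right, E.yy, E.yy, E.yy, E.yy]; ring
    have k1 : f u' (y 0 + y 1) = 1 := by
      rw [H.add_right]
      have a1 : f u' (y 0) = 1 := (E.wy 0 0).trans (by simp)
      have a2 : f u' (y 1) = 0 := (E.wy 0 1).trans (by simp)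
      rw [a1, a2, add_zero]
    have k2 : f v' (y 0 + y 1) = 1 := by
      rw [H.add_right]
      have a1 : f v' (y 0) = 0 := (E.wy 1 0).trans (by simp)
      have a2 : f v' (y 1) = 1 := (E.wy 1 1).trans (by simp)
      rw [a1, a2, zero_add]
    have hy0 : y 0 + y 1 ≠ 0 := by
      intro h; rw [h, H.zero_right] at k1; exact zero_ne_one k1
    obtain ⟨n1, n2, n3⟩ := X'.mem _ hyi hy0
    obtain ⟨g1, hg1, hg1'⟩ := hnc a ha _ n1 (fun h => by
      rw [← e1] at h
      have := (X'.comm u' _ hu' hu0' hyi hy0).1 h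
      rw [k1] at this; exact one_ne_zero this)
    obtain ⟨g2, hg2, hg2'⟩ := hnc _ n1 (τ u) hc (fun h => by
      rw [← e2] at h
      have := (X'.comm v' _ hv' hv0' hyi hy0).1 h.symm
      rw [k2] at this; exact one_ne_zero this)
    refine ⟨g2 * g1, mul_mem hg2 hg1, ?_⟩
    rw [← hg2', ← hg1']; group
  · have T : T3 Δ c a b := ⟨hc, ha, hb, hcn, hcb', hne, hca, hcb, hab⟩
    obtain ⟨τ', X'⟩ := Y.ch c hc
    obtain ⟨u', v', hu', hv', huv', hu0', hv0', hneq, e1, e2⟩ := X'.t3 T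
    obtain ⟨z', hz', huz', hvz', hli⟩ := ext2 X'.hv hu' hv' huv' hu0' hneq
    obtain ⟨y, E⟩ := exists_HBext X'.hv (orth3 H hu' hv' hz' huv' huz' hvz') hli
    have hyi : f (y 0 + y 1) (y 0 + y 1) = 0 := by
      rw [H.add_left, H.add_right, H.add_right, E.yy, E.yy, E.yy, E.yy]; ring
    have k1 : f u' (y 0 + y 1) = 1 := by
      rw [H.add_right]
      have a1 : f u' (y 0) = 1 := (E.wy 0 0).trans (by simp)
      have a2 : f u' (y 1) = 0 := (E.wy 0 1).trans (by simp)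
      rw [a1, a2, add_zero]
    have k2 : f v' (y 0 + y 1) = 1 := by
      rw [H.add_right]
      have a1 : f v' (y 0) = 0 := (E.wy 1 0).trans (by simp)
      have a2 : f v' (y 1) = 1 := (E.wy 1 1).trans (by simp)
      rw [a1, a2, zero_add]
    have hy0 : y 0 + y 1 ≠ 0 := by
      intro h; rw [h, H.zero_right] at k1; exact zero_ne_one k1
    obtain ⟨n1, n2, n3⟩ := X'.mem _ hyi hy0
    obtain ⟨g1, hg1, hg1'⟩ := hnc a ha _ n1 (fun h => by
      rw [← e1] at h
      have := (X'.comm u' _ hu' hu0' hyi hy0).1 h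
      rw [k1] at this; exact one_ne_zero this)
    obtain ⟨g2, hg2, hg2'⟩ := hnc _ n1 b hb (fun h => by
      rw [← e2] at h
      have := (X'.comm v' _ hv' hv0' hyi hy0).1 h.symm
      rw [k2] at this; exact one_ne_zero this)
    refine ⟨g2 * g1, mul_mem hg2 hg1, ?_⟩
    rw [← hg2', ← hg1']; group

variable {d₀ : G} (hd₀ : d₀ ∈ Δ)
  [hzn : ((Subgroup.zpowers d₀).subgroupOf (Subgroup.centralizer ({d₀} : Set G))).Normal] (hs : IsSimpleGroup (QD0 d₀))
include hd₀ hs

/-- normal subgroups of the centralizer -/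
theorem normal_top {M : Subgroup ↥(Subgroup.centralizer ({d₀} : Set G))} (hM : M.Normal)
    (hdM : ∀ x : ↥(Subgroup.centralizer ({d₀} : Set G)), (x : G) = d₀ → x ∈ M)
    (hne : ∃ x ∈ M, (x : G) ≠ 1 ∧ (x : G) ≠ d₀) : M = ⊤ := by
  have hdd := Y.inv d₀ hd₀
  have hmz : ∀ x : ↥(Subgroup.centralizer ({d₀} : Set G)),
      x ∈ (Subgroup.zpowers d₀).subgroupOf (Subgroup.centralizer ({d₀} : Set G)) ↔ (x : G) = 1 ∨ (x : G) = d₀ := fun x => by
    rw [Subgroup.mem_subgroupOf, mem_zp hdd]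
  let φ := QuotientGroup.mk' ((Subgroup.zpowers d₀).subgroupOf (Subgroup.centralizer ({d₀} : Set G)))
  have h1 : (M.map φ).Normal := hM.map φ (QuotientGroup.mk'_surjective _)
  have h2 : M.map φ = ⊤ := by
    rcases hs.eq_bot_or_eq_top_of_normal _ h1 with h | h
    · exfalso
      obtain ⟨x, hx, hx1, hx2⟩ := hne
      have h3 : φ x ∈ M.map φ := ⟨x, hx, rfl⟩
      rw [h, Subgroup.mem_bot] at h3
      have h4 := (QuotientGroup.eq_one_iff x).1 h3
      rcases (hmz x).1 h4 with h5 | h5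
      · exact hx1 h5
      · exact hx2 h5
    · exact h
  rw [eq_top_iff]
  intro c _
  have h3 : φ c ∈ M.map φ := by rw [h2]; trivial
  obtain ⟨m, hm, hmc⟩ := h3
  have h4 : m⁻¹ * c ∈ (Subgroup.zpowers d₀).subgroupOf (Subgroup.centralizer ({d₀} : Set G)) := QuotientGroup.eq.1 hmc
  have h5 : m⁻¹ * c ∈ M := by
    rcases (hmz _).1 h4 with h | h
    · have : m⁻¹ * c = 1 := Subtype.ext h
      rw [this]; exact one_mem M
    · exact hdM _ h
  have h6 : c = m * (m⁻¹ * c) := by group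
  rw [h6]; exact mul_mem hm h5

theorem cm0 : ∀ g : G, Commute g d₀ → g ∈ Subgroup.closure {x | x ∈ Δ ∧ Commute d₀ x} := by
  intro g hg
  have hgC : g ∈ Subgroup.centralizer ({d₀} : Set G) := Subgroup.mem_centralizer_singleton_iff.2 hg.eq
  have hCm : ∀ c : ↥(Subgroup.centralizer ({d₀} : Set G)), Commute (c : G) d₀ := fun c => Subgroup.mem_centralizer_singleton_iff.1 c.2
  have hM : ((Subgroup.closure {x | x ∈ Δ ∧ Commute d₀ x}).subgroupOf (Subgroup.centralizer ({d₀} : Set G))).Normal := by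
    refine ⟨fun n hn c => ?_⟩
    rw [Subgroup.mem_subgroupOf] at hn ⊢
    refine closure_cj (g := (c : G)) ?_ _ hn
    rintro s ⟨hs1, hs2⟩
    refine ⟨Y.cj _ s hs1, ?_⟩
    have h1 := (cm_conj (c : G)).2 hs2
    rwa [cj_eq_iff.2 (hCm c)] at h1
  have h1 := normal_top Y hd₀ hs hM (by
    intro x hx
    rw [Subgroup.mem_subgroupOf, hx]
    exact Subgroup.subset_closure ⟨hd₀, Commute.refl _⟩) (by
    obtain ⟨τ, X⟩ := Y.ch d₀ hd₀
    obtain ⟨v, hv, hv0⟩ := exists_isov X.hv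
    obtain ⟨m1, m2, m3⟩ := X.mem v hv hv0
    exact ⟨⟨τ v, Subgroup.mem_centralizer_singleton_iff.2 m3.eq⟩, Subgroup.mem_subgroupOf.2 (Subgroup.subset_closure ⟨m1, m3.symm⟩),
      Y.one _ m1, m2⟩)
  have h2 : (⟨g, hgC⟩ : ↥(Subgroup.centralizer ({d₀} : Set G))) ∈
      (Subgroup.closure {x | x ∈ Δ ∧ Commute d₀ x}).subgroupOf (Subgroup.centralizer ({d₀} : Set G)) := by
    rw [h1]; trivial
  exact h2

theorem cc0 (hperf : commutator ↥(Subgroup.centralizer ({d₀} : Set G)) = ⊤) :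
    ∀ g : G, (∀ e ∈ Dd Δ d₀, Commute g e) → g = 1 ∨ g = d₀ := by
  intro g hg
  have h1 : ∀ x ∈ Subgroup.closure (Dd Δ d₀), Commute g x := by
    intro x hx
    induction hx using Subgroup.closure_induction with
    | mem x hx => exact hg x hx
    | one => exact Commute.one_right g
    | mul a b _ _ ha hb => exact ha.mul_right hb
    | inv a _ ha => exact ha.inv_right
  have hgd : Commute g d₀ := h1 _ (mem_cl Y hd₀)
  have hgC : g ∈ Subgroup.centralizer ({d₀} : Set G) := Subgroup.mem_centralizer_singleton_iff.2 hgd.eq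
  have h2 : ∀ c : ↥(Subgroup.centralizer ({d₀} : Set G)), Commute g c := fun c => h1 _ (by
    rw [cl_Dd Y hd₀]; exact cm0 Y hd₀ hs _ (Subgroup.mem_centralizer_singleton_iff.1 c.2))
  by_contra hcon
  push Not at hcon
  -- the centre is everything
  have hcen : (⟨g, hgC⟩ : ↥(Subgroup.centralizer ({d₀} : Set G))) ∈ Subgroup.center ↥(Subgroup.centralizer ({d₀} : Set G)) := by
    rw [Subgroup.mem_center_iff]
    intro c
    exact Subtype.ext (h2 c).eq.symm
  have h3 := normal_top Y hd₀ hs (M := Subgroup.center ↥(Subgroup.centralizer ({d₀} : Set G))) inferInstance (by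
    intro x hx
    rw [Subgroup.mem_center_iff]
    intro c
    apply Subtype.ext
    show (c : G) * x = x * c
    rw [hx]
    exact Subgroup.mem_centralizer_singleton_iff.1 c.2) ⟨_, hcen, hcon.1, hcon.2⟩
  have h4 : commutator ↥(Subgroup.centralizer ({d₀} : Set G)) = ⊥ := by
    rw [_root_.commutator_def, Subgroup.commutator_eq_bot_iff_le_centralizer]
    intro x _
    rw [Subgroup.mem_centralizer_iff]
    intro y _
    have hx : x ∈ Subgroup.center ↥(Subgroup.centralizer ({d₀} : Set G)) := by rw [h3]; trivial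
    exact (Subgroup.mem_center_iff.1 hx y)
  rw [hperf] at h4
  have h5 : (⟨g, hgC⟩ : ↥(Subgroup.centralizer ({d₀} : Set G))) ∈ (⊥ : Subgroup ↥(Subgroup.centralizer ({d₀} : Set G))) := by
    rw [← h4]; trivial
  exact hcon.1 (congrArg Subtype.val (Subgroup.mem_bot.1 h5))

end

end Cfsg.Agent.Lib.H89FC
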