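import Cfsg.Agent.Lib.H89FC0
/-
Involution centralizers of type 2.U6(2): the 3-transposition group and its residues (helper89).
-/
set_option autoImplicit false
set_option linter.all false

namespace Cfsg.Agent.Lib.H89FC

open Module Cfsg Cfsg.Agent.Lib.UnTrans Cfsg.Agent.Lib.UnBridge Cfsg.Agent.Lib.H89EA Cfsg.Agent.Lib.H89EB
open Cfsg.Agent.Lib.H89EC Cfsg.Agent.Lib.H89ED Cfsg.Agent.Lib.H89EE Cfsg.Agent.Lib.H89EF Cfsg.Agent.Lib.H89FA
open Cfsg.Agent.Lib.U6Class hiding TI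
open Cfsg.Agent.Lib.SpTrans (isom mem_isom)
open Cfsg.Agent.Lib.H89FB (T3 HX Bs HX_swap HX_swap' cm_conj cj_inj cj_eq_iff)
open Cfsg.Agent.Lib.ThreeRank3 (Dd)
open Cfsg.Agent.Lib.ThreeQuot (HH QQ NoCentral)

universe v w w'

variable {F : Type} [Field F] [Fintype F] [CharP F 2] {V : Type v} [AddCommGroup V] [Module F V] {f : V → V → F}
  {hF : Fintype.card F = 2 ^ 2} {H : HS (sig hF) f} {G : Type w'} [Group G] {Δ : Set G}

section

variable (Y : CD H Δ) {d₀ : G} (hd₀ : d₀ ∈ Δ)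
  [hzn : ((Subgroup.zpowers d₀).subgroupOf (Subgroup.centralizer ({d₀} : Set G))).Normal] (hs : IsSimpleGroup (QD0 d₀))
include Y hd₀ hs

theorem cm_all : FiPar.CM Δ := by
  intro d hd g hg
  obtain ⟨k, rfl⟩ := Y.cl d₀ hd₀ d hd
  have h1 : Commute (k⁻¹ * g * k) d₀ := by
    have e1 : k * (k⁻¹ * g * k) * k⁻¹ = g := by group
    rw [← cm_conj k, e1]; exact hg
  have h2 := cm0 Y hd₀ hs _ h1
  have h3 := closure_cj (g := k) (T := {x | x ∈ Δ ∧ Commute (k * d₀ * k⁻¹) x}) (by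
    rintro s ⟨hs1, hs2⟩
    exact ⟨Y.cj k s hs1, (cm_conj k).2 hs2⟩) _ h2
  have e1 : k * (k⁻¹ * g * k) * k⁻¹ = g := by group
  rwa [e1] at h3

theorem cc_all (hperf : commutator ↥(Subgroup.centralizer ({d₀} : Set G)) = ⊤) :
    ∀ d ∈ Δ, ∀ g : G, (∀ e ∈ Dd Δ d, Commute g e) → g = 1 ∨ g = d := by
  intro d hd g hg
  obtain ⟨k, rfl⟩ := Y.cl d₀ hd₀ d hd
  have e1 : k * (k⁻¹ * g * k) * k⁻¹ = g := by group
  have h1 : ∀ e ∈ Dd Δ d₀, Commute (k⁻¹ * g * k) e := by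
    rintro e ⟨he1, he2, he3⟩
    rw [← cm_conj k, e1]
    exact hg _ ⟨Y.cj k e he1, fun h => he2 ((cj_inj k).1 h), (cm_conj k).2 he3⟩
  rcases cc0 Y hd₀ hs hperf _ h1 with h | h
  · left; rw [← e1, h]; group
  · right; rw [← e1, h]

theorem tg [Finite G] : IsThreeTranspositionGroup Δ := by
  refine ⟨⟨?_, ?_⟩, fun g d hd => Y.cj g d hd, ?_⟩
  · intro d hd
    exact orderOf_eq_prime (by rw [pow_two]; exact Y.inv d hd) (Y.one d hd)
  · intro d hd e he
    have hdd := Y.inv d hd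
    have hee := Y.inv e he
    by_cases h : Commute d e
    · left
      calc (d * e) ^ 2 = d * (e * d) * e := by rw [pow_two]; group
        _ = (d * d) * (e * e) := by rw [h.eq.symm]; group
        _ = 1 := by rw [hdd, hee, one_mul]
    · right
      have h1 := Y.geo.braid_all Y.nb hd he h
      calc (d * e) ^ 3 = (d * e * d) * (e * d * e) := by rw [pow_succ, pow_two]; simp only [mul_assoc]
        _ = (d * e * d) * (d * e * d) := by rw [h1]
        _ = d * e * (d * d) * e * d := by group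
        _ = 1 := by rw [hdd, mul_one, mul_assoc d e e, hee, mul_one, hdd]
  · rw [eq_top_iff]
    intro x _
    obtain ⟨g, hg, h1⟩ := conj_cl Y (Y.cj x d₀ hd₀) hd₀
    have h2 : g * x * d₀ * (g * x)⁻¹ = d₀ := by
      have e : g * x * d₀ * (g * x)⁻¹ = g * (x * d₀ * x⁻¹) * g⁻¹ := by group
      rw [e, h1]
    have h3 := cm0 Y hd₀ hs _ (cj_eq_iff.1 h2)
    have h4 : g * x ∈ Subgroup.closure Δ := Subgroup.closure_mono (fun y hy => hy.1) h3
    have h5 : x = g⁻¹ * (g * x) := by group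
    rw [h5]; exact mul_mem (inv_mem hg) h4

theorem HH_eq : HH Δ d₀ = Subgroup.centralizer ({d₀} : Set G) := by
  have h1 : HH Δ d₀ = Subgroup.closure {x | x ∈ Δ ∧ Commute d₀ x} := cl_Dd Y hd₀
  rw [h1]
  apply le_antisymm
  · rw [Subgroup.closure_le]
    rintro x ⟨-, hx⟩
    exact Subgroup.mem_centralizer_singleton_iff.2 hx.eq.symm
  · intro g hg
    exact cm0 Y hd₀ hs g (Subgroup.mem_centralizer_singleton_iff.1 hg)

theorem center_eq (hperf : commutator ↥(Subgroup.centralizer ({d₀} : Set G)) = ⊤) :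
    (Subgroup.zpowers d₀).subgroupOf (Subgroup.centralizer ({d₀} : Set G)) = Subgroup.center ↥(Subgroup.centralizer ({d₀} : Set G)) := by
  ext x
  rw [Subgroup.mem_subgroupOf, mem_zp (Y.inv d₀ hd₀), Subgroup.mem_center_iff]
  constructor
  · intro h c
    apply Subtype.ext
    show (c : G) * x = x * c
    rcases h with h | h
    · rw [h, one_mul, mul_one]
    · rw [h]; exact Subgroup.mem_centralizer_singleton_iff.1 c.2
  · intro h
    apply cc0 Y hd₀ hs hperf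
    rintro e ⟨he1, he2, he3⟩
    exact (congrArg Subtype.val (h ⟨e, Subgroup.mem_centralizer_singleton_iff.2 he3.eq.symm⟩)).symm

theorem psu_all (hperf : commutator ↥(Subgroup.centralizer ({d₀} : Set G)) = ⊤) {K : Type} [Field K] [Fintype K]
    (hK : Fintype.card K = 4) (e : QD0 d₀ ≃* Cfsg.PSU 6 K 2) : ∀ e ∈ Δ, ∃ (F : Type) (_ : Field F) (_ : Fintype F),
      Fintype.card F = 4 ∧ Nonempty (QQ Δ e ≃* PSU 6 F 2) := by
  intro x hx
  obtain ⟨k, rfl⟩ := Y.cl d₀ hd₀ x hx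
  obtain ⟨e1⟩ := ThreeTypes.QQ_conj Y.cj d₀ k
  obtain ⟨e2⟩ := quot_equiv (HH_eq Y hd₀ hs) _ (center_eq Y hd₀ hs hperf)
  exact ⟨K, inferInstance, inferInstance, hK, ⟨(e1.trans e2).trans e⟩⟩

end

end Cfsg.Agent.Lib.H89FC
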