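import Cfsg.Agent.Lib.H89FC1
/-
Hexads in the common neighbourhood of two noncommuting members, and the count of the class (helper89).
-/
set_option autoImplicit false
set_option linter.all false

namespace Cfsg.Agent.Lib.H89FB

open Cfsg.Agent.Lib.ThreeRank3 (Dd)
open Cfsg.Agent.Lib.FiHex (MT Hx)

universe w'

variable {G : Type w'} [Group G] {Δ : Set G}

/-- a member commuting with a member of a base commutes with a triple of it -/
def Tw (Δ : Set G) : Prop := ∀ A, Bs Δ A → ∀ a ∈ A, ∀ e ∈ Δ, Commute e a → ∃ a2 ∈ A, ∃ a3 ∈ A, T3 Δ a a2 a3 ∧ Commute e a2 ∧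
  Commute e a3

variable (X : Geo Δ)
include X

namespace Geo

theorem bs4 {x y z q : G} (T : T3 Δ x y z) (hq : q ∈ Δ) (h1 : Commute q x) (h2 : Commute q y) (h3 : Commute q z)
    (hqn : q ∉ HX Δ x y z) : Bs Δ {p | p ∈ Δ ∧ Commute p q ∧ Commute p x ∧ Commute p y ∧ Commute p z} := by
  refine ⟨fun p hp => hp.1, ?_, ?_⟩
  · rintro p ⟨hp, p1, p2, p3, p4⟩ p' ⟨hp', p1', p2', p3', p4'⟩
    exact X.b4 x y z T q hq h1 h2 h3 hqn p hp p' hp' p1 p2 p3 p4 p1' p2' p3' p4'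
  · intro p hp h
    exact ⟨hp, h q ⟨hq, Commute.refl _, h1, h2, h3⟩, h x ⟨T.mx, h1.symm, Commute.refl _, T.cxy, T.cxz⟩,
      h y ⟨T.my, h2.symm, T.cxy.symm, Commute.refl _, T.cyz⟩, h z ⟨T.mz, h3.symm, T.cxz.symm, T.cyz.symm, Commute.refl _⟩⟩

theorem ncard_hex {x y z : G} (T : T3 Δ x y z) : (HX Δ x y z).ncard = 6 := by
  classical
  obtain ⟨x', y', z', h1, h2, -⟩ := X.hx x y z T
  have : HX Δ x y z = ((([x, y, z, x', y', z'] : List G).toFinset : Finset G) : Set G) := by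
    rw [h1]; ext w; simp
  rw [this, Set.ncard_coe_finset, List.toFinset_card_of_nodup h2]
  rfl

variable {a b x y z : G} (ha : a ∈ Δ) (hb : b ∈ Δ) (hab : ¬ Commute a b) (T : T3 Δ x y z) (xa : Commute x a) (xb : Commute x b)
  (ya : Commute y a) (yb : Commute y b) (za : Commute z a) (zb : Commute z b)
include ha hb hab T xa xb ya yb za zb

omit X hab in
theorem hexab {w : G} (hw : w ∈ HX Δ x y z) : Commute w a ∧ Commute w b :=
  ⟨(hw.2 a ha xa.symm ya.symm za.symm).symm, (hw.2 b hb xb.symm yb.symm zb.symm).symm⟩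

theorem mem_hex {u : G} (hu : u ∈ Δ) (h1 : Commute u x) (h2 : Commute u y) (h3 : Commute u z) (h4 : Commute u a) (h5 : Commute u b) :
    u ∈ HX Δ x y z := by
  by_contra hn
  exact hab (X.b4 x y z T u hu h1 h2 h3 hn a ha b hb h4.symm xa.symm ya.symm za.symm h5.symm xb.symm yb.symm zb.symm)

theorem one_of_hex [Finite G] (tw : Tw Δ) {e : G} (he : e ∈ Δ) (hea : Commute e a) (heb : Commute e b) :
    ∃ w ∈ HX Δ x y z, Commute e w := by
  by_contra hcon
  push Not at hcon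
  have hE := fun {w : G} (hw : w ∈ HX Δ x y z) => hexab (Δ := Δ) ha hb T xa xb ya yb za zb hw
  have ex := hcon x T.memx
  have ey := hcon y T.memy
  have hee := X.inv e he
  have hxx := X.inv x T.mx
  have hyy := X.inv y T.my
  have B1 := X.brd ha he T.mx hea xa ex
  have B2 := X.brd ha he T.my hea ya ey
  have htt := sw_sq hee hxx hyy T.cxy B1 B2
  have hsc := sw_c hee hxx hyy T.cxy B1 B2
  have htc : ∀ {p : G}, Commute e p → Commute x p → Commute y p → Commute (sw e x y) p := by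
    intro p k1 k2 k3
    rw [sw]
    exact k1.mul_left (((k2.mul_left k3).mul_left k1).mul_left (k2.mul_left k3).inv_left)
  have haN : a ∉ HX Δ x y z := fun h => hab (hE h).2
  have he'Δ : x * y * e * (x * y)⁻¹ ∈ Δ := X.cj _ e he
  have hne : e ≠ x * y * e * (x * y)⁻¹ := by
    intro h
    have h1 : sw e x y = 1 := by rw [sw, ← h, hee]
    rw [h1, one_mul, inv_one, mul_one] at hsc
    exact T.xy hsc
  have hfb : ∀ q ∈ Δ, Commute q (sw e x y) → Commute q e := fun q hq h =>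
    ((X.zst he he'Δ hne (sw_bb hee hxx hyy T.cxy B1 B2)).2 q hq h).1
  obtain ⟨t, ht⟩ : ∃ t, t = sw e x y := ⟨_, rfl⟩
  rw [← ht] at htt hsc hfb htc
  have hA := X.bs4 T ha xa.symm ya.symm za.symm haN
  obtain ⟨A, hAe⟩ : ∃ A, A = {p | p ∈ Δ ∧ Commute p a ∧ Commute p x ∧ Commute p y ∧ Commute p z} := ⟨_, rfl⟩
  rw [← hAe] at hA
  have hAm : ∀ p, p ∈ A ↔ p ∈ Δ ∧ Commute p a ∧ Commute p x ∧ Commute p y ∧ Commute p z := fun p => by rw [hAe]; rfl
  have haA : a ∈ A := (hAm a).2 ⟨ha, Commute.refl _, xa.symm, ya.symm, za.symm⟩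
  have hxA : x ∈ A := (hAm x).2 ⟨T.mx, xa, Commute.refl _, T.cxy, T.cxz⟩
  have hyA : y ∈ A := (hAm y).2 ⟨T.my, ya, T.cxy.symm, Commute.refl _, T.cyz⟩
  obtain ⟨a2, h2, a3, h3, T', e2, e3⟩ := tw A hA a haA e he hea
  have k2 := (hAm a2).1 h2
  have k3 := (hAm a3).1 h3
  have ta : Commute t a := htc hea xa ya
  have tb : Commute t b := htc heb xb yb
  have ta2 : Commute t a2 := htc e2 k2.2.2.1.symm k2.2.2.2.1.symm
  have ta3 : Commute t a3 := htc e3 k3.2.2.1.symm k3.2.2.2.1.symm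
  have hyN : y ∉ HX Δ a a2 a3 := fun h => ey (h.2 e he hea e2 e3)
  have htA : ∀ w ∈ A, t * w * t⁻¹ ∈ A := by
    intro w hw
    apply hA.max _ (X.cj t w (hA.sub w hw))
    intro p' hp'
    have hwx := hA.com w hw x hxA
    have hwa := hA.com w hw a haA
    have hw2 := hA.com w hw a2 h2
    have hw3 := hA.com w hw a3 h3
    have c1 : Commute (t * w * t⁻¹) y := by rw [← hsc]; exact (cm_conj t).2 hwx
    have c2 : Commute (t * w * t⁻¹) a := by
      have := (cm_conj t).2 hwa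
      rwa [cj_eq_iff.2 ta] at this
    have c3 : Commute (t * w * t⁻¹) a2 := by
      have := (cm_conj t).2 hw2
      rwa [cj_eq_iff.2 ta2] at this
    have c4 : Commute (t * w * t⁻¹) a3 := by
      have := (cm_conj t).2 hw3
      rwa [cj_eq_iff.2 ta3] at this
    exact X.b4 a a2 a3 T' y T.my ya k2.2.2.2.1.symm k3.2.2.2.1.symm hyN _ (X.cj t w (hA.sub w hw)) p' (hA.sub p' hp') c1 c2 c3 c4
      (hA.com p' hp' y hyA) (hA.com p' hp' a haA) (hA.com p' hp' a2 h2) (hA.com p' hp' a3 h3)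
  have hinv : ∀ w ∈ HX Δ x y z, t * w * t⁻¹ ∈ HX Δ x y z := by
    intro w hw
    have hwA : w ∈ A := (hAm w).2 ⟨hw.1, (hE hw).1, T.hcx hw, T.hcy hw, T.hcz hw⟩
    obtain ⟨m1, m2, m3, m4, m5⟩ := (hAm _).1 (htA w hwA)
    refine X.mem_hex ha hb hab T xa xb ya yb za zb m1 m3 m4 m5 m2 ?_
    have := (cm_conj t).2 (hE hw).2
    rwa [cj_eq_iff.2 tb] at this
  have hnf : ∀ w ∈ HX Δ x y z, t * w * t⁻¹ ≠ w := by
    intro w hw h
    exact hcon w hw (hfb w hw.1 (cj_eq_iff.1 h).symm).symm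
  rw [ht] at hinv hnf
  exact X.lemP' T he ex ey ha hea (fun w hw => (hE hw).1) hinv hnf

theorem two_of_hex [Finite G] (tw : Tw Δ) (hM : MT Δ) {e : G} (he : e ∈ Δ) (hea : Commute e a) (heb : Commute e b)
    (hen : e ∉ HX Δ x y z) : ∃ w1 ∈ HX Δ x y z, ∃ w2 ∈ HX Δ x y z, w1 ≠ w2 ∧ Commute e w1 ∧ Commute e w2 ∧
      ∀ w ∈ HX Δ x y z, Commute e w → w = w1 ∨ w = w2 := by
  obtain ⟨w1, hw1, c1⟩ := X.one_of_hex ha hb hab T xa xb ya yb za zb tw he hea heb
  -- two further members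
  obtain ⟨p, hp, q, hq, hpq, hp1, hq1⟩ : ∃ p ∈ HX Δ x y z, ∃ q ∈ HX Δ x y z, p ≠ q ∧ p ≠ w1 ∧ q ≠ w1 := by
    by_cases h1 : w1 = x
    · exact ⟨y, T.memy, z, T.memz, T.yz, by rw [h1]; exact T.xy.symm, by rw [h1]; exact T.xz.symm⟩
    · by_cases h2 : w1 = y
      · exact ⟨x, T.memx, z, T.memz, T.xz, Ne.symm h1, by rw [h2]; exact T.yz.symm⟩
      · exact ⟨x, T.memx, y, T.memy, T.xy, Ne.symm h1, Ne.symm h2⟩
  have hH := X.eq_of_mem T hw1 hp hq hp1.symm hq1.symm hpq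
  have hw1e : w1 ≠ e := fun h => hen (by rw [← h]; exact hw1)
  obtain ⟨w2, hw2, h2, c2⟩ := hM w1 hw1.1 e ⟨he, hw1e.symm, c1.symm⟩ p ⟨hp.1, hp1, T.hcc hw1 hp⟩ q ⟨hq.1, hq1, T.hcc hw1 hq⟩ hpq
    (T.hcc hp hq)
  have hw2' : w2 ∈ HX Δ x y z := by rw [← hH]; exact h2
  refine ⟨w1, hw1, w2, hw2', hw2.2.1.symm, c1, c2, ?_⟩
  intro w hw c3
  by_contra hcon
  push Not at hcon
  have hH2 := X.eq_of_mem T hw1 hw2' hw hw2.2.1.symm hcon.1.symm hcon.2.symm
  have hall : ∀ u ∈ HX Δ x y z, Commute e u := by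
    intro u hu
    rw [← hH2] at hu
    exact hu.2 e he c1 c2 c3
  exact hen (X.mem_hex ha hb hab T xa xb ya yb za zb he (hall x T.memx) (hall y T.memy) (hall z T.memz) hea heb)

/-- the number of common neighbours -/
theorem mu126 [Finite G] (tw : Tw Δ) (hM : MT Δ)
    (hm1 : ∀ a ∈ Δ, ∀ b ∈ Δ, ¬ Commute a b → ∀ p ∈ Dd Δ a ∩ Dd Δ b, (Dd Δ a ∩ Dd Δ b ∩ Dd Δ p).ncard = 45) :
    (Dd Δ a ∩ Dd Δ b).ncard = 126 := by
  classical
  haveI := Fintype.ofFinite G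
  have hE := fun {w : G} (hw : w ∈ HX Δ x y z) => hexab (Δ := Δ) ha hb T xa xb ya yb za zb hw
  have haN : ∀ {w : G}, w ∈ HX Δ x y z → w ≠ a := fun hw h => hab (by rw [← h]; exact (hE hw).2)
  have hbN : ∀ {w : G}, w ∈ HX Δ x y z → w ≠ b := fun hw h => hab (by rw [← h]; exact (hE hw).1.symm)
  have hsub : HX Δ x y z ⊆ Dd Δ a ∩ Dd Δ b := fun w hw => ⟨⟨hw.1, haN hw, (hE hw).1.symm⟩, ⟨hw.1, hbN hw, (hE hw).2.symm⟩⟩
  have hHfin : (HX Δ x y z).Finite := Set.toFinite _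
  have hOfin : (Dd Δ a ∩ Dd Δ b).Finite := Set.toFinite _
  have h6 := X.ncard_hex T
  obtain ⟨s, hs⟩ : ∃ s : Finset G, s = (HX Δ x y z).toFinset := ⟨_, rfl⟩
  obtain ⟨t, ht⟩ : ∃ t : Finset G, t = ((Dd Δ a ∩ Dd Δ b) \ HX Δ x y z).toFinset := ⟨_, rfl⟩
  have hms : ∀ w, w ∈ s ↔ w ∈ HX Δ x y z := fun w => by rw [hs, Set.mem_toFinset]
  have hmt : ∀ w, w ∈ t ↔ w ∈ Dd Δ a ∩ Dd Δ b ∧ w ∉ HX Δ x y z := fun w => by rw [ht, Set.mem_toFinset]; rfl
  have hsc : s.card = 6 := by rw [hs, ← Set.ncard_eq_toFinset_card', h6]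
  have htc : t.card + 6 = (Dd Δ a ∩ Dd Δ b).ncard := by
    rw [ht, ← Set.ncard_eq_toFinset_card', ← h6]
    exact Set.ncard_diff_add_ncard_of_subset hsub
  have key := Finset.card_mul_eq_card_mul (s := s) (t := t) (fun w e => Commute w e) (m := 40) (n := 2) (by
    intro w hw
    rw [hms] at hw
    have h1 := hm1 a ha b hb hab w (hsub hw)
    have h2 : Dd Δ a ∩ Dd Δ b ∩ Dd Δ w = (HX Δ x y z \ {w}) ∪ ((t.bipartiteAbove (fun w e => Commute w e) w : Finset G) : Set G) := by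
      ext e
      simp only [Set.mem_inter_iff, Set.mem_union, Set.mem_diff, Set.mem_singleton_iff, Finset.mem_coe, Finset.mem_bipartiteAbove, hmt]
      constructor
      · rintro ⟨h3, h4⟩
        by_cases he : e ∈ HX Δ x y z
        · exact Or.inl ⟨he, h4.2.1⟩
        · exact Or.inr ⟨⟨h3, he⟩, h4.2.2⟩
      · rintro (⟨h3, h4⟩ | ⟨⟨h3, h4⟩, h5⟩)
        · exact ⟨hsub h3, ⟨h3.1, h4, T.hcc hw h3⟩⟩
        · exact ⟨h3, ⟨h3.1.1, fun h => h4 (by rw [h]; exact hw), h5⟩⟩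
    have h3 : Disjoint (HX Δ x y z \ {w}) ((t.bipartiteAbove (fun w e => Commute w e) w : Finset G) : Set G) := by
      rw [Set.disjoint_left]
      rintro e ⟨he, -⟩ he'
      rw [Finset.mem_coe, Finset.mem_bipartiteAbove, hmt] at he'
      exact he'.1.2 he
    rw [h2, Set.ncard_union_eq h3 (Set.toFinite _) (Set.toFinite _), Set.ncard_coe_finset] at h1
    have h4 : (HX Δ x y z \ {w}).ncard = 5 := by
      have := Set.ncard_diff_singleton_add_one hw hHfin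
      omega
    omega) (by
    intro e he
    rw [hmt] at he
    obtain ⟨⟨he1, he2⟩, he3⟩ := he
    obtain ⟨w1, hw1, w2, hw2, hne, c1, c2, hall⟩ := X.two_of_hex ha hb hab T xa xb ya yb za zb tw hM he1.1 he1.2.2.symm he2.2.2.symm he3
    have h2 : s.bipartiteBelow (fun w e => Commute w e) e = {w1, w2} := by
      ext w
      simp only [Finset.mem_bipartiteBelow, hms, Finset.mem_insert, Finset.mem_singleton]
      constructor
      · rintro ⟨h3, h4⟩; exact hall w h3 h4.symm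
      · rintro (rfl | rfl)
        · exact ⟨hw1, c1.symm⟩
        · exact ⟨hw2, c2.symm⟩
    rw [h2, Finset.card_pair hne])
  rw [hsc] at key
  omega

omit ha hb hab T xa xb ya yb za zb in
/-- the number of common neighbours of two noncommuting members -/
theorem mu_all [Finite G] (N : Nb Δ) (tw : Tw Δ) (hM : MT Δ)
    (hm1 : ∀ a ∈ Δ, ∀ b ∈ Δ, ¬ Commute a b → ∀ p ∈ Dd Δ a ∩ Dd Δ b, (Dd Δ a ∩ Dd Δ b ∩ Dd Δ p).ncard = 45) :
    ∀ a ∈ Δ, ∀ b ∈ Δ, ¬ Commute a b → (Dd Δ a ∩ Dd Δ b).ncard = 126 := by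
  intro a ha b hb hab
  obtain ⟨c, hc, hac, hbc⟩ := X.diam2 N ha hb
  obtain ⟨y, hy, hyc, k1, k2, k3⟩ := N.nb c hc a ha b hb hac hbc
  obtain ⟨p, hp, hpc, hpy, m1, m2, m3, m4⟩ := N.nb4 c hc y hy hyc.symm k1.symm a ha b hb hac k2.symm hbc k3.symm hab
  have T : T3 Δ c y p := ⟨hc, hy, hp, hyc.symm, hpc.symm, hpy.symm, k1.symm, m1.symm, m2.symm⟩
  exact X.mu126 ha hb hab T hac.symm hbc.symm k2 k3 m3 m4 tw hM hm1

omit ha hb hab T xa xb ya yb za zb in
/-- the number of members -/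
theorem card3510 [Finite G] (hmu : ∀ a ∈ Δ, ∀ b ∈ Δ, ¬ Commute a b → (Dd Δ a ∩ Dd Δ b).ncard = 126)
    (hu1 : ∀ a ∈ Δ, (Dd Δ a).ncard = 693) (hu2 : ∀ a ∈ Δ, ∀ b ∈ Dd Δ a, (Dd Δ a ∩ Dd Δ b).ncard = 180) : Δ.ncard = 3510 := by
  classical
  haveI := Fintype.ofFinite G
  obtain ⟨d, hd⟩ := X.ne
  obtain ⟨s, hs⟩ : ∃ s : Finset G, s = (Dd Δ d).toFinset := ⟨_, rfl⟩
  obtain ⟨t, ht⟩ : ∃ t : Finset G, t = {x | x ∈ Δ ∧ ¬ Commute d x}.toFinset := ⟨_, rfl⟩
  have hms : ∀ w, w ∈ s ↔ w ∈ Dd Δ d := fun w => by rw [hs, Set.mem_toFinset]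
  have hmt : ∀ w, w ∈ t ↔ w ∈ Δ ∧ ¬ Commute d w := fun w => by rw [ht, Set.mem_toFinset]; rfl
  have hsc : s.card = 693 := by rw [hs, ← Set.ncard_eq_toFinset_card', hu1 d hd]
  have key := Finset.card_mul_eq_card_mul (s := s) (t := t) (fun w e => Commute w e) (m := 512) (n := 126) (by
    intro w hw
    rw [hms] at hw
    have h1 := hu1 w hw.1
    have h2 : Dd Δ w = (insert d (Dd Δ d ∩ Dd Δ w)) ∪ ((t.bipartiteAbove (fun w e => Commute w e) w : Finset G) : Set G) := by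
      ext e
      simp only [Set.mem_inter_iff, Set.mem_union, Set.mem_insert_iff, Finset.mem_coe, Finset.mem_bipartiteAbove, hmt]
      constructor
      · intro h3
        by_cases he : e = d
        · exact Or.inl (Or.inl he)
        by_cases hc : Commute d e
        · exact Or.inl (Or.inr ⟨⟨h3.1, he, hc⟩, h3⟩)
        · exact Or.inr ⟨⟨h3.1, hc⟩, h3.2.2⟩
      · rintro ((rfl | ⟨h3, h4⟩) | ⟨⟨h3, h4⟩, h5⟩)
        · exact ⟨hd, hw.2.1.symm, hw.2.2.symm⟩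
        · exact h4
        · exact ⟨h3, fun h => h4 (by rw [h]; exact hw.2.2), h5⟩
    have h3 : Disjoint (insert d (Dd Δ d ∩ Dd Δ w)) ((t.bipartiteAbove (fun w e => Commute w e) w : Finset G) : Set G) := by
      rw [Set.disjoint_left]
      rintro e he he'
      rw [Finset.mem_coe, Finset.mem_bipartiteAbove, hmt] at he'
      rcases he with rfl | he
      · exact he'.1.2 (Commute.refl _)
      · exact he'.1.2 he.1.2.2
    have h4 : (insert d (Dd Δ d ∩ Dd Δ w)).ncard = 181 := by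
      rw [Set.ncard_insert_of_notMem (fun h => h.1.2.1 rfl) (Set.toFinite _), hu2 d hd w hw]
    rw [h2, Set.ncard_union_eq h3 (Set.toFinite _) (Set.toFinite _), Set.ncard_coe_finset, h4] at h1
    omega) (by
    intro e he
    rw [hmt] at he
    have h1 := hmu d hd e he.1 he.2
    have h2 : ((s.bipartiteBelow (fun w e => Commute w e) e : Finset G) : Set G) = Dd Δ d ∩ Dd Δ e := by
      ext w
      simp only [Finset.mem_coe, Finset.mem_bipartiteBelow, hms, Set.mem_inter_iff]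
      constructor
      · rintro ⟨h3, h4⟩
        exact ⟨h3, ⟨h3.1, fun h => he.2 (by rw [← h]; exact h3.2.2), h4.symm⟩⟩
      · rintro ⟨h3, h4⟩
        exact ⟨h3, h4.2.2.symm⟩
    rw [← Set.ncard_coe_finset, h2, h1])
  rw [hsc] at key
  have h1 : Δ = (insert d (Dd Δ d)) ∪ (t : Set G) := by
    ext e
    simp only [Set.mem_union, Set.mem_insert_iff, Finset.mem_coe, hmt]
    constructor
    · intro h3
      by_cases he : e = d
      · exact Or.inl (Or.inl he)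
      by_cases hc : Commute d e
      · exact Or.inl (Or.inr ⟨h3, he, hc⟩)
      · exact Or.inr ⟨h3, hc⟩
    · rintro ((rfl | h) | h)
      · exact hd
      · exact h.1
      · exact h.1
  have h3 : Disjoint (insert d (Dd Δ d)) (t : Set G) := by
    rw [Set.disjoint_left]
    rintro e he he'
    rw [Finset.mem_coe, hmt] at he'
    rcases he with rfl | he
    · exact he'.2 (Commute.refl _)
    · exact he'.2 he.2.2
  rw [h1, Set.ncard_union_eq h3 (Set.toFinite _) (Set.toFinite _), Set.ncard_coe_finset,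
    Set.ncard_insert_of_notMem (fun h => h.2.1 rfl) (Set.toFinite _), hu1 d hd]
  omega

end Geo

end Cfsg.Agent.Lib.H89FB
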