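import Cfsg.Agent.Lib.H89FC2
import Cfsg.Agent.Lib.FiPsuB73
/-
Involution centralizers of type 2.U6(2): type M(22) (helper89).
-/
set_option autoImplicit false
set_option linter.all false

namespace Cfsg.Agent.Lib.H89FC

open Module Cfsg Cfsg.Agent.Lib.UnTrans Cfsg.Agent.Lib.UnBridge Cfsg.Agent.Lib.H89EA Cfsg.Agent.Lib.H89EB
open Cfsg.Agent.Lib.H89EC Cfsg.Agent.Lib.H89ED Cfsg.Agent.Lib.H89EE Cfsg.Agent.Lib.H89EF Cfsg.Agent.Lib.H89FA
open Cfsg.Agent.Lib.U6Class hiding TI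
open Cfsg.Agent.Lib.SpTrans (isom mem_isom)
open Cfsg.Agent.Lib.H89FB (T3 HX Bs HX_swap HX_swap' cm_conj cj_inj cj_eq_iff Tw)
open Cfsg.Agent.Lib.ThreeRank3 (Dd)
open Cfsg.Agent.Lib.ThreeQuot (HH QQ NoCentral)

universe v w w'

variable {F : Type} [Field F] [Fintype F] [CharP F 2] {V : Type v} [AddCommGroup V] [Module F V] {f : V → V → F}
  {hF : Fintype.card F = 2 ^ 2} {H : HS (sig hF) f} {G : Type w'} [Group G] {Δ : Set G}

theorem two_in (H : HS (sig hF) f) {W : Submodule F V} (hW : TI f W) [FiniteDimensional F V] (v : V) :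
    ∃ u2 ∈ W, ∃ u3 ∈ W, u2 ≠ 0 ∧ (∀ c : F, u3 ≠ c • u2) ∧ f u2 v = 0 ∧ f u3 v = 0 := by
  obtain ⟨w, hw, hli⟩ := exists_basis hW
  have hc : ∀ a0 a1 a2 b0 b1 b2 : F, a0 • w 0 + a1 • w 1 + a2 • w 2 = b0 • w 0 + b1 • w 1 + b2 • w 2 → a0 = b0 ∧ a1 = b1 ∧ a2 = b2 := by
    intro a0 a1 a2 b0 b1 b2 h
    have h1 := Fintype.linearIndependent_iff.1 hli ![a0 - b0, a1 - b1, a2 - b2] (by
      rw [Fin.sum_univ_three]
      show (a0 - b0) • w 0 + (a1 - b1) • w 1 + (a2 - b2) • w 2 = 0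
      rw [sub_smul, sub_smul, sub_smul]
      calc _ = (a0 • w 0 + a1 • w 1 + a2 • w 2) - (b0 • w 0 + b1 • w 1 + b2 • w 2) := by abel
        _ = 0 := by rw [h, sub_self])
    exact ⟨sub_eq_zero.1 (h1 0), sub_eq_zero.1 (h1 1), sub_eq_zero.1 (h1 2)⟩
  by_cases h2 : f (w 2) v = 0
  · by_cases h1 : f (w 1) v = 0
    · refine ⟨w 1, hw 1, w 2, hw 2, hli.ne_zero 1, ?_, h1, h2⟩
      intro c h
      have := (hc 0 0 1 0 c 0 (by simp only [zero_smul, one_smul, zero_add, add_zero]; exact h)).2.2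
      exact one_ne_zero this
    · refine ⟨w 0 + (f (w 0) v * (f (w 1) v)⁻¹) • w 1, add_mem (hw 0) (W.smul_mem _ (hw 1)), w 2, hw 2, ?_, ?_, ?_, h2⟩
      · intro h
        have := (hc 1 (f (w 0) v * (f (w 1) v)⁻¹) 0 0 0 0 (by simp only [zero_smul, one_smul, zero_add, add_zero]; exact h)).1
        exact one_ne_zero this
      · intro c h
        rw [smul_add, smul_smul] at h
        have := (hc 0 0 1 c (c * (f (w 0) v * (f (w 1) v)⁻¹)) 0 (by simp only [zero_smul, one_smul, zero_add, add_zero]; exact h)).2.2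
        exact one_ne_zero this
      · rw [H.add_left, H.smul_left, mul_assoc, inv_mul_cancel₀ h1, mul_one, CharTwo.add_self_eq_zero]
  · refine ⟨w 0 + (f (w 0) v * (f (w 2) v)⁻¹) • w 2, add_mem (hw 0) (W.smul_mem _ (hw 2)),
      w 1 + (f (w 1) v * (f (w 2) v)⁻¹) • w 2, add_mem (hw 1) (W.smul_mem _ (hw 2)), ?_, ?_, ?_, ?_⟩
    · intro h
      have := (hc 1 0 (f (w 0) v * (f (w 2) v)⁻¹) 0 0 0 (by simp only [zero_smul, one_smul, zero_add, add_zero]; exact h)).1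
      exact one_ne_zero this
    · intro c h
      rw [smul_add, smul_smul] at h
      have := (hc 0 1 (f (w 1) v * (f (w 2) v)⁻¹) c 0 (c * (f (w 0) v * (f (w 2) v)⁻¹)) (by
        simp only [zero_smul, one_smul, zero_add, add_zero]; exact h)).2.1
      exact one_ne_zero this
    · rw [H.add_left, H.smul_left, mul_assoc, inv_mul_cancel₀ h2, mul_one, CharTwo.add_self_eq_zero]
    · rw [H.add_left, H.smul_left, mul_assoc, inv_mul_cancel₀ h2, mul_one, CharTwo.add_self_eq_zero]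

theorem tw_of (Y : CD H Δ) : Tw Δ := by
  intro A hA a ha e he hea
  obtain ⟨τ, X⟩ := Y.ch a (hA.sub a ha)
  haveI := X.hv.fin
  obtain ⟨W, hW, hAW⟩ := base_W hA ha X
  have key : ∀ u2 ∈ W, ∀ u3 ∈ W, u2 ≠ 0 → (∀ c : F, u3 ≠ c • u2) → τ u2 ∈ A ∧ τ u3 ∈ A ∧ T3 Δ a (τ u2) (τ u3) := by
    intro u2 h2 u3 h3 h20 hne
    have h30 : u3 ≠ 0 := fun h => hne 0 (by rw [h, zero_smul])
    exact ⟨(hAW _).2 (Or.inr ⟨u2, h2, h20, rfl⟩), (hAW _).2 (Or.inr ⟨u3, h3, h30, rfl⟩),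
      X.mk_t3 (hW.iso _ h2 _ h2) (hW.iso _ h3 _ h3) (hW.iso _ h2 _ h3) h20 hne⟩
  rcases X.cases he hea with rfl | ⟨v, hv, hv0, rfl⟩
  · obtain ⟨u2, h2, u3, h3, h20, hne, -, -⟩ := two_in H hW 0
    obtain ⟨k1, k2, k3⟩ := key u2 h2 u3 h3 h20 hne
    exact ⟨_, k1, _, k2, k3, k3.cxy, k3.cxz⟩
  · obtain ⟨u2, h2, u3, h3, h20, hne, e2, e3⟩ := two_in H hW v
    have h30 : u3 ≠ 0 := fun h => hne 0 (by rw [h, zero_smul])
    obtain ⟨k1, k2, k3⟩ := key u2 h2 u3 h3 h20 hne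
    exact ⟨_, k1, _, k2, k3, (X.comm v u2 hv hv0 (hW.iso _ h2 _ h2) h20).2 (H.symm_zero e2),
      (X.comm v u3 hv hv0 (hW.iso _ h3 _ h3) h30).2 (H.symm_zero e3)⟩

theorem card_eq_class {G : Type*} [Group G] [Finite G] (d : G) :
    Nat.card G = (conjugatesOf d).ncard * Nat.card ↥(Subgroup.centralizer ({d} : Set G)) := by
  have h1 := (MulAction.stabilizer (ConjAct G) d).card_mul_index
  rw [MulAction.index_stabilizer, ← Subgroup.nat_card_centralizer_nat_card_stabilizer] at h1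
  have h2 : MulAction.orbit (ConjAct G) d = conjugatesOf d := by
    ext x
    rw [ConjAct.mem_orbit_conjAct]
    exact isConj_comm
  rw [h2] at h1
  have h3 : Nat.card (ConjAct G) = Nat.card G := rfl
  rw [← h3, ← h1, mul_comm]

theorem main (hP : ThreeTypes.PSU62Simple) {G : Type w'} [Group G] [Finite G] {d : G} (hd : orderOf d = 2)
    (hq : Cfsg.IsQuasisimple ↥(Subgroup.centralizer ({d} : Set G)))
    [hzn : ((Subgroup.zpowers d).subgroupOf (Subgroup.centralizer ({d} : Set G))).Normal] (K : Type) [Field K] [Fintype K]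
    (hK : Fintype.card K = 4)
    (e : ↥(Subgroup.centralizer ({d} : Set G)) ⧸ (Subgroup.zpowers d).subgroupOf (Subgroup.centralizer ({d} : Set G)) ≃* Cfsg.PSU 6 K 2)
    (hnwc : ∃ g : G, g * d * g⁻¹ ∈ Subgroup.centralizer ({d} : Set G) ∧ g * d * g⁻¹ ≠ d) :
    IsThreeTranspositionGroup (conjugatesOf d) ∧ (∀ a ∈ conjugatesOf d, ∀ b ∈ conjugatesOf d, ∃ g : G, g * a * g⁻¹ = b) ∧
      ∃ e : Spor.Fi22 ≃* G, ∀ x, e (PresentedGroup.of x) ∈ conjugatesOf d := by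
  classical
  have hF2 : Fintype.card K = 2 ^ 2 := by rw [hK]; norm_num
  have hch : (2 : K) = 0 := by
    have h1 : ((Fintype.card K : ℕ) : K) = 0 := Nat.cast_card_eq_zero K
    rw [hK] at h1
    have h2 : (2 : K) * 2 = 0 := by
      have : ((4 : ℕ) : K) = 2 * 2 := by norm_num
      rw [← this]; exact h1
    exact mul_self_eq_zero.mp h2
  haveI : CharP K 2 := CharTwo.of_one_ne_zero_of_two_eq_zero one_ne_zero hch
  have hperf : commutator ↥(Subgroup.centralizer ({d} : Set G)) = ⊤ := hq.1.commutator_eq_top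
  have hs0 : IsSimpleGroup (Cfsg.PSU 6 K 2) := hP K hK
  haveI hs1 : IsSimpleGroup (Cfsg.PSU 6 K 2) := hs0
  have hs : IsSimpleGroup (QD0 d) := MulEquiv.isSimpleGroup e
  obtain ⟨δ, hd0, D, E, π, KK, S', hLO, hno, hall, ⟨W₀, hW₀⟩, hcard⟩ := exists_data hd hperf hF2 hs0 e
  have hcj : ∀ g : G, ∀ x ∈ conjugatesOf d, g * x * g⁻¹ ∈ conjugatesOf d := fun g x hx =>
    (show IsConj d x from hx).trans (isConj_iff.2 ⟨g, rfl⟩)
  have hcl : ∀ a ∈ conjugatesOf d, ∀ b ∈ conjugatesOf d, ∃ g : G, g * a * g⁻¹ = b := fun a ha b hb =>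
    isConj_iff.1 ((show IsConj d a from ha).symm.trans hb)
  have X₀ := chart₀ KK S' hLO hno hd0 hall hcard hnwc
  have Y : CD (herm_HS 6 hF2) (conjugatesOf d) := by
    refine ⟨?_, hcj, hcl, ⟨d, mem_conjugatesOf_self⟩⟩
    intro x hx
    obtain ⟨g, rfl⟩ := isConj_iff.1 (show IsConj d x from hx)
    exact ⟨_, X₀.conjg hcj g⟩
  have hdm : d ∈ conjugatesOf d := mem_conjugatesOf_self
  have hT := tg Y hdm hs
  have hpsu := psu_all Y hdm hs hperf hK e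
  have hcc := cc_all Y hdm hs hperf
  have hnc : ∀ x ∈ conjugatesOf d, NoCentral (conjugatesOf d) x := fun x hx => nocentral Y hx
  obtain ⟨hHD, hMT, hm1⟩ := FiPsu.hdmt_of_psu hP hT ⟨d, hdm⟩ hcl hcc hnc hpsu
  have hmu := Y.geo.mu_all Y.nb (tw_of Y) hMT hm1
  have h3510 := Y.geo.card3510 hmu hHD.u1 hHD.u2
  have hcf := FiMu.cf_two hT (FiPsu.vtriv hcl hcc)
  have YY : FiHex.YD (conjugatesOf d) := ⟨hHD, hMT, hmu, hm1, hcf, hnc⟩
  have hGc : Nat.card G = 64561751654400 := by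
    rw [card_eq_class d, h3510, card_cov KK]
    have : Nat.card (QD0 d) = 9196830720 := hcard
    rw [this]
  have T : FiUniq.T22 (conjugatesOf d) := ⟨hT, hcl, cm_all Y hdm hs, hcc, hnc, hcf, hpsu, ⟨d, hdm⟩, hGc⟩
  exact ⟨hT, hcl, FiPsu.iso_of_YD YY T⟩

end Cfsg.Agent.Lib.H89FC
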