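import Cfsg.Agent.Lib.H89Fi0
import Cfsg.Agent.Lib.H89FiSV

/-!
# The centralizer in `Co0` of the coordinate permutation of order 3 with six fixed points: order (helper89)
-/

set_option autoImplicit false
set_option linter.all false

namespace Cfsg.Agent.Lib.H89Fi

open Cfsg Cfsg.Agent.Lib.Golay Cfsg.Agent.Lib.LeechMin Cfsg.Agent.Lib.H89LeechMat Cfsg.Agent.Lib.H89Mon1
  Cfsg.Agent.Lib.LeechQuot Cfsg.Agent.Lib.LeechOrder Cfsg.Agent.Lib.H89Mono Cfsg.Agent.Lib.H89FixRank
  Cfsg.Agent.Lib.H89FixTab Cfsg.Agent.Lib.LeechFrame Cfsg.Agent.Lib.H89Q2 Cfsg.Agent.Lib.H89Stab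
  Cfsg.Agent.Lib.H89CN Cfsg.Agent.Lib.H89Act Cfsg.Agent.Lib.H89MatAct
open Cfsg.Agent.Lib.H89Three (a3 a3_pow a3_ne a3_mem_N orderOf_a3 comm_codes3)
open scoped Pointwise

/-! ### the fixed points -/

theorem fII_fx (i : Fin 6) : fII i = pt (fx i) := by fin_cases i <;> rfl

theorem fx_lt {j : ℕ} (h : j < 6) : fx j < 24 := by interval_cases j <;> decide

theorem fxfix_ok : allLt 24 (fun i => cond (Nat.beq (img cZ i) i) (cond (Nat.beq i 23) true (Nat.blt i 5)) true) = true := by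
  decide +kernel

theorem cZ_fII (i : Fin 6) : toPerm cZ (fII i) = fII i := by
  have : allLt 6 (fun j => Nat.beq (img cZ (fx j)) (fx j)) = true := by decide +kernel
  have h := Nat.eq_of_beq_eq_true (allLt_iff.mp this i i.2)
  rw [fII_fx, toPerm_pt (valid_of_inM inM_cZ) (fx_lt i.2), h]

theorem exists_fII {p : GolayPt} (h : toPerm cZ p = p) : ∃ i, p = fII i := by
  have h1 := allLt_iff.mp fxfix_ok (ix p) (ix_lt p)
  have h2 : img cZ (ix p) = ix p := by
    rw [← ix_toPerm (valid_of_inM inM_cZ), h]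
  rw [h2, Nat.beq_refl, cond_true] at h1
  have h3 : ix p = 23 ∨ ix p < 5 := by
    rcases Bool.eq_false_or_eq_true (Nat.beq (ix p) 23) with h | h
    · left; exact Nat.eq_of_beq_eq_true h
    · right
      rw [h, cond_false] at h1
      exact Nat.blt_eq.mp h1
  rcases h3 with h | h
  · exact ⟨0, by show p = pt 23; rw [← h, pt_ix]⟩
  · generalize he : ix p = m at h
    have hp : p = pt m := by rw [← he, pt_ix]
    interval_cases m
    · exact ⟨1, hp⟩
    · exact ⟨2, hp⟩
    · exact ⟨3, hp⟩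
    · exact ⟨4, hp⟩
    · exact ⟨5, hp⟩

/-! ### the centralizer in `M24` -/

/-- the centraliser -/
def Ma : Subgroup (Equiv.Perm GolayPt) := M24 ⊓ Subgroup.centralizer {toPerm cZ}

theorem mem_Ma {g : Equiv.Perm GolayPt} : g ∈ Ma ↔ g ∈ M24 ∧ g * toPerm cZ = toPerm cZ * g := by
  unfold Ma
  rw [Subgroup.mem_inf, Subgroup.mem_centralizer_singleton_iff]

theorem Ma_fII {g : Equiv.Perm GolayPt} (hg : g ∈ Ma) (i : Fin 6) : ∃ j, g (fII i) = fII j := by
  apply exists_fII
  have h := DFunLike.congr_fun (mem_Ma.1 hg).2 (fII i)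
  rw [Equiv.Perm.mul_apply, Equiv.Perm.mul_apply, cZ_fII] at h
  exact h.symm

theorem tsw_fII : (∀ i : Fin 4, toPerm tsw (fII (Fin.castLE (by norm_num) i)) = fII (Fin.castLE (by norm_num) i)) ∧
    toPerm tsw (fII 4) = fII 5 ∧ toPerm tsw (fII 5) = fII 4 := by
  have h := tsw_pts
  have hv := valid_of_inM tsw_inM
  obtain ⟨a1, h⟩ := cond_false_eq.mp h
  obtain ⟨a2, h⟩ := cond_false_eq.mp h
  obtain ⟨a3, h⟩ := cond_false_eq.mp h
  obtain ⟨a4, h⟩ := cond_false_eq.mp h
  obtain ⟨a5, a6⟩ := cond_false_eq.mp h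
  have htp : ∀ {i j : ℕ}, i < 24 → Nat.beq (img tsw i) j = true → toPerm tsw (pt i) = pt j := by
    intro i j hi h
    rw [toPerm_pt hv hi, Nat.eq_of_beq_eq_true h]
  refine ⟨?_, ?_, ?_⟩
  · intro i
    fin_cases i
    · exact htp (by norm_num) a1
    · exact htp (by norm_num) a2
    · exact htp (by norm_num) a3
    · exact htp (by norm_num) a4
  · exact htp (by norm_num) a5
  · exact htp (by norm_num) a6

theorem tsw_not : toPerm tsw * toPerm cZ ≠ toPerm cZ * toPerm tsw := by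
  intro h
  have h1 := DFunLike.congr_fun h (pt 5)
  have hv := valid_of_inM tsw_inM
  have hz := valid_of_inM inM_cZ
  rw [Equiv.Perm.mul_apply, Equiv.Perm.mul_apply, toPerm_pt hz (by norm_num),
    toPerm_pt hv (img_lt hz (by norm_num)), toPerm_pt hv (show 5 < 24 by norm_num), toPerm_pt hz (img_lt hv (by norm_num))] at h1
  have h2 : img tsw (img cZ 5) = img cZ (img tsw 5) := by
    by_contra hne
    exact pt_ne (img_lt hv (img_lt hz (by norm_num))) (img_lt hz (img_lt hv (by norm_num))) hne h1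
  have h3 := tsw_nc
  rw [h2, Nat.beq_refl] at h3
  exact absurd h3 (by decide)

theorem Ma_fix4 {g : Equiv.Perm GolayPt} (hg : g ∈ Ma) (h : ∀ i : Fin 4, g (fII (Fin.castLE (by norm_num) i)) = fII (Fin.castLE (by norm_num) i)) :
    g = 1 ∨ g = toPerm cZ ∨ g = toPerm cZ' := by
  have h0 : g (fII 0) = fII 0 := h 0
  have h1 : g (fII 1) = fII 1 := h 1
  have h2 : g (fII 2) = fII 2 := h 2
  have h3 : g (fII 3) = fII 3 := h 3
  obtain ⟨j, hj⟩ := Ma_fII hg 4
  obtain ⟨k, hk⟩ := Ma_fII hg 5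
  have hjne : ∀ i : Fin 6, i ≠ 4 → g (fII i) = fII i → j ≠ i := by
    rintro i hi he rfl
    apply hi
    apply fII_inj
    apply g.injective
    rw [he, hj]
  have hkne : ∀ i : Fin 6, i ≠ 5 → g (fII i) = fII i → k ≠ i := by
    rintro i hi he rfl
    apply hi
    apply fII_inj
    apply g.injective
    rw [he, hk]
  have hjk : j ≠ k := by
    rintro rfl
    have := fII_inj (g.injective (hj.trans hk.symm))
    exact absurd this (by decide)
  have j0 := hjne 0 (by decide) h0
  have j1 := hjne 1 (by decide) h1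
  have j2 := hjne 2 (by decide) h2
  have j3 := hjne 3 (by decide) h3
  have k0 := hkne 0 (by decide) h0
  have k1 := hkne 1 (by decide) h1
  have k2 := hkne 2 (by decide) h2
  have k3 := hkne 3 (by decide) h3
  have hj45 : j = 4 ∨ j = 5 := by
    clear hj hk hjne hkne hjk k0 k1 k2 k3
    revert j; decide
  have hk45 : k = 4 ∨ k = 5 := by
    clear hj hk hjne hkne hjk j0 j1 j2 j3 hj45
    revert k; decide
  rcases hj45 with rfl | rfl
  · have hk5 : k = 5 := by
      rcases hk45 with rfl | rfl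
      · exact absurd rfl hjk
      · rfl
    subst hk5
    exact fixII (mem_Ma.1 hg).1 (fun i => by fin_cases i; exacts [h0, h1, h2, h3, hj, hk])
  · exfalso
    have hk4 : k = 4 := by
      rcases hk45 with rfl | rfl
      · rfl
      · exact absurd rfl hjk
    subst hk4
    obtain ⟨t1, t2, t3⟩ := tsw_fII
    have hall : ∀ i, g (fII i) = toPerm tsw (fII i) := by
      intro i
      fin_cases i
      · exact h0.trans (t1 0).symm
      · exact h1.trans (t1 1).symm
      · exact h2.trans (t1 2).symm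
      · exact h3.trans (t1 3).symm
      · exact hj.trans t2.symm
      · exact hk.trans t3.symm
    have hc := (mem_Ma.1 hg).2
    have hv := valid_of_inM tsw_inM
    have hzc : toPerm cZ' = toPerm cZ * toPerm cZ ∨ True := Or.inr trivial
    have hz' : toPerm cZ' * toPerm cZ = toPerm cZ * toPerm cZ' := by
      apply comm_codes3 inM_cZ' inM_cZ
      decide +kernel
    rcases cosetII (mem_Ma.1 hg).1 tsw_inM hall with h | h | h
    · rw [h] at hc
      exact tsw_not hc
    · rw [h, toPerm_mulC hv (valid_of_inM inM_cZ)] at hc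
      apply tsw_not
      apply mul_right_cancel (b := toPerm cZ)
      rw [hc, mul_assoc]
    · rw [h, toPerm_mulC hv (valid_of_inM inM_cZ')] at hc
      apply tsw_not
      apply mul_right_cancel (b := toPerm cZ')
      rw [mul_assoc, ← hz', ← mul_assoc, hc, mul_assoc]

theorem card_Ma_le : Nat.card Ma ≤ 1080 := by
  classical
  letI : MulAction (Equiv.Perm GolayPt) (Fin 4 → GolayPt) := Pi.mulAction _
  let x0 : Fin 4 → GolayPt := fun i => fII (Fin.castLE (by norm_num) i)
  have h1 : Nat.card Ma = (MulAction.orbit Ma x0).ncard * Nat.card (MulAction.stabilizer Ma x0) := by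
    have h := MulAction.card_orbit_mul_card_stabilizer_eq_card_group Ma x0
    rw [← Nat.card_eq_fintype_card, ← Nat.card_eq_fintype_card, ← Nat.card_eq_fintype_card] at h
    rw [← h]; rfl
  have h2 : MulAction.orbit Ma x0 ⊆ (fun τ : Fin 4 ↪ Fin 6 => fun i => fII (τ i)) '' Set.univ := by
    rintro _ ⟨g, rfl⟩
    choose f hf using fun i : Fin 4 => Ma_fII g.2 (Fin.castLE (by norm_num) i)
    refine ⟨⟨f, ?_⟩, trivial, ?_⟩
    · intro a b hab
      have h3 : (g : Equiv.Perm GolayPt) (fII (Fin.castLE (by norm_num) a)) = (g : Equiv.Perm GolayPt) (fII (Fin.castLE (by norm_num) b)) := by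
        rw [hf, hf, hab]
      exact Fin.castLE_injective (by norm_num) (fII_inj ((g : Equiv.Perm GolayPt).injective h3))
    · funext i
      exact (hf i).symm
  have h3 : (MulAction.orbit Ma x0).ncard ≤ 360 := by
    refine le_trans (Set.ncard_le_ncard h2 (Set.toFinite _)) (le_trans (Set.ncard_image_le (Set.toFinite _)) ?_)
    rw [Set.ncard_univ, Nat.card_eq_fintype_card, Fintype.card_embedding_eq]
    decide
  have h4 : Nat.card (MulAction.stabilizer Ma x0) ≤ 3 := by
    have h5 : ∀ g : MulAction.stabilizer Ma x0, ∃ k : Fin 3, ((g : Ma) : Equiv.Perm GolayPt) = ![1, toPerm cZ, toPerm cZ'] k := by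
      intro g
      rcases Ma_fix4 g.1.2 (fun i => congrFun g.2 i) with h | h | h
      · exact ⟨0, h⟩
      · exact ⟨1, h⟩
      · exact ⟨2, h⟩
    choose f hf using h5
    have h6 : Function.Injective f := by
      intro g h e
      apply Subtype.ext
      apply Subtype.ext
      rw [hf g, hf h, e]
    have h7 := Nat.card_le_card_of_injective f h6
    rwa [Nat.card_fin] at h7
  rw [h1]
  calc _ ≤ 360 * 3 := Nat.mul_le_mul h3 h4
    _ = 1080 := by norm_num

/-! ### fixed vectors -/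

theorem img_eq_mod (c i : ℕ) : img c i = c / 32 ^ i % 32 := by
  show (c >>> (5 * i)) &&& 31 = _
  rw [Nat.shiftRight_eq_div_pow, show (31 : ℕ) = 2 ^ 5 - 1 by norm_num, Nat.and_two_pow_sub_one_eq_mod, pow_mul,
    show (2 : ℕ) ^ 5 = 32 by norm_num]

theorem mod_code (c k : ℕ) : c % 32 ^ k = ∑ i ∈ Finset.range k, img c i * 32 ^ i := by
  induction k with
  | zero => simp [Nat.mod_one]
  | succ k ih => rw [Finset.sum_range_succ, ← ih, pow_succ, Nat.mod_mul, img_eq_mod]; ring

theorem code_eq {c : ℕ} (h : c < 32 ^ 24) : c = ∑ i ∈ Finset.range 24, img c i * 32 ^ i := by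
  rw [← mod_code, Nat.mod_eq_of_lt h]

theorem svOK_spec {L : List ℕ} {p : ℕ} (h : svOK L p = true) : (∀ a ∈ L, p < a) ∧ L.Nodup ∧ ∀ a ∈ L, a < 32 ^ 24 ∧ latC a = true ∧
    (∀ i < 24, img a (img cZ i) = img a i) ∧ (idot a a = 32 ∨ idot a a = 48) := by
  induction L generalizing p with
  | nil => exact ⟨by simp, List.nodup_nil, by simp⟩
  | cons a L ih =>
    obtain ⟨h1, h⟩ := cond_false_eq.mp (show cond (Nat.blt p a) (cond (Nat.blt a (32 ^ 24))
      (cond (latC a) (cond (allLt 24 fun i => Nat.beq (img a (img cZ i)) (img a i))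
        (cond (cond (decide (idot a a = 32)) true (decide (idot a a = 48))) (svOK L a) false) false) false) false) false = true from h)
    obtain ⟨h2, h⟩ := cond_false_eq.mp h
    obtain ⟨h3, h⟩ := cond_false_eq.mp h
    obtain ⟨h4, h⟩ := cond_false_eq.mp h
    obtain ⟨h5, h⟩ := cond_false_eq.mp h
    obtain ⟨i1, i2, i3⟩ := ih h
    have h1' : p < a := Nat.blt_eq.mp h1
    refine ⟨?_, List.nodup_cons.2 ⟨fun hm => lt_irrefl _ (i1 a hm), i2⟩, ?_⟩
    · intro b hb
      rcases List.mem_cons.1 hb with rfl | hb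
      · exact h1'
      · exact h1'.trans (i1 b hb)
    · intro b hb
      rcases List.mem_cons.1 hb with rfl | hb
      · refine ⟨Nat.blt_eq.mp h2, h3, fun i hi => Nat.eq_of_beq_eq_true (allLt_iff.mp h4 i hi), ?_⟩
        rcases Bool.eq_false_or_eq_true (decide (idot b b = 32)) with h | h
        · left; exact of_decide_eq_true h
        · right
          rw [h, cond_false] at h5
          exact of_decide_eq_true h5
      · exact i3 b hb

theorem SV_mem {a : ℕ} (ha : a ∈ SV) : z0 < a ∧ a < 32 ^ 24 ∧ latC a = true ∧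
    (∀ i < 24, img a (img cZ i) = img a i) ∧ (idot a a = 32 ∨ idot a a = 48) :=
  ⟨(svOK_spec SV_ok).1 a ha, (svOK_spec SV_ok).2.2 a ha⟩

theorem SV_FL {a : ℕ} (ha : a ∈ SV) : lw a ∈ FL a3 := by
  obtain ⟨-, -, h3, h4, -⟩ := SV_mem ha
  unfold a3
  rw [mem_FL_pC inM_cZ]
  intro p
  rw [coe_lw h3]
  show dv a (ix (toPerm cZ p)) = dv a (ix p)
  rw [ix_toPerm (valid_of_inM inM_cZ)]
  unfold dv
  rw [h4 _ (ix_lt p)]

theorem SV_sq {a : ℕ} (ha : a ∈ SV) : sqNorm (lw a : GolayPt → ℤ) = 32 ∨ sqNorm (lw a : GolayPt → ℤ) = 48 := by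
  obtain ⟨-, -, h3, -, h4⟩ := SV_mem ha
  rw [coe_lw h3, sqNorm_vv]
  exact h4

theorem z0_sum : z0 = ∑ i ∈ Finset.range 24, 16 * 32 ^ i := by
  simp only [Finset.sum_range_succ, Finset.sum_range_zero]
  norm_num [z0]

theorem SV_inj {a b : ℕ} (ha : a ∈ SV) (hb : b ∈ SV) (h : q2 (lw a) = q2 (lw b)) : a = b := by
  have na : sqNorm (lw a : GolayPt → ℤ) ≤ 64 := by rcases SV_sq ha with h | h <;> rw [h] <;> norm_num
  have nb : sqNorm (lw b : GolayPt → ℤ) ≤ 64 := by rcases SV_sq hb with h | h <;> rw [h] <;> norm_num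
  obtain ⟨a1, a2, a3, -, -⟩ := SV_mem ha
  obtain ⟨b1, b2, b3, -, -⟩ := SV_mem hb
  rcases q2_short na nb h with h | h | ⟨h, -⟩
  · have h1 : ∀ i ∈ Finset.range 24, img a i * 32 ^ i = img b i * 32 ^ i := by
      intro i hi
      have h2 := congrFun (congrArg Subtype.val h) (pt i)
      have h3 : (lw a : GolayPt → ℤ) (pt i) = (lw b : GolayPt → ℤ) (pt i) := h2
      rw [coe_lw a3, coe_lw b3, vv_pt _ (Finset.mem_range.1 hi), vv_pt _ (Finset.mem_range.1 hi), dv_eq, dv_eq] at h3
      have : img a i = img b i := by omega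
      rw [this]
    rw [code_eq a2, code_eq b2]
    exact Finset.sum_congr rfl h1
  · exfalso
    have h1 : ∀ i ∈ Finset.range 24, img a i * 32 ^ i + img b i * 32 ^ i = 2 * (16 * 32 ^ i) := by
      intro i hi
      have h3 : (lw a : GolayPt → ℤ) (pt i) = - (lw b : GolayPt → ℤ) (pt i) := by rw [h]; rfl
      rw [coe_lw a3, coe_lw b3, vv_pt _ (Finset.mem_range.1 hi), vv_pt _ (Finset.mem_range.1 hi), dv_eq, dv_eq] at h3
      have : img a i + img b i = 32 := by omega
      rw [← add_mul, this]; ring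
    have h2 := Finset.sum_congr rfl h1
    rw [Finset.sum_add_distrib, ← code_eq a2, ← code_eq b2, ← Finset.mul_sum, ← z0_sum] at h2
    omega
  · rcases SV_sq ha with h' | h' <;> rw [h] at h' <;> norm_num at h'

theorem card_FixS_a3 : Nat.card (FixS a3) = 4096 := card_FixS_pC inM_cZ orba_ok

theorem ncard_T4a_le : (T4 a3).ncard ≤ 1701 := by
  classical
  haveI : Finite Q2 := finite_Q2
  set A : Set Q2 := (fun a => q2 (lw a)) '' {a | a ∈ SV} with hA
  have hAfin : A.Finite := Set.toFinite _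
  have hA1 : A.ncard = 2394 := by
    have hinj : Set.InjOn (fun a => q2 (lw a)) {a | a ∈ SV} := fun a ha b hb h => SV_inj ha hb h
    rw [hA, Set.ncard_image_of_injOn hinj]
    have h1 : ({a | a ∈ SV} : Set ℕ) = (SV.toFinset : Set ℕ) := by ext; simp
    rw [h1, Set.ncard_coe_finset, List.toFinset_card_of_nodup (svOK_spec SV_ok).2.1, SV_len]
  have hAF : A ⊆ (FixS a3 : Set Q2) := by
    rintro _ ⟨a, ha, rfl⟩
    exact ⟨_, SV_FL ha, rfl⟩
  have hz : sqNorm ((0 : leechLattice) : GolayPt → ℤ) = 0 := by simp [sqNorm]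
  have h0A : (0 : Q2) ∉ A := by
    rintro ⟨a, ha, h⟩
    have na : sqNorm (lw a : GolayPt → ℤ) ≤ 64 := by rcases SV_sq ha with h | h <;> rw [h] <;> norm_num
    have h3 := sqNorm_eq_of_q2 na (w := 0) (by rw [hz]; norm_num) h
    rw [hz] at h3
    rcases SV_sq ha with h | h <;> rw [h] at h3 <;> norm_num at h3
  have hT0 : (0 : Q2) ∉ T4 a3 := by
    rintro ⟨-, v, hv, h⟩
    have hv' : sqNorm (v : GolayPt → ℤ) = 64 := hv
    have h3 := sqNorm_eq_of_q2 (v := v) (w := 0) (by rw [hv']) (by rw [hz]; norm_num) h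
    rw [hz, hv'] at h3
    norm_num at h3
  have hTA : Disjoint (T4 a3) A := by
    rw [Set.disjoint_left]
    rintro x ⟨-, v, hv, rfl⟩ ⟨a, ha, h⟩
    have hv' : sqNorm (v : GolayPt → ℤ) = 64 := hv
    have na : sqNorm (lw a : GolayPt → ℤ) ≤ 64 := by rcases SV_sq ha with h | h <;> rw [h] <;> norm_num
    have h3 := sqNorm_eq_of_q2 na (by rw [hv']) h
    rw [hv'] at h3
    rcases SV_sq ha with h | h <;> rw [h] at h3 <;> norm_num at h3
  have h1 : (insert (0 : Q2) (T4 a3 ∪ A)) ⊆ (FixS a3 : Set Q2) := by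
    rintro x (rfl | h | h)
    · exact (FixS a3).zero_mem
    · exact h.1
    · exact hAF h
  have h2 := Set.ncard_le_ncard h1 (Set.toFinite _)
  rw [Set.ncard_insert_of_notMem (by rintro (h | h); exacts [hT0 h, h0A h]) (Set.toFinite _),
    Set.ncard_union_eq hTA (Set.toFinite _) hAfin, hA1] at h2
  have h3 : (FixS a3 : Set Q2).ncard = 4096 := by rw [← card_FixS_a3]; rfl
  rw [h3] at h2
  revert h2
  generalize (T4 a3).ncard = t
  clear * -
  intro h2
  omega

/-! ### order -/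

/-- the centralizer -/
abbrev C : Subgroup Co0 := Subgroup.centralizer ({a3} : Set Co0)

theorem mem_C {g : Co0} : g ∈ C ↔ g * a3 = a3 * g := Subgroup.mem_centralizer_singleton_iff

theorem p1_mem_a : p1 ∈ T4 a3 := by
  refine ⟨?_, ef none, ?_, rfl⟩
  · show q2 (ef none) ∈ FixS a3
    rw [mem_FixS (p := 3) (by decide) a3_pow]
    have := mem_N_iff_p1.1 a3_mem_N
    exact q2_eq_iff.1 this
  · show sqNorm (ef none : GolayPt → ℤ) = 64
    rw [coe_ef, sqNorm_single]; norm_num

theorem orbit_sub {x : Q2} (hx : x ∈ T4 a3) : MulAction.orbit C x ⊆ T4 a3 := by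
  rintro _ ⟨g, rfl⟩
  exact smul_mem_T4 (mem_C.1 g.2) hx

/-- fixed code words -/
theorem exists_Fa {c : Finset GolayPt} (hc : c ∈ Sup) (h : toPerm cZ • c = c) : ∃ m ∈ Fa, c = mset m := by
  obtain ⟨n, hn, rfl⟩ := mem_supports_iff.1 hc
  rw [toPerm_smul_mset (valid_of_inM inM_cZ)] at h
  have h3 := mset_injOn (imgM_lt (valid_of_inM inM_cZ) _) (enc_lt _) h
  have h1 := allLt_iff.mp Fa_ok n hn
  rw [h3, Nat.beq_refl, cond_true] at h1
  obtain ⟨m, hm, h4⟩ := List.any_eq_true.mp h1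
  exact ⟨m, hm, by rw [Nat.eq_of_beq_eq_true h4]⟩

/-- monomial elements commuting with `a3` -/
theorem mono_form {g : Co0} (hg : g ∈ N) (hc : g * a3 = a3 * g) : ∃ σ ∈ Ma, ∃ m ∈ Fa,
    ∀ v : leechLattice, ((g • v : leechLattice) : GolayPt → ℤ) = signedPerm σ (mset m) v := by
  obtain ⟨σ, hσ, c, hcS, h⟩ := hg
  obtain ⟨h1, h2⟩ := perm_comm (toPerm_mem_M24 inM_cZ) h (toPerm_mem_M24 inM_cZ) hc
  obtain ⟨m, hm, rfl⟩ := exists_Fa hcS h2.symm
  exact ⟨σ, mem_Ma.2 ⟨hσ, h1⟩, m, hm, h⟩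

theorem Fa_len : Fa.length = 64 := by decide

theorem card_stab_le : Nat.card (MulAction.stabilizer C p1) ≤ 1080 * 64 := by
  have h1 : ∀ g : MulAction.stabilizer C p1, ∃ x : Ma × Fin Fa.length, ∀ v : leechLattice,
      ((((g : C) : Co0) • v : leechLattice) : GolayPt → ℤ) = signedPerm (x.1 : Equiv.Perm GolayPt) (mset (Fa.get x.2)) v := by
    intro g
    obtain ⟨σ, hσ, m, hm, h⟩ := mono_form (mem_N_iff_p1.2 g.2) (mem_C.1 g.1.2)
    obtain ⟨i, hi⟩ := List.mem_iff_get.1 hm
    exact ⟨(⟨σ, hσ⟩, i), by rw [hi]; exact h⟩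
  choose f hf using h1
  have h2 : Function.Injective f := by
    intro g h e
    apply Subtype.ext
    apply Subtype.ext
    apply ext_smul
    intro v
    apply Subtype.ext
    rw [hf g, hf h, e]
  haveI : Finite Ma := inferInstance
  have h3 := Nat.card_le_card_of_injective f h2
  rw [Nat.card_prod, Nat.card_fin, Fa_len] at h3
  have h5 := Nat.mul_le_mul_right 64 card_Ma_le
  omega

theorem card_C_le : Nat.card C ≤ 117573120 := by
  haveI : Finite Q2 := finite_Q2
  have h1 : Nat.card C = Nat.card (MulAction.stabilizer C p1) * (MulAction.orbit C p1).ncard := card_eq inM_cZ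
  have h3 : (MulAction.orbit C p1).ncard ≤ 1701 :=
    le_trans (Set.ncard_le_ncard (orbit_sub p1_mem_a) (Set.toFinite _)) ncard_T4a_le
  have h2 := card_stab_le
  rw [h1]
  calc _ ≤ (1080 * 64) * 1701 := Nat.mul_le_mul h2 h3
    _ = 117573120 := by norm_num

end Cfsg.Agent.Lib.H89Fi
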