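import Cfsg.Agent.Lib.TwoRankOrth
import Cfsg.Agent.Lib.ClOmega
import Cfsg.Agent.Lib.ClUnitary2
import Cfsg.Agent.Lib.LowDim
import Cfsg.Agent.S0303
import Cfsg.Agent.S0283

/-!
# The orthogonal group of minus type in dimension 6 over the field of three elements (helper89)
-/

set_option autoImplicit false
set_option linter.all false

namespace Cfsg.Agent.Lib.H89FiO

open Cfsg Cfsg.Agent.Lib.TwoRankOrth Cfsg.Agent.Lib.Quad
open scoped Matrix commutatorElement

abbrev I6 := (Fin 2 ⊕ Fin 2) ⊕ Fin 2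

/-- the sum of six squares over the field of three elements -/
def Qs (v : I6 → ZMod 3) : ZMod 3 := ∑ i, v i ^ 2

/-- numbering -/
def num : I6 → Fin 6
  | .inl (.inl 0) => 0
  | .inl (.inl 1) => 1
  | .inl (.inr 0) => 2
  | .inl (.inr 1) => 3
  | .inr 0 => 4
  | .inr 1 => 5

def P6 : Matrix I6 I6 (ZMod 3) := fun i j =>
  ![![1, -1, 0, -1, 0, 0], ![1, 1, 1, 0, 0, 0], ![1, 0, 1, 1, 0, 0], ![0, -1, 1, -1, 0, 0], ![0, 0, 0, 0, 1, 0], ![0, 0, 0, 0, 0, 1]] (num i) (num j)

def G6 : Matrix I6 I6 (ZMod 3) := fun i j =>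
  ![![0, 0, 2, 0, 0, 0], ![0, 0, 0, 2, 0, 0], ![2, 0, 0, 0, 0, 0], ![0, 2, 0, 0, 0, 0], ![0, 0, 0, 0, 1, 0], ![0, 0, 0, 0, 0, 1]] (num i) (num j)

theorem gram : P6.transpose * P6 = G6 := by decide +kernel
theorem P6_l : (G6 * P6.transpose) * P6 = 1 := by decide +kernel
theorem P6_r : P6 * (G6 * P6.transpose) = 1 := by decide +kernel

theorem sum_I6 {M : Type*} [AddCommMonoid M] (f : I6 → M) : ∑ i, f i = f (.inl (.inl 0)) + f (.inl (.inl 1)) +
    (f (.inl (.inr 0)) + f (.inl (.inr 1))) + (f (.inr 0) + f (.inr 1)) := by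
  rw [Fintype.sum_sum_type, Fintype.sum_sum_type, Fin.sum_univ_two, Fin.sum_univ_two, Fin.sum_univ_two]

noncomputable def e6 : (I6 → ZMod 3) ≃ₗ[ZMod 3] (I6 → ZMod 3) := Matrix.toLin'OfInv P6_l P6_r

theorem e6_apply (x : I6 → ZMod 3) : e6 x = P6.mulVec x := rfl

theorem alg6 : ∀ a b c d e f : ZMod 3,
    (a + -1 * b + (0 * c + -1 * d) + (0 * e + 0 * f)) ^ 2 + (1 * a + 1 * b + (1 * c + 0 * d) + (0 * e + 0 * f)) ^ 2 +
      ((1 * a + 0 * b + (1 * c + 1 * d) + (0 * e + 0 * f)) ^ 2 + (0 * a + -1 * b + (1 * c + -1 * d) + (0 * e + 0 * f)) ^ 2) +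
      ((0 * a + 0 * b + (0 * c + 0 * d) + (1 * e + 0 * f)) ^ 2 + (0 * a + 0 * b + (0 * c + 0 * d) + (0 * e + 1 * f)) ^ 2) =
    (a * c + b * d) + (e ^ 2 + 0 * e * f + 1 * f ^ 2) := by decide +kernel

theorem Qs_e6 (x : I6 → ZMod 3) : Qs (e6 x) = Cfsg.quadFormMinus 2 (ZMod 3) 0 1 x := by
  have h := alg6 (x (.inl (.inl 0))) (x (.inl (.inl 1))) (x (.inl (.inr 0))) (x (.inl (.inr 1))) (x (.inr 0)) (x (.inr 1))
  unfold Qs Cfsg.quadFormMinus
  rw [Fin.sum_univ_two]
  rw [← h, sum_I6]
  simp only [e6_apply, Matrix.mulVec, dotProduct, sum_I6]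
  simp [P6, num]


theorem hab : ∀ z₁ z₂ : ZMod 3, z₁ ^ 2 + 0 * z₁ * z₂ + 1 * z₂ ^ 2 = 0 → z₁ = 0 ∧ z₂ = 0 := by decide

/-- the isometry group of the sum of six squares -/
abbrev O1 : Type := ↥(Cfsg.isometryGroup (ZMod 3) Qs)

/-- its commutator subgroup -/
abbrev Om1 : Subgroup O1 := Cfsg.Omega (ZMod 3) Qs

noncomputable def isoO : ↥(Cfsg.isometryGroup (ZMod 3) (Cfsg.quadFormMinus 2 (ZMod 3) 0 1)) ≃* O1 := isometryEquiv e6 Qs_e6

theorem card_Om1 : Nat.card Om1 = 6531840 := by
  have h1 : Nat.card ↥(Cfsg.isometryGroup (ZMod 3) (Cfsg.quadFormMinus 2 (ZMod 3) 0 1)) = 26127360 := by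
    have h := ClOrthOrd.card_isometryGroup (quadMinus 2 (ZMod 3) 0 1)
    rw [coe_quadMinus] at h
    rw [h, ClOrthOrd.card_O_minus hab]
    simp only [ZMod.card, Finset.prod_range_succ, Finset.prod_range_zero]
    norm_num
  have h2 : (Cfsg.Omega (ZMod 3) (Cfsg.quadFormMinus 2 (ZMod 3) 0 1)).index = 4 := by
    have h := index_Omega_odd (Q := quadMinus 2 (ZMod 3) 0 1) (nd_quadMinus (disc_ne_zero_of_anisotropic hab)) (by decide)
      (by rw [Module.finrank_pi]; simp)
    rw [coe_quadMinus] at h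
    exact h
  have h3 := Subgroup.card_mul_index (Cfsg.Omega (ZMod 3) (Cfsg.quadFormMinus 2 (ZMod 3) 0 1))
  rw [h1, h2] at h3
  have h4 : Nat.card (Cfsg.Omega (ZMod 3) (Cfsg.quadFormMinus 2 (ZMod 3) 0 1)) = 6531840 := by omega
  rw [← h4]
  exact (Nat.card_congr (commutatorEquiv isoO).toEquiv).symm

abbrev K9 : Type := GaloisField 3 2

theorem card_K9 : Nat.card K9 = 9 := by
  have h := GaloisField.card 3 2 (by norm_num)
  rw [h]; norm_num

noncomputable instance : Fintype K9 := Fintype.ofFinite _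

theorem fcard_K9 : Fintype.card K9 = 3 ^ 2 := by rw [← Nat.card_eq_fintype_card, card_K9]; norm_num

theorem exists_iso : Nonempty (Om1 ⧸ Subgroup.center Om1 ≃* PSU 4 K9 3) := by
  obtain ⟨e1⟩ := Cfsg.Agent.S0303.result (F := ZMod 3) (K := K9) (q := 3) (ZMod.card 3) fcard_K9 0 1 hab
  obtain ⟨e2⟩ := LowDim.center_quot_congr (commutatorEquiv isoO)
  exact ⟨e2.symm.trans e1⟩

theorem card_PSU43 : Nat.card (PSU 4 K9 3) = 3265920 := by
  have h := ClUnitary.card_PSU (F := K9) (n := 4) (q := 3) fcard_K9 (by norm_num)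
  simp only [Finset.prod_range_succ, Finset.prod_range_zero] at h
  norm_num at h
  have h2 : ¬ Even 1 := by decide
  have h4 : ¬ Even 3 := by decide
  omega

instance simple_POm : IsSimpleGroup (Om1 ⧸ Subgroup.center Om1) := by
  obtain ⟨e⟩ := exists_iso
  haveI := Cfsg.Agent.S0283.result (F := K9) (q := 3) fcard_K9 4 (by norm_num) (by norm_num)
  haveI : Nontrivial (Om1 ⧸ Subgroup.center Om1) := e.toEquiv.nontrivial
  exact IsSimpleGroup.isSimpleGroup_of_surjective e.symm.toMonoidHom e.symm.surjective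

theorem card_POm : Nat.card (Om1 ⧸ Subgroup.center Om1) = 3265920 := by
  obtain ⟨e⟩ := exists_iso
  rw [Nat.card_congr e.toEquiv, card_PSU43]

theorem card_center : Nat.card (Subgroup.center Om1) = 2 := by
  have h := Subgroup.card_eq_card_quotient_mul_card_subgroup (Subgroup.center Om1)
  rw [card_POm, card_Om1] at h
  omega


/-! ### reflections -/

/-- the bilinear form -/
def bf (v w : I6 → ZMod 3) : ZMod 3 := dotProduct v w

theorem bf_comm (v w : I6 → ZMod 3) : bf v w = bf w v := dotProduct_comm v w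

theorem Qs_add (v w : I6 → ZMod 3) : Qs (v + w) = Qs v + Qs w + 2 * bf v w := by
  unfold Qs bf dotProduct
  rw [Finset.mul_sum, ← Finset.sum_add_distrib, ← Finset.sum_add_distrib]
  apply Finset.sum_congr rfl
  intro i _
  rw [Pi.add_apply]; ring

theorem Qs_smul (c : ZMod 3) (v : I6 → ZMod 3) : Qs (c • v) = c ^ 2 * Qs v := by
  unfold Qs
  rw [Finset.mul_sum]
  apply Finset.sum_congr rfl
  intro i _
  rw [Pi.smul_apply, smul_eq_mul]; ring

theorem Qs_eq (v : I6 → ZMod 3) : Qs v = bf v v := by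
  unfold Qs bf dotProduct
  exact Finset.sum_congr rfl fun i _ => pow_two _

theorem bf_smul_right (c : ZMod 3) (v w : I6 → ZMod 3) : bf v (c • w) = c * bf v w := by
  unfold bf; rw [dotProduct_smul, smul_eq_mul]

theorem bf_add_right (u v w : I6 → ZMod 3) : bf u (v + w) = bf u v + bf u w := by
  unfold bf; rw [dotProduct_add]

/-- the action on vectors -/
def act (g : O1) (v : I6 → ZMod 3) : I6 → ZMod 3 := (g.1.1 : Matrix I6 I6 (ZMod 3)).mulVec v

theorem act_mul (g h : O1) (v : I6 → ZMod 3) : act (g * h) v = act g (act h v) := by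
  unfold act
  rw [Matrix.mulVec_mulVec]; rfl

theorem act_one (v : I6 → ZMod 3) : act 1 v = v := Matrix.one_mulVec v

theorem act_add (g : O1) (v w : I6 → ZMod 3) : act g (v + w) = act g v + act g w := Matrix.mulVec_add _ _ _

theorem act_smul (g : O1) (c : ZMod 3) (v : I6 → ZMod 3) : act g (c • v) = c • act g v := Matrix.mulVec_smul _ _ _

theorem Qs_act (g : O1) (v : I6 → ZMod 3) : Qs (act g v) = Qs v := TwoRankOrth.mem_isometryGroup.1 g.2 v

theorem bf_act (g : O1) (v w : I6 → ZMod 3) : bf (act g v) (act g w) = bf v w := by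
  have h1 := Qs_add v w
  have h2 := Qs_add (act g v) (act g w)
  rw [← act_add, Qs_act, Qs_act, Qs_act, h1] at h2
  have h3 := add_left_cancel h2
  exact (mul_left_cancel₀ (by decide) h3).symm

theorem act_ext {g h : O1} (H : ∀ v, act g v = act h v) : g = h := Subtype.ext (gl_ext H)

/-- the matrix of a reflection -/
def rm (v : I6 → ZMod 3) : Matrix I6 I6 (ZMod 3) := 1 + Qs v • Matrix.vecMulVec v v

theorem rm_mulVec (v x : I6 → ZMod 3) : (rm v).mulVec x = x + (Qs v * bf v x) • v := by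
  unfold rm
  rw [Matrix.add_mulVec, Matrix.one_mulVec, Matrix.smul_mulVec]
  congr 1
  funext i
  rw [Pi.smul_apply, Pi.smul_apply, Matrix.mulVec, dotProduct, smul_eq_mul, smul_eq_mul]
  unfold bf dotProduct
  simp only [Matrix.vecMulVec_apply]
  rw [mul_assoc]
  congr 1
  rw [Finset.sum_mul]
  exact Finset.sum_congr rfl fun j _ => by ring

theorem z3 (c : ZMod 3) : c * 3 = 0 := by revert c; decide
theorem z3sq : ∀ c : ZMod 3, c ≠ 0 → c * c = 1 := by decide

theorem rm_sq {v : I6 → ZMod 3} (hv : Qs v ≠ 0) : rm v * rm v = 1 := by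
  apply Matrix.toLin'.injective
  ext1 x
  refine LinearMap.ext fun y => ?_
  simp only [Matrix.toLin'_mul, Matrix.toLin'_apply, LinearMap.comp_apply, Matrix.toLin'_one, LinearMap.id_apply,
    rm_mulVec]
  rw [bf_add_right, bf_smul_right, ← Qs_eq]
  have h := z3sq _ hv
  funext i
  simp only [Pi.add_apply, Pi.smul_apply, smul_eq_mul]
  generalize Qs v = q at *
  generalize bf v (LinearMap.single (ZMod 3) (fun a => ZMod 3) x y) = t at *
  generalize (LinearMap.single (ZMod 3) (fun a => ZMod 3) x y) i = s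
  generalize v i = w at *
  revert q t s w; decide

/-- a reflection -/
def refl (v : I6 → ZMod 3) (hv : Qs v ≠ 0) : O1 :=
  ⟨⟨rm v, rm v, rm_sq hv, rm_sq hv⟩, by
    rw [TwoRankOrth.mem_isometryGroup]
    intro x
    show Qs ((rm v).mulVec x) = Qs x
    rw [rm_mulVec, Qs_add, Qs_smul, bf_smul_right, bf_comm x v]
    generalize bf v x = t
    generalize Qs x = s
    revert hv
    generalize Qs v = q
    revert q t s; decide⟩

theorem act_refl (v : I6 → ZMod 3) (hv : Qs v ≠ 0) (x : I6 → ZMod 3) : act (refl v hv) x = x + (Qs v * bf v x) • v :=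
  rm_mulVec v x

theorem refl_mul_self (v : I6 → ZMod 3) (hv : Qs v ≠ 0) : refl v hv * refl v hv = 1 := by
  apply Subtype.ext
  apply Units.ext
  exact rm_sq hv

theorem refl_inv (v : I6 → ZMod 3) (hv : Qs v ≠ 0) : (refl v hv)⁻¹ = refl v hv :=
  inv_eq_of_mul_eq_one_left (refl_mul_self v hv)

theorem refl_conj (g : O1) (v : I6 → ZMod 3) (hv : Qs v ≠ 0) : g * refl v hv * g⁻¹ = refl (act g v) (by rwa [Qs_act]) := by
  apply act_ext
  intro x
  rw [act_mul, act_mul, act_refl, act_refl, act_add, act_smul, ← act_mul, mul_inv_cancel, act_one, Qs_act]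
  congr 3
  rw [← bf_act g, ← act_mul, mul_inv_cancel, act_one]

/-- standard vectors -/
def ev (i : I6) : I6 → ZMod 3 := Pi.single i 1

theorem Qs_ev (i : I6) : Qs (ev i) = 1 := by revert i; decide +kernel

theorem Qs_ev' (i : I6) : Qs (ev i) ≠ 0 := by rw [Qs_ev]; decide

theorem Qs_sub (i j : I6) (h : i ≠ j) : Qs (ev i - ev j) ≠ 0 := by revert i j; decide +kernel

theorem act_swap (i j : I6) (h : i ≠ j) : act (refl (ev i - ev j) (Qs_sub i j h)) (ev i) = ev j := by
  rw [act_refl]
  revert i j; decide +kernel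

theorem pair_mem (i j : I6) (h : i ≠ j) : refl (ev i) (Qs_ev' i) * refl (ev j) (Qs_ev' j) ∈ Om1 := by
  set s := refl (ev i - ev j) (Qs_sub i j h)
  have h1 : s * refl (ev i) (Qs_ev' i) * s⁻¹ = refl (ev j) (Qs_ev' j) := by
    rw [refl_conj]
    congr 1
    exact act_swap i j h
  have h2 : refl (ev i) (Qs_ev' i) * refl (ev j) (Qs_ev' j) = ⁅refl (ev i) (Qs_ev' i), s⁆ := by
    rw [commutatorElement_def, refl_inv, mul_assoc, mul_assoc, ← mul_assoc s, h1]
  rw [h2]
  exact Subgroup.commutator_mem_commutator (Subgroup.mem_top _) (Subgroup.mem_top _)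

/-- the central involution -/
def mone : O1 := ⟨⟨-1, -1, by simp, by simp⟩, by
  rw [TwoRankOrth.mem_isometryGroup]
  intro x
  show Qs ((-1 : Matrix I6 I6 (ZMod 3)).mulVec x) = Qs x
  rw [Matrix.neg_mulVec, Matrix.one_mulVec, show -x = (-1 : ZMod 3) • x by simp, Qs_smul]
  ring⟩

theorem act_mone (v : I6 → ZMod 3) : act mone v = -v := by
  show (-1 : Matrix I6 I6 (ZMod 3)).mulVec v = -v
  rw [Matrix.neg_mulVec, Matrix.one_mulVec]

theorem mone_comm (g : O1) : mone * g = g * mone := by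
  apply act_ext
  intro v
  rw [act_mul, act_mul, act_mone, act_mone, show -v = (-1 : ZMod 3) • v by simp, act_smul]; simp

theorem mone_eq : mone = (refl (ev (.inl (.inl 0))) (Qs_ev' _) * refl (ev (.inl (.inl 1))) (Qs_ev' _)) *
    ((refl (ev (.inl (.inr 0))) (Qs_ev' _) * refl (ev (.inl (.inr 1))) (Qs_ev' _)) *
      (refl (ev (.inr 0)) (Qs_ev' _) * refl (ev (.inr 1)) (Qs_ev' _))) := by
  apply Subtype.ext
  apply Units.ext
  show (-1 : Matrix I6 I6 (ZMod 3)) = (rm _ * rm _) * ((rm _ * rm _) * (rm _ * rm _))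
  decide +kernel

theorem mone_mem : mone ∈ Om1 := by
  rw [mone_eq]
  exact mul_mem (pair_mem _ _ (by decide)) (mul_mem (pair_mem _ _ (by decide)) (pair_mem _ _ (by decide)))


theorem mone_ne : mone ≠ 1 := by
  intro h
  have h1 : (-1 : Matrix I6 I6 (ZMod 3)) = 1 := congrArg (fun g : O1 => (g.1.1 : Matrix I6 I6 (ZMod 3))) h
  have h2 := congrFun (congrFun h1 (.inr 0)) (.inr 0)
  revert h2; decide

theorem mem_center_iff {x : Om1} : x ∈ Subgroup.center Om1 ↔ (x : O1) = 1 ∨ (x : O1) = mone := by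
  have h1 : (⟨mone, mone_mem⟩ : Om1) ∈ Subgroup.center Om1 := by
    rw [Subgroup.mem_center_iff]
    intro g
    exact Subtype.ext (mone_comm g).symm
  let f : Bool → Subgroup.center Om1 := fun b => if b then 1 else ⟨⟨mone, mone_mem⟩, h1⟩
  have hf : Function.Injective f := by
    intro a b hab
    cases a <;> cases b
    · rfl
    · exact absurd (congrArg (fun t : Subgroup.center Om1 => ((t : Om1) : O1)) hab) mone_ne
    · exact absurd (congrArg (fun t : Subgroup.center Om1 => ((t : Om1) : O1)) hab).symm mone_ne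
    · rfl
  have hb : Nat.card Bool = 2 := by rw [Nat.card_eq_fintype_card]; rfl
  have h2 : Function.Bijective f := by
    apply hf.bijective_of_nat_card_le
    rw [card_center, hb]
  constructor
  · intro hx
    obtain ⟨b, hb⟩ := h2.2 ⟨x, hx⟩
    cases b
    · right
      exact (congrArg (fun t : Subgroup.center Om1 => ((t : Om1) : O1)) hb).symm
    · left
      exact (congrArg (fun t : Subgroup.center Om1 => ((t : Om1) : O1)) hb).symm
  · rintro (h | h)
    · rw [show x = 1 from Subtype.ext h]; exact one_mem _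
    · rw [show x = ⟨mone, mone_mem⟩ from Subtype.ext h]; exact h1

theorem coe_inj {x y : O1} (h : x = y) : (x.1.1 : Matrix I6 I6 (ZMod 3)) = y.1.1 := by rw [h]

/-- a subgroup normalized by `Ω` meets `Ω` in `Ω` or in the centre -/
theorem normal_cases (X : Subgroup O1) (hX : ∀ g ∈ Om1, ∀ x ∈ X, g * x * g⁻¹ ∈ X) :
    (∀ g ∈ Om1, g ∈ X ∨ g * mone ∈ X) ∨ (∀ x ∈ X, x ∈ Om1 → x = 1 ∨ x = mone) := by
  haveI : (X.subgroupOf Om1).Normal := ⟨fun x hx g => hX g g.2 x hx⟩
  haveI : ((X.subgroupOf Om1).map (QuotientGroup.mk' (Subgroup.center Om1))).Normal :=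
    Subgroup.Normal.map inferInstance _ (QuotientGroup.mk'_surjective _)
  rcases Subgroup.Normal.eq_bot_or_eq_top (H := (X.subgroupOf Om1).map (QuotientGroup.mk' (Subgroup.center Om1))) inferInstance with h | h
  · right
    intro x hx hxO
    have h1 : (QuotientGroup.mk' (Subgroup.center Om1)) ⟨x, hxO⟩ ∈ (X.subgroupOf Om1).map (QuotientGroup.mk' (Subgroup.center Om1)) :=
      ⟨⟨x, hxO⟩, hx, rfl⟩
    rw [h, Subgroup.mem_bot] at h1
    exact mem_center_iff.1 ((QuotientGroup.eq_one_iff _).1 h1)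
  · left
    intro g hg
    have h1 : (QuotientGroup.mk' (Subgroup.center Om1)) ⟨g, hg⟩ ∈ (X.subgroupOf Om1).map (QuotientGroup.mk' (Subgroup.center Om1)) := by
      rw [h]; trivial
    obtain ⟨x, hx, hxg⟩ := h1
    have h2 : g⁻¹ * (x : O1) = 1 ∨ g⁻¹ * (x : O1) = mone := by
      have h3 := QuotientGroup.eq.1 hxg.symm
      exact mem_center_iff.1 h3
    have hx' : (x : O1) ∈ X := hx
    rcases h2 with h2 | h2
    · left
      have : g = x := by rw [inv_mul_eq_one] at h2; exact h2
      rw [this]; exact hx'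
    · right
      have : g * mone = x := by rw [← h2]; group
      rw [this]; exact hx'

theorem det_refl (i : I6) : ((refl (ev i) (Qs_ev' i)).1.1 : Matrix I6 I6 (ZMod 3)).det = -1 := by
  show (rm (ev i)).det = -1
  have h1 : rm (ev i) = Matrix.diagonal (fun j => if j = i then -1 else 1) := by revert i; decide +kernel
  rw [h1, Matrix.det_diagonal]
  revert i; decide +kernel

theorem det_Om1 {g : O1} (hg : g ∈ Om1) : (g.1.1 : Matrix I6 I6 (ZMod 3)).det = 1 := by
  let f : O1 →* (ZMod 3)ˣ := (Matrix.GeneralLinearGroup.det).comp (Cfsg.isometryGroup (ZMod 3) Qs).subtype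
  have h1 : Om1 ≤ f.ker := Abelianization.commutator_subset_ker f
  have h3 : Matrix.GeneralLinearGroup.det g.1 = 1 := h1 hg
  have h4 := Matrix.GeneralLinearGroup.val_det_apply g.1
  rw [h3] at h4
  exact h4.symm

theorem refl_not_mem (i : I6) : refl (ev i) (Qs_ev' i) ∉ Om1 := by
  intro h
  have h1 := det_Om1 h
  rw [det_refl] at h1
  revert h1; decide

/-- subgroups containing the reflections in the vectors of norm one -/
theorem Om1_le {R : Subgroup O1} (hR : ∀ v (hv : Qs v = 1), refl v (by rw [hv]; decide) ∈ R) : Om1 ≤ R := by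
  set X : Subgroup O1 := Subgroup.closure {x | ∃ (v : I6 → ZMod 3) (hv : Qs v = 1), x = refl v (by rw [hv]; decide)} with hX
  have hXR : X ≤ R := by
    rw [hX, Subgroup.closure_le]
    rintro _ ⟨v, hv, rfl⟩
    exact hR v hv
  have hXn : ∀ g : O1, ∀ x ∈ X, g * x * g⁻¹ ∈ X := by
    intro g x hx
    rw [hX] at hx ⊢
    refine Subgroup.closure_induction ?_ ?_ ?_ ?_ hx
    · rintro _ ⟨v, hv, rfl⟩
      apply Subgroup.subset_closure
      exact ⟨act g v, by rw [Qs_act]; exact hv, refl_conj g v _⟩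
    · rw [mul_one, mul_inv_cancel]; exact one_mem _
    · intro a b _ _ ha hb
      have : g * (a * b) * g⁻¹ = (g * a * g⁻¹) * (g * b * g⁻¹) := by group
      rw [this]; exact mul_mem ha hb
    · intro a _ ha
      have : g * a⁻¹ * g⁻¹ = (g * a * g⁻¹)⁻¹ := by group
      rw [this]; exact inv_mem ha
  have hXe : ∀ i, refl (ev i) (Qs_ev' i) ∈ X := fun i => Subgroup.subset_closure ⟨ev i, Qs_ev i, rfl⟩
  have hm : mone ∈ X := by
    rw [mone_eq]
    exact mul_mem (mul_mem (hXe _) (hXe _)) (mul_mem (mul_mem (hXe _) (hXe _)) (mul_mem (hXe _) (hXe _)))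
  refine le_trans ?_ hXR
  rcases normal_cases X (fun g _ x hx => hXn g x hx) with h | h
  · intro g hg
    rcases h g hg with h1 | h1
    · exact h1
    · exact (Subgroup.mul_mem_cancel_right _ hm).1 h1
  · exfalso
    have h1 := h _ (mul_mem (hXe (.inl (.inl 0))) (hXe (.inl (.inl 1)))) (pair_mem _ _ (by decide))
    rcases h1 with h1 | h1
    · have h2 : rm (ev (.inl (.inl 0))) * rm (ev (.inl (.inl 1))) = 1 := coe_inj h1
      have h3 := congrFun (congrFun h2 (.inl (.inl 0))) (.inl (.inl 0))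
      revert h3; decide +kernel
    · have h2 : rm (ev (.inl (.inl 0))) * rm (ev (.inl (.inl 1))) = -1 := coe_inj h1
      have h3 := congrFun (congrFun h2 (.inr 0)) (.inr 0)
      revert h3; decide +kernel

theorem relIndex_ge {R : Subgroup O1} (hR : ∀ v (hv : Qs v = 1), refl v (by rw [hv]; decide) ∈ R) :
    2 * 6531840 ≤ Nat.card R := by
  have h1 := Om1_le hR
  have h2 : Nat.card R = Nat.card Om1 * Om1.relIndex R := by
    have := Subgroup.card_mul_index (Om1.subgroupOf R)
    rw [← this]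
    congr 1
    exact Nat.card_congr (Subgroup.subgroupOfEquivOfLe h1).toEquiv
  have h3 : Om1.relIndex R ≠ 1 := by
    intro h
    have h4 := Subgroup.relIndex_eq_one.1 h
    exact refl_not_mem (.inr 0) (h4 (hR (ev (.inr 0)) (Qs_ev _)))
  have h4 : Om1.relIndex R ≠ 0 := Subgroup.index_ne_zero_of_finite
  rw [h2, card_Om1]
  have h5 : 2 ≤ Om1.relIndex R := by omega
  omega

/-! ### normal subgroups of 2-power order -/

theorem two_group {R X : Subgroup O1} (hR : ∀ v (hv : Qs v = 1), refl v (by rw [hv]; decide) ∈ R)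
    (hX : ∀ g ∈ R, ∀ x ∈ X, g * x * g⁻¹ ∈ X) (h2 : IsPGroup 2 X) : ∀ x ∈ X, x = 1 ∨ x = mone := by
  have hO := Om1_le hR
  have hc : ∀ x ∈ X, x ∈ Om1 → x = 1 ∨ x = mone := by
    rcases normal_cases X (fun g hg x hx => hX g (hO hg) x hx) with h | h
    · exfalso
      -- an element of order 3 of the quotient
      haveI : Fact (Nat.Prime 3) := ⟨by norm_num⟩
      obtain ⟨g, hg⟩ := exists_prime_orderOf_dvd_card' (G := Om1) 3 (by rw [card_Om1]; norm_num)
      have hg3 : (g : O1) ^ 3 = 1 := by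
        have h3 : g ^ 3 = 1 := orderOf_dvd_iff_pow_eq_one.1 (dvd_of_eq hg)
        exact congrArg Subtype.val h3
      have hg1 : (g : O1) ≠ 1 := by
        intro e
        rw [show g = 1 from Subtype.ext e, orderOf_one] at hg
        exact absurd hg (by norm_num)
      have key : ∃ k : ℕ, (g : O1) ^ 2 ^ k = 1 := by
        rcases h g g.2 with h3 | h3
        · obtain ⟨k, hk⟩ := h2 ⟨g, h3⟩
          exact ⟨k, congrArg Subtype.val hk⟩
        · obtain ⟨k, hk⟩ := h2 ⟨_, h3⟩
          have hk' : ((g : O1) * mone) ^ 2 ^ k = 1 := congrArg Subtype.val hk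
          refine ⟨k + 1, ?_⟩
          have h4 : Commute (g : O1) mone := (mone_comm g).symm
          have h5 : mone * mone = 1 := by
            apply act_ext; intro v; rw [act_mul, act_mone, act_mone, act_one, neg_neg]
          have h6 : mone ^ 2 ^ (k + 1) = 1 := by rw [pow_succ', pow_mul, pow_two, h5, one_pow]
          have h7 : ((g : O1) * mone) ^ 2 ^ (k + 1) = 1 := by rw [pow_succ, pow_mul, hk', one_pow]
          rw [h4.mul_pow, h6, mul_one] at h7
          exact h7
      obtain ⟨k, hk⟩ := key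
      have h8 : orderOf (g : O1) ∣ 3 := orderOf_dvd_of_pow_eq_one hg3
      have h9 : orderOf (g : O1) ∣ 2 ^ k := orderOf_dvd_of_pow_eq_one hk
      have h10 : Nat.Coprime 3 (2 ^ k) := Nat.Coprime.pow_right k (by norm_num)
      exact hg1 (orderOf_eq_one_iff.1 (Nat.eq_one_of_dvd_coprimes h10 h8 h9))
    · exact h
  have htr : ∀ v (hv : Qs v ≠ 0), Matrix.trace (rm v) = 1 := by
    intro v hv
    unfold rm
    rw [Matrix.trace_add, Matrix.trace_smul, Matrix.trace_vecMulVec, ← bf, ← Qs_eq, Matrix.trace_one, smul_eq_mul, z3sq _ hv]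
    decide
  have hev : ∀ x ∈ X, ∀ v, Qs v = 1 → act x v = v ∨ act x v = -v := by
    intro x hx v hv
    have hv0 : Qs v ≠ 0 := by rw [hv]; decide
    set r := refl v hv0 with hr
    have hrR : r ∈ R := hR v hv
    set c := x * r * x⁻¹ * r⁻¹ with hcd
    have hcX : c ∈ X := by
      have h3 : c = x * (r * x⁻¹ * r⁻¹) := by rw [hcd]; group
      rw [h3]; exact mul_mem hx (hX r hrR _ (inv_mem hx))
    have hcO : c ∈ Om1 := by
      have h3 : c = ⁅x, r⁆ := by rw [commutatorElement_def]
      rw [h3]; exact Subgroup.commutator_mem_commutator (Subgroup.mem_top _) (Subgroup.mem_top _)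
    have hxr : x * r * x⁻¹ = refl (act x v) (by rwa [Qs_act]) := by rw [hr]; exact refl_conj x v hv0
    have h4 : refl (act x v) (by rwa [Qs_act]) = r := by
      rcases hc c hcX hcO with h5 | h5
      · rw [← hxr]; exact mul_inv_eq_one.1 h5
      · exfalso
        have h6 : x * r * x⁻¹ = mone * r := by rw [← h5, hcd]; group
        rw [hxr] at h6
        have h7 : rm (act x v) = -1 * rm v := coe_inj h6
        have h8 := congrArg Matrix.trace h7
        rw [htr _ (by rwa [Qs_act]), neg_one_mul, Matrix.trace_neg, htr _ hv0] at h8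
        revert h8; decide
    have h5 := congrArg (fun g => act g v) h4
    simp only [hr, act_refl, Qs_act] at h5
    rw [← Qs_eq, hv, one_mul, one_mul, one_smul] at h5
    have h6 := add_left_cancel h5
    generalize bf (act x v) v = t at h6
    have h7 : t ≠ 0 := by
      rintro rfl
      rw [zero_smul] at h6
      rw [← h6, Qs_eq] at hv
      unfold bf at hv
      rw [dotProduct_zero] at hv
      revert hv; decide
    have h8 : t = 1 ∨ t = -1 := by clear h6; revert h7; revert t; decide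
    rcases h8 with rfl | rfl
    · left; rw [one_smul] at h6; exact h6
    · right; rw [neg_smul, one_smul] at h6; rw [← neg_eq_iff_eq_neg]; exact h6
  intro x hx
  -- the matrix is diagonal
  have hd : ∀ i, ∃ c : ZMod 3, act x (ev i) = c • ev i := by
    intro i
    rcases hev x hx (ev i) (Qs_ev i) with h | h
    · exact ⟨1, by rw [h, one_smul]⟩
    · exact ⟨-1, by rw [h, neg_smul, one_smul]⟩
  choose ε hε using hd
  have hmat : ∀ i j, (x.1.1 : Matrix I6 I6 (ZMod 3)) i j = if i = j then ε j else 0 := by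
    intro i j
    have h1 := congrFun (hε j) i
    unfold act ev at h1
    rw [Matrix.mulVec_single_one] at h1
    rw [show (x.1.1 : Matrix I6 I6 (ZMod 3)) i j = (x.1.1 : Matrix I6 I6 (ZMod 3)).col j i from rfl, h1, Pi.smul_apply, Pi.single_apply, smul_eq_mul, mul_ite, mul_one, mul_zero]
  have hact : ∀ w i, act x w i = ε i * w i := by
    intro w i
    show ∑ j, (x.1.1 : Matrix I6 I6 (ZMod 3)) i j * w j = _
    rw [Finset.sum_eq_single i]
    · rw [hmat, if_pos rfl]
    · intro j _ hj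
      rw [hmat, if_neg (Ne.symm hj), zero_mul]
    · intro h; exact absurd (Finset.mem_univ _) h
  have hex : ∀ j : I6, ∃ w : I6 → ZMod 3, Qs w = 1 ∧ w (.inr 0) = 1 ∧ w j = 1 := by
    intro j
    rcases j with (j | j) | j
    · exact ⟨fun i => match i with | .inl (.inl _) => 1 | .inl (.inr _) => 0 | .inr _ => 1, by decide, rfl, rfl⟩
    · exact ⟨fun i => match i with | .inl (.inl _) => 0 | .inl (.inr _) => 1 | .inr _ => 1, by decide, rfl, rfl⟩
    · exact ⟨fun i => match i with | .inl (.inl _) => 0 | .inl (.inr _) => 1 | .inr _ => 1, by decide, rfl, rfl⟩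
  have hall : ∀ j, ε j = ε (.inr 0) := by
    intro j
    obtain ⟨w, hw1, hw2, hw3⟩ := hex j
    rcases hev x hx w hw1 with h | h
    · have h1 := congrFun h j
      have h2 := congrFun h (.inr 0)
      rw [hact, hw3] at h1
      rw [hact, hw2] at h2
      rw [mul_one] at h1 h2
      rw [h1, h2]
    · have h1 := congrFun h j
      have h2 := congrFun h (.inr 0)
      rw [hact, Pi.neg_apply, hw3] at h1
      rw [hact, Pi.neg_apply, hw2] at h2
      rw [mul_one] at h1 h2
      rw [h1, h2]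
  have h0 : ε (.inr 0) = 1 ∨ ε (.inr 0) = -1 := by
    rcases hev x hx (ev (.inr 0)) (Qs_ev _) with h | h
    · left
      have h1 := congrFun h (.inr 0)
      rw [hact] at h1
      simpa [ev] using h1
    · right
      have h1 := congrFun h (.inr 0)
      rw [hact] at h1
      simpa [ev] using h1
  rcases h0 with h0 | h0
  · left
    apply act_ext
    intro v
    funext i
    rw [hact, hall, h0, act_one, one_mul]
  · right
    apply act_ext
    intro v
    funext i
    rw [hact, hall, h0, act_mone, Pi.neg_apply, neg_one_mul]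

end Cfsg.Agent.Lib.H89FiO
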