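import Cfsg.Agent.Lib.H89Fi1
import Cfsg.Agent.Lib.H89FiO

/-!
# The centralizer in `Co0` of the coordinate permutation of order 3 with six fixed points: the action modulo 3 (helper89)
-/

set_option autoImplicit false
set_option linter.all false

namespace Cfsg.Agent.Lib.H89Fi

open Cfsg Cfsg.Agent.Lib.Golay Cfsg.Agent.Lib.LeechMin Cfsg.Agent.Lib.H89LeechMat Cfsg.Agent.Lib.H89Mon1
  Cfsg.Agent.Lib.LeechQuot Cfsg.Agent.Lib.LeechOrder Cfsg.Agent.Lib.H89Mono Cfsg.Agent.Lib.H89FixRank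
  Cfsg.Agent.Lib.H89FixTab Cfsg.Agent.Lib.LeechFrame Cfsg.Agent.Lib.H89Q2 Cfsg.Agent.Lib.H89Stab
  Cfsg.Agent.Lib.H89CN Cfsg.Agent.Lib.H89Act Cfsg.Agent.Lib.H89MatAct Cfsg.Agent.Lib.H89FiO
open Cfsg.Agent.Lib.H89Three (a3 a3_pow a3_ne a3_mem_N orderOf_a3 comm_codes3)
open scoped Pointwise

/-- the fixed points indexed by the coordinates of the form -/
def FP (i : I6) : GolayPt := fII (num i)

theorem num_inj : Function.Injective num := by decide
theorem num_surj : Function.Surjective num := by decide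

theorem FP_inj : Function.Injective FP := fII_inj.comp num_inj

theorem FP_fx (i : I6) : FP i = pt (fx (num i)) := fII_fx _

theorem cZ_FP (i : I6) : toPerm cZ (FP i) = FP i := cZ_fII _

theorem mem_FLa {v : leechLattice} : v ∈ FL a3 ↔ ∀ p, (v : GolayPt → ℤ) (toPerm cZ p) = (v : GolayPt → ℤ) p :=
  mem_FL_pC inM_cZ

theorem ef_FL (i : I6) : ef (FP i) ∈ FL a3 := by
  rw [mem_FLa]
  intro p
  rw [coe_ef, Pi.single_apply, Pi.single_apply]
  have h : toPerm cZ p = FP i ↔ p = FP i := by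
    constructor
    · intro h
      apply (toPerm cZ).injective
      rw [h, cZ_FP]
    · rintro rfl; exact cZ_FP i
  simp only [h]

theorem smul_FL {g : Co0} (hg : g * a3 = a3 * g) {v : leechLattice} (hv : v ∈ FL a3) : g • v ∈ FL a3 := by
  rw [mem_FL] at hv ⊢
  rw [← mul_smul, ← hg, mul_smul, hv]

/-- reduction of the coordinates at the fixed points modulo 3 -/
def r3 : leechLattice →+ (I6 → ZMod 3) where
  toFun v i := (((v : GolayPt → ℤ) (FP i) : ℤ) : ZMod 3)
  map_zero' := by funext i; simp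
  map_add' v w := by funext i; simp

theorem r3_apply (v : leechLattice) (i : I6) : r3 v i = (((v : GolayPt → ℤ) (FP i) : ℤ) : ZMod 3) := rfl

theorem r3_ef (i : I6) : r3 (ef (FP i)) = -ev i := by
  funext j
  rw [r3_apply, coe_ef, Pi.neg_apply, ev, Pi.single_apply, Pi.single_apply]
  by_cases h : j = i
  · subst h; rw [if_pos rfl, if_pos rfl]; decide
  · rw [if_neg h, if_neg (fun e => h (FP_inj e))]; decide

/-- the form modulo 3 on the fixed vectors -/
theorem dt3 {v w : leechLattice} (hv : v ∈ FL a3) (hw : w ∈ FL a3) : ((dt v w : ℤ) : ZMod 3) = bf (r3 v) (r3 w) := by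
  rw [mem_FLa] at hv hw
  have h1 : dt v w = ∑ i ∈ Finset.range 24, (v : GolayPt → ℤ) (pt i) * (w : GolayPt → ℤ) (pt i) := by
    rw [← sum_ix]
    show ∑ p, (v : GolayPt → ℤ) p * (w : GolayPt → ℤ) p = _
    exact Finset.sum_congr rfl fun p _ => by rw [pt_ix]
  let F : ℕ → ZMod 3 := fun k => (((v : GolayPt → ℤ) (pt (sta.getD k 0)) * (w : GolayPt → ℤ) (pt (sta.getD k 0)) : ℤ) : ZMod 3)
  have h2 : ((dt v w : ℤ) : ZMod 3) = ∑ i ∈ Finset.range 24, F (oba.getD i 0) := by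
    rw [h1, Int.cast_sum]
    apply Finset.sum_congr rfl
    intro i hi
    have e1 := eq_st inM_cZ orba_ok hv (pt i)
    have e2 := eq_st inM_cZ orba_ok hw (pt i)
    rw [ix_pt (Finset.mem_range.1 hi)] at e1 e2
    rw [e1, e2]
  have h3 : (3 : ZMod 3) = 0 := by decide
  have h4 : ∑ i ∈ Finset.range 24, F (oba.getD i 0) = F 0 + F 1 + F 2 + F 3 + F 4 + F 5 := by
    simp only [Finset.sum_range_succ, Finset.sum_range_zero, oba, List.getD_cons_zero, List.getD_cons_succ]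
    linear_combination (F 6 + F 7 + F 8 + F 9 + F 10 + F 11) * h3
  rw [h2, h4]
  show _ = ∑ i, r3 v i * r3 w i
  rw [sum_I6]
  have h5 : ∀ i : I6, r3 v i * r3 w i = F (num i) := by
    intro i
    show _ = (((v : GolayPt → ℤ) (pt (sta.getD (num i) 0)) * (w : GolayPt → ℤ) (pt (sta.getD (num i) 0)) : ℤ) : ZMod 3)
    have h6 : pt (sta.getD (num i) 0) = FP i := by revert i; decide
    rw [h6, Int.cast_mul, r3_apply, r3_apply]
  rw [h5, h5, h5, h5, h5, h5]
  show F 0 + F 1 + F 2 + F 3 + F 4 + F 5 = F 0 + F 1 + (F 2 + F 3) + (F 4 + F 5)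
  ring

theorem bf_ev (x : I6 → ZMod 3) (i : I6) : bf x (ev i) = x i := by
  unfold bf ev; rw [dotProduct_single_one]

theorem r3_smul_zero {g : Co0} (hg : g * a3 = a3 * g) {v : leechLattice} (hv : v ∈ FL a3) (h : r3 v = 0) : r3 (g • v) = 0 := by
  funext i
  have hg' : g⁻¹ * a3 = a3 * g⁻¹ := by
    rw [inv_mul_eq_iff_eq_mul, ← mul_assoc, hg]; group
  have h1 := dt3 (smul_FL hg hv) (ef_FL i)
  have h2 : dt (g • v) (ef (FP i)) = dt v (g⁻¹ • ef (FP i)) := by
    rw [← dt_smul g v, smul_inv_smul]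
  rw [h2, dt3 hv (smul_FL hg' (ef_FL i)), h, r3_ef] at h1
  have h3 : bf 0 (r3 (g⁻¹ • ef (FP i))) = 0 := by unfold bf; rw [zero_dotProduct]
  rw [h3] at h1
  have h4 : bf (r3 (g • v)) (-ev i) = -(r3 (g • v) i) := by
    rw [show -ev i = (-1 : ZMod 3) • ev i by simp, bf_smul_right, bf_ev]; ring
  rw [h4] at h1
  have h5 := neg_eq_zero.1 h1.symm
  exact h5

/-- the matrix -/
def Am (g : Co0) : Matrix I6 I6 (ZMod 3) := fun i j => -(r3 (g • ef (FP j)) i)

theorem r3_smul {g : Co0} (hg : g * a3 = a3 * g) {v : leechLattice} (hv : v ∈ FL a3) : r3 (g • v) = (Am g).mulVec (r3 v) := by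
  set w : leechLattice := v + ∑ j, ((v : GolayPt → ℤ) (FP j)) • ef (FP j) with hw
  have hwF : w ∈ FL a3 := AddSubgroup.add_mem _ hv (AddSubgroup.sum_mem _ fun j _ => AddSubgroup.zsmul_mem _ (ef_FL j) _)
  have h1 : r3 w = 0 := by
    rw [hw, map_add, map_sum]
    funext i
    rw [Pi.add_apply, Finset.sum_apply, Finset.sum_eq_single i]
    · rw [map_zsmul, r3_ef, Pi.smul_apply, Pi.neg_apply, ev, Pi.single_eq_same, r3_apply, zsmul_eq_mul, Pi.zero_apply]; ring
    · intro j _ hj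
      rw [map_zsmul, r3_ef, Pi.smul_apply, Pi.neg_apply, ev, Pi.single_apply, if_neg (Ne.symm hj)]; simp
    · intro h; exact absurd (Finset.mem_univ _) h
  have h2 := r3_smul_zero hg hwF h1
  have h3 : g • w = g • v + ∑ j, ((v : GolayPt → ℤ) (FP j)) • (g • ef (FP j)) := by
    show sm g w = sm g v + ∑ j, _ • sm g (ef (FP j))
    rw [hw, map_add, map_sum]
    congr 1
    exact Finset.sum_congr rfl fun j _ => map_zsmul _ _ _
  rw [h3, map_add, map_sum] at h2
  funext i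
  have h4 := congrFun h2 i
  rw [Pi.add_apply, Finset.sum_apply, Pi.zero_apply] at h4
  show _ = ∑ j, -(r3 (g • ef (FP j)) i) * r3 v j
  rw [eq_neg_of_add_eq_zero_left h4, ← Finset.sum_neg_distrib]
  apply Finset.sum_congr rfl
  intro j _
  rw [map_zsmul, Pi.smul_apply, zsmul_eq_mul, r3_apply v j]; ring

theorem Am_mul {g h : Co0} (hg : g * a3 = a3 * g) (hh : h * a3 = a3 * h) : Am (g * h) = Am g * Am h := by
  ext i j
  show -(r3 ((g * h) • ef (FP j)) i) = ∑ k, Am g i k * -(r3 (h • ef (FP j)) k)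
  rw [mul_smul, r3_smul hg (smul_FL hh (ef_FL j))]
  show -(∑ k, Am g i k * r3 (h • ef (FP j)) k) = _
  rw [← Finset.sum_neg_distrib]
  exact Finset.sum_congr rfl fun k _ => by ring

theorem Am_one : Am 1 = 1 := by
  ext i j
  show -(r3 ((1 : Co0) • ef (FP j)) i) = _
  rw [one_smul, r3_ef, Pi.neg_apply, neg_neg, ev, Pi.single_apply, Matrix.one_apply]

theorem exists_r3 (x : I6 → ZMod 3) : ∃ v ∈ FL a3, r3 v = x := by
  refine ⟨∑ j, (-((x j).val : ℤ)) • ef (FP j), AddSubgroup.sum_mem _ fun j _ => AddSubgroup.zsmul_mem _ (ef_FL j) _, ?_⟩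
  rw [map_sum]
  funext i
  rw [Finset.sum_apply, Finset.sum_eq_single i]
  · rw [map_zsmul, r3_ef, Pi.smul_apply, Pi.neg_apply, ev, Pi.single_eq_same, zsmul_eq_mul]
    push_cast
    rw [ZMod.natCast_zmod_val]; ring
  · intro j _ hj
    rw [map_zsmul, r3_ef, Pi.smul_apply, Pi.neg_apply, ev, Pi.single_apply, if_neg (Ne.symm hj)]; simp
  · intro h; exact absurd (Finset.mem_univ _) h

theorem Am_isom {g : Co0} (hg : g * a3 = a3 * g) (x : I6 → ZMod 3) : Qs ((Am g).mulVec x) = Qs x := by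
  obtain ⟨v, hv, rfl⟩ := exists_r3 x
  rw [← r3_smul hg hv, Qs_eq, Qs_eq, ← dt3 hv hv, ← dt3 (smul_FL hg hv) (smul_FL hg hv), dt_smul]

theorem inv_comm {g : Co0} (hg : g * a3 = a3 * g) : g⁻¹ * a3 = a3 * g⁻¹ := by
  rw [inv_mul_eq_iff_eq_mul, ← mul_assoc, hg]; group

/-- the homomorphism -/
def rho : C →* O1 where
  toFun g := ⟨⟨Am g, Am (g : Co0)⁻¹, by rw [← Am_mul (mem_C.1 g.2) (inv_comm (mem_C.1 g.2)), mul_inv_cancel, Am_one],
    by rw [← Am_mul (inv_comm (mem_C.1 g.2)) (mem_C.1 g.2), inv_mul_cancel, Am_one]⟩, by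
      rw [TwoRankOrth.mem_isometryGroup]
      exact Am_isom (mem_C.1 g.2)⟩
  map_one' := by
    apply Subtype.ext
    apply Units.ext
    exact Am_one
  map_mul' g h := by
    apply Subtype.ext
    apply Units.ext
    exact Am_mul (mem_C.1 g.2) (mem_C.1 h.2)

theorem act_rho (g : C) {v : leechLattice} (hv : v ∈ FL a3) : act (rho g) (r3 v) = r3 ((g : Co0) • v) :=
  (r3_smul (mem_C.1 g.2) hv).symm

theorem act_rho_ev (g : C) (j : I6) : act (rho g) (ev j) = -r3 ((g : Co0) • ef (FP j)) := by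
  rw [← act_rho g (ef_FL j), r3_ef, show -ev j = (-1 : ZMod 3) • ev j by simp, act_smul]; simp

end Cfsg.Agent.Lib.H89Fi
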