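import Cfsg.Agent.Lib.H89Fi2

/-!
# The centralizer in `Co0` of the coordinate permutation of order 3 with six fixed points: image and kernel (helper89)
-/

set_option autoImplicit false
set_option linter.all false

namespace Cfsg.Agent.Lib.H89Fi

open Cfsg Cfsg.Agent.Lib.Golay Cfsg.Agent.Lib.LeechMin Cfsg.Agent.Lib.H89LeechMat Cfsg.Agent.Lib.H89Mon1
  Cfsg.Agent.Lib.LeechQuot Cfsg.Agent.Lib.LeechOrder Cfsg.Agent.Lib.H89Mono Cfsg.Agent.Lib.H89FixRank
  Cfsg.Agent.Lib.H89FixTab Cfsg.Agent.Lib.LeechFrame Cfsg.Agent.Lib.H89Q2 Cfsg.Agent.Lib.H89Stab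
  Cfsg.Agent.Lib.H89CN Cfsg.Agent.Lib.H89Act Cfsg.Agent.Lib.H89MatAct Cfsg.Agent.Lib.H89FiO
open Cfsg.Agent.Lib.H89Three (a3 a3_pow a3_ne a3_mem_N orderOf_a3 comm_codes3)
open scoped Pointwise

/-- the image -/
abbrev R : Subgroup O1 := rho.range

theorem fx_cond (j : ℕ) : fx j = cond (Nat.beq j 0) 23 (Nat.sub j 1) := rfl

/-- sign changes -/
theorem refl_ev_mem (i : I6) : refl (ev i) (Qs_ev' i) ∈ R := by
  have h := allLt_iff.mp msa_ok (num i) (num i).2
  set m := msa.getD (num i) 0 with hm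
  obtain ⟨h1, h⟩ := cond_false_eq.mp h
  obtain ⟨h2, h3⟩ := cond_false_eq.mp h
  have hlt : m < 16777216 := Nat.blt_eq.mp (allLt_iff.mp msa_lt (num i) (num i).2)
  have hS : mset m ∈ Sup := (mset_mem_supports_iff hlt).2 h1
  have hfx : toPerm cZ • mset m = mset m := by
    rw [toPerm_smul_mset (valid_of_inM inM_cZ), Nat.eq_of_beq_eq_true h2]
  have hc : mo 1 (one_mem _) (mset m) hS * a3 = a3 * mo 1 (one_mem _) (mset m) hS :=
    mo_comm (one_mem _) hS (toPerm_mem_M24 inM_cZ) (by rw [one_mul, mul_one]) hfx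
  refine ⟨⟨_, mem_C.2 hc⟩, ?_⟩
  apply act_ext
  intro x
  obtain ⟨v, hv, rfl⟩ := exists_r3 x
  rw [act_rho _ hv, act_refl, Qs_ev, one_mul, bf_comm, bf_ev]
  funext j
  rw [r3_apply]
  show (((signedPerm 1 (mset m) v (FP j) : ℤ)) : ZMod 3) = _
  rw [signedPerm_apply]
  have h4 := allLt_iff.mp h3 (num j) (num j).2
  rw [← fx_cond] at h4
  have h5 : FP j ∈ mset m ↔ i = j := by
    rw [FP_fx, mem_mset, ix_pt (fx_lt (num j).2)]
    constructor
    · intro h
      rw [h, cond_true] at h4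
      exact num_inj (Fin.ext (Nat.eq_of_beq_eq_true h4))
    · intro e
      subst e
      by_contra hb
      rw [Bool.not_eq_true] at hb
      rw [hb, cond_false, Nat.beq_refl] at h4
      exact absurd h4 (by decide)
  rw [Pi.add_apply, Pi.smul_apply, smul_eq_mul, ev, Pi.single_apply]
  show (((1 - 2 * chi (mset m) (FP j)) * (v : GolayPt → ℤ) (FP j) : ℤ) : ZMod 3) = _
  unfold chi
  by_cases hij : i = j
  · subst hij
    rw [if_pos (h5.2 rfl), if_pos rfl, r3_apply]
    push_cast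
    generalize (((v : GolayPt → ℤ) (FP i) : ℤ) : ZMod 3) = t
    revert t; decide
  · rw [if_neg (fun h => hij (h5.1 h)), if_neg (Ne.symm hij), r3_apply]
    push_cast; ring

/-- all sign changes -/
theorem signs (s : I6 → ZMod 3) (hs : ∀ i, s i ≠ 0) : ∃ g ∈ R, ∀ v i, act g v i = s i * v i := by
  have key : ∀ T : Finset I6, ∃ g ∈ R, ∀ v i, act g v i = (if i ∈ T then s i else 1) * v i := by
    intro T
    induction T using Finset.induction_on with
    | empty => exact ⟨1, one_mem _, fun v i => by rw [act_one]; simp⟩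
    | insert j T hj ih =>
      obtain ⟨g, hg, h⟩ := ih
      have h1 : s j = 1 ∨ s j = -1 := by
        have := hs j
        generalize s j = t at this
        revert t; decide
      rcases h1 with h1 | h1
      · refine ⟨g, hg, fun v i => ?_⟩
        rw [h]
        by_cases hij : i = j
        · subst hij; rw [if_neg hj, if_pos (Finset.mem_insert_self _ _), h1]
        · have : i ∈ insert j T ↔ i ∈ T := by rw [Finset.mem_insert]; simp [hij]
          simp only [this]
      · refine ⟨refl (ev j) (Qs_ev' j) * g, mul_mem (refl_ev_mem j) hg, fun v i => ?_⟩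
        rw [act_mul, act_refl, Qs_ev, one_mul, bf_comm, bf_ev, Pi.add_apply, Pi.smul_apply, smul_eq_mul, ev, Pi.single_apply, h, h]
        by_cases hij : i = j
        · subst hij
          rw [if_neg hj, if_pos rfl, if_pos (Finset.mem_insert_self _ _), h1]
          generalize v i = t
          revert t; decide
        · have : i ∈ insert j T ↔ i ∈ T := by rw [Finset.mem_insert]; simp [hij]
          simp only [this]
          rw [if_neg hij, mul_zero, add_zero]
  obtain ⟨g, hg, h⟩ := key Finset.univ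
  exact ⟨g, hg, fun v i => by rw [h, if_pos (Finset.mem_univ _)]⟩

/-- permutations of the fixed points -/
theorem tau_mem (k : Fin 15) : ∃ g ∈ R, ∀ v, ∀ i j : I6, toPerm (tauC.getD k 0) (FP j) = FP i → act g v i = v j := by
  obtain ⟨hM, hc⟩ := cond_false_eq.mp (allLt_iff.mp tau_ok k k.2)
  set t := tauC.getD k 0 with ht
  have hcomm : toPerm t * toPerm cZ = toPerm cZ * toPerm t := by
    apply Equiv.ext
    intro p
    rw [Equiv.Perm.mul_apply, Equiv.Perm.mul_apply]
    apply ix_injective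
    rw [ix_toPerm (valid_of_inM hM), ix_toPerm (valid_of_inM inM_cZ), ix_toPerm (valid_of_inM inM_cZ), ix_toPerm (valid_of_inM hM)]
    exact Nat.eq_of_beq_eq_true (allLt_iff.mp hc _ (ix_lt p))
  have hg : pC t hM * a3 = a3 * pC t hM := by
    unfold pC a3 pC
    rw [← map_mul, ← map_mul]
    congr 1
    exact Subtype.ext hcomm
  refine ⟨rho ⟨pC t hM, mem_C.2 hg⟩, ⟨_, rfl⟩, ?_⟩
  intro x i j hij
  obtain ⟨v, hv, rfl⟩ := exists_r3 x
  rw [act_rho _ hv, r3_apply, r3_apply, ← hij]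
  show ((((pC t hM • v : leechLattice) : GolayPt → ℤ) (toPerm t (FP j)) : ℤ) : ZMod 3) = _
  rw [pC_smul]

/-- the image of the first basis vector under `hx` -/
theorem hx_mem : ∃ g ∈ R, ∀ i : I6, (act g (ev (.inl (.inl 0))) i ≠ 0 ↔ (num i).1 < 4) := by
  obtain ⟨g, hg, -⟩ := exists_mat hx_orth hx_orth' hx_img hx_img'
  have hc : g * a3 = a3 * g := mat_comm inM_cZ hx_com hg
  refine ⟨rho ⟨g, mem_C.2 hc⟩, ⟨_, rfl⟩, ?_⟩
  intro i
  rw [act_rho_ev, Pi.neg_apply, r3_apply]
  have h1 := congrFun (hg (ef (FP (.inl (.inl 0))))) (FP i)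
  rw [coe_ef] at h1
  have h2 : (H89LeechMat.mt hxR).mulVec (Pi.single (FP (.inl (.inl 0))) 8) (FP i) = 8 * dv (hxR.getD (fx (num i)) 0) (fx 0) := by
    rw [Matrix.mulVec_single]
    show H89LeechMat.mt hxR (FP i) (FP (.inl (.inl 0))) * 8 = _
    unfold H89LeechMat.mt
    rw [FP_fx, FP_fx, ix_pt (fx_lt (num i).2), ix_pt (fx_lt (num _).2)]
    show dv (hxR.getD (fx (num i)) 0) (fx 0) * 8 = _
    ring
  rw [h2] at h1
  have h3 : (((g • ef (FP (.inl (.inl 0))) : leechLattice) : GolayPt → ℤ) (FP i)) = dv (hxR.getD (fx (num i)) 0) (fx 0) := by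
    have h1' : 8 * dv (hxR.getD (fx (num i)) 0) (fx 0) = 8 • (((g • ef (FP (.inl (.inl 0))) : leechLattice) : GolayPt → ℤ) (FP i)) := h1
    rw [nsmul_eq_mul] at h1'
    push_cast at h1'
    omega
  show -((((g • ef (FP (.inl (.inl 0))) : leechLattice) : GolayPt → ℤ) (FP i) : ℤ) : ZMod 3) ≠ 0 ↔ _
  rw [h3, of_decide_eq_true (allLt_iff.mp hx_ent (num i) (num i).2)]
  clear h1 h2 h3
  revert i; decide

set_option synthInstance.maxSize 100000 in
theorem w4 : ∀ x : I6 → ZMod 3, Qs x = 1 → (∃ i, ∀ j, j ≠ i → x j = 0) ∨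
    ∃ k : Fin 15, ∀ i, (x i ≠ 0 ↔ (tauS.getD k 0).testBit (num i) = true) := by
  decide +kernel

theorem tau_pts (k : Fin 15) (i : I6) : ∃ j, toPerm (tauC.getD k 0) (FP j) = FP i := by
  obtain ⟨hM, hc⟩ := cond_false_eq.mp (allLt_iff.mp tau_ok k k.2)
  set t := tauC.getD k 0 with ht
  have h1 : toPerm cZ ((toPerm t)⁻¹ (FP i)) = (toPerm t)⁻¹ (FP i) := by
    apply (toPerm t).injective
    have h2 : ∀ q, toPerm t ((toPerm t)⁻¹ q) = q := fun q => Equiv.apply_symm_apply _ _
    have h3 : ∀ q, toPerm t (toPerm cZ q) = toPerm cZ (toPerm t q) := by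
      intro q
      apply ix_injective
      rw [ix_toPerm (valid_of_inM hM), ix_toPerm (valid_of_inM inM_cZ), ix_toPerm (valid_of_inM inM_cZ), ix_toPerm (valid_of_inM hM)]
      exact Nat.eq_of_beq_eq_true (allLt_iff.mp hc _ (ix_lt q))
    rw [h3, h2, cZ_FP]
  obtain ⟨j, hj⟩ := exists_fII h1
  obtain ⟨j', rfl⟩ := num_surj j
  refine ⟨j', ?_⟩
  show toPerm t (FP j') = FP i
  rw [show FP j' = fII (num j') from rfl, ← hj]
  exact Equiv.apply_symm_apply _ _

theorem tau_bit (k : Fin 15) (i j : I6) (h : toPerm (tauC.getD k 0) (FP j) = FP i) :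
    (num j).1 < 4 ↔ (tauS.getD k 0).testBit (num i) = true := by
  obtain ⟨hM, -⟩ := cond_false_eq.mp (allLt_iff.mp tau_ok k k.2)
  have h1 := allLt_iff.mp (allLt_iff.mp (allLt_iff.mp tau_map k k.2) (num j) (num j).2) (num i) (num i).2
  have h2 : img (tauC.getD k 0) (fx (num j)) = fx (num i) := by
    rw [FP_fx, FP_fx, toPerm_pt (valid_of_inM hM) (fx_lt (num j).2)] at h
    by_contra hne
    exact pt_ne (img_lt (valid_of_inM hM) (fx_lt (num j).2)) (fx_lt (num i).2) hne h
  rw [h2, Nat.beq_refl, cond_true] at h1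
  by_cases h4 : (num j).1 < 4
  · have h5 : Nat.blt (num j).1 4 = true := Nat.blt_eq.mpr h4
    rw [h5, cond_true] at h1
    exact ⟨fun _ => h1, fun _ => h4⟩
  · have h5 : Nat.blt (num j).1 4 = false := by
      rw [Bool.eq_false_iff]; intro h; exact h4 (Nat.blt_eq.mp h)
    rw [h5, cond_false] at h1
    constructor
    · intro h; exact absurd h h4
    · intro h; rw [h, cond_true] at h1; exact absurd h1 (by decide)

theorem refl_congr {v w : I6 → ZMod 3} (hv : Qs v ≠ 0) (hw : Qs w ≠ 0) (h : v = w) : refl v hv = refl w hw := by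
  subst h; rfl

theorem refl_smul {v : I6 → ZMod 3} (hv : Qs v = 1) (hv' : Qs v ≠ 0) {c : ZMod 3} {w : I6 → ZMod 3} (hw : Qs w ≠ 0) (h : w = c • v) :
    refl w hw = refl v hv' := by
  subst h
  apply act_ext
  intro x
  rw [act_refl, act_refl, Qs_smul, hv]
  have hc : c ≠ 0 := by
    rintro rfl
    apply hw
    rw [Qs_smul]; ring
  have h1 : bf (c • v) x = c * bf v x := by rw [bf_comm, bf_smul_right, bf_comm]
  rw [h1, smul_smul]
  congr 2
  generalize bf v x = t
  revert hc; clear * -; revert c t; decide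

/-- all reflections in vectors of norm one belong to the image -/
theorem refl_mem (w : I6 → ZMod 3) (hw : Qs w = 1) : refl w (by rw [hw]; decide) ∈ R := by
  rcases w4 w hw with ⟨i, hi⟩ | ⟨k, hk⟩
  · have h1 : w = w i • ev i := by
      funext j
      rw [Pi.smul_apply, ev, Pi.single_apply, smul_eq_mul]
      by_cases hj : j = i
      · subst hj; rw [if_pos rfl, mul_one]
      · rw [if_neg hj, mul_zero, hi j hj]
    rw [refl_smul (Qs_ev i) (Qs_ev' i) (by rw [hw]; decide) h1]
    exact refl_ev_mem i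
  · obtain ⟨g1, hg1, h1⟩ := hx_mem
    obtain ⟨g2, hg2, h2⟩ := tau_mem k
    set y := act (g2 * g1) (ev (.inl (.inl 0))) with hy
    have h3 : ∀ i, (y i ≠ 0 ↔ w i ≠ 0) := by
      intro i
      obtain ⟨j, hj⟩ := tau_pts k i
      rw [hk i, ← tau_bit k i j hj, ← h1 j, hy, act_mul, h2 _ i j hj]
    let s : I6 → ZMod 3 := fun i => if w i = 0 then 1 else w i * y i
    have hs : ∀ i, s i ≠ 0 := by
      intro i
      show (if w i = 0 then 1 else w i * y i) ≠ 0
      by_cases h : w i = 0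
      · rw [if_pos h]; decide
      · rw [if_neg h]
        exact mul_ne_zero h ((h3 i).2 h)
    obtain ⟨g3, hg3, h4⟩ := signs s hs
    have h5 : act g3 y = w := by
      funext i
      rw [h4]
      show (if w i = 0 then 1 else w i * y i) * y i = w i
      by_cases h : w i = 0
      · rw [if_pos h, h, one_mul]
        by_contra h6
        exact (h3 i).1 h6 h
      · rw [if_neg h, mul_assoc, z3sq _ ((h3 i).2 h), mul_one]
    have h6 : act (g3 * (g2 * g1)) (ev (.inl (.inl 0))) = w := by rw [act_mul, ← hy, h5]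
    have h7 := refl_conj (g3 * (g2 * g1)) (ev (.inl (.inl 0))) (Qs_ev' _)
    rw [refl_congr (by rw [Qs_act, Qs_ev]; decide) (by rw [hw]; decide) h6] at h7
    rw [← h7]
    exact mul_mem (mul_mem (mul_mem hg3 (mul_mem hg2 hg1)) (refl_ev_mem _)) (inv_mem (mul_mem hg3 (mul_mem hg2 hg1)))

theorem Om1_le_R : Om1 ≤ R := Om1_le (fun v hv => refl_mem v hv)

end Cfsg.Agent.Lib.H89Fi
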