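import Cfsg.Agent.Lib.H89Fi3
import Cfsg.Agent.Lib.LeechSyl3

/-!
# The centralizer in `Co0` of the coordinate permutation of order 3 with six fixed points: structure (helper89)
-/

set_option autoImplicit false
set_option linter.all false

namespace Cfsg.Agent.Lib.H89Fi

open Cfsg Cfsg.Agent.Lib.Golay Cfsg.Agent.Lib.LeechMin Cfsg.Agent.Lib.H89LeechMat Cfsg.Agent.Lib.H89Mon1
  Cfsg.Agent.Lib.LeechQuot Cfsg.Agent.Lib.LeechOrder Cfsg.Agent.Lib.H89Mono Cfsg.Agent.Lib.H89FixRank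
  Cfsg.Agent.Lib.H89FixTab Cfsg.Agent.Lib.LeechFrame Cfsg.Agent.Lib.H89Q2 Cfsg.Agent.Lib.H89Stab
  Cfsg.Agent.Lib.H89CN Cfsg.Agent.Lib.H89Act Cfsg.Agent.Lib.H89MatAct Cfsg.Agent.Lib.H89FiO
open Cfsg.Agent.Lib.H89Three (a3 a3_pow a3_ne a3_mem_N orderOf_a3 comm_codes3)
open scoped Pointwise

/-! ### the second element of order 3 of the kernel -/

def sqOK (R R' : List ℕ) : Bool := allLt 24 fun i => allLt 24 fun j =>
  decide (zs 24 (fun k => Int.mul (dv (R.getD i 0) k) (dv (R.getD k 0) j)) = 8 * dv (R'.getD i 0) j)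

theorem om_sq : sqOK omR omR' = true := by decide +kernel

theorem sq_spec {R R' : List ℕ} (h : sqOK R R' = true) : H89LeechMat.mt R * H89LeechMat.mt R = 8 • H89LeechMat.mt R' := by
  ext p q
  have h1 := of_decide_eq_true (allLt_iff.mp (allLt_iff.mp h (ix p) (ix_lt p)) (ix q) (ix_lt q))
  rw [zs_eq, ← sum_ix] at h1
  rw [Matrix.mul_apply, Matrix.smul_apply, nsmul_eq_mul]
  exact h1

theorem exists_om : ∃ g : Co0, (∀ v : leechLattice, (H89LeechMat.mt omR).mulVec (v : GolayPt → ℤ) = 8 • ((g • v : leechLattice) : GolayPt → ℤ)) ∧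
      ∀ v : leechLattice, (H89LeechMat.mt omR').mulVec (v : GolayPt → ℤ) = 8 • ((g⁻¹ • v : leechLattice) : GolayPt → ℤ) :=
  exists_mat om_orth om_orth' om_img om_img'

noncomputable def om : Co0 := exists_om.choose

theorem om_spec (v : leechLattice) : (H89LeechMat.mt omR).mulVec (v : GolayPt → ℤ) = 8 • ((om • v : leechLattice) : GolayPt → ℤ) :=
  exists_om.choose_spec.1 v

theorem om_spec' (v : leechLattice) : (H89LeechMat.mt omR').mulVec (v : GolayPt → ℤ) = 8 • ((om⁻¹ • v : leechLattice) : GolayPt → ℤ) :=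
  exists_om.choose_spec.2 v

theorem om_comm : om * a3 = a3 * om := mat_comm inM_cZ om_com om_spec

theorem om_mul_self : om * om = om⁻¹ := by
  apply ext_smul
  intro v
  apply Subtype.ext
  apply eight_cancel
  apply eight_cancel
  rw [mul_smul, ← om_spec (om • v), ← Matrix.mulVec_smul, ← om_spec v, Matrix.mulVec_mulVec, sq_spec om_sq, ← om_spec' v,
    Matrix.smul_mulVec]

theorem om_pow : om ^ 3 = 1 := by rw [pow_succ, pow_two, om_mul_self, inv_mul_cancel]

theorem om_ef (i j : I6) : ((om • ef (FP j) : leechLattice) : GolayPt → ℤ) (FP i) = if i = j then -4 else 0 := by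
  have h1 := congrFun (om_spec (ef (FP j))) (FP i)
  rw [coe_ef] at h1
  have h2 : (H89LeechMat.mt omR).mulVec (Pi.single (FP j) 8) (FP i) = 8 * dv (omR.getD (fx (num i)) 0) (fx (num j)) := by
    rw [Matrix.mulVec_single]
    show H89LeechMat.mt omR (FP i) (FP j) * 8 = _
    unfold H89LeechMat.mt
    rw [FP_fx, FP_fx, ix_pt (fx_lt (num i).2), ix_pt (fx_lt (num _).2)]
    ring
  rw [h2] at h1
  have h3 : (((om • ef (FP j) : leechLattice) : GolayPt → ℤ) (FP i)) = dv (omR.getD (fx (num i)) 0) (fx (num j)) := by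
    have h1' : 8 * dv (omR.getD (fx (num i)) 0) (fx (num j)) = 8 • (((om • ef (FP j) : leechLattice) : GolayPt → ℤ) (FP i)) := h1
    rw [nsmul_eq_mul] at h1'
    push_cast at h1'
    omega
  rw [h3, of_decide_eq_true (allLt_iff.mp (allLt_iff.mp om_ent (num i) (num i).2) (num j) (num j).2)]
  by_cases h : i = j
  · subst h; simp
  · rw [if_neg h, if_neg (fun e => h (num_inj (Fin.ext e)))]

theorem om_mem : om ∈ C := mem_C.2 om_comm

theorem rho_om : rho ⟨om, om_mem⟩ = 1 := by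
  apply Subtype.ext
  apply Units.ext
  ext i j
  show -(((((om • ef (FP j) : leechLattice) : GolayPt → ℤ) (FP i) : ℤ)) : ZMod 3) = (1 : Matrix I6 I6 (ZMod 3)) i j
  rw [om_ef, Matrix.one_apply]
  by_cases h : i = j
  · rw [if_pos h, if_pos h]; decide
  · rw [if_neg h, if_neg h]; decide

theorem om_not_N : om ∉ N := by
  rintro ⟨σ, hσ, c, hc, h⟩
  have h1 := congrFun (h (ef (FP (.inl (.inl 0))))) (FP (.inl (.inl 0)))
  rw [om_ef, if_pos rfl, signedPerm_apply, coe_ef, Pi.single_apply] at h1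
  unfold chi at h1
  split_ifs at h1 <;> norm_num at h1

theorem om_pow_N {n : ℕ} (h : om ^ n ∈ N) : 3 ∣ n := by
  have h1 : om ^ n = om ^ (n % 3) := by
    conv_lhs => rw [← Nat.div_add_mod n 3, pow_add, pow_mul, om_pow, one_pow, one_mul]
  have h2 : n % 3 < 3 := Nat.mod_lt _ (by norm_num)
  rw [h1] at h
  rcases (by omega : n % 3 = 0 ∨ n % 3 = 1 ∨ n % 3 = 2) with h3 | h3 | h3
  · exact Nat.dvd_of_mod_eq_zero h3
  · rw [h3, pow_one] at h; exact absurd h om_not_N
  · rw [h3, pow_two, om_mul_self] at h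
    exact absurd ((inv_mem_iff).1 h) om_not_N

theorem a3_memC : a3 ∈ C := mem_C.2 rfl

theorem rho_a3 : rho ⟨a3, a3_memC⟩ = 1 := by
  apply act_ext
  intro x
  obtain ⟨v, hv, rfl⟩ := exists_r3 x
  rw [act_rho _ hv, act_one]
  congr 1

theorem negOne_memC : negOne ∈ C := mem_C.2 (Subgroup.mem_center_iff.1 negOne_mem_center a3).symm

theorem rho_neg : rho ⟨negOne, negOne_memC⟩ = mone := by
  apply act_ext
  intro x
  obtain ⟨v, hv, rfl⟩ := exists_r3 x
  rw [act_rho _ hv, act_mone]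
  show r3 (negOne • v) = _
  rw [negOne_smul, map_neg]

/-- the nine elements of the kernel -/
noncomputable def kf (x : Fin 3 × Fin 3) : rho.ker :=
  ⟨⟨a3, a3_memC⟩ ^ (x.1 : ℕ) * ⟨om, om_mem⟩ ^ (x.2 : ℕ), by
    rw [MonoidHom.mem_ker, map_mul, map_pow, map_pow, rho_a3, rho_om, one_pow, one_pow, one_mul]⟩

theorem kf_coe (x : Fin 3 × Fin 3) : (((kf x : rho.ker) : C) : Co0) = a3 ^ (x.1 : ℕ) * om ^ (x.2 : ℕ) := rfl

theorem om_pow_inj {i j : ℕ} (hi : i < 3) (hj : j < 3) (h : (om ^ j)⁻¹ * om ^ i ∈ N) : i = j := by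
  have h1 : om ^ i * (om ^ j) ^ 2 = (om ^ j)⁻¹ * om ^ i := by
    have h2 : (om ^ j) ^ 3 = 1 := by rw [← pow_mul, mul_comm, pow_mul, om_pow, one_pow]
    have h3 : (om ^ j) ^ 2 = (om ^ j)⁻¹ := by
      rw [eq_inv_iff_mul_eq_one, ← pow_succ]; exact h2
    rw [h3, ← inv_pow]
    exact ((Commute.refl om).inv_right.pow_pow i j).eq
  rw [← h1, ← pow_mul, ← pow_add] at h
  have h4 := om_pow_N h
  omega

theorem kf_inj : Function.Injective kf := by
  rintro ⟨i, j⟩ ⟨i', j'⟩ h
  have h1 : a3 ^ (i : ℕ) * om ^ (j : ℕ) = a3 ^ (i' : ℕ) * om ^ (j' : ℕ) := by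
    have := congrArg (fun t : rho.ker => ((t : C) : Co0)) h
    exact this
  have hc : Commute om a3 := om_comm
  have h2 : (om ^ (j' : ℕ))⁻¹ * om ^ (j : ℕ) ∈ N := by
    have h3 : (om ^ (j' : ℕ))⁻¹ * om ^ (j : ℕ) = (a3 ^ (i : ℕ))⁻¹ * a3 ^ (i' : ℕ) := by
      have h4 : Commute (om ^ (j : ℕ)) (a3 ^ (i : ℕ)) := hc.pow_pow _ _
      have h5 : Commute (om ^ (j' : ℕ)) (a3 ^ (i' : ℕ)) := hc.pow_pow _ _
      rw [inv_mul_eq_iff_eq_mul, ← mul_assoc]
      have h6 : Commute (om ^ (j' : ℕ)) (a3 ^ (i : ℕ)) := hc.pow_pow _ _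
      rw [(h6.inv_right).eq, mul_assoc, h5.eq, ← h1]
      group
    rw [h3]
    exact mul_mem (inv_mem (pow_mem a3_mem_N _)) (pow_mem a3_mem_N _)
  have h3 : j = j' := Fin.ext (om_pow_inj j.2 j'.2 h2)
  subst h3
  have h4 := mul_right_cancel h1
  have h5 : i = i' := Fin.ext (pow_injOn_Iio_orderOf (by rw [orderOf_a3]; exact i.2) (by rw [orderOf_a3]; exact i'.2) h4)
  rw [h5]

theorem cards : Nat.card rho.ker = 9 ∧ Nat.card R = 2 * 6531840 := by
  have h1 := card_ker_range rho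
  have h2 := card_C_le
  have h3 : 9 ≤ Nat.card rho.ker := by
    have : Nat.card (Fin 3 × Fin 3) = 9 := by rw [Nat.card_prod, Nat.card_fin]
    rw [← this]; exact Nat.card_le_card_of_injective kf kf_inj
  have h4 := relIndex_ge (R := R) (fun v hv => refl_mem v hv)
  have h6 : Nat.card rho.ker * Nat.card R ≤ 117573120 := by rw [h1]; exact h2
  have h7 : Nat.card rho.ker ≤ 9 := by
    by_contra h
    push Not at h
    have := Nat.mul_le_mul h h4
    omega
  have h8 : Nat.card rho.ker = 9 := le_antisymm h7 h3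
  refine ⟨h8, ?_⟩
  rw [h8] at h6
  omega

theorem ker_spec {g : C} (h : rho g = 1) : ∃ i j : ℕ, j < 3 ∧ (g : Co0) = a3 ^ i * om ^ j := by
  have h1 : Function.Bijective kf := by
    apply kf_inj.bijective_of_nat_card_le
    rw [Nat.card_prod, Nat.card_fin, cards.1]
  obtain ⟨⟨i, j⟩, hb⟩ := h1.2 ⟨g, h⟩
  exact ⟨i, j, j.2, (congrArg (fun t : rho.ker => ((t : C) : Co0)) hb).symm⟩

theorem card_C : Nat.card C = 117573120 := by
  have h1 := card_ker_range rho
  rw [cards.1, cards.2] at h1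
  omega

/-! ### the subgroup of order 6 -/

/-- minus the element of order 3 -/
noncomputable def na : C := ⟨negOne, negOne_memC⟩ * ⟨a3, a3_memC⟩

theorem na_coe : (na : Co0) = negOne * a3 := rfl

/-- the subgroup of order 6 -/
noncomputable def Z6 : Subgroup C := Subgroup.zpowers na

theorem neg_a3 : Commute negOne a3 := (Subgroup.mem_center_iff.1 negOne_mem_center a3).symm

theorem neg_zpow (i : ℤ) : negOne ^ i = 1 ∨ negOne ^ i = negOne := by
  have h2 : negOne ^ (2 : ℤ) = 1 := by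
    rw [zpow_two, negOne_sq]
  rcases Int.emod_two_eq_zero_or_one i with h | h
  · left
    rw [← Int.emod_add_mul_ediv i 2, h, zero_add, zpow_mul, h2, one_zpow]
  · right
    rw [← Int.emod_add_mul_ediv i 2, h, zpow_add, zpow_one, zpow_mul, h2, one_zpow, mul_one]

theorem mem_Z6 {g : C} : g ∈ Z6 ↔ ∃ i : ℤ, (g : Co0) = a3 ^ i ∨ (g : Co0) = negOne * a3 ^ i := by
  have e3 : a3 ^ (3 : ℤ) = 1 := by exact_mod_cast a3_pow
  have e2 : negOne ^ (2 : ℤ) = 1 := by rw [zpow_two, negOne_sq]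
  constructor
  · rintro ⟨i, hi⟩
    have h1 : (g : Co0) = negOne ^ i * a3 ^ i := by
      rw [← hi]
      show (na : Co0) ^ i = _
      rw [na_coe, neg_a3.mul_zpow]
    refine ⟨i, ?_⟩
    rcases neg_zpow i with h | h
    · left; rw [h1, h, one_mul]
    · right; rw [h1, h]
  · rintro ⟨i, h | h⟩
    · refine ⟨4 * i, ?_⟩
      apply Subtype.ext
      show (na : Co0) ^ (4 * i) = _
      rw [h, na_coe, neg_a3.mul_zpow, show (4 * i : ℤ) = 2 * (2 * i) by ring, zpow_mul negOne, e2, one_zpow, one_mul,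
        show (2 * (2 * i) : ℤ) = 3 * i + i by ring, zpow_add, zpow_mul, e3, one_zpow, one_mul]
    · refine ⟨3 + 4 * i, ?_⟩
      apply Subtype.ext
      show (na : Co0) ^ (3 + 4 * i) = _
      rw [h, na_coe, neg_a3.mul_zpow, show (3 + 4 * i : ℤ) = 1 + 2 * (1 + 2 * i) by ring, zpow_add, zpow_mul, e2, one_zpow, mul_one,
        zpow_one]
      congr 1
      rw [show (1 + 2 * (1 + 2 * i) : ℤ) = 3 * (1 + i) + i by ring, zpow_add, zpow_mul, e3, one_zpow, one_mul]

theorem na_central (g : C) : g * na = na * g := by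
  apply Subtype.ext
  show (g : Co0) * (negOne * a3) = negOne * a3 * g
  have h1 := Subgroup.mem_center_iff.1 negOne_mem_center (g : Co0)
  rw [← mul_assoc, h1, mul_assoc, mem_C.1 g.2, mul_assoc]

instance Z6_normal : Z6.Normal := ⟨by
  rintro _ ⟨i, rfl⟩ g
  have h1 : Commute g na := na_central g
  refine ⟨i, ?_⟩
  show na ^ i = g * na ^ i * g⁻¹
  rw [(h1.zpow_right i).eq, mul_assoc, mul_inv_cancel, mul_one]⟩

theorem negOne_ne_a3 (i : ℤ) : negOne ≠ a3 ^ i := negOne_ne_zpow (p := 3) (by decide) a3_pow i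

theorem orderOf_na : orderOf na = 6 := by
  have h1 : orderOf (na : Co0) = 6 := by
    rw [na_coe, neg_a3.orderOf_mul_eq_mul_orderOf_of_coprime]
    · rw [orderOf_a3, orderOf_eq_prime (p := 2) (by rw [pow_two, negOne_sq]) H89Act.negOne_ne_one]
    · rw [orderOf_a3, orderOf_eq_prime (p := 2) (by rw [pow_two, negOne_sq]) H89Act.negOne_ne_one]
      norm_num
  rw [← h1, Subgroup.orderOf_coe]

theorem card_Z6 : Nat.card Z6 = 6 := by
  show Nat.card (Subgroup.zpowers na) = 6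
  rw [Nat.card_zpowers, orderOf_na]

theorem rho_Z6 {g : C} (h : g ∈ Z6) : rho g = 1 ∨ rho g = mone := by
  obtain ⟨i, rfl⟩ := h
  have h1 : rho na = mone := by
    show rho (⟨negOne, negOne_memC⟩ * ⟨a3, a3_memC⟩) = mone
    rw [map_mul, rho_neg, rho_a3, mul_one]
  have h2 : mone ^ (2 : ℤ) = 1 := by
    rw [zpow_two]
    apply act_ext; intro v; rw [act_mul, act_mone, act_mone, act_one, neg_neg]
  show rho (na ^ i) = 1 ∨ rho (na ^ i) = mone
  rw [map_zpow, h1]
  rcases Int.emod_two_eq_zero_or_one i with h | h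
  · left
    rw [← Int.emod_add_mul_ediv i 2, h, zero_add, zpow_mul, h2, one_zpow]
  · right
    rw [← Int.emod_add_mul_ediv i 2, h, zpow_add, zpow_one, zpow_mul, h2, one_zpow, mul_one]

theorem Z6_N {g : C} (h : g ∈ Z6) : (g : Co0) ∈ N := by
  obtain ⟨i, h | h⟩ := mem_Z6.1 h
  · rw [h]; exact zpow_mem a3_mem_N i
  · rw [h]; exact mul_mem negOne_mem_N (zpow_mem a3_mem_N i)

/-- elements with image `±1` -/
theorem rho_pm {g : C} (h : rho g = 1 ∨ rho g = mone) : ∃ z ∈ Z6, ∃ j : ℕ, j < 3 ∧ (g : Co0) = (z : Co0) * om ^ j := by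
  rcases h with h | h
  · obtain ⟨i, j, hj, hg⟩ := ker_spec h
    exact ⟨⟨a3, a3_memC⟩ ^ i, mem_Z6.2 ⟨i, Or.inl (by rw [zpow_natCast]; rfl)⟩, j, hj, hg⟩
  · have h1 : rho (⟨negOne, negOne_memC⟩ * g) = 1 := by
      rw [map_mul, rho_neg, h]
      apply act_ext; intro v; rw [act_mul, act_mone, act_mone, act_one, neg_neg]
    obtain ⟨i, j, hj, hg⟩ := ker_spec h1
    refine ⟨⟨negOne, negOne_memC⟩ * ⟨a3, a3_memC⟩ ^ i, mem_Z6.2 ⟨i, Or.inr (by rw [zpow_natCast]; rfl)⟩, j, hj, ?_⟩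
    have h2 : negOne * (g : Co0) = a3 ^ i * om ^ j := hg
    show (g : Co0) = negOne * a3 ^ i * om ^ j
    rw [mul_assoc, ← h2, ← mul_assoc, negOne_sq, one_mul]

/-! ### faithfulness -/

theorem act_ext_ev {g h : O1} (H : ∀ j, act g (ev j) = act h (ev j)) : g = h := by
  have key : ∀ (g : O1) i j, (g.1.1 : Matrix I6 I6 (ZMod 3)) i j = act g (ev j) i := by
    intro g i j
    unfold act ev
    rw [Matrix.mulVec_single_one]; rfl
  apply Subtype.ext
  apply Units.ext
  ext i j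
  rw [key, key, H]

theorem FP_ne {i j : I6} (h : i ≠ j) : FP i ≠ FP j := fun e => h (FP_inj e)

theorem X_eq {i j : GolayPt} (h : i ≠ j) : LeechChain.X h + LeechChain.S h = ef i := by
  apply Subtype.ext
  rw [AddSubgroup.coe_add, coe_ef, LeechChain.coe_X, LeechChain.coe_S]
  funext k
  simp only [Pi.add_apply, Pi.sub_apply, Pi.single_apply]
  split_ifs <;> norm_num

theorem X_FL {i j : I6} (h : FP i ≠ FP j) : LeechChain.X h ∈ FL a3 := by
  rw [mem_FLa]
  intro p
  rw [LeechChain.coe_X]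
  have h1 : ∀ i, toPerm cZ p = FP i ↔ p = FP i := by
    intro i
    constructor
    · intro h
      apply (toPerm cZ).injective
      rw [h, cZ_FP]
    · rintro rfl; exact cZ_FP i
  simp only [Pi.add_apply, Pi.single_apply, h1]

theorem S_FL {i j : I6} (h : FP i ≠ FP j) : LeechChain.S h ∈ FL a3 := by
  have h1 : LeechChain.S h = ef (FP i) - LeechChain.X h := by rw [← X_eq h]; abel
  rw [h1]
  exact AddSubgroup.sub_mem _ (ef_FL i) (X_FL h)

theorem r3_X {i j : I6} (h : i ≠ j) : r3 (LeechChain.X (FP_ne h)) = ev i + ev j := by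
  funext k
  rw [r3_apply, LeechChain.coe_X, Pi.add_apply, Pi.add_apply, ev, ev, Pi.single_apply, Pi.single_apply, Pi.single_apply, Pi.single_apply]
  have h1 : ∀ i, FP k = FP i ↔ k = i := fun i => FP_inj.eq_iff
  simp only [h1]
  by_cases h2 : k = i
  · subst h2
    rw [if_pos rfl, if_neg h, if_pos rfl, if_neg h]; decide
  · by_cases h3 : k = j
    · subst h3
      rw [if_neg h2, if_pos rfl, if_neg h2, if_pos rfl]; decide
    · rw [if_neg h2, if_neg h3, if_neg h2, if_neg h3]; decide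

theorem r3_S {i j : I6} (h : i ≠ j) : r3 (LeechChain.S (FP_ne h)) = ev i - ev j := by
  have h1 : LeechChain.S (FP_ne h) = ef (FP i) - LeechChain.X (FP_ne h) := by rw [← X_eq (FP_ne h)]; abel
  rw [h1, map_sub, r3_ef, r3_X h]
  funext k
  simp only [Pi.sub_apply, Pi.neg_apply, Pi.add_apply]
  generalize ev i k = a
  generalize ev j k = b
  clear * -
  show (-a - (a + b) : ZMod 3) = a - b
  revert a b; decide

theorem pm_of_dbl {g : Co0} {v : leechLattice} (hv : sqNorm (v : GolayPt → ℤ) = 32) (h : dbl (g • v) v) : g • v = v ∨ g • v = -v := by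
  have h1 : sqNorm ((g • v : leechLattice) : GolayPt → ℤ) = 32 := by
    have h0 : ∀ x : GolayPt → ℤ, dotInt x x = sqNorm x := by
      intro x
      unfold dotInt sqNorm; exact Finset.sum_congr rfl fun i _ => by ring
    have h2 := dt_smul g v v
    rw [dt_apply, dt_apply, h0, h0] at h2
    rw [h2, hv]
  rcases q2_short (by rw [h1]; norm_num) (by rw [hv]; norm_num) (q2_eq_iff.2 h) with h2 | h2 | ⟨h2, -⟩
  · exact Or.inl h2
  · exact Or.inr h2
  · rw [h1] at h2; norm_num at h2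

theorem z3_cases : ∀ t : ZMod 3, t ≠ 0 → t = 1 ∨ t = -1 := by decide

theorem faith_a : Faith a3 := by
  intro g hg h
  set gc : C := ⟨g, mem_C.2 hg⟩ with hgc
  have hX : ∀ i j, i ≠ j → ∃ s : ZMod 3, act (rho gc) (ev i + ev j) = s • (ev i + ev j) := by
    intro i j hij
    rw [← r3_X hij, act_rho gc (X_FL (FP_ne hij))]
    rcases pm_of_dbl (g := g) (LeechChain.sqNorm_X (FP_ne hij)) (h _ (X_FL _)) with h1 | h1
    · exact ⟨1, by rw [one_smul]; exact congrArg r3 h1⟩
    · refine ⟨-1, ?_⟩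
      rw [neg_smul, one_smul, ← map_neg]; exact congrArg r3 h1
  have hS : ∀ i j, i ≠ j → ∃ s : ZMod 3, act (rho gc) (ev i - ev j) = s • (ev i - ev j) := by
    intro i j hij
    rw [← r3_S hij, act_rho gc (S_FL (FP_ne hij))]
    rcases pm_of_dbl (g := g) (LeechSyl.sqNorm_S' (FP_ne hij)) (h _ (S_FL _)) with h1 | h1
    · exact ⟨1, by rw [one_smul]; exact congrArg r3 h1⟩
    · refine ⟨-1, ?_⟩
      rw [neg_smul, one_smul, ← map_neg]; exact congrArg r3 h1
  set M0 := act (rho gc) (ev (.inr 0)) with hM0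
  have h2M : ∀ j, (.inr 0 : I6) ≠ j → ∃ s t : ZMod 3, act (rho gc) (ev (.inr 0) + ev j) = s • (ev (.inr 0) + ev j) ∧
      (2 : ZMod 3) • M0 = s • (ev (.inr 0) + ev j) + t • (ev (.inr 0) - ev j) := by
    intro j hj
    obtain ⟨s, hs⟩ := hX _ _ hj
    obtain ⟨t, ht⟩ := hS _ _ hj
    refine ⟨s, t, hs, ?_⟩
    rw [← hs, ← ht, ← act_add, hM0, ← act_smul]
    congr 1
    funext k
    simp only [Pi.add_apply, Pi.sub_apply, Pi.smul_apply, smul_eq_mul]
    ring
  have hdiag : ∀ k, k ≠ (.inr 0 : I6) → M0 k = 0 := by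
    intro k hk
    obtain ⟨j, hj0, hjk⟩ : ∃ j : I6, (.inr 0 : I6) ≠ j ∧ k ≠ j := by
      clear h2M hX hS; revert k; decide
    obtain ⟨s, t, -, h2⟩ := h2M j hj0
    have h3 := congrFun h2 k
    simp only [Pi.add_apply, Pi.sub_apply, Pi.smul_apply, smul_eq_mul, ev, Pi.single_apply, if_neg hk, if_neg hjk] at h3
    generalize M0 k = a at h3
    clear * - h3
    revert s t a; decide
  have hall : ∀ j, act (rho gc) (ev j) = (M0 (.inr 0)) • ev j := by
    intro j
    by_cases hj : j = .inr 0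
    · subst hj
      funext k
      rw [← hM0, Pi.smul_apply, ev, Pi.single_apply, smul_eq_mul]
      by_cases hk : k = .inr 0
      · subst hk; rw [if_pos rfl, mul_one]
      · rw [if_neg hk, mul_zero, hdiag k hk]
    · obtain ⟨s, t, h1, h2⟩ := h2M j (Ne.symm hj)
      have h3 := congrFun h2 j
      have h4 := congrFun h2 (.inr 0)
      simp only [Pi.add_apply, Pi.sub_apply, Pi.smul_apply, smul_eq_mul, ev, Pi.single_apply, if_neg hj, if_pos] at h3
      simp only [Pi.add_apply, Pi.sub_apply, Pi.smul_apply, smul_eq_mul, ev, Pi.single_apply, if_neg (Ne.symm hj), if_pos] at h4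
      rw [hdiag j hj] at h3
      have h5 : M0 (.inr 0) = s := by
        generalize M0 (.inr 0) = a at h4
        clear * - h3 h4
        revert s t a; decide
      have h6 : act (rho gc) (ev j) = act (rho gc) (ev (.inr 0) + ev j) - M0 := by
        rw [act_add, hM0]; abel
      rw [h6, h1, h5]
      funext k
      simp only [Pi.add_apply, Pi.sub_apply, Pi.smul_apply, smul_eq_mul]
      by_cases hk : k = .inr 0
      · subst hk
        rw [h5, ev, ev, Pi.single_apply, Pi.single_apply, if_pos rfl, if_neg (Ne.symm hj)]; ring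
      · rw [hdiag k hk, ev, ev, Pi.single_apply, if_neg hk]; ring
  have hpm : rho gc = 1 ∨ rho gc = mone := by
    have h0 : M0 (.inr 0) ≠ 0 := by
      intro h0
      have h1 := hall (.inr 0)
      rw [h0, zero_smul] at h1
      have h2 := Qs_act (rho gc) (ev (.inr 0))
      rw [h1, Qs_ev] at h2
      revert h2; decide
    rcases z3_cases _ h0 with h1 | h1
    · left
      apply act_ext_ev
      intro j
      rw [hall, h1, one_smul, act_one]
    · right
      apply act_ext_ev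
      intro j
      rw [hall, h1, neg_smul, one_smul, act_mone]
  obtain ⟨z, hz, j, hj, hgz⟩ := rho_pm hpm
  have hgN : g ∈ N := by
    rw [mem_N_iff_p1, ← q2_ef (FP (.inr 0)), smul_q2]
    exact q2_eq_iff.2 (h _ (ef_FL _))
  have hj0 : j = 0 := by
    have h1 : om ^ j ∈ N := by
      have h2 : om ^ j = (z : Co0)⁻¹ * g := by
        rw [show g = (z : Co0) * om ^ j from hgz]; group
      rw [h2]
      exact mul_mem (inv_mem (Z6_N hz)) hgN
    have := om_pow_N h1
    omega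
  rw [hj0, pow_zero, mul_one] at hgz
  obtain ⟨i, hi⟩ := mem_Z6.1 hz
  exact ⟨i, by rw [show g = (z : Co0) from hgz]; exact hi⟩

theorem hna_a : ∃ v ∈ FL a3, ∃ w ∈ FL a3, ¬ (16 : ℤ) ∣ dt v w := by
  have h0 : SV.getD 0 0 ∈ SV := by
    rw [List.getD_eq_getElem _ _ (by rw [SV_len]; norm_num)]; exact List.getElem_mem _
  have h1 : SV.getD 36 0 ∈ SV := by
    rw [List.getD_eq_getElem _ _ (by rw [SV_len]; norm_num)]; exact List.getElem_mem _
  refine ⟨lw (SV.getD 0 0), SV_FL h0, lw (SV.getD 36 0), SV_FL h1, ?_⟩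
  rw [dt_apply, coe_lw (SV_mem h0).2.2.1, coe_lw (SV_mem h1).2.2.1, idot_eq]
  decide +kernel

end Cfsg.Agent.Lib.H89Fi
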