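import Cfsg.Agent.Lib.H89Fi4

/-!
# The centralizer in `Co0` of the coordinate permutation of order 3 with six fixed points: the chain of normal subgroups (helper89)
-/

set_option autoImplicit false
set_option linter.all false

namespace Cfsg.Agent.Lib.H89Fi

open Cfsg Cfsg.Agent.Lib.Golay Cfsg.Agent.Lib.LeechMin Cfsg.Agent.Lib.H89LeechMat Cfsg.Agent.Lib.H89Mon1
  Cfsg.Agent.Lib.LeechQuot Cfsg.Agent.Lib.LeechOrder Cfsg.Agent.Lib.H89Mono Cfsg.Agent.Lib.H89FixRank
  Cfsg.Agent.Lib.H89FixTab Cfsg.Agent.Lib.LeechFrame Cfsg.Agent.Lib.H89Q2 Cfsg.Agent.Lib.H89Stab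
  Cfsg.Agent.Lib.H89CN Cfsg.Agent.Lib.H89Act Cfsg.Agent.Lib.H89MatAct Cfsg.Agent.Lib.H89FiO
open Cfsg.Agent.Lib.H89Three (a3 a3_pow a3_ne a3_mem_N orderOf_a3 comm_codes3)
open scoped Pointwise

theorem quotIso {A B : Type*} [Group A] [Group B] (f : A →* B) {M N : Subgroup A} {M' N' : Subgroup B}
    [(N.subgroupOf M).Normal] [(N'.subgroupOf M').Normal] (hM : ∀ x, x ∈ M ↔ f x ∈ M') (hN : ∀ x, x ∈ N ↔ f x ∈ N')
    (hr : ∀ y ∈ M', ∃ x, f x = y) : Nonempty (M ⧸ N.subgroupOf M ≃* M' ⧸ N'.subgroupOf M') := by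
  let g : M →* M' := (f.comp M.subtype).codRestrict M' (fun x => (hM x).1 x.2)
  let φ : M →* M' ⧸ N'.subgroupOf M' := (QuotientGroup.mk' (N'.subgroupOf M')).comp g
  have hs : Function.Surjective φ := by
    intro y
    obtain ⟨⟨y, hy⟩, rfl⟩ := QuotientGroup.mk'_surjective _ y
    obtain ⟨x, hx⟩ := hr y hy
    refine ⟨⟨x, (hM x).2 (by rw [hx]; exact hy)⟩, ?_⟩
    show QuotientGroup.mk' _ (g _) = _
    congr 1
    exact Subtype.ext hx
  have hk : φ.ker = N.subgroupOf M := by
    ext x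
    rw [MonoidHom.mem_ker]
    show QuotientGroup.mk' _ (g x) = 1 ↔ _
    rw [QuotientGroup.mk'_apply, QuotientGroup.eq_one_iff, Subgroup.mem_subgroupOf, Subgroup.mem_subgroupOf]
    exact (hN x).symm
  exact ⟨(QuotientGroup.quotientMulEquivOfEq hk.symm).trans (QuotientGroup.quotientKerEquivOfSurjective φ hs)⟩

/-- the centre of `Ω` as a subgroup of the isometry group -/
def Z2 : Subgroup O1 := (Subgroup.center Om1).map Om1.subtype

theorem mem_Z2 {x : O1} : x ∈ Z2 ↔ x = 1 ∨ x = mone := by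
  constructor
  · rintro ⟨y, hy, rfl⟩
    exact mem_center_iff.1 hy
  · rintro (h | h)
    · rw [h]; exact one_mem _
    · exact ⟨⟨mone, mone_mem⟩, mem_center_iff.2 (Or.inr rfl), h.symm⟩

instance Z2_normal : Z2.Normal := ⟨by
  intro x hx g
  rw [mem_Z2] at hx ⊢
  rcases hx with rfl | rfl
  · left; group
  · right
    rw [← mone_comm, mul_assoc, mul_inv_cancel, mul_one]⟩

theorem Z2_subgroupOf : Z2.subgroupOf Om1 = Subgroup.center Om1 := by
  ext x
  rw [Subgroup.mem_subgroupOf, mem_Z2, mem_center_iff]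

/-- the quotient group -/
abbrev KK : Type := C ⧸ Z6

/-- preimages in the centralizer -/
def NC : Subgroup C := Z2.comap rho
def MC : Subgroup C := Om1.comap rho

instance : NC.Normal := Subgroup.Normal.comap inferInstance _
instance : MC.Normal := Subgroup.Normal.comap inferInstance _

theorem NC_le : NC ≤ MC := Subgroup.comap_mono (by
  rintro _ ⟨y, -, rfl⟩; exact y.2)

theorem Z6_le : Z6 ≤ NC := fun g hg => mem_Z2.2 (rho_Z6 hg)

theorem MC_index : MC.index = 2 := by
  have h1 : MC.index = Om1.relIndex rho.range := Subgroup.index_comap _ _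
  have h2 : Nat.card R = Nat.card Om1 * Om1.relIndex R := by
    have := Subgroup.card_mul_index (Om1.subgroupOf R)
    rw [← this]
    congr 1
    exact Nat.card_congr (Subgroup.subgroupOfEquivOfLe Om1_le_R).toEquiv
  rw [cards.2, card_Om1] at h2
  rw [h1]
  show Om1.relIndex R = 2
  omega

theorem NC_card : Nat.card NC = 18 := by
  have h1 : NC.index = Z2.relIndex rho.range := Subgroup.index_comap _ _
  have hZR : Z2 ≤ R := fun x hx => Om1_le_R (by rcases mem_Z2.1 hx with rfl | rfl; exacts [one_mem _, mone_mem])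
  have hZ : Nat.card Z2 = 2 := by
    show Nat.card ((Subgroup.center Om1).map Om1.subtype) = 2
    exact (Nat.card_congr (Subgroup.equivMapOfInjective _ _ Om1.subtype_injective).toEquiv).symm.trans card_center
  have h2 : Nat.card R = Nat.card Z2 * Z2.relIndex R := by
    have := Subgroup.card_mul_index (Z2.subgroupOf R)
    rw [← this]
    congr 1
    exact Nat.card_congr (Subgroup.subgroupOfEquivOfLe hZR).toEquiv
  rw [cards.2, hZ] at h2
  have h3 := Subgroup.card_mul_index NC
  rw [h1, card_C] at h3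
  have h4 : Z2.relIndex R = 6531840 := by omega
  rw [show Z2.relIndex rho.range = 6531840 from h4] at h3
  exact Nat.eq_of_mul_eq_mul_right (show 0 < 6531840 by norm_num) (h3.trans (by norm_num))

noncomputable def NK : Subgroup KK := NC.map (QuotientGroup.mk' Z6)
noncomputable def MK : Subgroup KK := MC.map (QuotientGroup.mk' Z6)

instance : NK.Normal := Subgroup.Normal.map inferInstance _ (QuotientGroup.mk'_surjective _)
instance : MK.Normal := Subgroup.Normal.map inferInstance _ (QuotientGroup.mk'_surjective _)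

theorem NK_le : NK ≤ MK := Subgroup.map_mono NC_le

theorem mem_NC {x : C} : x ∈ NC ↔ QuotientGroup.mk' Z6 x ∈ NK := by
  have h : NK.comap (QuotientGroup.mk' Z6) = NC := by
    show (NC.map (QuotientGroup.mk' Z6)).comap (QuotientGroup.mk' Z6) = NC
    rw [Subgroup.comap_map_eq, QuotientGroup.ker_mk']
    exact sup_eq_left.2 Z6_le
  rw [← Subgroup.mem_comap, h]

theorem mem_MC {x : C} : x ∈ MC ↔ QuotientGroup.mk' Z6 x ∈ MK := by
  have h : MK.comap (QuotientGroup.mk' Z6) = MC := by
    show (MC.map (QuotientGroup.mk' Z6)).comap (QuotientGroup.mk' Z6) = MC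
    rw [Subgroup.comap_map_eq, QuotientGroup.ker_mk']
    exact sup_eq_left.2 (Z6_le.trans NC_le)
  rw [← Subgroup.mem_comap, h]

theorem MK_index : MK.index = 2 := by
  have h : MK.comap (QuotientGroup.mk' Z6) = MC := by
    ext x; rw [Subgroup.mem_comap, mem_MC]
  rw [← MC_index, ← h]
  exact (Subgroup.index_comap_of_surjective _ (QuotientGroup.mk'_surjective _)).symm

theorem card_KK : Nat.card KK = 19595520 := by
  have h := Subgroup.card_eq_card_quotient_mul_card_subgroup Z6
  rw [card_Z6, card_C] at h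
  show Nat.card (C ⧸ Z6) = _
  exact Nat.eq_of_mul_eq_mul_right (show 0 < 6 by norm_num) (h.symm.trans (by norm_num))

theorem NK_card : Nat.card NK = 3 := by
  have h : NK.comap (QuotientGroup.mk' Z6) = NC := by
    ext x; rw [Subgroup.mem_comap, mem_NC]
  have h1 : NK.index = NC.index := by
    rw [← h]
    exact (Subgroup.index_comap_of_surjective _ (QuotientGroup.mk'_surjective _)).symm
  have h2 := Subgroup.card_mul_index NC
  rw [NC_card, card_C] at h2
  have h3 := Subgroup.card_mul_index NK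
  rw [h1, card_KK] at h3
  have h4 : NC.index = 6531840 :=
    Nat.eq_of_mul_eq_mul_left (show 0 < 18 by norm_num) (h2.trans (by norm_num))
  rw [h4] at h3
  exact Nat.eq_of_mul_eq_mul_right (show 0 < 6531840 by norm_num) (h3.trans (by norm_num))

theorem quot_KK : Nonempty (MK ⧸ NK.subgroupOf MK ≃* PSU 4 K9 3) := by
  obtain ⟨e1⟩ := quotIso (QuotientGroup.mk' Z6) (M := MC) (N := NC) (M' := MK) (N' := NK) (fun x => mem_MC) (fun x => mem_NC)
    (fun y _ => QuotientGroup.mk'_surjective _ y)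
  obtain ⟨e2⟩ := quotIso rho (M := MC) (N := NC) (M' := Om1) (N' := Z2) (fun x => Iff.rfl) (fun x => Iff.rfl)
    (fun y hy => Om1_le_R hy)
  obtain ⟨e3⟩ := exists_iso
  exact ⟨e1.symm.trans (e2.trans ((QuotientGroup.quotientMulEquivOfEq Z2_subgroupOf).trans e3))⟩

theorem mk_eq_one {g : C} : QuotientGroup.mk' Z6 g = 1 ↔ ∃ i : ℤ, (g : Co0) = a3 ^ i ∨ (g : Co0) = negOne * a3 ^ i := by
  rw [QuotientGroup.mk'_apply, QuotientGroup.eq_one_iff, mem_Z6]

/-- no normal 2-subgroups -/
theorem hKK (S : Subgroup KK) (hS : S.Normal) (h2 : IsPGroup 2 S) : S = ⊥ := by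
  have hp : ∀ g : C, QuotientGroup.mk' Z6 g ∈ S → ∃ k : ℕ, g ^ 2 ^ k ∈ Z6 := by
    intro g hg
    obtain ⟨k, hk⟩ := h2 ⟨_, hg⟩
    refine ⟨k, ?_⟩
    rw [← QuotientGroup.eq_one_iff]
    exact congrArg Subtype.val hk
  set S' : Subgroup C := S.comap (QuotientGroup.mk' Z6) with hS'
  set X : Subgroup O1 := S'.map rho with hX
  have hXn : ∀ g ∈ R, ∀ x ∈ X, g * x * g⁻¹ ∈ X := by
    rintro _ ⟨g, rfl⟩ _ ⟨x, hx, rfl⟩
    refine ⟨g * x * g⁻¹, ?_, by rw [map_mul, map_mul, map_inv]⟩
    show QuotientGroup.mk' Z6 (g * x * g⁻¹) ∈ S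
    rw [map_mul, map_mul, map_inv]
    exact hS.conj_mem _ hx _
  have hX2 : IsPGroup 2 X := by
    rintro ⟨_, x, hx, rfl⟩
    obtain ⟨k, hk⟩ := hp x hx
    refine ⟨k + 1, ?_⟩
    apply Subtype.ext
    show rho x ^ 2 ^ (k + 1) = 1
    rw [pow_succ, pow_mul, ← map_pow]
    rcases rho_Z6 hk with h | h
    · rw [h, one_pow]
    · rw [h, pow_two]
      apply act_ext; intro v; rw [act_mul, act_mone, act_mone, act_one, neg_neg]
  have h3 := two_group (R := R) (X := X) (fun v hv => refl_mem v hv) hXn hX2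
  rw [eq_bot_iff]
  intro s hs
  obtain ⟨g, rfl⟩ := QuotientGroup.mk'_surjective Z6 s
  have hgX : rho g ∈ X := ⟨g, hs, rfl⟩
  obtain ⟨z, hz, j, hj, hgz⟩ := rho_pm (h3 _ hgX)
  obtain ⟨k, hk⟩ := hp g hs
  have hj0 : j = 0 := by
    have h4 : om ^ (j * 2 ^ k) ∈ N := by
      have hc : Commute (z : Co0) (om ^ j) := by
        obtain ⟨i, hi | hi⟩ := mem_Z6.1 hz
        · rw [hi]
          exact (show Commute om a3 from om_comm).symm.zpow_left i |>.pow_right j
        · rw [hi]
          apply Commute.mul_left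
          · exact (Subgroup.mem_center_iff.1 negOne_mem_center (om ^ j)).symm
          · exact (show Commute om a3 from om_comm).symm.zpow_left i |>.pow_right j
      have h5 : (g : Co0) ^ 2 ^ k ∈ N := Z6_N hk
      rw [hgz, hc.mul_pow, ← pow_mul] at h5
      exact (Subgroup.mul_mem_cancel_left _ (pow_mem (Z6_N hz) _)).1 h5
    have h6 := om_pow_N h4
    have h7 : Nat.Coprime 3 (2 ^ k) := Nat.Coprime.pow_right k (by norm_num)
    have h8 := h7.dvd_of_dvd_mul_right h6
    omega
  rw [hj0, pow_zero, mul_one] at hgz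
  rw [Subgroup.mem_bot, QuotientGroup.mk'_apply, QuotientGroup.eq_one_iff, show g = z from Subtype.ext hgz]
  exact hz

/-- transport of the chain -/
theorem chain_of {D K P : Type*} [Group D] [Group K] [Group P] [Finite D] {Q : Subgroup D} [Q.Normal] (e : D ⧸ Q ≃* K)
    (N' M' : Subgroup K) [N'.Normal] [M'.Normal] (h : N' ≤ M') (hc : Nat.card N' = 3) (hi : M'.index = 2)
    (hq : Nonempty (M' ⧸ N'.subgroupOf M' ≃* P)) : ∃ (N M : Subgroup D) (_ : N.Normal) (_ : M.Normal),
      Q ≤ N ∧ N ≤ M ∧ Nat.card N = 3 * Nat.card Q ∧ Nonempty (M ⧸ N.subgroupOf M ≃* P) ∧ M.index = 2 := by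
  let f : D →* K := e.toMonoidHom.comp (QuotientGroup.mk' Q)
  have hf : Function.Surjective f := e.surjective.comp (QuotientGroup.mk'_surjective Q)
  haveI hN : (N'.comap f).Normal := Subgroup.Normal.comap inferInstance _
  haveI hM : (M'.comap f).Normal := Subgroup.Normal.comap inferInstance _
  refine ⟨N'.comap f, M'.comap f, hN, hM, ?_, Subgroup.comap_mono h, ?_, ?_, ?_⟩
  · intro x hx
    show f x ∈ N'
    have : f x = 1 := by
      show e (QuotientGroup.mk' Q x) = 1
      rw [QuotientGroup.mk'_apply, (QuotientGroup.eq_one_iff x).2 hx, map_one]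
    rw [this]; exact one_mem _
  · haveI : Finite K := Finite.of_surjective f hf
    have h1 : (N'.comap f).index = N'.index := Subgroup.index_comap_of_surjective _ hf
    have h2 := Subgroup.card_mul_index (N'.comap f)
    have h3 := Subgroup.card_mul_index N'
    have h4 := Subgroup.card_eq_card_quotient_mul_card_subgroup Q
    rw [Nat.card_congr e.toEquiv, ← h3, hc, ← h2, h1] at h4
    have h5 : N'.index ≠ 0 := Subgroup.index_ne_zero_of_finite
    apply Nat.eq_of_mul_eq_mul_right (Nat.pos_of_ne_zero h5)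
    rw [h4]; ring
  · obtain ⟨e1⟩ := quotIso f (M := M'.comap f) (N := N'.comap f) (M' := M') (N' := N') (fun x => Iff.rfl) (fun x => Iff.rfl)
      (fun y _ => hf y)
    obtain ⟨e2⟩ := hq
    exact ⟨e1.trans e2⟩
  · rw [Subgroup.index_comap_of_surjective _ hf, hi]

end Cfsg.Agent.Lib.H89Fi
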