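import Cfsg.Agent.Lib.H89HeldN2
import Cfsg.Agent.Lib.H89Fi5

/-!
# Groups of Monster type: the centralizer of a 3-central element of order 3 (helper89)
-/

set_option autoImplicit false
set_option linter.all false

namespace Cfsg.Agent.Lib.H89Mon1

open Cfsg Cfsg.Agent.Lib.LargeExtra Cfsg.Agent.Lib.LeechTrans Cfsg.Agent.Lib.LeechCo2 Cfsg.Agent.Lib.LeechFrame
  Cfsg.Agent.Lib.LeechQuot Cfsg.Agent.Lib.LeechOrder Cfsg.Agent.Lib.H89Three
open scoped Pointwise

variable {G : Type*} [Group G] {z : G} {Q : Subgroup (Subgroup.centralizer ({z} : Set G))} [Q.Normal]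
  {e : (Subgroup.centralizer ({z} : Set G)) ⧸ Q ≃* Spor.Co1} {ψ : leechLattice → Q ⧸ Subgroup.center Q}

theorem card_st3 : Nat.card (MulAction.stabilizer H89Three.C H89Q2.p1) = 8064 := by
  haveI : Finite Q2 := finite_Q2
  have h1 : Nat.card H89Three.C = Nat.card (MulAction.stabilizer H89Three.C H89Q2.p1) * (MulAction.orbit H89Three.C H89Q2.p1).ncard :=
    H89CN.card_eq Golay.inM_cX
  have h3 : (MulAction.orbit H89Three.C H89Q2.p1).ncard ≤ 135 := by
    rw [← H89Three.ncard_T4_3]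
    exact Set.ncard_le_ncard (H89Three.orbit_sub H89Three.p1_mem) (Set.toFinite _)
  have h2 := H89Three.card_stab_le
  have h5 := card_ker_range H89Three.Ph0
  rw [H89Three.cards.1, H89Three.cards.2, H89Three.card_A9] at h5
  have h6 : Nat.card H89Three.C ≤ Nat.card (MulAction.stabilizer H89Three.C H89Q2.p1) * 135 := by
    rw [h1]; exact Nat.mul_le_mul le_rfl h3
  omega

section
variable [Finite G] (M : Mon z Q e ψ)
include M

/-- elements of type 3B are not 3-central -/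
theorem Mon.not27 {s : G} (hs : Cl ψ s (ef none)) {b : G} (hbL : b ∈ Subgroup.centralizer ({z, s} : Set G))
    {g : Co0} (hg : Rl e b g) (hgN : g ∈ N) (hg3 : g ^ 3 = 1) (hg1 : g ≠ 1)
    (hfp : ∀ p, (H89Mono.permPart ⟨g, hgN⟩).1 p ≠ p) :
    ¬ 27 ∣ Nat.card ↥(Subgroup.centralizer ({z, s} : Set G) ⊓ Subgroup.centralizer ({b} : Set G)) := by
  intro h27
  obtain ⟨n, hn, k, hk⟩ := conj3B hgN hg3 hg1 hfp
  set L := Subgroup.centralizer ({z, s} : Set G) with hL
  set Y := L ⊓ Subgroup.centralizer ({b} : Set G) with hY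
  set X := hat e Y with hX
  have hXN : ∀ x ∈ X, x ∈ N := by
    rintro x ⟨y, hy, hyx⟩
    exact M.mem_N_of hs (mem_L.1 hy.1).2 hyx
  have hXc : ∀ x ∈ X, x * g = g * x := by
    rintro x ⟨y, hy, hyx⟩
    have h1 : Rl e (y * b * y⁻¹) (x * g * x⁻¹) := (hyx.mul hg).mul hyx.inv
    have h2 : y * b * y⁻¹ = b := by
      rw [Subgroup.mem_centralizer_singleton_iff.1 hy.2]; group
    rw [h2] at h1
    rcases hg.eq h1 with h3 | h3
    · exact mul_inv_eq_iff_eq_mul.1 h3
    · exfalso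
      have h4 : (x * g * x⁻¹) ^ 3 = 1 := by rw [_root_.conj_pow, hg3]; group
      rw [h3] at h4
      have h5 : Commute negOne g := (Subgroup.mem_center_iff.1 negOne_mem_center g).symm
      rw [h5.mul_pow, hg3, mul_one, pow_succ, pow_two, negOne_sq, one_mul] at h4
      exact H89Act.negOne_ne_one h4
  have hle : X.map (MulAut.conj n).toMonoidHom ≤ (MulAction.stabilizer H89Three.C H89Q2.p1).map H89Three.C.subtype := by
    rintro _ ⟨x, hx, rfl⟩
    have h1 : n * x * n⁻¹ ∈ H89Three.C := by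
      rw [H89Three.mem_C, ← hk]
      have h2 : Commute x (g ^ k) := (show Commute x g from hXc x hx).zpow_right k
      calc n * x * n⁻¹ * (n * g ^ k * n⁻¹) = n * (x * g ^ k) * n⁻¹ := by group
        _ = n * g ^ k * n⁻¹ * (n * x * n⁻¹) := by rw [h2.eq]; group
    refine ⟨⟨n * x * n⁻¹, h1⟩, ?_, rfl⟩
    show (n * x * n⁻¹) • H89Q2.p1 = H89Q2.p1
    exact H89Q2.mem_N_iff_p1.1 (mul_mem (mul_mem hn (hXN x hx)) (inv_mem hn))
  have h1 := Subgroup.card_dvd_of_le hle
  have h2 : Nat.card (X.map (MulAut.conj n).toMonoidHom) = Nat.card X :=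
    (Nat.card_congr (Subgroup.equivMapOfInjective _ _ (MulAut.conj n).injective).toEquiv).symm
  have h3 : Nat.card ((MulAction.stabilizer H89Three.C H89Q2.p1).map H89Three.C.subtype) = 8064 := by
    rw [← card_st3]
    exact (Nat.card_congr (Subgroup.equivMapOfInjective _ _ H89Three.C.subtype_injective).toEquiv).symm
  rw [h2, h3] at h1
  have h4 := card_hat (e := e) (Y := Y) (fun x hx => L_le M hx.1)
  have h5 : IsPGroup 2 ↥(Y ⊓ QG Q) :=
    IsPGroup.of_injective (M.pre.isP) (Subgroup.inclusion inf_le_right) (Subgroup.inclusion_injective _)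
  obtain ⟨j, hj⟩ := IsPGroup.iff_card.1 h5
  rw [hj] at h4
  have h6 : 27 ∣ Nat.card X * 2 ^ j := by rw [h4]; exact Dvd.dvd.mul_left h27 _
  have h7 : Nat.Coprime 27 (2 ^ j) := Nat.Coprime.pow_right j (by norm_num)
  have h8 := (h7.dvd_of_dvd_mul_right h6).trans h1
  norm_num at h8

/-- the hypothesis in terms of the order of the centralizer -/
theorem Mon.yes_central {s : G} (hs : Cl ψ s (ef none)) {b : G} {Y : Subgroup G} (hbY : b ∈ Y)
    (hY : Y ≤ Subgroup.centralizer ({z, s} : Set G))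
    (hc : ∃ P : Sylow 3 ↥(Subgroup.centralizer ({z, s} : Set G)), Y.subgroupOf (Subgroup.centralizer ({z, s} : Set G)) ≤
      (Subgroup.center ↥(P : Subgroup ↥(Subgroup.centralizer ({z, s} : Set G)))).map
        (P : Subgroup ↥(Subgroup.centralizer ({z, s} : Set G))).subtype) :
    27 ∣ Nat.card ↥(Subgroup.centralizer ({z, s} : Set G) ⊓ Subgroup.centralizer ({b} : Set G)) := by
  haveI : Fact (Nat.Prime 3) := ⟨by norm_num⟩
  set L := Subgroup.centralizer ({z, s} : Set G) with hL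
  obtain ⟨P, hP⟩ := hc
  obtain ⟨c, hc, hcb⟩ := hP (show (⟨b, hY hbY⟩ : L) ∈ Y.subgroupOf L from hbY)
  have hle : (P : Subgroup L).map L.subtype ≤ L ⊓ Subgroup.centralizer ({b} : Set G) := by
    rintro _ ⟨x, hx, rfl⟩
    refine ⟨x.2, Subgroup.mem_centralizer_singleton_iff.2 ?_⟩
    have h1 : (⟨x, hx⟩ : ↥(P : Subgroup L)) * c = c * ⟨x, hx⟩ := Subgroup.mem_center_iff.1 hc ⟨x, hx⟩
    have h2 : (x : G) * ((c : L) : G) = ((c : L) : G) * x := congrArg (fun t : ↥(P : Subgroup L) => ((t : L) : G)) h1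
    have h3 : ((c : L) : G) = b := congrArg Subtype.val hcb
    rw [h3] at h2
    exact h2
  have h1 := Subgroup.card_dvd_of_le hle
  have h2 : Nat.card ((P : Subgroup L).map L.subtype) = Nat.card P :=
    (Nat.card_congr (Subgroup.equivMapOfInjective _ L.subtype L.subtype_injective).toEquiv).symm
  have h3 : Nat.card P = 27 := by
    rw [P.card_eq_multiplicity, M.fac_L hs (norm_ef M) (by norm_num) (by norm_num), fac_N3 M]
    norm_num
  rw [h2, h3] at h1
  exact h1

/-- the Frattini property for elements of type 3A -/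
theorem Mon.frP3a {s : G} (hs : Cl ψ s (ef none)) {b : G} (hbL : b ∈ Subgroup.centralizer ({z, s} : Set G))
    (hb : orderOf b = 3) (hr : Rl e b a3)
    (hK : 27 ∣ Nat.card ↥(Subgroup.centralizer ({z, s} : Set G) ⊓ Subgroup.centralizer ({b} : Set G))) : FrP z s b := by
  haveI : Fact (Nat.Prime 3) := ⟨by norm_num⟩
  intro n hn
  set L := Subgroup.centralizer ({z, s} : Set G) with hL
  set b' := n * b * n⁻¹ with hb'
  have hb'L : b' ∈ L := hn b hbL
  have hb3 : b ^ 3 = 1 := by rw [← hb]; exact pow_orderOf_eq_one b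
  have hb'3 : b' ^ 3 = 1 := by rw [hb', _root_.conj_pow, hb3]; group
  have hmapL : L.map (MulAut.conj n).toMonoidHom = L := by
    apply Subgroup.eq_of_le_of_card_ge
    · rintro _ ⟨x, hx, rfl⟩
      exact hn x hx
    · exact (Nat.card_congr (Subgroup.equivMapOfInjective _ _ (MulAut.conj n).injective).toEquiv).le
  have hcardD : Nat.card ↥(L ⊓ Subgroup.centralizer ({b'} : Set G)) = Nat.card ↥(L ⊓ Subgroup.centralizer ({b} : Set G)) := by
    have h1 : (L ⊓ Subgroup.centralizer ({b} : Set G)).map (MulAut.conj n).toMonoidHom = L ⊓ Subgroup.centralizer ({b'} : Set G) := by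
      ext y
      constructor
      · rintro ⟨x, ⟨hx1, hx2⟩, rfl⟩
        refine ⟨hn x hx1, Subgroup.mem_centralizer_singleton_iff.2 ?_⟩
        replace hx2 := Subgroup.mem_centralizer_singleton_iff.1 hx2
        show n * x * n⁻¹ * (n * b * n⁻¹) = n * b * n⁻¹ * (n * x * n⁻¹)
        calc n * x * n⁻¹ * (n * b * n⁻¹) = n * (x * b) * n⁻¹ := by group
          _ = n * b * n⁻¹ * (n * x * n⁻¹) := by rw [hx2]; group
      · rintro ⟨hy1, hy2⟩
        rw [SetLike.mem_coe, ← hmapL] at hy1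
        obtain ⟨x, hx, rfl⟩ := hy1
        refine ⟨x, ⟨hx, Subgroup.mem_centralizer_singleton_iff.2 ?_⟩, rfl⟩
        have h2 : n * x * n⁻¹ * (n * b * n⁻¹) = n * b * n⁻¹ * (n * x * n⁻¹) := Subgroup.mem_centralizer_singleton_iff.1 hy2
        have h3 : n * (x * b) * n⁻¹ = n * (b * x) * n⁻¹ := by
          calc n * (x * b) * n⁻¹ = n * x * n⁻¹ * (n * b * n⁻¹) := by group
            _ = n * b * n⁻¹ * (n * x * n⁻¹) := h2
            _ = n * (b * x) * n⁻¹ := by group
        exact mul_left_cancel (mul_right_cancel h3)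
    rw [← h1]
    exact (Nat.card_congr (Subgroup.equivMapOfInjective _ _ (MulAut.conj n).injective).toEquiv).symm
  obtain ⟨g, hg, hg3⟩ := M.exists_odd_lift (L_le M hb'L) (p := 3) (by decide) hb'3
  have hgN := M.mem_N_of hs (mem_L.1 hb'L).2 hg
  have hob' : orderOf b' = 3 := by
    rw [← hb, hb']
    exact orderOf_injective (MulAut.conj n).toMonoidHom (MulAut.conj n).injective b
  have hb'1 : b' ≠ 1 := by
    intro e1; rw [e1, orderOf_one] at hob'; exact absurd hob' (by norm_num)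
  have hg1 : g ≠ 1 := by
    rintro rfl
    exact hb'1 (M.odd_QG (Rl.one_iff.1 hg) (p := 3) (k := 1) (by norm_num) (by norm_num) (by rw [pow_one]; exact hb'3))
  by_cases hfp : ∃ p, (H89Mono.permPart ⟨g, hgN⟩).1 p = p
  · obtain ⟨m, hm, k, hk⟩ := conj3A hgN hg3 hg1 hfp
    obtain ⟨l, hl, hlm⟩ := M.exists_L hs hm
    set c := l * b' ^ k * l⁻¹ with hc
    have hcr : Rl e c a3 := by rw [← hk]; exact (hlm.mul (Rl.zpow hg k)).mul hlm.inv
    have hcL : c ∈ L := mul_mem (mul_mem hl (zpow_mem hb'L k)) (inv_mem hl)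
    have hc3 : c ^ 3 = 1 := by
      rw [hc, _root_.conj_pow, ← zpow_natCast, ← zpow_mul, mul_comm k, zpow_mul, zpow_natCast, hb'3, one_zpow]; group
    have hc1 : c ≠ 1 := by
      intro e1
      rw [e1] at hcr
      rcases (Rl.one (e := e)).eq hcr with h1 | h1
      · exact a3_ne h1
      · have h2 : a3 ^ 3 = negOne := by
          rw [h1, mul_one, pow_succ, pow_two, negOne_sq, one_mul]
        rw [a3_pow] at h2
        exact H89Act.negOne_ne_one h2.symm
    have hoc : orderOf c = 3 := orderOf_eq_prime hc3 hc1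
    obtain ⟨l2, hl2, h2⟩ := M.sylow_Lf (L := L) (L_le M) (p := 3) (by decide) orderOf_a3 hbL hr hb hcL hoc
      (Subgroup.mem_zpowers _) hcr
    refine ⟨l2 * l, mul_mem hl2.1 hl, ?_⟩
    have hbk : ∃ j : ℤ, (b' ^ k) ^ j = b' := by
      have h1 : Nat.card (Subgroup.zpowers (b' ^ k)) ∣ 3 := by
        rw [← hob', ← Nat.card_zpowers]
        exact Subgroup.card_dvd_of_le (Subgroup.zpowers_le.2 ⟨k, rfl⟩)
      rcases (Nat.dvd_prime Nat.prime_three).1 h1 with h3 | h3
      · exfalso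
        have h4 : b' ^ k = 1 := Subgroup.zpowers_eq_bot.1 (Subgroup.eq_bot_of_card_eq _ h3)
        apply hc1
        rw [hc, h4]; group
      · have h4 : Subgroup.zpowers (b' ^ k) = Subgroup.zpowers b' := by
          apply Subgroup.eq_of_le_of_card_ge (Subgroup.zpowers_le.2 (zpow_mem (Subgroup.mem_zpowers b') k))
          rw [h3, Nat.card_zpowers, hob']
        have h5 : b' ∈ Subgroup.zpowers (b' ^ k) := by rw [h4]; exact Subgroup.mem_zpowers b'
        exact h5
    obtain ⟨j, hj⟩ := hbk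
    have h3 := h2 (c ^ j) ⟨j, rfl⟩
    have h4 : l2 * c ^ j * l2⁻¹ = l2 * l * n * b * (l2 * l * n)⁻¹ := by
      have h5 : c ^ j = l * b' * l⁻¹ := by rw [hc, conj_zpow, hj]
      rw [h5, hb']; group
    rw [← h4]; exact h3
  · exfalso
    push Not at hfp
    apply M.not27 hs hb'L hg hgN hg3 hg1 hfp
    rw [hcardD]; exact hK

theorem Mon.fischer
    (hnwc : ∃ g : G, (∃ hq : g * z * g⁻¹ ∈ Subgroup.centralizer ({z} : Set G),
      (⟨g * z * g⁻¹, hq⟩ : Subgroup.centralizer ({z} : Set G)) ∈ Q) ∧ g * z * g⁻¹ ≠ z)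
    {s : G} {v : leechLattice} (hs : Cl ψ s v) (hv : sqNorm (v : GolayPt → ℤ) = 64) {Y : Subgroup G}
    (hY : Y ≤ Subgroup.centralizer ({z, s} : Set G)) (hY3 : Nat.card Y = 3)
    (hc : ∃ P : Sylow 3 ↥(Subgroup.centralizer ({z, s} : Set G)), Y.subgroupOf (Subgroup.centralizer ({z, s} : Set G)) ≤
      (Subgroup.center ↥(P : Subgroup ↥(Subgroup.centralizer ({z, s} : Set G)))).map
        (P : Subgroup ↥(Subgroup.centralizer ({z, s} : Set G))).subtype)
    [hn : (Y.subgroupOf (Subgroup.centralizer (Y : Set G))).Normal] :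
    Cfsg.IsOfLargeFischerType (↥(Subgroup.centralizer (Y : Set G)) ⧸ Y.subgroupOf (Subgroup.centralizer (Y : Set G))) := by
  haveI : Fact (Nat.Prime 3) := ⟨by norm_num⟩
  obtain ⟨g0, hg0⟩ := M.exists_std hv
  have M1 := M.twist' g0
  have hs1 := hs.twist g0
  rw [hg0] at hs1
  haveI hcyc : IsCyclic Y := isCyclic_of_prime_card hY3
  obtain ⟨⟨b, hbY⟩, hgen⟩ := hcyc.exists_generator
  have hYz : Y = Subgroup.zpowers b := by
    apply le_antisymm
    · intro x hx
      obtain ⟨k, hk⟩ := hgen ⟨x, hx⟩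
      exact ⟨k, congrArg Subtype.val hk⟩
    · exact Subgroup.zpowers_le.2 hbY
  have hob : orderOf b = 3 := by rw [← Nat.card_zpowers, ← hYz, hY3]
  have hb3 : b ^ 3 = 1 := by rw [← hob]; exact pow_orderOf_eq_one b
  have hb1 : b ≠ 1 := by
    intro e1; rw [e1, orderOf_one] at hob; exact absurd hob (by norm_num)
  have hbL := hY hbY
  have hK := M1.yes_central hs1 hbY hY hc
  obtain ⟨e', ψ', b', M', hs', hb', hr'⟩ := M1.std_pos (s := s) hs1 (b := b) (L_le M hbL) (mem_L.1 hbL).2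
    (p := 3) (by decide) hob orderOf_a3 (by
      intro g hg hgr hgp
      have hg1 : g ≠ 1 := by
        rintro rfl
        exact hb1 (M.odd_QG (Rl.one_iff.1 hgr) (p := 3) (k := 1) (by norm_num) (by norm_num) (by rw [pow_one]; exact hb3))
      apply conj3A hg hgp hg1
      by_contra hfp
      push Not at hfp
      exact M1.not27 hs1 hbL hgr hg hgp hg1 hfp hK)
  have hYb' : Y = Subgroup.zpowers b' := by rw [hYz, hb']
  have hc3 : Nat.card (Subgroup.zpowers b') = 3 := by rw [← hYb', hY3]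
  have hob' : orderOf b' = 3 := by rw [← Nat.card_zpowers, hc3]
  have hb'3 : b' ^ 3 = 1 := by rw [← hob']; exact pow_orderOf_eq_one b'
  have hb'Y : b' ∈ Y := by rw [hYb']; exact Subgroup.mem_zpowers b'
  have hb'L : b' ∈ Subgroup.centralizer ({z, s} : Set G) := hY hb'Y
  have hK' := M'.yes_central hs' hb'Y hY hc
  clear hb'Y
  subst hYb'
  have hzB : z ∈ Subgroup.centralizer (Subgroup.zpowers b' : Set G) := z_mem hr'
  have hsB : s ∈ Subgroup.centralizer (Subgroup.zpowers b' : Set G) := by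
    rw [M'.comm_iff_fix hr' (p := 3) (by decide) hb'3 hs']
    exact q2_eq_iff.1 (H89Q2.mem_N_iff_p1.1 a3_mem_N)
  have hR : (RB Q hzB).Normal := M'.RB_normal hzB (odd_card (p := 3) (by decide) hb'3)
  obtain ⟨e2, -⟩ := M'.exists_equivB hr' (p := 3) (by decide) hb'3 a3_pow hzB (QuotientGroup.mk' H89Fi.Z6)
    (QuotientGroup.mk'_surjective _) (fun g => H89Fi.mk_eq_one)
  obtain ⟨N1, M2, i1, i2, c1, c2, c3, c4, c5⟩ := H89Fi.chain_of e2 H89Fi.NK H89Fi.MK H89Fi.NK_le H89Fi.NK_card H89Fi.MK_index H89Fi.quot_KK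
  refine ⟨zB hzB, RB Q hzB, hR, ?_, N1, M2, i1, i2, c1, c2, c3, ⟨H89FiO.K9, inferInstance, inferInstance, H89FiO.fcard_K9, c4⟩, c5⟩
  obtain ⟨h1, h2⟩ := M'.ne_of_short hs' (ne_zero_of_norm (norm_ef M) (by norm_num)) (le_of_eq (norm_ef M))
  obtain ⟨h3, -⟩ := (M'.type_four hnwc hs'.mem).2 ⟨_, norm_ef M, hs'⟩
  obtain ⟨g, hg⟩ := _root_.isConj_iff.1 h3
  obtain ⟨x, hx, hxz⟩ := exists_move_of (M'.pair hs'.mem h2 hg) (M'.frP3a hs' hb'L hob' hr' hK')
  exact M'.settingB hr' (p := 3) (by decide) hb'3 a3_pow hzB H89Fi.hna_a H89Fi.faith_a (QuotientGroup.mk' H89Fi.Z6)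
    (QuotientGroup.mk'_surjective _) (fun g => H89Fi.mk_eq_one) H89Fi.hKK H89Fi.card_FixS_a3
    ⟨x, hx, by rw [hxz]; exact hs'.mem, by rw [hxz]; exact h2⟩

end

end Cfsg.Agent.Lib.H89Mon1
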