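import Cfsg.Agent.Lib.H89Five0
import Cfsg.Agent.Lib.GolayElts2

/-!
# The centralizer in `Co0` of the coordinate permutation of order 5: order and transitivity (helper89)
-/

set_option autoImplicit false
set_option linter.all false

namespace Cfsg.Agent.Lib.H89Five

open Cfsg Cfsg.Agent.Lib.Golay Cfsg.Agent.Lib.LeechMin Cfsg.Agent.Lib.H89LeechMat Cfsg.Agent.Lib.H89Mon1
  Cfsg.Agent.Lib.LeechQuot Cfsg.Agent.Lib.LeechOrder Cfsg.Agent.Lib.H89Mono Cfsg.Agent.Lib.H89FixRank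
  Cfsg.Agent.Lib.H89FixTab Cfsg.Agent.Lib.LeechFrame Cfsg.Agent.Lib.H89Q2 Cfsg.Agent.Lib.H89Stab
  Cfsg.Agent.Lib.H89CN Cfsg.Agent.Lib.H89Act
open scoped Pointwise

/-- the element of order 5 -/
noncomputable def b5 : Co0 := pC c5 inM_c5

theorem pw5_spec {i : ℕ} (hi : i < 5) : toPerm (pw5.getD i 0) = toPerm c5 ^ i := by
  induction i with
  | zero => rw [pw5_0, toPerm_cId, pow_zero]
  | succ i ih =>
    have h1 := Nat.eq_of_beq_eq_true (allLt_iff.mp pw5_ok i (by omega))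
    rw [h1, toPerm_mulC (valid_of_inM inM_c5) (allLt_iff.mp pw5_valid i (by omega)), ih (by omega), pow_succ']

theorem c5_pow : toPerm c5 ^ 5 = 1 := by
  rw [pow_succ', ← pw5_spec (i := 4) (by norm_num), ← toPerm_mulC (valid_of_inM inM_c5)
    (allLt_iff.mp pw5_valid 4 (by norm_num)), pw5_4, toPerm_cId]

theorem c5_pt {i j : ℕ} (hi : i < 24) (h : img c5 i = j) : toPerm c5 (pt i) = pt j := by
  rw [toPerm_pt (valid_of_inM inM_c5) hi, h]

theorem c5_ne : toPerm c5 ≠ 1 := by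
  intro h
  have h1 := c5_pt (i := 23) (j := 0) (by norm_num) (by decide +kernel)
  rw [h] at h1
  exact pt_ne (i := 23) (j := 0) (by norm_num) (by norm_num) (by norm_num) h1

theorem b5_pow : b5 ^ 5 = 1 := by
  unfold b5 pC
  rw [← map_pow]
  have : (⟨toPerm c5, toPerm_mem_M24 inM_c5⟩ : M24) ^ 5 = 1 := Subtype.ext c5_pow
  rw [this, map_one]

theorem b5_ne : b5 ≠ 1 := by
  intro h
  unfold b5 pC at h
  have h1 := permHom_injective (h.trans (map_one permHom).symm)
  exact c5_ne (congrArg Subtype.val h1)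

theorem orderOf_b5 : orderOf b5 = 5 := by
  haveI : Fact (Nat.Prime 5) := ⟨by norm_num⟩
  exact orderOf_eq_prime b5_pow b5_ne

theorem b5_mem_N : b5 ∈ N := permHom_mem _

/-! ### the centralizer in `M24` -/

/-- the centraliser -/
def C5 : Subgroup (Equiv.Perm GolayPt) := M24 ⊓ Subgroup.centralizer {toPerm c5}

theorem mem_C5 {g : Equiv.Perm GolayPt} : g ∈ C5 ↔ g ∈ M24 ∧ g * toPerm c5 = toPerm c5 * g := by
  unfold C5
  rw [Subgroup.mem_inf, Subgroup.mem_centralizer_singleton_iff]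

theorem fix5_ok : allLt 24 (fun i => cond (Nat.beq (img c5 i) i) (cond (Nat.beq i 4) true (Nat.testBit 8536111 i)) true) = true := by
  decide +kernel

theorem C5_stab {g : Equiv.Perm GolayPt} (hg : g ∈ C5) (h0 : g (pt 23) = pt 23) :
    g = 1 ∨ g = toPerm cZ ∨ g = toPerm cZ' := by
  obtain ⟨hg, hc⟩ := mem_C5.mp hg
  have step : ∀ {i j : ℕ}, i < 24 → img c5 i = j → g (pt i) = pt i → g (pt j) = pt j := by
    intro i j hi h h1
    have h2 := DFunLike.congr_fun hc (pt i)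
    rw [Equiv.Perm.mul_apply, Equiv.Perm.mul_apply, h1, c5_pt hi h] at h2
    exact h2
  have g0 := step (by norm_num) (show img c5 23 = 0 by decide +kernel) h0
  have g1 := step (by norm_num) (show img c5 0 = 1 by decide +kernel) g0
  have g2 := step (by norm_num) (show img c5 1 = 2 by decide +kernel) g1
  have g3 := step (by norm_num) (show img c5 2 = 3 by decide +kernel) g2
  -- the fixed point outside the octad
  have h4 : toPerm c5 (g (pt 4)) = g (pt 4) := by
    have h2 := DFunLike.congr_fun hc (pt 4)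
    rw [Equiv.Perm.mul_apply, Equiv.Perm.mul_apply, c5_pt (by norm_num) (show img c5 4 = 4 by decide +kernel)] at h2
    exact h2.symm
  have ho : g • mset 8536111 = mset 8536111 := by
    apply eq_oct0
    · exact (smul_mem_octads hg).mpr oct0_mem
    · intro i
      have : fI i.castSucc = g (fI i.castSucc) := by fin_cases i; exacts [h0.symm, g0.symm, g1.symm, g2.symm, g3.symm]
      rw [this]
      exact Finset.smul_mem_smul_finset (fI_oct0 _)
  have g4 : g (pt 4) = pt 4 := by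
    have h5 := allLt_iff.mp fix5_ok (ix (g (pt 4))) (ix_lt _)
    have h6 : Nat.beq (img c5 (ix (g (pt 4)))) (ix (g (pt 4))) = true := by
      rw [← ix_toPerm (valid_of_inM inM_c5), h4]
      exact Nat.beq_refl _
    rw [h6, cond_true] at h5
    cases h7 : Nat.beq (ix (g (pt 4))) 4 with
    | true => rw [← pt_ix (g (pt 4)), Nat.eq_of_beq_eq_true h7]
    | false =>
      exfalso
      rw [h7, cond_false] at h5
      have h8 : g (pt 4) ∈ mset 8536111 := by rw [mem_mset]; exact h5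
      rw [← ho] at h8
      have h9 : pt 4 ∈ mset 8536111 := (Finset.smul_mem_smul_finset_iff g).1 h8
      rw [mem_mset, ix_pt (by norm_num)] at h9
      exact absurd h9 (by decide)
  exact fixII hg (fun i => by fin_cases i; exacts [h0, g0, g1, g2, g3, g4])

theorem cZ_comm : mulC cZ c5 = mulC c5 cZ := by decide +kernel
theorem cZ'_comm : mulC cZ' c5 = mulC c5 cZ' := by decide +kernel
theorem comm_codes5 {a b : ℕ} (ha : inM a = true) (hb : inM b = true) (h : mulC a b = mulC b a) :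
    toPerm a * toPerm b = toPerm b * toPerm a := by
  rw [← toPerm_mulC (valid_of_inM ha) (valid_of_inM hb), h, toPerm_mulC (valid_of_inM hb) (valid_of_inM ha)]

theorem cZ_mem5 : toPerm cZ ∈ C5 := mem_C5.mpr ⟨toPerm_mem_M24 inM_cZ, comm_codes5 inM_cZ inM_c5 cZ_comm⟩
theorem cZ'_mem5 : toPerm cZ' ∈ C5 := mem_C5.mpr ⟨toPerm_mem_M24 inM_cZ', comm_codes5 inM_cZ' inM_c5 cZ'_comm⟩

theorem c5_fix : (cntLt 24 fun i => Nat.beq (img c5 i) i) = 4 := by decide +kernel

theorem card_C5 : Nat.card C5 = 60 := by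
  have h := card_eq_mul_inf_stabilizer C5 (pt 23) {p | toPerm c5 p ≠ p}
    (fun g hg => by
      obtain ⟨-, hc⟩ := mem_C5.mp hg
      show toPerm c5 (g (pt 23)) ≠ g (pt 23)
      have h2 := DFunLike.congr_fun hc (pt 23)
      rw [Equiv.Perm.mul_apply, Equiv.Perm.mul_apply] at h2
      rw [← h2, c5_pt (by norm_num) (show img c5 23 = 0 by decide +kernel)]
      intro e
      exact pt_ne (i := 0) (j := 23) (by norm_num) (by norm_num) (by norm_num) (g.injective e))
    (fun x hx => by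
      have hx' : toPerm c5 x ≠ x := hx
      have h1 := allLt_iff.mp l5_tr (ix x) (ix_lt x)
      cases h2 : Nat.beq (img c5 (ix x)) (ix x) with
      | true =>
        exfalso
        apply hx'
        rw [toPerm_apply (valid_of_inM inM_c5), Nat.eq_of_beq_eq_true h2, pt_ix]
      | false =>
        rw [h2, cond_false] at h1
        obtain ⟨c, hc, h3⟩ := List.any_eq_true.mp h1
        obtain ⟨h4, h5⟩ := cond_false_eq.mp (List.all_eq_true.mp l5_ok c hc)
        refine ⟨toPerm c, mem_C5.mpr ⟨toPerm_mem_M24 h4, comm_codes5 h4 inM_c5 (Nat.eq_of_beq_eq_true h5)⟩, ?_⟩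
        show toPerm c (pt 23) = x
        rw [toPerm_pt (valid_of_inM h4) (by norm_num), Nat.eq_of_beq_eq_true h3, pt_ix])
  have h1 : ({p | toPerm c5 p ≠ p} : Set GolayPt).ncard = 20 := by
    have e : ({p | toPerm c5 p ≠ p} : Set GolayPt) = ((Finset.univ.filter fun p => toPerm c5 p = p)ᶜ : Finset GolayPt) := by
      ext p; simp
    rw [e, Set.ncard_coe_finset, Finset.card_compl, card_fix_code (valid_of_inM inM_c5), c5_fix]
    rfl
  have h23 : toPerm cZ (pt 23) = pt 23 := by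
    rw [toPerm_pt (valid_of_inM inM_cZ) (by norm_num), show img cZ 23 = 23 by decide +kernel]
  have h23' : toPerm cZ' (pt 23) = pt 23 := by
    rw [toPerm_pt (valid_of_inM inM_cZ') (by norm_num), show img cZ' 23 = 23 by decide +kernel]
  have h2 : Nat.card ↥(C5 ⊓ MulAction.stabilizer (Equiv.Perm GolayPt) (pt 23)) = 3 := by
    have e : (C5 ⊓ MulAction.stabilizer (Equiv.Perm GolayPt) (pt 23)) = Subgroup.zpowers (toPerm cZ) := by
      apply le_antisymm
      · rintro g ⟨h3, h4⟩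
        rcases C5_stab h3 h4 with rfl | rfl | rfl
        · exact Subgroup.one_mem _
        · exact Subgroup.mem_zpowers _
        · rw [← cZ_mul]; exact Subgroup.mul_mem _ (Subgroup.mem_zpowers _) (Subgroup.mem_zpowers _)
      · rw [Subgroup.zpowers_le]
        exact ⟨cZ_mem5, h23⟩
    rw [e, Nat.card_zpowers, orderOf_cZ]
  rw [h, h1, h2]

/-! ### transitivity -/

/-- the centralizer -/
abbrev C : Subgroup Co0 := Subgroup.centralizer ({b5} : Set Co0)

theorem mem_C {g : Co0} : g ∈ C ↔ g * b5 = b5 * g := Subgroup.mem_centralizer_singleton_iff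

theorem fac5 : (Nat.card N).factorization 5 = 1 := by
  rw [card_N]
  have h1 : (4096 * 244823040 : ℕ) = 5 * 200559034368 := by norm_num
  rw [h1, Nat.factorization_mul (by norm_num) (by norm_num), Finsupp.add_apply, Nat.Prime.factorization_self (by norm_num),
    Nat.factorization_eq_zero_of_not_dvd (by norm_num)]

/-- the element of order 4 acting on `b5` -/
noncomputable def n4 : Co0 := pC c5n inM_c5n

theorem n4_mem : n4 ∈ N := permHom_mem _

theorem n4_conj : n4 * b5 * n4⁻¹ = b5 ^ 2 := by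
  unfold n4 b5 pC
  rw [← map_inv, ← map_mul, ← map_mul, ← map_pow]
  congr 1
  apply Subtype.ext
  show toPerm c5n * toPerm c5 * (toPerm c5n)⁻¹ = toPerm c5 ^ 2
  rw [mul_inv_eq_iff_eq_mul, ← toPerm_mulC (valid_of_inM inM_c5n) (valid_of_inM inM_c5), c5_n,
    toPerm_mulC (valid_mulC (valid_of_inM inM_c5) (valid_of_inM inM_c5)) (valid_of_inM inM_c5n),
    toPerm_mulC (valid_of_inM inM_c5) (valid_of_inM inM_c5), sq]

theorem n4_pow (i : ℕ) (k : ℤ) : n4 ^ i * b5 ^ k * (n4 ^ i)⁻¹ = b5 ^ (k * 2 ^ i) := by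
  induction i with
  | zero => simp
  | succ i ih =>
    have h1 : n4 ^ (i + 1) * b5 ^ k * (n4 ^ (i + 1))⁻¹ = n4 * (n4 ^ i * b5 ^ k * (n4 ^ i)⁻¹) * n4⁻¹ := by
      rw [pow_succ']; group
    rw [h1, ih, ← conj_zpow, n4_conj, ← zpow_natCast, ← zpow_mul]
    congr 1
    push_cast
    ring

theorem zpow_mod (k : ℤ) : b5 ^ k = b5 ^ (k % 5) := by
  conv_lhs => rw [← Int.emod_add_mul_ediv k 5, zpow_add, zpow_mul]
  rw [show (b5 ^ (5 : ℤ)) = 1 from by exact_mod_cast b5_pow, one_zpow, mul_one]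

theorem T4_orbit {x : Q2} (hx : x ∈ T4 b5) : x ∈ MulAction.orbit C p1 := by
  haveI : Fact (Nat.Prime 5) := ⟨by norm_num⟩
  obtain ⟨h, k, h1, h2⟩ := exists_conj b5_mem_N orderOf_b5 fac5 hx
  have h3 : h⁻¹ * b5 * h = b5 ^ k := by
    conv_lhs => rw [← h1]
    group
  have key : ∀ i : ℕ, (h⁻¹ * n4 ^ i) * b5 * (h⁻¹ * n4 ^ i)⁻¹ = b5 ^ (k * 2 ^ i) := by
    intro i
    have e1 : (h⁻¹ * n4 ^ i) * b5 * (h⁻¹ * n4 ^ i)⁻¹ = h⁻¹ * (n4 ^ i * b5 ^ (1 : ℤ) * (n4 ^ i)⁻¹) * (h⁻¹)⁻¹ := by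
      rw [zpow_one]; group
    rw [e1, n4_pow, ← conj_zpow, inv_inv, h3, ← zpow_mul, one_mul]
  have hp : ∀ i : ℕ, (h⁻¹ * n4 ^ i) • p1 = x := by
    intro i
    rw [mul_smul, mem_N_iff_p1.1 (N.pow_mem n4_mem i), ← h2, inv_smul_smul]
  have hplus : ∀ i : ℕ, b5 ^ (k * 2 ^ i) = b5 → x ∈ MulAction.orbit C p1 := by
    intro i hi
    refine ⟨⟨h⁻¹ * n4 ^ i, mem_C.2 ?_⟩, hp i⟩
    rw [← mul_inv_eq_iff_eq_mul, key, hi]
  have hk : k % 5 ≠ 0 := by
    intro h0
    have h4 := zpow_mod k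
    rw [h0, zpow_zero] at h4
    rw [h4] at h1
    apply b5_ne
    rw [← h1]; group
  have hlt : k % 5 < 5 := Int.emod_lt_of_pos _ (by norm_num)
  have hge : 0 ≤ k % 5 := Int.emod_nonneg _ (by norm_num)
  have hcase : k % 5 = 1 ∨ k % 5 = 2 ∨ k % 5 = 3 ∨ k % 5 = 4 := by omega
  rcases hcase with h5 | h5 | h5 | h5
  · apply hplus 0; rw [zpow_mod, show k * 2 ^ 0 % 5 = 1 by omega, zpow_one]
  · apply hplus 3; rw [zpow_mod, show k * 2 ^ 3 % 5 = 1 by omega, zpow_one]
  · apply hplus 1; rw [zpow_mod, show k * 2 ^ 1 % 5 = 1 by omega, zpow_one]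
  · apply hplus 2; rw [zpow_mod, show k * 2 ^ 2 % 5 = 1 by omega, zpow_one]

theorem p1_mem : p1 ∈ T4 b5 := by
  refine ⟨?_, ef none, ?_, rfl⟩
  · show q2 (ef none) ∈ FixS b5
    rw [mem_FixS (p := 5) (by decide) b5_pow]
    have := mem_N_iff_p1.1 b5_mem_N
    exact q2_eq_iff.1 this
  · show sqNorm (ef none : GolayPt → ℤ) = 64
    rw [coe_ef, sqNorm_single]; norm_num

theorem orbit_sub {x : Q2} (hx : x ∈ T4 b5) : MulAction.orbit C x ⊆ T4 b5 := by
  rintro _ ⟨g, rfl⟩
  exact smul_mem_T4 (mem_C.1 g.2) hx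

theorem orbit_eq : MulAction.orbit C p1 = T4 b5 :=
  Set.Subset.antisymm (orbit_sub p1_mem) fun _ hx => T4_orbit hx

/-! ### order -/

/-- fixed code words -/
theorem exists_F16 {c : Finset GolayPt} (hc : c ∈ Sup) (h : toPerm c5 • c = c) : ∃ m ∈ F16, c = mset m := by
  obtain ⟨n, hn, rfl⟩ := mem_supports_iff.1 hc
  rw [toPerm_smul_mset (valid_of_inM inM_c5)] at h
  have h3 := mset_injOn (imgM_lt (valid_of_inM inM_c5) _) (enc_lt _) h
  have h1 := allLt_iff.mp F16_ok n hn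
  rw [h3, Nat.beq_refl, cond_true] at h1
  obtain ⟨m, hm, h4⟩ := List.any_eq_true.mp h1
  exact ⟨m, hm, by rw [Nat.eq_of_beq_eq_true h4]⟩

/-- monomial elements commuting with `b5` -/
theorem mono_form {g : Co0} (hg : g ∈ N) (hc : g * b5 = b5 * g) : ∃ σ ∈ C5, ∃ m ∈ F16,
    ∀ v : leechLattice, ((g • v : leechLattice) : GolayPt → ℤ) = signedPerm σ (mset m) v := by
  obtain ⟨σ, hσ, c, hcS, h⟩ := hg
  obtain ⟨h1, h2⟩ := perm_comm (toPerm_mem_M24 inM_c5) h (toPerm_mem_M24 inM_c5) hc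
  obtain ⟨m, hm, rfl⟩ := exists_F16 hcS h2.symm
  exact ⟨σ, mem_C5.2 ⟨hσ, h1⟩, m, hm, h⟩

theorem card_stab_le : Nat.card (MulAction.stabilizer C p1) ≤ 60 * 16 := by
  have h1 : ∀ g : MulAction.stabilizer C p1, ∃ x : C5 × Fin F16.length, ∀ v : leechLattice,
      ((((g : C) : Co0) • v : leechLattice) : GolayPt → ℤ) = signedPerm (x.1 : Equiv.Perm GolayPt) (mset (F16.get x.2)) v := by
    intro g
    obtain ⟨σ, hσ, m, hm, h⟩ := mono_form (mem_N_iff_p1.2 g.2) (mem_C.1 g.1.2)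
    obtain ⟨i, hi⟩ := List.mem_iff_get.1 hm
    exact ⟨(⟨σ, hσ⟩, i), by rw [hi]; exact h⟩
  choose f hf using h1
  have h2 : Function.Injective f := by
    intro g h e
    apply Subtype.ext
    apply Subtype.ext
    apply ext_smul
    intro v
    apply Subtype.ext
    rw [hf g, hf h, e]
  haveI : Finite C5 := Nat.finite_of_card_ne_zero (by rw [card_C5]; norm_num)
  have h3 := Nat.card_le_card_of_injective f h2
  rwa [Nat.card_prod, card_C5, Nat.card_fin] at h3

theorem ncard_T4_5 : (T4 b5).ncard = 75 := by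
  have h : (cntLt (2 ^ 8) fun a => decide (idot (s5.getD a 0) (s5.getD a 0) = 64)) = 75 := by decide +kernel
  rw [← h]
  exact ncard_T4 inM_c5 orb5_ok tab5_ok

theorem card_C_le : Nat.card C ≤ 72000 := by
  have h1 : Nat.card C = Nat.card (MulAction.stabilizer C p1) * (MulAction.orbit C p1).ncard := card_eq inM_c5
  rw [orbit_eq, ncard_T4_5] at h1
  have h2 := card_stab_le
  omega

theorem card_FixS5 : Nat.card (FixS b5) = 2 ^ (2 * 4) := card_FixS_pC inM_c5 orb5_ok

end Cfsg.Agent.Lib.H89Five
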