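import Cfsg.Agent.Lib.H89Five1

/-!
# The centralizer in `Co0` of the coordinate permutation of order 5: the action on ten lines (helper89)
-/

set_option autoImplicit false
set_option linter.all false

namespace Cfsg.Agent.Lib.H89Five

open Cfsg Cfsg.Agent.Lib.Golay Cfsg.Agent.Lib.LeechMin Cfsg.Agent.Lib.H89LeechMat Cfsg.Agent.Lib.H89Mon1
  Cfsg.Agent.Lib.LeechQuot Cfsg.Agent.Lib.LeechOrder Cfsg.Agent.Lib.H89Mono Cfsg.Agent.Lib.H89FixRank
  Cfsg.Agent.Lib.H89FixTab Cfsg.Agent.Lib.LeechFrame Cfsg.Agent.Lib.H89Q2 Cfsg.Agent.Lib.H89Stab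
  Cfsg.Agent.Lib.H89CN Cfsg.Agent.Lib.H89Act
open scoped Pointwise

/-- the lines -/
def ell (k : ℕ) : Set Q2 := Bk u5 8 (el5.getD k 0)

def IsLine (L : Set Q2) : Prop := L ⊆ T4 b5 ∧ (∀ x ∈ L, ∀ y ∈ L, x = y ∨ x + y ∈ T4 b5) ∧ L.ncard = 15

theorem mem_T4_XX {a : ℕ} (ha : a < 256) : XX u5 8 a ∈ T4 b5 ↔ Nat.testBit tm5 a = true := by
  have h1 : XX u5 8 a ∈ T4 b5 ↔ idot (s5.getD a 0) (s5.getD a 0) = 64 := mem_T4_iff inM_c5 tab5_ok ha
  rw [h1]
  have h2 := allLt_iff.mp t4_ok a ha
  cases h3 : Nat.testBit tm5 a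
  · rw [h3] at h2
    have h4 : cond (decide (idot (s5.getD a 0) (s5.getD a 0) = 64)) false true = true := h2
    cases h5 : decide (idot (s5.getD a 0) (s5.getD a 0) = 64)
    · have := of_decide_eq_false h5
      exact ⟨fun h => absurd h this, fun h => absurd h (by decide)⟩
    · rw [h5] at h4; exact absurd h4 (by decide)
  · rw [h3] at h2
    have h4 : decide (idot (s5.getD a 0) (s5.getD a 0) = 64) = true := h2
    exact ⟨fun _ => rfl, fun _ => of_decide_eq_true h4⟩

theorem exists_XX {x : Q2} (hx : x ∈ T4 b5) : ∃ a < 256, Nat.testBit tm5 a = true ∧ x = XX u5 8 a := by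
  obtain ⟨a, ha, rfl⟩ := exists_cmb inM_c5 orb5_ok tab5_ok hx.1
  exact ⟨a, ha, (mem_T4_XX ha).1 hx, rfl⟩

theorem ncard_ell {k : ℕ} (hk : k < 10) : (ell k).ncard = 15 := by
  have h1 := allLt_iff.mp line_ok k hk
  have h2 := (cond_false_eq.mp h1).1
  unfold ell
  rw [ncard_Bk tab5_ok]
  exact Nat.eq_of_beq_eq_true h2

theorem line_spec {k a : ℕ} (hk : k < 10) (ha : a < 256) (h : Nat.testBit (el5.getD k 0) a = true) :
    Nat.testBit tm5 a = true ∧ ∀ b < 256, Nat.testBit (el5.getD k 0) b = true → a = b ∨ Nat.testBit tm5 (a ^^^ b) = true := by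
  have h1 := allLt_iff.mp (cond_false_eq.mp (allLt_iff.mp line_ok k hk)).2 a ha
  rw [h, cond_true] at h1
  obtain ⟨h2, h3⟩ := cond_false_eq.mp h1
  refine ⟨h2, fun b hb hb' => ?_⟩
  have h4 := allLt_iff.mp h3 b hb
  rw [hb', cond_true] at h4
  cases h5 : Nat.beq a b
  · rw [h5, cond_false] at h4; exact Or.inr h4
  · exact Or.inl (Nat.eq_of_beq_eq_true h5)

theorem ell_isLine {k : ℕ} (hk : k < 10) : IsLine (ell k) := by
  refine ⟨?_, ?_, ncard_ell hk⟩
  · rintro _ ⟨a, ha, h, rfl⟩
    exact (mem_T4_XX ha).2 (line_spec hk ha h).1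
  · rintro _ ⟨a, ha, h, rfl⟩ _ ⟨b, hb, h', rfl⟩
    rcases (line_spec hk ha h).2 b hb h' with h1 | h1
    · exact Or.inl (by rw [h1])
    · right
      rw [← XX_xor]
      exact (mem_T4_XX (Nat.xor_lt_two_pow (n := 8) ha hb)).2 h1

theorem testBit_shl {c i : ℕ} : (Nat.shiftLeft 1 c).testBit i = true ↔ i = c := by
  rw [testBit_one_shiftLeft]
  exact ⟨fun h => h.symm, fun h => h.symm⟩

theorem adjM_spec {a c : ℕ} (ha : a < 256) (hc : c < 256) (h : Nat.testBit tm5 c = true) (h' : c = a ∨ Nat.testBit tm5 (c ^^^ a) = true) :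
    Nat.testBit (adjM a) c = true := by
  unfold adjM
  rw [testBit_orLt]
  refine ⟨c, hc, ?_⟩
  rw [h, cond_true]
  cases h1 : Nat.beq c a
  · rw [cond_false]
    rcases h' with h2 | h2
    · rw [h2, Nat.beq_refl] at h1; exact absurd h1 (by decide)
    · have h3 : Nat.testBit tm5 (Nat.xor c a) = true := h2
      rw [h3, cond_true]
      exact testBit_shl.2 rfl
  · rw [cond_true]
    exact testBit_shl.2 rfl

theorem isLine_iff {L : Set Q2} (hL : IsLine L) : ∃ k < 10, L = ell k := by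
  haveI : Finite Q2 := finite_Q2
  obtain ⟨h1, h2, h3⟩ := hL
  have hne : L.Nonempty := by
    rw [Set.nonempty_iff_ne_empty]
    rintro rfl
    rw [Set.ncard_empty] at h3; exact absurd h3 (by norm_num)
  obtain ⟨x, hx⟩ := hne
  obtain ⟨a, ha, hat, rfl⟩ := exists_XX (h1 hx)
  have hcell := allLt_iff.mp cell_ok a ha
  rw [hat, cond_true] at hcell
  have hc3 : (Bk u5 8 (cellM a)).ncard = 3 := by
    rw [ncard_Bk tab5_ok]
    exact Nat.eq_of_beq_eq_true (cond_false_eq.mp hcell).1
  have hex : ∃ y ∈ L, y ∉ Bk u5 8 (cellM a) := by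
    by_contra hno
    push Not at hno
    have h4 := Set.ncard_le_ncard (show L ⊆ Bk u5 8 (cellM a) from hno) (Set.toFinite _)
    rw [h3, hc3] at h4
    omega
  obtain ⟨y, hy, hyc⟩ := hex
  obtain ⟨b, hb, hbt, rfl⟩ := exists_XX (h1 hy)
  rw [mem_Bk tab5_ok hb] at hyc
  have hyc' : Nat.testBit (cellM a) b = false := by simpa using hyc
  have hab : Nat.testBit tm5 (Nat.xor a b) = true := by
    rcases h2 _ hx _ hy with h4 | h4
    · exfalso
      have h5 := XX_inj tab5_ok ha hb h4
      rw [← h5, (cond_false_eq.mp hcell).2] at hyc'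
      exact absurd hyc' (by decide)
    · rw [← XX_xor, mem_T4_XX (Nat.xor_lt_two_pow (n := 8) ha hb)] at h4
      exact h4
  have h4 := allLt_iff.mp adj_ok a ha
  rw [hat, cond_true] at h4
  have h5 := allLt_iff.mp h4 b hb
  rw [hbt, cond_true, hab, cond_true, hyc', cond_false] at h5
  have h6 : ∃ k < 10, Nat.beq (Nat.land (adjM a) (adjM b)) (el5.getD k 0) = true := by
    by_contra hno
    push Not at hno
    have h7 : (allLt 10 fun k => cond (Nat.beq (Nat.land (adjM a) (adjM b)) (el5.getD k 0)) false true) = true := by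
      rw [allLt_iff]
      intro k hk
      have := Bool.eq_false_iff.2 (hno k hk)
      rw [this]; rfl
    rw [h7] at h5
    exact absurd h5 (by decide)
  obtain ⟨k, hk, h7⟩ := h6
  refine ⟨k, hk, ?_⟩
  refine Set.eq_of_subset_of_ncard_le ?_ (by rw [h3, ncard_ell hk]) (Set.toFinite _)
  intro z hz
  obtain ⟨c, hc, hct, rfl⟩ := exists_XX (h1 hz)
  refine ⟨c, hc, ?_, rfl⟩
  rw [← Nat.eq_of_beq_eq_true h7]
  have hadj : ∀ {d : ℕ}, d < 256 → XX u5 8 d ∈ L → Nat.testBit (adjM d) c = true := by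
    intro d hd hdL
    apply adjM_spec hd hc hct
    rcases h2 _ hz _ hdL with h8 | h8
    · exact Or.inl (XX_inj tab5_ok hc hd h8)
    · rw [← XX_xor, mem_T4_XX (Nat.xor_lt_two_pow (n := 8) hc hd)] at h8
      exact Or.inr h8
  show (adjM a &&& adjM b).testBit c = true
  rw [Nat.testBit_and, hadj ha hx, hadj hb hy]
  rfl

theorem smul_isLine {g : Co0} (hg : g * b5 = b5 * g) {L : Set Q2} (hL : IsLine L) : IsLine (g • L) := by
  obtain ⟨h1, h2, h3⟩ := hL
  refine ⟨?_, ?_, ?_⟩
  · rintro _ ⟨x, hx, rfl⟩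
    exact smul_mem_T4 hg (h1 hx)
  · rintro _ ⟨x, hx, rfl⟩ _ ⟨y, hy, rfl⟩
    rcases h2 x hx y hy with h | h
    · exact Or.inl (by simp only [h])
    · right
      show g • x + g • y ∈ T4 b5
      rw [← smul_add2]
      exact smul_mem_T4 hg h
  · rw [← h3]
    exact Set.ncard_image_of_injective _ (MulAction.injective g)

/-! ### distinct lines -/

theorem dist_ok : allLt 10 (fun k => allLt 10 fun l => cond (Nat.beq k l) true
    (cond (allLt 256 fun a => cond (Nat.testBit (el5.getD k 0) a) (Nat.testBit (el5.getD l 0) a) true) false true)) = true := by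
  decide +kernel

theorem ell_inj {k l : ℕ} (hk : k < 10) (hl : l < 10) (h : ell k = ell l) : k = l := by
  by_contra hne
  have h1 := allLt_iff.mp (allLt_iff.mp dist_ok k hk) l hl
  have h2 : Nat.beq k l = false := by
    rw [Bool.eq_false_iff]; intro h'; exact hne (Nat.eq_of_beq_eq_true h')
  rw [h2, cond_false] at h1
  have h3 : (allLt 256 fun a => cond (Nat.testBit (el5.getD k 0) a) (Nat.testBit (el5.getD l 0) a) true) = true := by
    rw [allLt_iff]
    intro a ha
    cases h4 : Nat.testBit (el5.getD k 0) a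
    · rfl
    · rw [cond_true]
      have h5 : XX u5 8 a ∈ ell k := (mem_Bk tab5_ok ha).2 h4
      rw [h] at h5
      exact (mem_Bk tab5_ok ha).1 h5
  rw [h3] at h1
  exact absurd h1 (by decide)

/-- side table: the lines `0..4` are pairwise disjoint, so are `5..9`, and the others meet -/
theorem side_ok : allLt 10 (fun k => allLt 10 fun l => cond (Nat.beq k l) true
    (cond (Nat.beq (Nat.div k 5) (Nat.div l 5)) (Nat.beq (Nat.land (el5.getD k 0) (el5.getD l 0)) 0)
      (cond (allLt 256 fun a => cond (Nat.testBit (el5.getD k 0) a) (cond (Nat.testBit (el5.getD l 0) a) false true) true) false true))) = true := by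
  decide +kernel

theorem side_iff {k l : ℕ} (hk : k < 10) (hl : l < 10) : k / 5 = l / 5 ↔ (ell k = ell l ∨ Disjoint (ell k) (ell l)) := by
  by_cases hkl : k = l
  · rw [hkl]; simp
  have h1 := allLt_iff.mp (allLt_iff.mp side_ok k hk) l hl
  have h2 : Nat.beq k l = false := by
    rw [Bool.eq_false_iff]; intro h'; exact hkl (Nat.eq_of_beq_eq_true h')
  rw [h2, cond_false] at h1
  have h0 : ell k ≠ ell l := fun h => hkl (ell_inj hk hl h)
  cases h3 : Nat.beq (Nat.div k 5) (Nat.div l 5)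
  · rw [h3, cond_false] at h1
    constructor
    · intro h
      have : Nat.beq (Nat.div k 5) (Nat.div l 5) = true := by rw [Nat.beq_eq]; exact h
      rw [h3] at this; exact absurd this (by decide)
    · rintro (h | h)
      · exact absurd h h0
      · exfalso
        have h4 : (allLt 256 fun a => cond (Nat.testBit (el5.getD k 0) a) (cond (Nat.testBit (el5.getD l 0) a) false true) true) = true := by
          rw [allLt_iff]
          intro a ha
          cases h5 : Nat.testBit (el5.getD k 0) a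
          · rfl
          · rw [cond_true]
            cases h6 : Nat.testBit (el5.getD l 0) a
            · rfl
            · exfalso
              exact Set.disjoint_left.1 h ((mem_Bk tab5_ok ha).2 h5 : XX u5 8 a ∈ ell k) ((mem_Bk tab5_ok ha).2 h6)
        rw [h4] at h1
        exact absurd h1 (by decide)
  · rw [h3, cond_true] at h1
    have h4 : k / 5 = l / 5 := Nat.eq_of_beq_eq_true h3
    refine ⟨fun _ => Or.inr ?_, fun _ => h4⟩
    rw [Set.disjoint_left]
    rintro _ ⟨a, ha, h5, rfl⟩ h6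
    have h7 := (mem_Bk tab5_ok ha).1 h6
    have h8 : (el5.getD k 0 &&& el5.getD l 0).testBit a = true := by
      rw [Nat.testBit_and, h5, h7]; rfl
    have h9 : el5.getD k 0 &&& el5.getD l 0 = 0 := Nat.eq_of_beq_eq_true h1
    rw [h9] at h8
    simp at h8

/-! ### the action -/

/-- the set of lines -/
abbrev Om : Type := {L : Set Q2 // IsLine L}

instance actOm : MulAction C Om where
  smul g L := ⟨(g : Co0) • L.1, smul_isLine (mem_C.1 g.2) L.2⟩
  one_smul L := Subtype.ext (one_smul Co0 L.1)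
  mul_smul g h L := Subtype.ext (mul_smul (g : Co0) (h : Co0) L.1)

theorem coe_smul_Om (g : C) (L : Om) : ((g • L : Om) : Set Q2) = (g : Co0) • L.1 := rfl

/-- numbering -/
def idx : Fin 5 ⊕ Fin 5 → ℕ := Sum.elim (fun i => i) (fun j => 5 + j)

theorem idx_lt (s : Fin 5 ⊕ Fin 5) : idx s < 10 := by
  rcases s with i | j
  · show (i : ℕ) < 10; omega
  · show 5 + (j : ℕ) < 10; omega

theorem idx_inj : Function.Injective idx := by
  rintro (i | i) (j | j) h
  · have : (i : ℕ) = j := h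
    rw [Fin.ext this]
  · have : (i : ℕ) = 5 + j := h
    omega
  · have : 5 + (i : ℕ) = j := h
    omega
  · have : 5 + (i : ℕ) = 5 + j := h
    rw [Fin.ext (by omega : (i : ℕ) = j)]

noncomputable def eOm : Fin 5 ⊕ Fin 5 ≃ Om :=
  Equiv.ofBijective (fun s => (⟨ell (idx s), ell_isLine (idx_lt s)⟩ : Om)) (by
    constructor
    · intro s t h
      exact idx_inj (ell_inj (idx_lt s) (idx_lt t) (congrArg Subtype.val h))
    · rintro ⟨L, hL⟩
      obtain ⟨k, hk, rfl⟩ := isLine_iff hL
      by_cases h : k < 5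
      · exact ⟨Sum.inl ⟨k, h⟩, rfl⟩
      · refine ⟨Sum.inr ⟨k - 5, by omega⟩, ?_⟩
        apply Subtype.ext
        show ell (5 + (k - 5)) = ell k
        rw [show 5 + (k - 5) = k by omega])

theorem coe_eOm (s : Fin 5 ⊕ Fin 5) : ((eOm s : Om) : Set Q2) = ell (idx s) := rfl

/-- the homomorphism -/
noncomputable def Ph0 : C →* Equiv.Perm (Fin 5 ⊕ Fin 5) :=
  (Equiv.permCongrHom eOm.symm).toMonoidHom.comp (MulAction.toPermHom C Om)

theorem Ph0_spec (g : C) (s : Fin 5 ⊕ Fin 5) : (g : Co0) • ell (idx s) = ell (idx (Ph0 g s)) := by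
  have h1 : eOm (Ph0 g s) = g • eOm s := by
    show eOm (eOm.symm ((MulAction.toPerm g) (eOm s))) = _
    rw [Equiv.apply_symm_apply]; rfl
  have h2 := congrArg (fun L : Om => (L : Set Q2)) h1
  exact h2.symm

theorem Ph0_eq {g : C} {s t : Fin 5 ⊕ Fin 5} (h : (g : Co0) • ell (idx s) = ell (idx t)) : Ph0 g s = t :=
  idx_inj (ell_inj (idx_lt _) (idx_lt _) ((Ph0_spec g s).symm.trans h))

theorem Ph0_side (g : C) (s t : Fin 5 ⊕ Fin 5) : idx (Ph0 g s) / 5 = idx (Ph0 g t) / 5 ↔ idx s / 5 = idx t / 5 := by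
  rw [side_iff (idx_lt _) (idx_lt _), side_iff (idx_lt _) (idx_lt _), ← Ph0_spec, ← Ph0_spec]
  constructor
  · rintro (h | h)
    · exact Or.inl (smul_left_cancel _ h)
    · right
      exact (Set.disjoint_smul_set (a := (g : Co0))).1 h
  · rintro (h | h)
    · exact Or.inl (by rw [h])
    · exact Or.inr ((Set.disjoint_smul_set (a := (g : Co0))).2 h)

end Cfsg.Agent.Lib.H89Five
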