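import Mathlib
import Cfsg.Prelude.Def_MonsterType

/-!
# The wreath product of the alternating group of degree 5 by a group of order 2 (helper89)
-/

set_option autoImplicit false
set_option linter.all false

namespace Cfsg.Agent.Lib.H89Wreath

open Cfsg Equiv Equiv.Perm

/-- the swap -/
abbrev cc : Perm (Fin 5 ⊕ Fin 5) := Equiv.sumComm (Fin 5) (Fin 5)

abbrev sc (σ τ : Perm (Fin 5)) : Perm (Fin 5 ⊕ Fin 5) := Equiv.Perm.sumCongr σ τ

theorem sc_mul (σ τ σ' τ' : Perm (Fin 5)) : sc σ τ * sc σ' τ' = sc (σ * σ') (τ * τ') :=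
  Equiv.Perm.sumCongr_mul σ τ σ' τ'

theorem sc_inv (σ τ : Perm (Fin 5)) : (sc σ τ)⁻¹ = sc σ⁻¹ τ⁻¹ := Equiv.Perm.sumCongr_inv σ τ

theorem sc_one : sc 1 1 = 1 := Equiv.Perm.sumCongr_one

theorem cc_sc (σ τ : Perm (Fin 5)) : cc * sc σ τ = sc τ σ * cc := by
  apply Equiv.ext
  rintro (i | i) <;> rfl

theorem cc_sq : cc * cc = 1 := by
  apply Equiv.ext
  rintro (i | i) <;> rfl

theorem cc_inv : cc⁻¹ = cc := by
  rw [inv_eq_iff_mul_eq_one]; exact cc_sq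

theorem sc_inj {σ τ σ' τ' : Perm (Fin 5)} (h : sc σ τ = sc σ' τ') : σ = σ' ∧ τ = τ' := by
  have := Equiv.Perm.sumCongrHom_injective (a₁ := (σ, τ)) (a₂ := (σ', τ')) h
  exact Prod.mk.inj this

theorem sc_ne_cc {σ τ σ' τ' : Perm (Fin 5)} (h : sc σ τ = cc * sc σ' τ') : False := by
  have := DFunLike.congr_fun h (Sum.inl 0)
  have h2 : (Sum.inl (σ 0) : Fin 5 ⊕ Fin 5) = Sum.inr (σ' 0) := this
  exact absurd h2 (by simp)

abbrev W : Subgroup (Perm (Fin 5 ⊕ Fin 5)) := alternatingFiveWreathTwo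

theorem sc_mem {σ τ : Perm (Fin 5)} (hσ : σ ∈ alternatingGroup (Fin 5)) (hτ : τ ∈ alternatingGroup (Fin 5)) : sc σ τ ∈ W :=
  Subgroup.subset_closure (Or.inl ⟨⟨σ, hσ⟩, ⟨τ, hτ⟩, rfl⟩)

theorem cc_mem : cc ∈ W := Subgroup.subset_closure (Or.inr rfl)

theorem mem_W {π : Perm (Fin 5 ⊕ Fin 5)} : π ∈ W ↔ ∃ σ ∈ alternatingGroup (Fin 5), ∃ τ ∈ alternatingGroup (Fin 5),
    π = sc σ τ ∨ π = cc * sc σ τ := by
  constructor
  · intro h
    refine Subgroup.closure_induction (p := fun π _ => ∃ σ ∈ alternatingGroup (Fin 5), ∃ τ ∈ alternatingGroup (Fin 5),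
      π = sc σ τ ∨ π = cc * sc σ τ) ?_ ?_ ?_ ?_ h
    · rintro x (⟨σ, τ, rfl⟩ | rfl)
      · exact ⟨σ, σ.2, τ, τ.2, Or.inl rfl⟩
      · exact ⟨1, Subgroup.one_mem _, 1, Subgroup.one_mem _, Or.inr (by rw [sc_one, mul_one])⟩
    · exact ⟨1, Subgroup.one_mem _, 1, Subgroup.one_mem _, Or.inl sc_one.symm⟩
    · rintro x y - - ⟨σ, hσ, τ, hτ, h | h⟩ ⟨σ', hσ', τ', hτ', h' | h'⟩
      · exact ⟨σ * σ', mul_mem hσ hσ', τ * τ', mul_mem hτ hτ', Or.inl (by rw [h, h', sc_mul])⟩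
      · refine ⟨τ * σ', mul_mem hτ hσ', σ * τ', mul_mem hσ hτ', Or.inr ?_⟩
        rw [h, h', ← mul_assoc, ← cc_sc, mul_assoc, sc_mul]
      · exact ⟨σ * σ', mul_mem hσ hσ', τ * τ', mul_mem hτ hτ', Or.inr (by rw [h, h', mul_assoc, sc_mul])⟩
      · refine ⟨τ * σ', mul_mem hτ hσ', σ * τ', mul_mem hσ hτ', Or.inl ?_⟩
        rw [h, h', cc_sc, mul_assoc, ← mul_assoc cc cc, cc_sq, one_mul, sc_mul]
    · rintro x - ⟨σ, hσ, τ, hτ, h | h⟩
      · exact ⟨σ⁻¹, inv_mem hσ, τ⁻¹, inv_mem hτ, Or.inl (by rw [h, sc_inv])⟩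
      · refine ⟨τ⁻¹, inv_mem hτ, σ⁻¹, inv_mem hσ, Or.inr ?_⟩
        rw [h, mul_inv_rev, sc_inv, cc_inv, cc_sc]
  · rintro ⟨σ, hσ, τ, hτ, h | h⟩
    · rw [h]; exact sc_mem hσ hτ
    · rw [h]; exact mul_mem cc_mem (sc_mem hσ hτ)

theorem card_A5 : Nat.card (alternatingGroup (Fin 5)) = 60 := by
  have h := two_mul_nat_card_alternatingGroup (α := Fin 5)
  rw [Nat.card_eq_fintype_card (α := Perm (Fin 5)), Fintype.card_perm, Fintype.card_fin] at h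
  have : Nat.factorial 5 = 120 := by decide
  omega

theorem card_W_ge : 7200 ≤ Nat.card W := by
  let f : Bool × alternatingGroup (Fin 5) × alternatingGroup (Fin 5) → W := fun x =>
    ⟨(if x.1 then cc else 1) * sc x.2.1 x.2.2, by
      refine mul_mem ?_ (sc_mem x.2.1.2 x.2.2.2)
      split_ifs
      · exact cc_mem
      · exact one_mem _⟩
  have hf : Function.Injective f := by
    rintro ⟨b, σ, τ⟩ ⟨b', σ', τ'⟩ h
    have h1 : (if b then cc else 1) * sc (σ : Perm (Fin 5)) τ = (if b' then cc else 1) * sc (σ' : Perm (Fin 5)) τ' :=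
      congrArg Subtype.val h
    have key : ∀ {σ τ σ' τ' : alternatingGroup (Fin 5)}, sc (σ : Perm (Fin 5)) τ = sc (σ' : Perm (Fin 5)) τ' → σ = σ' ∧ τ = τ' := by
      intro σ τ σ' τ' h
      obtain ⟨h2, h3⟩ := sc_inj h
      exact ⟨Subtype.ext h2, Subtype.ext h3⟩
    cases b <;> cases b'
    · have h2 : sc (σ : Perm (Fin 5)) τ = sc (σ' : Perm (Fin 5)) τ' := by simpa using h1
      obtain ⟨rfl, rfl⟩ := key h2; rfl
    · have h2 : sc (σ : Perm (Fin 5)) τ = cc * sc (σ' : Perm (Fin 5)) τ' := by simpa using h1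
      exact (sc_ne_cc h2).elim
    · have h2 : cc * sc (σ : Perm (Fin 5)) τ = sc (σ' : Perm (Fin 5)) τ' := by simpa using h1
      exact (sc_ne_cc h2.symm).elim
    · have h2 : sc (σ : Perm (Fin 5)) τ = sc (σ' : Perm (Fin 5)) τ' := by
        have : cc * sc (σ : Perm (Fin 5)) τ = cc * sc (σ' : Perm (Fin 5)) τ' := h1
        exact mul_left_cancel this
      obtain ⟨rfl, rfl⟩ := key h2; rfl
  have h := Nat.card_le_card_of_injective f hf
  rw [Nat.card_prod, Nat.card_prod, card_A5] at h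
  have h2 : Nat.card Bool = 2 := by rw [Nat.card_eq_fintype_card]; rfl
  rw [h2] at h
  omega

instance simpleA5 : IsSimpleGroup (alternatingGroup (Fin 5)) := alternatingGroup.isSimpleGroup (by simp)

/-- a normal 2-subgroup of `A5` is trivial -/
theorem A5_two {K : Subgroup (alternatingGroup (Fin 5))} (hK : K.Normal) (h2 : IsPGroup 2 K) : K = ⊥ := by
  rcases hK.eq_bot_or_eq_top with h | h
  · exact h
  · exfalso
    rw [h] at h2
    obtain ⟨n, hn⟩ := IsPGroup.iff_card.1 h2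
    rw [Subgroup.card_top, card_A5] at hn
    have h3 : (3 : ℕ) ∣ 2 ^ n := ⟨20, by rw [← hn]⟩
    have h4 := (Nat.Prime.dvd_of_dvd_pow (by norm_num) h3 : 3 ∣ 2)
    norm_num at h4

theorem A5_center {σ : Perm (Fin 5)} (hσ : σ ∈ alternatingGroup (Fin 5))
    (h : ∀ ρ ∈ alternatingGroup (Fin 5), ρ * σ = σ * ρ) : σ = 1 := by
  have h1 : (⟨σ, hσ⟩ : alternatingGroup (Fin 5)) ∈ Subgroup.center (alternatingGroup (Fin 5)) := by
    rw [Subgroup.mem_center_iff]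
    rintro ⟨ρ, hρ⟩
    exact Subtype.ext (h ρ hρ)
  rw [alternatingGroup.center_eq_bot (by simp)] at h1
  exact congrArg Subtype.val (Subgroup.mem_bot.1 h1)

/-- the first factor -/
def iA : alternatingGroup (Fin 5) →* W where
  toFun σ := ⟨sc σ 1, sc_mem σ.2 (one_mem _)⟩
  map_one' := Subtype.ext sc_one
  map_mul' σ τ := Subtype.ext (by
    show sc (σ * τ : Perm (Fin 5)) 1 = sc σ 1 * sc τ 1
    rw [sc_mul, mul_one])

theorem iA_inj : Function.Injective iA := by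
  intro σ τ h
  exact Subtype.ext (sc_inj (congrArg Subtype.val h)).1

/-- the wreath product has no non-trivial normal 2-subgroup -/
theorem no_two (S : Subgroup W) (hS : S.Normal) (h2 : IsPGroup 2 S) : S = ⊥ := by
  -- elements of the first factor
  have mk : ∀ {π : Perm (Fin 5 ⊕ Fin 5)} (hπ : π ∈ W) {x : Perm (Fin 5 ⊕ Fin 5)} (hx : x ∈ W),
      (⟨x, hx⟩ : W) ∈ S → (⟨π * x * π⁻¹, mul_mem (mul_mem hπ hx) (inv_mem hπ)⟩ : W) ∈ S := by
    intro π hπ x hx h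
    exact hS.conj_mem _ h ⟨π, hπ⟩
  have first : ∀ σ : Perm (Fin 5), ∀ hσ : σ ∈ alternatingGroup (Fin 5),
      (⟨sc σ 1, sc_mem hσ (one_mem _)⟩ : W) ∈ S → σ = 1 := by
    have hb := A5_two (K := S.comap iA) inferInstance (h2.comap_of_injective iA iA_inj)
    intro σ hσ h
    have h5 : (⟨σ, hσ⟩ : alternatingGroup (Fin 5)) ∈ S.comap iA := h
    rw [hb] at h5
    exact congrArg Subtype.val (Subgroup.mem_bot.1 h5)
  have cm : ∀ {x : Perm (Fin 5 ⊕ Fin 5)} (hx : x ∈ W) (hxS : (⟨x, hx⟩ : W) ∈ S) {π : Perm (Fin 5 ⊕ Fin 5)} (hπ : π ∈ W),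
      (⟨π * x * π⁻¹ * x⁻¹, mul_mem (mul_mem (mul_mem hπ hx) (inv_mem hπ)) (inv_mem hx)⟩ : W) ∈ S := by
    intro x hx hxS π hπ
    exact mul_mem (mk hπ hx hxS) (inv_mem hxS)
  have pair1 : ∀ σ τ : Perm (Fin 5), ∀ hσ : σ ∈ alternatingGroup (Fin 5), ∀ hτ : τ ∈ alternatingGroup (Fin 5),
      (⟨sc σ τ, sc_mem hσ hτ⟩ : W) ∈ S → σ = 1 := by
    intro σ τ hσ hτ h
    apply A5_center hσ
    intro ρ hρ
    have h3 := cm _ h (sc_mem hρ (one_mem _))
    have h4 : (ρ * σ * ρ⁻¹ * σ⁻¹) = 1 := by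
      refine first _ (mul_mem (mul_mem (mul_mem hρ hσ) (inv_mem hρ)) (inv_mem hσ)) ?_
      convert h3 using 2
      rw [sc_inv, sc_inv, sc_mul, sc_mul, sc_mul]
      simp
    rw [mul_inv_eq_one, mul_inv_eq_iff_eq_mul] at h4
    exact h4
  have pair2 : ∀ σ τ : Perm (Fin 5), ∀ hσ : σ ∈ alternatingGroup (Fin 5), ∀ hτ : τ ∈ alternatingGroup (Fin 5),
      (⟨sc σ τ, sc_mem hσ hτ⟩ : W) ∈ S → τ = 1 := by
    intro σ τ hσ hτ h
    have h3 := mk cc_mem _ h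
    refine pair1 τ σ hτ hσ ?_
    convert h3 using 2
    rw [cc_sc, mul_assoc, mul_inv_cancel, mul_one]
  rw [eq_bot_iff]
  rintro ⟨s, hs⟩ hsS
  rw [Subgroup.mem_bot]
  apply Subtype.ext
  obtain ⟨σ, hσ, τ, hτ, h | h⟩ := mem_W.1 hs
  · subst h
    have h1 := pair1 σ τ hσ hτ hsS
    have h2 := pair2 σ τ hσ hτ hsS
    show sc σ τ = 1
    rw [h1, h2, sc_one]
  · exfalso
    subst h
    -- commutator with an element of the first factor
    have h3 : ∀ ρ : Perm (Fin 5), ρ ∈ alternatingGroup (Fin 5) → ρ = 1 := by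
      intro ρ hρ
      have h4 := cm _ hsS (sc_mem hρ (one_mem _))
      have h5 : sc ρ 1 * (cc * sc σ τ) * (sc ρ 1)⁻¹ * (cc * sc σ τ)⁻¹ = sc ρ (τ * 1 * 1⁻¹ * τ⁻¹ * (σ * ρ⁻¹ * σ⁻¹)) := by
        have e1 : sc ρ 1 * (cc * sc σ τ) = cc * sc (1 * σ) (ρ * τ) := by
          rw [← mul_assoc, ← cc_sc, mul_assoc, sc_mul]
        rw [e1, mul_inv_rev, sc_inv, sc_inv, mul_assoc, mul_assoc, ← mul_assoc (sc ρ⁻¹ 1⁻¹), sc_mul, ← mul_assoc (sc _ _) (sc _ _), sc_mul,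
          cc_inv, ← mul_assoc, cc_sc, mul_assoc, cc_sq, mul_one]
        congr 1
        · simp
        · simp [mul_assoc]
      have hmem : τ * 1 * 1⁻¹ * τ⁻¹ * (σ * ρ⁻¹ * σ⁻¹) ∈ alternatingGroup (Fin 5) :=
        mul_mem (mul_mem (mul_mem (mul_mem hτ (one_mem _)) (inv_mem (one_mem _))) (inv_mem hτ))
          (mul_mem (mul_mem hσ (inv_mem hρ)) (inv_mem hσ))
      have h6 : (⟨sc ρ (τ * 1 * 1⁻¹ * τ⁻¹ * (σ * ρ⁻¹ * σ⁻¹)), sc_mem hρ hmem⟩ : W) ∈ S := by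
        convert h4 using 2
        exact h5.symm
      exact pair1 _ _ hρ hmem h6
    have h7 : Nat.card (alternatingGroup (Fin 5)) = 1 := by
      rw [Nat.card_eq_one_iff_unique]
      exact ⟨⟨fun a b => Subtype.ext ((h3 a a.2).trans (h3 b b.2).symm)⟩, ⟨1⟩⟩
    rw [card_A5] at h7
    norm_num at h7

end Cfsg.Agent.Lib.H89Wreath
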