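import Cfsg.Agent.Lib.H89Five2
import Cfsg.Agent.Lib.H89Wreath

/-!
# The centralizer in `Co0` of the coordinate permutation of order 5: `2 × 5 × (A5 ≀ 2)` (helper89)
-/

set_option autoImplicit false
set_option linter.all false

namespace Cfsg.Agent.Lib.H89Five

open Cfsg Cfsg.Agent.Lib.Golay Cfsg.Agent.Lib.LeechMin Cfsg.Agent.Lib.H89LeechMat Cfsg.Agent.Lib.H89Mon1
  Cfsg.Agent.Lib.LeechQuot Cfsg.Agent.Lib.LeechOrder Cfsg.Agent.Lib.H89Mono Cfsg.Agent.Lib.H89FixRank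
  Cfsg.Agent.Lib.H89FixTab Cfsg.Agent.Lib.LeechFrame Cfsg.Agent.Lib.H89Q2 Cfsg.Agent.Lib.H89Stab
  Cfsg.Agent.Lib.H89CN Cfsg.Agent.Lib.H89Act Cfsg.Agent.Lib.H89Wreath
open Equiv Equiv.Perm
open scoped Pointwise

/-! ### explicit elements -/

def As : List ℕ := [1, 64, 71, 241, 105, 226, 2, 128]
def Ad : List ℕ := [1, 12, 10, 2, 16, 32, 176, 192]
def Ax : List ℕ := [1, 2, 4, 8, 26, 36, 70, 137]

theorem el_s : elOK c5 cId 252432 8 u5 w5 As = true := by decide +kernel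
theorem el_d : elOK c5 cZ 0 8 u5 w5 Ad = true := by decide +kernel
theorem el_x : elOK c5 t5 916384 8 u5 w5 Ax = true := by decide +kernel

/-- action on the lines -/
def lmOK (A pi : List ℕ) : Bool := allLt 10 fun k => blkOK 8 A (el5.getD k 0) (el5.getD (pi.getD k 0) 0)

def pis : List ℕ := [5, 6, 7, 8, 9, 0, 1, 2, 3, 4]
def pid : List ℕ := [0, 1, 3, 4, 2, 5, 9, 7, 6, 8]
def pix : List ℕ := [0, 3, 4, 1, 2, 5, 6, 7, 8, 9]

theorem lm_s : lmOK As pis = true := by decide +kernel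
theorem lm_d : lmOK Ad pid = true := by decide +kernel
theorem lm_x : lmOK Ax pix = true := by decide +kernel

theorem exists_line_el {s m : ℕ} {A pi : List ℕ} (h : elOK c5 s m 8 u5 w5 A = true) (h' : lmOK A pi = true)
    {π : Perm (Fin 5 ⊕ Fin 5)} (hπ : ∀ t, pi.getD (idx t) 0 = idx (π t)) :
    ∃ g : C, (g : Co0) ∈ N ∧ Ph0 g = π := by
  obtain ⟨g, hg, hN, hA, hlt⟩ := exists_el inM_c5 orb5_ok tab5_ok dual5_ok h
  refine ⟨⟨g, mem_C.2 hg⟩, hN, ?_⟩
  apply Equiv.ext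
  intro t
  apply Ph0_eq
  show g • Bk u5 8 (el5.getD (idx t) 0) = Bk u5 8 (el5.getD (idx (π t)) 0)
  have h1 := allLt_iff.mp h' (idx t) (idx_lt t)
  rw [hπ] at h1
  refine smul_Bk tab5_ok h1 hlt ?_ hA
  have e1 := Nat.eq_of_beq_eq_true (cond_false_eq.mp (allLt_iff.mp line_ok (idx t) (idx_lt t))).1
  have e2 := Nat.eq_of_beq_eq_true (cond_false_eq.mp (allLt_iff.mp line_ok (idx (π t)) (idx_lt _))).1
  show cntLt 256 _ = cntLt 256 _
  rw [e1, e2]

def sd : Perm (Fin 5) := swap 2 4 * swap 2 3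
def td : Perm (Fin 5) := swap 1 3 * swap 1 4
def sx : Perm (Fin 5) := swap 1 3 * swap 2 4

theorem pis_spec : ∀ t, pis.getD (idx t) 0 = idx (cc t) := by decide
theorem pid_spec : ∀ t, pid.getD (idx t) 0 = idx (sc sd td t) := by decide
theorem pix_spec : ∀ t, pix.getD (idx t) 0 = idx (sc sx 1 t) := by decide

theorem exists_s : ∃ g : C, (g : Co0) ∈ N ∧ Ph0 g = cc := exists_line_el el_s lm_s pis_spec
theorem exists_d : ∃ g : C, (g : Co0) ∈ N ∧ Ph0 g = sc sd td := exists_line_el el_d lm_d pid_spec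
theorem exists_x : ∃ g : C, (g : Co0) ∈ N ∧ Ph0 g = sc sx 1 := exists_line_el el_x lm_x pix_spec

/-! ### side preserving elements -/

theorem idx_inl (i : Fin 5) : idx (Sum.inl i) / 5 = 0 := by
  show (i : ℕ) / 5 = 0; omega

theorem idx_inr (i : Fin 5) : idx (Sum.inr i) / 5 = 1 := by
  show (5 + (i : ℕ)) / 5 = 1; omega

theorem sc_of {g : C} {i : Fin 5} (h : Ph0 g (Sum.inl 0) = Sum.inl i) : ∃ σ τ, Ph0 g = sc σ τ := by
  have h1 : Set.MapsTo (Ph0 g) (Set.range Sum.inl) (Set.range Sum.inl) := by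
    rintro _ ⟨j, rfl⟩
    have h2 := (Ph0_side g (Sum.inl j) (Sum.inl 0)).2 (by rw [idx_inl, idx_inl])
    rw [h, idx_inl] at h2
    rcases h3 : Ph0 g (Sum.inl j) with k | k
    · exact ⟨k, rfl⟩
    · rw [h3, idx_inr] at h2; exact absurd h2 (by norm_num)
  obtain ⟨⟨σ, τ⟩, h2⟩ := mem_sumCongrHom_range_of_perm_mapsTo_inl h1
  exact ⟨σ, τ, h2.symm⟩

theorem cases_Ph0 (g : C) : (∃ σ τ, Ph0 g = sc σ τ) ∨ (∃ σ τ, Ph0 g = cc * sc σ τ) := by
  obtain ⟨g0, -, hg0⟩ := exists_s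
  rcases h : Ph0 g (Sum.inl 0) with i | i
  · exact Or.inl (sc_of h)
  · right
    have h1 : Ph0 (g0 * g) (Sum.inl 0) = Sum.inl i := by
      rw [map_mul, hg0, Perm.mul_apply, h]; rfl
    obtain ⟨σ, τ, h2⟩ := sc_of h1
    refine ⟨σ, τ, ?_⟩
    rw [← h2, map_mul, hg0, ← mul_assoc, cc_sq, one_mul]

theorem p1_XX : XX u5 8 1 = p1 := by
  have h1 : XX u5 8 1 = q2 (lw (u5.getD 0 0)) := XX_two u5 (r := 8) (j := 0) (by norm_num)
  rw [h1]
  have h2 : lw (u5.getD 0 0) = ef (pt 4) := by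
    have hu : allLt 24 (fun i => Nat.beq (img (u5.getD 0 0) i) (cond (Nat.beq i 4) 24 16)) = true := by decide +kernel
    apply Subtype.ext
    rw [coe_lw (tab_U tab5_ok (by norm_num)), coe_ef]
    funext p
    show dv (u5.getD 0 0) (ix p) = _
    rw [dv_eq, Nat.eq_of_beq_eq_true (allLt_iff.mp hu (ix p) (ix_lt p)), Pi.single_apply]
    by_cases h : p = pt 4
    · rw [h, if_pos rfl, ix_pt (by norm_num)]; rfl
    · rw [if_neg h]
      have h1 : Nat.beq (ix p) 4 = false := by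
        rw [Bool.eq_false_iff]
        intro h2
        apply h
        rw [← Nat.eq_of_beq_eq_true h2, pt_ix]
      rw [h1, cond_false]; rfl
  rw [h2, q2_ef]

theorem p1_line : p1 ∈ ell 0 := by
  rw [← p1_XX]
  exact (mem_Bk tab5_ok (by norm_num)).2 (by decide +kernel)

/-- transitivity on the rows -/
theorem trans_rows (i : Fin 5) : ∃ g : C, ∃ σ τ, Ph0 g = sc σ τ ∧ σ 0 = i := by
  have h1 : (ell (idx (Sum.inl i))).Nonempty := by
    rw [Set.nonempty_iff_ne_empty]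
    intro h
    have := ncard_ell (idx_lt (Sum.inl i))
    rw [h, Set.ncard_empty] at this
    exact absurd this (by norm_num)
  obtain ⟨y, hy⟩ := h1
  have hyT : y ∈ T4 b5 := (ell_isLine (idx_lt _)).1 hy
  obtain ⟨g, hg⟩ := T4_orbit hyT
  have hg' : (g : Co0) • p1 = y := hg
  have key : ∀ g : C, (g : Co0) • p1 = y → ∀ σ τ, Ph0 g = sc σ τ → σ 0 = i := by
    intro g hg σ τ hs
    have h2 : y ∈ ell (idx (Ph0 g (Sum.inl 0))) := by
      rw [← Ph0_spec, ← hg]
      exact Set.smul_mem_smul_set p1_line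
    rw [hs] at h2
    have h3 : y ∈ ell (idx (Sum.inl (σ 0))) := h2
    have h4 := (side_iff (idx_lt (Sum.inl (σ 0))) (idx_lt (Sum.inl i))).1 (by rw [idx_inl, idx_inl])
    rcases h4 with h4 | h4
    · have h5 := idx_inj (ell_inj (idx_lt _) (idx_lt _) h4)
      exact Sum.inl_injective h5
    · exact absurd hy (Set.disjoint_left.1 h4 h3)
  obtain ⟨g0, hg0N, hg0⟩ := exists_s
  rcases cases_Ph0 g with ⟨σ, τ, hs⟩ | ⟨σ, τ, hs⟩
  · exact ⟨g, σ, τ, hs, key g hg' σ τ hs⟩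
  · have h5 : Ph0 (g * g0) = sc τ σ := by
      rw [map_mul, hg0, hs, cc_sc, mul_assoc, cc_sq, mul_one]
    refine ⟨g * g0, τ, σ, h5, key _ ?_ _ _ h5⟩
    show ((g : Co0) * g0) • p1 = y
    rw [mul_smul, mem_N_iff_p1.1 hg0N, hg']

/-! ### the image -/

/-- row parts -/
noncomputable def Rw : Subgroup (Perm (Fin 5)) := ((Ph0.range).comap (sumCongrHom (Fin 5) (Fin 5))).map (MonoidHom.fst _ _)

theorem mem_Rw {σ : Perm (Fin 5)} : σ ∈ Rw ↔ ∃ τ, sc σ τ ∈ Ph0.range := by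
  constructor
  · rintro ⟨⟨σ, τ⟩, h, rfl⟩
    exact ⟨τ, h⟩
  · rintro ⟨τ, h⟩
    exact ⟨(σ, τ), h, rfl⟩

theorem A5_le_Rw : alternatingGroup (Fin 5) ≤ Rw := by
  haveI : MulAction.IsPretransitive Rw (Fin 5) := by
    rw [MulAction.isPretransitive_iff_base (0 : Fin 5)]
    intro i
    obtain ⟨g, σ, τ, h, hi⟩ := trans_rows i
    exact ⟨⟨σ, mem_Rw.2 ⟨τ, g, h⟩⟩, hi⟩
  have hprim : MulAction.IsPreprimitive Rw (Fin 5) := MulAction.IsPreprimitive.of_prime_card (by
    rw [Nat.card_fin]; norm_num)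
  obtain ⟨d, -, hd⟩ := exists_d
  refine alternatingGroup_le_of_isPreprimitive_of_isThreeCycle_mem hprim (g := sd) ?_ (mem_Rw.2 ⟨td, d, hd⟩)
  exact isThreeCycle_swap_mul_swap_same (by decide) (by decide) (by decide)

theorem first_mem {σ : Perm (Fin 5)} (hσ : σ ∈ alternatingGroup (Fin 5)) : sc σ 1 ∈ Ph0.range := by
  let f : alternatingGroup (Fin 5) →* Perm (Fin 5 ⊕ Fin 5) := (W.subtype).comp iA
  have hf : ∀ ρ : alternatingGroup (Fin 5), f ρ = sc ρ 1 := fun ρ => rfl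
  have hn : ((Ph0.range).comap f).Normal := by
    constructor
    intro σ hσ ρ
    obtain ⟨τ, hτ⟩ := mem_Rw.1 (A5_le_Rw ρ.2)
    rw [Subgroup.mem_comap, hf] at hσ ⊢
    have h1 := mul_mem (mul_mem hτ hσ) (inv_mem hτ)
    rw [sc_inv, sc_mul, sc_mul, mul_one, mul_inv_cancel] at h1
    exact h1
  obtain ⟨x, -, hx⟩ := exists_x
  have hsx : sx ∈ alternatingGroup (Fin 5) := by
    rw [mem_alternatingGroup]; unfold sx; decide
  rcases hn.eq_bot_or_eq_top with h | h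
  · exfalso
    have h1 : (⟨sx, hsx⟩ : alternatingGroup (Fin 5)) ∈ (Ph0.range).comap f := ⟨x, hx⟩
    rw [h, Subgroup.mem_bot] at h1
    have h2 : sx = 1 := congrArg Subtype.val h1
    have h3 := DFunLike.congr_fun h2 1
    exact absurd h3 (by decide)
  · have h1 : (⟨σ, hσ⟩ : alternatingGroup (Fin 5)) ∈ (Ph0.range).comap f := by rw [h]; trivial
    exact h1

theorem W_le : W ≤ Ph0.range := by
  obtain ⟨g0, -, hg0⟩ := exists_s
  have hcc : cc ∈ Ph0.range := ⟨g0, hg0⟩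
  intro π hπ
  have hs : ∀ σ ∈ alternatingGroup (Fin 5), ∀ τ ∈ alternatingGroup (Fin 5), sc σ τ ∈ Ph0.range := by
    intro σ hσ τ hτ
    have h1 := mul_mem (first_mem hσ) (mul_mem (mul_mem hcc (first_mem hτ)) hcc)
    rw [cc_sc, mul_assoc (sc 1 τ), cc_sq, mul_one, sc_mul, mul_one, one_mul] at h1
    exact h1
  obtain ⟨σ, hσ, τ, hτ, h | h⟩ := mem_W.1 hπ
  · rw [h]; exact hs σ hσ τ hτ
  · rw [h]; exact mul_mem hcc (hs σ hσ τ hτ)

/-! ### the kernel -/

theorem b5_Bk (k : ℕ) : b5 • ell k = ell k := by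
  have h : ∀ x ∈ ell k, b5 • x = x := by
    rintro _ ⟨a, ha, -, rfl⟩
    exact smul_FixS (cmb_mem_FixS inM_c5 tab5_ok a)
  ext x
  constructor
  · rintro ⟨y, hy, rfl⟩
    show b5 • y ∈ ell k
    rw [h y hy]; exact hy
  · intro hx
    exact ⟨x, hx, h x hx⟩

theorem negOne_set (S : Set Q2) : negOne • S = S := by
  ext x
  constructor
  · rintro ⟨y, hy, rfl⟩
    show negOne • y ∈ S
    rw [negOne_smul2]; exact hy
  · intro hx
    exact ⟨x, hx, negOne_smul2 x⟩

theorem pow_set (i : ℕ) (k : ℕ) : b5 ^ i • ell k = ell k := by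
  induction i with
  | zero => rw [pow_zero, one_smul]
  | succ i ih => rw [pow_succ, mul_smul, b5_Bk, ih]

theorem mem_C_of (b : Bool) (i : ℕ) : (if b then (1 : Co0) else negOne) * b5 ^ i ∈ C := by
  apply mul_mem
  · split_ifs
    · exact one_mem _
    · rw [mem_C]
      exact (Subgroup.mem_center_iff.1 negOne_mem_center b5).symm
  · exact pow_mem (mem_C.2 rfl) i

theorem ker_of (b : Bool) (i : ℕ) : Ph0 ⟨(if b then (1 : Co0) else negOne) * b5 ^ i, mem_C_of b i⟩ = 1 := by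
  apply Equiv.ext
  intro s
  apply Ph0_eq
  show ((if b then (1 : Co0) else negOne) * b5 ^ i) • ell (idx s) = ell (idx s)
  rw [mul_smul, pow_set]
  split_ifs
  · rw [one_smul]
  · exact negOne_set _

/-- ten elements of the kernel -/
noncomputable def kf (x : Bool × Fin 5) : Ph0.ker :=
  ⟨⟨(if x.1 then (1 : Co0) else negOne) * b5 ^ (x.2 : ℕ), mem_C_of x.1 x.2⟩, ker_of x.1 x.2⟩

theorem kf_inj : Function.Injective kf := by
  rintro ⟨b, i⟩ ⟨b', j⟩ h
  have h1 : (if b then (1 : Co0) else negOne) * b5 ^ (i : ℕ) = (if b' then (1 : Co0) else negOne) * b5 ^ (j : ℕ) :=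
    congrArg (fun t : Ph0.ker => ((t : C) : Co0)) h
  have key : b5 ^ (i : ℕ) = b5 ^ (j : ℕ) → i = j := by
    intro h2
    exact Fin.ext (pow_injOn_Iio_orderOf (by rw [orderOf_b5]; exact i.2) (by rw [orderOf_b5]; exact j.2) h2)
  have bad : ∀ i j : ℕ, b5 ^ i = negOne * b5 ^ j → False := by
    intro i j h2
    apply negOne_ne_zpow (β := b5) (p := 5) (by decide) b5_pow ((i : ℤ) - j)
    rw [zpow_sub, zpow_natCast, zpow_natCast, h2, mul_inv_cancel_right]
  cases b <;> cases b'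
  · have h2 : b5 ^ (i : ℕ) = b5 ^ (j : ℕ) := by simpa using h1
    rw [key h2]
  · exact (bad j i (by simpa using h1.symm)).elim
  · exact (bad i j (by simpa using h1)).elim
  · have h2 : b5 ^ (i : ℕ) = b5 ^ (j : ℕ) := by simpa using h1
    rw [key h2]

theorem card10 : Nat.card (Bool × Fin 5) = 10 := by
  rw [Nat.card_prod, Nat.card_fin]
  have : Nat.card Bool = 2 := by rw [Nat.card_eq_fintype_card]; rfl
  rw [this]

theorem cards : Nat.card Ph0.ker = 10 ∧ Nat.card Ph0.range = Nat.card W := by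
  have h1 := card_ker_range Ph0
  have h2 := card_C_le
  have h3 : 10 ≤ Nat.card Ph0.ker := by
    rw [← card10]; exact Nat.card_le_card_of_injective kf kf_inj
  have h4 : Nat.card W ≤ Nat.card Ph0.range := Subgroup.card_le_of_le W_le
  have h5 := card_W_ge
  have h6 : Nat.card Ph0.ker * Nat.card Ph0.range ≤ 72000 := by rw [h1]; exact h2
  have h7 : Nat.card Ph0.ker ≤ 10 := by
    by_contra h
    push Not at h
    have := Nat.mul_le_mul h (le_trans h5 h4)
    omega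
  have h8 : Nat.card Ph0.ker = 10 := le_antisymm h7 h3
  refine ⟨h8, ?_⟩
  rw [h8] at h6
  omega

theorem range_eq : Ph0.range = W := (Subgroup.eq_of_le_of_card_ge W_le (le_of_eq cards.2)).symm

theorem ker_spec {g : C} (h : Ph0 g = 1) : ∃ i : ℤ, (g : Co0) = b5 ^ i ∨ (g : Co0) = negOne * b5 ^ i := by
  have h1 : Function.Bijective kf := by
    apply kf_inj.bijective_of_nat_card_le
    rw [card10, cards.1]
  obtain ⟨⟨b, i⟩, hb⟩ := h1.2 ⟨g, h⟩
  have h2 : (if b then (1 : Co0) else negOne) * b5 ^ (i : ℕ) = (g : Co0) :=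
    congrArg (fun t : Ph0.ker => ((t : C) : Co0)) hb
  refine ⟨i, ?_⟩
  rw [← h2, zpow_natCast]
  cases b
  · right; simp
  · left; simp

/-- the homomorphism onto the wreath product -/
noncomputable def Ph : C →* W := Ph0.codRestrict W (fun g => by rw [← range_eq]; exact ⟨g, rfl⟩)

theorem Ph_surj : Function.Surjective Ph := by
  rintro ⟨w, hw⟩
  rw [← range_eq] at hw
  obtain ⟨g, hg⟩ := hw
  exact ⟨g, Subtype.ext hg⟩

theorem Ph_eq_one {g : C} : Ph g = 1 ↔ ∃ i : ℤ, (g : Co0) = b5 ^ i ∨ (g : Co0) = negOne * b5 ^ i := by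
  have h0 : Ph g = 1 ↔ Ph0 g = 1 := by
    constructor
    · intro h; exact congrArg Subtype.val h
    · intro h; exact Subtype.ext h
  rw [h0]
  constructor
  · exact ker_spec
  · rintro ⟨i, hi⟩
    have h1 : (5 : ℤ) ≠ 0 := by norm_num
    have h2 : b5 ^ i = b5 ^ (i % 5).toNat := by
      rw [zpow_mod, ← zpow_natCast, Int.toNat_of_nonneg (Int.emod_nonneg _ h1)]
    rcases hi with hi | hi
    · have h3 := ker_of true (i % 5).toNat
      have h4 : g = ⟨(if true then (1 : Co0) else negOne) * b5 ^ (i % 5).toNat, mem_C_of true _⟩ := by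
        apply Subtype.ext
        rw [hi, h2]; simp
      rw [h4]; exact h3
    · have h3 := ker_of false (i % 5).toNat
      have h4 : g = ⟨(if false then (1 : Co0) else negOne) * b5 ^ (i % 5).toNat, mem_C_of false _⟩ := by
        apply Subtype.ext
        rw [hi, h2]; simp
      rw [h4]; exact h3

theorem faith5 : Faith b5 := by
  intro g hg h
  apply ker_spec (g := ⟨g, mem_C.2 hg⟩)
  apply Equiv.ext
  intro s
  apply Ph0_eq
  show g • ell (idx s) = ell (idx s)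
  have h1 : ∀ x ∈ ell (idx s), g • x = x := by
    rintro _ ⟨a, ha, -, rfl⟩
    obtain ⟨v, hv, hvx⟩ := cmb_mem_FixS inM_c5 tab5_ok a
    have h2 : XX u5 8 a = q2 v := hvx.symm
    rw [h2, smul_q2]
    exact q2_eq_iff.2 (dbl_symm (dbl_symm (h v hv)))
  ext x
  constructor
  · rintro ⟨y, hy, rfl⟩
    show g • y ∈ ell (idx s)
    rw [h1 y hy]; exact hy
  · intro hx
    exact ⟨x, hx, h1 x hx⟩

theorem hna5 : ∃ v ∈ FL b5, ∃ w ∈ FL b5, ¬ (16 : ℤ) ∣ dt v w := by
  refine ⟨lw (u5.getD 0 0), tab_FL inM_c5 tab5_ok (by norm_num), lw (u5.getD 4 0), tab_FL inM_c5 tab5_ok (by norm_num), ?_⟩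
  rw [dt_apply, coe_lw (tab_U tab5_ok (by norm_num)), coe_lw (tab_U tab5_ok (by norm_num)), idot_eq]
  decide +kernel

end Cfsg.Agent.Lib.H89Five
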