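import Cfsg.Agent.Lib.H89MonP1

/-!
# Groups of Monster type (helper89): centralizers of elements of odd order, generic part II
-/

set_option autoImplicit false
set_option linter.all false

namespace Cfsg.Agent.Lib.H89Mon1

open Cfsg Cfsg.Agent.Lib.LargeExtra Cfsg.Agent.Lib.LeechTrans Cfsg.Agent.Lib.LeechCo2 Cfsg.Agent.Lib.LeechFrame
  Cfsg.Agent.Lib.LeechOrder Cfsg.Agent.Lib.LeechQuot
open scoped Pointwise

/-! ### averaging in the lattice -/

/-- the action on the lattice as an additive map -/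
def sm (g : Co0) : leechLattice →+ leechLattice where
  toFun v := g • v
  map_zero' := smul_zero' g
  map_add' := smul_add' g

theorem sm_apply (g : Co0) (v : leechLattice) : sm g v = g • v := rfl

/-- the inner product as an additive map -/
def dt (v : leechLattice) : leechLattice →+ ℤ where
  toFun w := dotInt (v : GolayPt → ℤ) (w : GolayPt → ℤ)
  map_zero' := by
    show dotInt (v : GolayPt → ℤ) (0 : GolayPt → ℤ) = 0
    simp [dotInt]
  map_add' a b := by
    show dotInt (v : GolayPt → ℤ) ((a : GolayPt → ℤ) + (b : GolayPt → ℤ)) = _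
    rw [dot_comm, dotInt_add_left, dot_comm, dot_comm (b : GolayPt → ℤ)]

theorem dt_apply (v w : leechLattice) : dt v w = dotInt (v : GolayPt → ℤ) (w : GolayPt → ℤ) := rfl

theorem dt_comm (v w : leechLattice) : dt v w = dt w v := dot_comm _ _

theorem dt_smul (g : Co0) (v w : leechLattice) : dt (g • v) (g • w) = dt v w := dot_smul g v w

theorem eight_dvd (v w : leechLattice) : (8 : ℤ) ∣ dt v w := LeechGen.eight_dvd_dot v.2 w.2

theorem dbl_symm {v w : leechLattice} (h : dbl v w) : dbl w v := q2_eq_iff.1 (q2_eq_iff.2 h).symm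

theorem dbl_trans {u v w : leechLattice} (h : dbl u v) (h' : dbl v w) : dbl u w :=
  q2_eq_iff.1 ((q2_eq_iff.2 h).trans (q2_eq_iff.2 h'))

theorem dbl_refl (v : leechLattice) : dbl v v := q2_eq_iff.1 rfl

theorem dbl_add {u v u' v' : leechLattice} (h : dbl u v) (h' : dbl u' v') : dbl (u + u') (v + v') := by
  obtain ⟨a, ha⟩ := h
  obtain ⟨b, hb⟩ := h'
  exact ⟨a + b, by rw [show u + u' - (v + v') = (u - v) + (u' - v') by abel, ha, hb]; abel⟩

theorem dbl_self_add (v w : leechLattice) : dbl (v + (w + w)) v := ⟨w, by abel⟩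

theorem dt_dbl {v v' : leechLattice} (h : dbl v v') (w : leechLattice) : (16 : ℤ) ∣ dt v w - dt v' w := by
  obtain ⟨u, hu⟩ := h
  have h1 : v = v' + (u + u) := by rw [← hu]; abel
  have h2 : dt v w = dt v' w + 2 * dt u w := by
    rw [dt_comm v w, h1, map_add, map_add, dt_comm w v', dt_comm w u]; ring
  rw [h2, add_sub_cancel_left]
  obtain ⟨k, hk⟩ := eight_dvd u w
  rw [hk]; exact ⟨k, by ring⟩

/-- the average -/
noncomputable def avg (β : Co0) (p : ℕ) (w : leechLattice) : leechLattice := ∑ i ∈ Finset.range p, β ^ i • w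

theorem smul_avg {β : Co0} {p : ℕ} (hβ : β ^ p = 1) (w : leechLattice) : β • avg β p w = avg β p w := by
  have h0 : β • avg β p w = ∑ i ∈ Finset.range p, β ^ (i + 1) • w := by
    show sm β (avg β p w) = _
    unfold avg
    rw [map_sum]
    apply Finset.sum_congr rfl
    intro i _
    rw [sm_apply, pow_succ', mul_smul]
  have h1 := Finset.sum_range_succ' (fun i => β ^ i • w) p
  have h2 := Finset.sum_range_succ (fun i => β ^ i • w) p
  rw [h2, hβ, pow_zero] at h1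
  rw [h0]
  exact (add_right_cancel h1).symm

theorem dbl_pow {β : Co0} {v : leechLattice} (h : dbl (β • v) v) (i : ℕ) : dbl (β ^ i • v) v := by
  induction i with
  | zero => rw [pow_zero, one_smul]; exact dbl_refl v
  | succ i ih =>
    rw [pow_succ, mul_smul]
    exact dbl_trans (h.smul _) ih

theorem dbl_avg {β : Co0} {p : ℕ} (hp : Odd p) {v : leechLattice} (h : dbl (β • v) v) : dbl (avg β p v) v := by
  have h1 : ∀ k : ℕ, dbl (avg β k v) (k • v) := by
    intro k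
    induction k with
    | zero => simp [avg]; exact dbl_refl 0
    | succ k ih =>
      unfold avg at ih ⊢
      rw [Finset.sum_range_succ, succ_nsmul]
      exact dbl_add ih (dbl_pow h k)
  obtain ⟨m, rfl⟩ := hp
  refine dbl_trans (h1 _) ?_
  rw [add_smul, one_smul, mul_smul, two_smul, add_comm]
  exact dbl_self_add _ _

theorem dt_avg {β : Co0} {p : ℕ} {v : leechLattice} (h : dbl (β • v) v) (w : leechLattice) :
    (16 : ℤ) ∣ dt v (avg β p w) - p * dt v w := by
  have h1 : ∀ i : ℕ, (16 : ℤ) ∣ dt v (β ^ i • w) - dt v w := by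
    intro i
    have h2 := dt_dbl (dbl_symm (dbl_pow h i)) (β ^ i • w)
    rw [dt_smul] at h2
    exact h2
  induction p with
  | zero => simp [avg]
  | succ k ih =>
    have h3 : avg β (k + 1) w = avg β k w + β ^ k • w := Finset.sum_range_succ _ _
    rw [h3, map_add]
    have h4 : dt v (avg β k w) + dt v (β ^ k • w) - ((k + 1 : ℕ) : ℤ) * dt v w =
      (dt v (avg β k w) - k * dt v w) + (dt v (β ^ k • w) - dt v w) := by push_cast; ring
    rw [h4]
    exact dvd_add ih (h1 k)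

theorem dvd_of_odd {p : ℕ} (hp : Odd p) {x : ℤ} (h : (16 : ℤ) ∣ p * x) : (16 : ℤ) ∣ x := by
  have h1 : IsCoprime (16 : ℤ) (p : ℤ) := by
    have h2 : Nat.Coprime (2 ^ 4) p := (Nat.coprime_two_left.2 hp).pow_left 4
    have h3 := Nat.isCoprime_iff_coprime.2 h2
    norm_num at h3
    exact h3
  exact h1.dvd_of_dvd_mul_left h

/-- the fixed lattice -/
def FL (β : Co0) : AddSubgroup leechLattice where
  carrier := {v | β • v = v}
  zero_mem' := smul_zero' β
  add_mem' := by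
    intro a b ha hb
    show β • (a + b) = a + b
    rw [smul_add', ha, hb]
  neg_mem' := by
    intro a ha
    show β • (-a) = -a
    rw [smul_neg', ha]

theorem mem_FL {β : Co0} {v : leechLattice} : v ∈ FL β ↔ β • v = v := Iff.rfl

/-- the fixed classes -/
def FixS (β : Co0) : AddSubgroup Q2 := (FL β).map (QuotientAddGroup.mk' D2)

theorem mem_FixS {β : Co0} {p : ℕ} (hp : Odd p) (hβ : β ^ p = 1) {v : leechLattice} :
    q2 v ∈ FixS β ↔ dbl (β • v) v := by
  constructor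
  · rintro ⟨w, hw, h⟩
    have h1 : dbl w v := q2_eq_iff.1 h
    have h2 := h1.smul β
    rw [mem_FL.1 hw] at h2
    exact dbl_trans (dbl_symm h2) h1
  · intro h
    exact ⟨avg β p v, smul_avg hβ v, q2_eq_iff.2 (dbl_avg hp h)⟩

/-! ### the quotient -/

variable {G : Type*} [Group G] {z : G} {Q : Subgroup (Subgroup.centralizer ({z} : Set G))} [Q.Normal]
  {e : (Subgroup.centralizer ({z} : Set G)) ⧸ Q ≃* Spor.Co1} {ψ : leechLattice → Q ⧸ Subgroup.center Q}

section
variable [Finite G] (M : Mon z Q e ψ) {b : G} {β : Co0} {p : ℕ} (hr : Rl e b β) (hp : Odd p) (hb : b ^ p = 1)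
  (hβ : β ^ p = 1)
include M hr hp hb hβ

omit M hr hβ [Finite G] [Q.Normal] in
theorem odd_card : Odd (Nat.card (Subgroup.zpowers b)) := by
  rw [Nat.card_zpowers]
  exact hp.of_dvd_nat (orderOf_dvd_of_pow_eq_one hb)

omit hb hβ M hp [Finite G] in
theorem z_mem : z ∈ Subgroup.centralizer (Subgroup.zpowers b : Set G) := by
  rw [Subgroup.mem_centralizer_iff]
  rintro x ⟨n, rfl⟩
  have hbz := Subgroup.mem_centralizer_singleton_iff.1 hr.mem
  exact (Commute.zpow_left (show Commute b z from hbz) n).eq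

theorem Mon.card_QB : Nat.card ↥(QG Q ⊓ Subgroup.centralizer (Subgroup.zpowers b : Set G)) = 2 * Nat.card (FixS β) := by
  classical
  have hcl : ∀ s : ↥(QG Q ⊓ Subgroup.centralizer (Subgroup.zpowers b : Set G)), ∃ v, Cl ψ (s : G) v :=
    fun s => M.exists_cl s.2.1
  choose c hc using hcl
  let f : ↥(QG Q ⊓ Subgroup.centralizer (Subgroup.zpowers b : Set G)) →* Multiplicative Q2 :=
    { toFun := fun s => Multiplicative.ofAdd (q2 (c s))
      map_one' := by
        have h1 : dbl (c 1) 0 := M.cl_unique (hc 1) (M.cl_zero.2 (Or.inl rfl))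
        have h2 : q2 (c 1) = 0 := (q2_eq_iff.2 h1).trans rfl
        rw [h2]; rfl
      map_mul' := by
        intro s t
        have h1 : dbl (c (s * t)) (c s + c t) := M.cl_unique (hc (s * t)) (M.cl_mul (hc s) (hc t))
        have h2 : q2 (c (s * t)) = q2 (c s) + q2 (c t) := q2_eq_iff.2 h1
        rw [h2]; rfl }
  have h1 := card_ker_range f
  have hzm := z_mem hr
  have h2 : Nat.card f.ker = 2 := by
    have h3 : Nat.card (Subgroup.zpowers z) = 2 := by
      rw [Nat.card_zpowers]; exact M.pre.toExData.orderOf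
    rw [← h3]
    have hz : ∀ x ∈ Subgroup.zpowers z, x ∈ QG Q ⊓ Subgroup.centralizer (Subgroup.zpowers b : Set G) := by
      intro x hx
      exact (Subgroup.zpowers_le.2 (⟨M.pre.mem, hzm⟩ : z ∈ QG Q ⊓ _)) hx
    have hk : ∀ s : ↥(QG Q ⊓ Subgroup.centralizer (Subgroup.zpowers b : Set G)), s ∈ f.ker ↔ (s : G) ∈ Subgroup.zpowers z := by
      intro s
      rw [mem_zpowers_of_sq M.pre.sq, ← M.cl_zero, MonoidHom.mem_ker]
      constructor
      · intro h
        have h4 : q2 (c s) = q2 0 := h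
        exact M.cl_congr (hc s) (q2_eq_iff.1 h4)
      · intro h
        have h4 : q2 (c s) = q2 0 := q2_eq_iff.2 (M.cl_unique (hc s) h)
        exact h4
    exact Nat.card_congr
      { toFun := fun s => ⟨s.1, (hk s.1).1 s.2⟩
        invFun := fun x => ⟨⟨x.1, hz x.1 x.2⟩, (hk _).2 x.2⟩
        left_inv := fun s => rfl
        right_inv := fun x => rfl }
  have h5 : Nat.card f.range = Nat.card (FixS β) := by
    apply Nat.card_congr
    refine ⟨fun x => ⟨Multiplicative.toAdd x.1, ?_⟩, fun x => ⟨Multiplicative.ofAdd x.1, ?_⟩, fun x => rfl, fun x => rfl⟩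
    · obtain ⟨x, s, rfl⟩ := x
      show q2 (c s) ∈ FixS β
      rw [mem_FixS hp hβ]
      exact (M.comm_iff_fix hr hp hb (hc s)).1 s.2.2
    · obtain ⟨x, v, hv, rfl⟩ := x
      obtain ⟨s, hs⟩ := M.exists_el v
      have h6 : s ∈ Subgroup.centralizer (Subgroup.zpowers b : Set G) := by
        rw [M.comm_iff_fix hr hp hb hs, mem_FL.1 hv]; exact dbl_refl v
      refine ⟨⟨s, hs.mem, h6⟩, ?_⟩
      show Multiplicative.ofAdd (q2 (c _)) = Multiplicative.ofAdd (q2 v)
      congr 1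
      exact q2_eq_iff.2 (M.cl_unique (hc ⟨s, hs.mem, h6⟩) hs)
  rw [← h1, h2, h5]

variable [hn : ((Subgroup.zpowers b).subgroupOf (Subgroup.centralizer (Subgroup.zpowers b : Set G))).Normal]
  (hzB : z ∈ Subgroup.centralizer (Subgroup.zpowers b : Set G))

theorem Mon.fB_inj {x y : AB z (Subgroup.zpowers b)} (hx : (x : G) ∈ QG Q) (hy : (y : G) ∈ QG Q) (h : fB hzB x = fB hzB y) :
    x = y := by
  rw [fB_eq_iff] at h
  have h1 := M.two_inf (odd_card hp hb) (mul_mem (inv_mem hx) hy) h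
  exact Subtype.ext (inv_mul_eq_one.1 h1)

theorem Mon.card_RB : Nat.card (RB Q hzB) = 2 * Nat.card (FixS β) := by
  rw [← M.card_QB hr hp hb hβ]
  have h2 : ∀ x ∈ QG Q ⊓ Subgroup.centralizer (Subgroup.zpowers b : Set G), x ∈ AB z (Subgroup.zpowers b) := by
    rintro x ⟨⟨c, hc, rfl⟩, hx⟩
    exact ⟨c.2, hx⟩
  symm
  refine Nat.card_congr (Equiv.ofBijective (fun x => ⟨fB hzB ⟨x.1, h2 x.1 x.2⟩, ⟨⟨x.1, h2 x.1 x.2⟩, x.2.1, rfl⟩⟩) ⟨?_, ?_⟩)
  · intro x y h
    have h3 := M.fB_inj hr hp hb hβ hzB (x := ⟨x.1, h2 x.1 x.2⟩) (y := ⟨y.1, h2 y.1 y.2⟩) x.2.1 y.2.1 (congrArg Subtype.val h)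
    exact Subtype.ext (congrArg (fun x : AB z (Subgroup.zpowers b) => (x : G)) h3)
  · rintro ⟨_, ⟨x, hx, rfl⟩⟩
    exact ⟨⟨x.1, hx, x.2.2⟩, rfl⟩

/-- commuting with the fixed points -/
theorem Mon.radical {q : G} {v : leechLattice} (hq : Cl ψ q v) (hqb : dbl (β • v) v)
    (h : ∀ y ∈ QG Q ⊓ Subgroup.centralizer (Subgroup.zpowers b : Set G), q * y = y * q) : q = 1 ∨ q = z := by
  apply M.pre.center q hq.mem
  intro y hy
  obtain ⟨w, hw⟩ := M.exists_cl hy
  rw [M.comm_iff hq hw]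
  obtain ⟨y', hy'⟩ := M.exists_el (avg β p w)
  have h1 : y' ∈ Subgroup.centralizer (Subgroup.zpowers b : Set G) := by
    rw [M.comm_iff_fix hr hp hb hy', smul_avg hβ]; exact dbl_refl _
  have h2 := h y' ⟨hy'.mem, h1⟩
  rw [M.comm_iff hq hy'] at h2
  have h3 := dt_avg (p := p) hqb w
  have h4 : (16 : ℤ) ∣ p * dt v w := (dvd_sub_right h2).1 h3
  exact dvd_of_odd hp h4

theorem Mon.exDataB (hna : ∃ v ∈ FL β, ∃ w ∈ FL β, ¬ (16 : ℤ) ∣ dt v w) :
    ExData (RB Q hzB) (fB hzB ⟨z, Subgroup.mem_centralizer_singleton_iff.2 rfl, hzB⟩) := by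
  have hP := M.pre
  apply ExData.of
  · rw [← map_mul]
    have : (⟨z, Subgroup.mem_centralizer_singleton_iff.2 rfl, hzB⟩ : AB z (Subgroup.zpowers b)) *
      ⟨z, Subgroup.mem_centralizer_singleton_iff.2 rfl, hzB⟩ = 1 := Subtype.ext hP.sq
    rw [this, map_one]
  · intro h
    have h1 := (fB_eq_one_iff hzB).1 h
    exact hP.ne (M.two_inf (odd_card hp hb) hP.mem h1)
  · exact ⟨_, hP.mem, rfl⟩
  · rintro _ ⟨q, hq, rfl⟩
    rw [← map_mul, ← map_mul]
    congr 1
    exact Subtype.ext (hP.cen q hq)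
  · rintro _ ⟨a, ha, rfl⟩ _ ⟨b, hb, rfl⟩
    rcases hP.comm a ha b hb with h | h
    · left
      rw [← map_mul, ← map_mul]; congr 1; exact Subtype.ext h
    · right
      rw [← map_mul, ← map_mul, ← map_mul]; congr 1; exact Subtype.ext h
  · rintro _ ⟨q, hq, rfl⟩ hc
    have hq' : (q : G) ∈ QG Q := hq
    obtain ⟨v, hv⟩ := M.exists_cl hq'
    have h0 : dbl (β • v) v := (M.comm_iff_fix hr hp hb hv).1 q.2.2
    have h7 : (q : G) = 1 ∨ (q : G) = z := by
      apply M.radical hr hp hb hβ hv h0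
      rintro y ⟨hyQ, hyB⟩
      have hyA : y ∈ AB z (Subgroup.zpowers b) := by
        obtain ⟨c, hc, rfl⟩ := hyQ
        exact ⟨c.2, hyB⟩
      have h8 := hc (fB hzB ⟨y, hyA⟩) ⟨_, hyQ, rfl⟩
      rw [← map_mul, ← map_mul] at h8
      have h9 := M.fB_inj hr hp hb hβ hzB (x := q * ⟨y, hyA⟩) (y := ⟨y, hyA⟩ * q) (mul_mem hq' hyQ) (mul_mem hyQ hq') h8
      exact congrArg Subtype.val h9
    rcases h7 with h7 | h7
    · left
      rw [← map_one (fB hzB)]; congr 1; exact Subtype.ext h7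
    · right
      congr 1; exact Subtype.ext h7
  · obtain ⟨v, hv, w, hw, hvw⟩ := hna
    obtain ⟨a, ha⟩ := M.exists_el v
    obtain ⟨c, hc⟩ := M.exists_el w
    have haB : a ∈ Subgroup.centralizer (Subgroup.zpowers b : Set G) := by
      rw [M.comm_iff_fix hr hp hb ha, mem_FL.1 hv]; exact dbl_refl _
    have hcB : c ∈ Subgroup.centralizer (Subgroup.zpowers b : Set G) := by
      rw [M.comm_iff_fix hr hp hb hc, mem_FL.1 hw]; exact dbl_refl _
    have haA : a ∈ AB z (Subgroup.zpowers b) := by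
      obtain ⟨d, hd, rfl⟩ := ha.mem
      exact ⟨d.2, haB⟩
    have hcA : c ∈ AB z (Subgroup.zpowers b) := by
      obtain ⟨d, hd, rfl⟩ := hc.mem
      exact ⟨d.2, hcB⟩
    refine ⟨_, ⟨⟨a, haA⟩, ha.mem, rfl⟩, _, ⟨⟨c, hcA⟩, hc.mem, rfl⟩, ?_⟩
    intro h
    rw [← map_mul, ← map_mul] at h
    have h9 := M.fB_inj hr hp hb hβ hzB (x := ⟨a, haA⟩ * ⟨c, hcA⟩) (y := ⟨c, hcA⟩ * ⟨a, haA⟩)
      (mul_mem ha.mem hc.mem) (mul_mem hc.mem ha.mem) h
    exact hvw ((M.comm_iff ha hc).1 (congrArg Subtype.val h9))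

/-- faithfulness on the fixed classes -/
def Faith (β : Co0) : Prop := ∀ g : Co0, g * β = β * g → (∀ v ∈ FL β, dbl (g • v) v) →
  ∃ i : ℤ, g = β ^ i ∨ g = negOne * β ^ i

omit M hp hb hβ [Finite G] hn in
theorem Rl.zpow (n : ℤ) : Rl e (b ^ n) (β ^ n) := by
  cases n with
  | ofNat n =>
    rw [Int.ofNat_eq_natCast, zpow_natCast, zpow_natCast]; exact hr.pow n
  | negSucc n =>
    rw [zpow_negSucc, zpow_negSucc]; exact (hr.pow _).inv

theorem Mon.mem_RB_of {a : AB z (Subgroup.zpowers b)} {g : Co0} (ha : Rl e (a : G) g)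
    (hg : ∃ i : ℤ, g = β ^ i ∨ g = negOne * β ^ i) : fB hzB a ∈ RB Q hzB := by
  obtain ⟨i, hi⟩ := hg
  have h1 : Rl e (a : G) (β ^ i) := by
    rcases hi with rfl | rfl
    · exact ha
    · have h2 := ha.negOne
      rw [← mul_assoc, negOne_sq, one_mul] at h2
      exact h2
  have h3 : (b ^ i)⁻¹ * (a : G) ∈ QG Q := (Rl.zpow hr i).mem_Q h1
  have hbi : b ^ i ∈ Subgroup.zpowers b := ⟨i, rfl⟩
  have hbA : b ^ i ∈ AB z (Subgroup.zpowers b) := by
    refine ⟨(Rl.zpow hr i).mem, Subgroup.mem_centralizer_iff.2 ?_⟩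
    rintro x ⟨n, rfl⟩
    exact ((Commute.refl b).zpow_zpow n i).eq
  refine ⟨(⟨b ^ i, hbA⟩)⁻¹ * a, h3, ?_⟩
  rw [map_mul, map_inv, (fB_eq_one_iff hzB (y := ⟨b ^ i, hbA⟩)).2 hbi, inv_one, one_mul]

theorem Mon.cent_RB_le (hf : Faith β) :
    Subgroup.centralizer (RB Q hzB : Set ↥(Subgroup.centralizer ({zB hzB} : Set (HB (Subgroup.zpowers b))))) ≤ RB Q hzB := by
  intro s hs
  obtain ⟨a, rfl⟩ := fB_surjective hzB M.pre.sq (odd_card hp hb) s
  obtain ⟨g, hg⟩ := exists_g e a.2.1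
  apply M.mem_RB_of hr hp hb hβ hzB hg
  apply hf g
  · rw [← M.mem_hat_AB hr hp hb hβ]
    exact ⟨a, a.2, hg⟩
  intro v hv
  obtain ⟨y, hy⟩ := M.exists_el v
  have hyB : y ∈ Subgroup.centralizer (Subgroup.zpowers b : Set G) := by
    rw [M.comm_iff_fix hr hp hb hy, mem_FL.1 hv]; exact dbl_refl _
  have hyA : y ∈ AB z (Subgroup.zpowers b) := by
    obtain ⟨d, hd, rfl⟩ := hy.mem
    exact ⟨d.2, hyB⟩
  have h7 := Subgroup.mem_centralizer_iff.1 hs (fB hzB ⟨y, hyA⟩) ⟨_, hy.mem, rfl⟩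
  have h8 : fB hzB ⟨y, hyA⟩ = fB hzB (a * ⟨y, hyA⟩ * a⁻¹) := by
    rw [map_mul, map_mul, map_inv, ← h7, mul_inv_cancel_right]
  have h9 : (a : G) * y * (a : G)⁻¹ ∈ QG Q :=
    M.pre.norm a (Subgroup.mem_centralizer_singleton_iff.1 a.2.1) y hy.mem
  have h10 := congrArg Subtype.val (M.fB_inj hr hp hb hβ hzB (x := ⟨y, hyA⟩) (y := a * ⟨y, hyA⟩ * a⁻¹) hy.mem h9 h8)
  have h11 : y = (a : G) * y * (a : G)⁻¹ := h10
  have h12 := M.cl_conj hy hg
  rw [← h11] at h12
  exact M.cl_unique h12 hy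

/-- the identification of the quotient -/
theorem Mon.exists_equivB [hR : (RB Q hzB).Normal] {K : Type*} [Group K]
    (Φ : ↥(Subgroup.centralizer ({β} : Set Co0)) →* K) (hs : Function.Surjective Φ)
    (hk : ∀ g, Φ g = 1 ↔ ∃ i : ℤ, (g : Co0) = β ^ i ∨ (g : Co0) = negOne * β ^ i) :
    ∃ e' : ↥(Subgroup.centralizer ({zB hzB} : Set (HB (Subgroup.zpowers b)))) ⧸ RB Q hzB ≃* K,
      ∀ (x : AB z (Subgroup.zpowers b)) (g : ↥(Subgroup.centralizer ({β} : Set Co0))), Rl e (x : G) (g : Co0) →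
        e' (QuotientGroup.mk (fB hzB x)) = Φ g := by
  have hc : ∀ g : Co0, g * β = β * g ↔ g ∈ Subgroup.centralizer ({β} : Set Co0) := fun g =>
    Subgroup.mem_centralizer_singleton_iff.symm
  have hex : ∀ x : AB z (Subgroup.zpowers b), ∃ g : ↥(Subgroup.centralizer ({β} : Set Co0)), Rl e (x : G) (g : Co0) := by
    intro x
    obtain ⟨g, hg⟩ := exists_g e x.2.1
    exact ⟨⟨g, (hc g).1 ((M.mem_hat_AB hr hp hb hβ).1 ⟨x, x.2, hg⟩)⟩, hg⟩
  choose c hcx using hex
  have hn1 : negOne ∈ Subgroup.centralizer ({β} : Set Co0) := by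
    rw [← hc]; exact (Subgroup.mem_center_iff.1 negOne_mem_center β).symm
  have huniq : ∀ (x : G) (g g' : ↥(Subgroup.centralizer ({β} : Set Co0))), Rl e x (g : Co0) → Rl e x (g' : Co0) → Φ g' = Φ g := by
    intro x g g' h h'
    rcases h.eq h' with h1 | h1
    · congr 1; exact Subtype.ext h1
    · have h2 : g' = ⟨negOne, hn1⟩ * g := Subtype.ext h1
      rw [h2, map_mul, (hk ⟨negOne, hn1⟩).2 ⟨0, Or.inr (by simp)⟩, one_mul]
  let F : ↥(AB z (Subgroup.zpowers b)) →* K :=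
    { toFun := fun x => Φ (c x)
      map_one' := (hk _).2 (by
        rcases (Rl.one (e := e)).eq (hcx 1) with h | h
        · exact ⟨0, Or.inl (by rw [zpow_zero]; exact h)⟩
        · exact ⟨0, Or.inr (by rw [zpow_zero]; exact h)⟩)
      map_mul' := by
        intro x y
        rw [← map_mul]
        exact huniq _ _ _ (((hcx x).mul (hcx y))) (hcx (x * y)) }
  have hF : ∀ (x : AB z (Subgroup.zpowers b)) (g : ↥(Subgroup.centralizer ({β} : Set Co0))),
      Rl e (x : G) (g : Co0) → F x = Φ g := by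
    intro x g hg
    exact huniq _ _ _ hg (hcx x)
  have hFs : Function.Surjective F := by
    intro k
    obtain ⟨g, rfl⟩ := hs k
    have h1 : (g : Co0) ∈ hat e (AB z (Subgroup.zpowers b)) := by
      rw [M.mem_hat_AB hr hp hb hβ, hc]; exact g.2
    obtain ⟨x, hx, hxg⟩ := h1
    exact ⟨⟨x, hx⟩, hF ⟨x, hx⟩ g hxg⟩
  let P : ↥(AB z (Subgroup.zpowers b)) →* (↥(Subgroup.centralizer ({zB hzB} : Set (HB (Subgroup.zpowers b)))) ⧸ RB Q hzB) :=
    (QuotientGroup.mk' (RB Q hzB)).comp (fB hzB)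
  have hPs : Function.Surjective P :=
    (QuotientGroup.mk'_surjective _).comp (fB_surjective hzB M.pre.sq (odd_card hp hb))
  have hker : P.ker = F.ker := by
    ext x
    rw [MonoidHom.mem_ker, MonoidHom.mem_ker]
    constructor
    · intro h
      have h1 : fB hzB x ∈ RB Q hzB := (QuotientGroup.eq_one_iff _).1 h
      obtain ⟨y, hy, hyx⟩ := h1
      rw [fB_eq_iff] at hyx
      obtain ⟨i, hi⟩ := hyx
      have h2 : (x : G) = (y : G) * b ^ i := by
        have : b ^ i = (y : G)⁻¹ * x := hi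
        rw [this, mul_inv_cancel_left]
      have h3 : Rl e (x : G) (1 * β ^ i) := by
        rw [h2]
        exact (Rl.one_iff.2 hy).mul (Rl.zpow hr i)
      rw [one_mul] at h3
      have h4 : β ^ i ∈ Subgroup.centralizer ({β} : Set Co0) := by
        rw [← hc]; exact ((Commute.refl β).zpow_left i).eq
      rw [hF x ⟨β ^ i, h4⟩ h3]
      exact (hk _).2 ⟨i, Or.inl rfl⟩
    · intro h
      have h1 : Φ (c x) = 1 := h
      have h2 := M.mem_RB_of hr hp hb hβ hzB (hcx x) ((hk _).1 h1)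
      exact (QuotientGroup.eq_one_iff _).2 h2
  let e1 := QuotientGroup.quotientKerEquivOfSurjective P hPs
  let e2 := QuotientGroup.quotientKerEquivOfSurjective F hFs
  refine ⟨(e1.symm.trans (QuotientGroup.quotientMulEquivOfEq hker)).trans e2, ?_⟩
  intro x g hg
  have h1 : e1.symm (QuotientGroup.mk (fB hzB x)) = QuotientGroup.mk x := by
    rw [MulEquiv.symm_apply_eq]; rfl
  show e2 (QuotientGroup.quotientMulEquivOfEq hker (e1.symm (QuotientGroup.mk (fB hzB x)))) = Φ g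
  rw [h1]
  exact hF x g hg

theorem Mon.genFittingB (hf : Faith β) {K : Type*} [Group K]
    (Φ : ↥(Subgroup.centralizer ({β} : Set Co0)) →* K) (hs : Function.Surjective Φ)
    (hk : ∀ g, Φ g = 1 ↔ ∃ i : ℤ, (g : Co0) = β ^ i ∨ (g : Co0) = negOne * β ^ i)
    (hK : ∀ S : Subgroup K, S.Normal → IsPGroup 2 S → S = ⊥) :
    generalizedFittingSubgroup ↥(Subgroup.centralizer ({zB hzB} : Set (HB (Subgroup.zpowers b)))) = RB Q hzB := by
  haveI : Fact (Nat.Prime 2) := ⟨Nat.prime_two⟩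
  haveI hR := M.RB_normal hzB (odd_card hp hb)
  have hRp : IsPGroup 2 (RB Q hzB) :=
    (M.pre.isP.comap_of_injective (AB z (Subgroup.zpowers b)).subtype (Subgroup.subtype_injective _)).map _
  have hcore : pCore 2 ↥(Subgroup.centralizer ({zB hzB} : Set (HB (Subgroup.zpowers b)))) = RB Q hzB := by
    apply le_antisymm
    · obtain ⟨e', -⟩ := M.exists_equivB hr hp hb hβ hzB Φ hs hk
      set S := pCore 2 ↥(Subgroup.centralizer ({zB hzB} : Set (HB (Subgroup.zpowers b))))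
      have hS : S.Normal := pCore_normal' (p := 2)
      have hSp : IsPGroup 2 S := isPGroup_pCore (p := 2)
      have h1 : ((S.map (QuotientGroup.mk' (RB Q hzB))).map e'.toMonoidHom) = ⊥ := by
        apply hK
        · apply Subgroup.Normal.map
          · exact Subgroup.Normal.map hS _ (QuotientGroup.mk'_surjective _)
          · exact e'.surjective
        · exact (hSp.map _).map _
      intro s hs'
      have h2 : e' (QuotientGroup.mk s) ∈ ((S.map (QuotientGroup.mk' (RB Q hzB))).map e'.toMonoidHom) :=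
        ⟨_, ⟨s, hs', rfl⟩, rfl⟩
      rw [h1, Subgroup.mem_bot] at h2
      have h3 : (QuotientGroup.mk s : ↥(Subgroup.centralizer ({zB hzB} : Set (HB (Subgroup.zpowers b)))) ⧸ RB Q hzB) = 1 :=
        e'.injective (h2.trans (map_one e').symm)
      exact (QuotientGroup.eq_one_iff _).1 h3
    · exact AmalgamCharP.le_pCore hR hRp
  rw [← hcore, CharPLocal.genFitting_eq_pCore_iff, hcore]
  exact M.cent_RB_le hr hp hb hβ hzB hf

theorem Mon.settingB (hna : ∃ v ∈ FL β, ∃ w ∈ FL β, ¬ (16 : ℤ) ∣ dt v w) (hf : Faith β) {K : Type*} [Group K]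
    (Φ : ↥(Subgroup.centralizer ({β} : Set Co0)) →* K) (hs : Function.Surjective Φ)
    (hk : ∀ g, Φ g = 1 ↔ ∃ i : ℤ, (g : Co0) = β ^ i ∨ (g : Co0) = negOne * β ^ i)
    (hK : ∀ S : Subgroup K, S.Normal → IsPGroup 2 S → S = ⊥) {w : ℕ} (hw : Nat.card (FixS β) = 2 ^ (2 * w))
    (hmove : ∃ x ∈ Subgroup.centralizer (Subgroup.zpowers b : Set G), x * z * x⁻¹ ∈ QG Q ∧ x * z * x⁻¹ ≠ z) :
    IsExtraspecialCentralizerSetting (zB hzB) (RB Q hzB) w := by
  have hX := M.exDataB hr hp hb hβ hzB hna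
  refine ⟨?_, M.genFittingB hr hp hb hβ hzB hf Φ hs hk hK, isExtraspecial_of_exData hX, ?_, ?_⟩
  · have h7 := hX.orderOf
    rw [← Subgroup.orderOf_coe] at h7
    exact h7
  · rw [M.card_RB hr hp hb hβ, hw]; ring
  · obtain ⟨x, hx, hxQ, hxz⟩ := hmove
    have hxB : x * z * x⁻¹ ∈ Subgroup.centralizer (Subgroup.zpowers b : Set G) :=
      mul_mem (mul_mem hx hzB) (inv_mem hx)
    have hxA : x * z * x⁻¹ ∈ AB z (Subgroup.zpowers b) := by
      refine ⟨?_, hxB⟩
      obtain ⟨d, hd, h⟩ := hxQ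
      rw [← h]; exact d.2
    refine ⟨QuotientGroup.mk ⟨x, hx⟩, ⟨(fB hzB ⟨_, hxA⟩).2, ⟨⟨_, hxA⟩, hxQ, Subtype.ext rfl⟩⟩, ?_⟩
    intro h8
    have h9 : ((fB hzB ⟨_, hxA⟩ : ↥(Subgroup.centralizer ({zB hzB} : Set (HB (Subgroup.zpowers b))))) : HB (Subgroup.zpowers b)) =
        (fB hzB ⟨z, Subgroup.mem_centralizer_singleton_iff.2 rfl, hzB⟩ : ↥(Subgroup.centralizer ({zB hzB} : Set (HB (Subgroup.zpowers b))))) := h8
    have h10 := M.fB_inj hr hp hb hβ hzB (x := ⟨_, hxA⟩) (y := ⟨z, Subgroup.mem_centralizer_singleton_iff.2 rfl, hzB⟩)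
      hxQ M.pre.mem (Subtype.ext h9)
    exact hxz (congrArg Subtype.val h10)

end

end Cfsg.Agent.Lib.H89Mon1
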