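import Cfsg.Agent.Lib.LeechQuot3
import Cfsg.Agent.Lib.GolayM21
import Cfsg.Agent.Lib.H89Co2Core

/-!
The monomial subgroup `2^12:M24` of `Co0` (helper89): normal 2-subgroups.
-/

set_option autoImplicit false
set_option linter.all false

namespace Cfsg.Agent.Lib.H89Mono

open Cfsg Cfsg.Agent.Lib.Golay Cfsg.Agent.Lib.LeechMin Cfsg.Agent.Lib.LeechTrans Cfsg.Agent.Lib.LeechCo2
  Cfsg.Agent.Lib.LeechFrame Cfsg.Agent.Lib.LeechOrder Cfsg.Agent.Lib.LeechQuot
open Cfsg.Agent.Lib.H89Co2Core (sp_one exists_sep)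
open scoped Pointwise

/-- the sign changes -/
def T : Subgroup Co0 where
  carrier := {g | ∃ c ∈ Sup, ∀ v : leechLattice, ((g • v : leechLattice) : GolayPt → ℤ) = signedPerm 1 c v}
  one_mem' := ⟨∅, GolayCoset.empty_mem, fun v => by rw [one_smul, signedPerm_one_empty]⟩
  mul_mem' := by
    rintro g h ⟨c, hc, h1⟩ ⟨d, hd, h2⟩
    refine ⟨symmDiff c d, symmDiff_mem_supports hc hd, fun v => ?_⟩
    rw [mul_smul, h1, h2, signedPerm_signedPerm, one_smul, one_mul]
  inv_mem' := by
    rintro g ⟨c, hc, h1⟩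
    refine ⟨c, hc, fun v => ?_⟩
    have h2 := h1 (g⁻¹ • v)
    rw [smul_inv_smul] at h2
    rw [h2, signedPerm_signedPerm, one_smul, one_mul, symmDiff_self]
    exact (signedPerm_one_empty _).symm

theorem T_le_N : T ≤ N := by
  rintro g ⟨c, hc, h⟩
  exact ⟨1, M24.one_mem, c, hc, h⟩

theorem T_sq {g : Co0} (hg : g ∈ T) : g * g = 1 := by
  obtain ⟨c, hc, h1⟩ := hg
  apply ext_smul
  intro v
  apply Subtype.ext
  rw [mul_smul, h1, h1, signedPerm_signedPerm, one_smul, one_mul, symmDiff_self, one_smul]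
  exact signedPerm_one_empty _

/-- the coordinate permutations -/
def permHom : M24 →* Co0 where
  toFun σ := ⟨mono σ.1 σ.2 ∅ GolayCoset.empty_mem, mono_mem _ _ _ _⟩
  map_one' := by
    apply ext_smul; intro v; apply Subtype.ext
    rw [one_smul]
    exact signedPerm_one_empty _
  map_mul' σ τ := by
    apply ext_smul; intro v; apply Subtype.ext
    show signedPerm (σ * τ : M24).1 ∅ v = signedPerm σ.1 ∅ (signedPerm τ.1 ∅ v)
    rw [signedPerm_signedPerm]
    simp

theorem permHom_smul (σ : M24) (v : leechLattice) :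
    ((permHom σ • v : leechLattice) : GolayPt → ℤ) = signedPerm σ.1 ∅ v := rfl

theorem permHom_mem (σ : M24) : permHom σ ∈ N := ⟨σ.1, σ.2, ∅, GolayCoset.empty_mem, fun v => rfl⟩

theorem permHom_injective : Function.Injective permHom := by
  intro σ τ h
  apply Subtype.ext
  exact (signedPerm_inj (c := ∅) (d := ∅) fun v => by rw [← permHom_smul, ← permHom_smul, h]).1

/-- the permutation part -/
noncomputable def perm (g : N) : M24 := ⟨Classical.choose g.2, (Classical.choose_spec g.2).1⟩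

theorem perm_spec (g : N) : ∃ c ∈ Sup, ∀ v : leechLattice,
    (((g : Co0) • v : leechLattice) : GolayPt → ℤ) = signedPerm (perm g).1 c v := (Classical.choose_spec g.2).2

theorem perm_eq {g : N} {σ : Equiv.Perm GolayPt} {c : Finset GolayPt}
    (h : ∀ v : leechLattice, (((g : Co0) • v : leechLattice) : GolayPt → ℤ) = signedPerm σ c v) : (perm g).1 = σ := by
  obtain ⟨d, hd, h1⟩ := perm_spec g
  exact (signedPerm_inj fun v => by rw [← h1, ← h]).1

noncomputable def permPart : N →* M24 where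
  toFun := perm
  map_one' := by
    apply Subtype.ext
    apply perm_eq (c := ∅)
    intro v
    show (((1 : Co0) • v : leechLattice) : GolayPt → ℤ) = signedPerm 1 ∅ v
    rw [signedPerm_one_empty, one_smul]
  map_mul' g h := by
    apply Subtype.ext
    obtain ⟨c, hc, h1⟩ := perm_spec g
    obtain ⟨d, hd, h2⟩ := perm_spec h
    apply perm_eq (c := symmDiff c ((perm g).1 • d))
    intro v
    show ((((g : Co0) * (h : Co0)) • v : leechLattice) : GolayPt → ℤ) = signedPerm ((perm g).1 * (perm h).1) _ v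
    rw [mul_smul, h1, h2, signedPerm_signedPerm]

theorem permPart_permHom (σ : M24) : permPart ⟨permHom σ, permHom_mem σ⟩ = σ := by
  apply Subtype.ext
  exact perm_eq (c := ∅) fun v => rfl

theorem permPart_surjective : Function.Surjective permPart := fun σ => ⟨_, permPart_permHom σ⟩

theorem mem_T_iff {g : N} : (g : Co0) ∈ T ↔ permPart g = 1 := by
  constructor
  · rintro ⟨c, hc, h⟩
    apply Subtype.ext
    exact perm_eq h
  · intro h
    obtain ⟨c, hc, h1⟩ := perm_spec g
    refine ⟨c, hc, fun v => ?_⟩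
    rw [h1]
    have : perm g = 1 := h
    rw [this]; rfl

theorem exists_mul {g : Co0} (hg : g ∈ N) : ∃ t ∈ T, ∃ σ : M24, g = t * permHom σ := by
  refine ⟨g * (permHom (permPart ⟨g, hg⟩))⁻¹, ?_, permPart ⟨g, hg⟩, by group⟩
  have h1 : g * (permHom (permPart ⟨g, hg⟩))⁻¹ ∈ N := N.mul_mem hg (N.inv_mem (permHom_mem _))
  have h2 : permPart ⟨_, h1⟩ = 1 := by
    have h3 : (⟨_, h1⟩ : N) = ⟨g, hg⟩ * (⟨permHom (permPart ⟨g, hg⟩), permHom_mem _⟩)⁻¹ := rfl
    rw [h3, map_mul, map_inv, permPart_permHom, mul_inv_cancel]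
  exact mem_T_iff.2 h2

theorem T_normal {g t : Co0} (hg : g ∈ N) (ht : t ∈ T) : g * t * g⁻¹ ∈ T := by
  have h1 : g * t * g⁻¹ ∈ N := N.mul_mem (N.mul_mem hg (T_le_N ht)) (N.inv_mem hg)
  have h2 : permPart ⟨_, h1⟩ = 1 := by
    have h3 : (⟨_, h1⟩ : N) = ⟨g, hg⟩ * ⟨t, T_le_N ht⟩ * ⟨g, hg⟩⁻¹ := rfl
    rw [h3, map_mul, map_mul, map_inv, (mem_T_iff (g := ⟨t, T_le_N ht⟩)).1 ht, mul_one, mul_inv_cancel]
  exact mem_T_iff.2 h2

theorem T_inf_perm {σ : M24} (h : permHom σ ∈ T) : σ = 1 := by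
  have := (mem_T_iff (g := ⟨permHom σ, permHom_mem σ⟩)).1 h
  rwa [permPart_permHom] at this

/-- `T` has order `2^12` -/
theorem natCard_T : Nat.card T = 4096 := by
  rw [← natCard_Sup]
  symm
  refine Nat.card_congr (Equiv.ofBijective (fun c : Sup =>
    (⟨⟨mono 1 M24.one_mem c.1 c.2, mono_mem _ _ _ _⟩, ⟨c.1, c.2, fun v => rfl⟩⟩ : T)) ⟨?_, ?_⟩)
  · intro c d h
    apply Subtype.ext
    refine (signedPerm_inj (σ := 1) (τ := 1) fun v => ?_).2
    have h1 := congrArg (fun t : T => (((t : Co0) • v : leechLattice) : GolayPt → ℤ)) h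
    exact h1
  · rintro ⟨g, c, hc, h⟩
    refine ⟨⟨c, hc⟩, ?_⟩
    apply Subtype.ext
    apply ext_smul
    intro v
    apply Subtype.ext
    exact (h v).symm

instance : IsSimpleGroup M24 := M24_simple

/-- normal 2-subgroups of the monomial group consist of sign changes -/
theorem le_T {K : Subgroup Co0} (hK : IsPGroup 2 K) (hKN : K ≤ N) (hn : ∀ g ∈ N, ∀ k ∈ K, g * k * g⁻¹ ∈ K) :
    K ≤ T := by
  set K' := (K.subgroupOf N).map permPart with hK'
  haveI h1 : (K.subgroupOf N).Normal := by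
    constructor
    rintro ⟨k, hkN⟩ hk ⟨g, hg⟩
    exact hn g hg k hk
  haveI h2 : K'.Normal := h1.map permPart permPart_surjective
  have h3 : IsPGroup 2 K' := by
    apply IsPGroup.map
    exact hK.comap_of_injective N.subtype N.subtype_injective
  have h4 : K' = ⊥ := by
    rcases h2.eq_bot_or_eq_top with h | h
    · exact h
    · exfalso
      rw [h] at h3
      haveI : Fact (Nat.Prime 2) := ⟨Nat.prime_two⟩
      obtain ⟨n, hn⟩ := h3.exists_card_eq
      rw [Subgroup.card_top, natCard_M24] at hn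
      have : 3 ∣ 2 ^ n := by rw [← hn]; norm_num
      have := Nat.Prime.dvd_of_dvd_pow (by norm_num) this
      norm_num at this
  intro k hk
  have h5 : permPart ⟨k, hKN hk⟩ ∈ K' := ⟨⟨k, hKN hk⟩, hk, rfl⟩
  rw [h4, Subgroup.mem_bot] at h5
  exact (mem_T_iff (g := ⟨k, hKN hk⟩)).2 h5

/-- the stabilizer of the class of `8 e_∞` modulo 2 -/
theorem mem_N_iff' {g : Co0} : g ∈ N ↔ dbl (ef none) (g • ef none) := by
  have hcr : cross (ef none : GolayPt → ℤ) = stdCross := by rw [coe_ef, cross_single]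
  constructor
  · intro hg
    have h1 := mem_N_iff.1 hg (ef none) ⟨none, 8, Or.inl rfl, rfl⟩
    rw [← hcr] at h1
    exact (mem_cross_iff.1 h1).2
  · intro hg
    rw [mem_N_iff]
    intro v hv
    have h1 : ((g • ef none : leechLattice) : GolayPt → ℤ) ∈ cross (ef none : GolayPt → ℤ) :=
      mem_cross_iff.2 ⟨sqNorm_smul _ _, hg⟩
    rw [← hcr] at hv
    have h2 := smul_mem_cross g hv
    obtain ⟨h3, h4⟩ := mem_cross_iff.1 h1
    obtain ⟨h5, h6⟩ := mem_cross_iff.1 h2
    have h7 : ((g • v : leechLattice) : GolayPt → ℤ) ∈ cross (ef none : GolayPt → ℤ) := by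
      rw [mem_cross_iff]
      refine ⟨h5.trans h3, ?_⟩
      obtain ⟨z, hz⟩ := h4
      obtain ⟨z', hz'⟩ := h6
      refine ⟨z + z', ?_⟩
      have : ef none - g • v = (ef none - g • ef none) + (g • ef none - g • v) := by abel
      rw [this, hz, hz']; abel
    rwa [hcr] at h7

theorem negOne_mem_T : negOne ∈ T := ⟨Finset.univ, univ_mem, fun v => rfl⟩

end Cfsg.Agent.Lib.H89Mono
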