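import Cfsg.Agent.Lib.H89LeechMat
import Cfsg.Agent.Lib.H89Mono
import Cfsg.Agent.Lib.H89MonP2

/-!
# The number of classes of the Leech lattice modulo 2 fixed by a coordinate permutation of odd order (helper89)
-/

set_option autoImplicit false
set_option linter.all false

namespace Cfsg.Agent.Lib.H89FixRank

open Cfsg Cfsg.Agent.Lib.Golay Cfsg.Agent.Lib.LeechMin Cfsg.Agent.Lib.H89LeechMat Cfsg.Agent.Lib.H89Mon1
  Cfsg.Agent.Lib.LeechQuot Cfsg.Agent.Lib.LeechOrder Cfsg.Agent.Lib.H89Mono
open scoped Pointwise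

/-! ### index of the doubles -/

/-- doubling -/
def two (r : ℕ) : (Fin r → ℤ) →+ (Fin r → ℤ) where
  toFun x := x + x
  map_zero' := by simp
  map_add' x y := by abel

theorem two_inj (r : ℕ) : Function.Injective (two r) := by
  intro x y h
  funext i
  have h1 := congrFun h i
  change x i + x i = y i + y i at h1
  omega

/-- reduction modulo 2 -/
def rd (r n : ℕ) : (Fin r → ℤ) →+ (Fin r → ZMod n) where
  toFun x i := (x i : ZMod n)
  map_zero' := by funext i; simp
  map_add' x y := by funext i; simp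

theorem rd_surj (r n : ℕ) : Function.Surjective (rd r n) := by
  intro y
  choose x hx using fun i => ZMod.intCast_surjective (y i)
  exact ⟨x, funext hx⟩

theorem index_two_top (r : ℕ) : ((⊤ : AddSubgroup (Fin r → ℤ)).map (two r)).index = 2 ^ r := by
  have h6 : (⊤ : AddSubgroup (Fin r → ℤ)).map (two r) = (rd r 2).ker := by
    ext x
    rw [AddMonoidHom.mem_ker]
    constructor
    · rintro ⟨y, -, rfl⟩
      funext i
      show (((y i + y i : ℤ)) : ZMod 2) = 0
      rw [ZMod.intCast_zmod_eq_zero_iff_dvd]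
      exact ⟨y i, by push_cast; ring⟩
    · intro h
      have h1 : ∀ i, ∃ k, x i = k + k := by
        intro i
        have h2 : ((x i : ℤ) : ZMod 2) = 0 := congrFun h i
        rw [ZMod.intCast_zmod_eq_zero_iff_dvd] at h2
        obtain ⟨k, hk⟩ := h2
        exact ⟨k, by rw [hk]; push_cast; ring⟩
      choose y hy using h1
      exact ⟨y, trivial, funext fun i => (hy i).symm⟩
  rw [h6, AddSubgroup.index_ker, AddMonoidHom.range_eq_top.2 (rd_surj r 2)]
  rw [Nat.card_congr (AddSubgroup.topEquiv (G := Fin r → ZMod 2)).toEquiv, Nat.card_pi]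
  simp

theorem relIndex_two {r : ℕ} (L : AddSubgroup (Fin r → ℤ)) (hL : L.index ≠ 0) :
    (L.map (two r)).relIndex L = 2 ^ r := by
  have h2 : L.map (two r) ≤ L := by
    rintro y ⟨x, hx, rfl⟩
    exact L.add_mem hx hx
  have h3 := AddSubgroup.relIndex_mul_index h2
  have h4 : L.map (two r) ≤ (⊤ : AddSubgroup (Fin r → ℤ)).map (two r) := AddSubgroup.map_mono le_top
  have h5 := AddSubgroup.relIndex_mul_index h4
  rw [AddSubgroup.relIndex_map_map_of_injective _ _ (two_inj r), AddSubgroup.relIndex_top_right, index_two_top] at h5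
  rw [← h3, mul_comm] at h5
  exact (Nat.eq_of_mul_eq_mul_right (Nat.pos_of_ne_zero hL) h5).symm

theorem index_ne_zero {r : ℕ} (L : AddSubgroup (Fin r → ℤ)) (h8 : ∀ x : Fin r → ℤ, (8 : ℤ) • x ∈ L) : L.index ≠ 0 := by
  have h1 : (rd r 8).ker ≤ L := by
    intro x hx
    have h1 : ∀ i, ∃ k, x i = 8 * k := by
      intro i
      have h2 : ((x i : ℤ) : ZMod 8) = 0 := congrFun hx i
      rw [ZMod.intCast_zmod_eq_zero_iff_dvd] at h2
      exact h2
    choose y hy using h1
    have h3 : x = (8 : ℤ) • y := funext hy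
    rw [h3]; exact h8 y
  have h2 : (rd r 8).ker.index ≠ 0 := by
    rw [AddSubgroup.index_ker]
    exact Nat.card_pos.ne'
  exact fun h => h2 (by rw [← AddSubgroup.relIndex_mul_index h1, h, mul_zero])

/-! ### fixed vectors of a coordinate permutation -/

/-- `j` is one of the first `n` images of `a` -/
def reach (c n a j : ℕ) : Bool :=
  Nat.rec (motive := fun _ => ℕ → Bool) (fun _ => false) (fun _ ih a => cond (Nat.beq a j) true (ih (img c a))) n a

theorem reach_spec {c : ℕ} (hv : valid c = true) (n : ℕ) {a j : ℕ} (ha : a < 24) (h : reach c n a j = true)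
    {x : GolayPt → ℤ} (hx : ∀ p, x (toPerm c p) = x p) : x (pt j) = x (pt a) := by
  induction n generalizing a with
  | zero => exact absurd h (by simp [reach])
  | succ n ih =>
    have h1 : cond (Nat.beq a j) true (reach c n (img c a) j) = true := h
    cases hb : Nat.beq a j
    · rw [hb] at h1
      rw [ih (img_lt hv ha) h1, ← toPerm_pt hv ha, hx]
    · rw [Nat.eq_of_beq_eq_true hb]

/-- data of the orbits -/
def orbOK (c r n : ℕ) (ob st : List ℕ) : Bool :=
  cond (allLt 24 fun i => cond (Nat.blt (ob.getD i 0) r) (cond (Nat.beq (ob.getD (img c i) 0) (ob.getD i 0))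
    (reach c n (st.getD (ob.getD i 0) 0) i) false) false)
    (allLt r fun k => cond (Nat.blt (st.getD k 0) 24) (Nat.beq (ob.getD (st.getD k 0) 0) k) false) false

section
variable {c r n : ℕ} {ob st : List ℕ} (hM : inM c = true) (ho : orbOK c r n ob st = true)
include hM ho

omit hM in
theorem ob_lt {i : ℕ} (hi : i < 24) : ob.getD i 0 < r := by
  have h1 := allLt_iff.mp (cond_false_eq.mp ho).1 i hi
  exact Nat.blt_eq.mp (cond_false_eq.mp h1).1

omit hM in
theorem ob_img {i : ℕ} (hi : i < 24) : ob.getD (img c i) 0 = ob.getD i 0 := by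
  have h1 := allLt_iff.mp (cond_false_eq.mp ho).1 i hi
  exact Nat.eq_of_beq_eq_true (cond_false_eq.mp (cond_false_eq.mp h1).2).1

omit hM in
theorem st_lt {k : ℕ} (hk : k < r) : st.getD k 0 < 24 := by
  have h1 := allLt_iff.mp (cond_false_eq.mp ho).2 k hk
  exact Nat.blt_eq.mp (cond_false_eq.mp h1).1

omit hM in
theorem ob_st {k : ℕ} (hk : k < r) : ob.getD (st.getD k 0) 0 = k := by
  have h1 := allLt_iff.mp (cond_false_eq.mp ho).2 k hk
  exact Nat.eq_of_beq_eq_true (cond_false_eq.mp h1).2

theorem eq_st {x : GolayPt → ℤ} (hx : ∀ p, x (toPerm c p) = x p) (p : GolayPt) :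
    x p = x (pt (st.getD (ob.getD (ix p) 0) 0)) := by
  have h1 := allLt_iff.mp (cond_false_eq.mp ho).1 (ix p) (ix_lt p)
  have h2 := (cond_false_eq.mp (cond_false_eq.mp h1).2).2
  have h3 := reach_spec (valid_of_inM hM) n (st_lt ho (ob_lt ho (ix_lt p))) h2 hx
  rw [pt_ix] at h3
  exact h3

end

/-- the function with prescribed values on the orbits -/
def iot {r : ℕ} (ob : List ℕ) (hob : ∀ i < 24, ob.getD i 0 < r) : (Fin r → ℤ) →+ (GolayPt → ℤ) where
  toFun t p := t ⟨ob.getD (ix p) 0, hob _ (ix_lt p)⟩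
  map_zero' := rfl
  map_add' x y := rfl

/-- the coordinate permutation as an element of `Co0` -/
noncomputable def pC (c : ℕ) (hM : inM c = true) : Co0 := permHom ⟨toPerm c, toPerm_mem_M24 hM⟩

theorem pC_smul {c : ℕ} (hM : inM c = true) (v : leechLattice) (p : GolayPt) :
    ((pC c hM • v : leechLattice) : GolayPt → ℤ) (toPerm c p) = (v : GolayPt → ℤ) p := by
  unfold pC
  rw [permHom_smul]
  show signedPerm (toPerm c) ∅ v (toPerm c p) = _
  rw [signedPerm_apply]
  have : (toPerm c).symm (toPerm c p) = p := Equiv.symm_apply_apply _ _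
  rw [this]
  simp [chi]

theorem mem_FL_pC {c : ℕ} (hM : inM c = true) {v : leechLattice} :
    v ∈ FL (pC c hM) ↔ ∀ p, (v : GolayPt → ℤ) (toPerm c p) = (v : GolayPt → ℤ) p := by
  rw [mem_FL]
  constructor
  · intro h p
    have h1 := pC_smul hM v p
    rw [h] at h1
    exact h1
  · intro h
    apply Subtype.ext
    funext q
    obtain ⟨p, rfl⟩ := (toPerm c).surjective q
    rw [pC_smul, h]

theorem card_FixS_pC {c r n : ℕ} {ob st : List ℕ} (hM : inM c = true) (ho : orbOK c r n ob st = true) :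
    Nat.card (FixS (pC c hM)) = 2 ^ r := by
  have hob : ∀ i < 24, ob.getD i 0 < r := fun i hi => ob_lt ho hi
  let L : AddSubgroup (Fin r → ℤ) := leechLattice.comap (iot ob hob)
  have hL : L.index ≠ 0 := index_ne_zero L fun x => by
    show iot ob hob ((8 : ℤ) • x) ∈ leechLattice
    rw [map_zsmul]
    exact LeechMod.eight_smul_mem _
  rw [← relIndex_two L hL]
  let f : L →+ Q2 := (QuotientAddGroup.mk' D2).comp (((iot ob hob).comp L.subtype).codRestrict leechLattice fun x => x.2)
  have hf : ∀ x : L, f x = q2 ⟨iot ob hob x, x.2⟩ := fun x => rfl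
  have hr : f.range = FixS (pC c hM) := by
    ext y
    constructor
    · rintro ⟨x, rfl⟩
      refine ⟨⟨iot ob hob x, x.2⟩, ?_, rfl⟩
      rw [SetLike.mem_coe, mem_FL_pC]
      intro p
      show (x : Fin r → ℤ) ⟨ob.getD (ix (toPerm c p)) 0, _⟩ = (x : Fin r → ℤ) ⟨ob.getD (ix p) 0, _⟩
      refine congrArg _ (Fin.ext ?_)
      show ob.getD (ix (toPerm c p)) 0 = ob.getD (ix p) 0
      rw [ix_toPerm (valid_of_inM hM), ob_img ho (ix_lt p)]
    · rintro ⟨v, hv, rfl⟩
      rw [SetLike.mem_coe, mem_FL_pC] at hv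
      let t : Fin r → ℤ := fun k => (v : GolayPt → ℤ) (pt (st.getD k 0))
      have ht : iot ob hob t = (v : GolayPt → ℤ) := by
        funext p
        exact (eq_st hM ho hv p).symm
      refine ⟨⟨t, show iot ob hob t ∈ leechLattice by rw [ht]; exact v.2⟩, ?_⟩
      rw [hf]
      show q2 _ = q2 v
      congr 1
      exact Subtype.ext ht
  have hk : f.ker = (L.map (two r)).addSubgroupOf L := by
    ext x
    rw [AddMonoidHom.mem_ker, AddSubgroup.mem_addSubgroupOf, hf]
    have h0 : (0 : Q2) = q2 0 := rfl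
    rw [h0, q2_eq_iff]
    constructor
    · rintro ⟨w, hw⟩
      rw [sub_zero] at hw
      have hw' : ∀ p, iot ob hob x p = (w : GolayPt → ℤ) p + (w : GolayPt → ℤ) p := fun p =>
        congrFun (congrArg Subtype.val hw) p
      let t : Fin r → ℤ := fun k => (w : GolayPt → ℤ) (pt (st.getD k 0))
      have hwi : ∀ p, (w : GolayPt → ℤ) (toPerm c p) = (w : GolayPt → ℤ) p := by
        intro p
        have h1 := hw' p
        have h2 := hw' (toPerm c p)
        have h3 : iot ob hob x (toPerm c p) = iot ob hob x p := by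
          show (x : Fin r → ℤ) ⟨ob.getD (ix (toPerm c p)) 0, _⟩ = (x : Fin r → ℤ) ⟨ob.getD (ix p) 0, _⟩
          refine congrArg _ (Fin.ext ?_)
          show ob.getD (ix (toPerm c p)) 0 = ob.getD (ix p) 0
          rw [ix_toPerm (valid_of_inM hM), ob_img ho (ix_lt p)]
        omega
      have ht : iot ob hob t = (w : GolayPt → ℤ) := by
        funext p
        exact (eq_st hM ho hwi p).symm
      refine ⟨t, show iot ob hob t ∈ leechLattice by rw [ht]; exact w.2, ?_⟩
      funext k
      show t k + t k = (x : Fin r → ℤ) k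
      have h4 := hw' (pt (st.getD k 0))
      have h5 : iot ob hob x (pt (st.getD k 0)) = (x : Fin r → ℤ) k := by
        show (x : Fin r → ℤ) ⟨ob.getD (ix (pt (st.getD k 0))) 0, _⟩ = _
        refine congrArg _ (Fin.ext ?_)
        show ob.getD (ix (pt (st.getD k 0))) 0 = k
        rw [ix_pt (st_lt ho k.2), ob_st ho k.2]
      rw [h5] at h4
      exact h4.symm
    · rintro ⟨t, ht, h⟩
      refine ⟨⟨iot ob hob t, ht⟩, ?_⟩
      rw [sub_zero]
      apply Subtype.ext
      show iot ob hob x = iot ob hob t + iot ob hob t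
      rw [← map_add]
      congr 1
      exact h.symm
  have h1 : f.ker.index = Nat.card f.range := AddSubgroup.index_ker f
  rw [← hr, ← h1, hk]
  rfl

end Cfsg.Agent.Lib.H89FixRank
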