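import Cfsg.Agent.Lib.H89MonP2

/-!
# Groups of Monster type (helper89): centralizers of elements of odd order, Frattini arguments and standard position
-/

set_option autoImplicit false
set_option linter.all false

namespace Cfsg.Agent.Lib.H89Mon1

open Cfsg Cfsg.Agent.Lib.LargeExtra Cfsg.Agent.Lib.LeechTrans Cfsg.Agent.Lib.LeechCo2 Cfsg.Agent.Lib.LeechFrame
  Cfsg.Agent.Lib.LeechOrder Cfsg.Agent.Lib.LeechQuot
open scoped Pointwise

section pure
variable {G : Type*} [Group G]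

theorem frattini_move {z s b τ τ' : G} (hz2 : z * z = 1) (hs2 : s * s = 1) (hzs : z * s = s * z)
    (t1 : τ * z * τ⁻¹ = z) (t2 : τ * s * τ⁻¹ = z * s) (t3 : τ' * s * τ'⁻¹ = s) (t4 : τ' * z * τ'⁻¹ = z * s)
    (hf : ∀ n : G, (n = τ ∨ n = τ') → ∃ l, l * z = z * l ∧ l * s = s * l ∧ (l * n) * b * (l * n)⁻¹ ∈ Subgroup.zpowers b) :
    ∃ x ∈ Subgroup.centralizer (Subgroup.zpowers b : Set G), x * z * x⁻¹ = s := by
  obtain ⟨l1, a1, a2, i, hi⟩ := hf τ (Or.inl rfl)
  obtain ⟨l2, c1, c2, j, hj⟩ := hf τ' (Or.inr rfl)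
  have hi' : b ^ i = l1 * τ * b * (l1 * τ)⁻¹ := hi
  have hj' : b ^ j = l2 * τ' * b * (l2 * τ')⁻¹ := hj
  set m := l1 * τ with hm
  set n := l2 * τ' with hn
  have m1 : MulAut.conj m z = z := by
    show m * z * m⁻¹ = z
    calc m * z * m⁻¹ = l1 * (τ * z * τ⁻¹) * l1⁻¹ := by rw [hm]; group
      _ = z := by rw [t1, a1]; group
  have m2 : MulAut.conj m s = z * s := by
    show m * s * m⁻¹ = z * s
    calc m * s * m⁻¹ = l1 * (τ * s * τ⁻¹) * l1⁻¹ := by rw [hm]; group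
      _ = (l1 * z) * s * l1⁻¹ := by rw [t2]; group
      _ = z * (l1 * s) * l1⁻¹ := by rw [a1]; group
      _ = z * s := by rw [a2]; group
  have n1 : MulAut.conj n s = s := by
    show n * s * n⁻¹ = s
    calc n * s * n⁻¹ = l2 * (τ' * s * τ'⁻¹) * l2⁻¹ := by rw [hn]; group
      _ = s := by rw [t3, c2]; group
  have n2 : MulAut.conj n z = z * s := by
    show n * z * n⁻¹ = z * s
    calc n * z * n⁻¹ = l2 * (τ' * z * τ'⁻¹) * l2⁻¹ := by rw [hn]; group
      _ = (l2 * z) * s * l2⁻¹ := by rw [t4]; group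
      _ = z * (l2 * s) * l2⁻¹ := by rw [c1]; group
      _ = z * s := by rw [c2]; group
  have hbm : MulAut.conj m b = b ^ i := hi'.symm
  have hbn : MulAut.conj n b = b ^ j := hj'.symm
  -- the inverse actions
  have m3 : MulAut.conj m (z * s) = s := by
    rw [map_mul, m1, m2, ← mul_assoc, hz2, one_mul]
  have n3 : MulAut.conj n (z * s) = z := by
    rw [map_mul, n1, n2, mul_assoc, hs2, mul_one]
  clear_value m n
  have hu : MulAut.conj (m * n) b = MulAut.conj (n * m) b := by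
    rw [map_mul, map_mul, MulAut.mul_apply, MulAut.mul_apply, hbn, hbm, map_zpow, map_zpow, hbm, hbn, ← zpow_mul,
      ← zpow_mul, mul_comm]
  refine ⟨(m * n)⁻¹ * (n * m), ?_, ?_⟩
  · have h1 : MulAut.conj ((m * n)⁻¹ * (n * m)) b = b := by
      rw [map_mul, MulAut.mul_apply, ← hu, ← MulAut.mul_apply, ← map_mul, inv_mul_cancel, map_one, MulAut.one_apply]
    have h2 : Commute ((m * n)⁻¹ * (n * m)) b := by
      have h3 : (m * n)⁻¹ * (n * m) * b * ((m * n)⁻¹ * (n * m))⁻¹ = b := h1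
      exact mul_inv_eq_iff_eq_mul.1 h3
    rw [Subgroup.mem_centralizer_iff]
    rintro x ⟨k, rfl⟩
    exact (h2.symm.zpow_left k).eq
  · show MulAut.conj ((m * n)⁻¹ * (n * m)) z = s
    have h1 : MulAut.conj (n * m) z = MulAut.conj (m * n) s := by
      rw [map_mul, MulAut.mul_apply, m1, n2, map_mul, MulAut.mul_apply, n1, m2]
    rw [map_mul, MulAut.mul_apply, h1, ← MulAut.mul_apply, ← map_mul, inv_mul_cancel, map_one, MulAut.one_apply]

theorem sylow_conj_in [Finite G] {L B B' : Subgroup G} {p : ℕ} [Fact p.Prime] (hB : B ≤ L) (hB' : B' ≤ L)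
    (h : Nat.card B = p ^ (Nat.card L).factorization p) (h' : Nat.card B' = p ^ (Nat.card L).factorization p) :
    ∃ l ∈ L, ∀ x, x ∈ B' → l * x * l⁻¹ ∈ B := by
  have c1 : Nat.card (B.subgroupOf L) = p ^ (Nat.card L).factorization p := by
    rw [← h]; exact Nat.card_congr (Subgroup.subgroupOfEquivOfLe hB).toEquiv
  have c2 : Nat.card (B'.subgroupOf L) = p ^ (Nat.card L).factorization p := by
    rw [← h']; exact Nat.card_congr (Subgroup.subgroupOfEquivOfLe hB').toEquiv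
  let P : Sylow p L := Sylow.ofCard _ c1
  let P' : Sylow p L := Sylow.ofCard _ c2
  obtain ⟨l, hl⟩ := MulAction.exists_smul_eq L P' P
  refine ⟨l, l.2, fun x hx => ?_⟩
  have h1 : (⟨x, hB' hx⟩ : L) ∈ (P' : Subgroup L) := hx
  have h2 : l * ⟨x, hB' hx⟩ * l⁻¹ ∈ (P : Subgroup L) := by
    rw [← hl, Sylow.coe_subgroup_smul]
    exact ⟨_, h1, rfl⟩
  exact h2

theorem exists_tau {Q Q1 : Subgroup G} {z s : G} (p : Pair Q Q1 z s) : ∃ τ ∈ Q, τ * z * τ⁻¹ = z ∧ τ * s * τ⁻¹ = z * s := by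
  have h1 : ¬ ∀ x ∈ Q, s * x = x * s := by
    intro h
    rcases p.h.center s p.hs h with h | h
    · exact p.h1.ne h
    · exact p.hne h
  push Not at h1
  obtain ⟨x, hx, hxs⟩ := h1
  refine ⟨x, hx, ?_, ?_⟩
  · rw [p.h.cen x hx]; group
  · rcases p.h.comm x hx s p.hs with h | h
    · exact (hxs h.symm).elim
    · rw [h]; group

theorem mem_L {z s x : G} : x ∈ Subgroup.centralizer ({z, s} : Set G) ↔ x * z = z * x ∧ x * s = s * x := by
  rw [Subgroup.mem_centralizer_iff]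
  constructor
  · intro h
    exact ⟨(h z (by simp)).symm, (h s (by simp)).symm⟩
  · rintro ⟨h1, h2⟩ y (rfl | rfl)
    · exact h1.symm
    · exact h2.symm

/-- the Frattini property -/
def FrP (z s b : G) : Prop := ∀ n : G, (∀ x ∈ Subgroup.centralizer ({z, s} : Set G), n * x * n⁻¹ ∈ Subgroup.centralizer ({z, s} : Set G)) →
  ∃ l ∈ Subgroup.centralizer ({z, s} : Set G), (l * n) * b * (l * n)⁻¹ ∈ Subgroup.zpowers b

theorem frP_of_sylow [Finite G] {z s b : G} {p : ℕ} [Fact p.Prime] (hb : b ∈ Subgroup.centralizer ({z, s} : Set G))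
    (h : Nat.card (Subgroup.zpowers b) = p ^ (Nat.card (Subgroup.centralizer ({z, s} : Set G))).factorization p) :
    FrP z s b := by
  intro n hn
  have hB : Subgroup.zpowers b ≤ Subgroup.centralizer ({z, s} : Set G) := Subgroup.zpowers_le.2 hb
  have hB' : (Subgroup.zpowers b).map (MulAut.conj n).toMonoidHom ≤ Subgroup.centralizer ({z, s} : Set G) := by
    rintro _ ⟨x, hx, rfl⟩
    exact hn x (hB hx)
  obtain ⟨l, hl, h1⟩ := sylow_conj_in hB hB' h (by
    rw [← h]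
    exact (Nat.card_congr (Subgroup.equivMapOfInjective _ _ (MulAut.conj n).injective).toEquiv).symm)
  refine ⟨l, hl, ?_⟩
  have h2 := h1 (n * b * n⁻¹) ⟨b, Subgroup.mem_zpowers b, rfl⟩
  have h3 : (l * n) * b * (l * n)⁻¹ = l * (n * b * n⁻¹) * l⁻¹ := by group
  rw [h3]; exact h2

theorem exists_move_of {Q Q1 : Subgroup G} {z s b : G} (p : Pair Q Q1 z s) (hf : FrP z s b) :
    ∃ x ∈ Subgroup.centralizer (Subgroup.zpowers b : Set G), x * z * x⁻¹ = s := by
  obtain ⟨τ, -, t1, t2⟩ := exists_tau p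
  obtain ⟨τ', -, t3, t4⟩ := exists_tau p.swap
  have hzs := p.comm
  rw [← hzs] at t4
  apply frattini_move p.h.sq p.h1.sq hzs t1 t2 t3 t4
  have hcj : ∀ (n x y : G), x * y = y * x → (n * x * n⁻¹) * (n * y * n⁻¹) = (n * y * n⁻¹) * (n * x * n⁻¹) := by
    intro n x y h
    calc (n * x * n⁻¹) * (n * y * n⁻¹) = n * (x * y) * n⁻¹ := by group
      _ = (n * y * n⁻¹) * (n * x * n⁻¹) := by rw [h]; group
  intro n hn
  have hL : ∀ x ∈ Subgroup.centralizer ({z, s} : Set G), n * x * n⁻¹ ∈ Subgroup.centralizer ({z, s} : Set G) := by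
    intro x hx
    rw [mem_L] at hx ⊢
    rcases hn with rfl | rfl
    · have h1 := hcj n x z hx.1
      have h2 := hcj n x s hx.2
      rw [t1] at h1
      rw [t2] at h2
      refine ⟨h1, ?_⟩
      have h3 : n * x * n⁻¹ * (z * s) = z * (n * x * n⁻¹ * s) := by rw [← mul_assoc, h1, mul_assoc]
      rw [h3, mul_assoc z s] at h2
      exact mul_left_cancel h2
    · have h1 := hcj n x z hx.1
      have h2 := hcj n x s hx.2
      rw [t4] at h1
      rw [t3] at h2
      refine ⟨?_, h2⟩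
      rw [hzs] at h1
      have h3 : n * x * n⁻¹ * (s * z) = s * (n * x * n⁻¹ * z) := by rw [← mul_assoc, h2, mul_assoc]
      rw [h3, mul_assoc s z] at h1
      exact mul_left_cancel h1
  obtain ⟨l, hl, h1⟩ := hf n hL
  exact ⟨l, (mem_L.1 hl).1, (mem_L.1 hl).2, h1⟩

end pure

variable {G : Type*} [Group G] {z : G} {Q : Subgroup (Subgroup.centralizer ({z} : Set G))} [Q.Normal]
  {e : (Subgroup.centralizer ({z} : Set G)) ⧸ Q ≃* Spor.Co1} {ψ : leechLattice → Q ⧸ Subgroup.center Q}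

theorem Rl.twist {h : G} {g : Co0} (H : Rl e h g) (n : Co0) :
    Rl (e.trans (MulAut.conj (QuotientGroup.mk n : Spor.Co1))) h (n * g * n⁻¹) := by
  obtain ⟨c, rfl, h1⟩ := H
  refine ⟨c, rfl, ?_⟩
  show _ = (QuotientGroup.mk n : Spor.Co1) * e (QuotientGroup.mk c) * (QuotientGroup.mk n)⁻¹
  rw [← h1]; rfl

theorem Cl.twist {s : G} {v : leechLattice} (H : Cl ψ s v) (n : Co0) :
    Cl (fun v => ψ (n⁻¹ • v)) s (n • v) := by
  obtain ⟨q, hq, h1⟩ := H
  exact ⟨q, hq, by show ψ (n⁻¹ • n • v) = _; rw [inv_smul_smul, h1]⟩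

theorem negOne_mem_N : negOne ∈ N := by
  rw [H89Mono.mem_N_iff']
  rw [negOne_smul]
  exact ⟨ef none, by abel⟩

section
variable [Finite G] (M : Mon z Q e ψ)
include M

omit [Finite G] in
theorem Mon.twist' (n : Co0) :
    Mon z Q (e.trans (MulAut.conj (QuotientGroup.mk n : Spor.Co1))) (fun v => ψ (n⁻¹ • v)) :=
  ⟨M.hz, M.hF, M.hQ, M.hcard, H89Mon1.twist M.hψ n⟩

theorem Mon.mem_N_of {s b : G} (hs : Cl ψ s (ef none)) (hbs : b * s = s * b) {g : Co0} (hg : Rl e b g) : g ∈ N := by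
  rw [H89Mono.mem_N_iff']
  have h1 := M.cl_conj hs hg
  have h2 : b * s * b⁻¹ = s := by rw [hbs]; group
  rw [h2] at h1
  exact M.cl_unique hs h1

/-- odd order lift -/
theorem Mon.exists_odd_lift {b : G} (hbz : b ∈ Subgroup.centralizer ({z} : Set G)) {p : ℕ} (hp : Odd p) (hb : b ^ p = 1) :
    ∃ g : Co0, Rl e b g ∧ g ^ p = 1 := by
  obtain ⟨g, hg⟩ := exists_g e hbz
  have h1 := hg.pow p
  rw [hb] at h1
  rcases (Rl.one (e := e)).eq h1 with h2 | h2
  · exact ⟨g, hg, h2⟩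
  · refine ⟨negOne * g, hg.negOne, ?_⟩
    have hc : Commute negOne g := (Subgroup.mem_center_iff.1 negOne_mem_center g).symm
    have h3 : negOne ^ p = negOne := by
      obtain ⟨m, rfl⟩ := hp
      rw [pow_succ, pow_mul, pow_two, negOne_sq, one_pow, one_mul]
    rw [hc.mul_pow, h2, h3, mul_one, negOne_sq]

/-- standard position of an element of odd prime order -/
theorem Mon.std_pos {s : G} (hs : Cl ψ s (ef none)) {b : G} (hbz : b ∈ Subgroup.centralizer ({z} : Set G))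
    (hbs : b * s = s * b) {p : ℕ} [Fact p.Prime] (hp : Odd p) (hb : orderOf b = p) {β : Co0} (hβ : orderOf β = p)
    (hconj : ∀ g ∈ N, Rl e b g → g ^ p = 1 → ∃ n ∈ N, ∃ k : ℤ, n * g ^ k * n⁻¹ = β) :
    ∃ (e' : (Subgroup.centralizer ({z} : Set G)) ⧸ Q ≃* Spor.Co1) (ψ' : leechLattice → Q ⧸ Subgroup.center Q) (b' : G),
      Mon z Q e' ψ' ∧ Cl ψ' s (ef none) ∧ Subgroup.zpowers b' = Subgroup.zpowers b ∧ Rl e' b' β := by
  have hpp : p.Prime := Fact.out
  obtain ⟨g, hg, hgp⟩ := M.exists_odd_lift hbz hp (hb ▸ pow_orderOf_eq_one b)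
  have hgN := M.mem_N_of hs hbs hg
  obtain ⟨n, hn, k, hk⟩ := hconj g hgN hg hgp
  have hbk : Rl (e.trans (MulAut.conj (QuotientGroup.mk n : Spor.Co1))) (b ^ k) β := by
    rw [← hk]; exact (Rl.zpow hg k).twist n
  refine ⟨_, _, b ^ k, M.twist' n, ?_, ?_, hbk⟩
  · have h1 := hs.twist n
    exact (M.twist' n).cl_congr h1 (dbl_symm (H89Mono.mem_N_iff'.1 hn))
  · have hle : Subgroup.zpowers (b ^ k) ≤ Subgroup.zpowers b := by
      rw [Subgroup.zpowers_le]; exact ⟨k, rfl⟩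
    have hc : Nat.card (Subgroup.zpowers b) = p := by rw [Nat.card_zpowers, hb]
    have hdvd : Nat.card (Subgroup.zpowers (b ^ k)) ∣ p := hc ▸ Subgroup.card_dvd_of_le hle
    rcases (Nat.dvd_prime hpp).1 hdvd with h1 | h1
    · exfalso
      have h2 : b ^ k = 1 := by
        have : Subgroup.zpowers (b ^ k) = ⊥ := Subgroup.eq_bot_of_card_eq _ h1
        exact Subgroup.zpowers_eq_bot.1 this
      rw [h2] at hbk
      rcases (Rl.one (e := e.trans (MulAut.conj (QuotientGroup.mk n : Spor.Co1)))).eq hbk with h3 | h3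
      · rw [h3, orderOf_one] at hβ
        exact hpp.one_lt.ne hβ
      · have h4 : β ^ 2 = 1 := by rw [h3, mul_one, pow_two, negOne_sq]
        have h5 : p ∣ 2 := hβ ▸ orderOf_dvd_of_pow_eq_one h4
        have h6 := (Nat.prime_dvd_prime_iff_eq hpp Nat.prime_two).1 h5
        rw [h6] at hp
        exact absurd hp (by decide)
    · exact Subgroup.eq_of_le_of_card_ge hle (by rw [h1, hc])

end

/-! ### counting the conjugates of `z` -/

section
variable [Finite G] (M : Mon z Q e ψ) {b : G} {β : Co0} {p : ℕ} (hr : Rl e b β) (hp : Odd p) (hb : b ^ p = 1)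
  (hβ : β ^ p = 1)
  [hn : ((Subgroup.zpowers b).subgroupOf (Subgroup.centralizer (Subgroup.zpowers b : Set G))).Normal]
  (hzB : z ∈ Subgroup.centralizer (Subgroup.zpowers b : Set G))
include M hr hp hb hβ

/-- the type 4 fixed classes -/
def T4 (β : Co0) : Set Q2 := {x | x ∈ FixS β ∧ x ∈ q2 '' Sn 64}

theorem Mon.isConj_iff {x : AB z (Subgroup.zpowers b)} (hx : (x : G) ∈ QG Q) :
    IsConj (zB hzB) ((fB hzB x : ↥(Subgroup.centralizer ({zB hzB} : Set (HB (Subgroup.zpowers b))))) : HB (Subgroup.zpowers b)) ↔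
      ∃ y ∈ Subgroup.centralizer (Subgroup.zpowers b : Set G), y * z * y⁻¹ = x := by
  rw [_root_.isConj_iff]
  constructor
  · rintro ⟨c, hc⟩
    obtain ⟨⟨c, hcB⟩, rfl⟩ := QuotientGroup.mk_surjective c
    refine ⟨c, hcB, ?_⟩
    have h1 : (QuotientGroup.mk (⟨c * z * c⁻¹, mul_mem (mul_mem hcB hzB) (inv_mem hcB)⟩ :
      ↥(Subgroup.centralizer (Subgroup.zpowers b : Set G))) : HB (Subgroup.zpowers b)) = QuotientGroup.mk ⟨x, x.2.2⟩ := hc
    rw [QuotientGroup.eq, Subgroup.mem_subgroupOf] at h1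
    have h2 : (c * z * c⁻¹)⁻¹ * (x : G) ∈ Subgroup.zpowers b := h1
    set u := (c * z * c⁻¹)⁻¹ * (x : G) with hu
    have h3 : (x : G) = c * z * c⁻¹ * u := by rw [hu, mul_inv_cancel_left]
    have hcu : Commute (c * z * c⁻¹) u := by
      have h4 := mul_mem (mul_mem hcB hzB) (inv_mem hcB)
      have h5 := Subgroup.mem_centralizer_iff.1 h4 u h2
      exact h5.symm
    obtain ⟨k, hk⟩ := M.pre.isP ⟨x, hx⟩
    have hk' : (x : G) ^ 2 ^ k = 1 := congrArg Subtype.val hk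
    have h6 : u ^ 2 ^ (k + 1) = 1 := by
      have h7 : (x : G) ^ 2 ^ (k + 1) = (c * z * c⁻¹) ^ 2 ^ (k + 1) * u ^ 2 ^ (k + 1) := by
        rw [h3, hcu.mul_pow]
      have h8 : (c * z * c⁻¹) ^ 2 ^ (k + 1) = 1 := by
        rw [_root_.conj_pow, pow_succ 2 k, mul_comm (2 ^ k) 2, pow_mul, pow_two, M.pre.sq, one_pow]; group
      rw [h8, one_mul] at h7
      rw [← h7, pow_succ 2 k, pow_mul, hk', one_pow]
    have h9 := odd_trivial (odd_card hp hb) h2 h6
    rw [h3, h9, mul_one]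
  · rintro ⟨y, hy, h⟩
    refine ⟨QuotientGroup.mk ⟨y, hy⟩, ?_⟩
    rw [fB_coe]
    show QuotientGroup.mk (⟨y * z * y⁻¹, _⟩ : ↥(Subgroup.centralizer (Subgroup.zpowers b : Set G))) = _
    congr 1
    exact Subtype.ext h

theorem Mon.ncard_conj (hmove : ∀ (s : G) (v : leechLattice), Cl ψ s v → sqNorm (v : GolayPt → ℤ) = 64 →
      s ∈ Subgroup.centralizer (Subgroup.zpowers b : Set G) →
      ∃ x ∈ Subgroup.centralizer (Subgroup.zpowers b : Set G), x * z * x⁻¹ = s)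
    (hno : ∀ (s : G), s ∈ QG Q → IsConj z s → s ≠ z → ∃ v : leechLattice, sqNorm (v : GolayPt → ℤ) = 64 ∧ Cl ψ s v) :
    Set.ncard {x : ↥(Subgroup.centralizer ({zB hzB} : Set (HB (Subgroup.zpowers b)))) | x ∈ RB Q hzB ∧ IsConj (zB hzB) (x : HB (Subgroup.zpowers b))} =
      1 + 2 * (T4 β).ncard := by
  classical
  -- an element for each class
  have hex : ∀ x : T4 β, ∃ y : AB z (Subgroup.zpowers b), ∃ v : leechLattice, Cl ψ (y : G) v ∧ q2 v = x.1 ∧
      sqNorm (v : GolayPt → ℤ) = 64 := by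
    rintro ⟨x, hx, v, hv, rfl⟩
    obtain ⟨s, hs⟩ := M.exists_el v
    have h1 : s ∈ Subgroup.centralizer (Subgroup.zpowers b : Set G) := by
      rw [M.comm_iff_fix hr hp hb hs, ← mem_FixS hp hβ]; exact hx
    have h2 : s ∈ AB z (Subgroup.zpowers b) := by
      obtain ⟨d, hd, rfl⟩ := hs.mem
      exact ⟨d.2, h1⟩
    exact ⟨⟨s, h2⟩, v, hs, rfl, hv⟩
  choose y v hy hv hv64 using hex
  let zA : AB z (Subgroup.zpowers b) := ⟨z, Subgroup.mem_centralizer_singleton_iff.2 rfl, hzB⟩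
  have hneq : ∀ x : T4 β, (y x : G) ≠ 1 ∧ (y x : G) ≠ z := fun x =>
    M.ne_of_short (hy x) (ne_zero_of_norm (hv64 x) (by norm_num)) (by rw [hv64 x])
  have hyQ : ∀ x, (y x : G) ∈ QG Q := fun x => (hy x).mem
  have hzyQ : ∀ x, ((zA * y x : AB z (Subgroup.zpowers b)) : G) ∈ QG Q := fun x => mul_mem M.pre.mem (hyQ x)
  let S := {x : ↥(Subgroup.centralizer ({zB hzB} : Set (HB (Subgroup.zpowers b)))) | x ∈ RB Q hzB ∧ IsConj (zB hzB) (x : HB (Subgroup.zpowers b))}
  let F : Option (T4 β × Bool) → ↥(Subgroup.centralizer ({zB hzB} : Set (HB (Subgroup.zpowers b)))) := fun o =>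
    match o with
    | none => fB hzB zA
    | some (x, true) => fB hzB (zA * y x)
    | some (x, false) => fB hzB (y x)
  have hFinj : Function.Injective F := by
    have key : ∀ a c : AB z (Subgroup.zpowers b), (a : G) ∈ QG Q → (c : G) ∈ QG Q → fB hzB a = fB hzB c → (a : G) = c :=
      fun a c ha hc h => congrArg Subtype.val (M.fB_inj hr hp hb hβ hzB ha hc h)
    have hcls : ∀ x x' : T4 β, Cl ψ (y x : G) (v x') → x = x' := by
      intro x x' h
      apply Subtype.ext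
      rw [← hv x, ← hv x']
      exact q2_eq_iff.2 (M.cl_unique (hy x) h)
    rintro (_ | ⟨x, _ | _⟩) (_ | ⟨x', _ | _⟩) h
    · rfl
    · exact ((hneq x').2 (key _ _ M.pre.mem (hyQ x') h).symm).elim
    · have h1 : z = z * (y x' : G) := key _ _ M.pre.mem (hzyQ x') h
      exact ((hneq x').1 (mul_eq_left.1 h1.symm)).elim
    · exact ((hneq x).2 (key _ _ (hyQ x) M.pre.mem h)).elim
    · have h1 : (y x : G) = y x' := key _ _ (hyQ x) (hyQ x') h
      have h2 := hcls x x' (h1 ▸ hy x')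
      rw [h2]
    · have h1 : (y x : G) = z * (y x' : G) := key _ _ (hyQ x) (hzyQ x') h
      have h2 := hcls x x' (h1 ▸ M.cl_z_mul (hy x'))
      rw [h2] at h1
      exact (M.pre.ne (mul_eq_right.1 h1.symm)).elim
    · have h1 : z * (y x : G) = z := key _ _ (hzyQ x) M.pre.mem h
      exact ((hneq x).1 (mul_eq_left.1 h1)).elim
    · have h1 : z * (y x : G) = (y x' : G) := key _ _ (hzyQ x) (hyQ x') h
      have h3 : (y x : G) = z * y x' := by rw [← h1, ← mul_assoc, M.pre.sq, one_mul]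
      have h2 := hcls x x' (h3 ▸ M.cl_z_mul (hy x'))
      rw [h2] at h1
      exact (M.pre.ne (mul_eq_right.1 h1)).elim
    · have h1 : z * (y x : G) = z * (y x' : G) := key _ _ (hzyQ x) (hzyQ x') h
      have h3 : (y x : G) = y x' := mul_left_cancel h1
      have h2 := hcls x x' (h3 ▸ hy x')
      rw [h2]
  have hrange : Set.range F = S := by
    ext w
    constructor
    · rintro ⟨(_ | ⟨x, _ | _⟩), rfl⟩
      · exact ⟨⟨zA, M.pre.mem, rfl⟩, (M.isConj_iff hr hp hb hβ hzB M.pre.mem).2 ⟨1, one_mem _, by simp [zA]⟩⟩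
      · exact ⟨⟨y x, hyQ x, rfl⟩, (M.isConj_iff hr hp hb hβ hzB (hyQ x)).2 (hmove _ _ (hy x) (hv64 x) (y x).2.2)⟩
      · exact ⟨⟨zA * y x, hzyQ x, rfl⟩, (M.isConj_iff hr hp hb hβ hzB (hzyQ x)).2
          (hmove _ _ (M.cl_z_mul (hy x)) (hv64 x) (zA * y x).2.2)⟩
    · rintro ⟨⟨a, ha, rfl⟩, hc⟩
      have ha' : (a : G) ∈ QG Q := ha
      rw [M.isConj_iff hr hp hb hβ hzB ha'] at hc
      obtain ⟨c, hcB, hca⟩ := hc
      by_cases h1 : (a : G) = z
      · refine ⟨none, ?_⟩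
        show fB hzB zA = fB hzB a
        congr 1
        exact Subtype.ext h1.symm
      · obtain ⟨w, hw, hcl⟩ := hno (a : G) ha' (_root_.isConj_iff.2 ⟨c, hca⟩) h1
        have h2 : q2 w ∈ T4 β := by
          refine ⟨?_, w, hw, rfl⟩
          rw [mem_FixS hp hβ, ← M.comm_iff_fix hr hp hb hcl]
          exact a.2.2
        have h3 : Cl ψ (a : G) (v ⟨_, h2⟩) := by
          apply M.cl_congr hcl
          exact q2_eq_iff.1 (hv ⟨_, h2⟩).symm
        rcases M.cl_eq (hy ⟨_, h2⟩) h3 with h4 | h4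
        · exact ⟨some (⟨_, h2⟩, false), by show fB hzB (y _) = fB hzB a; congr 1; exact Subtype.ext h4.symm⟩
        · exact ⟨some (⟨_, h2⟩, true), by show fB hzB (zA * y _) = fB hzB a; congr 1; exact Subtype.ext h4.symm⟩
  show S.ncard = _
  haveI : Finite Q2 := finite_Q2
  rw [← hrange, ← Set.image_univ, Set.ncard_image_of_injective _ hFinj, Set.ncard_univ, Finite.card_option,
    Nat.card_prod, Nat.card_coe_set_eq]
  simp [Nat.card_eq_fintype_card]
  ring

end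

end Cfsg.Agent.Lib.H89Mon1
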