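import Cfsg.Agent.Lib.H89FixRank
import Cfsg.Agent.Lib.H89MonP3

/-!
# Tables of the fixed classes of the Leech lattice modulo 2 (helper89)
-/

set_option autoImplicit false
set_option linter.all false

namespace Cfsg.Agent.Lib.H89FixTab

open Cfsg Cfsg.Agent.Lib.Golay Cfsg.Agent.Lib.LeechMin Cfsg.Agent.Lib.H89LeechMat Cfsg.Agent.Lib.H89Mon1
  Cfsg.Agent.Lib.LeechQuot Cfsg.Agent.Lib.LeechOrder Cfsg.Agent.Lib.H89Mono Cfsg.Agent.Lib.H89FixRank
open scoped Pointwise

/-! ### membership test with natural coordinates -/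

def maskN (f : ℕ → ℕ) : ℕ := orLt 24 fun i =>
  cond (Nat.beq (Nat.mod (Nat.sub (Nat.add (f i) 4) (Nat.mod (f 0) 2)) 4) 2) (Nat.shiftLeft 1 i) 0

def latN (f : ℕ → ℕ) : Bool :=
  cond (allLt 24 fun i => Nat.beq (Nat.mod (f i) 2) (Nat.mod (f 0) 2))
    (cond (isCode (maskN f))
      (Nat.beq (Nat.mod (Nat.sub (Nat.add (ns 24 f) 8) (Nat.mul 4 (Nat.mod (f 0) 2))) 8) 0) false) false

theorem maskN_lt (f : ℕ → ℕ) : maskN f < 2 ^ 24 := by
  apply Nat.lt_of_testBit 24
  · apply Bool.eq_false_iff.2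
    intro h
    rw [maskN, testBit_orLt] at h
    obtain ⟨i, hi, h⟩ := h
    revert h
    cases Nat.beq (Nat.mod (Nat.sub (Nat.add (f i) 4) (Nat.mod (f 0) 2)) 4) 2
    · simp
    · intro h
      have := (testBit_one_shiftLeft i 24).1 h
      omega
  · decide
  · intro j hj
    have h1 : (2 ^ 24 : ℕ).testBit j = false := by
      rw [Nat.testBit_two_pow]
      simp; omega
    rw [h1]
    apply Bool.eq_false_iff.2
    intro h
    rw [maskN, testBit_orLt] at h
    obtain ⟨i, hi, h⟩ := h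
    revert h
    cases Nat.beq (Nat.mod (Nat.sub (Nat.add (f i) 4) (Nat.mod (f 0) 2)) 4) 2
    · simp
    · intro h
      have := (testBit_one_shiftLeft i j).1 h
      omega

theorem testBit_maskN (f : ℕ → ℕ) {i : ℕ} (hi : i < 24) :
    (maskN f).testBit i = true ↔ (f i + 4 - f 0 % 2) % 4 = 2 := by
  rw [maskN, testBit_orLt]
  constructor
  · rintro ⟨j, hj, h⟩
    cases hb : Nat.beq (Nat.mod (Nat.sub (Nat.add (f j) 4) (Nat.mod (f 0) 2)) 4) 2
    · rw [hb] at h; simp at h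
    · rw [hb] at h
      have h1 := (testBit_one_shiftLeft j i).1 h
      rw [h1] at hb
      exact Nat.eq_of_beq_eq_true hb
  · intro h
    refine ⟨i, hi, ?_⟩
    have hb : Nat.beq (Nat.mod (Nat.sub (Nat.add (f i) 4) (Nat.mod (f 0) 2)) 4) 2 = true := by
      rw [Nat.beq_eq]; exact h
    rw [hb]
    exact (testBit_one_shiftLeft i i).2 rfl

theorem latN_mem {f : ℕ → ℕ} (h : latN f = true) (k : ℤ) : (fun p : GolayPt => (f (ix p) : ℤ) - 8 * k) ∈ leechLattice := by
  obtain ⟨h1, h2⟩ := cond_false_eq.mp h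
  obtain ⟨h2, h3⟩ := cond_false_eq.mp h2
  rw [mem_lattice_iff']
  have h1' : ∀ i < 24, f i % 2 = f 0 % 2 := fun i hi => Nat.eq_of_beq_eq_true (allLt_iff.mp h1 i hi)
  have h3' : (ns 24 f + 8 - 4 * (f 0 % 2)) % 8 = 0 := Nat.eq_of_beq_eq_true h3
  refine ⟨((f 0 % 2 : ℕ) : ℤ), mset (maskN f), ?_, ?_, ?_⟩
  · exact (mset_mem_supports_iff (maskN_lt f)).2 h2
  · intro p
    have h4 := h1' (ix p) (ix_lt p)
    have h5 := testBit_maskN f (ix_lt p)
    have h6 : chi (mset (maskN f)) p = if (maskN f).testBit (ix p) = true then 1 else 0 := by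
      simp [chi, mem_mset]
    rw [h6]
    show (4 : ℤ) ∣ (f (ix p) : ℤ) - 8 * k - _ - _
    by_cases hb : (maskN f).testBit (ix p) = true
    · rw [if_pos hb]
      have h8 := h5.1 hb
      omega
    · rw [if_neg hb]
      have h8 : ¬ ((f (ix p) + 4 - f 0 % 2) % 4 = 2) := fun h => hb (h5.2 h)
      omega
  · have h4 : ∑ i : GolayPt, ((f (ix i) : ℤ) - 8 * k) = (ns 24 f : ℤ) - 192 * k := by
      rw [sum_ix (fun i => (f i : ℤ) - 8 * k), ns_eq]
      push_cast
      rw [Finset.sum_sub_distrib]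
      simp
      ring
    rw [h4]
    omega

/-! ### combinations -/

/-- the vector of code `c`, zero if not in the lattice -/
noncomputable def lw (c : ℕ) : leechLattice := by
  classical
  exact if h : latC c = true then ⟨vv c, vv_mem h⟩ else 0

theorem coe_lw {c : ℕ} (h : latC c = true) : (lw c : GolayPt → ℤ) = vv c := by
  unfold lw
  rw [dif_pos h]

/-- sum of the vectors of `U` selected by `a` -/
noncomputable def cmb (U : List ℕ) (r a : ℕ) : leechLattice :=
  ∑ k ∈ Finset.range r, if a.testBit k = true then lw (U.getD k 0) else 0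

/-- natural coordinates of the half of the difference -/
def hf (U : List ℕ) (r a s i : ℕ) : ℕ :=
  Nat.div (Nat.sub (Nat.add (ns r fun k => cond (a.testBit k) (img (U.getD k 0) i) 16) 32) (img s i)) 2

def cmbOK (U : List ℕ) (r a s : ℕ) : Bool :=
  cond (latC s) (cond (latN (hf U r a s))
    (allLt 24 fun i => Nat.beq (Nat.mod (Nat.sub (Nat.add (ns r fun k => cond (a.testBit k) (img (U.getD k 0) i) 16) 32) (img s i)) 2) 0)
    false) false

theorem cmb_apply {U : List ℕ} {r : ℕ} (hU : ∀ k < r, latC (U.getD k 0) = true) (a : ℕ) (p : GolayPt) :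
    (cmb U r a : GolayPt → ℤ) p =
      ((ns r fun k => cond (a.testBit k) (img (U.getD k 0) (ix p)) 16 : ℕ) : ℤ) - 16 * r := by
  have h1 : (cmb U r a : GolayPt → ℤ) p =
      ∑ k ∈ Finset.range r, (if a.testBit k = true then dv (U.getD k 0) (ix p) else 0) := by
    unfold cmb
    rw [AddSubgroup.val_finset_sum, Finset.sum_apply]
    apply Finset.sum_congr rfl
    intro k hk
    split_ifs with h
    · rw [coe_lw (hU k (Finset.mem_range.1 hk))]; rfl
    · rfl
  rw [h1, ns_eq]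
  push_cast
  have h2 : (16 : ℤ) * r = ∑ k ∈ Finset.range r, 16 := by simp [mul_comm]
  rw [h2, ← Finset.sum_sub_distrib]
  apply Finset.sum_congr rfl
  intro k hk
  cases h : a.testBit k
  · simp
  · simp [dv_eq]

theorem cmbOK_spec {U : List ℕ} {r : ℕ} (hU : ∀ k < r, latC (U.getD k 0) = true) {a s : ℕ} (h : cmbOK U r a s = true) :
    latC s = true ∧ dbl (cmb U r a) (lw s) := by
  obtain ⟨h1, h2⟩ := cond_false_eq.mp h
  obtain ⟨h2, h3⟩ := cond_false_eq.mp h2
  refine ⟨h1, ⟨⟨_, latN_mem h2 (r + 1)⟩, ?_⟩⟩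
  apply Subtype.ext
  funext p
  show (cmb U r a : GolayPt → ℤ) p - (lw s : GolayPt → ℤ) p =
    ((hf U r a s (ix p) : ℕ) : ℤ) - 8 * (r + 1) + (((hf U r a s (ix p) : ℕ) : ℤ) - 8 * (r + 1))
  rw [cmb_apply hU, coe_lw h1]
  have h4 : vv s p = (img s (ix p) : ℤ) - 16 := dv_eq _ _
  rw [h4]
  have h5 : ((ns r fun k => cond (a.testBit k) (img (U.getD k 0) (ix p)) 16) + 32 - img s (ix p)) % 2 = 0 :=
    Nat.eq_of_beq_eq_true (allLt_iff.mp h3 (ix p) (ix_lt p))
  have h6 : hf U r a s (ix p) = ((ns r fun k => cond (a.testBit k) (img (U.getD k 0) (ix p)) 16) + 32 - img s (ix p)) / 2 := rfl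
  have h7 := img_lt_32 s (ix p)
  rw [h6]
  omega

theorem q2_add (v w : leechLattice) : q2 (v + w) = q2 v + q2 w := rfl

theorem q2_self (x : Q2) : x + x = 0 := by
  obtain ⟨v, rfl⟩ := QuotientAddGroup.mk_surjective x
  show q2 (v + v) = q2 0
  rw [q2_eq_iff]
  exact ⟨v, by abel⟩

theorem q2_cmb_xor (U : List ℕ) (r a b : ℕ) : q2 (cmb U r (a ^^^ b)) = q2 (cmb U r a) + q2 (cmb U r b) := by
  have h0 : ∀ c, q2 (cmb U r c) = ∑ k ∈ Finset.range r, if c.testBit k = true then q2 (lw (U.getD k 0)) else 0 := by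
    intro c
    unfold cmb
    show (QuotientAddGroup.mk' D2) _ = _
    rw [map_sum]
    apply Finset.sum_congr rfl
    intro k _
    split_ifs <;> rfl
  rw [h0, h0, h0, ← Finset.sum_add_distrib]
  apply Finset.sum_congr rfl
  intro k _
  rw [Nat.testBit_xor]
  cases a.testBit k <;> cases b.testBit k <;> simp [q2_self]

/-- the table -/
def tabOK (c r : ℕ) (U S : List ℕ) : Bool :=
  cond (allLt r fun k => cond (latC (U.getD k 0))
      (allLt 24 fun i => Nat.beq (img (U.getD k 0) (img c i)) (img (U.getD k 0) i)) false)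
    (allLt (2 ^ r) fun a => cond (cmbOK U r a (S.getD a 0))
      (cond (Nat.beq a 0) true (cond (decide (idot (S.getD a 0) (S.getD a 0) = 32)) true
        (cond (decide (idot (S.getD a 0) (S.getD a 0) = 48)) true
          (decide (idot (S.getD a 0) (S.getD a 0) = 64))))) false) false

section
variable {c r n : ℕ} {ob st U S : List ℕ} (hM : inM c = true) (ho : orbOK c r n ob st = true)
  (ht : tabOK c r U S = true)
include hM ho ht

omit hM ho in
theorem tab_U {k : ℕ} (hk : k < r) : latC (U.getD k 0) = true :=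
  (cond_false_eq.mp (allLt_iff.mp (cond_false_eq.mp ht).1 k hk)).1

omit ho in
theorem tab_FL {k : ℕ} (hk : k < r) : lw (U.getD k 0) ∈ FL (pC c hM) := by
  have h1 := (cond_false_eq.mp (allLt_iff.mp (cond_false_eq.mp ht).1 k hk)).2
  rw [mem_FL_pC]
  intro p
  rw [coe_lw (tab_U ht hk)]
  show dv _ (ix (toPerm c p)) = dv _ (ix p)
  unfold dv
  rw [ix_toPerm (valid_of_inM hM), Nat.eq_of_beq_eq_true (allLt_iff.mp h1 (ix p) (ix_lt p))]

omit ho in
theorem tab_cmb_FL (a : ℕ) : cmb U r a ∈ FL (pC c hM) := by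
  unfold cmb
  apply AddSubgroup.sum_mem
  intro k hk
  split_ifs
  · exact tab_FL hM ht (Finset.mem_range.1 hk)
  · exact AddSubgroup.zero_mem _

omit hM ho in
theorem tab_S {a : ℕ} (ha : a < 2 ^ r) : latC (S.getD a 0) = true ∧ dbl (cmb U r a) (lw (S.getD a 0)) := by
  have h1 := (cond_false_eq.mp (allLt_iff.mp (cond_false_eq.mp ht).2 a ha)).1
  exact cmbOK_spec (fun k hk => tab_U ht hk) h1

omit hM ho in
theorem tab_norm {a : ℕ} (ha : a < 2 ^ r) (h0 : a ≠ 0) : sqNorm (lw (S.getD a 0) : GolayPt → ℤ) = 32 ∨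
    sqNorm (lw (S.getD a 0) : GolayPt → ℤ) = 48 ∨ sqNorm (lw (S.getD a 0) : GolayPt → ℤ) = 64 := by
  have h1 := (cond_false_eq.mp (allLt_iff.mp (cond_false_eq.mp ht).2 a ha)).2
  rw [coe_lw (tab_S ht ha).1, sqNorm_vv]
  have hb : Nat.beq a 0 = false := by
    apply Bool.eq_false_iff.2
    intro h; exact h0 (Nat.eq_of_beq_eq_true h)
  rw [hb] at h1
  cases h2 : decide (idot (S.getD a 0) (S.getD a 0) = 32)
  · rw [h2] at h1
    cases h3 : decide (idot (S.getD a 0) (S.getD a 0) = 48)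
    · rw [h3] at h1
      exact Or.inr (Or.inr (of_decide_eq_true h1))
    · exact Or.inr (Or.inl (of_decide_eq_true h3))
  · exact Or.inl (of_decide_eq_true h2)

omit hM ho in
theorem tab_q2 {a : ℕ} (ha : a < 2 ^ r) : q2 (cmb U r a) = q2 (lw (S.getD a 0)) := q2_eq_iff.2 (tab_S ht ha).2

omit hM ho in
theorem cmb_ne_zero {a : ℕ} (ha : a < 2 ^ r) (h0 : a ≠ 0) : q2 (cmb U r a) ≠ 0 := by
  intro h
  rw [tab_q2 ht ha] at h
  have h1 : sqNorm (lw (S.getD a 0) : GolayPt → ℤ) ≤ 64 := by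
    rcases tab_norm ht ha h0 with h | h | h <;> rw [h] <;> norm_num
  have h2 : sqNorm ((0 : leechLattice) : GolayPt → ℤ) = 0 := by simp [sqNorm]
  have h3 := sqNorm_eq_of_q2 h1 (w := 0) (by rw [h2]; norm_num) h
  rw [h2] at h3
  rcases tab_norm ht ha h0 with h | h | h <;> rw [h] at h3 <;> norm_num at h3

omit hM ho in
theorem cmb_inj {a b : ℕ} (ha : a < 2 ^ r) (hb : b < 2 ^ r) (h : q2 (cmb U r a) = q2 (cmb U r b)) : a = b := by
  by_contra hne
  have h1 : a ^^^ b < 2 ^ r := Nat.xor_lt_two_pow ha hb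
  have h2 : a ^^^ b ≠ 0 := fun h' => hne (Nat.xor_eq_zero_iff.1 h')
  apply cmb_ne_zero ht h1 h2
  rw [q2_cmb_xor, h, q2_self]

theorem exists_cmb {x : Q2} (hx : x ∈ FixS (pC c hM)) : ∃ a < 2 ^ r, x = q2 (cmb U r a) := by
  classical
  haveI : Finite Q2 := finite_Q2
  let f : Fin (2 ^ r) → FixS (pC c hM) := fun a => ⟨q2 (cmb U r a), ⟨_, tab_cmb_FL hM ht a, rfl⟩⟩
  have hf : Function.Injective f := by
    intro a b h
    exact Fin.ext (cmb_inj ht a.2 b.2 (congrArg Subtype.val h))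
  have hb : Function.Bijective f := by
    apply hf.bijective_of_nat_card_le
    rw [card_FixS_pC hM ho, Nat.card_eq_fintype_card, Fintype.card_fin]
  obtain ⟨a, ha⟩ := hb.2 ⟨x, hx⟩
  exact ⟨a, a.2, (congrArg Subtype.val ha).symm⟩

omit ho in
theorem cmb_mem_FixS (a : ℕ) : q2 (cmb U r a) ∈ FixS (pC c hM) := ⟨_, tab_cmb_FL hM ht a, rfl⟩

omit ho in
theorem mem_T4_iff {a : ℕ} (ha : a < 2 ^ r) :
    q2 (cmb U r a) ∈ T4 (pC c hM) ↔ idot (S.getD a 0) (S.getD a 0) = 64 := by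
  have hS := tab_S ht ha
  constructor
  · rintro ⟨-, v, hv, h⟩
    have hv' : sqNorm (v : GolayPt → ℤ) = 64 := hv
    rw [tab_q2 ht ha] at h
    by_cases h0 : a = 0
    · exfalso
      have h1 : q2 (cmb U r a) = 0 := by
        subst h0
        have : cmb U r 0 = 0 := by simp [cmb]
        rw [this]; rfl
      rw [tab_q2 ht ha, ← h] at h1
      have h2 : sqNorm ((0 : leechLattice) : GolayPt → ℤ) = 0 := by simp [sqNorm]
      have h3 := sqNorm_eq_of_q2 (v := v) (w := 0) (by rw [hv']) (by rw [h2]; norm_num) h1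
      rw [h2, hv'] at h3
      norm_num at h3
    · have h1 : sqNorm (lw (S.getD a 0) : GolayPt → ℤ) ≤ 64 := by
        rcases tab_norm ht ha h0 with h | h | h <;> rw [h] <;> norm_num
      have h3 := sqNorm_eq_of_q2 (by rw [hv']) h1 h
      rw [hv', coe_lw hS.1, sqNorm_vv] at h3
      exact h3.symm
  · intro h
    refine ⟨cmb_mem_FixS hM ht a, lw (S.getD a 0), ?_, (tab_q2 ht ha).symm⟩
    show sqNorm _ = 64
    rw [coe_lw hS.1, sqNorm_vv, h]

theorem ncard_T4 : (T4 (pC c hM)).ncard = cntLt (2 ^ r) (fun a => decide (idot (S.getD a 0) (S.getD a 0) = 64)) := by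
  rw [cntLt_eq]
  have h1 : T4 (pC c hM) = (fun a => q2 (cmb U r a)) '' (((Finset.range (2 ^ r)).filter fun a =>
      decide (idot (S.getD a 0) (S.getD a 0) = 64) = true : Finset ℕ) : Set ℕ) := by
    ext x
    constructor
    · intro hx
      obtain ⟨a, ha, rfl⟩ := exists_cmb hM ho ht hx.1
      refine ⟨a, ?_, rfl⟩
      rw [Finset.mem_coe, Finset.mem_filter, Finset.mem_range, decide_eq_true_iff]
      exact ⟨ha, (mem_T4_iff hM ht ha).1 hx⟩
    · rintro ⟨a, ha, rfl⟩
      rw [Finset.mem_coe, Finset.mem_filter, Finset.mem_range, decide_eq_true_iff] at ha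
      exact (mem_T4_iff hM ht ha.1).2 ha.2
  rw [h1, Set.ncard_image_of_injOn, Set.ncard_coe_finset]
  intro a ha b hb h
  rw [Finset.mem_coe, Finset.mem_filter, Finset.mem_range] at ha hb
  exact cmb_inj ht ha.1 hb.1 h

end

end Cfsg.Agent.Lib.H89FixTab
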