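import Cfsg.Agent.Lib.H92Ty22
import Cfsg.Agent.Lib.FiO8H

/-!
# Facts about the subgroup `O₈⁺(2):S₃` of the presented group `Fi₂₂`
-/

set_option autoImplicit false
set_option linter.all false

namespace Cfsg.Agent.Lib.FiO8

open Cfsg Cfsg.Agent.Lib.ThreeRank3 Cfsg.Agent.Lib.ThreeDescent Cfsg.Agent.Lib.ThreeQuot
  Cfsg.Agent.Lib.FiPar Cfsg.Agent.Lib.FiMu Cfsg.Agent.Lib.FiLoc Cfsg.Agent.Lib.ThreeTypes Cfsg.Agent.Lib.ThreeSimple
  Cfsg.Agent.Lib.FiFix Cfsg.Agent.Lib.FiTet Cfsg.Agent.Lib.FiSevA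
open Cfsg.Agent.Lib.BenesWord Cfsg.Agent.Lib.Fi22Rel
open Cfsg.Agent.Lib.FiThB (P)

theorem main5472 {G : Type*} [Group G] [Finite G] {D : Set G} (hP : PSU62Simple) (hD : IsThreeTranspositionGroup D) (hprim : IsPrimitiveUnderConj D)
    (h : IsOfTypeM22 G D) : Nat.card (Subgroup.centralizer {a0}) = 18393661440 ∧
    (∀ y : P, y * ev x1 = ev x1 * y → y * ev x2 = ev x2 * y → ∃ i j : ℕ, y = ev x1 ^ i * ev x2 ^ j) ∧ Nonempty (↥II ≃* MulAut Om8) ∧
    (∀ y : P, y * ev x1 = ev x1 * y → y ∈ II) ∧ ∃ S : Sylow 5 P, ∀ y ∈ (S : Subgroup P), y ≠ 1 → ∃ g ∈ II, g * ev x1 * g⁻¹ = y := by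
  obtain ⟨L, hpar, _, _, hcm, hG⟩ := full22 hP hD hprim h
  obtain ⟨w, e, hw, he⟩ := FiIso22.exists_iso hD hprim h
  haveI : Fact (Nat.Prime 5) := ⟨by norm_num⟩
  have ha0 : e a0 ∈ D := by
    have h1 : (a0 : P) = PresentedGroup.of (C.gen 0) := C.x_of_lt Fi22A.L0 (c := 0) (by decide)
    rw [h1, he]
    exact hw.mem _
  have hca : Nat.card (Subgroup.centralizer {a0}) = 18393661440 := by
    have h1 : Nat.card (Subgroup.centralizer {e a0}) = 18393661440 := card_cent_of hD hprim (v := 3510) (by norm_num) hpar.card hG _ ha0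
    have h2 : Subgroup.centralizer {e a0} = (Subgroup.centralizer {a0}).map e.toMonoidHom := by
      ext y
      rw [Subgroup.mem_centralizer_singleton_iff, Subgroup.mem_map]
      constructor
      · intro hy
        refine ⟨e.symm y, ?_, e.apply_symm_apply y⟩
        rw [Subgroup.mem_centralizer_singleton_iff]
        apply e.injective
        rw [map_mul, map_mul, e.apply_symm_apply, hy]
      · rintro ⟨z, hz, rfl⟩
        rw [Subgroup.mem_centralizer_singleton_iff] at hz
        change e z * e a0 = e a0 * e z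
        rw [← map_mul, hz, map_mul]
    rw [h2] at h1
    rw [← h1]
    exact Nat.card_congr ((Subgroup.centralizer {a0}).equivMapOfInjective e.toMonoidHom e.injective).toEquiv
  have hn1 := x1_ne hca
  have hn2 := x2_ne hn1
  set E0 : Subgroup P := Subgroup.closure {ev x1, ev x2} with hE0
  have hcE : Nat.card E0 = 25 := card_E X_p1 X_p2 X_c hn1 hn2 X_f11 X_f12
  set EG : Subgroup G := E0.map e.toMonoidHom with hEG
  have hcEG : Nat.card EG = 25 := by
    rw [← hcE]
    exact (Nat.card_congr (E0.equivMapOfInjective e.toMonoidHom e.injective).toEquiv).symm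
  have hpg : IsPGroup 5 EG := IsPGroup.of_card (n := 2) (by rw [hcEG]; norm_num)
  obtain ⟨S, hS⟩ := hpg.exists_le_sylow
  obtain ⟨_, hS25, hSC, _⟩ := syl5_22 hP hD hprim h S
  have hSE : EG = (S : Subgroup G) := Subgroup.eq_of_le_of_card_ge hS (by rw [hS25, hcEG])
  have CE : ∀ y : P, y * ev x1 = ev x1 * y → y * ev x2 = ev x2 * y → ∃ i j : ℕ, y = ev x1 ^ i * ev x2 ^ j := by
    intro y h1 h2
    have h3 : e y ∈ Subgroup.centralizer ((S : Subgroup G) : Set G) := by
      rw [← hSE, Subgroup.mem_centralizer_iff]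
      rintro _ ⟨z, hz, rfl⟩
      have h4 : E0 ≤ Subgroup.centralizer {y} := by
        rw [hE0, Subgroup.closure_le]
        rintro x (rfl | hx)
        · rw [SetLike.mem_coe, Subgroup.mem_centralizer_singleton_iff]; exact h1.symm
        · rw [Set.mem_singleton_iff] at hx
          rw [hx, SetLike.mem_coe, Subgroup.mem_centralizer_singleton_iff]; exact h2.symm
      have h5 := Subgroup.mem_centralizer_singleton_iff.mp (h4 hz)
      change e z * e y = e y * e z
      rw [← map_mul, h5, map_mul]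
    rw [hSC, ← hSE] at h3
    obtain ⟨z, hz, hzy⟩ := h3
    have h6 : z = y := e.injective hzy
    rw [← h6]
    exact mem_E X_p1 X_p2 X_c hz
  obtain ⟨eI⟩ := main_P hca CE
  set IG : Subgroup G := (II : Subgroup P).map e.toMonoidHom with hIG
  have eIG : ↥(II : Subgroup P) ≃* ↥IG := (II : Subgroup P).equivMapOfInjective e.toMonoidHom e.injective
  have hclD : ∀ k : P, e (k * a0 * k⁻¹) ∈ D := by
    intro k
    rw [map_mul, map_mul, map_inv]
    exact hD.2.1 _ _ ha0
  have hmem : ∀ x : P, x ∈ II → e x ∈ IG := fun x hx => ⟨x, hx, rfl⟩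
  refine ⟨hca, CE, ⟨eI⟩, ?_, ?_⟩
  · intro y0 hy0
    have key : ∀ y : G, y * e (ev x1) = e (ev x1) * y → y ∈ IG := by
      intro y hy
      have hord : orderOf (e (ev x1)) = 5 := by
        apply orderOf_eq_prime
        · rw [← map_pow, X_p1, map_one]
        · intro h1
          exact hn1 (e.injective (by rw [h1, map_one]))
      set X : Subgroup G := Subgroup.zpowers (e (ev x1)) with hX
      have hXc : Nat.card X = 5 := by rw [hX, Nat.card_zpowers, hord]
      have hl : LocD D 5 4 ((4 + 1).factorial * 20) ((4 + 1).factorial * 5) X := five22 hP hD hprim h X hXc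
      obtain ⟨φ, F, hφ, hΩ, _, _, _, _, _, hWC, hdec, _⟩ := cent_dec hD (p := 5) (m := 4) (q := 20) (by norm_num) hXc (by norm_num) (by norm_num) hl
      have hyC : y ∈ Subgroup.centralizer (X : Set G) := by
        rw [hX, Subgroup.mem_centralizer_iff]
        rintro _ ⟨k, rfl⟩
        exact ((show Commute y (e (ev x1)) from hy).zpow_right k).eq.symm
      obtain ⟨f, hf, z, hz, rfl⟩ := hdec y hyC
      have hX1 : e (ev x1) ∈ IG := hmem _ (J_II X_x1J)
      have hXI : X ≤ IG := by rw [hX, Subgroup.zpowers_le]; exact hX1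
      have hWI : φ.range ≤ IG := by
        rw [← mem_range_of_closure, ← hΩ, Subgroup.closure_le]
        rintro d ⟨hd, hdX⟩
        obtain ⟨g', hg'⟩ := hprim.1 _ ha0 _ hd
        have h1 := (hdX _ (Subgroup.mem_zpowers (e (ev x1)))).eq
        obtain ⟨g, rfl⟩ := e.surjective g'
        have h2 : e (g * a0 * g⁻¹) = d := by rw [map_mul, map_mul, map_inv, hg']
        rw [← h2, ← map_mul, ← map_mul] at h1
        have h3 := fix_J hca g (e.injective h1)
        rw [← h2]
        exact hmem _ (J_II h3)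
      exact IG.mul_mem (hXI hf) (hWI hz)
    obtain ⟨z, hz, hzy⟩ := key (e y0) (by rw [← map_mul, hy0, map_mul])
    have h6 : z = y0 := e.injective hzy
    rw [← h6]; exact hz
  · haveI : Finite P := Finite.of_injective e e.injective
    have hpg0 : IsPGroup 5 E0 := IsPGroup.of_card (n := 2) (by rw [hcE]; norm_num)
    obtain ⟨S', hS'⟩ := hpg0.exists_le_sylow
    have hcS' : Nat.card (S' : Subgroup P) ≤ 25 := by
      have h1 : IsPGroup 5 ((S' : Subgroup P).map e.toMonoidHom) := S'.isPGroup'.map _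
      obtain ⟨S2, hS2⟩ := h1.exists_le_sylow
      obtain ⟨_, h3, _, _⟩ := syl5_22 hP hD hprim h S2
      rw [Nat.card_congr ((S' : Subgroup P).equivMapOfInjective e.toMonoidHom e.injective).toEquiv, ← h3]
      exact Subgroup.card_le_of_le hS2
    have hE : E0 = (S' : Subgroup P) := Subgroup.eq_of_le_of_card_ge hS' (by rw [hcE]; exact hcS')
    refine ⟨S', ?_⟩
    intro y hy hy1
    rw [← hE] at hy
    exact trans_E X_p1 X_p2 X_c X_f11 X_f12 X_f22 X_f21 X_r1 X_r2 II (J_II X_f1J) (J_II X_f2J) X_rI y hy hy1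

end Cfsg.Agent.Lib.FiO8
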