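import Cfsg.Agent.Lib.H89GA1
import Cfsg.Agent.Lib.H89GP
import Cfsg.Agent.Lib.H32Transf
import Cfsg.Agent.Lib.H67O8Stab

/-!
# The centralizer of the outer involution
-/

set_option autoImplicit false
set_option linter.all false
set_option maxRecDepth 100000

namespace Cfsg.Agent.Lib.H89GA

open Cfsg.Spor Cfsg.Agent.Lib.BenesPerm Cfsg.Agent.Lib.BenesAct Cfsg.Agent.Lib.BenesWord Cfsg.Agent.Lib.BenesPlane
open Cfsg.Agent.Lib.Fi22NetsA Cfsg.Agent.Lib.LaneTools Cfsg.Agent.Lib.TransLanes Cfsg.Agent.Lib.Fi22Out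
open Cfsg.Agent.Lib.Fi22Rel

/-- fixed points of an automorphism -/
def Fx {G : Type*} [Group G] (α : MulAut G) : Subgroup G where
  carrier := {g | α g = g}
  one_mem' := map_one α
  mul_mem' := fun {a b} ha hb => by
    show α (a * b) = a * b
    rw [map_mul, show α a = a from ha, show α b = b from hb]
  inv_mem' := fun {a} ha => by
    show α a⁻¹ = a⁻¹
    rw [map_inv, show α a = a from ha]

theorem mem_Fx {G : Type*} [Group G] {α : MulAut G} {g : G} : g ∈ Fx α ↔ α g = g := Iff.rfl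

/-- the nodes as lane entries -/
def NE : List LE := [(2, 1, []), (0, 0, []), (212, 1, [5, 4, 3, 7, 8, 2, 3, 7, 4, 3, 2]), (40, 4, []), (16, 3, []), (43, 7, []),
  (92, 8, []), (154, 6, []), (1302, 0, [5, 2, 3, 4, 1, 2, 3, 7, 8, 5, 3, 4, 2, 3, 7, 6, 5, 4, 3, 2, 1])]

theorem le_NE : lesK NE = true := by decide +kernel
theorem ne_bit : (NE.all (fun e => R360.testBit e.1)) = true := by decide +kernel
theorem ne_tw : NE.map tw = NL := by decide +kernel

theorem nd_word (i : ℕ) (hi : i < 9) : FiO8.nd (i + 1) = Wx xx (nw i) := by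
  have h : (FiO8.NW (i + 1)).flat iv = nw i := by
    interval_cases i <;> rfl
  rw [← h]
  exact (Wd.eval_flat xx iv (Fi22A.x_iv0) (FiO8.NW (i + 1))).symm

theorem nd_lane (i : ℕ) (hi : i < 9) : ∃ l, l < 3510 ∧ R360.testBit l = true ∧ FiO8.nd (i + 1) = T l := by
  have hlen : NE.length = 9 := rfl
  have hi' : i < NE.length := by rw [hlen]; exact hi
  have hm := List.getElem_mem hi'
  obtain ⟨h1, h2, _⟩ := T_entry (lesK_spec le_NE _ hm)
  have h3 := List.all_eq_true.1 ne_bit _ hm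
  refine ⟨_, h1, h3, ?_⟩
  rw [h2, nd_word i hi]
  congr 1
  unfold nw
  rw [← ne_tw]
  rw [List.getD_eq_getElem _ _ (by rw [List.length_map]; exact hi'), List.getElem_map]

/-- the subgroup -/
noncomputable abbrev II : Subgroup P := FiO8.II

theorem nd_II (i : ℕ) (hi : i < 9) : FiO8.nd (i + 1) ∈ II := by
  rcases Nat.lt_or_ge i 8 with h | h
  · exact FiO8.J_II (FiO8.nd_J (by omega) (by omega))
  · have : i = 8 := by omega
    subst this
    exact FiO8.u_II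

/-- induction over the generators of the subgroup -/
theorem II_le {K : Subgroup P} (h : ∀ i, i < 9 → FiO8.nd (i + 1) ∈ K) : II ≤ K := by
  apply sup_le
  · have hJ := FiO8.J_eq
    intro g hg
    rw [hJ] at hg
    refine (Subgroup.closure_le K).2 ?_ hg
    rintro _ ⟨i, h1, h2, rfl⟩
    obtain ⟨j, rfl⟩ := Nat.exists_eq_add_of_le h1
    rw [Nat.add_comm]; exact h j (by omega)
  · rw [Subgroup.zpowers_le]
    exact h 8 (by norm_num)

theorem II_le_Fx : II ≤ Fx s := by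
  apply II_le
  intro i hi
  obtain ⟨l, hl, hb, he⟩ := nd_lane i hi
  rw [he, mem_Fx]
  exact (s_fix hl).1 hb

theorem NL_II : ∀ w ∈ NL, Wx xx w ∈ II := by
  intro w hw
  obtain ⟨i, hi, rfl⟩ := List.getElem_of_mem hw
  have hi9 : i < 9 := hi
  have h := nd_II i hi9
  rw [nd_word i hi9] at h
  unfold nw at h
  rwa [List.getD_eq_getElem _ _ hi] at h

theorem trII {l : ℕ} (hl : R360.testBit l = true) : ∃ g ∈ II, φ g 0 = l := reach_spec NL_II r360 hl

theorem lt_of_bit {M n : ℕ} (h : Nat.blt M (Nat.pow 2 n) = true) {i : ℕ} (hi : M.testBit i = true) : i < n := by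
  by_contra hc
  push Not at hc
  have h1 : M < 2 ^ n := Nat.le_of_ble_eq_true h
  rw [Nat.testBit_lt_two_pow (lt_of_lt_of_le h1 (Nat.pow_le_pow_right (by norm_num) hc))] at hi
  exact absurd hi (by simp)

theorem b360 : Nat.blt R360 (Nat.pow 2 3510) = true := by decide +kernel
theorem b72 : Nat.blt R72 (Nat.pow 2 3510) = true := by decide +kernel
theorem b64 : Nat.blt R64 (Nat.pow 2 3510) = true := by decide +kernel
theorem b63 : Nat.blt R63 (Nat.pow 2 3510) = true := by decide +kernel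

theorem T0_II : T 0 ∈ II := by
  have h := nd_II 1 (by norm_num)
  rw [nd_word 1 (by norm_num)] at h
  rw [Tz]
  exact h

theorem T_mem_II {l : ℕ} (hl : R360.testBit l = true) : T l ∈ II := by
  obtain ⟨g, hg, rfl⟩ := trII hl
  rw [T_map (by norm_num)]
  exact II.mul_mem (II.mul_mem hg T0_II) (II.inv_mem hg)

/-- the facts about the group -/
theorem facts : Nat.card (Subgroup.centralizer {FiO8.a0}) = 18393661440 ∧
    (∀ y : P, y * FiO8.ev FiO8.x1 = FiO8.ev FiO8.x1 * y → y * FiO8.ev FiO8.x2 = FiO8.ev FiO8.x2 * y → ∃ i j : ℕ, y = FiO8.ev FiO8.x1 ^ i * FiO8.ev FiO8.x2 ^ j) ∧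
    Nonempty (↥II ≃* MulAut FiO8.Om8) ∧
    (∀ y : P, y * FiO8.ev FiO8.x1 = FiO8.ev FiO8.x1 * y → y ∈ II) ∧ ∃ S : Sylow 5 P, ∀ y ∈ (S : Subgroup P), y ≠ 1 → ∃ g ∈ II, g * FiO8.ev FiO8.x1 * g⁻¹ = y :=
  FiO8.main5472 (G := P) (D := conjugatesOf (C.x Fi22A.L0 0)) FiIso22.psu62
  (H32Transf.group_of_class (Fi22Real.main _ rfl).1)
  (H32Transf.prim_simple (Fi22Real.main _ rfl).1 Fi22Ord.main.1 H92Ty22.nc22) H92Ty22.type22

theorem card_II : Nat.card II = 1045094400 := by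
  obtain ⟨_, _, ⟨e⟩, _⟩ := facts
  rw [Nat.card_congr e.toEquiv]
  exact FiO8.card_Om8

theorem Fx_s : Fx s = II := by
  apply le_antisymm _ II_le_Fx
  intro g hg
  obtain ⟨_, _, _, hC, S, hS⟩ := facts
  have hN : ∀ h ∈ II, g * h * g⁻¹ ∈ II := by
    have h1 : II ≤ II.comap (MulAut.conj g).toMonoidHom := by
      apply II_le
      intro i hi
      obtain ⟨l, hl, hb, he⟩ := nd_lane i hi
      rw [he]
      show g * T l * g⁻¹ ∈ II
      rw [← T_map hl]
      apply T_mem_II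
      rw [s_fix (φ_lt g hl), T_map hl, map_mul, map_mul, map_inv, (s_fix hl).1 hb, mem_Fx.1 hg]
    intro h hh
    exact h1 hh
  have hx1 : FiO8.ev FiO8.x1 ∈ II := FiO8.J_II FiO8.X_x1J
  have hSI : (S : Subgroup P) ≤ II := by
    intro y hy
    by_cases h1 : y = 1
    · rw [h1]; exact II.one_mem
    · obtain ⟨k, hk, rfl⟩ := hS y hy h1
      exact II.mul_mem (II.mul_mem hk hx1) (II.inv_mem hk)
  haveI : Fact (Nat.Prime 5) := ⟨by norm_num⟩
  set y : P := g * FiO8.ev FiO8.x1 * g⁻¹ with hy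
  have hyI : y ∈ II := hN _ hx1
  have hy5 : y ^ 5 = 1 := by rw [hy, conj_pow, FiO8.X_p1]; group
  have hyp : IsPGroup 5 (Subgroup.zpowers (⟨y, hyI⟩ : II)) := by
    rw [IsPGroup.iff_orderOf]
    rintro ⟨z, hz⟩
    obtain ⟨k, rfl⟩ := hz
    have h5 : ((⟨y, hyI⟩ : II) ^ k) ^ 5 = 1 := by
      rw [← zpow_natCast, ← zpow_mul, mul_comm, zpow_mul, zpow_natCast]
      have : (⟨y, hyI⟩ : II) ^ 5 = 1 := Subtype.ext hy5
      rw [this, one_zpow]
    have h6 : orderOf ((⟨y, hyI⟩ : II) ^ k) ∣ 5 := orderOf_dvd_of_pow_eq_one h5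
    have h7 : orderOf (⟨(⟨y, hyI⟩ : II) ^ k, ⟨k, rfl⟩⟩ : Subgroup.zpowers (⟨y, hyI⟩ : II)) = orderOf ((⟨y, hyI⟩ : II) ^ k) :=
      Subgroup.orderOf_mk _ _
    rcases (Nat.dvd_prime (by norm_num)).1 h6 with h8 | h8
    · exact ⟨0, by rw [pow_zero]; exact h7.trans h8⟩
    · exact ⟨1, by rw [pow_one]; exact h7.trans h8⟩
  obtain ⟨S2, hS2⟩ := hyp.exists_le_sylow
  obtain ⟨k, hk⟩ := MulAction.exists_smul_eq II (S.subtype hSI) S2
  have hyS2 : (⟨y, hyI⟩ : II) ∈ (S2 : Subgroup II) := hS2 (Subgroup.mem_zpowers _)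
  rw [← hk, Sylow.coe_subgroup_smul] at hyS2
  obtain ⟨z, hz, hz2⟩ := hyS2
  have hz3 : (z : P) ∈ (S : Subgroup P) := hz
  have hz4 : (k : P) * z * (k : P)⁻¹ = y := congrArg Subtype.val hz2
  have hne : y ≠ 1 := by
    intro h1
    apply FiO8.x1_ne facts.1
    have h2 : FiO8.ev FiO8.x1 = g⁻¹ * y * g := by rw [hy]; group
    rw [h2, h1]; group
  have hzne : (z : P) ≠ 1 := by
    intro h1
    apply hne
    rw [← hz4, h1]; group
  obtain ⟨k', hk', hz5⟩ := hS _ hz3 hzne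
  have h9 : (k'⁻¹ * (k : P)⁻¹ * g) * FiO8.ev FiO8.x1 = FiO8.ev FiO8.x1 * (k'⁻¹ * (k : P)⁻¹ * g) := by
    have h10 : g * FiO8.ev FiO8.x1 * g⁻¹ = (k : P) * (k' * FiO8.ev FiO8.x1 * k'⁻¹) * (k : P)⁻¹ := by
      rw [hz5, hz4]
    calc (k'⁻¹ * (k : P)⁻¹ * g) * FiO8.ev FiO8.x1 = k'⁻¹ * (k : P)⁻¹ * (g * FiO8.ev FiO8.x1 * g⁻¹) * g := by group
      _ = FiO8.ev FiO8.x1 * (k'⁻¹ * (k : P)⁻¹ * g) := by rw [h10]; group
  have h11 := hC _ h9
  have h12 : g = (k : P) * k' * (k'⁻¹ * (k : P)⁻¹ * g) := by group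
  rw [h12]
  exact II.mul_mem (II.mul_mem k.2 hk') h11

end Cfsg.Agent.Lib.H89GA
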