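import Cfsg.Agent.Lib.H89GA2

/-!
# Fixed subgroups of the products with one and two transpositions: orders
-/

set_option autoImplicit false
set_option linter.all false
set_option maxRecDepth 100000

namespace Cfsg.Agent.Lib.H89GA

open Cfsg.Spor Cfsg.Agent.Lib.BenesPerm Cfsg.Agent.Lib.BenesAct Cfsg.Agent.Lib.BenesWord Cfsg.Agent.Lib.BenesPlane
open Cfsg.Agent.Lib.Fi22NetsA Cfsg.Agent.Lib.LaneTools Cfsg.Agent.Lib.TransLanes Cfsg.Agent.Lib.Fi22Out
open Cfsg.Agent.Lib.Fi22Rel

/-- subgroup generated by lane entries -/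
def HL (l : List LE) : Subgroup P := Subgroup.closure {t | ∃ e ∈ l, t = Wx xx (tw e)}

theorem HL_mem {l : List LE} {e : LE} (he : e ∈ l) : Wx xx (tw e) ∈ HL l := Subgroup.subset_closure ⟨e, he, rfl⟩

theorem HL_le {l : List LE} (h : lesK l = true) {K : Subgroup P} (hK : ∀ e ∈ l, T e.1 ∈ K) : HL l ≤ K := by
  unfold HL
  rw [Subgroup.closure_le]
  rintro _ ⟨e, he, rfl⟩
  rw [← (T_entry (lesK_spec h e he)).2.1]
  exact hK e he

theorem HL_words {l : List LE} : ∀ w ∈ l.map tw, Wx xx w ∈ HL l := by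
  intro w hw
  obtain ⟨e, he, rfl⟩ := List.mem_map.1 hw
  exact HL_mem he

theorem sub63 : Nat.beq (Nat.land R63 R360) R63 = true := by decide +kernel
theorem sub63' : Nat.beq (Nat.land R63 (rc 0)) R63 = true := by decide +kernel
theorem eq64 : Nat.beq (Nat.land R360 (rc 0)) R64 = true := by decide +kernel
theorem or63 : Nat.beq (Nat.lor R63 1) R64 = true := by decide +kernel
theorem k63_bits : (K63.all (fun e => R63.testBit e.1)) = true := by decide +kernel
theorem k72_bits : (K72.all (fun e => R72.testBit e.1)) = true := by decide +kernel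
theorem bit40 : R63.testBit 40 = true := by decide +kernel
theorem bit16 : R63.testBit 16 = true := by decide +kernel
theorem bit40_72 : R72.testBit 40 = true := by decide +kernel
theorem bit0_72 : R72.testBit 0 = true := by decide +kernel
theorem bit0_64 : R64.testBit 0 = true := by decide +kernel
theorem nonc : laneK nets [4] 16 16 = false := by decide +kernel

theorem land_bit {A B C : ℕ} (h : Nat.beq (Nat.land A B) C = true) (i : ℕ) : C.testBit i = (A.testBit i && B.testBit i) := by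
  have h1 : A &&& B = C := Nat.eq_of_beq_eq_true h
  rw [← h1, Nat.testBit_and]

theorem b63_360 {l : ℕ} (h : R63.testBit l = true) : R360.testBit l = true := by
  have h1 := land_bit sub63 l
  rw [h] at h1
  have := h1.symm
  simp only [Bool.and_eq_true, true_and] at this
  exact this

theorem comm0 {l : ℕ} (hl : l < 3510) : (rc 0).testBit l = true ↔ T l * T 0 = T 0 * T l := by
  rw [CC.hrc 0 (by norm_num) l hl, ← φ_word, fix_iff hl, Tz]
  have h : Wx xx [0] = xx 0 := by rw [Wx_cons, Wx_nil, mul_one]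
  rw [h]
  exact eq_comm

theorem b63_comm {l : ℕ} (h : R63.testBit l = true) : T l * T 0 = T 0 * T l := by
  have h1 := land_bit sub63' l
  rw [h] at h1
  have h2 := h1.symm
  simp only [Bool.and_eq_true, true_and] at h2
  exact (comm0 (lt_of_bit b63 h)).1 h2

theorem b64_iff {l : ℕ} : R64.testBit l = true ↔ R360.testBit l = true ∧ (rc 0).testBit l = true := by
  rw [land_bit eq64 l, Bool.and_eq_true]

theorem b64_iff' {l : ℕ} : R64.testBit l = true ↔ R63.testBit l = true ∨ l = 0 := by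
  have h1 : R63 ||| 1 = R64 := Nat.eq_of_beq_eq_true or63
  rw [← h1, Nat.testBit_or, Bool.or_eq_true]
  constructor
  · rintro (h | h)
    · exact Or.inl h
    · right
      rcases Nat.eq_zero_or_pos l with h2 | h2
      · exact h2
      · exfalso
        have h3 : (1 : ℕ) < 2 ^ l := Nat.one_lt_two_pow (by omega)
        rw [Nat.testBit_lt_two_pow h3] at h
        exact absurd h (by simp)
  · rintro (h | rfl)
    · exact Or.inl h
    · right; rfl

/-- the transvections commuting with the first transposition -/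
theorem H63_le : HL K63 ≤ II ⊓ Subgroup.centralizer ({T 0} : Set P) := by
  apply HL_le le_K63
  intro e he
  have h1 : R63.testBit e.1 = true := List.all_eq_true.1 k63_bits e he
  exact ⟨T_mem_II (b63_360 h1), Subgroup.mem_centralizer_singleton_iff.2 (b63_comm h1)⟩

theorem tr63 {l : ℕ} (h : R63.testBit l = true) : ∃ g ∈ HL K63, φ g 40 = l := reach_spec HL_words r63 h

theorem tr1 : ∀ l < 3510, R360.testBit l = true → ∃ k : P, s k = k ∧ k * T l * k⁻¹ = T 0 := by
  intro l hl hb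
  obtain ⟨g, hg, rfl⟩ := trII hb
  refine ⟨g⁻¹, II_le_Fx (II.inv_mem hg), ?_⟩
  rw [T_map (by norm_num)]; group

theorem tr2 : ∀ l < 3510, R63.testBit l = true → ∃ k : P, s k = k ∧ k * T 0 * k⁻¹ = T 0 ∧ k * T l * k⁻¹ = T 40 := by
  intro l hl hb
  obtain ⟨g, hg, rfl⟩ := tr63 hb
  have h1 := H63_le hg
  have h2 := Subgroup.mem_centralizer_singleton_iff.1 h1.2
  refine ⟨g⁻¹, II_le_Fx (II.inv_mem h1.1), ?_, ?_⟩
  · rw [inv_inv, mul_assoc, ← h2]; group
  · rw [T_map (by norm_num)]; group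

/-- fixed lanes are permuted by the fixed subgroup -/
theorem fx_perm {α : MulAut P} {R : ℕ} (hR : ∀ l, l < 3510 → (R.testBit l = true ↔ α (T l) = T l)) {g : P} (hg : g ∈ Fx α) {l : ℕ}
    (hl : l < 3510) (hb : R.testBit l = true) : R.testBit (φ g l) = true := by
  rw [hR _ (φ_lt g hl), T_map hl, map_mul, map_mul, map_inv, (hR l hl).1 hb, mem_Fx.1 hg]

theorem H63_fx : HL K63 ≤ Fx (s * MulAut.conj (T 0)) := by
  intro g hg
  have h1 := H63_le hg
  have h2 := Subgroup.mem_centralizer_singleton_iff.1 h1.2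
  show s (T 0 * g * (T 0)⁻¹) = g
  rw [← h2]
  have h3 : g * T 0 * (T 0)⁻¹ = g := by group
  rw [h3]
  exact II_le_Fx h1.1

theorem Fx_sa : Fx (s * MulAut.conj (T 0)) = II ⊓ Subgroup.centralizer ({T 0} : Set P) := by
  apply le_antisymm
  · intro g hg
    have hperm : ∀ k ∈ Fx (s * MulAut.conj (T 0)), ∀ l, R64.testBit l = true → R64.testBit (φ k l) = true :=
      fun k hk l hl => fx_perm (fun l hl => sa_fix hl) hk (lt_of_bit b64 hl) hl
    have h0 : R64.testBit (φ g 0) = true := hperm g hg 0 bit0_64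
    have h1 : φ g 0 = 0 := by
      by_contra hne
      have h2 : R63.testBit (φ g 0) = true := (b64_iff'.1 h0).resolve_right hne
      obtain ⟨k, hk, hk2⟩ := tr63 h2
      have hk3 := H63_fx hk
      -- lane 16 does not commute with lane 40
      have h3 : ¬ (T 16 * T 40 = T 40 * T 16) := by
        intro h4
        have h5 : φ (T 40) 16 = 16 := (fix_iff (by norm_num) _).2 h4.symm
        rw [T40] at h5
        have h6 : wfn nets [4] 16 = 16 := by
          rw [← φ_word, Wx_cons, Wx_nil, mul_one]; exact h5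
        have h7 := laneK_of c_nets h6
        rw [nonc] at h7
        exact absurd h7 (by simp)
      have h4 : R64.testBit (φ k 16) = true := hperm k hk3 16 (b64_iff'.2 (Or.inl bit16))
      have h5 : R64.testBit (φ g⁻¹ (φ k 16)) = true := hperm g⁻¹ ((Fx _).inv_mem hg) _ h4
      have h6 : φ g⁻¹ (φ k 16) < 3510 := lt_of_bit b64 h5
      have h7 := (comm0 h6).1 (b64_iff.1 h5).2
      apply h3
      have e1 : T (φ g⁻¹ (φ k 16)) = g⁻¹ * (k * T 16 * k⁻¹) * g := by
        rw [T_map (φ_lt k (by norm_num)), T_map (by norm_num), inv_inv]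
      have e2 : g * T 0 * g⁻¹ = k * T 40 * k⁻¹ := by
        rw [← T_map (by norm_num), ← T_map (by norm_num), hk2]
      rw [e1] at h7
      have h8 : (k * T 16 * k⁻¹) * (g * T 0 * g⁻¹) = (g * T 0 * g⁻¹) * (k * T 16 * k⁻¹) := by
        calc (k * T 16 * k⁻¹) * (g * T 0 * g⁻¹) = g * (g⁻¹ * (k * T 16 * k⁻¹) * g * T 0) * g⁻¹ := by group
          _ = g * (T 0 * (g⁻¹ * (k * T 16 * k⁻¹) * g)) * g⁻¹ := by rw [h7]
          _ = _ := by group
      rw [e2] at h8
      calc T 16 * T 40 = k⁻¹ * ((k * T 16 * k⁻¹) * (k * T 40 * k⁻¹)) * k := by group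
        _ = k⁻¹ * ((k * T 40 * k⁻¹) * (k * T 16 * k⁻¹)) * k := by rw [h8]
        _ = _ := by group
    have h2 : g * T 0 = T 0 * g := (fix_iff (by norm_num) g).1 h1
    have h3 : s (T 0 * g * (T 0)⁻¹) = g := hg
    have h4 : T 0 * g * (T 0)⁻¹ = g := by rw [← h2]; group
    rw [h4] at h3
    exact ⟨by rw [← Fx_s]; exact h3, Subgroup.mem_centralizer_singleton_iff.2 h2⟩
  · rintro g ⟨h1, h2⟩
    have h3 := Subgroup.mem_centralizer_singleton_iff.1 h2
    show s (T 0 * g * (T 0)⁻¹) = g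
    have h4 : T 0 * g * (T 0)⁻¹ = g := by rw [← h3]; group
    rw [h4]
    exact II_le_Fx h1

theorem T_inv {l : ℕ} (hl : l < 3510) : (T l)⁻¹ = T l := inv_eq_of_mul_eq_one_left (T_sq hl)

theorem Fx_sb {g : P} (hg : s (T 40 * g * (T 40)⁻¹) = g) : g ∈ II ∧ g * T 40 = T 40 * g := by
  obtain ⟨k, hk1, hk2⟩ := tr1 40 (by norm_num) (b63_360 bit40)
  have h1 : k * g * k⁻¹ ∈ Fx (s * MulAut.conj (T 0)) := by
    show s (T 0 * (k * g * k⁻¹) * (T 0)⁻¹) = k * g * k⁻¹
    have e1 : T 0 * (k * g * k⁻¹) * (T 0)⁻¹ = k * (T 40 * g * (T 40)⁻¹) * k⁻¹ := by rw [← hk2]; group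
    rw [e1, map_mul, map_mul, map_inv, hk1, hg]
  rw [Fx_sa] at h1
  obtain ⟨h2, h3⟩ := h1
  have h3' := Subgroup.mem_centralizer_singleton_iff.1 h3
  have hkI : k ∈ II := by rw [← Fx_s]; exact hk1
  refine ⟨?_, ?_⟩
  · have : g = k⁻¹ * (k * g * k⁻¹) * k := by group
    rw [this]
    exact II.mul_mem (II.mul_mem (II.inv_mem hkI) h2) hkI
  · rw [← hk2] at h3'
    calc g * T 40 = k⁻¹ * ((k * g * k⁻¹) * (k * T 40 * k⁻¹)) * k := by group
      _ = k⁻¹ * ((k * T 40 * k⁻¹) * (k * g * k⁻¹)) * k := by rw [h3']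
      _ = _ := by group

/-- the third fixed subgroup -/
noncomputable def MM : Subgroup P := Fx (s * MulAut.conj (T 0 * T 40))

theorem T0_comm_T40 : T 40 * T 0 = T 0 * T 40 := b63_comm bit40

theorem MM_C : MM ⊓ Subgroup.centralizer ({T 0} : Set P) =
    (II ⊓ Subgroup.centralizer ({T 0} : Set P)) ⊓ Subgroup.centralizer ({T 40} : Set P) := by
  ext g
  constructor
  · rintro ⟨h1, h2⟩
    have h3 := Subgroup.mem_centralizer_singleton_iff.1 h2
    have h1' : s (T 0 * T 40 * g * (T 0 * T 40)⁻¹) = g := h1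
    have e1 : T 0 * T 40 * g * (T 0 * T 40)⁻¹ = T 40 * g * (T 40)⁻¹ := by
      rw [← T0_comm_T40, mul_inv_rev]
      calc T 40 * T 0 * g * ((T 0)⁻¹ * (T 40)⁻¹) = T 40 * (T 0 * g) * (T 0)⁻¹ * (T 40)⁻¹ := by group
        _ = T 40 * (g * T 0) * (T 0)⁻¹ * (T 40)⁻¹ := by rw [h3]
        _ = _ := by group
    rw [e1] at h1'
    obtain ⟨h4, h5⟩ := Fx_sb h1'
    exact ⟨⟨h4, h2⟩, Subgroup.mem_centralizer_singleton_iff.2 h5⟩
  · rintro ⟨⟨h1, h2⟩, h3⟩
    have h2' := Subgroup.mem_centralizer_singleton_iff.1 h2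
    have h3' := Subgroup.mem_centralizer_singleton_iff.1 h3
    refine ⟨?_, h2⟩
    show s (T 0 * T 40 * g * (T 0 * T 40)⁻¹) = g
    have e1 : T 0 * T 40 * g * (T 0 * T 40)⁻¹ = g := by
      calc T 0 * T 40 * g * (T 0 * T 40)⁻¹ = T 0 * (T 40 * g) * (T 40)⁻¹ * (T 0)⁻¹ := by group
        _ = T 0 * (g * T 40) * (T 40)⁻¹ * (T 0)⁻¹ := by rw [h3']
        _ = (T 0 * g) * (T 0)⁻¹ := by group
        _ = (g * T 0) * (T 0)⁻¹ := by rw [h2']
        _ = g := by group
    rw [e1]
    exact II_le_Fx h1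

/-- orbit-stabilizer on lanes -/
theorem card_orb (H : Subgroup P) {p : ℕ} (hp : p < 3510) {M n : ℕ} (hM : Nat.blt M (Nat.pow 2 (Nat.pow 2 12)) = true)
    (h1 : ∀ j, M.testBit j = true → ∃ g ∈ H, φ g p = j) (h2 : ∀ g ∈ H, M.testBit (φ g p) = true) (hn : Nat.beq (popK 12 M) n = true) :
    Nat.card H = n * Nat.card ↥(H ⊓ Subgroup.centralizer ({T p} : Set P)) := by
  letI : MulAction H ℕ := MulAction.compHom ℕ (φ.comp H.subtype)
  have hsm : ∀ (g : H) (i : ℕ), g • i = φ (g : P) i := fun g i => rfl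
  have horb : MulAction.orbit H p = {i | M.testBit i = true} := by
    ext j
    constructor
    · rintro ⟨g, rfl⟩; exact h2 g g.2
    · intro hj
      obtain ⟨g, hg, rfl⟩ := h1 j hj
      exact ⟨⟨g, hg⟩, rfl⟩
  have hidx := MulAction.index_stabilizer (G := H) p
  rw [horb] at hidx
  have hcard : ({i | M.testBit i = true} : Set ℕ).ncard = n := by
    rw [← Nat.card_coe_set_eq]
    have h3 : Nat.card {i : ℕ // M.testBit i = true} = popK 12 M := card_mask (k := 12) (Nat.le_of_ble_eq_true hM)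
    exact h3.trans (Nat.eq_of_beq_eq_true hn)
  rw [hcard] at hidx
  have h4 := Subgroup.card_mul_index (MulAction.stabilizer H p)
  rw [hidx] at h4
  rw [← h4, mul_comm]
  congr 1
  apply Nat.card_congr
  refine ⟨fun g => ⟨g.1.1, g.1.2, ?_⟩, fun g => ⟨⟨g.1, g.2.1⟩, ?_⟩, fun g => rfl, fun g => rfl⟩
  · have h5 : φ (g.1.1 : P) p = p := g.2
    exact Subgroup.mem_centralizer_singleton_iff.2 ((fix_iff hp _).1 h5)
  · show φ (g.1 : P) p = p
    exact (fix_iff hp _).2 (Subgroup.mem_centralizer_singleton_iff.1 g.2.2)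

theorem B360 : Nat.blt R360 (Nat.pow 2 (Nat.pow 2 12)) = true := by decide +kernel
theorem B63 : Nat.blt R63 (Nat.pow 2 (Nat.pow 2 12)) = true := by decide +kernel
theorem B72 : Nat.blt R72 (Nat.pow 2 (Nat.pow 2 12)) = true := by decide +kernel
theorem P360 : Nat.beq (popK 12 R360) 360 = true := by decide +kernel
theorem P63 : Nat.beq (popK 12 R63) 63 = true := by decide +kernel
theorem P72 : Nat.beq (popK 12 R72) 72 = true := by decide +kernel
theorem bit0_360 : R360.testBit 0 = true := by decide +kernel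

theorem card_IIC : Nat.card ↥(II ⊓ Subgroup.centralizer ({T 0} : Set P)) = 2903040 := by
  have h := card_orb II (p := 0) (by norm_num) (n := 360) B360 (fun j hj => trII hj)
    (fun g hg => fx_perm (α := s) (fun l hl => s_fix hl) (II_le_Fx hg) (by norm_num) bit0_360) P360
  rw [card_II] at h
  omega

theorem card_IICC : Nat.card ↥((II ⊓ Subgroup.centralizer ({T 0} : Set P)) ⊓ Subgroup.centralizer ({T 40} : Set P)) = 46080 := by
  have h := card_orb (II ⊓ Subgroup.centralizer ({T 0} : Set P)) (p := 40) (by norm_num) (n := 63) B63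
    (fun j hj => by
      obtain ⟨g, hg, h⟩ := tr63 hj
      exact ⟨g, H63_le hg, h⟩)
    (fun g hg => by
      have h1 : g ∈ Fx (s * MulAut.conj (T 0)) := by rw [Fx_sa]; exact hg
      have h2 : R64.testBit (φ g 40) = true := fx_perm (fun l hl => sa_fix hl) h1 (by norm_num) (b64_iff'.2 (Or.inl bit40))
      refine (b64_iff'.1 h2).resolve_right ?_
      intro h3
      have h4 : φ g 0 = 0 := (fix_iff (by norm_num) g).2 (Subgroup.mem_centralizer_singleton_iff.1 hg.2)
      have h5 : (40 : ℕ) = 0 := (φ g).injective (h3.trans h4.symm)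
      omega) P63
  rw [card_IIC] at h
  omega

theorem H72_le : HL K72 ≤ MM := by
  apply HL_le le_K72
  intro e he
  have h1 : R72.testBit e.1 = true := List.all_eq_true.1 k72_bits e he
  exact (sab_fix (lt_of_bit b72 h1)).1 h1

theorem card_MM : Nat.card MM = 64 * 51840 := by
  have h := card_orb MM (p := 0) (by norm_num) (n := 72) B72
    (fun j hj => by
      obtain ⟨g, hg, h⟩ := reach_spec (HL_words (l := K72)) r72 hj
      exact ⟨g, H72_le hg, h⟩)
    (fun g hg => fx_perm (α := s * MulAut.conj (T 0 * T 40)) (fun l hl => sab_fix hl) hg (by norm_num) bit0_72) P72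
  rw [MM_C, card_IICC] at h
  rw [h]

/-- conjugate automorphisms have fixed subgroups of the same order -/
theorem card_Fx_conj {α β : MulAut P} (h : IsConj α β) : Nat.card (Fx α) = Nat.card (Fx β) := by
  obtain ⟨c, hc⟩ := isConj_iff.1 h
  subst hc
  apply Nat.card_congr
  refine ⟨fun g => ⟨c g.1, ?_⟩, fun g => ⟨c⁻¹ g.1, ?_⟩, ?_, ?_⟩
  · show c (α (c⁻¹ (c g.1))) = c g.1
    have h1 : c⁻¹ (c g.1) = g.1 := by rw [← MulAut.mul_apply, inv_mul_cancel]; rfl
    rw [h1, show α g.1 = g.1 from g.2]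
  · show α (c⁻¹ g.1) = c⁻¹ g.1
    have h1 : c (α (c⁻¹ g.1)) = g.1 := g.2
    have h2 : c⁻¹ (c (α (c⁻¹ g.1))) = α (c⁻¹ g.1) := by rw [← MulAut.mul_apply, inv_mul_cancel]; rfl
    rw [← h2, h1]
  · intro g
    apply Subtype.ext
    show c⁻¹ (c g.1) = g.1
    rw [← MulAut.mul_apply, inv_mul_cancel]; rfl
  · intro g
    apply Subtype.ext
    show c (c⁻¹ g.1) = g.1
    rw [← MulAut.mul_apply, mul_inv_cancel]; rfl

end Cfsg.Agent.Lib.H89GA
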