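import Cfsg.Agent.Lib.H89GC2
import Cfsg.Agent.Lib.FiO8A

/-!
# Checks: the normal elementary abelian subgroup of order 64
-/

set_option autoImplicit false
set_option linter.all false
set_option maxRecDepth 100000

namespace Cfsg.Agent.Lib.H89GA

open Cfsg.Spor Cfsg.Agent.Lib.BenesPerm Cfsg.Agent.Lib.BenesAct Cfsg.Agent.Lib.BenesWord Cfsg.Agent.Lib.BenesPlane
open Cfsg.Agent.Lib.Fi22NetsA Cfsg.Agent.Lib.LaneTools Cfsg.Agent.Lib.TransLanes Cfsg.Agent.Lib.Fi22Out

/-- word of a pair -/
def ew (j : ℕ) : List ℕ := tw (EP.getD j ((0, 0, []), (0, 0, []))).1 ++ tw (EP.getD j ((0, 0, []), (0, 0, []))).2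

theorem ev0 : FiO8.tv nets (ew 0) 0 R72 [false, false, false, false, false, false] PLs = true := by decide +kernel
theorem ev1 : FiO8.tv nets (ew 1) 0 R72 [false, false, false, false, false, false] PLs = true := by decide +kernel
theorem ev2 : FiO8.tv nets (ew 2) 0 R72 [false, false, false, false, false, false] PLs = true := by decide +kernel
theorem ev3 : FiO8.tv nets (ew 3) 0 R72 [false, false, false, false, false, false] PLs = true := by decide +kernel
theorem ev4 : FiO8.tv nets (ew 4) 0 R72 [false, false, false, false, false, false] PLs = true := by decide +kernel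
theorem ev5 : FiO8.tv nets (ew 5) 0 R72 [false, false, false, false, false, false] PLs = true := by decide +kernel

/-- commuting relation -/
def cmw (i j : ℕ) : List ℕ := ew i ++ (ew j ++ ((ew i).reverse ++ (ew j).reverse))

theorem esq : (relK nets 12 (ew 0 ++ ew 0) && relK nets 12 (ew 1 ++ ew 1) && relK nets 12 (ew 2 ++ ew 2) &&
  relK nets 12 (ew 3 ++ ew 3) && relK nets 12 (ew 4 ++ ew 4) && relK nets 12 (ew 5 ++ ew 5)) = true := by decide +kernel
theorem ecm0 : (relK nets 12 (cmw 0 1) && relK nets 12 (cmw 0 2) && relK nets 12 (cmw 0 3) &&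
  relK nets 12 (cmw 0 4) && relK nets 12 (cmw 0 5)) = true := by decide +kernel
theorem ecm1 : (relK nets 12 (cmw 1 2) && relK nets 12 (cmw 1 3) &&
  relK nets 12 (cmw 1 4) && relK nets 12 (cmw 1 5)) = true := by decide +kernel
theorem ecm2 : (relK nets 12 (cmw 2 3) && relK nets 12 (cmw 2 4) && relK nets 12 (cmw 2 5)) = true := by decide +kernel
theorem ecm3 : (relK nets 12 (cmw 3 4) && relK nets 12 (cmw 3 5)) = true := by decide +kernel
theorem ecm4 : relK nets 12 (cmw 4 5) = true := by decide +kernel


/-- check of a step of the chain -/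
noncomputable def cst (L : List ℕ) (j l : ℕ) : Bool := (L.all fun i => laneK nets (ew i) l l) && !(laneK nets (ew j) l l)

theorem cs1 : cst [] 0 288 = true := by decide +kernel
theorem cs2 : cst [0] 3 154 = true := by decide +kernel
theorem cs3 : cst [3, 0] 5 248 = true := by decide +kernel
theorem cs4 : cst [5, 3, 0] 1 66 = true := by decide +kernel
theorem cs5 : cst [1, 5, 3, 0] 2 43 = true := by decide +kernel
theorem cs6 : cst [2, 1, 5, 3, 0] 4 0 = true := by decide +kernel
theorem ep_bits : (EP.all (fun p => R72.testBit p.1.1 && R72.testBit p.2.1)) = true := by decide +kernel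

end Cfsg.Agent.Lib.H89GA
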