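import Cfsg.Agent.Lib.H89GA3
import Cfsg.Agent.Lib.H89GC3
import Cfsg.Agent.Lib.H67Pi
import Cfsg.Agent.Lib.H5Asm

/-!
# The third fixed subgroup is an extension of an elementary abelian group of order 64
-/

set_option autoImplicit false
set_option linter.all false
set_option maxRecDepth 100000

namespace Cfsg.Agent.Lib.H89GA

open Cfsg.Spor Cfsg.Agent.Lib.BenesPerm Cfsg.Agent.Lib.BenesAct Cfsg.Agent.Lib.BenesWord Cfsg.Agent.Lib.BenesPlane
open Cfsg.Agent.Lib.Fi22NetsA Cfsg.Agent.Lib.LaneTools Cfsg.Agent.Lib.TransLanes Cfsg.Agent.Lib.Fi22Out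
open Cfsg.Agent.Lib.Fi22Rel

theorem rel_one {w : List ℕ} (h : relK nets 12 w = true) : Wx xx w = 1 := by
  apply hcen CC
  apply hgen
  intro c hc
  rw [← T_pt hc]
  apply (fix_iff (pt_lt c hc) _).1
  rw [φ_word, wfn_of_relK c_nets rfl h]

/-- commuting involutions generate a group of exponent two -/
theorem sq_one_closure {G : Type*} [Group G] (S : Set G) (h2 : ∀ x ∈ S, x * x = 1) (hc : ∀ x ∈ S, ∀ y ∈ S, x * y = y * x) :
    ∀ x ∈ Subgroup.closure S, x * x = 1 := by
  have hcommcl : ∀ x ∈ Subgroup.closure S, ∀ y ∈ S, x * y = y * x := by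
    intro x hx y hy
    induction hx using Subgroup.closure_induction with
    | mem z hz => exact hc z hz y hy
    | one => simp
    | mul u v _ _ hu hv => rw [mul_assoc, hv, ← mul_assoc, hu, mul_assoc]
    | inv u _ hu =>
      have : Commute u y := hu
      exact this.inv_left
  intro x hx
  induction hx using Subgroup.closure_induction with
  | mem z hz => exact h2 z hz
  | one => simp
  | mul u v hu' hv' hu hv =>
    have h3 : ∀ y ∈ Subgroup.closure S, u * y = y * u := by
      intro y hy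
      induction hy using Subgroup.closure_induction with
      | mem z hz => exact hcommcl u hu' z hz
      | one => simp
      | mul a b _ _ ha hb => rw [← mul_assoc, ha, mul_assoc, hb, mul_assoc]
      | inv a _ ha =>
        have : Commute u a := ha
        exact this.inv_right
    calc u * v * (u * v) = u * (v * u) * v := by group
      _ = (u * u) * (v * v) := by rw [← h3 v hv']; group
      _ = 1 := by rw [hu, hv, one_mul]
  | inv u _ hu => rw [← mul_inv_rev, hu, inv_one]

/-- the elements -/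
noncomputable def E (j : ℕ) : P := Wx xx (ew j)

theorem EP_spec {j : ℕ} (hj : j < 6) : ∃ p : LE × LE, p ∈ EP ∧ ew j = tw p.1 ++ tw p.2 := by
  refine ⟨EP.getD j ((0, 0, []), (0, 0, [])), ?_, rfl⟩
  rw [List.getD_eq_getElem _ _ (show j < EP.length from hj)]
  exact List.getElem_mem _

theorem T_mem_K {l : ℕ} (hl : R72.testBit l = true) : T l ∈ HL K72 := by
  obtain ⟨g, hg, rfl⟩ := reach_spec (HL_words (l := K72)) r72 hl
  rw [T_map (by norm_num)]
  refine (HL K72).mul_mem ((HL K72).mul_mem hg ?_) ((HL K72).inv_mem hg)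
  have h := HL_mem (l := K72) (e := (0, 0, [])) (by unfold K72; exact List.mem_cons_self)
  have h2 : Wx xx (tw (0, 0, [])) = T 0 := by
    rw [Tz]
    show Wx xx [0] = xx 0
    rw [Wx_cons, Wx_nil, mul_one]
  rwa [h2] at h

theorem E_eq {j : ℕ} (hj : j < 6) : ∃ l m : ℕ, R72.testBit l = true ∧ R72.testBit m = true ∧ E j = T l * T m ∧ (∀ c ∈ ew j, c < 9) := by
  obtain ⟨p, hp, he⟩ := EP_spec hj
  have h1 := List.all_eq_true.1 ep_bits p hp
  rw [Bool.and_eq_true] at h1
  have h2 := T_entry (lesK_spec le_EP p.1 (List.mem_append_left _ (List.mem_map_of_mem hp)))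
  have h3 := T_entry (lesK_spec le_EP p.2 (List.mem_append_right _ (List.mem_map_of_mem hp)))
  refine ⟨p.1.1, p.2.1, h1.1, h1.2, ?_, ?_⟩
  · unfold E
    rw [he, Wx_append, h2.2.1, h3.2.1]
  · intro c hc
    rw [he] at hc
    rcases List.mem_append.1 hc with h4 | h4
    · exact h2.2.2 c h4
    · exact h3.2.2 c h4

theorem E_mem {j : ℕ} (hj : j < 6) : E j ∈ HL K72 := by
  obtain ⟨l, m, hl, hm, he, _⟩ := E_eq hj
  rw [he]
  exact (HL K72).mul_mem (T_mem_K hl) (T_mem_K hm)

theorem E_sqr {j : ℕ} (h : relK nets 12 (ew j ++ ew j) = true) : E j * E j = 1 := by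
  have := rel_one h
  rwa [Wx_append] at this

theorem E_comr {i j : ℕ} (hi : i < 6) (hj : j < 6) (h : relK nets 12 (cmw i j) = true) : E i * E j = E j * E i := by
  have h1 := rel_one h
  obtain ⟨_, _, _, _, _, h2⟩ := E_eq hi
  obtain ⟨_, _, _, _, _, h3⟩ := E_eq hj
  unfold cmw at h1
  rw [Wx_append, Wx_append, Wx_append, Wx_reverse (fun c hc => hx2 c (h2 c hc)), Wx_reverse (fun c hc => hx2 c (h3 c hc))] at h1
  change E i * (E j * ((E i)⁻¹ * (E j)⁻¹)) = 1 at h1
  calc E i * E j = (E i * (E j * ((E i)⁻¹ * (E j)⁻¹))) * (E j * E i) := by group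
    _ = E j * E i := by rw [h1, one_mul]

theorem E_sq {j : ℕ} (hj : j < 6) : E j * E j = 1 := by
  have h := esq
  simp only [Bool.and_eq_true] at h
  obtain ⟨⟨⟨⟨⟨h0, h1⟩, h2⟩, h3⟩, h4⟩, h5⟩ := h
  interval_cases j
  · exact E_sqr h0
  · exact E_sqr h1
  · exact E_sqr h2
  · exact E_sqr h3
  · exact E_sqr h4
  · exact E_sqr h5

theorem E_com' {i j : ℕ} (hij : i < j) (hj : j < 6) : E i * E j = E j * E i := by
  have h0 := ecm0
  have h1 := ecm1
  have h2 := ecm2
  have h3 := ecm3
  have h4 := ecm4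
  simp only [Bool.and_eq_true] at h0 h1 h2 h3
  obtain ⟨⟨⟨⟨h01, h02⟩, h03⟩, h04⟩, h05⟩ := h0
  obtain ⟨⟨⟨h12, h13⟩, h14⟩, h15⟩ := h1
  obtain ⟨⟨h23, h24⟩, h25⟩ := h2
  obtain ⟨h34, h35⟩ := h3
  have hi : i < 5 := by omega
  interval_cases i
  · interval_cases j
    · exact E_comr (by norm_num) (by norm_num) h01
    · exact E_comr (by norm_num) (by norm_num) h02
    · exact E_comr (by norm_num) (by norm_num) h03
    · exact E_comr (by norm_num) (by norm_num) h04
    · exact E_comr (by norm_num) (by norm_num) h05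
  · interval_cases j
    · exact E_comr (by norm_num) (by norm_num) h12
    · exact E_comr (by norm_num) (by norm_num) h13
    · exact E_comr (by norm_num) (by norm_num) h14
    · exact E_comr (by norm_num) (by norm_num) h15
  · interval_cases j
    · exact E_comr (by norm_num) (by norm_num) h23
    · exact E_comr (by norm_num) (by norm_num) h24
    · exact E_comr (by norm_num) (by norm_num) h25
  · interval_cases j
    · exact E_comr (by norm_num) (by norm_num) h34
    · exact E_comr (by norm_num) (by norm_num) h35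
  · interval_cases j
    exact E_comr (by norm_num) (by norm_num) h4

theorem E_com {i j : ℕ} (hi : i < 6) (hj : j < 6) : E i * E j = E j * E i := by
  rcases lt_trichotomy i j with h | rfl | h
  · exact E_com' h hj
  · rfl
  · exact (E_com' h hi).symm

/-- subgroup generated by some of the elements -/
noncomputable def CLs (L : List ℕ) : Subgroup P := Subgroup.closure {x | ∃ j ∈ L, x = E j}

theorem chain_step {L : List ℕ} {j l n : ℕ} (hl : l < 3510) (h : cst L j l = true) (hn : n ≤ Nat.card (CLs L)) :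
    2 * n ≤ Nat.card (CLs (j :: L)) := by
  unfold cst at h
  rw [Bool.and_eq_true] at h
  obtain ⟨h1, h2⟩ := h
  have hle : CLs L ≤ CLs (j :: L) := by
    apply Subgroup.closure_mono
    rintro x ⟨i, hi, rfl⟩
    exact ⟨i, List.mem_cons_of_mem _ hi, rfl⟩
  have hfix : ∀ g ∈ CLs L, φ g l = l := by
    intro g hg
    have h3 : CLs L ≤ Subgroup.centralizer ({T l} : Set P) := by
      unfold CLs
      rw [Subgroup.closure_le]
      rintro _ ⟨i, hi, rfl⟩
      rw [SetLike.mem_coe, Subgroup.mem_centralizer_singleton_iff]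
      apply (fix_iff hl _).1
      unfold E
      rw [φ_word]
      exact laneK_spec c_nets (List.all_eq_true.1 h1 i hi)
    exact (fix_iff hl g).2 (Subgroup.mem_centralizer_singleton_iff.1 (h3 hg))
  have hne : CLs L ≠ CLs (j :: L) := by
    intro he
    have h3 : E j ∈ CLs L := by
      rw [he]
      exact Subgroup.subset_closure ⟨j, List.mem_cons_self, rfl⟩
    have h4 := hfix _ h3
    unfold E at h4
    rw [φ_word] at h4
    have h5 := laneK_of c_nets h4
    rw [h5] at h2
    exact absurd h2 (by simp)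
  obtain ⟨q, hq⟩ := Subgroup.card_dvd_of_le hle
  have hq2 : 2 ≤ q := by
    by_contra hlt
    have hpos : 0 < Nat.card (CLs (j :: L)) := Nat.card_pos
    have h3 : q = 0 ∨ q = 1 := by omega
    rcases h3 with rfl | rfl
    · omega
    · apply hne
      apply Subgroup.eq_of_le_of_card_ge hle
      omega
  calc 2 * n ≤ q * Nat.card (CLs L) := Nat.mul_le_mul hq2 hn
    _ = _ := by rw [hq, mul_comm]

theorem card_chain : 64 ≤ Nat.card (CLs [4, 2, 1, 5, 3, 0]) := by
  have h0 : 1 ≤ Nat.card (CLs []) := Nat.card_pos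
  exact chain_step (by norm_num) cs6 (chain_step (by norm_num) cs5 (chain_step (by norm_num) cs4 (chain_step (by norm_num) cs3
    (chain_step (by norm_num) cs2 (chain_step (by norm_num) cs1 h0)))))

theorem mem6 : ∀ j ∈ [4, 2, 1, 5, 3, 0], j < 6 := by decide

theorem ev_spec {w : List ℕ} (h : FiO8.tv nets w 0 R72 [false, false, false, false, false, false] PLs = true) (i : ℕ)
    (hi : R72.testBit i = true) (k : ℕ) (hk : k < 6) : (PLs.getD k 0).testBit (wfn nets w i) = (PLs.getD k 0).testBit i := by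
  have h1 := FiO8.tv_spec (hok c_nets) _ _ h i hi k hk
  have h2 : FiO8.bz ([false, false, false, false, false, false].getD k false) = 0 := by
    interval_cases k <;> rfl
  rw [h2, zero_mul, add_zero] at h1
  revert h1
  generalize (PLs.getD k 0).testBit (wfn nets w i) = a
  generalize (PLs.getD k 0).testBit i = b
  revert a b
  decide

theorem evs {j : ℕ} (hj : j < 6) : FiO8.tv nets (ew j) 0 R72 [false, false, false, false, false, false] PLs = true := by
  interval_cases j
  · exact ev0
  · exact ev1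
  · exact ev2
  · exact ev3
  · exact ev4
  · exact ev5

/-- the third fixed subgroup -/
theorem third : ∃ O : Subgroup P, O = (Cfsg.pCore 2 ↥MM).map MM.subtype ∧ Cfsg.IsElementaryAbelian 2 O ∧ Nat.card O = 64 ∧
      ∃ _ : (O.subgroupOf MM).Normal, Nonempty (↥MM ⧸ O.subgroupOf MM ≃*
        Cfsg.isometryGroup (ZMod 2) (Cfsg.quadFormMinus 2 (ZMod 2) 1 1)) := by
  obtain ⟨π, hs, hker⟩ := H67Pi.exists_pi CC
  change ↥(HL K72) →* H89MO.OO at π
  have h1 : CLs [4, 2, 1, 5, 3, 0] ≤ π.ker.map (HL K72).subtype := by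
    unfold CLs
    rw [Subgroup.closure_le]
    rintro _ ⟨j, hj, rfl⟩
    have hj6 := mem6 j hj
    refine ⟨⟨E j, E_mem hj6⟩, ?_, rfl⟩
    show π ⟨E j, E_mem hj6⟩ = 1
    refine (hker ⟨E j, E_mem hj6⟩).2 ?_
    intro i hi k hk
    show (PLs.getD k 0).testBit (φ (Wx xx (ew j)) i) = _
    rw [φ_word]
    exact ev_spec (evs hj6) i hi k hk
  have h2 : Nat.card (π.ker.map (HL K72).subtype) = Nat.card π.ker := Subgroup.card_map_of_injective (HL K72).subtype_injective
  have h3 := Subgroup.card_mul_index π.ker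
  have hr : π.range = ⊤ := MonoidHom.range_eq_top.2 hs
  have h4 : π.ker.index = 51840 := by
    rw [Subgroup.index_ker, hr, Subgroup.card_top, H89MO.card_OO]
  rw [h4] at h3
  have h5 : Nat.card (CLs [4, 2, 1, 5, 3, 0]) ≤ Nat.card (π.ker.map (HL K72).subtype) := Nat.le_of_dvd Nat.card_pos (Subgroup.card_dvd_of_le h1)
  have h6 : Nat.card (HL K72) ≤ Nat.card MM := Nat.le_of_dvd Nat.card_pos (Subgroup.card_dvd_of_le H72_le)
  have h7 := card_chain
  rw [card_MM] at h6
  have h8 : Nat.card π.ker = 64 := by omega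
  have h9 : HL K72 = MM := by
    apply Subgroup.eq_of_le_of_card_ge H72_le
    rw [card_MM]
    omega
  have h10 : CLs [4, 2, 1, 5, 3, 0] = π.ker.map (HL K72).subtype := by
    apply Subgroup.eq_of_le_of_card_ge h1
    omega
  have hk : ∀ x : ↥(HL K72), π x = 1 → x * x = 1 := by
    intro x hx
    have hx1 : (x : P) ∈ CLs [4, 2, 1, 5, 3, 0] := by
      rw [h10]
      exact ⟨x, hx, rfl⟩
    apply Subtype.ext
    refine sq_one_closure _ ?_ ?_ _ hx1
    · rintro _ ⟨j, hj, rfl⟩
      exact E_sq (mem6 j hj)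
    · rintro _ ⟨j, hj, rfl⟩ _ ⟨i, hi, rfl⟩
      exact E_com (mem6 j hj) (mem6 i hi)
  have hc : Nat.card (HL K72) = 64 * 51840 := by rw [h9]; exact card_MM
  have h11 := H5Asm.asm (HL K72) π hs hk hc
  rw [h9] at h11
  exact h11

end Cfsg.Agent.Lib.H89GA
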