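import Cfsg.Agent.Lib.H89GA4
import Cfsg.Agent.Lib.H32Base
import Cfsg.Agent.Lib.H73Base
import Cfsg.Agent.Lib.H37F7

/-!
# Assembly: outer involutions of the presented group
-/

set_option autoImplicit false
set_option linter.all false
set_option maxRecDepth 100000

namespace Cfsg.Agent.Lib.H89GA

open Cfsg.Spor Cfsg.Agent.Lib.BenesPerm Cfsg.Agent.Lib.BenesAct Cfsg.Agent.Lib.BenesWord Cfsg.Agent.Lib.BenesPlane
open Cfsg.Agent.Lib.Fi22NetsA Cfsg.Agent.Lib.LaneTools Cfsg.Agent.Lib.TransLanes Cfsg.Agent.Lib.Fi22Out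
open Cfsg.Agent.Lib.Fi22Rel

/-- the statement of the reduction to the base -/
def ToS : Prop := ∀ t : MulAut P, t * t = 1 → t ∉ (MulAut.conj : P →* MulAut P).range → t (T 0) = T 0 →
  (∀ i < 22, ∃ j < 22, t (T (BL.getD i 0)) = T (BL.getD j 0)) →
  ∃ k : MulAut P, ∀ i < 22, (k * t * k⁻¹) (T (BL.getD i 0)) = s (T (BL.getD i 0))

theorem conj_not_inner {t : MulAut P} (ht : t ∉ (MulAut.conj : P →* MulAut P).range) (h : MulAut P) :
    h * t * h⁻¹ ∉ (MulAut.conj : P →* MulAut P).range := by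
  rintro ⟨g, hg⟩
  apply ht
  refine ⟨h⁻¹ g, ?_⟩
  have h1 := H32Base.conj_eq h⁻¹ g
  rw [← h1, hg]
  group

theorem class_t (hS : ToS) (t : MulAut P) (ht : orderOf t = 2) (hto : t ∉ (MulAut.conj : P →* MulAut P).range) :
    IsConj t s ∨ IsConj t (s * MulAut.conj (T 0)) ∨ IsConj t (s * MulAut.conj (T 0 * T 40)) := by
  obtain ⟨h, h0, hB⟩ := H32Base.exists_base t ht
  have htt : t * t = 1 := by rw [← pow_two, ← ht]; exact pow_orderOf_eq_one t
  have h1 : (h * t * h⁻¹) * (h * t * h⁻¹) = 1 := by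
    calc (h * t * h⁻¹) * (h * t * h⁻¹) = h * (t * t) * h⁻¹ := by group
      _ = 1 := by rw [htt]; group
  obtain ⟨k, hk⟩ := hS _ h1 (conj_not_inner hto h) h0 hB
  have h2 : ∀ i < 22, ((k * (h * t * h⁻¹) * k⁻¹) * s) (T (BL.getD i 0)) = T (BL.getD i 0) := by
    intro i hi
    rw [MulAut.mul_apply, H73Base.s_tb hi]
    have h3 : sB.getD i 0 < 22 := by
      revert i
      decide
    rw [hk _ h3]
    show s (H73Base.tb (sB.getD i 0)) = _
    rw [← H73Base.s_tb hi, ← MulAut.mul_apply, s_sq]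
    rfl
  obtain ⟨x, hx, h4⟩ := H73Base.cent_base _ h2
  have h5 : k * (h * t * h⁻¹) * k⁻¹ = MulAut.conj (H73Base.mm x) * s := by
    rw [← h4, mul_assoc _ s s, s_sq, mul_one]
  have h6 : (MulAut.conj (H73Base.mm x) * s) * (MulAut.conj (H73Base.mm x) * s) = 1 := by
    rw [← h5]
    calc (k * (h * t * h⁻¹) * k⁻¹) * (k * (h * t * h⁻¹) * k⁻¹) = k * ((h * t * h⁻¹) * (h * t * h⁻¹)) * k⁻¹ := by group
      _ = 1 := by rw [h1]; group
  obtain ⟨k', o, h7, h8⟩ := H73Base.final_v tr1 tr2 x hx h6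
  have h9 : IsConj t (s * MulAut.conj o) := by
    rw [isConj_iff]
    refine ⟨k' * k * h, ?_⟩
    rw [← h7, ← h5]
    group
  rcases h8 with rfl | rfl | rfl
  · left
    rw [map_one, mul_one] at h9
    exact h9
  · right; left; exact h9
  · right; right; exact h9

theorem mainP_of (hS : ToS) : Stmt FiThB.P (conjugatesOf (Fi22Rel.C.x Fi22A.L0 0)) := by
  refine ⟨s, T 0, T 40, II, s_order, s_not_inner, ?_, facts.2.2.1, ?_, ?_, ?_, ?_, s_T0, s_T40, class_t hS, ?_, ?_, ?_, ?_,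
    H37F7.f7, MM, ?_⟩
  · intro g
    rw [← Fx_s]
    exact Iff.rfl
  · rw [Tz]
    exact IsConj.refl _
  · obtain ⟨g, hg⟩ := exists_lane (l := 40) (by norm_num)
    show IsConj (xx 0) (T 40)
    rw [isConj_iff]
    refine ⟨g, ?_⟩
    rw [← Tz, ← T_map (by norm_num), hg]
  · intro h
    have := T_inj (by norm_num) (by norm_num) h
    omega
  · exact T0_comm_T40.symm
  · intro h
    have h1 := card_Fx_conj h
    rw [Fx_s, Fx_sa, card_II, card_IIC] at h1
    omega
  · intro h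
    have h1 := card_Fx_conj h
    rw [Fx_s, card_II] at h1
    have h2 := card_MM
    unfold MM at h2
    omega
  · intro h
    have h1 := card_Fx_conj h
    rw [Fx_sa, card_IIC] at h1
    have h2 := card_MM
    unfold MM at h2
    omega
  · intro g
    rw [← Fx_sa]
    exact Iff.rfl
  · obtain ⟨O, h1, h2, h3, h4⟩ := third
    exact ⟨O, fun g => Iff.rfl, h1, h2, h3, h4⟩

end Cfsg.Agent.Lib.H89GA
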