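import Cfsg.Agent.Lib.H89GA5
import Cfsg.Agent.Lib.H5Stein

/-!
# Outer involutions of the presented group: the final statement
-/

set_option autoImplicit false
set_option linter.all false

namespace Cfsg.Agent.Lib.H89GA

theorem toS : ToS := fun t ht hto h0 hB => by
  refine H5Stein.to_s ?_ t ht hto h0 hB
  intro α h
  obtain ⟨x, _, h1⟩ := H73Base.cent_base α h
  exact ⟨_, h1.symm⟩

theorem mainP : Stmt FiThB.P (conjugatesOf (Fi22Rel.C.x Fi22A.L0 0)) := mainP_of toS

end Cfsg.Agent.Lib.H89GA
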