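import Cfsg.Agent.Lib.H89GD
import Cfsg.Agent.Lib.Fi22OutD
import Cfsg.Agent.Lib.AutLanes

/-!
# Checks: the outer involution and its fixed lanes
-/

set_option autoImplicit false
set_option linter.all false
set_option maxRecDepth 100000

namespace Cfsg.Agent.Lib.H89GA

open Cfsg.Agent.Lib.BenesPerm Cfsg.Agent.Lib.BenesAct Cfsg.Agent.Lib.BenesWord Cfsg.Agent.Lib.BenesPlane
open Cfsg.Agent.Lib.Fi22NetsA Cfsg.Agent.Lib.LaneTools Cfsg.Agent.Lib.TransLanes Cfsg.Agent.Lib.Fi22Out

/-- node word -/
def nw (i : ℕ) : List ℕ := NL.getD i []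

theorem gw_let : letK 9 gw = true := by decide +kernel
theorem ss_rel : relK ns2 12 (ws ++ ws) = true := by decide +kernel
theorem fix360 : fixOK ns2 ws 12 3510 R360 = true := by decide +kernel
theorem fix64 : fixOK ns2 wsa 12 3510 R64 = true := by decide +kernel
theorem fix72 : fixOK ns2 wsab 12 3510 R72 = true := by decide +kernel
/-- relation expressing that the outer involution commutes with a word -/
def cw (w : List ℕ) : List ℕ := ws ++ (w ++ (ws ++ w.reverse))
theorem nw0 : relK ns2 12 (cw (nw 0)) = true := by decide +kernel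
theorem nw1 : relK ns2 12 (cw (nw 1)) = true := by decide +kernel
theorem nw2 : relK ns2 12 (cw (nw 2)) = true := by decide +kernel
theorem nw3 : relK ns2 12 (cw (nw 3)) = true := by decide +kernel
theorem nw4 : relK ns2 12 (cw (nw 4)) = true := by decide +kernel
theorem nw5 : relK ns2 12 (cw (nw 5)) = true := by decide +kernel
theorem nw6 : relK ns2 12 (cw (nw 6)) = true := by decide +kernel
theorem nw7 : relK ns2 12 (cw (nw 7)) = true := by decide +kernel
theorem nw8 : relK ns2 12 (cw (nw 8)) = true := by decide +kernel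

end Cfsg.Agent.Lib.H89GA
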