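import Cfsg.Agent.Lib.H89GC1

/-!
# Checks: orbits
-/

set_option autoImplicit false
set_option linter.all false
set_option maxRecDepth 100000

namespace Cfsg.Agent.Lib.H89GA

open Cfsg.Agent.Lib.BenesPerm Cfsg.Agent.Lib.BenesAct Cfsg.Agent.Lib.BenesWord Cfsg.Agent.Lib.BenesPlane
open Cfsg.Agent.Lib.Fi22NetsA Cfsg.Agent.Lib.LaneTools Cfsg.Agent.Lib.TransLanes Cfsg.Agent.Lib.Fi22Out

/-- the steps -/
def stp (W : List (List ℕ)) (l : List ℕ) : List (List ℕ) := l.map (fun i => W.getD i [])

theorem r360 : reachK nets (stp NL st360) (2 ^ 0) (fun V => Nat.beq V R360) = true := by decide +kernel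
theorem r63 : reachK nets (stp (K63.map tw) st63) (2 ^ 40) (fun V => Nat.beq V R63) = true := by decide +kernel
theorem r72 : reachK nets (stp (K72.map tw) st72) (2 ^ 0) (fun V => Nat.beq V R72) = true := by decide +kernel

/-- check of a lane entry -/
noncomputable def leK (e : LE) : Bool := bandK (letK 9 e.2.2) (bandK (Nat.blt e.2.1 9) (laneK nets e.2.2 (pt e.2.1) e.1))
/-- check of a list of lane entries -/
noncomputable def lesK (l : List LE) : Bool := List.rec (motive := fun _ => Bool) true (fun e _ ih => bandK (leK e) ih) l

theorem le_BT : lesK BT = true := by decide +kernel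
theorem le_K63 : lesK K63 = true := by decide +kernel
theorem le_K72 : lesK K72 = true := by decide +kernel
theorem le_lt0 : leK lt0 = true := by decide +kernel
theorem le_EP : lesK (EP.map Prod.fst ++ EP.map Prod.snd) = true := by decide +kernel

/-- check of the masks of fixed lanes -/
noncomputable def fbK (l : List (LE × ℕ)) : Bool := List.rec (motive := fun _ => Bool) true (fun e _ ih => bandK (fixOK nets (tw e.1) 12 3510 e.2) ih) l
theorem fb : fbK (BT.zip FBm) = true := by decide +kernel

/-- the words normalizing the base act as given -/
noncomputable def actK (ns : List Net) (w : List ℕ) (p : List ℕ) : List ℕ → Bool :=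
  fun l => List.rec (motive := fun _ => List ℕ → Bool) (fun _ => true)
    (fun i _ ih q => match q with
      | [] => false
      | j :: q => bandK (laneK ns w i (nthK 0 BL j)) (ih q)) l p
noncomputable def actsK (W : List (List ℕ)) (p : List (List ℕ)) : Bool :=
  List.rec (motive := fun _ => List (List ℕ) → Bool) (fun _ => true)
    (fun w _ ih q => match q with
      | [] => false
      | j :: q => bandK (actK nets w j BL) (ih q)) W p
theorem acts_KW : actsK KW KP = true := by decide +kernel
theorem act_s : actK ns2 ws sB BL = true := by decide +kernel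
theorem let_KW : (KW.all (fun w => letK 9 w)) = true := by decide +kernel

end Cfsg.Agent.Lib.H89GA
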