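import Cfsg.Agent.Lib.H89MonP4
import Cfsg.Agent.Lib.H89Five3

/-!
# Groups of Monster type: the centralizer of an element of order 5 (helper89)
-/

set_option autoImplicit false
set_option linter.all false

namespace Cfsg.Agent.Lib.H89Mon1

open Cfsg Cfsg.Agent.Lib.LargeExtra Cfsg.Agent.Lib.LeechTrans Cfsg.Agent.Lib.LeechCo2 Cfsg.Agent.Lib.LeechFrame
  Cfsg.Agent.Lib.LeechQuot Cfsg.Agent.Lib.LeechOrder Cfsg.Agent.Lib.H89Five
open scoped Pointwise

variable {G : Type*} [Group G] {z : G} {Q : Subgroup (Subgroup.centralizer ({z} : Set G))} [Q.Normal]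
  {e : (Subgroup.centralizer ({z} : Set G)) ⧸ Q ≃* Spor.Co1} {ψ : leechLattice → Q ⧸ Subgroup.center Q}

theorem Mon.harada [Finite G] (M : Mon z Q e ψ)
    (hnwc : ∃ g : G, (∃ hq : g * z * g⁻¹ ∈ Subgroup.centralizer ({z} : Set G),
      (⟨g * z * g⁻¹, hq⟩ : Subgroup.centralizer ({z} : Set G)) ∈ Q) ∧ g * z * g⁻¹ ≠ z)
    {s : G} {v : leechLattice} (hs : Cl ψ s v) (hv : sqNorm (v : GolayPt → ℤ) = 64) {B : Subgroup G}
    (hB : B ≤ Subgroup.centralizer ({z, s} : Set G))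
    (hBp : Nat.card B = 5 ^ (Nat.card ↥(Subgroup.centralizer ({z, s} : Set G))).factorization 5)
    [hn : (B.subgroupOf (Subgroup.centralizer (B : Set G))).Normal] :
    Cfsg.IsOfHaradaNortonType (↥(Subgroup.centralizer (B : Set G)) ⧸ B.subgroupOf (Subgroup.centralizer (B : Set G))) := by
  haveI : Fact (Nat.Prime 5) := ⟨by norm_num⟩
  obtain ⟨e', ψ', b, M', hs', hBz, hr, hb5, hc⟩ := M.std_sylow hs hv hB (by decide) hBp fac5 b5_mem_N orderOf_b5
  subst hBz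
  have hzB : z ∈ Subgroup.centralizer (Subgroup.zpowers b : Set G) := z_mem hr
  have hsB : s ∈ Subgroup.centralizer (Subgroup.zpowers b : Set G) := by
    rw [M'.comm_iff_fix hr (by decide) hb5 hs']
    exact q2_eq_iff.1 (H89Q2.mem_N_iff_p1.1 b5_mem_N)
  have hR : (RB Q hzB).Normal := M'.RB_normal hzB (odd_card (by decide) hb5)
  obtain ⟨e2, -⟩ := M'.exists_equivB hr (by decide) hb5 b5_pow hzB Ph Ph_surj (fun g => Ph_eq_one)
  refine ⟨zB hzB, RB Q hzB, hR, ?_, ⟨e2⟩⟩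
  obtain ⟨x, hx, hxz⟩ := M'.move_sylow hnwc (by decide) fac5 hc hzB hs' (by rw [coe_ef, sqNorm_single]; norm_num) hsB
  have hsz : s ≠ z := (M'.ne_of_short hs' (ne_zero_of_norm (n := 64) (by rw [coe_ef, sqNorm_single]; norm_num) (by norm_num)) (by
    rw [coe_ef, sqNorm_single]; norm_num)).2
  exact M'.settingB hr (by decide) hb5 b5_pow hzB hna5 faith5 Ph Ph_surj (fun g => Ph_eq_one) H89Wreath.no_two card_FixS5
    ⟨x, hx, by rw [hxz]; exact hs'.mem, by rw [hxz]; exact hsz⟩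

end Cfsg.Agent.Lib.H89Mon1
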