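import Cfsg.Agent.Lib.H89Seven3

/-!
# The centralizer in `Co0` of the coordinate permutation of order 7: the homomorphism onto `GL3(2)` (helper89)
-/

set_option autoImplicit false
set_option linter.all false

namespace Cfsg.Agent.Lib.H89Seven

open Cfsg Cfsg.Agent.Lib.Golay Cfsg.Agent.Lib.LeechMin Cfsg.Agent.Lib.H89LeechMat Cfsg.Agent.Lib.H89Mon1
  Cfsg.Agent.Lib.LeechQuot Cfsg.Agent.Lib.LeechOrder Cfsg.Agent.Lib.H89Mono Cfsg.Agent.Lib.H89FixRank
  Cfsg.Agent.Lib.H89FixTab Cfsg.Agent.Lib.LeechFrame Cfsg.Agent.Lib.H89Q2 Cfsg.Agent.Lib.H89Stab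
  Cfsg.Agent.Lib.H89CN
open scoped Pointwise Matrix

theorem X_lw {j : ℕ} (hj : j < 6) : X (2 ^ j) = q2 (lw (u7.getD j 0)) := by
  unfold X cmb
  rw [Finset.sum_eq_single j]
  · rw [Nat.testBit_two_pow_self, if_pos rfl]
  · intro k _ hk
    rw [Nat.testBit_two_pow_of_ne (Ne.symm hk), if_neg (by simp)]
  · intro h; exact absurd (Finset.mem_range.2 hj) h

theorem fX {i j : ℕ} (hi : i < 3) (hj : j < 6) : fB (lw (u7.getD (3 + i) 0)) (X (2 ^ j)) = if i = j then 1 else 0 := by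
  have h1 : X (2 ^ j) = q2 (lw (u7.getD j 0)) := by
    unfold X cmb
    rw [Finset.sum_eq_single j]
    · rw [Nat.testBit_two_pow_self, if_pos rfl]
    · intro k _ hk
      rw [Nat.testBit_two_pow_of_ne (Ne.symm hk), if_neg (by simp)]
    · intro h; exact absurd (Finset.mem_range.2 hj) h
  have h2 := of_decide_eq_true (allLt_iff.mp (allLt_iff.mp dual7 i hi) j hj)
  rw [h1, fB_q2, dt_apply, coe_lw (tab_U tab7_ok (show j < 6 from hj)), coe_lw (tab_U tab7_ok (show 3 + i < 6 by omega)),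
    idot_eq]
  have h3 : Int.emod (Int.ediv (idot (u7.getD j 0) (u7.getD (3 + i) 0)) 8) 2 =
      (idot (u7.getD j 0) (u7.getD (3 + i) 0) / 8) % 2 := rfl
  rw [h3] at h2
  set t := idot (u7.getD j 0) (u7.getD (3 + i) 0) / 8
  have h4 : ((t : ℤ) : ZMod 2) = ((t % 2 : ℤ) : ZMod 2) := by
    rw [ZMod.intCast_eq_intCast_iff_dvd_sub]
    have := Int.emod_add_mul_ediv t 2
    exact ⟨-(t / 2), by omega⟩
  rw [h4, h2]
  split_ifs <;> simp

theorem X_zero : X 0 = 0 := by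
  have := X_xor 0 0
  rw [Nat.xor_self, q2_self] at this
  exact this

theorem X3 : X 3 = X 1 + X 2 := X_xor 1 2
theorem X5 : X 5 = X 1 + X 4 := X_xor 1 4
theorem X6 : X 6 = X 2 + X 4 := X_xor 2 4
theorem X7 : X 7 = X 3 + X 4 := X_xor 3 4

/-- coordinates -/
theorem decomp (φ : Q2 →+ ZMod 2) {a : ℕ} (ha : a < 8) :
    φ (X a) = ∑ k : Fin 3, fB (lw (u7.getD (3 + k) 0)) (X a) * φ (X (2 ^ (k : ℕ))) := by
  have f00 := fX (i := 0) (j := 0) (by norm_num) (by norm_num)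
  have f01 := fX (i := 0) (j := 1) (by norm_num) (by norm_num)
  have f02 := fX (i := 0) (j := 2) (by norm_num) (by norm_num)
  have f10 := fX (i := 1) (j := 0) (by norm_num) (by norm_num)
  have f11 := fX (i := 1) (j := 1) (by norm_num) (by norm_num)
  have f12 := fX (i := 1) (j := 2) (by norm_num) (by norm_num)
  have f20 := fX (i := 2) (j := 0) (by norm_num) (by norm_num)
  have f21 := fX (i := 2) (j := 1) (by norm_num) (by norm_num)
  have f22 := fX (i := 2) (j := 2) (by norm_num) (by norm_num)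
  simp only [pow_zero, pow_one] at f00 f01 f02 f10 f11 f12 f20 f21 f22
  norm_num at f00 f01 f02 f10 f11 f12 f20 f21 f22
  rw [Fin.sum_univ_three]
  simp only [Fin.val_zero, Fin.val_one, Fin.val_two, pow_zero, pow_one, Nat.add_zero]
  norm_num
  interval_cases a
  · rw [X_zero]; simp
  · rw [f00, f10, f20]; ring
  · rw [f01, f11, f21]; ring
  · rw [X3]; simp only [map_add]; rw [f00, f10, f20, f01, f11, f21]; ring
  · rw [f02, f12, f22]; ring
  · rw [X5]; simp only [map_add]; rw [f00, f10, f20, f02, f12, f22]; ring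
  · rw [X6]; simp only [map_add]; rw [f01, f11, f21, f02, f12, f22]; ring
  · rw [X7, X3]; simp only [map_add]; rw [f00, f10, f20, f01, f11, f21, f02, f12, f22]; ring

theorem V1_two (j : Fin 3) : V1 (X (2 ^ (j : ℕ))) := by
  fin_cases j
  · exact ⟨1, by norm_num, by norm_num, rfl⟩
  · exact ⟨2, by norm_num, by norm_num, rfl⟩
  · exact ⟨4, by norm_num, by norm_num, rfl⟩

/-- the matrix of an element of the centralizer -/
noncomputable def Pm (g : Co0) : Matrix (Fin 3) (Fin 3) (ZMod 2) := fun i j =>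
  fB (lw (u7.getD (3 + i) 0)) (g • X (2 ^ (j : ℕ)))

theorem Pm_one : Pm 1 = 1 := by
  ext i j
  show fB _ ((1 : Co0) • X (2 ^ (j : ℕ))) = _
  rw [one_smul, fX i.2 (by omega), Matrix.one_apply]
  simp only [Fin.ext_iff]

theorem Pm_mul {g h : Co0} (hg : g * b7 = b7 * g) (hh : h * b7 = b7 * h) : Pm (g * h) = Pm g * Pm h := by
  ext i j
  rw [Matrix.mul_apply]
  show fB _ ((g * h) • X (2 ^ (j : ℕ))) = _
  obtain ⟨a, ha, -, h1⟩ := pres1 hh _ (V1_two j)
  rw [mul_smul, h1]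
  have := decomp ((fB (lw (u7.getD (3 + i) 0))).comp (a2 g)) ha
  have h2 : fB (lw (u7.getD (3 + i) 0)) (g • X a) = ((fB (lw (u7.getD (3 + i) 0))).comp (a2 g)) (X a) := rfl
  rw [h2, this]
  apply Finset.sum_congr rfl
  intro k _
  rw [mul_comm]
  show Pm g i k * _ = _
  rw [← h1]
  rfl

/-- the homomorphism -/
noncomputable def PmH : C →* Matrix (Fin 3) (Fin 3) (ZMod 2) where
  toFun g := Pm g
  map_one' := Pm_one
  map_mul' g h := Pm_mul (mem_C.1 g.2) (mem_C.1 h.2)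

noncomputable def Ph : C →* GL (Fin 3) (ZMod 2) := PmH.toHomUnits

theorem Ph_coe (g : C) : ((Ph g : GL (Fin 3) (ZMod 2)) : Matrix (Fin 3) (Fin 3) (ZMod 2)) = Pm g := rfl

theorem fXa {i : ℕ} (hi : i < 3) (a : ℕ) : fB (lw (u7.getD (3 + i) 0)) (X a) = if a.testBit i = true then 1 else 0 := by
  have h1 : fB (lw (u7.getD (3 + i) 0)) (X a) =
      ((fB (lw (u7.getD (3 + i) 0))).comp (QuotientAddGroup.mk' D2)) (cmb u7 6 a) := rfl
  rw [h1]
  unfold cmb
  rw [map_sum, Finset.sum_eq_single i]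
  · split_ifs with h
    · show fB _ (q2 (lw (u7.getD i 0))) = 1
      rw [← X_lw (by omega), fX hi (by omega), if_pos rfl]
    · exact map_zero _
  · intro k hk hki
    split_ifs with h
    · show fB _ (q2 (lw (u7.getD k 0))) = 0
      rw [← X_lw (Finset.mem_range.1 hk), fX hi (Finset.mem_range.1 hk), if_neg (Ne.symm hki)]
    · exact map_zero _
  · intro h; exact absurd (Finset.mem_range.2 (by omega)) h

theorem bits_eq : ∀ a : Fin 8, ∀ j : Fin 3, (∀ i : Fin 3, (a : ℕ).testBit i = decide (i = j)) → (a : ℕ) = 2 ^ (j : ℕ) := by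
  decide

theorem X_eq_of {a : ℕ} (ha : a < 8) {j : Fin 3} (h : ∀ i : Fin 3, fB (lw (u7.getD (3 + i) 0)) (X a) =
    if i = j then 1 else 0) : X a = X (2 ^ (j : ℕ)) := by
  congr 1
  refine bits_eq ⟨a, ha⟩ j fun i => ?_
  have h1 := h i
  rw [fXa i.2] at h1
  by_cases hij : i = j
  · rw [if_pos hij] at h1
    rw [decide_eq_true hij]
    by_contra h2
    rw [if_neg h2] at h1
    exact absurd h1 (by decide)
  · rw [if_neg hij] at h1
    rw [decide_eq_false hij]
    by_contra h2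
    rw [if_pos (by simpa using h2)] at h1
    exact absurd h1 (by decide)

theorem fix_of_Ph {g : C} (h : Ph g = 1) (j : Fin 3) : (g : Co0) • X (2 ^ (j : ℕ)) = X (2 ^ (j : ℕ)) := by
  obtain ⟨a, ha, -, h1⟩ := pres1 (mem_C.1 g.2) _ (V1_two j)
  rw [h1]
  apply X_eq_of ha
  intro i
  have h2 : Pm g = 1 := by rw [← Ph_coe, h]; rfl
  have h3 := congrFun (congrFun h2 i) j
  rw [Matrix.one_apply] at h3
  rw [← h3, ← h1]
  rfl

theorem u0_ok : allLt 24 (fun i => Nat.beq (img (u7.getD 0 0) i) (cond (Nat.beq i 17) 24 16)) = true := by decide +kernel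

theorem lw_u0 : lw (u7.getD 0 0) = ef (pt 17) := by
  apply Subtype.ext
  rw [coe_lw (tab_U tab7_ok (by norm_num)), coe_ef]
  funext p
  show dv (u7.getD 0 0) (ix p) = _
  rw [dv_eq, Nat.eq_of_beq_eq_true (allLt_iff.mp u0_ok (ix p) (ix_lt p)), Pi.single_apply]
  by_cases h : p = pt 17
  · rw [h, if_pos rfl, ix_pt (by norm_num)]; rfl
  · rw [if_neg h]
    have h1 : Nat.beq (ix p) 17 = false := by
      rw [Bool.eq_false_iff]
      intro h2
      apply h
      rw [← Nat.eq_of_beq_eq_true h2, pt_ix]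
    rw [h1, cond_false]; rfl

theorem X_one_p1 : X 1 = p1 := by
  have := X_lw (j := 0) (by norm_num)
  rw [pow_zero, lw_u0, q2_ef] at this
  exact this

theorem ker_of_fix {g : Co0} (hg : g * b7 = b7 * g) (h : ∀ j : Fin 3, g • X (2 ^ (j : ℕ)) = X (2 ^ (j : ℕ))) :
    ∃ i < 7, g = b7 ^ i ∨ g = negOne * b7 ^ i := by
  have h0 := h 0
  have h1 := h 1
  have h2 := h 2
  simp only [Fin.val_zero, Fin.val_one, Fin.val_two] at h0 h1 h2
  rw [pow_zero, X_one_p1] at h0
  rw [X_lw (by norm_num)] at h1 h2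
  exact ker7_spec (mem_N_iff_p1.2 h0) hg h1 h2

theorem b7_fix (i : ℤ) (j : ℕ) (hj : j < 6) : b7 ^ i • X (2 ^ j) = X (2 ^ j) := by
  have h1 : b7 ∈ MulAction.stabilizer Co0 (X (2 ^ j)) := by
    rw [MulAction.mem_stabilizer_iff, X_lw hj, smul_q2]
    have h2 : b7 • lw (u7.getD j 0) = lw (u7.getD j 0) := mem_FL.1 (tab_FL inM_c7 tab7_ok hj : lw (u7.getD j 0) ∈ FL b7)
    rw [h2]
  exact (MulAction.stabilizer Co0 (X (2 ^ j))).zpow_mem h1 i

theorem negOne_smul2 (x : Q2) : negOne • x = x := by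
  obtain ⟨v, rfl⟩ := QuotientAddGroup.mk_surjective x
  show q2 (negOne • v) = q2 v
  rw [negOne_smul, q2_eq_iff]
  exact ⟨-v, by abel⟩

theorem Ph_eq_one {g : C} : Ph g = 1 ↔ ∃ i : ℤ, (g : Co0) = b7 ^ i ∨ (g : Co0) = negOne * b7 ^ i := by
  constructor
  · intro h
    obtain ⟨i, -, hi⟩ := ker_of_fix (mem_C.1 g.2) (fix_of_Ph h)
    exact ⟨i, by rwa [zpow_natCast]⟩
  · rintro ⟨i, hi⟩
    have h1 : ∀ j : Fin 3, (g : Co0) • X (2 ^ (j : ℕ)) = X (2 ^ (j : ℕ)) := by
      intro j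
      rcases hi with hi | hi
      · rw [hi, b7_fix _ _ (by omega)]
      · rw [hi, mul_smul, b7_fix _ _ (by omega), negOne_smul2]
    apply Units.ext
    rw [Ph_coe]
    ext i j
    show fB _ ((g : Co0) • X (2 ^ (j : ℕ))) = _
    rw [h1, fX i.2 (by omega)]
    show _ = (1 : Matrix (Fin 3) (Fin 3) (ZMod 2)) i j
    rw [Matrix.one_apply]
    simp only [Fin.ext_iff]

theorem faith7 : Faith b7 := by
  intro g hg h
  obtain ⟨i, -, hi⟩ := ker_of_fix hg (by
    intro j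
    rw [X_lw (by omega), smul_q2]
    exact q2_eq_iff.2 (dbl_symm (dbl_symm (h _ (tab_FL inM_c7 tab7_ok (by omega)))))) 
  exact ⟨i, by rwa [zpow_natCast]⟩

theorem hna7 : ∃ v ∈ FL b7, ∃ w ∈ FL b7, ¬ (16 : ℤ) ∣ dt v w := by
  refine ⟨lw (u7.getD 0 0), tab_FL inM_c7 tab7_ok (by norm_num), lw (u7.getD 3 0), tab_FL inM_c7 tab7_ok (by norm_num), ?_⟩
  intro h
  have h1 := fX (i := 0) (j := 0) (by norm_num) (by norm_num)
  rw [X_lw (by norm_num), fB_q2, if_pos rfl] at h1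
  obtain ⟨k, hk⟩ := h
  have h2 : dt (lw (u7.getD 0 0)) (lw (u7.getD (3 + 0) 0)) / 8 = 2 * k := by
    show dt (lw (u7.getD 0 0)) (lw (u7.getD 3 0)) / 8 = 2 * k
    rw [hk]; omega
  rw [h2] at h1
  push_cast at h1
  have h3 : (2 : ZMod 2) = 0 := rfl
  rw [h3, zero_mul] at h1
  exact absurd h1 (by decide)

theorem card_C_ge : 2352 ≤ Nat.card C := by
  have h1 := card_eq inM_c7
  have h2 := stab_ge inM_c7 (F := F8) (by decide) F8_fix C7 (fun σ hσ => mem_C7.1 hσ)
  rw [card_C7] at h2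
  have h3 : F8.length = 8 := rfl
  rw [h3] at h2
  have h4 := ncard_orbit
  have h5 : Nat.card C = Nat.card (MulAction.stabilizer (Subgroup.centralizer ({pC c7 inM_c7} : Set Co0)) p1) * 7 := by
    rw [← h4]; exact h1
  rw [h5]
  omega

theorem card_ker_le : Nat.card Ph.ker ≤ 14 := by
  have h1 : ∀ g : Ph.ker, ∃ x : Fin 7 × Bool, (g : C) = (if x.2 then (b7 ^ (x.1 : ℕ)) else negOne * b7 ^ (x.1 : ℕ) : Co0) := by
    intro g
    obtain ⟨i, hi7, hi⟩ := ker_of_fix (mem_C.1 g.1.2) (fix_of_Ph g.2)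
    rcases hi with hi | hi
    · exact ⟨(⟨i, hi7⟩, true), by simpa using hi⟩
    · exact ⟨(⟨i, hi7⟩, false), by simpa using hi⟩
  choose f hf using h1
  have h2 : Function.Injective f := by
    intro g h e
    apply Subtype.ext
    apply Subtype.ext
    rw [hf g, hf h, e]
  have h3 := Nat.card_le_card_of_injective f h2
  have h4 : Nat.card (Fin 7 × Bool) = 14 := by
    rw [Nat.card_prod, Nat.card_fin]
    have : Nat.card Bool = 2 := by rw [Nat.card_eq_fintype_card]; rfl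
    rw [this]
  rwa [h4] at h3

theorem Ph_surj : Function.Surjective Ph := by
  rw [← MonoidHom.range_eq_top]
  apply Subgroup.eq_top_of_card_eq
  have h1 := Subgroup.card_mul_index Ph.ker
  rw [Subgroup.index_ker] at h1
  have h2 := card_C_ge
  have h3 := card_ker_le
  have h4 : Nat.card Ph.range ≤ Nat.card (GL (Fin 3) (ZMod 2)) := Subgroup.card_le_card_group _
  have h5 : Nat.card (GL (Fin 3) (ZMod 2)) = 168 := ClSeven.card_gl32
  apply le_antisymm h4
  rw [h5]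
  by_contra h6
  push Not at h6
  have h7 : Nat.card Ph.ker * Nat.card Ph.range ≤ 14 * 167 := Nat.mul_le_mul h3 (by omega)
  omega

instance simple32 : IsSimpleGroup (GL (Fin 3) (ZMod 2)) := by
  haveI : IsSimpleGroup (Matrix.ProjectiveSpecialLinearGroup (Fin 2) (ZMod 7)) :=
    ClSLn.isSimpleGroup_PSL le_rfl (fun _ => ⟨2, by decide, by decide⟩)
  have h1 := ClSeven.bijective_of_simple ClSeven.pslHom _ ClSeven.pslHom_ne (ClSeven.card_psl27.trans ClSeven.card_gl32.symm)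
  exact (MulEquiv.ofBijective _ h1).symm.isSimpleGroup

theorem hK7 (S : Subgroup (GL (Fin 3) (ZMod 2))) (hS : S.Normal) (h2 : IsPGroup 2 S) : S = ⊥ := by
  rcases hS.eq_bot_or_eq_top with h | h
  · exact h
  · exfalso
    rw [h] at h2
    obtain ⟨n, hn⟩ := IsPGroup.iff_card.1 h2
    rw [Subgroup.card_top, ClSeven.card_gl32] at hn
    have h3 : (3 : ℕ) ∣ 2 ^ n := ⟨56, by rw [← hn]⟩
    have h4 := (Nat.Prime.dvd_of_dvd_pow (by norm_num) h3 : 3 ∣ 2)
    norm_num at h4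

theorem card_FixS7 : Nat.card (FixS b7) = 2 ^ (2 * 3) := card_FixS_pC inM_c7 orb7_ok

theorem ncard_T4_7 : (T4 b7).ncard = 14 := by
  rw [← cnt7]
  exact ncard_T4 inM_c7 orb7_ok tab7_ok

end Cfsg.Agent.Lib.H89Seven
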