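import Cfsg.Agent.Lib.H89MonP4
import Cfsg.Agent.Lib.H89Seven4

/-!
# Groups of Monster type: the centralizer of an element of order 7 (helper89)
-/

set_option autoImplicit false
set_option linter.all false

namespace Cfsg.Agent.Lib.H89Mon1

open Cfsg Cfsg.Agent.Lib.LargeExtra Cfsg.Agent.Lib.LeechTrans Cfsg.Agent.Lib.LeechCo2 Cfsg.Agent.Lib.LeechFrame
  Cfsg.Agent.Lib.LeechQuot Cfsg.Agent.Lib.LeechOrder Cfsg.Agent.Lib.H89Seven
open scoped Pointwise

variable {G : Type*} [Group G] {z : G} {Q : Subgroup (Subgroup.centralizer ({z} : Set G))} [Q.Normal]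
  {e : (Subgroup.centralizer ({z} : Set G)) ⧸ Q ≃* Spor.Co1} {ψ : leechLattice → Q ⧸ Subgroup.center Q}

/-- `SL3(2) = GL3(2)` -/
theorem gl_sl : Nonempty (GL (Fin 3) (ZMod 2) ≃* Matrix.SpecialLinearGroup (Fin 3) (ZMod 2)) := by
  have h2 : Function.Bijective (Matrix.SpecialLinearGroup.toGL : Matrix.SpecialLinearGroup (Fin 3) (ZMod 2) →* GL (Fin 3) (ZMod 2)) := by
    rw [Nat.bijective_iff_injective_and_card]
    exact ⟨Matrix.SpecialLinearGroup.toGL_injective, ClSeven.card_sl32.trans ClSeven.card_gl32.symm⟩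
  exact ⟨(MulEquiv.ofBijective _ h2).symm⟩

theorem Mon.held [Finite G] (M : Mon z Q e ψ)
    (hnwc : ∃ g : G, (∃ hq : g * z * g⁻¹ ∈ Subgroup.centralizer ({z} : Set G),
      (⟨g * z * g⁻¹, hq⟩ : Subgroup.centralizer ({z} : Set G)) ∈ Q) ∧ g * z * g⁻¹ ≠ z)
    {s : G} {v : leechLattice} (hs : Cl ψ s v) (hv : sqNorm (v : GolayPt → ℤ) = 64) {B : Subgroup G}
    (hB : B ≤ Subgroup.centralizer ({z, s} : Set G))
    (hBp : Nat.card B = 7 ^ (Nat.card ↥(Subgroup.centralizer ({z, s} : Set G))).factorization 7)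
    [hn : (B.subgroupOf (Subgroup.centralizer (B : Set G))).Normal] :
    Cfsg.IsOfHeldType (↥(Subgroup.centralizer (B : Set G)) ⧸ B.subgroupOf (Subgroup.centralizer (B : Set G))) := by
  haveI : Fact (Nat.Prime 7) := ⟨by norm_num⟩
  obtain ⟨e', ψ', b, M', hs', hBz, hr, hb7, hc⟩ := M.std_sylow hs hv hB (by decide) hBp fac7 b7_mem_N orderOf_b7
  subst hBz
  have hzB : z ∈ Subgroup.centralizer (Subgroup.zpowers b : Set G) := z_mem hr
  have hsB : s ∈ Subgroup.centralizer (Subgroup.zpowers b : Set G) := by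
    rw [M'.comm_iff_fix hr (by decide) hb7 hs']
    exact q2_eq_iff.1 (H89Q2.mem_N_iff_p1.1 b7_mem_N)
  have hmove : ∀ (s : G) (v : leechLattice), Cl ψ' s v → sqNorm (v : GolayPt → ℤ) = 64 →
      s ∈ Subgroup.centralizer (Subgroup.zpowers b : Set G) →
      ∃ x ∈ Subgroup.centralizer (Subgroup.zpowers b : Set G), x * z * x⁻¹ = s := by
    intro s v hs hv hsb
    exact M'.move_sylow hnwc (by decide) fac7 hc hzB hs hv hsb
  have hR : (RB Q hzB).Normal := M'.RB_normal hzB (odd_card (by decide) hb7)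
  obtain ⟨e2, -⟩ := M'.exists_equivB hr (by decide) hb7 b7_pow hzB Ph Ph_surj (fun g => Ph_eq_one)
  obtain ⟨e3⟩ := gl_sl
  refine ⟨zB hzB, RB Q hzB, hR, ?_, ⟨e2.trans e3⟩, ?_⟩
  · obtain ⟨x, hx, hxz⟩ := hmove s _ hs' (by rw [coe_ef, sqNorm_single]; norm_num) hsB
    have hsz : s ≠ z := (M'.ne_of_short hs' (ne_zero_of_norm (n := 64) (by rw [coe_ef, sqNorm_single]; norm_num) (by norm_num)) (by
      rw [coe_ef, sqNorm_single]; norm_num)).2
    exact M'.settingB hr (by decide) hb7 b7_pow hzB hna7 faith7 Ph Ph_surj (fun g => Ph_eq_one) hK7 card_FixS7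
      ⟨x, hx, by rw [hxz]; exact hs'.mem, by rw [hxz]; exact hsz⟩
  · have h1 := M'.ncard_conj hr (by decide) hb7 b7_pow hzB hmove (by
      intro s hs hc hne
      exact (M'.type_four hnwc hs).1 ⟨hc, hne⟩)
    rw [ncard_T4_7] at h1
    exact h1

end Cfsg.Agent.Lib.H89Mon1
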