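import Cfsg.Agent.Lib.Layer
import Cfsg.Agent.Lib.LargeExtra7
import Cfsg.Agent.Lib.H89ExCount
import Mathlib

/-!
# Preparations for the normalizer of the Sylow 7-subgroup in groups of Monster type (helper89)
-/

set_option autoImplicit false
set_option linter.all false

namespace Cfsg.Agent.Lib.H89HeldN

open Cfsg Cfsg.Agent.Lib.LargeExtra Subgroup

/-- an element of order 2 of the group whose conjugates generate everything outside a central odd subgroup lies in the layer -/
theorem mem_layer_of {K : Type*} [Group K] [Finite K] {B' : Subgroup K} (hodd : Odd (Nat.card B'))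
    (hcen : B' ≤ Subgroup.center K) {z : K} (hz : z * z = 1) (hz1 : z ≠ 1)
    (hb : ∀ N : Subgroup K, N.Normal → ¬ N ≤ B' → z ∈ N) {a b : K}
    (hab : (a * z * a⁻¹) * (b * z * b⁻¹) ≠ (b * z * b⁻¹) * (a * z * a⁻¹)) : z ∈ layer K := by
  classical
  haveI : Fact (Nat.Prime 2) := ⟨Nat.prime_two⟩
  by_contra hzl
  have hzB : z ∉ B' := fun h => hz1 (eq_one_of_mem_odd hodd h hz)
  have hlay : layer K ≤ B' := by
    by_contra h
    haveI := Layer.layer_characteristic K
    exact hzl (hb _ inferInstance h)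
  have hzF : z ∈ fittingSubgroup K := by
    by_contra h
    haveI := Layer.fittingSubgroup_characteristic K
    have h1 : fittingSubgroup K ≤ B' := by
      by_contra h2
      exact h (hb _ inferInstance h2)
    have h2 : generalizedFittingSubgroup K ≤ B' := sup_le hlay h1
    have h3 : z ∈ Subgroup.centralizer (generalizedFittingSubgroup K : Set K) := by
      rw [Subgroup.mem_centralizer_iff]
      intro x hx
      exact (Subgroup.mem_center_iff.1 (hcen (h2 hx)) z).symm
    exact hzB (h2 (Layer.centralizer_genFitting_le h3))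
  haveI hFn : (fittingSubgroup K).Normal := by
    haveI := Layer.fittingSubgroup_characteristic K
    infer_instance
  haveI hnil := Layer.isNilpotent_fittingSubgroup K
  let zF : fittingSubgroup K := ⟨z, hzF⟩
  have hp : IsPGroup 2 (Subgroup.zpowers zF) := by
    have h1 : orderOf zF ∣ 2 := orderOf_dvd_of_pow_eq_one (by rw [pow_two]; exact Subtype.ext hz)
    rcases (Nat.dvd_prime Nat.prime_two).1 h1 with h2 | h2
    · exact IsPGroup.of_card (n := 0) (by rw [Nat.card_zpowers, h2, pow_zero])
    · exact IsPGroup.of_card (n := 1) (by rw [Nat.card_zpowers, h2, pow_one])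
  obtain ⟨P, hP⟩ := hp.exists_le_sylow
  have hPn : (P : Subgroup (fittingSubgroup K)).Normal := by
    have h1 := (Group.isNilpotent_of_finite_tfae (G := fittingSubgroup K)).out 0 3
    exact h1.1 hnil 2 inferInstance P
  have hPc : (P : Subgroup (fittingSubgroup K)).Characteristic := Sylow.characteristic_of_normal P hPn
  set O : Subgroup K := (P : Subgroup (fittingSubgroup K)).map (fittingSubgroup K).subtype with hO
  haveI hOn : O.Normal := Layer.map_subtype_normal hPc
  have hzO : z ∈ O := ⟨zF, hP (Subgroup.mem_zpowers _), rfl⟩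
  have hO2 : IsPGroup 2 O := P.isPGroup'.map _
  haveI : Nontrivial O := ⟨⟨z, hzO⟩, 1, fun h => hz1 (congrArg Subtype.val h)⟩
  haveI hct := hO2.center_nontrivial
  set Z : Subgroup K := (Subgroup.center O).map O.subtype with hZ
  haveI hZn : Z.Normal := Layer.map_subtype_normal inferInstance
  have hZB : ¬ Z ≤ B' := by
    intro h
    obtain ⟨x, hx⟩ := exists_ne (1 : Subgroup.center O)
    obtain ⟨k, hk⟩ := hO2 (x : O)
    have h1 : ((x : O) : K) ∈ B' := h ⟨x, x.2, rfl⟩
    have h2 : ((x : O) : K) ^ 2 ^ k = 1 := congrArg Subtype.val hk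
    have h3 : orderOf (⟨((x : O) : K), h1⟩ : B') ∣ 2 ^ k := orderOf_dvd_of_pow_eq_one (Subtype.ext h2)
    have h4 : orderOf (⟨((x : O) : K), h1⟩ : B') ∣ Nat.card B' := orderOf_dvd_natCard _
    have h5 : Nat.Coprime (2 ^ k) (Nat.card B') := Nat.Coprime.pow_left _ ((Nat.coprime_two_left).2 hodd)
    have h6 := Nat.eq_one_of_dvd_coprimes h5 h3 h4
    apply hx
    apply Subtype.ext
    apply Subtype.ext
    have h7 : (⟨((x : O) : K), h1⟩ : B') = 1 := orderOf_eq_one_iff.1 h6
    have h8 : ((x : O) : K) = 1 := congrArg (fun t : B' => (t : K)) h7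
    exact h8
  have hzZ : z ∈ Z := hb _ hZn hZB
  have ha : a * z * a⁻¹ ∈ Z := hZn.conj_mem z hzZ a
  have hbO : b * z * b⁻¹ ∈ O := hOn.conj_mem z hzO b
  obtain ⟨c, hc, hca⟩ := ha
  apply hab
  have h1 := Subgroup.mem_center_iff.1 hc ⟨_, hbO⟩
  have h2 : (b * z * b⁻¹) * (c : K) = (c : K) * (b * z * b⁻¹) := congrArg Subtype.val h1
  have h3 : (c : K) = a * z * a⁻¹ := hca
  rw [h3] at h2
  exact h2.symm

/-- normal subgroups of a large group -/
theorem normal_mem {H : Type*} [Group H] [Finite H] {z : H} {Q : Subgroup (Subgroup.centralizer ({z} : Set H))} {w : ℕ}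
    (hw : 2 ≤ w) (h : IsExtraspecialCentralizerSetting z Q w) {N : Subgroup H} (hN : N.Normal) (hne : N ≠ ⊥) : z ∈ N := by
  obtain ⟨hz, hF, hQ, hcard, g, ⟨hq, hgQ⟩, hgz⟩ := h
  have hp := preLarge_of_setting' hz hF hQ
  set Q' := Q.map (Subgroup.centralizer ({z} : Set H)).subtype with hQ'
  have hs : g * z * g⁻¹ ∈ Q' := ⟨_, hgQ, rfl⟩
  have hc : 8 < Nat.card Q' := by
    have h1 : Nat.card Q' = Nat.card Q :=
      (Nat.card_congr (Subgroup.equivMapOfInjective _ _ (Subgroup.subtype_injective _)).toEquiv).symm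
    rw [h1, hcard]
    calc 8 < 2 ^ (2 * 2 + 1) := by norm_num
      _ ≤ 2 ^ (2 * w + 1) := Nat.pow_le_pow_right (by norm_num) (by omega)
  have hs1 : g * z * g⁻¹ ≠ 1 := by
    intro e
    apply hp.ne
    have : z = g⁻¹ * (g * z * g⁻¹) * g := by group
    rw [this, e]; group
  have hz1 := hp.mem_conj hs hgz (hp.toExData.exists_nonab_centralizer hc hs hs1 hgz)
  by_contra hzN
  apply hne
  apply hp.normal_eq_bot ?_ hN hzN
  intro K hK hQK
  exact hp.odd_eq_bot (hp.conj g) hs hgz hz1 hK (fun q hq k hk => conj_mem_of_le_normalizer (hQK hq) hk)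

/-- index six -/
theorem index_six {G : Type*} [Group G] [Finite G] {b h : G} (hb : orderOf b = 7) (hh : h * b * h⁻¹ = b ^ 3) :
    (Subgroup.centralizer (Subgroup.zpowers b : Set G)).relIndex (Subgroup.normalizer (Subgroup.zpowers b : Set G)) = 6 := by
  set B := Subgroup.zpowers b with hB
  have hbB : b ∈ B := Subgroup.mem_zpowers b
  have hcard : Nat.card B = 7 := by rw [Nat.card_zpowers, hb]
  have hn : h ∈ Subgroup.normalizer (B : Set G) := by
    have h1 : B.map (MulAut.conj h).toMonoidHom = B := by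
      apply Subgroup.eq_of_le_of_card_ge
      · rintro _ ⟨x, ⟨i, rfl⟩, rfl⟩
        show h * b ^ i * h⁻¹ ∈ B
        rw [← conj_zpow, hh]
        exact zpow_mem (pow_mem hbB 3) i
      · exact (Nat.card_congr (Subgroup.equivMapOfInjective _ _ (MulAut.conj h).injective).toEquiv).le
    rw [Subgroup.mem_normalizer_iff]
    intro x
    constructor
    · intro hx
      rw [← h1]; exact ⟨x, hx, rfl⟩
    · intro hx
      rw [← h1] at hx
      obtain ⟨y, hy, hyx⟩ := hx
      have : y = x := (MulAut.conj h).injective hyx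
      rwa [← this]
  let φ := B.normalizerMonoidHom
  have h1 : (Subgroup.centralizer (B : Set G)).relIndex (Subgroup.normalizer (B : Set G)) = Nat.card φ.range := by
    rw [Subgroup.relIndex, ← Subgroup.index_ker]
    congr 1
    exact (Subgroup.normalizerMonoidHom_ker B).symm
  rw [h1]
  haveI : Fact (Nat.Prime 7) := ⟨by norm_num⟩
  haveI : IsCyclic B := isCyclic_of_prime_card hcard
  have h2 : Nat.card (MulAut B) = 6 := by
    rw [IsCyclic.card_mulAut, hcard]; decide
  apply le_antisymm
  · rw [← h2]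
    exact Nat.card_le_card_of_injective _ Subtype.val_injective
  · apply Nat.le_of_dvd Nat.card_pos
    let u : φ.range := ⟨φ ⟨h, hn⟩, ⟨h, hn⟩, rfl⟩
    have hpow : ∀ n : ℕ, (((φ ⟨h, hn⟩) ^ n) ⟨b, hbB⟩ : B) = ⟨b ^ 3 ^ n, pow_mem hbB _⟩ := by
      intro n
      induction n with
      | zero => apply Subtype.ext; show b = b ^ 3 ^ 0; rw [pow_zero, pow_one]
      | succ n ih =>
        rw [pow_succ', MulAut.mul_apply, ih]
        apply Subtype.ext
        show h * b ^ 3 ^ n * h⁻¹ = b ^ 3 ^ (n + 1)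
        rw [← conj_pow, hh, ← pow_mul, pow_succ, mul_comm]
    have hu : orderOf u = 6 := by
      apply orderOf_eq_of_pow_and_pow_div_prime (by norm_num)
      · apply Subtype.ext
        show (φ ⟨h, hn⟩) ^ 6 = 1
        apply MulEquiv.ext
        rintro ⟨x, i, rfl⟩
        have h3 : (⟨b ^ i, i, rfl⟩ : B) = ⟨b, hbB⟩ ^ i := rfl
        show ((φ ⟨h, hn⟩) ^ 6) ⟨b ^ i, _⟩ = ⟨b ^ i, _⟩
        rw [h3, map_zpow, hpow]
        congr 1
        apply Subtype.ext
        show b ^ 3 ^ 6 = b
        have : b ^ 3 ^ 6 = (b ^ 7) ^ 104 * b := by rw [← pow_mul, ← pow_succ]; norm_num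
        rw [this, ← hb, pow_orderOf_eq_one, one_pow, one_mul]
      · intro p hp hp6 e
        have e' : (φ ⟨h, hn⟩) ^ (6 / p) = 1 := congrArg Subtype.val e
        have e2 := congrArg (fun t : MulAut B => ((t ⟨b, hbB⟩ : B) : G)) e'
        simp only [hpow] at e2
        have e3 : b ^ 3 ^ (6 / p) = b ^ 1 := by rw [pow_one]; exact e2
        rw [pow_inj_mod, hb] at e3
        have hp3 : p = 2 ∨ p = 3 := by
          have : p ≤ 6 := Nat.le_of_dvd (by norm_num) hp6
          interval_cases p <;> first | omega | (norm_num at hp) | (norm_num at hp6) | simp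
        rcases hp3 with rfl | rfl <;> norm_num at e3
    have h3 : orderOf u ∣ Nat.card φ.range := orderOf_dvd_natCard u
    rwa [hu] at h3

end Cfsg.Agent.Lib.H89HeldN
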