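import Cfsg.Agent.Lib.H89Inv0
import Cfsg.Agent.Lib.H89Seven4

/-!
# The inverting involution is a sign change with respect to some frame (helper89)
-/

set_option autoImplicit false
set_option linter.all false

namespace Cfsg.Agent.Lib.H89Seven

open Cfsg Cfsg.Agent.Lib.Golay Cfsg.Agent.Lib.LeechMin Cfsg.Agent.Lib.H89LeechMat Cfsg.Agent.Lib.H89Mon1
  Cfsg.Agent.Lib.LeechQuot Cfsg.Agent.Lib.LeechOrder Cfsg.Agent.Lib.H89Mono Cfsg.Agent.Lib.H89FixRank
  Cfsg.Agent.Lib.H89FixTab Cfsg.Agent.Lib.LeechFrame Cfsg.Agent.Lib.H89Q2 Cfsg.Agent.Lib.H89Stab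
open scoped Pointwise

theorem m7_conj {m : Co0} (hm : ∀ v : leechLattice, (mt m7R).mulVec (v : GolayPt → ℤ) = 8 • ((m • v : leechLattice) : GolayPt → ℤ)) :
    m * b7 * m⁻¹ = b7⁻¹ := by
  have h1 : b7 * (m * b7) = m := by
    apply ext_smul
    intro v
    apply Subtype.ext
    apply eight_cancel
    funext q
    obtain ⟨p, rfl⟩ := (toPerm c7).surjective q
    have h2 : ((b7 * (m * b7)) • v : leechLattice) = b7 • (m • (b7 • v)) := by rw [mul_smul, mul_smul]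
    rw [h2]
    show 8 • ((b7 • (m • (b7 • v)) : leechLattice) : GolayPt → ℤ) (toPerm c7 p) = 8 • ((m • v : leechLattice) : GolayPt → ℤ) (toPerm c7 p)
    have h3 : ((b7 • (m • (b7 • v)) : leechLattice) : GolayPt → ℤ) (toPerm c7 p) = ((m • (b7 • v) : leechLattice) : GolayPt → ℤ) p :=
      pC_smul inM_c7 _ p
    rw [h3]
    have h4 := congrFun (hm (b7 • v)) p
    have h5 := congrFun (hm v) (toPerm c7 p)
    have h6 : 8 • ((m • (b7 • v) : leechLattice) : GolayPt → ℤ) p = (mt m7R).mulVec ((b7 • v : leechLattice) : GolayPt → ℤ) p := h4.symm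
    have h7 : 8 • ((m • v : leechLattice) : GolayPt → ℤ) (toPerm c7 p) = (mt m7R).mulVec (v : GolayPt → ℤ) (toPerm c7 p) := h5.symm
    rw [h6, h7]
    show ∑ q, mt m7R p q * ((b7 • v : leechLattice) : GolayPt → ℤ) q = ∑ q, mt m7R (toPerm c7 p) q * (v : GolayPt → ℤ) q
    rw [← Equiv.sum_comp (toPerm c7)]
    apply Finset.sum_congr rfl
    intro q _
    have h8 : ((b7 • v : leechLattice) : GolayPt → ℤ) (toPerm c7 q) = (v : GolayPt → ℤ) q := pC_smul inM_c7 v q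
    rw [h8]
    congr 1
    show dv (m7R.getD (ix p) 0) (ix (toPerm c7 q)) = dv (m7R.getD (ix (toPerm c7 p)) 0) (ix q)
    rw [ix_toPerm (valid_of_inM inM_c7), ix_toPerm (valid_of_inM inM_c7)]
    exact (of_decide_eq_true (allLt_iff.mp (allLt_iff.mp m7_inv (ix p) (ix_lt p)) (ix q) (ix_lt q))).symm
  rw [mul_inv_eq_iff_eq_mul, eq_inv_mul_iff_mul_eq]
  exact h1

theorem exists_inv7 : ∃ m g0 : Co0, m * b7 * m⁻¹ = b7⁻¹ ∧ g0 * m * g0⁻¹ ∈ H89Mono.T := by
  obtain ⟨m, hm, -⟩ := exists_mat m7_orth m7_orth m7_img m7_img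
  obtain ⟨g0, hg, -⟩ := exists_mat g0_orth g0_orth' g0_img g0_img'
  refine ⟨m, g0, m7_conj hm, mset d0, (mset_mem_supports_iff d0_lt).2 d0_code, fun v => ?_⟩
  obtain ⟨w, rfl⟩ : ∃ w, v = g0 • w := ⟨g0⁻¹ • v, (smul_inv_smul _ _).symm⟩
  have h0 : ((g0 * m * g0⁻¹) • (g0 • w) : leechLattice) = g0 • (m • w) := by
    rw [mul_smul, inv_smul_smul, mul_smul]
  rw [h0]
  funext p
  have h1 : (mt g0R).mulVec ((mt m7R).mulVec (w : GolayPt → ℤ)) p = 8 * (8 * ((g0 • (m • w) : leechLattice) : GolayPt → ℤ) p) := by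
    rw [hm w]
    have h2 : (mt g0R).mulVec (8 • ((m • w : leechLattice) : GolayPt → ℤ)) = 8 • (mt g0R).mulVec ((m • w : leechLattice) : GolayPt → ℤ) := by
      rw [Matrix.mulVec_smul]
    rw [h2, hg (m • w)]
    simp only [Pi.smul_apply, smul_eq_mul, nsmul_eq_mul]
    norm_num
  have h3 : (mt g0R).mulVec ((mt m7R).mulVec (w : GolayPt → ℤ)) p =
      (if p ∈ mset d0 then -1 else 1) * (8 * (8 * ((g0 • w : leechLattice) : GolayPt → ℤ) p)) := by
    rw [Matrix.mulVec_mulVec]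
    show ∑ q, (mt g0R * mt m7R) p q * (w : GolayPt → ℤ) q = _
    have h4 : ∀ q, (mt g0R * mt m7R) p q * (w : GolayPt → ℤ) q = (if p ∈ mset d0 then -1 else 1) * (8 * (mt g0R p q * (w : GolayPt → ℤ) q)) := by
      intro q
      rw [g0_mul]; ring
    rw [Finset.sum_congr rfl (fun q _ => h4 q), ← Finset.mul_sum, ← Finset.mul_sum]
    have h5 : ∑ q, mt g0R p q * (w : GolayPt → ℤ) q = 8 * ((g0 • w : leechLattice) : GolayPt → ℤ) p := by
      have h6 : ∑ q, mt g0R p q * (w : GolayPt → ℤ) q = 8 • ((g0 • w : leechLattice) : GolayPt → ℤ) p := congrFun (hg w) p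
      rw [h6, nsmul_eq_mul]; norm_num
    rw [h5]
  rw [h3] at h1
  show _ = if p ∈ mset d0 then -((g0 • w : leechLattice) : GolayPt → ℤ) ((1 : Equiv.Perm GolayPt).symm p) else
    ((g0 • w : leechLattice) : GolayPt → ℤ) ((1 : Equiv.Perm GolayPt).symm p)
  rw [show (1 : Equiv.Perm GolayPt).symm p = p from rfl]
  split_ifs with hp
  · rw [if_pos hp] at h1; linarith
  · rw [if_neg hp] at h1; linarith

/-- an element inverting `b7` moves the class `p1` -/
theorem inv_moves {m : Co0} (hm : m * b7 * m⁻¹ = b7⁻¹) : m • p1 ≠ p1 := by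
  intro h
  have h1 := disj hm
  rw [h] at h1
  have h2 : p1 ∈ MulAction.orbit C p1 := MulAction.mem_orbit_self p1
  exact Set.disjoint_left.1 h1 h2 h2

end Cfsg.Agent.Lib.H89Seven
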