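import Cfsg.Agent.Lib.H89Thompson
import Cfsg.Agent.Lib.H89Held
import Cfsg.Agent.Lib.H89Inv1
import Cfsg.Agent.Lib.H89HeldN1

/-!
# Groups of Monster type: the normalizer of the Sylow 7-subgroup of a joint centralizer (helper89)
-/

set_option autoImplicit false
set_option linter.all false

namespace Cfsg.Agent.Lib.H89Mon1

open Cfsg Cfsg.Agent.Lib.LargeExtra Cfsg.Agent.Lib.LeechTrans Cfsg.Agent.Lib.LeechCo2 Cfsg.Agent.Lib.LeechFrame
  Cfsg.Agent.Lib.LeechQuot Cfsg.Agent.Lib.LeechOrder Cfsg.Agent.Lib.H89Seven Cfsg.Agent.Lib.H89FixTab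
  Cfsg.Agent.Lib.H89Q2
open scoped Pointwise

variable {G : Type*} [Group G] {z : G} {Q : Subgroup (Subgroup.centralizer ({z} : Set G))} [Q.Normal]
  {e : (Subgroup.centralizer ({z} : Set G)) ⧸ Q ≃* Spor.Co1} {ψ : leechLattice → Q ⧸ Subgroup.center Q}

section
variable [Finite G] (M : Mon z Q e ψ)
include M

theorem Mon.isPGroup_QG : IsPGroup 2 (QG Q) := M.pre.isP

theorem Mon.fac_Lf {L : Subgroup G} (hL : L ≤ Subgroup.centralizer ({z} : Set G)) {b : G} {β : Co0} {p : ℕ}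
    [Fact p.Prime] (hp : Odd p) (hβ : orderOf β = p) (hb : b ∈ L) (hr : Rl e b β) :
    (Nat.card (Lf e L (Subgroup.zpowers β))).factorization p = 1 := by
  have hpp : p.Prime := Fact.out
  have hp2 : p ≠ 2 := by rintro rfl; exact absurd hp (by decide)
  have hβp : β ^ p = 1 := by rw [← hβ]; exact pow_orderOf_eq_one β
  set V := Lf e L (Subgroup.zpowers β) with hV
  have hbV : b ∈ V := mem_Lf.2 ⟨hb, β, Subgroup.mem_zpowers _, hr⟩
  have h1 := card_hat (e := e) (Y := V) (fun x hx => hL hx.1)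
  have hA : Subgroup.zpowers β ≤ hat e V := by
    rintro _ ⟨i, rfl⟩
    exact ⟨b ^ i, zpow_mem hbV i, Rl.zpow hr i⟩
  have h2 : Nat.card (hat e V) = 2 * p := by
    apply le_antisymm
    · have h3 : ∀ g : hat e V, ∃ x : Bool × Subgroup.zpowers β, (g : Co0) = (if x.1 then (1 : Co0) else negOne) * x.2 := by
        rintro ⟨g, x, ⟨-, q, hq, hxp⟩, hxg⟩
        rcases hxp.eq hxg with h4 | h4
        · exact ⟨(true, ⟨q, hq⟩), by simpa using h4⟩
        · exact ⟨(false, ⟨q, hq⟩), by simpa using h4⟩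
      choose f hf using h3
      have h4 : Function.Injective f := by
        intro a a' h5
        apply Subtype.ext
        rw [hf a, hf a', h5]
      have h5 := Nat.card_le_card_of_injective f h4
      rw [Nat.card_prod, Nat.card_zpowers, hβ] at h5
      have h6 : Nat.card Bool = 2 := by rw [Nat.card_eq_fintype_card]; rfl
      rw [h6] at h5
      exact h5
    · apply Nat.le_of_dvd Nat.card_pos
      have h3 : p ∣ Nat.card (hat e V) := by
        have := Subgroup.card_dvd_of_le hA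
        rwa [Nat.card_zpowers, hβ] at this
      have h4 : 2 ∣ Nat.card (hat e V) := by
        have h5 : orderOf negOne = 2 := orderOf_eq_prime (by rw [pow_two, negOne_sq]) H89Act.negOne_ne_one
        have h6 := Subgroup.card_dvd_of_le (Subgroup.zpowers_le.2 (negOne_mem_hat (e := e) V))
        rwa [Nat.card_zpowers, h5] at h6
      exact Nat.Coprime.mul_dvd_of_dvd_of_dvd ((Nat.coprime_primes Nat.prime_two hpp).2 (Ne.symm hp2)) h4 h3
  rw [h2] at h1
  have h3 : IsPGroup 2 ↥(V ⊓ QG Q) :=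
    IsPGroup.of_injective (M.pre.isP) (Subgroup.inclusion inf_le_right) (Subgroup.inclusion_injective _)
  obtain ⟨j, hj⟩ := IsPGroup.iff_card.1 h3
  rw [hj] at h1
  have h4 : Nat.card V = p * 2 ^ j := by
    apply Nat.eq_of_mul_eq_mul_left (show 0 < 2 by norm_num)
    rw [← h1]; ring
  rw [h4, Nat.factorization_mul hpp.ne_zero (by positivity), Finsupp.add_apply,
    Nat.Prime.factorization_self hpp, Nat.factorization_eq_zero_of_not_dvd]
  intro h5
  exact hp2 ((Nat.prime_dvd_prime_iff_eq hpp Nat.prime_two).1 (hpp.dvd_of_dvd_pow h5))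

theorem Mon.sylow_Lf {L : Subgroup G} (hL : L ≤ Subgroup.centralizer ({z} : Set G)) {b c : G} {β γ : Co0} {p : ℕ}
    [Fact p.Prime] (hp : Odd p) (hβ : orderOf β = p) (hb : b ∈ L) (hr : Rl e b β) (hob : orderOf b = p)
    (hc : c ∈ L) (hoc : orderOf c = p) (hγ : γ ∈ Subgroup.zpowers β) (hrc : Rl e c γ) :
    ∃ l ∈ Lf e L (Subgroup.zpowers β), ∀ x ∈ Subgroup.zpowers c, l * x * l⁻¹ ∈ Subgroup.zpowers b := by
  have hfac := M.fac_Lf hL hp hβ hb hr
  exact sylow_conj_in (L := Lf e L (Subgroup.zpowers β)) (p := p)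
    (Subgroup.zpowers_le.2 (mem_Lf.2 ⟨hb, β, Subgroup.mem_zpowers _, hr⟩))
    (Subgroup.zpowers_le.2 (mem_Lf.2 ⟨hc, γ, hγ, hrc⟩))
    (by rw [hfac, Nat.card_zpowers, hob, pow_one]) (by rw [hfac, Nat.card_zpowers, hoc, pow_one])

omit M in
theorem negOne_mul_zpow_ne {β : Co0} {p : ℕ} (hp : Odd p) (hβ : β ^ p = 1) (i j : ℤ) : β ^ i ≠ negOne * β ^ j := by
  intro h
  have h1 : negOne = β ^ (i - j) := by
    rw [zpow_sub, h, mul_inv_cancel_right]
  exact H89Act.negOne_ne_zpow hp hβ _ h1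

omit [Finite G] M in
theorem zpow_eq_of {b : G} {β : Co0} {p : ℕ} (hob : orderOf b = p) (hβ : orderOf β = p) {i j : ℤ}
    (h : β ^ i = β ^ j) : b ^ i = b ^ j := by
  have h1 : β ^ (i - j) = 1 := by rw [zpow_sub, h, mul_inv_cancel]
  have h2 := orderOf_dvd_iff_zpow_eq_one.2 h1
  rw [hβ, ← hob] at h2
  have h3 := orderOf_dvd_iff_zpow_eq_one.1 h2
  rw [zpow_sub] at h3
  exact mul_inv_eq_one.1 h3

/-- lifting normalizing elements -/
theorem Mon.exists_norm {b : G} {β : Co0} {p : ℕ} [Fact p.Prime] (hp : Odd p) (hβ : orderOf β = p)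
    (hob : orderOf b = p) (hr : Rl e b β) {g : Co0} {k : ℤ} (hg : g * β * g⁻¹ = β ^ k) :
    ∃ h : G, h * b * h⁻¹ = b ^ k := by
  have hβp : β ^ p = 1 := by rw [← hβ]; exact pow_orderOf_eq_one β
  obtain ⟨h0, hh0⟩ := exists_h e g
  set c := h0 * b * h0⁻¹ with hc
  have hrc : Rl e c (β ^ k) := by rw [← hg]; exact (hh0.mul hr).mul hh0.inv
  have hoc : orderOf c = p := by
    rw [← hob, hc]
    exact orderOf_injective (MulAut.conj h0).toMonoidHom (MulAut.conj h0).injective b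
  obtain ⟨l, hl, h1⟩ := M.sylow_Lf le_rfl hp hβ hr.mem hr hob hrc.mem hoc ⟨k, rfl⟩ hrc
  obtain ⟨j, hj⟩ := h1 c (Subgroup.mem_zpowers c)
  have hj' : b ^ j = l * c * l⁻¹ := hj
  obtain ⟨-, _, ⟨i, rfl⟩, hli⟩ := mem_Lf.1 hl
  have hli' : Rl e l (β ^ i) := hli
  have h2 : Rl e (l * c * l⁻¹) (β ^ i * β ^ k * (β ^ i)⁻¹) := (hli'.mul hrc).mul hli'.inv
  have h3 : β ^ i * β ^ k * (β ^ i)⁻¹ = β ^ k := by
    rw [← zpow_add, add_comm, zpow_add, mul_inv_cancel_right]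
  rw [h3, ← hj'] at h2
  have h4 : β ^ j = β ^ k := by
    rcases (Rl.zpow hr j).eq h2 with h5 | h5
    · exact h5.symm
    · exact absurd h5 (negOne_mul_zpow_ne hp hβp k j)
  have h5 := zpow_eq_of hob hβ h4
  refine ⟨l * h0, ?_⟩
  rw [← h5, hj', hc]
  group

/-- involutions over sign changes with respect to a frame -/
theorem Mon.exists_invol (hnwc : ∃ g : G, (∃ hq : g * z * g⁻¹ ∈ Subgroup.centralizer ({z} : Set G),
      (⟨g * z * g⁻¹, hq⟩ : Subgroup.centralizer ({z} : Set G)) ∈ Q) ∧ g * z * g⁻¹ ≠ z)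
    {m g0 : Co0} (hm : g0 * m * g0⁻¹ ∈ H89Mono.T) (hm1 : m ≠ 1) (hm2 : m ≠ negOne) : ∃ y : G, y * y = 1 ∧ Rl e y m := by
  set v : leechLattice := g0⁻¹ • ef none with hv
  have hg0 : g0 • v = ef none := smul_inv_smul _ _
  have hn : sqNorm (v : GolayPt → ℤ) = 64 := by
    rw [hv, sqNorm_smul]; exact norm_ef M
  obtain ⟨s, hs⟩ := M.exists_el v
  obtain ⟨hcj, hsz⟩ := (M.type_four hnwc hs.mem).2 ⟨v, hn, hs⟩
  obtain ⟨g, hg⟩ := _root_.isConj_iff.1 hcj
  have p := M.pair hs.mem hsz hg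
  have hB := M.hat_B_eq hs hn p hg0
  have hmB : m ∈ hat e (cQ Q g ⊓ Subgroup.centralizer ({z} : Set G)) := by
    have h1 : g0 * m * g0⁻¹ ∈ (hat e (cQ Q g ⊓ Subgroup.centralizer ({z} : Set G))).map (MulAut.conj g0).toMonoidHom := by
      rw [hB]; exact hm
    obtain ⟨k, hk, hkm⟩ := h1
    have : k = m := (MulAut.conj g0).injective hkm
    rw [← this]; exact hk
  obtain ⟨y0, ⟨hy0, hy0z⟩, hr⟩ := hmB
  have hnQ : y0 ∉ QG Q := by
    intro h
    rcases (Rl.one_iff.2 h).eq hr with h1 | h1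
    · exact hm1 h1
    · exact hm2 (by rw [h1, mul_one])
  rcases p.h1.qsq y0 hy0 with h1 | h1
  · exact ⟨y0, h1, hr⟩
  have hex : ∃ q ∈ QG Q ⊓ cQ Q g, ¬ q * y0 = y0 * q := by
    by_contra hcon
    push Not at hcon
    apply hnQ
    have h2 := H89ExCount.card_cent p.h1.toExData (A := cQ Q g) (B := QG Q ⊓ cQ Q g) le_rfl inf_le_right
    rw [(M.card_D hs hn p).1, M.card_cQ g] at h2
    have h3 : Nat.card ↥(QG Q ⊓ cQ Q g ⊓ Subgroup.centralizer (cQ Q g : Set G)) ≤ 2 := by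
      have h4 : ∀ x : ↥(QG Q ⊓ cQ Q g ⊓ Subgroup.centralizer (cQ Q g : Set G)), ∃ t : Bool, (x : G) = if t then 1 else s := by
        rintro ⟨x, ⟨-, hx2⟩, hx3⟩
        rcases p.h1.center x hx2 (fun y hy => (Subgroup.mem_centralizer_iff.1 hx3 y hy).symm) with h | h
        · exact ⟨true, by simpa using h⟩
        · exact ⟨false, by simpa using h⟩
      choose f hf using h4
      have h5 : Function.Injective f := by
        intro a a' h6
        apply Subtype.ext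
        rw [hf a, hf a', h6]
      have h6 := Nat.card_le_card_of_injective f h5
      rwa [show Nat.card Bool = 2 by rw [Nat.card_eq_fintype_card]; rfl] at h6
    have h4 : Nat.card ↥(cQ Q g ⊓ Subgroup.centralizer ((QG Q ⊓ cQ Q g : Subgroup G) : Set G)) ≤ 2 ^ 13 := by
      have h5 : 2 ^ 13 * Nat.card ↥(cQ Q g ⊓ Subgroup.centralizer ((QG Q ⊓ cQ Q g : Subgroup G) : Set G)) ≤ 2 ^ 25 * 2 := by
        rw [h2]; exact Nat.mul_le_mul_left _ h3
      have h6 : (2 : ℕ) ^ 25 * 2 = 2 ^ 13 * 2 ^ 13 := by norm_num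
      rw [h6] at h5
      exact Nat.le_of_mul_le_mul_left h5 (by norm_num)
    have h5 : QG Q ⊓ cQ Q g = cQ Q g ⊓ Subgroup.centralizer ((QG Q ⊓ cQ Q g : Subgroup G) : Set G) := by
      apply Subgroup.eq_of_le_of_card_ge
      · intro x hx
        refine ⟨hx.2, Subgroup.mem_centralizer_iff.2 fun y hy => ?_⟩
        exact Pair_D_comm p y hy x hx
      · rw [(M.card_D hs hn p).1]; exact h4
    have h6 : y0 ∈ cQ Q g ⊓ Subgroup.centralizer ((QG Q ⊓ cQ Q g : Subgroup G) : Set G) :=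
      ⟨hy0, Subgroup.mem_centralizer_iff.2 fun y hy => hcon y hy⟩
    rw [← h5] at h6
    exact h6.1
  obtain ⟨q, hq, hqy⟩ := hex
  have hq2 : q * q = 1 := Pair_D_sq p q hq
  refine ⟨y0 * q, ?_, hr.of_mem_Q hq.1⟩
  rcases p.h1.comm q hq.2 y0 hy0 with h2 | h2
  · exact absurd h2 hqy
  · have h3 : y0 * q * (y0 * q) = y0 * (q * y0) * q := by group
    have h4 : y0 * s = s * y0 := p.h1.cen y0 hy0
    rw [h3, h2]
    calc y0 * (s * (y0 * q)) * q = (y0 * s) * y0 * (q * q) := by group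
      _ = s * (y0 * y0) * (q * q) := by rw [h4]; group
      _ = 1 := by rw [h1, hq2, mul_one, p.h1.sq]

/-- an involution inverting an element of order seven -/
theorem Mon.exists_inverting {b y : G} {m : Co0} (hob : orderOf b = 7) (hr : Rl e b b7)
    (hy : y * y = 1) (hrm : Rl e y m) (hm : m * b7 * m⁻¹ = b7⁻¹) : ∃ t : G, t * t = 1 ∧ t * b * t⁻¹ = b⁻¹ := by
  haveI : Fact (Nat.Prime 7) := ⟨by norm_num⟩
  have hyi : y⁻¹ = y := inv_eq_of_mul_eq_one_left hy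
  set w := y * b * y * b⁻¹ with hw
  have hrw : Rl e w (b7 ^ (-2 : ℤ)) := by
    have h1 : Rl e (y * b * y⁻¹ * b⁻¹) (m * b7 * m⁻¹ * b7⁻¹) := ((hrm.mul hr).mul hrm.inv).mul hr.inv
    rw [hyi] at h1
    have h2 : m * b7 * m⁻¹ * b7⁻¹ = b7 ^ (-2 : ℤ) := by rw [hm]; group
    rwa [h2] at h1
  have hwy : y * w * y⁻¹ = w⁻¹ := by
    rw [hw, hyi]
    have h1 : (y * b * y * b⁻¹)⁻¹ = b * y⁻¹ * b⁻¹ * y⁻¹ := by group
    rw [h1, hyi]
    calc y * (y * b * y * b⁻¹) * y = (y * y) * b * y * b⁻¹ * y := by group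
      _ = b * y * b⁻¹ * y := by rw [hy]; group
  have hw7 : w ^ 7 ∈ QG Q := by
    have h1 := Rl.pow hrw 7
    have h2 : ((b7 ^ (-2 : ℤ)) ^ 7 : Co0) = 1 := by
      rw [← zpow_natCast, ← zpow_mul, show (-2 : ℤ) * ((7 : ℕ) : ℤ) = ((7 : ℕ) : ℤ) * (-2) by norm_num, zpow_mul, zpow_natCast, b7_pow, one_zpow]
    rw [h2] at h1
    exact Rl.one_iff.1 h1
  set u := w ^ 4 with hu
  have hu7 : u ^ 7 = 1 := by
    rw [hu, ← pow_mul, show 4 * 7 = 7 * 4 by norm_num, pow_mul]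
    rcases M.pre.qsq _ hw7 with h | h
    · rw [show (4 : ℕ) = 2 * 2 by norm_num, pow_mul, pow_two (w ^ 7), h, one_pow]
    · rw [show (4 : ℕ) = 2 * 2 by norm_num, pow_mul, pow_two (w ^ 7), h, pow_two, M.pre.sq]
  have hru : Rl e u (b7 ^ (-8 : ℤ)) := by
    have h1 := Rl.pow hrw 4
    have h2 : ((b7 ^ (-2 : ℤ)) ^ 4 : Co0) = b7 ^ (-8 : ℤ) := by
      rw [← zpow_natCast, ← zpow_mul]; norm_num
    rwa [h2] at h1
  have hne : b7 ^ (-8 : ℤ) ≠ 1 := by
    intro h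
    have h1 := orderOf_dvd_iff_zpow_eq_one.2 h
    rw [orderOf_b7] at h1
    norm_num at h1
  have hu1 : u ≠ 1 := by
    intro h
    rw [h] at hru
    rcases (Rl.one (e := e)).eq hru with h1 | h1
    · exact hne h1
    · rw [mul_one] at h1
      exact H89Act.negOne_ne_zpow (p := 7) (by decide) b7_pow _ h1.symm
  have hou : orderOf u = 7 := orderOf_eq_prime hu7 hu1
  have huy : y * u * y⁻¹ = u⁻¹ := by
    rw [hu, ← _root_.conj_pow, hwy, inv_pow]
  obtain ⟨l, hl, h1⟩ := M.sylow_Lf le_rfl (p := 7) (by decide) orderOf_b7 hr.mem hr hob hru.mem hou ⟨_, rfl⟩ hru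
  have h2 : (Subgroup.zpowers u).map (MulAut.conj l).toMonoidHom = Subgroup.zpowers b := by
    apply Subgroup.eq_of_le_of_card_ge
    · rintro _ ⟨x, hx, rfl⟩
      exact h1 x hx
    · have h3 : Nat.card ((Subgroup.zpowers u).map (MulAut.conj l).toMonoidHom) = Nat.card (Subgroup.zpowers u) :=
        (Nat.card_congr (Subgroup.equivMapOfInjective _ _ (MulAut.conj l).injective).toEquiv).symm
      rw [h3, Nat.card_zpowers, Nat.card_zpowers, hou, hob]
  have h3 : b ∈ (Subgroup.zpowers u).map (MulAut.conj l).toMonoidHom := by rw [h2]; exact Subgroup.mem_zpowers b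
  obtain ⟨_, ⟨j, rfl⟩, hj⟩ := h3
  have hj' : l * u ^ j * l⁻¹ = b := hj
  refine ⟨l * y * l⁻¹, ?_, ?_⟩
  · calc l * y * l⁻¹ * (l * y * l⁻¹) = l * (y * y) * l⁻¹ := by group
      _ = 1 := by rw [hy]; group
  · rw [← hj']
    have h4 : y * u ^ j * y⁻¹ = (u ^ j)⁻¹ := by
      rw [← conj_zpow, huy, inv_zpow]
    calc l * y * l⁻¹ * (l * u ^ j * l⁻¹) * (l * y * l⁻¹)⁻¹ = l * (y * u ^ j * y⁻¹) * l⁻¹ := by group
      _ = (l * u ^ j * l⁻¹)⁻¹ := by rw [h4]; group

end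

end Cfsg.Agent.Lib.H89Mon1
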