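import Cfsg.Agent.Lib.H89HeldN2

/-!
# Groups of Monster type: the normalizer of the Sylow 7-subgroup of a joint centralizer (helper89)
-/

set_option autoImplicit false
set_option linter.all false

namespace Cfsg.Agent.Lib.H89Mon1

open Cfsg Cfsg.Agent.Lib.LargeExtra Cfsg.Agent.Lib.LeechTrans Cfsg.Agent.Lib.LeechCo2 Cfsg.Agent.Lib.LeechFrame
  Cfsg.Agent.Lib.LeechQuot Cfsg.Agent.Lib.LeechOrder Cfsg.Agent.Lib.H89Seven Cfsg.Agent.Lib.H89FixTab
  Cfsg.Agent.Lib.H89Q2
open scoped Pointwise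

variable {G : Type*} [Group G] {z : G} {Q : Subgroup (Subgroup.centralizer ({z} : Set G))} [Q.Normal]
  {e : (Subgroup.centralizer ({z} : Set G)) ⧸ Q ≃* Spor.Co1} {ψ : leechLattice → Q ⧸ Subgroup.center Q}

/-- the layer of the centralizer of a subgroup is normalized by the normalizer -/
theorem layer_conj {G : Type*} [Group G] {B : Subgroup G} {t : G}
    (ht : ∀ b ∈ B, t * b * t⁻¹ ∈ B) (ht' : ∀ b ∈ B, t⁻¹ * b * t ∈ B) {x : G}
    (hx : x ∈ (layer ↥(Subgroup.centralizer (B : Set G))).map (Subgroup.centralizer (B : Set G)).subtype) :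
    t * x * t⁻¹ ∈ (layer ↥(Subgroup.centralizer (B : Set G))).map (Subgroup.centralizer (B : Set G)).subtype := by
  set C := Subgroup.centralizer (B : Set G) with hC
  have hcl : ∀ t : G, (∀ b ∈ B, t⁻¹ * b * t ∈ B) → ∀ c ∈ C, t * c * t⁻¹ ∈ C := by
    intro t ht' c hc
    rw [hC, Subgroup.mem_centralizer_iff] at hc ⊢
    intro b hb
    have h1 := hc _ (ht' b hb)
    calc b * (t * c * t⁻¹) = t * ((t⁻¹ * b * t) * c) * t⁻¹ := by group
      _ = t * c * t⁻¹ * b := by rw [h1]; group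
  have hmap : C.map (MulAut.conj t).toMonoidHom = C := by
    apply le_antisymm
    · rintro _ ⟨c, hc, rfl⟩
      exact hcl t ht' c hc
    · intro c hc
      refine ⟨t⁻¹ * c * t⁻¹⁻¹, hcl t⁻¹ (fun b hb => by simpa using ht b hb) c hc, ?_⟩
      show t * (t⁻¹ * c * t⁻¹⁻¹) * t⁻¹ = c
      group
  let f : C ≃* C := (Subgroup.equivMapOfInjective C (MulAut.conj t).toMonoidHom (MulAut.conj t).injective).trans (MulEquiv.subgroupCongr hmap)
  obtain ⟨c, hc, rfl⟩ := hx
  have h1 := Layer.layer_map_equiv f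
  have h2 : f c ∈ layer C := by
    rw [← h1]; exact ⟨c, hc, rfl⟩
  exact ⟨f c, h2, rfl⟩

theorem Mon.seven [Finite G] (M : Mon z Q e ψ)
    (hnwc : ∃ g : G, (∃ hq : g * z * g⁻¹ ∈ Subgroup.centralizer ({z} : Set G),
      (⟨g * z * g⁻¹, hq⟩ : Subgroup.centralizer ({z} : Set G)) ∈ Q) ∧ g * z * g⁻¹ ≠ z)
    {s : G} {v : leechLattice} (hs : Cl ψ s v) (hv : sqNorm (v : GolayPt → ℤ) = 64) {B : Subgroup G}
    (hB : B ≤ Subgroup.centralizer ({z, s} : Set G))
    (hBp : Nat.card B = 7 ^ (Nat.card ↥(Subgroup.centralizer ({z, s} : Set G))).factorization 7) :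
    (Subgroup.centralizer (B : Set G)).relIndex (Subgroup.normalizer (B : Set G)) = 6 ∧ ∃ t : G, orderOf t = 2 ∧
      (∀ b ∈ B, t * b * t⁻¹ = b⁻¹) ∧
      (∀ x ∈ (Cfsg.layer ↥(Subgroup.centralizer (B : Set G))).map (Subgroup.centralizer (B : Set G)).subtype,
        t * x * t⁻¹ ∈ (Cfsg.layer ↥(Subgroup.centralizer (B : Set G))).map (Subgroup.centralizer (B : Set G)).subtype) ∧
      ¬ ∃ l ∈ (Cfsg.layer ↥(Subgroup.centralizer (B : Set G))).map (Subgroup.centralizer (B : Set G)).subtype,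
        ∀ x ∈ (Cfsg.layer ↥(Subgroup.centralizer (B : Set G))).map (Subgroup.centralizer (B : Set G)).subtype,
          t * x * t⁻¹ = l * x * l⁻¹ := by
  haveI : Fact (Nat.Prime 7) := ⟨by norm_num⟩
  obtain ⟨e', ψ', b, M', hs', hBz, hr, hb7, hc⟩ := M.std_sylow hs hv hB (by decide) hBp fac7 b7_mem_N orderOf_b7
  subst hBz
  have hob : orderOf b = 7 := by rw [← Nat.card_zpowers, hc]
  have hzB : z ∈ Subgroup.centralizer (Subgroup.zpowers b : Set G) := z_mem hr
  have hsB : s ∈ Subgroup.centralizer (Subgroup.zpowers b : Set G) := by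
    rw [M'.comm_iff_fix hr (by decide) hb7 hs']
    exact q2_eq_iff.1 (H89Q2.mem_N_iff_p1.1 b7_mem_N)
  have hmove : ∀ (s : G) (v : leechLattice), Cl ψ' s v → sqNorm (v : GolayPt → ℤ) = 64 →
      s ∈ Subgroup.centralizer (Subgroup.zpowers b : Set G) →
      ∃ x ∈ Subgroup.centralizer (Subgroup.zpowers b : Set G), x * z * x⁻¹ = s := by
    intro s v hs hv hsb
    exact M'.move_sylow hnwc (by decide) fac7 hc hzB hs hv hsb
  obtain ⟨m, g0, hm, hg0⟩ := exists_inv7
  have hm1 : m ≠ 1 := by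
    rintro rfl
    rw [one_mul, inv_one, mul_one] at hm
    exact inv_moves (m := 1) (by rw [one_mul, inv_one, mul_one]; exact hm) (one_smul _ _)
  have hm2 : m ≠ negOne := by
    rintro rfl
    exact inv_moves hm (negOne_smul2 _)
  -- the index
  have hidx : (Subgroup.centralizer (Subgroup.zpowers b : Set G)).relIndex (Subgroup.normalizer (Subgroup.zpowers b : Set G)) = 6 := by
    have h1 : (m * n3 ^ 2) * b7 * (m * n3 ^ 2)⁻¹ = b7 ^ (3 : ℤ) := by
      have h2 := n3_pow 2 1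
      have h3 : (m * n3 ^ 2) * b7 * (m * n3 ^ 2)⁻¹ = m * (n3 ^ 2 * b7 ^ (1 : ℤ) * (n3 ^ 2)⁻¹) * m⁻¹ := by rw [zpow_one]; group
      rw [h3, h2, ← _root_.conj_zpow, hm, inv_zpow, ← zpow_neg]
      rw [zpow_mod, zpow_mod 3]
      norm_num
    obtain ⟨h, hh⟩ := M'.exists_norm (p := 7) (by decide) orderOf_b7 hob hr h1
    exact H89HeldN.index_six hob (by rw [hh]; exact_mod_cast rfl)
  refine ⟨hidx, ?_⟩
  -- the involution
  obtain ⟨y, hy, hry⟩ := M'.exists_invol hnwc hg0 hm1 hm2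
  obtain ⟨t, ht2, htb⟩ := M'.exists_inverting hob hr hy hry hm
  have htB : ∀ x ∈ Subgroup.zpowers b, t * x * t⁻¹ = x⁻¹ := by
    rintro _ ⟨i, rfl⟩
    show t * b ^ i * t⁻¹ = (b ^ i)⁻¹
    rw [← _root_.conj_zpow, htb, inv_zpow]
  have hti : t⁻¹ = t := inv_eq_of_mul_eq_one_left ht2
  have ht1 : t ≠ 1 := by
    rintro rfl
    rw [one_mul, inv_one, mul_one] at htb
    have h1 : b ^ 2 = 1 := by rw [pow_two]; nth_rewrite 2 [htb]; exact mul_inv_cancel b
    have h2 := orderOf_dvd_of_pow_eq_one h1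
    rw [hob] at h2
    norm_num at h2
  refine ⟨t, orderOf_eq_prime (by rw [pow_two]; exact ht2) ht1, htB, ?_, ?_⟩
  · intro x hx
    apply layer_conj ?_ ?_ hx
    · intro b hb; rw [htB b hb]; exact inv_mem hb
    · intro b hb
      have h1 := htB b hb
      rw [hti] at h1
      rw [hti, h1]; exact inv_mem hb
  -- the layer contains `z` and `s`
  haveI hn : ((Subgroup.zpowers b).subgroupOf (Subgroup.centralizer (Subgroup.zpowers b : Set G))).Normal := by
    refine ⟨fun n hn g => ?_⟩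
    have h1 : (n : G) * g = g * n := Subgroup.mem_centralizer_iff.1 g.2 n hn
    have h2 : g * n * g⁻¹ = n := by
      apply Subtype.ext
      show (g : G) * n * (g : G)⁻¹ = n
      rw [← h1, mul_inv_cancel_right]
    rw [h2]; exact hn
  have hR : (RB Q hzB).Normal := M'.RB_normal hzB (odd_card (by decide) hb7)
  have hsz : s ≠ z := (M'.ne_of_short hs' (ne_zero_of_norm (norm_ef M) (by norm_num)) (le_of_eq (norm_ef M))).2
  obtain ⟨x1, hx1, hxz1⟩ := hmove s _ hs' (norm_ef M) hsB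
  have hset := M'.settingB hr (by decide) hb7 b7_pow hzB hna7 faith7 Ph Ph_surj (fun g => Ph_eq_one) hK7 card_FixS7
      ⟨x1, hx1, by rw [hxz1]; exact hs'.mem, by rw [hxz1]; exact hsz⟩
  have hz2 : z * z = 1 := M'.pre.sq
  have hz1 : z ≠ 1 := M'.pre.ne
  have hV2 : V2 (X 8) := ⟨1, by norm_num, by norm_num, rfl⟩
  obtain ⟨hf8, v2, hv2, hq8⟩ := hV2.mem
  obtain ⟨s2, hs2⟩ := M'.exists_el v2
  have hs2B : s2 ∈ Subgroup.centralizer (Subgroup.zpowers b : Set G) := by
    rw [M'.comm_iff_fix hr (by decide) hb7 hs2]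
    rw [← hq8] at hf8
    exact (mem_FixS (p := 7) (by decide) b7_pow).1 hf8
  obtain ⟨x2, hx2, hxz2⟩ := hmove s2 _ hs2 hv2 hs2B
  have hnc : s * s2 ≠ s2 * s := by
    intro h
    have h1 := (M'.comm_iff hs' hs2).1 h
    have h2 : H89Q2.fB (lw (u7.getD 3 0)) (X 1) = 1 := by
      have := fX (i := 0) (j := 0) (by norm_num) (by norm_num)
      rw [if_pos rfl] at this
      exact this
    have h3 : dbl v2 (lw (u7.getD 3 0)) := q2_eq_iff.1 (hq8.trans (X_lw (j := 3) (by norm_num)))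
    rw [← fB_congr h3, X_one_p1] at h2
    have h4 : H89Q2.fB v2 p1 = ((dt (ef none) v2 / 8 : ℤ) : ZMod 2) := fB_q2 _ _
    rw [h4] at h2
    obtain ⟨k, hk⟩ := h1
    have h5 : dt (ef none) v2 = 16 * k := hk
    rw [h5, show (16 * k : ℤ) / 8 = 2 * k by omega] at h2
    push_cast at h2
    rw [show (2 : ZMod 2) = 0 from rfl, zero_mul] at h2
    exact absurd h2 (by decide)
  have hzL : (⟨z, hzB⟩ : ↥(Subgroup.centralizer (Subgroup.zpowers b : Set G))) ∈ layer ↥(Subgroup.centralizer (Subgroup.zpowers b : Set G)) := by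
    have hcB : Nat.card ((Subgroup.zpowers b).subgroupOf (Subgroup.centralizer (Subgroup.zpowers b : Set G))) = 7 := by
      rw [← hc]
      apply Nat.card_congr
      refine (Subgroup.subgroupOfEquivOfLe ?_).toEquiv
      intro x hx
      rw [Subgroup.mem_centralizer_iff]
      rintro y hy
      obtain ⟨i, rfl⟩ := hx
      obtain ⟨j, rfl⟩ := hy
      show b ^ j * b ^ i = b ^ i * b ^ j
      rw [← zpow_add, ← zpow_add, add_comm]
    refine H89HeldN.mem_layer_of (B' := (Subgroup.zpowers b).subgroupOf (Subgroup.centralizer (Subgroup.zpowers b : Set G)))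
      (by rw [hcB]; decide) ?_ (Subtype.ext hz2) (fun h => hz1 (congrArg Subtype.val h)) ?_ (a := ⟨x1, hx1⟩) (b := ⟨x2, hx2⟩) ?_
    · intro n hn
      rw [Subgroup.mem_center_iff]
      intro g
      apply Subtype.ext
      exact (Subgroup.mem_centralizer_iff.1 g.2 n hn).symm
    · intro N hN hNB
      have h1 : N.map (QuotientGroup.mk' ((Subgroup.zpowers b).subgroupOf (Subgroup.centralizer (Subgroup.zpowers b : Set G)))) ≠ ⊥ := by
        intro h
        apply hNB
        rw [Subgroup.map_eq_bot_iff, QuotientGroup.ker_mk'] at h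
        exact h
      have h2 := H89HeldN.normal_mem (w := 3) (by norm_num) hset (hN.map _ (QuotientGroup.mk'_surjective _)) h1
      obtain ⟨n, hnN, hn2⟩ := h2
      have h3 : n⁻¹ * ⟨z, hzB⟩ ∈ (Subgroup.zpowers b).subgroupOf (Subgroup.centralizer (Subgroup.zpowers b : Set G)) :=
        QuotientGroup.eq.1 hn2
      have h4 : (n⁻¹ * ⟨z, hzB⟩) ^ 7 = 1 := by
        have h5 : (⟨_, h3⟩ : ((Subgroup.zpowers b).subgroupOf (Subgroup.centralizer (Subgroup.zpowers b : Set G)))) ^ 7 = 1 := by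
          rw [← hcB]; exact pow_card_eq_one'
        exact congrArg Subtype.val h5
      set n' := n⁻¹ * ⟨z, hzB⟩ with hn'
      have h5 : Commute n n' := by
        apply Subtype.ext
        exact (Subgroup.mem_centralizer_iff.1 n.2 _ h3).symm
      have h6 : (⟨z, hzB⟩ : ↥(Subgroup.centralizer (Subgroup.zpowers b : Set G))) = n * n' := by rw [hn', mul_inv_cancel_left]
      have h7 : (⟨z, hzB⟩ : ↥(Subgroup.centralizer (Subgroup.zpowers b : Set G))) ^ 7 = ⟨z, hzB⟩ := by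
        apply Subtype.ext
        show z ^ 7 = z
        calc z ^ 7 = (z * z) * (z * z) * (z * z) * z := by simp only [pow_succ, pow_zero, one_mul, mul_assoc]
          _ = z := by rw [hz2]; simp
      rw [← h7, h6, h5.mul_pow, h4, mul_one]
      exact pow_mem hnN 7
    · intro h
      apply hnc
      have h1 := congrArg Subtype.val h
      have h2 : (x1 * z * x1⁻¹) * (x2 * z * x2⁻¹) = (x2 * z * x2⁻¹) * (x1 * z * x1⁻¹) := h1
      rw [hxz1, hxz2] at h2
      exact h2
  have hsL : (⟨s, hsB⟩ : ↥(Subgroup.centralizer (Subgroup.zpowers b : Set G))) ∈ layer ↥(Subgroup.centralizer (Subgroup.zpowers b : Set G)) := by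
    haveI := Layer.layer_characteristic ↥(Subgroup.centralizer (Subgroup.zpowers b : Set G))
    have h1 : (layer ↥(Subgroup.centralizer (Subgroup.zpowers b : Set G))).Normal := inferInstance
    have h2 := h1.conj_mem _ hzL ⟨x1, hx1⟩
    have h3 : (⟨x1, hx1⟩ * ⟨z, hzB⟩ * ⟨x1, hx1⟩⁻¹ : ↥(Subgroup.centralizer (Subgroup.zpowers b : Set G))) = ⟨s, hsB⟩ := Subtype.ext hxz1
    rwa [h3] at h2
  rintro ⟨l, hl, hall⟩
  have hlB : l ∈ Subgroup.centralizer (Subgroup.zpowers b : Set G) := by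
    obtain ⟨l', -, rfl⟩ := hl; exact l'.2
  have ez := hall z ⟨_, hzL, rfl⟩
  have es := hall s ⟨_, hsL, rfl⟩
  have key : ∀ x, t * x * t⁻¹ = l * x * l⁻¹ → (l⁻¹ * t) * x * (l⁻¹ * t)⁻¹ = x := by
    intro x hx
    calc (l⁻¹ * t) * x * (l⁻¹ * t)⁻¹ = l⁻¹ * (t * x * t⁻¹) * l := by group
      _ = x := by rw [hx]; group
  have hyz := key z ez
  have hys := key s es
  have hyb : (l⁻¹ * t) * b * (l⁻¹ * t)⁻¹ = b⁻¹ := by
    have h1 : b⁻¹ * l = l * b⁻¹ := Subgroup.mem_centralizer_iff.1 hlB _ (inv_mem (Subgroup.mem_zpowers b))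
    calc (l⁻¹ * t) * b * (l⁻¹ * t)⁻¹ = l⁻¹ * (t * b * t⁻¹) * l := by group
      _ = l⁻¹ * (b⁻¹ * l) := by rw [htb, mul_assoc]
      _ = b⁻¹ := by rw [h1, inv_mul_cancel_left]
  have hyC : l⁻¹ * t ∈ Subgroup.centralizer ({z} : Set G) := by
    rw [Subgroup.mem_centralizer_singleton_iff]
    exact mul_inv_eq_iff_eq_mul.1 hyz
  obtain ⟨g, hg⟩ := exists_g e' hyC
  have h1 : Rl e' b⁻¹ (g * b7 * g⁻¹) := by rw [← hyb]; exact (hg.mul hr).mul hg.inv
  have h2 : g * b7 * g⁻¹ = b7⁻¹ := by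
    rcases hr.inv.eq h1 with h3 | h3
    · exact h3
    · exfalso
      have h4 : (g * b7 * g⁻¹) ^ 7 = 1 := by rw [_root_.conj_pow, b7_pow]; group
      have h5 : Commute negOne b7⁻¹ := (Subgroup.mem_center_iff.1 negOne_mem_center b7⁻¹).symm
      rw [h3, h5.mul_pow, inv_pow, b7_pow, inv_one, mul_one] at h4
      have h6 : negOne ^ 7 = negOne := by
        calc negOne ^ 7 = (negOne * negOne) * (negOne * negOne) * (negOne * negOne) * negOne := by simp only [pow_succ, pow_zero, one_mul, mul_assoc]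
          _ = negOne := by rw [negOne_sq]; simp
      rw [h6] at h4
      exact H89Act.negOne_ne_one h4
  apply inv_moves h2
  have h3 := M'.cl_conj hs' hg
  rw [hys] at h3
  exact q2_eq_iff.2 (M'.cl_unique h3 hs')

end Cfsg.Agent.Lib.H89Mon1
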