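import Cfsg.Agent.Lib.LeechIrr

/-!
Every class of the Leech lattice modulo 2 contains a vector of `sqNorm` at most 64 (helper89).
-/

set_option autoImplicit false
set_option linter.all false

namespace Cfsg.Agent.Lib.H89LeechShort

open Cfsg Cfsg.Agent.Lib.Golay Cfsg.Agent.Lib.LeechMin Cfsg.Agent.Lib.LeechTrans Cfsg.Agent.Lib.LeechIrr
open scoped Pointwise

/-- having a short representative -/
def P (v : leechLattice) : Prop := ∃ w u : leechLattice, sqNorm (w : GolayPt → ℤ) ≤ 64 ∧ v = w + (u + u)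

theorem P.of_E {v w : leechLattice} (h : E v w) (hv : P v) : P w := by
  obtain ⟨g, rfl⟩ := h
  obtain ⟨a, u, ha, rfl⟩ := hv
  refine ⟨g • a, g • u, ?_, ?_⟩
  · exact (g.2.2 a).trans_le ha
  · rw [smul_add', smul_add']

theorem P.add {v : leechLattice} (x : leechLattice) (hv : P v) : P (v + (x + x)) := by
  obtain ⟨a, u, ha, rfl⟩ := hv
  exact ⟨a, u + x, ha, by abel⟩

/-- the parity decomposition of an integer vector modulo the code -/
theorem exists_decomp (y : GolayPt → ℤ) : ∃ (C t : Finset GolayPt) (k : GolayPt → ℤ), C ∈ Sup ∧ t.card ≤ 4 ∧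
    ∀ i, y i = chi C i + chi t i + 2 * k i := by
  set s := Finset.univ.filter fun i => ¬ (2 : ℤ) ∣ y i with hs
  obtain ⟨t, ht4, hC⟩ := GolayCoset.exists_leader s
  set C := symmDiff s t with hCdef
  have hst : s = symmDiff C t := by rw [hCdef, symmDiff_symmDiff_cancel_right]
  have hk : ∀ i, ∃ k : ℤ, y i = chi C i + chi t i + 2 * k := by
    intro i
    have h5 : (2 : ℤ) ∣ y i - chi s i := by
      by_cases h6 : i ∈ s
      · have h7 : chi s i = 1 := by simp [chi, h6]
        have h8 : ¬ (2 : ℤ) ∣ y i := (Finset.mem_filter.1 h6).2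
        rw [h7]; omega
      · have h7 : chi s i = 0 := by simp [chi, h6]
        have h8 : (2 : ℤ) ∣ y i := by
          by_contra h9
          exact h6 (Finset.mem_filter.2 ⟨Finset.mem_univ _, h9⟩)
        rw [h7]; omega
    have h6 := LeechGen.chi_symmDiff C t i
    rw [← hst] at h6
    obtain ⟨k, hk⟩ := h5
    exact ⟨k - chi (C ∩ t) i, by omega⟩
  choose k hk using hk
  exact ⟨C, t, k, hC, ht4, hk⟩

theorem sum_chi' (A : Finset GolayPt) (k : GolayPt → ℤ) (c : ℤ) : ∑ i, (k i + c * chi A i) = ∑ i, k i + c * A.card := by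
  rw [Finset.sum_add_distrib, ← Finset.mul_sum, sum_chi]

/-- subtracting `4 χ_C + 8 u` -/
theorem P.of_sub {v : leechLattice} {C : Finset GolayPt} (hC : C ∈ Sup) {u : GolayPt → ℤ} (hu : (2 : ℤ) ∣ ∑ i, u i)
    {z : GolayPt → ℤ} (hz : ∀ i, (v : GolayPt → ℤ) i = z i + 4 * chi C i + 8 * u i) (hn : sqNorm z ≤ 64) : P v := by
  have h5 := leechLattice.add_mem (LeechGen.two_chi_mem_lattice hC) (four_mem hu)
  have h6 : z = (v : GolayPt → ℤ) - (((fun i => 2 * chi C i) + fun i => 4 * u i) + ((fun i => 2 * chi C i) + fun i => 4 * u i)) := by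
    funext i
    rw [Pi.sub_apply, hz i]
    simp only [Pi.add_apply]
    ring
  have h7 : z ∈ leechLattice := by
    rw [h6]; exact leechLattice.sub_mem v.2 (leechLattice.add_mem h5 h5)
  refine ⟨⟨z, h7⟩, ⟨_, h5⟩, hn, Subtype.ext ?_⟩
  show (v : GolayPt → ℤ) = z + (_ + _)
  rw [h6]
  simp

theorem chi_union {A B : Finset GolayPt} (hd : Disjoint A B) (i : GolayPt) : chi (A ∪ B) i = chi A i + chi B i := by
  have h2 : i ∈ A → i ∉ B := fun h => Finset.disjoint_left.1 hd h
  by_cases h3 : i ∈ A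
  · simp [chi, h3, h2 h3]
  · by_cases h4 : i ∈ B <;> simp [chi, h3, h4]

theorem odd_case {v : leechLattice} {i : GolayPt} (hi : ¬ (2 : ℤ) ∣ (v : GolayPt → ℤ) i) : P v := by
  obtain ⟨w, hw, hw4⟩ := exists_normal hi
  apply P.of_E hw.symm
  choose y hy using hw4
  obtain ⟨C, t, k, hC, ht4, hk⟩ := exists_decomp y
  have hwi : ∀ i, (w : GolayPt → ℤ) i = 1 + 4 * chi t i + 4 * chi C i + 8 * k i := by
    intro i
    have h1 := hy i
    have h2 := hk i
    linarith
  -- the size of t is odd
  have hodd : ¬ (2 : ℤ) ∣ t.card := by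
    obtain ⟨m, A, hA, h5, h6⟩ := (mem_lattice_iff' w).1 w.2
    have hm : ¬ (2 : ℤ) ∣ m := by
      have h7 := h5 none
      have h8 := hwi none
      rcases chi_cases A none with ⟨_, h9⟩ | ⟨_, h9⟩ <;> rw [h9] at h7 <;> omega
    have h7 : ∑ i, (w : GolayPt → ℤ) i = 24 + 4 * t.card + 4 * C.card + 8 * ∑ i, k i := by
      rw [Finset.sum_congr rfl fun i _ => hwi i, Finset.sum_add_distrib, Finset.sum_add_distrib, Finset.sum_add_distrib,
        ← Finset.mul_sum, ← Finset.mul_sum, ← Finset.mul_sum, sum_chi, sum_chi, sum_const]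
      ring
    have h8 := four_dvd_card hC
    rw [h7] at h6
    omega
  have key : ∀ (Pp R : Finset GolayPt), Disjoint Pp R → Pp ∪ R = t → (2 : ℤ) ∣ ∑ i, k i + Pp.card →
      24 + 8 * (Pp.card : ℤ) + 24 * R.card ≤ 64 → P w := by
    intro Pp R hd hPR hpar hn
    refine P.of_sub hC (u := fun i => k i + 1 * chi Pp i) (z := cv Pp R) ?_ ?_ ?_
    · rw [sum_chi', one_mul]; exact hpar
    · intro i
      rw [hwi i]
      have h1 : chi t i = chi Pp i + chi R i := by
        rw [← hPR, chi_union hd]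
      unfold cv
      rw [h1]; ring
    · rw [sqNorm_cv hd]; exact hn
  have hcases : t.card = 1 ∨ t.card = 3 := by
    have h1 : t.card ≤ 4 := ht4
    clear key
    generalize t.card = n at h1 hodd
    interval_cases n
    · exact absurd (by norm_num) hodd
    · left; rfl
    · exact absurd (by norm_num) hodd
    · right; rfl
    · exact absurd (by norm_num) hodd
  by_cases hpar : (2 : ℤ) ∣ ∑ i, k i
  · rcases hcases with h1 | h3
    · exact key ∅ t (Finset.disjoint_empty_left _) (by simp) (by simpa using hpar) (by rw [h1]; norm_num)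
    · obtain ⟨a, b, c, hab, hac, hbc, rfl⟩ := Finset.card_eq_three.1 h3
      refine key {a, b} {c} ?_ ?_ ?_ ?_
      · simp [hac.symm, hbc.symm, hac, hbc]
      · ext x; simp
      · rw [Finset.card_pair hab]; omega
      · rw [Finset.card_pair hab, Finset.card_singleton]; norm_num
  · refine key t ∅ (Finset.disjoint_empty_right _) (by simp) ?_ ?_
    · rcases hcases with h1 | h3
      · rw [h1]; omega
      · rw [h3]; omega
    · rcases hcases with h1 | h3
      · rw [h1]; simp
      · rw [h3]; simp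

theorem four_case {v : leechLattice} (h4 : ∀ i, (4 : ℤ) ∣ (v : GolayPt → ℤ) i) : P v := by
  choose y hy using h4
  obtain ⟨C, t, k, hC, ht4, hk⟩ := exists_decomp y
  have hv' : ∀ i, (v : GolayPt → ℤ) i = 4 * chi t i + 4 * chi C i + 8 * k i := by
    intro i
    rw [hy i, hk i]; ring
  have ht4' : (t.card : ℤ) ≤ 4 := by exact_mod_cast ht4
  by_cases hpar : (2 : ℤ) ∣ ∑ i, k i
  · refine P.of_sub hC hpar (z := fun i => 4 * chi t i) hv' ?_
    rw [sqNorm_four_chi]; omega
  · rcases t.eq_empty_or_nonempty with hte | ⟨p, hp⟩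
    · refine P.of_sub hC (u := fun i => k i + (-1) * chi {none} i) (z := fun i => 8 * chi {none} i) ?_ ?_ ?_
      · rw [sum_chi', Finset.card_singleton]; push_cast; omega
      · intro i
        rw [hv' i, hte]
        have : chi ∅ i = 0 := by simp [chi]
        rw [this]; ring
      · rw [sqNorm_eight_chi]
    · refine P.of_sub hC (u := fun i => k i + 1 * chi {p} i) (z := fun i => 4 * chi t i - 8 * chi {p} i) ?_ ?_ ?_
      · rw [sum_chi', Finset.card_singleton]; push_cast; omega
      · intro i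
        rw [hv' i]
        ring
      · rw [sqNorm_four_chi_sub t p hp]; omega

/-- Every class modulo `2Λ` has a short representative. -/
theorem exists_short (v : leechLattice) : ∃ w u : leechLattice, sqNorm (w : GolayPt → ℤ) ≤ 64 ∧ v = w + (u + u) := by
  show P v
  by_cases hodd : ∃ i, ¬ (2 : ℤ) ∣ (v : GolayPt → ℤ) i
  · obtain ⟨i, hi⟩ := hodd
    exact odd_case hi
  push Not at hodd
  by_cases hmix : ∃ p q, (4 : ℤ) ∣ (v : GolayPt → ℤ) p - 2 ∧ (4 : ℤ) ∣ (v : GolayPt → ℤ) q
  · obtain ⟨p, q, hp, hq⟩ := hmix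
    obtain ⟨w, i, hw, hi⟩ := exists_odd_A hp hq
    exact P.of_E hw.symm (odd_case hi)
  push Not at hmix
  by_cases h4 : ∀ i, (4 : ℤ) ∣ (v : GolayPt → ℤ) i
  · exact four_case h4
  · push Not at h4
    obtain ⟨p, hp⟩ := h4
    have hp2 : (4 : ℤ) ∣ (v : GolayPt → ℤ) p - 2 := by
      have := hodd p
      omega
    have hall2 : ∀ q, (4 : ℤ) ∣ (v : GolayPt → ℤ) q - 2 := by
      intro q
      have h5 := hmix p q hp2
      have := hodd q
      omega
    let sv : leechLattice := ⟨LeechGen.sv, LeechGen.sv_min.1⟩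
    have h5 : P (v - (sv + sv)) := by
      apply four_case
      intro i
      have h6 := hall2 i
      show (4 : ℤ) ∣ (v : GolayPt → ℤ) i - (LeechGen.sv i + LeechGen.sv i)
      simp only [LeechGen.sv]
      rcases chi_cases {none} i with ⟨_, h6⟩ | ⟨_, h6⟩ <;> rw [h6] <;> omega
    have h6 := h5.add sv
    rwa [sub_add_cancel] at h6

end Cfsg.Agent.Lib.H89LeechShort
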