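import Cfsg.Agent.Lib.H89MV5
import Cfsg.Agent.Lib.CharPLocal
/-
Groups of type M(22): the radical of the centralizer of the product of two commuting transpositions (helper89).
-/
set_option autoImplicit false
set_option linter.all false

namespace Cfsg.Agent.Lib.H89MV

open Cfsg Cfsg.Agent.Lib.ThreeRank3 Cfsg.Agent.Lib.ThreeDescent Cfsg.Agent.Lib.ThreeQuot Cfsg.Agent.Lib.FiPar
  Cfsg.Agent.Lib.ThreeSimple Cfsg.Agent.Lib.ThreeTypes Cfsg.Agent.Lib.FiComp Cfsg.Agent.Lib.FiMu
open Cfsg.Agent.Lib.UnTrans Cfsg.Agent.Lib.UnBridge Cfsg.Agent.Lib.H89MU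
open Cfsg.Agent.Lib.U6Class (SS P tr)
open scoped Matrix

variable {G : Type*} [Group G] {D : Set G}

namespace Ctx

variable {d₁ d₂ : G} {F : Type} [Field F] [Fintype F] [CharP F 2] {hF : Fintype.card F = 2 ^ 2}
  {π : SS (hermForm 6 F 2) →* QQ D d₁} (C : Ctx D d₁ d₂ F hF π)
include C

theorem Av_sq {v : Fin 4 → F} (hv : hermForm 4 F 2 v v = 0) (hv0 : v ≠ 0) (c : F) : C.Av v c * C.Av v c = 1 :=
  sq_one C.tg.1 (C.Av_mem hv hv0 c).1

theorem d1_sq : d₁ * d₁ = 1 := sq_one C.tg.1 C.h₁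
theorem d2_sq : d₂ * d₂ = 1 := sq_one C.tg.1 C.h₂.1

/-- the product of the four transpositions of a line -/
theorem prod_Av {v : Fin 4 → F} (hv : hermForm 4 F 2 v v = 0) (hv0 : v ≠ 0) {ω : F} (hω0 : ω ≠ 0) (hω1 : ω ≠ 1) :
    C.Av v 0 * (C.Av v 1 * (C.Av v ω * C.Av v (ω + 1))) = d₁ * d₂ := by
  let k : KK d₁ d₂ := ⟨d₂, mem_KK.2 ⟨C.h₂.2.2.symm, Commute.refl _⟩⟩ * (⟨C.Av v 0, C.Av_KK hv hv0 0⟩ *
    (⟨C.Av v 1, C.Av_KK hv hv0 1⟩ * (⟨C.Av v ω, C.Av_KK hv hv0 ω⟩ * ⟨C.Av v (ω + 1), C.Av_KK hv hv0 (ω + 1)⟩)))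
  have hk : C.Phi k = 1 := by
    show C.Phi (_ * (_ * (_ * (_ * _)))) = 1
    rw [map_mul, map_mul, map_mul, map_mul, C.Phi_d2, C.Phi_Av hv hv0, C.Phi_Av hv hv0, C.Phi_Av hv hv0, C.Phi_Av hv hv0]
    exact prod_line hF hω0 hω1 hv
  have hkv : (k : G) = d₂ * (C.Av v 0 * (C.Av v 1 * (C.Av v ω * C.Av v (ω + 1)))) := rfl
  have hω1' : ω + 1 ≠ 0 := by
    intro h
    apply hω1
    have := eq_neg_of_add_eq_zero_left h
    rw [this, CharTwo.neg_eq]
  rcases (C.Phi_ker k).1 hk with h | h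
  · exfalso
    apply C.nr 5 (by norm_num) le_rfl
    refine ⟨[d₂, C.Av v 0, C.Av v 1, C.Av v ω, C.Av v (ω + 1)], rfl, ?_, ?_, ?_, ?_⟩
    · have ne2 : ∀ c, d₂ ≠ C.Av v c := fun c h => C.Av_ne_d2 hv hv0 c h.symm
      have inj : ∀ {c d : F}, c ≠ d → C.Av v c ≠ C.Av v d := fun hcd h => hcd (C.Av_inj hv hv0 h)
      have e1 : ω ≠ ω + 1 := by
        intro h
        exact one_ne_zero (α := F) (by linear_combination (-1 : F) * h)
      have e2 : (1 : F) ≠ ω + 1 := by
        intro h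
        exact hω0 (by linear_combination (-1 : F) * h)
      simp only [List.nodup_cons, List.mem_cons, List.not_mem_nil, or_false, not_or, List.nodup_nil, not_false_eq_true,
        and_true]
      exact ⟨⟨ne2 _, ne2 _, ne2 _, ne2 _⟩, ⟨inj zero_ne_one, inj hω0.symm, inj hω1'.symm⟩, ⟨inj hω1.symm, inj e2⟩, inj e1⟩
    · intro a ha
      simp only [List.mem_cons, List.not_mem_nil, or_false] at ha
      rcases ha with rfl | rfl | rfl | rfl | rfl
      · exact C.h₂.1
      all_goals exact (C.Av_mem hv hv0 _).1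
    · have c2 : ∀ c, Commute d₂ (C.Av v c) := fun c => (mem_KK.1 (C.Av_KK hv hv0 c)).2.symm
      intro a ha b hb
      simp only [List.mem_cons, List.not_mem_nil, or_false] at ha hb
      rcases ha with rfl | rfl | rfl | rfl | rfl <;> rcases hb with rfl | rfl | rfl | rfl | rfl <;>
        first
          | exact Commute.refl _
          | exact c2 _
          | exact (c2 _).symm
          | exact C.Av_comm hv hv0 _ _
    · simp only [List.prod_cons, List.prod_nil, mul_one]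
      rw [← hkv]
      exact h
  · rw [hkv] at h
    have h1 : C.Av v 0 * (C.Av v 1 * (C.Av v ω * C.Av v (ω + 1))) = d₂ * d₁ := by
      have h5 := eq_inv_mul_of_mul_eq h
      rw [inv_self C.tg.1 C.h₂.1] at h5
      exact h5
    rw [h1]
    exact C.h₂.2.2.symm.eq

/-- the product of the pairs of transpositions of a line -/
theorem pair_Av {v : Fin 4 → F} (hv : hermForm 4 F 2 v v = 0) (hv0 : v ≠ 0) (c d γ : F) :
    (C.Av v c * C.Av v d) * (C.Av v (c + γ) * C.Av v (d + γ)) = 1 ∨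
      (C.Av v c * C.Av v d) * (C.Av v (c + γ) * C.Av v (d + γ)) = d₁ * d₂ := by
  obtain ⟨ω, hω0, hω1, hω2, hcases⟩ := exists_omega hF
  have cm : ∀ a b, C.Av v a * C.Av v b = C.Av v b * C.Av v a := fun a b => (C.Av_comm hv hv0 a b).eq
  have sq : ∀ a, C.Av v a * C.Av v a = 1 := C.Av_sq hv hv0
  have pairsq : ∀ a b, (C.Av v a * C.Av v b) * (C.Av v a * C.Av v b) = 1 := by
    intro a b
    calc (C.Av v a * C.Av v b) * (C.Av v a * C.Av v b) = C.Av v a * (C.Av v b * C.Av v a) * C.Av v b := by group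
      _ = (C.Av v a * C.Av v a) * (C.Av v b * C.Av v b) := by rw [cm b a]; group
      _ = 1 := by rw [sq, sq, one_mul]
  have h2 : ∀ x : F, x + x = 0 := fun x => CharTwo.add_self_eq_zero x
  by_cases hγ : γ = 0
  · left
    rw [hγ, add_zero, add_zero, pairsq]
  by_cases hcd : c = d
  · left
    rw [hcd, sq, sq, one_mul]
  by_cases hcγ : d = c + γ
  · left
    have e1 : d + γ = c := by rw [hcγ, add_assoc, h2, add_zero]
    rw [e1, ← hcγ, cm d c, pairsq]
  · right
    have key : [C.Av v c, C.Av v d, C.Av v (c + γ), C.Av v (d + γ)].prod =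
        [C.Av v 0, C.Av v 1, C.Av v ω, C.Av v (ω + 1)].prod := by
      have inj : ∀ {c d : F}, c ≠ d → C.Av v c ≠ C.Av v d := fun hcd h => hcd (C.Av_inj hv hv0 h)
      have e1 : ω ≠ ω + 1 := by
        intro h
        exact one_ne_zero (α := F) (by linear_combination (-1 : F) * h)
      have e2 : (1 : F) ≠ ω + 1 := by
        intro h
        exact hω0 (by linear_combination (-1 : F) * h)
      have e3 : (0 : F) ≠ ω + 1 := by
        intro h
        apply hω1
        have := eq_neg_of_add_eq_zero_left h.symm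
        rw [this, CharTwo.neg_eq]
      have n1 : [c, d, c + γ, d + γ].Nodup := by
        simp only [List.nodup_cons, List.mem_cons, List.not_mem_nil, or_false, not_or, List.nodup_nil, not_false_eq_true,
          and_true]
        refine ⟨⟨hcd, ?_, ?_⟩, ⟨hcγ, ?_⟩, ?_⟩
        · intro h; exact hγ (by linear_combination (-1 : F) * h)
        · intro h; exact hcγ (by
            have := h2 γ
            linear_combination (-1 : F) * h - this)
        · intro h; exact hγ (by linear_combination (-1 : F) * h)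
        · intro h; exact hcd (add_right_cancel h)
      have n2 : [(0 : F), 1, ω, ω + 1].Nodup := by
        simp only [List.nodup_cons, List.mem_cons, List.not_mem_nil, or_false, not_or, List.nodup_nil, not_false_eq_true,
          and_true]
        exact ⟨⟨zero_ne_one, hω0.symm, e3⟩, ⟨hω1.symm, e2⟩, e1⟩
      have hmem : ∀ x, x ∈ [c, d, c + γ, d + γ] ↔ x ∈ [(0 : F), 1, ω, ω + 1] := by
        classical
        have huniv : [(0 : F), 1, ω, ω + 1].toFinset = Finset.univ := by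
          apply Finset.eq_univ_of_forall
          intro x
          rw [List.mem_toFinset]
          simp only [List.mem_cons, List.not_mem_nil, or_false]
          exact hcases x
        have huniv2 : [c, d, c + γ, d + γ].toFinset = Finset.univ := by
          rw [← Finset.card_eq_iff_eq_univ, List.toFinset_card_of_nodup n1, hF]
          rfl
        intro x
        rw [← List.mem_toFinset, ← List.mem_toFinset, huniv, huniv2]
      have p := (List.perm_ext_iff_of_nodup n1 n2).2 hmem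
      have p2 := p.map (C.Av v)
      have pw : (List.map (C.Av v) [c, d, c + γ, d + γ]).Pairwise Commute := by
        rw [List.pairwise_map]
        exact List.pairwise_iff_forall_sublist.2 fun _ => C.Av_comm hv hv0 _ _
      exact p2.prod_eq' pw
    simp only [List.prod_cons, List.prod_nil, mul_one] at key
    rw [← C.prod_Av hv hv0 hω0 hω1, ← key]
    group

/-- the generators of the radical -/
def gens (_C : Ctx D d₁ d₂ F hF π) : Set G :=
  {x | ∃ (v : Fin 4 → F) (hv : hermForm 4 F 2 v v = 0) (hv0 : v ≠ 0) (c d : F), x = _C.Av v c * _C.Av v d} ∪ {d₁, d₂}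

theorem gens_le : C.gens ⊆ C.EE := by
  rintro x (⟨v, hv, hv0, c, d, rfl⟩ | hx)
  · rw [SetLike.mem_coe, C.mem_EE]
    refine ⟨mul_mem (C.Av_KK hv hv0 c) (C.Av_KK hv hv0 d), ?_⟩
    have e : (⟨C.Av v c * C.Av v d, mul_mem (C.Av_KK hv hv0 c) (C.Av_KK hv hv0 d)⟩ : KK d₁ d₂) =
      ⟨C.Av v c, C.Av_KK hv hv0 c⟩ * ⟨C.Av v d, C.Av_KK hv hv0 d⟩ := rfl
    rw [e, map_mul, C.Phi_Av hv hv0, C.Phi_Av hv hv0]
    exact sv_mem hF hv c d
  · rcases hx with rfl | hx
    · exact C.d1_EE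
    · rw [Set.mem_singleton_iff] at hx
      rw [hx]
      exact C.d2_EE

theorem EE_eq : C.EE = Subgroup.closure C.gens := by
  apply le_antisymm _ ((Subgroup.closure_le _).2 C.gens_le)
  intro x hx
  obtain ⟨hxK, hxR⟩ := C.mem_EE.1 hx
  rw [RK_eq] at hxR
  have key : ∀ m : M1 F, m ∈ N0 hF → ∃ k : KK d₁ d₂, (k : G) ∈ Subgroup.closure C.gens ∧ C.Phi k = m := by
    intro m hm
    unfold N0 at hm
    induction hm using Subgroup.closure_induction with
    | mem m hm =>
      rcases hm with ⟨v, hv, c, d, hv0, rfl⟩ | hm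
      · refine ⟨⟨C.Av v c, C.Av_KK hv hv0 c⟩ * ⟨C.Av v d, C.Av_KK hv hv0 d⟩,
          Subgroup.subset_closure (Or.inl ⟨v, hv, hv0, c, d, rfl⟩), ?_⟩
        rw [map_mul, C.Phi_Av hv hv0, C.Phi_Av hv hv0]
        rfl
      · rw [Set.mem_singleton_iff] at hm
        rw [hm]
        exact ⟨⟨d₂, _⟩, Subgroup.subset_closure (Or.inr (by simp)), C.Phi_d2⟩
    | one => exact ⟨1, one_mem _, map_one _⟩
    | mul a b _ _ ha hb =>
      obtain ⟨k, hk, rfl⟩ := ha
      obtain ⟨l, hl, rfl⟩ := hb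
      exact ⟨k * l, mul_mem hk hl, map_mul _ _ _⟩
    | inv a _ ha =>
      obtain ⟨k, hk, rfl⟩ := ha
      exact ⟨k⁻¹, inv_mem hk, map_inv _ _⟩
  obtain ⟨k, hk, hkx⟩ := key _ hxR
  have h1 : C.Phi (⟨x, hxK⟩ * k⁻¹) = 1 := by rw [map_mul, map_inv, hkx, mul_inv_cancel]
  have h2 : x * (k : G)⁻¹ ∈ Subgroup.closure C.gens := by
    rcases (C.Phi_ker _).1 h1 with h | h
    · have h3 : x * (k : G)⁻¹ = 1 := h
      rw [h3]
      exact one_mem _
    · have h3 : x * (k : G)⁻¹ = d₁ := h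
      rw [h3]
      exact Subgroup.subset_closure (Or.inr (by simp))
  have h3 : x = (x * (k : G)⁻¹) * k := by group
  rw [h3]
  exact mul_mem h2 hk

/-- `⟨d₁ d₂⟩` -/
theorem mem_J {x : G} : x ∈ Subgroup.zpowers (d₁ * d₂) ↔ x = 1 ∨ x = d₁ * d₂ := by
  have hsq : (d₁ * d₂) * (d₁ * d₂) = 1 := by
    have hc : d₂ * d₁ = d₁ * d₂ := C.h₂.2.2.symm.eq
    calc (d₁ * d₂) * (d₁ * d₂) = d₁ * (d₂ * d₁) * d₂ := by group
      _ = (d₁ * d₁) * (d₂ * d₂) := by rw [hc]; group
      _ = 1 := by rw [C.d1_sq, C.d2_sq, one_mul]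
  constructor
  · rintro ⟨n, rfl⟩
    show (d₁ * d₂) ^ n = 1 ∨ (d₁ * d₂) ^ n = d₁ * d₂
    rcases Int.even_or_odd' n with ⟨m, rfl | rfl⟩
    · left
      rw [zpow_mul, zpow_ofNat, sq, hsq, one_zpow]
    · right
      rw [zpow_add, zpow_mul, zpow_ofNat, sq, hsq, one_zpow, one_mul, zpow_one]
  · rintro (rfl | rfl)
    · exact one_mem _
    · exact Subgroup.mem_zpowers _

theorem J_central {j k : G} (hj : j ∈ Subgroup.zpowers (d₁ * d₂)) (hk : k ∈ KK d₁ d₂) : Commute k j := by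
  rcases C.mem_J.1 hj with rfl | rfl
  · exact Commute.one_right _
  · exact (mem_KK.1 hk).1.mul_right (mem_KK.1 hk).2

theorem EE_comm_J {x y : G} (hx : x ∈ C.EE) (hy : y ∈ C.EE) : x * y * x⁻¹ * y⁻¹ ∈ Subgroup.zpowers (d₁ * d₂) := by
  have hyK := C.EE_le hy
  rw [C.EE_eq] at hx
  have main : x ∈ KK d₁ d₂ ∧ x * y * x⁻¹ * y⁻¹ ∈ Subgroup.zpowers (d₁ * d₂) := by
    induction hx using Subgroup.closure_induction with
    | mem x hx =>
      refine ⟨C.EE_le (C.gens_le hx), ?_⟩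
      rcases hx with ⟨v, hv, hv0, c, d, rfl⟩ | hx
      · obtain ⟨_, hyR⟩ := C.mem_EE.1 hy
        set γ := cc (C.Phi ⟨y, hyK⟩) v with hγ
        have hconj : ∀ c, y * C.Av v c * y⁻¹ = C.Av v (c + γ) := by
          intro c
          have := C.Av_conj ⟨y, hyK⟩ hv hv0 c
          rw [MonoidHom.mem_ker.1 hyR] at this
          exact this
        have e : (C.Av v c * C.Av v d) * y * (C.Av v c * C.Av v d)⁻¹ * y⁻¹ =
            (C.Av v c * C.Av v d) * ((y * C.Av v c * y⁻¹) * (y * C.Av v d * y⁻¹))⁻¹ := by group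
        rw [e, hconj, hconj]
        have hinv : (C.Av v (c + γ) * C.Av v (d + γ))⁻¹ = C.Av v (c + γ) * C.Av v (d + γ) := by
          rw [mul_inv_rev, inv_eq_of_mul_eq_one_left (C.Av_sq hv hv0 _), inv_eq_of_mul_eq_one_left (C.Av_sq hv hv0 _)]
          exact (C.Av_comm hv hv0 _ _).eq
        rw [hinv, C.mem_J]
        exact C.pair_Av hv hv0 c d γ
      · have hxV : x ∈ Subgroup.closure ({d₁, d₂} : Set G) := Subgroup.subset_closure hx
        have := C.V_central hxV hyK
        rw [← this.eq, mul_inv_cancel_right, mul_inv_cancel]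
        exact one_mem _
    | one => exact ⟨one_mem _, by rw [one_mul, inv_one, mul_one, mul_inv_cancel]; exact one_mem _⟩
    | mul a b _ _ ha hb =>
      refine ⟨mul_mem ha.1 hb.1, ?_⟩
      have h1 := C.J_central hb.2 ha.1
      have e : a * b * y * (a * b)⁻¹ * y⁻¹ = (a * (b * y * b⁻¹ * y⁻¹) * a⁻¹) * (a * y * a⁻¹ * y⁻¹) := by group
      rw [e, h1.eq, mul_inv_cancel_right]
      exact mul_mem hb.2 ha.2
    | inv a _ ha =>
      refine ⟨inv_mem ha.1, ?_⟩
      have h1 := C.J_central (inv_mem ha.2) (inv_mem ha.1)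
      have e : a⁻¹ * y * a⁻¹⁻¹ * y⁻¹ = a⁻¹ * (a * y * a⁻¹ * y⁻¹)⁻¹ * a := by group
      rw [e, h1.eq, inv_mul_cancel_right]
      exact inv_mem ha.2
  exact main.2

theorem EE_sq_J {x : G} (hx : x ∈ C.EE) : x * x ∈ Subgroup.zpowers (d₁ * d₂) := by
  have hx' := hx
  rw [C.EE_eq] at hx
  induction hx using Subgroup.closure_induction with
  | mem x hx =>
    rcases hx with ⟨v, hv, hv0, c, d, rfl⟩ | hx
    · have e : (C.Av v c * C.Av v d) * (C.Av v c * C.Av v d) = 1 := by
        calc (C.Av v c * C.Av v d) * (C.Av v c * C.Av v d) = C.Av v c * (C.Av v d * C.Av v c) * C.Av v d := by group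
          _ = (C.Av v c * C.Av v c) * (C.Av v d * C.Av v d) := by rw [(C.Av_comm hv hv0 d c).eq]; group
          _ = 1 := by rw [C.Av_sq hv hv0, C.Av_sq hv hv0, one_mul]
      rw [e]
      exact one_mem _
    · rcases hx with rfl | hx
      · rw [C.d1_sq]; exact one_mem _
      · rw [Set.mem_singleton_iff] at hx
        rw [hx, C.d2_sq]; exact one_mem _
  | one => rw [one_mul]; exact one_mem _
  | mul a b ha hb iha ihb =>
    rw [← C.EE_eq] at ha hb
    have h1 := iha ha
    have h2 := ihb hb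
    have h3 := C.EE_comm_J hb ha
    have h4 := C.J_central h3 (C.EE_le ha)
    have e : a * b * (a * b) = a * (b * a * b⁻¹ * a⁻¹) * a * b * b := by group
    rw [e, h4.eq, mul_assoc (b * a * b⁻¹ * a⁻¹), mul_assoc (b * a * b⁻¹ * a⁻¹ * (a * a))]
    exact mul_mem (mul_mem h3 h1) h2
  | inv a ha iha =>
    rw [← C.EE_eq] at ha
    have h1 := iha ha
    have e : a⁻¹ * a⁻¹ = (a * a)⁻¹ := by group
    rw [e]
    exact inv_mem h1

theorem EE_center {z : G} (hz : z ∈ C.EE) (hc : ∀ e ∈ C.EE, z * e = e * z) :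
    z ∈ Subgroup.closure ({d₁, d₂} : Set G) := by
  obtain ⟨hzK, hzR⟩ := C.mem_EE.1 hz
  have h : C.Phi ⟨z, hzK⟩ = 1 ∨ C.Phi ⟨z, hzK⟩ = te hF := by
    apply ker_cent_ker hF hzR
    intro s hs
    obtain ⟨k, rfl⟩ := C.Phi_surjective s
    rw [← map_mul, ← map_mul]
    congr 1
    exact Subtype.ext (hc k (C.mem_EE.2 ⟨k.2, hs⟩))
  exact C.Phi_te h

theorem cent_EE {z : G} (hz : z ∈ KK d₁ d₂) (hc : ∀ e ∈ C.EE, z * e = e * z) :
    z ∈ Subgroup.closure ({d₁, d₂} : Set G) := by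
  have h : C.Phi ⟨z, hz⟩ = 1 ∨ C.Phi ⟨z, hz⟩ = te hF := by
    apply cent_RK hF
    intro s hs
    obtain ⟨k, rfl⟩ := C.Phi_surjective s
    rw [← map_mul, ← map_mul]
    congr 1
    exact Subtype.ext (hc k (C.mem_EE.2 ⟨k.2, hs⟩))
  exact C.Phi_te h

theorem mem_V {x : G} : x ∈ Subgroup.closure ({d₁, d₂} : Set G) ↔ x = 1 ∨ x = d₁ ∨ x = d₂ ∨ x = d₁ * d₂ := by
  have hc : d₂ * d₁ = d₁ * d₂ := C.h₂.2.2.symm.eq
  constructor
  · intro hx
    induction hx using Subgroup.closure_induction with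
    | mem x hx =>
      rcases hx with rfl | hx
      · exact Or.inr (Or.inl rfl)
      · rw [Set.mem_singleton_iff] at hx
        exact Or.inr (Or.inr (Or.inl hx))
    | one => exact Or.inl rfl
    | mul a b _ _ ha hb =>
      have s1 := C.d1_sq
      have s2 := C.d2_sq
      rcases ha with rfl | rfl | rfl | rfl
      · rw [one_mul]; exact hb
      · rcases hb with rfl | rfl | rfl | rfl
        · rw [mul_one]; tauto
        · rw [s1]; tauto
        · tauto
        · rw [← mul_assoc, s1, one_mul]; tauto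
      · rcases hb with rfl | rfl | rfl | rfl
        · rw [mul_one]; tauto
        · rw [hc]; tauto
        · rw [s2]; tauto
        · rw [← mul_assoc, hc, mul_assoc, s2, mul_one]; tauto
      · rcases hb with rfl | rfl | rfl | rfl
        · rw [mul_one]; tauto
        · rw [mul_assoc, hc, ← mul_assoc, s1, one_mul]; tauto
        · rw [mul_assoc, s2, mul_one]; tauto
        · rw [mul_assoc, ← mul_assoc d₂, hc, mul_assoc, s2, mul_one, s1]; tauto
    | inv a _ ha =>
      rcases ha with rfl | rfl | rfl | rfl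
      · rw [inv_one]; tauto
      · rw [inv_self C.tg.1 C.h₁]; tauto
      · rw [inv_self C.tg.1 C.h₂.1]; tauto
      · rw [mul_inv_rev, inv_self C.tg.1 C.h₁, inv_self C.tg.1 C.h₂.1, hc]; tauto
  · rintro (rfl | rfl | rfl | rfl)
    · exact one_mem _
    · exact Subgroup.subset_closure (by simp)
    · exact Subgroup.subset_closure (by simp)
    · exact mul_mem (Subgroup.subset_closure (by simp)) (Subgroup.subset_closure (by simp))

end Ctx

end Cfsg.Agent.Lib.H89MV
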