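import Cfsg.Agent.Lib.H89MV6
import Cfsg.Agent.Lib.LargeExtra7
import Cfsg.Agent.Lib.CharPLocal
import Cfsg.Agent.Lib.AmalgamCharP
/-
Groups of type M(22): the generalized Fitting subgroup of the centralizer of the product of two commuting
transpositions (helper89).
-/
set_option autoImplicit false
set_option linter.all false

namespace Cfsg.Agent.Lib.H89MV

open Cfsg Cfsg.Agent.Lib.ThreeRank3 Cfsg.Agent.Lib.ThreeDescent Cfsg.Agent.Lib.ThreeQuot Cfsg.Agent.Lib.FiPar
  Cfsg.Agent.Lib.ThreeSimple Cfsg.Agent.Lib.ThreeTypes Cfsg.Agent.Lib.FiComp Cfsg.Agent.Lib.FiMu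
open Cfsg.Agent.Lib.UnTrans Cfsg.Agent.Lib.UnBridge Cfsg.Agent.Lib.H89MU
open Cfsg.Agent.Lib.U6Class (SS P tr)
open Cfsg.Agent.Lib.LargeExtra
open scoped Matrix

/-- internal direct products -/
theorem prod_iso {G : Type*} [Group G] (A B E : Subgroup G) (hA : A ≤ E) (hB : B ≤ E)
    (hc : ∀ a ∈ A, ∀ b ∈ B, a * b = b * a) (hi : ∀ x ∈ A, x ∈ B → x = 1) (hs : ∀ x ∈ E, ∃ a ∈ A, ∃ b ∈ B, x = a * b) :
    Nonempty (E ≃* A × B) := by
  let f : A × B →* E :=
    { toFun := fun p => ⟨(p.1 : G) * p.2, mul_mem (hA p.1.2) (hB p.2.2)⟩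
      map_one' := by
        apply Subtype.ext
        show (1 : G) * 1 = 1
        rw [one_mul]
      map_mul' := by
        rintro ⟨a, b⟩ ⟨c, d⟩
        apply Subtype.ext
        show (a : G) * c * ((b : G) * d) = (a : G) * b * ((c : G) * d)
        have := hc c c.2 b b.2
        calc (a : G) * c * ((b : G) * d) = a * ((c : G) * b) * d := by group
          _ = _ := by rw [this]; group }
  have hinj : Function.Injective f := by
    rw [injective_iff_map_eq_one]
    rintro ⟨a, b⟩ h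
    have h1 : (a : G) * b = 1 := congrArg Subtype.val h
    have h2 : (a : G) = (b : G)⁻¹ := eq_inv_of_mul_eq_one_left h1
    have h3 : (a : G) = 1 := hi a a.2 (by rw [h2]; exact inv_mem b.2)
    have h4 : (b : G) = 1 := by rw [h3, one_mul] at h1; exact h1
    exact Prod.ext (Subtype.ext h3) (Subtype.ext h4)
  have hsurj : Function.Surjective f := by
    rintro ⟨x, hx⟩
    obtain ⟨a, ha, b, hb, rfl⟩ := hs x hx
    exact ⟨(⟨a, ha⟩, ⟨b, hb⟩), rfl⟩
  exact ⟨(MulEquiv.ofBijective f ⟨hinj, hsurj⟩).symm⟩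

/-- transport of a finite group to the lowest universe -/
theorem to_type {X : Type*} [Group X] [Finite X] : ∃ (E : Type) (_ : Group E) (_ : Finite E), Nonempty (X ≃* E) := by
  haveI : Small.{0} X := inferInstance
  exact ⟨Shrink.{0} X, inferInstance, Finite.of_equiv X (equivShrink.{0} X),
    ⟨{ toEquiv := equivShrink.{0} X, map_mul' := equivShrink_mul }⟩⟩

theorem isExtraspecial_congr {X Y : Type*} [Group X] [Group Y] {p : ℕ} (e : X ≃* Y) (h : IsExtraspecial p X) :
    IsExtraspecial p Y := by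
  obtain ⟨⟨h1, h2, h3⟩, h4⟩ := h
  have hc : (Subgroup.center X).map (e : X →* Y) = Subgroup.center Y := center_map e
  have hf : (frattini X).map (e : X →* Y) = frattini Y := OrderIso.map_radical e.mapSubgroup
  have hcm : (commutator X).map (e : X →* Y) = commutator Y := by
    rw [commutator_def, Subgroup.map_commutator, commutator_def]
    have : (⊤ : Subgroup X).map (e : X →* Y) = ⊤ := by
      rw [← MonoidHom.range_eq_map]
      exact MonoidHom.range_eq_top.2 e.surjective
    rw [this]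
  refine ⟨⟨h1.of_equiv e, by rw [← hf, h2, hc], by rw [← hcm, h3, hc]⟩, ?_⟩
  rw [← hc, ← h4]
  exact (Nat.card_congr ((Subgroup.center X).equivMapOfInjective _ e.injective).toEquiv).symm

variable {G : Type*} [Group G] {D : Set G}

namespace Ctx

variable {d₁ d₂ : G} {F : Type} [Field F] [Fintype F] [CharP F 2] {hF : Fintype.card F = 2 ^ 2}
  {π : SS (hermForm 6 F 2) →* QQ D d₁} (C : Ctx D d₁ d₂ F hF π)
include C

theorem d2_ne : d₂ ≠ 1 := by
  intro h
  have := C.tg.1.1 d₂ C.h₂.1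
  rw [h, orderOf_one] at this
  exact absurd this (by norm_num)

theorem exists_E1 [Finite G] : ∃ E1 : Subgroup G, E1 ≤ C.EE ∧ d₁ * d₂ ∈ E1 ∧ d₁ ∉ E1 ∧ ∀ x ∈ C.EE, x ∈ E1 ∨ d₁ * x ∈ E1 := by
  have hJ1 : d₁ ∉ Subgroup.zpowers (d₁ * d₂) := by
    intro h
    rcases C.mem_J.1 h with h | h
    · exact C.d1_ne h
    · have : d₁ * 1 = d₁ * d₂ := by rw [mul_one]; exact h
      exact C.d2_ne (mul_left_cancel this).symm
  have hJE : Subgroup.zpowers (d₁ * d₂) ≤ C.EE := by
    rw [Subgroup.zpowers_le]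
    exact mul_mem C.d1_EE C.d2_EE
  have hfin : {M : Subgroup G | Subgroup.zpowers (d₁ * d₂) ≤ M ∧ M ≤ C.EE ∧ d₁ ∉ M}.Finite := Set.toFinite _
  obtain ⟨M, hM⟩ := hfin.exists_maximal ⟨_, le_rfl, hJE, hJ1⟩
  obtain ⟨⟨hM1, hM2, hM3⟩, hmax⟩ := hM
  refine ⟨M, hM2, hM1 (Subgroup.mem_zpowers _), hM3, ?_⟩
  intro x hx
  by_contra hcon
  push Not at hcon
  obtain ⟨hx1, hx2⟩ := hcon
  -- the subgroup `M ∪ x M`
  have hnorm : ∀ m ∈ M, ∀ y ∈ C.EE, y * m * y⁻¹ ∈ M := by
    intro m hm y hy
    have h1 := C.EE_comm_J hy (hM2 hm)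
    have e : y * m * y⁻¹ = (y * m * y⁻¹ * m⁻¹) * m := by group
    rw [e]
    exact mul_mem (hM1 h1) hm
  have hxx : x * x ∈ M := hM1 (C.EE_sq_J hx)
  have hxinv : ∀ y, x⁻¹ * y ∈ M ↔ x * y ∈ M := by
    intro y
    constructor
    · intro h
      have e : x * y = (x * x) * (x⁻¹ * y) := by group
      rw [e]; exact mul_mem hxx h
    · intro h
      have e : x⁻¹ * y = (x * x)⁻¹ * (x * y) := by group
      rw [e]; exact mul_mem (inv_mem hxx) h
  let N : Subgroup G :=
    { carrier := {y | y ∈ M ∨ x * y ∈ M}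
      mul_mem' := by
        rintro a b (ha | ha) (hb | hb)
        · exact Or.inl (mul_mem ha hb)
        · right
          have e : x * (a * b) = (x * a * x⁻¹) * (x * b) := by group
          rw [e]
          exact mul_mem (hnorm a ha x hx) hb
        · right
          rw [← mul_assoc]
          exact mul_mem ha hb
        · left
          have hbE : b ∈ C.EE := by
            have e : b = x⁻¹ * (x * b) := by group
            rw [e]
            exact mul_mem (inv_mem hx) (hM2 hb)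
          have e : a * b = (x⁻¹ * (x * a) * x⁻¹⁻¹) * (x⁻¹ * b) := by group
          rw [e]
          exact mul_mem (hnorm _ ha _ (inv_mem hx)) ((hxinv b).2 hb)
      one_mem' := Or.inl (one_mem _)
      inv_mem' := by
        rintro a (ha | ha)
        · exact Or.inl (inv_mem ha)
        · right
          have e : x * a⁻¹ = x * (x * a)⁻¹ * x⁻¹ * (x * x) := by group
          rw [e]
          exact mul_mem (hnorm _ (inv_mem ha) _ hx) hxx }
  have hNmem : ∀ y, y ∈ N ↔ y ∈ M ∨ x * y ∈ M := fun y => Iff.rfl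
  have hMN : M ≤ N := fun y hy => Or.inl hy
  have hxN : x ∈ N := Or.inr hxx
  have hNE : N ≤ C.EE := by
    rintro y (hy | hy)
    · exact hM2 hy
    · have e : y = x⁻¹ * (x * y) := by group
      rw [e]
      exact mul_mem (inv_mem hx) (hM2 hy)
  by_cases hd : d₁ ∈ N
  · rcases (hNmem _).1 hd with h | h
    · exact hM3 h
    · -- `x d₁ ∈ M`
      apply hx2
      have h1 : Commute x d₁ := (mem_KK.1 (C.EE_le hx)).1
      rw [← h1.eq]
      exact h
  · have := hmax ⟨hM1.trans hMN, hNE, hd⟩ hMN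
    exact hx1 (this hxN)

theorem E_structure [Finite G] (hK : Nat.card (KK d₁ d₂) = 26542080) :
    ∃ (E : Type) (_ : Group E) (_ : Finite E), Cfsg.IsExtraspecial 2 E ∧ Nat.card E = 2 ^ 9 ∧
      Nonempty (C.EE ≃* Multiplicative (ZMod 2) × E) := by
  obtain ⟨E1, hE1, hj, hd, hcov⟩ := C.exists_E1
  have hdE : ∀ x ∈ C.EE, Commute x d₁ := fun x hx => (mem_KK.1 (C.EE_le hx)).1
  have hz : ∀ {x : G}, x ∈ Subgroup.zpowers d₁ ↔ x = 1 ∨ x = d₁ := by
    intro x
    constructor
    · rintro ⟨n, rfl⟩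
      show d₁ ^ n = 1 ∨ d₁ ^ n = d₁
      rcases Int.even_or_odd' n with ⟨m, rfl | rfl⟩
      · left
        rw [zpow_mul, zpow_ofNat, sq, C.d1_sq, one_zpow]
      · right
        rw [zpow_add, zpow_mul, zpow_ofNat, sq, C.d1_sq, one_zpow, one_mul, zpow_one]
    · rintro (rfl | rfl)
      · exact one_mem _
      · exact Subgroup.mem_zpowers _
  obtain ⟨e1⟩ := prod_iso (Subgroup.zpowers d₁) E1 C.EE (by rw [Subgroup.zpowers_le]; exact C.d1_EE) hE1
    (by
      intro a ha b hb
      rcases hz.1 ha with rfl | rfl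
      · rw [one_mul, mul_one]
      · exact (hdE b (hE1 hb)).eq.symm)
    (by
      intro x hx hx1
      rcases hz.1 hx with rfl | rfl
      · rfl
      · exact absurd hx1 hd)
    (by
      intro x hx
      rcases hcov x hx with h | h
      · exact ⟨1, one_mem _, x, h, (one_mul x).symm⟩
      · exact ⟨d₁, Subgroup.mem_zpowers _, d₁ * x, h, by rw [← mul_assoc, C.d1_sq, one_mul]⟩)
  have hc2 : Nat.card (Subgroup.zpowers d₁) = 2 := by
    rw [Nat.card_zpowers]
    exact C.tg.1.1 d₁ C.h₁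
  have hcard : Nat.card E1 = 2 ^ 9 := by
    have h1 := Nat.card_congr e1.toEquiv
    rw [Nat.card_prod, hc2, C.card_EE hK] at h1
    omega
  have hjne : d₁ * d₂ ≠ 1 := by
    intro h
    have h1 : d₁ = d₂⁻¹ := eq_inv_of_mul_eq_one_left h
    rw [inv_self C.tg.1 C.h₂.1] at h1
    exact C.h₂.2.1 h1.symm
  have hcenE : ∀ q ∈ E1, (∀ x ∈ E1, q * x = x * q) → q = 1 ∨ q = d₁ * d₂ := by
    intro q hq hc
    have h1 : q ∈ Subgroup.closure ({d₁, d₂} : Set G) := by
      apply C.EE_center (hE1 hq)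
      intro e he
      rcases hcov e he with h | h
      · exact hc e h
      · have h2 := hc _ h
        have h3 : e = d₁ * (d₁ * e) := by rw [← mul_assoc, C.d1_sq, one_mul]
        have h4 := (hdE q (hE1 hq)).eq
        calc q * e = q * (d₁ * (d₁ * e)) := by rw [← h3]
          _ = (q * d₁) * (d₁ * e) := by group
          _ = d₁ * (q * (d₁ * e)) := by rw [h4]; group
          _ = d₁ * (d₁ * e) * q := by rw [h2]; group
          _ = e * q := by rw [← h3]
    rcases C.mem_V.1 h1 with h | h | h | h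
    · exact Or.inl h
    · exact absurd (h ▸ hq) hd
    · exfalso
      apply hd
      have h2 : d₁ = (d₁ * d₂) * d₂ := by rw [mul_assoc, C.d2_sq, mul_one]
      rw [h2]
      rw [h] at hq
      exact mul_mem hj hq
    · exact Or.inr h
  have hX : ExData E1 (d₁ * d₂) := by
    apply ExData.of
    · have hc : d₂ * d₁ = d₁ * d₂ := C.h₂.2.2.symm.eq
      calc (d₁ * d₂) * (d₁ * d₂) = d₁ * (d₂ * d₁) * d₂ := by group
        _ = (d₁ * d₁) * (d₂ * d₂) := by rw [hc]; group
        _ = 1 := by rw [C.d1_sq, C.d2_sq, one_mul]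
    · exact hjne
    · exact hj
    · intro q hq
      exact (C.J_central (Subgroup.mem_zpowers _) (C.EE_le (hE1 hq))).eq
    · intro a ha b hb
      have h1 := C.EE_comm_J (hE1 ha) (hE1 hb)
      rcases C.mem_J.1 h1 with h | h
      · left
        have : a * b * a⁻¹ * b⁻¹ * (b * a) = a * b := by group
        rw [← this, h, one_mul]
      · right
        have : a * b * a⁻¹ * b⁻¹ * (b * a) = a * b := by group
        rw [← this, h]
    · exact hcenE
    · by_contra hcon
      push Not at hcon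
      have h1 : ∀ q ∈ E1, q = 1 ∨ q = d₁ * d₂ := fun q hq => hcenE q hq fun x hx => hcon q hq x hx
      have h2 : E1 ≤ Subgroup.zpowers (d₁ * d₂) := fun q hq => C.mem_J.2 (h1 q hq)
      have h3 : Nat.card E1 ≤ Nat.card (Subgroup.zpowers (d₁ * d₂)) := Subgroup.card_le_of_le h2
      have h4 : Nat.card (Subgroup.zpowers (d₁ * d₂)) ≤ 2 := by
        rw [Nat.card_zpowers]
        apply Nat.le_of_dvd (by norm_num)
        rw [orderOf_dvd_iff_pow_eq_one, sq]
        have hc : d₂ * d₁ = d₁ * d₂ := C.h₂.2.2.symm.eq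
        calc (d₁ * d₂) * (d₁ * d₂) = d₁ * (d₂ * d₁) * d₂ := by group
          _ = (d₁ * d₁) * (d₂ * d₂) := by rw [hc]; group
          _ = 1 := by rw [C.d1_sq, C.d2_sq, one_mul]
      rw [hcard] at h3
      omega
  have hex : IsExtraspecial 2 E1 := isExtraspecial_of_exData hX
  obtain ⟨E, iE, iEf, ⟨e2⟩⟩ := to_type (X := E1)
  refine ⟨E, iE, iEf, isExtraspecial_congr e2 hex, by rw [← hcard]; exact (Nat.card_congr e2.toEquiv).symm, ?_⟩
  have e3 : Subgroup.zpowers d₁ ≃* Multiplicative (ZMod 2) := by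
    haveI : Fact (Nat.Prime 2) := ⟨Nat.prime_two⟩
    exact mulEquivOfPrimeCardEq (p := 2) hc2 (by rw [Nat.card_congr Multiplicative.toAdd, Nat.card_zmod])
  exact ⟨e1.trans (e3.prodCongr e2)⟩

end Ctx

end Cfsg.Agent.Lib.H89MV
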