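import Cfsg.Agent.Lib.H89MV7
import Cfsg.Agent.Lib.H89MO
import Cfsg.Agent.Lib.FusionNormal
/-
Groups of type M(22): the generalized Fitting subgroup of the centralizer of the product of two commuting
transpositions (helper89).
-/
set_option autoImplicit false
set_option linter.all false

namespace Cfsg.Agent.Lib.H89MV

open Cfsg Cfsg.Agent.Lib.ThreeRank3 Cfsg.Agent.Lib.ThreeDescent Cfsg.Agent.Lib.ThreeQuot Cfsg.Agent.Lib.FiPar
  Cfsg.Agent.Lib.ThreeSimple Cfsg.Agent.Lib.ThreeTypes Cfsg.Agent.Lib.FiComp Cfsg.Agent.Lib.FiMu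
open Cfsg.Agent.Lib.UnTrans Cfsg.Agent.Lib.UnBridge Cfsg.Agent.Lib.H89MU
open Cfsg.Agent.Lib.U6Class (SS P tr)
open scoped Matrix

variable {G : Type*} [Group G] {D : Set G}

namespace Ctx

variable {d₁ d₂ : G} {F : Type} [Field F] [Fintype F] [CharP F 2] {hF : Fintype.card F = 2 ^ 2}
  {π : SS (hermForm 6 F 2) →* QQ D d₁} (C : Ctx D d₁ d₂ F hF π)
include C

theorem normal_le [Finite G] {N : Subgroup (CJ d₁ d₂)} (hN : N.Normal) (h2 : IsPGroup 2 N) :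
    N ≤ C.EE.subgroupOf (CJ d₁ d₂) := by
  haveI := C.NN_normal
  have h1 : ∀ n ∈ N, (n : G) ∈ KK d₁ d₂ → (n : G) ∈ C.EE := by
    let X : Subgroup (PSU 4 F 2) := (N.subgroupOf C.NN).map C.ThN
    have hX : X.Normal := (hN.subgroupOf _).map _ C.ThN_surjective
    have h3 : IsPGroup 2 X := (h2.comap_subtype).map _
    have h4 := C.not_two_group hX h3
    intro n hn hnK
    have h5 : C.ThN ⟨n, hnK⟩ ∈ X := ⟨⟨n, hnK⟩, hn, rfl⟩
    rw [h4, Subgroup.mem_bot] at h5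
    exact C.ThN_ker.1 h5
  intro n hn
  rw [Subgroup.mem_subgroupOf]
  rcases C.CJ_cases n.2 with h | h
  · exact h1 n hn h
  · exfalso
    apply C.faithful h.1 h.2
    intro k hk
    let k' : CJ d₁ d₂ := ⟨k, KK_le_CJ d₁ d₂ hk⟩
    have h3 : n * k' * n⁻¹ * k'⁻¹ ∈ N := by
      have e : n * k' * n⁻¹ * k'⁻¹ = n * (k' * n⁻¹ * k'⁻¹) := by group
      rw [e]
      exact mul_mem hn (hN.conj_mem _ (inv_mem hn) _)
    have h4 : n * k' * n⁻¹ * k'⁻¹ ∈ C.NN := by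
      have h5 : n * k' * n⁻¹ ∈ C.NN := C.NN_normal.conj_mem k' hk n
      exact mul_mem h5 (inv_mem (show k' ∈ C.NN from hk))
    exact h1 _ h3 h4

theorem genFitting [Finite G] (hK : Nat.card (KK d₁ d₂) = 26542080) :
    generalizedFittingSubgroup (CJ d₁ d₂) = C.EE.subgroupOf (CJ d₁ d₂) := by
  haveI : Fact (Nat.Prime 2) := ⟨Nat.prime_two⟩
  obtain ⟨hn, _⟩ := C.quot_iso hK
  have hp : IsPGroup 2 (C.EE.subgroupOf (CJ d₁ d₂)) := (C.EE_isPGroup hK).comap_subtype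
  have hcore : pCore 2 (CJ d₁ d₂) = C.EE.subgroupOf (CJ d₁ d₂) := by
    apply le_antisymm
    · exact C.normal_le (FusionNormal.pCore_normal (p := 2)) (Cores.isPGroup_pCore 2 _)
    · exact AmalgamCharP.le_pCore hn hp
  rw [← hcore, CharPLocal.genFitting_eq_pCore_iff, hcore]
  intro c hc
  rw [Subgroup.mem_centralizer_iff] at hc
  rw [Subgroup.mem_subgroupOf]
  have h1 : ∀ e ∈ C.EE, (c : G) * e = e * c := by
    intro e he
    have := hc ⟨e, KK_le_CJ d₁ d₂ (C.EE_le he)⟩ he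
    exact (congrArg Subtype.val this).symm
  have hcK : (c : G) ∈ KK d₁ d₂ := mem_KK.2 ⟨h1 _ C.d1_EE, h1 _ C.d2_EE⟩
  exact C.V_le (C.cent_EE hcK h1)

end Ctx

theorem main22 [Finite G] (hP : PSU62Simple) (hD : IsThreeTranspositionGroup D) (hprim : IsPrimitiveUnderConj D)
    (h : IsOfTypeM22 G D) {d₁ d₂ : G} (h₁ : d₁ ∈ D) (h₂ : d₂ ∈ Dd D d₁)
    [hn : (generalizedFittingSubgroup (CJ d₁ d₂)).Normal] :
    (∃ (E : Type) (_ : Group E) (_ : Finite E), Cfsg.IsExtraspecial 2 E ∧ Nat.card E = 2 ^ 9 ∧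
      Nonempty (↥(Cfsg.generalizedFittingSubgroup (CJ d₁ d₂)) ≃* Multiplicative (ZMod 2) × E)) ∧
    Nonempty (CJ d₁ d₂ ⧸ Cfsg.generalizedFittingSubgroup (CJ d₁ d₂) ≃*
      Cfsg.isometryGroup (ZMod 2) (Cfsg.quadFormMinus 2 (ZMod 2) 1 1)) := by
  obtain ⟨F, iF, iFt, iCh, hF, π, C⟩ := exists_ctx hP hD hprim h h₁ h₂
  have hK := card_KK hP hD hprim h h₁ h₂
  have hg := C.genFitting hK
  constructor
  · obtain ⟨E, iE, iEf, he1, he2, ⟨he3⟩⟩ := C.E_structure hK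
    refine ⟨E, iE, iEf, he1, he2, ⟨?_⟩⟩
    rw [hg]
    exact (Subgroup.subgroupOfEquivOfLe (C.EE_le.trans (KK_le_CJ d₁ d₂))).trans he3
  · obtain ⟨hn2, ⟨e1⟩⟩ := C.quot_iso hK
    obtain ⟨e2⟩ := H89MO.iso_aut hF
    exact ⟨(QuotientGroup.quotientMulEquivOfEq hg).trans (e1.trans e2.symm)⟩

end Cfsg.Agent.Lib.H89MV
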