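import Cfsg.Agent.Lib.H89Act

/-!
# Explicit matrices in the centralizer of a coordinate permutation in `Co0` (helper89)
-/

set_option autoImplicit false
set_option linter.all false

namespace Cfsg.Agent.Lib.H89MatAct

open Cfsg Cfsg.Agent.Lib.Golay Cfsg.Agent.Lib.LeechMin Cfsg.Agent.Lib.H89LeechMat Cfsg.Agent.Lib.H89Mon1
  Cfsg.Agent.Lib.LeechQuot Cfsg.Agent.Lib.LeechOrder Cfsg.Agent.Lib.H89Mono Cfsg.Agent.Lib.H89FixRank
  Cfsg.Agent.Lib.H89FixTab Cfsg.Agent.Lib.LeechFrame Cfsg.Agent.Lib.H89Q2 Cfsg.Agent.Lib.H89Stab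
  Cfsg.Agent.Lib.LeechTrans Cfsg.Agent.Lib.LeechCo2 Cfsg.Agent.Lib.H89CN Cfsg.Agent.Lib.H89Act
open scoped Pointwise

def comOK (c : ℕ) (R : List ℕ) : Bool := allLt 24 fun i => allLt 24 fun j =>
  decide (dv (R.getD (img c i) 0) (img c j) = dv (R.getD i 0) j)

theorem mat_comm {c : ℕ} (hM : inM c = true) {R : List ℕ} (h : comOK c R = true) {g : Co0}
    (hg : ∀ v : leechLattice, (mt R).mulVec (v : GolayPt → ℤ) = 8 • ((g • v : leechLattice) : GolayPt → ℤ)) :
    g * pC c hM = pC c hM * g := by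
  apply ext_smul
  intro v
  apply Subtype.ext
  apply eight_cancel
  funext q
  obtain ⟨p, rfl⟩ := (toPerm c).surjective q
  rw [mul_smul, mul_smul]
  have h3 : ((pC c hM • (g • v) : leechLattice) : GolayPt → ℤ) (toPerm c p) = ((g • v : leechLattice) : GolayPt → ℤ) p :=
    pC_smul hM _ p
  show 8 • ((g • (pC c hM • v) : leechLattice) : GolayPt → ℤ) (toPerm c p) = 8 • ((pC c hM • (g • v) : leechLattice) : GolayPt → ℤ) (toPerm c p)
  rw [h3]
  have h4 := congrFun (hg (pC c hM • v)) (toPerm c p)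
  have h5 := congrFun (hg v) p
  have h6 : 8 • ((g • (pC c hM • v) : leechLattice) : GolayPt → ℤ) (toPerm c p) =
      (mt R).mulVec ((pC c hM • v : leechLattice) : GolayPt → ℤ) (toPerm c p) := h4.symm
  have h7 : 8 • ((g • v : leechLattice) : GolayPt → ℤ) p = (mt R).mulVec (v : GolayPt → ℤ) p := h5.symm
  rw [h6, h7]
  show ∑ q, mt R (toPerm c p) q * ((pC c hM • v : leechLattice) : GolayPt → ℤ) q = ∑ q, mt R p q * (v : GolayPt → ℤ) q
  rw [← Equiv.sum_comp (toPerm c)]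
  apply Finset.sum_congr rfl
  intro q _
  rw [pC_smul hM v q]
  congr 1
  show dv (R.getD (ix (toPerm c p)) 0) (ix (toPerm c q)) = dv (R.getD (ix p) 0) (ix q)
  rw [ix_toPerm (valid_of_inM hM), ix_toPerm (valid_of_inM hM)]
  exact of_decide_eq_true (allLt_iff.mp (allLt_iff.mp h (ix p) (ix_lt p)) (ix q) (ix_lt q))

/-- eight times the inner product of the image of a coded vector with a coded vector -/
def hdot (R : List ℕ) (a w : ℕ) : ℤ := zs 24 fun i => Int.mul (zs 24 fun j => Int.mul (dv (R.getD i 0) j) (dv a j)) (dv w i)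

theorem hdot_spec {R : List ℕ} {g : Co0}
    (hg : ∀ v : leechLattice, (mt R).mulVec (v : GolayPt → ℤ) = 8 • ((g • v : leechLattice) : GolayPt → ℤ))
    {a w : ℕ} (ha : latC a = true) (hw : latC w = true) : hdot R a w = 8 * dt (g • lw a) (lw w) := by
  have h1 := hg (lw a)
  rw [dt_apply, coe_lw hw]
  have h2 : (8 : ℤ) * dotInt ((g • lw a : leechLattice) : GolayPt → ℤ) (vv w) = dotInt (8 • ((g • lw a : leechLattice) : GolayPt → ℤ)) (vv w) := by
    unfold dotInt
    rw [Finset.mul_sum]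
    apply Finset.sum_congr rfl
    intro p _
    simp only [Pi.smul_apply, nsmul_eq_mul]
    push_cast
    ring
  rw [h2, ← h1, coe_lw ha]
  unfold hdot dotInt
  rw [zs_eq, ← sum_ix]
  apply Finset.sum_congr rfl
  intro p _
  have h3 : (mt R).mulVec (vv a) p = zs 24 fun j => Int.mul (dv (R.getD (ix p) 0) j) (dv a j) := by
    rw [zs_eq, ← sum_ix]
    rfl
  rw [h3]
  rfl

def mactOK (r : ℕ) (R U W A : List ℕ) : Bool := allLt r fun j => cond (Nat.blt (A.getD j 0) (2 ^ r))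
  (allLt r fun i => decide (Int.emod (Int.ediv (hdot R (U.getD j 0) (W.getD i 0)) 64) 2 =
    cond (Nat.testBit (A.getD j 0) i) 1 0)) false

section
variable {c r n : ℕ} {ob st U S W : List ℕ} (hM : inM c = true) (ho : orbOK c r n ob st = true)
  (ht : tabOK c r U S = true) (hd : dualOK r U W = true)
include hM ho ht hd

theorem mact_spec {R A : List ℕ} (h : mactOK r R U W A = true) {g : Co0}
    (hg : ∀ v : leechLattice, (mt R).mulVec (v : GolayPt → ℤ) = 8 • ((g • v : leechLattice) : GolayPt → ℤ))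
    (hc : g * pC c hM = pC c hM * g) {j : ℕ} (hj : j < r) :
    g • XX U r (2 ^ j) = XX U r (A.getD j 0) ∧ A.getD j 0 < 2 ^ r := by
  obtain ⟨h1, h2⟩ := cond_false_eq.mp (allLt_iff.mp h j hj)
  rw [Nat.blt_eq] at h1
  have hx : g • XX U r (2 ^ j) ∈ FixS (pC c hM) := smul_mem_FixS hc (cmb_mem_FixS hM ht _)
  refine ⟨eq_XX hM ho ht hd hx h1 fun i hi => ?_, h1⟩
  have h3 := of_decide_eq_true (allLt_iff.mp h2 i hi)
  have h4 := hdot_spec hg (tab_U ht hj) (cond_false_eq.mp (allLt_iff.mp hd i hi)).1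
  have h5 : Int.emod (Int.ediv (hdot R (U.getD j 0) (W.getD i 0)) 64) 2 = (hdot R (U.getD j 0) (W.getD i 0)) / 64 % 2 := rfl
  rw [h5, h4, show (64 : ℤ) = 8 * 8 from rfl, Int.mul_ediv_mul_of_pos _ _ (by norm_num)] at h3
  rw [XX_two U hj, smul_q2, fB_q2]
  exact zmod_of_emod h3

end

end Cfsg.Agent.Lib.H89MatAct
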