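import Cfsg.Agent.Lib.H89Monster
import Cfsg.Agent.Lib.H89Mono
import Cfsg.Agent.Lib.H89LeechShort
import Cfsg.Agent.Lib.LargeExtra5
import Cfsg.Agent.Lib.LargeExtra7

/-!
# Groups of Monster type (helper89), basic dictionary between `C_G(z)` and the Leech lattice modulo 2
-/

set_option autoImplicit false
set_option linter.all false

namespace Cfsg.Agent.Lib.H89Mon1

open Cfsg Cfsg.Agent.Lib.LargeExtra Cfsg.Agent.Lib.LeechTrans Cfsg.Agent.Lib.LeechCo2 Cfsg.Agent.Lib.LeechFrame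
  Cfsg.Agent.Lib.LeechOrder Cfsg.Agent.Lib.LeechQuot
open scoped Pointwise

variable {G : Type*} [Group G] {z : G} {Q : Subgroup (Subgroup.centralizer ({z} : Set G))} [Q.Normal]
  {e : (Subgroup.centralizer ({z} : Set G)) ⧸ Q ≃* Spor.Co1} {ψ : leechLattice → Q ⧸ Subgroup.center Q}

/-- the subgroup of `G` -/
abbrev QG (Q : Subgroup (Subgroup.centralizer ({z} : Set G))) : Subgroup G :=
  Q.map (Subgroup.centralizer ({z} : Set G)).subtype

/-- `s ∈ Q` has class `v` -/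
def Cl (ψ : leechLattice → Q ⧸ Subgroup.center Q) (s : G) (v : leechLattice) : Prop :=
  ∃ q : Q, ((q : Subgroup.centralizer ({z} : Set G)) : G) = s ∧ ψ v = QuotientGroup.mk q

/-- `h ∈ C` acts as `g` -/
def Rl (e : (Subgroup.centralizer ({z} : Set G)) ⧸ Q ≃* Spor.Co1) (h : G) (g : Co0) : Prop :=
  ∃ c : Subgroup.centralizer ({z} : Set G), (c : G) = h ∧ (QuotientGroup.mk g : Spor.Co1) = e (QuotientGroup.mk c)

theorem Cl.mem {s : G} {v : leechLattice} (h : Cl ψ s v) : s ∈ QG Q := by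
  obtain ⟨q, rfl, -⟩ := h
  exact ⟨q, q.2, rfl⟩

theorem Rl.mem {h : G} {g : Co0} (H : Rl e h g) : h ∈ Subgroup.centralizer ({z} : Set G) := by
  obtain ⟨c, rfl, -⟩ := H
  exact c.2

theorem Rl.one : Rl e 1 1 := ⟨1, rfl, by rw [QuotientGroup.mk_one, QuotientGroup.mk_one, map_one]⟩

theorem Rl.mul {h h' : G} {g g' : Co0} (H : Rl e h g) (H' : Rl e h' g') : Rl e (h * h') (g * g') := by
  obtain ⟨c, rfl, h1⟩ := H
  obtain ⟨c', rfl, h2⟩ := H'
  refine ⟨c * c', rfl, ?_⟩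
  rw [QuotientGroup.mk_mul, h1, h2, QuotientGroup.mk_mul, map_mul]

theorem Rl.inv {h : G} {g : Co0} (H : Rl e h g) : Rl e h⁻¹ g⁻¹ := by
  obtain ⟨c, rfl, h1⟩ := H
  refine ⟨c⁻¹, rfl, ?_⟩
  rw [QuotientGroup.mk_inv, h1, QuotientGroup.mk_inv, map_inv]

theorem Rl.pow {h : G} {g : Co0} (H : Rl e h g) (n : ℕ) : Rl e (h ^ n) (g ^ n) := by
  induction n with
  | zero => rw [pow_zero, pow_zero]; exact Rl.one
  | succ n ih => rw [pow_succ, pow_succ]; exact ih.mul H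

theorem exists_g (e : (Subgroup.centralizer ({z} : Set G)) ⧸ Q ≃* Spor.Co1) {h : G}
    (hh : h ∈ Subgroup.centralizer ({z} : Set G)) : ∃ g : Co0, Rl e h g := by
  obtain ⟨g, hg⟩ := QuotientGroup.mk_surjective (e (QuotientGroup.mk ⟨h, hh⟩))
  exact ⟨g, ⟨h, hh⟩, rfl, hg⟩

theorem exists_h (e : (Subgroup.centralizer ({z} : Set G)) ⧸ Q ≃* Spor.Co1) (g : Co0) : ∃ h : G, Rl e h g := by
  obtain ⟨c, hc⟩ := QuotientGroup.mk_surjective (e.symm (QuotientGroup.mk g))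
  exact ⟨c, c, rfl, by rw [hc, e.apply_symm_apply]⟩

theorem Rl.negOne {h : G} {g : Co0} (H : Rl e h g) : Rl e h (negOne * g) := by
  obtain ⟨c, rfl, h1⟩ := H
  refine ⟨c, rfl, ?_⟩
  rw [← h1, QuotientGroup.mk_mul, (QuotientGroup.eq_one_iff _).2 negOne_mem_center, one_mul]

theorem Rl.eq {h : G} {g g' : Co0} (H : Rl e h g) (H' : Rl e h g') : g' = g ∨ g' = LeechQuot.negOne * g := by
  obtain ⟨c, rfl, h1⟩ := H
  obtain ⟨c', h0, h2⟩ := H'
  have hcc : c' = c := Subtype.ext h0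
  rw [hcc, ← h1] at h2
  have h3 := QuotientGroup.eq.1 h2
  have h4 : g' = g * (g'⁻¹ * g)⁻¹ := by group
  rcases center_eq h3 with h5 | h5
  · left; rw [h4, h5, inv_one, mul_one]
  · right
    rw [h5] at h4
    have h6 : (LeechQuot.negOne)⁻¹ = LeechQuot.negOne := by
      rw [inv_eq_iff_mul_eq_one]
      apply ext_smul; intro v; rw [mul_smul, negOne_smul, negOne_smul, neg_neg, one_smul]
    rw [h4, h6]
    exact Subgroup.mem_center_iff.1 negOne_mem_center g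

theorem Rl.mem_Q {h h' : G} {g : Co0} (H : Rl e h g) (H' : Rl e h' g) : h⁻¹ * h' ∈ QG Q := by
  obtain ⟨c, rfl, h1⟩ := H
  obtain ⟨c', rfl, h2⟩ := H'
  rw [h1] at h2
  have h3 := QuotientGroup.eq.1 (e.injective h2)
  exact ⟨_, h3, rfl⟩

theorem Rl.of_mem_Q {h q : G} {g : Co0} (H : Rl e h g) (hq : q ∈ QG Q) : Rl e (h * q) g := by
  obtain ⟨c, rfl, h1⟩ := H
  obtain ⟨q, hq, rfl⟩ := hq
  refine ⟨c * q, rfl, ?_⟩
  rw [h1, QuotientGroup.mk_mul, (QuotientGroup.eq_one_iff _).2 hq, mul_one]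

theorem Rl.one_iff {h : G} : Rl e h 1 ↔ h ∈ QG Q := by
  constructor
  · intro H
    have := Rl.mem_Q (Rl.one (e := e)) H
    rwa [inv_one, one_mul] at this
  · intro H
    have := Rl.of_mem_Q (Rl.one (e := e)) H
    rwa [one_mul] at this

/-- the data -/
structure Mon (z : G) (Q : Subgroup (Subgroup.centralizer ({z} : Set G))) [Q.Normal]
    (e : (Subgroup.centralizer ({z} : Set G)) ⧸ Q ≃* Spor.Co1) (ψ : leechLattice → Q ⧸ Subgroup.center Q) : Prop where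
  hz : orderOf z = 2
  hF : generalizedFittingSubgroup (Subgroup.centralizer ({z} : Set G)) = Q
  hQ : IsExtraspecial 2 Q
  hcard : Nat.card Q = 2 ^ 25
  hψ : IsLeechModTwoIso Q e ψ

section
variable [Finite G] (M : Mon z Q e ψ)
include M

theorem Mon.pre : PreLarge (QG Q) z := preLarge_of_setting' M.hz M.hF M.hQ

omit [Finite G] in
theorem Mon.cl_mul {s t : G} {v w : leechLattice} (hs : Cl ψ s v) (ht : Cl ψ t w) : Cl ψ (s * t) (v + w) := by
  obtain ⟨q, rfl, h1⟩ := hs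
  obtain ⟨r, rfl, h2⟩ := ht
  exact ⟨q * r, rfl, by rw [M.hψ.1, h1, h2]; rfl⟩

omit [Finite G] in
theorem Mon.cl_conj {s h : G} {v : leechLattice} {g : Co0} (hs : Cl ψ s v) (hg : Rl e h g) :
    Cl ψ (h * s * h⁻¹) (g • v) := by
  obtain ⟨q, rfl, h1⟩ := hs
  obtain ⟨c, rfl, h2⟩ := hg
  exact ⟨_, rfl, M.hψ.2.2.2 c g h2 v q h1⟩

omit [Finite G] in
theorem Mon.exists_cl {s : G} (hs : s ∈ QG Q) : ∃ v, Cl ψ s v := by
  obtain ⟨q, hq, rfl⟩ := hs
  obtain ⟨v, hv⟩ := M.hψ.2.1 (QuotientGroup.mk ⟨q, hq⟩)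
  exact ⟨v, ⟨q, hq⟩, rfl, hv⟩

omit [Finite G] in
theorem Mon.exists_el (v : leechLattice) : ∃ s, Cl ψ s v := by
  obtain ⟨q, hq⟩ := QuotientGroup.mk_surjective (ψ v)
  exact ⟨_, q, rfl, hq.symm⟩

omit [Finite G] in
theorem Mon.psi_congr {v w : leechLattice} : ψ v = ψ w ↔ dbl v w := by
  obtain ⟨h1, h2, h3, h4⟩ := M.hψ
  have h5 : ∀ v w, ψ (v - w) = ψ v * (ψ w)⁻¹ := by
    intro v w
    have h6 := h1 (v - w) w
    rw [sub_add_cancel] at h6
    rw [h6, mul_inv_cancel_right]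
  unfold dbl
  rw [← h3, h5, mul_inv_eq_one]

omit [Finite G] in
theorem Mon.cl_congr {s : G} {v w : leechLattice} (hs : Cl ψ s v) (h : dbl v w) : Cl ψ s w := by
  obtain ⟨q, rfl, h1⟩ := hs
  exact ⟨q, rfl, by rw [← M.psi_congr.2 h, h1]⟩

omit [Finite G] in
theorem Mon.cl_unique {s : G} {v w : leechLattice} (hs : Cl ψ s v) (hs' : Cl ψ s w) : dbl v w := by
  obtain ⟨q, rfl, h1⟩ := hs
  obtain ⟨r, h0, h2⟩ := hs'
  have : r = q := Subtype.ext (Subtype.ext h0)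
  rw [this] at h2
  exact M.psi_congr.1 (h1.trans h2.symm)

/-- the centre of `Q` -/
theorem Mon.mem_center {q : Q} : q ∈ Subgroup.center Q ↔ ((q : Subgroup.centralizer ({z} : Set G)) : G) = 1 ∨
    ((q : Subgroup.centralizer ({z} : Set G)) : G) = z := by
  have hP := M.pre
  constructor
  · intro hq
    apply hP.center _ ⟨_, q.2, rfl⟩
    rintro _ ⟨x, hx, rfl⟩
    exact congrArg (fun t : Q => ((t : Subgroup.centralizer ({z} : Set G)) : G)) (Subgroup.mem_center_iff.1 hq ⟨x, hx⟩).symm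
  · intro hq
    rw [Subgroup.mem_center_iff]
    intro x
    apply Subtype.ext
    apply Subtype.ext
    show (((x : Subgroup.centralizer ({z} : Set G)) : G)) * ((q : Subgroup.centralizer ({z} : Set G)) : G) =
      ((q : Subgroup.centralizer ({z} : Set G)) : G) * ((x : Subgroup.centralizer ({z} : Set G)) : G)
    rcases hq with h | h
    · rw [h, one_mul, mul_one]
    · rw [h]
      exact hP.cen _ ⟨_, x.2, rfl⟩

theorem Mon.cl_eq {s t : G} {v : leechLattice} (hs : Cl ψ s v) (ht : Cl ψ t v) : t = s ∨ t = z * s := by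
  have hP := M.pre
  obtain ⟨q, rfl, h1⟩ := hs
  obtain ⟨r, rfl, h2⟩ := ht
  rw [h1] at h2
  have h3 := M.mem_center.1 (QuotientGroup.eq.1 h2)
  have h4 : ((q : Subgroup.centralizer ({z} : Set G)) : G)⁻¹ * ((r : Subgroup.centralizer ({z} : Set G)) : G) = 1 ∨
    ((q : Subgroup.centralizer ({z} : Set G)) : G)⁻¹ * ((r : Subgroup.centralizer ({z} : Set G)) : G) = z := h3
  rcases h4 with h5 | h5
  · left; exact (inv_mul_eq_one.1 h5).symm
  · right
    rw [inv_mul_eq_iff_eq_mul] at h5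
    rw [h5]; exact hP.cen _ ⟨_, q.2, rfl⟩

theorem Mon.cl_z_mul {s : G} {v : leechLattice} (hs : Cl ψ s v) : Cl ψ (z * s) v := by
  obtain ⟨q, rfl, h1⟩ := hs
  have hP := M.pre
  obtain ⟨x, hx, hxz⟩ := hP.mem
  refine ⟨⟨x, hx⟩ * q, ?_, ?_⟩
  · exact congrArg (fun t => t * ((q : Subgroup.centralizer ({z} : Set G)) : G)) hxz
  · rw [h1, eq_comm, QuotientGroup.eq]
    have h2 : (⟨x, hx⟩ * q)⁻¹ * q ∈ Subgroup.center Q := by
      rw [M.mem_center]
      right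
      show ((x : Subgroup.centralizer ({z} : Set G)) * q : G)⁻¹ * q = z
      have h3 : ((x : Subgroup.centralizer ({z} : Set G)) : G) = z := hxz
      have h4 : ((q : Subgroup.centralizer ({z} : Set G)) : G) * z = z * ((q : Subgroup.centralizer ({z} : Set G)) : G) :=
        hP.cen _ ⟨_, q.2, rfl⟩
      rw [h3, ← h4]
      show ((((q : Subgroup.centralizer ({z} : Set G)) : G)) * z)⁻¹ * ((q : Subgroup.centralizer ({z} : Set G)) : G) = z
      rw [mul_inv_rev, inv_mul_cancel_right]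
      exact hP.inv
    exact h2

theorem Mon.cl_zero {s : G} : Cl ψ s 0 ↔ s = 1 ∨ s = z := by
  have h1 : Cl ψ 1 0 := ⟨1, rfl, H89Monster.psi_zero M.hψ⟩
  constructor
  · intro h
    have := M.cl_eq h1 h
    rwa [mul_one] at this
  · rintro (rfl | rfl)
    · exact h1
    · have := M.cl_z_mul h1
      rwa [mul_one] at this

theorem Mon.cl_sq {s : G} {v : leechLattice} (hs : Cl ψ s v) : s * s = 1 ↔ (32 : ℤ) ∣ sqNorm (v : GolayPt → ℤ) := by
  obtain ⟨q, rfl, h1⟩ := hs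
  rw [← H89Monster.sq_iff M.hQ M.hψ h1, pow_two]
  constructor
  · intro h; exact Subtype.ext (Subtype.ext h)
  · intro h; exact congrArg (fun t : Q => ((t : Subgroup.centralizer ({z} : Set G)) : G)) h

/-- a short class -/
theorem Mon.exists_short {s : G} (hs : s ∈ QG Q) (h1 : s ≠ 1) (hz : s ≠ z) :
    ∃ v, Cl ψ s v ∧ sqNorm (v : GolayPt → ℤ) ≤ 64 ∧ v ≠ 0 := by
  obtain ⟨v, hv⟩ := M.exists_cl hs
  obtain ⟨w, u, hw, rfl⟩ := H89LeechShort.exists_short v
  have h2 : Cl ψ s w := M.cl_congr hv ⟨u, by abel⟩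
  refine ⟨w, h2, hw, ?_⟩
  rintro rfl
  rcases M.cl_zero.1 h2 with h | h
  · exact h1 h
  · exact hz h

omit M [Finite G] in
theorem norm_cases {v : leechLattice} (h0 : v ≠ 0) (h : sqNorm (v : GolayPt → ℤ) ≤ 64) (h32 : (32 : ℤ) ∣ sqNorm (v : GolayPt → ℤ)) :
    sqNorm (v : GolayPt → ℤ) = 32 ∨ sqNorm (v : GolayPt → ℤ) = 64 := by
  have h1 := LeechMin.min_norm v.2 (fun h => h0 (Subtype.ext h))
  omega

/-- two elements with classes of equal short norm are conjugate in `C` -/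
theorem Mon.fuse {s t : G} {v w : leechLattice} (hs : Cl ψ s v) (ht : Cl ψ t w) (h0 : v ≠ 0)
    (hv : sqNorm (v : GolayPt → ℤ) ≤ 64) (hvw : sqNorm (v : GolayPt → ℤ) = sqNorm (w : GolayPt → ℤ)) :
    ∃ h ∈ Subgroup.centralizer ({z} : Set G), h * s * h⁻¹ = t := by
  obtain ⟨g, hg⟩ := transitive h0 hv hvw
  obtain ⟨h, hh⟩ := exists_h e g
  have h1 := M.cl_conj hs hh
  rw [hg] at h1
  rcases M.cl_eq h1 ht with h2 | h2
  · exact ⟨h, hh.mem, h2.symm⟩
  · have hw0 : w ≠ 0 := by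
      rintro rfl
      rw [hvw] at hv
      have : sqNorm (v : GolayPt → ℤ) = 0 := by rw [hvw]; simp [sqNorm]
      have h3 := LeechMin.min_norm v.2 (fun h => h0 (Subtype.ext h))
      omega
    have hcen : h * s * h⁻¹ ≠ 1 ∧ h * s * h⁻¹ ≠ z := by
      by_contra hcon
      have h3 : h * s * h⁻¹ = 1 ∨ h * s * h⁻¹ = z := by tauto
      have h4 := M.cl_unique h1 (M.cl_zero.2 h3)
      obtain ⟨u, hu⟩ := h4
      rw [sub_zero] at hu
      have hu0 : u ≠ 0 := by rintro rfl; rw [add_zero] at hu; exact hw0 hu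
      have h5 := LeechMin.min_norm u.2 (fun h => hu0 (Subtype.ext h))
      have h6 : sqNorm (w : GolayPt → ℤ) = 4 * sqNorm (u : GolayPt → ℤ) := by
        rw [hu, ← LeechMin.sqNorm_two_smul, two_smul]; rfl
      omega
    obtain ⟨q, hq, hqs⟩ := M.pre.exists_conj h1.mem hcen.1 hcen.2
    refine ⟨q * h, ?_, ?_⟩
    · apply Subgroup.mul_mem _ _ hh.mem
      rw [Subgroup.mem_centralizer_singleton_iff]
      exact M.pre.cen q hq
    · rw [h2, ← hqs]; group

end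

end Cfsg.Agent.Lib.H89Mon1
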