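import Cfsg.Agent.Lib.H89Mon1
import Cfsg.Agent.Lib.LargeExtra4

/-!
# Groups of Monster type (helper89): the conjugates of `z` in `Q` are the elements of type 4
-/

set_option autoImplicit false
set_option linter.all false

namespace Cfsg.Agent.Lib.H89Mon1

open Cfsg Cfsg.Agent.Lib.LargeExtra Cfsg.Agent.Lib.LeechTrans Cfsg.Agent.Lib.LeechCo2 Cfsg.Agent.Lib.LeechFrame
  Cfsg.Agent.Lib.LeechOrder Cfsg.Agent.Lib.LeechQuot
open scoped Pointwise

variable {G : Type*} [Group G] {z : G} {Q : Subgroup (Subgroup.centralizer ({z} : Set G))} [Q.Normal]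
  {e : (Subgroup.centralizer ({z} : Set G)) ⧸ Q ≃* Spor.Co1} {ψ : leechLattice → Q ⧸ Subgroup.center Q}

theorem negOne_sq : negOne * negOne = 1 := by
  apply ext_smul; intro v; rw [mul_smul, negOne_smul, negOne_smul, neg_neg, one_smul]

/-- the subgroup of `Co0` attached to a subgroup of `G` -/
def hat (e : (Subgroup.centralizer ({z} : Set G)) ⧸ Q ≃* Spor.Co1) (Y : Subgroup G) : Subgroup Co0 where
  carrier := {g | ∃ h ∈ Y, Rl e h g}
  one_mem' := ⟨1, Y.one_mem, Rl.one⟩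
  mul_mem' := by
    rintro g g' ⟨h, hY, hh⟩ ⟨h', hY', hh'⟩
    exact ⟨h * h', Y.mul_mem hY hY', hh.mul hh'⟩
  inv_mem' := by
    rintro g ⟨h, hY, hh⟩
    exact ⟨h⁻¹, Y.inv_mem hY, hh.inv⟩

theorem mem_hat {Y : Subgroup G} {g : Co0} : g ∈ hat e Y ↔ ∃ h ∈ Y, Rl e h g := Iff.rfl

theorem negOne_mem_hat (Y : Subgroup G) : negOne ∈ hat e Y :=
  ⟨1, Y.one_mem, by have := (Rl.one (e := e)).negOne; rwa [mul_one] at this⟩

theorem hat_conj {Y : Subgroup G} {h : G} {g k : Co0} (H : Rl e h g) (hn : ∀ y ∈ Y, h * y * h⁻¹ ∈ Y)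
    (hk : k ∈ hat e Y) : g * k * g⁻¹ ∈ hat e Y := by
  obtain ⟨y, hy, hyk⟩ := hk
  exact ⟨_, hn y hy, (H.mul hyk).mul H.inv⟩

theorem hat_mono {Y Y' : Subgroup G} (h : Y ≤ Y') : hat e Y ≤ hat e Y' := by
  rintro g ⟨y, hy, hyg⟩
  exact ⟨y, h hy, hyg⟩

theorem hat_isPGroup {Y : Subgroup G} (hY : IsPGroup 2 Y) : IsPGroup 2 (hat e Y) := by
  rintro ⟨g, y, hy, hyg⟩
  obtain ⟨k, hk⟩ := hY ⟨y, hy⟩
  have hk' : y ^ 2 ^ k = 1 := congrArg Subtype.val hk
  have h1 := hyg.pow (2 ^ k)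
  rw [hk'] at h1
  refine ⟨k + 1, Subtype.ext ?_⟩
  show g ^ 2 ^ (k + 1) = 1
  rw [pow_succ, pow_mul, pow_two]
  rcases (Rl.one (e := e)).eq h1 with h2 | h2
  · rw [h2, one_mul]
  · rw [h2, mul_one, negOne_sq]

section
variable [Finite G] (M : Mon z Q e ψ)
include M

/-- the centralizer of `s` in `C` induces the stabilizer of the class -/
theorem Mon.mem_hat_cent {s : G} {v : leechLattice} (hs : Cl ψ s v) (h1 : s ≠ 1) (hz : s ≠ z) {g : Co0} :
    g ∈ hat e (Subgroup.centralizer ({z} : Set G) ⊓ Subgroup.centralizer ({s} : Set G)) ↔ dbl (g • v) v := by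
  constructor
  · rintro ⟨h, ⟨hz, hhs⟩, hg⟩
    have h2 := M.cl_conj hs hg
    have hhs' := Subgroup.mem_centralizer_singleton_iff.1 hhs
    rw [hhs', mul_inv_cancel_right] at h2
    exact M.cl_unique h2 hs
  · intro hd
    obtain ⟨h, hh⟩ := exists_h e g
    have hhz := Subgroup.mem_centralizer_singleton_iff.1 hh.mem
    have h2 := M.cl_congr (M.cl_conj hs hh) hd
    rcases M.cl_eq hs h2 with h3 | h3
    · refine ⟨h, ⟨hh.mem, ?_⟩, hh⟩
      refine Subgroup.mem_centralizer_singleton_iff.2 ?_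
      rwa [mul_inv_eq_iff_eq_mul] at h3
    · obtain ⟨q, hq, hqs⟩ := M.pre.exists_conj hs.mem h1 hz
      refine ⟨h * q, ⟨?_, ?_⟩, hh.of_mem_Q hq⟩
      · apply Subgroup.mul_mem _ hh.mem
        rw [Subgroup.mem_centralizer_singleton_iff]
        exact M.pre.cen q hq
      · refine Subgroup.mem_centralizer_singleton_iff.2 ?_
        have h4 : h * q * s * (h * q)⁻¹ = s := by
          calc h * q * s * (h * q)⁻¹ = h * (q * s * q⁻¹) * h⁻¹ := by group
            _ = (h * z) * s * h⁻¹ := by rw [hqs]; group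
            _ = z * (h * s * h⁻¹) := by rw [hhz]; group
            _ = s := by rw [h3, ← mul_assoc, M.pre.sq, one_mul]
        rwa [mul_inv_eq_iff_eq_mul] at h4

theorem Mon.card_QG : Nat.card (QG Q) = 2 ^ 25 := by
  rw [← M.hcard]
  exact (Nat.card_congr (Q.equivMapOfInjective _ (Subgroup.subtype_injective _)).toEquiv).symm

/-- the conjugate of `Q` -/
abbrev cQ (Q : Subgroup (Subgroup.centralizer ({z} : Set G))) (g : G) : Subgroup G :=
  (QG Q).map (MulAut.conj g).toMonoidHom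

theorem Mon.pair {s g : G} (hsQ : s ∈ QG Q) (hs : s ≠ z) (hg : g * z * g⁻¹ = s) :
    Pair (QG Q) (cQ Q g) z s := by
  have hP := M.pre
  have h1 : s ≠ 1 := by
    rintro rfl
    rw [conj_eq_one_iff] at hg
    exact hP.ne hg
  refine ⟨hP, hg ▸ hP.conj g, hsQ, ?_, hs, ?_⟩
  · apply hP.mem_conj
    · rw [hg]; exact hsQ
    · rw [hg]; exact hs
    · rw [hg]
      exact hP.exists_nonab_centralizer (by rw [M.card_QG]; norm_num) hsQ h1 hs
  · intro y hy
    exact hP.map_conj_eq (hy.trans hg.symm)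

theorem Mon.hat_B {s g : G} (p : Pair (QG Q) (cQ Q g) z s) : IsPGroup 2 (hat e (cQ Q g ⊓ Subgroup.centralizer ({z} : Set G))) := by
  apply hat_isPGroup
  exact p.h1.isP.to_le inf_le_left

theorem Mon.B_le {s g : G} (p : Pair (QG Q) (cQ Q g) z s) :
    cQ Q g ⊓ Subgroup.centralizer ({z} : Set G) ≤ Subgroup.centralizer ({z} : Set G) ⊓ Subgroup.centralizer ({s} : Set G) := by
  rintro x ⟨hx1, hx2⟩
  refine ⟨hx2, ?_⟩
  refine Subgroup.mem_centralizer_singleton_iff.2 ?_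
  exact p.h1.cen x hx1

theorem Mon.B_norm {s g : G} (p : Pair (QG Q) (cQ Q g) z s) {h : G}
    (hh : h ∈ Subgroup.centralizer ({z} : Set G) ⊓ Subgroup.centralizer ({s} : Set G)) :
    ∀ y ∈ cQ Q g ⊓ Subgroup.centralizer ({z} : Set G), h * y * h⁻¹ ∈ cQ Q g ⊓ Subgroup.centralizer ({z} : Set G) := by
  rintro y ⟨hy1, hy2⟩
  obtain ⟨hz, hs⟩ := hh
  refine ⟨?_, ?_⟩
  · exact p.h1.norm h (Subgroup.mem_centralizer_singleton_iff.1 hs) y hy1
  · exact Subgroup.mul_mem _ (Subgroup.mul_mem _ hz hy2) (Subgroup.inv_mem _ hz)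

/-- no conjugate of `z` has type 2 -/
theorem Mon.no_two {s : G} {v : leechLattice} (hs : Cl ψ s v) (hv : sqNorm (v : GolayPt → ℤ) = 32) (hc : IsConj z s) :
    False := by
  obtain ⟨g, hg⟩ := isConj_iff.1 hc
  have hv0 : v ≠ 0 := by rintro rfl; simp [sqNorm] at hv
  have hcen : ¬ (s = 1 ∨ s = z) := by
    intro h
    obtain ⟨u, hu⟩ := M.cl_unique hs (M.cl_zero.2 h)
    rw [sub_zero] at hu
    have hu0 : u ≠ 0 := by rintro rfl; rw [add_zero] at hu; exact hv0 hu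
    have h5 := LeechMin.min_norm u.2 (fun h => hu0 (Subtype.ext h))
    have h6 : sqNorm (v : GolayPt → ℤ) = 4 * sqNorm (u : GolayPt → ℤ) := by
      rw [hu, ← LeechMin.sqNorm_two_smul, two_smul]; rfl
    omega
  rw [not_or] at hcen
  have p := M.pair hs.mem hcen.2 hg
  set B := cQ Q g ⊓ Subgroup.centralizer ({z} : Set G) with hB
  have hK : ∀ k ∈ hat e B, k • v = v ∨ k • v = -v := by
    intro k hk
    have h1 := (M.mem_hat_cent hs hcen.1 hcen.2).1 (hat_mono (M.B_le p) hk)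
    rw [← q2_eq_iff] at h1
    have h2 : sqNorm ((k • v : leechLattice) : GolayPt → ℤ) = 32 := (sqNorm_smul k v).trans hv
    rcases q2_short (by rw [h2]; norm_num) (by rw [hv]; norm_num) h1 with h | h | h
    · exact Or.inl h
    · exact Or.inr h
    · omega
  have hK0 : hat e B ⊓ MulAction.stabilizer Co0 v = ⊥ := by
    apply H89Co2Core.core hv
    · exact (M.hat_B p).to_le inf_le_left
    · rintro k ⟨-, hk⟩; exact hk
    · rintro g0 hg0 k ⟨hk1, hk2⟩
      have h3 : g0 ∈ hat e (Subgroup.centralizer ({z} : Set G) ⊓ Subgroup.centralizer ({s} : Set G)) := by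
        rw [M.mem_hat_cent hs hcen.1 hcen.2, hg0]
        exact ⟨0, by rw [sub_self, add_zero]⟩
      obtain ⟨h, hh, hhg⟩ := h3
      refine ⟨hat_conj hhg (M.B_norm p hh) hk1, ?_⟩
      show (g0 * k * g0⁻¹) • v = v
      have h4 : k • v = v := hk2
      have h5 : g0⁻¹ • v = v := by rw [inv_smul_eq_iff]; exact hg0.symm
      rw [mul_smul, mul_smul, h5, h4, hg0]
  have hK1 : ∀ k ∈ hat e B, k = 1 ∨ k = negOne := by
    intro k hk
    rcases hK k hk with h | h
    · left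
      have : k ∈ hat e B ⊓ MulAction.stabilizer Co0 v := ⟨hk, h⟩
      rw [hK0] at this
      exact this
    · right
      have : negOne * k ∈ hat e B ⊓ MulAction.stabilizer Co0 v := by
        refine ⟨Subgroup.mul_mem _ (negOne_mem_hat B) hk, ?_⟩
        show (negOne * k) • v = v
        rw [mul_smul, h, negOne_smul, neg_neg]
      rw [hK0, Subgroup.mem_bot] at this
      have h2 : k = negOne * (negOne * k) := by rw [← mul_assoc, negOne_sq, one_mul]
      rw [h2, this, mul_one]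
  have hBQ : ∀ y ∈ B, y ∈ QG Q := by
    intro y hy
    obtain ⟨k, hk⟩ := exists_g e hy.2
    rw [← Rl.one_iff (e := e)]
    rcases hK1 k ⟨y, hy, hk⟩ with h | h
    · rwa [h] at hk
    · have := hk.negOne
      rwa [h, negOne_sq] at this
  have hcard1 : 8 < Nat.card (cQ Q g) := by
    have : Nat.card (cQ Q g) = Nat.card (QG Q) :=
      (Nat.card_congr ((QG Q).equivMapOfInjective _ (MulAut.conj g).injective).toEquiv).symm
    rw [this, M.card_QG]; norm_num
  obtain ⟨a, ha, b, hb, haz, hbz, hab⟩ := p.h1.exists_nonab_centralizer hcard1 p.hz p.h.ne p.hne.symm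
  have haB : a ∈ B := ⟨ha, Subgroup.mem_centralizer_singleton_iff.2 haz⟩
  have hbB : b ∈ B := ⟨hb, Subgroup.mem_centralizer_singleton_iff.2 hbz⟩
  rcases M.pre.comm a (hBQ a haB) b (hBQ b hbB) with h1 | h1
  · exact hab h1
  · rcases p.h1.comm a ha b hb with h2 | h2
    · exact hab h2
    · rw [h1] at h2
      exact p.hne (mul_right_cancel h2).symm

/-- there is a conjugate of type 4 -/
theorem Mon.exists_four (hnwc : ∃ g : G, (∃ hq : g * z * g⁻¹ ∈ Subgroup.centralizer ({z} : Set G),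
    (⟨g * z * g⁻¹, hq⟩ : Subgroup.centralizer ({z} : Set G)) ∈ Q) ∧ g * z * g⁻¹ ≠ z) :
    ∃ (s : G) (v : leechLattice), Cl ψ s v ∧ sqNorm (v : GolayPt → ℤ) = 64 ∧ IsConj z s := by
  obtain ⟨g, ⟨hq, hQ⟩, hne⟩ := hnwc
  have hs : g * z * g⁻¹ ∈ QG Q := ⟨_, hQ, rfl⟩
  have h1 : g * z * g⁻¹ ≠ 1 := by
    intro h; rw [conj_eq_one_iff] at h; exact M.pre.ne h
  obtain ⟨v, hv, hn, h0⟩ := M.exists_short hs h1 hne
  have hc : IsConj z (g * z * g⁻¹) := isConj_iff.2 ⟨g, rfl⟩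
  have hsq : g * z * g⁻¹ * (g * z * g⁻¹) = 1 := by
    have := M.pre.sq
    calc g * z * g⁻¹ * (g * z * g⁻¹) = g * (z * z) * g⁻¹ := by group
      _ = 1 := by rw [this]; group
  rcases norm_cases h0 hn ((M.cl_sq hv).1 hsq) with h | h
  · exact (M.no_two hv h hc).elim
  · exact ⟨_, v, hv, h, hc⟩

theorem Mon.type_four (hnwc : ∃ g : G, (∃ hq : g * z * g⁻¹ ∈ Subgroup.centralizer ({z} : Set G),
    (⟨g * z * g⁻¹, hq⟩ : Subgroup.centralizer ({z} : Set G)) ∈ Q) ∧ g * z * g⁻¹ ≠ z) {s : G} (hs : s ∈ QG Q) :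
    (IsConj z s ∧ s ≠ z) ↔ ∃ v : leechLattice, sqNorm (v : GolayPt → ℤ) = 64 ∧ Cl ψ s v := by
  constructor
  · rintro ⟨hc, hne⟩
    have hsq : s * s = 1 := by
      obtain ⟨g, rfl⟩ := isConj_iff.1 hc
      have := M.pre.sq
      calc g * z * g⁻¹ * (g * z * g⁻¹) = g * (z * z) * g⁻¹ := by group
        _ = 1 := by rw [this]; group
    have h1 : s ≠ 1 := by
      rintro rfl
      exact M.pre.ne (isConj_one_right.1 hc.symm)
    obtain ⟨v, hv, hn, h0⟩ := M.exists_short hs h1 hne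
    rcases norm_cases h0 hn ((M.cl_sq hv).1 hsq) with h | h
    · exact (M.no_two hv h hc).elim
    · exact ⟨v, h, hv⟩
  · rintro ⟨v, hv, hsv⟩
    obtain ⟨t, w, ht, hw, hc⟩ := M.exists_four hnwc
    have hw0 : w ≠ 0 := by rintro rfl; simp [sqNorm] at hw
    have hv0 : v ≠ 0 := by rintro rfl; simp [sqNorm] at hv
    obtain ⟨h, hh, hht⟩ := M.fuse ht hsv hw0 (le_of_eq hw) (hw.trans hv.symm)
    refine ⟨hc.trans (isConj_iff.2 ⟨h, hht⟩), ?_⟩
    rintro rfl
    obtain ⟨u, hu⟩ := M.cl_unique hsv (M.cl_zero.2 (Or.inr rfl))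
    rw [sub_zero] at hu
    have hu0 : u ≠ 0 := by rintro rfl; rw [add_zero] at hu; exact hv0 hu
    have h5 := LeechMin.min_norm u.2 (fun h => hu0 (Subtype.ext h))
    have h6 : sqNorm (v : GolayPt → ℤ) = 4 * sqNorm (u : GolayPt → ℤ) := by
      rw [hu, ← LeechMin.sqNorm_two_smul, two_smul]; rfl
    omega

end

end Cfsg.Agent.Lib.H89Mon1
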