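import Cfsg.Agent.Lib.H89Mon2
import Cfsg.Agent.Lib.H89ExCount

/-!
# Groups of Monster type (helper89): `Q ∩ Q^g` has order `2^13`
-/

set_option autoImplicit false
set_option linter.all false

namespace Cfsg.Agent.Lib.H89Mon1

open Cfsg Cfsg.Agent.Lib.LargeExtra Cfsg.Agent.Lib.LeechTrans Cfsg.Agent.Lib.LeechCo2 Cfsg.Agent.Lib.LeechFrame
  Cfsg.Agent.Lib.LeechOrder Cfsg.Agent.Lib.LeechQuot
open scoped Pointwise

variable {G : Type*} [Group G] {z : G} {Q : Subgroup (Subgroup.centralizer ({z} : Set G))} [Q.Normal]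
  {e : (Subgroup.centralizer ({z} : Set G)) ⧸ Q ≃* Spor.Co1} {ψ : leechLattice → Q ⧸ Subgroup.center Q}

/-- the graph -/
def graph (e : (Subgroup.centralizer ({z} : Set G)) ⧸ Q ≃* Spor.Co1) (Y : Subgroup G) : Subgroup (G × Co0) where
  carrier := {x | x.1 ∈ Y ∧ Rl e x.1 x.2}
  one_mem' := ⟨Y.one_mem, Rl.one⟩
  mul_mem' := by
    rintro a b ⟨h1, h2⟩ ⟨h3, h4⟩
    exact ⟨Y.mul_mem h1 h3, h2.mul h4⟩
  inv_mem' := by
    rintro a ⟨h1, h2⟩
    exact ⟨Y.inv_mem h1, h2.inv⟩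

theorem card_ker_range {A B : Type*} [Group A] [Group B] [Finite A] (f : A →* B) :
    Nat.card f.ker * Nat.card f.range = Nat.card A := by
  rw [← Subgroup.index_ker, Subgroup.card_mul_index]

theorem card_hat [Finite G] {Y : Subgroup G} (hY : Y ≤ Subgroup.centralizer ({z} : Set G)) :
    Nat.card (hat e Y) * Nat.card ↥(Y ⊓ QG Q) = 2 * Nat.card Y := by
  set P := graph e Y with hP
  have h1 := card_ker_range ((MonoidHom.fst G Co0).comp P.subtype)
  have h2 := card_ker_range ((MonoidHom.snd G Co0).comp P.subtype)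
  rw [← h1] at h2
  have h3 : Nat.card ((MonoidHom.fst G Co0).comp P.subtype).range = Nat.card Y := by
    congr 2
    ext h
    constructor
    · rintro ⟨⟨x, hx1, hx2⟩, rfl⟩; exact hx1
    · intro hh
      obtain ⟨g, hg⟩ := exists_g e (hY hh)
      exact ⟨⟨(h, g), hh, hg⟩, rfl⟩
  have h4 : Nat.card ((MonoidHom.snd G Co0).comp P.subtype).range = Nat.card (hat e Y) := by
    congr 2
    ext g
    constructor
    · rintro ⟨⟨x, hx1, hx2⟩, rfl⟩; exact ⟨x.1, hx1, hx2⟩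
    · rintro ⟨h, hh, hg⟩
      exact ⟨⟨(h, g), hh, hg⟩, rfl⟩
  have h5 : Nat.card ((MonoidHom.fst G Co0).comp P.subtype).ker = 2 := by
    rw [← natCard_center]
    refine (Nat.card_congr (Equiv.ofBijective (fun g : Subgroup.center Co0 =>
      (⟨⟨(1, g), Y.one_mem, ?_⟩, rfl⟩ : ((MonoidHom.fst G Co0).comp P.subtype).ker)) ⟨?_, ?_⟩)).symm
    · rcases center_eq g.2 with h | h
      · rw [h]; exact Rl.one
      · rw [h]; have := (Rl.one (e := e)).negOne; rwa [mul_one] at this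
    · intro g g' h
      have := congrArg (fun x : ((MonoidHom.fst G Co0).comp P.subtype).ker => ((x : P) : G × Co0).2) h
      exact Subtype.ext this
    · rintro ⟨⟨⟨h, g⟩, hx1, hx2⟩, hx3⟩
      have hh : h = 1 := hx3
      subst hh
      have hg : g ∈ Subgroup.center Co0 := by
        rcases (Rl.one (e := e)).eq hx2 with h | h
        · have h' : g = 1 := h
          rw [h']; exact Subgroup.one_mem _
        · have h' : g = negOne * 1 := h
          rw [h', mul_one]; exact negOne_mem_center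
      exact ⟨⟨g, hg⟩, rfl⟩
  have h6 : Nat.card ((MonoidHom.snd G Co0).comp P.subtype).ker = Nat.card ↥(Y ⊓ QG Q) := by
    refine (Nat.card_congr (Equiv.ofBijective (fun h : ↥(Y ⊓ QG Q) =>
      (⟨⟨(h, 1), h.2.1, Rl.one_iff.2 h.2.2⟩, rfl⟩ : ((MonoidHom.snd G Co0).comp P.subtype).ker)) ⟨?_, ?_⟩)).symm
    · intro g g' h
      have := congrArg (fun x : ((MonoidHom.snd G Co0).comp P.subtype).ker => ((x : P) : G × Co0).1) h
      exact Subtype.ext this
    · rintro ⟨⟨⟨h, g⟩, hx1, hx2⟩, hx3⟩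
      have hh : g = 1 := hx3
      subst hh
      exact ⟨⟨h, hx1, Rl.one_iff.1 hx2⟩, rfl⟩
  rw [h3, h4, h5, h6] at h2
  rw [← h2, mul_comm]

section
variable [Finite G] (M : Mon z Q e ψ)
include M

omit [Finite G] M in
theorem Pair_D_comm {Q Q1 : Subgroup G} {z s : G} (p : Pair Q Q1 z s) :
    ∀ a ∈ Q ⊓ Q1, ∀ b ∈ Q ⊓ Q1, a * b = b * a := by
  rintro a ⟨ha, ha'⟩ b ⟨hb, hb'⟩
  rcases p.h.comm a ha b hb with h1 | h1
  · exact h1
  · rcases p.h1.comm a ha' b hb' with h2 | h2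
    · exact h2
    · rw [h1] at h2
      exact absurd (mul_right_cancel h2).symm p.hne

omit [Finite G] M in
theorem Pair_D_sq {Q Q1 : Subgroup G} {z s : G} (p : Pair Q Q1 z s) : ∀ a ∈ Q ⊓ Q1, a * a = 1 := by
  rintro a ⟨ha, ha'⟩
  rcases p.h.qsq a ha with h1 | h1
  · exact h1
  · rcases p.h1.qsq a ha' with h2 | h2
    · exact h2
    · rw [h1] at h2
      exact absurd h2.symm p.hne

theorem Mon.card_cQ (g : G) : Nat.card (cQ Q g) = 2 ^ 25 := by
  rw [← M.card_QG]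
  exact (Nat.card_congr ((QG Q).equivMapOfInjective _ (MulAut.conj g).injective).toEquiv).symm

/-- the element moving the class to the standard one -/
theorem Mon.exists_std {v : leechLattice} (hv : sqNorm (v : GolayPt → ℤ) = 64) : ∃ g0 : Co0, g0 • v = ef none := by
  refine transitive ?_ (le_of_eq hv) ?_
  · rintro rfl; simp [sqNorm] at hv
  · rw [hv, coe_ef, sqNorm_single]; norm_num

/-- the stabilizer of the class -/
theorem Mon.hat_cent_conj {s : G} {v : leechLattice} (hs : Cl ψ s v) (h1 : s ≠ 1) (hz : s ≠ z) {g0 : Co0}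
    (hg0 : g0 • v = ef none) {g : Co0} :
    g ∈ hat e (Subgroup.centralizer ({z} : Set G) ⊓ Subgroup.centralizer ({s} : Set G)) ↔ g0 * g * g0⁻¹ ∈ N := by
  rw [M.mem_hat_cent hs h1 hz, H89Mono.mem_N_iff']
  have h2 : (g0 * g * g0⁻¹) • ef none = g0 • g • v := by
    rw [← hg0, mul_smul, mul_smul, inv_smul_smul]
  rw [h2, ← hg0]
  constructor
  · intro h
    have h3 := h.smul g0
    obtain ⟨u, hu⟩ := h3
    exact ⟨-u, by rw [← neg_sub, hu]; abel⟩
  · intro h
    have h3 := h.smul g0⁻¹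
    rw [inv_smul_smul, inv_smul_smul] at h3
    obtain ⟨u, hu⟩ := h3
    exact ⟨-u, by rw [← neg_sub, hu]; abel⟩

/-- the image of `Q^g ∩ C` consists of sign changes -/
theorem Mon.hat_B_le {s g : G} {v : leechLattice} (hs : Cl ψ s v) (p : Pair (QG Q) (cQ Q g) z s)
    {g0 : Co0} (hg0 : g0 • v = ef none) {k : Co0}
    (hk : k ∈ hat e (cQ Q g ⊓ Subgroup.centralizer ({z} : Set G))) : g0 * k * g0⁻¹ ∈ H89Mono.T := by
  have hK : (hat e (cQ Q g ⊓ Subgroup.centralizer ({z} : Set G))).map (MulAut.conj g0).toMonoidHom ≤ H89Mono.T := by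
    apply H89Mono.le_T
    · exact (M.hat_B p).map _
    · rintro _ ⟨k, hk, rfl⟩
      exact (M.hat_cent_conj hs p.h1.ne p.hne hg0).1 (hat_mono (M.B_le p) hk)
    · rintro n hn _ ⟨k, hk, rfl⟩
      have h3 : g0⁻¹ * n * g0 ∈ hat e (Subgroup.centralizer ({z} : Set G) ⊓ Subgroup.centralizer ({s} : Set G)) := by
        rw [M.hat_cent_conj hs p.h1.ne p.hne hg0]
        have : g0 * (g0⁻¹ * n * g0) * g0⁻¹ = n := by group
        rwa [this]
      obtain ⟨h, hh, hhg⟩ := h3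
      refine ⟨_, hat_conj hhg (M.B_norm p hh) hk, ?_⟩
      show g0 * ((g0⁻¹ * n * g0) * k * (g0⁻¹ * n * g0)⁻¹) * g0⁻¹ = n * (g0 * k * g0⁻¹) * n⁻¹
      group
  exact hK ⟨k, hk, rfl⟩

theorem Mon.card_B {s g : G} (p : Pair (QG Q) (cQ Q g) z s) :
    2 * Nat.card ↥(cQ Q g ⊓ Subgroup.centralizer ({z} : Set G)) = 2 ^ 25 := by
  rw [← M.card_cQ g]
  exact H89ExCount.card_centralizer p.h1.toExData p.hz p.h.ne p.hne.symm

theorem Mon.B_inf {s g : G} : (cQ Q g ⊓ Subgroup.centralizer ({z} : Set G)) ⊓ QG Q = QG Q ⊓ cQ Q g := by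
  ext x
  constructor
  · rintro ⟨⟨h1, h2⟩, h3⟩; exact ⟨h3, h1⟩
  · rintro ⟨h1, h2⟩
    exact ⟨⟨h2, Subgroup.mem_centralizer_singleton_iff.2 (M.pre.cen x h1)⟩, h1⟩

/-- `|Q ∩ Q^g| = 2^13` and the image of `Q^g ∩ C` has order `2^11` -/
theorem Mon.card_D {s g : G} {v : leechLattice} (hs : Cl ψ s v) (hv : sqNorm (v : GolayPt → ℤ) = 64)
    (p : Pair (QG Q) (cQ Q g) z s) :
    Nat.card ↥(QG Q ⊓ cQ Q g) = 2 ^ 13 ∧
      Nat.card (hat e (cQ Q g ⊓ Subgroup.centralizer ({z} : Set G))) = 2 ^ 12 := by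
  obtain ⟨g0, hg0⟩ := M.exists_std hv
  have h1 : Nat.card (hat e (cQ Q g ⊓ Subgroup.centralizer ({z} : Set G))) ≤ 2 ^ 12 := by
    have h2 : (hat e (cQ Q g ⊓ Subgroup.centralizer ({z} : Set G))).map (MulAut.conj g0).toMonoidHom ≤ H89Mono.T := by
      rintro _ ⟨k, hk, rfl⟩
      exact M.hat_B_le hs p hg0 hk
    have h3 := Subgroup.card_le_of_le h2
    rw [H89Mono.natCard_T] at h3
    have h4 : Nat.card (hat e (cQ Q g ⊓ Subgroup.centralizer ({z} : Set G))) =
        Nat.card ((hat e (cQ Q g ⊓ Subgroup.centralizer ({z} : Set G))).map (MulAut.conj g0).toMonoidHom) :=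
      Nat.card_congr (Subgroup.equivMapOfInjective _ _ (MulAut.conj g0).injective).toEquiv
    rw [h4]; exact h3
  have h2 := card_hat (e := e) (Y := cQ Q g ⊓ Subgroup.centralizer ({z} : Set G)) inf_le_right
  rw [M.B_inf (s := s), M.card_B p] at h2
  have h3 := H89ExCount.card_sq_le M.pre.toExData (D := QG Q ⊓ cQ Q g) inf_le_left (Pair_D_comm p)
  rw [M.card_QG] at h3
  set a := Nat.card (hat e (cQ Q g ⊓ Subgroup.centralizer ({z} : Set G)))
  set b := Nat.card ↥(QG Q ⊓ cQ Q g)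
  have hb : b ≤ 2 ^ 13 := by
    by_contra hcon
    push Not at hcon
    have : (2 ^ 13 + 1) * (2 ^ 13 + 1) ≤ b * b := Nat.mul_le_mul hcon hcon
    norm_num at this h3
    omega
  constructor
  · apply le_antisymm hb
    by_contra hcon
    push Not at hcon
    have h5 : a * b ≤ 2 ^ 12 * (2 ^ 13 - 1) := Nat.mul_le_mul h1 (by omega)
    rw [h2] at h5
    norm_num at h5
  · apply le_antisymm h1
    by_contra hcon
    push Not at hcon
    have h5 : a * b ≤ (2 ^ 12 - 1) * 2 ^ 13 := Nat.mul_le_mul (by omega) hb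
    rw [h2] at h5
    norm_num at h5

end

end Cfsg.Agent.Lib.H89Mon1
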