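import Cfsg.Agent.Lib.H89Mon3

/-!
# Groups of Monster type (helper89): the structure of `C_C(s)` modulo `Q`
-/

set_option autoImplicit false
set_option linter.all false

namespace Cfsg.Agent.Lib.H89Mon1

open Cfsg Cfsg.Agent.Lib.LargeExtra Cfsg.Agent.Lib.LeechTrans Cfsg.Agent.Lib.LeechCo2 Cfsg.Agent.Lib.LeechFrame
  Cfsg.Agent.Lib.LeechOrder Cfsg.Agent.Lib.LeechQuot
open scoped Pointwise

variable {G : Type*} [Group G] {z : G} {Q : Subgroup (Subgroup.centralizer ({z} : Set G))} [Q.Normal]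
  {e : (Subgroup.centralizer ({z} : Set G)) ⧸ Q ≃* Spor.Co1} {ψ : leechLattice → Q ⧸ Subgroup.center Q}

/-- the natural map `Co0 → C/Q` -/
def theta (e : (Subgroup.centralizer ({z} : Set G)) ⧸ Q ≃* Spor.Co1) :
    Co0 →* (Subgroup.centralizer ({z} : Set G)) ⧸ Q :=
  e.symm.toMonoidHom.comp (QuotientGroup.mk' (Subgroup.center Co0))

theorem theta_eq_iff {g : Co0} {c : Subgroup.centralizer ({z} : Set G)} :
    theta e g = QuotientGroup.mk c ↔ Rl e (c : G) g := by
  constructor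
  · intro h
    refine ⟨c, rfl, ?_⟩
    rw [← h]
    exact (e.apply_symm_apply _).symm
  · rintro ⟨c', h0, h1⟩
    have : c' = c := Subtype.ext h0
    rw [this] at h1
    show e.symm (QuotientGroup.mk g) = _
    rw [h1, e.symm_apply_apply]

theorem theta_eq_one_iff {g : Co0} : theta e g = 1 ↔ g = 1 ∨ g = negOne := by
  constructor
  · intro h
    have h1 := (theta_eq_iff (e := e) (g := g) (c := 1)).1 h
    have h2 := (Rl.one (e := e)).eq h1
    rwa [mul_one] at h2
  · intro h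
    refine (theta_eq_iff (e := e) (g := g) (c := 1)).2 ?_
    rcases h with rfl | rfl
    · exact Rl.one
    · have := (Rl.one (e := e)).negOne; rwa [mul_one] at this

theorem map_hat {Y : Subgroup G} (hY : Y ≤ Subgroup.centralizer ({z} : Set G)) :
    (Y.subgroupOf (Subgroup.centralizer ({z} : Set G))).map (QuotientGroup.mk' Q) = (hat e Y).map (theta e) := by
  ext x
  constructor
  · rintro ⟨c, hc, rfl⟩
    obtain ⟨g, hg⟩ := exists_g e c.2
    exact ⟨g, ⟨c, hc, hg⟩, theta_eq_iff.2 hg⟩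
  · rintro ⟨g, ⟨h, hh, hg⟩, rfl⟩
    refine ⟨⟨h, hY hh⟩, hh, ?_⟩
    exact (theta_eq_iff.2 hg).symm

theorem card_map_theta {H : Subgroup Co0} (h : negOne ∈ H) : 2 * Nat.card (H.map (theta e)) = Nat.card H := by
  have h1 := card_ker_range ((theta e).comp H.subtype)
  have h2 : Nat.card ((theta e).comp H.subtype).ker = 2 := by
    rw [← natCard_center]
    refine (Nat.card_congr (Equiv.ofBijective (fun g : Subgroup.center Co0 =>
      (⟨⟨g.1, ?_⟩, ?_⟩ : ((theta e).comp H.subtype).ker)) ⟨?_, ?_⟩)).symm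
    · rcases center_eq g.2 with h' | h'
      · rw [h']; exact H.one_mem
      · rw [h']; exact h
    · exact theta_eq_one_iff.2 (center_eq g.2)
    · intro g g' h
      have := congrArg (fun x : ((theta e).comp H.subtype).ker => ((x : H) : Co0)) h
      exact Subtype.ext this
    · rintro ⟨⟨g, hg⟩, hx⟩
      have hg : g ∈ Subgroup.center Co0 := by
        have hx' : theta e g = 1 := hx
        rcases theta_eq_one_iff.1 hx' with h | h
        · rw [h]; exact Subgroup.one_mem _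
        · rw [h]; exact negOne_mem_center
      exact ⟨⟨g, hg⟩, rfl⟩
  have h3 : ((theta e).comp H.subtype).range = H.map (theta e) := by
    ext x
    constructor
    · rintro ⟨⟨g, hg⟩, rfl⟩; exact ⟨g, hg, rfl⟩
    · rintro ⟨g, hg, rfl⟩; exact ⟨⟨g, hg⟩, rfl⟩
  rw [h2, h3] at h1
  exact h1

section
variable [Finite G] (M : Mon z Q e ψ)
include M

theorem Mon.hat_B_eq {s g : G} {v : leechLattice} (hs : Cl ψ s v) (hv : sqNorm (v : GolayPt → ℤ) = 64)
    (p : Pair (QG Q) (cQ Q g) z s) {g0 : Co0} (hg0 : g0 • v = ef none) :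
    (hat e (cQ Q g ⊓ Subgroup.centralizer ({z} : Set G))).map (MulAut.conj g0).toMonoidHom = H89Mono.T := by
  apply Subgroup.eq_of_le_of_card_ge
  · rintro _ ⟨k, hk, rfl⟩
    exact M.hat_B_le hs p hg0 hk
  · rw [H89Mono.natCard_T]
    have h4 : Nat.card (hat e (cQ Q g ⊓ Subgroup.centralizer ({z} : Set G))) =
        Nat.card ((hat e (cQ Q g ⊓ Subgroup.centralizer ({z} : Set G))).map (MulAut.conj g0).toMonoidHom) :=
      Nat.card_congr (Subgroup.equivMapOfInjective _ _ (MulAut.conj g0).injective).toEquiv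
    rw [← h4, (M.card_D hs hv p).2]; norm_num

/-- `θ` twisted by `g0` -/
def kappa (e : (Subgroup.centralizer ({z} : Set G)) ⧸ Q ≃* Spor.Co1) (g0 : Co0) :
    Co0 →* (Subgroup.centralizer ({z} : Set G)) ⧸ Q := (theta e).comp (MulAut.conj g0⁻¹).toMonoidHom

omit [Finite G] M in
theorem kappa_apply (g0 x : Co0) : kappa e g0 x = theta e (g0⁻¹ * x * g0) := by
  show theta e (g0⁻¹ * x * g0⁻¹⁻¹) = _
  rw [inv_inv]

omit [Finite G] M in
theorem kappa_eq_one_iff {g0 x : Co0} : kappa e g0 x = 1 ↔ x = 1 ∨ x = negOne := by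
  rw [kappa_apply, theta_eq_one_iff]
  have h1 := Subgroup.mem_center_iff.1 negOne_mem_center g0
  constructor
  · rintro (h | h)
    · left
      have : x = g0 * (g0⁻¹ * x * g0) * g0⁻¹ := by group
      rw [this, h]; group
    · right
      have : x = g0 * (g0⁻¹ * x * g0) * g0⁻¹ := by group
      rw [this, h, h1, mul_inv_cancel_right]
  · rintro (h | h)
    · left; rw [h]; group
    · right; rw [h, mul_assoc, ← h1, ← mul_assoc, inv_mul_cancel, one_mul]

theorem Mon.E_eq {s g : G} {v : leechLattice} (hs : Cl ψ s v) (hv : sqNorm (v : GolayPt → ℤ) = 64)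
    (p : Pair (QG Q) (cQ Q g) z s) {g0 : Co0} (hg0 : g0 • v = ef none) :
    (hat e (cQ Q g ⊓ Subgroup.centralizer ({z} : Set G))).map (theta e) = H89Mono.T.map (kappa e g0) := by
  rw [← M.hat_B_eq hs hv p hg0, Subgroup.map_map]
  congr 1
  ext x
  show theta e x = kappa e g0 (g0 * x * g0⁻¹)
  rw [kappa_apply]
  congr 1
  group

theorem Mon.X_eq {s : G} {v : leechLattice} (hs : Cl ψ s v) (h1 : s ≠ 1) (hz : s ≠ z) {g0 : Co0} (hg0 : g0 • v = ef none) :
    (hat e (Subgroup.centralizer ({z} : Set G) ⊓ Subgroup.centralizer ({s} : Set G))).map (theta e) =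
      N.map (kappa e g0) := by
  ext x
  constructor
  · rintro ⟨k, hk, rfl⟩
    refine ⟨g0 * k * g0⁻¹, (M.hat_cent_conj hs h1 hz hg0).1 hk, ?_⟩
    rw [kappa_apply]; congr 1; group
  · rintro ⟨k, hk, rfl⟩
    refine ⟨g0⁻¹ * k * g0, (M.hat_cent_conj hs h1 hz hg0).2 ?_, ?_⟩
    · have : g0 * (g0⁻¹ * k * g0) * g0⁻¹ = k := by group
      rwa [this]
    · rw [kappa_apply]

theorem Mon.structure410 {s g : G} {v : leechLattice} (hs : Cl ψ s v) (hv : sqNorm (v : GolayPt → ℤ) = 64)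
    (p : Pair (QG Q) (cQ Q g) z s) (X E : Subgroup ((Subgroup.centralizer ({z} : Set G)) ⧸ Q))
    (hX : X = (hat e (Subgroup.centralizer ({z} : Set G) ⊓ Subgroup.centralizer ({s} : Set G))).map (theta e))
    (hE : E = (hat e (cQ Q g ⊓ Subgroup.centralizer ({z} : Set G))).map (theta e)) :
    E ≤ X ∧ (∀ x ∈ X, ∀ y ∈ E, x * y * x⁻¹ ∈ E) ∧ IsElementaryAbelian 2 E ∧ Nat.card E = 2 ^ 11 ∧
      ∃ K : Subgroup ((Subgroup.centralizer ({z} : Set G)) ⧸ Q), K ≤ X ∧ E ⊓ K = ⊥ ∧ E ⊔ K = X ∧ Nonempty (K ≃* M24) := by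
  obtain ⟨g0, hg0⟩ := M.exists_std hv
  have hX' := hX
  have hE' := hE
  rw [M.X_eq hs p.h1.ne p.hne hg0] at hX'
  rw [M.E_eq hs hv p hg0] at hE'
  refine ⟨?_, ?_, ?_, ?_, (kappa e g0).comp H89Mono.permHom |>.range, ?_, ?_, ?_, ?_⟩
  · rw [hX', hE']
    exact Subgroup.map_mono H89Mono.T_le_N
  · rw [hX', hE']
    rintro _ ⟨x, hx, rfl⟩ _ ⟨y, hy, rfl⟩
    refine ⟨x * y * x⁻¹, H89Mono.T_normal hx hy, ?_⟩
    rw [map_mul, map_mul, map_inv]
  · have h1 : ∀ x ∈ E, x * x = 1 := by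
      rw [hE']
      rintro _ ⟨x, hx, rfl⟩
      rw [← map_mul, H89Mono.T_sq hx, map_one]
    refine ⟨⟨⟨fun a b => Subtype.ext ?_⟩⟩, fun a ha => by rw [pow_two]; exact h1 a ha⟩
    show (a : (Subgroup.centralizer ({z} : Set G)) ⧸ Q) * b = b * a
    have h2 := h1 _ a.2
    have h3 := h1 _ b.2
    have h4 := h1 _ (E.mul_mem a.2 b.2)
    calc (a : (Subgroup.centralizer ({z} : Set G)) ⧸ Q) * b = a * ((a : (Subgroup.centralizer ({z} : Set G)) ⧸ Q) * b * (a * b)) * b := by
          rw [h4, mul_one]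
      _ = (a * a) * (b * a) * (b * b) := by group
      _ = b * a := by rw [h2, h3, one_mul, mul_one]
  · have h1 := card_map_theta (e := e) (negOne_mem_hat (e := e) (cQ Q g ⊓ Subgroup.centralizer ({z} : Set G)))
    rw [← hE, (M.card_D hs hv p).2] at h1
    omega
  · rw [hX']
    rintro _ ⟨σ, rfl⟩
    exact ⟨_, H89Mono.permHom_mem σ, rfl⟩
  · rw [eq_bot_iff]
    rintro x ⟨hx, σ, hσ⟩
    rw [hE'] at hx
    obtain ⟨t, ht, rfl⟩ := hx
    have h1 : kappa e g0 (t⁻¹ * H89Mono.permHom σ) = 1 := by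
      rw [map_mul, map_inv]
      have : kappa e g0 (H89Mono.permHom σ) = kappa e g0 t := hσ
      rw [this, inv_mul_cancel]
    have h2 : t⁻¹ * H89Mono.permHom σ ∈ H89Mono.T := by
      rcases kappa_eq_one_iff.1 h1 with h | h
      · rw [h]; exact Subgroup.one_mem _
      · rw [h]; exact H89Mono.negOne_mem_T
    have h3 : H89Mono.permHom σ ∈ H89Mono.T := by
      have := H89Mono.T.mul_mem ht h2
      rwa [mul_inv_cancel_left] at this
    have h4 := H89Mono.T_inf_perm h3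
    rw [h4, map_one] at hσ
    rw [← hσ]; exact Subgroup.one_mem _
  · rw [hX', hE']
    apply le_antisymm
    · apply sup_le
      · exact Subgroup.map_mono H89Mono.T_le_N
      · rintro _ ⟨σ, rfl⟩
        exact ⟨_, H89Mono.permHom_mem σ, rfl⟩
    · rintro _ ⟨x, hx, rfl⟩
      obtain ⟨t, ht, σ, rfl⟩ := H89Mono.exists_mul hx
      rw [map_mul]
      exact Subgroup.mul_mem_sup ⟨t, ht, rfl⟩ ⟨σ, rfl⟩
  · refine ⟨(MonoidHom.ofInjective (f := (kappa e g0).comp H89Mono.permHom) ?_).symm⟩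
    rw [injective_iff_map_eq_one]
    intro σ hσ
    have h1 : kappa e g0 (H89Mono.permHom σ) = 1 := hσ
    apply H89Mono.T_inf_perm
    rcases kappa_eq_one_iff.1 h1 with h | h
    · rw [h]; exact Subgroup.one_mem _
    · rw [h]; exact H89Mono.negOne_mem_T

end

end Cfsg.Agent.Lib.H89Mon1
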