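import Cfsg.Agent.Lib.H89Mon4

/-!
# Groups of Monster type (helper89): preparation for the centralizer of a type 2 involution
-/

set_option autoImplicit false
set_option linter.all false

namespace Cfsg.Agent.Lib.H89Mon1

open Cfsg Cfsg.Agent.Lib.LargeExtra Cfsg.Agent.Lib.LeechTrans Cfsg.Agent.Lib.LeechCo2 Cfsg.Agent.Lib.LeechFrame
  Cfsg.Agent.Lib.LeechOrder Cfsg.Agent.Lib.LeechQuot
open scoped Pointwise

variable {G : Type*} [Group G] {z : G} {Q : Subgroup (Subgroup.centralizer ({z} : Set G))} [Q.Normal]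
  {e : (Subgroup.centralizer ({z} : Set G)) ⧸ Q ≃* Spor.Co1} {ψ : leechLattice → Q ⧸ Subgroup.center Q}

section
variable [Finite G] (M : Mon z Q e ψ)
include M

/-- commuting is orthogonality -/
theorem Mon.comm_iff {a b : G} {v w : leechLattice} (ha : Cl ψ a v) (hb : Cl ψ b w) :
    a * b = b * a ↔ (16 : ℤ) ∣ dotInt (v : GolayPt → ℤ) (w : GolayPt → ℤ) := by
  have hP := M.pre
  have h1 := M.cl_sq ha
  have h2 := M.cl_sq hb
  have h3 := M.cl_sq (M.cl_mul ha hb)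
  have h4 : sqNorm ((v + w : leechLattice) : GolayPt → ℤ) = sqNorm (v : GolayPt → ℤ) + 2 * dotInt (v : GolayPt → ℤ) (w : GolayPt → ℤ) + sqNorm (w : GolayPt → ℤ) :=
    LeechMin.sqNorm_add _ _
  rw [h4] at h3
  have h5 : (16 : ℤ) ∣ sqNorm (v : GolayPt → ℤ) := LeechGen.sixteen_dvd_norm v.2
  have h6 : (16 : ℤ) ∣ sqNorm (w : GolayPt → ℤ) := LeechGen.sixteen_dvd_norm w.2
  have h7 : (8 : ℤ) ∣ dotInt (v : GolayPt → ℤ) (w : GolayPt → ℤ) := LeechGen.eight_dvd_dot v.2 w.2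
  have hzz := hP.sq
  have hne := hP.ne
  have hbz := hP.cen b hb.mem
  have haz := hP.cen a ha.mem
  have key1 : a * b = b * a → (a * b) * (a * b) = (a * a) * (b * b) := by
    intro h
    calc (a * b) * (a * b) = a * (b * a) * b := by group
      _ = (a * a) * (b * b) := by rw [← h]; group
  have key2 : a * b = z * (b * a) → (a * b) * (a * b) = z * ((a * a) * (b * b)) := by
    intro h
    have h' : b * a = z * (a * b) := by rw [h, ← mul_assoc, hzz, one_mul]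
    calc (a * b) * (a * b) = a * (b * a) * b := by group
      _ = (a * z) * (a * b) * b := by rw [h']; group
      _ = z * ((a * a) * (b * b)) := by rw [haz]; group
  rcases hP.comm a ha.mem b hb.mem with h | h
  · refine ⟨fun _ => ?_, fun _ => h⟩
    rw [key1 h] at h3
    rcases hP.qsq a ha.mem with h8 | h8 <;> rcases hP.qsq b hb.mem with h9 | h9 <;> rw [h8] at h1 h3 <;> rw [h9] at h2 h3
    · simp at h1 h2 h3; omega
    · simp [hne] at h1 h2 h3; omega
    · simp [hne] at h1 h2 h3; omega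
    · simp [hne, hzz] at h1 h2 h3; omega
  · have hnab : ¬ a * b = b * a := by
      intro h'
      rw [h'] at h
      exact hne (right_eq_mul.1 h)
    refine ⟨fun h' => absurd h' hnab, fun h' => ?_⟩
    exfalso
    rw [key2 h] at h3
    rcases hP.qsq a ha.mem with h8 | h8 <;> rcases hP.qsq b hb.mem with h9 | h9 <;> rw [h8] at h1 h3 <;> rw [h9] at h2 h3
    · simp [hne] at h1 h2 h3; omega
    · simp [hne, hzz] at h1 h2 h3; omega
    · simp [hne, hzz] at h1 h2 h3; omega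
    · simp [hne, hzz] at h1 h2 h3; omega

theorem Mon.ne_of_short {s : G} {v : leechLattice} (hs : Cl ψ s v) (h0 : v ≠ 0) (hn : sqNorm (v : GolayPt → ℤ) ≤ 64) :
    s ≠ 1 ∧ s ≠ z := by
  rw [← not_or]
  intro h
  obtain ⟨u, hu⟩ := M.cl_unique hs (M.cl_zero.2 h)
  rw [sub_zero] at hu
  have hu0 : u ≠ 0 := by rintro rfl; rw [add_zero] at hu; exact h0 hu
  have h5 := LeechMin.min_norm u.2 (fun h => hu0 (Subtype.ext h))
  have h6 : sqNorm (v : GolayPt → ℤ) = 4 * sqNorm (u : GolayPt → ℤ) := by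
    rw [hu, ← LeechMin.sqNorm_two_smul, two_smul]; rfl
  omega

omit M [Finite G] in
theorem ne_zero_of_norm {v : leechLattice} {n : ℤ} (h : sqNorm (v : GolayPt → ℤ) = n) (hn : n ≠ 0) : v ≠ 0 := by
  rintro rfl; apply hn; rw [← h]; simp [sqNorm]

omit [Finite G] M in
theorem pm_of_dbl {v w : leechLattice} (hv : sqNorm (v : GolayPt → ℤ) = 32) (hw : sqNorm (w : GolayPt → ℤ) = 32)
    (h : dbl v w) : v = w ∨ v = -w := by
  rcases q2_short (by rw [hv]; norm_num) (by rw [hw]; norm_num) (q2_eq_iff.2 h) with h | h | h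
  · exact Or.inl h
  · exact Or.inr h
  · omega

/-- normal 2-subgroups of `C_C(t)`, `t` of type 2 -/
theorem Mon.normal_two_le {t : G} {u : leechLattice} (ht : Cl ψ t u) (hu : sqNorm (u : GolayPt → ℤ) = 32) {Y : Subgroup G}
    (hY : Y ≤ Subgroup.centralizer ({z} : Set G) ⊓ Subgroup.centralizer ({t} : Set G)) (hp : IsPGroup 2 Y)
    (hn : ∀ h ∈ Subgroup.centralizer ({z} : Set G) ⊓ Subgroup.centralizer ({t} : Set G), ∀ y ∈ Y, h * y * h⁻¹ ∈ Y) :
    Y ≤ QG Q := by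
  have hne := M.ne_of_short ht (ne_zero_of_norm hu (by norm_num)) (by rw [hu]; norm_num)
  have hK : ∀ k ∈ hat e Y, k • u = u ∨ k • u = -u := by
    intro k hk
    exact pm_of_dbl ((sqNorm_smul k u).trans hu) hu ((M.mem_hat_cent ht hne.1 hne.2).1 (hat_mono hY hk))
  have hK0 : hat e Y ⊓ MulAction.stabilizer Co0 u = ⊥ := by
    apply H89Co2Core.core hu
    · exact (hat_isPGroup hp).to_le inf_le_left
    · rintro k ⟨-, hk⟩; exact hk
    · rintro g0 hg0 k ⟨hk1, hk2⟩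
      have h3 : g0 ∈ hat e (Subgroup.centralizer ({z} : Set G) ⊓ Subgroup.centralizer ({t} : Set G)) := by
        rw [M.mem_hat_cent ht hne.1 hne.2, hg0]
        exact ⟨0, by rw [sub_self, add_zero]⟩
      obtain ⟨h, hh, hhg⟩ := h3
      refine ⟨hat_conj hhg (hn h hh) hk1, ?_⟩
      show (g0 * k * g0⁻¹) • u = u
      have h4 : k • u = u := hk2
      have h5 : g0⁻¹ • u = u := by rw [inv_smul_eq_iff]; exact hg0.symm
      rw [mul_smul, mul_smul, h5, h4, hg0]
  intro y hy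
  obtain ⟨k, hk⟩ := exists_g e (hY hy).1
  rw [← Rl.one_iff (e := e)]
  have hkY : k ∈ hat e Y := ⟨y, hy, hk⟩
  rcases hK k hkY with h | h
  · have : k ∈ hat e Y ⊓ MulAction.stabilizer Co0 u := ⟨hkY, h⟩
    rw [hK0, Subgroup.mem_bot] at this
    rwa [this] at hk
  · have : negOne * k ∈ hat e Y ⊓ MulAction.stabilizer Co0 u := by
      refine ⟨Subgroup.mul_mem _ (negOne_mem_hat Y) hkY, ?_⟩
      show (negOne * k) • u = u
      rw [mul_smul, h, negOne_smul, neg_neg]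
    rw [hK0, Subgroup.mem_bot] at this
    have h2 := hk.negOne
    rwa [this] at h2

/-- the centralizer of `C_Q(t)/⟨t⟩` -/
theorem Mon.cent_le {t : G} {u : leechLattice} (ht : Cl ψ t u) (hu : sqNorm (u : GolayPt → ℤ) = 32) {x : G}
    (hx : x ∈ Subgroup.centralizer ({z} : Set G) ⊓ Subgroup.centralizer ({t} : Set G))
    (hc : ∀ y ∈ QG Q, y * t = t * y → x * y * x⁻¹ = y ∨ x * y * x⁻¹ = t * y) : x ∈ QG Q := by
  have hne := M.ne_of_short ht (ne_zero_of_norm hu (by norm_num)) (by rw [hu]; norm_num)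
  obtain ⟨g, hg, hgu⟩ : ∃ g, Rl e x g ∧ g • u = u := by
    obtain ⟨g, hg⟩ := exists_g e hx.1
    have h1 : g ∈ hat e (Subgroup.centralizer ({z} : Set G) ⊓ Subgroup.centralizer ({t} : Set G)) := ⟨x, hx, hg⟩
    rw [M.mem_hat_cent ht hne.1 hne.2] at h1
    rcases pm_of_dbl ((sqNorm_smul g u).trans hu) hu h1 with h | h
    · exact ⟨g, hg, h⟩
    · exact ⟨_, hg.negOne, by rw [mul_smul, h, negOne_smul, neg_neg]⟩
  have h1 : g = 1 := by
    apply H89Co2Core.eq_one_of_pairs hu hgu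
    intro w hw hd
    obtain ⟨y, hy⟩ := M.exists_el w
    have hyt : y * t = t * y := by
      rw [M.comm_iff hy ht, H89Co2Core.dot_eq_comm, hd]; norm_num
    have h2 := M.cl_conj hy hg
    rcases hc y hy.mem hyt with h3 | h3
    · rw [h3] at h2
      exact pm_of_dbl ((sqNorm_smul g w).trans hw) hw (M.cl_unique h2 hy)
    · exfalso
      rw [h3] at h2
      have h4 := M.cl_unique h2 (M.cl_mul ht hy)
      have h5 : sqNorm ((g • w : leechLattice) : GolayPt → ℤ) = 32 := (sqNorm_smul g w).trans hw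
      have h6 : sqNorm ((u + w : leechLattice) : GolayPt → ℤ) = 64 := by
        have : sqNorm ((u + w : leechLattice) : GolayPt → ℤ) = sqNorm (u : GolayPt → ℤ) + 2 * dotInt (u : GolayPt → ℤ) (w : GolayPt → ℤ) + sqNorm (w : GolayPt → ℤ) :=
          LeechMin.sqNorm_add _ _
        rw [this, hu, hw, hd]; norm_num
      have h7 := sqNorm_eq_of_q2 (by rw [h5]; norm_num) (by rw [h6]) (q2_eq_iff.2 h4)
      omega
  rw [h1] at hg
  exact Rl.one_iff.1 hg

omit M [Finite G] in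
/-- two octads meeting in two points -/
theorem exists_octads : ∃ C ∈ LeechMin.Sup, ∃ C' ∈ LeechMin.Sup, (C ∩ C').card = 2 ∧ C.card = 8 := by
  refine ⟨_, (Golay.bas_octad 0 (by norm_num)).1, _, (Golay.bas_octad 8 (by norm_num)).1, ?_, (Golay.bas_octad 0 (by norm_num)).2⟩
  decide +kernel

/-- `z` is not weakly closed in `C_Q(t)` with respect to `C(t)`, even modulo `t` -/
theorem Mon.exists_move (hnwc : ∃ g : G, (∃ hq : g * z * g⁻¹ ∈ Subgroup.centralizer ({z} : Set G),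
    (⟨g * z * g⁻¹, hq⟩ : Subgroup.centralizer ({z} : Set G)) ∈ Q) ∧ g * z * g⁻¹ ≠ z)
    {t : G} {u : leechLattice} (ht : Cl ψ t u) (hu : sqNorm (u : GolayPt → ℤ) = 32) :
    ∃ h : G, h * t = t * h ∧ h * z * h⁻¹ ∈ QG Q ∧ (h * z * h⁻¹) * t = t * (h * z * h⁻¹) ∧ h * z * h⁻¹ ≠ z ∧
      h * z * h⁻¹ ≠ t * z := by
  obtain ⟨s, w, hs, hw, hc⟩ := M.exists_four hnwc
  obtain ⟨g, hg⟩ := isConj_iff.1 hc
  have hsne := M.ne_of_short hs (ne_zero_of_norm hw (by norm_num)) (by rw [hw])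
  have p := M.pair hs.mem hsne.2 hg
  obtain ⟨g0, hg0⟩ := M.exists_std hw
  obtain ⟨C, hC, C', hC', hcard, hC8⟩ := exists_octads
  -- the sign change
  let k' : Co0 := ⟨LeechMin.mono 1 M24.one_mem C' hC', LeechMin.mono_mem _ _ _ _⟩
  have hk' : k' ∈ H89Mono.T := ⟨C', hC', fun v => rfl⟩
  rw [← M.hat_B_eq hs hw p hg0] at hk'
  obtain ⟨k, ⟨b, hb, hbk⟩, hkk⟩ := hk'
  have hkk' : g0 * k * g0⁻¹ = k' := hkk
  let w0 : leechLattice := ⟨fun i => 2 * LeechMin.chi C i, two_chi_mem hC⟩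
  obtain ⟨y, hy⟩ := M.exists_el (g0⁻¹ • w0)
  have hys : y * s = s * y := by
    rw [M.comm_iff hy hs]
    have h1 : dotInt ((g0⁻¹ • w0 : leechLattice) : GolayPt → ℤ) (w : GolayPt → ℤ) =
        dotInt (w0 : GolayPt → ℤ) (ef none : GolayPt → ℤ) := by
      rw [← hg0, ← dot_smul g0, smul_inv_smul]
    rw [h1, H89Co2Core.dot_eq_comm, H89Co2Core.dot_ef]
    show (16 : ℤ) ∣ 8 * (2 * LeechMin.chi C none)
    exact ⟨LeechMin.chi C none, by ring⟩
  set t' := y * (b * y⁻¹ * b⁻¹) with ht'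
  have ht'1 : t' ∈ QG Q := by
    apply mul_mem hy.mem
    exact M.pre.norm b (Subgroup.mem_centralizer_singleton_iff.1 hb.2) _ (inv_mem hy.mem)
  have ht'2 : t' ∈ cQ Q g := by
    have : t' = (y * b * y⁻¹) * b⁻¹ := by rw [ht']; group
    rw [this]
    exact mul_mem (p.h1.norm y hys b hb.1) (inv_mem hb.1)
  -- the class of t'
  have hyinv : Cl ψ y⁻¹ (-(g0⁻¹ • w0)) := by
    obtain ⟨v, hv⟩ := M.exists_cl (inv_mem hy.mem)
    have h1 := M.cl_mul hy hv
    rw [mul_inv_cancel] at h1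
    have h2 := M.cl_unique h1 (M.cl_zero.2 (Or.inl rfl))
    apply M.cl_congr hv
    obtain ⟨r, hr⟩ := h2
    rw [sub_zero] at hr
    refine ⟨r, ?_⟩
    rw [sub_neg_eq_add, add_comm, hr]
  have h1 := M.cl_mul hy (M.cl_conj hyinv hbk)
  have h2 : g0⁻¹ • w0 + k • (-(g0⁻¹ • w0)) = g0⁻¹ • (w0 - k' • w0) := by
    have h3 : k • (-(g0⁻¹ • w0)) = -(g0⁻¹ • k' • w0) := by
      rw [smul_neg', ← mul_smul, ← mul_smul, ← hkk']
      congr 2
      group
    have h4 : g0⁻¹ • (w0 - k' • w0) = g0⁻¹ • w0 - g0⁻¹ • k' • w0 := by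
      rw [sub_eq_add_neg, smul_add', smul_neg', sub_eq_add_neg]
    rw [h3, h4, sub_eq_add_neg]
  rw [h2] at h1
  have h3 : sqNorm ((g0⁻¹ • (w0 - k' • w0) : leechLattice) : GolayPt → ℤ) = 32 := by
    rw [sqNorm_smul]
    have h4 : ((w0 - k' • w0 : leechLattice) : GolayPt → ℤ) = fun i => 4 * LeechMin.chi (C ∩ C') i := by
      funext i
      show 2 * LeechMin.chi C i - signedPerm 1 C' (fun i => 2 * LeechMin.chi C i) i = _
      rw [H89Co2Core.sp_one]
      rcases LeechMin.chi_cases C i with ⟨h5, h6⟩ | ⟨h5, h6⟩ <;> rcases LeechMin.chi_cases C' i with ⟨h7, h8⟩ | ⟨h7, h8⟩ <;>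
        rw [h6, h8] <;> simp [LeechMin.chi, h5, h7]
    rw [h4, LeechIrr.sqNorm_four_chi, hcard]; norm_num
  have ht'c : Cl ψ t' (g0⁻¹ • (w0 - k' • w0)) := h1
  have ht'ne := M.ne_of_short ht'c (ne_zero_of_norm h3 (by norm_num)) (by rw [h3]; norm_num)
  have ht'sq : t' * t' = 1 := Pair_D_sq p t' ⟨ht'1, ht'2⟩
  have ht'nc : ¬ IsConj z t' := fun h => M.no_two ht'c h3 h
  -- pull back by g
  set r := g⁻¹ * t' * g with hr
  have hrQ : r ∈ QG Q := mem_map_conj_iff.1 ht'2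
  have hrne1 : r ≠ 1 := by
    intro h
    apply ht'ne.1
    have : t' = g * r * g⁻¹ := by rw [hr]; group
    rw [this, h]; group
  have hrc : IsConj t' r := isConj_iff.2 ⟨g⁻¹, by rw [hr]; group⟩
  have hrz : r ≠ z := by
    intro h
    apply ht'nc
    rw [← h]; exact hrc.symm
  have hrsq : r * r = 1 := by
    rw [hr]
    calc g⁻¹ * t' * g * (g⁻¹ * t' * g) = g⁻¹ * (t' * t') * g := by group
      _ = 1 := by rw [ht'sq]; group
  obtain ⟨vr, hvr, hvrn, hvr0⟩ := M.exists_short hrQ hrne1 hrz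
  have hvr32 : sqNorm (vr : GolayPt → ℤ) = 32 := by
    rcases norm_cases hvr0 hvrn ((M.cl_sq hvr).1 hrsq) with h | h
    · exact h
    · exfalso
      apply ht'nc
      exact ((M.type_four hnwc hrQ).2 ⟨vr, h, hvr⟩).1.trans hrc.symm
  obtain ⟨c, hc, hcr⟩ := M.fuse hvr ht'c hvr0 hvrn (by rw [hvr32, h3])
  obtain ⟨c', hc', hct⟩ := M.fuse ht'c ht (ne_zero_of_norm h3 (by norm_num)) (by rw [h3]; norm_num) (by rw [h3, hu])
  rw [Subgroup.mem_centralizer_singleton_iff] at hc hc'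
  have hcz : c⁻¹ * z * c = z := by rw [mul_assoc, ← hc]; group
  have hc'z : c'⁻¹ * z * c' = z := by rw [mul_assoc, ← hc']; group
  set h := c' * g * c⁻¹ * c'⁻¹ with hh
  have hhz : h * z * h⁻¹ = c' * s * c'⁻¹ := by
    calc h * z * h⁻¹ = c' * g * (c⁻¹ * (c'⁻¹ * z * c') * c) * g⁻¹ * c'⁻¹ := by rw [hh]; group
      _ = c' * (g * z * g⁻¹) * c'⁻¹ := by rw [hc'z, hcz]; group
      _ = c' * s * c'⁻¹ := by rw [hg]
  have hht : h * t * h⁻¹ = t := by
    have e1 : c'⁻¹ * t * c' = t' := by rw [← hct]; group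
    have e2 : c⁻¹ * t' * c = r := by rw [← hcr]; group
    calc h * t * h⁻¹ = c' * g * (c⁻¹ * (c'⁻¹ * t * c') * c) * g⁻¹ * c'⁻¹ := by rw [hh]; group
      _ = c' * (g * r * g⁻¹) * c'⁻¹ := by rw [e1, e2]; group
      _ = c' * t' * c'⁻¹ := by rw [hr]; group
      _ = t := hct
  refine ⟨h, ?_, ?_, ?_, ?_, ?_⟩
  · rwa [mul_inv_eq_iff_eq_mul] at hht
  · rw [hhz]; exact M.pre.norm c' hc' s hs.mem
  · rw [hhz]
    have e1 : s * t' = t' * s := by
      have := p.h1.cen t' ht'2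
      exact this.symm
    rw [← hct]
    calc c' * s * c'⁻¹ * (c' * t' * c'⁻¹) = c' * (s * t') * c'⁻¹ := by group
      _ = c' * (t' * s) * c'⁻¹ := by rw [e1]
      _ = _ := by group
  · rw [hhz]
    intro h
    apply hsne.2
    have : s = c'⁻¹ * (c' * s * c'⁻¹) * c' := by group
    rw [this, h, hc'z]
  · intro h4
    have h5 : IsConj z (t * z) := by rw [← h4]; exact isConj_iff.2 ⟨h, rfl⟩
    have h6 : Cl ψ (t * z) u := by
      have h7 := M.cl_z_mul ht
      rwa [← M.pre.cen t ht.mem] at h7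
    exact M.no_two h6 hu h5

end

end Cfsg.Agent.Lib.H89Mon1
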