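import Cfsg.Agent.Lib.H89Mon5
import Cfsg.Agent.Lib.CharPLocal
import Cfsg.Agent.Lib.AmalgamCharP

/-!
# Groups of Monster type (helper89): the centralizer of a type 2 involution modulo the involution
-/

set_option autoImplicit false
set_option linter.all false

namespace Cfsg.Agent.Lib.H89Mon1

open Cfsg Cfsg.Agent.Lib.LargeExtra Cfsg.Agent.Lib.LeechTrans Cfsg.Agent.Lib.LeechCo2 Cfsg.Agent.Lib.LeechFrame
  Cfsg.Agent.Lib.LeechOrder Cfsg.Agent.Lib.LeechQuot
open scoped Pointwise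

variable {G : Type*} [Group G] {z : G} {Q : Subgroup (Subgroup.centralizer ({z} : Set G))} [Q.Normal]
  {e : (Subgroup.centralizer ({z} : Set G)) ⧸ Q ≃* Spor.Co1} {ψ : leechLattice → Q ⧸ Subgroup.center Q}

/-- twisting the identification by an element of `Co0` -/
theorem twist (hψ : IsLeechModTwoIso Q e ψ) (g0 : Co0) :
    IsLeechModTwoIso Q (e.trans (MulAut.conj (QuotientGroup.mk g0 : Spor.Co1))) (fun v => ψ (g0⁻¹ • v)) := by
  obtain ⟨h1, h2, h3, h4⟩ := hψ
  refine ⟨?_, ?_, ?_, ?_⟩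
  · intro v w
    show ψ (g0⁻¹ • (v + w)) = _
    rw [smul_add', h1]
  · intro q
    obtain ⟨v, hv⟩ := h2 q
    exact ⟨g0 • v, by show ψ (g0⁻¹ • g0 • v) = q; rw [inv_smul_smul, hv]⟩
  · intro v
    show ψ (g0⁻¹ • v) = 1 ↔ _
    rw [h3]
    constructor
    · rintro ⟨w, hw⟩
      refine ⟨g0 • w, ?_⟩
      rw [← smul_add', ← hw, smul_inv_smul]
    · rintro ⟨w, hw⟩
      exact ⟨g0⁻¹ • w, by rw [← smul_add', hw]⟩
  · intro h g hg v q hv
    have h5 : (QuotientGroup.mk (g0⁻¹ * g * g0) : Spor.Co1) = e (QuotientGroup.mk h) := by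
      have h6 : (QuotientGroup.mk g : Spor.Co1) = QuotientGroup.mk g0 * e (QuotientGroup.mk h) * (QuotientGroup.mk g0)⁻¹ := hg
      rw [QuotientGroup.mk_mul, QuotientGroup.mk_mul, QuotientGroup.mk_inv, h6]
      group
    have h7 := h4 h (g0⁻¹ * g * g0) h5 (g0⁻¹ • v) q hv
    rw [← h7]
    show ψ (g0⁻¹ • g • v) = _
    rw [mul_smul, mul_smul, smul_inv_smul]

/-- the two-point stabilizer -/
abbrev AA (z t : G) : Subgroup G := Subgroup.centralizer ({z} : Set G) ⊓ Subgroup.centralizer ({t} : Set G)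

omit [Q.Normal] in
theorem mem_AA_of {t y : G} (hy : y ∈ QG Q) (hyt : y * t = t * y) : y ∈ AA z t := by
  refine ⟨?_, Subgroup.mem_centralizer_singleton_iff.2 hyt⟩
  obtain ⟨c, hc, rfl⟩ := hy
  exact c.2

section
variable {t : G} [hn : ((Subgroup.zpowers t).subgroupOf (Subgroup.centralizer ({t} : Set G))).Normal]

/-- the quotient `C(t)/⟨t⟩` -/
abbrev Hq (t : G) [((Subgroup.zpowers t).subgroupOf (Subgroup.centralizer ({t} : Set G))).Normal] : Type _ :=
  ↥(Subgroup.centralizer ({t} : Set G)) ⧸ (Subgroup.zpowers t).subgroupOf (Subgroup.centralizer ({t} : Set G))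

/-- image of `z` -/
abbrev zq (hzt : z ∈ Subgroup.centralizer ({t} : Set G)) : Hq t := QuotientGroup.mk ⟨z, hzt⟩

/-- the map of the two-point stabilizer onto the centralizer of the image of `z` -/
def fA (hzt : z ∈ Subgroup.centralizer ({t} : Set G)) :
    ↥(AA z t) →* ↥(Subgroup.centralizer ({zq hzt} : Set (Hq t))) :=
  ((QuotientGroup.mk' ((Subgroup.zpowers t).subgroupOf (Subgroup.centralizer ({t} : Set G)))).comp
    (Subgroup.inclusion (inf_le_right : AA z t ≤ Subgroup.centralizer ({t} : Set G)))).codRestrict _ (by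
      intro x
      rw [Subgroup.mem_centralizer_singleton_iff]
      show (QuotientGroup.mk (⟨x, x.2.2⟩ : ↥(Subgroup.centralizer ({t} : Set G))) : Hq t) * QuotientGroup.mk ⟨z, hzt⟩ =
        QuotientGroup.mk ⟨z, hzt⟩ * QuotientGroup.mk ⟨x, x.2.2⟩
      rw [← QuotientGroup.mk_mul, ← QuotientGroup.mk_mul]
      congr 1
      exact Subtype.ext (Subgroup.mem_centralizer_singleton_iff.1 x.2.1))

theorem fA_coe (hzt : z ∈ Subgroup.centralizer ({t} : Set G)) (x : AA z t) :
    ((fA hzt x : ↥(Subgroup.centralizer ({zq hzt} : Set (Hq t)))) : Hq t) = QuotientGroup.mk ⟨x, x.2.2⟩ := rfl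

theorem fA_eq_iff (ht2 : t * t = 1) (hzt : z ∈ Subgroup.centralizer ({t} : Set G)) {x y : AA z t} :
    fA hzt x = fA hzt y ↔ (y : G) = x ∨ (y : G) = t * x := by
  rw [← Subtype.coe_inj, fA_coe, fA_coe, QuotientGroup.eq, Subgroup.mem_subgroupOf]
  show (x : G)⁻¹ * (y : G) ∈ Subgroup.zpowers t ↔ _
  rw [mem_zpowers_of_sq ht2]
  have hxt : t * (x : G) = x * t := (Subgroup.mem_centralizer_singleton_iff.1 x.2.2).symm
  constructor
  · rintro (h | h)
    · left; exact (inv_mul_eq_one.1 h).symm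
    · right; rw [hxt]; exact inv_mul_eq_iff_eq_mul.1 h
  · rintro (h | h)
    · left; rw [h, inv_mul_cancel]
    · right; rw [h, hxt, inv_mul_cancel_left]

theorem fA_eq_one_iff (ht2 : t * t = 1) (hzt : z ∈ Subgroup.centralizer ({t} : Set G)) {y : AA z t} :
    fA hzt y = 1 ↔ (y : G) = 1 ∨ (y : G) = t := by
  have h := fA_eq_iff ht2 hzt (x := 1) (y := y)
  rw [map_one] at h
  rw [eq_comm, h]
  simp

theorem fA_surjective (ht2 : t * t = 1) (hzt : z ∈ Subgroup.centralizer ({t} : Set G)) (hc : ¬ IsConj z (z * t)) :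
    Function.Surjective (fA hzt) := by
  rintro ⟨d, hd⟩
  obtain ⟨⟨c, hct⟩, rfl⟩ := QuotientGroup.mk_surjective d
  have hcz : c ∈ Subgroup.centralizer ({z} : Set G) := by
    rw [Subgroup.mem_centralizer_singleton_iff] at hd ⊢
    rw [← QuotientGroup.mk_mul, ← QuotientGroup.mk_mul, QuotientGroup.eq, Subgroup.mem_subgroupOf] at hd
    have hd' : (c * z)⁻¹ * (z * c) ∈ Subgroup.zpowers t := hd
    rw [mem_zpowers_of_sq ht2] at hd'
    rcases hd' with h | h
    · exact inv_mul_eq_one.1 h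
    · exfalso
      apply hc
      rw [inv_mul_eq_iff_eq_mul] at h
      refine isConj_iff.2 ⟨c⁻¹, ?_⟩
      have hzt' := Subgroup.mem_centralizer_singleton_iff.1 hzt
      rw [inv_inv, mul_assoc, h]
      group
  refine ⟨⟨c, hcz, hct⟩, Subtype.ext ?_⟩
  rfl

end

section
variable [Finite G] (M : Mon z Q e ψ) {t : G} {u : leechLattice} (ht : Cl ψ t u)
  (hu : sqNorm (u : GolayPt → ℤ) = 32)
include M ht hu

theorem Mon.t_facts : t ≠ 1 ∧ t ≠ z ∧ t * t = 1 ∧ z ∈ Subgroup.centralizer ({t} : Set G) ∧ ¬ IsConj z (z * t) ∧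
    t ∈ QG Q := by
  have hne := M.ne_of_short ht (ne_zero_of_norm hu (by norm_num)) (by rw [hu]; norm_num)
  refine ⟨hne.1, hne.2, ?_, ?_, ?_, ht.mem⟩
  · rw [M.cl_sq ht, hu]
  · rw [Subgroup.mem_centralizer_singleton_iff]
    exact (M.pre.cen t ht.mem).symm
  · intro h
    exact M.no_two (M.cl_z_mul ht) hu h

variable [hn : ((Subgroup.zpowers t).subgroupOf (Subgroup.centralizer ({t} : Set G))).Normal]
  (hzt : z ∈ Subgroup.centralizer ({t} : Set G))

omit M ht hu [Finite G] [Q.Normal] in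
/-- `R` -/
def RR (Q : Subgroup (Subgroup.centralizer ({z} : Set G))) (hzt : z ∈ Subgroup.centralizer ({t} : Set G)) :
    Subgroup ↥(Subgroup.centralizer ({zq hzt} : Set (Hq t))) := ((QG Q).subgroupOf (AA z t)).map (fA hzt)

theorem Mon.RR_normal : (RR Q hzt).Normal := by
  obtain ⟨h1, h2, h3, h4, h5, h6⟩ := M.t_facts ht hu
  apply Subgroup.Normal.map _ _ (fA_surjective h3 hzt h5)
  constructor
  rintro ⟨q, hqA⟩ hq ⟨x, hx⟩
  exact M.pre.norm x (Subgroup.mem_centralizer_singleton_iff.1 hx.1) q hq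

/-- membership in `R` -/
theorem Mon.mem_RR {x : AA z t} : fA hzt x ∈ RR Q hzt ↔ (x : G) ∈ QG Q := by
  obtain ⟨h1, h2, h3, h4, h5, h6⟩ := M.t_facts ht hu
  constructor
  · rintro ⟨y, hy, hyx⟩
    rcases (fA_eq_iff h3 hzt).1 hyx with h | h
    · rw [h]; exact hy
    · rw [h]; exact mul_mem h6 hy
  · intro h
    exact ⟨x, h, rfl⟩

/-- the central element -/
theorem Mon.exData : ExData (RR Q hzt) (fA hzt ⟨z, Subgroup.mem_centralizer_singleton_iff.2 rfl, hzt⟩) := by
  obtain ⟨h1, h2, h3, h4, h5, h6⟩ := M.t_facts ht hu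
  have hP := M.pre
  apply ExData.of
  · rw [← map_mul]
    have : (⟨z, Subgroup.mem_centralizer_singleton_iff.2 rfl, hzt⟩ : AA z t) * ⟨z, Subgroup.mem_centralizer_singleton_iff.2 rfl, hzt⟩ = 1 :=
      Subtype.ext hP.sq
    rw [this, map_one]
  · intro h
    rcases (fA_eq_one_iff h3 hzt).1 h with h | h
    · exact hP.ne h
    · exact h2 h.symm
  · exact (M.mem_RR ht hu hzt).2 hP.mem
  · rintro _ ⟨q, hq, rfl⟩
    rw [← map_mul, ← map_mul]
    congr 1
    exact Subtype.ext (hP.cen q hq)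
  · rintro _ ⟨a, ha, rfl⟩ _ ⟨b, hb, rfl⟩
    rcases hP.comm a ha b hb with h | h
    · left
      rw [← map_mul, ← map_mul]; congr 1; exact Subtype.ext h
    · right
      rw [← map_mul, ← map_mul, ← map_mul]; congr 1; exact Subtype.ext h
  · rintro _ ⟨q, hq, rfl⟩ hc
    have h7 : ∀ p ∈ QG Q, p * t = t * p → p * (q : G) = (q : G) * p := by
      intro p hp hpt
      have hpA := mem_AA_of hp hpt
      have h8 := hc (fA hzt ⟨p, hpA⟩) ((M.mem_RR ht hu hzt).2 hp)
      rw [← map_mul, ← map_mul, fA_eq_iff h3 hzt] at h8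
      have h9 : p * (q : G) = q * p ∨ p * (q : G) = t * (q * p) := h8
      rcases h9 with h9 | h9
      · exact h9
      · rcases hP.comm p hp q hq with h10 | h10
        · exact h10
        · exfalso
          rw [h10] at h9
          exact h2 (mul_right_cancel h9).symm
    rcases hP.double_centralizer h6 h1 h2 hq h7 with h | h | h | h
    · left; exact (fA_eq_one_iff h3 hzt).2 (Or.inl h)
    · right; congr 1; exact Subtype.ext h
    · left; exact (fA_eq_one_iff h3 hzt).2 (Or.inr h)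
    · right
      rw [fA_eq_iff h3 hzt]
      right
      show z = t * (q : G)
      have hzt' := hP.cen t h6
      have h' : (q : G) = z * t := h
      rw [h', ← mul_assoc, hzt', mul_assoc, h3, mul_one]
  · obtain ⟨a, ha, b, hb, hat, hbt, hab⟩ := hP.exists_nonab_centralizer (by rw [M.card_QG]; norm_num) h6 h1 h2
    refine ⟨_, (M.mem_RR ht hu hzt (x := ⟨a, mem_AA_of ha hat⟩)).2 ha, _,
      (M.mem_RR ht hu hzt (x := ⟨b, mem_AA_of hb hbt⟩)).2 hb, ?_⟩
    intro h
    rw [← map_mul, ← map_mul, fA_eq_iff h3 hzt] at h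
    have h7 : b * a = a * b ∨ b * a = t * (a * b) := h
    rcases h7 with h7 | h7
    · exact hab h7.symm
    · rcases hP.comm b hb a ha with h8 | h8
      · exact hab h8.symm
      · rw [h8] at h7
        exact h2 (mul_right_cancel h7).symm

theorem Mon.card_RR : Nat.card (RR Q hzt) = 2 ^ 23 := by
  obtain ⟨h1, h2, h3, h4, h5, h6⟩ := M.t_facts ht hu
  have h7 := card_ker_range ((fA hzt).comp ((QG Q).subgroupOf (AA z t)).subtype)
  have h8 : ((fA hzt).comp ((QG Q).subgroupOf (AA z t)).subtype).range = RR Q hzt := by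
    ext x
    constructor
    · rintro ⟨⟨y, hy⟩, rfl⟩; exact ⟨y, hy, rfl⟩
    · rintro ⟨y, hy, rfl⟩; exact ⟨⟨y, hy⟩, rfl⟩
  have h9 : Nat.card ((fA hzt).comp ((QG Q).subgroupOf (AA z t)).subtype).ker = 2 := by
    have h10 : Nat.card (Subgroup.zpowers t) = 2 := by
      rw [Nat.card_zpowers]
      exact orderOf_eq_prime (by rw [pow_two]; exact h3) h1
    rw [← h10]
    have hA : Subgroup.zpowers t ≤ AA z t := by
      rw [Subgroup.zpowers_le]
      exact mem_AA_of h6 rfl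
    refine (Nat.card_congr (Equiv.ofBijective (fun g : Subgroup.zpowers t =>
      (⟨⟨⟨g.1, hA g.2⟩, ?_⟩, ?_⟩ : ((fA hzt).comp ((QG Q).subgroupOf (AA z t)).subtype).ker)) ⟨?_, ?_⟩)).symm
    · exact (Subgroup.zpowers_le.2 h6) g.2
    · exact (fA_eq_one_iff h3 hzt).2 ((mem_zpowers_of_sq h3).1 g.2)
    · intro g g' h
      have := congrArg (fun x : ((fA hzt).comp ((QG Q).subgroupOf (AA z t)).subtype).ker => (((x : ((QG Q).subgroupOf (AA z t))) : AA z t) : G)) h
      exact Subtype.ext this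
    · rintro ⟨⟨⟨x, hxA⟩, hxQ⟩, hx⟩
      have hx' : fA hzt ⟨x, hxA⟩ = 1 := hx
      exact ⟨⟨x, (mem_zpowers_of_sq h3).2 ((fA_eq_one_iff h3 hzt).1 hx')⟩, rfl⟩
  have h11 : Nat.card ((QG Q).subgroupOf (AA z t)) = Nat.card ↥(QG Q ⊓ Subgroup.centralizer ({t} : Set G)) :=
    Nat.card_congr
      { toFun := fun x => ⟨x.1.1, x.2, x.1.2.2⟩
        invFun := fun x => ⟨⟨x.1, mem_AA_of x.2.1 (Subgroup.mem_centralizer_singleton_iff.1 x.2.2)⟩, x.2.1⟩
        left_inv := fun x => rfl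
        right_inv := fun x => rfl }
  have h12 := H89ExCount.card_centralizer M.pre.toExData h6 h1 h2
  rw [M.card_QG] at h12
  rw [h8, h9, h11] at h7
  omega

end

end Cfsg.Agent.Lib.H89Mon1
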