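import Cfsg.Agent.Lib.H89Mon6

/-!
# Groups of Monster type (helper89): `C(t)/⟨t⟩` is of Baby Monster type
-/

set_option autoImplicit false
set_option linter.all false

namespace Cfsg.Agent.Lib.H89Mon1

open Cfsg Cfsg.Agent.Lib.LargeExtra Cfsg.Agent.Lib.LeechTrans Cfsg.Agent.Lib.LeechCo2 Cfsg.Agent.Lib.LeechFrame
  Cfsg.Agent.Lib.LeechOrder Cfsg.Agent.Lib.LeechQuot
open scoped Pointwise

variable {G : Type*} [Group G] {z : G} {Q : Subgroup (Subgroup.centralizer ({z} : Set G))} [Q.Normal]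
  {e : (Subgroup.centralizer ({z} : Set G)) ⧸ Q ≃* Spor.Co1} {ψ : leechLattice → Q ⧸ Subgroup.center Q}

section
variable [Finite G] (M : Mon z Q e ψ) {t : G} {u : leechLattice} (ht : Cl ψ t u)
  (hu : sqNorm (u : GolayPt → ℤ) = 32)
  [hn : ((Subgroup.zpowers t).subgroupOf (Subgroup.centralizer ({t} : Set G))).Normal]
  (hzt : z ∈ Subgroup.centralizer ({t} : Set G))
include M ht hu

theorem Mon.RR_isPGroup : IsPGroup 2 (RR Q hzt) :=
  (M.pre.isP.comap_of_injective (AA z t).subtype (Subgroup.subtype_injective _)).map _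

theorem Mon.normal_le_RR (S : Subgroup ↥(Subgroup.centralizer ({zq hzt} : Set (Hq t)))) (hS : S.Normal)
    (hp : IsPGroup 2 S) : S ≤ RR Q hzt := by
  obtain ⟨h1, h2, h3, h4, h5, h6⟩ := M.t_facts ht hu
  have hY : (S.comap (fA hzt)).map (AA z t).subtype ≤ QG Q := by
    apply M.normal_two_le ht hu
    · rintro _ ⟨y, hy, rfl⟩; exact y.2
    · apply IsPGroup.map
      rintro ⟨y, hy⟩
      obtain ⟨k, hk⟩ := hp ⟨_, hy⟩
      have hk' : (fA hzt y) ^ 2 ^ k = 1 := congrArg Subtype.val hk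
      rw [← map_pow, fA_eq_one_iff h3 hzt] at hk'
      refine ⟨k + 1, Subtype.ext (Subtype.ext ?_)⟩
      show (y : G) ^ 2 ^ (k + 1) = 1
      have hk2 : (y : G) ^ 2 ^ k = 1 ∨ (y : G) ^ 2 ^ k = t := hk'
      rw [pow_succ, pow_mul, pow_two]
      rcases hk2 with h | h <;> rw [h]
      · rw [one_mul]
      · exact h3
    · rintro h hh _ ⟨y, hy, rfl⟩
      refine ⟨⟨h, hh⟩ * y * ⟨h, hh⟩⁻¹, ?_, rfl⟩
      show fA hzt _ ∈ S
      rw [map_mul, map_mul, map_inv]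
      exact hS.conj_mem _ hy _
  intro s hs
  obtain ⟨y, rfl⟩ := fA_surjective h3 hzt h5 s
  rw [M.mem_RR ht hu]
  exact hY ⟨y, hs, rfl⟩

theorem Mon.cent_RR_le : Subgroup.centralizer (RR Q hzt : Set ↥(Subgroup.centralizer ({zq hzt} : Set (Hq t)))) ≤ RR Q hzt := by
  obtain ⟨h1, h2, h3, h4, h5, h6⟩ := M.t_facts ht hu
  intro s hs
  obtain ⟨a, rfl⟩ := fA_surjective h3 hzt h5 s
  rw [M.mem_RR ht hu]
  apply M.cent_le ht hu a.2
  intro y hy hyt
  have hyA := mem_AA_of hy hyt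
  have h7 := Subgroup.mem_centralizer_iff.1 hs (fA hzt ⟨y, hyA⟩) ((M.mem_RR ht hu hzt).2 hy)
  have h8 : fA hzt ⟨y, hyA⟩ = fA hzt (a * ⟨y, hyA⟩ * a⁻¹) := by
    rw [map_mul, map_mul, map_inv, ← h7, mul_inv_cancel_right]
  exact (fA_eq_iff h3 hzt).1 h8

theorem Mon.genFitting : generalizedFittingSubgroup ↥(Subgroup.centralizer ({zq hzt} : Set (Hq t))) = RR Q hzt := by
  haveI : Fact (Nat.Prime 2) := ⟨Nat.prime_two⟩
  have hcore : pCore 2 ↥(Subgroup.centralizer ({zq hzt} : Set (Hq t))) = RR Q hzt := by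
    apply le_antisymm
    · exact M.normal_le_RR ht hu hzt _ (pCore_normal' (p := 2)) (isPGroup_pCore (p := 2))
    · exact AmalgamCharP.le_pCore (M.RR_normal ht hu hzt) (M.RR_isPGroup ht hu hzt)
  rw [← hcore, CharPLocal.genFitting_eq_pCore_iff, hcore]
  exact M.cent_RR_le ht hu hzt

/-- the setting -/
theorem Mon.setting (hnwc : ∃ g : G, (∃ hq : g * z * g⁻¹ ∈ Subgroup.centralizer ({z} : Set G),
    (⟨g * z * g⁻¹, hq⟩ : Subgroup.centralizer ({z} : Set G)) ∈ Q) ∧ g * z * g⁻¹ ≠ z) :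
    IsExtraspecialCentralizerSetting (zq hzt) (RR Q hzt) 11 := by
  obtain ⟨h1, h2, h3, h4, h5, h6⟩ := M.t_facts ht hu
  have hX := M.exData ht hu hzt
  refine ⟨?_, M.genFitting ht hu hzt, isExtraspecial_of_exData hX, M.card_RR ht hu hzt, ?_⟩
  · have h7 := hX.orderOf
    rw [← Subgroup.orderOf_coe] at h7
    exact h7
  · obtain ⟨h, hht, hhQ, hhc, hhz, hhtz⟩ := M.exists_move hnwc ht hu
    have hhA := mem_AA_of hhQ hhc
    have h7 := (M.mem_RR ht hu hzt (x := ⟨_, hhA⟩)).2 hhQ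
    refine ⟨QuotientGroup.mk ⟨h, Subgroup.mem_centralizer_singleton_iff.2 hht⟩, ⟨(fA hzt ⟨_, hhA⟩).2, h7⟩, ?_⟩
    intro h8
    have h9 : ((fA hzt ⟨_, hhA⟩ : ↥(Subgroup.centralizer ({zq hzt} : Set (Hq t)))) : Hq t) =
        (fA hzt ⟨z, Subgroup.mem_centralizer_singleton_iff.2 rfl, hzt⟩ : ↥(Subgroup.centralizer ({zq hzt} : Set (Hq t)))) := h8
    rcases (fA_eq_iff h3 hzt).1 (Subtype.ext h9).symm with h10 | h10
    · exact hhz h10
    · exact hhtz h10

end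

/-! ### the second Conway group -/

def toCo0 (g : Spor.Co2) : Co0 := ⟨g.1, g.2.1⟩

theorem toCo0_smul (g : Spor.Co2) (v : leechLattice) : toCo0 g • v = g • v := rfl

theorem toCo0_fix (g : Spor.Co2) : toCo0 g • Spor.leechU = Spor.leechU := g.2.2

def ofCo0 (g : Co0) (h : g • Spor.leechU = Spor.leechU) : Spor.Co2 := ⟨g.1, g.2, h⟩

theorem leechU_eq : Spor.leechU = H89Co2Core.qq (a := none) (b := some 0) ne_pts := by
  apply Subtype.ext
  funext i
  rw [H89Co2Core.qq_apply]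
  show (if i = none ∨ i = some 0 then (4 : ℤ) else 0) = _
  by_cases h1 : i = none
  · subst h1; simp
  · by_cases h2 : i = some 0
    · subst h2; simp
    · simp [h1, h2]

theorem norm_leechU : sqNorm (Spor.leechU : GolayPt → ℤ) = 32 := by
  rw [leechU_eq]; exact H89Co2Core.sqNorm_qq ne_pts

section
variable [Finite G] (M : Mon z Q e ψ) {t : G} (ht : Cl ψ t Spor.leechU)
  [hn : ((Subgroup.zpowers t).subgroupOf (Subgroup.centralizer ({t} : Set G))).Normal]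
  (hzt : z ∈ Subgroup.centralizer ({t} : Set G))
include M ht

/-- every element of the two-point stabilizer acts as an element of `Co2` -/
theorem Mon.exists_co2 (x : AA z t) : ∃ g : Spor.Co2, Rl e (x : G) (toCo0 g) := by
  have hu := norm_leechU
  obtain ⟨h1, h2, h3, h4, h5, h6⟩ := M.t_facts ht hu
  obtain ⟨g, hg⟩ := exists_g e x.2.1
  have h7 : g ∈ hat e (AA z t) := ⟨x, x.2, hg⟩
  rw [M.mem_hat_cent ht h1 h2] at h7
  rcases pm_of_dbl ((sqNorm_smul g _).trans hu) hu h7 with h | h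
  · exact ⟨ofCo0 g h, hg⟩
  · exact ⟨ofCo0 (negOne * g) (by rw [mul_smul, h, negOne_smul, neg_neg]), hg.negOne⟩

theorem Mon.exists_AA (g : Spor.Co2) : ∃ x : AA z t, Rl e (x : G) (toCo0 g) := by
  have hu := norm_leechU
  obtain ⟨h1, h2, h3, h4, h5, h6⟩ := M.t_facts ht hu
  have h7 : toCo0 g ∈ hat e (AA z t) := by
    rw [M.mem_hat_cent ht h1 h2, toCo0_fix]
    exact ⟨0, by rw [sub_self, add_zero]⟩
  obtain ⟨x, hx, hxg⟩ := h7
  exact ⟨⟨x, hx⟩, hxg⟩

omit [Finite G] M ht in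
theorem co2_unique {h : G} {g g' : Spor.Co2} (H : Rl e h (toCo0 g)) (H' : Rl e h (toCo0 g')) : g = g' := by
  rcases H.eq H' with h1 | h1
  · apply Subtype.ext
    exact (congrArg Subtype.val h1).symm
  · exfalso
    have h2 := toCo0_fix g'
    rw [h1, mul_smul, toCo0_fix, negOne_smul] at h2
    have h3 := congrFun (congrArg Subtype.val h2) none
    have h4 : -(Spor.vecU none) = Spor.vecU none := h3
    simp [Spor.vecU] at h4

theorem Mon.exists_equiv [hR : (RR Q hzt).Normal] : ∃ e' : ↥(Subgroup.centralizer ({zq hzt} : Set (Hq t))) ⧸ RR Q hzt ≃* Spor.Co2,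
    ∀ (x : AA z t) (g : Spor.Co2), Rl e (x : G) (toCo0 g) → e' (QuotientGroup.mk (fA hzt x)) = g := by
  have hu := norm_leechU
  obtain ⟨h1, h2, h3, h4, h5, h6⟩ := M.t_facts ht hu
  let Γ : Subgroup ((↥(Subgroup.centralizer ({zq hzt} : Set (Hq t))) ⧸ RR Q hzt) × Spor.Co2) :=
    { carrier := {p | ∃ x : AA z t, p.1 = QuotientGroup.mk (fA hzt x) ∧ Rl e (x : G) (toCo0 p.2)}
      one_mem' := ⟨1, by rw [map_one]; rfl, Rl.one⟩
      mul_mem' := by
        rintro p q ⟨x, hx, hx'⟩ ⟨y, hy, hy'⟩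
        refine ⟨x * y, ?_, hx'.mul hy'⟩
        rw [map_mul, QuotientGroup.mk_mul, ← hx, ← hy]; rfl
      inv_mem' := by
        rintro p ⟨x, hx, hx'⟩
        refine ⟨x⁻¹, ?_, hx'.inv⟩
        rw [map_inv, QuotientGroup.mk_inv, ← hx]; rfl }
  have c1 : ∀ d, ∃ g, (d, g) ∈ Γ := by
    intro d
    obtain ⟨d, rfl⟩ := QuotientGroup.mk_surjective d
    obtain ⟨x, rfl⟩ := fA_surjective h3 hzt h5 d
    obtain ⟨g, hg⟩ := M.exists_co2 ht x
    exact ⟨g, x, rfl, hg⟩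
  have c2 : ∀ g, ∃ d, (d, g) ∈ Γ := by
    intro g
    obtain ⟨x, hx⟩ := M.exists_AA ht g
    exact ⟨_, x, rfl, hx⟩
  have c3 : ∀ g, (1, g) ∈ Γ → g = 1 := by
    rintro g ⟨x, hx, hxg⟩
    have h7 : fA hzt x ∈ RR Q hzt := (QuotientGroup.eq_one_iff _).1 hx.symm
    have h8 := (M.mem_RR ht hu hzt).1 h7
    have h9 : Rl e (x : G) (toCo0 1) := Rl.one_iff.2 h8
    exact (co2_unique h9 hxg).symm
  have c4 : ∀ d, (d, 1) ∈ Γ → d = 1 := by
    rintro d ⟨x, hx, hxg⟩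
    have h8 : (x : G) ∈ QG Q := Rl.one_iff.1 hxg
    have h9 : d = QuotientGroup.mk (fA hzt x) := hx
    rw [h9]
    exact (QuotientGroup.eq_one_iff _).2 ((M.mem_RR ht hu hzt).2 h8)
  obtain ⟨e', he'⟩ := Extraspecial.equiv_of_graph Γ c1 c2 c3 c4
  exact ⟨e', fun x g hg => he' _ _ ⟨x, rfl, hg⟩⟩

theorem Mon.mem_center_RR {r : RR Q hzt} : r ∈ Subgroup.center (RR Q hzt) ↔
    (r : ↥(Subgroup.centralizer ({zq hzt} : Set (Hq t)))) = 1 ∨
    (r : ↥(Subgroup.centralizer ({zq hzt} : Set (Hq t)))) = fA hzt ⟨z, Subgroup.mem_centralizer_singleton_iff.2 rfl, hzt⟩ := by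
  have hX := M.exData ht norm_leechU hzt
  constructor
  · intro hr
    apply hX.center _ r.2
    intro x hx
    exact congrArg Subtype.val (Subgroup.mem_center_iff.1 hr ⟨x, hx⟩).symm
  · intro hr
    rw [Subgroup.mem_center_iff]
    intro x
    apply Subtype.ext
    rcases hr with h | h
    · show (x : ↥(Subgroup.centralizer ({zq hzt} : Set (Hq t)))) * r = r * x
      rw [h, one_mul, mul_one]
    · show (x : ↥(Subgroup.centralizer ({zq hzt} : Set (Hq t)))) * r = r * x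
      rw [h]
      exact hX.cen _ x.2

/-- elements of the orthogonal space give elements of the two-point stabilizer -/
theorem Mon.exists_perp (x : leechPerpU) : ∃ y : AA z t, Cl ψ (y : G) (x : leechLattice) := by
  obtain ⟨y, hy⟩ := M.exists_el (x : leechLattice)
  have h1 : y * t = t * y := by
    rw [M.comm_iff hy ht]
    exact x.2
  exact ⟨⟨y, mem_AA_of hy.mem h1⟩, hy⟩

theorem Mon.mk_eq {a b : AA z t} {v : leechLattice} (ha : Cl ψ (a : G) v) (hb : Cl ψ (b : G) v)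
    (hA : fA hzt a ∈ RR Q hzt) (hB : fA hzt b ∈ RR Q hzt) :
    (QuotientGroup.mk (⟨fA hzt a, hA⟩ : RR Q hzt) : RR Q hzt ⧸ Subgroup.center (RR Q hzt)) =
      QuotientGroup.mk ⟨fA hzt b, hB⟩ := by
  rw [QuotientGroup.eq, M.mem_center_RR ht hzt]
  show (fA hzt a)⁻¹ * fA hzt b = 1 ∨ (fA hzt a)⁻¹ * fA hzt b = _
  rcases M.cl_eq ha hb with h | h
  · left
    have : b = a := Subtype.ext h
    rw [this, inv_mul_cancel]
  · right
    have h2 : b = a * ⟨z, Subgroup.mem_centralizer_singleton_iff.2 rfl, hzt⟩ := by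
      apply Subtype.ext
      show (b : G) = a * z
      rw [h]
      exact (M.pre.cen _ ha.mem).symm
    rw [h2, map_mul, inv_mul_cancel_left]

theorem Mon.exists_psi : ∃ ψ' : leechPerpU → RR Q hzt ⧸ Subgroup.center (RR Q hzt),
    ∀ (x : leechPerpU) (y : AA z t) (hy : Cl ψ (y : G) (x : leechLattice)) (r : RR Q hzt), (r : ↥(Subgroup.centralizer ({zq hzt} : Set (Hq t)))) = fA hzt y →
      ψ' x = QuotientGroup.mk r := by
  have hu := norm_leechU
  have h1 : ∀ x : leechPerpU, ∃ p : RR Q hzt ⧸ Subgroup.center (RR Q hzt), ∀ (y : AA z t) (hy : Cl ψ (y : G) (x : leechLattice))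
      (r : RR Q hzt), (r : ↥(Subgroup.centralizer ({zq hzt} : Set (Hq t)))) = fA hzt y → p = QuotientGroup.mk r := by
    intro x
    obtain ⟨a, ha⟩ := M.exists_perp ht x
    have hA := (M.mem_RR ht hu hzt (x := a)).2 ha.mem
    refine ⟨QuotientGroup.mk ⟨fA hzt a, hA⟩, ?_⟩
    rintro b hb ⟨r, hr⟩ hrb
    have hrb' : r = fA hzt b := hrb
    subst hrb'
    exact M.mk_eq ht hzt ha hb hA hr
  choose ψ' hψ' using h1
  exact ⟨ψ', hψ'⟩

theorem Mon.baby (hnwc : ∃ g : G, (∃ hq : g * z * g⁻¹ ∈ Subgroup.centralizer ({z} : Set G),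
    (⟨g * z * g⁻¹, hq⟩ : Subgroup.centralizer ({z} : Set G)) ∈ Q) ∧ g * z * g⁻¹ ≠ z) : IsOfBabyMonsterType (Hq t) := by
  have hu := norm_leechU
  obtain ⟨h1, h2, h3, hzt, h5, h6⟩ := M.t_facts ht hu
  haveI hR := M.RR_normal ht hu hzt
  obtain ⟨e', he'⟩ := M.exists_equiv ht hzt
  obtain ⟨ψ', hψ'⟩ := M.exists_psi ht hzt
  have hX := M.exData ht norm_leechU hzt
  have hmem : ∀ {a : AA z t}, (a : G) ∈ QG Q → fA hzt a ∈ RR Q hzt := fun h => (M.mem_RR ht hu hzt).2 h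
  refine ⟨zq hzt, RR Q hzt, hR, M.setting ht hu hzt hnwc, e', ψ', ?_, ?_, ?_, ?_⟩
  · intro x y
    obtain ⟨a, ha⟩ := M.exists_perp ht x
    obtain ⟨b, hb⟩ := M.exists_perp ht y
    rw [hψ' x a ha ⟨_, hmem ha.mem⟩ rfl, hψ' y b hb ⟨_, hmem hb.mem⟩ rfl]
    rw [hψ' (x + y) (a * b) (M.cl_mul ha hb) (⟨_, hmem ha.mem⟩ * ⟨_, hmem hb.mem⟩) (by rw [map_mul]; rfl)]
    rfl
  · intro q
    obtain ⟨⟨r, hr⟩, rfl⟩ := QuotientGroup.mk_surjective q
    obtain ⟨a, ha, rfl⟩ := hr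
    obtain ⟨v, hv⟩ := M.exists_cl (s := (a : G)) ha
    have hperp : v ∈ leechPerpU := by
      show (16 : ℤ) ∣ dotInt (v : GolayPt → ℤ) Spor.vecU
      exact (M.comm_iff hv ht).1 (Subgroup.mem_centralizer_singleton_iff.1 a.2.2)
    exact ⟨⟨v, hperp⟩, hψ' ⟨v, hperp⟩ a hv _ rfl⟩
  · intro x
    obtain ⟨a, ha⟩ := M.exists_perp ht x
    rw [hψ' x a ha ⟨_, hmem ha.mem⟩ rfl, QuotientGroup.eq_one_iff, M.mem_center_RR ht hzt]
    show fA hzt a = 1 ∨ fA hzt a = fA hzt _ ↔ _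
    rw [fA_eq_one_iff h3 hzt, eq_comm (a := fA hzt a), fA_eq_iff h3 hzt]
    have e1 : (∃ w : leechLattice, (x : leechLattice) = w + w) ↔ ((a : G) = 1 ∨ (a : G) = z) := by
      rw [← M.cl_zero]
      constructor
      · rintro ⟨w, hw⟩
        exact M.cl_congr ha ⟨w, by rw [sub_zero, hw]⟩
      · intro h
        obtain ⟨w, hw⟩ := M.cl_unique ha h
        exact ⟨w, by rwa [sub_zero] at hw⟩
    have e2 : (∃ w : leechLattice, (x : leechLattice) = Spor.leechU + (w + w)) ↔ ((a : G) = t ∨ (a : G) = t * z) := by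
      constructor
      · rintro ⟨w, hw⟩
        have h7 : Cl ψ (a : G) Spor.leechU := M.cl_congr ha ⟨w, by rw [hw]; abel⟩
        rcases M.cl_eq ht h7 with h | h
        · exact Or.inl h
        · right; rw [h]; exact (M.pre.cen t h6).symm
      · intro h
        have h7 : Cl ψ (a : G) Spor.leechU := by
          rcases h with h | h
          · rw [h]; exact ht
          · rw [h, M.pre.cen t h6]; exact M.cl_z_mul ht
        obtain ⟨w, hw⟩ := M.cl_unique ha h7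
        exact ⟨w, by rw [← hw]; abel⟩
    rw [e1, e2]
    tauto
  · intro h g hg x y hxy q hq
    obtain ⟨a, rfl⟩ := fA_surjective h3 hzt h5 h
    obtain ⟨g', hg'⟩ := M.exists_co2 ht a
    have h7 := he' a g' hg'
    have h8 : g' = g := h7.symm.trans hg
    rw [h8] at hg'
    obtain ⟨b, hb⟩ := M.exists_perp ht x
    have h9 := hψ' x b hb ⟨_, hmem hb.mem⟩ rfl
    rw [hq] at h9
    have h10 : Cl ψ ((a * b * a⁻¹ : AA z t) : G) (y : leechLattice) := by
      have h11 := M.cl_conj hb hg'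
      rw [toCo0_smul, hxy] at h11
      exact h11
    rw [hψ' y (a * b * a⁻¹) h10 ⟨fA hzt a * fA hzt b * (fA hzt a)⁻¹, hR.conj_mem _ (hmem hb.mem) _⟩
      (by rw [map_mul, map_mul, map_inv])]
    rw [QuotientGroup.eq, M.mem_center_RR ht hzt] at h9 ⊢
    have h12 : (q : ↥(Subgroup.centralizer ({zq hzt} : Set (Hq t))))⁻¹ * fA hzt b = 1 ∨
      (q : ↥(Subgroup.centralizer ({zq hzt} : Set (Hq t))))⁻¹ * fA hzt b = fA hzt ⟨z, Subgroup.mem_centralizer_singleton_iff.2 rfl, hzt⟩ := h9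
    show (fA hzt a * fA hzt b * (fA hzt a)⁻¹)⁻¹ * (fA hzt a * (q : ↥(Subgroup.centralizer ({zq hzt} : Set (Hq t)))) * (fA hzt a)⁻¹) = 1 ∨
      (fA hzt a * fA hzt b * (fA hzt a)⁻¹)⁻¹ * (fA hzt a * (q : ↥(Subgroup.centralizer ({zq hzt} : Set (Hq t)))) * (fA hzt a)⁻¹) = _
    set q' : ↥(Subgroup.centralizer ({zq hzt} : Set (Hq t))) := q.1
    set zz := fA hzt ⟨z, Subgroup.mem_centralizer_singleton_iff.2 rfl, hzt⟩ with hzz
    have e3 : (fA hzt a * fA hzt b * (fA hzt a)⁻¹)⁻¹ * (fA hzt a * q' * (fA hzt a)⁻¹) =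
        fA hzt a * (q'⁻¹ * fA hzt b)⁻¹ * (fA hzt a)⁻¹ := by group
    rw [e3]
    rcases h12 with h12 | h12
    · left; rw [h12, inv_one, mul_one, mul_inv_cancel]
    · right
      rw [h12]
      have e4 : zz⁻¹ = zz := hX.inv
      rw [e4]
      have e5 : fA hzt a * zz = zz * fA hzt a := by
        rw [hzz, ← map_mul, ← map_mul]
        congr 1
        exact Subtype.ext (Subgroup.mem_centralizer_singleton_iff.1 a.2.1)
      rw [e5, mul_inv_cancel_right]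

end

end Cfsg.Agent.Lib.H89Mon1
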