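import Cfsg.Agent.Lib.H89Mon7
import Cfsg.Agent.Lib.CoprimeAction

/-!
# Groups of Monster type (helper89): centralizers of elements of odd order, generic part
-/

set_option autoImplicit false
set_option linter.all false

namespace Cfsg.Agent.Lib.H89Mon1

open Cfsg Cfsg.Agent.Lib.LargeExtra Cfsg.Agent.Lib.LeechTrans Cfsg.Agent.Lib.LeechCo2 Cfsg.Agent.Lib.LeechFrame
  Cfsg.Agent.Lib.LeechOrder Cfsg.Agent.Lib.LeechQuot
open scoped Pointwise

variable {G : Type*} [Group G] {z : G} {Q : Subgroup (Subgroup.centralizer ({z} : Set G))} [Q.Normal]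
  {e : (Subgroup.centralizer ({z} : Set G)) ⧸ Q ≃* Spor.Co1} {ψ : leechLattice → Q ⧸ Subgroup.center Q}

/-- the joint centralizer -/
abbrev AB (z : G) (B : Subgroup G) : Subgroup G :=
  Subgroup.centralizer ({z} : Set G) ⊓ Subgroup.centralizer (B : Set G)

theorem odd_trivial {B : Subgroup G} (hodd : Odd (Nat.card B)) {x : G} (hx : x ∈ B) {k : ℕ} (h2 : x ^ 2 ^ k = 1) :
    x = 1 := by
  have h1 : orderOf (⟨x, hx⟩ : B) ∣ Nat.card B := orderOf_dvd_natCard _
  have h3 : orderOf (⟨x, hx⟩ : B) ∣ 2 ^ k := orderOf_dvd_of_pow_eq_one (Subtype.ext h2)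
  have h4 : Nat.Coprime (2 ^ k) (Nat.card B) := (Nat.coprime_two_left.2 hodd).pow_left k
  have h5 : orderOf (⟨x, hx⟩ : B) = 1 := Nat.eq_one_of_dvd_coprimes h4 h3 h1
  exact congrArg Subtype.val (orderOf_eq_one_iff.1 h5)

section quot
variable {B : Subgroup G} [hn : (B.subgroupOf (Subgroup.centralizer (B : Set G))).Normal]

/-- the quotient `C(B)/B` -/
abbrev HB (B : Subgroup G) [(B.subgroupOf (Subgroup.centralizer (B : Set G))).Normal] : Type _ :=
  ↥(Subgroup.centralizer (B : Set G)) ⧸ B.subgroupOf (Subgroup.centralizer (B : Set G))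

/-- image of `z` -/
abbrev zB (hzB : z ∈ Subgroup.centralizer (B : Set G)) : HB B := QuotientGroup.mk ⟨z, hzB⟩

/-- the map of the joint centralizer onto the centralizer of the image of `z` -/
def fB (hzB : z ∈ Subgroup.centralizer (B : Set G)) :
    ↥(AB z B) →* ↥(Subgroup.centralizer ({zB hzB} : Set (HB B))) :=
  ((QuotientGroup.mk' (B.subgroupOf (Subgroup.centralizer (B : Set G)))).comp
    (Subgroup.inclusion (inf_le_right : AB z B ≤ Subgroup.centralizer (B : Set G)))).codRestrict _ (by
      intro x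
      rw [Subgroup.mem_centralizer_singleton_iff]
      show (QuotientGroup.mk (⟨x, x.2.2⟩ : ↥(Subgroup.centralizer (B : Set G))) : HB B) * QuotientGroup.mk ⟨z, hzB⟩ =
        QuotientGroup.mk ⟨z, hzB⟩ * QuotientGroup.mk ⟨x, x.2.2⟩
      rw [← QuotientGroup.mk_mul, ← QuotientGroup.mk_mul]
      congr 1
      exact Subtype.ext (Subgroup.mem_centralizer_singleton_iff.1 x.2.1))

theorem fB_coe (hzB : z ∈ Subgroup.centralizer (B : Set G)) (x : AB z B) :
    ((fB hzB x : ↥(Subgroup.centralizer ({zB hzB} : Set (HB B)))) : HB B) = QuotientGroup.mk ⟨x, x.2.2⟩ := rfl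

theorem fB_eq_iff (hzB : z ∈ Subgroup.centralizer (B : Set G)) {x y : AB z B} :
    fB hzB x = fB hzB y ↔ (x : G)⁻¹ * y ∈ B := by
  rw [← Subtype.coe_inj, fB_coe, fB_coe, QuotientGroup.eq, Subgroup.mem_subgroupOf]
  rfl

theorem fB_eq_one_iff (hzB : z ∈ Subgroup.centralizer (B : Set G)) {y : AB z B} :
    fB hzB y = 1 ↔ (y : G) ∈ B := by
  rw [← map_one (fB hzB), eq_comm, fB_eq_iff]
  simp

theorem fB_surjective (hzB : z ∈ Subgroup.centralizer (B : Set G)) (hz2 : z * z = 1) (hodd : Odd (Nat.card B)) :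
    Function.Surjective (fB hzB) := by
  rintro ⟨d, hd⟩
  obtain ⟨⟨c, hct⟩, rfl⟩ := QuotientGroup.mk_surjective d
  have hcz : c ∈ Subgroup.centralizer ({z} : Set G) := by
    rw [Subgroup.mem_centralizer_singleton_iff] at hd ⊢
    rw [← QuotientGroup.mk_mul, ← QuotientGroup.mk_mul, QuotientGroup.eq, Subgroup.mem_subgroupOf] at hd
    have hd' : (c * z)⁻¹ * (z * c) ∈ B := hd
    have hzb : ∀ b ∈ B, b * z = z * b := fun b hb => Subgroup.mem_centralizer_iff.1 hzB b hb
    set b := (c * z)⁻¹ * (z * c) with hb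
    have h1 : z * c = c * z * b := by rw [hb]; group
    have h2 : b ^ 2 ^ 1 = 1 := by
      have h3 : c * (b * b) = c := by
        have h4 : z * (z * c) = c := by rw [← mul_assoc, hz2, one_mul]
        rw [h1] at h4
        have h5 : z * (c * z * b) = c * z * b * z * b := by
          calc z * (c * z * b) = (z * c) * z * b := by simp only [mul_assoc]
            _ = c * z * b * z * b := by rw [h1]
        rw [h5] at h4
        have h6 : c * z * b * z * b = c * (b * b) := by
          have h7 := hzb b hd'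
          calc c * z * b * z * b = c * z * (b * z) * b := by group
            _ = c * (z * z) * (b * b) := by rw [h7]; group
            _ = c * (b * b) := by rw [hz2, mul_one]
        rw [h6] at h4
        exact h4
      rw [pow_one, pow_two]
      exact mul_left_cancel (h3.trans (mul_one c).symm)
    have h8 := odd_trivial hodd hd' h2
    rw [h8, mul_one] at h1
    exact h1.symm
  refine ⟨⟨c, hcz, hct⟩, Subtype.ext ?_⟩
  rfl

/-- `R` -/
def RB (Q : Subgroup (Subgroup.centralizer ({z} : Set G))) (hzB : z ∈ Subgroup.centralizer (B : Set G)) :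
    Subgroup ↥(Subgroup.centralizer ({zB hzB} : Set (HB B))) := ((QG Q).subgroupOf (AB z B)).map (fB hzB)

end quot

section
variable [Finite G] (M : Mon z Q e ψ)
include M

theorem Mon.two_inf {B : Subgroup G} (hodd : Odd (Nat.card B)) {x : G} (hx : x ∈ QG Q) (hB : x ∈ B) : x = 1 := by
  obtain ⟨k, hk⟩ := M.pre.isP ⟨x, hx⟩
  exact odd_trivial hodd hB (congrArg Subtype.val hk)

theorem Mon.RB_normal {B : Subgroup G} [hn : (B.subgroupOf (Subgroup.centralizer (B : Set G))).Normal]
    (hzB : z ∈ Subgroup.centralizer (B : Set G)) (hodd : Odd (Nat.card B)) : (RB Q hzB).Normal := by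
  apply Subgroup.Normal.map _ _ (fB_surjective hzB M.pre.sq hodd)
  constructor
  rintro ⟨q, hqA⟩ hq ⟨x, hx⟩
  exact M.pre.norm x (Subgroup.mem_centralizer_singleton_iff.1 hx.1) q hq

variable {b : G} {β : Co0} {p : ℕ} (hr : Rl e b β) (hp : Odd p) (hb : b ^ p = 1) (hβ : β ^ p = 1)
include hr hp hb hβ

omit hp hβ [Finite G] M in
theorem Mon.conj_pow (s : G) (hs : b * s * b⁻¹ = z * s) (k : ℕ) : b ^ k * s * (b ^ k)⁻¹ = z ^ k * s := by
  have hbz := Subgroup.mem_centralizer_singleton_iff.1 hr.mem
  induction k with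
  | zero => simp
  | succ k ih =>
    have h1 : b ^ (k + 1) * s * (b ^ (k + 1))⁻¹ = b * (b ^ k * s * (b ^ k)⁻¹) * b⁻¹ := by
      rw [pow_succ' b k]; group
    have h2 : b * z ^ k = z ^ k * b := by
      have : Commute b z := hbz
      exact (this.pow_right k).eq
    rw [h1, ih, ← mul_assoc, h2, mul_assoc, mul_assoc, ← mul_assoc b, hs, ← mul_assoc, pow_succ]

omit hβ in
/-- elements of `Q` commuting with `b` -/
theorem Mon.comm_iff_fix {s : G} {v : leechLattice} (hs : Cl ψ s v) :
    s ∈ Subgroup.centralizer (Subgroup.zpowers b : Set G) ↔ dbl (β • v) v := by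
  rw [Subgroup.mem_centralizer_iff]
  have hbs := M.cl_conj hs hr
  constructor
  · intro h
    have h1 : b * s * b⁻¹ = s := by
      rw [h b (Subgroup.mem_zpowers b)]; group
    rw [h1] at hbs
    exact M.cl_unique hbs hs
  · intro h
    have h1 : b * s = s * b := by
      rcases M.cl_eq hs (M.cl_congr hbs h) with h2 | h2
      · exact (mul_inv_eq_iff_eq_mul.1 h2)
      · exfalso
        have h3 := Mon.conj_pow (e := e) hr hb s h2 p
        rw [hb] at h3
        have h4 : z ^ p = z := by
          obtain ⟨m, rfl⟩ := hp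
          rw [pow_succ, pow_mul, pow_two, M.pre.sq, one_pow, one_mul]
        rw [h4] at h3
        have h5 : s = z * s := by simpa using h3
        exact M.pre.ne (mul_eq_right.1 h5.symm)
    rintro x ⟨n, rfl⟩
    exact (Commute.zpow_left (show Commute b s from h1) n).eq

omit M hr hb [Finite G] in
theorem eq_of_comm_neg {g : Co0} (h : g * β * g⁻¹ = negOne * β) : False := by
  have h1 : (g * β * g⁻¹) ^ p = 1 := by rw [conj_pow, hβ]; group
  rw [h] at h1
  have hc : Commute negOne β := by
    have := Subgroup.mem_center_iff.1 negOne_mem_center β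
    exact this.symm
  rw [hc.mul_pow, hβ, mul_one] at h1
  obtain ⟨m, rfl⟩ := hp
  rw [pow_succ, pow_mul, pow_two, negOne_sq, one_pow, one_mul] at h1
  exact negOne_ne_one h1

/-- the action of the joint centralizer -/
theorem Mon.mem_hat_AB {g : Co0} : g ∈ hat e (AB z (Subgroup.zpowers b)) ↔ g * β = β * g := by
  constructor
  · rintro ⟨h, hh, hg⟩
    have h1 : h * b * h⁻¹ = b := by
      have := Subgroup.mem_centralizer_iff.1 hh.2 b (Subgroup.mem_zpowers b)
      rw [← this]; group
    have h2 : Rl e b (g * β * g⁻¹) := by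
      have h3 := (hg.mul hr).mul hg.inv
      rw [h1] at h3
      exact h3
    rcases hr.eq h2 with h4 | h4
    · exact mul_inv_eq_iff_eq_mul.1 h4
    · exact (eq_of_comm_neg hp hβ h4).elim
  · intro hg
    obtain ⟨h, hh⟩ := exists_h e g
    have hN : ∀ x ∈ Subgroup.centralizer ({z} : Set G), x ∈ Subgroup.normalizer (QG Q : Set G) := by
      intro x hx
      rw [Subgroup.mem_normalizer_iff]
      intro q
      constructor
      · exact M.pre.norm x (Subgroup.mem_centralizer_singleton_iff.1 hx) q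
      · intro hq
        have h1 := M.pre.norm x⁻¹ (Subgroup.mem_centralizer_singleton_iff.1 (inv_mem hx)) _ hq
        have h2 : x⁻¹ * (x * q * x⁻¹) * x⁻¹⁻¹ = q := by group
        rwa [h2] at h1
    have hzp : Subgroup.zpowers b ≤ Subgroup.centralizer ({z} : Set G) := by
      rw [Subgroup.zpowers_le]; exact hr.mem
    have hcop : (Nat.card (Subgroup.zpowers b)).Coprime (Nat.card (QG Q)) := by
      rw [M.card_QG, Nat.card_zpowers]
      apply Nat.Coprime.pow_right
      have h3 : orderOf b ∣ p := orderOf_dvd_of_pow_eq_one hb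
      exact (Nat.coprime_two_right.2 (hp.of_dvd_nat h3))
    obtain ⟨c, hc, hcQ⟩ := CoprimeAction.exists_mem_centralizer_of_quotient (A := Subgroup.zpowers b) (N := QG Q)
      (fun x hx => hN x (hzp hx)) hcop (Or.inl inferInstance) h (hN h hh.mem) (by
        rintro _ ⟨n, rfl⟩
        have h4 : Rl e (b ^ n) (β ^ n) := by
          cases n with
          | ofNat n =>
            rw [Int.ofNat_eq_natCast, zpow_natCast, zpow_natCast]; exact hr.pow n
          | negSucc n =>
            rw [zpow_negSucc, zpow_negSucc]; exact (hr.pow _).inv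
        have h5 : Rl e (b ^ n * h * (b ^ n)⁻¹ * h⁻¹) (β ^ n * g * (β ^ n)⁻¹ * g⁻¹) :=
          ((h4.mul hh).mul h4.inv).mul hh.inv
        have h6 : β ^ n * g * (β ^ n)⁻¹ * g⁻¹ = 1 := by
          have : Commute g (β ^ n) := Commute.zpow_right hg n
          rw [← this.eq]; group
        rw [h6] at h5
        exact Rl.one_iff.1 h5)
    have h7 : Rl e c g := by
      have := hh.of_mem_Q hcQ
      rwa [mul_inv_cancel_left] at this
    exact ⟨c, ⟨h7.mem, hc⟩, h7⟩

end

end Cfsg.Agent.Lib.H89Mon1
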