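import Cfsg.Agent.Lib.H89CN

/-!
# Groups of Monster type: Sylow subgroups of odd prime order of the joint centralizer (helper89)
-/

set_option autoImplicit false
set_option linter.all false

namespace Cfsg.Agent.Lib.H89Mon1

open Cfsg Cfsg.Agent.Lib.LargeExtra Cfsg.Agent.Lib.LeechTrans Cfsg.Agent.Lib.LeechCo2 Cfsg.Agent.Lib.LeechFrame
  Cfsg.Agent.Lib.LeechQuot Cfsg.Agent.Lib.LeechOrder
open scoped Pointwise

variable {G : Type*} [Group G] {z : G} {Q : Subgroup (Subgroup.centralizer ({z} : Set G))} [Q.Normal]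
  {e : (Subgroup.centralizer ({z} : Set G)) ⧸ Q ≃* Spor.Co1} {ψ : leechLattice → Q ⧸ Subgroup.center Q}

section
variable [Finite G] (M : Mon z Q e ψ)
include M

theorem Mon.card_hatL {s : G} {v : leechLattice} (hs : Cl ψ s v) (hv : sqNorm (v : GolayPt → ℤ) = 64) :
    Nat.card (hat e (Subgroup.centralizer ({z} : Set G) ⊓ Subgroup.centralizer ({s} : Set G))) = Nat.card N := by
  obtain ⟨g0, hg0⟩ := M.exists_std hv
  obtain ⟨h1, h2⟩ := M.ne_of_short hs (ne_zero_of_norm hv (by norm_num)) (le_of_eq hv)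
  have h3 : (hat e (Subgroup.centralizer ({z} : Set G) ⊓ Subgroup.centralizer ({s} : Set G))).map (MulAut.conj g0).toMonoidHom = N := by
    ext x
    rw [Subgroup.mem_map_equiv]
    have h4 : (MulAut.conj g0).symm x = g0⁻¹ * x * g0 := by simp [MulAut.conj_symm_apply]
    rw [h4, M.hat_cent_conj hs h1 h2 hg0]
    have h5 : g0 * (g0⁻¹ * x * g0) * g0⁻¹ = x := by group
    rw [h5]
  rw [← h3]
  exact Nat.card_congr (Subgroup.equivMapOfInjective _ _ (MulAut.conj g0).injective).toEquiv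

theorem L_eq {s : G} : Subgroup.centralizer ({z, s} : Set G) = Subgroup.centralizer ({z} : Set G) ⊓ Subgroup.centralizer ({s} : Set G) := by
  ext x
  rw [mem_L, Subgroup.mem_inf, Subgroup.mem_centralizer_singleton_iff, Subgroup.mem_centralizer_singleton_iff]

theorem Mon.fac_L {s : G} {v : leechLattice} (hs : Cl ψ s v) (hv : sqNorm (v : GolayPt → ℤ) = 64) {p : ℕ} (hp : p.Prime)
    (h2 : p ≠ 2) : (Nat.card (Subgroup.centralizer ({z, s} : Set G))).factorization p = (Nat.card N).factorization p := by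
  have h1 := card_hat (e := e) (Y := Subgroup.centralizer ({z} : Set G) ⊓ Subgroup.centralizer ({s} : Set G)) inf_le_left
  rw [M.card_hatL hs hv, ← L_eq M] at h1
  have h3 : IsPGroup 2 ↥(Subgroup.centralizer ({z, s} : Set G) ⊓ QG Q) :=
    IsPGroup.of_injective (M.pre.isP) (Subgroup.inclusion inf_le_right) (Subgroup.inclusion_injective _)
  obtain ⟨k, hk⟩ := IsPGroup.iff_card.1 h3
  rw [hk] at h1
  have h4 := congrArg (fun n => n.factorization p) h1
  have hN0 : Nat.card N ≠ 0 := Nat.card_pos.ne'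
  have hL0 : Nat.card (Subgroup.centralizer ({z, s} : Set G)) ≠ 0 := Nat.card_pos.ne'
  have hz2 : ∀ k, (2 ^ k).factorization p = 0 := by
    intro k
    apply Nat.factorization_eq_zero_of_not_dvd
    intro h
    have h5 := hp.dvd_of_dvd_pow h
    exact h2 ((Nat.prime_dvd_prime_iff_eq hp Nat.prime_two).1 h5)
  rw [Nat.factorization_mul hN0 (by positivity), Nat.factorization_mul (by norm_num) hL0, Finsupp.add_apply,
    Finsupp.add_apply, hz2] at h4
  have h6 := hz2 1
  rw [pow_one] at h6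
  rw [h6] at h4
  omega

theorem Mon.move_sylow (hnwc : ∃ g : G, (∃ hq : g * z * g⁻¹ ∈ Subgroup.centralizer ({z} : Set G),
      (⟨g * z * g⁻¹, hq⟩ : Subgroup.centralizer ({z} : Set G)) ∈ Q) ∧ g * z * g⁻¹ ≠ z)
    {b : G} {p : ℕ} [Fact p.Prime] (hp : Odd p)
    (hpN : (Nat.card N).factorization p = 1) (hb : Nat.card (Subgroup.zpowers b) = p)
    (hbz : z ∈ Subgroup.centralizer (Subgroup.zpowers b : Set G)) {s : G} {v : leechLattice} (hs : Cl ψ s v)
    (hv : sqNorm (v : GolayPt → ℤ) = 64) (hsb : s ∈ Subgroup.centralizer (Subgroup.zpowers b : Set G)) :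
    ∃ x ∈ Subgroup.centralizer (Subgroup.zpowers b : Set G), x * z * x⁻¹ = s := by
  have hpp : p.Prime := Fact.out
  obtain ⟨h1, h2⟩ := M.ne_of_short hs (ne_zero_of_norm hv (by norm_num)) (le_of_eq hv)
  obtain ⟨h3, -⟩ := (M.type_four hnwc hs.mem).2 ⟨v, hv, hs⟩
  obtain ⟨g, hg⟩ := _root_.isConj_iff.1 h3
  apply exists_move_of (M.pair hs.mem h2 hg)
  apply frP_of_sylow (p := p)
  · rw [mem_L]
    have hbm : b ∈ (Subgroup.zpowers b : Set G) := Subgroup.mem_zpowers b
    exact ⟨(Subgroup.mem_centralizer_iff.1 hbz b hbm), (Subgroup.mem_centralizer_iff.1 hsb b hbm)⟩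
  · rw [M.fac_L hs hv hpp (by rintro rfl; exact absurd hp (by decide)), hpN, pow_one, hb]

/-- standard position of a Sylow subgroup of odd prime order of the joint centralizer -/
theorem Mon.std_sylow {s : G} {v : leechLattice} (hs : Cl ψ s v) (hv : sqNorm (v : GolayPt → ℤ) = 64) {B : Subgroup G}
    (hB : B ≤ Subgroup.centralizer ({z, s} : Set G)) {p : ℕ} [Fact p.Prime] (hp : Odd p)
    (hBp : Nat.card B = p ^ (Nat.card ↥(Subgroup.centralizer ({z, s} : Set G))).factorization p)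
    (hpN : (Nat.card N).factorization p = 1) {β : Co0} (hβN : β ∈ N) (hβ : orderOf β = p) :
    ∃ (e' : (Subgroup.centralizer ({z} : Set G)) ⧸ Q ≃* Spor.Co1) (ψ' : leechLattice → Q ⧸ Subgroup.center Q) (b : G),
      Mon z Q e' ψ' ∧ Cl ψ' s (ef none) ∧ B = Subgroup.zpowers b ∧ Rl e' b β ∧ b ^ p = 1 ∧ Nat.card (Subgroup.zpowers b) = p := by
  have hpp : p.Prime := Fact.out
  have hp2 : p ≠ 2 := by rintro rfl; exact absurd hp (by decide)
  rw [M.fac_L hs hv hpp hp2, hpN, pow_one] at hBp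
  obtain ⟨g0, hg0⟩ := M.exists_std hv
  have M1 := M.twist' g0
  have hs1 := hs.twist g0
  rw [hg0] at hs1
  haveI : Finite B := inferInstance
  haveI hcyc : IsCyclic B := isCyclic_of_prime_card hBp
  obtain ⟨⟨b, hbB⟩, hgen⟩ := hcyc.exists_generator
  have hBz : B = Subgroup.zpowers b := by
    apply le_antisymm
    · intro x hx
      obtain ⟨k, hk⟩ := hgen ⟨x, hx⟩
      exact ⟨k, congrArg Subtype.val hk⟩
    · exact Subgroup.zpowers_le.2 hbB
  have hob : orderOf b = p := by rw [← Nat.card_zpowers, ← hBz, hBp]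
  have hbL := mem_L.1 (hB hbB)
  obtain ⟨e', ψ', b', M', hs', hb', hr'⟩ := M1.std_pos (s := s) hs1 (b := b) (Subgroup.mem_centralizer_singleton_iff.2 hbL.1) hbL.2
    hp hob hβ (by
      intro g hg hgr hgp
      have hog : orderOf g = p := by
        apply orderOf_eq_prime hgp
        rintro rfl
        have h1 : b ∈ QG Q := Rl.one_iff.1 hgr
        have h2 : (⟨b, h1⟩ : QG Q) ^ p = 1 := Subtype.ext (by rw [← hob]; exact pow_orderOf_eq_one b)
        obtain ⟨k, hk⟩ := M.pre.isP ⟨b, h1⟩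
        have h3 : orderOf b ∣ 2 ^ k := orderOf_dvd_of_pow_eq_one (congrArg Subtype.val hk)
        rw [hob] at h3
        exact hp2 ((Nat.prime_dvd_prime_iff_eq hpp Nat.prime_two).1 (hpp.dvd_of_dvd_pow h3))
      exact H89Q2.conj_of_card hg hβN hog hβ hpN)
  have hc : Nat.card (Subgroup.zpowers b') = p := by rw [hb', Nat.card_zpowers, hob]
  refine ⟨e', ψ', b', M', hs', by rw [hBz, hb'], hr', ?_, hc⟩
  rw [← hc, Nat.card_zpowers]
  exact pow_orderOf_eq_one b'

end

end Cfsg.Agent.Lib.H89Mon1
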