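import Cfsg.Agent.Lib.Extraspecial
import Cfsg.Agent.S5552
import Cfsg.Prelude.Def_MonsterType

/-!
# Groups of Monster type (helper89): the squaring map of `Q` is `sqNorm / 16` modulo 2
-/

set_option autoImplicit false
set_option linter.all false

namespace Cfsg.Agent.Lib.H89Monster

open Cfsg Cfsg.Agent.Lib.PGroupClassTwo Cfsg.Agent.Lib.Extraspecial
open scoped commutatorElement

section Sq

variable {E : Type*} [Group E] {c : E}

open Classical in
/-- the squaring map as a function to `ZMod 2` -/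
noncomputable def sq (q : E) : ZMod 2 := if q ^ 2 = 1 then 0 else 1

open Classical in
/-- the commutator as a function to `ZMod 2` -/
noncomputable def cm (x y : E) : ZMod 2 := if x * y = y * x then 0 else 1

theorem sq_mul (h : XS 2 E c) (x y : E) : sq (x * y) = sq x + sq y + cm x y := by
  have h1 := h.sq_mul x y
  have hx := h.two_cases (h.pow x)
  have hy := h.two_cases (h.pow y)
  have hc := h.two_cases (h.comm x y)
  have hne := h.z_ne_one
  have hcc : c * c = 1 := by have := h.z_sq; rwa [pow_two] at this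
  have hcm : x * y = y * x ↔ ⁅x, y⁆ = 1 := (commutatorElement_eq_one_iff_mul_comm).symm
  unfold sq cm
  rw [h1]
  by_cases e3 : ⁅x, y⁆ = 1
  · rw [if_pos (hcm.2 e3), e3, mul_one]
    rcases hx with e1 | e1 <;> rcases hy with e2 | e2 <;> rw [e1, e2]
    · simp
    · simp [hne]
    · simp [hne]
    · simp [hne, hcc]; decide
  · rw [if_neg (fun h => e3 (hcm.1 h))]
    have e3' : ⁅x, y⁆ = c := by rcases hc with h | h; exact absurd h e3; exact h
    rw [e3']
    rcases hx with e1 | e1 <;> rcases hy with e2 | e2 <;> rw [e1, e2]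
    · simp [hne]
    · simp [hne, hcc]; decide
    · simp [hne, hcc]; decide
    · simp [hne, hcc]; decide

theorem cm_mul (h : XS 2 E c) (x y w : E) : cm x (y * w) = cm x y + cm x w := by
  have h1 : ⁅x, y * w⁆ = ⁅x, y⁆ * ⁅x, w⁆ := comm_mul_right h.comm_mem x y w
  have hy := h.two_cases (h.comm x y)
  have hw := h.two_cases (h.comm x w)
  have hne := h.z_ne_one
  have hcc : c * c = 1 := by have := h.z_sq; rwa [pow_two] at this
  have hcm : ∀ a b : E, (a * b = b * a ↔ ⁅a, b⁆ = 1) := fun a b => (commutatorElement_eq_one_iff_mul_comm).symm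
  have hv : ∀ a b : E, cm a b = @ite _ (⁅a, b⁆ = 1) (Classical.propDecidable _) 0 1 := by
    intro a b
    unfold cm
    by_cases h1 : a * b = b * a
    · rw [if_pos h1, if_pos ((hcm a b).1 h1)]
    · rw [if_neg h1, if_neg (fun h2 => h1 ((hcm a b).2 h2))]
  rw [hv, hv, hv, h1]
  rcases hy with e1 | e1 <;> rcases hw with e2 | e2 <;> rw [e1, e2]
  · simp
  · simp [hne]
  · simp [hne]
  · simp [hne, hcc]; decide

theorem cm_comm (x y : E) : cm x y = cm y x := by
  unfold cm
  by_cases h : x * y = y * x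
  · rw [if_pos h, if_pos h.symm]
  · rw [if_neg h, if_neg (fun h' => h h'.symm)]

theorem sq_congr {E' : Type*} [Group E'] {x : E} {y : E'} (h : x ^ 2 = 1 ↔ y ^ 2 = 1) : sq x = sq y := by
  unfold sq
  by_cases h1 : x ^ 2 = 1
  · rw [if_pos h1, if_pos (h.1 h1)]
  · rw [if_neg h1, if_neg (fun h2 => h1 (h.2 h2))]

theorem sq_center (h : XS 2 E c) {x y : E} (hy : y ∈ Subgroup.center E) : sq (x * y) = sq x := by
  rw [sq_mul h]
  have h1 : sq y = 0 := by
    unfold sq
    rw [if_pos]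
    rcases h.two_cases (h.center_le hy) with e | e
    · rw [e, one_pow]
    · rw [e, h.z_sq]
  have h2 : cm x y = 0 := by
    unfold cm
    rw [if_pos (Subgroup.mem_center_iff.1 hy x)]
  rw [h1, h2, add_zero, add_zero]

end Sq

variable {G : Type*} [Group G] {z : G} {Q : Subgroup (Subgroup.centralizer ({z} : Set G))} [Q.Normal]
  {e : (Subgroup.centralizer ({z} : Set G)) ⧸ Q ≃* Spor.Co1} {ψ : leechLattice → Q ⧸ Subgroup.center Q}

/-- a representative -/
noncomputable def rep (ψ : leechLattice → Q ⧸ Subgroup.center Q) (v : leechLattice) : Q :=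
  Classical.choose (QuotientGroup.mk_surjective (ψ v))

theorem rep_spec (ψ : leechLattice → Q ⧸ Subgroup.center Q) (v : leechLattice) :
    (QuotientGroup.mk (rep ψ v) : Q ⧸ Subgroup.center Q) = ψ v :=
  Classical.choose_spec (QuotientGroup.mk_surjective (ψ v))

/-- the function on the lattice -/
noncomputable def qf (ψ : leechLattice → Q ⧸ Subgroup.center Q) (v : leechLattice) : ZMod 2 := sq (rep ψ v)

theorem qf_eq [Finite G] (hQ : IsExtraspecial 2 Q) (v : leechLattice) (q : Q) (h : ψ v = QuotientGroup.mk q) :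
    qf ψ v = sq q := by
  haveI : Fact (Nat.Prime 2) := ⟨Nat.prime_two⟩
  obtain ⟨c, hc⟩ := XS.of_extraspecial hQ
  have h1 := rep_spec ψ v
  rw [h] at h1
  unfold qf
  generalize rep ψ v = r at h1
  have h2 := QuotientGroup.eq.1 h1
  have h3 : q = r * (r⁻¹ * q) := by group
  rw [h3, sq_center hc h2]

theorem psi_zero (hψ : IsLeechModTwoIso Q e ψ) : ψ 0 = 1 := by
  have := hψ.1 0 0
  rw [add_zero] at this
  exact (mul_eq_left.1 this.symm)

theorem qf_value [Finite G] (hQ : IsExtraspecial 2 Q) (hψ : IsLeechModTwoIso Q e ψ) (v : leechLattice) :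
    qf ψ v = ((sqNorm (v : GolayPt → ℤ) / 16 : ℤ) : ZMod 2) := by
  haveI : Fact (Nat.Prime 2) := ⟨Nat.prime_two⟩
  obtain ⟨c, hc⟩ := XS.of_extraspecial hQ
  obtain ⟨h1, h2, h3, h4⟩ := hψ
  have hrep : ∀ v, ∃ q : Q, ψ v = QuotientGroup.mk q := fun v => ⟨_, (rep_spec ψ v).symm⟩
  refine Cfsg.Agent.S5552.result (qf ψ) ?_ ?_ ?_ ?_ v
  · intro v w
    obtain ⟨q, hq⟩ := hrep v
    have h5 : ψ (v + (w + w)) = ψ v := by rw [h1, (h3 (w + w)).2 ⟨w, rfl⟩, mul_one]
    rw [qf_eq hQ v q hq, qf_eq hQ _ q (h5.trans hq)]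
  · intro u v w
    obtain ⟨a, ha⟩ := hrep u
    obtain ⟨b, hb⟩ := hrep v
    obtain ⟨d, hd⟩ := hrep w
    have e1 : ψ (u + v + w) = QuotientGroup.mk (a * b * d) := by
      rw [h1, h1, ha, hb, hd]; rfl
    have e2 : ψ (u + v) = QuotientGroup.mk (a * b) := by rw [h1, ha, hb]; rfl
    have e3 : ψ (u + w) = QuotientGroup.mk (a * d) := by rw [h1, ha, hd]; rfl
    have e4 : ψ (v + w) = QuotientGroup.mk (b * d) := by rw [h1, hb, hd]; rfl
    rw [qf_eq hQ _ _ e1, qf_eq hQ _ _ ha, qf_eq hQ _ _ hb, qf_eq hQ _ _ hd, qf_eq hQ _ _ e2, qf_eq hQ _ _ e3,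
      qf_eq hQ _ _ e4]
    rw [sq_mul hc (a * b) d, sq_mul hc a b, sq_mul hc a d, sq_mul hc b d, cm_comm (a * b) d, cm_mul hc d a b,
      cm_comm d a, cm_comm d b]
    have h2z : (2 : ZMod 2) = 0 := rfl
    linear_combination (sq a + sq b + sq d) * h2z - (sq a + sq b + sq d) * h2z
  · intro g v
    obtain ⟨q, hq⟩ := hrep v
    obtain ⟨h, hh⟩ := QuotientGroup.mk_surjective (e.symm (QuotientGroup.mk g))
    have h5 := h4 h g (by rw [hh, e.apply_symm_apply]) v q hq
    rw [qf_eq hQ _ _ h5, qf_eq hQ _ _ hq]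
    apply sq_congr
    show ((⟨h * q * h⁻¹, (inferInstance : Q.Normal).conj_mem (q : Subgroup.centralizer ({z} : Set G)) q.2 h⟩ : Q)) ^ 2 = 1 ↔
        q ^ 2 = 1
    rw [← Subtype.coe_inj, ← Subtype.coe_inj (a := q ^ 2)]
    show ((h : Subgroup.centralizer ({z} : Set G)) * q * h⁻¹) ^ 2 = 1 ↔ (q : Subgroup.centralizer ({z} : Set G)) ^ 2 = 1
    rw [conj_pow, conj_eq_one_iff]
  · by_contra hne
    push Not at hne
    -- all squares are trivial so Q is commutative
    obtain ⟨x, y, hxy⟩ := XS.not_comm_of_extraspecial hQ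
    apply hxy
    have hsq : ∀ q : Q, q ^ 2 = 1 := by
      intro q
      obtain ⟨v, hv⟩ := h2 (QuotientGroup.mk q)
      have h5 := hne v
      rw [qf_eq hQ v q hv] at h5
      unfold sq at h5
      by_contra h6
      rw [if_neg h6] at h5
      exact one_ne_zero h5
    have h5 := hsq (x * y)
    have h6 := hsq x
    have h7 := hsq y
    rw [pow_two] at h5 h6 h7
    calc x * y = x * (x * y * (x * y)) * y := by rw [h5]; group
      _ = (x * x) * (y * x) * (y * y) := by group
      _ = y * x := by rw [h6, h7]; group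

theorem sq_iff [Finite G] (hQ : IsExtraspecial 2 Q) (hψ : IsLeechModTwoIso Q e ψ) {v : leechLattice} {q : Q}
    (h : ψ v = QuotientGroup.mk q) : q ^ 2 = 1 ↔ (32 : ℤ) ∣ sqNorm (v : GolayPt → ℤ) := by
  have h1 := qf_value hQ hψ v
  rw [qf_eq hQ v q h] at h1
  have h16 : (16 : ℤ) ∣ sqNorm (v : GolayPt → ℤ) := Cfsg.Agent.Lib.LeechGen.sixteen_dvd_norm v.2
  have h2 : (((sqNorm (v : GolayPt → ℤ) / 16 : ℤ)) : ZMod 2) = 0 ↔ (32 : ℤ) ∣ sqNorm (v : GolayPt → ℤ) := by
    rw [ZMod.intCast_zmod_eq_zero_iff_dvd]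
    omega
  rw [← h2, ← h1]
  unfold sq
  by_cases h3 : q ^ 2 = 1
  · simp [h3]
  · simp [h3]

end Cfsg.Agent.Lib.H89Monster
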