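import Cfsg.Agent.Lib.H89FixTab

/-!
# The action of `Co0` on the Leech lattice modulo 2 (helper89)
-/

set_option autoImplicit false
set_option linter.all false

namespace Cfsg.Agent.Lib.H89Q2

open Cfsg Cfsg.Agent.Lib.Golay Cfsg.Agent.Lib.LeechMin Cfsg.Agent.Lib.H89LeechMat Cfsg.Agent.Lib.H89Mon1
  Cfsg.Agent.Lib.LeechQuot Cfsg.Agent.Lib.LeechOrder Cfsg.Agent.Lib.H89Mono Cfsg.Agent.Lib.H89FixRank
  Cfsg.Agent.Lib.H89FixTab Cfsg.Agent.Lib.LeechFrame
open scoped Pointwise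

/-- the action on the classes -/
def a2 (g : Co0) : Q2 →+ Q2 := QuotientAddGroup.map D2 D2 (sm g) (by
  intro v hv
  obtain ⟨w, rfl⟩ := mem_D2.1 hv
  exact mem_D2.2 ⟨g • w, map_add (sm g) w w⟩)

theorem a2_q2 (g : Co0) (v : leechLattice) : a2 g (q2 v) = q2 (g • v) := rfl

theorem a2_mul (g h : Co0) (x : Q2) : a2 (g * h) x = a2 g (a2 h x) := by
  obtain ⟨v, rfl⟩ := QuotientAddGroup.mk_surjective x
  show q2 ((g * h) • v) = q2 (g • h • v)
  rw [mul_smul]

theorem a2_one (x : Q2) : a2 1 x = x := by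
  obtain ⟨v, rfl⟩ := QuotientAddGroup.mk_surjective x
  show q2 ((1 : Co0) • v) = q2 v
  rw [one_smul]

instance actQ2 : MulAction Co0 Q2 where
  smul g x := a2 g x
  one_smul := a2_one
  mul_smul := a2_mul

theorem smul_q2 (g : Co0) (v : leechLattice) : g • q2 v = q2 (g • v) := rfl

theorem smul_eq_a2 (g : Co0) (x : Q2) : g • x = a2 g x := rfl

theorem smul_add2 (g : Co0) (x y : Q2) : g • (x + y) = g • x + g • y := map_add (a2 g) x y

/-- the form -/
noncomputable def fB (w : leechLattice) : Q2 →+ ZMod 2 := QuotientAddGroup.lift D2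
  { toFun := fun v => ((dt v w / 8 : ℤ) : ZMod 2)
    map_zero' := by
      have : dt 0 w = 0 := by rw [dt_comm, map_zero]
      rw [this]; simp
    map_add' := by
      intro a b
      have h1 : dt (a + b) w = dt a w + dt b w := by rw [dt_comm, map_add, dt_comm w a, dt_comm w b]
      rw [h1, Int.add_ediv_of_dvd_left (eight_dvd a w)]
      push_cast; ring } (by
  intro v hv
  obtain ⟨u, rfl⟩ := mem_D2.1 hv
  show ((dt (u + u) w / 8 : ℤ) : ZMod 2) = 0
  have h1 : dt (u + u) w = dt u w + dt u w := by rw [dt_comm, map_add, dt_comm w u]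
  rw [h1, Int.add_ediv_of_dvd_left (eight_dvd u w)]
  push_cast
  have : ∀ z : ZMod 2, z + z = 0 := by decide
  exact this _)

theorem fB_q2 (v w : leechLattice) : fB w (q2 v) = ((dt v w / 8 : ℤ) : ZMod 2) := rfl

theorem fB_congr {w w' : leechLattice} (h : dbl w w') (x : Q2) : fB w x = fB w' x := by
  obtain ⟨v, rfl⟩ := QuotientAddGroup.mk_surjective x
  show ((dt v w / 8 : ℤ) : ZMod 2) = ((dt v w' / 8 : ℤ) : ZMod 2)
  have h1 := dt_dbl h v
  rw [dt_comm w, dt_comm w'] at h1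
  obtain ⟨a, ha⟩ := eight_dvd v w
  obtain ⟨b, hb⟩ := eight_dvd v w'
  rw [ZMod.intCast_eq_intCast_iff_dvd_sub]
  rw [ha, hb] at h1 ⊢
  obtain ⟨k, hk⟩ := h1
  refine ⟨-k, ?_⟩
  rw [Int.mul_ediv_cancel_left _ (by norm_num), Int.mul_ediv_cancel_left _ (by norm_num)]
  push_cast
  omega

theorem fB_smul (g : Co0) (w : leechLattice) (x : Q2) : fB (g • w) (g • x) = fB w x := by
  obtain ⟨v, rfl⟩ := QuotientAddGroup.mk_surjective x
  show ((dt (g • v) (g • w) / 8 : ℤ) : ZMod 2) = ((dt v w / 8 : ℤ) : ZMod 2)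
  rw [dt_smul]

/-- commuting elements preserve the fixed classes -/
theorem smul_mem_FixS {β g : Co0} (h : g * β = β * g) {x : Q2} (hx : x ∈ FixS β) : g • x ∈ FixS β := by
  obtain ⟨v, hv, rfl⟩ := hx
  refine ⟨g • v, ?_, rfl⟩
  show β • g • v = g • v
  rw [← mul_smul, ← h, mul_smul, mem_FL.1 hv]

/-- more generally for normalizing elements -/
theorem smul_mem_FixS' {β g : Co0} {k : ℤ} (h : g⁻¹ * β * g = β ^ k) {x : Q2} (hx : x ∈ FixS β) : g • x ∈ FixS β := by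
  obtain ⟨v, hv, rfl⟩ := hx
  refine ⟨g • v, ?_, rfl⟩
  have h1 : β * g = g * β ^ k := by rw [← h]; group
  have h2 : β ^ k • v = v := by
    have h3 : β ∈ MulAction.stabilizer Co0 v := mem_FL.1 hv
    exact (MulAction.stabilizer Co0 v).zpow_mem h3 k
  show β • g • v = g • v
  rw [← mul_smul, h1, mul_smul, h2]

theorem smul_mem_Sn {n : ℤ} (g : Co0) {x : Q2} (hx : x ∈ q2 '' Sn n) : g • x ∈ q2 '' Sn n := by
  obtain ⟨v, hv, rfl⟩ := hx
  refine ⟨g • v, ?_, rfl⟩
  show sqNorm ((g • v : leechLattice) : GolayPt → ℤ) = n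
  rw [LeechCo2.sqNorm_smul]; exact hv

theorem smul_mem_T4 {β g : Co0} (h : g * β = β * g) {x : Q2} (hx : x ∈ T4 β) : g • x ∈ T4 β :=
  ⟨smul_mem_FixS h hx.1, smul_mem_Sn g hx.2⟩

theorem smul_mem_T4' {β g : Co0} {k : ℤ} (h : g⁻¹ * β * g = β ^ k) {x : Q2} (hx : x ∈ T4 β) : g • x ∈ T4 β :=
  ⟨smul_mem_FixS' h hx.1, smul_mem_Sn g hx.2⟩

/-- the standard class -/
noncomputable def p1 : Q2 := q2 (ef none)

theorem mem_N_iff_p1 {g : Co0} : g ∈ N ↔ g • p1 = p1 := by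
  rw [mem_N_iff']
  constructor
  · intro h; exact (q2_eq_iff.2 h).symm
  · intro h; exact q2_eq_iff.1 h.symm

theorem q2_ef (i : GolayPt) : q2 (ef i) = p1 := by
  show q2 (ef i) = q2 (ef none)
  by_cases h : i = none
  · rw [h]
  rw [q2_eq_iff]
  refine ⟨⟨Pi.single i 4 - Pi.single none 4, LeechMod.four_single_sub_mem h⟩, ?_⟩
  apply Subtype.ext
  funext p
  show (Pi.single i 8 : GolayPt → ℤ) p - (Pi.single none 8 : GolayPt → ℤ) p =
    ((Pi.single i 4 : GolayPt → ℤ) p - (Pi.single none 4 : GolayPt → ℤ) p) +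
    ((Pi.single i 4 : GolayPt → ℤ) p - (Pi.single none 4 : GolayPt → ℤ) p)
  simp only [Pi.single_apply]
  split_ifs <;> norm_num

/-- monomial elements -/
theorem exists_signed {g : Co0} (hg : g ∈ N) : ∃ σ ∈ M24, ∃ c ∈ Sup, ∀ v : leechLattice,
    ((g • v : leechLattice) : GolayPt → ℤ) = signedPerm σ c v := hg

theorem perm_comm {g : Co0} {σ τ : Equiv.Perm GolayPt} {c : Finset GolayPt} (hτ : τ ∈ M24)
    (hg : ∀ v : leechLattice, ((g • v : leechLattice) : GolayPt → ℤ) = signedPerm σ c v) {ρ : Equiv.Perm GolayPt} (hρ : ρ ∈ M24)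
    (h : g * permHom ⟨τ, hτ⟩ = permHom ⟨ρ, hρ⟩ * g) : σ * τ = ρ * σ ∧ c = ρ • c := by
  apply signedPerm_inj
  intro v
  have h1 : (((g * permHom ⟨τ, hτ⟩) • v : leechLattice) : GolayPt → ℤ) = signedPerm (σ * τ) c v := by
    rw [mul_smul, hg, permHom_smul, signedPerm_signedPerm, smul_empty']
    congr 1
    exact symmDiff_bot c
  have h2 : (((permHom ⟨ρ, hρ⟩ * g) • v : leechLattice) : GolayPt → ℤ) = signedPerm (ρ * σ) (ρ • c) v := by
    rw [mul_smul, permHom_smul, hg, signedPerm_signedPerm]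
    congr 1
    exact bot_symmDiff _
  rw [← h1, h, h2]

theorem conj_of_card {G : Type*} [Group G] [Finite G] {L : Subgroup G} {g h : G} (hg : g ∈ L) (hh : h ∈ L) {p : ℕ}
    [Fact p.Prime] (og : orderOf g = p) (oh : orderOf h = p) (hL : (Nat.card L).factorization p = 1) :
    ∃ n ∈ L, ∃ k : ℤ, n * g ^ k * n⁻¹ = h := by
  have c1 : Nat.card (Subgroup.zpowers g) = p := by rw [Nat.card_zpowers, og]
  have c2 : Nat.card (Subgroup.zpowers h) = p := by rw [Nat.card_zpowers, oh]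
  obtain ⟨l, hl, h1⟩ := sylow_conj_in (L := L) (B := Subgroup.zpowers h) (B' := Subgroup.zpowers g) (p := p)
    (Subgroup.zpowers_le.2 hh) (Subgroup.zpowers_le.2 hg) (by rw [c2, hL, pow_one]) (by rw [c1, hL, pow_one])
  have h2 : (Subgroup.zpowers g).map (MulAut.conj l).toMonoidHom = Subgroup.zpowers h := by
    apply Subgroup.eq_of_le_of_card_ge
    · rintro _ ⟨x, hx, rfl⟩
      exact h1 x hx
    · rw [c2, ← c1]
      exact (Nat.card_congr (Subgroup.equivMapOfInjective _ _ (MulAut.conj l).injective).toEquiv).le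
  have h3 : h ∈ (Subgroup.zpowers g).map (MulAut.conj l).toMonoidHom := by
    rw [h2]; exact Subgroup.mem_zpowers h
  obtain ⟨_, ⟨k, rfl⟩, hk⟩ := h3
  exact ⟨l, hl, k, hk⟩

end Cfsg.Agent.Lib.H89Q2
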