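import Cfsg.Agent.Lib.H89LeechMat
import Cfsg.Agent.Lib.GolaySeven93

/-!
# An element of `Co0` inverting the coordinate permutation of order 7 (helper89)
-/

set_option autoImplicit false
set_option linter.all false

namespace Cfsg.Agent.Lib.H89Seven

open Cfsg Cfsg.Agent.Lib.Golay Cfsg.Agent.Lib.LeechMin Cfsg.Agent.Lib.H89LeechMat

def m7R : List ℕ := [602976409300864433545608968419097046, 935283408247093401771560733489183182, 602976409300873878278574707709524430, 602976409300864433545608968687532494, 683540598870367169393316938220323344, 602976409300864433545608968419359182, 683540752375083004322424988033892880, 688570636452223747195769879796400656, 688565724306148010529406055105446416, 688732895728901992549913608910815760, 683378493098102822949512882252431888, 683378339593688924327684785348035088, 688733049233617836702112212020904464, 688727983582825960447423024816734736, 602976409300864433545608968419105230, 683535686724291137570049539604759056, 683373264039376733780655928626397712, 602976409610349443366954037143878094, 683535523316357210589712386013807120, 688727820174892042690176441685393936, 688565560897911566169632110312702480, 683373427447613187364083393848951312, 688570789956637655041251479933960720, 602976409300864433545608968419097294]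

def m7I : List ℕ := [602976409300864433545608968419097294, 686053159114795289240674611757597076, 852206658587909773353650494292640144, 686053159114800011607157481402810768, 686053159114795289240674611891814800, 726335253899546657164528596658210225, 686053159114795289240674611757728144, 726335330651904574629082621564994993, 728850272690474946065755067446248881, 728847816617437077732573155100771761, 728931402328814068742826932003456433, 726254201013414483942626568674264497, 726254124261207534631712520222066097, 728931479081171990818926233558500785, 728928946255776052691581639956415921, 686053159114795289240674611757601168, 726332797826508641252894897350428081, 726251586484051439358198091861247409, 686053159269537794151347146119987600, 726332716122541677762726320554952113, 728928864551809093812958348390745521, 728847734913318855552686182704399793, 726251668188169666149911824472524209, 728850349442681899988495867515028913, 602976406899937755788703625491464720, 728928943700104511146534970391512559, 645852193963549630345416495450275375, 645852194040994153196155874280193519, 645852114812756007283295303553760815, 602973874074617377902983352590811662, 643256045534355486926554429732144687, 645852114812831565216829281991640559, 686048088507558673044610108245950992, 645770985174341474386394380462704111, 643174915895865248666141389118490159, 643174918449116579620253177677856303, 686053159109959585962216095058772368]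
theorem m7_orth : orthOK m7R m7R = true := by decide +kernel

theorem m7_img : imgsOK m7R m7I = true := by decide +kernel

theorem m7_inv : (allLt 24 fun i => allLt 24 fun j =>
    decide (dv (m7R.getD (img c7 i) 0) j = dv (m7R.getD i 0) (img c7 j))) = true := by decide +kernel

end Cfsg.Agent.Lib.H89Seven
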