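import Cfsg.Agent.Lib.H89Seven1

/-!
# The centralizer in `Co0` of the coordinate permutation of order 7, group theory (helper89)
-/

set_option autoImplicit false
set_option linter.all false

namespace Cfsg.Agent.Lib.H89Seven

open Cfsg Cfsg.Agent.Lib.Golay Cfsg.Agent.Lib.LeechMin Cfsg.Agent.Lib.H89LeechMat Cfsg.Agent.Lib.H89Mon1
  Cfsg.Agent.Lib.LeechQuot Cfsg.Agent.Lib.LeechOrder Cfsg.Agent.Lib.H89Mono Cfsg.Agent.Lib.H89FixRank
  Cfsg.Agent.Lib.H89FixTab Cfsg.Agent.Lib.LeechFrame Cfsg.Agent.Lib.H89Q2 Cfsg.Agent.Lib.H89Stab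
open scoped Pointwise

/-- the element of order 7 -/
noncomputable def b7 : Co0 := pC c7 inM_c7

theorem pw7_spec {i : ℕ} (hi : i < 7) : toPerm (pw7.getD i 0) = toPerm c7 ^ i := by
  induction i with
  | zero => rw [pw7_0, toPerm_cId, pow_zero]
  | succ i ih =>
    have h1 := Nat.eq_of_beq_eq_true (allLt_iff.mp pw7_ok i (by omega))
    rw [h1, toPerm_mulC (valid_of_inM inM_c7) (allLt_iff.mp pw7_valid i (by omega)), ih (by omega), pow_succ']

theorem c7_pow : toPerm c7 ^ 7 = 1 := by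
  rw [pow_succ', ← pw7_spec (i := 6) (by norm_num), ← toPerm_mulC (valid_of_inM inM_c7)
    (allLt_iff.mp pw7_valid 6 (by norm_num)), pw7_6, toPerm_cId]

theorem c7_ne : toPerm c7 ≠ 1 := by
  intro h
  have h1 := c7_pt (i := 23) (j := 0) (by norm_num) (by decide +kernel)
  rw [h] at h1
  exact pt_ne (i := 23) (j := 0) (by norm_num) (by norm_num) (by norm_num) h1

theorem b7_pow : b7 ^ 7 = 1 := by
  unfold b7 pC
  rw [← map_pow]
  have : (⟨toPerm c7, toPerm_mem_M24 inM_c7⟩ : M24) ^ 7 = 1 := Subtype.ext c7_pow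
  rw [this, map_one]

theorem b7_ne : b7 ≠ 1 := by
  intro h
  unfold b7 pC at h
  have h1 := permHom_injective (h.trans (map_one permHom).symm)
  exact c7_ne (congrArg Subtype.val h1)

theorem orderOf_b7 : orderOf b7 = 7 := by
  haveI : Fact (Nat.Prime 7) := ⟨by norm_num⟩
  exact orderOf_eq_prime b7_pow b7_ne

theorem permHom_pow (i : ℕ) : permHom (⟨toPerm c7, toPerm_mem_M24 inM_c7⟩ ^ i) = b7 ^ i := by
  unfold b7 pC
  rw [map_pow]

theorem b7_mem_N : b7 ∈ N := permHom_mem _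

/-! ### the stabilizer of three classes -/

/-- elements of the centralizer of `c7` -/
theorem exists_l42 {σ : Equiv.Perm GolayPt} (hσ : σ ∈ C7) : ∃ s ∈ l42, σ = toPerm s := by
  have hc := (mem_C7.1 hσ).2
  have hx : toPerm c7 (σ (pt 23)) ≠ σ (pt 23) := by
    have h2 := DFunLike.congr_fun hc (pt 23)
    rw [Equiv.Perm.mul_apply, Equiv.Perm.mul_apply] at h2
    rw [← h2, c7_pt (by norm_num) (show img c7 23 = 0 by decide +kernel)]
    intro e
    exact pt_ne (i := 0) (j := 23) (by norm_num) (by norm_num) (by norm_num) (σ.injective e)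
  have h1 := allLt_iff.mp l7_tr (ix (σ (pt 23))) (ix_lt _)
  cases h2 : Nat.beq (img c7 (ix (σ (pt 23)))) (ix (σ (pt 23))) with
  | true =>
    exfalso
    apply hx
    rw [toPerm_apply (valid_of_inM inM_c7), Nat.eq_of_beq_eq_true h2, pt_ix]
  | false =>
    rw [h2, cond_false] at h1
    obtain ⟨c, hc, h3⟩ := List.any_eq_true.mp h1
    obtain ⟨h4, h5⟩ := cond_false_eq.mp (List.all_eq_true.mp l7_ok c hc)
    have hcC : toPerm c ∈ C7 := mem_C7.mpr ⟨toPerm_mem_M24 h4, comm_codes h4 inM_c7 (Nat.eq_of_beq_eq_true h5)⟩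
    have hc23 : toPerm c (pt 23) = σ (pt 23) := by
      rw [toPerm_pt (valid_of_inM h4) (by norm_num), Nat.eq_of_beq_eq_true h3, pt_ix]
    have h6 : ((toPerm c)⁻¹ * σ) (pt 23) = pt 23 := by
      rw [Equiv.Perm.mul_apply, ← hc23]
      exact Equiv.symm_apply_apply _ _
    rcases C7_stab (C7.mul_mem (C7.inv_mem hcC) hσ) h6 with h7 | h7
    · exact ⟨c, List.mem_append_left _ hc, (inv_mul_eq_one.1 h7).symm⟩
    · refine ⟨mulC c c7t, List.mem_append_right _ (List.mem_map_of_mem hc), ?_⟩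
      rw [toPerm_mulC (valid_of_inM h4) (valid_of_inM inM_c7t), ← h7, mul_inv_cancel_left]

/-- fixed code words -/
theorem exists_F8 {c : Finset GolayPt} (hc : c ∈ Sup) (h : toPerm c7 • c = c) : ∃ m ∈ F8, c = mset m := by
  obtain ⟨n, hn, rfl⟩ := mem_supports_iff.1 hc
  rw [toPerm_smul_mset (valid_of_inM inM_c7)] at h
  have h3 := mset_injOn (imgM_lt (valid_of_inM inM_c7) _) (enc_lt _) h
  have h1 := allLt_iff.mp F8_ok n hn
  rw [h3, Nat.beq_refl, cond_true] at h1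
  obtain ⟨m, hm, h4⟩ := List.any_eq_true.mp h1
  exact ⟨m, hm, by rw [Nat.eq_of_beq_eq_true h4]⟩

theorem mset_full : mset 16777215 = Finset.univ := by
  ext p
  rw [mem_mset]
  have := ix_lt p
  simp only [Finset.mem_univ, iff_true]
  exact (testBit_full _).2 this

/-- monomial elements commuting with `b7` -/
theorem mono_form {g : Co0} (hg : g ∈ N) (hc : g * b7 = b7 * g) : ∃ s ∈ l42, ∃ m ∈ F8,
    ∀ v : leechLattice, ((g • v : leechLattice) : GolayPt → ℤ) = signedPerm (toPerm s) (mset m) v := by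
  obtain ⟨σ, hσ, c, hcS, h⟩ := hg
  obtain ⟨h1, h2⟩ := perm_comm (toPerm_mem_M24 inM_c7) h (toPerm_mem_M24 inM_c7) hc
  obtain ⟨s, hs, rfl⟩ := exists_l42 (mem_C7.2 ⟨hσ, h1⟩)
  obtain ⟨m, hm, rfl⟩ := exists_F8 hcS h2.symm
  exact ⟨s, hs, m, hm, h⟩

theorem ker7_spec {g : Co0} (hg : g ∈ N) (hc : g * b7 = b7 * g) (h1 : g • q2 (lw (u7.getD 1 0)) = q2 (lw (u7.getD 1 0)))
    (h2 : g • q2 (lw (u7.getD 2 0)) = q2 (lw (u7.getD 2 0))) : ∃ i < 7, g = b7 ^ i ∨ g = negOne * b7 ^ i := by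
  obtain ⟨s, hs, m, hm, h⟩ := mono_form hg hc
  have hsM := List.all_eq_true.mp l42_ok s hs
  have h3 := List.all_eq_true.mp (List.all_eq_true.mp ker7 s hs) m hm
  have hst : ∀ a, latC a = true → g • q2 (lw a) = q2 (lw a) → stB s m a = true := by
    intro a ha hga
    exact stB_of_dbl hsM ha h (q2_eq_iff.1 hga)
  rw [hst _ (tab_U tab7_ok (by norm_num)) h1, cond_true, hst _ (tab_U tab7_ok (by norm_num)) h2, cond_true] at h3
  obtain ⟨h4, h5⟩ := cond_false_eq.mp h3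
  obtain ⟨t, ht, hst'⟩ := List.any_eq_true.mp h4
  obtain ⟨i, hi, rfl⟩ := List.mem_iff_getElem.1 ht
  have hi7 : i < 7 := hi
  have h6 : toPerm s = toPerm c7 ^ i := by
    rw [Nat.eq_of_beq_eq_true hst', ← pw7_spec hi7, List.getD_eq_getElem _ _ hi]
  refine ⟨i, hi7, ?_⟩
  have h7 : ∀ v : leechLattice, ((b7 ^ i • v : leechLattice) : GolayPt → ℤ) = signedPerm (toPerm c7 ^ i) ∅ v := by
    intro v
    rw [← permHom_pow, permHom_smul]
    rfl
  cases h8 : Nat.beq m 0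
  · rw [h8, cond_false] at h5
    right
    apply ext_smul
    intro v
    apply Subtype.ext
    rw [h, Nat.eq_of_beq_eq_true h5, mset_full, mul_smul, negOne_smul, h6]
    show _ = -((b7 ^ i • v : leechLattice) : GolayPt → ℤ)
    rw [h7]
    funext p
    rw [signedPerm_apply, Pi.neg_apply, signedPerm_apply]
    simp [chi]
  · left
    apply ext_smul
    intro v
    apply Subtype.ext
    rw [h, Nat.eq_of_beq_eq_true h8, mset_zero, h6, h7]

/-! ### the two subspaces -/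

/-- the classes -/
noncomputable def X (a : ℕ) : Q2 := q2 (cmb u7 6 a)

def V1 (x : Q2) : Prop := ∃ a < 8, a ≠ 0 ∧ x = X a
def V2 (x : Q2) : Prop := ∃ a < 8, a ≠ 0 ∧ x = X (8 * a)

theorem X_inj {a b : ℕ} (ha : a < 64) (hb : b < 64) (h : X a = X b) : a = b := cmb_inj tab7_ok ha hb h

theorem X_xor (a b : ℕ) : X (a ^^^ b) = X a + X b := q2_cmb_xor _ _ _ _

theorem mem_T4_X {a : ℕ} (ha : a < 64) : X a ∈ T4 b7 ↔ idot (s7.getD a 0) (s7.getD a 0) = 64 :=
  mem_T4_iff inM_c7 tab7_ok ha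

theorem typ7_spec {a : ℕ} (ha : a < 64) : X a ∈ T4 b7 ↔ a ≠ 0 ∧ (a < 8 ∨ a % 8 = 0) := by
  rw [mem_T4_X ha]
  have h1 := allLt_iff.mp typ7 a ha
  cases h2 : decide (idot (s7.getD a 0) (s7.getD a 0) = 64)
  · rw [h2, cond_false] at h1
    have h3 := of_decide_eq_false h2
    refine ⟨fun h => absurd h h3, ?_⟩
    rintro ⟨h4, h5⟩
    exfalso
    have h6 : Nat.beq a 0 = false := Bool.eq_false_iff.2 fun h => h4 (Nat.eq_of_beq_eq_true h)
    rw [h6, cond_false] at h1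
    rcases h5 with h5 | h5
    · rw [(by rw [Nat.blt_eq]; exact h5 : Nat.blt a 8 = true), cond_true] at h1; exact Bool.false_ne_true h1
    · have h7 : Nat.beq (Nat.mod a 8) 0 = true := by rw [Nat.beq_eq]; exact h5
      rw [h7] at h1
      cases h8 : Nat.blt a 8
      · rw [h8, cond_false, cond_true] at h1; exact Bool.false_ne_true h1
      · rw [h8, cond_true] at h1; exact Bool.false_ne_true h1
  · rw [h2, cond_true] at h1
    refine ⟨fun _ => ?_, fun _ => of_decide_eq_true h2⟩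
    cases h3 : Nat.beq a 0
    · rw [h3, cond_false] at h1
      refine ⟨fun h => ?_, ?_⟩
      · rw [h] at h3; exact absurd h3 (by decide)
      · cases h4 : Nat.blt a 8
        · rw [h4, cond_false] at h1
          right; exact Nat.eq_of_beq_eq_true h1
        · left; rwa [Nat.blt_eq] at h4
    · rw [h3, cond_true] at h1; exact absurd h1 (by decide)

theorem T4_cases {x : Q2} (hx : x ∈ T4 b7) : V1 x ∨ V2 x := by
  obtain ⟨a, ha, rfl⟩ := exists_cmb inM_c7 orb7_ok tab7_ok hx.1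
  have ha' : a < 64 := ha
  obtain ⟨h1, h2⟩ := (typ7_spec ha').1 hx
  rcases h2 with h2 | h2
  · exact Or.inl ⟨a, h2, h1, rfl⟩
  · right
    refine ⟨a / 8, by omega, by omega, ?_⟩
    have : 8 * (a / 8) = a := by omega
    rw [this]; rfl

theorem V1.mem {x : Q2} (h : V1 x) : x ∈ T4 b7 := by
  obtain ⟨a, ha, h0, rfl⟩ := h
  exact (typ7_spec (by omega)).2 ⟨h0, Or.inl ha⟩

theorem V2.mem {x : Q2} (h : V2 x) : x ∈ T4 b7 := by
  obtain ⟨a, ha, h0, rfl⟩ := h
  exact (typ7_spec (by omega)).2 ⟨by omega, Or.inr (by omega)⟩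

theorem V1.not_V2 {x : Q2} (h : V1 x) (h' : V2 x) : False := by
  obtain ⟨a, ha, h0, rfl⟩ := h
  obtain ⟨b, hb, h0', hab⟩ := h'
  have := X_inj (by omega) (by omega) hab
  omega

theorem xor_small : ∀ a : Fin 8, ∀ b : Fin 8, (a : ℕ) ^^^ (b : ℕ) < 8 ∧ (8 * (a : ℕ)) ^^^ (8 * (b : ℕ)) = 8 * ((a : ℕ) ^^^ (b : ℕ)) ∧
    (a : ℕ) ^^^ (8 * (b : ℕ)) = a + 8 * b := by decide

theorem V1.add {x y : Q2} (hx : V1 x) (hy : V1 y) (hne : x ≠ y) : V1 (x + y) := by
  obtain ⟨a, ha, h0, rfl⟩ := hx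
  obtain ⟨b, hb, h0', rfl⟩ := hy
  refine ⟨a ^^^ b, (xor_small ⟨a, ha⟩ ⟨b, hb⟩).1, ?_, (X_xor _ _).symm⟩
  intro h
  exact hne (by rw [Nat.xor_eq_zero_iff.1 h])

theorem V2.add {x y : Q2} (hx : V2 x) (hy : V2 y) (hne : x ≠ y) : V2 (x + y) := by
  obtain ⟨a, ha, h0, rfl⟩ := hx
  obtain ⟨b, hb, h0', rfl⟩ := hy
  refine ⟨a ^^^ b, (xor_small ⟨a, ha⟩ ⟨b, hb⟩).1, ?_, ?_⟩
  · intro h
    exact hne (by rw [Nat.xor_eq_zero_iff.1 h])
  · rw [← (xor_small ⟨a, ha⟩ ⟨b, hb⟩).2.1, X_xor]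

theorem mix {x y : Q2} (hx : V1 x) (hy : V2 y) (h : x + y ∈ T4 b7) : False := by
  obtain ⟨a, ha, h0, rfl⟩ := hx
  obtain ⟨b, hb, h0', rfl⟩ := hy
  rw [← X_xor, (xor_small ⟨a, ha⟩ ⟨b, hb⟩).2.2, typ7_spec (by simp only; omega)] at h
  simp only at h
  omega

theorem add_self_ne {x : Q2} : x + x = 0 := q2_self x

/-! ### the centralizer -/

theorem side {g : Co0} (hg : g * b7 = b7 * g) : (∀ x, V1 x → V1 (g • x)) ∨ (∀ x, V1 x → V2 (g • x)) := by
  have h1 : V1 (X 1) := ⟨1, by norm_num, by norm_num, rfl⟩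
  rcases T4_cases (smul_mem_T4 hg h1.mem) with h2 | h2
  · left
    intro x hx
    rcases T4_cases (smul_mem_T4 hg hx.mem) with h3 | h3
    · exact h3
    · exfalso
      by_cases hne : X 1 = x
      · rw [← hne] at h3; exact h2.not_V2 h3
      · apply mix h2 h3
        rw [← smul_add2]
        exact smul_mem_T4 hg (h1.add hx hne).mem
  · right
    intro x hx
    rcases T4_cases (smul_mem_T4 hg hx.mem) with h3 | h3
    · exfalso
      by_cases hne : X 1 = x
      · rw [← hne] at h3; exact h3.not_V2 h2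
      · apply mix h3 h2
        rw [add_comm, ← smul_add2]
        exact smul_mem_T4 hg (h1.add hx hne).mem
    · exact h3

theorem comm_inv {g : Co0} (hg : g * b7 = b7 * g) : g⁻¹ * b7 = b7 * g⁻¹ := by
  have h : Commute g b7 := hg
  exact h.inv_left.eq

theorem swap_back {g : Co0} (hg : g * b7 = b7 * g) (h : ∀ x, V1 x → V2 (g • x)) : ∀ x, V2 x → V1 (g • x) := by
  intro x hx
  have h1 : V1 (X 1) := ⟨1, by norm_num, by norm_num, rfl⟩
  rcases T4_cases (smul_mem_T4 hg hx.mem) with h3 | h3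
  · exact h3
  · exfalso
    have h4 := h _ h1
    have hne : g • X 1 ≠ g • x := by
      intro e
      have : X 1 = x := smul_left_cancel g e
      rw [← this] at hx
      exact h1.not_V2 hx
    have h5 := (h4.add h3 hne).mem
    rw [← smul_add2] at h5
    have h6 := smul_mem_T4 (comm_inv hg) h5
    rw [inv_smul_smul] at h6
    exact mix h1 hx h6

/-! ### the inverting element -/

theorem exists_m7 : ∃ m : Co0, m * b7 * m⁻¹ = b7⁻¹ := by
  obtain ⟨m, hm, -⟩ := exists_mat m7_orth m7_orth m7_img m7_img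
  refine ⟨m, ?_⟩
  have h1 : b7 * (m * b7) = m := by
    apply ext_smul
    intro v
    apply Subtype.ext
    apply eight_cancel
    funext q
    obtain ⟨p, rfl⟩ := (toPerm c7).surjective q
    have h2 : ((b7 * (m * b7)) • v : leechLattice) = b7 • (m • (b7 • v)) := by rw [mul_smul, mul_smul]
    rw [h2]
    show 8 • ((b7 • (m • (b7 • v)) : leechLattice) : GolayPt → ℤ) (toPerm c7 p) = 8 • ((m • v : leechLattice) : GolayPt → ℤ) (toPerm c7 p)
    have h3 : ((b7 • (m • (b7 • v)) : leechLattice) : GolayPt → ℤ) (toPerm c7 p) = ((m • (b7 • v) : leechLattice) : GolayPt → ℤ) p :=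
      pC_smul inM_c7 _ p
    rw [h3]
    have h4 := congrFun (hm (b7 • v)) p
    have h5 := congrFun (hm v) (toPerm c7 p)
    have h6 : 8 • ((m • (b7 • v) : leechLattice) : GolayPt → ℤ) p = (mt m7R).mulVec ((b7 • v : leechLattice) : GolayPt → ℤ) p := h4.symm
    have h7 : 8 • ((m • v : leechLattice) : GolayPt → ℤ) (toPerm c7 p) = (mt m7R).mulVec (v : GolayPt → ℤ) (toPerm c7 p) := h5.symm
    rw [h6, h7]
    show ∑ q, mt m7R p q * ((b7 • v : leechLattice) : GolayPt → ℤ) q = ∑ q, mt m7R (toPerm c7 p) q * (v : GolayPt → ℤ) q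
    rw [← Equiv.sum_comp (toPerm c7)]
    apply Finset.sum_congr rfl
    intro q _
    have h8 : ((b7 • v : leechLattice) : GolayPt → ℤ) (toPerm c7 q) = (v : GolayPt → ℤ) q := pC_smul inM_c7 v q
    rw [h8]
    congr 1
    show dv (m7R.getD (ix p) 0) (ix (toPerm c7 q)) = dv (m7R.getD (ix (toPerm c7 p)) 0) (ix q)
    rw [ix_toPerm (valid_of_inM inM_c7), ix_toPerm (valid_of_inM inM_c7)]
    exact (of_decide_eq_true (allLt_iff.mp (allLt_iff.mp m7_inv (ix p) (ix_lt p)) (ix q) (ix_lt q))).symm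
  rw [mul_inv_eq_iff_eq_mul, eq_inv_mul_iff_mul_eq]
  exact h1

end Cfsg.Agent.Lib.H89Seven
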