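import Cfsg.Agent.Lib.H89Seven2
import Cfsg.Agent.Lib.H89CN

/-!
# The centralizer in `Co0` of the coordinate permutation of order 7: `2 × 7 × L3(2)` (helper89)
-/

set_option autoImplicit false
set_option linter.all false

namespace Cfsg.Agent.Lib.H89Seven

open Cfsg Cfsg.Agent.Lib.Golay Cfsg.Agent.Lib.LeechMin Cfsg.Agent.Lib.H89LeechMat Cfsg.Agent.Lib.H89Mon1
  Cfsg.Agent.Lib.LeechQuot Cfsg.Agent.Lib.LeechOrder Cfsg.Agent.Lib.H89Mono Cfsg.Agent.Lib.H89FixRank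
  Cfsg.Agent.Lib.H89FixTab Cfsg.Agent.Lib.LeechFrame Cfsg.Agent.Lib.H89Q2 Cfsg.Agent.Lib.H89Stab
  Cfsg.Agent.Lib.H89CN
open scoped Pointwise

/-- the centralizer -/
abbrev C : Subgroup Co0 := Subgroup.centralizer ({b7} : Set Co0)

theorem mem_C {g : Co0} : g ∈ C ↔ g * b7 = b7 * g := Subgroup.mem_centralizer_singleton_iff

theorem fac7 : (Nat.card N).factorization 7 = 1 := by
  rw [card_N]
  have h1 : (4096 * 244823040 : ℕ) = 7 * 143256453120 := by norm_num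
  rw [h1, Nat.factorization_mul (by norm_num) (by norm_num), Finsupp.add_apply, Nat.Prime.factorization_self (by norm_num),
    Nat.factorization_eq_zero_of_not_dvd (by norm_num)]

/-- the element of order 3 acting on `b7` -/
noncomputable def n3 : Co0 := pC c7n inM_c7n

theorem n3_mem : n3 ∈ N := permHom_mem _

theorem n3_conj : n3 * b7 * n3⁻¹ = b7 ^ 2 := by
  unfold n3 b7 pC
  rw [← map_inv, ← map_mul, ← map_mul, ← map_pow]
  congr 1
  apply Subtype.ext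
  show toPerm c7n * toPerm c7 * (toPerm c7n)⁻¹ = toPerm c7 ^ 2
  rw [mul_inv_eq_iff_eq_mul, ← toPerm_mulC (valid_of_inM inM_c7n) (valid_of_inM inM_c7), c7_n,
    toPerm_mulC (valid_mulC (valid_of_inM inM_c7) (valid_of_inM inM_c7)) (valid_of_inM inM_c7n),
    toPerm_mulC (valid_of_inM inM_c7) (valid_of_inM inM_c7), sq]

theorem n3_pow (i : ℕ) (k : ℤ) : n3 ^ i * b7 ^ k * (n3 ^ i)⁻¹ = b7 ^ (k * 2 ^ i) := by
  induction i with
  | zero => simp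
  | succ i ih =>
    have h1 : n3 ^ (i + 1) * b7 ^ k * (n3 ^ (i + 1))⁻¹ = n3 * (n3 ^ i * b7 ^ k * (n3 ^ i)⁻¹) * n3⁻¹ := by
      rw [pow_succ']; group
    rw [h1, ih, ← conj_zpow, n3_conj, ← zpow_natCast, ← zpow_mul]
    congr 1
    push_cast
    ring

theorem zpow_mod (k : ℤ) : b7 ^ k = b7 ^ (k % 7) := by
  conv_lhs => rw [← Int.emod_add_mul_ediv k 7, zpow_add, zpow_mul]
  rw [show (b7 ^ (7 : ℤ)) = 1 from by exact_mod_cast b7_pow, one_zpow, mul_one]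

theorem T4_orbit {m : Co0} (hm : m * b7 * m⁻¹ = b7⁻¹) {x : Q2} (hx : x ∈ T4 b7) :
    x ∈ MulAction.orbit C p1 ∨ x ∈ MulAction.orbit C (m • p1) := by
  haveI : Fact (Nat.Prime 7) := ⟨by norm_num⟩
  obtain ⟨h, k, h1, h2⟩ := exists_conj b7_mem_N orderOf_b7 fac7 hx
  have h3 : h⁻¹ * b7 * h = b7 ^ k := by
    conv_lhs => rw [← h1]
    group
  have key : ∀ i : ℕ, (h⁻¹ * n3 ^ i) * b7 * (h⁻¹ * n3 ^ i)⁻¹ = b7 ^ (k * 2 ^ i) := by
    intro i
    have e1 : (h⁻¹ * n3 ^ i) * b7 * (h⁻¹ * n3 ^ i)⁻¹ = h⁻¹ * (n3 ^ i * b7 ^ (1 : ℤ) * (n3 ^ i)⁻¹) * (h⁻¹)⁻¹ := by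
      rw [zpow_one]; group
    rw [e1, n3_pow, ← conj_zpow, inv_inv, h3, ← zpow_mul, one_mul]
  have hp : ∀ i : ℕ, (h⁻¹ * n3 ^ i) • p1 = x := by
    intro i
    rw [mul_smul, mem_N_iff_p1.1 (N.pow_mem n3_mem i), ← h2, inv_smul_smul]
  have hplus : ∀ i : ℕ, b7 ^ (k * 2 ^ i) = b7 → x ∈ MulAction.orbit C p1 := by
    intro i hi
    refine ⟨⟨h⁻¹ * n3 ^ i, mem_C.2 ?_⟩, hp i⟩
    rw [← mul_inv_eq_iff_eq_mul, key, hi]
  have hminus : ∀ i : ℕ, b7 ^ (k * 2 ^ i) = b7⁻¹ → x ∈ MulAction.orbit C (m • p1) := by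
    intro i hi
    refine ⟨⟨h⁻¹ * n3 ^ i * m⁻¹, mem_C.2 ?_⟩, ?_⟩
    · rw [← mul_inv_eq_iff_eq_mul]
      have e1 : m⁻¹ * b7 * m = b7⁻¹ := by
        have : m⁻¹ * (m * b7 * m⁻¹) * m = m⁻¹ * b7⁻¹ * m := by rw [hm]
        rw [← inv_inj, inv_inv]
        calc (m⁻¹ * b7 * m)⁻¹ = m⁻¹ * b7⁻¹ * m := by group
          _ = m⁻¹ * (m * b7 * m⁻¹) * m := this.symm
          _ = b7 := by group
      have e2 : h⁻¹ * n3 ^ i * m⁻¹ * b7 * (h⁻¹ * n3 ^ i * m⁻¹)⁻¹ = (h⁻¹ * n3 ^ i) * (m⁻¹ * b7 * m) * (h⁻¹ * n3 ^ i)⁻¹ := by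
        group
      have e3 : (h⁻¹ * n3 ^ i) * b7⁻¹ * (h⁻¹ * n3 ^ i)⁻¹ = ((h⁻¹ * n3 ^ i) * b7 * (h⁻¹ * n3 ^ i)⁻¹)⁻¹ := by group
      rw [e2, e1, e3, key, hi, inv_inv]
    · show (h⁻¹ * n3 ^ i * m⁻¹) • m • p1 = x
      rw [← mul_smul, inv_mul_cancel_right, hp]
  have hk : k % 7 ≠ 0 := by
    intro h0
    have h4 := zpow_mod k
    rw [h0, zpow_zero] at h4
    rw [h4] at h1
    apply b7_ne
    rw [← h1]; group
  have hlt : k % 7 < 7 := Int.emod_lt_of_pos _ (by norm_num)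
  have hge : 0 ≤ k % 7 := Int.emod_nonneg _ (by norm_num)
  have e1 : b7 = b7 ^ (1 : ℤ) := (zpow_one _).symm
  have e6 : b7⁻¹ = b7 ^ (6 : ℤ) := by
    rw [← zpow_neg_one, zpow_mod]; rfl
  have hcase : k % 7 = 1 ∨ k % 7 = 2 ∨ k % 7 = 3 ∨ k % 7 = 4 ∨ k % 7 = 5 ∨ k % 7 = 6 := by omega
  rcases hcase with h5 | h5 | h5 | h5 | h5 | h5
  · left; apply hplus 0; rw [zpow_mod, show k * 2 ^ 0 % 7 = 1 by omega, zpow_one]
  · left; apply hplus 2; rw [zpow_mod, show k * 2 ^ 2 % 7 = 1 by omega, zpow_one]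
  · right; apply hminus 1; rw [zpow_mod, show k * 2 ^ 1 % 7 = 6 by omega, e6]
  · left; apply hplus 1; rw [zpow_mod, show k * 2 ^ 1 % 7 = 1 by omega, zpow_one]
  · right; apply hminus 2; rw [zpow_mod, show k * 2 ^ 2 % 7 = 6 by omega, e6]
  · right; apply hminus 0; rw [zpow_mod, show k * 2 ^ 0 % 7 = 6 by omega, e6]

theorem p1_mem : p1 ∈ T4 b7 := by
  refine ⟨?_, ef none, ?_, rfl⟩
  · show q2 (ef none) ∈ FixS b7
    rw [mem_FixS (p := 7) (by decide) b7_pow]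
    have := mem_N_iff_p1.1 b7_mem_N
    exact q2_eq_iff.1 this
  · show sqNorm (ef none : GolayPt → ℤ) = 64
    rw [coe_ef, sqNorm_single]; norm_num

theorem orbit_sub {x : Q2} (hx : x ∈ T4 b7) : MulAction.orbit C x ⊆ T4 b7 := by
  rintro _ ⟨g, rfl⟩
  exact smul_mem_T4 (mem_C.1 g.2) hx

theorem inv_k {m : Co0} (hm : m * b7 * m⁻¹ = b7⁻¹) : m⁻¹ * b7 * m = b7 ^ (-1 : ℤ) := by
  rw [zpow_neg_one, ← inv_inj, inv_inv]
  have : (m⁻¹ * b7 * m)⁻¹ = m⁻¹ * b7⁻¹ * m := by group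
  rw [this, ← hm]; group

theorem disj {m : Co0} (hm : m * b7 * m⁻¹ = b7⁻¹) : Disjoint (MulAction.orbit C p1) (MulAction.orbit C (m • p1)) := by
  rw [Set.disjoint_left]
  rintro _ ⟨g, rfl⟩ ⟨h, hh⟩
  have h1 : ((h : Co0) * m) • p1 = (g : Co0) • p1 := by rw [mul_smul]; exact hh
  have h2 : (g : Co0)⁻¹ * ((h : Co0) * m) ∈ N := by
    rw [mem_N_iff_p1, mul_smul, h1, inv_smul_smul]
  set x := (g : Co0)⁻¹ * ((h : Co0) * m) with hx
  have h3 : x * b7 * x⁻¹ = b7⁻¹ := by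
    have e1 : x * b7 * x⁻¹ = (g : Co0)⁻¹ * ((h : Co0) * (m * b7 * m⁻¹) * (h : Co0)⁻¹) * g := by rw [hx]; group
    rw [e1, hm]
    have e2 : (h : Co0) * b7⁻¹ * (h : Co0)⁻¹ = b7⁻¹ := by
      have := mem_C.1 h.2
      rw [mul_inv_eq_iff_eq_mul, ← inv_inj]
      simp only [mul_inv_rev, inv_inv]
      have h4 := comm_inv this
      exact h4.symm
    rw [e2]
    have h4 := mem_C.1 g.2
    have h5 : Commute (g : Co0) b7 := h4
    rw [h5.inv_left.inv_right.eq, inv_mul_cancel_right]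
  obtain ⟨σ, hσ, c, hc, h5⟩ := h2
  have hiv : b7⁻¹ = permHom ⟨(toPerm c7)⁻¹, M24.inv_mem (toPerm_mem_M24 inM_c7)⟩ := by
    unfold b7 pC; rw [← map_inv]; rfl
  have h6 : x * permHom ⟨toPerm c7, toPerm_mem_M24 inM_c7⟩ = permHom ⟨(toPerm c7)⁻¹, M24.inv_mem (toPerm_mem_M24 inM_c7)⟩ * x := by
    rw [← hiv]
    exact mul_inv_eq_iff_eq_mul.1 h3
  obtain ⟨h7, -⟩ := perm_comm _ h5 _ h6
  exact no_inv σ hσ (by rw [mul_inv_eq_iff_eq_mul, h7])

theorem finQ2 : Finite Q2 := finite_Q2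

theorem ncard_two {m : Co0} (hm : m * b7 * m⁻¹ = b7⁻¹) : (MulAction.orbit C (m • p1)).ncard = (MulAction.orbit C p1).ncard := by
  have h1 : MulAction.orbit C (m • p1) = (fun x => m • x) '' MulAction.orbit C p1 := by
    ext x
    constructor
    · rintro ⟨g, rfl⟩
      refine ⟨(m⁻¹ * g * m) • p1, ⟨⟨m⁻¹ * g * m, mem_C.2 ?_⟩, rfl⟩, ?_⟩
      · rw [← mul_inv_eq_iff_eq_mul]
        have e1 : m⁻¹ * (g : Co0) * m * b7 * (m⁻¹ * (g : Co0) * m)⁻¹ = m⁻¹ * ((g : Co0) * (m * b7 * m⁻¹) * (g : Co0)⁻¹) * m := by group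
        rw [e1, hm]
        have e2 : (g : Co0) * b7⁻¹ * (g : Co0)⁻¹ = b7⁻¹ := by
          have := mem_C.1 g.2
          have h3 : Commute (g : Co0) b7 := this
          rw [h3.inv_right.eq, mul_inv_cancel_right]
        rw [e2]
        have := inv_k hm
        have e3 : m⁻¹ * b7⁻¹ * m = (m⁻¹ * b7 * m)⁻¹ := by group
        rw [e3, this, zpow_neg_one, inv_inv]
      · show m • (m⁻¹ * (g : Co0) * m) • p1 = (g : Co0) • m • p1
        rw [← mul_smul, ← mul_smul]; congr 1; group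
    · rintro ⟨_, ⟨g, rfl⟩, rfl⟩
      refine ⟨⟨m * g * m⁻¹, mem_C.2 ?_⟩, ?_⟩
      · rw [← mul_inv_eq_iff_eq_mul]
        have e1 : m * (g : Co0) * m⁻¹ * b7 * (m * (g : Co0) * m⁻¹)⁻¹ = m * ((g : Co0) * (m⁻¹ * b7 * m) * (g : Co0)⁻¹) * m⁻¹ := by group
        rw [e1, inv_k hm]
        have e2 : (g : Co0) * b7 ^ (-1 : ℤ) * (g : Co0)⁻¹ = b7 ^ (-1 : ℤ) := by
          have := mem_C.1 g.2
          have h3 : Commute (g : Co0) b7 := this
          rw [(h3.zpow_right (-1)).eq, mul_inv_cancel_right]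
        rw [e2, zpow_neg_one]
        have e3 : m * b7⁻¹ * m⁻¹ = (m * b7 * m⁻¹)⁻¹ := by group
        rw [e3, hm, inv_inv]
      · show (m * (g : Co0) * m⁻¹) • m • p1 = m • (g : Co0) • p1
        rw [← mul_smul, ← mul_smul]; congr 1; group
  rw [h1, Set.ncard_image_of_injective _ (MulAction.injective m)]

theorem ncard_orbit : (MulAction.orbit C p1).ncard = 7 := by
  obtain ⟨m, hm⟩ := exists_m7
  have h1 : T4 b7 = MulAction.orbit C p1 ∪ MulAction.orbit C (m • p1) := by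
    ext x
    constructor
    · intro hx; exact T4_orbit hm hx
    · rintro (hx | hx)
      · exact orbit_sub p1_mem hx
      · exact orbit_sub (smul_mem_T4' (inv_k hm) p1_mem) hx
  have h2 : (T4 b7).ncard = 14 := by
    rw [← cnt7]
    exact ncard_T4 inM_c7 orb7_ok tab7_ok
  haveI := finQ2
  rw [h1, Set.ncard_union_eq (disj hm) (Set.toFinite _) (Set.toFinite _), ncard_two hm] at h2
  omega

/-! ### no element exchanges the two subspaces -/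

theorem no_swap {g : Co0} (hg : g * b7 = b7 * g) (h : ∀ x, V1 x → V2 (g • x)) : False := by
  haveI := finQ2
  have h0 : MulAction.orbit C p1 = {x | x ∈ MulAction.orbit C p1 ∧ V1 x} ∪ {x | x ∈ MulAction.orbit C p1 ∧ V2 x} := by
    ext x
    constructor
    · intro hx
      rcases T4_cases (orbit_sub p1_mem hx) with h1 | h1
      · exact Or.inl ⟨hx, h1⟩
      · exact Or.inr ⟨hx, h1⟩
    · rintro (h1 | h1) <;> exact h1.1
  have h1 : Disjoint {x | x ∈ MulAction.orbit C p1 ∧ V1 x} {x | x ∈ MulAction.orbit C p1 ∧ V2 x} := by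
    rw [Set.disjoint_left]
    rintro x ⟨-, h1⟩ ⟨-, h2⟩
    exact h1.not_V2 h2
  have h2 : (fun x => g • x) '' {x | x ∈ MulAction.orbit C p1 ∧ V1 x} = {x | x ∈ MulAction.orbit C p1 ∧ V2 x} := by
    ext x
    constructor
    · rintro ⟨y, ⟨⟨c, rfl⟩, hy⟩, rfl⟩
      refine ⟨⟨⟨g, mem_C.2 hg⟩ * c, ?_⟩, h _ hy⟩
      show (g * (c : Co0)) • p1 = g • (c : Co0) • p1
      rw [mul_smul]
    · rintro ⟨⟨c, rfl⟩, hy⟩
      refine ⟨g⁻¹ • ((c : Co0) • p1), ⟨⟨⟨g⁻¹, mem_C.2 (comm_inv hg)⟩ * c, ?_⟩, ?_⟩, smul_inv_smul _ _⟩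
      · show (g⁻¹ * (c : Co0)) • p1 = g⁻¹ • (c : Co0) • p1
        rw [mul_smul]
      · rcases side (comm_inv hg) with h3 | h3
        · exfalso
          have h4 : V1 (X 1) := ⟨1, by norm_num, by norm_num, rfl⟩
          -- g maps V1 to V2, g⁻¹ maps V1 to V1: then `g (g⁻¹ x)` is in V2 and V1
          have h5 := h _ (h3 _ h4)
          rw [smul_inv_smul] at h5
          exact h4.not_V2 h5
        · exact swap_back (comm_inv hg) h3 _ hy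
  have h3 := ncard_orbit
  rw [h0, Set.ncard_union_eq h1 (Set.toFinite _) (Set.toFinite _), ← h2,
    Set.ncard_image_of_injective _ (MulAction.injective g)] at h3
  omega

theorem pres1 {g : Co0} (hg : g * b7 = b7 * g) : ∀ x, V1 x → V1 (g • x) := by
  rcases side hg with h | h
  · exact h
  · exact (no_swap hg h).elim

end Cfsg.Agent.Lib.H89Seven
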