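import Cfsg.Agent.Lib.H89Q2

/-!
# Deciding congruence modulo 2 for monomial images of coded vectors (helper89)
-/

set_option autoImplicit false
set_option linter.all false

namespace Cfsg.Agent.Lib.H89Stab

open Cfsg Cfsg.Agent.Lib.Golay Cfsg.Agent.Lib.LeechMin Cfsg.Agent.Lib.H89LeechMat Cfsg.Agent.Lib.H89Mon1
  Cfsg.Agent.Lib.LeechQuot Cfsg.Agent.Lib.LeechOrder Cfsg.Agent.Lib.H89Mono Cfsg.Agent.Lib.H89FixRank
  Cfsg.Agent.Lib.H89FixTab Cfsg.Agent.Lib.LeechFrame Cfsg.Agent.Lib.H89Q2
open scoped Pointwise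

theorem isCode_of_mem {f : ℕ → ℕ} (h : mset (maskN f) ∈ Sup) : isCode (maskN f) = true :=
  (mset_mem_supports_iff (maskN_lt f)).1 h

theorem latN_of_mem {f : ℕ → ℕ} {k : ℤ} (h : (fun p : GolayPt => (f (ix p) : ℤ) - 8 * k) ∈ leechLattice) :
    latN f = true := by
  obtain ⟨m, A, hA, h1, h2⟩ := (mem_lattice_iff' _).1 h
  have h1 : ∀ i : GolayPt, (4 : ℤ) ∣ (f (ix i) : ℤ) - 8 * k - m - 2 * chi A i := h1
  have h1' : ∀ i < 24, (4 : ℤ) ∣ (f i : ℤ) - 8 * k - m - 2 * chi A (pt i) := by
    intro i hi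
    have h3 := h1 (pt i)
    rw [ix_pt hi] at h3
    exact h3
  have hchi : ∀ i, chi A i = 0 ∨ chi A i = 1 := fun i => by
    rcases chi_cases A i with ⟨_, h⟩ | ⟨_, h⟩
    · exact Or.inr h
    · exact Or.inl h
  have hpar : ∀ i < 24, f i % 2 = f 0 % 2 := by
    intro i hi
    have a1 := h1' i hi
    have a2 := h1' 0 (by norm_num)
    rcases hchi (pt i) with h | h <;> rcases hchi (pt 0) with h' | h' <;> rw [h] at a1 <;> rw [h'] at a2 <;> omega
  have hsum : (8 : ℤ) ∣ (ns 24 f : ℤ) - 192 * k - 4 * m := by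
    have h4 : ∑ i : GolayPt, ((f (ix i) : ℤ) - 8 * k) = (ns 24 f : ℤ) - 192 * k := by
      rw [sum_ix (fun i => (f i : ℤ) - 8 * k), ns_eq]
      push_cast
      rw [Finset.sum_sub_distrib]
      simp
      ring
    rw [← h4]; exact h2
  have hm0 : (2 : ℤ) ∣ m - (f 0 % 2 : ℕ) := by
    have a2 := h1' 0 (by norm_num)
    rcases hchi (pt 0) with h' | h' <;> rw [h'] at a2 <;> omega
  obtain ⟨t, ht⟩ := hm0
  have hb : ∀ p : GolayPt, p ∈ mset (maskN f) ↔ (f (ix p) + 4 - f 0 % 2) % 4 = 2 := by
    intro p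
    rw [mem_mset, testBit_maskN f (ix_lt p)]
  have hmask : mset (maskN f) ∈ Sup := by
    rcases Int.even_or_odd t with ⟨u, hu⟩ | ⟨u, hu⟩
    · have : mset (maskN f) = A := by
        ext p
        rw [hb]
        have a1 := h1 p
        rcases chi_cases A p with ⟨hp, hc⟩ | ⟨hp, hc⟩
        · rw [hc] at a1
          refine ⟨fun _ => hp, fun _ => ?_⟩
          omega
        · rw [hc] at a1
          refine ⟨fun h => ?_, fun h => absurd h hp⟩
          omega
      rw [this]; exact hA
    · have : mset (maskN f) = Aᶜ := by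
        ext p
        rw [hb, Finset.mem_compl]
        have a1 := h1 p
        rcases chi_cases A p with ⟨hp, hc⟩ | ⟨hp, hc⟩
        · rw [hc] at a1
          refine ⟨fun h => ?_, fun h => absurd hp h⟩
          omega
        · rw [hc] at a1
          refine ⟨fun _ => hp, fun _ => ?_⟩
          omega
      rw [this]; exact compl_mem_supports hA
  apply cond_false_eq.mpr
  refine ⟨allLt_of fun i hi => ?_, cond_false_eq.mpr ⟨isCode_of_mem hmask, ?_⟩⟩
  · rw [Nat.beq_eq]; exact hpar i hi
  · rw [Nat.beq_eq]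
    show (ns 24 f + 8 - 4 * (f 0 % 2)) % 8 = 0
    omega

/-- half of the difference of the image under `(s, c)` and the vector `a`, at the image point -/
def sd (s c a i : ℕ) : ℕ :=
  Nat.sub (Nat.add (cond (c.testBit (img s i)) (Nat.sub 32 (img a i)) (img a i)) 32) (img a (img s i))

/-- is the image under `(s, c)` congruent to the vector `a` -/
def stB (s c a : ℕ) : Bool :=
  cond (allLt 24 fun i => Nat.beq (Nat.mod (sd s c a i) 2) 0) (latN fun i => Nat.div (sd s c a i) 2) false

theorem stB_of_dbl {s c a : ℕ} (hs : inM s = true) (ha : latC a = true) {g : Co0}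
    (hg : ∀ v : leechLattice, ((g • v : leechLattice) : GolayPt → ℤ) = signedPerm (toPerm s) (mset c) v)
    (h : dbl (g • lw a) (lw a)) : stB s c a = true := by
  obtain ⟨w, hw⟩ := h
  have hv := valid_of_inM hs
  have h1 : ∀ p : GolayPt, (sd s c a (ix p) : ℤ) = 2 * ((w : GolayPt → ℤ) (toPerm s p) + 16) := by
    intro p
    have h2 := congrFun (congrArg Subtype.val hw) (toPerm s p)
    have h3 : ((g • lw a : leechLattice) : GolayPt → ℤ) (toPerm s p) - (lw a : GolayPt → ℤ) (toPerm s p) =
      (w : GolayPt → ℤ) (toPerm s p) + (w : GolayPt → ℤ) (toPerm s p) := h2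
    rw [hg, signedPerm_apply, coe_lw ha] at h3
    have h4 : (toPerm s).symm (toPerm s p) = p := Equiv.symm_apply_apply _ _
    rw [h4] at h3
    have h5 : vv a p = (img a (ix p) : ℤ) - 16 := dv_eq _ _
    have h6 : vv a (toPerm s p) = (img a (img s (ix p)) : ℤ) - 16 := by
      have := dv_eq a (ix (toPerm s p))
      rw [ix_toPerm hv] at this
      show dv a (ix (toPerm s p)) = _
      rw [ix_toPerm hv, this]
    have h7 : chi (mset c) (toPerm s p) = if c.testBit (img s (ix p)) = true then 1 else 0 := by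
      simp only [chi, mem_mset, ix_toPerm hv]
    rw [h5, h6, h7] at h3
    have h8 := img_lt_32 a (ix p)
    have h9 := img_lt_32 a (img s (ix p))
    have h10 : (sd s c a (ix p) : ℤ) = ((cond (c.testBit (img s (ix p))) (32 - img a (ix p)) (img a (ix p)) + 32 - img a (img s (ix p)) : ℕ) : ℤ) := rfl
    rw [h10]
    cases hb : c.testBit (img s (ix p))
    · rw [hb] at h3
      simp only [cond_false]
      simp only [Bool.false_eq_true, if_false] at h3
      omega
    · rw [hb] at h3
      simp only [cond_true]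
      simp only [if_true] at h3
      omega
  have hpt : ∀ i < 24, (sd s c a i : ℤ) = 2 * ((w : GolayPt → ℤ) (toPerm s (pt i)) + 16) := by
    intro i hi
    have h2 := h1 (pt i)
    rw [ix_pt hi] at h2
    exact h2
  apply cond_false_eq.mpr
  constructor
  · apply allLt_of
    intro i hi
    rw [Nat.beq_eq]
    have h2 := hpt i hi
    show sd s c a i % 2 = 0
    omega
  · apply latN_of_mem (k := 2)
    have h2 : (fun p : GolayPt => ((Nat.div (sd s c a (ix p)) 2 : ℕ) : ℤ) - 8 * 2) =
        ((((permHom ⟨toPerm s, toPerm_mem_M24 hs⟩)⁻¹ • w : leechLattice)) : GolayPt → ℤ) := by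
      funext p
      have h3 : (w : GolayPt → ℤ) (toPerm s p) =
          ((((permHom ⟨toPerm s, toPerm_mem_M24 hs⟩)⁻¹ • w : leechLattice)) : GolayPt → ℤ) p := by
        have h4 := pC_smul hs ((pC s hs)⁻¹ • w) p
        rw [smul_inv_smul] at h4
        exact h4
      rw [← h3]
      have h5 := h1 p
      have h6 : Nat.div (sd s c a (ix p)) 2 = sd s c a (ix p) / 2 := rfl
      rw [h6]
      omega
    rw [h2]
    exact Subtype.mem _

end Cfsg.Agent.Lib.H89Stab
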