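import Cfsg.Agent.Lib.H89Three2

/-!
# Elements of order 3 of the monomial group `2^12:M24` (helper89)
-/

set_option autoImplicit false
set_option linter.all false

namespace Cfsg.Agent.Lib.H89Three

open Cfsg Cfsg.Agent.Lib.Golay Cfsg.Agent.Lib.LeechMin Cfsg.Agent.Lib.H89LeechMat Cfsg.Agent.Lib.H89Mon1
  Cfsg.Agent.Lib.LeechQuot Cfsg.Agent.Lib.LeechOrder Cfsg.Agent.Lib.H89Mono Cfsg.Agent.Lib.H89FixRank
  Cfsg.Agent.Lib.H89FixTab Cfsg.Agent.Lib.LeechFrame Cfsg.Agent.Lib.H89Q2 Cfsg.Agent.Lib.H89Stab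
  Cfsg.Agent.Lib.H89CN Cfsg.Agent.Lib.H89Act Cfsg.Agent.Lib.H89MatAct
open scoped Pointwise

theorem permPart_three {g : N} (h3 : g ^ 3 = 1) (h1 : g ≠ 1) : (permPart g) ^ 3 = 1 ∧ permPart g ≠ 1 := by
  refine ⟨by rw [← map_pow, h3, map_one], fun h => h1 ?_⟩
  have h2 : (g : Co0) ∈ H89Mono.T := mem_T_iff.2 h
  have h4 : g * g = 1 := Subtype.ext (T_sq h2)
  have h5 : g ^ 3 = g := by rw [pow_succ, pow_two, h4, one_mul]
  rw [← h5, h3]

/-- conjugacy of elements of order 3 of the monomial group from that of the permutation parts -/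
theorem conj_mono {g : Co0} (hg : g ∈ N) (h3 : g ^ 3 = 1) (h1 : g ≠ 1) {c : ℕ} (hc : inM c = true)
    (oc : orderOf (toPerm c) = 3) {u : Equiv.Perm GolayPt} (hu : u ∈ M24)
    (h : u * (permPart ⟨g, hg⟩).1 * u⁻¹ = toPerm c) : ∃ n ∈ N, ∃ k : ℤ, n * g ^ k * n⁻¹ = pC c hc := by
  haveI : Fact (Nat.Prime 3) := ⟨by norm_num⟩
  set ch : M24 := ⟨toPerm c, toPerm_mem_M24 hc⟩ with hch
  set L : Subgroup N := (Subgroup.zpowers ch).comap permPart with hL
  have och : orderOf ch = 3 := by rw [← oc, hch, Subgroup.orderOf_mk]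
  have hcard : Nat.card L = 12288 := by
    have e1 : L.index = (Subgroup.zpowers ch).index := Subgroup.index_comap_of_surjective _ permPart_surjective
    have e2 := Subgroup.card_mul_index L
    have e3 := Subgroup.card_mul_index (Subgroup.zpowers ch)
    rw [Nat.card_zpowers, och, natCard_M24] at e3
    rw [e1, card_N] at e2
    have e4 : (Subgroup.zpowers ch).index = 81607680 := by omega
    rw [e4] at e2
    omega
  have hfac : (Nat.card L).factorization 3 = 1 := by
    rw [hcard, show (12288 : ℕ) = 3 * 4096 by norm_num, Nat.factorization_mul (by norm_num) (by norm_num),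
      Finsupp.add_apply, Nat.Prime.factorization_self (by norm_num), Nat.factorization_eq_zero_of_not_dvd (by norm_num)]
  set U : N := ⟨permHom ⟨u, hu⟩, permHom_mem _⟩ with hU
  have hUp : permPart U = ⟨u, hu⟩ := permPart_permHom _
  set g' : N := U * ⟨g, hg⟩ * U⁻¹ with hg'
  have hgp : permPart g' = ch := by
    rw [hg', map_mul, map_mul, map_inv, hUp]
    exact Subtype.ext h
  set β : N := ⟨pC c hc, permHom_mem _⟩ with hβ
  have hβp : permPart β = ch := permPart_permHom _
  have og : orderOf g' = 3 := by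
    apply orderOf_eq_prime
    · rw [hg', conj_pow]
      have : (⟨g, hg⟩ : N) ^ 3 = 1 := Subtype.ext h3
      rw [this]; group
    · intro e
      rw [e, map_one] at hgp
      rw [← hgp, orderOf_one] at och
      exact absurd och (by norm_num)
  have oβ : orderOf β = 3 := by
    apply orderOf_eq_prime
    · apply Subtype.ext
      show (permHom ch) ^ 3 = 1
      rw [← map_pow, ← och, pow_orderOf_eq_one, map_one]
    · intro e
      rw [e, map_one] at hβp
      rw [← hβp, orderOf_one] at och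
      exact absurd och (by norm_num)
  obtain ⟨n, -, k, hk⟩ := conj_of_card (L := L) (g := g') (h := β) (show permPart g' ∈ _ by rw [hgp]; exact Subgroup.mem_zpowers _)
    (show permPart β ∈ _ by rw [hβp]; exact Subgroup.mem_zpowers _) og oβ hfac
  refine ⟨((n * U : N) : Co0), (n * U).2, k, ?_⟩
  have h5 : (n * U) * (⟨g, hg⟩ : N) ^ k * (n * U)⁻¹ = β := by
    rw [← hk, hg', conj_zpow]; group
  exact congrArg Subtype.val h5

theorem perm_coe_pow {x : M24} (h : x ^ 3 = 1) : (x : Equiv.Perm GolayPt) ^ 3 = 1 := congrArg Subtype.val h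

theorem conj3B {g : Co0} (hg : g ∈ N) (h3 : g ^ 3 = 1) (h1 : g ≠ 1) (hfp : ∀ p, (permPart ⟨g, hg⟩).1 p ≠ p) :
    ∃ n ∈ N, ∃ k : ℤ, n * g ^ k * n⁻¹ = b3 := by
  have hp := permPart_three (g := ⟨g, hg⟩) (Subtype.ext h3) (fun e => h1 (congrArg Subtype.val e))
  obtain ⟨u, hu, h⟩ := class3B (permPart ⟨g, hg⟩).2 (perm_coe_pow hp.1) hfp
  exact conj_mono hg h3 h1 inM_cX orderOf_cX hu h

/-- the other element of order 3 -/
noncomputable def a3 : Co0 := pC cZ inM_cZ

theorem a3_mem_N : a3 ∈ N := permHom_mem _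

theorem a3_pow : a3 ^ 3 = 1 := by
  unfold a3 pC
  rw [← map_pow]
  have : (⟨toPerm cZ, toPerm_mem_M24 inM_cZ⟩ : M24) ^ 3 = 1 :=
    Subtype.ext (by show toPerm cZ ^ 3 = 1; rw [← orderOf_cZ]; exact pow_orderOf_eq_one _)
  rw [this, map_one]

theorem a3_ne : a3 ≠ 1 := by
  intro h
  unfold a3 pC at h
  have h1 := permHom_injective (h.trans (map_one permHom).symm)
  have h2 : toPerm cZ = 1 := congrArg Subtype.val h1
  have := orderOf_cZ
  rw [h2, orderOf_one] at this
  exact absurd this (by norm_num)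

theorem orderOf_a3 : orderOf a3 = 3 := by
  haveI : Fact (Nat.Prime 3) := ⟨by norm_num⟩
  exact orderOf_eq_prime a3_pow a3_ne

theorem conj3A {g : Co0} (hg : g ∈ N) (h3 : g ^ 3 = 1) (h1 : g ≠ 1) (hfp : ∃ p, (permPart ⟨g, hg⟩).1 p = p) :
    ∃ n ∈ N, ∃ k : ℤ, n * g ^ k * n⁻¹ = a3 := by
  have hp := permPart_three (g := ⟨g, hg⟩) (Subtype.ext h3) (fun e => h1 (congrArg Subtype.val e))
  obtain ⟨u, hu, h⟩ := class3A (permPart ⟨g, hg⟩).2 (perm_coe_pow hp.1) (fun e => hp.2 (Subtype.ext e)) hfp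
  exact conj_mono hg h3 h1 inM_cZ orderOf_cZ hu h

/-! ### the class of `a3` is 3-central -/

theorem card_stab_le' : Nat.card (MulAction.stabilizer C p1) ≤ Nat.card C3 * 16 := by
  have h1 : ∀ g : MulAction.stabilizer C p1, ∃ x : C3 × Fin F3.length, ∀ v : leechLattice,
      ((((g : C) : Co0) • v : leechLattice) : GolayPt → ℤ) = signedPerm (x.1 : Equiv.Perm GolayPt) (mset (F3.get x.2)) v := by
    intro g
    obtain ⟨σ, hσ, m, hm, h⟩ := mono_form (mem_N_iff_p1.2 g.2) (mem_C.1 g.1.2)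
    obtain ⟨i, hi⟩ := List.mem_iff_get.1 hm
    exact ⟨(⟨σ, hσ⟩, i), by rw [hi]; exact h⟩
  choose f hf using h1
  have h2 : Function.Injective f := by
    intro g h e
    apply Subtype.ext
    apply Subtype.ext
    apply ext_smul
    intro v
    apply Subtype.ext
    rw [hf g, hf h, e]
  haveI : Finite C3 := inferInstance
  have h3 := Nat.card_le_card_of_injective f h2
  rw [Nat.card_prod, Nat.card_fin] at h3
  exact h3

theorem card_C3 : Nat.card C3 = 504 := by
  haveI : Finite Q2 := finite_Q2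
  have h1 : Nat.card C = Nat.card (MulAction.stabilizer C p1) * (MulAction.orbit C p1).ncard := card_eq inM_cX
  have h3 : (MulAction.orbit C p1).ncard ≤ 135 := by
    rw [← ncard_T4_3]
    exact Set.ncard_le_ncard (orbit_sub p1_mem) (Set.toFinite _)
  have h2 := card_stab_le'
  have h4 := card_C3_le
  have h5 := card_ker_range Ph0
  rw [cards.1, cards.2, card_A9] at h5
  have h6 : Nat.card C ≤ (Nat.card C3 * 16) * 135 := by
    rw [h1]; exact Nat.mul_le_mul h2 h3
  omega

theorem exists_P0 : ∃ P0 : Subgroup Co0, P0 ≤ N ∧ Nat.card P0 = 27 ∧ a3 ∈ P0 ∧ ∀ p ∈ P0, p * a3 = a3 * p := by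
  haveI : Fact (Nat.Prime 3) := ⟨by norm_num⟩
  obtain ⟨P⟩ : Nonempty (Sylow 3 M24) := inferInstance
  have hcard : Nat.card P = 27 := by
    rw [P.card_eq_multiplicity, natCard_M24]
    have h1 : (244823040 : ℕ) = 27 * 9067520 := by norm_num
    rw [h1, Nat.factorization_mul (by norm_num) (by norm_num), Finsupp.add_apply,
      Nat.factorization_eq_zero_of_not_dvd (show ¬ 3 ∣ 9067520 by norm_num), show (27 : ℕ) = 3 ^ 3 by norm_num,
      Nat.Prime.factorization_pow (by norm_num), Finsupp.single_eq_same]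
  haveI : Nontrivial P := Finite.one_lt_card_iff_nontrivial.1 (by rw [hcard]; norm_num)
  haveI : Nontrivial (Subgroup.center P) := P.isPGroup'.center_nontrivial
  obtain ⟨k, hk⟩ := IsPGroup.iff_card.1 (P.isPGroup'.to_subgroup (Subgroup.center P))
  have hd : 3 ∣ Nat.card (Subgroup.center P) := by
    rw [hk]
    apply dvd_pow_self
    rintro rfl
    rw [pow_zero] at hk
    have := Finite.one_lt_card (α := Subgroup.center P)
    omega
  obtain ⟨c, hc⟩ := exists_prime_orderOf_dvd_card' 3 hd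
  set c' : M24 := ((c : P) : M24) with hc'
  have oc : orderOf c' = 3 := by
    rw [← hc, hc', Subgroup.orderOf_coe, Subgroup.orderOf_coe]
  have hcen : ∀ x ∈ (P : Subgroup M24), x * c' = c' * x := by
    intro x hx
    have h1 := Subgroup.mem_center_iff.1 c.2 ⟨x, hx⟩
    exact congrArg Subtype.val h1
  have hcP : c' ∈ (P : Subgroup M24) := (c : P).2
  have h3 : (c' : Equiv.Perm GolayPt) ^ 3 = 1 := by
    have : c' ^ 3 = 1 := by rw [← oc]; exact pow_orderOf_eq_one _
    exact congrArg Subtype.val this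
  have hne : (c' : Equiv.Perm GolayPt) ≠ 1 := by
    intro e
    have : c' = 1 := Subtype.ext e
    rw [this, orderOf_one] at oc
    exact absurd oc (by norm_num)
  by_cases hfp : ∃ p, (c' : Equiv.Perm GolayPt) p = p
  · obtain ⟨u, hu, h⟩ := class3A c'.2 h3 hne hfp
    let f : M24 →* Co0 := permHom.comp (MulAut.conj (⟨u, hu⟩ : M24)).toMonoidHom
    have hf : Function.Injective f := permHom_injective.comp (MulAut.conj (⟨u, hu⟩ : M24)).injective
    have hfc : f c' = a3 := by
      show permHom (⟨u, hu⟩ * c' * (⟨u, hu⟩ : M24)⁻¹) = permHom ⟨toPerm cZ, _⟩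
      congr 1
      exact Subtype.ext h
    refine ⟨(P : Subgroup M24).map f, ?_, ?_, ⟨c', hcP, hfc⟩, ?_⟩
    · rintro _ ⟨x, hx, rfl⟩
      exact permHom_mem _
    · rw [← hcard]
      exact (Nat.card_congr (Subgroup.equivMapOfInjective _ f hf).toEquiv).symm
    · rintro _ ⟨x, hx, rfl⟩
      rw [← hfc, ← map_mul, hcen x hx, map_mul]
  · exfalso
    push Not at hfp
    obtain ⟨u, hu, h⟩ := class3B c'.2 h3 hfp
    let f : M24 →* Equiv.Perm GolayPt := M24.subtype.comp (MulAut.conj (⟨u, hu⟩ : M24)).toMonoidHom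
    have hf : Function.Injective f := M24.subtype_injective.comp (MulAut.conj (⟨u, hu⟩ : M24)).injective
    have hle : (P : Subgroup M24).map f ≤ C3 := by
      rintro _ ⟨x, hx, rfl⟩
      rw [mem_C3]
      refine ⟨((MulAut.conj (⟨u, hu⟩ : M24)) x).2, ?_⟩
      have h5 : f c' = toPerm cX := h
      rw [← h5, ← map_mul, hcen x hx, map_mul]
    have h6 : Nat.card ((P : Subgroup M24).map f) = 27 := by
      rw [← hcard]
      exact (Nat.card_congr (Subgroup.equivMapOfInjective _ f hf).toEquiv).symm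
    have h7 := Subgroup.card_dvd_of_le hle
    rw [h6, card_C3] at h7
    norm_num at h7

end Cfsg.Agent.Lib.H89Three
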