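import Cfsg.Agent.Lib.H89MonP4
import Cfsg.Agent.Lib.H89ThreeCl

/-!
# Groups of Monster type: the centralizer of an element of order 3 that is not 3-central (helper89)
-/

set_option autoImplicit false
set_option linter.all false

namespace Cfsg.Agent.Lib.H89Mon1

open Cfsg Cfsg.Agent.Lib.LargeExtra Cfsg.Agent.Lib.LeechTrans Cfsg.Agent.Lib.LeechCo2 Cfsg.Agent.Lib.LeechFrame
  Cfsg.Agent.Lib.LeechQuot Cfsg.Agent.Lib.LeechOrder Cfsg.Agent.Lib.H89Three
open scoped Pointwise

variable {G : Type*} [Group G] {z : G} {Q : Subgroup (Subgroup.centralizer ({z} : Set G))} [Q.Normal]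
  {e : (Subgroup.centralizer ({z} : Set G)) ⧸ Q ≃* Spor.Co1} {ψ : leechLattice → Q ⧸ Subgroup.center Q}

/-- the members of `L` inducing elements of a subgroup of `Co0` -/
def Lf (e : (Subgroup.centralizer ({z} : Set G)) ⧸ Q ≃* Spor.Co1) (L : Subgroup G) (P : Subgroup Co0) : Subgroup G where
  carrier := {x | x ∈ L ∧ ∃ p ∈ P, Rl e x p}
  one_mem' := ⟨one_mem _, 1, one_mem _, Rl.one⟩
  mul_mem' := by
    rintro x y ⟨hx, p, hp, h⟩ ⟨hy, q, hq, h'⟩
    exact ⟨mul_mem hx hy, p * q, mul_mem hp hq, h.mul h'⟩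
  inv_mem' := by
    rintro x ⟨hx, p, hp, h⟩
    exact ⟨inv_mem hx, p⁻¹, inv_mem hp, h.inv⟩

theorem mem_Lf {L : Subgroup G} {P : Subgroup Co0} {x : G} : x ∈ Lf e L P ↔ x ∈ L ∧ ∃ p ∈ P, Rl e x p := Iff.rfl

section
variable [Finite G] (M : Mon z Q e ψ)
include M

theorem norm_ef : sqNorm (ef none : GolayPt → ℤ) = 64 := by rw [coe_ef, sqNorm_single]; norm_num

theorem Mon.exists_L {s : G} (hs : Cl ψ s (ef none)) {g : Co0} (hg : g ∈ N) :
    ∃ x ∈ Subgroup.centralizer ({z, s} : Set G), Rl e x g := by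
  obtain ⟨h1, h2⟩ := M.ne_of_short hs (ne_zero_of_norm (norm_ef M) (by norm_num)) (le_of_eq (norm_ef M))
  have h3 : g ∈ hat e (Subgroup.centralizer ({z} : Set G) ⊓ Subgroup.centralizer ({s} : Set G)) := by
    rw [M.mem_hat_cent hs h1 h2]
    exact dbl_symm (H89Mono.mem_N_iff'.1 hg)
  obtain ⟨x, hx, hxg⟩ := h3
  exact ⟨x, by rw [L_eq M]; exact hx, hxg⟩

theorem L_le {s : G} : Subgroup.centralizer ({z, s} : Set G) ≤ Subgroup.centralizer ({z} : Set G) := by
  rw [L_eq M]; exact inf_le_left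

/-- an element of odd order of `Q` is trivial -/
theorem Mon.odd_QG {x : G} (hx : x ∈ QG Q) {p k : ℕ} (hp : p.Prime) (hp2 : p ≠ 2) (h : x ^ p ^ k = 1) : x = 1 := by
  obtain ⟨m, hm⟩ := M.pre.isP ⟨x, hx⟩
  have h1 : orderOf x ∣ 2 ^ m := orderOf_dvd_of_pow_eq_one (congrArg Subtype.val hm)
  have h2 : orderOf x ∣ p ^ k := orderOf_dvd_of_pow_eq_one h
  have h3 : Nat.Coprime (2 ^ m) (p ^ k) := Nat.Coprime.pow _ _ ((Nat.coprime_primes Nat.prime_two hp).2 (Ne.symm hp2))
  exact orderOf_eq_one_iff.1 (Nat.eq_one_of_dvd_coprimes h3 h1 h2)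

/-- elements of type 3A are 3-central -/
theorem Mon.central_3A {s : G} (hs : Cl ψ s (ef none)) {b : G} (hbL : b ∈ Subgroup.centralizer ({z, s} : Set G))
    (hb : b ^ 3 = 1) {g : Co0} (hg : Rl e b g) (hgN : g ∈ N) (hg3 : g ^ 3 = 1) (hg1 : g ≠ 1)
    (hfp : ∃ p, (H89Mono.permPart ⟨g, hgN⟩).1 p = p) :
    27 ∣ Nat.card ↥(Subgroup.centralizer ({z, s} : Set G) ⊓ Subgroup.centralizer ({b} : Set G)) := by
  haveI : Fact (Nat.Prime 3) := ⟨by norm_num⟩
  obtain ⟨n, hn, k, hk⟩ := conj3A hgN hg3 hg1 hfp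
  obtain ⟨P0, hP0, hc0, ha0, hcen0⟩ := exists_P0
  -- transport to `g`
  have hog : orderOf g = 3 := orderOf_eq_prime hg3 hg1
  have hgk : ∃ j : ℤ, (g ^ k) ^ j = g := by
    have h1 : Nat.card (Subgroup.zpowers (g ^ k)) ∣ 3 := by
      rw [← hog, ← Nat.card_zpowers]
      exact Subgroup.card_dvd_of_le (Subgroup.zpowers_le.2 ⟨k, rfl⟩)
    rcases (Nat.dvd_prime Nat.prime_three).1 h1 with h2 | h2
    · exfalso
      have h3 : g ^ k = 1 := Subgroup.zpowers_eq_bot.1 (Subgroup.eq_bot_of_card_eq _ h2)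
      rw [h3] at hk
      apply a3_ne
      rw [← hk]; group
    · have h3 : Subgroup.zpowers (g ^ k) = Subgroup.zpowers g := by
        apply Subgroup.eq_of_le_of_card_ge (Subgroup.zpowers_le.2 (zpow_mem (Subgroup.mem_zpowers g) k))
        rw [h2, Nat.card_zpowers, hog]
      have h4 : g ∈ Subgroup.zpowers (g ^ k) := by rw [h3]; exact Subgroup.mem_zpowers g
      exact h4
  obtain ⟨j, hj⟩ := hgk
  have hgP : n * g * n⁻¹ = a3 ^ j := by rw [← hk, conj_zpow, hj]
  set P1 : Subgroup Co0 := P0.map (MulAut.conj n⁻¹).toMonoidHom with hP1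
  have hc1 : Nat.card P1 = 27 := by
    rw [← hc0]
    exact (Nat.card_congr (Subgroup.equivMapOfInjective _ _ (MulAut.conj n⁻¹).injective).toEquiv).symm
  have hP1N : P1 ≤ N := by
    rintro _ ⟨p, hp, rfl⟩
    show n⁻¹ * p * (n⁻¹)⁻¹ ∈ N
    exact mul_mem (mul_mem (inv_mem hn) (hP0 hp)) (inv_mem (inv_mem hn))
  have hg1' : g ∈ P1 := by
    refine ⟨n * g * n⁻¹, ?_, ?_⟩
    · rw [hgP]; exact zpow_mem ha0 j
    · show n⁻¹ * (n * g * n⁻¹) * (n⁻¹)⁻¹ = g
      group
  have hcen1 : ∀ p ∈ P1, p * g = g * p := by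
    rintro _ ⟨p, hp, rfl⟩
    have h1 : Commute p (a3 ^ j) := (show Commute p a3 from hcen0 p hp).zpow_right j
    rw [← hgP] at h1
    show n⁻¹ * p * (n⁻¹)⁻¹ * g = g * (n⁻¹ * p * (n⁻¹)⁻¹)
    calc n⁻¹ * p * (n⁻¹)⁻¹ * g = n⁻¹ * (p * (n * g * n⁻¹)) * n := by group
      _ = n⁻¹ * ((n * g * n⁻¹) * p) * n := by rw [h1.eq]
      _ = g * (n⁻¹ * p * (n⁻¹)⁻¹) := by group
  set X := Lf e (Subgroup.centralizer ({z, s} : Set G)) P1 with hX
  have hbX : b ∈ X := mem_Lf.2 ⟨hbL, g, hg1', hg⟩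
  have h27 : 27 ∣ Nat.card X := by
    have h1 : P1 ≤ hat e X := by
      intro p hp
      obtain ⟨x, hx, hxp⟩ := M.exists_L hs (hP1N hp)
      exact ⟨x, ⟨hx, p, hp, hxp⟩, hxp⟩
    have h2 := Subgroup.card_dvd_of_le h1
    rw [hc1] at h2
    have h3 := card_hat (e := e) (Y := X) (fun x hx => L_le M hx.1)
    have h4 : 27 ∣ 2 * Nat.card X := by rw [← h3]; exact Dvd.dvd.mul_right h2 _
    exact (Nat.Coprime.dvd_mul_left (by norm_num)).1 h4
  set bX : X := ⟨b, hbX⟩ with hbX'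
  have hp3 : IsPGroup 3 (Subgroup.zpowers bX) := by
    have h1 : bX ^ 3 = 1 := Subtype.ext hb
    rcases (Nat.dvd_prime Nat.prime_three).1 (orderOf_dvd_of_pow_eq_one h1) with h2 | h2
    · exact IsPGroup.of_card (n := 0) (by rw [Nat.card_zpowers, h2, pow_zero])
    · exact IsPGroup.of_card (n := 1) (by rw [Nat.card_zpowers, h2, pow_one])
  obtain ⟨P, hP⟩ := hp3.exists_le_sylow
  have hbP : bX ∈ (P : Subgroup X) := hP (Subgroup.mem_zpowers _)
  have hPc : 27 ∣ Nat.card P := by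
    rw [P.card_eq_multiplicity]
    have h1 : (3 : ℕ) ^ 3 ∣ Nat.card X := by norm_num; exact h27
    have h2 : 3 ≤ (Nat.card X).factorization 3 := (Nat.Prime.pow_dvd_iff_le_factorization (by norm_num) Nat.card_pos.ne').1 h1
    exact (show (27 : ℕ) = 3 ^ 3 by norm_num) ▸ pow_dvd_pow 3 h2
  have hcomm : ∀ x ∈ (P : Subgroup X), (x : G) * b = b * x := by
    intro x hx
    obtain ⟨-, p, hp, hxp⟩ := x.2
    set c : X := bX * x * bX⁻¹ * x⁻¹ with hc
    have hcP : c ∈ (P : Subgroup X) := mul_mem (mul_mem (mul_mem hbP hx) (inv_mem hbP)) (inv_mem hx)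
    have h1 : Rl e (c : G) (g * p * g⁻¹ * p⁻¹) := ((hg.mul hxp).mul hg.inv).mul hxp.inv
    have h2 : g * p * g⁻¹ * p⁻¹ = 1 := by rw [← hcen1 p hp]; group
    rw [h2] at h1
    have h3 := Rl.one_iff.1 h1
    obtain ⟨m, hm⟩ := P.isPGroup' ⟨c, hcP⟩
    have h4 : (c : G) ^ 3 ^ m = 1 := congrArg (fun t : P => ((t : X) : G)) hm
    have h5 := M.odd_QG h3 (by norm_num) (by norm_num) h4
    have h6 : b * (x : G) * b⁻¹ * (x : G)⁻¹ = 1 := h5
    have h7 := mul_inv_eq_one.1 h6
    exact (mul_inv_eq_iff_eq_mul.1 h7).symm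
  have hle : (P : Subgroup X).map X.subtype ≤ Subgroup.centralizer ({z, s} : Set G) ⊓ Subgroup.centralizer ({b} : Set G) := by
    rintro _ ⟨x, hx, rfl⟩
    exact ⟨x.2.1, Subgroup.mem_centralizer_singleton_iff.2 (hcomm x hx)⟩
  have h8 := Subgroup.card_dvd_of_le hle
  have h9 : Nat.card ((P : Subgroup X).map X.subtype) = Nat.card P :=
    (Nat.card_congr (Subgroup.equivMapOfInjective _ X.subtype X.subtype_injective).toEquiv).symm
  rw [h9] at h8
  exact hPc.trans h8

theorem fac_N3 : (Nat.card N).factorization 3 = 3 := by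
  rw [H89CN.card_N]
  have h1 : (4096 * 244823040 : ℕ) = 27 * 37140561920 := by norm_num
  rw [h1, Nat.factorization_mul (by norm_num) (by norm_num), Finsupp.add_apply,
    Nat.factorization_eq_zero_of_not_dvd (show ¬ 3 ∣ 37140561920 by norm_num), show (27 : ℕ) = 3 ^ 3 by norm_num,
    Nat.Prime.factorization_pow (by norm_num), Finsupp.single_eq_same]

/-- the hypothesis in terms of the order of the centralizer -/
theorem Mon.not_central {s : G} (hs : Cl ψ s (ef none)) {b : G} (hbL : b ∈ Subgroup.centralizer ({z, s} : Set G))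
    (hb : b ^ 3 = 1) {Y : Subgroup G} (hY : Y = Subgroup.zpowers b)
    (hnc : ∀ P : Sylow 3 ↥(Subgroup.centralizer ({z, s} : Set G)), ¬ Y.subgroupOf (Subgroup.centralizer ({z, s} : Set G)) ≤
      (Subgroup.center ↥(P : Subgroup ↥(Subgroup.centralizer ({z, s} : Set G)))).map
        (P : Subgroup ↥(Subgroup.centralizer ({z, s} : Set G))).subtype) :
    ¬ 27 ∣ Nat.card ↥(Subgroup.centralizer ({z, s} : Set G) ⊓ Subgroup.centralizer ({b} : Set G)) := by
  haveI : Fact (Nat.Prime 3) := ⟨by norm_num⟩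
  intro h27
  set L := Subgroup.centralizer ({z, s} : Set G) with hL
  set D := L ⊓ Subgroup.centralizer ({b} : Set G) with hD
  have hbD : b ∈ D := ⟨hbL, Subgroup.mem_centralizer_singleton_iff.2 rfl⟩
  set bD : D := ⟨b, hbD⟩ with hbD'
  have hp3 : IsPGroup 3 (Subgroup.zpowers bD) := by
    have h1 : bD ^ 3 = 1 := Subtype.ext hb
    rcases (Nat.dvd_prime Nat.prime_three).1 (orderOf_dvd_of_pow_eq_one h1) with h2 | h2
    · exact IsPGroup.of_card (n := 0) (by rw [Nat.card_zpowers, h2, pow_zero])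
    · exact IsPGroup.of_card (n := 1) (by rw [Nat.card_zpowers, h2, pow_one])
  obtain ⟨P, hP⟩ := hp3.exists_le_sylow
  have hLf : (Nat.card L).factorization 3 = 3 := by
    rw [M.fac_L hs (norm_ef M) (by norm_num) (by norm_num), fac_N3 M]
  have hPc : Nat.card P = 3 ^ (Nat.card L).factorization 3 := by
    rw [P.card_eq_multiplicity, hLf]
    congr 1
    have h1 : (3 : ℕ) ^ 3 ∣ Nat.card D := by norm_num; exact h27
    have h2 : 3 ≤ (Nat.card D).factorization 3 := (Nat.Prime.pow_dvd_iff_le_factorization (by norm_num) Nat.card_pos.ne').1 h1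
    have h3 : Nat.card D ∣ Nat.card L := Subgroup.card_dvd_of_le inf_le_left
    have h4 := (Nat.factorization_le_iff_dvd Nat.card_pos.ne' Nat.card_pos.ne').2 h3 3
    rw [hLf] at h4
    exact le_antisymm h4 h2
  let f : D →* L := Subgroup.inclusion inf_le_left
  have hf : Function.Injective f := Subgroup.inclusion_injective _
  have hc2 : Nat.card ((P : Subgroup D).map f) = 3 ^ (Nat.card L).factorization 3 := by
    rw [← hPc]
    exact (Nat.card_congr (Subgroup.equivMapOfInjective _ f hf).toEquiv).symm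
  apply hnc (Sylow.ofCard _ hc2)
  rintro y hy
  rw [Subgroup.mem_subgroupOf, hY] at hy
  obtain ⟨i, hi⟩ := hy
  have hi' : b ^ i = (y : G) := hi
  have hyP : y ∈ (P : Subgroup D).map f := by
    refine ⟨bD ^ i, zpow_mem (hP (Subgroup.mem_zpowers _)) i, ?_⟩
    apply Subtype.ext
    show ((bD ^ i : D) : G) = y
    rw [← hi']; rfl
  refine ⟨⟨y, hyP⟩, ?_, rfl⟩
  refine Subgroup.mem_center_iff.2 ?_
  rintro ⟨x, d, hd, rfl⟩
  apply Subtype.ext
  apply Subtype.ext
  show (d : G) * y = y * (d : G)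
  rw [← hi']
  have h5 : Commute (d : G) b := Subgroup.mem_centralizer_singleton_iff.1 d.2.2
  exact (h5.zpow_right i).eq

/-- the Frattini property for elements of type 3B -/
theorem Mon.frP3 {s : G} (hs : Cl ψ s (ef none)) {b : G} (hbL : b ∈ Subgroup.centralizer ({z, s} : Set G))
    (hb : orderOf b = 3) (hr : Rl e b b3)
    (hK : ¬ 27 ∣ Nat.card ↥(Subgroup.centralizer ({z, s} : Set G) ⊓ Subgroup.centralizer ({b} : Set G))) : FrP z s b := by
  haveI : Fact (Nat.Prime 3) := ⟨by norm_num⟩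
  intro n hn
  set L := Subgroup.centralizer ({z, s} : Set G) with hL
  set b' := n * b * n⁻¹ with hb'
  have hb'L : b' ∈ L := hn b hbL
  have hb3 : b ^ 3 = 1 := by rw [← hb]; exact pow_orderOf_eq_one b
  have hb'3 : b' ^ 3 = 1 := by rw [hb', _root_.conj_pow, hb3]; group
  have hmapL : L.map (MulAut.conj n).toMonoidHom = L := by
    apply Subgroup.eq_of_le_of_card_ge
    · rintro _ ⟨x, hx, rfl⟩
      exact hn x hx
    · exact (Nat.card_congr (Subgroup.equivMapOfInjective _ _ (MulAut.conj n).injective).toEquiv).le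
  have hcardD : Nat.card ↥(L ⊓ Subgroup.centralizer ({b'} : Set G)) = Nat.card ↥(L ⊓ Subgroup.centralizer ({b} : Set G)) := by
    have h1 : (L ⊓ Subgroup.centralizer ({b} : Set G)).map (MulAut.conj n).toMonoidHom = L ⊓ Subgroup.centralizer ({b'} : Set G) := by
      ext y
      constructor
      · rintro ⟨x, ⟨hx1, hx2⟩, rfl⟩
        refine ⟨hn x hx1, Subgroup.mem_centralizer_singleton_iff.2 ?_⟩
        replace hx2 := Subgroup.mem_centralizer_singleton_iff.1 hx2
        show n * x * n⁻¹ * (n * b * n⁻¹) = n * b * n⁻¹ * (n * x * n⁻¹)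
        calc n * x * n⁻¹ * (n * b * n⁻¹) = n * (x * b) * n⁻¹ := by group
          _ = n * b * n⁻¹ * (n * x * n⁻¹) := by rw [hx2]; group
      · rintro ⟨hy1, hy2⟩
        rw [SetLike.mem_coe, ← hmapL] at hy1
        obtain ⟨x, hx, rfl⟩ := hy1
        refine ⟨x, ⟨hx, Subgroup.mem_centralizer_singleton_iff.2 ?_⟩, rfl⟩
        have h2 : n * x * n⁻¹ * (n * b * n⁻¹) = n * b * n⁻¹ * (n * x * n⁻¹) := Subgroup.mem_centralizer_singleton_iff.1 hy2
        have h3 : n * (x * b) * n⁻¹ = n * (b * x) * n⁻¹ := by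
          calc n * (x * b) * n⁻¹ = n * x * n⁻¹ * (n * b * n⁻¹) := by group
            _ = n * b * n⁻¹ * (n * x * n⁻¹) := h2
            _ = n * (b * x) * n⁻¹ := by group
        exact mul_left_cancel (mul_right_cancel h3)
    rw [← h1]
    exact (Nat.card_congr (Subgroup.equivMapOfInjective _ _ (MulAut.conj n).injective).toEquiv).symm
  obtain ⟨g, hg, hg3⟩ := M.exists_odd_lift (L_le M hb'L) (p := 3) (by decide) hb'3
  have hgN := M.mem_N_of hs (mem_L.1 hb'L).2 hg
  have hob' : orderOf b' = 3 := by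
    rw [← hb, hb']
    exact orderOf_injective (MulAut.conj n).toMonoidHom (MulAut.conj n).injective b
  have hb'1 : b' ≠ 1 := by
    intro e1; rw [e1, orderOf_one] at hob'; exact absurd hob' (by norm_num)
  have hg1 : g ≠ 1 := by
    rintro rfl
    exact hb'1 (M.odd_QG (Rl.one_iff.1 hg) (p := 3) (k := 1) (by norm_num) (by norm_num) (by rw [pow_one]; exact hb'3))
  by_cases hfp : ∃ p, (H89Mono.permPart ⟨g, hgN⟩).1 p = p
  · exfalso
    apply hK
    rw [← hcardD]
    exact M.central_3A hs hb'L hb'3 hg hgN hg3 hg1 hfp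
  · push Not at hfp
    obtain ⟨m, hm, k, hk⟩ := conj3B hgN hg3 hg1 hfp
    obtain ⟨l, hl, hlm⟩ := M.exists_L hs hm
    set c := l * b' ^ k * l⁻¹ with hc
    have hcr : Rl e c b3 := by rw [← hk]; exact (hlm.mul (Rl.zpow hg k)).mul hlm.inv
    have hcL : c ∈ L := mul_mem (mul_mem hl (zpow_mem hb'L k)) (inv_mem hl)
    have hc3 : c ^ 3 = 1 := by
      rw [hc, _root_.conj_pow, ← zpow_natCast, ← zpow_mul, mul_comm k, zpow_mul, zpow_natCast, hb'3, one_zpow]; group
    have hc1 : c ≠ 1 := by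
      intro e1
      rw [e1] at hcr
      rcases (Rl.one (e := e)).eq hcr with h1 | h1
      · exact b3_ne h1
      · have h2 : b3 ^ 3 = negOne := by
          rw [h1, mul_one, pow_succ, pow_two, negOne_sq, one_mul]
        rw [b3_pow] at h2
        exact H89Act.negOne_ne_one h2.symm
    have hoc : orderOf c = 3 := orderOf_eq_prime hc3 hc1
    set V := Lf e L (Subgroup.zpowers b3) with hV
    have hbV : b ∈ V := mem_Lf.2 ⟨hbL, b3, Subgroup.mem_zpowers _, hr⟩
    have hcV : c ∈ V := mem_Lf.2 ⟨hcL, b3, Subgroup.mem_zpowers _, hcr⟩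
    have hVc : (Nat.card V).factorization 3 = 1 := by
      have h1 := card_hat (e := e) (Y := V) (fun x hx => L_le M hx.1)
      have hA : Subgroup.zpowers b3 ≤ hat e V := by
        rintro _ ⟨i, rfl⟩
        exact ⟨b ^ i, zpow_mem hbV i, Rl.zpow hr i⟩
      have h2 : Nat.card (hat e V) = 6 := by
        apply le_antisymm
        · have h3 : ∀ g : hat e V, ∃ x : Bool × Subgroup.zpowers b3, (g : Co0) = (if x.1 then (1 : Co0) else negOne) * x.2 := by
            rintro ⟨g, x, ⟨-, p, hp, hxp⟩, hxg⟩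
            rcases hxp.eq hxg with h4 | h4
            · exact ⟨(true, ⟨p, hp⟩), by simpa using h4⟩
            · exact ⟨(false, ⟨p, hp⟩), by simpa using h4⟩
          choose f hf using h3
          have h4 : Function.Injective f := by
            intro a a' h5
            apply Subtype.ext
            rw [hf a, hf a', h5]
          have h5 := Nat.card_le_card_of_injective f h4
          rw [Nat.card_prod, Nat.card_zpowers, orderOf_b3] at h5
          have h6 : Nat.card Bool = 2 := by rw [Nat.card_eq_fintype_card]; rfl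
          rw [h6] at h5
          exact h5
        · apply Nat.le_of_dvd Nat.card_pos
          have h3 : 3 ∣ Nat.card (hat e V) := by
            have := Subgroup.card_dvd_of_le hA
            rwa [Nat.card_zpowers, orderOf_b3] at this
          have h4 : 2 ∣ Nat.card (hat e V) := by
            have h5 : orderOf negOne = 2 := orderOf_eq_prime (by rw [pow_two, negOne_sq]) H89Act.negOne_ne_one
            have h6 := Subgroup.card_dvd_of_le (Subgroup.zpowers_le.2 (negOne_mem_hat (e := e) V))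
            rwa [Nat.card_zpowers, h5] at h6
          exact Nat.Coprime.mul_dvd_of_dvd_of_dvd (by norm_num : Nat.Coprime 2 3) h4 h3
      rw [h2] at h1
      have h3 : IsPGroup 2 ↥(V ⊓ QG Q) :=
        IsPGroup.of_injective (M.pre.isP) (Subgroup.inclusion inf_le_right) (Subgroup.inclusion_injective _)
      obtain ⟨j, hj⟩ := IsPGroup.iff_card.1 h3
      rw [hj] at h1
      have h4 : Nat.card V = 3 * 2 ^ j := by omega
      rw [h4, Nat.factorization_mul (by norm_num) (by positivity), Finsupp.add_apply,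
        Nat.Prime.factorization_self (by norm_num), Nat.factorization_eq_zero_of_not_dvd]
      intro h5
      have h6 := (show Nat.Prime 3 by norm_num).dvd_of_dvd_pow h5
      norm_num at h6
    obtain ⟨l2, hl2, h2⟩ := sylow_conj_in (L := V) (B := Subgroup.zpowers b) (B' := Subgroup.zpowers c) (p := 3)
      (Subgroup.zpowers_le.2 hbV) (Subgroup.zpowers_le.2 hcV)
      (by rw [hVc, Nat.card_zpowers, hb, pow_one]) (by rw [hVc, Nat.card_zpowers, hoc, pow_one])
    refine ⟨l2 * l, mul_mem hl2.1 hl, ?_⟩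
    have hbk : ∃ j : ℤ, (b' ^ k) ^ j = b' := by
      have h1 : Nat.card (Subgroup.zpowers (b' ^ k)) ∣ 3 := by
        rw [← hob', ← Nat.card_zpowers]
        exact Subgroup.card_dvd_of_le (Subgroup.zpowers_le.2 ⟨k, rfl⟩)
      rcases (Nat.dvd_prime Nat.prime_three).1 h1 with h3 | h3
      · exfalso
        have h4 : b' ^ k = 1 := Subgroup.zpowers_eq_bot.1 (Subgroup.eq_bot_of_card_eq _ h3)
        apply hc1
        rw [hc, h4]; group
      · have h4 : Subgroup.zpowers (b' ^ k) = Subgroup.zpowers b' := by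
          apply Subgroup.eq_of_le_of_card_ge (Subgroup.zpowers_le.2 (zpow_mem (Subgroup.mem_zpowers b') k))
          rw [h3, Nat.card_zpowers, hob']
        have h5 : b' ∈ Subgroup.zpowers (b' ^ k) := by rw [h4]; exact Subgroup.mem_zpowers b'
        exact h5
    obtain ⟨j, hj⟩ := hbk
    have h3 := h2 (c ^ j) ⟨j, rfl⟩
    have h4 : l2 * c ^ j * l2⁻¹ = l2 * l * n * b * (l2 * l * n)⁻¹ := by
      have h5 : c ^ j = l * b' * l⁻¹ := by rw [hc, conj_zpow, hj]
      rw [h5, hb']; group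
    rw [← h4]; exact h3

theorem Mon.thompson
    (hnwc : ∃ g : G, (∃ hq : g * z * g⁻¹ ∈ Subgroup.centralizer ({z} : Set G),
      (⟨g * z * g⁻¹, hq⟩ : Subgroup.centralizer ({z} : Set G)) ∈ Q) ∧ g * z * g⁻¹ ≠ z)
    {s : G} {v : leechLattice} (hs : Cl ψ s v) (hv : sqNorm (v : GolayPt → ℤ) = 64) {Y : Subgroup G}
    (hY : Y ≤ Subgroup.centralizer ({z, s} : Set G)) (hY3 : Nat.card Y = 3)
    (hnc : ∀ P : Sylow 3 ↥(Subgroup.centralizer ({z, s} : Set G)), ¬ Y.subgroupOf (Subgroup.centralizer ({z, s} : Set G)) ≤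
      (Subgroup.center ↥(P : Subgroup ↥(Subgroup.centralizer ({z, s} : Set G)))).map
        (P : Subgroup ↥(Subgroup.centralizer ({z, s} : Set G))).subtype)
    [hn : (Y.subgroupOf (Subgroup.centralizer (Y : Set G))).Normal] :
    Cfsg.IsOfThompsonType (↥(Subgroup.centralizer (Y : Set G)) ⧸ Y.subgroupOf (Subgroup.centralizer (Y : Set G))) := by
  haveI : Fact (Nat.Prime 3) := ⟨by norm_num⟩
  obtain ⟨g0, hg0⟩ := M.exists_std hv
  have M1 := M.twist' g0
  have hs1 := hs.twist g0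
  rw [hg0] at hs1
  haveI hcyc : IsCyclic Y := isCyclic_of_prime_card hY3
  obtain ⟨⟨b, hbY⟩, hgen⟩ := hcyc.exists_generator
  have hYz : Y = Subgroup.zpowers b := by
    apply le_antisymm
    · intro x hx
      obtain ⟨k, hk⟩ := hgen ⟨x, hx⟩
      exact ⟨k, congrArg Subtype.val hk⟩
    · exact Subgroup.zpowers_le.2 hbY
  have hob : orderOf b = 3 := by rw [← Nat.card_zpowers, ← hYz, hY3]
  have hb3 : b ^ 3 = 1 := by rw [← hob]; exact pow_orderOf_eq_one b
  have hb1 : b ≠ 1 := by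
    intro e1; rw [e1, orderOf_one] at hob; exact absurd hob (by norm_num)
  have hbL := hY hbY
  have hK := M1.not_central hs1 hbL hb3 hYz hnc
  obtain ⟨e', ψ', b', M', hs', hb', hr'⟩ := M1.std_pos (s := s) hs1 (b := b) (L_le M hbL) (mem_L.1 hbL).2
    (p := 3) (by decide) hob orderOf_b3 (by
      intro g hg hgr hgp
      have hg1 : g ≠ 1 := by
        rintro rfl
        exact hb1 (M.odd_QG (Rl.one_iff.1 hgr) (p := 3) (k := 1) (by norm_num) (by norm_num) (by rw [pow_one]; exact hb3))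
      apply conj3B hg hgp hg1
      by_contra hfp
      push Not at hfp
      exact hK (M1.central_3A hs1 hbL hb3 hgr hg hgp hg1 hfp))
  have hYb' : Y = Subgroup.zpowers b' := by rw [hYz, hb']
  have hc : Nat.card (Subgroup.zpowers b') = 3 := by rw [← hYb', hY3]
  have hob' : orderOf b' = 3 := by rw [← Nat.card_zpowers, hc]
  have hb'3 : b' ^ 3 = 1 := by rw [← hob']; exact pow_orderOf_eq_one b'
  have hb'L : b' ∈ Subgroup.centralizer ({z, s} : Set G) := hY (by rw [hYb']; exact Subgroup.mem_zpowers b')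
  have hK' := M'.not_central hs' hb'L hb'3 hYb' hnc
  subst hYb'
  have hzB : z ∈ Subgroup.centralizer (Subgroup.zpowers b' : Set G) := z_mem hr'
  have hsB : s ∈ Subgroup.centralizer (Subgroup.zpowers b' : Set G) := by
    rw [M'.comm_iff_fix hr' (p := 3) (by decide) hb'3 hs']
    exact q2_eq_iff.1 (H89Q2.mem_N_iff_p1.1 b3_mem_N)
  have hR : (RB Q hzB).Normal := M'.RB_normal hzB (odd_card (p := 3) (by decide) hb'3)
  obtain ⟨e2, -⟩ := M'.exists_equivB hr' (p := 3) (by decide) hb'3 b3_pow hzB Ph Ph_surj (fun g => Ph_eq_one)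
  refine ⟨zB hzB, RB Q hzB, hR, ?_, ⟨e2⟩⟩
  obtain ⟨h1, h2⟩ := M'.ne_of_short hs' (ne_zero_of_norm (norm_ef M) (by norm_num)) (le_of_eq (norm_ef M))
  obtain ⟨h3, -⟩ := (M'.type_four hnwc hs'.mem).2 ⟨_, norm_ef M, hs'⟩
  obtain ⟨g, hg⟩ := _root_.isConj_iff.1 h3
  obtain ⟨x, hx, hxz⟩ := exists_move_of (M'.pair hs'.mem h2 hg) (M'.frP3 hs' hb'L hob' hr' hK')
  exact M'.settingB hr' (p := 3) (by decide) hb'3 b3_pow hzB hna3 faith3 Ph Ph_surj (fun g => Ph_eq_one) hK9 card_FixS3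
    ⟨x, hx, by rw [hxz]; exact hs'.mem, by rw [hxz]; exact h2⟩

end

end Cfsg.Agent.Lib.H89Mon1
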