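import Cfsg.Agent.Lib.H89Three0
import Cfsg.Agent.Lib.GolaySeven93

/-!
# The centralizer in `Co0` of the fixed point free coordinate permutation of order 3: order (helper89)
-/

set_option autoImplicit false
set_option linter.all false

namespace Cfsg.Agent.Lib.H89Three

open Cfsg Cfsg.Agent.Lib.Golay Cfsg.Agent.Lib.LeechMin Cfsg.Agent.Lib.H89LeechMat Cfsg.Agent.Lib.H89Mon1
  Cfsg.Agent.Lib.LeechQuot Cfsg.Agent.Lib.LeechOrder Cfsg.Agent.Lib.H89Mono Cfsg.Agent.Lib.H89FixRank
  Cfsg.Agent.Lib.H89FixTab Cfsg.Agent.Lib.LeechFrame Cfsg.Agent.Lib.H89Q2 Cfsg.Agent.Lib.H89Stab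
  Cfsg.Agent.Lib.H89CN Cfsg.Agent.Lib.H89Act Cfsg.Agent.Lib.H89MatAct
open scoped Pointwise

/-- the element of order 3 -/
noncomputable def b3 : Co0 := pC cX inM_cX

theorem cX_pow : toPerm cX ^ 3 = 1 := by
  rw [← orderOf_cX]; exact pow_orderOf_eq_one _

theorem cX_pt {i j : ℕ} (hi : i < 24) (h : img cX i = j) : toPerm cX (pt i) = pt j := by
  rw [toPerm_pt (valid_of_inM inM_cX) hi, h]

theorem b3_pow : b3 ^ 3 = 1 := by
  unfold b3 pC
  rw [← map_pow]
  have : (⟨toPerm cX, toPerm_mem_M24 inM_cX⟩ : M24) ^ 3 = 1 := Subtype.ext cX_pow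
  rw [this, map_one]

theorem cX_ne : toPerm cX ≠ 1 := by
  intro h
  have := orderOf_cX
  rw [h, orderOf_one] at this
  exact absurd this (by norm_num)

theorem b3_ne : b3 ≠ 1 := by
  intro h
  unfold b3 pC at h
  have h1 := permHom_injective (h.trans (map_one permHom).symm)
  exact cX_ne (congrArg Subtype.val h1)

theorem orderOf_b3 : orderOf b3 = 3 := by
  haveI : Fact (Nat.Prime 3) := ⟨by norm_num⟩
  exact orderOf_eq_prime b3_pow b3_ne

theorem b3_mem_N : b3 ∈ N := permHom_mem _

/-! ### the centralizer in `M24` -/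

/-- the centraliser -/
def C3 : Subgroup (Equiv.Perm GolayPt) := M24 ⊓ Subgroup.centralizer {toPerm cX}

theorem mem_C3 {g : Equiv.Perm GolayPt} : g ∈ C3 ↔ g ∈ M24 ∧ g * toPerm cX = toPerm cX * g := by
  unfold C3
  rw [Subgroup.mem_inf, Subgroup.mem_centralizer_singleton_iff]

theorem comm_codes3 {a b : ℕ} (ha : inM a = true) (hb : inM b = true) (h : mulC a b = mulC b a) :
    toPerm a * toPerm b = toPerm b * toPerm a := by
  rw [← toPerm_mulC (valid_of_inM ha) (valid_of_inM hb), h, toPerm_mulC (valid_of_inM hb) (valid_of_inM ha)]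

theorem C3_step {g : Equiv.Perm GolayPt} (hc : g * toPerm cX = toPerm cX * g) {i j : ℕ} (hi : i < 24) (h : img cX i = j)
    (h1 : g (pt i) = pt i) : g (pt j) = pt j := by
  have h2 := DFunLike.congr_fun hc (pt i)
  rw [Equiv.Perm.mul_apply, Equiv.Perm.mul_apply, h1, cX_pt hi h] at h2
  exact h2

/-- the elements of the centralizer fixing two points of a base -/
theorem C3_stab2 {g : Equiv.Perm GolayPt} (hg : g ∈ C3) (h0 : g (pt 23) = pt 23) (h2 : g (pt 2) = pt 2) :
    g = 1 ∨ g = toPerm cZ ∨ g = toPerm cZ' := by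
  obtain ⟨hg, hc⟩ := mem_C3.mp hg
  have g0 := C3_step hc (by norm_num) (show img cX 23 = 0 by decide +kernel) h0
  have g1 := C3_step hc (by norm_num) (show img cX 0 = 1 by decide +kernel) g0
  have g3 := C3_step hc (by norm_num) (show img cX 2 = 3 by decide +kernel) h2
  have g4 := C3_step hc (by norm_num) (show img cX 3 = 4 by decide +kernel) g3
  exact fixII hg (fun i => by fin_cases i; exacts [h0, g0, g1, h2, g3, g4])

def l3c : List ℕ := [984818244535754528103549039458486304, 962225937928949481950471138006141984, 981716224128048982828018616042065952, 967411960799731649796744439991473184, 983458763005514095666542745079781408, 962688629148128574207044068676148256, 973093822843728456771109098619117600, 960131694446065869844834886774826016, 974006555416635264846015297857497120, 964845203466860957489406233904950304, 964002942249857810441287728644042784, 979572411411243436392450340206851104, 967154228760645377853706577092687904, 981691608878801721884868126672862240, 963564322759136719618787088520495136,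 983025271787346399676425783273178144, 958811872488890528804921994872408096, 971782661561019358037254405356964896, 972363179572911116773130526486384672, 959604697651574231495475665348940832, 963632774658857550841079232930994208]

def zz : List ℕ := [cId, cZ, cZ']

def cmC (a b : ℕ) : Bool := allLt 24 fun i => Nat.beq (img a (img b i)) (img b (img a i))

theorem cmC_spec {a b : ℕ} (ha : valid a = true) (hb : valid b = true) (h : toPerm a * toPerm b = toPerm b * toPerm a) :
    cmC a b = true := comm_img ha hb h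

theorem l3c_ok : (l3c.all fun t => cond (inM t) (zz.all fun z => cond (cmC (mulC t z) cX)
    (l3b.any fun l => zz.any fun z' => Nat.beq (mulC t z) (mulC l z')) true) false) = true := by decide +kernel

theorem l3c_tr : allLt 24 (fun q => cond (cond (Nat.beq q 23) true (cond (Nat.beq q 0) true (Nat.beq q 1))) true
    (l3c.any fun t => cond (Nat.beq (img t 23) 23) (cond (Nat.beq (img t 0) 0) (cond (Nat.beq (img t 1) 1)
      (cond (Nat.beq (img t 2) q) (cond (Nat.beq (img t 3) (img cX q)) (Nat.beq (img t 4) (img cX (img cX q))) false)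
        false) false) false) false)) = true := by decide +kernel

theorem zz_inM {z : ℕ} (h : z ∈ zz) : inM z = true := by
  have : (zz.all fun z => inM z) = true := by decide +kernel
  exact List.all_eq_true.mp this z h

/-- the elements of the centralizer fixing one point of the base -/
theorem C3_stab1 {g : Equiv.Perm GolayPt} (hg : g ∈ C3) (h0 : g (pt 23) = pt 23) :
    ∃ l ∈ l3b, ∃ z ∈ zz, g = toPerm l * toPerm z := by
  obtain ⟨hgM, hc⟩ := mem_C3.mp hg
  have g0 := C3_step hc (by norm_num) (show img cX 23 = 0 by decide +kernel) h0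
  have g1 := C3_step hc (by norm_num) (show img cX 0 = 1 by decide +kernel) g0
  set q := ix (g (pt 2)) with hq
  have hq24 : q < 24 := ix_lt _
  have hgq : g (pt 2) = pt q := by rw [hq, pt_ix]
  have h3 : g (pt 3) = pt (img cX q) := by
    have h2 := DFunLike.congr_fun hc (pt 2)
    rw [Equiv.Perm.mul_apply, Equiv.Perm.mul_apply, cX_pt (by norm_num) (show img cX 2 = 3 by decide +kernel), hgq,
      toPerm_pt (valid_of_inM inM_cX) hq24] at h2
    exact h2
  have h4 : g (pt 4) = pt (img cX (img cX q)) := by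
    have h2 := DFunLike.congr_fun hc (pt 3)
    rw [Equiv.Perm.mul_apply, Equiv.Perm.mul_apply, cX_pt (by norm_num) (show img cX 3 = 4 by decide +kernel), h3,
      toPerm_pt (valid_of_inM inM_cX) (img_lt (valid_of_inM inM_cX) hq24)] at h2
    exact h2
  have hne : ∀ i < 24, i ≠ 2 → g (pt i) = pt i → q ≠ i := by
    intro i hi h2 h5 e
    apply pt_ne (i := 2) (j := i) (by norm_num) hi (Ne.symm h2)
    apply g.injective
    rw [hgq, h5, e]
  have h5 := allLt_iff.mp l3c_tr q hq24
  have e1 : Nat.beq q 23 = false := by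
    rw [Bool.eq_false_iff]; intro h; exact hne 23 (by norm_num) (by norm_num) h0 (Nat.eq_of_beq_eq_true h)
  have e2 : Nat.beq q 0 = false := by
    rw [Bool.eq_false_iff]; intro h; exact hne 0 (by norm_num) (by norm_num) g0 (Nat.eq_of_beq_eq_true h)
  have e3 : Nat.beq q 1 = false := by
    rw [Bool.eq_false_iff]; intro h; exact hne 1 (by norm_num) (by norm_num) g1 (Nat.eq_of_beq_eq_true h)
  rw [e1, e2, e3] at h5
  obtain ⟨t, ht, h6⟩ := List.any_eq_true.mp h5
  obtain ⟨a1, h6⟩ := cond_false_eq.mp h6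
  obtain ⟨a2, h6⟩ := cond_false_eq.mp h6
  obtain ⟨a3, h6⟩ := cond_false_eq.mp h6
  obtain ⟨a4, h6⟩ := cond_false_eq.mp h6
  obtain ⟨a5, a6⟩ := cond_false_eq.mp h6
  obtain ⟨htM, htz⟩ := cond_false_eq.mp (List.all_eq_true.mp l3c_ok t ht)
  have htp : ∀ {i j : ℕ}, i < 24 → Nat.beq (img t i) j = true → toPerm t (pt i) = pt j := by
    intro i j hi h
    rw [toPerm_pt (valid_of_inM htM) hi, Nat.eq_of_beq_eq_true h]
  have hall : ∀ i, g (fII i) = toPerm t (fII i) := by
    intro i
    fin_cases i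
    · show g (pt 23) = toPerm t (pt 23); rw [h0, htp (by norm_num) a1]
    · show g (pt 0) = toPerm t (pt 0); rw [g0, htp (by norm_num) a2]
    · show g (pt 1) = toPerm t (pt 1); rw [g1, htp (by norm_num) a3]
    · show g (pt 2) = toPerm t (pt 2); rw [hgq, htp (by norm_num) a4]
    · show g (pt 3) = toPerm t (pt 3); rw [h3, htp (by norm_num) a5]
    · show g (pt 4) = toPerm t (pt 4); rw [h4, htp (by norm_num) a6]
  have hz : ∃ z ∈ zz, g = toPerm (mulC t z) := by
    rcases cosetII hgM htM hall with h | h | h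
    · refine ⟨cId, by simp [zz], ?_⟩
      rw [h, toPerm_mulC (valid_of_inM htM) (valid_of_inM inM_cId), toPerm_cId, mul_one]
    · exact ⟨cZ, by simp [zz], h⟩
    · exact ⟨cZ', by simp [zz], h⟩
  obtain ⟨z, hzz, hgz⟩ := hz
  have h7 := List.all_eq_true.mp htz z hzz
  have hv : valid (mulC t z) = true := valid_mulC (valid_of_inM htM) (valid_of_inM (zz_inM hzz))
  rw [hgz] at hc
  rw [cmC_spec hv (valid_of_inM inM_cX) hc, cond_true] at h7
  obtain ⟨l, hl, h8⟩ := List.any_eq_true.mp h7
  obtain ⟨z', hz', h9⟩ := List.any_eq_true.mp h8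
  have hlM := (cond_false_eq.mp (List.all_eq_true.mp l3b_ok l hl)).1
  exact ⟨l, hl, z', hz', by rw [hgz, Nat.eq_of_beq_eq_true h9, toPerm_mulC (valid_of_inM hlM) (valid_of_inM (zz_inM hz'))]⟩

/-- all elements of the centralizer -/
theorem C3_form {g : Equiv.Perm GolayPt} (hg : g ∈ C3) :
    ∃ a ∈ l3a, ∃ l ∈ l3b, ∃ z ∈ zz, g = toPerm a * (toPerm l * toPerm z) := by
  have h1 := allLt_iff.mp l3a_tr (ix (g (pt 23))) (ix_lt _)
  obtain ⟨a, ha, h2⟩ := List.any_eq_true.mp h1
  obtain ⟨haM, hac⟩ := cond_false_eq.mp (List.all_eq_true.mp l3a_ok a ha)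
  have haC : toPerm a ∈ C3 := mem_C3.2 ⟨toPerm_mem_M24 haM, comm_codes3 haM inM_cX (Nat.eq_of_beq_eq_true hac)⟩
  have h3 : toPerm a (pt 23) = g (pt 23) := by
    rw [toPerm_pt (valid_of_inM haM) (by norm_num), Nat.eq_of_beq_eq_true h2, pt_ix]
  have h4 : ((toPerm a)⁻¹ * g) (pt 23) = pt 23 := by
    rw [Equiv.Perm.mul_apply, ← h3]
    exact Equiv.symm_apply_apply _ _
  obtain ⟨l, hl, z, hz, h5⟩ := C3_stab1 (C3.mul_mem (C3.inv_mem haC) hg) h4
  exact ⟨a, ha, l, hl, z, hz, by rw [← h5, mul_inv_cancel_left]⟩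

theorem card_C3_le : Nat.card C3 ≤ 504 := by
  have h1 : ∀ g : C3, ∃ x : Fin l3a.length × Fin l3b.length × Fin zz.length,
      (g : Equiv.Perm GolayPt) = toPerm (l3a.get x.1) * (toPerm (l3b.get x.2.1) * toPerm (zz.get x.2.2)) := by
    intro g
    obtain ⟨a, ha, l, hl, z, hz, h⟩ := C3_form g.2
    obtain ⟨i, rfl⟩ := List.mem_iff_get.1 ha
    obtain ⟨j, rfl⟩ := List.mem_iff_get.1 hl
    obtain ⟨k, rfl⟩ := List.mem_iff_get.1 hz
    exact ⟨(i, j, k), h⟩
  choose f hf using h1
  have h2 : Function.Injective f := by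
    intro g h e
    apply Subtype.ext
    rw [hf g, hf h, e]
  have h3 := Nat.card_le_card_of_injective f h2
  rw [Nat.card_prod, Nat.card_prod, Nat.card_fin, Nat.card_fin, Nat.card_fin] at h3
  exact h3

/-! ### order -/

/-- the centralizer -/
abbrev C : Subgroup Co0 := Subgroup.centralizer ({b3} : Set Co0)

theorem mem_C {g : Co0} : g ∈ C ↔ g * b3 = b3 * g := Subgroup.mem_centralizer_singleton_iff

theorem p1_mem : p1 ∈ T4 b3 := by
  refine ⟨?_, ef none, ?_, rfl⟩
  · show q2 (ef none) ∈ FixS b3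
    rw [mem_FixS (p := 3) (by decide) b3_pow]
    have := mem_N_iff_p1.1 b3_mem_N
    exact q2_eq_iff.1 this
  · show sqNorm (ef none : GolayPt → ℤ) = 64
    rw [coe_ef, sqNorm_single]; norm_num

theorem orbit_sub {x : Q2} (hx : x ∈ T4 b3) : MulAction.orbit C x ⊆ T4 b3 := by
  rintro _ ⟨g, rfl⟩
  exact smul_mem_T4 (mem_C.1 g.2) hx

/-- fixed code words -/
theorem exists_F3 {c : Finset GolayPt} (hc : c ∈ Sup) (h : toPerm cX • c = c) : ∃ m ∈ F3, c = mset m := by
  obtain ⟨n, hn, rfl⟩ := mem_supports_iff.1 hc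
  rw [toPerm_smul_mset (valid_of_inM inM_cX)] at h
  have h3 := mset_injOn (imgM_lt (valid_of_inM inM_cX) _) (enc_lt _) h
  have h1 := allLt_iff.mp F3_ok n hn
  rw [h3, Nat.beq_refl, cond_true] at h1
  obtain ⟨m, hm, h4⟩ := List.any_eq_true.mp h1
  exact ⟨m, hm, by rw [Nat.eq_of_beq_eq_true h4]⟩

/-- monomial elements commuting with `b3` -/
theorem mono_form {g : Co0} (hg : g ∈ N) (hc : g * b3 = b3 * g) : ∃ σ ∈ C3, ∃ m ∈ F3,
    ∀ v : leechLattice, ((g • v : leechLattice) : GolayPt → ℤ) = signedPerm σ (mset m) v := by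
  obtain ⟨σ, hσ, c, hcS, h⟩ := hg
  obtain ⟨h1, h2⟩ := perm_comm (toPerm_mem_M24 inM_cX) h (toPerm_mem_M24 inM_cX) hc
  obtain ⟨m, hm, rfl⟩ := exists_F3 hcS h2.symm
  exact ⟨σ, mem_C3.2 ⟨hσ, h1⟩, m, hm, h⟩

theorem card_stab_le : Nat.card (MulAction.stabilizer C p1) ≤ 504 * 16 := by
  have h1 : ∀ g : MulAction.stabilizer C p1, ∃ x : C3 × Fin F3.length, ∀ v : leechLattice,
      ((((g : C) : Co0) • v : leechLattice) : GolayPt → ℤ) = signedPerm (x.1 : Equiv.Perm GolayPt) (mset (F3.get x.2)) v := by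
    intro g
    obtain ⟨σ, hσ, m, hm, h⟩ := mono_form (mem_N_iff_p1.2 g.2) (mem_C.1 g.1.2)
    obtain ⟨i, hi⟩ := List.mem_iff_get.1 hm
    exact ⟨(⟨σ, hσ⟩, i), by rw [hi]; exact h⟩
  choose f hf using h1
  have h2 : Function.Injective f := by
    intro g h e
    apply Subtype.ext
    apply Subtype.ext
    apply ext_smul
    intro v
    apply Subtype.ext
    rw [hf g, hf h, e]
  haveI : Finite C3 := inferInstance
  have h3 := Nat.card_le_card_of_injective f h2
  rw [Nat.card_prod, Nat.card_fin] at h3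
  have h4 : F3.length = 16 := by decide
  rw [h4] at h3
  have h5 := Nat.mul_le_mul_right 16 card_C3_le
  omega

theorem ncard_T4_3 : (T4 b3).ncard = 135 := by
  have h : (cntLt (2 ^ 8) fun a => decide (idot (s3.getD a 0) (s3.getD a 0) = 64)) = 135 := by decide +kernel
  rw [← h]
  exact ncard_T4 inM_cX orb3_ok tab3_ok

theorem card_C_le : Nat.card C ≤ 1088640 := by
  haveI : Finite Q2 := finite_Q2
  have h1 : Nat.card C = Nat.card (MulAction.stabilizer C p1) * (MulAction.orbit C p1).ncard := card_eq inM_cX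
  have h3 : (MulAction.orbit C p1).ncard ≤ 135 := by
    rw [← ncard_T4_3]
    exact Set.ncard_le_ncard (orbit_sub p1_mem) (Set.toFinite _)
  have h2 := card_stab_le
  rw [h1]
  calc _ ≤ (504 * 16) * 135 := Nat.mul_le_mul h2 h3
    _ = 1088640 := by norm_num

theorem card_FixS3 : Nat.card (FixS b3) = 2 ^ (2 * 4) := card_FixS_pC inM_cX orb3_ok

end Cfsg.Agent.Lib.H89Three
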