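import Cfsg.Agent.Lib.H89Three1

/-!
# The centralizer in `Co0` of the fixed point free coordinate permutation of order 3: `3 × 2.A9` (helper89)
-/

set_option autoImplicit false
set_option linter.all false

namespace Cfsg.Agent.Lib.H89Three

open Cfsg Cfsg.Agent.Lib.Golay Cfsg.Agent.Lib.LeechMin Cfsg.Agent.Lib.H89LeechMat Cfsg.Agent.Lib.H89Mon1
  Cfsg.Agent.Lib.LeechQuot Cfsg.Agent.Lib.LeechOrder Cfsg.Agent.Lib.H89Mono Cfsg.Agent.Lib.H89FixRank
  Cfsg.Agent.Lib.H89FixTab Cfsg.Agent.Lib.LeechFrame Cfsg.Agent.Lib.H89Q2 Cfsg.Agent.Lib.H89Stab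
  Cfsg.Agent.Lib.H89CN Cfsg.Agent.Lib.H89Act Cfsg.Agent.Lib.H89MatAct
open Equiv Equiv.Perm
open scoped Pointwise

/-- the members of the spread -/
def sp (k : ℕ) : Set Q2 := Bk u3 8 (sp3.getD k 0)

def IsSp (L : Set Q2) : Prop := ∃ k < 9, L = sp k

theorem sp_count {k : ℕ} (hk : k < 9) : (cntLt 256 fun a => Nat.testBit (sp3.getD k 0) a) = 15 :=
  Nat.eq_of_beq_eq_true (cond_false_eq.mp (allLt_iff.mp sp3_card k hk)).1

theorem ncard_sp {k : ℕ} (hk : k < 9) : (sp k).ncard = 15 := by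
  unfold sp
  rw [ncard_Bk tab3_ok]
  exact sp_count hk

theorem sp_disj {k l : ℕ} (hk : k < 9) (hl : l < 9) (h : k ≠ l) : Disjoint (sp k) (sp l) := by
  have h1 := allLt_iff.mp (allLt_iff.mp sp3_dist k hk) l hl
  have h2 : Nat.beq k l = false := by
    rw [Bool.eq_false_iff]; intro h'; exact h (Nat.eq_of_beq_eq_true h')
  rw [h2, cond_false] at h1
  rw [Set.disjoint_left]
  rintro _ ⟨a, ha, h5, rfl⟩ h6
  have h7 := (mem_Bk tab3_ok ha).1 h6
  have h8 : (sp3.getD k 0 &&& sp3.getD l 0).testBit a = true := by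
    rw [Nat.testBit_and, h5, h7]; rfl
  have h9 : sp3.getD k 0 &&& sp3.getD l 0 = 0 := Nat.eq_of_beq_eq_true h1
  rw [h9] at h8
  simp at h8

theorem sp_inj {k l : ℕ} (hk : k < 9) (hl : l < 9) (h : sp k = sp l) : k = l := by
  by_contra hne
  have h1 := sp_disj hk hl hne
  rw [h, disjoint_self] at h1
  have h2 := ncard_sp hl
  have h3 : sp l = ∅ := h1
  rw [h3, Set.ncard_empty] at h2
  exact absurd h2 (by norm_num)

/-- elements with known action -/
theorem act_sp {i : ℕ} (hi : i < 49) {g : Co0} (hA : ∀ j < 8, g • XX u3 8 (2 ^ j) = XX u3 8 ((ea3.getD i []).getD j 0))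
    (hlt : ∀ j < 8, (ea3.getD i []).getD j 0 < 2 ^ 8) {k : ℕ} (hk : k < 9) :
    (ep3.getD i []).getD k 0 < 9 ∧ g • sp k = sp ((ep3.getD i []).getD k 0) := by
  obtain ⟨h1, h2⟩ := cond_false_eq.mp (allLt_iff.mp (allLt_iff.mp sp3_act i hi) k hk)
  rw [Nat.blt_eq] at h1
  refine ⟨h1, ?_⟩
  refine smul_Bk tab3_ok h2 hlt ?_ hA
  show cntLt 256 _ = cntLt 256 _
  rw [sp_count hk, sp_count h1]

/-- good elements -/
def Good (g : Co0) : Prop := g * b3 = b3 * g ∧ ∀ L, IsSp L → IsSp (g • L)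

theorem Good.mul {g h : Co0} (hg : Good g) (hh : Good h) : Good (g * h) := by
  refine ⟨?_, fun L hL => ?_⟩
  · rw [mul_assoc, hh.1, ← mul_assoc, hg.1, mul_assoc]
  · rw [mul_smul]; exact hg.2 _ (hh.2 _ hL)

theorem Good.one : Good 1 := ⟨by rw [one_mul, mul_one], fun L hL => by rwa [one_smul]⟩

theorem good_of_act {i : ℕ} (hi : i < 49) {g : Co0} (hc : g * b3 = b3 * g)
    (hA : ∀ j < 8, g • XX u3 8 (2 ^ j) = XX u3 8 ((ea3.getD i []).getD j 0))
    (hlt : ∀ j < 8, (ea3.getD i []).getD j 0 < 2 ^ 8) : Good g := by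
  refine ⟨hc, ?_⟩
  rintro _ ⟨k, hk, rfl⟩
  exact ⟨_, (act_sp hi hA hlt hk).1, (act_sp hi hA hlt hk).2⟩

/-- the monomial elements -/
theorem el_spec {i : ℕ} (hi : i < 48) {g : Co0}
    (hg : ∀ v : leechLattice, ((g • v : leechLattice) : GolayPt → ℤ) =
      signedPerm (toPerm (es3.getD i 0)) (mset (em3.getD i 0)) v) :
    g * b3 = b3 * g ∧ (∀ j < 8, g • XX u3 8 (2 ^ j) = XX u3 8 ((ea3.getD i []).getD j 0)) ∧
      ∀ j < 8, (ea3.getD i []).getD j 0 < 2 ^ 8 := by
  obtain ⟨h1, h⟩ := cond_false_eq.mp (allLt_iff.mp el3_ok i hi)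
  obtain ⟨h2, h⟩ := cond_false_eq.mp h
  obtain ⟨h3, h⟩ := cond_false_eq.mp h
  obtain ⟨h4, h5⟩ := cond_false_eq.mp h3
  obtain ⟨h6, h7⟩ := cond_false_eq.mp h4
  rw [Nat.blt_eq] at h7
  have hS : mset (em3.getD i 0) ∈ Sup := (mset_mem_supports_iff h7).2 h6
  have hfx : toPerm cX • mset (em3.getD i 0) = mset (em3.getD i 0) := by
    rw [toPerm_smul_mset (valid_of_inM inM_cX), Nat.eq_of_beq_eq_true h5]
  have hcm := comm_codes3 h1 inM_cX (Nat.eq_of_beq_eq_true h2)
  have hgm : g = mo (toPerm (es3.getD i 0)) (toPerm_mem_M24 h1) (mset (em3.getD i 0)) hS := by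
    apply ext_smul
    intro v
    apply Subtype.ext
    rw [hg]; rfl
  have hc : g * pC cX inM_cX = pC cX inM_cX * g := by
    rw [hgm]
    exact mo_comm _ _ (toPerm_mem_M24 inM_cX) hcm hfx
  exact ⟨hc, fun j hj => act_spec inM_cX orb3_ok tab3_ok dual3_ok h (valid_of_inM h1) hg hc hj, fun j hj => act_lt h hj⟩

theorem good_el {i : ℕ} (hi : i < 48) {g : Co0}
    (hg : ∀ v : leechLattice, ((g • v : leechLattice) : GolayPt → ℤ) =
      signedPerm (toPerm (es3.getD i 0)) (mset (em3.getD i 0)) v) : Good g := by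
  obtain ⟨h1, h2, h3⟩ := el_spec hi hg
  exact good_of_act (by omega) h1 h2 h3

/-- membership of the codes -/
def hasEl (s m : ℕ) : Bool := cond (allLt 48 fun i => cond (cond (Nat.beq (es3.getD i 0) s) (Nat.beq (em3.getD i 0) m) false) false true) false true

theorem hasEl_spec {s m : ℕ} (h : hasEl s m = true) : ∃ i < 48, es3.getD i 0 = s ∧ em3.getD i 0 = m := by
  by_contra hno
  push Not at hno
  have h7 : (allLt 48 fun i => cond (cond (Nat.beq (es3.getD i 0) s) (Nat.beq (em3.getD i 0) m) false) false true) = true := by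
    rw [allLt_iff]
    intro i hi
    have := hno i hi
    cases h8 : cond (Nat.beq (es3.getD i 0) s) (Nat.beq (em3.getD i 0) m) false
    · rfl
    · exfalso
      obtain ⟨h9, h10⟩ := cond_false_eq.mp h8
      exact this (Nat.eq_of_beq_eq_true h9) (Nat.eq_of_beq_eq_true h10)
  unfold hasEl at h
  rw [h7] at h
  exact absurd h (by decide)

theorem has_l3a : (l3a.all fun a => hasEl a 0) = true := by decide +kernel
theorem has_l3b : (l3b.all fun a => hasEl a 0) = true := by decide +kernel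
theorem has_cZ : hasEl cZ 0 = true := by decide +kernel
theorem has_cId : hasEl cId 0 = true := by decide +kernel
theorem has_F3 : (F3.all fun m => hasEl cId m) = true := by decide +kernel

theorem good_code {s m : ℕ} (h : hasEl s m = true) {g : Co0}
    (hg : ∀ v : leechLattice, ((g • v : leechLattice) : GolayPt → ℤ) = signedPerm (toPerm s) (mset m) v) : Good g := by
  obtain ⟨i, hi, h1, h2⟩ := hasEl_spec h
  exact good_el hi (by rw [h1, h2]; exact hg)

/-- coordinate permutations -/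
theorem good_perm {s : ℕ} (h : hasEl s 0 = true) (hs : toPerm s ∈ M24) : Good (permHom ⟨toPerm s, hs⟩) := by
  apply good_code h
  intro v
  rw [permHom_smul, mset_zero]

theorem good_mono {g : Co0} (hg : g ∈ N) (hc : g * b3 = b3 * g) : Good g := by
  obtain ⟨σ, hσ, m, hm, h⟩ := mono_form hg hc
  obtain ⟨a, ha, l, hl, z, hz, rfl⟩ := C3_form hσ
  have haM := toPerm_mem_M24 (cond_false_eq.mp (List.all_eq_true.mp l3a_ok a ha)).1
  have hlM := toPerm_mem_M24 (cond_false_eq.mp (List.all_eq_true.mp l3b_ok l hl)).1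
  have hzM := toPerm_mem_M24 (zz_inM hz)
  have gz : Good (permHom ⟨toPerm z, hzM⟩) := by
    have g1 := good_perm has_cZ (toPerm_mem_M24 inM_cZ)
    rcases (by simpa [zz] using hz : z = cId ∨ z = cZ ∨ z = cZ') with rfl | rfl | rfl
    · exact good_perm has_cId _
    · exact g1
    · have : permHom ⟨toPerm cZ', hzM⟩ = permHom ⟨toPerm cZ, toPerm_mem_M24 inM_cZ⟩ * permHom ⟨toPerm cZ, toPerm_mem_M24 inM_cZ⟩ := by
        rw [← map_mul]
        congr 1
        exact Subtype.ext cZ_mul.symm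
      rw [this]; exact g1.mul g1
  have gs : Good (mo 1 M24.one_mem (mset m) (by
      obtain ⟨i, hi, h1, h2⟩ := hasEl_spec (List.all_eq_true.mp has_F3 m hm)
      obtain ⟨-, h⟩ := cond_false_eq.mp (allLt_iff.mp el3_ok i hi)
      obtain ⟨-, h⟩ := cond_false_eq.mp h
      obtain ⟨h3, h⟩ := cond_false_eq.mp h
      obtain ⟨h4, h5⟩ := cond_false_eq.mp h3
      obtain ⟨h6, h7⟩ := cond_false_eq.mp h4
      rw [Nat.blt_eq] at h7
      rw [← h2]
      exact (mset_mem_supports_iff h7).2 h6)) := by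
    apply good_code (List.all_eq_true.mp has_F3 m hm)
    intro v
    rw [mo_smul, toPerm_cId]
  have key : g = mo 1 M24.one_mem (mset m) (by
      obtain ⟨i, hi, h1, h2⟩ := hasEl_spec (List.all_eq_true.mp has_F3 m hm)
      obtain ⟨-, h⟩ := cond_false_eq.mp (allLt_iff.mp el3_ok i hi)
      obtain ⟨-, h⟩ := cond_false_eq.mp h
      obtain ⟨h3, h⟩ := cond_false_eq.mp h
      obtain ⟨h4, h5⟩ := cond_false_eq.mp h3
      obtain ⟨h6, h7⟩ := cond_false_eq.mp h4
      rw [Nat.blt_eq] at h7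
      rw [← h2]
      exact (mset_mem_supports_iff h7).2 h6) * (permHom ⟨toPerm a, haM⟩ * (permHom ⟨toPerm l, hlM⟩ * permHom ⟨toPerm z, hzM⟩)) := by
    apply ext_smul
    intro v
    apply Subtype.ext
    rw [h, mul_smul, ← map_mul, ← map_mul, mo_smul, permHom_smul, signedPerm_signedPerm]
    show _ = signedPerm (1 * (toPerm a * (toPerm l * toPerm z))) (symmDiff (mset m) ((1 : Perm GolayPt) • ∅)) v
    rw [one_mul, Finset.smul_finset_empty]
    congr 1
    exact (symmDiff_bot _).symm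
  rw [key]
  exact gs.mul ((good_perm (List.all_eq_true.mp has_l3a a ha) haM).mul ((good_perm (List.all_eq_true.mp has_l3b l hl) hlM).mul gz))

/-- the matrix -/
theorem exists_h : ∃ g : Co0, g * b3 = b3 * g ∧ (∀ j < 8, g • XX u3 8 (2 ^ j) = XX u3 8 ((ea3.getD 48 []).getD j 0)) ∧
    ∀ j < 8, (ea3.getD 48 []).getD j 0 < 2 ^ 8 := by
  obtain ⟨g, hg, -⟩ := exists_mat h3_orth h3_orth' h3_img h3_img'
  have hc : g * pC cX inM_cX = pC cX inM_cX * g := mat_comm inM_cX h3_com hg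
  refine ⟨g, hc, fun j hj => ?_, fun j hj => ?_⟩
  · exact (mact_spec inM_cX orb3_ok tab3_ok dual3_ok h3_act hg hc hj).1
  · exact (mact_spec inM_cX orb3_ok tab3_ok dual3_ok h3_act hg hc hj).2

/-- an element for each index -/
theorem exists_act {i : ℕ} (hi : i < 49) : ∃ g : Co0, g * b3 = b3 * g ∧
    (∀ j < 8, g • XX u3 8 (2 ^ j) = XX u3 8 ((ea3.getD i []).getD j 0)) ∧ ∀ j < 8, (ea3.getD i []).getD j 0 < 2 ^ 8 := by
  by_cases h : i = 48
  · rw [h]; exact exists_h
  · have h48 : i < 48 := by omega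
    obtain ⟨g, h1, h2, h3, h4⟩ := exists_el inM_cX orb3_ok tab3_ok dual3_ok (allLt_iff.mp el3_ok i h48)
    exact ⟨g, h1, h3, h4⟩

theorem p1_XX : XX u3 8 1 = p1 := by
  have h1 : XX u3 8 1 = q2 (lw (s3.getD 1 0)) := tab_q2 tab3_ok (by norm_num)
  rw [h1]
  have h2 : lw (s3.getD 1 0) = ef (pt 23) := by
    have hu : allLt 24 (fun i => Nat.beq (img (s3.getD 1 0) i) (cond (Nat.beq i 23) 24 16)) = true := by decide +kernel
    apply Subtype.ext
    rw [coe_lw (tab_S tab3_ok (by norm_num)).1, coe_ef]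
    funext p
    show dv (s3.getD 1 0) (ix p) = _
    rw [dv_eq, Nat.eq_of_beq_eq_true (allLt_iff.mp hu (ix p) (ix_lt p)), Pi.single_apply]
    by_cases h : p = pt 23
    · rw [h, if_pos rfl, ix_pt (by norm_num)]; rfl
    · rw [if_neg h]
      have h1 : Nat.beq (ix p) 23 = false := by
        rw [Bool.eq_false_iff]
        intro h2
        apply h
        rw [← Nat.eq_of_beq_eq_true h2, pt_ix]
      rw [h1, cond_false]; rfl
  rw [h2, q2_ef]

theorem reach3 (i : ℕ) : i < 135 → ∃ g : Co0, Good g ∧ g • p1 = XX u3 8 (rr3.getD i 0) := by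
  induction i using Nat.strong_induction_on with
  | _ i ih =>
    intro hi
    have h1 := allLt_iff.mp rr3_ok i hi
    by_cases h0 : i = 0
    · subst h0
      have h2 : rr3.getD 0 0 = 1 := Nat.eq_of_beq_eq_true h1
      exact ⟨1, Good.one, by rw [one_smul, h2, p1_XX]⟩
    · have h2 : Nat.beq i 0 = false := by
        rw [Bool.eq_false_iff]; intro h'; exact h0 (Nat.eq_of_beq_eq_true h')
      rw [h2, cond_false] at h1
      obtain ⟨h3, h4⟩ := cond_false_eq.mp h1
      obtain ⟨h5, h6⟩ := cond_false_eq.mp h4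
      rw [Nat.blt_eq] at h3 h5
      obtain ⟨g, hg, hgp⟩ := ih _ h3 (by omega)
      obtain ⟨k, hk1, hk2, hk3⟩ := exists_act h5
      refine ⟨k * g, (good_of_act h5 hk1 hk2 hk3).mul hg, ?_⟩
      rw [mul_smul, hgp, smul_XX hk2, Nat.eq_of_beq_eq_true h6]

theorem mem_T4_XX {a : ℕ} (ha : a < 256) : XX u3 8 a ∈ T4 b3 ↔ Nat.testBit tm3 a = true := by
  have h1 : XX u3 8 a ∈ T4 b3 ↔ idot (s3.getD a 0) (s3.getD a 0) = 64 := mem_T4_iff inM_cX tab3_ok ha
  rw [h1]
  have h2 := allLt_iff.mp t4_ok a ha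
  cases h3 : Nat.testBit tm3 a
  · rw [h3] at h2
    have h4 : cond (decide (idot (s3.getD a 0) (s3.getD a 0) = 64)) false true = true := h2
    cases h5 : decide (idot (s3.getD a 0) (s3.getD a 0) = 64)
    · have := of_decide_eq_false h5
      exact ⟨fun h => absurd h this, fun h => absurd h (by decide)⟩
    · rw [h5] at h4; exact absurd h4 (by decide)
  · rw [h3] at h2
    have h4 : decide (idot (s3.getD a 0) (s3.getD a 0) = 64) = true := h2
    exact ⟨fun _ => rfl, fun _ => of_decide_eq_true h4⟩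

/-- all elements of the centralizer are good -/
theorem good_all {g : Co0} (hg : g * b3 = b3 * g) : Good g := by
  have h1 : g • p1 ∈ T4 b3 := smul_mem_T4 hg p1_mem
  obtain ⟨a, ha, h2⟩ := exists_cmb inM_cX orb3_ok tab3_ok h1.1
  have ha' : a < 256 := ha
  have h2' : g • p1 = XX u3 8 a := h2
  rw [h2', mem_T4_XX ha'] at h1
  have h3 := allLt_iff.mp rr3_all a ha'
  rw [h1, cond_true] at h3
  have h4 : ∃ i < 135, rr3.getD i 0 = a := by
    by_contra hno
    push Not at hno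
    have h7 : (allLt 135 fun i => cond (Nat.beq (rr3.getD i 0) a) false true) = true := by
      rw [allLt_iff]
      intro i hi
      have : Nat.beq (rr3.getD i 0) a = false := by
        rw [Bool.eq_false_iff]; intro h'; exact hno i hi (Nat.eq_of_beq_eq_true h')
      rw [this]; rfl
    rw [h7] at h3
    exact absurd h3 (by decide)
  obtain ⟨i, hi, hia⟩ := h4
  obtain ⟨h, hh, hp⟩ := reach3 i hi
  rw [hia, ← h2'] at hp
  have h5 : h⁻¹ * g ∈ N := by
    rw [mem_N_iff_p1, mul_smul, ← hp, inv_smul_smul]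
  have hcm : (h⁻¹ * g) * b3 = b3 * (h⁻¹ * g) := by
    have c1 : Commute h b3 := hh.1
    have c2 : Commute g b3 := hg
    exact (c1.inv_left.mul_left c2).eq
  have h6 := hh.mul (good_mono h5 hcm)
  rwa [mul_inv_cancel_left] at h6

/-! ### the action -/

abbrev Om : Type := {L : Set Q2 // IsSp L}

instance actOm : MulAction C Om where
  smul g L := ⟨(g : Co0) • L.1, (good_all (mem_C.1 g.2)).2 _ L.2⟩
  one_smul L := Subtype.ext (one_smul Co0 L.1)
  mul_smul g h L := Subtype.ext (mul_smul (g : Co0) (h : Co0) L.1)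

noncomputable def eOm : Fin 9 ≃ Om :=
  Equiv.ofBijective (fun s => (⟨sp s, ⟨s, s.2, rfl⟩⟩ : Om)) (by
    constructor
    · intro s t h
      exact Fin.ext (sp_inj s.2 t.2 (congrArg Subtype.val h))
    · rintro ⟨L, k, hk, rfl⟩
      exact ⟨⟨k, hk⟩, rfl⟩)

/-- the homomorphism -/
noncomputable def Ph0 : C →* Perm (Fin 9) :=
  (Equiv.permCongrHom eOm.symm).toMonoidHom.comp (MulAction.toPermHom C Om)

theorem Ph0_spec (g : C) (s : Fin 9) : (g : Co0) • sp s = sp (Ph0 g s) := by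
  have h1 : eOm (Ph0 g s) = g • eOm s := by
    show eOm (eOm.symm ((MulAction.toPerm g) (eOm s))) = _
    rw [Equiv.apply_symm_apply]; rfl
  have h2 := congrArg (fun L : Om => (L : Set Q2)) h1
  exact h2.symm

theorem Ph0_eq {g : C} {s t : Fin 9} (h : (g : Co0) • sp s = sp t) : Ph0 g s = t :=
  Fin.ext (sp_inj (Ph0 g s).2 t.2 ((Ph0_spec g s).symm.trans h))

theorem exists_el9 {i : ℕ} (hi : i < 49) : ∃ g : C, ∀ k : Fin 9, (Ph0 g k : ℕ) = (ep3.getD i []).getD k 0 := by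
  obtain ⟨g, h1, h2, h3⟩ := exists_act hi
  refine ⟨⟨g, mem_C.2 h1⟩, fun k => ?_⟩
  obtain ⟨h4, h5⟩ := act_sp hi h2 h3 k.2
  have h6 := Ph0_eq (g := ⟨g, mem_C.2 h1⟩) (s := k) (t := ⟨_, h4⟩) h5
  rw [h6]

/-! ### the image -/

theorem tab_trans : ∀ j : Fin 9, j ≠ 0 → ∃ i : Fin 49, (ep3.getD i []).getD 0 0 = 0 ∧ (ep3.getD i []).getD 1 0 = j := by
  decide

theorem fix_trans {j : Fin 9} (hj : j ≠ 0) : ∃ g : C, Ph0 g 0 = 0 ∧ Ph0 g 1 = j := by
  obtain ⟨i, h1, h2⟩ := tab_trans j hj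
  obtain ⟨g, hg⟩ := exists_el9 i.2
  exact ⟨g, Fin.ext (by rw [hg]; exact h1), Fin.ext (by rw [hg]; exact h2)⟩

/-- the matrix acts with `h ^ 4` a 3-cycle -/
def ph : Perm (Fin 9) := ⟨![1, 5, 8, 7, 6, 0, 2, 3, 4], ![5, 0, 6, 7, 8, 1, 4, 3, 2], by decide, by decide⟩

theorem ph4 : ph ^ 4 = swap 0 5 * swap 0 1 := by
  apply Equiv.ext
  decide

theorem exists_ph : ∃ g : C, Ph0 g = ph := by
  obtain ⟨g, hg⟩ := exists_el9 (i := 48) (by norm_num)
  refine ⟨g, Equiv.ext fun k => Fin.ext ?_⟩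
  rw [hg]
  revert k; decide

theorem two_base {a b : Fin 9} (hab : a ≠ b) : ∃ g : C, Ph0 g a = 0 ∧ Ph0 g b = 1 := by
  have step : ∀ {b : Fin 9}, b ≠ 0 → ∃ g : C, Ph0 g 0 = 0 ∧ Ph0 g b = 1 := by
    intro b hb
    obtain ⟨g, h1, h2⟩ := fix_trans hb
    refine ⟨g⁻¹, ?_, ?_⟩
    · rw [map_inv, Perm.inv_eq_iff_eq, h1]
    · rw [map_inv, Perm.inv_eq_iff_eq, h2]
  by_cases ha : a = 0
  · subst ha
    exact step (Ne.symm hab)
  · obtain ⟨g, h1, h2⟩ := step ha
    obtain ⟨h, hh⟩ := exists_ph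
    have h3 : Ph0 (h⁻¹ * g) a = 0 := by
      rw [map_mul, Perm.mul_apply, h2, map_inv, hh, Perm.inv_eq_iff_eq]; rfl
    have h4 : Ph0 (h⁻¹ * g) b ≠ 0 := by
      rw [← h3]
      intro e
      exact hab ((Ph0 (h⁻¹ * g)).injective e).symm
    obtain ⟨k, k1, k2⟩ := step h4
    refine ⟨k * (h⁻¹ * g), ?_, ?_⟩
    · rw [map_mul, Perm.mul_apply, h3, k1]
    · rw [map_mul, Perm.mul_apply, k2]

theorem A9_le : alternatingGroup (Fin 9) ≤ Ph0.range := by
  have h2 : MulAction.IsMultiplyPretransitive Ph0.range (Fin 9) 2 := by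
    rw [MulAction.is_two_pretransitive_iff]
    intro a b c d hab hcd
    obtain ⟨g, g1, g2⟩ := two_base hab
    obtain ⟨h, h1, h2⟩ := two_base hcd
    refine ⟨⟨Ph0 (h⁻¹ * g), _, rfl⟩, ?_, ?_⟩
    · show Ph0 (h⁻¹ * g) a = c
      rw [map_mul, Perm.mul_apply, g1, map_inv, Perm.inv_eq_iff_eq, h1]
    · show Ph0 (h⁻¹ * g) b = d
      rw [map_mul, Perm.mul_apply, g2, map_inv, Perm.inv_eq_iff_eq, h2]
  have hprim := MulAction.isPreprimitive_of_is_two_pretransitive h2
  obtain ⟨h, hh⟩ := exists_ph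
  refine alternatingGroup_le_of_isPreprimitive_of_isThreeCycle_mem hprim (g := ph ^ 4) ?_ ⟨h ^ 4, by rw [map_pow, hh]⟩
  rw [ph4]
  exact isThreeCycle_swap_mul_swap_same (by decide) (by decide) (by decide)

theorem card_A9 : Nat.card (alternatingGroup (Fin 9)) = 181440 := by
  have h := two_mul_nat_card_alternatingGroup (α := Fin 9)
  rw [Nat.card_eq_fintype_card (α := Perm (Fin 9)), Fintype.card_perm, Fintype.card_fin] at h
  have : Nat.factorial 9 = 362880 := by decide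
  omega

/-! ### the kernel -/

theorem b3_Bk (k : ℕ) : b3 • sp k = sp k := by
  have h : ∀ x ∈ sp k, b3 • x = x := by
    rintro _ ⟨a, ha, -, rfl⟩
    exact smul_FixS (cmb_mem_FixS inM_cX tab3_ok a)
  ext x
  constructor
  · rintro ⟨y, hy, rfl⟩
    show b3 • y ∈ sp k
    rw [h y hy]; exact hy
  · intro hx
    exact ⟨x, hx, h x hx⟩

theorem negOne_set (S : Set Q2) : negOne • S = S := by
  ext x
  constructor
  · rintro ⟨y, hy, rfl⟩
    show negOne • y ∈ S
    rw [negOne_smul2]; exact hy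
  · intro hx
    exact ⟨x, hx, negOne_smul2 x⟩

theorem pow_set (i : ℕ) (k : ℕ) : b3 ^ i • sp k = sp k := by
  induction i with
  | zero => rw [pow_zero, one_smul]
  | succ i ih => rw [pow_succ, mul_smul, b3_Bk, ih]

theorem mem_C_of (b : Bool) (i : ℕ) : (if b then (1 : Co0) else negOne) * b3 ^ i ∈ C := by
  apply mul_mem
  · split_ifs
    · exact one_mem _
    · rw [mem_C]
      exact (Subgroup.mem_center_iff.1 negOne_mem_center b3).symm
  · exact pow_mem (mem_C.2 rfl) i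

theorem ker_of (b : Bool) (i : ℕ) : Ph0 ⟨(if b then (1 : Co0) else negOne) * b3 ^ i, mem_C_of b i⟩ = 1 := by
  apply Equiv.ext
  intro s
  apply Ph0_eq
  show ((if b then (1 : Co0) else negOne) * b3 ^ i) • sp s = sp s
  rw [mul_smul, pow_set]
  split_ifs
  · rw [one_smul]
  · exact negOne_set _

/-- six elements of the kernel -/
noncomputable def kf (x : Bool × Fin 3) : Ph0.ker :=
  ⟨⟨(if x.1 then (1 : Co0) else negOne) * b3 ^ (x.2 : ℕ), mem_C_of x.1 x.2⟩, ker_of x.1 x.2⟩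

theorem kf_inj : Function.Injective kf := by
  rintro ⟨b, i⟩ ⟨b', j⟩ h
  have h1 : (if b then (1 : Co0) else negOne) * b3 ^ (i : ℕ) = (if b' then (1 : Co0) else negOne) * b3 ^ (j : ℕ) :=
    congrArg (fun t : Ph0.ker => ((t : C) : Co0)) h
  have key : b3 ^ (i : ℕ) = b3 ^ (j : ℕ) → i = j := by
    intro h2
    exact Fin.ext (pow_injOn_Iio_orderOf (by rw [orderOf_b3]; exact i.2) (by rw [orderOf_b3]; exact j.2) h2)
  have bad : ∀ i j : ℕ, b3 ^ i = negOne * b3 ^ j → False := by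
    intro i j h2
    apply negOne_ne_zpow (β := b3) (p := 3) (by decide) b3_pow ((i : ℤ) - j)
    rw [zpow_sub, zpow_natCast, zpow_natCast, h2, mul_inv_cancel_right]
  cases b <;> cases b'
  · have h2 : b3 ^ (i : ℕ) = b3 ^ (j : ℕ) := by simpa using h1
    rw [key h2]
  · exact (bad j i (by simpa using h1.symm)).elim
  · exact (bad i j (by simpa using h1)).elim
  · have h2 : b3 ^ (i : ℕ) = b3 ^ (j : ℕ) := by simpa using h1
    rw [key h2]

theorem card6 : Nat.card (Bool × Fin 3) = 6 := by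
  rw [Nat.card_prod, Nat.card_fin]
  have : Nat.card Bool = 2 := by rw [Nat.card_eq_fintype_card]; rfl
  rw [this]

theorem cards : Nat.card Ph0.ker = 6 ∧ Nat.card Ph0.range = Nat.card (alternatingGroup (Fin 9)) := by
  have h1 := card_ker_range Ph0
  have h2 := card_C_le
  have h3 : 6 ≤ Nat.card Ph0.ker := by
    rw [← card6]; exact Nat.card_le_card_of_injective kf kf_inj
  have h4 : Nat.card (alternatingGroup (Fin 9)) ≤ Nat.card Ph0.range := Subgroup.card_le_of_le A9_le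
  have h5 := card_A9
  have h6 : Nat.card Ph0.ker * Nat.card Ph0.range ≤ 1088640 := by rw [h1]; exact h2
  rw [h5] at h4 ⊢
  have h7 : Nat.card Ph0.ker ≤ 6 := by
    by_contra h
    push Not at h
    have := Nat.mul_le_mul h h4
    omega
  have h8 : Nat.card Ph0.ker = 6 := le_antisymm h7 h3
  refine ⟨h8, ?_⟩
  rw [h8] at h6
  omega

theorem range_eq : Ph0.range = alternatingGroup (Fin 9) := (Subgroup.eq_of_le_of_card_ge A9_le (le_of_eq cards.2)).symm

theorem ker_spec {g : C} (h : Ph0 g = 1) : ∃ i : ℤ, (g : Co0) = b3 ^ i ∨ (g : Co0) = negOne * b3 ^ i := by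
  have h1 : Function.Bijective kf := by
    apply kf_inj.bijective_of_nat_card_le
    rw [card6, cards.1]
  obtain ⟨⟨b, i⟩, hb⟩ := h1.2 ⟨g, h⟩
  have h2 : (if b then (1 : Co0) else negOne) * b3 ^ (i : ℕ) = (g : Co0) :=
    congrArg (fun t : Ph0.ker => ((t : C) : Co0)) hb
  refine ⟨i, ?_⟩
  rw [← h2, zpow_natCast]
  cases b
  · right; simp
  · left; simp

/-- the homomorphism onto the alternating group -/
noncomputable def Ph : C →* alternatingGroup (Fin 9) :=
  Ph0.codRestrict (alternatingGroup (Fin 9)) (fun g => by rw [← range_eq]; exact ⟨g, rfl⟩)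

theorem Ph_surj : Function.Surjective Ph := by
  rintro ⟨w, hw⟩
  rw [← range_eq] at hw
  obtain ⟨g, hg⟩ := hw
  exact ⟨g, Subtype.ext hg⟩

theorem zpow_mod (k : ℤ) : b3 ^ k = b3 ^ (k % 3) := by
  conv_lhs => rw [← Int.emod_add_mul_ediv k 3, zpow_add, zpow_mul]
  rw [show (b3 ^ (3 : ℤ)) = 1 from by exact_mod_cast b3_pow, one_zpow, mul_one]

theorem Ph_eq_one {g : C} : Ph g = 1 ↔ ∃ i : ℤ, (g : Co0) = b3 ^ i ∨ (g : Co0) = negOne * b3 ^ i := by
  have h0 : Ph g = 1 ↔ Ph0 g = 1 := by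
    constructor
    · intro h; exact congrArg Subtype.val h
    · intro h; exact Subtype.ext h
  rw [h0]
  constructor
  · exact ker_spec
  · rintro ⟨i, hi⟩
    have h1 : (3 : ℤ) ≠ 0 := by norm_num
    have h2 : b3 ^ i = b3 ^ (i % 3).toNat := by
      rw [zpow_mod, ← zpow_natCast, Int.toNat_of_nonneg (Int.emod_nonneg _ h1)]
    rcases hi with hi | hi
    · have h3 := ker_of true (i % 3).toNat
      have h4 : g = ⟨(if true then (1 : Co0) else negOne) * b3 ^ (i % 3).toNat, mem_C_of true _⟩ := by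
        apply Subtype.ext
        rw [hi, h2]; simp
      rw [h4]; exact h3
    · have h3 := ker_of false (i % 3).toNat
      have h4 : g = ⟨(if false then (1 : Co0) else negOne) * b3 ^ (i % 3).toNat, mem_C_of false _⟩ := by
        apply Subtype.ext
        rw [hi, h2]; simp
      rw [h4]; exact h3

theorem faith3 : Faith b3 := by
  intro g hg h
  apply ker_spec (g := ⟨g, mem_C.2 hg⟩)
  apply Equiv.ext
  intro s
  apply Ph0_eq
  show g • sp s = sp s
  have h1 : ∀ x ∈ sp s, g • x = x := by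
    rintro _ ⟨a, ha, -, rfl⟩
    obtain ⟨v, hv, hvx⟩ := cmb_mem_FixS inM_cX tab3_ok a
    have h2 : XX u3 8 a = q2 v := hvx.symm
    rw [h2, smul_q2]
    exact q2_eq_iff.2 (dbl_symm (dbl_symm (h v hv)))
  ext x
  constructor
  · rintro ⟨y, hy, rfl⟩
    show g • y ∈ sp s
    rw [h1 y hy]; exact hy
  · intro hx
    exact ⟨x, hx, h1 x hx⟩

theorem hna3 : ∃ v ∈ FL b3, ∃ w ∈ FL b3, ¬ (16 : ℤ) ∣ dt v w := by
  refine ⟨lw (u3.getD 0 0), tab_FL inM_cX tab3_ok (by norm_num), lw (u3.getD 4 0), tab_FL inM_cX tab3_ok (by norm_num), ?_⟩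
  rw [dt_apply, coe_lw (tab_U tab3_ok (by norm_num)), coe_lw (tab_U tab3_ok (by norm_num)), idot_eq]
  decide +kernel

instance simpleA9 : IsSimpleGroup (alternatingGroup (Fin 9)) := alternatingGroup.isSimpleGroup (by simp)

theorem hK9 (S : Subgroup (alternatingGroup (Fin 9))) (hS : S.Normal) (h2 : IsPGroup 2 S) : S = ⊥ := by
  rcases hS.eq_bot_or_eq_top with h | h
  · exact h
  · exfalso
    rw [h] at h2
    obtain ⟨n, hn⟩ := IsPGroup.iff_card.1 h2
    rw [Subgroup.card_top, card_A9] at hn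
    have h3 : (3 : ℕ) ∣ 2 ^ n := ⟨60480, by rw [← hn]⟩
    have h4 := (Nat.Prime.dvd_of_dvd_pow (by norm_num) h3 : 3 ∣ 2)
    norm_num at h4

end Cfsg.Agent.Lib.H89Three
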