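import Cfsg.Agent.Lib.H89LeechMat
import Cfsg.Agent.Lib.LeechChain3
import Cfsg.Agent.Lib.H3PUM
import Cfsg.Agent.Lib.SUTransport
import Cfsg.Agent.S0283

/-!
# Isomorphisms of pointwise stabilizers in the automorphism group of the Leech lattice with unitary groups (helper8)
-/

set_option autoImplicit false

namespace Cfsg.Agent.Lib.H8LU

open Cfsg Cfsg.Agent.Lib Cfsg.Agent.Lib.Golay Cfsg.Agent.Lib.H89LeechMat Cfsg.Agent.Lib.LeechChain Matrix Subgroup
open Cfsg.Agent.Lib.H58SM Cfsg.Agent.Lib.H3Code Cfsg.Agent.Lib.H3Prj Cfsg.Agent.Lib.H3PU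
open scoped LinearAlgebra.Projectivization

/-! ### graphs -/

theorem iso_of_graph {G H : Type*} [Group G] [Group H] [Finite G] [Finite H] [IsSimpleGroup G] (R : Subgroup (G × H))
    (h1 : ∀ g, ∃ h, (g, h) ∈ R) (g0 : G) (h2 : (g0, (1 : H)) ∉ R) (hc : Nat.card H ≤ Nat.card G) : Nonempty (H ≃* G) := by
  let p1 : R →* G := (MonoidHom.fst G H).comp R.subtype
  let p2 : R →* H := (MonoidHom.snd G H).comp R.subtype
  have hp1 : Function.Surjective p1 := by
    intro g
    obtain ⟨h, hh⟩ := h1 g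
    exact ⟨⟨(g, h), hh⟩, rfl⟩
  have hn : (p2.ker.map p1).Normal := Subgroup.Normal.map inferInstance p1 hp1
  rcases hn.eq_bot_or_eq_top with hb | ht
  · have hp2 : Function.Injective p2 := by
      rw [injective_iff_map_eq_one]
      rintro ⟨⟨g, h⟩, hr⟩ hh
      have hh' : h = 1 := hh
      have h3 : p1 ⟨(g, h), hr⟩ ∈ p2.ker.map p1 := Subgroup.mem_map_of_mem p1 hh
      rw [hb, Subgroup.mem_bot] at h3
      have h4 : g = 1 := h3
      subst h4
      subst hh'
      rfl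
    have c1 : Nat.card R ≤ Nat.card H := Nat.card_le_card_of_injective p2 hp2
    have c2 : Nat.card G ≤ Nat.card R := Nat.card_le_card_of_surjective p1 hp1
    have b1 : Function.Bijective p1 := (Nat.bijective_iff_surjective_and_card p1).2 ⟨hp1, by omega⟩
    have b2 : Function.Bijective p2 := (Nat.bijective_iff_injective_and_card p2).2 ⟨hp2, by omega⟩
    exact ⟨(MulEquiv.ofBijective p2 b2).symm.trans (MulEquiv.ofBijective p1 b1)⟩
  · exfalso
    have h3 : g0 ∈ p2.ker.map p1 := by rw [ht]; trivial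
    obtain ⟨⟨⟨g, h⟩, hr⟩, hk, hg⟩ := h3
    have h4 : g = g0 := hg
    have h5 : h = 1 := hk
    subst h4 h5
    exact h2 hr

/-- the relation on pairs -/
def Rel {G H α β : Type*} [SMul G α] [SMul H β] (N : ℕ) (L : ℕ → Set α) (Y : ℕ → β) (p : G × H) : Prop :=
  ∀ j < N, ∃ j' < N, (∀ x ∈ L j, p.1 • x ∈ L j') ∧ p.2 • Y j = Y j'

theorem Rel.mul {G H α β : Type*} [Group G] [Group H] [MulAction G α] [MulAction H β] {N : ℕ} {L : ℕ → Set α} {Y : ℕ → β}
    {p q : G × H} (hp : Rel N L Y p) (hq : Rel N L Y q) : Rel N L Y (p * q) := by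
  intro j hj
  obtain ⟨j', hj', h1, h2⟩ := hq j hj
  obtain ⟨j'', hj'', h3, h4⟩ := hp j' hj'
  refine ⟨j'', hj'', fun x hx => ?_, ?_⟩
  · show (p.1 * q.1) • x ∈ _
    rw [mul_smul]
    exact h3 _ (h1 x hx)
  · show (p.2 * q.2) • Y j = _
    rw [mul_smul, h2, h4]

theorem iso_of_rel {G H α β : Type*} [Group G] [Group H] [Finite G] [Finite H] [IsSimpleGroup G] [MulAction G α]
    [MulAction H β] {N k : ℕ} {L : ℕ → Set α} {Y : ℕ → β} {g : ℕ → G} {h : ℕ → H}
    (hgen : closure {z | ∃ i < k, z = g i} = ⊤) (hR : ∀ i < k, Rel N L Y (g i, h i)) (hN : 0 < N)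
    (hY : ∀ j < N, Y 0 = Y j → j = 0) (x : α) (hx : x ∈ L 0) (i0 : ℕ) (hx' : g i0 • x ∉ L 0)
    (hc : Nat.card H ≤ Nat.card G) : Nonempty (H ≃* G) := by
  set R : Subgroup (G × H) := closure {z | ∃ i < k, z = (g i, h i)} with hRdef
  have hrel : ∀ p ∈ R, Rel N L Y p := by
    intro p hp
    have h1 : p ∈ R.toSubmonoid := hp
    rw [hRdef, Subgroup.closure_toSubmonoid_of_finite] at h1
    induction h1 using Submonoid.closure_induction with
    | mem x hx =>
      obtain ⟨i, hi, rfl⟩ := hx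
      exact hR i hi
    | one =>
      intro j hj
      refine ⟨j, hj, fun x hx => ?_, ?_⟩
      · show (1 : G) • x ∈ _
        rwa [one_smul]
      · show (1 : H) • Y j = _
        rw [one_smul]
    | mul x y hx hy ihx ihy =>
      have e : ∀ z, z ∈ Submonoid.closure {z | ∃ i < k, z = (g i, h i)} → z ∈ R := by
        intro z hz
        have : z ∈ R.toSubmonoid := by
          rw [hRdef, Subgroup.closure_toSubmonoid_of_finite]; exact hz
        exact this
      exact (ihx (e x hx)).mul (ihy (e y hy))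
  refine iso_of_graph R ?_ (g i0) ?_ hc
  · have h1 : R.map (MonoidHom.fst G H) = ⊤ := by
      rw [hRdef, MonoidHom.map_closure, ← hgen]
      congr 1
      ext z
      constructor
      · rintro ⟨_, ⟨i, hi, rfl⟩, rfl⟩
        exact ⟨i, hi, rfl⟩
      · rintro ⟨i, hi, rfl⟩
        exact ⟨_, ⟨i, hi, rfl⟩, rfl⟩
    intro z
    have h2 : z ∈ R.map (MonoidHom.fst G H) := by rw [h1]; trivial
    obtain ⟨⟨a, b⟩, hp, hq⟩ := h2
    have hq' : a = z := hq
    subst hq'
    exact ⟨b, hp⟩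
  · intro hp
    obtain ⟨j', hj', h1, h2⟩ := hrel _ hp 0 hN
    have h3 : Y 0 = Y j' := by
      have h4 : (1 : H) • Y 0 = Y j' := h2
      rwa [one_smul] at h4
    have h5 := hY j' hj' h3
    subst h5
    exact hx' (h1 x hx)

/-! ### the lattice side -/

/-- the coded vector (zero if the code is bad) -/
noncomputable def Yv (c : ℕ) : leechLattice := open Classical in if h : latC c = true then lv c h else 0

theorem coe_Yv {c : ℕ} (h : latC c = true) : (Yv c : GolayPt → ℤ) = vv c := by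
  unfold Yv
  rw [dif_pos h]
  rfl

theorem latC_of_imgOK {R : List ℕ} {a b : ℕ} (h : imgOK R a b = true) : latC b = true := (cond_false_eq.mp h).1

theorem smul_Yv {R : List ℕ} {g : Co0} (hg : ∀ v : leechLattice, (mt R).mulVec (v : GolayPt → ℤ) = 8 • ((g • v : leechLattice) : GolayPt → ℤ))
    {a b : ℕ} (ha : latC a = true) (h : imgOK R a b = true) : g • Yv a = Yv b := by
  have h1 := hg (Yv a)
  rw [coe_Yv ha, (imgOK_spec h).2] at h1
  apply Subtype.ext
  rw [coe_Yv (latC_of_imgOK h)]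
  exact (eight_cancel h1).symm

theorem Yv_ne {a b : ℕ} (ha : latC a = true) (hb : latC b = true) (h : (!(decide (idot a b = idot a a))) = true) :
    Yv a ≠ Yv b := by
  intro he
  have h1 : vv a = vv b := by rw [← coe_Yv ha, ← coe_Yv hb, he]
  rw [Bool.not_eq_true', decide_eq_false_iff_not] at h
  apply h
  rw [← idot_eq, ← idot_eq, h1]

/-- data of the lattice side: `k` matrices, `nf` fixed vectors, `N` permuted vectors -/
structure LD where
  k : ℕ
  N : ℕ
  /-- matrices, transposes, images of the generators -/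
  R : ℕ → List ℕ
  R' : ℕ → List ℕ
  I : ℕ → List ℕ
  I' : ℕ → List ℕ
  /-- fixed vectors -/
  F : List ℕ
  /-- permuted vectors -/
  Y : ℕ → ℕ
  /-- permutations -/
  sg : ℕ → ℕ → ℕ

namespace LD
variable (E : LD)

def mOk : Bool := alln (fun i => orthOK (E.R i) (E.R' i) && (orthOK (E.R' i) (E.R i) && (imgsOK (E.R i) (E.I i) &&
  imgsOK (E.R' i) (E.I' i)))) E.k

def fOk : Bool := E.F.all latC && alln (fun i => E.F.all fun c => imgOK (E.R i) c c) E.k

def yOk : Bool := alln (fun j => latC (E.Y j)) E.N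

def sOk : Bool := alln (fun i => alln (fun j => frc (E.sg i j) fun j' => Nat.blt j' E.N && imgOK (E.R i) (E.Y j) (E.Y j')) E.N) E.k

def dOk : Bool := alln (fun j => Nat.beq j 0 || !(decide (idot (E.Y 0) (E.Y j) = idot (E.Y 0) (E.Y 0)))) E.N

variable {E}

/-- the automorphisms -/
noncomputable def M (E : LD) (i : ℕ) : Co0 := open Classical in
  if h : ∃ g : Co0, ∀ v : leechLattice, (mt (E.R i)).mulVec (v : GolayPt → ℤ) = 8 • ((g • v : leechLattice) : GolayPt → ℤ)
  then h.choose else 1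

theorem M_spec (hm : E.mOk = true) {i : ℕ} (hi : i < E.k) (v : leechLattice) :
    (mt (E.R i)).mulVec (v : GolayPt → ℤ) = 8 • ((M E i • v : leechLattice) : GolayPt → ℤ) := by
  have h1 := alln_iff.1 hm i hi
  rw [Bool.and_eq_true, Bool.and_eq_true, Bool.and_eq_true] at h1
  obtain ⟨h1, h2, h3, h4⟩ := h1
  obtain ⟨g, hg, -⟩ := exists_mat h1 h2 h3 h4
  have h5 : ∃ g : Co0, ∀ v : leechLattice, (mt (E.R i)).mulVec (v : GolayPt → ℤ) = 8 • ((g • v : leechLattice) : GolayPt → ℤ) := ⟨g, hg⟩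
  unfold M
  rw [dif_pos h5]
  exact h5.choose_spec v

theorem M_fix (hm : E.mOk = true) (hf : E.fOk = true) {i : ℕ} (hi : i < E.k) {c : ℕ} (hc : c ∈ E.F) : M E i • Yv c = Yv c := by
  unfold fOk at hf
  rw [Bool.and_eq_true, List.all_eq_true] at hf
  have h1 := alln_iff.1 hf.2 i hi
  rw [List.all_eq_true] at h1
  exact smul_Yv (M_spec hm hi) (hf.1 c hc) (h1 c hc)

/-- the pointwise stabilizer -/
noncomputable def K (E : LD) : Subgroup Co0 := fixL (E.F.map Yv)

theorem M_mem (hm : E.mOk = true) (hf : E.fOk = true) {i : ℕ} (hi : i < E.k) : M E i ∈ K E := by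
  intro v hv
  obtain ⟨c, hc, rfl⟩ := List.mem_map.1 hv
  exact M_fix hm hf hi hc

/-- generators in the pointwise stabilizer -/
noncomputable def h (E : LD) (i : ℕ) : K E := open Classical in if hh : M E i ∈ K E then ⟨M E i, hh⟩ else 1

theorem h_smul (hm : E.mOk = true) (hf : E.fOk = true) (hy : E.yOk = true) (hs : E.sOk = true) {i : ℕ} (hi : i < E.k)
    {j : ℕ} (hj : j < E.N) : E.sg i j < E.N ∧ h E i • Yv (E.Y j) = Yv (E.Y (E.sg i j)) := by
  have h1 := alln_iff.1 (alln_iff.1 hs i hi) j hj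
  rw [frc_eq, Bool.and_eq_true, Sol.blt_iff] at h1
  refine ⟨h1.1, ?_⟩
  unfold h
  rw [dif_pos (M_mem hm hf hi)]
  exact smul_Yv (M_spec hm hi) (alln_iff.1 hy j hj) h1.2

end LD

/-! ### the unitary side -/

section
variable {F : Type} [Field F] [Fintype F]

/-- subsets of the set of points: the set number `j` consists of the points `LL j t`, `t < m` -/
def lOk (D : PD) (E : LD) (m : ℕ) (LL : ℕ → ℕ → ℕ) : Bool :=
  alln (fun i => alln (fun j => frc (E.sg i j) fun j' => alln (fun t => frc (D.T i (LL j t)) fun b =>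
    Nat.blt (LL j t) D.N && !(alln (fun t' => !(Nat.beq (LL j' t') b)) m)) m) E.N) E.k

/-- the sets -/
def LS (D : PD) (C : FC F) (m : ℕ) (LL : ℕ → ℕ → ℕ) (j : ℕ) : Set (ℙ F (Fin (D.n + 1) → F)) :=
  {x | ∃ t < m, x = PD.e D C (LL j t)}

/-- the point `b` is different from the points of the first set -/
def neOk (D : PD) (C : FC F) (m : ℕ) (LL : ℕ → ℕ → ℕ) (b : ℕ) : Bool :=
  Nat.blt b D.N && alln (fun t => Nat.blt (LL 0 t) D.N && alln (fun s => !(alln (fun j =>
    Nat.beq (C.ad (C.mu s (D.VC (LL 0 t) j)) (C.mu C.m1 (D.VC b j))) 0) (D.n + 1))) C.sz) m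

theorem not_mem_LS {D : PD} {C : FC F} (h : C.Ok) (hv : D.vOk C = true) {m : ℕ} {LL : ℕ → ℕ → ℕ} {b : ℕ}
    (hb : neOk D C m LL b = true) : PD.e D C b ∉ LS D C m LL 0 := by
  unfold neOk at hb
  rw [Bool.and_eq_true, Sol.blt_iff] at hb
  rintro ⟨t, ht, he⟩
  have h1 := alln_iff.1 hb.2 t ht
  rw [Bool.and_eq_true, Sol.blt_iff] at h1
  rw [PD.e_eq h hv hb.1, PD.e_eq h hv h1.1, Projectivization.mk_eq_mk_iff'] at he
  obtain ⟨a, ha⟩ := he
  obtain ⟨s, hs, rfl⟩ := h.surj a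
  have h2 := alln_iff.1 h1.2 s hs
  rw [Bool.not_eq_true', ← Bool.not_eq_true] at h2
  apply h2
  rw [alln_iff]
  intro j hj
  rw [Sol.beq_iff]
  have hv1 := FC.vlt_iff.1 (PD.v_spec h hv h1.1).1 j hj
  have hv2 := FC.vlt_iff.1 (PD.v_spec h hv hb.1).1 j hj
  have l1 := h.mu_lt _ hs _ hv1
  have l2 := h.mu_lt _ h.m1_lt _ hv2
  apply h.inj _ (h.ad_lt _ l1 _ l2)
  rw [h.dec_ad _ l1 _ l2, h.dec_mu _ hs _ hv1, h.dec_mu _ h.m1_lt _ hv2, h.dec_m1]
  have h3 := congrFun ha ⟨j, hj⟩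
  rw [Pi.smul_apply, smul_eq_mul] at h3
  have h4 : C.dec s * C.dec (D.VC (LL 0 t) j) = C.dec (D.VC b j) := h3
  rw [h4]
  ring

/-- the main theorem of this file -/
theorem main {D : PD} {C : FC F} {E : LD} (hF : Fintype.card F = D.q ^ 2) (h : C.Ok) (hn : 3 ≤ D.n + 1)
    (h32 : ¬ (D.n + 1 = 3 ∧ D.q = 2)) (hm : D.mOk C = true) (hv : D.vOk C = true) (hf : D.fOk C = true)
    (hk : E.k = D.k) (hgen : closure {z | ∃ i < D.k, z = PD.g D C i} = ⊤)
    (hEm : E.mOk = true) (hEf : E.fOk = true) (hEy : E.yOk = true) (hEs : E.sOk = true) (hEd : E.dOk = true)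
    (hN : 0 < E.N) {m : ℕ} {LL : ℕ → ℕ → ℕ} (hl : lOk D E m LL = true) (i0 t0 : ℕ) (hi0 : i0 < D.k) (ht0 : t0 < m)
    (hne : neOk D C m LL (D.T i0 (LL 0 t0)) = true)
    (hc : Nat.card (LD.K E) ≤ Nat.card (PU (D.n + 1) F D.q)) : Nonempty (LD.K E ≃* PU (D.n + 1) F D.q) := by
  haveI h0 : IsSimpleGroup (PSU (D.n + 1) F D.q) := S0283.result hF (D.n + 1) hn h32
  haveI : IsSimpleGroup (PU (D.n + 1) F D.q) :=
    (equivPSU (n := D.n + 1) (F := F) (q := D.q) hF (by omega)).isSimpleGroup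
  have hl' : ∀ i < E.k, ∀ j < E.N, ∀ t < m, LL j t < D.N ∧ ∃ t' < m, LL (E.sg i j) t' = D.T i (LL j t) := by
    intro i hi j hj t ht
    have h1 := alln_iff.1 (alln_iff.1 hl i hi) j hj
    rw [frc_eq] at h1
    have h2 := alln_iff.1 h1 t ht
    rw [frc_eq, Bool.and_eq_true, Sol.blt_iff] at h2
    refine ⟨h2.1, ?_⟩
    have h3 := h2.2
    rw [Bool.not_eq_true', ← Bool.not_eq_true, alln_iff] at h3
    push Not at h3
    obtain ⟨t', ht', h4⟩ := h3
    rw [ne_eq, Bool.not_eq_true, Bool.not_eq_false', Sol.beq_iff] at h4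
    exact ⟨t', ht', h4⟩
  refine iso_of_rel (N := E.N) (k := D.k) (L := LS D C m LL) (Y := fun j => Yv (E.Y j)) (g := PD.g D C) (h := LD.h E)
    hgen ?_ hN ?_ (PD.e D C (LL 0 t0)) ⟨t0, ht0, rfl⟩ i0 ?_ hc
  · intro i hi j hj
    have h1 := LD.h_smul hEm hEf hEy hEs (by omega : i < E.k) hj
    refine ⟨E.sg i j, h1.1, ?_, h1.2⟩
    rintro x ⟨t, ht, rfl⟩
    obtain ⟨h2, t', ht', h3⟩ := hl' i (by omega) j hj t ht
    refine ⟨t', ht', ?_⟩
    show PD.g D C i • PD.e D C (LL j t) = _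
    rw [(PD.fwd hF h hm hv hf (by omega) h2).2, h3]
  · intro j hj he
    have h1 := alln_iff.1 hEd j hj
    rw [Bool.or_eq_true, Sol.beq_iff] at h1
    rcases h1 with h1 | h1
    · exact h1
    · exact absurd he (Yv_ne (alln_iff.1 hEy 0 hN) (alln_iff.1 hEy j hj) h1)
  · have h2 := (hl' i0 (by omega) 0 hN t0 ht0).1
    rw [(PD.fwd hF h hm hv hf (by omega) h2).2]
    exact not_mem_LS h hv hne

end

/-! ### conjugation -/

theorem smul_fix_congr {k : Co0} (L : List leechLattice) (S : Subgroup Co0)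
    (hS : ∀ g : Co0, g ∈ S ↔ k * g * k⁻¹ ∈ fixL L) : Nonempty (S ≃* fixL L) := by
  have h1 : S.map (MulAut.conj k).toMonoidHom = fixL L := by
    ext g
    constructor
    · rintro ⟨x, hx, rfl⟩
      exact (hS x).1 hx
    · intro hg
      refine ⟨k⁻¹ * g * k, (hS _).2 ?_, ?_⟩
      · have e : k * (k⁻¹ * g * k) * k⁻¹ = g := by group
        rwa [e]
      · show k * (k⁻¹ * g * k) * k⁻¹ = g
        group
  exact ⟨(S.equivMapOfInjective (MulAut.conj k).toMonoidHom (MulAut.conj k).injective).trans (MulEquiv.subgroupCongr h1)⟩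

theorem conj_fix {k g : Co0} {v w : leechLattice} (h : k • v = w) : (k * g * k⁻¹) • w = w ↔ g • v = v := by
  rw [← h, mul_smul, mul_smul, inv_smul_smul]
  constructor
  · intro h1; exact MulAction.injective k h1
  · intro h1; rw [h1]

theorem fieldEquiv {F E : Type} [Field F] [Fintype F] [Field E] [Fintype E] (h : Fintype.card F = Fintype.card E) :
    Nonempty (F ≃+* E) := by
  exact ⟨FiniteField.ringEquivOfCardEq h⟩

end Cfsg.Agent.Lib.H8LU
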