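import Cfsg.Agent.Lib.H8LU62

/-!
# Triangles of type 222: transitivity and order (helper8)
-/

set_option autoImplicit false

namespace Cfsg.Agent.Lib.H8LU62

open Cfsg Cfsg.Agent.Lib Cfsg.Agent.Lib.LeechChain Cfsg.Agent.Lib.LeechCount Cfsg.Agent.Lib.LeechCo2 Cfsg.Agent.Lib.H8LU

theorem mem_cls_w {v w : leechLattice} : w ∈ cls [(v, -16)] 32 ↔ sqNorm (w : GolayPt → ℤ) = 32 ∧
    dotInt (v : GolayPt → ℤ) (w : GolayPt → ℤ) = -16 := mem_cls1

theorem std222 {v w : leechLattice} (hv : sqNorm (v : GolayPt → ℤ) = 32) (hw : sqNorm (w : GolayPt → ℤ) = 32)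
    (hd : dotInt (v : GolayPt → ℤ) (w : GolayPt → ℤ) = -16) : ∃ k : Co0, k • v = X hab ∧ k • w = w0 := by
  obtain ⟨k, hk⟩ := std2 hv
  obtain ⟨g, h1, h2⟩ := stab_trans16 (v := X hab) (w := k • w) (w' := w0) (sqNorm_X _) (by rw [sqNorm_smul]; exact hw)
    norm_w0 (by rw [← hk, dot_smul]; exact hd) dot_w0
  exact ⟨g * k, by rw [mul_smul, hk, h1], by rw [mul_smul, h2]⟩

theorem card_K : Nat.card (fixL [w0, X hab]) = 9196830720 := by
  have h1 := card_fixL_cons [X hab] w0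
  have h2 : orbL [X hab] w0 = cls [(X hab, -16)] 32 := by
    apply Set.Subset.antisymm
    · exact orbL_subset (C := [(X hab, -16)]) (mem_cls_w.2 ⟨norm_w0, dot_w0⟩)
    · intro y hy
      have hy' := mem_cls_w.1 hy
      obtain ⟨g, h3, h4⟩ := stab_trans16 (v := X hab) (w := w0) (w' := y) (sqNorm_X _) norm_w0 hy'.1 dot_w0 hy'.2
      exact ⟨g, mem_fix1.2 h3, h4⟩
  rw [card_Co2 (sqNorm_X _), h2, (count2 (sqNorm_X _)).1] at h1
  omega

theorem main' : Nonempty (fixL [w0, X hab] ≃* H3Prj.PU 6 K4.K4 2) := iso card_K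

end Cfsg.Agent.Lib.H8LU62
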