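import Cfsg.Agent.Lib.ClOmega
import Cfsg.Agent.Lib.ClUnitary2
import Cfsg.Agent.S0303
import Cfsg.Agent.S0283
/-
The commutator subgroup of the isometry group of the elliptic quadratic form in dimension six over the field with two
elements is simple of order 25920 (helper8; after helper89's module on the same group).
-/
set_option autoImplicit false
set_option linter.all false

namespace Cfsg.Agent.Lib.H8Om6

open Cfsg Cfsg.Agent.Lib Cfsg.Agent.Lib.Quad QuadraticMap Module

abbrev I6 := (Fin 2 ⊕ Fin 2) ⊕ Fin 2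

/-- the form -/
noncomputable abbrev Qm : QuadraticForm (ZMod 2) (I6 → ZMod 2) := quadMinus 2 (ZMod 2) 1 1

abbrev OO : Type := ↥(Cfsg.isometryGroup (ZMod 2) (Cfsg.quadFormMinus 2 (ZMod 2) 1 1))
abbrev Omm : Subgroup OO := Cfsg.Omega (ZMod 2) (Cfsg.quadFormMinus 2 (ZMod 2) 1 1)

theorem hab : ∀ z₁ z₂ : ZMod 2, z₁ ^ 2 + 1 * z₁ * z₂ + 1 * z₂ ^ 2 = 0 → z₁ = 0 ∧ z₂ = 0 := by decide

theorem card_OO : Nat.card OO = 51840 := by
  have h := ClOrthOrd.card_isometryGroup (quadMinus 2 (ZMod 2) 1 1)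
  rw [coe_quadMinus] at h
  rw [h, ClOrthOrd.card_O_minus hab]
  simp only [ZMod.card, Finset.prod_range_succ, Finset.prod_range_zero]
  norm_num

theorem nd : Nd Qm := nd_quadMinus (by decide)

theorem index_Omm : Omm.index = 2 := by
  have h := index_Omega_even (Q := quadMinus 2 (ZMod 2) 1 1) nd (ClOmega.genHyp_minus 2 le_rfl 1 1)
    (by rw [Module.finrank_pi]; simp)
  rw [coe_quadMinus] at h
  exact h

theorem card_Omm : Nat.card Omm = 25920 := by
  have h := Subgroup.card_mul_index Omm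
  rw [index_Omm, card_OO] at h
  omega

theorem card_PSU42 {F : Type} [Field F] [Fintype F] (hF : Fintype.card F = 2 ^ 2) : Nat.card (PSU 4 F 2) = 25920 := by
  have h := ClUnitary.card_PSU (F := F) (q := 2) (n := 4) hF (by norm_num)
  have h1 : Nat.gcd 4 (2 + 1) = 1 := by decide
  rw [h1] at h
  simp only [Finset.prod_range_succ, Finset.prod_range_zero] at h
  norm_num [Nat.even_iff] at h
  omega

theorem center_Omm {F : Type} [Field F] [Fintype F] (hF : Fintype.card F = 2 ^ 2) : Subgroup.center Omm = ⊥ := by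
  obtain ⟨e⟩ := Cfsg.Agent.S0303.result (F := ZMod 2) (K := F) (q := 2) (ZMod.card 2) hF 1 1 hab
  have h1 : Nat.card (POmega (ZMod 2) (quadFormMinus 2 (ZMod 2) 1 1)) = 25920 := by
    rw [Nat.card_congr e.toEquiv, card_PSU42 hF]
  have h2 := Subgroup.card_eq_card_quotient_mul_card_subgroup (Subgroup.center Omm)
  have h3 : Nat.card (Omm ⧸ Subgroup.center Omm) = 25920 := h1
  rw [h3, card_Omm] at h2
  have h4 : Nat.card (Subgroup.center Omm) = 1 := by omega
  exact Subgroup.card_eq_one.1 h4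

theorem iso_Omm {F : Type} [Field F] [Fintype F] (hF : Fintype.card F = 2 ^ 2) : Nonempty (Omm ≃* PSU 4 F 2) := by
  obtain ⟨e⟩ := Cfsg.Agent.S0303.result (F := ZMod 2) (K := F) (q := 2) (ZMod.card 2) hF 1 1 hab
  have h5 := center_Omm hF
  have e2 : Omm ≃* Omm ⧸ Subgroup.center Omm :=
    MulEquiv.ofBijective (QuotientGroup.mk' (Subgroup.center Omm))
      ⟨(MonoidHom.ker_eq_bot_iff _).1 (by rw [QuotientGroup.ker_mk', h5]), QuotientGroup.mk'_surjective _⟩
  exact ⟨e2.trans e⟩

/-- a field with four elements -/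
abbrev K4 := GaloisField 2 2

noncomputable instance : Fintype K4 := Fintype.ofFinite _

theorem card_K4 : Fintype.card K4 = 2 ^ 2 := by
  rw [← Nat.card_eq_fintype_card]
  exact GaloisField.card 2 2 (by norm_num)

theorem simple_Omm : IsSimpleGroup Omm := by
  obtain ⟨e⟩ := iso_Omm card_K4
  haveI : IsSimpleGroup (Cfsg.PSU 4 K4 2) := Cfsg.Agent.S0283.result card_K4 4 (by norm_num) (by norm_num)
  exact e.isSimpleGroup

end Cfsg.Agent.Lib.H8Om6
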