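import Cfsg.Agent.Lib.H8RuMB

/-!
helper8: the Schur multiplier of the point stabilizer `T0` of the Rudvalis group is trivial. This is the argument of
helper13 (`H13TitsF`) with another check of the relations.
-/

set_option autoImplicit false
set_option maxRecDepth 10000

namespace Cfsg.Agent.Lib.H8RuM

open Cfsg.Agent.Lib.H13Tits
open Subgroup Cfsg.Agent.Lib.H58SM Cfsg.Agent.Lib.H13EC Cfsg.Agent.Lib.SchurSylow

/-- a group with two generators satisfying the relations of the Tits group -/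
structure Env {G : Type} [Group G] (g : ℕ → G) : Prop where
  gen : Subgroup.closure {z | ∃ i < 2, z = g i} = ⊤
  card : Nat.card G = 17971200
  rel : ∀ w : List ℕ, ck w = true → ev g w = 1

theorem rTE : alln (fun j => ck (TE.WL.getD j [])) TE.E.J = true := by decide +kernel
theorem rT2 : alln (fun j => ck (T2.WL.getD j [])) 12 = true := by decide +kernel
theorem rT3 : alln (fun j => ck (T3.WL.getD j [])) 12 = true := by decide +kernel
theorem rT5 : alln (fun j => ck (T5.WL.getD j [])) 12 = true := by decide +kernel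
theorem rH2 : alln (fun j => ck ((H2.WL.getD j []).flatMap sbB)) 18 = true := by decide +kernel
theorem rH3 : alln (fun j => ck ((H3.WL.getD j []).flatMap sbC)) 17 = true := by decide +kernel
theorem rHE2 : alln (fun j => ck ((HE2.WL.getD j []).flatMap sbB)) HE2.E.J = true := by decide +kernel
theorem rHE3 : alln (fun j => ck ((HE3.WL.getD j []).flatMap sbC)) HE3.E.J = true := by decide +kernel

theorem B01 : ck (sbB 0 ++ sbB 1) = true := by decide +kernel
theorem B23 : ck (sbB 2 ++ sbB 3) = true := by decide +kernel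
theorem C01 : ck (sbC 0 ++ sbC 1) = true := by decide +kernel
theorem C23 : ck (sbC 2 ++ sbC 3) = true := by decide +kernel
theorem C2 : sbC 2 = sbB 3 ++ sbB 0 := by decide

theorem smul_one_of {G : Type*} [Group G] {L : Subgroup G} {y : G} (h : y ∈ L) : y • ((1 : G) : G ⧸ L) = ((1 : G) : G ⧸ L) := by
  show ((y * 1 : G) : G ⧸ L) = _
  rw [mul_one]
  exact (QuotientGroup.eq).2 (by rw [mul_one]; exact inv_mem h)

theorem wlt {D : Dat} {E : EX} (h : wOk D E = true) {j : ℕ} (hj : j < E.J + E.S) : ∀ l ∈ E.W j, l < 2 * D.k := by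
  intro l hl
  have h1 := alln_iff.1 h j hj
  rw [List.all_eq_true] at h1
  exact Sol.blt_iff.1 (h1 l hl)

namespace Env

variable {G : Type} [Group G] {g : ℕ → G}

/-- elements given by words -/
def hh (g : ℕ → G) (sb : ℕ → List ℕ) (i : ℕ) : G := ev g (sb (2 * i))

theorem lt_hh (A : Env g) {sb : ℕ → List ℕ} (h0 : ck (sb 0 ++ sb 1) = true) (h1 : ck (sb 2 ++ sb 3) = true) {l : ℕ}
    (hl : l < 4) : lt (hh g sb) l = ev g (sb l) := by
  have key : ∀ a b : ℕ, ck (sb a ++ sb b) = true → (ev g (sb a))⁻¹ = ev g (sb b) := by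
    intro a b h
    have h2 := A.rel _ h
    rw [ev_append] at h2
    exact inv_eq_of_mul_eq_one_left h2
  interval_cases l
  · rfl
  · exact key 0 1 h0
  · rfl
  · exact key 2 3 h1

theorem ev_hh (A : Env g) {sb : ℕ → List ℕ} (h0 : ck (sb 0 ++ sb 1) = true) (h1 : ck (sb 2 ++ sb 3) = true)
    {w : List ℕ} (hw : ∀ l ∈ w, l < 4) : ev (hh g sb) w = ev g (w.flatMap sb) := by
  induction w with
  | nil => rfl
  | cons l w ih =>
    rw [ev_cons, List.flatMap_cons, ev_append, lt_hh A h0 h1 (hw l List.mem_cons_self),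
      ih fun l hl => hw l (List.mem_cons_of_mem _ hl)]

/-- the subgroup L3(3) -/
def H (g : ℕ → G) : Subgroup G := Subgroup.closure {z | ∃ i < 2, z = hh g sbB i}

theorem B_mem (i : ℕ) (hi : i < 2) : hh g sbB i ∈ H g := subset_closure ⟨i, hi, rfl⟩

theorem C0 : hh g sbC 0 = hh g sbB 1 := rfl

theorem C1 (A : Env g) : hh g sbC 1 = hh g sbB 0 * (hh g sbB 1)⁻¹ := by
  have h1 : (hh g sbB 1)⁻¹ = ev g (sbB 3) := by
    have := lt_hh A B01 B23 (l := 3) (by norm_num)
    rw [← this]; rfl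
  rw [h1]
  show ev g (sbC 2) = ev g (sbB 0) * ev g (sbB 3)
  rw [C2, ev_append]

theorem C_mem (A : Env g) (i : ℕ) (hi : i < 2) : hh g sbC i ∈ H g := by
  interval_cases i
  · rw [C0]; exact B_mem 1 (by norm_num)
  · rw [C1 A]; exact mul_mem (B_mem 0 (by norm_num)) (inv_mem (B_mem 1 (by norm_num)))

/-- generators of `H`, first choice -/
def gB (g : ℕ → G) (i : ℕ) : H g :=
  if i = 0 then ⟨hh g sbB 0, B_mem 0 (by norm_num)⟩ else ⟨hh g sbB 1, B_mem 1 (by norm_num)⟩

/-- generators of `H`, second choice -/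
def gC (g : ℕ → G) (i : ℕ) : H g := if i = 0 then gB g 1 else gB g 0 * (gB g 1)⁻¹

theorem coe_gB : ∀ i < 2, (H g).subtype (gB g i) = hh g sbB i := by
  intro i hi
  interval_cases i <;> rfl

theorem coe_gC (A : Env g) : ∀ i < 2, (H g).subtype (gC g i) = hh g sbC i := by
  intro i hi
  interval_cases i
  · rfl
  · rw [C1 A]; rfl

theorem relB (A : Env g) {w : List ℕ} (hw : ∀ l ∈ w, l < 4) (h : ck (w.flatMap sbB) = true) : ev (gB g) w = 1 := by
  apply (H g).subtype_injective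
  rw [map_ev, map_one, ev_congr (k := 2) coe_gB hw, ev_hh A B01 B23 hw]
  exact A.rel _ h

theorem relC (A : Env g) {w : List ℕ} (hw : ∀ l ∈ w, l < 4) (h : ck (w.flatMap sbC) = true) : ev (gC g) w = 1 := by
  apply (H g).subtype_injective
  rw [map_ev, map_one, ev_congr (k := 2) (coe_gC A) hw, ev_hh A C01 C23 hw]
  exact A.rel _ h

theorem genB : Subgroup.closure {z | ∃ i < 2, z = gB g i} = ⊤ := by
  rw [eq_top_iff]
  rintro ⟨x, hx⟩ -
  have h1 : H g ≤ (Subgroup.closure {z | ∃ i < 2, z = gB g i}).map (H g).subtype := by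
    conv_lhs => unfold H
    rw [closure_le]
    rintro z ⟨i, hi, rfl⟩
    exact ⟨gB g i, subset_closure ⟨i, hi, rfl⟩, coe_gB i hi⟩
  obtain ⟨y, hy, hyx⟩ := h1 hx
  have : y = ⟨x, hx⟩ := Subtype.ext hyx
  rwa [← this]

theorem gC0 : gC g 0 = gB g 1 := rfl

theorem gB0 : gB g 0 = gC g 1 * gC g 0 := by
  show gB g 0 = gB g 0 * (gB g 1)⁻¹ * gB g 1
  rw [inv_mul_cancel_right]

theorem genC : Subgroup.closure {z | ∃ i < 2, z = gC g i} = ⊤ := by
  rw [eq_top_iff, ← genB, closure_le]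
  rintro z ⟨i, hi, rfl⟩
  have h0 : gC g 0 ∈ Subgroup.closure {z | ∃ i < 2, z = gC g i} := subset_closure ⟨0, by norm_num, rfl⟩
  have h1 : gC g 1 ∈ Subgroup.closure {z | ∃ i < 2, z = gC g i} := subset_closure ⟨1, by norm_num, rfl⟩
  interval_cases i
  · show gB g 0 ∈ _
    rw [gB0]; exact mul_mem h1 h0
  · exact h0

/-- the subgroup of order 13 -/
def K (g : ℕ → G) : Subgroup (H g) := zpowers (gB g 1)

theorem pow13 (A : Env g) : gB g 1 ^ 13 = 1 := by
  have h := relB A (w := List.replicate 13 (2 * 1)) (by decide) (by decide +kernel)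
  rwa [ev_replicate] at h

theorem pow3 (A : Env g) : gB g 0 ^ 3 = 1 := by
  have h := relB A (w := List.replicate 3 (2 * 0)) (by decide) (by decide +kernel)
  rwa [ev_replicate] at h

theorem pow2 (A : Env g) : gC g 1 ^ 2 = 1 := by
  have h := relC A (w := List.replicate 2 (2 * 1)) (by decide) (by decide +kernel)
  rwa [ev_replicate] at h

theorem card_K (A : Env g) : Nat.card (K g) ≤ 13 := by
  unfold K
  rw [Nat.card_zpowers]
  exact Nat.le_of_dvd (by norm_num) (orderOf_dvd_of_pow_eq_one (pow13 A))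

theorem fwdB (A : Env g) : ∀ i < 2, ∀ a < 432, gB g i • pts H2.Q.toDat (gB g) ((1 : H g) : H g ⧸ K g) a =
    pts H2.Q.toDat (gB g) ((1 : H g) : H g ⧸ K g) (H2.Q.toDat.T (2 * i) a) := by
  refine fwd (D := H2.Q.toDat) (E := HE2.E) H2.tab1_ok H2.tab2_ok H2.tab3_ok HE2.w_ok ?_ ?_ HE2.chk_ok
  · intro j hj
    exact relB A (wlt HE2.w_ok (by show j < 5 + 2; have : j < 5 := hj; omega)) (alln_iff.1 rHE2 j hj)
  · intro j h1 h2
    have h1 : 5 ≤ j := h1
    have h2 : j < 5 + 2 := h2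
    apply smul_one_of
    have hX : gB g 1 ∈ K g := mem_zpowers _
    interval_cases j
    · show ev (gB g) [2] ∈ K g
      rw [ev_cons, ev_nil, one_mul]; exact hX
    · have h := relB A (w := HE2.E.W 6 ++ [3, 3, 3, 3]) (by decide) (by decide +kernel)
      rw [ev_append] at h
      rw [eq_inv_of_mul_eq_one_right h]
      apply inv_mem
      simp only [ev_cons, ev_nil, one_mul]
      have hY : lt (gB g) 3 ∈ K g := inv_mem hX
      exact mul_mem (mul_mem (mul_mem hY hY) hY) hY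

theorem fwdC (A : Env g) : ∀ i < 2, ∀ a < 432, gC g i • pts H3.Q.toDat (gC g) ((1 : H g) : H g ⧸ K g) a =
    pts H3.Q.toDat (gC g) ((1 : H g) : H g ⧸ K g) (H3.Q.toDat.T (2 * i) a) := by
  refine fwd (D := H3.Q.toDat) (E := HE3.E) H3.tab1_ok H3.tab2_ok H3.tab3_ok HE3.w_ok ?_ ?_ HE3.chk_ok
  · intro j hj
    exact relC A (wlt HE3.w_ok (by show j < 6 + 2; have : j < 6 := hj; omega)) (alln_iff.1 rHE3 j hj)
  · intro j h1 h2
    have h1 : 6 ≤ j := h1
    have h2 : j < 6 + 2 := h2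
    apply smul_one_of
    have hX : gC g 0 ∈ K g := mem_zpowers _
    interval_cases j
    · show ev (gC g) [0] ∈ K g
      rw [ev_cons, ev_nil, one_mul]; exact hX
    · have h := relC A (w := HE3.E.W 7 ++ [1, 1, 1, 1]) (by decide) (by decide +kernel)
      rw [ev_append] at h
      rw [eq_inv_of_mul_eq_one_right h]
      apply inv_mem
      simp only [ev_cons, ev_nil, one_mul]
      have hY : lt (gC g) 1 ∈ K g := inv_mem hX
      exact mul_mem (mul_mem (mul_mem hY hY) hY) hY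

theorem index_K_le (A : Env g) : (K g).index ≤ 432 :=
  index_le (D := H2.Q.toDat) (by decide) H2.tab1_ok H2.tab2_ok genB (fwdB A)

theorem fwdT (A : Env g) : ∀ i < 2, ∀ a < 3200, g i • pts T2.Q.toDat g ((1 : G) : G ⧸ H g) a =
    pts T2.Q.toDat g ((1 : G) : G ⧸ H g) (T2.Q.toDat.T (2 * i) a) := by
  refine fwd (D := T2.Q.toDat) (E := TE.E) T2.tab1_ok T2.tab2_ok T2.tab3_ok TE.w_ok ?_ ?_ TE.chk_ok
  · intro j hj
    exact A.rel _ (alln_iff.1 rTE j hj)
  · intro j h1 h2
    have h1 : 8 ≤ j := h1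
    have h2 : j < 8 + 3 := h2
    apply smul_one_of
    interval_cases j
    · exact B_mem 1 (by norm_num)
    · exact B_mem 0 (by norm_num)
    · have h := A.rel (TE.E.W 10 ++ [0, 2, 2, 2, 1, 3, 3, 3, 0].flatMap sbB) (by decide +kernel)
      rw [ev_append] at h
      rw [eq_inv_of_mul_eq_one_right h]
      apply inv_mem
      rw [← ev_hh A B01 B23 (by decide)]
      have h0 : lt (hh g sbB) 0 ∈ H g := B_mem 0 (by norm_num)
      have h1 : lt (hh g sbB) 1 ∈ H g := inv_mem (B_mem 0 (by norm_num))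
      have h2 : lt (hh g sbB) 2 ∈ H g := B_mem 1 (by norm_num)
      have h3 : lt (hh g sbB) 3 ∈ H g := inv_mem (B_mem 1 (by norm_num))
      simp only [ev_cons, ev_nil, one_mul]
      exact mul_mem (mul_mem (mul_mem (mul_mem (mul_mem (mul_mem (mul_mem (mul_mem h0 h3) h3) h3) h1) h2) h2) h2) h0

theorem index_H_le (A : Env g) : (H g).index ≤ 3200 :=
  index_le (D := T2.Q.toDat) (by decide) T2.tab1_ok T2.tab2_ok A.gen (fwdT A)

theorem fin (A : Env g) : Finite G := Nat.finite_of_card_ne_zero (by rw [A.card]; norm_num)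

theorem card_H_le (A : Env g) : Nat.card (H g) ≤ 5616 := by
  have h := (K g).card_mul_index
  have h1 := Nat.mul_le_mul (card_K A) (index_K_le A)
  omega

theorem card_H (A : Env g) : Nat.card (H g) = 5616 ∧ (H g).index = 3200 := by
  have h := (H g).card_mul_index
  rw [A.card] at h
  have h1 := card_H_le A
  have h2 := index_H_le A
  constructor
  · by_contra hne
    have h3 : Nat.card (H g) ≤ 5615 := by omega
    have := Nat.mul_le_mul h3 h2
    omega
  · by_contra hne
    have h3 : (H g).index ≤ 3199 := by omega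
    have := Nat.mul_le_mul h1 h3
    omega

theorem index_K (A : Env g) : (K g).index = 432 := by
  have h := (K g).card_mul_index
  rw [(card_H A).1] at h
  have h1 := card_K A
  have h2 := index_K_le A
  by_contra hne
  have h3 : (K g).index ≤ 431 := by omega
  have := Nat.mul_le_mul h1 h3
  omega

theorem actB (A : Env g) : Act 432 2 (gB g) (pts H2.Q.toDat (gB g) ((1 : H g) : H g ⧸ K g)) H2.Q.toDat.T H2.Q.toDat.pi
    H2.Q.toDat.pq :=
  act (D := H2.Q.toDat) (by decide) H2.tab1_ok H2.tab2_ok H2.tab3_ok genB (fwdB A) (index_K A).ge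

theorem actC (A : Env g) : Act 432 2 (gC g) (pts H3.Q.toDat (gC g) ((1 : H g) : H g ⧸ K g)) H3.Q.toDat.T H3.Q.toDat.pi
    H3.Q.toDat.pq :=
  act (D := H3.Q.toDat) (by decide) H3.tab1_ok H3.tab2_ok H3.tab3_ok genC (fwdC A) (index_K A).ge

theorem actT (A : Env g) : Act 3200 2 g (pts T2.Q.toDat g ((1 : G) : G ⧸ H g)) T2.Q.toDat.T T2.Q.toDat.pi T2.Q.toDat.pq :=
  act (D := T2.Q.toDat) (by decide) T2.tab1_ok T2.tab2_ok T2.tab3_ok A.gen (fwdT A) (card_H A).2.ge

theorem actT3 (A : Env g) : Act 3200 2 g (pts T2.Q.toDat g ((1 : G) : G ⧸ H g)) T3.Q.toDat.T T3.Q.toDat.pi T3.Q.toDat.pq :=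
  actT A

theorem actT5 (A : Env g) : Act 3200 2 g (pts T2.Q.toDat g ((1 : G) : G ⧸ H g)) T5.Q.toDat.T T5.Q.toDat.pi T5.Q.toDat.pq :=
  actT A

theorem H_two (A : Env g) : PStemDvd 2 (H g) 1 := by
  have : Fact (Nat.Prime 2) := ⟨by norm_num⟩
  have := fin A
  refine pStemDvd_of_checks' (s := 1) (q := 1) (N := 1) (c := 13) H2.Q.toDat (actB A) genB (by rw [(card_H A).1]; rfl)
    (by norm_num) H2.w_ok ?_ H2.nr H2.nr_ok H2.zl_ok rfl rfl (by decide) H2.chk_ok H2.gen_ok H2.par_ok (by intro r hr; cases hr) rfl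
  intro j hj
  exact relB A (Dat.wOk_iff H2.w_ok j hj) (alln_iff.1 rH2 j hj)

theorem H_three (A : Env g) : PStemDvd 3 (H g) 1 := by
  have : Fact (Nat.Prime 3) := ⟨by norm_num⟩
  have := fin A
  refine pStemDvd_of_checks' (s := 1) (q := 1) (N := 1) (c := 13) H3.Q.toDat (actC A) genC (by rw [(card_H A).1]; rfl)
    (by norm_num) H3.w_ok ?_ H3.nr H3.nr_ok H3.zl_ok rfl rfl (by decide) H3.chk_ok H3.gen_ok H3.par_ok (by intro r hr; cases hr) rfl
  intro j hj
  exact relC A (Dat.wOk_iff H3.w_ok j hj) (alln_iff.1 rH3 j hj)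

theorem stab : MulAction.stabilizer G (pts T2.Q.toDat g ((1 : G) : G ⧸ H g) 0) = H g := by
  rw [pts_zero]
  exact MulAction.stabilizer_quotient (H g)

theorem odds_two (A : Env g) [Fact (Nat.Prime 2)] : odds 2 (H g) = ⊤ := by
  rw [eq_top_iff, ← genB, closure_le]
  rintro z ⟨i, hi, rfl⟩
  interval_cases i
  · exact mem_odds_of_pow (N := 3) (by norm_num) (pow3 A)
  · exact mem_odds_of_pow (N := 13) (by norm_num) (pow13 A)

theorem odds_three (A : Env g) [Fact (Nat.Prime 3)] : odds 3 (H g) = ⊤ := by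
  rw [eq_top_iff, ← genC, closure_le]
  rintro z ⟨i, hi, rfl⟩
  interval_cases i
  · exact mem_odds_of_pow (N := 13) (by norm_num) (pow13 A)
  · exact mem_odds_of_pow (N := 2) (by norm_num) (pow2 A)

theorem two (A : Env g) : PStemDvd 2 G 1 := by
  have : Fact (Nat.Prime 2) := ⟨by norm_num⟩
  have := fin A
  have hs := stab (g := g)
  refine pStemDvd_of_checks (s := 1) (q := 1) (N := 1) T2.Q.toDat (actT A) A.gen ?_ ?_
    T2.w_ok ?_ T2.nr T2.nr_ok T2.zl_ok rfl rfl (by decide) T2.chk_ok T2.gen_ok T2.par_ok (by intro r hr; cases hr) rfl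
  · rw [hs]; exact H_two A
  · rw [hs]; exact not_dvd_of_odds (odds_two A)
  · intro j hj
    exact A.rel _ (alln_iff.1 rT2 j hj)

theorem three (A : Env g) : PStemDvd 3 G 1 := by
  have : Fact (Nat.Prime 3) := ⟨by norm_num⟩
  have := fin A
  have hs := stab (g := g)
  refine pStemDvd_of_checks (s := 1) (q := 1) (N := 1) T3.Q.toDat (actT3 A) A.gen ?_ ?_
    T3.w_ok ?_ T3.nr T3.nr_ok T3.zl_ok rfl rfl (by decide) T3.chk_ok T3.gen_ok T3.par_ok (by intro r hr; cases hr) rfl
  · rw [hs]; exact H_three A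
  · rw [hs]; exact not_dvd_of_odds (odds_three A)
  · intro j hj
    exact A.rel _ (alln_iff.1 rT3 j hj)

theorem five (A : Env g) : PStemDvd 5 G 1 := by
  have : Fact (Nat.Prime 5) := ⟨by norm_num⟩
  have := fin A
  refine pStemDvd_of_checks' (s := 1) (q := 1) (N := 1) (c := 5616) T5.Q.toDat (actT5 A) A.gen
    (by rw [A.card]; rfl) (by norm_num)
    T5.w_ok ?_ T5.nr T5.nr_ok T5.zl_ok rfl rfl (by decide) T5.chk_ok T5.gen_ok T5.par_ok (by intro r hr; cases hr) rfl
  intro j hj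
  exact A.rel _ (alln_iff.1 rT5 j hj)

theorem stem (A : Env g) : StemDvd G 1 := by
  apply StemDvd.of_forall
  intro p hp
  have : Fact p.Prime := ⟨hp⟩
  have := fin A
  by_cases h2 : p = 2
  · subst h2; exact two A
  by_cases h3 : p = 3
  · subst h3; exact three A
  by_cases h5 : p = 5
  · subst h5; exact five A
  apply Cfsg.Agent.Lib.H92Stem.pStemDvd_of_sq
  rw [A.card]
  intro hd
  have h6 : Nat.Coprime (p ^ 2) (2 ^ 11 * 3 ^ 3 * 5 ^ 2) := by
    apply Nat.Coprime.pow_left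
    have c2 : Nat.Coprime p 2 := (Nat.coprime_primes hp (by norm_num)).2 h2
    have c3 : Nat.Coprime p 3 := (Nat.coprime_primes hp (by norm_num)).2 h3
    have c5 : Nat.Coprime p 5 := (Nat.coprime_primes hp (by norm_num)).2 h5
    exact Nat.Coprime.mul_right (Nat.Coprime.mul_right (c2.pow_right _) (c3.pow_right _)) (c5.pow_right _)
  have h7 : p ^ 2 ∣ 13 := by
    apply h6.dvd_of_dvd_mul_left
    rw [show 2 ^ 11 * 3 ^ 3 * 5 ^ 2 * 13 = 17971200 by norm_num]; exact hd
  have h8 : p ∣ 13 := (dvd_pow_self p two_ne_zero).trans h7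
  have h9 : p = 13 := (Nat.prime_dvd_prime_iff_eq hp (by norm_num)).1 h8
  rw [h9] at h7
  exact absurd (Nat.le_of_dvd (by norm_num) h7) (by norm_num)

end Env

theorem env : Env g0 := ⟨g0_gen, H8Ru.card_T0, fun _ h => ck_ok h⟩

theorem T0_stem : StemDvd H8Ru.T0 1 := env.stem

end Cfsg.Agent.Lib.H8RuM
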