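import Cfsg.Agent.Lib.H8RuMD

/-!
helper8: upper bound for the multiplier of the Rudvalis group.
-/
set_option autoImplicit false
set_option maxRecDepth 100000
set_option maxHeartbeats 400000

namespace Cfsg.Agent.Lib.H8RuM

open Cfsg Cfsg.Spor Cfsg.Agent.Lib.H58SM Cfsg.Agent.Lib.H13EC Cfsg.Agent.Lib.SchurSylow
open Cfsg.Agent.Lib.H8Ru (Om GR St T0 tw mW wN wd bl bp allLt allLt_iff chkFix an an_mul an_wd an_val wd_append wd_mem
  eq_one_of_chkFix rot rot_def io iG toL HL lA lB t0L eq_one_of_base toL_iG t0L_inj)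

attribute [local irreducible] wN H8Ru.look GR

/-- words as elements -/
def wG (w : List ℕ) : GR := ⟨wd w, wd_mem w⟩

/-- the generators -/
def gG (i : ℕ) : GR := if i = 0 then wG uw else wG zw

theorem wG_inv {v w : List ℕ} (h : chkFix (v ++ w) 28 = true) : (wG v)⁻¹ = wG w := by
  have h1 := eq_one_of_chkFix h
  rw [wd_append] at h1
  apply inv_eq_of_mul_eq_one_right
  exact Subtype.ext h1

theorem lt_gG {l : ℕ} (hl : l < 4) : lt gG l = wG (sbR l) := by
  interval_cases l
  · rfl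
  · exact wG_inv u_inv
  · rfl
  · exact wG_inv z_inv

theorem eG_nil (c : ℕ) : eG [] c = c := rfl

theorem eG_cons (l : ℕ) (w : List ℕ) (c : ℕ) : eG (l :: w) c = eG w (wN (sbR l) c) := by
  show frc (wN (sbR l) c) (eG w) = _
  rw [frc_eq]

theorem eG_ok {w : List ℕ} (hw : ∀ l ∈ w, l < 4) : ∀ {c : ℕ}, c < 16240 → an (ev gG w).1 c = eG w c := by
  induction w with
  | nil => intro c hc; exact an_one hc
  | cons l w ih =>
    intro c hc
    rw [eG_cons, ev_cons]
    show an ((ev gG w).1 * (lt gG l).1) c = _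
    have h1 : an (wd (sbR l)) c = wN (sbR l) c := an_wd _ hc
    have h2 : wN (sbR l) c < 16240 := by rw [← h1]; exact H8Ru.an_lt hc
    rw [an_mul _ _ hc, lt_gG (hw l List.mem_cons_self)]
    show an (ev gG w).1 (an (wd (sbR l)) c) = _
    rw [h1, ih (fun l hl => hw l (List.mem_cons_of_mem _ hl)) h2]

theorem eq_of_rot {s t : GR} {a : ℕ} (h : ∀ k < 28, an s.1 (4 * bl k) = rot (an t.1 (4 * bl k)) a) : s = iG ^ a * t := by
  have h1 : (iG ^ a * t)⁻¹ * s = 1 := by
    apply Subtype.ext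
    apply eq_one_of_base ((iG ^ a * t)⁻¹ * s).2
    intro k hk
    have hb := H8Ru.bl_le hk
    apply Fin.ext
    rw [← an_val, H8Ru.bp_val hk]
    show an ((iG ^ a * t).1⁻¹ * s.1) (4 * bl k) = 4 * bl k
    rw [an_mul _ _ (by omega), h k hk]
    apply an_inv (by omega)
    show an (io ^ a * t.1) (4 * bl k) = _
    rw [an_mul _ _ (by omega)]
    have h2 : an t.1 (4 * bl k) < 16240 := H8Ru.an_lt (by omega)
    generalize an t.1 (4 * bl k) = d at h2
    unfold an
    rw [dif_pos h2]
    exact H8Ru.io_pow_val _ _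
  exact (inv_mul_eq_one.1 h1).symm

theorem ckR_ok {w v : List ℕ} {a : ℕ} (h : ckR w v a = true) : ev gG w = iG ^ a * wG v := by
  unfold ckR at h
  rw [Bool.and_eq_true, List.all_eq_true] at h
  obtain ⟨h1, h2⟩ := h
  have hw : ∀ l ∈ w, l < 4 := fun l hl => Sol.blt_iff.1 (h1 l hl)
  apply eq_of_rot
  intro k hk
  have hb := H8Ru.bl_le hk
  have h3 : eG w (4 * bl k) = rot (wN v (4 * bl k)) a := Nat.eq_of_beq_eq_true (allLt_iff.mp h2 k hk)
  rw [eG_ok hw (by omega), h3]
  congr 1
  exact (an_wd v (by omega)).symm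

/-- the generators of the simple group -/
def gh (i : ℕ) : HL := toL.rangeRestrict (gG i)

theorem ev_gh (w : List ℕ) : ev gh w = toL.rangeRestrict (ev gG w) := (map_ev toL.rangeRestrict gG w).symm

theorem ckR_toL {w v : List ℕ} {a : ℕ} (h : ckR w v a = true) : ev gh w = toL.rangeRestrict (wG v) := by
  rw [ev_gh, ckR_ok h, map_mul, map_pow]
  have h1 : toL.rangeRestrict iG = 1 := Subtype.ext toL_iG
  rw [h1, one_pow, one_mul]

theorem ckR_one {w : List ℕ} {a : ℕ} (h : ckR w [] a = true) : ev gh w = 1 := by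
  rw [ckR_toL h]
  exact map_one toL.rangeRestrict

theorem ckR_T0 {w m : List ℕ} {a : ℕ} (h : ckR w (mW m) a = true) : ev gh w = t0L (tw m) := by
  rw [ckR_toL h]
  rfl

theorem ev_mem_closure' {w : List ℕ} (hw : ∀ l ∈ w, l < 4) : ev gh w ∈ Subgroup.closure {z | ∃ i < 2, z = gh i} := by
  have hl : ∀ l < 4, lt gh l ∈ Subgroup.closure {z | ∃ i < 2, z = gh i} := by
    have h0 : gh 0 ∈ Subgroup.closure {z | ∃ i < 2, z = gh i} := Subgroup.subset_closure ⟨0, by norm_num, rfl⟩
    have h1 : gh 1 ∈ Subgroup.closure {z | ∃ i < 2, z = gh i} := Subgroup.subset_closure ⟨1, by norm_num, rfl⟩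
    intro l hl
    interval_cases l
    · exact h0
    · exact inv_mem h0
    · exact h1
    · exact inv_mem h1
  induction w with
  | nil => exact one_mem _
  | cons l w ih =>
    rw [ev_cons]
    exact mul_mem (ih fun l hl => hw l (List.mem_cons_of_mem _ hl)) (hl l (hw l List.mem_cons_self))

theorem letters {w v : List ℕ} {a : ℕ} (h : ckR w v a = true) : ∀ l ∈ w, l < 4 := by
  unfold ckR at h
  rw [Bool.and_eq_true, List.all_eq_true] at h
  exact fun l hl => Sol.blt_iff.1 (h.1 l hl)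

theorem gh_gen : Subgroup.closure {z | ∃ i < 2, z = gh i} = ⊤ := by
  rw [eq_top_iff, ← H8Ru.HL_closure, Subgroup.closure_le]
  rintro z (rfl | rfl)
  · have h : ev gh vA = lA := by rw [ckR_toL vA_ok]; rfl
    rw [← h]
    exact ev_mem_closure' (letters vA_ok)
  · have h : ev gh vB = lB := by rw [ckR_toL vB_ok]; rfl
    rw [← h]
    exact ev_mem_closure' (letters vB_ok)

theorem fwdR : ∀ i < 2, ∀ a < 8120, gh i • pts X2.Q.toDat gh ((1 : HL) : HL ⧸ t0L.range) a =
    pts X2.Q.toDat gh ((1 : HL) : HL ⧸ t0L.range) (X2.Q.toDat.T (2 * i) a) := by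
  refine fwd (D := X2.Q.toDat) (E := XE.E) X2.tab1_ok X2.tab2_ok X2.tab3_ok XE.w_ok ?_ ?_ XE.chk_ok
  · intro j hj
    exact ckR_one (alln_iff.1 rXE j hj)
  · intro j h1 h2
    have h1 : 12 ≤ j := h1
    have h2 : j < 12 + 9 := h2
    apply smul_one_of
    have h3 := ckR_T0 (alln_iff.1 sXE (j - 12) (by omega))
    rw [show Nat.add 12 (j - 12) = j from by show 12 + (j - 12) = j; omega] at h3
    have h4 : ev gh (XE.E.W j) = t0L (tw (mS.getD (j - 12) [])) := h3
    rw [h4]
    exact ⟨_, rfl⟩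

/-- the Tits group as a subgroup -/
noncomputable def eT : T0 ≃* t0L.range := MonoidHom.ofInjective t0L_inj

theorem card_rg : Nat.card t0L.range = 17971200 := by
  rw [Nat.card_congr eT.symm.toEquiv, H8Ru.card_T0]

theorem index_rg : (t0L.range).index = 8120 := by
  have h := (t0L.range).card_mul_index
  rw [card_rg, H8Ru.card_HL] at h
  omega

theorem actR : Act 8120 2 gh (pts X2.Q.toDat gh ((1 : HL) : HL ⧸ t0L.range)) X2.Q.toDat.T X2.Q.toDat.pi X2.Q.toDat.pq :=
  act (D := X2.Q.toDat) (by decide) X2.tab1_ok X2.tab2_ok X2.tab3_ok gh_gen fwdR index_rg.ge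

theorem actR5 : Act 8120 2 gh (pts X2.Q.toDat gh ((1 : HL) : HL ⧸ t0L.range)) X5.Q.toDat.T X5.Q.toDat.pi X5.Q.toDat.pq :=
  actR

theorem stabR : MulAction.stabilizer HL (pts X2.Q.toDat gh ((1 : HL) : HL ⧸ t0L.range) 0) = t0L.range := by
  rw [pts_zero]
  exact MulAction.stabilizer_quotient (t0L.range)

theorem rg_p (p : ℕ) : PStemDvd p t0L.range 1 := (T0_stem.pStemDvd p).congr eT

theorem rg_perfect : commutator t0L.range = ⊤ := by
  haveI := H8Ru.T0_simple
  have hs : IsSimpleGroup t0L.range := MulEquiv.isSimpleGroup eT.symm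
  rcases hs.eq_bot_or_eq_top_of_normal (commutator t0L.range) inferInstance with h | h
  · exfalso
    have hc : Subgroup.center t0L.range = ⊤ := (commutator_eq_bot_iff_center_eq_top _).1 h
    have hc' : Subgroup.center T0 = ⊤ := by
      rw [eq_top_iff]
      intro z _
      rw [Subgroup.mem_center_iff]
      intro g
      apply eT.injective
      rw [map_mul, map_mul]
      have : eT z ∈ Subgroup.center t0L.range := by rw [hc]; trivial
      exact (Subgroup.mem_center_iff.1 this) (eT g)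
    rw [H8Ru.T0_center] at hc'
    have h1 : Nat.card (⊥ : Subgroup T0) = Nat.card (⊤ : Subgroup T0) := by rw [hc']
    rw [Subgroup.card_bot, Subgroup.card_top, H8Ru.card_T0] at h1
    norm_num at h1
  · exact h

theorem rg_index {p : ℕ} (hp : p.Prime) : ¬ p ∣ (commutator t0L.range).index := by
  rw [rg_perfect, Subgroup.index_top]
  exact fun h => hp.one_lt.ne' (Nat.dvd_one.1 h)

end Cfsg.Agent.Lib.H8RuM
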