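import Cfsg.Agent.Lib.H8RuME

/-!
helper8: the kernel of a stem extension of the Rudvalis group has order at most 2.
-/
set_option autoImplicit false
set_option maxRecDepth 100000
set_option maxHeartbeats 400000

namespace Cfsg.Agent.Lib.H8RuM

open Cfsg Cfsg.Spor Cfsg.Agent.Lib.H58SM Cfsg.Agent.Lib.H13EC Cfsg.Agent.Lib.SchurSylow
open Cfsg.Agent.Lib.H8Ru (HL t0L)

theorem HL_fin : Finite HL := Nat.finite_of_card_ne_zero (by rw [H8Ru.card_HL]; norm_num)

theorem two : PStemDvd 2 HL 2 := by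
  have : Fact (Nat.Prime 2) := ⟨by norm_num⟩
  have := HL_fin
  have hs := stabR
  refine pStemDvd_of_checks (s := 2) (q := 2) (N := 2) X2.Q.toDat actR gh_gen ?_ ?_
    X2.w_ok ?_ X2.nr X2.nr_ok X2.zl_ok rfl rfl (by decide) X2.chk_ok X2.gen_ok X2.par_ok (by decide) rfl
  · rw [hs]; exact rg_p 2
  · rw [hs]; exact rg_index (by norm_num)
  · intro j hj
    exact ckR_one (alln_iff.1 rX2 j hj)

theorem five : PStemDvd 5 HL 1 := by
  have : Fact (Nat.Prime 5) := ⟨by norm_num⟩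
  have := HL_fin
  have hs := stabR
  refine pStemDvd_of_checks (s := 1) (q := 1) (N := 1) X5.Q.toDat actR5 gh_gen ?_ ?_
    X5.w_ok ?_ X5.nr X5.nr_ok X5.zl_ok rfl rfl (by decide) X5.chk_ok X5.gen_ok X5.par_ok (by intro r hr; cases hr) rfl
  · rw [hs]; exact rg_p 5
  · rw [hs]; exact rg_index (by norm_num)
  · intro j hj
    have h : X5.Q.toDat.W j = X2.WL.getD j [] := by
      rw [← eqX5]; rfl
    rw [h]
    exact ckR_one (alln_iff.1 rX2 j hj)

theorem three : PStemDvd 3 HL 1 := by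
  have : Fact (Nat.Prime 3) := ⟨by norm_num⟩
  have := HL_fin
  exact PStemDvd.of_index (H := t0L.range) (by rw [index_rg]; norm_num) (rg_p 3)

theorem HL_stem : StemDvd HL 2 := by
  apply StemDvd.of_forall
  intro p hp
  have : Fact p.Prime := ⟨hp⟩
  have := HL_fin
  by_cases h2 : p = 2
  · subst h2; exact two
  by_cases h3 : p = 3
  · subst h3; exact three.mono (one_dvd _)
  by_cases h5 : p = 5
  · subst h5; exact five.mono (one_dvd _)
  refine PStemDvd.mono ?_ (one_dvd 2)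
  apply Cfsg.Agent.Lib.H92Stem.pStemDvd_of_sq
  rw [H8Ru.card_HL]
  intro hd
  have c2 : Nat.Coprime p 2 := (Nat.coprime_primes hp (by norm_num)).2 h2
  have c3 : Nat.Coprime p 3 := (Nat.coprime_primes hp (by norm_num)).2 h3
  have c5 : Nat.Coprime p 5 := (Nat.coprime_primes hp (by norm_num)).2 h5
  have h6 : Nat.Coprime (p ^ 2) (2 ^ 14 * 3 ^ 3 * 5 ^ 3) := by
    apply Nat.Coprime.pow_left
    exact Nat.Coprime.mul_right (Nat.Coprime.mul_right (c2.pow_right _) (c3.pow_right _)) (c5.pow_right _)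
  have h7 : p ^ 2 ∣ 7 * 13 * 29 := by
    apply h6.dvd_of_dvd_mul_left
    rw [show 2 ^ 14 * 3 ^ 3 * 5 ^ 3 * (7 * 13 * 29) = 145926144000 by norm_num]; exact hd
  have h8 : p ∣ 7 * 13 * 29 := (dvd_pow_self p two_ne_zero).trans h7
  have h9 : p = 7 ∨ p = 13 ∨ p = 29 := by
    rw [hp.dvd_mul, hp.dvd_mul] at h8
    rcases h8 with (h | h) | h
    · exact Or.inl ((Nat.prime_dvd_prime_iff_eq hp (by norm_num)).1 h)
    · exact Or.inr (Or.inl ((Nat.prime_dvd_prime_iff_eq hp (by norm_num)).1 h))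
    · exact Or.inr (Or.inr ((Nat.prime_dvd_prime_iff_eq hp (by norm_num)).1 h))
  rcases h9 with rfl | rfl | rfl <;> revert h7 <;> norm_num

end Cfsg.Agent.Lib.H8RuM
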