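import Cfsg.Agent.Lib.H8RuMF
import Cfsg.Agent.Lib.CovC
import Cfsg.Agent.Lib.H8RuExt

/-!
helper8: the multiplier of the Rudvalis group has order 2.
-/
set_option autoImplicit false
set_option maxRecDepth 100000
set_option maxHeartbeats 400000

namespace Cfsg.Agent.Lib.H8RuM

open Cfsg Cfsg.Spor Cfsg.Agent.Lib.H58SM Cfsg.Agent.Lib.SchurSylow
open Cfsg.Agent.Lib.H8Ru (Om GR St wN wd bl bp allLt allLt_iff an an_mul an_wd an_val wd_append wd_mem
  rot rot_def io iG toL HL)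

/-- two words whose values commute up to `-1` -/
def aw : List ℕ := [0, 2, 0, 3, 0, 2, 0, 3, 0, 2, 0, 3, 0, 2, 0, 3, 0, 2, 0, 3]
def dw : List ℕ := [0, 2, 0, 3, 0, 2, 0, 3, 0, 2, 0, 3, 0, 2, 0, 3, 0, 2, 0, 3, 2, 0, 2, 0, 3, 0, 2, 0, 3, 0, 2, 0, 3, 0, 2, 0, 3, 0, 2, 0, 3, 3, 0, 2, 0, 3, 0, 2, 0, 3, 0, 2, 0, 3, 0, 2, 0, 3, 0, 2, 0, 3, 2, 0, 2, 0, 3, 0, 2, 0, 3, 0, 2, 0, 3, 0, 2, 0, 3, 0, 2, 0, 3, 3, 0, 2, 0, 3, 0, 2, 0, 3, 0, 2, 0, 3, 0, 2, 0, 3, 0, 2, 0, 3, 2, 0, 2, 0, 3, 0, 2, 0, 3, 0, 2, 0, 3, 0, 2, 0, 3, 0, 2, 0, 3, 3, 0, 2, 0, 3, 0, 2, 0, 3, 0, 2, 0, 3, 0, 2, 0, 3, 0, 2, 0, 3, 2, 0, 2, 0, 3, 0, 2, 0, 3, 0, 2, 0, 3, 0, 2, 0, 3, 0, 2, 0, 3, 3, 0, 2, 0, 3, 0, 2, 0, 3, 0, 2, 0, 3, 0, 2, 0, 3, 0, 2, 0, 3, 2, 0, 2, 0, 3, 0, 2, 0, 3, 0, 2, 0, 3, 0, 2, 0, 3, 0, 2, 0, 3, 3]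

theorem anti_ok : allLt 28 (fun k => Nat.beq (wN (aw ++ dw) (Nat.mul 4 (bl k))) (rot (wN (dw ++ aw) (Nat.mul 4 (bl k))) 2)) = true := by
  decide +kernel

attribute [local irreducible] wN H8Ru.look GR

open scoped commutatorElement

theorem anti : wG aw * wG dw = iG ^ 2 * (wG dw * wG aw) := by
  apply eq_of_rot
  intro k hk
  have hb := H8Ru.bl_le hk
  have h1 : (wG aw * wG dw : GR).1 = wd (aw ++ dw) := (wd_append aw dw).symm
  have h2 : (wG dw * wG aw : GR).1 = wd (dw ++ aw) := (wd_append dw aw).symm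
  rw [h1, h2, an_wd _ (by omega), an_wd _ (by omega)]
  exact Nat.eq_of_beq_eq_true (allLt_iff.mp anti_ok k hk)

theorem iG2_mem : iG ^ 2 ∈ commutator GR := by
  have h : iG ^ 2 = ⁅wG aw, wG dw⁆ := by
    rw [commutatorElement_def, anti]
    group
  rw [h]
  exact Subgroup.commutator_mem_commutator (Subgroup.mem_top _) (Subgroup.mem_top _)

theorem HL_perfect : commutator HL = ⊤ := by
  have hs := H8Ru.HL_simple
  rcases hs.eq_bot_or_eq_top_of_normal (commutator HL) inferInstance with h | h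
  · exfalso
    have hc : Subgroup.center HL = ⊤ := (commutator_eq_bot_iff_center_eq_top _).1 h
    rw [H8Ru.HL_center] at hc
    have h1 : Nat.card (⊥ : Subgroup HL) = Nat.card (⊤ : Subgroup HL) := by rw [hc]
    rw [Subgroup.card_bot, Subgroup.card_top, H8Ru.card_HL] at h1
    norm_num at h1
  · exact h

/-- the double cover -/
abbrev DR : Subgroup GR := commutator GR

/-- the projection -/
def pL : GR →* HL := toL.rangeRestrict

theorem pL_surj : Function.Surjective pL := toL.rangeRestrict_surjective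

def sg : DR →* HL := pL.comp DR.subtype

theorem sg_surj : Function.Surjective sg := by
  rw [← MonoidHom.range_eq_top]
  have h1 : sg.range = DR.map pL := by
    unfold sg
    rw [MonoidHom.range_comp, Subgroup.range_subtype]
  rw [h1]
  show (commutator GR).map pL = ⊤
  rw [commutator_def, Subgroup.map_commutator, ← MonoidHom.range_eq_map, MonoidHom.range_eq_top.2 pL_surj, ← commutator_def]
  exact HL_perfect

theorem mem_sg_ker {x : DR} : x ∈ sg.ker ↔ x.1 ∈ Subgroup.zpowers iG := by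
  rw [← H8Ru.ker_toL, MonoidHom.mem_ker, MonoidHom.mem_ker]
  constructor
  · intro h; exact congrArg Subtype.val h
  · intro h; exact Subtype.ext h

theorem iG_central (g : GR) {z : GR} (hz : z ∈ Subgroup.zpowers iG) : g * z = z * g := by
  obtain ⟨n, rfl⟩ := hz
  have h : Commute g iG := (H8Ru.iG_comm g).symm
  exact h.zpow_right n

/-- every element is an element of the derived subgroup times a central element -/
theorem exists_dz (g : GR) : ∃ d : DR, ∃ z ∈ Subgroup.zpowers iG, g = d.1 * z := by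
  obtain ⟨d, hd⟩ := sg_surj (pL g)
  refine ⟨d, d.1⁻¹ * g, ?_, by group⟩
  rw [← H8Ru.ker_toL, MonoidHom.mem_ker, map_mul, map_inv]
  have h : toL d.1 = toL g := congrArg Subtype.val hd
  rw [h, inv_mul_cancel]

theorem DR_perfect : commutator DR = ⊤ := by
  rw [eq_top_iff]
  have key : commutator GR ≤ (commutator DR).map DR.subtype := by
    rw [commutator_def, Subgroup.commutator_le]
    intro g _ h _
    obtain ⟨d, z, hz, rfl⟩ := exists_dz g
    obtain ⟨e, y, hy, rfl⟩ := exists_dz h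
    refine ⟨⁅d, e⁆, Subgroup.commutator_mem_commutator (Subgroup.mem_top _) (Subgroup.mem_top _), ?_⟩
    rw [map_commutatorElement, commutatorElement_def, commutatorElement_def]
    show d.1 * e.1 * d.1⁻¹ * e.1⁻¹ = d.1 * z * (e.1 * y) * (d.1 * z)⁻¹ * (e.1 * y)⁻¹
    rw [mul_inv_rev, mul_inv_rev]
    have c1 := fun g => iG_central g hz
    have c2 := fun g => iG_central g hy
    have e1 : d.1 * z * (e.1 * y) = (d.1 * e.1) * (z * y) := by
      rw [← mul_assoc, mul_assoc d.1 z e.1, ← c1, ← mul_assoc, mul_assoc]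
    have e2 : d.1 * z * (e.1 * y) * (z⁻¹ * d.1⁻¹) * (y⁻¹ * e.1⁻¹) = (d.1 * e.1) * (z * y) * (z⁻¹ * d.1⁻¹) * (y⁻¹ * e.1⁻¹) := by
      rw [e1]
    rw [e2]
    have e3 : (d.1 * e.1) * (z * y) * (z⁻¹ * d.1⁻¹) * (y⁻¹ * e.1⁻¹) = (d.1 * e.1) * (z * (y * z⁻¹)) * d.1⁻¹ * (y⁻¹ * e.1⁻¹) := by
      group
    rw [e3, ← c2 z⁻¹]
    have e4 : (d.1 * e.1) * (z * (z⁻¹ * y)) * d.1⁻¹ * (y⁻¹ * e.1⁻¹) = d.1 * e.1 * (y * d.1⁻¹) * (y⁻¹ * e.1⁻¹) := by
      group
    rw [e4, ← c2 d.1⁻¹]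
    group
  intro x _
  obtain ⟨y, hy, e⟩ := key x.2
  have : y = x := Subtype.ext e
  rwa [← this]

theorem sg_stem : IsStemExtension sg := by
  refine ⟨sg_surj, ?_, ?_⟩
  · intro x hx
    rw [Subgroup.mem_center_iff]
    intro y
    apply Subtype.ext
    exact iG_central y.1 (mem_sg_ker.1 hx)
  · rw [DR_perfect]; exact le_top

theorem iG2_ne : iG ^ 2 ≠ 1 := by
  intro h
  have h1 := orderOf_dvd_of_pow_eq_one h
  rw [H8Ru.order_iG] at h1
  exact absurd h1 (by norm_num)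

theorem DR_fin : Finite DR := by
  have : Finite GR := Nat.finite_of_card_ne_zero (by rw [H8Ru.card_GR]; norm_num)
  infer_instance

theorem card_ker : Nat.card sg.ker = 2 := by
  have := DR_fin
  have h1 : Nat.card sg.ker ∣ 2 := HL_stem DR sg sg_stem
  rcases (Nat.dvd_prime Nat.prime_two).1 h1 with h | h
  · exfalso
    have h2 := Subgroup.card_eq_one.1 h
    have h3 : (⟨iG ^ 2, iG2_mem⟩ : DR) ∈ sg.ker := mem_sg_ker.2 (Subgroup.pow_mem _ (Subgroup.mem_zpowers _) 2)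
    rw [h2, Subgroup.mem_bot] at h3
    exact iG2_ne (congrArg Subtype.val h3)
  · exact h

theorem ker_iso : Nonempty (sg.ker ≃* Multiplicative (ZMod 2)) := by
  have h1 := card_ker
  haveI : Fact (Nat.Prime 2) := ⟨by norm_num⟩
  haveI : IsCyclic sg.ker := isCyclic_of_prime_card h1
  haveI : IsCyclic (Multiplicative (ZMod 2)) := inferInstance
  exact ⟨mulEquivOfCyclicCardEq (by rw [h1]; exact (Nat.card_zmod 2).symm)⟩

theorem HL_schur : HasSchurMultiplier HL (Multiplicative (ZMod 2)) := by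
  have := HL_fin
  have := DR_fin
  obtain ⟨e⟩ := ker_iso
  have h2 : Nat.card (Multiplicative (ZMod 2)) = 2 := Nat.card_zmod 2
  have : Finite (Multiplicative (ZMod 2)) := Nat.finite_of_card_ne_zero (by rw [h2]; norm_num)
  apply Cov.hasSchur_of
  · rw [h2]; exact HL_stem
  · exact Cov.IsQuot.of_stem sg sg_stem e

end Cfsg.Agent.Lib.H8RuM
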