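import Cfsg.Agent.Lib.LeechCen11
import Cfsg.Agent.Lib.LargeExtra7

/-!
# Sections of the automorphism group of the Leech lattice with a large extraspecial subgroup (helper8)
-/

set_option autoImplicit false
set_option maxHeartbeats 400000

namespace Cfsg.Agent.Lib.H8Sec

open Cfsg Cfsg.Agent.Lib.Golay Cfsg.Agent.Lib.LeechMin Cfsg.Agent.Lib.GolayCoset Cfsg.Agent.Lib.LeechXi
  Cfsg.Agent.Lib.LeechTrans Cfsg.Agent.Lib.LeechCo2 Cfsg.Agent.Lib.LeechFrame Cfsg.Agent.Lib.LeechCount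
  Cfsg.Agent.Lib.LeechOrder Cfsg.Agent.Lib.LeechMod Cfsg.Agent.Lib.LeechQuot Cfsg.Agent.Lib.LeechChain
  Cfsg.Agent.Lib.LeechSyl Cfsg.Agent.Lib.LargeExtra
open Subgroup

section simple
variable {G : Type*} [Group G] [Finite G]

/-- a criterion for simplicity -/
theorem simple_of_large {Q : Subgroup G} {z : G} (h : PreLarge Q z) (hcard : 8 < Nat.card Q) {g : G}
    (hs : g * z * g⁻¹ ∈ Q) (hne : g * z * g⁻¹ ≠ z)
    (hgen : ∀ N : Subgroup G, N.Normal → g * z * g⁻¹ ∈ N → Q ≤ N)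
    (hsimp : ∀ N : Subgroup G, N.Normal → Q ≤ N → (∀ x ∈ N, x * z = z * x → x ∈ Q) ∨ (∀ x, x * z = z * x → x ∈ N)) :
    IsSimpleGroup G := by
  have hs1 : g * z * g⁻¹ ≠ 1 := by
    intro h1
    rw [mul_inv_eq_one, mul_eq_left] at h1
    exact h.ne h1
  obtain ⟨x, hx, y, hy, hxs, hys, hxy⟩ := h.exists_nonab_centralizer hcard hs hs1 hne
  have hz1 := h.mem_conj hs hne ⟨x, hx, y, hy, hxs, hys, hxy⟩
  haveI : Nontrivial G := ⟨⟨z, 1, h.ne⟩⟩
  refine ⟨fun N hN => ?_⟩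
  by_cases hz : z ∈ N
  · right
    have hsN : g * z * g⁻¹ ∈ N := hN.conj_mem z hz g
    have hQN := hgen N hN hsN
    rcases hsimp N hN hQN with h1 | h1
    · exfalso
      have key : ∀ c ∈ Q, c * (g * z * g⁻¹) = (g * z * g⁻¹) * c → g⁻¹ * c * g ∈ Q := by
        intro c hc hcs
        apply h1
        · have := hN.conj_mem c (hQN hc) g⁻¹
          rwa [inv_inv] at this
        · have h2 : g⁻¹ * (c * (g * z * g⁻¹)) * g = g⁻¹ * ((g * z * g⁻¹) * c) * g := by rw [hcs]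
          have h3 : g⁻¹ * (c * (g * z * g⁻¹)) * g = g⁻¹ * c * g * z := by group
          have h4 : g⁻¹ * ((g * z * g⁻¹) * c) * g = z * (g⁻¹ * c * g) := by group
          rw [h3, h4] at h2
          exact h2
      have h2 := h.comm _ (key x hx hxs) _ (key y hy hys)
      have h3 := (h.comm x hx y hy).resolve_left hxy
      rcases h2 with h2 | h2
      · apply hxy
        have h4 : g * (g⁻¹ * x * g * (g⁻¹ * y * g)) * g⁻¹ = g * (g⁻¹ * y * g * (g⁻¹ * x * g)) * g⁻¹ := by rw [h2]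
        have h5 : g * (g⁻¹ * x * g * (g⁻¹ * y * g)) * g⁻¹ = x * y := by group
        have h6 : g * (g⁻¹ * y * g * (g⁻¹ * x * g)) * g⁻¹ = y * x := by group
        rwa [h5, h6] at h4
      · apply hne
        have h4 : g * (g⁻¹ * x * g * (g⁻¹ * y * g)) * g⁻¹ = g * (z * (g⁻¹ * y * g * (g⁻¹ * x * g))) * g⁻¹ := by rw [h2]
        have h5 : g * (g⁻¹ * x * g * (g⁻¹ * y * g)) * g⁻¹ = x * y := by group
        have h6 : g * (z * (g⁻¹ * y * g * (g⁻¹ * x * g))) * g⁻¹ = g * z * g⁻¹ * (y * x) := by group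
        rw [h5, h6, h3] at h4
        exact (mul_right_cancel h4).symm
    · have h2 := h.normal_sup N hQN
      rw [eq_top_iff, ← h2]
      refine sup_le le_rfl ?_
      intro c hc
      exact h1 c (Subgroup.mem_centralizer_singleton_iff.1 hc)
  · left
    exact h.normal_eq_bot (fun K hK hQK => h.odd_eq_bot (h.conj g) hs hne hz1 hK
      (fun q hq k hk => conj_mem_of_le_normalizer (hQK hq) hk)) hN hz

/-- counting fixed points of an element of prime order -/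
theorem fix_mod {p : ℕ} [Fact p.Prime] {a : G} (ha : a ^ p = 1) {T : Set G}
    (hT : ∀ t ∈ T, a * t * a⁻¹ ∈ T) : Nat.card T ≡ Nat.card {t : G | t ∈ T ∧ a * t = t * a} [MOD p] := by
  have hpow : ∀ (n : ℕ), ∀ t ∈ T, a ^ n * t * (a ^ n)⁻¹ ∈ T := by
    intro n
    induction n with
    | zero => intro t ht; simpa using ht
    | succ n ih =>
      intro t ht
      have h1 := hT _ (ih t ht)
      have h2 : a * (a ^ n * t * (a ^ n)⁻¹) * a⁻¹ = a ^ (n + 1) * t * (a ^ (n + 1))⁻¹ := by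
        rw [pow_succ']; group
      rwa [h2] at h1
  have hz : ∀ x ∈ zpowers a, ∀ t ∈ T, x * t * x⁻¹ ∈ T := by
    intro x hx t ht
    rw [← mem_powers_iff_mem_zpowers] at hx
    obtain ⟨n, rfl⟩ := hx
    exact hpow n t ht
  letI act : MulAction (zpowers a) T :=
    { smul := fun x t => ⟨x.1 * t.1 * x.1⁻¹, hz x.1 x.2 t.1 t.2⟩
      one_smul := fun t => Subtype.ext (by
        show (1 : G) * t.1 * (1 : G)⁻¹ = t.1
        simp)
      mul_smul := fun x y t => Subtype.ext (by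
        show (x.1 * y.1) * t.1 * (x.1 * y.1)⁻¹ = x.1 * (y.1 * t.1 * y.1⁻¹) * x.1⁻¹
        group) }
  have hP : IsPGroup p (zpowers a) := by
    rintro ⟨_, i, rfl⟩
    refine ⟨1, Subtype.ext ?_⟩
    show (a ^ i) ^ (p ^ 1) = 1
    rw [pow_one, ← zpow_natCast, ← zpow_mul, mul_comm, zpow_mul, zpow_natCast, ha, one_zpow]
  have h1 := hP.card_modEq_card_fixedPoints T
  have h2 : Nat.card (MulAction.fixedPoints (zpowers a) T) = Nat.card {t : G | t ∈ T ∧ a * t = t * a} := by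
    apply Nat.card_congr
    refine ⟨fun t => ⟨t.1.1, t.1.2, ?_⟩, fun t => ⟨⟨t.1, t.2.1⟩, ?_⟩, fun t => rfl, fun t => rfl⟩
    · have h3 := t.2 ⟨a, mem_zpowers a⟩
      have h4 : a * t.1.1 * a⁻¹ = t.1.1 := congrArg Subtype.val h3
      rwa [mul_inv_eq_iff_eq_mul] at h4
    · rintro ⟨_, i, rfl⟩
      apply Subtype.ext
      show a ^ i * t.1 * (a ^ i)⁻¹ = t.1
      have h5 : Commute a t.1 := t.2.2
      rw [mul_inv_eq_iff_eq_mul]
      exact h5.zpow_left i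
  rw [← h2]
  exact h1

end simple

/-! ### the section -/

variable (a : Co0)

abbrev AA : Subgroup Co0 := Subgroup.zpowers a
abbrev MA : Subgroup Co0 := Subgroup.centralizer (AA a : Set Co0)
abbrev KA : Subgroup (MA a) := (AA a ⊔ Subgroup.center Co0).subgroupOf (MA a)

variable {a}

theorem mem_MA {g : Co0} : g ∈ MA a ↔ g * a = a * g := by
  rw [Subgroup.mem_centralizer_iff]
  constructor
  · intro h; exact (h a (Subgroup.mem_zpowers a)).symm
  · rintro h _ ⟨i, rfl⟩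
    have h1 : Commute g a := h
    exact (h1.zpow_right i).symm

theorem MA_zpow {g : Co0} (hg : g ∈ MA a) (i : ℤ) : g * a ^ i = a ^ i * g := by
  have h1 : Commute g a := mem_MA.1 hg
  exact h1.zpow_right i

theorem mem_AZ {x : Co0} : x ∈ AA a ⊔ Subgroup.center Co0 ↔ ∃ i : ℤ, x = a ^ i ∨ x = negOne * a ^ i := by
  rw [Subgroup.mem_sup_of_normal_right]
  constructor
  · rintro ⟨_, ⟨i, rfl⟩, z, hz, rfl⟩
    rcases center_eq hz with rfl | rfl
    · exact ⟨i, Or.inl (mul_one _)⟩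
    · exact ⟨i, Or.inr (negOne_comm _)⟩
  · rintro ⟨i, rfl | rfl⟩
    · exact ⟨_, ⟨i, rfl⟩, 1, one_mem _, mul_one _⟩
    · exact ⟨_, ⟨i, rfl⟩, negOne, negOne_mem_center, negOne_comm _⟩

instance KA_normal : (KA a).Normal := by
  constructor
  intro n hn g
  have : g * n * g⁻¹ = n := by
    rw [mul_inv_eq_iff_eq_mul]
    apply Subtype.ext
    show (g : Co0) * (n : Co0) = (n : Co0) * (g : Co0)
    obtain ⟨i, h | h⟩ := mem_AZ.1 (mem_subgroupOf.1 hn)
    · rw [h]; exact MA_zpow g.2 i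
    · rw [h, ← mul_assoc, negOne_comm, mul_assoc, MA_zpow g.2 i, mul_assoc]
  rwa [this]

variable (a)

/-- the section -/
abbrev SS : Type := MA a ⧸ KA a

noncomputable def mkS : MA a →* SS a := QuotientGroup.mk' (KA a)

variable {a}

theorem mkS_surj : Function.Surjective (mkS a) := QuotientGroup.mk'_surjective _

theorem mkS_eq {g h : MA a} : mkS a g = mkS a h ↔ ∃ i : ℤ, (h : Co0) = g * a ^ i ∨ (h : Co0) = negOne * (g * a ^ i) := by
  have h0 : mkS a g = mkS a h ↔ g⁻¹ * h ∈ KA a := QuotientGroup.eq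
  rw [h0, mem_subgroupOf, mem_AZ]
  have e : ((g⁻¹ * h : MA a) : Co0) = (g : Co0)⁻¹ * (h : Co0) := rfl
  rw [e]
  constructor
  · rintro ⟨i, h1 | h1⟩
    · exact ⟨i, Or.inl (inv_mul_eq_iff_eq_mul.1 h1)⟩
    · refine ⟨i, Or.inr ?_⟩
      rw [inv_mul_eq_iff_eq_mul.1 h1, ← mul_assoc, negOne_comm, mul_assoc]
  · rintro ⟨i, h1 | h1⟩
    · exact ⟨i, Or.inl (inv_mul_eq_iff_eq_mul.2 h1)⟩
    · refine ⟨i, Or.inr (inv_mul_eq_iff_eq_mul.2 ?_)⟩
      rw [h1, ← mul_assoc, ← mul_assoc, negOne_comm]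

/-- the data -/
structure Dat (a : Co0) (p : ℕ) : Prop where
  pr : p.Prime
  odd : p ≠ 2
  ord : orderOf a = p
  com : a * zz = zz * a

namespace Dat

variable {p : ℕ} (d : Dat a p)
include d

theorem pow_p (i : ℤ) : (a ^ i) ^ p = 1 := by
  rw [← zpow_natCast, ← zpow_mul, mul_comm, zpow_mul, zpow_natCast, ← d.ord, pow_orderOf_eq_one, one_zpow]

theorem eq_one {i : ℤ} {k : ℕ} (h : (a ^ i) ^ (2 ^ k) = 1) : a ^ i = 1 := by
  have h1 := orderOf_dvd_of_pow_eq_one h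
  have h2 := orderOf_dvd_of_pow_eq_one (d.pow_p i)
  have h3 : Nat.Coprime (2 ^ k) p := by
    apply Nat.Coprime.pow_left
    exact (Nat.coprime_primes Nat.prime_two d.pr).2 (Ne.symm d.odd)
  have h4 := Nat.eq_one_of_dvd_coprimes h3 h1 h2
  exact orderOf_eq_one_iff.1 h4

theorem q9_eq_one {i : ℤ} (h : a ^ i ∈ Q9) : a ^ i = 1 := by
  have h1 : (⟨a ^ i, h⟩ : Q9) ^ Nat.card Q9 = 1 := pow_card_eq_one'
  have h2 : (a ^ i) ^ Nat.card Q9 = 1 := congrArg Subtype.val h1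
  rw [card_Q9] at h2
  exact d.eq_one h2

theorem odd_p : Odd p := d.pr.odd_of_ne_two d.odd

theorem neg_notin {i : ℤ} : negOne * a ^ i ∉ Q9 := by
  intro h
  have h1 : (negOne * a ^ i) ^ p ∈ Q9 := pow_mem h p
  have h2 : Commute negOne (a ^ i) := (negOne_comm (a ^ i)).symm
  rw [h2.mul_pow, d.pow_p, mul_one] at h1
  obtain ⟨k, hk⟩ := d.odd_p
  rw [hk, pow_succ, pow_mul, pow_two, negOne_sq, one_pow, one_mul] at h1
  apply negOne_notin_Q9 (one_mem Q9)
  rwa [mul_one]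

theorem sep {q q' : Co0} (hq : q ∈ Q9) (hq' : q' ∈ Q9) {i : ℤ} (h : q' = q * a ^ i) : q' = q := by
  have h1 : a ^ i ∈ Q9 := by
    have : a ^ i = q⁻¹ * q' := by rw [h, inv_mul_cancel_left]
    rw [this]; exact mul_mem (inv_mem hq) hq'
  rw [h, d.q9_eq_one h1, mul_one]

theorem sep' {q q' : Co0} (hq : q ∈ Q9) (hq' : q' ∈ Q9) {i : ℤ} (h : q' = negOne * (q * a ^ i)) : False := by
  apply d.neg_notin (i := i)
  have : negOne * a ^ i = q⁻¹ * q' := by
    rw [h, ← mul_assoc q⁻¹, negOne_comm, mul_assoc, inv_mul_cancel_left]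
  rw [this]; exact mul_mem (inv_mem hq) hq'

theorem zz_MA : zz ∈ MA a := mem_MA.2 d.com.symm

end Dat

/-- the centralizer of the involution in the centralizer of `a` -/
abbrev NN (a : Co0) : Subgroup Co0 := MA a ⊓ D8
/-- the extraspecial group -/
abbrev QA (a : Co0) : Subgroup Co0 := Q9 ⊓ MA a

theorem QA_le : QA a ≤ NN a := fun _ h => ⟨h.2, Q9_D8 h.1⟩

namespace Dat

variable {p : ℕ} (d : Dat a p)

theorem zz_QA (d : Dat a p) : zz ∈ QA a := ⟨zz_Q9, d.zz_MA⟩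

/-- the involution of the section -/
noncomputable def zS (d : Dat a p) : SS a := mkS a ⟨zz, d.zz_MA⟩

theorem mem_D8_of {g : MA a} (h : mkS a g * d.zS = d.zS * mkS a g) : (g : Co0) ∈ D8 := by
  have h1 : mkS a (⟨zz, d.zz_MA⟩ * g) = mkS a (g * ⟨zz, d.zz_MA⟩) := by
    rw [map_mul, map_mul]; exact h.symm
  obtain ⟨i, h2⟩ := mkS_eq.1 h1
  have e1 : ((g * ⟨zz, d.zz_MA⟩ : MA a) : Co0) = g * zz := rfl
  have e2 : ((⟨zz, d.zz_MA⟩ * g : MA a) : Co0) = zz * g := rfl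
  rw [e1, e2] at h2
  have hg : (g : Co0) * a ^ i = a ^ i * g := MA_zpow g.2 i
  have hz : zz * a ^ i = a ^ i * zz := MA_zpow d.zz_MA i
  have key : a ^ i * a ^ i = 1 := by
    rcases h2 with h2 | h2
    · have h3 : (g : Co0) * zz * zz = zz * g * a ^ i * zz := by rw [h2]
      rw [mul_assoc (g : Co0), zz_sq, mul_one, mul_assoc (zz * (g : Co0)), ← hz, ← mul_assoc (zz * (g : Co0)),
        mul_assoc zz (g : Co0) zz, h2, ← mul_assoc, ← mul_assoc, zz_sq, one_mul, mul_assoc] at h3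
      exact (left_eq_mul.1 h3)
    · have h3 : (g : Co0) * zz * zz = negOne * (zz * g * a ^ i) * zz := by rw [h2]
      rw [mul_assoc (g : Co0), zz_sq, mul_one, mul_assoc negOne, mul_assoc (zz * (g : Co0)), ← hz,
        ← mul_assoc (zz * (g : Co0)), mul_assoc zz (g : Co0) zz, h2, ← mul_assoc zz negOne, negOne_comm zz,
        mul_assoc negOne zz, ← mul_assoc zz, ← mul_assoc zz, zz_sq, one_mul, mul_assoc negOne, ← mul_assoc negOne negOne,
        negOne_sq, one_mul, mul_assoc] at h3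
      exact (left_eq_mul.1 h3)
  have h5 : a ^ i = 1 := by
    apply d.eq_one (k := 1)
    rw [pow_one, pow_two]; exact key
  rw [h5, mul_one] at h2
  rcases h2 with h2 | h2
  · exact mem_D8.2 h2
  · exact absurd h2 (zz_not_neg g)

/-- the centralizer of the involution in the section -/
noncomputable abbrev CS (d : Dat a p) : Subgroup (SS a) := Subgroup.centralizer ({d.zS} : Set (SS a))

theorem mkS_mem_CS {g : Co0} (hg : g ∈ NN a) : mkS a ⟨g, hg.1⟩ ∈ d.CS := by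
  rw [Subgroup.mem_centralizer_singleton_iff]
  show mkS a _ * mkS a _ = mkS a _ * mkS a _
  rw [← map_mul, ← map_mul]
  congr 1
  exact Subtype.ext (mem_D8.1 hg.2)

noncomputable def piC (d : Dat a p) : NN a →* d.CS where
  toFun g := ⟨mkS a ⟨g.1, g.2.1⟩, d.mkS_mem_CS g.2⟩
  map_one' := Subtype.ext (map_one (mkS a))
  map_mul' g h := Subtype.ext (map_mul (mkS a) ⟨g.1, g.2.1⟩ ⟨h.1, h.2.1⟩)

theorem piC_coe (g : NN a) : (d.piC g : SS a) = mkS a ⟨g.1, g.2.1⟩ := rfl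

theorem piC_surj : Function.Surjective d.piC := by
  rintro ⟨c, hc⟩
  obtain ⟨g, rfl⟩ := mkS_surj c
  have h1 := d.mem_D8_of (Subgroup.mem_centralizer_singleton_iff.1 hc)
  exact ⟨⟨g.1, g.2, h1⟩, rfl⟩

theorem piC_eq {g h : NN a} : d.piC g = d.piC h ↔ ∃ i : ℤ, (h : Co0) = g * a ^ i ∨ (h : Co0) = negOne * (g * a ^ i) := by
  have h1 := @mkS_eq a ⟨g.1, g.2.1⟩ ⟨h.1, h.2.1⟩
  rw [← h1]
  constructor
  · intro h; exact congrArg Subtype.val h
  · intro h; exact Subtype.ext h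

/-- the extraspecial subgroup of the centralizer -/
noncomputable def QC (d : Dat a p) : Subgroup d.CS := ((QA a).subgroupOf (NN a)).map d.piC

theorem mem_QC {c : d.CS} : c ∈ d.QC ↔ ∃ (q : Co0) (hq : q ∈ QA a), c = d.piC ⟨q, QA_le hq⟩ := by
  constructor
  · rintro ⟨q, hq, rfl⟩
    exact ⟨q.1, hq, rfl⟩
  · rintro ⟨q, hq, rfl⟩
    exact ⟨_, hq, rfl⟩

noncomputable def fQ (d : Dat a p) : QA a →* d.QC where
  toFun q := ⟨d.piC ⟨q.1, QA_le q.2⟩, d.mem_QC.2 ⟨q.1, q.2, rfl⟩⟩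
  map_one' := Subtype.ext (map_one d.piC)
  map_mul' x y := Subtype.ext (map_mul d.piC ⟨x.1, QA_le x.2⟩ ⟨y.1, QA_le y.2⟩)

theorem q_inj {q q' : Co0} (hq : q ∈ QA a) (hq' : q' ∈ QA a) (h : d.piC ⟨q, QA_le hq⟩ = d.piC ⟨q', QA_le hq'⟩) : q = q' := by
  obtain ⟨i, h1 | h1⟩ := d.piC_eq.1 h
  · exact (d.sep hq.1 hq'.1 h1).symm
  · exact (d.sep' hq.1 hq'.1 h1).elim

theorem fQ_bij : Function.Bijective d.fQ := by
  constructor
  · intro q q' h
    apply Subtype.ext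
    exact d.q_inj q.2 q'.2 (congrArg Subtype.val h)
  · rintro ⟨c, hc⟩
    obtain ⟨q, hq, rfl⟩ := d.mem_QC.1 hc
    exact ⟨⟨q, hq⟩, rfl⟩

noncomputable def eQ (d : Dat a p) : QA a ≃* d.QC := MulEquiv.ofBijective d.fQ d.fQ_bij

theorem NN_conj {g q : Co0} (hg : g ∈ NN a) (hq : q ∈ QA a) : g * q * g⁻¹ ∈ QA a :=
  ⟨D8_conj hg.2 hq.1, (MA a).mul_mem ((MA a).mul_mem hg.1 hq.2) ((MA a).inv_mem hg.1)⟩

theorem QC_normal : d.QC.Normal := by
  constructor
  intro n hn c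
  obtain ⟨q, hq, rfl⟩ := d.mem_QC.1 hn
  obtain ⟨g, rfl⟩ := d.piC_surj c
  rw [← map_inv, ← map_mul, ← map_mul]
  exact d.mem_QC.2 ⟨_, NN_conj g.2 hq, rfl⟩

theorem card_QA_pow : ∃ k, k ≤ 9 ∧ Nat.card (QA a) = 2 ^ k := by
  have h1 : Nat.card (QA a) ∣ 2 ^ 9 := by
    rw [← card_Q9]
    exact Subgroup.card_dvd_of_le inf_le_left
  obtain ⟨k, hk, h2⟩ := (Nat.dvd_prime_pow Nat.prime_two).1 h1
  exact ⟨k, hk, h2⟩

theorem card_QA_mod (d : Dat a p) : 2 ^ 9 ≡ Nat.card (QA a) [MOD p] := by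
  haveI : Fact p.Prime := ⟨d.pr⟩
  have h1 := fix_mod (p := p) (a := a) (by rw [← d.ord]; exact pow_orderOf_eq_one a) (T := (Q9 : Set Co0))
    (fun t ht => D8_conj (mem_D8.2 d.com) ht)
  have h2 : Nat.card (Q9 : Set Co0) = 2 ^ 9 := card_Q9
  have h3 : Nat.card {t : Co0 | t ∈ (Q9 : Set Co0) ∧ a * t = t * a} = Nat.card (QA a) := by
    apply Nat.card_congr
    refine Equiv.subtypeEquivRight fun t => ?_
    show (t ∈ Q9 ∧ a * t = t * a) ↔ (t ∈ Q9 ∧ t ∈ MA a)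
    rw [mem_MA]
    exact ⟨fun h => ⟨h.1, h.2.symm⟩, fun h => ⟨h.1, h.2.symm⟩⟩
  rw [h2, h3] at h1
  exact h1

theorem QA_ne (d : Dat a p) : Nat.card (QA a) ≠ 2 ^ 9 := by
  intro h
  have h1 : QA a = Q9 := by
    apply Subgroup.eq_of_le_of_card_ge inf_le_left
    rw [h, card_Q9]
  have h2 : ∀ q ∈ Q9, a * q = q * a := by
    intro q hq
    rw [← h1] at hq
    exact (mem_MA.1 hq.2).symm
  have h3 : a * a = 1 := by
    rcases cent_Q9 h2 with h | h | h | h
    · rw [h, one_mul]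
    · rw [h, negOne_sq]
    · rw [h, zz_sq]
    · rw [h, mul_assoc, ← mul_assoc zz, negOne_comm zz, mul_assoc, zz_sq, mul_one, negOne_sq]
  have h4 : a = 1 := by
    have := d.eq_one (i := 1) (k := 1) (by rw [zpow_one, pow_one, pow_two]; exact h3)
    rwa [zpow_one] at this
  have h5 := d.ord
  rw [h4, orderOf_one] at h5
  exact d.pr.one_lt.ne h5

/-- the centre of the fixed points is small -/
theorem QA_center (d : Dat a p) {x : Co0} (hx : x ∈ QA a) (hc : ∀ y ∈ QA a, x * y = y * x) : x = 1 ∨ x = zz := by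
  haveI : Fact p.Prime := ⟨d.pr⟩
  apply Q9_ex.center x hx.1
  by_contra hcon
  push Not at hcon
  obtain ⟨t, ht, htx⟩ := hcon
  set C : Subgroup Co0 := Q9 ⊓ Subgroup.centralizer {x} with hC
  have hmC : ∀ {y : Co0}, y ∈ C ↔ y ∈ Q9 ∧ y * x = x * y := by
    intro y
    rw [hC, Subgroup.mem_inf, Subgroup.mem_centralizer_singleton_iff]
  set T : Set Co0 := {y | y ∈ Q9 ∧ x * y ≠ y * x} with hT
  have hax : a * x = x * a := (mem_MA.1 hx.2).symm
  have h1 := fix_mod (p := p) (a := a) (by rw [← d.ord]; exact pow_orderOf_eq_one a) (T := T) (by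
    rintro y ⟨hy, hyx⟩
    refine ⟨D8_conj (mem_D8.2 d.com) hy, fun h => hyx ?_⟩
    have e1 : x * (a * y * a⁻¹) = a * (x * y) * a⁻¹ := by
      rw [← mul_assoc, ← mul_assoc, ← hax]; simp only [mul_assoc]
    have e2 : (a * y * a⁻¹) * x = a * (y * x) * a⁻¹ := by
      have : a⁻¹ * x = x * a⁻¹ := by
        rw [inv_mul_eq_iff_eq_mul, ← mul_assoc, hax, mul_inv_cancel_right]
      rw [mul_assoc, this]; simp only [mul_assoc]
    rw [e1, e2] at h
    exact mul_left_cancel (mul_right_cancel h))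
  have h2 : Nat.card {y : Co0 | y ∈ T ∧ a * y = y * a} = 0 := by
    haveI : IsEmpty {y : Co0 | y ∈ T ∧ a * y = y * a} := by
      refine ⟨fun y => ?_⟩
      exact y.2.1.2 (hc y.1 ⟨y.2.1.1, mem_MA.2 y.2.2.symm⟩)
    exact Nat.card_of_isEmpty
  rw [h2] at h1
  have h3 : Nat.card T = Nat.card C := by
    apply Nat.card_congr
    refine ⟨fun y => ⟨t⁻¹ * y.1, ?_⟩, fun y => ⟨t * y.1, ?_⟩, fun y => ?_, fun y => ?_⟩
    · have hy1 := (Q9_comm hx.1 y.2.1).resolve_left y.2.2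
      have ht1 := (Q9_comm hx.1 ht).resolve_left htx
      rw [hmC]
      refine ⟨mul_mem (inv_mem ht) y.2.1, ?_⟩
      -- x y = zz y x, x t = zz t x
      have e3 : t⁻¹ * x = zz * (x * t⁻¹) := by
        have : x = zz * (t * x * t⁻¹) := by
          have h5 : x * t * t⁻¹ = zz * (t * x) * t⁻¹ := by rw [ht1]
          rw [mul_inv_cancel_right] at h5
          exact h5.trans (by simp only [mul_assoc])
        have h6 : t⁻¹ * x = t⁻¹ * (zz * (t * x * t⁻¹)) := by rw [← this]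
        rw [h6, ← mul_assoc, Q9_zz (inv_mem ht)]
        simp only [mul_assoc, inv_mul_cancel_left]
      have e4 : y.1 * x = zz * (x * y.1) := by rw [hy1, ← mul_assoc, zz_sq, one_mul]
      have e5 : x * t⁻¹ = zz * (t⁻¹ * x) := by rw [e3, ← mul_assoc, zz_sq, one_mul]
      rw [mul_assoc, e4, ← mul_assoc, Q9_zz (inv_mem ht), mul_assoc, ← mul_assoc t⁻¹, ← mul_assoc, ← e5, mul_assoc]
    · obtain ⟨hy1, hy2⟩ := hmC.1 y.2
      refine ⟨mul_mem ht hy1, fun h => htx ?_⟩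
      rw [mul_assoc, hy2, ← mul_assoc, ← mul_assoc] at h
      exact mul_right_cancel h
    · apply Subtype.ext; simp
    · apply Subtype.ext; simp
  rw [h3] at h1
  have h4 : Nat.card C ∣ 2 ^ 9 := by
    rw [← card_Q9]
    exact Subgroup.card_dvd_of_le inf_le_left
  have h5 : p ∣ Nat.card C := (Nat.modEq_zero_iff_dvd).1 h1
  have h6 := d.pr.dvd_of_dvd_pow (h5.trans h4)
  exact d.odd ((Nat.prime_dvd_prime_iff_eq d.pr Nat.prime_two).1 h6)

theorem exA (d : Dat a p) {s : Co0} (hs : s ∈ QA a) (hs1 : s ≠ 1) (hsz : s ≠ zz) : ExData (QA a) zz := by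
  apply ExData.of
  · exact zz_sq
  · exact zz_ne
  · exact d.zz_QA
  · exact fun q hq => Q9_zz hq.1
  · exact fun x hx y hy => Q9_comm hx.1 hy.1
  · exact fun q hq h => d.QA_center hq h
  · by_contra hcon
    push Not at hcon
    rcases d.QA_center hs (fun y hy => hcon s hs y hy) with h | h
    · exact hs1 h
    · exact hsz h

end Dat

end Cfsg.Agent.Lib.H8Sec
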