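import Cfsg.Agent.Lib.H8Sec

/-!
# Counting fixed points of an element of order nine (helper8)
-/

set_option autoImplicit false
set_option maxHeartbeats 400000

namespace Cfsg.Agent.Lib.H8Sec

open Subgroup

variable {G : Type*} [Group G] [Finite G]

/-- counting fixed points of the cube of an element of order nine -/
theorem fix_mod9 {y : G} (hy : y ^ 9 = 1) {T : Set G} (hT : ∀ t ∈ T, y * t * y⁻¹ ∈ T) :
    Nat.card T ≡ Nat.card {t : G | t ∈ T ∧ y ^ 3 * t = t * y ^ 3} [MOD 9] := by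
  classical
  set F : Set G := {t : G | t ∈ T ∧ y ^ 3 * t = t * y ^ 3} with hF
  set S : Set G := {t : G | t ∈ T ∧ y ^ 3 * t ≠ t * y ^ 3} with hS
  have hsum : Nat.card T = Nat.card F + Nat.card S := by
    have h1 : T = F ∪ S := by
      ext t
      simp only [hF, hS, Set.mem_union, Set.mem_setOf_eq]
      tauto
    have h2 : Disjoint F S := by
      rw [Set.disjoint_left]
      rintro t ⟨_, h⟩ ⟨_, h'⟩
      exact h' h
    rw [Nat.card_coe_set_eq, Nat.card_coe_set_eq, Nat.card_coe_set_eq]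
    conv_lhs => rw [h1]
    exact Set.ncard_union_eq h2 (Set.toFinite _) (Set.toFinite _)
  suffices h9 : 9 ∣ Nat.card S by
    obtain ⟨c, hc⟩ := h9
    rw [hsum, hc]
    unfold Nat.ModEq
    omega
  rcases isEmpty_or_nonempty S with he | ⟨⟨t0, ht0⟩⟩
  · rw [Nat.card_of_isEmpty]
    exact dvd_zero _
  have hy3 : y ^ 3 ≠ 1 := by
    intro h
    apply ht0.2
    rw [h, one_mul, mul_one]
  have hord : orderOf y = 9 := by
    have h1 : orderOf y ∣ 3 ^ 2 := orderOf_dvd_of_pow_eq_one (by rw [← hy]; norm_num)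
    obtain ⟨k, hk, h2⟩ := (Nat.dvd_prime_pow Nat.prime_three).1 h1
    interval_cases k
    · exfalso
      apply hy3
      have h3 : y = 1 := orderOf_eq_one_iff.1 (by simpa using h2)
      rw [h3, one_pow]
    · exfalso
      apply hy3
      rw [← orderOf_dvd_iff_pow_eq_one, h2]
      norm_num
    · simpa using h2
  have hSy : ∀ t ∈ S, y * t * y⁻¹ ∈ S := by
    rintro t ⟨ht, ht'⟩
    refine ⟨hT t ht, fun h => ht' ?_⟩
    have e1 : y ^ 3 * (y * t * y⁻¹) = y * (y ^ 3 * t) * y⁻¹ := by group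
    have e2 : y * t * y⁻¹ * y ^ 3 = y * (t * y ^ 3) * y⁻¹ := by group
    rw [e1, e2] at h
    exact mul_left_cancel (mul_right_cancel h)
  have hpow : ∀ (n : ℕ), ∀ t ∈ S, y ^ n * t * (y ^ n)⁻¹ ∈ S := by
    intro n
    induction n with
    | zero => intro t ht; simpa using ht
    | succ n ih =>
      intro t ht
      have h1 := hSy _ (ih t ht)
      have h2 : y * (y ^ n * t * (y ^ n)⁻¹) * y⁻¹ = y ^ (n + 1) * t * (y ^ (n + 1))⁻¹ := by
        rw [pow_succ']; group
      rwa [h2] at h1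
  have hz : ∀ x ∈ zpowers y, ∀ t ∈ S, x * t * x⁻¹ ∈ S := by
    intro x hx t ht
    rw [← mem_powers_iff_mem_zpowers] at hx
    obtain ⟨n, rfl⟩ := hx
    exact hpow n t ht
  letI act : MulAction (zpowers y) S :=
    { smul := fun x t => ⟨x.1 * t.1 * x.1⁻¹, hz x.1 x.2 t.1 t.2⟩
      one_smul := fun t => Subtype.ext (by
        show (1 : G) * t.1 * (1 : G)⁻¹ = t.1
        simp)
      mul_smul := fun x z t => Subtype.ext (by
        show (x.1 * z.1) * t.1 * (x.1 * z.1)⁻¹ = x.1 * (z.1 * t.1 * z.1⁻¹) * x.1⁻¹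
        group) }
  have hstab : ∀ t : S, MulAction.stabilizer (zpowers y) t = ⊥ := by
    intro t
    rw [eq_bot_iff]
    rintro ⟨x, hx⟩ hxt
    rw [Subgroup.mem_bot]
    have h1 : x * t.1 * x⁻¹ = t.1 := congrArg Subtype.val hxt
    have h2 : Commute x t.1 := mul_inv_eq_iff_eq_mul.1 h1
    rw [← mem_powers_iff_mem_zpowers] at hx
    obtain ⟨n, rfl⟩ := hx
    have h3 : y ^ n = y ^ (n % 9) := by rw [← hord, pow_mod_orderOf]
    have h2' : Commute (y ^ (n % 9)) t.1 := by rw [← h3]; exact h2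
    have h4 : n % 9 < 9 := Nat.mod_lt _ (by norm_num)
    apply Subtype.ext
    show y ^ n = 1
    rw [h3]
    have key : ∀ m k q : ℕ, m * k = 9 * q + 3 → Commute (y ^ m) t.1 → False := by
      intro m k q hm hc
      apply t.2.2
      have h5 : Commute ((y ^ m) ^ k) t.1 := hc.pow_left k
      rw [← pow_mul, hm, pow_add, pow_mul, hy, one_pow, one_mul] at h5
      exact h5
    revert h2'
    generalize n % 9 = m at h4 ⊢
    intro h2'
    interval_cases m
    · exact pow_zero y
    · exact (key 1 3 0 rfl h2').elim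
    · exact (key 2 6 1 rfl h2').elim
    · exact (key 3 1 0 rfl h2').elim
    · exact (key 4 3 1 rfl h2').elim
    · exact (key 5 6 3 rfl h2').elim
    · exact (key 6 2 1 rfl h2').elim
    · exact (key 7 3 2 rfl h2').elim
    · exact (key 8 6 5 rfl h2').elim
  have e := MulAction.selfEquivOrbitsQuotientProd hstab
  have h5 : Nat.card S = Nat.card (MulAction.orbitRel.Quotient (zpowers y) S) * Nat.card (zpowers y) := by
    rw [Nat.card_congr e, Nat.card_prod]
  rw [h5, Nat.card_zpowers, hord]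
  exact dvd_mul_left _ _

end Cfsg.Agent.Lib.H8Sec
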