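import Cfsg.Agent.Lib.H8Sec3D
import Cfsg.Agent.Lib.H8Sec3O
import Cfsg.Agent.Lib.H8SecF
import Cfsg.Agent.Lib.H8Om6

/-!
# The Suzuki section of `Co0` (helper8)
-/

set_option autoImplicit false
set_option maxHeartbeats 400000
set_option maxRecDepth 100000

namespace Cfsg.Agent.Lib.H8Sec3

open Cfsg Cfsg.Agent.Lib.Golay Cfsg.Agent.Lib.LeechMin Cfsg.Agent.Lib.GolayCoset Cfsg.Agent.Lib.LeechXi
  Cfsg.Agent.Lib.LeechTrans Cfsg.Agent.Lib.LeechCo2 Cfsg.Agent.Lib.LeechFrame Cfsg.Agent.Lib.LeechCount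
  Cfsg.Agent.Lib.LeechOrder Cfsg.Agent.Lib.LeechMod Cfsg.Agent.Lib.LeechQuot Cfsg.Agent.Lib.LeechChain
  Cfsg.Agent.Lib.LeechSyl Cfsg.Agent.Lib.LargeExtra Cfsg.Agent.Lib.H89LeechMat Cfsg.Agent.Lib.H8Sec
open Subgroup
open Cfsg.Agent.Lib.H8Sec3O (OO Omm ac ac_lt ac_mul ac_one ac_Y ac_T yO tO yO_mem tO_mem gen Y6 T6)

theorem w_pow3 : w ^ 3 = w * w * w := by
  simp only [pow_succ, pow_zero, one_mul]

theorem card_seven {X : Subgroup Co0} (hX : X ≤ QA a) (hinv : ∀ t ∈ X, w * t * w⁻¹ ∈ X) (hs : s ∈ X) (hz : zz ∈ X) :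
    Nat.card X = 2 ^ 7 := by
  obtain ⟨k, hk, h⟩ := (Dat.card_QA_pow : ∃ k, k ≤ 9 ∧ Nat.card (QA a) = 2 ^ k)
  have h1 := dat.card_QA_mod
  have h2 := dat.QA_ne
  rw [h] at h1 h2
  have hk7 : k ≤ 7 := by
    unfold Nat.ModEq at h1
    interval_cases k <;> simp_all
  have h3 : Nat.card X ∣ 2 ^ k := by rw [← h]; exact Subgroup.card_dvd_of_le hX
  obtain ⟨m, hm, h4⟩ := (Nat.dvd_prime_pow Nat.prime_two).1 h3
  set C : Subgroup Co0 := X ⊓ Subgroup.centralizer {w ^ 3} with hCd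
  have hmC : ∀ {y : Co0}, y ∈ C ↔ y ∈ X ∧ y * w ^ 3 = w ^ 3 * y := by
    intro y
    rw [hCd, Subgroup.mem_inf, Subgroup.mem_centralizer_singleton_iff]
  have h5 : Nat.card C ∣ 2 ^ m := by rw [← h4]; exact Subgroup.card_dvd_of_le inf_le_left
  obtain ⟨j, hj, h6⟩ := (Nat.dvd_prime_pow Nat.prime_two).1 h5
  have h7 := fix_mod9 w_pow (T := (X : Set Co0)) (fun t ht => hinv t ht)
  have e2 : Nat.card {t : Co0 | t ∈ (X : Set Co0) ∧ w ^ 3 * t = t * w ^ 3} = Nat.card C := by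
    apply Nat.card_congr
    refine Equiv.subtypeEquivRight fun t => ?_
    show (t ∈ X ∧ w ^ 3 * t = t * w ^ 3) ↔ t ∈ C
    rw [hmC]
    exact ⟨fun h => ⟨h.1, h.2.symm⟩, fun h => ⟨h.1, h.2.symm⟩⟩
  have e1 : Nat.card (X : Set Co0) = 2 ^ m := h4
  rw [e2, h6, e1] at h7
  have hwz : zz * w ^ 3 = w ^ 3 * zz := by
    have h8 : w * zz = zz * w := mem_D8.1 w_mem.2
    have h9 : Commute zz w := h8.symm
    exact h9.pow_right 3
  have hj0 : j ≠ 0 := by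
    intro h8
    rw [h8, pow_zero] at h6
    have h9 := Subgroup.card_eq_one.1 h6
    have h10 : zz ∈ C := hmC.2 ⟨hz, hwz⟩
    rw [h9, Subgroup.mem_bot] at h10
    exact zz_ne h10
  have hjm : j ≠ m := by
    intro h8
    have h9 : C = X := Subgroup.eq_of_le_of_card_ge inf_le_left (by rw [h6, h4, h8])
    have h10 : s ∈ C := by rw [h9]; exact hs
    have h11 := (hmC.1 h10).2
    rw [w_pow3] at h11
    exact w3s h11.symm
  have hm7 : m ≤ 7 := by omega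
  rw [h4]
  unfold Nat.ModEq at h7
  have hj7 : j < m := by omega
  clear hm hj h3 h4 h5 h6 h1 h2 h e1 hk
  interval_cases m <;> interval_cases j <;> simp_all

theorem card_QA : Nat.card (QA a) = 2 ^ 7 := card_seven le_rfl (fun t ht => Dat.NN_conj w_mem ht) s_QA dat.zz_QA

theorem card_quot : Nat.card (dat.CS ⧸ dat.QC) ≤ 25920 := by
  have h1 := dat.card_psi
  have h2 := card_NN_le
  rw [card_QA] at h1 h2
  omega

/-- irreducibility -/
theorem irr (X : Subgroup Co0) (hX : X ≤ QA a) (hinv : ∀ g ∈ NN a, ∀ t ∈ X, g * t * g⁻¹ ∈ X) (hs : s ∈ X) (hz : zz ∈ X) : QA a ≤ X := by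
  have h1 := card_seven hX (fun t ht => hinv w w_mem t ht) hs hz
  have h2 : X = QA a := Subgroup.eq_of_le_of_card_ge hX (by rw [h1, card_QA])
  rw [h2]

/-! ### the quotient -/

def P (v : D8) (σ : OO) : Prop :=
  ∀ j < 64, ∀ n < 256, Nat.testBit (BM.getD j 0) n = true → Nat.testBit (BM.getD (ac σ j) 0) (im v n) = true

theorem im_mul (v v' : D8) (n : ℕ) : im (v * v') n = im v (im v' n) := by
  unfold im
  rw [mp_mul, (n8_spec (mp8 v' (d8 n))).2]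

theorem P.mul {v v' : D8} {σ τ : OO} (h : P v σ) (h' : P v' τ) : P (v * v') (σ * τ) := by
  intro j hj n hn hjn
  rw [im_mul, ac_mul]
  exact h (ac τ j) (ac_lt _ _) _ (im_lt _ _) (h' j hj n hn hjn)

theorem im_id {v : D8} (h : ∀ x : V8, mp8 v x = x) {n : ℕ} (hn : n < 256) : im v n = n := by
  apply d8_injective (im_lt _ _) hn
  rw [d8_im, h]

theorem P_id {v : D8} (h : ∀ x : V8, mp8 v x = x) : P v 1 := by
  intro j hj n hn hjn
  rw [im_id h hn, ac_one hj]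
  exact hjn

theorem P_of {R C σl : List ℕ} {σ : OO} (hσ : ∀ j < 64, apk σl j 6 = ac σ j) (hp : pres C σl = true)
    (hc : colOK R C = true) (hl : ltOK C = true) {v : D8} (hv : Rep v R) : P v σ := by
  intro j hj n hn hjn
  have h1 : im v n = apL C n := by
    have h2 : apL C n < 256 := by
      have := allLt_iff.mp hl n hn
      rwa [Nat.blt_eq] at this
    apply d8_injective (im_lt _ _) h2
    rw [d8_im, apL_spec (col_spec hc hv) hn]
  have h3 := allLt_iff.mp (allLt_iff.mp hp j hj) n hn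
  rw [hjn] at h3
  have h4 : Nat.testBit (BM.getD (apk σl j 6) 0) (apL C n) = true := h3
  rw [hσ j hj] at h4
  rw [h1]
  exact h4

theorem one_chk : ∀ j : Fin 64, apk [1, 2, 4, 8, 16, 32] j 6 = j := by decide +kernel

theorem Pa : P ⟨a, aD⟩ 1 := P_of (R := Ar) (C := CA) (σl := [1, 2, 4, 8, 16, 32])
  (fun j hj => (one_chk ⟨j, hj⟩).trans (ac_one hj).symm) prA coA hlt ra
theorem Pw : P ⟨w, w_mem.2⟩ yO := P_of (R := Wr) (C := CW) (σl := Y6) (fun j hj => (ac_Y hj).symm) prW coW hltW rw'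
theorem Pu : P ⟨u, u_mem.2⟩ tO := P_of (R := Ur) (C := CU) (σl := T6) (fun j hj => (ac_T hj).symm) prU coU hltU ru

theorem Pa_pow (n : ℕ) : P (⟨a, aD⟩ ^ n) 1 := by
  induction n with
  | zero =>
    rw [pow_zero]
    exact P_id mp_one
  | succ n ih =>
    rw [pow_succ]
    have := ih.mul Pa
    rwa [one_mul] at this

theorem Pa_zpow (i : ℤ) : P (⟨a, aD⟩ ^ i) 1 := by
  have h1 : (⟨a, aD⟩ : D8) ^ i ∈ Subgroup.zpowers (⟨a, aD⟩ : D8) := ⟨i, rfl⟩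
  rw [← mem_powers_iff_mem_zpowers] at h1
  obtain ⟨n, hn⟩ := h1
  have hn' : (⟨a, aD⟩ : D8) ^ n = ⟨a, aD⟩ ^ i := hn
  rw [← hn']
  exact Pa_pow n

theorem P_ker {v : NN a} (h : dat.psi v = 1) : P ⟨v, v.2.2⟩ 1 := by
  obtain ⟨q, hq, i, h1⟩ := dat.psi_eq_one.1 h
  have hq1 : P ⟨q, Q9_D8 hq.1⟩ 1 := P_id (mp_of_rho (rho8_Q9 hq.1))
  have hn1 : P ⟨negOne, negOne_D8⟩ 1 := P_id (mp_of_rho rho8_negOne)
  rcases h1 with h1 | h1
  · have h2 : (⟨v, v.2.2⟩ : D8) = ⟨q, Q9_D8 hq.1⟩ * ⟨a, aD⟩ ^ i := Subtype.ext h1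
    rw [h2]
    have := hq1.mul (Pa_zpow i)
    rwa [one_mul] at this
  · have h2 : (⟨v, v.2.2⟩ : D8) = ⟨negOne, negOne_D8⟩ * (⟨q, Q9_D8 hq.1⟩ * ⟨a, aD⟩ ^ i) := Subtype.ext h1
    rw [h2]
    have := hn1.mul (hq1.mul (Pa_zpow i))
    rwa [one_mul, one_mul] at this

theorem c_ok : ac tO 1 = 30 := by
  rw [ac_T (by norm_num)]
  decide +kernel

theorem not_P {v : NN a} (h : dat.psi v = 1) : ¬ P ⟨v, v.2.2⟩ tO := by
  intro hP
  have h1 := P_ker h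
  have h2 := h1 1 (by norm_num) 2 (by norm_num) n0_ok
  have h3 := hP 1 (by norm_num) 2 (by norm_num) n0_ok
  rw [ac_one (by norm_num)] at h2
  rw [c_ok] at h3
  have h4 := allLt_iff.mp disj_ok (im ⟨v, v.2.2⟩ 2) (im_lt _ _)
  rw [h2, h3] at h4
  exact Bool.noConfusion (h4 : false = true)

def PN (v : NN a) (σ : Omm) : Prop := P ⟨v.1, v.2.2⟩ σ.1

theorem PN_mul (v v' : NN a) (σ τ : Omm) (h : PN v σ) (h' : PN v' τ) : PN (v * v') (σ * τ) := by
  have e : (⟨(v * v').1, (v * v').2.2⟩ : D8) = ⟨v.1, v.2.2⟩ * ⟨v'.1, v'.2.2⟩ := Subtype.ext rfl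
  show P ⟨(v * v').1, (v * v').2.2⟩ (σ.1 * τ.1)
  rw [e]
  exact P.mul h h'

theorem PN_one : PN 1 1 := by
  have e : (⟨(1 : NN a).1, (1 : NN a).2.2⟩ : D8) = 1 := Subtype.ext rfl
  show P ⟨(1 : NN a).1, (1 : NN a).2.2⟩ 1
  rw [e]
  exact P_id mp_one

theorem hix : Omm.index = 2 := H8Om6.index_Omm
theorem card_Omm : Nat.card Omm = 25920 := H8Om6.card_Omm

instance simple_Omm : IsSimpleGroup Omm := H8Om6.simple_Omm

instance finite_Omm : Finite Omm := by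
  apply Nat.finite_of_card_ne_zero
  rw [card_Omm]
  norm_num

theorem PN_gen (b : Bool) : PN (if b = true then ⟨w, w_mem⟩ else ⟨u, u_mem⟩)
    (if b = true then (⟨yO, yO_mem hix⟩ : Omm) else ⟨tO, tO_mem hix⟩) := by
  cases b
  · exact Pu
  · exact Pw

theorem iso : Nonempty ((dat.CS ⧸ dat.QC) ≃* Omm) :=
  iso_aux dat.psi PN PN_mul PN_one _ _ PN_gen (gen hix simple_Omm) ⟨tO, tO_mem hix⟩ (fun v hv => not_P hv)
    (by rw [card_Omm]; exact card_quot)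

theorem no_two (N : Subgroup Omm) (hN : N.Normal) (h2 : IsPGroup 2 N) : N = ⊥ := by
  rcases hN.eq_bot_or_eq_top with h | h
  · exact h
  · exfalso
    obtain ⟨k, hk⟩ := IsPGroup.iff_card.1 h2
    rw [h, Nat.card_congr Subgroup.topEquiv.toEquiv, card_Omm] at hk
    have h3 : 3 ∣ 2 ^ k := by rw [← hk]; norm_num
    have h4 := Nat.prime_three.dvd_of_dvd_pow h3
    omega

theorem main : Concl (SS a) 7 Omm := by
  obtain ⟨e⟩ := iso
  exact dat.main no_two e s_QA s_ne g_mem g_conj w_mem ws1 ws2 (by norm_num) card_QA irr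

end Cfsg.Agent.Lib.H8Sec3
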