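import Cfsg.Agent.Lib.H8Sec5D

/-!
# The Hall-Janko section of `Co0` (helper8)
-/

set_option autoImplicit false
set_option maxHeartbeats 400000
set_option maxRecDepth 100000

namespace Cfsg.Agent.Lib.H8Sec5

open Cfsg Cfsg.Agent.Lib.Golay Cfsg.Agent.Lib.LeechMin Cfsg.Agent.Lib.GolayCoset Cfsg.Agent.Lib.LeechXi
  Cfsg.Agent.Lib.LeechTrans Cfsg.Agent.Lib.LeechCo2 Cfsg.Agent.Lib.LeechFrame Cfsg.Agent.Lib.LeechCount
  Cfsg.Agent.Lib.LeechOrder Cfsg.Agent.Lib.LeechMod Cfsg.Agent.Lib.LeechQuot Cfsg.Agent.Lib.LeechChain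
  Cfsg.Agent.Lib.LeechSyl Cfsg.Agent.Lib.LargeExtra Cfsg.Agent.Lib.H89LeechMat Cfsg.Agent.Lib.H8Sec
open Subgroup

theorem card_NN_le : Nat.card (NN a) ≤ 600 * Nat.card (QA a) := by
  rw [card_NN]
  have h1 := step aD hC hlt (F := []) (b := 1) rfl (by norm_num) cnt1
  have h2 := step aD hC hlt (F := [1]) (b := 2) (by decide) (by norm_num) cnt2
  have h3 := card_last aD hC hlt (F := [2, 1]) (by decide) span
  omega

theorem zz_zpow {X : Subgroup Co0} (hz : zz ∈ X) (h : Nat.card X = 2) {y : Co0} (hy : y ∈ X) : y = 1 ∨ y = zz := by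
  have h10 : Subgroup.zpowers zz = X := by
    apply Subgroup.eq_of_le_of_card_ge (by rw [Subgroup.zpowers_le]; exact hz)
    rw [h, Nat.card_zpowers, orderOf_eq_prime (p := 2) (by rw [pow_two]; exact zz_sq) zz_ne]
  rw [← h10] at hy
  exact (mem_zpowers_of_sq zz_sq).1 hy

theorem card_ne_two {X : Subgroup Co0} (hz : zz ∈ X) (hs : s ∈ X) : Nat.card X ≠ 2 := by
  intro h
  rcases zz_zpow hz h hs with h11 | h11
  · exact s_ne1 h11
  · exact s_ne h11

theorem card_QA : Nat.card (QA a) = 2 ^ 5 := by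
  obtain ⟨k, hk, h⟩ := (Dat.card_QA_pow : ∃ k, k ≤ 9 ∧ Nat.card (QA a) = 2 ^ k)
  have h1 := dat.card_QA_mod
  have h2 := dat.QA_ne
  have h3 := card_ne_two dat.zz_QA s_QA
  rw [h] at h1 h2 h3 ⊢
  unfold Nat.ModEq at h1
  interval_cases k <;> simp_all

theorem card_quot : Nat.card (dat.CS ⧸ dat.QC) ≤ 60 := by
  have h1 := dat.card_psi
  have h2 := card_NN_le
  rw [card_QA] at h1 h2
  omega

/-! ### the quotient -/

/-- the permutations -/
def sw5 : Equiv.Perm (Fin 5) := ⟨![4, 0, 1, 2, 3], ![1, 2, 3, 4, 0], by decide, by decide⟩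
def su5 : Equiv.Perm (Fin 5) := ⟨![4, 0, 2, 3, 1], ![1, 4, 2, 3, 0], by decide, by decide⟩

abbrev A5 := alternatingGroup (Fin 5)

def sw : A5 := ⟨sw5, Equiv.Perm.mem_alternatingGroup.2 (by decide)⟩
def su : A5 := ⟨su5, Equiv.Perm.mem_alternatingGroup.2 (by decide)⟩

def evG : List Bool → A5
  | [] => 1
  | b :: l => (if b = true then sw else su) * evG l

def evP : List Bool → Fin 5 → Fin 5
  | [], x => x
  | b :: l, x => if b = true then sw5 (evP l x) else su5 (evP l x)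

theorem evG_apply (l : List Bool) (x : Fin 5) : (evG l : Equiv.Perm (Fin 5)) x = evP l x := by
  induction l with
  | nil => rfl
  | cons b l ih =>
    show (((if b = true then sw else su) * evG l : A5) : Equiv.Perm (Fin 5)) x = _
    cases b
    · show su5 ((evG l : Equiv.Perm (Fin 5)) x) = su5 (evP l x)
      rw [ih]
    · show sw5 ((evG l : Equiv.Perm (Fin 5)) x) = sw5 (evP l x)
      rw [ih]

theorem words_inj : ∀ i j : Fin 60, (∀ x : Fin 5, evP (WL.getD i []) x = evP (WL.getD j []) x) → i = j := by decide +kernel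

theorem card_A5 : Nat.card A5 = 60 := by
  rw [nat_card_alternatingGroup]
  simp
  rfl

theorem words_surj (t : A5) : ∃ l : List Bool, evG l = t := by
  have h1 : Function.Injective (fun i : Fin 60 => evG (WL.getD i [])) := by
    intro i j h
    apply words_inj
    intro x
    rw [← evG_apply, ← evG_apply]
    have h' : evG (WL.getD i []) = evG (WL.getD j []) := h
    rw [h']
  have h2 : Function.Bijective (fun i : Fin 60 => evG (WL.getD i [])) := by
    rw [Nat.bijective_iff_injective_and_card]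
    refine ⟨h1, ?_⟩
    rw [card_A5]
    simp
  obtain ⟨i, hi⟩ := h2.2 t
  exact ⟨_, hi⟩

def P (v : D8) (σ : Equiv.Perm (Fin 5)) : Prop :=
  ∀ j : Fin 5, ∀ n < 256, Nat.testBit (BM.getD j 0) n = true → Nat.testBit (BM.getD (σ j) 0) (im v n) = true

theorem im_mul (v v' : D8) (n : ℕ) : im (v * v') n = im v (im v' n) := by
  unfold im
  rw [mp_mul, (n8_spec (mp8 v' (d8 n))).2]

theorem P.mul {v v' : D8} {σ τ : Equiv.Perm (Fin 5)} (h : P v σ) (h' : P v' τ) : P (v * v') (σ * τ) := by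
  intro j n hn hj
  rw [im_mul]
  exact h (τ j) _ (im_lt _ _) (h' j n hn hj)

theorem im_id {v : D8} (h : ∀ x : V8, mp8 v x = x) {n : ℕ} (hn : n < 256) : im v n = n := by
  apply d8_injective (im_lt _ _) hn
  rw [d8_im, h]

theorem P_id {v : D8} (h : ∀ x : V8, mp8 v x = x) : P v 1 := by
  intro j n hn hj
  rw [im_id h hn]
  exact hj

theorem P_of {R C σl : List ℕ} {σ : Equiv.Perm (Fin 5)} (hσ : ∀ j : Fin 5, σl.getD j 0 = (σ j : ℕ)) (hp : pres C σl = true)
    (hc : colOK R C = true) (hl : ltOK C = true) {v : D8} (hv : Rep v R) : P v σ := by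
  intro j n hn hj
  have h1 : im v n = apL C n := by
    have h2 : apL C n < 256 := by
      have := allLt_iff.mp hl n hn
      rwa [Nat.blt_eq] at this
    apply d8_injective (im_lt _ _) h2
    rw [d8_im, apL_spec (col_spec hc hv) hn]
  have h3 := allLt_iff.mp (allLt_iff.mp hp j j.2) n hn
  rw [hj] at h3
  have h4 : Nat.testBit (BM.getD (σl.getD j 0) 0) (apL C n) = true := h3
  rw [hσ j] at h4
  rw [h1]
  exact h4

theorem Pa : P ⟨a, aD⟩ 1 := P_of (R := Ar) (C := CA) (σl := [0, 1, 2, 3, 4]) (by decide) prA coA hlt ra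
theorem Pw : P ⟨w, w_mem.2⟩ sw5 := P_of (R := Wr) (C := CW) (σl := pW) (by decide) prW coW hltW rw'
theorem Pu : P ⟨u, u_mem.2⟩ su5 := P_of (R := Ur) (C := CU) (σl := pU) (by decide) prU coU hltU ru

theorem Pa_pow (n : ℕ) : P (⟨a, aD⟩ ^ n) 1 := by
  induction n with
  | zero =>
    rw [pow_zero]
    exact P_id mp_one
  | succ n ih =>
    rw [pow_succ]
    have := ih.mul Pa
    rwa [one_mul] at this

theorem Pa_zpow (i : ℤ) : P (⟨a, aD⟩ ^ i) 1 := by
  have h1 : (⟨a, aD⟩ : D8) ^ i ∈ Subgroup.zpowers (⟨a, aD⟩ : D8) := ⟨i, rfl⟩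
  rw [← mem_powers_iff_mem_zpowers] at h1
  obtain ⟨n, hn⟩ := h1
  have hn' : (⟨a, aD⟩ : D8) ^ n = ⟨a, aD⟩ ^ i := hn
  rw [← hn']
  exact Pa_pow n

theorem P_ker {v : NN a} (h : dat.psi v = 1) : P ⟨v, v.2.2⟩ 1 := by
  obtain ⟨q, hq, i, h1⟩ := dat.psi_eq_one.1 h
  have hq1 : P ⟨q, Q9_D8 hq.1⟩ 1 := P_id (mp_of_rho (rho8_Q9 hq.1))
  have hn1 : P ⟨negOne, negOne_D8⟩ 1 := P_id (mp_of_rho rho8_negOne)
  rcases h1 with h1 | h1
  · have h2 : (⟨v, v.2.2⟩ : D8) = ⟨q, Q9_D8 hq.1⟩ * ⟨a, aD⟩ ^ i := Subtype.ext h1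
    rw [h2]
    have := hq1.mul (Pa_zpow i)
    rwa [one_mul] at this
  · have h2 : (⟨v, v.2.2⟩ : D8) = ⟨negOne, negOne_D8⟩ * (⟨q, Q9_D8 hq.1⟩ * ⟨a, aD⟩ ^ i) := Subtype.ext h1
    rw [h2]
    have := hn1.mul (hq1.mul (Pa_zpow i))
    rwa [one_mul, one_mul] at this

theorem n0_ok : Nat.testBit (BM.getD 0 0) 2 = true := by decide +kernel

theorem disj_ok : allLt 256 (fun n => cond (Nat.testBit (BM.getD 0 0) n) (cond (Nat.testBit (BM.getD 4 0) n) false true) true) = true := by decide +kernel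

theorem gen : closure (Set.range (fun b : Bool => if b = true then sw else su)) = ⊤ := by
  rw [eq_top_iff]
  intro t _
  obtain ⟨l, rfl⟩ := words_surj t
  induction l with
  | nil => exact one_mem _
  | cons b l ih => exact mul_mem (subset_closure ⟨b, rfl⟩) (ih trivial)

theorem not_P {v : NN a} (h : dat.psi v = 1) : ¬ P ⟨v, v.2.2⟩ sw5 := by
  intro hP
  have h1 := P_ker h
  have h2 := h1 0 2 (by norm_num) n0_ok
  have h3 := hP 0 2 (by norm_num) n0_ok
  have h4 := allLt_iff.mp disj_ok (im ⟨v, v.2.2⟩ 2) (im_lt _ _)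
  have h2' : Nat.testBit (BM.getD 0 0) (im ⟨v, v.2.2⟩ 2) = true := h2
  have h3' : Nat.testBit (BM.getD 4 0) (im ⟨v, v.2.2⟩ 2) = true := h3
  rw [h2', h3'] at h4
  exact Bool.noConfusion (h4 : false = true)

def PN (v : NN a) (σ : A5) : Prop := P ⟨v.1, v.2.2⟩ σ.1

theorem PN_mul (v v' : NN a) (σ τ : A5) (h : PN v σ) (h' : PN v' τ) : PN (v * v') (σ * τ) := by
  intro j n hn hj
  have e : (⟨(v * v').1, (v * v').2.2⟩ : D8) = ⟨v.1, v.2.2⟩ * ⟨v'.1, v'.2.2⟩ := Subtype.ext rfl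
  rw [e, im_mul]
  exact h (τ.1 j) _ (im_lt _ _) (h' j n hn hj)

theorem PN_one : PN 1 1 := by
  intro j n hn hj
  have e : (⟨(1 : NN a).1, (1 : NN a).2.2⟩ : D8) = 1 := Subtype.ext rfl
  rw [e, im_id mp_one hn]
  exact hj

theorem PN_gen (b : Bool) : PN (if b = true then ⟨w, w_mem⟩ else ⟨u, u_mem⟩) (if b = true then sw else su) := by
  cases b
  · exact Pu
  · exact Pw

theorem iso : Nonempty ((dat.CS ⧸ dat.QC) ≃* A5) := by
  haveI : IsSimpleGroup A5 := alternatingGroup.isSimpleGroup_five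
  exact iso_aux dat.psi PN PN_mul PN_one _ _ PN_gen gen sw (fun v hv => not_P hv) (by rw [card_A5]; exact card_quot)

theorem no_two (N : Subgroup A5) (hN : N.Normal) (h2 : IsPGroup 2 N) : N = ⊥ := by
  haveI : IsSimpleGroup A5 := alternatingGroup.isSimpleGroup_five
  rcases hN.eq_bot_or_eq_top with h | h
  · exact h
  · exfalso
    obtain ⟨k, hk⟩ := IsPGroup.iff_card.1 h2
    rw [h, Nat.card_congr Subgroup.topEquiv.toEquiv, card_A5] at hk
    have h3 : 3 ∣ 2 ^ k := by rw [← hk]; norm_num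
    have h4 := Nat.prime_three.dvd_of_dvd_pow h3
    omega

/-- irreducibility -/
theorem irr (X : Subgroup Co0) (hX : X ≤ QA a) (hinv : ∀ g ∈ NN a, ∀ t ∈ X, g * t * g⁻¹ ∈ X) (hs : s ∈ X) (hz : zz ∈ X) : QA a ≤ X := by
  haveI : Fact (Nat.Prime 5) := ⟨by norm_num⟩
  set C : Subgroup Co0 := QA a ⊓ Subgroup.centralizer {w} with hCd
  have hmC : ∀ {y : Co0}, y ∈ C ↔ y ∈ QA a ∧ y * w = w * y := by
    intro y
    rw [hCd, Subgroup.mem_inf, Subgroup.mem_centralizer_singleton_iff]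
  have h1 := fix_mod (p := 5) w_pow (T := (QA a : Set Co0)) (fun t ht => Dat.NN_conj w_mem ht)
  have e1 : Nat.card (QA a : Set Co0) = 2 ^ 5 := card_QA
  have e2 : Nat.card {t : Co0 | t ∈ (QA a : Set Co0) ∧ w * t = t * w} = Nat.card C := by
    apply Nat.card_congr
    refine Equiv.subtypeEquivRight fun t => ?_
    show (t ∈ QA a ∧ w * t = t * w) ↔ t ∈ C
    rw [hmC]
    exact ⟨fun h => ⟨h.1, h.2.symm⟩, fun h => ⟨h.1, h.2.symm⟩⟩
  rw [e1, e2] at h1
  have h3 : Nat.card C ∣ 2 ^ 5 := by rw [← card_QA]; exact Subgroup.card_dvd_of_le inf_le_left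
  have h4 : Nat.card C ≠ 2 ^ 5 := by
    intro h
    have h5 : C = QA a := Subgroup.eq_of_le_of_card_ge inf_le_left (by rw [h, card_QA])
    have h6 : s ∈ C := by rw [h5]; exact s_QA
    exact ws1 (hmC.1 h6).2.symm
  have h5 : Nat.card C = 2 := by
    obtain ⟨k, hk, h6⟩ := (Nat.dvd_prime_pow Nat.prime_two).1 h3
    rw [h6] at h1 h4 ⊢
    unfold Nat.ModEq at h1
    interval_cases k <;> simp_all
  have hzC : zz ∈ C := hmC.2 ⟨dat.zz_QA, (mem_D8.1 w_mem.2).symm⟩
  have h6 : ∀ y ∈ C, y = 1 ∨ y = zz := fun y hy => zz_zpow hzC h5 hy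
  have h7 := fix_mod (p := 5) w_pow (T := (X : Set Co0)) (fun t ht => hinv w w_mem t ht)
  have e3 : Nat.card {t : Co0 | t ∈ (X : Set Co0) ∧ w * t = t * w} = Nat.card C := by
    apply Nat.card_congr
    refine Equiv.subtypeEquivRight fun t => ?_
    show (t ∈ X ∧ w * t = t * w) ↔ t ∈ C
    constructor
    · intro h
      exact hmC.2 ⟨hX h.1, h.2.symm⟩
    · intro h
      refine ⟨?_, (hmC.1 h).2.symm⟩
      rcases h6 t h with h8 | h8
      · rw [h8]; exact one_mem _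
      · rw [h8]; exact hz
  rw [e3, h5] at h7
  have h8 : Nat.card X ∣ 2 ^ 5 := by rw [← card_QA]; exact Subgroup.card_dvd_of_le hX
  have e4 : Nat.card (X : Set Co0) = Nat.card X := rfl
  rw [e4] at h7
  have h9 : Nat.card X ≠ 2 := card_ne_two hz hs
  have h10 : Nat.card X = 2 ^ 5 := by
    obtain ⟨k, hk, h11⟩ := (Nat.dvd_prime_pow Nat.prime_two).1 h8
    rw [h11] at h7 h9 ⊢
    unfold Nat.ModEq at h7
    interval_cases k <;> simp_all
  have h11 : X = QA a := Subgroup.eq_of_le_of_card_ge hX (by rw [h10, card_QA])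
  rw [h11]

theorem main : Concl (SS a) 5 A5 := by
  haveI : IsSimpleGroup A5 := alternatingGroup.isSimpleGroup_five
  obtain ⟨e⟩ := iso
  exact dat.main no_two e s_QA s_ne g_mem g_conj w_mem ws1 ws2 (by norm_num) card_QA irr

end Cfsg.Agent.Lib.H8Sec5
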