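import Cfsg.Agent.Lib.H8SecV

/-!
# Bounds for the centralizer of the involution in the section (helper8)
-/

set_option autoImplicit false
set_option maxHeartbeats 400000

namespace Cfsg.Agent.Lib.H8Sec

open Cfsg Cfsg.Agent.Lib.Golay Cfsg.Agent.Lib.LeechMin Cfsg.Agent.Lib.GolayCoset Cfsg.Agent.Lib.LeechXi
  Cfsg.Agent.Lib.LeechTrans Cfsg.Agent.Lib.LeechCo2 Cfsg.Agent.Lib.LeechFrame Cfsg.Agent.Lib.LeechCount
  Cfsg.Agent.Lib.LeechOrder Cfsg.Agent.Lib.LeechMod Cfsg.Agent.Lib.LeechQuot Cfsg.Agent.Lib.LeechChain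
  Cfsg.Agent.Lib.LeechSyl Cfsg.Agent.Lib.LargeExtra Cfsg.Agent.Lib.H89LeechMat
open Subgroup

noncomputable instance actV8 : MulAction D8 V8 where
  smul g v := mp8 g v
  one_smul := mp_one
  mul_smul := mp_mul

theorem smul_V8 (g : D8) (v : V8) : g • v = mp8 g v := rfl

/-- the pointwise stabilizer of the coded vectors -/
def KF (a : Co0) (F : List ℕ) : Subgroup D8 where
  carrier := {g | (g : Co0) ∈ MA a ∧ ∀ f ∈ F, g • d8 f = d8 f}
  one_mem' := ⟨one_mem _, fun f _ => one_smul _ _⟩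
  mul_mem' := by
    rintro g h ⟨hg, hg'⟩ ⟨hh, hh'⟩
    exact ⟨mul_mem hg hh, fun f hf => by rw [mul_smul, hh' f hf, hg' f hf]⟩
  inv_mem' := by
    rintro g ⟨hg, hg'⟩
    exact ⟨inv_mem hg, fun f hf => by rw [inv_smul_eq_iff, hg' f hf]⟩

theorem mem_KF {a : Co0} {F : List ℕ} {g : D8} : g ∈ KF a F ↔ (g : Co0) ∈ MA a ∧ ∀ f ∈ F, g • d8 f = d8 f := Iff.rfl

def itA (C : List ℕ) (i y : ℕ) : ℕ := Nat.rec (motive := fun _ => ℕ) y (fun _ ih => apL C ih) i

def beqB (b c : Bool) : Bool := cond b c (cond c false true)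
theorem beqB_iff {b c : Bool} : beqB b c = true ↔ b = c := by cases b <;> cases c <;> decide

def cand (p : ℕ) (C F : List ℕ) (b y : ℕ) : Bool :=
  cond (beqB (Nat.testBit QQ y) (Nat.testBit QQ b))
    (cond (F.all fun f => allLt p fun i => beqB (bb f (itA C i y)) (bb f (itA C i b)))
      (allLt p fun i => beqB (bb y (itA C i y)) (bb b (itA C i b))) false) false

section
variable {a : Co0} (haD : a ∈ D8) {C : List ℕ} (hC : ∀ i < 8, mp8 ⟨a, haD⟩ (d8 (PW.getD i 0)) = d8 (C.getD i 0))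
  (hlt : ltOK C = true)
include hC hlt

omit hC in
theorem itA_lt {n : ℕ} (hn : n < 256) (i : ℕ) : itA C i n < 256 := by
  induction i with
  | zero => exact hn
  | succ i ih =>
    have := allLt_iff.mp hlt _ ih
    rwa [Nat.blt_eq] at this

theorem im_itA {g : D8} (hg : (g : Co0) * a = a * g) {n : ℕ} (hn : n < 256) (i : ℕ) : im g (itA C i n) = itA C i (im g n) := by
  induction i with
  | zero => rfl
  | succ i ih =>
    show im g (apL C (itA C i n)) = apL C (itA C i (im g n))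
    rw [im_comm haD hC hlt hg (itA_lt hlt hn i), ih]

theorem cand_im {g : D8} (hg : (g : Co0) * a = a * g) {p b : ℕ} {F : List ℕ} (hF : ∀ f ∈ F, f < 256 ∧ im g f = f) (hb : b < 256) :
    cand p C F b (im g b) = true := by
  unfold cand
  rw [cond_false_eq, cond_false_eq]
  refine ⟨beqB_iff.2 (qq_im g hb), ?_, ?_⟩
  · rw [List.all_eq_true]
    intro f hf
    obtain ⟨h1, h2⟩ := hF f hf
    apply allLt_iff.mpr
    intro i hi
    rw [beqB_iff, ← im_itA haD hC hlt hg hb i]
    conv_lhs => rw [← h2]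
    exact bb_im g (itA_lt hlt hb i)
  · apply allLt_iff.mpr
    intro i hi
    rw [beqB_iff, ← im_itA haD hC hlt hg hb i]
    exact bb_im g (itA_lt hlt hb i)

theorem step {p b N : ℕ} {F : List ℕ} (hF : (F.all fun f => Nat.blt f 256) = true) (hb : b < 256) (hN : cntLt 256 (cand p C F b) = N) :
    Nat.card (KF a F) ≤ N * Nat.card (KF a (b :: F)) := by
  have h1 : KF a (b :: F) = KF a F ⊓ MulAction.stabilizer D8 (d8 b) := by
    ext g
    rw [Subgroup.mem_inf, MulAction.mem_stabilizer_iff, mem_KF, mem_KF]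
    constructor
    · rintro ⟨h, h'⟩
      exact ⟨⟨h, fun f hf => h' f (List.mem_cons_of_mem _ hf)⟩, h' b List.mem_cons_self⟩
    · rintro ⟨⟨h, h'⟩, h''⟩
      refine ⟨h, fun f hf => ?_⟩
      rcases List.mem_cons.1 hf with rfl | hf
      · exact h''
      · exact h' f hf
  rw [h1]
  have h2 := card_le_mul_inf (KF a F) (d8 b) (d8 '' (((Finset.range 256).filter fun i => cand p C F b i = true : Finset ℕ) : Set ℕ))
    ((Finset.finite_toSet _).image _) (by
      rintro g ⟨hg, hg'⟩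
      refine ⟨im g b, ?_, d8_im g b⟩
      rw [Finset.mem_coe, Finset.mem_filter, Finset.mem_range]
      refine ⟨im_lt g b, cand_im haD hC hlt (mem_MA.1 hg) (fun f hf => ?_) hb⟩
      have h3 := List.all_eq_true.1 hF f hf
      rw [Nat.blt_eq] at h3
      refine ⟨h3, d8_injective (im_lt g f) h3 ?_⟩
      rw [d8_im]
      exact hg' f hf)
  refine h2.trans (Nat.mul_le_mul_right _ ?_)
  refine (Set.ncard_image_le (Finset.finite_toSet _)).trans ?_
  rw [← hN, cntLt_eq]
  exact (Set.ncard_coe_finset _).le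

def spanOK (C F E m : List ℕ) (ti tf : List ℕ) : Bool :=
  cond (allLt 8 fun t => cond (Nat.beq (E.getD t 0) (itA C (ti.getD t 0) (F.getD (tf.getD t 0) 0))) (Nat.blt (tf.getD t 0) F.length) false)
    (allLt 8 fun k => Nat.beq (apL E (m.getD k 0)) (PW.getD k 0)) false

theorem last {F E m ti tf : List ℕ} (hF : (F.all fun f => Nat.blt f 256) = true) (h : spanOK C F E m ti tf = true) {g : D8}
    (hg : g ∈ KF a F) : ∀ v : V8, mp8 g v = v := by
  obtain ⟨h1, h2⟩ := cond_false_eq.mp h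
  have h3 : ∀ t < 8, mp8 g (d8 (E.getD t 0)) = d8 (E.getD t 0) := by
    intro t ht
    obtain ⟨h4, h5⟩ := cond_false_eq.mp (allLt_iff.mp h1 t ht)
    rw [Nat.blt_eq] at h5
    rw [Nat.eq_of_beq_eq_true h4]
    have h6 : F.getD (tf.getD t 0) 0 ∈ F := by
      rw [List.getD_eq_getElem _ _ h5]; exact List.getElem_mem _
    have h7 := List.all_eq_true.1 hF _ h6
    rw [Nat.blt_eq] at h7
    have h8 : im g (F.getD (tf.getD t 0) 0) = F.getD (tf.getD t 0) 0 := by
      apply d8_injective (im_lt _ _) h7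
      rw [d8_im]
      exact hg.2 _ h6
    rw [← d8_im, im_itA haD hC hlt (mem_MA.1 hg.1) h7, h8]
  have h9 : ∀ n k, k ≤ 8 → mp8 g (d8 (apk E n k)) = d8 (apk E n k) := by
    intro n k
    induction k with
    | zero =>
      intro _
      show mp8 g (d8 0) = d8 0
      rw [d8_zero, map_zero]
    | succ k ih =>
      intro hk
      show mp8 g (d8 (Nat.xor (apk E n k) (cond (Nat.testBit n k) (E.getD k 0) 0))) =
        d8 (Nat.xor (apk E n k) (cond (Nat.testBit n k) (E.getD k 0) 0))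
      rw [d8_xor, map_add, ih (by omega)]
      cases Nat.testBit n k
      · show _ + mp8 g (d8 0) = _ + d8 0
        rw [d8_zero, map_zero]
      · show _ + mp8 g (d8 (E.getD k 0)) = _ + d8 (E.getD k 0)
        rw [h3 k (by omega)]
  intro v
  have h10 : ∀ k < 8, mp8 g (d8 (PW.getD k 0)) = d8 (PW.getD k 0) := by
    intro k hk
    have h11 := Nat.eq_of_beq_eq_true (allLt_iff.mp h2 k hk)
    rw [← h11]
    exact h9 _ 8 le_rfl
  obtain ⟨h12, h13⟩ := n8_spec v
  rw [← h13, apL_spec h10 h12]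
  rw [show apL PW (n8 v) = n8 v from low_chk ⟨_, h12⟩]

omit hC hlt in
theorem rho8_of {g : D8} (h : ∀ v : V8, mp8 g v = v) : rho8 g = 1 := by
  rw [rho8_ker]
  intro x
  rw [← mp8_kap]
  exact h _

omit hC hlt in
theorem mp_of_rho {g : D8} (h : rho8 g = 1) (v : V8) : mp8 g v = v := by
  obtain ⟨x, rfl⟩ := kap8_surj v
  rw [mp8_kap]
  exact rho8_ker.1 h x

theorem card_last {F E m ti tf : List ℕ} (hF : (F.all fun f => Nat.blt f 256) = true) (h : spanOK C F E m ti tf = true) :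
    Nat.card (KF a F) ≤ 2 * Nat.card (QA a) := by
  classical
  have h1 : ∀ g : KF a F, ((g : D8) : Co0) ∈ Q9 ∨ negOne * ((g : D8) : Co0) ∈ Q9 := fun g =>
    ker8_pm (rho8_of (last haD hC hlt hF h g.2))
  have hn : negOne ∈ MA a := mem_MA.2 (negOne_comm a).symm
  let φ : KF a F → Bool × QA a := fun g => if hg : ((g : D8) : Co0) ∈ Q9 then (true, ⟨g, hg, g.2.1⟩)
    else (false, ⟨negOne * g, (h1 g).resolve_left hg, mul_mem hn g.2.1⟩)
  have h2 : Function.Injective φ := by
    intro g g' hgg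
    have e1 : φ g = if hg : ((g : D8) : Co0) ∈ Q9 then (true, ⟨g, hg, g.2.1⟩)
      else (false, ⟨negOne * g, (h1 g).resolve_left hg, mul_mem hn g.2.1⟩) := rfl
    have e2 : φ g' = if hg : ((g' : D8) : Co0) ∈ Q9 then (true, ⟨g', hg, g'.2.1⟩)
      else (false, ⟨negOne * g', (h1 g').resolve_left hg, mul_mem hn g'.2.1⟩) := rfl
    rw [e1, e2] at hgg
    apply Subtype.ext
    apply Subtype.ext
    by_cases hg : ((g : D8) : Co0) ∈ Q9
    · by_cases hg' : ((g' : D8) : Co0) ∈ Q9
      · rw [dif_pos hg, dif_pos hg'] at hgg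
        exact congrArg (fun t : Bool × QA a => ((t.2 : QA a) : Co0)) hgg
      · rw [dif_pos hg, dif_neg hg'] at hgg
        exact Bool.noConfusion (congrArg Prod.fst hgg : true = false)
    · by_cases hg' : ((g' : D8) : Co0) ∈ Q9
      · rw [dif_neg hg, dif_pos hg'] at hgg
        exact Bool.noConfusion (congrArg Prod.fst hgg : false = true)
      · rw [dif_neg hg, dif_neg hg'] at hgg
        have h3 : negOne * ((g : D8) : Co0) = negOne * ((g' : D8) : Co0) :=
          congrArg (fun t : Bool × QA a => ((t.2 : QA a) : Co0)) hgg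
        exact mul_left_cancel h3
  have h3 := Nat.card_le_card_of_injective φ h2
  rw [Nat.card_prod] at h3
  simpa using h3

end

theorem card_NN {a : Co0} : Nat.card (NN a) = Nat.card (KF a []) := by
  apply Nat.card_congr
  exact ⟨fun g => ⟨⟨g.1, g.2.2⟩, g.2.1, fun f hf => absurd hf (List.not_mem_nil)⟩, fun g => ⟨g.1.1, g.2.1, g.1.2⟩,
    fun g => rfl, fun g => rfl⟩

namespace Dat

variable {a : Co0} {p : ℕ}

instance (d : Dat a p) : d.QC.Normal := d.QC_normal

noncomputable def psi (d : Dat a p) : NN a →* d.CS ⧸ d.QC := (QuotientGroup.mk' d.QC).comp d.piC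

theorem psi_surj (d : Dat a p) : Function.Surjective d.psi :=
  (QuotientGroup.mk'_surjective _).comp d.piC_surj

theorem psi_eq_one (d : Dat a p) {g : NN a} : d.psi g = 1 ↔ ∃ q ∈ QA a, ∃ i : ℤ, (g : Co0) = q * a ^ i ∨ (g : Co0) = negOne * (q * a ^ i) := by
  have h0 : d.psi g = 1 ↔ d.piC g ∈ d.QC := QuotientGroup.eq_one_iff _
  rw [h0, d.mem_QC]
  constructor
  · rintro ⟨q, hq, h⟩
    obtain ⟨i, h1⟩ := d.piC_eq.1 h.symm
    exact ⟨q, hq, i, h1⟩
  · rintro ⟨q, hq, i, h⟩
    exact ⟨q, hq, (d.piC_eq.2 ⟨i, h⟩).symm⟩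

theorem card_psi (d : Dat a p) : 2 * (p * Nat.card (QA a)) * Nat.card (d.CS ⧸ d.QC) ≤ Nat.card (NN a) := by
  classical
  have ha : a ∈ NN a := ⟨mem_MA.2 rfl, mem_D8.2 d.com⟩
  have hn : negOne ∈ NN a := ⟨mem_MA.2 (negOne_comm a).symm, negOne_D8⟩
  let φ : Bool × (Fin p × QA a) → d.psi.ker := fun t =>
    ⟨⟨(if t.1 = true then 1 else negOne) * ((t.2.2 : Co0) * a ^ ((t.2.1 : ℕ) : ℤ)),
      mul_mem (by split_ifs <;> [exact one_mem _; exact hn]) (mul_mem (QA_le t.2.2.2) (zpow_mem ha _))⟩, by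
      rw [MonoidHom.mem_ker, d.psi_eq_one]
      refine ⟨t.2.2, t.2.2.2, ((t.2.1 : ℕ) : ℤ), ?_⟩
      by_cases h : t.1 = true
      · left
        show (if t.1 = true then 1 else negOne) * _ = _
        rw [if_pos h, one_mul]
      · right
        show (if t.1 = true then 1 else negOne) * _ = _
        rw [if_neg h]⟩
  have key : ∀ (b b' : Bool) (i i' : Fin p) (q q' : QA a), (if b = true then 1 else negOne) * ((q : Co0) * a ^ ((i : ℕ) : ℤ)) =
      (if b' = true then 1 else negOne) * ((q' : Co0) * a ^ ((i' : ℕ) : ℤ)) → b = b' ∧ i = i' ∧ q = q' := by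
    intro b b' i i' q q' h
    have e : (q : Co0) * a ^ ((i : ℕ) : ℤ) = (q' : Co0) * a ^ ((i' : ℕ) : ℤ) → i = i' ∧ q = q' := by
      intro h1
      have h2 : (q' : Co0) = q * a ^ (((i : ℕ) : ℤ) - ((i' : ℕ) : ℤ)) := by
        rw [zpow_sub, ← mul_assoc, h1, mul_inv_cancel_right]
      have h3 := d.sep q.2.1 q'.2.1 h2
      have h4 : q = q' := Subtype.ext h3.symm
      subst h4
      have h5 := mul_left_cancel h1
      rw [zpow_natCast, zpow_natCast] at h5
      have h6 := pow_injOn_Iio_orderOf (x := a) (by rw [Set.mem_Iio, d.ord]; exact i.2) (by rw [Set.mem_Iio, d.ord]; exact i'.2) h5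
      exact ⟨Fin.ext h6, rfl⟩
    have e' : (q : Co0) * a ^ ((i : ℕ) : ℤ) = negOne * ((q' : Co0) * a ^ ((i' : ℕ) : ℤ)) → False := by
      intro h1
      have h1' : negOne * ((q : Co0) * a ^ ((i : ℕ) : ℤ)) = (q' : Co0) * a ^ ((i' : ℕ) : ℤ) := by
        rw [h1, ← mul_assoc, negOne_sq, one_mul]
      have h2 : (q' : Co0) = negOne * (q * a ^ (((i : ℕ) : ℤ) - ((i' : ℕ) : ℤ))) := by
        rw [zpow_sub, ← mul_assoc (q : Co0), ← mul_assoc negOne, h1', mul_inv_cancel_right]
      exact d.sep' q.2.1 q'.2.1 h2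
    cases b <;> cases b'
    · simp only [Bool.false_eq_true, if_false] at h
      exact ⟨rfl, e (mul_left_cancel h)⟩
    · simp only [Bool.false_eq_true, if_false, if_true, one_mul] at h
      exfalso
      apply e'
      rw [← h, ← mul_assoc, negOne_sq, one_mul]
    · simp only [Bool.false_eq_true, if_false, if_true, one_mul] at h
      exact (e' h).elim
    · simp only [if_true, one_mul] at h
      exact ⟨rfl, e h⟩
  have hφ : Function.Injective φ := by
    rintro ⟨b, i, q⟩ ⟨b', i', q'⟩ h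
    have h1 := congrArg (fun t : d.psi.ker => ((t : NN a) : Co0)) h
    obtain ⟨h2, h3, h4⟩ := key b b' i i' q q' h1
    rw [h2, h3, h4]
  have h1 := Nat.card_le_card_of_injective φ hφ
  rw [Nat.card_prod, Nat.card_prod] at h1
  have h2 : Nat.card (Fin p) = p := by simp
  have h3 : Nat.card Bool = 2 := by simp
  rw [h2, h3] at h1
  have h4 : Nat.card (NN a) = Nat.card d.psi.ker * Nat.card (d.CS ⧸ d.QC) := by
    rw [← Subgroup.card_mul_index d.psi.ker, Subgroup.index_ker]
    congr 1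
    rw [MonoidHom.range_eq_top.2 d.psi_surj]
    exact Nat.card_congr Subgroup.topEquiv.toEquiv
  rw [h4]
  exact Nat.mul_le_mul_right _ h1

end Dat

end Cfsg.Agent.Lib.H8Sec
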