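import Cfsg.Agent.Lib.H8SecM

/-!
# A graph argument and entries of products (helper8)
-/

set_option autoImplicit false
set_option maxHeartbeats 400000

namespace Cfsg.Agent.Lib.H8Sec

open Cfsg Cfsg.Agent.Lib.Golay Cfsg.Agent.Lib.LeechMin Cfsg.Agent.Lib.GolayCoset Cfsg.Agent.Lib.LeechXi
  Cfsg.Agent.Lib.LeechTrans Cfsg.Agent.Lib.LeechCo2 Cfsg.Agent.Lib.LeechFrame Cfsg.Agent.Lib.LeechCount
  Cfsg.Agent.Lib.LeechOrder Cfsg.Agent.Lib.LeechMod Cfsg.Agent.Lib.LeechQuot Cfsg.Agent.Lib.LeechChain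
  Cfsg.Agent.Lib.LeechSyl Cfsg.Agent.Lib.LargeExtra Cfsg.Agent.Lib.H89LeechMat
open Subgroup

theorem iso_graph {G H : Type*} [Group G] [Group H] [Finite G] [Finite H] [IsSimpleGroup G] (R : Subgroup (G × H))
    (h1 : ∀ g, ∃ h, (g, h) ∈ R) (g0 : G) (h2 : (g0, (1 : H)) ∉ R) (hc : Nat.card H ≤ Nat.card G) : Nonempty (H ≃* G) := by
  let p1 : R →* G := (MonoidHom.fst G H).comp R.subtype
  let p2 : R →* H := (MonoidHom.snd G H).comp R.subtype
  have hp1 : Function.Surjective p1 := by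
    intro g
    obtain ⟨h, hh⟩ := h1 g
    exact ⟨⟨(g, h), hh⟩, rfl⟩
  have hn : (p2.ker.map p1).Normal := Subgroup.Normal.map inferInstance p1 hp1
  rcases hn.eq_bot_or_eq_top with hb | ht
  · have hp2 : Function.Injective p2 := by
      rw [injective_iff_map_eq_one]
      rintro ⟨⟨g, h⟩, hr⟩ hh
      have hh' : h = 1 := hh
      have h3 : p1 ⟨(g, h), hr⟩ ∈ p2.ker.map p1 := Subgroup.mem_map_of_mem p1 hh
      rw [hb, Subgroup.mem_bot] at h3
      have h4 : g = 1 := h3
      subst h4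
      subst hh'
      rfl
    have c1 : Nat.card R ≤ Nat.card H := Nat.card_le_card_of_injective p2 hp2
    have c2 : Nat.card G ≤ Nat.card R := Nat.card_le_card_of_surjective p1 hp1
    have b1 : Function.Bijective p1 := (Nat.bijective_iff_surjective_and_card p1).2 ⟨hp1, by omega⟩
    have b2 : Function.Bijective p2 := (Nat.bijective_iff_injective_and_card p2).2 ⟨hp2, by omega⟩
    exact ⟨(MulEquiv.ofBijective p2 b2).symm.trans (MulEquiv.ofBijective p1 b1)⟩
  · exfalso
    have h3 : g0 ∈ p2.ker.map p1 := by rw [ht]; trivial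
    obtain ⟨⟨⟨g, h⟩, hr⟩, hk, hg⟩ := h3
    have h4 : g = g0 := hg
    have h5 : h = 1 := hk
    subst h4 h5
    exact h2 hr

theorem iso_aux {N H G : Type*} [Group N] [Group H] [Group G] [Finite G] [Finite H] [IsSimpleGroup G] (ψ : N →* H)
    (P : N → G → Prop) (hmul : ∀ v v' σ τ, P v σ → P v' τ → P (v * v') (σ * τ)) (hone : P 1 1) {ι : Type*} (gs : ι → G) (ns : ι → N)
    (hP : ∀ i, P (ns i) (gs i)) (hgen : closure (Set.range gs) = ⊤) (g0 : G) (hker : ∀ v, ψ v = 1 → ¬ P v g0)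
    (hc : Nat.card H ≤ Nat.card G) : Nonempty (H ≃* G) := by
  set S1 : Set (G × H) := Set.range (fun i => (gs i, ψ (ns i))) with hS1
  refine iso_graph (closure S1) ?_ g0 ?_ hc
  · intro g
    have h1 : (closure S1).map (MonoidHom.fst G H) = ⊤ := by
      rw [MonoidHom.map_closure, ← hgen]
      congr 1
      ext z
      constructor
      · rintro ⟨_, ⟨i, rfl⟩, rfl⟩
        exact ⟨i, rfl⟩
      · rintro ⟨i, rfl⟩
        exact ⟨_, ⟨i, rfl⟩, rfl⟩
    have h2 : g ∈ (closure S1).map (MonoidHom.fst G H) := by rw [h1]; trivial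
    obtain ⟨⟨a, b⟩, hp, hq⟩ := h2
    have hq' : a = g := hq
    subst hq'
    exact ⟨b, hp⟩
  · have key : ∀ t ∈ closure S1, ∃ v : N, ψ v = t.2 ∧ P v t.1 := by
      intro t ht
      have h1 : t ∈ (closure S1).toSubmonoid := ht
      rw [Subgroup.closure_toSubmonoid_of_finite] at h1
      induction h1 using Submonoid.closure_induction with
      | mem x hx =>
        obtain ⟨i, rfl⟩ := hx
        exact ⟨ns i, rfl, hP i⟩
      | one => exact ⟨1, map_one _, hone⟩
      | mul x y hx hy ihx ihy =>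
        have e : ∀ z, z ∈ Submonoid.closure S1 → z ∈ closure S1 := by
          intro z hz
          have : z ∈ (closure S1).toSubmonoid := by
            rw [Subgroup.closure_toSubmonoid_of_finite]; exact hz
          exact this
        obtain ⟨v, hv, hv'⟩ := ihx (e x hx)
        obtain ⟨v', hw, hw'⟩ := ihy (e y hy)
        refine ⟨v * v', ?_, hmul _ _ _ _ hv' hw'⟩
        rw [map_mul, hv, hw]; rfl
    intro hcon
    obtain ⟨v, hv, hP⟩ := key _ hcon
    exact hker v hv hP

theorem Rep.two_entry {g h g' h' : Co0} {R S R' S' : List ℕ} (hg : Rep g R) (hh : Rep h S) (hg' : Rep g' R') (hh' : Rep h' S')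
    (e : g * h = g' * h') {i j : ℕ} (hi : i < 24) (hj : j < 24) : pe2 R S i j = pe2 R' S' i j := by
  have h1 : (H89LeechMat.mt R * H89LeechMat.mt S).mulVec (ef (pt j) : GolayPt → ℤ) =
      (H89LeechMat.mt R' * H89LeechMat.mt S').mulVec (ef (pt j) : GolayPt → ℤ) := by
    rw [hg.two hh, hg'.two hh', e]
  have h2 := congrFun h1 (pt i)
  rw [coe_ef', Matrix.mulVec_single, Matrix.mulVec_single] at h2
  simp only [Pi.smul_apply, Matrix.col_apply, MulOpposite.smul_eq_mul_unop, MulOpposite.unop_op] at h2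
  rw [pe2_eq, pe2_eq, ix_pt hi, ix_pt hj] at h2
  omega

end Cfsg.Agent.Lib.H8Sec
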