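import Cfsg.Agent.Lib.H8SecB

/-!
# The main theorem on sections (helper8)
-/

set_option autoImplicit false
set_option maxHeartbeats 400000

namespace Cfsg.Agent.Lib.H8Sec

open Cfsg Cfsg.Agent.Lib.Golay Cfsg.Agent.Lib.LeechMin Cfsg.Agent.Lib.GolayCoset Cfsg.Agent.Lib.LeechXi
  Cfsg.Agent.Lib.LeechTrans Cfsg.Agent.Lib.LeechCo2 Cfsg.Agent.Lib.LeechFrame Cfsg.Agent.Lib.LeechCount
  Cfsg.Agent.Lib.LeechOrder Cfsg.Agent.Lib.LeechMod Cfsg.Agent.Lib.LeechQuot Cfsg.Agent.Lib.LeechChain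
  Cfsg.Agent.Lib.LeechSyl Cfsg.Agent.Lib.LargeExtra
open Subgroup

/-- the conclusion -/
def Concl (S : Type) [Group S] (n : ℕ) (T : Type*) [Group T] : Prop :=
  IsSimpleGroup S ∧ ¬ IsMulCommutative S ∧ ∃ z : S, orderOf z = 2 ∧ ∃ (Q : Subgroup (Subgroup.centralizer ({z} : Set S))) (_ : Q.Normal),
    Cfsg.generalizedFittingSubgroup (Subgroup.centralizer ({z} : Set S)) = Q ∧ Cfsg.IsExtraspecial 2 Q ∧ Nat.card Q = 2 ^ n ∧
    Nonempty ((Subgroup.centralizer ({z} : Set S)) ⧸ Q ≃* T) ∧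
    ∃ g : S, (∃ hq : g * z * g⁻¹ ∈ Subgroup.centralizer ({z} : Set S), (⟨g * z * g⁻¹, hq⟩ : Subgroup.centralizer ({z} : Set S)) ∈ Q) ∧ g * z * g⁻¹ ≠ z

variable {a : Co0} {p : ℕ}

namespace Dat

theorem main (d : Dat a p) {T : Type*} [Group T] [IsSimpleGroup T] (hT : ∀ N : Subgroup T, N.Normal → IsPGroup 2 N → N = ⊥)
    (e : d.CS ⧸ d.QC ≃* T) {s g w : Co0} (hs : s ∈ QA a) (hsz : s ≠ zz) (hg : g ∈ MA a) (hgs : g * zz = negOne * (s * g))
    (hw : w ∈ NN a) (hw1 : w * s ≠ s * w) (hw2 : w * s ≠ zz * (s * w)) {n : ℕ} (hn : 4 ≤ n) (hcard : Nat.card (QA a) = 2 ^ n)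
    (irr : ∀ X : Subgroup Co0, X ≤ QA a → (∀ g ∈ NN a, ∀ t ∈ X, g * t * g⁻¹ ∈ X) → s ∈ X → zz ∈ X → QA a ≤ X) :
    Concl (SS a) n T := by
  haveI : Fact (Nat.Prime 2) := ⟨Nat.prime_two⟩
  haveI : Finite (SS a) := inferInstance
  have hs1 : s ≠ 1 := by
    intro h
    apply hw1
    rw [h, mul_one, one_mul]
  have hEx := d.exA hs hs1 hsz
  have hExt : IsExtraspecial 2 (QA a) := isExtraspecial_of_exData hEx
  have hExC : IsExtraspecial 2 d.QC := isExtraspecial_congr d.eQ hExt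
  have hcardC : Nat.card d.QC = 2 ^ n := by rw [← Nat.card_congr d.eQ.toEquiv, hcard]
  set ρ : d.CS →* T := e.toMonoidHom.comp (QuotientGroup.mk' d.QC) with hρ
  have hρs : Function.Surjective ρ := e.surjective.comp (QuotientGroup.mk'_surjective _)
  have hρk : ρ.ker = d.QC := by
    rw [hρ, ← MonoidHom.comap_ker, (MonoidHom.ker_eq_bot_iff _).2 e.injective, MonoidHom.comap_bot, QuotientGroup.ker_mk']
  have hQp : IsPGroup 2 d.QC := IsPGroup.of_card hcardC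
  have hcore : pCore 2 d.CS = d.QC := by
    rw [← hρk]
    apply pCore_eq_ker ρ hρs
    · rw [hρk]; exact hQp
    · exact hT
  -- the centralizer of the extraspecial group
  have hcent : centralizer (d.QC : Set d.CS) ≤ d.QC := by
    have hnC : (centralizer (d.QC : Set d.CS)).Normal := inferInstance
    rcases (hnC.map ρ hρs).eq_bot_or_eq_top with h | h
    · rw [Subgroup.map_eq_bot_iff, hρk] at h
      exact h
    · exfalso
      have h1 : ρ (d.piC ⟨w, hw⟩) ∈ (centralizer (d.QC : Set d.CS)).map ρ := by rw [h]; trivial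
      obtain ⟨c, hc, h2⟩ := h1
      have h3 : c⁻¹ * d.piC ⟨w, hw⟩ ∈ d.QC := by
        rw [← hρk, MonoidHom.mem_ker, map_mul, map_inv, h2, inv_mul_cancel]
      obtain ⟨q, hq, h4⟩ := d.mem_QC.1 h3
      have h5 : d.piC ⟨w, hw⟩ = c * d.piC ⟨q, QA_le hq⟩ := by rw [← h4, mul_inv_cancel_left]
      -- conjugate of s
      have hqs := NN_conj (QA_le hq) hs
      have h6 : d.piC ⟨w * s * w⁻¹, QA_le (NN_conj hw hs)⟩ = d.piC ⟨q * s * q⁻¹, QA_le hqs⟩ := by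
        have e1 : (⟨w * s * w⁻¹, QA_le (NN_conj hw hs)⟩ : NN a) = ⟨w, hw⟩ * ⟨s, QA_le hs⟩ * ⟨w, hw⟩⁻¹ := rfl
        have e2 : (⟨q * s * q⁻¹, QA_le hqs⟩ : NN a) = ⟨q, QA_le hq⟩ * ⟨s, QA_le hs⟩ * ⟨q, QA_le hq⟩⁻¹ := rfl
        have h7 := Subgroup.mem_centralizer_iff.1 hc (d.piC ⟨q * s * q⁻¹, QA_le hqs⟩) (d.mem_QC.2 ⟨_, hqs, rfl⟩)
        rw [e2] at h7 ⊢
        rw [e1, map_mul, map_mul, map_inv, h5, mul_inv_rev]
        rw [map_mul, map_mul, map_inv] at h7 ⊢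
        have h8 : c * d.piC ⟨q, QA_le hq⟩ * d.piC ⟨s, QA_le hs⟩ * ((d.piC ⟨q, QA_le hq⟩)⁻¹ * c⁻¹) =
            c * (d.piC ⟨q, QA_le hq⟩ * d.piC ⟨s, QA_le hs⟩ * (d.piC ⟨q, QA_le hq⟩)⁻¹) * c⁻¹ := by
          simp only [mul_assoc]
        rw [h8, ← h7, mul_inv_cancel_right]
      have h9 := d.q_inj (NN_conj hw hs) hqs h6
      rcases Q9_comm hq.1 hs.1 with h10 | h10
      · apply hw1
        rw [h10, mul_inv_cancel_right] at h9
        exact mul_inv_eq_iff_eq_mul.1 h9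
      · apply hw2
        rw [h10, mul_assoc zz, mul_inv_cancel_right] at h9
        rw [mul_inv_eq_iff_eq_mul.1 h9, mul_assoc]
  have hF : generalizedFittingSubgroup d.CS = d.QC := by
    rw [← hcore, CharPLocal.genFitting_eq_pCore_iff, hcore]
    exact hcent
  have hzo : orderOf d.zS = 2 := by
    apply orderOf_eq_prime
    · rw [pow_two]
      show mkS a _ * mkS a _ = 1
      rw [← map_mul, ← map_one (mkS a)]
      congr 1
      exact Subtype.ext zz_sq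
    · intro h
      have h1 : mkS a 1 = mkS a ⟨zz, d.zz_MA⟩ := by rw [map_one]; exact h.symm
      obtain ⟨i, h2 | h2⟩ := mkS_eq.1 h1
      · exact zz_ne (d.sep (one_mem Q9) zz_Q9 h2)
      · exact d.sep' (one_mem Q9) zz_Q9 h2
  -- the conjugate
  have hconj : mkS a ⟨g, hg⟩ * d.zS * (mkS a ⟨g, hg⟩)⁻¹ = mkS a ⟨s, hs.2⟩ := by
    rw [mul_inv_eq_iff_eq_mul]
    show mkS a _ * mkS a _ = mkS a _ * mkS a _
    rw [← map_mul, ← map_mul]
    symm
    rw [mkS_eq]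
    refine ⟨0, Or.inr ?_⟩
    rw [zpow_zero, mul_one]
    exact hgs
  have hsC : mkS a ⟨s, hs.2⟩ ∈ d.CS := d.mkS_mem_CS (QA_le hs)
  have hsQ : (⟨mkS a ⟨s, hs.2⟩, hsC⟩ : d.CS) ∈ d.QC := d.mem_QC.2 ⟨s, hs, rfl⟩
  have hsne : mkS a ⟨s, hs.2⟩ ≠ d.zS := by
    intro h
    obtain ⟨i, h2 | h2⟩ := mkS_eq.1 h
    · exact hsz (d.sep hs.1 zz_Q9 h2).symm
    · exact d.sep' hs.1 zz_Q9 h2
  -- the pre-large subgroup
  have hpre := preLarge_of_setting' hzo hF hExC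
  have hmemQ : ∀ {x : SS a}, x ∈ d.QC.map (Subgroup.centralizer ({d.zS} : Set (SS a))).subtype ↔ ∃ (q : Co0) (hq : q ∈ QA a), x = mkS a ⟨q, hq.2⟩ := by
    intro x
    constructor
    · rintro ⟨c, hc, rfl⟩
      obtain ⟨q, hq, rfl⟩ := d.mem_QC.1 hc
      exact ⟨q, hq, rfl⟩
    · rintro ⟨q, hq, rfl⟩
      exact ⟨_, d.mem_QC.2 ⟨q, hq, rfl⟩, rfl⟩
  have hsimple : IsSimpleGroup (SS a) := by
    refine simple_of_large hpre ?_ (g := mkS a ⟨g, hg⟩) ?_ ?_ ?_ ?_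
    · have h1 : Nat.card (d.QC.map (Subgroup.centralizer ({d.zS} : Set (SS a))).subtype) = 2 ^ n := by
        rw [← hcardC]
        exact Nat.card_congr (d.QC.equivMapOfInjective _ (Subgroup.subtype_injective _)).toEquiv.symm
      rw [h1]
      calc 8 < 2 ^ 4 := by norm_num
        _ ≤ 2 ^ n := Nat.pow_le_pow_right (by norm_num) hn
    · rw [hconj, hmemQ]; exact ⟨s, hs, rfl⟩
    · rw [hconj]; exact hsne
    · intro N hN hsN
      rw [hconj] at hsN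
      let X : Subgroup Co0 := ((N.comap (mkS a)).map (MA a).subtype) ⊓ QA a
      have hX : ∀ {q : Co0} (hq : q ∈ QA a), q ∈ X ↔ mkS a ⟨q, hq.2⟩ ∈ N := by
        intro q hq
        constructor
        · rintro ⟨⟨m, hm, hm'⟩, _⟩
          have : m = ⟨q, hq.2⟩ := Subtype.ext hm'
          rw [← this]; exact hm
        · intro h
          exact ⟨⟨⟨q, hq.2⟩, h, rfl⟩, hq⟩
      have hinv : ∀ g ∈ NN a, ∀ t ∈ X, g * t * g⁻¹ ∈ X := by
        intro h hh t ht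
        have ht' : t ∈ QA a := ht.2
        rw [hX (NN_conj hh ht')]
        have h1 := (hX ht').1 ht
        have h2 := hN.conj_mem _ h1 (mkS a ⟨h, hh.1⟩)
        rw [← map_mul, ← map_inv, ← map_mul] at h2
        exact h2
      have hsX : s ∈ X := (hX hs).2 hsN
      have hzX : zz ∈ X := by
        obtain ⟨y, hy, hys⟩ := hEx.exists_conj hs hs1 hsz
        have h1 := mul_mem (hinv y (QA_le hy) s hsX) (inv_mem hsX)
        rw [hys, mul_inv_cancel_right] at h1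
        exact h1
      have h2 := irr X inf_le_right hinv hsX hzX
      intro x hx
      obtain ⟨q, hq, rfl⟩ := hmemQ.1 hx
      exact (hX hq).1 (h2 hq)
    · intro N hN hQN
      have hNC : ((N.subgroupOf d.CS).map ρ).Normal := (hN.subgroupOf d.CS).map ρ hρs
      rcases hNC.eq_bot_or_eq_top with h | h
      · left
        rw [Subgroup.map_eq_bot_iff, hρk] at h
        intro x hx hxz
        have hxC : x ∈ d.CS := Subgroup.mem_centralizer_singleton_iff.2 hxz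
        exact ⟨⟨x, hxC⟩, h hx, rfl⟩
      · right
        intro x hxz
        have hxC : x ∈ d.CS := Subgroup.mem_centralizer_singleton_iff.2 hxz
        have h1 : ρ ⟨x, hxC⟩ ∈ (N.subgroupOf d.CS).map ρ := by rw [h]; trivial
        obtain ⟨c, hc, h2⟩ := h1
        have h3 : c⁻¹ * ⟨x, hxC⟩ ∈ d.QC := by
          rw [← hρk, MonoidHom.mem_ker, map_mul, map_inv, h2, inv_mul_cancel]
        have h4 : (((c⁻¹ * ⟨x, hxC⟩ : d.CS)) : SS a) ∈ N := hQN ⟨_, h3, rfl⟩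
        have h5 : (c : SS a) ∈ N := hc
        have h6 := N.mul_mem h5 h4
        have h7 : (c : SS a) * (((c⁻¹ * ⟨x, hxC⟩ : d.CS)) : SS a) = x := by
          show (c : SS a) * ((c : SS a)⁻¹ * x) = x
          rw [mul_inv_cancel_left]
        rwa [h7] at h6
  refine ⟨hsimple, ?_, d.zS, hzo, d.QC, d.QC_normal, hF, hExC, hcardC, ⟨e⟩, mkS a ⟨g, hg⟩, ⟨?_, ?_⟩, ?_⟩
  · intro hcomm
    apply hsne
    rw [← hconj]
    have := hcomm.is_comm.comm (mkS a ⟨g, hg⟩) d.zS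
    rw [this, mul_inv_cancel_right]
  · rw [hconj]; exact hsC
  · have : (⟨mkS a ⟨g, hg⟩ * d.zS * (mkS a ⟨g, hg⟩)⁻¹, by rw [hconj]; exact hsC⟩ : d.CS) = ⟨mkS a ⟨s, hs.2⟩, hsC⟩ := Subtype.ext hconj
    rw [this]; exact hsQ
  · rw [hconj]; exact hsne

end Dat

end Cfsg.Agent.Lib.H8Sec
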