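import Cfsg.Agent.Lib.H8Sec
import Cfsg.Agent.Lib.H89LeechMat

/-!
# Coded action on the quadratic space of dimension eight, bounds (helper8)
-/

set_option autoImplicit false
set_option maxHeartbeats 400000

namespace Cfsg.Agent.Lib.H8Sec

open Cfsg Cfsg.Agent.Lib.Golay Cfsg.Agent.Lib.LeechMin Cfsg.Agent.Lib.GolayCoset Cfsg.Agent.Lib.LeechXi
  Cfsg.Agent.Lib.LeechTrans Cfsg.Agent.Lib.LeechCo2 Cfsg.Agent.Lib.LeechFrame Cfsg.Agent.Lib.LeechCount
  Cfsg.Agent.Lib.LeechOrder Cfsg.Agent.Lib.LeechMod Cfsg.Agent.Lib.LeechQuot Cfsg.Agent.Lib.LeechChain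
  Cfsg.Agent.Lib.LeechSyl Cfsg.Agent.Lib.LargeExtra Cfsg.Agent.Lib.H89LeechMat
open Subgroup

/-! ### coded matrices -/

/-- the coded matrix `R` represents `g` -/
def Rep (g : Co0) (R : List ℕ) : Prop :=
  ∀ v : leechLattice, (mt R).mulVec (v : GolayPt → ℤ) = 8 • ((g • v : leechLattice) : GolayPt → ℤ)

/-- entries of the product -/
def pe2 (R S : List ℕ) (i j : ℕ) : ℤ := zs 24 fun k => Int.mul (dv (R.getD i 0) k) (dv (S.getD k 0) j)

theorem pe2_eq (R S : List ℕ) (p q : GolayPt) : (mt R * mt S) p q = pe2 R S (ix p) (ix q) := by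
  unfold pe2
  rw [zs_eq, ← sum_ix, Matrix.mul_apply]
  rfl

def mulOK (R S T : List ℕ) : Bool := allLt 24 fun i => allLt 24 fun j => decide (pe2 R S i j = Int.mul 8 (dv (T.getD i 0) j))
def eqOK (R S R' S' : List ℕ) : Bool := allLt 24 fun i => allLt 24 fun j => decide (pe2 R S i j = pe2 R' S' i j)
def eqNeg (R S R' S' : List ℕ) : Bool := allLt 24 fun i => allLt 24 fun j => decide (pe2 R S i j = Int.neg (pe2 R' S' i j))

theorem Rep.two {g h : Co0} {R S : List ℕ} (hg : Rep g R) (hh : Rep h S) (v : leechLattice) :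
    (mt R * mt S).mulVec (v : GolayPt → ℤ) = 8 • (8 • (((g * h) • v : leechLattice) : GolayPt → ℤ)) := by
  rw [← Matrix.mulVec_mulVec, hh v, Matrix.mulVec_smul, hg, mul_smul]

theorem Rep.mul {g h : Co0} {R S T : List ℕ} (hg : Rep g R) (hh : Rep h S) (hT : mulOK R S T = true) : Rep (g * h) T := by
  have h1 : mt R * mt S = (8 : ℤ) • mt T := by
    funext p q
    rw [pe2_eq]
    exact of_decide_eq_true (allLt_iff.mp (allLt_iff.mp hT (ix p) (ix_lt p)) (ix q) (ix_lt q))
  intro v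
  have h2 := hg.two hh v
  rw [h1, Matrix.smul_mulVec] at h2
  apply eight_cancel
  rw [← h2]
  funext p
  simp

theorem Rep.eq {g h g' h' : Co0} {R S R' S' : List ℕ} (hg : Rep g R) (hh : Rep h S) (hg' : Rep g' R') (hh' : Rep h' S')
    (hT : eqOK R S R' S' = true) : g * h = g' * h' := by
  have h1 : mt R * mt S = mt R' * mt S' := by
    funext p q
    rw [pe2_eq, pe2_eq]
    exact of_decide_eq_true (allLt_iff.mp (allLt_iff.mp hT (ix p) (ix_lt p)) (ix q) (ix_lt q))
  apply ext_smul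
  intro v
  apply Subtype.ext
  apply eight_cancel
  apply eight_cancel
  rw [← hg.two hh v, ← hg'.two hh' v, h1]

theorem Rep.eqN {g h g' h' : Co0} {R S R' S' : List ℕ} (hg : Rep g R) (hh : Rep h S) (hg' : Rep g' R') (hh' : Rep h' S')
    (hT : eqNeg R S R' S' = true) : g * h = negOne * (g' * h') := by
  have h1 : mt R * mt S = -(mt R' * mt S') := by
    funext p q
    rw [Matrix.neg_apply, pe2_eq, pe2_eq]
    exact of_decide_eq_true (allLt_iff.mp (allLt_iff.mp hT (ix p) (ix_lt p)) (ix q) (ix_lt q))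
  apply ext_smul
  intro v
  apply Subtype.ext
  apply eight_cancel
  apply eight_cancel
  rw [mul_smul negOne, negOne_smul]
  have h2 : ((-((g' * h') • v) : leechLattice) : GolayPt → ℤ) = -(((g' * h') • v : leechLattice) : GolayPt → ℤ) := rfl
  rw [h2, smul_neg, smul_neg, ← hg'.two hh' v, ← hg.two hh v, h1, Matrix.neg_mulVec]

theorem coe_ef' (i : GolayPt) : (ef i : GolayPt → ℤ) = Pi.single i 8 := coe_ef i

theorem Rep.entry {g : Co0} {R R' : List ℕ} (h : Rep g R) (h' : Rep g R') {i j : ℕ} (hi : i < 24) (hj : j < 24) :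
    dv (R.getD i 0) j = dv (R'.getD i 0) j := by
  have h1 : (mt R).mulVec (ef (pt j) : GolayPt → ℤ) = (mt R').mulVec (ef (pt j) : GolayPt → ℤ) := by rw [h, h']
  have h2 := congrFun h1 (pt i)
  rw [coe_ef', Matrix.mulVec_single, Matrix.mulVec_single] at h2
  simp only [Pi.smul_apply, Matrix.col_apply, MulOpposite.smul_eq_mul_unop, MulOpposite.unop_op] at h2
  have h3 : H89LeechMat.mt R (pt i) (pt j) = dv (R.getD i 0) j := by unfold H89LeechMat.mt; rw [ix_pt hi, ix_pt hj]
  have h4 : H89LeechMat.mt R' (pt i) (pt j) = dv (R'.getD i 0) j := by unfold H89LeechMat.mt; rw [ix_pt hi, ix_pt hj]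
  rw [h3, h4] at h2
  omega

/-- the diagonal matrix of signs -/
def dgOK (m : ℕ) (D : List ℕ) : Bool := allLt 24 fun i => allLt 24 fun j =>
  decide (dv (D.getD i 0) j = cond (Nat.beq i j) (cond (Nat.testBit m i) (-8) 8) 0)

theorem rep_eps {m : ℕ} {D : List ℕ} (hm : mset m ∈ Sup) (h : dgOK m D = true) : Rep (eps (mset m) hm) D := by
  intro v
  funext p
  have h1 : (mt D).mulVec (v : GolayPt → ℤ) p = ∑ q, mt D p q * (v : GolayPt → ℤ) q := rfl
  rw [h1, Finset.sum_eq_single p]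
  · have h2 := of_decide_eq_true (allLt_iff.mp (allLt_iff.mp h (ix p) (ix_lt p)) (ix p) (ix_lt p))
    rw [show Nat.beq (ix p) (ix p) = true from Nat.beq_refl _] at h2
    show mt D p p * _ = 8 • ((eps (mset m) hm • v : leechLattice) : GolayPt → ℤ) p
    rw [eps_apply]
    have h3 : mt D p p = cond (Nat.testBit m (ix p)) (-8) 8 := h2
    rw [h3]
    by_cases hp : p ∈ mset m
    · rw [if_pos hp, mem_mset.1 hp]
      simp
    · rw [if_neg hp]
      have h4 : Nat.testBit m (ix p) = false := by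
        rw [Bool.eq_false_iff]; exact fun h5 => hp (mem_mset.2 h5)
      rw [h4]
      simp
  · intro q _ hq
    have h2 := of_decide_eq_true (allLt_iff.mp (allLt_iff.mp h (ix p) (ix_lt p)) (ix q) (ix_lt q))
    have h3 : Nat.beq (ix p) (ix q) = false := by
      rw [Bool.eq_false_iff]; exact fun h5 => hq (ix_injective (Nat.eq_of_beq_eq_true h5)).symm
    rw [h3] at h2
    have h4 : mt D p q = 0 := h2
    rw [h4, zero_mul]
  · intro h; exact absurd (Finset.mem_univ _) h

/-! ### codes of vectors of dimension eight -/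

def c8 : Fin 4 ⊕ Fin 4 → ℕ
  | Sum.inl i => i
  | Sum.inr i => 4 + i

def d8 (n : ℕ) : V8 := fun k => if n.testBit (c8 k) = true then 1 else 0

def n8 (v : V8) : ℕ := (v (Sum.inl 0)).val + 2 * (v (Sum.inl 1)).val + 4 * (v (Sum.inl 2)).val + 8 * (v (Sum.inl 3)).val +
  16 * (v (Sum.inr 0)).val + 32 * (v (Sum.inr 1)).val + 64 * (v (Sum.inr 2)).val + 128 * (v (Sum.inr 3)).val

theorem n8_spec : ∀ v : V8, n8 v < 256 ∧ d8 (n8 v) = v := by decide +kernel

theorem d8_inj : ∀ n : Fin 256, n8 (d8 n) = n := by decide +kernel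

theorem d8_injective {m n : ℕ} (hm : m < 256) (hn : n < 256) (h : d8 m = d8 n) : m = n := by
  have h1 := d8_inj ⟨m, hm⟩
  have h2 := d8_inj ⟨n, hn⟩
  have h3 : n8 (d8 m) = m := h1
  have h4 : n8 (d8 n) = n := h2
  rw [← h3, h, h4]

theorem d8_xor (m n : ℕ) : d8 (Nat.xor m n) = d8 m + d8 n := by
  funext k
  show (if (Nat.xor m n).testBit (c8 k) = true then (1 : ZMod 2) else 0) = (if m.testBit (c8 k) = true then 1 else 0) +
    (if n.testBit (c8 k) = true then 1 else 0)
  have : (Nat.xor m n).testBit (c8 k) = (m.testBit (c8 k) ^^ n.testBit (c8 k)) := Nat.testBit_xor m n _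
  rw [this]
  cases m.testBit (c8 k) <;> cases n.testBit (c8 k) <;> decide

theorem d8_zero : d8 0 = 0 := by
  funext k
  show (if (0 : ℕ).testBit (c8 k) = true then (1 : ZMod 2) else 0) = 0
  rw [Nat.zero_testBit]; rfl

/-- coded linear maps -/
def apk (C : List ℕ) (n k : ℕ) : ℕ := Nat.rec (motive := fun _ => ℕ) 0 (fun i ih => Nat.xor ih (cond (Nat.testBit n i) (C.getD i 0) 0)) k
def apL (C : List ℕ) (n : ℕ) : ℕ := apk C n 8

def PW : List ℕ := [1, 2, 4, 8, 16, 32, 64, 128]

theorem low_chk : ∀ n : Fin 256, apL PW n = n := by decide +kernel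

theorem d8_mod (n : ℕ) : d8 n = d8 (n % 256) := by
  funext k
  show (if n.testBit (c8 k) = true then (1 : ZMod 2) else 0) = if (n % 256).testBit (c8 k) = true then 1 else 0
  have h1 : c8 k < 8 := by
    rcases k with k | k
    · show (k : ℕ) < 8; omega
    · show 4 + (k : ℕ) < 8; omega
  rw [show (256 : ℕ) = 2 ^ 8 from rfl, Nat.testBit_mod_two_pow]
  simp [h1]

theorem apk_spec {C : List ℕ} {f : V8 →ₗ[ZMod 2] V8} (h : ∀ i < 8, f (d8 (PW.getD i 0)) = d8 (C.getD i 0)) (n k : ℕ) (hk : k ≤ 8) :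
    f (d8 (apk PW n k)) = d8 (apk C n k) := by
  induction k with
  | zero =>
    show f (d8 0) = d8 0
    rw [d8_zero, map_zero]
  | succ k ih =>
    have ih' := ih (by omega)
    show f (d8 (Nat.xor (apk PW n k) (cond (Nat.testBit n k) (PW.getD k 0) 0))) =
      d8 (Nat.xor (apk C n k) (cond (Nat.testBit n k) (C.getD k 0) 0))
    rw [d8_xor, d8_xor, map_add, ih']
    cases Nat.testBit n k
    · show _ + f (d8 0) = _ + d8 0
      rw [d8_zero, map_zero]
    · show _ + f (d8 (PW.getD k 0)) = _ + d8 (C.getD k 0)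
      rw [h k (by omega)]

theorem apL_spec {C : List ℕ} {f : V8 →ₗ[ZMod 2] V8} (h : ∀ i < 8, f (d8 (PW.getD i 0)) = d8 (C.getD i 0)) {n : ℕ} (hn : n < 256) :
    f (d8 n) = d8 (apL C n) := by
  have h1 := apk_spec h n 8 le_rfl
  have h2 : apk PW n 8 = n := low_chk ⟨n, hn⟩
  rw [h2] at h1
  exact h1

/-! ### the coded basis of the lattice vectors supported on the octad -/

def BC : List ℕ := [852206658587914495720133363937854100, 1018360158061024257466626376827683344, 686053159114800011607157481402675856, 686053159269542516517830015765070356, 852206658587909773353650494292509068, 769129909083468649846412789458356686, 686053159114800011607157481268462224, 852206658433171990809460829575332368]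

theorem BC_ok : ∀ k : Fin 8, ∀ p : GolayPt, dv (BC.getD k 0) (ix p) = vl (bL.getD k []) p := by decide +kernel

theorem BC_vv (k : Fin 8) : vv (BC.getD k 0) = (bV k : GolayPt → ℤ) := by
  funext p
  exact BC_ok k p

/-- eight times the inner product -/
def hd (R : List ℕ) (a w : ℕ) : ℤ := zs 24 fun i => Int.mul (zs 24 fun j => Int.mul (dv (R.getD i 0) j) (dv a j)) (dv w i)

theorem hd_spec {R : List ℕ} {g : Co0} (hg : Rep g R) {a w : ℕ} {x y : leechLattice} (hx : (x : GolayPt → ℤ) = vv a)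
    (hy : (y : GolayPt → ℤ) = vv w) : hd R a w = 8 * dotInt ((g • x : leechLattice) : GolayPt → ℤ) (y : GolayPt → ℤ) := by
  have h1 := hg x
  have h2 : (8 : ℤ) * dotInt ((g • x : leechLattice) : GolayPt → ℤ) (y : GolayPt → ℤ) =
      dotInt (8 • ((g • x : leechLattice) : GolayPt → ℤ)) (y : GolayPt → ℤ) := by
    unfold dotInt
    rw [Finset.mul_sum]
    apply Finset.sum_congr rfl
    intro p _
    simp only [Pi.smul_apply, nsmul_eq_mul]
    push_cast
    ring
  rw [h2, ← h1, hx, hy]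
  unfold hd dotInt
  rw [zs_eq, ← sum_ix]
  apply Finset.sum_congr rfl
  intro p _
  rw [mulVec_vv]
  rfl

def colOK (R C : List ℕ) : Bool := allLt 8 fun k => allLt 8 fun j =>
  decide (Int.emod (Int.ediv (hd R (BC.getD k 0) (BC.getD (Nat.mod (Nat.add j 4) 8) 0)) 128) 2 =
    cond (Nat.testBit (C.getD k 0) j) 1 0)

theorem zmod_of_emod' {m : ℤ} {b : Bool} (h : Int.emod m 2 = cond b 1 0) : ((m : ℤ) : ZMod 2) = if b = true then 1 else 0 := by
  have h1 : (m : ZMod 2) = ((m % 2 : ℤ) : ZMod 2) := by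
    rw [ZMod.intCast_eq_intCast_iff']; omega
  rw [h1]
  have h2 : m % 2 = cond b 1 0 := h
  rw [h2]
  cases b <;> simp

theorem dot_comm' (x y : GolayPt → ℤ) : dotInt x y = dotInt y x := by
  unfold dotInt
  exact Finset.sum_congr rfl fun i _ => mul_comm _ _

theorem j8_num : ∀ l : Fin 4 ⊕ Fin 4, ((j8 l : Fin 8) : ℕ) = (c8 l + 4) % 8 ∧ c8 l < 8 := by decide
theorem pw_single : ∀ i : Fin 8, ∃ k : Fin 4 ⊕ Fin 4, ((k8 k : Fin 8) : ℕ) = i ∧ d8 (PW.getD i 0) = Pi.single k 1 := by decide +kernel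

theorem col_spec {R C : List ℕ} (h : colOK R C = true) {g : D8} (hg : Rep g R) :
    ∀ i < 8, mp8 g (d8 (PW.getD i 0)) = d8 (C.getD i 0) := by
  intro i hi
  obtain ⟨k, hk, hs⟩ := pw_single ⟨i, hi⟩
  have hk' : ((k8 k : Fin 8) : ℕ) = i := hk
  have hs' : d8 (PW.getD i 0) = Pi.single k 1 := hs
  rw [hs', ← kap8_bW, mp8_kap]
  funext l
  obtain ⟨hl, hl8⟩ := j8_num l
  have h1 := of_decide_eq_true (allLt_iff.mp (allLt_iff.mp h i hi) (c8 l) hl8)
  have h2 := hd_spec hg (BC_vv (k8 k)).symm (BC_vv (j8 l)).symm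
  rw [hk', hl] at h2
  have h3 : hd R (BC.getD i 0) (BC.getD (Nat.mod (Nat.add (c8 l) 4) 8) 0) = 8 * dotInt (((g : Co0) • bV (k8 k) : leechLattice) : GolayPt → ℤ) (bV (j8 l) : GolayPt → ℤ) := h2
  rw [h3] at h1
  have h4 : Int.ediv (8 * dotInt (((g : Co0) • bV (k8 k) : leechLattice) : GolayPt → ℤ) (bV (j8 l) : GolayPt → ℤ)) 128 =
      dotInt (bV (j8 l) : GolayPt → ℤ) (((g : Co0) • bV (k8 k) : leechLattice) : GolayPt → ℤ) / 16 := by
    have e : ∀ m : ℤ, Int.ediv (8 * m) 128 = m / 16 := fun m => by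
      have : Int.ediv (8 * m) 128 = 8 * m / 128 := rfl
      rw [this]; omega
    rw [e, dot_comm']
  rw [h4] at h1
  exact zmod_of_emod' h1

/-! ### forms -/

def PAR : ℕ := 47758914269546354982683078068829456704164423862093743397580034411621752859030
def QQ : ℕ := 47759223636507730209801550344371119078934783318887441289834004656231277002752

theorem par_chk : ∀ n : Fin 256, ∑ k, d8 n k = if Nat.testBit PAR n = true then (1 : ZMod 2) else 0 := by decide +kernel
theorem qq_chk : ∀ n : Fin 256, quadFormPlus 4 (ZMod 2) (d8 n) = if Nat.testBit QQ n = true then (1 : ZMod 2) else 0 := by decide +kernel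

def sw (v : ℕ) : ℕ := Nat.lor (Nat.shiftLeft (Nat.land v 15) 4) (Nat.shiftRight v 4)

theorem sw_chk : ∀ v : Fin 256, sw v < 256 ∧ ∀ k : Fin 4 ⊕ Fin 4, (sw v).testBit (c8 k) = Nat.testBit v (c8 (Sum.swap k)) := by decide +kernel

def bb (u v : ℕ) : Bool := Nat.testBit PAR (Nat.land u (sw v))

theorem B8_code {u v : ℕ} (hv : v < 256) : B8 (d8 u) (d8 v) = if bb u v = true then 1 else 0 := by
  obtain ⟨h1, h2⟩ := sw_chk ⟨v, hv⟩
  have h1' : sw v < 256 := h1
  have h3 : Nat.land u (sw v) < 256 := lt_of_le_of_lt Nat.and_le_right h1'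
  have h4 : (∑ k, d8 (Nat.land u (sw v)) k) = if Nat.testBit PAR (Nat.land u (sw v)) = true then (1 : ZMod 2) else 0 := par_chk ⟨_, h3⟩
  unfold bb
  rw [← h4]
  unfold B8
  apply Finset.sum_congr rfl
  intro k _
  have h5 : (sw v).testBit (c8 k) = Nat.testBit v (c8 (Sum.swap k)) := h2 k
  have h6 : (Nat.land u (sw v)).testBit (c8 k) = (u.testBit (c8 k) && (sw v).testBit (c8 k)) := Nat.testBit_and u (sw v) _
  show (if u.testBit (c8 k) = true then (1 : ZMod 2) else 0) * (if v.testBit (c8 (Sum.swap k)) = true then 1 else 0) =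
    if (Nat.land u (sw v)).testBit (c8 k) = true then 1 else 0
  rw [h6, h5]
  cases u.testBit (c8 k) <;> cases v.testBit (c8 (Sum.swap k)) <;> simp

theorem B8_mp (g : D8) (u v : V8) : B8 (mp8 g u) (mp8 g v) = B8 u v := by
  obtain ⟨x, rfl⟩ := kap8_surj u
  obtain ⟨y, rfl⟩ := kap8_surj v
  rw [mp8_kap, mp8_kap, B8_kap, B8_kap]
  exact kap_smul _ _

theorem q_mp (g : D8) (u : V8) : quadFormPlus 4 (ZMod 2) (mp8 g u) = quadFormPlus 4 (ZMod 2) u := by
  obtain ⟨x, rfl⟩ := kap8_surj u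
  rw [mp8_kap, q8_kap, q8_kap]
  show q8 ((g : Co0) • (x : leechLattice)) = _
  unfold q8
  rw [sqNorm_smul]

theorem mp_mul (g h : D8) (v : V8) : mp8 (g * h) v = mp8 g (mp8 h v) := by
  have := congrArg (fun f : Module.End (ZMod 2) V8 => f v) (rho8E.map_mul g h)
  exact this

theorem mp_one (v : V8) : mp8 1 v = v := by
  have := congrArg (fun f : Module.End (ZMod 2) V8 => f v) (rho8E.map_one)
  exact this

theorem ite_inj {b c : Bool} (h : (if b = true then (1 : ZMod 2) else 0) = if c = true then 1 else 0) : b = c := by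
  cases b <;> cases c
  · rfl
  · simp at h
  · simp at h
  · rfl

/-- the code of the image -/
noncomputable def im (g : D8) (n : ℕ) : ℕ := n8 (mp8 g (d8 n))

theorem im_lt (g : D8) (n : ℕ) : im g n < 256 := (n8_spec _).1
theorem d8_im (g : D8) (n : ℕ) : d8 (im g n) = mp8 g (d8 n) := (n8_spec _).2

theorem bb_im (g : D8) {u v : ℕ} (hv : v < 256) : bb (im g u) (im g v) = bb u v := by
  apply ite_inj
  rw [← B8_code (im_lt g v), ← B8_code hv, d8_im, d8_im, B8_mp]

theorem qq_im (g : D8) {u : ℕ} (hu : u < 256) : Nat.testBit QQ (im g u) = Nat.testBit QQ u := by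
  apply ite_inj
  have h1 := qq_chk ⟨im g u, im_lt g u⟩
  have h2 := qq_chk ⟨u, hu⟩
  have h1' : quadFormPlus 4 (ZMod 2) (d8 (im g u)) = if Nat.testBit QQ (im g u) = true then (1 : ZMod 2) else 0 := h1
  have h2' : quadFormPlus 4 (ZMod 2) (d8 u) = if Nat.testBit QQ u = true then (1 : ZMod 2) else 0 := h2
  rw [← h1', ← h2', d8_im, q_mp]

def ltOK (C : List ℕ) : Bool := allLt 256 fun n => Nat.blt (apL C n) 256

/-- elements commuting with `a` commute with the coded map -/
theorem im_comm {a : Co0} (haD : a ∈ D8) {C : List ℕ} (hC : ∀ i < 8, mp8 ⟨a, haD⟩ (d8 (PW.getD i 0)) = d8 (C.getD i 0))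
    (hlt : ltOK C = true) {g : D8} (hg : (g : Co0) * a = a * g) {n : ℕ} (hn : n < 256) : im g (apL C n) = apL C (im g n) := by
  have h2 : apL C (im g n) < 256 := by
    have := allLt_iff.mp hlt (im g n) (im_lt g n)
    rwa [Nat.blt_eq] at this
  apply d8_injective (im_lt _ _) h2
  rw [d8_im, ← apL_spec hC hn, ← apL_spec hC (im_lt g n), d8_im, ← mp_mul, ← mp_mul]
  congr 2
  exact Subtype.ext hg

end Cfsg.Agent.Lib.H8Sec
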