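import Mathlib

/-!
# The strongly regular graph with parameters (77,16,0,4): a rank 5 Gram matrix (helper8)
-/

set_option autoImplicit false
set_option linter.unusedSectionVars false

namespace Cfsg.Agent.Lib.H8Srg77

open Finset

/-! ### Abstract Gram matrix -/

section Gram

variable {S : Type*} [Fintype S] [DecidableEq S] {K : S → S → ℤ}

structure GramHyp (K : S → S → ℤ) : Prop where
  card : Fintype.card S = 60
  symm : ∀ B C, K B C = K C B
  diag : ∀ B, K B B = 4
  row : ∀ B, ∑ D, K B D = 0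
  sq : ∀ B C, ∑ D, K B D * K C D = 48 * K B C
  val : ∀ B C, K B C = 4 ∨ K B C = 1 ∨ K B C = -2

theorem sumsq_zero {f : S → ℤ} (h : ∑ D, f D * f D = 0) (D : S) : f D = 0 := by
  have h1 := (Finset.sum_eq_zero_iff_of_nonneg (s := univ) (f := fun D => f D * f D) (fun i _ => mul_self_nonneg _)).1 h D (mem_univ D)
  exact mul_self_eq_zero.1 h1

theorem eq_of_four (h : GramHyp K) {B C : S} (hBC : K B C = 4) (D : S) : K B D = K C D := by
  have h1 : ∑ D, (K B D - K C D) * (K B D - K C D) = 0 := by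
    calc ∑ D, (K B D - K C D) * (K B D - K C D)
        = ∑ D, (K B D * K B D - 2 * (K B D * K C D) + K C D * K C D) := by
          refine Finset.sum_congr rfl fun D _ => ?_
          ring
      _ = 0 := by
          rw [sum_add_distrib, sum_sub_distrib, ← mul_sum, h.sq, h.sq, h.sq, h.diag, h.diag, hBC]
          norm_num
  have := sumsq_zero h1 D
  simpa [sub_eq_zero] using this

/-- number of `D` with given values -/
def n1 (K : S → S → ℤ) (B : S) (i : ℤ) : ℕ := (univ.filter fun D => K B D = i).card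

def n2 (K : S → S → ℤ) (B C : S) (i j : ℤ) : ℕ := (univ.filter fun D => K B D = i ∧ K C D = j).card

theorem sum_val (h : GramHyp K) (B : S) (f : ℤ → ℤ) :
    ∑ D, f (K B D) = f 4 * n1 K B 4 + f 1 * n1 K B 1 + f (-2) * n1 K B (-2) := by
  unfold n1
  have key : ∀ D, f (K B D) = f 4 * (if K B D = 4 then 1 else 0) + f 1 * (if K B D = 1 then 1 else 0)
      + f (-2) * (if K B D = -2 then 1 else 0) := by
    intro D
    rcases h.val B D with h1 | h1 | h1 <;> rw [h1] <;> norm_num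
  rw [Finset.sum_congr rfl fun D _ => key D, sum_add_distrib, sum_add_distrib, ← mul_sum, ← mul_sum, ← mul_sum,
    card_filter, card_filter, card_filter]
  push_cast
  ring

theorem counts (h : GramHyp K) (B : S) : n1 K B 4 = 4 ∧ n1 K B 1 = 32 ∧ n1 K B (-2) = 24 := by
  have e1 := sum_val h B (fun _ => 1)
  have e2 := sum_val h B (fun x => x)
  have e3 := sum_val h B (fun x => x * x)
  rw [h.sq, h.diag] at e3
  rw [h.row] at e2
  rw [sum_const, card_univ, h.card] at e1
  norm_num at e1 e2 e3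
  omega

theorem sum_val2 (h : GramHyp K) (B C : S) (f : ℤ → ℤ → ℤ) :
    ∑ D, f (K B D) (K C D) = f 4 4 * n2 K B C 4 4 + f 4 1 * n2 K B C 4 1 + f 4 (-2) * n2 K B C 4 (-2)
      + f 1 4 * n2 K B C 1 4 + f 1 1 * n2 K B C 1 1 + f 1 (-2) * n2 K B C 1 (-2)
      + f (-2) 4 * n2 K B C (-2) 4 + f (-2) 1 * n2 K B C (-2) 1 + f (-2) (-2) * n2 K B C (-2) (-2) := by
  unfold n2
  have key : ∀ D, f (K B D) (K C D) =
      f 4 4 * (if K B D = 4 ∧ K C D = 4 then 1 else 0) + f 4 1 * (if K B D = 4 ∧ K C D = 1 then 1 else 0)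
      + f 4 (-2) * (if K B D = 4 ∧ K C D = -2 then 1 else 0)
      + f 1 4 * (if K B D = 1 ∧ K C D = 4 then 1 else 0) + f 1 1 * (if K B D = 1 ∧ K C D = 1 then 1 else 0)
      + f 1 (-2) * (if K B D = 1 ∧ K C D = -2 then 1 else 0)
      + f (-2) 4 * (if K B D = -2 ∧ K C D = 4 then 1 else 0) + f (-2) 1 * (if K B D = -2 ∧ K C D = 1 then 1 else 0)
      + f (-2) (-2) * (if K B D = -2 ∧ K C D = -2 then 1 else 0) := by
    intro D
    rcases h.val B D with h1 | h1 | h1 <;> rcases h.val C D with h2 | h2 | h2 <;> rw [h1, h2] <;> norm_num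
  rw [Finset.sum_congr rfl fun D _ => key D]
  simp only [sum_add_distrib, ← mul_sum, card_filter]
  push_cast
  ring

theorem counts2 (h : GramHyp K) (B C : S) :
    (n2 K B C 4 4 + n2 K B C 4 1 + n2 K B C 4 (-2) = 4 ∧
    n2 K B C 1 4 + n2 K B C 1 1 + n2 K B C 1 (-2) = 32 ∧
    n2 K B C (-2) 4 + n2 K B C (-2) 1 + n2 K B C (-2) (-2) = 24) ∧
    (n2 K B C 4 4 + n2 K B C 1 4 + n2 K B C (-2) 4 = 4 ∧
    n2 K B C 4 1 + n2 K B C 1 1 + n2 K B C (-2) 1 = 32 ∧
    n2 K B C 4 (-2) + n2 K B C 1 (-2) + n2 K B C (-2) (-2) = 24) ∧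
    (16 * (n2 K B C 4 4 : ℤ) + 4 * n2 K B C 4 1 - 8 * n2 K B C 4 (-2) + 4 * n2 K B C 1 4 + n2 K B C 1 1
      - 2 * n2 K B C 1 (-2) - 8 * n2 K B C (-2) 4 - 2 * n2 K B C (-2) 1 + 4 * n2 K B C (-2) (-2) = 48 * K B C) := by
  obtain ⟨b1, b2, b3⟩ := counts h B
  obtain ⟨c1, c2, c3⟩ := counts h C
  have rowB : ∀ i, (n2 K B C i 4 + n2 K B C i 1 + n2 K B C i (-2)) = n1 K B i := by
    intro i
    unfold n1 n2
    simp only [card_filter]
    rw [← sum_add_distrib, ← sum_add_distrib]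
    refine Finset.sum_congr rfl fun D _ => ?_
    rcases h.val C D with h2 | h2 | h2 <;> rw [h2] <;> norm_num
  have rowC : ∀ i, (n2 K B C 4 i + n2 K B C 1 i + n2 K B C (-2) i) = n1 K C i := by
    intro i
    unfold n1 n2
    simp only [card_filter]
    rw [← sum_add_distrib, ← sum_add_distrib]
    refine Finset.sum_congr rfl fun D _ => ?_
    rcases h.val B D with h2 | h2 | h2 <;> rw [h2] <;> norm_num
  refine ⟨⟨?_, ?_, ?_⟩, ⟨?_, ?_, ?_⟩, ?_⟩
  · rw [rowB, b1]
  · rw [rowB, b2]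
  · rw [rowB, b3]
  · rw [rowC, c1]
  · rw [rowC, c2]
  · rw [rowC, c3]
  · have e := sum_val2 h B C (fun x y => x * y)
    rw [h.sq] at e
    norm_num at e
    linarith

theorem n2_four_left (h : GramHyp K) {B C : S} {i : ℤ} (hi : i ≠ K B C) : n2 K B C 4 i = 0 := by
  unfold n2
  rw [card_eq_zero, filter_eq_empty_iff]
  rintro D - ⟨h1, h2⟩
  have := eq_of_four h h1 C
  rw [h.symm D C, h2] at this
  exact hi this.symm

theorem n2_four_right (h : GramHyp K) {B C : S} {i : ℤ} (hi : i ≠ K B C) : n2 K B C i 4 = 0 := by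
  unfold n2
  rw [card_eq_zero, filter_eq_empty_iff]
  rintro D - ⟨h1, h2⟩
  have := eq_of_four h h2 B
  rw [h.symm D B, h1, h.symm C B] at this
  exact hi this.symm

theorem exists_of_n2 {B C : S} {i j : ℤ} (h : n2 K B C i j ≠ 0) : ∃ D, K B D = i ∧ K C D = j := by
  unfold n2 at h
  obtain ⟨D, hD⟩ := Finset.card_pos.1 (Nat.pos_of_ne_zero h)
  exact ⟨D, (mem_filter.1 hD).2⟩

theorem adj_counts (h : GramHyp K) {B C : S} (hBC : K B C = -2) :
    n2 K B C (-2) (-2) = 4 ∧ n2 K B C 1 (-2) = 16 ∧ n2 K B C (-2) 1 = 16 := by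
  obtain ⟨⟨a1, a2, a3⟩, ⟨a4, a5, a6⟩, a7⟩ := counts2 h B C
  have z1 := n2_four_left h (B := B) (C := C) (i := 4) (by rw [hBC]; norm_num)
  have z2 := n2_four_left h (B := B) (C := C) (i := 1) (by rw [hBC]; norm_num)
  have z3 := n2_four_right h (B := B) (C := C) (i := 1) (by rw [hBC]; norm_num)
  rw [hBC] at a7
  omega

theorem nonadj_counts (h : GramHyp K) {B C : S} (hBC : K B C = 1) :
    n2 K B C (-2) (-2) = 12 := by
  obtain ⟨⟨a1, a2, a3⟩, ⟨a4, a5, a6⟩, a7⟩ := counts2 h B C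
  have z1 := n2_four_left h (B := B) (C := C) (i := 4) (by rw [hBC]; norm_num)
  have z2 := n2_four_left h (B := B) (C := C) (i := -2) (by rw [hBC]; norm_num)
  have z3 := n2_four_right h (B := B) (C := C) (i := -2) (by rw [hBC]; norm_num)
  rw [hBC] at a7
  omega

theorem third (h : GramHyp K) {B C : S} (hBC : K B C = -2) : ∃ E, ∀ D, K E D = - K B D - K C D := by
  obtain ⟨E, h1, h2⟩ := exists_of_n2 (K := K) (B := B) (C := C) (i := -2) (j := -2) (by
    rw [(adj_counts h hBC).1]; norm_num)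
  refine ⟨E, fun D => ?_⟩
  have h3 : ∑ D, (K B D + K C D + K E D) * (K B D + K C D + K E D) = 0 := by
    calc ∑ D, (K B D + K C D + K E D) * (K B D + K C D + K E D)
        = ∑ D, (K B D * K B D + K C D * K C D + K E D * K E D
          + 2 * (K B D * K C D) + 2 * (K B D * K E D) + 2 * (K C D * K E D)) := by
          refine Finset.sum_congr rfl fun D _ => ?_
          ring
      _ = 0 := by
          simp only [sum_add_distrib, ← mul_sum, h.sq, h.diag, hBC, h1, h2]
          norm_num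
  have := sumsq_zero h3 D
  linarith

/-- the Gram matrix of a pentagon -/
def P5 (i j : Fin 5) : ℤ := if i = j then 4 else if i = j + 1 ∨ j = i + 1 then -2 else 1

theorem pentagon (h : GramHyp K) : ∃ c : Fin 5 → S, ∀ i j, K (c i) (c j) = P5 i j := by
  obtain ⟨c0⟩ : Nonempty S := Fintype.card_pos_iff.1 (by rw [h.card]; norm_num)
  obtain ⟨c1, h01⟩ : ∃ c1, K c0 c1 = -2 := by
    have := (counts h c0).2.2
    unfold n1 at this
    obtain ⟨D, hD⟩ := Finset.card_pos.1 (by rw [this]; norm_num)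
    exact ⟨D, (mem_filter.1 hD).2⟩
  obtain ⟨c2, h02, h12⟩ := exists_of_n2 (K := K) (B := c0) (C := c1) (i := 1) (j := -2) (by
    rw [(adj_counts h h01).2.1]; norm_num)
  -- c3
  obtain ⟨c3, h23, h13, h03⟩ : ∃ c3, K c2 c3 = -2 ∧ K c1 c3 = 1 ∧ K c0 c3 = 1 := by
    obtain ⟨D, h1D, h2D⟩ := exists_of_n2 (K := K) (B := c1) (C := c2) (i := 1) (j := -2) (by
      rw [(adj_counts h h12).2.1]; norm_num)
    obtain ⟨E, hE⟩ := third h h2D
    have hE0 := hE c0
    have hE1 := hE c1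
    have hE2 := hE c2
    rw [h.symm E, h.symm c2 c0, h.symm D c0, h02] at hE0
    rw [h.symm E, h.symm c2 c1, h.symm D c1, h12, h1D] at hE1
    rw [h.symm E, h.diag, h.symm D c2, h2D] at hE2
    rcases h.val c0 D with h0 | h0 | h0
    · rcases h.val c0 E with h4 | h4 | h4 <;> rw [h4, h0] at hE0 <;> norm_num at hE0
    · exact ⟨D, h2D, h1D, h0⟩
    · exact ⟨E, by rw [hE2]; norm_num, by rw [hE1]; norm_num, by rw [hE0, h0]; norm_num⟩
  obtain ⟨e, he⟩ := third h h01
  obtain ⟨f, hf⟩ := third h h23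
  obtain ⟨c4, h04, h34, he4, hf4⟩ : ∃ c4, K c0 c4 = -2 ∧ K c3 c4 = -2 ∧ K e c4 ≠ 4 ∧ K f c4 ≠ 4 := by
    by_contra hcon
    push Not at hcon
    have h1 := nonadj_counts h h03
    have h2 : n2 K c0 c3 (-2) (-2) ≤ n1 K e 4 + n1 K f 4 := by
      unfold n1 n2
      refine le_trans (card_le_card ?_) (card_union_le _ _)
      intro D hD
      rw [mem_filter] at hD
      rw [mem_union, mem_filter, mem_filter]
      by_cases h5 : K e D = 4
      · exact Or.inl ⟨mem_univ _, h5⟩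
      · exact Or.inr ⟨mem_univ _, hcon D hD.2.1 hD.2.2 h5⟩
    rw [h1, (counts h e).1, (counts h f).1] at h2
    norm_num at h2
  have h14 : K c1 c4 = 1 := by
    have h1 := he c4
    rw [h04] at h1
    rcases h.val c1 c4 with h2 | h2 | h2
    · -- c4 in the class of c1
      have h3 := eq_of_four h h2 c3
      rw [h13, h.symm c4 c3, h34] at h3
      norm_num at h3
    · exact h2
    · rw [h2] at h1
      exact absurd (by rw [h1]; norm_num) he4
  have h24 : K c2 c4 = 1 := by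
    have h1 := hf c4
    rw [h34] at h1
    rcases h.val c2 c4 with h2 | h2 | h2
    · have h3 := eq_of_four h h2 c0
      rw [h.symm c2 c0, h02, h.symm c4 c0, h04] at h3
      norm_num at h3
    · exact h2
    · rw [h2] at h1
      exact absurd (by rw [h1]; norm_num) hf4
  refine ⟨![c0, c1, c2, c3, c4], ?_⟩
  have g10 := h.symm c1 c0
  have g20 := h.symm c2 c0
  have g30 := h.symm c3 c0
  have g40 := h.symm c4 c0
  have g21 := h.symm c2 c1
  have g31 := h.symm c3 c1
  have g41 := h.symm c4 c1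
  have g32 := h.symm c3 c2
  have g42 := h.symm c4 c2
  have g43 := h.symm c4 c3
  have d0 := h.diag c0
  have d1 := h.diag c1
  have d2 := h.diag c2
  have d3 := h.diag c3
  have d4 := h.diag c4
  intro i j
  fin_cases i <;> fin_cases j <;> simp [P5, h01, h02, h03, h04, h12, h13, h14, h23, h24, h34, g10, g20, g30, g40, g21,
    g31, g41, g32, g42, g43, d0, d1, d2, d3, d4]

/-- coordinates of the fifteen classes with respect to a pentagon -/
def wt (i : Fin 15) (l : Fin 5) : ℤ :=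
  (![![1, 0, 0, 0, 0], ![0, 1, 0, 0, 0], ![0, 0, 1, 0, 0], ![0, 0, 0, 1, 0], ![0, 0, 0, 0, 1],
    ![-1, -1, 0, 0, 0], ![0, -1, -1, 0, 0], ![0, 0, -1, -1, 0], ![0, 0, 0, -1, -1], ![-1, 0, 0, 0, -1],
    ![1, 1, 0, -1, 0], ![0, 1, 1, 0, -1], ![-1, 0, 1, 1, 0], ![0, -1, 0, 1, 1], ![1, 0, -1, 0, 1]] : Fin 15 → Fin 5 → ℤ) i l

/-- the corresponding pairs -/
def pair (i : Fin 15) : Finset (Fin 6) :=
  (![{0, 1}, {2, 3}, {0, 4}, {1, 2}, {3, 4},
    {4, 5}, {1, 5}, {3, 5}, {0, 5}, {2, 5},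
    {0, 3}, {0, 2}, {2, 4}, {1, 4}, {1, 3}] : Fin 15 → Finset (Fin 6)) i

theorem wt_pair : ∀ i j : Fin 15, ∑ l, wt i l * ∑ m, wt j m * P5 m l = 3 * ((pair i ∩ pair j).card : ℤ) - 2 := by
  decide

theorem pair_inj : ∀ i j : Fin 15, (pair i ∩ pair j).card = 2 → i = j := by decide

theorem pair_card : ∀ i : Fin 15, (pair i).card = 2 := by decide

theorem pair_surj : ∀ x y : Fin 6, x ≠ y → ∃ i, pair i = {x, y} := by decide

theorem reps (h : GramHyp K) : ∃ r : Fin 15 → S, ∀ i j, K (r i) (r j) = 3 * ((pair i ∩ pair j).card : ℤ) - 2 := by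
  obtain ⟨c, hc⟩ := pentagon h
  have e : ∀ i : Fin 5, ∃ E, ∀ D, K E D = - K (c i) D - K (c (i + 1)) D := fun i => third h (by
    rw [hc]; revert i; decide)
  choose E hE using e
  have g : ∀ i : Fin 5, ∃ F, ∀ D, K F D = - K (E i) D - K (c (i + 3)) D := fun i => third h (by
    rw [hE, hc, hc]; revert i; decide)
  choose F hF using g
  have key : ∀ i : Fin 15, ∃ r : S, ∀ D, K r D = ∑ l, wt i l * K (c l) D := by
    intro i
    have e0 : ∀ D, K (E 0) D = - K (c 0) D - K (c 1) D := hE 0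
    have e1 : ∀ D, K (E 1) D = - K (c 1) D - K (c 2) D := hE 1
    have e2 : ∀ D, K (E 2) D = - K (c 2) D - K (c 3) D := hE 2
    have e3 : ∀ D, K (E 3) D = - K (c 3) D - K (c 4) D := hE 3
    have e4 : ∀ D, K (E 4) D = - K (c 4) D - K (c 0) D := hE 4
    have f0 : ∀ D, K (F 0) D = - K (E 0) D - K (c 3) D := hF 0
    have f1 : ∀ D, K (F 1) D = - K (E 1) D - K (c 4) D := hF 1
    have f2 : ∀ D, K (F 2) D = - K (E 2) D - K (c 0) D := hF 2
    have f3 : ∀ D, K (F 3) D = - K (E 3) D - K (c 1) D := hF 3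
    have f4 : ∀ D, K (F 4) D = - K (E 4) D - K (c 2) D := hF 4
    fin_cases i
    · exact ⟨c 0, fun D => by rw [Fin.sum_univ_five]; simp [wt]⟩
    · exact ⟨c 1, fun D => by rw [Fin.sum_univ_five]; simp [wt]⟩
    · exact ⟨c 2, fun D => by rw [Fin.sum_univ_five]; simp [wt]⟩
    · exact ⟨c 3, fun D => by rw [Fin.sum_univ_five]; simp [wt]⟩
    · exact ⟨c 4, fun D => by rw [Fin.sum_univ_five]; simp [wt]⟩
    · exact ⟨E 0, fun D => by rw [Fin.sum_univ_five, e0]; simp [wt]; ring⟩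
    · exact ⟨E 1, fun D => by rw [Fin.sum_univ_five, e1]; simp [wt]; ring⟩
    · exact ⟨E 2, fun D => by rw [Fin.sum_univ_five, e2]; simp [wt]; ring⟩
    · exact ⟨E 3, fun D => by rw [Fin.sum_univ_five, e3]; simp [wt]; ring⟩
    · exact ⟨E 4, fun D => by rw [Fin.sum_univ_five, e4]; simp [wt]; ring⟩
    · exact ⟨F 0, fun D => by rw [Fin.sum_univ_five, f0, e0]; simp [wt]; ring⟩
    · exact ⟨F 1, fun D => by rw [Fin.sum_univ_five, f1, e1]; simp [wt]; ring⟩
    · exact ⟨F 2, fun D => by rw [Fin.sum_univ_five, f2, e2]; simp [wt]; ring⟩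
    · exact ⟨F 3, fun D => by rw [Fin.sum_univ_five, f3, e3]; simp [wt]; ring⟩
    · exact ⟨F 4, fun D => by rw [Fin.sum_univ_five, f4, e4]; simp [wt]; ring⟩
  choose r hr using key
  refine ⟨r, fun i j => ?_⟩
  rw [← wt_pair i j, hr i]
  refine Finset.sum_congr rfl fun l _ => ?_
  rw [h.symm (c l), hr j]
  congr 1
  refine Finset.sum_congr rfl fun m _ => ?_
  rw [hc]

/-- The pairs. -/
theorem exists_pairs (h : GramHyp K) : ∃ pr : S → Finset (Fin 6), (∀ B, (pr B).card = 2) ∧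
    (∀ B C, K B C = 3 * ((pr B ∩ pr C).card : ℤ) - 2) ∧
    ∀ x y : Fin 6, x ≠ y → (univ.filter fun B => pr B = {x, y}).card = 4 := by
  obtain ⟨r, hr⟩ := reps h
  have hc1 : ∀ i, (univ.filter fun B => K (r i) B = 4).card = 4 := fun i => (counts h (r i)).1
  have hcl : ∀ B : S, ∃ i, K (r i) B = 4 := by
    have h1 : (univ.biUnion fun i : Fin 15 => univ.filter fun B => K (r i) B = 4).card = 60 := by
      rw [card_biUnion]
      · rw [Finset.sum_congr rfl fun i _ => hc1 i]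
        simp
      · intro i _ j _ hij
        rw [Function.onFun, disjoint_left]
        intro D hD hD'
        rw [mem_filter] at hD hD'
        have h2 := eq_of_four h hD.2 (r j)
        rw [h.symm D, hD'.2, hr] at h2
        have h3 : (pair i ∩ pair j).card = 2 := by omega
        exact hij (pair_inj i j h3)
    have h2 : (univ.biUnion fun i : Fin 15 => univ.filter fun B => K (r i) B = 4) = univ :=
      eq_univ_of_card _ (by rw [h1, h.card])
    intro B
    have h3 : B ∈ (univ.biUnion fun i : Fin 15 => univ.filter fun B => K (r i) B = 4) := by rw [h2]; exact mem_univ B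
    rw [mem_biUnion] at h3
    obtain ⟨i, -, hi⟩ := h3
    exact ⟨i, (mem_filter.1 hi).2⟩
  choose cl hcl using hcl
  have hK : ∀ B C, K B C = 3 * ((pair (cl B) ∩ pair (cl C)).card : ℤ) - 2 := by
    intro B C
    rw [← hr, ← eq_of_four h (hcl B) C, h.symm (r (cl B)) C, ← eq_of_four h (hcl C) (r (cl B)), h.symm]
  refine ⟨fun B => pair (cl B), fun B => pair_card _, hK, fun x y hxy => ?_⟩
  obtain ⟨i, hi⟩ := pair_surj x y hxy
  rw [← hi, ← (counts h (r i)).1]
  unfold n1
  congr 1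
  ext B
  rw [mem_filter, mem_filter]
  simp only [mem_univ, true_and]
  constructor
  · intro h1
    rw [eq_of_four h (C := r (cl B)) (by rw [hr, h1, inter_self, pair_card]; norm_num) B]
    exact hcl B
  · intro h1
    have h2 := eq_of_four h h1 (r (cl B))
    rw [h.symm B, hcl, hr] at h2
    have h3 : (pair i ∩ pair (cl B)).card = 2 := by omega
    rw [pair_inj _ _ h3]

end Gram

end Cfsg.Agent.Lib.H8Srg77
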