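import Cfsg.Agent.Lib.H8Srg77

/-!
# The strongly regular graph with parameters (77,16,0,4): the 22 cocliques of size 21 (helper8)
-/

set_option autoImplicit false
set_option linter.unusedSectionVars false

namespace Cfsg.Agent.Lib.H8Srg77

open Finset

section Graph

variable {V : Type*} [Fintype V] [DecidableEq V] {G : SimpleGraph V} [DecidableRel G.Adj]

/-- adjacency as an integer -/
def A (G : SimpleGraph V) [DecidableRel G.Adj] (v w : V) : ℤ := if G.Adj v w then 1 else 0

theorem A_symm (v w : V) : A G v w = A G w v := by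
  unfold A
  simp only [G.adj_comm]

theorem A_self (v : V) : A G v v = 0 := by simp [A]

theorem A_mul_self (v w : V) : A G v w * A G v w = A G v w := by
  unfold A; split_ifs <;> norm_num

theorem A_nonneg (v w : V) : 0 ≤ A G v w := by
  unfold A; split_ifs <;> norm_num

theorem A_sum (h : G.IsSRGWith 77 16 0 4) (v : V) : ∑ w, A G v w = 16 := by
  unfold A
  have h1 := h.regular v
  rw [← SimpleGraph.card_neighborFinset_eq_degree, SimpleGraph.neighborFinset_eq_filter] at h1
  rw [Finset.sum_boole, h1]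
  rfl

theorem A_sq (h : G.IsSRGWith 77 16 0 4) (v w : V) :
    ∑ u, A G v u * A G u w = (if v = w then 12 else 0) - 4 * A G v w + 4 := by
  have h0 : ∀ u, A G v u * A G u w = if G.Adj v u ∧ G.Adj w u then 1 else 0 := by
    intro u
    unfold A
    by_cases h1 : G.Adj v u <;> by_cases h2 : G.Adj u w <;> simp [h1, h2, G.adj_comm w u]
  rw [Finset.sum_congr rfl fun u _ => h0 u, Finset.sum_boole]
  by_cases hvw : v = w
  · subst hvw
    have h1 := h.regular v
    rw [← SimpleGraph.card_neighborFinset_eq_degree, SimpleGraph.neighborFinset_eq_filter] at h1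
    simp only [and_self]
    rw [h1, A_self]
    norm_num
  · have h2 : Fintype.card (G.commonNeighbors v w) = (univ.filter fun u => G.Adj v u ∧ G.Adj w u).card := by
      rw [Fintype.card_subtype]
      congr 1
    rw [← h2]
    by_cases ha : G.Adj v w
    · rw [h.of_adj v w ha]
      simp [A, ha, hvw]
    · rw [h.of_not_adj hvw ha]
      simp [A, ha, hvw]

/-- the non-neighbours of a vertex -/
abbrev S2 (G : SimpleGraph V) (o : V) : Type _ := {w : V // w ≠ o ∧ ¬ G.Adj o w}

theorem sumS (o : V) (f : V → ℤ) : ∑ D : S2 G o, f D.1 = ∑ D, f D - ∑ D, A G o D * f D - f o := by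
  have h1 : ∑ D : S2 G o, f D.1 = ∑ D ∈ univ.filter (fun w : V => w ≠ o ∧ ¬ G.Adj o w), f D := by
    rw [Finset.sum_subtype (univ.filter (fun w : V => w ≠ o ∧ ¬ G.Adj o w)) (p := fun w => w ≠ o ∧ ¬ G.Adj o w)
      (by intro x; simp)]
  rw [h1, Finset.sum_filter]
  have h2 : ∀ D, (if D ≠ o ∧ ¬ G.Adj o D then f D else 0) = f D - A G o D * f D - (if D = o then f D else 0) := by
    intro D
    unfold A
    by_cases h3 : D = o
    · subst h3
      simp
    · by_cases h4 : G.Adj o D <;> simp [h3, h4]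
  rw [Finset.sum_congr rfl fun D _ => h2 D, sum_sub_distrib, sum_sub_distrib]
  simp

/-- number of common neighbours of `B`, `C` and `o` -/
def M (G : SimpleGraph V) [DecidableRel G.Adj] (o B C : V) : ℤ := ∑ n, A G o n * (A G n B * A G n C)

theorem M_symm (o B C : V) : M G o B C = M G o C B := by
  unfold M
  refine Finset.sum_congr rfl fun n _ => ?_
  ring

theorem M_nonneg (o B C : V) : 0 ≤ M G o B C :=
  Finset.sum_nonneg fun n _ => mul_nonneg (A_nonneg _ _) (mul_nonneg (A_nonneg _ _) (A_nonneg _ _))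

theorem tri (h : G.IsSRGWith 77 16 0 4) {a b c : V} : A G a b * A G b c * A G a c = 0 := by
  unfold A
  by_cases h1 : G.Adj a b
  · by_cases h2 : G.Adj b c
    · by_cases h3 : G.Adj a c
      · exfalso
        have h4 := h.of_adj a b h1
        rw [Fintype.card_eq_zero_iff] at h4
        exact h4.elim ⟨c, h3, h2⟩
      · simp [h3]
    · simp [h2]
  · simp [h1]

variable {o : V}

theorem A_o (B : S2 G o) : A G o B.1 = 0 := by simp [A, B.2.2]

theorem s1 (h : G.IsSRGWith 77 16 0 4) (B C : S2 G o) :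
    ∑ D : S2 G o, A G B.1 D.1 * A G D.1 C.1 = (if B = C then 12 else 0) - 4 * A G B.1 C.1 + 4 - M G o B.1 C.1 := by
  rw [sumS o (fun D => A G B.1 D * A G D C.1), A_sq h]
  have h1 : ∑ D, A G o D * (A G B.1 D * A G D C.1) = M G o B.1 C.1 := by
    unfold M
    refine Finset.sum_congr rfl fun n _ => ?_
    rw [A_symm B.1 n]
  rw [h1, A_symm B.1 o, A_o]
  simp only [Subtype.ext_iff]
  ring

theorem s2 (h : G.IsSRGWith 77 16 0 4) (B : S2 G o) (n : V) :
    A G o n * ∑ D : S2 G o, A G B.1 D.1 * A G D.1 n = A G o n * (4 - 4 * A G B.1 n) := by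
  by_cases hn : G.Adj o n
  · rw [sumS o (fun D => A G B.1 D * A G D n), A_sq h]
    have hne : B.1 ≠ n := by
      intro he
      exact B.2.2 (he ▸ hn)
    have h1 : ∑ D, A G o D * (A G B.1 D * A G D n) = 0 := by
      refine Finset.sum_eq_zero fun D _ => ?_
      have h2 := tri h (a := o) (b := D) (c := n)
      have h3 : A G o n = 1 := by simp [A, hn]
      rw [h3, mul_one] at h2
      calc A G o D * (A G B.1 D * A G D n) = A G B.1 D * (A G o D * A G D n) := by ring
        _ = 0 := by rw [h2, mul_zero]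
    rw [h1, A_symm B.1 o, A_o, if_neg hne]
    ring
  · have h3 : A G o n = 0 := by simp [A, hn]
    rw [h3, zero_mul, zero_mul]

theorem s3 (h : G.IsSRGWith 77 16 0 4) (n n' : V) :
    A G o n * A G o n' * ∑ D : S2 G o, A G n D.1 * A G D.1 n' = A G o n * A G o n' * ((if n = n' then 12 else 0) + 3) := by
  by_cases hn : G.Adj o n
  · by_cases hn' : G.Adj o n'
    · have a1 : A G o n = 1 := by simp [A, hn]
      have a2 : A G o n' = 1 := by simp [A, hn']
      rw [sumS o (fun D => A G n D * A G D n'), A_sq h]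
      have h1 : ∑ D, A G o D * (A G n D * A G D n') = 0 := by
        refine Finset.sum_eq_zero fun D _ => ?_
        have h2 := tri h (a := o) (b := D) (c := n')
        rw [a2, mul_one] at h2
        calc A G o D * (A G n D * A G D n') = A G n D * (A G o D * A G D n') := by ring
          _ = 0 := by rw [h2, mul_zero]
      have h3 : A G n n' = 0 := by
        have h2 := tri h (a := o) (b := n) (c := n')
        rw [a1, a2, one_mul, mul_one] at h2
        exact h2
      rw [h1, A_symm n o, h3, a1, a2]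
      ring
    · have h3 : A G o n' = 0 := by simp [A, hn']
      rw [h3, mul_zero, zero_mul, zero_mul]
  · have h3 : A G o n = 0 := by simp [A, hn]
    rw [h3, zero_mul, zero_mul, zero_mul]

theorem sN (h : G.IsSRGWith 77 16 0 4) (B : S2 G o) : ∑ n, A G o n * A G n B.1 = 4 := by
  rw [A_sq h, A_o, if_neg (Ne.symm B.2.1)]
  norm_num

theorem s4 (h : G.IsSRGWith 77 16 0 4) (B : S2 G o) : ∑ D : S2 G o, A G B.1 D.1 = 12 := by
  rw [sumS o (fun D => A G B.1 D), A_sum h]
  have h1 : ∑ D, A G o D * A G B.1 D = 4 := by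
    rw [← sN h B]
    refine Finset.sum_congr rfl fun n _ => ?_
    rw [A_symm B.1 n]
  rw [h1, A_symm B.1 o, A_o]
  norm_num

theorem s5 (h : G.IsSRGWith 77 16 0 4) (n : V) :
    A G o n * ∑ D : S2 G o, A G n D.1 = A G o n * 15 := by
  by_cases hn : G.Adj o n
  · have a1 : A G o n = 1 := by simp [A, hn]
    rw [sumS o (fun D => A G n D), A_sum h]
    have h1 : ∑ D, A G o D * A G n D = 0 := by
      refine Finset.sum_eq_zero fun D _ => ?_
      have h2 := tri h (a := o) (b := D) (c := n)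
      rw [a1, mul_one] at h2
      rw [A_symm n D, h2]
    rw [h1, A_symm n o, a1]
    norm_num
  · have h3 : A G o n = 0 := by simp [A, hn]
    rw [h3, zero_mul, zero_mul]

theorem t1 (h : G.IsSRGWith 77 16 0 4) (B : S2 G o) : ∑ D : S2 G o, M G o B.1 D.1 = 60 := by
  unfold M
  rw [Finset.sum_comm]
  have h1 : ∀ n, ∑ D : S2 G o, A G o n * (A G n B.1 * A G n D.1) = 15 * (A G o n * A G n B.1) := by
    intro n
    have h2 := s5 (o := o) h n
    calc ∑ D : S2 G o, A G o n * (A G n B.1 * A G n D.1) = A G n B.1 * (A G o n * ∑ D : S2 G o, A G n D.1) := by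
          rw [mul_sum, mul_sum]
          refine Finset.sum_congr rfl fun D _ => ?_
          ring
      _ = 15 * (A G o n * A G n B.1) := by rw [h2]; ring
  rw [Finset.sum_congr rfl fun n _ => h1 n, ← mul_sum, sN h]
  norm_num

theorem t2 (h : G.IsSRGWith 77 16 0 4) (B C : S2 G o) :
    ∑ D : S2 G o, A G B.1 D.1 * M G o D.1 C.1 = 16 - 4 * M G o B.1 C.1 := by
  have h0 : ∀ D : S2 G o, A G B.1 D.1 * M G o D.1 C.1 = ∑ n, A G n C.1 * (A G o n * (A G B.1 D.1 * A G D.1 n)) := by
    intro D
    unfold M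
    rw [mul_sum]
    refine Finset.sum_congr rfl fun n _ => ?_
    rw [A_symm n D.1]
    ring
  rw [Finset.sum_congr rfl fun D _ => h0 D, Finset.sum_comm]
  have h1 : ∀ n, ∑ D : S2 G o, A G n C.1 * (A G o n * (A G B.1 D.1 * A G D.1 n)) =
      4 * (A G o n * A G n C.1) - 4 * (A G o n * (A G n B.1 * A G n C.1)) := by
    intro n
    rw [← mul_sum, ← mul_sum, s2 h B n, A_symm B.1 n]
    ring
  rw [Finset.sum_congr rfl fun n _ => h1 n, sum_sub_distrib, ← mul_sum, ← mul_sum, sN h]
  unfold M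
  norm_num

theorem t3 (h : G.IsSRGWith 77 16 0 4) (B C : S2 G o) :
    ∑ D : S2 G o, M G o B.1 D.1 * M G o D.1 C.1 = 12 * M G o B.1 C.1 + 48 := by
  have h0 : ∀ D : S2 G o, M G o B.1 D.1 * M G o D.1 C.1 = ∑ n, ∑ n', (A G n B.1 * A G n' C.1) *
      (A G o n * A G o n' * (A G n D.1 * A G D.1 n')) := by
    intro D
    unfold M
    rw [Finset.sum_mul_sum]
    refine Finset.sum_congr rfl fun n _ => Finset.sum_congr rfl fun n' _ => ?_
    rw [A_symm n' D.1]
    ring
  rw [Finset.sum_congr rfl fun D _ => h0 D, Finset.sum_comm]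
  have h1 : ∀ n, ∑ D : S2 G o, ∑ n', (A G n B.1 * A G n' C.1) *
      (A G o n * A G o n' * (A G n D.1 * A G D.1 n')) =
      12 * (A G o n * (A G n B.1 * A G n C.1)) + 3 * (A G o n * A G n B.1) * 4 := by
    intro n
    rw [Finset.sum_comm]
    have h2 : ∀ n', ∑ D : S2 G o, (A G n B.1 * A G n' C.1) * (A G o n * A G o n' * (A G n D.1 * A G D.1 n')) =
        (if n = n' then 12 * (A G o n * (A G n B.1 * A G n C.1)) else 0) + (3 * (A G o n * A G n B.1)) * (A G o n' * A G n' C.1) := by
      intro n'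
      rw [← mul_sum, ← mul_sum, s3 h]
      by_cases hn : n = n'
      · subst hn
        rw [if_pos rfl, if_pos rfl]
        have h3 := A_mul_self (G := G) o n
        linear_combination (12 * A G n B.1 * A G n C.1) * h3
      · rw [if_neg hn, if_neg hn]
        ring
    rw [Finset.sum_congr rfl fun n' _ => h2 n', sum_add_distrib, ← mul_sum, sN h, Finset.sum_ite_eq]
    simp
  rw [Finset.sum_congr rfl fun n _ => h1 n, sum_add_distrib, ← mul_sum, ← sum_mul, ← mul_sum, sN h]
  unfold M
  norm_num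

theorem card_S2 (h : G.IsSRGWith 77 16 0 4) : Fintype.card (S2 G o) = 60 := by
  have h1 := sumS (G := G) o (fun _ => 1)
  simp only [sum_const, card_univ, mul_one, A_sum h, h.card, nsmul_eq_mul] at h1
  have h2 : ((Fintype.card (S2 G o) : ℕ) : ℤ) = 60 := by rw [h1]; norm_num
  exact_mod_cast h2

/-- the Gram matrix -/
def Kf (G : SimpleGraph V) [DecidableRel G.Adj] (o : V) (B C : S2 G o) : ℤ :=
  (if B = C then 12 else 0) - 6 * A G B.1 C.1 - 3 * M G o B.1 C.1 + 4

theorem M_self (h : G.IsSRGWith 77 16 0 4) (B : S2 G o) : M G o B.1 B.1 = 4 := by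
  rw [← sN h B]
  unfold M
  refine Finset.sum_congr rfl fun n _ => ?_
  rw [A_mul_self]

theorem Kf_diag (h : G.IsSRGWith 77 16 0 4) (B : S2 G o) : Kf G o B B = 4 := by
  unfold Kf
  rw [M_self h, A_self, if_pos rfl]
  norm_num

theorem Kf_symm (B C : S2 G o) : Kf G o B C = Kf G o C B := by
  unfold Kf
  rw [M_symm, A_symm]
  simp only [eq_comm]

theorem Kf_row (h : G.IsSRGWith 77 16 0 4) (B : S2 G o) : ∑ D, Kf G o B D = 0 := by
  unfold Kf
  rw [sum_add_distrib, sum_sub_distrib, sum_sub_distrib, ← mul_sum, ← mul_sum, s4 h, t1 h, sum_const, card_univ,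
    card_S2 h, Finset.sum_ite_eq]
  simp

theorem Kf_sq (h : G.IsSRGWith 77 16 0 4) (B C : S2 G o) : ∑ D, Kf G o B D * Kf G o C D = 48 * Kf G o B C := by
  have e : ∀ D, Kf G o B D * Kf G o C D = (if B = D then 12 * Kf G o C D else 0)
      + (if C = D then 12 * (- 6 * A G B.1 D.1 - 3 * M G o B.1 D.1 + 4) else 0)
      + 36 * (A G B.1 D.1 * A G D.1 C.1) + 18 * (A G B.1 D.1 * M G o D.1 C.1) + 18 * (A G C.1 D.1 * M G o D.1 B.1)
      + 9 * (M G o B.1 D.1 * M G o D.1 C.1) - 24 * A G B.1 D.1 - 24 * A G C.1 D.1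
      - 12 * M G o B.1 D.1 - 12 * M G o C.1 D.1 + 16 := by
    intro D
    rw [A_symm D.1 C.1, M_symm o D.1 C.1, M_symm o D.1 B.1]
    unfold Kf
    by_cases h1 : B = D
    · by_cases h2 : C = D
      · rw [if_pos h1, if_pos h2, if_pos h1, if_pos h2]; ring
      · rw [if_pos h1, if_neg h2, if_pos h1, if_neg h2]; ring
    · by_cases h2 : C = D
      · rw [if_neg h1, if_pos h2, if_neg h1, if_pos h2]; ring
      · rw [if_neg h1, if_neg h2, if_neg h1, if_neg h2]; ring
  rw [Finset.sum_congr rfl fun D _ => e D]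
  simp only [sum_add_distrib, sum_sub_distrib, ← mul_sum]
  rw [s1 h, t2 h, t2 h, t3 h, s4 h, s4 h, t1 h, t1 h, sum_const, card_univ, card_S2 h, Finset.sum_ite_eq,
    Finset.sum_ite_eq, Kf_symm C B, M_symm o C.1 B.1]
  unfold Kf
  simp only [mem_univ, if_true]
  by_cases h1 : B = C
  · rw [if_pos h1]; norm_num; ring
  · rw [if_neg h1]; norm_num; ring

theorem Kf_le (h : G.IsSRGWith 77 16 0 4) (B C : S2 G o) : -4 ≤ Kf G o B C ∧ Kf G o B C ≤ 4 := by
  constructor
  · have h1 : 0 ≤ ∑ D, (Kf G o B D + Kf G o C D) * (Kf G o B D + Kf G o C D) :=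
      Finset.sum_nonneg fun D _ => mul_self_nonneg _
    have h2 : ∑ D, (Kf G o B D + Kf G o C D) * (Kf G o B D + Kf G o C D)
        = ∑ D, (Kf G o B D * Kf G o B D + 2 * (Kf G o B D * Kf G o C D) + Kf G o C D * Kf G o C D) := by
      refine Finset.sum_congr rfl fun D _ => ?_
      ring
    rw [h2, sum_add_distrib, sum_add_distrib, ← mul_sum, Kf_sq h, Kf_sq h, Kf_sq h, Kf_diag h, Kf_diag h] at h1
    linarith
  · have h1 : 0 ≤ ∑ D, (Kf G o B D - Kf G o C D) * (Kf G o B D - Kf G o C D) :=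
      Finset.sum_nonneg fun D _ => mul_self_nonneg _
    have h2 : ∑ D, (Kf G o B D - Kf G o C D) * (Kf G o B D - Kf G o C D)
        = ∑ D, (Kf G o B D * Kf G o B D - 2 * (Kf G o B D * Kf G o C D) + Kf G o C D * Kf G o C D) := by
      refine Finset.sum_congr rfl fun D _ => ?_
      ring
    rw [h2, sum_add_distrib, sum_sub_distrib, ← mul_sum, Kf_sq h, Kf_sq h, Kf_sq h, Kf_diag h, Kf_diag h] at h1
    linarith

theorem Kf_adj (h : G.IsSRGWith 77 16 0 4) {B C : S2 G o} (hBC : G.Adj B.1 C.1) : Kf G o B C = -2 := by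
  have hne : B ≠ C := by
    rintro rfl
    exact G.loopless.irrefl _ hBC
  have h1 := (Kf_le h B C).1
  have h2 := M_nonneg (G := G) o B.1 C.1
  have h3 : A G B.1 C.1 = 1 := by simp [A, hBC]
  unfold Kf at h1 ⊢
  rw [if_neg hne, h3] at h1 ⊢
  omega

theorem gram (h : G.IsSRGWith 77 16 0 4) : GramHyp (Kf G o) where
  card := card_S2 h
  symm := Kf_symm
  diag := Kf_diag h
  row := Kf_row h
  sq := Kf_sq h
  val := by
    intro B C
    by_cases hBC : B = C
    · subst hBC
      exact Or.inl (Kf_diag h B)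
    · by_cases ha : G.Adj B.1 C.1
      · exact Or.inr (Or.inr (Kf_adj h ha))
      · have h1 := (Kf_le h B C).1
        have h2 := M_nonneg (G := G) o B.1 C.1
        have h3 : A G B.1 C.1 = 0 := by simp [A, ha]
        unfold Kf at h1 ⊢
        rw [if_neg hBC, h3] at h1 ⊢
        omega

end Graph

end Cfsg.Agent.Lib.H8Srg77
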