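import Cfsg.Agent.Lib.H92MTwelve
import Cfsg.Agent.Lib.H92SpinCover

/-!
The multiplier of `M12`: final assembly (helper92)
-/

set_option autoImplicit false

namespace Cfsg.Agent.Lib.H92MTwelve

open Cfsg Cfsg.Agent.Lib.Golay Cfsg.Agent.Lib.H92Cover Cfsg.Agent.Lib.SchurSylow Cfsg.Agent.Lib.H92MathieuSchur
open Cfsg.Agent.Lib.MElevenInv (sq_eq sq_mem)
open scoped Pointwise commutatorElement

theorem Jp_sq : Jp * Jp = Jp * Kp * Jp⁻¹ * Kp⁻¹ := by
  rw [eq_mul_inv_iff_mul_eq, eq_mul_inv_iff_mul_eq]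
  apply Subtype.ext
  show toPerm jj * toPerm jj * toPerm kk * toPerm jj = toPerm jj * toPerm kk
  have vj := valid_of_inD inD_jj
  have vk := valid_of_inD inD_kk
  rw [← toPerm_mulC vj vj, ← toPerm_mulC (valid_mulC vj vj) vk, ← toPerm_mulC (valid_mulC (valid_mulC vj vj) vk) vj,
    ← toPerm_mulC vj vk, show mulC (mulC (mulC jj jj) kk) jj = mulC jj kk by decide +kernel]

theorem Gp_conj : Gp * Jp * Gp⁻¹ = Kp := by
  rw [mul_inv_eq_iff_eq_mul]
  apply Subtype.ext
  show toPerm gg * toPerm jj = toPerm kk * toPerm gg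
  have vj := valid_of_inD inD_jj
  have vk := valid_of_inD inD_kk
  have vg := valid_of_inD inD_gg
  rw [← toPerm_mulC vg vj, ← toPerm_mulC vk vg, show mulC gg jj = mulC kk gg by decide +kernel]

theorem m12_stem : StemDvd ↥Spor.M12 2 := by
  classical
  intro Γ _ _ σ hσ
  have hZ : ∀ z ∈ σ.ker, ∀ g : Γ, z * g = g * z := fun z hz g => (Subgroup.mem_center_iff.1 (hσ.2.1 hz) g).symm
  let _ : CommGroup σ.ker := { (inferInstance : Group σ.ker) with mul_comm := fun a b => Subtype.ext (hZ _ a.2 b) }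
  have m0 : pt 0 ∈ DO := pt_mem (by norm_num) (by decide)
  have m1 : pt 1 ∈ DO := pt_mem (by norm_num) (by decide)
  have n01 : pt 0 ≠ pt 1 := by decide
  let p : GolayPt → Γ → σ.ker := fun a => pj σ.ker (DD σ (SS a))
  have hdisj : ∀ a ∈ DO, DD σ (SS a) ⊓ σ.ker = ⊥ := fun a ha => DD_inf hσ (perf_SS ha) (stem_SS ha)
  have hex : ∀ a ∈ DO, ∀ g, σ g ∈ SS a → ∃ z ∈ σ.ker, g * z⁻¹ ∈ DD σ (SS a) := fun a ha g hg =>
    exists_DD hσ.1 (perf_SS ha) hg
  have hpm : ∀ a ∈ DO, ∀ g h, σ g ∈ SS a → σ h ∈ SS a → p a (g * h) = p a g * p a h := fun a ha g h hg hh =>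
    pj_mul hZ (hdisj a ha) (hex a ha g hg) (hex a ha h hh)
  have hpz : ∀ a ∈ DO, ∀ z : σ.ker, p a (z : Γ) = z := fun a ha z => pj_self hZ (hdisj a ha) z
  have hpc : ∀ a ∈ DO, ∀ g h, σ h ∈ SS a → p ((σ g : Equiv.Perm GolayPt) a) (g * h * g⁻¹) = p a h := by
    intro a ha g h hh
    refine pj_conj hZ (hdisj _ (apply_mem (σ g).2 ha)) ?_ (hex a ha h hh)
    intro x hx
    show ((σ g : Equiv.Perm GolayPt) * x * (σ g : Equiv.Perm GolayPt)⁻¹) ((σ g : Equiv.Perm GolayPt) a) = _
    rw [Equiv.Perm.mul_apply, Equiv.Perm.mul_apply, perm_inv_apply]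
    exact congrArg _ hx
  set Γ01 : Subgroup Γ := (SS (pt 0) ⊓ SS (pt 1)).comap σ with hΓ01
  let χ : Γ01 →* σ.ker := MonoidHom.mk' (fun g => p (pt 0) g * (p (pt 1) g)⁻¹) (by
    intro g h
    show p (pt 0) ((g : Γ) * h) * (p (pt 1) ((g : Γ) * h))⁻¹ = _
    rw [hpm _ m0 g h g.2.1 h.2.1, hpm _ m1 g h g.2.2 h.2.2, mul_inv]
    exact mul_mul_mul_comm _ _ _ _)
  have hχ : ∀ g : Γ01, χ g = p (pt 0) g * (p (pt 1) g)⁻¹ := fun _ => rfl
  -- lifts
  have hlift : ∀ x : Spor.M12, (x : Equiv.Perm GolayPt) (pt 0) = pt 0 → (x : Equiv.Perm GolayPt) (pt 1) = pt 1 →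
      ∃ g : Γ01, σ (g : Γ) = x := by
    intro x h0 h1
    obtain ⟨g, rfl⟩ := hσ.1 x
    exact ⟨⟨g, h0, h1⟩, rfl⟩
  have hχz : ∀ z : Γ01, (z : Γ) ∈ σ.ker → χ z = 1 := by
    intro z hz
    have h0 := hpz _ m0 ⟨z, hz⟩
    have h1 := hpz _ m1 ⟨z, hz⟩
    rw [hχ]
    show p (pt 0) ((⟨z, hz⟩ : σ.ker) : Γ) * (p (pt 1) ((⟨z, hz⟩ : σ.ker) : Γ))⁻¹ = 1
    rw [h0, h1, mul_inv_cancel]
  have hχeq : ∀ g h : Γ01, σ (g : Γ) = σ (h : Γ) → χ g = χ h := by
    intro g h hgh
    have h1 : ((h⁻¹ * g : Γ01) : Γ) ∈ σ.ker := by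
      rw [MonoidHom.mem_ker, Subgroup.coe_mul, Subgroup.coe_inv, map_mul, map_inv, hgh, inv_mul_cancel]
    have h2 := hχz _ h1
    rw [map_mul, map_inv, inv_mul_eq_one] at h2
    exact h2.symm
  have vj := valid_of_inD inD_jj
  have vk := valid_of_inD inD_kk
  have vg := valid_of_inD inD_gg
  obtain ⟨J, hJ⟩ := hlift Jp (apply_pt vj (by norm_num) (by decide +kernel)) (apply_pt vj (by norm_num) (by decide +kernel))
  obtain ⟨K, hK⟩ := hlift Kp (apply_pt vk (by norm_num) (by decide +kernel)) (apply_pt vk (by norm_num) (by decide +kernel))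
  obtain ⟨L, hL⟩ := hlift Gp (apply_pt vg (by norm_num) (by decide +kernel)) (apply_pt vg (by norm_num) (by decide +kernel))
  have hJJ : χ J * χ J = 1 := by
    have h1 : χ (J * J) = χ (J * K * J⁻¹ * K⁻¹) := by
      apply hχeq
      simp only [Subgroup.coe_mul, Subgroup.coe_inv, map_mul, map_inv, hJ, hK]
      exact Jp_sq
    rw [map_mul, map_mul, map_mul, map_mul, map_inv, map_inv] at h1
    rw [h1, mul_comm (χ J) (χ K), mul_assoc (χ K), mul_inv_cancel, mul_one, mul_inv_cancel]
  have hKJ : χ K = χ J := by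
    have h1 : χ K = χ (L * J * L⁻¹) := by
      apply hχeq
      simp only [Subgroup.coe_mul, Subgroup.coe_inv, map_mul, map_inv, hJ, hK, hL]
      exact Gp_conj.symm
    rw [h1, map_mul, map_mul, map_inv, mul_comm (χ L), mul_assoc, mul_inv_cancel, mul_one]
  set Z0 : Subgroup σ.ker := Subgroup.zpowers (χ J) with hZ0
  have hZ0c : Nat.card Z0 ∣ 2 := by
    rw [hZ0, Nat.card_zpowers]
    exact orderOf_dvd_of_pow_eq_one (by rw [pow_two]; exact hJJ)
  -- the closure principle
  have hall := closure_two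
    (fun x => ((x : Equiv.Perm GolayPt) (pt 0) = pt 0 ∧ (x : Equiv.Perm GolayPt) (pt 1) = pt 1) ∧
      ∀ g : Γ01, σ (g : Γ) = x → χ g ∈ Z0)
    ⟨⟨rfl, rfl⟩, fun g hg => by rw [hχz g hg]; exact one_mem _⟩
    (by
      rintro x y ⟨⟨x0, x1⟩, hx⟩ ⟨⟨y0, y1⟩, hy⟩
      refine ⟨⟨?_, ?_⟩, ?_⟩
      · rw [Subgroup.coe_mul, Equiv.Perm.mul_apply, y0, x0]
      · rw [Subgroup.coe_mul, Equiv.Perm.mul_apply, y1, x1]
      · intro g hg
        obtain ⟨u, hu⟩ := hlift x x0 x1
        obtain ⟨v, hv⟩ := hlift y y0 y1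
        rw [hχeq g (u * v) (by rw [hg, Subgroup.coe_mul, map_mul, hu, hv]), map_mul]
        exact mul_mem (hx u hu) (hy v hv))
    (by
      rintro x h h0 h1 ⟨⟨x0, x1⟩, hx⟩
      refine ⟨⟨?_, ?_⟩, ?_⟩
      · show ((h : Equiv.Perm GolayPt) * x * (h : Equiv.Perm GolayPt)⁻¹) (pt 0) = pt 0
        rw [Equiv.Perm.mul_apply, Equiv.Perm.mul_apply, Equiv.Perm.inv_eq_iff_eq.2 h0.symm, x0, h0]
      · show ((h : Equiv.Perm GolayPt) * x * (h : Equiv.Perm GolayPt)⁻¹) (pt 1) = pt 1
        rw [Equiv.Perm.mul_apply, Equiv.Perm.mul_apply, Equiv.Perm.inv_eq_iff_eq.2 h1.symm, x1, h1]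
      · intro g hg
        obtain ⟨u, hu⟩ := hlift x x0 x1
        obtain ⟨v, hv⟩ := hlift h h0 h1
        rw [hχeq g (v * u * v⁻¹) (by rw [hg, Subgroup.coe_mul, Subgroup.coe_mul, Subgroup.coe_inv, map_mul, map_mul,
          map_inv, hu, hv]), map_mul, map_mul, map_inv, mul_comm (χ v), mul_assoc, mul_inv_cancel, mul_one]
        exact hx u hu)
    ⟨⟨apply_pt vj (by norm_num) (by decide +kernel), apply_pt vj (by norm_num) (by decide +kernel)⟩,
      fun g hg => by rw [hχeq g J (by rw [hg, hJ])]; exact Subgroup.mem_zpowers _⟩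
    ⟨⟨apply_pt vk (by norm_num) (by decide +kernel), apply_pt vk (by norm_num) (by decide +kernel)⟩,
      fun g hg => by rw [hχeq g K (by rw [hg, hK]), hKJ]; exact Subgroup.mem_zpowers _⟩
  have hχ0 : ∀ g : Γ01, χ g ∈ Z0 := fun g => (hall (σ (g : Γ)) g.2.1 g.2.2).2 g rfl
  -- agreement
  have hag : ∀ a b, a ∈ DO → b ∈ DO → ∀ g, σ g ∈ SS a → σ g ∈ SS b →
      QuotientGroup.mk' Z0 (p a g) = QuotientGroup.mk' Z0 (p b g) := by
    intro a b ha hb g hga hgb
    by_cases hab : a = b
    · rw [hab]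
    obtain ⟨h, hh, hl⟩ := tr_list (l := [pt 0, pt 1]) (l' := [a, b]) (by decide) (by simpa using hab) rfl (by simp)
      (by intro y hy
          simp only [List.mem_cons, List.not_mem_nil, or_false] at hy
          rcases hy with rfl | rfl <;> assumption)
      (by intro y hy
          simp only [List.mem_cons, List.not_mem_nil, or_false] at hy
          rcases hy with rfl | rfl <;> assumption)
    simp only [List.map_cons, List.map_nil, List.cons.injEq, and_true] at hl
    obtain ⟨e0, e1⟩ := hl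
    obtain ⟨H, hH⟩ := hσ.1 ⟨h, hh⟩
    have hHv : (σ H : Equiv.Perm GolayPt) = h := congrArg Subtype.val hH
    have cf : ∀ {u v : GolayPt}, h u = v → σ g ∈ SS v → σ (H⁻¹ * g * H) ∈ SS u := by
      intro u v huv hg
      show ((σ (H⁻¹ * g * H) : Spor.M12) : Equiv.Perm GolayPt) u = u
      rw [map_mul, map_mul, map_inv, Subgroup.coe_mul, Subgroup.coe_mul, Subgroup.coe_inv, hHv, Equiv.Perm.mul_apply,
        Equiv.Perm.mul_apply, huv, Equiv.Perm.inv_eq_iff_eq, huv]
      exact hg
    have c0 := cf e0 hga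
    have c1 := cf e1 hgb
    have h0 := hpc _ m0 H (H⁻¹ * g * H) c0
    have h1 := hpc _ m1 H (H⁻¹ * g * H) c1
    have hg' : H * (H⁻¹ * g * H) * H⁻¹ = g := by group
    rw [hHv, e0, hg'] at h0
    rw [hHv, e1, hg'] at h1
    have h2 := hχ0 ⟨H⁻¹ * g * H, c0, c1⟩
    rw [hχ] at h2
    rw [h0, h1]
    show (QuotientGroup.mk' Z0 _ : σ.ker ⧸ Z0) = QuotientGroup.mk' Z0 _
    rw [QuotientGroup.mk'_apply, QuotientGroup.mk'_apply, QuotientGroup.eq_iff_div_mem, div_eq_mul_inv]
    exact h2
  have htriv := ker_trivial hσ (ρ' := Spor.M12.subtype) (D := fun x => x ∈ DO) (N := fun a b => a ≠ b) (b0 := pt 0) m0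
    SS (fun a g => Iff.rfl) (fun a ha => perf_SS ha) (fun a ha => stem_SS ha)
    (fun g a ha => apply_mem g.2 ha) (fun g a b h e => h ((g : Equiv.Perm GolayPt).injective e))
    (by
      intro a b c ha hb hc hab hac
      obtain ⟨h, hh, hl⟩ := tr_list (l := [a, b]) (l' := [a, c]) (by simpa using hab) (by simpa using hac) rfl (by simp)
        (by intro y hy
            simp only [List.mem_cons, List.not_mem_nil, or_false] at hy
            rcases hy with rfl | rfl <;> assumption)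
        (by intro y hy
            simp only [List.mem_cons, List.not_mem_nil, or_false] at hy
            rcases hy with rfl | rfl <;> assumption)
      simp only [List.map_cons, List.map_nil, List.cons.injEq, and_true] at hl
      exact ⟨⟨h, hh⟩, hl.1, hl.2⟩)
    (by
      intro a a' b c ha ha' hb hc hab hac hab' hac'
      by_cases haa : a = a'
      · subst haa
        obtain ⟨h, hh, hl⟩ := tr_list (l := [a, b]) (l' := [a, c]) (by simpa using hab) (by simpa using hac) rfl
          (by simp)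
          (by intro y hy
              simp only [List.mem_cons, List.not_mem_nil, or_false] at hy
              rcases hy with rfl | rfl <;> assumption)
          (by intro y hy
              simp only [List.mem_cons, List.not_mem_nil, or_false] at hy
              rcases hy with rfl | rfl <;> assumption)
        simp only [List.map_cons, List.map_nil, List.cons.injEq, and_true] at hl
        exact ⟨⟨h, hh⟩, hl.1, hl.1, hl.2⟩
      · obtain ⟨h, hh, hl⟩ := tr_list (l := [a, a', b]) (l' := [a, a', c]) (by simp [haa, hab, hab'])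
          (by simp [haa, hac, hac']) rfl (by simp)
          (by intro y hy
              simp only [List.mem_cons, List.not_mem_nil, or_false] at hy
              rcases hy with rfl | rfl | rfl <;> assumption)
          (by intro y hy
              simp only [List.mem_cons, List.not_mem_nil, or_false] at hy
              rcases hy with rfl | rfl | rfl <;> assumption)
        simp only [List.map_cons, List.map_nil, List.cons.injEq, and_true] at hl
        exact ⟨⟨h, hh⟩, hl.1, hl.2.1, hl.2.2⟩)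
    (by
      intro b c hb hc
      obtain ⟨a, ha, han⟩ := exists_new [b, c] (by simp)
      simp only [List.mem_cons, List.not_mem_nil, or_false, not_or] at han
      exact ⟨a, ha, han.1, han.2⟩)
    (by
      intro a b _ _
      by_cases h : a = b
      · right; intro g; rw [h]
      · exact Or.inl h)
    (QuotientGroup.mk' Z0) hag
  have htop : (⊤ : Subgroup σ.ker) = Z0 := by
    apply le_antisymm _ le_top
    intro z _
    exact (QuotientGroup.eq_one_iff z).1 (htriv z)
  have : Nat.card σ.ker = Nat.card Z0 := by rw [← htop, Subgroup.card_top]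
  rw [this]; exact hZ0c

/-! ### existence -/

def tt : ℕ := 318927551532402943763913910789481677

theorem inD_tt : inD tt = true := by decide +kernel

noncomputable abbrev Tp : Spor.M12 := ⟨toPerm tt, mem_of_inD inD_tt⟩

theorem Tp_sq : Tp * Tp = 1 := by
  apply Subtype.ext
  show toPerm tt * toPerm tt = 1
  have v := valid_of_inD inD_tt
  rw [← toPerm_mulC v v, show mulC tt tt = idC by decide +kernel, toPerm_idC]

/-- the points of the dodecad -/
def dl : Fin 12 → ℕ := ![0, 1, 2, 3, 4, 6, 8, 9, 12, 13, 16, 18]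

theorem dl_lt : ∀ i, dl i < 24 := by decide
theorem dl_mem : ∀ i, (340831 : ℕ).testBit (dl i) = true := by decide

def dpt (i : Fin 12) : ↥DO := ⟨pt (dl i), pt_mem (dl_lt i) (dl_mem i)⟩

theorem dpt_bij : Function.Bijective dpt := by
  rw [Fintype.bijective_iff_injective_and_card]
  constructor
  · intro i j h
    have h1 : pt (dl i) = pt (dl j) := congrArg Subtype.val h
    have h2 : dl i = dl j := by rw [← ix_pt (dl_lt i), h1, ix_pt (dl_lt j)]
    revert i j; decide
  · rw [Fintype.card_fin, Fintype.card_coe, show DO.card = 12 from sq_mem.2]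

noncomputable def de : Fin 12 ≃ ↥DO := Equiv.ofBijective dpt dpt_bij

theorem iff_mem {g : Equiv.Perm GolayPt} (hg : g ∈ Spor.M12) (x : GolayPt) : g x ∈ DO ↔ x ∈ DO := by
  constructor
  · intro h
    have := apply_mem (Spor.M12.inv_mem hg) h
    rwa [perm_inv_apply] at this
  · exact apply_mem hg

/-- the action on the dodecad -/
noncomputable def act : Spor.M12 →* Equiv.Perm (Fin 12) where
  toFun g := (de.trans ((g : Equiv.Perm GolayPt).subtypePerm (iff_mem g.2))).trans de.symm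
  map_one' := by
    ext i
    simp
  map_mul' g h := by
    ext i
    simp

theorem act_apply (g : Spor.M12) (i j : Fin 12) (h : (g : Equiv.Perm GolayPt) (pt (dl i)) = pt (dl j)) :
    act g i = j := by
  show de.symm ((g : Equiv.Perm GolayPt).subtypePerm (iff_mem g.2) (de i)) = j
  rw [Equiv.symm_apply_eq]
  exact Subtype.ext h

theorem m12_perfect : commutator ↥Spor.M12 = ⊤ := by
  have e : ↥(MulAction.stabilizer M24 DO) ≃* ↥Spor.M12 :=
    { toFun := fun g => ⟨g.1.1, mem_M12.2 ⟨g.1.2, g.2⟩⟩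
      invFun := fun g => ⟨⟨g.1, (mem_M12.1 g.2).1⟩, (mem_M12.1 g.2).2⟩
      left_inv := fun _ => rfl
      right_inv := fun _ => rfl
      map_mul' := fun _ _ => rfl }
  have h1 := isSimpleGroup_of_mulEquiv e (M12_simple sq_mem)
  have h2 : Nat.card ↥Spor.M12 = 95040 := by rw [← Nat.card_congr e.toEquiv]; exact card_stab_dodecad sq_mem
  exact perfect_of_simple (by rw [h2]; norm_num)

def rr : Fin 12 → Fin 12 := ![9, 5, 7, 4, 3, 1, 11, 2, 10, 0, 8, 6]

theorem rr_ok : ∀ i : Fin 12, Nat.beq (img tt (dl i)) (dl (rr i)) = true := by decide +kernel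

theorem m12_mult : HasCyclicSchurMultiplier ↥Spor.M12 2 := by
  refine hasCyclic_of_squarefree Nat.prime_two.squarefree m12_stem ?_
  refine Cfsg.Agent.Lib.H92SpinCover.exists_stem_two (n := 12) m12_perfect act Tp_sq
    [(0, 9), (1, 5), (2, 7), (3, 4), (6, 11), (8, 10)] (by decide +kernel) (by decide +kernel) ?_ (by decide +kernel)
  apply Equiv.ext
  intro i
  have h1 : act Tp i = rr i := act_apply _ _ _ (apply_pt (valid_of_inD inD_tt) (dl_lt i) (rr_ok i))
  rw [h1]
  clear h1
  revert i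
  decide +kernel

end Cfsg.Agent.Lib.H92MTwelve
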