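import Cfsg.Agent.Lib.H92SMHeS
import Cfsg.Agent.Lib.H92SMHe2
import Cfsg.Agent.Lib.H92SMHe3
import Cfsg.Agent.Lib.H92SMHe5
import Cfsg.Agent.Lib.H92SMHe7

/-!
The stem extensions of the Held group are trivial (helper92)
-/

set_option autoImplicit false
set_option linter.all false
set_option maxRecDepth 100000

namespace Cfsg.Agent.Lib.H92SMHeM

open Subgroup Cfsg.Agent.Lib.SchurSylow Cfsg.Agent.Lib.H58SM Cfsg.Agent.Lib.H92SMPres
open Cfsg.Spor Cfsg.Agent.Lib.BenesWord Cfsg.Agent.Lib.CoxBridge Cfsg.Agent.Lib.CosetGroup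
open Cfsg.Agent.Lib.HeRel Cfsg.Agent.Lib.H92SMHeS

/-- all relators as words -/
def RW : List Wd := allRel 7 coxW extraW

theorem RW_eq : allRel C.nn (coxWds He.edges C.gen C.nn) C.extraW = RW := rfl

/-- comparison of lists -/
def leq : List ℕ → List ℕ → Bool
  | [], [] => true
  | a :: l, b :: m => Nat.beq a b && leq l m
  | _, _ => false

theorem leq_eq {l m : List ℕ} (h : leq l m = true) : l = m := by
  induction l generalizing m with
  | nil => cases m with
    | nil => rfl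
    | cons b m => exact absurd h (by simp [leq])
  | cons a l ih => cases m with
    | nil => exact absurd h (by simp [leq])
    | cons b m =>
      have h : (Nat.beq a b && leq l m) = true := h
      rw [Bool.and_eq_true] at h
      rw [Nat.eq_of_beq_eq_true h.1, ih h.2]

/-- the relators are listed in the same order -/
def mOk (D : Dat) (R : List Wd) : Bool :=
  Nat.beq D.J R.length && (List.range D.J).all fun j => leq (D.W j) (pl (R.getD j Wd.one))

theorem match_of {D : Dat} {R : List Wd} (h : mOk D R = true) : Match D R := by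
  unfold mOk at h
  rw [Bool.and_eq_true, List.all_eq_true] at h
  have hJ : D.J = R.length := Nat.eq_of_beq_eq_true h.1
  have hj : ∀ j < D.J, D.W j = pl (R.getD j Wd.one) := fun j hj => leq_eq (h.2 j (List.mem_range.2 hj))
  refine ⟨?_, ?_⟩
  · intro W hW
    obtain ⟨j, hj', rfl⟩ := List.getElem_of_mem hW
    refine ⟨j, by omega, ?_⟩
    rw [hj j (by omega), List.getD_eq_getElem _ _ hj']
  · intro j hj'
    refine ⟨R.getD j Wd.one, ?_, hj j hj'⟩
    rw [List.getD_eq_getElem _ _ (by omega)]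
    exact List.getElem_mem _

/-- the words of the subgroup fix the base point -/
def fOk (D : Dat) : Bool := HeSp.WN.all fun W => (pl W).all (fun l => Nat.blt l (Nat.mul 2 D.k)) && Nat.beq (Dat.ptf D.T (pl W) 0) 0

theorem gen_top : closure {z | ∃ i < 7, z = C.x HeA.L0 i} = ⊤ := by
  rw [← C.closure_letters HeA.L0]
  congr 1
  ext z
  constructor
  · rintro ⟨i, hi, rfl⟩
    exact ⟨Wd.g i, List.mem_map.2 ⟨i, List.mem_range.2 hi, rfl⟩, rfl⟩
  · rintro ⟨W, hW, rfl⟩
    obtain ⟨i, hi, rfl⟩ := List.mem_map.1 hW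
    exact ⟨i, List.mem_range.1 hi, rfl⟩

theorem main {p s q N : ℕ} [hp : Fact p.Prime] (D : Dat) (hn : D.n = 4116) (hk : D.k = 7)
    (ht1 : D.tab1 = true) (ht2 : D.tab2 = true) (ht3 : D.tab3 = true) (hW : D.wOk = true) (hr : D.relOk = true)
    (hm : mOk D RW = true) (hf : fOk D = true)
    (nr : ℕ → ℕ × ℕ) (hnr : D.nrOk nr = true) (hzl : D.zlOk nr = true)
    (hDp : D.p = p) (hDm : D.m = p ^ s) (hpq : p * q ∣ D.m)
    (hchk : ∀ x < D.N, D.chk x = true)
    {gl : List (ℕ × ℕ × List (ℕ × ℕ))} {Cc : ℕ → List (ℕ × ℕ) × List (ℕ × ℕ)}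
    (hg : D.genOk gl = true) (hpar : D.parOk gl Cc = true) (hq : ∀ r ∈ gl, r.2.1 ∣ q)
    (hN : (gl.map fun r => r.2.1).prod = N) : PStemDvd p Gh N := by
  have hM : Match D (allRel C.nn (coxWds He.edges C.gen C.nn) C.extraW) := by rw [RW_eq]; exact match_of hm
  obtain ⟨ψ, hψ⟩ := exists_hom hM hk ht1 ht2 hW hr
  have hpos : 0 < D.n := by omega
  letI act : MulAction Gh (Fin D.n) := MulAction.compHom (Fin D.n) ψ
  have hact : ∀ (g : Gh) (a : Fin D.n), g • a = ψ g a := fun _ _ => rfl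
  have hfwd : ∀ i < D.k, ∀ a < D.n, C.x HeA.L0 i • (pe0 hpos a) = pe0 hpos (D.T (2 * i) a) := by
    intro i hi a ha
    rw [hact]
    apply Fin.ext
    have h := hψ HeA.L0 [2 * i] (by intro l hl; rw [List.mem_singleton] at hl; omega) (pe0 hpos a)
    rw [ev_cons, ev_nil, one_mul, lt, if_pos (by omega), show 2 * i / 2 = i by omega] at h
    rw [h, pe0_val hpos ha]
    have h1 : D.T (2 * i) a < D.n := Sol.blt_iff.1 (alln_iff.1 (alln_iff.1 ht1 (2 * i) (show 2 * i < 2 * D.k by omega)) a ha)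
    rw [pe0_val hpos h1]; rfl
  have hbase : ∀ a < D.n, pe0 hpos a = pe0 hpos 0 → a = 0 := by
    intro a ha h
    have := congrArg Fin.val h
    rwa [pe0_val hpos ha, pe0_val hpos hpos] at this
  have A : Act D.n D.k (C.x HeA.L0) (pe0 hpos) D.T D.pi D.pq := Dat.act_of hpos ht1 ht2 ht3 hfwd hbase
  have hgen : closure {z | ∃ i < D.k, z = C.x HeA.L0 i} = ⊤ := by rw [hk]; exact gen_top
  obtain ⟨-, hcard, -⟩ := HeOrd.main
  haveI hfin : Finite Gh := Nat.finite_of_card_ne_zero (by rw [hcard]; norm_num)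
  have hc := A.card_stabilizer hgen
  have hc' : 4116 * Nat.card (MulAction.stabilizer Gh (pe0 hpos 0)) = 4030387200 := by
    rw [← hcard, ← hc]
    congr 1
    exact hn.symm
  obtain ⟨e⟩ := stab_equiv (pe0 hpos 0) hc' (by
    intro W hWm
    unfold fOk at hf
    rw [List.all_eq_true] at hf
    have h1 := hf W hWm
    rw [Bool.and_eq_true, List.all_eq_true] at h1
    obtain ⟨h2, h3⟩ := h1
    have h4 := Sol.beq_iff.1 h3
    rw [Dat.ptf_eq] at h4
    rw [← ev_pl, A.smul_ev (fun l hl => Sol.blt_iff.1 (h2 l hl)) hpos, h4])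
  have hS : PStemDvd p (MulAction.stabilizer Gh (pe0 hpos 0)) 1 := (sp_stem.congr e.symm).pStemDvd p
  have hperf : commutator (MulAction.stabilizer Gh (pe0 hpos 0)) = ⊤ := by
    have h5 : (commutator Sp).map e.symm.toMonoidHom = commutator (MulAction.stabilizer Gh (pe0 hpos 0)) := by
      rw [_root_.commutator_def, _root_.commutator_def, map_commutator, ← MonoidHom.range_eq_map,
        MonoidHom.range_eq_top.2 e.symm.surjective]
    rw [← h5, sp_perfect, ← MonoidHom.range_eq_map, MonoidHom.range_eq_top.2 e.symm.surjective]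
  exact pStemDvd_of_checks D A hgen hS (not_dvd_index_of_perfect hperf) hW (hM.hrel _) nr hnr hzl hDp hDm hpq hchk hg hpar
    hq hN

theorem m2 : mOk He2.Q.toDat RW = true := by decide +kernel
theorem m3 : mOk He3.Q.toDat RW = true := by decide +kernel
theorem m5 : mOk He5.Q.toDat RW = true := by decide +kernel
theorem m7 : mOk He7.Q.toDat RW = true := by decide +kernel
theorem f2 : fOk He2.Q.toDat = true := by decide +kernel
theorem f3 : fOk He3.Q.toDat = true := by decide +kernel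
theorem f5 : fOk He5.Q.toDat = true := by decide +kernel
theorem f7 : fOk He7.Q.toDat = true := by decide +kernel

theorem two : PStemDvd 2 Gh 1 :=
  main (s := 1) (q := 1) (N := 1) He2.Q.toDat rfl rfl He2.tab1_ok He2.tab2_ok He2.tab3_ok He2.w_ok He2.rel_ok m2 f2
    He2.nr He2.nr_ok He2.zl_ok rfl rfl (by decide) He2.chk_ok He2.gen_ok He2.par_ok (by intro r hr; cases hr) rfl

theorem three : PStemDvd 3 Gh 1 :=
  main (s := 1) (q := 1) (N := 1) He3.Q.toDat rfl rfl He3.tab1_ok He3.tab2_ok He3.tab3_ok He3.w_ok He3.rel_ok m3 f3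
    He3.nr He3.nr_ok He3.zl_ok rfl rfl (by decide) He3.chk_ok He3.gen_ok He3.par_ok (by intro r hr; cases hr) rfl

theorem five : PStemDvd 5 Gh 1 := by
  haveI : Fact (Nat.Prime 5) := ⟨by norm_num⟩
  exact main (s := 1) (q := 1) (N := 1) He5.Q.toDat rfl rfl He5.tab1_ok He5.tab2_ok He5.tab3_ok He5.w_ok He5.rel_ok m5 f5
    He5.nr He5.nr_ok He5.zl_ok rfl rfl (by decide) He5.chk_ok He5.gen_ok He5.par_ok (by intro r hr; cases hr) rfl

theorem seven : PStemDvd 7 Gh 1 := by
  haveI : Fact (Nat.Prime 7) := ⟨by norm_num⟩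
  exact main (s := 1) (q := 1) (N := 1) He7.Q.toDat rfl rfl He7.tab1_ok He7.tab2_ok He7.tab3_ok He7.w_ok He7.rel_ok m7 f7
    He7.nr He7.nr_ok He7.zl_ok rfl rfl (by decide) He7.chk_ok He7.gen_ok He7.par_ok (by intro r hr; cases hr) rfl

theorem stem_one : StemDvd Gh 1 := by
  apply StemDvd.of_forall
  intro p hp
  have : Fact p.Prime := ⟨hp⟩
  by_cases h2 : p = 2
  · subst h2; exact two
  by_cases h3 : p = 3
  · subst h3; exact three
  by_cases h5 : p = 5
  · subst h5; exact five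
  by_cases h7 : p = 7
  · subst h7; exact seven
  obtain ⟨-, hcard, -⟩ := HeOrd.main
  haveI hfin : Finite Gh := Nat.finite_of_card_ne_zero (by rw [hcard]; norm_num)
  apply Cfsg.Agent.Lib.H92Stem.pStemDvd_of_sq
  rw [hcard]
  intro hd
  have h1 : p ∣ 4030387200 := (dvd_pow_self p two_ne_zero).trans hd
  rw [show (4030387200 : ℕ) = 2 ^ 10 * (3 ^ 3 * (5 ^ 2 * (7 ^ 3 * 17))) by norm_num] at h1
  have hp17 : p = 17 := by
    rcases hp.dvd_mul.1 h1 with h | h
    · exact absurd ((Nat.prime_dvd_prime_iff_eq hp Nat.prime_two).1 (hp.dvd_of_dvd_pow h)) h2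
    rcases hp.dvd_mul.1 h with h | h
    · exact absurd ((Nat.prime_dvd_prime_iff_eq hp Nat.prime_three).1 (hp.dvd_of_dvd_pow h)) h3
    rcases hp.dvd_mul.1 h with h | h
    · exact absurd ((Nat.prime_dvd_prime_iff_eq hp Nat.prime_five).1 (hp.dvd_of_dvd_pow h)) h5
    rcases hp.dvd_mul.1 h with h | h
    · exact absurd ((Nat.prime_dvd_prime_iff_eq hp (by norm_num)).1 (hp.dvd_of_dvd_pow h)) h7
    · exact (Nat.prime_dvd_prime_iff_eq hp (by norm_num)).1 h
  subst hp17
  revert hd
  norm_num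

end Cfsg.Agent.Lib.H92SMHeM
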