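import Cfsg.Agent.Lib.SliceK4n
import Cfsg.Agent.S0765
import Cfsg.Agent.S0764
import Cfsg.Agent.S0245

/-!
# The group `Sp₄(4)` acting on bit-sliced vectors
-/

set_option autoImplicit false
set_option linter.all false
set_option maxRecDepth 100000

namespace Cfsg.Agent.Lib.Sp4K4

open Cfsg Cfsg.Agent.Lib.K4 Cfsg.Agent.Lib.SliceK4n
open Cfsg.Agent.Lib.SliceK4 (k4 k4_cases)
open scoped Matrix MatrixGroups

/-- the index type -/
abbrev I : Type := Fin 2 ⊕ Fin 2
/-- the space -/
abbrev V : Type := I → K4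
/-- the group -/
abbrev Sp : Type := Matrix.symplecticGroup (Fin 2) K4

/-- the position of an index -/
def cd : I → ℕ
  | Sum.inl a => a.val
  | Sum.inr s => 2 + s.val

/-- digits -/
def dig (N k : ℕ) : K4 := (⟨Nat.shiftRight N (2 * k) % 4, Nat.mod_lt _ (by decide)⟩ : Fin 4)

/-- the sparse rows of the matrix with code `N` -/
def dm (N : ℕ) : List (List (ℕ × K4)) :=
  [[(0, dig N 0), (1, dig N 1), (2, dig N 2), (3, dig N 3)], [(0, dig N 4), (1, dig N 5), (2, dig N 6), (3, dig N 7)],
   [(0, dig N 8), (1, dig N 9), (2, dig N 10), (3, dig N 11)], [(0, dig N 12), (1, dig N 13), (2, dig N 14), (3, dig N 15)]]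

/-- the matrix with code `N` -/
def mat (N : ℕ) : Matrix I I K4 := Matrix.of fun i j => dig N (4 * cd i + cd j)

/-- the vector at a lane -/
noncomputable def vec (l : List (ℕ × ℕ)) (i : ℕ) : V := fun j => cv l i (cd j)

theorem vec_dm (N : ℕ) (l : List (ℕ × ℕ)) (i : ℕ) : vec ((dm N).map (rowP l)) i = mat N *ᵥ vec l i := by
  funext j
  change cv ((dm N).map (rowP l)) i (cd j) = ∑ k : I, mat N j k * cv l i (cd k)
  rw [cv_map, Fintype.sum_sum_type, Fin.sum_univ_two, Fin.sum_univ_two]
  rcases j with j | j <;> fin_cases j <;>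
    simp [dm, rowV, mat, cd, add_assoc]

/-- the action -/
noncomputable def ρ : Sp →* (V ≃ₗ[K4] V) where
  toFun s := LinearEquiv.ofLinear (Matrix.mulVecLin (s : Matrix I I K4)) (Matrix.mulVecLin ((s⁻¹ : Sp) : Matrix I I K4))
    (by
      rw [← Matrix.mulVecLin_mul]
      have : (s : Matrix I I K4) * ((s⁻¹ : Sp) : Matrix I I K4) = 1 := by
        rw [← Submonoid.coe_mul, mul_inv_cancel]; rfl
      rw [this, Matrix.mulVecLin_one])
    (by
      rw [← Matrix.mulVecLin_mul]
      have : ((s⁻¹ : Sp) : Matrix I I K4) * (s : Matrix I I K4) = 1 := by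
        rw [← Submonoid.coe_mul, inv_mul_cancel]; rfl
      rw [this, Matrix.mulVecLin_one])
  map_one' := by
    ext x : 1
    exact Matrix.one_mulVec x
  map_mul' a b := by
    ext x : 1
    exact (Matrix.mulVec_mulVec x _ _).symm

theorem ρ_apply (s : Sp) (x : V) : ρ s x = (s : Matrix I I K4) *ᵥ x := rfl

/-- the element with code `N` -/
def el (N : ℕ) (h : mat N ∈ Matrix.symplecticGroup (Fin 2) K4) : Sp := ⟨mat N, h⟩

/-- check of membership -/
def memK (N : ℕ) : Bool := decide (mat N * Matrix.J (Fin 2) K4 * (mat N)ᵀ = Matrix.J (Fin 2) K4)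

theorem mem_of_memK {N : ℕ} (h : memK N = true) : mat N ∈ Matrix.symplecticGroup (Fin 2) K4 :=
  SymplecticGroup.mem_iff.mpr (of_decide_eq_true h)

/-- the transvection -/
def tv (v : V) (a : K4) : Sp := ⟨sympTransvection 2 v a, S0764.result 2 v a⟩

theorem tv_apply (v : V) (a : K4) (x : V) : ρ (tv v a) x = x + (a * sympForm 2 K4 x v) • v :=
  Cfsg.Agent.Lib.SympMat.transvection_mulVec v x a

theorem ext_ρ {s t : Sp} (h : ∀ x, ρ s x = ρ t x) : s = t := by
  apply Subtype.ext
  apply Matrix.ext_of_mulVec_single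
  intro i
  exact h _

theorem tv_mul (v : V) (a b : K4) : tv v a * tv v b = tv v (a + b) :=
  Subtype.ext (Cfsg.Agent.Lib.SympMat.transvection_mul v a b)

theorem tv_conj (v : V) (a : K4) (s : Sp) : s * tv v a * s⁻¹ = tv (ρ s v) a := by
  rw [mul_inv_eq_iff_eq_mul]
  exact Subtype.ext (Cfsg.Agent.Lib.SympMat.transvection_conj v s.2 a)

theorem tv_smul (v : V) (a c : K4) : tv (c • v) a = tv v (a * c * c) := by
  apply ext_ρ
  intro x
  rw [tv_apply, tv_apply, Cfsg.Agent.Lib.SympMat.sympForm_smul_right, smul_smul]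
  congr 2
  ring

theorem eq_top (K : Subgroup Sp) (h : ∀ (v : V) (a : K4), v ≠ 0 → tv v a ∈ K) : K = ⊤ := by
  rw [eq_top_iff, ← S0765.result 2, Subgroup.closure_le]
  rintro A ⟨v, c, hA⟩
  have hA' : A = tv v c := Subtype.ext hA
  by_cases hv : v = 0
  · have : A = 1 := by
      apply ext_ρ
      intro x
      rw [hA', tv_apply, hv, smul_zero, add_zero, map_one]; rfl
    rw [this]; exact K.one_mem
  · rw [hA']; exact h v c hv

theorem card : Nat.card Sp = 979200 := by
  rw [S0245.result card_K4 2, Finset.prod_range_succ, Finset.prod_range_one]; norm_num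

/-- an element fixing all points is trivial -/
theorem eq_one (s : Sp) (h : ∀ v : V, v ≠ 0 → ∃ c : K4, ρ s v = c • v) : s = 1 := by
  let e : I → V := fun i => Pi.single i 1
  have he : ∀ i, e i ≠ 0 := by
    intro i hi
    have := congrFun hi i
    simp [e] at this
  choose c hc using fun i => h (e i) (he i)
  obtain ⟨d, hd⟩ := h (fun _ => 1) (by intro h0; exact one_ne_zero (congrFun h0 (Sum.inl 0)))
  have hexp : ∀ x : V, x = ∑ i, x i • e i := by
    intro x
    funext j
    rw [Finset.sum_apply]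
    simp [e, Pi.single_apply]
  have hρ : ∀ x, ρ s x = fun i => x i * c i := by
    intro x
    conv_lhs => rw [hexp x]
    rw [map_sum]
    funext j
    rw [Finset.sum_apply]
    simp only [map_smul, hc, Pi.smul_apply, smul_eq_mul]
    simp [e, Pi.single_apply]
  have hcd : ∀ i, c i = d := by
    intro i
    have e1 := congrFun (hρ (fun _ => 1)) i
    rw [hd] at e1
    simpa using e1.symm
  have hsc : ∀ x, ρ s x = d • x := by
    intro x
    rw [hρ x]
    funext i
    rw [hcd, Pi.smul_apply, smul_eq_mul, mul_comm]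
  have hd1 : d = 1 := by
    have h1 := (Cfsg.Agent.Lib.SympMat.mem_iff.mp s.2) (e (Sum.inl 0)) (e (Sum.inr 0))
    have h2 : (s : Matrix I I K4) *ᵥ (e (Sum.inl 0)) = d • e (Sum.inl 0) := hsc _
    have h3 : (s : Matrix I I K4) *ᵥ (e (Sum.inr 0)) = d • e (Sum.inr 0) := hsc _
    rw [h2, h3, Cfsg.Agent.Lib.SympMat.sympForm_smul_left, Cfsg.Agent.Lib.SympMat.sympForm_smul_right] at h1
    have h4 : sympForm 2 K4 (e (Sum.inl 0)) (e (Sum.inr 0)) = 1 := by
      rw [Cfsg.Agent.Lib.SympMat.sympForm_single_inr]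
      simp [e]
      decide
    rw [h4] at h1
    revert h1
    have : ∀ d : K4, d * (d * 1) = 1 → d = 1 := by decide
    exact this d
  apply ext_ρ
  intro x
  rw [hsc, hd1, one_smul, map_one]; rfl

end Cfsg.Agent.Lib.Sp4K4
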