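import Cfsg.Agent.Lib.HeSpData
import Cfsg.Agent.Lib.Sp4K4
import Cfsg.Agent.Lib.IdxTwo
import Cfsg.Agent.Lib.GoursatHom
import Cfsg.Agent.Lib.HeOrd
import Cfsg.Agent.Lib.HeAIdx

/-!
# The subgroup `S₄(4):2` of the presented Held group
-/

set_option autoImplicit false
set_option linter.all false
set_option maxRecDepth 100000

namespace Cfsg.Agent.Lib.HeSp

open Cfsg.Spor Cfsg.Agent.Lib.BenesPerm Cfsg.Agent.Lib.BenesAct Cfsg.Agent.Lib.BenesWord
open Cfsg.Agent.Lib.BenesPlane Cfsg.Agent.Lib.CosetClosure Cfsg.Agent.Lib.CosetFacts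
open Cfsg.Agent.Lib.CosetMain Cfsg.Agent.Lib.CoxBridge Cfsg.Agent.Lib.CosetGroup Cfsg.Agent.Lib.CosetInst Cfsg.Agent.Lib.CosetInj
open Cfsg.Agent.Lib.BenesPack Cfsg.Agent.Lib.CosetPack Cfsg.Agent.Lib.CosetOrder Cfsg.Agent.Lib.CosetChain
open Cfsg.Agent.Lib.HeRel Cfsg.Agent.Lib.HeNetsA Cfsg.Agent.Lib.HeCertA Cfsg.Agent.Lib.HeA
open Cfsg.Agent.Lib.K4 Cfsg.Agent.Lib.SliceK4n Cfsg.Agent.Lib.HeSpData Cfsg.Agent.Lib.GoursatHom
open Cfsg.Agent.Lib.Sp4K4
open Cfsg.Agent.Lib.SliceK4 (k4 k4_cases allK allK_spec)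
open Cfsg.Agent.Lib.HeAIdx (M1)
open scoped Matrix MatrixGroups

/-- the odd involution -/
def wt : Wd := Wd.pow (Wd.mul (Wd.g 0) (Wd.g 1)) 2
/-- the long word -/
def w7 : Wd := Wd.pow (Wd.mul (Wd.mul (Wd.mul (Wd.g 1) (Wd.g 2)) (Wd.g 3)) (Wd.g 4)) 7
/-- the even words -/
def ev : List Wd := [Wd.g 0, Wd.g 2, Wd.g 3, Wd.g 4, Wd.g 5, w7]
/-- words for the subgroup of index two -/
def WN : List Wd := IdxTwo.NW wt ev []

theorem WN_eq : WN = [Wd.g 0, Wd.g 2, Wd.g 3, Wd.g 4, Wd.g 5, w7, Wd.mul wt (Wd.mul (Wd.g 0) wt), Wd.mul wt (Wd.mul (Wd.g 2) wt),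
  Wd.mul wt (Wd.mul (Wd.g 3) wt), Wd.mul wt (Wd.mul (Wd.g 4) wt), Wd.mul wt (Wd.mul (Wd.g 5) wt), Wd.mul wt (Wd.mul w7 wt)] := rfl

theorem t0 : mtK nets ((Wd.g 0).flat iv) [dm m0] L M1 = true := by decide +kernel
theorem t1 : mtK nets ((Wd.g 2).flat iv) [dm m1] L M1 = true := by decide +kernel
theorem t2 : mtK nets ((Wd.g 3).flat iv) [dm m2] L M1 = true := by decide +kernel
theorem t3 : mtK nets ((Wd.g 4).flat iv) [dm m3] L M1 = true := by decide +kernel
theorem t4 : mtK nets ((Wd.g 5).flat iv) [dm m4] L M1 = true := by decide +kernel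
theorem t5 : mtK nets (w7.flat iv) [dm m5] L M1 = true := by decide +kernel
theorem t6 : mtK nets ((Wd.mul wt (Wd.mul (Wd.g 0) wt)).flat iv) [dm m6] L M1 = true := by decide +kernel
theorem t7 : mtK nets ((Wd.mul wt (Wd.mul (Wd.g 2) wt)).flat iv) [dm m7] L M1 = true := by decide +kernel
theorem t8 : mtK nets ((Wd.mul wt (Wd.mul (Wd.g 3) wt)).flat iv) [dm m8] L M1 = true := by decide +kernel
theorem t9 : mtK nets ((Wd.mul wt (Wd.mul (Wd.g 4) wt)).flat iv) [dm m9] L M1 = true := by decide +kernel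
theorem t10 : mtK nets ((Wd.mul wt (Wd.mul (Wd.g 5) wt)).flat iv) [dm m10] L M1 = true := by decide +kernel
theorem t11 : mtK nets ((Wd.mul wt (Wd.mul w7 wt)).flat iv) [dm m11] L M1 = true := by decide +kernel

theorem s0 : memK m0 = true := by decide +kernel
theorem s1 : memK m1 = true := by decide +kernel
theorem s2 : memK m2 = true := by decide +kernel
theorem s3 : memK m3 = true := by decide +kernel
theorem s4 : memK m4 = true := by decide +kernel
theorem s5 : memK m5 = true := by decide +kernel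
theorem s6 : memK m6 = true := by decide +kernel
theorem s7 : memK m7 = true := by decide +kernel
theorem s8 : memK m8 = true := by decide +kernel
theorem s9 : memK m9 = true := by decide +kernel
theorem s10 : memK m10 = true := by decide +kernel
theorem s11 : memK m11 = true := by decide +kernel

/-- the vector with a given code -/
def dec (n : ℕ) : V := fun j => dig n (cd j)

/-- check for one code -/
noncomputable def chk (n : ℕ) : Bool :=
  force (Nat.land (Nat.shiftRight tbl (12 * n)) 4095) fun i =>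
    decide (n = 0) ||
    (M1.testBit i && (decide (dec n = vec L i) || decide (dec n = om • vec L i) || decide (dec n = om' • vec L i)))

theorem c1 : allK 256 chk = true := by decide +kernel

theorem o_inv : invK nets (WN.map (Wd.flat iv)) M1 = true := by decide +kernel
theorem o_reach : reachK nets (stepsW (WN.map (Wd.flat iv)) steps) (2 ^ st) (fun V => Nat.beq V M1) = true := by decide +kernel

/-- words to check -/
def vW : List Wd := [Wd.pow wt 2]
theorem v_rels : relsK nets 12 iv vW = true := by decide +kernel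

/-- images of lanes under `t` -/
theorem l_t : ([2, 5, 11, 68] : List ℕ).map (fun i => wfn nets (wt.flat iv) i) = [2, 5, 11, 37] := by decide +kernel

theorem q2 : vec L 2 (Sum.inl 0) = 0 ∧ vec L 2 (Sum.inr 1) = 1 := by decide +kernel
theorem q5 : vec L 5 (Sum.inl 0) = 1 ∧ vec L 5 (Sum.inr 1) = 0 := by decide +kernel
theorem q11 : vec L 11 = vec L 5 + om • vec L 2 := by decide +kernel
theorem q68 : vec L 68 = vec L 5 + vec L 2 := by decide +kernel
theorem q37 : vec L 37 = vec L 5 + om' • vec L 2 := by decide +kernel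
theorem q_M : M1.testBit 2 = true ∧ M1.testBit 5 = true ∧ M1.testBit 11 = true ∧ M1.testBit 68 = true := by decide +kernel
theorem q_st : vec L st = Pi.single (Sum.inr 0) 1 := by decide +kernel

theorem tv1 : mat m1 = Cfsg.sympTransvection 2 (Pi.single (Sum.inr 0) (1 : K4)) (1 : K4) := by decide +kernel
theorem tv7 : mat m7 = Cfsg.sympTransvection 2 (Pi.single (Sum.inr 0) (1 : K4)) om := by decide +kernel

theorem digits (a b c d : ℕ) (ha : a < 4) (hb : b < 4) (hc : c < 4) (hd : d < 4) :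
    ∃ n, n < 256 ∧ Nat.shiftRight n (2 * 0) % 4 = a ∧ Nat.shiftRight n (2 * 1) % 4 = b ∧ Nat.shiftRight n (2 * 2) % 4 = c ∧
      Nat.shiftRight n (2 * 3) % 4 = d := by
  refine ⟨a + 4 * (b + 4 * (c + 4 * d)), by omega, ?_, ?_, ?_, ?_⟩
  all_goals
    change (_ >>> _) % 4 = _
    rw [Nat.shiftRight_eq_div_pow]
    norm_num
    omega

theorem dec_surj (v : V) : ∃ n, n < 256 ∧ dec n = v := by
  have hlt : ∀ j, (v j : Fin 4).val < 4 := fun j => (v j : Fin 4).isLt
  obtain ⟨n, hn, h0, h1, h2, h3⟩ := digits _ _ _ _ (hlt (Sum.inl 0)) (hlt (Sum.inl 1)) (hlt (Sum.inr 0)) (hlt (Sum.inr 1))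
  refine ⟨n, hn, ?_⟩
  funext j
  apply Fin.ext
  rcases j with j | j <;> fin_cases j
  · exact h0
  · exact h1
  · exact h2
  · exact h3

theorem pt_all (v : V) (hv0 : v ≠ 0) : ∃ i, M1.testBit i = true ∧ ∃ s : K4, s ≠ 0 ∧ v = s • vec L i := by
  obtain ⟨n, hn, rfl⟩ := dec_surj v
  have h := allK_spec c1 n hn
  unfold chk at h
  rw [force_eq] at h
  simp only [Bool.or_eq_true, decide_eq_true_eq, Bool.and_eq_true] at h
  rcases h with h | ⟨h1, h2⟩
  · exfalso
    apply hv0
    subst h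
    decide
  · refine ⟨_, h1, ?_⟩
    rcases h2 with (h2 | h2) | h2
    · exact ⟨1, one_ne_zero, by rw [one_smul]; exact h2⟩
    · exact ⟨om, by decide, h2⟩
    · exact ⟨om', by decide, h2⟩

/-- the labels -/
def X : Set ℕ := {i | M1.testBit i = true}

theorem hok : ∀ c, (netOf nets c).OK := fun c => Net.ok_of_check (check_netOf c_nets c)

theorem phi_eval {φ : (CoxPresented He.Gen He.edges He.extra) →* Equiv.Perm ℕ} (hφ : ∀ c, φ (C.x L0 c) = sperm nets c)
    (W : Wd) (i : ℕ) : φ (W.eval (C.x L0)) i = wfn nets (W.flat iv) i := by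
  rw [← prod_sperm_apply hok, ← Wd.eval_flat (C.x L0) iv x_iv0 W, map_list_prod, List.map_map]
  congr 2
  apply List.map_congr_left
  intro c _
  exact hφ c

theorem mt_of_check {φ : (CoxPresented He.Gen He.edges He.extra) →* Equiv.Perm ℕ} (hφ : ∀ c, φ (C.x L0 c) = sperm nets c)
    {W : Wd} {m : ℕ} (hm : memK m = true) (h : mtK nets (W.flat iv) [dm m] L M1 = true) :
    Mt X (vec L) ρ (φ (W.eval (C.x L0))) (el m (mem_of_memK hm)) := by
  intro i hi
  obtain ⟨s, hs, h1⟩ := mtK_spec hok (ms := [dm m]) rfl h i hi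
  refine ⟨s, hs, ?_⟩
  rw [phi_eval hφ, ρ_apply]
  change mat m *ᵥ vec L i = _
  rw [← vec_dm]
  funext j
  exact h1 (cd j)

theorem gens_ok {φ : (CoxPresented He.Gen He.edges He.extra) →* Equiv.Perm ℕ} (hφ : ∀ c, φ (C.x L0 c) = sperm nets c) :
    ∀ t ∈ wset (C.x L0) WN, ∃ s : Sp, Mt X (vec L) ρ (φ t) s := by
  rintro t ⟨W, hW, rfl⟩
  rw [WN_eq] at hW
  simp only [List.mem_cons, List.not_mem_nil, or_false] at hW
  rcases hW with rfl | rfl | rfl | rfl | rfl | rfl | rfl | rfl | rfl | rfl | rfl | rfl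
  · exact ⟨_, mt_of_check hφ s0 t0⟩
  · exact ⟨_, mt_of_check hφ s1 t1⟩
  · exact ⟨_, mt_of_check hφ s2 t2⟩
  · exact ⟨_, mt_of_check hφ s3 t3⟩
  · exact ⟨_, mt_of_check hφ s4 t4⟩
  · exact ⟨_, mt_of_check hφ s5 t5⟩
  · exact ⟨_, mt_of_check hφ s6 t6⟩
  · exact ⟨_, mt_of_check hφ s7 t7⟩
  · exact ⟨_, mt_of_check hφ s8 t8⟩
  · exact ⟨_, mt_of_check hφ s9 t9⟩
  · exact ⟨_, mt_of_check hφ s10 t10⟩
  · exact ⟨_, mt_of_check hφ s11 t11⟩

theorem main (H : Subgroup (CoxPresented He.Gen He.edges He.extra)) (hH : H = Subgroup.closure (wset (C.x L0) WS)) :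
    ∃ N : Subgroup H, N.Normal ∧ N.index = 2 ∧ Nonempty (N ≃* Sp) := by
  obtain ⟨hsimp, hcard, φ, hφ, hinj, -⟩ := HeOrd.main
  have hidx : H.index = 2058 := by
    obtain ⟨_, _, _, _, _, _, _, _, _, _, hidx, _⟩ := Cfsg.Agent.Lib.HeAIdx.main H hH
    exact hidx
  have hcH : Nat.card H = 1958400 := by
    have h1 := H.card_mul_index
    rw [hidx, hcard] at h1
    omega
  have ht2 : wt.eval (C.x L0) * wt.eval (C.x L0) = 1 := by
    have := eval_eq_one hinj c_nets x_iv0 hφ (relK_of_relsK v_rels (Wd.pow wt 2) (by simp [vW]))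
    simpa [Wd.eval, pow_two] using this
  obtain ⟨hle, hcov⟩ := IdxTwo.main (C.x L0) wt ev [] WS (by decide) (by decide) (by intro W hW; simp at hW) (by decide) ht2
  rw [← hH] at hle hcov
  change Subgroup.closure (wset (C.x L0) WN) ≤ H at hle
  change ∀ h ∈ H, h ∈ Subgroup.closure (wset (C.x L0) WN) ∨ h * wt.eval (C.x L0) ∈ Subgroup.closure (wset (C.x L0) WN) at hcov
  generalize hN0 : Subgroup.closure (wset (C.x L0) WN) = N0 at hle hcov
  have hτH : wt.eval (C.x L0) ∈ H := by rw [hH]; exact mem_wset (W := wt) (by decide)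
  have horb : ∀ j, (∃ h ∈ N0, φ h st = j) ↔ j ∈ X := by
    intro j
    rw [← hN0]
    exact orbit_lanes c_nets hφ x_iv0 WN steps o_inv o_reach j
  have hX : ∀ h ∈ N0, ∀ i ∈ X, φ h i ∈ X := by
    intro h hh i hi
    obtain ⟨g, hg, rfl⟩ := (horb i).mpr hi
    exact (horb _).mp ⟨h * g, N0.mul_mem hh hg, by rw [map_mul]; rfl⟩
  have hstX : st ∈ X := (horb st).mp ⟨1, N0.one_mem, by rw [map_one]; rfl⟩
  obtain ⟨π, hπ, hall⟩ := match_hom (X := X) (pt := vec L) (ρ := ρ) φ N0 hX _ hN0.symm (gens_ok hφ) (⊥ : Subgroup Sp)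
    (by
      intro s hs
      rw [Subgroup.mem_bot]
      apply eq_one
      intro v hv
      obtain ⟨i, hi, c, hc, rfl⟩ := pt_all v hv
      obtain ⟨d, _, h1⟩ := hs i hi
      refine ⟨d, ?_⟩
      rw [map_smul, h1, smul_comm]; rfl)
  -- the odd involution is not in the subgroup
  have hτN : wt.eval (C.x L0) ∉ N0 := by
    intro hτ
    obtain ⟨s, hs⟩ := hall ⟨_, hτ⟩
    have e : ∀ i, φ (wt.eval (C.x L0)) i = wfn nets (wt.flat iv) i := phi_eval hφ wt
    have hl := l_t
    simp only [List.map_cons, List.map_nil, List.cons.injEq, and_true] at hl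
    obtain ⟨l2, l5, l11, l68⟩ := hl
    obtain ⟨m2, m5, m11, m68⟩ := q_M
    obtain ⟨a, ha, h2⟩ := hs 2 m2
    obtain ⟨b, hb, h5⟩ := hs 5 m5
    obtain ⟨c, hc, h11⟩ := hs 11 m11
    obtain ⟨d, hd, h68⟩ := hs 68 m68
    change ρ s (vec L 2) = a • vec L (φ (wt.eval (C.x L0)) 2) at h2
    change ρ s (vec L 5) = b • vec L (φ (wt.eval (C.x L0)) 5) at h5
    change ρ s (vec L 11) = c • vec L (φ (wt.eval (C.x L0)) 11) at h11
    change ρ s (vec L 68) = d • vec L (φ (wt.eval (C.x L0)) 68) at h68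
    rw [e, l2] at h2
    rw [e, l5] at h5
    rw [e, l11, q11, map_add, map_smul, h2, h5] at h11
    rw [e, l68, q68, map_add, h2, h5, q37] at h68
    obtain ⟨p0, p3⟩ := q2
    obtain ⟨r0, r3⟩ := q5
    have e1 := congrFun h11 (Sum.inl 0)
    have e2 := congrFun h11 (Sum.inr 1)
    have e3 := congrFun h68 (Sum.inl 0)
    have e4 := congrFun h68 (Sum.inr 1)
    simp only [Pi.add_apply, Pi.smul_apply, smul_eq_mul, p0, p3, r0, r3, mul_zero, mul_one, add_zero, zero_add] at e1 e2 e3 e4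
    have key : ∀ a b c d : K4, d ≠ 0 → b = c → om * a = c * om → b = d → a = d * om' → False := by decide
    exact key a b c d hd e1 e2 e3 e4
  obtain ⟨hnorm, hix⟩ := IdxTwo.index_two hτH hcov hτN
  refine ⟨N0.subgroupOf H, hnorm, hix, ?_⟩
  have hcN : Nat.card N0 = 979200 := by
    have h1 := (N0.subgroupOf H).card_mul_index
    rw [hix, hcH, Nat.card_congr (Subgroup.subgroupOfEquivOfLe hle).toEquiv] at h1
    omega
  -- surjectivity
  have hmem : ∀ W ∈ WN, W.eval (C.x L0) ∈ N0 := fun W hW => by rw [← hN0]; exact mem_wset hW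
  have hs : Function.Surjective π := by
    rw [← MonoidHom.range_eq_top]
    have h1 : π.range.comap (QuotientGroup.mk' (⊥ : Subgroup Sp)) = ⊤ := by
      apply eq_top
      intro v a hv0
      obtain ⟨i, hi, c, hc, rfl⟩ := pt_all v hv0
      obtain ⟨h, hh, hhi⟩ := (horb i).mpr hi
      obtain ⟨s, hs⟩ := hall ⟨h, hh⟩
      obtain ⟨d, hd, h2⟩ := hs st hstX
      change ρ s (vec L st) = d • vec L (φ h st) at h2
      rw [hhi, q_st] at h2
      -- root group at the start point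
      have hroot : ∀ b : K4, (QuotientGroup.mk' (⊥ : Subgroup Sp)) (tv (Pi.single (Sum.inr 0) 1) b) ∈ π.range := by
        have h7 : (QuotientGroup.mk' (⊥ : Subgroup Sp)) (tv (Pi.single (Sum.inr 0) 1) 1) ∈ π.range := by
          have hm := hmem (Wd.g 2) (by decide)
          refine ⟨⟨_, hm⟩, ?_⟩
          rw [hπ ⟨_, hm⟩ _ (mt_of_check (W := Wd.g 2) hφ s1 t1)]
          have : el m1 (mem_of_memK s1) = tv (Pi.single (Sum.inr 0) 1) 1 := Subtype.ext tv1
          rw [this]; rfl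
        have h8 : (QuotientGroup.mk' (⊥ : Subgroup Sp)) (tv (Pi.single (Sum.inr 0) 1) om) ∈ π.range := by
          have hm := hmem (Wd.mul wt (Wd.mul (Wd.g 2) wt)) (by decide)
          refine ⟨⟨_, hm⟩, ?_⟩
          rw [hπ ⟨_, hm⟩ _ (mt_of_check (W := Wd.mul wt (Wd.mul (Wd.g 2) wt)) hφ s7 t7)]
          have : el m7 (mem_of_memK s7) = tv (Pi.single (Sum.inr 0) 1) om := Subtype.ext tv7
          rw [this]; rfl
        intro b
        rcases k4_cases b with rfl | rfl | rfl | rfl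
        · have : tv (Pi.single (Sum.inr 0) 1) (0 : K4) = 1 := by
            apply ext_ρ; intro x
            rw [tv_apply, zero_mul, zero_smul, add_zero, map_one]; rfl
          rw [this, map_one]; exact π.range.one_mem
        · exact h7
        · exact h8
        · have h9 : tv (Pi.single (Sum.inr 0) 1) om' = tv (Pi.single (Sum.inr 0) 1) 1 * tv (Pi.single (Sum.inr 0) 1) om := by
            rw [tv_mul]; congr 1
          rw [h9, map_mul]; exact π.range.mul_mem h7 h8
      rw [Subgroup.mem_comap]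
      -- conjugate
      have h10 : tv (c • vec L i) a = s * tv (Pi.single (Sum.inr 0) 1) (a * c * c * (d⁻¹ * d⁻¹)) * s⁻¹ := by
        rw [tv_conj, h2, tv_smul, tv_smul]
        congr 1
        field_simp
      rw [h10, map_mul, map_mul, map_inv]
      have h11 : (QuotientGroup.mk' (⊥ : Subgroup Sp)) s ∈ π.range := ⟨⟨h, hh⟩, by rw [hπ _ s hs]; rfl⟩
      exact π.range.mul_mem (π.range.mul_mem h11 (hroot _)) (π.range.inv_mem h11)
    rw [eq_top_iff]
    rintro q -
    obtain ⟨g, rfl⟩ := QuotientGroup.mk_surjective q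
    have h2 : g ∈ π.range.comap (QuotientGroup.mk' (⊥ : Subgroup Sp)) := by rw [h1]; trivial
    exact h2
  have hfin : Finite N0 := Nat.finite_of_card_ne_zero (by rw [hcN]; norm_num)
  have hq : Nat.card (Sp ⧸ (⊥ : Subgroup Sp)) = 979200 := by
    rw [← Sp4K4.card]
    exact Nat.card_congr (QuotientGroup.quotientBot (G := Sp)).toEquiv
  have hbij : Function.Bijective π := by
    refine (Nat.bijective_iff_surjective_and_card π).mpr ⟨hs, ?_⟩
    rw [hcN, hq]
  exact ⟨(Subgroup.subgroupOfEquivOfLe hle).trans ((MulEquiv.ofBijective π hbij).trans QuotientGroup.quotientBot)⟩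

end Cfsg.Agent.Lib.HeSp
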