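import Cfsg.Agent.Lib.H92SMPres
import Cfsg.Agent.Lib.HeSp
import Cfsg.Agent.S0246
import Cfsg.Agent.S0270
import Cfsg.Agent.Lib.MulPSp

/-!
The Held group: stabilizers of index 4116 are isomorphic to `Sp(4,4)` (helper92)
-/

set_option autoImplicit false
set_option linter.all false

namespace Cfsg.Agent.Lib.H92SMHeS

open Subgroup Cfsg.Agent.Lib.SchurSylow Cfsg.Agent.Lib.H58SM Cfsg.Agent.Lib.H92SMPres
open Cfsg.Spor Cfsg.Agent.Lib.BenesWord Cfsg.Agent.Lib.CoxBridge Cfsg.Agent.Lib.CosetGroup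
open Cfsg.Agent.Lib.K4 Cfsg.Agent.Lib.HeRel
open scoped commutatorElement

abbrev Sp : Type := Matrix.symplecticGroup (Fin 2) K4

/-- the presented Held group -/
abbrev Gh : Type := CoxPresented He.Gen He.edges He.extra

theorem sp_center : center Sp = ⊥ := by
  rw [← Subgroup.card_eq_one]
  have h := Cfsg.Agent.S0246.result (F := K4) (q := 4) card_K4 2 (by norm_num)
  rw [h]; rfl

theorem sp_simple : IsSimpleGroup Sp := by
  have h := Cfsg.Agent.S0270.result (F := K4) 2 le_rfl (fun _ => by rw [card_K4]; norm_num)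
  have e : Sp ≃* Cfsg.PSp 2 K4 := (QuotientGroup.quotientBot (G := Sp)).symm.trans (QuotientGroup.quotientMulEquivOfEq sp_center.symm)
  exact e.isSimpleGroup

theorem sp_stem : StemDvd Sp 1 := by
  have h := Cfsg.Agent.Lib.MulPSp.psp_mult (F := K4) (q := 4) card_K4 2 le_rfl (fun _ => by norm_num) (by norm_num)
  have e : Sp ≃* Cfsg.PSp 2 K4 := (QuotientGroup.quotientBot (G := Sp)).symm.trans (QuotientGroup.quotientMulEquivOfEq sp_center.symm)
  have h1 : StemDvd (Cfsg.PSp 2 K4) 1 := stemDvd_of_hasTrivial h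
  exact h1.congr e.symm

theorem sp_perfect : commutator Sp = ⊤ := by
  haveI := sp_simple
  rcases (inferInstance : (commutator Sp).Normal).eq_bot_or_eq_top with h | h
  · exfalso
    have h1 : center Sp = ⊤ := (commutator_eq_bot_iff_center_eq_top Sp).1 h
    have h2 := sp_center
    rw [h1] at h2
    exact absurd h2 top_ne_bot
  · exact h

/-- a perfect subgroup is contained in every subgroup of index two -/
theorem le_of_index_two {H : Type*} [Group H] (N K : Subgroup H) (hN : ⁅N, N⁆ = N) (hK : K.index = 2) : N ≤ K := by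
  haveI := Subgroup.normal_of_index_eq_two hK
  have h1 : ∀ x y : H ⧸ K, x * y = y * x := by
    have : Nat.card (H ⧸ K) = 2 := hK
    haveI f2 : Fact (Nat.Prime 2) := ⟨Nat.prime_two⟩
    haveI := isCyclic_of_prime_card (p := 2) this
    intro x y
    letI := IsCyclic.commGroup (α := H ⧸ K)
    exact mul_comm x y
  have h2 : ⁅N, N⁆ ≤ K := by
    rw [commutator_le]
    intro x _ y _
    rw [← QuotientGroup.eq_one_iff]
    show ((⁅x, y⁆ : H) : H ⧸ K) = 1
    rw [commutatorElement_def]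
    show (x : H ⧸ K) * (y : H ⧸ K) * (x : H ⧸ K)⁻¹ * (y : H ⧸ K)⁻¹ = 1
    rw [h1 x y]; group
  rwa [hN] at h2

theorem stab_equiv {Ω : Type*} [MulAction Gh Ω] (o : Ω)
    (hc : 4116 * Nat.card (MulAction.stabilizer Gh o) = 4030387200)
    (hfix : ∀ W ∈ HeSp.WN, W.eval (C.x HeA.L0) • o = o) :
    Nonempty (MulAction.stabilizer Gh o ≃* Sp) := by
  set S := MulAction.stabilizer Gh o with hS
  obtain ⟨hsimp, hcard, φ, hφ, hinj, -⟩ := HeOrd.main
  haveI hfin : Finite Gh := Nat.finite_of_card_ne_zero (by rw [hcard]; norm_num)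
  obtain ⟨H, hH⟩ : ∃ H : Subgroup Gh, H = Subgroup.closure (wset (C.x HeA.L0) HeA.WS) := ⟨_, rfl⟩
  have hidx : H.index = 2058 := by
    obtain ⟨_, _, _, _, _, _, _, _, _, _, hidx, _⟩ := Cfsg.Agent.Lib.HeAIdx.main H hH
    exact hidx
  have hcH : Nat.card H = 1958400 := by
    have h1 := H.card_mul_index
    rw [hidx, hcard] at h1
    omega
  obtain ⟨N, hNn, hNi, ⟨eN⟩⟩ := HeSp.main H hH
  have ht2 : HeSp.wt.eval (C.x HeA.L0) * HeSp.wt.eval (C.x HeA.L0) = 1 := by
    have := Cfsg.Agent.Lib.CosetOrder.eval_eq_one hinj HeA.c_nets HeA.x_iv0 hφ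
      (relK_of_relsK HeSp.v_rels (Wd.pow HeSp.wt 2) (by simp [HeSp.vW]))
    simpa [Wd.eval, pow_two] using this
  obtain ⟨hle, hcov⟩ := IdxTwo.main (C.x HeA.L0) HeSp.wt HeSp.ev [] HeA.WS (by decide) (by decide)
    (by intro W hW; simp at hW) (by decide) ht2
  rw [← hH] at hle hcov
  change Subgroup.closure (wset (C.x HeA.L0) HeSp.WN) ≤ H at hle
  change ∀ h ∈ H, h ∈ Subgroup.closure (wset (C.x HeA.L0) HeSp.WN) ∨
    h * HeSp.wt.eval (C.x HeA.L0) ∈ Subgroup.closure (wset (C.x HeA.L0) HeSp.WN) at hcov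
  set N0 := Subgroup.closure (wset (C.x HeA.L0) HeSp.WN) with hN0
  have hNS : N0 ≤ S := by
    rw [hN0, closure_le]
    rintro _ ⟨W, hW, rfl⟩
    exact hfix W hW
  have hcS : Nat.card S = 979200 := by omega
  -- `H` is covered by `N0` and `N0 τ`
  have h2 : Nat.card H ≤ 2 * Nat.card N0 := by
    have h3 : (H : Set Gh) ⊆ (N0 : Set Gh) ∪ (fun y => y * (HeSp.wt.eval (C.x HeA.L0))⁻¹) '' (N0 : Set Gh) := by
      intro h hh
      rcases hcov h hh with h4 | h4
      · exact Or.inl h4
      · exact Or.inr ⟨_, h4, by simp⟩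
    have h4 := Set.ncard_le_ncard h3 (Set.toFinite _)
    have h5 := Set.ncard_union_le (N0 : Set Gh) ((fun y => y * (HeSp.wt.eval (C.x HeA.L0))⁻¹) '' (N0 : Set Gh))
    have h6 := Set.ncard_image_le (f := fun y => y * (HeSp.wt.eval (C.x HeA.L0))⁻¹) (Set.toFinite (N0 : Set Gh))
    have h7 : (N0 : Set Gh).ncard = Nat.card N0 := rfl
    have h8 : (H : Set Gh).ncard = Nat.card H := rfl
    have h9 : (fun y => y * (HeSp.wt.eval (C.x HeA.L0))⁻¹) '' (N0 : Set Gh) = ((fun y => y * (HeSp.wt.eval (C.x HeA.L0))⁻¹) '' (N0 : Set Gh)) := rfl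
    rw [h7] at h5 h6
    rw [h8] at h4
    exact h4.trans (h5.trans (by rw [two_mul]; exact Nat.add_le_add_left h6 _))
  have hN0S : N0 = S := by
    apply eq_of_le_of_card_ge hNS
    rw [hcS]
    omega
  rw [hN0S] at hle
  have hidx2 : (S.subgroupOf H).index = 2 := by
    have h3 := (S.subgroupOf H).card_mul_index
    rw [hcH, Nat.card_congr (Subgroup.subgroupOfEquivOfLe hle).toEquiv, hcS] at h3
    omega
  have hNp : ⁅N, N⁆ = N := by
    have h3 : (commutator N).map N.subtype = N := by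
      have h4 : commutator N = ⊤ := by
        have h5 : (commutator Sp).map eN.symm.toMonoidHom = commutator N := by
          rw [_root_.commutator_def, _root_.commutator_def, map_commutator, ← MonoidHom.range_eq_map,
            MonoidHom.range_eq_top.2 eN.symm.surjective]
        rw [← h5, sp_perfect, ← MonoidHom.range_eq_map, MonoidHom.range_eq_top.2 eN.symm.surjective]
      rw [h4, ← MonoidHom.range_eq_map, range_subtype]
    rw [_root_.commutator_def, map_commutator, ← MonoidHom.range_eq_map, range_subtype] at h3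
    exact h3
  have hNK := le_of_index_two N (S.subgroupOf H) hNp hidx2
  have hNK' : N = S.subgroupOf H := by
    apply eq_of_le_of_card_ge hNK
    have h3 := (S.subgroupOf H).card_mul_index
    have h4 := N.card_mul_index
    rw [hidx2] at h3
    rw [hNi] at h4
    exact le_of_eq (Nat.eq_of_mul_eq_mul_right (by norm_num) (h3.trans h4.symm))
  exact ⟨(Subgroup.subgroupOfEquivOfLe hle).symm.trans ((MulEquiv.subgroupCongr hNK'.symm).trans eN)⟩

end Cfsg.Agent.Lib.H92SMHeS
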