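import Cfsg.Agent.Lib.H58SMg
import Cfsg.Agent.Lib.CosetGroup

/-!
Schur multiplier engine for Coxeter-type presented groups: the action on the table is obtained from the presentation (helper92)
-/

set_option autoImplicit false

namespace Cfsg.Agent.Lib.H92SMPres

open Subgroup Cfsg.Agent.Lib.SchurSylow Cfsg.Agent.Lib.H58SM
open Cfsg.Spor Cfsg.Agent.Lib.BenesWord Cfsg.Agent.Lib.CoxBridge Cfsg.Agent.Lib.CosetGroup

/-- inverse letter -/
def flp (l : ℕ) : ℕ := if l % 2 = 0 then l + 1 else l - 1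

/-- path letters of a word (the head of the list is applied first) -/
def pl : Wd → List ℕ
  | .one => []
  | .g c => [2 * c]
  | .inv u => ((pl u).map flp).reverse
  | .mul u v => pl v ++ pl u
  | .pow u n => (List.replicate n (pl u)).flatten

theorem ev_flp {Γ : Type*} [Group Γ] (x : ℕ → Γ) (w : List ℕ) : ev x (w.map flp).reverse = (ev x w)⁻¹ := by
  induction w with
  | nil => simp [ev]
  | cons l w ih =>
    rw [List.map_cons, List.reverse_cons, ev_append, ih, ev_cons, ev_cons, ev_nil, one_mul, mul_inv_rev]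
    congr 1
    unfold lt flp
    by_cases h : l % 2 = 0
    · rw [if_pos h, if_pos h, if_neg (by omega)]
      congr 2; omega
    · rw [if_neg h, if_neg h, if_pos (by omega), inv_inv]
      congr 1; omega

theorem ev_pl {Γ : Type*} [Group Γ] (x : ℕ → Γ) (W : Wd) : ev x (pl W) = W.eval x := by
  induction W with
  | one => rfl
  | g c =>
    show ev x [2 * c] = x c
    rw [ev_cons, ev_nil, one_mul, lt, if_pos (by omega)]
    congr 1; omega
  | inv u ih =>
    show ev x ((pl u).map flp).reverse = (Wd.eval x u)⁻¹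
    rw [ev_flp, ih]
  | mul u v ihu ihv =>
    show ev x (pl v ++ pl u) = _
    rw [ev_append, ihu, ihv]; rfl
  | pow u n ih =>
    show ev x (List.replicate n (pl u)).flatten = (Wd.eval x u) ^ n
    induction n with
    | zero => rw [pow_zero]; rfl
    | succ n ihn => rw [List.replicate_succ, List.flatten_cons, ev_append, ihn, ih, pow_succ]

section table

variable (D : Dat)

/-- the permutations of the table -/
noncomputable def tp (h1 : ∀ l < 2 * D.k, ∀ a < D.n, D.T l a < D.n)
    (h2 : ∀ i < D.k, ∀ a < D.n, D.T (2 * i) (D.T (2 * i + 1) a) = a) (i : ℕ) : Equiv.Perm (Fin D.n) :=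
  if hi : i < D.k then
    Equiv.ofBijective (fun a : Fin D.n => (⟨D.T (2 * i) a, h1 _ (by omega) a a.2⟩ : Fin D.n)) (by
      have h : Function.Surjective (fun a : Fin D.n => (⟨D.T (2 * i) a, h1 _ (by omega) a a.2⟩ : Fin D.n)) := by
        intro a
        exact ⟨⟨D.T (2 * i + 1) a, h1 _ (by omega) a a.2⟩, Fin.ext (h2 i hi a a.2)⟩
      exact ⟨Finite.injective_iff_surjective.2 h, h⟩)
  else 1

variable {D}
variable (h1 : ∀ l < 2 * D.k, ∀ a < D.n, D.T l a < D.n)
    (h2 : ∀ i < D.k, ∀ a < D.n, D.T (2 * i) (D.T (2 * i + 1) a) = a)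

theorem tp_apply {i : ℕ} (hi : i < D.k) (a : Fin D.n) : (tp D h1 h2 i a : ℕ) = D.T (2 * i) a := by
  unfold tp
  rw [dif_pos hi]; rfl

theorem tp_lt {l : ℕ} (hl : l < 2 * D.k) (a : Fin D.n) : ((lt (tp D h1 h2) l : Equiv.Perm (Fin D.n)) a : ℕ) = D.T l a := by
  unfold lt
  by_cases h : l % 2 = 0
  · rw [if_pos h, tp_apply h1 h2 (by omega)]
    congr 1; omega
  · rw [if_neg h]
    have e : (tp D h1 h2 (l / 2))⁻¹ a = (⟨D.T l a, h1 l hl a a.2⟩ : Fin D.n) := by
      rw [Equiv.Perm.inv_eq_iff_eq]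
      apply Fin.ext
      rw [tp_apply h1 h2 (by omega)]
      have := h2 (l / 2) (by omega) a a.2
      have h3 : 2 * (l / 2) + 1 = l := by omega
      rw [h3] at this
      exact this.symm
    rw [e]

theorem tp_ev {w : List ℕ} (hw : ∀ l ∈ w, l < 2 * D.k) (a : Fin D.n) : (ev (tp D h1 h2) w a : ℕ) = pt D.T w a := by
  induction w generalizing a with
  | nil => rfl
  | cons l w ih =>
    rw [ev_cons, Equiv.Perm.mul_apply, ih (fun l hl => hw l (List.mem_cons_of_mem _ hl)),
      tp_lt h1 h2 (hw l List.mem_cons_self)]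
    rfl

end table

section pres

variable {α : Type} [DecidableEq α] {edges : List (α × ℕ × α)} {extra : List (FreeGroup α)}
  (C : CoxData α edges extra)

/-- all relators -/
def allRel (nn : ℕ) (cw ew : List Wd) : List Wd := (List.range nn).map (fun i => Wd.mul (Wd.g i) (Wd.g i)) ++ (cw ++ ew)

theorem rel_eval (L : List (CoxPresented α edges extra)) {W : Wd} (hW : W ∈ allRel C.nn (coxWds edges C.gen C.nn) C.extraW) :
    W.eval (C.x L) = 1 := by
  obtain ⟨h1, h2, h3⟩ := C.rel_x L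
  rcases List.mem_append.1 hW with h | h
  · obtain ⟨i, hi, rfl⟩ := List.mem_map.1 h
    exact h3 i (List.mem_range.1 hi)
  · rcases List.mem_append.1 h with h | h
    · exact h1 W h
    · exact h2 W h

/-- every relator of the presentation is one of the words of the certificate and conversely -/
structure Match (D : Dat) (R : List Wd) : Prop where
  fwd : ∀ W ∈ R, ∃ j < D.J, D.W j = pl W
  bwd : ∀ j < D.J, ∃ W ∈ R, D.W j = pl W

variable {C}

theorem Match.hrel {D : Dat} (M : Match D (allRel C.nn (coxWds edges C.gen C.nn) C.extraW)) (L : List (CoxPresented α edges extra)) :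
    ∀ j < D.J, ev (C.x L) (D.W j) = 1 := by
  intro j hj
  obtain ⟨W, hW, h⟩ := M.bwd j hj
  rw [h, ev_pl, rel_eval C L hW]

/-- the homomorphism to the permutations of the table -/
theorem exists_hom {D : Dat} (M : Match D (allRel C.nn (coxWds edges C.gen C.nn) C.extraW)) (hk : D.k = C.ng)
    (ht1 : D.tab1 = true) (ht2 : D.tab2 = true) (hw : D.wOk = true) (hr : D.relOk = true) :
    ∃ ψ : CoxPresented α edges extra →* Equiv.Perm (Fin D.n), ∀ L, ∀ w : List ℕ, (∀ l ∈ w, l < 2 * D.k) →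
      ∀ a : Fin D.n, (ψ (ev (C.x L) w) a : ℕ) = pt D.T w a := by
  have h1 : ∀ l < 2 * D.k, ∀ a < D.n, D.T l a < D.n := fun l hl a ha =>
    Sol.blt_iff.1 (alln_iff.1 (alln_iff.1 ht1 l hl) a ha)
  have h2 : ∀ i < D.k, ∀ a < D.n, D.T (2 * i) (D.T (2 * i + 1) a) = a := by
    intro i hi a ha
    have h := alln_iff.1 (alln_iff.1 ht2 i hi) a ha
    rw [frc_eq] at h
    exact Sol.beq_iff.1 h
  have hone : ∀ W ∈ allRel C.nn (coxWds edges C.gen C.nn) C.extraW, W.eval (tp D h1 h2) = 1 := by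
    intro W hW
    obtain ⟨j, hj, hWj⟩ := M.fwd W hW
    rw [← ev_pl, ← hWj]
    ext a
    rw [tp_ev h1 h2 (Dat.wOk_iff hw j hj)]
    have h3 := alln_iff.1 hr j hj
    rw [frc_eq] at h3
    rw [← Dat.ptf_eq]
    exact Sol.beq_iff.1 (alln_iff.1 h3 a a.2)
  obtain ⟨ψ, hψ⟩ := C.hom (tp D h1 h2)
    (fun i hi => hone (Wd.mul (Wd.g i) (Wd.g i)) (List.mem_append_left _ (List.mem_map.2 ⟨i, List.mem_range.2 hi, rfl⟩)))
    (fun W hW => hone W (List.mem_append_right _ (List.mem_append_left _ hW)))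
    (fun W hW => hone W (List.mem_append_right _ (List.mem_append_right _ hW)))
  refine ⟨ψ, fun L w hw' a => ?_⟩
  rw [← tp_ev h1 h2 hw', map_ev]
  congr 2
  refine ev_congr (k := D.k) ?_ hw'
  intro i hi
  rw [hk] at hi
  rw [C.x_of_lt L hi, hψ i hi]

end pres

/-- the points -/
def pe0 {n : ℕ} (h : 0 < n) (a : ℕ) : Fin n := ⟨a % n, Nat.mod_lt _ h⟩

theorem pe0_val {n : ℕ} (h : 0 < n) {a : ℕ} (ha : a < n) : ((pe0 h a : Fin n) : ℕ) = a := Nat.mod_eq_of_lt ha

end Cfsg.Agent.Lib.H92SMPres
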