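import Cfsg.Agent.Lib.H97Fa0

/-! S5440 piece A (helper53): the quadratic space of an extraspecial 2-group. -/

set_option autoImplicit false

namespace Cfsg.Agent.Lib.H97FaA

open Cfsg Cfsg.Agent.Lib.H97Fa Cfsg.Agent.Lib.LargeExtra

theorem exists_dual {V : Type*} [AddCommGroup V] [Finite V] {q : V → ZMod 2} {b : V → V → ZMod 2}
    (h : QS q b) (l : V →+ ZMod 2) : ∃ u, ∀ v, b u v = l v := by
  haveI : Module (ZMod 2) V := AddCommGroup.zmodModule (fun v => by rw [two_nsmul]; exact h.two v)
  let f : V → Module.Dual (ZMod 2) V := fun u =>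
    (AddMonoidHom.toZModLinearMap 2 (AddMonoidHom.mk' (b u) (h.badd' u)))
  let B : V →ₗ[ZMod 2] Module.Dual (ZMod 2) V :=
    AddMonoidHom.toZModLinearMap 2 (AddMonoidHom.mk' f (fun u v => by ext w; exact h.badd u v w))
  have hinj : Function.Injective B :=
    (injective_iff_map_eq_zero B).2 (fun u hu => h.nd u (fun v => by
      have := LinearMap.congr_fun hu v; exact this))
  have hsurj : Function.Surjective B := by
    haveI : FiniteDimensional (ZMod 2) V := Module.Finite.of_finite
    exact (LinearMap.injective_iff_surjective_of_finrank_eq_finrank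
      (Subspace.dual_finrank_eq).symm).1 hinj
  obtain ⟨u, hu⟩ := hsurj (AddMonoidHom.toZModLinearMap 2 l)
  exact ⟨u, fun v => LinearMap.congr_fun hu v⟩

universe u

theorem setup {H : Type u} [Group H] [Finite H] (ζ : H) (Q : Subgroup H) [Q.Normal] (hE : ExData Q ζ)
    (hcent : ∀ g : H, (∀ q ∈ Q, q * g = g * q) → g = 1 ∨ g = ζ) (hcard : Nat.card Q = 2 ^ 13) :
    ∃ (V : Type u) (_ : AddCommGroup V) (_ : Finite V) (q : V → ZMod 2) (b : V → V → ZMod 2) (ρ : H →* AddMonoid.End V) (π : Q → V),
      QS q b ∧ Nat.card V = 2 ^ 12 ∧ (∀ g v, q (ρ g v) = q v) ∧ (∀ g, ρ g = 1 ↔ g ∈ Q) ∧ Function.Surjective π ∧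
      (∀ r s : Q, π r = π s ↔ ((r : H) = s ∨ (r : H) = ζ * s)) ∧ (∀ r s, π (r * s) = π r + π s) ∧
      (∀ r : Q, q (π r) = 0 ↔ (r : H) * r = 1) ∧
      (∀ (g : H) (r s : Q), (s : H) = g * r * g⁻¹ → ρ g (π r) = π s) := by
  classical
  have hz := hE.sq
  have hzne := hE.ne
  have hcen : ∀ c : Q, c ∈ Subgroup.center Q ↔ ((c : H) = 1 ∨ (c : H) = ζ) := by
    intro c
    rw [Subgroup.mem_center_iff]
    constructor
    · intro h
      exact hE.center c c.2 (fun x hx => (congrArg Subtype.val (h ⟨x, hx⟩)).symm)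
    · rintro (h | h) g
      · apply Subtype.ext; simp [h]
      · apply Subtype.ext
        show (g : H) * c = c * g
        rw [h]; exact hE.cen g g.2
  have hζc : (⟨ζ, hE.mem⟩ : Q) ∈ Subgroup.center Q := (hcen _).2 (Or.inr rfl)
  -- ζ is central in `H`
  have hζH : ∀ g : H, g * ζ * g⁻¹ = ζ := by
    intro g
    have h1 : (MulAut.conjNormal g (⟨ζ, hE.mem⟩ : Q)) ∈ Subgroup.center Q := by
      have h2 := (inferInstance : (Subgroup.center Q).Characteristic).fixed (MulAut.conjNormal g)
      have h3 := hζc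
      rw [← h2] at h3
      exact h3
    rcases (hcen _).1 h1 with h | h
    · exfalso
      rw [MulAut.conjNormal_apply] at h
      apply hzne
      have : g * ζ * g⁻¹ = 1 := h
      rw [mul_inv_eq_one] at this
      exact mul_eq_left.1 this
    · rw [MulAut.conjNormal_apply] at h
      exact h
  have hζg : ∀ g : H, g * ζ = ζ * g := fun g => by
    have := hζH g
    rwa [mul_inv_eq_iff_eq_mul] at this
  let Z := Subgroup.center Q
  let _iC : CommGroup (Q ⧸ Z) :=
    { (inferInstance : Group (Q ⧸ Z)) with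
      mul_comm := by
        intro x y
        obtain ⟨x, rfl⟩ := QuotientGroup.mk_surjective x
        obtain ⟨y, rfl⟩ := QuotientGroup.mk_surjective y
        rw [← QuotientGroup.mk_mul, ← QuotientGroup.mk_mul, QuotientGroup.eq]
        apply (hcen _).2
        rcases hE.comm x x.2 y y.2 with h | h
        · left
          show ((x : H) * y)⁻¹ * (y * x) = 1
          rw [h]; simp
        · right
          show ((x : H) * y)⁻¹ * (y * x) = ζ
          rw [h, mul_inv_rev, hE.inv, mul_assoc, ← hζg, inv_mul_cancel_left] }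
  let π : Q → Additive (Q ⧸ Z) := fun r => Additive.ofMul (r : Q ⧸ Z)
  have πsurj : Function.Surjective π := by
    intro v
    obtain ⟨r, hr⟩ := QuotientGroup.mk_surjective (Additive.toMul v)
    exact ⟨r, by show Additive.ofMul _ = v; rw [hr]; rfl⟩
  have πeq : ∀ r s : Q, π r = π s ↔ ((r : H) = s ∨ (r : H) = ζ * s) := by
    intro r s
    have h1 : π r = π s ↔ (r : Q ⧸ Z) = (s : Q ⧸ Z) := Iff.rfl
    rw [h1, QuotientGroup.eq, hcen]
    show ((r : H)⁻¹ * s = 1 ∨ (r : H)⁻¹ * s = ζ) ↔ _
    rw [inv_mul_eq_iff_eq_mul, inv_mul_eq_iff_eq_mul, mul_one]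
    constructor
    · rintro (h | h)
      · exact Or.inl h.symm
      · right; rw [h, ← mul_assoc, ← hζg, mul_assoc, hz, mul_one]
    · rintro (h | h)
      · exact Or.inl h.symm
      · right; rw [h, hζg, ← mul_assoc, hz, one_mul]
  have πmul : ∀ r s, π (r * s) = π r + π s := fun r s => rfl
  have π0 : ∀ r : Q, π r = 0 ↔ ((r : H) = 1 ∨ (r : H) = ζ) := by
    intro r
    have h0 : (0 : Additive (Q ⧸ Z)) = π 1 := rfl
    rw [h0, πeq]
    simp
  -- sections
  let rep : Additive (Q ⧸ Z) → Q := fun v => (πsurj v).choose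
  have hrep : ∀ v, π (rep v) = v := fun v => (πsurj v).choose_spec
  let Qf : Q → ZMod 2 := fun r => if (r : H) * r = 1 then 0 else 1
  let Bf : Q → Q → ZMod 2 := fun r s => if (r : H) * s = s * r then 0 else 1
  have Qf0 : ∀ r : Q, (r : H) * r = 1 → Qf r = 0 := fun r h => if_pos h
  have Qf1 : ∀ r : Q, (r : H) * r = ζ → Qf r = 1 := fun r h => if_neg (by rw [h]; exact hzne)
  have Bf0 : ∀ r s : Q, (r : H) * s = s * r → Bf r s = 0 := fun r s h => if_pos h
  have Bf1 : ∀ r s : Q, (r : H) * s = ζ * (s * r) → Bf r s = 1 := fun r s h => if_neg (fun h2 => by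
    rw [h2] at h
    exact hzne (right_eq_mul.1 h))
  have Qfz : ∀ r s : Q, π r = π s → Qf r = Qf s := by
    intro r s h
    rcases (πeq r s).1 h with h | h
    · rw [Subtype.ext h]
    · have e : (r : H) * r = s * s := by
        rw [h, mul_assoc, ← mul_assoc (s : H), hζg, mul_assoc, ← mul_assoc, hz, one_mul]
      show (if (r : H) * r = 1 then (0 : ZMod 2) else 1) = if (s : H) * s = 1 then 0 else 1
      rw [e]
  have Bfz1 : ∀ r s t : Q, π r = π s → Bf r t = Bf s t := by
    intro r s t h
    rcases (πeq r s).1 h with h | h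
    · rw [Subtype.ext h]
    · have e : ((r : H) * t = t * r) ↔ ((s : H) * t = t * s) := by
        rw [h, mul_assoc, ← mul_assoc (t : H), hζg, mul_assoc, mul_right_inj]
      show (if (r : H) * t = t * r then (0 : ZMod 2) else 1) = if (s : H) * t = t * s then 0 else 1
      simp only [e]
  have Bfs : ∀ r s : Q, Bf r s = Bf s r := by
    intro r s
    show (if (r : H) * s = s * r then (0 : ZMod 2) else 1) = if (s : H) * r = r * s then 0 else 1
    simp only [eq_comm]
  have Bfz2 : ∀ r s t : Q, π r = π s → Bf t r = Bf t s := by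
    intro r s t h
    rw [Bfs, Bfs t s]; exact Bfz1 r s t h
  let q : Additive (Q ⧸ Z) → ZMod 2 := fun v => Qf (rep v)
  let b : Additive (Q ⧸ Z) → Additive (Q ⧸ Z) → ZMod 2 := fun u v => Bf (rep u) (rep v)
  have hq : ∀ r : Q, q (π r) = Qf r := fun r => Qfz _ _ (hrep _)
  have hb : ∀ r s : Q, b (π r) (π s) = Bf r s := fun r s => by
    show Bf (rep (π r)) (rep (π s)) = Bf r s
    rw [Bfz1 _ r _ (hrep _), Bfz2 _ s _ (hrep _)]
  have hQadd : ∀ r s : Q, Qf (r * s) = Qf r + Qf s + Bf r s := by
    intro r s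
    have z11 : (1 : ZMod 2) + 1 = 0 := by decide
    rcases hE.comm r r.2 s s.2 with h1 | h1
    · have e : ((r * s : Q) : H) * ((r * s : Q) : H) = ((r : H) * r) * (s * s) := by
        show ((r : H) * s) * (r * s) = _
        rw [mul_assoc, ← mul_assoc (s : H), ← h1]; simp only [mul_assoc]
      rw [Bf0 r s h1]
      rcases hE.qsq r r.2 with h2 | h2 <;> rcases hE.qsq s s.2 with h3 | h3
      · rw [Qf0 r h2, Qf0 s h3, Qf0 _ (by rw [e, h2, h3, one_mul])]; rfl
      · rw [Qf0 r h2, Qf1 s h3, Qf1 _ (by rw [e, h2, h3, one_mul])]; rfl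
      · rw [Qf1 r h2, Qf0 s h3, Qf1 _ (by rw [e, h2, h3, mul_one])]; rfl
      · rw [Qf1 r h2, Qf1 s h3, Qf0 _ (by rw [e, h2, h3, hz]), z11]; rfl
    · have h1' : (s : H) * r = ζ * (r * s) := by rw [h1, ← mul_assoc, hz, one_mul]
      have e : ((r * s : Q) : H) * ((r * s : Q) : H) = ζ * (((r : H) * r) * (s * s)) := by
        show ((r : H) * s) * (r * s) = _
        rw [mul_assoc, ← mul_assoc (s : H), h1', ← mul_assoc, ← mul_assoc, hζg]
        simp only [mul_assoc]
      rw [Bf1 r s h1]
      rcases hE.qsq r r.2 with h2 | h2 <;> rcases hE.qsq s s.2 with h3 | h3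
      · rw [Qf0 r h2, Qf0 s h3, Qf1 _ (by rw [e, h2, h3, one_mul, mul_one])]; rfl
      · rw [Qf0 r h2, Qf1 s h3, Qf0 _ (by rw [e, h2, h3, one_mul, hz])]; rfl
      · rw [Qf1 r h2, Qf0 s h3, Qf0 _ (by rw [e, h2, h3, mul_one, hz])]; rfl
      · rw [Qf1 r h2, Qf1 s h3, Qf1 _ (by rw [e, h2, h3, hz, mul_one])]; rfl
  have hBadd : ∀ r s t : Q, Bf (r * s) t = Bf r t + Bf s t := by
    intro r s t
    rcases hE.comm r r.2 t t.2 with h1 | h1 <;> rcases hE.comm s s.2 t t.2 with h2 | h2
    · rw [Bf0 r t h1, Bf0 s t h2, Bf0 _ _ (by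
        show ((r : H) * s) * t = t * (r * s)
        rw [mul_assoc, h2, ← mul_assoc, h1, mul_assoc])]; rfl
    · rw [Bf0 r t h1, Bf1 s t h2, Bf1 _ _ (by
        show ((r : H) * s) * t = ζ * (t * (r * s))
        rw [mul_assoc, h2, ← mul_assoc, hζg, mul_assoc, ← mul_assoc (r : H), h1]; simp only [mul_assoc])]; rfl
    · rw [Bf1 r t h1, Bf0 s t h2, Bf1 _ _ (by
        show ((r : H) * s) * t = ζ * (t * (r * s))
        rw [mul_assoc, h2, ← mul_assoc, h1]; simp only [mul_assoc])]; rfl
    · rw [Bf1 r t h1, Bf1 s t h2, Bf0 _ _ (by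
        show ((r : H) * s) * t = t * (r * s)
        rw [mul_assoc, h2, ← mul_assoc, hζg, mul_assoc, ← mul_assoc (r : H), h1]
        simp only [mul_assoc]; rw [← mul_assoc, hz, one_mul])]; rfl
  have hQS : QS q b := by
    refine ⟨?_, ?_, ?_, ?_⟩
    · intro v
      obtain ⟨r, rfl⟩ := πsurj v
      rw [← πmul, π0]
      exact hE.qsq r r.2
    · intro u v
      obtain ⟨r, rfl⟩ := πsurj u
      obtain ⟨s, rfl⟩ := πsurj v
      rw [← πmul, hq, hq, hq, hb]
      exact hQadd r s
    · intro u v w
      obtain ⟨r, rfl⟩ := πsurj u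
      obtain ⟨s, rfl⟩ := πsurj v
      obtain ⟨t, rfl⟩ := πsurj w
      rw [← πmul, hb, hb, hb]
      exact hBadd r s t
    · intro u hu
      obtain ⟨r, rfl⟩ := πsurj u
      rw [π0]
      refine hE.center r r.2 (fun x hx => ?_)
      have := hu (π ⟨x, hx⟩)
      rw [hb] at this
      by_contra hc
      have h1 : Bf r ⟨x, hx⟩ = 1 := if_neg hc
      rw [h1] at this
      exact one_ne_zero this
  -- the representation
  have hmap : ∀ g : H, Z ≤ Z.comap (MulAut.conjNormal g : MulAut Q).toMonoidHom := fun g =>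
    ((inferInstance : (Subgroup.center Q).Characteristic).fixed (MulAut.conjNormal g)).ge
  let f : H → ((Q ⧸ Z) →* (Q ⧸ Z)) := fun g =>
    QuotientGroup.map Z Z (MulAut.conjNormal g : MulAut Q).toMonoidHom (hmap g)
  have hf : ∀ (g : H) (r s : Q), (s : H) = g * r * g⁻¹ → f g (r : Q ⧸ Z) = (s : Q ⧸ Z) := by
    intro g r s h
    show ((MulAut.conjNormal g r : Q) : Q ⧸ Z) = s
    congr 1
    apply Subtype.ext
    rw [MulAut.conjNormal_apply, h]
  let ρ : H →* AddMonoid.End (Additive (Q ⧸ Z)) :=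
    { toFun := fun g => MonoidHom.toAdditive (f g)
      map_one' := by
        ext v
        obtain ⟨r, rfl⟩ := πsurj v
        exact congrArg Additive.ofMul (hf 1 r r (by simp))
      map_mul' := fun g h => by
        ext v
        obtain ⟨r, rfl⟩ := πsurj v
        have e1 := hf h r (MulAut.conjNormal h r) (by rw [MulAut.conjNormal_apply])
        have e2 := hf g (MulAut.conjNormal h r) (MulAut.conjNormal g (MulAut.conjNormal h r))
          (by rw [MulAut.conjNormal_apply])
        have e3 := hf (g * h) r (MulAut.conjNormal g (MulAut.conjNormal h r))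
          (by rw [MulAut.conjNormal_apply, MulAut.conjNormal_apply]; simp [mul_assoc])
        show Additive.ofMul (f (g * h) (r : Q ⧸ Z)) = Additive.ofMul (f g (f h (r : Q ⧸ Z)))
        rw [e1, e2, e3] }
  have hρ : ∀ (g : H) (r s : Q), (s : H) = g * r * g⁻¹ → ρ g (π r) = π s := fun g r s h =>
    congrArg Additive.ofMul (hf g r s h)
  have hcard2 : Nat.card Z = 2 := by
    have h1 : Nat.card (Z.map Q.subtype) = Nat.card Z := by
      exact (Nat.card_congr (Z.equivMapOfInjective Q.subtype Q.subtype_injective).toEquiv).symm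
    rw [← h1]
    have : Z.map Q.subtype = Subgroup.zpowers ζ := hE.map
    rw [this, Nat.card_zpowers, hE.orderOf]
  refine ⟨Additive (Q ⧸ Z), inferInstance, inferInstance, q, b, ρ, π, hQS, ?_, ?_, ?_, πsurj, πeq, πmul, ?_, hρ⟩
  · have h1 := Subgroup.card_eq_card_quotient_mul_card_subgroup Z
    rw [hcard, hcard2] at h1
    have h2 : Nat.card (Additive (Q ⧸ Z)) = Nat.card (Q ⧸ Z) := rfl
    rw [h2]
    have h3 : (2 : ℕ) ^ 13 = 2 ^ 12 * 2 := by norm_num
    rw [h3] at h1
    exact (Nat.eq_of_mul_eq_mul_right (by norm_num) h1).symm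
  · intro g v
    obtain ⟨r, rfl⟩ := πsurj v
    rw [hρ g r (MulAut.conjNormal g r) (by rw [MulAut.conjNormal_apply]), hq, hq]
    show (if ((MulAut.conjNormal g r : Q) : H) * (MulAut.conjNormal g r : Q) = 1 then (0 : ZMod 2) else 1) =
      if (r : H) * r = 1 then 0 else 1
    have e : (((MulAut.conjNormal g r : Q) : H) * (MulAut.conjNormal g r : Q) = 1) ↔ ((r : H) * r = 1) := by
      rw [MulAut.conjNormal_apply]
      constructor
      · intro h
        have h2 : g * (r * r) * g⁻¹ = 1 := by rw [← h]; group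
        rw [mul_inv_eq_one] at h2
        exact mul_eq_left.1 h2
      · intro h
        have h2 : g * r * g⁻¹ * (g * r * g⁻¹) = g * (r * r) * g⁻¹ := by group
        rw [h2, h]; group
    simp only [e]
  · intro g
    constructor
    · intro hg
      -- `g` acts trivially on `Q / Z`
      have hg1 : ∀ r : Q, g * r * g⁻¹ = r ∨ g * r * g⁻¹ = ζ * r := by
        intro r
        have h1 := hρ g r (MulAut.conjNormal g r) (by rw [MulAut.conjNormal_apply])
        rw [hg] at h1
        have h2 : π (MulAut.conjNormal g r) = π r := h1.symm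
        rw [πeq, MulAut.conjNormal_apply] at h2
        exact h2
      let Lf : Q → ZMod 2 := fun r => if g * (r : H) * g⁻¹ = r then 0 else 1
      have Lf0 : ∀ r : Q, g * (r : H) * g⁻¹ = r → Lf r = 0 := fun r h => if_pos h
      have Lf1 : ∀ r : Q, g * (r : H) * g⁻¹ = ζ * r → Lf r = 1 := fun r h => if_neg (fun h2 => by
        rw [h2] at h; exact hzne (right_eq_mul.1 h))
      have Lfz : ∀ r s : Q, π r = π s → Lf r = Lf s := by
        intro r s h
        rcases (πeq r s).1 h with h | h
        · rw [Subtype.ext h]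
        · have e : (g * (r : H) * g⁻¹ = r) ↔ (g * (s : H) * g⁻¹ = s) := by
            rw [h]
            have : g * (ζ * (s : H)) * g⁻¹ = ζ * (g * s * g⁻¹) := by
              rw [← mul_assoc, hζg]; simp only [mul_assoc]
            rw [this, mul_right_inj]
          show (if g * (r : H) * g⁻¹ = r then (0 : ZMod 2) else 1) = if g * (s : H) * g⁻¹ = s then 0 else 1
          simp only [e]
      have Lfm : ∀ r s : Q, Lf (r * s) = Lf r + Lf s := by
        intro r s
        have e : g * ((r * s : Q) : H) * g⁻¹ = (g * r * g⁻¹) * (g * s * g⁻¹) := by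
          show g * ((r : H) * s) * g⁻¹ = _
          group
        have es : ((r * s : Q) : H) = (r : H) * s := rfl
        rcases hg1 r with h1 | h1 <;> rcases hg1 s with h2 | h2
        · rw [Lf0 r h1, Lf0 s h2, Lf0 _ (by rw [e, h1, h2, es])]; rfl
        · rw [Lf0 r h1, Lf1 s h2, Lf1 _ (by rw [e, h1, h2, es, ← mul_assoc, hζg, mul_assoc])]; rfl
        · rw [Lf1 r h1, Lf0 s h2, Lf1 _ (by rw [e, h1, h2, es, mul_assoc])]; rfl
        · rw [Lf1 r h1, Lf1 s h2, Lf0 _ (by
            rw [e, h1, h2, es, mul_assoc, ← mul_assoc (r : H), hζg, mul_assoc, ← mul_assoc, hz, one_mul])]; rfl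
      obtain ⟨u, hu⟩ := exists_dual hQS (AddMonoidHom.mk' (fun v => Lf (rep v)) (fun v w => by
        rw [← Lfm]
        apply Lfz
        rw [hrep, πmul, hrep, hrep]))
      obtain ⟨r, rfl⟩ := πsurj u
      have hu' : ∀ s : Q, Bf r s = Lf s := by
        intro s
        have := hu (π s)
        rw [hb] at this
        rw [this]
        exact Lfz _ _ (hrep _)
      have hcg : (r : H)⁻¹ * g = 1 ∨ (r : H)⁻¹ * g = ζ := by
        apply hcent
        intro s hs
        have h1 := hu' ⟨s, hs⟩
        have key : g * s * g⁻¹ = r * s * (r : H)⁻¹ := by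
          rcases hg1 ⟨s, hs⟩ with h2 | h2
          · rw [Lf0 _ h2] at h1
            have h3 : (r : H) * s = s * r := by
              by_contra hc
              have : Bf r ⟨s, hs⟩ = 1 := if_neg hc
              rw [this] at h1; exact one_ne_zero h1
            have h2' : g * s * g⁻¹ = s := h2
            rw [h2', h3]; group
          · rw [Lf1 _ h2] at h1
            have h3 : (r : H) * s = ζ * (s * r) := by
              rcases hE.comm r r.2 s hs with h4 | h4
              · exfalso
                rw [Bf0 r ⟨s, hs⟩ h4] at h1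
                exact zero_ne_one h1
              · exact h4
            have h2' : g * s * g⁻¹ = ζ * s := h2
            rw [h2', h3]; group
        have h5 : (r : H)⁻¹ * (g * s * g⁻¹) * g = (r : H)⁻¹ * (r * s * (r : H)⁻¹) * g := by rw [key]
        have h6 : (r : H)⁻¹ * (g * s * g⁻¹) * g = (r : H)⁻¹ * g * s := by group
        have h7 : (r : H)⁻¹ * (r * s * (r : H)⁻¹) * g = s * ((r : H)⁻¹ * g) := by group
        rw [h6, h7] at h5
        exact h5.symm
      rcases hcg with h | h
      · rw [inv_mul_eq_one] at h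
        rw [← h]; exact r.2
      · rw [inv_mul_eq_iff_eq_mul] at h
        rw [h]; exact Q.mul_mem r.2 hE.mem
    · intro hg
      ext v
      obtain ⟨r, rfl⟩ := πsurj v
      rw [hρ g r (MulAut.conjNormal g r) (by rw [MulAut.conjNormal_apply])]
      show π _ = π r
      rw [πeq, MulAut.conjNormal_apply]
      rcases hE.comm g hg r r.2 with h | h
      · left; rw [h]; group
      · right; rw [h]; group
  · intro r
    rw [hq]
    constructor
    · intro h
      by_contra hc
      have : Qf r = 1 := if_neg hc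
      rw [this] at h; exact one_ne_zero h
    · exact Qf0 r

end Cfsg.Agent.Lib.H97FaA
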