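import Cfsg.Agent.Lib.H97FaF

/-!
# S5442, piece FB-A6 (helper90): a subgroup `A₆` of `3·U₄(3)` fixing an isotropic vector of weight 6
-/

set_option autoImplicit false
set_option linter.unusedVariables false
set_option linter.unusedSimpArgs false

namespace Cfsg.Agent.Lib.H97FbA6

open Matrix Cfsg Cfsg.Agent.Lib.K4 Cfsg.Agent.Lib.HermMat Cfsg.Agent.Lib.ClThreeTransU Cfsg.Agent.Lib.SU6K4
open Cfsg.Agent.Lib.U43 Cfsg.Agent.Lib.H97Fa Cfsg.Agent.Lib.H97FaF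

/-- exponents of the stabilizer of `b6 1` -/
def aa (σ : Pm) : A0 := ⟨fun i => (if i = 0 then 1 else 0) - (if σ⁻¹ i = 0 then 1 else 0), by
  rw [mem_A0, Finset.sum_sub_distrib, Equiv.sum_comp σ⁻¹ (fun i : Fin 6 => if i = 0 then (1 : ZMod 3) else 0), sub_self]⟩

theorem aa_apply (σ : Pm) (i : Fin 6) : (aa σ).1 i = (if i = 0 then 1 else 0) - (if σ⁻¹ i = 0 then 1 else 0) := rfl

theorem aa_mul (σ τ : Pm) : aa σ + act σ (aa τ) = aa (σ * τ) := by
  apply Subtype.ext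
  funext i
  change (aa σ).1 i + (aa τ).1 (σ⁻¹ i) = (aa (σ * τ)).1 i
  rw [aa_apply, aa_apply, aa_apply, _root_.mul_inv_rev]
  change _ = _ - (if τ⁻¹ (σ⁻¹ i) = 0 then (1 : ZMod 3) else 0)
  ring

theorem aa_one : aa 1 = 0 := by
  apply Subtype.ext
  funext i
  rw [aa_apply, inv_one]
  change (if i = 0 then (1 : ZMod 3) else 0) - (if i = 0 then 1 else 0) = 0
  rw [sub_self]

/-- the embedding -/
def phi : alternatingGroup (Fin 6) →* G where
  toFun σ := mo (aa σ.1) σ.1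
  map_one' := by
    change mo (aa 1) 1 = 1
    rw [aa_one, mo_one]
  map_mul' σ τ := by
    change mo (aa (σ.1 * τ.1)) (σ.1 * τ.1) = _
    rw [mo_mul, aa_mul]

theorem phi_inj : Function.Injective phi := fun σ τ h => Subtype.ext (mo_inj h).2

theorem b6_one_eq (k : Fin 6) : b6 1 k = e (if k = 0 then 1 else 0) := by
  rw [b6_eq]
  by_cases h : k = 0
  · rw [if_pos h, if_pos h]
  · rw [if_neg h, if_neg h, e_zero]

theorem fix (σ : Pm) : mt (mo (aa σ) σ) *ᵥ (b6 1) = b6 1 := by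
  funext k
  rw [mo_mulVec, b6_one_eq, b6_one_eq, ← e_add, aa_apply, sub_add_cancel]

theorem rl_b6_one : Rl K0 (b6 1) w4 := by
  have key : ∀ (v : V6), (∀ k, v k ≠ 0) → ∏ k, v k = e 1 → Rl K0 v (b6 1) := fun v hv hp => by
    obtain ⟨d, hd, h⟩ := rl_six hv
    rw [hp] at hd
    rw [e_inj _ _ hd]; exact h
  have h1 : Rl K0 (![1, om', om, om', om', 1] : V6) (![0, 0, 1, 1, 1, om'] : V6) := ⟨Q 2 3, Q23_mem, funext Q23_a⟩
  exact ((key _ (by decide) prod_b).symm.trans h1).trans (rl_four (by decide +kernel))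

theorem iso_b6_one : Iso (b6 1) := ⟨by decide, by decide +kernel⟩

-- FB-A6
theorem exists_A6 : ∃ A : Subgroup G, A ≤ K0 ∧ Nonempty (A ≃* alternatingGroup (Fin 6)) ∧ (∀ g ∈ A, mt g *ᵥ (b6 1) = b6 1) ∧
    Iso (b6 1) ∧ Rl K0 (b6 1) w4 := by
  refine ⟨phi.range, ?_, ⟨(MonoidHom.ofInjective phi_inj).symm⟩, ?_, iso_b6_one, rl_b6_one⟩
  · rintro _ ⟨σ, rfl⟩
    exact M0_le_K0 (mo_mem_M0.2 (Equiv.Perm.mem_alternatingGroup.1 σ.2))
  · rintro _ ⟨σ, rfl⟩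
    exact fix σ.1

end Cfsg.Agent.Lib.H97FbA6
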