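import Mathlib
import Cfsg.Agent.Lib.CoprimeGen

/-! Piece FB-COP of S5441 (helper30): a group of order 27 and exponent 3 acting on a 2-group. -/

set_option autoImplicit false

namespace Cfsg.Agent.Lib.H97FbCOP

open Subgroup

variable {Γ : Type*} [Group Γ] [Finite Γ]

theorem orderOf_three {d : Γ} (h : d ^ 3 = 1) (h1 : d ≠ 1) : orderOf d = 3 :=
  orderOf_eq_prime h h1

theorem pair (D : Subgroup Γ) (hDe : ∀ d ∈ D, d ^ 3 = 1) (hDc : ∀ a ∈ D, ∀ b ∈ D, a * b = b * a)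
    {d a : Γ} (hd : d ∈ D) (ha : a ∈ D) (hd1 : d ≠ 1) (had : a ∉ zpowers d) :
    ∃ B : Subgroup Γ, B ≤ D ∧ d ∈ B ∧ a ∈ B ∧ Nat.card B = 9 ∧ ∀ g ∈ B, ∃ i j : ℤ, g = d ^ i * a ^ j := by
  classical
  have hc : Commute d a := hDc d hd a ha
  let B : Subgroup Γ :=
    { carrier := {g | ∃ i j : ℤ, g = d ^ i * a ^ j}
      one_mem' := ⟨0, 0, by simp⟩
      mul_mem' := by
        rintro _ _ ⟨i, j, rfl⟩ ⟨k, l, rfl⟩
        refine ⟨i + k, j + l, ?_⟩
        have h1 : a ^ j * d ^ k = d ^ k * a ^ j := ((hc.symm.zpow_left j).zpow_right k).eq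
        rw [zpow_add, zpow_add]
        calc d ^ i * a ^ j * (d ^ k * a ^ l) = d ^ i * (a ^ j * d ^ k) * a ^ l := by group
          _ = d ^ i * d ^ k * (a ^ j * a ^ l) := by rw [h1]; group
      inv_mem' := by
        rintro _ ⟨i, j, rfl⟩
        refine ⟨-i, -j, ?_⟩
        have h1 : a ^ (-j) * d ^ (-i) = d ^ (-i) * a ^ (-j) := ((hc.symm.zpow_left (-j)).zpow_right (-i)).eq
        rw [mul_inv_rev, ← zpow_neg, ← zpow_neg, h1] }
  have hB : B ≤ D := by
    rintro _ ⟨i, j, rfl⟩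
    exact D.mul_mem (D.zpow_mem hd i) (D.zpow_mem ha j)
  have hdB : d ∈ B := ⟨1, 0, by simp⟩
  have haB : a ∈ B := ⟨0, 1, by simp⟩
  have hle : Nat.card B ≤ 9 := by
    have hf : ∀ g ∈ B, ∃ p : Fin 3 × Fin 3, d ^ (p.1 : ℕ) * a ^ (p.2 : ℕ) = g := by
      rintro _ ⟨i, j, rfl⟩
      have key : ∀ (x : Γ), x ^ 3 = 1 → ∀ i : ℤ, ∃ k : Fin 3, x ^ (k : ℕ) = x ^ i := by
        intro x hx i
        have h3 : x ^ (3 : ℤ) = 1 := by exact_mod_cast hx
        have h4 : x ^ i = x ^ (i % 3) := by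
          conv_lhs => rw [← Int.mul_ediv_add_emod i 3, zpow_add, zpow_mul, h3, one_zpow, one_mul]
        have h5 : 0 ≤ i % 3 := Int.emod_nonneg _ (by norm_num)
        have h6 : i % 3 < 3 := Int.emod_lt_of_pos _ (by norm_num)
        refine ⟨⟨(i % 3).toNat, by omega⟩, ?_⟩
        rw [h4]
        show x ^ ((i % 3).toNat) = _
        rw [← zpow_natCast, Int.toNat_of_nonneg h5]
      obtain ⟨k, hk⟩ := key d (hDe d hd) i
      obtain ⟨l, hl⟩ := key a (hDe a ha) j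
      exact ⟨(k, l), by rw [hk, hl]⟩
    choose f hf' using hf
    have hinj : Function.Injective (fun g : B => f g g.2) := by
      intro g g' h
      apply Subtype.ext
      rw [← hf' g g.2, ← hf' g' g'.2]
      simp only at h
      rw [h]
    have := Nat.card_le_card_of_injective _ hinj
    simpa using this
  have hz : zpowers d ≤ B := by rw [zpowers_le]; exact hdB
  have h3 : Nat.card (zpowers d) = 3 := by rw [Nat.card_zpowers, orderOf_three (hDe d hd) hd1]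
  have hdvd : 3 ∣ Nat.card B := by rw [← h3]; exact card_dvd_of_le hz
  have hne3 : Nat.card B ≠ 3 := by
    intro h
    have : zpowers d = B := eq_of_le_of_card_ge hz (by rw [h, h3])
    exact had (by rw [this]; exact haB)
  have hpg : IsPGroup 3 B := by
    intro g
    refine ⟨1, ?_⟩
    rw [pow_one]
    exact Subtype.ext (hDe g (hB g.2))
  obtain ⟨n, hn⟩ := IsPGroup.iff_card.1 hpg
  refine ⟨B, hB, hdB, haB, ?_, fun g hg => hg⟩
  rcases n with _ | _ | _ | n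
  · rw [hn] at hdvd; norm_num at hdvd
  · exact absurd (by rw [hn]; norm_num) hne3
  · rw [hn]; norm_num
  · exfalso
    have : 3 ^ 3 ≤ 3 ^ (n + 1 + 1 + 1) := Nat.pow_le_pow_right (by norm_num) (by omega)
    omega

theorem step (P A : Subgroup Γ) (hP : IsPGroup 2 P) (hP1 : P ≠ ⊥) {x y : Γ} (hAc : ∀ a ∈ A, ∀ b ∈ A, a * b = b * a)
    (hAe : ∀ a ∈ A, a ^ 3 = 1) (hx : x ∈ A) (hy : y ∈ A) (hx1 : x ≠ 1) (hyx : y ∉ zpowers x)
    (hn : ∀ d ∈ A, ∀ p ∈ P, d * p * d⁻¹ ∈ P) : ∃ a ∈ A, a ≠ 1 ∧ P ⊓ centralizer {a} ≠ ⊥ := by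
  have hAn : A ≤ normalizer (P : Set Γ) := by
    intro d hd
    rw [mem_normalizer_iff]
    intro p
    refine ⟨fun h => hn d hd p h, fun h => ?_⟩
    have := hn d⁻¹ (A.inv_mem hd) _ h
    have h2 : d⁻¹ * (d * p * d⁻¹) * d⁻¹⁻¹ = p := by group
    rwa [h2] at this
  have hA3 : IsPGroup 3 A := by
    intro g
    exact ⟨1, by rw [pow_one]; exact Subtype.ext (hAe g g.2)⟩
  have hcop : (Nat.card A).Coprime (Nat.card P) := by
    obtain ⟨n, hn⟩ := IsPGroup.iff_card.1 hA3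
    obtain ⟨m, hm⟩ := IsPGroup.iff_card.1 hP
    rw [hn, hm]
    exact Nat.Coprime.pow _ _ (by norm_num)
  have hcomm : IsMulCommutative A := isMulCommutative_iff_of_setLike.mpr (fun a ha b hb => hAc a ha b hb)
  have hnil : Group.IsNilpotent P := hP.isNilpotent
  have hsol : Group.IsSolvable P := inferInstance
  have hle := Cfsg.Agent.Lib.CoprimeGen.le_iSup_centralizer_of_solvable (A := A) (r := 3) (x := x) (y := y)
    (by norm_num) hx hy hcomm hx1 (hAe x hx) (hAe y hy) hyx _ P rfl hsol hAn hcop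
  by_contra hcon
  push Not at hcon
  apply hP1
  rw [eq_bot_iff]
  refine hle.trans ?_
  refine iSup₂_le fun a ha => ?_
  rw [hcon a ha.1 ha.2]

theorem exists_notMem_of_card {D B : Subgroup Γ} (h : Nat.card B < Nat.card D) : ∃ x ∈ D, x ∉ B := by
  by_contra hcon
  push Not at hcon
  have : D ≤ B := hcon
  have := Nat.card_mono (Set.toFinite (B : Set Γ)) this
  exact absurd this (not_le.2 h)

theorem exists_B {Γ : Type*} [Group Γ] [Finite Γ] (P D : Subgroup Γ) (hP : IsPGroup 2 P) (hP1 : P ≠ ⊥) (hD : Nat.card D = 27)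
    (hDe : ∀ d ∈ D, d ^ 3 = 1) (hDc : ∀ a ∈ D, ∀ b ∈ D, a * b = b * a) (hn : ∀ d ∈ D, ∀ p ∈ P, d * p * d⁻¹ ∈ P) :
    ∃ B ≤ D, Nat.card B = 9 ∧ ∃ u ∈ P, u ≠ 1 ∧ u * u = 1 ∧ ∀ d ∈ B, d * u = u * d := by
  classical
  -- two independent elements of D
  have hz3 : ∀ d ∈ D, d ≠ 1 → Nat.card (zpowers d) = 3 := by
    intro d hd hd1
    rw [Nat.card_zpowers, orderOf_three (hDe d hd) hd1]
  obtain ⟨x0, hx0, hx01⟩ := exists_notMem_of_card (D := D) (B := ⊥) (by rw [hD, card_bot]; norm_num)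
  rw [mem_bot] at hx01
  obtain ⟨y0, hy0, hy01⟩ := exists_notMem_of_card (D := D) (B := zpowers x0) (by rw [hD, hz3 x0 hx0 hx01]; norm_num)
  obtain ⟨d, hd, hd1, hP1'⟩ := step P D hP hP1 hDc hDe hx0 hy0 hx01 hy01 hn
  obtain ⟨P1, hP1def⟩ : ∃ P1, P1 = P ⊓ centralizer {d} := ⟨_, rfl⟩
  rw [← hP1def] at hP1'
  have hP1g : IsPGroup 2 P1 := hP.to_le (by rw [hP1def]; exact inf_le_left)
  -- complement
  obtain ⟨x, hx, hxd⟩ := exists_notMem_of_card (D := D) (B := zpowers d) (by rw [hD, hz3 d hd hd1]; norm_num)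
  obtain ⟨B1, hB1D, hdB1, hxB1, hB1c, hB1⟩ := pair D hDe hDc hd hx hd1 hxd
  obtain ⟨y, hy, hyB1⟩ := exists_notMem_of_card (D := D) (B := B1) (by rw [hD, hB1c]; norm_num)
  have hx1 : x ≠ 1 := by rintro rfl; exact hxd (one_mem _)
  have hyx : y ∉ zpowers x := by
    intro h
    exact hyB1 ((zpowers_le.2 hxB1) h)
  obtain ⟨A, hAD, hxA, hyA, hAc, hA⟩ := pair D hDe hDc hx hy hx1 hyx
  have hdA : d ∉ A := by
    intro hdA
    have hle : B1 ≤ A := by
      intro g hg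
      obtain ⟨i, j, rfl⟩ := hB1 g hg
      exact A.mul_mem (A.zpow_mem hdA i) (A.zpow_mem hxA j)
    have : B1 = A := eq_of_le_of_card_ge hle (by rw [hAc, hB1c])
    exact hyB1 (by rw [this]; exact hyA)
  have hn1 : ∀ a ∈ A, ∀ p ∈ P1, a * p * a⁻¹ ∈ P1 := by
    intro a ha p hp
    rw [hP1def] at hp ⊢
    refine ⟨hn a (hAD ha) p hp.1, ?_⟩
    have h1 : d * p = p * d := by
      have := mem_centralizer_iff.1 hp.2 d rfl
      exact this
    have h2 : a * d = d * a := hDc a (hAD ha) d hd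
    refine mem_centralizer_iff.2 ?_
    rintro z hz
    rw [Set.mem_singleton_iff] at hz
    subst hz
    have h3 : z * a⁻¹ = a⁻¹ * z := by
      have : a⁻¹ * (a * z) * a⁻¹ = a⁻¹ * (z * a) * a⁻¹ := by rw [h2]
      calc z * a⁻¹ = a⁻¹ * (a * z) * a⁻¹ := by group
        _ = a⁻¹ * (z * a) * a⁻¹ := this
        _ = a⁻¹ * z := by group
    calc z * (a * p * a⁻¹) = (z * a) * p * a⁻¹ := by group
      _ = a * (z * p) * a⁻¹ := by rw [← h2]; group
      _ = a * p * (z * a⁻¹) := by rw [h1]; group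
      _ = a * p * a⁻¹ * z := by rw [h3]; group
  obtain ⟨a, ha, ha1, hPa⟩ := step P1 A hP1g hP1' (fun a ha b hb => hDc a (hAD ha) b (hAD hb))
    (fun a ha => hDe a (hAD ha)) hxA hyA hx1 hyx hn1
  have had : a ∉ zpowers d := by
    intro h
    have h1 : zpowers a ≤ zpowers d := zpowers_le.2 h
    have h2 : zpowers a = zpowers d := eq_of_le_of_card_ge h1 (by rw [hz3 a (hAD ha) ha1, hz3 d hd hd1])
    apply hdA
    have h3 : d ∈ zpowers a := by rw [h2]; exact mem_zpowers d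
    exact (zpowers_le.2 ha) h3
  obtain ⟨B, hBD, -, -, hBc, hB⟩ := pair D hDe hDc hd (hAD ha) hd1 had
  obtain ⟨P2, hP2def⟩ : ∃ P2, P2 = P1 ⊓ centralizer {a} := ⟨_, rfl⟩
  rw [← hP2def] at hPa
  have hP2g : IsPGroup 2 P2 := hP1g.to_le (by rw [hP2def]; exact inf_le_left)
  obtain ⟨n, hn2⟩ := IsPGroup.iff_card.1 hP2g
  have hn0 : n ≠ 0 := by
    rintro rfl
    rw [pow_zero] at hn2
    exact hPa (card_eq_one.1 hn2)
  obtain ⟨u, hu⟩ := exists_prime_orderOf_dvd_card' (G := P2) 2 (by rw [hn2]; exact dvd_pow_self 2 hn0)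
  have huP2 : (u : Γ) ∈ (P ⊓ centralizer {d}) ⊓ centralizer {a} := by
    have h0 : (u : Γ) ∈ P2 := u.2
    have h1 : P2 ≤ (P ⊓ centralizer {d}) ⊓ centralizer {a} := by rw [hP2def, hP1def]
    exact h1 h0
  refine ⟨B, hBD, hBc, u, huP2.1.1, ?_, ?_, ?_⟩
  · intro h
    have : u = 1 := Subtype.ext h
    rw [this, orderOf_one] at hu
    norm_num at hu
  · have h1 : u ^ 2 = 1 := by rw [← hu]; exact pow_orderOf_eq_one u
    rw [pow_two] at h1
    exact congrArg Subtype.val h1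
  · intro g hg
    obtain ⟨i, j, rfl⟩ := hB g hg
    have hcd : Commute d (u : Γ) := mem_centralizer_iff.1 huP2.1.2 d rfl
    have hca : Commute a (u : Γ) := mem_centralizer_iff.1 huP2.2 a rfl
    exact ((hcd.zpow_left i).mul_left (hca.zpow_left j)).eq

end Cfsg.Agent.Lib.H97FbCOP
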