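import Cfsg.Agent.Lib.H97FaI

/-!
# S5441, normalisation of the image (piece FB-W)
-/

set_option autoImplicit false
set_option linter.unusedVariables false
set_option linter.unusedSimpArgs false

namespace Cfsg.Agent.Lib.H97FbW

open Matrix Cfsg Cfsg.Agent.Lib.K4 Cfsg.Agent.Lib.HermMat Cfsg.Agent.Lib.ClThreeTransU Cfsg.Agent.Lib.SU6K4
open Cfsg.Agent.Lib.U43 Cfsg.Agent.Lib.H97Fa Cfsg.Agent.Lib.H97FaF Cfsg.Agent.Lib.H97FaG Cfsg.Agent.Lib.H97FaI Cfsg.Agent.Lib.LargeExtra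

universe u

theorem norm_K0 {H : Type u} [Group H] {ζ : H} {Q : Subgroup H} {V : Type u} [AddCommGroup V] {q : V → ZMod 2} {b : V → V → ZMod 2}
    {ρ : H →* AddMonoid.End V} {π : Q → V} {M : Subgroup H} {Φ : V6 ≃+ V} {R : M →* G} (D : Dat ζ Q q b ρ π M Φ R) :
    ∃ (Φ' : V6 ≃+ V) (R' : M →* G), Dat ζ Q q b ρ π M Φ' R' ∧ R'.range = K0 := by
  obtain ⟨F9, i1, i2, hF9, hg⟩ := D.good
  obtain ⟨s, t, -, -, -, -, g, u, -, -, hmap⟩ := two_orbits hF9 R.range hg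
  have e1 : ∀ v : V6, mt g *ᵥ (mt g⁻¹ *ᵥ v) = v := fun v => by
    rw [Matrix.mulVec_mulVec, ← H97FaF.mt_mul, mul_inv_cancel, H97FaF.mt_one, Matrix.one_mulVec]
  have e2 : ∀ v : V6, mt g⁻¹ *ᵥ (mt g *ᵥ v) = v := fun v => by
    rw [Matrix.mulVec_mulVec, ← H97FaF.mt_mul, inv_mul_cancel, H97FaF.mt_one, Matrix.one_mulVec]
  obtain ⟨Φ', hΦ'⟩ : ∃ Φ' : V6 ≃+ V, ∀ a, Φ' a = Φ (mt g⁻¹ *ᵥ (DD u *ᵥ a)) := by
    refine ⟨{ toFun := fun a => Φ (mt g⁻¹ *ᵥ (DD u *ᵥ a))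
              invFun := fun v => DD (-u) *ᵥ (mt g *ᵥ (Φ.symm v))
              left_inv := fun a => ?_
              right_inv := fun v => ?_
              map_add' := fun a b => ?_ }, fun a => rfl⟩
    · change DD (-u) *ᵥ (mt g *ᵥ (Φ.symm (Φ (mt g⁻¹ *ᵥ (DD u *ᵥ a))))) = a
      rw [Φ.symm_apply_apply, e1, DD_vec]
    · change Φ (mt g⁻¹ *ᵥ (DD u *ᵥ (DD (-u) *ᵥ (mt g *ᵥ (Φ.symm v))))) = v
      rw [DD_vec', e2, Φ.apply_symm_apply]
    · rw [Matrix.mulVec_add, Matrix.mulVec_add, map_add]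
  obtain ⟨R', hR'⟩ : ∃ R' : M →* G, ∀ m, R' m = cj (-u) (g * R m * g⁻¹) :=
    ⟨(cj (-u)).comp ((MulAut.conj g).toMonoidHom.comp R), fun m => rfl⟩
  have hRinj : ∀ m m', R' m = R' m' ↔ R m = R m' := by
    intro m m'
    rw [hR', hR', (cj_inj (-u)).eq_iff]
    constructor
    · intro h
      have := mul_right_cancel h
      exact mul_left_cancel this
    · intro h; rw [h]
  have hker : ∀ m : M, R' m = 1 ↔ R m = 1 := by
    intro m
    have := hRinj m 1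
    rwa [map_one, map_one] at this
  refine ⟨Φ', R', ⟨D.ex, D.qs, D.qinv, D.ker, D.surj, D.eqv, D.mul, D.qπ, D.act, D.nM, D.QM, D.idx, ?_, ?_, ?_, ?_⟩, ?_⟩
  · intro a
    rw [hΦ', D.qΦ]
    have h1 : ∀ (y : G) (v : V6), hermForm 6 K4 2 (mt y *ᵥ v) (mt y *ᵥ v) = hermForm 6 K4 2 v v := fun y v => y.2 v v
    rw [h1 g⁻¹ (DD u *ᵥ a), DD_herm]
  · intro m a
    have h2 : mt (R' m) *ᵥ a = DD (-u) *ᵥ (mt (g * R m * g⁻¹) *ᵥ (DD u *ᵥ a)) := by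
      rw [hR', mt_cj, neg_neg, ← Matrix.mulVec_mulVec, ← Matrix.mulVec_mulVec]
    rw [hΦ', hΦ', h2, DD_vec', H97FaF.mt_mul, H97FaF.mt_mul, ← Matrix.mulVec_mulVec, ← Matrix.mulVec_mulVec, e2, D.rep]
  · refine ⟨F9, i1, i2, hF9, Good.congr (K := R.range) ?_ hg⟩
    have hkk : R.ker = R'.ker := by
      ext m
      rw [MonoidHom.mem_ker, MonoidHom.mem_ker, hker]
    exact (QuotientGroup.quotientKerEquivRange R).symm.trans
      ((QuotientGroup.quotientMulEquivOfEq hkk).trans (QuotientGroup.quotientKerEquivRange R'))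
  · intro m
    rw [hker, D.kerR]
  · ext x
    constructor
    · rintro ⟨m, rfl⟩
      have h1 : g * R m * g⁻¹ ∈ R.range.map (MulAut.conj g).toMonoidHom := ⟨R m, ⟨m, rfl⟩, rfl⟩
      rw [hmap] at h1
      obtain ⟨y, hy, hyx⟩ := h1
      rw [hR', ← hyx, cj_cj, neg_add_cancel, cj_zero]
      exact hy
    · intro hx
      have h1 : cj u x ∈ R.range.map (MulAut.conj g).toMonoidHom := by rw [hmap]; exact ⟨x, hx, rfl⟩
      obtain ⟨y, ⟨m, rfl⟩, hyx⟩ := h1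
      refine ⟨m, ?_⟩
      have h2 : g * R m * g⁻¹ = cj u x := hyx
      rw [hR', h2, cj_cj, neg_add_cancel, cj_zero]

end Cfsg.Agent.Lib.H97FbW
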