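import Cfsg.Agent.Lib.LargeExtra7
import Cfsg.Agent.Lib.H89ExCount

/-! Piece FB-X of S5441/S5442: the conjugate of the extraspecial subgroup. -/

set_option autoImplicit false

namespace Cfsg.Agent.Lib.H97FbX

open Cfsg Cfsg.Agent.Lib.LargeExtra

theorem conj_part {G' : Type*} [Group G'] [Finite G'] {z : G'} (Q : Subgroup (Subgroup.centralizer ({z} : Set G'))) [Q.Normal]
    (hset : IsExtraspecialCentralizerSetting z Q 6) (g : G') (hs : g * z * g⁻¹ ∈ Q.map (Subgroup.centralizer ({z} : Set G')).subtype)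
    (hne : g * z * g⁻¹ ≠ z) (Q' Q₁ A E : Subgroup G') (hQ' : Q' = Q.map (Subgroup.centralizer ({z} : Set G')).subtype)
    (hQ₁ : Q₁ = Q'.map (MulAut.conj g).toMonoidHom) (hA : A = Q₁ ⊓ Subgroup.centralizer ({z} : Set G')) (hE : E = Q' ⊓ Q₁) :
    z ∈ Q₁ ∧ Nat.card A = 2 ^ 12 ∧ (∀ x ∈ E, ∀ y ∈ E, x * y = y * x) ∧ (∀ x ∈ E, x * x = 1) ∧ Nat.card E ≤ 2 ^ 7 ∧
      IsPGroup 2 A ∧ (∀ a ∈ A, a * (g * z * g⁻¹) = (g * z * g⁻¹) * a) ∧ (∀ a ∈ A, a * a ∈ E) ∧
      (∀ a ∈ A, ∀ b ∈ A, a * b * a⁻¹ * b⁻¹ ∈ E) ∧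
      (∀ c : G', c * z = z * c → c * (g * z * g⁻¹) = (g * z * g⁻¹) * c → ∀ a ∈ A, c * a * c⁻¹ ∈ A) ∧
      (∀ a ∈ A, a ∈ Q' ↔ a ∈ E) := by
  have h : PreLarge Q' z := by
    rw [hQ']; exact preLarge_of_setting' hset.1 hset.2.1 hset.2.2.1
  have hcardQ : Nat.card Q' = 2 ^ 13 := by
    rw [hQ', Subgroup.card_map_of_injective (Subgroup.subtype_injective _)]
    exact hset.2.2.2.1
  rw [← hQ'] at hs
  have h1 : PreLarge Q₁ (g * z * g⁻¹) := by
    rw [hQ₁]; exact h.conj g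
  have hcardQ₁ : Nat.card Q₁ = 2 ^ 13 := by
    rw [hQ₁, Subgroup.card_map_of_injective (MulAut.conj g).injective]; exact hcardQ
  have hz1 : z ∈ Q₁ := by
    have := h.mem_conj hs hne (h.toExData.exists_nonab_centralizer (by rw [hcardQ]; norm_num) hs h1.ne hne)
    rw [hQ₁]; exact this
  have hcA : Nat.card A = 2 ^ 12 := by
    have h2 := H89ExCount.card_centralizer h1.toExData hz1 h.ne (Ne.symm hne)
    rw [← hA, hcardQ₁] at h2
    omega
  have hEab : ∀ x ∈ E, ∀ y ∈ E, x * y = y * x := by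
    intro x hx y hy
    rw [hE] at hx hy
    rcases h.comm x hx.1 y hy.1 with h2 | h2
    · exact h2
    · rcases h1.comm x hx.2 y hy.2 with h3 | h3
      · exact h3
      · exfalso
        rw [h2] at h3
        exact hne (mul_right_cancel h3).symm
  have hEsq : ∀ x ∈ E, x * x = 1 := by
    intro x hx
    rw [hE] at hx
    rcases h.qsq x hx.1 with h2 | h2
    · exact h2
    · rcases h1.qsq x hx.2 with h3 | h3
      · exact h3
      · exfalso
        rw [h2] at h3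
        exact hne h3.symm
  have hcE : Nat.card E ≤ 2 ^ 7 := by
    have h2 := H89ExCount.card_sq_le h.toExData (D := E) (by rw [hE]; exact inf_le_left) hEab
    rw [hcardQ] at h2
    by_contra h3
    push Not at h3
    have h4 : 2 ^ 7 * 2 ^ 7 < Nat.card E * Nat.card E := Nat.mul_lt_mul'' h3 h3
    omega
  have hsE : g * z * g⁻¹ ∈ E := by rw [hE]; exact ⟨hs, h1.mem⟩
  have hAQ : ∀ a ∈ A, a ∈ Q₁ := by intro a ha; rw [hA] at ha; exact ha.1
  refine ⟨hz1, hcA, hEab, hEsq, hcE, ?_, ?_, ?_, ?_, ?_, ?_⟩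
  · exact h1.isP.to_le (fun a ha => hAQ a ha)
  · intro a ha
    exact h1.cen a (hAQ a ha)
  · intro a ha
    rcases h1.qsq a (hAQ a ha) with h2 | h2
    · rw [h2]; exact E.one_mem
    · rw [h2]; exact hsE
  · intro a ha b hb
    rcases h1.comm a (hAQ a ha) b (hAQ b hb) with h2 | h2
    · have h3 : a * b * a⁻¹ * b⁻¹ = 1 := by rw [h2]; group
      rw [h3]; exact E.one_mem
    · have h3 : a * b * a⁻¹ * b⁻¹ = g * z * g⁻¹ := by rw [h2]; group
      rw [h3]; exact hsE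
  · intro c hcz hcs a ha
    have ha' := ha
    rw [hA] at ha' ⊢
    refine ⟨h1.norm c hcs a ha'.1, ?_⟩
    have hc : c ∈ Subgroup.centralizer ({z} : Set G') := Subgroup.mem_centralizer_singleton_iff.2 hcz
    exact Subgroup.mul_mem _ (Subgroup.mul_mem _ hc ha'.2) (Subgroup.inv_mem _ hc)
  · intro a ha
    rw [hE]
    exact ⟨fun h2 => ⟨h2, hAQ a ha⟩, fun h2 => h2.1⟩

end Cfsg.Agent.Lib.H97FbX
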