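import Cfsg.Agent.Lib.H97FbV
import Cfsg.Agent.Lib.H97FbW
import Cfsg.Agent.Lib.H97FbX
import Cfsg.Agent.Lib.H97FaH

/-!
# S5441 / S5442: all conjugates of `z` in `Q` have the same type (helper97)
-/

set_option autoImplicit false
set_option linter.unusedVariables false
set_option linter.unusedSimpArgs false
set_option linter.unusedSectionVars false

universe u

namespace Cfsg.Agent.Lib.H97FbM

open Matrix Cfsg Cfsg.Agent.Lib.K4 Cfsg.Agent.Lib.HermMat Cfsg.Agent.Lib.ClThreeTransU Cfsg.Agent.Lib.SU6K4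
open Cfsg.Agent.Lib.U43 Cfsg.Agent.Lib.H97Fa Cfsg.Agent.Lib.H97FaF Cfsg.Agent.Lib.H97FaG Cfsg.Agent.Lib.H97FaI Cfsg.Agent.Lib.LargeExtra
open Cfsg.Agent.Lib.H97FbY Cfsg.Agent.Lib.H97FbU Cfsg.Agent.Lib.H97FbV

/-- the involution as an element of its centralizer -/
abbrev zz {G' : Type u} [Group G'] (z : G') : Subgroup.centralizer ({z} : Set G') :=
  ⟨z, Subgroup.mem_centralizer_singleton_iff.2 rfl⟩

theorem exists_datK {G' : Type u} [Group G'] [Finite G'] {z : G'} {Q : Subgroup (Subgroup.centralizer ({z} : Set G'))} [Q.Normal]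
    (hF : Cfsg.IsOfLargeFischerTypeAt z Q) :
    ∃ (V : Type u) (_ : AddCommGroup V) (_ : Finite V) (q : V → ZMod 2) (b : V → V → ZMod 2)
      (ρ : Subgroup.centralizer ({z} : Set G') →* AddMonoid.End V) (π : Q → V) (M : Subgroup (Subgroup.centralizer ({z} : Set G')))
      (Φ : V6 ≃+ V) (R : M →* G), Dat (zz z) Q q b ρ π M Φ R ∧ R.range = K0 := by
  obtain ⟨hset, N, M, hN, hM, hQN, hNM, hcN, ⟨K, iK, iK', hK, ⟨e⟩⟩, hidx⟩ := hF
  obtain ⟨hz, hFit, hQ, hcard, -⟩ := hset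
  obtain ⟨hE, hcent⟩ := Cfsg.Agent.Lib.H97FaH.pack hz hFit hQ
  obtain ⟨V, iV, iF, q, b, ρ, π, Φ, R, D⟩ := Cfsg.Agent.Lib.H97FaH.exists_dat _ Q hE hcent (by rw [hcard]) N M hQN hNM hcN K hK e hidx
  obtain ⟨Φ', R', D', hR⟩ := Cfsg.Agent.Lib.H97FbW.norm_K0 D
  exact ⟨V, iV, iF, q, b, ρ, π, M, Φ', R', D', hR⟩

/-- the data attached to a conjugate -/
theorem exists_cj {G' : Type u} [Group G'] [Finite G'] {z : G'} (Q : Subgroup (Subgroup.centralizer ({z} : Set G'))) [Q.Normal]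
    (hset : IsExtraspecialCentralizerSetting z Q 6) {s : G'} (hsc : s ∈ Subgroup.centralizer ({z} : Set G'))
    (hsQ : (⟨s, hsc⟩ : Subgroup.centralizer ({z} : Set G')) ∈ Q) (hs1 : s ≠ z) {g : G'} (hg : g * z * g⁻¹ = s) :
    Cj z s (Q.map (Subgroup.centralizer ({z} : Set G')).subtype)
      ((Q.map (Subgroup.centralizer ({z} : Set G')).subtype).map (MulAut.conj g).toMonoidHom ⊓ Subgroup.centralizer ({z} : Set G'))
      ((Q.map (Subgroup.centralizer ({z} : Set G')).subtype) ⊓ (Q.map (Subgroup.centralizer ({z} : Set G')).subtype).map (MulAut.conj g).toMonoidHom) := by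
  obtain ⟨h1, h2, h3, h4, h5, h6, h7, h8, h9, h10, h11⟩ := Cfsg.Agent.Lib.H97FbX.conj_part Q hset g (hg ▸ ⟨⟨s, hsc⟩, hsQ, rfl⟩) (hg ▸ hs1)
    _ _ _ _ rfl rfl rfl rfl
  rw [hg] at h7 h10
  exact ⟨h2, h5, h6, inf_le_right, h7, h10, h11⟩

theorem rl_of_conj (hS : NoTwo) {G' : Type u} [Group G'] [Finite G'] {z : G'} {Q : Subgroup (Subgroup.centralizer ({z} : Set G'))} [Q.Normal]
    (hset : IsExtraspecialCentralizerSetting z Q 6)
    {V : Type u} [AddCommGroup V] {q : V → ZMod 2} {b : V → V → ZMod 2}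
    {ρ : Subgroup.centralizer ({z} : Set G') →* AddMonoid.End V} {π : Q → V} {M : Subgroup (Subgroup.centralizer ({z} : Set G'))}
    {Φ : V6 ≃+ V} {R : M →* G} (D : Dat (zz z) Q q b ρ π M Φ R) (hR : R.range = K0)
    {s : G'} (hsc : s ∈ Subgroup.centralizer ({z} : Set G'))
    (hsQ : (⟨s, hsc⟩ : Subgroup.centralizer ({z} : Set G')) ∈ Q) (hs1 : s ≠ z) {g : G'} (hg : g * z * g⁻¹ = s) :
    orderOf (⟨s, hsc⟩ : Subgroup.centralizer ({z} : Set G')) = 2 ∧ (⟨s, hsc⟩ : Subgroup.centralizer ({z} : Set G')) ≠ zz z ∧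
      Rl K0 (co π Φ ⟨⟨s, hsc⟩, hsQ⟩) w4 := by
  have h2 : orderOf (⟨s, hsc⟩ : Subgroup.centralizer ({z} : Set G')) = 2 := by
    rw [Subgroup.orderOf_mk, ← hg]
    have := orderOf_injective (MulAut.conj g).toMonoidHom (MulAut.conj g).injective z
    exact this.trans hset.1
  have hne : (⟨s, hsc⟩ : Subgroup.centralizer ({z} : Set G')) ≠ zz z := fun h => hs1 (congrArg Subtype.val h)
  exact ⟨h2, hne, is_w4 hS D hR ⟨⟨s, hsc⟩, hsQ⟩ h2 hne (exists_cj Q hset hsc hsQ hs1 hg)⟩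

theorem S5441_of (hS : NoTwo) {G' : Type u} [Group G'] [Finite G'] {z : G'} {Q : Subgroup (Subgroup.centralizer ({z} : Set G'))} [Q.Normal]
    (hF : Cfsg.IsOfLargeFischerTypeAt z Q) (s t : G')
    (hsQ : ∃ hsc : s ∈ Subgroup.centralizer ({z} : Set G'), (⟨s, hsc⟩ : Subgroup.centralizer ({z} : Set G')) ∈ Q)
    (htQ : ∃ htc : t ∈ Subgroup.centralizer ({z} : Set G'), (⟨t, htc⟩ : Subgroup.centralizer ({z} : Set G')) ∈ Q)
    (hs : IsConj z s) (ht : IsConj z t) (hs1 : s ≠ z) (ht1 : t ≠ z) :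
    ∃ h ∈ Subgroup.centralizer ({z} : Set G'), h * s * h⁻¹ = t := by
  obtain ⟨V, iV, iF, q, b, ρ, π, M, Φ, R, D, hR⟩ := exists_datK hF
  obtain ⟨hsc, hsQ⟩ := hsQ
  obtain ⟨htc, htQ⟩ := htQ
  obtain ⟨g, hg⟩ := isConj_iff.1 hs
  obtain ⟨g', hg'⟩ := isConj_iff.1 ht
  obtain ⟨a1, a2, a3⟩ := rl_of_conj hS hF.1 D hR hsc hsQ hs1 hg
  obtain ⟨b1, b2, b3⟩ := rl_of_conj hS hF.1 D hR htc htQ ht1 hg'
  have h1 : Rl R.range (co π Φ ⟨⟨t, htc⟩, htQ⟩) (co π Φ ⟨⟨s, hsc⟩, hsQ⟩) := by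
    rw [hR]; exact b3.trans a3.symm
  obtain ⟨m, hm⟩ := D.rl.1 h1
  rw [co, co, Φ.apply_symm_apply, Φ.apply_symm_apply] at hm
  have ne1 : (⟨s, hsc⟩ : Subgroup.centralizer ({z} : Set G')) ≠ 1 := fun e => by rw [e, orderOf_one] at a1; omega
  obtain ⟨k, -, hk⟩ := D.conj_iff m ⟨⟨s, hsc⟩, hsQ⟩ ⟨⟨t, htc⟩, htQ⟩ ne1 a2 hm
  exact ⟨m * k, Subgroup.mul_mem _ m.1.2 k.2, congrArg Subtype.val hk⟩

end Cfsg.Agent.Lib.H97FbM
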