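import Mathlib

/-! Piece FB-Z of S5442 (helper30): abstract end. -/

set_option autoImplicit false

namespace Cfsg.Agent.Lib.H97FbZ

open Subgroup

theorem quot {Γ : Type*} [Group Γ] [Finite Γ] (X E Y A : Subgroup Γ) (hEX : E ≤ X) (hn : ∀ x ∈ X, ∀ y ∈ E, x * y * x⁻¹ ∈ E)
    (hY : Y.index = 2) (hX : Nat.card X = 11520) (hXY : Nat.card ↥(X ⊓ Y) = 5760) (hE : IsPGroup 2 E) (hE5 : 32 ≤ Nat.card E)
    (hAX : A ≤ X ⊓ Y) (hA : Nonempty (A ≃* alternatingGroup (Fin 6))) :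
    Nat.card E = 32 ∧ ∃ _ : (E.subgroupOf X).Normal, Nonempty (↥X ⧸ E.subgroupOf X ≃* alternatingGroup (Fin 6)) := by
  classical
  obtain ⟨φ⟩ := hA
  have hAc : Nat.card A = 360 := by
    rw [Nat.card_congr φ.toEquiv]
    have := two_mul_nat_card_alternatingGroup (α := Fin 6)
    rw [Nat.card_perm, Nat.card_eq_fintype_card (α := Fin 6), Fintype.card_fin] at this
    have h6 : Nat.factorial 6 = 720 := rfl
    omega
  have hs6 : IsSimpleGroup (alternatingGroup (Fin 6)) := alternatingGroup.isSimpleGroup (by simp)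
  have hsA : IsSimpleGroup A := φ.isSimpleGroup
  have hnA : (E.subgroupOf A).Normal := by
    refine ⟨fun e he a => ?_⟩
    rw [mem_subgroupOf] at he ⊢
    exact hn a (hAX a.2).1 e he
  have hAE : A ⊓ E = ⊥ := by
    rcases hnA.eq_bot_or_eq_top with h | h
    · rw [eq_bot_iff]
      rintro g ⟨hg, hg'⟩
      have : (⟨g, hg⟩ : A) ∈ E.subgroupOf A := mem_subgroupOf.2 hg'
      rw [h, mem_bot] at this
      rw [mem_bot]
      exact congrArg Subtype.val this
    · exfalso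
      rw [subgroupOf_eq_top] at h
      obtain ⟨n, hn⟩ := IsPGroup.iff_card.1 (hE.to_le h)
      rw [hAc] at hn
      have h3 : 3 ∣ 2 ^ n := by rw [← hn]; norm_num
      have := (Nat.prime_three).dvd_of_dvd_pow h3
      omega
  have hYn : Y.Normal := normal_of_index_eq_two hY
  -- the product A (E ⊓ Y)
  have hle1 : Nat.card A * Nat.card ↥(E ⊓ Y) ≤ Nat.card ↥(X ⊓ Y) := by
    rw [← Nat.card_prod]
    refine Nat.card_le_card_of_injective (fun p : A × ↥(E ⊓ Y) => (⟨(p.1 : Γ) * (p.2 : Γ),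
      mul_mem (hAX p.1.2) ⟨hEX p.2.2.1, p.2.2.2⟩⟩ : ↥(X ⊓ Y))) ?_
    rintro ⟨⟨a, ha⟩, ⟨e, he⟩⟩ ⟨⟨a', ha'⟩, ⟨e', he'⟩⟩ h
    have h1 : a * e = a' * e' := congrArg Subtype.val h
    have h2 : a'⁻¹ * a = e' * e⁻¹ := by
      rw [eq_mul_inv_iff_mul_eq, mul_assoc, h1, inv_mul_cancel_left]
    have h3 : a'⁻¹ * a ∈ A ⊓ E := ⟨A.mul_mem (A.inv_mem ha') ha, by rw [h2]; exact E.mul_mem he'.1 (E.inv_mem he.1)⟩
    rw [hAE, mem_bot] at h3
    have h4 : a = a' := (inv_mul_eq_one.1 h3).symm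
    subst h4
    have h5 : e = e' := mul_left_cancel h1
    subst h5
    rfl
  rw [hAc, hXY] at hle1
  have hEY : Nat.card E ≤ 2 * Nat.card ↥(E ⊓ Y) := by
    have h1 := card_mul_index (Y.subgroupOf E)
    have h2 : Y.relIndex E ≤ 2 := Nat.le_of_dvd (by norm_num) (hY ▸ relIndex_dvd_index_of_normal Y E)
    have h3 : Nat.card (Y.subgroupOf E) ≤ Nat.card ↥(E ⊓ Y) :=
      Nat.card_le_card_of_injective (fun g : Y.subgroupOf E => (⟨(g : E), ⟨(g : E).2, mem_subgroupOf.1 g.2⟩⟩ : ↥(E ⊓ Y)))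
        (by
          intro g g' h
          apply Subtype.ext
          apply Subtype.ext
          exact congrArg (fun x : ↥(E ⊓ Y) => (x : Γ)) h)
    have h4 : (Y.subgroupOf E).index ≤ 2 := h2
    calc Nat.card E = Nat.card (Y.subgroupOf E) * (Y.subgroupOf E).index := h1.symm
      _ ≤ Nat.card ↥(E ⊓ Y) * 2 := Nat.mul_le_mul h3 h4
      _ = 2 * Nat.card ↥(E ⊓ Y) := mul_comm _ _
  have hE32 : Nat.card E = 32 := by omega
  have hEn : (E.subgroupOf X).Normal := by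
    refine ⟨fun e he x => ?_⟩
    rw [mem_subgroupOf] at he ⊢
    exact hn x x.2 e he
  refine ⟨hE32, hEn, ?_⟩
  have hq : Nat.card (↥X ⧸ E.subgroupOf X) = 360 := by
    have h1 := card_mul_index (E.subgroupOf X)
    rw [index_eq_card, hX] at h1
    have h2 : Nat.card (E.subgroupOf X) = 32 := by
      rw [← hE32]
      exact Nat.card_congr (subgroupOfEquivOfLe hEX).toEquiv
    rw [h2] at h1
    omega
  let f : A →* ↥X ⧸ E.subgroupOf X := (QuotientGroup.mk' (E.subgroupOf X)).comp (inclusion (hAX.trans inf_le_left))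
  have hf : Function.Injective f := by
    rw [← MonoidHom.ker_eq_bot_iff, eq_bot_iff]
    intro a ha
    rw [MonoidHom.mem_ker] at ha
    have h1 : (inclusion (hAX.trans inf_le_left) a : X) ∈ E.subgroupOf X := (QuotientGroup.eq_one_iff _).1 ha
    rw [mem_subgroupOf] at h1
    have h2 : (a : Γ) ∈ A ⊓ E := ⟨a.2, h1⟩
    rw [hAE, mem_bot] at h2
    rw [mem_bot]
    exact Subtype.ext h2
  have hbij : Function.Bijective f := (Nat.bijective_iff_injective_and_card f).2 ⟨hf, by rw [hAc, hq]⟩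
  exact ⟨(MulEquiv.ofBijective f hbij).symm.trans φ⟩

end Cfsg.Agent.Lib.H97FbZ
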