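import Cfsg.Agent.Lib.H97FbM
import Cfsg.Agent.Lib.H97FbZ
import Cfsg.Agent.Lib.H97FbC4
import Cfsg.Agent.Lib.H97FbA6

/-!
# S5442: the final count (helper97)
-/

set_option autoImplicit false
set_option linter.unusedVariables false
set_option linter.unusedSimpArgs false
set_option linter.unusedSectionVars false

universe u

namespace Cfsg.Agent.Lib.H97FbN

open Matrix Cfsg Cfsg.Agent.Lib.K4 Cfsg.Agent.Lib.HermMat Cfsg.Agent.Lib.ClThreeTransU Cfsg.Agent.Lib.SU6K4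
open Cfsg.Agent.Lib.U43 Cfsg.Agent.Lib.H97Fa Cfsg.Agent.Lib.H97FaF Cfsg.Agent.Lib.H97FaG Cfsg.Agent.Lib.H97FaI Cfsg.Agent.Lib.LargeExtra
open Cfsg.Agent.Lib.H97FbY Cfsg.Agent.Lib.H97FbU Cfsg.Agent.Lib.H97FbV Cfsg.Agent.Lib.H97FbM

/-- the order of the image of `A` -/
theorem card_image {G' : Type u} [Group G'] [Finite G'] (H : Subgroup G') (Q : Subgroup H) [hn : Q.Normal]
    (A : Subgroup G') (hAz : A ≤ H) (E0 : Subgroup G') (hE0 : E0 = Q.map H.subtype ⊓ A) :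
    Nat.card ((A.subgroupOf H).map (QuotientGroup.mk' Q)) * Nat.card E0 = Nat.card A := by
  set AH : Subgroup H := A.subgroupOf H with hAH
  let f : AH →* H ⧸ Q := (QuotientGroup.mk' Q).domRestrict AH
  have h1 : f.range = AH.map (QuotientGroup.mk' Q) := MonoidHom.domRestrict_range _ _
  have h2 := Subgroup.card_mul_index f.ker
  rw [Subgroup.index_ker, h1] at h2
  have h3 : Nat.card f.ker = Nat.card E0 := by
    have hf : ∀ a : f.ker, (((a : AH) : H) : G') ∈ E0 := by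
      rintro ⟨a, ha⟩
      rw [hE0]
      have h4 : (a : H) ∈ Q := (QuotientGroup.eq_one_iff _).1 ha
      exact ⟨⟨a, h4, rfl⟩, a.2⟩
    refine Nat.card_congr (Equiv.ofBijective (fun a : f.ker => (⟨_, hf a⟩ : E0)) ⟨?_, ?_⟩)
    · intro a a' h
      have h1 : (((a : AH) : H) : G') = (((a' : AH) : H) : G') := congrArg (fun x : E0 => (x : G')) h
      exact Subtype.ext (Subtype.ext (Subtype.ext h1))
    · rintro ⟨e, he⟩
      have he' := he
      rw [hE0] at he'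
      obtain ⟨⟨y, hy, hye⟩, he2⟩ := he'
      refine ⟨⟨⟨y, ?_⟩, ?_⟩, Subtype.ext hye⟩
      · change (y : G') ∈ A
        rw [show (y : G') = e from hye]; exact he2
      · exact (QuotientGroup.eq_one_iff _).2 hy
  rw [h3, Nat.card_congr (Subgroup.subgroupOfEquivOfLe hAz).toEquiv, mul_comm] at h2
  exact h2

section

variable {G' : Type u} [Group G'] [Finite G'] {z : G'} {Q : Subgroup (Subgroup.centralizer ({z} : Set G'))} [hn : Q.Normal]

theorem S5442_of (hS : NoTwo) (hF : Cfsg.IsOfLargeFischerTypeAt z Q) (s : G')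
    (hsQ : ∃ hsc : s ∈ Subgroup.centralizer ({z} : Set G'), (⟨s, hsc⟩ : Subgroup.centralizer ({z} : Set G')) ∈ Q)
    (hs : IsConj z s) (hs1 : s ≠ z) (g : G') (hg : g * z * g⁻¹ = s)
    (X E : Subgroup ((Subgroup.centralizer ({z} : Set G')) ⧸ Q))
    (hX : X = ((Subgroup.centralizer ({z} : Set G') ⊓ Subgroup.centralizer ({s} : Set G')).subgroupOf (Subgroup.centralizer ({z} : Set G'))).map (QuotientGroup.mk' Q))
    (hE : E = ((((Q.map (Subgroup.centralizer ({z} : Set G')).subtype)).map (MulAut.conj g).toMonoidHom ⊓ Subgroup.centralizer ({z} : Set G')).subgroupOf (Subgroup.centralizer ({z} : Set G'))).map (QuotientGroup.mk' Q)) :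
    Cfsg.IsElementaryAbelian 2 ((Q.map (Subgroup.centralizer ({z} : Set G')).subtype) ⊓ ((Q.map (Subgroup.centralizer ({z} : Set G')).subtype)).map (MulAut.conj g).toMonoidHom) ∧
    Nat.card ↥((Q.map (Subgroup.centralizer ({z} : Set G')).subtype) ⊓ ((Q.map (Subgroup.centralizer ({z} : Set G')).subtype)).map (MulAut.conj g).toMonoidHom) = 2 ^ 7 ∧
    E ≤ X ∧ (∀ x ∈ X, ∀ y ∈ E, x * y * x⁻¹ ∈ E) ∧ Cfsg.IsElementaryAbelian 2 E ∧ Nat.card E = 32 ∧
    ∃ _ : (E.subgroupOf X).Normal, Nonempty (↥X ⧸ E.subgroupOf X ≃* alternatingGroup (Fin 6)) := by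
  obtain ⟨hsc, hsQ⟩ := hsQ
  obtain ⟨x1, x2, x3, x4, x5, x6, x7, x8, x9, x10, x11⟩ := Cfsg.Agent.Lib.H97FbX.conj_part Q hF.1 g (hg ▸ ⟨⟨s, hsc⟩, hsQ, rfl⟩) (hg ▸ hs1)
    _ _ _ _ rfl rfl rfl rfl
  rw [hg] at x7 x10
  set Q' := Q.map (Subgroup.subtype (Subgroup.centralizer ({z} : Set G'))) with hQ'
  set Q₁ := Q'.map (MulAut.conj g).toMonoidHom with hQ₁
  set A := Q₁ ⊓ (Subgroup.centralizer ({z} : Set G')) with hA
  set E0 := Q' ⊓ Q₁ with hE0
  obtain ⟨V, iV, iF, q, b, ρ, π, M, Φ, R, D, hR⟩ := exists_datK hF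
  obtain ⟨a1, a2, a3⟩ := rl_of_conj hS hF.1 D hR hsc hsQ hs1 hg
  set r : Q := ⟨⟨s, hsc⟩, hsQ⟩ with hr
  have ne1 : (r : (Subgroup.centralizer ({z} : Set G'))) ≠ 1 := fun e => by rw [show (⟨s, hsc⟩ : (Subgroup.centralizer ({z} : Set G'))) = 1 from e, orderOf_one] at a1; omega
  have hmk : ∀ {x y : (Subgroup.centralizer ({z} : Set G'))}, (QuotientGroup.mk' Q) x = (QuotientGroup.mk' Q) y ↔ x⁻¹ * y ∈ Q := QuotientGroup.eq
  -- `X` is the image of the stabilizer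
  have hXS : X = (St ρ (Φ (co π Φ r))).map (QuotientGroup.mk' Q) := by
    rw [hX]
    ext y
    constructor
    · rintro ⟨h, hh, rfl⟩
      refine ⟨h, ?_, rfl⟩
      rw [SetLike.mem_coe, mem_St, co, Φ.apply_symm_apply]
      apply D.act h r r
      have h1 : (h : G') * s = s * h := by
        have := Subgroup.mem_centralizer_singleton_iff.1 hh.2
        exact this
      have h2 : h * (r : (Subgroup.centralizer ({z} : Set G'))) = r * h := Subtype.ext h1
      rw [h2]; group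
    · rintro ⟨h, hh, rfl⟩
      rw [SetLike.mem_coe, mem_St, co, Φ.apply_symm_apply] at hh
      obtain ⟨k, hk, hk2⟩ := D.conj_iff h r r ne1 a2 hh
      refine ⟨h * k, ⟨(h * k).2, ?_⟩, ?_⟩
      · apply Subgroup.mem_centralizer_singleton_iff.2
        have := congrArg Subtype.val (mul_inv_eq_iff_eq_mul.1 hk2)
        exact this
      · rw [hmk]
        have : (h * k)⁻¹ * h = k⁻¹ := by group
        rw [this]; exact Q.inv_mem hk
  have hEX : E ≤ X := by
    rw [hE, hX]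
    apply Subgroup.map_mono
    intro a ha
    exact ⟨a.2, Subgroup.mem_centralizer_singleton_iff.2 (x7 a ha)⟩
  have hnE : ∀ x ∈ X, ∀ y ∈ E, x * y * x⁻¹ ∈ E := by
    rw [hE, hX]
    rintro _ ⟨x, hx, rfl⟩ _ ⟨y, hy, rfl⟩
    refine ⟨x * y * x⁻¹, ?_, by rw [map_mul, map_mul, map_inv]⟩
    exact x10 x (Subgroup.mem_centralizer_singleton_iff.1 x.2) (Subgroup.mem_centralizer_singleton_iff.1 hx.2) y hy
  have hEab : Cfsg.IsElementaryAbelian 2 E := by
    rw [hE]
    refine ⟨⟨⟨?_⟩⟩, ?_⟩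
    · rintro ⟨_, a, ha, rfl⟩ ⟨_, b, hb, rfl⟩
      apply Subtype.ext
      change (QuotientGroup.mk' Q) a * (QuotientGroup.mk' Q) b = (QuotientGroup.mk' Q) b * (QuotientGroup.mk' Q) a
      rw [← map_mul, ← map_mul, hmk]
      have ha' : ((a⁻¹ : (Subgroup.centralizer ({z} : Set G'))) : G') ∈ A := A.inv_mem ha
      have hb' : ((b⁻¹ : (Subgroup.centralizer ({z} : Set G'))) : G') ∈ A := A.inv_mem hb
      have h1 := (x9 _ hb' _ ha').1
      obtain ⟨y, hy, hy2⟩ := h1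
      have : (a * b)⁻¹ * (b * a) = y := by
        apply Subtype.ext
        have hy3 : (y : G') = ((b⁻¹ : (Subgroup.centralizer ({z} : Set G'))) : G') * ((a⁻¹ : (Subgroup.centralizer ({z} : Set G'))) : G') * ((b⁻¹ : (Subgroup.centralizer ({z} : Set G'))) : G')⁻¹ * ((a⁻¹ : (Subgroup.centralizer ({z} : Set G'))) : G')⁻¹ := hy2
        rw [hy3]
        push_cast
        group
      rw [this]; exact hy
    · rintro _ ⟨a, ha, rfl⟩
      rw [← map_pow]
      obtain ⟨y, hy, hy2⟩ := (x8 _ ha).1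
      have : a ^ 2 = y := by
        apply Subtype.ext
        have hy3 : (y : G') = (a : G') * a := hy2
        rw [hy3, pow_two]; rfl
      rw [this]
      exact (QuotientGroup.eq_one_iff _).2 hy
  have hcard : Nat.card E * Nat.card E0 = 2 ^ 12 := by
    rw [hE, ← x2]
    apply card_image (Subgroup.centralizer ({z} : Set G')) Q A inf_le_right
    rw [hE0, hA, hQ']
    ext y
    constructor
    · rintro ⟨h1, h2⟩
      obtain ⟨w, hw, hw2⟩ := h1
      refine ⟨⟨w, hw, hw2⟩, h2, ?_⟩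
      have : (w : G') = y := hw2
      rw [← this]; exact w.2
    · rintro ⟨h1, h2, h3⟩
      exact ⟨h1, h2⟩
  have hE5 : 32 ≤ Nat.card E := by
    by_contra hlt
    have : Nat.card E * Nat.card E0 ≤ 31 * 2 ^ 7 := Nat.mul_le_mul (by omega) x5
    rw [hcard] at this
    norm_num at this
  have hE2 : IsPGroup 2 E := by
    rintro ⟨y, hy⟩
    exact ⟨1, Subtype.ext (hEab.2 y hy)⟩
  -- the subgroup `A6`
  obtain ⟨S, hSK, ⟨e6⟩, hSf, -, hSw⟩ := Cfsg.Agent.Lib.H97FbA6.exists_A6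
  obtain ⟨A', hA', ⟨e'⟩⟩ := transfer D hR (v := co π Φ r) (w := b6 1) (a3.trans hSw.symm) S hSK hSf
  set Y := M.map (QuotientGroup.mk' Q) with hY
  have hA'' : A' ≤ X ⊓ Y := by rw [hXS]; exact hA'
  have hiY : Y.index = 2 := iY D
  have hYn : Y.Normal := Subgroup.normal_of_index_eq_two hiY
  have hXYn : Nat.card ↥(X ⊓ Y) * (2 * (Ob K0 w4).ncard) = 19595520 := by rw [hXS]; exact cXY D hR a3
  have hXn : Nat.card X * (Ob K0 w4).ncard = 19595520 := by rw [hXS]; exact cX D hR a3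
  have hEY : 16 ≤ Nat.card ↥(E ⊓ Y) := by
    have h1 : Y.relIndex E ∣ 2 := by rw [← hiY]; exact Subgroup.relIndex_dvd_index_of_normal Y E
    have h2 := Subgroup.card_mul_index (Y.subgroupOf E)
    have h3 : Nat.card (Y.subgroupOf E) = Nat.card ↥(E ⊓ Y) := by
      rw [← Subgroup.inf_subgroupOf_left, Nat.card_congr (Subgroup.subgroupOfEquivOfLe inf_le_left).toEquiv]
    have h4 : (Y.subgroupOf E).index ≤ 2 := Nat.le_of_dvd (by norm_num) h1
    rw [h3] at h2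
    by_contra hlt
    have : Nat.card ↥(E ⊓ Y) * (Y.subgroupOf E).index ≤ 15 * 2 := Nat.mul_le_mul (by omega) h4
    omega
  have hdvd : 5760 ∣ Nat.card ↥(X ⊓ Y) := by
    refine dvd_of (X ⊓ Y) (E ⊓ Y) A' ?_ (inf_le_inf_right _ hEX) (hE2.to_le inf_le_left) hEY hA'' ⟨e'.trans e6⟩
    intro x hx y hy
    exact ⟨hnE x hx.1 y hy.1, hYn.conj_mem y hy.2 x⟩
  obtain ⟨j, hj⟩ := hdvd
  have hn4 := Cfsg.Agent.Lib.H97FbC4.card_four
  have hj1 : j * (Ob K0 w4).ncard = 1701 := by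
    rw [hj] at hXYn
    have : 11520 * (j * (Ob K0 w4).ncard) = 11520 * 1701 := by linarith
    exact Nat.eq_of_mul_eq_mul_left (by norm_num) this
  have hj2 : j = 1 := by
    have h0 : j ≠ 0 := by rintro rfl; omega
    have : j < 2 := by
      by_contra hlt
      have : 2 * 1215 ≤ j * (Ob K0 w4).ncard := Nat.mul_le_mul (by omega) hn4
      omega
    omega
  have hn : (Ob K0 w4).ncard = 1701 := by rw [hj2, one_mul] at hj1; exact hj1
  have hXY : Nat.card ↥(X ⊓ Y) = 5760 := by rw [hj, hj2]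
  have hX' : Nat.card X = 11520 := by
    rw [hn] at hXn
    omega
  obtain ⟨f1, f2⟩ := Cfsg.Agent.Lib.H97FbZ.quot X E Y A' hEX hnE hiY hX' hXY hE2 hE5 hA'' ⟨e'.trans e6⟩
  refine ⟨⟨⟨⟨?_⟩⟩, ?_⟩, ?_, hEX, hnE, hEab, f1, f2⟩
  · rintro ⟨x, hx⟩ ⟨y, hy⟩
    exact Subtype.ext (x3 x hx y hy)
  · intro x hx
    rw [pow_two]; exact x4 x hx
  · rw [f1] at hcard
    omega

end

end Cfsg.Agent.Lib.H97FbN
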