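import Cfsg.Agent.Lib.H97FaF
import Cfsg.Agent.Lib.H97FbCOP

/-!
# S5441, piece FB-S (helper44)
-/

set_option autoImplicit false
set_option linter.unusedVariables false
set_option linter.unusedSimpArgs false

namespace Cfsg.Agent.Lib.H97FbS

open Matrix Cfsg Cfsg.Agent.Lib.K4 Cfsg.Agent.Lib.HermMat Cfsg.Agent.Lib.ClThreeTransU Cfsg.Agent.Lib.SU6K4
open Cfsg.Agent.Lib.U43 Cfsg.Agent.Lib.H97Fa Cfsg.Agent.Lib.H97FaF

def av (x y z : ZMod 3) : Fin 6 → ZMod 3 := ![x, y, 0, z, -(x+y+z), 0]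

def rl (x y z x' y' z' : ZMod 3) (k l : Fin 6) : Bool := av x y z k == av x y z l && av x' y' z' k == av x' y' z' l

def tI (x y z x' y' z' : ZMod 3) (i : Fin 6) : Bool :=
  (List.finRange 6).all fun k => (List.finRange 6).all fun l => k == l || !(rl x y z x' y' z' k l) ||
    ((k == i || k == 2 || k == 5) && (l == i || l == 2 || l == 5))

def tII (x y z x' y' z' : ZMod 3) (i j : Fin 6) : Bool :=
  (List.finRange 6).all fun k => (List.finRange 6).all fun l => k == l || !(rl x y z x' y' z' k l) ||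
    ((k == 2 && l == 5) || (k == 5 && l == 2) || (k == i && l == j) || (k == j && l == i))

theorem trich : ∀ x y z x' y' z' : ZMod 3, (x == 0 && y == 0 && z == 0) = true ∨ (x' == 0 && y' == 0 && z' == 0) = true ∨
   (x' == x && y' == y && z' == z) = true ∨ (x' == -x && y' == -y && z' == -z) = true ∨
   tI x y z x' y' z' 0 = true ∨ tI x y z x' y' z' 1 = true ∨ tI x y z x' y' z' 3 = true ∨ tI x y z x' y' z' 4 = true ∨
   tII x y z x' y' z' 0 1 = true ∨ tII x y z x' y' z' 0 3 = true ∨ tII x y z x' y' z' 0 4 = true ∨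
   tII x y z x' y' z' 1 3 = true ∨ tII x y z x' y' z' 1 4 = true ∨ tII x y z x' y' z' 3 4 = true := by
  decide +kernel

theorem tI_spec {x y z x' y' z' : ZMod 3} {i : Fin 6} (h : tI x y z x' y' z' i = true) (k l : Fin 6) (hkl : k ≠ l)
    (h1 : av x y z k = av x y z l) (h2 : av x' y' z' k = av x' y' z' l) :
    (k = i ∨ k = 2 ∨ k = 5) ∧ (l = i ∨ l = 2 ∨ l = 5) := by
  have h3 := List.all_eq_true.1 h k (List.mem_finRange k)
  have h4 := List.all_eq_true.1 h3 l (List.mem_finRange l)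
  simp only [rl, h1, h2, beq_self_eq_true, Bool.and_self, Bool.not_true, Bool.or_false, Bool.or_eq_true, Bool.and_eq_true,
    beq_iff_eq] at h4
  tauto

theorem tII_spec {x y z x' y' z' : ZMod 3} {i j : Fin 6} (h : tII x y z x' y' z' i j = true) (k l : Fin 6) (hkl : k ≠ l)
    (h1 : av x y z k = av x y z l) (h2 : av x' y' z' k = av x' y' z' l) :
    (k = 2 ∧ l = 5) ∨ (k = 5 ∧ l = 2) ∨ (k = i ∧ l = j) ∨ (k = j ∧ l = i) := by
  have h3 := List.all_eq_true.1 h k (List.mem_finRange k)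
  have h4 := List.all_eq_true.1 h3 l (List.mem_finRange l)
  simp only [rl, h1, h2, beq_self_eq_true, Bool.and_self, Bool.not_true, Bool.or_false, Bool.or_eq_true, Bool.and_eq_true,
    beq_iff_eq] at h4
  tauto

theorem k4a : ∀ a b c d : K4, a = a ^ 2 → b = c ^ 2 → d = d ^ 2 → a + b = 1 → c + d = 1 →
    (a = 1 ∧ b = 0 ∧ c = 0 ∧ d = 1) ∨ (a = 0 ∧ b = 1 ∧ c = 1 ∧ d = 0) := by decide +kernel
theorem k4b : ∀ m a b : K4, a = a ^ 2 → a + b = 1 → m ^ 2 * m + a * a + b * b ^ 2 = 1 → m = 0 := by decide +kernel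
theorem k4c : ∀ a l : K4, a = a ^ 2 → l ≠ 0 → a * a + l * l ^ 2 = 1 → a = 0 := by decide +kernel
theorem k4c' : ∀ a l : K4, a = a ^ 2 → l ≠ 0 → a * a + l ^ 2 * l = 1 → a = 0 := by decide +kernel
theorem k4d : ∀ a : K4, a * a = 1 → a = 1 := by decide +kernel
theorem k4e : ∀ a b : K4, a + b = 0 → b = a := by decide +kernel

structure HU (U : Matrix (Fin 6) (Fin 6) K4) : Prop where
  her : ∀ k l, U k l = U l k ^ 2
  sq : ∀ k, ∑ l, U k l * U l k = 1
  fx : ∀ k, U k 2 + U k 5 = u2 k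

theorem hu_of {u : G} (huu : u * u = 1) (hf : mt u *ᵥ u2 = u2) : HU (mt u) := by
  refine ⟨fun k l => ?_, fun k => ?_, fun k => ?_⟩
  · have h1 : hermForm 6 K4 2 (mt u *ᵥ (mt u *ᵥ Pi.single l 1)) (mt u *ᵥ Pi.single k 1) =
        hermForm 6 K4 2 (mt u *ᵥ Pi.single l 1) (Pi.single k 1) := u.2 _ _
    rw [Matrix.mulVec_mulVec, ← H97FaF.mt_mul, huu, H97FaF.mt_one, one_mulVec, hermForm_def, hermForm_def] at h1
    have e1 : ∀ m j, (mt u *ᵥ Pi.single j 1) m = mt u m j := fun m j => by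
      rw [Matrix.mulVec_single_one]; rfl
    simp only [e1] at h1
    rw [Finset.sum_eq_single l (fun b _ hb => by rw [Pi.single_eq_of_ne hb, zero_mul]) (by simp),
      Finset.sum_eq_single k (fun b _ hb => by rw [Pi.single_eq_of_ne hb]; simp) (by simp), Pi.single_eq_same, Pi.single_eq_same,
      one_mul, one_pow, mul_one] at h1
    exact h1.symm
  · have h1 : mt (u * u) k k = 1 := by rw [huu, H97FaF.mt_one, Matrix.one_apply_eq]
    rw [H97FaF.mt_mul, Matrix.mul_apply] at h1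
    exact h1
  · have h1 := congrFun hf k
    rw [← h1]
    simp [Matrix.mulVec, dotProduct, Fin.sum_univ_six, u2]

theorem row1 {f : Fin 6 → K4} {k : Fin 6} (h : ∀ l, l ≠ k → f l = 0) : ∑ l, f l = f k :=
  Finset.sum_eq_single k (fun b _ hb => h b hb) (by simp)

theorem row2 {f : Fin 6 → K4} {k m : Fin 6} (hkm : k ≠ m) (h : ∀ l, l ≠ k → l ≠ m → f l = 0) : ∑ l, f l = f k + f m :=
  Finset.sum_eq_add k m hkm (fun l _ hl => h l hl.1 hl.2) (by simp) (by simp)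

theorem row3 {f : Fin 6 → K4} {i : Fin 6} (hi2 : i ≠ 2) (hi5 : i ≠ 5) (h : ∀ l, l ≠ i → l ≠ 2 → l ≠ 5 → f l = 0) :
    ∑ l, f l = f i + f 2 + f 5 := by
  rw [← Finset.sum_subset (Finset.subset_univ {i, 2, 5}) (fun l _ hl => by
    simp only [Finset.mem_insert, Finset.mem_singleton, not_or] at hl
    exact h l hl.1 hl.2.1 hl.2.2)]
  rw [Finset.sum_insert (by simp [hi2, hi5]), Finset.sum_insert (by decide), Finset.sum_singleton, add_assoc]

/-- the vector of products -/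
theorem vec_apply (u : G) (x : V6) (k : Fin 6) : (mt u *ᵥ x) k = ∑ l, mt u k l * x l := rfl

theorem two_block {U : Matrix (Fin 6) (Fin 6) K4} (h : HU U) : (U 2 2 = 1 ∧ U 2 5 = 0 ∧ U 5 2 = 0 ∧ U 5 5 = 1) ∨
    (U 2 2 = 0 ∧ U 2 5 = 1 ∧ U 5 2 = 1 ∧ U 5 5 = 0) :=
  k4a _ _ _ _ (h.her 2 2) (h.her 2 5) (h.her 5 5) (h.fx 2) (h.fx 5)

theorem swap_conj : ∃ σ : Pm, Equiv.Perm.sign σ = 1 ∧ σ * Equiv.swap 2 5 * σ⁻¹ = p2 := by
  refine ⟨Equiv.swap 2 4 * Equiv.swap 0 1, by decide, by decide⟩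

theorem swap_notMem : mo 0 (Equiv.swap 2 5) ∉ K0 := by
  intro h
  obtain ⟨σ, h1, h2⟩ := swap_conj
  have h3 : mo 0 σ * mo 0 (Equiv.swap 2 5) * (mo 0 σ)⁻¹ ∈ K0 :=
    K0.mul_mem (K0.mul_mem (M0_le_K0 (mo_mem_M0.2 h1)) h) (K0.inv_mem (M0_le_K0 (mo_mem_M0.2 h1)))
  rw [mo_conj, h2, act_zero, act_zero, add_zero, sub_zero] at h3
  exact p2_notMem h3

theorem final3 {u : G} (hu : HU (mt u)) (hu1 : u ≠ 1) (huK : u ∈ K0)
    (hz : ∀ k l, k ≠ l → mt u k l ≠ 0 → (k = 2 ∧ l = 5) ∨ (k = 5 ∧ l = 2)) : False := by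
  have hz0 : ∀ k l, k ≠ l → ¬ ((k = 2 ∧ l = 5) ∨ (k = 5 ∧ l = 2)) → mt u k l = 0 := fun k l hkl h => by
    by_contra hc; exact h (hz k l hkl hc)
  have hd : ∀ k, k ≠ 2 → k ≠ 5 → mt u k k = 1 := fun k h2 h5 => by
    have := hu.sq k
    rw [row1 (k := k) (fun l hl => by rw [hz0 k l (Ne.symm hl) (by tauto), zero_mul])] at this
    exact k4d _ this
  have hr : ∀ (x : V6) k, k ≠ 2 → k ≠ 5 → (mt u *ᵥ x) k = x k := fun x k h2 h5 => by
    rw [vec_apply, row1 (k := k) (fun l hl => by rw [hz0 k l (Ne.symm hl) (by tauto), zero_mul]), hd k h2 h5, one_mul]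
  have hr2 : ∀ (x : V6), (mt u *ᵥ x) 2 = mt u 2 2 * x 2 + mt u 2 5 * x 5 := fun x => by
    rw [vec_apply, row2 (k := 2) (m := 5) (by decide) (fun l hl hl' => by rw [hz0 2 l (Ne.symm hl) (by tauto), zero_mul])]
  have hr5 : ∀ (x : V6), (mt u *ᵥ x) 5 = mt u 5 2 * x 2 + mt u 5 5 * x 5 := fun x => by
    rw [vec_apply, row2 (k := 2) (m := 5) (by decide) (fun l hl hl' => by
      rw [hz0 5 l (Ne.symm hl') (by tauto), zero_mul])]
  rcases two_block hu with ⟨h1, h2, h3, h4⟩ | ⟨h1, h2, h3, h4⟩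
  · apply hu1
    apply SU_ext
    intro x
    rw [H97FaF.mt_one, one_mulVec]
    funext k
    by_cases hk2 : k = 2
    · rw [hk2, hr2, h1, h2]; ring
    by_cases hk5 : k = 5
    · rw [hk5, hr5, h3, h4]; ring
    exact hr x k hk2 hk5
  · apply swap_notMem
    have : u = mo 0 (Equiv.swap 2 5) := by
      apply SU_ext
      intro x
      funext k
      rw [mo_mulVec]
      change _ = e 0 * x ((Equiv.swap 2 5)⁻¹ k)
      rw [e_zero, one_mul, Equiv.swap_inv]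
      by_cases hk2 : k = 2
      · rw [hk2, hr2, h1, h2, Equiv.swap_apply_left]; ring
      by_cases hk5 : k = 5
      · rw [hk5, hr5, h3, h4, Equiv.swap_apply_right]; ring
      rw [Equiv.swap_apply_of_ne_of_ne hk2 hk5]
      exact hr x k hk2 hk5
    rw [← this]; exact huK

theorem final1 {u : G} (hu : HU (mt u)) (hu1 : u ≠ 1) (huK : u ∈ K0) {i : Fin 6} (hi2 : i ≠ 2) (hi5 : i ≠ 5)
    (hz : ∀ k l, k ≠ l → mt u k l ≠ 0 → (k = i ∨ k = 2 ∨ k = 5) ∧ (l = i ∨ l = 2 ∨ l = 5)) : False := by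
  have hz0 : ∀ k l, k ≠ l → ¬ ((k = i ∨ k = 2 ∨ k = 5) ∧ (l = i ∨ l = 2 ∨ l = 5)) → mt u k l = 0 := fun k l hkl h => by
    by_contra hc; exact h (hz k l hkl hc)
  have h1 := hu.sq 2
  rw [row3 hi2 hi5 (fun l ha hb hc => by rw [hz0 2 l (Ne.symm hb) (by tauto), zero_mul]), hu.her 2 i, hu.her 5 2] at h1
  have hi0 : mt u i 2 = 0 := k4b _ _ _ (hu.her 2 2) (hu.fx 2) h1
  have hi0' : mt u i 5 = 0 := by
    have h2 := hu.fx i
    rw [u2_eq, if_neg (by tauto)] at h2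
    rw [k4e _ _ h2, hi0]
  refine final3 hu hu1 huK fun k l hkl hne => ?_
  have h2i : mt u 2 i = 0 := by rw [hu.her, hi0]; rfl
  have h5i : mt u 5 i = 0 := by rw [hu.her, hi0']; rfl
  obtain ⟨h3 | h3 | h3, h4 | h4 | h4⟩ := hz k l hkl hne <;> subst h3 <;> subst h4 <;> simp_all

theorem final2 {P : Subgroup G} (hP2 : IsPGroup 2 P) {u : G} (huP : u ∈ P) (huu : u * u = 1)
    (hn : ∀ a : A0, a.1 2 = 0 → a.1 5 = 0 → mo a 1 * u * (mo a 1)⁻¹ ∈ P)
    (hu : HU (mt u)) (hu1 : u ≠ 1) (huK : u ∈ K0) {i j : Fin 6} (hij : i ≠ j) (hi2 : i ≠ 2) (hi5 : i ≠ 5) (hj2 : j ≠ 2) (hj5 : j ≠ 5)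
    (hz : ∀ k l, k ≠ l → mt u k l ≠ 0 → (k = 2 ∧ l = 5) ∨ (k = 5 ∧ l = 2) ∨ (k = i ∧ l = j) ∨ (k = j ∧ l = i)) : False := by
  have hz0 : ∀ k l, k ≠ l → ¬ ((k = 2 ∧ l = 5) ∨ (k = 5 ∧ l = 2) ∨ (k = i ∧ l = j) ∨ (k = j ∧ l = i)) → mt u k l = 0 :=
    fun k l hkl h => by
      by_contra hc; exact h (hz k l hkl hc)
  by_cases h0 : mt u i j = 0
  · refine final3 hu hu1 huK fun k l hkl hne => ?_
    have h0' : mt u j i = 0 := by rw [hu.her, h0]; rfl
    rcases hz k l hkl hne with h | h | ⟨rfl, rfl⟩ | ⟨rfl, rfl⟩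
    · exact Or.inl h
    · exact Or.inr h
    · exact absurd h0 hne
    · exact absurd h0' hne
  have hd : ∀ k, k ≠ 2 → k ≠ 5 → k ≠ i → k ≠ j → mt u k k = 1 := fun k h2 h5 h3 h4 => by
    have := hu.sq k
    rw [row1 (k := k) (fun l hl => by rw [hz0 k l (Ne.symm hl) (by tauto), zero_mul])] at this
    exact k4d _ this
  have hr : ∀ (x : V6) k, k ≠ 2 → k ≠ 5 → k ≠ i → k ≠ j → (mt u *ᵥ x) k = x k := fun x k h2 h5 h3 h4 => by
    rw [vec_apply, row1 (k := k) (fun l hl => by rw [hz0 k l (Ne.symm hl) (by tauto), zero_mul]), hd k h2 h5 h3 h4, one_mul]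
  have hr2 : ∀ (x : V6), (mt u *ᵥ x) 2 = mt u 2 2 * x 2 + mt u 2 5 * x 5 := fun x => by
    rw [vec_apply, row2 (k := 2) (m := 5) (by decide) (fun l hl hl' => by
      rw [hz0 2 l (Ne.symm hl) (by rintro (⟨_, h⟩ | ⟨h, _⟩ | ⟨h, _⟩ | ⟨h, _⟩) <;> tauto), zero_mul])]
  have hr5 : ∀ (x : V6), (mt u *ᵥ x) 5 = mt u 5 2 * x 2 + mt u 5 5 * x 5 := fun x => by
    rw [vec_apply, row2 (k := 2) (m := 5) (by decide) (fun l hl hl' => by
      rw [hz0 5 l (Ne.symm hl') (by rintro (⟨h, _⟩ | ⟨_, h⟩ | ⟨h, _⟩ | ⟨h, _⟩) <;> tauto), zero_mul])]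
  have hji : mt u j i = mt u i j ^ 2 := hu.her j i
  have hii : mt u i i = 0 := by
    have h1 := hu.sq i
    rw [row2 (k := i) (m := j) hij (fun l hl hl' => by rw [hz0 i l (Ne.symm hl) (by tauto), zero_mul]), hji] at h1
    exact k4c _ _ (hu.her i i) h0 h1
  have hjj : mt u j j = 0 := by
    have h1 := hu.sq j
    rw [row2 (k := j) (m := i) hij.symm (fun l hl hl' => by rw [hz0 j l (Ne.symm hl) (by tauto), zero_mul]), hji] at h1
    exact k4c' _ _ (hu.her j j) h0 h1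
  have hri : ∀ (x : V6), (mt u *ᵥ x) i = mt u i j * x j := fun x => by
    rw [vec_apply, row2 (k := i) (m := j) hij (fun l hl hl' => by rw [hz0 i l (Ne.symm hl) (by tauto), zero_mul]), hii, zero_mul,
      zero_add]
  have hrj : ∀ (x : V6), (mt u *ᵥ x) j = mt u i j ^ 2 * x i := fun x => by
    rw [vec_apply, row2 (k := j) (m := i) hij.symm (fun l hl hl' => by rw [hz0 j l (Ne.symm hl) (by tauto), zero_mul]), hjj, zero_mul,
      zero_add, hji]
  obtain ⟨c, hc⟩ := e_surj _ h0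
  have hsum : ∀ c : ZMod 3, ∑ k : Fin 6, (if k = i then c else if k = j then -c else 0) = 0 := fun c => by
    rw [Finset.sum_eq_add i j hij (fun l _ hl => by rw [if_neg hl.1, if_neg hl.2]) (by simp) (by simp), if_pos rfl,
      if_neg hij.symm, if_pos rfl, add_neg_cancel]
  -- monomial
  obtain ⟨s, σ, hsσ⟩ : ∃ (s : A0) (σ : Pm), u = mo s σ := by
    have he2 : ∀ c : ZMod 3, e (-c) = e c ^ 2 := by decide
    rcases two_block hu with ⟨h1, h2, h3, h4⟩ | ⟨h1, h2, h3, h4⟩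
    · refine ⟨⟨fun k => if k = i then c else if k = j then -c else 0, mem_A0.2 (hsum c)⟩, Equiv.swap i j, SU_ext fun x => funext fun k => ?_⟩
      rw [mo_mulVec, Equiv.swap_inv]
      change _ = e (if k = i then c else if k = j then -c else 0) * _
      by_cases hki : k = i
      · rw [hki, if_pos rfl, hri, hc, Equiv.swap_apply_left]
      by_cases hkj : k = j
      · rw [hkj, if_neg hij.symm, if_pos rfl, hrj, he2, hc, Equiv.swap_apply_right]
      rw [if_neg hki, if_neg hkj, e_zero, one_mul, Equiv.swap_apply_of_ne_of_ne hki hkj]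
      by_cases hk2 : k = 2
      · rw [hk2, hr2, h1, h2]; ring
      by_cases hk5 : k = 5
      · rw [hk5, hr5, h3, h4]; ring
      exact hr x k hk2 hk5 hki hkj
    · refine ⟨⟨fun k => if k = i then c else if k = j then -c else 0, mem_A0.2 (hsum c)⟩, Equiv.swap i j * Equiv.swap 2 5,
        SU_ext fun x => funext fun k => ?_⟩
      rw [mo_mulVec, _root_.mul_inv_rev, Equiv.swap_inv, Equiv.swap_inv, Equiv.Perm.mul_apply]
      change _ = e (if k = i then c else if k = j then -c else 0) * _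
      by_cases hki : k = i
      · rw [hki, if_pos rfl, hri, hc, Equiv.swap_apply_left, Equiv.swap_apply_of_ne_of_ne hj2 hj5]
      by_cases hkj : k = j
      · rw [hkj, if_neg hij.symm, if_pos rfl, hrj, he2, hc, Equiv.swap_apply_right, Equiv.swap_apply_of_ne_of_ne hi2 hi5]
      rw [if_neg hki, if_neg hkj, e_zero, one_mul, Equiv.swap_apply_of_ne_of_ne hki hkj]
      by_cases hk2 : k = 2
      · rw [hk2, hr2, h1, h2, Equiv.swap_apply_left]; ring
      by_cases hk5 : k = 5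
      · rw [hk5, hr5, h3, h4, Equiv.swap_apply_right]; ring
      rw [Equiv.swap_apply_of_ne_of_ne hk2 hk5]
      exact hr x k hk2 hk5 hki hkj
  -- the commutator with a diagonal element
  set a : A0 := ⟨fun k => if k = i then 1 else if k = j then -1 else 0, mem_A0.2 (hsum 1)⟩ with ha
  have ha2 : a.1 2 = 0 := by
    change (if (2 : Fin 6) = i then (1 : ZMod 3) else if (2 : Fin 6) = j then -1 else 0) = 0
    rw [if_neg hi2.symm, if_neg hj2.symm]
  have ha5 : a.1 5 = 0 := by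
    change (if (5 : Fin 6) = i then (1 : ZMod 3) else if (5 : Fin 6) = j then -1 else 0) = 0
    rw [if_neg hi5.symm, if_neg hj5.symm]
  have hai : a.1 i = 1 := if_pos rfl
  have haj : a.1 j = -1 := by
    change (if j = i then (1 : ZMod 3) else if j = j then -1 else 0) = -1
    rw [if_neg hij.symm, if_pos rfl]
  have hv : mo a 1 * u * (mo a 1)⁻¹ * u⁻¹ ∈ P := P.mul_mem (hn a ha2 ha5) (P.inv_mem huP)
  have hvT : mo a 1 * u * (mo a 1)⁻¹ * u⁻¹ ∈ T := by
    rw [hsσ, mo_conj, mo_inv, mo_mul]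
    apply mo_mem.2
    rw [one_mul, inv_one, mul_one, mul_inv_cancel]
    exact Subgroup.one_mem _
  have h1 : orderOf (mo a 1 * u * (mo a 1)⁻¹ * u⁻¹) ∣ 243 := by
    rw [← card_T]
    exact Subgroup.orderOf_dvd_natCard _ hvT
  obtain ⟨n, hn2⟩ := hP2 ⟨_, hv⟩
  have h2 : orderOf (mo a 1 * u * (mo a 1)⁻¹ * u⁻¹) ∣ 2 ^ n := orderOf_dvd_of_pow_eq_one (congrArg Subtype.val hn2)
  have h3 : Nat.Coprime (2 ^ n) 243 := Nat.Coprime.pow_left n (by norm_num)
  have h4 : orderOf (mo a 1 * u * (mo a 1)⁻¹ * u⁻¹) = 1 := Nat.dvd_one.1 (h3 ▸ Nat.dvd_gcd h2 h1)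
  rw [orderOf_eq_one_iff] at h4
  have h5 : mo a 1 * u = u * mo a 1 := by
    rw [mul_inv_eq_one, mul_inv_eq_iff_eq_mul] at h4
    exact h4
  have h6 : mt (mo a 1 * u) i j = mt (u * mo a 1) i j := by rw [h5]
  rw [diag_mul, mul_diag, mul_comm] at h6
  have h7 := e_inj _ _ (mul_left_cancel₀ h0 h6)
  rw [hai, haj] at h7
  exact absurd h7 (by decide)

def am (x y z : ZMod 3) : A0 := ⟨av x y z, by
  rw [mem_A0, Fin.sum_univ_six]
  change x + y + 0 + z + -(x + y + z) + 0 = 0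
  ring⟩

theorem av_add (x y z x' y' z' : ZMod 3) : av x y z + av x' y' z' = av (x + x') (y + y') (z + z') := by
  funext k
  fin_cases k <;> simp [av] <;> ring

theorem am_mul (x y z x' y' z' : ZMod 3) : mo (am x y z) 1 * mo (am x' y' z') 1 = mo (am (x + x') (y + y') (z + z')) 1 := by
  rw [mo_mul, act_one, mul_one]
  congr 1
  exact Subtype.ext (av_add _ _ _ _ _ _)

theorem am_zero : mo (am 0 0 0) 1 = 1 := by
  rw [← mo_one]
  congr 1
  apply Subtype.ext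
  funext k
  change av 0 0 0 k = 0
  fin_cases k <;> simp [av]

theorem am_inv (x y z : ZMod 3) : (mo (am x y z) 1)⁻¹ = mo (am (-x) (-y) (-z)) 1 := by
  apply inv_eq_of_mul_eq_one_left
  rw [am_mul, neg_add_cancel, neg_add_cancel, neg_add_cancel, am_zero]

theorem am_inj {x y z x' y' z' : ZMod 3} (h : mo (am x y z) 1 = mo (am x' y' z') 1) : x = x' ∧ y = y' ∧ z = z' := by
  have h1 := congrArg Subtype.val (mo_inj h).1
  exact ⟨congrFun h1 0, congrFun h1 1, congrFun h1 3⟩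

/-- the diagonal group -/
def D0 : Subgroup G where
  carrier := {g | ∃ x y z, g = mo (am x y z) 1}
  one_mem' := ⟨0, 0, 0, am_zero.symm⟩
  mul_mem' := by
    rintro _ _ ⟨x, y, z, rfl⟩ ⟨x', y', z', rfl⟩
    exact ⟨_, _, _, am_mul _ _ _ _ _ _⟩
  inv_mem' := by
    rintro _ ⟨x, y, z, rfl⟩
    exact ⟨_, _, _, am_inv _ _ _⟩

theorem card_D0 : Nat.card D0 = 27 := by
  have h : Nat.card (ZMod 3 × ZMod 3 × ZMod 3) = 27 := by
    rw [Nat.card_prod, Nat.card_prod, Nat.card_zmod]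
  rw [← h]
  exact (Nat.card_congr (Equiv.ofBijective (fun p : ZMod 3 × ZMod 3 × ZMod 3 => (⟨mo (am p.1 p.2.1 p.2.2) 1, p.1, p.2.1, p.2.2, rfl⟩ : D0))
    ⟨by
      rintro ⟨x, y, z⟩ ⟨x', y', z'⟩ h
      obtain ⟨h1, h2, h3⟩ := am_inj (Subtype.ext_iff.1 h)
      exact Prod.ext h1 (Prod.ext h2 h3), by
      rintro ⟨_, x, y, z, rfl⟩
      exact ⟨(x, y, z), rfl⟩⟩)).symm

theorem z3 : ∀ x : ZMod 3, x + x + x = 0 := by decide

theorem cube {d : G} (h : d ∈ D0) : d ^ 3 = 1 := by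
  obtain ⟨x, y, z, rfl⟩ := h
  rw [pow_succ, pow_two, am_mul, am_mul, z3, z3, z3, am_zero]

theorem fix_diag (a : A0) (h2 : a.1 2 = 0) (h5 : a.1 5 = 0) : mt (mo a 1) *ᵥ u2 = u2 := by
  funext k
  rw [mo_mulVec, inv_one, Equiv.Perm.one_apply, u2_eq]
  by_cases hk : k = 2 ∨ k = 5
  · rw [if_pos hk]
    rcases hk with rfl | rfl
    · rw [h2, e_zero, mul_one]
    · rw [h5, e_zero, mul_one]
  · rw [if_neg hk, mul_zero]

theorem entry {u : G} {a : A0} (h : mo a 1 * u = u * mo a 1) {k l : Fin 6} (hne : mt u k l ≠ 0) : a.1 k = a.1 l := by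
  have h6 : mt (mo a 1 * u) k l = mt (u * mo a 1) k l := by rw [h]
  rw [diag_mul, mul_diag, mul_comm] at h6
  exact e_inj _ _ (mul_left_cancel₀ hne h6)

theorem no_two (P : Subgroup G) (hPK : P ≤ K0) (hP2 : IsPGroup 2 P) (hfix : ∀ g ∈ P, mt g *ᵥ u2 = u2)
    (hn : ∀ k ∈ K0, mt k *ᵥ u2 = u2 → ∀ g ∈ P, k * g * k⁻¹ ∈ P) : P = ⊥ := by
  by_contra hP1
  have hn' : ∀ (a : A0) (g : G), a.1 2 = 0 → a.1 5 = 0 → g ∈ P → mo a 1 * g * (mo a 1)⁻¹ ∈ P := fun a g h2 h5 hg =>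
    hn _ (M0_le_K0 (mo_mem_M0.2 (Equiv.Perm.sign_one))) (fix_diag a h2 h5) g hg
  obtain ⟨B, hBD, hB9, u, huP, hu1, huu, hcomm⟩ := H97FbCOP.exists_B P D0 hP2 hP1 card_D0 (fun d hd => cube hd)
    (by
      rintro _ ⟨x, y, z, rfl⟩ _ ⟨x', y', z', rfl⟩
      rw [am_mul, am_mul, add_comm x, add_comm y, add_comm z])
    (by
      rintro _ ⟨x, y, z, rfl⟩ p hp
      exact hn' _ _ rfl rfl hp)
  have hB1 : B ≠ ⊥ := by
    rintro rfl
    rw [Subgroup.card_bot] at hB9; omega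
  obtain ⟨a, haB, ha1⟩ : ∃ a ∈ B, a ≠ 1 := by
    by_contra hc
    push Not at hc
    exact hB1 ((Subgroup.eq_bot_iff_forall B).2 hc)
  obtain ⟨b, hbB, hb⟩ : ∃ b ∈ B, b ∉ Subgroup.zpowers a := by
    by_contra hc
    push Not at hc
    have h1 : Nat.card B ≤ Nat.card (Subgroup.zpowers a) := Nat.card_le_card_of_injective (Subgroup.inclusion hc) (Subgroup.inclusion_injective hc)
    rw [hB9, Nat.card_zpowers] at h1
    have h2 := Nat.le_of_dvd (by norm_num) (orderOf_dvd_of_pow_eq_one (cube (hBD haB)))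
    omega
  obtain ⟨x, y, z, rfl⟩ := hBD haB
  obtain ⟨x', y', z', rfl⟩ := hBD hbB
  have hu := hu_of huu (hfix u huP)
  have huK := hPK huP
  have hz : ∀ k l, k ≠ l → mt u k l ≠ 0 → av x y z k = av x y z l ∧ av x' y' z' k = av x' y' z' l := fun k l hkl hne =>
    ⟨entry (hcomm _ haB) hne, entry (hcomm _ hbB) hne⟩
  have hI : ∀ i : Fin 6, i ≠ 2 → i ≠ 5 → tI x y z x' y' z' i = true → False := fun i h2 h5 h =>
    final1 hu hu1 huK h2 h5 fun k l hkl hne => tI_spec h k l hkl (hz k l hkl hne).1 (hz k l hkl hne).2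
  have hII : ∀ i j : Fin 6, i ≠ j → i ≠ 2 → i ≠ 5 → j ≠ 2 → j ≠ 5 → tII x y z x' y' z' i j = true → False :=
    fun i j hij h2 h5 h2' h5' h =>
    final2 hP2 huP huu (fun a h h' => hn' a u h h' huP) hu hu1 huK hij h2 h5 h2' h5' fun k l hkl hne =>
      tII_spec h k l hkl (hz k l hkl hne).1 (hz k l hkl hne).2
  rcases trich x y z x' y' z' with h | h | h | h | h | h | h | h | h | h | h | h | h | h
  · simp only [Bool.and_eq_true, beq_iff_eq] at h
    obtain ⟨⟨rfl, rfl⟩, rfl⟩ := h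
    exact ha1 am_zero
  · simp only [Bool.and_eq_true, beq_iff_eq] at h
    obtain ⟨⟨rfl, rfl⟩, rfl⟩ := h
    exact hb (am_zero ▸ Subgroup.one_mem _)
  · simp only [Bool.and_eq_true, beq_iff_eq] at h
    obtain ⟨⟨rfl, rfl⟩, rfl⟩ := h
    exact hb (Subgroup.mem_zpowers _)
  · simp only [Bool.and_eq_true, beq_iff_eq] at h
    obtain ⟨⟨rfl, rfl⟩, rfl⟩ := h
    rw [← am_inv] at hb
    exact hb (Subgroup.inv_mem _ (Subgroup.mem_zpowers _))
  · exact hI 0 (by decide) (by decide) h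
  · exact hI 1 (by decide) (by decide) h
  · exact hI 3 (by decide) (by decide) h
  · exact hI 4 (by decide) (by decide) h
  · exact hII 0 1 (by decide) (by decide) (by decide) (by decide) (by decide) h
  · exact hII 0 3 (by decide) (by decide) (by decide) (by decide) (by decide) h
  · exact hII 0 4 (by decide) (by decide) (by decide) (by decide) (by decide) h
  · exact hII 1 3 (by decide) (by decide) (by decide) (by decide) (by decide) h
  · exact hII 1 4 (by decide) (by decide) (by decide) (by decide) (by decide) h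
  · exact hII 3 4 (by decide) (by decide) (by decide) (by decide) (by decide) h

end Cfsg.Agent.Lib.H97FbS
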