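import Cfsg.Agent.Lib.H97FaF

/-! S5441, piece FB-T (helper47): no transvections in `K0`. -/

set_option autoImplicit false

namespace Cfsg.Agent.Lib.H97FbT

open Matrix Cfsg Cfsg.Agent.Lib.K4 Cfsg.Agent.Lib.HermMat Cfsg.Agent.Lib.ClThreeTransU Cfsg.Agent.Lib.SU6K4
open Cfsg.Agent.Lib.U43 Cfsg.Agent.Lib.H97Fa Cfsg.Agent.Lib.H97FaF

/-- `g` is the transvection with centre `c` -/
def Tr (c : V6) (g : G) : Prop := ∀ x, mt g *ᵥ x = x + hermForm 6 K4 2 x c • c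

theorem Tr.conj {c : V6} {g : G} (h : Tr c g) (k : G) : Tr (mt k *ᵥ c) (k * g * k⁻¹) := by
  intro x
  have h1 : mt (k * g * k⁻¹) *ᵥ x = mt k *ᵥ (mt g *ᵥ (mt k⁻¹ *ᵥ x)) := by
    rw [Matrix.mulVec_mulVec, Matrix.mulVec_mulVec, ← mt_mul, ← mt_mul, mul_assoc]
  have h2 : mt k *ᵥ (mt k⁻¹ *ᵥ x) = x := by
    rw [Matrix.mulVec_mulVec, ← mt_mul, mul_inv_cancel, mt_one, Matrix.one_mulVec]
  have h3 : hermForm 6 K4 2 (mt k⁻¹ *ᵥ x) c = hermForm 6 K4 2 x (mt k *ᵥ c) := by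
    have h4 : hermForm 6 K4 2 (mt k *ᵥ (mt k⁻¹ *ᵥ x)) (mt k *ᵥ c) = hermForm 6 K4 2 (mt k⁻¹ *ᵥ x) c :=
      k.2 (mt k⁻¹ *ᵥ x) c
    rw [← h4, h2]
  rw [h1, h, Matrix.mulVec_add, Matrix.mulVec_smul, h2, h3]

theorem Tr.rl {c d : V6} (hc : Rl K0 d c) (h : ∃ g ∈ K0, Tr c g) : ∃ g ∈ K0, Tr d g := by
  obtain ⟨g, hg, hT⟩ := h
  obtain ⟨k, hk, rfl⟩ := hc
  exact ⟨k * g * k⁻¹, K0.mul_mem (K0.mul_mem hk hg) (K0.inv_mem hk), hT.conj k⟩

def d45 : V6 := ![0, 0, 0, 0, 1, 1]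
def d34 : V6 := ![0, 0, 0, 1, 1, 0]
def d1 : V6 := ![1, 1, 1, 1, 0, 0]
def d2 : V6 := ![1, 1, 1, 0, 1, 0]

theorem not_u2 (h : ∃ g ∈ K0, Tr u2 g) : False := by
  obtain ⟨g, hg, hT⟩ := Tr.rl (rl_two (v := d45) (by decide +kernel)) h
  apply p2_notMem
  have : mo 0 p2 = g := by
    apply ext_mt
    apply Matrix.mulVec_injective
    funext x
    rw [hT x]
    funext i
    rw [mo_mulVec]
    have e0 : e ((0 : A0).1 i) = 1 := rfl
    have eh : hermForm 6 K4 2 x d45 = x 4 + x 5 := by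
      rw [hermForm_def, Fin.sum_univ_six]
      simp [d45]
    rw [e0, one_mul, Pi.add_apply, Pi.smul_apply, smul_eq_mul, eh]
    have k1 : ∀ a b : K4, b = a + (a + b) * 1 := by decide
    have k2 : ∀ a b : K4, a = b + (a + b) * 1 := by decide
    have k3 : ∀ a b c : K4, c = c + (a + b) * 0 := by decide
    fin_cases i
    · exact k3 _ _ _
    · exact k3 _ _ _
    · exact k3 _ _ _
    · exact k3 _ _ _
    · exact k1 _ _
    · exact k2 _ _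
  rw [this]; exact hg

/-- FB-T -/
theorem no_trans {c : V6} (hc : Iso c) {g : G} (hg : g ∈ K0)
    (h : ∀ x, mt g *ᵥ x = x + hermForm 6 K4 2 x c • c) : False := by
  have h0 : ∃ g ∈ K0, Tr c g := ⟨g, hg, h⟩
  rcases cover hc with h1 | h1
  · exact not_u2 (Tr.rl h1.symm h0)
  · have h2 := Tr.rl h1.symm h0
    have h4 : ∀ d : V6, (sup d).card = 4 → ∃ g ∈ K0, Tr d g := fun d hd => Tr.rl (rl_four hd) h2
    obtain ⟨g1, hg1, hT1⟩ := h4 d1 (by decide +kernel)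
    have h5 : Rl K0 d34 d2 := by
      refine ⟨g1, hg1, ?_⟩
      rw [hT1]
      have e1 : hermForm 6 K4 2 d2 d1 = 1 := by decide +kernel
      rw [e1, one_smul]
      decide +kernel
    have h6 := Tr.rl h5 (h4 d2 (by decide +kernel))
    exact not_u2 (Tr.rl (rl_two (v := d34) (by decide +kernel)).symm h6)

end Cfsg.Agent.Lib.H97FbT
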