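import Cfsg.Agent.Lib.H97FbY

/-!
# S5442: orders (helper97)
-/

set_option autoImplicit false
set_option linter.unusedVariables false
set_option linter.unusedSimpArgs false
set_option linter.unusedSectionVars false

universe u

namespace Cfsg.Agent.Lib.H97FbU

open Matrix Cfsg Cfsg.Agent.Lib.K4 Cfsg.Agent.Lib.HermMat Cfsg.Agent.Lib.ClThreeTransU Cfsg.Agent.Lib.SU6K4
open Cfsg.Agent.Lib.U43 Cfsg.Agent.Lib.H97Fa Cfsg.Agent.Lib.H97FaF Cfsg.Agent.Lib.H97FaG Cfsg.Agent.Lib.H97FaI Cfsg.Agent.Lib.LargeExtra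
open Cfsg.Agent.Lib.H97FbY

/-- the stabilizer of a vector -/
def St {H : Type*} [Group H] {V : Type*} [AddCommGroup V] (ρ : H →* AddMonoid.End V) (x : V) : Subgroup H where
  carrier := {h | ρ h x = x}
  mul_mem' := by
    intro a b ha hb
    change ρ (a * b) x = x
    rw [map_mul]
    change ρ a (ρ b x) = x
    rw [hb, ha]
  one_mem' := by
    change ρ 1 x = x
    rw [map_one]; rfl
  inv_mem' := by
    intro a ha
    change ρ a⁻¹ x = x
    have h1 : ρ (a⁻¹ * a) x = ρ a⁻¹ (ρ a x) := by rw [map_mul]; rfl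
    rw [inv_mul_cancel, map_one, show ρ a x = x from ha] at h1
    exact h1.symm

theorem mem_St {H : Type*} [Group H] {V : Type*} [AddCommGroup V] {ρ : H →* AddMonoid.End V} {x : V} {h : H} :
    h ∈ St ρ x ↔ ρ h x = x := Iff.rfl

theorem index_St {H : Type*} [Group H] {V : Type*} [AddCommGroup V] (ρ : H →* AddMonoid.End V) (x : V) :
    (St ρ x).index = {y | ∃ h, ρ h x = y}.ncard := by
  letI : MulAction H V := MulAction.compHom V ρ
  exact MulAction.index_stabilizer H x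

section

variable {H : Type u} [Group H] [Finite H] {ζ : H} {Q : Subgroup H} [hn : Q.Normal]
  {V : Type u} [AddCommGroup V] {q : V → ZMod 2} {b : V → V → ZMod 2}
  {ρ : H →* AddMonoid.End V} {π : Q → V} {M : Subgroup H} {Φ : V6 ≃+ V} {R : M →* G}

theorem card_K0 (D : Dat ζ Q q b ρ π M Φ R) (hR : R.range = K0) : Nat.card K0 = 9797760 := by
  obtain ⟨F9, _, _, hF9, hg⟩ := D.good
  obtain ⟨-, -, -, -, -, hcard, -⟩ := two_orbits hF9 R.range hg
  rw [← hR]; exact hcard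

theorem τ_w4 (D : Dat ζ Q q b ρ π M Φ R) (hR : R.range = K0) {v : V6} (hv : Rl K0 v w4) (h : H) : Rl K0 (τ ρ Φ h v) w4 := by
  have hi : ∀ {w w' : V6}, Iso w' → Rl K0 w w' → Iso w := by
    rintro w w' hw ⟨g, -, rfl⟩
    exact hw.map g
  have hτi : Iso (τ ρ Φ h v) := by
    have h1 := hi iso_w4 hv
    have h2 : hermForm 6 K4 2 (τ ρ Φ h v) (τ ρ Φ h v) = 0 := by
      rw [← D.qΦ, Φ_τ, D.qinv, D.qΦ]; exact h1.2
    refine ⟨fun h0 => h1.1 ?_, h2⟩
    have h3 : τ ρ Φ h (0 : V6) = 0 := by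
      apply Φ.injective
      rw [Φ_τ, map_zero, map_zero]
    exact (τ ρ Φ h).injective (h0.trans h3.symm)
  rcases cover hτi with h1 | h1
  · exfalso
    refine not_conj (R := K0) (hi iso_w4 hv) hτi ?_ (card_K0 D hR) (τ ρ Φ h) ?_ ?_ rfl
    · intro w hw
      rcases cover hw with h2 | h2
      · exact Or.inr (h2.trans h1.symm)
      · exact Or.inl (h2.trans hv.symm)
    · intro v w hvw
      have := D.τ_rl h (v := v) (w := w) (by rw [hR]; exact hvw)
      rwa [hR] at this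
    · intro v w hvw
      have := D.τ_rl' h (v := v) (w := w) (by rw [hR]; exact hvw)
      rwa [hR] at this
  · exact h1

theorem orbH (D : Dat ζ Q q b ρ π M Φ R) (hR : R.range = K0) {v : V6} (hv : Rl K0 v w4) :
    {y | ∃ h, ρ h (Φ v) = y} = Φ '' Ob K0 w4 := by
  ext y
  constructor
  · rintro ⟨h, rfl⟩
    exact ⟨τ ρ Φ h v, τ_w4 D hR hv h, Φ_τ h v⟩
  · rintro ⟨w, hw, rfl⟩
    have h1 : Rl R.range w v := by rw [hR]; exact Rl.trans hw hv.symm
    obtain ⟨m, hm⟩ := D.rl.1 h1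
    exact ⟨m, hm⟩

theorem orbM (D : Dat ζ Q q b ρ π M Φ R) (hR : R.range = K0) {v : V6} (hv : Rl K0 v w4) :
    {y | ∃ m : M, (ρ.comp M.subtype) m (Φ v) = y} = Φ '' Ob K0 w4 := by
  ext y
  constructor
  · rintro ⟨h, rfl⟩
    exact ⟨τ ρ Φ h v, τ_w4 D hR hv h, Φ_τ (h : H) v⟩
  · rintro ⟨w, hw, rfl⟩
    have h1 : Rl R.range w v := by rw [hR]; exact Rl.trans hw hv.symm
    obtain ⟨m, hm⟩ := D.rl.1 h1
    exact ⟨m, hm⟩

theorem idx1 (D : Dat ζ Q q b ρ π M Φ R) (hR : R.range = K0) {v : V6} (hv : Rl K0 v w4) :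
    (St ρ (Φ v)).index = (Ob K0 w4).ncard := by
  rw [index_St, orbH D hR hv, Set.ncard_image_of_injective _ Φ.injective]

theorem idx2 (D : Dat ζ Q q b ρ π M Φ R) (hR : R.range = K0) {v : V6} (hv : Rl K0 v w4) :
    (St ρ (Φ v)).relIndex M = (Ob K0 w4).ncard := by
  have h1 : (St ρ (Φ v)).subgroupOf M = St (ρ.comp M.subtype) (Φ v) := rfl
  rw [Subgroup.relIndex, h1, index_St, orbM D hR hv, Set.ncard_image_of_injective _ Φ.injective]

theorem idxQ (D : Dat ζ Q q b ρ π M Φ R) (hR : R.range = K0) : Q.index = 19595520 := by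
  have h1 := Subgroup.relIndex_mul_index D.QM
  have h2 : Q.relIndex M = 9797760 := by
    have h3 : Q.subgroupOf M = R.ker := by
      ext m
      rw [Subgroup.mem_subgroupOf, MonoidHom.mem_ker, D.kerR]
    rw [Subgroup.relIndex, h3, Subgroup.index_ker, hR, card_K0 D hR]
  rw [← h1, h2, D.idx]

theorem QSt (D : Dat ζ Q q b ρ π M Φ R) (x : V) : Q ≤ St ρ x := by
  intro h hh
  rw [mem_St, (D.ker h).2 hh]; rfl

/-- the image of the stabilizer -/
theorem cX (D : Dat ζ Q q b ρ π M Φ R) (hR : R.range = K0) {v : V6} (hv : Rl K0 v w4) :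
    Nat.card ((St ρ (Φ v)).map (QuotientGroup.mk' Q)) * (Ob K0 w4).ncard = 19595520 := by
  have h1 := Subgroup.index_map_eq (St ρ (Φ v)) (QuotientGroup.mk'_surjective Q) (by rw [QuotientGroup.ker_mk']; exact QSt D _)
  have h2 := Subgroup.card_mul_index ((St ρ (Φ v)).map (QuotientGroup.mk' Q))
  rw [h1, idx1 D hR hv] at h2
  rw [h2, ← idxQ D hR]; rfl

theorem iY (D : Dat ζ Q q b ρ π M Φ R) : (M.map (QuotientGroup.mk' Q)).index = 2 := by
  rw [Subgroup.index_map_eq M (QuotientGroup.mk'_surjective Q) (by rw [QuotientGroup.ker_mk']; exact D.QM), D.idx]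

theorem mapinf (D : Dat ζ Q q b ρ π M Φ R) (S : Subgroup H) :
    S.map (QuotientGroup.mk' Q) ⊓ M.map (QuotientGroup.mk' Q) = (S ⊓ M).map (QuotientGroup.mk' Q) := by
  ext x
  constructor
  · rintro ⟨⟨s, hs, rfl⟩, ⟨m, hm, h⟩⟩
    refine ⟨s, ⟨hs, ?_⟩, rfl⟩
    have h1 := QuotientGroup.eq.1 h
    have h2 := M.mul_mem hm (D.QM h1)
    rwa [mul_inv_cancel_left] at h2
  · rintro ⟨s, ⟨hs, hm⟩, rfl⟩
    exact ⟨⟨s, hs, rfl⟩, ⟨s, hm, rfl⟩⟩

theorem cXY (D : Dat ζ Q q b ρ π M Φ R) (hR : R.range = K0) {v : V6} (hv : Rl K0 v w4) :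
    Nat.card ↥((St ρ (Φ v)).map (QuotientGroup.mk' Q) ⊓ M.map (QuotientGroup.mk' Q)) * (2 * (Ob K0 w4).ncard) = 19595520 := by
  rw [mapinf D]
  have h1 := Subgroup.index_map_eq (St ρ (Φ v) ⊓ M) (QuotientGroup.mk'_surjective Q)
    (by rw [QuotientGroup.ker_mk']; exact le_inf (QSt D _) D.QM)
  have h2 := Subgroup.card_mul_index ((St ρ (Φ v) ⊓ M).map (QuotientGroup.mk' Q))
  have h3 := Subgroup.relIndex_mul_index (inf_le_right : St ρ (Φ v) ⊓ M ≤ M)
  rw [Subgroup.inf_relIndex_right, idx2 D hR hv, D.idx] at h3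
  rw [h1, ← h3, mul_comm (Ob K0 w4).ncard 2] at h2
  rw [h2, ← idxQ D hR]; rfl

end

end Cfsg.Agent.Lib.H97FbU
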