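import Cfsg.Agent.Lib.H97FbU

/-!
# S5442: transfer of subgroups and the size of the orbit (helper97)
-/

set_option autoImplicit false
set_option linter.unusedVariables false
set_option linter.unusedSimpArgs false
set_option linter.unusedSectionVars false

universe u

namespace Cfsg.Agent.Lib.H97FbV

open Matrix Cfsg Cfsg.Agent.Lib.K4 Cfsg.Agent.Lib.HermMat Cfsg.Agent.Lib.ClThreeTransU Cfsg.Agent.Lib.SU6K4
open Cfsg.Agent.Lib.U43 Cfsg.Agent.Lib.H97Fa Cfsg.Agent.Lib.H97FaF Cfsg.Agent.Lib.H97FaG Cfsg.Agent.Lib.H97FaI Cfsg.Agent.Lib.LargeExtra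
open Cfsg.Agent.Lib.H97FbY Cfsg.Agent.Lib.H97FbU

/-- two homomorphisms with the same kernel -/
theorem map_equiv {M X Y : Type*} [Group M] [Group X] [Group Y] (f : M →* X) (g : M →* Y) (h : ∀ m, f m = 1 ↔ g m = 1)
    (S : Subgroup M) : Nonempty (S.map f ≃* S.map g) := by
  have hk : (f.domRestrict S).ker = (g.domRestrict S).ker := by
    ext m
    exact h m
  have e1 := QuotientGroup.quotientKerEquivRange (f.domRestrict S)
  have e2 := QuotientGroup.quotientKerEquivRange (g.domRestrict S)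
  rw [MonoidHom.domRestrict_range] at e1 e2
  exact ⟨e1.symm.trans ((QuotientGroup.quotientMulEquivOfEq hk).trans e2)⟩

section

variable {H : Type u} [Group H] [Finite H] {ζ : H} {Q : Subgroup H} [hn : Q.Normal]
  {V : Type u} [AddCommGroup V] {q : V → ZMod 2} {b : V → V → ZMod 2}
  {ρ : H →* AddMonoid.End V} {π : Q → V} {M : Subgroup H} {Φ : V6 ≃+ V} {R : M →* G}

/-- the subgroup `A6` of the image of the stabilizer -/
theorem transfer (D : Dat ζ Q q b ρ π M Φ R) (hR : R.range = K0) {v w : V6} (hv : Rl K0 v w)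
    (A : Subgroup G) (hAK : A ≤ K0) (hA : ∀ g ∈ A, mt g *ᵥ w = w) :
    ∃ A' ≤ (St ρ (Φ v)).map (QuotientGroup.mk' Q) ⊓ M.map (QuotientGroup.mk' Q), Nonempty (A' ≃* A) := by
  obtain ⟨k, hk, hkv⟩ := hv
  let B : Subgroup G := A.map (MulAut.conj k).toMonoidHom
  have hBK : B ≤ R.range := by
    rw [hR]
    rintro _ ⟨a, ha, rfl⟩
    exact K0.mul_mem (K0.mul_mem hk (hAK ha)) (K0.inv_mem hk)
  have hB : ∀ g ∈ B, mt g *ᵥ v = v := by
    rintro _ ⟨a, ha, rfl⟩
    change mt (k * a * k⁻¹) *ᵥ v = v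
    have h2 : mt k⁻¹ *ᵥ v = w := by
      rw [← hkv, Matrix.mulVec_mulVec, ← H97FaF.mt_mul, inv_mul_cancel, H97FaF.mt_one, Matrix.one_mulVec]
    rw [H97FaF.mt_mul, H97FaF.mt_mul, ← Matrix.mulVec_mulVec, ← Matrix.mulVec_mulVec, h2, hA a ha, hkv]
  have hBm : (B.comap R).map R = B := Subgroup.map_comap_eq_self hBK
  obtain ⟨e⟩ := map_equiv ((QuotientGroup.mk' Q).comp M.subtype) R (fun m => by
    rw [D.kerR]; exact QuotientGroup.eq_one_iff _) (B.comap R)
  rw [hBm] at e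
  refine ⟨(B.comap R).map ((QuotientGroup.mk' Q).comp M.subtype), ?_,
    ⟨e.trans (A.equivMapOfInjective _ (MulAut.conj k).injective).symm⟩⟩
  rintro _ ⟨m, hm, rfl⟩
  refine ⟨⟨m, ?_, rfl⟩, ⟨m, m.2, rfl⟩⟩
  change ρ m (Φ v) = Φ v
  rw [← D.rep, hB _ hm]

end

/-- a simple group which is not a `2`-group meets a normal `2`-subgroup trivially -/
theorem dvd_of {Γ : Type*} [Group Γ] [Finite Γ] (Z E A : Subgroup Γ) (hn : ∀ x ∈ Z, ∀ y ∈ E, x * y * x⁻¹ ∈ E)
    (hEZ : E ≤ Z) (hE : IsPGroup 2 E) (hE4 : 16 ≤ Nat.card E) (hAX : A ≤ Z) (hA : Nonempty (A ≃* alternatingGroup (Fin 6))) :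
    5760 ∣ Nat.card Z := by
  obtain ⟨e⟩ := hA
  have hs : IsSimpleGroup A := by
    have h6 : IsSimpleGroup (alternatingGroup (Fin 6)) := alternatingGroup.isSimpleGroup (by rw [Nat.card_eq_fintype_card]; decide)
    exact MulEquiv.isSimpleGroup e
  have cA : Nat.card A = 360 := by
    rw [Nat.card_congr e.toEquiv]
    have := two_mul_nat_card_alternatingGroup (α := Fin 6)
    rw [Nat.card_perm, Nat.card_fin] at this
    have h : Nat.factorial 6 = 720 := rfl
    omega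
  have hdis : E.subgroupOf A = ⊥ := by
    have hN : (E.subgroupOf A).Normal := ⟨fun y hy x => hn x (hAX x.2) y hy⟩
    rcases hN.eq_bot_or_eq_top with h | h
    · exact h
    · exfalso
      have h1 : IsPGroup 2 A := by
        have h2 : A ≤ E := Subgroup.subgroupOf_eq_top.1 h
        exact hE.to_le h2
      obtain ⟨n, hn⟩ := IsPGroup.iff_card.1 h1
      rw [cA] at hn
      have h3 : 3 ∣ 2 ^ n := by rw [← hn]; norm_num
      have := Nat.Prime.dvd_of_dvd_pow Nat.prime_three h3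
      omega
  obtain ⟨n, hn2⟩ := IsPGroup.iff_card.1 hE
  have h16 : 16 ∣ Nat.card E := by
    rw [hn2] at hE4 ⊢
    have : 4 ≤ n := by
      by_contra h
      have : 2 ^ n ≤ 2 ^ 3 := Nat.pow_le_pow_right (by norm_num) (by omega)
      omega
    exact pow_dvd_pow 2 this
  have hEn : (E.subgroupOf Z).Normal := ⟨fun y hy x => hn x x.2 y hy⟩
  have h1 := Subgroup.relIndex_dvd_index_of_normal (E.subgroupOf Z) (A.subgroupOf Z)
  have h2 : (E.subgroupOf Z).relIndex (A.subgroupOf Z) = 360 := by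
    rw [Subgroup.relIndex_subgroupOf hAX, Subgroup.relIndex, hdis, Subgroup.index_bot, cA]
  rw [h2] at h1
  have h3 := Subgroup.card_mul_index (E.subgroupOf Z)
  rw [Nat.card_congr (Subgroup.subgroupOfEquivOfLe hEZ).toEquiv] at h3
  rw [← h3]
  exact mul_dvd_mul h16 h1

end Cfsg.Agent.Lib.H97FbV
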