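import Cfsg.Agent.Lib.H97FaI
import Cfsg.Agent.Lib.LargeExtra7
import Cfsg.Agent.Lib.H89ExCount

/-!
# S5441 / S5442: conjugates of `z` in `Q` (helper97)
-/

set_option autoImplicit false
set_option linter.unusedVariables false
set_option linter.unusedSimpArgs false

universe u

namespace Cfsg.Agent.Lib.H97FbY

open Matrix Cfsg Cfsg.Agent.Lib.K4 Cfsg.Agent.Lib.HermMat Cfsg.Agent.Lib.ClThreeTransU Cfsg.Agent.Lib.SU6K4
open Cfsg.Agent.Lib.U43 Cfsg.Agent.Lib.H97Fa Cfsg.Agent.Lib.H97FaF Cfsg.Agent.Lib.H97FaG Cfsg.Agent.Lib.H97FaI Cfsg.Agent.Lib.LargeExtra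

/-- the statement of the piece `S` -/
def NoTwo : Prop := ∀ (P : Subgroup G), P ≤ K0 → IsPGroup 2 P → (∀ g ∈ P, mt g *ᵥ u2 = u2) →
    (∀ k ∈ K0, mt k *ᵥ u2 = u2 → ∀ g ∈ P, k * g * k⁻¹ ∈ P) → P = ⊥

/-- what is known about the intersection of `Q^g` with `C(z)` -/
structure Cj {G' : Type u} [Group G'] (z s : G') (Q' A E : Subgroup G') : Prop where
  cA : Nat.card A = 2 ^ 12
  cE : Nat.card E ≤ 2 ^ 7
  pA : IsPGroup 2 A
  Az : A ≤ Subgroup.centralizer ({z} : Set G')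
  As : ∀ a ∈ A, a * s = s * a
  nA : ∀ c : G', c * z = z * c → c * s = s * c → ∀ a ∈ A, c * a * c⁻¹ ∈ A
  AE : ∀ a ∈ A, a ∈ Q' ↔ a ∈ E

section

variable {G' : Type u} [Group G'] [Finite G'] {z : G'} {Q : Subgroup (Subgroup.centralizer ({z} : Set G'))} [hn : Q.Normal]
  {ζ : Subgroup.centralizer ({z} : Set G')}
  {V : Type u} [AddCommGroup V] {q : V → ZMod 2} {b : V → V → ZMod 2}
  {ρ : Subgroup.centralizer ({z} : Set G') →* AddMonoid.End V} {π : Q → V} {M : Subgroup (Subgroup.centralizer ({z} : Set G'))}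
  {Φ : V6 ≃+ V} {R : M →* G}

/-- the part of `A` in `M`, as a subgroup of `M` -/
def PM (M : Subgroup (Subgroup.centralizer ({z} : Set G'))) (A : Subgroup G') : Subgroup M :=
  A.comap ((Subgroup.centralizer ({z} : Set G')).subtype.comp M.subtype)

theorem mem_PM {A : Subgroup G'} {m : M} : m ∈ PM M A ↔ ((m : Subgroup.centralizer ({z} : Set G')) : G') ∈ A := Iff.rfl

/-- its image in the unitary group -/
def PP (R : M →* G) (A : Subgroup G') : Subgroup G := (PM M A).map R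

theorem PP_two {s : G'} {A E : Subgroup G'} (C : Cj z s (Q.map (Subgroup.centralizer ({z} : Set G')).subtype) A E) :
    IsPGroup 2 (PP R A) := by
  rintro ⟨_, m, hm, rfl⟩
  obtain ⟨k, hk⟩ := C.pA ⟨_, hm⟩
  refine ⟨k, Subtype.ext ?_⟩
  have h1 : (((m : Subgroup.centralizer ({z} : Set G')) : G')) ^ 2 ^ k = 1 := congrArg Subtype.val hk
  have h2 : m ^ 2 ^ k = 1 := Subtype.ext (Subtype.ext h1)
  change (R m) ^ 2 ^ k = 1
  rw [← map_pow, h2, map_one]

/-- elements commuting with `s` fix its vector -/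
theorem fix_of_comm (D : Dat ζ Q q b ρ π M Φ R) (r : Q) (m : M) (h : (m : Subgroup.centralizer ({z} : Set G')) * r = r * m) :
    mt (R m) *ᵥ co π Φ r = co π Φ r := by
  apply Φ.injective
  rw [D.rep, co, Φ.apply_symm_apply]
  exact D.act m r r (by rw [h]; group)

/-- elements fixing the vector may be changed by elements of `Q` -/
theorem comm_of_fix (D : Dat ζ Q q b ρ π M Φ R) (r : Q) (hr : (r : Subgroup.centralizer ({z} : Set G')) ≠ 1)
    (hrz : (r : Subgroup.centralizer ({z} : Set G')) ≠ ζ) (m : M) (h : mt (R m) *ᵥ co π Φ r = co π Φ r) :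
    ∃ m' : M, R m' = R m ∧ (m' : Subgroup.centralizer ({z} : Set G')) * r = r * m' := by
  have h1 : ρ m (π r) = π r := by
    have := D.rep m (co π Φ r)
    rw [h, co, Φ.apply_symm_apply] at this
    exact this.symm
  obtain ⟨j, hj, hj2⟩ := D.conj_iff m r r hr hrz h1
  refine ⟨m * ⟨j, D.QM hj⟩, ?_, ?_⟩
  · rw [map_mul, (D.kerR ⟨j, D.QM hj⟩).2 hj, mul_one]
  · exact mul_inv_eq_iff_eq_mul.1 hj2

theorem PP_norm (D : Dat ζ Q q b ρ π M Φ R) (hR : R.range = K0) (r : Q) (hr : (r : Subgroup.centralizer ({z} : Set G')) ≠ 1)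
    (hrz : (r : Subgroup.centralizer ({z} : Set G')) ≠ ζ) {A E : Subgroup G'}
    (C : Cj z ((r : Subgroup.centralizer ({z} : Set G')) : G') (Q.map (Subgroup.centralizer ({z} : Set G')).subtype) A E)
    {k : G} (hk : k ∈ K0) (hkv : mt k *ᵥ co π Φ r = co π Φ r) : ∀ g ∈ PP R A, k * g * k⁻¹ ∈ PP R A := by
  rw [← hR] at hk
  obtain ⟨m, rfl⟩ := hk
  obtain ⟨m', hm', hc⟩ := comm_of_fix D r hr hrz m hkv
  rintro _ ⟨a, ha, rfl⟩
  refine ⟨m' * a * m'⁻¹, ?_, by rw [map_mul, map_mul, map_inv, hm']⟩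
  have h1 := C.nA ((m' : Subgroup.centralizer ({z} : Set G')) : G')
    (Subgroup.mem_centralizer_singleton_iff.1 (m' : Subgroup.centralizer ({z} : Set G')).2)
    (congrArg Subtype.val hc) _ ha
  exact h1

/-- a conjugate of `z` is not in the small orbit -/
theorem not_u2 (hS : NoTwo) (D : Dat ζ Q q b ρ π M Φ R) (hR : R.range = K0) (r : Q)
    (hr : (r : Subgroup.centralizer ({z} : Set G')) ≠ 1) (hrz : (r : Subgroup.centralizer ({z} : Set G')) ≠ ζ) {A E : Subgroup G'}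
    (C : Cj z ((r : Subgroup.centralizer ({z} : Set G')) : G') (Q.map (Subgroup.centralizer ({z} : Set G')).subtype) A E) :
    ¬ Rl K0 (co π Φ r) u2 := by
  rintro ⟨k, hk, hkv⟩
  have hfix : ∀ g ∈ PP R A, mt g *ᵥ co π Φ r = co π Φ r := by
    rintro _ ⟨a, ha, rfl⟩
    apply fix_of_comm D r a
    exact Subtype.ext (C.As _ ha)
  have hbot : (PP R A).map (MulAut.conj k⁻¹).toMonoidHom = ⊥ := by
    apply hS
    · rintro _ ⟨g, ⟨m, -, rfl⟩, rfl⟩
      exact K0.mul_mem (K0.mul_mem (K0.inv_mem hk) (hR ▸ ⟨m, rfl⟩)) (K0.inv_mem (K0.inv_mem hk))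
    · exact (PP_two C).map _
    · rintro _ ⟨g, hg, rfl⟩
      change mt (k⁻¹ * g * k⁻¹⁻¹) *ᵥ u2 = u2
      rw [inv_inv, H97FaF.mt_mul, H97FaF.mt_mul, ← Matrix.mulVec_mulVec, ← Matrix.mulVec_mulVec, hkv, hfix g hg, ← hkv,
        Matrix.mulVec_mulVec, ← H97FaF.mt_mul, inv_mul_cancel, H97FaF.mt_one, Matrix.one_mulVec]
    · rintro l hl hlu _ ⟨g, hg, rfl⟩
      refine ⟨(k * l * k⁻¹) * g * (k * l * k⁻¹)⁻¹, ?_, ?_⟩
      · apply PP_norm D hR r hr hrz C (K0.mul_mem (K0.mul_mem hk hl) (K0.inv_mem hk)) ?_ g hg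
        have h2 : mt k⁻¹ *ᵥ co π Φ r = u2 := by
          rw [← hkv, Matrix.mulVec_mulVec, ← H97FaF.mt_mul, inv_mul_cancel, H97FaF.mt_one, Matrix.one_mulVec]
        rw [H97FaF.mt_mul, H97FaF.mt_mul, ← Matrix.mulVec_mulVec, ← Matrix.mulVec_mulVec, h2, hlu, hkv]
      · change k⁻¹ * ((k * l * k⁻¹) * g * (k * l * k⁻¹)⁻¹) * k⁻¹⁻¹ = l * (k⁻¹ * g * k⁻¹⁻¹) * l⁻¹
        group
  have hone : ∀ a ∈ PM M A, R a = 1 := by
    intro a ha
    have h1 : (MulAut.conj k⁻¹).toMonoidHom (R a) ∈ (PP R A).map (MulAut.conj k⁻¹).toMonoidHom := ⟨R a, ⟨a, ha, rfl⟩, rfl⟩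
    rw [hbot, Subgroup.mem_bot] at h1
    exact (MulAut.conj k⁻¹).injective (h1.trans (map_one (MulAut.conj k⁻¹)).symm)
  -- counting
  set AH : Subgroup (Subgroup.centralizer ({z} : Set G')) := A.subgroupOf _ with hAH
  have c1 : Nat.card AH = 2 ^ 12 := by rw [Nat.card_congr (Subgroup.subgroupOfEquivOfLe C.Az).toEquiv, C.cA]
  have c2 := Subgroup.card_mul_index (M.subgroupOf AH)
  have c3 : (M.subgroupOf AH).index ∣ 2 := by
    rw [← D.idx]
    have := D.nM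
    exact Subgroup.relIndex_dvd_index_of_normal M AH
  have c4 : Nat.card (M.subgroupOf AH) ≤ Nat.card E := by
    have hE : ∀ a : M.subgroupOf AH, (((a : AH) : Subgroup.centralizer ({z} : Set G')) : G') ∈ E := by
      rintro ⟨⟨a, ha⟩, haM⟩
      exact (C.AE _ ha).1 ⟨a, (D.kerR ⟨a, haM⟩).1 (hone ⟨a, haM⟩ ha), rfl⟩
    refine Nat.card_le_card_of_injective (fun a => (⟨_, hE a⟩ : E)) ?_
    intro a a' h
    have h1 : (((a : AH) : Subgroup.centralizer ({z} : Set G')) : G') = (((a' : AH) : Subgroup.centralizer ({z} : Set G')) : G') :=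
      congrArg (fun x : E => (x : G')) h
    exact Subtype.ext (Subtype.ext (Subtype.ext h1))
  have c5 := Nat.le_of_dvd (by norm_num) c3
  rw [c1] at c2
  have c6 := C.cE
  have : Nat.card (M.subgroupOf AH) * (M.subgroupOf AH).index ≤ 2 ^ 7 * 2 := Nat.mul_le_mul (c4.trans c6) c5
  rw [c2] at this
  norm_num at this

theorem is_w4 (hS : NoTwo) (D : Dat ζ Q q b ρ π M Φ R) (hR : R.range = K0) (r : Q)
    (hr : orderOf (r : Subgroup.centralizer ({z} : Set G')) = 2) (hrz : (r : Subgroup.centralizer ({z} : Set G')) ≠ ζ) {A E : Subgroup G'}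
    (C : Cj z ((r : Subgroup.centralizer ({z} : Set G')) : G') (Q.map (Subgroup.centralizer ({z} : Set G')).subtype) A E) :
    Rl K0 (co π Φ r) w4 := by
  have h1 : (r : Subgroup.centralizer ({z} : Set G')) ≠ 1 := fun e => by rw [e, orderOf_one] at hr; omega
  rcases cover ((D.iso r).2 ⟨hr, hrz⟩) with h | h
  · exact absurd h (not_u2 hS D hR r h1 hrz C)
  · exact h

end

end Cfsg.Agent.Lib.H97FbY
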