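import Cfsg.Prelude.Def_Transfer
import Cfsg.Prelude.Def_Solvable
import Mathlib

/-!
# S5445: the local situation (helper97)
-/

set_option autoImplicit false

universe u

namespace Cfsg.Agent.Lib.H97Fe0

/-- what we use about extraspecial groups of order `2^13` -/
structure LE {G : Type*} [Group G] (Q : Subgroup G) (z : G) : Prop where
  zQ : z ∈ Q
  z1 : z ≠ 1
  zz : z * z = 1
  cen : ∀ a ∈ Q, a * z = z * a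
  card : Nat.card Q = 2 ^ 13
  comm : ∀ a ∈ Q, ∀ b ∈ Q, a * b * a⁻¹ * b⁻¹ = 1 ∨ a * b * a⁻¹ * b⁻¹ = z
  sq : ∀ a ∈ Q, a * a = 1 ∨ a * a = z
  dual : ∀ B ≤ Q, z ∈ B → Nat.card ↥(Q ⊓ Subgroup.centralizer (B : Set G)) * Nat.card B = 2 ^ 14

/-- the four-element coset -/
def O4 {G : Type*} [Group G] (z s y w : G) : Prop := w = y ∨ w = y * z ∨ w = y * s ∨ w = y * z * s

/-- the local situation -/
structure Loc {G : Type*} [Group G] (z s y : G) (Q Q₁ : Subgroup G) : Prop where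
  e0 : LE Q z
  e1 : LE Q₁ s
  sQ : s ∈ Q
  yQ : y ∈ Q
  zQ₁ : z ∈ Q₁
  yQ₁ : y ∈ Q₁
  sz : s ≠ z
  yy : y * y = 1
  y1 : ¬ O4 z s 1 y
  cE : Nat.card ↥(Q ⊓ Q₁) = 2 ^ 7
  abE : ∀ a ∈ Q, a ∈ Q₁ → ∀ b ∈ Q, b ∈ Q₁ → a * b = b * a
  n0 : ∀ c, c * z = z * c → ∀ a ∈ Q, c * a * c⁻¹ ∈ Q
  n1 : ∀ c, c * s = s * c → ∀ a ∈ Q₁, c * a * c⁻¹ ∈ Q₁
  lin : ∀ c, c * z = z * c → c * s = s * c → O4 z s y (c * y * c⁻¹)
  t1 : ∃ k, k * z * k⁻¹ = s ∧ k * s * k⁻¹ = z ∧ O4 z s y (k * y * k⁻¹) ∧ ∀ a ∈ Q, k * a * k⁻¹ ∈ Q₁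
  t2 : ∃ x, x * z = z * x ∧ x * s * x⁻¹ = y ∧ (x * y * x⁻¹ = y * s ∨ x * y * x⁻¹ = y * z * s)
  hom : ∃ φ : ↥(Subgroup.centralizer ({z, s, y} : Set G)) →* alternatingGroup (Fin 6), Function.Surjective φ ∧
    ∀ c, φ c = 1 ↔ ∃ a ∈ Q, ∃ b ∈ Q₁, b * z = z * b ∧ (c : G) = a * b
  brk : ∀ x ∈ Q, x * s = s * x → x * y = y * x → ∀ b ∈ Q₁, b * z = z * b → b * y = y * b →
    x * b * x⁻¹ * b⁻¹ ∈ Subgroup.closure ({z, s, y} : Set G)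

end Cfsg.Agent.Lib.H97Fe0
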