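import Cfsg.Agent.Lib.H97Fe0
import Cfsg.Agent.Lib.H97FbN
import Cfsg.Agent.Lib.H97FbS
import Cfsg.Agent.Lib.H87U3E
import Cfsg.Agent.Lib.H87U3P
import Cfsg.Agent.Lib.H87U3A

/-!
# S5445: context on the side of the data (helper97)
-/

set_option autoImplicit false

universe u

namespace Cfsg.Agent.Lib.H97FeC

open Matrix Cfsg Cfsg.Agent.Lib.K4 Cfsg.Agent.Lib.HermMat Cfsg.Agent.Lib.ClThreeTransU Cfsg.Agent.Lib.SU6K4
open Cfsg.Agent.Lib.U43 Cfsg.Agent.Lib.H97Fa Cfsg.Agent.Lib.H97FaF Cfsg.Agent.Lib.H97FaG Cfsg.Agent.Lib.H97FaI Cfsg.Agent.Lib.LargeExtra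
open Cfsg.Agent.Lib.H97FbY Cfsg.Agent.Lib.H97FbU Cfsg.Agent.Lib.H97FbV Cfsg.Agent.Lib.H97FbM Cfsg.Agent.Lib.H97Fe0

/-- the context: `g z g⁻¹ = r` has vector `w4`, `x` acts as the scalar `om` -/
structure Cx {G' : Type u} [Group G'] {z : G'} {Q : Subgroup (Subgroup.centralizer ({z} : Set G'))} [Q.Normal]
    {V : Type u} [AddCommGroup V] {q : V → ZMod 2} {b : V → V → ZMod 2}
    {ρ : Subgroup.centralizer ({z} : Set G') →* AddMonoid.End V} {π : Q → V} {M : Subgroup (Subgroup.centralizer ({z} : Set G'))}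
    {Φ : V6 ≃+ V} {R : M →* G} (D : Dat (zz z) Q q b ρ π M Φ R) (Q' Q₁ : Subgroup G') (g s y : G') (r : Q)
    (x : Subgroup.centralizer ({z} : Set G')) : Prop where
  hF : Cfsg.IsOfLargeFischerTypeAt z Q
  hR : R.range = K0
  hQ' : Q' = Q.map (Subgroup.centralizer ({z} : Set G')).subtype
  hQ₁ : Q₁ = Q'.map (MulAut.conj g).toMonoidHom
  hg : g * z * g⁻¹ = s
  hs : s = ((r : Subgroup.centralizer ({z} : Set G')) : G')
  hy : y = ((x * r * x⁻¹ : Subgroup.centralizer ({z} : Set G')) : G')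
  hr : co π Φ r = w4
  xM : x ∈ M
  hx : ∀ v, ρ x (Φ v) = Φ (om • v)

end Cfsg.Agent.Lib.H97FeC
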