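import Cfsg.Agent.Lib.H97FeC
set_option autoImplicit false
set_option linter.all false
universe u
open Matrix Cfsg Cfsg.Agent.Lib.K4 Cfsg.Agent.Lib.HermMat Cfsg.Agent.Lib.ClThreeTransU Cfsg.Agent.Lib.SU6K4
open Cfsg.Agent.Lib.U43 Cfsg.Agent.Lib.H97Fa Cfsg.Agent.Lib.H97FaF Cfsg.Agent.Lib.H97FaG Cfsg.Agent.Lib.H97FaI Cfsg.Agent.Lib.LargeExtra
open Cfsg.Agent.Lib.H97FbY Cfsg.Agent.Lib.H97FbU Cfsg.Agent.Lib.H97FbV Cfsg.Agent.Lib.H97FbM Cfsg.Agent.Lib.H97Fe0 Cfsg.Agent.Lib.H97FeC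

namespace Cfsg.Agent.Lib.H97FeD0b

variable {G' : Type u} [Group G'] [Finite G'] {z : G'} {Q : Subgroup (Subgroup.centralizer ({z} : Set G'))} [Q.Normal]
    {V : Type u} [AddCommGroup V] {q : V → ZMod 2} {b : V → V → ZMod 2}
    {ρ : Subgroup.centralizer ({z} : Set G') →* AddMonoid.End V} {π : Q → V} {M : Subgroup (Subgroup.centralizer ({z} : Set G'))}
    {Φ : V6 ≃+ V} {R : M →* G} 

theorem exists_cx (hF : Cfsg.IsOfLargeFischerTypeAt z Q) (D : Dat (zz z) Q q b ρ π M Φ R) (hR : R.range = K0) :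
    ∃ (Q' Q₁ : Subgroup G') (g s y : G') (r : Q) (x : Subgroup.centralizer ({z} : Set G')), Cx D Q' Q₁ g s y r x := by
  have hset := hF.1
  obtain ⟨hz, hFit, hQ, hcard, g0, ⟨hg0, hg0Q⟩, hg0z⟩ := hset
  obtain ⟨ho, hne, hw⟩ := rl_of_conj Cfsg.Agent.Lib.H97FbS.no_two hF.1 D hR hg0 hg0Q hg0z rfl
  have hco : ∀ r : Q, Φ (co π Φ r) = π r := fun r => Φ.apply_symm_apply _
  obtain ⟨r2, hr2⟩ := D.surj (Φ w4)
  have hrl2 : Rl R.range w4 (co π Φ ⟨⟨g0 * z * g0⁻¹, hg0⟩, hg0Q⟩) := by rw [hR]; exact hw.symm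
  obtain ⟨m2, hm2⟩ := D.rl.1 hrl2
  rw [hco, ← hr2] at hm2
  have h01 : ((⟨⟨g0 * z * g0⁻¹, hg0⟩, hg0Q⟩ : Q) : Subgroup.centralizer ({z} : Set G')) ≠ 1 := by
    intro h
    have h1 : (⟨g0 * z * g0⁻¹, hg0⟩ : Subgroup.centralizer ({z} : Set G')) = 1 := h
    rw [h1, orderOf_one] at ho; omega
  obtain ⟨k2, hk2, hk22⟩ := D.conj_iff m2 _ r2 h01 hne hm2
  have hr2g : (((m2 * k2 : Subgroup.centralizer ({z} : Set G')) : G') * g0) * z * (((m2 * k2 : Subgroup.centralizer ({z} : Set G')) : G') * g0)⁻¹ = ((r2 : Subgroup.centralizer ({z} : Set G')) : G') := by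
    have h3 := congrArg Subtype.val hk22
    have h4 : ((m2 * k2 : Subgroup.centralizer ({z} : Set G')) : G') * (g0 * z * g0⁻¹) * ((m2 * k2 : Subgroup.centralizer ({z} : Set G')) : G')⁻¹ = r2 := h3
    rw [← h4]; group
  have hmem : mo (zc 1) 1 ∈ R.range := by
    rw [hR]
    exact M0_le_K0 (mo_mem_M0.2 (by simp))
  obtain ⟨m, hm⟩ := hmem
  refine ⟨_, _, _, _, _, r2, m, hF, hR, rfl, rfl, hr2g, rfl, rfl, ?_, m.2, ?_⟩
  · unfold co; rw [hr2, Φ.symm_apply_apply]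
  · intro v
    rw [← D.rep, hm, Cfsg.Agent.Lib.H87U3E.mo_zc]; rfl

end Cfsg.Agent.Lib.H97FeD0b
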