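import Cfsg.Agent.Lib.H97Fe0
import Cfsg.Agent.Lib.LargeExtra7
import Cfsg.Agent.Lib.H89ExCount

/-! Piece FE-D1 of S5445 (helper38). -/

set_option autoImplicit false
universe u

namespace Cfsg.Agent.Lib.H97FeD1

open Cfsg Cfsg.Agent.Lib.LargeExtra Cfsg.Agent.Lib.H97Fe0

theorem LE_of {G : Type*} [Group G] [Finite G] {Q : Subgroup G} {z : G} (h : ExData Q z)
    (hc : Nat.card Q = 2 ^ 13) : LE Q z where
  zQ := h.mem
  z1 := h.ne
  zz := h.sq
  cen := h.cen
  card := hc
  comm := by
    intro a ha b hb
    rcases h.comm a ha b hb with h1 | h1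
    · left; rw [h1]; group
    · right; rw [h1]; group
  sq := h.qsq
  dual := by
    intro B hB hzB
    have h1 := H89ExCount.card_cent h (le_refl Q) hB
    have h2 : B ⊓ Subgroup.centralizer (Q : Set G) = Subgroup.zpowers z := by
      apply le_antisymm
      · intro x hx
        have hx1 := (Subgroup.mem_inf.1 hx).1
        have hx2 := (Subgroup.mem_inf.1 hx).2
        rw [Subgroup.mem_centralizer_iff] at hx2
        rcases h.center x (hB hx1) (fun y hy => (hx2 y hy).symm) with h3 | h3
        · rw [h3]; exact Subgroup.one_mem _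
        · rw [h3]; exact Subgroup.mem_zpowers z
      · rw [Subgroup.zpowers_le]
        refine Subgroup.mem_inf.2 ⟨hzB, ?_⟩
        rw [Subgroup.mem_centralizer_iff]
        intro y hy
        exact h.cen y hy
    have h3 : Nat.card (Subgroup.zpowers z) = 2 := by
      rw [Nat.card_zpowers, h.orderOf]
    rw [h2, h3, hc] at h1
    rw [mul_comm, h1]; norm_num

-- FE-D1
theorem LE_Q {G' : Type u} [Group G'] [Finite G'] {z : G'} {Q : Subgroup (Subgroup.centralizer ({z} : Set G'))} [Q.Normal]
    (hset : IsExtraspecialCentralizerSetting z Q 6) : LE (Q.map (Subgroup.centralizer ({z} : Set G')).subtype) z ∧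
    ∀ g : G', LE ((Q.map (Subgroup.centralizer ({z} : Set G')).subtype).map (MulAut.conj g).toMonoidHom) (g * z * g⁻¹) := by
  have h : PreLarge (Q.map (Subgroup.centralizer ({z} : Set G')).subtype) z :=
    preLarge_of_setting' hset.1 hset.2.1 hset.2.2.1
  have hcardQ : Nat.card (Q.map (Subgroup.centralizer ({z} : Set G')).subtype) = 2 ^ 13 := by
    rw [Subgroup.card_map_of_injective (Subgroup.subtype_injective _)]
    exact hset.2.2.2.1
  refine ⟨LE_of h.toExData hcardQ, fun g => LE_of (h.conj g).toExData ?_⟩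
  rw [Subgroup.card_map_of_injective (MulAut.conj g).injective]
  exact hcardQ

end Cfsg.Agent.Lib.H97FeD1
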