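import Cfsg.Agent.Lib.H97FeC
import Cfsg.Agent.Lib.H97FbX

/-!
# S5445, FE-D2 (helper45)
-/

set_option autoImplicit false
universe u
open Matrix Cfsg Cfsg.Agent.Lib.K4 Cfsg.Agent.Lib.HermMat Cfsg.Agent.Lib.ClThreeTransU Cfsg.Agent.Lib.SU6K4
open Cfsg.Agent.Lib.U43 Cfsg.Agent.Lib.H97Fa Cfsg.Agent.Lib.H97FaF Cfsg.Agent.Lib.H97FaG Cfsg.Agent.Lib.H97FaI Cfsg.Agent.Lib.LargeExtra
open Cfsg.Agent.Lib.H97FbY Cfsg.Agent.Lib.H97FbU Cfsg.Agent.Lib.H97FbV Cfsg.Agent.Lib.H97FbM Cfsg.Agent.Lib.H97Fe0 Cfsg.Agent.Lib.H97FeC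

namespace Cfsg.Agent.Lib.H97FeD2

theorem omw_ne0 : om • w4 ≠ (0 : V6) := by
  intro h
  have := congrFun h 0
  revert this
  decide +kernel

theorem omw_ne : om • w4 ≠ (w4 : V6) := by
  intro h
  have := congrFun h 0
  revert this
  decide +kernel

theorem herm_sum : hermForm 6 K4 2 (w4 + om • w4) (w4 + om • w4) = 0 := by decide +kernel

variable {G' : Type u} [Group G'] [Finite G'] {z : G'} {Q : Subgroup (Subgroup.centralizer ({z} : Set G'))} [Q.Normal]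
    {V : Type u} [AddCommGroup V] {q : V → ZMod 2} {b : V → V → ZMod 2}
    {ρ : Subgroup.centralizer ({z} : Set G') →* AddMonoid.End V} {π : Q → V} {M : Subgroup (Subgroup.centralizer ({z} : Set G'))}
    {Φ : V6 ≃+ V} {R : M →* G} {D : Dat (zz z) Q q b ρ π M Φ R} {Q' Q₁ : Subgroup G'} {g s y : G'} {r : Q}
    {x : Subgroup.centralizer ({z} : Set G')}

theorem basic (C : Cx D Q' Q₁ g s y r x) : s ∈ Q' ∧ y ∈ Q' ∧ z ∈ Q₁ ∧ s ≠ z ∧ y * y = 1 ∧ ¬ O4 z s 1 y ∧ s * s = 1 ∧ s ≠ 1 ∧ s * y = y * s ∧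
    Nat.card ↥(Q' ⊓ Q₁) = 2 ^ 7 ∧ (∀ a ∈ Q', a ∈ Q₁ → ∀ b ∈ Q', b ∈ Q₁ → a * b = b * a) ∧
    (∀ c, c * z = z * c → ∀ a ∈ Q', c * a * c⁻¹ ∈ Q') ∧ (∀ c, c * s = s * c → ∀ a ∈ Q₁, c * a * c⁻¹ ∈ Q₁) := by
  obtain ⟨hF, hR, hQ', hQ₁, hg, hs, hy, hr, xM, hx⟩ := C
  have hrQ := r.2
  have hyQ : x * r * x⁻¹ ∈ Q := ‹Q.Normal›.conj_mem _ r.2 x
  have hsQ' : s ∈ Q' := by rw [hQ', hs]; exact ⟨_, r.2, rfl⟩
  have hyQ' : y ∈ Q' := by rw [hQ', hy]; exact ⟨_, hyQ, rfl⟩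
  have hiso := (D.iso r).1 (by rw [hr]; exact iso_w4)
  have hrz : (r : Subgroup.centralizer ({z} : Set G')) ≠ zz z := hiso.2
  have hsz : s ≠ z := by
    intro h
    apply hrz
    apply Subtype.ext
    rw [← hs, h]
  have hrr : (r : Subgroup.centralizer ({z} : Set G')) * r = 1 := by
    have := pow_orderOf_eq_one (r : Subgroup.centralizer ({z} : Set G'))
    rwa [hiso.1, pow_two] at this
  have hr1 : (r : Subgroup.centralizer ({z} : Set G')) ≠ 1 := by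
    intro h
    have := hiso.1
    rw [h, orderOf_one] at this
    omega
  have hss : s * s = 1 := by
    rw [hs]
    exact congrArg Subtype.val hrr
  have hs1 : s ≠ 1 := by
    intro h
    apply hr1
    apply Subtype.ext
    rw [← hs, h]; rfl
  have hyy0 : (x * r * x⁻¹) * (x * r * x⁻¹) = 1 := by
    have : (x * r * x⁻¹) * (x * r * x⁻¹) = x * ((r : Subgroup.centralizer ({z} : Set G')) * r) * x⁻¹ := by group
    rw [this, hrr]; group
  have hyy : y * y = 1 := by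
    rw [hy]
    exact congrArg Subtype.val hyy0
  let yq : Q := ⟨x * r * x⁻¹, hyQ⟩
  have hπr : π r = Φ w4 := by
    rw [← hr]; unfold co; rw [AddEquiv.apply_symm_apply]
  have hπy : π yq = Φ (om • w4) := by
    rw [← D.act x r yq rfl, hπr, hx]
  have hys : π yq ≠ π r := by
    rw [hπy, hπr]
    intro h
    exact omw_ne (Φ.injective h)
  have hy0 : π yq ≠ π 1 := by
    rw [hπy, D.π_one]
    intro h
    exact omw_ne0 (Φ.injective (h.trans (map_zero Φ).symm))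
  have hyval : ((yq : Subgroup.centralizer ({z} : Set G')) : G') = y := hy.symm
  have hrval : ((r : Subgroup.centralizer ({z} : Set G')) : G') = s := hs.symm
  have hn1 : y ≠ 1 := by
    intro h
    apply hy0
    rw [D.eqv]
    left
    apply Subtype.ext
    rw [hyval, h]; rfl
  have hnz : y ≠ z := by
    intro h
    apply hy0
    rw [D.eqv]
    right
    apply Subtype.ext
    show ((yq : Subgroup.centralizer ({z} : Set G')) : G') = z * 1
    rw [hyval, h, mul_one]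
  have hns : y ≠ s := by
    intro h
    apply hys
    rw [D.eqv]
    left
    apply Subtype.ext
    rw [hyval, h, hrval]
  have hnzs : y ≠ z * s := by
    intro h
    apply hys
    rw [D.eqv]
    right
    apply Subtype.ext
    show ((yq : Subgroup.centralizer ({z} : Set G')) : G') = z * ((r : Subgroup.centralizer ({z} : Set G')) : G')
    rw [hyval, h, hrval]
  have hO : ¬ O4 z s 1 y := by
    rintro (h | h | h | h)
    · exact hn1 h
    · exact hnz (by rw [h, one_mul])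
    · exact hns (by rw [h, one_mul])
    · exact hnzs (by rw [h, one_mul])
  have hsy : s * y = y * s := by
    have h1 : π (r * yq) = Φ (w4 + om • w4) := by rw [D.mul, hπr, hπy, map_add]
    have h2 : q (π (r * yq)) = 0 := by
      rw [h1, D.qΦ]; exact herm_sum
    have h3 := (D.qπ _).1 h2
    have h4 : (s * y) * (s * y) = 1 := by
      have := congrArg Subtype.val h3
      rw [← hyval, ← hrval]
      exact this
    have h5 : s⁻¹ = s := inv_eq_of_mul_eq_one_left hss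
    have h6 : y⁻¹ = y := inv_eq_of_mul_eq_one_left hyy
    have h7 : (s * y)⁻¹ = s * y := inv_eq_of_mul_eq_one_left h4
    rw [← h7, _root_.mul_inv_rev, h5, h6]
  have hgs : g * z * g⁻¹ ∈ Q.map (Subgroup.centralizer ({z} : Set G')).subtype := by rw [hg, ← hQ']; exact hsQ'
  have hsc : s ∈ Subgroup.centralizer ({z} : Set G') := by rw [hs]; exact SetLike.coe_mem _
  have hsc' : (⟨s, hsc⟩ : Subgroup.centralizer ({z} : Set G')) = r := Subtype.ext hs
  obtain ⟨a1, a2, a3, -⟩ := Cfsg.Agent.Lib.H97FbX.conj_part Q hF.1 g hgs (by rw [hg]; exact hsz) Q' Q₁ _ _ hQ' hQ₁ rfl rfl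
  obtain ⟨-, b2, -⟩ := Cfsg.Agent.Lib.H97FbN.S5442_of Cfsg.Agent.Lib.H97FbS.no_two hF s ⟨hsc, by rw [hsc']; exact r.2⟩
    (isConj_iff.2 ⟨g, hg⟩) hsz g hg _ _ rfl rfl
  rw [← hQ', ← hQ₁] at b2
  have hn0 : ∀ c, c * z = z * c → ∀ a ∈ Q', c * a * c⁻¹ ∈ Q' := by
    intro c hc a ha
    rw [hQ'] at ha ⊢
    obtain ⟨a', ha', rfl⟩ := ha
    have hcc : c ∈ Subgroup.centralizer ({z} : Set G') := by
      rw [Subgroup.mem_centralizer_iff]
      intro w hw
      rw [Set.mem_singleton_iff.1 hw]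
      exact hc.symm
    exact ⟨(⟨c, hcc⟩ : Subgroup.centralizer ({z} : Set G')) * a' * (⟨c, hcc⟩ : Subgroup.centralizer ({z} : Set G'))⁻¹,
      ‹Q.Normal›.conj_mem _ ha' _, rfl⟩
  refine ⟨hsQ', hyQ', a1, hsz, hyy, hO, hss, hs1, hsy, b2, ?_, hn0, ?_⟩
  · intro a ha ha' b hb hb'
    exact a3 a ⟨ha, ha'⟩ b ⟨hb, hb'⟩
  · intro c hc a ha
    rw [hQ₁] at ha ⊢
    obtain ⟨a', ha', rfl⟩ := ha
    have h1 : (g⁻¹ * c * g) * z = z * (g⁻¹ * c * g) := by
      have h2 : c * (g * z * g⁻¹) = (g * z * g⁻¹) * c := by rw [hg]; exact hc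
      have h3 : (g⁻¹ * c * g) * z = g⁻¹ * (c * (g * z * g⁻¹)) * g := by group
      rw [h3, h2]; group
    refine ⟨(g⁻¹ * c * g) * a' * (g⁻¹ * c * g)⁻¹, hn0 _ h1 a' ha', ?_⟩
    show g * ((g⁻¹ * c * g) * a' * (g⁻¹ * c * g)⁻¹) * g⁻¹ = c * (g * a' * g⁻¹) * c⁻¹
    group

end Cfsg.Agent.Lib.H97FeD2
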