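import Cfsg.Agent.Lib.H97Fe0

/-! S5445, piece FE-D3, group theoretic part (helper3). -/

set_option autoImplicit false
open Cfsg Cfsg.Agent.Lib.H97Fe0

namespace Cfsg.Agent.Lib.H97FeD3

theorem rel2 {G : Type*} [Group G] [Finite G] (A K : Subgroup G) (h : ∀ a ∈ A, ∀ b ∈ A, a ∉ K → b ∉ K → a⁻¹ * b ∈ K) :
    K.relIndex A ≤ 2 := by
  by_cases hA : A ≤ K
  · rw [Subgroup.relIndex_eq_one.mpr hA]; norm_num
  · obtain ⟨a₀, ha₀, hk₀⟩ := SetLike.not_le_iff_exists.mp hA
    have : (K.subgroupOf A).index = 2 := by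
      rw [Subgroup.index_eq_two_iff]
      refine ⟨⟨a₀, ha₀⟩, fun b => ?_⟩
      by_cases hb : b ∈ K.subgroupOf A
      · right
        refine ⟨hb, fun h1 => hk₀ ?_⟩
        have h2 := (K.subgroupOf A).mul_mem ((K.subgroupOf A).inv_mem hb) h1
        rw [inv_mul_cancel_left] at h2
        exact h2
      · left
        refine ⟨?_, hb⟩
        have h1 := h (b : G)⁻¹ (A.inv_mem b.2) a₀ ha₀ (fun h2 => hb (by
          have h3 := K.inv_mem h2
          rw [inv_inv] at h3
          exact h3)) hk₀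
        rw [inv_inv] at h1
        exact h1
    exact this.le

theorem core {G : Type*} [Group G] [Finite G] {z s y x : G} {Q Q₁ : Subgroup G} (e0 : LE Q z) (e1 : LE Q₁ s)
    (sQ : s ∈ Q) (zQ₁ : z ∈ Q₁) (cE : Nat.card ↥(Q ⊓ Q₁) = 2 ^ 7)
    (abE : ∀ a ∈ Q, a ∈ Q₁ → ∀ b ∈ Q, b ∈ Q₁ → a * b = b * a)
    (n0 : ∀ c, c * z = z * c → ∀ a ∈ Q, c * a * c⁻¹ ∈ Q) (hx : x * z = z * x) (hy : y = x * s * x⁻¹)
    (M : Subgroup G) (hM : ∀ a ∈ M, ∃ q ∈ Q, a * x = x * a * q)
    (hi : ∀ a, a * z = z * a → ∀ b, b * z = z * b → a ∉ M → b ∉ M → a⁻¹ * b ∈ M) : y ∈ Q₁ := by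
  have hzz := e0.zz
  have hss := e1.zz
  have hsz' : s * z = z * s := e0.cen s sQ
  have yQ : y ∈ Q := by rw [hy]; exact n0 x hx s sQ
  -- the four-group
  let B : Subgroup G :=
    { carrier := {w | w = 1 ∨ w = z ∨ w = s ∨ w = z * s}
      one_mem' := Or.inl rfl
      mul_mem' := by
        have a1 : z * (z * s) = s := by rw [← mul_assoc, hzz, one_mul]
        have a2 : s * (z * s) = z := by rw [← hsz', ← mul_assoc, hss, one_mul]
        have a3 : z * s * z = s := by rw [← hsz', mul_assoc, hzz, mul_one]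
        have a4 : z * s * s = z := by rw [mul_assoc, hss, mul_one]
        have a5 : z * s * (z * s) = 1 := by rw [mul_assoc, a2, hzz]
        intro a b ha hb
        have ha' : a = 1 ∨ a = z ∨ a = s ∨ a = z * s := ha
        have hb' : b = 1 ∨ b = z ∨ b = s ∨ b = z * s := hb
        change a * b = 1 ∨ a * b = z ∨ a * b = s ∨ a * b = z * s
        rcases ha' with rfl | rfl | rfl | rfl <;> rcases hb' with rfl | rfl | rfl | rfl <;>
          simp only [one_mul, mul_one, hzz, hss, hsz', a1, a2, a3, a4, a5, true_or, or_true]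
      inv_mem' := by
        have a5 : z * s * (z * s) = 1 := by
          rw [mul_assoc, ← hsz', ← mul_assoc s s z, hss, one_mul, hzz]
        intro a ha
        have ha' : a = 1 ∨ a = z ∨ a = s ∨ a = z * s := ha
        change a⁻¹ = 1 ∨ a⁻¹ = z ∨ a⁻¹ = s ∨ a⁻¹ = z * s
        rcases ha' with rfl | rfl | rfl | rfl
        · exact Or.inl inv_one
        · exact Or.inr (Or.inl (inv_eq_of_mul_eq_one_left hzz))
        · exact Or.inr (Or.inr (Or.inl (inv_eq_of_mul_eq_one_left hss)))
        · exact Or.inr (Or.inr (Or.inr (inv_eq_of_mul_eq_one_left a5))) }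
  have hBc : Nat.card B ≤ 4 := by
    have h1 : Nat.card B = ({1, z, s, z * s} : Set G).ncard := by
      rw [← Nat.card_coe_set_eq]
      rfl
    rw [h1]
    calc ({1, z, s, z * s} : Set G).ncard ≤ ({z, s, z * s} : Set G).ncard + 1 := Set.ncard_insert_le _ _
      _ ≤ (({s, z * s} : Set G).ncard + 1) + 1 := by gcongr; exact Set.ncard_insert_le _ _
      _ ≤ ((({z * s} : Set G).ncard + 1) + 1) + 1 := by gcongr; exact Set.ncard_insert_le _ _
      _ = 4 := by rw [Set.ncard_singleton]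
  have hB1 : B ≤ Q₁ := by
    intro w hw
    have hw' : w = 1 ∨ w = z ∨ w = s ∨ w = z * s := hw
    rcases hw' with rfl | rfl | rfl | rfl
    · exact Q₁.one_mem
    · exact zQ₁
    · exact e1.zQ
    · exact Q₁.mul_mem zQ₁ e1.zQ
  have hA := e1.dual B hB1 (Or.inr (Or.inr (Or.inl rfl)))
  set A : Subgroup G := Q₁ ⊓ Subgroup.centralizer (B : Set G) with hAdef
  have hAcard : 2 ^ 12 ≤ Nat.card A := by
    by_contra hlt
    have h1 : Nat.card A * Nat.card B ≤ (2 ^ 12 - 1) * 4 := Nat.mul_le_mul (by omega) hBc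
    rw [hA] at h1
    norm_num at h1
  have hAz : ∀ a ∈ A, a * z = z * a := by
    intro a ha
    exact (Subgroup.mem_centralizer_iff.mp ha.2 z (Or.inr (Or.inl rfl))).symm
  -- the centralizer of E
  have hE1 : Nat.card ↥(Q₁ ⊓ Subgroup.centralizer ((Q ⊓ Q₁ : Subgroup G) : Set G)) = 2 ^ 7 := by
    have h1 := e1.dual (Q ⊓ Q₁) inf_le_right ⟨sQ, e1.zQ⟩
    rw [cE] at h1
    omega
  have hE0 : Nat.card ↥(Q ⊓ Subgroup.centralizer ((Q ⊓ Q₁ : Subgroup G) : Set G)) = 2 ^ 7 := by
    have h1 := e0.dual (Q ⊓ Q₁) inf_le_left ⟨e0.zQ, zQ₁⟩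
    rw [cE] at h1
    omega
  have hEle : Q ⊓ Q₁ ≤ Q ⊓ Subgroup.centralizer ((Q ⊓ Q₁ : Subgroup G) : Set G) := by
    rintro a ⟨ha, ha1⟩
    exact ⟨ha, Subgroup.mem_centralizer_iff.mpr fun b hb => abE b hb.1 hb.2 a ha ha1⟩
  have hEeq : Q ⊓ Q₁ = Q ⊓ Subgroup.centralizer ((Q ⊓ Q₁ : Subgroup G) : Set G) :=
    Subgroup.eq_of_le_of_card_ge hEle (by rw [hE0, cE])
  have goal : y ∈ Q ⊓ Q₁ := by
    rw [hEeq]
    refine ⟨yQ, Subgroup.mem_centralizer_iff.mpr ?_⟩
    intro y' hy'
    have hy'Q : y' ∈ Q := hy'.1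
    have hy'1 : y' ∈ Q₁ := hy'.2
    -- a subgroup of index at most 4 of A
    have r1 : M.relIndex A ≤ 2 := rel2 A M fun a ha b hb h1 h2 => hi a (hAz a ha) b (hAz b hb) h1 h2
    have r2 : (Subgroup.centralizer ({y'} : Set G)).relIndex A ≤ 2 := by
      apply rel2
      intro a ha b hb h1 h2
      rw [Subgroup.mem_centralizer_singleton_iff] at h1 h2 ⊢
      have key : ∀ c ∈ A, ¬ (c * y' = y' * c) → c * y' = s * y' * c := by
        intro c hc hn
        rcases e1.comm c hc.1 y' hy'1 with h3 | h3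
        · exact absurd (by
            calc c * y' = (c * y' * c⁻¹ * y'⁻¹) * (y' * c) := by group
              _ = y' * c := by rw [h3, one_mul]) hn
        · calc c * y' = (c * y' * c⁻¹ * y'⁻¹) * (y' * c) := by group
            _ = s * y' * c := by rw [h3, mul_assoc]
      have k1 := key a ha (by first | exact h1 | exact fun h => h1 h.symm)
      have k2 := key b hb (by first | exact h2 | exact fun h => h2 h.symm)
      have hsa : a * s = s * a := e1.cen a ha.1
      have hfin : a⁻¹ * b * y' = y' * (a⁻¹ * b) := by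
        have : a * y' * (a⁻¹ * b) = b * y' := by
          rw [k1, k2]; group
        calc a⁻¹ * b * y' = a⁻¹ * (b * y') := by group
          _ = a⁻¹ * (a * y' * (a⁻¹ * b)) := by rw [this]
          _ = y' * (a⁻¹ * b) := by group
      first
        | exact hfin
        | exact hfin.symm
    have r3 : (M ⊓ Subgroup.centralizer ({y'} : Set G)).relIndex A ≤ 4 :=
      (Subgroup.relIndex_inf_le).trans (Nat.mul_le_mul r1 r2)
    obtain ⟨a, haM, haC, haA, haE⟩ : ∃ a, a ∈ M ∧ a * y' = y' * a ∧ a ∈ A ∧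
        a ∉ Q₁ ⊓ Subgroup.centralizer ((Q ⊓ Q₁ : Subgroup G) : Set G) := by
      by_contra hcon
      push Not at hcon
      have hle : (M ⊓ Subgroup.centralizer ({y'} : Set G)) ⊓ A ≤ Q₁ ⊓ Subgroup.centralizer ((Q ⊓ Q₁ : Subgroup G) : Set G) := by
        rintro c ⟨⟨h1, h2⟩, h3⟩
        refine hcon c h1 ?_ h3
        have h2' := Subgroup.mem_centralizer_singleton_iff.mp h2
        first
          | exact h2'
          | exact h2'.symm
      have c1 := Subgroup.card_le_of_le hle
      rw [hE1] at c1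
      have c2 := ((M ⊓ Subgroup.centralizer ({y'} : Set G)).subgroupOf A).card_mul_index
      have c3 : Nat.card ((M ⊓ Subgroup.centralizer ({y'} : Set G)).subgroupOf A) =
          Nat.card ↥((M ⊓ Subgroup.centralizer ({y'} : Set G)) ⊓ A) := by
        rw [← Subgroup.inf_subgroupOf_right]
        exact Nat.card_congr (Subgroup.subgroupOfEquivOfLe inf_le_right).toEquiv
      have r3' : ((M ⊓ Subgroup.centralizer ({y'} : Set G)).subgroupOf A).index ≤ 4 := r3
      have c4 : Nat.card A ≤ 2 ^ 7 * 4 := by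
        rw [← c2, c3]
        exact Nat.mul_le_mul c1 r3'
      omega
    -- an element y0 of E with [a, y0] = s
    obtain ⟨y0, hy0, hny0⟩ : ∃ y0, y0 ∈ Q ⊓ Q₁ ∧ a * y0 ≠ y0 * a := by
      by_contra hcon
      push Not at hcon
      exact haE ⟨haA.1, Subgroup.mem_centralizer_iff.mpr fun b hb => (hcon b hb).symm⟩
    have ha0 : a * y0 * a⁻¹ = s * y0 := by
      rcases e1.comm a haA.1 y0 hy0.2 with h3 | h3
      · exact absurd (by
          calc a * y0 = (a * y0 * a⁻¹ * y0⁻¹) * (y0 * a) := by group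
            _ = y0 * a := by rw [h3, one_mul]) hny0
      · rw [← h3]; group
    obtain ⟨q, hq, hqe⟩ := hM a haM
    set w0 : G := x * y0 * x⁻¹ with hw0
    have w0Q : w0 ∈ Q := n0 x hx y0 hy0.1
    have haz := hAz a haA
    -- e = 1 or z
    obtain ⟨e, he, hee⟩ : ∃ e : G, (e = 1 ∨ e = z) ∧ q * y0 * q⁻¹ = y0 * e := by
      rcases e0.comm q hq y0 hy0.1 with h3 | h3
      · refine ⟨1, Or.inl rfl, ?_⟩
        calc q * y0 * q⁻¹ = (q * y0 * q⁻¹ * y0⁻¹) * y0 := by group
          _ = y0 * 1 := by rw [h3, one_mul, mul_one]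
      · refine ⟨z, Or.inr rfl, ?_⟩
        calc q * y0 * q⁻¹ = (q * y0 * q⁻¹ * y0⁻¹) * y0 := by group
          _ = y0 * z := by rw [h3, e0.cen y0 hy0.1]
    have hec : ∀ c, c * z = z * c → c * e = e * c := by
      intro c hc
      rcases he with rfl | rfl
      · rw [mul_one, one_mul]
      · exact hc
    have hyz : y * z = z * y := e0.cen y yQ
    have hw0z : w0 * z = z * w0 := e0.cen w0 w0Q
    have hy'z : y' * z = z * y' := e0.cen y' hy'Q
    have main : a * w0 * a⁻¹ = y * w0 * e := by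
      have h1 : a * w0 * a⁻¹ = (a * x) * y0 * (a * x)⁻¹ := by rw [hw0]; group
      have h2 : (x * a * q) * y0 * (x * a * q)⁻¹ = x * (a * (q * y0 * q⁻¹) * a⁻¹) * x⁻¹ := by group
      have h3 : a * (y0 * e) * a⁻¹ = (a * y0 * a⁻¹) * e := by
        calc a * (y0 * e) * a⁻¹ = a * y0 * (e * a⁻¹) := by group
          _ = a * y0 * (a⁻¹ * e) := by
            rw [hec a⁻¹ (by
              calc a⁻¹ * z = a⁻¹ * (z * a) * a⁻¹ := by group
                _ = a⁻¹ * (a * z) * a⁻¹ := by rw [haz]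
                _ = z * a⁻¹ := by group)]
          _ = (a * y0 * a⁻¹) * e := by group
      have h4 : x * (s * y0 * e) * x⁻¹ = (x * s * x⁻¹) * (x * y0 * x⁻¹) * e := by
        calc x * (s * y0 * e) * x⁻¹ = x * s * y0 * (e * x⁻¹) := by group
          _ = x * s * y0 * (x⁻¹ * e) := by
            rw [hec x⁻¹ (by
              calc x⁻¹ * z = x⁻¹ * (z * x) * x⁻¹ := by group
                _ = x⁻¹ * (x * z) * x⁻¹ := by rw [hx]
                _ = z * x⁻¹ := by group)]
          _ = (x * s * x⁻¹) * (x * y0 * x⁻¹) * e := by group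
      rw [h1, hqe, h2, hee, h3, ha0, h4, ← hy]
    -- commutators with y'
    by_contra hne
    have c1 : y * y' = z * y' * y := by
      rcases e0.comm y yQ y' hy'Q with h3 | h3
      · exact absurd (by
          calc y' * y = (y * y' * y⁻¹ * y'⁻¹)⁻¹ * (y * y') := by group
            _ = y * y' := by rw [h3, inv_one, one_mul]) hne
      · calc y * y' = (y * y' * y⁻¹ * y'⁻¹) * (y' * y) := by group
          _ = z * y' * y := by rw [h3, mul_assoc]
    -- let t be the commutator of w0 with y'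
    obtain ⟨t, ht, hte⟩ : ∃ t : G, (t = 1 ∨ t = z) ∧ w0 * y' = t * y' * w0 := by
      rcases e0.comm w0 w0Q y' hy'Q with h3 | h3
      · exact ⟨1, Or.inl rfl, by
          calc w0 * y' = (w0 * y' * w0⁻¹ * y'⁻¹) * (y' * w0) := by group
            _ = 1 * y' * w0 := by rw [h3, mul_assoc]⟩
      · exact ⟨z, Or.inr rfl, by
          calc w0 * y' = (w0 * y' * w0⁻¹ * y'⁻¹) * (y' * w0) := by group
            _ = z * y' * w0 := by rw [h3, mul_assoc]⟩
    have htc : ∀ c, c * z = z * c → c * t = t * c := by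
      intro c hc
      rcases ht with rfl | rfl
      · rw [mul_one, one_mul]
      · exact hc
    have l1 : (a * w0 * a⁻¹) * y' = t * y' * (a * w0 * a⁻¹) := by
      have hinv : a⁻¹ * y' = y' * a⁻¹ := by
        calc a⁻¹ * y' = a⁻¹ * (y' * a) * a⁻¹ := by group
          _ = a⁻¹ * (a * y') * a⁻¹ := by rw [haC]
          _ = y' * a⁻¹ := by group
      calc (a * w0 * a⁻¹) * y' = a * w0 * (a⁻¹ * y') := by group
        _ = a * (w0 * y') * a⁻¹ := by rw [hinv]; group
        _ = (a * t) * y' * w0 * a⁻¹ := by rw [hte]; group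
        _ = t * (a * y') * w0 * a⁻¹ := by rw [htc a haz]; group
        _ = t * y' * (a * w0 * a⁻¹) := by rw [haC]; group
    have l2 : (y * w0 * e) * y' = z * (t * y' * (y * w0 * e)) := by
      have hey : e * y' = y' * e := (hec y' hy'z).symm
      calc (y * w0 * e) * y' = y * w0 * (e * y') := by group
        _ = y * (w0 * y') * e := by rw [hey]; group
        _ = (y * t) * y' * w0 * e := by rw [hte]; group
        _ = t * (y * y') * w0 * e := by rw [htc y hyz]; group
        _ = (t * z) * y' * y * w0 * e := by rw [c1]; group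
        _ = z * (t * y' * (y * w0 * e)) := by
          rw [show t * z = z * t from (htc z rfl).symm]; group
    rw [main] at l1
    rw [l1] at l2
    have h5 : 1 * (t * y' * (y * w0 * e)) = z * (t * y' * (y * w0 * e)) := by rw [one_mul]; exact l2
    exact e0.z1 (mul_right_cancel h5).symm
  exact goal.2

end Cfsg.Agent.Lib.H97FeD3
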