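import Cfsg.Agent.Lib.H97FeC
import Cfsg.Agent.Lib.H97FeD2
import Cfsg.Agent.Lib.H97FeD3core

/-! S5445, piece FE-D3 (helper3). -/

set_option autoImplicit false
universe u
open Matrix Cfsg Cfsg.Agent.Lib.K4 Cfsg.Agent.Lib.HermMat Cfsg.Agent.Lib.ClThreeTransU Cfsg.Agent.Lib.SU6K4
open Cfsg.Agent.Lib.U43 Cfsg.Agent.Lib.H97Fa Cfsg.Agent.Lib.H97FaF Cfsg.Agent.Lib.H97FaG Cfsg.Agent.Lib.H97FaI Cfsg.Agent.Lib.LargeExtra
open Cfsg.Agent.Lib.H97FbY Cfsg.Agent.Lib.H97FbU Cfsg.Agent.Lib.H97FbV Cfsg.Agent.Lib.H97FbM Cfsg.Agent.Lib.H97Fe0 Cfsg.Agent.Lib.H97FeC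

namespace Cfsg.Agent.Lib.H97FeD3

variable {G' : Type u} [Group G'] [Finite G'] {z : G'} {Q : Subgroup (Subgroup.centralizer ({z} : Set G'))} [Q.Normal]
    {V : Type u} [AddCommGroup V] {q : V → ZMod 2} {b : V → V → ZMod 2}
    {ρ : Subgroup.centralizer ({z} : Set G') →* AddMonoid.End V} {π : Q → V} {M : Subgroup (Subgroup.centralizer ({z} : Set G'))}
    {Φ : V6 ≃+ V} {R : M →* G} {D : Dat (zz z) Q q b ρ π M Φ R} {Q' Q₁ : Subgroup G'} {g s y : G'} {r : Q}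
    {x : Subgroup.centralizer ({z} : Set G')}

theorem y_mem (C : Cx D Q' Q₁ g s y r x) (e0 : LE Q' z) (e1 : LE Q₁ s) : y ∈ Q₁ := by
  obtain ⟨sQ, yQ, zQ₁, hsz, hyy, hO4, hss, hs1, hsy, cE, abE, n0, n1⟩ := Cfsg.Agent.Lib.H97FeD2.basic C
  have hcz : ∀ h : Subgroup.centralizer ({z} : Set G'), (h : G') * z = z * h := by
    intro h
    have h1 := Subgroup.mem_centralizer_singleton_iff.mp h.2
    first
      | exact h1
      | exact h1.symm
  refine core (x := (x : G')) (M := M.map (Subgroup.centralizer ({z} : Set G')).subtype) e0 e1 sQ zQ₁ cE abE n0 (hcz x) ?_ ?_ ?_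
  · rw [C.hy, C.hs]; rfl
  · rintro _ ⟨m, hm, rfl⟩
    have hcomm : ρ (m * x) = ρ (x * m) := by
      rw [map_mul, map_mul]
      ext v
      obtain ⟨a, rfl⟩ := Φ.surjective v
      change ρ m (ρ x (Φ a)) = ρ x (ρ m (Φ a))
      have e1 : ρ m (Φ a) = Φ (mt (R ⟨m, hm⟩) *ᵥ a) := (D.rep ⟨m, hm⟩ a).symm
      have e2 : ρ m (Φ (om • a)) = Φ (mt (R ⟨m, hm⟩) *ᵥ (om • a)) := (D.rep ⟨m, hm⟩ (om • a)).symm
      rw [C.hx, e1, C.hx, e2, Matrix.mulVec_smul]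
    have hq : (x * m)⁻¹ * (m * x) ∈ Q := by
      rw [← D.ker, map_mul, hcomm, ← map_mul, inv_mul_cancel, map_one]
    refine ⟨(((x * m)⁻¹ * (m * x) : Subgroup.centralizer ({z} : Set G')) : G'), ?_, ?_⟩
    · rw [C.hQ']
      exact ⟨_, hq, rfl⟩
    · change (m : G') * (x : G') = (x : G') * (m : G') * (((x : G') * (m : G'))⁻¹ * ((m : G') * (x : G')))
      group
  · intro a ha b hb hna hnb
    have ha' : a ∈ Subgroup.centralizer ({z} : Set G') := Subgroup.mem_centralizer_singleton_iff.mpr (by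
      first
        | exact ha
        | exact ha.symm)
    have hb' : b ∈ Subgroup.centralizer ({z} : Set G') := Subgroup.mem_centralizer_singleton_iff.mpr (by
      first
        | exact hb
        | exact hb.symm)
    have h1 : (⟨a, ha'⟩ : Subgroup.centralizer ({z} : Set G')) ∉ M := fun h => hna ⟨_, h, rfl⟩
    have h2 : (⟨b, hb'⟩ : Subgroup.centralizer ({z} : Set G')) ∉ M := fun h => hnb ⟨_, h, rfl⟩
    have h3 : (⟨a, ha'⟩ : Subgroup.centralizer ({z} : Set G'))⁻¹ * ⟨b, hb'⟩ ∈ M := by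
      rw [Subgroup.mul_mem_iff_of_index_two D.idx, inv_mem_iff]
      exact iff_of_false h1 h2
    exact ⟨_, h3, rfl⟩

end Cfsg.Agent.Lib.H97FeD3
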