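import Cfsg.Agent.Lib.H97FeD4b
import Cfsg.Agent.Lib.H97FeD2
/-!
# S5445, piece D4 (helper7)
-/
set_option autoImplicit false
set_option linter.unusedVariables false
universe u
open Matrix Cfsg Cfsg.Agent.Lib.K4 Cfsg.Agent.Lib.HermMat Cfsg.Agent.Lib.ClThreeTransU Cfsg.Agent.Lib.SU6K4
open Cfsg.Agent.Lib.U43 Cfsg.Agent.Lib.H97Fa Cfsg.Agent.Lib.H97FaF Cfsg.Agent.Lib.H97FaG Cfsg.Agent.Lib.H97FaI Cfsg.Agent.Lib.LargeExtra
open Cfsg.Agent.Lib.H97FbY Cfsg.Agent.Lib.H97FbU Cfsg.Agent.Lib.H97FbV Cfsg.Agent.Lib.H97FbM Cfsg.Agent.Lib.H97Fe0 Cfsg.Agent.Lib.H97FeC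

namespace Cfsg.Agent.Lib.H97FeD4

section
variable {G' : Type u} [Group G'] [Finite G'] {z : G'} {Q : Subgroup (Subgroup.centralizer ({z} : Set G'))} [Q.Normal]
    {V : Type u} [AddCommGroup V] {q : V → ZMod 2} {b : V → V → ZMod 2}
    {ρ : Subgroup.centralizer ({z} : Set G') →* AddMonoid.End V} {π : Q → V} {M : Subgroup (Subgroup.centralizer ({z} : Set G'))}
    {Φ : V6 ≃+ V} {R : M →* G} {D : Dat (zz z) Q q b ρ π M Φ R} {Q' Q₁ : Subgroup G'} {g s y : G'} {r : Q}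
    {x : Subgroup.centralizer ({z} : Set G')}

theorem semi (C : Cx D Q' Q₁ g s y r x) (e0 : LE Q' z) (e1 : LE Q₁ s) (hy : y ∈ Q₁) :
    ∀ h : Subgroup.centralizer ({z} : Set G'), h ∉ M → ∀ v, ρ h (Φ (om • v)) = Φ (om' • Φ.symm (ρ h (Φ v))) := by
  obtain ⟨_, _, hz, hsz, _, hO, _⟩ := Cfsg.Agent.Lib.H97FeD2.basic C
  exact Cfsg.Agent.Lib.H97FeD4b.semi_of C e0 e1 hy hz hsz hO

end

end Cfsg.Agent.Lib.H97FeD4
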