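import Cfsg.Agent.Lib.H97FeC

/-!
S5445, piece FE-D5: elements centralizing `z` and `s` (helper18).
-/

set_option autoImplicit false
universe u
open Matrix Cfsg Cfsg.Agent.Lib.K4 Cfsg.Agent.Lib.HermMat Cfsg.Agent.Lib.ClThreeTransU Cfsg.Agent.Lib.SU6K4
open Cfsg.Agent.Lib.U43 Cfsg.Agent.Lib.H97Fa Cfsg.Agent.Lib.H97FaF Cfsg.Agent.Lib.H97FaG Cfsg.Agent.Lib.H97FaI Cfsg.Agent.Lib.LargeExtra
open Cfsg.Agent.Lib.H97FbY Cfsg.Agent.Lib.H97FbU Cfsg.Agent.Lib.H97FbV Cfsg.Agent.Lib.H97FbM Cfsg.Agent.Lib.H97Fe0 Cfsg.Agent.Lib.H97FeC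

namespace Cfsg.Agent.Lib.H97FeD5

theorem om'_smul (v : V6) : om' • v = om • v + v := by
  have h : om' = om + 1 := by decide
  rw [h, add_smul, one_smul]

section
variable {G' : Type u} [Group G'] [Finite G'] {z : G'} {Q : Subgroup (Subgroup.centralizer ({z} : Set G'))} [Q.Normal]
    {V : Type u} [AddCommGroup V] {q : V → ZMod 2} {b : V → V → ZMod 2}
    {ρ : Subgroup.centralizer ({z} : Set G') →* AddMonoid.End V} {π : Q → V} {M : Subgroup (Subgroup.centralizer ({z} : Set G'))}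
    {Φ : V6 ≃+ V} {R : M →* G} {D : Dat (zz z) Q q b ρ π M Φ R} {Q' Q₁ : Subgroup G'} {g s y : G'} {r : Q}
    {x : Subgroup.centralizer ({z} : Set G')}

-- FE-D5
theorem lin (C : Cx D Q' Q₁ g s y r x) : ∀ c, c * z = z * c → c * s = s * c → O4 z s y (c * y * c⁻¹) := by
  intro c hcz hcs
  have hn : Q.Normal := inferInstance
  let h : Subgroup.centralizer ({z} : Set G') := ⟨c, Subgroup.mem_centralizer_singleton_iff.2 hcz⟩
  let yQ : Q := ⟨x * r * x⁻¹, hn.conj_mem _ r.2 x⟩
  let y' : Q := ⟨h * yQ * h⁻¹, hn.conj_mem _ yQ.2 h⟩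
  have hπr : π r = Φ w4 := by
    have := C.hr
    unfold co at this
    rw [← this, Φ.apply_symm_apply]
  have hπy : π yQ = Φ (om • w4) := by
    rw [← D.act x r yQ rfl, hπr, C.hx]
  have hrr : (r : Subgroup.centralizer ({z} : Set G')) = h * r * h⁻¹ := by
    apply Subtype.ext
    have h1 : c * ((r : Subgroup.centralizer ({z} : Set G')) : G') = ((r : Subgroup.centralizer ({z} : Set G')) : G') * c := by
      rw [← C.hs]; exact hcs
    change ((r : Subgroup.centralizer ({z} : Set G')) : G') = c * ((r : Subgroup.centralizer ({z} : Set G')) : G') * c⁻¹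
    rw [h1, mul_assoc, mul_inv_cancel, mul_one]
  have hfix : ρ h (Φ w4) = Φ w4 := by
    rw [← hπr]
    exact D.act h r r hrr
  have hπy' : π y' = ρ h (Φ (om • w4)) := by
    rw [← hπy]
    exact (D.act h yQ y' rfl).symm
  have hyG : y = ((yQ : Subgroup.centralizer ({z} : Set G')) : G') := C.hy
  have hyG' : c * y * c⁻¹ = ((y' : Subgroup.centralizer ({z} : Set G')) : G') := by
    rw [hyG]; rfl
  have hsG : s = ((r : Subgroup.centralizer ({z} : Set G')) : G') := C.hs
  have hyz : y * z = z * y := by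
    rw [hyG]
    exact Subgroup.mem_centralizer_singleton_iff.1 (yQ : Subgroup.centralizer ({z} : Set G')).2
  rcases Cfsg.Agent.Lib.H87U3E.omega D C.hR h with h1 | h1
  · have h2 : π y' = π yQ := by
      rw [hπy', h1, hfix, Φ.symm_apply_apply, hπy]
    rcases (D.eqv y' yQ).1 h2 with h3 | h3
    · left
      rw [hyG', h3, hyG]
    · right; left
      rw [hyG', h3, hyz, hyG]
      rfl
  · have h2 : π y' = π (yQ * r) := by
      rw [hπy', h1, hfix, Φ.symm_apply_apply, om'_smul, map_add, D.mul, hπy, hπr]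
    rcases (D.eqv y' (yQ * r)).1 h2 with h3 | h3
    · right; right; left
      rw [hyG', h3, hyG, hsG]
      rfl
    · right; right; right
      rw [hyG', h3, hyz, mul_assoc, hyG, hsG]
      rfl

end

end Cfsg.Agent.Lib.H97FeD5
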