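import Cfsg.Agent.Lib.H97FeC

set_option autoImplicit false
set_option linter.all false

/-! S5445, piece FE-D6. -/

universe u

namespace Cfsg.Agent.Lib.H97FeD6

open Matrix Cfsg Cfsg.Agent.Lib.K4 Cfsg.Agent.Lib.HermMat Cfsg.Agent.Lib.ClThreeTransU Cfsg.Agent.Lib.SU6K4
open Cfsg.Agent.Lib.U43 Cfsg.Agent.Lib.H97Fa Cfsg.Agent.Lib.H97FaF Cfsg.Agent.Lib.H97FaG Cfsg.Agent.Lib.H97FaI Cfsg.Agent.Lib.LargeExtra
open Cfsg.Agent.Lib.H97FbY Cfsg.Agent.Lib.H97FbU Cfsg.Agent.Lib.H97FbV Cfsg.Agent.Lib.H97FbM Cfsg.Agent.Lib.H97Fe0 Cfsg.Agent.Lib.H97FeC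

variable {G' : Type u} [Group G'] [Finite G'] {z : G'} {Q : Subgroup (Subgroup.centralizer ({z} : Set G'))} [Q.Normal]
    {V : Type u} [AddCommGroup V] {q : V → ZMod 2} {b : V → V → ZMod 2}
    {ρ : Subgroup.centralizer ({z} : Set G') →* AddMonoid.End V} {π : Q → V} {M : Subgroup (Subgroup.centralizer ({z} : Set G'))}
    {Φ : V6 ≃+ V} {R : M →* G} {D : Dat (zz z) Q q b ρ π M Φ R} {Q' Q₁ : Subgroup G'} {g s y : G'} {r : Q}
    {x : Subgroup.centralizer ({z} : Set G')}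

theorem t2 (C : Cx D Q' Q₁ g s y r x) :
    ∃ x, x * z = z * x ∧ x * s * x⁻¹ = y ∧ (x * y * x⁻¹ = y * s ∨ x * y * x⁻¹ = y * z * s) := by
  have hnorm : ∀ a : Subgroup.centralizer ({z} : Set G'), a ∈ Q → x * a * x⁻¹ ∈ Q := fun a ha => Subgroup.Normal.conj_mem ‹_› a ha x
  set y0 : Q := ⟨x * r * x⁻¹, hnorm _ r.2⟩ with hy0
  set y1 : Q := ⟨x * y0 * x⁻¹, hnorm _ y0.2⟩ with hy1
  have hr : π r = Φ w4 := by
    have := C.hr
    unfold co at this
    rw [← this, AddEquiv.apply_symm_apply]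
  have h0 : π y0 = Φ (om • w4) := by
    rw [← D.act x r y0 rfl, hr, C.hx]
  have h1 : π y1 = Φ (om • (om • w4)) := by
    rw [← D.act x y0 y1 rfl, h0, C.hx]
  have hom2 : om * om = om + 1 := by decide
  have h2 : π (y0 * r) = π y1 := by
    rw [D.mul, h0, hr, h1, ← map_add, smul_smul, hom2, add_smul, one_smul]
  have hxz : (x : G') * z = z * x := by
    exact (Subgroup.mem_centralizer_singleton_iff.1 x.2)
  have hyc : y * z = z * y := by
    rw [C.hy]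
    exact (Subgroup.mem_centralizer_singleton_iff.1 (x * r * x⁻¹).2)
  have hyv : y = ((y0 : Subgroup.centralizer ({z} : Set G')) : G') := C.hy
  have hy1v : (x : G') * y * (x : G')⁻¹ = ((y1 : Subgroup.centralizer ({z} : Set G')) : G') := by
    rw [hyv]; rfl
  refine ⟨x, hxz, ?_, ?_⟩
  · rw [C.hs, C.hy]; rfl
  · rw [hy1v]
    rcases (D.eqv y1 (y0 * r)).1 h2.symm with h | h
    · left
      rw [h, hyv, C.hs]; rfl
    · right
      rw [hyc, mul_assoc, h, hyv, C.hs]; rfl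

end Cfsg.Agent.Lib.H97FeD6
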