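import Cfsg.Agent.Lib.H97FeC

/-! S5445, FE-D7 (helper39). -/

set_option autoImplicit false
set_option linter.all false

universe u

namespace Cfsg.Agent.Lib.H97FeD7

open Matrix Cfsg Cfsg.Agent.Lib.K4 Cfsg.Agent.Lib.HermMat Cfsg.Agent.Lib.ClThreeTransU Cfsg.Agent.Lib.SU6K4
open Cfsg.Agent.Lib.U43 Cfsg.Agent.Lib.H97Fa Cfsg.Agent.Lib.H97FaF Cfsg.Agent.Lib.H97FaG Cfsg.Agent.Lib.H97FaI Cfsg.Agent.Lib.LargeExtra
open Cfsg.Agent.Lib.H97FbY Cfsg.Agent.Lib.H97FbU Cfsg.Agent.Lib.H97FbV Cfsg.Agent.Lib.H97FbM Cfsg.Agent.Lib.H97Fe0 Cfsg.Agent.Lib.H97FeC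

section
variable {G' : Type u} [Group G'] [Finite G'] {z : G'} {Q : Subgroup (Subgroup.centralizer ({z} : Set G'))} [Q.Normal]
    {V : Type u} [AddCommGroup V] {q : V → ZMod 2} {b : V → V → ZMod 2}
    {ρ : Subgroup.centralizer ({z} : Set G') →* AddMonoid.End V} {π : Q → V} {M : Subgroup (Subgroup.centralizer ({z} : Set G'))}
    {Φ : V6 ≃+ V} {R : M →* G} {D : Dat (zz z) Q q b ρ π M Φ R} {Q' Q₁ : Subgroup G'} {g s y : G'} {r : Q}
    {x : Subgroup.centralizer ({z} : Set G')}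

theorem w4_ne0 : om • w4 ≠ (0 : V6) := by decide
theorem w4_ne1 : om • w4 ≠ w4 := by decide
theorem w4_add : om' • w4 = om • w4 + w4 := by decide
theorem K4_cases : ∀ c : K4, c = 0 ∨ c = 1 ∨ c = om ∨ c = om' := by decide

theorem t1 (C : Cx D Q' Q₁ g s y r x) (hy : y ∈ Q₁) (hz : z ∈ Q₁) (hlin : ∀ c, c * z = z * c → c * s = s * c → O4 z s y (c * y * c⁻¹)) 
    (hK : ∀ y : V6, (∀ g ∈ K0, mt g *ᵥ w4 = w4 → mt g *ᵥ y = y ∨ mt g *ᵥ y = y + w4) → ∃ c : K4, y = c • w4) :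
    ∃ k, k * z * k⁻¹ = s ∧ k * s * k⁻¹ = z ∧ O4 z s y (k * y * k⁻¹) ∧ ∀ a ∈ Q', k * a * k⁻¹ ∈ Q₁ := by
  have hiso := (D.iso r).1 (by rw [C.hr]; exact iso_w4)
  have hrz : (r : Subgroup.centralizer ({z} : Set G')) ≠ zz z := hiso.2
  have hr1 : (r : Subgroup.centralizer ({z} : Set G')) ≠ 1 := by
    intro h
    have h1 := hiso.1
    rw [h, orderOf_one] at h1
    omega
  have hsne : s ≠ z := by
    intro h
    apply hrz
    apply Subtype.ext
    show ((r : Subgroup.centralizer ({z} : Set G')) : G') = z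
    rw [← C.hs]; exact h
  have hπr : π r = Φ w4 := by
    have h1 : Φ (co π Φ r) = π r := by rw [co, Φ.apply_symm_apply]
    rw [← h1, C.hr]
  have hcomm : ∀ h : Subgroup.centralizer ({z} : Set G'), (h : G') * z = z * h := fun h =>
    Subgroup.mem_centralizer_singleton_iff.1 h.2
  have hmemH : ∀ c : G', c * z = z * c → c ∈ Subgroup.centralizer ({z} : Set G') := fun c hc =>
    Subgroup.mem_centralizer_singleton_iff.2 hc
  have hQ'mem : ∀ a ∈ Q', ∃ a0 : Q, ((a0 : Subgroup.centralizer ({z} : Set G')) : G') = a := by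
    intro a ha
    rw [C.hQ'] at ha
    obtain ⟨a0, ha0, hae⟩ := ha
    exact ⟨⟨a0, ha0⟩, hae⟩
  have hQ'mem' : ∀ a0 : Q, ((a0 : Subgroup.centralizer ({z} : Set G')) : G') ∈ Q' := by
    intro a0
    rw [C.hQ']
    exact ⟨a0, a0.2, rfl⟩
  have hQn : ∀ c, c * z = z * c → ∀ a ∈ Q', c * a * c⁻¹ ∈ Q' := by
    intro c hc a ha
    obtain ⟨a0, rfl⟩ := hQ'mem a ha
    have h1 : (⟨c, hmemH c hc⟩ : Subgroup.centralizer ({z} : Set G')) * a0 * (⟨c, hmemH c hc⟩)⁻¹ ∈ Q :=
      (inferInstance : Q.Normal).conj_mem _ a0.2 _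
    exact hQ'mem' ⟨_, h1⟩
  -- t
  have hz' := hz
  rw [C.hQ₁] at hz'
  obtain ⟨t, htQ', htz'⟩ := hz'
  have htz : g * t * g⁻¹ = z := htz'
  obtain ⟨t0, ht0⟩ := hQ'mem t htQ'
  have htc : t ∈ Subgroup.centralizer ({z} : Set G') := ht0 ▸ (t0 : Subgroup.centralizer ({z} : Set G')).2
  have htne : t ≠ z := by
    intro h
    apply hsne
    rw [← C.hg, ← htz, h]
    rw [h] at htz
    exact htz.symm ▸ (by rw [htz])
  have hsc : s ∈ Subgroup.centralizer ({z} : Set G') := by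
    rw [C.hs]; exact (r : Subgroup.centralizer ({z} : Set G')).2
  have hsQ : ∃ hsc : s ∈ Subgroup.centralizer ({z} : Set G'), (⟨s, hsc⟩ : Subgroup.centralizer ({z} : Set G')) ∈ Q := by
    refine ⟨hsc, ?_⟩
    have : (⟨s, hsc⟩ : Subgroup.centralizer ({z} : Set G')) = r := Subtype.ext C.hs
    rw [this]; exact r.2
  have htQ : ∃ htc : t ∈ Subgroup.centralizer ({z} : Set G'), (⟨t, htc⟩ : Subgroup.centralizer ({z} : Set G')) ∈ Q := by
    refine ⟨htc, ?_⟩
    have : (⟨t, htc⟩ : Subgroup.centralizer ({z} : Set G')) = t0 := Subtype.ext ht0.symm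
    rw [this]; exact t0.2
  have hczs : IsConj z s := isConj_iff.2 ⟨g, C.hg⟩
  have hczt : IsConj z t := isConj_iff.2 ⟨g⁻¹, by rw [← htz]; group⟩
  obtain ⟨h0, hh0, hh⟩ := S5441_of (fun P h1 h2 h3 h4 => Cfsg.Agent.Lib.H97FbS.no_two P h1 h2 h3 h4) C.hF s t hsQ htQ hczs hczt hsne htne
  have hh0z : h0 * z = z * h0 := Subgroup.mem_centralizer_singleton_iff.1 hh0
  obtain ⟨k, hk⟩ : ∃ k, k = g * h0 := ⟨_, rfl⟩
  have hkz : k * z * k⁻¹ = s := by
    have h1 : k * z * k⁻¹ = g * (h0 * z * h0⁻¹) * g⁻¹ := by rw [hk]; group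
    rw [h1, hh0z, mul_inv_cancel_right, C.hg]
  have hks : k * s * k⁻¹ = z := by
    have h1 : k * s * k⁻¹ = g * (h0 * s * h0⁻¹) * g⁻¹ := by rw [hk]; group
    rw [h1, hh, htz]
  have hkQ : ∀ a ∈ Q', k * a * k⁻¹ ∈ Q₁ := by
    intro a ha
    rw [C.hQ₁]
    refine ⟨h0 * a * h0⁻¹, hQn h0 hh0z a ha, ?_⟩
    show g * (h0 * a * h0⁻¹) * g⁻¹ = _
    rw [hk]; group
  refine ⟨k, hkz, hks, ?_, hkQ⟩
  -- w
  have hy' := hy
  rw [C.hQ₁] at hy'
  obtain ⟨y1, hy1, hy1e'⟩ := hy'
  have hy1e : g * y1 * g⁻¹ = y := hy1e'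
  have hkg : k * g * z = z * (k * g) := by
    have h1 : k * g * z * (k * g)⁻¹ = z := by
      have h2 : k * g * z * (k * g)⁻¹ = k * (g * z * g⁻¹) * k⁻¹ := by group
      rw [h2, C.hg, hks]
    exact mul_inv_eq_iff_eq_mul.1 h1
  have hwQ' : k * y * k⁻¹ ∈ Q' := by
    have h1 : k * y * k⁻¹ = k * g * y1 * (k * g)⁻¹ := by rw [← hy1e]; group
    rw [h1]; exact hQn _ hkg y1 hy1
  obtain ⟨w0, hw0⟩ := hQ'mem _ hwQ'
  have key := hK (co π Φ w0) (by
    intro gm hgm hfix
    rw [← C.hR] at hgm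
    obtain ⟨m, rfl⟩ := hgm
    obtain ⟨m', hm', hm'r⟩ := comm_of_fix D r hr1 hrz m (by rw [C.hr]; exact hfix)
    rw [← hm']
    obtain ⟨c, hc⟩ : ∃ c : G', c = ((m' : Subgroup.centralizer ({z} : Set G')) : G') := ⟨_, rfl⟩
    have hcz : c * z = z * c := by rw [hc]; exact hcomm _
    have hcs : c * s = s * c := by rw [hc, C.hs]; exact congrArg Subtype.val hm'r
    have e1 : k⁻¹ * s * k = z := by rw [← hkz]; group
    have e2 : k⁻¹ * z * k = s := by rw [← hks]; group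
    have h1 := hlin (k⁻¹ * c * k) (by
      rw [← e1]
      have : k⁻¹ * c * k * (k⁻¹ * s * k) = k⁻¹ * (c * s) * k := by group
      rw [this, hcs]; group) (by
      rw [← e2]
      have : k⁻¹ * c * k * (k⁻¹ * z * k) = k⁻¹ * (c * z) * k := by group
      rw [this, hcz]; group)
    have hcw' : ∀ X, k⁻¹ * c * k * y * (k⁻¹ * c * k)⁻¹ = X → c * (k * y * k⁻¹) * c⁻¹ = k * X * k⁻¹ := by
      rintro X rfl; group
    obtain ⟨w1, hw1⟩ : ∃ w1 : Q, (w1 : Subgroup.centralizer ({z} : Set G')) = m' * w0 * (m' : Subgroup.centralizer ({z} : Set G'))⁻¹ :=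
      ⟨⟨_, (inferInstance : Q.Normal).conj_mem _ w0.2 _⟩, rfl⟩
    have hact := D.act (m' : Subgroup.centralizer ({z} : Set G')) w0 w1 hw1
    have hrep := D.rep m' (co π Φ w0)
    have hcow : Φ (co π Φ w0) = π w0 := by rw [co, Φ.apply_symm_apply]
    rw [hcow, hact] at hrep
    have hw1G : ((w1 : Subgroup.centralizer ({z} : Set G')) : G') = c * (k * y * k⁻¹) * c⁻¹ := by
      rw [hw1, ← hw0, hc]; rfl
    have hfin0 : π w1 = π w0 → mt (R m') *ᵥ co π Φ w0 = co π Φ w0 := by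
      intro h
      apply Φ.injective
      rw [hrep, h, hcow]
    have hfin1 : π w1 = π w0 + π r → mt (R m') *ᵥ co π Φ w0 = co π Φ w0 + w4 := by
      intro h
      apply Φ.injective
      rw [hrep, h, map_add, hcow, hπr]
    have hwz : z * (k * y * k⁻¹) = (k * y * k⁻¹) * z := by rw [← hw0]; exact (hcomm _).symm
    rcases h1 with h1 | h1 | h1 | h1
    · left
      apply hfin0
      rw [D.eqv]
      left
      apply Subtype.ext
      rw [hw1G, hcw' _ h1, hw0]
    · right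
      apply hfin1
      rw [← D.mul, D.eqv]
      left
      apply Subtype.ext
      show ((w1 : Subgroup.centralizer ({z} : Set G')) : G') = ((w0 : Subgroup.centralizer ({z} : Set G')) : G') * ((r : Subgroup.centralizer ({z} : Set G')) : G')
      rw [hw1G, hcw' _ h1, hw0, ← C.hs]
      have h2 : k * (y * z) * k⁻¹ = (k * y * k⁻¹) * (k * z * k⁻¹) := by group
      rw [h2, hkz]
    · left
      apply hfin0
      rw [D.eqv]
      right
      apply Subtype.ext
      show ((w1 : Subgroup.centralizer ({z} : Set G')) : G') = z * ((w0 : Subgroup.centralizer ({z} : Set G')) : G')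
      rw [hw1G, hcw' _ h1, hw0, hwz]
      have h2 : k * (y * s) * k⁻¹ = (k * y * k⁻¹) * (k * s * k⁻¹) := by group
      rw [h2, hks]
    · right
      apply hfin1
      rw [← D.mul, D.eqv]
      right
      apply Subtype.ext
      show ((w1 : Subgroup.centralizer ({z} : Set G')) : G') = z * (((w0 : Subgroup.centralizer ({z} : Set G')) : G') * ((r : Subgroup.centralizer ({z} : Set G')) : G'))
      rw [hw1G, hcw' _ h1, hw0, ← C.hs]
      have h2 : k * (y * z * s) * k⁻¹ = (k * y * k⁻¹) * (k * z * k⁻¹) * (k * s * k⁻¹) := by group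
      rw [h2, hkz, hks]
      have h3 : s * z = z * s := Subgroup.mem_centralizer_singleton_iff.1 hsc
      rw [mul_assoc, h3, ← mul_assoc, ← hwz]; group)
  obtain ⟨c4, hc4⟩ := key
  have hcow : Φ (co π Φ w0) = π w0 := by rw [co, Φ.apply_symm_apply]
  rw [hc4] at hcow
  obtain ⟨y0, hy0⟩ : ∃ y0 : Q, (y0 : Subgroup.centralizer ({z} : Set G')) = x * r * x⁻¹ :=
    ⟨⟨_, (inferInstance : Q.Normal).conj_mem _ r.2 _⟩, rfl⟩
  have hy0G : ((y0 : Subgroup.centralizer ({z} : Set G')) : G') = y := by rw [hy0, C.hy]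
  have hπy : π y0 = Φ (om • w4) := by rw [← D.act x r y0 hy0, hπr, C.hx]
  have hA : y = 1 ∨ y = z → False := by
    intro h
    have h1 : π y0 = π 1 := by
      rw [D.eqv]
      rcases h with h | h
      · left; apply Subtype.ext; rw [hy0G, h]; rfl
      · right; apply Subtype.ext; rw [hy0G, h]; exact (mul_one z).symm
    rw [D.π_one, hπy] at h1
    exact w4_ne0 (Φ.injective (by rw [h1, map_zero]))
  have hB : y = s ∨ y = z * s → False := by
    intro h
    have h1 : π y0 = π r := by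
      rw [D.eqv]
      rcases h with h | h
      · left; apply Subtype.ext; rw [hy0G, h]; exact C.hs
      · right; apply Subtype.ext; rw [hy0G, h]; show z * s = z * _; rw [C.hs]
    rw [hπy, hπr] at h1
    exact w4_ne1 (Φ.injective h1)
  have hyk : y = k⁻¹ * (k * y * k⁻¹) * k := by group
  have e1 : k⁻¹ * s * k = z := by rw [← hkz]; group
  have e2 : k⁻¹ * z * k = s := by rw [← hks]; group
  have hyz : z * y = y * z := by rw [← hy0G]; exact (hcomm _).symm
  rcases K4_cases c4 with rfl | rfl | rfl | rfl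
  · exfalso
    rw [zero_smul, map_zero, ← D.π_one, eq_comm, D.eqv] at hcow
    rcases hcow with h | h
    · have h1 : k * y * k⁻¹ = 1 := by rw [← hw0, h]; rfl
      rw [h1] at hyk
      exact hA (Or.inl (by rw [hyk]; group))
    · have h1 : k * y * k⁻¹ = z := by rw [← hw0, h]; exact mul_one z
      rw [h1, e2] at hyk
      exact hB (Or.inl hyk)
  · exfalso
    rw [one_smul, ← hπr, eq_comm, D.eqv] at hcow
    rcases hcow with h | h
    · have h1 : k * y * k⁻¹ = s := by rw [← hw0, h, C.hs]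
      rw [h1, e1] at hyk
      exact hA (Or.inr hyk)
    · have h1 : k * y * k⁻¹ = z * s := by rw [← hw0, h, C.hs]; rfl
      have h2 : k⁻¹ * (z * s) * k = (k⁻¹ * z * k) * (k⁻¹ * s * k) := by group
      rw [h1, h2, e1, e2] at hyk
      exact hB (Or.inr (by rw [hyk]; exact Subgroup.mem_centralizer_singleton_iff.1 hsc))
  · rw [← hπy, eq_comm, D.eqv] at hcow
    rcases hcow with h | h
    · left; rw [← hw0, h, hy0G]
    · right; left
      rw [← hw0, h]
      show z * ((y0 : Subgroup.centralizer ({z} : Set G')) : G') = y * z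
      rw [hy0G, hyz]
  · rw [w4_add, map_add, ← hπy, ← hπr, ← D.mul, eq_comm, D.eqv] at hcow
    rcases hcow with h | h
    · right; right; left
      rw [← hw0, h]
      show ((y0 : Subgroup.centralizer ({z} : Set G')) : G') * ((r : Subgroup.centralizer ({z} : Set G')) : G') = y * s
      rw [hy0G, C.hs]
    · right; right; right
      rw [← hw0, h]
      show z * (((y0 : Subgroup.centralizer ({z} : Set G')) : G') * ((r : Subgroup.centralizer ({z} : Set G')) : G')) = y * z * s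
      rw [hy0G, ← C.hs, ← mul_assoc, hyz]

end

end Cfsg.Agent.Lib.H97FeD7
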