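import Cfsg.Agent.Lib.H97Fe0

/-! S5445, piece FE-L2 (helper3): commutators from duality. -/

set_option autoImplicit false
open Cfsg Cfsg.Agent.Lib.H97Fe0

namespace Cfsg.Agent.Lib.H97FeL2

theorem exists_nc {G : Type*} [Group G] [Finite G] {Q : Subgroup G} {z : G} (h : LE Q z) (B : Subgroup G) (hB : B ≤ Q)
    (hz : z ∈ B) {y : G} (hy : y ∈ Q) (hyB : y ∉ B) : ∃ a ∈ Q, (∀ b ∈ B, b * a = a * b) ∧ a * y ≠ y * a := by
  by_contra hcon
  push Not at hcon
  have hB' : B ⊔ Subgroup.zpowers y ≤ Q := sup_le hB (Subgroup.zpowers_le.mpr hy)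
  have e : Q ⊓ Subgroup.centralizer (B : Set G) = Q ⊓ Subgroup.centralizer ((B ⊔ Subgroup.zpowers y : Subgroup G) : Set G) := by
    apply le_antisymm
    · rintro a ⟨ha, hac⟩
      refine ⟨ha, ?_⟩
      have hac : ∀ b ∈ (B : Set G), b * a = a * b := Subgroup.mem_centralizer_iff.mp hac
      have h1 : B ⊔ Subgroup.zpowers y ≤ Subgroup.centralizer ({a} : Set G) := by
        refine sup_le ?_ ?_
        · intro b hb
          rw [Subgroup.mem_centralizer_singleton_iff]
          first
            | exact hac b hb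
            | exact (hac b hb).symm
        · rw [Subgroup.zpowers_le, Subgroup.mem_centralizer_singleton_iff]
          first
            | exact hcon a ha hac
            | exact (hcon a ha hac).symm
      refine Subgroup.mem_centralizer_iff.mpr ?_
      intro w hw
      have h2 := h1 hw
      rw [Subgroup.mem_centralizer_singleton_iff] at h2
      first
        | exact h2
        | exact h2.symm
    · exact inf_le_inf_left _ (Subgroup.centralizer_le (fun x hx => (le_sup_left : B ≤ _) hx))
  have d1 := h.dual B hB hz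
  have d2 := h.dual _ hB' ((le_sup_left : B ≤ _) hz)
  rw [← e] at d2
  have hpos : 0 < Nat.card ↥(Q ⊓ Subgroup.centralizer (B : Set G)) := Nat.card_pos
  have hc : Nat.card B = Nat.card ↥(B ⊔ Subgroup.zpowers y) := by
    rw [← d2] at d1
    exact Nat.eq_of_mul_eq_mul_left hpos d1
  have hEq : B = B ⊔ Subgroup.zpowers y := Subgroup.eq_of_le_of_card_ge le_sup_left hc.ge
  apply hyB
  rw [hEq]
  exact (le_sup_right : Subgroup.zpowers y ≤ _) (Subgroup.mem_zpowers y)

theorem comm_z {G : Type*} [Group G] {Q : Subgroup G} {z : G} (h : LE Q z) {a y : G} (ha : a ∈ Q) (hy : y ∈ Q)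
    (hn : a * y ≠ y * a) : a * y * a⁻¹ = z * y := by
  rcases h.comm a ha y hy with h1 | h1
  · exfalso
    apply hn
    calc a * y = (a * y * a⁻¹ * y⁻¹) * (y * a) := by group
      _ = y * a := by rw [h1, one_mul]
  · rw [← h1]; group

theorem adj {G : Type*} [Group G] [Finite G] {Q : Subgroup G} {z s : G} (h : LE Q z) (hs : s ∈ Q) (hss : s * s = 1) (hs1 : s ≠ 1) (hsz : s ≠ z) :
    (∃ a ∈ Q, a * s * a⁻¹ = z * s) ∧ ∀ y ∈ Q, y ≠ 1 → y ≠ z → y ≠ s → y ≠ z * s → ∃ a ∈ Q, a * s = s * a ∧ a * y * a⁻¹ = y * z := by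
  have hzz := h.zz
  have hsz' : s * z = z * s := h.cen s hs
  constructor
  · let B : Subgroup G :=
      { carrier := {w | w = 1 ∨ w = z}
        one_mem' := Or.inl rfl
        mul_mem' := by
          rintro a b (rfl | rfl) (rfl | rfl)
          · exact Or.inl (one_mul 1)
          · exact Or.inr (one_mul _)
          · exact Or.inr (mul_one _)
          · exact Or.inl hzz
        inv_mem' := by
          rintro a (rfl | rfl)
          · exact Or.inl inv_one
          · exact Or.inr (inv_eq_of_mul_eq_one_left hzz) }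
    have hB : B ≤ Q := by
      rintro w (rfl | rfl)
      · exact Q.one_mem
      · exact h.zQ
    obtain ⟨a, ha, -, hn⟩ := exists_nc h B hB (Or.inr rfl) hs (by
      rintro (h1 | h1)
      · exact hs1 h1
      · exact hsz h1)
    exact ⟨a, ha, comm_z h ha hs hn⟩
  · intro y hy y1 yz ys yzs
    let B : Subgroup G :=
      { carrier := {w | w = 1 ∨ w = z ∨ w = s ∨ w = z * s}
        one_mem' := Or.inl rfl
        mul_mem' := by
          have a1 : z * (z * s) = s := by rw [← mul_assoc, hzz, one_mul]
          have a2 : s * (z * s) = z := by rw [← hsz', ← mul_assoc, hss, one_mul]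
          have a3 : z * s * z = s := by rw [← hsz', mul_assoc, hzz, mul_one]
          have a4 : z * s * s = z := by rw [mul_assoc, hss, mul_one]
          have a5 : z * s * (z * s) = 1 := by rw [mul_assoc, a2, hzz]
          intro a b ha hb
          have ha' : a = 1 ∨ a = z ∨ a = s ∨ a = z * s := ha
          have hb' : b = 1 ∨ b = z ∨ b = s ∨ b = z * s := hb
          change a * b = 1 ∨ a * b = z ∨ a * b = s ∨ a * b = z * s
          rcases ha' with rfl | rfl | rfl | rfl <;> rcases hb' with rfl | rfl | rfl | rfl <;>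
            simp only [one_mul, mul_one, hzz, hss, hsz', a1, a2, a3, a4, a5, true_or, or_true]
        inv_mem' := by
          have a5 : z * s * (z * s) = 1 := by
            rw [mul_assoc, ← hsz', ← mul_assoc s s z, hss, one_mul, hzz]
          intro a ha
          have ha' : a = 1 ∨ a = z ∨ a = s ∨ a = z * s := ha
          change a⁻¹ = 1 ∨ a⁻¹ = z ∨ a⁻¹ = s ∨ a⁻¹ = z * s
          rcases ha' with rfl | rfl | rfl | rfl
          · exact Or.inl inv_one
          · exact Or.inr (Or.inl (inv_eq_of_mul_eq_one_left hzz))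
          · exact Or.inr (Or.inr (Or.inl (inv_eq_of_mul_eq_one_left hss)))
          · exact Or.inr (Or.inr (Or.inr (inv_eq_of_mul_eq_one_left a5))) }
    have hB : B ≤ Q := by
      intro w hw
      have hw' : w = 1 ∨ w = z ∨ w = s ∨ w = z * s := hw
      rcases hw' with rfl | rfl | rfl | rfl
      · exact Q.one_mem
      · exact h.zQ
      · exact hs
      · exact Q.mul_mem h.zQ hs
    obtain ⟨a, ha, hc, hn⟩ := exists_nc h B hB (Or.inr (Or.inl rfl)) hy (by
      rintro (h1 | h1 | h1 | h1)
      · exact y1 h1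
      · exact yz h1
      · exact ys h1
      · exact yzs h1)
    refine ⟨a, ha, (hc s (Or.inr (Or.inr (Or.inl rfl)))).symm, ?_⟩
    rw [comm_z h ha hy hn, h.cen y hy]

end Cfsg.Agent.Lib.H97FeL2
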