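import Cfsg.Agent.Lib.H97FeC
import Cfsg.Agent.Lib.H97FeL2
set_option autoImplicit false
set_option linter.all false
universe u
open Matrix Cfsg Cfsg.Agent.Lib.K4 Cfsg.Agent.Lib.HermMat Cfsg.Agent.Lib.ClThreeTransU Cfsg.Agent.Lib.SU6K4
open Cfsg.Agent.Lib.U43 Cfsg.Agent.Lib.H97Fa Cfsg.Agent.Lib.H97FaF Cfsg.Agent.Lib.H97FaG Cfsg.Agent.Lib.H97FaI Cfsg.Agent.Lib.LargeExtra
open Cfsg.Agent.Lib.H97FbY Cfsg.Agent.Lib.H97FbU Cfsg.Agent.Lib.H97FbV Cfsg.Agent.Lib.H97FbM Cfsg.Agent.Lib.H97Fe0 Cfsg.Agent.Lib.H97FeC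

namespace Cfsg.Agent.Lib.H97FeD8b

variable {G' : Type u} [Group G'] [Finite G'] {z : G'} {Q : Subgroup (Subgroup.centralizer ({z} : Set G'))} [Q.Normal]
    {V : Type u} [AddCommGroup V] {q : V → ZMod 2} {b : V → V → ZMod 2}
    {ρ : Subgroup.centralizer ({z} : Set G') →* AddMonoid.End V} {π : Q → V} {M : Subgroup (Subgroup.centralizer ({z} : Set G'))}
    {Φ : V6 ≃+ V} {R : M →* G} {D : Dat (zz z) Q q b ρ π M Φ R} {Q' Q₁ : Subgroup G'} {g s y : G'} {r : Q}
    {x : Subgroup.centralizer ({z} : Set G')}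

theorem om_w4 : om • w4 ≠ (0 : V6) ∧ om • w4 ≠ w4 := by constructor <;> decide

theorem hom (C : Cx D Q' Q₁ g s y r x) (e0 : LE Q' z) (e1 : LE Q₁ s) (hy : y ∈ Q₁) (hz : z ∈ Q₁)
    (hsemi : ∀ h : Subgroup.centralizer ({z} : Set G'), h ∉ M → ∀ v, ρ h (Φ (om • v)) = Φ (om' • Φ.symm (ρ h (Φ v)))) :
    ∃ φ : ↥(Subgroup.centralizer ({z, s, y} : Set G')) →* alternatingGroup (Fin 6), Function.Surjective φ ∧
    ∀ c, φ c = 1 ↔ ∃ a ∈ Q', ∃ b ∈ Q₁, b * z = z * b ∧ (c : G') = a * b := by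
  classical
  have hQn : Q.Normal := inferInstance
  have hF := C.hF
  have hπr : π r = Φ w4 := by rw [← C.hr]; exact (Φ.apply_symm_apply _).symm
  obtain ⟨y', hy'⟩ : ∃ y' : Q, y' = ⟨x * r * x⁻¹, hQn.conj_mem _ r.2 x⟩ := ⟨_, rfl⟩
  have hy'c : (y' : Subgroup.centralizer ({z} : Set G')) = x * r * x⁻¹ := by rw [hy']
  have hyy' : y = ((y' : Subgroup.centralizer ({z} : Set G')) : G') := by rw [C.hy, hy'c]
  have hπy : π y' = Φ (om • w4) := by rw [← D.act x r y' hy'c, hπr, C.hx]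
  have hzz : ((zz z : Subgroup.centralizer ({z} : Set G')) : G') = z := rfl
  have hsr := C.hs
  have hπ0 : π 1 = 0 := D.π_one
  have hsz : s ≠ z := by
    intro h
    have h1 : (r : Subgroup.centralizer ({z} : Set G')) = zz z := Subtype.ext (by rw [hzz, ← hsr, h])
    have h2 : π r = π 1 := (D.eqv _ _).2 (Or.inr (by rw [Subgroup.coe_one, mul_one]; exact h1))
    rw [hπr, hπ0, EmbeddingLike.map_eq_zero_iff] at h2
    exact iso_w4.1 h2
  have hy1 : y ≠ 1 := by
    intro h
    have h1 : (y' : Subgroup.centralizer ({z} : Set G')) = 1 := Subtype.ext (by rw [← hyy', h]; rfl)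
    have h2 : π y' = π 1 := (D.eqv _ _).2 (Or.inl (by rw [Subgroup.coe_one]; exact h1))
    rw [hπy, hπ0, EmbeddingLike.map_eq_zero_iff] at h2
    exact om_w4.1 h2
  have hyz : y ≠ z := by
    intro h
    have h1 : (y' : Subgroup.centralizer ({z} : Set G')) = zz z := Subtype.ext (by rw [← hyy', h, hzz])
    have h2 : π y' = π 1 := (D.eqv _ _).2 (Or.inr (by rw [Subgroup.coe_one, mul_one]; exact h1))
    rw [hπy, hπ0, EmbeddingLike.map_eq_zero_iff] at h2
    exact om_w4.1 h2
  have hys : y ≠ s := by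
    intro h
    have h1 : (y' : Subgroup.centralizer ({z} : Set G')) = r := Subtype.ext (by rw [← hyy', h, hsr])
    have h2 : π y' = π r := (D.eqv _ _).2 (Or.inl h1)
    rw [hπy, hπr] at h2
    exact om_w4.2 (Φ.injective h2)
  have hyzs : y ≠ z * s := by
    intro h
    have h1 : (y' : Subgroup.centralizer ({z} : Set G')) = zz z * r := Subtype.ext (by rw [← hyy', h, hsr]; rfl)
    have h2 : π y' = π r := (D.eqv _ _).2 (Or.inr h1)
    rw [hπy, hπr] at h2
    exact om_w4.2 (Φ.injective h2)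
  have hsQ : s ∈ Q' := by rw [C.hQ', hsr]; exact ⟨r, r.2, rfl⟩
  have hyQ : y ∈ Q' := by rw [C.hQ', hyy']; exact ⟨y', y'.2, rfl⟩
  have hs1 : s ≠ 1 := e1.z1
  have hss : s * s = 1 := e1.zz
  -- the group from S5442
  obtain ⟨X, hX⟩ : ∃ X : Subgroup ((Subgroup.centralizer ({z} : Set G')) ⧸ Q), X = ((Subgroup.centralizer ({z} : Set G') ⊓ Subgroup.centralizer ({s} : Set G')).subgroupOf (Subgroup.centralizer ({z} : Set G'))).map (QuotientGroup.mk' Q) := ⟨_, rfl⟩
  obtain ⟨E, hE⟩ : ∃ E : Subgroup ((Subgroup.centralizer ({z} : Set G')) ⧸ Q), E = ((((Q.map (Subgroup.centralizer ({z} : Set G')).subtype)).map (MulAut.conj g).toMonoidHom ⊓ Subgroup.centralizer ({z} : Set G')).subgroupOf (Subgroup.centralizer ({z} : Set G'))).map (QuotientGroup.mk' Q) := ⟨_, rfl⟩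
  obtain ⟨-, -, h1, h2, h3, h4, h5, ⟨e⟩⟩ := Cfsg.Agent.Lib.H97FbN.S5442_of Cfsg.Agent.Lib.H97FbS.no_two hF s
    ⟨hsr ▸ r.1.2, by subst hsr; exact r.2⟩ (isConj_iff.2 ⟨g, C.hg⟩) hsz g C.hg X E hX hE
  rw [← C.hQ', ← C.hQ₁] at hE
  -- membership in E
  have hEm : ∀ c : Subgroup.centralizer ({z} : Set G'), QuotientGroup.mk' Q c ∈ E ↔ ∃ a ∈ Q', ∃ b ∈ Q₁, b * z = z * b ∧ (c : G') = a * b := by
    intro c
    rw [hE]
    constructor
    · rintro ⟨d, hd, hdc⟩
      have hd1 : (d : G') ∈ Q₁ := hd.1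
      have h6 : d⁻¹ * c ∈ Q := QuotientGroup.eq.1 hdc
      refine ⟨((d * (d⁻¹ * c) * d⁻¹ : Subgroup.centralizer ({z} : Set G')) : G'), ?_, d, hd1, Subgroup.mem_centralizer_singleton_iff.1 d.2, ?_⟩
      · rw [C.hQ']; exact ⟨_, hQn.conj_mem _ h6 d, rfl⟩
      · rw [← Subgroup.coe_mul]; congr 1; group
    · rintro ⟨a, ha, b, hb, hbz, hc⟩
      rw [C.hQ'] at ha
      obtain ⟨a', ha', rfl⟩ := ha
      refine ⟨⟨b, Subgroup.mem_centralizer_singleton_iff.2 hbz⟩, ⟨hb, Subgroup.mem_centralizer_singleton_iff.2 hbz⟩, ?_⟩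
      apply QuotientGroup.eq.2
      have h6 : c = a' * ⟨b, Subgroup.mem_centralizer_singleton_iff.2 hbz⟩ := Subtype.ext hc
      rw [h6]
      have h7 := hQn.conj_mem a' ha' (⟨b, Subgroup.mem_centralizer_singleton_iff.2 hbz⟩⁻¹)
      rw [inv_inv, mul_assoc] at h7
      exact h7
  -- the homomorphism
  have hcz : ∀ c : ↥(Subgroup.centralizer ({z, s, y} : Set G')), (c : G') * z = z * c ∧ (c : G') * s = s * c ∧ (c : G') * y = y * c := by
    intro c
    have h6 := Subgroup.mem_centralizer_iff.1 c.2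
    exact ⟨(h6 z (by simp)).symm, (h6 s (by simp)).symm, (h6 y (by simp)).symm⟩
  have hle : Subgroup.centralizer ({z, s, y} : Set G') ≤ Subgroup.centralizer ({z} : Set G') :=
    Subgroup.centralizer_le (by simp)
  have hXm : ∀ c : Subgroup.centralizer ({z} : Set G'), (c : G') * s = s * c → QuotientGroup.mk' Q c ∈ X := by
    intro c hc
    rw [hX]
    exact ⟨c, ⟨c.2, Subgroup.mem_centralizer_singleton_iff.2 hc⟩, rfl⟩
  let f1 : ↥(Subgroup.centralizer ({z, s, y} : Set G')) →* X :=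
    ((QuotientGroup.mk' Q).comp (Subgroup.inclusion hle)).codRestrict X (fun c => hXm _ (hcz c).2.1)
  let φ : ↥(Subgroup.centralizer ({z, s, y} : Set G')) →* alternatingGroup (Fin 6) :=
    e.toMonoidHom.comp ((QuotientGroup.mk' (E.subgroupOf X)).comp f1)
  have hφ : ∀ c, φ c = e (QuotientGroup.mk' (E.subgroupOf X) (f1 c)) := fun c => rfl
  refine ⟨φ, ?_, ?_⟩
  · intro w
    obtain ⟨w1, rfl⟩ := e.surjective w
    obtain ⟨⟨w2, hw2⟩, rfl⟩ := QuotientGroup.mk'_surjective _ w1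
    have hw2' := hw2
    rw [hX] at hw2'
    obtain ⟨h, hh, rfl⟩ := hw2'
    have hhs : (h : G') * s = s * h := Subgroup.mem_centralizer_singleton_iff.1 hh.2
    -- linear elements
    have linfix : ∀ k : Subgroup.centralizer ({z} : Set G'), k ∈ M → (k : G') * s = s * k →
        (k : G') * y * (k : G')⁻¹ = y ∨ (k : G') * y * (k : G')⁻¹ = z * y := by
      intro k hkM hks
      have hk1 : ρ k (π r) = π r := by
        apply D.act k r r
        apply Subtype.ext
        rw [Subgroup.coe_mul, Subgroup.coe_mul, ← hsr, hks]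
        rw [Subgroup.coe_inv]; group
      have hk2 : mt (R ⟨k, hkM⟩) *ᵥ w4 = w4 := by
        apply Φ.injective
        rw [D.rep, ← hπr]; exact hk1
      have hk3 : ρ k (π y') = π y' := by
        have h6 := D.rep ⟨k, hkM⟩ (om • w4)
        rw [Matrix.mulVec_smul, hk2] at h6
        rw [hπy]; exact h6.symm
      have hk4 := D.act k y' ⟨k * y' * k⁻¹, hQn.conj_mem _ y'.2 k⟩ rfl
      rw [hk3, eq_comm, D.eqv] at hk4
      rcases hk4 with h6 | h6
      · left
        have h7 := congrArg Subtype.val h6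
        rw [hyy']; exact h7
      · right
        have h7 := congrArg Subtype.val h6
        rw [hyy']; exact h7
    -- an element of Q₁ outside M
    have hout : ∃ k : Subgroup.centralizer ({z} : Set G'), (k : G') ∈ Q₁ ∧ k ∉ M := by
      obtain ⟨a, ha, haz, hay⟩ := (Cfsg.Agent.Lib.H97FeL2.adj e1 hz e0.zz e0.z1 (Ne.symm hsz)).2 y hy hy1 hys hyz
        (fun h => hyzs (by rw [h]; exact (e1.cen z hz).symm))
      refine ⟨⟨a, Subgroup.mem_centralizer_singleton_iff.2 haz⟩, ha, fun haM => ?_⟩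
      rcases linfix _ haM (e1.cen a ha) with h6 | h6
      · change a * y * a⁻¹ = y at h6
        rw [hay] at h6
        exact hs1 (mul_eq_left.1 h6)
      · change a * y * a⁻¹ = z * y at h6
        rw [hay, ← e0.cen y hyQ] at h6
        exact hsz (mul_left_cancel h6)
    -- WLOG in M
    obtain ⟨h', hh's, hh'M, hh'E⟩ : ∃ h' : Subgroup.centralizer ({z} : Set G'), (h' : G') * s = s * h' ∧ h' ∈ M ∧
        QuotientGroup.mk' Q (h⁻¹ * h') ∈ E := by
      by_cases hM : h ∈ M
      · exact ⟨h, hhs, hM, by rw [inv_mul_cancel]; exact E.one_mem⟩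
      · obtain ⟨k, hk1, hk2⟩ := hout
        refine ⟨h * k, ?_, ?_, ?_⟩
        · have := e1.cen k hk1
          rw [Subgroup.coe_mul, mul_assoc, this, ← mul_assoc, hhs, mul_assoc]
        · exact (Subgroup.mul_mem_iff_of_index_two D.idx).2 ⟨fun h => absurd h hM, fun h => absurd h hk2⟩
        · rw [hEm]
          exact ⟨1, Q'.one_mem, k, hk1, Subgroup.mem_centralizer_singleton_iff.1 k.2, by
            rw [inv_mul_cancel_left, one_mul]⟩
    have hfin : ∀ c : Subgroup.centralizer ({z} : Set G'), (c : G') * s = s * c → (c : G') * y = y * c →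
        QuotientGroup.mk' Q (h⁻¹ * c) ∈ E → ∃ c' : ↥(Subgroup.centralizer ({z, s, y} : Set G')),
          φ c' = e (QuotientGroup.mk' (E.subgroupOf X) ⟨QuotientGroup.mk' Q h, hw2⟩) := by
      intro c hcs hcy hcE
      have hc' : (c : G') ∈ Subgroup.centralizer ({z, s, y} : Set G') := by
        rw [Subgroup.mem_centralizer_iff]
        intro w hw
        simp only [Set.mem_insert_iff, Set.mem_singleton_iff] at hw
        rcases hw with rfl | rfl | rfl
        · exact (Subgroup.mem_centralizer_singleton_iff.1 c.2).symm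
        · exact hcs.symm
        · exact hcy.symm
      refine ⟨⟨c, hc'⟩, ?_⟩
      rw [hφ]
      congr 1
      symm
      apply QuotientGroup.eq.2
      exact hcE
    rcases linfix h' hh'M hh's with h6 | h6
    · exact hfin h' hh's (mul_inv_eq_iff_eq_mul.1 h6) hh'E
    · obtain ⟨a, ha, has, hay⟩ := (Cfsg.Agent.Lib.H97FeL2.adj e0 hsQ hss hs1 hsz).2 y hyQ hy1 hyz hys hyzs
      rw [C.hQ'] at ha
      obtain ⟨a', ha', rfl⟩ := ha
      refine hfin (h' * a') ?_ ?_ ?_
      · rw [Subgroup.coe_mul]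
        change (h' : G') * (a' : G') * s = s * ((h' : G') * (a' : G'))
        have has' : (a' : G') * s = s * a' := has
        rw [mul_assoc, has', ← mul_assoc, hh's, mul_assoc]
      · rw [Subgroup.coe_mul]
        have hay' : (a' : G') * y * (a' : G')⁻¹ = y * z := hay
        have h7 : (a' : G') * y = y * z * a' := mul_inv_eq_iff_eq_mul.1 hay'
        have h8 : (h' : G') * y = z * y * h' := mul_inv_eq_iff_eq_mul.1 h6
        have h9 : (h' : G') * z = z * h' := Subgroup.mem_centralizer_singleton_iff.1 h'.2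
        have h10 : y * z = z * y := e0.cen y hyQ
        calc (h' : G') * (a' : G') * y = h' * (y * z * a') := by rw [mul_assoc, h7]
          _ = (h' * y) * (z * a') := by group
          _ = z * y * (h' * z) * a' := by rw [h8]; group
          _ = (z * y) * z * h' * a' := by rw [h9]; group
          _ = (z * z) * y * h' * a' := by rw [← h10, mul_assoc y z z, e0.zz]; group
          _ = y * (h' * a') := by rw [e0.zz]; group
      · have h7 : QuotientGroup.mk' Q (h⁻¹ * (h' * a')) = QuotientGroup.mk' Q (h⁻¹ * h') := by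
          apply QuotientGroup.eq.2
          have h8 : (h⁻¹ * (h' * a'))⁻¹ * (h⁻¹ * h') = a'⁻¹ := by group
          rw [h8]; exact Q.inv_mem ha'
        rw [h7]; exact hh'E
  · intro c
    rw [hφ, EmbeddingLike.map_eq_one_iff]
    refine Iff.trans ?_ (hEm (Subgroup.inclusion hle c))
    constructor
    · intro h6
      have h7 : f1 c ∈ E.subgroupOf X := (QuotientGroup.eq_one_iff (f1 c)).1 h6
      exact h7
    · intro h6
      have h7 : f1 c ∈ E.subgroupOf X := h6
      exact (QuotientGroup.eq_one_iff (f1 c)).2 h7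

end Cfsg.Agent.Lib.H97FeD8b
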