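import Cfsg.Agent.Lib.H97FeC
set_option autoImplicit false
set_option linter.all false
universe u
open Matrix Cfsg Cfsg.Agent.Lib.K4 Cfsg.Agent.Lib.HermMat Cfsg.Agent.Lib.ClThreeTransU Cfsg.Agent.Lib.SU6K4
open Cfsg.Agent.Lib.U43 Cfsg.Agent.Lib.H97Fa Cfsg.Agent.Lib.H97FaF Cfsg.Agent.Lib.H97FaG Cfsg.Agent.Lib.H97FaI Cfsg.Agent.Lib.LargeExtra
open Cfsg.Agent.Lib.H97FbY Cfsg.Agent.Lib.H97FbU Cfsg.Agent.Lib.H97FbV Cfsg.Agent.Lib.H97FbM Cfsg.Agent.Lib.H97Fe0 Cfsg.Agent.Lib.H97FeC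

namespace Cfsg.Agent.Lib.H97FeD9

section
variable {G' : Type u} [Group G'] [Finite G'] {z : G'} {Q : Subgroup (Subgroup.centralizer ({z} : Set G'))} [Q.Normal]
    {V : Type u} [AddCommGroup V] {q : V → ZMod 2} {b : V → V → ZMod 2}
    {ρ : Subgroup.centralizer ({z} : Set G') →* AddMonoid.End V} {π : Q → V} {M : Subgroup (Subgroup.centralizer ({z} : Set G'))}
    {Φ : V6 ≃+ V} {R : M →* G} {D : Dat (zz z) Q q b ρ π M Φ R} {Q' Q₁ : Subgroup G'} {g s y : G'} {r : Q}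
    {x : Subgroup.centralizer ({z} : Set G')}

theorem w_ne1 : (om • w4 : V6) ≠ om' • w4 := by
  intro h
  have := congrFun h 0
  revert this
  decide
theorem w_ne2 : (om • w4 : V6) ≠ w4 := by
  intro h
  have := congrFun h 0
  revert this
  decide
theorem w_ne3 : (om • w4 : V6) ≠ 0 := by
  intro h
  have := congrFun h 0
  revert this
  decide
theorem w_add : (om' • w4 : V6) = w4 + om • w4 := by
  funext i
  revert i
  decide

theorem linM (C : Cx D Q' Q₁ g s y r x) {c : Subgroup.centralizer ({z} : Set G')} (hc : c ∈ M) (k : K4) (a : V6) :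
    ρ c (Φ (k • a)) = Φ (k • Φ.symm (ρ c (Φ a))) := by
  have h1 := D.rep ⟨c, hc⟩ (k • a)
  have h2 := D.rep ⟨c, hc⟩ a
  rw [Matrix.mulVec_smul] at h1
  have h3 : Φ.symm (ρ c (Φ a)) = mt (R ⟨c, hc⟩) *ᵥ a := by
    rw [AddEquiv.symm_apply_eq]; exact h2.symm
  rw [h3]
  exact h1.symm

theorem pr (C : Cx D Q' Q₁ g s y r x) : π r = Φ w4 := by
  have := C.hr
  unfold co at this
  rw [AddEquiv.symm_apply_eq] at this
  exact this

theorem px (C : Cx D Q' Q₁ g s y r x) (a b' : Q) (h : (b' : Subgroup.centralizer ({z} : Set G')) = x * a * x⁻¹) :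
    π b' = Φ (om • Φ.symm (π a)) := by
  rw [← D.act x a b' h]
  conv_lhs => rw [← Φ.apply_symm_apply (π a)]
  rw [C.hx]

theorem inM (C : Cx D Q' Q₁ g s y r x)
    (hsemi : ∀ h : Subgroup.centralizer ({z} : Set G'), h ∉ M → ∀ v, ρ h (Φ (om • v)) = Φ (om' • Φ.symm (ρ h (Φ v))))
    (c : Subgroup.centralizer ({z} : Set G')) (hs : (c : G') * s = s * c) (hy : (c : G') * y = y * c) : c ∈ M := by
  by_contra hc
  have h1 := hsemi c hc w4
  have e1 : c * r * c⁻¹ = (r : Subgroup.centralizer ({z} : Set G')) := by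
    apply Subtype.ext
    show (c : G') * _ * (c : G')⁻¹ = _
    rw [← C.hs, hs]; group
  have e2 := D.act c r r e1.symm
  let ry : Q := ⟨x * r * x⁻¹, (inferInstance : Q.Normal).conj_mem _ r.2 x⟩
  have e3 : c * ry * c⁻¹ = (ry : Subgroup.centralizer ({z} : Set G')) := by
    apply Subtype.ext
    show (c : G') * ((x * r * x⁻¹ : Subgroup.centralizer ({z} : Set G')) : G') * (c : G')⁻¹ = ((x * r * x⁻¹ : Subgroup.centralizer ({z} : Set G')) : G')
    rw [← C.hy, hy]; group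
  have e4 := D.act c ry ry e3.symm
  have e5 : π ry = Φ (om • w4) := by
    rw [px C r ry rfl, pr C, Φ.symm_apply_apply]
  rw [e5] at e4
  rw [pr C] at e2
  rw [e4, e2, Φ.symm_apply_apply] at h1
  exact w_ne1 (Φ.injective h1)

theorem brk (C : Cx D Q' Q₁ g s y r x) (e0 : LE Q' z) (e1 : LE Q₁ s) (hy : y ∈ Q₁) (hz : z ∈ Q₁)
    (hsemi : ∀ h : Subgroup.centralizer ({z} : Set G'), h ∉ M → ∀ v, ρ h (Φ (om • v)) = Φ (om' • Φ.symm (ρ h (Φ v)))) :
    ∀ x ∈ Q', x * s = s * x → x * y = y * x → ∀ b ∈ Q₁, b * z = z * b → b * y = y * b →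
    x * b * x⁻¹ * b⁻¹ ∈ Subgroup.closure ({z, s, y} : Set G') := by
  intro x' hx' hxs hxy b' hb' hbz hby
  have hQn : Q.Normal := inferInstance
  have hHz : ∀ c : G', c * z = z * c → c ∈ Subgroup.centralizer ({z} : Set G') :=
    fun c hc => Subgroup.mem_centralizer_singleton_iff.2 hc
  have hzH : ∀ c : Subgroup.centralizer ({z} : Set G'), (c : G') * z = z * c :=
    fun c => Subgroup.mem_centralizer_singleton_iff.1 c.2
  have hQmem : ∀ a, a ∈ Q' ↔ ∃ a1 : Q, ((a1 : Subgroup.centralizer ({z} : Set G')) : G') = a := by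
    intro a
    rw [C.hQ']
    constructor
    · rintro ⟨c, hc, rfl⟩; exact ⟨⟨c, hc⟩, rfl⟩
    · rintro ⟨c, rfl⟩; exact ⟨c, c.2, rfl⟩
  have n0 : ∀ c : G', c * z = z * c → ∀ a ∈ Q', c * a * c⁻¹ ∈ Q' := by
    intro c hc a ha
    obtain ⟨a1, rfl⟩ := (hQmem a).1 ha
    exact (hQmem _).2 ⟨⟨⟨c, hHz c hc⟩ * a1 * ⟨c, hHz c hc⟩⁻¹, hQn.conj_mem _ a1.2 _⟩, rfl⟩
  have n1 : ∀ c : G', c * s = s * c → ∀ a ∈ Q₁, c * a * c⁻¹ ∈ Q₁ := by
    intro c hc a ha
    rw [C.hQ₁] at ha ⊢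
    obtain ⟨a0, ha0, rfl⟩ := ha
    have h1 : (g⁻¹ * c * g) * z = z * (g⁻¹ * c * g) := by
      have e : g * z * g⁻¹ = s := C.hg
      calc (g⁻¹ * c * g) * z = g⁻¹ * (c * (g * z * g⁻¹)) * g := by group
        _ = g⁻¹ * ((g * z * g⁻¹) * c) * g := by rw [e, hc]
        _ = z * (g⁻¹ * c * g) := by group
    refine ⟨(g⁻¹ * c * g) * a0 * (g⁻¹ * c * g)⁻¹, n0 _ h1 a0 ha0, ?_⟩
    show g * ((g⁻¹ * c * g) * a0 * (g⁻¹ * c * g)⁻¹) * g⁻¹ = c * (g * a0 * g⁻¹) * c⁻¹
    group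
  have hs := C.hs
  obtain ⟨x1, hx1⟩ := (hQmem x').1 hx'
  -- x''
  have hx2Q : (x : G') * x' * (x : G')⁻¹ ∈ Q' := n0 _ (hzH x) _ hx'
  let x2 : Q := ⟨x * x1 * x⁻¹, hQn.conj_mem _ x1.2 x⟩
  have hx2 : ((x2 : Subgroup.centralizer ({z} : Set G')) : G') = (x : G') * x' * (x : G')⁻¹ := by
    show (x : G') * _ * (x : G')⁻¹ = _
    rw [hx1]
  set x'' : G' := (x : G') * x' * (x : G')⁻¹ with hx''
  -- x'' commutes with s
  have hxz : x' * z = z * x' := e0.cen x' hx'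
  have hx's : x'' * s = s * x'' := by
    let r' : Q := ⟨x⁻¹ * r * x⁻¹⁻¹, hQn.conj_mem _ r.2 x⁻¹⟩
    let ry : Q := ⟨x * r * x⁻¹, hQn.conj_mem _ r.2 x⟩
    have h1 : π r = Φ (om • Φ.symm (π r')) := px C r' r (by
      show (r : Subgroup.centralizer ({z} : Set G')) = x * (x⁻¹ * r * x⁻¹⁻¹) * x⁻¹
      group)
    have h2 : π ry = Φ (om • w4) := by
      rw [px C r ry rfl, pr C, Φ.symm_apply_apply]
    have h3 : π r' = Φ (om' • w4) := by
      rw [pr C] at h1
      have h4 := Φ.injective h1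
      rw [h4, smul_smul]
      have : om' * om = (1 : K4) := by decide
      rw [this, one_smul, Φ.apply_symm_apply]
    have h4 : π r' = π (r * ry) := by
      rw [D.mul, h3, h2, pr C, w_add, map_add]
    have h5 : x' * ((r' : Subgroup.centralizer ({z} : Set G')) : G') = ((r' : Subgroup.centralizer ({z} : Set G')) : G') * x' := by
      have hyy : ((ry : Subgroup.centralizer ({z} : Set G')) : G') = y := C.hy.symm
      have h6 : Commute x' (s * y) := (show Commute x' s from hxs).mul_right hxy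
      rcases (D.eqv r' (r * ry)).1 h4 with h | h
      · have h7 : ((r' : Subgroup.centralizer ({z} : Set G')) : G') = s * y := by
          rw [h]
          show ((r : Subgroup.centralizer ({z} : Set G')) : G') * ((ry : Subgroup.centralizer ({z} : Set G')) : G') = s * y
          rw [hyy, ← hs]
        rw [h7]; exact h6
      · have h7 : ((r' : Subgroup.centralizer ({z} : Set G')) : G') = z * (s * y) := by
          rw [h]
          show z * (((r : Subgroup.centralizer ({z} : Set G')) : G') * ((ry : Subgroup.centralizer ({z} : Set G')) : G')) = z * (s * y)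
          rw [hyy, ← hs]
        rw [h7]; exact (show Commute x' z from hxz).mul_right h6
    have h8 : ((r' : Subgroup.centralizer ({z} : Set G')) : G') = (x : G')⁻¹ * s * x := by
      show (x : G')⁻¹ * ((r : Subgroup.centralizer ({z} : Set G')) : G') * (x : G')⁻¹⁻¹ = _
      rw [← hs, inv_inv]
    rw [h8] at h5
    calc x'' * s = x * (x' * ((x : G')⁻¹ * s * x)) * (x : G')⁻¹ := by rw [hx'']; group
      _ = x * (((x : G')⁻¹ * s * x) * x') * (x : G')⁻¹ := by rw [h5]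
      _ = s * x'' := by rw [hx'']; group
  -- the two commutators
  set u : G' := x' * b' * x'⁻¹ * b'⁻¹ with hu
  set u2 : G' := x'' * b' * x''⁻¹ * b'⁻¹ with hu2
  have huQ₁ : u ∈ Q₁ := Q₁.mul_mem (n1 x' hxs b' hb') (Q₁.inv_mem hb')
  have hu2Q₁ : u2 ∈ Q₁ := Q₁.mul_mem (n1 x'' hx's b' hb') (Q₁.inv_mem hb')
  let b1 : Subgroup.centralizer ({z} : Set G') := ⟨b', hHz b' hbz⟩
  let u1 : Q := ⟨x1 * (b1 * (x1⁻¹ : Q) * b1⁻¹), Q.mul_mem x1.2 (hQn.conj_mem _ (x1⁻¹ : Q).2 b1)⟩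
  let u3 : Q := ⟨x2 * (b1 * (x2⁻¹ : Q) * b1⁻¹), Q.mul_mem x2.2 (hQn.conj_mem _ (x2⁻¹ : Q).2 b1)⟩
  have hu1 : ((u1 : Subgroup.centralizer ({z} : Set G')) : G') = u := by
    show ((x1 : Subgroup.centralizer ({z} : Set G')) : G') * (b' * ((x1 : Subgroup.centralizer ({z} : Set G')) : G')⁻¹ * b'⁻¹) = u
    rw [hx1, hu]; group
  have hu3 : ((u3 : Subgroup.centralizer ({z} : Set G')) : G') = u2 := by
    show ((x2 : Subgroup.centralizer ({z} : Set G')) : G') * (b' * ((x2 : Subgroup.centralizer ({z} : Set G')) : G')⁻¹ * b'⁻¹) = u2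
    rw [hx2, hu2]; group
  have hπinv : ∀ a : Q, π a⁻¹ = - π a := by
    intro a
    have := D.mul a a⁻¹
    rw [mul_inv_cancel, D.π_one] at this
    exact (neg_eq_of_add_eq_zero_right this.symm).symm
  have hcom : ∀ a : Q, π (⟨a * (b1 * (a⁻¹ : Q) * b1⁻¹), Q.mul_mem a.2 (hQn.conj_mem _ (a⁻¹ : Q).2 b1)⟩ : Q) =
      π a - ρ b1 (π a) := by
    intro a
    have h1 := D.mul a ⟨b1 * (a⁻¹ : Q) * b1⁻¹, hQn.conj_mem _ (a⁻¹ : Q).2 b1⟩
    have h2 := D.act b1 a⁻¹ ⟨b1 * (a⁻¹ : Q) * b1⁻¹, hQn.conj_mem _ (a⁻¹ : Q).2 b1⟩ rfl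
    rw [hπinv, map_neg] at h2
    have h3 : (⟨a * (b1 * (a⁻¹ : Q) * b1⁻¹), Q.mul_mem a.2 (hQn.conj_mem _ (a⁻¹ : Q).2 b1)⟩ : Q) =
      a * ⟨b1 * (a⁻¹ : Q) * b1⁻¹, hQn.conj_mem _ (a⁻¹ : Q).2 b1⟩ := rfl
    rw [h3, h1, ← h2, sub_eq_add_neg]
  have hb1M : b1 ∈ M := inM C hsemi b1 (e1.cen b' hb') hby
  have hπ1 : π u1 = π x1 - ρ b1 (π x1) := hcom x1
  have hπ3 : π u3 = Φ (om • Φ.symm (π u1)) := by
    have h1 : π u3 = π x2 - ρ b1 (π x2) := hcom x2
    have h2 : π x2 = Φ (om • Φ.symm (π x1)) := px C x1 x2 rfl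
    rw [h1, hπ1, h2, linM C hb1M, Φ.apply_symm_apply, map_sub, smul_sub, map_sub]
  -- duality
  have hzB : z ∈ Subgroup.closure ({z, s, y} : Set G') := Subgroup.subset_closure (by simp)
  have hsB : s ∈ Subgroup.closure ({z, s, y} : Set G') := Subgroup.subset_closure (by simp)
  have hyB : y ∈ Subgroup.closure ({z, s, y} : Set G') := Subgroup.subset_closure (by simp)
  obtain ⟨B, hB⟩ : ∃ B, B = Subgroup.closure ({z, s, y} : Set G') := ⟨_, rfl⟩
  rw [← hB] at hzB hsB hyB ⊢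
  have hBQ : B ≤ Q₁ := by
    rw [hB, Subgroup.closure_le]
    rintro w (rfl | rfl | rfl)
    · exact hz
    · exact e1.zQ
    · exact hy
  have hsB' : s ∈ Q₁ ⊓ Subgroup.centralizer (B : Set G') := by
    refine ⟨e1.zQ, Subgroup.mem_centralizer_iff.2 ?_⟩
    intro w hw
    exact e1.cen w (hBQ hw)
  have hd1 := e1.dual B hBQ hsB
  have hd2 := e1.dual _ inf_le_left hsB'
  have hle : B ≤ Q₁ ⊓ Subgroup.centralizer ((Q₁ ⊓ Subgroup.centralizer (B : Set G') : Subgroup G') : Set G') := by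
    intro w hw
    refine ⟨hBQ hw, Subgroup.mem_centralizer_iff.2 ?_⟩
    intro c hc
    exact (Subgroup.mem_centralizer_iff.1 hc.2 w hw).symm
  have heq := Subgroup.eq_of_le_of_card_ge hle (by
    have h1 : 0 < Nat.card ↥(Q₁ ⊓ Subgroup.centralizer (B : Set G')) := Nat.card_pos
    rw [← hd2, mul_comm] at hd1
    exact (Nat.eq_of_mul_eq_mul_right h1 hd1).ge)
  rw [heq]
  refine ⟨huQ₁, Subgroup.mem_centralizer_iff.2 ?_⟩
  intro a ha
  have haQ := ha.1
  have haz : a * z = z * a := (Subgroup.mem_centralizer_iff.1 ha.2 z hzB).symm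
  have hay : a * y = y * a := (Subgroup.mem_centralizer_iff.1 ha.2 y hyB).symm
  let a1 : Subgroup.centralizer ({z} : Set G') := ⟨a, hHz a haz⟩
  have ha1M : a1 ∈ M := inM C hsemi a1 (e1.cen a haQ) hay
  rcases e1.comm a haQ u huQ₁ with h | h
  · calc a * u = (a * u * a⁻¹ * u⁻¹) * (u * a) := by group
      _ = u * a := by rw [h, one_mul]
  · exfalso
    have h1 : ρ a1 (π u1) = Φ w4 + π u1 := by
      have h2 := D.act a1 u1 (r * u1) (by
        apply Subtype.ext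
        show ((r : Subgroup.centralizer ({z} : Set G')) : G') * ((u1 : Subgroup.centralizer ({z} : Set G')) : G') =
          a * ((u1 : Subgroup.centralizer ({z} : Set G')) : G') * a⁻¹
        rw [hu1, ← hs, ← h]; group)
      rw [h2, D.mul, pr C]
    have h3 : ρ a1 (π u3) = Φ (om • w4) + π u3 := by
      rw [hπ3, linM C ha1M, Φ.apply_symm_apply, h1, map_add, Φ.symm_apply_apply, smul_add, map_add]
    rcases e1.comm a haQ u2 hu2Q₁ with h4 | h4
    · have h5 := D.act a1 u3 u3 (by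
        apply Subtype.ext
        show ((u3 : Subgroup.centralizer ({z} : Set G')) : G') =
          a * ((u3 : Subgroup.centralizer ({z} : Set G')) : G') * a⁻¹
        rw [hu3]
        calc u2 = 1 * u2 := by group
          _ = (a * u2 * a⁻¹ * u2⁻¹) * u2 := by rw [h4]
          _ = a * u2 * a⁻¹ := by group)
      rw [h3] at h5
      have h6 : Φ (om • w4) = 0 := by simpa using h5
      exact w_ne3 (Φ.injective (by rw [h6, map_zero]))
    · have h5 := D.act a1 u3 (r * u3) (by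
        apply Subtype.ext
        show ((r : Subgroup.centralizer ({z} : Set G')) : G') * ((u3 : Subgroup.centralizer ({z} : Set G')) : G') =
          a * ((u3 : Subgroup.centralizer ({z} : Set G')) : G') * a⁻¹
        rw [hu3, ← hs, ← h4]; group)
      rw [h3, D.mul, pr C] at h5
      exact w_ne2 (Φ.injective (add_right_cancel h5))

end
end Cfsg.Agent.Lib.H97FeD9
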