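import Cfsg.Agent.Lib.H97FaI

/-!
# S5445, piece FE-K1 (backup, helper33)
-/

set_option autoImplicit false
universe u

namespace Cfsg.Agent.Lib.H97FeK1h33

open Matrix Cfsg Cfsg.Agent.Lib.K4 Cfsg.Agent.Lib.HermMat Cfsg.Agent.Lib.ClThreeTransU Cfsg.Agent.Lib.SU6K4
open Cfsg.Agent.Lib.U43 Cfsg.Agent.Lib.H97Fa Cfsg.Agent.Lib.H97FaF Cfsg.Agent.Lib.H97FaG Cfsg.Agent.Lib.H97FaI Cfsg.Agent.Lib.LargeExtra

def ad : A0 := ⟨![0, 0, 1, 0, 0, 2], by rw [mem_A0]; decide⟩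
def s3 : Pm := Equiv.swap 0 1 * Equiv.swap 1 3
def s4 : Pm := Equiv.swap 0 1 * Equiv.swap 1 4
theorem sign_s3 : Equiv.Perm.sign s3 = 1 := by decide
theorem sign_s4 : Equiv.Perm.sign s4 = 1 := by decide
theorem w4_s3 : ∀ i : Fin 6, w4 (s3⁻¹ i) = w4 i := by decide +kernel
theorem w4_s4 : ∀ i : Fin 6, w4 (s4⁻¹ i) = w4 i := by decide +kernel
theorem w4_ad : ∀ i : Fin 6, e (ad.1 i) * w4 i = w4 i := by decide +kernel
theorem om_fix : ∀ x : K4, (e 1 * x = x → x = 0) ∧ (e 2 * x = x → x = 0) ∧ (x = x + 1 → False) := by decide +kernel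

theorem fixed_w4 (y : V6) (h : ∀ g ∈ K0, mt g *ᵥ w4 = w4 → mt g *ᵥ y = y ∨ mt g *ᵥ y = y + w4) : ∃ c : K4, y = c • w4 := by
  have hd : y 2 = 0 ∧ y 5 = 0 := by
    have h1 := h (mo ad 1) (M0_le_K0 (mo_mem_M0.2 Equiv.Perm.sign_one)) (by
      funext i
      rw [mo_mulVec]
      exact w4_ad i)
    have h2 : ∀ i, w4 i = 0 → e (ad.1 i) * y i = y i := by
      intro i hi
      rcases h1 with h1 | h1
      · have := congrFun h1 i
        rw [mo_mulVec] at this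
        exact this
      · have := congrFun h1 i
        rw [mo_mulVec, Pi.add_apply, hi, add_zero] at this
        exact this
    exact ⟨(om_fix (y 2)).1 (h2 2 (by decide)), (om_fix (y 5)).2.1 (h2 5 (by decide))⟩
  have hs : ∀ σ : Pm, Equiv.Perm.sign σ = 1 → (∀ i, w4 (σ⁻¹ i) = w4 i) → (∃ l, σ⁻¹ l = l ∧ w4 l = 1) → ∀ i, y (σ⁻¹ i) = y i := by
    rintro σ hσ hw ⟨l, hl, hl1⟩ i
    have h0 : ∀ (v : V6) j, (mt (mo 0 σ) *ᵥ v) j = v (σ⁻¹ j) := by
      intro v j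
      rw [mo_mulVec]
      have : e ((0 : A0).1 j) = 1 := rfl
      rw [this, one_mul]
    have h1 := h (mo 0 σ) (alt_mem hσ) (by funext j; rw [h0, hw])
    rcases h1 with h1 | h1
    · have h2 := congrFun h1 i
      rw [h0] at h2
      exact h2
    · exfalso
      have := congrFun h1 l
      rw [h0, hl, Pi.add_apply, hl1] at this
      exact (om_fix (y l)).2.2 this
  have h3 := hs s3 sign_s3 w4_s3 ⟨4, by decide +kernel, by decide⟩
  have h4 := hs s4 sign_s4 w4_s4 ⟨3, by decide +kernel, by decide⟩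
  have e1 : y 0 = y 1 ∧ y 0 = y 3 := by
    have a0 : y (s3⁻¹ (s3 0)) = y (s3 0) := h3 _
    have a1 : y (s3⁻¹ (s3 1)) = y (s3 1) := h3 _
    have a3 : y (s3⁻¹ (s3 3)) = y (s3 3) := h3 _
    rw [inv_app] at a0 a1 a3
    have b0 : s3 0 = 1 := by decide +kernel
    have b1 : s3 1 = 3 := by decide +kernel
    have b3 : s3 3 = 0 := by decide +kernel
    rw [b0] at a0
    rw [b3] at a3
    exact ⟨a0, a3.symm⟩
  have e2 : y 0 = y 4 := by
    have a4 : y (s4⁻¹ (s4 4)) = y (s4 4) := h4 _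
    rw [inv_app] at a4
    have b4 : s4 4 = 0 := by decide +kernel
    rw [b4] at a4
    exact a4.symm
  refine ⟨y 0, ?_⟩
  funext i
  show y i = y 0 * w4 i
  fin_cases i
  · show y 0 = y 0 * 1; rw [mul_one]
  · show y 1 = y 0 * 1; rw [mul_one, e1.1]
  · show y 2 = y 0 * 0; rw [mul_zero, hd.1]
  · show y 3 = y 0 * 1; rw [mul_one, e1.2]
  · show y 4 = y 0 * 1; rw [mul_one, e2]
  · show y 5 = y 0 * 0; rw [mul_zero, hd.2]

end Cfsg.Agent.Lib.H97FeK1h33
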