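import Cfsg.Agent.Lib.H97FeL9
import Cfsg.Agent.Lib.H97FeC
import Cfsg.Agent.Lib.H97FeK1h33
import Cfsg.Agent.Lib.H97FeD0b
import Cfsg.Agent.Lib.H97FeD1
import Cfsg.Agent.Lib.H97FeD2
import Cfsg.Agent.Lib.H97FeD3
import Cfsg.Agent.Lib.H97FeD4
import Cfsg.Agent.Lib.H97FeD5
import Cfsg.Agent.Lib.H97FeD6
import Cfsg.Agent.Lib.H97FeD7
import Cfsg.Agent.Lib.H97FeD8b
import Cfsg.Agent.Lib.H97FeD9

/-!
S5445: assembly of the pieces FE-D, FE-K1, FE-L (helper43).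
-/

set_option autoImplicit false
set_option linter.all false

universe u

namespace Cfsg.Agent.Lib.H97FeA87

open Matrix Cfsg Cfsg.Agent.Lib.K4 Cfsg.Agent.Lib.HermMat Cfsg.Agent.Lib.ClThreeTransU Cfsg.Agent.Lib.SU6K4
open Cfsg.Agent.Lib.U43 Cfsg.Agent.Lib.H97Fa Cfsg.Agent.Lib.H97FaF Cfsg.Agent.Lib.H97FaG Cfsg.Agent.Lib.H97FaI Cfsg.Agent.Lib.LargeExtra
open Cfsg.Agent.Lib.H97FbY Cfsg.Agent.Lib.H97FbU Cfsg.Agent.Lib.H97FbV Cfsg.Agent.Lib.H97FbM Cfsg.Agent.Lib.H97Fe0 Cfsg.Agent.Lib.H97FeC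

theorem loc_of {G' : Type u} [Group G'] [Finite G'] {z : G'} {Q : Subgroup (Subgroup.centralizer ({z} : Set G'))} [Q.Normal]
    {V : Type u} [AddCommGroup V] {q : V → ZMod 2} {b : V → V → ZMod 2}
    {ρ : Subgroup.centralizer ({z} : Set G') →* AddMonoid.End V} {π : Q → V} {M : Subgroup (Subgroup.centralizer ({z} : Set G'))}
    {Φ : V6 ≃+ V} {R : M →* G} {D : Dat (zz z) Q q b ρ π M Φ R} {Q' Q₁ : Subgroup G'} {g s y : G'} {r : Q}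
    {x : Subgroup.centralizer ({z} : Set G')} (C : Cx D Q' Q₁ g s y r x) : Loc z s y Q' Q₁ := by
  have hset := C.hF.1
  obtain ⟨h0, h1⟩ := Cfsg.Agent.Lib.H97FeD1.LE_Q hset
  have e0 : LE Q' z := by rw [C.hQ']; exact h0
  have e1 : LE Q₁ s := by
    have h2 := h1 g
    rw [C.hg, ← C.hQ', ← C.hQ₁] at h2
    exact h2
  obtain ⟨b1, b2, b3, b4, b5, b6, -, -, -, b10, b11, b12, b13⟩ := Cfsg.Agent.Lib.H97FeD2.basic C
  have hy : y ∈ Q₁ := Cfsg.Agent.Lib.H97FeD3.y_mem C e0 e1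
  have hsemi := Cfsg.Agent.Lib.H97FeD4.semi C e0 e1 hy
  have hlin := Cfsg.Agent.Lib.H97FeD5.lin C
  exact { e0 := e0, e1 := e1, sQ := b1, yQ := b2, zQ₁ := b3, yQ₁ := hy, sz := b4, yy := b5, y1 := b6, cE := b10,
          abE := b11, n0 := b12, n1 := b13, lin := hlin,
          t1 := Cfsg.Agent.Lib.H97FeD7.t1 C hy b3 hlin Cfsg.Agent.Lib.H97FeK1h33.fixed_w4,
          t2 := Cfsg.Agent.Lib.H97FeD6.t2 C,
          hom := Cfsg.Agent.Lib.H97FeD8b.hom C e0 e1 hy b3 hsemi,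
          brk := Cfsg.Agent.Lib.H97FeD9.brk C e0 e1 hy b3 hsemi }

theorem main {G' : Type u} [Group G'] [Finite G'] (z : G') (Q : Subgroup (Subgroup.centralizer ({z} : Set G'))) [Q.Normal]
    (hF : Cfsg.IsOfLargeFischerTypeAt z Q) :
    ∃ V : Subgroup G', Cfsg.IsElementaryAbelian 2 V ∧ Nat.card V = 8 ∧ z ∈ V ∧ ∃ R : Subgroup G', R = (Cfsg.pCore 2 ↥(Subgroup.normalizer (V : Set G'))).map (Subgroup.normalizer (V : Set G')).subtype ∧ Cfsg.IsSpecial 2 ↥R ∧ Nat.card R = 2 ^ 15 ∧ (Subgroup.center ↥R).map R.subtype = V ∧ ∃ _ : (R.subgroupOf (Subgroup.normalizer (V : Set G'))).Normal, Nonempty (↥(Subgroup.normalizer (V : Set G')) ⧸ R.subgroupOf (Subgroup.normalizer (V : Set G')) ≃* Matrix.SpecialLinearGroup (Fin 3) (ZMod 2) × ↥(alternatingGroup (Fin 6))) := by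
  obtain ⟨V, iV, iF, q, b, ρ, π, M, Φ, R, D, hR⟩ := exists_datK hF
  obtain ⟨Q', Q₁, g, s, y, r, x, C⟩ := Cfsg.Agent.Lib.H97FeD0b.exists_cx hF D hR
  exact Cfsg.Agent.Lib.H97FeL9.loc_main (loc_of C)

end Cfsg.Agent.Lib.H97FeA87


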