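import Cfsg.Agent.Lib.H97FeC

set_option autoImplicit false
set_option linter.all false

/-! S5445, piece FE-D0 (helper10). -/

universe u

namespace Cfsg.Agent.Lib.H97FeD0h10

open Matrix Cfsg Cfsg.Agent.Lib.K4 Cfsg.Agent.Lib.HermMat Cfsg.Agent.Lib.ClThreeTransU Cfsg.Agent.Lib.SU6K4
open Cfsg.Agent.Lib.U43 Cfsg.Agent.Lib.H97Fa Cfsg.Agent.Lib.H97FaF Cfsg.Agent.Lib.H97FaG Cfsg.Agent.Lib.H97FaI Cfsg.Agent.Lib.LargeExtra
open Cfsg.Agent.Lib.H97FbY Cfsg.Agent.Lib.H97FbU Cfsg.Agent.Lib.H97FbV Cfsg.Agent.Lib.H97FbM Cfsg.Agent.Lib.H97Fe0 Cfsg.Agent.Lib.H97FeC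

variable {G' : Type u} [Group G'] [Finite G'] {z : G'} {Q : Subgroup (Subgroup.centralizer ({z} : Set G'))} [Q.Normal]
    {V : Type u} [AddCommGroup V] {q : V → ZMod 2} {b : V → V → ZMod 2}
    {ρ : Subgroup.centralizer ({z} : Set G') →* AddMonoid.End V} {π : Q → V} {M : Subgroup (Subgroup.centralizer ({z} : Set G'))}
    {Φ : V6 ≃+ V} {R : M →* G}

theorem exists_cx (hF : Cfsg.IsOfLargeFischerTypeAt z Q) (D : Dat (zz z) Q q b ρ π M Φ R) (hR : R.range = K0) :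
    ∃ (Q' Q₁ : Subgroup G') (g s y : G') (r : Q) (x : Subgroup.centralizer ({z} : Set G')), Cx D Q' Q₁ g s y r x := by
  have hset := hF.1
  obtain ⟨g0, ⟨hq, hqQ⟩, hne⟩ := hset.2.2.2.2
  obtain ⟨ho, hz1, hrl⟩ := rl_of_conj H97FbS.no_two hset D hR hq hqQ hne rfl
  rw [← hR] at hrl
  obtain ⟨m, hm⟩ := D.rl.1 hrl
  have hm' : ρ m (Φ w4) = π ⟨⟨g0 * z * g0⁻¹, hq⟩, hqQ⟩ := by
    rw [hm]; unfold co; rw [AddEquiv.apply_symm_apply]
  set r0 : Q := ⟨⟨g0 * z * g0⁻¹, hq⟩, hqQ⟩ with hr0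
  set c : Subgroup.centralizer ({z} : Set G') := (m : Subgroup.centralizer ({z} : Set G')) with hc
  set r : Q := ⟨c⁻¹ * r0 * c⁻¹⁻¹, Subgroup.Normal.conj_mem ‹_› _ r0.2 c⁻¹⟩ with hr
  have hπr : π r = Φ w4 := by
    rw [← D.act c⁻¹ r0 r rfl, ← hm']
    have : ρ c⁻¹ (ρ c (Φ w4)) = ρ (c⁻¹ * c) (Φ w4) := by rw [map_mul]; rfl
    rw [this, inv_mul_cancel, map_one]; rfl
  have hz : mo (zc 1) 1 ∈ R.range := by
    rw [hR]
    exact T_le_K0 (Z0_le_T ⟨1, rfl⟩)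
  obtain ⟨k, hk⟩ := hz
  refine ⟨Q.map (Subgroup.centralizer ({z} : Set G')).subtype,
    (Q.map (Subgroup.centralizer ({z} : Set G')).subtype).map (MulAut.conj ((c : G')⁻¹ * g0)).toMonoidHom,
    (c : G')⁻¹ * g0, ((r : Subgroup.centralizer ({z} : Set G')) : G'),
    (((k : Subgroup.centralizer ({z} : Set G')) * r * (k : Subgroup.centralizer ({z} : Set G'))⁻¹ : Subgroup.centralizer ({z} : Set G')) : G'),
    r, (k : Subgroup.centralizer ({z} : Set G')), ?_⟩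
  refine
    { hF := hF
      hR := hR
      hQ' := rfl
      hQ₁ := rfl
      hg := ?_
      hs := rfl
      hy := rfl
      hr := ?_
      xM := k.2
      hx := ?_ }
  · show (c : G')⁻¹ * g0 * z * ((c : G')⁻¹ * g0)⁻¹ = (c : G')⁻¹ * (g0 * z * g0⁻¹) * ((c : G')⁻¹)⁻¹
    group
  · unfold co
    rw [hπr, AddEquiv.symm_apply_apply]
  · intro v
    have e1 : om • v = mt (R k) *ᵥ v := by rw [hk, Cfsg.Agent.Lib.H87U3E.mo_zc]; rfl
    rw [e1, D.rep]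

end Cfsg.Agent.Lib.H97FeD0h10
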