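import Cfsg.Agent.Lib.H97FeC

set_option autoImplicit false
universe u

namespace Cfsg.Agent.Lib.H97FeD0h41

open Matrix Cfsg Cfsg.Agent.Lib.K4 Cfsg.Agent.Lib.HermMat Cfsg.Agent.Lib.ClThreeTransU Cfsg.Agent.Lib.SU6K4
open Cfsg.Agent.Lib.U43 Cfsg.Agent.Lib.H97Fa Cfsg.Agent.Lib.H97FaF Cfsg.Agent.Lib.H97FaG Cfsg.Agent.Lib.H97FaI Cfsg.Agent.Lib.LargeExtra
open Cfsg.Agent.Lib.H97FbY Cfsg.Agent.Lib.H97FbU Cfsg.Agent.Lib.H97FbV Cfsg.Agent.Lib.H97FbM Cfsg.Agent.Lib.H97Fe0 Cfsg.Agent.Lib.H97FeC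

variable {G' : Type u} [Group G'] [Finite G'] {z : G'} {Q : Subgroup (Subgroup.centralizer ({z} : Set G'))} [Q.Normal]
    {V : Type u} [AddCommGroup V] {q : V → ZMod 2} {b : V → V → ZMod 2}
    {ρ : Subgroup.centralizer ({z} : Set G') →* AddMonoid.End V} {π : Q → V} {M : Subgroup (Subgroup.centralizer ({z} : Set G'))}
    {Φ : V6 ≃+ V} {R : M →* G}

theorem exists_cx (hF : Cfsg.IsOfLargeFischerTypeAt z Q) (D : Dat (zz z) Q q b ρ π M Φ R) (hR : R.range = K0) :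
    ∃ (Q' Q₁ : Subgroup G') (g s y : G') (r : Q) (x : Subgroup.centralizer ({z} : Set G')), Cx D Q' Q₁ g s y r x := by
  obtain ⟨g0, ⟨hq, hqQ⟩, hne⟩ := hF.1.2.2.2.2
  obtain ⟨a1, a2, a3⟩ := rl_of_conj H97FbS.no_two hF.1 D hR hq hqQ hne rfl
  obtain ⟨r, hr⟩ := D.surj (Φ w4)
  have h1 : Rl R.range w4 (co π Φ ⟨⟨g0 * z * g0⁻¹, hq⟩, hqQ⟩) := by
    rw [hR]; exact a3.symm
  obtain ⟨m, hm⟩ := D.rl.1 h1
  rw [co, Φ.apply_symm_apply, ← hr] at hm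
  have ne1 : (⟨g0 * z * g0⁻¹, hq⟩ : Subgroup.centralizer ({z} : Set G')) ≠ 1 := fun e => by rw [e, orderOf_one] at a1; omega
  obtain ⟨k, -, hk⟩ := D.conj_iff m ⟨⟨g0 * z * g0⁻¹, hq⟩, hqQ⟩ r ne1 a2 hm
  have hz : mo (zc 1) 1 ∈ R.range := by
    rw [hR]
    exact T_le_K0 (Z0_le_T ⟨1, rfl⟩)
  obtain ⟨m', hm'⟩ := hz
  have hk2 : (((m : Subgroup.centralizer ({z} : Set G')) : G') * k) * (g0 * z * g0⁻¹) *
      (((m : Subgroup.centralizer ({z} : Set G')) : G') * k)⁻¹ = ((r : Subgroup.centralizer ({z} : Set G')) : G') :=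
    congrArg Subtype.val hk
  refine ⟨_, _, (((m : Subgroup.centralizer ({z} : Set G')) : G') * k) * g0,
    ((r : Subgroup.centralizer ({z} : Set G')) : G'), _, r, m',
    { hF := hF
      hR := hR
      hQ' := rfl
      hQ₁ := rfl
      hg := ?_
      hs := rfl
      hy := rfl
      hr := ?_
      xM := m'.2
      hx := ?_ }⟩
  · rw [← hk2]
    group
  · rw [co, hr, Φ.symm_apply_apply]
  · intro v
    rw [← D.rep, hm', H87U3E.mo_zc]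
    rfl

end Cfsg.Agent.Lib.H97FeD0h41
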