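import Cfsg.Agent.Lib.H97FeC

/-!
# S5445, piece FE-D0 (helper44)
-/

set_option autoImplicit false
set_option linter.unusedVariables false

universe u

namespace Cfsg.Agent.Lib.H97FeD0h44

open Matrix Cfsg Cfsg.Agent.Lib.K4 Cfsg.Agent.Lib.HermMat Cfsg.Agent.Lib.ClThreeTransU Cfsg.Agent.Lib.SU6K4
open Cfsg.Agent.Lib.U43 Cfsg.Agent.Lib.H97Fa Cfsg.Agent.Lib.H97FaF Cfsg.Agent.Lib.H97FaG Cfsg.Agent.Lib.H97FaI Cfsg.Agent.Lib.LargeExtra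
open Cfsg.Agent.Lib.H97FbY Cfsg.Agent.Lib.H97FbU Cfsg.Agent.Lib.H97FbV Cfsg.Agent.Lib.H97FbM Cfsg.Agent.Lib.H97Fe0 Cfsg.Agent.Lib.H97FeC

variable {G' : Type u} [Group G'] [Finite G'] {z : G'} {Q : Subgroup (Subgroup.centralizer ({z} : Set G'))} [hQn : Q.Normal]
    {V : Type u} [AddCommGroup V] {q : V → ZMod 2} {b : V → V → ZMod 2}
    {ρ : Subgroup.centralizer ({z} : Set G') →* AddMonoid.End V} {π : Q → V} {M : Subgroup (Subgroup.centralizer ({z} : Set G'))}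
    {Φ : V6 ≃+ V} {R : M →* G}

theorem of_conj (hF : Cfsg.IsOfLargeFischerTypeAt z Q) (D : Dat (zz z) Q q b ρ π M Φ R) (hR : R.range = K0)
    {s0 g0 : G'} (hsc : s0 ∈ Subgroup.centralizer ({z} : Set G'))
    (hsQ : (⟨s0, hsc⟩ : Subgroup.centralizer ({z} : Set G')) ∈ Q) (hs1 : s0 ≠ z) (hg : g0 * z * g0⁻¹ = s0) :
    ∃ (Q' Q₁ : Subgroup G') (g s y : G') (r : Q) (x : Subgroup.centralizer ({z} : Set G')), Cx D Q' Q₁ g s y r x := by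
  obtain ⟨-, -, h3⟩ := rl_of_conj H97FbS.no_two hF.1 D hR hsc hsQ hs1 hg
  set r0 : Q := ⟨⟨s0, hsc⟩, hsQ⟩ with hr0
  have h4 : Rl R.range w4 (co π Φ r0) := by rw [hR]; exact h3.symm
  obtain ⟨m, hm⟩ := D.rl.1 h4
  have h5 : Φ (co π Φ r0) = π r0 := by unfold co; rw [Φ.apply_symm_apply]
  rw [h5] at hm
  have hrm : (m : Subgroup.centralizer ({z} : Set G')) * r0 * (m : Subgroup.centralizer ({z} : Set G'))⁻¹ ∈ Q :=
    hQn.conj_mem _ r0.2 m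
  have h6 := D.act m r0 ⟨_, hrm⟩ rfl
  -- the scalar
  have hz : mo (zc 1) 1 ∈ R.range := by
    rw [hR]; exact M0_le_K0 (mo_mem_M0.2 (by simp))
  obtain ⟨x, hx⟩ := hz
  refine ⟨_, _, (m : Subgroup.centralizer ({z} : Set G')) * g0, _, _, ⟨_, hrm⟩, x, hF, hR, rfl, rfl, ?_, rfl, rfl, ?_, x.2, ?_⟩
  · change (m : G') * g0 * z * ((m : G') * g0)⁻¹ = (m : G') * s0 * (m : G')⁻¹
    rw [← hg]; group
  · unfold co
    rw [← h6, hm, Φ.symm_apply_apply]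
  · intro v
    rw [← D.rep, hx, H87U3E.mo_zc]
    rfl

theorem exists_cx (hF : Cfsg.IsOfLargeFischerTypeAt z Q) (D : Dat (zz z) Q q b ρ π M Φ R) (hR : R.range = K0) :
    ∃ (Q' Q₁ : Subgroup G') (g s y : G') (r : Q) (x : Subgroup.centralizer ({z} : Set G')), Cx D Q' Q₁ g s y r x := by
  obtain ⟨-, -, -, -, g0, ⟨hq, hqQ⟩, hne⟩ := hF.1
  exact of_conj hF D hR hq hqQ hne rfl

end Cfsg.Agent.Lib.H97FeD0h44
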