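import Cfsg.Agent.Lib.H97FeC

/-!
S5445, piece FE-D0 (helper9).
-/

set_option autoImplicit false
universe u
open Matrix Cfsg Cfsg.Agent.Lib.K4 Cfsg.Agent.Lib.HermMat Cfsg.Agent.Lib.ClThreeTransU Cfsg.Agent.Lib.SU6K4
open Cfsg.Agent.Lib.U43 Cfsg.Agent.Lib.H97Fa Cfsg.Agent.Lib.H97FaF Cfsg.Agent.Lib.H97FaG Cfsg.Agent.Lib.H97FaI Cfsg.Agent.Lib.LargeExtra
open Cfsg.Agent.Lib.H97FbY Cfsg.Agent.Lib.H97FbU Cfsg.Agent.Lib.H97FbV Cfsg.Agent.Lib.H97FbM Cfsg.Agent.Lib.H97Fe0 Cfsg.Agent.Lib.H97FeC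

namespace Cfsg.Agent.Lib.H97FeD0h9

section
variable {G' : Type u} [Group G'] [Finite G'] {z : G'} {Q : Subgroup (Subgroup.centralizer ({z} : Set G'))} [Q.Normal]
    {V : Type u} [AddCommGroup V] {q : V → ZMod 2} {b : V → V → ZMod 2}
    {ρ : Subgroup.centralizer ({z} : Set G') →* AddMonoid.End V} {π : Q → V} {M : Subgroup (Subgroup.centralizer ({z} : Set G'))}
    {Φ : V6 ≃+ V} {R : M →* G} {D : Dat (zz z) Q q b ρ π M Φ R} {Q' Q₁ : Subgroup G'} {g s y : G'} {r : Q}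
    {x : Subgroup.centralizer ({z} : Set G')}

-- FE-D0
theorem exists_cx (hF : Cfsg.IsOfLargeFischerTypeAt z Q) (D : Dat (zz z) Q q b ρ π M Φ R) (hR : R.range = K0) :
    ∃ (Q' Q₁ : Subgroup G') (g s y : G') (r : Q) (x : Subgroup.centralizer ({z} : Set G')), Cx D Q' Q₁ g s y r x := by
  obtain ⟨g0, ⟨hsc, hsQ⟩, hs1⟩ := hF.1.2.2.2.2
  obtain ⟨a1, a2, a3⟩ := rl_of_conj Cfsg.Agent.Lib.H97FbS.no_two hF.1 D hR hsc hsQ hs1 rfl
  obtain ⟨r, hr⟩ := D.surj (Φ w4)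
  have hco : co π Φ r = w4 := by rw [co, hr, Φ.symm_apply_apply]
  have h1 : Rl R.range w4 (co π Φ ⟨⟨g0 * z * g0⁻¹, hsc⟩, hsQ⟩) := by
    rw [hR]; exact a3.symm
  obtain ⟨m, hm⟩ := D.rl.1 h1
  rw [co, Φ.apply_symm_apply, ← hr] at hm
  have ne1 : (⟨g0 * z * g0⁻¹, hsc⟩ : Subgroup.centralizer ({z} : Set G')) ≠ 1 := fun e => by rw [e, orderOf_one] at a1; omega
  obtain ⟨k, -, hk⟩ := D.conj_iff m ⟨⟨g0 * z * g0⁻¹, hsc⟩, hsQ⟩ r ne1 a2 hm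
  have hz : mo (zc 1) 1 ∈ R.range := by
    rw [hR]
    exact T_le_K0 (Z0_le_T ⟨1, rfl⟩)
  obtain ⟨x, hx⟩ := hz
  have hk' : (((m : Subgroup.centralizer ({z} : Set G')) * k : Subgroup.centralizer ({z} : Set G')) : G') * (g0 * z * g0⁻¹) *
      (((m : Subgroup.centralizer ({z} : Set G')) * k : Subgroup.centralizer ({z} : Set G')) : G')⁻¹ =
      ((r : Subgroup.centralizer ({z} : Set G')) : G') := congrArg Subtype.val hk
  refine ⟨Q.map (Subgroup.centralizer ({z} : Set G')).subtype, _,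
    (((m : Subgroup.centralizer ({z} : Set G')) * k : Subgroup.centralizer ({z} : Set G')) : G') * g0,
    ((r : Subgroup.centralizer ({z} : Set G')) : G'),
    (((x : Subgroup.centralizer ({z} : Set G')) * r * (x : Subgroup.centralizer ({z} : Set G'))⁻¹ : Subgroup.centralizer ({z} : Set G')) : G'),
    r, x, ⟨hF, hR, rfl, rfl, ?_, rfl, rfl, hco, x.2, ?_⟩⟩
  · rw [← hk']
    group
  · intro v
    rw [← D.rep, hx, Cfsg.Agent.Lib.H87U3E.mo_zc]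
    rfl

end

end Cfsg.Agent.Lib.H97FeD0h9
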