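import Cfsg.Agent.Lib.H97FeC
import Cfsg.Agent.Lib.H97FeD2
import Cfsg.Agent.Lib.H97FeD3h

/-!
S5445, piece FE-D3 (wrapper, helper2; core by helper49)
-/

set_option autoImplicit false
universe u
open Matrix Cfsg Cfsg.Agent.Lib.K4 Cfsg.Agent.Lib.HermMat Cfsg.Agent.Lib.ClThreeTransU Cfsg.Agent.Lib.SU6K4
open Cfsg.Agent.Lib.U43 Cfsg.Agent.Lib.H97Fa Cfsg.Agent.Lib.H97FaF Cfsg.Agent.Lib.H97FaG Cfsg.Agent.Lib.H97FaI Cfsg.Agent.Lib.LargeExtra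
open Cfsg.Agent.Lib.H97FbY Cfsg.Agent.Lib.H97FbU Cfsg.Agent.Lib.H97FbV Cfsg.Agent.Lib.H97FbM Cfsg.Agent.Lib.H97Fe0 Cfsg.Agent.Lib.H97FeC

namespace Cfsg.Agent.Lib.H97FeD3w2

variable {G' : Type u} [Group G'] [Finite G'] {z : G'} {Q : Subgroup (Subgroup.centralizer ({z} : Set G'))} [Q.Normal]
    {V : Type u} [AddCommGroup V] {q : V → ZMod 2} {b : V → V → ZMod 2}
    {ρ : Subgroup.centralizer ({z} : Set G') →* AddMonoid.End V} {π : Q → V} {M : Subgroup (Subgroup.centralizer ({z} : Set G'))}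
    {Φ : V6 ≃+ V} {R : M →* G} {D : Dat (zz z) Q q b ρ π M Φ R} {Q' Q₁ : Subgroup G'} {g s y : G'} {r : Q}
    {x : Subgroup.centralizer ({z} : Set G')}

theorem y_mem (C : Cx D Q' Q₁ g s y r x) (e0 : LE Q' z) (e1 : LE Q₁ s) : y ∈ Q₁ := by
  obtain ⟨b1, b2, b3, b4, b5, b6, b7, b8, b9, b10, b11, b12, b13⟩ := Cfsg.Agent.Lib.H97FeD2.basic C
  refine Cfsg.Agent.Lib.H97FeD3h.y_mem_abs (N := M.map (Subgroup.centralizer ({z} : Set G')).subtype) e0 e1 b1 b2 b3 b4 b10 b11 b12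
    (Subgroup.mem_centralizer_singleton_iff.1 x.2) ?_ ?_ ?_
  · rw [C.hy, C.hs]; rfl
  · rintro _ ⟨m, hm, rfl⟩ -
    rw [C.hQ']
    refine ⟨m * x * m⁻¹ * x⁻¹, ?_, rfl⟩
    rw [SetLike.mem_coe, ← D.ker]
    have h1 : ρ (m * x) = ρ (x * m) := by
      apply AddMonoidHom.ext
      intro v
      obtain ⟨w, rfl⟩ := Φ.surjective v
      have e1 : ρ m (Φ (om • w)) = Φ (mt (R ⟨m, hm⟩) *ᵥ (om • w)) := (D.rep ⟨m, hm⟩ (om • w)).symm
      have e2 : ρ m (Φ w) = Φ (mt (R ⟨m, hm⟩) *ᵥ w) := (D.rep ⟨m, hm⟩ w).symm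
      rw [map_mul, map_mul]
      change ρ m (ρ x (Φ w)) = ρ x (ρ m (Φ w))
      rw [C.hx, e1, e2, C.hx, Matrix.mulVec_smul]
    have h2 : m * x * m⁻¹ * x⁻¹ = (m * x) * (x * m)⁻¹ := by group
    rw [h2, map_mul, h1, ← map_mul, mul_inv_cancel, map_one]
  · intro a c ha hc haN hcN
    have ha' : (⟨a, Subgroup.mem_centralizer_singleton_iff.2 ha⟩ : Subgroup.centralizer ({z} : Set G')) ∉ M := fun h => haN ⟨_, h, rfl⟩
    have hc' : (⟨c, Subgroup.mem_centralizer_singleton_iff.2 hc⟩ : Subgroup.centralizer ({z} : Set G')) ∉ M := fun h => hcN ⟨_, h, rfl⟩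
    refine ⟨⟨a, Subgroup.mem_centralizer_singleton_iff.2 ha⟩ * ⟨c, Subgroup.mem_centralizer_singleton_iff.2 hc⟩⁻¹, ?_, rfl⟩
    rw [SetLike.mem_coe, Subgroup.mul_mem_iff_of_index_two D.idx, inv_mem_iff]
    exact iff_of_false ha' hc'

end Cfsg.Agent.Lib.H97FeD3w2
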