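import Cfsg.Agent.Lib.H97FeC

set_option autoImplicit false
universe u

namespace Cfsg.Agent.Lib.H97FeD4a

open Matrix Cfsg Cfsg.Agent.Lib.K4 Cfsg.Agent.Lib.HermMat Cfsg.Agent.Lib.ClThreeTransU Cfsg.Agent.Lib.SU6K4
open Cfsg.Agent.Lib.U43 Cfsg.Agent.Lib.H97Fa Cfsg.Agent.Lib.H97FaF Cfsg.Agent.Lib.H97FaG Cfsg.Agent.Lib.H97FaI Cfsg.Agent.Lib.LargeExtra
open Cfsg.Agent.Lib.H97FbY Cfsg.Agent.Lib.H97FbU Cfsg.Agent.Lib.H97FbV Cfsg.Agent.Lib.H97FbM Cfsg.Agent.Lib.H97Fe0 Cfsg.Agent.Lib.H97FeC

/-- the double centralizer of `⟨z, s⟩` in `Q₁` -/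
theorem double_cent {X : Type*} [Group X] [Finite X] {Q₁ : Subgroup X} {z s y : X} (e1 : LE Q₁ s) (hz : z ∈ Q₁) (hy : y ∈ Q₁)
    (hzz : z * z = 1) (hss : s * s = 1) (hz1 : z ≠ 1) (hs1 : s ≠ 1) (hsz : s ≠ z) (hO : ¬ O4 z s 1 y)
    (hc : ∀ a ∈ Q₁, a * z = z * a → a * y = y * a) : False := by
  classical
  have hcs : z * s = s * z := e1.cen z hz
  let B : Subgroup X :=
    { carrier := {w | w = 1 ∨ w = z ∨ w = s ∨ w = z * s}
      one_mem' := Or.inl rfl
      mul_mem' := by
        have k1 : z * (z * s) = s := by rw [← mul_assoc, hzz, one_mul]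
        have k2 : s * z = z * s := hcs.symm
        have k3 : s * (z * s) = z := by rw [hcs, ← mul_assoc, hss, one_mul]
        have k4 : z * s * z = s := by rw [mul_assoc, ← hcs, k1]
        have k5 : z * s * s = z := by rw [mul_assoc, hss, mul_one]
        have k6 : z * s * (z * s) = 1 := by rw [← mul_assoc, k4, hss]
        rintro a b (rfl | rfl | rfl | rfl) (rfl | rfl | rfl | rfl)
        · left; exact one_mul 1
        · right; left; exact one_mul _
        · right; right; left; exact one_mul _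
        · right; right; right; exact one_mul _
        · right; left; exact mul_one _
        · left; exact hzz
        · right; right; right; rfl
        · right; right; left; exact k1
        · right; right; left; exact mul_one _
        · right; right; right; exact k2
        · left; exact hss
        · right; left; exact k3
        · right; right; right; exact mul_one _
        · right; right; left; exact k4
        · right; left; exact k5
        · left; exact k6
      inv_mem' := by
        have i1 : z⁻¹ = z := inv_eq_of_mul_eq_one_left hzz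
        have i2 : s⁻¹ = s := inv_eq_of_mul_eq_one_left hss
        rintro a (rfl | rfl | rfl | rfl)
        · left; exact inv_one
        · right; left; exact i1
        · right; right; left; exact i2
        · right; right; right
          rw [_root_.mul_inv_rev, i1, i2]; exact hcs.symm }
  have memB : ∀ w, w ∈ B ↔ (w = 1 ∨ w = z ∨ w = s ∨ w = z * s) := fun w => Iff.rfl
  have hB4 : Nat.card B ≤ 4 := by
    have h1 : (B : Set X) ⊆ (({1, z, s, z * s} : Finset X) : Set X) := by
      intro w hw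
      rcases (memB w).1 hw with h | h | h | h <;> simp [h]
    have h2 := Set.ncard_le_ncard h1 (Finset.finite_toSet _)
    rw [Set.ncard_coe_finset] at h2
    exact h2.trans (Finset.card_le_four)
  have hBQ : B ≤ Q₁ := by
    intro w hw
    rcases (memB w).1 hw with h | h | h | h <;> rw [h]
    · exact Q₁.one_mem
    · exact hz
    · exact e1.zQ
    · exact Q₁.mul_mem hz e1.zQ
  have hsB : s ∈ B := (memB s).2 (by tauto)
  have hzB : z ∈ B := (memB z).2 (by tauto)
  have h1 := e1.dual B hBQ hsB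
  set C1 : Subgroup X := Q₁ ⊓ Subgroup.centralizer (B : Set X) with hC1
  have memC1 : ∀ a, a ∈ C1 → a ∈ Q₁ ∧ a * z = z * a := by
    intro a ha
    rw [hC1, Subgroup.mem_inf, Subgroup.mem_centralizer_iff] at ha
    exact ⟨ha.1, (ha.2 z hzB).symm⟩
  have hsC : s ∈ C1 := by
    rw [hC1, Subgroup.mem_inf, Subgroup.mem_centralizer_iff]
    exact ⟨e1.zQ, fun w hw => e1.cen w (hBQ hw)⟩
  have h2 := e1.dual C1 inf_le_left hsC
  set K : Subgroup X := Q₁ ⊓ Subgroup.centralizer (C1 : Set X) with hK
  have hC12 : 2 ^ 12 ≤ Nat.card C1 := by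
    by_contra h
    push Not at h
    have : Nat.card C1 * Nat.card B ≤ (2 ^ 12 - 1) * 4 := Nat.mul_le_mul (by omega) hB4
    omega
  have hK4 : Nat.card K ≤ 4 := by
    by_contra h
    push Not at h
    have : 5 * 2 ^ 12 ≤ Nat.card K * Nat.card C1 := Nat.mul_le_mul (by omega) hC12
    omega
  have memK : ∀ w, w ∈ Q₁ → (∀ a ∈ C1, a * w = w * a) → w ∈ K := by
    intro w hw h
    rw [hK, Subgroup.mem_inf, Subgroup.mem_centralizer_iff]
    exact ⟨hw, h⟩
  have kz : z ∈ K := memK z hz (fun a ha => (memC1 a ha).2)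
  have ks : s ∈ K := memK s e1.zQ (fun a ha => e1.cen a (memC1 a ha).1)
  have ky : y ∈ K := memK y hy (fun a ha => hc a (memC1 a ha).1 (memC1 a ha).2)
  have h5 : (({1, z, s, z * s, y} : Finset X) : Set X) ⊆ (K : Set X) := by
    intro w hw
    simp only [Finset.coe_insert, Finset.coe_singleton, Set.mem_insert_iff, Set.mem_singleton_iff] at hw
    rcases hw with h | h | h | h | h <;> rw [h]
    · exact K.one_mem
    · exact kz
    · exact ks
    · exact K.mul_mem kz ks
    · exact ky
  have h6 := Set.ncard_le_ncard h5 (Set.toFinite _)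
  rw [Set.ncard_coe_finset] at h6
  have h7 : ({1, z, s, z * s, y} : Finset X).card = 5 := by
    unfold O4 at hO
    push Not at hO
    obtain ⟨o1, o2, o3, o4⟩ := hO
    rw [one_mul] at o2 o3
    rw [one_mul] at o4
    have n1 : z * s ≠ 1 := fun h => hsz (by
      have : z⁻¹ = s := inv_eq_of_mul_eq_one_right h
      rw [← this]; exact inv_eq_of_mul_eq_one_left hzz)
    have n2 : z * s ≠ z := fun h => hs1 (mul_eq_left.1 h)
    have n3 : z * s ≠ s := fun h => hz1 (mul_eq_right.1 h)
    rw [Finset.card_insert_of_notMem, Finset.card_insert_of_notMem, Finset.card_insert_of_notMem,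
      Finset.card_insert_of_notMem, Finset.card_singleton]
    · simpa using fun h => o4 h.symm
    · simp only [Finset.mem_insert, Finset.mem_singleton, not_or]
      exact ⟨fun h => n3 h.symm, fun h => o3 h.symm⟩
    · simp only [Finset.mem_insert, Finset.mem_singleton, not_or]
      exact ⟨fun h => hsz h.symm, fun h => n2 h.symm, fun h => o2 h.symm⟩
    · simp only [Finset.mem_insert, Finset.mem_singleton, not_or]
      exact ⟨fun h => hz1 h.symm, fun h => hs1 h.symm, fun h => n1 h.symm, fun h => o1 h.symm⟩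
  rw [h7] at h6
  have h8 : (K : Set X).ncard = Nat.card K := rfl
  omega

variable {G' : Type u} [Group G'] [Finite G'] {z : G'} {Q : Subgroup (Subgroup.centralizer ({z} : Set G'))} [hQn : Q.Normal]
    {V : Type u} [AddCommGroup V] {q : V → ZMod 2} {b : V → V → ZMod 2}
    {ρ : Subgroup.centralizer ({z} : Set G') →* AddMonoid.End V} {π : Q → V} {M : Subgroup (Subgroup.centralizer ({z} : Set G'))}
    {Φ : V6 ≃+ V} {R : M →* G} {D : Dat (zz z) Q q b ρ π M Φ R} {Q' Q₁ : Subgroup G'} {g s y : G'} {r : Q}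
    {x : Subgroup.centralizer ({z} : Set G')}

theorem semi_of (C : Cx D Q' Q₁ g s y r x) (e0 : LE Q' z) (e1 : LE Q₁ s) (hy : y ∈ Q₁)
    (hzQ : z ∈ Q₁) (hsz : s ≠ z) (hO : ¬ O4 z s 1 y) (hss : s * s = 1) (hs1 : s ≠ 1) :
    ∀ h : Subgroup.centralizer ({z} : Set G'), h ∉ M → ∀ v, ρ h (Φ (om • v)) = Φ (om' • Φ.symm (ρ h (Φ v))) := by
  intro h0 hh0
  rcases H87U3E.omega D C.hR h0 with hlin0 | h
  swap
  · exact h
  exfalso
  -- everything is linear
  have hM : ∀ m ∈ M, ∀ v, ρ m (Φ (om • v)) = Φ (om • Φ.symm (ρ m (Φ v))) := by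
    intro m hm v
    have h1 := D.rep ⟨m, hm⟩ (om • v)
    have h2 := D.rep ⟨m, hm⟩ v
    change Φ (mt (R ⟨m, hm⟩) *ᵥ (om • v)) = ρ m (Φ (om • v)) at h1
    change Φ (mt (R ⟨m, hm⟩) *ᵥ v) = ρ m (Φ v) at h2
    rw [← h1, ← h2, Φ.symm_apply_apply, Matrix.mulVec_smul]
  have hall : ∀ h, ∀ v, ρ h (Φ (om • v)) = Φ (om • Φ.symm (ρ h (Φ v))) := by
    intro h v
    by_cases hm : h ∈ M
    · exact hM h hm v
    · have hm2 : h * h0⁻¹ ∈ M := by
        rw [Subgroup.mul_mem_iff_of_index_two D.idx, Subgroup.inv_mem_iff]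
        exact ⟨fun h => absurd h hm, fun h => absurd h hh0⟩
      have e : h = (h * h0⁻¹) * h0 := by group
      have e2 : ∀ w, ρ h w = ρ (h * h0⁻¹) (ρ h0 w) := by
        intro w
        conv_lhs => rw [e, map_mul ρ (h * h0⁻¹) h0]
        rfl
      rw [e2, hlin0, hM _ hm2, e2, Φ.apply_symm_apply]
  have hπr : π r = Φ w4 := by
    have := C.hr
    unfold co at this
    rw [← this, Φ.apply_symm_apply]
  let ry : Q := ⟨x * r * x⁻¹, hQn.conj_mem _ r.2 x⟩
  have hry : ((ry : Subgroup.centralizer ({z} : Set G')) : G') = y := C.hy.symm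
  have hπy : π ry = Φ (om • w4) := by
    rw [← C.hx, ← hπr]
    exact (D.act x r ry rfl).symm
  refine double_cent e1 hzQ hy e0.zz hss e0.z1 hs1 hsz hO ?_
  intro a ha haz
  have hmem : a ∈ Subgroup.centralizer ({z} : Set G') := by
    rw [Subgroup.mem_centralizer_singleton_iff]; exact haz
  let h : Subgroup.centralizer ({z} : Set G') := ⟨a, hmem⟩
  have hhr : (r : Subgroup.centralizer ({z} : Set G')) = h * r * h⁻¹ := by
    apply Subtype.ext
    change ((r : Subgroup.centralizer ({z} : Set G')) : G') = a * ((r : Subgroup.centralizer ({z} : Set G')) : G') * a⁻¹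
    rw [← C.hs, e1.cen a ha, mul_inv_cancel_right]
  have h1 : ρ h (π r) = π r := D.act h r r hhr
  let ry' : Q := ⟨h * ry * h⁻¹, hQn.conj_mem _ ry.2 h⟩
  have h2 : ρ h (π ry) = π ry' := D.act h ry ry' rfl
  have h3 : ρ h (π ry) = π ry := by
    rw [hπy, hall, ← hπr, h1, hπr, Φ.symm_apply_apply]
  rw [h2, D.eqv] at h3
  have h4 : a * y * a⁻¹ = y ∨ a * y * a⁻¹ = z * y := by
    rcases h3 with h3 | h3
    · left
      have := congrArg (fun w : Subgroup.centralizer ({z} : Set G') => (w : G')) h3
      change a * ((ry : Subgroup.centralizer ({z} : Set G')) : G') * a⁻¹ = ((ry : Subgroup.centralizer ({z} : Set G')) : G') at this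
      rw [hry] at this
      exact this
    · right
      have := congrArg (fun w : Subgroup.centralizer ({z} : Set G') => (w : G')) h3
      change a * ((ry : Subgroup.centralizer ({z} : Set G')) : G') * a⁻¹ = z * ((ry : Subgroup.centralizer ({z} : Set G')) : G') at this
      rw [hry] at this
      exact this
  rcases h4 with h4 | h4
  · exact mul_inv_eq_iff_eq_mul.1 h4
  · exfalso
    have h5 : a * y * a⁻¹ * y⁻¹ = z := by rw [h4, mul_inv_cancel_right]
    rcases e1.comm a ha y hy with h6 | h6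
    · rw [h5] at h6
      exact e0.z1 h6
    · rw [h5] at h6
      exact hsz h6.symm

end Cfsg.Agent.Lib.H97FeD4a
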