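import Cfsg.Agent.Lib.H97FeC
/-!
# S5445, piece D4: elements outside of `M` are semilinear (helper7)
-/
set_option autoImplicit false
set_option linter.unusedVariables false
universe u
open Matrix Cfsg Cfsg.Agent.Lib.K4 Cfsg.Agent.Lib.HermMat Cfsg.Agent.Lib.ClThreeTransU Cfsg.Agent.Lib.SU6K4
open Cfsg.Agent.Lib.U43 Cfsg.Agent.Lib.H97Fa Cfsg.Agent.Lib.H97FaF Cfsg.Agent.Lib.H97FaG Cfsg.Agent.Lib.H97FaI Cfsg.Agent.Lib.LargeExtra
open Cfsg.Agent.Lib.H97FbY Cfsg.Agent.Lib.H97FbU Cfsg.Agent.Lib.H97FbV Cfsg.Agent.Lib.H97FbM Cfsg.Agent.Lib.H97Fe0 Cfsg.Agent.Lib.H97FeC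

namespace Cfsg.Agent.Lib.H97FeD4b

/-- an element of `Q` commuting with `Q ⊓ C(s)` lies in `⟨z, s⟩` -/
theorem mem_of_double {G : Type*} [Group G] [Finite G] {Q : Subgroup G} {z s : G} (h : LE Q z) (hs : s ∈ Q) (hss : s * s = 1)
    (hs1 : s ≠ 1) (hsz : s ≠ z) (y : G) (hy : y ∈ Q) (hc : ∀ a ∈ Q, a * s = s * a → a * y = y * a) : O4 z s 1 y := by
  have hcom : s * z = z * s := h.cen s hs
  have hci : s⁻¹ = s := inv_eq_of_mul_eq_one_right hss
  have hzi : z⁻¹ = z := inv_eq_of_mul_eq_one_right h.zz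
  let B : Subgroup G :=
    { carrier := {x | O4 z s 1 x}
      one_mem' := Or.inl rfl
      mul_mem' := by
        rintro a b (rfl | rfl | rfl | rfl) (rfl | rfl | rfl | rfl)
        · left; simp
        · right; left; simp
        · right; right; left; simp
        · right; right; right; simp
        · right; left; simp
        · left; simp [h.zz]
        · right; right; right; simp
        · right; right; left; simp only [one_mul]; rw [← mul_assoc, h.zz, one_mul]
        · right; right; left; simp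
        · right; right; right; simp [hcom]
        · left; simp [hss]
        · right; left; simp only [one_mul]; rw [← mul_assoc, hcom, mul_assoc, hss, mul_one]
        · right; right; right; simp
        · right; right; left; simp only [one_mul]; rw [mul_assoc, hcom, ← mul_assoc, h.zz, one_mul]
        · right; left; simp only [one_mul]; rw [mul_assoc, hss, mul_one]
        · left; simp only [one_mul]
          calc z * s * (z * s) = z * (s * z) * s := by group
            _ = z * (z * s) * s := by rw [hcom]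
            _ = (z * z) * (s * s) := by group
            _ = 1 := by rw [h.zz, hss, one_mul]
      inv_mem' := by
        rintro a (rfl | rfl | rfl | rfl)
        · left; simp
        · right; left; simp [hzi]
        · right; right; left; simp [hci]
        · right; right; right; simp only [one_mul, _root_.mul_inv_rev, hzi, hci, hcom] }
  have hmB : ∀ x, x ∈ B ↔ O4 z s 1 x := fun x => Iff.rfl
  have hBQ : B ≤ Q := by
    rintro x (rfl | rfl | rfl | rfl)
    · exact Q.one_mem
    · simpa using h.zQ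
    · simpa using hs
    · simpa using Q.mul_mem h.zQ hs
  have hzB : z ∈ B := Or.inr (Or.inl (by simp))
  have hsB : s ∈ B := Or.inr (Or.inr (Or.inl (by simp)))
  have hB4 : 4 ≤ Nat.card B := by
    have : Nat.card (Fin 4) ≤ Nat.card B := by
      apply Nat.card_le_card_of_injective (fun i : Fin 4 => (![⟨1, B.one_mem⟩, ⟨z, hzB⟩, ⟨s, hsB⟩, ⟨z * s, B.mul_mem hzB hsB⟩] : Fin 4 → B) i)
      have hzs : z * s ≠ 1 := by
        intro e; apply hsz
        have := eq_inv_of_mul_eq_one_right e
        rw [this, hzi]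
      intro i j hij
      fin_cases i <;> fin_cases j <;> simp_all [Subtype.ext_iff, h.z1, hs1, hsz, h.z1.symm, hs1.symm, hsz.symm, hzs, hzs.symm]
    simpa using this
  have d1 := h.dual B hBQ hzB
  set W := Q ⊓ Subgroup.centralizer (B : Set G) with hW
  have hWQ : W ≤ Q := inf_le_left
  have hzW : z ∈ W := ⟨h.zQ, Subgroup.mem_centralizer_iff.2 fun x hx => h.cen x (hBQ hx)⟩
  have d2 := h.dual W hWQ hzW
  have hle : B ≤ Q ⊓ Subgroup.centralizer (W : Set G) := by
    intro x hx
    refine ⟨hBQ hx, Subgroup.mem_centralizer_iff.2 ?_⟩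
    intro w hw
    exact ((Subgroup.mem_centralizer_iff.1 hw.2) x hx).symm
  have hWpos : 0 < Nat.card W := Nat.card_pos
  have hcard : Nat.card ↥(Q ⊓ Subgroup.centralizer (W : Set G)) = Nat.card B := by
    have : Nat.card ↥(Q ⊓ Subgroup.centralizer (W : Set G)) * Nat.card W = Nat.card B * Nat.card W := by
      rw [d2, ← d1, mul_comm]
    exact Nat.eq_of_mul_eq_mul_right hWpos this
  have heq := Subgroup.eq_of_le_of_card_ge hle hcard.le
  have hyW : y ∈ Q ⊓ Subgroup.centralizer (W : Set G) := by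
    refine ⟨hy, Subgroup.mem_centralizer_iff.2 ?_⟩
    intro w hw
    exact hc w hw.1 ((Subgroup.mem_centralizer_iff.1 hw.2) s hsB).symm
  rw [← heq] at hyW
  exact hyW

section
variable {G' : Type u} [Group G'] [Finite G'] {z : G'} {Q : Subgroup (Subgroup.centralizer ({z} : Set G'))} [Q.Normal]
    {V : Type u} [AddCommGroup V] {q : V → ZMod 2} {b : V → V → ZMod 2}
    {ρ : Subgroup.centralizer ({z} : Set G') →* AddMonoid.End V} {π : Q → V} {M : Subgroup (Subgroup.centralizer ({z} : Set G'))}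
    {Φ : V6 ≃+ V} {R : M →* G} {D : Dat (zz z) Q q b ρ π M Φ R} {Q' Q₁ : Subgroup G'} {g s y : G'} {r : Q}
    {x : Subgroup.centralizer ({z} : Set G')}

theorem semi_of (C : Cx D Q' Q₁ g s y r x) (e0 : LE Q' z) (e1 : LE Q₁ s) (hy : y ∈ Q₁) (hz : z ∈ Q₁) (hsz : s ≠ z)
    (hO : ¬ O4 z s 1 y) :
    ∀ h : Subgroup.centralizer ({z} : Set G'), h ∉ M → ∀ v, ρ h (Φ (om • v)) = Φ (om' • Φ.symm (ρ h (Φ v))) := by
  intro h hh
  rcases Cfsg.Agent.Lib.H87U3E.omega D C.hR h with hlin | hlin
  swap
  · exact hlin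
  exfalso
  -- every element is linear
  have mulA : ∀ (k l : Subgroup.centralizer ({z} : Set G')) (x : V), ρ (k * l) x = ρ k (ρ l x) := by
    intro k l x; rw [map_mul]; rfl
  have hMlin : ∀ m : M, ∀ v, ρ (m : Subgroup.centralizer ({z} : Set G')) (Φ (om • v)) = Φ (om • Φ.symm (ρ m (Φ v))) := by
    intro m v
    rw [← D.rep, ← D.rep, AddEquiv.symm_apply_apply, Matrix.mulVec_smul]
  have hall : ∀ k : Subgroup.centralizer ({z} : Set G'), ∀ v, ρ k (Φ (om • v)) = Φ (om • Φ.symm (ρ k (Φ v))) := by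
    intro k v
    by_cases hk : k ∈ M
    · exact hMlin ⟨k, hk⟩ v
    · have hm : h⁻¹ * k ∈ M := by
        rw [Subgroup.mul_mem_iff_of_index_two D.idx]
        simp [hh, hk]
      have e : k = h * (h⁻¹ * k) := by group
      have h1 : ρ k (Φ (om • v)) = ρ h (ρ (h⁻¹ * k) (Φ (om • v))) := by rw [← mulA, ← e]
      have h2 : ρ k (Φ v) = ρ h (ρ (h⁻¹ * k) (Φ v)) := by rw [← mulA, ← e]
      rw [h1, h2, hMlin ⟨h⁻¹ * k, hm⟩ v, hlin, AddEquiv.apply_symm_apply]
  -- `y` commutes with `Q₁ ⊓ C(z)`
  have hry : x * (r : Subgroup.centralizer ({z} : Set G')) * x⁻¹ ∈ Q := ‹Q.Normal›.conj_mem _ r.2 x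
  have hpr : π r = Φ w4 := by
    have := C.hr
    unfold co at this
    rw [← this, AddEquiv.apply_symm_apply]
  have hpy : π ⟨_, hry⟩ = Φ (om • w4) := by
    rw [← C.hx, ← hpr]
    exact (D.act x r ⟨_, hry⟩ rfl).symm
  apply hO
  have key : ∀ a ∈ Q₁, a * z = z * a → a * y = y * a := by
    intro a ha haz
    have haC : a ∈ Subgroup.centralizer ({z} : Set G') := by
      rw [Subgroup.mem_centralizer_iff]
      rintro _ rfl
      exact haz.symm
    set a' : Subgroup.centralizer ({z} : Set G') := ⟨a, haC⟩ with ha'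
    have has : a * s = s * a := e1.cen a ha
    have hconj : ∀ t : Q, a' * (t : Subgroup.centralizer ({z} : Set G')) * a'⁻¹ ∈ Q := fun t => ‹Q.Normal›.conj_mem _ t.2 a'
    have har : a' * (r : Subgroup.centralizer ({z} : Set G')) * a'⁻¹ = r := by
      apply Subtype.ext
      show a * ((r : Subgroup.centralizer ({z} : Set G')) : G') * a⁻¹ = ((r : Subgroup.centralizer ({z} : Set G')) : G')
      rw [← C.hs, has, mul_inv_cancel_right]
    have h1 : ρ a' (Φ w4) = Φ w4 := by
      rw [← hpr]
      exact D.act a' r r har.symm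
    have h2 : ρ a' (Φ (om • w4)) = Φ (om • w4) := by
      rw [hall, h1, AddEquiv.symm_apply_apply]
    rw [← hpy] at h2
    have h3 := D.act a' ⟨_, hry⟩ ⟨_, hconj ⟨_, hry⟩⟩ rfl
    rw [h2] at h3
    have h4 := (D.eqv _ _).1 h3.symm
    have h5 : a * y * a⁻¹ = y ∨ a * y * a⁻¹ = z * y := by
      rcases h4 with h4 | h4
      · left
        have := congrArg Subtype.val h4
        rw [C.hy]; exact this
      · right
        have := congrArg Subtype.val h4
        rw [C.hy]; exact this
    rcases h5 with h5 | h5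
    · exact mul_inv_eq_iff_eq_mul.1 h5
    · exfalso
      rcases e1.comm a ha y hy with h6 | h6
      · rw [h5] at h6
        apply e0.z1
        rwa [mul_inv_cancel_right] at h6
      · rw [h5] at h6
        apply hsz
        rw [mul_inv_cancel_right] at h6
        exact h6.symm
  have h7 : O4 s z 1 y := mem_of_double e1 hz e0.zz e0.z1 hsz.symm y hy key
  rcases h7 with h7 | h7 | h7 | h7
  · exact Or.inl h7
  · exact Or.inr (Or.inr (Or.inl h7))
  · exact Or.inr (Or.inl h7)
  · refine Or.inr (Or.inr (Or.inr ?_))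
    rw [h7, one_mul, one_mul]
    exact (e1.cen z hz).symm

end

end Cfsg.Agent.Lib.H97FeD4b
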