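import Cfsg.Agent.Lib.H97FeC
import Cfsg.Agent.Lib.H97FbX
import Cfsg.Agent.Lib.H97FeD5

/-!
S5445, piece FE-D4 (backup, helper18): elements outside `M` are semilinear.
-/

set_option autoImplicit false
universe u
open Matrix Cfsg Cfsg.Agent.Lib.K4 Cfsg.Agent.Lib.HermMat Cfsg.Agent.Lib.ClThreeTransU Cfsg.Agent.Lib.SU6K4
open Cfsg.Agent.Lib.U43 Cfsg.Agent.Lib.H97Fa Cfsg.Agent.Lib.H97FaF Cfsg.Agent.Lib.H97FaG Cfsg.Agent.Lib.H97FaI Cfsg.Agent.Lib.LargeExtra
open Cfsg.Agent.Lib.H97FbY Cfsg.Agent.Lib.H97FbU Cfsg.Agent.Lib.H97FbV Cfsg.Agent.Lib.H97FbM Cfsg.Agent.Lib.H97Fe0 Cfsg.Agent.Lib.H97FeC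

namespace Cfsg.Agent.Lib.H97FeD4q

theorem closure_O4 {G : Type*} [Group G] {z s : G} (zz : z * z = 1) (ss : s * s = 1) (sz : s * z = z * s) {w : G}
    (hw : w ∈ Subgroup.closure ({z, s} : Set G)) : O4 z s 1 w := by
  have zzt : ∀ t, z * (z * t) = t := fun t => by rw [← mul_assoc, zz, one_mul]
  have sst : ∀ t, s * (s * t) = t := fun t => by rw [← mul_assoc, ss, one_mul]
  have szt : ∀ t, s * (z * t) = z * (s * t) := fun t => by rw [← mul_assoc, sz, mul_assoc]
  have zi : z⁻¹ = z := inv_eq_of_mul_eq_one_left zz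
  have si : s⁻¹ = s := inv_eq_of_mul_eq_one_left ss
  let B : Subgroup G :=
    { carrier := {w | w = 1 ∨ w = z ∨ w = s ∨ w = z * s}
      one_mem' := Or.inl rfl
      mul_mem' := by
        rintro a b (rfl | rfl | rfl | rfl) (rfl | rfl | rfl | rfl)
        all_goals
          simp only [Set.mem_ofPred_eq, one_mul, mul_one, mul_assoc, zz, ss, sz, zzt, sst, szt, true_or, or_true]
      inv_mem' := by
        rintro a (rfl | rfl | rfl | rfl)
        all_goals
          simp only [Set.mem_ofPred_eq, inv_one, _root_.mul_inv_rev, zi, si, sz, true_or, or_true] }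
  have h1 : Subgroup.closure ({z, s} : Set G) ≤ B := by
    rw [Subgroup.closure_le]
    rintro a (rfl | rfl)
    · exact Or.inr (Or.inl rfl)
    · exact Or.inr (Or.inr (Or.inl rfl))
  rcases h1 hw with h | h | h | h
  · exact Or.inl h
  · exact Or.inr (Or.inl (by rw [one_mul]; exact h))
  · exact Or.inr (Or.inr (Or.inl (by rw [one_mul]; exact h)))
  · exact Or.inr (Or.inr (Or.inr (by rw [one_mul]; exact h)))

/-- the double centralizer of `z` in `Q₁` -/
theorem dd {G : Type*} [Group G] [Finite G] {z s y : G} {Q₁ : Subgroup G} (e1 : LE Q₁ s) (hz : z ∈ Q₁) (zz : z * z = 1)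
    (hy : y ∈ Q₁) (h : ∀ a ∈ Q₁, a * z = z * a → a * y = y * a) : O4 z s 1 y := by
  have sz : s * z = z * s := (e1.cen z hz).symm
  apply closure_O4 zz e1.zz sz
  set B : Subgroup G := Subgroup.closure ({z, s} : Set G) with hB
  have hBQ : B ≤ Q₁ := by
    rw [hB, Subgroup.closure_le]
    rintro a (rfl | rfl)
    · exact hz
    · exact e1.zQ
  have hsB : s ∈ B := Subgroup.subset_closure (by simp)
  have hzB : z ∈ B := Subgroup.subset_closure (by simp)
  have d1 := e1.dual B hBQ hsB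
  have hsA : s ∈ Q₁ ⊓ Subgroup.centralizer (B : Set G) :=
    ⟨e1.zQ, Subgroup.mem_centralizer_iff.2 fun b hb => e1.cen b (hBQ hb)⟩
  have d2 := e1.dual _ inf_le_left hsA
  have hle : B ≤ Q₁ ⊓ Subgroup.centralizer ((Q₁ ⊓ Subgroup.centralizer (B : Set G) : Subgroup G) : Set G) := by
    intro b hb
    refine ⟨hBQ hb, Subgroup.mem_centralizer_iff.2 fun a ha => ?_⟩
    exact (Subgroup.mem_centralizer_iff.1 ha.2 b hb).symm
  have heq := Subgroup.eq_of_le_of_card_ge hle (by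
    have hpos : 0 < Nat.card ↥(Q₁ ⊓ Subgroup.centralizer (B : Set G)) := Nat.card_pos
    rw [mul_comm] at d1
    rw [← d1] at d2
    exact (Nat.eq_of_mul_eq_mul_right hpos d2).le)
  rw [heq]
  refine ⟨hy, Subgroup.mem_centralizer_iff.2 fun a ha => ?_⟩
  exact h a ha.1 (Subgroup.mem_centralizer_iff.1 ha.2 z hzB).symm

section
variable {G' : Type u} [Group G'] [Finite G'] {z : G'} {Q : Subgroup (Subgroup.centralizer ({z} : Set G'))} [Q.Normal]
    {V : Type u} [AddCommGroup V] {q : V → ZMod 2} {b : V → V → ZMod 2}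
    {ρ : Subgroup.centralizer ({z} : Set G') →* AddMonoid.End V} {π : Q → V} {M : Subgroup (Subgroup.centralizer ({z} : Set G'))}
    {Φ : V6 ≃+ V} {R : M →* G} {D : Dat (zz z) Q q b ρ π M Φ R} {Q' Q₁ : Subgroup G'} {g s y : G'} {r : Q}
    {x : Subgroup.centralizer ({z} : Set G')}

theorem pi_r (C : Cx D Q' Q₁ g s y r x) : π r = Φ w4 := by
  have := C.hr
  unfold co at this
  rw [← this, Φ.apply_symm_apply]

theorem pi_y (C : Cx D Q' Q₁ g s y r x) (yQ : Q) (h : (yQ : Subgroup.centralizer ({z} : Set G')) = x * r * x⁻¹) :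
    π yQ = Φ (om • w4) := by
  rw [← D.act x r yQ h, pi_r C, C.hx]

theorem s_ne_z (C : Cx D Q' Q₁ g s y r x) : s ≠ z := by
  intro h
  have h1 : π r = π 1 := by
    rw [D.eqv]
    right
    apply Subtype.ext
    rw [Subgroup.coe_one, mul_one, ← C.hs, h]
  rw [pi_r C, D.π_one, EmbeddingLike.map_eq_zero_iff] at h1
  revert h1
  decide

theorem not_O4 (C : Cx D Q' Q₁ g s y r x) : ¬ O4 z s 1 y := by
  have hn : Q.Normal := inferInstance
  let yQ : Q := ⟨x * r * x⁻¹, hn.conj_mem _ r.2 x⟩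
  have hyG : y = ((yQ : Subgroup.centralizer ({z} : Set G')) : G') := C.hy
  have hsG : s = ((r : Subgroup.centralizer ({z} : Set G')) : G') := C.hs
  have hπ := pi_y C yQ rfl
  have hzero : π yQ ≠ π 1 := by
    rw [hπ, D.π_one, Ne, EmbeddingLike.map_eq_zero_iff]
    decide
  have hr : π yQ ≠ π r := by
    rw [hπ, pi_r C, Ne, EmbeddingLike.apply_eq_iff_eq]
    decide
  rintro (h | h | h | h)
  · apply hzero
    rw [D.eqv]
    left
    apply Subtype.ext
    rw [← hyG, h]; rfl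
  · apply hzero
    rw [D.eqv]
    right
    apply Subtype.ext
    rw [Subgroup.coe_one, mul_one, ← hyG, h, one_mul]
  · apply hr
    rw [D.eqv]
    left
    apply Subtype.ext
    rw [← hyG, h, one_mul, hsG]
  · apply hr
    rw [D.eqv]
    right
    apply Subtype.ext
    rw [← hyG, h, one_mul, hsG]
    rfl

theorem z_mem (C : Cx D Q' Q₁ g s y r x) : z ∈ Q₁ := by
  have h1 : g * z * g⁻¹ ∈ Q.map (Subgroup.centralizer ({z} : Set G')).subtype := by
    rw [C.hg, C.hs]
    exact ⟨r, r.2, rfl⟩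
  have h2 : g * z * g⁻¹ ≠ z := by rw [C.hg]; exact s_ne_z C
  exact (H97FbX.conj_part Q C.hF.1 g h1 h2 Q' Q₁ _ _ C.hQ' C.hQ₁ rfl rfl).1

-- FE-D4
theorem semi (C : Cx D Q' Q₁ g s y r x) (e0 : LE Q' z) (e1 : LE Q₁ s) (hy : y ∈ Q₁) :
    ∀ h : Subgroup.centralizer ({z} : Set G'), h ∉ M → ∀ v, ρ h (Φ (om • v)) = Φ (om' • Φ.symm (ρ h (Φ v))) := by
  intro h hM
  rcases H87U3E.omega D C.hR h with hlin | hsem
  swap
  · exact hsem
  exfalso
  have hnM := D.nM
  -- everything is linear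
  have hMlin : ∀ m ∈ M, ∀ v, ρ m (Φ (om • v)) = Φ (om • Φ.symm (ρ m (Φ v))) := by
    intro m hm v
    have h1 := D.rep ⟨m, hm⟩ (om • v)
    have h2 := D.rep ⟨m, hm⟩ v
    change _ = ρ m (Φ (om • v)) at h1
    change _ = ρ m (Φ v) at h2
    rw [← h1, ← h2, Φ.symm_apply_apply, Matrix.mulVec_smul]
  have hall : ∀ k : Subgroup.centralizer ({z} : Set G'), ∀ v, ρ k (Φ (om • v)) = Φ (om • Φ.symm (ρ k (Φ v))) := by
    intro k
    by_cases hk : k ∈ M
    · exact hMlin k hk
    · have h3 : k * h⁻¹ ∈ M := by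
        have h4 : h⁻¹ ∉ M := fun h5 => hM (by simpa using M.inv_mem h5)
        exact (Subgroup.mul_mem_iff_of_index_two D.idx).2 ⟨fun h6 => absurd h6 hk, fun h6 => absurd h6 h4⟩
      intro v
      have h5 : ∀ w, ρ k w = ρ (k * h⁻¹) (ρ h w) := by
        intro w
        have h6 : ρ k = ρ (k * h⁻¹) * ρ h := by rw [← map_mul, inv_mul_cancel_right]
        rw [h6]; rfl
      rw [h5, h5, hlin v, hMlin _ h3, Φ.apply_symm_apply]
  apply not_O4 C
  apply dd e1 (z_mem C) e0.zz hy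
  intro a ha haz
  have hn : Q.Normal := inferInstance
  let k : Subgroup.centralizer ({z} : Set G') := ⟨a, Subgroup.mem_centralizer_singleton_iff.2 haz⟩
  let yQ : Q := ⟨x * r * x⁻¹, hn.conj_mem _ r.2 x⟩
  let y' : Q := ⟨k * yQ * k⁻¹, hn.conj_mem _ yQ.2 k⟩
  have hyG : y = ((yQ : Subgroup.centralizer ({z} : Set G')) : G') := C.hy
  have hyG' : a * y * a⁻¹ = ((y' : Subgroup.centralizer ({z} : Set G')) : G') := by
    rw [hyG]; rfl
  have has : a * s = s * a := e1.cen a ha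
  have hrr : (r : Subgroup.centralizer ({z} : Set G')) = k * r * k⁻¹ := by
    apply Subtype.ext
    have h1 : a * ((r : Subgroup.centralizer ({z} : Set G')) : G') = ((r : Subgroup.centralizer ({z} : Set G')) : G') * a := by
      rw [← C.hs]; exact has
    change ((r : Subgroup.centralizer ({z} : Set G')) : G') = a * ((r : Subgroup.centralizer ({z} : Set G')) : G') * a⁻¹
    rw [h1, mul_assoc, mul_inv_cancel, mul_one]
  have hfix : ρ k (Φ w4) = Φ w4 := by
    rw [← pi_r C]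
    exact D.act k r r hrr
  have hπ : π y' = π yQ := by
    rw [← D.act k yQ y' rfl, pi_y C yQ rfl, hall, hfix, Φ.symm_apply_apply]
  rcases (D.eqv y' yQ).1 hπ with h1 | h1
  · have h2 : a * y * a⁻¹ = y := by rw [hyG', h1, hyG]
    exact mul_inv_eq_iff_eq_mul.1 h2
  · exfalso
    have h2 : a * y * a⁻¹ = z * y := by
      rw [hyG', h1, hyG]; rfl
    have h3 : a * y * a⁻¹ * y⁻¹ = z := by rw [h2, mul_inv_cancel_right]
    rcases e1.comm a ha y hy with h4 | h4
    · rw [h4] at h3; exact e0.z1 h3.symm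
    · rw [h4] at h3; exact s_ne_z C h3

end

end Cfsg.Agent.Lib.H97FeD4q
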