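import Cfsg.Agent.Lib.H97FeC
import Cfsg.Agent.Lib.H97FeL2

set_option autoImplicit false
set_option linter.all false
universe u
open Matrix Cfsg Cfsg.Agent.Lib.K4 Cfsg.Agent.Lib.HermMat Cfsg.Agent.Lib.ClThreeTransU Cfsg.Agent.Lib.SU6K4
open Cfsg.Agent.Lib.U43 Cfsg.Agent.Lib.H97Fa Cfsg.Agent.Lib.H97FaF Cfsg.Agent.Lib.H97FaG Cfsg.Agent.Lib.H97FaI Cfsg.Agent.Lib.LargeExtra
open Cfsg.Agent.Lib.H97FbY Cfsg.Agent.Lib.H97FbU Cfsg.Agent.Lib.H97FbV Cfsg.Agent.Lib.H97FbM Cfsg.Agent.Lib.H97Fe0 Cfsg.Agent.Lib.H97FeC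

namespace Cfsg.Agent.Lib.H97FeD8x

section pure
variable {G' : Type*} [Group G'] [Finite G']

theorem factor {z s y : G'} {Q' Q₁ : Subgroup G'} (e0 : LE Q' z) (e1 : LE Q₁ s) (hy : y ∈ Q₁) (hz : z ∈ Q₁)
    (hsQ : s ∈ Q') (hyQ : y ∈ Q') (hsz : s ≠ z) (hy1 : ¬ O4 z s 1 y)
    (h : G') (hhz : h * z = z * h) (hhs : h * s = s * h) (hO : O4 z s y (h * y * h⁻¹)) :
    ∃ a ∈ Q', ∃ b ∈ Q₁, b * z = z * b ∧ ∃ c : G', c * z = z * c ∧ c * s = s * c ∧ c * y = y * c ∧ h = a * b * c := by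
  have hzs : z * s = s * z := (e0.cen s hsQ).symm
  have hyz : y * z = z * y := e0.cen y hyQ
  have hys : y * s = s * y := e1.cen y hy
  simp only [O4, not_or, one_mul] at hy1
  obtain ⟨y1, y2, y3, y4⟩ := hy1
  obtain ⟨-, hA⟩ := Cfsg.Agent.Lib.H97FeL2.adj e0 hsQ e1.zz e1.z1 hsz
  obtain ⟨a, ha, has, hay⟩ := hA y hyQ y1 y2 y3 y4
  obtain ⟨-, hB⟩ := Cfsg.Agent.Lib.H97FeL2.adj e1 hz e0.zz e0.z1 (Ne.symm hsz)
  obtain ⟨b, hb, hbz, hby⟩ := hB y hy y1 y3 y2 (by rw [← hzs]; exact y4)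
  have haz := e0.cen a ha
  have hbs := e1.cen b hb
  have zz := e0.zz
  have ss := e1.zz
  -- `a⁻¹ y a = y z`, `b⁻¹ y b = y s`
  have hay' : a * y = y * z * a := by rw [← hay]; group
  have hby' : b * y = y * s * b := by rw [← hby]; group
  have comm_inv : ∀ {p t : G'}, p * t = t * p → p⁻¹ * t = t * p⁻¹ := fun {p t} hpt =>
    ((show Commute p t from hpt).inv_left).eq
  have hc : ∀ {p t : G'}, p * y * p⁻¹ = t → p * y = t * p := by
    intro p t hp; rw [← hp]; group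
  have hai : a⁻¹ * y = y * z * a⁻¹ := by
    have h1 : a * (y * z) = y * a := by
      rw [← mul_assoc, hay', mul_assoc (y * z) a z, haz, ← mul_assoc, mul_assoc y z z, zz, mul_one]
    calc a⁻¹ * y = a⁻¹ * (y * a) * a⁻¹ := by group
      _ = y * z * a⁻¹ := by rw [← h1]; group
  have hbi : b⁻¹ * y = y * s * b⁻¹ := by
    have h1 : b * (y * s) = y * b := by
      rw [← mul_assoc, hby', mul_assoc (y * s) b s, hbs, ← mul_assoc, mul_assoc y s s, ss, mul_one]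
    calc b⁻¹ * y = b⁻¹ * (y * b) * b⁻¹ := by group
      _ = y * s * b⁻¹ := by rw [← h1]; group
  rcases hO with h0 | h0 | h0 | h0
  · exact ⟨1, Q'.one_mem, 1, Q₁.one_mem, by simp, h, hhz, hhs, hc h0, by simp⟩
  · refine ⟨a, ha, 1, Q₁.one_mem, by simp, a⁻¹ * h, ?_, ?_, ?_, by group⟩
    · rw [mul_assoc, hhz, ← mul_assoc, comm_inv haz, mul_assoc]
    · rw [mul_assoc, hhs, ← mul_assoc, comm_inv has, mul_assoc]
    · rw [mul_assoc, hc h0]
      calc a⁻¹ * (y * z * h) = (a⁻¹ * y) * z * h := by group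
        _ = y * z * (a⁻¹ * z) * h := by rw [hai]; group
        _ = y * (z * z) * (a⁻¹ * h) := by rw [comm_inv haz]; group
        _ = y * (a⁻¹ * h) := by rw [zz, mul_one]
  · refine ⟨1, Q'.one_mem, b, hb, hbz, b⁻¹ * h, ?_, ?_, ?_, by group⟩
    · rw [mul_assoc, hhz, ← mul_assoc, comm_inv hbz, mul_assoc]
    · rw [mul_assoc, hhs, ← mul_assoc, comm_inv hbs, mul_assoc]
    · rw [mul_assoc, hc h0]
      calc b⁻¹ * (y * s * h) = (b⁻¹ * y) * s * h := by group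
        _ = y * s * (b⁻¹ * s) * h := by rw [hbi]; group
        _ = y * (s * s) * (b⁻¹ * h) := by rw [comm_inv hbs]; group
        _ = y * (b⁻¹ * h) := by rw [ss, mul_one]
  · refine ⟨a, ha, b, hb, hbz, b⁻¹ * (a⁻¹ * h), ?_, ?_, ?_, by group⟩
    · rw [mul_assoc, mul_assoc, hhz, ← mul_assoc a⁻¹, comm_inv haz, mul_assoc z, ← mul_assoc, comm_inv hbz, mul_assoc]
    · rw [mul_assoc, mul_assoc, hhs, ← mul_assoc a⁻¹, comm_inv has, mul_assoc s, ← mul_assoc, comm_inv hbs, mul_assoc]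
    · have h1 : a⁻¹ * h * y = y * s * (a⁻¹ * h) := by
        rw [mul_assoc, hc h0]
        calc a⁻¹ * (y * z * s * h) = (a⁻¹ * y) * z * s * h := by group
          _ = y * z * (a⁻¹ * z) * s * h := by rw [hai]; group
          _ = y * (z * z) * (a⁻¹ * s) * h := by rw [comm_inv haz]; group
          _ = y * s * (a⁻¹ * h) := by rw [zz, mul_one, comm_inv has]; group
      rw [mul_assoc, h1]
      calc b⁻¹ * (y * s * (a⁻¹ * h)) = (b⁻¹ * y) * s * (a⁻¹ * h) := by group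
        _ = y * s * (b⁻¹ * s) * (a⁻¹ * h) := by rw [hbi]; group
        _ = y * (s * s) * (b⁻¹ * (a⁻¹ * h)) := by rw [comm_inv hbs]; group
        _ = y * (b⁻¹ * (a⁻¹ * h)) := by rw [ss, mul_one]

end pure

section
variable {G' : Type u} [Group G'] [Finite G'] {z : G'} {Q : Subgroup (Subgroup.centralizer ({z} : Set G'))} [Q.Normal]
    {V : Type u} [AddCommGroup V] {q : V → ZMod 2} {b : V → V → ZMod 2}
    {ρ : Subgroup.centralizer ({z} : Set G') →* AddMonoid.End V} {π : Q → V} {M : Subgroup (Subgroup.centralizer ({z} : Set G'))}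
    {Φ : V6 ≃+ V} {R : M →* G} {D : Dat (zz z) Q q b ρ π M Φ R} {Q' Q₁ : Subgroup G'} {g s y : G'} {r : Q}
    {x : Subgroup.centralizer ({z} : Set G')}

theorem hom_of (C : Cx D Q' Q₁ g s y r x) (e0 : LE Q' z) (e1 : LE Q₁ s) (hy : y ∈ Q₁) (hz : z ∈ Q₁)
    (hyQ : y ∈ Q') (hsz : s ≠ z) (hy1 : ¬ O4 z s 1 y)
    (hlin : ∀ c, c * z = z * c → c * s = s * c → O4 z s y (c * y * c⁻¹)) :
    ∃ φ : ↥(Subgroup.centralizer ({z, s, y} : Set G')) →* alternatingGroup (Fin 6), Function.Surjective φ ∧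
    ∀ c, φ c = 1 ↔ ∃ a ∈ Q', ∃ b ∈ Q₁, b * z = z * b ∧ (c : G') = a * b := by
  have hQn : Q.Normal := inferInstance
  have hsc : s ∈ Subgroup.centralizer ({z} : Set G') := by rw [C.hs]; exact (r : Subgroup.centralizer ({z} : Set G')).2
  have hsQ0 : (⟨s, hsc⟩ : Subgroup.centralizer ({z} : Set G')) ∈ Q := by
    have : (⟨s, hsc⟩ : Subgroup.centralizer ({z} : Set G')) = r := Subtype.ext C.hs
    rw [this]; exact r.2
  have hsQ : s ∈ Q' := by rw [C.hQ']; exact ⟨_, hsQ0, rfl⟩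
  obtain ⟨-, -, hEX, hEn, -, -, hEN, ⟨e⟩⟩ := Cfsg.Agent.Lib.H97FbN.S5442_of Cfsg.Agent.Lib.H97FbS.no_two C.hF s
    ⟨hsc, hsQ0⟩ (isConj_iff.2 ⟨g, C.hg⟩) hsz g C.hg _ _ rfl rfl
  set X := ((Subgroup.centralizer ({z} : Set G') ⊓ Subgroup.centralizer ({s} : Set G')).subgroupOf (Subgroup.centralizer ({z} : Set G'))).map (QuotientGroup.mk' Q) with hX
  set E := ((((Q.map (Subgroup.centralizer ({z} : Set G')).subtype)).map (MulAut.conj g).toMonoidHom ⊓ Subgroup.centralizer ({z} : Set G')).subgroupOf (Subgroup.centralizer ({z} : Set G'))).map (QuotientGroup.mk' Q) with hE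
  have cz : ∀ {c : G'}, c * z = z * c → c ∈ Subgroup.centralizer ({z} : Set G') := fun {c} h =>
    Subgroup.mem_centralizer_singleton_iff.2 h
  have hbE : ∀ b : Subgroup.centralizer ({z} : Set G'), (b : G') ∈ Q₁ → QuotientGroup.mk' Q b ∈ E := by
    intro b hb
    refine ⟨b, ?_, rfl⟩
    rw [C.hQ₁, C.hQ'] at hb
    exact Subgroup.mem_subgroupOf.2 ⟨hb, b.2⟩
  have hE' : ∀ h : Subgroup.centralizer ({z} : Set G'), QuotientGroup.mk' Q h ∈ E ↔
      ∃ a ∈ Q', ∃ b ∈ Q₁, b * z = z * b ∧ (h : G') = a * b := by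
    intro h
    constructor
    · rintro ⟨b, hb, hbh⟩
      obtain ⟨hb1, hb2⟩ := Subgroup.mem_subgroupOf.1 hb
      have h1 : b⁻¹ * h ∈ Q := QuotientGroup.eq.1 hbh
      have h2 : h * b⁻¹ ∈ Q := by
        have := hQn.conj_mem _ h1 b
        have e : b * (b⁻¹ * h) * b⁻¹ = h * b⁻¹ := by group
        rwa [e] at this
      refine ⟨(h : G') * (b : G')⁻¹, ?_, b, ?_, Subgroup.mem_centralizer_singleton_iff.1 hb2, by group⟩
      · rw [C.hQ']; exact ⟨_, h2, rfl⟩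
      · rw [C.hQ₁, C.hQ']; exact hb1
    · rintro ⟨a, ha, b, hb, hbz, hab⟩
      rw [C.hQ'] at ha
      obtain ⟨a', ha', rfl⟩ := ha
      have e1 : h = a' * ⟨b, cz hbz⟩ := Subtype.ext hab
      have e2 : QuotientGroup.mk' Q h = QuotientGroup.mk' Q ⟨b, cz hbz⟩ := by
        rw [e1, map_mul, (QuotientGroup.eq_one_iff a').2 ha' |> (fun h => (h : QuotientGroup.mk' Q a' = 1)), one_mul]
      rw [e2]
      exact hbE _ hb
  have hle : Subgroup.centralizer ({z, s, y} : Set G') ≤ Subgroup.centralizer ({z} : Set G') :=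
    Subgroup.centralizer_le (by simp)
  have hXm : ∀ h : Subgroup.centralizer ({z} : Set G'), (h : G') * s = s * h → QuotientGroup.mk' Q h ∈ X := by
    intro h hh
    exact ⟨h, Subgroup.mem_subgroupOf.2 ⟨h.2, Subgroup.mem_centralizer_singleton_iff.2 hh⟩, rfl⟩
  have hcs : ∀ c ∈ Subgroup.centralizer ({z, s, y} : Set G'), c * z = z * c ∧ c * s = s * c ∧ c * y = y * c := by
    intro c hc
    rw [Subgroup.mem_centralizer_iff] at hc
    exact ⟨(hc z (by simp)).symm, (hc s (by simp)).symm, (hc y (by simp)).symm⟩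
  let F : ↥(Subgroup.centralizer ({z, s, y} : Set G')) →* X :=
    ((QuotientGroup.mk' Q).comp (Subgroup.inclusion hle)).codRestrict X (fun c => hXm _ (hcs c c.2).2.1)
  refine ⟨e.toMonoidHom.comp ((QuotientGroup.mk' (E.subgroupOf X)).comp F), ?_, ?_⟩
  · refine e.surjective.comp ?_
    intro t
    obtain ⟨⟨_, h, hh, rfl⟩, rfl⟩ := QuotientGroup.mk'_surjective _ t
    obtain ⟨hh1, hh2⟩ := Subgroup.mem_subgroupOf.1 hh
    have hhz := Subgroup.mem_centralizer_singleton_iff.1 hh1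
    have hhs := Subgroup.mem_centralizer_singleton_iff.1 hh2
    obtain ⟨a, ha, b, hb, hbz, c, hcz, hcs', hcy, habc⟩ := factor e0 e1 hy hz hsQ hyQ hsz hy1 (h : G') hhz hhs
      (hlin _ hhz hhs)
    have hcm : c ∈ Subgroup.centralizer ({z, s, y} : Set G') := by
      rw [Subgroup.mem_centralizer_iff]
      intro t ht
      rcases ht with rfl | rfl | rfl
      · exact hcz.symm
      · exact hcs'.symm
      · exact hcy.symm
    refine ⟨⟨c, hcm⟩, ?_⟩
    apply QuotientGroup.eq.2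
    rw [Subgroup.mem_subgroupOf]
    rw [C.hQ'] at ha
    obtain ⟨a', ha', rfl⟩ := ha
    have hb0 := cz hbz
    have hc0 := cz hcz
    have e1 : h = a' * ⟨b, hb0⟩ * ⟨c, hc0⟩ := Subtype.ext habc
    have e2 : QuotientGroup.mk' Q h = QuotientGroup.mk' Q ⟨b, hb0⟩ * QuotientGroup.mk' Q ⟨c, hc0⟩ := by
      have e3 : QuotientGroup.mk' Q a' = 1 := (QuotientGroup.eq_one_iff a').2 ha'
      rw [e1, map_mul, map_mul, e3, one_mul]
    have hcX : QuotientGroup.mk' Q ⟨c, hc0⟩ ∈ X := hXm _ hcs'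
    have h5 := hEn _ (X.inv_mem hcX) _ (hbE ⟨b, hb0⟩ hb)
    change (QuotientGroup.mk' Q ⟨c, hc0⟩)⁻¹ * QuotientGroup.mk' Q h ∈ E
    rw [e2]
    rw [inv_inv] at h5
    rw [← mul_assoc]
    exact h5
  · intro c
    rw [← hE' ⟨c, hle c.2⟩]
    change e ((QuotientGroup.mk' (E.subgroupOf X)) (F c)) = 1 ↔ _
    rw [EmbeddingLike.map_eq_one_iff]
    change (QuotientGroup.mk (F c) : X ⧸ E.subgroupOf X) = 1 ↔ _
    rw [QuotientGroup.eq_one_iff, Subgroup.mem_subgroupOf]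
    rfl

end
end Cfsg.Agent.Lib.H97FeD8x
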