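import Cfsg.Agent.Lib.H97FeC
import Cfsg.Agent.Lib.H97FeD8a
import Cfsg.Agent.Lib.H97FeD2
import Cfsg.Agent.Lib.H97FeD5
import Cfsg.Agent.Lib.H97FeL2

/-! S5445, piece FE-D8 (helper93). -/

set_option autoImplicit false
set_option linter.all false
universe u
open Matrix Cfsg Cfsg.Agent.Lib.K4 Cfsg.Agent.Lib.HermMat Cfsg.Agent.Lib.ClThreeTransU Cfsg.Agent.Lib.SU6K4
open Cfsg.Agent.Lib.U43 Cfsg.Agent.Lib.H97Fa Cfsg.Agent.Lib.H97FaF Cfsg.Agent.Lib.H97FaG Cfsg.Agent.Lib.H97FaI Cfsg.Agent.Lib.LargeExtra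
open Cfsg.Agent.Lib.H97FbY Cfsg.Agent.Lib.H97FbU Cfsg.Agent.Lib.H97FbV Cfsg.Agent.Lib.H97FbM Cfsg.Agent.Lib.H97Fe0 Cfsg.Agent.Lib.H97FeC

namespace Cfsg.Agent.Lib.H97FeD8z

/-- pure quotient bookkeeping -/
theorem psi_of {G : Type u} [Group G] {z s : G} (Q : Subgroup (Subgroup.centralizer ({z} : Set G))) [Q.Normal]
    (Q₁ : Subgroup G) (X E : Subgroup ((Subgroup.centralizer ({z} : Set G)) ⧸ Q))
    (hX : X = ((Subgroup.centralizer ({z} : Set G) ⊓ Subgroup.centralizer ({s} : Set G)).subgroupOf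
      (Subgroup.centralizer ({z} : Set G))).map (QuotientGroup.mk' Q))
    (hE : E = ((Q₁ ⊓ Subgroup.centralizer ({z} : Set G)).subgroupOf (Subgroup.centralizer ({z} : Set G))).map
      (QuotientGroup.mk' Q)) (hEX : E ≤ X) (hn : (E.subgroupOf X).Normal)
    (iso : ↥X ⧸ E.subgroupOf X ≃* alternatingGroup (Fin 6)) :
    ∃ ψ : ↥(Subgroup.centralizer ({z, s} : Set G)) →* alternatingGroup (Fin 6), Function.Surjective ψ ∧
      ∀ c, ψ c = 1 ↔ ∃ a ∈ Q.map (Subgroup.centralizer ({z} : Set G)).subtype, ∃ b ∈ Q₁, b * z = z * b ∧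
        (c : G) = a * b := by
  have mem2 : ∀ c : G, c ∈ Subgroup.centralizer ({z, s} : Set G) ↔ c * z = z * c ∧ c * s = s * c := by
    intro c
    rw [Subgroup.mem_centralizer_iff]
    constructor
    · intro h; exact ⟨(h z (by simp)).symm, (h s (by simp)).symm⟩
    · rintro ⟨h1, h2⟩ x hx
      rcases hx with rfl | rfl
      · exact h1.symm
      · exact h2.symm
  have hle : Subgroup.centralizer ({z, s} : Set G) ≤ Subgroup.centralizer ({z} : Set G) := by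
    intro c hc
    rw [Subgroup.mem_centralizer_singleton_iff]
    exact ((mem2 c).1 hc).1
  let f1 : ↥(Subgroup.centralizer ({z, s} : Set G)) →* (Subgroup.centralizer ({z} : Set G)) ⧸ Q :=
    (QuotientGroup.mk' Q).comp (Subgroup.inclusion hle)
  have hf1 : ∀ c, f1 c ∈ X := by
    intro c
    rw [hX]
    refine ⟨Subgroup.inclusion hle c, ?_, rfl⟩
    rw [SetLike.mem_coe, Subgroup.mem_subgroupOf]
    refine ⟨(Subgroup.inclusion hle c).2, ?_⟩
    show (c : G) ∈ Subgroup.centralizer ({s} : Set G)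
    rw [Subgroup.mem_centralizer_singleton_iff]
    exact ((mem2 c.1).1 c.2).2
  let f0 : ↥(Subgroup.centralizer ({z, s} : Set G)) →* ↥X := f1.codRestrict X hf1
  have hf0 : Function.Surjective f0 := by
    rintro ⟨t, ht⟩
    have ht' := ht
    rw [hX] at ht'
    obtain ⟨c, hc, hct⟩ := ht'
    rw [SetLike.mem_coe, Subgroup.mem_subgroupOf] at hc
    have hc2 : (c : G) ∈ Subgroup.centralizer ({z, s} : Set G) := by
      rw [mem2]
      exact ⟨Subgroup.mem_centralizer_singleton_iff.1 hc.1, Subgroup.mem_centralizer_singleton_iff.1 hc.2⟩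
    refine ⟨⟨c, hc2⟩, ?_⟩
    apply Subtype.ext
    exact hct
  refine ⟨iso.toMonoidHom.comp ((QuotientGroup.mk' (E.subgroupOf X)).comp f0),
    iso.surjective.comp ((QuotientGroup.mk'_surjective _).comp hf0), ?_⟩
  intro c
  have h1 : (iso.toMonoidHom.comp ((QuotientGroup.mk' (E.subgroupOf X)).comp f0)) c = 1 ↔
      f1 c ∈ E := by
    show iso (QuotientGroup.mk' (E.subgroupOf X) (f0 c)) = 1 ↔ _
    rw [MulEquiv.map_eq_one_iff, QuotientGroup.mk'_apply, QuotientGroup.eq_one_iff, Subgroup.mem_subgroupOf]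
    rfl
  rw [h1, hE]
  constructor
  · rintro ⟨e, he, hec⟩
    rw [SetLike.mem_coe, Subgroup.mem_subgroupOf] at he
    have h2 : (QuotientGroup.mk' Q) e = (QuotientGroup.mk' Q) (Subgroup.inclusion hle c) := hec
    have h3 : (Subgroup.inclusion hle c) * e⁻¹ ∈ Q := by
      rw [← QuotientGroup.eq_one_iff]
      have : (((Subgroup.inclusion hle c) * e⁻¹ : ↥(Subgroup.centralizer ({z} : Set G))) :
          (Subgroup.centralizer ({z} : Set G)) ⧸ Q) =
        (QuotientGroup.mk' Q) (Subgroup.inclusion hle c) * ((QuotientGroup.mk' Q) e)⁻¹ := rfl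
      rw [this, h2, mul_inv_cancel]
    refine ⟨((Subgroup.inclusion hle c * e⁻¹ : ↥(Subgroup.centralizer ({z} : Set G))) : G), ⟨_, h3, rfl⟩,
      (e : G), he.1, Subgroup.mem_centralizer_singleton_iff.1 he.2, ?_⟩
    show (c : G) = (c : G) * (e : G)⁻¹ * e
    group
  · rintro ⟨a, ⟨a', ha', rfl⟩, b, hb, hbz, hcab⟩
    have hbC : b ∈ Subgroup.centralizer ({z} : Set G) := Subgroup.mem_centralizer_singleton_iff.2 hbz
    refine ⟨⟨b, hbC⟩, ?_, ?_⟩
    · rw [SetLike.mem_coe, Subgroup.mem_subgroupOf]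
      exact ⟨hb, hbC⟩
    · show (QuotientGroup.mk' Q) ⟨b, hbC⟩ = (QuotientGroup.mk' Q) (Subgroup.inclusion hle c)
      have h4 : Subgroup.inclusion hle c = a' * ⟨b, hbC⟩ := by
        apply Subtype.ext
        exact hcab
      rw [h4, map_mul]
      have h5 : (QuotientGroup.mk' Q) a' = 1 := (QuotientGroup.eq_one_iff a').2 ha'
      rw [h5, one_mul]

section
variable {G' : Type u} [Group G'] [Finite G'] {z : G'} {Q : Subgroup (Subgroup.centralizer ({z} : Set G'))} [Q.Normal]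
    {V : Type u} [AddCommGroup V] {q : V → ZMod 2} {b : V → V → ZMod 2}
    {ρ : Subgroup.centralizer ({z} : Set G') →* AddMonoid.End V} {π : Q → V} {M : Subgroup (Subgroup.centralizer ({z} : Set G'))}
    {Φ : V6 ≃+ V} {R : M →* G} {D : Dat (zz z) Q q b ρ π M Φ R} {Q' Q₁ : Subgroup G'} {g s y : G'} {r : Q}
    {x : Subgroup.centralizer ({z} : Set G')}

theorem hom' (C : Cx D Q' Q₁ g s y r x) (e0 : LE Q' z) (e1 : LE Q₁ s) (hy : y ∈ Q₁) (hz : z ∈ Q₁) :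
    ∃ φ : ↥(Subgroup.centralizer ({z, s, y} : Set G')) →* alternatingGroup (Fin 6), Function.Surjective φ ∧
    ∀ c, φ c = 1 ↔ ∃ a ∈ Q', ∃ b ∈ Q₁, b * z = z * b ∧ (c : G') = a * b := by
  obtain ⟨sQ, yQ, _, sz, yy, y1, ss, s1, sy, _, _, _, _⟩ := Cfsg.Agent.Lib.H97FeD2.basic C
  have hlin := Cfsg.Agent.Lib.H97FeD5.lin C
  have zz' := e0.zz
  have z1 := e0.z1
  have zs : z ≠ s := fun h => sz h.symm
  have hyn1 : y ≠ 1 := by rintro rfl; exact y1 (Or.inl rfl)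
  have hynz : y ≠ z := by
    intro h; apply y1; right; left; rw [h, one_mul]
  have hyns : y ≠ s := by
    intro h; apply y1; right; right; left; rw [h, one_mul]
  have hynzs : y ≠ z * s := by
    intro h; apply y1; right; right; right; rw [h, one_mul]
  have hsz : s * z = z * s := e0.cen s sQ
  obtain ⟨a, haQ, has, hay⟩ := (Cfsg.Agent.Lib.H97FeL2.adj e0 sQ ss s1 sz).2 y yQ hyn1 hynz hyns hynzs
  obtain ⟨b', hbQ, hbz, hby⟩ := (Cfsg.Agent.Lib.H97FeL2.adj e1 hz zz' z1 zs).2 y hy hyn1 hyns hynz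
    (by rw [hsz]; exact hynzs)
  have hC := C
  obtain ⟨hF, hR, hQ', hQ₁, hg, hs, hy', hr, xM, hx⟩ := C
  have hsQ : ∃ hsc : s ∈ Subgroup.centralizer ({z} : Set G'), (⟨s, hsc⟩ : Subgroup.centralizer ({z} : Set G')) ∈ Q := by
    refine ⟨Subgroup.mem_centralizer_singleton_iff.2 hsz, ?_⟩
    have : (⟨s, Subgroup.mem_centralizer_singleton_iff.2 hsz⟩ : Subgroup.centralizer ({z} : Set G')) =
        (r : Subgroup.centralizer ({z} : Set G')) := Subtype.ext hs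
    rw [this]; exact r.2
  have hsc : IsConj z s := isConj_iff.2 ⟨g, hg⟩
  obtain ⟨_, _, hEX, _, _, _, hN, ⟨iso⟩⟩ := Cfsg.Agent.Lib.H97FbN.S5442_of Cfsg.Agent.Lib.H97FbS.no_two hF s hsQ
    hsc sz g hg _ _ rfl rfl
  have hψ := psi_of Q Q₁ _ _ rfl (by rw [hQ₁, hQ']) hEX hN iso
  rw [← hQ'] at hψ
  exact Cfsg.Agent.Lib.H97FeD8a.hom_of e0 e1 sQ yQ hz hy hlin ⟨a, haQ, has, hay⟩ ⟨b', hbQ, hbz, hby⟩ hψ

/-- exact signature of FE-D8 -/
theorem hom (C : Cx D Q' Q₁ g s y r x) (e0 : LE Q' z) (e1 : LE Q₁ s) (hy : y ∈ Q₁) (hz : z ∈ Q₁)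
    (hsemi : ∀ h : Subgroup.centralizer ({z} : Set G'), h ∉ M → ∀ v, ρ h (Φ (om • v)) = Φ (om' • Φ.symm (ρ h (Φ v)))) :
    ∃ φ : ↥(Subgroup.centralizer ({z, s, y} : Set G')) →* alternatingGroup (Fin 6), Function.Surjective φ ∧
    ∀ c, φ c = 1 ↔ ∃ a ∈ Q', ∃ b ∈ Q₁, b * z = z * b ∧ (c : G') = a * b :=
  hom' C e0 e1 hy hz

end

end Cfsg.Agent.Lib.H97FeD8z
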