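import Cfsg.Agent.Lib.H97FeC

/-!
# S5445, FE-D9 (helper6)
-/

set_option autoImplicit false
set_option linter.all false

universe u

namespace Cfsg.Agent.Lib.H97FeD9h6

open Matrix Cfsg Cfsg.Agent.Lib.K4 Cfsg.Agent.Lib.HermMat Cfsg.Agent.Lib.ClThreeTransU Cfsg.Agent.Lib.SU6K4
open Cfsg.Agent.Lib.U43 Cfsg.Agent.Lib.H97Fa Cfsg.Agent.Lib.H97FaF Cfsg.Agent.Lib.H97FaG Cfsg.Agent.Lib.H97FaI Cfsg.Agent.Lib.LargeExtra
open Cfsg.Agent.Lib.H97FbY Cfsg.Agent.Lib.H97FbU Cfsg.Agent.Lib.H97FbV Cfsg.Agent.Lib.H97FbM Cfsg.Agent.Lib.H97Fe0 Cfsg.Agent.Lib.H97FeC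

section
variable {G' : Type u} [Group G'] [Finite G'] {z : G'} {Q : Subgroup (Subgroup.centralizer ({z} : Set G'))} [Q.Normal]
    {V : Type u} [AddCommGroup V] {q : V → ZMod 2} {b : V → V → ZMod 2}
    {ρ : Subgroup.centralizer ({z} : Set G') →* AddMonoid.End V} {π : Q → V} {M : Subgroup (Subgroup.centralizer ({z} : Set G'))}
    {Φ : V6 ≃+ V} {R : M →* G} {D : Dat (zz z) Q q b ρ π M Φ R} {Q' Q₁ : Subgroup G'} {g s y : G'} {r : Q}
    {x : Subgroup.centralizer ({z} : Set G')}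

theorem pi_inv (D : Dat (zz z) Q q b ρ π M Φ R) (u : Q) : π u⁻¹ = - π u := by
  have h := D.mul u u⁻¹
  rw [mul_inv_cancel, D.π_one] at h
  exact (neg_eq_of_add_eq_zero_right h.symm).symm

theorem pi_comm (D : Dat (zz z) Q q b ρ π M Φ R) (a : Subgroup.centralizer ({z} : Set G')) (u w : Q)
    (h : (w : Subgroup.centralizer ({z} : Set G')) = u * a * (u : Subgroup.centralizer ({z} : Set G'))⁻¹ * a⁻¹) :
    π w = π u - ρ a (π u) := by
  have h1 : w = u * ⟨a * ((u⁻¹ : Q) : Subgroup.centralizer ({z} : Set G')) * a⁻¹, Subgroup.Normal.conj_mem inferInstance _ (u⁻¹).2 a⟩ := by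
    apply Subtype.ext
    rw [h]
    simp only [Subgroup.coe_mul, Subgroup.coe_inv]
    group
  have h2 := D.act a u⁻¹ ⟨a * ((u⁻¹ : Q) : Subgroup.centralizer ({z} : Set G')) * a⁻¹, Subgroup.Normal.conj_mem inferInstance _ (u⁻¹).2 a⟩ rfl
  rw [h1, D.mul, ← h2, pi_inv D, map_neg, sub_eq_add_neg]

theorem w4_ne : om • w4 ≠ 0 := by decide
theorem w4_ne2 : om • w4 ≠ w4 := by decide
theorem w4_ne3 : om • w4 ≠ om' • w4 := by decide
theorem w4_om : om • (w4 + om • w4) = w4 := by decide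

theorem pir (C : Cx D Q' Q₁ g s y r x) : π r = Φ w4 := by
  have := C.hr
  rw [← this, co, Φ.apply_symm_apply]

/-- the element `y` as an element of `Q` -/
theorem piy (C : Cx D Q' Q₁ g s y r x) (ry : Q) (hry : (ry : Subgroup.centralizer ({z} : Set G')) = x * r * x⁻¹) : π ry = Φ (om • w4) := by
  rw [← D.act x r ry hry, pir C, C.hx]

theorem mem_M (C : Cx D Q' Q₁ g s y r x) (hsemi : ∀ h : Subgroup.centralizer ({z} : Set G'), h ∉ M → ∀ v, ρ h (Φ (om • v)) = Φ (om' • Φ.symm (ρ h (Φ v))))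
    (h : Subgroup.centralizer ({z} : Set G')) (hs : (h : G') * s = s * h) (hy : (h : G') * y = y * h) : h ∈ M := by
  by_contra hM
  have h1 := hsemi h hM w4
  have h2 : ρ h (Φ w4) = Φ w4 := by
    rw [← pir C]
    refine D.act h r r ?_
    apply Subtype.ext
    have := C.hs
    change ((r : Subgroup.centralizer ({z} : Set G')) : G') = (h : G') * ((r : Subgroup.centralizer ({z} : Set G')) : G') * (h : G')⁻¹
    rw [← this, hs]; group
  set ry : Q := ⟨x * r * x⁻¹, Subgroup.Normal.conj_mem inferInstance _ r.2 x⟩ with hry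
  have h3 : ρ h (Φ (om • w4)) = Φ (om • w4) := by
    rw [← piy C ry rfl]
    refine D.act h ry ry ?_
    apply Subtype.ext
    have := C.hy
    change ((x * r * x⁻¹ : Subgroup.centralizer ({z} : Set G')) : G') = (h : G') * ((x * r * x⁻¹ : Subgroup.centralizer ({z} : Set G')) : G') * (h : G')⁻¹
    rw [← this, hy]; group
  rw [h2, h3, Φ.symm_apply_apply] at h1
  exact w4_ne3 (Φ.injective h1)

theorem commx (C : Cx D Q' Q₁ g s y r x) (h : Subgroup.centralizer ({z} : Set G')) (hM : h ∈ M) (v : V) :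
    ρ h (ρ x v) = ρ x (ρ h v) := by
  obtain ⟨t, rfl⟩ := Φ.surjective v
  rw [C.hx]
  have h1 := D.rep ⟨h, hM⟩ (om • t)
  have h2 := D.rep ⟨h, hM⟩ t
  change _ = ρ h _ at h1 h2
  rw [← h1, ← h2, C.hx, Matrix.mulVec_smul]

theorem norm1 (C : Cx D Q' Q₁ g s y r x) (c : G') (hc : c * s = s * c) : ∀ a ∈ Q₁, c * a * c⁻¹ ∈ Q₁ := by
  have hn : ∀ d : G', d * z = z * d → ∀ a ∈ Q', d * a * d⁻¹ ∈ Q' := by
    intro d hd a ha
    rw [C.hQ'] at ha ⊢
    obtain ⟨a0, ha0, rfl⟩ := ha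
    exact ⟨⟨d, Subgroup.mem_centralizer_singleton_iff.2 hd⟩ * a0 * ⟨d, Subgroup.mem_centralizer_singleton_iff.2 hd⟩⁻¹,
      Subgroup.Normal.conj_mem inferInstance _ ha0 _, rfl⟩
  intro a ha
  rw [C.hQ₁] at ha ⊢
  obtain ⟨a0, ha0, rfl⟩ := ha
  have h1 : (g⁻¹ * c * g) * z = z * (g⁻¹ * c * g) := by
    have h2 := C.hg
    have h3 : g * z = s * g := by rw [← h2]; group
    have h4 : g⁻¹ * s = z * g⁻¹ := by rw [← h2]; group
    calc (g⁻¹ * c * g) * z = g⁻¹ * c * (g * z) := by group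
      _ = g⁻¹ * (c * s) * g := by rw [h3]; group
      _ = (g⁻¹ * s) * c * g := by rw [hc]; group
      _ = z * (g⁻¹ * c * g) := by rw [h4]; group
  refine ⟨(g⁻¹ * c * g) * a0 * (g⁻¹ * c * g)⁻¹, hn _ h1 _ ha0, ?_⟩
  change g * ((g⁻¹ * c * g) * a0 * (g⁻¹ * c * g)⁻¹) * g⁻¹ = c * (g * a0 * g⁻¹) * c⁻¹
  group

theorem bicent {Q₁ : Subgroup G'} {s : G'} (e1 : LE Q₁ s) (B : Subgroup G') (hB : B ≤ Q₁) (hs : s ∈ B) (u : G') (hu : u ∈ Q₁)
    (h : ∀ a ∈ Q₁, (∀ c ∈ B, c * a = a * c) → a * u = u * a) : u ∈ B := by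
  set C1 := Q₁ ⊓ Subgroup.centralizer (B : Set G') with hC1
  set C2 := Q₁ ⊓ Subgroup.centralizer (C1 : Set G') with hC2
  have h1 := e1.dual B hB hs
  have hs1 : s ∈ C1 := ⟨e1.zQ, by
    change s ∈ Subgroup.centralizer (B : Set G')
    rw [Subgroup.mem_centralizer_iff]
    intro c hc
    exact e1.cen c (hB hc)⟩
  have h2 := e1.dual C1 inf_le_left hs1
  have h3 : Nat.card C2 = Nat.card B := by
    have h4 : Nat.card C2 * Nat.card C1 = Nat.card B * Nat.card C1 := by rw [h2, ← h1, mul_comm]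
    exact Nat.eq_of_mul_eq_mul_right Nat.card_pos h4
  have h5 : B ≤ C2 := by
    intro c hc
    refine ⟨hB hc, ?_⟩
    change c ∈ Subgroup.centralizer (C1 : Set G')
    rw [Subgroup.mem_centralizer_iff]
    intro a ha
    exact ((Subgroup.mem_centralizer_iff.1 ha.2) c hc).symm
  have h6 : B = C2 := Subgroup.eq_of_le_of_card_ge h5 h3.le
  rw [h6]
  refine ⟨hu, ?_⟩
  change u ∈ Subgroup.centralizer (C1 : Set G')
  rw [Subgroup.mem_centralizer_iff]
  intro a ha
  exact h a ha.1 (fun c hc => (Subgroup.mem_centralizer_iff.1 ha.2) c hc)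

-- FE-D9
theorem brk (C : Cx D Q' Q₁ g s y r x) (e0 : LE Q' z) (e1 : LE Q₁ s) (hy : y ∈ Q₁) (hz : z ∈ Q₁)
    (hsemi : ∀ h : Subgroup.centralizer ({z} : Set G'), h ∉ M → ∀ v, ρ h (Φ (om • v)) = Φ (om' • Φ.symm (ρ h (Φ v)))) :
    ∀ x ∈ Q', x * s = s * x → x * y = y * x → ∀ b ∈ Q₁, b * z = z * b → b * y = y * b →
    x * b * x⁻¹ * b⁻¹ ∈ Subgroup.closure ({z, s, y} : Set G') := by
  intro x' hx' hxs hxy b' hb' hbz hby
  have hbs : b' * s = s * b' := e1.cen b' hb'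
  -- elements of the centralizer
  have hx0 := hx'
  rw [C.hQ'] at hx0
  obtain ⟨X, hX, rfl⟩ := hx0
  change (X : G') * s = s * X at hxs
  change (X : G') * y = y * X at hxy
  change (X : G') ∈ Q' at hx'
  change (X : G') * b' * (X : G')⁻¹ * b'⁻¹ ∈ _
  set bb : Subgroup.centralizer ({z} : Set G') := ⟨b', Subgroup.mem_centralizer_singleton_iff.2 hbz⟩ with hbb
  have hbM : bb ∈ M := mem_M C hsemi bb hbs hby
  have hQn : ∀ (h : Subgroup.centralizer ({z} : Set G')) (w : Subgroup.centralizer ({z} : Set G')), w ∈ Q → h * w * h⁻¹ ∈ Q :=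
    fun h w hw => Subgroup.Normal.conj_mem inferInstance _ hw h
  have hcQ : ∀ (w h : Subgroup.centralizer ({z} : Set G')), w ∈ Q → w * h * w⁻¹ * h⁻¹ ∈ Q := by
    intro w h hw
    have : w * h * w⁻¹ * h⁻¹ = w * (h * w⁻¹ * h⁻¹) := by group
    rw [this]
    exact Q.mul_mem hw (hQn h _ (Q.inv_mem hw))
  -- the two commutators
  set U : Q := ⟨X * bb * X⁻¹ * bb⁻¹, hcQ X bb hX⟩ with hU
  have hXX : x * X * x⁻¹ ∈ Q := hQn x X hX
  set W : Q := ⟨(x * X * x⁻¹) * bb * (x * X * x⁻¹)⁻¹ * bb⁻¹, hcQ _ bb hXX⟩ with hW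
  have hpU : π U = π ⟨X, hX⟩ - ρ bb (π ⟨X, hX⟩) := pi_comm D bb ⟨X, hX⟩ U rfl
  have hpX : π ⟨x * X * x⁻¹, hXX⟩ = ρ x (π ⟨X, hX⟩) := (D.act x ⟨X, hX⟩ ⟨x * X * x⁻¹, hXX⟩ rfl).symm
  have hpW : π W = ρ x (π U) := by
    rw [pi_comm D bb ⟨x * X * x⁻¹, hXX⟩ W rfl, hpX, commx C bb hbM, hpU, map_sub]
  -- both are in `Q₁`
  have hUQ : (((U : Q) : Subgroup.centralizer ({z} : Set G')) : G') ∈ Q₁ := by
    change (X : G') * b' * (X : G')⁻¹ * b'⁻¹ ∈ Q₁
    exact Q₁.mul_mem (norm1 C _ hxs _ hb') (Q₁.inv_mem hb')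
  set ry : Q := ⟨x * r * x⁻¹, hQn x _ r.2⟩ with hry
  have hys : y = ((ry : Subgroup.centralizer ({z} : Set G')) : G') := C.hy
  have hss : s = ((r : Subgroup.centralizer ({z} : Set G')) : G') := C.hs
  have hxs2 : ((x * X * x⁻¹ : Subgroup.centralizer ({z} : Set G')) : G') * s = s * ((x * X * x⁻¹ : Subgroup.centralizer ({z} : Set G')) : G') := by
    have h1 : π ⟨x * (r * ry : Q) * x⁻¹, hQn x _ (r * ry : Q).2⟩ = π r := by
      rw [← D.act x (r * ry) _ rfl, D.mul, piy C ry rfl, pir C, ← map_add, C.hx, w4_om]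
    have h2 : X * (r * ry : Q) = (r * ry : Q) * X := by
      apply Subtype.ext
      change (X : G') * (((r : Subgroup.centralizer ({z} : Set G')) : G') * ((ry : Subgroup.centralizer ({z} : Set G')) : G')) =
        (((r : Subgroup.centralizer ({z} : Set G')) : G') * ((ry : Subgroup.centralizer ({z} : Set G')) : G')) * (X : G')
      rw [← hys, ← hss, ← mul_assoc, hxs, mul_assoc, hxy, mul_assoc]
    have h3 : (x * X * x⁻¹) * (x * (r * ry : Q) * x⁻¹) = (x * (r * ry : Q) * x⁻¹) * (x * X * x⁻¹) := by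
      calc (x * X * x⁻¹) * (x * (r * ry : Q) * x⁻¹) = x * (X * (r * ry : Q)) * x⁻¹ := by group
        _ = x * ((r * ry : Q) * X) * x⁻¹ := by rw [h2]
        _ = _ := by group
    rw [D.eqv] at h1
    have h4 : (x * X * x⁻¹) * r = r * (x * X * x⁻¹) := by
      rcases h1 with h1 | h1
      · change x * (r * ry : Q) * x⁻¹ = r at h1
        rw [h1] at h3
        exact h3
      · change x * (r * ry : Q) * x⁻¹ = zz z * r at h1
        rw [h1] at h3
        have h5 : (x * X * x⁻¹) * zz z = zz z * (x * X * x⁻¹) := by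
          apply Subtype.ext
          exact Subgroup.mem_centralizer_singleton_iff.1 (x * X * x⁻¹).2
        rw [← mul_assoc, h5, mul_assoc (zz z) (x * X * x⁻¹) (r : Subgroup.centralizer ({z} : Set G')), mul_assoc (zz z) (r : Subgroup.centralizer ({z} : Set G'))] at h3
        exact mul_left_cancel h3
    rw [hss]
    exact congrArg Subtype.val h4
  have hWQ : (((W : Q) : Subgroup.centralizer ({z} : Set G')) : G') ∈ Q₁ := by
    change ((x * X * x⁻¹ : Subgroup.centralizer ({z} : Set G')) : G') * b' * ((x * X * x⁻¹ : Subgroup.centralizer ({z} : Set G')) : G')⁻¹ * b'⁻¹ ∈ Q₁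
    exact Q₁.mul_mem (norm1 C _ hxs2 _ hb') (Q₁.inv_mem hb')
  refine bicent e1 _ ?_ (Subgroup.subset_closure (by simp)) _ hUQ ?_
  · rw [Subgroup.closure_le]
    rintro c (rfl | rfl | rfl)
    · exact hz
    · exact e1.zQ
    · exact hy
  intro a ha hac
  have haz : a * z = z * a := (hac z (Subgroup.subset_closure (by simp))).symm
  have hay : a * y = y * a := (hac y (Subgroup.subset_closure (by simp))).symm
  have has : a * s = s * a := e1.cen a ha
  set aa : Subgroup.centralizer ({z} : Set G') := ⟨a, Subgroup.mem_centralizer_singleton_iff.2 haz⟩ with haa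
  have haM : aa ∈ M := mem_M C hsemi aa has hay
  by_contra hne
  have h1 : (U : Subgroup.centralizer ({z} : Set G')) * aa * (U : Subgroup.centralizer ({z} : Set G'))⁻¹ * aa⁻¹ = r := by
    apply Subtype.ext
    rw [← hss]
    rcases e1.comm _ hUQ a ha with h | h
    · exfalso
      apply hne
      have h2 := mul_inv_eq_one.1 h
      have h3 := mul_inv_eq_iff_eq_mul.1 h2
      exact h3.symm
    · exact h
  have h2 : π r = π U - ρ aa (π U) := pi_comm D aa U r h1.symm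
  set T : Q := ⟨(W : Subgroup.centralizer ({z} : Set G')) * aa * (W : Subgroup.centralizer ({z} : Set G'))⁻¹ * aa⁻¹, hcQ _ aa W.2⟩ with hT
  have h3 : π T = Φ (om • w4) := by
    rw [pi_comm D aa W T rfl, hpW, commx C aa haM, ← map_sub, ← h2, pir C, C.hx]
  rcases e1.comm _ hWQ a ha with h | h
  · have h4 : T = 1 := by
      apply Subtype.ext; apply Subtype.ext
      exact h
    rw [h4, D.π_one] at h3
    have h5 : Φ (om • w4) = Φ 0 := by rw [map_zero]; exact h3.symm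
    exact w4_ne (Φ.injective h5)
  · have h4 : T = r := by
      apply Subtype.ext; apply Subtype.ext
      rw [← hss]
      exact h
    rw [h4, pir C] at h3
    exact w4_ne2 (Φ.injective h3).symm

end

end Cfsg.Agent.Lib.H97FeD9h6
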