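import Cfsg.Agent.Lib.H97FeC

/-! S5445 piece FE-D9 (helper75). -/

set_option autoImplicit false
universe u
open Matrix Cfsg Cfsg.Agent.Lib.K4 Cfsg.Agent.Lib.HermMat Cfsg.Agent.Lib.ClThreeTransU Cfsg.Agent.Lib.SU6K4
open Cfsg.Agent.Lib.U43 Cfsg.Agent.Lib.H97Fa Cfsg.Agent.Lib.H97FaF Cfsg.Agent.Lib.H97FaG Cfsg.Agent.Lib.H97FaI Cfsg.Agent.Lib.LargeExtra
open Cfsg.Agent.Lib.H97FbY Cfsg.Agent.Lib.H97FbU Cfsg.Agent.Lib.H97FbV Cfsg.Agent.Lib.H97FbM Cfsg.Agent.Lib.H97Fe0 Cfsg.Agent.Lib.H97FeC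

namespace Cfsg.Agent.Lib.H97FeD9h75

variable {G' : Type u} [Group G'] [Finite G'] {z : G'} {Q : Subgroup (Subgroup.centralizer ({z} : Set G'))} [hQn : Q.Normal]
    {V : Type u} [AddCommGroup V] {q : V → ZMod 2} {b : V → V → ZMod 2}
    {ρ : Subgroup.centralizer ({z} : Set G') →* AddMonoid.End V} {π : Q → V} {M : Subgroup (Subgroup.centralizer ({z} : Set G'))}
    {Φ : V6 ≃+ V} {R : M →* G} {D : Dat (zz z) Q q b ρ π M Φ R} {Q' Q₁ : Subgroup G'} {g s y : G'} {r : Q}
    {x : Subgroup.centralizer ({z} : Set G')}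

theorem om_w4 : om • w4 ≠ om' • w4 := by
  intro h
  have := congrFun h 0
  revert this
  decide

theorem om_w4' : om • w4 ≠ w4 ∧ om • w4 ≠ 0 := by
  constructor <;> · intro h; have := congrFun h 0; revert this; decide

theorem memH {c : G'} (hc : c * z = z * c) : c ∈ Subgroup.centralizer ({z} : Set G') := by
  rw [Subgroup.mem_centralizer_singleton_iff]
  exact hc

theorem n0 (C : Cx D Q' Q₁ g s y r x) {c : G'} (hc : c * z = z * c) {a : G'} (ha : a ∈ Q') : c * a * c⁻¹ ∈ Q' := by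
  rw [C.hQ'] at ha ⊢
  obtain ⟨a0, ha0, rfl⟩ := ha
  exact ⟨(⟨c, memH hc⟩ : Subgroup.centralizer ({z} : Set G')) * a0 * (⟨c, memH hc⟩ : Subgroup.centralizer ({z} : Set G'))⁻¹,
    hQn.conj_mem _ ha0 _, rfl⟩

theorem n1 (C : Cx D Q' Q₁ g s y r x) {c : G'} (hc : c * s = s * c) {a : G'} (ha : a ∈ Q₁) : c * a * c⁻¹ ∈ Q₁ := by
  rw [C.hQ₁] at ha ⊢
  obtain ⟨a0, ha0, rfl⟩ := ha
  have h1 : (g⁻¹ * c * g) * z = z * (g⁻¹ * c * g) := by
    have e1 : (g⁻¹ * c * g) * z = g⁻¹ * (c * (g * z * g⁻¹)) * g := by group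
    have e2 : z * (g⁻¹ * c * g) = g⁻¹ * ((g * z * g⁻¹) * c) * g := by group
    rw [e1, e2, C.hg, hc]
  refine ⟨(g⁻¹ * c * g) * a0 * (g⁻¹ * c * g)⁻¹, n0 C h1 ha0, ?_⟩
  change g * ((g⁻¹ * c * g) * a0 * (g⁻¹ * c * g)⁻¹) * g⁻¹ = c * (g * a0 * g⁻¹) * c⁻¹
  group

/-- the lift of `y` -/
def Yq (x : Subgroup.centralizer ({z} : Set G')) (r : Q) : Q := ⟨x * r * x⁻¹, hQn.conj_mem _ r.2 x⟩

theorem πr (C : Cx D Q' Q₁ g s y r x) : π r = Φ w4 := by
  have := C.hr
  unfold co at this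
  rw [← this, Φ.apply_symm_apply]

theorem πY (C : Cx D Q' Q₁ g s y r x) : π (Yq x r) = Φ (om • w4) := by
  rw [← D.act x r (Yq x r) rfl, πr C, C.hx]

theorem inM (C : Cx D Q' Q₁ g s y r x)
    (hsemi : ∀ h : Subgroup.centralizer ({z} : Set G'), h ∉ M → ∀ v, ρ h (Φ (om • v)) = Φ (om' • Φ.symm (ρ h (Φ v))))
    (a : Subgroup.centralizer ({z} : Set G')) (has : (a : G') * s = s * a) (hay : (a : G') * y = y * a) : a ∈ M := by
  by_contra haM
  have h1 := hsemi a haM w4
  have hr' : ρ a (π r) = π r := by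
    apply D.act a r r
    apply Subtype.ext
    change ((r : Subgroup.centralizer ({z} : Set G')) : G') = a * ((r : Subgroup.centralizer ({z} : Set G')) : G') * (a : G')⁻¹
    rw [← C.hs, has]; group
  have hY' : ρ a (π (Yq x r)) = π (Yq x r) := by
    apply D.act a (Yq x r) (Yq x r)
    apply Subtype.ext
    change ((x * r * x⁻¹ : Subgroup.centralizer ({z} : Set G')) : G') = a * ((x * r * x⁻¹ : Subgroup.centralizer ({z} : Set G')) : G') * (a : G')⁻¹
    rw [← C.hy, hay]; group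
  rw [πr C] at hr'
  rw [πY C] at hY'
  rw [hr', Φ.symm_apply_apply, hY'] at h1
  exact om_w4 (Φ.injective h1)

theorem π_inv (D : Dat (zz z) Q q b ρ π M Φ R) (a : Q) : π a⁻¹ = - π a := by
  have h := D.mul a a⁻¹
  rw [mul_inv_cancel, D.π_one] at h
  exact (neg_eq_of_add_eq_zero_right h.symm).symm

/-- commutator in `Q` with an element of `M` -/
theorem π_comm (D : Dat (zz z) Q q b ρ π M Φ R) (X W : Q) (m : M) (ξ : V6) (hξ : π X = Φ ξ)
    (hW : (W : Subgroup.centralizer ({z} : Set G')) = X * m * (X : Subgroup.centralizer ({z} : Set G'))⁻¹ * (m : Subgroup.centralizer ({z} : Set G'))⁻¹) :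
    π W = Φ (ξ - mt (R m) *ᵥ ξ) := by
  have h1 : W = X * (⟨m * (X⁻¹ : Q) * (m : Subgroup.centralizer ({z} : Set G'))⁻¹, hQn.conj_mem _ (X⁻¹ : Q).2 _⟩ : Q) := by
    apply Subtype.ext
    rw [hW]
    change _ = (X : Subgroup.centralizer ({z} : Set G')) * (m * (X : Subgroup.centralizer ({z} : Set G'))⁻¹ * (m : Subgroup.centralizer ({z} : Set G'))⁻¹)
    group
  rw [h1, D.mul, ← D.act (m : Subgroup.centralizer ({z} : Set G')) X⁻¹ ⟨m * (X⁻¹ : Q) * (m : Subgroup.centralizer ({z} : Set G'))⁻¹, hQn.conj_mem _ (X⁻¹ : Q).2 _⟩ rfl, π_inv D, hξ, map_neg, ← D.rep,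
    map_sub, sub_eq_add_neg]

theorem brk (C : Cx D Q' Q₁ g s y r x) (e0 : LE Q' z) (e1 : LE Q₁ s) (hy : y ∈ Q₁) (hz : z ∈ Q₁)
    (hsemi : ∀ h : Subgroup.centralizer ({z} : Set G'), h ∉ M → ∀ v, ρ h (Φ (om • v)) = Φ (om' • Φ.symm (ρ h (Φ v)))) :
    ∀ x ∈ Q', x * s = s * x → x * y = y * x → ∀ b ∈ Q₁, b * z = z * b → b * y = y * b →
    x * b * x⁻¹ * b⁻¹ ∈ Subgroup.closure ({z, s, y} : Set G') := by
  intro x' hx' hx's hx'y b' hb' hb'z hb'y
  have hb's : b' * s = s * b' := e1.cen b' hb'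
  have hx'z : x' * z = z * x' := e0.cen x' hx'
  have hzs : z * s = s * z := e1.cen z hz
  have hyz : y * z = z * y := by
    have h1 : y ∈ Subgroup.centralizer ({z} : Set G') := by rw [C.hy]; exact (x * r * x⁻¹ : Subgroup.centralizer ({z} : Set G')).2
    exact Subgroup.mem_centralizer_singleton_iff.mp h1
  -- lifts
  obtain ⟨X0, hX0, hX0e⟩ : ∃ X ∈ Q, (X : G') = x' := by
    have := hx'; rw [C.hQ'] at this
    obtain ⟨X, hX, h⟩ := this
    exact ⟨X, hX, h⟩
  let X : Q := ⟨X0, hX0⟩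
  let bH : Subgroup.centralizer ({z} : Set G') := ⟨b', memH hb'z⟩
  have hbM : bH ∈ M := inM C hsemi bH hb's hb'y
  let bM : M := ⟨bH, hbM⟩
  set ξ : V6 := Φ.symm (π X) with hξ
  have hXξ : π X = Φ ξ := by rw [hξ, Φ.apply_symm_apply]
  let X2 : Q := ⟨x * X * x⁻¹, hQn.conj_mem _ X.2 x⟩
  have hX2ξ : π X2 = Φ (om • ξ) := by
    rw [← D.act x X X2 rfl, hXξ, C.hx]
  let U : Q := ⟨X * bH * (X : Subgroup.centralizer ({z} : Set G'))⁻¹ * bH⁻¹, by
    have h1 := hQn.conj_mem _ (X⁻¹ : Q).2 bH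
    have h2 := Q.mul_mem X.2 h1
    have e : (X : Subgroup.centralizer ({z} : Set G')) * (bH * ((X⁻¹ : Q) : Subgroup.centralizer ({z} : Set G')) * bH⁻¹) =
      X * bH * (X : Subgroup.centralizer ({z} : Set G'))⁻¹ * bH⁻¹ := by rw [Subgroup.coe_inv]; group
    rw [e] at h2; exact h2⟩
  let U2 : Q := ⟨X2 * bH * (X2 : Subgroup.centralizer ({z} : Set G'))⁻¹ * bH⁻¹, by
    have h1 := hQn.conj_mem _ (X2⁻¹ : Q).2 bH
    have h2 := Q.mul_mem X2.2 h1
    have e : (X2 : Subgroup.centralizer ({z} : Set G')) * (bH * ((X2⁻¹ : Q) : Subgroup.centralizer ({z} : Set G')) * bH⁻¹) =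
      X2 * bH * (X2 : Subgroup.centralizer ({z} : Set G'))⁻¹ * bH⁻¹ := by rw [Subgroup.coe_inv]; group
    rw [e] at h2; exact h2⟩
  set η : V6 := ξ - mt (R bM) *ᵥ ξ with hη
  have hU : π U = Φ η := π_comm D X U bM ξ hXξ rfl
  have hU2 : π U2 = Φ (om • η) := by
    rw [π_comm D X2 U2 bM (om • ξ) hX2ξ rfl, hη, smul_sub, Matrix.mulVec_smul]
  have hUe : (((U : Subgroup.centralizer ({z} : Set G')) : G')) = x' * b' * x'⁻¹ * b'⁻¹ := by
    change (X0 : G') * b' * (X0 : G')⁻¹ * b'⁻¹ = _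
    rw [hX0e]
  -- U, U2 in Q₁
  have hUQ₁ : (((U : Subgroup.centralizer ({z} : Set G')) : G')) ∈ Q₁ := by
    rw [hUe]; exact mul_mem (n1 C hx's hb') (inv_mem hb')
  have hX2s : ((x * X0 * x⁻¹ : Subgroup.centralizer ({z} : Set G')) : G') * s = s * ((x * X0 * x⁻¹ : Subgroup.centralizer ({z} : Set G')) : G') := by
    -- x⁻¹ s x is in {s y, z s y}
    let S2 : Q := ⟨x⁻¹ * r * x⁻¹⁻¹, hQn.conj_mem _ r.2 x⁻¹⟩
    have hS2 : π S2 = π (r * Yq x r) := by
      have h1 : ρ x (π S2) = π r := by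
        apply D.act x S2 r
        change (r : Subgroup.centralizer ({z} : Set G')) = x * (x⁻¹ * r * x⁻¹⁻¹) * x⁻¹
        group
      have h2 : ρ x (π (r * Yq x r)) = π r := by
        rw [D.mul, map_add, πr C, πY C, C.hx, C.hx, ← map_add]
        congr 1
        funext i
        simp only [Pi.add_apply, Pi.smul_apply, smul_eq_mul]
        have : ∀ t : K4, om * t + om * (om * t) = t := by decide
        exact this _
      have h3 : ρ x⁻¹ (ρ x (π S2)) = ρ x⁻¹ (ρ x (π (r * Yq x r))) := by rw [h1, h2]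
      have h4 : ∀ t, ρ x⁻¹ (ρ x t) = t := by
        intro t
        have : (ρ x⁻¹ * ρ x) t = t := by rw [← map_mul, inv_mul_cancel, map_one]; rfl
        exact this
      rw [h4, h4] at h3
      exact h3
    have hS2e : (x : G')⁻¹ * s * x = s * y ∨ (x : G')⁻¹ * s * x = z * (s * y) := by
      rcases (D.eqv _ _).mp hS2 with h | h
      · left
        have := congrArg (fun t : Subgroup.centralizer ({z} : Set G') => (t : G')) h
        change (x : G')⁻¹ * ((r : Subgroup.centralizer ({z} : Set G')) : G') * ((x : G')⁻¹)⁻¹ =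
          ((r : Subgroup.centralizer ({z} : Set G')) : G') * ((x * r * x⁻¹ : Subgroup.centralizer ({z} : Set G')) : G') at this
        rw [inv_inv, ← C.hs, ← C.hy] at this
        exact this
      · right
        have := congrArg (fun t : Subgroup.centralizer ({z} : Set G') => (t : G')) h
        change (x : G')⁻¹ * ((r : Subgroup.centralizer ({z} : Set G')) : G') * ((x : G')⁻¹)⁻¹ =
          z * (((r : Subgroup.centralizer ({z} : Set G')) : G') * ((x * r * x⁻¹ : Subgroup.centralizer ({z} : Set G')) : G')) at this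
        rw [inv_inv, ← C.hs, ← C.hy] at this
        exact this
    have hcm : x' * ((x : G')⁻¹ * s * x) = ((x : G')⁻¹ * s * x) * x' := by
      have c1 : Commute x' (s * y) := (show Commute x' s from hx's).mul_right hx'y
      have c2 : Commute x' (z * (s * y)) := (show Commute x' z from hx'z).mul_right c1
      rcases hS2e with h | h
      · rw [h]; exact c1
      · rw [h]; exact c2
    change (x : G') * (X0 : G') * (x : G')⁻¹ * s = s * ((x : G') * (X0 : G') * (x : G')⁻¹)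
    rw [hX0e]
    calc (x : G') * x' * (x : G')⁻¹ * s = x * (x' * ((x : G')⁻¹ * s * x)) * (x : G')⁻¹ := by group
      _ = x * (((x : G')⁻¹ * s * x) * x') * (x : G')⁻¹ := by rw [hcm]
      _ = s * (x * x' * (x : G')⁻¹) := by group
  have hU2Q₁ : (((U2 : Subgroup.centralizer ({z} : Set G')) : G')) ∈ Q₁ :=
    mul_mem (n1 C hX2s hb') (inv_mem hb')
  -- u commutes with C_{Q₁}(z, s, y)
  have hcomm : ∀ a ∈ Q₁, a * z = z * a → a * y = y * a →
      (((U : Subgroup.centralizer ({z} : Set G')) : G')) * a = a * (((U : Subgroup.centralizer ({z} : Set G')) : G')) := by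
    intro a ha haz hay
    have has : a * s = s * a := e1.cen a ha
    let aH : Subgroup.centralizer ({z} : Set G') := ⟨a, memH haz⟩
    have haM : aH ∈ M := inM C hsemi aH has hay
    let aM : M := ⟨aH, haM⟩
    by_contra hne
    have h1 : (((U : Subgroup.centralizer ({z} : Set G')) : G')) * a * (((U : Subgroup.centralizer ({z} : Set G')) : G'))⁻¹ * a⁻¹ = s := by
      rcases e1.comm _ hUQ₁ a ha with h | h
      · exfalso; apply hne
        rw [mul_inv_eq_one, mul_inv_eq_iff_eq_mul] at h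
        exact h
      · exact h
    have h2 : π r = Φ (η - mt (R aM) *ᵥ η) := by
      apply π_comm D U r aM η hU
      apply Subtype.ext
      change ((r : Subgroup.centralizer ({z} : Set G')) : G') = ((U : Subgroup.centralizer ({z} : Set G')) : G') * a * ((U : Subgroup.centralizer ({z} : Set G')) : G')⁻¹ * a⁻¹
      rw [h1, C.hs]
    have h3 : η - mt (R aM) *ᵥ η = w4 := by
      rw [πr C] at h2; exact (Φ.injective h2).symm
    have h4 : om • η - mt (R aM) *ᵥ (om • η) = om • w4 := by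
      rw [Matrix.mulVec_smul, ← smul_sub, h3]
    rcases e1.comm _ hU2Q₁ a ha with h | h
    · have h5 : π (1 : Q) = Φ (om • η - mt (R aM) *ᵥ (om • η)) := by
        apply π_comm D U2 1 aM (om • η) hU2
        apply Subtype.ext
        change (1 : G') = ((U2 : Subgroup.centralizer ({z} : Set G')) : G') * a * ((U2 : Subgroup.centralizer ({z} : Set G')) : G')⁻¹ * a⁻¹
        rw [h]
      rw [D.π_one, h4] at h5
      apply om_w4'.2
      apply Φ.injective
      rw [← h5, map_zero]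
    · have h5 : π r = Φ (om • η - mt (R aM) *ᵥ (om • η)) := by
        apply π_comm D U2 r aM (om • η) hU2
        apply Subtype.ext
        change ((r : Subgroup.centralizer ({z} : Set G')) : G') = ((U2 : Subgroup.centralizer ({z} : Set G')) : G') * a * ((U2 : Subgroup.centralizer ({z} : Set G')) : G')⁻¹ * a⁻¹
        rw [h, C.hs]
      rw [πr C, h4] at h5
      exact om_w4'.1 (Φ.injective h5).symm
  -- double centralizer
  rw [← hUe]
  set B : Subgroup G' := Subgroup.closure ({z, s, y} : Set G') with hB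
  have hBQ : B ≤ Q₁ := by
    rw [hB, Subgroup.closure_le]
    rintro m hm
    simp only [Set.mem_insert_iff, Set.mem_singleton_iff] at hm
    rcases hm with rfl | rfl | rfl
    exacts [hz, e1.zQ, hy]
  have hsB : s ∈ B := Subgroup.subset_closure (by simp)
  have hzB : z ∈ B := Subgroup.subset_closure (by simp)
  have hyB : y ∈ B := Subgroup.subset_closure (by simp)
  set B2 : Subgroup G' := Q₁ ⊓ Subgroup.centralizer (B : Set G') with hB2
  have d1 := e1.dual B hBQ hsB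
  have hsB2 : s ∈ B2 := by
    refine Subgroup.mem_inf.mpr ⟨e1.zQ, ?_⟩
    rw [Subgroup.mem_centralizer_iff]
    intro m hm
    exact e1.cen m (hBQ hm)
  have d2 := e1.dual B2 inf_le_left hsB2
  have hle : B ≤ Q₁ ⊓ Subgroup.centralizer (B2 : Set G') := by
    intro m hm
    refine Subgroup.mem_inf.mpr ⟨hBQ hm, ?_⟩
    rw [Subgroup.mem_centralizer_iff]
    intro n hn
    have := Subgroup.mem_centralizer_iff.mp (Subgroup.mem_inf.mp hn).2 m hm
    exact this.symm
  have hceq : Nat.card ↥(Q₁ ⊓ Subgroup.centralizer (B2 : Set G')) = Nat.card B := by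
    have hpos : 0 < Nat.card B2 := Nat.card_pos
    have : Nat.card ↥(Q₁ ⊓ Subgroup.centralizer (B2 : Set G')) * Nat.card B2 = Nat.card B * Nat.card B2 := by
      rw [d2, mul_comm, d1]
    exact Nat.eq_of_mul_eq_mul_right hpos this
  have heq : B = Q₁ ⊓ Subgroup.centralizer (B2 : Set G') := Subgroup.eq_of_le_of_card_ge hle hceq.le
  rw [heq]
  refine Subgroup.mem_inf.mpr ⟨hUQ₁, ?_⟩
  rw [Subgroup.mem_centralizer_iff]
  intro a ha
  obtain ⟨ha1, ha2⟩ := Subgroup.mem_inf.mp ha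
  have ha3 := Subgroup.mem_centralizer_iff.mp ha2
  exact (hcomm a ha1 (ha3 z hzB).symm (ha3 y hyB).symm).symm

end Cfsg.Agent.Lib.H97FeD9h75
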