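import Cfsg.Agent.Lib.H97FeD4q
import Cfsg.Agent.Lib.H97FeD2

/-!
S5445, piece FE-D9 (backup, helper18).
-/

set_option autoImplicit false
universe u
open Matrix Cfsg Cfsg.Agent.Lib.K4 Cfsg.Agent.Lib.HermMat Cfsg.Agent.Lib.ClThreeTransU Cfsg.Agent.Lib.SU6K4
open Cfsg.Agent.Lib.U43 Cfsg.Agent.Lib.H97Fa Cfsg.Agent.Lib.H97FaF Cfsg.Agent.Lib.H97FaG Cfsg.Agent.Lib.H97FaI Cfsg.Agent.Lib.LargeExtra
open Cfsg.Agent.Lib.H97FbY Cfsg.Agent.Lib.H97FbU Cfsg.Agent.Lib.H97FbV Cfsg.Agent.Lib.H97FbM Cfsg.Agent.Lib.H97Fe0 Cfsg.Agent.Lib.H97FeC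
open Cfsg.Agent.Lib.H97FeD4q

namespace Cfsg.Agent.Lib.H97FeD9q

/-- the double centralizer of `z, y` in `Q₁` -/
theorem dd3 {G : Type*} [Group G] [Finite G] {z s y u : G} {Q₁ : Subgroup G} (e1 : LE Q₁ s) (hz : z ∈ Q₁)
    (hy : y ∈ Q₁) (hu : u ∈ Q₁) (h : ∀ a ∈ Q₁, a * z = z * a → a * y = y * a → a * u = u * a) :
    u ∈ Subgroup.closure ({z, s, y} : Set G) := by
  set B : Subgroup G := Subgroup.closure ({z, s, y} : Set G) with hB
  have hBQ : B ≤ Q₁ := by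
    rw [hB, Subgroup.closure_le]
    rintro a (rfl | rfl | rfl)
    · exact hz
    · exact e1.zQ
    · exact hy
  have hsB : s ∈ B := Subgroup.subset_closure (by simp)
  have hzB : z ∈ B := Subgroup.subset_closure (by simp)
  have hyB : y ∈ B := Subgroup.subset_closure (by simp)
  have d1 := e1.dual B hBQ hsB
  have hsA : s ∈ Q₁ ⊓ Subgroup.centralizer (B : Set G) :=
    ⟨e1.zQ, Subgroup.mem_centralizer_iff.2 fun b hb => e1.cen b (hBQ hb)⟩
  have d2 := e1.dual _ inf_le_left hsA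
  have hle : B ≤ Q₁ ⊓ Subgroup.centralizer ((Q₁ ⊓ Subgroup.centralizer (B : Set G) : Subgroup G) : Set G) := by
    intro b hb
    refine ⟨hBQ hb, Subgroup.mem_centralizer_iff.2 fun a ha => ?_⟩
    exact (Subgroup.mem_centralizer_iff.1 ha.2 b hb).symm
  have heq := Subgroup.eq_of_le_of_card_ge hle (by
    have hpos : 0 < Nat.card ↥(Q₁ ⊓ Subgroup.centralizer (B : Set G)) := Nat.card_pos
    rw [mul_comm] at d1
    rw [← d1] at d2
    exact (Nat.eq_of_mul_eq_mul_right hpos d2).le)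
  rw [heq]
  refine ⟨hu, Subgroup.mem_centralizer_iff.2 fun a ha => ?_⟩
  exact h a ha.1 (Subgroup.mem_centralizer_iff.1 ha.2 z hzB).symm (Subgroup.mem_centralizer_iff.1 ha.2 y hyB).symm

/-- the abstract argument -/
theorem abs {G : Type*} [Group G] [Finite G] {z s y X : G} {Q' Q₁ : Subgroup G} (e0 : LE Q' z) (e1 : LE Q₁ s)
    (hz : z ∈ Q₁) (hy : y ∈ Q₁) (hyn : ¬ O4 z s 1 y) (hXz : X * z = z * X) (hXs : X * s * X⁻¹ = y)
    (hXs' : ∀ c, c * z = z * c → c * s = s * c → c * y = y * c → c * (X⁻¹ * s * X) = (X⁻¹ * s * X) * c)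
    (n0 : ∀ c, c * z = z * c → ∀ a ∈ Q', c * a * c⁻¹ ∈ Q') (n1 : ∀ c, c * s = s * c → ∀ a ∈ Q₁, c * a * c⁻¹ ∈ Q₁)
    (hN : ∀ a ∈ Q₁, a * z = z * a → a * y = y * a → X * a * X⁻¹ * a⁻¹ ∈ Q') :
    ∀ x ∈ Q', x * s = s * x → x * y = y * x → ∀ b ∈ Q₁, b * z = z * b → b * y = y * b →
    x * b * x⁻¹ * b⁻¹ ∈ Subgroup.closure ({z, s, y} : Set G) := by
  intro x hx hxs hxy b hb hbz hby
  have hu0 : x * b * x⁻¹ * b⁻¹ ∈ Q' := by
    have h1 : x * b * x⁻¹ * b⁻¹ = x * (b * x⁻¹ * b⁻¹) := by group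
    rw [h1]
    exact Q'.mul_mem hx (n0 b hbz _ (Q'.inv_mem hx))
  have hu1 : x * b * x⁻¹ * b⁻¹ ∈ Q₁ := Q₁.mul_mem (n1 x hxs b hb) (Q₁.inv_mem hb)
  set u : G := x * b * x⁻¹ * b⁻¹ with hu
  -- the conjugate of `u`
  have hx2 : X * x * X⁻¹ ∈ Q' := n0 X hXz x hx
  have hx2s : (X * x * X⁻¹) * s = s * (X * x * X⁻¹) := by
    have h1 := hXs' x (e0.cen x hx) hxs hxy
    calc (X * x * X⁻¹) * s = X * (x * (X⁻¹ * s * X)) * X⁻¹ := by group
      _ = X * ((X⁻¹ * s * X) * x) * X⁻¹ := by rw [h1]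
      _ = s * (X * x * X⁻¹) := by group
  have hw0 : X * u * X⁻¹ ∈ Q' := n0 X hXz u hu0
  have hw1 : X * u * X⁻¹ ∈ Q₁ := by
    -- X u X⁻¹ = [x'', p b] with p = X b X⁻¹ b⁻¹ ∈ Q'
    have hp := hN b hb hbz hby
    set p : G := X * b * X⁻¹ * b⁻¹ with hpd
    set x2 : G := X * x * X⁻¹ with hx2d
    have h1 : X * u * X⁻¹ = (x2 * p * x2⁻¹ * p⁻¹) * (p * (x2 * b * x2⁻¹ * b⁻¹) * p⁻¹) := by
      rw [hu, hpd, hx2d]; group
    have h2 : x2 * b * x2⁻¹ * b⁻¹ ∈ Q₁ := Q₁.mul_mem (n1 x2 hx2s b hb) (Q₁.inv_mem hb)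
    have h3 : x2 * b * x2⁻¹ * b⁻¹ ∈ Q' := by
      have h4 : x2 * b * x2⁻¹ * b⁻¹ = x2 * (b * x2⁻¹ * b⁻¹) := by group
      rw [h4]
      exact Q'.mul_mem hx2 (n0 b hbz _ (Q'.inv_mem hx2))
    have h5 : p * (x2 * b * x2⁻¹ * b⁻¹) * p⁻¹ ∈ Q₁ := by
      set t : G := x2 * b * x2⁻¹ * b⁻¹ with ht
      rcases e0.comm p hp t h3 with h6 | h6
      · have h7 : p * t * p⁻¹ = t := by
          rw [mul_inv_eq_one] at h6; exact h6
        rw [h7]; exact h2
      · have h7 : p * t * p⁻¹ = z * t := by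
          rw [mul_inv_eq_iff_eq_mul] at h6; exact h6
        rw [h7]; exact Q₁.mul_mem hz h2
    rw [h1]
    refine Q₁.mul_mem ?_ h5
    rcases e0.comm x2 hx2 p hp with h6 | h6
    · rw [h6]; exact Q₁.one_mem
    · rw [h6]; exact hz
  apply dd3 e1 hz hy hu1
  intro a ha haz hay
  rcases e1.comm a ha u hu1 with h1 | h1
  · rw [mul_inv_eq_one, mul_inv_eq_iff_eq_mul] at h1
    exact h1
  · exfalso
    apply hyn
    have hp := hN a ha haz hay
    set w : G := X * u * X⁻¹ with hw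
    set p : G := X * a * X⁻¹ * a⁻¹ with hpd
    -- y = [p a, w]
    have h2 : y = p * (a * w * a⁻¹) * p⁻¹ * w⁻¹ := by
      rw [← hXs, ← h1, hpd, hw]; group
    have h3 : a * w * a⁻¹ ∈ Q' := n0 a haz w hw0
    have h4 : p * (a * w * a⁻¹) * p⁻¹ = (a * w * a⁻¹) ∨ p * (a * w * a⁻¹) * p⁻¹ = z * (a * w * a⁻¹) := by
      rcases e0.comm p hp _ h3 with h6 | h6
      · left; rw [mul_inv_eq_one] at h6; exact h6
      · right; rw [mul_inv_eq_iff_eq_mul] at h6; exact h6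
    rcases e1.comm a ha w hw1 with h5 | h5 <;> rcases h4 with h4 | h4
    · left; rw [h2, h4]; exact h5
    · right; left
      rw [h2, h4, mul_assoc, h5, one_mul, mul_one]
    · right; right; left
      rw [h2, h4, h5, one_mul]
    · right; right; right
      rw [h2, h4, mul_assoc, h5, one_mul]

section
variable {G' : Type u} [Group G'] [Finite G'] {z : G'} {Q : Subgroup (Subgroup.centralizer ({z} : Set G'))} [Q.Normal]
    {V : Type u} [AddCommGroup V] {q : V → ZMod 2} {b : V → V → ZMod 2}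
    {ρ : Subgroup.centralizer ({z} : Set G') →* AddMonoid.End V} {π : Q → V} {M : Subgroup (Subgroup.centralizer ({z} : Set G'))}
    {Φ : V6 ≃+ V} {R : M →* G} {D : Dat (zz z) Q q b ρ π M Φ R} {Q' Q₁ : Subgroup G'} {g s y : G'} {r : Q}
    {x : Subgroup.centralizer ({z} : Set G')}

/-- linear elements commute with `x` modulo `Q` -/
theorem lin_comm (C : Cx D Q' Q₁ g s y r x) (k : Subgroup.centralizer ({z} : Set G')) (hk : k ∈ M) :
    x * k * x⁻¹ * k⁻¹ ∈ Q := by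
  have h1 : ρ (x * k) = ρ (k * x) := by
    rw [map_mul, map_mul]
    ext v
    obtain ⟨w, rfl⟩ := Φ.surjective v
    have h2 : ∀ w, Φ (mt (R ⟨k, hk⟩) *ᵥ w) = ρ k (Φ w) := fun w => D.rep ⟨k, hk⟩ w
    change ρ x (ρ k (Φ w)) = ρ k (ρ x (Φ w))
    rw [C.hx, ← h2, C.hx, ← h2, Matrix.mulVec_smul]
  have h2 : x * k * x⁻¹ * k⁻¹ = (x * k) * (k * x)⁻¹ := by group
  rw [h2, ← D.ker, map_mul, h1, ← map_mul, mul_inv_cancel, map_one]

-- FE-D9
theorem brk (C : Cx D Q' Q₁ g s y r x) (e0 : LE Q' z) (e1 : LE Q₁ s) (hy : y ∈ Q₁) (hz : z ∈ Q₁)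
    (hsemi : ∀ h : Subgroup.centralizer ({z} : Set G'), h ∉ M → ∀ v, ρ h (Φ (om • v)) = Φ (om' • Φ.symm (ρ h (Φ v)))) :
    ∀ x ∈ Q', x * s = s * x → x * y = y * x → ∀ b ∈ Q₁, b * z = z * b → b * y = y * b →
    x * b * x⁻¹ * b⁻¹ ∈ Subgroup.closure ({z, s, y} : Set G') := by
  obtain ⟨-, -, -, -, -, -, -, -, -, -, -, n0, n1⟩ := H97FeD2.basic C
  have hn : Q.Normal := inferInstance
  have hsG : s = ((r : Subgroup.centralizer ({z} : Set G')) : G') := C.hs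
  let yQ : Q := ⟨x * r * x⁻¹, hn.conj_mem _ r.2 x⟩
  have hyG : y = ((yQ : Subgroup.centralizer ({z} : Set G')) : G') := C.hy
  have hXz : (x : G') * z = z * x := Subgroup.mem_centralizer_singleton_iff.1 x.2
  refine abs (X := (x : G')) e0 e1 hz hy (not_O4 C) hXz ?_ ?_ n0 n1 ?_
  · rw [hyG, hsG]; rfl
  · intro c hcz hcs hcy
    let t : Q := ⟨x⁻¹ * r * x, by simpa using hn.conj_mem _ r.2 x⁻¹⟩
    have h1 : ρ x (π t) = π r := D.act x t r (by
      change (r : Subgroup.centralizer ({z} : Set G')) = x * (x⁻¹ * r * x) * x⁻¹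
      group)
    have h2 : ρ x (Φ (om' • w4)) = π r := by
      rw [C.hx, smul_smul, om_cube, one_smul, pi_r C]
    have hinj : ∀ v w, ρ x v = ρ x w → v = w := by
      intro v w hvw
      have h3 : ∀ v, ρ x⁻¹ (ρ x v) = v := by
        intro v
        have h4 : ρ (x⁻¹ * x) v = ρ x⁻¹ (ρ x v) := by rw [map_mul]; rfl
        rw [← h4, inv_mul_cancel, map_one]; rfl
      rw [← h3 v, ← h3 w, hvw]
    have h3 : π t = π (yQ * r) := by
      rw [hinj _ _ (h1.trans h2.symm), H97FeD5.om'_smul, map_add, D.mul, pi_y C yQ rfl, pi_r C]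
    have htG : (x : G')⁻¹ * s * x = ((t : Subgroup.centralizer ({z} : Set G')) : G') := by
      rw [hsG]; rfl
    rw [htG]
    rcases (D.eqv t (yQ * r)).1 h3 with h4 | h4
    · have h5 : ((t : Subgroup.centralizer ({z} : Set G')) : G') = y * s := by
        rw [h4, hyG, hsG]; rfl
      rw [h5, ← mul_assoc, hcy, mul_assoc, hcs, mul_assoc]
    · have h5 : ((t : Subgroup.centralizer ({z} : Set G')) : G') = z * (y * s) := by
        rw [h4, hyG, hsG]; rfl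
      rw [h5, ← mul_assoc, hcz, mul_assoc, ← mul_assoc c, hcy, mul_assoc y, hcs]
      group
  · intro a ha haz hay
    let k : Subgroup.centralizer ({z} : Set G') := ⟨a, Subgroup.mem_centralizer_singleton_iff.2 haz⟩
    have has : a * s = s * a := e1.cen a ha
    have hrr : (r : Subgroup.centralizer ({z} : Set G')) = k * r * k⁻¹ := by
      apply Subtype.ext
      change ((r : Subgroup.centralizer ({z} : Set G')) : G') = a * ((r : Subgroup.centralizer ({z} : Set G')) : G') * a⁻¹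
      rw [← hsG, has, mul_assoc, mul_inv_cancel, mul_one]
    have hyy : (yQ : Subgroup.centralizer ({z} : Set G')) = k * yQ * k⁻¹ := by
      apply Subtype.ext
      change ((yQ : Subgroup.centralizer ({z} : Set G')) : G') = a * ((yQ : Subgroup.centralizer ({z} : Set G')) : G') * a⁻¹
      rw [← hyG, hay, mul_assoc, mul_inv_cancel, mul_one]
    have hfix : ρ k (Φ w4) = Φ w4 := by
      rw [← pi_r C]
      exact D.act k r r hrr
    have hfixy : ρ k (Φ (om • w4)) = Φ (om • w4) := by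
      rw [← pi_y C yQ rfl]
      exact D.act k yQ yQ hyy
    have hkM : k ∈ M := by
      by_contra hkM
      have h1 := hsemi k hkM w4
      rw [hfixy, hfix, Φ.symm_apply_apply, EmbeddingLike.apply_eq_iff_eq] at h1
      revert h1
      decide
    have h1 := lin_comm C k hkM
    rw [C.hQ']
    exact ⟨_, h1, rfl⟩

end

end Cfsg.Agent.Lib.H97FeD9q
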