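import Cfsg.Agent.Lib.H97FeC

/-! S5445, piece FE-K1 (helper53, second copy). -/

set_option autoImplicit false
universe u
open Matrix Cfsg Cfsg.Agent.Lib.K4 Cfsg.Agent.Lib.HermMat Cfsg.Agent.Lib.ClThreeTransU Cfsg.Agent.Lib.SU6K4
open Cfsg.Agent.Lib.U43 Cfsg.Agent.Lib.H97Fa Cfsg.Agent.Lib.H97FaF Cfsg.Agent.Lib.H97FaG Cfsg.Agent.Lib.H97FaI Cfsg.Agent.Lib.LargeExtra
open Cfsg.Agent.Lib.H97FbY Cfsg.Agent.Lib.H97FbU Cfsg.Agent.Lib.H97FbV Cfsg.Agent.Lib.H97FbM Cfsg.Agent.Lib.H97Fe0 Cfsg.Agent.Lib.H97FeC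

namespace Cfsg.Agent.Lib.H97FeK1b

def c3 (a b c : Fin 6) : Pm := Equiv.swap a b * Equiv.swap b c

theorem sign_c3 {a b c : Fin 6} (h1 : a ≠ b) (h2 : b ≠ c) : Equiv.Perm.sign (c3 a b c) = 1 := by
  rw [c3, Equiv.Perm.sign_mul, Equiv.Perm.sign_swap h1, Equiv.Perm.sign_swap h2]
  rfl

def ad : A0 := ⟨![0, 0, 1, 0, 0, 2], by rw [mem_A0]; decide⟩

theorem inv013 : (c3 0 1 3)⁻¹ 4 = 4 ∧ (c3 0 1 3)⁻¹ 0 = 3 ∧ (c3 0 1 3)⁻¹ 1 = 0 := by decide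
theorem inv014 : (c3 0 1 4)⁻¹ 3 = 3 ∧ (c3 0 1 4)⁻¹ 0 = 4 := by decide
theorem w013 : ∀ i, w4 ((c3 0 1 3)⁻¹ i) = w4 i := by decide
theorem w014 : ∀ i, w4 ((c3 0 1 4)⁻¹ i) = w4 i := by decide
theorem wad : ∀ i, e (ad.1 i) * w4 i = w4 i := by decide
theorem k1 : ∀ t : K4, om * t = t → t = 0 := by decide
theorem k2 : ∀ t : K4, om' * t = t → t = 0 := by decide
theorem k3 : ∀ t : K4, t = t + 1 → False := by decide

theorem cyc {σ : Pm} (hs : Equiv.Perm.sign σ = 1) (hw : ∀ i, w4 (σ⁻¹ i) = w4 i) (y : V6)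
    (h : ∀ g ∈ K0, mt g *ᵥ w4 = w4 → mt g *ᵥ y = y ∨ mt g *ᵥ y = y + w4) {j : Fin 6}
    (hj : σ⁻¹ j = j) (hw1 : w4 j = 1) (i : Fin 6) : y (σ⁻¹ i) = y i := by
  have hval : ∀ v i, (mt (mo 0 σ) *ᵥ v) i = v (σ⁻¹ i) := by
    intro v i
    rw [mo_mulVec]
    show e 0 * _ = _
    rw [e_zero, one_mul]
  rcases h (mo 0 σ) (M0_le_K0 (mo_mem_M0.2 hs)) (by funext i; rw [hval, hw]) with h1 | h1
  · have := congrFun h1 i
    rwa [hval] at this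
  · exfalso
    have := congrFun h1 j
    rw [hval, hj, Pi.add_apply, hw1] at this
    exact k3 _ this

theorem fixed_w4 (y : V6) (h : ∀ g ∈ K0, mt g *ᵥ w4 = w4 → mt g *ᵥ y = y ∨ mt g *ᵥ y = y + w4) : ∃ c : K4, y = c • w4 := by
  have hd : ∀ v i, (mt (mo ad 1) *ᵥ v) i = e (ad.1 i) * v i := by
    intro v i
    rw [mo_mulVec]
    rfl
  have h0 := h (mo ad 1) (M0_le_K0 (mo_mem_M0.2 (Equiv.Perm.sign_one))) (by
    funext i; rw [hd, wad])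
  have h2 : ∀ i, w4 i = 0 → e (ad.1 i) * y i = y i := by
    intro i hi
    rcases h0 with h1 | h1
    · have := congrFun h1 i
      rwa [hd] at this
    · have := congrFun h1 i
      rwa [hd, Pi.add_apply, hi, add_zero] at this
  have y2 : y 2 = 0 := k1 _ (h2 2 rfl)
  have y5 : y 5 = 0 := k2 _ (h2 5 rfl)
  have a := cyc (sign_c3 (by decide) (by decide)) w013 y h inv013.1 rfl
  have b := cyc (sign_c3 (by decide) (by decide)) w014 y h inv014.1 rfl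
  have y3 : y 3 = y 0 := by have := a 0; rwa [inv013.2.1] at this
  have y1 : y 1 = y 0 := by have := a 1; rw [inv013.2.2] at this; exact this.symm
  have y4 : y 4 = y 0 := by have := b 0; rwa [inv014.2] at this
  refine ⟨y 0, ?_⟩
  funext i
  rw [Pi.smul_apply, smul_eq_mul]
  fin_cases i
  · show y 0 = y 0 * 1; rw [mul_one]
  · show y 1 = y 0 * 1; rw [mul_one, y1]
  · show y 2 = y 0 * 0; rw [mul_zero, y2]
  · show y 3 = y 0 * 1; rw [mul_one, y3]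
  · show y 4 = y 0 * 1; rw [mul_one, y4]
  · show y 5 = y 0 * 0; rw [mul_zero, y5]

end Cfsg.Agent.Lib.H97FeK1b
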