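import Cfsg.Agent.Lib.H97FaF

set_option autoImplicit false
set_option linter.all false

namespace Cfsg.Agent.Lib.H97FeK1h51

open Matrix Cfsg Cfsg.Agent.Lib.K4 Cfsg.Agent.Lib.HermMat Cfsg.Agent.Lib.ClThreeTransU Cfsg.Agent.Lib.SU6K4
open Cfsg.Agent.Lib.U43 Cfsg.Agent.Lib.H97Fa Cfsg.Agent.Lib.H97FaF

def a1 : A0 := ⟨![0, 0, 1, 0, 0, 2], by rw [mem_A0]; decide⟩

theorem k1 : ∀ x : K4, e 1 * x = x → x = 0 := by decide
theorem k2 : ∀ x : K4, e 2 * x = x → x = 0 := by decide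
theorem k3 : ∀ a b c : K4, e 0 * c = a + 1 → e 0 * a = b + 1 → e 0 * b = c + 1 → False := by decide
theorem k4 : ∀ a : K4, e 0 * a = a := by decide

theorem cyc (y : V6) (h : ∀ g ∈ K0, mt g *ᵥ w4 = w4 → mt g *ᵥ y = y ∨ mt g *ᵥ y = y + w4) (σ : Pm)
    (hσ : Equiv.Perm.sign σ = 1) (hw : ∀ k, w4 (σ⁻¹ k) = w4 k) :
    (∀ k, e 0 * y (σ⁻¹ k) = y k) ∨ (∀ k, e 0 * y (σ⁻¹ k) = y k + w4 k) := by
  have g1 := h (mo 0 σ) (M0_le_K0 (mo_mem_M0.2 hσ)) (by
    funext k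
    rw [mo_mulVec]
    show e 0 * w4 (σ⁻¹ k) = w4 k
    rw [k4, hw])
  rcases g1 with g1 | g1
  · left
    intro k
    have := congrFun g1 k
    rw [mo_mulVec] at this
    exact this
  · right
    intro k
    have := congrFun g1 k
    rw [mo_mulVec] at this
    exact this

-- FE-K1
theorem fixed_w4 (y : V6) (h : ∀ g ∈ K0, mt g *ᵥ w4 = w4 → mt g *ᵥ y = y ∨ mt g *ᵥ y = y + w4) :
    ∃ c : K4, y = c • w4 := by
  have d : y 2 = 0 ∧ y 5 = 0 := by
    have g1 := h (mo a1 1) (M0_le_K0 (mo_mem_M0.2 (by simp))) (by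
      funext k
      rw [mo_mulVec]
      show e (a1.1 k) * w4 k = w4 k
      revert k
      decide +kernel)
    rcases g1 with g1 | g1
    · have e2 := congrFun g1 2
      have e5 := congrFun g1 5
      rw [mo_mulVec] at e2 e5
      exact ⟨k1 _ e2, k2 _ e5⟩
    · have e2 := congrFun g1 2
      have e5 := congrFun g1 5
      rw [mo_mulVec] at e2 e5
      have e2' : e 1 * y 2 = y 2 + 0 := e2
      have e5' : e 2 * y 5 = y 5 + 0 := e5
      rw [add_zero] at e2' e5'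
      exact ⟨k1 _ e2', k2 _ e5'⟩
  have c1 : y 0 = y 1 ∧ y 1 = y 3 := by
    rcases cyc y h (Equiv.swap 0 1 * Equiv.swap 1 3) (by decide) (by decide) with g | g
    · have h0 : e 0 * y 3 = y 0 := g 0
      have h1 : e 0 * y 0 = y 1 := g 1
      have h3 : e 0 * y 1 = y 3 := g 3
      rw [k4] at h0 h1 h3
      exact ⟨h1, h3⟩
    · have h0 : e 0 * y 3 = y 0 + 1 := g 0
      have h1 : e 0 * y 0 = y 1 + 1 := g 1
      have h3 : e 0 * y 1 = y 3 + 1 := g 3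
      exact (k3 _ _ _ h0 h1 h3).elim
  have c2 : y 1 = y 4 := by
    rcases cyc y h (Equiv.swap 0 1 * Equiv.swap 1 4) (by decide) (by decide) with g | g
    · have h4 : e 0 * y 1 = y 4 := g 4
      rw [k4] at h4
      exact h4
    · have h0 : e 0 * y 4 = y 0 + 1 := g 0
      have h1 : e 0 * y 0 = y 1 + 1 := g 1
      have h4 : e 0 * y 1 = y 4 + 1 := g 4
      exact (k3 _ _ _ h0 h1 h4).elim
  refine ⟨y 0, ?_⟩
  funext k
  have hs : (y 0 • w4) k = y 0 * w4 k := rfl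
  rw [hs]
  fin_cases k
  · show y 0 = y 0 * 1; rw [mul_one]
  · show y 1 = y 0 * 1; rw [mul_one, c1.1]
  · show y 2 = y 0 * 0; rw [mul_zero, d.1]
  · show y 3 = y 0 * 1; rw [mul_one, c1.1, c1.2]
  · show y 4 = y 0 * 1; rw [mul_one, c1.1, c2]
  · show y 5 = y 0 * 0; rw [mul_zero, d.2]

end Cfsg.Agent.Lib.H97FeK1h51
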