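import Cfsg.Agent.Lib.H87U3F

/-!
# S5445, piece FE-K1: the vectors fixed (mod `w4`) by the stabilizer of `w4` (helper78)
-/

set_option autoImplicit false

namespace Cfsg.Agent.Lib.H97FeK1h78

open Matrix Cfsg Cfsg.Agent.Lib.K4 Cfsg.Agent.Lib.HermMat Cfsg.Agent.Lib.ClThreeTransU Cfsg.Agent.Lib.SU6K4
open Cfsg.Agent.Lib.U43 Cfsg.Agent.Lib.H97Fa Cfsg.Agent.Lib.H97FaF

/-- the exponents of the diagonal element -/
def d1 : A0 := ⟨![0, 0, 1, 0, 0, 2], by rw [mem_A0]; decide⟩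

/-- 3-cycles -/
def ca : Pm := Equiv.swap 0 1 * Equiv.swap 1 3
def cb : Pm := Equiv.swap 0 1 * Equiv.swap 1 4

theorem sign_ca : Equiv.Perm.sign ca = 1 := by
  rw [ca, Equiv.Perm.sign_mul, Equiv.Perm.sign_swap (by decide), Equiv.Perm.sign_swap (by decide)]; rfl

theorem sign_cb : Equiv.Perm.sign cb = 1 := by
  rw [cb, Equiv.Perm.sign_mul, Equiv.Perm.sign_swap (by decide), Equiv.Perm.sign_swap (by decide)]; rfl

theorem mulP (σ : Pm) (v : V6) : mt (mo 0 σ) *ᵥ v = fun i => v (σ⁻¹ i) := by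
  funext i
  rw [mo_mulVec]
  change e 0 * _ = _
  rw [e_zero, one_mul]

theorem mulD (a : A0) (v : V6) : mt (mo a 1) *ᵥ v = fun i => e (a.1 i) * v i := by
  funext k
  rw [mo_mulVec, inv_one, Equiv.Perm.one_apply]

theorem w4_ca : (fun i => w4 (ca⁻¹ i)) = w4 := by
  funext i; revert i; decide

theorem w4_cb : (fun i => w4 (cb⁻¹ i)) = w4 := by
  funext i; revert i; decide

theorem w4_d1 : (fun i => e (d1.1 i) * w4 i) = w4 := by
  funext i; revert i; decide +kernel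

theorem e1_ne : ∀ x : K4, e 1 * x = x → x = 0 := by decide +kernel
theorem e2_ne : ∀ x : K4, e 2 * x = x → x = 0 := by decide +kernel
theorem k3 : ∀ x : K4, x + 1 + 1 + 1 ≠ x := by decide +kernel

theorem cyc (σ : Pm) (h3 : ∀ i, σ⁻¹ (σ⁻¹ (σ⁻¹ i)) = i) (h0 : w4 (σ⁻¹ 0) = 1) (h00 : w4 (σ⁻¹ (σ⁻¹ 0)) = 1) (y : V6)
    (h : (fun i => y (σ⁻¹ i)) = y ∨ (fun i => y (σ⁻¹ i)) = y + w4) : ∀ i, y (σ⁻¹ i) = y i := by
  rcases h with h | h
  · exact fun i => congrFun h i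
  · exfalso
    have h' : ∀ i, y (σ⁻¹ i) = y i + w4 i := fun i => congrFun h i
    have h1 := h' (σ⁻¹ (σ⁻¹ 0))
    rw [h3, h' (σ⁻¹ 0), h' 0, h0, h00] at h1
    exact k3 (y 0) h1.symm

-- FE-K1
theorem fixed_w4 (y : V6) (h : ∀ g ∈ K0, mt g *ᵥ w4 = w4 → mt g *ᵥ y = y ∨ mt g *ᵥ y = y + w4) : ∃ c : K4, y = c • w4 := by
  have hd : (fun i => e (d1.1 i) * y i) = y ∨ (fun i => e (d1.1 i) * y i) = y + w4 := by
    have := h (mo d1 1) (M0_le_K0 (mo_mem_M0.2 Equiv.Perm.sign_one)) (by rw [mulD]; exact w4_d1)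
    rwa [mulD] at this
  have h2 : y 2 = 0 := by
    apply e1_ne
    rcases hd with hd | hd
    · exact congrFun hd 2
    · have := congrFun hd 2
      change e 1 * y 2 = y 2 + 0 at this
      rwa [add_zero] at this
  have h5 : y 5 = 0 := by
    apply e2_ne
    rcases hd with hd | hd
    · exact congrFun hd 5
    · have := congrFun hd 5
      change e 2 * y 5 = y 5 + 0 at this
      rwa [add_zero] at this
  have ha : ∀ i, y (ca⁻¹ i) = y i := by
    apply cyc ca (by decide) (by decide) (by decide) y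
    have := h (mo 0 ca) (M0_le_K0 (mo_mem_M0.2 sign_ca)) (by rw [mulP]; exact w4_ca)
    rwa [mulP] at this
  have hb : ∀ i, y (cb⁻¹ i) = y i := by
    apply cyc cb (by decide) (by decide) (by decide) y
    have := h (mo 0 cb) (M0_le_K0 (mo_mem_M0.2 sign_cb)) (by rw [mulP]; exact w4_cb)
    rwa [mulP] at this
  have a0 := ha 0
  have a1 := ha 1
  have a3 := ha 3
  have b0 := hb 0
  have b1 := hb 1
  have b4 := hb 4
  have e0 : (ca⁻¹ : Pm) 0 = 3 := by decide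
  have e1 : (ca⁻¹ : Pm) 1 = 0 := by decide
  have e4 : (cb⁻¹ : Pm) 0 = 4 := by decide
  rw [e0] at a0
  rw [e1] at a1
  rw [e4] at b0
  refine ⟨y 0, ?_⟩
  funext i
  rw [Pi.smul_apply, smul_eq_mul]
  fin_cases i
  · change y 0 = y 0 * 1
    rw [mul_one]
  · change y 1 = y 0 * 1
    rw [mul_one]; exact a1.symm
  · change y 2 = y 0 * 0
    rw [mul_zero]; exact h2
  · change y 3 = y 0 * 1
    rw [mul_one]; exact a0
  · change y 4 = y 0 * 1
    rw [mul_one]; exact b0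
  · change y 5 = y 0 * 0
    rw [mul_zero]; exact h5

end Cfsg.Agent.Lib.H97FeK1h78
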