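import Cfsg.Agent.Lib.H97Fe0

/-!
# S5445, piece FE-L1 (helper25)
-/

set_option autoImplicit false
open Cfsg Cfsg.Agent.Lib.H97Fe0

namespace Cfsg.Agent.Lib.H97FeL1

theorem forms {G : Type*} [Group G] {z s y : G} (hzs : z * s = s * z) (hzy : z * y = y * z) (hsy : s * y = y * s)
    (hz : z * z = 1) (hs : s * s = 1) (hy : y * y = 1) (v : G) (hv : v ∈ Subgroup.closure ({z, s, y} : Set G)) :
    ∃ a b c : ℕ, v = z ^ a * s ^ b * y ^ c := by
  have hzi : z⁻¹ = z := inv_eq_of_mul_eq_one_left hz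
  have hsi : s⁻¹ = s := inv_eq_of_mul_eq_one_left hs
  have hyi : y⁻¹ = y := inv_eq_of_mul_eq_one_left hy
  have c1 : Commute z s := hzs
  have c2 : Commute z y := hzy
  have c3 : Commute s y := hsy
  induction hv using Subgroup.closure_induction with
  | mem x hx =>
    rcases hx with rfl | rfl | rfl
    · exact ⟨1, 0, 0, by simp⟩
    · exact ⟨0, 1, 0, by simp⟩
    · exact ⟨0, 0, 1, by simp⟩
  | one => exact ⟨0, 0, 0, by simp⟩
  | mul x x' _ _ hx hx' =>
    obtain ⟨a, b, c, rfl⟩ := hx
    obtain ⟨a', b', c', rfl⟩ := hx'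
    refine ⟨a + a', b + b', c + c', ?_⟩
    rw [pow_add, pow_add, pow_add]
    have h1 : y ^ c * z ^ a' = z ^ a' * y ^ c := (c2.symm.pow_pow c a').eq
    have h2 : y ^ c * s ^ b' = s ^ b' * y ^ c := (c3.symm.pow_pow c b').eq
    have h3 : s ^ b * z ^ a' = z ^ a' * s ^ b := (c1.symm.pow_pow b a').eq
    calc z ^ a * s ^ b * y ^ c * (z ^ a' * s ^ b' * y ^ c')
        = z ^ a * s ^ b * (y ^ c * z ^ a') * s ^ b' * y ^ c' := by group
      _ = z ^ a * (s ^ b * z ^ a') * (y ^ c * s ^ b') * y ^ c' := by rw [h1]; group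
      _ = z ^ a * z ^ a' * (s ^ b * s ^ b') * (y ^ c * y ^ c') := by rw [h2, h3]; group
  | inv x _ hx =>
    obtain ⟨a, b, c, rfl⟩ := hx
    refine ⟨a, b, c, ?_⟩
    rw [mul_inv_rev, mul_inv_rev, ← inv_pow, ← inv_pow, ← inv_pow, hzi, hsi, hyi]
    have h1 : y ^ c * z ^ a = z ^ a * y ^ c := (c2.symm.pow_pow c a).eq
    have h2 : y ^ c * s ^ b = s ^ b * y ^ c := (c3.symm.pow_pow c b).eq
    have h3 : s ^ b * z ^ a = z ^ a * s ^ b := (c1.symm.pow_pow b a).eq
    rw [h3, ← mul_assoc, h1, mul_assoc, h2, mul_assoc]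

theorem pow_two_cases {G : Type*} [Group G] {z : G} (hz : z * z = 1) (a : ℕ) : z ^ a = 1 ∨ z ^ a = z := by
  rcases Nat.even_or_odd' a with ⟨k, rfl | rfl⟩
  · left; rw [pow_mul, pow_two, hz, one_pow]
  · right; rw [pow_succ, pow_mul, pow_two, hz, one_pow, one_mul]

theorem V_facts {G : Type*} [Group G] [Finite G] {z s y : G} {Q Q₁ : Subgroup G} (L : Loc z s y Q Q₁) (V : Subgroup G)
    (hV : V = Subgroup.closure ({z, s, y} : Set G)) :
    IsElementaryAbelian 2 V ∧ Nat.card V = 8 ∧ z ∈ V ∧ s ∈ V ∧ y ∈ V ∧ V ≤ Q ∧ V ≤ Q₁ ∧ (∀ v ∈ V, O4 z s 1 v ∨ O4 z s y v) := by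
  classical
  have hzs : z * s = s * z := (L.e0.cen s L.sQ).symm
  have hzy : z * y = y * z := (L.e0.cen y L.yQ).symm
  have hsy : s * y = y * s := L.abE s L.sQ L.e1.zQ y L.yQ L.yQ₁
  have hz := L.e0.zz
  have hs := L.e1.zz
  have hy := L.yy
  have c1 : Commute z s := hzs
  have c2 : Commute z y := hzy
  have c3 : Commute s y := hsy
  have hzV : z ∈ V := by rw [hV]; exact Subgroup.subset_closure (by simp)
  have hsV : s ∈ V := by rw [hV]; exact Subgroup.subset_closure (by simp)
  have hyV : y ∈ V := by rw [hV]; exact Subgroup.subset_closure (by simp)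
  have hf : ∀ v ∈ V, ∃ a b c : ℕ, v = z ^ a * s ^ b * y ^ c := fun v hv =>
    forms hzs hzy hsy hz hs hy v (hV ▸ hv)
  have hO : ∀ v ∈ V, O4 z s 1 v ∨ O4 z s y v := by
    intro v hv
    obtain ⟨a, b, c, rfl⟩ := hf v hv
    unfold O4
    rcases pow_two_cases hz a with h1 | h1 <;> rcases pow_two_cases hs b with h2 | h2 <;>
      rcases pow_two_cases hy c with h3 | h3 <;> rw [h1, h2, h3]
    · left; left; simp
    · right; left; simp
    · left; right; right; left; simp
    · right; right; right; left; simp [hsy]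
    · left; right; left; simp
    · right; right; left; simp [hzy]
    · left; right; right; right; simp
    · right; right; right; right
      rw [mul_assoc, hsy, ← mul_assoc, hzy]
  have hcomm : ∀ v ∈ V, ∀ w ∈ V, v * w = w * v := by
    intro v hv w hw
    obtain ⟨a, b, c, rfl⟩ := hf v hv
    obtain ⟨a', b', c', rfl⟩ := hf w hw
    have k1 : Commute (z ^ a) (z ^ a' * s ^ b' * y ^ c') :=
      ((Commute.pow_pow_self z a a').mul_right (c1.pow_pow a b')).mul_right (c2.pow_pow a c')
    have k2 : Commute (s ^ b) (z ^ a' * s ^ b' * y ^ c') :=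
      ((c1.symm.pow_pow b a').mul_right (Commute.pow_pow_self s b b')).mul_right (c3.pow_pow b c')
    have k3 : Commute (y ^ c) (z ^ a' * s ^ b' * y ^ c') :=
      ((c2.symm.pow_pow c a').mul_right (c3.symm.pow_pow c b')).mul_right (Commute.pow_pow_self y c c')
    exact ((k1.mul_left k2).mul_left k3).eq
  have hsq : ∀ v ∈ V, v ^ 2 = 1 := by
    intro v hv
    obtain ⟨a, b, c, rfl⟩ := hf v hv
    have k1 : Commute (z ^ a) (s ^ b) := c1.pow_pow a b
    have k2 : Commute (z ^ a * s ^ b) (y ^ c) := (c2.pow_pow a c).mul_left (c3.pow_pow b c)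
    rw [k2.mul_pow, k1.mul_pow, ← pow_mul, ← pow_mul, ← pow_mul, mul_comm a, mul_comm b, mul_comm c, pow_mul, pow_mul,
      pow_mul, pow_two, pow_two, pow_two, hz, hs, hy]
    simp
  have hp : IsPGroup 2 V := by
    intro v
    exact ⟨1, Subtype.ext (by simpa using hsq v v.2)⟩
  have hcard : Nat.card V = 8 := by
    obtain ⟨k, hk⟩ := IsPGroup.iff_card.1 hp
    have hle : Nat.card V ≤ 8 := by
      have h1 : Nat.card V ≤ Nat.card (Fin 2 × Fin 2 × Fin 2) := by
        refine Nat.card_le_card_of_surjective (fun x : Fin 2 × Fin 2 × Fin 2 =>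
          (⟨z ^ (x.1 : ℕ) * s ^ (x.2.1 : ℕ) * y ^ (x.2.2 : ℕ),
            mul_mem (mul_mem (pow_mem hzV _) (pow_mem hsV _)) (pow_mem hyV _)⟩ : V)) ?_
        rintro ⟨v, hv⟩
        obtain ⟨a, b, c, rfl⟩ := hf v hv
        have hr : ∀ (w : G), w * w = 1 → ∀ n : ℕ, w ^ n = w ^ (n % 2) := by
          intro w hw n
          conv_lhs => rw [← Nat.div_add_mod n 2, pow_add, pow_mul, pow_two, hw, one_pow, one_mul]
        refine ⟨⟨⟨a % 2, Nat.mod_lt _ (by norm_num)⟩, ⟨b % 2, Nat.mod_lt _ (by norm_num)⟩,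
          ⟨c % 2, Nat.mod_lt _ (by norm_num)⟩⟩, Subtype.ext ?_⟩
        show z ^ (a % 2) * s ^ (b % 2) * y ^ (c % 2) = z ^ a * s ^ b * y ^ c
        rw [← hr z hz, ← hr s hs, ← hr y hy]
      simpa using h1
    have hge : 5 ≤ Nat.card V := by
      have hy1 := L.y1
      unfold O4 at hy1
      push Not at hy1
      obtain ⟨n1, n2, n3, n4⟩ := hy1
      rw [one_mul] at n2 n3 n4
      have hz1 := L.e0.z1
      have hs1 := L.e1.z1
      have hsz := L.sz
      have m1 : z * s ≠ 1 := by
        intro h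
        apply hsz
        calc s = z * z * s := by rw [hz, one_mul]
          _ = z * (z * s) := by group
          _ = z := by rw [h, mul_one]
      have m2 : z * s ≠ z := by
        intro h
        exact hs1 (mul_left_cancel (a := z) (by rw [h, mul_one]))
      have m3 : z * s ≠ s := by
        intro h
        exact hz1 (mul_right_cancel (b := s) (by rw [h, one_mul]))
      have hfin : ({1, z, s, z * s, y} : Finset G).card = 5 := by
        rw [Finset.card_insert_of_notMem, Finset.card_insert_of_notMem, Finset.card_insert_of_notMem,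
          Finset.card_insert_of_notMem, Finset.card_singleton]
        · simp only [Finset.mem_singleton]; exact n4.symm
        · simp only [Finset.mem_insert, Finset.mem_singleton, not_or]; exact ⟨m3.symm, n3.symm⟩
        · simp only [Finset.mem_insert, Finset.mem_singleton, not_or]; exact ⟨hsz.symm, m2.symm, n2.symm⟩
        · simp only [Finset.mem_insert, Finset.mem_singleton, not_or]
          exact ⟨hz1.symm, hs1.symm, m1.symm, n1.symm⟩
      have hsub : (({1, z, s, z * s, y} : Finset G) : Set G) ⊆ V := by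
        intro x hx
        simp only [Finset.coe_insert, Finset.coe_singleton, Set.mem_insert_iff, Set.mem_singleton_iff] at hx
        rcases hx with rfl | rfl | rfl | rfl | rfl
        · exact one_mem V
        · exact hzV
        · exact hsV
        · exact mul_mem hzV hsV
        · exact hyV
      have h2 := Nat.card_mono (Set.toFinite (V : Set G)) hsub
      rw [Nat.card_coe_set_eq, Set.ncard_coe_finset, hfin] at h2
      exact h2
    rw [hk] at hle hge ⊢
    have h3 : k ≤ 3 := by
      by_contra h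
      have : 2 ^ 4 ≤ 2 ^ k := Nat.pow_le_pow_right (by norm_num) (by omega)
      omega
    interval_cases k <;> simp_all
  refine ⟨?_, hcard, hzV, hsV, hyV, ?_, ?_, hO⟩
  · exact ⟨⟨⟨fun a b => Subtype.ext (hcomm a a.2 b b.2)⟩⟩, hsq⟩
  · rw [hV, Subgroup.closure_le]
    rintro x (rfl | rfl | rfl)
    · exact L.e0.zQ
    · exact L.sQ
    · exact L.yQ
  · rw [hV, Subgroup.closure_le]
    rintro x (rfl | rfl | rfl)
    · exact L.zQ₁
    · exact L.e1.zQ
    · exact L.yQ₁

end Cfsg.Agent.Lib.H97FeL1
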