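import Cfsg.Agent.Lib.H97FeL1
import Cfsg.Agent.Lib.H97FeL2

/-! Piece FE-L3 of S5445 (helper30): transitivity on flags of `V`. -/

set_option autoImplicit false
open Cfsg Cfsg.Agent.Lib.H97Fe0

namespace Cfsg.Agent.Lib.H97FeL3

theorem mem_norm {G : Type*} [Group G] [Finite G] {z s y : G} {V : Subgroup G}
    (hV : V = Subgroup.closure ({z, s, y} : Set G)) {g : G} (h1 : g * z * g⁻¹ ∈ V) (h2 : g * s * g⁻¹ ∈ V)
    (h3 : g * y * g⁻¹ ∈ V) : g ∈ Subgroup.normalizer (V : Set G) := by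
  have hle : V.map (MulAut.conj g).toMonoidHom ≤ V := by
    have h4 : V.map (MulAut.conj g).toMonoidHom =
        (Subgroup.closure ({z, s, y} : Set G)).map (MulAut.conj g).toMonoidHom := by rw [← hV]
    rw [h4, MonoidHom.map_closure, Subgroup.closure_le]
    rintro _ ⟨w, hw, rfl⟩
    rcases hw with rfl | rfl | rfl
    · exact h1
    · exact h2
    · exact h3
  have heq : V.map (MulAut.conj g).toMonoidHom = V := by
    apply Subgroup.eq_of_le_of_card_ge hle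
    rw [Subgroup.card_map_of_injective (MulAut.conj g).injective]
  rw [Subgroup.mem_normalizer_iff]
  intro h
  constructor
  · intro hh
    exact hle ⟨h, hh, rfl⟩
  · intro hh
    have hh' : g * h * g⁻¹ ∈ V.map (MulAut.conj g).toMonoidHom := by rw [heq]; exact hh
    obtain ⟨w, hw, hwe⟩ := hh'
    have h5 : g * w * g⁻¹ = g * h * g⁻¹ := hwe
    have h6 : w = h := by
      have := mul_right_cancel h5
      exact mul_left_cancel this
    rw [← h6]
    exact hw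

theorem conj_of_comm {G : Type*} [Group G] {a z : G} (h : a * z = z * a) : a * z * a⁻¹ = z := by
  rw [h, mul_inv_cancel_right]

theorem conj_mul {G : Type*} [Group G] (a b w : G) : (a * b) * w * (a * b)⁻¹ = a * (b * w * b⁻¹) * a⁻¹ := by group

theorem V_trans {G : Type*} [Group G] [Finite G] {z s y : G} {Q Q₁ : Subgroup G} (L : Loc z s y Q Q₁) (V : Subgroup G)
    (hV : V = Subgroup.closure ({z, s, y} : Set G)) :
    (∀ v ∈ V, v ≠ 1 → ∃ n ∈ Subgroup.normalizer (V : Set G), n * z * n⁻¹ = v) ∧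
    (∀ v ∈ V, v ≠ 1 → v ≠ z → ∃ n ∈ Subgroup.normalizer (V : Set G), n * z * n⁻¹ = z ∧ n * s * n⁻¹ = v) ∧
    (∀ v ∈ V, ¬ O4 z s 1 v → ∃ n ∈ Subgroup.normalizer (V : Set G), n * z * n⁻¹ = z ∧ n * s * n⁻¹ = s ∧ n * y * n⁻¹ = v) ∧
    (∃ n ∈ Subgroup.normalizer (V : Set G), ∀ a ∈ Q, n * a * n⁻¹ ∈ Q₁) := by
  obtain ⟨-, -, hz, hs, hy, hVQ, hVQ₁, hO⟩ := Cfsg.Agent.Lib.H97FeL1.V_facts L V hV
  have hO4 : ∀ w, O4 z s y w → w ∈ V := by
    rintro w (rfl | rfl | rfl | rfl)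
    · exact hy
    · exact V.mul_mem hy hz
    · exact V.mul_mem hy hs
    · exact V.mul_mem (V.mul_mem hy hz) hs
  have hsz : s * z = z * s := L.e0.cen s L.sQ
  have hy1 := L.y1
  have hyn : y ≠ 1 ∧ y ≠ z ∧ y ≠ s ∧ y ≠ z * s := by
    refine ⟨fun h => hy1 (Or.inl h), fun h => hy1 (Or.inr (Or.inl ?_)), fun h => hy1 (Or.inr (Or.inr (Or.inl ?_))),
      fun h => hy1 (Or.inr (Or.inr (Or.inr ?_)))⟩
    · rw [one_mul]; exact h
    · rw [one_mul]; exact h
    · rw [one_mul]; exact h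
  obtain ⟨hy_1, hy_z, hy_s, hy_zs⟩ := hyn
  -- the elements
  obtain ⟨⟨a, haQ, has⟩, hadj⟩ := Cfsg.Agent.Lib.H97FeL2.adj L.e0 L.sQ L.e1.zz L.e1.z1 L.sz
  obtain ⟨a2, ha2Q, ha2s, ha2y⟩ := hadj y L.yQ hy_1 hy_z hy_s hy_zs
  obtain ⟨-, hadj'⟩ := Cfsg.Agent.Lib.H97FeL2.adj L.e1 L.zQ₁ L.e0.zz L.e0.z1 (Ne.symm L.sz)
  obtain ⟨b, hbQ, hbz, hby⟩ := hadj' y L.yQ₁ hy_1 hy_s hy_z (by rw [hsz]; exact hy_zs)
  -- a : s -> z s
  have haz := conj_of_comm (L.e0.cen a haQ)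
  have hay : a * y * a⁻¹ ∈ V := by
    rcases L.e0.comm a haQ y L.yQ with h | h
    · have : a * y * a⁻¹ = y := by
        rw [mul_inv_eq_one] at h; exact h
      rw [this]; exact hy
    · have : a * y * a⁻¹ = z * y := by
        rw [mul_inv_eq_iff_eq_mul] at h; exact h
      rw [this]; exact V.mul_mem hz hy
  have haN : a ∈ Subgroup.normalizer (V : Set G) :=
    mem_norm hV (by rw [haz]; exact hz) (by rw [has]; exact V.mul_mem hz hs) hay
  -- a2 : y -> y z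
  have ha2z := conj_of_comm (L.e0.cen a2 ha2Q)
  have ha2s' := conj_of_comm ha2s
  have ha2N : a2 ∈ Subgroup.normalizer (V : Set G) :=
    mem_norm hV (by rw [ha2z]; exact hz) (by rw [ha2s']; exact hs) (by rw [ha2y]; exact V.mul_mem hy hz)
  -- b : y -> y s
  have hbz' := conj_of_comm hbz
  have hbs' := conj_of_comm (L.e1.cen b hbQ)
  have hbN : b ∈ Subgroup.normalizer (V : Set G) :=
    mem_norm hV (by rw [hbz']; exact hz) (by rw [hbs']; exact hs) (by rw [hby]; exact V.mul_mem hy hs)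
  -- x, k
  obtain ⟨x, hxz, hxs, hxy⟩ := L.t2
  have hxz' := conj_of_comm hxz
  have hxN : x ∈ Subgroup.normalizer (V : Set G) := by
    refine mem_norm hV (by rw [hxz']; exact hz) (by rw [hxs]; exact hy) ?_
    rcases hxy with h | h
    · rw [h]; exact V.mul_mem hy hs
    · rw [h]; exact V.mul_mem (V.mul_mem hy hz) hs
  obtain ⟨k, hkz, hks, hky, hkQ⟩ := L.t1
  have hkN : k ∈ Subgroup.normalizer (V : Set G) :=
    mem_norm hV (by rw [hkz]; exact hs) (by rw [hks]; exact hz) (hO4 _ hky)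
  -- third
  have h3 : ∀ v ∈ V, ¬ O4 z s 1 v → ∃ n ∈ Subgroup.normalizer (V : Set G), n * z * n⁻¹ = z ∧ n * s * n⁻¹ = s ∧
      n * y * n⁻¹ = v := by
    intro v hv hvn
    rcases hO v hv with h | h
    · exact absurd h hvn
    · rcases h with rfl | rfl | rfl | rfl
      · exact ⟨1, one_mem _, by simp, by simp, by simp⟩
      · exact ⟨a2, ha2N, ha2z, ha2s', ha2y⟩
      · exact ⟨b, hbN, hbz', hbs', hby⟩
      · refine ⟨a2 * b, mul_mem ha2N hbN, by rw [conj_mul, hbz', ha2z], by rw [conj_mul, hbs', ha2s'], ?_⟩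
        rw [conj_mul, hby]
        have : a2 * (y * s) * a2⁻¹ = (a2 * y * a2⁻¹) * (a2 * s * a2⁻¹) := by group
        rw [this, ha2y, ha2s']
  -- second
  have h2 : ∀ v ∈ V, v ≠ 1 → v ≠ z → ∃ n ∈ Subgroup.normalizer (V : Set G), n * z * n⁻¹ = z ∧ n * s * n⁻¹ = v := by
    intro v hv hv1 hvz
    by_cases h : O4 z s 1 v
    · rcases h with h | h | h | h
      · exact absurd h hv1
      · rw [one_mul] at h; exact absurd h hvz
      · rw [one_mul] at h
        subst h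
        exact ⟨1, one_mem _, by simp, by simp⟩
      · rw [one_mul] at h
        subst h
        exact ⟨a, haN, haz, has⟩
    · obtain ⟨m, hmN, hmz, hms, hmy⟩ := h3 v hv h
      exact ⟨m * x, mul_mem hmN hxN, by rw [conj_mul, hxz', hmz], by rw [conj_mul, hxs, hmy]⟩
  refine ⟨?_, h2, h3, k, hkN, hkQ⟩
  intro v hv hv1
  by_cases hvz : v = z
  · subst hvz
    exact ⟨1, one_mem _, by simp⟩
  · obtain ⟨n, hnN, hnz, hns⟩ := h2 v hv hv1 hvz
    exact ⟨n * k, mul_mem hnN hkN, by rw [conj_mul, hkz, hns]⟩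

end Cfsg.Agent.Lib.H97FeL3
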