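import Cfsg.Agent.Lib.H97Fe0
import Cfsg.Agent.Lib.L32H51

/-! S5445, piece FE-L4 (helper59) -/

set_option autoImplicit false
open Cfsg Cfsg.Agent.Lib.H97Fe0

namespace Cfsg.Agent.Lib.H97FeL4

theorem aut8 {N : Type*} [Group N] [Finite N] (hcomm : ∀ a b : N, a * b = b * a) (hexp : ∀ n : N, n ^ 2 = 1)
    (hcard : Nat.card N = 8) : Nonempty (MulAut N ≃* Matrix.SpecialLinearGroup (Fin 3) (ZMod 2)) := by
  obtain ⟨f, hf⟩ := L32H51.exists_aut_hom hcomm hexp hcard
  letI : CommGroup N := { (inferInstance : Group N) with mul_comm := hcomm }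
  haveI : Fact (Nat.Prime 2) := ⟨Nat.prime_two⟩
  letI : Module (ZMod 2) (Additive N) := AddCommGroup.zmodModule (n := 2) (fun x => by
    have := hexp (Additive.toMul x)
    rw [← ofMul_toMul x, ← ofMul_pow, this]; rfl)
  haveI : Module.Finite (ZMod 2) (Additive N) := Module.Finite.of_finite
  have hr : Module.finrank (ZMod 2) (Additive N) = 3 := by
    have h := Module.natCard_eq_pow_finrank (K := ZMod 2) (V := Additive N)
    have h8 : Nat.card (Additive N) = 8 := hcard
    rw [h8, Nat.card_zmod] at h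
    have : (2:ℕ) ^ 3 = 2 ^ Module.finrank (ZMod 2) (Additive N) := by rw [← h]; norm_num
    exact (Nat.pow_right_injective le_rfl this).symm
  let e : Additive N ≃ₗ[ZMod 2] (Fin 3 → ZMod 2) := (Module.finBasisOfFinrankEq (ZMod 2) (Additive N) hr).equivFun
  let T : Matrix.GeneralLinearGroup (Fin 3) (ZMod 2) → ((Fin 3 → ZMod 2) ≃ₗ[ZMod 2] (Fin 3 → ZMod 2)) := fun g =>
    LinearMap.GeneralLinearGroup.toLinearEquiv (Matrix.GeneralLinearGroup.toLin g)
  have hT : ∀ g x, T g x = (g : Matrix (Fin 3) (Fin 3) (ZMod 2)).mulVec x := fun g x => rfl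
  let F : Matrix.GeneralLinearGroup (Fin 3) (ZMod 2) → MulAut N := fun g =>
    AddEquiv.toMultiplicative (((e.trans (T g)).trans e.symm).toAddEquiv)
  have hF : ∀ g (n : N), F g n = Additive.toMul (e.symm ((g : Matrix (Fin 3) (Fin 3) (ZMod 2)).mulVec (e (Additive.ofMul n)))) :=
    fun g n => rfl
  have hFi : Function.Injective F := by
    intro g g' h
    apply Units.ext
    apply Matrix.toLin'.injective
    apply LinearMap.ext
    intro x
    rw [Matrix.toLin'_apply, Matrix.toLin'_apply]
    have h1 := congrArg (fun α : MulAut N => α (Additive.toMul (e.symm x))) h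
    simp only [hF] at h1
    have h2 := e.symm.injective h1
    simpa using h2
  have hle : Nat.card (Matrix.GeneralLinearGroup (Fin 3) (ZMod 2)) ≤ Nat.card (MulAut N) :=
    Nat.card_le_card_of_injective F hFi
  have h1 : Function.Bijective f := hf.bijective_of_nat_card_le hle
  have h2 : Function.Bijective (Matrix.SpecialLinearGroup.toGL :
      Matrix.SpecialLinearGroup (Fin 3) (ZMod 2) →* Matrix.GeneralLinearGroup (Fin 3) (ZMod 2)) := by
    rw [Nat.bijective_iff_injective_and_card]
    exact ⟨Matrix.SpecialLinearGroup.toGL_injective, ClSeven.card_sl32.trans ClSeven.card_gl32.symm⟩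
  exact ⟨(MulEquiv.ofBijective f h1).trans (MulEquiv.ofBijective _ h2).symm⟩

theorem V_quot {G : Type*} [Group G] [Finite G] (z s y : G) (V : Subgroup G) (hE : IsElementaryAbelian 2 V) (hc : Nat.card V = 8)
    (hz : z ∈ V) (hs : s ∈ V) (hy : y ∈ V) (hz1 : z ≠ 1) (hs1 : ¬ (s = 1 ∨ s = z)) (hy1 : ¬ O4 z s 1 y)
    (t1 : ∀ v ∈ V, v ≠ 1 → ∃ n ∈ Subgroup.normalizer (V : Set G), n * z * n⁻¹ = v)
    (t2 : ∀ v ∈ V, v ≠ 1 → v ≠ z → ∃ n ∈ Subgroup.normalizer (V : Set G), n * z * n⁻¹ = z ∧ n * s * n⁻¹ = v)
    (t3 : ∀ v ∈ V, ¬ O4 z s 1 v → ∃ n ∈ Subgroup.normalizer (V : Set G), n * z * n⁻¹ = z ∧ n * s * n⁻¹ = s ∧ n * y * n⁻¹ = v) :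
    ∃ _ : ((Subgroup.centralizer (V : Set G)).subgroupOf (Subgroup.normalizer (V : Set G))).Normal,
      Nonempty (↥(Subgroup.normalizer (V : Set G)) ⧸ (Subgroup.centralizer (V : Set G)).subgroupOf (Subgroup.normalizer (V : Set G)) ≃*
        Matrix.SpecialLinearGroup (Fin 3) (ZMod 2)) := by
  classical
  have hcomm : ∀ a b : V, a * b = b * a := fun a b => hE.1.is_comm.comm a b
  have hexp : ∀ a : V, a ^ 2 = 1 := fun a => Subtype.ext (hE.2 a a.2)
  obtain ⟨e⟩ := aut8 hcomm hexp hc
  let φ := Subgroup.normalizerMonoidHom V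
  have hφ : ∀ (n : Subgroup.normalizer (V : Set G)) (v : V), ((φ n v : V) : G) = n * v * (n : G)⁻¹ := fun n v => rfl
  have hker : φ.ker = (Subgroup.centralizer (V : Set G)).subgroupOf (Subgroup.normalizer (V : Set G)) :=
    Subgroup.normalizerMonoidHom_ker V
  have hsurj : Function.Surjective φ := by
    intro α
    let z' : V := ⟨z, hz⟩
    let s' : V := ⟨s, hs⟩
    let y' : V := ⟨y, hy⟩
    have hnV : ∀ n ∈ Subgroup.normalizer (V : Set G), ∀ v ∈ V, n⁻¹ * v * n ∈ V := by
      intro n hn v hv
      have := (Subgroup.mem_normalizer_iff.1 (inv_mem hn) v).1 hv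
      rwa [inv_inv] at this
    obtain ⟨n1, hn1, h1⟩ := t1 (α z') (α z').2 (fun h => hz1 (by
      have h2 : α z' = 1 := Subtype.ext h
      exact congrArg Subtype.val (α.injective (h2.trans (map_one α).symm))))
    obtain ⟨n2, hn2, h2z, h2s⟩ := t2 (n1⁻¹ * (α s' : V) * n1) (hnV n1 hn1 _ (α s').2) (fun h => hs1 (Or.inl (by
        have h3 : α s' = 1 := Subtype.ext (by
          have := congrArg (fun x => n1 * x * n1⁻¹) h
          simpa [mul_assoc] using this)
        exact congrArg Subtype.val (α.injective (h3.trans (map_one α).symm))))) (fun h => hs1 (Or.inr (by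
        have h3 : α s' = α z' := Subtype.ext (by
          have := congrArg (fun x => n1 * x * n1⁻¹) h
          rw [← h1]
          simpa [mul_assoc] using this)
        exact congrArg Subtype.val (α.injective h3))))
    have h12z : (n1 * n2) * z * (n1 * n2)⁻¹ = (α z' : V) := by
      calc (n1 * n2) * z * (n1 * n2)⁻¹ = n1 * (n2 * z * n2⁻¹) * n1⁻¹ := by group
        _ = _ := by rw [h2z, h1]
    have h12s : (n1 * n2) * s * (n1 * n2)⁻¹ = (α s' : V) := by
      calc (n1 * n2) * s * (n1 * n2)⁻¹ = n1 * (n2 * s * n2⁻¹) * n1⁻¹ := by group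
        _ = _ := by rw [h2s]; group
    have hn12 := mul_mem hn1 hn2
    have hzs : ∀ w : V, (n1 * n2)⁻¹ * (α y' : V) * (n1 * n2) = w → α.symm ⟨(n1 * n2) * w * (n1 * n2)⁻¹,
        (Subgroup.mem_normalizer_iff.1 hn12 w).1 w.2⟩ = y' := by
      intro w hw
      rw [MulEquiv.symm_apply_eq]
      apply Subtype.ext
      show (n1 * n2) * (w : G) * (n1 * n2)⁻¹ = _
      rw [← hw]; group
    obtain ⟨n3, hn3, h3z, h3s, h3y⟩ := t3 ((n1 * n2)⁻¹ * (α y' : V) * (n1 * n2)) (hnV _ hn12 _ (α y').2) (by
      intro h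
      apply hy1
      have key : ∀ w : V, (n1 * n2)⁻¹ * (α y' : V) * (n1 * n2) = (w : G) → α (y') = ⟨(n1 * n2) * w * (n1 * n2)⁻¹,
        (Subgroup.mem_normalizer_iff.1 hn12 w).1 w.2⟩ := by
        intro w hw
        apply Subtype.ext
        show _ = (n1 * n2) * (w : G) * (n1 * n2)⁻¹
        rw [← hw]; group
      rcases h with h | h | h | h
      · left
        have h4 := key 1 h
        have h5 : α y' = α 1 := by
          rw [h4, map_one]
          apply Subtype.ext
          show (n1 * n2) * ((1 : V) : G) * (n1 * n2)⁻¹ = 1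
          rw [Subgroup.coe_one]; group
        exact congrArg Subtype.val (α.injective h5)
      · right; left
        have h4 := key z' (h.trans (one_mul z))
        have h5 : α y' = α z' := by
          rw [h4]; exact Subtype.ext h12z
        exact (congrArg Subtype.val (α.injective h5)).trans (one_mul z).symm
      · right; right; left
        have h4 := key s' (h.trans (one_mul s))
        have h5 : α y' = α s' := by
          rw [h4]; exact Subtype.ext h12s
        exact (congrArg Subtype.val (α.injective h5)).trans (one_mul s).symm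
      · right; right; right
        have h4 := key (z' * s') (h.trans (by rw [one_mul]; rfl))
        have h5 : α y' = α (z' * s') := by
          rw [h4, map_mul]
          apply Subtype.ext
          show (n1 * n2) * (z * s) * (n1 * n2)⁻¹ = (α z' : V) * (α s' : V)
          rw [← h12z, ← h12s]; group
        exact (congrArg Subtype.val (α.injective h5)).trans (by rw [one_mul]; rfl))
    refine ⟨⟨n1 * n2 * n3, mul_mem hn12 hn3⟩, ?_⟩
    let E : Subgroup V := MonoidHom.eqLocus (φ ⟨n1 * n2 * n3, mul_mem hn12 hn3⟩).toMonoidHom α.toMonoidHom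
    have hE' : ∀ v : V, v ∈ E ↔ φ ⟨n1 * n2 * n3, mul_mem hn12 hn3⟩ v = α v := fun v => Iff.rfl
    have hEz : z' ∈ E := by
      rw [hE']; apply Subtype.ext; rw [hφ]
      show (n1 * n2 * n3) * z * (n1 * n2 * n3)⁻¹ = _
      calc (n1 * n2 * n3) * z * (n1 * n2 * n3)⁻¹ = (n1 * n2) * (n3 * z * n3⁻¹) * (n1 * n2)⁻¹ := by group
        _ = _ := by rw [h3z, h12z]
    have hEs : s' ∈ E := by
      rw [hE']; apply Subtype.ext; rw [hφ]
      show (n1 * n2 * n3) * s * (n1 * n2 * n3)⁻¹ = _
      calc (n1 * n2 * n3) * s * (n1 * n2 * n3)⁻¹ = (n1 * n2) * (n3 * s * n3⁻¹) * (n1 * n2)⁻¹ := by group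
        _ = _ := by rw [h3s, h12s]
    have hEy : y' ∈ E := by
      rw [hE']; apply Subtype.ext; rw [hφ]
      show (n1 * n2 * n3) * y * (n1 * n2 * n3)⁻¹ = _
      calc (n1 * n2 * n3) * y * (n1 * n2 * n3)⁻¹ = (n1 * n2) * (n3 * y * n3⁻¹) * (n1 * n2)⁻¹ := by group
        _ = _ := by rw [h3y]; group
    have hcardE : 5 ≤ Nat.card E := by
      have hfs : ({1, z', s', z' * s', y'} : Finset V).card = 5 := by
        have a1 : (1 : V) ≠ z' := fun h => hz1 (congrArg Subtype.val h).symm
        have a2 : (1 : V) ≠ s' := fun h => hs1 (Or.inl (congrArg Subtype.val h).symm)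
        have a3 : z' ≠ s' := fun h => hs1 (Or.inr (congrArg Subtype.val h).symm)
        have hzz : z' * z' = 1 := by have := hexp z'; rwa [pow_two] at this
        have a4 : (1 : V) ≠ z' * s' := fun h => a3 (by
          have := congrArg (fun x => z' * x) h
          simp only [mul_one, ← mul_assoc, hzz, one_mul] at this
          exact this)
        have a5 : z' ≠ z' * s' := fun h => a2 (show s' = 1 by simpa using h).symm
        have a6 : s' ≠ z' * s' := fun h => a1 (show z' = 1 by simpa using h).symm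
        have a7 : (1 : V) ≠ y' := fun h => hy1 (Or.inl (congrArg Subtype.val h).symm)
        have a8 : z' ≠ y' := fun h => hy1 (Or.inr (Or.inl (by rw [one_mul]; exact (congrArg Subtype.val h).symm)))
        have a9 : s' ≠ y' := fun h => hy1 (Or.inr (Or.inr (Or.inl (by rw [one_mul]; exact (congrArg Subtype.val h).symm))))
        have a10 : z' * s' ≠ y' := fun h => hy1 (Or.inr (Or.inr (Or.inr (by rw [one_mul]; exact (congrArg Subtype.val h).symm))))
        rw [Finset.card_insert_of_notMem, Finset.card_insert_of_notMem, Finset.card_insert_of_notMem,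
          Finset.card_insert_of_notMem, Finset.card_singleton]
        · simp only [Finset.mem_singleton]; exact a10
        · simp only [Finset.mem_insert, Finset.mem_singleton, not_or]; exact ⟨a6, a9⟩
        · simp only [Finset.mem_insert, Finset.mem_singleton, not_or]; exact ⟨a3, a5, a8⟩
        · simp only [Finset.mem_insert, Finset.mem_singleton, not_or]; exact ⟨a1, a2, a4, a7⟩
      have hsub : ((({1, z', s', z' * s', y'} : Finset V)) : Set V) ⊆ (E : Set V) := by
        intro v hv
        simp only [Finset.coe_insert, Finset.coe_singleton, Set.mem_insert_iff, Set.mem_singleton_iff] at hv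
        rcases hv with rfl | rfl | rfl | rfl | rfl
        · exact E.one_mem
        · exact hEz
        · exact hEs
        · exact E.mul_mem hEz hEs
        · exact hEy
      have h6 := Set.ncard_le_ncard hsub (Set.toFinite _)
      rw [Set.ncard_coe_finset, hfs] at h6
      exact h6
    have hEtop : E = ⊤ := by
      have h7 := Subgroup.card_subgroup_dvd_card E
      rw [hc] at h7
      have h8 : Nat.card E = 8 := by
        have : Nat.card E ≤ 8 := Nat.le_of_dvd (by norm_num) h7
        interval_cases h : Nat.card E <;> omega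
      exact Subgroup.eq_top_of_card_eq E (h8.trans hc.symm)
    apply MulEquiv.ext
    intro v
    rw [← hE', hEtop]
    trivial
  have hnorm : ((Subgroup.centralizer (V : Set G)).subgroupOf (Subgroup.normalizer (V : Set G))).Normal := by
    rw [← hker]; exact MonoidHom.normal_ker φ
  refine ⟨hnorm, ⟨?_⟩⟩
  exact ((QuotientGroup.quotientMulEquivOfEq hker.symm).trans (QuotientGroup.quotientKerEquivOfSurjective φ hsurj)).trans e

end Cfsg.Agent.Lib.H97FeL4
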