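import Cfsg.Agent.Lib.H97Fe0
import Cfsg.Agent.Lib.H70AltPrime
import Cfsg.Agent.Lib.H55T2b
import Cfsg.Agent.Lib.Cores

set_option autoImplicit false
open Cfsg Cfsg.Agent.Lib.H97Fe0

namespace Cfsg.Agent.Lib.H97FeL5

open Matrix MatrixGroups Cfsg.Agent.Lib.ClSeven

theorem simple_sl32 : IsSimpleGroup (Matrix.SpecialLinearGroup (Fin 3) (ZMod 2)) := by
  have := H55T2b.simple_gl32
  have h2 : Function.Bijective (SpecialLinearGroup.toGL : SL(3, ZMod 2) →* GL (Fin 3) (ZMod 2)) := by
    rw [Nat.bijective_iff_injective_and_card]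
    exact ⟨SpecialLinearGroup.toGL_injective, card_sl32.trans card_gl32.symm⟩
  exact (MulEquiv.ofBijective _ h2).isSimpleGroup

theorem simple_a6 : IsSimpleGroup (alternatingGroup (Fin 6)) :=
  alternatingGroup.isSimpleGroup (by rw [Nat.card_eq_fintype_card]; decide)

theorem card_a6 : Nat.card (alternatingGroup (Fin 6)) = 360 := by
  have h := two_mul_nat_card_alternatingGroup (α := Fin 6)
  rw [Nat.card_eq_fintype_card, Nat.card_perm] at *
  have h2 : (Nat.card (Fin 6)).factorial = 720 := by rw [Nat.card_eq_fintype_card]; rfl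
  omega

theorem core {H : Type*} [Group H] [Finite H] (A : Subgroup H) [hAn : A.Normal] (e : A ≃* alternatingGroup (Fin 6))
    (f : H ⧸ A ≃* Matrix.SpecialLinearGroup (Fin 3) (ZMod 2)) :
    Nonempty (H ≃* Matrix.SpecialLinearGroup (Fin 3) (ZMod 2) × alternatingGroup (Fin 6)) := by
  have hs3 := simple_sl32
  have hs6 := simple_a6
  have hAc : Nat.card A = 360 := (Nat.card_congr e.toEquiv).trans card_a6
  have hHAc : Nat.card (H ⧸ A) = 168 := (Nat.card_congr f.toEquiv).trans card_sl32
  have hHA : IsSimpleGroup (H ⧸ A) := f.isSimpleGroup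
  have hAs : IsSimpleGroup A := e.isSimpleGroup
  -- an element of order 7
  have h7 : 7 ∣ Nat.card H := by
    rw [Subgroup.card_eq_card_quotient_mul_card_subgroup A, hHAc]
    exact ⟨24 * Nat.card A, by ring⟩
  have : Fact (Nat.Prime 7) := ⟨by norm_num⟩
  obtain ⟨g, hg⟩ := exists_prime_orderOf_dvd_card' 7 h7
  let D : Subgroup H := Subgroup.centralizer (A : Set H)
  have hDn : D.Normal := inferInstanceAs (Subgroup.centralizer (A : Set H)).Normal
  have hgD : g ∈ D := by
    let φ : MulAut (alternatingGroup (Fin 6)) := MulAut.congr e (MulAut.conjNormal g)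
    have hφ7 : φ ^ 7 = 1 := by
      change (MulAut.congr e (MulAut.conjNormal g)) ^ 7 = 1
      rw [← map_pow, ← map_pow, ← hg, pow_orderOf_eq_one, map_one, map_one]
    have hodd : Odd (orderOf φ) := by
      have h1 : orderOf φ ∣ 7 := orderOf_dvd_of_pow_eq_one hφ7
      exact Odd.of_dvd_nat (by decide) h1
    obtain ⟨σ, hσ⟩ := H70AltPrime.exists_perm_six φ hodd
    have hφ1 : φ = 1 := by
      -- the order of `φ` divides 7 and 720
      have h1 : orderOf φ ∣ 7 := orderOf_dvd_of_pow_eq_one hφ7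
      have h2 : orderOf φ ∣ 720 := by
        rw [← hσ]
        have h3 : orderOf (MulAut.conjNormal (H := alternatingGroup (Fin 6)) σ) ∣ orderOf σ := orderOf_map_dvd _ σ
        have h4 : orderOf σ ∣ Nat.card (Equiv.Perm (Fin 6)) := orderOf_dvd_natCard σ
        rw [Nat.card_perm, Nat.card_eq_fintype_card] at h4
        exact h3.trans h4
      have h5 : orderOf φ ∣ 1 := by
        have := Nat.dvd_gcd h1 h2
        simpa using this
      exact orderOf_eq_one_iff.1 (Nat.dvd_one.1 h5)
    have h6 : MulAut.conjNormal (H := A) g = 1 := by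
      have : MulAut.congr e (MulAut.conjNormal g) = MulAut.congr e 1 := by rw [map_one]; exact hφ1
      exact (MulAut.congr e).injective this
    change g ∈ Subgroup.centralizer (A : Set H)
    rw [Subgroup.mem_centralizer_iff]
    intro x hx
    have h8 := congrArg (fun φ : MulAut A => ((φ ⟨x, hx⟩ : A) : H)) h6
    simp only [MulAut.conjNormal_apply, MulAut.one_apply] at h8
    exact (mul_inv_eq_iff_eq_mul.1 h8).symm
  have hgA : g ∉ A := by
    intro h
    have h1 : orderOf (⟨g, h⟩ : A) ∣ Nat.card A := orderOf_dvd_natCard _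
    rw [Subgroup.orderOf_mk, hg, hAc] at h1
    revert h1
    norm_num
  -- `D ⊔ A = ⊤`, `D ⊓ A = ⊥`
  have hDA : ∀ x ∈ D, x ∈ A → x = 1 := by
    intro x hx hxA
    have hc : (⟨x, hxA⟩ : A) ∈ Subgroup.center A := by
      rw [Subgroup.mem_center_iff]
      intro y
      exact Subtype.ext ((Subgroup.mem_centralizer_iff.1 hx) y y.2)
    have hcen : Subgroup.center A = ⊥ := by
      rcases (inferInstance : (Subgroup.center A).Normal).eq_bot_or_eq_top with h | h
      · exact h
      · exfalso
        let _ : CommGroup A := { (inferInstance : Group A) with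
          mul_comm := fun a b => (Subgroup.mem_center_iff.1 (h ▸ Subgroup.mem_top b : b ∈ Subgroup.center A) a) }
        have hp : (Nat.card A).Prime := IsSimpleGroup.prime_card
        rw [hAc] at hp
        revert hp
        norm_num
    rw [hcen, Subgroup.mem_bot] at hc
    exact congrArg Subtype.val hc
  have hsup : ∀ x : H, ∃ d ∈ D, (QuotientGroup.mk' A d) = QuotientGroup.mk' A x := by
    have hn : (D.map (QuotientGroup.mk' A)).Normal := hDn.map _ (QuotientGroup.mk'_surjective A)
    have htop : D.map (QuotientGroup.mk' A) = ⊤ := by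
      rcases hn.eq_bot_or_eq_top with h | h
      · exfalso
        have h1 : QuotientGroup.mk' A g ∈ D.map (QuotientGroup.mk' A) := ⟨g, hgD, rfl⟩
        rw [h, Subgroup.mem_bot] at h1
        exact hgA ((QuotientGroup.eq_one_iff g).1 h1)
      · exact h
    intro x
    have h1 : QuotientGroup.mk' A x ∈ D.map (QuotientGroup.mk' A) := by rw [htop]; trivial
    obtain ⟨d, hd, hdx⟩ := h1
    exact ⟨d, hd, hdx⟩
  have hcomm : ∀ (d : D) (a : A), Commute (D.subtype d) (A.subtype a) := by
    intro d a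
    exact ((Subgroup.mem_centralizer_iff.1 d.2) a a.2).symm
  let F : D × A →* H := MonoidHom.noncommCoprod D.subtype A.subtype hcomm
  have hF : ∀ (d : D) (a : A), F (d, a) = d * a := fun d a => rfl
  have hFb : Function.Bijective F := by
    constructor
    · rw [injective_iff_map_eq_one]
      rintro ⟨d, a⟩ h
      rw [hF] at h
      have h1 : (d : H) = (a : H)⁻¹ := eq_inv_of_mul_eq_one_left h
      have h2 : (d : H) = 1 := hDA d d.2 (h1 ▸ A.inv_mem a.2)
      have h3 : (a : H) = 1 := by rw [h2, one_mul] at h; exact h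
      exact Prod.ext (Subtype.ext h2) (Subtype.ext h3)
    · intro x
      obtain ⟨d, hd, hdx⟩ := hsup x
      have h1 : d⁻¹ * x ∈ A := QuotientGroup.eq.1 hdx
      refine ⟨(⟨d, hd⟩, ⟨d⁻¹ * x, h1⟩), ?_⟩
      rw [hF]
      exact mul_inv_cancel_left d x
  have hGb : Function.Bijective ((QuotientGroup.mk' A).comp D.subtype) := by
    constructor
    · rw [injective_iff_map_eq_one]
      intro d h
      have h1 : (d : H) ∈ A := (QuotientGroup.eq_one_iff (d : H)).1 h
      exact Subtype.ext (hDA d d.2 h1)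
    · intro x
      obtain ⟨x, rfl⟩ := QuotientGroup.mk'_surjective A x
      obtain ⟨d, hd, hdx⟩ := hsup x
      exact ⟨⟨d, hd⟩, hdx⟩
  exact ⟨(MulEquiv.ofBijective F hFb).symm.trans
    (MulEquiv.prodCongr ((MulEquiv.ofBijective _ hGb).trans f) e)⟩

theorem pCore_bot {S : Type*} [Group S] [Finite S] [IsSimpleGroup S] (h : ¬ IsPGroup 2 S) : pCore 2 S = ⊥ := by
  have hn : (pCore 2 S).Normal := pCore_normal 2 S
  rcases hn.eq_bot_or_eq_top with h1 | h1
  · exact h1
  · exact absurd (Cores.pCore_eq_top_iff.1 h1) h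

theorem quot_prod {L : Type*} [Group L] [Finite L] (C R : Subgroup L) [C.Normal] (hRC : R ≤ C) (hR : IsPGroup 2 R)
    (h6 : ∃ φ : C →* alternatingGroup (Fin 6), Function.Surjective φ ∧ ∀ c : C, φ c = 1 ↔ (c : L) ∈ R)
    (h3 : Nonempty (L ⧸ C ≃* Matrix.SpecialLinearGroup (Fin 3) (ZMod 2))) :
    pCore 2 L = R ∧ ∃ _ : R.Normal, Nonempty (L ⧸ R ≃* Matrix.SpecialLinearGroup (Fin 3) (ZMod 2) × alternatingGroup (Fin 6)) := by
  have hs3 := simple_sl32
  have hs6 := simple_a6
  obtain ⟨φ, hφs, hφk⟩ := h6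
  obtain ⟨f3⟩ := h3
  have hCn : C.Normal := inferInstance
  have np6 : ¬ IsPGroup 2 (alternatingGroup (Fin 6)) := by
    intro h
    obtain ⟨n, hn⟩ := IsPGroup.iff_card.1 h
    rw [card_a6] at hn
    have h1 : 3 ∣ 2 ^ n := hn ▸ (by norm_num : 3 ∣ 360)
    have := Nat.Prime.dvd_of_dvd_pow (by norm_num) h1
    omega
  have np3 : ¬ IsPGroup 2 (Matrix.SpecialLinearGroup (Fin 3) (ZMod 2)) := by
    intro h
    obtain ⟨n, hn⟩ := IsPGroup.iff_card.1 h
    rw [card_sl32] at hn
    have h1 : 3 ∣ 2 ^ n := hn ▸ (by norm_num : 3 ∣ 168)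
    have := Nat.Prime.dvd_of_dvd_pow (by norm_num) h1
    omega
  have hker : φ.ker = R.subgroupOf C := by
    ext c
    rw [MonoidHom.mem_ker, Subgroup.mem_subgroupOf]
    exact hφk c
  -- `R` is normal
  have hRn : R.Normal := by
    have hp2 : IsPGroup 2 (R.subgroupOf C) := hR.of_injective (Subgroup.subgroupOfEquivOfLe hRC).toMonoidHom
      (Subgroup.subgroupOfEquivOfLe hRC).injective
    have hn2 : (R.subgroupOf C).Normal := by rw [← hker]; infer_instance
    have hcore : pCore 2 C = R.subgroupOf C := by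
      apply le_antisymm
      · intro c hc
        have h1 : φ c ∈ pCore 2 (alternatingGroup (Fin 6)) := Cores.map_pCore_le φ hφs ⟨c, hc, rfl⟩
        rw [pCore_bot np6, Subgroup.mem_bot, ← MonoidHom.mem_ker, hker] at h1
        exact h1
      · exact Cores.le_pCore hn2 hp2
    constructor
    intro r hr g
    let E : C ≃* C := MulAut.conjNormal g
    have h1 : (⟨r, hRC hr⟩ : C) ∈ pCore 2 C := by rw [hcore]; exact hr
    have h2 : E ⟨r, hRC hr⟩ ∈ pCore 2 C := by
      have h3 := Cores.map_pCore_equiv 2 E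
      rw [← h3]
      exact ⟨_, h1, rfl⟩
    rw [hcore, Subgroup.mem_subgroupOf] at h2
    exact h2
  let A : Subgroup (L ⧸ R) := C.map (QuotientGroup.mk' R)
  have hAn : A.Normal := hCn.map _ (QuotientGroup.mk'_surjective R)
  -- `A ≃* A₆`
  let ψ : C →* A := ((QuotientGroup.mk' R).comp C.subtype).codRestrict A (fun c => ⟨c, c.2, rfl⟩)
  have hψs : Function.Surjective ψ := by
    rintro ⟨_, c, hc, rfl⟩
    exact ⟨⟨c, hc⟩, rfl⟩
  have hψk : ψ.ker = φ.ker := by
    rw [hker]
    ext c
    rw [MonoidHom.mem_ker, Subgroup.mem_subgroupOf]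
    constructor
    · intro h
      exact (QuotientGroup.eq_one_iff (c : L)).1 (congrArg Subtype.val h)
    · intro h
      exact Subtype.ext ((QuotientGroup.eq_one_iff (c : L)).2 h)
  let e : A ≃* alternatingGroup (Fin 6) :=
    ((QuotientGroup.quotientKerEquivOfSurjective ψ hψs).symm.trans (QuotientGroup.quotientMulEquivOfEq hψk)).trans
      (QuotientGroup.quotientKerEquivOfSurjective φ hφs)
  let f : (L ⧸ R) ⧸ A ≃* Matrix.SpecialLinearGroup (Fin 3) (ZMod 2) :=
    (QuotientGroup.quotientQuotientEquivQuotient R C hRC).trans f3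
  obtain ⟨E⟩ := core A e f
  refine ⟨?_, hRn, ⟨E⟩⟩
  apply le_antisymm
  · intro x hx
    have h1 : QuotientGroup.mk' R x ∈ pCore 2 (L ⧸ R) := Cores.map_pCore_le (QuotientGroup.mk' R) (QuotientGroup.mk'_surjective R) ⟨x, hx, rfl⟩
    have h2 : E (QuotientGroup.mk' R x) ∈ pCore 2 (Matrix.SpecialLinearGroup (Fin 3) (ZMod 2) × alternatingGroup (Fin 6)) :=
      Cores.map_pCore_le E.toMonoidHom E.surjective ⟨_, h1, rfl⟩
    have h3 : (E (QuotientGroup.mk' R x)).1 = 1 := by
      have := Cores.map_pCore_le (MonoidHom.fst (Matrix.SpecialLinearGroup (Fin 3) (ZMod 2)) (alternatingGroup (Fin 6)))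
        Prod.fst_surjective ⟨_, h2, rfl⟩
      rw [pCore_bot np3, Subgroup.mem_bot] at this
      exact this
    have h4 : (E (QuotientGroup.mk' R x)).2 = 1 := by
      have := Cores.map_pCore_le (MonoidHom.snd (Matrix.SpecialLinearGroup (Fin 3) (ZMod 2)) (alternatingGroup (Fin 6)))
        Prod.snd_surjective ⟨_, h2, rfl⟩
      rw [pCore_bot np6, Subgroup.mem_bot] at this
      exact this
    have h5 : E (QuotientGroup.mk' R x) = 1 := Prod.ext h3 h4
    have h6 : QuotientGroup.mk' R x = 1 := E.injective (h5.trans (map_one E).symm)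
    exact (QuotientGroup.eq_one_iff x).1 h6
  · exact Cores.le_pCore hRn hR

end Cfsg.Agent.Lib.H97FeL5
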