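import Cfsg.Agent.Lib.H97Fe0
import Cfsg.Agent.Lib.AbAlt3
import Cfsg.Agent.Lib.CharSimple
import Cfsg.Agent.Lib.PCoreTools
import Cfsg.Agent.Lib.ClSeven

/-!
# S5445, piece FE-L5 (helper44, backup)
-/

set_option autoImplicit false
set_option linter.unusedVariables false

namespace Cfsg.Agent.Lib.H97FeL5b

open Cfsg Matrix MatrixGroups

abbrev S3 := Matrix.SpecialLinearGroup (Fin 3) (ZMod 2)
abbrev A6 := alternatingGroup (Fin 6)

theorem simple_gl : IsSimpleGroup (GL (Fin 3) (ZMod 2)) := by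
  have : IsSimpleGroup (ProjectiveSpecialLinearGroup (Fin 2) (ZMod 7)) :=
    Matrix.ProjectiveSpecialLinearGroup.rank_two_simple (by rw [Nat.card_eq_fintype_card, ZMod.card]; norm_num)
  have hb := ClSeven.bijective_of_simple ClSeven.pslHom _ ClSeven.pslHom_ne (by rw [ClSeven.card_psl27, ClSeven.card_gl32])
  exact (MulEquiv.ofBijective ClSeven.pslHom hb).symm.isSimpleGroup

theorem simple_sl : IsSimpleGroup S3 := by
  have := simple_gl
  have h2 : Function.Bijective (SpecialLinearGroup.toGL : S3 →* GL (Fin 3) (ZMod 2)) := by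
    rw [Nat.bijective_iff_injective_and_card]
    exact ⟨SpecialLinearGroup.toGL_injective, ClSeven.card_sl32.trans ClSeven.card_gl32.symm⟩
  exact (MulEquiv.ofBijective _ h2).isSimpleGroup

theorem card_A6 : Nat.card A6 = 360 := by
  have h := two_mul_card_alternatingGroup (α := Fin 6)
  rw [Fintype.card_perm, Fintype.card_fin, ← Nat.card_eq_fintype_card] at h
  have h1 : Nat.factorial 6 = 720 := rfl
  rw [h1] at h
  have h2 : 2 * Nat.card A6 = 720 := h
  omega

theorem three_dvd {X : Type*} [Group X] [Finite X] (h : 3 ∣ Nat.card X) : ¬ IsPGroup 2 X := by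
  intro h2
  obtain ⟨n, hn⟩ := (IsPGroup.iff_card (p := 2)).1 h2
  rw [hn] at h
  have := Nat.Prime.dvd_of_dvd_pow (by norm_num) h
  omega

/-- normal 2-subgroups of simple groups -/
theorem nop {X : Type*} [Group X] [Finite X] (hs : IsSimpleGroup X) (h : ¬ IsPGroup 2 X) (N : Subgroup X) [hN : N.Normal]
    (h2 : IsPGroup 2 N) : N = ⊥ := by
  rcases hN.eq_bot_or_eq_top with h' | h'
  · exact h'
  · exfalso
    apply h
    rw [h'] at h2
    exact h2.of_equiv Subgroup.topEquiv

theorem nop_map {Y X : Type*} [Group Y] [Group X] [Finite X] (hs : IsSimpleGroup X) (h : ¬ IsPGroup 2 X) (f : Y →* X)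
    (hf : Function.Surjective f) (N : Subgroup Y) [hN : N.Normal] (h2 : IsPGroup 2 N) : N ≤ f.ker := by
  have hn : (N.map f).Normal := hN.map f hf
  have h3 : IsPGroup 2 (N.map f) := h2.map f
  have h4 := nop hs h (N.map f) h3
  rwa [Subgroup.map_eq_bot_iff] at h4

theorem quot_prod {L : Type*} [Group L] [Finite L] (C R : Subgroup L) [hC : C.Normal] (hRC : R ≤ C) (hR : IsPGroup 2 R)
    (h6 : ∃ φ : C →* alternatingGroup (Fin 6), Function.Surjective φ ∧ ∀ c : C, φ c = 1 ↔ (c : L) ∈ R)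
    (h3 : Nonempty (L ⧸ C ≃* Matrix.SpecialLinearGroup (Fin 3) (ZMod 2))) :
    pCore 2 L = R ∧ ∃ _ : R.Normal, Nonempty (L ⧸ R ≃* Matrix.SpecialLinearGroup (Fin 3) (ZMod 2) × alternatingGroup (Fin 6)) := by
  classical
  obtain ⟨φ, hφs, hφ⟩ := h6
  obtain ⟨e3⟩ := h3
  have hf2 : Fact (Nat.Prime 2) := ⟨Nat.prime_two⟩
  have sA : IsSimpleGroup A6 := alternatingGroup.isSimpleGroup (by simp)
  have nA : ¬ IsPGroup 2 A6 := three_dvd (by rw [card_A6]; norm_num)
  have sS : IsSimpleGroup S3 := simple_sl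
  have nS : ¬ IsPGroup 2 S3 := three_dvd (by rw [ClSeven.card_sl32]; norm_num)
  have hRn : R.Normal := by
    constructor
    intro r hr g
    -- the conjugate of R inside C
    let N : Subgroup C := (R.map (MulAut.conj g).toMonoidHom).subgroupOf C
    have hmem : ∀ c : C, c ∈ N ↔ g⁻¹ * c * g ∈ R := fun c => by
      change (c : L) ∈ R.map (MulAut.conj g).toMonoidHom ↔ _
      constructor
      · rintro ⟨x, hx, hxc⟩
        have : g * x * g⁻¹ = c := hxc
        rw [← this]
        have e : g⁻¹ * (g * x * g⁻¹) * g = x := by group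
        rw [e]; exact hx
      · intro h
        refine ⟨_, h, ?_⟩
        change g * (g⁻¹ * c * g) * g⁻¹ = c
        group
    have hRC' : ∀ x ∈ C, ∀ y ∈ R, x * y * x⁻¹ ∈ R := fun x hx y hy => by
      have h1 : φ ⟨y, hRC hy⟩ = 1 := (hφ _).2 hy
      have h2 : φ (⟨x, hx⟩ * ⟨y, hRC hy⟩ * ⟨x, hx⟩⁻¹) = 1 := by
        rw [map_mul, map_mul, h1, mul_one, map_inv, mul_inv_cancel]
      exact (hφ _).1 h2
    have hNn : N.Normal := by
      constructor
      intro n hn c
      rw [hmem] at hn ⊢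
      have h1 : g⁻¹ * c * g ∈ C := by
        have := hC.conj_mem c c.2 g⁻¹
        rwa [inv_inv] at this
      have h2 := hRC' _ h1 _ hn
      have e : g⁻¹ * (c * n * c⁻¹ : C) * g = (g⁻¹ * c * g) * (g⁻¹ * n * g) * (g⁻¹ * c * g)⁻¹ := by
        push_cast; group
      rw [e]; exact h2
    have hN2 : IsPGroup 2 N := by
      rintro ⟨n, hn⟩
      have hn' := (hmem n).1 hn
      obtain ⟨k, hk⟩ := hR ⟨_, hn'⟩
      refine ⟨k, Subtype.ext (Subtype.ext ?_)⟩
      have h1 : (g⁻¹ * (n : L) * g) ^ 2 ^ k = 1 := congrArg Subtype.val hk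
      have h2 : (g⁻¹ * (n : L) * g) ^ 2 ^ k = g⁻¹ * (n : L) ^ 2 ^ k * g := by
        have := conj_pow (i := 2 ^ k) (a := g⁻¹) (b := (n : L))
        rwa [inv_inv] at this
      rw [h2] at h1
      change (n : L) ^ 2 ^ k = 1
      have h3 : (n : L) ^ 2 ^ k = g * (g⁻¹ * (n : L) ^ 2 ^ k * g) * g⁻¹ := by group
      rw [h3, h1]; group
    have hker := nop_map sA nA φ hφs N hN2
    have hgr : g * r * g⁻¹ ∈ C := hC.conj_mem r (hRC hr) g
    have h1 : (⟨g * r * g⁻¹, hgr⟩ : C) ∈ N := by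
      rw [hmem]
      change g⁻¹ * (g * r * g⁻¹) * g ∈ R
      have e : g⁻¹ * (g * r * g⁻¹) * g = r := by group
      rw [e]; exact hr
    exact (hφ _).1 (hker h1)
  -- the quotient
  let A : Subgroup (L ⧸ R) := C.map (QuotientGroup.mk' R)
  have hAn : A.Normal := hC.map _ (QuotientGroup.mk'_surjective R)
  let ψ : C →* L ⧸ R := (QuotientGroup.mk' R).comp C.subtype
  have hψA : ψ.range = A := by
    rw [MonoidHom.range_comp, C.range_subtype]
  have hker : φ.ker = ψ.ker := by
    ext c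
    rw [MonoidHom.mem_ker, MonoidHom.mem_ker, hφ]
    change _ ↔ QuotientGroup.mk' R (c : L) = 1
    rw [QuotientGroup.mk'_apply, QuotientGroup.eq_one_iff]
  have eA : A ≃* A6 := (MulEquiv.subgroupCongr hψA).symm.trans ((QuotientGroup.quotientKerEquivRange ψ).symm.trans
    ((QuotientGroup.quotientMulEquivOfEq hker.symm).trans (QuotientGroup.quotientKerEquivOfSurjective φ hφs)))
  have eQ : (L ⧸ R) ⧸ A ≃* S3 := (QuotientGroup.quotientQuotientEquivQuotient R C hRC).trans e3
  let K : Subgroup (L ⧸ R) := Subgroup.centralizer (A : Set (L ⧸ R))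
  have hKn : K.Normal := inferInstanceAs (Subgroup.centralizer (A : Set (L ⧸ R))).Normal
  have hKA : K ⊓ A = ⊥ := by
    rw [eq_bot_iff]
    rintro x ⟨hxK, hxA⟩
    have h1 : eA ⟨x, hxA⟩ ∈ Subgroup.center A6 := by
      rw [Subgroup.mem_center_iff]
      intro y
      obtain ⟨⟨a, ha⟩, rfl⟩ := eA.surjective y
      rw [← map_mul, ← map_mul]
      congr 1
      apply Subtype.ext
      exact Subgroup.mem_centralizer_iff.1 hxK a ha
    rw [alternatingGroup.center_eq_bot (by simp), Subgroup.mem_bot, EmbeddingLike.map_eq_one_iff] at h1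
    rw [Subgroup.mem_bot]
    exact congrArg Subtype.val h1
  have hKne : K ≠ ⊥ := by
    intro h0
    obtain ⟨a, ha⟩ := AbSec.Alt.exists_card A h0 eA
    have h1 := Subgroup.card_eq_card_quotient_mul_card_subgroup A
    rw [Nat.card_congr eQ.toEquiv, Nat.card_congr eA.toEquiv, card_A6, ClSeven.card_sl32, ha] at h1
    have h2 : 2 ^ a = 168 := by omega
    have h4 : 3 ∣ 2 ^ a := by rw [h2]; norm_num
    have := Nat.Prime.dvd_of_dvd_pow (by norm_num) h4
    omega
  have sQ : IsSimpleGroup ((L ⧸ R) ⧸ A) := eQ.isSimpleGroup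
  have hmapK : K.map (QuotientGroup.mk' A) = ⊤ := by
    have hn : (K.map (QuotientGroup.mk' A)).Normal := hKn.map _ (QuotientGroup.mk'_surjective A)
    rcases hn.eq_bot_or_eq_top with h | h
    · exfalso
      apply hKne
      rw [Subgroup.map_eq_bot_iff, QuotientGroup.ker_mk'] at h
      rw [← inf_eq_left.2 h, hKA]
    · exact h
  have hsup : K ⊔ A = ⊤ := by
    rw [eq_top_iff]
    intro x _
    have h1 : QuotientGroup.mk' A x ∈ K.map (QuotientGroup.mk' A) := by rw [hmapK]; trivial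
    obtain ⟨k, hk, hkx⟩ := h1
    have h2 : k⁻¹ * x ∈ A := QuotientGroup.eq.1 hkx
    have e : x = k * (k⁻¹ * x) := by group
    rw [e]
    exact Subgroup.mul_mem_sup hk h2
  have eK : K ≃* S3 := by
    refine (MulEquiv.ofBijective ((QuotientGroup.mk' A).comp K.subtype) ⟨?_, ?_⟩).trans eQ
    · rw [← MonoidHom.ker_eq_bot_iff, eq_bot_iff]
      rintro ⟨x, hx⟩ hx1
      have h1 : x ∈ A := (QuotientGroup.eq_one_iff x).1 hx1
      have h2 : x ∈ K ⊓ A := ⟨hx, h1⟩
      rw [hKA, Subgroup.mem_bot] at h2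
      rw [Subgroup.mem_bot]
      exact Subtype.ext h2
    · intro y
      have h1 : y ∈ K.map (QuotientGroup.mk' A) := by rw [hmapK]; trivial
      obtain ⟨k, hk, hky⟩ := h1
      exact ⟨⟨k, hk⟩, hky⟩
  obtain ⟨ep⟩ := CharSimple.sup_equiv_prod hKn hAn (disjoint_iff.2 hKA)
  have E : L ⧸ R ≃* S3 × A6 := ((Subgroup.topEquiv.symm.trans (MulEquiv.subgroupCongr hsup.symm)).trans ep).trans
    (MulEquiv.prodCongr eK eA)
  refine ⟨le_antisymm ?_ (PCoreTools.le_pCore hRn hR), hRn, ⟨E⟩⟩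
  have hP : IsPGroup 2 (pCore 2 L) := PCoreTools.isPGroup_pCore 2
  have hPn : (pCore 2 L).Normal := PCoreTools.pCore_normal' 2 L
  let F : L →* S3 × A6 := E.toMonoidHom.comp (QuotientGroup.mk' R)
  have hF : Function.Surjective F := E.surjective.comp (QuotientGroup.mk'_surjective R)
  have h1 := nop_map sS nS ((MonoidHom.fst S3 A6).comp F) (Prod.fst_surjective.comp hF) (pCore 2 L) hP
  have h2 := nop_map sA nA ((MonoidHom.snd S3 A6).comp F) (Prod.snd_surjective.comp hF) (pCore 2 L) hP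
  intro x hx
  have h3 : F x = 1 := Prod.ext (h1 hx) (h2 hx)
  have h4 : E (QuotientGroup.mk' R x) = 1 := h3
  rw [EmbeddingLike.map_eq_one_iff] at h4
  exact (QuotientGroup.eq_one_iff x).1 h4

end Cfsg.Agent.Lib.H97FeL5b
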