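import Cfsg.Agent.Lib.AbAlt3
import Cfsg.Agent.Lib.ClSLn
import Cfsg.Prelude.Def_Solvable

set_option autoImplicit false

namespace Cfsg.Agent.Lib.H97FeL5x

open Cfsg Subgroup

abbrev S3' := Matrix.SpecialLinearGroup (Fin 3) (ZMod 2)

theorem card168 : Nat.card S3' = 168 := by
  have h := ClSLn.card_SL_formula (F := ZMod 2) (q := 2) (ZMod.card 2) 3 (by norm_num)
  simp [Finset.prod_range_succ, -Nat.card_eq_fintype_card] at h
  omega

theorem simple168 : IsSimpleGroup S3' := by
  have h1 : IsSimpleGroup (Matrix.ProjectiveSpecialLinearGroup (Fin 3) (ZMod 2)) :=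
    ClSLn.isSimpleGroup_PSL (by norm_num) (by norm_num)
  have hc : center S3' = ⊥ := by
    rw [eq_bot_iff]
    intro A hA
    obtain ⟨r, hr, hA'⟩ := Matrix.SpecialLinearGroup.mem_center_iff.1 hA
    have hr1 : r = 1 := by
      have h3 : r ^ 3 = 1 := by simpa using hr
      have key : ∀ r : ZMod 2, r ^ 3 = 1 → r = 1 := by decide
      exact key r h3
    rw [mem_bot]
    apply Subtype.ext
    rw [← hA', hr1, map_one]; rfl
  have e : S3' ≃* Matrix.ProjectiveSpecialLinearGroup (Fin 3) (ZMod 2) :=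
    (QuotientGroup.quotientBot (G := S3')).symm.trans (QuotientGroup.quotientMulEquivOfEq hc.symm)
  have h2 : Nontrivial (Matrix.ProjectiveSpecialLinearGroup (Fin 3) (ZMod 2)) := h1.toNontrivial
  have h3 : Nontrivial S3' := e.toEquiv.nontrivial
  exact IsSimpleGroup.isSimpleGroup_of_surjective e.symm.toMonoidHom e.symm.surjective

theorem simple6 : IsSimpleGroup (alternatingGroup (Fin 6)) := alternatingGroup.isSimpleGroup (by simp)

theorem card360 : Nat.card (alternatingGroup (Fin 6)) = 360 := by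
  rw [nat_card_alternatingGroup]
  simp [Nat.factorial]

theorem no2 {K : Type*} [Group K] [Finite K] (hK : IsSimpleGroup K) {m : ℕ} (hm : Nat.card K = m) (h3 : 3 ∣ m)
    (N : Subgroup K) [hN : N.Normal] (hp : IsPGroup 2 N) : N = ⊥ := by
  rcases hN.eq_bot_or_eq_top with h | h
  · exact h
  · exfalso
    haveI : Fact (Nat.Prime 2) := ⟨Nat.prime_two⟩
    obtain ⟨n, hn⟩ := hp.exists_card_eq
    rw [h, card_top, hm] at hn
    rw [hn] at h3
    have := Nat.prime_three.dvd_of_dvd_pow h3
    omega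

section
variable {B : Type*} [Group B] [Finite B] (A : Subgroup B) [hA : A.Normal] (eA : A ≃* alternatingGroup (Fin 6))
  (e3 : B ⧸ A ≃* S3')

theorem simple_of_equiv {K K' : Type*} [Group K] [Group K'] (h : IsSimpleGroup K') (e : K ≃* K') : IsSimpleGroup K := by
  have h2 : Nontrivial K' := h.toNontrivial
  have h3 : Nontrivial K := e.toEquiv.nontrivial
  exact IsSimpleGroup.isSimpleGroup_of_surjective e.symm.toMonoidHom e.symm.surjective

include eA in
theorem inf_bot : centralizer (A : Set B) ⊓ A = ⊥ := by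
  have hs := simple_of_equiv simple6 eA
  have hcA : Nat.card A = 360 := by rw [Nat.card_congr eA.toEquiv, card360]
  have hcen : center A = ⊥ := by
    rcases (inferInstance : (center A).Normal).eq_bot_or_eq_top with h | h
    · exact h
    · exfalso
      have hcomm : ∀ a b : A, a * b = b * a := by
        intro a b
        have : a ∈ center A := by rw [h]; trivial
        exact (mem_center_iff.1 this b).symm
      let _ : CommGroup A := { (inferInstance : Group A) with mul_comm := hcomm }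
      have hp := IsSimpleGroup.prime_card (α := A)
      rw [hcA] at hp
      revert hp; norm_num
  rw [eq_bot_iff]
  rintro x ⟨hx, hxA⟩
  have : (⟨x, hxA⟩ : A) ∈ center A := by
    rw [mem_center_iff]
    intro y
    exact Subtype.ext ((mem_centralizer_iff.1 hx) y y.2)
  rw [hcen, mem_bot] at this
  exact congrArg Subtype.val this

include eA e3 in
theorem core_bot (P : Subgroup B) [hP : P.Normal] (hp : IsPGroup 2 P) : P = ⊥ := by
  have hsA := simple_of_equiv simple6 eA
  have hsQ := simple_of_equiv simple168 e3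
  have h1 : P.subgroupOf A = ⊥ := by
    haveI : (P.subgroupOf A).Normal := inferInstance
    exact no2 hsA (m := 360) (by rw [Nat.card_congr eA.toEquiv, card360]) (by norm_num) _
      (hp.comap_subtype)
  have h1' : P ⊓ A = ⊥ := by
    rw [eq_bot_iff]
    rintro x ⟨hx, hxA⟩
    have : (⟨x, hxA⟩ : A) ∈ P.subgroupOf A := hx
    rw [h1, mem_bot] at this
    exact congrArg Subtype.val this
  have h2 : P.map (QuotientGroup.mk' A) = ⊥ := by
    haveI : (P.map (QuotientGroup.mk' A)).Normal := hP.map _ (QuotientGroup.mk'_surjective A)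
    exact no2 hsQ (m := 168) (by rw [Nat.card_congr e3.toEquiv, card168]) (by norm_num) _ (hp.map _)
  have h3 : P ≤ A := by
    rw [Subgroup.map_eq_bot_iff, QuotientGroup.ker_mk'] at h2
    exact h2
  rw [← h1']
  exact (inf_eq_left.2 h3).symm

include eA e3 in
theorem split : Nonempty (B ≃* S3' × alternatingGroup (Fin 6)) := by
  have hsQ := simple_of_equiv simple168 e3
  have hcA : Nat.card A = 360 := by rw [Nat.card_congr eA.toEquiv, card360]
  have hcQ : Nat.card (B ⧸ A) = 168 := by rw [Nat.card_congr e3.toEquiv, card168]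
  have hcB : Nat.card B = 168 * 360 := by
    rw [Subgroup.card_eq_card_quotient_mul_card_subgroup A, hcQ, hcA]
  set D := centralizer (A : Set B) with hD
  have hi : D ⊓ A = ⊥ := inf_bot A eA
  haveI hDn : D.Normal := inferInstance
  have hmap : (D.map (QuotientGroup.mk' A)).Normal := hDn.map _ (QuotientGroup.mk'_surjective A)
  have htop : D.map (QuotientGroup.mk' A) = ⊤ := by
    rcases hmap.eq_bot_or_eq_top with h | h
    · exfalso
      rw [Subgroup.map_eq_bot_iff, QuotientGroup.ker_mk'] at h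
      have hD0 : D = ⊥ := by rw [← hi]; exact (inf_eq_left.2 h).symm
      obtain ⟨a, ha⟩ := AbSec.Alt.exists_card A hD0 eA
      rw [hcB] at ha
      have h168 : 168 = 2 ^ a := by
        have : 360 * 168 = 360 * 2 ^ a := by rw [← ha]
        exact Nat.eq_of_mul_eq_mul_left (by norm_num) this
      have h3 : 3 ∣ 2 ^ a := by rw [← h168]; norm_num
      have := Nat.prime_three.dvd_of_dvd_pow h3
      omega
    · exact h
  let ψ : D →* B ⧸ A := (QuotientGroup.mk' A).comp D.subtype
  have hψs : Function.Surjective ψ := by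
    intro y
    have : y ∈ D.map (QuotientGroup.mk' A) := by rw [htop]; trivial
    obtain ⟨d, hd, rfl⟩ := this
    exact ⟨⟨d, hd⟩, rfl⟩
  have hψi : Function.Injective ψ := by
    rw [← MonoidHom.ker_eq_bot_iff, eq_bot_iff]
    intro d hd
    have h1 : (d : B) ∈ A := (QuotientGroup.eq_one_iff _).1 hd
    have h2 : (d : B) ∈ D ⊓ A := ⟨d.2, h1⟩
    rw [hi, mem_bot] at h2
    exact Subtype.ext h2
  let eD : D ≃* S3' := (MulEquiv.ofBijective ψ ⟨hψi, hψs⟩).trans e3
  have hcD : Nat.card D = 168 := by rw [Nat.card_congr eD.toEquiv, card168]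
  let f : D × A →* B := MonoidHom.noncommCoprod D.subtype A.subtype
    (fun d a => ((mem_centralizer_iff.1 d.2) a a.2).symm)
  have hfi : Function.Injective f := by
    rw [← MonoidHom.ker_eq_bot_iff, eq_bot_iff]
    rintro ⟨d, a⟩ h
    have h1 : (d : B) * a = 1 := h
    have h2 : (d : B) = ((a⁻¹ : A) : B) := by rw [Subgroup.coe_inv]; exact eq_inv_of_mul_eq_one_left h1
    have h3 : (d : B) ∈ D ⊓ A := ⟨d.2, by rw [h2]; exact (a⁻¹).2⟩
    rw [hi, mem_bot] at h3
    have h4 : (a : B) = 1 := by rw [h3, one_mul] at h1; exact h1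
    rw [mem_bot]
    exact Prod.ext (Subtype.ext h3) (Subtype.ext h4)
  have hfb : Function.Bijective f := by
    rw [Nat.bijective_iff_injective_and_card]
    exact ⟨hfi, by rw [Nat.card_prod, hcD, hcA, hcB]⟩
  exact ⟨(MulEquiv.ofBijective f hfb).symm.trans (MulEquiv.prodCongr eD eA)⟩
end

theorem quot_prod {L : Type*} [Group L] [Finite L] (C R : Subgroup L) [C.Normal] (hRC : R ≤ C) (hR : IsPGroup 2 R)
    (h6 : ∃ φ : C →* alternatingGroup (Fin 6), Function.Surjective φ ∧ ∀ c : C, φ c = 1 ↔ (c : L) ∈ R)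
    (h3 : Nonempty (L ⧸ C ≃* Matrix.SpecialLinearGroup (Fin 3) (ZMod 2))) :
    pCore 2 L = R ∧ ∃ _ : R.Normal, Nonempty (L ⧸ R ≃* Matrix.SpecialLinearGroup (Fin 3) (ZMod 2) × alternatingGroup (Fin 6)) := by
  obtain ⟨φ, hφs, hφ⟩ := h6
  obtain ⟨e3⟩ := h3
  have hCn : C.Normal := inferInstance
  have hRn : R.Normal := by
    refine ⟨fun r hr g => ?_⟩
    let P : Subgroup L := R.map (MulAut.conj g).toMonoidHom
    have hPC : P ≤ C := by
      rintro _ ⟨x, hx, rfl⟩
      exact hCn.conj_mem x (hRC hx) g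
    have hPn : (P.subgroupOf C).Normal := by
      refine ⟨fun x hx c => ?_⟩
      rw [mem_subgroupOf] at hx ⊢
      obtain ⟨y, hy, hyx⟩ := hx
      have hyx' : g * y * g⁻¹ = (x : L) := hyx
      have hc' : g⁻¹ * (c : L) * g ∈ C := by
        have := hCn.conj_mem (c : L) c.2 g⁻¹
        rwa [inv_inv] at this
      refine ⟨(g⁻¹ * c * g) * y * (g⁻¹ * c * g)⁻¹, ?_, ?_⟩
      · have h1 := (hφ (⟨g⁻¹ * c * g, hc'⟩ * ⟨y, hRC hy⟩ * (⟨g⁻¹ * c * g, hc'⟩)⁻¹)).1 (by
          rw [map_mul, map_mul, (hφ ⟨y, hRC hy⟩).2 hy, mul_one, map_inv, mul_inv_cancel])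
        exact h1
      · change g * ((g⁻¹ * c * g) * y * (g⁻¹ * c * g)⁻¹) * g⁻¹ = (c : L) * x * (c : L)⁻¹
        rw [← hyx']; group
    have h1 : (P.subgroupOf C).map φ = ⊥ := by
      haveI : ((P.subgroupOf C).map φ).Normal := hPn.map _ hφs
      exact no2 simple6 card360 (by norm_num) _ (IsPGroup.map (IsPGroup.comap_subtype (hR.map _)) _)
    have h2 : (⟨g * r * g⁻¹, hPC ⟨r, hr, rfl⟩⟩ : C) ∈ P.subgroupOf C := ⟨r, hr, rfl⟩
    have h3 : φ ⟨g * r * g⁻¹, hPC ⟨r, hr, rfl⟩⟩ ∈ (P.subgroupOf C).map φ := ⟨_, h2, rfl⟩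
    rw [h1, mem_bot] at h3
    exact (hφ _).1 h3
  -- the quotient
  let A : Subgroup (L ⧸ R) := C.map (QuotientGroup.mk' R)
  haveI hAn : A.Normal := hCn.map _ (QuotientGroup.mk'_surjective R)
  have hker : ∀ x : C, φ x = 1 ↔ (QuotientGroup.mk' R) (x : L) = 1 := by
    intro x
    rw [hφ]; exact (QuotientGroup.eq_one_iff _).symm
  let g : C →* A := ((QuotientGroup.mk' R).comp C.subtype).codRestrict A (fun x => ⟨x, x.2, rfl⟩)
  have hgs : Function.Surjective g := by
    rintro ⟨_, x, hx, rfl⟩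
    exact ⟨⟨x, hx⟩, rfl⟩
  have hgk : g.ker = φ.ker := by
    ext x
    rw [MonoidHom.mem_ker, MonoidHom.mem_ker, hker, Subtype.ext_iff]; rfl
  let eA : A ≃* alternatingGroup (Fin 6) :=
    ((QuotientGroup.quotientKerEquivOfSurjective g hgs).symm.trans (QuotientGroup.quotientMulEquivOfEq hgk)).trans
      (QuotientGroup.quotientKerEquivOfSurjective φ hφs)
  let e3' : (L ⧸ R) ⧸ A ≃* S3' := (QuotientGroup.quotientQuotientEquivQuotient R C hRC).trans e3
  refine ⟨le_antisymm ?_ ?_, hRn, split A eA e3'⟩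
  · refine sSup_le ?_
    rintro N ⟨hN, hp⟩
    haveI : (N.map (QuotientGroup.mk' R)).Normal := hN.map _ (QuotientGroup.mk'_surjective R)
    have h1 := core_bot A eA e3' (N.map (QuotientGroup.mk' R)) (hp.map _)
    rw [Subgroup.map_eq_bot_iff, QuotientGroup.ker_mk'] at h1
    exact h1
  · exact le_sSup ⟨hRn, hR⟩

end Cfsg.Agent.Lib.H97FeL5x
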