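import Mathlib
import Cfsg.Agent.Lib.H97Fe0

/-! S5445, piece FE-L6 -/

set_option autoImplicit false
set_option linter.all false
open Cfsg Cfsg.Agent.Lib.H97Fe0

namespace Cfsg.Agent.Lib.H97FeL6

theorem card_prod {G : Type*} [Group G] [Finite G] (A B R : Subgroup G)
    (hR : ∀ c, c ∈ R ↔ ∃ a ∈ A, ∃ b ∈ B, c = a * b) :
    Nat.card ↥(A ⊓ B) * Nat.card R = Nat.card A * Nat.card B := by
  classical
  choose α hα β hβ hαβ using fun r : R => (hR r).1 r.2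
  rw [← Nat.card_prod, ← Nat.card_prod]
  refine Nat.card_congr (Equiv.ofBijective
    (fun p : ↥(A ⊓ B) × R => ((⟨α p.2 * p.1, mul_mem (hα _) (Subgroup.mem_inf.1 p.1.2).1⟩ : A),
      (⟨(p.1 : G)⁻¹ * β p.2, mul_mem (inv_mem (Subgroup.mem_inf.1 p.1.2).2) (hβ _)⟩ : B))) ⟨?_, ?_⟩)
  · rintro ⟨e, r⟩ ⟨e', r'⟩ h
    have h1 : α r * e = α r' * e' := congrArg (fun q => ((q.1 : A) : G)) h
    have h2 : (e : G)⁻¹ * β r = (e' : G)⁻¹ * β r' := congrArg (fun q => ((q.2 : B) : G)) h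
    have h3 : (r : G) = r' := by
      rw [hαβ r, hαβ r']
      calc α r * β r = (α r * e) * ((e : G)⁻¹ * β r) := by group
        _ = (α r' * e') * ((e' : G)⁻¹ * β r') := by rw [h1, h2]
        _ = α r' * β r' := by group
    have h4 : r = r' := Subtype.ext h3
    subst h4
    have h5 : (e : G) = e' := mul_left_cancel h1
    rw [Subtype.ext h5]
  · rintro ⟨a, b⟩
    have hr : (a : G) * b ∈ R := (hR _).2 ⟨a, a.2, b, b.2, rfl⟩
    have h1 : (a : G) * b = α ⟨_, hr⟩ * β ⟨_, hr⟩ := hαβ ⟨_, hr⟩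
    have h2 : (α ⟨_, hr⟩)⁻¹ * (a : G) = β ⟨_, hr⟩ * (b : G)⁻¹ := by
      calc (α ⟨_, hr⟩)⁻¹ * (a : G) = (α ⟨_, hr⟩)⁻¹ * ((a : G) * b) * (b : G)⁻¹ := by group
        _ = (α ⟨_, hr⟩)⁻¹ * (α ⟨_, hr⟩ * β ⟨_, hr⟩) * (b : G)⁻¹ := by rw [← h1]
        _ = β ⟨_, hr⟩ * (b : G)⁻¹ := by group
    have he : (α ⟨_, hr⟩)⁻¹ * (a : G) ∈ A ⊓ B := by
      refine Subgroup.mem_inf.2 ⟨mul_mem (inv_mem (hα _)) a.2, ?_⟩
      rw [h2]
      exact mul_mem (hβ _) (inv_mem b.2)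
    refine ⟨(⟨_, he⟩, ⟨_, hr⟩), ?_⟩
    apply Prod.ext
    · apply Subtype.ext
      show α ⟨_, hr⟩ * ((α ⟨_, hr⟩)⁻¹ * (a : G)) = a
      group
    · apply Subtype.ext
      show ((α ⟨_, hr⟩)⁻¹ * (a : G))⁻¹ * β ⟨_, hr⟩ = b
      rw [h2]
      group

theorem R_facts_of {G : Type*} [Group G] [Finite G] {z s y : G} {Q Q₁ : Subgroup G} (L : Loc z s y Q Q₁) (C : Subgroup G)
    (hC : C = Subgroup.centralizer ({z, s, y} : Set G))
    (hV8 : Nat.card (Subgroup.closure ({z, s, y} : Set G)) = 8) :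
    ∃ R : Subgroup G, (∀ c, c ∈ R ↔ ∃ a ∈ Q ⊓ C, ∃ b ∈ Q₁ ⊓ C, c = a * b) ∧ IsPGroup 2 R ∧ Nat.card R = 2 ^ 15 ∧ R ≤ C ∧
      Nat.card ↥(Q ⊓ C) = 2 ^ 11 ∧ Nat.card ↥(Q₁ ⊓ C) = 2 ^ 11 ∧
      (∀ c ∈ C, c ∈ R ↔ ∃ a ∈ Q, ∃ b ∈ Q₁, b * z = z * b ∧ c = a * b) := by
  have hCV : Subgroup.centralizer ((Subgroup.closure ({z, s, y} : Set G) : Subgroup G) : Set G) = C := by
    rw [hC, Subgroup.centralizer_closure]
  have hCm : ∀ c, c ∈ C ↔ c * z = z * c ∧ c * s = s * c ∧ c * y = y * c := by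
    intro c
    rw [hC, Subgroup.mem_centralizer_iff]
    constructor
    · intro h
      exact ⟨(h z (by simp)).symm, (h s (by simp)).symm, (h y (by simp)).symm⟩
    · rintro ⟨h1, h2, h3⟩ x hx
      rcases hx with rfl | rfl | rfl
      · exact h1.symm
      · exact h2.symm
      · exact h3.symm
  have hVQ : Subgroup.closure ({z, s, y} : Set G) ≤ Q := by
    rw [Subgroup.closure_le]
    rintro x (rfl | rfl | rfl)
    · exact L.e0.zQ
    · exact L.sQ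
    · exact L.yQ
  have hVQ1 : Subgroup.closure ({z, s, y} : Set G) ≤ Q₁ := by
    rw [Subgroup.closure_le]
    rintro x (rfl | rfl | rfl)
    · exact L.zQ₁
    · exact L.e1.zQ
    · exact L.yQ₁
  have hQC : Nat.card ↥(Q ⊓ C) = 2 ^ 11 := by
    have h := L.e0.dual _ hVQ (Subgroup.subset_closure (by simp))
    rw [hCV, hV8] at h
    omega
  have hQ1C : Nat.card ↥(Q₁ ⊓ C) = 2 ^ 11 := by
    have h := L.e1.dual _ hVQ1 (Subgroup.subset_closure (by simp))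
    rw [hCV, hV8] at h
    omega
  have hconj : ∀ c ∈ C, ∀ a ∈ Q ⊓ C, c * a * c⁻¹ ∈ Q ⊓ C := by
    intro c hc a ha
    have ha' := Subgroup.mem_inf.1 ha
    exact Subgroup.mem_inf.2 ⟨L.n0 c ((hCm c).1 hc).1 a ha'.1, mul_mem (mul_mem hc ha'.2) (inv_mem hc)⟩
  let R : Subgroup G :=
    { carrier := {c | ∃ a ∈ Q ⊓ C, ∃ b ∈ Q₁ ⊓ C, c = a * b}
      mul_mem' := by
        rintro _ _ ⟨a, ha, b, hb, rfl⟩ ⟨a', ha', b', hb', rfl⟩
        have hbC := (Subgroup.mem_inf.1 hb).2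
        exact ⟨a * (b * a' * b⁻¹), mul_mem ha (hconj b hbC a' ha'), b * b', mul_mem hb hb', by group⟩
      one_mem' := ⟨1, one_mem _, 1, one_mem _, by simp⟩
      inv_mem' := by
        rintro _ ⟨a, ha, b, hb, rfl⟩
        have hbC := (Subgroup.mem_inf.1 hb).2
        have h1 := hconj b⁻¹ (inv_mem hbC) a⁻¹ (inv_mem ha)
        exact ⟨b⁻¹ * a⁻¹ * b⁻¹⁻¹, h1, b⁻¹, inv_mem hb, by group⟩ }
  have hR : ∀ c, c ∈ R ↔ ∃ a ∈ Q ⊓ C, ∃ b ∈ Q₁ ⊓ C, c = a * b := fun c => Iff.rfl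
  have hinf : (Q ⊓ C) ⊓ (Q₁ ⊓ C) = Q ⊓ Q₁ := by
    ext x
    simp only [Subgroup.mem_inf]
    constructor
    · rintro ⟨⟨h1, -⟩, h2, -⟩
      exact ⟨h1, h2⟩
    · rintro ⟨h1, h2⟩
      have hxC : x ∈ C := (hCm x).2 ⟨L.abE x h1 h2 z L.e0.zQ L.zQ₁, L.abE x h1 h2 s L.sQ L.e1.zQ,
        L.abE x h1 h2 y L.yQ L.yQ₁⟩
      exact ⟨⟨h1, hxC⟩, h2, hxC⟩
  have hcard : Nat.card R = 2 ^ 15 := by
    have h := card_prod (Q ⊓ C) (Q₁ ⊓ C) R hR
    rw [hinf, L.cE, hQC, hQ1C] at h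
    omega
  have hRC : R ≤ C := by
    rintro _ ⟨a, ha, b, hb, rfl⟩
    exact mul_mem (Subgroup.mem_inf.1 ha).2 (Subgroup.mem_inf.1 hb).2
  refine ⟨R, hR, IsPGroup.of_card hcard, hcard, hRC, hQC, hQ1C, fun c hc => ?_⟩
  constructor
  · rintro ⟨a, ha, b, hb, rfl⟩
    have hb' := Subgroup.mem_inf.1 hb
    exact ⟨a, (Subgroup.mem_inf.1 ha).1, b, hb'.1, ((hCm b).1 hb'.2).1, rfl⟩
  · rintro ⟨a, ha, b, hb, hbz, rfl⟩
    have hc' := (hCm _).1 hc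
    have hbs : b * s = s * b := L.e1.cen b hb
    have hcy : a * b * y = y * (a * b) := hc'.2.2
    have e1 : b * y * b⁻¹ = a⁻¹ * y * a := by
      calc b * y * b⁻¹ = a⁻¹ * (a * b * y) * b⁻¹ := by group
        _ = a⁻¹ * (y * (a * b)) * b⁻¹ := by rw [hcy]
        _ = a⁻¹ * y * a := by group
    have hby : b * y = y * b := by
      rcases L.e1.comm b hb y L.yQ₁ with h | h
      · calc b * y = (b * y * b⁻¹ * y⁻¹) * y * b := by group
          _ = y * b := by rw [h, one_mul]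
      · exfalso
        have h1 : b * y * b⁻¹ = s * y := by
          calc b * y * b⁻¹ = (b * y * b⁻¹ * y⁻¹) * y := by group
            _ = s * y := by rw [h]
        rcases L.e0.comm a⁻¹ (inv_mem ha) y L.yQ with h' | h'
        · have h2 : a⁻¹ * y * a = y := by
            calc a⁻¹ * y * a = (a⁻¹ * y * a⁻¹⁻¹ * y⁻¹) * y := by group
              _ = y := by rw [h', one_mul]
          rw [h1, h2] at e1
          exact L.e1.z1 (mul_eq_right.1 e1)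
        · have h2 : a⁻¹ * y * a = z * y := by
            calc a⁻¹ * y * a = (a⁻¹ * y * a⁻¹⁻¹ * y⁻¹) * y := by group
              _ = z * y := by rw [h']
          rw [h1, h2] at e1
          exact L.sz (mul_right_cancel e1)
    have hbC : b ∈ C := (hCm b).2 ⟨hbz, hbs, hby⟩
    have haC : a ∈ C := by
      have := mul_mem hc (inv_mem hbC)
      rwa [mul_inv_cancel_right] at this
    exact ⟨a, Subgroup.mem_inf.2 ⟨ha, haC⟩, b, Subgroup.mem_inf.2 ⟨hb, hbC⟩, rfl⟩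

end Cfsg.Agent.Lib.H97FeL6
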