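import Cfsg.Agent.Lib.H97Fe0

/-!
S5445, piece FE-L7: the centre of `R` (helper18).
-/

set_option autoImplicit false
open Cfsg Cfsg.Agent.Lib.H97Fe0

namespace Cfsg.Agent.Lib.H97FeL7

-- FE-L7 : the centre of R
theorem R_center {G : Type*} [Group G] [Finite G] {z s y : G} {Q Q₁ : Subgroup G} (L : Loc z s y Q Q₁) (C R : Subgroup G)
    (hC : C = Subgroup.centralizer ({z, s, y} : Set G)) (hR : ∀ c, c ∈ R ↔ ∃ a ∈ Q ⊓ C, ∃ b ∈ Q₁ ⊓ C, c = a * b)
    (c : G) (hc : c ∈ R) (hcc : ∀ d ∈ R, c * d = d * c) : c ∈ Subgroup.closure ({z, s, y} : Set G) := by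
  have mC : ∀ d, d ∈ C ↔ d * z = z * d ∧ d * s = s * d ∧ d * y = y * d := by
    intro d
    rw [hC, Subgroup.mem_centralizer_iff]
    constructor
    · intro h
      exact ⟨(h z (by simp)).symm, (h s (by simp)).symm, (h y (by simp)).symm⟩
    · rintro ⟨h1, h2, h3⟩ w hw
      simp only [Set.mem_insert_iff, Set.mem_singleton_iff] at hw
      rcases hw with rfl | rfl | rfl
      · exact h1.symm
      · exact h2.symm
      · exact h3.symm
  have hEC : ∀ e ∈ Q, e ∈ Q₁ → e ∈ C := fun e h1 h2 =>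
    (mC e).mpr ⟨L.e0.cen e h1, L.e1.cen e h2, L.abE e h1 h2 y L.yQ L.yQ₁⟩
  have hdR : ∀ d ∈ Q, d ∈ C → d ∈ R := fun d h1 h2 =>
    (hR d).mpr ⟨d, ⟨h1, h2⟩, 1, one_mem _, (mul_one d).symm⟩
  obtain ⟨a, ha, b, hb, rfl⟩ := (hR c).mp hc
  have has : a * s = s * a := ((mC a).mp ha.2).2.1
  have hbE : ∀ e ∈ Q, e ∈ Q₁ → e * b = b * e := by
    intro e he he1
    have h1 : a * b * e = e * (a * b) := hcc e (hdR e he (hEC e he he1))
    rcases L.e1.comm b hb.1 e he1 with h2 | h2
    · rw [mul_inv_eq_one, mul_inv_eq_iff_eq_mul] at h2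
      exact h2.symm
    · exfalso
      rw [mul_inv_eq_iff_eq_mul, mul_inv_eq_iff_eq_mul] at h2
      -- h2 : b * e = s * e * b
      have h4 : s * (a * e) = e * a := by
        have h5 : s * (a * e) * b = e * a * b := by
          calc s * (a * e) * b = (s * a) * e * b := by group
            _ = (a * s) * e * b := by rw [has]
            _ = a * (s * e * b) := by group
            _ = a * (b * e) := by rw [h2]
            _ = a * b * e := by group
            _ = e * (a * b) := h1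
            _ = e * a * b := by group
        exact mul_right_cancel h5
      rcases L.e0.comm a ha.1 e he with h3 | h3
      · rw [mul_inv_eq_one, mul_inv_eq_iff_eq_mul] at h3
        rw [h3] at h4
        exact L.e1.z1 (mul_eq_right.mp h4)
      · rw [mul_inv_eq_iff_eq_mul, mul_inv_eq_iff_eq_mul] at h3
        rw [h3] at h4
        have h5 : s * z = 1 := by
          have h6 : (s * z) * (e * a) = e * a := by
            calc (s * z) * (e * a) = s * (z * e * a) := by group
              _ = e * a := h4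
          exact mul_eq_right.mp h6
        have h6 : s = z := by
          have h7 : s * z = z * z := by rw [h5, L.e0.zz]
          exact mul_right_cancel h7
        exact L.sz h6
  -- b lies in E
  have hd1 := L.e1.dual (Q ⊓ Q₁) inf_le_right ⟨L.sQ, L.e1.zQ⟩
  rw [L.cE] at hd1
  have hle : Q ⊓ Q₁ ≤ Q₁ ⊓ Subgroup.centralizer ((Q ⊓ Q₁ : Subgroup G) : Set G) := by
    intro e he
    refine ⟨he.2, Subgroup.mem_centralizer_iff.mpr fun f hf => ?_⟩
    exact L.abE f hf.1 hf.2 e he.1 he.2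
  have heq : Q ⊓ Q₁ = Q₁ ⊓ Subgroup.centralizer ((Q ⊓ Q₁ : Subgroup G) : Set G) := by
    apply Subgroup.eq_of_le_of_card_ge hle
    rw [L.cE]
    have h1 : Nat.card ↥(Q₁ ⊓ Subgroup.centralizer ((Q ⊓ Q₁ : Subgroup G) : Set G)) * 2 ^ 7 = 2 ^ 7 * 2 ^ 7 := by
      rw [hd1]; norm_num
    exact (Nat.eq_of_mul_eq_mul_right (by norm_num) h1).le
  have hbQ : b ∈ Q ⊓ Q₁ := by
    rw [heq]
    exact ⟨hb.1, Subgroup.mem_centralizer_iff.mpr fun e he => hbE e he.1 he.2⟩
  have hcQ : a * b ∈ Q := Q.mul_mem ha.1 hbQ.1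
  -- the dual of the dual
  have hVQ : Subgroup.closure ({z, s, y} : Set G) ≤ Q := by
    rw [Subgroup.closure_le]
    intro w hw
    simp only [Set.mem_insert_iff, Set.mem_singleton_iff] at hw
    rcases hw with rfl | rfl | rfl
    · exact L.e0.zQ
    · exact L.sQ
    · exact L.yQ
  have hzV : z ∈ Subgroup.closure ({z, s, y} : Set G) := Subgroup.subset_closure (by simp)
  have hsV : s ∈ Subgroup.closure ({z, s, y} : Set G) := Subgroup.subset_closure (by simp)
  have hyV : y ∈ Subgroup.closure ({z, s, y} : Set G) := Subgroup.subset_closure (by simp)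
  have d1 := L.e0.dual _ hVQ hzV
  have hB : ∀ d ∈ Q ⊓ Subgroup.centralizer ((Subgroup.closure ({z, s, y} : Set G) : Subgroup G) : Set G), d ∈ R := by
    intro d hd
    have h1 := Subgroup.mem_centralizer_iff.mp hd.2
    exact hdR d hd.1 ((mC d).mpr ⟨(h1 z hzV).symm, (h1 s hsV).symm, (h1 y hyV).symm⟩)
  have hzB : z ∈ Q ⊓ Subgroup.centralizer ((Subgroup.closure ({z, s, y} : Set G) : Subgroup G) : Set G) :=
    ⟨L.e0.zQ, Subgroup.mem_centralizer_iff.mpr fun v hv => L.e0.cen v (hVQ hv)⟩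
  have d2 := L.e0.dual _ inf_le_left hzB
  have hle2 : Subgroup.closure ({z, s, y} : Set G) ≤ Q ⊓ Subgroup.centralizer
      ((Q ⊓ Subgroup.centralizer ((Subgroup.closure ({z, s, y} : Set G) : Subgroup G) : Set G) : Subgroup G) : Set G) := by
    intro v hv
    refine ⟨hVQ hv, Subgroup.mem_centralizer_iff.mpr fun d hd => ?_⟩
    exact (Subgroup.mem_centralizer_iff.mp hd.2 v hv).symm
  have heq2 := Subgroup.eq_of_le_of_card_ge hle2 (by
    have hpos : 0 < Nat.card ↥(Q ⊓ Subgroup.centralizer ((Subgroup.closure ({z, s, y} : Set G) : Subgroup G) : Set G)) :=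
      Nat.card_pos
    rw [mul_comm] at d1
    rw [← d1] at d2
    exact (Nat.eq_of_mul_eq_mul_right hpos d2).le)
  rw [heq2]
  exact ⟨hcQ, Subgroup.mem_centralizer_iff.mpr fun d hd => (hcc d (hB d hd)).symm⟩

end Cfsg.Agent.Lib.H97FeL7
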