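import Cfsg.Agent.Lib.H97Fe0
import Cfsg.Agent.Lib.FrattiniQuot
import Cfsg.Agent.Lib.H70Frattini

set_option autoImplicit false
set_option linter.all false

/-! S5445, piece FE-L8: `R` is special with centre `V`. -/

namespace Cfsg.Agent.Lib.H97FeL8

open Cfsg Cfsg.Agent.Lib.H97Fe0
open scoped commutatorElement

theorem R_special {G : Type*} [Group G] [Finite G] {z s y : G} {Q Q₁ : Subgroup G} (L : Loc z s y Q Q₁) (V C R : Subgroup G)
    (hV : V = Subgroup.closure ({z, s, y} : Set G)) (hC : C = Subgroup.centralizer ({z, s, y} : Set G))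
    (hR : ∀ c, c ∈ R ↔ ∃ a ∈ Q ⊓ C, ∃ b ∈ Q₁ ⊓ C, c = a * b) (hp : IsPGroup 2 R) (h11 : Nat.card ↥(Q ⊓ C) = 2 ^ 11)
    (hn : ∀ n ∈ Subgroup.normalizer (V : Set G), ∀ c ∈ R, n * c * n⁻¹ ∈ R)
    (t1 : ∀ v ∈ V, v ≠ 1 → ∃ n ∈ Subgroup.normalizer (V : Set G), n * z * n⁻¹ = v)
    (hsw : ∃ n ∈ Subgroup.normalizer (V : Set G), ∀ a ∈ Q, n * a * n⁻¹ ∈ Q₁)
    (hce : ∀ c ∈ R, (∀ d ∈ R, c * d = d * c) → c ∈ V) (hVQ : V ≤ Q) (hVQ₁ : V ≤ Q₁) :
    IsSpecial 2 R ∧ (Subgroup.center R).map R.subtype = V := by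
  classical
  haveI : Fact (Nat.Prime 2) := ⟨Nat.prime_two⟩
  have hzV : z ∈ V := by rw [hV]; exact Subgroup.subset_closure (by simp)
  have hsV : s ∈ V := by rw [hV]; exact Subgroup.subset_closure (by simp)
  have hyV : y ∈ V := by rw [hV]; exact Subgroup.subset_closure (by simp)
  -- elements of C commute with V
  have hCm : ∀ c, c ∈ C ↔ z * c = c * z ∧ s * c = c * s ∧ y * c = c * y := by
    intro c
    rw [hC, Subgroup.mem_centralizer_iff]
    simp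
  have hCV : ∀ c ∈ C, ∀ v ∈ V, c * v = v * c := by
    intro c hc v hv
    have h1 : V ≤ Subgroup.centralizer ({c} : Set G) := by
      rw [hV, Subgroup.closure_le]
      intro x hx
      rw [SetLike.mem_coe, Subgroup.mem_centralizer_singleton_iff]
      obtain ⟨h1, h2, h3⟩ := (hCm c).1 hc
      simp only [Set.mem_insert_iff, Set.mem_singleton_iff] at hx
      rcases hx with rfl | rfl | rfl
      · exact h1
      · exact h2
      · exact h3
    exact ((Subgroup.mem_centralizer_singleton_iff.1 (h1 hv))).symm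
  have hzs : z * s = s * z := (L.e0.cen s L.sQ).symm
  have hzy : z * y = y * z := (L.e0.cen y L.yQ).symm
  have hsy : s * y = y * s := (L.e1.cen y L.yQ₁).symm
  have hVC : V ≤ C := by
    rw [hV, Subgroup.closure_le]
    intro x hx
    rw [SetLike.mem_coe, hCm]
    simp only [Set.mem_insert_iff, Set.mem_singleton_iff] at hx
    rcases hx with rfl | rfl | rfl
    · exact ⟨rfl, hzs.symm, hzy.symm⟩
    · exact ⟨hzs, rfl, hsy.symm⟩
    · exact ⟨hzy, hsy, rfl⟩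
  have hQR : ∀ a ∈ Q ⊓ C, a ∈ R := fun a ha => (hR a).2 ⟨a, ha, 1, Subgroup.one_mem _, (mul_one a).symm⟩
  have hQ₁R : ∀ b ∈ Q₁ ⊓ C, b ∈ R := fun b hb => (hR b).2 ⟨1, Subgroup.one_mem _, b, hb, (one_mul b).symm⟩
  have hRC : R ≤ C := by
    intro c hc
    obtain ⟨a, ha, b, hb, rfl⟩ := (hR c).1 hc
    exact C.mul_mem ha.2 hb.2
  have hVR : V ≤ R := fun v hv => hQR v ⟨hVQ hv, hVC hv⟩
  have hVcen : ∀ v ∈ V, ∀ c ∈ R, c * v = v * c := fun v hv c hc => hCV c (hRC hc) v hv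
  -- commutator calculus
  have hmul1 : ∀ a b c, a ∈ R → b ∈ R → c ∈ R → a * c * a⁻¹ * c⁻¹ ∈ V → b * c * b⁻¹ * c⁻¹ ∈ V →
      (a * b) * c * (a * b)⁻¹ * c⁻¹ ∈ V := by
    intro a b c ha hb hc h1 h2
    have h3 : (a * b) * c * (a * b)⁻¹ * c⁻¹ = a * (b * c * b⁻¹ * c⁻¹) * (c * a⁻¹ * c⁻¹) := by group
    rw [h3, hVcen _ h2 a ha]
    have h4 : (b * c * b⁻¹ * c⁻¹) * a * (c * a⁻¹ * c⁻¹) = (b * c * b⁻¹ * c⁻¹) * (a * c * a⁻¹ * c⁻¹) := by group
    rw [h4]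
    exact V.mul_mem h2 h1
  have hinv : ∀ a c, a * c * a⁻¹ * c⁻¹ ∈ V → c * a * c⁻¹ * a⁻¹ ∈ V := by
    intro a c h
    have := V.inv_mem h
    have h2 : (a * c * a⁻¹ * c⁻¹)⁻¹ = c * a * c⁻¹ * a⁻¹ := by group
    rwa [h2] at this
  have haa : ∀ a ∈ Q, ∀ a' ∈ Q, a * a' * a⁻¹ * a'⁻¹ ∈ V := by
    intro a ha a' ha'
    rcases L.e0.comm a ha a' ha' with h | h <;> rw [h]
    · exact V.one_mem
    · exact hzV
  have hbb : ∀ a ∈ Q₁, ∀ a' ∈ Q₁, a * a' * a⁻¹ * a'⁻¹ ∈ V := by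
    intro a ha a' ha'
    rcases L.e1.comm a ha a' ha' with h | h <;> rw [h]
    · exact V.one_mem
    · exact hsV
  have hab : ∀ a ∈ Q ⊓ C, ∀ b ∈ Q₁ ⊓ C, a * b * a⁻¹ * b⁻¹ ∈ V := by
    intro a ha b hb
    rw [hV]
    obtain ⟨h1, h2, h3⟩ := (hCm a).1 ha.2
    obtain ⟨h1', h2', h3'⟩ := (hCm b).1 hb.2
    exact L.brk a ha.1 h2.symm h3.symm b hb.1 h1'.symm h3'.symm
  have hcommV : ∀ x ∈ R, ∀ x' ∈ R, x * x' * x⁻¹ * x'⁻¹ ∈ V := by
    intro x hx x' hx'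
    obtain ⟨a, ha, b, hb, rfl⟩ := (hR x).1 hx
    obtain ⟨a', ha', b', hb', rfl⟩ := (hR x').1 hx'
    have hx'R : a' * b' ∈ R := hx'
    apply hmul1 a b (a' * b') (hQR a ha) (hQ₁R b hb) hx'R
    · apply hinv
      apply hmul1 a' b' a (hQR a' ha') (hQ₁R b' hb') (hQR a ha)
      · exact haa a' ha'.1 a ha.1
      · exact hinv _ _ (hab a ha b' hb')
    · apply hinv
      apply hmul1 a' b' b (hQR a' ha') (hQ₁R b' hb') (hQ₁R b hb)
      · exact hab a' ha' b hb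
      · exact hbb b' hb'.1 b hb.1
  have hsqV : ∀ x ∈ R, x * x ∈ V := by
    intro x hx
    obtain ⟨a, ha, b, hb, rfl⟩ := (hR x).1 hx
    have h1 : b * a * b⁻¹ * a⁻¹ ∈ V := hinv _ _ (hab a ha b hb)
    have h2 : a * b * (a * b) = a * (b * a * b⁻¹ * a⁻¹) * (a * b * b) := by group
    rw [h2, hVcen _ h1 a (hQR a ha)]
    have h3 : (b * a * b⁻¹ * a⁻¹) * a * (a * b * b) = (b * a * b⁻¹ * a⁻¹) * (a * a) * (b * b) := by group
    rw [h3]
    refine V.mul_mem (V.mul_mem h1 ?_) ?_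
    · rcases L.e0.sq a ha.1 with h | h <;> rw [h]
      · exact V.one_mem
      · exact hzV
    · rcases L.e1.sq b hb.1 with h | h <;> rw [h]
      · exact V.one_mem
      · exact hsV
  -- the centre
  have hcenter : ∀ c : R, c ∈ Subgroup.center R ↔ (c : G) ∈ V := by
    intro c
    rw [Subgroup.mem_center_iff]
    constructor
    · intro h
      apply hce _ c.2
      intro d hd
      exact (congrArg Subtype.val (h ⟨d, hd⟩)).symm
    · intro h d
      apply Subtype.ext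
      exact hVcen _ h d d.2
  -- `z` is a commutator
  have hz : ∃ a ∈ Q ⊓ C, ∃ a' ∈ Q ⊓ C, a * a' * a⁻¹ * a'⁻¹ = z := by
    by_contra hcon
    push Not at hcon
    have hab' : ∀ a ∈ Q ⊓ C, ∀ a' ∈ Q ⊓ C, a * a' = a' * a := by
      intro a ha a' ha'
      rcases L.e0.comm a ha.1 a' ha'.1 with h | h
      · have h2 : a * a' = (a * a' * a⁻¹ * a'⁻¹) * (a' * a) := by group
        rw [h2, h, one_mul]
      · exact absurd h (hcon a ha a' ha')
    have h1 := L.e0.dual (Q ⊓ C) inf_le_left ⟨L.e0.zQ, hVC hzV⟩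
    have h2 : Q ⊓ C ≤ Q ⊓ Subgroup.centralizer ((Q ⊓ C : Subgroup G) : Set G) := by
      intro a ha
      refine ⟨ha.1, Subgroup.mem_centralizer_iff.2 ?_⟩
      intro a' ha'
      exact hab' a' ha' a ha
    have h3 : Nat.card ↥(Q ⊓ C) ≤ Nat.card ↥(Q ⊓ Subgroup.centralizer ((Q ⊓ C : Subgroup G) : Set G)) :=
      Nat.le_of_dvd Nat.card_pos (Subgroup.card_dvd_of_le h2)
    rw [h11] at h1 h3
    have h4 : (2 : ℕ) ^ 11 * 2 ^ 11 ≤ 2 ^ 14 := by
      rw [← h1]; exact Nat.mul_le_mul_right _ h3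
    norm_num at h4
  have hVcomm : ∀ v (hv : v ∈ R), v ∈ V → (⟨v, hv⟩ : R) ∈ commutator R := by
    intro v hv hvV
    by_cases hv1 : v = 1
    · subst hv1
      exact (commutator R).one_mem
    obtain ⟨n, hnN, hnz⟩ := t1 v hvV hv1
    obtain ⟨a, ha, a', ha', haz⟩ := hz
    have h1 : n * a * n⁻¹ ∈ R := hn n hnN a (hQR a ha)
    have h2 : n * a' * n⁻¹ ∈ R := hn n hnN a' (hQR a' ha')
    have h3 : (⟨v, hv⟩ : R) = ⁅(⟨n * a * n⁻¹, h1⟩ : R), ⟨n * a' * n⁻¹, h2⟩⁆ := by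
      apply Subtype.ext
      show v = (n * a * n⁻¹) * (n * a' * n⁻¹) * (n * a * n⁻¹)⁻¹ * (n * a' * n⁻¹)⁻¹
      rw [← hnz, ← haz]; group
    rw [h3]
    exact Subgroup.commutator_mem_commutator (Subgroup.mem_top _) (Subgroup.mem_top _)
  have hcc : commutator R = Subgroup.center R := by
    apply le_antisymm
    · rw [commutator_def, Subgroup.commutator_le]
      intro x _ x' _
      rw [hcenter]
      exact hcommV x x.2 x' x'.2
    · intro c hc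
      exact hVcomm c c.2 ((hcenter c).1 hc)
  have hfr : frattini R = Subgroup.center R := by
    apply le_antisymm
    · apply Cfsg.Agent.Lib.FrattiniQuot.frattini_le_of_squares
      intro a
      rw [hcenter, sq]
      exact hsqV a a.2
    · rw [← hcc]
      exact Cfsg.Agent.Lib.H70Frattini.commutator_le_frattini hp
  refine ⟨⟨hp, hfr, hcc⟩, ?_⟩
  ext v
  constructor
  · rintro ⟨c, hc, rfl⟩
    exact (hcenter c).1 hc
  · intro hv
    exact ⟨⟨v, hVR hv⟩, (hcenter _).2 hv, rfl⟩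

end Cfsg.Agent.Lib.H97FeL8
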