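import Cfsg.Agent.Lib.H97Fe0
import Cfsg.Agent.Lib.H97FeL1
import Cfsg.Agent.Lib.H97FeL3
import Cfsg.Agent.Lib.H97FeL4
import Cfsg.Agent.Lib.H97FeL5
import Cfsg.Agent.Lib.H97FeL6
import Cfsg.Agent.Lib.H97FeL7
import Cfsg.Agent.Lib.H97FeL8

/-!
S5445, piece FE-L9: assembly of the local pieces (helper43).
-/

set_option autoImplicit false
set_option linter.all false
open Cfsg Cfsg.Agent.Lib.H97Fe0

namespace Cfsg.Agent.Lib.H97FeL9

theorem centralizer_closure' {G : Type*} [Group G] (S : Set G) :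
    Subgroup.centralizer ((Subgroup.closure S : Subgroup G) : Set G) = Subgroup.centralizer S := by
  apply le_antisymm
  · exact Subgroup.centralizer_le Subgroup.subset_closure
  · intro x hx
    rw [Subgroup.mem_centralizer_iff] at hx ⊢
    intro y hy
    induction hy using Subgroup.closure_induction with
    | mem y hy => exact hx y hy
    | one => simp
    | mul a b _ _ ha hb => rw [mul_assoc, hb, ← mul_assoc, ha, mul_assoc]
    | inv a _ ha =>
      rw [inv_mul_eq_iff_eq_mul, ← mul_assoc, ha, mul_assoc, mul_inv_cancel, mul_one]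

theorem loc_main {G : Type*} [Group G] [Finite G] {z s y : G} {Q Q₁ : Subgroup G} (L : Loc z s y Q Q₁) :
    ∃ V : Subgroup G, Cfsg.IsElementaryAbelian 2 V ∧ Nat.card V = 8 ∧ z ∈ V ∧ ∃ R : Subgroup G, R = (Cfsg.pCore 2 ↥(Subgroup.normalizer (V : Set G))).map (Subgroup.normalizer (V : Set G)).subtype ∧ Cfsg.IsSpecial 2 ↥R ∧ Nat.card R = 2 ^ 15 ∧ (Subgroup.center ↥R).map R.subtype = V ∧ ∃ _ : (R.subgroupOf (Subgroup.normalizer (V : Set G))).Normal, Nonempty (↥(Subgroup.normalizer (V : Set G)) ⧸ R.subgroupOf (Subgroup.normalizer (V : Set G)) ≃* Matrix.SpecialLinearGroup (Fin 3) (ZMod 2) × ↥(alternatingGroup (Fin 6))) := by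
  obtain ⟨V, hV⟩ : ∃ V : Subgroup G, V = Subgroup.closure ({z, s, y} : Set G) := ⟨_, rfl⟩
  obtain ⟨C, hC⟩ : ∃ C : Subgroup G, C = Subgroup.centralizer ({z, s, y} : Set G) := ⟨_, rfl⟩
  have hCV : Subgroup.centralizer (V : Set G) = C := by
    rw [hV, hC, centralizer_closure']
  obtain ⟨hE, hc8, hz, hs, hy, hVQ, hVQ₁, hO⟩ := Cfsg.Agent.Lib.H97FeL1.V_facts L V hV
  obtain ⟨t1, t2, t3, hsw⟩ := Cfsg.Agent.Lib.H97FeL3.V_trans L V hV
  obtain ⟨hCn, h3⟩ := Cfsg.Agent.Lib.H97FeL4.V_quot z s y V hE hc8 hz hs hy L.e0.z1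
    (fun h => h.elim L.e1.z1 L.sz) L.y1 t1 t2 t3
  obtain ⟨R, hRm, hRp, hR15, hRC, h11, -, hRiff⟩ := Cfsg.Agent.Lib.H97FeL6.R_facts_of L C hC (by rw [← hV]; exact hc8)
  have hCN : C ≤ Subgroup.normalizer (V : Set G) := by
    rw [← hCV]
    exact Subgroup.centralizer_le_normalizer _
  have hRN : R ≤ Subgroup.normalizer (V : Set G) := hRC.trans hCN
  obtain ⟨φ, hφs, hφk⟩ := L.hom
  have h6 : ∃ ψ : ((Subgroup.centralizer (V : Set G)).subgroupOf (Subgroup.normalizer (V : Set G))) →* alternatingGroup (Fin 6),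
      Function.Surjective ψ ∧ ∀ c, ψ c = 1 ↔ (c : Subgroup.normalizer (V : Set G)) ∈ R.subgroupOf (Subgroup.normalizer (V : Set G)) := by
    have hmem : ∀ c : ((Subgroup.centralizer (V : Set G)).subgroupOf (Subgroup.normalizer (V : Set G))),
        (((c : Subgroup.normalizer (V : Set G)) : G)) ∈ Subgroup.centralizer ({z, s, y} : Set G) := by
      intro c
      rw [← hC, ← hCV]
      exact c.2
    let f : ((Subgroup.centralizer (V : Set G)).subgroupOf (Subgroup.normalizer (V : Set G))) →*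
        Subgroup.centralizer ({z, s, y} : Set G) :=
      ((Subgroup.normalizer (V : Set G)).subtype.comp
        ((Subgroup.centralizer (V : Set G)).subgroupOf (Subgroup.normalizer (V : Set G))).subtype).codRestrict _ hmem
    refine ⟨φ.comp f, ?_, ?_⟩
    · intro x
      obtain ⟨c, rfl⟩ := hφs x
      have hc1 : (c : G) ∈ C := by rw [hC]; exact c.2
      have hc2 : (c : G) ∈ Subgroup.centralizer (V : Set G) := by rw [hCV]; exact hc1
      refine ⟨⟨⟨(c : G), hCN hc1⟩, hc2⟩, ?_⟩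
      rfl
    · intro c
      have hc2 : (((c : Subgroup.normalizer (V : Set G)) : G)) ∈ C := by rw [hC]; exact hmem c
      rw [Subgroup.mem_subgroupOf, hRiff _ hc2]
      exact hφk (f c)
  have hRC' : R.subgroupOf (Subgroup.normalizer (V : Set G)) ≤
      (Subgroup.centralizer (V : Set G)).subgroupOf (Subgroup.normalizer (V : Set G)) := by
    intro x hx
    rw [Subgroup.mem_subgroupOf] at hx ⊢
    rw [hCV]
    exact hRC hx
  have hRp' : IsPGroup 2 (R.subgroupOf (Subgroup.normalizer (V : Set G))) :=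
    hRp.of_equiv (Subgroup.subgroupOfEquivOfLe hRN).symm
  obtain ⟨hcore, hRn, hiso⟩ := Cfsg.Agent.Lib.H97FeL5.quot_prod _ _ hRC' hRp' h6 h3
  have hn : ∀ n ∈ Subgroup.normalizer (V : Set G), ∀ c ∈ R, n * c * n⁻¹ ∈ R := by
    intro n hn c hc
    exact hRn.conj_mem ⟨c, hRN hc⟩ hc ⟨n, hn⟩
  have hce : ∀ c ∈ R, (∀ d ∈ R, c * d = d * c) → c ∈ V := by
    intro c hc hcc
    rw [hV]
    exact Cfsg.Agent.Lib.H97FeL7.R_center L C R hC hRm c hc hcc
  obtain ⟨hsp, hcen⟩ := Cfsg.Agent.Lib.H97FeL8.R_special L V C R hV hC hRm hRp h11 hn t1 hsw hce hVQ hVQ₁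
  refine ⟨V, hE, hc8, hz, R, ?_, hsp, hR15, hcen, hRn, hiso⟩
  rw [hcore]
  exact (Subgroup.map_subgroupOf_eq_of_le hRN).symm

end Cfsg.Agent.Lib.H97FeL9
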