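import Cfsg.Agent.Lib.H97FeC

/-!
# S5445: piece FE-D0 (helper98)
-/

set_option autoImplicit false

universe u

namespace Cfsg.Agent.Lib.H98FeD0

open Matrix Cfsg Cfsg.Agent.Lib.K4 Cfsg.Agent.Lib.HermMat Cfsg.Agent.Lib.ClThreeTransU Cfsg.Agent.Lib.SU6K4
open Cfsg.Agent.Lib.U43 Cfsg.Agent.Lib.H97Fa Cfsg.Agent.Lib.H97FaF Cfsg.Agent.Lib.H97FaG Cfsg.Agent.Lib.H97FaI Cfsg.Agent.Lib.LargeExtra
open Cfsg.Agent.Lib.H97FbY Cfsg.Agent.Lib.H97FbU Cfsg.Agent.Lib.H97FbV Cfsg.Agent.Lib.H97FbM Cfsg.Agent.Lib.H97Fe0 Cfsg.Agent.Lib.H97FeC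

variable {G' : Type u} [Group G'] [Finite G'] {z : G'} {Q : Subgroup (Subgroup.centralizer ({z} : Set G'))} [Q.Normal]
    {V : Type u} [AddCommGroup V] {q : V → ZMod 2} {b : V → V → ZMod 2}
    {ρ : Subgroup.centralizer ({z} : Set G') →* AddMonoid.End V} {π : Q → V} {M : Subgroup (Subgroup.centralizer ({z} : Set G'))}
    {Φ : V6 ≃+ V} {R : M →* G}

theorem exists_x (D : Dat (zz z) Q q b ρ π M Φ R) (hR : R.range = K0) :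
    ∃ x : Subgroup.centralizer ({z} : Set G'), x ∈ M ∧ ∀ v, ρ x (Φ v) = Φ (om • v) := by
  have hz : mo (zc 1) 1 ∈ R.range := by
    rw [hR]
    exact T_le_K0 (Z0_le_T ⟨1, rfl⟩)
  obtain ⟨m, hm⟩ := hz
  refine ⟨m, m.2, fun v => ?_⟩
  have e1 : om • v = mt (R m) *ᵥ v := by rw [hm, Cfsg.Agent.Lib.H87U3E.mo_zc]; rfl
  rw [e1, D.rep]

theorem exists_cx (hF : Cfsg.IsOfLargeFischerTypeAt z Q) (D : Dat (zz z) Q q b ρ π M Φ R) (hR : R.range = K0) :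
    ∃ (Q' Q₁ : Subgroup G') (g s y : G') (r : Q) (x : Subgroup.centralizer ({z} : Set G')), Cx D Q' Q₁ g s y r x := by
  obtain ⟨x, hxM, hx⟩ := exists_x D hR
  obtain ⟨-, -, -, -, g0, ⟨hq, hqQ⟩, hne⟩ := hF.1
  obtain ⟨a1, a2, a3⟩ := rl_of_conj Cfsg.Agent.Lib.H97FbS.no_two hF.1 D hR hq hqQ hne rfl
  have h1 : Rl R.range w4 (co π Φ ⟨⟨g0 * z * g0⁻¹, hq⟩, hqQ⟩) := by
    rw [hR]; exact a3.symm
  obtain ⟨m, hm⟩ := D.rl.1 h1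
  rw [co, Φ.apply_symm_apply] at hm
  have hrQ : (m : Subgroup.centralizer ({z} : Set G')) * ⟨g0 * z * g0⁻¹, hq⟩ * (m : Subgroup.centralizer ({z} : Set G'))⁻¹ ∈ Q :=
    (inferInstance : Q.Normal).conj_mem _ hqQ _
  refine ⟨_, _, ((m : Subgroup.centralizer ({z} : Set G')) : G') * g0, _, _, ⟨_, hrQ⟩, x, ⟨hF, hR, rfl, rfl, rfl, ?_, rfl, ?_, hxM, hx⟩⟩
  · change ((m : Subgroup.centralizer ({z} : Set G')) : G') * g0 * z * (((m : Subgroup.centralizer ({z} : Set G')) : G') * g0)⁻¹ =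
      ((m : Subgroup.centralizer ({z} : Set G')) : G') * (g0 * z * g0⁻¹) * ((m : Subgroup.centralizer ({z} : Set G')) : G')⁻¹
    group
  · unfold co
    rw [← D.act m ⟨⟨g0 * z * g0⁻¹, hq⟩, hqQ⟩ ⟨_, hrQ⟩ rfl, hm, Φ.symm_apply_apply]

end Cfsg.Agent.Lib.H98FeD0
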