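import Cfsg.Agent.Lib.H97FeC
import Cfsg.Agent.Lib.H97FeL2

/-!
# S5445: piece FE-D8 (helper98)
-/

set_option autoImplicit false

universe u

namespace Cfsg.Agent.Lib.H98FeD8

open Matrix Cfsg Cfsg.Agent.Lib.K4 Cfsg.Agent.Lib.HermMat Cfsg.Agent.Lib.ClThreeTransU Cfsg.Agent.Lib.SU6K4
open Cfsg.Agent.Lib.U43 Cfsg.Agent.Lib.H97Fa Cfsg.Agent.Lib.H97FaF Cfsg.Agent.Lib.H97FaG Cfsg.Agent.Lib.H97FaI Cfsg.Agent.Lib.LargeExtra
open Cfsg.Agent.Lib.H97FbY Cfsg.Agent.Lib.H97FbU Cfsg.Agent.Lib.H97FbV Cfsg.Agent.Lib.H97FbM Cfsg.Agent.Lib.H97Fe0 Cfsg.Agent.Lib.H97FeC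

variable {G' : Type u} [Group G'] {z : G'} {Q : Subgroup (Subgroup.centralizer ({z} : Set G'))} [Q.Normal]
    {V : Type u} [AddCommGroup V] {q : V → ZMod 2} {b : V → V → ZMod 2}
    {ρ : Subgroup.centralizer ({z} : Set G') →* AddMonoid.End V} {π : Q → V} {M : Subgroup (Subgroup.centralizer ({z} : Set G'))}
    {Φ : V6 ≃+ V} {R : M →* G} {D : Dat (zz z) Q q b ρ π M Φ R} {Q' Q₁ : Subgroup G'} {g s y : G'} {r : Q}
    {x : Subgroup.centralizer ({z} : Set G')}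

theorem vr (C : Cx D Q' Q₁ g s y r x) : π r = Φ w4 := by
  have := C.hr
  unfold co at this
  rw [← this, AddEquiv.apply_symm_apply]

theorem yQ (r : Q) (x : Subgroup.centralizer ({z} : Set G')) : x * r * x⁻¹ ∈ Q :=
  (inferInstance : Q.Normal).conj_mem r r.2 x

theorem vy (C : Cx D Q' Q₁ g s y r x) : π ⟨x * r * x⁻¹, yQ r x⟩ = Φ (om • w4) := by
  rw [← D.act x r ⟨x * r * x⁻¹, yQ r x⟩ rfl, vr C, C.hx]

theorem fix_y (C : Cx D Q' Q₁ g s y r x) {m : Subgroup.centralizer ({z} : Set G')} (hm : m ∈ M) (hms : (m : G') * s = s * m) :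
    (m : G') * y * (m : G')⁻¹ = y ∨ (m : G') * y * (m : G')⁻¹ = z * y := by
  have h1 : m * r * m⁻¹ = r := by
    apply Subtype.ext
    have : (m : G') * (((r : Subgroup.centralizer ({z} : Set G')) : G')) * (m : G')⁻¹ = ((r : Subgroup.centralizer ({z} : Set G')) : G') := by
      rw [← C.hs, hms]; group
    exact this
  have h2 : ρ m (Φ w4) = Φ w4 := by
    rw [← vr C]; exact D.act m r r h1.symm
  have h3 : mt (R ⟨m, hm⟩) *ᵥ w4 = w4 := Φ.injective (by rw [D.rep]; exact h2)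
  have h4 : ρ m (Φ (om • w4)) = Φ (om • w4) := by
    have := D.rep ⟨m, hm⟩ (om • w4)
    rw [Matrix.mulVec_smul, h3] at this
    exact this.symm
  have h5 := vy C
  have h6 : π ⟨m * (x * r * x⁻¹) * m⁻¹, (inferInstance : Q.Normal).conj_mem _ (yQ r x) m⟩ = π ⟨x * r * x⁻¹, yQ r x⟩ := by
    rw [← D.act m ⟨x * r * x⁻¹, yQ r x⟩ ⟨m * (x * r * x⁻¹) * m⁻¹, (inferInstance : Q.Normal).conj_mem _ (yQ r x) m⟩ rfl, h5, h4]
  rcases (D.eqv _ _).1 h6 with h | h
  · left; rw [C.hy]; exact congrArg Subtype.val h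
  · right; rw [C.hy]; exact congrArg Subtype.val h

theorem w4_ne : w4 ≠ 0 := by decide
theorem om_w4_ne : om • w4 ≠ 0 := by decide
theorem om_w4_ne' : om • w4 ≠ w4 := by decide

theorem s_ne (C : Cx D Q' Q₁ g s y r x) : s ≠ z ∧ s ≠ 1 := by
  have h0 := vr C
  constructor
  · intro h
    have : π r = π 1 := (D.eqv r 1).2 (Or.inr (Subtype.ext (by rw [← C.hs, h]; simp [zz])))
    rw [h0, D.π_one, EmbeddingLike.map_eq_zero_iff] at this
    exact w4_ne this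
  · intro h
    have : π r = π 1 := (D.eqv r 1).2 (Or.inl (Subtype.ext (by rw [← C.hs, h]; simp)))
    rw [h0, D.π_one, EmbeddingLike.map_eq_zero_iff] at this
    exact w4_ne this

theorem y_ne (C : Cx D Q' Q₁ g s y r x) : y ≠ 1 ∧ y ≠ z ∧ y ≠ s ∧ y ≠ z * s := by
  have h0 := vr C
  have h1 := vy C
  refine ⟨?_, ?_, ?_, ?_⟩
  · intro h
    have : π ⟨x * r * x⁻¹, yQ r x⟩ = π 1 := (D.eqv _ 1).2 (Or.inl (Subtype.ext (by rw [← C.hy, h]; simp)))
    rw [h1, D.π_one, EmbeddingLike.map_eq_zero_iff] at this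
    exact om_w4_ne this
  · intro h
    have : π ⟨x * r * x⁻¹, yQ r x⟩ = π 1 := (D.eqv _ 1).2 (Or.inr (Subtype.ext (by rw [← C.hy, h]; simp [zz])))
    rw [h1, D.π_one, EmbeddingLike.map_eq_zero_iff] at this
    exact om_w4_ne this
  · intro h
    have : π ⟨x * r * x⁻¹, yQ r x⟩ = π r := (D.eqv _ r).2 (Or.inl (Subtype.ext (by rw [← C.hy, h, C.hs])))
    rw [h1, h0] at this
    exact om_w4_ne' (Φ.injective this)
  · intro h
    have : π ⟨x * r * x⁻¹, yQ r x⟩ = π r := (D.eqv _ r).2 (Or.inr (Subtype.ext (by rw [← C.hy, h, C.hs]; simp [zz])))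
    rw [h1, h0] at this
    exact om_w4_ne' (Φ.injective this)

/-- an element of `Q₁` centralising `z` outside `M` -/
theorem exists_b0 [Finite G'] (C : Cx D Q' Q₁ g s y r x) (e1 : LE Q₁ s) (hy : y ∈ Q₁) (hz : z ∈ Q₁) (zz1 : z * z = 1) (z1 : z ≠ 1)
    (hyz : y * z = z * y) :
    ∃ b0 : Subgroup.centralizer ({z} : Set G'), (b0 : G') ∈ Q₁ ∧ b0 ∉ M := by
  obtain ⟨hsz, hs1⟩ := s_ne C
  obtain ⟨y1, y2, y3, y4⟩ := y_ne C
  obtain ⟨a, ha, haz, hay⟩ := (Cfsg.Agent.Lib.H97FeL2.adj e1 hz zz1 z1 hsz.symm).2 y hy y1 y3 y2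
    (by rw [← e1.cen z hz]; exact y4)
  refine ⟨⟨a, Subgroup.mem_centralizer_singleton_iff.2 haz⟩, ha, fun haM => ?_⟩
  rcases fix_y C haM (by exact e1.cen a ha) with h | h
  · change a * y * a⁻¹ = y at h
    rw [hay] at h
    exact hs1 (mul_eq_left.1 h)
  · change a * y * a⁻¹ = z * y at h
    rw [hay, ← hyz] at h
    exact hsz (mul_left_cancel h)

/-- the map from `C(z, s, y)` to `H` -/
def toH (z s y : G') : ↥(Subgroup.centralizer ({z, s, y} : Set G')) →* Subgroup.centralizer ({z} : Set G') :=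
  Subgroup.inclusion (Subgroup.centralizer_le (by simp))

theorem mem3 {z s y c : G'} : c ∈ Subgroup.centralizer ({z, s, y} : Set G') ↔ c * z = z * c ∧ c * s = s * c ∧ c * y = y * c := by
  rw [Subgroup.mem_centralizer_iff]
  constructor
  · intro h
    exact ⟨(h z (by simp)).symm, (h s (by simp)).symm, (h y (by simp)).symm⟩
  · rintro ⟨h1, h2, h3⟩ k hk
    rcases hk with rfl | rfl | rfl
    · exact h1.symm
    · exact h2.symm
    · exact h3.symm

theorem hom [Finite G'] (C : Cx D Q' Q₁ g s y r x) (e0 : LE Q' z) (e1 : LE Q₁ s) (hy : y ∈ Q₁) (hz : z ∈ Q₁) :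
    ∃ φ : ↥(Subgroup.centralizer ({z, s, y} : Set G')) →* alternatingGroup (Fin 6), Function.Surjective φ ∧
    ∀ c, φ c = 1 ↔ ∃ a ∈ Q', ∃ b ∈ Q₁, b * z = z * b ∧ (c : G') = a * b := by
  obtain ⟨hsz, hs1⟩ := s_ne C
  obtain ⟨y1, y2, y3, y4⟩ := y_ne C
  have hsQ' : s ∈ Q' := by rw [C.hQ', C.hs]; exact ⟨_, r.2, rfl⟩
  have hyQ' : y ∈ Q' := by rw [C.hQ', C.hy]; exact ⟨_, yQ r x, rfl⟩
  have hyz : y * z = z * y := e0.cen y hyQ'
  have hsz' : s * z = z * s := e0.cen s hsQ'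
  have hss : s * s = 1 := e1.zz
  have hsc : s ∈ Subgroup.centralizer ({z} : Set G') := Subgroup.mem_centralizer_singleton_iff.2 hsz'
  obtain ⟨b0, hb0, hb0M⟩ := exists_b0 C e1 hy hz e0.zz e0.z1 hyz
  obtain ⟨-, -, hEX, -, -, -, hn, ⟨e⟩⟩ := Cfsg.Agent.Lib.H97FbN.S5442_of Cfsg.Agent.Lib.H97FbS.no_two C.hF s
    ⟨hsc, by
      have : (⟨s, hsc⟩ : Subgroup.centralizer ({z} : Set G')) = r := Subtype.ext C.hs
      rw [this]; exact r.2⟩ (isConj_iff.2 ⟨g, C.hg⟩) hsz g C.hg _ _ rfl rfl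
  set X := ((Subgroup.centralizer ({z} : Set G') ⊓ Subgroup.centralizer ({s} : Set G')).subgroupOf (Subgroup.centralizer ({z} : Set G'))).map (QuotientGroup.mk' Q) with hX
  set E := ((((Q.map (Subgroup.centralizer ({z} : Set G')).subtype)).map (MulAut.conj g).toMonoidHom ⊓ Subgroup.centralizer ({z} : Set G')).subgroupOf (Subgroup.centralizer ({z} : Set G'))).map (QuotientGroup.mk' Q) with hE
  have hmX : ∀ h : Subgroup.centralizer ({z} : Set G'), (h : G') * s = s * h → QuotientGroup.mk' Q h ∈ X := by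
    intro h hh
    exact ⟨h, ⟨h.2, Subgroup.mem_centralizer_singleton_iff.2 hh⟩, rfl⟩
  have hmE : ∀ h : Subgroup.centralizer ({z} : Set G'), (h : G') ∈ Q₁ → QuotientGroup.mk' Q h ∈ E := by
    intro h hh
    refine ⟨h, ⟨?_, h.2⟩, rfl⟩
    rw [C.hQ₁, C.hQ'] at hh
    exact hh
  have hE' : ∀ h : Subgroup.centralizer ({z} : Set G'), QuotientGroup.mk' Q h ∈ E →
      ∃ k : Subgroup.centralizer ({z} : Set G'), (k : G') ∈ Q₁ ∧ h * k⁻¹ ∈ Q := by
    rintro h ⟨k, ⟨hk1, hk2⟩, hk⟩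
    refine ⟨k, ?_, ?_⟩
    · rw [C.hQ₁, C.hQ']; exact hk1
    · have : QuotientGroup.mk' Q (h * k⁻¹) = 1 := by rw [map_mul, map_inv, hk, mul_inv_cancel]
      exact (QuotientGroup.eq_one_iff _).1 this
  let f : ↥(Subgroup.centralizer ({z, s, y} : Set G')) →* X :=
    ((QuotientGroup.mk' Q).comp (toH z s y)).codRestrict X (fun c => hmX _ (mem3.1 c.2).2.1)
  let F : ↥(Subgroup.centralizer ({z, s, y} : Set G')) →* alternatingGroup (Fin 6) :=
    (e : (↥X ⧸ E.subgroupOf X) →* alternatingGroup (Fin 6)).comp ((QuotientGroup.mk' (E.subgroupOf X)).comp f)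
  have hF1 : ∀ c, F c = 1 ↔ QuotientGroup.mk' Q (toH z s y c) ∈ E := by
    intro c
    change e (QuotientGroup.mk' (E.subgroupOf X) (f c)) = 1 ↔ _
    rw [EmbeddingLike.map_eq_one_iff]
    change ((f c : X) : X ⧸ E.subgroupOf X) = 1 ↔ _
    rw [QuotientGroup.eq_one_iff]
    rfl
  refine ⟨F, ?_, ?_⟩
  · intro w
    obtain ⟨u, rfl⟩ := e.surjective w
    obtain ⟨v, rfl⟩ := QuotientGroup.mk'_surjective _ u
    obtain ⟨v, hv⟩ := v
    obtain ⟨h, ⟨hh1, hh2⟩, hh⟩ := hv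
    have hhs : (h : G') * s = s * h := Subgroup.mem_centralizer_singleton_iff.1 hh2
    -- adjust into M
    obtain ⟨h', hh'M, hh's, hh'E⟩ : ∃ h' : Subgroup.centralizer ({z} : Set G'), h' ∈ M ∧ (h' : G') * s = s * h' ∧
        QuotientGroup.mk' Q (h⁻¹ * h') ∈ E := by
      by_cases hM : h ∈ M
      · exact ⟨h, hM, hhs, by rw [inv_mul_cancel, map_one]; exact E.one_mem⟩
      · refine ⟨h * b0, ?_, ?_, ?_⟩
        · exact (Subgroup.mul_mem_iff_of_index_two D.idx).2 (by tauto)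
        · have := e1.cen _ hb0
          rw [Subgroup.coe_mul, mul_assoc, this, ← mul_assoc, hhs, mul_assoc]
        · rw [inv_mul_cancel_left]; exact hmE _ hb0
    -- adjust by an element of Q
    obtain ⟨a, haQ, has, hay⟩ : ∃ a : Subgroup.centralizer ({z} : Set G'), a ∈ Q ∧ (a : G') * s = s * a ∧
        ((a * h' : Subgroup.centralizer ({z} : Set G')) : G') * y = y * ((a * h' : Subgroup.centralizer ({z} : Set G')) : G') := by
      rcases fix_y C hh'M hh's with hq | hq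
      · refine ⟨1, Q.one_mem, by simp, ?_⟩
        rw [one_mul]
        exact mul_inv_eq_iff_eq_mul.1 hq
      · obtain ⟨a, ha, has, hay⟩ := (Cfsg.Agent.Lib.H97FeL2.adj e0 hsQ' hss hs1 hsz).2 y hyQ' y1 y2 y3 y4
        have haz := e0.cen a ha
        rw [C.hQ'] at ha
        obtain ⟨a', ha', rfl⟩ := ha
        refine ⟨a', ha', has, ?_⟩
        change (a' : G') * y * (a' : G')⁻¹ = y * z at hay
        change (a' : G') * z = z * a' at haz
        change (a' : G') * h' * y = y * (a' * h')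
        have k1 : (h' : G') * y = z * y * h' := mul_inv_eq_iff_eq_mul.1 hq
        have k2 : (a' : G') * y = y * z * a' := mul_inv_eq_iff_eq_mul.1 hay
        calc (a' : G') * h' * y = a' * (h' * y) := mul_assoc _ _ _
          _ = a' * z * (y * h') := by rw [k1]; group
          _ = z * (a' * y) * h' := by rw [haz]; group
          _ = (z * y) * z * a' * h' := by rw [k2]; group
          _ = y * (z * z) * a' * h' := by rw [← hyz]; group
          _ = y * (a' * h') := by rw [e0.zz]; group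
    have hc : ((a * h' : Subgroup.centralizer ({z} : Set G')) : G') ∈ Subgroup.centralizer ({z, s, y} : Set G') := by
      refine mem3.2 ⟨Subgroup.mem_centralizer_singleton_iff.1 (a * h').2, ?_, hay⟩
      rw [Subgroup.coe_mul, mul_assoc, hh's, ← mul_assoc, has, mul_assoc]
    refine ⟨⟨_, hc⟩, ?_⟩
    change e (QuotientGroup.mk' (E.subgroupOf X) (f ⟨_, hc⟩)) = e _
    congr 1
    symm
    apply QuotientGroup.eq.2
    change (((⟨v, ⟨h, ⟨hh1, hh2⟩, hh⟩⟩ : X)⁻¹ * f ⟨_, hc⟩ : X) : (Subgroup.centralizer ({z} : Set G')) ⧸ Q) ∈ E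
    have : (((⟨v, ⟨h, ⟨hh1, hh2⟩, hh⟩⟩ : X)⁻¹ * f ⟨_, hc⟩ : X) : (Subgroup.centralizer ({z} : Set G')) ⧸ Q) =
        v⁻¹ * QuotientGroup.mk' Q (a * h') := rfl
    rw [this, ← hh, map_mul]
    have ha1 : QuotientGroup.mk' Q a = 1 := (QuotientGroup.eq_one_iff _).2 haQ
    rw [ha1, one_mul, ← map_inv, ← map_mul]
    exact hh'E
  · intro c
    rw [hF1]
    constructor
    · intro h
      obtain ⟨k, hk, hkQ⟩ := hE' _ h
      refine ⟨(c : G') * (k : G')⁻¹, ?_, k, hk, Subgroup.mem_centralizer_singleton_iff.1 k.2, by group⟩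
      rw [C.hQ']
      exact ⟨_, hkQ, rfl⟩
    · rintro ⟨a, ha, b', hb', hbz, hc⟩
      rw [C.hQ'] at ha
      obtain ⟨a', ha', rfl⟩ := ha
      have h1 : toH z s y c = a' * ⟨b', Subgroup.mem_centralizer_singleton_iff.2 hbz⟩ := Subtype.ext hc
      have ha1 : QuotientGroup.mk' Q a' = 1 := (QuotientGroup.eq_one_iff _).2 ha'
      rw [h1, map_mul, ha1, one_mul]
      exact hmE _ hb'

/-- the exact signature of the plan -/
theorem hom_semi [Finite G'] (C : Cx D Q' Q₁ g s y r x) (e0 : LE Q' z) (e1 : LE Q₁ s) (hy : y ∈ Q₁) (hz : z ∈ Q₁)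
    (_hsemi : ∀ h : Subgroup.centralizer ({z} : Set G'), h ∉ M → ∀ v, ρ h (Φ (om • v)) = Φ (om' • Φ.symm (ρ h (Φ v)))) :
    ∃ φ : ↥(Subgroup.centralizer ({z, s, y} : Set G')) →* alternatingGroup (Fin 6), Function.Surjective φ ∧
    ∀ c, φ c = 1 ↔ ∃ a ∈ Q', ∃ b ∈ Q₁, b * z = z * b ∧ (c : G') = a * b := hom C e0 e1 hy hz

end Cfsg.Agent.Lib.H98FeD8
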