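import Mathlib
import Cfsg.Agent.Lib.HHMin
import Cfsg.Agent.Lib.CoprimeGen
import Cfsg.Agent.Lib.CoprimeAction2
import Cfsg.Agent.Lib.NormalRankTwoIn

/-! Groups generated by powers acting on a `q`-group: the abelian invariant subgroups condition, part 1 (helper63). -/

set_option autoImplicit false
open scoped commutatorElement

namespace Cfsg.Agent.Lib.HHBlk

open Subgroup Cfsg.Agent.Lib.CoprimeAction2

universe u

/-- `h` is a power of an element `x` of `B` such that `h` centralises every abelian `x`-invariant subgroup. -/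
def Rooted {G : Type u} [Group G] (p : ℕ) (U B : Subgroup G) (h : G) : Prop :=
  h ^ p = 1 ∧ ∃ x ∈ B, ∃ j : ℕ, x ^ p ^ j = h ∧
    ∀ M : Subgroup G, M ≤ U → (∀ a ∈ M, ∀ b ∈ M, a * b = b * a) → x ∈ normalizer (M : Set G) →
      ∀ m ∈ M, h * m = m * h

section finite

variable {G : Type u} [Group G] [Finite G]

theorem mem_normalizer_of {H : Subgroup G} {x : G} (h : ∀ y ∈ H, x * y * x⁻¹ ∈ H) : x ∈ normalizer (H : Set G) := by
  have := Fintype.ofFinite H
  exact mem_normalizer_fintype h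

theorem conj_mem_of {H : Subgroup G} {x : G} (hx : x ∈ normalizer (H : Set G)) {y : G} (hy : y ∈ H) :
    x * y * x⁻¹ ∈ H := (mem_normalizer_iff.1 hx y).1 hy

theorem conj_mem_of' {H : Subgroup G} {x : G} (hx : x ∈ normalizer (H : Set G)) {y : G} (hy : y ∈ H) :
    x⁻¹ * y * x ∈ H := by
  have := (mem_normalizer_iff.1 (inv_mem hx) y).1 hy
  rwa [inv_inv] at this

/-- Centralizers of independent elements commute. -/
theorem commute_of_cent {p q : ℕ} [hp : Fact p.Prime] [hq : Fact q.Prime] (hpq : p ≠ q) {U D : Subgroup G}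
    (hU : IsPGroup q U) (hDU : D ≤ normalizer (U : Set G)) (hDp : ∀ d ∈ D, d ^ p = 1)
    (hDc : ∀ c ∈ D, ∀ d ∈ D, c * d = d * c)
    (hUU : ∀ u ∈ U, ∀ v ∈ U, u * v * u⁻¹ * v⁻¹ ∈ U ⊓ centralizer (U : Set G))
    (hDZ : ∀ d ∈ D, ∀ z ∈ U ⊓ centralizer (U : Set G), d * z = z * d)
    (hfix : ∀ u ∈ U, (∀ d ∈ D, d * u = u * d) → u ∈ U ⊓ centralizer (U : Set G))
    {c d : G} (hc : c ∈ D) (hd : d ∈ D) (hcd : D ≤ closure {c, d}) {u v : G} (hu : u ∈ U) (huc : c * u = u * c)
    (hv : v ∈ U) (hvd : d * v = v * d) : u * v = v * u := by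
  set K : Subgroup G := U ⊓ centralizer ({c} : Set G) with hK
  have hdK : zpowers d ≤ normalizer (K : Set G) := by
    rw [zpowers_le]
    apply mem_normalizer_of
    intro y hy
    refine Subgroup.mem_inf.2 ⟨conj_mem_of (hDU hd) hy.1, ?_⟩
    rw [mem_centralizer_singleton_iff]
    have h1 := mem_centralizer_singleton_iff.1 hy.2
    have h2 := hDc c hc d hd
    calc d * y * d⁻¹ * c = d * y * (d⁻¹ * c) := by group
      _ = d * y * (c * d⁻¹) := by rw [show d⁻¹ * c = c * d⁻¹ from by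
          rw [inv_mul_eq_iff_eq_mul, ← mul_assoc, ← h2, mul_assoc, mul_inv_cancel, mul_one]]
      _ = d * (y * c) * d⁻¹ := by group
      _ = d * (c * y) * d⁻¹ := by rw [h1]
      _ = (d * c) * y * d⁻¹ := by group
      _ = (c * d) * y * d⁻¹ := by rw [h2]
      _ = c * (d * y * d⁻¹) := by group
  have hcop : (Nat.card (zpowers d)).Coprime (Nat.card K) := by
    obtain ⟨k, hk⟩ := IsPGroup.iff_card.mp (hU.to_le (inf_le_left : K ≤ U))
    rw [hk, Nat.card_zpowers]
    apply Nat.Coprime.pow_right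
    have h1 : orderOf d ∣ p := orderOf_dvd_of_pow_eq_one (hDp d hd)
    exact Nat.Coprime.coprime_dvd_left h1 ((Nat.coprime_primes hp.out hq.out).2 hpq)
  have huK : u ∈ K := Subgroup.mem_inf.2 ⟨hu, by rw [mem_centralizer_singleton_iff]; exact huc.symm⟩
  obtain ⟨x, hx, c', hc', rfl⟩ := exists_eq_mul_of_mem hdK hcop (Or.inl inferInstance) huK
  have hc'Z : c' ∈ U ⊓ centralizer (U : Set G) := by
    apply hfix c' hc'.1.1
    have h1 : D ≤ centralizer ({c'} : Set G) := by
      refine hcd.trans ?_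
      rw [closure_le]
      rintro y (rfl | rfl)
      · rw [SetLike.mem_coe, mem_centralizer_singleton_iff]
        exact (mem_centralizer_singleton_iff.1 hc'.1.2).symm
      · rw [SetLike.mem_coe, mem_centralizer_singleton_iff]
        exact mem_centralizer_iff.1 hc'.2 _ (mem_zpowers _)
    intro y hy
    exact mem_centralizer_singleton_iff.1 (h1 hy)
  have hxv : x ∈ centralizer ({v} : Set G) := by
    have hle : ⁅K, zpowers d⁆ ≤ centralizer ({v} : Set G) := by
      rw [commutator_le]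
      intro w hw e he
      rw [mem_centralizer_singleton_iff]
      have hev : e * v = v * e := by
        have h1 : zpowers d ≤ centralizer ({v} : Set G) := by
          rw [zpowers_le, mem_centralizer_singleton_iff]; exact hvd
        exact mem_centralizer_singleton_iff.1 (h1 he)
      have heD : e ∈ D := (zpowers_le.2 hd) he
      set t := w⁻¹ * v * w⁻¹⁻¹ * v⁻¹ with ht
      have htZ : t ∈ U ⊓ centralizer (U : Set G) := hUU w⁻¹ (inv_mem hw.1) v hv
      have h2 : w⁻¹ * v * w = t * v := by rw [ht]; group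
      have h3 : e * t = t * e := hDZ e heD t htZ
      have h4 : w * t = t * w := mem_centralizer_iff.1 htZ.2 w hw.1
      -- s v s⁻¹ = v
      have h5 : (e * w⁻¹ * e⁻¹) * v * (e * w⁻¹ * e⁻¹)⁻¹ = t * v := by
        calc (e * w⁻¹ * e⁻¹) * v * (e * w⁻¹ * e⁻¹)⁻¹ = e * w⁻¹ * (e⁻¹ * v) * e * w * e⁻¹ := by group
          _ = e * w⁻¹ * (v * e⁻¹) * e * w * e⁻¹ := by
              rw [show e⁻¹ * v = v * e⁻¹ from by
                rw [inv_mul_eq_iff_eq_mul, ← mul_assoc, hev, mul_assoc, mul_inv_cancel, mul_one]]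
          _ = e * (w⁻¹ * v * w) * e⁻¹ := by group
          _ = e * t * v * e⁻¹ := by rw [h2]; group
          _ = t * (e * v) * e⁻¹ := by rw [h3]; group
          _ = t * v := by rw [hev]; group
      have h6 : w * (t * v) * w⁻¹ = v := by
        rw [← h2]; group
      have h7 : ⁅w, e⁆ * v * ⁅w, e⁆⁻¹ = v := by
        calc ⁅w, e⁆ * v * ⁅w, e⁆⁻¹ = w * ((e * w⁻¹ * e⁻¹) * v * (e * w⁻¹ * e⁻¹)⁻¹) * w⁻¹ := by
              rw [commutatorElement_def]; group
          _ = v := by rw [h5, h6]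
      rwa [mul_inv_eq_iff_eq_mul] at h7
    exact hle hx
  rw [mem_centralizer_singleton_iff] at hxv
  have h8 : c' * v = v * c' := (mem_centralizer_iff.1 hc'Z.2 v hv).symm
  calc x * c' * v = x * (c' * v) := by group
    _ = (x * v) * c' := by rw [h8]; group
    _ = v * (x * c') := by rw [hxv]; group

/-- conjugates of an element of a normal subgroup of order `p²`. -/
theorem conj_formula {B D : Subgroup G} (hDB : D ≤ B) (hcen : ⁅⁅D, B⁆, B⁆ = ⊥)
    {x a : G} (hx : x ∈ B) (ha : a ∈ D) : ∃ w ∈ ⁅D, B⁆, ∀ i : ℕ, x ^ i * a * (x ^ i)⁻¹ = w ^ i * a := by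
  refine ⟨x * a * x⁻¹ * a⁻¹, ?_, ?_⟩
  · have h1 : ⁅x, a⁆ ∈ ⁅B, D⁆ := commutator_mem_commutator hx ha
    rw [commutator_comm] at h1
    exact h1
  · set w := x * a * x⁻¹ * a⁻¹ with hw
    have hwx : x * w = w * x := by
      have h1 : ⁅x, a⁆ ∈ ⁅D, B⁆ := by
        rw [commutator_comm]; exact commutator_mem_commutator hx ha
      have h2 : ⁅w, x⁆ ∈ ⁅⁅D, B⁆, B⁆ := commutator_mem_commutator h1 hx
      rw [hcen, mem_bot, commutatorElement_eq_one_iff_mul_comm] at h2
      exact h2.symm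
    have h0 : x * a * x⁻¹ = w * a := by rw [hw]; group
    intro i
    induction i with
    | zero => simp
    | succ i ih =>
      calc x ^ (i + 1) * a * (x ^ (i + 1))⁻¹ = x * (x ^ i * a * (x ^ i)⁻¹) * x⁻¹ := by
            rw [pow_succ']; group
        _ = x * (w ^ i * a) * x⁻¹ := by rw [ih]
        _ = (x * w ^ i) * a * x⁻¹ := by group
        _ = (w ^ i * x) * a * x⁻¹ := by
            rw [show x * w ^ i = w ^ i * x from (Commute.pow_right (show Commute x w from hwx) i).eq]
        _ = w ^ i * (x * a * x⁻¹) := by group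
        _ = w ^ (i + 1) * a := by rw [h0, pow_succ]; group

/-- the orbit of a subgroup of order `p`. -/
theorem orbit_facts {p : ℕ} [hp : Fact p.Prime] {B D : Subgroup G} (hDB : D ≤ B) (hBD : B ≤ normalizer (D : Set G))
    (hcen : ⁅⁅D, B⁆, B⁆ = ⊥) (hDp : ∀ d ∈ D, d ^ p = 1) {x a : G} (hx : x ∈ B) (ha : a ∈ D)
    (hxa : x ∉ normalizer ((zpowers a : Subgroup G) : Set G)) :
    (∀ i : ℕ, ¬ p ∣ i → x ^ i * a * (x ^ i)⁻¹ ∉ zpowers a) ∧ x ^ p * a * (x ^ p)⁻¹ = a := by
  obtain ⟨w, hw, hf⟩ := conj_formula hDB hcen hx ha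
  have hwD : w ∈ D := (le_normalizer_iff_commutator_le_left.mp hBD) hw
  constructor
  · intro i hi h
    rw [hf, mul_mem_cancel_right (mem_zpowers a)] at h
    apply hxa
    have h1 : w ∈ zpowers a := by
      have h2 : IsCoprime (p : ℤ) i := by
        rw [Int.isCoprime_iff_gcd_eq_one]
        exact (Nat.Prime.coprime_iff_not_dvd hp.out).2 hi
      obtain ⟨r, s, hrs⟩ := h2
      have h3 : w = (w ^ p) ^ r * (w ^ i) ^ s := by
        rw [← zpow_natCast w p, ← zpow_natCast w i, ← zpow_mul, ← zpow_mul, ← zpow_add, mul_comm (p : ℤ),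
          mul_comm (i : ℤ), hrs, zpow_one]
      rw [h3, hDp w hwD, one_zpow, one_mul]
      exact zpow_mem h s
    have h4 : x * a * x⁻¹ ∈ zpowers a := by
      have := hf 1
      rw [pow_one, pow_one] at this
      rw [this]
      exact mul_mem h1 (mem_zpowers a)
    apply mem_normalizer_of
    intro y hy
    obtain ⟨k, rfl⟩ := mem_zpowers_iff.1 hy
    rw [← conj_zpow]
    exact zpow_mem h4 k
  · rw [hf, hDp w hwD, one_mul]

end finite

end Cfsg.Agent.Lib.HHBlk
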