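import Mathlib
import Cfsg.Agent.Lib.HHBlk1

/-! Groups generated by powers acting on a `q`-group, part 2: the faithful case (helper63). -/

set_option autoImplicit false
open scoped commutatorElement

namespace Cfsg.Agent.Lib.HHBlk

open Subgroup Cfsg.Agent.Lib.CoprimeAction2

universe u

section finite

variable {G : Type u} [Group G] [Finite G]

/-- the closure of a block under the orbit. -/
theorem exists_orbit_closure {p : ℕ} {U M₁ : Subgroup G} {x : G} (hxU : x ∈ normalizer (U : Set G))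
    (hM : M₁ ≤ U) (hxp : x ^ p ∈ normalizer (M₁ : Set G)) (hab : ∀ a ∈ M₁, ∀ b ∈ M₁, a * b = b * a)
    (hcom : ∀ i : ℕ, ¬ p ∣ i → ∀ a ∈ M₁, ∀ b ∈ M₁, a * (x ^ i * b * (x ^ i)⁻¹) = (x ^ i * b * (x ^ i)⁻¹) * a) :
    ∃ M : Subgroup G, M₁ ≤ M ∧ M ≤ U ∧ x ∈ normalizer (M : Set G) ∧ ∀ a ∈ M, ∀ b ∈ M, a * b = b * a := by
  set T : Set G := {g | ∃ i : ℕ, ∃ m ∈ M₁, x ^ i * m * (x ^ i)⁻¹ = g} with hT
  -- commutation of `m` and the conjugate of `m'`
  have h1 : ∀ k : ℕ, ∀ a ∈ M₁, ∀ b ∈ M₁, a * (x ^ k * b * (x ^ k)⁻¹) = (x ^ k * b * (x ^ k)⁻¹) * a := by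
    intro k a ha b hb
    by_cases hk : p ∣ k
    · obtain ⟨t, rfl⟩ := hk
      rw [pow_mul]
      exact hab a ha _ (conj_mem_of (pow_mem hxp t) hb)
    · exact hcom k hk a ha b hb
  have h2 : ∀ g ∈ T, ∀ h ∈ T, g * h = h * g := by
    have h3 : ∀ i j : ℕ, i ≤ j → ∀ a ∈ M₁, ∀ b ∈ M₁, (x ^ i * a * (x ^ i)⁻¹) * (x ^ j * b * (x ^ j)⁻¹) =
        (x ^ j * b * (x ^ j)⁻¹) * (x ^ i * a * (x ^ i)⁻¹) := by
      intro i j hij a ha b hb
      obtain ⟨k, rfl⟩ := Nat.exists_eq_add_of_le hij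
      have h4 := h1 k a ha b hb
      rw [pow_add]
      calc (x ^ i * a * (x ^ i)⁻¹) * (x ^ i * x ^ k * b * (x ^ i * x ^ k)⁻¹)
          = x ^ i * (a * (x ^ k * b * (x ^ k)⁻¹)) * (x ^ i)⁻¹ := by group
        _ = x ^ i * ((x ^ k * b * (x ^ k)⁻¹) * a) * (x ^ i)⁻¹ := by rw [h4]
        _ = _ := by group
    rintro g ⟨i, a, ha, rfl⟩ h ⟨j, b, hb, rfl⟩
    rcases le_total i j with hij | hij
    · exact h3 i j hij a ha b hb
    · exact (h3 j i hij b hb a ha).symm
  refine ⟨closure T, ?_, ?_, ?_, ?_⟩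
  · intro m hm
    exact subset_closure ⟨0, m, hm, by simp⟩
  · rw [closure_le]
    rintro g ⟨i, m, hm, rfl⟩
    exact conj_mem_of (pow_mem hxU i) (hM hm)
  · apply mem_normalizer_of
    intro y hy
    induction hy using closure_induction with
    | mem y hy =>
      obtain ⟨i, m, hm, rfl⟩ := hy
      refine subset_closure ⟨i + 1, m, hm, ?_⟩
      rw [pow_succ']; group
    | one => simp
    | mul a b _ _ iha ihb =>
      have : x * (a * b) * x⁻¹ = (x * a * x⁻¹) * (x * b * x⁻¹) := by group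
      rw [this]; exact mul_mem iha ihb
    | inv a _ iha =>
      have : x * a⁻¹ * x⁻¹ = (x * a * x⁻¹)⁻¹ := by group
      rw [this]; exact inv_mem iha
  · intro a ha b hb
    have h5 : closure T ≤ centralizer (T : Set G) := by
      rw [closure_le]
      intro g hg
      rw [SetLike.mem_coe, mem_centralizer_iff]
      intro h hh
      exact h2 h hh g hg
    have h6 : closure T ≤ centralizer ((closure T : Subgroup G) : Set G) := by
      rw [centralizer_closure]; exact h5
    exact (mem_centralizer_iff.1 (h6 hb) a ha)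

theorem norm_commutator {E : Subgroup G} {b : G} (hb : b ∈ normalizer (E : Set G)) :
    b ∈ normalizer ((⁅E, E⁆ : Subgroup G) : Set G) := by
  apply mem_normalizer_of
  intro y hy
  have h1 : ⁅E, E⁆ ≤ (⁅E, E⁆).comap (MulAut.conj b).toMonoidHom := by
    rw [commutator_le]
    intro g hg h hh
    rw [mem_comap, map_commutatorElement]
    exact commutator_mem_commutator (conj_mem_of hb hg) (conj_mem_of hb hh)
  exact h1 hy

/-- The faithful case. -/
theorem main_faithful {p q : ℕ} [hp : Fact p.Prime] [hq : Fact q.Prime] (hpq : p ≠ q) (hp2 : p ≠ 2)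
    (U B : Subgroup G) (H : Set G) (hU : IsPGroup q U) (hB : IsPGroup p B) (hBU : B ≤ normalizer (U : Set G))
    (hHB : H ⊆ B) (hBE : B ≤ normalizer ((closure H : Subgroup G) : Set G)) (hroot : ∀ h ∈ H, Rooted p U B h)
    (hf : B ⊓ centralizer (U : Set G) = ⊥)
    (IH : ∀ Y S : Subgroup G, Nat.card Y < Nat.card U → IsPGroup q Y → IsPGroup p S → S ≤ normalizer (Y : Set G) →
      H ⊆ S → S ≤ normalizer ((closure H : Subgroup G) : Set G) → (∀ h ∈ H, Rooted p Y S h) →
      ⁅closure H, closure H⁆ ≤ centralizer (Y : Set G)) :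
    ⁅closure H, closure H⁆ ≤ centralizer (U : Set G) := by
  classical
  by_contra hcon
  set E := closure H with hE
  have hEB : E ≤ B := (closure_le B).2 hHB
  have hAE : ⁅E, E⁆ ≤ E := commutator_le_self E
  have hAB : ⁅E, E⁆ ≤ B := hAE.trans hEB
  have hBA : B ≤ normalizer ((⁅E, E⁆ : Subgroup G) : Set G) := fun b hb => norm_commutator (hBE hb)
  have hcopA : (Nat.card (⁅E, E⁆ : Subgroup G)).Coprime q := by
    obtain ⟨k, hk⟩ := IsPGroup.iff_card.mp (hB.to_le hAB)
    rw [hk]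
    exact Nat.Coprime.pow_left k ((Nat.coprime_primes hp.out hq.out).2 hpq)
  have hltU : ∀ V : Subgroup G, V ≤ U → V ≠ U → Nat.card V < Nat.card U := fun V hV hVne =>
    lt_of_le_of_ne (Subgroup.card_le_of_le hV) fun h => hVne (Subgroup.eq_of_le_of_card_ge hV h.ge)
  have hmin : ∀ V : Subgroup G, V ≤ U → V ≠ U → B ≤ normalizer (V : Set G) →
      ⁅E, E⁆ ≤ centralizer (V : Set G) := by
    intro V hV hVne hBV
    refine IH V B (hltU V hV hVne) (hU.to_le hV) hB hBV hHB hBE ?_
    intro h hh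
    obtain ⟨h1, x, hx, j, hxj, hM⟩ := hroot h hh
    exact ⟨h1, x, hx, j, hxj, fun M hMV => hM M (hMV.trans hV)⟩
  obtain ⟨U', hU'U, hBU', hAU', hUA, -, hAΦ, hΦ, -, hΦc⟩ :=
    HHMin.exists_minimal2 U B ⁅E, E⁆ hU hcopA hAB hBA hBU hcon
  have hU'eq : U' = U := by
    by_contra hne
    exact hAU' (hmin U' hU'U hne hBU')
  subst hU'eq
  set Z : Subgroup G := U' ⊓ centralizer (U' : Set G) with hZ
  have hBZ : B ≤ normalizer (Z : Set G) := by
    intro b hb
    apply mem_normalizer_of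
    intro z hz
    refine Subgroup.mem_inf.2 ⟨conj_mem_of (hBU hb) hz.1, mem_centralizer_iff.2 fun u hu => ?_⟩
    have h1 : b⁻¹ * u * b ∈ U' := conj_mem_of' (hBU hb) hu
    have h2 := mem_centralizer_iff.1 hz.2 _ h1
    calc u * (b * z * b⁻¹) = b * ((b⁻¹ * u * b) * z) * b⁻¹ := by group
      _ = b * (z * (b⁻¹ * u * b)) * b⁻¹ := by rw [h2]
      _ = b * z * b⁻¹ * u := by group
  -- abelian `B`-invariant subgroups are centralised by `E`
  have habE : ∀ M : Subgroup G, M ≤ U' → (∀ a ∈ M, ∀ b ∈ M, a * b = b * a) → B ≤ normalizer (M : Set G) →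
      E ≤ centralizer (M : Set G) := by
    intro M hM hMab hBM
    rw [hE, closure_le]
    intro h hh
    rw [SetLike.mem_coe, mem_centralizer_iff]
    obtain ⟨h1, x, hx, j, hxj, hMM⟩ := hroot h hh
    intro m hm
    exact (hMM M hM hMab (hBM hx) m hm).symm
  have hZab : ∀ a ∈ Z, ∀ b ∈ Z, a * b = b * a := fun a ha b hb => mem_centralizer_iff.1 hb.2 a ha.1
  have hEZ := habE Z inf_le_left hZab hBZ
  have hUnab : ¬ U' ≤ Z := by
    intro h
    apply hcon
    refine hAE.trans (habE U' le_rfl ?_ hBU)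
    intro a ha b hb
    exact hZab a (h ha) b (h hb)
  have hΦZ : (frattini U').map U'.subtype ≤ Z := by
    intro f hf'
    refine Subgroup.mem_inf.2 ⟨?_, mem_centralizer_iff.2 fun u hu => hΦ f hf' u hu⟩
    obtain ⟨y, -, rfl⟩ := hf'
    exact y.2
  have hUU : ∀ u ∈ U', ∀ v ∈ U', u * v * u⁻¹ * v⁻¹ ∈ Z := fun u hu v hv => hΦZ (hΦc u hu v hv)
  have hprop : ∀ V : Subgroup G, V ≤ U' → V ≠ U' → B ≤ normalizer (V : Set G) → V ≤ Z := by
    intro V hV hVne hBV
    have hA1 : ⁅V, ⁅E, E⁆⁆ = ⊥ := by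
      rw [commutator_comm, commutator_eq_bot_iff_le_centralizer]
      exact hmin V hV hVne hBV
    have h1 : ⁅⁅V, ⁅E, E⁆⁆, U'⁆ = ⊥ := by rw [hA1, commutator_bot_left]
    have h2 : ⁅⁅U', V⁆, ⁅E, E⁆⁆ = ⊥ := by
      rw [eq_bot_iff]
      have h3 : ⁅U', V⁆ ≤ (frattini U').map U'.subtype := by
        rw [commutator_le]
        intro u hu v hv
        exact hΦc u hu v (hV hv)
      refine (commutator_mono h3 le_rfl).trans ?_
      rw [commutator_comm, commutator_eq_bot_iff_le_centralizer.2 hAΦ]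
    have h3 : ⁅⁅(⁅E, E⁆ : Subgroup G), U'⁆, V⁆ = ⊥ := commutator_commutator_eq_bot_of_rotate h2 h1
    rw [commutator_comm (⁅E, E⁆ : Subgroup G) U', hUA, commutator_eq_bot_iff_le_centralizer] at h3
    intro v hv
    refine Subgroup.mem_inf.2 ⟨hV hv, mem_centralizer_iff.2 fun u hu => ?_⟩
    exact (mem_centralizer_iff.1 (h3 hu) v hv).symm
  -- the normal subgroup of order `p²`
  obtain ⟨D, hDE, hBD, hDab, hDp, hDcard⟩ : ∃ D : Subgroup G, D ≤ E ∧ B ≤ normalizer (D : Set G) ∧
      IsMulCommutative D ∧ (∀ d ∈ D, d ^ p = 1) ∧ Nat.card D = p ^ 2 := by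
    have hSn : (E.subgroupOf B).Normal := by
      constructor
      intro e he b
      rw [mem_subgroupOf] at he ⊢
      exact conj_mem_of (hBE b.2) he
    have hSc : ¬ IsCyclic (E.subgroupOf B) := by
      intro hcyc
      have hcycE : IsCyclic E := (subgroupOfEquivOfLe hEB).isCyclic.1 hcyc
      apply hcon
      have h1 : ⁅E, E⁆ = ⊥ := by
        rw [eq_bot_iff, commutator_le]
        intro a ha b hb
        rw [mem_bot, commutatorElement_eq_one_iff_mul_comm]
        obtain ⟨g, hg⟩ := hcycE.exists_generator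
        obtain ⟨i, hi⟩ := mem_zpowers_iff.1 (hg ⟨a, ha⟩)
        obtain ⟨j, hj⟩ := mem_zpowers_iff.1 (hg ⟨b, hb⟩)
        have e1 : (⟨a, ha⟩ : E) * ⟨b, hb⟩ = ⟨b, hb⟩ * ⟨a, ha⟩ := by
          rw [← hi, ← hj, ← zpow_add, ← zpow_add, add_comm]
        exact congrArg Subtype.val e1
      rw [h1]
      exact bot_le
    obtain ⟨A₁, hA1, hA2, ⟨hA3, hA4⟩, hA5⟩ := NormalRankTwoIn.exists_normal_in hp2 hB (E.subgroupOf B) hSc
    refine ⟨A₁.map B.subtype, ?_, ?_, ?_, ?_, ?_⟩
    · rintro _ ⟨a, ha, rfl⟩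
      exact hA1 ha
    · intro b hb
      apply mem_normalizer_of
      rintro _ ⟨a, ha, rfl⟩
      exact ⟨⟨b, hb⟩ * a * ⟨b, hb⟩⁻¹, hA2.conj_mem a ha ⟨b, hb⟩, rfl⟩
    · rw [isMulCommutative_iff]
      rintro ⟨_, a, ha, rfl⟩ ⟨_, b, hb, rfl⟩
      apply Subtype.ext
      have e1 : a * b = b * a := congrArg Subtype.val ((isMulCommutative_iff.1 hA3) ⟨a, ha⟩ ⟨b, hb⟩)
      show (a : G) * (b : G) = (b : G) * (a : G)
      exact congrArg Subtype.val e1
    · rintro _ ⟨a, ha, rfl⟩
      have := congrArg Subtype.val (hA4 a ha)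
      exact this
    · rw [← hA5]
      exact Nat.card_congr (A₁.equivMapOfInjective _ B.subtype_injective).toEquiv.symm
  have hDc : ∀ c ∈ D, ∀ d ∈ D, c * d = d * c := by
    intro c hc d hd
    exact congrArg Subtype.val ((isMulCommutative_iff.1 hDab) ⟨c, hc⟩ ⟨d, hd⟩)
  have hDB : D ≤ B := hDE.trans hEB
  have hDnc : ¬ IsCyclic D := by
    intro hcyc
    obtain ⟨g, hg⟩ := hcyc.exists_generator
    have h1 : Nat.card D = orderOf g := (orderOf_eq_card_of_forall_mem_zpowers hg).symm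
    have h2 : orderOf g ∣ p := orderOf_dvd_of_pow_eq_one (Subtype.ext (hDp g g.2))
    rw [← h1, hDcard] at h2
    have h3 := Nat.le_of_dvd hp.out.pos h2
    have h4 := hp.out.one_lt
    nlinarith
  have hDU : D ≤ normalizer (U' : Set G) := hDB.trans hBU
  have hcopD : (Nat.card D).Coprime (Nat.card U') := by
    obtain ⟨k, hk⟩ := IsPGroup.iff_card.mp hU
    rw [hk, hDcard]
    exact Nat.Coprime.pow 2 k ((Nat.coprime_primes hp.out hq.out).2 hpq)
  have hfixD : ∀ u ∈ U', (∀ d ∈ D, d * u = u * d) → u ∈ Z := by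
    have hBV : B ≤ normalizer ((U' ⊓ centralizer (D : Set G) : Subgroup G) : Set G) := by
      intro b hb
      apply mem_normalizer_of
      intro v hv
      refine Subgroup.mem_inf.2 ⟨conj_mem_of (hBU hb) hv.1, mem_centralizer_iff.2 fun d hd => ?_⟩
      have h1 : b⁻¹ * d * b ∈ D := conj_mem_of' (hBD hb) hd
      have h2 := mem_centralizer_iff.1 hv.2 _ h1
      calc d * (b * v * b⁻¹) = b * ((b⁻¹ * d * b) * v) * b⁻¹ := by group
        _ = b * (v * (b⁻¹ * d * b)) * b⁻¹ := by rw [h2]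
        _ = b * v * b⁻¹ * d := by group
    have hne : U' ⊓ centralizer (D : Set G) ≠ U' := by
      intro h
      have h1 : D ≤ B ⊓ centralizer (U' : Set G) := by
        refine le_inf hDB ?_
        rw [le_centralizer_iff]
        exact inf_eq_left.1 h
      rw [hf, le_bot_iff] at h1
      rw [h1, Subgroup.card_bot] at hDcard
      have := Nat.one_lt_pow (two_ne_zero) hp.out.one_lt
      omega
    have hV := hprop _ inf_le_left hne hBV
    intro u hu hud
    exact hV (Subgroup.mem_inf.2 ⟨hu, mem_centralizer_iff.2 fun d hd => hud d hd⟩)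
  have hDZ : ∀ d ∈ D, ∀ z ∈ Z, d * z = z * d := fun d hd z hz =>
    (mem_centralizer_iff.1 (hEZ (hDE hd)) z hz).symm
  have hcen : ⁅⁅D, B⁆, B⁆ = ⊥ := by
    have hDp' : IsPGroup p D := hB.to_le hDB
    have hDne : D ≠ ⊥ := by
      rintro h
      rw [h, Subgroup.card_bot] at hDcard
      have := Nat.one_lt_pow (two_ne_zero) hp.out.one_lt
      omega
    have h1 := commutator_lt_of_pgroup hB hDp' hBD hDne
    have hB1 : B ≤ normalizer ((⁅D, B⁆ : Subgroup G) : Set G) := normalizer_commutator_ge_right D B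
    by_contra hne
    have h0 : ⁅D, B⁆ ≠ ⊥ := by
      intro h
      rw [h, commutator_bot_left] at hne
      exact hne rfl
    have h2 := commutator_lt_of_pgroup hB (hDp'.to_le h1.le) hB1 h0
    have hlt : ∀ X Y : Subgroup G, X < Y → Nat.card X < Nat.card Y := fun X Y h =>
      lt_of_le_of_ne (Subgroup.card_le_of_le h.le) fun h' => h.ne (Subgroup.eq_of_le_of_card_ge h.le h'.ge)
    have h3 := hlt _ _ h1
    have h4 := hlt _ _ h2
    obtain ⟨i, hi⟩ := IsPGroup.iff_card.mp (hDp'.to_le h1.le)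
    obtain ⟨j, hj⟩ := IsPGroup.iff_card.mp (hDp'.to_le (h2.le.trans h1.le))
    rw [hi, hDcard] at h3
    rw [hi, hj] at h4
    have h5 := (Nat.pow_lt_pow_iff_right hp.out.one_lt).1 h3
    have h6 := (Nat.pow_lt_pow_iff_right hp.out.one_lt).1 h4
    have h7 : j = 0 := by omega
    apply hne
    rw [← Subgroup.card_eq_one, hj, h7, pow_zero]
  -- generation
  apply hcon
  rw [le_centralizer_iff, ← CoprimeGen.iSup_centralizer_eq hDab hDnc hDU hcopD]
  refine iSup₂_le fun a ha => ?_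
  obtain ⟨haD, ha1⟩ := ha
  rw [le_centralizer_iff]
  set Y : Subgroup G := U' ⊓ centralizer ({a} : Set G) with hY
  by_cases hYZ : Y ≤ Z
  · refine hAE.trans (hEZ.trans ?_)
    exact centralizer_le hYZ
  obtain ⟨y, hyY, hyZ⟩ := SetLike.not_le_iff_exists.1 hYZ
  -- independence
  have hord : Nat.card (zpowers a) = p := by
    rw [Nat.card_zpowers]
    exact orderOf_eq_prime (hDp a haD) ha1
  have hgen : ∀ d ∈ D, d ∉ zpowers a → D ≤ closure {a, d} := by
    intro d hd hda
    have h1 : closure {a, d} ≤ D := by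
      rw [closure_le]
      rintro g (rfl | rfl)
      · exact haD
      · exact hd
    have h2 : zpowers a ≤ closure {a, d} := by
      rw [zpowers_le]; exact subset_closure (Or.inl rfl)
    have h3 : Nat.card (closure {a, d} : Subgroup G) ∣ p ^ 2 := hDcard ▸ Subgroup.card_dvd_of_le h1
    obtain ⟨k, hk, hk'⟩ := (Nat.dvd_prime_pow hp.out).1 h3
    have h4 : p < Nat.card (closure {a, d} : Subgroup G) := by
      rw [← hord]
      refine lt_of_le_of_ne (Subgroup.card_le_of_le h2) fun h => hda ?_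
      rw [Subgroup.eq_of_le_of_card_ge h2 h.ge]
      exact subset_closure (Or.inr rfl)
    have h5 : k = 2 := by
      rw [hk'] at h4
      have h6 : p ^ 1 < p ^ k := by rwa [pow_one]
      have := (Nat.pow_lt_pow_iff_right hp.out.one_lt).1 h6
      omega
    rw [h5, ← hDcard] at hk'
    exact (Subgroup.eq_of_le_of_card_ge h1 hk'.ge).ge
  have hYne : Y ≠ U' := by
    intro h
    have h1 : a ∈ B ⊓ centralizer (U' : Set G) := by
      refine Subgroup.mem_inf.2 ⟨hDB haD, mem_centralizer_iff.2 fun u hu => ?_⟩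
      rw [← h] at hu
      exact mem_centralizer_singleton_iff.1 hu.2
    rw [hf, mem_bot] at h1
    exact ha1 h1
  -- key commutation
  have hkey : ∀ x ∈ B, x ∉ normalizer ((zpowers a : Subgroup G) : Set G) → ∀ i : ℕ, ¬ p ∣ i → ∀ u ∈ Y, ∀ v ∈ Y,
      u * (x ^ i * v * (x ^ i)⁻¹) = (x ^ i * v * (x ^ i)⁻¹) * u := by
    intro x hx hxa i hi u hu v hv
    obtain ⟨ho1, ho2⟩ := orbit_facts hDB hBD hcen hDp hx haD hxa
    have hxi : x ^ i ∈ B := pow_mem hx i
    have hdD : x ^ i * a * (x ^ i)⁻¹ ∈ D := conj_mem_of (hBD hxi) haD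
    refine commute_of_cent hpq hU hDU hDp hDc hUU hDZ hfixD haD hdD (hgen _ hdD (ho1 i hi)) hu.1
      (mem_centralizer_singleton_iff.1 hu.2).symm (conj_mem_of (hBU hxi) hv.1) ?_
    have h1 := mem_centralizer_singleton_iff.1 hv.2
    calc x ^ i * a * (x ^ i)⁻¹ * (x ^ i * v * (x ^ i)⁻¹) = x ^ i * (a * v) * (x ^ i)⁻¹ := by group
      _ = x ^ i * (v * a) * (x ^ i)⁻¹ := by rw [h1]
      _ = _ := by group
  have hnorm : ∀ x ∈ B, x ∉ normalizer ((zpowers a : Subgroup G) : Set G) →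
      x ^ p ∈ normalizer ((zpowers a : Subgroup G) : Set G) := by
    intro x hx hxa
    obtain ⟨ho1, ho2⟩ := orbit_facts hDB hBD hcen hDp hx haD hxa
    apply mem_normalizer_of
    intro z hz
    obtain ⟨k, rfl⟩ := mem_zpowers_iff.1 hz
    rw [← conj_zpow, ho2]
    exact hz
  -- the roots
  have hroot' : ∀ h ∈ H, h ∈ normalizer ((zpowers a : Subgroup G) : Set G) ∧
      Rooted p Y (B ⊓ normalizer ((zpowers a : Subgroup G) : Set G)) h := by
    intro h hh
    obtain ⟨hhp, x, hxB, j, hxj, hM⟩ := hroot h hh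
    by_cases hxa : x ∈ normalizer ((zpowers a : Subgroup G) : Set G)
    · refine ⟨by rw [← hxj]; exact pow_mem hxa _, hhp, x, Subgroup.mem_inf.2 ⟨hxB, hxa⟩, j, hxj, ?_⟩
      intro M hMY
      exact hM M (hMY.trans inf_le_left)
    · have hxp := hnorm x hxB hxa
      cases j with
      | zero =>
        exfalso
        rw [pow_zero, pow_one] at hxj
        subst hxj
        obtain ⟨M, h1, h2, h3, h4⟩ := exists_orbit_closure (p := p) (U := U') (M₁ := zpowers y) (hBU hxB)
          (by rw [zpowers_le]; exact hyY.1) (by rw [hhp]; exact one_mem _)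
          (by
            intro c hc d hd
            obtain ⟨i, rfl⟩ := mem_zpowers_iff.1 hc
            obtain ⟨k, rfl⟩ := mem_zpowers_iff.1 hd
            rw [← zpow_add, ← zpow_add, add_comm])
          (fun i hi c hc d hd => hkey x hxB hxa i hi c ((zpowers_le.2 hyY) hc) d ((zpowers_le.2 hyY) hd))
        have h5 := hM M h2 h4 h3 y (h1 (mem_zpowers y))
        obtain ⟨ho1, ho2⟩ := orbit_facts hDB hBD hcen hDp hxB haD hxa
        have h6 := ho1 1 (by rw [Nat.dvd_one]; exact hp.out.ne_one)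
        rw [pow_one] at h6
        have h7 : x * a * x⁻¹ ∈ D := conj_mem_of (hBD hxB) haD
        have h8 : D ≤ centralizer ({y} : Set G) := by
          refine (hgen _ h7 h6).trans ?_
          rw [closure_le]
          have h9 := mem_centralizer_singleton_iff.1 hyY.2
          rintro g (rfl | rfl)
          · rw [SetLike.mem_coe, mem_centralizer_singleton_iff]
            exact h9.symm
          · rw [SetLike.mem_coe, mem_centralizer_singleton_iff]
            have h10 : x⁻¹ * y = y * x⁻¹ := by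
              rw [inv_mul_eq_iff_eq_mul, ← mul_assoc, h5, mul_assoc, mul_inv_cancel, mul_one]
            calc x * a * x⁻¹ * y = x * a * (x⁻¹ * y) := by group
              _ = x * (a * y) * x⁻¹ := by rw [h10]; group
              _ = (x * y) * a * x⁻¹ := by rw [← h9]; group
              _ = y * (x * a * x⁻¹) := by rw [h5]; group
        apply hyZ
        apply hfixD y hyY.1
        intro d hd
        exact mem_centralizer_singleton_iff.1 (h8 hd)
      | succ j =>
        have hxj' : (x ^ p) ^ p ^ j = h := by rw [← hxj, ← pow_mul]; congr 1; ring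
        refine ⟨by rw [← hxj']; exact pow_mem hxp _, hhp, x ^ p, Subgroup.mem_inf.2 ⟨pow_mem hxB p, hxp⟩, j, hxj', ?_⟩
        intro M₁ hM₁ hab hxM m hm
        obtain ⟨M, h1, h2, h3, h4⟩ := exists_orbit_closure (p := p) (U := U') (M₁ := M₁) (hBU hxB)
          (hM₁.trans inf_le_left) hxM hab
          (fun i hi c hc d hd => hkey x hxB hxa i hi c (hM₁ hc) d (hM₁ hd))
        exact hM M h2 h4 h3 m (h1 hm)
  refine IH Y (B ⊓ normalizer ((zpowers a : Subgroup G) : Set G)) (hltU Y inf_le_left hYne)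
    (hU.to_le inf_le_left) (hB.to_le inf_le_left) ?_ ?_ (inf_le_left.trans hBE) (fun h hh => (hroot' h hh).2)
  · intro b hb
    apply mem_normalizer_of
    intro v hv
    refine Subgroup.mem_inf.2 ⟨conj_mem_of (hBU hb.1) hv.1, ?_⟩
    have h1 : b⁻¹ * a * b ∈ zpowers a := conj_mem_of' hb.2 (mem_zpowers a)
    have h2 : zpowers a ≤ centralizer ({v} : Set G) := by
      rw [zpowers_le, mem_centralizer_singleton_iff]
      exact (mem_centralizer_singleton_iff.1 hv.2).symm
    have h3 := mem_centralizer_singleton_iff.1 (h2 h1)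
    rw [mem_centralizer_singleton_iff]
    calc b * v * b⁻¹ * a = b * (v * (b⁻¹ * a * b)) * b⁻¹ := by group
      _ = b * ((b⁻¹ * a * b) * v) * b⁻¹ := by rw [h3]
      _ = a * (b * v * b⁻¹) := by group
  · intro h hh
    exact Subgroup.mem_inf.2 ⟨hHB hh, (hroot' h hh).1⟩

end finite

end Cfsg.Agent.Lib.HHBlk
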