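import Mathlib
import Cfsg.Agent.Lib.HHBlk2

/-! Groups generated by powers acting on a `q`-group, part 3: the general case (helper63). -/

set_option autoImplicit false
open scoped commutatorElement

namespace Cfsg.Agent.Lib.HHBlk

open Subgroup

universe u

theorem main {p q : ℕ} [hp : Fact p.Prime] [hq : Fact q.Prime] (hpq : p ≠ q) (hp2 : p ≠ 2) : ∀ (n : ℕ)
    {G : Type u} [Group G] [Finite G] (U B : Subgroup G) (H : Set G), Nat.card U = n → IsPGroup q U →
    IsPGroup p B → B ≤ normalizer (U : Set G) → H ⊆ B → B ≤ normalizer ((closure H : Subgroup G) : Set G) →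
    (∀ h ∈ H, Rooted p U B h) → ⁅closure H, closure H⁆ ≤ centralizer (U : Set G) := by
  intro n
  induction n using Nat.strong_induction_on with
  | _ n ih =>
  intro G _ _ U B H hn hU hB hBU hHB hBE hroot
  let φ : B →* MulAut U := (U.normalizerMonoidHom).comp (Subgroup.inclusion hBU)
  have hφ : ∀ (b : B) (u : U), ((φ b u : U) : G) = b * u * (b : G)⁻¹ := fun b u => rfl
  let F : Subgroup (MulAut U) := φ.range
  haveI hFfin : Finite F := Set.finite_range φ
  haveI hGfin : Finite (U ⋊[F.subtype] F) := Finite.of_equiv _ (SemidirectProduct.equivProd (N := U) (G := F) (φ := F.subtype)).symm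
  let inl : U →* U ⋊[F.subtype] F := SemidirectProduct.inl
  let ψ : B →* U ⋊[F.subtype] F := SemidirectProduct.inr.comp φ.rangeRestrict
  have hconj : ∀ (b : B) (u : U), ψ b * inl u * (ψ b)⁻¹ = inl (φ b u) := by
    intro b u
    show SemidirectProduct.inr (φ.rangeRestrict b) * SemidirectProduct.inl u *
      (SemidirectProduct.inr (φ.rangeRestrict b))⁻¹ = SemidirectProduct.inl (φ b u)
    rw [← map_inv, ← SemidirectProduct.inl_aut]
    rfl
  have hinj : Function.Injective inl := SemidirectProduct.inl_injective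
  set U₂ := inl.range with hU₂
  set B₂ := ψ.range with hB₂
  set H₀ : Set B := {b : B | (b : G) ∈ H} with hH₀
  set H₂ : Set (U ⋊[F.subtype] F) := ψ '' H₀ with hH₂
  have hcl1 : (closure H₀).map B.subtype = closure H := by
    rw [MonoidHom.map_closure]
    congr 1
    ext g
    constructor
    · rintro ⟨b, hb, rfl⟩
      exact hb
    · intro hg
      exact ⟨⟨g, hHB hg⟩, hg, rfl⟩
  have hcl2 : (closure H₀).map ψ = closure H₂ := MonoidHom.map_closure _ _
  have hmem : ∀ b : B, b ∈ closure H₀ ↔ (b : G) ∈ closure H := by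
    intro b
    rw [← hcl1]
    constructor
    · intro hb
      exact ⟨b, hb, rfl⟩
    · rintro ⟨b', hb', h⟩
      have : b' = b := Subtype.ext h
      rwa [← this]
  have hres : ⁅closure H₂, closure H₂⁆ ≤ centralizer (U₂ : Set (U ⋊[F.subtype] F)) := by
    have hcardU : Nat.card U₂ = n := by
      rw [← hn]
      exact (Nat.card_congr (MonoidHom.ofInjective hinj).toEquiv).symm
    refine main_faithful hpq hp2 U₂ B₂ H₂ (hU.of_surjective inl.rangeRestrict inl.rangeRestrict_surjective)
      (hB.of_surjective ψ.rangeRestrict ψ.rangeRestrict_surjective) ?_ ?_ ?_ ?_ ?_ ?_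
    · rintro _ ⟨b, rfl⟩
      apply mem_normalizer_of
      rintro _ ⟨u, rfl⟩
      rw [hconj]
      exact ⟨_, rfl⟩
    · rintro _ ⟨b, -, rfl⟩
      exact ⟨b, rfl⟩
    · rw [← hcl2]
      rintro _ ⟨b, rfl⟩
      apply mem_normalizer_of
      rintro _ ⟨e, he, rfl⟩
      refine ⟨b * e * b⁻¹, ?_, by rw [map_mul, map_mul, map_inv]⟩
      rw [SetLike.mem_coe, hmem] at he ⊢
      exact conj_mem_of (hBE b.2) he
    · rintro _ ⟨h, hh, rfl⟩
      obtain ⟨h1, x, hx, j, hxj, hM⟩ := hroot h hh
      refine ⟨?_, ψ ⟨x, hx⟩, ⟨_, rfl⟩, j, ?_, ?_⟩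
      · rw [← map_pow]
        have : h ^ p = 1 := Subtype.ext h1
        rw [this, map_one]
      · rw [← map_pow]
        congr 1
        exact Subtype.ext hxj
      · intro M₂ hM₂ hab hxM m hm
        obtain ⟨u, rfl⟩ := hM₂ hm
        have h2 := hM ((M₂.comap inl).map U.subtype) (Subgroup.map_subtype_le _) (by
          rintro _ ⟨a, ha, rfl⟩ _ ⟨b, hb, rfl⟩
          have h3 := hab _ ha _ hb
          rw [← map_mul, ← map_mul] at h3
          exact congrArg Subtype.val (hinj h3)) (by
          apply mem_normalizer_of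
          rintro _ ⟨a, ha, rfl⟩
          refine ⟨φ ⟨x, hx⟩ a, ?_, rfl⟩
          show inl (φ ⟨x, hx⟩ a) ∈ M₂
          rw [← hconj]
          exact conj_mem_of hxM ha) u ⟨u, hm, rfl⟩
        have h3 : φ h u = u := by
          apply Subtype.ext
          rw [hφ, h2, mul_assoc, mul_inv_cancel, mul_one]
        have h4 := hconj h u
        rw [h3, mul_inv_eq_iff_eq_mul] at h4
        exact h4
    · rw [eq_bot_iff]
      rintro _ ⟨⟨b, rfl⟩, hb⟩
      have h1 : φ b = 1 := by
        apply MulEquiv.ext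
        intro u
        have h2 := mem_centralizer_iff.1 hb (inl u) ⟨u, rfl⟩
        have h3 := hconj b u
        rw [← h2, mul_assoc, mul_inv_cancel, mul_one] at h3
        exact (hinj h3).symm
      have h2 : φ.rangeRestrict b = 1 := Subtype.ext h1
      show ψ b = 1
      show SemidirectProduct.inr (φ.rangeRestrict b) = 1
      rw [h2, map_one]
    · intro Y S hY
      rw [hcardU] at hY
      exact ih _ hY Y S H₂ rfl
  rw [← hcl1, ← map_commutator]
  rintro _ ⟨c, hc, rfl⟩
  have h1 : ψ c ∈ ⁅closure H₂, closure H₂⁆ := by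
    rw [← hcl2, ← map_commutator]
    exact ⟨c, hc, rfl⟩
  rw [mem_centralizer_iff]
  intro u hu
  have h2 := mem_centralizer_iff.1 (hres h1) (inl ⟨u, hu⟩) ⟨_, rfl⟩
  have h3 := hconj c ⟨u, hu⟩
  rw [← h2, mul_assoc, mul_inv_cancel, mul_one] at h3
  have h4 := congrArg Subtype.val (hinj h3)
  rw [hφ] at h4
  show u * (c : G) = (c : G) * u
  have h5 : u = (c : G) * u * (c : G)⁻¹ := h4
  calc u * (c : G) = ((c : G) * u * (c : G)⁻¹) * c := by rw [← h5]
    _ = (c : G) * u := by group

end Cfsg.Agent.Lib.HHBlk
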