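import Mathlib
import Cfsg.Agent.Lib.HHWt
import Cfsg.Agent.Lib.HHMin
import Cfsg.Agent.Lib.HHMain2
import Cfsg.Agent.Lib.HallHigman

/-! Quadratic action of derived subgroups, for the derived length theorem of Hall and Higman (helper63). -/

set_option autoImplicit false
open scoped commutatorElement

namespace Cfsg.Agent.Lib.HHDer

open Module Subgroup Cfsg.Agent.Lib.HHWt Cfsg.Agent.Lib.HHLin Cfsg

/-- a `p`-group moving a `q`-subgroup of `O_{p'}`. -/
theorem exists_moved {p : ℕ} [hp : Fact p.Prime] {G : Type*} [Group G] [Finite G] (hsol : IsPSolvable p G)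
    (hOp : pCore p G = ⊥) (B A : Subgroup G) (hB : IsPGroup p B) (hAB : A ≤ B) (hA : A ≠ ⊥) :
    ∃ (q : ℕ) (Q : Subgroup G), q.Prime ∧ q ≠ p ∧ IsPGroup q Q ∧ B ≤ normalizer (Q : Set G) ∧
      ¬ A ≤ centralizer (Q : Set G) := by
  classical
  by_contra hcon
  push Not at hcon
  set N := pPrimeCore p G with hN
  have hNn : N.Normal := inferInstance
  have hNcop : (Nat.card N).Coprime p := Cfsg.Agent.Lib.H32Cores.pPrimeCore_coprime p
  obtain ⟨k, hk⟩ := IsPGroup.iff_card.mp hB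
  have hcop : (Nat.card B).Coprime (Nat.card N) := by
    rw [hk]; exact Nat.Coprime.pow_left k hNcop.symm
  have hBN : B ≤ Subgroup.normalizer (N : Set G) := by rw [Subgroup.normalizer_eq_top]; exact le_top
  have hBs : Group.IsSolvable B := by
    have := hB.isNilpotent
    infer_instance
  have hle : N ≤ Subgroup.centralizer (A : Set G) := by
    have h1 : (N ⊓ Subgroup.centralizer (A : Set G)).relIndex N = 1 := by
      by_contra hne
      obtain ⟨s, hsp, hd⟩ := Nat.exists_prime_and_dvd hne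
      have : Fact s.Prime := ⟨hsp⟩
      obtain ⟨S, hSN, hSp, hSi, hBS⟩ := Cfsg.Agent.Lib.CoprimeAction.exists_invariant_sylow hBN hcop (Or.inl hBs) s
      have hsp' : s ≠ p := by
        rintro rfl
        have h2 : s ∣ Nat.card N := hd.trans (Subgroup.relIndex_dvd_card _ _)
        exact (Nat.Prime.coprime_iff_not_dvd hp.out).mp hNcop.symm h2
      have h3 : S ≤ N ⊓ Subgroup.centralizer (A : Set G) := by
        apply le_inf hSN
        have h4 := hcon s S hsp hsp' hSp hBS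
        rw [Subgroup.le_centralizer_iff]
        exact h4
      exact hSi (hd.trans (Subgroup.relIndex_dvd_of_le_left N h3))
    exact (Subgroup.relIndex_eq_one.mp h1).trans inf_le_right
  have hAN : A ≤ N := by
    refine le_trans ?_ (Cfsg.Agent.Lib.PSolvDual.centralizer_pPrimeCore_le hsol hOp)
    rw [Subgroup.le_centralizer_iff]
    exact hle
  apply hA
  rw [← Subgroup.card_eq_one]
  have h2 : Nat.card A ∣ Nat.gcd (Nat.card B) (Nat.card N) :=
    Nat.dvd_gcd (Subgroup.card_dvd_of_le hAB) (Subgroup.card_dvd_of_le hAN)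
  rw [hcop.gcd_eq_one, Nat.dvd_one] at h2
  exact h2

section weights

variable {K : Type*} [Field K] [IsAlgClosed K] {p : ℕ} [hp : Fact p.Prime] [CharP K p] {V : Type*} [AddCommGroup V]
  [Module K V] [FiniteDimensional K V] {G : Type*} [Group G] [Finite G]

/-- quadratic elements centralise abelian `p'`-groups. -/
theorem quad_abelian (hp2 : p ≠ 2) (ρ : G →* Module.End K V) (M : Subgroup G) (hM : (Nat.card M : K) ≠ 0)
    (hcomm : ∀ a ∈ M, ∀ b ∈ M, ρ a * ρ b = ρ b * ρ a) {a : G} (ha : a ∈ normalizer (M : Set G))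
    (hquad : (ρ a - 1) ^ 2 = 0) {m : G} (hm : m ∈ M) : ρ (a⁻¹ * m * a) = ρ m := by
  have hp1 : 2 ≤ p - 1 := by
    have := hp.out.two_le
    omega
  have hmem : ∀ m ∈ M, a⁻¹ * m * a ∈ M := by
    intro m hm
    have := (Subgroup.mem_normalizer_iff.mp (Subgroup.inv_mem _ ha) m).mp hm
    rwa [inv_inv] at this
  have hap : ρ (a ^ p) = 1 := by
    have h1 := sub_one_pow (K := K) (p := p) (ρ a) 1
    rw [pow_one] at h1
    have h2 : (ρ a - 1) ^ p = 0 := by
      have : p = 2 + (p - 2) := by omega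
      rw [this, pow_add, hquad, zero_mul]
    rw [h2] at h1
    rw [map_pow]
    exact (sub_eq_zero.1 h1.symm)
  refine ext_wt ρ M hM hcomm _ _ fun l v hv hv0 => ?_
  rw [hv _ (hmem m hm), hv m hm]
  congr 1
  by_contra hne
  have hast : a ∉ stab M l := by
    rintro ⟨-, h⟩
    exact hne (h m hm)
  have hapst : a ^ (p ^ 1) ∈ stab M l := by
    rw [pow_one]
    refine ⟨pow_mem ha p, fun m' hm' => ?_⟩
    have hmem' : (a ^ p)⁻¹ * m' * a ^ p ∈ M := by
      have := (Subgroup.mem_normalizer_iff.mp (Subgroup.inv_mem _ (pow_mem ha p)) m').mp hm'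
      rwa [inv_inv] at this
    have h1 : ρ ((a ^ p)⁻¹ * m' * a ^ p) = ρ m' := by
      have h2 : ρ ((a ^ p)⁻¹) = 1 := by
        have h3 : ρ ((a ^ p)⁻¹) * ρ (a ^ p) = 1 := by rw [← map_mul, inv_mul_cancel, map_one]
        rwa [hap, mul_one] at h3
      rw [map_mul, map_mul, hap, h2, one_mul, mul_one]
    have h2 := hv _ hmem'
    rw [h1, hv m' hm'] at h2
    exact (smul_left_injective K hv0 h2).symm
  obtain ⟨t, ht1, ht2, ht3⟩ := exists_least hp.out hapst
  have ht : t = 1 := by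
    rcases Nat.eq_zero_or_pos t with h0 | h0
    · rw [h0, pow_zero, pow_one] at ht2
      exact absurd ht2 hast
    · omega
  rw [ht] at ht3
  have h3 := sub_one_pow_ne_zero ρ ha 1 ht3 hv hv0
  apply h3
  have : p ^ 1 - 1 = (p - 1 - 2) + 2 := by rw [pow_one]; omega
  rw [this, pow_add, hquad, mul_zero, LinearMap.zero_apply]

/-- the version for a submodule. -/
theorem quad_abelian_sub (hp2 : p ≠ 2) (ρ : G →* Module.End K V) (W : Submodule K V) (M : Subgroup G)
    (hM : (Nat.card M : K) ≠ 0) {a : G} (hMW : ∀ m ∈ M, ∀ w ∈ W, ρ m w ∈ W) (haW : ∀ w ∈ W, ρ a w ∈ W)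
    (hcomm : ∀ m ∈ M, ∀ m' ∈ M, ∀ w ∈ W, ρ m (ρ m' w) = ρ m' (ρ m w)) (ha : a ∈ normalizer (M : Set G))
    (hquad : ∀ w ∈ W, (ρ a - 1) ((ρ a - 1) w) = 0) {m : G} (hm : m ∈ M) {w : V} (hw : w ∈ W) :
    ρ (a⁻¹ * m * a) w = ρ m w := by
  classical
  let G₁ : Subgroup G :=
    { carrier := {g | ∀ w ∈ W, ρ g w ∈ W}
      mul_mem' := by
        intro g h hg hh w hw
        rw [map_mul]
        exact hg _ (hh w hw)
      one_mem' := by
        intro w hw
        rw [map_one]
        exact hw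
      inv_mem' := by
        intro g hg w hw
        have h1 : ∀ n : ℕ, ∀ w ∈ W, ρ (g ^ n) w ∈ W := by
          intro n
          induction n with
          | zero => intro w hw; rw [pow_zero, map_one]; exact hw
          | succ n ih => intro w hw; rw [pow_succ, map_mul]; exact ih _ (hg w hw)
        have h2 : g⁻¹ = g ^ (orderOf g - 1) := by
          rw [inv_eq_iff_mul_eq_one, ← pow_succ', Nat.sub_add_cancel (orderOf_pos g), pow_orderOf_eq_one]
        show ρ g⁻¹ w ∈ W
        rw [h2]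
        exact h1 _ w hw }
  let ρ₁ : G₁ →* Module.End K W :=
    { toFun := fun g => (ρ g).restrict g.2
      map_one' := by
        ext w
        show (((ρ ((1 : G₁) : G)) (w : V)) : V) = w
        rw [OneMemClass.coe_one, map_one]; rfl
      map_mul' := by
        intro g h
        ext w
        show (((ρ ((g * h : G₁) : G)) (w : V)) : V) = ρ g (ρ h w)
        rw [Subgroup.coe_mul, map_mul]; rfl }
  have hρ₁ : ∀ (g : G₁) (w : W), ((ρ₁ g w : W) : V) = ρ g w := fun g w => rfl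
  have hMG : M ≤ G₁ := fun m hm => hMW m hm
  have h := quad_abelian hp2 ρ₁ (M.subgroupOf G₁)
    (by rw [Nat.card_congr (subgroupOfEquivOfLe hMG).toEquiv]; exact hM)
    (by
      intro m hm m' hm'
      ext w
      rw [Module.End.mul_apply, Module.End.mul_apply, hρ₁, hρ₁, hρ₁, hρ₁]
      exact hcomm m hm m' hm' w w.2)
    (a := ⟨a, haW⟩)
    (by
      rw [mem_normalizer_iff]
      intro x
      exact mem_normalizer_iff.1 ha x)
    (by
      ext w
      rw [pow_two, Module.End.mul_apply]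
      have := hquad w w.2
      rw [LinearMap.sub_apply, Module.End.one_apply] at this
      show (((ρ₁ ⟨a, haW⟩ - 1) ((ρ₁ ⟨a, haW⟩ - 1) w) : W) : V) = 0
      rw [← this]
      rfl)
    (m := ⟨m, hMG hm⟩) hm
  have h2 := congrArg (fun T => ((T ⟨w, hw⟩ : W) : V)) h
  exact h2

end weights

section conf

variable {K : Type*} [Field K] [IsAlgClosed K] {p : ℕ} [hp : Fact p.Prime] [CharP K p] {V : Type*} [AddCommGroup V]
  [Module K V] [FiniteDimensional K V] {G : Type*} [Group G] [Finite G]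

/-- a minimal configuration with quadratic action. -/
structure Conf (p q : ℕ) (ρ : G →* Module.End K V) (U B A : Subgroup G) : Prop where
  inj : Function.Injective ρ
  hpq : p ≠ q
  hU : IsPGroup q U
  hB : IsPGroup p B
  hAB : A = ⁅B, B⁆
  hAB' : A ≤ B
  hBU : B ≤ normalizer (U : Set G)
  hAU : ¬ A ≤ centralizer (U : Set G)
  hUA : ⁅U, A⁆ = U
  hmin : ∀ V : Subgroup G, V ≤ U → V ≠ U → B ≤ normalizer (V : Set G) → A ≤ centralizer (V : Set G)
  hΦ : ∀ f ∈ (frattini U).map U.subtype, ∀ u ∈ U, u * f = f * u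
  hΦp : ∀ u ∈ U, u ^ q ∈ (frattini U).map U.subtype
  hΦc : ∀ u ∈ U, ∀ v ∈ U, u * v * u⁻¹ * v⁻¹ ∈ (frattini U).map U.subtype
  quad : ∀ a ∈ A, (ρ a - 1) ^ 2 = 0
  cub : ∀ a ∈ A, ∀ b ∈ B, (ρ a - 1) * ((ρ b - 1) * (ρ b - 1)) = 0

variable {q : ℕ} [hq : Fact q.Prime] {ρ : G →* Module.End K V} {U B A : Subgroup G}

omit [IsAlgClosed K] [CharP K p] [FiniteDimensional K V] [Finite G] hp hq in
theorem Conf.Φ_le (C : Conf p q ρ U B A) : (frattini U).map U.subtype ≤ U ⊓ centralizer (U : Set G) := by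
  intro f hf
  refine Subgroup.mem_inf.2 ⟨?_, mem_centralizer_iff.2 fun u hu => C.hΦ f hf u hu⟩
  obtain ⟨y, -, rfl⟩ := hf
  exact y.2

include hp hq in
omit [IsAlgClosed K] [FiniteDimensional K V] in
theorem Conf.card_ne (C : Conf p q ρ U B A) {M : Subgroup G} (hM : M ≤ U) : (Nat.card M : K) ≠ 0 := by
  obtain ⟨k, hk⟩ := IsPGroup.iff_card.mp (C.hU.to_le hM)
  rw [hk, Nat.cast_pow]
  apply pow_ne_zero
  intro h
  rw [CharP.cast_eq_zero_iff K p] at h
  exact C.hpq ((Nat.prime_dvd_prime_iff_eq hp.out hq.out).mp h)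

include hq in
theorem Conf.nonab (C : Conf p q ρ U B A) (hp2 : p ≠ 2) : ∃ u ∈ U, ∃ v ∈ U, u * v ≠ v * u := by
  by_contra hcon
  push Not at hcon
  apply C.hAU
  intro a ha
  rw [mem_centralizer_iff]
  intro u hu
  have h1 := quad_abelian hp2 ρ U (C.card_ne le_rfl)
    (fun x hx y hy => by rw [← map_mul, ← map_mul, hcon x hx y hy]) (C.hBU (C.hAB' ha)) (C.quad a ha) hu
  have h2 := C.inj h1
  calc u * a = a * (a⁻¹ * u * a) := by group
    _ = a * u := by rw [h2]

omit [IsAlgClosed K] [CharP K p] [FiniteDimensional K V] [Finite G] hp hq in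
theorem conj_mem_Z (C : Conf p q ρ U B A) {b z : G} (hb : b ∈ B) (hz : z ∈ U ⊓ centralizer (U : Set G)) :
    b * z * b⁻¹ ∈ U ⊓ centralizer (U : Set G) := by
  have hbn := C.hBU hb
  refine Subgroup.mem_inf.2 ⟨(mem_normalizer_iff.1 hbn z).1 hz.1, mem_centralizer_iff.2 fun u hu => ?_⟩
  have h1 : b⁻¹ * u * b ∈ U := by
    have := (mem_normalizer_iff.1 (inv_mem hbn) u).1 hu
    rwa [inv_inv] at this
  have h2 := mem_centralizer_iff.1 hz.2 _ h1
  calc u * (b * z * b⁻¹) = b * ((b⁻¹ * u * b) * z) * b⁻¹ := by group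
    _ = b * (z * (b⁻¹ * u * b)) * b⁻¹ := by rw [h2]
    _ = b * z * b⁻¹ * u := by group

omit [IsAlgClosed K] [CharP K p] [FiniteDimensional K V] hp hq in
theorem Conf.B_le_Z (C : Conf p q ρ U B A) : B ≤ normalizer ((U ⊓ centralizer (U : Set G) : Subgroup G) : Set G) := by
  intro b hb
  have := Fintype.ofFinite (U ⊓ centralizer (U : Set G) : Subgroup G)
  exact mem_normalizer_fintype fun z hz => conj_mem_Z C hb hz

include hq in
theorem Conf.A_cent (C : Conf p q ρ U B A) (hp2 : p ≠ 2) : A ≤ centralizer ((U ⊓ centralizer (U : Set G) : Subgroup G) : Set G) := by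
  apply C.hmin _ inf_le_left _ C.B_le_Z
  intro h
  obtain ⟨u, hu, v, hv, huv⟩ := C.nonab hp2
  apply huv
  have h1 : u ∈ U ⊓ centralizer (U : Set G) := by rw [h]; exact hu
  exact (mem_centralizer_iff.1 h1.2 v hv).symm

omit [IsAlgClosed K] [CharP K p] [FiniteDimensional K V] hp hq in
theorem act_trivial_of_A (C : Conf p q ρ U B A) (W : Submodule K V) (hUW : ∀ u ∈ U, ∀ w ∈ W, ρ u w ∈ W)
    (hA : ∀ a ∈ A, ∀ w ∈ W, ρ a w = w) : ∀ u ∈ U, ∀ w ∈ W, ρ u w = w := by
  classical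
  let Tr : Subgroup G :=
    { carrier := {g | ∀ w ∈ W, ρ g w = w}
      mul_mem' := by
        intro g h hg hh w hw
        rw [map_mul, Module.End.mul_apply, hh w hw, hg w hw]
      one_mem' := by
        intro w _
        rw [map_one]; rfl
      inv_mem' := by
        intro g hg w hw
        have h1 : ρ (g⁻¹ * g) w = w := by rw [inv_mul_cancel, map_one]; rfl
        rw [map_mul, Module.End.mul_apply, hg w hw] at h1
        exact h1 }
  have hle : ⁅U, A⁆ ≤ Tr := by
    rw [commutator_le]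
    intro u hu a ha w hw
    rw [commutatorElement_def, map_mul, map_mul, map_mul, Module.End.mul_apply, Module.End.mul_apply,
      Module.End.mul_apply, hA a⁻¹ (inv_mem ha) w hw, hA a ha _ (hUW _ (inv_mem hu) w hw),
      ← Module.End.mul_apply, ← map_mul, mul_inv_cancel, map_one]
    rfl
  rw [C.hUA] at hle
  exact fun u hu w hw => hle hu w hw

include hq in
theorem Conf.exists_weight (C : Conf p q ρ U B A) (hp2 : p ≠ 2) :
    ∃ l : G → K, ∃ c ∈ U ⊓ centralizer (U : Set G), l c ≠ 1 ∧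
      (∃ v ∈ wt ρ (U ⊓ centralizer (U : Set G)) l, v ≠ 0) ∧ B ≤ stab (U ⊓ centralizer (U : Set G)) l := by
  classical
  obtain ⟨u, hu, v, hv, huv⟩ := C.nonab hp2
  set Z : Subgroup G := U ⊓ centralizer (U : Set G) with hZ
  have hAZ := C.A_cent hp2
  have hcZ : u * v * u⁻¹ * v⁻¹ ∈ Z := C.Φ_le (C.hΦc u hu v hv)
  have hc1 : ρ (u * v * u⁻¹ * v⁻¹) ≠ 1 := by
    intro h
    have h1 : u * v * u⁻¹ * v⁻¹ = 1 := C.inj (by rw [h, map_one])
    apply huv
    rw [mul_inv_eq_one, mul_inv_eq_iff_eq_mul] at h1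
    exact h1
  have hZcomm : ∀ a ∈ Z, ∀ b ∈ Z, ρ a * ρ b = ρ b * ρ a := by
    intro a ha b hb
    rw [← map_mul, ← map_mul, mem_centralizer_iff.1 hb.2 a ha.1]
  obtain ⟨l, w₀, hw₀, hw₀0, hne⟩ : ∃ l, ∃ w ∈ wt ρ Z l, w ≠ 0 ∧ ρ (u * v * u⁻¹ * v⁻¹) w ≠ (1 : Module.End K V) w := by
    by_contra hcon
    push Not at hcon
    exact hc1 (ext_wt ρ Z (C.card_ne inf_le_left) hZcomm _ _ hcon)
  have hlc : l (u * v * u⁻¹ * v⁻¹) ≠ 1 := by
    intro h
    apply hne
    rw [hw₀ _ hcZ, h, one_smul]; rfl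
  refine ⟨l, _, hcZ, hlc, ⟨w₀, hw₀, hw₀0⟩, ?_⟩
  by_contra hBst
  obtain ⟨b, hb, hbst⟩ := SetLike.not_le_iff_exists.1 hBst
  -- `A` acts trivially on the weight space
  have hbn : b ∈ normalizer (Z : Set G) := C.B_le_Z hb
  have hb2 : b ^ 2 ∉ stab Z l := by
    intro h
    apply hbst
    obtain ⟨k, hk⟩ := (IsPGroup.iff_orderOf.mp C.hB) ⟨b, hb⟩
    rw [Subgroup.orderOf_mk] at hk
    have hodd : Odd (orderOf b) := by rw [hk]; exact (hp.out.odd_of_ne_two hp2).pow
    obtain ⟨j, hj⟩ := hodd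
    have h1 : b = (b ^ 2) ^ (j + 1) := by
      rw [← pow_mul, show 2 * (j + 1) = (2 * j + 1) + 1 by ring, pow_succ, ← hj, pow_orderOf_eq_one, one_mul]
    rw [h1]
    exact pow_mem h _
  have hawt : ∀ (a : G) (l' : G → K) (w : V), a ∈ A → w ∈ wt ρ Z l' → (ρ a - 1) w ∈ wt ρ Z l' := by
    intro a l' w ha hw
    have h1 : ρ a w ∈ wt ρ Z l' := by
      intro z hz
      have h2 : z * a = a * z := mem_centralizer_iff.1 (hAZ ha) z hz
      rw [← Module.End.mul_apply, ← map_mul, h2, map_mul, Module.End.mul_apply, hw z hz, map_smul]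
    exact Submodule.sub_mem _ h1 hw
  have hAtriv : ∀ a ∈ A, ∀ w ∈ wt ρ Z l, ρ a w = w := by
    intro a ha w hw
    by_contra hne
    have hne' : (ρ a - 1) w ≠ 0 := by
      rw [LinearMap.sub_apply, Module.End.one_apply, sub_ne_zero]
      exact hne
    let vs : ℕ → V := fun i => if i = 0 then (ρ a - 1) w else if i = 1 then (-2 : K) • (ρ a - 1) (ρ b w) else
      (ρ a - 1) (ρ (b ^ 2) w)
    let ls : ℕ → G → K := fun i z => l ((b ^ i)⁻¹ * z * b ^ i)
    have hvs : ∀ i < 3, vs i ∈ wt ρ Z (ls i) := by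
      intro i hi
      have hcases : i = 0 ∨ i = 1 ∨ i = 2 := by omega
      rcases hcases with rfl | rfl | rfl
      · show (ρ a - 1) w ∈ wt ρ Z (fun z => l ((b ^ 0)⁻¹ * z * b ^ 0))
        have : (fun z => l ((b ^ 0)⁻¹ * z * b ^ 0)) = l := by
          funext z; simp
        rw [this]
        exact hawt a l w ha hw
      · show (-2 : K) • (ρ a - 1) (ρ b w) ∈ wt ρ Z (fun z => l ((b ^ 1)⁻¹ * z * b ^ 1))
        have : (fun z => l ((b ^ 1)⁻¹ * z * b ^ 1)) = (fun z => l (b⁻¹ * z * b)) := by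
          funext z; simp
        rw [this]
        exact Submodule.smul_mem _ _ (hawt a _ _ ha (apply_mem_wt ρ hbn hw))
      · show (ρ a - 1) (ρ (b ^ 2) w) ∈ wt ρ Z (fun z => l ((b ^ 2)⁻¹ * z * b ^ 2))
        exact hawt a _ _ ha (apply_mem_wt ρ (pow_mem hbn 2) hw)
    have hsum := sum_ne_zero ρ Z 3 (by norm_num) vs ls hvs (by
      intro i hi0 hi3
      have hcases : i = 1 ∨ i = 2 := by omega
      have hstab : ∀ g ∈ normalizer (Z : Set G), g ∉ stab Z l → ∃ z ∈ Z, l z ≠ l (g⁻¹ * z * g) := by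
        intro g hg hgst
        by_contra hcon
        push Not at hcon
        exact hgst ⟨hg, fun z hz => (hcon z hz).symm⟩
      have h0 : ∀ z, ls 0 z = l z := by
        intro z
        show l ((b ^ 0)⁻¹ * z * b ^ 0) = l z
        simp
      rcases hcases with rfl | rfl
      · obtain ⟨z, hz, h⟩ := hstab b hbn hbst
        refine ⟨z, hz, ?_⟩
        rw [h0]
        show l z ≠ l ((b ^ 1)⁻¹ * z * b ^ 1)
        rw [pow_one]; exact h
      · obtain ⟨z, hz, h⟩ := hstab (b ^ 2) (pow_mem hbn 2) hb2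
        refine ⟨z, hz, ?_⟩
        rw [h0]
        exact h) hne'
    apply hsum
    have h1 := LinearMap.congr_fun (C.cub a ha b hb) w
    rw [Finset.sum_range_succ, Finset.sum_range_succ, Finset.sum_range_one]
    show (ρ a - 1) w + (-2 : K) • (ρ a - 1) (ρ b w) + (ρ a - 1) (ρ (b ^ 2) w) = 0
    rw [Module.End.mul_apply, Module.End.mul_apply, LinearMap.zero_apply] at h1
    rw [← h1, pow_two, map_mul, Module.End.mul_apply, LinearMap.sub_apply (ρ b) 1 w, Module.End.one_apply,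
      LinearMap.sub_apply (ρ b) 1, Module.End.one_apply, map_sub (ρ b), ← map_smul, ← map_add, ← map_add]
    congr 1
    rw [neg_smul, two_smul]
    abel
  have hUW : ∀ u ∈ U, ∀ w ∈ wt ρ Z l, ρ u w ∈ wt ρ Z l := by
    intro u hu w hw z hz
    have h2 : z * u = u * z := (mem_centralizer_iff.1 hz.2 u hu).symm
    rw [← Module.End.mul_apply, ← map_mul, h2, map_mul, Module.End.mul_apply, hw z hz, map_smul]
  have h3 := act_trivial_of_A C (wt ρ Z l) hUW hAtriv _ hcZ.1 w₀ hw₀
  apply hne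
  rw [h3]; rfl

end conf

end Cfsg.Agent.Lib.HHDer
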