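import Mathlib
import Cfsg.Agent.Lib.HHBlk3
import Cfsg.Agent.Lib.HHDer
import Cfsg.Agent.Lib.HHExp

/-! The bound `l_p ≤ 2 e_p` of Hall and Higman (helper63). -/

set_option autoImplicit false
open scoped commutatorElement

namespace Cfsg.Agent.Lib.HHBlk

open Module Subgroup Cfsg.Agent.Lib.HHWt Cfsg.Agent.Lib.HHLin Cfsg.Agent.Lib.HHExp Cfsg.Agent.Lib.PLength
open Cfsg.Agent.Lib.FratRep Cfsg.Agent.Lib.HallHigman Cfsg

universe u

theorem cent_closed {K : Type*} [Field K] [IsAlgClosed K] {p : ℕ} [hp : Fact p.Prime] [CharP K p] {V : Type*}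
    [AddCommGroup V] [Module K V] [FiniteDimensional K V] {G : Type*} [Group G] [Finite G]
    (ρ : G →* Module.End K V) (hρ : Function.Injective ρ) (M : Subgroup G) (hM : (Nat.card M : K) ≠ 0)
    (hab : ∀ a ∈ M, ∀ b ∈ M, a * b = b * a) {x : G} (hx : x ∈ normalizer (M : Set G)) (n : ℕ) (hn : 1 ≤ n)
    (hxn : x ^ p ^ n = 1) (hnil : (ρ x - 1) ^ (p ^ n - 1) = 0) :
    ∀ m ∈ M, x ^ p ^ (n - 1) * m = m * x ^ p ^ (n - 1) := by
  intro m hm
  set h := x ^ p ^ (n - 1) with hh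
  have hhM : h ∈ normalizer (M : Set G) := pow_mem hx _
  have key : ρ (h⁻¹ * m * h) = ρ m := by
    refine ext_wt ρ M hM (fun a ha b hb => by rw [← map_mul, ← map_mul, hab a ha b hb]) _ _ fun l v hv hv0 => ?_
    have hmem : h⁻¹ * m * h ∈ M := by
      have := (Subgroup.mem_normalizer_iff.mp (Subgroup.inv_mem _ hhM) m).mp hm
      rwa [inv_inv] at this
    rw [hv _ hmem, hv m hm]
    congr 1
    by_contra hne
    have hst : h ∉ stab M l := by
      rintro ⟨-, h'⟩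
      exact hne (h' m hm)
    have h1 : x ^ (p ^ n) ∈ stab M l := by rw [hxn]; exact one_mem _
    obtain ⟨t, ht1, ht2, ht3⟩ := exists_least hp.out h1
    have ht : t = n := by
      by_contra hne'
      apply hst
      have h2 : p ^ (n - 1) = p ^ t * p ^ (n - 1 - t) := by rw [← pow_add]; congr 1; omega
      rw [hh, h2, pow_mul]
      exact pow_mem ht2 _
    rw [ht] at ht3
    have h3 := sub_one_pow_ne_zero ρ hx n ht3 hv hv0
    apply h3
    rw [hnil, LinearMap.zero_apply]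
  have h2 := hρ key
  calc h * m = h * (h⁻¹ * m * h) := by rw [h2]
    _ = m * h := by group

theorem cent_field {p : ℕ} [hp : Fact p.Prime] {V : Type u}
    [AddCommGroup V] [Module (ZMod p) V] [Finite V] {G : Type u} [Group G] [Finite G]
    (σ : G →* Module.End (ZMod p) V) (hσ : Function.Injective σ) (M : Subgroup G) (hM : ¬ p ∣ Nat.card M)
    (hab : ∀ a ∈ M, ∀ b ∈ M, a * b = b * a) {x : G} (hx : x ∈ normalizer (M : Set G)) (n : ℕ) (hn : 1 ≤ n)
    (hxn : x ^ p ^ n = 1) (hnil : (σ x - 1) ^ (p ^ n - 1) = 0) :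
    ∀ m ∈ M, x ^ p ^ (n - 1) * m = m * x ^ p ^ (n - 1) := by
  have hfd : FiniteDimensional (ZMod p) V := Module.Finite.of_finite
  have hinj : Function.Injective (Module.End.baseChangeHom (ZMod p) (AlgebraicClosure (ZMod p)) V) :=
    LinearMap.baseChangeHom_injective (ZMod p) V (AlgebraicClosure (ZMod p))
  haveI : CharP (AlgebraicClosure (ZMod p)) p :=
    charP_of_injective_algebraMap (algebraMap (ZMod p) (AlgebraicClosure (ZMod p))).injective p
  set E := Module.End.baseChangeHom (ZMod p) (AlgebraicClosure (ZMod p)) V with hE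
  refine cent_closed (K := AlgebraicClosure (ZMod p)) (E.toMonoidHom.comp σ) (fun a b hab => hσ (hinj hab)) M ?_ hab hx n hn
    hxn ?_
  · rw [Ne, CharP.cast_eq_zero_iff (AlgebraicClosure (ZMod p)) p]
    exact hM
  · have e1 : (E.toMonoidHom.comp σ) x - 1 = E (σ x - 1) := by
      rw [map_sub, map_one]; rfl
    rw [e1, ← map_pow, hnil, map_zero]

/-- the group generated by the `p^(n-1)`-th powers is abelian. -/
theorem powers_abelian {p : ℕ} [hp : Fact p.Prime] (hp2 : p ≠ 2) {V : Type u}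
    [AddCommGroup V] [Module (ZMod p) V] [Finite V] {G : Type u} [Group G] [Finite G] (hsol : IsPSolvable p G)
    (hOp : pCore p G = ⊥) (σ : G →* Module.End (ZMod p) V) (hσ : Function.Injective σ) (P : Subgroup G)
    (hP : IsPGroup p P) (n : ℕ) (hn : 1 ≤ n) (hexp : ∀ x ∈ P, x ^ p ^ n = 1)
    (hnil : ∀ x ∈ P, (σ x - 1) ^ (p ^ n - 1) = 0) :
    ∀ x ∈ P, ∀ y ∈ P, x ^ p ^ (n - 1) * y ^ p ^ (n - 1) = y ^ p ^ (n - 1) * x ^ p ^ (n - 1) := by
  set H : Set G := {g | ∃ x ∈ P, x ^ p ^ (n - 1) = g} with hH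
  have hHP : H ⊆ P := by
    rintro _ ⟨x, hx, rfl⟩
    exact pow_mem hx _
  have hEP : closure H ≤ P := (closure_le P).2 hHP
  have hPE : P ≤ normalizer ((closure H : Subgroup G) : Set G) := by
    intro b hb
    apply mem_normalizer_of
    intro y hy
    induction hy using closure_induction with
    | mem y hy =>
      obtain ⟨x, hx, rfl⟩ := hy
      refine subset_closure ⟨b * x * b⁻¹, mul_mem (mul_mem hb hx) (inv_mem hb), ?_⟩
      rw [conj_pow]
    | one => simp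
    | mul a c _ _ iha ihb =>
      have : b * (a * c) * b⁻¹ = (b * a * b⁻¹) * (b * c * b⁻¹) := by group
      rw [this]; exact mul_mem iha ihb
    | inv a _ iha =>
      have : b * a⁻¹ * b⁻¹ = (b * a * b⁻¹)⁻¹ := by group
      rw [this]; exact inv_mem iha
  have key : ⁅closure H, closure H⁆ = ⊥ := by
    by_contra hne
    obtain ⟨q, Q, hq, hqp, hQ, hPQ, hAQ⟩ := HHDer.exists_moved hsol hOp P ⁅closure H, closure H⁆ hP
      ((commutator_le_self _).trans hEP) hne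
    haveI : Fact q.Prime := ⟨hq⟩
    apply hAQ
    refine main (Ne.symm hqp) hp2 _ Q P H rfl hQ hP hPQ hHP hPE ?_
    rintro _ ⟨x, hx, rfl⟩
    refine ⟨?_, x, hx, n - 1, rfl, ?_⟩
    · rw [← pow_mul, ← pow_succ, Nat.sub_add_cancel hn]
      exact hexp x hx
    · intro M hM hab hxM
      refine cent_field σ hσ M ?_ hab hxM n hn (hexp x hx) (hnil x hx)
      obtain ⟨k, hk⟩ := IsPGroup.iff_card.mp (hQ.to_le hM)
      rw [hk]
      intro hd
      have := hp.out.dvd_of_dvd_pow hd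
      exact hqp ((Nat.prime_dvd_prime_iff_eq hp.out hq).1 this).symm
  intro x hx y hy
  have h1 : ⁅x ^ p ^ (n - 1), y ^ p ^ (n - 1)⁆ ∈ ⁅closure H, closure H⁆ :=
    commutator_mem_commutator (subset_closure ⟨x, hx, rfl⟩) (subset_closure ⟨y, hy, rfl⟩)
  rw [key, mem_bot, commutatorElement_eq_one_iff_mul_comm] at h1
  exact h1

/-- the second step. -/
theorem drop_aux {p : ℕ} [hp : Fact p.Prime] (hp2 : p ≠ 2) {G : Type u} [Group G] [Finite G]
    (hsol : IsPSolvable p G) (hO : pPrimeCore p G = ⊥) {e : ℕ}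
    (hexp : ∀ x : G, (∃ k, x ^ (p ^ k) = 1) → x ^ (p ^ (e + 1)) = 1)
    (hab : ∀ P : Sylow p G, ∀ a ∈ (P : Subgroup G), ∀ b ∈ (P : Subgroup G),
      a ^ p ^ e * b ^ p ^ e = b ^ p ^ e * a ^ p ^ e)
    (x : G ⧸ pCore p G) (hx : ∃ k, x ^ (p ^ k) = 1) : x ^ (p ^ e) = 1 := by
  obtain ⟨V, i1, i2, i3, ⟨D⟩⟩ := exists_data (p := p) (pCore p G) inferInstance (Cfsg.Agent.Lib.H32Cores.pCore_isPGroup p)
  obtain ⟨σ, hσ, hσρ⟩ := D.exists_quot hsol hO
  have hfd : FiniteDimensional (ZMod p) V := Module.Finite.of_finite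
  by_contra hne
  have hord : orderOf x = p ^ (e + 1) := by
    apply orderOf_eq_prime_pow hne
    exact exp_quot _ hexp x hx
  obtain ⟨k, hk⟩ := hx
  obtain ⟨g, hg, ⟨c, hc⟩⟩ := lift_pelement (pCore p G) x k hk
  -- a Sylow subgroup containing `g`
  have hgp : IsPGroup p (zpowers g) := by
    rw [IsPGroup.iff_card]
    obtain ⟨j, _, hj⟩ := (Nat.dvd_prime_pow hp.out).mp (orderOf_dvd_of_pow_eq_one hc)
    exact ⟨j, by rw [Nat.card_zpowers, hj]⟩
  obtain ⟨P, hP⟩ := hgp.exists_le_sylow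
  have hgP : g ∈ (P : Subgroup G) := hP (mem_zpowers g)
  have hNP : pCore p G ≤ (P : Subgroup G) := by
    have h1 := (Cfsg.Agent.Lib.H32Cores.pCore_isPGroup (G := G) p)
    obtain ⟨Q, hQ⟩ := h1.exists_le_sylow
    obtain ⟨t, ht⟩ := MulAction.exists_smul_eq G Q P
    intro y hy
    have h2 : t⁻¹ * y * t ∈ (Q : Subgroup G) := by
      apply hQ
      have := (inferInstance : (pCore p G).Normal).conj_mem y hy t⁻¹
      rwa [inv_inv] at this
    rw [← ht, Sylow.coe_subgroup_smul]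
    refine ⟨t⁻¹ * y * t, h2, ?_⟩
    show t * (t⁻¹ * y * t) * t⁻¹ = y
    group
  have hzero : (D.ρ g - 1) ^ (2 * p ^ e - 1) = 0 := by
    have h1 : (D.ρ g - 1) ^ (2 * p ^ e - 1) = (D.ρ (g ^ p ^ e) - 1) * ∑ i ∈ Finset.range (p ^ e), D.ρ g ^ i := by
      rw [sum_pow_eq (K := ZMod p) (p := p), map_pow, ← sub_one_pow (K := ZMod p) (p := p), ← pow_add]
      congr 1
      have := pow_pos hp.out.pos e
      omega
    rw [h1]
    apply LinearMap.ext
    intro v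
    obtain ⟨a, rfl⟩ := D.surj v
    obtain ⟨h2, h3⟩ := D.pow_formula g a (p ^ e)
    rw [Module.End.mul_apply, ← h3, LinearMap.zero_apply, LinearMap.sub_apply, Module.End.one_apply, D.apply,
      sub_eq_zero]
    congr 1
    apply Subtype.ext
    show g ^ p ^ e * (((a : G) * g) ^ p ^ e * (g ^ p ^ e)⁻¹) * (g ^ p ^ e)⁻¹ = ((a : G) * g) ^ p ^ e * (g ^ p ^ e)⁻¹
    have h4 := hab P g hgP ((a : G) * g) (mul_mem (hNP a.2) hgP)
    calc g ^ p ^ e * (((a : G) * g) ^ p ^ e * (g ^ p ^ e)⁻¹) * (g ^ p ^ e)⁻¹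
        = (g ^ p ^ e * ((a : G) * g) ^ p ^ e) * (g ^ p ^ e)⁻¹ * (g ^ p ^ e)⁻¹ := by group
      _ = _ := by rw [h4]; group
  have hbig : ∀ m, 2 * p ^ e ≤ m → (σ x - 1) ^ (m - 1) = 0 := by
    intro m hm
    have h1 : m - 1 = (m - 2 * p ^ e) + (2 * p ^ e - 1) := by
      have := pow_pos hp.out.pos e
      omega
    rw [← hg, hσρ, h1, pow_add, hzero, mul_zero]
  have hp3 : 3 ≤ p := by
    have := hp.out.two_le
    omega
  have hB := theoremB (F := ZMod p) (V := V) (Cfsg.Agent.Lib.H32PSolv.isPSolvable_quotient hsol (pCore p G))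
    (Cfsg.Agent.Lib.Cores.pCore_quotient_pCore p G) σ hσ x (e + 1) (by omega) hord
  rcases hB with h | ⟨n₀, q, m, h1, h2, h3, h4, h5, h6, -, h8⟩
  · apply h
    apply hbig
    rw [pow_succ, mul_comm]
    exact Nat.mul_le_mul_left _ (by omega)
  · apply h8
    apply hbig
    have e1 : p ^ (e + 1 - n₀) * (p ^ n₀ - 1) = p ^ (e + 1) - p ^ (e + 1 - n₀) := by
      rw [Nat.mul_sub, mul_one, ← pow_add, Nat.sub_add_cancel h2]
    rw [e1]
    have e2 : p ^ (e + 1 - n₀) ≤ p ^ e := Nat.pow_le_pow_right hp.out.pos (by omega)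
    have e3 : 3 * p ^ e ≤ p ^ (e + 1) := by
      rw [pow_succ, mul_comm]
      exact Nat.mul_le_mul_left _ hp3
    omega

/-- two steps of the upper series make the exponent drop. -/
theorem exp_drop_two {p : ℕ} [hp : Fact p.Prime] (hp2 : p ≠ 2) {G : Type u} [Group G] [Finite G]
    (hsol : IsPSolvable p G) (hO : pPrimeCore p G = ⊥) {e : ℕ}
    (hexp : ∀ x : G, (∃ k, x ^ (p ^ k) = 1) → x ^ (p ^ (e + 1)) = 1)
    (x : ((G ⧸ pCore p G) ⧸ pPrimeCore p (G ⧸ pCore p G)) ⧸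
      pCore p ((G ⧸ pCore p G) ⧸ pPrimeCore p (G ⧸ pCore p G)))
    (hx : ∃ k, x ^ (p ^ k) = 1) : x ^ (p ^ e) = 1 := by
  have hsol1 : IsPSolvable p (G ⧸ pCore p G) := Cfsg.Agent.Lib.H32PSolv.isPSolvable_quotient hsol (pCore p G)
  have hsol2 : IsPSolvable p ((G ⧸ pCore p G) ⧸ pPrimeCore p (G ⧸ pCore p G)) :=
    Cfsg.Agent.Lib.H32PSolv.isPSolvable_quotient hsol1 _
  obtain ⟨V, i1, i2, i3, ⟨D⟩⟩ := exists_data (p := p) (pCore p G) inferInstance (Cfsg.Agent.Lib.H32Cores.pCore_isPGroup p)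
  obtain ⟨σ, hσ, hσρ⟩ := D.exists_quot hsol hO
  have hexp1 := exp_quot (pCore p G) hexp
  have hexp2 := exp_quot (pPrimeCore p (G ⧸ pCore p G)) hexp1
  have hpel : ∀ (P : Sylow p (G ⧸ pCore p G)), ∀ y ∈ (P : Subgroup (G ⧸ pCore p G)), ∃ k, y ^ (p ^ k) = 1 := by
    intro P y hy
    obtain ⟨k, hk⟩ := P.isPGroup' ⟨y, hy⟩
    exact ⟨k, congrArg Subtype.val hk⟩
  refine drop_aux hp2 hsol2 (Cfsg.Agent.Lib.Cores.pPrimeCore_quotient_pPrimeCore p _) hexp2 ?_ x hx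
  intro P₂ a₂ ha₂ b₂ hb₂
  obtain ⟨P, hP⟩ := Sylow.mapSurjective_surjective
    (QuotientGroup.mk'_surjective (pPrimeCore p (G ⧸ pCore p G))) p P₂
  rw [← hP, Sylow.coe_mapSurjective] at ha₂ hb₂
  obtain ⟨a, ha, rfl⟩ := ha₂
  obtain ⟨b, hb, rfl⟩ := hb₂
  rw [← map_pow, ← map_pow, ← map_mul, ← map_mul]
  congr 1
  refine powers_abelian hp2 hsol1 (Cfsg.Agent.Lib.Cores.pCore_quotient_pCore p G) σ hσ (P : Subgroup (G ⧸ pCore p G))
    P.isPGroup' (e + 1) (by omega) (fun y hy => hexp1 y (hpel P y hy)) ?_ a ha b hb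
  intro y hy
  obtain ⟨k, hk⟩ := hpel P y hy
  obtain ⟨z, hz, hz'⟩ := lift_pelement (pCore p G) y k hk
  rw [← hz, hσρ]
  exact nil_of_exponent hexp D z hz'

/-- `l_p ≤ 2 e_p`. -/
theorem pLength_le_two_exponent {p : ℕ} [hp : Fact p.Prime] (hp2 : p ≠ 2) : ∀ (e : ℕ) {G : Type u} [Group G] [Finite G],
    IsPSolvable p G → (∀ x : G, (∃ k, x ^ (p ^ k) = 1) → x ^ (p ^ e) = 1) → PLengthLE p (2 * e) G := by
  intro e
  induction e with
  | zero =>
    intro G _ _ _ hexp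
    rw [mul_zero, pLengthLE_zero_iff]
    rw [Nat.coprime_comm, Nat.Prime.coprime_iff_not_dvd hp.out]
    intro hdvd
    obtain ⟨x, hx⟩ := exists_prime_orderOf_dvd_card' p hdvd
    have h1 := hexp x ⟨1, by rw [pow_one, ← hx, pow_orderOf_eq_one]⟩
    rw [pow_zero, pow_one] at h1
    rw [h1, orderOf_one] at hx
    exact hp.out.one_lt.ne hx
  | succ e ih =>
    intro G _ _ hsol hexp
    have h2 : 2 * (e + 1) = (2 * e + 1) + 1 := by ring
    rw [h2]
    apply pLengthLE_of_coprime (pPrimeCore p G) (Cfsg.Agent.Lib.H32Cores.pPrimeCore_coprime p)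
    apply pLengthLE_succ_of_isPGroup (pCore p (G ⧸ pPrimeCore p G)) (Cfsg.Agent.Lib.H32Cores.pCore_isPGroup p)
    have hsol1 := Cfsg.Agent.Lib.H32PSolv.isPSolvable_quotient hsol (pPrimeCore p G)
    have hsol2 := Cfsg.Agent.Lib.H32PSolv.isPSolvable_quotient hsol1 (pCore p (G ⧸ pPrimeCore p G))
    apply pLengthLE_of_coprime (pPrimeCore p ((G ⧸ pPrimeCore p G) ⧸ pCore p (G ⧸ pPrimeCore p G)))
      (Cfsg.Agent.Lib.H32Cores.pPrimeCore_coprime p)
    have hsol3 := Cfsg.Agent.Lib.H32PSolv.isPSolvable_quotient hsol2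
      (pPrimeCore p ((G ⧸ pPrimeCore p G) ⧸ pCore p (G ⧸ pPrimeCore p G)))
    apply pLengthLE_succ_of_isPGroup (pCore p _) (Cfsg.Agent.Lib.H32Cores.pCore_isPGroup p)
    apply ih (Cfsg.Agent.Lib.H32PSolv.isPSolvable_quotient hsol3 _)
    exact exp_drop_two hp2 hsol1 (Cfsg.Agent.Lib.Cores.pPrimeCore_quotient_pPrimeCore p G) (exp_quot _ hexp)

end Cfsg.Agent.Lib.HHBlk
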