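import Mathlib
import Cfsg.Agent.Lib.HHDer
import Cfsg.Agent.Lib.PGroupOdd

/-! The case `p = 3` of the derived length theorem of Hall and Higman (helper63). -/

set_option autoImplicit false
open scoped commutatorElement

namespace Cfsg.Agent.Lib.HHDer

open Module Subgroup Cfsg.Agent.Lib.HHWt Cfsg.Agent.Lib.HHLin Cfsg

variable {K : Type*} [Field K] [IsAlgClosed K] {V : Type*} [AddCommGroup V]
  [Module K V] [FiniteDimensional K V] {G : Type*} [Group G] [Finite G]
variable {q : ℕ} [hq : Fact q.Prime] {ρ : G →* Module.End K V} {U B A : Subgroup G}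

/-- the commutator used here. -/
def cm (u v : G) : G := u * v * u⁻¹ * v⁻¹

section general
variable {p : ℕ}

omit [IsAlgClosed K] [FiniteDimensional K V] [Finite G] hq in
theorem Conf.cm_mem (C : Conf p q ρ U B A) {u v : G} (hu : u ∈ U) (hv : v ∈ U) :
    cm u v ∈ U ⊓ centralizer (U : Set G) := C.Φ_le (C.hΦc u hu v hv)

omit [IsAlgClosed K] [FiniteDimensional K V] [Finite G] hq in
theorem Conf.cm_mul_left (C : Conf p q ρ U B A) {u v w : G} (hu : u ∈ U) (hv : v ∈ U) (hw : w ∈ U) :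
    cm (u * v) w = cm u w * cm v w := by
  have h1 := mem_centralizer_iff.1 (C.cm_mem hv hw).2 u hu
  calc cm (u * v) w = (u * cm v w) * u⁻¹ * cm u w := by simp only [cm]; group
    _ = (cm v w * u) * u⁻¹ * cm u w := by rw [h1]
    _ = cm v w * cm u w := by group
    _ = cm u w * cm v w := (mem_centralizer_iff.1 (C.cm_mem hu hw).2 _ (C.cm_mem hv hw).1)

omit [Finite G] in
theorem cm_inv (u v : G) : (cm u v)⁻¹ = cm v u := by simp only [cm]; group

omit [IsAlgClosed K] [FiniteDimensional K V] [Finite G] hq in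
theorem Conf.cm_mul_right (C : Conf p q ρ U B A) {u v w : G} (hu : u ∈ U) (hv : v ∈ U) (hw : w ∈ U) :
    cm u (v * w) = cm u v * cm u w := by
  rw [← cm_inv, C.cm_mul_left hv hw hu, mul_inv_rev, cm_inv, cm_inv]
  exact mem_centralizer_iff.1 (C.cm_mem hu hv).2 _ (C.cm_mem hu hw).1

end general

/-- a configuration with `|U : Z| ≤ 4` does not exist. -/
theorem Conf.le_of_cover (C : Conf 3 q ρ U B A) {u v : G} (hu : u ∈ U) (hv : v ∈ U)
    (hcover : ∀ w ∈ U, w ∈ U ⊓ centralizer (U : Set G) ∨ u * w ∈ U ⊓ centralizer (U : Set G) ∨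
      v * w ∈ U ⊓ centralizer (U : Set G) ∨ u * v * w ∈ U ⊓ centralizer (U : Set G)) :
    U ≤ U ⊓ centralizer (U : Set G) := by
  classical
  have h3p : Fact (Nat.Prime 3) := ⟨Nat.prime_three⟩
  have hp2 : (3 : ℕ) ≠ 2 := by norm_num
  set Z : Subgroup G := U ⊓ centralizer (U : Set G) with hZdef
  -- the action on `U / Z`
  have hZn : (Z.subgroupOf U).Normal := by
    constructor
    intro z hz x
    rw [mem_subgroupOf] at hz ⊢
    have h1 := mem_centralizer_iff.1 hz.2 x x.2
    show (x : G) * z * (x : G)⁻¹ ∈ Z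
    rw [h1, mul_inv_cancel_right]; exact hz
  have hcardQ : Nat.card (U ⧸ Z.subgroupOf U) ≤ 4 := by
    let f : Fin 4 → U ⧸ Z.subgroupOf U := ![1, ((⟨u, hu⟩ : U)⁻¹ : U), ((⟨v, hv⟩ : U)⁻¹ : U), ((⟨u * v, mul_mem hu hv⟩ : U)⁻¹ : U)]
    have hf : Function.Surjective f := by
      intro x
      obtain ⟨w, rfl⟩ := QuotientGroup.mk_surjective x
      rcases hcover w w.2 with h | h | h | h
      · refine ⟨0, ?_⟩
        show (1 : U ⧸ Z.subgroupOf U) = w
        rw [eq_comm, QuotientGroup.eq_one_iff, mem_subgroupOf]; exact h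
      · refine ⟨1, ?_⟩
        show (((⟨u, hu⟩ : U)⁻¹ : U) : U ⧸ Z.subgroupOf U) = w
        rw [QuotientGroup.eq, mem_subgroupOf, inv_inv]; exact h
      · refine ⟨2, ?_⟩
        show (((⟨v, hv⟩ : U)⁻¹ : U) : U ⧸ Z.subgroupOf U) = w
        rw [QuotientGroup.eq, mem_subgroupOf, inv_inv]; exact h
      · refine ⟨3, ?_⟩
        show (((⟨u * v, mul_mem hu hv⟩ : U)⁻¹ : U) : U ⧸ Z.subgroupOf U) = w
        rw [QuotientGroup.eq, mem_subgroupOf, inv_inv]; exact h
    have := Nat.card_le_card_of_surjective f hf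
    simpa using this
  let cj : B → (U →* U) := fun b =>
    { toFun := fun x => ⟨b * x * (b : G)⁻¹, (mem_normalizer_iff.1 (C.hBU b.2) x).1 x.2⟩
      map_one' := by apply Subtype.ext; simp
      map_mul' := by intro x y; apply Subtype.ext; simp only [Subgroup.coe_mul]; group }
  let φ : B → (U ⧸ Z.subgroupOf U →* U ⧸ Z.subgroupOf U) := fun b =>
    QuotientGroup.map _ _ (cj b) (fun z hz => conj_mem_Z C b.2 hz)
  have hφ : ∀ b (x : U), φ b (x : U ⧸ Z.subgroupOf U) = (cj b x : U ⧸ Z.subgroupOf U) := fun b x => rfl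
  have hφ1 : ∀ x, φ 1 x = x := by
    intro x
    obtain ⟨x, rfl⟩ := QuotientGroup.mk_surjective x
    rw [hφ]
    congr 1
    apply Subtype.ext
    show ((1 : B) : G) * (x : G) * ((1 : B) : G)⁻¹ = x
    simp
  have hφm : ∀ g h x, φ (g * h) x = φ g (φ h x) := by
    intro g h x
    obtain ⟨x, rfl⟩ := QuotientGroup.mk_surjective x
    rw [hφ, hφ, hφ]
    congr 1
    apply Subtype.ext
    show ((g * h : B) : G) * (x : G) * ((g * h : B) : G)⁻¹ = g * (h * x * (h : G)⁻¹) * (g : G)⁻¹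
    rw [Subgroup.coe_mul]; group
  obtain ⟨f, hfdef⟩ : ∃ f : B →* Equiv.Perm (U ⧸ Z.subgroupOf U), ∀ b (x : U),
      f b (x : U ⧸ Z.subgroupOf U) = (cj b x : U ⧸ Z.subgroupOf U) := by
    refine ⟨{ toFun := fun g =>
                { toFun := φ g
                  invFun := φ g⁻¹
                  left_inv := by intro x; rw [← hφm, inv_mul_cancel, hφ1]
                  right_inv := by intro x; rw [← hφm, mul_inv_cancel, hφ1] }
              map_one' := by ext x; exact hφ1 x
              map_mul' := by intro g h; ext x; exact hφm g h x }, fun b x => rfl⟩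
  have hfr : ∀ g h : B, f g * f h = f h * f g := by
    have h1 : Nat.card f.range ∣ 24 := by
      have h2 := f.range.card_subgroup_dvd_card
      rw [Nat.card_perm] at h2
      exact h2.trans (Nat.factorial_dvd_factorial hcardQ)
    have h2 : IsPGroup 3 f.range := C.hB.of_surjective f.rangeRestrict f.rangeRestrict_surjective
    obtain ⟨k, hk⟩ := IsPGroup.iff_card.mp h2
    have h3 : k ≤ 1 := by
      by_contra hcon
      have h4 : 3 ^ 2 ∣ 24 := (pow_dvd_pow 3 (by omega : 2 ≤ k)).trans (hk ▸ h1)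
      norm_num at h4
    have hcyc : IsCyclic f.range := by
      rcases Nat.le_one_iff_eq_zero_or_eq_one.1 h3 with h0 | h0
      · rw [h0, pow_zero] at hk
        have := (Nat.card_eq_one_iff_unique.1 hk).1
        exact isCyclic_of_subsingleton
      · rw [h0, pow_one] at hk
        exact isCyclic_of_prime_card hk
    intro g h
    have h4 := (IsCyclic.commGroup (α := f.range)).mul_comm ⟨f g, g, rfl⟩ ⟨f h, h, rfl⟩
    exact congrArg Subtype.val h4
  have hAT : A ≤ (f.ker).map B.subtype := by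
    rw [C.hAB, commutator_le]
    intro g hg h hh
    rw [mem_map]
    refine ⟨⁅(⟨g, hg⟩ : B), ⟨h, hh⟩⁆, ?_, rfl⟩
    rw [MonoidHom.mem_ker, map_commutatorElement, commutatorElement_eq_one_iff_mul_comm]
    exact hfr _ _
  have hUZ : ⁅U, A⁆ ≤ Z := by
    rw [commutator_le]
    intro x hx y hy
    obtain ⟨b, hb, hby⟩ := mem_map.1 (hAT hy)
    have h1 : f b ((⟨x⁻¹, inv_mem hx⟩ : U) : U ⧸ Z.subgroupOf U) = ((⟨x⁻¹, inv_mem hx⟩ : U) : U ⧸ Z.subgroupOf U) := by
      rw [MonoidHom.mem_ker.1 hb]; rfl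
    have h2 : (cj b ⟨x⁻¹, inv_mem hx⟩ : U ⧸ Z.subgroupOf U) = ((⟨x⁻¹, inv_mem hx⟩ : U) : U ⧸ Z.subgroupOf U) := by rw [← hfdef]; exact h1
    rw [eq_comm, QuotientGroup.eq, mem_subgroupOf] at h2
    have h3 : ⁅x, y⁆ = (((⟨x⁻¹, inv_mem hx⟩ : U)⁻¹ * cj b ⟨x⁻¹, inv_mem hx⟩ : U) : G) := by
      rw [commutatorElement_def, Subgroup.coe_mul, Subgroup.coe_inv, ← hby]
      show x * (b : G) * x⁻¹ * (b : G)⁻¹ = (x⁻¹)⁻¹ * ((b : G) * x⁻¹ * (b : G)⁻¹)
      group
    rw [h3]
    exact h2
  rw [C.hUA] at hUZ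
  exact hUZ

set_option maxHeartbeats 1000000 in
/-- the derived length argument for `p = 3`. -/
theorem Conf.false_three [CharP K 3] (C : Conf 3 q ρ U B A) : False := by
  classical
  have h3p : Fact (Nat.Prime 3) := ⟨Nat.prime_three⟩
  have hp2 : (3 : ℕ) ≠ 2 := by norm_num
  set Z : Subgroup G := U ⊓ centralizer (U : Set G) with hZdef
  have hAZ := C.A_cent hp2
  have hZU : Z ≤ U := inf_le_left
  have hUU : ∀ x ∈ ⁅U, U⁆, x ∈ Z := by
    intro x hx
    have h : ⁅U, U⁆ ≤ Z := by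
      rw [commutator_le]
      intro u hu v hv
      exact C.cm_mem hu hv
    exact h hx
  have hAU : A ≤ normalizer (U : Set G) := C.hAB'.trans C.hBU
  have hA3 : ∀ a ∈ A, a ^ 3 = 1 := by
    intro a ha
    apply C.inj
    have h1 := sub_one_pow (K := K) (p := 3) (ρ a) 1
    rw [pow_one] at h1
    have h2 : (ρ a - 1) ^ 3 = 0 := by
      have : 3 = 2 + 1 := by norm_num
      rw [this, pow_add, C.quad a ha, zero_mul]
    rw [h2] at h1
    rw [map_pow, map_one]
    exact (sub_eq_zero.1 h1.symm)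
  have hAcop : (Nat.card A).Coprime q := by
    obtain ⟨k, hk⟩ := IsPGroup.iff_card.mp (C.hB.to_le C.hAB')
    rw [hk]
    exact Nat.Coprime.pow_left k ((Nat.coprime_primes Nat.prime_three hq.out).2 C.hpq)
  have hcentA : ∀ v ∈ U, (∀ b ∈ A, b * v = v * b) → v ∈ Z := fun v hv h =>
    hUU v (HHMin.mem_commutator_of_centralized U A C.hU hAcop hAU C.hUA hv h)
  -- `q = 2`
  have hq2 : q = 2 := by
    obtain ⟨a, ha, hac⟩ := SetLike.not_le_iff_exists.1 C.hAU
    have hy : ∃ g ∈ U, ρ (a ^ (3 ^ (1 - 1)) * g) ≠ ρ (g * a ^ (3 ^ (1 - 1))) := by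
      by_contra hcon
      push Not at hcon
      apply hac
      rw [mem_centralizer_iff]
      intro g hg
      have h1 := C.inj (hcon g hg)
      simpa using h1.symm
    have hx : ρ a ^ (3 ^ 1) = 1 := by rw [pow_one, ← map_pow, hA3 a ha, map_one]
    rcases HHMain.main (K := K) C.hpq le_rfl ρ U C.hU a (hAU ha) hx hy with h | ⟨n₀, m, h1, h2, h3, h4, -⟩
    · exfalso
      apply h
      exact C.quad a ha
    · have hn : n₀ = 1 := by omega
      rw [hn] at h4
      have h5 : q ∣ 2 := by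
        have h6 : (2 : ℕ) = q ^ m := by simpa using h4
        rw [h6]
        exact dvd_pow_self q (by omega)
      exact (Nat.prime_dvd_prime_iff_eq hq.out Nat.prime_two).1 h5
  subst hq2
  -- the good element
  obtain ⟨a, haA, hac, hab⟩ : ∃ a ∈ A, a ∉ centralizer (U : Set G) ∧
      ∀ b ∈ B, a⁻¹ * b⁻¹ * a * b ∈ centralizer (U : Set G) := by
    have hDn : ((centralizer (U : Set G)).subgroupOf B).Normal := by
      constructor
      intro d hd b
      rw [mem_subgroupOf, mem_centralizer_iff] at hd ⊢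
      intro u hu
      have hbn := C.hBU b.2
      have h1 : (b : G)⁻¹ * u * b ∈ U := by
        have := (mem_normalizer_iff.1 (inv_mem hbn) u).1 hu
        rwa [inv_inv] at this
      have h2 := hd _ h1
      show u * ((b : G) * d * (b : G)⁻¹) = (b : G) * d * (b : G)⁻¹ * u
      calc u * ((b : G) * d * (b : G)⁻¹) = b * (((b : G)⁻¹ * u * b) * d) * (b : G)⁻¹ := by group
        _ = b * (d * ((b : G)⁻¹ * u * b)) * (b : G)⁻¹ := by rw [h2]
        _ = _ := by group
    have hAn : (A.subgroupOf B).Normal := by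
      have h1 : A.subgroupOf B = commutator B := by
        apply Subgroup.map_injective B.subtype_injective
        rw [map_subgroupOf_eq_of_le C.hAB', _root_.commutator_def, map_commutator, ← MonoidHom.range_eq_map,
          range_subtype]
        exact C.hAB
      rw [h1]; infer_instance
    have hne : (A.subgroupOf B).map (QuotientGroup.mk' ((centralizer (U : Set G)).subgroupOf B)) ≠ ⊥ := by
      intro h
      rw [Subgroup.map_eq_bot_iff, QuotientGroup.ker_mk'] at h
      apply C.hAU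
      intro a ha
      exact h (x := ⟨a, C.hAB' ha⟩) ha
    obtain ⟨_, ⟨a, ha, rfl⟩, hxc, hxo⟩ := PGroupOdd.exists_central_mem
      (C.hB.to_quotient ((centralizer (U : Set G)).subgroupOf B)) (hAn.map _ (QuotientGroup.mk'_surjective _)) hne
    refine ⟨a, ha, ?_, ?_⟩
    · intro h
      have h1 : QuotientGroup.mk' ((centralizer (U : Set G)).subgroupOf B) a = 1 := (QuotientGroup.eq_one_iff _).2 h
      rw [h1, orderOf_one] at hxo
      norm_num at hxo
    · intro b hb
      have h1 := mem_center_iff.1 hxc (QuotientGroup.mk' _ ⟨b, hb⟩)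
      have h2 : QuotientGroup.mk' ((centralizer (U : Set G)).subgroupOf B) (a⁻¹ * (⟨b, hb⟩ : B)⁻¹ * a * ⟨b, hb⟩) = 1 := by
        rw [map_mul, map_mul, map_mul, map_inv, map_inv, mul_assoc, ← h1]
        group
      have h3 : (a⁻¹ * (⟨b, hb⟩ : B)⁻¹ * a * ⟨b, hb⟩) ∈ (centralizer (U : Set G)).subgroupOf B := by
        rw [← QuotientGroup.ker_mk' ((centralizer (U : Set G)).subgroupOf B)]
        exact h2
      exact h3
  have haU : a ∈ normalizer (U : Set G) := hAU haA
  have ha3 : a ^ 3 = 1 := hA3 a haA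
  have ha33 : a * (a * a) = 1 := by rw [← ha3, pow_succ, pow_two, mul_assoc]
  have hp3 : ∀ u, a * (a * (a * u * a⁻¹) * a⁻¹) * a⁻¹ = u := by
    intro u
    calc a * (a * (a * u * a⁻¹) * a⁻¹) * a⁻¹ = (a * (a * a)) * u * (a * (a * a))⁻¹ := by
          simp only [mul_inv_rev, mul_assoc]
      _ = u := by rw [ha33, one_mul, inv_one, mul_one]
  have hcj : ∀ u ∈ U, a * u * a⁻¹ ∈ U := fun u hu => (mem_normalizer_iff.1 haU u).1 hu
  have hcjZ : ∀ z ∈ Z, a * z * a⁻¹ = z := by
    intro z hz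
    rw [← mem_centralizer_iff.1 (hAZ haA) z hz, mul_inv_cancel_right]
  -- F1
  have F1 : ∀ u ∈ U, a * u = u * a → u ∈ Z := by
    let Ca : Subgroup G := U ⊓ centralizer {a}
    have hBCa : B ≤ normalizer (Ca : Set G) := by
      intro b hb
      have := Fintype.ofFinite Ca
      refine mem_normalizer_fintype fun u hu => ?_
      refine Subgroup.mem_inf.2 ⟨(mem_normalizer_iff.1 (C.hBU hb) u).1 hu.1, ?_⟩
      rw [mem_centralizer_singleton_iff]
      have h1 : a * u = u * a := (mem_centralizer_singleton_iff.1 hu.2).symm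
      have h2 := mem_centralizer_iff.1 (hab b hb) u hu.1
      -- `b⁻¹ a b = a d`
      have h3 : b⁻¹ * a * b = a * (a⁻¹ * b⁻¹ * a * b) := by group
      have h4 : (b⁻¹ * a * b) * u = u * (b⁻¹ * a * b) := by
        rw [h3, mul_assoc, ← h2, ← mul_assoc, h1, mul_assoc]
      calc b * u * b⁻¹ * a = b * (u * (b⁻¹ * a * b)) * b⁻¹ := by group
        _ = b * ((b⁻¹ * a * b) * u) * b⁻¹ := by rw [h4]
        _ = a * (b * u * b⁻¹) := by group
    have hCaU : Ca ≠ U := by
      intro h
      apply hac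
      rw [mem_centralizer_iff]
      intro u hu
      rw [← h] at hu
      exact mem_centralizer_singleton_iff.1 hu.2
    have h5 := C.hmin Ca inf_le_left hCaU hBCa
    intro u hu hau
    refine hcentA u hu fun b hb => ?_
    exact (mem_centralizer_iff.1 (h5 hb) u (Subgroup.mem_inf.2 ⟨hu, by
      rw [mem_centralizer_singleton_iff]; exact hau.symm⟩)).symm
  have h2el : ∀ z ∈ U, z ^ 3 = 1 → z = 1 := by
    intro z hz hz3
    obtain ⟨k, hk⟩ := (IsPGroup.iff_orderOf.mp C.hU) ⟨z, hz⟩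
    rw [Subgroup.orderOf_mk] at hk
    have h1 := orderOf_dvd_of_pow_eq_one hz3
    rw [hk] at h1
    have h2 : 2 ^ k = 1 := Nat.Coprime.eq_one_of_dvd (Nat.Coprime.pow_left k (by norm_num)) h1
    rw [h2, orderOf_eq_one_iff] at hk
    exact hk
  have F1' : ∀ u ∈ U, a * u * a⁻¹ * u⁻¹ ∈ Z → u ∈ Z := by
    intro u hu hz
    set z := a * u * a⁻¹ * u⁻¹ with hzdef
    have h1 : a * u * a⁻¹ = z * u := by rw [hzdef]; group
    have h2 : a * z * a⁻¹ = z := hcjZ z hz
    have h3 : u = z ^ 3 * u := by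
      calc u = a * (a * (a * u * a⁻¹) * a⁻¹) * a⁻¹ := (hp3 u).symm
        _ = a * (a * (z * u) * a⁻¹) * a⁻¹ := by rw [h1]
        _ = a * ((a * z * a⁻¹) * (a * u * a⁻¹)) * a⁻¹ := by group
        _ = a * (z * (z * u)) * a⁻¹ := by rw [h2, h1]
        _ = (a * z * a⁻¹) * ((a * z * a⁻¹) * (a * u * a⁻¹)) := by group
        _ = z * (z * (z * u)) := by rw [h2, h1]
        _ = z ^ 3 * u := by simp only [pow_succ, pow_zero, one_mul, mul_assoc]
    have h4 : z ^ 3 = 1 := by
      have := h3.symm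
      rwa [mul_eq_right] at this
    have h5 := h2el z (hZU hz) h4
    apply F1 u hu
    rw [h5, one_mul] at h1
    rw [mul_inv_eq_iff_eq_mul] at h1
    exact h1
  -- the weight
  obtain ⟨l, c, hcZ, hlc, ⟨w₀, hw₀, hw₀0⟩, hBst⟩ := C.exists_weight hp2
  set W := wt ρ Z l with hW
  have hUW : ∀ u ∈ U, ∀ w ∈ W, ρ u w ∈ W := by
    intro u hu w hw z hz
    have h2 : z * u = u * z := (mem_centralizer_iff.1 hz.2 u hu).symm
    rw [← Module.End.mul_apply, ← map_mul, h2, map_mul, Module.End.mul_apply, hw z hz, map_smul]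
  have hBW : ∀ b ∈ B, ∀ w ∈ W, ρ b w ∈ W := fun b hb w hw => apply_mem_wt_of_stab ρ (hBst hb) hw
  have lmul : ∀ z ∈ Z, ∀ z' ∈ Z, l (z * z') = l z * l z' := by
    intro z hz z' hz'
    have h1 := hw₀ _ (mul_mem hz hz')
    rw [map_mul, Module.End.mul_apply, hw₀ z' hz', map_smul, hw₀ z hz, smul_smul] at h1
    have := smul_left_injective K hw₀0 h1
    rw [mul_comm] at this
    exact this.symm
  have lone : l 1 = 1 := by
    have h1 := hw₀ 1 (one_mem Z)
    rw [map_one, Module.End.one_apply] at h1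
    have h2 : (1 : K) • w₀ = l 1 • w₀ := by rw [one_smul]; exact h1
    exact (smul_left_injective K hw₀0 h2).symm
  -- F2
  have F2 : ∀ u ∈ U, (∀ w ∈ W, ρ u w = w) → u ∈ Z := by
    let U₀ : Subgroup G :=
      { carrier := {g | g ∈ U ∧ ∀ w ∈ W, ρ g w = w}
        mul_mem' := by
          rintro g h ⟨hg1, hg⟩ ⟨hh1, hh⟩
          refine ⟨mul_mem hg1 hh1, fun w hw => ?_⟩
          rw [map_mul, Module.End.mul_apply, hh w hw, hg w hw]
        one_mem' := by
          refine ⟨one_mem _, fun w _ => ?_⟩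
          rw [map_one]; rfl
        inv_mem' := by
          rintro g ⟨hg1, hg⟩
          refine ⟨inv_mem hg1, fun w hw => ?_⟩
          have h1 : ρ (g⁻¹ * g) w = w := by rw [inv_mul_cancel, map_one]; rfl
          rw [map_mul, Module.End.mul_apply, hg w hw] at h1
          exact h1 }
    have h1 : A ≤ centralizer (U₀ : Set G) := by
      apply C.hmin U₀ (fun g hg => hg.1)
      · intro h
        have h2 : c ∈ U₀ := by rw [h]; exact hcZ.1
        have h3 := h2.2 w₀ hw₀
        rw [hw₀ c hcZ] at h3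
        apply hlc
        have h4 : l c • w₀ = (1 : K) • w₀ := by rw [one_smul]; exact h3
        exact smul_left_injective K hw₀0 h4
      · intro b hb
        have := Fintype.ofFinite U₀
        refine mem_normalizer_fintype fun g hg => ⟨(mem_normalizer_iff.1 (C.hBU hb) g).1 hg.1, fun w hw => ?_⟩
        rw [map_mul, map_mul, Module.End.mul_apply, Module.End.mul_apply, hg.2 _ (hBW _ (inv_mem hb) w hw),
          ← Module.End.mul_apply, ← map_mul, mul_inv_cancel, map_one]
        rfl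
    intro u hu huW
    refine hcentA u hu fun b hb => ?_
    exact (mem_centralizer_iff.1 (h1 hb) u ⟨hu, huW⟩).symm
  -- the form
  let β : G → G → K := fun u v => l (cm u v)
  have βml : ∀ u ∈ U, ∀ v ∈ U, ∀ w ∈ U, β (u * v) w = β u w * β v w := by
    intro u hu v hv w hw
    show l (cm (u * v) w) = _
    rw [C.cm_mul_left hu hv hw, lmul _ (C.cm_mem hu hw) _ (C.cm_mem hv hw)]
  have βmr : ∀ u ∈ U, ∀ v ∈ U, ∀ w ∈ U, β u (v * w) = β u v * β u w := by
    intro u hu v hv w hw
    show l (cm u (v * w)) = _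
    rw [C.cm_mul_right hu hv hw, lmul _ (C.cm_mem hu hv) _ (C.cm_mem hu hw)]
  have βZ : ∀ u ∈ U, ∀ z ∈ Z, β u z = 1 := by
    intro u hu z hz
    have : cm u z = 1 := by
      have h1 := mem_centralizer_iff.1 hz.2 u hu
      simp only [cm]
      rw [h1]; group
    show l (cm u z) = 1
    rw [this, lone]
  have βsq : ∀ u ∈ U, ∀ v ∈ U, β u v * β u v = 1 := by
    intro u hu v hv
    rw [← βmr u hu v hv v hv, ← pow_two]
    exact βZ u hu _ (C.Φ_le (C.hΦp v hv))
  have βsymm : ∀ u ∈ U, ∀ v ∈ U, β u v = β v u := by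
    intro u hu v hv
    have h1 : β u v * β v u = 1 := by
      show l (cm u v) * l (cm v u) = 1
      rw [← lmul _ (C.cm_mem hu hv) _ (C.cm_mem hv hu), ← cm_inv u v, mul_inv_cancel, lone]
    calc β u v = β u v * (β v u * β v u) := by rw [βsq v hv u hu, mul_one]
      _ = (β u v * β v u) * β v u := by ring
      _ = β v u := by rw [h1, one_mul]
  have βa : ∀ u ∈ U, ∀ v ∈ U, β (a * u * a⁻¹) (a * v * a⁻¹) = β u v := by
    intro u hu v hv
    show l (cm (a * u * a⁻¹) (a * v * a⁻¹)) = l (cm u v)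
    have : cm (a * u * a⁻¹) (a * v * a⁻¹) = a * cm u v * a⁻¹ := by simp only [cm]; group
    rw [this, hcjZ _ (C.cm_mem hu hv)]
  have βor : ∀ u ∈ U, ∀ v ∈ U, β u v = 1 ∨ β u v = -1 := fun u hu v hv => mul_self_eq_one_iff.1 (βsq u hu v hv)
  -- Step 7
  have S7 : ∀ u ∈ U, u ∉ Z → β u (a * u * a⁻¹) = -1 := by
    intro u hu huZ
    refine (βor u hu _ (hcj u hu)).resolve_left fun hβ => huZ ?_
    set x1 := a * u * a⁻¹ with hx1
    set x2 := a * x1 * a⁻¹ with hx2
    have hx1U : x1 ∈ U := hcj u hu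
    have hx2U : x2 ∈ U := hcj x1 hx1U
    have hx3 : a * x2 * a⁻¹ = u := hp3 u
    have e01 : β u x1 = 1 := hβ
    have e12 : β x1 x2 = 1 := by
      have := βa u hu x1 hx1U
      rw [← hx1, ← hx2] at this
      rw [this]; exact e01
    have e20 : β x2 u = 1 := by
      have := βa x1 hx1U x2 hx2U
      rw [← hx2, hx3] at this
      rw [this]; exact e12
    have eself : ∀ v ∈ U, β v v = 1 := by
      intro v _
      have : cm v v = 1 := by simp only [cm]; group
      show l (cm v v) = 1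
      rw [this, lone]
    let S : Set G := {u, x1, x2}
    let M : Subgroup G := closure S
    have hSU : S ⊆ U := by
      rintro s (rfl | rfl | rfl)
      · exact hu
      · exact hx1U
      · exact hx2U
    have hMU : M ≤ U := (closure_le _).2 hSU
    have hSS : ∀ s ∈ S, ∀ t ∈ S, β s t = 1 := by
      rintro s (rfl | rfl | rfl) t (rfl | rfl | rfl)
      · exact eself _ hu
      · exact e01
      · rw [βsymm _ hu _ hx2U]; exact e20
      · rw [βsymm _ hx1U _ hu]; exact e01
      · exact eself _ hx1U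
      · exact e12
      · exact e20
      · rw [βsymm _ hx2U _ hx1U]; exact e12
      · exact eself _ hx2U
    have hSM : ∀ s ∈ S, ∀ m ∈ M, β m s = 1 := by
      intro s hs m hm
      have h1 : m ∈ U ∧ β m s = 1 := by
        refine closure_induction (p := fun m _ => m ∈ U ∧ β m s = 1) ?_ ?_ ?_ ?_ hm
        · intro t ht; exact ⟨hSU ht, hSS t ht s hs⟩
        · refine ⟨one_mem _, ?_⟩
          have : cm 1 s = 1 := by simp only [cm]; group
          show l (cm 1 s) = 1
          rw [this, lone]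
        · rintro x y _ _ ⟨hx, hx'⟩ ⟨hy, hy'⟩
          refine ⟨mul_mem hx hy, ?_⟩
          rw [βml x hx y hy s (hSU hs), hx', hy', one_mul]
        · rintro x _ ⟨hx, hx'⟩
          refine ⟨inv_mem hx, ?_⟩
          have h2 := βml x hx x⁻¹ (inv_mem hx) s (hSU hs)
          have h3 : cm (x * x⁻¹) s = 1 := by simp only [cm]; group
          have h4 : β (x * x⁻¹) s = 1 := by
            show l (cm (x * x⁻¹) s) = 1
            rw [h3, lone]
          rw [h4, hx', one_mul] at h2
          exact h2.symm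
      exact h1.2
    have hMM : ∀ m ∈ M, ∀ m' ∈ M, β m m' = 1 := by
      intro m hm m' hm'
      have h1 : m' ∈ U ∧ β m m' = 1 := by
        refine closure_induction (p := fun m' _ => m' ∈ U ∧ β m m' = 1) ?_ ?_ ?_ ?_ hm'
        · intro t ht; exact ⟨hSU ht, hSM t ht m hm⟩
        · exact ⟨one_mem _, βZ m (hMU hm) 1 (one_mem Z)⟩
        · rintro x y _ _ ⟨hx, hx'⟩ ⟨hy, hy'⟩
          refine ⟨mul_mem hx hy, ?_⟩
          rw [βmr m (hMU hm) x hx y hy, hx', hy', one_mul]
        · rintro x _ ⟨hx, hx'⟩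
          refine ⟨inv_mem hx, ?_⟩
          have h2 := βmr m (hMU hm) x hx x⁻¹ (inv_mem hx)
          rw [mul_inv_cancel, βZ m (hMU hm) 1 (one_mem Z), hx', one_mul] at h2
          exact h2.symm
      exact h1.2
    have haM : a ∈ normalizer (M : Set G) := by
      have := Fintype.ofFinite M
      refine mem_normalizer_fintype fun m hm => ?_
      have h1 : M ≤ M.comap (MulAut.conj a).toMonoidHom := by
        refine (closure_le _).2 ?_
        rintro s (rfl | rfl | rfl)
        · exact subset_closure (Or.inr (Or.inl rfl))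
        · exact subset_closure (Or.inr (Or.inr rfl))
        · show a * x2 * a⁻¹ ∈ M
          rw [hx3]
          exact subset_closure (Or.inl rfl)
      exact h1 hm
    have hcW : ∀ m ∈ M, ∀ m' ∈ M, ∀ w ∈ W, ρ m (ρ m' w) = ρ m' (ρ m w) := by
      intro m hm m' hm' w hw
      have h1 : m * m' = cm m m' * (m' * m) := by simp only [cm]; group
      have h2 : ρ (m' * m) w ∈ W := hUW _ (mul_mem (hMU hm') (hMU hm)) w hw
      rw [← Module.End.mul_apply, ← map_mul, h1, map_mul, Module.End.mul_apply,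
        h2 _ (C.cm_mem (hMU hm) (hMU hm'))]
      have h3 : l (cm m m') = 1 := hMM m hm m' hm'
      rw [h3, one_smul, map_mul]
      rfl
    have hquadW : ∀ w ∈ W, (ρ a - 1) ((ρ a - 1) w) = 0 := by
      intro w _
      have := LinearMap.congr_fun (C.quad a haA) w
      rw [pow_two] at this
      exact this
    have h1 : ∀ w ∈ W, ρ (u⁻¹ * (a⁻¹ * u * a)) w = w := by
      intro w hw
      have h2 := quad_abelian_sub hp2 ρ W M (C.card_ne hMU) (fun m hm w hw => hUW m (hMU hm) w hw)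
        (fun w hw => hBW a (C.hAB' haA) w hw) hcW haM hquadW (m := u) (subset_closure (Or.inl rfl)) hw
      rw [map_mul, Module.End.mul_apply, h2, ← Module.End.mul_apply, ← map_mul, inv_mul_cancel, map_one]
      rfl
    have hau : a⁻¹ * u * a ∈ U := by
      have := (mem_normalizer_iff.1 (inv_mem haU) u).1 hu
      rwa [inv_inv] at this
    have h2 := F2 _ (mul_mem (inv_mem hu) hau) h1
    apply F1' u hu
    set z := u⁻¹ * (a⁻¹ * u * a) with hzdef
    have h3 : a * z * a⁻¹ = z := hcjZ z h2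
    have h4 : a * u * a⁻¹ = u * z⁻¹ := by
      have h5 : u = (a * u * a⁻¹) * (a * z * a⁻¹) := by rw [hzdef]; group
      rw [h3] at h5
      exact eq_mul_inv_of_mul_eq h5.symm
    have h6 : u * z⁻¹ * u⁻¹ = z⁻¹ := by
      have := mem_centralizer_iff.1 (inv_mem h2 : z⁻¹ ∈ Z).2 u hu
      rw [this, mul_inv_cancel_right]
    rw [h4, h6]
    exact inv_mem h2
  -- Step 8: the norm
  have S8 : ∀ u ∈ U, u * (a * u * a⁻¹) * (a * (a * u * a⁻¹) * a⁻¹) ∈ Z := by
    intro u hu
    set x1 := a * u * a⁻¹ with hx1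
    set x2 := a * x1 * a⁻¹ with hx2
    have hx1U : x1 ∈ U := hcj u hu
    have hx2U : x2 ∈ U := hcj x1 hx1U
    have hx3 : a * x2 * a⁻¹ = u := hp3 u
    have hN : u * x1 * x2 ∈ U := mul_mem (mul_mem hu hx1U) hx2U
    apply F1' _ hN
    have h1 : a * (u * x1 * x2) * a⁻¹ = x1 * x2 * u := by
      calc a * (u * x1 * x2) * a⁻¹ = (a * u * a⁻¹) * (a * x1 * a⁻¹) * (a * x2 * a⁻¹) := by group
        _ = x1 * x2 * u := by rw [hx3]
    have h2 : x1 * x2 * u * (u * x1 * x2)⁻¹ = cm u⁻¹ (u * x1 * x2) := by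
      simp only [cm]; group
    rw [h1, h2]
    exact C.cm_mem (inv_mem hu) hN
  have S8' : ∀ u ∈ U, ∀ v ∈ U, β v (a * (a * u * a⁻¹) * a⁻¹) = β v u * β v (a * u * a⁻¹) := by
    intro u hu v hv
    have h1 := βZ v hv _ (S8 u hu)
    rw [βmr v hv _ (mul_mem hu (hcj u hu)) _ (hcj _ (hcj u hu)), βmr v hv _ hu _ (hcj u hu)] at h1
    have h2 := βsq v hv _ (hcj _ (hcj u hu))
    calc β v (a * (a * u * a⁻¹) * a⁻¹) = (β v u * β v (a * u * a⁻¹) * β v (a * (a * u * a⁻¹) * a⁻¹)) *
          β v (a * (a * u * a⁻¹) * a⁻¹) := by rw [h1, one_mul]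
      _ = β v u * β v (a * u * a⁻¹) * (β v (a * (a * u * a⁻¹) * a⁻¹) * β v (a * (a * u * a⁻¹) * a⁻¹)) := by ring
      _ = _ := by rw [h2, mul_one]
  have S8h : ∀ u ∈ U, ∀ v ∈ U, β (u * v) (a * (u * v) * a⁻¹) =
      β u (a * u * a⁻¹) * β v (a * v * a⁻¹) * β u v := by
    intro u hu v hv
    have hu' := hcj u hu
    have hv' := hcj v hv
    have h1 : a * (u * v) * a⁻¹ = (a * u * a⁻¹) * (a * v * a⁻¹) := by group
    rw [h1, βml u hu v hv _ (mul_mem hu' hv'), βmr u hu _ hu' _ hv', βmr v hv _ hu' _ hv']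
    have h2 : β v (a * u * a⁻¹) = β u (a * v * a⁻¹) * β u v := by
      rw [← βa v hv _ hu', S8' u hu _ hv', βa v hv u hu, βsymm _ hv' u hu, βsymm v hv u hu]
    rw [h2]
    have h3 := βsq u hu _ hv'
    linear_combination (β u (a * u * a⁻¹) * β v (a * v * a⁻¹) * β u v) * h3
  have S9 : ∀ u ∈ U, ∀ v ∈ U, u ∉ Z → v ∉ Z → u * v ∉ Z → β u v = -1 := by
    intro u hu v hv huZ hvZ huvZ
    have h1 := S8h u hu v hv
    rw [S7 u hu huZ, S7 v hv hvZ, S7 _ (mul_mem hu hv) huvZ] at h1
    linear_combination -h1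
  have hneg : (-1 : K) ≠ 1 := by
    intro h
    have h2 : (2 : K) = 0 := by linear_combination -h
    have h3 : ((2 : ℕ) : K) = 0 := by exact_mod_cast h2
    rw [CharP.cast_eq_zero_iff K 3] at h3
    norm_num at h3
  -- choose `u`
  obtain ⟨u, hu, huZ⟩ : ∃ u ∈ U, u ∉ Z := by
    obtain ⟨u, hu, v, hv, huv⟩ := C.nonab hp2
    exact ⟨u, hu, fun h => huv (mem_centralizer_iff.1 h.2 v hv).symm⟩
  set v := a * u * a⁻¹ with hvdef
  have hv : v ∈ U := hcj u hu
  have hvZ : v ∉ Z := by
    intro h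
    apply huZ
    have h1 := hcjZ v h
    have h2 := hcjZ (a * v * a⁻¹) (by rw [h1]; exact h)
    have h3 : u = a * (a * v * a⁻¹) * a⁻¹ := (hp3 u).symm
    rw [h3, h2, h1]; exact h
  have huvZ : u * v ∉ Z := by
    intro h
    apply huZ
    have h1 := S8 u hu
    have h2 : a * (a * u * a⁻¹) * a⁻¹ ∈ Z := by
      have := mul_mem (inv_mem h) h1
      rwa [← hvdef, inv_mul_cancel_left] at this
    have h3 := hcjZ _ h2
    have h4 : u = a * (a * (a * u * a⁻¹) * a⁻¹) * a⁻¹ := (hp3 u).symm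
    rw [h4, h3]; exact h2
  have hcover : ∀ w ∈ U, w ∈ Z ∨ u * w ∈ Z ∨ v * w ∈ Z ∨ u * v * w ∈ Z := by
    intro w hw
    by_contra hcon
    push Not at hcon
    obtain ⟨h1, h2, h3, h4⟩ := hcon
    have e1 := S9 u hu v hv huZ hvZ huvZ
    have e2 := S9 u hu w hw huZ h1 h2
    have e3 := S9 u hu (v * w) (mul_mem hv hw) huZ h3 (by rw [← mul_assoc]; exact h4)
    rw [βmr u hu v hv w hw, e1, e2] at e3
    apply hneg
    linear_combination -e3
  exact huZ (C.le_of_cover hu hv hcover hu)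

end Cfsg.Agent.Lib.HHDer
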