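import Mathlib
import Cfsg.Agent.Lib.HHDer2
import Cfsg.Agent.Lib.HHExp

/-! The derived length theorem of Hall and Higman for odd primes (helper63). -/

set_option autoImplicit false
open scoped commutatorElement

namespace Cfsg.Agent.Lib.HHDer

open Module Subgroup Cfsg.Agent.Lib.FratRep Cfsg.Agent.Lib.HallHigman Cfsg.Agent.Lib.PLength Cfsg.Agent.Lib.HHLin
  Cfsg.Agent.Lib.HHExp Cfsg

universe u

/-- the derived series of a subgroup, as subgroups of the ambient group. -/
def ds {G : Type u} [Group G] (P : Subgroup G) : ℕ → Subgroup G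
  | 0 => P
  | n + 1 => ⁅ds P n, ds P n⁆

theorem ds_eq_map {G : Type u} [Group G] (P : Subgroup G) (n : ℕ) : ds P n = (derivedSeries P n).map P.subtype := by
  induction n with
  | zero => rw [derivedSeries_zero, ← MonoidHom.range_eq_map, range_subtype]; rfl
  | succ n ih => rw [derivedSeries_succ, map_commutator, ← ih]; rfl

theorem ds_eq_bot {G : Type u} [Group G] {P : Subgroup G} {n : ℕ} (h : derivedSeries P n = ⊥) : ds P n = ⊥ := by
  rw [ds_eq_map, h, Subgroup.map_bot]

theorem map_ds {G H : Type*} [Group G] [Group H] (f : G →* H) (P : Subgroup G) (n : ℕ) :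
    (ds P n).map f = ds (P.map f) n := by
  induction n with
  | zero => rfl
  | succ n ih =>
    show (⁅ds P n, ds P n⁆).map f = ⁅ds (P.map f) n, ds (P.map f) n⁆
    rw [map_commutator, ih]

theorem ds_anti {G : Type u} [Group G] (P : Subgroup G) (n : ℕ) : ds P (n + 1) ≤ ds P n := by
  rw [ds_eq_map, ds_eq_map]
  exact map_mono (derivedSeries_antitone P (Nat.le_succ n))

theorem ds_le {G : Type u} [Group G] (P : Subgroup G) (n : ℕ) : ds P n ≤ P := by
  rw [ds_eq_map]; exact map_subtype_le _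

theorem ds_conj {G : Type u} [Group G] {P : Subgroup G} (n : ℕ) {x g : G} (hx : x ∈ ds P n) (hg : g ∈ P) :
    g * x * g⁻¹ ∈ ds P n := by
  rw [ds_eq_map] at hx ⊢
  obtain ⟨y, hy, rfl⟩ := mem_map.1 hx
  exact mem_map.2 ⟨⟨g, hg⟩ * y * ⟨g, hg⟩⁻¹, (inferInstance : (derivedSeries P n).Normal).conj_mem y hy _, rfl⟩

/-- the core of the argument. -/
theorem quad_trivial {p : ℕ} [hp : Fact p.Prime] (hp2 : p ≠ 2) {G : Type u} [Group G] [Finite G] (hsol : IsPSolvable p G)
    (hOp : pCore p G = ⊥) {V : Type u} [AddCommGroup V] [Module (ZMod p) V] [Finite V]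
    (σ : G →* Module.End (ZMod p) V) (hσ : Function.Injective σ) (B : Subgroup G) (hB : IsPGroup p B)
    (quad : ∀ a ∈ ⁅B, B⁆, (σ a - 1) ^ 2 = 0)
    (cub : ∀ a ∈ ⁅B, B⁆, ∀ b ∈ B, (σ a - 1) * ((σ b - 1) * (σ b - 1)) = 0) : ⁅B, B⁆ = ⊥ := by
  have hAB : ⁅B, B⁆ ≤ B := commutator_le_self B
  have hfd : FiniteDimensional (ZMod p) V := Module.Finite.of_finite
  by_contra hne
  by_cases hp3 : p = 3
  · subst hp3
    obtain ⟨q, Q, hq, hqp, hQ, hBQ, hAQ⟩ := exists_moved hsol hOp B ⁅B, B⁆ hB hAB hne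
    haveI : Fact q.Prime := ⟨hq⟩
    have hcop : (Nat.card (⁅B, B⁆ : Subgroup G)).Coprime q := by
      obtain ⟨k, hk⟩ := IsPGroup.iff_card.mp (hB.to_le hAB)
      rw [hk]
      exact Nat.Coprime.pow_left k ((Nat.coprime_primes Nat.prime_three hq).2 (Ne.symm hqp))
    have hBn : B ≤ normalizer ((⁅B, B⁆ : Subgroup G) : Set G) := by
      intro b hb
      haveI := Fintype.ofFinite (⁅B, B⁆ : Subgroup G)
      refine mem_normalizer_fintype fun x hx => ?_
      exact ds_conj (P := B) 1 hx hb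
    obtain ⟨U, hUQ, hBU, hAU, hUA, hmin, -, hΦ, hΦp, hΦc⟩ :=
      HHMin.exists_minimal2 Q B ⁅B, B⁆ hQ hcop hAB hBn hBQ hAQ
    have hinj : Function.Injective (Module.End.baseChangeHom (ZMod 3) (AlgebraicClosure (ZMod 3)) V) :=
      LinearMap.baseChangeHom_injective (ZMod 3) V (AlgebraicClosure (ZMod 3))
    haveI : CharP (AlgebraicClosure (ZMod 3)) 3 :=
      charP_of_injective_algebraMap (algebraMap (ZMod 3) (AlgebraicClosure (ZMod 3))).injective 3
    set E := Module.End.baseChangeHom (ZMod 3) (AlgebraicClosure (ZMod 3)) V with hE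
    have e1 : ∀ x, (E.toMonoidHom.comp σ) x - 1 = E (σ x - 1) := by
      intro x
      rw [map_sub, map_one]; rfl
    have C : Conf 3 q (E.toMonoidHom.comp σ) U B ⁅B, B⁆ :=
      { inj := by
          intro a b hab
          exact hσ (hinj hab)
        hpq := Ne.symm hqp
        hU := hQ.to_le hUQ
        hB := hB
        hAB := rfl
        hAB' := hAB
        hBU := hBU
        hAU := hAU
        hUA := hUA
        hmin := hmin
        hΦ := fun f hf u hu => (hΦ f hf u hu)
        hΦp := hΦp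
        hΦc := hΦc
        quad := by
          intro a ha
          rw [e1, ← map_pow, quad a ha, map_zero]
        cub := by
          intro a ha b hb
          rw [e1, e1, ← map_mul, ← map_mul, cub a ha b hb, map_zero] }
    exact C.false_three
  · have hp5 : 5 ≤ p := by
      have h2 := hp.out.two_le
      have h4 : p ≠ 4 := by rintro rfl; exact absurd hp.out (by norm_num)
      omega
    apply hne
    rw [eq_bot_iff]
    intro a ha
    rw [mem_bot]
    by_contra ha1
    have hz : ∀ k, 2 ≤ k → (σ a - 1) ^ k = 0 := by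
      intro k hk
      obtain ⟨j, rfl⟩ := Nat.exists_eq_add_of_le hk
      rw [pow_add, quad a ha, zero_mul]
    have hap : a ^ p = 1 := by
      apply hσ
      have h1 := sub_one_pow (K := ZMod p) (p := p) (σ a) 1
      rw [pow_one] at h1
      rw [hz p (by omega)] at h1
      rw [map_pow, map_one]
      exact sub_eq_zero.1 h1.symm
    have hord : orderOf a = p ^ 1 := by rw [pow_one]; exact orderOf_eq_prime hap ha1
    rcases theoremB (F := ZMod p) (V := V) hsol hOp σ hσ a 1 le_rfl hord with h | ⟨n₀, q, m, h1, h2, -, -, -, -, -, h8⟩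
    · apply h
      rw [pow_one]
      exact hz _ (by omega)
    · apply h8
      have hn : n₀ = 1 := by omega
      rw [hn, Nat.sub_self, pow_zero, one_mul, pow_one]
      exact hz _ (by omega)

/-- one step. -/
theorem ds_le_pCore {p : ℕ} [hp : Fact p.Prime] (hp2 : p ≠ 2) {G : Type u} [Group G] [Finite G] (hsol : IsPSolvable p G)
    (hO : pPrimeCore p G = ⊥) (P : Subgroup G) (hP : IsPGroup p P) (hFP : pCore p G ≤ P) (d : ℕ)
    (hd : ds P (d + 1) = ⊥) : ds P d ≤ pCore p G := by
  obtain ⟨V, i1, i2, i3, ⟨D⟩⟩ := exists_data (p := p) (pCore p G) inferInstance (Cfsg.Agent.Lib.H32Cores.pCore_isPGroup p)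
  have h0 : ∀ x ∈ ds P d, ∀ y ∈ ds P d, x * y = y * x := by
    intro x hx y hy
    have h1 : ⁅x, y⁆ ∈ ds P (d + 1) := commutator_mem_commutator hx hy
    rw [hd, mem_bot, commutatorElement_eq_one_iff_mul_comm] at h1
    exact h1
  cases d with
  | zero =>
    intro x hx
    rw [← D.ρ_eq_one_iff_mem hsol hO, D.ρ_eq_one_iff]
    intro a ha
    have h1 : x * a = a * x := h0 x hx a (hFP ha)
    have h2 : x * a * x⁻¹ * a⁻¹ = 1 := by rw [h1]; group
    rw [h2]
    exact one_mem _
  | succ d =>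
    obtain ⟨σ, hσ, hσρ⟩ := D.exists_quot hsol hO
    set π := QuotientGroup.mk' (pCore p G) with hπ
    -- commutator formulas
    have key : ∀ (g : G) (f : pCore p G), (D.ρ g - 1) (D.π f) = D.π (⟨g * f * g⁻¹, D.conj_mem g f⟩ * f⁻¹) := by
      intro g f
      rw [LinearMap.sub_apply, D.apply, Module.End.one_apply, D.map_mul, D.map_inv, sub_eq_add_neg]
    have quad : ∀ a ∈ ds P (d + 1), (D.ρ a - 1) ^ 2 = 0 := by
      intro a ha
      apply LinearMap.ext
      intro v
      obtain ⟨f, rfl⟩ := D.surj v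
      rw [pow_two, Module.End.mul_apply, key, key, LinearMap.zero_apply]
      rw [← D.map_one]
      congr 1
      apply Subtype.ext
      show a * (a * (f : G) * a⁻¹ * (f : G)⁻¹) * a⁻¹ * (a * (f : G) * a⁻¹ * (f : G)⁻¹)⁻¹ = 1
      have h1 : a * (f : G) * a⁻¹ * (f : G)⁻¹ ∈ ds P (d + 1) := by
        have : a * (f : G) * a⁻¹ * (f : G)⁻¹ = a * ((f : G) * a⁻¹ * (f : G)⁻¹) := by group
        rw [this]
        exact mul_mem ha (ds_conj _ (inv_mem ha) (hFP f.2))
      rw [h0 a ha _ h1]; group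
    have cub : ∀ a ∈ ds P (d + 1), ∀ b ∈ ds P d, (D.ρ a - 1) * ((D.ρ b - 1) * (D.ρ b - 1)) = 0 := by
      intro a ha b hb
      apply LinearMap.ext
      intro v
      obtain ⟨f, rfl⟩ := D.surj v
      rw [Module.End.mul_apply, Module.End.mul_apply, key, key, key, LinearMap.zero_apply]
      rw [← D.map_one]
      congr 1
      apply Subtype.ext
      have h1 : b * (f : G) * b⁻¹ * (f : G)⁻¹ ∈ ds P d := by
        have : b * (f : G) * b⁻¹ * (f : G)⁻¹ = b * ((f : G) * b⁻¹ * (f : G)⁻¹) := by group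
        rw [this]
        exact mul_mem hb (ds_conj _ (inv_mem hb) (hFP f.2))
      set x := b * (f : G) * b⁻¹ * (f : G)⁻¹ with hx
      have h2 : b * x * b⁻¹ * x⁻¹ ∈ ds P (d + 1) := commutator_mem_commutator hb h1
      set y := b * x * b⁻¹ * x⁻¹ with hy
      show a * y * a⁻¹ * y⁻¹ = 1
      rw [h0 a ha _ h2]; group
    have hOp2 : pCore p (G ⧸ pCore p G) = ⊥ := Cfsg.Agent.Lib.Cores.pCore_quotient_pCore p G
    have hBimg : IsPGroup p ((ds P d).map π) := (hP.to_le (ds_le P d)).map π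
    have hcomm : ⁅(ds P d).map π, (ds P d).map π⁆ = (ds P (d + 1)).map π := (map_commutator _ _ π).symm
    have h1 := quad_trivial hp2 (Cfsg.Agent.Lib.H32PSolv.isPSolvable_quotient hsol (pCore p G)) hOp2 σ hσ
      ((ds P d).map π) hBimg (by
        rw [hcomm]
        rintro _ ⟨a, ha, rfl⟩
        rw [hσρ]; exact quad a ha) (by
        rw [hcomm]
        rintro _ ⟨a, ha, rfl⟩ _ ⟨b, hb, rfl⟩
        rw [hσρ, hσρ]; exact cub a ha b hb)
    rw [hcomm, Subgroup.map_eq_bot_iff, hπ, QuotientGroup.ker_mk'] at h1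
    exact h1

theorem sylow_ds_quot {p : ℕ} [hp : Fact p.Prime] {G : Type u} [Group G] [Finite G] (N : Subgroup G) [N.Normal] {d : ℕ}
    (h : ∀ S : Sylow p G, ds (S : Subgroup G) d ≤ N) (T : Sylow p (G ⧸ N)) :
    ds (T : Subgroup (G ⧸ N)) d = ⊥ := by
  obtain ⟨S, hS⟩ := Sylow.mapSurjective_surjective (QuotientGroup.mk'_surjective N) p T
  rw [← hS, Sylow.coe_mapSurjective, ← map_ds, Subgroup.map_eq_bot_iff, QuotientGroup.ker_mk']
  exact h S

/-- `p`-length at most derived length. -/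
theorem pLength_le_derived {p : ℕ} [hp : Fact p.Prime] (hp2 : p ≠ 2) : ∀ (d : ℕ) {G : Type u} [Group G] [Finite G],
    IsPSolvable p G → (∀ P : Sylow p G, ds (P : Subgroup G) d = ⊥) → PLengthLE p d G := by
  intro d
  induction d with
  | zero =>
    intro G _ _ _ hd
    rw [pLengthLE_zero_iff]
    obtain ⟨P⟩ : Nonempty (Sylow p G) := inferInstance
    have h1 : (P : Subgroup G) = ⊥ := hd P
    rw [Nat.coprime_comm, Nat.Prime.coprime_iff_not_dvd hp.out]
    intro hdvd
    exact P.ne_bot_of_dvd_card hdvd h1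
  | succ d ih =>
    intro G _ _ hsol hd
    apply pLengthLE_of_coprime (pPrimeCore p G) (Cfsg.Agent.Lib.H32Cores.pPrimeCore_coprime p)
    apply pLengthLE_succ_of_isPGroup (pCore p (G ⧸ pPrimeCore p G)) (Cfsg.Agent.Lib.H32Cores.pCore_isPGroup p)
    have hsol1 := Cfsg.Agent.Lib.H32PSolv.isPSolvable_quotient hsol (pPrimeCore p G)
    have hsol2 := Cfsg.Agent.Lib.H32PSolv.isPSolvable_quotient hsol1 (pCore p (G ⧸ pPrimeCore p G))
    apply ih hsol2
    apply sylow_ds_quot
    intro S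
    refine ds_le_pCore hp2 hsol1 (Cfsg.Agent.Lib.Cores.pPrimeCore_quotient_pPrimeCore p G) S S.2 ?_ d ?_
    · exact (Cfsg.Agent.Lib.H32Cores.pCore_isPGroup p).le_sylow_of_normal S
    · apply sylow_ds_quot
      intro S'
      rw [hd S']; exact bot_le

end Cfsg.Agent.Lib.HHDer
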