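import Mathlib
import Cfsg.Agent.Lib.HHMain2
import Cfsg.Agent.Lib.BG02e

/-! Fixed points of an element of prime order acting on a `q`-group acting on a module of coprime
characteristic (helper63). -/

set_option autoImplicit false
open scoped commutatorElement

namespace Cfsg.Agent.Lib.HHFix

open Module Cfsg.Agent.Lib.ModRep Cfsg.Agent.Lib.HHLin Cfsg.Agent.Lib.HHWt Cfsg.Agent.Lib.HHCrit
  Cfsg.Agent.Lib.HHMin Cfsg.Agent.Lib.BG02 Cfsg.Agent.Lib.HHMain

universe u v w

/-- a finite group of scalars is cyclic. -/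
theorem isCyclic_of_scalars {K : Type*} [Field K] {W : Type*} [AddCommGroup W] [Module K W] [Nontrivial W]
    {Z : Type*} [Group Z] [Finite Z] (τ : Z →* Module.End K W) (hτ : Function.Injective τ)
    (hsc : ∀ z, ∃ c : K, τ z = c • 1) : IsCyclic Z := by
  choose f hf using hsc
  obtain ⟨w, hw⟩ := exists_ne (0 : W)
  have huniq : ∀ a b : K, (a • 1 : Module.End K W) = b • 1 → a = b := by
    intro a b h
    have h1 := LinearMap.congr_fun h w
    rw [LinearMap.smul_apply, LinearMap.smul_apply, Module.End.one_apply] at h1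
    have h2 : (a - b) • w = 0 := by rw [sub_smul, h1, sub_self]
    rcases smul_eq_zero.mp h2 with h3 | h3
    · exact sub_eq_zero.mp h3
    · exact absurd h3 hw
  let F : Z →* K :=
    { toFun := f
      map_one' := by
        apply huniq
        rw [← hf, map_one, one_smul]
      map_mul' := by
        intro a b
        apply huniq
        rw [← hf, map_mul, hf, hf, smul_mul_assoc, one_mul, smul_smul] }
  apply isCyclic_of_injective_ringHom F
  intro a b h
  apply hτ
  rw [hf, hf]
  change f a = f b at h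
  rw [h]

/-- The minimal case. -/
theorem min_case {K : Type u} [Field K] [IsAlgClosed K] {q r : ℕ} [hq : Fact q.Prime] [hr : Fact r.Prime]
    (hqr : q ≠ r)
    {V : Type v} [AddCommGroup V] [Module K V] [FiniteDimensional K V] {G : Type w} [Group G] [Finite G]
    (ρ : G →* Module.End K V) (hρ : Function.Injective ρ) (hGK : (Nat.card G : K) ≠ 0)
    (U : Subgroup G) (hU : IsPGroup q U) (hUn : U.Normal)
    (x : G) (hsup : U ⊔ Subgroup.zpowers x = ⊤) (hx : x ^ r = 1)
    (hy : ∃ g ∈ U, x * g ≠ g * x)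
    (hmin : ∀ V ≤ U, V ≠ U → x ∈ Subgroup.normalizer (V : Set G) → ∀ v ∈ V, x * v = v * x)
    (h0 : ∑ i ∈ Finset.range r, ρ x ^ i = 0) :
    (∃ a ∈ U, ∃ b ∈ U, a * b ≠ b * a) ∧ ∃ n, 0 < n ∧ r = q ^ n + 1 := by
  classical
  have hxU : x ∈ Subgroup.normalizer (U : Set G) := by rw [Subgroup.normalizer_eq_top]; trivial
  have hAU : Subgroup.zpowers x ≤ Subgroup.normalizer (U : Set G) := by rw [Subgroup.zpowers_le]; exact hxU
  have hxord : orderOf x ∣ r := orderOf_dvd_of_pow_eq_one hx
  have hBcop : (Nat.card (Subgroup.zpowers x)).Coprime q := by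
    rw [Nat.card_zpowers]
    apply Nat.Coprime.coprime_dvd_left hxord
    exact (Nat.coprime_primes hr.out hq.out).mpr (Ne.symm hqr)
  have hcent : ∀ W : Subgroup G, Subgroup.zpowers x ≤ Subgroup.centralizer (W : Set G) ↔ ∀ v ∈ W, x * v = v * x := by
    intro W
    rw [Subgroup.zpowers_le, Subgroup.mem_centralizer_iff]
    exact ⟨fun h v hv => (h v hv).symm, fun h v hv => (h v hv).symm⟩
  have hcon : ¬ Subgroup.zpowers x ≤ Subgroup.centralizer (U : Set G) := by
    rw [hcent]
    intro h
    obtain ⟨g, hg, hne⟩ := hy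
    exact hne (h g hg)
  obtain ⟨U₁, hU₁, hAU₁, hBU₁, hUB, _, hFB, hFU, hpow, hcommF⟩ :=
    exists_minimal2 U (Subgroup.zpowers x) (Subgroup.zpowers x) hU hBcop le_rfl Subgroup.le_normalizer hAU hcon
  have hU₁U : U₁ = U := by
    by_contra hne
    exact hBU₁ ((hcent U₁).mpr (hmin U₁ hU₁ hne (hAU₁ (Subgroup.mem_zpowers x))))
  subst hU₁U
  have hcardK : ∀ H : Subgroup G, (Nat.card H : K) ≠ 0 := by
    intro H h
    apply hGK
    obtain ⟨m, hm⟩ := Subgroup.card_subgroup_dvd_card H
    rw [hm]; push_cast; rw [h, zero_mul]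
  by_cases hab : ∀ a ∈ U₁, ∀ b ∈ U₁, a * b = b * a
  · -- abelian case
    exfalso
    have hUρ : ∀ a ∈ U₁, ∀ b ∈ U₁, ρ a * ρ b = ρ b * ρ a := by
      intro a ha b hb
      rw [← map_mul, hab a ha b hb, map_mul]
    have hex : ∃ l : G → K, ∃ v ∈ wt ρ U₁ l, v ≠ 0 ∧ x ∉ stab U₁ l := by
      by_contra hall
      push Not at hall
      obtain ⟨g, hg, hne⟩ := hy
      apply hne
      apply hρ
      rw [map_mul, map_mul]
      apply ext_wt ρ U₁ (hcardK U₁) hUρ
      intro l v hv hv0
      have h1 := hall l v hv hv0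
      have h2 := apply_mem_wt_of_stab ρ h1 hv
      rw [Module.End.mul_apply, Module.End.mul_apply, h2 g hg, hv g hg, map_smul]
    obtain ⟨l, v, hv, hv0, hyl⟩ := hex
    have hnst : ∀ i, 0 < i → i < r → x ^ i ∉ stab U₁ l := by
      intro i hi0 hi h
      apply hyl
      have h1 : x ^ r ∈ stab U₁ l := by rw [hx]; exact one_mem _
      have h2 := pow_gcd_mem h h1
      have h3 : Nat.gcd i r = 1 := by
        rw [Nat.gcd_comm]
        exact (Nat.Prime.coprime_iff_not_dvd hr.out).mpr (fun hd => absurd (Nat.le_of_dvd hi0 hd) (by omega))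
      rwa [h3, pow_one] at h2
    have h1 := sum_ne_zero ρ U₁ r hr.out.pos (fun i => (ρ x ^ i) v) (fun i a => l ((x ^ i)⁻¹ * a * x ^ i)) ?_ ?_ ?_
    · apply h1
      rw [← LinearMap.sum_apply, h0, LinearMap.zero_apply]
    · intro i _
      rw [← map_pow]
      exact apply_mem_wt ρ (pow_mem hxU i) hv
    · intro i h1 h2
      by_contra hcon
      push Not at hcon
      apply hnst i h1 h2
      refine ⟨pow_mem hxU i, ?_⟩
      intro a ha
      have h3 := hcon a ha
      simp only [pow_zero, inv_one, one_mul, mul_one] at h3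
      exact h3.symm
    · rw [pow_zero]; exact hv0
  · -- non-abelian case
    have hne : ∃ a ∈ U₁, ∃ b ∈ U₁, a * b ≠ b * a := by
      push Not at hab
      exact hab
    refine ⟨hne, ?_⟩
    set Z : Subgroup G := (frattini U₁).map U₁.subtype with hZdef
    have hZU : Z ≤ U₁ := Subgroup.map_subtype_le _
    have hZne : Z ≠ U₁ := by
      intro h
      obtain ⟨a, ha, b, hb, hne⟩ := hne
      rw [← h] at hb
      exact hne (hFU b hb a ha)
    have hAZ : Subgroup.zpowers x ≤ Subgroup.normalizer (Z : Set G) :=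
      hAU.trans (Cfsg.Agent.Lib.PCoreTools.normalizer_le_of_characteristic frattini_characteristic)
    have hxZ : x ∈ Subgroup.normalizer (Z : Set G) := hAZ (Subgroup.mem_zpowers x)
    have hUZ : U₁ ≤ Subgroup.normalizer (Z : Set G) :=
      (Subgroup.le_normalizer (H := U₁)).trans
        (Cfsg.Agent.Lib.PCoreTools.normalizer_le_of_characteristic frattini_characteristic)
    have hZn : Z.Normal := by
      rw [← Subgroup.normalizer_eq_top_iff, eq_top_iff, ← hsup]
      exact sup_le hUZ hAZ
    have hUUZ : ⁅U₁, U₁⁆ ≤ Z := by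
      rw [Subgroup.commutator_le]
      intro a ha b hb
      exact hcommF a ha b hb
    have hirrU' : ∀ V : Subgroup G, V ≤ U₁ → V ≠ U₁ → x ∈ Subgroup.normalizer (V : Set G) → V ≤ ⁅U₁, U₁⁆ := by
      intro W hW hWne hxW v hv
      have h1 := hmin W hW hWne hxW v hv
      apply mem_commutator_of_centralized U₁ (Subgroup.zpowers x) hU hBcop hAU hUB (hW hv)
      intro b hb
      obtain ⟨i, rfl⟩ := Subgroup.mem_zpowers_iff.mp hb
      have h2 : Commute x v := h1
      exact (h2.zpow_left i).eq
    have hirrU : ∀ V : Subgroup G, V ≤ U₁ → V ≠ U₁ → x ∈ Subgroup.normalizer (V : Set G) → V ≤ Z :=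
      fun V h1 h2 h3 => (hirrU' V h1 h2 h3).trans hUUZ
    have hZle : Z ≤ ⁅U₁, U₁⁆ := hirrU' Z hZU hZne hxZ
    have hyZ : ∀ z ∈ Z, x * z = z * x := hmin Z hZU hZne hxZ
    have hZq : IsPGroup q Z := hU.to_le hZU
    have hZK : (Nat.card Z : K) ≠ 0 := hcardK Z
    have hZab : ∀ a ∈ Z, ∀ b ∈ Z, ρ a * ρ b = ρ b * ρ a := by
      intro a ha b hb
      rw [← map_mul, hFU b hb a (hZU ha), map_mul]
    -- the exponent of `Z`
    have hZexp : ∀ z ∈ Z, z ^ q = 1 := by
      let T : Subgroup G :=
        { carrier := {z | z ∈ Z ∧ z ^ q = 1}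
          one_mem' := ⟨one_mem _, one_pow _⟩
          mul_mem' := by
            rintro a b ⟨ha, ha'⟩ ⟨hb, hb'⟩
            refine ⟨mul_mem ha hb, ?_⟩
            have hc : Commute a b := hFU b hb a (hZU ha)
            rw [hc.mul_pow, ha', hb', one_mul]
          inv_mem' := by
            rintro a ⟨ha, ha'⟩
            refine ⟨inv_mem ha, ?_⟩
            rw [inv_pow, ha', inv_one] }
      have hT : ⁅U₁, U₁⁆ ≤ T := by
        rw [Subgroup.commutator_le]
        intro a ha b hb
        refine ⟨hcommF a ha b hb, ?_⟩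
        have hz := hcommF a ha b hb
        have hcb : Commute ⁅a, b⁆ b := (hFU _ hz b hb).symm
        have h1 : a * b ^ q * a⁻¹ = b ^ q := by
          rw [hFU _ (hpow b hb) a ha]; group
        have h2 : a * b ^ q * a⁻¹ = (a * b * a⁻¹) ^ q := conj_pow.symm
        have h3 : a * b * a⁻¹ = ⁅a, b⁆ * b := by rw [commutatorElement_def]; group
        rw [h2, h3, hcb.mul_pow] at h1
        exact mul_eq_right.mp h1
      intro z hz
      exact (hT (hZle hz)).2
    -- a non-trivial weight
    have hex : ∃ l : G → K, ∃ v ∈ wt ρ Z l, v ≠ 0 ∧ ∃ z ∈ Z, l z ≠ 1 := by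
      by_contra hall
      push Not at hall
      have h1 : ∀ z ∈ Z, z = 1 := by
        intro z hz
        apply hρ
        rw [map_one]
        apply ext_wt ρ Z hZK hZab
        intro l v hv hv0
        rw [hv z hz, hall l v hv hv0 z hz, one_smul]
        rfl
      obtain ⟨a, ha, b, hb, hne⟩ := hne
      apply hne
      have h2 := h1 _ (hcommF a ha b hb)
      calc a * b = (a * b * a⁻¹ * b⁻¹) * (b * a) := by group
        _ = b * a := by rw [h2, one_mul]
    obtain ⟨l, v₀, hv₀, hv₀0, z₀, hz₀, hlz₀⟩ := hex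
    have hUstab : U₁ ≤ stab Z l := by
      intro g hg
      refine ⟨hUZ hg, ?_⟩
      intro a ha
      have h1 := hFU a ha g hg
      have h2 : g⁻¹ * a * g = a := by
        rw [mul_assoc, ← h1]; group
      rw [h2]
    have hxst : x ∈ stab Z l := by
      refine ⟨hxZ, ?_⟩
      intro a ha
      have h1 := hyZ a ha
      have h2 : x⁻¹ * a * x = a := by
        rw [mul_assoc, ← h1]; group
      rw [h2]
    have hWbot : wt ρ Z l ≠ ⊥ := by
      intro h
      rw [h] at hv₀
      exact hv₀0 ((Submodule.mem_bot K).mp hv₀)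
    have hstop : ∀ g : G, g ∈ stab Z l := by
      intro g
      have h1 : U₁ ⊔ Subgroup.zpowers x ≤ stab Z l := sup_le hUstab (by rw [Subgroup.zpowers_le]; exact hxst)
      rw [hsup] at h1
      exact h1 trivial
    have hinv : Inv ρ (wt ρ Z l) := fun g v hv => apply_mem_wt_of_stab ρ (hstop g) hv
    obtain ⟨W₁, h₁, hW₁, hW₁0, hirr⟩ := exists_irr_sub ρ (wt ρ Z l) hWbot hinv
    set σ := subrep ρ W₁ h₁ with hσdef
    have hscal : ∀ z ∈ Z, σ z = l z • 1 := by
      intro z hz
      apply LinearMap.ext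
      intro w
      apply Subtype.ext
      exact hW₁ w.2 z hz
    have hnt := hirr.nt
    have hz₀σ : σ z₀ ≠ 1 := by
      intro h
      rw [hscal z₀ hz₀] at h
      obtain ⟨w, hw⟩ := exists_ne (0 : W₁)
      have h1 := LinearMap.congr_fun h w
      rw [LinearMap.smul_apply, Module.End.one_apply] at h1
      have h2 : (l z₀ - 1) • w = 0 := by rw [sub_smul, h1, one_smul, sub_self]
      rcases smul_eq_zero.mp h2 with h3 | h3
      · exact hlz₀ (sub_eq_zero.mp h3)
      · exact hw h3
    have hxσ : σ x ≠ 1 := by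
      intro h
      apply hz₀σ
      have hle : ⁅U₁, Subgroup.zpowers x⁆ ≤ σ.toHomUnits.ker := by
        rw [Subgroup.commutator_le]
        intro g hg b hb
        obtain ⟨i, rfl⟩ := Subgroup.mem_zpowers_iff.mp hb
        have h1 : σ.toHomUnits x = 1 := Units.ext h
        rw [MonoidHom.mem_ker, map_commutatorElement, map_zpow, h1, one_zpow, commutatorElement_one_right]
      rw [hUB] at hle
      exact congrArg Units.val (hle (hZU hz₀))
    have hord : orderOf (toImg σ x) = r := by
      apply orderOf_eq_prime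
      · rw [← map_pow, hx, map_one]
      · intro h
        apply hxσ
        rw [← incl_toImg σ x, h, map_one]
    have hfin := finite_img σ
    have hcop : (Nat.card (Z.map (toImg σ))).Coprime (Nat.card (Subgroup.zpowers (toImg σ x))) := by
      rw [Nat.card_zpowers, hord]
      obtain ⟨k, hk⟩ := IsPGroup.iff_card.mp (hZq.map (toImg σ))
      rw [hk]
      exact Nat.Coprime.pow_left _ ((Nat.coprime_primes hq.out hr.out).mpr hqr)
    have hreg : ∀ i : ℕ, σ (x ^ i) ≠ 1 → ∀ g ∈ U₁, g * x ^ i * g⁻¹ * (x ^ i)⁻¹ ∈ Z → g ∈ Z := by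
      intro i hi g hg hgZ
      let D : Subgroup G := U₁ ⊓ (Subgroup.centralizer ({(QuotientGroup.mk' Z (x ^ i))} : Set (G ⧸ Z))).comap
        (QuotientGroup.mk' Z)
      have hDmem : ∀ h, h ∈ D ↔ h ∈ U₁ ∧ QuotientGroup.mk' Z h * QuotientGroup.mk' Z (x ^ i) =
          QuotientGroup.mk' Z (x ^ i) * QuotientGroup.mk' Z h := by
        intro h
        rw [Subgroup.mem_inf, Subgroup.mem_comap, Subgroup.mem_centralizer_singleton_iff]
      have hconj : ∀ e : ℤ, ∀ h ∈ D, x ^ e * h * (x ^ e)⁻¹ ∈ D := by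
        intro e h hh
        rw [hDmem] at hh ⊢
        refine ⟨hUn.conj_mem h hh.1 _, ?_⟩
        have hc1 : Commute (QuotientGroup.mk' Z h) (QuotientGroup.mk' Z (x ^ i)) := hh.2
        have hc2 : Commute (QuotientGroup.mk' Z (x ^ e)) (QuotientGroup.mk' Z (x ^ i)) := by
          have hc3 : Commute (x ^ e) (x ^ i) := by
            have := (Commute.refl x).zpow_zpow e (i : ℤ)
            rwa [zpow_natCast] at this
          exact hc3.map _
        rw [map_mul, map_mul, map_inv]
        exact ((hc2.mul_left hc1).mul_left hc2.inv_left).eq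
      have hxD : x ∈ Subgroup.normalizer (D : Set G) := by
        rw [Subgroup.mem_normalizer_iff]
        intro h
        constructor
        · intro hh
          have := hconj 1 h hh
          rwa [zpow_one] at this
        · intro hh
          have := hconj (-1) _ hh
          rw [zpow_neg_one, inv_inv] at this
          have e : x⁻¹ * (x * h * x⁻¹) * x = h := by group
          rwa [e] at this
      have hDne : D ≠ U₁ := by
        intro hD
        -- `x` is a power of `x^i`
        have hxi : x ^ i ≠ 1 := by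
          intro h; apply hi; rw [h, map_one]
        have hyi : x ∈ Subgroup.zpowers (x ^ i) := by
          have h1 : x ^ r ∈ Subgroup.zpowers (x ^ i) := by rw [hx]; exact one_mem _
          have h2 := pow_gcd_mem (Subgroup.mem_zpowers (x ^ i)) h1
          have h3 : Nat.gcd i r = 1 := by
            rw [Nat.gcd_comm]
            refine (Nat.Prime.coprime_iff_not_dvd hr.out).mpr (fun hd => hxi ?_)
            obtain ⟨k, rfl⟩ := hd
            rw [pow_mul, hx, one_pow]
          rwa [h3, pow_one] at h2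
        apply hZne
        apply le_antisymm hZU
        rw [← hUB]
        rw [Subgroup.commutator_le]
        intro a ha b hb
        have hb' : b ∈ Subgroup.zpowers (x ^ i) := by
          obtain ⟨j, rfl⟩ := Subgroup.mem_zpowers_iff.mp hb
          exact zpow_mem hyi j
        obtain ⟨j, rfl⟩ := Subgroup.mem_zpowers_iff.mp hb'
        have ha' : a ∈ D := by rw [hD]; exact ha
        have hc1 : Commute (QuotientGroup.mk' Z a) (QuotientGroup.mk' Z (x ^ i)) := ((hDmem a).mp ha').2
        have hc2 := (hc1.zpow_right j).eq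
        rw [← map_zpow] at hc2
        have h3 : QuotientGroup.mk' Z ⁅a, (x ^ i) ^ j⁆ = 1 := by
          rw [map_commutatorElement, commutatorElement_eq_one_iff_mul_comm]
          exact hc2
        exact (QuotientGroup.eq_one_iff _).mp h3
      apply hirrU D inf_le_left hDne hxD
      rw [hDmem]
      refine ⟨hg, ?_⟩
      have h3 : QuotientGroup.mk' Z (g * x ^ i * g⁻¹ * (x ^ i)⁻¹) = 1 := (QuotientGroup.eq_one_iff _).mpr hgZ
      rw [← commutatorElement_eq_one_iff_mul_comm, ← map_commutatorElement, commutatorElement_def]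
      exact h3
    have H := heis_image σ U₁ Z x hZU hUn hsup (fun z hz => ⟨l z, hscal z hz⟩) hcommF ⟨z₀, hz₀, hz₀σ⟩
      (fun W h1 h2 h3 => hirrU W h1 h2 (by rw [Subgroup.normalizer_eq_top]; trivial)) hZle hreg hcop
    -- the image of `Z` has order `q`
    have hZcyc : IsCyclic (Z.map (toImg σ)) := by
      apply isCyclic_of_scalars ((incl σ).comp (Z.map (toImg σ)).subtype)
        ((incl_injective σ).comp (Subgroup.subtype_injective _))
      rintro ⟨_, ⟨z, hz, rfl⟩⟩
      exact ⟨l z, hscal z hz⟩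
    have hZcard : Nat.card (Z.map (toImg σ)) = q := by
      have h1 : Monoid.exponent (Z.map (toImg σ)) = Nat.card (Z.map (toImg σ)) := IsCyclic.exponent_eq_card
      have h2 : Monoid.exponent (Z.map (toImg σ)) ∣ q := by
        apply Monoid.exponent_dvd_of_forall_pow_eq_one
        rintro ⟨_, ⟨z, hz, rfl⟩⟩
        apply Subtype.ext
        change (toImg σ z) ^ q = 1
        rw [← map_pow, hZexp z hz, map_one]
      rw [h1] at h2
      rcases (Nat.dvd_prime hq.out).mp h2 with h3 | h3
      · exfalso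
        apply hz₀σ
        rw [Subgroup.card_eq_one] at h3
        have h4 : toImg σ z₀ ∈ Z.map (toImg σ) := ⟨z₀, hz₀, rfl⟩
        rw [h3, Subgroup.mem_bot] at h4
        rw [← incl_toImg, h4, map_one]
      · exact h3
    have hscim : ∀ z ∈ Z.map (toImg σ), ∃ c : K, incl σ z = c • 1 := by
      rintro _ ⟨z, hz, rfl⟩
      exact ⟨l z, hscal z hz⟩
    have hscim1 : ∀ z ∈ Z.map (toImg σ), z ≠ 1 → ∃ c : K, c ≠ 1 ∧ incl σ z = c • 1 := by
      intro z hz hz1
      obtain ⟨c, hc⟩ := hscim z hz
      refine ⟨c, ?_, hc⟩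
      rintro rfl
      apply hz1
      apply incl_injective σ
      rw [hc, one_smul, map_one]
    have hcardI : ∀ S : Subgroup (img σ), (Nat.card S : K) ≠ 0 := by
      intro S h
      apply hGK
      have h1 : Nat.card S ∣ Nat.card G :=
        (Subgroup.card_subgroup_dvd_card S).trans (Subgroup.card_dvd_of_surjective (toImg σ) (toImg_surjective σ))
      obtain ⟨m, hm⟩ := h1
      rw [hm]; push_cast; rw [h, zero_mul]
    have hIK : (Nat.card (img σ) : K) ≠ 0 := by
      have := hcardI ⊤
      rwa [Subgroup.card_top] at this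
    have hspan := span_P_eq_top H (ρ := incl σ) (irr_incl hirr) hscim1 (hcardI _) (hcardI _)
    have h1 := finrank_le_index (incl σ) hscim hspan
    have h2 := index_le_finrank H (incl σ) hscim1 (hcardI _)
    have hidx : ((Z.map (toImg σ)).subgroupOf (U₁.map (toImg σ))).index = finrank K W₁ * finrank K W₁ := by
      have h3 := le_antisymm h2 h1
      rw [h3]
      exact Module.finrank_linearMap K K W₁ W₁
    obtain ⟨j, hj⟩ := IsPGroup.iff_card.mp (hU.map (toImg σ))
    have hdvd : ((Z.map (toImg σ)).subgroupOf (U₁.map (toImg σ))).index ∣ q ^ j := by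
      rw [← hj]; exact Subgroup.index_dvd_card _
    obtain ⟨n, _, hn⟩ := (Nat.dvd_prime_pow hq.out).mp ((Dvd.intro _ hidx.symm).trans hdvd)
    have hidx' : ((Z.map (toImg σ)).subgroupOf (U₁.map (toImg σ))).index = q ^ (2 * n) := by
      rw [hidx, hn, ← pow_add]
      congr 1
      omega
    have hn0 : 0 < n := by
      rw [Nat.pos_iff_ne_zero]
      intro h
      rw [h, mul_zero, pow_zero, Subgroup.index_eq_one] at hidx'
      have h3 : U₁.map (toImg σ) ≤ Z.map (toImg σ) := Subgroup.subgroupOf_eq_top.mp hidx'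
      apply hz₀σ
      have h4 : ⁅U₁, U₁⁆ ≤ (toImg σ).ker := by
        rw [Subgroup.commutator_le]
        intro a ha b hb
        rw [MonoidHom.mem_ker, map_commutatorElement, commutatorElement_eq_one_iff_mul_comm]
        exact H.Zc _ (h3 ⟨a, ha, rfl⟩) _
      have h5 : toImg σ z₀ = 1 := h4 (hZle hz₀)
      rw [← incl_toImg, h5, map_one]
    refine ⟨n, hn0, ?_⟩
    have hcyc : IsCyclic (Subgroup.zpowers (toImg σ x)) := inferInstance
    have hUfin : Fintype (Subgroup.zpowers (toImg σ x)) := Fintype.ofFinite _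
    rw [hZcard] at H
    have hE : ∑ u : Subgroup.zpowers (toImg σ x), incl σ (u : img σ) = 0 := by
      have hfo : IsOfFinOrder (toImg σ x) := isOfFinOrder_of_finite _
      have h3 : ∑ i : Fin (orderOf (toImg σ x)), (σ x) ^ (i : ℕ) =
          ∑ u : Subgroup.zpowers (toImg σ x), incl σ (u : img σ) := by
        refine Fintype.sum_equiv (finEquivZPowers hfo) _ _ ?_
        intro i
        rw [finEquivZPowers_apply, map_pow, incl_toImg]
      rw [← h3, hord, Fin.sum_univ_eq_sum_range (fun i => (σ x) ^ i) r]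
      apply LinearMap.ext
      intro w
      apply Subtype.ext
      have h4 := LinearMap.congr_fun h0 (w : V)
      rw [LinearMap.sum_apply] at h4
      rw [LinearMap.sum_apply]
      have h5 : ∀ i : ℕ, (((σ x ^ i) w : W₁) : V) = (ρ x ^ i) (w : V) := by
        intro i
        rw [← map_pow, ← map_pow]
        rfl
      rw [AddSubmonoidClass.coe_finsetSum]
      rw [Finset.sum_congr rfl (fun i _ => h5 i), h4]
      rfl
    have hcc := H.closed_case (incl σ) hIK n hn0 hq.out hidx' hcyc hE
      ⟨toImg σ z₀, ⟨z₀, hz₀, rfl⟩, hz₀σ⟩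
    rw [Nat.card_zpowers, hord] at hcc
    exact hcc

/-- the general case over an algebraically closed field. -/
theorem main_closed {K : Type u} [Field K] [IsAlgClosed K] {q r : ℕ} [hq : Fact q.Prime] [hr : Fact r.Prime]
    (hqr : q ≠ r)
    {V : Type v} [AddCommGroup V] [Module K V] [FiniteDimensional K V] {G : Type w} [Group G] [Finite G]
    (ρ : G →* Module.End K V) (hρ : Function.Injective ρ) (hGK : (Nat.card G : K) ≠ 0)
    (Q : Subgroup G) (hQ : IsPGroup q Q) (x : G) (hxQ : x ∈ Subgroup.normalizer (Q : Set G)) (hx : x ^ r = 1)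
    (hy : ∃ g ∈ Q, x * g ≠ g * x)
    (h0 : ∑ i ∈ Finset.range r, ρ x ^ i = 0) :
    (∃ a ∈ Q, ∃ b ∈ Q, a * b ≠ b * a) ∧ ∃ n, 0 < n ∧ r = q ^ n + 1 := by
  classical
  -- minimal invariant subgroup
  have hne : ({U : Subgroup G | U ≤ Q ∧ x ∈ Subgroup.normalizer (U : Set G) ∧
      ∃ g ∈ U, x * g ≠ g * x}).Nonempty := ⟨Q, le_rfl, hxQ, hy⟩
  obtain ⟨U, hU⟩ := Set.Finite.exists_minimal (Set.toFinite _) hne
  obtain ⟨hUQ, hxU, g₀, hg₀, hg₀y⟩ := hU.prop
  have hmin : ∀ V : Subgroup G, V ≤ U → V ≠ U → x ∈ Subgroup.normalizer (V : Set G) →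
      ∀ v ∈ V, x * v = v * x := by
    intro V hVU hVne hxV
    by_contra hcon
    push Not at hcon
    exact hVne (le_antisymm hVU (hU.le_of_le ⟨hVU.trans hUQ, hxV, hcon⟩ hVU))
  set H := U ⊔ Subgroup.zpowers x with hH
  have hUH : U ≤ H := le_sup_left
  have hxH : x ∈ H := (le_sup_right : Subgroup.zpowers x ≤ H) (Subgroup.mem_zpowers x)
  have hHn : H ≤ Subgroup.normalizer (U : Set G) :=
    sup_le Subgroup.le_normalizer (by rw [Subgroup.zpowers_le]; exact hxU)
  have hUn : (U.subgroupOf H).Normal := Subgroup.normal_subgroupOf_of_le_normalizer hHn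
  have hρ' : Function.Injective (ρ.comp H.subtype) := hρ.comp H.subtype_injective
  have hHK : (Nat.card H : K) ≠ 0 := by
    intro h
    apply hGK
    obtain ⟨m, hm⟩ := Subgroup.card_subgroup_dvd_card H
    rw [hm]; push_cast; rw [h, zero_mul]
  have hmc := min_case (K := K) hqr (ρ.comp H.subtype) hρ' hHK (U.subgroupOf H)
    ((hQ.to_le hUQ).comap_subtype) hUn ⟨x, hxH⟩ ?_ (Subtype.ext hx) ?_ ?_ h0
  · obtain ⟨⟨a, ha, b, hb, hab⟩, h⟩ := hmc
    exact ⟨⟨a, hUQ ha, b, hUQ hb, fun h => hab (Subtype.ext h)⟩, h⟩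
  · have h1 : Subgroup.zpowers (⟨x, hxH⟩ : H) = (Subgroup.zpowers x).subgroupOf H := by
      ext g
      rw [Subgroup.mem_subgroupOf, Subgroup.mem_zpowers_iff, Subgroup.mem_zpowers_iff]
      constructor
      · rintro ⟨k, rfl⟩
        exact ⟨k, rfl⟩
      · rintro ⟨k, hk⟩
        exact ⟨k, Subtype.ext hk⟩
    rw [h1, ← Subgroup.subgroupOf_sup hUH le_sup_right, ← hH, Subgroup.subgroupOf_self]
  · exact ⟨⟨g₀, hUH hg₀⟩, hg₀, fun h => hg₀y (congrArg (Subtype.val : H → G) h)⟩
  · intro W hW hWne hxW v hv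
    have h1 := hmin (W.map H.subtype) ?_ ?_ ?_ v ⟨v, hv, rfl⟩
    · exact Subtype.ext h1
    · rintro _ ⟨w, hw, rfl⟩
      exact hW hw
    · intro h
      apply hWne
      apply Subgroup.map_injective H.subtype_injective
      rw [h, Subgroup.subgroupOf_map_subtype, inf_eq_left.mpr hUH]
    · have h2 := Subgroup.le_normalizer_map (H := W) H.subtype
      exact h2 ⟨⟨x, hxH⟩, hxW, rfl⟩

/-- the general case over an arbitrary field. -/
theorem main_field {F : Type u} [Field F] {q r : ℕ} [hq : Fact q.Prime] [hr : Fact r.Prime]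
    (hqr : q ≠ r)
    {V : Type v} [AddCommGroup V] [Module F V] [FiniteDimensional F V] {G : Type w} [Group G] [Finite G]
    (ρ : G →* Module.End F V) (hρ : Function.Injective ρ) (hGK : (Nat.card G : F) ≠ 0)
    (Q : Subgroup G) (hQ : IsPGroup q Q) (x : G) (hxQ : x ∈ Subgroup.normalizer (Q : Set G)) (hx : x ^ r = 1)
    (hy : ∃ g ∈ Q, x * g ≠ g * x)
    (h0 : ∀ v, ρ x v = v → v = 0) :
    (∃ a ∈ Q, ∃ b ∈ Q, a * b ≠ b * a) ∧ ∃ n, 0 < n ∧ r = q ^ n + 1 := by
  have hinj : Function.Injective (Module.End.baseChangeHom F (AlgebraicClosure F) V) :=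
    LinearMap.baseChangeHom_injective F V (AlgebraicClosure F)
  set B := Module.End.baseChangeHom F (AlgebraicClosure F) V with hB
  have hsum : ∑ i ∈ Finset.range r, ρ x ^ i = 0 := by
    apply LinearMap.ext
    intro v
    rw [LinearMap.zero_apply]
    apply h0
    rw [← Module.End.mul_apply, Finset.mul_sum]
    have h1 : ∑ i ∈ Finset.range r, ρ x * ρ x ^ i = ∑ i ∈ Finset.range r, ρ x ^ i := by
      have h2 := Finset.sum_range_succ' (fun i => ρ x ^ i) r
      have h3 := Finset.sum_range_succ (fun i => ρ x ^ i) r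
      rw [h3] at h2
      rw [pow_zero] at h2
      have h4 : ρ x ^ r = 1 := by rw [← map_pow, hx, map_one]
      rw [h4] at h2
      have h5 := add_right_cancel h2
      rw [h5]
      apply Finset.sum_congr rfl
      intro i _
      rw [← pow_succ']
    rw [h1]
  apply main_closed (K := AlgebraicClosure F) (V := TensorProduct F (AlgebraicClosure F) V) hqr
    (B.toMonoidHom.comp ρ) (hinj.comp hρ) ?_ Q hQ x hxQ hx hy
  · have h1 := congrArg B hsum
    rw [map_sum, map_zero] at h1
    rw [← h1]
    apply Finset.sum_congr rfl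
    intro i _
    rw [map_pow]
    rfl
  · intro h
    apply hGK
    have h1 : algebraMap F (AlgebraicClosure F) (Nat.card G : F) = 0 := by
      rw [map_natCast]; exact h
    exact (map_eq_zero _).mp h1

end Cfsg.Agent.Lib.HHFix
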