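import Mathlib
import Cfsg.Agent.Lib.FratRep
import Cfsg.Agent.Lib.HHLin
import Cfsg.Agent.Lib.Involve

/-! Wreath product sections from elements with `(x-1)^(p-1) ≠ 0` on the Frattini quotient (helper63). -/

set_option autoImplicit false
open scoped commutatorElement

namespace Cfsg.Agent.Lib.HHWreath

open Module Cfsg.Agent.Lib.FratRep Cfsg.Agent.Lib.HHLin Cfsg

universe u

/-- The map `v ↦ (φ(ν^i v))_{i<p}` is surjective. -/
theorem psi_surjective {p : ℕ} [hp : Fact p.Prime] {V : Type u} [AddCommGroup V] [Module (ZMod p) V]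
    (ν : Module.End (ZMod p) V) (φ : Module.Dual (ZMod p) V) (v₀ : V) (h0 : ν ^ p = 0)
    (h1 : φ ((ν ^ (p - 1)) v₀) = 1) :
    Function.Surjective (LinearMap.pi (fun i : Fin p => φ ∘ₗ (ν ^ (i : ℕ))) : V →ₗ[ZMod p] (Fin p → ZMod p)) := by
  classical
  set Ψ := (LinearMap.pi (fun i : Fin p => φ ∘ₗ (ν ^ (i : ℕ))) : V →ₗ[ZMod p] (Fin p → ZMod p)) with hΨ
  have hΨa : ∀ v i, Ψ v i = φ ((ν ^ (i : ℕ)) v) := fun v i => rfl
  have hli : LinearIndependent (ZMod p) (fun j : Fin p => Ψ ((ν ^ (j : ℕ)) v₀)) := by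
    rw [Fintype.linearIndependent_iff]
    intro g hg
    by_contra hcon
    push Not at hcon
    have hne : (Finset.univ.filter (fun i : Fin p => g i ≠ 0)).Nonempty := by
      obtain ⟨i, hi⟩ := hcon
      exact ⟨i, by simp [hi]⟩
    obtain ⟨i, hi, hmin⟩ := Finset.exists_min_image _ (fun i : Fin p => (i : ℕ)) hne
    simp only [Finset.mem_filter, Finset.mem_univ, true_and] at hi hmin
    have hk : p - 1 - i < p := by have := hp.out.pos; omega
    have h2 := congrFun hg ⟨p - 1 - i, hk⟩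
    rw [Finset.sum_apply, Pi.zero_apply, Finset.sum_eq_single i] at h2
    · rw [Pi.smul_apply, hΨa, ← Module.End.mul_apply, ← pow_add] at h2
      have h3 : p - 1 - (i : ℕ) + i = p - 1 := by have := i.2; omega
      change g i • φ ((ν ^ (p - 1 - (i : ℕ) + i)) v₀) = 0 at h2
      rw [h3, h1, smul_eq_mul, mul_one] at h2
      exact hi h2
    · intro j _ hji
      rw [Pi.smul_apply, hΨa, ← Module.End.mul_apply, ← pow_add]
      by_cases hgj : g j = 0
      · rw [hgj, zero_smul]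
      · have h3 := hmin j hgj
        have h4 : (i : ℕ) ≠ j := fun h => hji (Fin.ext h.symm)
        change g j • φ ((ν ^ (p - 1 - (i : ℕ) + j)) v₀) = 0
        obtain ⟨e, he⟩ : ∃ e, p - 1 - (i : ℕ) + j = p + e := ⟨p - 1 - i + j - p, by have := i.2; omega⟩
        rw [he, pow_add, h0, zero_mul, LinearMap.zero_apply, map_zero, smul_zero]
    · intro h; exact absurd (Finset.mem_univ _) h
  have hspan := hli.span_eq_top_of_card_eq_finrank (by rw [Fintype.card_fin, Module.finrank_fin_fun])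
  rw [← LinearMap.range_eq_top, eq_top_iff, ← hspan, Submodule.span_le]
  rintro _ ⟨j, rfl⟩
  exact ⟨_, rfl⟩

/-- The wreath product section. -/
theorem wreath_section {p : ℕ} [hp : Fact p.Prime] {G : Type u} [Group G] [Finite G] {N : Subgroup G}
    [hNn : N.Normal] {V : Type u} [AddCommGroup V] [Module (ZMod p) V] (D : Data p N V) (x : G)
    (hxN : x ∉ N) (hxp : x ^ p ∈ N) (hρN : ∀ g ∈ N, D.ρ g = 1) (hnil : (D.ρ x - 1) ^ (p - 1) ≠ 0) :
    ∃ (W : Type u) (_ : Group W) (_ : Finite W) (f : ↥(N ⊔ Subgroup.zpowers x) →* W), Function.Surjective f ∧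
      ∃ (B : Subgroup W) (t : W), B.Normal ∧ IsMulCommutative B ∧ (∀ b ∈ B, b ^ p = 1) ∧ Nat.card B = p ^ p ∧
        orderOf t = p ∧ t ∉ B ∧ Nat.card W = p ^ (p + 1) ∧
        Nat.card ↥(B ⊓ Subgroup.centralizer ({t} : Set W)) = p := by
  classical
  have hp0 : 0 < p := hp.out.pos
  set ν := D.ρ x - 1 with hν
  have hνp : ν ^ p = 0 := by
    have h1 := sub_one_pow (K := ZMod p) (p := p) (D.ρ x) 1
    rw [pow_one] at h1
    rw [hν, h1, ← map_pow, hρN _ hxp, sub_self]
  have hex : ∃ v₀ : V, (ν ^ (p - 1)) v₀ ≠ 0 := by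
    by_contra hcon
    push Not at hcon
    exact hnil (LinearMap.ext hcon)
  obtain ⟨v₀, hv₀⟩ := hex
  have hφ : ∃ φ : Module.Dual (ZMod p) V, φ ((ν ^ (p - 1)) v₀) = 1 := by
    have h1 : ¬ ∀ φ : Module.Dual (ZMod p) V, φ ((ν ^ (p - 1)) v₀) = 0 := by
      rw [Module.forall_dual_apply_eq_zero_iff (ZMod p)]
      exact hv₀
    push Not at h1
    obtain ⟨φ, hφ⟩ := h1
    refine ⟨(φ ((ν ^ (p - 1)) v₀))⁻¹ • φ, ?_⟩
    rw [LinearMap.smul_apply, smul_eq_mul, inv_mul_cancel₀ hφ]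
  obtain ⟨φ, hφ⟩ := hφ
  have hΨs := psi_surjective ν φ v₀ hνp hφ
  set Ψ := (LinearMap.pi (fun i : Fin p => φ ∘ₗ (ν ^ (i : ℕ))) : V →ₗ[ZMod p] (Fin p → ZMod p)) with hΨ
  have hΨa : ∀ v i, Ψ v i = φ ((ν ^ (i : ℕ)) v) := fun v i => rfl
  have hφall : ∀ v, Ψ v = 0 → ∀ i : ℕ, φ ((ν ^ i) v) = 0 := by
    intro v hv i
    by_cases hi : i < p
    · exact congrFun hv ⟨i, hi⟩
    · obtain ⟨e, he⟩ : ∃ e, i = e + p := ⟨i - p, by omega⟩
      rw [he, pow_add, hνp, mul_zero, LinearMap.zero_apply, map_zero]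
  let Θ : N →* Multiplicative (Fin p → ZMod p) :=
    { toFun := fun u => Multiplicative.ofAdd (Ψ (D.π u))
      map_one' := by rw [D.map_one, map_zero]; rfl
      map_mul' := by intro a b; rw [D.map_mul, map_add]; rfl }
  have hΘ : ∀ u : N, Θ u = 1 ↔ Ψ (D.π u) = 0 := fun u => Iff.rfl
  have hΘs : Function.Surjective Θ := by
    intro a
    obtain ⟨v, hv⟩ := hΨs (Multiplicative.toAdd a)
    obtain ⟨u, rfl⟩ := D.surj v
    exact ⟨u, congrArg Multiplicative.ofAdd hv⟩
  set K : Subgroup G := Θ.ker.map N.subtype with hK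
  have hKN : K ≤ N := Subgroup.map_subtype_le _
  have hKmem : ∀ u : N, (u : G) ∈ K ↔ Ψ (D.π u) = 0 := by
    intro u
    rw [← hΘ, ← MonoidHom.mem_ker]
    constructor
    · rintro ⟨w, hw, hwu⟩
      have : w = u := Subtype.ext hwu
      rw [← this]; exact hw
    · intro h
      exact ⟨u, h, rfl⟩
  set H : Subgroup G := N ⊔ Subgroup.zpowers x with hH
  have hNH : N ≤ H := le_sup_left
  have hxH : x ∈ H := (le_sup_right : Subgroup.zpowers x ≤ H) (Subgroup.mem_zpowers x)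
  have hHK : H ≤ Subgroup.normalizer (K : Set G) := by
    apply sup_le
    · intro g hg
      apply Cfsg.Agent.Lib.H32Cores.mem_normalizer_of_conj_le
      intro u huK
      have hu : Ψ (D.π ⟨u, hKN huK⟩) = 0 := (hKmem ⟨u, hKN huK⟩).mp huK
      have h1 := D.apply g ⟨u, hKN huK⟩
      rw [hρN g hg, Module.End.one_apply] at h1
      have h2 := (hKmem ⟨g * u * g⁻¹, D.conj_mem g ⟨u, hKN huK⟩⟩).mpr (by rw [← h1]; exact hu)
      exact h2
    · rw [Subgroup.zpowers_le]
      apply Cfsg.Agent.Lib.H32Cores.mem_normalizer_of_conj_le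
      intro u huK
      have hu : Ψ (D.π ⟨u, hKN huK⟩) = 0 := (hKmem ⟨u, hKN huK⟩).mp huK
      have h1 := D.apply x ⟨u, hKN huK⟩
      have h2 := (hKmem ⟨x * u * x⁻¹, D.conj_mem x ⟨u, hKN huK⟩⟩).mpr (by
        rw [← h1]
        have h3 : D.ρ x = ν + 1 := by rw [hν, sub_add_cancel]
        rw [h3, LinearMap.add_apply, Module.End.one_apply, map_add, hu, add_zero]
        funext i
        rw [hΨa, ← Module.End.mul_apply, ← pow_succ]
        exact hφall _ hu _)
      exact h2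
  have hKn : (K.subgroupOf H).Normal := Subgroup.normal_subgroupOf_of_le_normalizer hHK
  set f : H →* H ⧸ K.subgroupOf H := QuotientGroup.mk' (K.subgroupOf H) with hf
  have hfs : Function.Surjective f := QuotientGroup.mk'_surjective _
  have hf1 : ∀ h : H, f h = 1 ↔ (h : G) ∈ K := fun h => QuotientGroup.eq_one_iff h
  have hfeq : ∀ a b : H, f a = f b ↔ ((a : G))⁻¹ * b ∈ K := fun a b => QuotientGroup.eq
  -- the element w
  set c := φ (D.π ⟨x ^ p, hxp⟩) with hc
  obtain ⟨w, hw⟩ := D.surj (-(c • v₀))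
  have hνx : ν (D.π ⟨x ^ p, hxp⟩) = 0 := by
    rw [hν, LinearMap.sub_apply, Module.End.one_apply, D.apply, sub_eq_zero]
    congr 1
    apply Subtype.ext
    change x * x ^ p * x⁻¹ = x ^ p
    rw [← pow_succ', pow_succ]; group
  have hwxH : (w : G) * x ∈ H := mul_mem (hNH w.2) hxH
  have hwxN : (w : G) * x ∉ N := fun h => hxN ((Subgroup.mul_mem_cancel_left N w.2).mp h)
  have htp : (f ⟨(w : G) * x, hwxH⟩) ^ p = 1 := by
    rw [← map_pow, hf1]
    change ((w : G) * x) ^ p ∈ K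
    obtain ⟨h1, h2⟩ := D.pow_formula x w p
    have h3 : ((w : G) * x) ^ p ∈ N := by
      have := mul_mem h1 hxp
      rwa [inv_mul_cancel_right] at this
    have h4 : (⟨((w : G) * x) ^ p, h3⟩ : N) = ⟨((w : G) * x) ^ p * (x ^ p)⁻¹, h1⟩ * ⟨x ^ p, hxp⟩ := by
      apply Subtype.ext
      change ((w : G) * x) ^ p = ((w : G) * x) ^ p * (x ^ p)⁻¹ * x ^ p
      rw [inv_mul_cancel_right]
    have h5 := (hKmem ⟨((w : G) * x) ^ p, h3⟩).mpr (by
      have hsum := sum_pow_eq (K := ZMod p) (p := p) (D.ρ x) 1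
      rw [pow_one] at hsum
      rw [h4, D.map_mul, h2, hsum, ← hν, hw]
      funext i
      have hcomp : (ν ^ (i : ℕ)) ((ν ^ (p - 1)) (-(c • v₀))) = -(c • (ν ^ ((i : ℕ) + (p - 1))) v₀) := by
        rw [← Module.End.mul_apply, ← pow_add, map_neg, map_smul]
      rw [hΨa, map_add, map_add, hcomp, map_neg, map_smul, Pi.zero_apply]
      rcases Nat.eq_zero_or_pos (i : ℕ) with hi | hi
      · rw [hi, pow_zero, Nat.zero_add, Module.End.one_apply, ← hc, hφ, smul_eq_mul, mul_one,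
          neg_add_cancel]
      · obtain ⟨e, he⟩ : ∃ e, (i : ℕ) + (p - 1) = p + e := ⟨(i : ℕ) - 1, by omega⟩
        obtain ⟨e', he'⟩ : ∃ e', (i : ℕ) = e' + 1 := ⟨(i : ℕ) - 1, by omega⟩
        rw [he, pow_add, hνp, zero_mul, LinearMap.zero_apply, map_zero, smul_zero, neg_zero, zero_add, he',
          pow_succ, Module.End.mul_apply, hνx, map_zero, map_zero])
    exact h5
  have hBmem : ∀ h : H, f h ∈ (N.subgroupOf H).map f ↔ (h : G) ∈ N := by
    intro h
    constructor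
    · rintro ⟨u, hu, huh⟩
      rw [hfeq] at huh
      have h1 : (u : G) ∈ N := hu
      have h2 := mul_mem h1 (hKN huh)
      rwa [mul_inv_cancel_left] at h2
    · intro hh
      exact ⟨h, hh, rfl⟩
  have htB : f ⟨(w : G) * x, hwxH⟩ ∉ (N.subgroupOf H).map f := by
    rw [hBmem]; exact hwxN
  have hcardK : K.relIndex N = p ^ p := by
    have h1 : K.subgroupOf N = Θ.ker := Subgroup.comap_map_eq_self_of_injective N.subtype_injective _
    rw [Subgroup.relIndex, h1, Subgroup.index_ker, MonoidHom.range_eq_top.mpr hΘs, Subgroup.card_top]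
    have h2 : Nat.card (Multiplicative (Fin p → ZMod p)) = Nat.card (Fin p → ZMod p) := rfl
    rw [h2, Nat.card_fun, Nat.card_zmod, Nat.card_eq_fintype_card, Fintype.card_fin]
  have hcardN : N.relIndex H = p := by
    rw [hH, Subgroup.relIndex_sup_left, ← Cfsg.Agent.Lib.H32PSolv.card_map_mk, MonoidHom.map_zpowers, Nat.card_zpowers]
    apply orderOf_eq_prime
    · rw [← map_pow]
      exact (QuotientGroup.eq_one_iff _).mpr hxp
    · intro h
      exact hxN ((QuotientGroup.eq_one_iff _).mp h)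
  refine ⟨H ⧸ K.subgroupOf H, inferInstance, inferInstance, f, hfs, (N.subgroupOf H).map f,
    f ⟨(w : G) * x, hwxH⟩, ?_, ?_, ?_, ?_, ?_, htB, ?_, ?_⟩
  · exact Subgroup.Normal.map inferInstance f hfs
  · refine ⟨⟨?_⟩⟩
    rintro ⟨_, u, hu, rfl⟩ ⟨_, v, hv, rfl⟩
    apply Subtype.ext
    change f u * f v = f v * f u
    rw [← commutatorElement_eq_one_iff_mul_comm, ← map_commutatorElement, hf1]
    have hu' : (u : G) ∈ N := hu
    have hv' : (v : G) ∈ N := hv
    have h1 := (hKmem ⁅(⟨u, hu'⟩ : N), (⟨v, hv'⟩ : N)⁆).mpr (by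
      rw [← hΘ, map_commutatorElement, commutatorElement_eq_one_iff_mul_comm, mul_comm])
    exact h1
  · rintro _ ⟨u, hu, rfl⟩
    rw [← map_pow, hf1]
    have hu' : (u : G) ∈ N := hu
    have h1 := (hKmem ((⟨u, hu'⟩ : N) ^ p)).mpr (by
      rw [← hΘ, map_pow]
      change Multiplicative.ofAdd (p • Ψ (D.π ⟨u, hu'⟩)) = 1
      have h2 : p • Ψ (D.π ⟨u, hu'⟩) = 0 := by
        funext i
        rw [Pi.smul_apply, nsmul_eq_mul, CharP.cast_eq_zero, zero_mul]; rfl
      rw [h2]; rfl)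
    exact h1
  · rw [hf, Cfsg.Agent.Lib.H32PSolv.card_map_mk, Subgroup.relIndex_subgroupOf hNH, hcardK]
  · apply orderOf_eq_prime htp
    intro h
    apply htB
    rw [h]; exact one_mem _
  · rw [← Subgroup.index_eq_card]
    change K.relIndex H = _
    rw [← Subgroup.relIndex_mul_relIndex K N H hKN hNH, hcardK, hcardN, pow_succ]
  · -- fixed points
    -- the centraliser corresponds to `φ(ν^i u) = 0` for `i ≥ 1`
    have hcent : ∀ u : N, f ⟨u, hNH u.2⟩ * f ⟨(w : G) * x, hwxH⟩ = f ⟨(w : G) * x, hwxH⟩ * f ⟨u, hNH u.2⟩ ↔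
        ∀ i : ℕ, φ ((ν ^ (i + 1)) (D.π u)) = 0 := by
      intro u
      have h0 : ((w : G) * x) * u * ((w : G) * x)⁻¹ ∈ N := D.conj_mem _ u
      have h1 : D.π ⟨((w : G) * x) * u * ((w : G) * x)⁻¹, h0⟩ = D.ρ x (D.π u) := by
        rw [← D.apply, map_mul, hρN w w.2, one_mul]
      have h2 : f ⟨u, hNH u.2⟩ * f ⟨(w : G) * x, hwxH⟩ = f ⟨(w : G) * x, hwxH⟩ * f ⟨u, hNH u.2⟩ ↔
          ((u : G))⁻¹ * (((w : G) * x) * u * ((w : G) * x)⁻¹) ∈ K := by
        have e1 : f ⟨u, hNH u.2⟩ * f ⟨(w : G) * x, hwxH⟩ = f ⟨(w : G) * x, hwxH⟩ * f ⟨u, hNH u.2⟩ ↔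
            f ⟨u, hNH u.2⟩ = f (⟨(w : G) * x, hwxH⟩ * ⟨u, hNH u.2⟩ * (⟨(w : G) * x, hwxH⟩ : H)⁻¹) := by
          rw [map_mul f (_ * _), map_mul f ⟨(w : G) * x, hwxH⟩, map_inv, eq_mul_inv_iff_mul_eq]
        rw [e1, hfeq]
        rfl
      rw [h2]
      have h3 : ((u : G))⁻¹ * (((w : G) * x) * u * ((w : G) * x)⁻¹) =
          ((u⁻¹ * ⟨((w : G) * x) * u * ((w : G) * x)⁻¹, h0⟩ : N) : G) := rfl
      rw [h3, hKmem, D.map_mul, D.map_inv, h1]
      have h4 : -D.π u + D.ρ x (D.π u) = ν (D.π u) := by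
        rw [hν, LinearMap.sub_apply, Module.End.one_apply]; abel
      rw [h4]
      constructor
      · intro h i
        have := hφall _ h i
        rwa [← Module.End.mul_apply, ← pow_succ] at this
      · intro h
        funext i
        rw [hΨa, ← Module.End.mul_apply, ← pow_succ]
        exact h i
    -- bijection with ZMod p
    let E : ↥((N.subgroupOf H).map f ⊓ Subgroup.centralizer ({f ⟨(w : G) * x, hwxH⟩} : Set (H ⧸ K.subgroupOf H))) →
        ZMod p := fun b => φ (D.π ⟨((Classical.choose b.2.1 : H) : G), (Classical.choose_spec b.2.1).1⟩)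
    have hEspec : ∀ b, ∀ u : N, f ⟨u, hNH u.2⟩ = b.1 → E b = φ (D.π u) := by
      intro b u hub
      have hs := Classical.choose_spec b.2.1
      have h1 : f (Classical.choose b.2.1) = f ⟨u, hNH u.2⟩ := by rw [hs.2, hub]
      rw [hfeq] at h1
      have h2 : ((Classical.choose b.2.1 : H) : G)⁻¹ * u =
          (((⟨((Classical.choose b.2.1 : H) : G), hs.1⟩ : N)⁻¹ * u : N) : G) := rfl
      change (((Classical.choose b.2.1 : H) : G))⁻¹ * (u : G) ∈ K at h1
      rw [h2, hKmem, D.map_mul, D.map_inv] at h1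
      have h3 := congrFun h1 ⟨0, hp0⟩
      rw [hΨa, Pi.zero_apply, pow_zero, Module.End.one_apply, map_add, map_neg] at h3
      change φ _ = φ _
      rw [neg_add_eq_zero] at h3
      exact h3
    have hEinj : Function.Injective E := by
      intro b b' hbb
      obtain ⟨u, hu, hub⟩ := b.2.1
      obtain ⟨u', hu', hub'⟩ := b'.2.1
      have hu1 : (u : G) ∈ N := hu
      have hu1' : (u' : G) ∈ N := hu'
      have e1 := hEspec b ⟨u, hu1⟩ hub
      have e2 := hEspec b' ⟨u', hu1'⟩ hub'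
      have c1 := (hcent ⟨u, hu1⟩).mp (by
        have := (Subgroup.mem_inf.mp b.2).2
        rw [Subgroup.mem_centralizer_singleton_iff, ← hub] at this
        exact this)
      have c2 := (hcent ⟨u', hu1'⟩).mp (by
        have := (Subgroup.mem_inf.mp b'.2).2
        rw [Subgroup.mem_centralizer_singleton_iff, ← hub'] at this
        exact this)
      apply Subtype.ext
      rw [← hub, ← hub', hfeq]
      have h2 : ((u : G))⁻¹ * u' = (((⟨u, hu1⟩ : N)⁻¹ * ⟨u', hu1'⟩ : N) : G) := rfl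
      rw [h2, hKmem, D.map_mul, D.map_inv]
      funext i
      rw [hΨa, map_add, map_neg, map_add, map_neg, Pi.zero_apply]
      rcases Nat.eq_zero_or_pos (i : ℕ) with hi | hi
      · rw [hi, pow_zero, Module.End.one_apply, Module.End.one_apply, ← e1, ← e2, hbb, neg_add_cancel]
      · obtain ⟨e, he⟩ : ∃ e, (i : ℕ) = e + 1 := ⟨(i : ℕ) - 1, by omega⟩
        rw [he, c1 e, c2 e, neg_zero, add_zero]
    have hEsurj : Function.Surjective E := by
      intro s
      obtain ⟨v, hv⟩ := hΨs (fun i => if (i : ℕ) = 0 then s else 0)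
      obtain ⟨u, rfl⟩ := D.surj v
      have hv0 : φ (D.π u) = s := by
        have := congrFun hv ⟨0, hp0⟩
        simpa [hΨa] using this
      have hv1 : ∀ i : ℕ, φ ((ν ^ (i + 1)) (D.π u)) = 0 := by
        intro i
        by_cases hi : i + 1 < p
        · have := congrFun hv ⟨i + 1, hi⟩
          simpa [hΨa] using this
        · obtain ⟨e, he⟩ : ∃ e, i + 1 = e + p := ⟨i + 1 - p, by omega⟩
          rw [he, pow_add, hνp, mul_zero, LinearMap.zero_apply, map_zero]
      have hb : f ⟨u, hNH u.2⟩ ∈ (N.subgroupOf H).map f ⊓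
          Subgroup.centralizer ({f ⟨(w : G) * x, hwxH⟩} : Set (H ⧸ K.subgroupOf H)) := by
        refine Subgroup.mem_inf.mpr ⟨⟨⟨u, hNH u.2⟩, u.2, rfl⟩, ?_⟩
        rw [Subgroup.mem_centralizer_singleton_iff]
        exact (hcent u).mpr hv1
      exact ⟨⟨_, hb⟩, (hEspec ⟨_, hb⟩ u rfl).trans hv0⟩
    rw [Nat.card_congr (Equiv.ofBijective E ⟨hEinj, hEsurj⟩), Nat.card_zmod]

end Cfsg.Agent.Lib.HHWreath
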