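import Cfsg.Agent.Lib.HNSimple
import Cfsg.Agent.Lib.HNA12D
import Cfsg.Agent.Lib.HNAlt

/-!
# The Harada-Norton group: a subgroup isomorphic to the alternating group of degree 12
-/

set_option autoImplicit false
set_option linter.all false
set_option maxRecDepth 100000

namespace Cfsg.Agent.Lib.HNPH

open Cfsg.Spor Cfsg.Agent.Lib.Dce Cfsg.Agent.Lib.BenesWord Cfsg.Agent.Lib.CosetGroup Cfsg.Agent.Lib.CoxBridge
open Cfsg.Agent.Lib.HNT Cfsg.Agent.Lib.HNU Cfsg.Agent.Lib.HNPL Cfsg.Agent.Lib.PresAlt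

/-- word of the three-cycle outside the centralizer of `t` -/
def wA : List ℕ := [2, 0, 2, 1, 2, 2, 2, 4, 2, 2, 2, 0, 3, 0, 3, 4, 0]
/-- words of the three-cycles commuting with `t` -/
def wC : ℕ → List ℕ
  | 0 => [6, 3, 3, 6, 2, 7, 7, 2]
  | 1 => [2, 7, 7, 2, 6, 3, 3, 6]
  | 2 => [2, 6, 6, 3, 3, 7, 2, 7, 7, 2]
  | 3 => [2, 6, 2, 2, 7, 7, 2, 2, 6, 2]
  | _ => [2, 6, 3, 6, 3, 7, 7, 2, 7, 2, 2]

theorem rel_c3 : ∀ i < 5, eqP tab 83 base (wC i ++ wC i ++ wC i) [] = true := by decide +kernel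
theorem rel_cc : ∀ i < 5, ∀ j < 5, i ≠ j → eqP tab 83 base ((wC i ++ wC j) ++ (wC i ++ wC j)) [] = true := by decide +kernel
theorem rel_a3 : eqP tab 83 base (wA ++ wA ++ wA) [] = true := by decide +kernel
theorem rel_ac : ∀ i < 5, eqP tab 83 base ((wA ++ wC i) ++ (wA ++ wC i)) [] = true := by decide +kernel
theorem ne_a : eqB tab wA [] base = false := by decide +kernel
theorem wC_let : ∀ i < 5, (wC i).all (fun c => memL [2, 7, 3, 6] c) = true := by decide

theorem alt12 : ∃ A : Subgroup HN, Nonempty (A ≃* alternatingGroup (Fin 12)) := by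
  obtain ⟨ψ, q0, q2, q4, hF, _⟩ := psiN
  obtain ⟨ty, tyx⟩ := tw_rel relGN.t5 relGN.tx relGN.ty
  set t : HN := PresentedGroup.of HN.Gen.t with ht
  have t5 : t ^ 5 = 1 := relGN.t5
  -- letters commuting with `t`
  have q7 : ψ (xh 7) = (PresentedGroup.of HN.Gen.x)⁻¹ * PresentedGroup.of HN.Gen.y * PresentedGroup.of HN.Gen.x := by
    rw [xh7, map_mul, map_mul, q2, show xh 1 = (xh 0)⁻¹ from hiv 0 (by norm_num), map_inv, q0]
  have hcl : ∀ c ∈ [2, 7, 3, 6], Commute t (ψ (xh c)) := by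
    intro c hc
    simp only [List.mem_cons, List.not_mem_nil, or_false] at hc
    rcases hc with rfl | rfl | rfl | rfl
    · rw [q2]; exact ty
    · rw [q7]; exact tyx
    · rw [show xh 3 = (xh 2)⁻¹ from hiv 2 (by norm_num), map_inv, q2]
      exact (show Commute t _ from ty).inv_right
    · rw [xh6, map_inv, q7]
      exact (show Commute t _ from tyx).inv_right
  have hcw : ∀ w : List ℕ, w.all (fun c => memL [2, 7, 3, 6] c) = true → Commute t (ψ (ev xh w)) := by
    intro w hw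
    induction w with
    | nil => rw [ev_nil, map_one]; exact Commute.one_right _
    | cons c w ih =>
      simp only [List.all_cons, Bool.and_eq_true] at hw
      rw [ev_cons, map_mul]
      exact (hcl c (memL_mem hw.1)).mul_right (ih hw.2)
  set a : HN := ψ (ev xh wA) with ha
  let c : ℕ → HN := fun i => ψ (ev xh (wC i))
  have hct : ∀ i < 5, Commute t (c i) := fun i hi => hcw _ (wC_let i hi)
  have ha3 : a ^ 3 = 1 := by
    have := eqw rel_a3
    rw [ev_append, ev_append, ev_nil] at this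
    rw [ha, ← map_pow, pow_succ, pow_two, this, map_one]
  have hc3 : ∀ i < 5, c i ^ 3 = 1 := by
    intro i hi
    have := eqw (rel_c3 i hi)
    rw [ev_append, ev_append, ev_nil] at this
    show ψ _ ^ 3 = 1
    rw [← map_pow, pow_succ, pow_two, this, map_one]
  have hac : ∀ i < 5, (a * c i) ^ 2 = 1 := by
    intro i hi
    have := eqw (rel_ac i hi)
    rw [ev_append, ev_append, ev_nil] at this
    show (ψ _ * ψ _) ^ 2 = 1
    rw [← map_mul, ← map_pow, pow_two, this, map_one]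
  have hcc : ∀ i < 5, ∀ j < 5, i ≠ j → (c i * c j) ^ 2 = 1 := by
    intro i hi j hj hij
    have := eqw (rel_cc i hi j hj hij)
    rw [ev_append, ev_append, ev_nil] at this
    show (ψ _ * ψ _) ^ 2 = 1
    rw [← map_mul, ← map_pow, pow_two, this, map_one]
  have hane : a ≠ 1 := by
    intro h
    have h1 : F a = 1 := by rw [h, map_one]
    rw [ha, hF] at h1
    have h2 : ev xh wA = 1 := by
      apply AX_inj
      intro w _
      rw [h1]; rfl
    have h3 : eqB tab wA [] base = true := by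
      rw [eqB_iff]
      intro b hb
      have h4 := (actw_eq acts.1 acts.2 wA (by decide) b (hbase b hb)).1
      rw [h2] at h4
      exact h4.symm
    rw [ne_a] at h3
    exact Bool.false_ne_true h3
  have ra := seq_one hF (r := HNA12D.ra) (fixw HNA12D.c_ra_0) (by
    intro w hw
    simp only [bw, List.mem_cons, List.not_mem_nil, or_false] at hw
    rcases hw with rfl | rfl | rfl | rfl
    · exact fixw HNA12D.c_ra_1
    · exact fixw HNA12D.c_ra_2
    · exact fixw HNA12D.c_ra_3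
    · exact fixw HNA12D.c_ra_4)
  have rb := seq_one hF (r := HNA12D.rb) (fixw HNA12D.c_rb_0) (by
    intro w hw
    simp only [bw, List.mem_cons, List.not_mem_nil, or_false] at hw
    rcases hw with rfl | rfl | rfl | rfl
    · exact fixw HNA12D.c_rb_1
    · exact fixw HNA12D.c_rb_2
    · exact fixw HNA12D.c_rb_3
    · exact fixw HNA12D.c_rb_4)
  rw [HNA12D.ra, seqG_rep] at ra
  rw [HNA12D.rb, seqG_rep] at rb
  have hP1 : (a * ((t ^ 1)⁻¹ * a * t ^ 1)) ^ 2 = 1 := by
    rw [← ra]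
    congr 1
    simp only [seqG, tokG, one_mul]
    rw [pow_one]
    simp only [mul_assoc]
    rfl
  have hP2 : (a * ((t ^ 2)⁻¹ * a * t ^ 2)) ^ 2 = 1 := by
    rw [← rb]
    congr 1
    simp only [seqG, tokG, one_mul]
    rw [pow_two, mul_inv_rev]
    simp only [mul_assoc]
    rfl
  have hP : ∀ k, 1 ≤ k → k ≤ 4 → (a * ((t ^ k)⁻¹ * a * t ^ k)) ^ 2 = 1 := by
    have hinv : ∀ k l : ℕ, k + l = 5 → (a * ((t ^ k)⁻¹ * a * t ^ k)) ^ 2 = 1 → (a * ((t ^ l)⁻¹ * a * t ^ l)) ^ 2 = 1 := by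
      intro k l hkl h
      have e : t ^ l = (t ^ k)⁻¹ := by
        rw [eq_inv_iff_mul_eq_one, ← pow_add, add_comm, hkl, t5]
      have h1 := conj_pow_eq (y := t ^ k) h
      have h2 : t ^ k * (a * ((t ^ k)⁻¹ * a * t ^ k)) * (t ^ k)⁻¹ = (t ^ k * a * (t ^ k)⁻¹) * a := by group
      rw [h2] at h1
      have h3 := sq_mul_comm h1
      rw [e, inv_inv]; exact h3
    intro k h1 h4
    interval_cases k
    · exact hP1
    · exact hP2
    · exact hinv 2 3 (by norm_num) hP2
    · exact hinv 1 4 (by norm_num) hP1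
  let x : ℕ → HN := fun i => if i < 5 then (t ^ i)⁻¹ * a * t ^ i else c (i - 5)
  have hx1 : ∀ i, i < 5 → x i = (t ^ i)⁻¹ * a * t ^ i := fun i hi => if_pos hi
  have hx2 : ∀ i, ¬ i < 5 → x i = c (i - 5) := fun i hi => if_neg hi
  have key : ∀ i j, i < j → j < 10 → (x i * x j) ^ 2 = 1 := by
    intro i j hij hj
    by_cases h5 : j < 5
    · rw [hx1 i (by omega), hx1 j h5]
      have h6 := hP (j - i) (by omega) (by omega)
      have h7 := conj_pow_eq (y := (t ^ i)⁻¹) h6
      have e : t ^ j = t ^ (j - i) * t ^ i := by rw [← pow_add]; congr 1; omega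
      have h8 : (t ^ i)⁻¹ * (a * ((t ^ (j - i))⁻¹ * a * t ^ (j - i))) * ((t ^ i)⁻¹)⁻¹ =
          (t ^ i)⁻¹ * a * t ^ i * ((t ^ j)⁻¹ * a * t ^ j) := by
        rw [e]; group
      rw [h8] at h7
      exact h7
    · rw [hx2 j h5]
      by_cases h6 : i < 5
      · rw [hx1 i h6]
        have h7 := conj_pow_eq (y := (t ^ i)⁻¹) (hac (j - 5) (by omega))
        have hcm : t ^ i * c (j - 5) = c (j - 5) * t ^ i := ((hct (j - 5) (by omega)).pow_left i).eq
        have h8 : (t ^ i)⁻¹ * (a * c (j - 5)) * ((t ^ i)⁻¹)⁻¹ = (t ^ i)⁻¹ * a * t ^ i * c (j - 5) := by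
          rw [inv_inv, mul_assoc _ (t ^ i), hcm]; group
        rw [h8] at h7
        exact h7
      · rw [hx2 i h6]
        exact hcc _ (by omega) _ (by omega) (by omega)
  have hx3 : ∀ i < 10, x i ^ 3 = 1 := by
    intro i hi
    by_cases h5 : i < 5
    · rw [hx1 i h5]
      have := conj_pow_eq (y := (t ^ i)⁻¹) ha3
      rwa [inv_inv] at this
    · rw [hx2 i h5]; exact hc3 _ (by omega)
  have hx22 : ∀ i < 10, ∀ j < 10, i ≠ j → (x i * x j) ^ 2 = 1 := by
    intro i hi j hj hij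
    rcases Nat.lt_or_gt_of_ne hij with h | h
    · exact key i j h hj
    · exact sq_mul_comm (key j i h hi)
  have hx0 : x 0 ≠ 1 := by
    rw [hx1 0 (by norm_num), pow_zero, inv_one, one_mul, mul_one]
    exact hane
  exact ⟨_, Cfsg.Agent.Lib.HNAlt.alt_iso 10 (by norm_num) x hx3 hx22 hx0⟩

end Cfsg.Agent.Lib.HNPH
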