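import Mathlib
import Cfsg.Agent.Lib.BlockKnorr3
import Cfsg.Agent.Lib.CliffordCorr

set_option autoImplicit false
set_option linter.all false

/-!
# Height zero characters of normal subgroups stable under Sylow subgroups
-/

namespace Cfsg.Agent.Lib.HZStab

open Cfsg Cfsg.Agent.Lib.BlockRing Cfsg.Agent.Lib.BlockGA Cfsg.Agent.Lib.BlockIdem Cfsg.Agent.Lib.BlockDefect
  Cfsg.Agent.Lib.BlockCover Cfsg.Agent.Lib.BlockKnorr Cfsg.Agent.Lib.BlockTransfer
open Cfsg.Agent.Lib.CharBasic Cfsg.Agent.Lib.Clifford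

universe u

variable {G : Type u} [Group G] {p : ℕ} {M : Ideal AlgInt}

theorem core [Fintype G] {N : Subgroup G} [hN : N.Normal] [Fintype N] (hM : IsPModular p M)
    (hidx : ∃ k : ℕ, N.index = p ^ k) {b : Set (IrrCharacter N)} (hb : IsPBlock M b) (hst : Stable (G := G) b) :
    ∃ θ ∈ b, blockHeight p b (θ : N → ℂ) = 0 ∧ ∀ g : G, cj N g (θ : N → ℂ) = (θ : N → ℂ) := by
  classical
  haveI := isPrime hM
  haveI : Fact p.Prime := ⟨hM.1⟩
  obtain ⟨B, ⟨hB, hcov⟩, -⟩ := Cfsg.Agent.S0966.result p M hM N hidx b hb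
  obtain ⟨P, hP⟩ := exists_defectGroup hM hB
  obtain ⟨hPN, hPb⟩ := sup_eq_top hM hidx hb hst hB hcov hP
  obtain ⟨k, hk⟩ := hidx
  have hcB := defectGroup_card hM hB hP
  have hcb := defectGroup_card hM hb hPb
  have hcard1 : Nat.card ((P ⊓ N).subgroupOf N) = Nat.card (N.subgroupOf P) := by
    rw [Nat.card_congr (Subgroup.subgroupOfEquivOfLe (inf_le_right : P ⊓ N ≤ N)).toEquiv, ← Subgroup.inf_subgroupOf_left,
      Nat.card_congr (Subgroup.subgroupOfEquivOfLe (inf_le_left : P ⊓ N ≤ P)).toEquiv]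
  have hidx1 : (N.subgroupOf P).index = p ^ k := by
    have h1 : N.relIndex (P ⊔ N) = N.relIndex P := Subgroup.relIndex_sup_right _ _
    rw [hPN, Subgroup.relIndex_top_right] at h1
    rw [← hk, h1]; rfl
  have hcard2 := Subgroup.card_mul_index (N.subgroupOf P)
  rw [← hcard1, hcb, hidx1, hcB, ← pow_add] at hcard2
  have hd : blockDefect p b + k = blockDefect p B := Nat.pow_right_injective hM.1.two_le hcard2
  have hcard3 := Subgroup.card_mul_index N
  rw [hk] at hcard3
  have ha : (Nat.card G).factorization p = (Nat.card N).factorization p + k := by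
    rw [← hcard3, Nat.factorization_mul Nat.card_pos.ne' (pow_ne_zero _ hM.1.ne_zero), Finsupp.add_apply,
      hM.1.factorization_pow, Finsupp.single_eq_same]
  have hvB := vmin_le_fact hM hB
  have hvb := vmin_le_fact hM hb
  have hdB := blockDefect_eq (p := p) B
  have hdb := blockDefect_eq (p := p) b
  have hvv : vmin p B = vmin p b := by omega
  obtain ⟨χ, hχ, hχv⟩ := exists_vmin (p := p) (isPBlock_nonempty hB)
  obtain ⟨θ, hθ, hθχ⟩ := covers_all hB (unionOfBlocks_of_isPBlock hb) hcov hχ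
  have hdeg := CliffordCorr.degree_clifford χ.2 θ.2 hθχ
  obtain ⟨m, hm⟩ := (χ.2.isCharacter.restrict N).classInner_nat θ.2.isCharacter
  rw [hm, ← BlockDeg.charDegree_cast_irr χ, ← BlockDeg.charDegree_cast_irr θ] at hdeg
  have hdeg' : charDegree (χ : G → ℂ) = m * ((inertia N (θ : N → ℂ)).index * charDegree (θ : N → ℂ)) := by
    exact_mod_cast hdeg
  have hχ0 := (BlockDeg.charDegree_pos χ.2).ne'
  have hθ0 := (BlockDeg.charDegree_pos θ.2).ne'
  have ht0 : (inertia N (θ : N → ℂ)).index ≠ 0 := Subgroup.index_ne_zero_of_finite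
  have hm0 : m ≠ 0 := by
    rintro rfl
    rw [zero_mul] at hdeg'
    exact hχ0 hdeg'
  have hfac : (charDegree (χ : G → ℂ)).factorization p = m.factorization p +
      ((inertia N (θ : N → ℂ)).index.factorization p + (charDegree (θ : N → ℂ)).factorization p) := by
    rw [hdeg', Nat.factorization_mul hm0 (mul_ne_zero ht0 hθ0), Nat.factorization_mul ht0 hθ0]
    rfl
  have h1 : vdeg p χ = (charDegree (χ : G → ℂ)).factorization p := rfl
  have h2 : vdeg p θ = (charDegree (θ : N → ℂ)).factorization p := rfl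
  have h3 := vmin_le (p := p) hθ
  rw [h1] at hχv
  rw [h2] at h3
  refine ⟨θ, hθ, ?_, ?_⟩
  · rw [height_zero_iff hθ, h2]
    omega
  · have h4 : (inertia N (θ : N → ℂ)).index.factorization p = 0 := by omega
    have h5 : (inertia N (θ : N → ℂ)).index ∣ p ^ k := by
      rw [← hk]
      exact Subgroup.index_dvd_of_le (le_inertia θ.2.isClassFunction)
    obtain ⟨j, -, hj⟩ := (Nat.dvd_prime_pow hM.1).1 h5
    rw [hj, hM.1.factorization_pow, Finsupp.single_eq_same] at h4
    rw [h4, pow_zero, Subgroup.index_eq_one] at hj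
    intro g
    have h6 : g ∈ inertia N (θ : N → ℂ) := by rw [hj]; trivial
    exact h6

theorem charDegree_trI {H K : Type u} [Group H] [Group K] (e : H ≃* K) (θ : IrrCharacter K) :
    charDegree (trI e θ : H → ℂ) = charDegree (θ : K → ℂ) := by
  have h : (trI e θ : H → ℂ) 1 = (θ : K → ℂ) 1 := by rw [trI_apply, map_one]
  unfold charDegree
  rw [h]

theorem vmin_trB {H K : Type u} [Group H] [Group K] (e : H ≃* K) (b : Set (IrrCharacter K)) :
    vmin p (trB e b) = vmin p b := by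
  unfold vmin
  congr 1
  ext n
  constructor
  · rintro ⟨_, ⟨θ, hθ, rfl⟩, rfl⟩
    exact ⟨θ, hθ, by unfold vdeg; rw [charDegree_trI]⟩
  · rintro ⟨θ, hθ, rfl⟩
    exact ⟨trI e θ, ⟨θ, hθ, rfl⟩, by unfold vdeg; rw [charDegree_trI]⟩

theorem result [Finite G] (hM : IsPModular p M) (H : Subgroup G) [H.Normal] (b : Set (IrrCharacter H))
    (hb : IsPBlock M b) (T : Subgroup G)
    (hT : (∀ g : G, g ∈ T ↔ ∀ θ ∈ b, ∀ θ' : IrrCharacter H, (∀ h h' : H, (h' : G) = g * h * g⁻¹ →
      (θ' : H → ℂ) h' = (θ : H → ℂ) h) → θ' ∈ b)) :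
    ∃ θ ∈ b, blockHeight p b (θ : H → ℂ) = 0 ∧ ∃ S : Subgroup G, S ≤ T ∧
      (∀ g : G, g ∈ S ↔ (g ∈ T ∧ ∀ h h' : H, (h' : G) = g * h * g⁻¹ → (θ : H → ℂ) h' = (θ : H → ℂ) h)) ∧
      ¬ p ∣ S.relIndex T := by
  classical
  haveI : Fact p.Prime := ⟨hM.1⟩
  have hprime := isPrime hM
  -- `H ≤ T`
  have hHT : H ≤ T := by
    intro g hg
    rw [hT]
    intro θ hθ θ' h
    have h1 : θ' = θ := by
      apply Subtype.ext
      funext x
      have h2 := h (⟨g, hg⟩⁻¹ * x * ⟨g, hg⟩) x (by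
        change (x : G) = g * (g⁻¹ * x * g) * g⁻¹
        group)
      rw [h2]
      have h3 := θ.2.isClassFunction x (⟨g, hg⟩⁻¹)
      rw [inv_inv] at h3
      exact h3
    rw [h1]; exact hθ
  obtain ⟨S₀⟩ : Nonempty (Sylow p T) := inferInstance
  set S₁ : Subgroup G := (S₀ : Subgroup T).map T.subtype with hS₁
  have hS₁T : S₁ ≤ T := by
    rintro _ ⟨x, -, rfl⟩
    exact x.2
  set K : Subgroup G := H ⊔ S₁ with hK
  have hHK : H ≤ K := le_sup_left
  have hKT : K ≤ T := sup_le hHT hS₁T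
  letI : Fintype K := Fintype.ofFinite K
  letI : Fintype (H.subgroupOf K) := Fintype.ofFinite _
  haveI hn : (H.subgroupOf K).Normal := inferInstance
  have hidx : ∃ k : ℕ, (H.subgroupOf K).index = p ^ k := by
    have h1 : H.relIndex K = H.relIndex S₁ := Subgroup.relIndex_sup_left _ _
    have h2 : H.relIndex S₁ ∣ Nat.card S₁ := Subgroup.relIndex_dvd_card H S₁
    have h3 : IsPGroup p S₁ := S₀.isPGroup'.map _
    obtain ⟨n, hn⟩ := IsPGroup.iff_card.1 h3
    rw [hn] at h2
    obtain ⟨k, -, hk⟩ := (Nat.dvd_prime_pow hM.1).1 h2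
    exact ⟨k, by rw [← hk, ← h1]; rfl⟩
  have hb' : IsPBlock M (trB (subE hHK) b) := isPBlock_tr hb
  have hst : Stable (G := K) (trB (subE hHK) b) := by
    rintro g θ' hθ' ψ' hψ'
    obtain ⟨θ, hθ, rfl⟩ := hθ'
    obtain ⟨ψ, rfl⟩ := (trI (subE hHK)).surjective ψ'
    apply trI_mem_trB.2
    have hgT : ((g : G))⁻¹ ∈ T := T.inv_mem (hKT g.2)
    refine (hT _).1 hgT θ hθ ψ ?_
    intro h h' hh
    have h2 := congrFun hψ' ((subE hHK).symm h')
    rw [trI_apply, MulEquiv.apply_symm_apply, cj_apply, trI_apply] at h2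
    rw [h2]
    apply congrArg (θ : H → ℂ)
    apply Subtype.ext
    change (g : G) * (h' : G) * (g : G)⁻¹ = h
    rw [hh]; group
  obtain ⟨θ', hθ', hht, hinv⟩ := core hM hidx hb' hst
  obtain ⟨θ, hθ, rfl⟩ := hθ'
  refine ⟨θ, hθ, ?_, ?_⟩
  · rw [blockHeight_eq] at hht ⊢
    rw [vmin_trB] at hht
    unfold vdeg at hht ⊢
    rwa [charDegree_trI] at hht
  · -- the stabilizer
    let S : Subgroup G := 
      { carrier := {g | g ∈ T ∧ ∀ h h' : H, (h' : G) = g * h * g⁻¹ → (θ : H → ℂ) h' = (θ : H → ℂ) h}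
        one_mem' := ⟨T.one_mem, fun h h' hh => by
          rw [one_mul, inv_one, mul_one] at hh
          rw [Subtype.ext hh]⟩
        mul_mem' := by
          rintro x y ⟨hx, hx'⟩ ⟨hy, hy'⟩
          refine ⟨T.mul_mem hx hy, fun h h' hh => ?_⟩
          have h1 : y * h * y⁻¹ ∈ H := (inferInstance : H.Normal).conj_mem h h.2 y
          rw [hx' ⟨_, h1⟩ h' (by rw [hh]; change _ = x * (y * h * y⁻¹) * x⁻¹; group), hy' h ⟨_, h1⟩ rfl]
        inv_mem' := by
          rintro x ⟨hx, hx'⟩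
          refine ⟨T.inv_mem hx, fun h h' hh => ?_⟩
          symm
          apply hx'
          rw [hh]; group }
    refine ⟨S, fun g hg => hg.1, fun g => Iff.rfl, ?_⟩
    have hKS : K ≤ S := by
      intro g hg
      refine ⟨hKT hg, fun h h' hh => ?_⟩
      have h2 := congrFun (hinv ⟨g, hg⟩) ((subE hHK).symm h)
      rw [cj_apply, trI_apply, trI_apply, MulEquiv.apply_symm_apply] at h2
      rw [← h2]
      apply congrArg (θ : H → ℂ)
      apply Subtype.ext
      exact hh
    intro hdvd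
    have h1 : S.relIndex T ∣ S₁.relIndex T := Subgroup.relIndex_dvd_of_le_left T ((le_sup_right : S₁ ≤ K).trans hKS)
    have h2 : S₁.relIndex T = (S₀ : Subgroup T).index := by
      rw [Subgroup.relIndex, hS₁]
      congr 1
      ext x
      rw [Subgroup.mem_subgroupOf]
      constructor
      · rintro ⟨y, hy, hxy⟩
        rwa [← T.subtype_injective hxy]
      · intro hx
        exact ⟨x, hx, rfl⟩
    rw [h2] at h1
    exact S₀.not_dvd_index (hdvd.trans h1)

end Cfsg.Agent.Lib.HZStab
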