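import Cfsg.Agent.Lib.BlockAlong
import Cfsg.Agent.Lib.BlockSecond2

/-!
# Normal Hall `π'`-subgroups of centralisers of `p`-subgroups and kernels of blocks
-/

set_option autoImplicit false
set_option linter.all false
set_option maxHeartbeats 400000

namespace Cfsg.Agent.Lib.HallKer

open Cfsg Cfsg.Agent.Lib.BlockRing Cfsg.Agent.Lib.BlockGA Cfsg.Agent.Lib.BlockIdem
open Cfsg.Agent.Lib.CharBasic Cfsg.Agent.Lib.BlockNormP Cfsg.Agent.Lib.BlockHom Cfsg.Agent.Lib.BlockDefect
open Cfsg.Agent.Lib.BlockFirst Cfsg.Agent.Lib.BlockCover Cfsg.Agent.Lib.BlockTransfer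
open Cfsg.Agent.Lib.BlockInd Cfsg.Agent.Lib.BlockCore Cfsg.Agent.Lib.BlockAlong

universe u

variable {G : Type u} [Group G]

/-- the order of `x` has no prime divisor in `π`. -/
def PiE {A : Type u} [Group A] (π : Set ℕ) (x : A) : Prop := ∀ q : ℕ, q.Prime → q ∣ orderOf x → q ∉ π

/-- `K` is the set of all `π'`-elements of `C_G(Q)`. -/
structure HS (π : Set ℕ) (Q K : Subgroup G) : Prop where
  le : K ≤ Subgroup.centralizer (Q : Set G)
  pi : ∀ x ∈ K, PiE π x
  mem : ∀ x ∈ Subgroup.centralizer (Q : Set G), PiE π x → x ∈ K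

theorem HS.conj_mem [Finite G] {π : Set ℕ} {Q K : Subgroup G} (h : HS π Q K) {n : G}
    (hn : n ∈ Subgroup.normalizer (Q : Set G)) {k : G} (hk : k ∈ K) : n * k * n⁻¹ ∈ K := by
  refine h.mem _ ((BlockRes.conj_mem_centralizer_iff hn).2 (h.le hk)) ?_
  intro q hq hd
  have h1 : orderOf (n * k * n⁻¹) = orderOf k := by
    have := orderOf_injective (MulAut.conj n).toMonoidHom (MulAut.conj n).injective k
    simpa using this
  rw [h1] at hd
  exact h.pi k hk q hq hd

theorem HS.inf {π : Set ℕ} {Q Q' K : Subgroup G} (h : HS π Q K) (hQ : Q ≤ Q') :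
    HS π Q' (K ⊓ Subgroup.centralizer (Q' : Set G)) := by
  refine ⟨inf_le_right, fun x hx => h.pi x hx.1, fun x hx hp => ⟨h.mem x ?_ hp, hx⟩⟩
  exact Subgroup.centralizer_le hQ hx

theorem HS.conj {π : Set ℕ} {Q K : Subgroup G} (h : HS π Q K) (x : G) :
    HS π (Q.map (MulAut.conj x).toMonoidHom) (K.map (MulAut.conj x).toMonoidHom) := by
  refine ⟨?_, ?_, ?_⟩
  · rintro _ ⟨k, hk, rfl⟩
    rw [Subgroup.mem_centralizer_iff]
    rintro _ ⟨q, hq, rfl⟩
    rw [← map_mul, ← map_mul, Subgroup.mem_centralizer_iff.1 (h.le hk) q hq]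
  · rintro _ ⟨k, hk, rfl⟩
    intro q hq hd
    rw [orderOf_injective (MulAut.conj x).toMonoidHom (MulAut.conj x).injective k] at hd
    exact h.pi k hk q hq hd
  · intro y hy hp
    refine ⟨(MulAut.conj x).symm y, h.mem _ ?_ ?_, (MulAut.conj x).apply_symm_apply y⟩
    · rw [Subgroup.mem_centralizer_iff] at hy ⊢
      intro q hq
      apply (MulAut.conj x).injective
      have h1 := hy (MulAut.conj x q) ⟨q, hq, rfl⟩
      rw [map_mul, map_mul, MulEquiv.apply_symm_apply]
      exact h1
    · intro q hq hd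
      have h1 := orderOf_injective (MulAut.conj x).toMonoidHom (MulAut.conj x).injective
        ((MulAut.conj x).symm y)
      have h2 : (MulAut.conj x).toMonoidHom ((MulAut.conj x).symm y) = y :=
        (MulAut.conj x).apply_symm_apply y
      rw [h2] at h1
      rw [← h1] at hd
      exact hp q hq hd

theorem HS.unique {π : Set ℕ} {Q K K' : Subgroup G} (h : HS π Q K) (h' : HS π Q K') : K = K' :=
  le_antisymm (fun x hx => h'.mem x (h.le hx) (h.pi x hx)) (fun x hx => h.mem x (h'.le hx) (h'.pi x hx))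

theorem HS.not_dvd [Finite G] {π : Set ℕ} {Q K : Subgroup G} (h : HS π Q K) {q : ℕ} (hq : q.Prime)
    (hqπ : q ∈ π) : ¬ q ∣ Nat.card K := by
  intro hd
  haveI : Fact q.Prime := ⟨hq⟩
  obtain ⟨x, hx⟩ := exists_prime_orderOf_dvd_card' q hd
  have h1 : orderOf (x : G) = q := by rw [Subgroup.orderOf_coe, hx]
  exact h.pi x x.2 q hq (by rw [h1]) hqπ

variable [Finite G] {p : ℕ} {M : Ideal AlgInt}

/-- One step of localisation, with all the blocks involved. -/
theorem local_step' {A : Type u} [Group A] [Finite A] (hM : IsPModular p M) {f : A →* G}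
    (hf : Function.Injective f)
    {b : Set (IrrCharacter A)} {B : Set (IrrCharacter G)} (h : IndAlong M f b B)
    {Q : Subgroup A} (hQ : IsDefectGroup p M b Q)
    (hC : Subgroup.centralizer ((Q.map f : Subgroup G) : Set G) ≤ f.range) :
    ∃ (b' : Set (IrrCharacter (Subgroup.normalizer (Q : Set A))))
      (c : Set (IrrCharacter (Subgroup.normalizer ((Q.map f : Subgroup G) : Set G))))
      (g : Subgroup.normalizer (Q : Set A) →* Subgroup.normalizer ((Q.map f : Subgroup G) : Set G)),
      (∀ k, ((g k : _) : G) = f (k : A)) ∧ Function.Injective g ∧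
      IsInducedBlock M (Subgroup.normalizer (Q : Set A)) b' b ∧ IndAlong M g b' c ∧
      IsInducedBlock M (Subgroup.normalizer ((Q.map f : Subgroup G) : Set G)) c B := by
  haveI := isPrime hM
  haveI : Fact p.Prime := ⟨hM.1⟩
  have hQp : IsPGroup p Q := defectGroup_isPGroup hQ
  set K : Subgroup A := Subgroup.normalizer (Q : Set A) with hK
  have hQK : Q ≤ K := Subgroup.le_normalizer
  have hCK : Subgroup.centralizer (Q : Set A) ≤ K := Subgroup.centralizer_le_normalizer _
  obtain ⟨b', hb'⟩ : ∃ b' : Set (IrrCharacter K), IsInducedBlock M K b' b := by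
    obtain ⟨g, hg, hgQ⟩ := (isDefectGroup_iff.1 hQ)
    have hgC : g ∈ Subgroup.centralizer (Q : Set A) := by
      rw [Subgroup.mem_centralizer_iff]
      intro d hd
      exact Subgroup.mem_centralizer_singleton_iff.1 (sylIn_le hgQ hd)
    exact exists_inducing_block hM hQp hQK hCK le_rfl h.1 hgC hg.2.1
  set N : Subgroup G := Subgroup.normalizer ((Q.map f : Subgroup G) : Set G) with hN
  have hfN : ∀ k : K, (f.comp K.subtype) k ∈ N := by
    intro k
    have hk := Subgroup.mem_normalizer_iff.1 k.2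
    show f (k : A) ∈ N
    rw [hN, Subgroup.mem_normalizer_iff]
    intro y
    constructor
    · rintro ⟨q, hq, rfl⟩
      exact ⟨_, (hk q).1 hq, by simp⟩
    · rintro ⟨q, hq, hqy⟩
      have hk' := Subgroup.mem_normalizer_iff.1 (K.inv_mem k.2)
      refine ⟨_, (hk' q).1 hq, ?_⟩
      rw [map_mul, map_mul, hqy]
      simp [mul_assoc]
  set g : K →* N := (f.comp K.subtype).codRestrict N hfN with hg
  have hgcoe : ∀ k : K, ((g k : N) : G) = f (k : A) := fun k => rfl
  have hginj : Function.Injective g := by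
    intro a c hac
    have := congrArg Subtype.val hac
    rw [hgcoe, hgcoe] at this
    exact Subtype.ext (hf this)
  set P₂ : Subgroup N := (Q.map f).subgroupOf N with hP₂
  have hQN : Q.map f ≤ N := Subgroup.le_normalizer
  haveI : P₂.Normal := Subgroup.normal_in_normalizer
  have hP₂p : IsPGroup p P₂ := (hQp.map f).of_equiv (Subgroup.subgroupOfEquivOfLe hQN).symm
  have hPR : P₂ ≤ g.range := by
    intro x hx
    rw [hP₂, Subgroup.mem_subgroupOf] at hx
    obtain ⟨q, hq, hqx⟩ := hx
    exact ⟨⟨q, hQK hq⟩, Subtype.ext hqx⟩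
  have hcent : ∀ x : N, x ∈ Subgroup.centralizer (P₂ : Set N) →
      ∃ a ∈ Subgroup.centralizer (Q : Set A), f a = (x : G) := by
    intro x hx
    have hx' : (x : G) ∈ Subgroup.centralizer ((Q.map f : Subgroup G) : Set G) := by
      rw [Subgroup.mem_centralizer_iff] at hx ⊢
      intro y hy
      have := hx ⟨y, hQN hy⟩ (by rw [SetLike.mem_coe, hP₂, Subgroup.mem_subgroupOf]; exact hy)
      exact congrArg Subtype.val this
    obtain ⟨a, ha⟩ := hC hx'
    refine ⟨a, ?_, ha⟩
    rw [Subgroup.mem_centralizer_iff]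
    intro q hq
    apply hf
    rw [map_mul, map_mul, ha]
    exact Subgroup.mem_centralizer_iff.1 hx' _ ⟨q, hq, rfl⟩
  have hCR : Subgroup.centralizer (P₂ : Set N) ≤ g.range := by
    intro x hx
    obtain ⟨a, ha, hax⟩ := hcent x hx
    exact ⟨⟨a, hCK ha⟩, Subtype.ext hax⟩
  have hRN : g.range ≤ Subgroup.normalizer (P₂ : Set N) := by
    rw [Subgroup.normalizer_eq_top]
    exact le_top
  set e : K ≃* g.range := MonoidHom.ofInjective hginj with he
  obtain ⟨c, hc⟩ := inducedBlockDefined hM hP₂p hPR hCR hRN (isPBlock_tr (e := e.symm) hb'.1)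
  have hgc : IndAlong M g b' c := by
    have h1 := (indAlong_equiv e (isPBlock_tr (e := e.symm) hb'.1)).comp (indAlong_subtype_iff.2 hc)
    rw [trB_symm_trB] at h1
    have h2 : g.range.subtype.comp e.toMonoidHom = g := by
      ext k
      rfl
    rwa [h2] at h1
  have hcB : IndAlong M N.subtype c B := by
    have h1 := (indAlong_subtype_iff.2 hb').comp h
    have h2 : f.comp K.subtype = N.subtype.comp g := by
      ext k
      rfl
    rw [h2] at h1
    exact hgc.factor h1
  exact ⟨b', c, g, hgcoe, hginj, hb', hgc, indAlong_subtype_iff.1 hcB⟩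

/-- All elements of `K` lying in `N` are in the kernel of every member of `c`. -/
def KerN {N : Subgroup G} (K : Subgroup G) (c : Set (IrrCharacter N)) : Prop :=
  ∀ n : N, (n : G) ∈ K → n ∈ blockKer c

theorem step (hM : IsPModular p M) {π : Set ℕ} (hpπ : p ∈ π) {Q K N : Subgroup G}
    (hN : N = Subgroup.normalizer (Q : Set G)) (hQ : IsPGroup p Q)
    (hK : HS π Q K) {c : Set (IrrCharacter N)} {B : Set (IrrCharacter G)}
    (hc : IsInducedBlock M N c B)
    {D : Subgroup N} (hD : IsDefectGroup p M c D) {Q' : Subgroup G} (hQ' : Q' = D.map N.subtype) :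
    Q ≤ Q' ∧ IsPGroup p Q' ∧
      ∃ c' : Set (IrrCharacter (Subgroup.normalizer (Q' : Set G))),
        IsInducedBlock M (Subgroup.normalizer (Q' : Set G)) c' B ∧
        (KerN K c ↔ KerN (K ⊓ Subgroup.centralizer (Q' : Set G)) c') := by
  haveI := isPrime hM
  haveI : Fact p.Prime := ⟨hM.1⟩
  have hQN : Q ≤ N := by rw [hN]; exact Subgroup.le_normalizer
  have h1 : Q.subgroupOf N ≤ D := subgroupOf_le_defectGroup hM hQ hQN hN.le hc.1 hD
  subst hQ'
  set Q' : Subgroup G := D.map N.subtype with hQ'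
  have hQQ' : Q ≤ Q' := by
    intro x hx
    exact ⟨⟨x, hQN hx⟩, h1 (by rw [Subgroup.mem_subgroupOf]; exact hx), rfl⟩
  have hQ'p : IsPGroup p Q' := (defectGroup_isPGroup hD).map _
  have hCr : Subgroup.centralizer (Q' : Set G) ≤ N.subtype.range := by
    rw [Subgroup.range_subtype, hN]
    exact (Subgroup.centralizer_le hQQ').trans (Subgroup.centralizer_le_normalizer _)
  obtain ⟨b', c', g, hg, hginj, hb', hgc, hcB⟩ :=
    local_step' hM N.subtype_injective (indAlong_subtype_iff.2 hc) hD hCr
  refine ⟨hQQ', hQ'p, c', hcB, ?_⟩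
  have hK' := hK.inf hQQ'
  haveI hWn : (K.subgroupOf N).Normal := by
    constructor
    intro k hk n
    rw [Subgroup.mem_subgroupOf] at hk ⊢
    exact hK.conj_mem (hN.le n.2) hk
  have hWd : ¬ p ∣ Nat.card (K.subgroupOf N) := by
    have hKN : K ≤ N := by
      rw [hN]
      exact hK.le.trans (Subgroup.centralizer_le_normalizer _)
    rw [Nat.card_congr (Subgroup.subgroupOfEquivOfLe hKN).toEquiv]
    exact hK.not_dvd hM.1 hpπ
  set K' : Subgroup G := K ⊓ Subgroup.centralizer (Q' : Set G) with hK'def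
  haveI hWn' : (K'.subgroupOf (Subgroup.normalizer (Q' : Set G))).Normal := by
    constructor
    intro k hk n
    rw [Subgroup.mem_subgroupOf] at hk ⊢
    exact hK'.conj_mem n.2 hk
  have hWd' : ¬ p ∣ Nat.card (K'.subgroupOf (Subgroup.normalizer (Q' : Set G))) := by
    have hKN : K' ≤ Subgroup.normalizer (Q' : Set G) :=
      hK'.le.trans (Subgroup.centralizer_le_normalizer _)
    rw [Nat.card_congr (Subgroup.subgroupOfEquivOfLe hKN).toEquiv]
    exact hK'.not_dvd hM.1 hpπ
  have e1 := normal_le_blockKer_iff hM (Subgroup.subtype_injective _) (indAlong_subtype_iff.2 hb')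
    (W := K.subgroupOf N) hWd
  have e2 := normal_le_blockKer_iff hM hginj hgc (W := K'.subgroupOf (Subgroup.normalizer (Q' : Set G))) hWd'
  have e3 : ∀ a : Subgroup.normalizer (D : Set N),
      (Subgroup.normalizer (D : Set N)).subtype a ∈ K.subgroupOf N ↔
        g a ∈ K'.subgroupOf (Subgroup.normalizer (Q' : Set G)) := by
    intro a
    rw [Subgroup.mem_subgroupOf, Subgroup.mem_subgroupOf, hg]
    constructor
    · intro ha
      refine ⟨ha, ?_⟩
      change N.subtype (a : N) ∈ Subgroup.centralizer (Q' : Set G)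
      rw [Subgroup.mem_centralizer_iff]
      rintro _ ⟨d, hd, rfl⟩
      have hKQ : K ⊓ Q' = ⊥ := by
        rw [← Subgroup.card_eq_one]
        by_contra hne
        have h5 : Nat.card (K ⊓ Q' : Subgroup G) ∣ Nat.card Q' := Subgroup.card_dvd_of_le inf_le_right
        obtain ⟨k, hk⟩ := IsPGroup.iff_card.1 hQ'p
        rw [hk] at h5
        obtain ⟨j, -, hj⟩ := (Nat.dvd_prime_pow hM.1).1 h5
        have hj0 : j ≠ 0 := by
          rintro rfl
          exact hne (by rw [hj, pow_zero])
        have h6 : p ∣ Nat.card (K ⊓ Q' : Subgroup G) := by rw [hj]; exact dvd_pow_self p hj0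
        exact hK.not_dvd hM.1 hpπ (h6.trans (Subgroup.card_dvd_of_le inf_le_left))
      have h7 : ((a : N) : G) * (d : G) * ((a : N) : G)⁻¹ * (d : G)⁻¹ ∈ K ⊓ Q' := by
        refine ⟨?_, ?_⟩
        · have h8 := hK.conj_mem (hN.le d.2) (K.inv_mem ha)
          have h9 := K.mul_mem ha h8
          simpa [mul_assoc] using h9
        · have h8 := (Subgroup.mem_normalizer_iff.1 a.2 d).1 hd
          have h9 : ((a : N) * d * (a : N)⁻¹ * d⁻¹ : N) ∈ D := D.mul_mem h8 (D.inv_mem hd)
          exact ⟨_, h9, rfl⟩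
      rw [hKQ, Subgroup.mem_bot] at h7
      have h8 := mul_inv_eq_one.1 h7
      have h9 := mul_inv_eq_iff_eq_mul.1 h8
      exact h9.symm
    · intro ha
      exact ha.1
  constructor
  · intro h2
    have h3 := e1.1 (fun w hw => h2 w (by rw [Subgroup.mem_subgroupOf] at hw; exact hw))
    have h4 := e2.2 (fun a ha => h3 a ((e3 a).2 ha))
    intro n hn
    exact h4 n (by rw [Subgroup.mem_subgroupOf]; exact hn)
  · intro h2
    have h3 := e2.1 (fun w hw => h2 w (by rw [Subgroup.mem_subgroupOf] at hw; exact hw))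
    have h4 := e1.2 (fun a ha => h3 a ((e3 a).1 ha))
    intro n hn
    exact h4 n (by rw [Subgroup.mem_subgroupOf]; exact hn)

/-- The final step: `Q` is a defect group of `c`, a block of `N_G(Q)`. -/
theorem base (hM : IsPModular p M) {π : Set ℕ} {Q K N ND : Subgroup G} (hQ : IsPGroup p Q)
    (hN : N = Subgroup.normalizer (Q : Set G))
    (hK : HS π Q K) {c : Set (IrrCharacter N)} {B : Set (IrrCharacter G)}
    (hc : IsInducedBlock M N c B)
    (hQc : IsDefectGroup p M c (Q.subgroupOf N))
    {D : Subgroup G} (hBD : IsDefectGroup p M B D) (hND : ND = Subgroup.normalizer (D : Set G))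
    {B₁ : Set (IrrCharacter ND)}
    (hB₁ : IsInducedBlock M ND B₁ B)
    (hB₁D : IsDefectGroup p M B₁ (D.subgroupOf ND)) :
    ∃ KD : Subgroup G, HS π D KD ∧ (KerN K c ↔ KerN KD B₁) := by
  haveI := isPrime hM
  haveI : Fact p.Prime := ⟨hM.1⟩
  have hBQ : IsDefectGroup p M B Q := by
    subst hN
    exact first_main_defect hM hQ hc hQc
  obtain ⟨x, hx⟩ := defectGroup_conj hM hc.2.1 hBQ hBD
  refine ⟨K.map (MulAut.conj x).toMonoidHom, hx ▸ hK.conj x, ?_⟩
  have hNx : ∀ n : G, n ∈ N ↔ MulAut.conj x n ∈ ND := by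
    intro n
    rw [hN, hND, Subgroup.mem_normalizer_iff, Subgroup.mem_normalizer_iff]
    have hmem : ∀ y : G, y ∈ Q ↔ MulAut.conj x y ∈ D := by
      intro y
      rw [hx]
      constructor
      · intro hy; exact ⟨y, hy, rfl⟩
      · rintro ⟨z, hz, hzy⟩
        have : z = y := (MulAut.conj x).injective hzy
        rwa [← this]
    constructor
    · intro h y
      have h1 := h ((MulAut.conj x).symm y)
      rw [hmem, hmem, map_mul, map_mul, map_inv, MulEquiv.apply_symm_apply] at h1
      exact h1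
    · intro h y
      have h1 := h (MulAut.conj x y)
      rw [hmem, hmem, map_mul, map_mul, map_inv]
      exact h1
  have hgN : ∀ n : N, ((MulAut.conj x).toMonoidHom.comp N.subtype) n ∈ ND := fun n => (hNx n).1 n.2
  set g : N →* ND := ((MulAut.conj x).toMonoidHom.comp N.subtype).codRestrict ND hgN with hg
  have hgcoe : ∀ n : N, ((g n : ND) : G) = MulAut.conj x (n : G) := fun _ => rfl
  have hgb : Function.Bijective g := by
    constructor
    · intro a b hab
      have := congrArg Subtype.val hab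
      rw [hgcoe, hgcoe] at this
      exact Subtype.ext ((MulAut.conj x).injective this)
    · intro y
      refine ⟨⟨(MulAut.conj x).symm (y : G), (hNx _).2 ?_⟩, Subtype.ext ?_⟩
      · rw [MulEquiv.apply_symm_apply]; exact y.2
      · rw [hgcoe]; exact (MulAut.conj x).apply_symm_apply _
  set e : N ≃* ND := MulEquiv.ofBijective g hgb with he
  have hecoe : ∀ n : N, ((e n : ND) : G) = MulAut.conj x (n : G) := fun _ => rfl
  set c' : Set (IrrCharacter ND) := trB e.symm c with hc'
  have hc'b : IsPBlock M c' := isPBlock_tr hc.1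
  have hcc' : trB e c' = c := trB_symm_trB e c
  have h1 : IndAlong M e.toMonoidHom c c' := by
    have := indAlong_equiv e hc'b
    rwa [hcc'] at this
  have h2 : IndAlong M ((MulAut.conj x).toMonoidHom.comp N.subtype) c B :=
    (indAlong_subtype_iff.2 hc).comp (indAlong_conj x hc.2.1)
  have h3 : (MulAut.conj x).toMonoidHom.comp N.subtype = ND.subtype.comp e.toMonoidHom := by
    ext n
    rfl
  rw [h3] at h2
  have h4 : IsInducedBlock M ND c' B := indAlong_subtype_iff.1 (h1.factor h2)
  have h5 : IsDefectGroup p M c' (D.subgroupOf ND) := by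
    rw [← hcc'] at hQc
    have h6 := isDefectGroup_tr hQc
    have h7 : (Q.subgroupOf N).map e.toMonoidHom = D.subgroupOf ND := by
      ext y
      rw [Subgroup.mem_subgroupOf, hx]
      constructor
      · rintro ⟨n, hn, rfl⟩
        exact ⟨n, hn, rfl⟩
      · rintro ⟨q, hq, hqy⟩
        have hqN : q ∈ N := by rw [hN]; exact Subgroup.le_normalizer hq
        exact ⟨⟨q, hqN⟩, hq, Subtype.ext hqy⟩
    rwa [h7] at h6
  have h6 : c' = B₁ := by
    subst hND
    exact first_main_unique hM (hx ▸ hQ.map _) h4 h5 hB₁ hB₁D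
  rw [← h6]
  constructor
  · intro h7 n hn χ hχ
    obtain ⟨θ, hθ, rfl⟩ := hχ
    obtain ⟨k, hk, hkn⟩ := hn
    have h8 : e.symm n ∈ blockKer c := by
      apply h7
      have h9 : ((e.symm n : N) : G) = k := by
        apply (MulAut.conj x).injective
        rw [← hecoe, e.apply_symm_apply]
        exact hkn.symm
      rw [h9]; exact hk
    have h9 := h8 θ hθ
    show (trI e.symm θ : ND → ℂ) n = (trI e.symm θ : ND → ℂ) 1
    rw [trI_apply, trI_apply, map_one]
    exact h9
  · intro h7 n hn χ hχ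
    have h8 : e n ∈ blockKer c' := h7 (e n) ⟨n, hn, rfl⟩
    have h9 := h8 (trI e.symm χ) ⟨χ, hχ, rfl⟩
    rw [trI_apply, trI_apply, map_one, e.symm_apply_apply] at h9
    exact h9

theorem main_iff (hM : IsPModular p M) {π : Set ℕ} (hpπ : p ∈ π) {B : Set (IrrCharacter G)}
    {D : Subgroup G} (hBD : IsDefectGroup p M B D)
    {B₁ : Set (IrrCharacter (Subgroup.normalizer (D : Set G)))}
    (hB₁ : IsInducedBlock M (Subgroup.normalizer (D : Set G)) B₁ B)
    (hB₁D : IsDefectGroup p M B₁ (D.subgroupOf (Subgroup.normalizer (D : Set G)))) :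
    ∀ (n : ℕ) (Q K : Subgroup G), Nat.card G < Nat.card Q + n → IsPGroup p Q → HS π Q K →
      ∀ c : Set (IrrCharacter (Subgroup.normalizer (Q : Set G))),
      IsInducedBlock M (Subgroup.normalizer (Q : Set G)) c B →
      ∃ KD : Subgroup G, HS π D KD ∧ (KerN K c ↔ KerN KD B₁) := by
  intro n
  induction n with
  | zero =>
    intro Q K h
    exact absurd (Subgroup.card_le_card_group Q) (by omega)
  | succ n ih =>
    intro Q K hn hQ hK c hc
    obtain ⟨D₁, hD₁⟩ := exists_defectGroup hM hc.1
    obtain ⟨hQQ', hQ'p, c', hc', hiff⟩ := step hM hpπ rfl hQ hK hc hD₁ rfl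
    by_cases h : D₁.map (Subgroup.normalizer (Q : Set G)).subtype = Q
    · have h1 : D₁ = Q.subgroupOf (Subgroup.normalizer (Q : Set G)) := by
        have h2 := congrArg (fun X => Subgroup.comap (Subgroup.normalizer (Q : Set G)).subtype X) h
        simp only [Subgroup.comap_map_eq_self_of_injective
          (Subgroup.subtype_injective _)] at h2
        exact h2
      rw [h1] at hD₁
      exact base hM hQ rfl hK hc hD₁ hBD rfl hB₁ hB₁D
    · have hlt : Nat.card Q < Nat.card (D₁.map (Subgroup.normalizer (Q : Set G)).subtype) := by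
        have h2 := Subgroup.card_le_of_le hQQ'
        rcases lt_or_eq_of_le h2 with h3 | h3
        · exact h3
        · exact absurd (Subgroup.eq_of_le_of_card_ge hQQ' h3.ge).symm h
      obtain ⟨KD, hKD, hiff'⟩ := ih _ _ (by omega) hQ'p (hK.inf hQQ') c' hc'
      exact ⟨KD, hKD, hiff.trans hiff'⟩

end Cfsg.Agent.Lib.HallKer
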