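import Cfsg.Agent.Lib.HallKer

/-!
# Normal Hall `π'`-subgroups of centralisers of `p`-subgroups and kernels of blocks, II
-/

set_option autoImplicit false
set_option linter.all false
set_option maxHeartbeats 400000

namespace Cfsg.Agent.Lib.HallKer

open Cfsg Cfsg.Agent.Lib.BlockRing Cfsg.Agent.Lib.BlockGA Cfsg.Agent.Lib.BlockIdem
open Cfsg.Agent.Lib.CharBasic Cfsg.Agent.Lib.BlockNormP Cfsg.Agent.Lib.BlockHom Cfsg.Agent.Lib.BlockDefect
open Cfsg.Agent.Lib.BlockFirst Cfsg.Agent.Lib.BlockCover Cfsg.Agent.Lib.BlockTransfer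
open Cfsg.Agent.Lib.BlockInd Cfsg.Agent.Lib.BlockCore Cfsg.Agent.Lib.BlockAlong
open Cfsg.Agent.Lib.BlockSecond
open MonoidAlgebra (single)

universe u

variable {G : Type u} [Group G] [Finite G] {p : ℕ} {M : Ideal AlgInt}

theorem exists_up (hM : IsPModular p M) {P H N : Subgroup G} (hP : IsPGroup p P) (hPH : P ≤ H)
    (hCH : Subgroup.centralizer (P : Set G) ≤ H) (hHN : H ≤ N)
    (hN : N ≤ Subgroup.normalizer (P : Set G))
    {b : Set (IrrCharacter H)} {B : Set (IrrCharacter G)} (hb : IsInducedBlock M H b B) :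
    ∃ c : Set (IrrCharacter N), IndAlong M (Subgroup.inclusion hHN) b c ∧ IsInducedBlock M N c B := by
  haveI := isPrime hM
  have hPN : P ≤ N := hPH.trans hHN
  set g : H →* N := Subgroup.inclusion hHN with hg
  have hginj : Function.Injective g := Subgroup.inclusion_injective hHN
  set P₂ : Subgroup N := P.subgroupOf N with hP₂
  haveI : P₂.Normal := by
    constructor
    intro x hx n
    rw [hP₂, Subgroup.mem_subgroupOf] at hx ⊢
    exact (Subgroup.mem_normalizer_iff.1 (hN n.2) x).1 hx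
  have hP₂p : IsPGroup p P₂ := hP.of_equiv (Subgroup.subgroupOfEquivOfLe hPN).symm
  have hPR : P₂ ≤ g.range := by
    intro x hx
    rw [hP₂, Subgroup.mem_subgroupOf] at hx
    exact ⟨⟨x, hPH hx⟩, Subtype.ext rfl⟩
  have hCR : Subgroup.centralizer (P₂ : Set N) ≤ g.range := by
    intro x hx
    have hx' : (x : G) ∈ Subgroup.centralizer (P : Set G) := by
      rw [Subgroup.mem_centralizer_iff] at hx ⊢
      intro y hy
      have := hx ⟨y, hPN hy⟩ (by rw [SetLike.mem_coe, hP₂, Subgroup.mem_subgroupOf]; exact hy)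
      exact congrArg Subtype.val this
    exact ⟨⟨x, hCH hx'⟩, Subtype.ext rfl⟩
  have hRN : g.range ≤ Subgroup.normalizer (P₂ : Set N) := by
    rw [Subgroup.normalizer_eq_top]
    exact le_top
  set e : H ≃* g.range := MonoidHom.ofInjective hginj with he
  obtain ⟨c, hc⟩ := inducedBlockDefined hM hP₂p hPR hCR hRN (isPBlock_tr (e := e.symm) hb.1)
  have hgc : IndAlong M g b c := by
    have h1 := (indAlong_equiv e (isPBlock_tr (e := e.symm) hb.1)).comp (indAlong_subtype_iff.2 hc)
    rw [trB_symm_trB] at h1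
    have h2 : g.range.subtype.comp e.toMonoidHom = g := by
      ext k
      rfl
    rwa [h2] at h1
  have hcB : IndAlong M N.subtype c B := by
    have h1 := indAlong_subtype_iff.2 hb
    have h2 : H.subtype = N.subtype.comp g := by
      ext k
      rfl
    rw [h2] at h1
    exact hgc.factor h1
  exact ⟨c, hgc, indAlong_subtype_iff.1 hcB⟩

theorem hs_of_core {π : Set ℕ} {Q C : Subgroup G} (hC : C = Subgroup.centralizer (Q : Set G))
    (h : ∀ x : C, PiE π x → x ∈ piCore {q | q ∉ π} C) :
    HS π Q ((piCore {q | q ∉ π} C).map C.subtype) := by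
  refine ⟨?_, ?_, ?_⟩
  · rw [← hC]
    exact Subgroup.map_subtype_le _
  · rintro _ ⟨k, hk, rfl⟩ q hq hd
    have h1 : orderOf (C.subtype k) = orderOf k := orderOf_injective C.subtype C.subtype_injective k
    rw [h1] at hd
    have h2 : orderOf k ∣ Nat.card (piCore {q | q ∉ π} C) := Subgroup.orderOf_dvd_natCard _ hk
    exact H32Cores.piCore_primes {q | q ∉ π} C q hq (hd.trans h2)
  · intro x hx hp
    rw [← hC] at hx
    refine ⟨⟨x, hx⟩, h ⟨x, hx⟩ ?_, rfl⟩
    intro q hq hd
    have h1 : orderOf (⟨x, hx⟩ : C) = orderOf x := by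
      rw [← Subgroup.orderOf_coe]
    rw [h1] at hd
    exact hp q hq hd

theorem core_le (hp : p.Prime) {π : Set ℕ} (hpπ : p ∈ π) {D N : Subgroup G} (hD : IsPGroup p D)
    (hN : N = Subgroup.normalizer (D : Set G)) {n : N}
    (hn : n ∈ piCore {q | q ∉ π} N) :
    (n : G) ∈ Subgroup.centralizer (D : Set G) ∧ PiE π (n : G) := by
  haveI : Fact p.Prime := ⟨hp⟩
  have hDN : D ≤ N := by rw [hN]; exact Subgroup.le_normalizer
  constructor
  · rw [Subgroup.mem_centralizer_iff]
    intro d hd
    set W : Subgroup N := piCore {q | q ∉ π} N with hW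
    have hDp : IsPGroup p (D.subgroupOf N) := hD.of_equiv (Subgroup.subgroupOfEquivOfLe hDN).symm
    have hWD : W ⊓ D.subgroupOf N = ⊥ := by
      apply PiCoreOf.inf_eq_bot_of_isPi (π := {q | q ∉ π}) (π' := π)
      · rw [Set.disjoint_left]
        intro a ha ha'
        exact ha ha'
      · exact H32Cores.piCore_primes {q | q ∉ π} N
      · exact PiCoreOf.isPi_of_isPGroup hp hpπ hDp
    haveI : (D.subgroupOf N).Normal := by subst hN; exact Subgroup.normal_in_normalizer
    have h6 : n * ⟨d, hDN hd⟩ * n⁻¹ * (⟨d, hDN hd⟩ : N)⁻¹ ∈ W ⊓ D.subgroupOf N := by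
      refine ⟨?_, ?_⟩
      · have : (⟨d, hDN hd⟩ : N) * n⁻¹ * (⟨d, hDN hd⟩ : N)⁻¹ ∈ W :=
          (inferInstance : W.Normal).conj_mem _ (W.inv_mem hn) _
        have h7 := W.mul_mem hn this
        simpa [mul_assoc] using h7
      · have hd' : (⟨d, hDN hd⟩ : N) ∈ D.subgroupOf N := by
          rw [Subgroup.mem_subgroupOf]; exact hd
        exact (D.subgroupOf N).mul_mem
          ((inferInstance : (D.subgroupOf N).Normal).conj_mem _ hd' n) ((D.subgroupOf N).inv_mem hd')
    rw [hWD, Subgroup.mem_bot] at h6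
    have h7 := mul_inv_eq_one.1 h6
    have h8 := mul_inv_eq_iff_eq_mul.1 h7
    exact (congrArg Subtype.val h8).symm
  · intro q hq hd
    rw [Subgroup.orderOf_coe] at hd
    have h2 : orderOf n ∣ Nat.card (piCore {q | q ∉ π} N) := Subgroup.orderOf_dvd_natCard _ hn
    exact H32Cores.piCore_primes {q | q ∉ π} N q hq (hd.trans h2)

theorem hs_le_core {π : Set ℕ} {D K : Subgroup G} (hK : HS π D K)
    {n : Subgroup.normalizer (D : Set G)} (hn : (n : G) ∈ K) :
    n ∈ piCore {q | q ∉ π} (Subgroup.normalizer (D : Set G)) := by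
  haveI hWn : (K.subgroupOf (Subgroup.normalizer (D : Set G))).Normal := by
    constructor
    intro k hk n
    rw [Subgroup.mem_subgroupOf] at hk ⊢
    exact hK.conj_mem n.2 hk
  have h1 : K.subgroupOf (Subgroup.normalizer (D : Set G)) ≤
      piCore {q | q ∉ π} (Subgroup.normalizer (D : Set G)) := by
    apply H32Cores.le_piCore hWn
    intro q hq hd
    have hKN : K ≤ Subgroup.normalizer (D : Set G) :=
      hK.le.trans (Subgroup.centralizer_le_normalizer _)
    rw [Nat.card_congr (Subgroup.subgroupOfEquivOfLe hKN).toEquiv] at hd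
    intro hqπ
    exact hK.not_dvd hq hqπ hd
  exact h1 (by rw [Subgroup.mem_subgroupOf]; exact hn)

/-- The kernel statement for a block `b` of `H`, `P·C_G(P) ≤ H ≤ N_G(P)`. -/
theorem ker_iff (hM : IsPModular p M) {π : Set ℕ} (hpπ : p ∈ π) {B : Set (IrrCharacter G)}
    {D : Subgroup G} (hBD : IsDefectGroup p M B D)
    {B₁ : Set (IrrCharacter (Subgroup.normalizer (D : Set G)))}
    (hB₁ : IsInducedBlock M (Subgroup.normalizer (D : Set G)) B₁ B)
    (hB₁D : IsDefectGroup p M B₁ (D.subgroupOf (Subgroup.normalizer (D : Set G))))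
    {P H K : Subgroup G} (hP : IsPGroup p P) (hPH : P ≤ H)
    (hCH : Subgroup.centralizer (P : Set G) ≤ H) (hHN : H ≤ Subgroup.normalizer (P : Set G))
    {b : Set (IrrCharacter H)} (hb : IsInducedBlock M H b B) (hK : HS π P K) :
    (∀ a : H, (a : G) ∈ K → a ∈ blockKer b) ↔
      ∀ n ∈ piCore {q | q ∉ π} (Subgroup.normalizer (D : Set G)), n ∈ blockKer B₁ := by
  haveI := isPrime hM
  obtain ⟨c, hbc, hcB⟩ := exists_up hM hP hPH hCH hHN le_rfl hb
  haveI hWn : (K.subgroupOf (Subgroup.normalizer (P : Set G))).Normal := by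
    constructor
    intro k hk n
    rw [Subgroup.mem_subgroupOf] at hk ⊢
    exact hK.conj_mem n.2 hk
  have hWd : ¬ p ∣ Nat.card (K.subgroupOf (Subgroup.normalizer (P : Set G))) := by
    have hKN : K ≤ Subgroup.normalizer (P : Set G) :=
      hK.le.trans (Subgroup.centralizer_le_normalizer _)
    rw [Nat.card_congr (Subgroup.subgroupOfEquivOfLe hKN).toEquiv]
    exact hK.not_dvd hM.1 hpπ
  have h1 := normal_le_blockKer_iff hM (Subgroup.inclusion_injective hHN) hbc hWd
  obtain ⟨KD, hKD, hiff⟩ := main_iff hM hpπ hBD hB₁ hB₁D (Nat.card G + 1) P K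
    (by have := Nat.card_pos (α := P); omega) hP hK c hcB
  constructor
  · intro h2 n hn
    have h3 : KerN K c := by
      intro m hm
      refine h1.2 ?_ m (by rw [Subgroup.mem_subgroupOf]; exact hm)
      intro a ha
      exact h2 a (by rw [Subgroup.mem_subgroupOf] at ha; exact ha)
    obtain ⟨h4, h5⟩ := core_le hM.1 hpπ (defectGroup_isPGroup hBD) rfl hn
    exact hiff.1 h3 n (hKD.mem _ h4 h5)
  · intro h2
    have h3 : KerN KD B₁ := fun n hn => h2 n (hs_le_core hKD hn)
    have h4 := hiff.2 h3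
    intro a ha
    refine h1.1 ?_ a (by rw [Subgroup.mem_subgroupOf]; exact ha)
    intro w hw
    exact h4 w (by rw [Subgroup.mem_subgroupOf] at hw; exact hw)

theorem single_mul_eB {C K : Subgroup G} (hKn : (K.subgroupOf C).Normal) {b : Set (IrrCharacter C)}
    (h : ∀ a : C, (a : G) ∈ K → a ∈ blockKer b) {x : C} (hx : (x : G) ∈ K) :
    single x (1 : ℂ) * eB b = eB b := by
  classical
  have h1 : normE (K.subgroupOf C) * eB b = eB b := by
    apply center_ext (Subalgebra.mul_mem _ (normE_mem_center _) (eB_mem_center b)) (eB_mem_center b)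
    intro χ
    rw [omega_mul χ.2 (normE_mem_center _)]
    by_cases hχ : χ ∈ b
    · rw [omega_eB_mem hχ, mul_one, omega_normE_eq_one_iff _ χ.2]
      intro n hn
      rw [Subgroup.mem_subgroupOf] at hn
      exact h n hn χ hχ
    · rw [omega_eB_not_mem hχ, mul_zero]
  have h2 : single x (1 : ℂ) * normE (K.subgroupOf C) = normE (K.subgroupOf C) := by
    ext g
    rw [MonoidAlgebra.coeff_single_mul_apply, one_mul]
    change (if x⁻¹ * g ∈ K.subgroupOf C then ((Nat.card (K.subgroupOf C) : ℂ))⁻¹ else 0) =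
      (if g ∈ K.subgroupOf C then ((Nat.card (K.subgroupOf C) : ℂ))⁻¹ else 0)
    have hx' : x⁻¹ ∈ K.subgroupOf C := (K.subgroupOf C).inv_mem (by rw [Subgroup.mem_subgroupOf]; exact hx)
    rw [(K.subgroupOf C).mul_mem_cancel_left hx']
  rw [← h1, ← mul_assoc, h2]

theorem value_eq (hM : IsPModular p M) {π : Set ℕ} (hpπ : p ∈ π) {B : Set (IrrCharacter G)}
    {D : Subgroup G} (hBD : IsDefectGroup p M B D)
    {B₁ : Set (IrrCharacter (Subgroup.normalizer (D : Set G)))}
    (hB₁ : IsInducedBlock M (Subgroup.normalizer (D : Set G)) B₁ B)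
    (hB₁D : IsDefectGroup p M B₁ (D.subgroupOf (Subgroup.normalizer (D : Set G))))
    (hker : ∀ n ∈ piCore {q | q ∉ π} (Subgroup.normalizer (D : Set G)), n ∈ blockKer B₁)
    {y : G} (hy : ∃ k : ℕ, orderOf y = p ^ k)
    (hC : ∀ x : Subgroup.centralizer ({y} : Set G), PiE π x →
      x ∈ piCore {q | q ∉ π} (Subgroup.centralizer ({y} : Set G)))
    {χ : IrrCharacter G} (hχ : χ ∈ B) {x : G} (hx : x ∈ Subgroup.centralizer ({y} : Set G))
    (hxp : PiE π x) : (χ : G → ℂ) (y * x) = (χ : G → ℂ) y := by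
  classical
  haveI := isPrime hM
  obtain ⟨k, hk⟩ := hy
  set C : Subgroup G := Subgroup.centralizer ({y} : Set G) with hCdef
  haveI := Fintype.ofFinite {b : Set (IrrCharacter C) // IsPBlock M b}
  have hmem : ∀ g, g ∈ C ↔ Commute y g := by
    intro g
    rw [hCdef, Subgroup.mem_centralizer_singleton_iff]
    exact ⟨fun h => h.symm, fun h => h.symm⟩
  have hQC : C = Subgroup.centralizer ((Subgroup.zpowers y : Subgroup G) : Set G) := by
    ext g
    rw [hmem, Subgroup.mem_centralizer_iff]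
    constructor
    · rintro h _ ⟨j, rfl⟩
      exact (h.zpow_left j).eq
    · intro h
      exact h y (Subgroup.mem_zpowers y)
  have hK := hs_of_core hQC hC
  set K : Subgroup G := (piCore {q | q ∉ π} C).map C.subtype with hKdef
  have hyp : IsPGroup p (Subgroup.zpowers y) := by
    haveI : Fact p.Prime := ⟨hM.1⟩
    rw [IsPGroup.iff_card]
    exact ⟨k, by rw [Nat.card_zpowers]; exact hk⟩
  have hQH : Subgroup.zpowers y ≤ C := by
    rw [Subgroup.zpowers_le, hmem]
  have hCN : C ≤ Subgroup.normalizer ((Subgroup.zpowers y : Subgroup G) : Set G) := by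
    rw [hQC]
    exact Subgroup.centralizer_le_normalizer _
  have hKn : (K.subgroupOf C).Normal := by
    constructor
    intro a ha n
    rw [Subgroup.mem_subgroupOf] at ha ⊢
    exact hK.conj_mem (hCN n.2) ha
  have hxK : x ∈ K := hK.mem x (hQC.le hx) hxp
  have hxr : ¬ p ∣ orderOf x := fun hd => hxp p hM.1 hd hpπ
  have hxc : Commute y x := (hmem x).1 hx
  have key : ∀ b : {b : Set (IrrCharacter C) // IsPBlock M b},
      lin (χ : G → ℂ) (single (y * x) 1 * incH C (eB (b : Set (IrrCharacter C)))) =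
        lin (χ : G → ℂ) (single y 1 * incH C (eB (b : Set (IrrCharacter C)))) := by
    rintro ⟨b, hb⟩
    by_cases hind : IsInducedBlock M C b B
    · have h1 := (ker_iff hM hpπ hBD hB₁ hB₁D hyp hQH hQC.ge hCN hind hK).2 hker
      have h2 := single_mul_eB hKn h1 (x := ⟨x, hx⟩) hxK
      have h3 : single (y * x) (1 : ℂ) = single y 1 * single x 1 := by
        rw [MonoidAlgebra.single_mul_single, one_mul]
      have h4 : single x (1 : ℂ) = incH C (single (⟨x, hx⟩ : C) 1) := by rw [incH_single]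
      show lin _ (_ * incH C (eB b)) = lin _ (_ * incH C (eB b))
      rw [h3, mul_assoc, h4, ← map_mul, h2]
    · have h1 := second_main hM hk hxr hxc hmem hb hB₁.2.1 hind hχ
      have h2 := second_main hM hk (x := (1 : G)) (by rw [orderOf_one]; exact hM.1.one_lt.ne' ∘ Nat.dvd_one.1)
        (Commute.one_right y) hmem hb hB₁.2.1 hind hχ
      rw [mul_one] at h2
      show lin _ (_ * incH C (eB b)) = lin _ (_ * incH C (eB b))
      rw [h1, h2]
  have hsum : ∀ z : GA G, lin (χ : G → ℂ) z =
      ∑ b : {b : Set (IrrCharacter C) // IsPBlock M b}, lin (χ : G → ℂ) (z * incH C (eB (b : Set (IrrCharacter C)))) := by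
    intro z
    rw [← lin_sum, ← Finset.mul_sum, ← map_sum, sum_eB_blocks, map_one, mul_one]
  have h1 := hsum (single (y * x) 1)
  have h2 := hsum (single y 1)
  rw [lin_single, one_mul] at h1 h2
  rw [h1, h2]
  exact Finset.sum_congr rfl fun b _ => key b

end Cfsg.Agent.Lib.HallKer
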