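import Mathlib

/-!
Number theory of binomial coefficients coprime to all small primes (helper42).
-/

set_option autoImplicit false

namespace Cfsg.Agent.Lib.HallSymNT

/-- no carries -/
def NC (k m d : ℕ) : Prop := k % d + m % d < d

theorem nc_of_not_dvd {p k m : ℕ} (hp : p.Prime) (h : ¬ p ∣ Nat.choose (m + k) k) (i : ℕ) : NC k m (p ^ i) := by
  rcases Nat.eq_zero_or_pos i with rfl | hi
  · unfold NC; rw [pow_zero, Nat.mod_one, Nat.mod_one]; norm_num
  · have h1 := Nat.factorization_choose' (b := max (Nat.log p (m + k)) i + 1) hp (n := m) (k := k) (by omega)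
    rw [Nat.factorization_eq_zero_of_not_dvd h] at h1
    have h2 := Finset.card_eq_zero.1 h1.symm
    by_contra hc
    unfold NC at hc
    rw [not_lt] at hc
    have : i ∈ Finset.filter (fun i => p ^ i ≤ k % p ^ i + m % p ^ i) (Finset.Ico 1 (max (Nat.log p (m + k)) i + 1)) := by
      rw [Finset.mem_filter, Finset.mem_Ico]
      exact ⟨⟨hi, by omega⟩, hc⟩
    rw [h2] at this
    exact absurd this (Finset.notMem_empty _)

theorem nc0 {k m d : ℕ} (h : NC k m d) (hd : d ∣ m + k) : d ∣ k := by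
  unfold NC at h
  have h1 : (m + k) % d = 0 := Nat.mod_eq_zero_of_dvd hd
  rw [Nat.add_mod, Nat.mod_eq_of_lt (by omega)] at h1
  exact Nat.dvd_of_mod_eq_zero (by omega)

theorem dvd_mul_pred {k d : ℕ} (h : k % d = 0 ∨ k % d = 1) : d ∣ k * (k - 1) := by
  rcases h with h | h
  · exact (Nat.dvd_of_mod_eq_zero h).mul_right _
  · rcases Nat.eq_zero_or_pos k with rfl | hk
    · simp
    · refine Dvd.dvd.mul_left ?_ _
      have h2 := Nat.div_add_mod k d
      rw [h] at h2
      exact ⟨k / d, by omega⟩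

theorem nc1 {k m d : ℕ} (h : NC k m d) (hk : 1 ≤ k) (hd : d ∣ m + k - 1) : d ∣ k * (k - 1) := by
  unfold NC at h
  apply dvd_mul_pred
  rcases Nat.lt_or_ge d 2 with h2 | h2
  · have : d = 1 := by omega
    left; rw [this, Nat.mod_one]
  · have h1 : (m + k) % d = 1 := by
      obtain ⟨c, hc⟩ := hd
      have : m + k = 1 + d * c := by omega
      rw [this, Nat.add_mul_mod_self_left, Nat.mod_eq_of_lt (by omega)]
    rw [Nat.add_mod, Nat.mod_eq_of_lt (by omega)] at h1
    omega

theorem nc2 {k m d : ℕ} (h : NC k m d) (hd : d ∣ m + 1) : d ∣ k := by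
  unfold NC at h
  have hd0 : 0 < d := by omega
  have h1 : (m + 1) % d = 0 := Nat.mod_eq_zero_of_dvd hd
  have h2 : m % d = d - 1 := by
    have h3 := Nat.div_add_mod m d
    have h4 := Nat.mod_lt m hd0
    by_contra hne
    have h5 : m % d + 1 < d := by omega
    rw [← h3, add_assoc, Nat.mul_add_mod, Nat.mod_eq_of_lt h5] at h1
    omega
  exact Nat.dvd_of_mod_eq_zero (by omega)

theorem nc_comm {k m d : ℕ} (h : NC k m d) : NC m k d := by
  unfold NC at h ⊢; omega

theorem nc3 {k m d : ℕ} (h : NC k m d) (hd : d ∣ m + 2) : d ∣ k * (k - 1) := by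
  unfold NC at h
  have hd0 : 0 < d := by omega
  apply dvd_mul_pred
  have h1 : (m + 2) % d = 0 := Nat.mod_eq_zero_of_dvd hd
  have h3 := Nat.div_add_mod m d
  have h4 := Nat.mod_lt m hd0
  by_contra hne
  have h5 : m % d + 2 < d := by omega
  rw [← h3, add_assoc, Nat.mul_add_mod, Nat.mod_eq_of_lt h5] at h1
  omega

theorem dvd_of_pp {N X : ℕ} (h : ∀ p i, p.Prime → p ∣ N → p ^ i ∣ N → p ^ i ∣ X) : N ∣ X := by
  rw [Nat.dvd_iff_prime_pow_dvd_dvd]
  intro p i hp hi
  rcases Nat.eq_zero_or_pos i with rfl | hpos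
  · simp
  · exact h p i hp ((dvd_pow_self p (by omega)).trans hi) hi

theorem two_mul_le_of_not_prime {N p : ℕ} (hN : 0 < N) (hn : ¬ N.Prime) (hp : p.Prime) (hd : p ∣ N) : 2 * p ≤ N := by
  obtain ⟨c, hc⟩ := hd
  have h1 : c ≠ 0 := by rintro rfl; omega
  have h2 : c ≠ 1 := by
    rintro rfl
    rw [mul_one] at hc
    exact hn (hc ▸ hp)
  have h3 : 2 ≤ c := by omega
  rw [hc, mul_comm p c]
  exact Nat.mul_le_mul_right p h3

/-- the main binomial lemma -/
theorem main_b {k m : ℕ} (hk : 1 ≤ k) (hkm : k ≤ m) (h : ∀ p, p.Prime → p ≤ m → ¬ p ∣ Nat.choose (m + k) k) :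
    (k = 1 ∧ (m + k).Prime) ∨ (k = 3 ∧ m = 4) := by
  have hNC : ∀ p i, p.Prime → p ≤ m → NC k m (p ^ i) := fun p i hp hpm => nc_of_not_dvd hp (h p hp hpm) i
  have hprime : (m + k).Prime := by
    by_contra hn
    have h1 : m + k ∣ k := dvd_of_pp fun p i hp hd hi =>
      nc0 (hNC p i hp (by have := two_mul_le_of_not_prime (by omega) hn hp hd; omega)) hi
    have := Nat.le_of_dvd (by omega) h1
    omega
  rcases Nat.eq_or_lt_of_le hk with hk1 | hk2
  · left; exact ⟨hk1.symm, hprime⟩
  right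
  have hm1 : (m + 1).Prime := by
    by_contra hn
    have h1 : m + 1 ∣ k := dvd_of_pp fun p i hp hd hi =>
      nc2 (hNC p i hp (by have := two_mul_le_of_not_prime (by omega) hn hp hd; omega)) hi
    have := Nat.le_of_dvd (by omega) h1
    omega
  have hmodd : (m + 1) % 2 = 1 := by
    rcases hm1.eq_two_or_odd with h | h <;> omega
  have hnodd : (m + k) % 2 = 1 := by
    rcases hprime.eq_two_or_odd with h | h <;> omega
  have hk3 : 3 ≤ k := by omega
  have hklt : k < m := by omega
  have h3 : k + 1 ∣ m := dvd_of_pp fun p i hp hd hi =>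
      nc2 (nc_comm (hNC p i hp (by have := Nat.le_of_dvd (by omega) hd; omega))) hi
  have np : ∀ N, 2 < N → N % 2 = 0 → ¬ N.Prime := by
    intro N h1 h2 h3
    rcases h3.eq_two_or_odd with h | h <;> omega
  have h4 : m + k - 1 ∣ k * (k - 1) := dvd_of_pp fun p i hp hd hi =>
      nc1 (hNC p i hp (by
        have := two_mul_le_of_not_prime (by omega) (np (m + k - 1) (by omega) (by omega)) hp hd; omega)) (by omega) hi
  have h5 : m + 2 ∣ k * (k - 1) := dvd_of_pp fun p i hp hd hi =>
      nc3 (hNC p i hp (by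
        have := two_mul_le_of_not_prime (by omega) (np (m + 2) (by omega) (by omega)) hp hd; omega)) hi
  -- arithmetic
  have hmk : m = k + 1 := by
    obtain ⟨u, hu⟩ := h4
    obtain ⟨c, hc⟩ := h3
    obtain ⟨j, rfl⟩ : ∃ j, k = j + 1 := ⟨k - 1, by omega⟩
    have e1 : j + 1 - 1 = j := by omega
    have e2 : m + (j + 1) - 1 = m + j := by omega
    rw [e1, e2] at hu
    have hu0 : 0 < u := by
      rcases Nat.eq_zero_or_pos u with h | h
      · rw [h, mul_zero] at hu
        have : 0 < (j + 1) * j := Nat.mul_pos (by omega) (by omega)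
        omega
      · exact h
    have h6 : 2 * (j + 1) * u ≤ (j + 1) * j := by
      rw [hu]; exact Nat.mul_le_mul_right u (by omega)
    have h7 : 2 * u ≤ j := by
      have : (j + 1) * (2 * u) ≤ (j + 1) * j := by linarith
      exact Nat.le_of_mul_le_mul_left this (by omega)
    have h8 : (j + 2) ∣ 2 * (u + 1) := by
      have : ((j + 2 : ℕ) : ℤ) ∣ ((2 * (u + 1) : ℕ) : ℤ) := by
        refine ⟨(u : ℤ) * (c + 1) - (j - 1), ?_⟩
        have hu' : ((j : ℤ) + 1) * j = (m + j) * u := by exact_mod_cast hu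
        have hc' : (m : ℤ) = (j + 1 + 1) * c := by exact_mod_cast hc
        push_cast
        rw [hc'] at hu'
        linear_combination hu'
      exact_mod_cast this
    obtain ⟨t, ht⟩ := h8
    have ht1 : t = 1 := by
      have h9 : 0 < t := by
        rcases Nat.eq_zero_or_pos t with h | h
        · rw [h, mul_zero] at ht; omega
        · exact h
      have h10 : (j + 2) * t ≤ (j + 2) * 1 := by omega
      have := Nat.le_of_mul_le_mul_left h10 (by omega)
      omega
    rw [ht1, mul_one] at ht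
    have hju : j = 2 * u := by omega
    rw [hju] at hu
    have : (2 * u + 1) * 2 = m + 2 * u := by
      apply Nat.eq_of_mul_eq_mul_right hu0
      rw [← hu]; ring
    omega
  subst hmk
  have h6 : k + 3 ∣ 12 := by
    have e : ((k + 3 : ℕ) : ℤ) ∣ ((12 : ℕ) : ℤ) := by
      have h7 : ((k + 1 + 2 : ℕ) : ℤ) ∣ ((k * (k - 1) : ℕ) : ℤ) := by exact_mod_cast h5
      rw [Nat.cast_mul, Nat.cast_sub (by omega)] at h7
      have h8 : ((12 : ℕ) : ℤ) = (k : ℤ) * ((k : ℤ) - (1 : ℕ)) - ((k + 1 + 2 : ℕ) : ℤ) * (k - 4) := by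
        push_cast; ring
      rw [h8]
      exact dvd_sub h7 (dvd_mul_right _ _)
    exact_mod_cast e
  have h7 := Nat.le_of_dvd (by norm_num) h6
  have h8 : k = 3 ∨ k = 9 := by
    have h9 : k ≤ 9 := by omega
    clear h7 hNC h hprime hm1 h3 h4 h5 np hnodd hmodd hk hkm hk2 hklt
    interval_cases k <;> first | omega | (exfalso; revert h6; decide)
  rcases h8 with rfl | rfl
  · exact ⟨rfl, rfl⟩
  · exact absurd (h 2 Nat.prime_two (by norm_num)) (by decide +kernel)

theorem main_c {k m : ℕ} (hk : 1 ≤ k) (hkm : k ≤ m) (hm : m.Prime) (hm5 : 5 ≤ m)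
    (h : ∀ p, p.Prime → p < m → ¬ p ∣ Nat.choose (m + k) k) : False := by
  have hNC : ∀ p i, p.Prime → p < m → NC k m (p ^ i) := fun p i hp hpm => nc_of_not_dvd hp (h p hp hpm) i
  have hmodd : m % 2 = 1 := by
    rcases hm.eq_two_or_odd with h | h <;> omega
  have hklt : k < m := by
    rcases Nat.lt_or_ge k m with h1 | h1
    · exact h1
    · exfalso
      have : k = m := by omega
      subst this
      apply h 2 Nat.prime_two (by omega)
      have h2 := Nat.two_dvd_centralBinom_of_one_le (n := k) (by omega)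
      rw [Nat.centralBinom_eq_two_mul_choose, two_mul] at h2
      exact h2
  have hprime : (m + k).Prime := by
    by_contra hn
    have h1 : m + k ∣ k := dvd_of_pp fun p i hp hd hi =>
      nc0 (hNC p i hp (by have := two_mul_le_of_not_prime (by omega) hn hp hd; omega)) hi
    have := Nat.le_of_dvd (by omega) h1
    omega
  have hnodd : (m + k) % 2 = 1 := by
    rcases hprime.eq_two_or_odd with h | h <;> omega
  rcases Nat.lt_or_ge (k + 1) m with h1 | h1
  · have h3 : k + 1 ∣ m := dvd_of_pp fun p i hp hd hi =>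
      nc2 (nc_comm (hNC p i hp (by have := Nat.le_of_dvd (by omega) hd; omega))) hi
    rcases (Nat.dvd_prime hm).1 h3 with h | h <;> omega
  · have hkm1 : m = k + 1 := by omega
    have h4 : m + k - 1 ∣ k * (k - 1) := dvd_of_pp fun p i hp hd hi =>
      nc1 (hNC p i hp (by
        have h5 : p ∣ 2 * k := by
          have : m + k - 1 = 2 * k := by omega
          rwa [this] at hd
        rcases (Nat.Prime.dvd_mul hp).1 h5 with h | h
        · have := Nat.le_of_dvd (by norm_num) h; omega
        · have := Nat.le_of_dvd (by omega) h; omega)) (by omega) hi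
    have e : m + k - 1 = k * 2 := by omega
    rw [e] at h4
    have h5 := Nat.dvd_of_mul_dvd_mul_left (by omega) h4
    omega

theorem main_d {k m : ℕ} (hk : 1 ≤ k) (hkm : k ≤ m) (hm : m = 7 ∨ m = 8)
    (h2 : ¬ 2 ∣ Nat.choose (m + k) k) (h3 : ¬ 3 ∣ Nat.choose (m + k) k) : False := by
  rcases hm with rfl | rfl <;> interval_cases k <;> revert h2 h3 <;> decide +kernel

/-- number of partitions into blocks -/
theorem factorial_mul (a b : ℕ) (ha : 1 ≤ a) : ∃ Q : ℕ, (a * b).factorial = a.factorial ^ b * b.factorial * Q ∧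
    ∀ i, 1 ≤ i → i ≤ b → Nat.choose (i * a - 1) (a - 1) ∣ Q := by
  induction b with
  | zero => exact ⟨1, by simp, fun i h1 h2 => by omega⟩
  | succ b ih =>
    obtain ⟨Q, hQ, hQ'⟩ := ih
    refine ⟨Q * Nat.choose ((b + 1) * a - 1) (a - 1), ?_, ?_⟩
    · have h1 := Nat.add_choose_mul_factorial_mul_factorial (a * b) a
      have h2 : (a * b + a).choose a = (b + 1) * Nat.choose ((b + 1) * a - 1) (a - 1) := by
        obtain ⟨c, rfl⟩ : ∃ c, a = c + 1 := ⟨a - 1, by omega⟩
        have h4 : (c + 1) * b + (c + 1) = ((b + 1) * (c + 1) - 1) + 1 := by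
          have : 0 < (b + 1) * (c + 1) := by positivity
          rw [Nat.sub_add_cancel this]; ring
        have h5 := Nat.add_one_mul_choose_eq ((b + 1) * (c + 1) - 1) c
        rw [← h4] at h5
        apply Nat.eq_of_mul_eq_mul_right (show 0 < c + 1 by omega)
        rw [← h5]
        simp only [Nat.add_sub_cancel]
        ring
      rw [h2, hQ] at h1
      rw [mul_add, mul_one, ← h1, Nat.factorial_succ, pow_succ]
      ring
    · intro i h1 h2
      rcases Nat.eq_or_lt_of_le h2 with h3 | h3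
      · rw [h3]; exact dvd_mul_left _ _
      · exact (hQ' i h1 (by omega)).mul_right _

theorem prime_mul_factorial_dvd {p a b : ℕ} (hp : p.Prime) (ha : 2 ≤ a) (hb : 1 ≤ b) (hpn : p ≤ a * b) :
    p * b.factorial ∣ (a * b).factorial := by
  obtain ⟨t, ht1, ht2, ht3⟩ : ∃ t, b < t ∧ t ≤ a * b ∧ p ∣ t := by
    have hab : 2 * b ≤ a * b := Nat.mul_le_mul_right b ha
    rcases Nat.lt_or_ge b p with h | h
    · exact ⟨p, h, hpn, dvd_rfl⟩
    · refine ⟨(b / p + 1) * p, ?_, ?_, dvd_mul_left _ _⟩
      · have := Nat.lt_div_mul_add hp.pos (a := b)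
        rw [add_mul, one_mul]; exact this
      · have := Nat.div_mul_le_self b p
        rw [add_mul, one_mul]; omega
  have h1 : t.factorial ∣ (a * b).factorial := Nat.factorial_dvd_factorial ht2
  refine dvd_trans ?_ h1
  obtain ⟨s, rfl⟩ : ∃ s, t = s + 1 := ⟨t - 1, by omega⟩
  rw [Nat.factorial_succ]
  exact mul_dvd_mul ht3 (Nat.factorial_dvd_factorial (by omega))

end Cfsg.Agent.Lib.HallSymNT
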