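import Cfsg.Prelude.Def_HallClasses
import Cfsg.Agent.Lib.HallPi
import Cfsg.Agent.Lib.RelSylow
import Cfsg.Agent.Lib.HallSymNT

/-!
Hall subgroups of symmetric and alternating groups (helper42).
-/

set_option autoImplicit false

namespace Cfsg.Agent.Lib.HallSym

open Cfsg Equiv MulAction Subgroup
open scoped Pointwise

theorem app_inv {β : Type*} (g : Perm β) (x : β) : g (g⁻¹ x) = x := g.apply_symm_apply x

theorem inv_app {β : Type*} (g : Perm β) (x : β) : g⁻¹ (g x) = x := g.symm_apply_apply x

section general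

variable {G : Type*} [Group G] [Finite G] {π : Set ℕ} {H M N T : Subgroup G}

theorem hall_mid (h : IsPiHallOf π H T) (h1 : H ≤ M) (h2 : M ≤ T) : IsPiHallOf π H M :=
  ⟨h1, h.2.1, fun p hp hpπ hd => h.2.2 p hp hpπ (by
    rw [← relIndex_mul_relIndex H M T h1 h2]; exact hd.mul_right _)⟩

theorem hall_inf (h : IsPiHallOf π H M) (hNM : N ≤ M) (hn : M ≤ normalizer (N : Set G)) :
    IsPiHallOf π (H ⊓ N) N := by
  refine ⟨inf_le_right, fun p hp hd => h.2.1 p hp (hd.trans (card_dvd_of_le inf_le_left)), fun p hp hpπ hd => h.2.2 p hp hpπ ?_⟩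
  rw [inf_relIndex_right, HallPi.relIndex_eq_relIndex_sup (h.1.trans hn)] at hd
  rw [← relIndex_mul_relIndex H (N ⊔ H) M le_sup_right (sup_le hNM h.1)]
  exact hd.mul_right _

/-- a `p`-subgroup is conjugate into a subgroup of index prime to `p` -/
theorem exists_conj_mem {p : ℕ} (hp : p.Prime) (V : Subgroup G) (hHT : H ≤ T) (hV : V ≤ T) (hVp : IsPGroup p V)
    (hidx : ¬ p ∣ H.relIndex T) : ∃ g ∈ T, ∀ v ∈ V, g⁻¹ * v * g ∈ H := by
  have hpf : Fact p.Prime := ⟨hp⟩
  obtain ⟨P, hP⟩ := RelSylow.exists_syl p H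
  have hPt : RelSylow.IsSyl p P T := by
    refine ⟨hP.1.trans hHT, hP.2.1, ?_⟩
    rw [← relIndex_mul_relIndex P H T hP.1 hHT]
    intro hd
    rcases hp.dvd_mul.mp hd with h | h
    · exact hP.2.2 h
    · exact hidx h
  obtain ⟨g, hg, hh⟩ := hPt.exists_conj_le hVp hV
  refine ⟨g, hg, fun v hv => hP.1 ?_⟩
  exact RelSylow.mem_conj_iff.1 (hh hv)

theorem eq_inf_of_le {K : Subgroup G} (h : IsPiHallOf π H T) (hK : H ≤ K)
    (hKπ : ∀ p : ℕ, p.Prime → p ∣ Nat.card (K ⊓ T : Subgroup G) → p ∈ π) : H = K ⊓ T := by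
  have h1 : H ≤ K ⊓ T := le_inf hK h.1
  have h2 : H.relIndex (K ⊓ T) = 1 := by
    by_contra hne
    obtain ⟨p, hp, hd⟩ := Nat.exists_prime_and_dvd hne
    refine h.2.2 p hp (hKπ p hp ?_) ?_
    · exact hd.trans (by rw [← SubgroupTools.card_mul_relIndex_of_le h1]; exact dvd_mul_left _ _)
    · rw [← relIndex_mul_relIndex H (K ⊓ T) T h1 inf_le_right]; exact hd.mul_right _
  exact le_antisymm h1 (relIndex_eq_one.1 h2)

end general

universe u

variable {α : Type u} [Fintype α] [DecidableEq α] {π : Set ℕ} {H T : Subgroup (Perm α)}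

/-- the index of an overgroup with an odd permutation -/
theorem index_dvd (hT : T = ⊤ ∨ T = alternatingGroup α) {K : Subgroup (Perm α)} (hHT : H ≤ T) (hHK : H ≤ K)
    (hodd : ∃ g ∈ K, Perm.sign g = -1) : K.index ∣ H.relIndex T := by
  rcases hT with rfl | rfl
  · rw [relIndex_top_right]
    exact index_dvd_of_le hHK
  · have h1 : K ⊔ alternatingGroup α = ⊤ := by
      obtain ⟨g, hg, hs⟩ := hodd
      rw [eq_top_iff]
      intro x _
      rcases Int.units_eq_one_or (Perm.sign x) with h | h
      · exact (le_sup_right : alternatingGroup α ≤ _) (Perm.mem_alternatingGroup.2 h)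
      · have h2 : g⁻¹ * x ∈ alternatingGroup α := by
          rw [Perm.mem_alternatingGroup, Perm.sign_mul, Perm.sign_inv, hs, h]; rfl
        have h3 : x = g * (g⁻¹ * x) := by group
        rw [h3]
        exact mul_mem ((le_sup_left : K ≤ _) hg) ((le_sup_right : alternatingGroup α ≤ _) h2)
    have h2 : K.index = K.relIndex (alternatingGroup α) := by
      rw [HallPi.relIndex_eq_relIndex_sup le_normalizer_of_normal, sup_comm, h1, relIndex_top_right]
    rw [h2]
    exact relIndex_dvd_of_le_left _ hHK

theorem not_dvd_index (hT : T = ⊤ ∨ T = alternatingGroup α) {K : Subgroup (Perm α)} (hH : IsPiHallOf π H T) (hHK : H ≤ K)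
    (hodd : ∃ g ∈ K, Perm.sign g = -1) {p : ℕ} (hp : p.Prime) (hpπ : p ∈ π) : ¬ p ∣ K.index :=
  fun h => hH.2.2 p hp hpπ (h.trans (index_dvd hT hH.1 hHK hodd))

/-! ### set stabilizers -/

/-- set stabilizer -/
def SS (s : Finset α) : Subgroup (Perm α) where
  carrier := {g | ∀ x, g x ∈ s ↔ x ∈ s}
  mul_mem' := fun {a b} ha hb x => (ha (b x)).trans (hb x)
  one_mem' := fun x => Iff.rfl
  inv_mem' := fun {a} ha x => by
    have := ha (a⁻¹ x)
    rw [app_inv] at this
    exact this.symm

theorem mem_SS {s : Finset α} {g : Perm α} : g ∈ SS s ↔ ∀ x, g x ∈ s ↔ x ∈ s := Iff.rfl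

theorem SS_compl (s : Finset α) : SS sᶜ = SS s := by
  ext g
  rw [mem_SS, mem_SS]
  refine forall_congr' fun x => ?_
  rw [Finset.mem_compl, Finset.mem_compl, not_iff_not]

theorem index_SS (s : Finset α) : (SS s).index = Nat.choose (Fintype.card α) s.card := by
  have h1 : Set.powersetCard.isPretransitive (α := α) (n := s.card) = Set.powersetCard.isPretransitive (α := α) (n := s.card) := rfl
  have : IsPretransitive (Perm α) (Set.powersetCard α s.card) := Set.powersetCard.isPretransitive
  let s' : Set.powersetCard α s.card := ⟨s, rfl⟩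
  have h2 : SS s = stabilizer (Perm α) s' := by
    ext g
    rw [mem_stabilizer_iff, ← Subtype.coe_inj, Set.powersetCard.coe_smul]
    constructor
    · intro h
      have h3 : g • s ⊆ s := by
        intro x hx
        rw [Finset.mem_smul_finset] at hx
        obtain ⟨y, hy, rfl⟩ := hx
        exact (h y).2 hy
      exact Finset.eq_of_subset_of_card_le h3 (by rw [Finset.card_smul_finset])
    · intro h x
      have h3 : g • s = s := h
      nth_rewrite 1 [← h3]
      exact Finset.smul_mem_smul_finset_iff g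
  rw [h2, index_stabilizer_of_transitive, Set.powersetCard.card, Nat.card_eq_fintype_card]

/-! ### partitions -/

/-- the stabilizer of an equivalence relation -/
def KK (r : Setoid α) : Subgroup (Perm α) where
  carrier := {g | ∀ x y, r (g x) (g y) ↔ r x y}
  mul_mem' := fun {a b} ha hb x y => (ha (b x) (b y)).trans (hb x y)
  one_mem' := fun x y => Iff.rfl
  inv_mem' := fun {a} ha x y => by
    have := ha (a⁻¹ x) (a⁻¹ y)
    rw [app_inv, app_inv] at this
    exact this.symm

theorem mem_KK {r : Setoid α} {g : Perm α} : g ∈ KK r ↔ ∀ x y, r (g x) (g y) ↔ r x y := Iff.rfl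

/-- the kernel -/
def NN (r : Setoid α) : Subgroup (Perm α) where
  carrier := {g | ∀ x, r (g x) x}
  mul_mem' := fun {a b} ha hb x => r.trans (ha (b x)) (hb x)
  one_mem' := fun x => r.refl x
  inv_mem' := fun {a} ha x => by
    have := ha (a⁻¹ x)
    rw [app_inv] at this
    exact r.symm this

theorem mem_NN {r : Setoid α} {g : Perm α} : g ∈ NN r ↔ ∀ x, r (g x) x := Iff.rfl

theorem NN_le_KK (r : Setoid α) : NN r ≤ KK r := by
  intro g hg x y
  exact ⟨fun h => r.trans (r.trans (r.symm (hg x)) h) (hg y), fun h => r.trans (r.trans (hg x) h) (r.symm (hg y))⟩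

/-- action on classes -/
def toQuot (r : Setoid α) : KK r →* Perm (Quotient r) where
  toFun g := Quotient.congr (g : Perm α) (fun x y => (g.2 x y).symm)
  map_one' := by
    ext x
    induction x using Quotient.inductionOn with
    | h x => rfl
  map_mul' a b := by
    ext x
    induction x using Quotient.inductionOn with
    | h x => rfl

theorem ker_toQuot (r : Setoid α) : (toQuot r).ker = (NN r).subgroupOf (KK r) := by
  ext g
  rw [MonoidHom.mem_ker, mem_subgroupOf]
  constructor
  · intro h x
    have h1 : toQuot r g (Quotient.mk r x) = Quotient.mk r x := by rw [h]; rfl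
    exact Quotient.exact h1
  · intro h
    ext x
    induction x using Quotient.inductionOn with
    | h x => exact Quotient.sound (h x)

theorem KK_le_normalizer (r : Setoid α) : KK r ≤ normalizer (NN r : Set (Perm α)) := by
  intro g hg
  rw [mem_normalizer_iff]
  intro x
  constructor
  · intro hx y
    have h1 := hx (g⁻¹ y)
    have h2 := (hg _ _).2 h1
    rw [app_inv] at h2
    exact h2
  · intro hx y
    have h1 := hx (g y)
    have h2 : r (g (x y)) (g y) := by
      have e : (g * x * g⁻¹) (g y) = g (x y) := by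
        rw [Perm.mul_apply, inv_app, Perm.mul_apply]
      rwa [e] at h1
    exact (hg _ _).1 h2

theorem card_KK_dvd (r : Setoid α) : Nat.card (KK r) ∣ Nat.card (NN r) * (Nat.card (Quotient r)).factorial := by
  have h1 := SubgroupTools.card_mul_relIndex_of_le (NN_le_KK r)
  rw [← h1]
  apply mul_dvd_mul_left
  unfold relIndex
  rw [← ker_toQuot, index_ker, ← Nat.card_perm]
  exact card_subgroup_dvd_card _

theorem card_NN (r : Setoid α) [DecidableRel r.r] {a : ℕ} (ha : ∀ x, (Finset.univ.filter (fun y => r y x)).card = a) :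
    Nat.card (NN r) = a.factorial ^ (Nat.card (Quotient r)) := by
  classical
  have h1 : Nat.card (NN r) = Nat.card {g : Perm α // (Quotient.mk r) ∘ g = Quotient.mk r} := by
    apply Nat.card_congr
    refine Equiv.subtypeEquivRight fun g => ?_
    rw [mem_NN, funext_iff]
    exact forall_congr' fun x => ⟨fun h => Quotient.sound h, fun h => Quotient.exact h⟩
  rw [h1, Nat.card_eq_fintype_card, DomMulAct.stabilizer_card, Finset.prod_congr rfl (g := fun _ => a.factorial)]
  · rw [Finset.prod_const, Finset.card_univ, Nat.card_eq_fintype_card]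
  · intro i _
    congr 1
    induction i using Quotient.inductionOn with
    | h x =>
      rw [← ha x, Fintype.card_subtype]
      congr 1
      ext y
      rw [Finset.mem_filter, Finset.mem_filter]
      exact and_congr_right fun _ => ⟨fun h => Quotient.exact h, fun h => Quotient.sound h⟩

theorem card_eq (r : Setoid α) [DecidableRel r.r] {a : ℕ} (ha : ∀ x, (Finset.univ.filter (fun y => r y x)).card = a) :
    Fintype.card α = a * Nat.card (Quotient r) := by
  classical
  rw [← Finset.card_univ, Finset.card_eq_sum_card_fiberwise (f := Quotient.mk r) (t := Finset.univ) (fun x _ => Finset.mem_univ _)]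
  rw [Finset.sum_congr rfl (g := fun _ => a)]
  · rw [Finset.sum_const, Finset.card_univ, Nat.card_eq_fintype_card, smul_eq_mul, mul_comm]
  · intro i _
    induction i using Quotient.inductionOn with
    | h x =>
      rw [← ha x]
      congr 1
      ext y
      rw [Finset.mem_filter, Finset.mem_filter]
      exact and_congr_right fun _ => ⟨fun h => Quotient.exact h, fun h => Quotient.sound h⟩

/-! ### alternating group on a subset -/

/-- even permutations supported in `s` -/
def AA (s : Finset α) : Subgroup (Perm α) where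
  carrier := {g | (∀ x, x ∉ s → g x = x) ∧ Perm.sign g = 1}
  mul_mem' := fun {a b} ha hb => ⟨fun x hx => by rw [Perm.mul_apply, hb.1 x hx, ha.1 x hx], by
    rw [Perm.sign_mul, ha.2, hb.2, one_mul]⟩
  one_mem' := ⟨fun x _ => rfl, Perm.sign_one⟩
  inv_mem' := fun {a} ha => ⟨fun x hx => by rw [Perm.inv_eq_iff_eq, ha.1 x hx], by
    rw [Perm.sign_inv, ha.2]⟩

theorem mem_AA {s : Finset α} {g : Perm α} : g ∈ AA s ↔ (∀ x, x ∉ s → g x = x) ∧ Perm.sign g = 1 := Iff.rfl

theorem AA_le (hT : T = ⊤ ∨ T = alternatingGroup α) (s : Finset α) : AA s ≤ T := by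
  rcases hT with rfl | rfl
  · exact le_top
  · intro g hg
    exact Perm.mem_alternatingGroup.2 hg.2

theorem SS_le_normalizer (s : Finset α) : SS s ≤ normalizer (AA s : Set (Perm α)) := by
  intro g hg
  rw [mem_normalizer_iff]
  intro x
  constructor
  · rintro ⟨h1, h2⟩
    refine ⟨fun y hy => ?_, ?_⟩
    · have h3 : g⁻¹ y ∉ s := by
        intro h; apply hy
        have := (hg (g⁻¹ y)).2 h
        rwa [app_inv] at this
      rw [Perm.mul_apply, Perm.mul_apply, h1 _ h3, app_inv]
    · rw [Perm.sign_mul, Perm.sign_mul, h2, Perm.sign_inv, mul_one]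
      exact Int.units_mul_self _
  · rintro ⟨h1, h2⟩
    refine ⟨fun y hy => ?_, ?_⟩
    · have h3 : g y ∉ s := fun h => hy ((hg y).1 h)
      have h4 := h1 _ h3
      rw [Perm.mul_apply, inv_app, Perm.mul_apply] at h4
      exact g.injective h4
    · rw [Perm.sign_mul, Perm.sign_mul, Perm.sign_inv, mul_comm, ← mul_assoc, Int.units_mul_self, one_mul] at h2
      exact h2

theorem descend {s : Finset α} (h : IsPiHallOf π (H ⊓ AA s) (AA s)) :
    ∃ H' : Subgroup (Perm {x // x ∈ s}), IsPiHallOf π H' (alternatingGroup {x // x ∈ s}) := by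
  classical
  have hinj := Perm.ofSubtype_injective (p := fun x => x ∈ s)
  have h1 : (alternatingGroup {x // x ∈ s}).map (Perm.ofSubtype (p := fun x => x ∈ s)) = AA s := by
    ext g
    rw [mem_map]
    constructor
    · rintro ⟨f, hf, rfl⟩
      refine ⟨fun x hx => Perm.ofSubtype_apply_of_not_mem f hx, ?_⟩
      rw [Perm.sign_ofSubtype]
      exact Perm.mem_alternatingGroup.1 hf
    · rintro ⟨h1, h2⟩
      have h3 : ∀ x, x ∈ s ↔ g x ∈ s := by
        intro x
        constructor
        · intro hx
          by_contra hn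
          have := h1 _ hn
          have := g.injective this
          rw [this] at hn
          exact hn hx
        · intro hx
          by_contra hn
          rw [h1 _ hn] at hx
          exact hn hx
      have h4 : Perm.ofSubtype (g.subtypePerm (fun x => (h3 x).symm)) = g :=
        Perm.ofSubtype_subtypePerm _ (fun x hx => by by_contra hn; exact hx (h1 x hn))
      refine ⟨g.subtypePerm (fun x => (h3 x).symm), ?_, h4⟩
      rw [Perm.mem_alternatingGroup, ← Perm.sign_ofSubtype, h4, h2]
  refine ⟨(H ⊓ AA s).comap Perm.ofSubtype, ?_⟩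
  have h2 : ((H ⊓ AA s).comap (Perm.ofSubtype (p := fun x => x ∈ s))).map Perm.ofSubtype = H ⊓ AA s := by
    rw [map_comap_eq, inf_eq_right]
    refine inf_le_right.trans ?_
    rw [← h1]
    exact map_le_range _ _
  have h3 : (H ⊓ AA s).comap (Perm.ofSubtype (p := fun x => x ∈ s)) ≤ alternatingGroup {x // x ∈ s} := by
    rw [← map_le_map_iff_of_injective hinj, h2, h1]
    exact inf_le_right
  refine ⟨h3, fun p hp hd => h.2.1 p hp ?_, fun p hp hpπ hd => h.2.2 p hp hpπ ?_⟩
  · rw [← h2, card_map_of_injective hinj]; exact hd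
  · rw [← h2, ← h1, relIndex_map_map_of_injective _ _ hinj, h1]; exact hd

end Cfsg.Agent.Lib.HallSym
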