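import Cfsg.Agent.Lib.HallSym

/-!
Hall subgroups of symmetric and alternating groups, part 2: the structure theorem (helper42).
-/

set_option autoImplicit false

namespace Cfsg.Agent.Lib.HallSym

open Cfsg Equiv MulAction Subgroup
open scoped Pointwise

universe u

variable {α : Type u} [Fintype α] [DecidableEq α] {π : Set ℕ} {H T : Subgroup (Perm α)}

theorem exists_cycle' {q : ℕ} (hq : 2 ≤ q) (hqn : q ≤ Fintype.card α) :
    ∃ g : Perm α, g.IsCycle ∧ g.support.card = q := by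
  obtain ⟨g, hg⟩ := (Equiv.Perm.exists_with_cycleType_iff α (m := {q})).mpr
    ⟨by simpa using hqn, by simpa using hq⟩
  refine ⟨g, ?_, ?_⟩
  · rw [← Equiv.Perm.card_cycleType_eq_one, hg]; rfl
  · rw [← Equiv.Perm.sum_cycleType, hg]; simp

theorem exists_cycle_mem' {q : ℕ} (hq : q.Prime) (hqn : q ≤ Fintype.card α) (hH : ¬ q ∣ H.index) :
    ∃ g ∈ H, g.IsCycle ∧ g.support.card = q := by
  have : Fact q.Prime := ⟨hq⟩
  obtain ⟨σ, hσ, hσc⟩ := exists_cycle' hq.two_le hqn
  have ho : orderOf σ = q := by rw [hσ.orderOf, hσc]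
  have hz : IsPGroup q (Subgroup.zpowers σ) := by
    apply IsPGroup.of_card (n := 1)
    rw [Nat.card_zpowers, ho, pow_one]
  obtain ⟨g, _, hg⟩ := exists_conj_mem (H := H) (T := ⊤) hq (zpowers σ) le_top le_top hz (by
    rwa [relIndex_top_right])
  refine ⟨_, hg σ (mem_zpowers σ), ?_, ?_⟩
  · have := hσ.conj (g := g⁻¹)
    rwa [inv_inv] at this
  · rw [← hσc]
    have := Equiv.Perm.card_support_conj (σ := g⁻¹) (τ := σ)
    rwa [inv_inv] at this

theorem not_dvd_index' (hT : T = ⊤ ∨ T = alternatingGroup α) (hH : IsPiHallOf π H T) {p : ℕ} (hp : p.Prime)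
    (hpπ : p ∈ π) (hp2 : p ≠ 2) : ¬ p ∣ H.index := by
  rw [← relIndex_mul_index hH.1]
  intro h
  rcases hp.dvd_mul.1 h with h | h
  · exact hH.2.2 p hp hpπ h
  · rcases hT with rfl | rfl
    · rw [index_top] at h
      exact hp.one_lt.ne' (Nat.dvd_one.1 h)
    · rcases subsingleton_or_nontrivial α with hs | hs
      · have h1 : alternatingGroup α = ⊤ := by
          rw [eq_top_iff]; intro x _
          have : x = 1 := Subsingleton.elim _ _
          rw [this]; exact one_mem _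
        rw [h1, index_top] at h
        exact hp.one_lt.ne' (Nat.dvd_one.1 h)
      · rw [alternatingGroup.index_eq_two] at h
        exact hp2 ((Nat.prime_dvd_prime_iff_eq hp Nat.prime_two).1 h)

theorem prime_dvd_of_alternating_le' {r : ℕ} (hn : 4 ≤ Fintype.card α) (hr : r.Prime) (hrn : r ≤ Fintype.card α)
    (hH : alternatingGroup α ≤ H) : r ∣ Nat.card H := by
  refine dvd_trans ?_ (Subgroup.card_dvd_of_le hH)
  have hnt : Nontrivial α := Fintype.one_lt_card_iff_nontrivial.1 (by omega)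
  have h1 : 2 * Nat.card (alternatingGroup α) = (Fintype.card α).factorial := by
    rw [two_mul_nat_card_alternatingGroup, Nat.card_eq_fintype_card, Fintype.card_perm]
  by_cases hr2 : r = 2
  · subst hr2
    have h2 : 4 ∣ (Fintype.card α).factorial := Nat.dvd_factorial (by norm_num) hn
    rw [← h1] at h2
    omega
  · have h2 : r ∣ 2 * Nat.card (alternatingGroup α) := by
      rw [h1]; exact Nat.dvd_factorial hr.pos hrn
    rcases hr.dvd_mul.mp h2 with h | h
    · exact absurd ((Nat.prime_dvd_prime_iff_eq hr Nat.prime_two).mp h) hr2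
    · exact h

theorem dvd_orderOf {p : ℕ} (hp : p.Prime) {z : Perm α} {a : α} (h1 : (z ^ p) a = a) (h2 : z a ≠ a) : p ∣ orderOf z := by
  by_contra hn
  have hcop : Nat.Coprime p (orderOf z) := (Nat.Prime.coprime_iff_not_dvd hp).2 hn
  have h3 : (z ^ (orderOf z)) a = a := by rw [pow_orderOf_eq_one]; rfl
  have h4 : Function.IsPeriodicPt z p a := by
    show z^[p] a = a
    rwa [← Perm.coe_pow]
  have h5 : Function.IsPeriodicPt z (orderOf z) a := by
    show z^[orderOf z] a = a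
    rwa [← Perm.coe_pow]
  have h6 := h4.gcd h5
  rw [hcop] at h6
  exact h2 h6

/-! ### the Klein group -/

/-- the regular Klein four group -/
def V4 : Subgroup (Perm (Fin 4)) where
  carrier := {g | g * g = 1 ∧ (g = 1 ∨ ∀ x, g x ≠ x)}
  mul_mem' := by
    have : ∀ a b : Perm (Fin 4), (a * a = 1 ∧ (a = 1 ∨ ∀ x, a x ≠ x)) → (b * b = 1 ∧ (b = 1 ∨ ∀ x, b x ≠ x)) →
      ((a * b) * (a * b) = 1 ∧ (a * b = 1 ∨ ∀ x, (a * b) x ≠ x)) := by decide +kernel
    exact fun {a b} ha hb => this a b ha hb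
  one_mem' := ⟨one_mul 1, Or.inl rfl⟩
  inv_mem' := by
    intro a ha
    have : a⁻¹ = a := inv_eq_of_mul_eq_one_left ha.1
    rw [this]; exact ha

theorem mem_V4 {g : Perm (Fin 4)} : g ∈ V4 ↔ g * g = 1 ∧ (g = 1 ∨ ∀ x, g x ≠ x) := Iff.rfl

theorem V4_sq : ∀ g : Perm (Fin 4), g * g = 1 ∧ (g = 1 ∨ ∀ x, g x ≠ x) → ∃ w, g = w * w := by decide +kernel

theorem V4_swap : ∀ i j : Fin 4, ∃ g : Perm (Fin 4), (g * g = 1 ∧ (g = 1 ∨ ∀ x, g x ≠ x)) ∧ g i = j ∧ g j = i := by
  decide +kernel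

theorem klein_false (hT : T = ⊤ ∨ T = alternatingGroup α) (hH : IsPiHallOf π H T) (hn : 5 ≤ Fintype.card α)
    (hprim : IsPreprimitive H α) (h2 : 2 ∈ π) (h3 : 3 ∉ π) : False := by
  obtain ⟨e⟩ : Nonempty (Fin 4 ↪ α) := by
    rw [Function.Embedding.nonempty_iff_card_le, Fintype.card_fin]; omega
  have hsq : ∀ v ∈ V4.map (Perm.viaEmbeddingHom e), Perm.sign v = 1 ∧ v * v = 1 := by
    rintro _ ⟨v, hv, rfl⟩
    constructor
    · obtain ⟨w, rfl⟩ := V4_sq v hv
      rw [map_mul, Perm.sign_mul]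
      exact Int.units_mul_self _
    · rw [← map_mul, hv.1, map_one]
  obtain ⟨g, hgT, hg⟩ := exists_conj_mem (H := H) (T := T) Nat.prime_two (V4.map (Perm.viaEmbeddingHom e)) hH.1 (by
      rcases hT with rfl | rfl
      · exact le_top
      · intro v hv
        exact Perm.mem_alternatingGroup.2 (hsq v hv).1) (by
      rintro ⟨v, hv⟩
      refine ⟨1, ?_⟩
      apply Subtype.ext
      show v ^ (2 ^ 1) = 1
      rw [pow_one, pow_two]
      exact (hsq v hv).2) (hH.2.2 2 Nat.prime_two h2)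
  set Q : Set α := Set.range (fun i => g⁻¹ (e i)) with hQ
  have hswap : ∀ u ∈ Q, ∀ v ∈ Q, ∃ x ∈ H, x u = v ∧ x v = u ∧ ∀ w, w ∉ Q → x w = w := by
    rintro _ ⟨i, rfl⟩ _ ⟨j, rfl⟩
    obtain ⟨y, hy, hij, hji⟩ := V4_swap i j
    refine ⟨g⁻¹ * Perm.viaEmbeddingHom e y * g, hg _ ⟨y, hy, rfl⟩, ?_, ?_, ?_⟩
    · show g⁻¹ ((Perm.viaEmbedding y e) (g (g⁻¹ (e i)))) = g⁻¹ (e j)
      rw [app_inv, Perm.viaEmbedding_apply, hij]
    · show g⁻¹ ((Perm.viaEmbedding y e) (g (g⁻¹ (e j)))) = g⁻¹ (e i)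
      rw [app_inv, Perm.viaEmbedding_apply, hji]
    · intro w hw
      show g⁻¹ ((Perm.viaEmbedding y e) (g w)) = w
      rw [Perm.viaEmbedding_apply_of_notMem, inv_app]
      rintro ⟨i, hi⟩
      apply hw
      exact ⟨i, by show g⁻¹ (e i) = w; rw [hi, inv_app]⟩
  have hswap' : ∀ h : H, ∀ u ∈ h • Q, ∀ v ∈ h • Q, ∃ x ∈ H, x u = v ∧ x v = u ∧ ∀ w, w ∉ h • Q → x w = w := by
    rintro h _ ⟨u, hu, rfl⟩ _ ⟨v, hv, rfl⟩
    obtain ⟨x, hx, h1, h2, h4⟩ := hswap u hu v hv
    refine ⟨h * x * h⁻¹, mul_mem (mul_mem h.2 hx) (inv_mem h.2), ?_, ?_, ?_⟩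
    · show (h : Perm α) (x ((h : Perm α)⁻¹ ((h : Perm α) u))) = (h : Perm α) v
      rw [inv_app, h1]
    · show (h : Perm α) (x ((h : Perm α)⁻¹ ((h : Perm α) v))) = (h : Perm α) u
      rw [inv_app, h2]
    · intro w hw
      show (h : Perm α) (x ((h : Perm α)⁻¹ w)) = w
      rw [h4, app_inv]
      intro hc
      apply hw
      exact ⟨_, hc, app_inv _ _⟩
  have hinj : Function.Injective (fun i => g⁻¹ (e i)) := fun i j hij => e.injective (g⁻¹.injective hij)
  have hcard : Q.ncard = 4 := by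
    rw [hQ, ← Set.image_univ, Set.ncard_image_of_injective _ hinj, Set.ncard_univ, Nat.card_fin]
  have hblock : IsBlock H Q := by
    rw [isBlock_iff_smul_eq_or_disjoint]
    intro h
    by_contra hc
    rw [not_or, Set.not_disjoint_iff] at hc
    obtain ⟨hne, v, hv1, hv2⟩ := hc
    have hc1 : (h • Q).ncard = 4 := by rw [Set.ncard_smul_set, hcard]
    obtain ⟨u, huQ, hu⟩ : ∃ u ∈ Q, u ∉ h • Q := by
      by_contra hcon
      push Not at hcon
      exact hne (Set.eq_of_subset_of_ncard_le hcon (by rw [hc1, hcard]) (Set.toFinite _)).symm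
    obtain ⟨w, hwQ, hw⟩ : ∃ w ∈ h • Q, w ∉ Q := by
      by_contra hcon
      push Not at hcon
      exact hne (Set.eq_of_subset_of_ncard_le hcon (by rw [hc1, hcard]) (Set.toFinite _))
    obtain ⟨x, hx, hx1, hx2, hx3⟩ := hswap u huQ v hv2
    obtain ⟨y, hy, hy1, hy2, hy3⟩ := hswap' h v hv1 w hwQ
    have e1 : (x * y) w = u := by rw [Perm.mul_apply, hy2, hx2]
    have e2 : (x * y) u = v := by rw [Perm.mul_apply, hy3 u hu, hx1]
    have e3 : (x * y) v = w := by rw [Perm.mul_apply, hy1, hx3 w hw]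
    have h5 : 3 ∣ orderOf (x * y) := by
      apply dvd_orderOf Nat.prime_three (a := w)
      · rw [pow_succ, pow_two, Perm.mul_apply, Perm.mul_apply, e1, e2, e3]
      · rw [e1]; rintro rfl; exact hw huQ
    have h6 : orderOf (x * y) ∣ Nat.card H := by
      have := orderOf_dvd_natCard (⟨x * y, mul_mem hx hy⟩ : H)
      rwa [orderOf_mk] at this
    exact h3 (hH.2.1 3 Nat.prime_three (h5.trans h6))
  rcases hprim.isTrivialBlock_of_isBlock hblock with h | h
  · have := Set.ncard_le_one_iff_subsingleton.2 h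
    omega
  · rw [h, Set.ncard_univ, Nat.card_eq_fintype_card] at hcard
    omega

theorem primitive_false (hT : T = ⊤ ∨ T = alternatingGroup α) (hH : IsPiHallOf π H T)
    (h2 : ∃ r s : ℕ, r.Prime ∧ s.Prime ∧ r ≠ s ∧ r ∈ π ∧ s ∈ π ∧ r ≤ Fintype.card α ∧ s ≤ Fintype.card α)
    (hns : ∃ r : ℕ, r.Prime ∧ r ≤ Fintype.card α ∧ r ∉ π) (hprim : IsPreprimitive H α) : False := by
  have hn5 : 5 ≤ Fintype.card α := by
    obtain ⟨r, s, hr, hs, hrs, hrπ, hsπ, hrn, hsn⟩ := h2
    obtain ⟨t, ht, htn, htπ⟩ := hns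
    by_contra hlt
    have htr : t ≠ r := by rintro rfl; exact htπ hrπ
    have hts : t ≠ s := by rintro rfl; exact htπ hsπ
    have key : ∀ p : ℕ, p.Prime → p ≤ Fintype.card α → p = 2 ∨ p = 3 := by
      intro p hp hpn
      have : p ≤ 4 := by omega
      interval_cases p
      · exact absurd hp (by decide)
      · exact absurd hp (by decide)
      · left; rfl
      · right; rfl
      · exact absurd hp (by decide)
    rcases key r hr hrn with h1 | h1 <;> rcases key s hs hsn with h2 | h2 <;> rcases key t ht htn with h3 | h3 <;> omega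
  by_cases hπ2 : 2 ∈ π
  · by_cases hπ3 : 3 ∈ π
    · obtain ⟨g, hg, hgc, hgs⟩ := exists_cycle_mem' Nat.prime_three (by omega) (not_dvd_index' hT hH Nat.prime_three hπ3 (by norm_num))
      have hle := Perm.alternatingGroup_le_of_isPreprimitive_of_isThreeCycle_mem hprim
        (card_support_eq_three_iff.1 hgs) hg
      obtain ⟨r, hr, hrn, hrπ⟩ := hns
      exact hrπ (hH.2.1 r hr (prime_dvd_of_alternating_le' (by omega) hr hrn hle))
    · exact klein_false hT hH hn5 hprim hπ2 hπ3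
  · obtain ⟨p, hp, hpπ, hpn⟩ : ∃ p : ℕ, p.Prime ∧ p ∈ π ∧ p < Fintype.card α := by
      obtain ⟨r, s, hr, hs, hrs, hrπ, hsπ, hrn, hsn⟩ := h2
      rcases Nat.lt_or_gt_of_ne hrs with h | h
      · exact ⟨r, hr, hrπ, by omega⟩
      · exact ⟨s, hs, hsπ, by omega⟩
    obtain ⟨g, hg, hgc, hgs⟩ := exists_cycle_mem' hp hpn.le (not_dvd_index' hT hH hp hpπ (by rintro rfl; exact hπ2 hpπ))
    have h4 := hprim.is_two_pretransitive (s := (g.support : Set α)ᶜ) (n := Fintype.card α - p - 1) (by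
      rw [Set.ncard_compl, Set.ncard_coe_finset, hgs, Nat.card_eq_fintype_card]
      omega) (by rw [Nat.card_eq_fintype_card]; have := hp.two_le; omega) (Perm.isPretransitive_of_isCycle_mem hgc hg)
    rw [is_two_pretransitive_iff] at h4
    obtain ⟨a, b, hab⟩ := Fintype.exists_pair_of_one_lt_card (α := α) (by omega)
    obtain ⟨z, hz1, hz2⟩ := h4 hab hab.symm
    have e1 : (z : Perm α) a = b := hz1
    have e2 : (z : Perm α) b = a := hz2
    have h5 : 2 ∣ orderOf (z : Perm α) := by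
      apply dvd_orderOf Nat.prime_two (a := a)
      · rw [pow_two, Perm.mul_apply, e1, e2]
      · rw [e1]; exact hab.symm
    have h6 : orderOf (z : Perm α) ∣ Nat.card H := by
      rw [orderOf_coe]; exact orderOf_dvd_natCard z
    exact hπ2 (hH.2.1 2 Nat.prime_two (h5.trans h6))

end Cfsg.Agent.Lib.HallSym
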