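import Cfsg.Agent.Lib.HallSym2

/-!
Hall subgroups of symmetric and alternating groups, part 3: the structure theorem (helper42).
-/

set_option autoImplicit false

namespace Cfsg.Agent.Lib.HallSym

open Cfsg Equiv MulAction Subgroup
open Cfsg.Agent.Lib.HallSymNT
open scoped Pointwise

universe u

variable {α : Type u} [Fintype α] [DecidableEq α] {π : Set ℕ} {H T : Subgroup (Perm α)}

/-- all classes have `a` elements -/
def Unif (r : Setoid α) (a : ℕ) : Prop := ∀ x, Set.ncard {y | r y x} = a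

theorem Unif.card_NN {r : Setoid α} {a : ℕ} (h : Unif r a) : Nat.card (NN r) = a.factorial ^ (Nat.card (Quotient r)) := by
  classical
  refine HallSym.card_NN r (fun x => ?_)
  rw [← h x, Set.ncard_eq_toFinset_card']
  congr 1
  ext y; simp

theorem Unif.card_eq {r : Setoid α} {a : ℕ} (h : Unif r a) : Fintype.card α = a * Nat.card (Quotient r) := by
  classical
  refine HallSym.card_eq r (fun x => ?_)
  rw [← h x, Set.ncard_eq_toFinset_card']
  congr 1
  ext y; simp

theorem trichotomy (H : Subgroup (Perm α)) (hn : 1 ≤ Fintype.card α) :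
    (∃ s : Finset α, 1 ≤ s.card ∧ 2 * s.card ≤ Fintype.card α ∧ H ≤ SS s) ∨
    (∃ (r : Setoid α) (a : ℕ), 2 ≤ a ∧ 2 ≤ Nat.card (Quotient r) ∧ Unif r a ∧ H ≤ KK r) ∨ IsPreprimitive H α := by
  classical
  by_cases htr : IsPretransitive H α
  · right
    by_cases hp : IsPreprimitive H α
    · right; exact hp
    left
    obtain ⟨B, hB, hBt⟩ : ∃ B : Set α, IsBlock H B ∧ ¬ IsTrivialBlock B := by
      by_contra hcon
      push Not at hcon
      exact hp { toIsPretransitive := htr, isTrivialBlock_of_isBlock := fun {B} hB => hcon B hB }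
    unfold IsTrivialBlock at hBt
    push Not at hBt
    obtain ⟨hB1, hB2⟩ := hBt
    have hBne : B.Nonempty := hB1.nonempty
    obtain ⟨x₀, hx₀⟩ := hBne
    let r : Setoid α :=
      { r := fun x y => ∀ g : H, x ∈ g • B ↔ y ∈ g • B
        iseqv := ⟨fun x g => Iff.rfl, fun h g => (h g).symm, fun h h' g => (h g).trans (h' g)⟩ }
    have hr : ∀ x y, r x y ↔ ∀ g : H, x ∈ g • B ↔ y ∈ g • B := fun x y => Iff.rfl
    have hcls : ∀ (g : H) (x : α), x ∈ g • B → {y | r y x} = g • B := by
      intro g x hx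
      ext y
      rw [Set.mem_setOf_eq, hr]
      constructor
      · intro h; exact (h g).2 hx
      · intro hy g'
        constructor
        · intro hy'
          have : g' • B = g • B := by
            by_contra hne
            exact Set.disjoint_left.1 (hB hne) hy' hy
          rw [this]; exact hx
        · intro hx'
          have : g' • B = g • B := by
            by_contra hne
            exact Set.disjoint_left.1 (hB hne) hx' hx
          rw [this]; exact hy
    have hex : ∀ x, ∃ g : H, x ∈ g • B := by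
      intro x
      obtain ⟨g, hg⟩ := exists_smul_eq H x₀ x
      exact ⟨g, by rw [← hg]; exact Set.smul_mem_smul_set hx₀⟩
    refine ⟨r, B.ncard, ?_, ?_, ?_, ?_⟩
    · have := Set.one_lt_ncard_iff_nontrivial (s := B)
      exact this.2 hB1
    · obtain ⟨y, hy⟩ : ∃ y, y ∉ B := by
        by_contra hcon
        push Not at hcon
        exact hB2 (Set.eq_univ_of_forall hcon)
      have : Nontrivial (Quotient r) := by
        refine ⟨⟨Quotient.mk r x₀, Quotient.mk r y, fun h => ?_⟩⟩
        have h1 : r x₀ y := Quotient.exact h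
        have h2 := (h1 1).1 (by rw [one_smul]; exact hx₀)
        rw [one_smul] at h2
        exact hy h2
      exact Finite.one_lt_card
    · intro x
      obtain ⟨g, hg⟩ := hex x
      rw [hcls g x hg, Set.ncard_smul_set]
    · intro h hh x y
      rw [hr, hr]
      constructor
      · intro hxy g
        have h1 := hxy (⟨h, hh⟩ * g)
        rw [mul_smul] at h1
        have e : ∀ z, h z ∈ (⟨h, hh⟩ : H) • g • B ↔ z ∈ g • B := fun z =>
          Set.smul_mem_smul_set_iff (a := (⟨h, hh⟩ : H)) (x := z)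
        rwa [e, e] at h1
      · intro hxy g
        have h1 := hxy ((⟨h, hh⟩ : H)⁻¹ * g)
        rw [mul_smul] at h1
        have e : ∀ z, z ∈ (⟨h, hh⟩ : H)⁻¹ • g • B ↔ h z ∈ g • B := fun z =>
          Set.mem_inv_smul_set_iff (a := (⟨h, hh⟩ : H)) (x := z)
        rwa [e, e] at h1
  · left
    have hx : ∃ x y : α, y ∉ orbit H x := by
      by_contra hcon
      push Not at hcon
      apply htr
      exact ⟨fun x y => by
        obtain ⟨g, hg⟩ := hcon x y
        exact ⟨g, hg⟩⟩
    obtain ⟨x, y, hxy⟩ := hx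
    have hinv : ∀ h ∈ H, ∀ z, h z ∈ orbit H x ↔ z ∈ orbit H x := by
      intro h hh z
      constructor
      · rintro ⟨g, hg⟩
        refine ⟨(⟨h, hh⟩ : H)⁻¹ * g, ?_⟩
        show ((⟨h, hh⟩ : H)⁻¹ * g) • x = z
        rw [mul_smul, inv_smul_eq_iff]
        exact hg
      · rintro ⟨g, hg⟩
        refine ⟨(⟨h, hh⟩ : H) * g, ?_⟩
        show ((⟨h, hh⟩ : H) * g) • x = h z
        rw [mul_smul]
        show h (g • x) = h z
        congr 1
    set s : Finset α := (orbit H x).toFinset with hs
    have hHs : H ≤ SS s := by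
      intro h hh z
      rw [hs, Set.mem_toFinset, Set.mem_toFinset]
      exact hinv h hh z
    have h1 : 1 ≤ s.card := Finset.card_pos.2 ⟨x, by rw [hs, Set.mem_toFinset]; exact mem_orbit_self x⟩
    have h2 : 1 ≤ sᶜ.card := Finset.card_pos.2 ⟨y, by rw [Finset.mem_compl, hs, Set.mem_toFinset]; exact hxy⟩
    have h3 := Finset.card_add_card_compl s
    rcases Nat.lt_or_ge (Fintype.card α) (2 * s.card) with h | h
    · exact ⟨sᶜ, h2, by omega, by rw [SS_compl]; exact hHs⟩
    · exact ⟨s, h1, h, hHs⟩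

theorem swap_mem_NN {r : Setoid α} {x y : α} (h : r x y) : swap x y ∈ NN r := by
  intro z
  rcases eq_or_ne z x with rfl | hx
  · rw [swap_apply_left]; exact r.symm h
  rcases eq_or_ne z y with rfl | hy
  · rw [swap_apply_right]; exact h
  · rw [swap_apply_of_ne_of_ne hx hy]

theorem swap_mem_SS {s : Finset α} {x y : α} (h : x ∈ s ↔ y ∈ s) : swap x y ∈ SS s := by
  intro z
  rcases eq_or_ne z x with rfl | hx
  · rw [swap_apply_left]; exact h.symm
  rcases eq_or_ne z y with rfl | hy
  · rw [swap_apply_right]; exact h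
  · rw [swap_apply_of_ne_of_ne hx hy]

theorem AA_le_SS (s : Finset α) : AA s ≤ SS s := by
  intro g hg x
  constructor
  · intro h
    by_contra hn
    rw [hg.1 x hn] at h; exact hn h
  · intro h
    by_contra hn
    have h1 := hg.1 _ hn
    have h2 := g.injective h1
    rw [h2] at hn; exact hn h

theorem card_SS (s : Finset α) : Nat.card (SS s) = s.card.factorial * (Fintype.card α - s.card).factorial := by
  have h1 := (SS s).card_mul_index
  rw [index_SS, Nat.card_eq_fintype_card (α := Perm α), Fintype.card_perm] at h1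
  have h2 := Nat.choose_mul_factorial_mul_factorial (Finset.card_le_univ s)
  have h3 : 0 < (Fintype.card α).choose s.card := Nat.choose_pos (Finset.card_le_univ s)
  apply Nat.eq_of_mul_eq_mul_right h3
  rw [h1, ← h2]; ring

theorem structural (n : ℕ) : ∀ (α : Type u) [Fintype α] [DecidableEq α] (T H : Subgroup (Perm α)), Fintype.card α = n →
    (T = ⊤ ∨ T = alternatingGroup α) → IsPiHallOf π H T →
    (∃ r s : ℕ, r.Prime ∧ s.Prime ∧ r ≠ s ∧ r ∈ π ∧ s ∈ π ∧ r ≤ n ∧ s ≤ n) → (∃ r : ℕ, r.Prime ∧ r ≤ n ∧ r ∉ π) →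
    (n.Prime ∧ (∀ r : ℕ, r.Prime → r ≤ n → (r ∈ π ↔ r < n)) ∧ ∃ s : Finset α, s.card = 1 ∧ H = SS s ⊓ T) ∨
    (n = 7 ∧ (∀ r : ℕ, r.Prime → r ≤ n → (r ∈ π ↔ (r = 2 ∨ r = 3))) ∧ ∃ s : Finset α, s.card = 3 ∧ H = SS s ⊓ T) ∨
    (n = 8 ∧ (∀ r : ℕ, r.Prime → r ≤ n → (r ∈ π ↔ (r = 2 ∨ r = 3))) ∧
      ∃ r : Setoid α, Nat.card (Quotient r) = 2 ∧ Unif r 4 ∧ H = KK r ⊓ T) := by
  induction n using Nat.strong_induction_on with
  | _ n ih =>
  intro α _ _ T H hα hT hH h2 hns
  have h2' := h2
  obtain ⟨p₁, p₂, hp₁, hp₂, hp₁₂, hp₁π, hp₂π, hp₁n, hp₂n⟩ := h2'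
  have small : ∀ p, p.Prime → p ≤ 4 → p = 2 ∨ p = 3 := by
    intro p hp hp4
    interval_cases p
    · exact absurd hp (by decide)
    · exact absurd hp (by decide)
    · left; rfl
    · right; rfl
    · exact absurd hp (by decide)
  have hn3 : 3 ≤ n := by
    have := hp₁.two_le
    have := hp₂.two_le
    omega
  rcases trichotomy H (by omega) with ⟨s, hs1, hs2, hHs⟩ | ⟨r, a, ha, hb, hr, hHr⟩ | hprim
  · -- intransitive
    obtain ⟨m, hm⟩ : ∃ m, m + s.card = n := ⟨n - s.card, by omega⟩
    have hsc : sᶜ.card = m := by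
      have := Finset.card_add_card_compl s; omega
    have hkm : s.card ≤ m := by omega
    have hodd : ∃ g ∈ SS s, Perm.sign g = -1 := by
      obtain ⟨x, hx, y, hy, hxy⟩ := Finset.one_lt_card.1 (show 1 < sᶜ.card by omega)
      rw [Finset.mem_compl] at hx hy
      exact ⟨swap x y, swap_mem_SS (by simp [hx, hy]), Perm.sign_swap hxy⟩
    have hnd : ∀ p, p.Prime → p ∈ π → ¬ p ∣ Nat.choose (m + s.card) s.card := by
      intro p hp hpπ
      have := not_dvd_index hT hH hHs hodd hp hpπ
      rwa [index_SS, hα, ← hm] at this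
    have hle : ∀ p, p.Prime → p ∈ π → p ≤ n → p ≤ m := by
      intro p hp hpπ hpn
      by_contra hlt
      exact hnd p hp hpπ (Nat.Prime.dvd_choose hp (by omega) (by omega) (by omega))
    have hcardSS : Nat.card (SS s) = s.card.factorial * m.factorial := by
      rw [card_SS, hα, ← hm, Nat.add_sub_cancel]
    have hHM := hall_mid hH (M := SS s ⊓ T) (le_inf hHs hH.1) inf_le_right
    have hAM : AA sᶜ ≤ SS s ⊓ T := le_inf (by rw [← SS_compl]; exact AA_le_SS _) (AA_le hT _)
    have hnorm : SS s ⊓ T ≤ normalizer (AA sᶜ : Set (Perm α)) := by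
      refine inf_le_left.trans ?_
      rw [← SS_compl]; exact SS_le_normalizer _
    obtain ⟨H', hH'⟩ := descend (hall_inf hHM hAM hnorm)
    have hcard' : Fintype.card {x // x ∈ sᶜ} = m := by rw [Fintype.card_coe, hsc]
    by_cases hall : ∀ p, p.Prime → p ≤ m → p ∈ π
    · have hfin : ∀ p : ℕ, p.Prime → p ∣ Nat.card (SS s ⊓ T : Subgroup (Perm α)) → p ∈ π := by
        intro p hp hd
        have h3 := hd.trans (card_dvd_of_le (inf_le_left : SS s ⊓ T ≤ SS s))
        rw [hcardSS] at h3
        rcases hp.dvd_mul.1 h3 with h | h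
        · exact hall p hp (((Nat.Prime.dvd_factorial hp).1 h).trans hkm)
        · exact hall p hp ((Nat.Prime.dvd_factorial hp).1 h)
      have heq := eq_inf_of_le hH hHs hfin
      rcases main_b hs1 hkm (fun p hp hpm => hnd p hp (hall p hp hpm)) with ⟨hk1, hnp⟩ | ⟨hk3, hm4⟩
      · left
        rw [hm] at hnp
        refine ⟨hnp, fun p hp hpn => ⟨fun h => ?_, fun h => hall p hp (by omega)⟩, s, hk1, heq⟩
        have := hle p hp h hpn
        omega
      · right; left
        have hn7 : n = 7 := by omega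
        refine ⟨hn7, fun p hp hpn => ⟨fun h => ?_, fun h => hall p hp (by rcases h with h | h <;> omega)⟩, s, hk3, heq⟩
        exact small p hp (by have := hle p hp h hpn; omega)
    · exfalso
      push Not at hall
      obtain ⟨t, ht, htm, htπ⟩ := hall
      have h3 := ih m (by omega) {x // x ∈ sᶜ} (alternatingGroup {x // x ∈ sᶜ}) H' hcard' (Or.inr rfl) hH'
        ⟨p₁, p₂, hp₁, hp₂, hp₁₂, hp₁π, hp₂π, hle _ hp₁ hp₁π hp₁n, hle _ hp₂ hp₂π hp₂n⟩ ⟨t, ht, htm, htπ⟩
      rcases h3 with ⟨h4, h5, _⟩ | ⟨h4, h5, _⟩ | ⟨h4, h5, _⟩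
      · have h6 := (h5 _ hp₁ (hle _ hp₁ hp₁π hp₁n)).1 hp₁π
        have h7 := (h5 _ hp₂ (hle _ hp₂ hp₂π hp₂n)).1 hp₂π
        have hm5 : 5 ≤ m := by
          by_contra hlt
          rcases small p₁ hp₁ (by omega) with h8 | h8 <;> rcases small p₂ hp₂ (by omega) with h9 | h9 <;>
            first | omega | (have : m = 4 := by omega
                             rw [this] at h4; exact absurd h4 (by decide))
        exact main_c hs1 hkm h4 hm5 (fun p hp hpm => hnd p hp ((h5 p hp hpm.le).2 hpm))
      · exact main_d hs1 hkm (Or.inl h4) (hnd 2 Nat.prime_two ((h5 2 Nat.prime_two (by omega)).2 (Or.inl rfl)))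
          (hnd 3 Nat.prime_three ((h5 3 Nat.prime_three (by omega)).2 (Or.inr rfl)))
      · exact main_d hs1 hkm (Or.inr h4) (hnd 2 Nat.prime_two ((h5 2 Nat.prime_two (by omega)).2 (Or.inl rfl)))
          (hnd 3 Nat.prime_three ((h5 3 Nat.prime_three (by omega)).2 (Or.inr rfl)))
  · -- imprimitive
    set b := Nat.card (Quotient r) with hbdef
    have hnab : n = a * b := by rw [← hα]; exact hr.card_eq
    obtain ⟨Q, hQ, hQ'⟩ := factorial_mul a b (by omega)
    obtain ⟨x₀⟩ : Nonempty α := Fintype.card_pos_iff.1 (by omega)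
    obtain ⟨x₁, hx₁, hx₁₀⟩ : ∃ y, y ∈ {y | r y x₀} ∧ y ≠ x₀ := by
      have := Set.exists_ne_of_one_lt_ncard (s := {y | r y x₀}) (by rw [hr x₀]; omega) x₀
      exact this
    have hodd : ∃ g ∈ KK r, Perm.sign g = -1 := ⟨swap x₁ x₀, NN_le_KK r (swap_mem_NN hx₁), Perm.sign_swap hx₁₀⟩
    have hnd : ∀ p, p.Prime → p ∈ π → ¬ p ∣ Q := by
      intro p hp hpπ hd
      apply not_dvd_index hT hH hHr hodd hp hpπ
      refine hd.trans ?_
      obtain ⟨t, ht⟩ := card_KK_dvd r
      rw [hr.card_NN] at ht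
      have h3 := (KK r).card_mul_index
      rw [Nat.card_eq_fintype_card (α := Perm α), Fintype.card_perm, hα, hnab, hQ, ht, mul_assoc] at h3
      have h4 := Nat.eq_of_mul_eq_mul_left Nat.card_pos h3
      rw [h4]; exact dvd_mul_left _ _
    have hle : ∀ p, p.Prime → p ∈ π → p ≤ n → p ≤ a := by
      intro p hp hpπ hpn
      have h3 := prime_mul_factorial_dvd hp ha (by omega : 1 ≤ b) (by omega)
      rw [hQ, mul_comm (a.factorial ^ b), mul_assoc, mul_comm p] at h3
      have h4 := Nat.dvd_of_mul_dvd_mul_left (Nat.factorial_pos b) h3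
      rcases hp.dvd_mul.1 h4 with h | h
      · exact (Nat.Prime.dvd_factorial hp).1 (hp.dvd_of_dvd_pow h)
      · exact absurd h (hnd p hp hpπ)
    have ha3 : 3 ≤ a := by
      have h5 := hle _ hp₁ hp₁π hp₁n
      have h6 := hle _ hp₂ hp₂π hp₂n
      have := hp₁.two_le
      have := hp₂.two_le
      omega
    have halt : a < n := by rw [hnab]; nlinarith
    have hnd2 : ∀ p, p.Prime → p ∈ π → ¬ p ∣ Nat.choose (a + (a - 1)) (a - 1) := by
      intro p hp hpπ hd
      apply hnd p hp hpπ
      have := hQ' 2 (by norm_num) hb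
      rw [show 2 * a - 1 = a + (a - 1) by omega] at this
      exact hd.trans this
    set s : Finset α := {y | r y x₀}.toFinite.toFinset with hsdef
    have hmem : ∀ y, y ∈ s ↔ r y x₀ := by intro y; rw [hsdef, Set.Finite.mem_toFinset]; rfl
    have hscard : s.card = a := by rw [← hr x₀, hsdef, Set.ncard_eq_toFinset_card]
    have hHM := hall_mid hH (M := KK r ⊓ T) (le_inf hHr hH.1) inf_le_right
    have hTn : T ≤ normalizer (T : Set (Perm α)) := le_normalizer
    have hHN := hall_inf hHM (N := NN r ⊓ T) (inf_le_inf_right _ (NN_le_KK r)) (by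
      intro g hg
      rw [mem_normalizer_iff]
      intro x
      have e1 := mem_normalizer_iff.1 (KK_le_normalizer r hg.1) x
      have e2 := mem_normalizer_iff.1 (hTn hg.2) x
      exact ⟨fun h => ⟨e1.1 h.1, e2.1 h.2⟩, fun h => ⟨e1.2 h.1, e2.2 h.2⟩⟩)
    have hNS : NN r ≤ SS s := by
      intro g hg x
      rw [hmem, hmem]
      exact ⟨fun h => r.trans (r.symm (hg x)) h, fun h => r.trans (hg x) h⟩
    have hAN : AA s ≤ NN r ⊓ T := by
      refine le_inf ?_ (AA_le hT _)
      intro g hg x
      by_cases hx : x ∈ s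
      · have h3 := (AA_le_SS s hg x).2 hx
        rw [hmem] at h3 hx
        exact r.trans h3 (r.symm hx)
      · rw [hg.1 x hx]
    have hHA := hall_inf hHN hAN (inf_le_left.trans (hNS.trans (SS_le_normalizer s)))
    have e3 : H ⊓ (NN r ⊓ T) ⊓ AA s = H ⊓ AA s := by
      rw [inf_assoc, inf_eq_right.2 hAN]
    rw [e3] at hHA
    obtain ⟨H', hH'⟩ := descend hHA
    have hcard' : Fintype.card {x // x ∈ s} = a := by rw [Fintype.card_coe, hscard]
    by_cases hall : ∀ p, p.Prime → p ≤ a → p ∈ π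
    · right; right
      have ha4 : a = 4 := by
        rcases main_b (by omega : 1 ≤ a - 1) (by omega) (fun p hp hpm => hnd2 p hp (hall p hp hpm)) with h | h
        · have h5 := hle _ hp₁ hp₁π hp₁n
          have h6 := hle _ hp₂ hp₂π hp₂n
          omega
        · exact h.2
      have hb2 : b = 2 := by
        by_contra hne
        have h5 := hQ' 3 (by norm_num) (by omega)
        rw [ha4] at h5
        apply hnd 3 Nat.prime_three (hall 3 Nat.prime_three (by omega))
        exact dvd_trans (by decide +kernel) h5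
      have hn8 : n = 8 := by rw [hnab, ha4, hb2]
      refine ⟨hn8, fun p hp hpn => ⟨fun h => ?_, fun h => hall p hp (by rcases h with h | h <;> omega)⟩, r, hb2, ?_, ?_⟩
      · exact small p hp (by have := hle p hp h hpn; omega)
      · rwa [ha4] at hr
      · apply eq_inf_of_le hH hHr
        intro p hp hd
        have h5 := (hd.trans (card_dvd_of_le (inf_le_left : KK r ⊓ T ≤ KK r))).trans (card_KK_dvd r)
        rw [hr.card_NN] at h5
        rcases hp.dvd_mul.1 h5 with h | h
        · exact hall p hp ((Nat.Prime.dvd_factorial hp).1 (hp.dvd_of_dvd_pow h))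
        · have := (Nat.Prime.dvd_factorial hp).1 h
          exact hall p hp (by omega)
    · exfalso
      push Not at hall
      obtain ⟨t, ht, htm, htπ⟩ := hall
      have h3 := ih a halt {x // x ∈ s} (alternatingGroup {x // x ∈ s}) H' hcard' (Or.inr rfl) hH'
        ⟨p₁, p₂, hp₁, hp₂, hp₁₂, hp₁π, hp₂π, hle _ hp₁ hp₁π hp₁n, hle _ hp₂ hp₂π hp₂n⟩ ⟨t, ht, htm, htπ⟩
      rcases h3 with ⟨h4, h5, _⟩ | ⟨h4, h5, _⟩ | ⟨h4, h5, _⟩
      · have h6 := (h5 _ hp₁ (hle _ hp₁ hp₁π hp₁n)).1 hp₁π
        have h7 := (h5 _ hp₂ (hle _ hp₂ hp₂π hp₂n)).1 hp₂π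
        have hm5 : 5 ≤ a := by
          by_contra hlt
          rcases small p₁ hp₁ (by omega) with h8 | h8 <;> rcases small p₂ hp₂ (by omega) with h9 | h9 <;>
            first | omega | (have : a = 4 := by omega
                             rw [this] at h4; exact absurd h4 (by decide))
        exact main_c (by omega : 1 ≤ a - 1) (by omega) h4 hm5 (fun p hp hpm => hnd2 p hp ((h5 p hp hpm.le).2 hpm))
      · exact main_d (by omega : 1 ≤ a - 1) (by omega) (Or.inl h4)
          (hnd2 2 Nat.prime_two ((h5 2 Nat.prime_two (by omega)).2 (Or.inl rfl)))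
          (hnd2 3 Nat.prime_three ((h5 3 Nat.prime_three (by omega)).2 (Or.inr rfl)))
      · exact main_d (by omega : 1 ≤ a - 1) (by omega) (Or.inr h4)
          (hnd2 2 Nat.prime_two ((h5 2 Nat.prime_two (by omega)).2 (Or.inl rfl)))
          (hnd2 3 Nat.prime_three ((h5 3 Nat.prime_three (by omega)).2 (Or.inr rfl)))
  · exact absurd hprim (fun h => primitive_false hT hH (by rw [hα]; exact h2) (by rw [hα]; exact hns) h)

end Cfsg.Agent.Lib.HallSym
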