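import Cfsg.Agent.Lib.HallSym3

/-!
Hall subgroups of symmetric and alternating groups, part 4: existence and conjugacy (helper42).
-/

set_option autoImplicit false

namespace Cfsg.Agent.Lib.HallSym

open Cfsg Equiv MulAction Subgroup
open Cfsg.Agent.Lib.HallSymNT
open scoped Pointwise

universe u

variable {α : Type u} [Fintype α] [DecidableEq α] {π : Set ℕ} {H T : Subgroup (Perm α)}

theorem conj_T (hT : T = ⊤ ∨ T = alternatingGroup α) {K₁ K₂ : Subgroup (Perm α)} (hodd : ∃ t ∈ K₁, Perm.sign t = -1)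
    {g : Perm α} (hg : ∀ x, x ∈ K₂ ↔ g⁻¹ * x * g ∈ K₁) : ∃ g' ∈ T, ∀ x, x ∈ K₂ ⊓ T ↔ g'⁻¹ * x * g' ∈ K₁ ⊓ T := by
  obtain ⟨t, ht, hs⟩ := hodd
  have h1 : ∃ g' ∈ T, ∀ x, x ∈ K₂ ↔ g'⁻¹ * x * g' ∈ K₁ := by
    rcases hT with rfl | rfl
    · exact ⟨g, mem_top g, hg⟩
    · rcases Int.units_eq_one_or (Perm.sign g) with h | h
      · exact ⟨g, Perm.mem_alternatingGroup.2 h, hg⟩
      · refine ⟨g * t, Perm.mem_alternatingGroup.2 (by rw [Perm.sign_mul, h, hs]; rfl), fun x => ?_⟩
        rw [hg]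
        have e : (g * t)⁻¹ * x * (g * t) = t⁻¹ * (g⁻¹ * x * g) * t := by group
        rw [e]
        constructor
        · intro hx; exact mul_mem (mul_mem (inv_mem ht) hx) ht
        · intro hx
          have e2 : g⁻¹ * x * g = t * (t⁻¹ * (g⁻¹ * x * g) * t) * t⁻¹ := by group
          rw [e2]; exact mul_mem (mul_mem ht hx) (inv_mem ht)
  obtain ⟨g', hg', h2⟩ := h1
  refine ⟨g', hg', fun x => ?_⟩
  rw [mem_inf, mem_inf, h2 x]
  refine and_congr_right fun _ => ?_
  rcases hT with rfl | rfl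
  · simp
  · rw [Perm.mem_alternatingGroup, Perm.mem_alternatingGroup, Perm.sign_mul, Perm.sign_mul, Perm.sign_inv,
      mul_comm (Perm.sign g'), mul_assoc, Int.units_mul_self, mul_one]

theorem exists_map_finset {s₁ s₂ : Finset α} (h : s₁.card = s₂.card) : ∃ g : Perm α, ∀ x, g x ∈ s₂ ↔ x ∈ s₁ := by
  have : IsPretransitive (Perm α) (Set.powersetCard α s₂.card) := Set.powersetCard.isPretransitive
  let t₁ : Set.powersetCard α s₂.card := ⟨s₁, h⟩
  let t₂ : Set.powersetCard α s₂.card := ⟨s₂, rfl⟩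
  obtain ⟨g, hg⟩ := exists_smul_eq (Perm α) t₁ t₂
  refine ⟨g, fun x => ?_⟩
  have h2 : g • s₁ = s₂ := by
    rw [← Subtype.coe_inj, Set.powersetCard.coe_smul] at hg
    exact hg
  rw [← h2]
  exact Finset.smul_mem_smul_finset_iff g

theorem SS_conj {s₁ s₂ : Finset α} {g : Perm α} (hg : ∀ x, g x ∈ s₂ ↔ x ∈ s₁) (x : Perm α) :
    x ∈ SS s₂ ↔ g⁻¹ * x * g ∈ SS s₁ := by
  constructor
  · intro h y
    rw [← hg, ← hg, Perm.mul_apply, Perm.mul_apply, app_inv]
    exact h _
  · intro h y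
    have h1 := h (g⁻¹ y)
    rw [← hg, ← hg, Perm.mul_apply, Perm.mul_apply, app_inv, app_inv] at h1
    exact h1

theorem KK_conj {r₁ r₂ : Setoid α} {g : Perm α} (hg : ∀ x y, r₂ (g x) (g y) ↔ r₁ x y) (x : Perm α) :
    x ∈ KK r₂ ↔ g⁻¹ * x * g ∈ KK r₁ := by
  constructor
  · intro h y z
    rw [← hg, ← hg, Perm.mul_apply, Perm.mul_apply, Perm.mul_apply, Perm.mul_apply, app_inv, app_inv]
    exact h _ _
  · intro h y z
    have h1 := h (g⁻¹ y) (g⁻¹ z)
    rw [← hg, ← hg, Perm.mul_apply, Perm.mul_apply, Perm.mul_apply, Perm.mul_apply, app_inv, app_inv, app_inv, app_inv] at h1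
    exact h1

theorem two_classes {r : Setoid α} (h : Nat.card (Quotient r) = 2) (x₀ x y : α) : r x y ↔ (r x x₀ ↔ r y x₀) := by
  constructor
  · intro hxy
    exact ⟨fun h => r.trans (r.symm hxy) h, fun h => r.trans hxy h⟩
  · intro hiff
    by_cases hx : r x x₀
    · exact r.trans hx (r.symm (hiff.1 hx))
    · have hy : ¬ r y x₀ := fun h => hx (hiff.2 h)
      by_contra hxy
      classical
      have h3 : ({Quotient.mk r x₀, Quotient.mk r x, Quotient.mk r y} : Finset (Quotient r)).card = 3 := by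
        rw [Finset.card_eq_three]
        refine ⟨_, _, _, ?_, ?_, ?_, rfl⟩
        · intro he; exact hx (r.symm (Quotient.exact he))
        · intro he; exact hy (r.symm (Quotient.exact he))
        · intro he; exact hxy (Quotient.exact he)
      have h4 := Finset.card_le_univ ({Quotient.mk r x₀, Quotient.mk r x, Quotient.mk r y} : Finset (Quotient r))
      rw [h3, ← Nat.card_eq_fintype_card, h] at h4
      omega

theorem exists_cls {r : Setoid α} {a : ℕ} (h : Unif r a) (x₀ : α) : ∃ s : Finset α, s.card = a ∧ ∀ y, y ∈ s ↔ r y x₀ := by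
  refine ⟨{y | r y x₀}.toFinite.toFinset, ?_, fun y => ?_⟩
  · rw [← h x₀, Set.ncard_eq_toFinset_card]
  · rw [Set.Finite.mem_toFinset]; rfl

theorem exists_map_setoid {r₁ r₂ : Setoid α} {a : ℕ} (h₁ : Nat.card (Quotient r₁) = 2) (h₂ : Nat.card (Quotient r₂) = 2)
    (hu₁ : Unif r₁ a) (hu₂ : Unif r₂ a) (x₀ : α) : ∃ g : Perm α, ∀ x y, r₂ (g x) (g y) ↔ r₁ x y := by
  obtain ⟨s₁, hc₁, hs₁⟩ := exists_cls hu₁ x₀
  obtain ⟨s₂, hc₂, hs₂⟩ := exists_cls hu₂ x₀
  obtain ⟨g, hg⟩ := exists_map_finset (hc₁.trans hc₂.symm)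
  refine ⟨g, fun x y => ?_⟩
  rw [two_classes h₁ x₀, two_classes h₂ x₀, ← hs₁, ← hs₁, ← hs₂, ← hs₂, hg, hg]

theorem odd_SS {s : Finset α} (hn : 3 ≤ Fintype.card α) : ∃ t ∈ SS s, Perm.sign t = -1 := by
  have h1 := Finset.card_add_card_compl s
  rcases Nat.lt_or_ge 1 s.card with h | h
  · obtain ⟨x, hx, y, hy, hxy⟩ := Finset.one_lt_card.1 h
    exact ⟨swap x y, swap_mem_SS (by simp [hx, hy]), Perm.sign_swap hxy⟩
  · obtain ⟨x, hx, y, hy, hxy⟩ := Finset.one_lt_card.1 (show 1 < sᶜ.card by omega)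
    rw [Finset.mem_compl] at hx hy
    exact ⟨swap x y, swap_mem_SS (by simp [hx, hy]), Perm.sign_swap hxy⟩

theorem odd_KK {r : Setoid α} {a : ℕ} (h : Unif r a) (ha : 2 ≤ a) (x₀ : α) : ∃ t ∈ KK r, Perm.sign t = -1 := by
  obtain ⟨x₁, hx₁, hx₁₀⟩ : ∃ y, y ∈ {y | r y x₀} ∧ y ≠ x₀ :=
    Set.exists_ne_of_one_lt_ncard (s := {y | r y x₀}) (by rw [h x₀]; omega) x₀
  exact ⟨swap x₁ x₀, NN_le_KK r (swap_mem_NN hx₁), Perm.sign_swap hx₁₀⟩

theorem prime_le_of_dvd {p : ℕ} (hp : p.Prime) (hd : p ∣ Nat.card H) : p ≤ Fintype.card α := by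
  have h1 := hd.trans (card_subgroup_dvd_card H)
  rw [Nat.card_eq_fintype_card, Fintype.card_perm] at h1
  exact (Nat.Prime.dvd_factorial hp).1 h1

/-- trivial sets of primes -/
def Triv (n : ℕ) (π : Set ℕ) : Prop :=
  (∀ r s : ℕ, r.Prime → s.Prime → r ∈ π → s ∈ π → r ≤ n → s ≤ n → r = s) ∨ (∀ r : ℕ, r.Prime → r ≤ n → r ∈ π)

theorem not_triv {n : ℕ} {π : Set ℕ} (h : ¬ Triv n π) :
    (∃ r s : ℕ, r.Prime ∧ s.Prime ∧ r ≠ s ∧ r ∈ π ∧ s ∈ π ∧ r ≤ n ∧ s ≤ n) ∧ (∃ r : ℕ, r.Prime ∧ r ≤ n ∧ r ∉ π) := by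
  unfold Triv at h
  push Not at h
  obtain ⟨⟨r, s, h1, h2, h3, h4, h5, h6, h7⟩, t, h8, h9, h10⟩ := h
  exact ⟨⟨r, s, h1, h2, h7, h3, h4, h5, h6⟩, t, h8, h9, h10⟩

/-- conjugacy -/
theorem hall_conj (hT : T = ⊤ ∨ T = alternatingGroup α) {H₁ H₂ : Subgroup (Perm α)} (h₁ : IsPiHallOf π H₁ T)
    (h₂ : IsPiHallOf π H₂ T) : ∃ g ∈ T, ∀ x, x ∈ H₂ ↔ g⁻¹ * x * g ∈ H₁ := by
  by_cases htriv : Triv (Fintype.card α) π
  · rcases htriv with h | h
    · by_cases hex : ∃ p : ℕ, p.Prime ∧ p ∈ π ∧ p ≤ Fintype.card α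
      · obtain ⟨p, hp, hpπ, hpn⟩ := hex
        have hpf : Fact p.Prime := ⟨hp⟩
        have key : ∀ {K : Subgroup (Perm α)}, IsPiHallOf π K T → RelSylow.IsSyl p K T := by
          intro K hK
          refine ⟨hK.1, ?_, hK.2.2 p hp hpπ⟩
          rw [IsPGroup.iff_card]
          exact ⟨_, Nat.eq_prime_pow_of_unique_prime_dvd Nat.card_pos.ne'
            (fun {r} hr hd => h r p hr hp (hK.2.1 r hr hd) hpπ (prime_le_of_dvd hr hd) hpn)⟩
        obtain ⟨g, hg, hgg⟩ := (key h₁).conj (key h₂)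
        exact ⟨g, hg, fun x => by rw [← hgg, RelSylow.mem_conj_iff]⟩
      · push Not at hex
        have key : ∀ {K : Subgroup (Perm α)}, IsPiHallOf π K T → K = ⊥ := by
          intro K hK
          rw [← card_eq_one]
          by_contra hne
          obtain ⟨p, hp, hd⟩ := Nat.exists_prime_and_dvd hne
          have := hex p hp (hK.2.1 p hp hd)
          have := prime_le_of_dvd hp hd
          omega
        refine ⟨1, one_mem _, fun x => ?_⟩
        rw [key h₁, key h₂]; simp
    · have key : ∀ {K : Subgroup (Perm α)}, IsPiHallOf π K T → K = T := by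
        intro K hK
        have := eq_inf_of_le hK (K := ⊤) le_top (fun p hp hd => h p hp (prime_le_of_dvd hp hd))
        rwa [top_inf_eq] at this
      refine ⟨1, one_mem _, fun x => ?_⟩
      rw [key h₁, key h₂]; simp
  · obtain ⟨h3, h4⟩ := not_triv htriv
    have hn3 : 3 ≤ Fintype.card α := by
      obtain ⟨r, s, hr, hs, hrs, _, _, h5, h6⟩ := h3
      have := hr.two_le
      have := hs.two_le
      omega
    have s1 := structural _ α T H₁ rfl hT h₁ h3 h4
    have s2 := structural _ α T H₂ rfl hT h₂ h3 h4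
    obtain ⟨x₀⟩ : Nonempty α := Fintype.card_pos_iff.1 (by omega)
    rcases s1 with ⟨hp1, hq1, s₁, hc1, rfl⟩ | ⟨hp1, hq1, s₁, hc1, rfl⟩ | ⟨hp1, hq1, r₁, hc1, hu1, rfl⟩
    · rcases s2 with ⟨hp2, hq2, s₂, hc2, rfl⟩ | ⟨hp2, hq2, s₂, hc2, rfl⟩ | ⟨hp2, hq2, r₂, hc2, hu2, rfl⟩
      · obtain ⟨g, hg⟩ := exists_map_finset (hc1.trans hc2.symm)
        exact conj_T hT (odd_SS hn3) (SS_conj hg)
      · exfalso
        rw [hp2] at hq1 hq2
        have := (hq2 5 (by norm_num) (by norm_num)).1 ((hq1 5 (by norm_num) (by norm_num)).2 (by norm_num))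
        omega
      · rw [hp2] at hp1; exact absurd hp1 (by norm_num)
    · rcases s2 with ⟨hp2, hq2, s₂, hc2, rfl⟩ | ⟨hp2, hq2, s₂, hc2, rfl⟩ | ⟨hp2, hq2, r₂, hc2, hu2, rfl⟩
      · exfalso
        rw [hp1] at hq1 hq2
        have := (hq1 5 (by norm_num) (by norm_num)).1 ((hq2 5 (by norm_num) (by norm_num)).2 (by norm_num))
        omega
      · obtain ⟨g, hg⟩ := exists_map_finset (hc1.trans hc2.symm)
        exact conj_T hT (odd_SS hn3) (SS_conj hg)
      · omega
    · rcases s2 with ⟨hp2, hq2, s₂, hc2, rfl⟩ | ⟨hp2, hq2, s₂, hc2, rfl⟩ | ⟨hp2, hq2, r₂, hc2, hu2, rfl⟩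
      · rw [hp1] at hp2; exact absurd hp2 (by norm_num)
      · omega
      · obtain ⟨g, hg⟩ := exists_map_setoid hc1 hc2 hu1 hu2 x₀
        exact conj_T hT (odd_KK hu1 (by norm_num) x₀) (KK_conj hg)

theorem isPiHallOf_top {K : Subgroup (Perm α)} : IsPiHallOf π K ⊤ ↔ IsPiHall π K := by
  unfold IsPiHallOf IsPiHall
  rw [relIndex_top_right]
  exact ⟨fun h => h.2, fun h => ⟨le_top, h⟩⟩

/-- the special sets of primes -/
def Spec (n : ℕ) (π : Set ℕ) : Prop :=
  (n.Prime ∧ ∀ r : ℕ, r.Prime → r ≤ n → (r ∈ π ↔ r < n)) ∨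
       ((n = 7 ∨ n = 8) ∧ ∀ r : ℕ, r.Prime → r ≤ n → (r ∈ π ↔ (r = 2 ∨ r = 3)))

theorem spec_or_triv (hT : T = ⊤ ∨ T = alternatingGroup α) (h : IsPiHallOf π H T) :
    Triv (Fintype.card α) π ∨ Spec (Fintype.card α) π := by
  by_cases htriv : Triv (Fintype.card α) π
  · left; exact htriv
  right
  obtain ⟨h3, h4⟩ := not_triv htriv
  rcases structural _ α T H rfl hT h h3 h4 with ⟨hp1, hq1, _⟩ | ⟨hp1, hq1, _⟩ | ⟨hp1, hq1, _⟩
  · exact Or.inl ⟨hp1, hq1⟩
  · exact Or.inr ⟨Or.inl hp1, hq1⟩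
  · exact Or.inr ⟨Or.inr hp1, hq1⟩

/-- the setoid on `Fin 8` -/
def r8 : Setoid (Fin 8) where
  r x y := (x.val < 4 ↔ y.val < 4)
  iseqv := ⟨fun _ => Iff.rfl, fun h => h.symm, fun h h' => h.trans h'⟩

theorem exists_hall {n : ℕ} (h : Triv n π ∨ Spec n π) : IsEPiGroup π (Perm (Fin n)) := by
  have hcard : Nat.card (Perm (Fin n)) = n.factorial := by
    rw [Nat.card_eq_fintype_card, Fintype.card_perm, Fintype.card_fin]
  rcases h with (h | h) | ⟨hnp, h⟩ | ⟨h78, h⟩
  · by_cases hex : ∃ p : ℕ, p.Prime ∧ p ∈ π ∧ p ≤ n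
    · obtain ⟨p, hp, hpπ, hpn⟩ := hex
      have hpf : Fact p.Prime := ⟨hp⟩
      obtain ⟨P⟩ : Nonempty (Sylow p (Perm (Fin n))) := inferInstance
      refine ⟨P, fun q hq hd => ?_, fun q hq hqπ hd => ?_⟩
      · obtain ⟨k, hk⟩ := IsPGroup.iff_card.mp P.2
        have hd' : q ∣ p ^ k := by rw [← hk]; exact hd
        rw [(Nat.prime_dvd_prime_iff_eq hq hp).mp (hq.dvd_of_dvd_pow hd')]
        exact hpπ
      · have h1 := hd.trans (index_dvd_card (P : Subgroup (Perm (Fin n))))
        rw [hcard] at h1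
        have h2 := (Nat.Prime.dvd_factorial hq).1 h1
        rw [h q p hq hp hqπ hpπ h2 hpn] at hd
        exact P.not_dvd_index hd
    · push Not at hex
      refine ⟨⊥, fun q hq hd => ?_, fun q hq hqπ hd => ?_⟩
      · rw [card_bot] at hd; exact absurd (Nat.dvd_one.1 hd) hq.one_lt.ne'
      · rw [index_bot, hcard] at hd
        have := (Nat.Prime.dvd_factorial hq).1 hd
        have := hex q hq hqπ
        omega
  · refine ⟨⊤, fun q hq hd => ?_, fun q hq hqπ hd => ?_⟩
    · rw [Nat.card_congr topEquiv.toEquiv, hcard] at hd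
      exact h q hq ((Nat.Prime.dvd_factorial hq).1 hd)
    · rw [index_top] at hd; exact absurd (Nat.dvd_one.1 hd) hq.one_lt.ne'
  · have hpos := hnp.pos
    refine ⟨SS {⟨0, hpos⟩}, fun q hq hd => ?_, fun q hq hqπ hd => ?_⟩
    · rw [card_SS, Finset.card_singleton, Fintype.card_fin, Nat.factorial_one, one_mul] at hd
      have := (Nat.Prime.dvd_factorial hq).1 hd
      exact (h q hq (by omega)).2 (by omega)
    · rw [index_SS, Finset.card_singleton, Fintype.card_fin, Nat.choose_one_right] at hd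
      have h1 := (Nat.prime_dvd_prime_iff_eq hq hnp).1 hd
      have := (h q hq h1.le).1 hqπ
      omega
  · rcases h78 with rfl | rfl
    · refine ⟨SS {0, 1, 2}, fun q hq hd => ?_, fun q hq hqπ hd => ?_⟩
      · rw [card_SS, Fintype.card_fin] at hd
        have h1 : q ∣ 3 * 2 * (4 * 3 * 2) := hd
        have h2 : q ≤ 4 := by
          rcases hq.dvd_mul.1 hd with h | h
          · have := (Nat.Prime.dvd_factorial hq).1 h
            have : ({0, 1, 2} : Finset (Fin 7)).card = 3 := rfl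
            omega
          · exact (Nat.Prime.dvd_factorial hq).1 h
        refine (h q hq (by omega)).2 ?_
        interval_cases q
        · exact absurd hq (by decide)
        · exact absurd hq (by decide)
        · left; rfl
        · right; rfl
        · exact absurd hq (by decide)
      · rw [index_SS, Fintype.card_fin] at hd
        have h1 : q ∣ 35 := hd
        have h2 : q ≤ 7 := by
          have h3 : q ∣ 5 * 7 := h1
          rcases hq.dvd_mul.1 h3 with h | h
          · have := Nat.le_of_dvd (by norm_num) h; omega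
          · exact Nat.le_of_dvd (by norm_num) h
        rcases (h q hq h2).1 hqπ with rfl | rfl
        · exact absurd h1 (by decide)
        · exact absurd h1 (by decide)
    · have hu : Unif r8 4 := by
        intro x
        have key : ∀ x : Fin 8, (Finset.univ.filter (fun y : Fin 8 => (y.val < 4 ↔ x.val < 4))).card = 4 := by decide +kernel
        have e : {y | r8 y x} = ((Finset.univ.filter (fun y : Fin 8 => (y.val < 4 ↔ x.val < 4)) : Finset (Fin 8)) : Set (Fin 8)) := by
          ext y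
          rw [Finset.mem_coe, Finset.mem_filter]
          exact ⟨fun h => ⟨Finset.mem_univ _, h⟩, fun h => h.2⟩
        rw [e, Set.ncard_coe_finset, key]
      have hc2 : Nat.card (Quotient r8) = 2 := by
        have := hu.card_eq
        rw [Fintype.card_fin] at this
        omega
      have h70 : (SS ({0, 1, 2, 3} : Finset (Fin 8))).index = 70 := by
        rw [index_SS, Fintype.card_fin]; decide +kernel
      have hmem : ∀ x : Fin 8, x ∈ ({0, 1, 2, 3} : Finset (Fin 8)) ↔ x.val < 4 := by decide +kernel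
      have hle : SS ({0, 1, 2, 3} : Finset (Fin 8)) ≤ KK r8 := by
        intro g hg x y
        have h1 := hg x
        have h2 := hg y
        rw [hmem, hmem] at h1 h2
        show (((g x).val < 4 ↔ (g y).val < 4) ↔ (x.val < 4 ↔ y.val < 4))
        rw [h1, h2]
      have h35 : (KK r8).index = 35 := by
        have h1 := relIndex_mul_index hle
        rw [h70] at h1
        have h2 : 35 ∣ (KK r8).index := by
          obtain ⟨t, ht⟩ := card_KK_dvd r8
          rw [hu.card_NN, hc2] at ht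
          have h3 := (KK r8).card_mul_index
          rw [hcard] at h3
          have h4 : Nat.factorial 8 = (Nat.factorial 4 ^ 2 * Nat.factorial 2) * 35 := by decide +kernel
          rw [h4, ht, mul_assoc] at h3
          have h5 := Nat.eq_of_mul_eq_mul_left Nat.card_pos h3
          rw [h5]; exact dvd_mul_left _ _
        obtain ⟨c, hc⟩ := h2
        rw [hc] at h1
        have h3 : (SS ({0, 1, 2, 3} : Finset (Fin 8))).relIndex (KK r8) * c = 2 := by
          have : 35 * ((SS ({0, 1, 2, 3} : Finset (Fin 8))).relIndex (KK r8) * c) = 35 * 2 := by rw [← mul_assoc, mul_comm 35]; linarith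
          exact Nat.eq_of_mul_eq_mul_left (by norm_num) this
        have h4 : (SS ({0, 1, 2, 3} : Finset (Fin 8))).relIndex (KK r8) ≠ 1 := by
          intro h5
          rw [relIndex_eq_one] at h5
          let g : Perm (Fin 8) := ⟨fun x => x + 4, fun x => x + 4, by decide, by decide⟩
          have hg : g ∈ KK r8 := by
            have : ∀ x y : Fin 8, (((x + 4).val < 4 ↔ (y + 4).val < 4) ↔ (x.val < 4 ↔ y.val < 4)) := by decide +kernel
            exact this
          have h6 := (h5 hg 0).2 (by decide)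
          exact absurd h6 (by decide)
        have h5 : (SS ({0, 1, 2, 3} : Finset (Fin 8))).relIndex (KK r8) ∣ 2 := ⟨c, h3.symm⟩
        rcases (Nat.dvd_prime Nat.prime_two).1 h5 with h6 | h6
        · exact absurd h6 h4
        · rw [h6] at h3; omega
      refine ⟨KK r8, fun q hq hd => ?_, fun q hq hqπ hd => ?_⟩
      · have h1 := hd.trans (card_KK_dvd r8)
        rw [hu.card_NN, hc2] at h1
        have h2 : q ≤ 4 := by
          rcases hq.dvd_mul.1 h1 with h | h
          · exact (Nat.Prime.dvd_factorial hq).1 (hq.dvd_of_dvd_pow h)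
          · have := (Nat.Prime.dvd_factorial hq).1 h
            omega
        refine (h q hq (by omega)).2 ?_
        interval_cases q
        · exact absurd hq (by decide)
        · exact absurd hq (by decide)
        · left; rfl
        · right; rfl
        · exact absurd hq (by decide)
      · rw [h35] at hd
        have h2 : q ≤ 8 := by
          have h3 : q ∣ 5 * 7 := hd
          rcases hq.dvd_mul.1 h3 with h | h
          · have := Nat.le_of_dvd (by norm_num) h; omega
          · have := Nat.le_of_dvd (by norm_num) h; omega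
        rcases (h q hq h2).1 hqπ with rfl | rfl
        · exact absurd hd (by decide)
        · exact absurd hd (by decide)

end Cfsg.Agent.Lib.HallSym
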