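import Cfsg.Agent.Lib.HallSym4

/-!
Hall subgroups of symmetric and alternating groups, part 5: existence iff conjugacy (helper42).
-/

set_option autoImplicit false

namespace Cfsg.Agent.Lib.HallSym

open Cfsg Equiv MulAction Subgroup

variable {n : ℕ} {π : Set ℕ}

theorem sym_of_alt (h : IsEPiGroup π (alternatingGroup (Fin n))) : IsEPiGroup π (Perm (Fin n)) := by
  obtain ⟨M, hM⟩ := h
  have h1 := HallPi.isPiHallOf_map_subtype hM
  have h2 := spec_or_triv (α := Fin n) (Or.inr rfl) h1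
  rw [Fintype.card_fin] at h2
  exact exists_hall h2

theorem alt_of_sym (h : IsEPiGroup π (Perm (Fin n))) : IsEPiGroup π (alternatingGroup (Fin n)) := by
  obtain ⟨M, hM⟩ := h
  have h1 := HallPi.isPiHallOf_inf_normal (N := alternatingGroup (Fin n)) hM
  exact ⟨_, (HallPi.isPiHallOf_iff_subgroupOf inf_le_right).1 h1⟩

theorem c_sym (h : IsEPiGroup π (Perm (Fin n))) : IsCPiGroup π (Perm (Fin n)) := by
  refine ⟨h, fun H K hH hK => ?_⟩
  obtain ⟨g, _, hg⟩ := hall_conj (α := Fin n) (T := ⊤) (Or.inl rfl) (isPiHallOf_top.2 hH) (isPiHallOf_top.2 hK)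
  refine ⟨g, ?_⟩
  ext x
  rw [hg, RelSylow.mem_conj_iff]

theorem c_alt (h : IsEPiGroup π (alternatingGroup (Fin n))) : IsCPiGroup π (alternatingGroup (Fin n)) := by
  refine ⟨h, fun H K hH hK => ?_⟩
  obtain ⟨g, hgA, hg⟩ := hall_conj (α := Fin n) (T := alternatingGroup (Fin n)) (Or.inr rfl)
    (HallPi.isPiHallOf_map_subtype hH) (HallPi.isPiHallOf_map_subtype hK)
  refine ⟨⟨g, hgA⟩, ?_⟩
  ext x
  rw [RelSylow.mem_conj_iff]
  have h1 := hg x
  have e1 : ∀ (L : Subgroup (alternatingGroup (Fin n))) (y : alternatingGroup (Fin n)),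
      (y : Perm (Fin n)) ∈ L.map (alternatingGroup (Fin n)).subtype ↔ y ∈ L := by
    intro L y
    constructor
    · rintro ⟨z, hz, hzy⟩
      have : z = y := Subtype.ext hzy
      rwa [← this]
    · intro hy; exact ⟨y, hy, rfl⟩
  rw [e1] at h1
  rw [h1]
  exact e1 H ((⟨g, hgA⟩ : alternatingGroup (Fin n))⁻¹ * x * ⟨g, hgA⟩)

end Cfsg.Agent.Lib.HallSym
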