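import Mathlib
import Cfsg.Prelude.Def_SporadicCombinatorics
import Cfsg.Agent.Lib.GolayDodecad

/-!
helper27: the hexacode (S1610, S1611), by computation in a model of the field with four elements on `{0,1,2,3}`.
-/

set_option autoImplicit false

namespace Cfsg.Agent.Lib.HexacodeB

open Cfsg
open Cfsg.Agent.Lib.Golay (allLt allLt_iff cond_false_eq)

/-! ### the model -/

/-- multiplication -/
def ml (a b : ℕ) : ℕ := cond (Nat.beq a 0) 0 (cond (Nat.beq b 0) 0
  (Nat.add (Nat.mod (Nat.add (Nat.sub a 1) (Nat.sub b 1)) 3) 1))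

/-- addition -/
def ad (a b : ℕ) : ℕ := Nat.xor a b

/-- generators -/
def gL : List ℕ := [
  2, 3, 3, 2, 3, 2, 3, 2, 2, 3, 3, 2, 3, 2, 3, 2,
  2, 3]

def gn (j i : ℕ) : ℕ := gL.getD (Nat.add (Nat.mul 6 j) i) 0

/-- words -/
def wd (a b c i : ℕ) : ℕ := ad (ad (ml a (gn 0 i)) (ml b (gn 1 i))) (ml c (gn 2 i))

/-- parity checks -/
def par (j y0 y1 y2 y3 y4 y5 : ℕ) : ℕ :=
  ad (ml y0 (ml (gn j 0) (gn j 0))) (ad (ml y1 (ml (gn j 1) (gn j 1))) (ad (ml y2 (ml (gn j 2) (gn j 2)))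
    (ad (ml y3 (ml (gn j 3) (gn j 3))) (ad (ml y4 (ml (gn j 4) (gn j 4))) (ml y5 (ml (gn j 5) (gn j 5)))))))

def chk (y0 y1 y2 y3 y4 y5 : ℕ) : Bool :=
  cond (Nat.beq (par 0 y0 y1 y2 y3 y4 y5) 0) (cond (Nat.beq (par 1 y0 y1 y2 y3 y4 y5) 0)
    (Nat.beq (par 2 y0 y1 y2 y3 y4 y5) 0) false) false

def decL : List ℕ := [
  0, 14, 7, 9, 31, 17, 24, 22, 37, 43, 34, 44, 58, 52, 61, 51,
  20, 26, 19, 29, 11, 5, 12, 2, 49, 63, 54, 56, 46, 32, 41, 39,
  40, 38, 47, 33, 55, 57, 48, 62, 13, 3, 10, 4, 18, 28, 21, 27,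
  60, 50, 59, 53, 35, 45, 36, 42, 25, 23, 30, 16, 6, 8, 1, 15]

def dc (y0 y1 y2 : ℕ) : ℕ := decL.getD (Nat.add y0 (Nat.add (Nat.mul 4 y1) (Nat.mul 16 y2))) 0

def eqw (a b c y0 y1 y2 y3 y4 y5 : ℕ) : Bool :=
  cond (Nat.beq (wd a b c 0) y0) (cond (Nat.beq (wd a b c 1) y1) (cond (Nat.beq (wd a b c 2) y2)
    (cond (Nat.beq (wd a b c 3) y3) (cond (Nat.beq (wd a b c 4) y4) (Nat.beq (wd a b c 5) y5) false) false) false)
    false) false

def a0 (n : ℕ) : ℕ := Nat.land n 3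
def a1 (n : ℕ) : ℕ := Nat.land (Nat.shiftRight n 2) 3
def a2 (n : ℕ) : ℕ := Nat.land (Nat.shiftRight n 4) 3

theorem a0_lt (n : ℕ) : a0 n < 4 := by
  have : a0 n = n &&& 3 := rfl
  rw [this]; exact lt_of_le_of_lt Nat.and_le_right (by norm_num)
theorem a1_lt (n : ℕ) : a1 n < 4 := by
  have : a1 n = (n >>> 2) &&& 3 := rfl
  rw [this]; exact lt_of_le_of_lt Nat.and_le_right (by norm_num)
theorem a2_lt (n : ℕ) : a2 n < 4 := by
  have : a2 n = (n >>> 4) &&& 3 := rfl
  rw [this]; exact lt_of_le_of_lt Nat.and_le_right (by norm_num)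

theorem all6 {f : ℕ → ℕ → ℕ → ℕ → ℕ → ℕ → Bool} {k : ℕ}
    (h : allLt k (fun a => allLt k (fun b => allLt k (fun c => allLt k (fun d => allLt k (fun e => allLt k
      (fun g => f a b c d e g)))))) = true)
    {y : Fin 6 → ℕ} (hy : ∀ i, y i < k) : f (y 0) (y 1) (y 2) (y 3) (y 4) (y 5) = true :=
  allLt_iff.mp (allLt_iff.mp (allLt_iff.mp (allLt_iff.mp (allLt_iff.mp (allLt_iff.mp h _ (hy 0)) _ (hy 1)) _ (hy 2))
    _ (hy 3)) _ (hy 4)) _ (hy 5)

def decF (a b c d e g : ℕ) : Bool := cond (chk a b c d e g)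
  (eqw (a0 (dc a b c)) (a1 (dc a b c)) (a2 (dc a b c)) a b c d e g) true

theorem dec_all : allLt 4 (fun a => allLt 4 (fun b => allLt 4 (fun c => allLt 4 (fun d => allLt 4 (fun e => allLt 4
      (fun g => decF a b c d e g)))))) = true := by
  decide +kernel

theorem eqw_iff {a b c : ℕ} {y : Fin 6 → ℕ} : eqw a b c (y 0) (y 1) (y 2) (y 3) (y 4) (y 5) = true ↔
    ∀ i : Fin 6, y i = wd a b c i := by
  unfold eqw
  rw [cond_false_eq, cond_false_eq, cond_false_eq, cond_false_eq, cond_false_eq]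
  constructor
  · rintro ⟨h0, h1, h2, h3, h4, h5⟩ i
    fin_cases i
    · exact (Nat.eq_of_beq_eq_true h0).symm
    · exact (Nat.eq_of_beq_eq_true h1).symm
    · exact (Nat.eq_of_beq_eq_true h2).symm
    · exact (Nat.eq_of_beq_eq_true h3).symm
    · exact (Nat.eq_of_beq_eq_true h4).symm
    · exact (Nat.eq_of_beq_eq_true h5).symm
  · intro h
    have k : ∀ {x y : ℕ}, y = x → Nat.beq x y = true := fun e => e ▸ Nat.beq_refl _
    exact ⟨k (h 0), k (h 1), k (h 2), k (h 3), k (h 4), k (h 5)⟩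

theorem chk_dec {y : Fin 6 → ℕ} (hy : ∀ i, y i < 4) (h : chk (y 0) (y 1) (y 2) (y 3) (y 4) (y 5) = true) :
    ∃ a b c, a < 4 ∧ b < 4 ∧ c < 4 ∧ ∀ i : Fin 6, y i = wd a b c i := by
  have h1 := all6 dec_all hy
  unfold decF at h1
  rw [h, cond_true, eqw_iff] at h1
  exact ⟨_, _, _, a0_lt _, a1_lt _, a2_lt _, h1⟩

theorem wd_chk_all : allLt 4 (fun a => allLt 4 (fun b => allLt 4 (fun c =>
    chk (wd a b c 0) (wd a b c 1) (wd a b c 2) (wd a b c 3) (wd a b c 4) (wd a b c 5)))) = true := by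
  decide +kernel

theorem wd_lt_all : allLt 4 (fun a => allLt 4 (fun b => allLt 4 (fun c => allLt 6 (fun i =>
    Nat.ble (wd a b c i) 3)))) = true := by
  decide +kernel

theorem wd_inj_all : allLt 4 (fun a => allLt 4 (fun b => allLt 4 (fun c =>
    Nat.beq (dc (wd a b c 0) (wd a b c 1) (wd a b c 2)) (Nat.add a (Nat.add (Nat.mul 4 b) (Nat.mul 16 c)))))) = true := by
  decide +kernel

def nz (a : ℕ) : ℕ := cond (Nat.beq a 0) 0 1

def wt (a b c : ℕ) : ℕ := Nat.add (nz (wd a b c 0)) (Nat.add (nz (wd a b c 1)) (Nat.add (nz (wd a b c 2))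
  (Nat.add (nz (wd a b c 3)) (Nat.add (nz (wd a b c 4)) (nz (wd a b c 5))))))

theorem wt_all : allLt 4 (fun a => allLt 4 (fun b => allLt 4 (fun c =>
    cond (Nat.beq (wt a b c) 4) true (cond (Nat.beq (wt a b c) 6) true
      (cond (Nat.beq a 0) (cond (Nat.beq b 0) (Nat.beq c 0) false) false))))) = true := by
  decide +kernel

/-! ### the field -/

section
variable {F : Type*} [Field F] [Fintype F] [DecidableEq F] (ω : F)

/-- the element with a given number -/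
def T : ℕ → F
  | 0 => 0 | 1 => 1 | 2 => ω | 3 => ω ^ 2 | _ => 0

variable {ω}

theorem two_eq_zero (hF : Fintype.card F = 4) : (2 : F) = 0 := by
  have h := Nat.cast_card_eq_zero F
  rw [hF] at h
  have h4 : (2 : F) * 2 = 0 := by
    have e : ((4 : ℕ) : F) = 2 * 2 := by norm_num
    rw [← e]; exact h
  exact mul_self_eq_zero.mp h4

theorem T_lt_mul (hω : ω ^ 2 + ω + 1 = 0) {a b : ℕ} (ha : a < 4) (hb : b < 4) :
    T ω (ml a b) = T ω a * T ω b := by
  have h3 : ω ^ 3 = 1 := by linear_combination (ω - 1) * hω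
  interval_cases a <;> interval_cases b
  · show (0 : F) = 0 * 0; ring
  · show (0 : F) = 0 * 1; ring
  · show (0 : F) = 0 * ω; ring
  · show (0 : F) = 0 * ω ^ 2; ring
  · show (0 : F) = 1 * 0; ring
  · show (1 : F) = 1 * 1; ring
  · show ω = 1 * ω; ring
  · show ω ^ 2 = 1 * ω ^ 2; ring
  · show (0 : F) = ω * 0; ring
  · show ω = ω * 1; ring
  · show ω ^ 2 = ω * ω; ring
  · show (1 : F) = ω * ω ^ 2; linear_combination -h3
  · show (0 : F) = ω ^ 2 * 0; ring
  · show ω ^ 2 = ω ^ 2 * 1; ring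
  · show (1 : F) = ω ^ 2 * ω; linear_combination -h3
  · show ω = ω ^ 2 * ω ^ 2; linear_combination -ω * h3

theorem T_lt_add (hF : Fintype.card F = 4) (hω : ω ^ 2 + ω + 1 = 0) {a b : ℕ} (ha : a < 4) (hb : b < 4) :
    T ω (ad a b) = T ω a + T ω b := by
  have h2 := two_eq_zero hF
  interval_cases a <;> interval_cases b
  · show (0 : F) = 0 + 0; ring
  · show (1 : F) = 0 + 1; ring
  · show ω = 0 + ω; ring
  · show ω ^ 2 = 0 + ω ^ 2; ring
  · show (1 : F) = 1 + 0; ring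
  · show (0 : F) = 1 + 1; linear_combination -h2
  · show ω ^ 2 = 1 + ω; linear_combination hω - (1 + ω) * h2
  · show ω = 1 + ω ^ 2; linear_combination -hω + ω * h2
  · show ω = ω + 0; ring
  · show ω ^ 2 = ω + 1; linear_combination hω - (1 + ω) * h2
  · show (0 : F) = ω + ω; linear_combination -ω * h2
  · show (1 : F) = ω + ω ^ 2; linear_combination -hω + h2
  · show ω ^ 2 = ω ^ 2 + 0; ring
  · show ω = ω ^ 2 + 1; linear_combination -hω + ω * h2
  · show (1 : F) = ω ^ 2 + ω; linear_combination -hω + h2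
  · show (0 : F) = ω ^ 2 + ω ^ 2; linear_combination -ω ^ 2 * h2

theorem T_inj (hF : Fintype.card F = 4) (hω : ω ^ 2 + ω + 1 = 0) {a b : ℕ} (ha : a < 4) (hb : b < 4)
    (h : T ω a = T ω b) : a = b := by
  have h2 := two_eq_zero hF
  have h01 : (0 : F) ≠ 1 := zero_ne_one
  have h0w : (0 : F) ≠ ω := by
    intro e; rw [← e] at hω
    apply h01; linear_combination -hω
  have h0w2 : (0 : F) ≠ ω ^ 2 := by
    intro e
    exact h0w (by rw [eq_comm, ← pow_eq_zero_iff (n := 2) (by norm_num)]; exact e.symm)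
  have h1w : (1 : F) ≠ ω := by
    intro e; rw [← e] at hω
    apply h01; linear_combination -hω + h2
  have h1w2 : (1 : F) ≠ ω ^ 2 := by
    intro e; rw [← e] at hω
    apply h0w; linear_combination -hω + h2
  have hww2 : ω ≠ ω ^ 2 := by
    intro e; rw [← e] at hω
    apply h01; linear_combination -hω + ω * h2
  interval_cases a <;> interval_cases b <;> first
    | rfl
    | exact (h01 h).elim | exact (h01 h.symm).elim
    | exact (h0w h).elim | exact (h0w h.symm).elim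
    | exact (h0w2 h).elim | exact (h0w2 h.symm).elim
    | exact (h1w h).elim | exact (h1w h.symm).elim
    | exact (h1w2 h).elim | exact (h1w2 h.symm).elim
    | exact (hww2 h).elim | exact (hww2 h.symm).elim

theorem T_surj (hF : Fintype.card F = 4) (hω : ω ^ 2 + ω + 1 = 0) (x : F) : ∃ a, a < 4 ∧ T ω a = x := by
  have h1 : ((Finset.range 4).image (T ω)) = Finset.univ := by
    apply Finset.eq_univ_of_card
    rw [Finset.card_image_of_injOn, Finset.card_range, hF]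
    intro a ha b hb e
    exact T_inj hF hω (Finset.mem_range.mp ha) (Finset.mem_range.mp hb) e
  have h2 : x ∈ (Finset.range 4).image (T ω) := by rw [h1]; exact Finset.mem_univ x
  obtain ⟨a, ha, e⟩ := Finset.mem_image.mp h2
  exact ⟨a, Finset.mem_range.mp ha, e⟩

theorem exists_num (hF : Fintype.card F = 4) (hω : ω ^ 2 + ω + 1 = 0) (x : Fin 6 → F) :
    ∃ y : Fin 6 → ℕ, (∀ i, y i < 4) ∧ ∀ i, T ω (y i) = x i := by
  choose y hy h using fun i => T_surj hF hω (x i)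
  exact ⟨y, hy, h⟩

theorem ml_lt {a b : ℕ} (ha : a < 4) (hb : b < 4) : ml a b < 4 := by
  interval_cases a <;> interval_cases b <;> decide

theorem ad_lt {a b : ℕ} (ha : a < 4) (hb : b < 4) : ad a b < 4 := by
  interval_cases a <;> interval_cases b <;> decide

theorem gn_lt_all : allLt 3 (fun j => allLt 6 (fun i => Nat.ble (gn j i) 3)) = true := by decide +kernel

theorem gn_lt {j i : ℕ} (hj : j < 3) (hi : i < 6) : gn j i < 4 :=
  Nat.lt_succ_of_le (Nat.le_of_ble_eq_true (allLt_iff.mp (allLt_iff.mp gn_lt_all j hj) i hi))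

variable (ω) in
/-- generators of the hexacode -/
def gv (j : ℕ) : Fin 6 → F := fun i => T ω (gn j i)

theorem gv0 : gv ω 0 = ![ω, ω ^ 2, ω ^ 2, ω, ω ^ 2, ω] := by
  funext i; fin_cases i <;> rfl
theorem gv1 : gv ω 1 = ![ω ^ 2, ω, ω, ω ^ 2, ω ^ 2, ω] := by
  funext i; fin_cases i <;> rfl
theorem gv2 : gv ω 2 = ![ω ^ 2, ω, ω ^ 2, ω, ω, ω ^ 2] := by
  funext i; fin_cases i <;> rfl

theorem hexacode_eq : hexacode F ω = Submodule.span F {gv ω 0, gv ω 1, gv ω 2} := by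
  rw [gv0, gv1, gv2]; rfl

theorem T_wd (hF : Fintype.card F = 4) (hω : ω ^ 2 + ω + 1 = 0) {a b c : ℕ} (ha : a < 4) (hb : b < 4) (hc : c < 4)
    (i : Fin 6) : T ω (wd a b c i) = T ω a * gv ω 0 i + T ω b * gv ω 1 i + T ω c * gv ω 2 i := by
  have g0 := gn_lt (show 0 < 3 by norm_num) i.2
  have g1 := gn_lt (show 1 < 3 by norm_num) i.2
  have g2 := gn_lt (show 2 < 3 by norm_num) i.2
  unfold wd gv
  rw [T_lt_add hF hω (ad_lt (ml_lt ha g0) (ml_lt hb g1)) (ml_lt hc g2), T_lt_add hF hω (ml_lt ha g0) (ml_lt hb g1),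
    T_lt_mul hω ha g0, T_lt_mul hω hb g1, T_lt_mul hω hc g2]

theorem mem_hexacode_iff (hF : Fintype.card F = 4) (hω : ω ^ 2 + ω + 1 = 0) {x : Fin 6 → F} :
    x ∈ hexacode F ω ↔ ∃ a b c, a < 4 ∧ b < 4 ∧ c < 4 ∧ ∀ i : Fin 6, x i = T ω (wd a b c i) := by
  rw [hexacode_eq, Submodule.mem_span_triple]
  constructor
  · rintro ⟨a, b, c, rfl⟩
    obtain ⟨a', ha, rfl⟩ := T_surj hF hω a
    obtain ⟨b', hb, rfl⟩ := T_surj hF hω b
    obtain ⟨c', hc, rfl⟩ := T_surj hF hω c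
    refine ⟨a', b', c', ha, hb, hc, fun i => ?_⟩
    rw [T_wd hF hω ha hb hc]
    rfl
  · rintro ⟨a, b, c, ha, hb, hc, h⟩
    refine ⟨T ω a, T ω b, T ω c, ?_⟩
    funext i
    rw [h i, T_wd hF hω ha hb hc]
    rfl

theorem wd_lt {a b c : ℕ} (ha : a < 4) (hb : b < 4) (hc : c < 4) (i : Fin 6) : wd a b c i < 4 :=
  Nat.lt_succ_of_le (Nat.le_of_ble_eq_true (allLt_iff.mp (allLt_iff.mp (allLt_iff.mp (allLt_iff.mp wd_lt_all a ha)
    b hb) c hc) i i.2))

theorem mem_iff_chk (hF : Fintype.card F = 4) (hω : ω ^ 2 + ω + 1 = 0) {y : Fin 6 → ℕ} (hy : ∀ i, y i < 4) :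
    (fun i => T ω (y i)) ∈ hexacode F ω ↔ chk (y 0) (y 1) (y 2) (y 3) (y 4) (y 5) = true := by
  rw [mem_hexacode_iff hF hω]
  constructor
  · rintro ⟨a, b, c, ha, hb, hc, h⟩
    have e : ∀ i, y i = wd a b c i := fun i => T_inj hF hω (hy i) (wd_lt ha hb hc i) (h i)
    rw [e 0, e 1, e 2, e 3, e 4, e 5]
    exact allLt_iff.mp (allLt_iff.mp (allLt_iff.mp wd_chk_all a ha) b hb) c hc
  · intro h
    obtain ⟨a, b, c, ha, hb, hc, e⟩ := chk_dec hy h
    exact ⟨a, b, c, ha, hb, hc, fun i => by rw [e i]⟩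

variable (ω) in
/-- the word with a given number -/
def wrd (n : ℕ) : Fin 6 → F := fun i => T ω (wd (a0 n) (a1 n) (a2 n) i)

theorem decomp_all : allLt 4 (fun a => allLt 4 (fun b => allLt 4 (fun c =>
    cond (Nat.beq (a0 (Nat.add a (Nat.add (Nat.mul 4 b) (Nat.mul 16 c)))) a)
    (cond (Nat.beq (a1 (Nat.add a (Nat.add (Nat.mul 4 b) (Nat.mul 16 c)))) b)
    (Nat.beq (a2 (Nat.add a (Nat.add (Nat.mul 4 b) (Nat.mul 16 c)))) c) false) false))) = true := by
  decide +kernel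

theorem comp_all : allLt 64 (fun n => Nat.beq (Nat.add (a0 n) (Nat.add (Nat.mul 4 (a1 n)) (Nat.mul 16 (a2 n)))) n)
    = true := by
  decide +kernel

theorem mem_hexacode_iff' (hF : Fintype.card F = 4) (hω : ω ^ 2 + ω + 1 = 0) {x : Fin 6 → F} :
    x ∈ hexacode F ω ↔ ∃ n < 64, wrd ω n = x := by
  rw [mem_hexacode_iff hF hω]
  constructor
  · rintro ⟨a, b, c, ha, hb, hc, h⟩
    have h1 := allLt_iff.mp (allLt_iff.mp (allLt_iff.mp decomp_all a ha) b hb) c hc
    obtain ⟨h2, h3⟩ := cond_false_eq.mp h1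
    obtain ⟨h3, h4⟩ := cond_false_eq.mp h3
    refine ⟨Nat.add a (Nat.add (Nat.mul 4 b) (Nat.mul 16 c)), ?_, ?_⟩
    · show a + (4 * b + 16 * c) < 64
      omega
    · funext i
      rw [wrd, Nat.eq_of_beq_eq_true h2, Nat.eq_of_beq_eq_true h3, Nat.eq_of_beq_eq_true h4, h i]
  · rintro ⟨n, hn, rfl⟩
    exact ⟨_, _, _, a0_lt n, a1_lt n, a2_lt n, fun i => rfl⟩

theorem wrd_inj (hF : Fintype.card F = 4) (hω : ω ^ 2 + ω + 1 = 0) {n m : ℕ} (hn : n < 64) (hm : m < 64)
    (h : wrd ω n = wrd ω m) : n = m := by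
  have e : ∀ i : Fin 6, wd (a0 n) (a1 n) (a2 n) i = wd (a0 m) (a1 m) (a2 m) i := fun i =>
    T_inj hF hω (wd_lt (a0_lt n) (a1_lt n) (a2_lt n) i) (wd_lt (a0_lt m) (a1_lt m) (a2_lt m) i) (congrFun h i)
  have k : ∀ {n : ℕ}, n < 64 → dc (wd (a0 n) (a1 n) (a2 n) 0) (wd (a0 n) (a1 n) (a2 n) 1)
      (wd (a0 n) (a1 n) (a2 n) 2) = n := by
    intro n hn
    have h1 := allLt_iff.mp (allLt_iff.mp (allLt_iff.mp wd_inj_all _ (a0_lt n)) _ (a1_lt n)) _ (a2_lt n)
    rw [Nat.eq_of_beq_eq_true h1, Nat.eq_of_beq_eq_true (allLt_iff.mp comp_all n hn)]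
  rw [← k hn, ← k hm]
  exact congr (congr (congrArg dc (e 0)) (e 1)) (e 2)

theorem nz_eq (a : ℕ) : nz a = if a = 0 then 0 else 1 := by
  cases a <;> rfl

theorem card_wrd (hF : Fintype.card F = 4) (hω : ω ^ 2 + ω + 1 = 0) (n : ℕ) :
    (Finset.univ.filter fun i => wrd ω n i ≠ 0).card = wt (a0 n) (a1 n) (a2 n) := by
  have h : ∀ i : Fin 6, wrd ω n i ≠ 0 ↔ wd (a0 n) (a1 n) (a2 n) i ≠ 0 := by
    intro i
    apply not_congr
    constructor
    · intro e
      exact T_inj hF hω (wd_lt (a0_lt n) (a1_lt n) (a2_lt n) i) (by norm_num) (by rw [← wrd.eq_1]; exact e)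
    · intro e
      show T ω _ = 0
      rw [e]; rfl
  rw [Finset.filter_congr (fun i _ => h i), Finset.card_filter, Fin.sum_univ_six]
  have h1 : ∀ a : ℕ, (if a ≠ 0 then 1 else 0) = nz a := by
    intro a; cases a <;> rfl
  rw [h1, h1, h1, h1, h1, h1]
  show _ = nz _ + (nz _ + (nz _ + (nz _ + (nz _ + nz _))))
  simp only [add_assoc]
  rfl

theorem card_hexacode (hF : Fintype.card F = 4) (hω : ω ^ 2 + ω + 1 = 0) : Nat.card ↥(hexacode F ω) = 64 := by
  have e : (hexacode F ω : Set (Fin 6 → F)) = wrd ω '' (Finset.range 64 : Set ℕ) := by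
    ext x
    rw [SetLike.mem_coe, mem_hexacode_iff' hF hω]
    simp
  rw [← SetLike.coe_sort_coe, e, Nat.card_image_of_injOn]
  · simp
  · intro a ha b hb h
    simp only [Finset.coe_range, Set.mem_Iio] at ha hb
    exact wrd_inj hF hω ha hb h

theorem count_hexacode (hF : Fintype.card F = 4) (hω : ω ^ 2 + ω + 1 = 0) (k : ℕ) :
    {x : Fin 6 → F | x ∈ hexacode F ω ∧ (Finset.univ.filter fun i => x i ≠ 0).card = k}.ncard =
      ((List.range 64).filter fun n => Nat.beq (wt (a0 n) (a1 n) (a2 n)) k).length := by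
  have e : {x : Fin 6 → F | x ∈ hexacode F ω ∧ (Finset.univ.filter fun i => x i ≠ 0).card = k} =
      wrd ω '' (((List.range 64).filter fun n => Nat.beq (wt (a0 n) (a1 n) (a2 n)) k).toFinset : Set ℕ) := by
    ext x
    constructor
    · rintro ⟨h1, h2⟩
      obtain ⟨n, hn, rfl⟩ := (mem_hexacode_iff' hF hω).mp h1
      rw [card_wrd hF hω] at h2
      refine ⟨n, ?_, rfl⟩
      rw [Finset.mem_coe, List.mem_toFinset, List.mem_filter, List.mem_range]
      exact ⟨hn, by rw [h2]; exact Nat.beq_refl k⟩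
    · rintro ⟨n, hn, rfl⟩
      rw [Finset.mem_coe, List.mem_toFinset, List.mem_filter, List.mem_range] at hn
      refine ⟨(mem_hexacode_iff' hF hω).mpr ⟨n, hn.1, rfl⟩, ?_⟩
      rw [card_wrd hF hω]
      exact Nat.eq_of_beq_eq_true hn.2
  rw [e, Set.ncard_image_of_injOn, Set.ncard_coe_finset, List.toFinset_card_of_nodup]
  · exact (List.nodup_range).filter _
  · intro a ha b hb h
    rw [Finset.mem_coe, List.mem_toFinset, List.mem_filter, List.mem_range] at ha hb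
    exact wrd_inj hF hω ha.1 hb.1 h

theorem count4 : ((List.range 64).filter fun n => Nat.beq (wt (a0 n) (a1 n) (a2 n)) 4).length = 45 := by decide +kernel
theorem count6 : ((List.range 64).filter fun n => Nat.beq (wt (a0 n) (a1 n) (a2 n)) 6).length = 18 := by decide +kernel

theorem S1610_main (hF : Fintype.card F = 4) (hω : ω ^ 2 + ω + 1 = 0) :
    Nat.card ↥(hexacode F ω) = 64 ∧ (∀ x ∈ hexacode F ω, x ≠ 0 →
      (Finset.univ.filter fun i => x i ≠ 0).card = 4 ∨ (Finset.univ.filter fun i => x i ≠ 0).card = 6) ∧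
    {x : Fin 6 → F | x ∈ hexacode F ω ∧ (Finset.univ.filter fun i => x i ≠ 0).card = 4}.ncard = 45 ∧
    {x : Fin 6 → F | x ∈ hexacode F ω ∧ (Finset.univ.filter fun i => x i ≠ 0).card = 6}.ncard = 18 := by
  refine ⟨card_hexacode hF hω, ?_, ?_, ?_⟩
  · intro x hx hx0
    obtain ⟨n, hn, rfl⟩ := (mem_hexacode_iff' hF hω).mp hx
    rw [card_wrd hF hω]
    have h1 := allLt_iff.mp (allLt_iff.mp (allLt_iff.mp wt_all _ (a0_lt n)) _ (a1_lt n)) _ (a2_lt n)
    cases h4 : Nat.beq (wt (a0 n) (a1 n) (a2 n)) 4 with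
    | true => exact Or.inl (Nat.eq_of_beq_eq_true h4)
    | false =>
      cases h6 : Nat.beq (wt (a0 n) (a1 n) (a2 n)) 6 with
      | true => exact Or.inr (Nat.eq_of_beq_eq_true h6)
      | false =>
        exfalso
        rw [h4, h6, cond_false, cond_false, cond_false_eq, cond_false_eq] at h1
        apply hx0
        funext i
        show T ω (wd (a0 n) (a1 n) (a2 n) i) = 0
        rw [Nat.eq_of_beq_eq_true h1.1, Nat.eq_of_beq_eq_true h1.2.1, Nat.eq_of_beq_eq_true h1.2.2]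
        fin_cases i <;> rfl
  · rw [count_hexacode hF hω, count4]
  · rw [count_hexacode hF hω, count6]

/-! ### monomial automorphisms -/

theorem monomialMap_add (σ : Equiv.Perm (Fin 6)) (c : Fin 6 → Fˣ) (x y : Fin 6 → F) :
    monomialMap σ c (x + y) = monomialMap σ c x + monomialMap σ c y := by
  funext i; simp [monomialMap, mul_add]

theorem monomialMap_smul (σ : Equiv.Perm (Fin 6)) (c : Fin 6 → Fˣ) (a : F) (x : Fin 6 → F) :
    monomialMap σ c (a • x) = a • monomialMap σ c x := by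
  funext i; simp [monomialMap, mul_left_comm]

variable (ω) in
/-- preservation of the code -/
def Pres (σ : Equiv.Perm (Fin 6)) (c : Fin 6 → Fˣ) : Prop := ∀ x ∈ hexacode F ω, monomialMap σ c x ∈ hexacode F ω

theorem pres_iff {σ : Equiv.Perm (Fin 6)} {c : Fin 6 → Fˣ} :
    Pres ω σ c ↔ ∀ j < 3, monomialMap σ c (gv ω j) ∈ hexacode F ω := by
  constructor
  · intro h j hj
    apply h
    rw [hexacode_eq]
    apply Submodule.subset_span
    interval_cases j <;> simp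
  · intro h x hx
    rw [hexacode_eq, Submodule.mem_span_triple] at hx
    obtain ⟨a, b, c', rfl⟩ := hx
    rw [monomialMap_add, monomialMap_add, monomialMap_smul, monomialMap_smul, monomialMap_smul]
    exact Submodule.add_mem _ (Submodule.add_mem _ (Submodule.smul_mem _ _ (h 0 (by norm_num)))
      (Submodule.smul_mem _ _ (h 1 (by norm_num)))) (Submodule.smul_mem _ _ (h 2 (by norm_num)))

def chk1 (s k : Fin 6 → ℕ) (j : ℕ) : Bool :=
  chk (ml (k 0) (gn j (s 0))) (ml (k 1) (gn j (s 1))) (ml (k 2) (gn j (s 2))) (ml (k 3) (gn j (s 3)))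
    (ml (k 4) (gn j (s 4))) (ml (k 5) (gn j (s 5)))

def chk3 (s k : Fin 6 → ℕ) : Bool := cond (chk1 s k 0) (cond (chk1 s k 1) (chk1 s k 2) false) false

theorem pres_iff_chk (hF : Fintype.card F = 4) (hω : ω ^ 2 + ω + 1 = 0) {σ : Equiv.Perm (Fin 6)} {c : Fin 6 → Fˣ}
    {k : Fin 6 → ℕ} (hk : ∀ i, k i < 4) (hkc : ∀ i, T ω (k i) = c i) :
    Pres ω σ c ↔ chk3 (fun i => (σ.symm i : Fin 6).val) k = true := by
  have h1 : ∀ j < 3, (monomialMap σ c (gv ω j) ∈ hexacode F ω ↔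
      chk1 (fun i => (σ.symm i : Fin 6).val) k j = true) := by
    intro j hj
    have e : monomialMap σ c (gv ω j) = fun i => T ω (ml (k i) (gn j (σ.symm i))) := by
      funext i
      rw [T_lt_mul hω (hk i) (gn_lt hj (σ.symm i).2), hkc]
      rfl
    rw [e, mem_iff_chk hF hω (fun i => ml_lt (hk i) (gn_lt hj (σ.symm i).2))]
    rfl
  rw [pres_iff]
  unfold chk3
  rw [cond_false_eq, cond_false_eq]
  constructor
  · intro h
    exact ⟨(h1 0 (by norm_num)).mp (h 0 (by norm_num)), (h1 1 (by norm_num)).mp (h 1 (by norm_num)),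
      (h1 2 (by norm_num)).mp (h 2 (by norm_num))⟩
  · rintro ⟨h2, h3, h4⟩ j hj
    interval_cases j
    · exact (h1 0 (by norm_num)).mpr h2
    · exact (h1 1 (by norm_num)).mpr h3
    · exact (h1 2 (by norm_num)).mpr h4

/-- numbers of the units -/
theorem exists_unit_num (hF : Fintype.card F = 4) (hω : ω ^ 2 + ω + 1 = 0) (c : Fin 6 → Fˣ) :
    ∃ k : Fin 6 → ℕ, (∀ i, k i < 3) ∧ ∀ i, T ω (k i + 1) = c i := by
  obtain ⟨y, hy, h⟩ := exists_num hF hω (fun i => (c i : F))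
  have h0 : ∀ i, y i ≠ 0 := by
    intro i e
    have := h i
    rw [e] at this
    exact (c i).ne_zero this.symm
  refine ⟨fun i => y i - 1, fun i => ?_, fun i => ?_⟩
  · have := hy i; have := h0 i
    show y i - 1 < 3
    omega
  · have e : y i - 1 + 1 = y i := Nat.succ_pred_eq_of_pos (Nat.pos_of_ne_zero (h0 i))
    show T ω (y i - 1 + 1) = c i
    rw [e, h i]

def vec (a b c d e g : ℕ) : Fin 6 → ℕ := ![a, b, c, d, e, g]

def diagF (a b c d e g : ℕ) : Bool :=
  cond (chk3 (fun i => i.val) (vec (Nat.succ a) (Nat.succ b) (Nat.succ c) (Nat.succ d) (Nat.succ e) (Nat.succ g)))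
    (cond (Nat.beq a b) (cond (Nat.beq a c) (cond (Nat.beq a d) (cond (Nat.beq a e) (Nat.beq a g) false) false) false)
      false) true

theorem diag_all : allLt 3 (fun a => allLt 3 (fun b => allLt 3 (fun c => allLt 3 (fun d => allLt 3 (fun e => allLt 3
      (fun g => diagF a b c d e g)))))) = true := by
  decide +kernel

def swF (a b c d e g : ℕ) : Bool :=
  not (chk3 (fun i => (Equiv.swap (0 : Fin 6) 1 i).val)
    (vec (Nat.succ a) (Nat.succ b) (Nat.succ c) (Nat.succ d) (Nat.succ e) (Nat.succ g)))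

theorem sw_all : allLt 3 (fun a => allLt 3 (fun b => allLt 3 (fun c => allLt 3 (fun d => allLt 3 (fun e => allLt 3
      (fun g => swF a b c d e g)))))) = true := by
  decide +kernel

theorem vec_eq (k : Fin 6 → ℕ) : vec (k 0) (k 1) (k 2) (k 3) (k 4) (k 5) = k := by
  funext i; fin_cases i <;> rfl

theorem diag_const (hF : Fintype.card F = 4) (hω : ω ^ 2 + ω + 1 = 0) {c : Fin 6 → Fˣ} (h : Pres ω 1 c) :
    ∀ i j, c i = c j := by
  obtain ⟨k, hk, hkc⟩ := exists_unit_num hF hω c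
  rw [pres_iff_chk hF hω (k := fun i => k i + 1) (fun i => by have := hk i; omega) hkc] at h
  have h1 := all6 diag_all hk
  unfold diagF at h1
  have e : vec (Nat.succ (k 0)) (Nat.succ (k 1)) (Nat.succ (k 2)) (Nat.succ (k 3)) (Nat.succ (k 4))
      (Nat.succ (k 5)) = fun i => k i + 1 := vec_eq (fun i => k i + 1)
  rw [e] at h1
  have h2 : chk3 (fun i => i.val) (fun i => k i + 1) = true := h
  rw [h2, cond_true, cond_false_eq, cond_false_eq, cond_false_eq, cond_false_eq] at h1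
  obtain ⟨e1, e2, e3, e4, e5⟩ := h1
  have all : ∀ i, k i = k 0 := by
    intro i
    fin_cases i
    · rfl
    · exact (Nat.eq_of_beq_eq_true e1).symm
    · exact (Nat.eq_of_beq_eq_true e2).symm
    · exact (Nat.eq_of_beq_eq_true e3).symm
    · exact (Nat.eq_of_beq_eq_true e4).symm
    · exact (Nat.eq_of_beq_eq_true e5).symm
  intro i j
  apply Units.ext
  rw [← hkc, ← hkc, all i, all j]

theorem not_swap (hF : Fintype.card F = 4) (hω : ω ^ 2 + ω + 1 = 0) (c : Fin 6 → Fˣ) :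
    ¬ Pres ω (Equiv.swap 0 1) c := by
  intro h
  obtain ⟨k, hk, hkc⟩ := exists_unit_num hF hω c
  rw [pres_iff_chk hF hω (k := fun i => k i + 1) (fun i => by have := hk i; omega) hkc] at h
  have h1 := all6 sw_all hk
  unfold swF at h1
  have e : vec (Nat.succ (k 0)) (Nat.succ (k 1)) (Nat.succ (k 2)) (Nat.succ (k 3)) (Nat.succ (k 4))
      (Nat.succ (k 5)) = fun i => k i + 1 := vec_eq (fun i => k i + 1)
  rw [e] at h1
  have h2 : chk3 (fun i => (Equiv.swap (0 : Fin 6) 1 i).val) (fun i => k i + 1) = true := h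
  rw [h2] at h1
  exact absurd h1 (by decide)

/-- scalars for the 3-cycles -/
def ktL : List ℕ := [
  0, 0, 0, 0, 0, 0, 0, 0, 2901, 3669, 1461, 1509, 0, 3669,
  0, 2901, 2925, 2937, 0, 2901, 3669, 0, 3801, 3741, 0, 1509, 1725, 1977,
  0, 1461, 0, 1461, 3561, 2541, 1509, 0, 0, 0, 3669, 2901, 1509, 1461,
  0, 0, 0, 0, 0, 0, 2901, 0, 0, 3669, 2541, 1977, 3669, 0,
  2901, 0, 3561, 1725, 1461, 0, 3741, 2937, 0, 1509, 1509, 0, 3801, 2925,
  1461, 0, 0, 2901, 0, 3669, 1725, 3561, 3669, 0, 0, 2901, 3741, 3801,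
  0, 0, 0, 0, 0, 0, 2901, 3669, 0, 0, 2733, 4089, 2925, 2541,
  0, 4089, 0, 2733, 2937, 1977, 0, 2733, 4089, 0, 0, 3669, 2901, 0,
  1977, 2541, 2901, 0, 3669, 0, 2937, 2925, 3669, 2901, 0, 0, 4089, 2733,
  0, 0, 0, 0, 0, 0, 3801, 3561, 2733, 0, 0, 4089, 3741, 1725,
  4089, 0, 2733, 0, 0, 1461, 2925, 3801, 0, 1509, 1509, 0, 2541, 3561,
  0, 1461, 1725, 3741, 0, 2733, 0, 4089, 1977, 2937, 4089, 0, 0, 2733,
  0, 0, 0, 0, 0, 0, 1461, 1509, 2733, 4089, 0, 0, 0, 1509,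
  2937, 3741, 1461, 0, 1461, 0, 1977, 1725, 1509, 0, 3561, 3801, 0, 4089,
  2733, 0, 2541, 2925, 2733, 0, 4089, 0, 1509, 1461, 4089, 2733, 0, 0,
  0, 0, 0, 0, 0, 0]

def kt (a b c i : ℕ) : ℕ := Nat.land (Nat.shiftRight (ktL.getD (Nat.add (Nat.mul 36 a) (Nat.add (Nat.mul 6 b) c)) 0)
  (Nat.mul 2 i)) 3

theorem kt_ok : ∀ a b c : Fin 6, a ≠ b → a ≠ c → b ≠ c →
    chk3 (fun i => ((Equiv.swap a b * Equiv.swap b c).symm i : Fin 6).val) (fun i => kt a b c i) = true ∧
      ∀ i : Fin 6, 0 < kt a b c i ∧ kt a b c i < 4 := by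
  decide +kernel

theorem pres_one : Pres ω 1 (1 : Fin 6 → Fˣ) := by
  intro x hx
  have : monomialMap 1 (1 : Fin 6 → Fˣ) x = x := by
    funext i
    show ((1 : Fˣ) : F) * x i = x i
    rw [Units.val_one, one_mul]
  rw [this]; exact hx

theorem monomialMap_comp (σ τ : Equiv.Perm (Fin 6)) (c d : Fin 6 → Fˣ) (x : Fin 6 → F) :
    monomialMap σ c (monomialMap τ d x) = monomialMap (σ * τ) (fun i => c i * d (σ.symm i)) x := by
  funext i
  simp only [monomialMap, Units.val_mul]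
  rw [mul_assoc]
  rfl

theorem pres_mul {σ τ : Equiv.Perm (Fin 6)} {c d : Fin 6 → Fˣ} (h : Pres ω σ c) (h' : Pres ω τ d) :
    Pres ω (σ * τ) (fun i => c i * d (σ.symm i)) := by
  intro x hx
  rw [← monomialMap_comp]
  exact h _ (h' _ hx)

theorem monomialMap_inj (σ : Equiv.Perm (Fin 6)) (c : Fin 6 → Fˣ) : Function.Injective (monomialMap (F := F) σ c) := by
  intro x y h
  funext i
  have h1 := congrFun h (σ i)
  simp only [monomialMap, Equiv.symm_apply_apply] at h1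
  exact mul_left_cancel₀ (c (σ i)).ne_zero h1

/-- a monomial map preserving the code maps it onto itself -/
theorem pres_surj {σ : Equiv.Perm (Fin 6)} {c : Fin 6 → Fˣ} (h : Pres ω σ c) {x : Fin 6 → F}
    (hx : x ∈ hexacode F ω) : ∃ y ∈ hexacode F ω, monomialMap σ c y = x := by
  have hf : Function.Injective (fun y : hexacode F ω => (⟨monomialMap σ c y.1, h y.1 y.2⟩ : hexacode F ω)) := by
    intro a b e
    exact Subtype.ext (monomialMap_inj σ c (congrArg Subtype.val e))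
  have hs := Finite.surjective_of_injective hf
  obtain ⟨y, hy⟩ := hs ⟨x, hx⟩
  exact ⟨y.1, y.2, congrArg Subtype.val hy⟩

theorem pres_inv {σ : Equiv.Perm (Fin 6)} {c : Fin 6 → Fˣ} (h : Pres ω σ c) :
    Pres ω σ⁻¹ (fun i => (c (σ i))⁻¹) := by
  intro x hx
  obtain ⟨y, hy, rfl⟩ := pres_surj h hx
  have : monomialMap σ⁻¹ (fun i => (c (σ i))⁻¹) (monomialMap σ c y) = y := by
    funext i
    simp only [monomialMap]
    have e1 : (σ⁻¹).symm i = σ i := rfl
    rw [e1, Equiv.symm_apply_apply, Units.inv_mul_cancel_left]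
  rw [this]
  exact hy

variable (ω) in
/-- the group of permutation parts -/
def HG : Subgroup (Equiv.Perm (Fin 6)) where
  carrier := {σ | ∃ c, Pres ω σ c}
  one_mem' := ⟨1, pres_one⟩
  mul_mem' := by
    rintro σ τ ⟨c, hc⟩ ⟨d, hd⟩
    exact ⟨_, pres_mul hc hd⟩
  inv_mem' := by
    rintro σ ⟨c, hc⟩
    exact ⟨_, pres_inv hc⟩

theorem three_cycle_mem (hF : Fintype.card F = 4) (hω : ω ^ 2 + ω + 1 = 0) {σ : Equiv.Perm (Fin 6)}
    (h : σ.IsThreeCycle) : σ ∈ HG ω := by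
  obtain ⟨a, ha⟩ : σ.support.Nonempty := by
    rw [← Finset.card_pos, h.card_support]; norm_num
  have h1 := (h.eq_swap_mul_swap_iff_mem_support).mpr ha
  have h2 := (h.nodup_iff_mem_support).mpr ha
  simp only [List.nodup_cons, List.mem_cons, List.not_mem_nil, or_false, not_or, not_false_eq_true,
    List.nodup_nil, and_true] at h2
  obtain ⟨⟨n1, n2⟩, n3⟩ := h2
  obtain ⟨h3, h4⟩ := kt_ok a (σ a) (σ (σ a)) n1 n2 n3
  have hne : ∀ i : Fin 6, T ω (kt a (σ a) (σ (σ a)) i) ≠ 0 := by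
    intro i e
    have := T_inj hF hω (h4 i).2 (show 0 < 4 by norm_num) e
    have := (h4 i).1
    omega
  refine ⟨fun i => Units.mk0 _ (hne i), ?_⟩
  rw [pres_iff_chk hF hω (k := fun i => kt a (σ a) (σ (σ a)) i) (fun i => (h4 i).2) (fun i => rfl)]
  rw [← h1] at h3
  exact h3

theorem HG_eq (hF : Fintype.card F = 4) (hω : ω ^ 2 + ω + 1 = 0) : HG ω = alternatingGroup (Fin 6) := by
  have hle : alternatingGroup (Fin 6) ≤ HG ω := by
    rw [← Equiv.Perm.closure_three_cycles_eq_alternating, Subgroup.closure_le]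
    intro σ hσ
    exact three_cycle_mem hF hω hσ
  apply le_antisymm _ hle
  intro σ hσ
  by_contra hn
  rw [Equiv.Perm.mem_alternatingGroup] at hn
  have h1 : Equiv.Perm.sign σ = -1 := (Int.units_eq_one_or _).resolve_left hn
  have h2 : σ⁻¹ * Equiv.swap 0 1 ∈ HG ω := by
    apply hle
    rw [Equiv.Perm.mem_alternatingGroup, map_mul, map_inv, h1, Equiv.Perm.sign_swap (by decide)]
    rfl
  have h3 := (HG ω).mul_mem hσ h2
  rw [mul_inv_cancel_left] at h3
  obtain ⟨c, hc⟩ := h3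
  exact not_swap hF hω c hc

theorem pres_scalar (hω : ω ^ 2 + ω + 1 = 0) {σ : Equiv.Perm (Fin 6)} {c : Fin 6 → Fˣ} (h : Pres ω σ c) (u : Fˣ) :
    Pres ω σ (fun i => u * c i) := by
  intro x hx
  have : monomialMap σ (fun i => u * c i) x = (u : F) • monomialMap σ c x := by
    funext i
    simp [monomialMap, mul_assoc]
  rw [this]
  exact Submodule.smul_mem _ _ (h x hx)

theorem card_units' (hF : Fintype.card F = 4) : Nat.card Fˣ = 3 := by
  rw [Nat.card_units, Nat.card_eq_fintype_card, hF]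

theorem card_A6 : Nat.card (alternatingGroup (Fin 6)) = 360 := by
  rw [nat_card_alternatingGroup, Nat.card_fin]
  rfl

theorem card_pres (hF : Fintype.card F = 4) (hω : ω ^ 2 + ω + 1 = 0) :
    Nat.card {f : Equiv.Perm (Fin 6) × (Fin 6 → Fˣ) // Pres ω f.1 f.2} = 1080 := by
  have hex : ∀ σ : alternatingGroup (Fin 6), ∃ c, Pres ω σ.1 c := by
    intro σ
    have : σ.1 ∈ HG ω := by rw [HG_eq hF hω]; exact σ.2
    exact this
  choose c hc using hex
  have e : (alternatingGroup (Fin 6) × Fˣ) ≃ {f : Equiv.Perm (Fin 6) × (Fin 6 → Fˣ) // Pres ω f.1 f.2} := by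
    refine Equiv.ofBijective (fun p => ⟨(p.1.1, fun i => p.2 * c p.1 i), pres_scalar hω (hc p.1) p.2⟩) ⟨?_, ?_⟩
    · rintro ⟨σ, u⟩ ⟨τ, v⟩ h
      have h1 := congrArg (fun z => z.1.1) h
      have h2 := congrArg (fun z => z.1.2) h
      simp only at h1 h2
      have h1' : σ = τ := Subtype.ext h1
      subst h1'
      have h3 := congrFun h2 0
      simp only [mul_left_inj] at h3
      rw [h3]
    · rintro ⟨⟨σ, d⟩, hd⟩
      have hσ : σ ∈ alternatingGroup (Fin 6) := by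
        rw [← HG_eq hF hω]; exact ⟨d, hd⟩
      have h1 := pres_mul hd (pres_inv (hc ⟨σ, hσ⟩))
      rw [mul_inv_cancel] at h1
      have h2 := diag_const hF hω h1
      refine ⟨(⟨σ, hσ⟩, d 0 * (c ⟨σ, hσ⟩ 0)⁻¹), ?_⟩
      apply Subtype.ext
      refine Prod.ext rfl ?_
      funext i
      show d 0 * (c ⟨σ, hσ⟩ 0)⁻¹ * c ⟨σ, hσ⟩ i = d i
      have h3 := h2 0 i
      simp only [Equiv.apply_symm_apply] at h3
      rw [h3, inv_mul_cancel_right]
  rw [← Nat.card_congr e, Nat.card_prod, card_A6, card_units' hF]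

end

end Cfsg.Agent.Lib.HexacodeB
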