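import Cfsg.Agent.Lib.H72GrAut
import Mathlib

/-!
Lie rings with an automorphism of prime order whose fixed points are killed by an integer (helper2).
-/

set_option autoImplicit false
open scoped TensorProduct

namespace Cfsg.Agent.Lib.HigmanAlmost

open Cfsg.Agent.Lib.H72Kreknin

section Eigen

variable {p : ℕ} [hp : Fact p.Prime] {R : Type*} [CommRing R] {L : Type*} [LieRing L] [LieAlgebra R L] (φ : L →ₗ[R] L)
variable (A : Type*) [CommRing A] [Algebra R A] {ζ : A}

theorem nsmul_eq_zero_of_mem_eig_zero [Module.Free R A] {N : ℕ} (hfix : ∀ x, φ x = x → N • x = 0)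
    {x : A ⊗[R] L} (hx : x ∈ eig (p := p) φ A ζ 0) : N • x = 0 := by
  rw [mem_eig, ZMod.val_zero, pow_zero, one_smul] at hx
  set g : L →ₗ[R] L := φ - LinearMap.id with hg
  have hgx : g.lTensor A x = 0 := by
    rw [hg, LinearMap.lTensor_sub, LinearMap.sub_apply, LinearMap.lTensor_id, LinearMap.id_apply, sub_eq_zero]
    exact hx
  have hfac : (LinearMap.range g).subtype ∘ₗ g.rangeRestrict = g := by
    ext x; rfl
  have h1 : (g.rangeRestrict).lTensor A x = 0 := by
    have hinj := Module.Flat.lTensor_preserves_injective_linearMap (M := A) (LinearMap.range g).subtype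
      (Submodule.injective_subtype _)
    apply hinj
    rw [map_zero, ← LinearMap.comp_apply, ← LinearMap.lTensor_comp, hfac, hgx]
  -- the factorization of multiplication by `N`
  have hker : LinearMap.ker g ≤ LinearMap.ker ((N : R) • (LinearMap.id : L →ₗ[R] L)) := by
    intro y hy
    rw [LinearMap.mem_ker] at hy ⊢
    rw [LinearMap.smul_apply, LinearMap.id_apply, Nat.cast_smul_eq_nsmul]
    apply hfix
    rwa [hg, LinearMap.sub_apply, LinearMap.id_apply, sub_eq_zero] at hy
  set h : LinearMap.range g →ₗ[R] L := ((LinearMap.ker g).liftQ _ hker) ∘ₗ g.quotKerEquivRange.symm.toLinearMap with hh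
  have h2 : h ∘ₗ g.rangeRestrict = (N : R) • (LinearMap.id : L →ₗ[R] L) := by
    ext y
    rw [LinearMap.comp_apply, hh, LinearMap.comp_apply]
    have e1 : g.quotKerEquivRange.symm.toLinearMap (g.rangeRestrict y) = (LinearMap.ker g).mkQ y := by
      rw [LinearEquiv.coe_toLinearMap, LinearEquiv.symm_apply_eq]
      apply Subtype.ext
      rfl
    rw [e1]
    rfl
  have h3 : ((N : R) • (LinearMap.id : L →ₗ[R] L)).lTensor A x = 0 := by
    rw [← h2, LinearMap.lTensor_comp, LinearMap.comp_apply, h1, map_zero]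
  rw [LinearMap.lTensor_smul, LinearMap.smul_apply, LinearMap.lTensor_id, LinearMap.id_apply,
    Nat.cast_smul_eq_nsmul] at h3
  exact h3

theorem p_smul_mem_iSup_eig [IsDomain A] (hζ : IsPrimitiveRoot ζ p) (hφp : ∀ x, φ^[p] x = x) (y : A ⊗[R] L) :
    p • y ∈ ⨆ j, eig (p := p) φ A ζ j := by
  set Φ := φ.baseChange A with hΦ
  have hp1 : 1 < p := hp.out.one_lt
  have hΦp : ∀ x, (Φ ^ p) x = x := by
    intro x
    have h1 : φ ^ p = LinearMap.id := by
      ext x
      rw [Module.End.pow_apply, hφp, LinearMap.id_apply]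
    have h2 : Φ ^ p = (φ ^ p).baseChange A := by rw [hΦ, LinearMap.baseChange_pow]
    rw [h2, h1, LinearMap.baseChange_id, LinearMap.id_apply]
  set ζ' := ζ ^ (p - 1) with hζ'
  have hζζ : ζ * ζ' = 1 := by
    rw [hζ', ← pow_succ', Nat.sub_add_cancel hp1.le, hζ.pow_eq_one]
  have hζ1 : IsPrimitiveRoot ζ' p := by
    apply hζ.pow_of_coprime
    exact (Nat.coprime_self_sub_left hp1.le).2 (Nat.coprime_one_left p)
  rw [← Nat.cast_smul_eq_nsmul A]
  have hproj : ∀ j : ZMod p, (∑ k ∈ Finset.range p, ζ' ^ (j.val * k) • (Φ ^ k) y) ∈ eig (p := p) φ A ζ j := by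
    intro j
    rw [mem_eig, ← hΦ, map_sum, Finset.smul_sum]
    have h1 : ∀ k ∈ Finset.range p, Φ (ζ' ^ (j.val * k) • (Φ ^ k) y) =
        ζ ^ j.val • (ζ' ^ (j.val * (k + 1)) • (Φ ^ (k + 1)) y) := by
      intro k _
      rw [map_smul, pow_succ' Φ, Module.End.mul_apply, smul_smul, mul_add, mul_one, pow_add, mul_comm (ζ' ^ (j.val * k)),
        ← mul_assoc, ← mul_pow, hζζ, one_pow, one_mul]
    rw [Finset.sum_congr rfl h1, ← Finset.smul_sum, ← Finset.smul_sum]
    congr 1
    set g : ℕ → A ⊗[R] L := fun k => ζ' ^ (j.val * k) • (Φ ^ k) y with hg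
    have h2 : g p = g 0 := by
      rw [hg]
      simp only [mul_zero, pow_zero, Module.End.one_apply]
      rw [hΦp, mul_comm, pow_mul, hζ1.pow_eq_one, one_pow]
    have h3 := Finset.sum_range_succ g p
    rw [Finset.sum_range_succ', h2] at h3
    exact add_right_cancel h3
  have hsum : (p : A) • y = ∑ j : ZMod p, ∑ k ∈ Finset.range p, ζ' ^ (j.val * k) • (Φ ^ k) y := by
    rw [Finset.sum_comm]
    have h1 : ∀ k ∈ Finset.range p, (∑ j : ZMod p, ζ' ^ (j.val * k) • (Φ ^ k) y) = if k = 0 then (p : A) • y else 0 := by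
      intro k hk
      rw [← Finset.sum_smul]
      have h2 : (∑ j : ZMod p, ζ' ^ (j.val * k)) = ∑ j ∈ Finset.range p, (ζ' ^ k) ^ j := by
        rw [Finset.sum_range]
        refine Fintype.sum_equiv (ZMod.finEquiv p).toEquiv.symm _ _ ?_
        intro j
        rw [← pow_mul ζ' k, mul_comm k]
        congr 2
        obtain ⟨i, rfl⟩ := (ZMod.finEquiv p).toEquiv.surjective j
        rw [Equiv.symm_apply_apply]
        cases p with
        | zero => exact absurd hp1 (by omega)
        | succ p => rfl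
      rw [h2]
      split_ifs with h
      · subst h
        rw [pow_zero, pow_zero, Module.End.one_apply]
        simp
      · have hk' := Finset.mem_range.1 hk
        have h3 : IsPrimitiveRoot (ζ' ^ k) p := hζ1.pow_of_coprime k
          (Nat.Coprime.symm ((Nat.Prime.coprime_iff_not_dvd hp.out).2 fun hd => by
            have := Nat.le_of_dvd (Nat.pos_of_ne_zero h) hd
            omega))
        rw [h3.geom_sum_eq_zero hp1, zero_smul]
    rw [Finset.sum_congr rfl h1, Finset.sum_ite_eq' (Finset.range p) 0 (fun _ => (p : A) • y),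
      if_pos (Finset.mem_range.2 hp.out.pos)]
  rw [hsum]
  exact sum_mem fun j _ => AddSubgroup.mem_iSup_of_mem j (hproj j)

/-- the family of multiples -/
def mulF {M : Type*} [LieRing M] {n : ℕ} (N : ℕ) (E : ZMod n → AddSubgroup M) : ZMod n → AddSubgroup M :=
  fun i => (E i).map (nsmulAddMonoidHom N)

theorem mem_mulF {M : Type*} [LieRing M] {n : ℕ} {N : ℕ} {E : ZMod n → AddSubgroup M} {i : ZMod n} {y : M} :
    y ∈ mulF N E i ↔ ∃ x ∈ E i, N • x = y := by
  rw [mulF, AddSubgroup.mem_map]; rfl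

theorem graded_mulF {M : Type*} [LieRing M] {n : ℕ} {N : ℕ} {E : ZMod n → AddSubgroup M}
    (hE : ∀ i j, ∀ x ∈ E i, ∀ y ∈ E j, ⁅x, y⁆ ∈ E (i + j)) (h0 : ∀ x ∈ E 0, N • x = 0) : Graded (mulF N E) := by
  constructor
  · intro i j x hx y hy
    obtain ⟨x', hx', rfl⟩ := mem_mulF.1 hx
    obtain ⟨y', hy', rfl⟩ := mem_mulF.1 hy
    rw [nsmul_lie, lie_nsmul]
    exact mem_mulF.2 ⟨_, nsmul_mem (hE i j x' hx' y' hy') N, rfl⟩
  · rw [eq_bot_iff]
    intro x hx
    obtain ⟨x', hx', rfl⟩ := mem_mulF.1 hx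
    rw [h0 x' hx']
    exact zero_mem _

theorem lcsL_smul_mem {M : Type*} [LieRing M] {n : ℕ} {E : ZMod n → AddSubgroup M} {c : ℕ}
    (hc : ∀ y : M, c • y ∈ ⨆ j, E j) (k : ℕ) {z : M} (hz : z ∈ lcsL M k) :
    c ^ (k + 1) • z ∈ ⨆ i, itF E E k i := by
  induction k generalizing z with
  | zero => rw [itF_zero, zero_add, pow_one]; exact hc z
  | succ k ih =>
    change z ∈ AddSubgroup.closure {z | ∃ x ∈ lcsL M k, ∃ y : M, ⁅x, y⁆ = z} at hz
    induction hz using AddSubgroup.closure_induction with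
    | mem z hz =>
      obtain ⟨x, hx, y, rfl⟩ := hz
      have hx' := ih hx
      have hy := hc y
      have e1 : c ^ (k + 1 + 1) • ⁅x, y⁆ = ⁅c ^ (k + 1) • x, c • y⁆ := by
        rw [nsmul_lie, lie_nsmul, smul_smul, ← pow_succ]
      rw [e1]
      generalize c ^ (k + 1) • x = x' at hx'
      generalize c • y = y' at hy
      refine AddSubgroup.iSup_induction _ (C := fun x => ⁅x, y'⁆ ∈ ⨆ i, itF E E (k + 1) i) hx' ?_ ?_ ?_
      · intro i x hx
        refine AddSubgroup.iSup_induction _ (C := fun y => ⁅x, y⁆ ∈ ⨆ i, itF E E (k + 1) i) hy ?_ ?_ ?_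
        · intro j y hy
          apply AddSubgroup.mem_iSup_of_mem (i + j)
          rw [itF_succ]
          exact mem_brF rfl hx hy
        · rw [lie_zero]; exact zero_mem _
        · intro a b ha hb
          rw [lie_add]; exact add_mem ha hb
      · rw [zero_lie]; exact zero_mem _
      · intro a b ha hb
        rw [add_lie]; exact add_mem ha hb
    | zero => rw [smul_zero]; exact zero_mem _
    | add a b _ _ ha hb => rw [smul_add]; exact add_mem ha hb
    | neg a _ ha => rw [smul_neg]; exact neg_mem ha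

end Eigen

/-- the bound of Kreknin and Kostrikin -/
def hh (p : ℕ) : ℕ := ∑ j ∈ Finset.range (2 ^ (p - 1) - 1), (p - 1) ^ j

theorem lcsL_smul_eq_zero {p : ℕ} [hp : Fact p.Prime] {L : Type*} [LieRing L] (φ : L →ₗ[ℤ] L)
    (hφ : ∀ x y, φ ⁅x, y⁆ = ⁅φ x, φ y⁆) {N : ℕ} (hfix : ∀ x, φ x = x → N • x = 0) (hφp : ∀ x, φ^[p] x = x)
    {x : L} (hx : x ∈ lcsL L (hh p)) : (p * N) ^ (hh p + 1) • x = 0 := by
  haveI : NeZero p := ⟨hp.out.ne_zero⟩
  obtain ⟨K, _, _, ζ, hζ⟩ := exists_ring p
  let A := NumberField.RingOfIntegers K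
  have hG : Graded (mulF N (eig (p := p) φ A ζ)) := by
    apply graded_mulF
    · intro i j x hx y hy
      rw [mem_eig] at hx hy ⊢
      rw [baseChange_lie φ A hφ, hx, hy, smul_lie, lie_smul, smul_smul, pow_val_add A hζ]
    · intro x hx
      exact nsmul_eq_zero_of_mem_eig_zero (p := p) φ A hfix hx
  have hc : ∀ y : A ⊗[ℤ] L, (p * N) • y ∈ ⨆ j, mulF N (eig (p := p) φ A ζ) j := by
    intro y
    have h1 := p_smul_mem_iSup_eig (p := p) φ A hζ hφp y
    have h2 : N • (p • y) ∈ (⨆ j, eig (p := p) φ A ζ j).map (nsmulAddMonoidHom N) :=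
      AddSubgroup.mem_map_of_mem (nsmulAddMonoidHom N) h1
    rw [AddSubgroup.map_iSup, smul_smul, mul_comm N p] at h2
    exact h2
  have h1 := one_tmul_mem (R := ℤ) A (hh p) hx
  have h2 := lcsL_smul_mem hc (hh p) h1
  have h3 : (⨆ i, itF (mulF N (eig (p := p) φ A ζ)) (mulF N (eig (p := p) φ A ζ)) (hh p) i) = ⊥ := by
    rw [eq_bot_iff]
    refine iSup_le fun i => ?_
    rw [hh, itF_eq_bot hG i]
  rw [h3, AddSubgroup.mem_bot] at h2
  have h4 : (1 : A) ⊗ₜ[ℤ] ((p * N) ^ (hh p + 1) • x) = (1 : A) ⊗ₜ[ℤ] (0 : L) := by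
    rw [TensorProduct.tmul_zero, ← h2, TensorProduct.tmul_smul]
  exact Module.FaithfullyFlat.tensorProduct_mk_injective (A := ℤ) (B := A) L h4

end Cfsg.Agent.Lib.HigmanAlmost
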