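import Cfsg.Agent.Lib.SylU3b
import Cfsg.Prelude.Def_LieRecognition

/-!
# Sylow 2-subgroups of `PSU(3, 2^n)` are Suzuki 2-groups (helper6)
-/

set_option autoImplicit false
set_option linter.all false

namespace Cfsg.Agent.Lib.HigmanPSU

open Cfsg Cfsg.Agent.Lib.SylU3 Cfsg.Agent.Lib.ClUnitary

theorem isSuzuki_of_hom {P : Type*} [Group P] {C : Type*} [Group C] [IsCyclic C] (φ : C →* MulAut P)
    (hfin : Finite P) (hp : IsPGroup 2 P) (hna : ∃ x y : P, x * y ≠ y * x)
    (htwo : ∃ x y : P, x ≠ y ∧ x ≠ 1 ∧ x * x = 1 ∧ y ≠ 1 ∧ y * y = 1)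
    (hreg : ∀ x y : P, x ≠ 1 → x * x = 1 → y ≠ 1 → y * y = 1 → ∃! c : C, φ c x = y) :
    IsSuzukiTwoGroup P := by
  refine ⟨hfin, hp, hna, htwo, φ.range, ?_, ?_⟩
  · exact isCyclic_of_surjective φ.rangeRestrict φ.rangeRestrict_surjective
  · intro x y hx1 hx hy1 hy
    obtain ⟨c, hc, hc2⟩ := hreg x y hx1 hx hy1 hy
    refine ⟨⟨φ c, c, rfl⟩, hc, ?_⟩
    rintro ⟨_, d, rfl⟩ hd
    have : d = c := hc2 d hd
    subst this; rfl

theorem isSuzuki_congr {P Q : Type*} [Group P] [Group Q] (e : P ≃* Q) (h : IsSuzukiTwoGroup P) :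
    IsSuzukiTwoGroup Q := by
  obtain ⟨hfin, hp, ⟨a, b, hab⟩, ⟨x, y, hxy, hx1, hx, hy1, hy⟩, K, hK, hreg⟩ := h
  haveI := hK
  have h1 : ∀ x : Q, x ≠ 1 → e.symm x ≠ 1 := fun x hx h => hx (by
    rw [← e.apply_symm_apply x, h, map_one])
  have h2 : ∀ x : Q, x * x = 1 → e.symm x * e.symm x = 1 := fun x hx => by
    rw [← map_mul, hx, map_one]
  refine isSuzuki_of_hom ((MulAut.congr e).toMonoidHom.comp K.subtype) (Finite.of_equiv _ e.toEquiv)
    (hp.of_surjective e.toMonoidHom e.surjective) ⟨e a, e b, ?_⟩ ⟨e x, e y, ?_, ?_, ?_, ?_, ?_⟩ ?_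
  · rw [← map_mul, ← map_mul]; exact fun h => hab (e.injective h)
  · exact fun h => hxy (e.injective h)
  · intro h; exact hx1 (e.injective (by rw [h, map_one]))
  · rw [← map_mul, hx, map_one]
  · intro h; exact hy1 (e.injective (by rw [h, map_one]))
  · rw [← map_mul, hy, map_one]
  · intro x y hx1 hx hy1 hy
    obtain ⟨k, hk, hk2⟩ := hreg (e.symm x) (e.symm y) (h1 x hx1) (h2 x hx) (h1 y hy1) (h2 y hy)
    refine ⟨k, ?_, fun l hl => hk2 l ?_⟩
    · change e ((k : MulAut P) (e.symm x)) = y
      rw [hk, MulEquiv.apply_symm_apply]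
    · change e ((l : MulAut P) (e.symm x)) = y at hl
      rw [← hl, MulEquiv.symm_apply_apply]

variable {F : Type*} [Field F] [Fintype F] {q : ℕ}

/-- the units fixed by the Frobenius -/
def Cq (F : Type*) [Field F] (q : ℕ) : Subgroup Fˣ where
  carrier := {t | t ^ q = t}
  one_mem' := one_pow q
  mul_mem' := fun {a b} ha hb => by
    simp only [Set.mem_setOf_eq] at ha hb ⊢
    rw [mul_pow, ha, hb]
  inv_mem' := fun {a} ha => by
    simp only [Set.mem_setOf_eq] at ha ⊢
    rw [inv_pow, ha]

theorem Cd_smul {t a b : F} (ht : t ^ q = t) (h : Cd q a b) : Cd q (t * a) (t * t * b) := by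
  unfold Cd at *
  rw [mul_pow, mul_pow, mul_pow, ht]
  linear_combination t * t * h

theorem fixq (t : Cq F q) : ((t : Fˣ) : F) ^ q = ((t : Fˣ) : F) := by
  have := t.2
  have h2 : ((t : Fˣ) ^ q : Fˣ) = t := this
  rw [← Units.val_pow_eq_pow_val, h2]

/-- entries -/
theorem ent (hF : Fintype.card F = q ^ 2) (g : U3 hF) :
    ∃ h : Cd q ((g : GL (Fin 3) F).1 0 1) ((g : GL (Fin 3) F).1 0 2), g = el hF _ _ h := by
  obtain ⟨a, b, h, rfl⟩ := exists_el hF g
  exact ⟨h, rfl⟩

/-- the torus action -/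
def act (hF : Fintype.card F = q ^ 2) (t : Cq F q) (g : U3 hF) : U3 hF :=
  el hF _ _ (Cd_smul (fixq t) (ent hF g).choose)

theorem act_el (hF : Fintype.card F = q ^ 2) (t : Cq F q) {a b : F} (h : Cd q a b) :
    act hF t (el hF a b h) = el hF (((t : Fˣ) : F) * a) (((t : Fˣ) : F) * ((t : Fˣ) : F) * b)
      (Cd_smul (fixq t) h) := rfl

/-- the action as a homomorphism -/
def actHom (hF : Fintype.card F = q ^ 2) : Cq F q →* MulAut (U3 hF) where
  toFun t :=
    { toFun := act hF t
      invFun := act hF t⁻¹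
      left_inv := fun g => by
        obtain ⟨a, b, h, rfl⟩ := exists_el hF g
        rw [act_el, act_el]
        refine el_eq ?_ ?_
        · simp
        · have : ((t : Fˣ) : F) ≠ 0 := (t : Fˣ).ne_zero
          simp only [InvMemClass.coe_inv, Units.val_inv_eq_inv_val]
          field_simp
      right_inv := fun g => by
        obtain ⟨a, b, h, rfl⟩ := exists_el hF g
        rw [act_el, act_el]
        refine el_eq ?_ ?_
        · simp
        · have : ((t : Fˣ) : F) ≠ 0 := (t : Fˣ).ne_zero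
          simp only [InvMemClass.coe_inv, Units.val_inv_eq_inv_val]
          field_simp
      map_mul' := fun g g' => by
        obtain ⟨a, b, h, rfl⟩ := exists_el hF g
        obtain ⟨a', b', h', rfl⟩ := exists_el hF g'
        rw [act_el, act_el, el_mul, act_el, el_mul]
        refine el_eq (by ring) ?_
        rw [mul_pow, fixq t]; ring }
  map_one' := by
    ext1 g
    obtain ⟨a, b, h, rfl⟩ := exists_el hF g
    change act hF 1 (el hF a b h) = el hF a b h
    rw [act_el]
    refine el_eq ?_ ?_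
    · simp
    · simp
  map_mul' := fun s t => by
    ext1 g
    obtain ⟨a, b, h, rfl⟩ := exists_el hF g
    change act hF (s * t) (el hF a b h) = act hF s (act hF t (el hF a b h))
    rw [act_el, act_el, act_el]
    refine el_eq ?_ ?_
    · simp only [Subgroup.coe_mul, Units.val_mul]; ring
    · simp only [Subgroup.coe_mul, Units.val_mul]; ring

theorem actHom_el (hF : Fintype.card F = q ^ 2) (t : Cq F q) {a b : F} (h : Cd q a b) :
    actHom hF t (el hF a b h) = el hF (((t : Fˣ) : F) * a) (((t : Fˣ) : F) * ((t : Fˣ) : F) * b)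
      (Cd_smul (fixq t) h) := rfl

theorem isSuzuki (hF : Fintype.card F = q ^ 2) [CharP F 2] (hq : 3 ≤ q) :
    IsSuzukiTwoGroup (U3 hF) := by
  haveI : Fact (Nat.Prime 2) := ⟨Nat.prime_two⟩
  have hcd0 : ∀ b : F, Cd q 0 b ↔ b ^ q = b := by
    intro b
    unfold Cd
    rw [zero_mul, add_zero]
    constructor
    · intro h
      have h2 := CharTwo.add_self_eq_zero b
      linear_combination h - h2
    · intro h
      rw [h]
      exact CharTwo.add_self_eq_zero b
  refine isSuzuki_of_hom (actHom hF) inferInstance (isPGroup_U3 hF Nat.prime_two) ?_ ?_ ?_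
  · by_contra hcon
    push Not at hcon
    have h1 : Subgroup.center (U3 hF) = ⊤ := by
      rw [eq_top_iff]
      intro g _
      rw [Subgroup.mem_center_iff]
      intro x; exact hcon x g
    have h2 := card_center_U3 hF
    rw [h1, Subgroup.card_top, card_U3] at h2
    have h3 : q ^ 1 < q ^ 3 := Nat.pow_lt_pow_right (by omega) (by norm_num)
    rw [pow_one, h2] at h3
    exact lt_irrefl _ h3
  · -- the centre has order q ≥ 3
    have h1 := card_center_U3 hF
    haveI : Fintype (Subgroup.center (U3 hF)) := Fintype.ofFinite _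
    rw [Nat.card_eq_fintype_card] at h1
    obtain ⟨x, y, hx, hy, hxy⟩ : ∃ x y : Subgroup.center (U3 hF), x ≠ 1 ∧ y ≠ 1 ∧ x ≠ y := by
      classical
      have h3 : 2 < Fintype.card (Subgroup.center (U3 hF)) := by omega
      obtain ⟨a, b, c, hab, hac, hbc⟩ := Fintype.two_lt_card_iff.1 h3
      by_cases ha : a = 1
      · exact ⟨b, c, fun h => hab (ha.trans h.symm), fun h => hac (ha.trans h.symm), hbc⟩
      · by_cases hb : b = 1
        · exact ⟨a, c, ha, fun h => hbc (hb.trans h.symm), hac⟩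
        · exact ⟨a, b, ha, hb, hab⟩
    refine ⟨x, y, fun h => hxy (Subtype.ext h), fun h => hx (Subtype.ext h), ?_,
      fun h => hy (Subtype.ext h), ?_⟩
    · apply sq_of_mem_ker hF
      rw [← center_U3]; exact x.2
    · apply sq_of_mem_ker hF
      rw [← center_U3]; exact y.2
  · intro x y hx1 hx hy1 hy
    obtain ⟨a, b, h, rfl⟩ := exists_el hF x
    obtain ⟨a', b', h', rfl⟩ := exists_el hF y
    have ha := (sq_el hF h).1 hx
    have ha' := (sq_el hF h').1 hy
    subst ha; subst ha'
    have hb0 : b ≠ 0 := by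
      rintro rfl
      exact hx1 el_one
    have hb0' : b' ≠ 0 := by
      rintro rfl
      exact hy1 el_one
    have hbq := (hcd0 b).1 h
    have hbq' := (hcd0 b').1 h'
    -- square roots
    obtain ⟨t, ht⟩ : ∃ t : F, t * t = b' / b := by
      obtain ⟨t, ht⟩ := (frobeniusEquiv F 2).surjective (b' / b)
      refine ⟨t, ?_⟩
      rw [frobeniusEquiv_apply, frobenius_def, pow_two] at ht
      exact ht
    have hsq : ∀ u v : F, u * u = v * v → u = v := by
      intro u v huv
      apply (frobeniusEquiv F 2).injective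
      rw [frobeniusEquiv_apply, frobeniusEquiv_apply, frobenius_def, frobenius_def, pow_two, pow_two,
        huv]
    have ht0 : t ≠ 0 := by
      rintro rfl
      rw [mul_zero] at ht
      exact (div_ne_zero hb0' hb0) ht.symm
    have htq : t ^ q = t := by
      apply hsq
      rw [← mul_pow, ht, div_pow, hbq, hbq']
    refine ⟨⟨Units.mk0 t ht0, Units.ext (by simpa using htq)⟩, ?_, ?_⟩
    · change actHom hF _ (el hF 0 b h) = el hF 0 b' h'
      rw [actHom_el]
      refine el_eq (mul_zero _) ?_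
      change t * t * b = b'
      rw [ht, div_mul_cancel₀ _ hb0]
    · intro s hs
      change actHom hF s (el hF 0 b h) = el hF 0 b' h' at hs
      rw [actHom_el] at hs
      have h1 := (el_inj hs).2
      have h2 : ((s : Fˣ) : F) = t := by
        apply hsq
        rw [ht, eq_div_iff hb0, h1]
      apply Subtype.ext
      apply Units.ext
      exact h2

end Cfsg.Agent.Lib.HigmanPSU
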