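import Mathlib

/-! Homogeneous permutation groups: basic facts (helper13). -/

set_option autoImplicit false

namespace Cfsg.Agent.Lib.Homog

open MulAction
open scoped Pointwise

variable {G α : Type*} [Group G] [MulAction G α] [DecidableEq α]

lemma exists_smul {k : ℕ} (h : IsPretransitive G (Set.powersetCard α k)) {s t : Finset α}
    (hs : s.card = k) (ht : t.card = k) : ∃ g : G, g • s = t := by
  obtain ⟨g, hg⟩ := h.exists_smul_eq (⟨s, hs⟩ : Set.powersetCard α k) ⟨t, ht⟩
  refine ⟨g, ?_⟩
  have := congrArg (Subtype.val) hg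
  exact this

lemma pretransitive_of {k : ℕ} (h : ∀ s t : Finset α, s.card = k → t.card = k → ∃ g : G, g • s = t) :
    IsPretransitive G (Set.powersetCard α k) := by
  refine ⟨?_⟩
  rintro ⟨s, hs⟩ ⟨t, ht⟩
  obtain ⟨g, hg⟩ := h s t hs ht
  exact ⟨g, Subtype.ext hg⟩

lemma smul_pair (g : G) (a b : α) : g • ({a, b} : Finset α) = {g • a, g • b} := by
  simp [Finset.smul_finset_def, Finset.image_insert]

end Cfsg.Agent.Lib.Homog
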