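import Cfsg.Agent.Lib.BlockRing
import Cfsg.Agent.Lib.CharGalois
import Cfsg.Agent.Lib.CharCentral

/-!
# Integrality from local integrality of all conjugates (helper79)
-/

set_option autoImplicit false

namespace Cfsg.Agent.Lib.IntLocal

open Cfsg Cfsg.Agent.Lib.BlockRing Polynomial

/-- conjugate algebraic numbers are related by an endomorphism of `ℂ` -/
theorem exists_ringHom_root {z w : ℂ} (hz : IsIntegral ℚ z) (hw : aeval w (minpoly ℚ z) = 0) :
    ∃ σ : ℂ →+* ℂ, σ z = w := by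
  let K := IntermediateField.adjoin ℚ ((minpoly ℚ z).rootSet ℂ)
  have hsplit : Polynomial.IsSplittingField ℚ K (minpoly ℚ z) :=
    IntermediateField.adjoin_rootSet_isSplittingField (IsAlgClosed.splits _)
  have hn : Normal ℚ K := Normal.of_isSplittingField (minpoly ℚ z)
  have hmem : z ∈ K := IntermediateField.subset_adjoin ℚ _ (by
    rw [Polynomial.mem_rootSet]
    exact ⟨minpoly.ne_zero hz, minpoly.aeval ℚ z⟩)
  have hmem' : w ∈ K := IntermediateField.subset_adjoin ℚ _ (by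
    rw [Polynomial.mem_rootSet]
    exact ⟨minpoly.ne_zero hz, hw⟩)
  have hmin : minpoly ℚ (⟨z, hmem⟩ : K) = minpoly ℚ z :=
    (minpoly.algebraMap_eq (algebraMap K ℂ).injective (⟨z, hmem⟩ : K)).symm
  obtain ⟨σ, hσ⟩ := minpoly.exists_algEquiv_of_root' (K := ℚ) (L := K) (x := ⟨w, hmem'⟩)
    (y := ⟨z, hmem⟩) (Algebra.IsAlgebraic.isAlgebraic _) (by
      rw [hmin]
      apply (algebraMap K ℂ).injective
      rw [map_zero, ← aeval_algebraMap_apply]
      exact hw)
  obtain ⟨τ, hτ⟩ := CharGalois.exists_extension_of_endo (F := K) (σ : K →+* K)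
  refine ⟨τ, ?_⟩
  have h1 := hτ ⟨z, hmem⟩
  have h2 : τ z = ((σ ⟨z, hmem⟩ : K) : ℂ) := h1
  rw [h2, hσ]

/-- coefficients of a monic polynomial whose roots lie in a subring -/
theorem coeff_mem_of_roots (R : Subring ℂ) {P : ℚ[X]} (hP : P.Monic)
    (h : ∀ w : ℂ, aeval w P = 0 → w ∈ R) (i : ℕ) : ((P.coeff i : ℚ) : ℂ) ∈ R := by
  have h1 : P.map (algebraMap ℚ ℂ) = ((P.map (algebraMap ℚ ℂ)).roots.map (fun a => X - C a)).prod := by
    have h2 := (IsAlgClosed.splits (P.map (algebraMap ℚ ℂ))).eq_prod_roots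
    rw [(hP.map _).leadingCoeff, C_1, one_mul] at h2
    exact h2
  have h3 : P.map (algebraMap ℚ ℂ) ∈ lifts R.subtype := by
    rw [h1]
    apply Submonoid.multiset_prod_mem (lifts R.subtype).toSubmonoid
    intro f hf
    obtain ⟨a, ha, rfl⟩ := Multiset.mem_map.mp hf
    have h4 : aeval a P = 0 := by
      have h5 := (mem_roots'.mp ha).2
      rw [IsRoot.def, eval_map] at h5
      rw [aeval_def]; exact h5
    refine ⟨X - C ⟨a, h a h4⟩, ?_⟩
    simp
  have h4 := (lifts_iff_coeff_lifts _).mp h3 i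
  rw [coeff_map] at h4
  obtain ⟨r, hr⟩ := h4
  have h5 : ((P.coeff i : ℚ) : ℂ) = (r : ℂ) := by
    rw [Subring.subtype_apply] at hr
    rw [hr]; rfl
  rw [h5]
  exact r.2

/-- If `q^b ω` is an algebraic integer and all conjugates of `ω` are local integers at a prime above
`q`, then `ω` is an algebraic integer. -/
theorem isIntegral_of_local {q : ℕ} {M : Ideal AlgInt} (hM : IsPModular q M) {ω : ℂ} (b : ℕ)
    (h1 : IsIntegral ℤ ((q : ℂ) ^ b * ω)) (h2 : ∀ σ : ℂ →+* ℂ, MemLocalRing M (σ ω)) :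
    IsIntegral ℤ ω := by
  have := isPrime hM
  have hq0 : (q : ℂ) ≠ 0 := by exact_mod_cast hM.1.ne_zero
  have hqi : IsIntegral ℤ (q : ℂ) := by
    have := isIntegral_algebraMap (R := ℤ) (A := ℂ) (x := (q : ℤ))
    simpa using this
  have hQ : IsIntegral ℚ ω := by
    have h3 : IsIntegral ℚ ((q : ℂ) ^ b * ω) := h1.tower_top
    have h4 : IsIntegral ℚ (((q : ℂ) ^ b)⁻¹) := by
      have := isIntegral_algebraMap (R := ℚ) (A := ℂ) (x := ((q : ℚ) ^ b)⁻¹)
      simpa using this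
    have h5 := h4.mul h3
    rwa [inv_mul_cancel_left₀ (pow_ne_zero _ hq0)] at h5
  -- the subring
  let R : Subring ℂ :=
    { carrier := {z | MemLocalRing M z ∧ ∃ N : ℕ, IsIntegral ℤ ((q : ℂ) ^ N * z)}
      mul_mem' := by
        rintro x y ⟨hx, N, hN⟩ ⟨hy, N', hN'⟩
        refine ⟨loc_mul hx hy, N + N', ?_⟩
        have : (q : ℂ) ^ (N + N') * (x * y) = ((q : ℂ) ^ N * x) * ((q : ℂ) ^ N' * y) := by ring
        rw [this]; exact hN.mul hN'
      one_mem' := ⟨loc_one, 0, by simpa using isIntegral_one⟩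
      add_mem' := by
        rintro x y ⟨hx, N, hN⟩ ⟨hy, N', hN'⟩
        refine ⟨loc_add hx hy, N + N', ?_⟩
        have : (q : ℂ) ^ (N + N') * (x + y) =
            (q : ℂ) ^ N' * ((q : ℂ) ^ N * x) + (q : ℂ) ^ N * ((q : ℂ) ^ N' * y) := by ring
        rw [this]
        exact ((hqi.pow N').mul hN).add ((hqi.pow N).mul hN')
      zero_mem' := ⟨loc_zero, 0, by simpa using isIntegral_zero⟩
      neg_mem' := by
        rintro x ⟨hx, N, hN⟩
        refine ⟨loc_neg hx, N, ?_⟩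
        rw [mul_neg]; exact hN.neg }
  have hroots : ∀ w : ℂ, aeval w (minpoly ℚ ω) = 0 → w ∈ R := by
    intro w hw
    obtain ⟨σ, rfl⟩ := exists_ringHom_root hQ hw
    refine ⟨h2 σ, b, ?_⟩
    have h3 := h1.map (σ : ℂ →+* ℂ).toIntAlgHom
    simpa using h3
  have hcoeff := coeff_mem_of_roots R (minpoly.monic hQ) hroots
  -- rational elements of the subring are integers
  have hint : ∀ c : ℚ, ((c : ℚ) : ℂ) ∈ R → c ∈ Set.range (algebraMap ℤ ℚ) := by
    rintro c ⟨hc1, N, hc2⟩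
    have hqd : ¬ q ∣ c.den := by
      intro hd
      have h3 : MemLocalIdeal M ((c.den : ℕ) : ℂ) := (idl_natCast_iff hM _).mpr hd
      have h4 : MemLocalIdeal M ((c : ℂ) * (c.den : ℂ)) := idl_mul_left hc1 h3
      have h5 : (c : ℂ) * (c.den : ℂ) = ((c.num : ℤ) : ℂ) := by
        have := Rat.mul_den_eq_num c
        exact_mod_cast this
      rw [h5, idl_intCast_iff hM] at h4
      have h6 : q ∣ c.num.natAbs := Int.natCast_dvd.mp h4
      have h7 : q ∣ Nat.gcd c.num.natAbs c.den := Nat.dvd_gcd h6 hd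
      rw [c.reduced] at h7
      exact hM.1.one_lt.ne' (Nat.dvd_one.mp h7)
    obtain ⟨z, hz⟩ := CharCentral.exists_int_of_isIntegral_rat hc2 ((q : ℚ) ^ N * c) (by push_cast; rfl)
    have h3 : (q : ℚ) ^ N * c = z := by exact_mod_cast hz
    have h4 : (q : ℤ) ^ N * c.num = z * c.den := by
      have h5 : (q : ℚ) ^ N * (c * c.den) = z * c.den := by rw [← mul_assoc, h3]
      rw [Rat.mul_den_eq_num] at h5
      exact_mod_cast h5
    have h5 : c.den ∣ q ^ N * c.num.natAbs := by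
      have h6 := congrArg Int.natAbs h4
      rw [Int.natAbs_mul, Int.natAbs_mul, Int.natAbs_pow, Int.natAbs_natCast, Int.natAbs_natCast] at h6
      exact ⟨z.natAbs, by rw [h6, mul_comm]⟩
    have h6 : c.den ∣ q ^ N := c.reduced.symm.dvd_of_dvd_mul_right h5
    obtain ⟨j, -, hj⟩ := (Nat.dvd_prime_pow hM.1).mp h6
    have h7 : j = 0 := by
      by_contra h0
      apply hqd; rw [hj]; exact dvd_pow_self q h0
    rw [h7, pow_zero] at hj
    exact ⟨c.num, by
      rw [eq_intCast]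
      exact (Rat.den_eq_one_iff c).mp hj⟩
  have hlift : minpoly ℚ ω ∈ lifts (algebraMap ℤ ℚ) := by
    rw [lifts_iff_coeff_lifts]
    intro i
    exact hint _ (hcoeff i)
  obtain ⟨Q, hQ1, -, hQ2⟩ := lifts_and_natDegree_eq_and_monic hlift (minpoly.monic hQ)
  refine ⟨Q, hQ2, ?_⟩
  have h3 := minpoly.aeval ℚ ω
  rw [← hQ1, aeval_def, eval₂_map] at h3
  have h4 : (algebraMap ℚ ℂ).comp (algebraMap ℤ ℚ) = algebraMap ℤ ℂ := RingHom.ext_int _ _
  rw [h4] at h3
  exact h3

end Cfsg.Agent.Lib.IntLocal
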