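import Mathlib
import Cfsg.Agent.Lib.ClSpInv3

/-!
(helper67) Orders of isometry groups of nondegenerate symmetric bilinear forms in characteristic two.
-/

set_option autoImplicit false
set_option linter.unusedSectionVars false

namespace Cfsg.Agent.Lib.InvForm67

open Cfsg.Agent.Lib.ClIso Cfsg.Agent.Lib.ClSymp Cfsg.Agent.Lib.ClSymp2 Cfsg.Agent.Lib.ClStab Module
open Cfsg.Agent.Lib.ClSpInv Cfsg.Agent.Lib.ClSpInv2 Cfsg.Agent.Lib.ClSpInv3 Cfsg.Agent.Lib.ClSympOrd

universe u v
variable {F : Type u} [Field F] [Fintype F] [CharP F 2] {W : Type v} [AddCommGroup W] [Module F W] [FiniteDimensional F W]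
variable (Γ : W →ₗ[F] W →ₗ[F] F)

theorem card_odd (hsym : ∀ u v, Γ u v = Γ v u) (hnd : ∀ v, (∀ w, Γ v w = 0) → v = 0) {k : ℕ} (hk : finrank F W = 2 * k + 1) :
    Nat.card (isoGrp F (fun u v => Γ u v)) = Nat.card (Spg (sympForm (Fin k) F)) := by
  obtain ⟨T, hT⟩ := AltForm.exists_orthonormal_equiv exists_sq (2 * k + 1) W Γ hk hsym hnd (by
      intro _
      by_contra hcon
      push Not at hcon
      have := AltForm.even_finrank Γ hcon hnd
      rw [hk] at this
      exact Nat.not_even_iff_odd.2 ⟨k, rfl⟩ this)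
  have h := card_dot (F := F) (n := 2 * k + 1) ⟨k, rfl⟩
  have e : (2 * k + 1 - 1) / 2 = k := by omega
  rw [e] at h
  rw [← h]
  exact Nat.card_congr (isoGrpCongr (f := fun u v => Γ u v) (f' := fun u v => dotProduct u v) T (fun u v => (hT u v).symm)).toEquiv

omit [Fintype F] [FiniteDimensional F W] in
theorem sq_inj {a b : F} (h : a * a = b * b) : a = b := by
  have h2 : (a - b) ^ 2 = 0 := by linear_combination h - (a * b - b * b) * (CharTwo.two_eq_zero : (2 : F) = 0)
  exact sub_eq_zero.1 ((pow_eq_zero_iff two_ne_zero).1 h2)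

theorem exists_d (hsym : ∀ u v, Γ u v = Γ v u) (hnd : ∀ v, (∀ w, Γ v w = 0) → v = 0) :
    ∃ d : W, ∀ v, Γ v v = Γ d v * Γ d v := by
  choose sq hsq using fun v : W => exists_sq (F := F) (Γ v v)
  let s : W →ₗ[F] F :=
    { toFun := sq
      map_add' := by
        intro u v
        apply sq_inj
        rw [hsq]
        simp only [map_add, LinearMap.add_apply]
        rw [hsym v u]
        linear_combination - hsq u - hsq v + (Γ u v - sq u * sq v) * (CharTwo.two_eq_zero : (2 : F) = 0)
      map_smul' := by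
        intro c v
        apply sq_inj
        rw [hsq]
        simp only [map_smul, LinearMap.smul_apply, smul_eq_mul, RingHom.id_apply]
        linear_combination - c * c * hsq v }
  have hinj : Function.Injective Γ := by
    rw [← LinearMap.ker_eq_bot, LinearMap.ker_eq_bot']
    intro v hv
    exact hnd v fun w => LinearMap.congr_fun hv w
  have hsurj : Function.Surjective Γ := (LinearMap.injective_iff_surjective_of_finrank_eq_finrank (by
    exact (Subspace.dual_finrank_eq).symm)).1 hinj
  obtain ⟨d, hd⟩ := hsurj s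
  refine ⟨d, fun v => ?_⟩
  rw [hd]
  exact (hsq v).symm

theorem card_nonalt (hsym : ∀ u v, Γ u v = Γ v u) (hnd : ∀ v, (∀ w, Γ v w = 0) → v = 0) (hna : ∃ v, Γ v v ≠ 0)
    {k : ℕ} (hk : finrank F W = 2 * k + 2) :
    Nat.card (isoGrp F (fun u v => Γ u v)) = (Fintype.card F) ^ (2 * k + 1) * Nat.card (Spg (sympForm (Fin k) F)) := by
  classical
  have h20 : (2 : F) = 0 := CharTwo.two_eq_zero
  obtain ⟨d, hd⟩ := exists_d Γ hsym hnd
  have hdd : Γ d d = 0 := by
    by_contra h0
    have h1 : Γ d d = 1 := by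
      have := hd d
      exact mul_left_cancel₀ h0 (by rw [mul_one]; exact this.symm)
    let H := LinearMap.ker (Γ d)
    let ΓH : H →ₗ[F] H →ₗ[F] F := Γ.compl₁₂ H.subtype H.subtype
    have hΓH : ∀ x y : H, ΓH x y = Γ x y := fun x y => rfl
    have h2 := AltForm.even_finrank ΓH (by
      intro v
      rw [hΓH, hd]
      have : Γ d v = 0 := v.2
      rw [this, mul_zero]) (by
      intro v hv
      apply Subtype.ext
      apply hnd
      intro w
      have hw : Γ d (w - Γ d w • d) = 0 := by
        rw [map_sub, map_smul, h1, smul_eq_mul, mul_one, sub_self]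
      have h3 := hv ⟨w - Γ d w • d, hw⟩
      rw [hΓH] at h3
      have h4 : Γ v d = 0 := by rw [hsym]; exact v.2
      have h5 : Γ (v : W) (w - Γ d w • d) = Γ v w := by
        rw [map_sub, map_smul, h4, smul_zero, sub_zero]
      rw [← h5]; exact h3)
    have h3 := LinearMap.finrank_range_add_finrank_ker (Γ d)
    have h4 : finrank F (LinearMap.range (Γ d)) = 1 := by
      have : LinearMap.range (Γ d) = ⊤ := LinearMap.range_eq_top.2 (LinearMap.surjective (by
        intro h
        rw [h] at h1
        exact zero_ne_one h1))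
      rw [this, finrank_top, finrank_self]
    rw [h4, hk] at h3
    obtain ⟨j, hj⟩ := h2
    have : finrank F (LinearMap.ker (Γ d)) = j + j := hj
    omega
  have hd0 : d ≠ 0 := by
    rintro rfl
    obtain ⟨v, hv⟩ := hna
    apply hv
    rw [hd, map_zero, LinearMap.zero_apply, mul_zero]
  -- the alternating form
  let A : W →ₗ[F] W →ₗ[F] F := Γ + (LinearMap.mk₂ F (fun u v => Γ d u * Γ d v)
    (by intro u u' v; rw [map_add, add_mul]) (by intro c u v; rw [map_smul, smul_eq_mul, mul_assoc]; rfl)
    (by intro u v v'; rw [map_add, mul_add]) (by intro c u v; rw [map_smul, smul_eq_mul, smul_eq_mul]; ring))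
  have hA : ∀ u v, A u v = Γ u v + Γ d u * Γ d v := fun u v => rfl
  have hAalt : ∀ v, A v v = 0 := by
    intro v
    rw [hA, hd]; linear_combination (Γ d v * Γ d v) * h20
  have hAd : ∀ u, A d u = Γ d u := by
    intro u
    rw [hA, hdd, zero_mul, add_zero]
  have hAnd : ∀ v, (∀ w, A v w = 0) → v = 0 := by
    intro v hv
    have h1 : Γ d v = 0 := by
      have := hv d
      rw [hA, hdd, mul_zero, add_zero, hsym] at this
      exact this
    apply hnd
    intro w
    have := hv w
    rw [hA, h1, zero_mul, add_zero] at this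
    exact this
  have hB := isSymp_sympForm (l := Fin (k + 1)) (F := F)
  obtain ⟨e, he⟩ := AltForm.exists_isometry A hAalt hAnd (sympForm (Fin (k + 1)) F) hB.alt
    (fun v hv => by
      by_contra hne
      obtain ⟨w, hw⟩ := hB.nondeg v hne
      exact hw (hv w)) (by rw [hk]; simp; ring)
  obtain ⟨g0, hg0⟩ := trans_frame (F := F) (m := k + 1) (s := 1) (by omega) (fun _ => e d)
    (by
      rw [linearIndependent_unique_iff]
      intro h
      exact hd0 (e.map_eq_zero_iff.1 h)) (fun _ _ => hB.alt _)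
  have hg0' := hg0 0
  let e' : W ≃ₗ[F] (Fin (k + 1) ⊕ Fin (k + 1) → F) := e.trans (g0⁻¹ : Spg (sympForm (Fin (k + 1)) F)).1
  have he' : ∀ u v, sympForm (Fin (k + 1)) F (e' u) (e' v) = A u v := by
    intro u v
    rw [← he]
    exact Spg_apply (g0⁻¹) (e u) (e v)
  have hed : e' d = ee (Fin.castLE (by omega) (0 : Fin 1)) := by
    show ((g0⁻¹ : Spg (sympForm (Fin (k + 1)) F)) : (Fin (k + 1) ⊕ Fin (k + 1) → F) ≃ₗ[F] (Fin (k + 1) ⊕ Fin (k + 1) → F)) (e d) = _
    rw [← hg0', inv_apply_self']
  have hfix : ∀ g ∈ isoGrp F (fun u v => Γ u v), g d = d := by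
    intro g hg
    have h1 : ∀ v, Γ d (g v) = Γ d v := by
      intro v
      apply sq_inj
      rw [← hd, ← hd]
      exact hg v v
    have h2 : g d - d = 0 := by
      apply hnd
      intro w
      obtain ⟨w, rfl⟩ := g.surjective w
      rw [map_sub, LinearMap.sub_apply]
      have h3 : Γ (g d) (g w) = Γ d w := hg d w
      rw [h3, h1, sub_self]
    exact sub_eq_zero.1 h2
  have hiff : ∀ g : W ≃ₗ[F] W, g ∈ isoGrp F (fun u v => Γ u v) ↔ g ∈ isoGrp F (fun u v => A u v) ∧ g d = d := by
    intro g
    constructor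
    · intro hg
      refine ⟨fun u v => ?_, hfix g hg⟩
      have h1 : ∀ v, Γ d (g v) = Γ d v := by
        intro v
        have h2 : Γ (g d) (g v) = Γ d v := hg d v
        rwa [hfix g hg] at h2
      show A (g u) (g v) = A u v
      rw [hA, hA, h1, h1]
      have h3 : Γ (g u) (g v) = Γ u v := hg u v
      rw [h3]
    · rintro ⟨hg, hgd⟩ u v
      have h1 : ∀ v, Γ d (g v) = Γ d v := by
        intro v
        have h2 : A (g d) (g v) = A d v := hg d v
        rw [hgd, hAd, hAd] at h2
        exact h2
      have h3 : A (g u) (g v) = A u v := hg u v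
      rw [hA, hA, h1, h1] at h3
      exact add_right_cancel h3
  let E := isoGrpCongr (f := fun u v => A u v) (f' := fun u v => sympForm (Fin (k + 1)) F u v) e' he'
  have hE : ∀ (g : isoGrp F (fun u v => A u v)) x, ((E g : _ ≃ₗ[F] _)) x = e' ((g : W ≃ₗ[F] W) (e'.symm x)) := fun g x => rfl
  have key : Nat.card (isoGrp F (fun u v => Γ u v)) = Nat.card (PS F (k + 1) 1) := by
    refine Nat.card_congr
      { toFun := fun g => ⟨E ⟨g.1, ((hiff g.1).1 g.2).1⟩, ?_⟩
        invFun := fun p => ⟨(E.symm p.1).1, (hiff _).2 ⟨(E.symm p.1).2, ?_⟩⟩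
        left_inv := fun g => ?_
        right_inv := fun p => ?_ }
    · intro i hi
      have hi0 : i = Fin.castLE (by omega) (0 : Fin 1) := Fin.ext (by
        show (i : ℕ) = 0
        omega)
      rw [hi0, ← hed, hE, LinearEquiv.symm_apply_apply, ((hiff g.1).1 g.2).2]
    · have h1 := hE (E.symm p.1) (e' d)
      rw [LinearEquiv.symm_apply_apply, MulEquiv.apply_symm_apply] at h1
      have h2 := p.2 (Fin.castLE (by omega) (0 : Fin 1)) (by simp)
      rw [← hed] at h2
      rw [h2] at h1
      exact (e'.injective h1).symm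
    · apply Subtype.ext
      show (E.symm (E _)).1 = _
      rw [MulEquiv.symm_apply_apply]
    · apply Subtype.ext
      exact E.apply_symm_apply p.1
  rw [key]
  have h1 := card_PS (F := F) (m := k + 1) (s := 1) (by omega)
  have h2 := ClSympOrd.card_Spg (F := F) k
  rw [h2]
  simp only [Nat.sub_self, Nat.zero_div, pow_zero, one_mul, Nat.add_sub_cancel] at h1
  rw [h1, ← mul_assoc, ← pow_add]
  congr 2
  ring

end Cfsg.Agent.Lib.InvForm67
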