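import Mathlib
import Cfsg.Agent.Lib.NsMain67
import Cfsg.Agent.Lib.InvForm67
import Cfsg.Agent.Lib.QuadStd
import Cfsg.Agent.Lib.QuadMTS
import Cfsg.Agent.Lib.ClOrthOrd2

/-!
(helper67) Centralizers of involutions of orthogonal groups in characteristic two: orders.
-/

set_option autoImplicit false
set_option linter.unusedSectionVars false

namespace Cfsg.Agent.Lib.InvO67

open QuadraticMap Module Cfsg.Agent.Lib.Quad Cfsg.Agent.Lib.GaussSign67 Cfsg.Agent.Lib.NsPt67 Cfsg.Agent.Lib.ClIso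

universe u v
variable {F : Type u} [Field F] {V : Type v} [AddCommGroup V] [Module F V] {Q : QuadraticForm F V}

/-- pointwise stabilizer of a subspace in the orthogonal group -/
def Fix (Q : QuadraticForm F V) (W : Submodule F V) : Subgroup (V ≃ₗ[F] V) where
  carrier := {g | g ∈ O Q ∧ ∀ w ∈ W, g w = w}
  mul_mem' := fun {a b} ha hb => ⟨mul_mem ha.1 hb.1, fun w hw => by
    show a (b w) = w
    rw [hb.2 w hw, ha.2 w hw]⟩
  one_mem' := ⟨one_mem _, fun _ _ => rfl⟩
  inv_mem' := fun {a} ha => ⟨inv_mem ha.1, fun w hw => by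
    show a.symm w = w
    rw [LinearEquiv.symm_apply_eq, ha.2 w hw]⟩

theorem mem_Fix {W : Submodule F V} {g : V ≃ₗ[F] V} : g ∈ Fix Q W ↔ g ∈ O Q ∧ ∀ w ∈ W, g w = w := Iff.rfl

theorem fix_bot : Fix Q ⊥ = O Q := by
  ext g
  rw [mem_Fix]
  refine ⟨fun h => h.1, fun h => ⟨h, fun w hw => ?_⟩⟩
  rw [(Submodule.mem_bot F).1 hw, map_zero]

section fin
variable [Finite F] [FiniteDimensional F V]

instance finLE : Finite (V ≃ₗ[F] V) := by
  have : Finite V := Module.finite_of_finite F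
  exact Finite.of_injective (fun g : V ≃ₗ[F] V => (g : V → V)) DFunLike.coe_injective

theorem card_fix_step (hQ : Nd Q) (W : Submodule F V) {v : V} (hv : v ∉ W) :
    Nat.card (Fix Q W) = Nat.card {x : V // x ∉ W ∧ Q x = Q v ∧ ∀ w ∈ W, polar Q w x = polar Q w v} *
      Nat.card (Fix Q (W ⊔ F ∙ v)) := by
  classical
  have hcard := Cfsg.Agent.Lib.ClStab.card_eq_of_transitive (G := Fix Q W) (X := V) v
    {x : V | x ∉ W ∧ Q x = Q v ∧ ∀ w ∈ W, polar Q w x = polar Q w v}
    ⟨hv, rfl, fun _ _ => rfl⟩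
    (by
      rintro ⟨g, hg⟩ x ⟨hx1, hx2, hx3⟩
      show g x ∉ W ∧ Q (g x) = Q v ∧ ∀ w ∈ W, polar Q w (g x) = polar Q w v
      refine ⟨fun h => hx1 ?_, ?_, fun w hw => ?_⟩
      · have h1 : g (g x) = g x := hg.2 _ h
        rw [← g.injective h1]; exact h
      · rw [mem_O.1 hg.1, hx2]
      · rw [← hx3 w hw, ← O_polar hg.1 w x, hg.2 w hw])
    (by
      rintro x ⟨hx1, hx2, hx3⟩
      let b := finBasis F W
      have hspan : Submodule.span F (Set.range fun i => ((b i : W) : V)) = W := by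
        have h1 : (Set.range fun i => ((b i : W) : V)) = W.subtype '' (Set.range b) := by
          rw [← Set.range_comp]; rfl
        rw [h1, Submodule.span_image, b.span_eq, Submodule.map_top, Submodule.range_subtype]
      have hli : ∀ y : V, y ∉ W → LinearIndependent F (Fin.cons y (fun i => ((b i : W) : V)) : Fin (finrank F W + 1) → V) := by
        intro y hy
        rw [linearIndependent_finCons, hspan]
        exact ⟨b.linearIndependent.map' W.subtype (Submodule.ker_subtype W), hy⟩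
      obtain ⟨g, hg, hge⟩ := hQ.witt_family _ _ (hli v hv) (hli x hx1) (by
        intro i
        refine Fin.cases ?_ (fun i => ?_) i
        · simp only [Fin.cons_zero]; exact hx2.symm
        · simp only [Fin.cons_succ]) (by
        intro i j
        refine Fin.cases ?_ (fun i => ?_) i
        · refine Fin.cases ?_ (fun j => ?_) j
          · simp only [Fin.cons_zero]
            rw [polar_self', polar_self', hx2]
          · simp only [Fin.cons_zero, Fin.cons_succ]
            rw [polar_comm Q v, polar_comm Q x, hx3 _ (b j).2]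
        · refine Fin.cases ?_ (fun j => ?_) j
          · simp only [Fin.cons_zero, Fin.cons_succ]
            rw [hx3 _ (b i).2]
          · simp only [Fin.cons_succ])
      refine ⟨⟨g, hg, ?_⟩, ?_⟩
      · intro w hw
        have h1 : Set.EqOn g.toLinearMap (LinearMap.id : V →ₗ[F] V) (Set.range fun i => ((b i : W) : V)) := by
          rintro _ ⟨i, rfl⟩
          have := hge i.succ
          simp only [Fin.cons_succ] at this
          exact this
        have h2 := LinearMap.eqOn_span h1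
        rw [hspan] at h2
        exact h2 hw
      · show g v = x
        have := hge 0
        simp only [Fin.cons_zero] at this
        exact this)
  refine hcard.trans ?_
  refine congrArg₂ (· * ·) rfl ?_
  apply Nat.card_congr
  refine { toFun := fun g => ⟨g.1.1, g.1.2.1, ?_⟩, invFun := fun g => ⟨⟨g.1, g.2.1, ?_⟩, ?_⟩, left_inv := ?_, right_inv := ?_ }
  · intro w hw
    obtain ⟨a, ha, c, hc, rfl⟩ := Submodule.mem_sup.1 hw
    obtain ⟨t, rfl⟩ := Submodule.mem_span_singleton.1 hc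
    have h1 : g.1.1 v = v := g.2
    rw [map_add, map_smul, h1, g.1.2.2 a ha]
  · intro w hw
    exact g.2.2 w (Submodule.mem_sup_left hw)
  · show g.1 v = v
    exact g.2.2 v (Submodule.mem_sup_right (Submodule.mem_span_singleton_self v))
  · intro g; rfl
  · intro g; rfl

end fin

section gam

/-- the form attached to an isometry of order two -/
noncomputable def gam (Q : QuadraticForm F V) (x : V ≃ₗ[F] V) (w w' : mov x) : F := polar Q (mem_mov.1 w.2).choose w'

theorem gam_eq (hQ : Nd Q) {x : V ≃ₗ[F] V} (hx : x ∈ O Q) (u : V) (w : mov x) :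
    gam Q x ⟨x u - u, sub_mem_mov x u⟩ w = polar Q u w := by
  have h1 := (mem_mov.1 (sub_mem_mov x u)).choose_spec
  set u' := (mem_mov.1 (sub_mem_mov x u)).choose with hu'
  have h2 : u' - u ∈ fixS x := by
    rw [mem_fixS, map_sub]
    have : x u' = u' + (x u - u) := by rw [← h1]; abel
    rw [this]; abel
  rw [hQ.fixS_eq hx, mem_perp] at h2
  have h3 := h2 w w.2
  rw [polar_sub_right, sub_eq_zero, polar_comm, polar_comm Q (w : V) u] at h3
  exact h3

noncomputable def gamL (hQ : Nd Q) {x : V ≃ₗ[F] V} (hx : x ∈ O Q) : (mov x) →ₗ[F] (mov x) →ₗ[F] F :=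
  LinearMap.mk₂ F (gam Q x)
    (by
      rintro ⟨w, hw⟩ ⟨w', hw'⟩ t
      obtain ⟨u, rfl⟩ := mem_mov.1 hw
      obtain ⟨u', rfl⟩ := mem_mov.1 hw'
      have h : (⟨x u - u, hw⟩ + ⟨x u' - u', hw'⟩ : mov x) = ⟨x (u + u') - (u + u'), sub_mem_mov x _⟩ :=
        Subtype.ext (by show x u - u + (x u' - u') = x (u + u') - (u + u'); rw [map_add]; abel)
      rw [h, gam_eq hQ hx, gam_eq hQ hx, gam_eq hQ hx, polar_add_left])
    (by
      rintro c ⟨w, hw⟩ t
      obtain ⟨u, rfl⟩ := mem_mov.1 hw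
      have h : (c • ⟨x u - u, hw⟩ : mov x) = ⟨x (c • u) - (c • u), sub_mem_mov x _⟩ :=
        Subtype.ext (by show c • (x u - u) = x (c • u) - c • u; rw [map_smul, smul_sub])
      rw [h, gam_eq hQ hx, gam_eq hQ hx, polar_smul_left])
    (by
      rintro ⟨w, hw⟩ t t'
      obtain ⟨u, rfl⟩ := mem_mov.1 hw
      rw [gam_eq hQ hx, gam_eq hQ hx, gam_eq hQ hx, Submodule.coe_add, polar_add_right])
    (by
      rintro c ⟨w, hw⟩ t
      obtain ⟨u, rfl⟩ := mem_mov.1 hw
      rw [gam_eq hQ hx, gam_eq hQ hx, Submodule.coe_smul, polar_smul_right])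

theorem gamL_apply (hQ : Nd Q) {x : V ≃ₗ[F] V} (hx : x ∈ O Q) (w w' : mov x) : gamL hQ hx w w' = gam Q x w w' := rfl

theorem gamL_eq (hQ : Nd Q) {x : V ≃ₗ[F] V} (hx : x ∈ O Q) (u : V) (w : mov x) :
    gamL hQ hx ⟨x u - u, sub_mem_mov x u⟩ w = polar Q u w := gam_eq hQ hx u w

theorem gamL_nondeg (hQ : Nd Q) {x : V ≃ₗ[F] V} (hx : x ∈ O Q) (w : mov x) (h : ∀ w', gamL hQ hx w w' = 0) : w = 0 := by
  obtain ⟨w, hw⟩ := w
  obtain ⟨u, rfl⟩ := mem_mov.1 hw
  have h1 : u ∈ perp Q (mov x) := by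
    rw [mem_perp]
    intro w' hw'
    have := h ⟨w', hw'⟩
    rw [gamL_eq] at this
    rw [polar_comm]; exact this
  rw [← hQ.fixS_eq hx, mem_fixS] at h1
  apply Subtype.ext
  show x u - u = 0
  rw [h1, sub_self]

theorem polar_inv {x : V ≃ₗ[F] V} (hx : x ∈ O Q) (h2 : x ^ 2 = 1) (u v : V) : polar Q (x u) v = polar Q u (x v) := by
  have h : x (x v) = v := by
    have := LinearEquiv.congr_fun h2 v
    rwa [pow_two] at this
  conv_lhs => rw [← h]
  exact O_polar hx u (x v)

theorem gamL_symm (hQ : Nd Q) {x : V ≃ₗ[F] V} (hx : x ∈ O Q) (h2 : x ^ 2 = 1) (w w' : mov x) :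
    gamL hQ hx w w' = gamL hQ hx w' w := by
  obtain ⟨w, hw⟩ := w
  obtain ⟨w', hw'⟩ := w'
  obtain ⟨u, rfl⟩ := mem_mov.1 hw
  obtain ⟨u', rfl⟩ := mem_mov.1 hw'
  rw [gamL_eq, gamL_eq, polar_sub_right, polar_sub_right, ← polar_inv hx h2, polar_comm Q u u', polar_comm Q (x u) u']

theorem Q_mov (hQ : Nd Q) {x : V ≃ₗ[F] V} (hx : x ∈ O Q) (w : mov x) : Q (w : V) = - gamL hQ hx w w := by
  obtain ⟨w, hw⟩ := w
  obtain ⟨u, rfl⟩ := mem_mov.1 hw
  rw [gamL_eq, polar_sub_right, polar_self']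
  show Q (x u - u) = _
  rw [Q_sub, mem_O.1 hx, polar_comm Q (x u) u]
  ring

section fin
variable [Finite F] [FiniteDimensional F V]

/-- the centralizer as a subgroup of `V ≃ₗ V` -/
def Cen (Q : QuadraticForm F V) (x : V ≃ₗ[F] V) : Subgroup (V ≃ₗ[F] V) := O Q ⊓ Subgroup.centralizer {x}

theorem mem_Cen {x g : V ≃ₗ[F] V} : g ∈ Cen Q x ↔ g ∈ O Q ∧ g * x = x * g := by
  rw [Cen, Subgroup.mem_inf, Subgroup.mem_centralizer_singleton_iff]
  

theorem cen_apply {x g : V ≃ₗ[F] V} (hg : g * x = x * g) (u : V) : g (x u) = x (g u) := LinearEquiv.congr_fun hg u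

theorem comm_of_gam (hQ : Nd Q) {x : V ≃ₗ[F] V} (hx : x ∈ O Q) (a : mov x ≃ₗ[F] mov x)
    (ha : ∀ w w', gamL hQ hx (a w) (a w') = gamL hQ hx w w') {g : V ≃ₗ[F] V} (hg : g ∈ O Q) (hga : ∀ w : mov x, g w = a w) :
    g * x = x * g := by
  ext1 u
  show g (x u) = x (g u)
  have h1 : (⟨x (g u) - g u, sub_mem_mov x _⟩ : mov x) = a ⟨x u - u, sub_mem_mov x u⟩ := by
    rw [← sub_eq_zero]
    apply gamL_nondeg hQ hx
    intro w'
    obtain ⟨w, rfl⟩ := a.surjective w'
    rw [map_sub, LinearMap.sub_apply, ha, gamL_eq, gamL_eq, ← hga, O_polar hg, sub_self]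
  have h2 := congrArg Subtype.val h1
  rw [← hga] at h2
  have h3 : x (g u) - g u = g (x u - u) := h2
  rw [map_sub] at h3
  exact (sub_left_inj.1 h3).symm

theorem card_cent (hQ : Nd Q) {x : V ≃ₗ[F] V} (hx : x ∈ O Q) :
    Nat.card (Cen Q x) = Nat.card (isoGrp F (fun w w' => gamL hQ hx w w')) * Nat.card (Fix Q (mov x)) := by
  classical
  have hcard := Cfsg.Agent.Lib.ClStab.card_eq_of_transitive (G := Cen Q x) (X := mov x → V) Subtype.val
    {f : mov x → V | ∃ a ∈ isoGrp F (fun w w' => gamL hQ hx w w'), ∀ w, f w = (a w : V)}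
    ⟨1, one_mem _, fun w => rfl⟩
    (by
      rintro ⟨g, hg⟩ f ⟨a, ha, hfa⟩
      obtain ⟨hgO, hgx⟩ := mem_Cen.1 hg
      have hmap : (mov x).map g.toLinearMap = mov x := by
        apply Submodule.eq_of_le_of_finrank_eq
        · rintro _ ⟨w, hw, rfl⟩
          obtain ⟨u, rfl⟩ := mem_mov.1 hw
          rw [mem_mov]
          refine ⟨g u, ?_⟩
          show _ = g (x u - u)
          rw [map_sub, cen_apply hgx]
        · exact LinearEquiv.finrank_map_eq g (mov x)
      let g' : mov x ≃ₗ[F] mov x := LinearEquiv.ofSubmodules g (mov x) (mov x) hmap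
      have hg' : ∀ w : mov x, ((g' w : mov x) : V) = g w := fun w => rfl
      refine ⟨g' * a, ?_, ?_⟩
      · apply mul_mem _ ha
        rintro ⟨w, hw⟩ w'
        obtain ⟨u, rfl⟩ := mem_mov.1 hw
        have h1 : g' ⟨x u - u, hw⟩ = ⟨x (g u) - g u, sub_mem_mov x _⟩ := Subtype.ext (by
          rw [hg']; show g (x u - u) = _; rw [map_sub, cen_apply hgx])
        show gamL hQ hx (g' ⟨x u - u, hw⟩) (g' w') = gamL hQ hx ⟨x u - u, hw⟩ w'
        rw [h1, gamL_eq, gamL_eq, hg', O_polar hgO]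
      · intro w
        show g (f w) = _
        rw [hfa]; rfl)
    (by
      rintro f ⟨a, ha, hfa⟩
      obtain ⟨g, hg, hga⟩ := hQ.witt (mov x) ((mov x).subtype ∘ₗ a.toLinearMap) (by
        intro u v h
        exact a.injective (Subtype.ext h)) (by
        intro w
        show Q ((a w : mov x) : V) = _
        rw [Q_mov hQ hx, Q_mov hQ hx]
        congr 1
        exact ha w w)
      refine ⟨⟨g, mem_Cen.2 ⟨hg, comm_of_gam hQ hx a ha hg hga⟩⟩, ?_⟩
      funext w
      show g (w : V) = f w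
      rw [hfa]; exact hga w)
  rw [hcard]
  congr 1
  · apply Nat.card_congr
    refine Equiv.symm (Equiv.ofBijective (fun a : isoGrp F (fun w w' => gamL hQ hx w w') =>
      (⟨fun w => ((a.1 w : mov x) : V), a.1, a.2, fun w => rfl⟩ : {f : mov x → V | ∃ a ∈ isoGrp F (fun w w' => gamL hQ hx w w'), ∀ w, f w = (a w : V)})) ⟨?_, ?_⟩)
    · intro a b h
      apply Subtype.ext
      ext1 w
      apply Subtype.ext
      exact congrFun (congrArg Subtype.val h) w
    · rintro ⟨f, a, ha, hfa⟩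
      exact ⟨⟨a, ha⟩, Subtype.ext (funext fun w => (hfa w).symm)⟩
  · apply Nat.card_congr
    refine { toFun := fun g => ⟨g.1.1, (mem_Cen.1 g.1.2).1, ?_⟩, invFun := fun g => ⟨⟨g.1, mem_Cen.2 ⟨g.2.1, ?_⟩⟩, ?_⟩, left_inv := ?_, right_inv := ?_ }
    · intro w hw
      exact congrFun g.2 ⟨w, hw⟩
    · exact comm_of_gam hQ hx 1 (fun _ _ => rfl) g.2.1 (fun w => g.2.2 w w.2)
    · funext w
      exact g.2.2 w w.2
    · intro g; rfl
    · intro g; rfl

end fin

end gam

end Cfsg.Agent.Lib.InvO67
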