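import Mathlib
import Cfsg.Agent.Lib.InvO67
import Cfsg.Agent.Lib.InvSub

/-!
(helper67) Orders of pointwise stabilizers in orthogonal groups of plus type in characteristic two.
-/

set_option autoImplicit false
set_option linter.unusedSectionVars false

namespace Cfsg.Agent.Lib.InvO67

open QuadraticMap Module Cfsg.Agent.Lib.Quad Cfsg.Agent.Lib.GaussSign67 Cfsg.Agent.Lib.NsPt67 Cfsg.Agent.Lib.ClIso

universe u v
variable {F : Type u} [Field F] {V : Type v} [AddCommGroup V] [Module F V] {Q : QuadraticForm F V}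
variable [Finite F] [FiniteDimensional F V] {χ : AddChar F ℤ}

theorem gs_res_perp (hχ : χ ≠ 1) (W : Submodule F V) (hW : ∀ w ∈ W, Q w = 0) : gs χ (res Q (perp Q W)) = gs χ Q := by
  classical
  have hfin : Finite V := Module.finite_of_finite F
  have := Fintype.ofFinite V
  have := Fintype.ofFinite W
  have h1 : (Fintype.card W : ℤ) * gs χ Q = (Fintype.card W : ℤ) * gs χ (res Q (perp Q W)) := by
    have h2 : ∀ w : W, ∑ v : V, χ (Q (v + w)) = gs χ Q := by
      intro w
      rw [gs_eq]
      exact Fintype.sum_equiv (Equiv.addRight (w : V)) _ _ (fun v => rfl)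
    calc (Fintype.card W : ℤ) * gs χ Q = ∑ w : W, ∑ v : V, χ (Q (v + w)) := by
          rw [Finset.sum_congr rfl fun w _ => h2 w, Finset.sum_const, Finset.card_univ, nsmul_eq_mul]
      _ = ∑ v : V, ∑ w : W, χ (Q (v + w)) := Finset.sum_comm
      _ = ∑ v : V, (if v ∈ perp Q W then (Fintype.card W : ℤ) * χ (Q v) else 0) := by
          apply Finset.sum_congr rfl
          intro v _
          have h3 : ∀ w : W, χ (Q (v + w)) = χ (Q v) * χ (polar Q v w) := by
            intro w
            rw [Q_add, hW _ w.2, add_zero, AddChar.map_add_eq_mul]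
          rw [Finset.sum_congr rfl fun w _ => h3 w, ← Finset.mul_sum]
          split_ifs with hv
          · rw [Finset.sum_congr rfl fun w _ => by rw [mem_perp'.1 hv w w.2, AddChar.map_zero_eq_one], Finset.sum_const,
              Finset.card_univ, nsmul_eq_mul, mul_one, mul_comm]
          · let φ : W →ₗ[F] F := (polarBilin Q v) ∘ₗ W.subtype
            have h4 := gs_linear hχ φ (by
              intro h0
              apply hv
              rw [mem_perp']
              intro w hw
              exact LinearMap.congr_fun h0 ⟨w, hw⟩)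
            rw [gs_eq] at h4
            have h5 : ∑ w : W, χ (polar Q v w) = 0 := h4
            rw [h5, mul_zero]
      _ = (Fintype.card W : ℤ) * gs χ (res Q (perp Q W)) := by
          rw [← Finset.sum_filter, ← Finset.mul_sum, gs_eq]
          congr 1
          exact (Finset.sum_subtype (Finset.univ.filter (fun v => v ∈ perp Q W)) (p := fun v => v ∈ perp Q W) (by simp) (fun v => χ (Q v)))
  have h2 : (Fintype.card W : ℤ) ≠ 0 := by
    exact_mod_cast Fintype.card_ne_zero
  exact (mul_left_cancel₀ h2 h1).symm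

theorem card_zero [CharP F 2] : Nat.card {v : V // Q v = 0} + (Nat.card F - 1) * Nat.card {v : V // Q v = 1} = Nat.card V := by
  classical
  have hfin : Finite V := Module.finite_of_finite F
  have := Fintype.ofFinite V
  have := Fintype.ofFinite F
  have hN : ∀ c : F, c ≠ 0 → Nat.card {v : V // Q v = c} = Nat.card {v : V // Q v = 1} := by
    intro c hc
    obtain ⟨l, hl, -⟩ := sqrt_unique hc
    have hl0 : l ≠ 0 := by
      rintro rfl
      simp at hl
    apply Nat.card_eq_of_bijective (fun v : {v : V // Q v = c} => (⟨l • (v : V), by rw [Q_smul, v.2]; exact hl⟩ : {v : V // Q v = 1}))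
    constructor
    · intro v w h
      have h1 : l • (v : V) = l • (w : V) := congrArg Subtype.val h
      exact Subtype.ext (smul_right_injective V hl0 h1)
    · rintro ⟨w, hw⟩
      refine ⟨⟨l⁻¹ • w, ?_⟩, ?_⟩
      · rw [Q_smul, hw, mul_one]
        have : l * l * c = 1 := hl
        field_simp
        rw [← this]; ring
      · apply Subtype.ext
        show l • l⁻¹ • w = w
        rw [smul_smul, mul_inv_cancel₀ hl0, one_smul]
  have h1 : Nat.card V = ∑ c : F, Nat.card {v : V // Q v = c} := by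
    rw [← Nat.card_sigma]
    exact Nat.card_congr (Equiv.sigmaFiberEquiv (fun v => Q v)).symm
  rw [h1, ← Finset.add_sum_erase _ _ (Finset.mem_univ (0 : F)),
    Finset.sum_congr rfl (fun c hc => hN c (Finset.ne_of_mem_erase hc)), Finset.sum_const,
    Finset.card_erase_of_mem (Finset.mem_univ _), Finset.card_univ, smul_eq_mul, Nat.card_eq_fintype_card (α := F)]

section counts
variable [CharP F 2]

/-- number of vectors with `Q = 1` in the perp of a totally singular subspace -/
theorem card_perp_one (hχ : χ ≠ 1) (hQ : Nd Q) {j n : ℕ} (hV : finrank F V = 2 * (j + (n + 1))) (hg : gs χ Q = (Nat.card F : ℤ) ^ (j + (n + 1)))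
    {U : Submodule F V} (hU : ∀ u ∈ U, Q u = 0) (hj : finrank F U = j) :
    Nat.card {x : V // x ∈ perp Q U ∧ Q x = 1} = Nat.card F ^ (j + n) * (Nat.card F ^ (n + 1) - 1) := by
  have hq : 1 < Nat.card F := Finite.one_lt_card
  have h0 : Nat.card {x : V // x ∈ perp Q U ∧ Q x = 1} = Nat.card {x : perp Q U // res Q (perp Q U) x = 1} :=
    Nat.card_congr { toFun := fun x => ⟨⟨x.1, x.2.1⟩, x.2.2⟩, invFun := fun x => ⟨x.1.1, x.1.2, x.2⟩, left_inv := fun x => rfl, right_inv := fun x => rfl }
  have h1 := card_one (Q := res Q (perp Q U)) hχ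
  have h2 := hQ.finrank_add_finrank_perp U
  have h3 : finrank F (perp Q U) = j + 2 * (n + 1) := by omega
  rw [gs_res_perp hχ U hU, hg, Module.natCard_eq_pow_finrank (K := F) (V := perp Q U), h3, ← h0] at h1
  have h4 : 1 ≤ Nat.card F ^ (n + 1) := Nat.one_le_pow _ _ (by omega)
  have h5 : (Nat.card F : ℤ) ≠ 0 := by exact_mod_cast (by omega : Nat.card F ≠ 0)
  zify [h4]
  apply mul_left_cancel₀ h5
  rw [h1]
  push_cast
  ring

/-- number of nonzero singular vectors outside a totally singular subspace in its perp -/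
theorem card_perp_zero (hχ : χ ≠ 1) (hQ : Nd Q) {j n : ℕ} (hV : finrank F V = 2 * (j + (n + 1))) (hg : gs χ Q = (Nat.card F : ℤ) ^ (j + (n + 1)))
    {U : Submodule F V} (hU : ∀ u ∈ U, Q u = 0) (hj : finrank F U = j) :
    Nat.card {x : V // x ∉ U ∧ Q x = 0 ∧ ∀ w ∈ U, polar Q w x = 0} =
      Nat.card F ^ j * ((Nat.card F ^ (n + 1) - 1) * (Nat.card F ^ n + 1)) := by
  classical
  have hfin : Finite V := Module.finite_of_finite F
  have hq : 1 < Nat.card F := Finite.one_lt_card
  have hUperp : U ≤ perp Q U := le_perp_of_ts hU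
  have h0 : Nat.card {x : V // x ∈ perp Q U ∧ Q x = 1} = Nat.card {x : perp Q U // res Q (perp Q U) x = 1} :=
    Nat.card_congr { toFun := fun x => ⟨⟨x.1, x.2.1⟩, x.2.2⟩, invFun := fun x => ⟨x.1.1, x.1.2, x.2⟩, left_inv := fun x => rfl, right_inv := fun x => rfl }
  have h1 := card_zero (Q := res Q (perp Q U))
  have h2 := hQ.finrank_add_finrank_perp U
  have h3 : finrank F (perp Q U) = j + 2 * (n + 1) := by omega
  rw [Module.natCard_eq_pow_finrank (K := F) (V := perp Q U), h3, ← h0, card_perp_one hχ hQ hV hg hU hj] at h1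
  have h4 : Nat.card {x : perp Q U // res Q (perp Q U) x = 0} = Nat.card {x : V // x ∉ U ∧ Q x = 0 ∧ ∀ w ∈ U, polar Q w x = 0} + Nat.card U := by
    rw [← Nat.card_sum]
    refine Nat.card_congr
      { toFun := fun x => if h : (x.1 : V) ∈ U then Sum.inr ⟨x.1, h⟩ else Sum.inl ⟨x.1, h, x.2, fun w hw => mem_perp.1 x.1.2 w hw⟩
        invFun := fun y => Sum.elim (fun y => ⟨⟨y.1, mem_perp.2 y.2.2.2⟩, y.2.2.1⟩) (fun u => ⟨⟨u.1, hUperp u.2⟩, hU _ u.2⟩) y
        left_inv := ?_
        right_inv := ?_ }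
    · intro x
      by_cases h : (x.1 : V) ∈ U
      · simp only [dif_pos h, Sum.elim_inr]
      · simp only [dif_neg h, Sum.elim_inl]
    · rintro (y | u)
      · exact dif_neg y.2.1
      · exact dif_pos u.2
  rw [h4, Module.natCard_eq_pow_finrank (K := F) (V := U), hj] at h1
  have h5 : 1 ≤ Nat.card F ^ (n + 1) := Nat.one_le_pow _ _ (by omega)
  have h6 : 1 ≤ Nat.card F := by omega
  zify [h5, h6] at h1 ⊢
  linear_combination h1

end counts

section plus
variable {F : Type u} [Field F] [Finite F] [CharP F 2] {χ : AddChar F ℤ}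

theorem card_O_succ (n : ℕ) : Nat.card (O (quadPlus (n + 1) F)) =
    (Nat.card F ^ (n + 1) - 1) * (Nat.card F ^ n + 1) * Nat.card F ^ (2 * n) * Nat.card (O (quadPlus n F)) := by
  have := Fintype.ofFinite F
  rw [ClOrthOrd.card_O_split nd_quadPlus (ClOrthOrd.split_plus n F), ClOrthOrd.card_plus_space, ClOrthOrd.Z_plus_sub,
    Nat.card_eq_fintype_card (α := F)]

theorem card_fix_ts (hχ : χ ≠ 1) (m : ℕ) : ∀ (j n : ℕ), j + n = m → ∀ U : Submodule F (Fin m ⊕ Fin m → F),
    (∀ u ∈ U, quadPlus m F u = 0) → finrank F U = j →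
    Nat.card (Fix (quadPlus m F) U) = Nat.card F ^ (j * (j - 1) / 2 + 2 * j * n) * Nat.card (O (quadPlus n F)) := by
  intro j
  have hq : 1 < Nat.card F := Finite.one_lt_card
  induction j with
  | zero =>
    intro n hn U _ hU0
    have h1 : U = ⊥ := Submodule.finrank_eq_zero.1 hU0
    rw [h1, fix_bot]
    have : n = m := by omega
    subst this
    simp
  | succ j ih =>
    intro n hn U hU hUd
    obtain ⟨U', hU'U, hU'd⟩ := InvSub.exists_le_finrank_eq U j (by omega)
    obtain ⟨v, hvU, hvU'⟩ : ∃ v ∈ U, v ∉ U' := by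
      by_contra hcon
      push Not at hcon
      have h1 : U ≤ U' := hcon
      have := Submodule.finrank_mono h1
      omega
    have hUeq : U' ⊔ F ∙ v = U := by
      apply Submodule.eq_of_le_of_finrank_le
      · refine sup_le hU'U ?_
        rw [Submodule.span_singleton_le_iff_mem]; exact hvU
      · rw [hUd]
        have h1 : U' < U' ⊔ F ∙ v := by
          refine lt_of_le_of_ne le_sup_left fun h => hvU' ?_
          rw [h]
          exact Submodule.mem_sup_right (Submodule.mem_span_singleton_self v)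
        have := Submodule.finrank_lt_finrank_of_lt h1
        omega
    have hts' : ∀ u ∈ U', quadPlus m F u = 0 := fun u hu => hU u (hU'U hu)
    have h1 := card_fix_step (nd_quadPlus : Nd (quadPlus m F)) U' hvU'
    have h2 := ih (n + 1) (by omega) U' hts' hU'd
    have hm : m = j + (n + 1) := by omega
    have h3 := card_perp_zero (Q := quadPlus m F) (n := n) hχ nd_quadPlus (by rw [finrank_plus, hm])
      (by rw [gs_plus hχ, hm]) hts' hU'd
    have h4 : Nat.card {x : Fin m ⊕ Fin m → F // x ∉ U' ∧ quadPlus m F x = quadPlus m F v ∧ ∀ w ∈ U', polar (quadPlus m F) w x = polar (quadPlus m F) w v} =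
        Nat.card {x : Fin m ⊕ Fin m → F // x ∉ U' ∧ quadPlus m F x = 0 ∧ ∀ w ∈ U', polar (quadPlus m F) w x = 0} := by
      apply Nat.card_congr
      apply Equiv.subtypeEquivRight
      intro x
      rw [hU v hvU]
      have h5 : ∀ w ∈ U', polar (quadPlus m F) w v = 0 := fun w hw => polar_of_ts hU (hU'U hw) hvU
      constructor
      · rintro ⟨a, b, c⟩
        exact ⟨a, b, fun w hw => by rw [c w hw, h5 w hw]⟩
      · rintro ⟨a, b, c⟩
        exact ⟨a, b, fun w hw => by rw [c w hw, h5 w hw]⟩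
    rw [h4, h3, hUeq, h2, card_O_succ] at h1
    have h6 : 0 < Nat.card F ^ j * ((Nat.card F ^ (n + 1) - 1) * (Nat.card F ^ n + 1)) := by
      have : 1 < Nat.card F ^ (n + 1) := Nat.one_lt_pow (by omega) hq
      have h7 : 0 < Nat.card F ^ (n + 1) - 1 := by omega
      positivity
    apply Nat.eq_of_mul_eq_mul_left h6
    rw [← h1]
    have e1 : (j + 1) * (j + 1 - 1) / 2 = j * (j - 1) / 2 + j := by
      rcases Nat.eq_zero_or_pos j with rfl | hj
      · rfl
      · obtain ⟨i, rfl⟩ : ∃ i, j = i + 1 := ⟨j - 1, by omega⟩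
        have h8 : (i + 1 + 1) * (i + 1 + 1 - 1) = (i + 1) * (i + 1 - 1) + (i + 1) * 2 := by
          simp only [Nat.add_sub_cancel]; ring
        rw [h8, Nat.add_mul_div_right _ _ (by norm_num)]
    rw [e1]
    have e2 : Nat.card F ^ (j * (j - 1) / 2 + 2 * j * (n + 1)) *
        ((Nat.card F ^ (n + 1) - 1) * (Nat.card F ^ n + 1) * Nat.card F ^ (2 * n) * Nat.card (O (quadPlus n F))) =
        Nat.card F ^ (j * (j - 1) / 2 + 2 * j * (n + 1) + 2 * n) * ((Nat.card F ^ (n + 1) - 1) * (Nat.card F ^ n + 1) * Nat.card (O (quadPlus n F))) := by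
      rw [pow_add _ _ (2 * n)]; ring
    have e3 : Nat.card F ^ j * ((Nat.card F ^ (n + 1) - 1) * (Nat.card F ^ n + 1)) *
        (Nat.card F ^ (j * (j - 1) / 2 + j + 2 * (j + 1) * n) * Nat.card (O (quadPlus n F))) =
        Nat.card F ^ (j + (j * (j - 1) / 2 + j + 2 * (j + 1) * n)) * ((Nat.card F ^ (n + 1) - 1) * (Nat.card F ^ n + 1) * Nat.card (O (quadPlus n F))) := by
      rw [pow_add _ j]; ring
    rw [e2, e3]
    congr 2
    ring

/-- pointwise stabilizer of `U ⊥ ⟨w⟩`, `U` totally singular, `w` nonsingular -/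
theorem card_fix_ns (hχ : χ ≠ 1) {m j n : ℕ} (hm : j + (n + 1) = m) {U : Submodule F (Fin m ⊕ Fin m → F)}
    (hU : ∀ u ∈ U, quadPlus m F u = 0) (hUd : finrank F U = j) {w : Fin m ⊕ Fin m → F} (hw : quadPlus m F w = 1)
    (hwU : w ∈ perp (quadPlus m F) U) :
    Nat.card (Fix (quadPlus m F) (U ⊔ F ∙ w)) =
      2 * Nat.card F ^ (j * (j - 1) / 2 + 2 * j * n + j + n ^ 2) * ∏ i ∈ Finset.range n, (Nat.card F ^ (2 * (i + 1)) - 1) := by
  have := Fintype.ofFinite F
  have hq : 1 < Nat.card F := Finite.one_lt_card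
  have hwU' : w ∉ U := by
    intro h
    rw [hU w h] at hw
    exact zero_ne_one hw
  have h1 := card_fix_step (nd_quadPlus : Nd (quadPlus m F)) U hwU'
  have h2 := card_fix_ts hχ m j (n + 1) hm U hU hUd
  have h3 := card_perp_one (Q := quadPlus m F) (n := n) hχ nd_quadPlus (by rw [finrank_plus, hm])
      (by rw [gs_plus hχ, hm]) hU hUd
  have h4 : Nat.card {x : Fin m ⊕ Fin m → F // x ∉ U ∧ quadPlus m F x = quadPlus m F w ∧ ∀ u ∈ U, polar (quadPlus m F) u x = polar (quadPlus m F) u w} =
      Nat.card {x : Fin m ⊕ Fin m → F // x ∈ perp (quadPlus m F) U ∧ quadPlus m F x = 1} := by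
    apply Nat.card_congr
    apply Equiv.subtypeEquivRight
    intro x
    rw [hw]
    constructor
    · rintro ⟨a, b, c⟩
      exact ⟨mem_perp.2 fun u hu => by rw [c u hu, mem_perp.1 hwU u hu], b⟩
    · rintro ⟨a, b⟩
      refine ⟨fun h => ?_, b, fun u hu => by rw [mem_perp.1 a u hu, mem_perp.1 hwU u hu]⟩
      rw [hU x h] at b
      exact zero_ne_one b
  have h5 := ClOrthOrd.card_O_plus (F := F) n
  rw [h4, h3, h2, h5, ← Nat.card_eq_fintype_card (α := F)] at h1
  have h6 : 0 < Nat.card F ^ (j + n) * (Nat.card F ^ (n + 1) - 1) := by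
    have : 1 < Nat.card F ^ (n + 1) := Nat.one_lt_pow (by omega) hq
    have h7 : 0 < Nat.card F ^ (n + 1) - 1 := by omega
    positivity
  apply Nat.eq_of_mul_eq_mul_left h6
  rw [← h1]
  set P := ∏ i ∈ Finset.range n, (Nat.card F ^ (2 * (i + 1)) - 1)
  have e2 : Nat.card F ^ (j * (j - 1) / 2 + 2 * j * (n + 1)) * (2 * Nat.card F ^ ((n + 1) * n) * (Nat.card F ^ (n + 1) - 1) * P) =
      Nat.card F ^ (j * (j - 1) / 2 + 2 * j * (n + 1) + (n + 1) * n) * (2 * (Nat.card F ^ (n + 1) - 1) * P) := by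
    rw [pow_add _ _ ((n + 1) * n)]; ring
  have e3 : Nat.card F ^ (j + n) * (Nat.card F ^ (n + 1) - 1) *
      (2 * Nat.card F ^ (j * (j - 1) / 2 + 2 * j * n + j + n ^ 2) * P) =
      Nat.card F ^ ((j + n) + (j * (j - 1) / 2 + 2 * j * n + j + n ^ 2)) * (2 * (Nat.card F ^ (n + 1) - 1) * P) := by
    rw [pow_add _ (j + n)]; ring
  rw [e2, e3]
  congr 2
  ring

end plus

end Cfsg.Agent.Lib.InvO67
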