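import Mathlib
import Cfsg.Agent.Lib.InvOCount67

/-!
(helper67) Centralizers of involutions in the commutator subgroup of orthogonal groups of plus type in characteristic two.
-/

set_option autoImplicit false
set_option linter.unusedSectionVars false

namespace Cfsg.Agent.Lib.InvO67

open QuadraticMap Module Cfsg.Agent.Lib.Quad Cfsg.Agent.Lib.GaussSign67 Cfsg.Agent.Lib.NsPt67 Cfsg.Agent.Lib.ClIso
open Cfsg.Agent.Lib.ClSymp

universe u v
section gen
variable {F : Type u} [Field F] {V : Type v} [AddCommGroup V] [Module F V] {Q : QuadraticForm F V}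
variable [Finite F] [FiniteDimensional F V] [CharP F 2]

/-- if a subgroup of the orthogonal group contains an element outside `Om`, half of it lies in `Om` -/
theorem card_half (hQ : Nd Q) (hgen : GenHyp Q) {C : Subgroup (V ≃ₗ[F] V)} (hC : C ≤ O Q) {h : V ≃ₗ[F] V} (hh : h ∈ C)
    (hodd : ¬ Even (finrank F (mov h))) :
    2 * Nat.card {g : V ≃ₗ[F] V // g ∈ C ∧ g ∈ Om Q} = Nat.card C := by
  classical
  let f : C →* ℤˣ := (parHom hQ (hQ.R_eq_O hgen)).comp (Subgroup.inclusion hC)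
  have hf : ∀ g : C, f g = sgn (Even (finrank F (mov (g : V ≃ₗ[F] V)))) := fun g => rfl
  have h1 : f ⟨h, hh⟩ = -1 := by rw [hf]; exact sgn_false hodd
  have hrange : f.range = ⊤ := by
    rw [eq_top_iff]
    intro z _
    rcases Int.units_eq_one_or z with rfl | rfl
    · exact one_mem _
    · exact ⟨_, h1⟩
  have h2 := Subgroup.card_mul_index f.ker
  rw [Subgroup.index_ker, hrange] at h2
  have h3 : Nat.card (⊤ : Subgroup ℤˣ) = 2 := by
    rw [Subgroup.card_top, Nat.card_eq_fintype_card]; rfl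
  rw [h3] at h2
  rw [← h2, mul_comm]
  congr 1
  apply Nat.card_congr
  refine { toFun := fun g => ⟨⟨g.1, g.2.1⟩, ?_⟩, invFun := fun g => ⟨g.1.1, g.1.2, ?_⟩, left_inv := fun g => rfl, right_inv := fun g => rfl }
  · rw [MonoidHom.mem_ker, hf]
    exact sgn_true (even_of_mem_Om hQ hgen g.2.2)
  · have h4 := g.2
    rw [MonoidHom.mem_ker, hf, sgn_eq_one_iff] at h4
    exact mem_Om_of_even hQ hgen (hC g.1.2) h4

theorem mov_refl {v : V} (hv : Q v ≠ 0) (hQ : Nd Q) : ¬ Even (finrank F (mov (refl Q v))) := by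
  have h := hQ.even_mov_list [v] (by simpa using hv)
  have e : (([v] : List V).map (refl Q)).prod = refl Q v := by simp
  rw [e] at h
  rw [h]; simp

theorem refl_mem_Fix {W : Submodule F V} {v : V} (hv : v ∈ perp Q W) : refl Q v ∈ Fix Q W := by
  refine ⟨refl_mem v, fun w hw => refl_of_perp ?_⟩
  rw [polar_comm]
  exact mem_perp.1 hv w hw

theorem fix_le_cen (hQ : Nd Q) {x : V ≃ₗ[F] V} (hx : x ∈ O Q) : Fix Q (mov x) ≤ Cen Q x := by
  intro g hg
  exact mem_Cen.2 ⟨hg.1, comm_of_gam hQ hx 1 (fun _ _ => rfl) hg.1 (fun w => hg.2 w w.2)⟩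

theorem mov_ti {x : V ≃ₗ[F] V} (hx : x ∈ O Q) (h2 : x ^ 2 = 1) : mov x ≤ perp Q (mov x) := by
  intro w hw
  rw [mem_perp]
  intro w' hw'
  obtain ⟨u, rfl⟩ := mem_mov.1 hw
  obtain ⟨u', rfl⟩ := mem_mov.1 hw'
  rw [polar_sub_left, polar_sub_right, polar_sub_right, O_polar hx, polar_inv hx h2]
  linear_combination (polar Q u' u - polar Q u' (x u)) * (CharTwo.two_eq_zero : (2 : F) = 0)

/-- structure of the image of `x - 1` when `Q` does not vanish on it -/
theorem mov_split (hQ : Nd Q) {x : V ≃ₗ[F] V} (hx : x ∈ O Q) (h2 : x ^ 2 = 1) (hne : ∃ w ∈ mov x, Q w ≠ 0) {s : ℕ}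
    (hs : finrank F (mov x) = s + 1) :
    ∃ (U : Submodule F V) (w : V), (∀ u ∈ U, Q u = 0) ∧ finrank F U = s ∧ Q w = 1 ∧ w ∈ perp Q U ∧ U ⊔ F ∙ w = mov x := by
  have := Fintype.ofFinite F
  obtain ⟨d, hd⟩ := InvForm67.exists_d (gamL hQ hx) (gamL_symm hQ hx h2) (gamL_nondeg hQ hx)
  have hQd : ∀ w : mov x, Q (w : V) = gamL hQ hx d w * gamL hQ hx d w := by
    intro w
    rw [Q_mov hQ hx, hd, CharTwo.neg_eq]
  obtain ⟨w0, hw0, hw0Q⟩ := hne
  have h3 : gamL hQ hx d ⟨w0, hw0⟩ ≠ 0 := by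
    intro h
    apply hw0Q
    have := hQd ⟨w0, hw0⟩
    rw [h, mul_zero] at this
    exact this
  set c := gamL hQ hx d ⟨w0, hw0⟩ with hc
  let K := LinearMap.ker (gamL hQ hx d)
  have hK : finrank F K = s := by
    have h4 := LinearMap.finrank_range_add_finrank_ker (gamL hQ hx d)
    have h5 : finrank F (LinearMap.range (gamL hQ hx d)) = 1 := by
      have : LinearMap.range (gamL hQ hx d) = ⊤ := LinearMap.range_eq_top.2 (LinearMap.surjective (by
        intro h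
        rw [hc, h] at h3
        exact h3 rfl))
      rw [this, finrank_top, finrank_self]
    rw [h5, hs] at h4
    show finrank F (LinearMap.ker (gamL hQ hx d)) = s
    omega
  have hti := mov_ti hx h2
  refine ⟨K.map (mov x).subtype, c⁻¹ • w0, ?_, ?_, ?_, ?_, ?_⟩
  · rintro _ ⟨u, hu, rfl⟩
    have h6 : gamL hQ hx d u = 0 := hu
    show Q (u : V) = 0
    rw [hQd, h6, mul_zero]
  · rw [Submodule.finrank_map_subtype_eq]
    exact hK
  · have h7 := hQd (c⁻¹ • ⟨w0, hw0⟩)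
    rw [map_smul, smul_eq_mul, ← hc, inv_mul_cancel₀ h3, mul_one] at h7
    exact h7
  · rw [mem_perp]
    rintro _ ⟨u, hu, rfl⟩
    rw [polar_smul_right]
    have : polar Q (u : V) w0 = 0 := mem_perp.1 (hti hw0) _ u.2
    show c⁻¹ • polar Q (u : V) w0 = 0
    rw [this, smul_zero]
  · apply le_antisymm
    · refine sup_le ?_ ?_
      · rintro _ ⟨u, hu, rfl⟩
        exact u.2
      · rw [Submodule.span_singleton_le_iff_mem]
        exact (mov x).smul_mem _ hw0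
    · intro w hw
      rw [Submodule.mem_sup]
      refine ⟨w - (gamL hQ hx d ⟨w, hw⟩) • (c⁻¹ • w0), ?_, (gamL hQ hx d ⟨w, hw⟩) • (c⁻¹ • w0), Submodule.smul_mem _ _ (Submodule.mem_span_singleton_self _), by abel⟩
      refine ⟨⟨w, hw⟩ - (gamL hQ hx d ⟨w, hw⟩) • (c⁻¹ • ⟨w0, hw0⟩), ?_, rfl⟩
      show gamL hQ hx d _ = 0
      rw [map_sub, map_smul, map_smul, ← hc, smul_eq_mul, smul_eq_mul, inv_mul_cancel₀ h3, mul_one, sub_self]

end gen

section plus
variable {F : Type u} [Field F] [Finite F] [CharP F 2]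

/-- all elements centralizing `x` lie in `Om` when the image of `x - 1` is a maximal totally singular subspace -/
theorem mem_Om_of_mts {V : Type v} [AddCommGroup V] [Module F V] [FiniteDimensional F V] {Q : QuadraticForm F V}
    (hQ : Nd Q) (hgen : GenHyp Q) {m : ℕ} (hm : finrank F V = 2 * m) {U : Submodule F V}
    (hU : MTS Q m U) {g : V ≃ₗ[F] V} (hg : g ∈ O Q) (hgU : U.map g.toLinearMap = U) : g ∈ Om Q := by
  obtain ⟨vs, hvs, hgvs⟩ := exists_list_of_mem_R ((hQ.R_eq_O hgen).symm ▸ hg : g ∈ R Q)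
  have h1 := hU.even_codim_iff hQ hm vs hvs
  rw [← hgvs, hgU, inf_idem, hU.1, Nat.sub_self] at h1
  apply mem_Om_of_even hQ hgen hg
  rw [hgvs, hQ.even_mov_list vs hvs]
  exact h1.1 (by simp)

variable {m : ℕ}

theorem card_Omega (x : ↥(Cfsg.isometryGroup F (Cfsg.quadFormPlus m F))) :
    Nat.card {g : ↥(Cfsg.Omega F (Cfsg.quadFormPlus m F)) // (g : ↥(Cfsg.isometryGroup F (Cfsg.quadFormPlus m F))) * x = x * (g : ↥(Cfsg.isometryGroup F (Cfsg.quadFormPlus m F)))} =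
      Nat.card {g : (Fin m ⊕ Fin m → F) ≃ₗ[F] (Fin m ⊕ Fin m → F) // g ∈ Cen (quadPlus m F) (toLE (x : Matrix.GeneralLinearGroup (Fin m ⊕ Fin m) F)) ∧ g ∈ Om (quadPlus m F)} := by
  have hΩ : ∀ g : ↥(Cfsg.isometryGroup F (Cfsg.quadFormPlus m F)), g ∈ Cfsg.Omega F (Cfsg.quadFormPlus m F) ↔
    toLE (g : Matrix.GeneralLinearGroup (Fin m ⊕ Fin m) F) ∈ Om (quadPlus m F) := fun g => mem_Omega_iff (Q := quadPlus m F) g
  have hO : ∀ g : ↥(Cfsg.isometryGroup F (Cfsg.quadFormPlus m F)), toLE (g : Matrix.GeneralLinearGroup (Fin m ⊕ Fin m) F) ∈ O (quadPlus m F) :=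
    fun g => (mem_isometryGroup_iff_toLE (Q := quadPlus m F)).1 g.2
  apply Nat.card_congr
  refine Equiv.ofBijective (fun g => ⟨toLE (g.1.1 : Matrix.GeneralLinearGroup (Fin m ⊕ Fin m) F), mem_Cen.2 ⟨hO _, ?_⟩, (hΩ g.1.1).1 g.1.2⟩) ⟨?_, ?_⟩
  · rw [← map_mul, ← map_mul]
    congr 1
    exact congrArg Subtype.val g.2
  · rintro ⟨⟨g, hg⟩, hg'⟩ ⟨⟨h, hh⟩, hh'⟩ heq
    have h1 : toLE (g : Matrix.GeneralLinearGroup (Fin m ⊕ Fin m) F) = toLE (h : Matrix.GeneralLinearGroup (Fin m ⊕ Fin m) F) := congrArg Subtype.val heq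
    have h2 := toLE.injective h1
    apply Subtype.ext
    apply Subtype.ext
    exact Subtype.ext h2
  · rintro ⟨g, hgC, hgOm⟩
    obtain ⟨hgO, hgx⟩ := mem_Cen.1 hgC
    have hmem : toLE.symm g ∈ Cfsg.isometryGroup F (Cfsg.quadFormPlus m F) := by
      refine (mem_isometryGroup_iff_toLE (Q := quadPlus m F)).2 ?_
      rw [MulEquiv.apply_symm_apply]; exact hgO
    refine ⟨⟨⟨⟨toLE.symm g, hmem⟩, (hΩ _).2 (by rw [MulEquiv.apply_symm_apply]; exact hgOm)⟩, ?_⟩, ?_⟩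
    · apply Subtype.ext
      apply toLE.injective
      show toLE (toLE.symm g * (x : Matrix.GeneralLinearGroup (Fin m ⊕ Fin m) F)) = toLE ((x : Matrix.GeneralLinearGroup (Fin m ⊕ Fin m) F) * toLE.symm g)
      rw [map_mul, map_mul, MulEquiv.apply_symm_apply]; exact hgx
    · apply Subtype.ext
      exact toLE.apply_symm_apply g

theorem mov_toLE (x : Matrix.GeneralLinearGroup (Fin m ⊕ Fin m) F) (w : Fin m ⊕ Fin m → F) :
    w ∈ mov (toLE x) ↔ ∃ v, ((x : Matrix (Fin m ⊕ Fin m) (Fin m ⊕ Fin m) F) - 1).mulVec v = w := by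
  rw [mem_mov]
  constructor
  · rintro ⟨v, rfl⟩
    exact ⟨v, by rw [Matrix.sub_mulVec, Matrix.one_mulVec, toLE_apply]⟩
  · rintro ⟨v, rfl⟩
    exact ⟨v, by rw [Matrix.sub_mulVec, Matrix.one_mulVec, toLE_apply]⟩

theorem rank_toLE (x : Matrix.GeneralLinearGroup (Fin m ⊕ Fin m) F) :
    ((x : Matrix (Fin m ⊕ Fin m) (Fin m ⊕ Fin m) F) - 1).rank = finrank F (mov (toLE x)) := by
  have h : LinearMap.range (((x : Matrix (Fin m ⊕ Fin m) (Fin m ⊕ Fin m) F) - 1).mulVecLin) = mov (toLE x) := by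
    ext w
    rw [mov_toLE, LinearMap.mem_range]; rfl
  rw [← h]; rfl

end plus

end Cfsg.Agent.Lib.InvO67
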