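import Cfsg.Agent.Lib.BlockColumn
import Cfsg.Agent.Lib.BlockCore
import Cfsg.Agent.Lib.CharValues
import Cfsg.Agent.Lib.CharBasic2
import Cfsg.Agent.S0925

set_option autoImplicit false

/-!
# Principal block columns and involutions (helper78)
-/

namespace Cfsg.Agent.Lib.InvolColumn

open scoped ComplexConjugate
open Cfsg Cfsg.Agent.Lib.CharBasic Cfsg.Agent.Lib.BlockRing Cfsg.Agent.Lib.BlockIdem
open Cfsg.Agent.Lib.BlockThird Cfsg.Agent.Lib.BlockColumn

universe u

variable {G : Type u} [Group G] [Finite G]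

omit [Finite G] in
theorem inv_of_order_two {t : G} (ht : orderOf t = 2) : t⁻¹ = t := by
  rw [inv_eq_iff_mul_eq_one, ← sq, ← ht, pow_orderOf_eq_one]

theorem conj_val {t : G} (ht : orderOf t = 2) (χ : IrrCharacter G) :
    conj ((χ : G → ℂ) t) = (χ : G → ℂ) t := by
  rw [← χ.2.isCharacter.inv, inv_of_order_two ht]

/-- The class function `Σ χ(t)²/χ(1) χ` vanishes at elements not inverted by a conjugate of `t`. -/
theorem sum_eq_zero {t g : G} (ht : orderOf t = 2)
    (hno : ∀ h : G, (h * t * h⁻¹) * g * (h * t * h⁻¹)⁻¹ ≠ g⁻¹) :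
    ∑ χ : IrrCharacter G, (χ : G → ℂ) t ^ 2 / (χ : G → ℂ) 1 * (χ : G → ℂ) g = 0 := by
  classical
  have := Fintype.ofFinite G
  have hG : (Nat.card G : ℂ) ≠ 0 := by exact_mod_cast Nat.card_pos.ne'
  have h1 : ∀ χ : IrrCharacter G, (χ : G → ℂ) t ^ 2 / (χ : G → ℂ) 1 * (χ : G → ℂ) g =
      (Nat.card G : ℂ)⁻¹ * ∑ a : G, (χ : G → ℂ) (t * a * t * a⁻¹) * conj ((χ : G → ℂ) g⁻¹) := by
    intro χ
    rw [← Finset.sum_mul, BlockOsima.sum_conj_eq_omega χ.2 t t, ← χ.2.isCharacter.inv, inv_inv]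
    field_simp
  simp only [h1]
  rw [← Finset.mul_sum, Finset.sum_comm]
  have h2 : ∀ a : G, ∑ χ : IrrCharacter G, (χ : G → ℂ) (t * a * t * a⁻¹) * conj ((χ : G → ℂ) g⁻¹) = 0 := by
    intro a
    rw [column_orthogonality, if_neg]
    intro hc
    obtain ⟨h, hh⟩ := isConj_iff.mp hc
    apply hno h
    have hti := inv_of_order_two ht
    have hg : g = h * (t * a * t * a⁻¹)⁻¹ * h⁻¹ := by
      have := congrArg (fun x => x⁻¹) hh
      simp only [inv_inv] at this
      rw [← this]; group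
    rw [← hh, hg]
    simp only [mul_inv_rev, inv_inv, hti]
    have htt : t * t = 1 := by rw [← sq, ← ht, pow_orderOf_eq_one]
    calc h * t * h⁻¹ * (h * (a * (t * (a⁻¹ * t))) * h⁻¹) * (h * (t * h⁻¹))
        = h * t * (a * (t * (a⁻¹ * (t * t)))) * h⁻¹ := by group
      _ = _ := by rw [htt]; group
  simp only [h2, Finset.sum_const_zero, mul_zero]

/-- The principal block part. -/
theorem block_sum_eq_zero {M : Ideal AlgInt} (hM : IsPModular 2 M) {t y : G} (ht : orderOf t = 2)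
    {k : ℕ} (hy : orderOf y = 2 ^ k)
    (hno : ∀ h : G, (h * t * h⁻¹) * y * (h * t * h⁻¹)⁻¹ ≠ y⁻¹) :
    ∑ᶠ χ ∈ principalBlock M G, (χ : G → ℂ) y * ((χ : G → ℂ) t ^ 2 / (χ : G → ℂ) 1) = 0 := by
  classical
  haveI : Fact (Nat.Prime 2) := ⟨Nat.prime_two⟩
  have := Fintype.ofFinite G
  set F : G → ℂ := ∑ χ : IrrCharacter G, ((χ : G → ℂ) t ^ 2 / (χ : G → ℂ) 1) • (χ : G → ℂ) with hF
  have hFapp : ∀ g, F g = ∑ χ : IrrCharacter G, (χ : G → ℂ) t ^ 2 / (χ : G → ℂ) 1 * (χ : G → ℂ) g := by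
    intro g
    rw [hF, Finset.sum_apply]
    rfl
  have hFc : IsClassFunction G F :=
    isClassFunction_sum _ _ (fun χ _ => χ.2.isClassFunction.smul _)
  have h1 := (Cfsg.Agent.S0925.result (G := G) 2 M hM).1 F hFc y ⟨k, hy⟩ (by
    intro u z hz hconj
    rw [hFapp]
    apply sum_eq_zero ht
    intro h hh
    obtain ⟨c, hc⟩ := isConj_iff.mp hconj
    set x := h * t * h⁻¹ with hx
    have h2 : IsPPart 2 u⁻¹ (x * z * x⁻¹) := by
      rw [← hh]
      obtain ⟨v, hv1, hv2, ⟨m, hm⟩, hv4⟩ := hz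
      refine ⟨x * v * x⁻¹, ?_, ?_, ⟨m, ?_⟩, ?_⟩
      · rw [← hv1]; group
      · exact hv2.map (MulAut.conj x).toMonoidHom
      · rw [← hm]; exact orderOf_injective (MulAut.conj x).toMonoidHom (MulAut.conj x).injective z
      · have : orderOf (x * v * x⁻¹) = orderOf v :=
          orderOf_injective (MulAut.conj x).toMonoidHom (MulAut.conj x).injective v
        rw [this]; exact hv4
    have h3 : IsPPart 2 u⁻¹ z⁻¹ := by
      obtain ⟨v, hv1, hv2, ⟨m, hm⟩, hv4⟩ := hz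
      refine ⟨v⁻¹, ?_, ?_, ⟨m, ?_⟩, ?_⟩
      · rw [← hv1, hv2.eq, mul_inv_rev]
      · exact hv2.inv_inv
      · rw [orderOf_inv, hm]
      · rw [orderOf_inv]; exact hv4
    have h4 := BlockSecond.isPPart_unique Nat.prime_two h2 h3
    apply hno (c⁻¹ * h)
    have h5 : z = c * y * c⁻¹ := hc.symm
    rw [h5, hx] at h4
    calc c⁻¹ * h * t * (c⁻¹ * h)⁻¹ * y * (c⁻¹ * h * t * (c⁻¹ * h)⁻¹)⁻¹
        = c⁻¹ * (h * t * h⁻¹ * (c * y * c⁻¹) * (h * t * h⁻¹)⁻¹) * c := by group
      _ = c⁻¹ * (c * y * c⁻¹)⁻¹ * c := by rw [h4]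
      _ = y⁻¹ := by group) (principalBlock M G) isPBlock_principal y y
    ⟨1, mul_one _, Commute.one_right _, ⟨k, hy⟩, by
      rw [orderOf_one]; norm_num⟩ (IsConj.refl y)
  unfold blockPart at h1
  rw [← h1]
  apply finsum_mem_congr rfl
  intro χ _
  have h2 : classInner F (χ : G → ℂ) = (χ : G → ℂ) t ^ 2 / (χ : G → ℂ) 1 := by
    rw [hF]
    exact classInner_coeff_sum _ χ
  have h3 : @classInner G _ (Fintype.ofFinite G) F (χ : G → ℂ) = classInner F (χ : G → ℂ) := by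
    congr 1
    exact Subsingleton.elim _ _
  rw [h3, h2, mul_comm]


omit [Finite G] in
/-- If at most one coefficient is positive then all the quotients agree. -/
theorem real_lemma {ι : Type*} (s : Finset ι) (r d τ : ι → ℝ) (hd : ∀ i ∈ s, 0 < d i)
    (h1 : ∑ i ∈ s, r i * d i = 0) (h2 : ∑ i ∈ s, r i * τ i = 0)
    (h3 : ∑ i ∈ s, r i * (τ i ^ 2 / d i) = 0) (i1 : ι) (hone : ∀ i ∈ s, 0 < r i → i = i1) :
    ∀ i ∈ s, r i ≠ 0 → τ i / d i = τ i1 / d i1 := by
  set x := τ i1 / d i1 with hx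
  have hQ : ∑ i ∈ s, r i * d i * (τ i / d i - x) ^ 2 = 0 := by
    have h4 : ∀ i ∈ s, r i * d i * (τ i / d i - x) ^ 2 =
        r i * (τ i ^ 2 / d i) - 2 * x * (r i * τ i) + x ^ 2 * (r i * d i) := by
      intro i hi
      have := (hd i hi).ne'
      field_simp
      ring
    rw [Finset.sum_congr rfl h4, Finset.sum_add_distrib, Finset.sum_sub_distrib, ← Finset.mul_sum,
      ← Finset.mul_sum, h1, h2, h3]
    ring
  have hterm : ∀ i ∈ s, r i * d i * (τ i / d i - x) ^ 2 ≤ 0 := by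
    intro i hi
    by_cases hi1 : i = i1
    · rw [hi1, ← hx, sub_self]
      simp
    · have hr : r i ≤ 0 := by
        by_contra hcon
        push Not at hcon
        exact hi1 (hone i hi hcon)
      have := hd i hi
      have h5 : r i * d i ≤ 0 := mul_nonpos_of_nonpos_of_nonneg hr this.le
      exact mul_nonpos_of_nonpos_of_nonneg h5 (sq_nonneg _)
  have hz := (Finset.sum_eq_zero_iff_of_nonpos hterm).mp hQ
  intro i hi hri
  have h6 := hz i hi
  have h7 : r i * d i ≠ 0 := mul_ne_zero hri (hd i hi).ne'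
  have h8 : (τ i / d i - x) ^ 2 = 0 := (mul_eq_zero.mp h6).resolve_left h7
  have h9 : τ i / d i - x = 0 := by
    simpa using h8
  linarith

section Main

variable {M : Ideal AlgInt} (P : Subgroup G) (θ : ↥P → ℂ)

/-- The coefficient `a_χ`. -/
noncomputable def aco (χ : IrrCharacter G) : ℂ :=
  (Nat.card ↥P : ℂ)⁻¹ * ∑ᶠ y : ↥P, (χ : G → ℂ) (y : G) * θ y⁻¹

theorem sum_aco (U : Set G) (hθU : ∀ y : ↥P, (y : G) ∉ U → θ y = 0) (c : IrrCharacter G → ℂ)
    (hc : ∀ y : P, ((y : G)⁻¹) ∈ U → ∑ᶠ χ ∈ principalBlock M G, (χ : G → ℂ) y * c χ = 0) :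
    ∑ᶠ χ ∈ principalBlock M G, aco P θ χ * c χ = 0 := by
  classical
  have := Fintype.ofFinite P
  rw [finsum_mem_eq_finite_toFinset_sum _ (Set.toFinite (principalBlock M G))]
  have h1 : ∀ χ ∈ (Set.toFinite (principalBlock M G)).toFinset, aco P θ χ * c χ =
      (Nat.card ↥P : ℂ)⁻¹ * ∑ y : P, θ y⁻¹ * ((χ : G → ℂ) y * c χ) := by
    intro χ _
    rw [aco, finsum_eq_sum_of_fintype, mul_assoc, Finset.sum_mul]
    congr 1
    refine Finset.sum_congr rfl fun y _ => ?_
    ring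
  rw [Finset.sum_congr rfl h1, ← Finset.mul_sum, Finset.sum_comm]
  have h2 : ∀ y : P, ∑ χ ∈ (Set.toFinite (principalBlock M G)).toFinset,
      θ y⁻¹ * ((χ : G → ℂ) y * c χ) = 0 := by
    intro y
    rw [← Finset.mul_sum]
    by_cases hy : ((y : G)⁻¹) ∈ U
    · have h3 := hc y hy
      rw [finsum_mem_eq_finite_toFinset_sum _ (Set.toFinite (principalBlock M G))] at h3
      rw [h3, mul_zero]
    · rw [hθU y⁻¹ (by simpa using hy), zero_mul]
  simp only [h2, Finset.sum_const_zero, mul_zero]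

theorem three_sums (hM : IsPModular 2 M) (hP : IsPGroup 2 P) (U : Set G)
    (t : G) (ht : orderOf t = 2)
    (hinv : ∀ u ∈ U, ∀ g : G, (g * t * g⁻¹) * u * (g * t * g⁻¹)⁻¹ ≠ u⁻¹)
    (hθU : ∀ y : ↥P, (y : G) ∉ U → θ y = 0) :
    (∑ᶠ χ ∈ principalBlock M G, aco P θ χ * ((χ : G → ℂ) t ^ 2 / (χ : G → ℂ) 1) = 0) ∧
    (∑ᶠ χ ∈ principalBlock M G, aco P θ χ * (χ : G → ℂ) 1 = 0) ∧
    (∑ᶠ χ ∈ principalBlock M G, aco P θ χ * (χ : G → ℂ) t = 0) := by
  classical
  haveI : Fact (Nat.Prime 2) := ⟨Nat.prime_two⟩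
  have hord : ∀ y : P, ∃ k, orderOf (y : G) = 2 ^ k := by
    intro y
    obtain ⟨k, hk⟩ := hP.exists_orderOf_eq_pow y
    exact ⟨k, by rw [Subgroup.orderOf_coe]; exact hk⟩
  have hno : ∀ y : P, ((y : G)⁻¹) ∈ U →
      ∀ h : G, (h * t * h⁻¹) * (y : G) * (h * t * h⁻¹)⁻¹ ≠ (y : G)⁻¹ := by
    intro y hy h hh
    apply hinv _ hy h
    have h2 : ((h * t * h⁻¹) * (y : G) * (h * t * h⁻¹)⁻¹)⁻¹ = (y : G) := by
      rw [hh, inv_inv]
    rw [inv_inv]
    refine Eq.trans ?_ h2
    group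
  refine ⟨?_, ?_, ?_⟩
  · apply sum_aco P θ U hθU
    intro y hy
    obtain ⟨k, hk⟩ := hord y
    exact block_sum_eq_zero hM ht hk (hno y hy)
  · apply sum_aco P θ U hθU (fun χ => (χ : G → ℂ) 1)
    intro y hy
    obtain ⟨k, hk⟩ := hord y
    have h1 := column_principal hM hk (y' := (1 : G)) (k' := 0) (by simp)
    rw [if_neg] at h1
    · rw [← h1]
      apply finsum_mem_congr rfl
      intro χ _
      rw [← χ.2.isCharacter.inv, inv_one]
    · intro hc
      rw [isConj_one_left] at hc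
      apply hno y hy 1
      rw [hc]; group
  · apply sum_aco P θ U hθU (fun χ => (χ : G → ℂ) t)
    intro y hy
    obtain ⟨k, hk⟩ := hord y
    have h1 := column_principal hM hk (y' := t) (k' := 1) (by rw [ht, pow_one])
    rw [if_neg] at h1
    · rw [← h1]
      apply finsum_mem_congr rfl
      intro χ _
      rw [conj_val ht]
    · intro hc
      obtain ⟨c, hc⟩ := isConj_iff.mp hc
      apply hno y hy c⁻¹
      have h2 : c⁻¹ * t * c⁻¹⁻¹ = y := by rw [← hc]; group
      rw [h2]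
      have h3 : (y : G) * y = 1 := by
        have h4 : orderOf (y : G) = 2 := by
          rw [← h2, ← ht]
          exact orderOf_injective (MulAut.conj c⁻¹).toMonoidHom (MulAut.conj c⁻¹).injective t
        rw [← sq, ← h4, pow_orderOf_eq_one]
      rw [mul_assoc, mul_inv_cancel, mul_one]
      exact eq_inv_of_mul_eq_one_left h3

theorem aco_triv_real [Fintype P] (hθ : IsGeneralizedCharacter ↥P θ) :
    ∃ n : ℤ, (Nat.card ↥P : ℂ)⁻¹ * ∑ᶠ y : ↥P, θ y = n ∧ aco P θ (triv G) = n := by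
  obtain ⟨n, hn⟩ := hθ.classInner_int (isGeneralized_one (G := P))
  refine ⟨n, ?_, ?_⟩
  · rw [← hn, classInner_def, finsum_eq_sum_of_fintype]
    simp
  · rw [← hn, classInner_def, aco, finsum_eq_sum_of_fintype]
    congr 1
    refine Fintype.sum_equiv (Equiv.inv P) _ _ fun y => ?_
    simp

/-- The dichotomy. -/
theorem dichotomy (hM : IsPModular 2 M) (hP : IsPGroup 2 P) (U : Set G)
    (t : G) (ht : orderOf t = 2)
    (hinv : ∀ u ∈ U, ∀ g : G, (g * t * g⁻¹) * u * (g * t * g⁻¹)⁻¹ ≠ u⁻¹)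
    (hθ : IsGeneralizedCharacter ↥P θ)
    (hθU : ∀ y : ↥P, (y : G) ∉ U → θ y = 0)
    (h0 : (Nat.card ↥P : ℂ)⁻¹ * ∑ᶠ y : ↥P, θ y ≠ 0) :
    (2 ≤ Nat.card {χ : IrrCharacter G // χ ∈ principalBlock M G ∧ 0 < (aco P θ χ).re} ∧
      2 ≤ Nat.card {χ : IrrCharacter G // χ ∈ principalBlock M G ∧ (aco P θ χ).re < 0}) ∨
    ∃ K : Subgroup G, K.Normal ∧ K ≠ ⊤ ∧ pPrimeCore 2 G ≤ K ∧ t ∈ K := by
  classical
  haveI := isPrime hM
  have := Fintype.ofFinite G
  have := Fintype.ofFinite P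
  obtain ⟨hs1, hs2, hs3⟩ := three_sums P θ hM hP U t ht hinv hθU
  rw [finsum_mem_eq_finite_toFinset_sum _ (Set.toFinite (principalBlock M G))] at hs1 hs2 hs3
  set s := (Set.toFinite (principalBlock M G)).toFinset with hs
  have hmem : ∀ χ, χ ∈ s ↔ χ ∈ principalBlock M G := fun χ => by rw [hs]; simp
  set r : IrrCharacter G → ℝ := fun χ => (aco P θ χ).re with hr
  set d : IrrCharacter G → ℝ := fun χ => (charDegree (χ : G → ℂ) : ℝ) with hd
  set τ : IrrCharacter G → ℝ := fun χ => ((χ : G → ℂ) t).re with hτ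
  have hdc : ∀ χ : IrrCharacter G, (χ : G → ℂ) 1 = ((d χ : ℝ) : ℂ) := by
    intro χ
    rw [← BlockDeg.charDegree_cast_irr]
    simp [hd]
  have hτc : ∀ χ : IrrCharacter G, (χ : G → ℂ) t = ((τ χ : ℝ) : ℂ) := by
    intro χ
    exact (Complex.conj_eq_iff_re.mp (conj_val ht χ)).symm
  have hdpos : ∀ χ ∈ s, 0 < d χ := by
    intro χ _
    have := BlockDeg.charDegree_pos χ.2
    simp only [hd]
    exact_mod_cast this
  have e1 : ∑ χ ∈ s, r χ * d χ = 0 := by
    have h1 := congrArg Complex.re hs2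
    rw [Complex.re_sum, Complex.zero_re] at h1
    rw [← h1]
    refine Finset.sum_congr rfl fun χ _ => ?_
    rw [hdc, Complex.re_mul_ofReal]
  have e2 : ∑ χ ∈ s, r χ * τ χ = 0 := by
    have h1 := congrArg Complex.re hs3
    rw [Complex.re_sum, Complex.zero_re] at h1
    rw [← h1]
    refine Finset.sum_congr rfl fun χ _ => ?_
    rw [hτc, Complex.re_mul_ofReal]
  have e3 : ∑ χ ∈ s, r χ * (τ χ ^ 2 / d χ) = 0 := by
    have h1 := congrArg Complex.re hs1
    rw [Complex.re_sum, Complex.zero_re] at h1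
    rw [← h1]
    refine Finset.sum_congr rfl fun χ _ => ?_
    rw [hdc, hτc, ← Complex.ofReal_pow, ← Complex.ofReal_div, Complex.re_mul_ofReal]
  have htriv : triv G ∈ s := (hmem _).mpr triv_mem
  have hrtriv : r (triv G) ≠ 0 := by
    obtain ⟨n, hn1, hn2⟩ := aco_triv_real P θ hθ
    rw [hn1] at h0
    simp only [hr, hn2, Complex.intCast_re]
    exact_mod_cast h0
  have hxtriv : τ (triv G) / d (triv G) = 1 := by
    have h1 := hdc (triv G)
    have h2 := hτc (triv G)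
    rw [coe_triv] at h1 h2
    change (1 : ℂ) = _ at h1
    change (1 : ℂ) = _ at h2
    have h3 : d (triv G) = 1 := by exact_mod_cast h1.symm
    have h4 : τ (triv G) = 1 := by exact_mod_cast h2.symm
    rw [h3, h4, div_one]
  -- the conclusion from one exceptional index
  have concl : (∃ i1 : IrrCharacter G, ∀ i ∈ s, r i ≠ 0 → τ i / d i = τ i1 / d i1) →
      ∃ K : Subgroup G, K.Normal ∧ K ≠ ⊤ ∧ pPrimeCore 2 G ≤ K ∧ t ∈ K := by
    rintro ⟨i1, hi1⟩
    have hx1 : τ i1 / d i1 = 1 := by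
      rw [← hi1 _ htriv hrtriv, hxtriv]
    obtain ⟨χ, hχs, hχr, hχ1⟩ : ∃ χ ∈ s, r χ ≠ 0 ∧ χ ≠ triv G := by
      by_contra hno
      push Not at hno
      apply hrtriv
      rw [Finset.sum_eq_single_of_mem (triv G) htriv] at e1
      · rcases mul_eq_zero.mp e1 with h | h
        · exact h
        · exact absurd h (hdpos _ htriv).ne'
      · intro b hb hbt
        by_cases hbr : r b = 0
        · rw [hbr, zero_mul]
        · exact absurd (hno b hb hbr) hbt
    have hχt : (χ : G → ℂ) t = (χ : G → ℂ) 1 := by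
      have h1 := hi1 χ hχs hχr
      rw [hx1, div_eq_one_iff_eq (hdpos χ hχs).ne'] at h1
      rw [hdc, hτc, h1]
    obtain ⟨n, ρ, hρ, hρχ⟩ := χ.2
    have hker : ∀ g, (χ : G → ℂ) g = (χ : G → ℂ) 1 ↔ g ∈ ρ.ker := by
      intro g
      rw [MonoidHom.mem_ker, ← hρχ, Representation.char_one]
      exact CharValues.character_eq_finrank_iff ρ g
    refine ⟨ρ.ker, inferInstance, ?_, ?_, (hker t).mp hχt⟩
    · intro htop
      apply hχ1
      apply Subtype.ext
      have hconst : ∀ g, (χ : G → ℂ) g = (χ : G → ℂ) 1 := fun g => (hker g).mpr (by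
        rw [htop]; exact Subgroup.mem_top g)
      have h1 := χ.2.classInner_self
      have h2 : (χ : G → ℂ) = (χ : G → ℂ) 1 • (fun _ => (1 : ℂ)) := by
        funext g
        simp [hconst g]
      have h3 : classInner (χ : G → ℂ) (triv G : G → ℂ) ≠ 0 := by
        rw [h2, classInner_smul_left, coe_triv]
        have h4 := (triv G).2.classInner_self
        rw [coe_triv] at h4
        rw [h4, mul_one]
        exact χ.2.one_ne_zero
      by_contra hne
      exact h3 (χ.2.classInner_eq_zero (triv G).2 hne)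
    · unfold pPrimeCore
      apply sSup_le
      rintro N ⟨hN, hNc⟩ n hn
      have h2 : ¬ 2 ∣ Nat.card N := by
        intro h
        have := Nat.eq_one_of_dvd_coprimes hNc h dvd_rfl
        norm_num at this
      exact (hker n).mp (BlockCore.ker_of_principal hM h2 ((hmem χ).mp hχs) n hn)
  by_cases hpos : 2 ≤ Nat.card {χ : IrrCharacter G // χ ∈ principalBlock M G ∧ 0 < (aco P θ χ).re}
  · by_cases hneg : 2 ≤ Nat.card {χ : IrrCharacter G // χ ∈ principalBlock M G ∧ (aco P θ χ).re < 0}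
    · exact Or.inl ⟨hpos, hneg⟩
    · right
      apply concl
      have hsub : Subsingleton {χ : IrrCharacter G // χ ∈ principalBlock M G ∧ (aco P θ χ).re < 0} := by
        rw [← Finite.card_le_one_iff_subsingleton]
        omega
      have hone : ∃ i1 : IrrCharacter G, ∀ i ∈ s, 0 < (-r i) → i = i1 := by
        by_cases hex : ∃ i ∈ s, r i < 0
        · obtain ⟨i1, hi1s, hi1⟩ := hex
          refine ⟨i1, fun i his hi => ?_⟩
          have := hsub.elim ⟨i, (hmem i).mp his, by simpa [hr] using hi⟩ ⟨i1, (hmem i1).mp hi1s, hi1⟩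
          exact congrArg Subtype.val this
        · push Not at hex
          exact ⟨triv G, fun i his hi => absurd (hex i his) (by linarith)⟩
      obtain ⟨i1, hi1⟩ := hone
      refine ⟨i1, fun i his hri => ?_⟩
      refine real_lemma s (fun i => -r i) d τ hdpos ?_ ?_ ?_ i1 hi1 i his (by simpa using hri)
      · simp only [neg_mul, Finset.sum_neg_distrib, e1, neg_zero]
      · simp only [neg_mul, Finset.sum_neg_distrib, e2, neg_zero]
      · simp only [neg_mul, Finset.sum_neg_distrib, e3, neg_zero]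
  · right
    apply concl
    have hsub : Subsingleton {χ : IrrCharacter G // χ ∈ principalBlock M G ∧ 0 < (aco P θ χ).re} := by
      rw [← Finite.card_le_one_iff_subsingleton]
      omega
    have hone : ∃ i1 : IrrCharacter G, ∀ i ∈ s, 0 < r i → i = i1 := by
      by_cases hex : ∃ i ∈ s, 0 < r i
      · obtain ⟨i1, hi1s, hi1⟩ := hex
        refine ⟨i1, fun i his hi => ?_⟩
        have := hsub.elim ⟨i, (hmem i).mp his, hi⟩ ⟨i1, (hmem i1).mp hi1s, hi1⟩
        exact congrArg Subtype.val this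
      · push Not at hex
        exact ⟨triv G, fun i his hi => absurd (hex i his) (by linarith)⟩
    obtain ⟨i1, hi1⟩ := hone
    exact ⟨i1, fun i his hri => real_lemma s r d τ hdpos e1 e2 e3 i1 hi1 i his hri⟩

end Main

end Cfsg.Agent.Lib.InvolColumn
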