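import Mathlib
import Cfsg.Agent.Lib.CharTriple
import Cfsg.Agent.Lib.CosetAvg
import Cfsg.Agent.Lib.H76RO
import Cfsg.Agent.Lib.GlaubPerm
import Cfsg.Agent.Lib.BlockGA

/-!
# Character triples for subgroups (helper78)
-/

set_option autoImplicit false
set_option linter.all false

namespace Cfsg.Agent.Lib.IsaOdd

open Cfsg Cfsg.Agent.Lib.CharBasic Cfsg.Agent.Lib.Clifford
open scoped ComplexConjugate

universe u

/-- data of a character triple isomorphism, relative to subgroups `L ≤ R` -/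
structure TD {Γ : Type u} [Group Γ] (R L : Subgroup Γ) (φ : L → ℂ) where
  Y : Type u
  grp : Group Y
  fin : Finite Y
  p : Y →* Γ
  p_range : p.range = R
  j : L →* Y
  p_j : ∀ n, p (j n) = n
  j_norm : j.range.Normal
  central : ∀ z ∈ p.ker, ∀ y, z * y = y * z
  ρ : Y → ℂ
  ρ_char : IsCharacter Y ρ
  ρ_j : ∀ n, ρ (j n) = φ n
  lam : p.ker →* ℂˣ
  ρ_mul : ∀ (z : p.ker) (y : Y), ρ (z * y) = (lam z : ℂ) * ρ y

attribute [instance] TD.grp TD.fin TD.j_norm

theorem exists_TD {Γ : Type u} [Group Γ] [Finite Γ] {R L : Subgroup Γ} (hLR : L ≤ R)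
    (hLn : ∀ g ∈ R, ∀ l ∈ L, g * l * g⁻¹ ∈ L) {φ : L → ℂ} (hφ : IsIrrCharacter L φ)
    (hinv : ∀ g ∈ R, ∀ n n' : L, (n' : Γ) = g * n * g⁻¹ → φ n' = φ n) : Nonempty (TD R L φ) := by
  have hn : (L.subgroupOf R).Normal := ⟨fun n hn g => hLn g g.2 n hn⟩
  obtain ⟨t⟩ := CharTriple.exists_triple (Γ := R) (N := L.subgroupOf R)
    (GlaubPerm.irr_subgroupOf hLR hφ) (by
      intro g
      funext n
      rw [cj_apply]
      refine (hinv g g.2 _ _ ?_).symm ▸ rfl
      rfl)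
  have hker : (R.subtype.comp t.π).ker = t.π.ker := by
    ext y
    rw [MonoidHom.mem_ker, MonoidHom.mem_ker, MonoidHom.comp_apply]
    exact ⟨fun h => Subtype.ext h, fun h => by rw [h]; rfl⟩
  refine ⟨⟨t.Y, t.grp, t.fin, R.subtype.comp t.π, ?_,
    t.j.comp (Subgroup.subgroupOfEquivOfLe hLR).symm.toMonoidHom, ?_, ?_, ?_, t.ρ, t.ρ_char, ?_,
    t.lam.comp (Subgroup.inclusion hker.le), ?_⟩⟩
  · rw [MonoidHom.range_comp, MonoidHom.range_eq_top.2 t.π_surj, ← MonoidHom.range_eq_map, Subgroup.range_subtype]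
  · intro n
    change ((t.π (t.j ((Subgroup.subgroupOfEquivOfLe hLR).symm n)) : R) : Γ) = n
    rw [t.π_j]
    rfl
  · have h1 : (t.j.comp (Subgroup.subgroupOfEquivOfLe hLR).symm.toMonoidHom).range = t.j.range := by
      rw [MonoidHom.range_comp]
      have : ((Subgroup.subgroupOfEquivOfLe hLR).symm.toMonoidHom).range = ⊤ :=
        MonoidHom.range_eq_top.2 (Subgroup.subgroupOfEquivOfLe hLR).symm.surjective
      rw [this, ← MonoidHom.range_eq_map]
    rw [h1]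
    exact t.j_norm
  · intro z hz y
    rw [hker] at hz
    exact t.central z hz y
  · intro n
    change t.ρ (t.j ((Subgroup.subgroupOfEquivOfLe hLR).symm n)) = φ n
    rw [t.ρ_j, MulEquiv.apply_symm_apply]
  · intro z y
    exact t.ρ_mul (Subgroup.inclusion hker.le z) y

section

variable {Γ : Type u} [Group Γ] [Finite Γ] {R L : Subgroup Γ} {φ : L → ℂ} (t : TD R L φ)

namespace TD

/-- the quotient -/
abbrev Yb : Type u := t.Y ⧸ t.j.range

/-- the quotient map -/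
def q : t.Y →* t.Yb := QuotientGroup.mk' t.j.range

/-- the subgroup of the quotient corresponding to `X` -/
def bar (X : Subgroup Γ) : Subgroup t.Yb := (X.comap t.p).map t.q

theorem q_surj : Function.Surjective t.q := QuotientGroup.mk'_surjective _

theorem q_eq_iff (y y' : t.Y) : t.q y = t.q y' ↔ ∃ n : L, y * t.j n = y' := by
  constructor
  · intro h
    have h1 : y⁻¹ * y' ∈ t.j.range := QuotientGroup.eq.1 h
    obtain ⟨n, hn⟩ := h1
    exact ⟨n, by rw [hn, mul_inv_cancel_left]⟩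
  · rintro ⟨n, rfl⟩
    refine QuotientGroup.eq.2 ?_
    rw [inv_mul_cancel_left]
    exact ⟨n, rfl⟩

theorem q_j (n : L) : t.q (t.j n) = 1 := (QuotientGroup.eq_one_iff _).2 ⟨n, rfl⟩

theorem mem_bar {X : Subgroup Γ} {y : t.Y} (hy : t.p y ∈ X) : t.q y ∈ t.bar X := ⟨y, hy, rfl⟩

theorem mem_bar_iff {X : Subgroup Γ} (hLX : L ≤ X) (y : t.Y) : t.q y ∈ t.bar X ↔ t.p y ∈ X := by
  constructor
  · rintro ⟨y', hy', h⟩
    obtain ⟨n, rfl⟩ := (t.q_eq_iff _ _).1 h
    rw [map_mul, t.p_j]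
    exact X.mul_mem hy' (hLX n.2)
  · exact t.mem_bar

theorem bar_mono {X X' : Subgroup Γ} (h : X ≤ X') : t.bar X ≤ t.bar X' :=
  Subgroup.map_mono (Subgroup.comap_mono h)

/-- restriction of `p` -/
def f (X : Subgroup Γ) : X.comap t.p →* X :=
  { toFun := fun x => ⟨t.p (x : t.Y), x.2⟩
    map_one' := Subtype.ext (map_one t.p)
    map_mul' := fun a b => Subtype.ext (map_mul t.p (a : t.Y) (b : t.Y)) }

theorem f_surj {X : Subgroup Γ} (hX : X ≤ R) : Function.Surjective (t.f X) := by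
  rintro ⟨g, hg⟩
  have h1 : g ∈ t.p.range := by rw [t.p_range]; exact hX hg
  obtain ⟨y, hy⟩ := h1
  exact ⟨⟨y, by rw [Subgroup.mem_comap, hy]; exact hg⟩, Subtype.ext hy⟩

/-- restriction of `q` -/
def g (X : Subgroup Γ) : X.comap t.p →* t.bar X :=
  { toFun := fun x => ⟨t.q (x : t.Y), t.mem_bar x.2⟩
    map_one' := Subtype.ext (map_one t.q)
    map_mul' := fun a b => Subtype.ext (map_mul t.q (a : t.Y) (b : t.Y)) }

theorem g_surj (X : Subgroup Γ) : Function.Surjective (t.g X) := by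
  rintro ⟨_, ⟨y, hy, rfl⟩⟩
  exact ⟨⟨y, hy⟩, rfl⟩

/-- the relation between characters of `X` and of `bar X` -/
def Rel (X : Subgroup Γ) (χ : X → ℂ) (β : t.bar X → ℂ) : Prop :=
  ∀ (y : t.Y) (hy : t.p y ∈ X), χ ⟨t.p y, hy⟩ = β ⟨t.q y, t.mem_bar hy⟩ * t.ρ y

/-- lying over `λ⁻¹` -/
def Ov (X : Subgroup Γ) (β : t.bar X → ℂ) : Prop :=
  ∀ (z : t.p.ker) (x x' : t.bar X), (x' : t.Yb) = t.q z * x → β x' = ((t.lam z : ℂˣ) : ℂ)⁻¹ * β x

theorem ρ_irr (hφ : IsIrrCharacter L φ) : IsIrrCharacter t.Y t.ρ := by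
  have hjinj : Function.Injective t.j := by
    intro a b hab
    have := congrArg t.p hab
    rw [t.p_j, t.p_j] at this
    exact Subtype.ext this
  let e : L ≃* t.j.range := MonoidHom.ofInjective hjinj
  refine CanonExt.isIrr_of_ext (N := t.j.range) (ϑ := fun n => φ (e.symm n))
    (hφ.comp_surjective e.symm.toMonoidHom e.symm.surjective) t.ρ_char ?_
  intro n
  obtain ⟨l, rfl⟩ := e.surjective n
  rw [e.symm_apply_apply, ← t.ρ_j]
  rfl

theorem rho_norm [Fintype L] (hφ : IsIrrCharacter L φ) (y : t.Y) :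
    ∑ l : L, t.ρ (t.j l * y) * conj (t.ρ (t.j l * y)) = (Nat.card L : ℂ) := by
  classical
  have hjinj : Function.Injective t.j := by
    intro a b hab
    have := congrArg t.p hab
    rw [t.p_j, t.p_j] at this
    exact Subtype.ext this
  let e : L ≃* t.j.range := MonoidHom.ofInjective hjinj
  have := Fintype.ofFinite t.Y
  have := Fintype.ofFinite t.j.range
  have hϑ : IsIrrCharacter t.j.range (fun n => φ (e.symm n)) :=
    hφ.comp_surjective e.symm.toMonoidHom e.symm.surjective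
  have hext : ∀ n : t.j.range, t.ρ n = φ (e.symm n) := by
    intro n
    obtain ⟨l, rfl⟩ := e.surjective n
    rw [e.symm_apply_apply, ← t.ρ_j]
    rfl
  have h1 := (CosetAvg.coset_average hϑ (t.ρ_irr hφ) hext (t.ρ_irr hφ)).1 1
    isIrrCharacter_one (fun _ => rfl) (one_mul _).symm y
  have h0 : (Nat.card t.j.range : ℂ) ≠ 0 := by exact_mod_cast Nat.card_pos.ne'
  rw [Pi.one_apply, inv_mul_eq_one₀ h0] at h1
  rw [Nat.card_congr e.toEquiv, h1]
  exact Fintype.sum_equiv e.toEquiv _ _ fun l => rfl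

theorem isom {X X' : Subgroup Γ} (hφ : IsIrrCharacter L φ) (hLX : L ≤ X') (hX : X' ≤ X) (hXR : X ≤ R) {χ : X → ℂ} {β : t.bar X → ℂ}
    {ψ : X' → ℂ} {γ : t.bar X' → ℂ} (h1 : t.Rel X χ β) (h2 : t.Rel X' ψ γ) [Fintype X'] [Fintype (t.bar X')] :
    classInner (fun x : X' => χ ⟨x, hX x.2⟩) ψ = classInner (fun x : t.bar X' => β ⟨x, t.bar_mono hX x.2⟩) γ := by
  classical
  have := Fintype.ofFinite (X'.comap t.p)
  have := Fintype.ofFinite L
  rw [← H76RO.classInner_comp_hom (t.f_surj (hX.trans hXR)) (fun x : X' => χ ⟨x, hX x.2⟩) ψ,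
    ← H76RO.classInner_comp_hom (t.g_surj X') (fun x : t.bar X' => β ⟨x, t.bar_mono hX x.2⟩) γ]
  unfold classInner
  congr 1
  set A : X'.comap t.p → ℂ := fun y => β ⟨t.q y, t.mem_bar (hX y.2)⟩ * conj (γ ⟨t.q y, t.mem_bar y.2⟩) with hA
  have e1 : ∀ y : X'.comap t.p, χ ⟨t.f X' y, hX (t.f X' y).2⟩ * conj (ψ (t.f X' y)) =
      A y * (t.ρ y * conj (t.ρ y)) := by
    intro y
    have h3 := h1 y (hX y.2)
    have h4 := h2 y y.2
    change χ ⟨t.p y, _⟩ * conj (ψ ⟨t.p y, _⟩) = _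
    rw [h3, h4, hA, map_mul]
    ring
  rw [Finset.sum_congr rfl fun y _ => e1 y]
  change _ = ∑ y : X'.comap t.p, A y
  have hj : ∀ l : L, t.j l ∈ X'.comap t.p := fun l => by
    rw [Subgroup.mem_comap, t.p_j]; exact hLX l.2
  have hAj : ∀ (l : L) (y : X'.comap t.p), A (⟨t.j l, hj l⟩ * y) = A y := by
    intro l y
    have h5 : t.q (t.j l * (y : t.Y)) = t.q y := by rw [map_mul, t.q_j, one_mul]
    simp only [hA]
    congr 1
    · exact congrArg β (Subtype.ext h5)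
    · exact congrArg (fun z => conj (γ z)) (Subtype.ext h5)
  have hL : (Nat.card L : ℂ) ≠ 0 := by exact_mod_cast Nat.card_pos.ne'
  apply mul_left_cancel₀ hL
  have e2 : (Nat.card L : ℂ) * ∑ y : X'.comap t.p, A y * (t.ρ y * conj (t.ρ y)) =
      ∑ l : L, ∑ y : X'.comap t.p, A (⟨t.j l, hj l⟩ * y) * (t.ρ (t.j l * y) * conj (t.ρ (t.j l * y))) := by
    have e3 : ∀ l : L, ∑ y : X'.comap t.p, A (⟨t.j l, hj l⟩ * y) * (t.ρ (t.j l * y) * conj (t.ρ (t.j l * y))) =
        ∑ y : X'.comap t.p, A y * (t.ρ y * conj (t.ρ y)) := by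
      intro l
      exact Fintype.sum_equiv (Equiv.mulLeft (⟨t.j l, hj l⟩ : X'.comap t.p)) _ _ fun y => rfl
    rw [Finset.sum_congr rfl fun l _ => e3 l, Finset.sum_const, Finset.card_univ, nsmul_eq_mul, Nat.card_eq_fintype_card]
  rw [e2, Finset.sum_comm, Finset.mul_sum]
  refine Finset.sum_congr rfl fun y _ => ?_
  rw [Finset.sum_congr rfl fun l _ => by rw [hAj l y], ← Finset.mul_sum, t.rho_norm hφ, mul_comm]

/-- `M = j L` inside the preimage -/
theorem setup (hφ : IsIrrCharacter L φ) {X : Subgroup Γ} (hLX : L ≤ X) :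
    ∃ (M : Subgroup (X.comap t.p)) (_ : M.Normal) (ϑ : M → ℂ), (∀ y : X.comap t.p, y ∈ M ↔ ∃ n : L, (y : t.Y) = t.j n) ∧
      IsIrrCharacter M ϑ ∧ (∀ m : M, t.ρ m = ϑ m) ∧ IsIrrCharacter (X.comap t.p) (fun x => t.ρ x) ∧
      ∀ (n : L) (m : M), (m : t.Y) = t.j n → ϑ m = φ n := by
  have hjG : ∀ n, t.j n ∈ X.comap t.p := fun n => by
    rw [Subgroup.mem_comap, t.p_j]; exact hLX n.2
  let M : Subgroup (X.comap t.p) := t.j.range.subgroupOf (X.comap t.p)
  have hMn : M.Normal := by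
    have := t.j_norm
    infer_instance
  have hjinj : Function.Injective t.j := by
    intro a b hab
    have := congrArg t.p hab
    rw [t.p_j, t.p_j] at this
    exact Subtype.ext this
  let e : L ≃* M := MulEquiv.ofBijective
    ({ toFun := fun n => ⟨⟨t.j n, hjG n⟩, ⟨n, rfl⟩⟩
       map_one' := by apply Subtype.ext; apply Subtype.ext; exact map_one t.j
       map_mul' := fun a b => by apply Subtype.ext; apply Subtype.ext; exact map_mul t.j a b } : L →* M)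
    ⟨fun a b hab => hjinj (congrArg (fun x : M => ((x : X.comap t.p) : t.Y)) hab), by
      rintro ⟨⟨x, hx⟩, ⟨n, hn⟩⟩
      exact ⟨n, Subtype.ext (Subtype.ext hn)⟩⟩
  have he : ∀ n, ((e n : M) : X.comap t.p) = ⟨t.j n, hjG n⟩ := fun n => rfl
  have hϑ : IsIrrCharacter M (fun m => φ (e.symm m)) := hφ.comp_surjective e.symm.toMonoidHom e.symm.surjective
  have hρc : IsCharacter (X.comap t.p) (fun x => t.ρ x) := t.ρ_char.restrict _
  have hρext : ∀ m : M, t.ρ m = φ (e.symm m) := by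
    intro m
    obtain ⟨n, rfl⟩ := e.surjective m
    rw [MulEquiv.symm_apply_apply, he]
    exact t.ρ_j n
  refine ⟨M, hMn, fun m => φ (e.symm m), ?_, hϑ, hρext, CanonExt.isIrr_of_ext hϑ hρc hρext, ?_⟩
  · intro y
    constructor
    · rintro ⟨n, hn⟩; exact ⟨n, hn.symm⟩
    · rintro ⟨n, hn⟩; exact ⟨n, hn.symm⟩
  · intro n m hm
    have : m = e n := Subtype.ext (Subtype.ext hm)
    rw [this]
    exact congrArg φ (e.symm_apply_apply n)

theorem corr1 (hφ : IsIrrCharacter L φ) {X : Subgroup Γ} (hLX : L ≤ X) (hXR : X ≤ R) {β : t.bar X → ℂ}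
    (hβ : IsIrrCharacter (t.bar X) β) (hO : t.Ov X β) [Fintype L] :
    ∃ χ : X → ℂ, IsIrrCharacter X χ ∧ t.Rel X χ β ∧ classInner (fun n : L => χ ⟨n, hLX n.2⟩) φ ≠ 0 := by
  have := Fintype.ofFinite (X.comap t.p)
  obtain ⟨M, hMn, ϑ, hM, hϑ, hρext, hρirr, hϑj⟩ := t.setup hφ hLX
  have hβ' : IsIrrCharacter (X.comap t.p) (fun x => β (t.g X x)) := hβ.comp_surjective (t.g X) (t.g_surj X)
  have hβM : ∀ m : M, β (t.g X m) = β (t.g X 1) := by
    intro m
    obtain ⟨n, hn⟩ := (hM m).1 m.2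
    refine congrArg β (Subtype.ext ?_)
    change t.q m = t.q 1
    rw [hn, t.q_j, map_one]
  have h1 : IsIrrCharacter (X.comap t.p) ((fun x => β (t.g X x)) * fun x : X.comap t.p => t.ρ x) :=
    ((CanonExt.bijOn hϑ hρirr hρext).mapsTo ⟨hβ', hβM⟩).1
  obtain ⟨χ, hχ, h2⟩ := CharTriple.irr_deflate (t.f_surj hXR) h1 (by
    intro z hz
    have hz' : (z : t.Y) ∈ t.p.ker := congrArg Subtype.val hz
    have h3 := hO ⟨z, hz'⟩ 1 (t.g X z) (by simp; rfl)
    have h4 := t.ρ_mul ⟨z, hz'⟩ 1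
    rw [mul_one] at h4
    change β (t.g X z) * t.ρ z = β (t.g X 1) * t.ρ ((1 : X.comap t.p) : t.Y)
    have h6 : t.ρ z = ((t.lam ⟨z, hz'⟩ : ℂˣ) : ℂ) * t.ρ 1 := h4
    rw [h3, h6, OneMemClass.coe_one, map_one]
    have h7 : ((t.lam ⟨z, hz'⟩ : ℂˣ) : ℂ) ≠ 0 := Units.ne_zero _
    field_simp)
  refine ⟨χ, hχ, fun y hy => h2 ⟨y, hy⟩, ?_⟩
  have h3 : (fun n : L => χ ⟨n, hLX n.2⟩) = β 1 • φ := by
    funext n
    have hj : t.j n ∈ X.comap t.p := by rw [Subgroup.mem_comap, t.p_j]; exact hLX n.2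
    have h4 := h2 ⟨t.j n, hj⟩
    have h5 : t.f X ⟨t.j n, hj⟩ = ⟨n, hLX n.2⟩ := Subtype.ext (t.p_j n)
    rw [h5] at h4
    rw [h4, Pi.smul_apply, smul_eq_mul, ← t.ρ_j]
    change β _ * t.ρ (t.j n) = _
    congr 1
    exact congrArg β (Subtype.ext (t.q_j n))
  rw [h3, classInner_smul_left, hφ.classInner_self, mul_one]
  exact hβ.one_ne_zero

theorem corr2 (hφ : IsIrrCharacter L φ) {X : Subgroup Γ} (hLX : L ≤ X) (hXR : X ≤ R) {χ : X → ℂ}
    (hχ : IsIrrCharacter X χ) [Fintype L] (hov : classInner (fun n : L => χ ⟨n, hLX n.2⟩) φ ≠ 0) :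
    ∃ β : t.bar X → ℂ, IsIrrCharacter (t.bar X) β ∧ t.Rel X χ β ∧ t.Ov X β := by
  have := Fintype.ofFinite (X.comap t.p)
  obtain ⟨M, hMn, ϑ, hM, hϑ, hρext, hρirr, hϑj⟩ := t.setup hφ hLX
  have := Fintype.ofFinite M
  have hχ' : IsIrrCharacter (X.comap t.p) (fun x => χ (t.f X x)) := hχ.comp_surjective (t.f X) (t.f_surj hXR)
  have hj : ∀ n : L, t.j n ∈ X.comap t.p := fun n => by rw [Subgroup.mem_comap, t.p_j]; exact hLX n.2
  have hov' : classInner (fun m : M => χ (t.f X m)) ϑ ≠ 0 := by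
    let e : L →* M :=
      { toFun := fun n => ⟨⟨t.j n, hj n⟩, (hM _).2 ⟨n, rfl⟩⟩
        map_one' := by apply Subtype.ext; apply Subtype.ext; exact map_one t.j
        map_mul' := fun a b => by apply Subtype.ext; apply Subtype.ext; exact map_mul t.j a b }
    have he : Function.Surjective e := by
      intro m
      obtain ⟨n, hn⟩ := (hM m).1 m.2
      exact ⟨n, Subtype.ext (Subtype.ext hn.symm)⟩
    rw [← H76RO.classInner_comp_hom he (fun m : M => χ (t.f X m)) ϑ]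
    have e1 : (fun n : L => χ (t.f X (e n))) = fun n : L => χ ⟨n, hLX n.2⟩ := by
      funext n
      exact congrArg χ (Subtype.ext (t.p_j n))
    have e2 : (fun n : L => ϑ (e n)) = φ := by
      funext n
      exact hϑj n (e n) rfl
    rw [e1, e2]
    exact hov
  obtain ⟨b, hb, hbM, hbρ⟩ := CanonExt.exists_gallagher hϑ hρirr hρext hχ' hov'
  have hval : ∀ y : X.comap t.p, χ (t.f X y) = b y * t.ρ y := fun y => congrFun hbρ y
  obtain ⟨β, hβ, h2⟩ := CharTriple.irr_deflate (t.g_surj X) hb (by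
    intro m hm
    have h3 : t.q m = t.q 1 := by
      rw [map_one]
      exact congrArg Subtype.val hm
    obtain ⟨n, hn⟩ := (t.q_eq_iff _ _).1 h3
    have h4 : m ∈ M := by
      rw [hM]
      refine ⟨n⁻¹, ?_⟩
      rw [map_inv, eq_inv_iff_mul_eq_one]
      exact hn
    exact hbM ⟨m, h4⟩)
  have hRel : t.Rel X χ β := by
    intro y hy
    have h3 := hval ⟨y, hy⟩
    have h4 := h2 ⟨y, hy⟩
    change χ (t.f X ⟨y, hy⟩) = β (t.g X ⟨y, hy⟩) * t.ρ y
    rw [h3, h4]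
  refine ⟨β, hβ, hRel, ?_⟩
  -- central character
  have hρ1 : t.ρ 1 ≠ 0 := (t.ρ_irr hφ).one_ne_zero
  intro z x x' hx
  have hzX : t.p z ∈ X := by
    have : t.p z = 1 := z.2
    rw [this]; exact X.one_mem
  obtain ⟨⟨y, hy⟩, rfl⟩ := t.g_surj X x
  have hx2 : x' = ⟨t.q z, t.mem_bar hzX⟩ * t.g X ⟨y, hy⟩ := Subtype.ext hx
  have hzc : (MonoidAlgebra.single (⟨t.q z, t.mem_bar hzX⟩ : t.bar X) (1 : ℂ)) ∈ Subalgebra.center ℂ (BlockGA.GA (t.bar X)) := by
    rw [Subalgebra.mem_center_iff]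
    intro w
    induction w using MonoidAlgebra.induction_linear with
    | zero => simp
    | add a b ha hb => rw [add_mul, mul_add, ha, hb]
    | single g a =>
      rw [MonoidAlgebra.single_mul_single, MonoidAlgebra.single_mul_single, mul_comm a]
      congr 1
      obtain ⟨⟨y', hy'⟩, rfl⟩ := t.g_surj X g
      apply Subtype.ext
      change t.q y' * t.q z = t.q z * t.q y'
      rw [← map_mul, ← map_mul, t.central z z.2]
  have hmul : ∀ g : t.bar X, β (⟨t.q z, t.mem_bar hzX⟩ * g) =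
      BlockGA.omega β (MonoidAlgebra.single (⟨t.q z, t.mem_bar hzX⟩ : t.bar X) (1 : ℂ)) * β g := by
    intro g
    rw [← BlockGA.lin_mul_single hβ hzc, MonoidAlgebra.single_mul_single, BlockGA.lin_single, one_mul, one_mul]
  rw [hx2, hmul]
  congr 1
  -- evaluate at `1`
  have h5 := hmul 1
  rw [mul_one] at h5
  have h6 := hRel z hzX
  have h7 := hRel 1 (by rw [map_one]; exact X.one_mem)
  have h8 : χ ⟨t.p z, hzX⟩ = χ ⟨t.p 1, by rw [map_one]; exact X.one_mem⟩ := by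
    congr 1
    apply Subtype.ext
    change t.p z = t.p 1
    rw [map_one]; exact z.2
  have h9 := t.ρ_mul z 1
  rw [mul_one] at h9
  have h10 : β ⟨t.q 1, t.mem_bar (by rw [map_one]; exact X.one_mem)⟩ = β 1 := congrArg β (Subtype.ext (map_one t.q))
  rw [h6, h7, h9, h10, h5] at h8
  have hβ1 := hβ.one_ne_zero
  have hlam : ((t.lam z : ℂˣ) : ℂ) ≠ 0 := Units.ne_zero _
  have h11 : BlockGA.omega β (MonoidAlgebra.single (⟨t.q z, t.mem_bar hzX⟩ : t.bar X) (1 : ℂ)) * ((t.lam z : ℂˣ) : ℂ) = 1 := by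
    apply mul_right_cancel₀ (mul_ne_zero hβ1 hρ1)
    rw [one_mul]
    refine Eq.trans ?_ h8
    ring
  exact eq_inv_of_mul_eq_one_left h11

end TD

end

end Cfsg.Agent.Lib.IsaOdd
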