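import Cfsg.Agent.Lib.SubgroupTools

/-!
# Itô's theorem: products of two abelian groups are metabelian
-/

set_option autoImplicit false

namespace Cfsg.Agent.Lib.Ito

open Subgroup
open scoped commutatorElement

variable {G : Type*} [Group G]

theorem commutator_abelian {A B : Subgroup G} (hA : ∀ a ∈ A, ∀ b ∈ A, a * b = b * a)
    (hB : ∀ a ∈ B, ∀ b ∈ B, a * b = b * a) (hAB : ∀ g : G, ∃ a ∈ A, ∃ b ∈ B, g = a * b) :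
    ∀ x ∈ ⁅A, B⁆, ∀ y ∈ ⁅A, B⁆, x * y = y * x := by
  have hBA : ∀ g : G, ∃ b ∈ B, ∃ a ∈ A, g = b * a := by
    intro g
    obtain ⟨a, ha, b, hb, h⟩ := hAB g⁻¹
    refine ⟨b⁻¹, inv_mem hb, a⁻¹, inv_mem ha, ?_⟩
    rw [← mul_inv_rev, ← h, inv_inv]
  -- the key identity
  have key : ∀ a ∈ A, ∀ b ∈ B, ∀ a1 ∈ A, ∀ b1 ∈ B,
      (b1 * a1) * ⁅a, b⁆ * (b1 * a1)⁻¹ = (a1 * b1) * ⁅a, b⁆ * (a1 * b1)⁻¹ := by
    intro a ha b hb a1 ha1 b1 hb1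
    obtain ⟨b2, hb2, a2, ha2, h2⟩ := hBA (a1 * b * a1⁻¹)
    obtain ⟨a3, ha3, b3, hb3, h3⟩ := hAB (b1 * a * b1⁻¹)
    -- left factor commuting simplifications
    have e1 : ∀ c ∈ A, c * (b2 * a2) * c⁻¹ * (b2 * a2)⁻¹ = c * b2 * c⁻¹ * b2⁻¹ := by
      intro c hc
      calc c * (b2 * a2) * c⁻¹ * (b2 * a2)⁻¹ = c * b2 * (a2 * c⁻¹) * a2⁻¹ * b2⁻¹ := by group
        _ = c * b2 * (c⁻¹ * a2) * a2⁻¹ * b2⁻¹ := by rw [hA a2 ha2 c⁻¹ (inv_mem hc)]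
        _ = _ := by group
    have e2 : ∀ c ∈ B, (a3 * b3) * c * (a3 * b3)⁻¹ * c⁻¹ = a3 * c * a3⁻¹ * c⁻¹ := by
      intro c hc
      calc (a3 * b3) * c * (a3 * b3)⁻¹ * c⁻¹ = a3 * (b3 * c) * b3⁻¹ * a3⁻¹ * c⁻¹ := by group
        _ = a3 * (c * b3) * b3⁻¹ * a3⁻¹ * c⁻¹ := by rw [hB b3 hb3 c hc]
        _ = _ := by group
    have l1 : a1 * ⁅a, b⁆ * a1⁻¹ = a * b2 * a⁻¹ * b2⁻¹ := by
      rw [← e1 a ha, ← h2, commutatorElement_def]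
      calc a1 * (a * b * a⁻¹ * b⁻¹) * a1⁻¹ = (a1 * a) * b * (a1 * a)⁻¹ * a1 * b⁻¹ * a1⁻¹ := by group
        _ = (a * a1) * b * (a * a1)⁻¹ * a1 * b⁻¹ * a1⁻¹ := by rw [hA a1 ha1 a ha]
        _ = _ := by group
    have l2 : b1 * (a * b2 * a⁻¹ * b2⁻¹) * b1⁻¹ = a3 * b2 * a3⁻¹ * b2⁻¹ := by
      rw [← e2 b2 hb2, ← h3]
      calc b1 * (a * b2 * a⁻¹ * b2⁻¹) * b1⁻¹
          = b1 * a * b1⁻¹ * (b1 * b2) * a⁻¹ * (b1 * b2)⁻¹ := by group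
        _ = b1 * a * b1⁻¹ * (b2 * b1) * a⁻¹ * (b2 * b1)⁻¹ := by rw [hB b1 hb1 b2 hb2]
        _ = _ := by group
    have r1 : b1 * ⁅a, b⁆ * b1⁻¹ = a3 * b * a3⁻¹ * b⁻¹ := by
      rw [← e2 b hb, ← h3, commutatorElement_def]
      calc b1 * (a * b * a⁻¹ * b⁻¹) * b1⁻¹
          = b1 * a * b1⁻¹ * (b1 * b) * a⁻¹ * (b1 * b)⁻¹ := by group
        _ = b1 * a * b1⁻¹ * (b * b1) * a⁻¹ * (b * b1)⁻¹ := by rw [hB b1 hb1 b hb]
        _ = _ := by group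
    have r2 : a1 * (a3 * b * a3⁻¹ * b⁻¹) * a1⁻¹ = a3 * b2 * a3⁻¹ * b2⁻¹ := by
      rw [← e1 a3 ha3, ← h2]
      calc a1 * (a3 * b * a3⁻¹ * b⁻¹) * a1⁻¹ = (a1 * a3) * b * (a1 * a3)⁻¹ * a1 * b⁻¹ * a1⁻¹ := by
            group
        _ = (a3 * a1) * b * (a3 * a1)⁻¹ * a1 * b⁻¹ * a1⁻¹ := by rw [hA a1 ha1 a3 ha3]
        _ = _ := by group
    calc (b1 * a1) * ⁅a, b⁆ * (b1 * a1)⁻¹ = b1 * (a1 * ⁅a, b⁆ * a1⁻¹) * b1⁻¹ := by group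
      _ = a3 * b2 * a3⁻¹ * b2⁻¹ := by rw [l1, l2]
      _ = a1 * (b1 * ⁅a, b⁆ * b1⁻¹) * a1⁻¹ := by rw [r1, r2]
      _ = _ := by group
  have hgen : ∀ a ∈ A, ∀ b ∈ B, ∀ a1 ∈ A, ∀ b1 ∈ B, ⁅a1, b1⁆ * ⁅a, b⁆ = ⁅a, b⁆ * ⁅a1, b1⁆ := by
    intro a ha b hb a1 ha1 b1 hb1
    have h1 := key a ha b hb a1⁻¹ (inv_mem ha1) b1⁻¹ (inv_mem hb1)
    have h2 : ⁅a1, b1⁆ = (b1⁻¹ * a1⁻¹)⁻¹ * (a1⁻¹ * b1⁻¹) := by
      rw [commutatorElement_def]; group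
    have h3 : (b1⁻¹ * a1⁻¹)⁻¹ * (a1⁻¹ * b1⁻¹) * ⁅a, b⁆ * ((b1⁻¹ * a1⁻¹)⁻¹ * (a1⁻¹ * b1⁻¹))⁻¹ =
        ⁅a, b⁆ := by
      calc (b1⁻¹ * a1⁻¹)⁻¹ * (a1⁻¹ * b1⁻¹) * ⁅a, b⁆ * ((b1⁻¹ * a1⁻¹)⁻¹ * (a1⁻¹ * b1⁻¹))⁻¹
          = (b1⁻¹ * a1⁻¹)⁻¹ * ((a1⁻¹ * b1⁻¹) * ⁅a, b⁆ * (a1⁻¹ * b1⁻¹)⁻¹) * (b1⁻¹ * a1⁻¹) := by group
        _ = (b1⁻¹ * a1⁻¹)⁻¹ * ((b1⁻¹ * a1⁻¹) * ⁅a, b⁆ * (b1⁻¹ * a1⁻¹)⁻¹) * (b1⁻¹ * a1⁻¹) := by
            rw [h1]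
        _ = _ := by group
    rw [h2]
    rwa [mul_inv_eq_iff_eq_mul] at h3
  -- closure arguments
  have h1 : ∀ a1 ∈ A, ∀ b1 ∈ B, ⁅A, B⁆ ≤ centralizer {⁅a1, b1⁆} := by
    intro a1 ha1 b1 hb1
    rw [commutator_le]
    intro a ha b hb
    rw [mem_centralizer_singleton_iff]
    exact hgen a1 ha1 b1 hb1 a ha b hb
  have h2 : ⁅A, B⁆ ≤ centralizer ((⁅A, B⁆ : Subgroup G) : Set G) := by
    rw [commutator_le]
    intro a ha b hb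
    rw [mem_centralizer_iff]
    intro y hy
    exact (mem_centralizer_singleton_iff.mp (h1 a ha b hb hy))
  intro x hx y hy
  exact (mem_centralizer_iff.mp (h2 hy)) x hx

/-- **Itô**: a product of two abelian subgroups is solvable (of derived length at most two). -/
theorem isSolvable {A B : Subgroup G} (hA : ∀ a ∈ A, ∀ b ∈ A, a * b = b * a)
    (hB : ∀ a ∈ B, ∀ b ∈ B, a * b = b * a) (hAB : ∀ g : G, ∃ a ∈ A, ∃ b ∈ B, g = a * b) :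
    Group.IsSolvable G := by
  set D := ⁅A, B⁆ with hD
  have hDn : D.Normal := by
    have h1 : (⊤ : Subgroup G) ≤ normalizer (D : Set G) := by
      intro g _
      obtain ⟨a, ha, b, hb, rfl⟩ := hAB g
      exact mul_mem (normalizer_commutator_ge_left A B ha) (normalizer_commutator_ge_right A B hb)
    exact normalizer_eq_top_iff.mp (top_le_iff.mp h1)
  have hDs : Group.IsSolvable D := Group.isSolvable_of_comm fun a b =>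
    Subtype.ext (commutator_abelian hA hB hAB a a.2 b b.2)
  let f := QuotientGroup.mk' D
  have hf : Function.Surjective f := QuotientGroup.mk'_surjective D
  have hcomm : ∀ a ∈ A, ∀ b ∈ B, f a * f b = f b * f a := by
    intro a ha b hb
    have h1 : ⁅a, b⁆ ∈ f.ker := by
      rw [QuotientGroup.ker_mk']
      exact commutator_mem_commutator ha hb
    rw [MonoidHom.mem_ker, map_commutatorElement, commutatorElement_eq_one_iff_mul_comm] at h1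
    exact h1
  have hq : Group.IsSolvable (G ⧸ D) := by
    apply Group.isSolvable_of_comm
    intro x y
    obtain ⟨x, rfl⟩ := hf x
    obtain ⟨y, rfl⟩ := hf y
    obtain ⟨a, ha, b, hb, rfl⟩ := hAB x
    obtain ⟨c, hc, d, hd, rfl⟩ := hAB y
    simp only [map_mul]
    have e1 := hcomm a ha d hd
    have e2 := hcomm c hc b hb
    have e3 : f a * f c = f c * f a := by rw [← map_mul, ← map_mul, hA a ha c hc]
    have e4 : f b * f d = f d * f b := by rw [← map_mul, ← map_mul, hB b hb d hd]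
    calc f a * f b * (f c * f d) = f a * (f b * f c) * f d := by group
      _ = f a * (f c * f b) * f d := by rw [e2]
      _ = (f a * f c) * (f b * f d) := by group
      _ = (f c * f a) * (f d * f b) := by rw [e3, e4]
      _ = f c * (f a * f d) * f b := by group
      _ = f c * (f d * f a) * f b := by rw [e1]
      _ = _ := by group
  exact Group.isSolvable_of_ker_le_range D.subtype f (by
    rw [QuotientGroup.ker_mk', range_subtype])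

end Cfsg.Agent.Lib.Ito
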