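import Cfsg.Prelude.Def_SporCoxeter

set_option autoImplicit false
set_option linter.all false

namespace Cfsg.Agent.Lib.J1P
open Cfsg.Spor

/-- generators -/
inductive Gen
  | a
  | c
  | h
  | b
  deriving DecidableEq

/-- edges of the diagram -/
def edges : List (Gen × ℕ × Gen) :=
  [(.a, 19, .c), (.a, 19, .h), (.c, 11, .h)]

/-- further relators -/
def extra : List (FreeGroup Gen) := [
  ((FreeGroup.of Gen.c) * ((((FreeGroup.of Gen.b) * (FreeGroup.of Gen.a)) * ((FreeGroup.of Gen.b))⁻¹))⁻¹),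
  ((FreeGroup.of Gen.b) ^ 3),
  (((FreeGroup.of Gen.a) * (FreeGroup.of Gen.b)) ^ 7),
  (((((((((FreeGroup.of Gen.a) * (FreeGroup.of Gen.h)) * (FreeGroup.of Gen.c)) * (FreeGroup.of Gen.b)) * (FreeGroup.of Gen.h)) * (FreeGroup.of Gen.b)) * (FreeGroup.of Gen.a)) * (FreeGroup.of Gen.h)) * (FreeGroup.of Gen.b)),
  ((((((((((((((FreeGroup.of Gen.a) * (FreeGroup.of Gen.c)) * (FreeGroup.of Gen.h)) * (FreeGroup.of Gen.b)) * (FreeGroup.of Gen.c)) * (FreeGroup.of Gen.h)) * (FreeGroup.of Gen.b)) * (FreeGroup.of Gen.a)) * (FreeGroup.of Gen.c)) * ((FreeGroup.of Gen.b))⁻¹) * (FreeGroup.of Gen.h)) * (FreeGroup.of Gen.c)) * ((FreeGroup.of Gen.b))⁻¹) * (FreeGroup.of Gen.c)),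
  ((((((((((((((FreeGroup.of Gen.c) * (FreeGroup.of Gen.h)) * (FreeGroup.of Gen.b)) * (FreeGroup.of Gen.h)) * (FreeGroup.of Gen.b)) * (FreeGroup.of Gen.c)) * ((FreeGroup.of Gen.b))⁻¹) * (FreeGroup.of Gen.c)) * (FreeGroup.of Gen.h)) * (FreeGroup.of Gen.b)) * (FreeGroup.of Gen.h)) * (FreeGroup.of Gen.b)) * (FreeGroup.of Gen.c)) * ((FreeGroup.of Gen.b))⁻¹)]

end Cfsg.Agent.Lib.J1P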