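import Cfsg.Agent.Lib.J1PAB

set_option autoImplicit false
set_option linter.all false
set_option maxRecDepth 100000
set_option Elab.async false

namespace Cfsg.Agent.Lib.J1PAP1
open Cfsg.Spor Cfsg.Agent.Lib.BenesPerm Cfsg.Agent.Lib.BenesAct Cfsg.Agent.Lib.BenesWord
open Cfsg.Agent.Lib.BenesPlane Cfsg.Agent.Lib.CosetClosure Cfsg.Agent.Lib.CosetFacts
open Cfsg.Agent.Lib.CosetMain Cfsg.Agent.Lib.CoxBridge Cfsg.Agent.Lib.CosetGroup Cfsg.Agent.Lib.CosetInst Cfsg.Agent.Lib.CosetInj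
open Cfsg.Agent.Lib.BenesPack Cfsg.Agent.Lib.CosetPack Cfsg.Agent.Lib.CosetChain Cfsg.Agent.Lib.CosetWide Cfsg.Agent.Lib.CosetWide2
open Cfsg.Agent.Lib.J1PRel Cfsg.Agent.Lib.J1PAN0 Cfsg.Agent.Lib.J1PAR0 Cfsg.Agent.Lib.J1PAD Cfsg.Agent.Lib.J1PAB

theorem pl3_0 : plK nets 9 3 eqs0 = true := by decide +kernel
theorem pl4_0 : plK nets 9 4 eqs0 = true := by decide +kernel
theorem pl5_0 : plK nets 9 5 eqs0 = true := by decide +kernel

end Cfsg.Agent.Lib.J1PAP1
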