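import Cfsg.Agent.Lib.J1PA

set_option autoImplicit false
set_option linter.all false
set_option maxRecDepth 100000
set_option Elab.async false

namespace Cfsg.Agent.Lib.J1PAIdx
open Cfsg.Spor Cfsg.Agent.Lib.BenesPerm Cfsg.Agent.Lib.BenesAct Cfsg.Agent.Lib.BenesWord
open Cfsg.Agent.Lib.BenesPlane Cfsg.Agent.Lib.CosetClosure Cfsg.Agent.Lib.CosetFacts
open Cfsg.Agent.Lib.CosetMain Cfsg.Agent.Lib.CoxBridge Cfsg.Agent.Lib.CosetGroup Cfsg.Agent.Lib.CosetInst Cfsg.Agent.Lib.CosetInj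
open Cfsg.Agent.Lib.BenesPack Cfsg.Agent.Lib.CosetPack Cfsg.Agent.Lib.CosetChain Cfsg.Agent.Lib.CosetWide Cfsg.Agent.Lib.CosetWide2
open Cfsg.Agent.Lib.J1PRel Cfsg.Agent.Lib.J1PAN0 Cfsg.Agent.Lib.J1PAR0 Cfsg.Agent.Lib.J1PAD Cfsg.Agent.Lib.J1PAB Cfsg.Agent.Lib.J1PAS Cfsg.Agent.Lib.J1PA

/-- reachability steps for the whole group -/
def steps0 : List ℕ := [0, 1, 2, 0, 3, 1, 2, 0, 3, 2, 0, 1]

/-- orbit mask -/
noncomputable def M0 : ℕ := (nat_lit 0x3b0e0089b0079628efeb841902a08f28caf0a7bd78ba63800184290df814042e0b6)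
/-- steps -/
def l0 : List ℕ := [0, 1, 0, 0, 1, 0, 0, 1, 0, 0, 1, 0, 0, 1, 0, 0, 1, 0, 0]

theorem o0_inv : invK nets (WS.map (Wd.flat ivx)) M0 = true := by decide +kernel
theorem o0_reach : reachK nets (stepsW (WS.map (Wd.flat ivx)) l0) (2 ^ 1) (fun V => Nat.beq V M0) = true := by decide +kernel
theorem o0_lt : M0 < 2 ^ 2 ^ 9 := by decide +kernel
theorem o0_pop : popK 9 M0 = 110 := by decide +kernel

/-- orbit mask -/
noncomputable def M1 : ℕ := (nat_lit 0x4e17d704ff869c700147be6fc1f00d7310f584087459c7fa873d6f207eb8bd1e48)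
/-- steps -/
def l1 : List ℕ := [0, 1, 0, 1, 0, 1, 0, 1, 0, 1, 0, 1, 0, 1, 0, 1, 0]

theorem o1_inv : invK nets (WS.map (Wd.flat ivx)) M1 = true := by decide +kernel
theorem o1_reach : reachK nets (stepsW (WS.map (Wd.flat ivx)) l1) (2 ^ 3) (fun V => Nat.beq V M1) = true := by decide +kernel
theorem o1_lt : M1 < 2 ^ 2 ^ 9 := by decide +kernel
theorem o1_pop : popK 9 M1 = 132 := by decide +kernel

/-- orbit mask -/
noncomputable def M2 : ℕ := (nat_lit 0x10800000000000000000000140000000000000000000005600000000007000100)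
/-- steps -/
def l2 : List ℕ := [0, 1, 0, 0, 1, 0, 0]

theorem o2_inv : invK nets (WS.map (Wd.flat ivx)) M2 = true := by decide +kernel
theorem o2_reach : reachK nets (stepsW (WS.map (Wd.flat ivx)) l2) (2 ^ 8) (fun V => Nat.beq V M2) = true := by decide +kernel
theorem o2_lt : M2 < 2 ^ 2 ^ 9 := by decide +kernel
theorem o2_pop : popK 9 M2 = 12 := by decide +kernel

/-- orbit mask -/
noncomputable def M3 : ℕ := (nat_lit 0x20600000010100000000000700004000002000000000008000000000000000)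
/-- steps -/
def l3 : List ℕ := [0, 1, 0, 0, 1, 0, 0]

theorem o3_inv : invK nets (WS.map (Wd.flat ivx)) M3 = true := by decide +kernel
theorem o3_reach : reachK nets (stepsW (WS.map (Wd.flat ivx)) l3) (2 ^ 63) (fun V => Nat.beq V M3) = true := by decide +kernel
theorem o3_lt : M3 < 2 ^ 2 ^ 9 := by decide +kernel
theorem o3_pop : popK 9 M3 = 11 := by decide +kernel

theorem c_fix : invK nets (WS.map (Wd.flat ivx)) (2 ^ 0) = true := by decide +kernel
theorem c_inv0 : invK nets ((letterW 5).map (Wd.flat ivx)) (2 ^ 266 - 1) = true := by decide +kernel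
theorem c_reach0 : reachK nets (stepsW ((letterW 5).map (Wd.flat ivx)) steps0) (2 ^ 0) (fun V => Nat.beq V (2 ^ 266 - 1)) = true := by decide +kernel

theorem gen_top : Subgroup.closure (wset (C.x L0) (letterW 5)) = ⊤ := by
  rw [eq_top_iff, ← C.closure_letters L0]
  apply Subgroup.closure_mono
  rintro _ ⟨W, hW, rfl⟩
  obtain ⟨c, hc, rfl⟩ := List.mem_map.mp hW
  have hc := List.mem_range.mp hc
  change c < 4 at hc
  exact ⟨Wd.g c, List.mem_map.mpr ⟨c, List.mem_range.mpr (by omega), rfl⟩, rfl⟩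

/-- index of the subgroup, action on the cosets and suborbits -/
theorem main (H : Subgroup (CoxPresented J1P.Gen J1P.edges J1P.extra)) (hH : H = Subgroup.closure (wset (C.x L0) WS)) :
    ∃ (φ : (CoxPresented J1P.Gen J1P.edges J1P.extra) →* Equiv.Perm ℕ) (f : ℕ → (CoxPresented J1P.Gen J1P.edges J1P.extra) ⧸ H), (∀ c, φ (C.x L0 c) = sperm nets c) ∧
      f 0 = ((1 : (CoxPresented J1P.Gen J1P.edges J1P.extra)) : (CoxPresented J1P.Gen J1P.edges J1P.extra) ⧸ H) ∧ (∀ g i, i < 266 → g • f i = f (φ g i)) ∧ (∀ g i, i < 266 → φ g i < 266) ∧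
      (∀ i j, i < 266 → j < 266 → f i = f j → i = j) ∧ (∀ j, (∃ g, φ g 0 = j) ↔ j < 266) ∧
      (∀ h ∈ H, φ h 0 = 0) ∧ (∀ q : (CoxPresented J1P.Gen J1P.edges J1P.extra) ⧸ H, ∃ i, i < 266 ∧ f i = q) ∧ H.index = 266 ∧
      (MulAction.orbit H (f 1) = f '' {i | Nat.testBit M0 i = true} ∧ (MulAction.orbit H (f 1)).ncard = 110) ∧
      (MulAction.orbit H (f 3) = f '' {i | Nat.testBit M1 i = true} ∧ (MulAction.orbit H (f 3)).ncard = 132) ∧
      (MulAction.orbit H (f 8) = f '' {i | Nat.testBit M2 i = true} ∧ (MulAction.orbit H (f 8)).ncard = 12) ∧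
      (MulAction.orbit H (f 63) = f '' {i | Nat.testBit M3 i = true} ∧ (MulAction.orbit H (f 63)).ncard = 11) := by
  obtain ⟨φ, hφ⟩ := phi_exists
  obtain ⟨f, hf0, hf⟩ := map_exists H hH
  have h := cert_full (k := 9) (n := 266) (nc := 5) c_nets hφ x_iv0 gen_top (by norm_num)
    c_full WS c_fix steps0 c_inv0 c_reach0 H hH f hf0 hf
  have h' := cert_index (k := 9) (n := 266) (nc := 5) c_nets hφ x_iv0 gen_top (by norm_num) (by norm_num)
    c_full WS c_fix steps0 c_inv0 c_reach0 H hH f hf0 hf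
  refine ⟨φ, f, hφ, hf0, h.2.1, h.2.2.1, h.2.2.2.1, h.2.2.2.2.1, h.2.2.2.2.2.1, h.2.2.2.2.2.2, h.1, ?_, ?_, ?_, ?_⟩
  · have h2 := h'.2 1 M0 l0 (by norm_num) o0_lt o0_inv o0_reach
    exact ⟨h2.1, h2.2.trans o0_pop⟩
  · have h2 := h'.2 3 M1 l1 (by norm_num) o1_lt o1_inv o1_reach
    exact ⟨h2.1, h2.2.trans o1_pop⟩
  · have h2 := h'.2 8 M2 l2 (by norm_num) o2_lt o2_inv o2_reach
    exact ⟨h2.1, h2.2.trans o2_pop⟩
  · have h2 := h'.2 63 M3 l3 (by norm_num) o3_lt o3_inv o3_reach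
    exact ⟨h2.1, h2.2.trans o3_pop⟩

end Cfsg.Agent.Lib.J1PAIdx
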