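import Cfsg.Agent.Lib.J1PBB

set_option autoImplicit false
set_option linter.all false
set_option maxRecDepth 100000
set_option Elab.async false

namespace Cfsg.Agent.Lib.J1PBS
open Cfsg.Spor Cfsg.Agent.Lib.BenesPerm Cfsg.Agent.Lib.BenesAct Cfsg.Agent.Lib.BenesWord
open Cfsg.Agent.Lib.BenesPlane Cfsg.Agent.Lib.CosetClosure Cfsg.Agent.Lib.CosetFacts
open Cfsg.Agent.Lib.CosetMain Cfsg.Agent.Lib.CoxBridge Cfsg.Agent.Lib.CosetGroup Cfsg.Agent.Lib.CosetInst Cfsg.Agent.Lib.CosetInj
open Cfsg.Agent.Lib.BenesPack Cfsg.Agent.Lib.CosetPack Cfsg.Agent.Lib.CosetChain Cfsg.Agent.Lib.CosetWide Cfsg.Agent.Lib.CosetWide2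
open Cfsg.Agent.Lib.J1PRel Cfsg.Agent.Lib.J1PBN0 Cfsg.Agent.Lib.J1PBR0 Cfsg.Agent.Lib.J1PBD Cfsg.Agent.Lib.J1PBB

theorem c_nets : netsCheck (2 ^ 13) nets = true := by decide +kernel
theorem c_full : fullInvK nets 4620 5 = true := by decide +kernel
theorem c_len : lenK R 7 5 = true := by decide +kernel
theorem sym0 : symOneK nets ivx R 0 = true := by decide +kernel
theorem sym1 : symOneK nets ivx R 1 = true := by decide +kernel
theorem sym2 : symOneK nets ivx R 2 = true := by decide +kernel
theorem sym3 : symOneK nets ivx R 3 = true := by decide +kernel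
theorem sym4 : symOneK nets ivx R 4 = true := by decide +kernel
theorem c_sym : symK nets ivx R 5 = true := symK_of 5 (by
  intro c hc
  interval_cases c
  · exact sym0
  · exact sym1
  · exact sym2
  · exact sym3
  · exact sym4)
theorem c_disj : disjK D 1 = true := by decide +kernel
theorem tr0 : treeOneK nets 13 0 d0 = true := by decide +kernel
theorem tr1 : treeOneK nets 13 1 d1 = true := by decide +kernel
theorem tr2 : treeOneK nets 13 2 d2 = true := by decide +kernel
theorem tr3 : treeOneK nets 13 3 d3 = true := by decide +kernel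
theorem tr4 : treeOneK nets 13 4 d4 = true := by decide +kernel
theorem c_tree : treeK nets 13 D = true := (treeK_cons tr0 (treeK_cons tr1 (treeK_cons tr2 (treeK_cons tr3 (treeK_cons tr4 rfl)))))
theorem c_treelet : netLetK 5 D = true := by decide +kernel
theorem c_dtab : dtabK (2 ^ 13) nd DT = true := by decide +kernel
theorem c_ex : exK nets R 5 T (2 + scr.len) E = true := by decide +kernel

end Cfsg.Agent.Lib.J1PBS
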