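import Cfsg.Agent.Lib.CosetOdd
import Cfsg.Agent.Lib.J1PAIdx
import Cfsg.Agent.Lib.J1PL1
import Cfsg.Agent.Lib.J1PBIdx
import Cfsg.Agent.Lib.CosetMax2

set_option autoImplicit false
set_option linter.all false
set_option maxRecDepth 100000
set_option Elab.async false

namespace Cfsg.Agent.Lib.J1POrd
open Cfsg.Spor Cfsg.Agent.Lib.BenesPerm Cfsg.Agent.Lib.BenesAct Cfsg.Agent.Lib.BenesWord
open Cfsg.Agent.Lib.BenesPlane Cfsg.Agent.Lib.CosetClosure Cfsg.Agent.Lib.CosetFacts
open Cfsg.Agent.Lib.CosetMain Cfsg.Agent.Lib.CoxBridge Cfsg.Agent.Lib.CosetGroup Cfsg.Agent.Lib.CosetInst Cfsg.Agent.Lib.CosetInj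
open Cfsg.Agent.Lib.BenesPack Cfsg.Agent.Lib.CosetPack Cfsg.Agent.Lib.CosetChain Cfsg.Agent.Lib.CosetWide Cfsg.Agent.Lib.CosetWide2 Cfsg.Agent.Lib.CosetOrder Cfsg.Agent.Lib.CosetOdd Cfsg.Agent.Lib.CosetMax2
open Cfsg.Agent.Lib.J1PRel Cfsg.Agent.Lib.J1PAN0 Cfsg.Agent.Lib.J1PAB Cfsg.Agent.Lib.J1PAS Cfsg.Agent.Lib.J1PA Cfsg.Agent.Lib.J1PAIdx

/-- strong generators of level 1 -/
def ws1 : List (List ℕ) := [[2], [3], [4]]

/-- basic orbit 1 -/
noncomputable def B1 : ℕ := (nat_lit 0x4e17d704ff869c700147be6fc1f00d7310f584087459c7fa873d6f207eb8bd1e48)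
/-- steps -/
def st1 : List ℕ := [0, 1, 0, 1, 0, 1, 0, 1, 0, 1, 0, 1, 0, 1, 0, 1, 0]

theorem b1_fix0 : invK nets ws1 (2 ^ 0) = true := by decide +kernel
theorem b1_inv : invK nets ws1 B1 = true := by decide +kernel
theorem b1_reach : reachK nets (stepsW ws1 st1) (2 ^ 3) (fun V => Nat.beq V B1) = true := by decide +kernel
theorem b1_lt : B1 < 2 ^ 2 ^ 9 := by decide +kernel
theorem b1_pop : popK 9 B1 = 132 := by decide +kernel

/-- strong generators of level 2 -/
def ws2 : List (List ℕ) := [[2, 4, 2, 3, 2, 3, 2, 4, 2, 3, 2, 4]]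

/-- basic orbit 2 -/
noncomputable def B2 : ℕ := (nat_lit 0x2000020000008000000000000000000000010000000000000000000000000002)
/-- steps -/
def st2 : List ℕ := [0, 0, 0, 0]

theorem b2_fix0 : invK nets ws2 (2 ^ 0) = true := by decide +kernel
theorem b2_fix1 : invK nets ws2 (2 ^ 3) = true := by decide +kernel
theorem b2_inv : invK nets ws2 B2 = true := by decide +kernel
theorem b2_reach : reachK nets (stepsW ws2 st2) (2 ^ 1) (fun V => Nat.beq V B2) = true := by decide +kernel
theorem b2_lt : B2 < 2 ^ 2 ^ 9 := by decide +kernel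
theorem b2_pop : popK 9 B2 = 5 := by decide +kernel

theorem full_lt : (2 ^ 266 - 1 : ℕ) < 2 ^ 2 ^ 9 := by decide +kernel
theorem full_pop : popK 9 (2 ^ 266 - 1) = 266 := by decide +kernel
theorem union_eq : unionK [M0, M1, M2, M3] = 2 ^ 266 - 1 := by decide +kernel
theorem z0 : Nat.testBit M0 0 = false := by decide +kernel
theorem t0_1 : Nat.testBit M0 3 = false := by decide +kernel
theorem t0_2 : Nat.testBit M0 8 = false := by decide +kernel
theorem t0_3 : Nat.testBit M0 63 = false := by decide +kernel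
theorem z1 : Nat.testBit M1 0 = false := by decide +kernel
theorem t1_0 : Nat.testBit M1 1 = false := by decide +kernel
theorem t1_2 : Nat.testBit M1 8 = false := by decide +kernel
theorem t1_3 : Nat.testBit M1 63 = false := by decide +kernel
theorem z2 : Nat.testBit M2 0 = false := by decide +kernel
theorem t2_0 : Nat.testBit M2 1 = false := by decide +kernel
theorem t2_1 : Nat.testBit M2 3 = false := by decide +kernel
theorem t2_3 : Nat.testBit M2 63 = false := by decide +kernel
theorem z3 : Nat.testBit M3 0 = false := by decide +kernel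
theorem t3_0 : Nat.testBit M3 1 = false := by decide +kernel
theorem t3_1 : Nat.testBit M3 3 = false := by decide +kernel
theorem t3_2 : Nat.testBit M3 8 = false := by decide +kernel
theorem arith : ∀ I : Finset (Fin 4), (1 + ∑ i ∈ I, ([110, 132, 12, 11] : List ℕ)[i.1]'(by have := i.2; simpa using this)) ∣ 266 →
    (1 + ∑ i ∈ I, ([110, 132, 12, 11] : List ℕ)[i.1]'(by have := i.2; simpa using this)) = 1 ∨
    (1 + ∑ i ∈ I, ([110, 132, 12, 11] : List ℕ)[i.1]'(by have := i.2; simpa using this)) = 266 ∨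
    (1 + ∑ i ∈ I, ([110, 132, 12, 11] : List ℕ)[i.1]'(by have := i.2; simpa using this)) * 2 = 266 := by decide +kernel

/-- element of order 7 -/
def v0 : Wd := (Wd.mul (Wd.g 1) (Wd.g 4))
/-- element of order 7 -/
def v2 : Wd := (Wd.mul (Wd.g 0) (Wd.g 3))
/-- element of order 7 -/
def v3 : Wd := (Wd.mul (Wd.g 3) (Wd.g 0))
/-- relations between the elements -/
def vl : List Wd := [Wd.pow v0 7, Wd.pow (Wd.mul (Wd.g 0) v0) 7, Wd.pow v2 7, Wd.pow (Wd.mul (Wd.g 2) v2) 7, Wd.pow v3 7, Wd.pow (Wd.mul (Wd.g 3) v3) 7]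
/-- plane relations -/
noncomputable def eqsV : List (List ℕ × List ℕ) := vl.map (halfW ivx)

theorem plv0 : plK nets 9 0 eqsV = true := by decide +kernel
theorem plv1 : plK nets 9 1 eqsV = true := by decide +kernel
theorem plv2 : plK nets 9 2 eqsV = true := by decide +kernel
theorem plv3 : plK nets 9 3 eqsV = true := by decide +kernel
theorem plv4 : plK nets 9 4 eqsV = true := by decide +kernel
theorem plv5 : plK nets 9 5 eqsV = true := by decide +kernel
theorem plv6 : plK nets 9 6 eqsV = true := by decide +kernel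
theorem plv7 : plK nets 9 7 eqsV = true := by decide +kernel
theorem plv8 : plK nets 9 8 eqsV = true := by decide +kernel
theorem c_plv : ∀ b, b < 9 → plK nets 9 b eqsV = true := by
  intro b hb
  interval_cases b
  · exact plv0
  · exact plv1
  · exact plv2
  · exact plv3
  · exact plv4
  · exact plv5
  · exact plv6
  · exact plv7
  · exact plv8

theorem lane_v : ∀ W ∈ vl, W.eval (sperm nets) = 1 := lane_rel c_nets lane_inv c_plv (fun q hq => hq)

theorem rel_eval' : ∀ W ∈ rels, W.eval (C.x L0) = 1 := rel_eval L0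

theorem invol : ∀ c, c < 3 → C.x L0 c * C.x L0 c = 1 := (C.rel_x L0).2.2

theorem bound2 : Finite (LG (C.x L0) []) ∧ Nat.card (LG (C.x L0) []) ≤ 1 := bot_bound _

theorem bound1 : Finite (LG (C.x L0) [0, 1]) ∧ Nat.card (LG (C.x L0) [0, 1]) ≤ 38 :=
  chain_bound (n := 38) (Cfsg.Agent.Lib.J1PL1.step rel_eval' (by intro c hc; apply invol; revert c hc; decide)) bound2 (by norm_num)

theorem index_top : (LG (C.x L0) [0, 1]).index = 4620 := by
  obtain ⟨φ, f, _, _, _, _, _, _, _, _, h⟩ := Cfsg.Agent.Lib.J1PBIdx.main (LG (C.x L0) [0, 1]) rfl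
  exact h

/-- everything about the presented group -/
theorem main : IsSimpleGroup (CoxPresented J1P.Gen J1P.edges J1P.extra) ∧ Nat.card (CoxPresented J1P.Gen J1P.edges J1P.extra) = 175560 ∧
    ∃ (φ : (CoxPresented J1P.Gen J1P.edges J1P.extra) →* Equiv.Perm ℕ), (∀ c, φ (C.x L0 c) = sperm nets c) ∧ Function.Injective φ ∧
      ∀ g, (∀ b ∈ [1, 3, 0], φ g b = b) → g = 1 := by
  have hgen := gen_top
  obtain ⟨φ, hφ⟩ := phi_exists
  obtain ⟨f, hf0, hf⟩ := map_exists _ rfl
  have hc := cert_full (k := 9) (n := 266) (nc := 5) c_nets hφ x_iv0 hgen (by norm_num)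
    c_full WS c_fix steps0 c_inv0 c_reach0 _ rfl f hf0 hf
  have hc' := cert_index (k := 9) (n := 266) (nc := 5) c_nets hφ x_iv0 hgen (by norm_num) (by norm_num)
    c_full WS c_fix steps0 c_inv0 c_reach0 _ rfl f hf0 hf
  obtain ⟨hidx, heq, hpres, hfinj, horb, hfix, hfsurj⟩ := hc
  have hGU := index_bound (n := 4620) (V := 175560) index_top (by norm_num) rfl bound1 (by norm_num)
  obtain ⟨hG, hcU⟩ := hGU
  have hfr : Finite φ.range := Finite.of_surjective _ φ.rangeRestrict_surjective
  have hw : ∀ w : List ℕ, (w.map (sperm nets)).prod ∈ φ.range := fun w => word_mem_range hφ w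
  have e0 : 266 * Nat.card (stabs φ.range [0]) ≤ Nat.card φ.range :=
    level c_nets hfr hw [] ((letterW 5).map (Wd.flat ivx)) (by intro b hb; exact absurd hb (by simp)) full_lt steps0 c_inv0 c_reach0 full_pop
  have lv1 : 132 * Nat.card (stabs φ.range [3, 0]) ≤ Nat.card (stabs φ.range [0]) :=
    level c_nets hfr hw [0] ws1 (by
      intro b hb
      simp only [List.mem_cons, List.not_mem_nil, or_false] at hb
      rcases hb with rfl
      · exact b1_fix0) b1_lt st1 b1_inv b1_reach b1_pop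
  have e1 : 35112 * Nat.card (stabs φ.range [3, 0]) ≤ Nat.card φ.range := level_trans e0 lv1 (by norm_num)
  have lv2 : 5 * Nat.card (stabs φ.range [1, 3, 0]) ≤ Nat.card (stabs φ.range [3, 0]) :=
    level c_nets hfr hw [3, 0] ws2 (by
      intro b hb
      simp only [List.mem_cons, List.not_mem_nil, or_false] at hb
      rcases hb with rfl | rfl
      · exact b2_fix1
      · exact b2_fix0) b2_lt st2 b2_inv b2_reach b2_pop
  have e2 : 175560 * Nat.card (stabs φ.range [1, 3, 0]) ≤ Nat.card φ.range := level_trans e1 lv2 (by norm_num)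
  obtain ⟨hcard, hinj, hbase⟩ := order_of_bounds φ hG (U := 175560) hcU e2
  refine ⟨?_, hcard, φ, hφ, hinj, hbase⟩
  have hev : ∀ W ∈ vl, W.eval (C.x L0) = 1 := fun W hW => by
    apply hinj
    rw [Wd.map_eval, map_one]
    simp only [hφ]
    exact lane_v W hW
  have hlet : ∀ N : Subgroup (CoxPresented J1P.Gen J1P.edges J1P.extra), N.Normal → (∀ g : (CoxPresented J1P.Gen J1P.edges J1P.extra), g ^ 7 = 1 → g ∈ N) → ∀ c, c < 5 → C.x L0 c ∈ N := by
    intro N hN hpN
    have n0 : C.x L0 0 ∈ N := mem_of_pow hpN (p := 7) (b := Wd.eval (C.x L0) v0)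
          (hev (Wd.pow v0 7) (by simp [vl])) (hev (Wd.pow (Wd.mul (Wd.g 0) v0) 7) (by simp [vl]))
    have n2 : C.x L0 2 ∈ N := mem_of_pow hpN (p := 7) (b := Wd.eval (C.x L0) v2)
          (hev (Wd.pow v2 7) (by simp [vl])) (hev (Wd.pow (Wd.mul (Wd.g 2) v2) 7) (by simp [vl]))
    have n3 : C.x L0 3 ∈ N := mem_of_pow hpN (p := 7) (b := Wd.eval (C.x L0) v3)
          (hev (Wd.pow v3 7) (by simp [vl])) (hev (Wd.pow (Wd.mul (Wd.g 3) v3) 7) (by simp [vl]))
    have n1 : C.x L0 1 ∈ N := mem_of_odd hN (invol 1 (by norm_num)) (m := 19) (by norm_num) (rel_eval' (Wd.pow (Wd.mul (Wd.g 0) (Wd.g 1)) 19) (by decide)) n0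
    have n4 : C.x L0 4 ∈ N := by
      have h := x_iv0 3
      rw [show ivx 3 = 4 from rfl] at h
      rw [h]
      exact N.inv_mem n3
    intro c hc
    interval_cases c
    · exact n0
    · exact n1
    · exact n2
    · exact n3
    · exact n4
  apply simple_order (nc := 5) (n := 266) (U := 175560) (p := 7) (h := 660) (φ := φ) (bs := [1, 3, 0])
    (H := Subgroup.closure (wset (C.x L0) WS)) hgen hcard hG (by norm_num) hidx hfix horb (by decide) hbase
    ?_ (by norm_num) (by norm_num) (by norm_num) (by norm_num)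
  · exact hlet
  · refine maximal_of_block2 hidx (by norm_num) (r := 4) (fun i => ([110, 132, 12, 11] : List ℕ)[i.1]'(by have := i.2; simpa using this)) ?_ arith (top_of_index_two (p := 7) (nc := 5) (by norm_num) hgen hlet)
    intro K hK
    refine block_of_masks (by norm_num) f hf0 hfinj hfsurj [1, 3, 8, 63] [M0, M1, M2, M3] [110, 132, 12, 11] rfl rfl ?_ ?_ union_eq ?_ ?_ K hK
    · decide
    · intro i
      fin_cases i
      · have h2 := hc'.2 1 M0 l0 (by norm_num) o0_lt o0_inv o0_reach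
        exact ⟨h2.1, h2.2.trans o0_pop⟩
      · have h2 := hc'.2 3 M1 l1 (by norm_num) o1_lt o1_inv o1_reach
        exact ⟨h2.1, h2.2.trans o1_pop⟩
      · have h2 := hc'.2 8 M2 l2 (by norm_num) o2_lt o2_inv o2_reach
        exact ⟨h2.1, h2.2.trans o2_pop⟩
      · have h2 := hc'.2 63 M3 l3 (by norm_num) o3_lt o3_inv o3_reach
        exact ⟨h2.1, h2.2.trans o3_pop⟩
    · intro i j h
      fin_cases i <;> fin_cases j
      · rfl
      · exact absurd (h.symm.trans t1_0) (by decide)
      · exact absurd (h.symm.trans t2_0) (by decide)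
      · exact absurd (h.symm.trans t3_0) (by decide)
      · exact absurd (h.symm.trans t0_1) (by decide)
      · rfl
      · exact absurd (h.symm.trans t2_1) (by decide)
      · exact absurd (h.symm.trans t3_1) (by decide)
      · exact absurd (h.symm.trans t0_2) (by decide)
      · exact absurd (h.symm.trans t1_2) (by decide)
      · rfl
      · exact absurd (h.symm.trans t3_2) (by decide)
      · exact absurd (h.symm.trans t0_3) (by decide)
      · exact absurd (h.symm.trans t1_3) (by decide)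
      · exact absurd (h.symm.trans t2_3) (by decide)
      · rfl
    · intro i
      fin_cases i
      · exact z0
      · exact z1
      · exact z2
      · exact z3

end Cfsg.Agent.Lib.J1POrd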