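import Cfsg.Agent.Lib.J1P
import Cfsg.Agent.Lib.CosetGroup

set_option autoImplicit false
set_option linter.all false

namespace Cfsg.Agent.Lib.J1PRel

open Cfsg.Spor Cfsg.Agent.Lib.BenesPerm Cfsg.Agent.Lib.BenesAct Cfsg.Agent.Lib.BenesWord
open Cfsg.Agent.Lib.BenesPlane Cfsg.Agent.Lib.CosetClosure Cfsg.Agent.Lib.CosetFacts
open Cfsg.Agent.Lib.CosetMain Cfsg.Agent.Lib.CoxBridge Cfsg.Agent.Lib.CosetGroup

/-- letters to generators -/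
def gen (c : ℕ) : J1P.Gen :=
  match c with
  | 0 => .a
  | 1 => .c
  | 2 => .h
  | _ => .b

/-- generators to letters -/
def idx (a : J1P.Gen) : ℕ :=
  match a with
  | .a => 0
  | .c => 1
  | .h => 2
  | .b => 3

/-- the further relators as words -/
def extraW : List Wd := [
  (Wd.mul (Wd.g 1) (Wd.inv (Wd.mul (Wd.mul (Wd.g 3) (Wd.g 0)) (Wd.inv (Wd.g 3))))),
  (Wd.pow (Wd.g 3) 3),
  (Wd.pow (Wd.mul (Wd.g 0) (Wd.g 3)) 7),
  (Wd.mul (Wd.mul (Wd.mul (Wd.mul (Wd.mul (Wd.mul (Wd.mul (Wd.mul (Wd.g 0) (Wd.g 2)) (Wd.g 1)) (Wd.g 3)) (Wd.g 2)) (Wd.g 3)) (Wd.g 0)) (Wd.g 2)) (Wd.g 3)),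
  (Wd.mul (Wd.mul (Wd.mul (Wd.mul (Wd.mul (Wd.mul (Wd.mul (Wd.mul (Wd.mul (Wd.mul (Wd.mul (Wd.mul (Wd.mul (Wd.g 0) (Wd.g 1)) (Wd.g 2)) (Wd.g 3)) (Wd.g 1)) (Wd.g 2)) (Wd.g 3)) (Wd.g 0)) (Wd.g 1)) (Wd.inv (Wd.g 3))) (Wd.g 2)) (Wd.g 1)) (Wd.inv (Wd.g 3))) (Wd.g 1)),
  (Wd.mul (Wd.mul (Wd.mul (Wd.mul (Wd.mul (Wd.mul (Wd.mul (Wd.mul (Wd.mul (Wd.mul (Wd.mul (Wd.mul (Wd.mul (Wd.g 1) (Wd.g 2)) (Wd.g 3)) (Wd.g 2)) (Wd.g 3)) (Wd.g 1)) (Wd.inv (Wd.g 3))) (Wd.g 1)) (Wd.g 2)) (Wd.g 3)) (Wd.g 2)) (Wd.g 3)) (Wd.g 1)) (Wd.inv (Wd.g 3)))]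

/-- the Coxeter relators as words -/
def coxW : List Wd := [
  (Wd.pow (Wd.mul (Wd.g 0) (Wd.g 1)) 19),
  (Wd.pow (Wd.mul (Wd.g 0) (Wd.g 2)) 19),
  (Wd.pow (Wd.mul (Wd.g 1) (Wd.g 2)) 11)]

theorem coxW_eq : coxWds J1P.edges gen 3 = coxW := rfl

/-- the presentation data -/
def C : CoxData J1P.Gen J1P.edges J1P.extra where
  gen := gen
  idx := idx
  nn := 3
  ng := 4
  extraW := extraW
  hgi := by intro a; cases a <;> rfl
  hlt := by intro a; cases a <;> decide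
  hidx := by intro i hi; interval_cases i <;> rfl
  hnode := by intro a ha; cases a <;> first | decide | (exfalso; revert ha; decide)
  hnode' := by intro i hi; interval_cases i <;> decide
  hnn := by decide
  hextra := rfl
  hlets := by decide

/-- all relators -/
def rels : List Wd := coxW ++ extraW

/-- periods of the relators -/
def pers : List ℕ := [2, 2, 2, 4, 1, 2, 9, 14, 7]

/-- relators with the number of positions used for deductions -/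
def simd : List (Wd × ℕ) := rels.zip pers

/-- inverse letters -/
noncomputable def iv : ℕ → ℕ := ivOf [0, 1, 2, 4, 3]

/-- trivial relators -/
def triv : List Wd := [Wd.mul (Wd.g 0) (Wd.g 0), Wd.mul (Wd.g 1) (Wd.g 1), Wd.mul (Wd.g 2) (Wd.g 2), Wd.mul (Wd.g 3) (Wd.g 4), Wd.mul (Wd.g 4) (Wd.g 3)]

/-- patterns of relators -/
def pats0 : List Wd := triv ++ (rels ++ rels.map Wd.inv)

end Cfsg.Agent.Lib.J1PRel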