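import Cfsg.Agent.Lib.J4CA
import Cfsg.Agent.Lib.ExGen

/-!
The centralizer of the involution `hh` of the fourth Janko group: action on 77 vectors and the extraspecial subgroup (helper57).
-/

set_option autoImplicit false
set_option linter.all false
set_option maxRecDepth 100000

namespace Cfsg.Agent.Lib.J4CB

open Cfsg.Spor Cfsg.Agent.Lib.H58SM Cfsg.Agent.Lib.BenesWord Cfsg.Agent.Lib.MatF2 Cfsg.Agent.Lib.CosetGroup
open Cfsg.Agent.Lib.CoxBridge Cfsg.Agent.Lib.J4Rho Cfsg.Agent.Lib.ProjSL Cfsg.Agent.Lib.J4RhoHom Cfsg.Agent.Lib.J4Words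
open Cfsg.Agent.Lib.ChainCard Cfsg.Agent.Lib.J4Main Cfsg.Agent.Lib.J4CA

/-- matrices -/
abbrev MM : Type := Matrix (Fin 112) (Fin 112) (ZMod 2)

theorem bz_inj {a b : Bool} (h : bz a = bz b) : a = b := by
  revert h
  cases a <;> cases b <;> decide

theorem Mt_inj {a b : ℕ} (ha : a < 2 ^ 112) (hb : b < 2 ^ 112) (h : Mt 112 a = Mt 112 b) : a = b := by
  apply Nat.eq_of_testBit_eq
  intro k
  by_cases hk : k < 112
  · have h1 := congrFun (congrFun h ⟨0, by norm_num⟩) ⟨k, hk⟩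
    have h2 : bz (a.testBit (112 * 0 + k)) = bz (b.testBit (112 * 0 + k)) := h1
    have h3 := bz_inj h2
    rwa [Nat.mul_zero, Nat.zero_add] at h3
  · rw [Nat.testBit_lt_two_pow (lt_of_lt_of_le ha (Nat.pow_le_pow_right (by norm_num) (by omega))),
      Nat.testBit_lt_two_pow (lt_of_lt_of_le hb (Nat.pow_le_pow_right (by norm_num) (by omega)))]

/-- the vectors as matrices -/
def U (i : Fin 77) : MM := Mt 112 (vt i)

theorem U_inj {i j : Fin 77} (h : U i = U j) : i = j :=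
  Fin.ext (vt_inj i i.2 j j.2 (Mt_inj (vt_lt i i.2) (vt_lt j j.2) h))

/-- the relation defining the action -/
def rl (g : J4) (k k' : Fin 77) : Prop := U k' * ((rho g : GM) : MM) = U k

theorem rl_un (g : J4) (k k' k'' : Fin 77) (h : rl g k k') (h' : rl g k k'') : k' = k'' := by
  apply U_inj
  have h1 : U k' * ((rho g : GM) : MM) = U k'' * ((rho g : GM) : MM) := h.trans h'.symm
  have h2 := congrArg (fun A : MM => A * (((rho g)⁻¹ : GM) : MM)) h1
  simpa [Matrix.mul_assoc] using h2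

theorem rl_one (k : Fin 77) : rl 1 k k := by
  show U k * ((rho 1 : GM) : MM) = U k
  rw [map_one, Units.val_one, mul_one]

theorem rl_mul (g h : J4) (k k' k'' : Fin 77) (h1 : rl h k k') (h2 : rl g k' k'') : rl (g * h) k k'' := by
  show U k'' * ((rho (g * h) : GM) : MM) = U k
  have h1' : U k' * ((rho h : GM) : MM) = U k := h1
  have h2' : U k'' * ((rho g : GM) : MM) = U k' := h2
  rw [map_mul, Units.val_mul, ← Matrix.mul_assoc, h2', h1']

/-- elements preserving the 77 vectors -/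
noncomputable def K77 : Subgroup J4 where
  carrier := {g | ∀ k, ∃ k', rl g k k'}
  one_mem' := fun k => ⟨k, rl_one k⟩
  mul_mem' := by
    intro a b ha hb k
    obtain ⟨k', h1⟩ := hb k
    obtain ⟨k'', h2⟩ := ha k'
    exact ⟨k'', rl_mul a b k k' k'' h1 h2⟩
  inv_mem' := by
    intro a ha k
    choose f hf using ha
    have hinj : Function.Injective f := by
      intro i j hij
      have h1 := hf i
      have h2 := hf j
      rw [hij] at h1
      exact U_inj (h1.symm.trans h2)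
    obtain ⟨k0, hk0⟩ := (Finite.injective_iff_surjective.1 hinj) k
    refine ⟨k0, ?_⟩
    have h1 : U k * ((rho a : GM) : MM) = U k0 := by
      have := hf k0
      rw [hk0] at this
      exact this
    show U k0 * ((rho a⁻¹ : GM) : MM) = U k
    rw [← h1, Matrix.mul_assoc, map_inv, ← Units.val_mul, mul_inv_cancel, Units.val_one, mul_one]

/-- the action on 77 points -/
noncomputable def ph : K77 →* Equiv.Perm (Fin 77) :=
  MonoidHom.toHomPerm
    { toFun := fun g k => (g.2 k).choose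
      map_one' := by
        funext k
        exact rl_un _ _ _ _ ((1 : K77).2 k).choose_spec (rl_one k)
      map_mul' := by
        intro g h
        funext k
        exact rl_un _ _ _ _ ((g * h).2 k).choose_spec (rl_mul _ _ _ _ _ (h.2 k).choose_spec (g.2 _).choose_spec) }

theorem ph_spec (g : K77) (k : Fin 77) : rl g k (ph g k) := (g.2 k).choose_spec

theorem ph_eq {g : K77} {k k' : Fin 77} (h : rl g k k') : ph g k = k' := rl_un _ _ _ _ (ph_spec g k) h

/-- the generators -/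
noncomputable def gc (k : ℕ) : J4 := pJ (gw k)
/-- the generators of the extraspecial group -/
noncomputable def qc (k : ℕ) : J4 := pJ (qw k)
/-- the element of order 3 -/
noncomputable def rc : J4 := pJ rw3

theorem rho_gc {k : ℕ} (hk : k < 4) : rho (gc k) = pr (gw k) := rho_pJ (gok k hk)
theorem rho_qc {k : ℕ} (hk : k < 12) : rho (qc k) = pr (qw k) := rho_pJ (qok k hk)
theorem rho_rc : rho rc = pr rw3 := rho_pJ rok

theorem act {k : ℕ} (hk : k < 4) (i : Fin 77) : U i * ((rho (gc k) : GM) : MM) = U ⟨tp k i, tp_lt k hk i i.2⟩ := by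
  have h1 := List.all_eq_true.1 achk_ok k (List.mem_range.2 hk)
  rw [frc_eq] at h1
  have h2 := List.all_eq_true.1 h1 i (List.mem_range.2 i.2)
  rw [rho_gc hk, pr_val (gok k hk)]
  show Mt 112 (vt i) * Mt 112 (ev (gw k)) = Mt 112 (vt (tp k i))
  rw [← mm_spec, Nat.eq_of_beq_eq_true h2]

theorem tp_surj : ∀ k < 4, ∀ i < 77, ∃ j < 77, tp k j = i := by decide +kernel

theorem gc_mem {k : ℕ} (hk : k < 4) : gc k ∈ K77 := by
  intro i
  obtain ⟨j, hj, h⟩ := tp_surj k hk i i.2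
  refine ⟨⟨j, hj⟩, ?_⟩
  have h1 := act hk ⟨j, hj⟩
  show U ⟨j, hj⟩ * _ = U i
  rw [h1]
  congr 1
  exact Fin.ext h

theorem qact {k : ℕ} (hk : k < 12) (i : Fin 77) : U i * ((rho (qc k) : GM) : MM) = U i := by
  have h1 := List.all_eq_true.1 kchk3_ok k (List.mem_range.2 hk)
  rw [frc_eq] at h1
  have h2 := List.all_eq_true.1 h1 i (List.mem_range.2 i.2)
  rw [rho_qc hk, pr_val (qok k hk)]
  show Mt 112 (vt i) * Mt 112 (qm k) = Mt 112 (vt i)
  rw [← mm_spec, Nat.eq_of_beq_eq_true h2]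

theorem kchk4' : (Nat.beq (mm (ev rw3) (ev lh)) (mm (ev lh) (ev rw3)) = true) ∧ (Nat.beq (mm (ev rw3) (mm (ev rw3) (ev rw3))) one = true) ∧
    ∀ i < 77, Nat.beq (mm (vt i) (ev rw3)) (vt i) = true := by
  have h := kchk4_ok
  rw [kchk4, frc_eq, frc_eq, Bool.and_eq_true, Bool.and_eq_true] at h
  exact ⟨h.1, h.2.1, fun i hi => List.all_eq_true.1 h.2.2 i (List.mem_range.2 hi)⟩

theorem ract (i : Fin 77) : U i * ((rho rc : GM) : MM) = U i := by
  rw [rho_rc, pr_val rok]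
  show Mt 112 (vt i) * Mt 112 (ev rw3) = Mt 112 (vt i)
  rw [← mm_spec, Nat.eq_of_beq_eq_true (kchk4'.2.2 i i.2)]

theorem qc_mem {k : ℕ} (hk : k < 12) : qc k ∈ K77 := fun i => ⟨i, qact hk i⟩
theorem rc_mem : rc ∈ K77 := fun i => ⟨i, ract i⟩

/-- the subgroup generated by the known elements of the centralizer -/
noncomputable def C1 : Subgroup J4 := Subgroup.closure {g | (∃ k < 4, g = gc k) ∨ (∃ k < 12, g = qc k) ∨ g = rc}

theorem C1_le : C1 ≤ K77 := by
  rw [C1, Subgroup.closure_le]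
  rintro g (⟨k, hk, rfl⟩ | ⟨k, hk, rfl⟩ | rfl)
  · exact gc_mem hk
  · exact qc_mem hk
  · exact rc_mem

/-- the permutations -/
noncomputable def Pp (k : Fin 4) : Equiv.Perm (Fin 77) := (ph ⟨gc k, gc_mem k.2⟩)⁻¹

theorem Pp_eq (k : Fin 4) (i : Fin 77) : ((Pp k i : Fin 77) : ℕ) = (T77.getD k []).getD i 0 := by
  have h1 : ph ⟨gc k, gc_mem k.2⟩ ⟨tp k i, tp_lt k k.2 i i.2⟩ = i := ph_eq (act k.2 i)
  have h2 : Pp k i = ⟨tp k i, tp_lt k k.2 i i.2⟩ := by
    show (ph ⟨gc k, gc_mem k.2⟩)⁻¹ i = _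
    rw [Equiv.Perm.inv_eq_iff_eq]
    exact h1.symm
  rw [h2]
  rfl

/-- the restriction to the known subgroup -/
noncomputable def ph1 : C1 →* Equiv.Perm (Fin 77) := ph.comp (Subgroup.inclusion C1_le)

theorem range_eq : ph1.range = Subgroup.closure (Set.range Pp) := by
  apply le_antisymm
  · rintro _ ⟨⟨g, hg⟩, rfl⟩
    have key : C1 ≤ Subgroup.map K77.subtype ((Subgroup.closure (Set.range Pp)).comap ph) := by
      conv_lhs => rw [C1]
      rw [Subgroup.closure_le]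
      rintro g (⟨k, hk, rfl⟩ | ⟨k, hk, rfl⟩ | rfl)
      · refine ⟨⟨gc k, gc_mem hk⟩, ?_, rfl⟩
        show ph ⟨gc k, gc_mem hk⟩ ∈ Subgroup.closure (Set.range Pp)
        have h1 : (Pp ⟨k, hk⟩)⁻¹ = ph ⟨gc k, gc_mem hk⟩ := inv_inv _
        rw [← h1]
        exact inv_mem (Subgroup.subset_closure ⟨⟨k, hk⟩, rfl⟩)
      · refine ⟨⟨qc k, qc_mem hk⟩, ?_, rfl⟩
        show ph ⟨qc k, qc_mem hk⟩ ∈ Subgroup.closure (Set.range Pp)
        have h1 : ph ⟨qc k, qc_mem hk⟩ = 1 := Equiv.ext fun i => ph_eq (qact hk i)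
        rw [h1]; exact one_mem _
      · refine ⟨⟨rc, rc_mem⟩, ?_, rfl⟩
        show ph ⟨rc, rc_mem⟩ ∈ Subgroup.closure (Set.range Pp)
        have h1 : ph ⟨rc, rc_mem⟩ = 1 := Equiv.ext fun i => ph_eq (ract i)
        rw [h1]; exact one_mem _
    obtain ⟨⟨a, ha⟩, h1, h2⟩ := key hg
    have h3 : a = g := h2
    subst h3
    exact h1
  · rw [Subgroup.closure_le]
    rintro _ ⟨k, rfl⟩
    refine ⟨(⟨gc k, Subgroup.subset_closure (Or.inl ⟨k, k.2, rfl⟩)⟩ : C1)⁻¹, ?_⟩
    rw [map_inv]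
    rfl

section hyp

variable (D : Hyp)
include D

theorem eq_of {a b : J4} (h : ((rho a : GM) : MM) = ((rho b : GM) : MM)) : a = b := D.inj (Units.ext h)

theorem val_qc {k : ℕ} (hk : k < 12) : ((rho (qc k) : GM) : MM) = Mt 112 (qm k) := by rw [rho_qc hk, pr_val (qok k hk)]; rfl
theorem val_hh : ((rho hh : GM) : MM) = Mt 112 (ev lh) := by rw [rho_hh, pr_val ok_lh]
theorem val_gc {k : ℕ} (hk : k < 4) : ((rho (gc k) : GM) : MM) = Mt 112 (ev (gw k)) := by rw [rho_gc hk, pr_val (gok k hk)]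
theorem val_rc : ((rho rc : GM) : MM) = Mt 112 (ev rw3) := by rw [rho_rc, pr_val rok]

theorem gc_comm {k : ℕ} (hk : k < 4) : gc k * hh = hh * gc k := by
  have h1 := zchk_ok
  rw [zchk, frc_eq] at h1
  have h2 := List.all_eq_true.1 h1 k (List.mem_range.2 hk)
  rw [frc_eq] at h2
  apply eq_of D
  rw [map_mul, map_mul, Units.val_mul, Units.val_mul, val_gc D hk, val_hh D, ← mm_spec, ← mm_spec, Nat.eq_of_beq_eq_true h2]

theorem qc2 {k : ℕ} (hk : k < 12) : qc k * hh = hh * qc k ∧ qc k * qc k = 1 := by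
  have h1 := kchk2_ok
  rw [kchk2, frc_eq] at h1
  have h2 := List.all_eq_true.1 h1 k (List.mem_range.2 hk)
  rw [frc_eq, Bool.and_eq_true] at h2
  constructor
  · apply eq_of D
    rw [map_mul, map_mul, Units.val_mul, Units.val_mul, val_qc D hk, val_hh D, ← mm_spec, ← mm_spec, Nat.eq_of_beq_eq_true h2.1]
  · apply eq_of D
    rw [map_mul, map_one, Units.val_mul, val_qc D hk, ← mm_spec, Nat.eq_of_beq_eq_true h2.2, one_eq]
    rfl

theorem rc2 : rc * hh = hh * rc ∧ rc ^ 3 = 1 ∧ rc ≠ 1 := by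
  refine ⟨?_, ?_, ?_⟩
  · apply eq_of D
    rw [map_mul, map_mul, Units.val_mul, Units.val_mul, val_rc D, val_hh D, ← mm_spec, ← mm_spec, Nat.eq_of_beq_eq_true kchk4'.1]
  · apply eq_of D
    rw [pow_succ, pow_two, map_mul, map_mul, map_one, Units.val_mul, Units.val_mul, val_rc D, Matrix.mul_assoc, ← mm_spec, ← mm_spec,
      Nat.eq_of_beq_eq_true kchk4'.2.1, one_eq]
    rfl
  · intro h
    apply r_ne
    rw [← rho_rc, h, map_one, pr_nil]

theorem hh_sq : hh * hh = 1 := D.hV2 _ D.hhV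

theorem hh_ne : hh ≠ 1 := by
  intro h
  apply h_ne
  rw [← rho_hh, h, map_one, pr_nil]

theorem qcomm {i : ℕ} (hi : i < 12) {j : ℕ} (hj : j < 12) : qc i * qc j = ExGen.zp hh (cmx i j) * (qc j * qc i) := by
  have h1 := kchk_ok
  rw [kchk, frc_eq] at h1
  have h2 := List.all_eq_true.1 h1 i (List.mem_range.2 hi)
  rw [frc_eq] at h2
  have h3 := List.all_eq_true.1 h2 j (List.mem_range.2 hj)
  rw [frc_eq, frc_eq] at h3
  apply eq_of D
  have h4 := Nat.eq_of_beq_eq_true h3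
  cases hc : cmx i j
  · rw [hc] at h4
    show _ = ((rho (1 * _) : GM) : MM)
    rw [one_mul, map_mul, map_mul, Units.val_mul, Units.val_mul, val_qc D hi, val_qc D hj, ← mm_spec, ← mm_spec, h4]
    rfl
  · rw [hc] at h4
    show _ = ((rho (hh * _) : GM) : MM)
    rw [map_mul, map_mul, map_mul, Units.val_mul, Units.val_mul, Units.val_mul, val_qc D hi, val_qc D hj, val_hh D, ← mm_spec, ← mm_spec,
      ← mm_spec, h4]
    rfl

/-- the extraspecial group -/
theorem exQ : LargeExtra.ExData (ExGen.Qg qc 12) hh ∧ Nat.card (ExGen.Qg qc 12) = 2 ^ 13 := by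
  refine ExGen.exData (n := 12) (c := cmx) (t := tmx) (hh_sq D) (fun i hi => (qc2 D hi).1) (fun i hi => (qc2 D hi).2)
    (fun i hi j hj => qcomm D hi hj) ?_ ?_ (hh_ne D)
  · decide +kernel
  · decide +kernel

/-- product of generators -/
theorem qprod (l : List ℕ) (hl : ∀ k ∈ l, k < 12) : (((l.map fun k => rho (qc k)).prod : GM) : MM) = Mt 112 (qpm l) := by
  induction l with
  | nil => rw [show qpm [] = one from rfl, one_eq]; rfl
  | cons k l ih =>
    rw [List.map_cons, List.prod_cons, Units.val_mul, ih (fun d hd => hl d (List.mem_cons_of_mem _ hd)), val_qc D (hl k List.mem_cons_self)]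
    show _ = Mt 112 (mm (qm k) (qpm l))
    rw [mm_spec]


theorem q_conj {g : ℕ} (hg : g < 5) : ∀ a ∈ ExGen.Qg qc 12, (pJ (gw5 g))⁻¹ * a * pJ (gw5 g) ∈ ExGen.Qg qc 12 := by
  have key : ExGen.Qg qc 12 ≤ (ExGen.Qg qc 12).comap (MulAut.conj (pJ (gw5 g))⁻¹).toMonoidHom := by
    conv_lhs => rw [ExGen.Qg]
    rw [Subgroup.closure_le]
    rintro _ ⟨k, hk, rfl⟩
    have h1 := kchk5_ok
    rw [kchk5, frc_eq] at h1
    have h2 := List.all_eq_true.1 h1 g (List.mem_range.2 hg)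
    rw [frc_eq] at h2
    have h3 := List.all_eq_true.1 h2 k (List.mem_range.2 hk)
    rw [frc_eq] at h3
    have h4 := Nat.eq_of_beq_eq_true h3
    have h5 : qc k * pJ (gw5 g) = pJ (gw5 g) * (ExGen.zp hh (cq g k).2 * ((cq g k).1.map qc).prod) := by
      apply eq_of D
      have h6 : ((rho (pJ (gw5 g)) : GM) : MM) = Mt 112 (ev (gw5 g)) := by rw [rho_pJ (gok5 g hg), pr_val (gok5 g hg)]
      have h7 : ((rho (ExGen.zp hh (cq g k).2 * ((cq g k).1.map qc).prod) : GM) : MM) =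
          Mt 112 (cond (cq g k).2 (mm (ev lh) (qpm (cq g k).1)) (qpm (cq g k).1)) := by
        have h8 : rho (((cq g k).1.map qc).prod) = ((cq g k).1.map fun k => rho (qc k)).prod := by
          rw [map_list_prod, List.map_map]
          rfl
        rw [map_mul, Units.val_mul, h8, qprod D _ (cq_lt g hg k hk)]
        cases (cq g k).2
        · show ((rho 1 : GM) : MM) * _ = Mt 112 (qpm _)
          rw [map_one, Units.val_one, one_mul]
        · show ((rho hh : GM) : MM) * _ = Mt 112 (mm _ _)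
          rw [val_hh D, mm_spec]
      rw [map_mul, map_mul, Units.val_mul, Units.val_mul, h6, h7, val_qc D hk, ← mm_spec, ← mm_spec]
      exact congrArg _ h4
    show (pJ (gw5 g))⁻¹ * qc k * (pJ (gw5 g))⁻¹⁻¹ ∈ ExGen.Qg qc 12
    rw [inv_inv, mul_assoc, h5, inv_mul_cancel_left]
    apply mul_mem
    · cases (cq g k).2
      · exact one_mem _
      · exact (exQ D).1.mem
    · apply Subgroup.list_prod_mem
      intro v hv
      obtain ⟨j, hj, rfl⟩ := List.mem_map.1 hv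
      exact ExGen.q_mem (cq_lt g hg k hk j hj)
  intro a ha
  have h1 := key ha
  have h2 : (pJ (gw5 g))⁻¹ * a * (pJ (gw5 g))⁻¹⁻¹ ∈ ExGen.Qg qc 12 := h1
  rwa [inv_inv] at h2

/-- the extraspecial group is normalised -/
theorem C1_norm : C1 ≤ Subgroup.normalizer ((ExGen.Qg qc 12 : Subgroup J4) : Set J4) := by
  haveI := D.finite
  have key : ∀ g : J4, (∀ a ∈ ExGen.Qg qc 12, g⁻¹ * a * g ∈ ExGen.Qg qc 12) → g ∈ Subgroup.normalizer ((ExGen.Qg qc 12 : Subgroup J4) : Set J4) := by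
    intro g hg
    have h1 : (ExGen.Qg qc 12).map (MulAut.conj g⁻¹).toMonoidHom = ExGen.Qg qc 12 := by
      apply Subgroup.eq_of_le_of_card_ge
      · rintro _ ⟨a, ha, rfl⟩
        show g⁻¹ * a * g⁻¹⁻¹ ∈ _
        rw [inv_inv]
        exact hg a ha
      · rw [Subgroup.card_map_of_injective (MulAut.conj g⁻¹).injective]
    have h2 : g⁻¹ ∈ Subgroup.normalizer ((ExGen.Qg qc 12 : Subgroup J4) : Set J4) := by
      rw [Subgroup.mem_normalizer_iff_map_conj_eq]
      exact h1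
    have h3 := inv_mem h2
    rwa [inv_inv] at h3
  rw [C1, Subgroup.closure_le]
  rintro g (⟨k, hk, rfl⟩ | ⟨k, hk, rfl⟩ | rfl)
  · apply key
    have h1 : gw5 k = gw k := by interval_cases k <;> rfl
    have h2 := q_conj D (g := k) (by omega)
    rw [h1] at h2
    exact h2
  · exact Subgroup.le_normalizer (ExGen.q_mem hk)
  · exact key _ (q_conj D (g := 4) (by norm_num))

theorem C1_cent : C1 ≤ Subgroup.centralizer {hh} := by
  rw [C1, Subgroup.closure_le]
  rintro g (⟨k, hk, rfl⟩ | ⟨k, hk, rfl⟩ | rfl)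
  · exact J4Abs.com.2 (gc_comm D hk)
  · exact J4Abs.com.2 (qc2 D hk).1
  · exact J4Abs.com.2 (rc2 D).1

theorem Q_le : ExGen.Qg qc 12 ≤ C1 := by
  rw [ExGen.Qg, Subgroup.closure_le]
  rintro _ ⟨k, hk, rfl⟩
  exact Subgroup.subset_closure (Or.inr (Or.inl ⟨k, hk, rfl⟩))

theorem rc_C1 : rc ∈ C1 := Subgroup.subset_closure (Or.inr (Or.inr rfl))

theorem Q_ker : (ExGen.Qg qc 12).subgroupOf C1 ≤ ph1.ker := by
  have key : ExGen.Qg qc 12 ≤ ph1.ker.map C1.subtype := by
    conv_lhs => rw [ExGen.Qg]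
    rw [Subgroup.closure_le]
    rintro _ ⟨k, hk, rfl⟩
    refine ⟨⟨qc k, Q_le D (ExGen.q_mem hk)⟩, ?_, rfl⟩
    show ph ⟨qc k, _⟩ = 1
    exact Equiv.ext fun i => ph_eq (qact hk i)
  rintro ⟨a, ha⟩ h
  obtain ⟨⟨b, hb⟩, h1, h2⟩ := key h
  have h3 : b = a := h2
  subst h3
  exact h1

theorem r_ker : (⟨rc, rc_C1 D⟩ : C1) ∈ ph1.ker := by
  show ph ⟨rc, _⟩ = 1
  exact Equiv.ext fun i => ph_eq (ract i)

theorem ker_dvd : 24576 ∣ Nat.card ph1.ker := by
  haveI := D.finite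
  have h1 : 2 ^ 13 ∣ Nat.card ph1.ker := by
    have h2 := Subgroup.card_dvd_of_le (Q_ker D)
    rw [Nat.card_congr (Subgroup.subgroupOfEquivOfLe (Q_le D)).toEquiv, (exQ D).2] at h2
    exact h2
  have h3 : 3 ∣ Nat.card ph1.ker := by
    haveI : Fact (Nat.Prime 3) := ⟨by norm_num⟩
    have h4 : orderOf (⟨rc, rc_C1 D⟩ : C1) = 3 := by
      apply orderOf_eq_prime
      · exact Subtype.ext (rc2 D).2.1
      · intro h
        exact (rc2 D).2.2 (congrArg Subtype.val h)
    rw [← h4]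
    exact Subgroup.orderOf_dvd_natCard _ (r_ker D)
  have h5 := Nat.Coprime.mul_dvd_of_dvd_of_dvd (by norm_num) h1 h3
  exact h5

end hyp

end Cfsg.Agent.Lib.J4CB
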