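import Cfsg.Agent.Lib.J4CB

/-!
The structure of the centralizer of the involution `hh` of the fourth Janko group from an upper bound of its order (helper57).
-/

set_option autoImplicit false
set_option linter.all false
set_option maxRecDepth 100000

namespace Cfsg.Agent.Lib.J4CC

open Cfsg.Spor Cfsg.Agent.Lib.H58SM Cfsg.Agent.Lib.BenesWord Cfsg.Agent.Lib.MatF2 Cfsg.Agent.Lib.CosetGroup
open Cfsg.Agent.Lib.CoxBridge Cfsg.Agent.Lib.J4Rho Cfsg.Agent.Lib.ProjSL Cfsg.Agent.Lib.J4RhoHom Cfsg.Agent.Lib.J4Words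
open Cfsg.Agent.Lib.ChainCard Cfsg.Agent.Lib.J4Main Cfsg.Agent.Lib.J4CA Cfsg.Agent.Lib.J4CB

/-- transport of extraspecial data to a subgroup -/
theorem exData_subgroupOf {G : Type*} [Group G] {Q C : Subgroup G} {z : G} (h : LargeExtra.ExData Q z) (hQ : Q ≤ C) :
    LargeExtra.ExData (Q.subgroupOf C) (⟨z, hQ h.mem⟩ : C) := by
  apply LargeExtra.ExData.of
  · exact Subtype.ext h.sq
  · intro h1; exact h.ne (congrArg Subtype.val h1)
  · exact h.mem
  · intro q hq; exact Subtype.ext (h.cen q hq)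
  · intro a ha b hb
    exact (h.comm a ha b hb).imp (fun h => Subtype.ext h) (fun h => Subtype.ext h)
  · intro q hq hc
    refine (h.center q hq fun x hx => ?_).imp (fun h => Subtype.ext h) (fun h => Subtype.ext h)
    exact congrArg Subtype.val (hc ⟨x, hQ hx⟩ hx)
  · obtain ⟨a, ha, b, hb, hab⟩ := h.nonab
    exact ⟨⟨a, hQ ha⟩, ha, ⟨b, hQ hb⟩, hb, fun h => hab (congrArg Subtype.val h)⟩

/-- the statement about the image -/
def ImgStmt : Prop := ∀ A : Subgroup (Equiv.Perm (Fin 77)), A = Subgroup.closure (Set.range Pp) →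
  Nat.card A = 887040 ∧ ∃ B : Subgroup A, B.index = 2 ∧ IsSimpleGroup B ∧ Nat.card B = 443520

variable (D : Hyp)
include D

theorem eq_C1 (hM : ImgStmt) (hub : Nat.card (Subgroup.centralizer ({hh} : Set J4)) ≤ 21799895040) :
    Subgroup.centralizer ({hh} : Set J4) = C1 ∧ Nat.card ph1.ker = 3 * 2 ^ 13 := by
  haveI := D.finite
  have h1 := (hM _ range_eq).1
  have h2 : Nat.card C1 = Nat.card ph1.ker * 887040 := by
    rw [← Subgroup.card_mul_index ph1.ker, Subgroup.index_ker, h1]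
  obtain ⟨m, hm⟩ := ker_dvd D
  have hm0 : 0 < m := by
    rcases Nat.eq_zero_or_pos m with h | h
    · rw [h, mul_zero] at hm
      exact absurd hm Nat.card_pos.ne'
    · exact h
  have h3 : Nat.card C1 ≤ Nat.card (Subgroup.centralizer ({hh} : Set J4)) := Subgroup.card_le_of_le (C1_cent D)
  have h4 : Nat.card C1 ≤ 21799895040 := h3.trans hub
  rw [h2, hm] at h4
  have hm1 : m = 1 := by
    by_contra h
    have h5 : 2 ≤ m := by omega
    have h6 : 24576 * 2 * 887040 ≤ 24576 * m * 887040 := Nat.mul_le_mul_right _ (Nat.mul_le_mul_left _ h5)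
    omega
  rw [hm1] at hm
  refine ⟨?_, hm.trans (by norm_num)⟩
  symm
  apply Subgroup.eq_of_le_of_card_ge (C1_cent D)
  rw [h2, hm]
  exact hub

/-- the structure, for a subgroup equal to the known one -/
theorem main_aux (hM : ImgStmt) (hk : Nat.card ph1.ker = 3 * 2 ^ 13) (K : Subgroup J4) (hK : K = C1) :
    ∃ (Q N M : Subgroup K), Q.Normal ∧ N.Normal ∧ Q ≤ N ∧ N ≤ M ∧ Nat.card Q = 2 ^ 13 ∧ Cfsg.IsExtraspecial 2 Q ∧
      Nat.card N = 3 * 2 ^ 13 ∧ M.index = 2 ∧ ∃ (_ : (N.subgroupOf M).Normal), Cfsg.IsM22 (M ⧸ N.subgroupOf M) := by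
  subst hK
  haveI := D.finite
  obtain ⟨hA, B, hB2, hBs, hBc⟩ := hM _ range_eq
  -- surjection onto the image
  let φ : C1 →* ph1.range := ph1.rangeRestrict
  have hφ : Function.Surjective φ := MonoidHom.rangeRestrict_surjective ph1
  have hφk : φ.ker = ph1.ker := MonoidHom.ker_rangeRestrict ph1
  let M : Subgroup C1 := B.comap φ
  have hMi : M.index = 2 := by rw [Subgroup.index_comap_of_surjective B hφ, hB2]
  have hNM : ph1.ker ≤ M := by
    rw [← hφk]
    intro x hx
    show φ x ∈ B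
    rw [MonoidHom.mem_ker.1 hx]; exact one_mem _
  refine ⟨(ExGen.Qg qc 12).subgroupOf C1, ph1.ker, M, ?_, inferInstance, Q_ker D, hNM, ?_, ?_, hk, hMi, inferInstance, ?_⟩
  · constructor
    intro a ha g
    rw [Subgroup.mem_subgroupOf] at ha ⊢
    exact (Subgroup.mem_normalizer_iff.1 (C1_norm D g.2) _).1 ha
  · rw [Nat.card_congr (Subgroup.subgroupOfEquivOfLe (Q_le D)).toEquiv, (exQ D).2]
  · exact LargeExtra.isExtraspecial_of_exData (exData_subgroupOf (exQ D).1 (Q_le D))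
  · -- the quotient
    let ψ : M →* B := (φ.comp M.subtype).codRestrict B (fun x => x.2)
    have hψ : Function.Surjective ψ := by
      intro b
      obtain ⟨x, hx⟩ := hφ b.1
      refine ⟨⟨x, ?_⟩, Subtype.ext hx⟩
      show φ x ∈ B
      rw [hx]; exact b.2
    have hψk : ψ.ker = ph1.ker.subgroupOf M := by
      ext x
      rw [MonoidHom.mem_ker, Subgroup.mem_subgroupOf, ← hφk, MonoidHom.mem_ker]
      constructor
      · intro h; exact congrArg Subtype.val h
      · intro h; exact Subtype.ext h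
    have e : (M ⧸ ph1.ker.subgroupOf M) ≃* B := (QuotientGroup.quotientMulEquivOfEq hψk.symm).trans (QuotientGroup.quotientKerEquivOfSurjective ψ hψ)
    refine ⟨?_, ?_⟩
    · exact Cfsg.Agent.Lib.Golay.isSimpleGroup_of_mulEquiv e.symm hBs
    · rw [Nat.card_congr e.toEquiv, hBc]

/-- the structure of the involution centralizer -/
theorem main (hM : ImgStmt) (hub : Nat.card (Subgroup.centralizer ({hh} : Set J4)) ≤ 21799895040) :
    ∃ (G : Type) (_ : Group G) (_ : Finite G), Cfsg.IsJ4 G ∧ ∃ z : G, orderOf z = 2 ∧ ∃ (Q N M : Subgroup (Subgroup.centralizer ({z} : Set G))), Q.Normal ∧ N.Normal ∧ Q ≤ N ∧ N ≤ M ∧ Nat.card Q = 2 ^ 13 ∧ Cfsg.IsExtraspecial 2 Q ∧ Nat.card N = 3 * 2 ^ 13 ∧ M.index = 2 ∧ ∃ (_ : (N.subgroupOf M).Normal), Cfsg.IsM22 (M ⧸ N.subgroupOf M) := by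
  obtain ⟨h1, h2⟩ := eq_C1 D hM hub
  refine ⟨J4, inferInstance, D.finite, D.isJ4, hh, orderOf_eq_prime (by rw [pow_two]; exact hh_sq D) (hh_ne D), ?_⟩
  exact main_aux D hM h2 _ h1

end Cfsg.Agent.Lib.J4CC
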