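import Cfsg.Agent.Lib.J4Main

/-!
An upper bound for a centralizer from the cosets of a subgroup (helper57).
-/

set_option autoImplicit false
set_option linter.all false

namespace Cfsg.Agent.Lib.J4CD

open scoped Classical

variable {G : Type*} [Group G]

/-- the orbit bound: the centralizer acts on the good cosets -/
theorem cent_le [Finite G] (K V : Subgroup G) (z : G) (hzV : z ∈ V) (hVK : K ≤ Subgroup.normalizer (V : Set G)) :
    Nat.card (Subgroup.centralizer ({z} : Set G)) ≤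
      Nat.card {q : G ⧸ K // ∃ a : G, q = (a : G ⧸ K) ∧ a⁻¹ * z * a ∈ V} * Nat.card (K ⊓ Subgroup.centralizer ({z} : Set G) : Subgroup G) := by
  set C := Subgroup.centralizer ({z} : Set G) with hC
  have h1 : Nat.card (MulAction.orbit C ((1 : G) : G ⧸ K)) * Nat.card (MulAction.stabilizer C ((1 : G) : G ⧸ K)) = Nat.card C := by
    rw [← Subgroup.card_mul_index (MulAction.stabilizer C ((1 : G) : G ⧸ K)), Subgroup.index, mul_comm]
    congr 1
    exact Nat.card_congr (MulAction.orbitEquivQuotientStabilizer C ((1 : G) : G ⧸ K))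
  rw [← h1]
  have h2 : Nat.card (MulAction.stabilizer C ((1 : G) : G ⧸ K)) = Nat.card (K ⊓ C : Subgroup G) := by
    apply Nat.card_congr
    refine ⟨fun c => ⟨c.1.1, ?_, c.1.2⟩, fun k => ⟨⟨k.1, k.2.2⟩, ?_⟩, fun c => rfl, fun k => rfl⟩
    · have h3 : c.1 • ((1 : G) : G ⧸ K) = ((1 : G) : G ⧸ K) := c.2
      have h4 : ((c.1.1 * 1 : G) : G ⧸ K) = ((1 : G) : G ⧸ K) := h3
      rw [mul_one] at h4
      have h5 := QuotientGroup.eq.1 h4
      rw [mul_one] at h5
      exact (inv_mem_iff (H := K)).1 h5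
    · show ((k.1 * 1 : G) : G ⧸ K) = ((1 : G) : G ⧸ K)
      rw [mul_one]
      apply QuotientGroup.eq.2
      rw [mul_one]
      exact inv_mem k.2.1
  rw [h2]
  apply Nat.mul_le_mul_right
  have hcz : ∀ c ∈ C, c * z = z * c := fun c hc => J4Abs.com.1 hc
  let F : MulAction.orbit C ((1 : G) : G ⧸ K) → {q : G ⧸ K // ∃ a : G, q = (a : G ⧸ K) ∧ a⁻¹ * z * a ∈ V} := fun q => ⟨q.1, by
    obtain ⟨c, hc⟩ := q.2
    refine ⟨c.1, ?_, ?_⟩
    · rw [← hc]
      show ((c.1 * 1 : G) : G ⧸ K) = _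
      rw [mul_one]
    · rw [mul_assoc, ← hcz c.1 c.2, inv_mul_cancel_left]
      exact hzV⟩
  apply Nat.card_le_card_of_injective F
  intro a b h
  exact Subtype.ext (congrArg (fun q : {q : G ⧸ K // ∃ a : G, q = (a : G ⧸ K) ∧ a⁻¹ * z * a ∈ V} => q.1) h)

/-- the good cosets in one orbit -/
def Om (K P V : Subgroup G) (z y : G) : Set (G ⧸ K) := {q | ∃ p ∈ P, q = ((p * y : G) : G ⧸ K) ∧ (p * y)⁻¹ * z * (p * y) ∈ V}

/-- the elements of `V` that stay in `V` -/
def Wj (P V : Subgroup G) (z y : G) : Set G := {w | (∃ p ∈ P, w = p⁻¹ * z * p) ∧ y⁻¹ * w * y ∈ V}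

theorem fib_le {α β : Type*} [Finite α] (f : α → β) (n : ℕ) (S : Set β) (hSf : S.Finite) (hS : ∀ a, f a ∈ S)
    (h : ∀ b ∈ S, Nat.card {a // f a = b} ≤ n) : Nat.card α ≤ n * S.ncard := by
  haveI : Fintype α := Fintype.ofFinite α
  haveI : Fintype S := hSf.fintype
  rw [Nat.card_eq_fintype_card, Set.ncard_eq_toFinset_card']
  have := Finset.card_le_mul_card_image_of_maps_to (f := f) (s := Finset.univ) (t := S.toFinset) (fun a _ => Set.mem_toFinset.2 (hS a)) n
    (fun b hb => by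
      have h1 := h b (Set.mem_toFinset.1 hb)
      rw [Nat.card_eq_fintype_card, Fintype.card_subtype] at h1
      exact h1)
  exact this

theorem fib_ge {α β : Type*} [Finite α] (f : α → β) (n : ℕ) (S : Set β) (hSf : S.Finite) (hS : ∀ a, f a ∈ S)
    (h : ∀ b ∈ S, n ≤ Nat.card {a // f a = b}) : n * S.ncard ≤ Nat.card α := by
  haveI : Fintype α := Fintype.ofFinite α
  haveI : Fintype S := hSf.fintype
  rw [Nat.card_eq_fintype_card, Set.ncard_eq_toFinset_card']
  have := Finset.mul_card_image_le_card_of_maps_to (f := f) (s := Finset.univ) (t := S.toFinset) (fun a _ => Set.mem_toFinset.2 (hS a)) n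
    (fun b hb => by
      have h1 := h b (Set.mem_toFinset.1 hb)
      rw [Nat.card_eq_fintype_card, Fintype.card_subtype] at h1
      exact h1)
  exact this

theorem om_le [Finite G] (K P V : Subgroup G) (z y : G) (hKV : K ≤ Subgroup.normalizer (V : Set G)) {b s m cP : ℕ}
    (hb : (Wj P V z y).ncard ≤ b) (hs : b ≠ 0 → s ≤ Nat.card {p : P // ((p.1 * y : G) : G ⧸ K) = ((y : G) : G ⧸ K)})
    (hc : Nat.card (P ⊓ Subgroup.centralizer ({z} : Set G) : Subgroup G) ≤ cP) (hs0 : b ≠ 0 → 0 < s) (hm : b * cP ≤ m * s) :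
    (Om K P V z y).ncard ≤ m := by
  let α := {p : P // (p.1 * y)⁻¹ * z * (p.1 * y) ∈ V}
  -- first bound
  have h1 : Nat.card α ≤ cP * (Wj P V z y).ncard := by
    apply fib_le (fun p : α => p.1.1⁻¹ * z * p.1.1) cP (Wj P V z y) (Set.toFinite _)
    · intro p
      refine ⟨⟨p.1.1, p.1.2, rfl⟩, ?_⟩
      have h3 : y⁻¹ * (p.1.1⁻¹ * z * p.1.1) * y = (p.1.1 * y)⁻¹ * z * (p.1.1 * y) := by group
      rw [h3]; exact p.2
    · intro w hw
      refine le_trans ?_ hc
      by_cases hne : Nonempty {a : α // a.1.1⁻¹ * z * a.1.1 = w}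
      · obtain ⟨p0⟩ := hne
        have hmem : ∀ a : {a : α // a.1.1⁻¹ * z * a.1.1 = w}, a.1.1.1 * p0.1.1.1⁻¹ ∈ (P ⊓ Subgroup.centralizer ({z} : Set G) : Subgroup G) := by
          intro a
          refine Subgroup.mem_inf.2 ⟨P.mul_mem a.1.1.2 (P.inv_mem p0.1.1.2), ?_⟩
          apply J4Abs.com.2
          have e1 : a.1.1.1⁻¹ * z * a.1.1.1 = w := a.2
          have e2 : p0.1.1.1⁻¹ * z * p0.1.1.1 = w := p0.2
          have e3 : z * a.1.1.1 = a.1.1.1 * w := by
            calc z * a.1.1.1 = a.1.1.1 * (a.1.1.1⁻¹ * z * a.1.1.1) := by group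
              _ = a.1.1.1 * w := by rw [e1]
          have e4 : w * p0.1.1.1⁻¹ = p0.1.1.1⁻¹ * z := by
            calc w * p0.1.1.1⁻¹ = (p0.1.1.1⁻¹ * z * p0.1.1.1) * p0.1.1.1⁻¹ := by rw [e2]
              _ = p0.1.1.1⁻¹ * z := by group
          calc (a.1.1.1 * p0.1.1.1⁻¹) * z = a.1.1.1 * (p0.1.1.1⁻¹ * z) := mul_assoc _ _ _
            _ = a.1.1.1 * (w * p0.1.1.1⁻¹) := by rw [e4]
            _ = (a.1.1.1 * w) * p0.1.1.1⁻¹ := (mul_assoc _ _ _).symm
            _ = (z * a.1.1.1) * p0.1.1.1⁻¹ := by rw [e3]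
            _ = z * (a.1.1.1 * p0.1.1.1⁻¹) := mul_assoc _ _ _
        let F : {a : α // a.1.1⁻¹ * z * a.1.1 = w} → (P ⊓ Subgroup.centralizer ({z} : Set G) : Subgroup G) := fun a =>
          ⟨a.1.1.1 * p0.1.1.1⁻¹, hmem a⟩
        apply Nat.card_le_card_of_injective F
        intro a a' h
        have h2 : a.1.1.1 * p0.1.1.1⁻¹ = a'.1.1.1 * p0.1.1.1⁻¹ := congrArg Subtype.val h
        exact Subtype.ext (Subtype.ext (Subtype.ext (mul_right_cancel h2)))
      · rw [not_nonempty_iff] at hne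
        rw [Nat.card_of_isEmpty]
        exact Nat.zero_le _
  by_cases hb0 : b = 0
  · have h2 : (Wj P V z y).ncard = 0 := by omega
    rw [h2, mul_zero] at h1
    have h3 : (Om K P V z y) = ∅ := by
      rw [Set.eq_empty_iff_forall_notMem]
      rintro q ⟨p, hp, _, h4⟩
      have h5 : Nat.card α = 0 := by omega
      haveI : Nonempty α := ⟨⟨⟨p, hp⟩, h4⟩⟩
      exact absurd h5 Nat.card_pos.ne'
    rw [h3, Set.ncard_empty]
    exact Nat.zero_le _
  · have h2 : s * (Om K P V z y).ncard ≤ Nat.card α := by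
      apply fib_ge (fun p : α => ((p.1.1 * y : G) : G ⧸ K)) s (Om K P V z y) (Set.toFinite _)
      · intro p
        exact ⟨p.1.1, p.1.2, rfl, p.2⟩
      · rintro q ⟨p0, hp0, hq, h3⟩
        refine (hs hb0).trans ?_
        let F : {p : P // ((p.1 * y : G) : G ⧸ K) = ((y : G) : G ⧸ K)} → {a : α // ((a.1.1 * y : G) : G ⧸ K) = q} := fun t => by
          have h4 : ∃ k ∈ K, t.1.1 * y = y * k := by
            have h5 := QuotientGroup.eq.1 t.2.symm
            exact ⟨y⁻¹ * (t.1.1 * y), h5, by group⟩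
          refine ⟨⟨⟨p0 * t.1.1, mul_mem hp0 t.1.2⟩, ?_⟩, ?_⟩
          · obtain ⟨k, hk, hk2⟩ := h4
            have h6 : p0 * t.1.1 * y = p0 * y * k := by rw [mul_assoc, hk2, mul_assoc]
            rw [h6]
            have h7 : (p0 * y * k)⁻¹ * z * (p0 * y * k) = k⁻¹ * ((p0 * y)⁻¹ * z * (p0 * y)) * k⁻¹⁻¹ := by group
            rw [h7]
            exact (Subgroup.mem_normalizer_iff.1 (hKV (inv_mem hk)) _).1 h3
          · obtain ⟨k, hk, hk2⟩ := h4
            have h6 : p0 * t.1.1 * y = p0 * y * k := by rw [mul_assoc, hk2, mul_assoc]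
            show ((p0 * t.1.1 * y : G) : G ⧸ K) = q
            rw [h6, hq]
            apply QuotientGroup.eq.2
            have h7 : (p0 * y * k)⁻¹ * (p0 * y) = k⁻¹ := by group
            rw [h7]; exact inv_mem hk
        apply Nat.card_le_card_of_injective F
        intro a a' h
        have h4 : p0 * a.1.1 = p0 * a'.1.1 := congrArg (fun x : {a : α // ((a.1.1 * y : G) : G ⧸ K) = q} => x.1.1.1) h
        exact Subtype.ext (Subtype.ext (mul_left_cancel h4))
    have h3 : s * (Om K P V z y).ncard ≤ s * m := by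
      calc s * (Om K P V z y).ncard ≤ Nat.card α := h2
        _ ≤ cP * (Wj P V z y).ncard := h1
        _ ≤ cP * b := Nat.mul_le_mul_left _ hb
        _ = b * cP := mul_comm _ _
        _ ≤ m * s := hm
        _ = s * m := mul_comm _ _
    exact Nat.le_of_mul_le_mul_left h3 (hs0 hb0)

/-- the number of good cosets -/
theorem good_le [Finite G] (K P V : Subgroup G) (z : G) (y : ℕ → G) (n : ℕ) (hPK : P ≤ K) (hKV : K ≤ Subgroup.normalizer (V : Set G)) (y0 : y 0 = 1)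
    (cov : ∀ q : G ⧸ K, ∃ j < n, ∃ p ∈ P, q = ((p * y j : G) : G ⧸ K)) (m : ℕ → ℕ) (hm0 : m 0 = 1)
    (hm : ∀ j < n, 0 < j → (Om K P V z (y j)).ncard ≤ m j) :
    Nat.card {q : G ⧸ K // ∃ a : G, q = (a : G ⧸ K) ∧ a⁻¹ * z * a ∈ V} ≤ ∑ j ∈ Finset.range n, m j := by
  have h0 : {q : G ⧸ K | ∃ a : G, q = (a : G ⧸ K) ∧ a⁻¹ * z * a ∈ V} ⊆ ⋃ j ∈ Finset.range n, {q | q ∈ Om K P V z (y j)} := by
    rintro q ⟨a, ha, h1⟩
    obtain ⟨j, hj, p, hp, h2⟩ := cov q
    rw [Set.mem_iUnion₂]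
    refine ⟨j, Finset.mem_range.2 hj, p, hp, h2, ?_⟩
    rw [ha] at h2
    have h3 := QuotientGroup.eq.1 h2
    have h4 : (p * y j)⁻¹ * z * (p * y j) = (a⁻¹ * (p * y j))⁻¹ * (a⁻¹ * z * a) * (a⁻¹ * (p * y j))⁻¹⁻¹ := by group
    rw [h4]
    exact (Subgroup.mem_normalizer_iff.1 (hKV (inv_mem h3)) _).1 h1
  have h1 : Nat.card {q : G ⧸ K // ∃ a : G, q = (a : G ⧸ K) ∧ a⁻¹ * z * a ∈ V} = {q : G ⧸ K | ∃ a : G, q = (a : G ⧸ K) ∧ a⁻¹ * z * a ∈ V}.ncard := rfl
  rw [h1]
  refine (Set.ncard_le_ncard h0 (Set.toFinite _)).trans ?_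
  refine (Finset.set_ncard_biUnion_le _ _).trans ?_
  apply Finset.sum_le_sum
  intro j hj
  show (Om K P V z (y j)).ncard ≤ m j
  by_cases h2 : j = 0
  · subst h2
    rw [hm0]
    have h3 : Om K P V z (y 0) ⊆ {((1 : G) : G ⧸ K)} := by
      rintro q ⟨p, hp, hq, _⟩
      rw [Set.mem_singleton_iff, hq, y0, mul_one]
      apply QuotientGroup.eq.2
      rw [mul_one]
      exact inv_mem (hPK hp)
    refine (Set.ncard_le_ncard h3 (Set.toFinite _)).trans ?_
    rw [Set.ncard_singleton]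
  · exact hm j (Finset.mem_range.1 hj) (Nat.pos_of_ne_zero h2)

end Cfsg.Agent.Lib.J4CD
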