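import Cfsg.Agent.Lib.J4VGlue2
import Cfsg.Agent.Lib.ExGen

/-!
Packed rows: tables of a vector under all products of commuting matrices (helper57).
-/

set_option autoImplicit false
set_option linter.all false
set_option maxRecDepth 100000
set_option Elab.async false

namespace Cfsg.Agent.Lib.J4CE

open Cfsg.Spor Cfsg.Agent.Lib.H58SM Cfsg.Agent.Lib.BenesWord Cfsg.Agent.Lib.MatF2 Cfsg.Agent.Lib.CosetGroup
open Cfsg.Agent.Lib.CoxBridge Cfsg.Agent.Lib.J4Rho Cfsg.Agent.Lib.ProjSL Cfsg.Agent.Lib.J4RhoHom Cfsg.Agent.Lib.J4Words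
open Cfsg.Agent.Lib.ChainCard Cfsg.Agent.Lib.J4Main Cfsg.Agent.Lib.J4HRel Cfsg.Agent.Lib.J4VGlue

section rows

variable {N msk R o : ℕ}

/-- conditions for multi-row products -/
structure GoodR (N msk R o : ℕ) : Prop where
  hm : msk = 2 ^ N - 1
  hpos : 0 < N
  ho : alln (fun i => Nat.beq (gt o N msk i) 1) R = true

/-- rows -/
def rv (N A i : ℕ) : Fin N → ZMod 2 := fun k => bz (A.testBit (N * i + k))

theorem o_bit (h : GoodR N msk R o) {i k : ℕ} (hi : i < R) (hk : k < N) : o.testBit (N * i + k) = decide (k = 0) := by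
  have h1 := Nat.eq_of_beq_eq_true (alln_iff.1 h.ho i hi)
  rw [bit_eq h.hm _ _ hk, h1, tb1]

theorem mask_digR (h : GoodR N msk R o) (A : ℕ) {j i : ℕ} (_hj : j < N) (hi : i < R) :
    (Nat.land (Nat.shiftRight A j) o) / (2 ^ N) ^ i % 2 ^ N = (A.testBit (N * i + j)).toNat := by
  rw [← gt_eq h.hm]
  apply Nat.eq_of_testBit_eq
  intro k
  by_cases hk : k < N
  · rw [← bit_eq h.hm _ _ hk]
    show (((A >>> j) &&& o).testBit (N * i + k)) = _
    rw [Nat.testBit_and, Nat.testBit_shiftRight, o_bit h hi hk]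
    by_cases h0 : k = 0
    · subst h0
      rw [decide_eq_true rfl, Bool.and_true, Nat.add_zero, Nat.add_comm]
      cases A.testBit (N * i + j) <;> simp
    · rw [decide_eq_false h0, Bool.and_false]
      cases A.testBit (N * i + j) <;> simp [tb1, h0]
  · rw [gt_eq h.hm, Nat.testBit_mod_two_pow, decide_eq_false hk, Bool.false_and]
    have h0 : k ≠ 0 := by have := h.hpos; omega
    cases A.testBit (N * i + j) <;> simp [tb1, h0]

theorem term_bitR (h : GoodR N msk R o) (A M : ℕ) {j i k : ℕ} (hj : j < N) (hi : i < R) (hk : k < N) :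
    (Nat.mul (gt M N msk j) (Nat.land (Nat.shiftRight A j) o)).testBit (N * i + k) =
      (A.testBit (N * i + j) && M.testBit (N * j + k)) := by
  have hB : 0 < 2 ^ N := Nat.pow_pos (by norm_num)
  have hr : gt M N msk j < 2 ^ N := by rw [gt_eq h.hm]; exact Nat.mod_lt _ hB
  rw [bit_eq h.hm _ _ hk, gt_eq h.hm]
  show ((gt M N msk j * (Nat.land (Nat.shiftRight A j) o)) / (2 ^ N) ^ i % 2 ^ N).testBit k = _
  rw [VecP.dig_mul hB (n := R) _ ?_ hi, mask_digR h A hj hi, bit_eq h.hm M j hk]
  · cases A.testBit (N * i + j) with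
    | true => simp
    | false => simp
  · intro l hl
    rw [mask_digR h A hj hl]
    cases A.testBit (N * l + j) with
    | true => simpa using hr
    | false => simp

theorem mulR (h : GoodR N msk R o) (A M : ℕ) {i : ℕ} (hi : i < R) : rv N (mulP N msk o A M) i = Matrix.vecMul (rv N A i) (Mt N M) := by
  have key : ∀ n (hn : n ≤ N), ∀ k : Fin N, bz ((Nat.rec 0 (fun j acc => Nat.xor acc (Nat.mul (gt M N msk j)
      (Nat.land (Nat.shiftRight A j) o))) n : ℕ).testBit (N * i + k)) =
      ∑ j ∈ Finset.range n, bz (A.testBit (N * i + j)) * bz (M.testBit (N * j + k)) := by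
    intro n
    induction n with
    | zero =>
      intro _ k
      show bz ((0 : ℕ).testBit _) = _
      rw [Nat.zero_testBit, Finset.range_zero, Finset.sum_empty]
      rfl
    | succ n ih =>
      intro hn k
      rw [Finset.sum_range_succ, ← ih (by omega) k]
      show bz ((Nat.xor _ _).testBit _) = _
      have hx : ∀ a b m : ℕ, (Nat.xor a b).testBit m = (a.testBit m ^^ b.testBit m) := fun a b m => Nat.testBit_xor a b m
      rw [hx, bz_xor, term_bitR h A M (by omega) hi k.2, bz_and]
  ext k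
  show bz ((mulP N msk o A M).testBit (N * i + k)) = ∑ j : Fin N, bz (A.testBit (N * i + j)) * bz (M.testBit (N * j + k))
  have h1 := key N le_rfl k
  rw [Finset.sum_range] at h1
  exact h1

theorem bz_inj {a b : Bool} (h : bz a = bz b) : a = b := by
  revert h
  cases a <;> cases b <;> decide

theorem rv_eq (hm : msk = 2 ^ N - 1) {A i B j : ℕ} : rv N A i = rv N B j ↔ gt A N msk i = gt B N msk j := by
  constructor
  · intro h
    apply Nat.eq_of_testBit_eq
    intro k
    by_cases hk : k < N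
    · rw [← bit_eq hm _ _ hk, ← bit_eq hm _ _ hk]
      exact bz_inj (congrFun h ⟨k, hk⟩)
    · rw [gt_eq hm, gt_eq hm, Nat.testBit_mod_two_pow, Nat.testBit_mod_two_pow, decide_eq_false hk, Bool.false_and, Bool.false_and]
  · intro h
    ext k
    show bz _ = bz _
    rw [bit_eq hm _ _ k.2, bit_eq hm _ _ k.2, h]

theorem rv_xor {A B i : ℕ} : rv N (Nat.xor A B) i = rv N A i + rv N B i := by
  ext k
  show bz ((Nat.xor A B).testBit _) = bz _ + bz _
  rw [← bz_xor]
  congr 1
  exact Nat.testBit_xor _ _ _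

/-- doubling -/
def dbl (w T S : ℕ) : ℕ := Nat.lor (Nat.mod T (Nat.pow 2 w)) (Nat.shiftLeft S w)

theorem rv_dbl_lo {T S r i : ℕ} (hi : i < r) : rv N (dbl (N * r) T S) i = rv N T i := by
  ext k
  have hk := k.2
  have h1 : N * i + k < N * r := by nlinarith
  show bz (((T % 2 ^ (N * r)) ||| (S <<< (N * r))).testBit (N * i + k)) = bz _
  rw [Nat.testBit_or, Nat.testBit_mod_two_pow, Nat.testBit_shiftLeft]
  simp [h1, Nat.not_le.2 h1]

theorem rv_dbl_hi {T S r i : ℕ} : rv N (dbl (N * r) T S) (r + i) = rv N S i := by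
  ext k
  show bz (((T % 2 ^ (N * r)) ||| (S <<< (N * r))).testBit (N * (r + i) + k)) = bz _
  have h1 : ¬ N * (r + i) + k < N * r := by rw [Nat.mul_add]; omega
  have h2 : N * (r + i) + k ≥ N * r := by omega
  have h3 : N * (r + i) + k - N * r = N * i + k := by rw [Nat.mul_add]; omega
  rw [Nat.testBit_or, Nat.testBit_mod_two_pow, Nat.testBit_shiftLeft, decide_eq_false h1, Bool.false_and, Bool.false_or, decide_eq_true h2,
    Bool.true_and, h3]

end rows

end Cfsg.Agent.Lib.J4CE
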