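import Cfsg.Agent.Lib.J4CH

/-!
The upper bound for the centralizer of the involution `hh` (helper57).
-/

set_option autoImplicit false
set_option linter.all false
set_option maxRecDepth 100000

namespace Cfsg.Agent.Lib.J4CI

open Cfsg.Spor Cfsg.Agent.Lib.H58SM Cfsg.Agent.Lib.CosetGroup Cfsg.Agent.Lib.CoxBridge Cfsg.Agent.Lib.J4Main Cfsg.Agent.Lib.J4HRel Cfsg.Agent.Lib.J4VGlue Cfsg.Agent.Lib.J4CE Cfsg.Agent.Lib.J4CF
open Cfsg.Agent.Lib.J4CG Cfsg.Agent.Lib.J4CH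

/-- the numbers of conjugates -/
def mu (k : ℕ) : ℕ :=
  match k with
  | 0 => 1
  | 1 => 15
  | 17 => 15
  | 18 => 45
  | 19 => 1
  | _ => 0

/-- orders of stabilizers -/
def sg (k : ℕ) : ℕ :=
  match k with
  | 1 => 64512
  | 17 => 9216
  | 18 => 21504
  | 19 => 138240
  | _ => 1

theorem arith : ∀ k < 20, 0 < k → (LL k).length * 138240 ≤ mu k * sg k := by decide +kernel
theorem arith2 : ∀ k < 20, 0 < sg k := by decide +kernel
theorem arith3 : ∀ k < 20, (LL k).length ≠ 0 → k = 1 ∨ k = 17 ∨ k = 18 ∨ k = 19 := by decide +kernel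
theorem arith4 : ∑ j ∈ Finset.range 20, mu j = 77 := by decide +kernel

/-- the upper bound -/
theorem hub (D : J4Main.Hyp) (hD : D.V = VV) (cov : ∀ a : J4, ∃ j < 20, ∃ p ∈ PP, ∃ k ∈ KK, a = p * pJ (wd j) * k)
    (stab : ∀ j, j = 1 ∨ j = 17 ∨ j = 18 ∨ j = 19 → sg j ≤ Nat.card {p : PP // ((p.1 * pJ (wd j) : J4) : J4 ⧸ KK) = ((pJ (wd j) : J4) : J4 ⧸ KK)}) :
    Nat.card (Subgroup.centralizer ({hh} : Set J4)) ≤ 21799895040 := by
  haveI := D.finite
  have h1 := J4CD.cent_le KK VV hh hh_mem KK_norm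
  have h2 := cKK D hD
  have h3 := J4CD.good_le KK PP VV hh (fun j => pJ (wd j)) 20 PP_le KK_norm rfl (by
    intro q
    obtain ⟨a, rfl⟩ := QuotientGroup.mk_surjective q
    obtain ⟨j, hj, p, hp, k, hk, rfl⟩ := cov a
    refine ⟨j, hj, p, hp, ?_⟩
    apply QuotientGroup.eq.2
    have e : (p * pJ (wd j) * k)⁻¹ * (p * pJ (wd j)) = k⁻¹ := by group
    show (p * pJ (wd j) * k)⁻¹ * (p * pJ (wd j)) ∈ KK
    rw [e]
    exact KK.inv_mem hk) mu rfl (by
    intro j hj h0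
    exact J4CD.om_le KK PP VV hh (pJ (wd j)) KK_norm (b := (LL j).length) (s := sg j) (m := mu j) (cP := 138240) (wj D j hj h0)
      (fun hb => stab j (arith3 j hj hb)) (cPP D hD) (fun _ => arith2 j hj) (arith j hj h0))
  rw [arith4] at h3
  calc Nat.card (Subgroup.centralizer ({hh} : Set J4)) ≤ _ := h1
    _ ≤ 77 * (2048 * 138240) := Nat.mul_le_mul h3 h2
    _ = 21799895040 := by norm_num

end Cfsg.Agent.Lib.J4CI
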