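import Cfsg.Agent.Lib.JThreeOrbTab

/-!
Kernel checks for the orbits of `3·J₃` (part B).
-/

set_option autoImplicit false

namespace Cfsg.Agent.Lib.JThreeOrb

theorem chunk_8 : chunk 8 = true := by decide +kernel
theorem chunk_9 : chunk 9 = true := by decide +kernel
theorem chunk_10 : chunk 10 = true := by decide +kernel
theorem chunk_11 : chunk 11 = true := by decide +kernel
theorem chunk_12 : chunk 12 = true := by decide +kernel
theorem chunk_13 : chunk 13 = true := by decide +kernel
theorem chunk_14 : chunk 14 = true := by decide +kernel
theorem chunk_15 : chunk 15 = true := by decide +kernel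

end Cfsg.Agent.Lib.JThreeOrb
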