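import Cfsg.Agent.Lib.JThreeOrbTab

/-!
Kernel checks for the orbits of `3·J₃` (part C).
-/

set_option autoImplicit false

namespace Cfsg.Agent.Lib.JThreeOrb

/-- sums -/
def sumLt (k : ℕ) (g : ℕ → ℕ) : ℕ := Nat.rec (motive := fun _ => ℕ) 0 (fun k ih => Nat.add ih (g k)) k

/-- counting in one chunk -/
noncomputable def cnt (c : ℕ) : ℕ :=
  sumLt 128 fun i => sumLt 128 fun j => cond (cntF (Nat.add (Nat.mul 16384 c) (Nat.add (Nat.mul 128 i) j))) 1 0

theorem cnt_0 : Nat.beq (cnt 0) 1492 = true := by decide +kernel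
theorem cnt_1 : Nat.beq (cnt 1) 4348 = true := by decide +kernel
theorem cnt_2 : Nat.beq (cnt 2) 0 = true := by decide +kernel
theorem cnt_3 : Nat.beq (cnt 3) 0 = true := by decide +kernel
theorem cnt_4 : Nat.beq (cnt 4) 4348 = true := by decide +kernel
theorem cnt_5 : Nat.beq (cnt 5) 4356 = true := by decide +kernel
theorem cnt_6 : Nat.beq (cnt 6) 4356 = true := by decide +kernel
theorem cnt_7 : Nat.beq (cnt 7) 4356 = true := by decide +kernel
theorem cnt_8 : Nat.beq (cnt 8) 0 = true := by decide +kernel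
theorem cnt_9 : Nat.beq (cnt 9) 0 = true := by decide +kernel
theorem cnt_10 : Nat.beq (cnt 10) 0 = true := by decide +kernel
theorem cnt_11 : Nat.beq (cnt 11) 0 = true := by decide +kernel
theorem cnt_12 : Nat.beq (cnt 12) 0 = true := by decide +kernel
theorem cnt_13 : Nat.beq (cnt 13) 0 = true := by decide +kernel
theorem cnt_14 : Nat.beq (cnt 14) 0 = true := by decide +kernel
theorem cnt_15 : Nat.beq (cnt 15) 0 = true := by decide +kernel

end Cfsg.Agent.Lib.JThreeOrb
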