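import Cfsg.Agent.Lib.JThreeOrbA
import Cfsg.Agent.Lib.JThreeOrbB
import Cfsg.Agent.Lib.JThreeOrbC

/-!
Orbits of `3·J₃` on the vectors of its 9-space over the field with four elements.
-/

set_option autoImplicit false

namespace Cfsg.Agent.Lib.JThreeOrb

open Cfsg Cfsg.Agent.Lib.K4 Cfsg.Agent.Lib.F4Pack Cfsg.Agent.Lib.NatTree Cfsg.Agent.Lib.JThree
open Cfsg.Agent.Lib.PackMat (forceN forceN_eq)
open Cfsg.Agent.Lib.Golay (allLt allLt_iff)
open Matrix

/-- vectors -/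
abbrev V : Type := ZMod 3 × ZMod 3 → K4

/-- numbers as field elements -/
def k4 (d : ℕ) : K4 := (⟨d % 4, Nat.mod_lt _ (by decide)⟩ : Fin 4)

/-- field elements as numbers -/
def kd (a : K4) : ℕ := (a : Fin 4).val

theorem kd_lt (a : K4) : kd a < 4 := (a : Fin 4).isLt

theorem k4_eq {d : ℕ} {a : K4} (h : d % 4 = kd a) : k4 d = a := Fin.ext (h : (⟨d % 4, _⟩ : Fin 4).val = (a : Fin 4).val)

theorem kd_k4 (d : ℕ) : kd (k4 d) = d % 4 := rfl

theorem k4_xor (a b : ℕ) : k4 (Nat.xor a b) = k4 a + k4 b := by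
  apply Fin.ext
  show Nat.xor a b % 4 = Nat.xor (a % 4) (b % 4) % 4
  have h1 : Nat.xor a b % 2 ^ 2 = Nat.xor (a % 2 ^ 2) (b % 2 ^ 2) := Nat.xor_mod_two_pow
  have h2 : Nat.xor (a % 2 ^ 2) (b % 2 ^ 2) < 2 ^ 2 := Nat.xor_lt_two_pow (Nat.mod_lt _ (by norm_num)) (Nat.mod_lt _ (by norm_num))
  have h3 : (2 : ℕ) ^ 2 = 4 := by norm_num
  rw [h3] at h1 h2
  rw [h1, Nat.mod_eq_of_lt h2]

/-- decoding of vectors -/
def dec (n : ℕ) : V := fun z => k4 (Nat.shiftRight n (Nat.mul 2 (xn z)))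

theorem dec_xor (a b : ℕ) : dec (Nat.xor a b) = dec a + dec b := by
  funext z
  show k4 (Nat.shiftRight (Nat.xor a b) (Nat.mul 2 (xn z))) = k4 _ + k4 _
  have h1 : Nat.shiftRight (Nat.xor a b) (Nat.mul 2 (xn z)) =
      Nat.xor (Nat.shiftRight a (Nat.mul 2 (xn z))) (Nat.shiftRight b (Nat.mul 2 (xn z))) := Nat.shiftRight_xor_distrib
  rw [h1, k4_xor]

/-- coding of vectors -/
def enc (v : V) : ℕ := kd (v (nx 0)) + 4 * kd (v (nx 1)) + 16 * kd (v (nx 2)) + 64 * kd (v (nx 3)) + 256 * kd (v (nx 4)) +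
  1024 * kd (v (nx 5)) + 4096 * kd (v (nx 6)) + 16384 * kd (v (nx 7)) + 65536 * kd (v (nx 8))

theorem enc_lt (v : V) : enc v < 262144 := by
  have := fun i => kd_lt (v i)
  have h0 := this (nx 0)
  have h1 := this (nx 1)
  have h2 := this (nx 2)
  have h3 := this (nx 3)
  have h4 := this (nx 4)
  have h5 := this (nx 5)
  have h6 := this (nx 6)
  have h7 := this (nx 7)
  have h8 := this (nx 8)
  unfold enc
  omega

theorem sh_eq (n s : ℕ) : Nat.shiftRight n s = n / 2 ^ s := Nat.shiftRight_eq_div_pow n s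


theorem dig {a0 a1 a2 a3 a4 a5 a6 a7 a8 : ℕ} (h0 : a0 < 4) (h1 : a1 < 4) (h2 : a2 < 4) (h3 : a3 < 4) (h4 : a4 < 4)
    (h5 : a5 < 4) (h6 : a6 < 4) (h7 : a7 < 4) (h8 : a8 < 4) (N : ℕ)
    (hN : N = a0 + 4 * a1 + 16 * a2 + 64 * a3 + 256 * a4 + 1024 * a5 + 4096 * a6 + 16384 * a7 + 65536 * a8) :
    N / 1 % 4 = a0 ∧ N / 4 % 4 = a1 ∧ N / 16 % 4 = a2 ∧ N / 64 % 4 = a3 ∧ N / 256 % 4 = a4 ∧ N / 1024 % 4 = a5 ∧
      N / 4096 % 4 = a6 ∧ N / 16384 % 4 = a7 ∧ N / 65536 % 4 = a8 := by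
  refine ⟨?_, ?_, ?_, ?_, ?_, ?_, ?_, ?_, ?_⟩ <;> omega

theorem dec_enc (v : V) : dec (enc v) = v := by
  have key : ∀ k < 9, k4 (Nat.shiftRight (enc v) (Nat.mul 2 k)) = v (nx k) := by
    intro k hk
    have := fun i => kd_lt (v i)
    obtain ⟨e0, e1, e2, e3, e4, e5, e6, e7, e8⟩ := dig (this (nx 0)) (this (nx 1)) (this (nx 2)) (this (nx 3))
      (this (nx 4)) (this (nx 5)) (this (nx 6)) (this (nx 7)) (this (nx 8)) (enc v) rfl
    apply k4_eq
    rw [sh_eq]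
    interval_cases k
    · exact e0
    · exact e1
    · exact e2
    · exact e3
    · exact e4
    · exact e5
    · exact e6
    · exact e7
    · exact e8
  funext z
  have := key (xn z) (xn_lt z)
  rw [nx_xn] at this
  exact this

theorem undig {n : ℕ} (hn : n < 262144) : n / 1 % 4 + 4 * (n / 4 % 4) + 16 * (n / 16 % 4) + 64 * (n / 64 % 4) +
    256 * (n / 256 % 4) + 1024 * (n / 1024 % 4) + 4096 * (n / 4096 % 4) + 16384 * (n / 16384 % 4) +
    65536 * (n / 65536 % 4) = n := by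
  omega

theorem kd_dec (n k : ℕ) (hk : k < 9) : kd (dec n (nx k)) = n / 2 ^ (2 * k) % 4 := by
  show Nat.shiftRight n (Nat.mul 2 (xn (nx k))) % 4 = _
  rw [xn_nx k hk, sh_eq]
  rfl

theorem enc_dec {n : ℕ} (hn : n < 262144) : enc (dec n) = n := by
  unfold enc
  rw [kd_dec n 0 (by norm_num), kd_dec n 1 (by norm_num), kd_dec n 2 (by norm_num), kd_dec n 3 (by norm_num),
    kd_dec n 4 (by norm_num), kd_dec n 5 (by norm_num), kd_dec n 6 (by norm_num), kd_dec n 7 (by norm_num),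
    kd_dec n 8 (by norm_num)]
  exact undig hn

theorem dec_inj {a b : ℕ} (ha : a < 262144) (hb : b < 262144) (h : dec a = dec b) : a = b := by
  rw [← enc_dec ha, ← enc_dec hb, h]

/-! ### linear actions -/

theorem mul_add_xor {s b : ℕ} (a : ℕ) (hb : b < 2 ^ s) : 2 ^ s * a + b = Nat.xor (2 ^ s * a) b := by
  apply Nat.eq_of_testBit_eq
  intro j
  have h1 : (Nat.xor (2 ^ s * a) b).testBit j = ((2 ^ s * a).testBit j ^^ b.testBit j) := Nat.testBit_xor _ _ _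
  rw [h1, Nat.testBit_two_pow_mul_add a hb j, Nat.testBit_two_pow_mul]
  by_cases hj : j < s
  · simp [hj, Nat.not_le.2 hj]
  · have h2 : b.testBit j = false := Nat.testBit_lt_two_pow (lt_of_lt_of_le hb (Nat.pow_le_pow_right (by norm_num) (by omega)))
    simp [hj, Nat.not_lt.1 hj, h2]

theorem two_pow_add_xor {k r : ℕ} (s : ℕ) (h : r < 2 ^ k) : 2 ^ s * (2 ^ k + r) = Nat.xor (2 ^ (s + k)) (2 ^ s * r) := by
  have h1 : 2 ^ s * r < 2 ^ (s + k) := by
    rw [pow_add]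
    exact Nat.mul_lt_mul_of_pos_left h (Nat.two_pow_pos s)
  have h2 := mul_add_xor 1 h1
  rw [mul_one] at h2
  rw [← h2, pow_add]
  ring

theorem lin_ind {P : ℕ → Prop} (h0 : P 0) {K : ℕ} (h : ∀ k < K, ∀ r < 2 ^ k, P r → P (2 ^ k + r)) : ∀ n < 2 ^ K, P n := by
  induction K with
  | zero =>
    intro n hn
    have : n = 0 := by simpa using hn
    rw [this]
    exact h0
  | succ K ih =>
    intro n hn
    have ih' := ih (fun k hk => h k (by omega))
    rcases Nat.lt_or_ge n (2 ^ K) with h1 | h1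
    · exact ih' n h1
    · obtain ⟨r, rfl⟩ := Nat.exists_eq_add_of_le h1
      rw [pow_succ] at hn
      exact h K (by omega) r (by omega) (ih' r (by omega))

theorem tb_lin (g : Mt) (T s K : ℕ) (h0 : tb T 0 = 0) (hb : ∀ k < K, g *ᵥ dec (2 ^ (s + k)) = dec (tb T (2 ^ k)))
    (hl : allLt K (fun k => allLt (2 ^ k) (fun r => Nat.beq (tb T (Nat.add (2 ^ k) r)) (Nat.xor (tb T (2 ^ k)) (tb T r)))) = true) :
    ∀ n < 2 ^ K, g *ᵥ dec (2 ^ s * n) = dec (tb T n) := by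
  refine lin_ind (P := fun n => g *ᵥ dec (2 ^ s * n) = dec (tb T n)) ?_ ?_
  · have hz : dec 0 = 0 := by
      funext z
      show k4 (Nat.shiftRight 0 _) = 0
      rw [sh_eq, Nat.zero_div]
      rfl
    show g *ᵥ dec (2 ^ s * 0) = dec (tb T 0)
    rw [h0, mul_zero, hz, Matrix.mulVec_zero]
  · intro k hk r hr ih
    have h1 := Nat.eq_of_beq_eq_true ((allLt_iff.1 ((allLt_iff.1 hl) k hk)) r hr)
    have h1' : tb T (2 ^ k + r) = Nat.xor (tb T (2 ^ k)) (tb T r) := h1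
    show g *ᵥ dec (2 ^ s * (2 ^ k + r)) = dec (tb T (2 ^ k + r))
    rw [h1', two_pow_add_xor s hr, dec_xor, dec_xor, Matrix.mulVec_add, ih, hb k hk]

theorem split (n : ℕ) : n = Nat.xor (2 ^ 8 * Nat.shiftRight n 8) (Nat.land n 255) := by
  have h1 : Nat.land n 255 = n % 2 ^ 8 := Nat.and_two_pow_sub_one_eq_mod n 8
  rw [h1, sh_eq, ← mul_add_xor _ (Nat.mod_lt _ (Nat.two_pow_pos 8))]
  exact (Nat.div_add_mod n (2 ^ 8)).symm

theorem split_lt {n : ℕ} (hn : n < 262144) : Nat.shiftRight n 8 < 2 ^ 10 ∧ Nat.land n 255 < 2 ^ 8 := by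
  have h1 : Nat.land n 255 = n % 2 ^ 8 := Nat.and_two_pow_sub_one_eq_mod n 8
  rw [h1, sh_eq]
  constructor <;> omega

theorem act_spec (g : Mt) (TH TL : ℕ) (hH : ∀ n < 2 ^ 10, g *ᵥ dec (2 ^ 8 * n) = dec (tb TH n))
    (hL : ∀ n < 2 ^ 8, g *ᵥ dec (2 ^ 0 * n) = dec (tb TL n)) (n : ℕ) (hn : n < 262144) :
    g *ᵥ dec n = dec (Nat.xor (tb TH (Nat.shiftRight n 8)) (tb TL (Nat.land n 255))) := by
  obtain ⟨h1, h2⟩ := split_lt hn
  conv_lhs => rw [split n]
  rw [dec_xor, dec_xor, Matrix.mulVec_add, hH _ h1, ← hL _ h2, pow_zero, one_mul]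

theorem tb_lt (T i : ℕ) : tb T i < 2 ^ 18 := by
  have h : tb T i ≤ 262143 := Nat.and_le_right
  omega

theorem ax_lt (n : ℕ) : ax n < 262144 := Nat.xor_lt_two_pow (n := 18) (tb_lt _ _) (tb_lt _ _)
theorem ay_lt (n : ℕ) : ay n < 262144 := Nat.xor_lt_two_pow (n := 18) (tb_lt _ _) (tb_lt _ _)


theorem bXH : ∀ k < 10, dc Xc *ᵥ dec (2 ^ (8 + k)) = dec (tb XH (2 ^ k)) := by decide +kernel
theorem bXL : ∀ k < 8, dc Xc *ᵥ dec (2 ^ (0 + k)) = dec (tb XL (2 ^ k)) := by decide +kernel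
theorem bYH : ∀ k < 10, dc Yc *ᵥ dec (2 ^ (8 + k)) = dec (tb YH (2 ^ k)) := by decide +kernel
theorem bYL : ∀ k < 8, dc Yc *ᵥ dec (2 ^ (0 + k)) = dec (tb YL (2 ^ k)) := by decide +kernel

theorem lXH : allLt 10 (fun k => allLt (2 ^ k) (fun r => Nat.beq (tb XH (Nat.add (2 ^ k) r)) (Nat.xor (tb XH (2 ^ k)) (tb XH r)))) = true := by
  decide +kernel
theorem lXL : allLt 8 (fun k => allLt (2 ^ k) (fun r => Nat.beq (tb XL (Nat.add (2 ^ k) r)) (Nat.xor (tb XL (2 ^ k)) (tb XL r)))) = true := by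
  decide +kernel
theorem lYH : allLt 10 (fun k => allLt (2 ^ k) (fun r => Nat.beq (tb YH (Nat.add (2 ^ k) r)) (Nat.xor (tb YH (2 ^ k)) (tb YH r)))) = true := by
  decide +kernel
theorem lYL : allLt 8 (fun k => allLt (2 ^ k) (fun r => Nat.beq (tb YL (Nat.add (2 ^ k) r)) (Nat.xor (tb YL (2 ^ k)) (tb YL r)))) = true := by
  decide +kernel

theorem ax_spec {n : ℕ} (hn : n < 262144) : (xG : Mt) *ᵥ dec n = dec (ax n) :=
  act_spec (dc Xc) XH XL (tb_lin _ XH 8 10 (by decide +kernel) bXH lXH) (tb_lin _ XL 0 8 (by decide +kernel) bXL lXL) n hn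

theorem ay_spec {n : ℕ} (hn : n < 262144) : (yG : Mt) *ᵥ dec n = dec (ay n) :=
  act_spec (dc Yc) YH YL (tb_lin _ YH 8 10 (by decide +kernel) bYH lYH) (tb_lin _ YL 0 8 (by decide +kernel) bYL lYL) n hn

/-! ### multiplication by `ω` -/

theorem dec_zero : dec 0 = 0 := by
  funext z
  show k4 (Nat.shiftRight 0 _) = 0
  rw [sh_eq, Nat.zero_div]
  rfl

theorem ao_xor (a b : ℕ) : ao (Nat.xor a b) = Nat.xor (ao a) (ao b) := by
  show ((a ^^^ b) &&& 174762) >>> 1 ^^^ (((a ^^^ b) &&& 87381) <<< 1 ^^^ ((a ^^^ b) &&& 174762)) =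
    ((a &&& 174762) >>> 1 ^^^ ((a &&& 87381) <<< 1 ^^^ (a &&& 174762))) ^^^
      ((b &&& 174762) >>> 1 ^^^ ((b &&& 87381) <<< 1 ^^^ (b &&& 174762)))
  rw [Nat.and_xor_distrib_right, Nat.and_xor_distrib_right, Nat.shiftRight_xor_distrib, Nat.shiftLeft_xor_distrib]
  generalize (a &&& 174762) >>> 1 = p
  generalize (b &&& 174762) >>> 1 = q
  generalize (a &&& 87381) <<< 1 = r
  generalize (b &&& 87381) <<< 1 = s
  generalize (a &&& 174762) = t
  generalize (b &&& 174762) = u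
  ac_rfl

theorem ao_base : ∀ k < 18, dec (ao (2 ^ k)) = om • dec (2 ^ k) := by decide +kernel

theorem ao_spec {n : ℕ} (hn : n < 262144) : dec (ao n) = om • dec n := by
  refine lin_ind (P := fun n => dec (ao n) = om • dec n) ?_ (K := 18) ?_ n hn
  · have : ao 0 = 0 := by decide
    rw [this, dec_zero, smul_zero]
  · intro k hk r hr ih
    have h1 : 2 ^ k + r = Nat.xor (2 ^ k) r := by
      have := two_pow_add_xor 0 hr
      simpa using this
    show dec (ao (2 ^ k + r)) = om • dec (2 ^ k + r)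
    rw [h1, ao_xor, dec_xor, dec_xor, ih, ao_base k hk, smul_add]

theorem ao_lt (n : ℕ) : ao n < 262144 := by
  have h1 : Nat.shiftRight (Nat.land n 174762) 1 < 2 ^ 18 := by
    have : Nat.land n 174762 ≤ 174762 := Nat.and_le_right
    rw [sh_eq]
    omega
  have h2 : Nat.shiftLeft (Nat.land n 87381) 1 < 2 ^ 18 := by
    have : Nat.land n 87381 ≤ 87381 := Nat.and_le_right
    have h3 : Nat.shiftLeft (Nat.land n 87381) 1 = Nat.land n 87381 * 2 ^ 1 := Nat.shiftLeft_eq _ _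
    rw [h3]
    omega
  have h3 : Nat.land n 174762 < 2 ^ 18 := by
    have : Nat.land n 174762 ≤ 174762 := Nat.and_le_right
    omega
  exact Nat.xor_lt_two_pow h1 (Nat.xor_lt_two_pow h2 h3)

/-! ### the form -/

/-- the sum of the cubes -/
def cs (v : V) : K4 := ∑ z, v z ^ 3

theorem cube_add : ∀ a b : K4, (a = 0 ∨ b = 0) → (a + b) ^ 3 = a ^ 3 + b ^ 3 := by decide

theorem cs_add (u v : V) (h : ∀ z, u z = 0 ∨ v z = 0) : cs (u + v) = cs u + cs v := by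
  unfold cs
  rw [← Finset.sum_add_distrib]
  exact Finset.sum_congr rfl fun z _ => cube_add _ _ (h z)

theorem dec_high (h : ℕ) {k : ℕ} (hk : k < 4) : k4 (Nat.shiftRight (2 ^ 8 * h) (Nat.mul 2 k)) = 0 := by
  apply k4_eq
  show _ = 0
  rw [sh_eq]
  interval_cases k
  · show 2 ^ 8 * h / 1 % 4 = 0
    omega
  · show 2 ^ 8 * h / 4 % 4 = 0
    omega
  · show 2 ^ 8 * h / 16 % 4 = 0
    omega
  · show 2 ^ 8 * h / 64 % 4 = 0
    omega

theorem dec_low {l : ℕ} (hl : l < 2 ^ 8) {k : ℕ} (hk : ¬ k < 4) : k4 (Nat.shiftRight l (Nat.mul 2 k)) = 0 := by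
  apply k4_eq
  show _ = 0
  rw [sh_eq]
  have h1 : l / 2 ^ Nat.mul 2 k = 0 := by
    apply Nat.div_eq_of_lt
    refine lt_of_lt_of_le hl (Nat.pow_le_pow_right (by norm_num) ?_)
    show 8 ≤ 2 * k
    omega
  rw [h1]

theorem wH : ∀ h < 1024, cs (dec (2 ^ 8 * h)) = ((Nat.land (Nat.shiftRight WP h) 1 : ℕ) : K4) := by decide +kernel
theorem wL : ∀ h < 256, cs (dec h) = ((Nat.land (Nat.shiftRight WP h) 1 : ℕ) : K4) := by decide +kernel


theorem wp_lt (n : ℕ) : wp n < 2 := by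
  have h1 : ∀ m : ℕ, Nat.land m 1 < 2 ^ 1 := fun m => by
    have : Nat.land m 1 ≤ 1 := Nat.and_le_right
    omega
  exact Nat.xor_lt_two_pow (n := 1) (h1 _) (h1 _)

theorem xor_bits {a b : ℕ} (ha : a < 2) (hb : b < 2) : (a : K4) + (b : K4) = ((Nat.xor a b : ℕ) : K4) := by
  interval_cases a <;> interval_cases b <;> decide

theorem wp_spec {n : ℕ} (hn : n < 262144) : cs (dec n) = ((wp n : ℕ) : K4) := by
  obtain ⟨h1, h2⟩ := split_lt hn
  have hb : ∀ m : ℕ, Nat.land m 1 < 2 := fun m => by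
    have : Nat.land m 1 ≤ 1 := Nat.and_le_right
    omega
  conv_lhs => rw [split n]
  rw [dec_xor, cs_add, wH _ h1, wL _ h2, xor_bits (hb _) (hb _)]
  · rfl
  · intro z
    by_cases hz : xn z < 4
    · exact Or.inl (dec_high _ hz)
    · exact Or.inr (dec_low h2 hz)

/-! ### the checks -/

theorem chunk_all : ∀ c < 16, chunk c = true := by
  intro c hc
  interval_cases c
  · exact chunk_0
  · exact chunk_1
  · exact chunk_2
  · exact chunk_3
  · exact chunk_4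
  · exact chunk_5
  · exact chunk_6
  · exact chunk_7
  · exact chunk_8
  · exact chunk_9
  · exact chunk_10
  · exact chunk_11
  · exact chunk_12
  · exact chunk_13
  · exact chunk_14
  · exact chunk_15

theorem chk_all {n : ℕ} (hn : n < 262144) : chk n = true := by
  have h1 := (allLt_iff.1 (chunk_all (n / 16384) (by omega))) (n % 16384) (Nat.mod_lt _ (by norm_num))
  have h2 : Nat.add (Nat.mul 16384 (n / 16384)) (n % 16384) = n := Nat.div_add_mod n 16384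
  rw [h2] at h1
  exact h1

theorem land_one (n : ℕ) : Nat.land n 1 = n % 2 := Nat.and_one_is_mod n

theorem cond_true_iff {a b c : Bool} : (cond a b c = true) ↔ (a = true ∧ b = true) ∨ (a = false ∧ c = true) := by
  cases a <;> simp

theorem xor_par {a b : ℕ} (h : Nat.land (Nat.xor a b) 1 = 0) : a % 2 = b % 2 := by
  rw [land_one] at h
  have h1 : (Nat.xor a b) % 2 ^ 1 = Nat.xor (a % 2 ^ 1) (b % 2 ^ 1) := Nat.xor_mod_two_pow
  rw [pow_one, h] at h1
  have h2 : a % 2 < 2 := Nat.mod_lt _ (by norm_num)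
  have h3 : b % 2 < 2 := Nat.mod_lt _ (by norm_num)
  generalize a % 2 = x at *
  generalize b % 2 = y at *
  interval_cases x <;> interval_cases y <;> first | rfl | exact absurd h1 (by decide)

theorem chk_zero {n : ℕ} (hn : n < 262144) (h : lb n = 0) : n = 0 ∨ wp n = 1 := by
  have h1 := chk_all hn
  unfold chk at h1
  rw [force_eq, h] at h1
  have h2 : cond (Nat.beq n 0) true (Nat.beq (wp n) 1) = true := h1
  rcases cond_true_iff.1 h2 with ⟨h3, -⟩ | ⟨-, h3⟩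
  · exact Or.inl (Nat.eq_of_beq_eq_true h3)
  · exact Or.inr (Nat.eq_of_beq_eq_true h3)

theorem chk_pos {n : ℕ} (hn : n < 262144) (h : lb n ≠ 0) : wp n = lb n % 2 ∧ 2 ≤ lb (ax n) ∧ 2 ≤ lb (ay n) ∧
    lb (ax n) % 2 = lb n % 2 ∧ lb (ay n) % 2 = lb n % 2 ∧
    (lb (ax n) < lb n ∨ lb (ay n) < lb n ∨ (lb n = 2 ∧ n = 5) ∨ (lb n = 3 ∧ n = 1)) := by
  have h1 := chk_all hn
  unfold chk at h1
  rw [force_eq] at h1
  have h0 : Nat.beq (lb n) 0 = false := by
    rw [Bool.eq_false_iff]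
    intro hc
    exact h (Nat.eq_of_beq_eq_true hc)
  rw [h0] at h1
  have h2 : cond (Nat.beq (wp n) (Nat.land (lb n) 1))
      (force (lb (ax n)) fun p => force (lb (ay n)) fun q =>
        cond (Nat.ble 2 p) (cond (Nat.ble 2 q) (cond (Nat.beq (Nat.land (Nat.xor p (lb n)) 1) 0)
          (cond (Nat.beq (Nat.land (Nat.xor q (lb n)) 1) 0)
          (cond (Nat.blt p (lb n)) true (cond (Nat.blt q (lb n)) true
            (cond (Nat.beq (lb n) 2) (Nat.beq n 5) (cond (Nat.beq (lb n) 3) (Nat.beq n 1) false))))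
          false) false) false) false) false = true := h1
  rw [cond_and, force_eq, force_eq, cond_and, cond_and, cond_and, cond_and] at h2
  obtain ⟨a1, a2, a3, a4, a5, a6⟩ := h2
  refine ⟨?_, Nat.le_of_ble_eq_true a2, Nat.le_of_ble_eq_true a3, xor_par (Nat.eq_of_beq_eq_true a4),
    xor_par (Nat.eq_of_beq_eq_true a5), ?_⟩
  · rw [Nat.eq_of_beq_eq_true a1, land_one]
  · rcases cond_true_iff.1 a6 with ⟨a7, -⟩ | ⟨-, a7⟩
    · exact Or.inl (Nat.le_of_ble_eq_true a7)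
    rcases cond_true_iff.1 a7 with ⟨a8, -⟩ | ⟨-, a8⟩
    · exact Or.inr (Or.inl (Nat.le_of_ble_eq_true a8))
    rcases cond_true_iff.1 a8 with ⟨a9, b9⟩ | ⟨-, a9⟩
    · exact Or.inr (Or.inr (Or.inl ⟨Nat.eq_of_beq_eq_true a9, Nat.eq_of_beq_eq_true b9⟩))
    rw [cond_and] at a9
    exact Or.inr (Or.inr (Or.inr ⟨Nat.eq_of_beq_eq_true a9.1, Nat.eq_of_beq_eq_true a9.2⟩))

/-! ### orbits -/

theorem mv_mul (g h : GLM) (v : V) : ((g * h : GLM) : Mt) *ᵥ v = (g : Mt) *ᵥ ((h : Mt) *ᵥ v) := by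
  rw [Units.val_mul, Matrix.mulVec_mulVec]

/-- the base points -/
def bs (l : ℕ) : ℕ := if l % 2 = 0 then 5 else 1

theorem reach : ∀ l : ℕ, ∀ n < 262144, lb n = l → l ≠ 0 → ∃ g ∈ H, (g : Mt) *ᵥ dec n = dec (bs l) := by
  intro l
  induction l using Nat.strong_induction_on with
  | _ l ih =>
    intro n hn hl hl0
    have hn0 : lb n ≠ 0 := by rw [hl]; exact hl0
    obtain ⟨-, h2, h3, h4, h5, h6⟩ := chk_pos hn hn0
    rcases h6 with h6 | h6 | ⟨h6, h7⟩ | ⟨h6, h7⟩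
    · obtain ⟨g, hg, hg2⟩ := ih (lb (ax n)) (by rw [← hl]; exact h6) (ax n) (ax_lt n) rfl (by omega)
      refine ⟨g * xG, mul_mem hg x_mem, ?_⟩
      rw [mv_mul, ax_spec hn, hg2, bs, bs, h4, hl]
    · obtain ⟨g, hg, hg2⟩ := ih (lb (ay n)) (by rw [← hl]; exact h6) (ay n) (ay_lt n) rfl (by omega)
      refine ⟨g * yG, mul_mem hg y_mem, ?_⟩
      rw [mv_mul, ay_spec hn, hg2, bs, bs, h5, hl]
    · refine ⟨1, one_mem _, ?_⟩
      rw [Units.val_one, Matrix.one_mulVec, bs, ← hl, h6, h7]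
      rfl
    · refine ⟨1, one_mem _, ?_⟩
      rw [Units.val_one, Matrix.one_mulVec, bs, ← hl, h6, h7]
      rfl

/-- closed sets -/
def Cl (g : GLM) : Prop := ∀ n < 262144, lb n ≠ 0 → ∃ m < 262144, lb m ≠ 0 ∧ lb m % 2 = lb n % 2 ∧ (g : Mt) *ᵥ dec n = dec m

theorem Cl_one : Cl 1 := fun n hn h => ⟨n, hn, h, rfl, by rw [Units.val_one, Matrix.one_mulVec]⟩

theorem Cl_mul {g h : GLM} (hg : Cl g) (hh : Cl h) : Cl (g * h) := by
  intro n hn h0
  obtain ⟨m, hm, m0, m1, m2⟩ := hh n hn h0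
  obtain ⟨k, hk, k0, k1, k2⟩ := hg m hm m0
  exact ⟨k, hk, k0, k1.trans m1, by rw [mv_mul, m2, k2]⟩

theorem Cl_pow {g : GLM} (hg : Cl g) (k : ℕ) : Cl (g ^ k) := by
  induction k with
  | zero => rw [pow_zero]; exact Cl_one
  | succ k ih => rw [pow_succ]; exact Cl_mul ih hg

theorem Cl_inv {g : GLM} (hg : Cl g) : Cl g⁻¹ := by
  obtain ⟨m, hm, hm2⟩ := isOfFinOrder_iff_pow_eq_one.1 (isOfFinOrder_of_finite g)
  have : g⁻¹ = g ^ (m - 1) := inv_eq_of_mul_eq_one_right (by rw [← pow_succ', Nat.sub_add_cancel hm, hm2])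
  rw [this]
  exact Cl_pow hg _

theorem Cl_H {g : GLM} (hg : g ∈ H) : Cl g := by
  refine Subgroup.closure_induction (p := fun g _ => Cl g) ?_ Cl_one (fun _ _ _ _ => Cl_mul) (fun _ _ => Cl_inv) hg
  rintro g (rfl | rfl)
  · intro n hn h0
    obtain ⟨-, h2, h3, h4, h5, -⟩ := chk_pos hn h0
    exact ⟨ax n, ax_lt n, by omega, h4, ax_spec hn⟩
  · intro n hn h0
    obtain ⟨-, h2, h3, h4, h5, -⟩ := chk_pos hn h0
    exact ⟨ay n, ay_lt n, by omega, h5, ay_spec hn⟩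

theorem lb_ao {n : ℕ} (hn : n < 262144) (h : lb n ≠ 0) : lb (ao n) ≠ 0 ∧ lb (ao n) % 2 = lb n % 2 := by
  obtain ⟨m, hm, m0, m1, m2⟩ := Cl_H o_mem n hn h
  have h1 : (oG : Mt) *ᵥ dec n = dec (ao n) := by
    rw [o_val, Matrix.smul_mulVec, Matrix.one_mulVec, ao_spec hn]
  rw [h1] at m2
  rw [dec_inj (ao_lt n) hm m2]
  exact ⟨m0, m1⟩

theorem isoLabel {n : ℕ} (hn : n < 262144) (h0 : n ≠ 0) (h : cs (dec n) = 0) : lb n ≠ 0 ∧ lb n % 2 = 0 := by
  rw [wp_spec hn] at h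
  have h1 : wp n = 0 := by
    have h2 := wp_lt n
    generalize wp n = a at *
    interval_cases a
    · rfl
    · exact absurd h (by decide)
  have h3 : lb n ≠ 0 := by
    intro hc
    rcases chk_zero hn hc with h4 | h4
    · exact h0 h4
    · omega
  exact ⟨h3, by rw [← (chk_pos hn h3).1, h1]⟩

/-- isotropic vectors form one orbit -/
theorem iso_orbit {v w : V} (hv : v ≠ 0) (hw : w ≠ 0) (hv2 : cs v = 0) (hw2 : cs w = 0) : ∃ g ∈ H, (g : Mt) *ᵥ v = w := by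
  have key : ∀ u : V, u ≠ 0 → cs u = 0 → ∃ g ∈ H, (g : Mt) *ᵥ u = dec 5 := by
    intro u hu hu2
    have h1 : enc u ≠ 0 := by
      intro hc
      apply hu
      rw [← dec_enc u, hc, dec_zero]
    obtain ⟨h2, h3⟩ := isoLabel (enc_lt u) h1 (by rw [dec_enc]; exact hu2)
    obtain ⟨g, hg, hg2⟩ := reach _ (enc u) (enc_lt u) rfl h2
    rw [dec_enc, bs, if_pos h3] at hg2
    exact ⟨g, hg, hg2⟩
  obtain ⟨g, hg, hg2⟩ := key v hv hv2
  obtain ⟨h, hh, hh2⟩ := key w hw hw2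
  refine ⟨h⁻¹ * g, mul_mem (inv_mem hh) hg, ?_⟩
  rw [mv_mul, hg2, ← hh2, ← mv_mul, inv_mul_cancel, Units.val_one, Matrix.one_mulVec]

/-- representatives of the lines in the orbit of the first basis vector -/
noncomputable def Rep (n : ℕ) : Prop := n < 262144 ∧ cntF n = true

theorem cntF_iff (n : ℕ) : cntF n = true ↔ lb n % 2 = 1 ∧ n ≤ ao n ∧ n ≤ ao (ao n) := by
  unfold cntF
  rw [force_eq, cond_and, force_eq, cond_and, land_one]
  constructor
  · rintro ⟨a, b, c⟩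
    exact ⟨Nat.eq_of_beq_eq_true a, Nat.le_of_ble_eq_true b, Nat.le_of_ble_eq_true c⟩
  · rintro ⟨a, b, c⟩
    exact ⟨by rw [a]; rfl, Nat.ble_eq_true_of_le b, Nat.ble_eq_true_of_le c⟩

/-- every vector of the first orbit -/
theorem orbit_one {g : GLM} (hg : g ∈ H) : ∃ n < 262144, lb n % 2 = 1 ∧ (g : Mt) *ᵥ dec 1 = dec n := by
  have h1 : lb 1 = 3 := by
    have : Nat.beq (lb 1) 3 = true := by decide +kernel
    exact Nat.eq_of_beq_eq_true this
  obtain ⟨m, hm, m0, m1, m2⟩ := Cl_H hg 1 (by norm_num) (by omega)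
  exact ⟨m, hm, by omega, m2⟩

theorem one_orbit {n : ℕ} (hn : n < 262144) (h : lb n % 2 = 1) : ∃ g ∈ H, (g : Mt) *ᵥ dec 1 = dec n := by
  obtain ⟨g, hg, hg2⟩ := reach _ n hn rfl (by omega)
  rw [bs, if_neg (by omega)] at hg2
  refine ⟨g⁻¹, inv_mem hg, ?_⟩
  rw [← hg2, ← mv_mul, inv_mul_cancel, Units.val_one, Matrix.one_mulVec]

theorem ao_cube {n : ℕ} (hn : n < 262144) : ao (ao (ao n)) = n := by
  apply dec_inj (ao_lt _) hn
  rw [ao_spec (ao_lt _), ao_spec (ao_lt _), ao_spec hn, smul_smul, smul_smul]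
  have : om * (om * om) = 1 := by decide
  rw [mul_assoc] at *
  rw [this, one_smul]

/-- scalar multiples -/
theorem scal {n m : ℕ} (hn : n < 262144) (hm : m < 262144) {c : K4} (hc : c ≠ 0) (h : c • dec n = dec m) :
    m = n ∨ m = ao n ∨ m = ao (ao n) := by
  have key : ∀ c : K4, c ≠ 0 → c = 1 ∨ c = om ∨ c = om * om := by decide
  rcases key c hc with rfl | rfl | rfl
  · rw [one_smul] at h
    exact Or.inl (dec_inj hm hn h.symm)
  · rw [← ao_spec hn] at h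
    exact Or.inr (Or.inl (dec_inj hm (ao_lt _) h.symm))
  · rw [← smul_smul, ← ao_spec hn, ← ao_spec (ao_lt _)] at h
    exact Or.inr (Or.inr (dec_inj hm (ao_lt _) h.symm))

theorem rep_inj {n m : ℕ} (hn : Rep n) (hm : Rep m) {c : K4} (hc : c ≠ 0) (h : c • dec n = dec m) : n = m := by
  obtain ⟨-, n1, n2⟩ := (cntF_iff n).1 hn.2
  obtain ⟨-, m1, m2⟩ := (cntF_iff m).1 hm.2
  have h1 := scal hn.1 hm.1 hc h
  have h2 : c⁻¹ • dec m = dec n := by rw [← h, smul_smul, inv_mul_cancel₀ hc, one_smul]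
  have h3 := scal hm.1 hn.1 (inv_ne_zero hc) h2
  omega

/-- every vector of the first orbit has a multiple which is a representative -/
theorem exists_rep {n : ℕ} (hn : n < 262144) (h : lb n % 2 = 1) : ∃ m, Rep m ∧ ∃ c : K4, c ≠ 0 ∧ c • dec n = dec m := by
  have h0 : lb n ≠ 0 := by omega
  have a1 := lb_ao hn h0
  have a2 := lb_ao (ao_lt n) a1.1
  have c3 := ao_cube hn
  have o1 : om ≠ 0 := by decide
  have e1 : om • dec n = dec (ao n) := (ao_spec hn).symm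
  have e2 : (om * om) • dec n = dec (ao (ao n)) := by
    rw [← smul_smul, ← ao_spec hn, ← ao_spec (ao_lt _)]
  by_cases b1 : n ≤ ao n ∧ n ≤ ao (ao n)
  · exact ⟨n, ⟨hn, (cntF_iff n).2 ⟨h, b1⟩⟩, 1, one_ne_zero, one_smul _ _⟩
  by_cases b2 : ao n ≤ ao (ao n) ∧ ao n ≤ n
  · refine ⟨ao n, ⟨ao_lt n, (cntF_iff _).2 ⟨by omega, b2.1, ?_⟩⟩, om, o1, e1⟩
    rw [c3]
    exact b2.2
  · refine ⟨ao (ao n), ⟨ao_lt _, (cntF_iff _).2 ⟨by omega, ?_, ?_⟩⟩, om * om, mul_ne_zero o1 o1, e2⟩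
    · rw [c3]
      omega
    · rw [c3]
      omega

/-! ### counting -/

theorem sumLt_eq (k : ℕ) (g : ℕ → ℕ) : sumLt k g = ∑ i ∈ Finset.range k, g i := by
  induction k with
  | zero => rfl
  | succ k ih =>
    rw [Finset.sum_range_succ, ← ih]
    rfl

theorem sum_block (a b : ℕ) (g : ℕ → ℕ) : ∑ n ∈ Finset.range (a * b), g n =
    ∑ i ∈ Finset.range a, ∑ j ∈ Finset.range b, g (b * i + j) := by
  induction a with
  | zero => simp
  | succ a ih =>
    rw [Finset.sum_range_succ, ← ih, Nat.succ_mul, Finset.sum_range_add, mul_comm b a]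

theorem cnt_eq (c : ℕ) : cnt c = ∑ i ∈ Finset.range 16384, (if cntF (16384 * c + i) = true then 1 else 0) := by
  have h1 := sum_block 128 128 (fun i => if cntF (16384 * c + i) = true then 1 else 0)
  have h2 : 128 * 128 = 16384 := by norm_num
  rw [h2] at h1
  rw [h1]
  unfold cnt
  rw [sumLt_eq]
  refine Finset.sum_congr rfl fun i _ => ?_
  rw [sumLt_eq]
  refine Finset.sum_congr rfl fun j _ => ?_
  show cond (cntF (16384 * c + (128 * i + j))) 1 0 = _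
  cases cntF (16384 * c + (128 * i + j)) <;> rfl

theorem card_rep : ((Finset.range 262144).filter fun n => cntF n = true).card = 23256 := by
  rw [Finset.card_filter]
  have h1 := sum_block 16 16384 (fun n => if cntF n = true then 1 else 0)
  have h2 : 16 * 16384 = 262144 := by norm_num
  rw [h2] at h1
  rw [h1]
  simp only [← cnt_eq]
  simp only [Finset.sum_range_succ, Finset.sum_range_zero]
  rw [Nat.eq_of_beq_eq_true cnt_0, Nat.eq_of_beq_eq_true cnt_1, Nat.eq_of_beq_eq_true cnt_2, Nat.eq_of_beq_eq_true cnt_3,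
    Nat.eq_of_beq_eq_true cnt_4, Nat.eq_of_beq_eq_true cnt_5, Nat.eq_of_beq_eq_true cnt_6, Nat.eq_of_beq_eq_true cnt_7,
    Nat.eq_of_beq_eq_true cnt_8, Nat.eq_of_beq_eq_true cnt_9, Nat.eq_of_beq_eq_true cnt_10, Nat.eq_of_beq_eq_true cnt_11,
    Nat.eq_of_beq_eq_true cnt_12, Nat.eq_of_beq_eq_true cnt_13, Nat.eq_of_beq_eq_true cnt_14, Nat.eq_of_beq_eq_true cnt_15]

end Cfsg.Agent.Lib.JThreeOrb
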