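import Cfsg.Agent.Lib.JThreeOrbTab

/-!
Kernel checks for the orbits of `3·J₃` (part A).
-/

set_option autoImplicit false

namespace Cfsg.Agent.Lib.JThreeOrb

theorem chunk_0 : chunk 0 = true := by decide +kernel
theorem chunk_1 : chunk 1 = true := by decide +kernel
theorem chunk_2 : chunk 2 = true := by decide +kernel
theorem chunk_3 : chunk 3 = true := by decide +kernel
theorem chunk_4 : chunk 4 = true := by decide +kernel
theorem chunk_5 : chunk 5 = true := by decide +kernel
theorem chunk_6 : chunk 6 = true := by decide +kernel
theorem chunk_7 : chunk 7 = true := by decide +kernel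

end Cfsg.Agent.Lib.JThreeOrb
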