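import Cfsg.Agent.Lib.JThreePerm

/-!
The subgroup of index 12312 of `J₃`.
-/

set_option autoImplicit false

namespace Cfsg.Agent.Lib.JThree

open Cfsg Cfsg.Agent.Lib.K4 Cfsg.Agent.Lib.F4Pack Cfsg.Agent.Lib.NatTree
open Cfsg.Agent.Lib.Golay (allLt allLt_iff)

/-- parities of the representatives -/
def PV : ℕ := 0x4ac51f74886fb402fea1c
def PW : ℕ := 0x5fe02ffa807affa402b576bed200b6eba8d6e85b9d3a8c5ba3d2316e8e2dd19d1a334
def pvb (j : ℕ) : Bool := Nat.testBit PV j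
def pwb (k : ℕ) : Bool := Nat.testBit PW k

/-! ### uniqueness of the normal form -/

theorem S1_unique {j k j' k' : ℕ} (hj : j < 85) (hk : k < 288) (hj' : j' < 85) (hk' : k' < 288)
    (h : mu (vt j) (wt k) = mu (vt j') (wt k')) : j = j' ∧ k = k' := by
  classical
  have hex : ∀ t : Fin 85 × Fin 288, ∃ b : BW, cd b.1.1 = mu (vt t.1) (wt t.2) := by
    rintro ⟨a, b⟩
    obtain ⟨g, hg, hcd⟩ := inH_mul (inH_v a a.2) (inH_w b b.2)
    refine ⟨⟨⟨g, hg⟩, ?_⟩, hcd⟩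
    rw [mem_BW]
    show InS1 (cd g)
    rw [hcd]
    exact ⟨a, a.2, b, b.2, rfl⟩
  choose F hF using hex
  have hfin : Finite BW := Nat.finite_of_card_ne_zero (by rw [card_index.1]; norm_num)
  have _ := Fintype.ofFinite BW
  have hsurj : Function.Surjective F := by
    intro b
    obtain ⟨a, ha, c, hc, h1⟩ := mem_BW.1 b.2
    refine ⟨(⟨a, ha⟩, ⟨c, hc⟩), ?_⟩
    apply Subtype.ext
    apply Subtype.ext
    apply cd_inj
    rw [hF, h1]
  have hbij : Function.Bijective F := by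
    rw [Fintype.bijective_iff_surjective_and_card]
    refine ⟨hsurj, ?_⟩
    rw [← Nat.card_eq_fintype_card (α := BW), card_index.1, Fintype.card_prod, Fintype.card_fin, Fintype.card_fin]
  have h1 : F (⟨j, hj⟩, ⟨k, hk⟩) = F (⟨j', hj'⟩, ⟨k', hk'⟩) := by
    apply Subtype.ext
    apply Subtype.ext
    apply cd_inj
    rw [hF, hF, h]
  have h2 := hbij.1 h1
  rw [Prod.mk.injEq, Fin.mk.injEq, Fin.mk.injEq] at h2
  exact h2

theorem w_inj {k k' : ℕ} (hk : k < 288) (hk' : k' < 288) (h : wt k = wt k') : k = k' :=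
  (S1_unique (j := 0) (j' := 0) (by norm_num) hk (by norm_num) hk' (by rw [h])).2

/-! ### parity on the third level -/

theorem parW : allLt 288 (fun k => cond (Bool.xor (pwb (cg c1T k)) (pwb k)) false
    (cond (Bool.xor (pwb (cg c2T k)) (pwb k)) true false)) = true := by decide +kernel

theorem parW1 {k : ℕ} (hk : k < 288) : pwb (cg c1T k) = pwb k := by
  have h := (allLt_iff.1 parW) k hk
  revert h
  cases pwb (cg c1T k) <;> cases pwb k <;> cases pwb (cg c2T k) <;> decide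

theorem parW2 {k : ℕ} (hk : k < 288) : pwb (cg c2T k) = Bool.xor true (pwb k) := by
  have h := (allLt_iff.1 parW) k hk
  revert h
  cases pwb (cg c1T k) <;> cases pwb k <;> cases pwb (cg c2T k) <;> decide

theorem pw0 : pwb 0 = false := by decide +kernel
theorem pw1 : pwb 1 = false := by decide +kernel
theorem pw2 : pwb 2 = true := by decide +kernel
theorem pv0 : pvb 0 = false := by decide +kernel

theorem w_par_ex : ∀ a < 288, ∃ ε, ∀ b < 288, ∃ c < 288, mu (wt a) (wt b) = wt c ∧ pwb c = Bool.xor ε (pwb b) := by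
  refine w_ind (p := fun s => ∃ ε, ∀ b < 288, ∃ c < 288, mu s (wt b) = wt c ∧ pwb c = Bool.xor ε (pwb b)) ?_ ?_ ?_
  · exact ⟨false, fun b hb => ⟨b, hb, mu_Ic_left (good_w hb), by simp⟩⟩
  · rintro k hk ⟨ε, h⟩
    refine ⟨ε, fun b hb => ?_⟩
    obtain ⟨c, hc, h1, h2⟩ := h b hb
    refine ⟨_, (step_w1 hc).1, ?_, ?_⟩
    · rw [mu_assoc (good_w (by norm_num)) (good_w hk) (good_w hb), h1, (step_w1 hc).2]
    · rw [parW1 hc, h2]
  · rintro k hk ⟨ε, h⟩
    refine ⟨Bool.xor true ε, fun b hb => ?_⟩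
    obtain ⟨c, hc, h1, h2⟩ := h b hb
    refine ⟨_, (step_w2 hc).1, ?_, ?_⟩
    · rw [mu_assoc (good_w (by norm_num)) (good_w hk) (good_w hb), h1, (step_w2 hc).2]
    · rw [parW2 hc, h2]; simp

theorem w_par {a b : ℕ} (ha : a < 288) (hb : b < 288) :
    ∃ c < 288, mu (wt a) (wt b) = wt c ∧ pwb c = Bool.xor (pwb a) (pwb b) := by
  obtain ⟨ε, h⟩ := w_par_ex a ha
  obtain ⟨c, hc, h1, h2⟩ := h b hb
  obtain ⟨c', hc', h1', h2'⟩ := h 0 (by norm_num)
  rw [w_zero, mu_Ic_right (good_w ha)] at h1'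
  have h3 := w_inj ha hc' h1'
  rw [pw0, Bool.xor_false] at h2'
  refine ⟨c, hc, h1, ?_⟩
  rw [h2, ← h2', ← h3]

/-! ### parity on the second level -/

/-- codes with a parity -/
def Par (c : ℕ) (ε : Bool) : Prop := ∃ j < 85, ∃ k < 288, c = mu (vt j) (wt k) ∧ Bool.xor (pvb j) (pwb k) = ε

theorem Par_S1 {c : ℕ} {ε : Bool} (h : Par c ε) : InS1 c := by
  obtain ⟨j, hj, k, hk, h1, -⟩ := h
  exact ⟨j, hj, k, hk, h1⟩

theorem Par_ex {c : ℕ} (h : InS1 c) : ∃ ε, Par c ε := by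
  obtain ⟨j, hj, k, hk, h1⟩ := h
  exact ⟨_, j, hj, k, hk, h1, rfl⟩

theorem Par_unique {c : ℕ} {ε δ : Bool} (h : Par c ε) (h' : Par c δ) : ε = δ := by
  obtain ⟨j, hj, k, hk, h1, h2⟩ := h
  obtain ⟨j', hj', k', hk', h1', h2'⟩ := h'
  obtain ⟨e1, e2⟩ := S1_unique hj hk hj' hk' (h1.symm.trans h1')
  rw [← h2, ← h2', e1, e2]

theorem Par_I : Par Ic false :=
  ⟨0, by norm_num, 0, by norm_num, by rw [v_zero, w_zero, mu_Ic_left good_I], by rw [pv0, pw0]; rfl⟩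

/-- left multiplication has a parity -/
def LPp (c : ℕ) (ε : Bool) : Prop := Good c ∧ ∀ s q, Par s q → Par (mu c s) (Bool.xor ε q)

theorem LPp_mul {a b : ℕ} {ε δ : Bool} (ha : LPp a ε) (hb : LPp b δ) : LPp (mu a b) (Bool.xor ε δ) := by
  refine ⟨good_mu ha.1 hb.1, fun s q hs => ?_⟩
  rw [mu_assoc ha.1 hb.1 (good_S1 (Par_S1 hs)), Bool.xor_assoc]
  exact ha.2 _ _ (hb.2 _ _ hs)

theorem LPp_I : LPp Ic false := ⟨good_I, fun s q hs => by rwa [mu_Ic_left (good_S1 (Par_S1 hs)), Bool.false_xor]⟩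

/-- check of the parities of a step table -/
def parV (T : ℕ) (ε : Bool) (j : ℕ) : Bool :=
  cond (Bool.xor (Bool.xor (pvb (Nat.land (bg T j) 127)) (pwb (Nat.shiftRight (bg T j) 7))) (Bool.xor ε (pvb j))) false true

theorem parV1 : allLt 85 (parV b1T false) = true := by decide +kernel
theorem parV2 : allLt 85 (parV b2T true) = true := by decide +kernel
theorem parV3 : allLt 85 (parV b3T false) = true := by decide +kernel
theorem parV4 : allLt 85 (parV b4T true) = true := by decide +kernel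

theorem LPp_of_step {T g : ℕ} {ε : Bool} (hg : Good g)
    (h : allLt 85 (fun j => force (bg T j) fun e => stepV g j e) = true) (hp : allLt 85 (parV T ε) = true) : LPp g ε := by
  refine ⟨hg, ?_⟩
  rintro s q ⟨j, hj, k, hk, rfl, hq⟩
  obtain ⟨h1, h2, h3⟩ := step_v h hj
  obtain ⟨c, hc, hc2, hc3⟩ := w_par h2 hk
  refine ⟨_, h1, c, hc, ?_, ?_⟩
  · rw [← mu_assoc hg (good_v hj) (good_w hk), h3, mu_assoc (good_v h1) (good_w h2) (good_w hk), hc2]
  · have h4 := (allLt_iff.1 hp) j hj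
    unfold parV at h4
    rw [hc3, ← hq]
    revert h4
    generalize pvb (Nat.land (bg T j) 127) = a
    generalize pwb (Nat.shiftRight (bg T j) 7) = b
    generalize pvb j = c
    generalize pwb k = d
    cases a <;> cases b <;> cases c <;> cases d <;> cases ε <;> decide

theorem LPp_h1 : LPp H1c false := LPp_of_step (good_of_ok H1c_ok) stepV1 parV1
theorem LPp_h2 : LPp H2c true := LPp_of_step (good_of_ok H2c_ok) stepV2 parV2
theorem LPp_w1 : LPp (wt 1) false := LPp_of_step (good_w (by norm_num)) stepV3 parV3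
theorem LPp_w2 : LPp (wt 2) true := LPp_of_step (good_w (by norm_num)) stepV4 parV4

theorem LPp_w_ex : ∀ k < 288, ∃ ε, LPp (wt k) ε :=
  w_ind (p := fun c => ∃ ε, LPp c ε) ⟨_, LPp_I⟩ (fun _ _ ⟨_, h⟩ => ⟨_, LPp_mul LPp_w1 h⟩) (fun _ _ ⟨_, h⟩ => ⟨_, LPp_mul LPp_w2 h⟩)

theorem LPp_v_ex : ∀ j < 85, ∃ ε, LPp (vt j) ε :=
  v_ind (p := fun c => ∃ ε, LPp c ε) ⟨_, LPp_I⟩ (fun _ _ ⟨_, h⟩ => ⟨_, LPp_mul LPp_h1 h⟩) (fun _ _ ⟨_, h⟩ => ⟨_, LPp_mul LPp_h2 h⟩)

theorem LPp_self {c : ℕ} {ε δ : Bool} (h : LPp c ε) (h' : Par c δ) : LPp c δ := by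
  have h1 := h.2 _ _ Par_I
  rw [mu_Ic_right h.1, Bool.xor_false] at h1
  rwa [Par_unique h' h1]

theorem LPp_of_Par {c : ℕ} {ε : Bool} (h : Par c ε) : LPp c ε := by
  have h0 := h
  obtain ⟨j, hj, k, hk, rfl, h1⟩ := h
  obtain ⟨a, ha⟩ := LPp_v_ex j hj
  obtain ⟨b, hb⟩ := LPp_w_ex k hk
  exact LPp_self (LPp_mul ha hb) h0

theorem Par_mul {a b : ℕ} {ε δ : Bool} (ha : Par a ε) (hb : Par b δ) : Par (mu a b) (Bool.xor ε δ) :=
  (LPp_of_Par ha).2 _ _ hb

end Cfsg.Agent.Lib.JThree
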