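import Cfsg.Agent.Lib.JThreeSMd

/-!
The action of `J₃` on the 12312 cosets of a subgroup of order 4080.
-/

set_option autoImplicit false

namespace Cfsg.Agent.Lib.JThree

open Cfsg Cfsg.Agent.Lib.K4 Cfsg.Agent.Lib.F4Pack Cfsg.Agent.Lib.NatTree
open Cfsg.Agent.Lib.Golay (allLt allLt_iff)

/-- the subgroup of elements of even parity -/
def BW2 : Subgroup W where
  carrier := {w | Par (cd w.1) false}
  mul_mem' {a b} ha hb := by
    show Par (cd (a * b).1) false
    rw [Subgroup.coe_mul, cd_mul]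
    exact Par_mul ha hb
  one_mem' := by
    show Par (cd (1 : W).1) false
    rw [Subgroup.coe_one, cd_one]
    exact Par_I
  inv_mem' {a} ha := by
    have h1 : a ∈ BW := mem_BW.2 (Par_S1 ha)
    obtain ⟨ε, h2⟩ := Par_ex (mem_BW.1 (BW.inv_mem h1))
    have h3 := Par_mul ha h2
    rw [← cd_mul, ← Subgroup.coe_mul, mul_inv_cancel, Subgroup.coe_one, cd_one, Bool.false_xor] at h3
    have h4 := Par_unique h3 Par_I
    rw [h4] at h2
    exact h2

theorem mem_BW2 {w : W} : w ∈ BW2 ↔ Par (cd w.1) false := Iff.rfl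

theorem same_par {s t : W} {q : Bool} (hs : Par (cd s.1) q) (ht : Par (cd t.1) q) : s⁻¹ * t ∈ BW2 := by
  have h1 : s ∈ BW := mem_BW.2 (Par_S1 hs)
  obtain ⟨ε, h2⟩ := Par_ex (mem_BW.1 (BW.inv_mem h1))
  have h3 := Par_mul h2 hs
  rw [← cd_mul, ← Subgroup.coe_mul, inv_mul_cancel, Subgroup.coe_one, cd_one] at h3
  have h4 := Par_unique h3 Par_I
  rw [mem_BW2, Subgroup.coe_mul, cd_mul]
  have h5 := Par_mul h2 ht
  rwa [h4] at h5

theorem par_eq_of {s t : W} {q r : Bool} (hs : Par (cd s.1) q) (ht : Par (cd t.1) r) (h : s⁻¹ * t ∈ BW2) : q = r := by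
  have h1 : t = s * (s⁻¹ * t) := by rw [mul_inv_cancel_left]
  rw [h1, Subgroup.coe_mul, cd_mul] at ht
  have h2 := Par_mul hs (mem_BW2.1 h)
  rw [Bool.xor_false] at h2
  exact Par_unique h2 ht

theorem BW2_le : BW2 ≤ BW := fun _ h => mem_BW.2 (Par_S1 h)

theorem w14 : pwb 14 = false := by decide +kernel

theorem Z_le_BW2 : Subgroup.center W ≤ BW2 := by
  rw [center_eq, Z0, Subgroup.zpowers_le, mem_BW2]
  show Par (cd oG) false
  rw [cd_o]
  refine ⟨0, by norm_num, 14, by norm_num, ?_, by rw [pv0, w14]; rfl⟩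
  rw [v_zero, mu_Ic_left (good_w (by norm_num))]
  decide +kernel

/-- an element of odd parity -/
noncomputable def dW : W := ⟨(inH_w 2 (by norm_num)).choose, (inH_w 2 (by norm_num)).choose_spec.1⟩

theorem cd_dW : cd dW.1 = wt 2 := (inH_w 2 (by norm_num)).choose_spec.2

theorem par_dW : Par (cd dW.1) true := by
  rw [cd_dW]
  refine ⟨0, by norm_num, 2, by norm_num, ?_, by rw [pv0, pw2]; rfl⟩
  rw [v_zero, mu_Ic_left (good_w (by norm_num))]

/-- parity of a number -/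
def od (p : ℕ) : Bool := Nat.beq (Nat.mod p 2) 1

theorem par_dpow (p : ℕ) : Par (cd (dW ^ (p % 2)).1) (od p) := by
  rcases Nat.mod_two_eq_zero_or_one p with h | h
  · have h2 : od p = false := by
      show Nat.beq (p % 2) 1 = false
      rw [h]; rfl
    rw [h, h2, pow_zero, Subgroup.coe_one, cd_one]
    exact Par_I
  · have h2 : od p = true := by
      show Nat.beq (p % 2) 1 = true
      rw [h]; rfl
    rw [h, h2, pow_one]
    exact par_dW

/-- representatives -/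
noncomputable def uN (i : ℕ) : W := if h : i < 6156 then uW ⟨i, h⟩ else 1

theorem cd_uN {i : ℕ} (h : i < 6156) : cd (uN i).1 = ut i := by
  unfold uN; rw [dif_pos h]; exact cd_uW _

theorem uN_inj {i j : ℕ} (hi : i < 6156) (hj : j < 6156) (h : (uN i)⁻¹ * uN j ∈ BW) : i = j := by
  classical
  let F : Fin 6156 → W ⧸ BW := fun a => ((uN a : W) : W ⧸ BW)
  have hfin : Finite (W ⧸ BW) := inferInstance
  have _ := Fintype.ofFinite (W ⧸ BW)
  have hsurj : Function.Surjective F := by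
    intro q
    obtain ⟨g, rfl⟩ := QuotientGroup.mk_surjective q
    obtain ⟨a, b, hb, h1⟩ := exists_u g
    refine ⟨a, ?_⟩
    have h2 : uN a = uW a := by unfold uN; rw [dif_pos a.2]
    show ((uN a : W) : W ⧸ BW) = _
    rw [QuotientGroup.eq, h2, h1, inv_mul_cancel_left]
    exact hb
  have hbij : Function.Bijective F := by
    rw [Fintype.bijective_iff_surjective_and_card]
    refine ⟨hsurj, ?_⟩
    have h3 : Nat.card (W ⧸ BW) = 6156 := card_index.2
    rw [← Nat.card_eq_fintype_card (α := W ⧸ BW), h3, Fintype.card_fin]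
  have h4 : F ⟨i, hi⟩ = F ⟨j, hj⟩ := QuotientGroup.eq.2 h
  have h5 := hbij.1 h4
  exact Fin.mk.inj_iff.1 h5

/-- the subgroup of order 4080 of the simple group -/
noncomputable def BJ2 : Subgroup JJ := BW2.map (QuotientGroup.mk' (Subgroup.center W))

theorem mem_BJ2 {w : W} : (QuotientGroup.mk' (Subgroup.center W) w) ∈ BJ2 ↔ w ∈ BW2 := by
  constructor
  · rintro ⟨v, hv, h⟩
    have h1 : v⁻¹ * w ∈ Subgroup.center W := QuotientGroup.eq.1 h
    have h2 := BW2.mul_mem hv (Z_le_BW2 h1)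
    rwa [mul_inv_cancel_left] at h2
  · intro h
    exact ⟨w, h, rfl⟩

/-- the projection -/
noncomputable abbrev pj : W →* JJ := QuotientGroup.mk' (Subgroup.center W)

/-- the points in the natural numbering -/
noncomputable def E0 (p : ℕ) : JJ ⧸ BJ2 := ((pj (uN (p / 2) * dW ^ (p % 2)) : JJ) : JJ ⧸ BJ2)

theorem E0_inj {p q : ℕ} (hp : p < 12312) (hq : q < 12312) (h : E0 p = E0 q) : p = q := by
  have h1 : (pj (uN (p / 2) * dW ^ (p % 2)))⁻¹ * pj (uN (q / 2) * dW ^ (q % 2)) ∈ BJ2 := QuotientGroup.eq.1 h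
  rw [← map_inv, ← map_mul, mem_BJ2] at h1
  have hd : ∀ p, dW ^ (p % 2) ∈ BW := fun p => mem_BW.2 (Par_S1 (par_dpow p))
  have h2 : (uN (p / 2))⁻¹ * uN (q / 2) ∈ BW := by
    have h3 := BW.mul_mem (BW.mul_mem (hd p) (BW2_le h1)) (BW.inv_mem (hd q))
    have h4 : dW ^ (p % 2) * ((uN (p / 2) * dW ^ (p % 2))⁻¹ * (uN (q / 2) * dW ^ (q % 2))) * (dW ^ (q % 2))⁻¹ =
        (uN (p / 2))⁻¹ * uN (q / 2) := by group
    rwa [h4] at h3
  have h5 := uN_inj (by omega) (by omega) h2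
  rw [h5] at h1
  have h6 : (uN (q / 2) * dW ^ (p % 2))⁻¹ * (uN (q / 2) * dW ^ (q % 2)) = (dW ^ (p % 2))⁻¹ * dW ^ (q % 2) := by group
  rw [h6] at h1
  have h7 := par_eq_of (par_dpow p) (par_dpow q) h1
  have h8 : p % 2 = q % 2 := by
    unfold od at h7
    have e : ∀ r, Nat.mod r 2 = r % 2 := fun _ => rfl
    rw [e, e] at h7
    rcases Nat.mod_two_eq_zero_or_one p with a | a <;> rcases Nat.mod_two_eq_zero_or_one q with b | b <;>
      rw [a, b] at h7 ⊢ <;> exact absurd h7 (by decide)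
  omega

/-! ### the action of the generators -/

/-- parity of an entry of the tables -/
def sgE (e : ℕ) : Bool := Bool.xor (pvb (Nat.div (Nat.shiftRight e 13) 288)) (pwb (Nat.mod (Nat.shiftRight e 13) 288))

theorem step_par {g i e : ℕ} (h : step g i e = true) : Nat.land e 8191 < 6156 ∧
    ∃ s, Par s (sgE e) ∧ mu g (ut i) = mu (ut (Nat.land e 8191)) s := by
  rw [step, cond_and, cond_and] at h
  obtain ⟨h1, h2, h3⟩ := h
  have h1' : Nat.land e 8191 < 6156 := Nat.le_of_ble_eq_true h1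
  have h2' : Nat.shiftRight e 13 < 24480 := Nat.le_of_ble_eq_true h2
  refine ⟨h1', ?_⟩
  cases e0 : Nat.beq (Nat.shiftRight e 13) 0 with
  | true =>
    rw [e0, cond_true] at h3
    have h4 : sgE e = false := by
      unfold sgE
      rw [Nat.eq_of_beq_eq_true e0]
      show Bool.xor (pvb (0 / 288)) (pwb (0 % 288)) = false
      rw [Nat.zero_div, Nat.zero_mod, pv0, pw0]; rfl
    rw [h4]
    exact ⟨Ic, Par_I, by rw [Nat.eq_of_beq_eq_true h3, mu_Ic_right (good_u h1')]⟩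
  | false =>
    rw [e0, cond_false] at h3
    refine ⟨_, ⟨Nat.div (Nat.shiftRight e 13) 288, Nat.div_lt_of_lt_mul h2', Nat.mod (Nat.shiftRight e 13) 288,
      Nat.mod_lt _ (by norm_num), rfl, rfl⟩, Nat.eq_of_beq_eq_true h3⟩

/-- image of a point -/
def nx (e p : ℕ) : ℕ := Nat.add (Nat.mul 2 (Nat.land e 8191)) (cond (Bool.xor (sgE e) (od p)) 1 0)

theorem nx_div (e p : ℕ) : nx e p / 2 = Nat.land e 8191 ∧ nx e p % 2 = cond (Bool.xor (sgE e) (od p)) 1 0 := by
  have h : nx e p = 2 * Nat.land e 8191 + cond (Bool.xor (sgE e) (od p)) 1 0 := rfl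
  rw [h]
  generalize Nat.land e 8191 = a
  cases Bool.xor (sgE e) (od p)
  · show (2 * a + 0) / 2 = a ∧ (2 * a + 0) % 2 = 0
    omega
  · show (2 * a + 1) / 2 = a ∧ (2 * a + 1) % 2 = 1
    omega

theorem fwd_nat {g : W} {c : ℕ} (hg : cd g.1 = c) {p e : ℕ} (hp : p < 12312) (h : step c (p / 2) e = true) :
    nx e p < 12312 ∧ pj g • E0 p = E0 (nx e p) := by
  obtain ⟨h1, s, hs, h2⟩ := step_par h
  obtain ⟨n1, n2⟩ := nx_div e p
  have hlt : nx e p < 12312 := by
    have : nx e p % 2 < 2 := Nat.mod_lt _ (by norm_num)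
    omega
  refine ⟨hlt, ?_⟩
  obtain ⟨r, hr, hr2⟩ : InH s := by
    obtain ⟨j, hj, k, hk, rfl, -⟩ := hs
    exact inH_mul (inH_v j hj) (inH_w k hk)
  have h3 : g * uN (p / 2) = uN (Nat.land e 8191) * ⟨r, hr⟩ := by
    apply Subtype.ext
    apply cd_inj
    rw [Subgroup.coe_mul, Subgroup.coe_mul, cd_mul, cd_mul, cd_uN (by omega), cd_uN h1, hg]
    show mu c (ut (p / 2)) = mu (ut (Nat.land e 8191)) (cd r)
    rw [hr2, h2]
  show ((pj g * pj (uN (p / 2) * dW ^ (p % 2)) : JJ) : JJ ⧸ BJ2) = ((pj (uN (nx e p / 2) * dW ^ (nx e p % 2)) : JJ) : JJ ⧸ BJ2)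
  rw [eq_comm, QuotientGroup.eq, ← map_mul, ← map_inv, ← map_mul, mem_BJ2, ← mul_assoc g, h3, n1]
  have h4 : (uN (Nat.land e 8191) * dW ^ (nx e p % 2))⁻¹ * (uN (Nat.land e 8191) * ⟨r, hr⟩ * dW ^ (p % 2)) =
      (dW ^ (nx e p % 2))⁻¹ * (⟨r, hr⟩ * dW ^ (p % 2)) := by group
  rw [h4]
  refine same_par (par_dpow (nx e p)) ?_
  have h5 : od (nx e p) = Bool.xor (sgE e) (od p) := by
    show Nat.beq (nx e p % 2) 1 = _
    rw [n2]
    cases Bool.xor (sgE e) (od p) <;> rfl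
  rw [h5, Subgroup.coe_mul, cd_mul]
  refine Par_mul ?_ (par_dpow p)
  show Par (cd r) (sgE e)
  rwa [hr2]

theorem fwd_x {p : ℕ} (hp : p < 12312) : nx (ax (p / 2)) p < 12312 ∧ pj xW • E0 p = E0 (nx (ax (p / 2)) p) := by
  have h := (allLt_iff.1 stepX) (p / 2) (by omega)
  rw [force_eq] at h
  exact fwd_nat (g := xW) cd_x hp h

theorem fwd_y {p : ℕ} (hp : p < 12312) : nx (ay (p / 2)) p < 12312 ∧ pj yW • E0 p = E0 (nx (ay (p / 2)) p) := by
  have h := (allLt_iff.1 stepY) (p / 2) (by omega)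
  rw [force_eq] at h
  exact fwd_nat (g := yW) cd_y hp h

end Cfsg.Agent.Lib.JThree
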