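import Cfsg.Agent.Lib.JThreeSMf

/-!
The stem extensions of `J₃`: generators, relators, action on 12312 points.
-/

set_option autoImplicit false
set_option maxRecDepth 100000

namespace Cfsg.Agent.Lib.JThree

open Cfsg Cfsg.Agent.Lib.K4 Cfsg.Agent.Lib.F4Pack Cfsg.Agent.Lib.NatTree
open Cfsg.Agent.Lib.H58SM

/-! ### the new generators -/

theorem yi_ok : ok Yi = true := by decide +kernel

theorem cd_yinv : cd yG⁻¹ = Yi := cdm_dc yi_ok

theorem ai_ok : Nat.beq (mu Xc Yi) Acd = true := by decide +kernel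

noncomputable def aW : W := xW * yW⁻¹

theorem cd_aW : cd aW.1 = Acd := by
  show cd (xG * yG⁻¹) = Acd
  rw [cd_mul, cd_x, cd_yinv]
  exact Nat.eq_of_beq_eq_true ai_ok

theorem inH_fold {w : List ℕ} (h : ∀ l ∈ w, InH (cL l)) : InH (cfold w) := by
  induction w with
  | nil => exact inH_I
  | cons l w ih =>
    exact inH_mul (h l List.mem_cons_self) (ih fun l hl => h l (List.mem_cons_of_mem _ hl))

theorem cL2 : cL 2 = Xc := rfl
theorem cL3 : cL 3 = Yc := rfl

theorem inH_bw2 : InH (cfold [3, 3, 2, 3, 3, 3, 3, 2, 3, 3, 2, 3, 3]) := by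
  apply inH_fold
  intro l hl
  have h : l = 2 ∨ l = 3 := by
    revert hl l
    decide
  rcases h with rfl | rfl
  · exact inH_X
  · exact inH_Y

theorem good_B : Good Bcd := good_of_ok ok_b

theorem inH_B : InH Bcd := by
  have h := inH_bw2
  rw [← Nat.eq_of_beq_eq_true bcd_ok] at h
  have hY := good_inH inH_Y
  have h1 := inH_of_mul inH_X (good_mu hY (good_mu hY good_B)) h
  have h2 := inH_of_mul inH_Y (good_mu hY good_B) h1
  exact inH_of_mul inH_Y good_B h2

noncomputable def bW : W := ⟨inH_B.choose, inH_B.choose_spec.1⟩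
theorem cd_bW : cd bW.1 = Bcd := inH_B.choose_spec.2

/-- letters 0 to 3 -/
noncomputable def w4 (l : ℕ) : W := if l = 0 then aW else if l = 1 then bW else if l = 2 then xW else yW

theorem cd_w4 {l : ℕ} (hl : l < 4) : cd (w4 l).1 = cL l := by
  interval_cases l
  · exact cd_aW
  · exact cd_bW
  · exact cd_x
  · exact cd_y

theorem cd_prod {f : ℕ → W} {w : List ℕ} (h : ∀ l ∈ w, cd (f l).1 = cL l) : cd ((w.map f).prod).1 = cfold w := by
  induction w with
  | nil => rw [List.map_nil, List.prod_nil, Subgroup.coe_one, cd_one]; rfl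
  | cons l w ih =>
    rw [List.map_cons, List.prod_cons, Subgroup.coe_mul, cd_mul, h l List.mem_cons_self,
      ih (fun l hl => h l (List.mem_cons_of_mem _ hl))]
    rfl

noncomputable def uE : W := ((UW.reverse.flatMap posA).map w4).prod
noncomputable def vE : W := ((VW.reverse.flatMap posA).map w4).prod

theorem cd_uE : cd uE.1 = Ucd := by
  have h : ∀ l ∈ UW.reverse.flatMap posA, l < 4 := by decide
  rw [uE, cd_prod (fun l hl => cd_w4 (h l hl))]
  exact Nat.eq_of_beq_eq_true ucd_ok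

theorem cd_vE : cd vE.1 = Vcd := by
  have h : ∀ l ∈ VW.reverse.flatMap posA, l < 4 := by decide
  rw [vE, cd_prod (fun l hl => cd_w4 (h l hl))]
  exact Nat.eq_of_beq_eq_true vcd_ok

/-- all letters -/
noncomputable def wL (l : ℕ) : W := if l < 4 then w4 l else if l = 4 then uE else vE

theorem cd_wL {l : ℕ} (hl : l < 6) : cd (wL l).1 = cL l := by
  by_cases h : l < 4
  · unfold wL; rw [if_pos h]; exact cd_w4 h
  · have h2 : l = 4 ∨ l = 5 := by omega
    rcases h2 with rfl | rfl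
    · exact cd_uE
    · exact cd_vE

/-- letters in the simple group -/
noncomputable def jL (l : ℕ) : JJ := pj (wL l)

theorem jprod (w : List ℕ) : (w.map jL).prod = pj ((w.map wL).prod) := by
  rw [map_list_prod, List.map_map]; rfl

theorem cen_spec {w : List ℕ} (hw : ∀ l ∈ w, l < 6) (h : cen (cfold w) = true) : (w.map jL).prod = 1 := by
  rw [jprod]
  have h1 : (w.map wL).prod ∈ Subgroup.center W := by
    rw [center_eq]
    apply mem_Z0_of
    rw [cd_prod (fun l hl => cd_wL (hw l hl))]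
    unfold cen at h
    by_cases h2 : Nat.beq (cfold w) Ic = true
    · exact Or.inl (Nat.eq_of_beq_eq_true h2)
    · rw [Bool.not_eq_true] at h2
      rw [h2, cond_false] at h
      by_cases h3 : Nat.beq (cfold w) O1c = true
      · exact Or.inr (Or.inl (Nat.eq_of_beq_eq_true h3))
      · rw [Bool.not_eq_true] at h3
        rw [h3, cond_false] at h
        exact Or.inr (Or.inr (Nat.eq_of_beq_eq_true h))
  exact (QuotientGroup.eq_one_iff _).2 h1

/-- words with inverse letters as positive words -/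
theorem ev_pos {Γ : Type*} [Group Γ] (g φ : ℕ → Γ) (pos : ℕ → List ℕ) (w : List ℕ)
    (hl : ∀ l ∈ w, lt g l = ((pos l).map φ).prod) : ev g w = ((w.reverse.flatMap pos).map φ).prod := by
  induction w with
  | nil => rfl
  | cons l w ih =>
    rw [ev_cons, ih (fun l hl' => hl l (List.mem_cons_of_mem _ hl')), hl l List.mem_cons_self, List.reverse_cons,
      List.flatMap_append, List.map_append, List.prod_append]
    simp

/-- generators -/
noncomputable def gA (i : ℕ) : JJ := if i = 0 then jL 0 else jL 1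
noncomputable def gU (i : ℕ) : JJ := if i = 0 then jL 4 else jL 5

theorem j0_sq : jL 0 * jL 0 = 1 := by
  have h := cen_spec (by decide) rel_aa
  simpa using h
theorem j1_cu : jL 1 * (jL 1 * jL 1) = 1 := by
  have h := cen_spec (by decide) rel_bb
  simpa using h
theorem j4_5 : jL 4 * (jL 4 * (jL 4 * (jL 4 * jL 4))) = 1 := by
  have h := cen_spec (by decide) rel_uu
  simpa using h
theorem j5_5 : jL 5 * (jL 5 * (jL 5 * (jL 5 * jL 5))) = 1 := by
  have h := cen_spec (by decide) rel_vv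
  simpa using h

theorem lt_gA {l : ℕ} (hl : l < 4) : lt gA l = ((posA l).map jL).prod := by
  interval_cases l
  · show gA 0 = ([jL 0] : List JJ).prod
    rw [List.prod_singleton]; rfl
  · show (gA 0)⁻¹ = ([jL 0] : List JJ).prod
    rw [List.prod_singleton]
    exact inv_eq_of_mul_eq_one_left j0_sq
  · show gA 1 = ([jL 1] : List JJ).prod
    rw [List.prod_singleton]; rfl
  · show (gA 1)⁻¹ = ([jL 1, jL 1] : List JJ).prod
    rw [List.prod_cons, List.prod_singleton]
    exact inv_eq_of_mul_eq_one_right j1_cu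

theorem lt_gU {l : ℕ} (hl : l < 4) : lt gU l = ((posU l).map jL).prod := by
  interval_cases l
  · show gU 0 = ([jL 4] : List JJ).prod
    rw [List.prod_singleton]; rfl
  · show (gU 0)⁻¹ = ([jL 4, jL 4, jL 4, jL 4] : List JJ).prod
    rw [List.prod_cons, List.prod_cons, List.prod_cons, List.prod_singleton]
    exact inv_eq_of_mul_eq_one_right j4_5
  · show gU 1 = ([jL 5] : List JJ).prod
    rw [List.prod_singleton]; rfl
  · show (gU 1)⁻¹ = ([jL 5, jL 5, jL 5, jL 5] : List JJ).prod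
    rw [List.prod_cons, List.prod_cons, List.prod_cons, List.prod_singleton]
    exact inv_eq_of_mul_eq_one_right j5_5

theorem posA_lt (l : ℕ) : ∀ m ∈ posA l, m < 6 := by
  unfold posA
  cases Nat.beq l 0 <;> cases Nat.beq l 1 <;> cases Nat.beq l 2 <;> decide

theorem posU_lt (l : ℕ) : ∀ m ∈ posU l, m < 6 := by
  unfold posU
  cases Nat.beq l 0 <;> cases Nat.beq l 1 <;> cases Nat.beq l 2 <;> decide

theorem flat_lt {pos : ℕ → List ℕ} (hp : ∀ l, ∀ m ∈ pos l, m < 6) (w : List ℕ) : ∀ m ∈ w.flatMap pos, m < 6 := by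
  intro m hm
  obtain ⟨l, -, h⟩ := List.mem_flatMap.1 hm
  exact hp l m h

theorem relA : ∀ j < J3B.Q.toDat.J, ev gA (J3B.Q.toDat.W j) = 1 := by
  intro j hj
  have hj' : j < 9 := hj
  have hw := Dat.wOk_iff J3B.w_ok j hj
  rw [ev_pos gA jL posA _ (fun l hl => lt_gA (hw l hl))]
  exact cen_spec (flat_lt posA_lt _) (alln_iff.1 relsB_ok j hj')

theorem relU : ∀ j < J3H.Q.toDat.J, ev gU (J3H.Q.toDat.W j) = 1 := by
  intro j hj
  have hj' : j < 17 := hj
  have hw := Dat.wOk_iff J3H.w_ok j hj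
  rw [ev_pos gU jL posU _ (fun l hl => lt_gU (hw l hl))]
  exact cen_spec (flat_lt posU_lt _) (alln_iff.1 relsH_ok j hj')

/-! ### generation -/

noncomputable def xJ : JJ := pj xW
noncomputable def yJ : JJ := pj yW

theorem xJ_pow : xJ ^ 19 = 1 := by
  show (pj xW) ^ 19 = 1
  rw [← map_pow]
  have h : xW ^ 19 = 1 := Subtype.ext x_pow
  rw [h, map_one]

theorem closure_xy : Subgroup.closure ({xJ, yJ} : Set JJ) = ⊤ := by
  rw [eq_top_iff]
  intro q _
  obtain ⟨⟨g, hg⟩, rfl⟩ := QuotientGroup.mk'_surjective (Subgroup.center W) q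
  have key : ∀ g ∈ H, ∀ hg : g ∈ H, pj ⟨g, hg⟩ ∈ Subgroup.closure ({xJ, yJ} : Set JJ) := by
    refine H_induction (p := fun g => ∀ hg : g ∈ H, pj ⟨g, hg⟩ ∈ Subgroup.closure ({xJ, yJ} : Set JJ)) ?_ ?_ ?_
    · intro hg
      have h1 : (⟨1, hg⟩ : W) = 1 := rfl
      rw [h1, map_one]; exact one_mem _
    · intro g hg ih hg'
      have h1 : (⟨xG * g, hg'⟩ : W) = xW * ⟨g, hg⟩ := rfl
      rw [h1, map_mul]
      exact mul_mem (Subgroup.subset_closure (by left; rfl)) (ih hg)
    · intro g hg ih hg'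
      have h1 : (⟨yG * g, hg'⟩ : W) = yW * ⟨g, hg⟩ := rfl
      rw [h1, map_mul]
      exact mul_mem (Subgroup.subset_closure (by right; rfl)) (ih hg)
  exact key g hg hg

theorem XW_lt : ∀ l ∈ XW, l < 4 := by decide

theorem ev_x : ev gA XW = xJ := by
  have h := cen_spec (w := XW.reverse.flatMap posA ++ [2, 2, 2, 2, 2, 2, 2, 2, 2, 2, 2, 2, 2, 2, 2, 2, 2, 2]) (by
    intro m hm
    rcases List.mem_append.1 hm with hm | hm
    · exact flat_lt posA_lt _ m hm
    · revert hm m; decide) xw_ok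
  rw [List.map_append, List.prod_append, ← ev_pos gA jL posA XW (fun l hl => lt_gA (XW_lt l hl))] at h
  have h2 : (([2, 2, 2, 2, 2, 2, 2, 2, 2, 2, 2, 2, 2, 2, 2, 2, 2, 2] : List ℕ).map jL).prod = xJ ^ 18 := by
    have h3 : ([2, 2, 2, 2, 2, 2, 2, 2, 2, 2, 2, 2, 2, 2, 2, 2, 2, 2] : List ℕ) = List.replicate 18 2 := rfl
    rw [h3, List.map_replicate, List.prod_replicate]
    rfl
  rw [h2] at h
  have h4 := xJ_pow
  calc ev gA XW = ev gA XW * (xJ ^ 18 * xJ) := by rw [← pow_succ, h4, mul_one]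
    _ = (ev gA XW * xJ ^ 18) * xJ := (mul_assoc _ _ _).symm
    _ = xJ := by rw [h, one_mul]

theorem jL0 : jL 0 = xJ * yJ⁻¹ := by
  show pj aW = pj xW * (pj yW)⁻¹
  rw [aW, map_mul, map_inv]

theorem ev_mem {Γ : Type*} [Group Γ] {g : ℕ → Γ} {K : Subgroup Γ} {k : ℕ} (hg : ∀ i < k, g i ∈ K) {w : List ℕ}
    (hw : ∀ l ∈ w, l < 2 * k) : ev g w ∈ K := by
  induction w with
  | nil => exact one_mem _
  | cons l w ih =>
    rw [ev_cons]
    refine mul_mem (ih fun l hl => hw l (List.mem_cons_of_mem _ hl)) ?_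
    have h1 := hg (l / 2) (by have := hw l List.mem_cons_self; omega)
    unfold lt
    split
    · exact h1
    · exact inv_mem h1

theorem gen_A : Subgroup.closure {z | ∃ i < 2, z = gA i} = ⊤ := by
  rw [eq_top_iff, ← closure_xy, Subgroup.closure_le]
  have hm : ∀ i < 2, gA i ∈ Subgroup.closure {z | ∃ i < 2, z = gA i} := fun i hi => Subgroup.subset_closure ⟨i, hi, rfl⟩
  have hx : xJ ∈ Subgroup.closure {z | ∃ i < 2, z = gA i} := by
    rw [← ev_x]; exact ev_mem hm XW_lt
  rintro z (rfl | rfl)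
  · exact hx
  · have h1 : yJ = (gA 0)⁻¹ * xJ := by
      show yJ = (jL 0)⁻¹ * xJ
      rw [jL0]; group
    rw [SetLike.mem_coe, h1]
    exact mul_mem (inv_mem (hm 0 (by norm_num))) hx

/-! ### the points -/

/-- points -/
noncomputable def eJ (q : ℕ) : JJ ⧸ BJ2 := E0 (tg ORT q)

theorem ort_lt {q : ℕ} (hq : q < 12312) : tg ORT q < 12312 := Nat.le_of_ble_eq_true (alln_iff.1 or_lt q hq)

theorem fwd_xe {q : ℕ} (hq : q < 12312) : tg XET q < 12312 ∧ xJ • eJ q = eJ (tg XET q) := by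
  refine ⟨Nat.le_of_ble_eq_true (alln_iff.1 xe_lt q hq), ?_⟩
  have h := alln_iff.1 xe_ok q hq
  rw [frc_eq, frc_eq] at h
  have h2 := fwd_x (ort_lt hq)
  show pj xW • E0 (tg ORT q) = E0 (tg ORT (tg XET q))
  rw [h2.2, Nat.eq_of_beq_eq_true h]
  rfl

theorem fwd_ye {q : ℕ} (hq : q < 12312) : tg YET q < 12312 ∧ yJ • eJ q = eJ (tg YET q) := by
  refine ⟨Nat.le_of_ble_eq_true (alln_iff.1 ye_lt q hq), ?_⟩
  have h := alln_iff.1 ye_ok q hq
  rw [frc_eq, frc_eq] at h
  have h2 := fwd_y (ort_lt hq)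
  show pj yW • E0 (tg ORT q) = E0 (tg ORT (tg YET q))
  rw [h2.2, Nat.eq_of_beq_eq_true h]
  rfl

/-- letters x (0), y (1) -/
noncomputable def xy (l : ℕ) : JJ := if l = 0 then xJ else yJ

/-- the walk -/
def wkf (w : List ℕ) (q : ℕ) : ℕ :=
  List.rec (motive := fun _ => ℕ) q (fun l _ ih => tg (cond (Nat.beq l 0) XET YET) ih) w

theorem wk_eq (w : List ℕ) (q : ℕ) (k : ℕ → Bool) : wk w q k = k (wkf w q) := by
  induction w generalizing k with
  | nil => rfl
  | cons l w ih =>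
    have h : wk (l :: w) q k = wk w q (fun r => frc (tg (cond (Nat.beq l 0) XET YET) r) k) := rfl
    rw [h, ih, frc_eq]; rfl

theorem wkf_spec (w : List ℕ) {q : ℕ} (hq : q < 12312) : wkf w q < 12312 ∧ (w.map xy).prod • eJ q = eJ (wkf w q) := by
  induction w with
  | nil => exact ⟨hq, one_smul _ _⟩
  | cons l w ih =>
    have h : wkf (l :: w) q = tg (cond (Nat.beq l 0) XET YET) (wkf w q) := rfl
    rw [h, List.map_cons, List.prod_cons, mul_smul, ih.2]
    by_cases h0 : l = 0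
    · subst h0
      exact fwd_xe ih.1
    · have h1 : Nat.beq l 0 = false := by
        cases l with
        | zero => exact absurd rfl h0
        | succ l => rfl
      have h2 : xy l = yJ := if_neg h0
      rw [h1, h2, cond_false]
      exact fwd_ye ih.1

theorem fwd_a {q : ℕ} (hq : q < 12312) : gA 0 • eJ q = eJ (J3B.Q.toDat.T 0 q) := by
  have h := alln_iff.1 a_ok q hq
  rw [frc_eq, wk_eq] at h
  rw [← Nat.eq_of_beq_eq_true h, ← (wkf_spec wA hq).2]
  congr 1
  show jL 0 = _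
  have h2 : (wA.map xy).prod = xJ * yJ ^ 18 := by
    have h3 : wA = 0 :: List.replicate 18 1 := rfl
    rw [h3, List.map_cons, List.prod_cons, List.map_replicate, List.prod_replicate]
    rfl
  rw [h2, jL0]
  congr 1
  have h4 : yJ ^ 19 = 1 := by
    show (pj yW) ^ 19 = 1
    rw [← map_pow]
    have h : yW ^ 19 = 1 := Subtype.ext y_pow
    rw [h, map_one]
  exact inv_eq_of_mul_eq_one_right (by rw [← pow_succ', h4])

theorem b_word : xJ * (yJ * yJ) * jL 1 = (wB2.map xy).prod := by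
  have h : xW * (yW * (yW * bW)) = (([3, 3, 2, 3, 3, 3, 3, 2, 3, 3, 2, 3, 3] : List ℕ).map w4).prod := by
    apply Subtype.ext
    apply cd_inj
    rw [cd_prod (fun l hl => cd_w4 (by revert hl l; decide)), Subgroup.coe_mul, Subgroup.coe_mul, Subgroup.coe_mul,
      cd_mul, cd_mul, cd_mul, cd_bW]
    show mu (cd xG) (mu (cd yG) (mu (cd yG) Bcd)) = _
    rw [cd_x, cd_y]
    exact Nat.eq_of_beq_eq_true bcd_ok
  have h2 := congrArg pj h
  rw [map_mul, map_mul, map_mul, map_list_prod, List.map_map] at h2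
  have h3 : (([3, 3, 2, 3, 3, 3, 3, 2, 3, 3, 2, 3, 3] : List ℕ).map (pj ∘ w4)) = wB2.map xy := rfl
  rw [← h3]
  show pj xW * (pj yW * pj yW) * pj bW = _
  rw [← mul_assoc (pj yW), ← mul_assoc (pj xW)] at h2
  exact h2

theorem fwd_b {q : ℕ} (hq : q < 12312) : gA 1 • eJ q = eJ (J3B.Q.toDat.T 2 q) := by
  have h := alln_iff.1 b_ok q hq
  rw [frc_eq, wk_eq, wk_eq] at h
  have hT : J3B.Q.toDat.T 2 q < 12312 := Sol.blt_iff.1 (alln_iff.1 (alln_iff.1 J3B.tab1_ok 2 (by decide)) q hq)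
  have h1 := (wkf_spec wB1 hT).2
  have h2 := (wkf_spec wB2 hq).2
  rw [Nat.eq_of_beq_eq_true h, ← h1, ← b_word] at h2
  have h3 : (wB1.map xy).prod = xJ * (yJ * yJ) := by
    show xJ * (yJ * (yJ * 1)) = _
    rw [mul_one]
  rw [h3, mul_smul] at h2
  exact MulAction.injective (xJ * (yJ * yJ)) h2

theorem eJ_inj {p q : ℕ} (hp : p < 12312) (hq : q < 12312) (h : tg ORT p = tg ORT q → p = q) (h1 : eJ p = eJ q) :
    p = q := h (E0_inj (ort_lt hp) (ort_lt hq) h1)

theorem or_base : alln (fun q => cond (Nat.beq (tg ORT q) (tg ORT 0)) (Nat.beq q 0) true) 12312 = true := by decide +kernel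

theorem base_J : ∀ a < J3B.Q.toDat.n, eJ a = eJ 0 → a = 0 := by
  intro a ha h
  have ha' : a < 12312 := ha
  have h1 := E0_inj (ort_lt ha') (ort_lt (by norm_num)) h
  have h2 := alln_iff.1 or_base a ha'
  rw [h1, Nat.beq_refl, cond_true] at h2
  exact Nat.eq_of_beq_eq_true h2

theorem fwd_A : ∀ i < 2, ∀ a < 12312, gA i • eJ a = eJ (J3B.Q.toDat.T (2 * i) a) := by
  intro i hi a ha
  interval_cases i
  · exact fwd_a ha
  · exact fwd_b ha

theorem act2 : Act 12312 2 gA eJ J3B.Q.toDat.T J3B.Q.toDat.pi J3B.Q.toDat.pq :=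
  Dat.act_of (D := J3B.Q.toDat) (by decide) J3B.tab1_ok J3B.tab2_ok J3B.tab3_ok fwd_A base_J

theorem act3 : Act 12312 2 gA eJ J3C.Q.toDat.T J3C.Q.toDat.pi J3C.Q.toDat.pq := act2

end Cfsg.Agent.Lib.JThree
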