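import Cfsg.Agent.Lib.JThreeSMg
import Cfsg.Agent.Lib.JThreeSimple
import Cfsg.Agent.Lib.JThreeMove
import Cfsg.Agent.Lib.H92StemB

/-!
The stem extensions of `J₃`: the point stabilizer and the final count.
-/

set_option autoImplicit false
set_option maxRecDepth 100000

namespace Cfsg.Agent.Lib.JThree

open Cfsg Cfsg.Agent.Lib.K4 Cfsg.Agent.Lib.F4Pack Cfsg.Agent.Lib.NatTree
open Cfsg.Agent.Lib.H58SM Cfsg.Agent.Lib.SchurSylow

theorem pj_w4 (w : List ℕ) (hw : ∀ l ∈ w, l < 4) : (w.map jL).prod = pj ((w.map w4).prod) := by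
  rw [jprod]
  congr 2
  apply List.map_congr_left
  intro l hl
  unfold wL
  rw [if_pos (hw l hl)]

theorem gU0 : gU 0 = ev gA UW := by
  have h1 : ∀ l ∈ UW, l < 4 := by decide
  have h2 : ∀ l ∈ UW.reverse.flatMap posA, l < 4 := by decide
  rw [ev_pos gA jL posA UW (fun l hl => lt_gA (h1 l hl)), pj_w4 _ h2]
  rfl

theorem gU1 : gU 1 = ev gA VW := by
  have h1 : ∀ l ∈ VW, l < 4 := by decide
  have h2 : ∀ l ∈ VW.reverse.flatMap posA, l < 4 := by decide
  rw [ev_pos gA jL posA VW (fun l hl => lt_gA (h1 l hl)), pj_w4 _ h2]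
  rfl

theorem u_smul {q : ℕ} (hq : q < 12312) : gU 0 • eJ q = eJ (pt J3B.Q.toDat.T UW q) := by
  rw [gU0]
  exact act2.smul_ev (by decide) hq

theorem v_smul {q : ℕ} (hq : q < 12312) : gU 1 • eJ q = eJ (pt J3B.Q.toDat.T VW q) := by
  rw [gU1]
  exact act2.smul_ev (by decide) hq

/-- the point stabilizer -/
noncomputable abbrev SK : Subgroup JJ := MulAction.stabilizer JJ (eJ 0)

theorem card_SK : Nat.card SK = 4080 := by
  have h := act2.card_stabilizer gen_A
  rw [card_quot] at h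
  have e : (50232960 : ℕ) = 12312 * 4080 := by norm_num
  rw [e] at h
  exact Nat.eq_of_mul_eq_mul_left (by norm_num) h

theorem u_mem : gU 0 ∈ SK := by
  rw [MulAction.mem_stabilizer_iff, u_smul (by norm_num)]
  exact congrArg eJ (Nat.eq_of_beq_eq_true u_fix)

theorem v_mem : gU 1 ∈ SK := by
  rw [MulAction.mem_stabilizer_iff, v_smul (by norm_num)]
  exact congrArg eJ (Nat.eq_of_beq_eq_true v_fix)

theorem gU_mem (i : ℕ) : gU i ∈ SK := by
  by_cases h : i = 0
  · subst h; exact u_mem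
  · have : gU i = gU 1 := by
      unfold gU; rw [if_neg h, if_neg (by norm_num)]
    rw [this]; exact v_mem

noncomputable def gK (i : ℕ) : SK := ⟨gU i, gU_mem i⟩

/-- the points -/
noncomputable def eK (q : ℕ) : JJ ⧸ BJ2 := eJ (pP q)

theorem pP_lt {q : ℕ} (hq : q < 1360) : pP q < 12312 := Nat.le_of_ble_eq_true (alln_iff.1 p_lt q hq)

theorem fwd_K : ∀ i < 2, ∀ a < 1360, gU i • eK a = eK (J3H.Q.toDat.T (2 * i) a) := by
  intro i hi a ha
  interval_cases i
  · show gU 0 • eJ (pP a) = eJ (pP _)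
    rw [u_smul (pP_lt ha)]
    exact congrArg eJ (Nat.eq_of_beq_eq_true (alln_iff.1 u_act a ha))
  · show gU 1 • eJ (pP a) = eJ (pP _)
    rw [v_smul (pP_lt ha)]
    exact congrArg eJ (Nat.eq_of_beq_eq_true (alln_iff.1 v_act a ha))

theorem base_K : ∀ a < J3H.Q.toDat.n, eK a = eK 0 → a = 0 := by
  intro a ha h
  have ha' : a < 1360 := ha
  have h1 := act2.inj (pP_lt ha') (pP_lt (by norm_num)) h
  have h2 := alln_iff.1 p_base a ha'
  rw [h1, Nat.beq_refl, cond_true] at h2
  exact Nat.eq_of_beq_eq_true h2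

/-- the subgroup generated -/
noncomputable abbrev SG : Subgroup SK := Subgroup.closure {z | ∃ i < 2, z = gK i}

theorem gK_mem (i : ℕ) : gK i ∈ SG := by
  by_cases h : i < 1
  · exact Subgroup.subset_closure ⟨i, by omega, rfl⟩
  · have : gK i = gK 1 := by
      apply Subtype.ext
      show gU i = gU 1
      unfold gU; rw [if_neg (by omega), if_neg (by norm_num)]
    rw [this]
    exact Subgroup.subset_closure ⟨1, by omega, rfl⟩

noncomputable def gS (i : ℕ) : SG := ⟨gK i, gK_mem i⟩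

theorem actS : Act 1360 2 gS eK J3H.Q.toDat.T J3H.Q.toDat.pi J3H.Q.toDat.pq :=
  Dat.act_of (D := J3H.Q.toDat) (by decide) J3H.tab1_ok J3H.tab2_ok J3H.tab3_ok fwd_K base_K

theorem actK : Act 1360 2 gK eK J3H.Q.toDat.T J3H.Q.toDat.pi J3H.Q.toDat.pq :=
  Dat.act_of (D := J3H.Q.toDat) (by decide) J3H.tab1_ok J3H.tab2_ok J3H.tab3_ok fwd_K base_K

theorem gen_S : Subgroup.closure {z | ∃ i < 2, z = gS i} = ⊤ := by
  rw [eq_top_iff]
  rintro ⟨x, hx⟩ -
  refine Subgroup.closure_induction (p := fun x hx => (⟨x, hx⟩ : SG) ∈ Subgroup.closure {z | ∃ i < 2, z = gS i})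
    ?_ ?_ ?_ ?_ hx
  · rintro x ⟨i, hi, rfl⟩
    exact Subgroup.subset_closure ⟨i, hi, rfl⟩
  · exact one_mem _
  · intro x y hx hy h1 h2
    exact mul_mem h1 h2
  · intro x hx h
    exact inv_mem h

theorem coe_ev (w : List ℕ) : ((ev gS w : SG) : SK) = ev gK w := map_ev SG.subtype gS w

theorem coe_evK (w : List ℕ) : ((ev gK w : SK) : JJ) = ev gU w := map_ev SK.subtype gK w

theorem relK : ∀ j < J3H.Q.toDat.J, ev gK (J3H.Q.toDat.W j) = 1 := by
  intro j hj
  apply Subtype.ext
  rw [coe_evK]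
  exact relU j hj

/-- a word of order three -/
def w3 : List ℕ := [2, 1, 2, 0]

theorem w3_move : Nat.beq (pt J3H.Q.toDat.T w3 0) 0 = false := by decide +kernel

theorem w3_rel : ∃ j < 17, J3H.Q.toDat.W j = w3 ++ (w3 ++ w3) := by decide +kernel

theorem three_dvd : 3 ∣ Nat.card SG := by
  obtain ⟨j, hj, h⟩ := w3_rel
  have h1 : ev gS (w3 ++ (w3 ++ w3)) = 1 := by
    apply Subtype.ext
    rw [coe_ev, ← h]
    exact relK j hj
  rw [ev_append, ev_append] at h1
  have h2 : ev gS w3 ^ 3 = 1 := by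
    rw [pow_succ, pow_two]; exact h1
  have h3 : ev gS w3 ≠ 1 := by
    intro h4
    have h5 := actS.smul_ev (w := w3) (by decide) (a := 0) (by norm_num)
    rw [h4, one_smul] at h5
    have h6 := base_K _ (actS.pt_lt (w := w3) (by decide) (a := 0) (by norm_num)) h5.symm
    have h7 := w3_move
    rw [h6] at h7
    exact absurd h7 (by decide)
  have : Fact (Nat.Prime 3) := ⟨by norm_num⟩
  have h4 := orderOf_eq_prime h2 h3
  have h5 := orderOf_dvd_natCard (ev gS w3)
  rwa [h4] at h5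

theorem SG_top : SG = ⊤ := by
  have h1 : 1360 ∣ Nat.card SG := ⟨_, (actS.card_stabilizer gen_S).symm⟩
  have h2 : 1360 * 3 ∣ Nat.card SG := Nat.Coprime.mul_dvd_of_dvd_of_dvd (by norm_num) h1 three_dvd
  apply Subgroup.eq_top_of_le_card
  have h3 : 0 < Nat.card SG := Nat.card_pos
  have h4 := Nat.le_of_dvd h3 h2
  rw [card_SK]
  exact h4

theorem gU_pow {i : ℕ} (hi : i < 2) : gK i ^ 5 = 1 := by
  apply Subtype.ext
  show gU i ^ 5 = 1
  interval_cases i
  · have h := j4_5
    show (jL 4) ^ 5 = 1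
    rw [pow_succ', pow_succ', pow_succ', pow_two]
    exact h
  · have h := j5_5
    show (jL 5) ^ 5 = 1
    rw [pow_succ', pow_succ', pow_succ', pow_two]
    exact h

theorem odds_K (p : ℕ) [Fact p.Prime] (h : ¬ p ∣ 5) : odds p SK = ⊤ := by
  rw [eq_top_iff, ← SG_top]
  refine (Subgroup.closure_le _).2 ?_
  rintro z ⟨i, hi, rfl⟩
  exact mem_odds_of_pow h (gU_pow hi)

theorem K_two : PStemDvd 2 SK 1 :=
  pStemDvd_of_checks' (s := 1) (q := 1) (N := 1) (c := 3) J3H.Q.toDat actK SG_top (by rw [card_SK]; rfl) (by norm_num)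
    J3H.w_ok relK J3H.nr J3H.nr_ok J3H.zl_ok rfl rfl (by decide) J3H.chk_ok J3H.gen_ok J3H.par_ok
    (by intro r hr; cases hr) rfl

theorem K_three : PStemDvd 3 SK 1 := by
  have : Fact (Nat.Prime 3) := ⟨by norm_num⟩
  apply Cfsg.Agent.Lib.H92Stem.pStemDvd_of_sq
  rw [card_SK]
  norm_num

theorem J_two : PStemDvd 2 JJ 1 :=
  pStemDvd_of_checks (s := 1) (q := 1) (N := 1) J3B.Q.toDat act2 gen_A K_two
    (not_dvd_of_odds (odds_K 2 (by norm_num))) J3B.w_ok relA J3B.nr J3B.nr_ok J3B.zl_ok rfl rfl (by decide)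
    J3B.chk_ok J3B.gen_ok J3B.par_ok (by intro r hr; cases hr) rfl

theorem J_three : PStemDvd 3 JJ 3 :=
  pStemDvd_of_checks (s := 2) (q := 3) (N := 3) J3C.Q.toDat act3 gen_A (K_three)
    (have : Fact (Nat.Prime 3) := ⟨by norm_num⟩; not_dvd_of_odds (odds_K 3 (by norm_num))) J3C.w_ok relA J3C.nr
    J3C.nr_ok J3C.zl_ok rfl rfl (by decide)
    J3C.chk_ok J3C.gen_ok J3C.par_ok (by decide) rfl

theorem stem_J : StemDvd JJ 3 := by
  apply StemDvd.of_forall
  intro p hp
  have : Fact p.Prime := ⟨hp⟩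
  by_cases h2 : p = 2
  · subst h2; exact J_two.mono (one_dvd _)
  by_cases h3 : p = 3
  · subst h3; exact J_three
  refine PStemDvd.mono ?_ (one_dvd 3)
  apply Cfsg.Agent.Lib.H92Stem.pStemDvd_of_sq
  rw [card_quot]
  intro hd
  have h1 : p ∣ 50232960 := (dvd_pow_self p two_ne_zero).trans hd
  have h4 : p ∈ Nat.primeFactors 50232960 := Nat.mem_primeFactors.2 ⟨hp, h1, by norm_num⟩
  have h6 : Nat.primeFactors 50232960 = {2, 3, 5, 17, 19} := by
    rw [show (50232960 : ℕ) = 2 ^ 7 * (3 ^ 5 * (5 * (17 * 19))) by norm_num]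
    rw [Nat.primeFactors_mul (by norm_num) (by norm_num), Nat.primeFactors_mul (by norm_num) (by norm_num),
      Nat.primeFactors_mul (by norm_num) (by norm_num), Nat.primeFactors_mul (by norm_num) (by norm_num),
      Nat.primeFactors_prime_pow (by norm_num) (by norm_num), Nat.primeFactors_prime_pow (by norm_num) (by norm_num),
      Nat.Prime.primeFactors (by norm_num), Nat.Prime.primeFactors (by norm_num), Nat.Prime.primeFactors (by norm_num)]
    decide
  rw [h6] at h4
  simp only [Finset.mem_insert, Finset.mem_singleton] at h4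
  have h7 : p = 5 ∨ p = 17 ∨ p = 19 := by tauto
  rcases h7 with rfl | rfl | rfl
  all_goals
    revert hd
    norm_num

theorem perfect_W : commutator W = ⊤ := by
  rcases le_or_top (commutator W) with h | h
  · exfalso
    have h1 : ∀ a b : JJ, a * b = b * a := by
      intro a b
      obtain ⟨x, rfl⟩ := QuotientGroup.mk'_surjective (Subgroup.center W) a
      obtain ⟨y, rfl⟩ := QuotientGroup.mk'_surjective (Subgroup.center W) b
      have h2 : x * y * x⁻¹ * y⁻¹ ∈ Subgroup.center W := by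
        rw [center_eq]
        exact h (Subgroup.commutator_mem_commutator (Subgroup.mem_top x) (Subgroup.mem_top y))
      have h3 : pj (x * y * x⁻¹ * y⁻¹) = 1 := (QuotientGroup.eq_one_iff _).2 h2
      rw [map_mul, map_mul, map_mul, map_inv, map_inv] at h3
      rw [mul_inv_eq_one, mul_inv_eq_iff_eq_mul] at h3
      exact h3
    have := simple_quot
    have h4 : (Nat.card JJ).Prime := by
      let _ : CommGroup JJ := { (inferInstance : Group JJ) with mul_comm := h1 }
      exact IsSimpleGroup.prime_card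
    rw [card_quot] at h4
    revert h4
    norm_num
  · exact h

theorem stem_mk : IsStemExtension (pj : W →* JJ) := by
  refine ⟨QuotientGroup.mk'_surjective _, ?_, ?_⟩
  · rw [QuotientGroup.ker_mk']
  · rw [perfect_W]; exact le_top

theorem mult_J : HasCyclicSchurMultiplier JJ 3 := by
  refine hasCyclic_of_squarefree ((Nat.prime_iff.1 Nat.prime_three).squarefree) stem_J
    ⟨W, inferInstance, inferInstance, pj, stem_mk, ?_⟩
  rw [QuotientGroup.ker_mk']
  exact card_center

theorem mult_J3 (F : Type*) [Field F] [Fintype F] (hF : Fintype.card F = 4) (ω : F) (hω : ω ^ 2 + ω + 1 = 0) :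
    HasCyclicSchurMultiplier (Spor.J3 F ω) 3 := by
  obtain ⟨e⟩ := exists_J F hF ω hω
  exact hasSchurMultiplier_congr e.symm mult_J

end Cfsg.Agent.Lib.JThree
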