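import Cfsg.Agent.Lib.JThreeMove
import Cfsg.Prelude.Def_Classical

/-!
`3·J₃` as a subgroup of the special unitary group in dimension nine.
-/

set_option autoImplicit false

namespace Cfsg.Agent.Lib.JThree

open Cfsg Cfsg.Agent.Lib.K4 Cfsg.Agent.Lib.F4Pack Matrix

theorem uni_x : ∀ i j : Spor.F9, frob (dc Xc i j) = dc Xi j i := by decide +kernel
theorem uni_y : ∀ i j : Spor.F9, frob (dc Yc i j) = dc Yi j i := by decide +kernel

theorem x_val : (xG : Mt) = dc Xc := rfl
theorem y_val : (yG : Mt) = dc Yc := rfl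
theorem x_inv_val : ((xG⁻¹ : GLM) : Mt) = dc Xi := rfl
theorem y_inv_val : ((yG⁻¹ : GLM) : Mt) = dc Yi := rfl

/-- unitary matrices -/
def Uni (g : GLM) : Prop := (g : Mt)ᵀ * (g : Mt).map frob = 1

theorem uni_of {g : GLM} (h : ∀ i j, frob ((g : Mt) i j) = ((g⁻¹ : GLM) : Mt) j i) : Uni g := by
  have h1 : (g : Mt).map frob = ((g⁻¹ : GLM) : Mt)ᵀ := Matrix.ext fun i j => h i j
  rw [Uni, h1, ← Matrix.transpose_mul, ← Units.val_mul, inv_mul_cancel, Units.val_one, Matrix.transpose_one]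

theorem Uni_x : Uni xG := uni_of (fun i j => by rw [x_inv_val, x_val]; exact uni_x i j)
theorem Uni_y : Uni yG := uni_of (fun i j => by rw [y_inv_val, y_val]; exact uni_y i j)

theorem Uni_mul {g h : GLM} (hg : Uni g) (hh : Uni h) : Uni (g * h) := by
  rw [Uni, Units.val_mul, Matrix.transpose_mul, Matrix.map_mul, Matrix.mul_assoc, ← Matrix.mul_assoc ((g : Mt)ᵀ), hg,
    Matrix.one_mul, hh]

theorem Uni_one : Uni 1 := by
  rw [Uni, Units.val_one, Matrix.transpose_one, Matrix.one_mul, Matrix.map_one frob (map_zero frob) (map_one frob)]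

theorem Uni_H : ∀ g ∈ H, Uni g := H_induction Uni_one (fun _ _ h => Uni_mul Uni_x h) (fun _ _ h => Uni_mul Uni_y h)

theorem det_of_pow {g : GLM} (h : g ^ 19 = 1) : (g : Mt).det = 1 := by
  have h1 : (g : Mt).det ^ 19 = 1 := by
    rw [← Matrix.det_pow, ← Units.val_pow_eq_pow_val, h, Units.val_one, Matrix.det_one]
  have key : ∀ d : K4, d ^ 19 = 1 → d = 1 := by decide
  exact key _ h1

theorem det_H : ∀ g ∈ H, (g : Mt).det = 1 := by
  refine H_induction ?_ ?_ ?_
  · rw [Units.val_one, Matrix.det_one]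
  · intro g _ h
    rw [Units.val_mul, Matrix.det_mul, h, det_of_pow x_pow, one_mul]
  · intro g _ h
    rw [Units.val_mul, Matrix.det_mul, h, det_of_pow y_pow, one_mul]

theorem herm_of {M : Matrix (Fin 9) (Fin 9) K4} (h : Mᵀ * M.map frob = 1) (u v : Fin 9 → K4) :
    hermForm 9 K4 2 (M *ᵥ u) (M *ᵥ v) = hermForm 9 K4 2 u v := by
  have h1 : ∀ u v : Fin 9 → K4, hermForm 9 K4 2 u v = u ⬝ᵥ (frob ∘ v) := by
    intro u v
    rw [hermForm, dotProduct]
    refine Finset.sum_congr rfl fun i _ => ?_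
    rw [pow_two]
    rfl
  have h2 : frob ∘ (M *ᵥ v) = M.map frob *ᵥ (frob ∘ v) := by
    funext i
    exact RingHom.map_mulVec (frob : K4 →+* K4) M v i
  rw [h1, h1, h2, Matrix.dotProduct_mulVec, ← Matrix.vecMul_transpose, Matrix.vecMul_vecMul, h, Matrix.vecMul_one]

/-- the embedding into the special unitary group -/
noncomputable def toSU : W →* SU 9 K4 2 where
  toFun w := ⟨⟨(w.1 : Mt).submatrix eqv eqv, by rw [Matrix.det_submatrix_equiv_self]; exact det_H _ w.2⟩, by
    intro u v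
    refine herm_of (M := (w.1 : Mt).submatrix eqv eqv) ?_ u v
    have h := Uni_H _ w.2
    have e1 : ((w.1 : Mt).submatrix eqv eqv)ᵀ = ((w.1 : Mt)ᵀ).submatrix eqv eqv := rfl
    have e2 : ((w.1 : Mt).submatrix eqv eqv).map frob = ((w.1 : Mt).map frob).submatrix eqv eqv := rfl
    rw [e1, e2, Matrix.submatrix_mul_equiv, h, Matrix.submatrix_one_equiv]⟩
  map_one' := by
    apply Subtype.ext
    apply Subtype.ext
    show ((1 : GLM) : Mt).submatrix eqv eqv = 1
    rw [Units.val_one, Matrix.submatrix_one_equiv]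
  map_mul' a b := by
    apply Subtype.ext
    apply Subtype.ext
    show ((a.1 * b.1 : GLM) : Mt).submatrix eqv eqv = (a.1 : Mt).submatrix eqv eqv * (b.1 : Mt).submatrix eqv eqv
    rw [Units.val_mul, Matrix.submatrix_mul_equiv]

theorem toSU_inj : Function.Injective toSU := by
  intro a b h
  apply Subtype.ext
  apply Units.ext
  have h1 : (a.1 : Mt).submatrix eqv eqv = (b.1 : Mt).submatrix eqv eqv :=
    congrArg (fun s : SU 9 K4 2 => (s.1.1 : Matrix (Fin 9) (Fin 9) K4)) h
  ext i j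
  have := congrFun (congrFun h1 (eqv.symm i)) (eqv.symm j)
  simpa using this

end Cfsg.Agent.Lib.JThree
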