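import Mathlib

/-!
helper8: Jordan's theorem: a sharply 4-transitive group has degree 4, 5, 6 or 11.
-/
set_option autoImplicit false

namespace Cfsg.Agent.Lib.Jordan4

open MulAction

variable {G α : Type*} [Group G] [MulAction G α]

/-- four distinct points -/
def D4 (a b c d : α) : Prop := a ≠ b ∧ a ≠ c ∧ a ≠ d ∧ b ≠ c ∧ b ≠ d ∧ c ≠ d

variable (G α) in
structure Sharp4 : Prop where
  tr : ∀ {a b c d a' b' c' d' : α}, D4 a b c d → D4 a' b' c' d' →
    ∃ g : G, g • a = a' ∧ g • b = b' ∧ g • c = c' ∧ g • d = d'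
  sh : ∀ {a b c d : α}, D4 a b c d → ∀ g : G, g • a = a → g • b = b → g • c = c → g • d = d → g = 1

theorem Sharp4.ext4 (h : Sharp4 G α) {a b c d : α} (hd : D4 a b c d) {g g' : G}
    (h1 : g • a = g' • a) (h2 : g • b = g' • b) (h3 : g • c = g' • c) (h4 : g • d = g' • d) : g = g' := by
  have := h.sh hd (g'⁻¹ * g) (by rw [mul_smul, h1, inv_smul_smul]) (by rw [mul_smul, h2, inv_smul_smul])
    (by rw [mul_smul, h3, inv_smul_smul]) (by rw [mul_smul, h4, inv_smul_smul])
  rw [inv_mul_eq_one] at this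
  exact this.symm

theorem Sharp4.swap2 (h : Sharp4 G α) {a b c d : α} (hd : D4 a b c d) :
    ∃ g : G, g * g = 1 ∧ g • a = b ∧ g • b = a ∧ g • c = d ∧ g • d = c := by
  have hd' : D4 b a d c := ⟨hd.1.symm, hd.2.2.2.2.1, hd.2.2.2.1, hd.2.2.1, hd.2.1, hd.2.2.2.2.2.symm⟩
  obtain ⟨g, h1, h2, h3, h4⟩ := h.tr hd hd'
  refine ⟨g, ?_, h1, h2, h3, h4⟩
  apply h.sh hd
  · rw [mul_smul, h1, h2]
  · rw [mul_smul, h2, h1]
  · rw [mul_smul, h3, h4]
  · rw [mul_smul, h4, h3]

theorem Sharp4.swap1 (h : Sharp4 G α) {a b c d : α} (hd : D4 a b c d) :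
    ∃ g : G, g * g = 1 ∧ g • a = b ∧ g • b = a ∧ g • c = c ∧ g • d = d := by
  have hd' : D4 b a c d := ⟨hd.1.symm, hd.2.2.2.1, hd.2.2.2.2.1, hd.2.1, hd.2.2.1, hd.2.2.2.2.2⟩
  obtain ⟨g, h1, h2, h3, h4⟩ := h.tr hd hd'
  refine ⟨g, ?_, h1, h2, h3, h4⟩
  apply h.sh hd
  · rw [mul_smul, h1, h2]
  · rw [mul_smul, h2, h1]
  · rw [mul_smul, h3, h3]
  · rw [mul_smul, h4, h4]

/-- two elements both swapping `a,b` and both agreeing on two other points -/
theorem exists_three_fixed_le (h : Sharp4 G α) {t : G} (ht : t ≠ 1) {a b c d : α} (hd : D4 a b c d)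
    (h1 : t • a = a) (h2 : t • b = b) (h3 : t • c = c) : t • d ≠ d :=
  fun h4 => ht (h.sh hd t h1 h2 h3 h4)

section fin
variable [Fintype α] [DecidableEq α]

/-- the fixed points of `t` as a finset -/
def fx (t : G) : Finset α := Finset.univ.filter fun a => t • a = a

theorem mem_fx {t : G} {a : α} : a ∈ fx t ↔ t • a = a := by simp [fx]

theorem card_fx_le (h : Sharp4 G α) {t : G} (ht : t ≠ 1) : (fx (α := α) t).card ≤ 3 := by
  by_contra hcon
  push Not at hcon
  obtain ⟨s, hs, hc⟩ := Finset.exists_subset_card_eq (show 4 ≤ (fx (α := α) t).card from hcon)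
  rw [Finset.card_eq_succ] at hc
  obtain ⟨a, s1, ha, rfl, hc⟩ := hc
  rw [Finset.card_eq_three] at hc
  obtain ⟨b, c, d, hbc, hbd, hcd, rfl⟩ := hc
  simp only [Finset.mem_insert, Finset.mem_singleton, not_or] at ha
  apply ht
  apply h.sh (a := a) (b := b) (c := c) (d := d) ⟨ha.1, ha.2.1, ha.2.2, hbc, hbd, hcd⟩
  all_goals rw [← mem_fx]; apply hs; simp

/-- parity of the number of fixed points of an involution -/
theorem card_fx_mod {t : G} (ht : t * t = 1) : (fx (α := α) t).card % 2 = Fintype.card α % 2 := by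
  have : Fact (Nat.Prime 2) := ⟨Nat.prime_two⟩
  let f : Function.End α := fun x => t • x
  have hf : f ^ 2 ^ 1 = 1 := by
    rw [pow_one, sq]
    funext x
    show t • t • x = x
    rw [← mul_smul, ht, one_smul]
  have h1 := Equiv.Perm.card_fixedPoints_modEq hf
  have h2 : (fx (α := α) t).card = Fintype.card (Function.fixedPoints (fun x : α => t • x)) := by
    rw [Fintype.card_subtype]
    congr 1
  rw [h2]
  exact h1.symm

/-- the moved points of an involution in degree at least 7 -/
theorem exists_two_swaps (h : Sharp4 G α) (hn : 7 ≤ Fintype.card α) {t : G} (ht : t * t = 1) (ht1 : t ≠ 1) :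
    ∃ a b c d : α, D4 a b c d ∧ t • a = b ∧ t • b = a ∧ t • c = d ∧ t • d = c := by
  have h3 := card_fx_le h ht1
  have hc : 4 ≤ (fx (α := α) t)ᶜ.card := by rw [Finset.card_compl]; omega
  have htt : ∀ x : α, t • t • x = x := fun x => by rw [← mul_smul, ht, one_smul]
  obtain ⟨a, ha⟩ : (fx (α := α) t)ᶜ.Nonempty := Finset.card_pos.mp (by omega)
  have ha' : t • a ≠ a := by rwa [Finset.mem_compl, mem_fx] at ha
  obtain ⟨c, hc'⟩ : ((fx (α := α) t)ᶜ \ {a, t • a}).Nonempty := by
    apply Finset.card_pos.mp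
    have := Finset.le_card_sdiff {a, t • a} (fx (α := α) t)ᶜ
    have h2 := Finset.card_le_two (a := a) (b := t • a)
    omega
  rw [Finset.mem_sdiff, Finset.mem_compl, mem_fx] at hc'
  simp only [Finset.mem_insert, Finset.mem_singleton, not_or] at hc'
  refine ⟨a, t • a, c, t • c, ⟨ha'.symm, Ne.symm hc'.2.1, ?_, Ne.symm hc'.2.2, ?_, Ne.symm hc'.1⟩, rfl, htt a, rfl, htt c⟩
  · intro e
    apply hc'.2.2
    rw [e, htt]
  · intro e
    exact hc'.2.1 (smul_left_cancel t e).symm

theorem isConj_involutions (h : Sharp4 G α) (hn : 7 ≤ Fintype.card α) {t t' : G} (ht : t * t = 1) (ht1 : t ≠ 1)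
    (ht' : t' * t' = 1) (ht1' : t' ≠ 1) : ∃ g : G, g * t * g⁻¹ = t' := by
  obtain ⟨a, b, c, d, hD, h1, h2, h3, h4⟩ := exists_two_swaps h hn ht ht1
  obtain ⟨a', b', c', d', hD', h1', h2', h3', h4'⟩ := exists_two_swaps h hn ht' ht1'
  obtain ⟨g, g1, g2, g3, g4⟩ := h.tr hD hD'
  refine ⟨g, ?_⟩
  have e1 : g⁻¹ • a' = a := by rw [← g1, inv_smul_smul]
  have e2 : g⁻¹ • b' = b := by rw [← g2, inv_smul_smul]
  have e3 : g⁻¹ • c' = c := by rw [← g3, inv_smul_smul]
  have e4 : g⁻¹ • d' = d := by rw [← g4, inv_smul_smul]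
  apply h.ext4 hD'
  · rw [mul_smul, mul_smul, e1, h1, g2, h1']
  · rw [mul_smul, mul_smul, e2, h2, g1, h2']
  · rw [mul_smul, mul_smul, e3, h3, g4, h3']
  · rw [mul_smul, mul_smul, e4, h4, g3, h4']

theorem card_fx_conj (g t : G) : (fx (α := α) (g * t * g⁻¹)).card = (fx (α := α) t).card := by
  symm
  apply Finset.card_bij (fun a _ => g • a)
  · intro a ha
    rw [mem_fx] at ha ⊢
    rw [mul_smul, mul_smul, inv_smul_smul, ha]
  · intro a _ b _ hab
    exact smul_left_cancel g hab
  · intro b hb
    rw [mem_fx] at hb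
    refine ⟨g⁻¹ • b, ?_, smul_inv_smul g b⟩
    rw [mem_fx]
    rw [mul_smul, mul_smul] at hb
    rw [eq_inv_smul_iff]
    exact hb

/-- number of fixed points of involutions -/
theorem card_fx_inv (h : Sharp4 G α) (hn : 7 ≤ Fintype.card α) {t : G} (ht : t * t = 1) (ht1 : t ≠ 1) :
    (fx (α := α) t).card = 2 ∨ (fx (α := α) t).card = 3 := by
  obtain ⟨a, b, c, d, hD, -⟩ := exists_two_swaps h hn ht ht1
  obtain ⟨k, hk, k1, k2, k3, k4⟩ := h.swap1 hD
  have hk1 : k ≠ 1 := by
    rintro rfl
    rw [one_smul] at k1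
    exact hD.1 k1
  obtain ⟨g, hg⟩ := isConj_involutions h hn hk hk1 ht ht1
  rw [← hg, card_fx_conj]
  have h3 := card_fx_le h hk1
  have : 2 ≤ (fx (α := α) k).card := by
    have hs : ({c, d} : Finset α) ⊆ fx k := by
      intro x hx
      simp only [Finset.mem_insert, Finset.mem_singleton] at hx
      rw [mem_fx]
      rcases hx with rfl | rfl
      · exact k3
      · exact k4
    have := Finset.card_le_card hs
    rwa [Finset.card_pair hD.2.2.2.2.2] at this
  omega

/-- at most one element fixes exactly `p, q` and maps `z` to `w` -/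
theorem fpf_unique (h : Sharp4 G α) {p q z w : α} (hD : D4 p q z w) {u t : G}
    (hu : u • p = p ∧ u • q = q ∧ u • z = w ∧ ∀ y, u • y = y → y = p ∨ y = q)
    (ht : t • p = p ∧ t • q = q ∧ t • z = w ∧ ∀ y, t • y = y → y = p ∨ y = q) : u = t := by
  classical
  by_contra hne
  obtain ⟨hpq, hpz, hpw, hqz, hqw, hzw⟩ := hD
  set Y : Finset α := {p, q, z, w}ᶜ with hY
  have hYc : Y.card + 4 = Fintype.card α := by
    have h4 : ({p, q, z, w} : Finset α).card = 4 := by
      rw [Finset.card_insert_of_notMem, Finset.card_insert_of_notMem, Finset.card_insert_of_notMem,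
        Finset.card_singleton] <;> simp [*]
    have h5 := Finset.card_compl ({p, q, z, w} : Finset α)
    have h6 := Finset.card_le_univ ({p, q, z, w} : Finset α)
    rw [h4] at h5 h6
    rw [hY, h5]
    omega
  have hex : ∀ y : α, y ∈ Y → ∃ g : G, g • p = p ∧ g • q = q ∧ g • z = w ∧ g • y = y := by
    intro y hy
    simp only [hY, Finset.mem_compl, Finset.mem_insert, Finset.mem_singleton, not_or] at hy
    exact h.tr ⟨hpq, hpz, Ne.symm hy.1, hqz, Ne.symm hy.2.1, Ne.symm hy.2.2.1⟩
      ⟨hpq, hpw, Ne.symm hy.1, hqw, Ne.symm hy.2.1, Ne.symm hy.2.2.2⟩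
  choose! f hf using hex
  have hinj : Set.InjOn f Y := by
    intro y hy y' hy' hyy
    by_contra hne'
    have h1 := hf y hy
    have h2 := hf y' hy'
    rw [← hyy] at h2
    simp only [hY, Finset.coe_compl, Set.mem_compl_iff, Finset.mem_coe, Finset.mem_insert,
      Finset.mem_singleton, not_or] at hy hy'
    have h3 := h.sh ⟨hpq, Ne.symm hy.1, Ne.symm hy'.1, Ne.symm hy.2.1, Ne.symm hy'.2.1, hne'⟩ (f y)
      h1.1 h1.2.1 h1.2.2.2 h2.2.2.2
    have h4 := h1.2.2.1
    rw [h3, one_smul] at h4
    exact hzw h4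
  have hnot : ∀ v : G, (∀ y, v • y = y → y = p ∨ y = q) → v ∉ Y.image f := by
    intro v hv hmem
    rw [Finset.mem_image] at hmem
    obtain ⟨y, hy, rfl⟩ := hmem
    have h1 := (hf y hy).2.2.2
    simp only [hY, Finset.mem_compl, Finset.mem_insert, Finset.mem_singleton, not_or] at hy
    rcases hv y h1 with h2 | h2
    · exact hy.1 h2
    · exact hy.2.1 h2
  set S : Finset G := insert u (insert t (Y.image f)) with hS
  have hSc : S.card = Y.card + 2 := by
    rw [hS, Finset.card_insert_of_notMem, Finset.card_insert_of_notMem, Finset.card_image_of_injOn hinj]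
    · exact hnot t ht.2.2.2
    · rw [Finset.mem_insert, not_or]
      exact ⟨hne, hnot u hu.2.2.2⟩
  have hSprop : ∀ g ∈ S, g • p = p ∧ g • q = q ∧ g • z = w := by
    intro g hg
    rw [hS, Finset.mem_insert, Finset.mem_insert, Finset.mem_image] at hg
    rcases hg with rfl | rfl | ⟨y, hy, rfl⟩
    · exact ⟨hu.1, hu.2.1, hu.2.2.1⟩
    · exact ⟨ht.1, ht.2.1, ht.2.2.1⟩
    · exact ⟨(hf y hy).1, (hf y hy).2.1, (hf y hy).2.2.1⟩
  have hle : S.card ≤ ({p, q, w}ᶜ : Finset α).card := by
    apply Finset.card_le_card_of_injOn (fun g => g • w)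
    · intro g hg
      have h1 := hSprop g hg
      simp only [Finset.coe_compl, Set.mem_compl_iff, Finset.mem_coe, Finset.mem_insert,
        Finset.mem_singleton, not_or]
      refine ⟨?_, ?_, ?_⟩
      · intro e
        rw [← h1.1] at e
        exact hpw (smul_left_cancel g e.symm ▸ rfl)
      · intro e
        rw [← h1.2.1] at e
        exact hqw (smul_left_cancel g e.symm ▸ rfl)
      · intro e
        have e' : g • w = g • z := by rw [e, h1.2.2]
        exact hzw (smul_left_cancel g e').symm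
    · intro g hg g' hg' e
      have h1 := hSprop g hg
      have h2 := hSprop g' hg'
      exact h.ext4 ⟨hpq, hpz, hpw, hqz, hqw, hzw⟩ (by rw [h1.1, h2.1]) (by rw [h1.2.1, h2.2.1])
        (by rw [h1.2.2, h2.2.2]) e
  have h3 : ({p, q, w} : Finset α).card = 3 := by
    rw [Finset.card_insert_of_notMem, Finset.card_insert_of_notMem, Finset.card_singleton] <;> simp [*]
  rw [Finset.card_compl, h3] at hle
  omega

theorem even_case [Finite G] (h : Sharp4 G α) (hn : 7 ≤ Fintype.card α)
    (h2 : ∀ t : G, t * t = 1 → t ≠ 1 → (fx (α := α) t).card = 2) : False := by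
  classical
  have : Fintype G := Fintype.ofFinite G
  -- four distinct points
  obtain ⟨s, -, hs⟩ := Finset.exists_subset_card_eq (show 4 ≤ (Finset.univ : Finset α).card by
    rw [Finset.card_univ]; omega)
  rw [Finset.card_eq_succ] at hs
  obtain ⟨a, s1, ha, rfl, hc⟩ := hs
  rw [Finset.card_eq_three] at hc
  obtain ⟨b, c, d, hbc, hbd, hcd, rfl⟩ := hc
  simp only [Finset.mem_insert, Finset.mem_singleton, not_or] at ha
  obtain ⟨hab, hac, had⟩ := ha
  obtain ⟨t0, ht0, h01, h02, h03, h04⟩ := h.swap1 (a := c) (b := d) (c := a) (d := b)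
    ⟨hcd, Ne.symm hac, Ne.symm hbc, Ne.symm had, Ne.symm hbd, hab⟩
  obtain ⟨k, hk, hk1, hk2, hk3, hk4⟩ := h.swap1 (a := a) (b := b) (c := c) (d := d)
    ⟨hab, hac, had, hbc, hbd, hcd⟩
  have hkne : k ≠ 1 := by
    rintro rfl
    rw [one_smul] at hk1
    exact hab hk1
  -- fixed points of an involution fixing two given points
  have fixpq : ∀ (t : G) (p q : α), p ≠ q → t * t = 1 → t ≠ 1 → t • p = p → t • q = q →
      ∀ y, t • y = y → y = p ∨ y = q := by
    intro t p q hpq ht ht1 hp hq y hy
    have hsub : ({p, q} : Finset α) ⊆ fx t := by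
      intro x hx
      simp only [Finset.mem_insert, Finset.mem_singleton] at hx
      rw [mem_fx]
      rcases hx with rfl | rfl
      · exact hp
      · exact hq
    have heq := Finset.eq_of_subset_of_card_le hsub (by rw [h2 t ht ht1, Finset.card_pair hpq])
    have : y ∈ fx t := mem_fx.mpr hy
    rw [← heq] at this
    simpa using this
  set N : Finset G := Finset.univ.filter (fun g => g * g = 1 ∧ g • a = a ∧ g • b = b) with hN
  have memN : ∀ g, g ∈ N ↔ (g * g = 1 ∧ g • a = a ∧ g • b = b) := by intro g; simp [hN]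
  have hmul : ∀ g ∈ N, ∀ g' ∈ N, g * g' ∈ N := by
    intro g hg g' hg'
    rw [memN] at hg hg'
    by_cases e1 : g = 1
    · subst e1; rw [one_mul, memN]; exact hg'
    by_cases e2 : g' = 1
    · subst e2; rw [mul_one, memN]; exact hg
    by_cases e3 : g = g'
    · subst e3; rw [hg.1, memN]; simp
    have hua : (g * g') • a = a := by rw [mul_smul, hg'.2.1, hg.2.1]
    have hub : (g * g') • b = b := by rw [mul_smul, hg'.2.2, hg.2.2]
    have hgg : ∀ x : α, g • g • x = x := fun x => by rw [← mul_smul, hg.1, one_smul]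
    have hgg' : ∀ x : α, g' • g' • x = x := fun x => by rw [← mul_smul, hg'.1, one_smul]
    have hufix : ∀ y, (g * g') • y = y → y = a ∨ y = b := by
      intro z hz
      by_contra hcon
      push Not at hcon
      have hz' : g' • z = g • z := by
        rw [mul_smul] at hz
        have := congrArg (fun x => g • x) hz
        simp only [hgg] at this
        exact this
      have hw1 : g • z ≠ z := by
        intro e
        rcases fixpq g a b hab hg.1 e1 hg.2.1 hg.2.2 z e with h' | h'
        · exact hcon.1 h'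
        · exact hcon.2 h'
      have hw2 : g • z ≠ a := by
        intro e
        apply hcon.1
        rw [← hgg z, e, hg.2.1]
      have hw3 : g • z ≠ b := by
        intro e
        apply hcon.2
        rw [← hgg z, e, hg.2.2]
      apply e3
      apply h.ext4 (a := a) (b := b) (c := z) (d := g • z)
        ⟨hab, Ne.symm hcon.1, Ne.symm hw2, Ne.symm hcon.2, Ne.symm hw3, Ne.symm hw1⟩
      · rw [hg.2.1, hg'.2.1]
      · rw [hg.2.2, hg'.2.2]
      · exact hz'.symm
      · rw [hgg, ← hz', hgg']
    have hw1 : (g * g') • c ≠ c := by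
      intro e
      rcases hufix c e with h' | h'
      · exact hac h'.symm
      · exact hbc h'.symm
    have hw2 : (g * g') • c ≠ a := by
      intro e
      rw [← hua] at e
      exact hac (smul_left_cancel _ e).symm
    have hw3 : (g * g') • c ≠ b := by
      intro e
      rw [← hub] at e
      exact hbc (smul_left_cancel _ e).symm
    obtain ⟨t, ht, t1, t2, t3, t4⟩ := h.swap1 (a := c) (b := (g * g') • c) (c := a) (d := b)
      ⟨Ne.symm hw1, Ne.symm hac, Ne.symm hbc, hw2, hw3, hab⟩
    have htne : t ≠ 1 := by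
      rintro rfl
      rw [one_smul] at t1
      exact hw1 t1.symm
    have := fpf_unique h (p := a) (q := b) (z := c) (w := (g * g') • c)
      ⟨hab, hac, Ne.symm hw2, hbc, Ne.symm hw3, Ne.symm hw1⟩ (u := g * g') (t := t)
      ⟨hua, hub, rfl, hufix⟩ ⟨t3, t4, t1, fixpq t a b hab ht htne t3 t4⟩
    rw [memN]
    refine ⟨?_, hua, hub⟩
    rw [this, ht]
  have hcomm : ∀ g ∈ N, ∀ g' ∈ N, g * g' = g' * g := by
    intro g hg g' hg'
    have h1 := ((memN _).mp (hmul g hg g' hg')).1
    have h3 := ((memN _).mp hg).1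
    have h4 := ((memN _).mp hg').1
    have e1 : g⁻¹ = g := inv_eq_of_mul_eq_one_left h3
    have e2 : g'⁻¹ = g' := inv_eq_of_mul_eq_one_left h4
    have e3 : (g * g')⁻¹ = g * g' := inv_eq_of_mul_eq_one_left h1
    rw [← e3, mul_inv_rev, e1, e2]
  have hkinv : k⁻¹ = k := inv_eq_of_mul_eq_one_left hk
  have hkN : ∀ g ∈ N, k * g * k ∈ N := by
    intro g hg
    rw [memN] at hg ⊢
    refine ⟨?_, ?_, ?_⟩
    · calc k * g * k * (k * g * k) = k * g * (k * k) * g * k := by group
        _ = k * (g * g) * k := by rw [hk]; group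
        _ = 1 := by rw [hg.1, mul_one, hk]
    · rw [mul_smul, mul_smul, hk1, hg.2.2, hk2]
    · rw [mul_smul, mul_smul, hk2, hg.2.1, hk1]
  -- C_N(k)
  set C : Finset G := N.filter (fun g => k * g * k = g) with hC
  have hCc : C.card ≤ 2 := by
    have hsub : C ⊆ {1, t0} := by
      intro x hx
      rw [hC, Finset.mem_filter, memN] at hx
      obtain ⟨⟨hx1, hx2, hx3⟩, hx4⟩ := hx
      have hxk : k • x • c = x • c := by
        have : k * x = x * k := by
          calc k * x = k * x * (k * k) := by rw [hk, mul_one]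
            _ = (k * x * k) * k := by group
            _ = x * k := by rw [hx4]
        rw [← mul_smul, this, mul_smul, hk3]
      rw [Finset.mem_insert, Finset.mem_singleton]
      rcases fixpq k c d hcd hk hkne hk3 hk4 _ hxk with e | e
      · left
        by_contra hx0
        rcases fixpq x a b hab hx1 hx0 hx2 hx3 c e with h' | h'
        · exact hac h'.symm
        · exact hbc h'.symm
      · right
        apply h.ext4 (a := a) (b := b) (c := c) (d := d) ⟨hab, hac, had, hbc, hbd, hcd⟩
        · rw [hx2, h03]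
        · rw [hx3, h04]
        · rw [e, h01]
        · rw [h02, ← e, ← mul_smul, hx1, one_smul]
    exact (Finset.card_le_card hsub).trans Finset.card_le_two
  have hN4 : N.card ≤ 2 * C.card := by
    apply Finset.card_le_mul_card_image_of_maps_to (f := fun x => x * (k * x * k))
    · intro x hx
      rw [hC, Finset.mem_filter]
      refine ⟨hmul x hx _ (hkN x hx), ?_⟩
      calc k * (x * (k * x * k)) * k = (k * x * k) * (x * (k * k)) := by group
        _ = (k * x * k) * x := by rw [hk, mul_one]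
        _ = x * (k * x * k) := hcomm _ (hkN x hx) _ hx
    · intro y _
      by_cases hem : (N.filter fun x => x * (k * x * k) = y).Nonempty
      · obtain ⟨x0, hx0⟩ := hem
        rw [Finset.mem_filter] at hx0
        refine le_trans ?_ hCc
        apply Finset.card_le_card_of_injOn (fun x => x0 * x)
        · intro x hx
          rw [Finset.mem_coe, Finset.mem_filter] at hx
          rw [Finset.mem_coe, hC, Finset.mem_filter]
          refine ⟨hmul _ hx0.1 _ hx.1, ?_⟩
          have e1 : x0 * (k * x0 * k) = x * (k * x * k) := by rw [hx0.2, hx.2]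
          have i0 : x0 * x0 = 1 := ((memN _).mp hx0.1).1
          have ix : x * x = 1 := ((memN _).mp hx.1).1
          have ikx : (k * x * k) * (k * x * k) = 1 := ((memN _).mp (hkN _ hx.1)).1
          calc k * (x0 * x) * k = (k * x0 * k) * (k * x * k) := by
                calc k * (x0 * x) * k = k * x0 * (1 : G) * x * k := by group
                  _ = k * x0 * (k * k) * x * k := by rw [hk]
                  _ = _ := by group
            _ = x0 * (x0 * (k * x0 * k)) * (k * x * k) := by
                rw [← mul_assoc x0 x0, i0, one_mul]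
            _ = x0 * (x * (k * x * k)) * (k * x * k) := by rw [e1]
            _ = x0 * x * ((k * x * k) * (k * x * k)) := by group
            _ = x0 * x := by rw [ikx, mul_one]
        · intro x _ x' _ e
          exact mul_left_cancel e
      · rw [Finset.not_nonempty_iff_eq_empty] at hem
        rw [hem, Finset.card_empty]
        omega
  have hNc : Fintype.card α - 2 ≤ N.card := by
    have hp : ({a, b} : Finset α).card = 2 := Finset.card_pair hab
    have hcc : ({a, b}ᶜ : Finset α).card = Fintype.card α - 2 := by rw [Finset.card_compl, hp]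
    rw [← hcc]
    have hex : ∀ z : α, z ∈ ({a, b}ᶜ : Finset α) → ∃ g : G, g ∈ N ∧ g • c = z := by
      intro z hz
      simp only [Finset.mem_compl, Finset.mem_insert, Finset.mem_singleton, not_or] at hz
      by_cases hzc : z = c
      · exact ⟨1, (memN 1).mpr (by simp), by rw [one_smul, hzc]⟩
      · obtain ⟨t, ht, t1, t2, t3, t4⟩ := h.swap1 (a := c) (b := z) (c := a) (d := b)
          ⟨Ne.symm hzc, Ne.symm hac, Ne.symm hbc, hz.1, hz.2, hab⟩
        exact ⟨t, (memN t).mpr ⟨ht, t3, t4⟩, t1⟩
    choose! f hf using hex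
    apply Finset.card_le_card_of_injOn f
    · intro z hz
      exact (hf z hz).1
    · intro z hz z' hz' e
      rw [← (hf z hz).2, ← (hf z' hz').2, e]
  omega

end fin

end Cfsg.Agent.Lib.Jordan4
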