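import Mathlib
import Cfsg.Agent.Lib.Jordan4

/-!
helper8: Jordan's theorem, odd degree case and conclusion.
-/
set_option autoImplicit false

namespace Cfsg.Agent.Lib.Jordan4

open MulAction

variable {G α : Type*} [Group G] [MulAction G α] [Fintype α] [DecidableEq α]

/-- Setting: `t0` fixes `a b e` exactly, swaps `c d`; `k` an involution fixing exactly `c d f`, where
`f ∈ {a,b,e}`, permuting `{a,b,e}`. -/
theorem odd_card_le [Fintype G] [DecidableEq G] (h : Sharp4 G α) {a b e c d : α} (hD : D4 a b e c) (hD' : D4 a b e d)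
    (hcd : c ≠ d) {t0 : G} (h0a : t0 • a = a) (h0b : t0 • b = b) (h0e : t0 • e = e)
    (h0c : t0 • c = d) {Q : Finset G} (memQ : ∀ g, g ∈ Q ↔ (g • a = a ∧ g • b = b ∧ g • e = e))
    {k : G} (hkQ : ∀ x ∈ Q, k * x * k⁻¹ ∈ Q)
    (hfix : ∀ y, k • y = y → y = a ∨ y = b ∨ y = e ∨ y = c ∨ y = d) (hkc : k • c = c) :
    Q.card ≤ 2 * (Q.filter fun x => k * x * k⁻¹ = x⁻¹ * (k * k) * (k * k)⁻¹).card ∨ k * k ≠ 1 := by
  by_cases hk : k * k = 1
  swap
  · exact Or.inr hk
  left
  obtain ⟨hab, hae, hac, hbe, hbc, hec⟩ := hD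
  obtain ⟨-, -, had, -, hbd, hed⟩ := hD'
  -- centraliser
  set C : Finset G := Q.filter fun x => k * x * k⁻¹ = x with hC
  have hCc : C.card ≤ 2 := by
    have hsub : C ⊆ {1, t0} := by
      intro x hx
      rw [hC, Finset.mem_filter, memQ] at hx
      obtain ⟨⟨hx1, hx2, hx3⟩, hx4⟩ := hx
      have hxk : k • x • c = x • c := by
        have : k * x = x * k := by
          rw [mul_inv_eq_iff_eq_mul] at hx4
          exact hx4
        rw [← mul_smul, this, mul_smul, hkc]
      rw [Finset.mem_insert, Finset.mem_singleton]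
      have hne : ∀ y : α, x • y = y → y ≠ c → x • c ≠ y := by
        intro y hy hyc e'
        rw [← hy] at e'
        exact hyc (smul_left_cancel _ e').symm
      rcases hfix _ hxk with e' | e' | e' | e' | e'
      · exact absurd e' (hne a hx1 hac)
      · exact absurd e' (hne b hx2 hbc)
      · exact absurd e' (hne e hx3 hec)
      · left
        exact h.sh ⟨hab, hae, hac, hbe, hbc, hec⟩ x hx1 hx2 hx3 e'
      · right
        apply h.ext4 (a := a) (b := b) (c := e) (d := c) ⟨hab, hae, hac, hbe, hbc, hec⟩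
        · rw [hx1, h0a]
        · rw [hx2, h0b]
        · rw [hx3, h0e]
        · rw [e', h0c]
    exact (Finset.card_le_card hsub).trans Finset.card_le_two
  have hmul : ∀ x ∈ Q, ∀ y ∈ Q, x * y ∈ Q := by
    intro x hx y hy
    rw [memQ] at *
    simp [mul_smul, hx.1, hx.2.1, hx.2.2, hy.1, hy.2.1, hy.2.2]
  have hinv : ∀ x ∈ Q, x⁻¹ ∈ Q := by
    intro x hx
    rw [memQ] at *
    refine ⟨?_, ?_, ?_⟩ <;> rw [inv_smul_eq_iff]
    · exact hx.1.symm
    · exact hx.2.1.symm
    · exact hx.2.2.symm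
  apply Finset.card_le_mul_card_image_of_maps_to (f := fun x => x⁻¹ * (k * x * k⁻¹))
  · intro x hx
    rw [Finset.mem_filter]
    refine ⟨hmul _ (hinv x hx) _ (hkQ x hx), ?_⟩
    rw [hk]
    have hki : k⁻¹ = k := inv_eq_of_mul_eq_one_left hk
    calc k * (x⁻¹ * (k * x * k⁻¹)) * k⁻¹ = k * x⁻¹ * k⁻¹ * (k * k) * x * (k * k)⁻¹ := by group
      _ = k * x⁻¹ * k⁻¹ * x := by rw [hk]; group
      _ = (x⁻¹ * (k * x * k⁻¹))⁻¹ * 1 * 1⁻¹ := by group
  · intro y _
    by_cases hem : (Q.filter fun x => x⁻¹ * (k * x * k⁻¹) = y).Nonempty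
    · obtain ⟨x0, hx0⟩ := hem
      rw [Finset.mem_filter] at hx0
      refine le_trans ?_ hCc
      apply Finset.card_le_card_of_injOn (fun x => x0 * x⁻¹)
      · intro x hx
        rw [Finset.mem_coe, Finset.mem_filter] at hx
        rw [Finset.mem_coe, hC, Finset.mem_filter]
        refine ⟨hmul _ hx0.1 _ (hinv _ hx.1), ?_⟩
        have e1 : x0⁻¹ * (k * x0 * k⁻¹) = x⁻¹ * (k * x * k⁻¹) := by rw [hx0.2, hx.2]
        calc k * (x0 * x⁻¹) * k⁻¹ = x0 * (x0⁻¹ * (k * x0 * k⁻¹)) * (k * x⁻¹ * k⁻¹) := by group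
          _ = x0 * (x⁻¹ * (k * x * k⁻¹)) * (k * x⁻¹ * k⁻¹) := by rw [e1]
          _ = x0 * x⁻¹ := by group
      · intro x _ x' _ e'
        exact inv_injective (mul_left_cancel e')
    · rw [Finset.not_nonempty_iff_eq_empty] at hem
      rw [hem, Finset.card_empty]
      omega

/-- intersection of two `J`'s -/
theorem odd_inter_le [Fintype G] [DecidableEq G] (h : Sharp4 G α) {a b e c d : α} (hD : D4 a b e c)
    {t0 : G} (h0a : t0 • a = a) (h0b : t0 • b = b) (h0e : t0 • e = e)
    (h0c : t0 • c = d) {Q : Finset G} (memQ : ∀ g, g ∈ Q ↔ (g • a = a ∧ g • b = b ∧ g • e = e))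
    {k k' : G} (hk : k * k = 1) (hk' : k' * k' = 1)
    (hfix : ∀ y, (k * k') • y = y → y = c ∨ y = d) (hkc : k • c = c) (hkc' : k' • c = c) :
    ((Q.filter fun x => k * x * k⁻¹ = x⁻¹ * (k * k) * (k * k)⁻¹) ∩
      (Q.filter fun x => k' * x * k'⁻¹ = x⁻¹ * (k' * k') * (k' * k')⁻¹)).card ≤ 2 := by
  obtain ⟨hab, hae, hac, hbe, hbc, hec⟩ := hD
  refine (Finset.card_le_card (t := {1, t0}) ?_).trans Finset.card_le_two
  intro x hx
  rw [Finset.mem_inter, Finset.mem_filter, Finset.mem_filter, memQ] at hx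
  obtain ⟨⟨⟨hx1, hx2, hx3⟩, hx4⟩, -, hx5⟩ := hx
  rw [hk, mul_one, inv_one, mul_one] at hx4
  rw [hk', mul_one, inv_one, mul_one] at hx5
  have hc : (k * k') * x * (k * k')⁻¹ = x := by
    calc (k * k') * x * (k * k')⁻¹ = k * (k' * x * k'⁻¹) * k⁻¹ := by group
      _ = (k * x * k⁻¹)⁻¹ := by rw [hx5]; group
      _ = x := by rw [hx4, inv_inv]
  have hxk : (k * k') • x • c = x • c := by
    have : (k * k') * x = x * (k * k') := by
      rw [mul_inv_eq_iff_eq_mul] at hc
      exact hc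
    rw [← mul_smul, this, mul_smul, mul_smul, hkc', hkc]
  rw [Finset.mem_insert, Finset.mem_singleton]
  rcases hfix _ hxk with e' | e'
  · left
    exact h.sh ⟨hab, hae, hac, hbe, hbc, hec⟩ x hx1 hx2 hx3 e'
  · right
    apply h.ext4 (a := a) (b := b) (c := e) (d := c) ⟨hab, hae, hac, hbe, hbc, hec⟩
    · rw [hx1, h0a]
    · rw [hx2, h0b]
    · rw [hx3, h0e]
    · rw [e', h0c]

theorem fixed_of_three (h3 : ∀ t : G, t * t = 1 → t ≠ 1 → (fx (α := α) t).card = 3)
    {t : G} (ht : t * t = 1) (ht1 : t ≠ 1) {p q r : α} (hpq : p ≠ q) (hpr : p ≠ r) (hqr : q ≠ r)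
    (hp : t • p = p) (hq : t • q = q) (hr : t • r = r) (y : α) (hy : t • y = y) : y = p ∨ y = q ∨ y = r := by
  have hsub : ({p, q, r} : Finset α) ⊆ fx t := by
    intro x hx
    simp only [Finset.mem_insert, Finset.mem_singleton] at hx
    rw [mem_fx]
    rcases hx with rfl | rfl | rfl
    · exact hp
    · exact hq
    · exact hr
  have hc : ({p, q, r} : Finset α).card = 3 := Finset.card_eq_three.mpr ⟨p, q, r, hpq, hpr, hqr, rfl⟩
  have heq := Finset.eq_of_subset_of_card_le hsub (by rw [h3 t ht ht1, hc])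
  have : y ∈ fx t := mem_fx.mpr hy
  rw [← heq] at this
  simpa using this

/-- fixed points of a product of two involutions fixing `c, d` -/
theorem prod_fix (h : Sharp4 G α) {c d f f' : α} (hcd : c ≠ d) (hff : f ≠ f') {k k' : G}
    (hk : k * k = 1) (hk' : k' * k' = 1) (hkk : k ≠ k')
    (hc : k • c = c) (hd : k • d = d) (hc' : k' • c = c) (hd' : k' • d = d)
    (hf : ∀ y, k • y = y → y = c ∨ y = d ∨ y = f) (hf' : ∀ y, k' • y = y → y = c ∨ y = d ∨ y = f')
    (y : α) (hy : (k * k') • y = y) : y = c ∨ y = d := by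
  by_contra hcon
  push Not at hcon
  have hkk1 : ∀ x : α, k • k • x = x := fun x => by rw [← mul_smul, hk, one_smul]
  have hkk1' : ∀ x : α, k' • k' • x = x := fun x => by rw [← mul_smul, hk', one_smul]
  have e1 : k' • y = k • y := by
    rw [mul_smul] at hy
    have := congrArg (fun x => k • x) hy
    simp only [hkk1] at this
    exact this
  by_cases hw : k • y = y
  · have h1 := hf y hw
    have h2 := hf' y (by rw [e1, hw])
    rcases h1 with h1 | h1 | h1
    · exact hcon.1 h1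
    · exact hcon.2 h1
    · rcases h2 with h2 | h2 | h2
      · exact hcon.1 h2
      · exact hcon.2 h2
      · exact hff (h1.symm.trans h2)
  · have hwc : k • y ≠ c := by
      intro e2
      apply hcon.1
      rw [← hkk1 y, e2, hc]
    have hwd : k • y ≠ d := by
      intro e2
      apply hcon.2
      rw [← hkk1 y, e2, hd]
    apply hkk
    apply h.ext4 (a := c) (b := d) (c := y) (d := k • y)
      ⟨hcd, Ne.symm hcon.1, Ne.symm hwc, Ne.symm hcon.2, Ne.symm hwd, Ne.symm hw⟩
    · rw [hc, hc']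
    · rw [hd, hd']
    · exact e1.symm
    · rw [hkk1, ← e1, hkk1']

theorem odd_case [Finite G] (h : Sharp4 G α) (hn : 7 ≤ Fintype.card α)
    (h3 : ∀ t : G, t * t = 1 → t ≠ 1 → (fx (α := α) t).card = 3) : Fintype.card α = 11 := by
  classical
  have : Fintype G := Fintype.ofFinite G
  -- four distinct points
  obtain ⟨s, -, hs⟩ := Finset.exists_subset_card_eq (show 4 ≤ (Finset.univ : Finset α).card by
    rw [Finset.card_univ]; omega)
  rw [Finset.card_eq_succ] at hs
  obtain ⟨a, s1, ha, rfl, hc⟩ := hs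
  rw [Finset.card_eq_three] at hc
  obtain ⟨b, c, d, hbc, hbd, hcd, rfl⟩ := hc
  simp only [Finset.mem_insert, Finset.mem_singleton, not_or] at ha
  obtain ⟨hab, hac, had⟩ := ha
  obtain ⟨t0, ht0, h01, h02, h03, h04⟩ := h.swap1 (a := c) (b := d) (c := a) (d := b)
    ⟨hcd, Ne.symm hac, Ne.symm hbc, Ne.symm had, Ne.symm hbd, hab⟩
  have ht0ne : t0 ≠ 1 := by
    rintro rfl
    rw [one_smul] at h01
    exact hcd h01
  -- third fixed point
  obtain ⟨e, he, hea, heb⟩ : ∃ e : α, t0 • e = e ∧ e ≠ a ∧ e ≠ b := by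
    by_contra hcon
    push Not at hcon
    have hsub : fx (α := α) t0 ⊆ {a, b} := by
      intro x hx
      rw [mem_fx] at hx
      rw [Finset.mem_insert, Finset.mem_singleton]
      by_cases hxa : x = a
      · left; exact hxa
      · right; exact hcon x hx hxa
    have := Finset.card_le_card hsub
    rw [h3 t0 ht0 ht0ne] at this
    have h2 := Finset.card_le_two (a := a) (b := b)
    omega
  have hec : e ≠ c := by
    rintro rfl
    rw [h01] at he
    exact hcd he.symm
  have hed : e ≠ d := by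
    rintro rfl
    rw [h02] at he
    exact hcd he
  have hfix0 := fixed_of_three h3 ht0 ht0ne hab (Ne.symm hea) (Ne.symm heb) h03 h04 he
  have ht0i : t0⁻¹ = t0 := inv_eq_of_mul_eq_one_left ht0
  -- the involutions k
  have key : ∀ p q r : α, p ≠ q → p ≠ r → q ≠ r → t0 • p = p → t0 • q = q → t0 • r = r →
      (∀ y, t0 • y = y → y = p ∨ y = q ∨ y = r) →
      ∃ k : G, k * k = 1 ∧ k • p = q ∧ k • q = p ∧ k • r = r ∧ k • c = c ∧ k • d = d ∧ k ≠ 1 := by
    intro p q r hpq hpr hqr hp hq hr hfix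
    have hpc : p ≠ c := by
      rintro rfl
      rw [h01] at hp
      exact hcd hp.symm
    have hpd : p ≠ d := by
      rintro rfl
      rw [h02] at hp
      exact hcd hp
    have hqc : q ≠ c := by
      rintro rfl
      rw [h01] at hq
      exact hcd hq.symm
    have hqd : q ≠ d := by
      rintro rfl
      rw [h02] at hq
      exact hcd hq
    obtain ⟨k, hk, k1, k2, k3, k4⟩ := h.swap1 (a := p) (b := q) (c := c) (d := d)
      ⟨hpq, hpc, hpd, hqc, hqd, hcd⟩
    have hcomm : t0 * k = k * t0 := by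
      apply h.ext4 (a := p) (b := q) (c := c) (d := d) ⟨hpq, hpc, hpd, hqc, hqd, hcd⟩
      · rw [mul_smul, mul_smul, k1, hp, hq, k1]
      · rw [mul_smul, mul_smul, k2, hq, hp, k2]
      · rw [mul_smul, mul_smul, k3, h01, k4]
      · rw [mul_smul, mul_smul, k4, h02, k3]
    have hkr : t0 • k • r = k • r := by
      rw [← mul_smul, hcomm, mul_smul, hr]
    have hr' : k • r = r := by
      rcases hfix _ hkr with e' | e' | e'
      · exfalso
        rw [← k2] at e'
        exact hqr (smul_left_cancel _ e').symm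
      · exfalso
        rw [← k1] at e'
        exact hpr (smul_left_cancel _ e').symm
      · exact e'
    refine ⟨k, hk, k1, k2, hr', k3, k4, ?_⟩
    rintro rfl
    rw [one_smul] at k1
    exact hpq k1
  obtain ⟨k1, hk1, k1a, k1b, k1e, k1c, k1d, k1n⟩ := key a b e hab (Ne.symm hea) (Ne.symm heb) h03 h04 he hfix0
  obtain ⟨k2, hk2, k2a, k2e, k2b, k2c, k2d, k2n⟩ := key a e b (Ne.symm hea) hab heb h03 he h04
    (fun y hy => by rcases hfix0 y hy with h' | h' | h' <;> tauto)
  obtain ⟨k3, hk3, k3b, k3e, k3a, k3c, k3d, k3n⟩ := key b e a (Ne.symm heb) (Ne.symm hab) hea h04 he h03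
    (fun y hy => by rcases hfix0 y hy with h' | h' | h' <;> tauto)
  have f1 := fixed_of_three h3 hk1 k1n hcd (Ne.symm hec) (Ne.symm hed) k1c k1d k1e
  have f2 := fixed_of_three h3 hk2 k2n hcd (Ne.symm hbc) (Ne.symm hbd) k2c k2d k2b
  have f3 := fixed_of_three h3 hk3 k3n hcd (Ne.symm hac) (Ne.symm had) k3c k3d k3a
  have n12 : k1 ≠ k2 := by
    rintro rfl
    rw [k1a] at k2a
    exact heb k2a.symm
  have n13 : k1 ≠ k3 := by
    rintro rfl
    rw [k1b] at k3b
    exact hea k3b.symm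
  have n23 : k2 ≠ k3 := by
    rintro rfl
    rw [k2b] at k3b
    exact heb k3b.symm
  have p12 := prod_fix h hcd heb hk1 hk2 n12 k1c k1d k2c k2d f1 f2
  have p13 := prod_fix h hcd hea hk1 hk3 n13 k1c k1d k3c k3d f1 f3
  have p23 := prod_fix h hcd (Ne.symm hab) hk2 hk3 n23 k2c k2d k3c k3d f2 f3
  set Q : Finset G := Finset.univ.filter (fun g => g • a = a ∧ g • b = b ∧ g • e = e) with hQ
  have memQ : ∀ g, g ∈ Q ↔ (g • a = a ∧ g • b = b ∧ g • e = e) := by intro g; simp [hQ]
  have i1 : k1⁻¹ = k1 := inv_eq_of_mul_eq_one_left hk1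
  have i2 : k2⁻¹ = k2 := inv_eq_of_mul_eq_one_left hk2
  have i3 : k3⁻¹ = k3 := inv_eq_of_mul_eq_one_left hk3
  have q1 : ∀ x ∈ Q, k1 * x * k1⁻¹ ∈ Q := by
    intro x hx
    rw [memQ] at hx ⊢
    rw [i1]
    simp only [mul_smul, k1a, k1b, k1e, hx.1, hx.2.1, hx.2.2, and_self]
  have q2 : ∀ x ∈ Q, k2 * x * k2⁻¹ ∈ Q := by
    intro x hx
    rw [memQ] at hx ⊢
    rw [i2]
    simp only [mul_smul, k2a, k2b, k2e, hx.1, hx.2.1, hx.2.2, and_self]
  have q3 : ∀ x ∈ Q, k3 * x * k3⁻¹ ∈ Q := by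
    intro x hx
    rw [memQ] at hx ⊢
    rw [i3]
    simp only [mul_smul, k3a, k3b, k3e, hx.1, hx.2.1, hx.2.2, and_self]
  have hD : D4 a b e c := ⟨hab, Ne.symm hea, hac, Ne.symm heb, hbc, hec⟩
  have hD' : D4 a b e d := ⟨hab, Ne.symm hea, had, Ne.symm heb, hbd, hed⟩
  have l1 := (odd_card_le h hD hD' hcd h03 h04 he h01 memQ q1
    (fun y hy => by rcases f1 y hy with h' | h' | h' <;> tauto) k1c).resolve_right (by simpa using hk1)
  have l2 := (odd_card_le h hD hD' hcd h03 h04 he h01 memQ q2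
    (fun y hy => by rcases f2 y hy with h' | h' | h' <;> tauto) k2c).resolve_right (by simpa using hk2)
  have l3 := (odd_card_le h hD hD' hcd h03 h04 he h01 memQ q3
    (fun y hy => by rcases f3 y hy with h' | h' | h' <;> tauto) k3c).resolve_right (by simpa using hk3)
  have m12 := odd_inter_le h hD h03 h04 he h01 memQ hk1 hk2 p12 k1c k2c
  have m13 := odd_inter_le h hD h03 h04 he h01 memQ hk1 hk3 p13 k1c k3c
  have m23 := odd_inter_le h hD h03 h04 he h01 memQ hk2 hk3 p23 k2c k3c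
  set J1 := Q.filter fun x => k1 * x * k1⁻¹ = x⁻¹ * (k1 * k1) * (k1 * k1)⁻¹ with hJ1
  set J2 := Q.filter fun x => k2 * x * k2⁻¹ = x⁻¹ * (k2 * k2) * (k2 * k2)⁻¹ with hJ2
  set J3 := Q.filter fun x => k3 * x * k3⁻¹ = x⁻¹ * (k3 * k3) * (k3 * k3)⁻¹ with hJ3
  have u1 := Finset.card_union_add_card_inter J1 J2
  have u2 := Finset.card_union_add_card_inter (J1 ∪ J2) J3
  have u3 : ((J1 ∪ J2) ∩ J3).card ≤ (J1 ∩ J3).card + (J2 ∩ J3).card := by
    rw [Finset.union_inter_distrib_right]
    exact Finset.card_union_le _ _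
  have u4 : ((J1 ∪ J2) ∪ J3).card ≤ Q.card := by
    apply Finset.card_le_card
    intro x hx
    rw [Finset.mem_union, Finset.mem_union] at hx
    rcases hx with (hx | hx) | hx
    · exact (Finset.mem_filter.mp hx).1
    · exact (Finset.mem_filter.mp hx).1
    · exact (Finset.mem_filter.mp hx).1
  have hQ12 : Q.card ≤ 12 := by omega
  -- |Q| = n - 3
  have hQc : Fintype.card α - 3 ≤ Q.card := by
    have hp : ({a, b, e} : Finset α).card = 3 :=
      Finset.card_eq_three.mpr ⟨a, b, e, hab, Ne.symm hea, Ne.symm heb, rfl⟩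
    have hcc : ({a, b, e}ᶜ : Finset α).card = Fintype.card α - 3 := by rw [Finset.card_compl, hp]
    rw [← hcc]
    have hex : ∀ z : α, z ∈ ({a, b, e}ᶜ : Finset α) → ∃ g : G, g ∈ Q ∧ g • c = z := by
      intro z hz
      simp only [Finset.mem_compl, Finset.mem_insert, Finset.mem_singleton, not_or] at hz
      obtain ⟨t, t1, t2, t3, t4⟩ := h.tr hD (a' := a) (b' := b) (c' := e) (d' := z)
        ⟨hab, Ne.symm hea, Ne.symm hz.1, Ne.symm heb, Ne.symm hz.2.1, Ne.symm hz.2.2⟩
      exact ⟨t, (memQ t).mpr ⟨t1, t2, t3⟩, t4⟩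
    choose! f hf using hex
    apply Finset.card_le_card_of_injOn f
    · intro z hz
      exact (hf z hz).1
    · intro z hz z' hz' e'
      rw [← (hf z hz).2, ← (hf z' hz').2, e']
  -- parity
  have hodd : Fintype.card α % 2 = 1 := by
    have := card_fx_mod (α := α) ht0
    rw [h3 t0 ht0 ht0ne] at this
    omega
  -- divisibility by three
  have hmod3 : Fintype.card α % 3 = 2 := by
    have hs3 : ((k1 * k2) * (k1 * k2)) * (k1 * k2) = 1 := by
      apply h.sh hD <;> simp only [mul_smul, k1a, k1b, k1c, k1e, k2a, k2b, k2c, k2e]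
    have : Fact (Nat.Prime 3) := ⟨Nat.prime_three⟩
    let f : Function.End α := fun x => (k1 * k2) • x
    have hf : f ^ 3 ^ 1 = 1 := by
      rw [pow_one, pow_succ, sq]
      funext x
      show (k1 * k2) • (k1 * k2) • (k1 * k2) • x = x
      rw [← mul_smul, ← mul_smul, hs3, one_smul]
    have h1 := Equiv.Perm.card_fixedPoints_modEq hf
    have h2 : Fintype.card (Function.fixedPoints f) = 2 := by
      rw [Fintype.card_subtype]
      have : (Finset.univ.filter fun x => x ∈ Function.fixedPoints f) = {c, d} := by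
        ext x
        simp only [Finset.mem_filter, Finset.mem_univ, true_and, Finset.mem_insert, Finset.mem_singleton]
        constructor
        · intro hx
          exact p12 x hx
        · rintro (rfl | rfl)
          · show (k1 * k2) • x = x
            rw [mul_smul, k2c, k1c]
          · show (k1 * k2) • x = x
            rw [mul_smul, k2d, k1d]
      rw [this, Finset.card_pair hcd]
    rw [h2] at h1
    exact h1
  omega

/-- **Jordan**: sharply 4-transitive groups of degree at least 7 have degree 11. -/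
theorem sharp4_card [Finite G] (h : Sharp4 G α) (hn : 7 ≤ Fintype.card α) : Fintype.card α = 11 := by
  by_cases h2 : ∀ t : G, t * t = 1 → t ≠ 1 → (fx (α := α) t).card = 2
  · exact (even_case h hn h2).elim
  · push Not at h2
    obtain ⟨t, ht, ht1, hne⟩ := h2
    apply odd_case h hn
    intro t' ht' ht1'
    obtain ⟨g, rfl⟩ := isConj_involutions h hn ht ht1 ht' ht1'
    rw [card_fx_conj]
    exact (card_fx_inv h hn ht ht1).resolve_left hne

end Cfsg.Agent.Lib.Jordan4
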