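import Mathlib
import Cfsg.Agent.Lib.Jordan4Odd

/-!
helper8: Jordan's theorem for sharply k-transitive groups, k at least 4.
-/
set_option autoImplicit false

namespace Cfsg.Agent.Lib.Jordan4

open MulAction SubMulAction

universe u v

structure SharpK (G : Type u) (α : Type v) [Group G] [MulAction G α] (k : ℕ) : Prop where
  tr : IsMultiplyPretransitive G α k
  sh : ∀ x : Fin k ↪ α, stabilizer G x = ⊥

theorem SharpK.step {G : Type u} {α : Type v} [Group G] [MulAction G α] {k : ℕ} [Finite α]
    (hk : k + 1 ≤ Nat.card α) (h : SharpK G α (k + 1)) (a : α) :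
    SharpK (stabilizer G a) (ofStabilizer G a) k := by
  have h1 : IsPretransitive G α := by
    rw [← is_one_pretransitive_iff]
    have := h.tr
    apply isMultiplyPretransitive_of_le (m := 1) (n := k + 1) (by omega)
    have : Fintype α := Fintype.ofFinite α
    simpa using hk
  refine ⟨?_, ?_⟩
  · exact SubMulAction.ofStabilizer.isMultiplyPretransitive.mp h.tr
  · intro y
    rw [eq_bot_iff]
    intro g hg
    rw [mem_stabilizer_iff] at hg
    rw [Subgroup.mem_bot]
    apply Subtype.ext
    have h2 : (g : G) ∈ stabilizer G (ofStabilizer.snoc y) := by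
      rw [mem_stabilizer_iff]
      ext i
      rcases Fin.eq_castSucc_or_eq_last i with ⟨i, rfl⟩ | ⟨rfl⟩
      · rw [Function.Embedding.smul_apply, ofStabilizer.snoc_castSucc]
        have := DFunLike.congr_fun hg i
        exact congrArg Subtype.val this
      · rw [Function.Embedding.smul_apply, ofStabilizer.snoc_last]
        exact g.2
    rw [h.sh, Subgroup.mem_bot] at h2
    exact h2

theorem emb4 {α : Type*} {a b c d : α} (h : D4 a b c d) : Function.Injective ![a, b, c, d] := by
  obtain ⟨h1, h2, h3, h4, h5, h6⟩ := h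
  intro i j hij
  fin_cases i <;> fin_cases j <;> simp_all

theorem SharpK.four {G : Type u} {α : Type v} [Group G] [MulAction G α] (h : SharpK G α 4) : Sharp4 G α := by
  constructor
  · intro a b c d a' b' c' d' hD hD'
    have := h.tr
    obtain ⟨g, hg⟩ := exists_smul_eq G (⟨![a, b, c, d], emb4 hD⟩ : Fin 4 ↪ α) ⟨![a', b', c', d'], emb4 hD'⟩
    exact ⟨g, DFunLike.congr_fun hg 0, DFunLike.congr_fun hg 1, DFunLike.congr_fun hg 2, DFunLike.congr_fun hg 3⟩
  · intro a b c d hD g ha hb hc hd
    have : g ∈ stabilizer G (⟨![a, b, c, d], emb4 hD⟩ : Fin 4 ↪ α) := by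
      rw [mem_stabilizer_iff]
      ext i
      fin_cases i
      · exact ha
      · exact hb
      · exact hc
      · exact hd
    rwa [h.sh, Subgroup.mem_bot] at this

theorem SharpK.card {G : Type u} {α : Type v} [Group G] [MulAction G α] [Finite α] {k : ℕ} (h : SharpK G α k)
    (hk : k ≤ Nat.card α) : Nat.card G = (Nat.card α).descFactorial k := by
  have := h.tr
  have : Fintype α := Fintype.ofFinite α
  rw [Nat.card_eq_fintype_card (α := α)] at hk ⊢
  obtain ⟨x⟩ : Nonempty (Fin k ↪ α) :=
    Function.Embedding.nonempty_of_card_le (by rw [Fintype.card_fin]; exact hk)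
  have h1 := Nat.card_congr (orbitProdStabilizerEquivGroup G x)
  rw [Nat.card_prod, h.sh x, Subgroup.card_bot, mul_one, orbit_eq_univ, Nat.card_congr (Equiv.Set.univ _),
    Nat.card_eq_fintype_card, Fintype.card_embedding_eq, Fintype.card_fin] at h1
  exact h1.symm

/-- a subgroup of order `p` of a faithful group of degree `p` is self-centralising -/
theorem card_centralizer_prime {G : Type u} {α : Type v} [Group G] [MulAction G α] [Finite α] [Finite G]
    (hf : ∀ g : G, (∀ a : α, g • a = a) → g = 1) {p : ℕ} [hp : Fact p.Prime] (hα : Nat.card α = p)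
    (P : Subgroup G) (hP : Nat.card P = p) : Nat.card (Subgroup.centralizer (P : Set G)) = p := by
  -- `P` is transitive
  have htr : ∀ a b : α, ∃ g ∈ P, g • a = b := by
    obtain ⟨x, hx⟩ : ∃ x : α, Nat.card (orbit P x) ≠ 1 := by
      by_contra hcon
      push Not at hcon
      have hbot : P = ⊥ := by
        rw [eq_bot_iff]
        intro g hg
        rw [Subgroup.mem_bot]
        apply hf
        intro a
        have h1 := hcon a
        rw [Nat.card_eq_one_iff_unique] at h1
        have := h1.1
        have h2 : (⟨a, mem_orbit_self a⟩ : orbit P a) = ⟨(⟨g, hg⟩ : P) • a, mem_orbit a _⟩ := Subsingleton.elim _ _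
        exact (congrArg Subtype.val h2).symm
      rw [hbot, Subgroup.card_bot] at hP
      exact hp.out.one_lt.ne hP
    have h1 := Nat.card_congr (orbitProdStabilizerEquivGroup P x)
    rw [Nat.card_prod, hP] at h1
    have h2 : Nat.card (orbit P x) ∣ p := Dvd.intro _ h1
    have h3 := ((Nat.dvd_prime hp.out).mp h2).resolve_left hx
    have h4 : orbit P x = Set.univ := by
      have h5 : (orbit P x).ncard = (Set.univ : Set α).ncard := by
        rw [Set.ncard_univ, hα, ← h3]; rfl
      exact Set.eq_of_subset_of_ncard_le (Set.subset_univ _) h5.ge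
    intro a b
    have ha : a ∈ orbit P x := by rw [h4]; trivial
    have hb : b ∈ orbit P x := by rw [h4]; trivial
    obtain ⟨g, hg⟩ := ha
    obtain ⟨g', hg'⟩ := hb
    refine ⟨(g' * g⁻¹ : P), (g' * g⁻¹ : P).2, ?_⟩
    have e1 : (g : G) • x = a := hg
    have e2 : (g' : G) • x = b := hg'
    rw [← e1, ← e2, Subgroup.coe_mul, Subgroup.coe_inv, mul_smul, inv_smul_smul]
  have hne : Nonempty α := by
    apply (Nat.card_pos_iff.mp ?_).1
    rw [hα]; exact hp.out.pos
  obtain ⟨x⟩ := hne
  have hle : Nat.card (Subgroup.centralizer (P : Set G)) ≤ p := by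
    rw [← hα]
    apply Nat.card_le_card_of_injective (fun g : Subgroup.centralizer (P : Set G) => (g : G) • x)
    intro g g' hgg
    have hgg' : (g : G) • x = (g' : G) • x := hgg
    have hall : ∀ a : α, (g : G) • a = (g' : G) • a := by
      intro a
      obtain ⟨u, hu, rfl⟩ := htr x a
      rw [← mul_smul, ← mul_smul, ← Subgroup.mem_centralizer_iff.mp g.2 u hu,
        ← Subgroup.mem_centralizer_iff.mp g'.2 u hu, mul_smul, mul_smul, hgg']
    apply Subtype.ext
    have := hf ((g' : G)⁻¹ * g) (by intro a; rw [mul_smul, hall a, inv_smul_smul])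
    rw [inv_mul_eq_one] at this
    exact this.symm
  have hPle : P ≤ Subgroup.centralizer (P : Set G) := by
    have hcyc : IsCyclic P := isCyclic_of_prime_card hP
    intro g hg
    rw [Subgroup.mem_centralizer_iff]
    intro u hu
    have : IsMulCommutative P := inferInstance
    have := mul_comm' (⟨u, hu⟩ : P) ⟨g, hg⟩
    exact congrArg Subtype.val this
  apply le_antisymm hle
  rw [← hP]
  exact Nat.card_le_card_of_injective (Subgroup.inclusion hPle) (Subgroup.inclusion_injective hPle)

/-- the normaliser of a Sylow `p`-subgroup in a group of degree `p` has order `p d`, `d ∣ p - 1` -/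
theorem card_normalizer_prime {G : Type u} {α : Type v} [Group G] [MulAction G α] [Finite α] [Finite G]
    (hf : ∀ g : G, (∀ a : α, g • a = a) → g = 1) {p : ℕ} [hp : Fact p.Prime] (hα : Nat.card α = p)
    (P : Subgroup G) (hP : Nat.card P = p) :
    ∃ d, d ∣ p - 1 ∧ Nat.card (Subgroup.normalizer (P : Set G)) = p * d := by
  have hcyc : IsCyclic P := isCyclic_of_prime_card hP
  have key := Subgroup.card_dvd_of_injective _ (QuotientGroup.kerLift_injective P.normalizerMonoidHom)
  rw [Subgroup.normalizerMonoidHom_ker, ← Subgroup.index, ← Subgroup.relIndex, hcyc.card_mulAut, hP,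
    Nat.totient_prime hp.out] at key
  refine ⟨_, key, ?_⟩
  have hle : Subgroup.centralizer (P : Set G) ≤ Subgroup.normalizer (P : Set G) :=
    Subgroup.centralizer_le_normalizer _
  have h1 := Subgroup.card_mul_index ((Subgroup.centralizer (P : Set G)).subgroupOf (Subgroup.normalizer (P : Set G)))
  rw [Nat.card_congr (Subgroup.subgroupOfEquivOfLe hle).toEquiv, card_centralizer_prime hf hα P hP] at h1
  exact h1.symm

/-- no sharply 6-transitive group of degree 13 -/
theorem no_thirteen {G : Type u} {α : Type v} [Group G] [MulAction G α] [Finite α] [Finite G]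
    (h : SharpK G α 6) (hα : Nat.card α = 13) : False := by
  have hcG := h.card (by rw [hα]; norm_num)
  rw [hα] at hcG
  have hcG' : Nat.card G = 1235520 := by rw [hcG]; decide
  have hp : Fact (Nat.Prime 13) := ⟨by norm_num⟩
  have hf : ∀ g : G, (∀ a : α, g • a = a) → g = 1 := by
    intro g hg
    have : Fintype α := Fintype.ofFinite α
    obtain ⟨x⟩ : Nonempty (Fin 6 ↪ α) :=
      Function.Embedding.nonempty_of_card_le (by
        rw [Fintype.card_fin, ← Nat.card_eq_fintype_card, hα]; norm_num)
    have : g ∈ stabilizer G x := by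
      rw [mem_stabilizer_iff]
      ext i
      exact hg _
    rwa [h.sh, Subgroup.mem_bot] at this
  obtain ⟨P⟩ : Nonempty (Sylow 13 G) := inferInstance
  have hP : Nat.card (P : Subgroup G) = 13 := by
    rw [P.card_eq_multiplicity, hcG']
    have : Nat.factorization 1235520 13 = 1 := by
      rw [Nat.factorization_def _ hp.out]
      have h2 : (1235520 : ℕ) = 13 * 95040 := by norm_num
      rw [h2, padicValNat.mul (by norm_num) (by norm_num), padicValNat.self (by norm_num),
        padicValNat.eq_zero_of_not_dvd (by norm_num)]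
    rw [this, pow_one]
  obtain ⟨d, hd, hN⟩ := card_normalizer_prime hf hα (P : Subgroup G) hP
  have hidx := P.card_eq_index_normalizer
  have hmod := card_sylow_modEq_one 13 G
  have hmul := (Subgroup.normalizer ((P : Subgroup G) : Set G)).card_mul_index
  rw [hcG', hN] at hmul
  have hidx' : Nat.card (Sylow 13 G) = (Subgroup.normalizer ((P : Subgroup G) : Set G)).index := hidx
  rw [hidx'] at hmod
  set m := (Subgroup.normalizer ((P : Subgroup G) : Set G)).index with hm
  have h12 : d ∣ 12 := hd
  have hd12 : d ≤ 12 := Nat.le_of_dvd (by norm_num) h12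
  have hdm : d * m = 95040 := by
    have : 13 * (d * m) = 13 * 95040 := by rw [← mul_assoc, hmul]
    omega
  have hmod' : m % 13 = 1 := hmod
  interval_cases d <;> omega

/-- **Jordan's theorem** -/
theorem jordan (k : ℕ) (hk : 4 ≤ k) : ∀ (G : Type u) (α : Type v) [Group G] [MulAction G α] [Finite α] [Finite G],
    k ≤ Nat.card α → SharpK G α k →
    Nat.card α = k ∨ Nat.card α = k + 1 ∨ Nat.card α = k + 2 ∨ (Nat.card α = k + 7 ∧ k ≤ 5) := by
  classical
  induction k, hk using Nat.le_induction with
  | base =>
    intro G α _ _ _ _ hn h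
    have : Fintype α := Fintype.ofFinite α
    by_cases h7 : 7 ≤ Fintype.card α
    · have := sharp4_card h.four h7
      rw [Nat.card_eq_fintype_card]
      omega
    · rw [Nat.card_eq_fintype_card] at hn ⊢
      omega
  | succ k hk ih =>
    intro G α _ _ _ _ hn h
    have hne : Nonempty α := (Nat.card_pos_iff.mp (by omega)).1
    obtain ⟨a⟩ := hne
    have hc := SubMulAction.nat_card_ofStabilizer_add_one_eq G a
    have h1 := ih (stabilizer G a) (ofStabilizer G a) (by omega) (h.step hn a)
    by_cases hk5 : k + 1 ≤ 5
    · omega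
    · by_cases h7 : Nat.card (ofStabilizer G a) = k + 7
      · exfalso
        have hk6 : k = 5 := by omega
        subst hk6
        exact no_thirteen h (by omega)
      · omega

end Cfsg.Agent.Lib.Jordan4
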