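import Cfsg.Agent.Lib.GLClass
import Cfsg.Prelude.Def_JordanBlocks

set_option autoImplicit false
set_option linter.unusedSectionVars false

/-! The unipotent matrices `jordanTypeMatrix d F` and their types (helper43). -/

namespace Cfsg.Agent.Lib.JordanType

open Module Polynomial Cfsg.Agent.Lib.FXType Cfsg.Agent.Lib.GLClass

universe u

variable {F : Type u} [Field F]

theorem blockDiagonal'_mulVec {t : ℕ} {d : Fin t → ℕ} (M : ∀ k, Matrix (Fin (d k)) (Fin (d k)) F) (y : ((k : Fin t) × Fin (d k)) → F)
    (k : Fin t) (i : Fin (d k)) :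
    (Matrix.blockDiagonal' M).mulVec y ⟨k, i⟩ = (M k).mulVec (fun j => y ⟨k, j⟩) i := by
  rw [Matrix.mulVec, Matrix.mulVec, dotProduct, dotProduct, Fintype.sum_sigma, Finset.sum_eq_single k]
  · apply Finset.sum_congr rfl
    intro j _
    rw [Matrix.blockDiagonal'_apply_eq]
  · intro k' _ hk'
    apply Finset.sum_eq_zero
    intro j _
    rw [Matrix.blockDiagonal'_apply_ne _ _ _ hk'.symm, zero_mul]
  · intro h; exact absurd (Finset.mem_univ _) h

/-- `jordanBlock - 1` shifts the coordinates. -/
theorem jordanBlock_mulVec (n : ℕ) (y : Fin n → F) (i : Fin n) :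
    (Cfsg.jordanBlock n F).mulVec y i = y i + (if h : 0 < (i : ℕ) then y ⟨i - 1, by omega⟩ else 0) := by
  have h1 : Cfsg.jordanBlock n F = 1 + Matrix.of fun i j : Fin n => if (i : ℕ) = (j : ℕ) + 1 then (1 : F) else 0 := by
    ext i j
    rw [Matrix.add_apply, Matrix.of_apply, Cfsg.jordanBlock, Matrix.of_apply, Matrix.one_apply]
    by_cases h : i = j
    · subst h
      rw [if_pos rfl, if_pos rfl, if_neg (by omega), add_zero]
    · rw [if_neg (fun h' => h (Fin.ext h')), if_neg h, zero_add]
  rw [h1, Matrix.add_mulVec, Matrix.one_mulVec, Pi.add_apply]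
  congr 1
  rw [Matrix.mulVec, dotProduct]
  split_ifs with h
  · rw [Finset.sum_eq_single ⟨i - 1, by omega⟩]
    · rw [Matrix.of_apply, if_pos (by show (i : ℕ) = (i - 1) + 1; omega), one_mul]
    · intro j _ hj
      rw [Matrix.of_apply, if_neg, zero_mul]
      intro h'
      apply hj
      apply Fin.ext
      show (j : ℕ) = i - 1
      omega
    · intro h; exact absurd (Finset.mem_univ _) h
  · apply Finset.sum_eq_zero
    intro j _
    rw [Matrix.of_apply, if_neg (by omega), zero_mul]

theorem X1_monic : (X - 1 : F[X]).Monic := by rw [← C_1]; exact monic_X_sub_C 1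
theorem X1_irreducible : Irreducible (X - 1 : F[X]) := by rw [← C_1]; exact irreducible_X_sub_C 1
theorem X1_natDegree : (X - 1 : F[X]).natDegree = 1 := by rw [← C_1]; exact natDegree_X_sub_C 1
theorem good_X1 {k : ℕ} (hk : 0 < k) : Good ((X - 1 : F[X]), k) := ⟨X1_monic, X1_irreducible, hk⟩

theorem HasType_cyc_equiv {V : Type*} [AddCommGroup V] [Module F V] {f : Module.End F V} {d : F[X] × ℕ} (h : HasType f {d}) :
    ∃ e : V ≃ₗ[F] Cyc d, ∀ x, e (f x) = AdjoinRoot.root _ * e x := by
  have hd : Good d := h.good d (Multiset.mem_singleton_self d)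
  exact h.equiv (hasType_cyc d hd)

theorem jordanBlock_type (n : ℕ) (hn : 0 < n) : HasType (Matrix.mulVecLin (Cfsg.jordanBlock n F)) {((X - 1 : F[X]), n)} := by
  set f := Matrix.mulVecLin (Cfsg.jordanBlock n F) with hf
  have hN : ∀ (y : Fin n → F) (i : Fin n), (f - 1) y i = if h : 0 < (i : ℕ) then y ⟨i - 1, by omega⟩ else 0 := by
    intro y i
    rw [LinearMap.sub_apply, Pi.sub_apply, hf, Matrix.mulVecLin_apply, jordanBlock_mulVec, Module.End.one_apply]
    ring
  have hNm : ∀ (m : ℕ) (y : Fin n → F) (i : Fin n), ((f - 1) ^ m) y i = if h : m ≤ (i : ℕ) then y ⟨i - m, by omega⟩ else 0 := by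
    intro m
    induction m with
    | zero => intro y i; rw [pow_zero, dif_pos (Nat.zero_le _)]; rfl
    | succ m ih =>
      intro y i
      rw [pow_succ', Module.End.mul_apply, hN]
      by_cases h0 : 0 < (i : ℕ)
      · rw [dif_pos h0, ih]
        by_cases h1 : m + 1 ≤ (i : ℕ)
        · rw [dif_pos h1, dif_pos (by show m ≤ (i : ℕ) - 1; omega)]
          congr 1
          apply Fin.ext
          show (i : ℕ) - 1 - m = i - (m + 1)
          omega
        · rw [dif_neg h1, dif_neg (by show ¬ m ≤ (i : ℕ) - 1; omega)]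
      · rw [dif_neg h0, dif_neg (by omega)]
  refine hasType_of_cyclic f _ (good_X1 hn) ?_ ?_ (Pi.single ⟨0, hn⟩ 1) ?_
  · rw [Module.finrank_fintype_fun_eq_card, Fintype.card_fin, X1_natDegree, one_mul]
  · show aeval f ((X - 1) ^ n) = 0
    rw [map_pow, map_sub, aeval_X, map_one]
    ext1 j
    ext1
    funext i
    rw [LinearMap.comp_apply, hNm, dif_neg (by omega)]
    rfl
  · intro x
    refine ⟨∑ j : Fin n, C (x j) * (X - 1) ^ (j : ℕ), ?_⟩
    · rw [map_sum, LinearMap.sum_apply]
      funext i
      rw [Finset.sum_apply, Finset.sum_eq_single i]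
      · rw [map_mul, aeval_C, map_pow, map_sub, aeval_X, map_one, Module.End.mul_apply, Module.algebraMap_end_apply, Pi.smul_apply,
          hNm, dif_pos le_rfl]
        have : (⟨(i : ℕ) - i, by omega⟩ : Fin n) = ⟨0, hn⟩ := Fin.ext (by show (i : ℕ) - i = 0; omega)
        rw [this, Pi.single_eq_same, smul_eq_mul, mul_one]
      · intro j _ hj
        rw [map_mul, aeval_C, map_pow, map_sub, aeval_X, map_one, Module.End.mul_apply, Module.algebraMap_end_apply, Pi.smul_apply, hNm]
        split_ifs with h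
        · rw [Pi.single_eq_of_ne, smul_zero]
          intro h'
          apply hj
          apply Fin.ext
          have := congrArg Fin.val h'
          simp only at this
          omega
        · rw [smul_zero]
      · intro h; exact absurd (Finset.mem_univ _) h

theorem jordanType_type {t : ℕ} (d : Fin t → ℕ) (hd : ∀ k, 1 ≤ d k) :
    MType (Cfsg.jordanTypeMatrix d F) (Finset.univ.val.map fun k => ((X - 1 : F[X]), d k)) := by
  choose e he using fun k => HasType_cyc_equiv (jordanBlock_type (F := F) (d k) (hd k))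
  let c : (((k : Fin t) × Fin (d k)) → F) ≃ₗ[F] (∀ k, Fin (d k) → F) := LinearEquiv.piCurry F (fun _ _ => F)
  refine HasType.mk' (f := Matrix.mulVecLin (Cfsg.jordanTypeMatrix d F)) (fun k => ((X - 1 : F[X]), d k)) (fun k => good_X1 (hd k))
    (c.trans (LinearEquiv.piCongrRight e)) ?_
  intro x k
  show e k (fun i => (Cfsg.jordanTypeMatrix d F).mulVec x ⟨k, i⟩) = _ * e k (fun i => x ⟨k, i⟩)
  rw [← he k]
  congr 1
  funext i
  exact blockDiagonal'_mulVec _ x k i

end Cfsg.Agent.Lib.JordanType
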