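import Cfsg.Agent.Lib.Balance
import Cfsg.Agent.Lib.Signalizer

/-!
# Balanced families inside a solvable group (helper22)

`family_inf_centralizer`: a "balanced" family of normal subgroups `κ D` of the centralizers `C_P(D)`
(`D ≤ A`, `|D| ≥ p ^ k`, `|A| ≥ p ^ (k+2)`) of an `A`-invariant solvable `p'`-group `P` is induced by one
subgroup.
-/

set_option autoImplicit false
set_option linter.unusedSectionVars false

namespace Cfsg.Agent.Lib.KBalance

open Cfsg Subgroup Cfsg.Agent.Lib.SubgroupTools Cfsg.Agent.Lib.CoprimeHyper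
open scoped commutatorElement Pointwise

variable {G : Type*} [Group G] [Finite G] {p : ℕ} [hp : Fact p.Prime]

/-- the derived series of a subgroup, inside the ambient group -/
def dser (P : Subgroup G) : ℕ → Subgroup G
  | 0 => P
  | n + 1 => ⁅dser P n, dser P n⁆

theorem dser_zero (P : Subgroup G) : dser P 0 = P := rfl

theorem dser_succ (P : Subgroup G) (n : ℕ) : dser P (n + 1) = ⁅dser P n, dser P n⁆ := rfl

theorem le_normalizer_commutator {X Y H : Subgroup G} (hX : H ≤ normalizer (X : Set G))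
    (hY : H ≤ normalizer (Y : Set G)) : H ≤ normalizer ((⁅X, Y⁆ : Subgroup G) : Set G) := by
  intro h hh
  have h1 := conj_smul_of_mem_normalizer (hX hh)
  have h2 := conj_smul_of_mem_normalizer (hY hh)
  rw [mem_normalizer_iff_conj_smul, conj_smul_eq_map, Subgroup.map_commutator,
    ← conj_smul_eq_map, ← conj_smul_eq_map, h1, h2]

theorem le_normalizer_dser {P H : Subgroup G} (hH : H ≤ normalizer (P : Set G)) (n : ℕ) :
    H ≤ normalizer (dser P n : Set G) := by
  induction n with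
  | zero => exact hH
  | succ n ih => exact le_normalizer_commutator ih ih

theorem dser_le (P : Subgroup G) (n : ℕ) : dser P n ≤ P := by
  induction n with
  | zero => exact le_rfl
  | succ n ih => exact (Subgroup.commutator_le_self _).trans ih

theorem dser_succ_le (P : Subgroup G) (n : ℕ) : dser P (n + 1) ≤ dser P n :=
  Subgroup.commutator_le_self _

theorem dser_eq_map (P : Subgroup G) (n : ℕ) :
    dser P n = (derivedSeries ↥P n).map P.subtype := by
  induction n with
  | zero => rw [dser_zero, derivedSeries_zero, ← MonoidHom.range_eq_map, Subgroup.range_subtype]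
  | succ n ih => rw [dser_succ, ih, derivedSeries_succ, Subgroup.map_commutator]

theorem exists_dser_eq_bot {P : Subgroup G} (h : Group.IsSolvable ↥P) : ∃ n, dser P n = ⊥ := by
  obtain ⟨n, hn⟩ := h.solvable
  exact ⟨n, by rw [dser_eq_map, hn, Subgroup.map_bot]⟩

/-- a hyperplane and a subgroup not contained in it generate everything -/
theorem sup_eq_of_relIndex {A B D : Subgroup G} (hA : IsElementaryAbelian p A) (hB : B ≤ A)
    (hBi : B.relIndex A = p) (hD : D ≤ A) (hDB : ¬ D ≤ B) : B ⊔ D = A := by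
  apply le_antisymm (sup_le hB hD)
  have h1 : B.relIndex (B ⊔ D) ∣ p := by
    rw [← hBi]
    exact Dvd.intro _ (Subgroup.relIndex_mul_relIndex B (B ⊔ D) A le_sup_left (sup_le hB hD))
  rcases (Nat.dvd_prime hp.out).mp h1 with h | h
  · exfalso
    rw [Subgroup.relIndex_eq_one] at h
    exact hDB (le_sup_right.trans h)
  · have h2 := card_mul_relIndex_of_le (le_sup_left : B ≤ B ⊔ D)
    have h3 := card_mul_relIndex_of_le hB
    rw [h] at h2
    rw [hBi, h2] at h3
    exact (Subgroup.eq_of_le_of_card_ge (sup_le hB hD) h3.ge).ge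

/-- a balanced family on `P` -/
structure BalFam (p k : ℕ) (A P : Subgroup G) (κ : Subgroup G → Subgroup G) : Prop where
  le : ∀ D ≤ A, p ^ k ≤ Nat.card ↥D → κ D ≤ P
  cent : ∀ D ≤ A, p ^ k ≤ Nat.card ↥D → κ D ≤ centralizer (D : Set G)
  norm : ∀ D ≤ A, p ^ k ≤ Nat.card ↥D → P ⊓ centralizer (D : Set G) ≤ normalizer (κ D : Set G)
  inv : ∀ D ≤ A, p ^ k ≤ Nat.card ↥D → A ≤ normalizer (κ D : Set G)
  bal : ∀ D E : Subgroup G, D ≤ E → E ≤ A → p ^ k ≤ Nat.card ↥D →
    κ D ⊓ centralizer (E : Set G) = κ E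

/-- the subgroup generated by the `κ B ∩ R`, `B` a hyperplane of `A` -/
def gen (p : ℕ) (A : Subgroup G) (κ : Subgroup G → Subgroup G) (R : Subgroup G) : Subgroup G :=
  ⨆ B : {B : Subgroup G // B ≤ A ∧ B.relIndex A = p}, κ (B : Subgroup G) ⊓ R

section Main

variable {k : ℕ} {A P : Subgroup G} {κ : Subgroup G → Subgroup G}

theorem card_hyper (hk : p ^ (k + 2) ≤ Nat.card ↥A) {B : Subgroup G} (hB : B ≤ A)
    (hBi : B.relIndex A = p) : p ^ (k + 1) ≤ Nat.card ↥B := by
  have h := card_mul_relIndex_of_le hB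
  rw [hBi] at h
  have h1 : p ^ (k + 1) * p ≤ Nat.card ↥B * p := by
    rw [h, ← pow_succ]; exact hk
  exact Nat.le_of_mul_le_mul_right h1 hp.out.pos

theorem pow_le_pow_succ' : p ^ k ≤ p ^ (k + 1) := Nat.pow_le_pow_right hp.out.pos (Nat.le_succ k)

theorem ne_bot_of_card {n : ℕ} {D : Subgroup G} (hn : n ≠ 0) (h : p ^ n ≤ Nat.card ↥D) :
    D ≠ ⊥ := by
  rintro rfl
  rw [Subgroup.card_bot] at h
  have h1 : 1 < p ^ n := Nat.one_lt_pow hn hp.out.one_lt
  omega

theorem kappa_A_le (hf : BalFam p k A P κ) {D : Subgroup G} (hD : D ≤ A)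
    (hDk : p ^ k ≤ Nat.card ↥D) : κ A ≤ κ D := by
  rw [← hf.bal D A hD le_rfl hDk]
  exact inf_le_left

theorem mem_centralizer_sup {B D : Subgroup G} {x : G} (h1 : x ∈ centralizer (B : Set G))
    (h2 : x ∈ centralizer (D : Set G)) : x ∈ centralizer ((B ⊔ D : Subgroup G) : Set G) := by
  have h3 : B ⊔ D ≤ centralizer ({x} : Set G) := by
    apply sup_le
    · intro c hc
      rw [mem_centralizer_singleton_iff]
      exact mem_centralizer_iff.mp h1 c hc
    · intro c hc
      rw [mem_centralizer_singleton_iff]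
      exact mem_centralizer_iff.mp h2 c hc
  rw [mem_centralizer_iff]
  intro c hc
  exact mem_centralizer_singleton_iff.mp (h3 hc)

theorem not_dvd_of_le {X : Subgroup G} (hP : ¬ p ∣ Nat.card ↥P) (h : X ≤ P) :
    ¬ p ∣ Nat.card ↥X := fun h' => hP (h'.trans (Subgroup.card_dvd_of_le h))

theorem le_gen (hA : IsElementaryAbelian p A) (hk : p ^ (k + 2) ≤ Nat.card ↥A)
    (hP : ¬ p ∣ Nat.card ↥P) (hf : BalFam p k A P κ) {R : Subgroup G}
    (hR : A ≤ normalizer (R : Set G)) {D : Subgroup G} (hD : D ≤ A)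
    (hDk : p ^ k ≤ Nat.card ↥D) : κ D ⊓ R ≤ gen p A κ R := by
  have hA1 : A ≠ ⊥ := ne_bot_of_card (n := k + 2) (by omega) hk
  apply le_of_hyper_eq hA hA1 (not_dvd_of_le hP (inf_le_left.trans (hf.le D hD hDk)))
    ((le_inf (hf.inv D hD hDk) hR).trans inf_normalizer_le_normalizer_inf)
  intro B hB hBi x hx
  obtain ⟨hx1, hxB⟩ := mem_inf.mp hx
  obtain ⟨hxD, hxR⟩ := mem_inf.mp hx1
  have hBk : p ^ k ≤ Nat.card ↥B := pow_le_pow_succ'.trans (card_hyper hk hB hBi)
  have hle : κ B ⊓ R ≤ gen p A κ R :=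
    le_iSup (fun B : {B : Subgroup G // B ≤ A ∧ B.relIndex A = p} => κ (B : Subgroup G) ⊓ R)
      ⟨B, hB, hBi⟩
  apply hle
  refine mem_inf.mpr ⟨?_, hxR⟩
  by_cases hDB : D ≤ B
  · rw [← hf.bal D B hDB hB hDk]
    exact mem_inf.mpr ⟨hxD, hxB⟩
  · have h1 := sup_eq_of_relIndex hA hB hBi hD hDB
    have h2 : x ∈ centralizer (A : Set G) := by
      rw [← h1]
      exact mem_centralizer_sup hxB (hf.cent D hD hDk hxD)
    apply kappa_A_le hf hB hBk
    rw [← hf.bal D A hD le_rfl hDk]
    exact mem_inf.mpr ⟨hxD, h2⟩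

theorem gen_le (hk : p ^ (k + 2) ≤ Nat.card ↥A) (hf : BalFam p k A P κ) (R : Subgroup G) :
    gen p A κ R ≤ P := by
  apply iSup_le
  rintro ⟨B, hB, hBi⟩
  exact inf_le_left.trans (hf.le B hB (pow_le_pow_succ'.trans (card_hyper hk hB hBi)))

theorem gen_normalizer (hk : p ^ (k + 2) ≤ Nat.card ↥A) (hf : BalFam p k A P κ) {R : Subgroup G}
    (hR : A ≤ normalizer (R : Set G)) : A ≤ normalizer (gen p A κ R : Set G) := by
  rw [le_normalizer_iff]
  intro a ha x hx
  have h1 : gen p A κ R ≤ (gen p A κ R).comap (MulAut.conj a).toMonoidHom := by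
    apply iSup_le
    rintro ⟨B, hB, hBi⟩ y hy
    have h2 : A ≤ normalizer ((κ B ⊓ R : Subgroup G) : Set G) :=
      (le_inf (hf.inv B hB (pow_le_pow_succ'.trans (card_hyper hk hB hBi))) hR).trans
        inf_normalizer_le_normalizer_inf
    have h3 := le_normalizer_iff.mp h2 a ha y hy
    exact (le_iSup (fun B : {B : Subgroup G // B ≤ A ∧ B.relIndex A = p} =>
      κ (B : Subgroup G) ⊓ R) ⟨B, hB, hBi⟩) h3
  exact h1 hx

/-- from hyperplanes to all `D` -/
theorem gen_inf_le (hA : IsElementaryAbelian p A) (hk : p ^ (k + 2) ≤ Nat.card ↥A)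
    (hP : ¬ p ∣ Nat.card ↥P) (hf : BalFam p k A P κ) {R : Subgroup G}
    (hR : A ≤ normalizer (R : Set G))
    (hcl : ∀ B ≤ A, B.relIndex A = p → gen p A κ R ⊓ centralizer (B : Set G) ≤ κ B ⊓ R)
    {D : Subgroup G} (hD : D ≤ A) (hDk : p ^ k ≤ Nat.card ↥D) :
    gen p A κ R ⊓ centralizer (D : Set G) ≤ κ D ⊓ R := by
  have hA1 : A ≠ ⊥ := ne_bot_of_card (n := k + 2) (by omega) hk
  apply le_of_hyper_eq hA hA1 (not_dvd_of_le hP (inf_le_left.trans (gen_le hk hf R)))
    (le_normalizer_inf_centralizer hA hD (gen_normalizer hk hf hR))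
  intro B hB hBi x hx
  obtain ⟨hx1, hxB⟩ := mem_inf.mp hx
  obtain ⟨hxg, hxD⟩ := mem_inf.mp hx1
  have hBk : p ^ k ≤ Nat.card ↥B := pow_le_pow_succ'.trans (card_hyper hk hB hBi)
  obtain ⟨h1, h2⟩ := mem_inf.mp (hcl B hB hBi (mem_inf.mpr ⟨hxg, hxB⟩))
  refine mem_inf.mpr ⟨?_, h2⟩
  by_cases hDB : D ≤ B
  · rw [← hf.bal D B hDB hB hDk] at h1
    exact (mem_inf.mp h1).1
  · have h3 := sup_eq_of_relIndex hA hB hBi hD hDB
    have h4 : x ∈ centralizer (A : Set G) := by
      rw [← h3]
      exact mem_centralizer_sup hxB hxD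
    apply kappa_A_le hf hD hDk
    rw [← hf.bal B A hB le_rfl hBk]
    exact mem_inf.mpr ⟨h1, h4⟩

/-- `gen R` is normalized by the centralizers of the hyperplanes -/
theorem centralizer_le_normalizer_gen (hA : IsElementaryAbelian p A)
    (hk : p ^ (k + 2) ≤ Nat.card ↥A)
    (hP : ¬ p ∣ Nat.card ↥P) (hf : BalFam p k A P κ) {R : Subgroup G}
    (hR : A ≤ normalizer (R : Set G)) (hPR : P ≤ normalizer (R : Set G))
    (hcl : ∀ B ≤ A, B.relIndex A = p → gen p A κ R ⊓ centralizer (B : Set G) ≤ κ B ⊓ R)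
    {E : Subgroup G} (hE : E ≤ A) (hEi : E.relIndex A = p) :
    P ⊓ centralizer (E : Set G) ≤ normalizer (gen p A κ R : Set G) := by
  rw [le_normalizer_iff]
  intro y hy
  have hEk := card_hyper hk hE hEi
  have hE1 : E ≠ ⊥ := ne_bot_of_card (n := k + 1) (by omega) hEk
  have h1 : gen p A κ R ≤ (gen p A κ R).comap (MulAut.conj y).toMonoidHom := by
    apply le_of_hyper_eq (elemAb_mono hA hE) hE1 (not_dvd_of_le hP (gen_le hk hf R))
      (hE.trans (gen_normalizer hk hf hR))
    intro D hD hDi x hx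
    have hDk : p ^ k ≤ Nat.card ↥D := by
      have h := card_mul_relIndex_of_le hD
      rw [hDi] at h
      have h1 : p ^ k * p ≤ Nat.card ↥D * p := by
        rw [h, ← pow_succ]; exact hEk
      exact Nat.le_of_mul_le_mul_right h1 hp.out.pos
    have h2 := gen_inf_le hA hk hP hf hR hcl (hD.trans hE) hDk hx
    have h3 : P ⊓ centralizer (E : Set G) ≤ normalizer ((κ D ⊓ R : Subgroup G) : Set G) := by
      refine (le_inf ?_ ?_).trans inf_normalizer_le_normalizer_inf
      · exact (inf_le_inf_left P (centralizer_le hD)).trans (hf.norm D (hD.trans hE) hDk)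
      · exact inf_le_left.trans hPR
    have h4 := le_normalizer_iff.mp h3 y hy x h2
    exact le_gen hA hk hP hf hR (hD.trans hE) hDk h4
  exact fun x hx => h1 hx

/-- the inductive step along the derived series -/
theorem step (hA : IsElementaryAbelian p A) (hk : p ^ (k + 2) ≤ Nat.card ↥A)
    (hP : ¬ p ∣ Nat.card ↥P) (hf : BalFam p k A P κ) {R : Subgroup G}
    (hR : A ≤ normalizer (R : Set G)) (hPR : P ≤ normalizer (R : Set G))
    (hcl : ∀ B ≤ A, B.relIndex A = p →
      gen p A κ ⁅R, R⁆ ⊓ centralizer (B : Set G) ≤ κ B ⊓ ⁅R, R⁆) :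
    ∀ B ≤ A, B.relIndex A = p → gen p A κ R ⊓ centralizer (B : Set G) ≤ κ B ⊓ R := by
  classical
  have hR' : A ≤ normalizer ((⁅R, R⁆ : Subgroup G) : Set G) := le_normalizer_commutator hR hR
  have hPR' : P ≤ normalizer ((⁅R, R⁆ : Subgroup G) : Set G) := le_normalizer_commutator hPR hPR
  set M := gen p A κ ⁅R, R⁆ with hM
  have hMP : M ≤ P := gen_le hk hf _
  have hMA : A ≤ normalizer (M : Set G) := gen_normalizer hk hf hR'
  -- commutators
  have hcomm : ∀ B ≤ A, B.relIndex A = p → ∀ B' ≤ A, B'.relIndex A = p →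
      ∀ y ∈ κ B ⊓ R, ∀ x ∈ κ B' ⊓ R, y * x * y⁻¹ * x⁻¹ ∈ M := by
    intro B hB hBi B' hB' hBi' y hy x hx
    have hc : y * x * y⁻¹ * x⁻¹ ∈ (⁅R, R⁆ : Subgroup G) :=
      Subgroup.commutator_mem_commutator (mem_inf.mp hy).2 (mem_inf.mp hx).2
    have hD : B ⊓ B' ≤ A := inf_le_left.trans hB
    have hDk : p ^ k ≤ Nat.card ↥(B ⊓ B') := by
      have h1 : (B ⊓ B').relIndex A ≤ p * p := by
        calc (B ⊓ B').relIndex A ≤ B.relIndex A * B'.relIndex A := Subgroup.relIndex_inf_le
          _ = p * p := by rw [hBi, hBi']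
      have h2 := card_mul_relIndex_of_le hD
      have h3 : p ^ k * (p * p) ≤ Nat.card ↥(B ⊓ B') * (p * p) := by
        calc p ^ k * (p * p) = p ^ (k + 2) := by ring
          _ ≤ Nat.card ↥A := hk
          _ = Nat.card ↥(B ⊓ B') * (B ⊓ B').relIndex A := h2.symm
          _ ≤ Nat.card ↥(B ⊓ B') * (p * p) := Nat.mul_le_mul_left _ h1
      exact Nat.le_of_mul_le_mul_right h3 (Nat.mul_pos hp.out.pos hp.out.pos)
    have hyD : y ∈ κ (B ⊓ B') := by
      have := (mem_inf.mp hy).1
      rw [← hf.bal (B ⊓ B') B inf_le_left hB hDk] at this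
      exact (mem_inf.mp this).1
    have hxD : x ∈ κ (B ⊓ B') := by
      have := (mem_inf.mp hx).1
      rw [← hf.bal (B ⊓ B') B' inf_le_right hB' hDk] at this
      exact (mem_inf.mp this).1
    apply le_gen hA hk hP hf hR' hD hDk
    exact mem_inf.mpr ⟨mul_mem (mul_mem (mul_mem hyD hxD) (inv_mem hyD)) (inv_mem hxD), hc⟩
  intro B hB hBi
  have hBk : p ^ k ≤ Nat.card ↥B := pow_le_pow_succ'.trans (card_hyper hk hB hBi)
  -- partial products
  have key : ∀ F : Finset {B : Subgroup G // B ≤ A ∧ B.relIndex A = p},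
      (M ⊔ ⨆ B' ∈ F, κ (B' : Subgroup G) ⊓ R) ⊓ centralizer (B : Set G) ≤ κ B := by
    intro F
    induction F using Finset.induction_on with
    | empty =>
      have h0 : (M ⊔ ⨆ B' ∈ (∅ : Finset {B : Subgroup G // B ≤ A ∧ B.relIndex A = p}),
          κ (B' : Subgroup G) ⊓ R) = M := by simp
      rw [h0]
      exact (hcl B hB hBi).trans inf_le_left
    | insert B' F _ ih =>
      obtain ⟨B', hB', hBi'⟩ := B'
      have hBk' : p ^ k ≤ Nat.card ↥B' := pow_le_pow_succ'.trans (card_hyper hk hB' hBi')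
      set W := M ⊔ ⨆ B' ∈ F, κ (B' : Subgroup G) ⊓ R with hW
      have hins : (M ⊔ ⨆ C ∈ insert (⟨B', hB', hBi'⟩ :
          {B : Subgroup G // B ≤ A ∧ B.relIndex A = p}) F, κ (C : Subgroup G) ⊓ R) =
          W ⊔ (κ B' ⊓ R) := by
        rw [Finset.iSup_insert, hW, sup_assoc, sup_comm (κ B' ⊓ R)]
      rw [hins]
      have hWP : W ≤ P := by
        apply sup_le hMP
        apply iSup₂_le
        rintro ⟨C, hC, hCi⟩ _
        exact inf_le_left.trans (hf.le C hC (pow_le_pow_succ'.trans (card_hyper hk hC hCi)))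
      have hYP : κ B' ⊓ R ≤ P := inf_le_left.trans (hf.le B' hB' hBk')
      have hYn : κ B' ⊓ R ≤ normalizer (W : Set G) := by
        rw [le_normalizer_iff]
        intro y hy x hx
        have h1 : W ≤ W.comap (MulAut.conj y).toMonoidHom := by
          apply sup_le
          · intro z hz
            have h2 : y ∈ normalizer (M : Set G) := by
              apply centralizer_le_normalizer_gen hA hk hP hf hR' hPR' hcl hB' hBi'
              exact mem_inf.mpr ⟨hYP hy, hf.cent B' hB' hBk' (mem_inf.mp hy).1⟩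
            exact mem_sup_left ((mem_normalizer_iff.mp h2 z).mp hz)
          · apply iSup₂_le
            rintro ⟨C, hC, hCi⟩ hCF z hz
            have h2 := hcomm B' hB' hBi' C hC hCi y hy z hz
            have h3 : y * z * y⁻¹ = y * z * y⁻¹ * z⁻¹ * z := by group
            change y * z * y⁻¹ ∈ W
            rw [h3]
            refine mul_mem (mem_sup_left h2) (mem_sup_right ?_)
            exact (le_iSup₂ (f := fun (B' : {B : Subgroup G // B ≤ A ∧ B.relIndex A = p})
              (_ : B' ∈ F) => κ (B' : Subgroup G) ⊓ R) ⟨C, hC, hCi⟩ hCF) hz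
        exact h1 hx
      have hWA : A ≤ normalizer (W : Set G) := by
        rw [le_normalizer_iff]
        intro a ha x hx
        have h1 : W ≤ W.comap (MulAut.conj a).toMonoidHom := by
          apply sup_le
          · intro z hz
            exact mem_sup_left ((mem_normalizer_iff.mp (hMA ha) z).mp hz)
          · apply iSup₂_le
            rintro ⟨C, hC, hCi⟩ hCF z hz
            have h2 : A ≤ normalizer ((κ C ⊓ R : Subgroup G) : Set G) :=
              (le_inf (hf.inv C hC (pow_le_pow_succ'.trans (card_hyper hk hC hCi))) hR).trans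
                inf_normalizer_le_normalizer_inf
            have h3 := le_normalizer_iff.mp h2 a ha z hz
            refine mem_sup_right ?_
            exact (le_iSup₂ (f := fun (B' : {B : Subgroup G // B ≤ A ∧ B.relIndex A = p})
              (_ : B' ∈ F) => κ (B' : Subgroup G) ⊓ R) ⟨C, hC, hCi⟩ hCF) h3
        exact h1 hx
      have hYA : A ≤ normalizer ((κ B' ⊓ R : Subgroup G) : Set G) :=
        (le_inf (hf.inv B' hB' hBk') hR).trans inf_normalizer_le_normalizer_inf
      intro x hx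
      obtain ⟨hx1, hx2⟩ := mem_inf.mp hx
      rw [mem_sup_of_le_normalizer hYn] at hx1
      obtain ⟨u, hu, v, hv, huv⟩ := hx1
      have hBe := elemAb_mono hA hB
      obtain ⟨u', hu', v', hv', huv'⟩ := CoprimeAction2.centralizer_of_product (A := B) (K := P)
        (elemAb_coprime hBe hP) (Or.inl (elemAb_solvable hBe)) hWP (hB.trans hWA)
        (hB.trans hYA) hx2 hu hv huv.symm
      rw [huv']
      refine mul_mem (ih hu') ?_
      obtain ⟨hv1, hv2⟩ := mem_inf.mp hv'
      have hv3 := (mem_inf.mp hv1).1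
      by_cases hle : B' ≤ B
      · rw [← hf.bal B' B hle hB hBk']
        exact mem_inf.mpr ⟨hv3, hv2⟩
      · have h3 := sup_eq_of_relIndex hA hB hBi hB' hle
        have h4 : v' ∈ centralizer (A : Set G) := by
          rw [← h3]
          exact mem_centralizer_sup hv2 (hf.cent B' hB' hBk' hv3)
        apply kappa_A_le hf hB hBk
        rw [← hf.bal B' A hB' le_rfl hBk']
        exact mem_inf.mpr ⟨hv3, h4⟩
  have hfin : Finite {B : Subgroup G // B ≤ A ∧ B.relIndex A = p} := inferInstance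
  have := Fintype.ofFinite {B : Subgroup G // B ≤ A ∧ B.relIndex A = p}
  intro x hx
  obtain ⟨hx1, hx2⟩ := mem_inf.mp hx
  refine mem_inf.mpr ⟨?_, ?_⟩
  · apply key Finset.univ
    refine mem_inf.mpr ⟨?_, hx2⟩
    have h1 : gen p A κ R ≤ M ⊔ ⨆ B' ∈ (Finset.univ :
        Finset {B : Subgroup G // B ≤ A ∧ B.relIndex A = p}), κ (B' : Subgroup G) ⊓ R := by
      refine le_trans ?_ le_sup_right
      apply iSup_le
      intro C
      exact le_iSup₂ (f := fun (B' : {B : Subgroup G // B ≤ A ∧ B.relIndex A = p})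
              (_ : B' ∈ (Finset.univ : Finset {B : Subgroup G // B ≤ A ∧ B.relIndex A = p})) =>
              κ (B' : Subgroup G) ⊓ R) C (Finset.mem_univ C)
    exact h1 hx1
  · have h1 : gen p A κ R ≤ R := iSup_le fun C => inf_le_right
    exact h1 hx1

theorem gen_dser (hA : IsElementaryAbelian p A) (hk : p ^ (k + 2) ≤ Nat.card ↥A)
    (hP : ¬ p ∣ Nat.card ↥P) (hf : BalFam p k A P κ) (hAP : A ≤ normalizer (P : Set G)) (n : ℕ) :
    dser P n = ⊥ → ∀ m, m ≤ n → ∀ B ≤ A, B.relIndex A = p →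
      gen p A κ (dser P (n - m)) ⊓ centralizer (B : Set G) ≤ κ B ⊓ dser P (n - m) := by
  intro hn m
  induction m with
  | zero =>
    intro _ B hB hBi
    have h1 : gen p A κ (dser P (n - 0)) ≤ dser P (n - 0) := iSup_le fun C => inf_le_right
    rw [Nat.sub_zero, hn] at h1 ⊢
    rw [le_bot_iff.mp h1, bot_inf_eq]
    exact bot_le
  | succ m ih =>
    intro hm
    have h1 : n - m = n - (m + 1) + 1 := by omega
    have h2 := ih (by omega)
    rw [h1, dser_succ] at h2
    exact step hA hk hP hf (le_normalizer_dser hAP _) (le_normalizer_dser le_normalizer _) h2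

/-- **Main lemma**: a balanced family on the solvable `p'`-group `P` is induced by one subgroup. -/
theorem family_inf_centralizer (hA : IsElementaryAbelian p A) (hk : p ^ (k + 2) ≤ Nat.card ↥A)
    (hP : ¬ p ∣ Nat.card ↥P) (hPs : Group.IsSolvable ↥P) (hf : BalFam p k A P κ)
    (hAP : A ≤ normalizer (P : Set G)) {D : Subgroup G} (hD : D ≤ A)
    (hDk : p ^ k ≤ Nat.card ↥D) : gen p A κ P ⊓ centralizer (D : Set G) = κ D := by
  obtain ⟨n, hn⟩ := exists_dser_eq_bot hPs
  have h1 := gen_dser hA hk hP hf hAP n hn n le_rfl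
  rw [Nat.sub_self, dser_zero] at h1
  apply le_antisymm
  · exact (gen_inf_le hA hk hP hf hAP h1 hD hDk).trans inf_le_left
  · apply le_inf
    · refine le_trans (le_inf le_rfl (hf.le D hD hDk)) ?_
      exact le_gen hA hk hP hf hAP hD hDk
    · exact hf.cent D hD hDk

end Main

end Cfsg.Agent.Lib.KBalance
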