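import Mathlib
import Cfsg.Agent.Lib.PermLemma

/-!
# Self-dual coprime modules: symplectic plus orthogonal
-/

set_option autoImplicit false
set_option linter.all false
set_option maxHeartbeats 400000

namespace Cfsg.Agent.Lib.KGVForms

open LinearMap (BilinForm)

variable {F : Type*} [Field F] {G : Type*} [Group G] {V : Type*} [AddCommGroup V] [Module F V]
  [FiniteDimensional F V]

/-- The asymmetry of a nondegenerate bilinear form. -/
theorem exists_asym (B : BilinForm F V) (hB : B.Nondegenerate) :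
    ∃ σ : Module.End F V, ∀ x y, B y x = B x (σ y) := by
  have hB' : B.flip.Nondegenerate := ⟨hB.2, hB.1⟩
  refine ⟨(B.flip.toDual hB').symm.toLinearMap ∘ₗ B, fun x y => ?_⟩
  have h1 := LinearMap.BilinForm.apply_toDual_symm_apply (hB := hB') (B y) x
  exact h1.symm

variable {B : BilinForm F V} {σ : Module.End F V}

theorem right_eq (hB : B.Nondegenerate) {y z : V} (h : ∀ x, B x y = B x z) : y = z := by
  rw [← sub_eq_zero]
  apply hB.2
  intro x
  rw [map_sub, h, sub_self]

theorem comm_of (hB : B.Nondegenerate) (hσ : ∀ x y, B y x = B x (σ y)) {f g : Module.End F V}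
    (hf : ∀ x y, B (g x) y = B x (f y)) (hf' : ∀ x y, B (f x) y = B x (g y)) : Commute σ f := by
  refine LinearMap.ext fun y => right_eq hB fun x => ?_
  show B x (σ (f y)) = B x (f (σ y))
  rw [← hσ, hf', ← hf, hσ]

theorem isom (hσ : ∀ x y, B y x = B x (σ y)) (x y : V) : B (σ x) (σ y) = B x y := by
  rw [← hσ, ← hσ]

theorem B_N (hσ : ∀ x y, B y x = B x (σ y)) (x y : V) : B ((1 - σ) x) (σ y) = -B x ((1 - σ) y) := by
  simp only [LinearMap.sub_apply, Module.End.one_apply, map_sub]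
  rw [isom hσ]
  ring

theorem commute_N : Commute σ (1 - σ) := (Commute.one_right σ).sub_right (Commute.refl σ)

theorem B_pow (hσ : ∀ x y, B y x = B x (σ y)) (k : ℕ) : ∀ x y : V,
    B x (((1 - σ) ^ k) y) = (-1) ^ k * B (((1 - σ) ^ k) x) ((σ ^ k) y) := by
  induction k with
  | zero => intro x y; simp
  | succ k ih =>
    intro x y
    have h1 : ((1 - σ) ^ (k + 1)) y = ((1 - σ) ^ k) ((1 - σ) y) := by rw [pow_succ]; rfl
    have h2 : ((1 - σ) ^ (k + 1)) x = (1 - σ) (((1 - σ) ^ k) x) := by rw [pow_succ']; rfl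
    have h3 : (σ ^ (k + 1)) y = σ ((σ ^ k) y) := by rw [pow_succ']; rfl
    have h4 : (σ ^ k) ((1 - σ) y) = (1 - σ) ((σ ^ k) y) := by
      have := ((commute_N (σ := σ)).pow_left k).eq
      exact congrArg (fun f => f y) this
    rw [h1, ih, h2, h3, B_N hσ, h4, pow_succ]
    ring

section split

variable {n : ℕ}

theorem B_ker_range (hσ : ∀ x y, B y x = B x (σ y)) {w u : V} (hw : w ∈ LinearMap.ker ((1 - σ) ^ n))
    (hu : u ∈ LinearMap.range ((1 - σ) ^ n)) : B w u = 0 := by
  obtain ⟨v, rfl⟩ := hu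
  rw [B_pow hσ, LinearMap.mem_ker.1 hw, map_zero, LinearMap.zero_apply, mul_zero]

theorem range_stable {f : Module.End F V} (hf : Commute f σ) {u : V} (hu : u ∈ LinearMap.range ((1 - σ) ^ n)) :
    f u ∈ LinearMap.range ((1 - σ) ^ n) := by
  obtain ⟨v, rfl⟩ := hu
  have h1 : Commute f ((1 - σ) ^ n) := ((Commute.one_right f).sub_right hf).pow_right n
  exact ⟨f v, (congrArg (fun g => g v) h1.eq).symm⟩

theorem ker_stable {f : Module.End F V} (hf : Commute f σ) {u : V} (hu : u ∈ LinearMap.ker ((1 - σ) ^ n)) :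
    f u ∈ LinearMap.ker ((1 - σ) ^ n) := by
  have h1 : Commute f ((1 - σ) ^ n) := ((Commute.one_right f).sub_right hf).pow_right n
  rw [LinearMap.mem_ker] at hu ⊢
  have h2 : ((1 - σ) ^ n) (f u) = f (((1 - σ) ^ n) u) := (congrArg (fun g => g u) h1.eq).symm
  rw [h2, hu, map_zero]

theorem B_range_ker (hσ : ∀ x y, B y x = B x (σ y)) {w u : V} (hw : w ∈ LinearMap.ker ((1 - σ) ^ n))
    (hu : u ∈ LinearMap.range ((1 - σ) ^ n)) : B u w = 0 := by
  rw [hσ]
  exact B_ker_range hσ hw (range_stable (Commute.refl σ) hu)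

/-- An endomorphism stabilizing and injective on a subspace is onto it. -/
theorem surj_on {S : Submodule F V} {f : Module.End F V} (hS : ∀ x ∈ S, f x ∈ S) (hinj : ∀ x ∈ S, f x = 0 → x = 0)
    {y : V} (hy : y ∈ S) : ∃ x ∈ S, f x = y := by
  have h1 : Function.Injective (f.restrict hS) := by
    rw [← LinearMap.ker_eq_bot, LinearMap.ker_eq_bot']
    intro m hm
    apply Subtype.ext
    exact hinj m m.2 (congrArg Subtype.val hm)
  obtain ⟨x, hx⟩ := (LinearMap.injective_iff_surjective.1 h1) ⟨y, hy⟩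
  exact ⟨x, x.2, congrArg Subtype.val hx⟩

theorem N_inj (hc : IsCompl (LinearMap.ker ((1 - σ) ^ n)) (LinearMap.range ((1 - σ) ^ n))) (hn : n ≠ 0) {x : V}
    (hx : x ∈ LinearMap.range ((1 - σ) ^ n)) (h : (1 - σ) x = 0) : x = 0 := by
  have h1 : x ∈ LinearMap.ker ((1 - σ) ^ n) := by
    rw [LinearMap.mem_ker]
    obtain ⟨m, rfl⟩ := Nat.exists_eq_succ_of_ne_zero hn
    rw [Nat.succ_eq_add_one, pow_succ]
    show ((1 - σ) ^ m) ((1 - σ) x) = 0
    rw [h, map_zero]
  exact Submodule.disjoint_def.1 hc.disjoint x h1 hx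

theorem exists_n (σ : Module.End F V) : ∃ n, n ≠ 0 ∧
    IsCompl (LinearMap.ker ((1 - σ) ^ n)) (LinearMap.range ((1 - σ) ^ n)) := by
  obtain ⟨k, hk⟩ := Filter.eventually_atTop.1 (LinearMap.eventually_isCompl_ker_pow_range_pow (1 - σ))
  exact ⟨k + 1, Nat.succ_ne_zero k, hk (k + 1) (Nat.le_succ k)⟩

end split

section inv

variable {ρ : Representation F G V}

theorem B_rho (hBinv : ∀ g : G, ∀ x y : V, B (ρ g x) (ρ g y) = B x y) (g : G) (x y : V) :
    B (ρ g x) y = B x (ρ g⁻¹ y) := by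
  have h1 := hBinv g x (ρ g⁻¹ y)
  rw [← h1]
  congr 1
  rw [← Module.End.mul_apply, ← map_mul, mul_inv_cancel, map_one, Module.End.one_apply]

theorem comm_rho (hB : B.Nondegenerate) (hσ : ∀ x y, B y x = B x (σ y))
    (hBinv : ∀ g : G, ∀ x y : V, B (ρ g x) (ρ g y) = B x y) (g : G) : Commute σ (ρ g) := by
  refine comm_of hB hσ (f := ρ g) (g := ρ g⁻¹) (fun x y => ?_) (fun x y => ?_)
  · rw [B_rho hBinv, inv_inv]
  · rw [B_rho hBinv]

end inv

/-- Odd characteristic. -/
theorem odd_case (h2 : (2 : F) ≠ 0) (ρ : Representation F G V) (B : BilinForm F V) (hB : B.Nondegenerate)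
    (hBinv : ∀ g : G, ∀ x y : V, B (ρ g x) (ρ g y) = B x y) :
    ∃ U W : Submodule F V, IsCompl U W ∧ (∀ g : G, ∀ u ∈ U, ρ g u ∈ U) ∧ (∀ g : G, ∀ w ∈ W, ρ g w ∈ W) ∧
      (∃ A : LinearMap.BilinForm F V, (∀ x : V, A x x = 0) ∧ (∀ g : G, ∀ x ∈ U, ∀ y ∈ U, A (ρ g x) (ρ g y) = A x y) ∧
        (∀ x ∈ U, (∀ y ∈ U, A x y = 0) → x = 0)) ∧
      (∃ S : LinearMap.BilinForm F V, (∀ x y : V, S x y = S y x) ∧
        (∀ g : G, ∀ x ∈ W, ∀ y ∈ W, S (ρ g x) (ρ g y) = S x y) ∧ (∀ x ∈ W, (∀ y ∈ W, S x y = 0) → x = 0)) := by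
  obtain ⟨σ, hσ⟩ := exists_asym B hB
  obtain ⟨n, hn, hc⟩ := exists_n σ
  have hcomm := fun g => (comm_rho hB hσ hBinv g).symm
  refine ⟨LinearMap.range ((1 - σ) ^ n), LinearMap.ker ((1 - σ) ^ n), hc.symm,
    fun g u hu => range_stable (hcomm g) hu, fun g w hw => ker_stable (hcomm g) hw, ⟨B - B.flip, ?_, ?_, ?_⟩, ⟨B + B.flip, ?_, ?_, ?_⟩⟩
  · intro x
    show B x x - B x x = 0
    ring
  · intro g x _ y _
    show B (ρ g x) (ρ g y) - B (ρ g y) (ρ g x) = B x y - B y x
    rw [hBinv, hBinv]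
  · intro x hx h
    have h1 : ∀ y ∈ LinearMap.range ((1 - σ) ^ n), B x y = 0 := by
      intro y hy
      obtain ⟨z, hz, rfl⟩ := surj_on (f := 1 - σ) (fun x hx => range_stable (commute_N (σ := σ)).symm hx)
        (fun x hx h => N_inj hc hn hx h) hy
      have h3 := h z hz
      have h4 : B x z - B z x = 0 := h3
      rw [hσ x z, ← map_sub] at h4
      exact h4
    apply hB.1
    intro y
    obtain ⟨w, hw, u, hu, rfl⟩ := Submodule.mem_sup.1 (hc.sup_eq_top ▸ Submodule.mem_top : y ∈ LinearMap.ker ((1 - σ) ^ n) ⊔ LinearMap.range ((1 - σ) ^ n))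
    rw [map_add, B_range_ker hσ hw hx, h1 u hu, add_zero]
  · intro x y
    show B x y + B y x = B y x + B x y
    ring
  · intro g x _ y _
    show B (ρ g x) (ρ g y) + B (ρ g y) (ρ g x) = B x y + B y x
    rw [hBinv, hBinv]
  · intro x hx h
    have hinj : ∀ y ∈ LinearMap.ker ((1 - σ) ^ n), (1 + σ) y = 0 → y = 0 := by
      intro y hy h3
      have h4 : (1 - σ) y = (2 : F) • y := by
        have h5 : y + σ y = 0 := h3
        show y - σ y = (2 : F) • y
        rw [two_smul, eq_neg_of_add_eq_zero_right h5]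
        abel
      have h5 : ∀ k, ((1 - σ) ^ k) y = (2 : F) ^ k • y := by
        intro k
        induction k with
        | zero => simp
        | succ k ih =>
          rw [pow_succ']
          show (1 - σ) (((1 - σ) ^ k) y) = _
          rw [ih, map_smul, h4, smul_smul, pow_succ]
      have h6 := h5 n
      rw [LinearMap.mem_ker.1 hy] at h6
      exact (smul_eq_zero.1 h6.symm).resolve_left (pow_ne_zero n h2)
    have h1 : ∀ y ∈ LinearMap.ker ((1 - σ) ^ n), B x y = 0 := by
      intro y hy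
      obtain ⟨z, hz, rfl⟩ := surj_on (f := 1 + σ) (fun x hx => ker_stable
        ((Commute.one_left σ).add_left (Commute.refl σ)) hx) hinj hy
      have h3 := h z hz
      have h4 : B x z + B z x = 0 := h3
      rw [hσ x z, ← map_add] at h4
      exact h4
    apply hB.1
    intro y
    obtain ⟨w, hw, u, hu, rfl⟩ := Submodule.mem_sup.1 (hc.sup_eq_top ▸ Submodule.mem_top : y ∈ LinearMap.ker ((1 - σ) ^ n) ⊔ LinearMap.range ((1 - σ) ^ n))
    rw [map_add, B_ker_range hσ hx hu, h1 w hw, add_zero]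

/-- Half of the nontrivial classes of a group of odd order. -/
theorem exists_half [Finite G] (hodd : Odd (Nat.card G)) : ∃ Φ : Set G, (∀ g h : G, g ∈ Φ → h * g * h⁻¹ ∈ Φ) ∧
    ∀ g : G, g ≠ 1 → (g ∈ Φ ↔ g⁻¹ ∉ Φ) ∧ (1 : G) ∉ Φ := by
  obtain ⟨m, ⟨e⟩⟩ := Finite.exists_equiv_fin (ConjClasses G)
  have hconj : ∀ g h : G, ConjClasses.mk (h * g * h⁻¹) = ConjClasses.mk g := fun g h =>
    (ConjClasses.mk_eq_mk_iff_isConj.2 (isConj_iff.2 ⟨h, rfl⟩)).symm
  refine ⟨{g | e (ConjClasses.mk g) < e (ConjClasses.mk g⁻¹)}, ?_, ?_⟩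
  · intro g h hg
    have h1 : (h * g * h⁻¹)⁻¹ = h * g⁻¹ * h⁻¹ := by group
    show e (ConjClasses.mk (h * g * h⁻¹)) < e (ConjClasses.mk (h * g * h⁻¹)⁻¹)
    rw [h1, hconj, hconj]
    exact hg
  · intro g hg
    have h1 : e (ConjClasses.mk g) ≠ e (ConjClasses.mk g⁻¹) := by
      intro h
      exact hg (PermLemma.eq_one_of_isConj_inv hodd (ConjClasses.mk_eq_mk_iff_isConj.1 (e.injective h)))
    simp only [Set.mem_setOf_eq, inv_inv, not_lt, inv_one, lt_irrefl, not_false_eq_true, and_true]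
    exact ⟨le_of_lt, fun h => lt_of_le_of_ne h h1⟩

/-- Characteristic two. -/
theorem two_case [Finite G] (h2 : (2 : F) = 0) (hodd : Odd (Nat.card G)) (ρ : Representation F G V) (B : BilinForm F V)
    (hB : B.Nondegenerate) (hBinv : ∀ g : G, ∀ x y : V, B (ρ g x) (ρ g y) = B x y) :
    ∃ U W : Submodule F V, IsCompl U W ∧ (∀ g : G, ∀ u ∈ U, ρ g u ∈ U) ∧ (∀ g : G, ∀ w ∈ W, ρ g w = w) ∧
      (∃ A : LinearMap.BilinForm F V, (∀ x : V, A x x = 0) ∧ (∀ g : G, ∀ x ∈ U, ∀ y ∈ U, A (ρ g x) (ρ g y) = A x y) ∧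
        (∀ x ∈ U, (∀ y ∈ U, A x y = 0) → x = 0)) ∧
      (∃ S : LinearMap.BilinForm F V, (∀ x y : V, S x y = S y x) ∧ (∀ x ∈ W, (∀ y ∈ W, S x y = 0) → x = 0)) := by
  classical
  have := Fintype.ofFinite G
  obtain ⟨σ, hσ⟩ := exists_asym B hB
  obtain ⟨n, hn, hc⟩ := exists_n σ
  have hcomm := fun g => (comm_rho hB hσ hBinv g).symm
  obtain ⟨Φ, hΦ1, hΦ2⟩ := exists_half hodd
  have hcard : (Nat.card G : F) = 1 := by
    obtain ⟨k, hk⟩ := hodd
    rw [hk]
    push_cast
    rw [h2, zero_mul, zero_add]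
  let P : Module.End F V := ∑ g : G, ρ g
  have hPg : ∀ g, ρ g * P = P := by
    intro g
    show ρ g * ∑ h : G, ρ h = ∑ h : G, ρ h
    rw [Finset.mul_sum]
    simp only [← map_mul]
    exact Fintype.sum_bijective _ (Group.mulLeft_bijective g) _ _ fun _ => rfl
  have hgP : ∀ g, P * ρ g = P := by
    intro g
    show (∑ h : G, ρ h) * ρ g = ∑ h : G, ρ h
    rw [Finset.sum_mul]
    simp only [← map_mul]
    exact Fintype.sum_bijective _ (Group.mulRight_bijective g) _ _ fun _ => rfl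
  have hPfix : ∀ x, (∀ g, ρ g x = x) → P x = x := by
    intro x hx
    show (∑ g : G, ρ g) x = x
    rw [LinearMap.sum_apply, Finset.sum_congr rfl fun g _ => hx g, Finset.sum_const, Finset.card_univ,
      ← Nat.card_eq_fintype_card, ← Nat.cast_smul_eq_nsmul F, hcard, one_smul]
  have hPP : ∀ x, P (P x) = P x := fun x => hPfix _ fun g => congrArg (fun f => f x) (hPg g)
  let W : Submodule F V := LinearMap.range P
  let U : Submodule F V := LinearMap.ker P
  have hUW : IsCompl U W := by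
    refine ⟨Submodule.disjoint_def.2 fun x hx hx' => ?_, codisjoint_iff.2 (eq_top_iff.2 fun x _ => ?_)⟩
    · obtain ⟨y, rfl⟩ := hx'
      have h1 : P (P y) = 0 := LinearMap.mem_ker.1 hx
      rwa [hPP] at h1
    · refine Submodule.mem_sup.2 ⟨x - P x, ?_, P x, ⟨x, rfl⟩, by abel⟩
      rw [LinearMap.mem_ker, map_sub, hPP, sub_self]
  have hWfix : ∀ g : G, ∀ w ∈ W, ρ g w = w := by
    rintro g w ⟨y, rfl⟩
    exact congrArg (fun f => f y) (hPg g)
  have hUst : ∀ g : G, ∀ u ∈ U, ρ g u ∈ U := by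
    intro g u hu
    rw [LinearMap.mem_ker]
    have h1 : P (ρ g u) = P u := congrArg (fun f => f u) (hgP g)
    rw [h1]
    exact hu
  have hBP : ∀ x y, B (P x) y = B x (P y) := by
    intro x y
    show B ((∑ g : G, ρ g) x) y = B x ((∑ g : G, ρ g) y)
    rw [LinearMap.sum_apply, LinearMap.sum_apply, map_sum, map_sum, LinearMap.sum_apply]
    simp only [B_rho hBinv]
    exact Fintype.sum_bijective _ (Equiv.inv G).bijective _ _ fun _ => rfl
  have hBUW : ∀ u ∈ U, ∀ w ∈ W, B u w = 0 := by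
    rintro u hu w ⟨y, rfl⟩
    rw [← hBP, LinearMap.mem_ker.1 hu, map_zero, LinearMap.zero_apply]
  -- the central element
  let z : Module.End F V := ∑ g : G, if g ∈ Φ then ρ g else 0
  let z' : Module.End F V := ∑ g : G, if g ∈ Φ then ρ g⁻¹ else 0
  have hzz : z + z' = P - 1 := by
    have e1 : z' = ∑ g : G, if g⁻¹ ∈ Φ then ρ g else 0 := by
      refine Fintype.sum_bijective _ (Equiv.inv G).bijective _ _ fun g => ?_
      show _ = if (g⁻¹)⁻¹ ∈ Φ then ρ g⁻¹ else 0
      rw [inv_inv]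
    have e2 : P = ρ 1 + ∑ g ∈ Finset.univ.erase (1 : G), ρ g := (Finset.add_sum_erase _ _ (Finset.mem_univ _)).symm
    rw [e1]
    show (∑ g : G, if g ∈ Φ then ρ g else 0) + _ = P - 1
    rw [← Finset.sum_add_distrib, e2, map_one, add_sub_cancel_left, ← Finset.add_sum_erase _ _ (Finset.mem_univ (1 : G))]
    have e3 : (if (1 : G) ∈ Φ then ρ 1 else 0) + (if (1 : G)⁻¹ ∈ Φ then ρ 1 else 0) = 0 := by
      rw [inv_one]
      by_cases h1 : (1 : G) ∈ Φ
      · rw [if_pos h1, ← two_smul F, h2, zero_smul]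
      · rw [if_neg h1, add_zero]
    rw [e3, zero_add]
    refine Finset.sum_congr rfl fun g hg => ?_
    have h1 := (hΦ2 g (Finset.ne_of_mem_erase hg)).1
    by_cases h3 : g ∈ Φ
    · rw [if_pos h3, if_neg (h1.1 h3), add_zero]
    · rw [if_neg h3, if_pos (by by_contra h4; exact h3 (h1.2 h4)), zero_add]
  have hzB : ∀ x y, B (z x) y = B x (z' y) := by
    intro x y
    show B ((∑ g : G, if g ∈ Φ then ρ g else 0) x) y = B x ((∑ g : G, if g ∈ Φ then ρ g⁻¹ else 0) y)
    rw [LinearMap.sum_apply, LinearMap.sum_apply, map_sum, map_sum, LinearMap.sum_apply]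
    refine Finset.sum_congr rfl fun g _ => ?_
    by_cases h : g ∈ Φ
    · rw [if_pos h, if_pos h, B_rho hBinv]
    · rw [if_neg h, if_neg h]; simp
  have hzg : ∀ g x, z (ρ g x) = ρ g (z x) := by
    intro g x
    show (∑ h : G, if h ∈ Φ then ρ h else 0) (ρ g x) = ρ g ((∑ h : G, if h ∈ Φ then ρ h else 0) x)
    rw [LinearMap.sum_apply, LinearMap.sum_apply, map_sum]
    refine Fintype.sum_bijective (fun h => g⁻¹ * h * g) ⟨fun a b hab => by simpa using hab, fun b =>
      ⟨g * b * g⁻¹, by group⟩⟩ _ _ fun h => ?_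
    have h1 : h ∈ Φ ↔ g⁻¹ * h * g ∈ Φ := by
      constructor
      · intro h3
        have := hΦ1 h g⁻¹ h3
        rwa [inv_inv] at this
      · intro h3
        have := hΦ1 _ g h3
        have e : g * (g⁻¹ * h * g) * g⁻¹ = h := by group
        rwa [e] at this
    by_cases h3 : h ∈ Φ
    · rw [if_pos h3, if_pos (h1.1 h3), ← Module.End.mul_apply, ← Module.End.mul_apply, ← map_mul, ← map_mul]
      congr 2
      group
    · rw [if_neg h3, if_neg (fun h4 => h3 (h1.2 h4))]; simp
  have hz'σ : Commute z' σ := by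
    refine Commute.sum_left _ _ _ fun g _ => ?_
    by_cases h : g ∈ Φ
    · rw [if_pos h]; exact hcomm _
    · rw [if_neg h]; exact Commute.zero_left _
  have hzσ : Commute z σ := by
    refine Commute.sum_left _ _ _ fun g _ => ?_
    by_cases h : g ∈ Φ
    · rw [if_pos h]; exact hcomm _
    · rw [if_neg h]; exact Commute.zero_left _
  have hPσ : Commute P σ := Commute.sum_left _ _ _ fun g _ => hcomm g
  have hzP : ∀ x, P (z x) = z (P x) := by
    intro x
    have e1 : ∀ w, P w = ∑ g : G, ρ g w := fun w => LinearMap.sum_apply _ _ _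
    rw [e1, e1, map_sum]
    exact Finset.sum_congr rfl fun g _ => (hzg g x).symm
  have hz'P : ∀ x, P (z' x) = z' (P x) := by
    intro x
    have h1 : z' = P - 1 - z := by rw [← hzz]; abel
    rw [h1]
    simp only [LinearMap.sub_apply, Module.End.one_apply, map_sub, hzP]
  set K := LinearMap.ker ((1 - σ) ^ n) with hK
  set R := LinearMap.range ((1 - σ) ^ n) with hR
  let pK : V →ₗ[F] V := K.projection R hc
  let pR : V →ₗ[F] V := R.projection K hc.symm
  have hsum : ∀ x, pK x + pR x = x := by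
    intro x
    obtain ⟨w, hw, u, hu, rfl⟩ := Submodule.mem_sup.1 (hc.sup_eq_top ▸ Submodule.mem_top : x ∈ K ⊔ R)
    have e1 : pK w = w := Submodule.projection_apply_of_mem_left hc hw
    have e2 : pK u = 0 := Submodule.projection_apply_of_mem_right hc hu
    have e3 : pR w = 0 := Submodule.projection_apply_of_mem_right hc.symm hw
    have e4 : pR u = u := Submodule.projection_apply_of_mem_left hc.symm hu
    rw [map_add, map_add, e1, e2, e3, e4]
    abel
  have hpKm : ∀ x, pK x ∈ K := fun x => Submodule.projection_apply_mem hc x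
  have hpRm : ∀ x, pR x ∈ R := fun x => Submodule.projection_apply_mem hc.symm x
  have hpK1 : ∀ x ∈ K, pK x = x := fun x hx => Submodule.projection_apply_of_mem_left hc hx
  have hpK0 : ∀ x ∈ R, pK x = 0 := fun x hx => Submodule.projection_apply_of_mem_right hc hx
  have hpR1 : ∀ x ∈ R, pR x = x := fun x hx => Submodule.projection_apply_of_mem_left hc.symm hx
  have hpR0 : ∀ x ∈ K, pR x = 0 := fun x hx => Submodule.projection_apply_of_mem_right hc.symm hx
  have hpKf : ∀ f : Module.End F V, Commute f σ → ∀ x, pK (f x) = f (pK x) := by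
    intro f hf x
    conv_lhs => rw [← hsum x, map_add, map_add]
    rw [hpK1 _ (ker_stable hf (hpKm x)), hpK0 _ (range_stable hf (hpRm x)), add_zero]
  have hpRf : ∀ f : Module.End F V, Commute f σ → ∀ x, pR (f x) = f (pR x) := by
    intro f hf x
    conv_lhs => rw [← hsum x, map_add, map_add]
    rw [hpR0 _ (ker_stable hf (hpKm x)), hpR1 _ (range_stable hf (hpRm x)), zero_add]
  have hpKU : ∀ x ∈ U, pK x ∈ U := by
    intro x hx
    rw [LinearMap.mem_ker, ← hpKf P hPσ, LinearMap.mem_ker.1 hx, map_zero]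
  have hpRU : ∀ x ∈ U, pR x ∈ U := by
    intro x hx
    rw [LinearMap.mem_ker, ← hpRf P hPσ, LinearMap.mem_ker.1 hx, map_zero]
  let T : Module.End F V := z + σ * z'
  have hTinj : ∀ y ∈ K ⊓ U, T y = 0 → y = 0 := by
    intro y hy hT
    have h1 : T y = -y - (1 - σ) (z' y) := by
      have h3 : z y + z' y = P y - y := congrArg (fun f => f y) hzz
      rw [LinearMap.mem_ker.1 hy.2, zero_sub] at h3
      show z y + σ (z' y) = -y - (z' y - σ (z' y))
      rw [← h3]; abel
    rw [h1] at hT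
    let Q : Module.End F V := -((1 - σ) * z')
    have h3 : Q y = y := by
      show -((1 - σ) (z' y)) = y
      have := sub_eq_zero.1 hT
      rw [← this, neg_neg]
    have h4 : ∀ k, (Q ^ k) y = y := by
      intro k
      induction k with
      | zero => rw [pow_zero, Module.End.one_apply]
      | succ k ih =>
        rw [pow_succ]
        show (Q ^ k) (Q y) = y
        rw [h3, ih]
    have hcm : Commute (1 - σ) z' := ((Commute.one_right z').sub_right hz'σ).symm
    have h5 := h4 n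
    have h6 : Q ^ n = (-1 : Module.End F V) ^ n * (z' ^ n * (1 - σ) ^ n) := by
      show (-((1 - σ) * z')) ^ n = _
      rw [neg_pow, hcm.mul_pow, (hcm.pow_pow n n).eq]
    have h7 : ((-1 : Module.End F V) ^ n * (z' ^ n * (1 - σ) ^ n)) y = 0 := by
      show ((-1 : Module.End F V) ^ n) ((z' ^ n) (((1 - σ) ^ n) y)) = 0
      rw [LinearMap.mem_ker.1 hy.1, map_zero, map_zero]
    rw [h6, h7] at h5
    exact h5.symm
  have hTst : ∀ y ∈ K ⊓ U, T y ∈ K ⊓ U := by
    intro y hy
    refine ⟨ker_stable (hzσ.add_left ((Commute.refl σ).mul_left hz'σ)) hy.1, LinearMap.mem_ker.2 ?_⟩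
    show P (z y + σ (z' y)) = 0
    have h1 : P (σ (z' y)) = σ (P (z' y)) := congrArg (fun f => f (z' y)) hPσ.eq
    rw [map_add, h1, hzP, hz'P, LinearMap.mem_ker.1 hy.2]
    simp
  let A : BilinForm F V := LinearMap.mk₂ F (fun x y => (B (pR x) (pR y) - B (pR y) (pR x)) +
      (B (pK x) (z (pK y)) + B (pK y) (z (pK x))))
    (fun x x' y => by simp only [map_add, LinearMap.add_apply]; ring)
    (fun c x y => by simp only [map_smul, LinearMap.smul_apply, smul_eq_mul]; ring)
    (fun x y y' => by simp only [map_add, LinearMap.add_apply]; ring)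
    (fun c x y => by simp only [map_smul, LinearMap.smul_apply, smul_eq_mul]; ring)
  have hA : ∀ x y, A x y = (B (pR x) (pR y) - B (pR y) (pR x)) + (B (pK x) (z (pK y)) + B (pK y) (z (pK x))) :=
    fun x y => rfl
  have hkey : ∀ x ∈ U, ∀ (S : Submodule F V), (S = K ∨ S = R) → x ∈ S → (∀ y ∈ S ⊓ U, B x y = 0) → x = 0 := by
    intro x hxU S hS hxS h
    apply hB.1
    intro y
    obtain ⟨u, hu, w, hw, rfl⟩ := Submodule.mem_sup.1 (hUW.sup_eq_top ▸ Submodule.mem_top : y ∈ U ⊔ W)
    rw [map_add, hBUW x hxU w hw, add_zero]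
    conv_lhs => rw [← hsum u, map_add]
    rcases hS with rfl | rfl
    · rw [B_ker_range hσ hxS (hpRm u), add_zero]
      exact h _ ⟨hpKm u, hpKU u hu⟩
    · rw [B_range_ker hσ (hpKm u) hxS, zero_add]
      exact h _ ⟨hpRm u, hpRU u hu⟩
  let b := Module.finBasis F W
  let q : V →ₗ[F] W := P.rangeRestrict
  have hqW : ∀ w : W, q w = w := by
    intro w
    apply Subtype.ext
    obtain ⟨y, hy⟩ := w.2
    show P w = w
    rw [← hy, hPP]
  let S : BilinForm F V := LinearMap.mk₂ F (fun x y => ∑ i, b.repr (q x) i * b.repr (q y) i)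
    (fun x x' y => by simp only [map_add, Finsupp.add_apply, add_mul, Finset.sum_add_distrib])
    (fun c x y => by simp only [map_smul, Finsupp.smul_apply, smul_eq_mul, Finset.mul_sum, mul_assoc])
    (fun x y y' => by simp only [map_add, Finsupp.add_apply, mul_add, Finset.sum_add_distrib])
    (fun c x y => by
      simp only [map_smul, Finsupp.smul_apply, smul_eq_mul, Finset.mul_sum]
      exact Finset.sum_congr rfl fun i _ => by ring)
  have hS : ∀ x y, S x y = ∑ i, b.repr (q x) i * b.repr (q y) i := fun x y => rfl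
  refine ⟨U, W, hUW, hUst, hWfix, ⟨A, ?_, ?_, ?_⟩, ⟨S, ?_, ?_⟩⟩
  · intro x
    rw [hA, sub_self, zero_add, ← two_mul, h2, zero_mul]
  · intro g x _ y _
    rw [hA, hA, hpRf _ (hcomm g), hpRf _ (hcomm g), hpKf _ (hcomm g), hpKf _ (hcomm g), hzg, hzg, hBinv, hBinv, hBinv, hBinv]
  · intro x hx h
    have hxK : pK x = 0 := by
      refine hkey _ (hpKU x hx) K (Or.inl rfl) (hpKm x) fun y hy => ?_
      obtain ⟨y', hy', rfl⟩ := surj_on hTst hTinj hy
      have h3 := h y' hy'.2
      rw [hA, hpR0 y' hy'.1, hpK1 y' hy'.1, map_zero, LinearMap.map_zero₂, sub_zero, zero_add] at h3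
      rw [hσ (z (pK x)) y', hzB] at h3
      have h4 : z' (σ y') = σ (z' y') := congrArg (fun f => f y') hz'σ.eq
      rw [h4, ← map_add] at h3
      exact h3
    have hxR : pR x = 0 := by
      refine hkey _ (hpRU x hx) R (Or.inr rfl) (hpRm x) fun y hy => ?_
      obtain ⟨y', hy', rfl⟩ := surj_on (f := 1 - σ) (S := R ⊓ U) (fun y hy =>
        ⟨range_stable (commute_N (σ := σ)).symm hy.1, LinearMap.mem_ker.2 <| by
          show P (y - σ y) = 0
          have h1 : P (σ y) = σ (P y) := congrArg (fun f => f y) hPσ.eq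
          rw [map_sub, h1, LinearMap.mem_ker.1 hy.2]; simp⟩) (fun y hy h => N_inj hc hn hy.1 h) hy
      have h3 := h y' hy'.2
      rw [hA, hpK0 y' hy'.1, hpR1 y' hy'.1, map_zero, map_zero, LinearMap.map_zero₂, add_zero, add_zero] at h3
      rw [hσ (pR x) y', ← map_sub] at h3
      exact h3
    rw [← hsum x, hxK, hxR, add_zero]
  · intro x y
    rw [hS, hS]
    exact Finset.sum_congr rfl fun i _ => mul_comm _ _
  · intro x hx h
    have h1 : q x = 0 := by
      apply b.repr.injective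
      rw [map_zero]
      ext i
      have h3 := h (b i) (b i).2
      rw [hS, hqW (b i)] at h3
      simp only [Module.Basis.repr_self] at h3
      rw [Finset.sum_eq_single i] at h3
      · rw [Finsupp.single_eq_same, mul_one] at h3
        rw [h3]; rfl
      · intro j _ hj
        rw [Finsupp.single_eq_of_ne (by exact hj), mul_zero]
      · intro h; exact absurd (Finset.mem_univ _) h
    have h3 := hqW ⟨x, hx⟩
    have h4 : q x = ⟨x, hx⟩ := h3
    rw [h1] at h4
    exact (congrArg Subtype.val h4).symm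

end Cfsg.Agent.Lib.KGVForms
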