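import Mathlib
import Cfsg.Agent.Lib.KGVGood
import Cfsg.Agent.Lib.CharBasic2

/-!
# Quadratic functions and fixed points
-/

set_option autoImplicit false
set_option linter.all false
set_option maxHeartbeats 400000

namespace Cfsg.Agent.Lib.KGVQuad

open Cfsg Cfsg.Agent.Lib.CharBasic Cfsg.Agent.Lib.BlockRing Cfsg.Agent.Lib.CycAvg Cfsg.Agent.Lib.KGVCrit
open Cfsg.Agent.Lib.KGVGood
open scoped ComplexConjugate

universe u

section ZC

variable {H : Type u} [Group H] {N : ℕ}

theorem conj_mem' [Finite H] {f : H → ℂ} (hf : f ∈ ZC N H) : (fun y => conj (f y)) ∈ ZC N H := by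
  induction hf using AddSubgroup.closure_induction with
  | mem f hf =>
    obtain ⟨c, hc, ψ, hψ, rfl⟩ := hf
    have : (fun y => conj ((c • ψ) y)) = (conj c) • (fun y => conj (ψ y)) := by
      funext y; simp
    rw [this]
    exact smul_char_mem (conj_mem hc) hψ.conj
  | zero =>
    have : (fun y => conj ((0 : H → ℂ) y)) = 0 := by funext y; simp
    rw [this]; exact (ZC N H).zero_mem
  | add a b _ _ ha hb =>
    have : (fun y => conj ((a + b) y)) = (fun y => conj (a y)) + (fun y => conj (b y)) := by funext y; simp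
    rw [this]; exact (ZC N H).add_mem ha hb
  | neg a _ ha =>
    have : (fun y => conj ((-a) y)) = -(fun y => conj (a y)) := by funext y; simp
    rw [this]; exact (ZC N H).neg_mem ha

/-- Divide by a natural number valued generalized character prime to the group order. -/
theorem mem_of_mul [Finite H] (hN : Nat.card H ∣ N) {f : H → ℂ} (hf : IsClassFunction H f)
    (hv : ∀ g, f g ∈ Z N) {c : H → ℕ} (hc : (fun y => (c y : ℂ)) ∈ ZC N H) (hcop : ∀ y, (c y).Coprime (Nat.card H))
    (h : (fun y => (c y : ℂ) * f y) ∈ ZC N H) : f ∈ ZC N H := by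
  have := Fintype.ofFinite H
  set m := Nat.totient (Nat.card H) with hm
  have hm0 : 0 < m := Nat.totient_pos.2 Nat.card_pos
  have h1 : (fun y => (c y : ℂ) ^ m * f y) ∈ ZC N H := by
    have e : (fun y => (c y : ℂ) ^ m * f y) = (fun y => (c y : ℂ)) ^ (m - 1) * (fun y => (c y : ℂ) * f y) := by
      funext y
      simp only [Pi.mul_apply, Pi.pow_apply]
      rw [← mul_assoc, ← pow_succ, Nat.sub_add_cancel hm0]
    rw [e]
    exact mul_mem (pow_mem' hc _) h
  have h2 : (fun y => (1 - (c y : ℂ) ^ m) * f y) ∈ ZC N H := by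
    refine mem_of_inner ?_ fun φ => ?_
    · have e : (fun y => (1 - (c y : ℂ) ^ m) * f y) = f - (fun y => (c y : ℂ) ^ m * f y) := by
        funext y; simp only [Pi.sub_apply]; ring
      rw [e]
      exact hf.sub (isClassFunction h1)
    · rw [classInner_def, Finset.mul_sum]
      refine (Z N).sum_mem fun y _ => ?_
      have h3 : ∃ k : ℤ, (1 - (c y : ℂ) ^ m) = (Nat.card H : ℂ) * k := by
        have h4 := Nat.ModEq.pow_totient (hcop y)
        rw [← hm] at h4
        have h5 : ((Nat.card H : ℕ) : ℤ) ∣ ((1 : ℕ) : ℤ) - ((c y ^ m : ℕ) : ℤ) := (Nat.modEq_iff_dvd.1 h4)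
        obtain ⟨k, hk⟩ := h5
        refine ⟨k, ?_⟩
        exact_mod_cast congrArg (fun z : ℤ => (z : ℂ)) hk
      obtain ⟨k, hk⟩ := h3
      have hH : (Nat.card H : ℂ) ≠ 0 := Nat.cast_ne_zero.2 Nat.card_pos.ne'
      have h6 : (Nat.card H : ℂ)⁻¹ * ((1 - (c y : ℂ) ^ m) * f y * conj ((φ : H → ℂ) y)) =
          k * (f y * conj ((φ : H → ℂ) y)) := by
        rw [hk]; field_simp
      rw [h6]
      exact (Z N).mul_mem (intCast_mem _ k) ((Z N).mul_mem (hv y)
        (conj_mem (char_val_mem φ.2.isCharacter ((orderOf_dvd_natCard y).trans hN))))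
  have e : f = (fun y => (1 - (c y : ℂ) ^ m) * f y) + (fun y => (c y : ℂ) ^ m * f y) := by
    funext y; simp only [Pi.add_apply]; ring
  rw [e]
  exact (ZC N H).add_mem h2 h1

end ZC

section gauss

variable {p : ℕ} [hp : Fact p.Prime]

/-- The absolute value of a nondegenerate Gauss sum. -/
theorem gauss_sq {W : Type*} [AddCommGroup W] [Fintype W] {ψ : AddChar (ZMod p) ℂ} (hψ : ψ.IsPrimitive)
    (q : W → ZMod p) (b : W → W → ZMod p) (hb1 : ∀ x x' y, b (x + x') y = b x y + b x' y)
    (hq : ∀ x y, q (x + y) = q x + q y + b x y)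
    (hnd : ∀ d, (∀ w, b w d = 0) → d = 0) :
    (∑ w, ψ (q w)) * conj (∑ w, ψ (q w)) = Fintype.card W := by
  classical
  have hb0 : ∀ y, b 0 y = 0 := by
    intro y
    have := hb1 0 0 y
    rw [add_zero] at this
    exact left_eq_add.1 this
  have hq0 : q 0 = 0 := by
    have := hq 0 0
    rw [add_zero, hb0, add_zero] at this
    exact left_eq_add.1 this
  have h1 : (∑ w, ψ (q w)) * conj (∑ w, ψ (q w)) = ∑ w' : W, ∑ d : W, ψ (q d) * ψ (b w' d) := by
    rw [map_sum, Finset.mul_sum]
    refine Finset.sum_congr rfl fun w' _ => ?_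
    rw [Finset.sum_mul, ← Equiv.sum_comp (Equiv.addLeft w')]
    refine Finset.sum_congr rfl fun d _ => ?_
    show ψ (q (w' + d)) * conj (ψ (q w')) = _
    rw [hq, AddChar.map_add_eq_mul, AddChar.map_add_eq_mul, ← AddChar.map_neg_eq_conj, AddChar.map_neg_eq_inv]
    have h2 : ψ (q w') ≠ 0 := by
      intro h
      have h3 := AddChar.map_add_eq_mul ψ (q w') (-q w')
      rw [add_neg_cancel, AddChar.map_zero_eq_one, h, zero_mul] at h3
      exact one_ne_zero h3
    field_simp
  rw [h1, Finset.sum_comm]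
  have h2 : ∀ d : W, ∑ w' : W, ψ (q d) * ψ (b w' d) = if d = 0 then (Fintype.card W : ℂ) else 0 := by
    intro d
    rw [← Finset.mul_sum]
    let χ : AddChar W ℂ :=
      { toFun := fun w => ψ (b w d)
        map_zero_eq_one' := by rw [hb0, AddChar.map_zero_eq_one]
        map_add_eq_mul' := fun x y => by rw [hb1, AddChar.map_add_eq_mul] }
    have h3 : ∑ w' : W, ψ (b w' d) = if χ = 0 then (Fintype.card W : ℂ) else 0 := AddChar.sum_eq_ite χ
    rw [h3]
    by_cases hd : d = 0
    · have h4 : χ = 0 := by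
        ext w
        show ψ (b w d) = 1
        have h5 : b w d = 0 := by
          have h6 := hq w 0
          rw [add_zero, hq0, add_zero] at h6
          rw [hd]
          exact left_eq_add.1 h6
        rw [h5, AddChar.map_zero_eq_one]
      rw [if_pos h4, if_pos hd, hd, hq0, AddChar.map_zero_eq_one, one_mul]
    · have h4 : χ ≠ 0 := by
        intro h5
        apply hd
        apply hnd
        intro w
        have h6 : ψ (b w d) = 1 := congrArg (fun f => f w) h5
        exact (AddChar.IsPrimitive.zmod_char_eq_one_iff p hψ _).1 h6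
      rw [if_neg h4, if_neg hd, mul_zero]
  rw [Finset.sum_congr rfl fun d _ => h2 d, Finset.sum_ite_eq' Finset.univ (0 : W), if_pos (Finset.mem_univ _)]

end gauss

section main

variable {H : Type u} [Group H] [Finite H] {M : Ideal AlgInt} {N : ℕ} [NeZero N] {p : ℕ} [hp : Fact p.Prime]
variable {W : Type u} [AddCommGroup W] [Module (ZMod p) W] [Finite W]

theorem perm_mem (ρ : Representation (ZMod p) H W) (P : W → Prop) (hP : ∀ h w, P w → P (ρ h w)) :
    (fun y : H => (Nat.card {w : W // P w ∧ ρ y w = w} : ℂ)) ∈ ZC N H := by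
  letI : MulAction H {w : W // P w} :=
    { smul := fun h w => ⟨ρ h w, hP h w w.2⟩
      one_smul := fun w => Subtype.ext (by show ρ 1 (w : W) = w; rw [map_one]; rfl)
      mul_smul := fun a b w => Subtype.ext (by show ρ (a * b) (w : W) = ρ a (ρ b w); rw [map_mul]; rfl) }
  have h1 := isCharacter_perm (G := H) (X := {w : W // P w})
  have h2 : (fun y : H => (Nat.card {w : W // P w ∧ ρ y w = w} : ℂ)) =
      fun g : H => (Nat.card (MulAction.fixedBy {w : W // P w} g) : ℂ) := by
    funext y
    congr 1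
    refine Nat.card_congr
      { toFun := fun w => ⟨⟨w.1, w.2.1⟩, Subtype.ext w.2.2⟩
        invFun := fun w => ⟨w.1.1, w.1.2, congrArg Subtype.val w.2⟩
        left_inv := fun w => rfl
        right_inv := fun w => rfl }
  rw [h2]
  exact char_mem h1

/-- The norm of a power of `y`. -/
noncomputable def nrm (ρ : Representation (ZMod p) H W) (y : H) : Module.End (ZMod p) W :=
  ∑ i ∈ Finset.range (Nat.card H), (ρ y) ^ i

theorem rho_nrm (ρ : Representation (ZMod p) H W) (y : H) (w : W) : ρ y (nrm ρ y w) = nrm ρ y w := by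
  have h1 : (ρ y - 1) * nrm ρ y = 0 := by
    rw [nrm, mul_geom_sum, ← map_pow, pow_card_eq_one', map_one, sub_self]
  have h2 : (ρ y - 1) (nrm ρ y w) = 0 := congrArg (fun f => f w) h1
  rwa [LinearMap.sub_apply, Module.End.one_apply, sub_eq_zero] at h2

theorem pow_fix {ρ : Representation (ZMod p) H W} {y : H} {w : W} (h : ρ y w = w) (i : ℕ) : ((ρ y) ^ i) w = w := by
  induction i with
  | zero => rw [pow_zero, Module.End.one_apply]
  | succ i ih =>
    rw [pow_succ]
    show ((ρ y) ^ i) (ρ y w) = w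
    rw [h, ih]

theorem nrm_fix {ρ : Representation (ZMod p) H W} {y : H} {w : W} (h : ρ y w = w) :
    nrm ρ y w = (Nat.card H : ZMod p) • w := by
  rw [nrm, LinearMap.sum_apply, Finset.sum_congr rfl fun i _ => pow_fix h i, Finset.sum_const, Finset.card_range,
    Nat.cast_smul_eq_nsmul]

theorem isCompl_fix (hcop : ¬ p ∣ Nat.card H) (ρ : Representation (ZMod p) H W) (y : H) :
    IsCompl (LinearMap.ker (ρ y - 1)) (LinearMap.ker (nrm ρ y)) := by
  have hm : (Nat.card H : ZMod p) ≠ 0 := by rwa [Ne, ZMod.natCast_eq_zero_iff]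
  have hfix : ∀ w, w ∈ LinearMap.ker (ρ y - 1) ↔ ρ y w = w := by
    intro w
    rw [LinearMap.mem_ker, LinearMap.sub_apply, Module.End.one_apply, sub_eq_zero]
  refine ⟨Submodule.disjoint_def.2 fun x hx hx' => ?_, codisjoint_iff.2 (eq_top_iff.2 fun x _ => ?_)⟩
  · rw [LinearMap.mem_ker, nrm_fix ((hfix x).1 hx)] at hx'
    exact (smul_eq_zero.1 hx').resolve_left hm
  · refine Submodule.mem_sup.2 ⟨(Nat.card H : ZMod p)⁻¹ • nrm ρ y x, ?_, x - (Nat.card H : ZMod p)⁻¹ • nrm ρ y x, ?_, by abel⟩
    · rw [hfix, map_smul, rho_nrm]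
    · rw [LinearMap.mem_ker, map_sub, map_smul, nrm_fix (rho_nrm ρ y x), smul_smul, inv_mul_cancel₀ hm, one_smul, sub_self]

theorem mem_fix {ρ : Representation (ZMod p) H W} {y : H} {w : W} : w ∈ LinearMap.ker (ρ y - 1) ↔ ρ y w = w := by
  rw [LinearMap.mem_ker, LinearMap.sub_apply, Module.End.one_apply, sub_eq_zero]

theorem good_quad (hM : IsPModular p M) (hpN : p ∣ N) (hHN : Nat.card H ∣ N) (hcop : ¬ p ∣ Nat.card H)
    (ρ : Representation (ZMod p) H W) (q : W → ZMod p) (b : W → W → ZMod p)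
    (hb1 : ∀ x x' y, b (x + x') y = b x y + b x' y) (hq : ∀ x y, q (x + y) = q x + q y + b x y)
    (hqi : ∀ h x, q (ρ h x) = q x) (hnd : ∀ d, (∀ w, b w d = 0) → d = 0) :
    Good M N (Nat.card W) (fun y : H => Nat.card {w : W // ρ y w = w}) := by
  classical
  haveI := isPrime hM
  have hp' := hp.out
  have := Fintype.ofFinite W
  have hm : (Nat.card H : ZMod p) ≠ 0 := by rwa [Ne, ZMod.natCast_eq_zero_iff]
  let ψ : AddChar (ZMod p) ℂ := AddChar.FiniteField.primitiveChar_to_Complex (ZMod p)
  have hψ : ψ.IsPrimitive := AddChar.FiniteField.primitiveChar_to_Complex_isPrimitive (ZMod p)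
  have hψp : ∀ a, ψ a ^ p = 1 := by
    intro a
    rw [← AddChar.map_nsmul_eq_pow, nsmul_eq_mul, CharP.cast_eq_zero, zero_mul, AddChar.map_zero_eq_one]
  have hψN : ∀ a, ψ a ∈ Z N := by
    intro a
    refine root_mem ?_
    obtain ⟨k, hk⟩ := hpN
    rw [hk, pow_mul, hψp, one_pow]
  have hsymm : ∀ x y, b x y = b y x := by
    intro x y
    have h1 := hq x y
    have h2 := hq y x
    rw [add_comm y x, h1] at h2
    linear_combination h2
  have hb2 : ∀ x y y', b x (y + y') = b x y + b x y' := by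
    intro x y y'
    rw [hsymm, hb1, hsymm y, hsymm y']
  have hb0 : ∀ y, b 0 y = 0 := by
    intro y
    have := hb1 0 0 y
    rw [add_zero] at this
    exact left_eq_add.1 this
  have hq0 : q 0 = 0 := by
    have := hq 0 0
    rw [add_zero, hb0, add_zero] at this
    exact left_eq_add.1 this
  have hbi : ∀ h x y, b (ρ h x) (ρ h y) = b x y := by
    intro h x y
    have h1 := hq (ρ h x) (ρ h y)
    rw [← map_add, hqi, hqi, hqi, hq x y] at h1
    linear_combination -h1
  have hbs : ∀ x (s : Finset ℕ) (f : ℕ → W), b x (∑ i ∈ s, f i) = ∑ i ∈ s, b x (f i) := by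
    intro x s f
    induction s using Finset.induction_on with
    | empty => rw [Finset.sum_empty, Finset.sum_empty, hsymm, hb0]
    | insert a s ha ih => rw [Finset.sum_insert ha, Finset.sum_insert ha, hb2, ih]
  have hCD : ∀ y c d, ρ y c = c → nrm ρ y d = 0 → b c d = 0 := by
    intro y c d hc hd
    have h1 : ∀ i, b c (((ρ y) ^ i) d) = b c d := by
      intro i
      conv_lhs => rw [← pow_fix hc i]
      rw [← map_pow, hbi]
    have h2 : b c (nrm ρ y d) = (Nat.card H : ZMod p) * b c d := by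
      rw [nrm, LinearMap.sum_apply, hbs, Finset.sum_congr rfl fun i _ => h1 i, Finset.sum_const, Finset.card_range,
        nsmul_eq_mul]
    rw [hd, hsymm, hb0] at h2
    exact (mul_eq_zero.1 h2.symm).resolve_left hm
  let C : H → Submodule (ZMod p) W := fun y => LinearMap.ker (ρ y - 1)
  let D : H → Submodule (ZMod p) W := fun y => LinearMap.ker (nrm ρ y)
  have hCompl : ∀ y, IsCompl (C y) (D y) := isCompl_fix hcop ρ
  let δ : H → ℂ := fun y => ∑ c : C y, ψ (q c)
  let ε : H → ℂ := fun y => ∑ d : D y, ψ (q d)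
  let g : ℂ := ∑ w : W, ψ (q w)
  have hcC : ∀ y, Nat.card {w : W // ρ y w = w} = Nat.card (C y) := fun y =>
    Nat.card_congr (Equiv.subtypeEquivRight fun w => mem_fix.symm)
  have hg : ∀ y, g = δ y * ε y := by
    intro y
    show ∑ w : W, ψ (q w) = (∑ c : C y, ψ (q c)) * (∑ d : D y, ψ (q d))
    rw [← (Submodule.prodEquivOfIsCompl (C y) (D y) (hCompl y)).toEquiv.sum_comp, Fintype.sum_prod_type, Finset.sum_mul_sum]
    refine Finset.sum_congr rfl fun c _ => Finset.sum_congr rfl fun d _ => ?_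
    have h1 : ((Submodule.prodEquivOfIsCompl (C y) (D y) (hCompl y)).toEquiv (c, d)) = (c : W) + d := by
      show (Submodule.prodEquivOfIsCompl (C y) (D y) (hCompl y)) (c, d) = _
      rw [Submodule.coe_prodEquivOfIsCompl']
    rw [h1, hq, hCD y c d (mem_fix.1 c.2) (LinearMap.mem_ker.1 d.2), add_zero, AddChar.map_add_eq_mul]
  have hcard : ∀ y, Nat.card W = Nat.card (C y) * Nat.card (D y) := by
    intro y
    rw [← Nat.card_prod]
    exact (Nat.card_congr (Submodule.prodEquivOfIsCompl (C y) (D y) (hCompl y)).toEquiv).symm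
  have hδsq : ∀ y, δ y * conj (δ y) = Nat.card (C y) := by
    intro y
    rw [Nat.card_eq_fintype_card]
    refine gauss_sq hψ (fun c : C y => q c) (fun c c' => b c c') (fun x x' z => hb1 _ _ _) (fun x z => hq _ _) ?_
    intro d hd
    apply Subtype.ext
    apply hnd
    intro w
    obtain ⟨c, hc, d', hd', rfl⟩ := Submodule.mem_sup.1 ((hCompl y).sup_eq_top ▸ Submodule.mem_top : w ∈ C y ⊔ D y)
    rw [hb1, hd ⟨c, hc⟩, hsymm, hCD y d d' (mem_fix.1 d.2) (LinearMap.mem_ker.1 hd'), add_zero]
  have hgsq : g * conj g = Nat.card W := by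
    rw [Nat.card_eq_fintype_card]
    exact gauss_sq hψ q b hb1 hq hnd
  have hδ0 : ∀ y, δ y ≠ 0 := by
    intro y h
    have h1 := hδsq y
    rw [h, zero_mul] at h1
    exact (Nat.cast_ne_zero.2 (Nat.card_pos (α := C y)).ne') h1.symm
  have hεsq : ∀ y, ε y * conj (ε y) * Nat.card (C y) = Nat.card W := by
    intro y
    have h1 := hgsq
    rw [hg y, map_mul] at h1
    rw [← hδsq y, ← h1]
    ring
  have hδmem : δ ∈ ZC N H := by
    have h1 : δ = ∑ a : ZMod p, ψ a • (fun y : H => (Nat.card {w : W // q w = a ∧ ρ y w = w} : ℂ)) := by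
      funext y
      simp only [Finset.sum_apply, Pi.smul_apply, smul_eq_mul]
      show ∑ c : C y, ψ (q c) = _
      rw [← Finset.sum_fiberwise (s := Finset.univ) (g := fun c : C y => q c)]
      refine Finset.sum_congr rfl fun a _ => ?_
      rw [Finset.sum_congr rfl (g := fun _ => ψ a) (fun c hc => by rw [(Finset.mem_filter.1 hc).2]), Finset.sum_const,
        nsmul_eq_mul, mul_comm, ← Fintype.card_subtype, ← Nat.card_eq_fintype_card]
      congr 2
      exact Nat.card_congr
        { toFun := fun c => ⟨c.1, c.2, mem_fix.1 c.1.2⟩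
          invFun := fun w => ⟨⟨w.1, mem_fix.2 w.2.2⟩, w.2.1⟩
          left_inv := fun c => rfl
          right_inv := fun w => rfl }
    rw [h1]
    exact (ZC N H).sum_mem fun a _ => smul_mem (hψN a) (perm_mem ρ (fun w => q w = a) (fun h w hw => by rw [hqi]; exact hw))
  have hπ : (fun y : H => (Nat.card {w : W // ρ y w = w} : ℂ)) ∈ ZC N H := by
    have h1 := perm_mem (N := N) ρ (fun _ => True) (fun _ _ _ => trivial)
    simpa only [true_and] using h1
  have hpow : ∀ y, ∃ k, Nat.card (C y) = p ^ k := by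
    intro y
    have h1 := Module.natCard_eq_pow_finrank (K := ZMod p) (V := C y)
    rw [Nat.card_zmod] at h1
    exact ⟨_, h1⟩
  have hεZ : ∀ y, ε y ∈ Z N := fun y => (Z N).sum_mem fun d _ => hψN _
  have hεmem : ε ∈ ZC N H := by
    refine mem_of_mul hHN ?_ hεZ hπ (fun y => ?_) ?_
    · intro a h
      have h1 := isClassFunction hδmem a h
      have h2 := hg (h * a * h⁻¹)
      rw [hg a, h1] at h2
      exact (mul_left_cancel₀ (hδ0 a) h2).symm
    · rw [hcC]
      obtain ⟨k, hk⟩ := hpow y
      rw [hk]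
      exact Nat.Coprime.pow_left k ((Nat.Prime.coprime_iff_not_dvd hp').2 hcop)
    · have h1 : (fun y : H => (Nat.card {w : W // ρ y w = w} : ℂ) * ε y) = g • (fun y => conj (δ y)) := by
        funext y
        rw [hcC, ← hδsq y, Pi.smul_apply, smul_eq_mul, hg y]
        ring
      rw [h1]
      exact smul_mem ((Z N).sum_mem fun w _ => hψN _) (conj_mem' hδmem)
  refine ⟨ε, hεmem, fun y hy => ?_, fun y hy => ?_, fun u y => ?_⟩
  · have h1 : Nat.card (C y) = Nat.card W := by rw [← hcC]; exact hy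
    have h2 : Nat.card (D y) = 1 := by
      have h3 := hcard y
      rw [h1] at h3
      exact Nat.eq_of_mul_eq_mul_left (Nat.card_pos (α := W)) (by rw [mul_one]; exact h3.symm)
    have h3 : Subsingleton (D y) := (Nat.card_eq_one_iff_unique.1 h2).1
    have h4 : ε y = 1 := by
      show ∑ d : D y, ψ (q d) = 1
      rw [Fintype.sum_subsingleton _ (0 : D y)]
      show ψ (q 0) = 1
      rw [hq0, AddChar.map_zero_eq_one]
    rw [h4]
    exact one_not_idl
  · have h1 : p ∣ Nat.card (D y) := by
      have h3 := Module.natCard_eq_pow_finrank (K := ZMod p) (V := D y)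
      rw [Nat.card_zmod] at h3
      rw [h3]
      refine dvd_pow_self p fun h4 => hy ?_
      show Nat.card {w : W // ρ y w = w} = Nat.card W
      rw [hcC, hcard y, h3, h4, pow_zero, mul_one]
    have h2 : MemLocalIdeal M (ε y - Nat.card (D y)) := by
      have h3 : ε y - Nat.card (D y) = ∑ d : D y, (ψ (q d) - 1) := by
        rw [Finset.sum_sub_distrib, Finset.sum_const, Finset.card_univ, Nat.card_eq_fintype_card]
        simp [ε]
      rw [h3]
      exact idl_sum fun d _ => idl_sub_one_of_pow hM (k := 1) (by rw [pow_one]; exact hψp _)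
    rw [idl_congr h2, idl_natCast_iff hM]
    exact h1
  · have h1 := congrArg (sig N u) (hεsq y)
    rw [map_mul, map_mul, sig_conj u (hεZ y), sq_complex, map_natCast, map_natCast] at h1
    have h2 : ‖sig N u (ε y)‖ ^ 2 * (Nat.card (C y) : ℝ) = Nat.card W := by exact_mod_cast h1
    show ‖sig N u (ε y)‖ ^ 2 * (Nat.card {w : W // ρ y w = w} : ℝ) ≤ Nat.card W
    rw [hcC, h2]

end main

end Cfsg.Agent.Lib.KGVQuad
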