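import Mathlib
import Cfsg.Agent.Lib.KGVQuad
import Cfsg.Agent.Lib.GlaubCyc2
import Cfsg.Agent.Lib.ExtraChar
import Cfsg.Agent.Lib.LinChar

/-!
# Symplectic modules: the Weil character of a coprime group
-/

set_option autoImplicit false
set_option linter.all false
set_option maxHeartbeats 400000

namespace Cfsg.Agent.Lib.KGVHeis

open Cfsg Cfsg.Agent.Lib.CharBasic Cfsg.Agent.Lib.BlockRing Cfsg.Agent.Lib.CycAvg Cfsg.Agent.Lib.KGVCrit
open Cfsg.Agent.Lib.KGVGood Cfsg.Agent.Lib.KGVQuad Cfsg.Agent.Lib.Clifford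
open scoped ComplexConjugate

universe u

/-- The averaging identity for a character irreducible on a normal subgroup. -/
theorem sum_conj_sub {Γ : Type u} [Group Γ] [Finite Γ] (K : Subgroup Γ) [K.Normal] [Fintype K] {χ : Γ → ℂ}
    (hχ : IsCharacter Γ χ) (hirr : IsIrrCharacter K (fun n : K => χ n)) (a b : Γ) :
    χ 1 * ∑ e : K, χ ((e : Γ) * a * (e : Γ)⁻¹ * b) = (Nat.card K : ℂ) * (χ a * χ b) := by
  obtain ⟨n, ρ, rfl⟩ := hχ
  let σ : Representation ℂ K (Fin n → ℂ) := ρ.comp K.subtype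
  have hσ : σ.IsIrreducible := isIrreducible_of_isIrrCharacter σ hirr
  let f : (Fin n → ℂ) →ₗ[ℂ] (Fin n → ℂ) := ∑ e : K, ρ ((e : Γ) * a * (e : Γ)⁻¹)
  obtain ⟨c, hc⟩ := CharCentral.exists_scalar_of_commute σ f (by
    intro g v
    show (∑ e : K, ρ ((e : Γ) * a * (e : Γ)⁻¹)) (ρ (g : Γ) v) = ρ (g : Γ) ((∑ e : K, ρ ((e : Γ) * a * (e : Γ)⁻¹)) v)
    rw [LinearMap.sum_apply, LinearMap.sum_apply, map_sum]
    refine Fintype.sum_bijective (fun e : K => g⁻¹ * e) (Group.mulLeft_bijective g⁻¹) _ _ fun e => ?_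
    show (ρ ((e : Γ) * a * (e : Γ)⁻¹) * ρ (g : Γ)) v = (ρ (g : Γ) * ρ ((((g⁻¹ * e : K)) : Γ) * a * (((g⁻¹ * e : K)) : Γ)⁻¹)) v
    rw [← map_mul, ← map_mul]
    congr 2
    push_cast
    group)
  have h1 : LinearMap.trace ℂ _ f = (Nat.card K : ℂ) * ρ.character a := by
    show LinearMap.trace ℂ _ (∑ e : K, ρ ((e : Γ) * a * (e : Γ)⁻¹)) = _
    rw [map_sum]
    have h2 : ∀ e : K, LinearMap.trace ℂ (Fin n → ℂ) (ρ ((e : Γ) * a * (e : Γ)⁻¹)) = ρ.character a := fun e =>
      (isCharacter_of_rep ρ).isClassFunction a e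
    rw [Finset.sum_congr rfl fun e _ => h2 e, Finset.sum_const, Finset.card_univ, nsmul_eq_mul, Nat.card_eq_fintype_card]
  have h3 : LinearMap.trace ℂ _ (f * ρ b) = ∑ e : K, ρ.character ((e : Γ) * a * (e : Γ)⁻¹ * b) := by
    show LinearMap.trace ℂ _ ((∑ e : K, ρ ((e : Γ) * a * (e : Γ)⁻¹)) * ρ b) = _
    rw [Finset.sum_mul, map_sum]
    refine Finset.sum_congr rfl fun e _ => ?_
    rw [← map_mul]
    rfl
  rw [hc] at h1 h3
  rw [map_smul, LinearMap.trace_id] at h1
  have h4 : LinearMap.trace ℂ (Fin n → ℂ) ((c • LinearMap.id : (Fin n → ℂ) →ₗ[ℂ] (Fin n → ℂ)) * ρ b) = c * ρ.character b := by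
    have h5 : (c • LinearMap.id : (Fin n → ℂ) →ₗ[ℂ] (Fin n → ℂ)) * ρ b = c • ρ b := by
      ext v; rfl
    rw [h5, map_smul]
    rfl
  rw [h4] at h3
  rw [← h3, ← mul_assoc, ← mul_assoc, ← h1, Representation.char_one, smul_eq_mul]
  ring

variable {H W : Type u} [Group H] [AddCommGroup W] {p : ℕ} [hp : Fact p.Prime] [Module (ZMod p) W]

/-- A module with an invariant alternating form. -/
structure SD (p : ℕ) [Fact p.Prime] (H W : Type u) [Group H] [AddCommGroup W] [Module (ZMod p) W] where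
  ρ : Representation (ZMod p) H W
  A : W → W → ZMod p
  add_left : ∀ x x' y, A (x + x') y = A x y + A x' y
  add_right : ∀ x y y', A x (y + y') = A x y + A x y'
  alt : ∀ x, A x x = 0
  inv : ∀ h x y, A (ρ h x) (ρ h y) = A x y
  nd : ∀ d, (∀ w, A w d = 0) → d = 0

variable (D : SD p H W)

theorem SD.zero_left (y : W) : D.A 0 y = 0 := by
  have := D.add_left 0 0 y
  rw [add_zero] at this
  exact left_eq_add.1 this

theorem SD.zero_right (y : W) : D.A y 0 = 0 := by
  have := D.add_right y 0 0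
  rw [add_zero] at this
  exact left_eq_add.1 this

theorem SD.neg_left (x y : W) : D.A (-x) y = -D.A x y := by
  have := D.add_left (-x) x y
  rw [neg_add_cancel, D.zero_left] at this
  exact eq_neg_of_add_eq_zero_left this.symm

theorem SD.neg_right (x y : W) : D.A x (-y) = -D.A x y := by
  have := D.add_right x (-y) y
  rw [neg_add_cancel, D.zero_right] at this
  exact eq_neg_of_add_eq_zero_left this.symm

theorem SD.skew (x y : W) : D.A x y = -D.A y x := by
  have := D.alt (x + y)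
  rw [D.add_left, D.add_right, D.add_right, D.alt, D.alt, zero_add, add_zero] at this
  exact eq_neg_of_add_eq_zero_left this

/-- The semidirect product of the Heisenberg group by `H`. -/
@[ext] structure Gam (D : SD p H W) where
  w : W
  a : ZMod p
  h : H

namespace Gam

variable {D}

instance : Mul (Gam D) := ⟨fun x y => ⟨x.w + D.ρ x.h y.w, x.a + y.a + D.A x.w (D.ρ x.h y.w), x.h * y.h⟩⟩
instance : One (Gam D) := ⟨⟨0, 0, 1⟩⟩
instance : Inv (Gam D) := ⟨fun x => ⟨-D.ρ x.h⁻¹ x.w, -x.a, x.h⁻¹⟩⟩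

theorem mul_w (x y : Gam D) : (x * y).w = x.w + D.ρ x.h y.w := rfl
theorem mul_a (x y : Gam D) : (x * y).a = x.a + y.a + D.A x.w (D.ρ x.h y.w) := rfl
theorem mul_h (x y : Gam D) : (x * y).h = x.h * y.h := rfl
theorem one_w : (1 : Gam D).w = 0 := rfl
theorem one_a : (1 : Gam D).a = 0 := rfl
theorem one_h : (1 : Gam D).h = 1 := rfl
theorem inv_w (x : Gam D) : (x⁻¹).w = -D.ρ x.h⁻¹ x.w := rfl
theorem inv_a (x : Gam D) : (x⁻¹).a = -x.a := rfl
theorem inv_h (x : Gam D) : (x⁻¹).h = x.h⁻¹ := rfl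

theorem rho_mul (g h : H) (x : W) : D.ρ (g * h) x = D.ρ g (D.ρ h x) := by
  rw [map_mul]; rfl

instance : Group (Gam D) :=
  Group.ofLeftAxioms
    (fun x y z => by
      ext
      · simp only [mul_w, mul_h, rho_mul, map_add, add_assoc]
      · simp only [mul_w, mul_h, mul_a, rho_mul, map_add, D.add_left, D.add_right, D.inv]
        ring
      · simp only [mul_h, mul_assoc])
    (fun x => by
      ext
      · simp only [mul_w, one_w, one_h, map_one, zero_add, Module.End.one_apply]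
      · simp only [mul_a, one_w, one_a, D.zero_left, zero_add, add_zero]
      · simp only [mul_h, one_h, one_mul])
    (fun x => by
      ext
      · simp only [mul_w, inv_w, inv_h, one_w, neg_add_cancel]
      · simp only [mul_a, inv_w, inv_a, inv_h, one_a, D.neg_left, D.alt, neg_add_cancel, neg_zero, add_zero]
      · simp only [mul_h, inv_h, one_h, inv_mul_cancel])

/-- projection -/
def pr (D : SD p H W) : Gam D →* H where
  toFun x := x.h
  map_one' := rfl
  map_mul' _ _ := rfl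

/-- The embedding of `H`. -/
def emb (D : SD p H W) : H →* Gam D where
  toFun h := ⟨0, 0, h⟩
  map_one' := rfl
  map_mul' g h := by
    ext
    · simp only [mul_w, map_zero, add_zero]
    · simp only [mul_a, map_zero, D.zero_right, add_zero]
    · rfl

/-- The normal Heisenberg subgroup. -/
def E (D : SD p H W) : Subgroup (Gam D) := (pr D).ker

instance : (E D).Normal := MonoidHom.normal_ker _

theorem mem_E {x : Gam D} : x ∈ E D ↔ x.h = 1 := Iff.rfl

def equivProd (D : SD p H W) : Gam D ≃ W × ZMod p × H where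
  toFun x := (x.w, x.a, x.h)
  invFun x := ⟨x.1, x.2.1, x.2.2⟩
  left_inv x := rfl
  right_inv x := rfl

def equivE (D : SD p H W) : E D ≃ W × ZMod p where
  toFun x := (x.1.w, x.1.a)
  invFun x := ⟨⟨x.1, x.2, 1⟩, rfl⟩
  left_inv x := Subtype.ext (Gam.ext rfl rfl (mem_E.1 x.2).symm)
  right_inv x := rfl

instance [Finite H] [Finite W] : Finite (Gam D) := Finite.of_equiv _ (equivProd D).symm

theorem card_E [Finite W] : Nat.card (E D) = Nat.card W * p := by
  rw [Nat.card_congr (equivE D), Nat.card_prod, Nat.card_zmod]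

theorem index_E [Finite H] [Finite W] : (E D).index = Nat.card H := by
  have h1 : Function.Surjective (pr D) := fun h => ⟨⟨0, 0, h⟩, rfl⟩
  rw [E, Subgroup.index_ker, MonoidHom.range_eq_top.2 h1]
  exact Nat.card_congr Subgroup.topEquiv.toEquiv

/-- central elements -/
def zc (D : SD p H W) (c : ZMod p) : E D := ⟨⟨0, c, 1⟩, rfl⟩

theorem zc_central (c : ZMod p) : zc D c ∈ Subgroup.center (E D) := by
  rw [Subgroup.mem_center_iff]
  intro g
  have hg : g.1.h = 1 := mem_E.1 g.2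
  apply Subtype.ext
  ext
  · show g.1.w + D.ρ g.1.h 0 = 0 + D.ρ 1 g.1.w
    rw [map_zero, map_one, add_zero, zero_add]; rfl
  · show g.1.a + c + D.A g.1.w (D.ρ g.1.h 0) = c + g.1.a + D.A 0 (D.ρ 1 g.1.w)
    rw [map_zero, D.zero_right, D.zero_left]
    ring
  · show g.1.h * 1 = 1 * g.1.h
    rw [mul_one, one_mul]

theorem zc_add (c d : ZMod p) : zc D (c + d) = zc D c * zc D d := by
  apply Subtype.ext
  ext
  · show (0 : W) = 0 + D.ρ 1 0
    rw [map_zero, add_zero]
  · show c + d = c + d + D.A 0 (D.ρ 1 0)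
    rw [D.zero_left, add_zero]
  · show (1 : H) = 1 * 1
    rw [mul_one]

theorem zc_nsmul (c : ZMod p) (k : ℕ) : zc D (k • c) = zc D c ^ k := by
  induction k with
  | zero => rw [zero_smul, pow_zero]; rfl
  | succ k ih => rw [succ_nsmul, zc_add, ih, pow_succ]

end Gam

section weil

variable [Finite H] [Finite W] {D}

open Gam

/-- conjugation by a Heisenberg element -/
theorem conj_shift (w' : W) (x : E D) :
    (⟨⟨w', 0, 1⟩, rfl⟩ : E D) * x * (⟨⟨w', 0, 1⟩, rfl⟩ : E D)⁻¹ = x * zc D (D.A w' x.1.w + D.A w' x.1.w) := by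
  obtain ⟨⟨w, a, h⟩, hx⟩ := x
  obtain rfl : h = 1 := hx
  rw [mul_inv_eq_iff_eq_mul]
  apply Subtype.ext
  ext
  · show w' + D.ρ 1 w = w + D.ρ 1 0 + D.ρ (1 * 1) w'
    rw [mul_one, map_one, map_zero, add_zero]
    exact add_comm _ _
  · show 0 + a + D.A w' (D.ρ 1 w) = a + (D.A w' w + D.A w' w) + D.A w (D.ρ 1 0) + 0 + D.A (w + D.ρ 1 0) (D.ρ (1 * 1) w')
    simp only [mul_one, map_one, map_zero, add_zero, zero_add, D.zero_right, Module.End.one_apply]
    rw [D.skew w w']
    ring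
  · show (1 : H) * 1 = 1 * 1 * 1
    simp

theorem exists_theta (hp2 : p ≠ 2) : ∃ θ : E D → ℂ, IsIrrCharacter (E D) θ ∧ (∀ x : E D, x.1.w ≠ 0 → θ x = 0) ∧
    θ 1 * θ 1 = Nat.card W := by
  classical
  have := Fintype.ofFinite (E D)
  have := Fintype.ofFinite W
  have h20 : (2 : ZMod p) ≠ 0 := by
    intro h
    apply hp2
    have h3 : p ∣ 2 := (ZMod.natCast_eq_zero_iff 2 p).1 (by exact_mod_cast h)
    exact (Nat.prime_dvd_prime_iff_eq hp.out Nat.prime_two).1 h3
  have hz1 : zc D (1 : ZMod p) ≠ 1 := by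
    intro h
    have h1 : (1 : ZMod p) = 0 := congrArg (fun x : E D => x.1.a) h
    exact one_ne_zero h1
  obtain ⟨θ, hθ⟩ : ∃ θ : IrrCharacter (E D), (θ : E D → ℂ) (zc D 1) ≠ (θ : E D → ℂ) 1 := by
    by_contra hcon
    push Not at hcon
    have h1 := column_orthogonality (zc D (1 : ZMod p)) (1 : E D)
    have h2 := column_orthogonality (1 : E D) (1 : E D)
    rw [if_neg (fun h => hz1 (isConj_one_left.1 h)), Finset.sum_congr rfl fun χ _ => by rw [hcon χ]] at h1
    rw [if_pos (IsConj.refl _), h1] at h2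
    exact (Nat.cast_ne_zero.2 Nat.card_pos.ne') h2.symm
  obtain ⟨μ, hμ⟩ := ExtraChar.exists_central_hom θ.2
  have hμ' : ∀ (c : ZMod p) (x : E D), (θ : E D → ℂ) (x * zc D c) = μ ⟨zc D c, zc_central c⟩ * (θ : E D → ℂ) x :=
    fun c x => hμ ⟨zc D c, zc_central c⟩ x
  have hθ1 : (θ : E D → ℂ) 1 ≠ 0 := θ.2.one_ne_zero
  have hμne : ∀ c : ZMod p, c ≠ 0 → (μ ⟨zc D c, zc_central c⟩ : ℂ) ≠ 1 := by
    intro c hc h
    apply hθ
    have h1 : (1 : ZMod p) = (c⁻¹).val • c := by
      rw [nsmul_eq_mul, ZMod.natCast_zmod_val, inv_mul_cancel₀ hc]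
    have h2 : ∀ k : ℕ, (θ : E D → ℂ) (zc D (k • c)) = (θ : E D → ℂ) 1 := by
      intro k
      induction k with
      | zero => rw [zero_smul]; rfl
      | succ k ih => rw [succ_nsmul, zc_add, hμ', h, one_mul, ih]
    rw [h1]
    exact h2 _
  have hvan : ∀ x : E D, x.1.w ≠ 0 → (θ : E D → ℂ) x = 0 := by
    intro x hx
    obtain ⟨w', hw'⟩ : ∃ w', D.A w' x.1.w ≠ 0 := by
      by_contra hcon
      push Not at hcon
      exact hx (D.nd _ hcon)
    have h1 : D.A w' x.1.w + D.A w' x.1.w ≠ 0 := by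
      rw [← two_mul]
      exact mul_ne_zero h20 hw'
    have h2 := θ.2.isClassFunction x (⟨⟨w', 0, 1⟩, rfl⟩ : E D)
    rw [conj_shift, hμ'] at h2
    have h3 : ((μ ⟨zc D (D.A w' x.1.w + D.A w' x.1.w), zc_central _⟩ : ℂ) - 1) * (θ : E D → ℂ) x = 0 := by
      linear_combination h2
    exact (mul_eq_zero.1 h3).resolve_left (sub_ne_zero.2 (hμne _ h1))
  refine ⟨θ, θ.2, hvan, ?_⟩
  have h1 := θ.2.classInner_self
  rw [classInner_def] at h1
  have hE : (Nat.card (E D) : ℂ) ≠ 0 := Nat.cast_ne_zero.2 Nat.card_pos.ne'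
  have h2 : ∑ x : E D, (θ : E D → ℂ) x * conj ((θ : E D → ℂ) x) = (p : ℂ) * ((θ : E D → ℂ) 1 * (θ : E D → ℂ) 1) := by
    rw [← (equivE D).symm.sum_comp, Fintype.sum_prod_type, Finset.sum_eq_single (0 : W)]
    · have h3 : ∀ c : ZMod p, (θ : E D → ℂ) ((equivE D).symm (0, c)) * conj ((θ : E D → ℂ) ((equivE D).symm (0, c))) =
          (θ : E D → ℂ) 1 * (θ : E D → ℂ) 1 := by
        intro c
        have h4 : (equivE D).symm (0, c) = zc D c := rfl
        have h5 := hμ' c 1
        rw [one_mul] at h5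
        rw [h4, h5, map_mul, LinChar.conj_coe μ, Units.val_inv_eq_inv_val]
        obtain ⟨n, hn, hn'⟩ := θ.2.exists_degree
        rw [hn', Complex.conj_natCast]
        have h6 : (μ ⟨zc D c, zc_central c⟩ : ℂ) ≠ 0 := Units.ne_zero _
        field_simp
      rw [Finset.sum_congr rfl fun c _ => h3 c, Finset.sum_const, Finset.card_univ, ZMod.card, nsmul_eq_mul]
    · intro w _ hw
      refine Finset.sum_eq_zero fun c _ => ?_
      rw [hvan _ (show ((equivE D).symm (w, c)).1.w ≠ 0 from hw), zero_mul]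
    · intro h; exact absurd (Finset.mem_univ _) h
  rw [h2, inv_mul_eq_iff_eq_mul₀ hE, mul_one, card_E] at h1
  push_cast at h1
  have hp0 : (p : ℂ) ≠ 0 := Nat.cast_ne_zero.2 hp.out.ne_zero
  apply mul_left_cancel₀ hp0
  rw [h1]; ring

/-- The Weil character of a coprime group. -/
theorem exists_weil (hp2 : p ≠ 2) (hcop : ¬ p ∣ Nat.card H) (D : SD p H W) : ∃ δ : H → ℂ, IsCharacter H δ ∧
    ∃ m : H → ℤ, (∀ y, δ y = m y) ∧ ∀ y, m y * m y = Nat.card {w : W // D.ρ y w = w} := by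
  classical
  have := Fintype.ofFinite (E D)
  have := Fintype.ofFinite W
  obtain ⟨θ, hθ, hvan, hsq⟩ := exists_theta (D := D) hp2
  obtain ⟨kW, hkW⟩ : ∃ k, Nat.card W = p ^ k := by
    have h1 := Module.natCard_eq_pow_finrank (K := ZMod p) (V := W)
    rw [Nat.card_zmod] at h1
    exact ⟨_, h1⟩
  have hcopE : (Nat.card (E D)).Coprime (E D).index := by
    rw [card_E, index_E, hkW, ← pow_succ]
    exact Nat.Coprime.pow_left _ ((Nat.Prime.coprime_iff_not_dvd hp.out).2 hcop)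
  have hinv : ∀ g : Gam D, cj (E D) g θ = θ := by
    intro g
    funext n
    show θ ⟨g * n * g⁻¹, _⟩ = θ n
    by_cases hn : n.1.w = 0
    · congr 1
      apply Subtype.ext
      show g * n * g⁻¹ = n
      rw [mul_inv_eq_iff_eq_mul]
      have hh : n.1.h = 1 := mem_E.1 n.2
      ext
      · show g.w + D.ρ g.h n.1.w = n.1.w + D.ρ n.1.h g.w
        rw [hn, hh, map_zero, map_one, add_zero, zero_add]; rfl
      · show g.a + n.1.a + D.A g.w (D.ρ g.h n.1.w) = n.1.a + g.a + D.A n.1.w (D.ρ n.1.h g.w)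
        rw [hn, map_zero, D.zero_right, D.zero_left]
        ring
      · show g.h * n.1.h = n.1.h * g.h
        rw [hh, mul_one, one_mul]
    · rw [hvan n hn]
      apply hvan
      show (g * n * g⁻¹).w ≠ 0
      intro h
      apply hn
      have h1 : (n : Gam D) = g⁻¹ * (g * n * g⁻¹) * g := by group
      have hh : (g * n * g⁻¹).h = 1 := by
        show g.h * n.1.h * g.h⁻¹ = 1
        rw [mem_E.1 n.2]; group
      rw [h1]
      show (g⁻¹).w + D.ρ (g⁻¹).h (g * n * g⁻¹).w + D.ρ ((g⁻¹).h * (g * n * g⁻¹).h) g.w = 0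
      rw [h, hh, map_zero, add_zero, mul_one, inv_w, inv_h, neg_add_cancel]
  obtain ⟨χ, hχ, hext, hdet⟩ := GlaubCyc.canon_exists hθ hinv hcopE
  have hirrE : IsIrrCharacter (E D) (fun n : E D => χ n) := by
    have : (fun n : E D => χ n) = θ := funext hext
    rw [this]; exact hθ
  let δ : H → ℂ := fun y => χ (emb D y)
  have hδ : IsCharacter H δ := hχ.isCharacter.comp (emb D)
  have hrat : ∀ y, ∃ q : ℚ, δ y = q := by
    intro y
    refine CharGalois.exists_rat_of_pow hδ y fun k hk => ?_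
    have hc : (Nat.card (E D)).Coprime (Nat.card H) := by rw [index_E] at hcopE; exact hcopE
    obtain ⟨e, he1, he2⟩ := Nat.chineseRemainder hc 1 k
    have he3 : e.Coprime (E D).index := by
      rw [index_E]
      have := he2.gcd_eq
      rw [Nat.Coprime, this]
      exact hk
    have h1 := GlaubCyc.canon_pow hθ hcopE hχ hext hdet he1 he3 (emb D y)
    show χ (emb D (y ^ k)) = χ (emb D y)
    rw [← h1, ← map_pow]
    congr 2
    exact (pow_eq_pow_iff_modEq.2 (he2.of_dvd (orderOf_dvd_natCard y))).symm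
  have hsqδ : ∀ y, δ y * conj (δ y) = Nat.card {w : W // D.ρ y w = w} := by
    intro y
    have h1 := sum_conj_sub (E D) hχ.isCharacter hirrE (emb D y) (emb D y)⁻¹
    rw [hχ.inv] at h1
    have h2 : ∀ e : E D, χ ((e : Gam D) * emb D y * (e : Gam D)⁻¹ * (emb D y)⁻¹) =
        if D.ρ y e.1.w = e.1.w then θ 1 else 0 := by
      intro e
      obtain ⟨⟨w, a, h⟩, hx⟩ := e
      obtain rfl : h = 1 := hx
      have h3 : (⟨w, a, 1⟩ : Gam D) * emb D y * (⟨w, a, 1⟩ : Gam D)⁻¹ * (emb D y)⁻¹ =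
          ⟨w - D.ρ y w, -D.A w (D.ρ y w), 1⟩ := by
        rw [mul_inv_eq_iff_eq_mul, mul_inv_eq_iff_eq_mul]
        ext
        · show w + D.ρ 1 0 = w - D.ρ y w + D.ρ 1 0 + D.ρ (1 * y) w
          rw [map_zero, one_mul, add_zero, add_zero, sub_add_cancel]
        · show a + 0 + D.A w (D.ρ 1 0) = -D.A w (D.ρ y w) + 0 + D.A (w - D.ρ y w) (D.ρ 1 0) + a +
            D.A (w - D.ρ y w + D.ρ 1 0) (D.ρ (1 * y) w)
          simp only [map_zero, D.zero_right, add_zero, one_mul, sub_eq_add_neg, D.add_left, D.neg_left, D.alt,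
            D.zero_left, neg_zero]
          ring
        · show 1 * y = 1 * y * 1
          simp
      show χ ((⟨w, a, 1⟩ : Gam D) * emb D y * (⟨w, a, 1⟩ : Gam D)⁻¹ * (emb D y)⁻¹) = if D.ρ y w = w then θ 1 else 0
      rw [h3]
      by_cases hw : D.ρ y w = w
      · rw [if_pos hw, hw, sub_self, D.alt, neg_zero]
        exact hext 1
      · rw [if_neg hw]
        have h4 := hext (⟨⟨w - D.ρ y w, -D.A w (D.ρ y w), 1⟩, rfl⟩ : E D)
        exact h4.trans (hvan _ (fun h => hw (sub_eq_zero.1 h).symm))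
    rw [Finset.sum_congr rfl fun e _ => h2 e] at h1
    have h3 : ∑ e : E D, (if D.ρ y e.1.w = e.1.w then θ 1 else 0) =
        (Nat.card {w : W // D.ρ y w = w} : ℂ) * p * θ 1 := by
      rw [← (equivE D).symm.sum_comp, Fintype.sum_prod_type]
      have h4 : ∀ w : W, ∑ c : ZMod p, (if D.ρ y ((equivE D).symm (w, c)).1.w = ((equivE D).symm (w, c)).1.w then θ 1 else 0) =
          if D.ρ y w = w then (p : ℂ) * θ 1 else 0 := by
        intro w
        show ∑ c : ZMod p, (if D.ρ y w = w then θ 1 else 0) = _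
        rw [Finset.sum_const, Finset.card_univ, ZMod.card, nsmul_eq_mul]
        split_ifs <;> simp
      rw [Finset.sum_congr rfl fun w _ => h4 w, ← Finset.sum_filter, Finset.sum_const, nsmul_eq_mul,
        Nat.card_eq_fintype_card, Fintype.card_subtype]
      ring
    have h4 : χ 1 = θ 1 := hext 1
    rw [h3, h4, card_E] at h1
    have h5 : χ (emb D y) * conj (χ (emb D y)) = Nat.card {w : W // D.ρ y w = w} := by
      have hp0 : (p : ℂ) ≠ 0 := Nat.cast_ne_zero.2 hp.out.ne_zero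
      have hW0 : (Nat.card W : ℂ) ≠ 0 := Nat.cast_ne_zero.2 Nat.card_pos.ne'
      apply mul_left_cancel₀ (mul_ne_zero hW0 hp0)
      push_cast at h1
      rw [← h1, ← hsq]
      ring
    exact h5
  have hint : ∀ y, ∃ m : ℤ, δ y = m := by
    intro y
    obtain ⟨q, hq⟩ := hrat y
    have h1 : IsIntegral ℤ (δ y) := isIntegral_of_mem (orderOf_pos y) (char_val_mem hδ (dvd_refl (orderOf y)))
    rw [hq] at h1
    have h2 : IsIntegral ℤ q := by
      have h : IsIntegral ℤ ((algebraMap ℚ ℂ) q) := by simpa using h1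
      exact (isIntegral_algebraMap_iff (algebraMap ℚ ℂ).injective).1 h
    obtain ⟨m, hm⟩ := IsIntegrallyClosed.isIntegral_iff.1 h2
    refine ⟨m, ?_⟩
    rw [hq, ← hm]
    simp
  choose m hm using hint
  refine ⟨δ, hδ, m, hm, fun y => ?_⟩
  have h1 := hsqδ y
  rw [hm y, map_intCast] at h1
  exact_mod_cast h1

end weil

end Cfsg.Agent.Lib.KGVHeis
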