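import Mathlib
import Cfsg.Agent.Lib.KGVHeis
import Cfsg.Agent.Lib.KGVForms
import Cfsg.Agent.Lib.KGVRep

/-!
# Self-dual modules are good
-/

set_option autoImplicit false
set_option linter.all false
set_option maxHeartbeats 400000

namespace Cfsg.Agent.Lib.KGVReal

open Cfsg Cfsg.Agent.Lib.CharBasic Cfsg.Agent.Lib.BlockRing Cfsg.Agent.Lib.CycAvg Cfsg.Agent.Lib.KGVCrit
open Cfsg.Agent.Lib.KGVGood Cfsg.Agent.Lib.KGVQuad Cfsg.Agent.Lib.KGVHeis
open LinearMap (BilinForm)
open scoped ComplexConjugate

universe u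

variable {H : Type u} [Group H] [Finite H] {M : Ideal AlgInt} {N : ℕ} [NeZero N] {p : ℕ} [hp : Fact p.Prime]
variable {W : Type u} [AddCommGroup W] [Module (ZMod p) W] [Finite W]

theorem card_eq_pow : ∃ k, Nat.card W = p ^ k := by
  have h1 := Module.natCard_eq_pow_finrank (K := ZMod p) (V := W)
  rw [Nat.card_zmod] at h1
  exact ⟨_, h1⟩

theorem card_fix_dvd (ρ : Representation (ZMod p) H W) (y : H) : Nat.card {w : W // ρ y w = w} ∣ Nat.card W := by
  have h1 : Nat.card {w : W // ρ y w = w} = Nat.card (LinearMap.ker (ρ y - 1)) :=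
    Nat.card_congr (Equiv.subtypeEquivRight fun w => mem_fix.symm)
  rw [h1]
  exact AddSubgroup.card_addSubgroup_dvd_card (LinearMap.ker (ρ y - 1)).toAddSubgroup

theorem good_symp (hM : IsPModular p M) (hHN : Nat.card H ∣ N) (hp2 : p ≠ 2) (hcop : ¬ p ∣ Nat.card H) (D : SD p H W) :
    Good M N (Nat.card W) (fun y : H => Nat.card {w : W // D.ρ y w = w}) := by
  classical
  haveI := isPrime hM
  obtain ⟨δ, hδ, m, hm, hsq⟩ := exists_weil hp2 hcop D
  have h1W : Nat.card {w : W // D.ρ 1 w = w} = Nat.card W :=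
    Nat.card_congr (Equiv.subtypeUnivEquiv fun w => by rw [map_one]; rfl)
  have hdvd : ∀ y, m y ∣ m 1 := by
    intro y
    rw [← Int.pow_dvd_pow_iff two_ne_zero, pow_two, pow_two, hsq, hsq, h1W]
    exact_mod_cast card_fix_dvd D.ρ y
  choose t ht using hdvd
  have hm0 : ∀ y, m y ≠ 0 := by
    intro y h
    have h2 := hsq y
    rw [h, zero_mul] at h2
    have : Nonempty {w : W // D.ρ y w = w} := ⟨⟨0, map_zero _⟩⟩
    have h3 : Nat.card {w : W // D.ρ y w = w} = 0 := by exact_mod_cast h2.symm
    exact Nat.card_pos.ne' h3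
  have hts : ∀ y, t y * t y * Nat.card {w : W // D.ρ y w = w} = Nat.card W := by
    intro y
    rw [← hsq y, ← h1W, ← hsq 1, ht y]
    ring
  have hδm : δ ∈ ZC N H := char_mem hδ
  have hπ : (fun y : H => (Nat.card {w : W // D.ρ y w = w} : ℂ)) ∈ ZC N H := by
    have h1 := perm_mem (N := N) D.ρ (fun _ => True) (fun _ _ _ => trivial)
    simpa only [true_and] using h1
  have hτ : (fun y => (t y : ℂ)) ∈ ZC N H := by
    refine mem_of_mul hHN ?_ (fun y => intCast_mem _ _) hπ (fun y => ?_) ?_
    · intro a h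
      have h2 := isClassFunction hδm a h
      rw [hm, hm] at h2
      have h3 : m (h * a * h⁻¹) = m a := by exact_mod_cast h2
      have h4 : m a * t (h * a * h⁻¹) = m a * t a := by
        rw [← ht a]
        conv_rhs => rw [ht (h * a * h⁻¹), h3]
      have h5 := mul_left_cancel₀ (hm0 a) h4
      show (t (h * a * h⁻¹) : ℂ) = t a
      rw [h5]
    · obtain ⟨k, hk⟩ := card_eq_pow (p := p) (W := W)
      obtain ⟨j, -, hj⟩ := (Nat.dvd_prime_pow hp.out).1 (hk ▸ card_fix_dvd D.ρ y)
      rw [hj]
      exact Nat.Coprime.pow_left _ ((Nat.Prime.coprime_iff_not_dvd hp.out).2 hcop)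
    · have h2 : (fun y : H => (Nat.card {w : W // D.ρ y w = w} : ℂ) * (t y : ℂ)) = (m 1 : ℂ) • δ := by
        funext y
        rw [Pi.smul_apply, smul_eq_mul, hm]
        have h3 : ((Nat.card {w : W // D.ρ y w = w} : ℤ) * t y : ℤ) = m 1 * m y := by
          rw [← hsq y, ht y]; ring
        exact_mod_cast congrArg (fun z : ℤ => (z : ℂ)) h3
      rw [h2]
      exact smul_mem (intCast_mem _ _) hδm
  refine ⟨fun y => (t y : ℂ), hτ, fun y hy => ?_, fun y hy => ?_, fun u y => ?_⟩
  · show ¬ MemLocalIdeal M (t y : ℂ)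
    rw [idl_intCast_iff hM]
    intro h
    have h2 := hts y
    have h3 : Nat.card {w : W // D.ρ y w = w} = Nat.card W := hy
    rw [h3] at h2
    have h4 : (Nat.card W : ℤ) ≠ 0 := by exact_mod_cast Nat.card_pos.ne'
    have h5 : t y * t y = 1 := mul_right_cancel₀ h4 (by rw [h2, one_mul])
    have h6 : (p : ℤ) ∣ 1 := by rw [← h5]; exact h.mul_right _
    exact hp.out.one_lt.ne' (by exact_mod_cast Int.natAbs_dvd_natAbs.2 h6 |> Nat.dvd_one.1)
  · show MemLocalIdeal M (t y : ℂ)
    rw [idl_intCast_iff hM]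
    have h2 := hts y
    have h3 : Nat.card {w : W // D.ρ y w = w} ≠ Nat.card W := hy
    obtain ⟨k, hk⟩ := card_eq_pow (p := p) (W := W)
    obtain ⟨j, hjk, hj⟩ := (Nat.dvd_prime_pow hp.out).1 (hk ▸ card_fix_dvd D.ρ y)
    have hjk' : j < k := lt_of_le_of_ne hjk (fun h => h3 (by rw [hj, hk, h]))
    rw [hj, hk] at h2
    push_cast at h2
    have h4 : t y * t y = (p : ℤ) ^ (k - j) := by
      have h5 : (p : ℤ) ^ j ≠ 0 := pow_ne_zero _ (by exact_mod_cast hp.out.ne_zero)
      apply mul_right_cancel₀ h5
      rw [h2, ← pow_add, Nat.sub_add_cancel hjk]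
    have h6 : (p : ℤ) ∣ t y * t y := by
      rw [h4]
      exact dvd_pow_self _ (by omega)
    rcases (Nat.prime_iff_prime_int.1 hp.out).dvd_or_dvd h6 with h | h <;> exact h
  · show ‖sig N u (t y : ℂ)‖ ^ 2 * (Nat.card {w : W // D.ρ y w = w} : ℝ) ≤ Nat.card W
    rw [map_intCast, Complex.norm_intCast, sq_abs]
    have h2 := hts y
    have h3 : ((t y : ℝ)) ^ 2 * (Nat.card {w : W // D.ρ y w = w} : ℝ) = Nat.card W := by
      rw [pow_two]
      exact_mod_cast h2
    rw [h3]

theorem good_trivial [M.IsPrime] (n : ℕ) : Good M N n (fun _ : H => n) := by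
  refine ⟨1, one_mem, fun y _ => one_not_idl, fun y h => absurd rfl h, fun u y => ?_⟩
  simp

/-- Restriction to an invariant subspace. -/
def subRep (ρ : Representation (ZMod p) H W) (S : Submodule (ZMod p) W) (hS : ∀ h, ∀ x ∈ S, ρ h x ∈ S) :
    Representation (ZMod p) H S where
  toFun h := (ρ h).restrict (hS h)
  map_one' := by
    ext x
    show ρ 1 (x : W) = x
    rw [map_one]; rfl
  map_mul' a b := by
    ext x
    show ρ (a * b) (x : W) = ρ a (ρ b x)
    rw [map_mul]; rfl

theorem card_fix_compl (ρ : Representation (ZMod p) H W) (U W' : Submodule (ZMod p) W) (hc : IsCompl U W')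
    (hU : ∀ h, ∀ x ∈ U, ρ h x ∈ U) (hW : ∀ h, ∀ x ∈ W', ρ h x ∈ W') (y : H) :
    Nat.card {w : W // ρ y w = w} = Nat.card {x : U // subRep ρ U hU y x = x} *
      Nat.card {x : W' // subRep ρ W' hW y x = x} := by
  rw [← Nat.card_prod]
  let e := Submodule.prodEquivOfIsCompl U W' hc
  have he : ∀ x : U × W', ρ y (e x) = e x ↔ subRep ρ U hU y x.1 = x.1 ∧ subRep ρ W' hW y x.2 = x.2 := by
    intro x
    have h1 : ρ y (e x) = e (subRep ρ U hU y x.1, subRep ρ W' hW y x.2) := by
      show ρ y (Submodule.prodEquivOfIsCompl U W' hc x) = Submodule.prodEquivOfIsCompl U W' hc _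
      rw [Submodule.coe_prodEquivOfIsCompl', Submodule.coe_prodEquivOfIsCompl', map_add]
      rfl
    rw [h1, e.injective.eq_iff, Prod.ext_iff]
  have E1 : {x : U × W' // subRep ρ U hU y x.1 = x.1 ∧ subRep ρ W' hW y x.2 = x.2} ≃ {w : W // ρ y w = w} :=
    e.toEquiv.subtypeEquiv fun x => (he x).symm
  refine Nat.card_congr (E1.symm.trans ?_)
  exact
    { toFun := fun x => (⟨x.1.1, x.2.1⟩, ⟨x.1.2, x.2.2⟩)
      invFun := fun x => ⟨(x.1.1, x.2.1), x.1.2, x.2.2⟩
      left_inv := fun x => rfl
      right_inv := fun x => rfl }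

theorem two_eq : (2 : ZMod 2) = 0 := by decide

theorem add4 {F V : Type*} [Field F] [AddCommGroup V] [Module F V] (A : BilinForm F V) (x y : V) :
    A (x + y) (x + y) = A x x + A x y + (A y x + A y y) := by
  simp only [map_add, LinearMap.add_apply]
  ring

theorem skew {F V : Type*} [Field F] [AddCommGroup V] [Module F V] {A : BilinForm F V} (hA : ∀ x, A x x = 0) (x y : V) :
    A x y = -A y x := by
  have h1 := hA (x + y)
  rw [add4, hA, hA, zero_add, add_zero] at h1
  exact eq_neg_of_add_eq_zero_left h1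

/-- Quadratic functions with given polarization in characteristic two. -/
theorem exists_half {W : Type u} [AddCommGroup W] [Module (ZMod 2) W] [Finite W] (A : BilinForm (ZMod 2) W)
    (hA : ∀ x, A x x = 0) : ∃ T : BilinForm (ZMod 2) W, ∀ x y, T x y + T y x = A x y := by
  classical
  have h20 : (2 : ZMod 2) = 0 := two_eq
  have hskew : ∀ x y, A x y = A y x := by
    intro x y
    have h2 : A x y = -A y x := skew hA x y
    rw [h2]
    have h3 : A y x + A y x = 0 := by rw [← two_mul, h20, zero_mul]
    exact (eq_neg_of_add_eq_zero_left h3).symm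
  let b := Module.finBasis (ZMod 2) W
  let T : BilinForm (ZMod 2) W := Matrix.toBilin b (fun i j => if i < j then A (b i) (b j) else 0)
  have hT : ∀ i j, T (b i) (b j) = if i < j then A (b i) (b j) else 0 := by
    intro i j
    have h1 := congrFun (congrFun (LinearMap.BilinForm.toMatrix_toBilin b (fun i j => if i < j then A (b i) (b j) else 0)) i) j
    rw [LinearMap.BilinForm.toMatrix_apply] at h1
    exact h1
  have hext : T + T.flip = A := by
    refine LinearMap.BilinForm.ext_basis b fun i j => ?_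
    show T (b i) (b j) + T (b j) (b i) = A (b i) (b j)
    rw [hT, hT]
    rcases lt_trichotomy i j with h | h | h
    · rw [if_pos h, if_neg h.asymm, add_zero]
    · rw [h, if_neg (lt_irrefl j), add_zero, hA]
    · rw [if_neg h.asymm, if_pos h, zero_add, hskew]
  exact ⟨T, fun x y => by rw [← hext]; rfl⟩

/-- A coprime self-dual module is good. -/
theorem good_selfdual (hM : IsPModular p M) (hpN : p ∣ N) (hHN : Nat.card H ∣ N) (hcop : ¬ p ∣ Nat.card H)
    (ρ : Representation (ZMod p) H W) (B : BilinForm (ZMod p) W) (hB : B.Nondegenerate)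
    (hBinv : ∀ g : H, ∀ x y : W, B (ρ g x) (ρ g y) = B x y) :
    Good M N (Nat.card W) (fun y : H => Nat.card {w : W // ρ y w = w}) := by
  classical
  haveI := isPrime hM
  have hcardS : ∀ (ρ : Representation (ZMod p) H W) (U W' : Submodule (ZMod p) W) (hc : IsCompl U W'),
      Nat.card W = Nat.card U * Nat.card W' := by
    intro ρ U W' hc
    rw [← Nat.card_prod]
    exact (Nat.card_congr (Submodule.prodEquivOfIsCompl U W' hc).toEquiv).symm
  by_cases hp2 : p = 2
  · subst hp2
    have h20 : (2 : ZMod 2) = 0 := two_eq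
    have hodd : Odd (Nat.card H) := by
      rw [← Nat.not_even_iff_odd, even_iff_two_dvd]
      exact hcop
    obtain ⟨U, W', hc, hU, hW, ⟨A, hA1, hA2, hA3⟩, -⟩ := KGVForms.two_case h20 hodd ρ B hB hBinv
    have hW' : ∀ h, ∀ x ∈ W', ρ h x ∈ W' := fun h x hx => by rw [hW h x hx]; exact hx
    have hfix : ∀ y, Nat.card {x : W' // subRep ρ W' hW' y x = x} = Nat.card W' := fun y =>
      Nat.card_congr (Equiv.subtypeUnivEquiv fun x => Subtype.ext (hW y x x.2))
    let A' : BilinForm (ZMod 2) U := A.restrict U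
    have hA' : ∀ x y : U, A' x y = A x y := fun x y => rfl
    obtain ⟨T, hT⟩ := exists_half A' (fun x => hA1 x)
    have := Fintype.ofFinite H
    have hcard1 : (Fintype.card H : ZMod 2) = 1 := by
      obtain ⟨k, hk⟩ := hodd
      rw [← Nat.card_eq_fintype_card, hk]
      push_cast
      rw [h20, zero_mul, zero_add]
    let q : U → ZMod 2 := fun x => ∑ h : H, T (subRep ρ U hU h x) (subRep ρ U hU h x)
    have hq : ∀ x y, q (x + y) = q x + q y + A' x y := by
      intro x y
      show ∑ h : H, T (subRep ρ U hU h (x + y)) (subRep ρ U hU h (x + y)) = _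
      have h1 : ∀ h : H, T (subRep ρ U hU h (x + y)) (subRep ρ U hU h (x + y)) =
          T (subRep ρ U hU h x) (subRep ρ U hU h x) + T (subRep ρ U hU h y) (subRep ρ U hU h y) + A' x y := by
        intro h
        have h2 : A' x y = T (subRep ρ U hU h x) (subRep ρ U hU h y) + T (subRep ρ U hU h y) (subRep ρ U hU h x) := by
          rw [hT, hA', hA']
          exact (hA2 h x x.2 y y.2).symm
        rw [h2, map_add, map_add, map_add, LinearMap.add_apply, LinearMap.add_apply]
        ring
      rw [Finset.sum_congr rfl fun h _ => h1 h, Finset.sum_add_distrib, Finset.sum_add_distrib, Finset.sum_const,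
        Finset.card_univ, nsmul_eq_mul, hcard1, one_mul]
    have hqi : ∀ h x, q (subRep ρ U hU h x) = q x := by
      intro h x
      show ∑ g : H, T (subRep ρ U hU g (subRep ρ U hU h x)) (subRep ρ U hU g (subRep ρ U hU h x)) =
        ∑ g : H, T (subRep ρ U hU g x) (subRep ρ U hU g x)
      refine Fintype.sum_bijective (fun g => g * h) (Group.mulRight_bijective h) _ _ fun g => ?_
      have h1 : subRep ρ U hU (g * h) x = subRep ρ U hU g (subRep ρ U hU h x) := by rw [map_mul]; rfl
      rw [h1]
    have hgood := good_quad (N := N) hM hpN hHN hcop (subRep ρ U hU) q (fun x y => A' x y)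
      (fun x x' y => by rw [map_add, LinearMap.add_apply]) hq hqi (by
        intro d hd
        apply Subtype.ext
        refine hA3 d d.2 fun y hy => ?_
        have h2 : A y d = 0 := hd ⟨y, hy⟩
        rw [skew hA1, h2, neg_zero])
    have h1 := Good.mul hHN hgood (good_trivial (M := M) (N := N) (H := H) (Nat.card W'))
      (fun y => Nat.card_le_card_of_injective _ Subtype.val_injective) (fun y => le_rfl) Nat.card_pos Nat.card_pos
    rw [hcardS ρ U W' hc]
    have h2 : (fun y : H => Nat.card {w : W // ρ y w = w}) = fun y => Nat.card {x : U // subRep ρ U hU y x = x} * Nat.card W' := by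
      funext y
      rw [card_fix_compl ρ U W' hc hU hW' y, hfix]
    rw [h2]
    exact h1
  · have h20 : (2 : ZMod p) ≠ 0 := by
      intro h
      apply hp2
      have h3 : p ∣ 2 := (ZMod.natCast_eq_zero_iff 2 p).1 (by exact_mod_cast h)
      exact (Nat.prime_dvd_prime_iff_eq hp.out Nat.prime_two).1 h3
    obtain ⟨U, W', hc, hU, hW, ⟨A, hA1, hA2, hA3⟩, ⟨S, hS1, hS2, hS3⟩⟩ := KGVForms.odd_case h20 ρ B hB hBinv
    let D : SD p H U :=
      { ρ := subRep ρ U hU
        A := fun x y => A x y
        add_left := fun x x' y => by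
          show A ((x : W) + x') y = A x y + A x' y
          rw [map_add, LinearMap.add_apply]
        add_right := fun x y y' => by
          show A x ((y : W) + y') = A x y + A x y'
          rw [map_add]
        alt := fun x => hA1 x
        inv := fun h x y => hA2 h x x.2 y y.2
        nd := by
          intro d hd
          apply Subtype.ext
          refine hA3 d d.2 fun y hy => ?_
          have h2 : A y d = 0 := hd ⟨y, hy⟩
          rw [skew hA1, h2, neg_zero] }
    have hg1 := good_symp (M := M) (N := N) hM hHN hp2 hcop D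
    have hg2 := good_quad (N := N) hM hpN hHN hcop (subRep ρ W' hW) (fun x => S x x) (fun x y => S x y + S y x)
      (fun x x' y => by
        show S ((x : W) + x') y + S y ((x : W) + x') = _
        rw [map_add, LinearMap.add_apply, map_add]; ring)
      (fun x y => by
        show S ((x : W) + y) ((x : W) + y) = _
        rw [add4]; ring)
      (fun h x => hS2 h x x.2 x x.2) (by
        intro d hd
        apply Subtype.ext
        refine hS3 d d.2 fun y hy => ?_
        have h1 : S y d + S d y = 0 := hd ⟨y, hy⟩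
        rw [hS1 y d, ← two_mul] at h1
        exact (mul_eq_zero.1 h1).resolve_left h20)
    have h1 := Good.mul hHN hg1 hg2
      (fun y => Nat.card_le_card_of_injective _ Subtype.val_injective)
      (fun y => Nat.card_le_card_of_injective _ Subtype.val_injective) Nat.card_pos Nat.card_pos
    rw [hcardS ρ U W' hc]
    have h2 : (fun y : H => Nat.card {w : W // ρ y w = w}) = fun y =>
        Nat.card {x : U // subRep ρ U hU y x = x} * Nat.card {x : W' // subRep ρ W' hW y x = x} := by
      funext y
      rw [card_fix_compl ρ U W' hc hU hW y]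
    rw [h2]
    exact h1

end Cfsg.Agent.Lib.KGVReal
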