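import Mathlib

/-! Faithful irreducible representations of abelian groups over finite fields: the self-dual ones. -/

set_option autoImplicit false
set_option maxHeartbeats 400000

namespace Cfsg.Agent.Lib.KGVSelfDual

open FiniteField

theorem adjoint_exists {F E V H : Type*} [Field F] [Field E] [Algebra F E]
    [AddCommGroup V] [Module F V] [Module E V] [IsScalarTower F E V] [CommGroup H]
    (i : H →* E) (hgen : Algebra.adjoin F (Set.range i) = ⊤)
    (B : LinearMap.BilinForm F V) (hB : ∀ (h : H) (x y : V), B (i h • x) (i h • y) = B x y) (a : E) :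
    ∃ b : E, ∀ x y : V, B (a • x) y = B x (b • y) := by
  have ha : a ∈ Algebra.adjoin F (Set.range i) := by rw [hgen]; trivial
  induction ha using Algebra.adjoin_induction with
  | mem x hx =>
    obtain ⟨h, rfl⟩ := hx
    refine ⟨i h⁻¹, fun x y => ?_⟩
    have h1 : y = i h • (i h⁻¹ • y) := by
      rw [← mul_smul, ← map_mul, mul_inv_cancel, map_one, one_smul]
    conv_lhs => rw [h1]
    rw [hB]
  | algebraMap r =>
    refine ⟨algebraMap F E r, fun x y => ?_⟩
    rw [algebraMap_smul, algebraMap_smul, map_smul, map_smul, LinearMap.smul_apply]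
  | add x y _ _ hx hy =>
    obtain ⟨b, hb⟩ := hx
    obtain ⟨c, hc⟩ := hy
    refine ⟨b + c, fun x' y' => ?_⟩
    rw [add_smul, add_smul, map_add, map_add, LinearMap.add_apply, hb, hc]
  | mul x y _ _ hx hy =>
    obtain ⟨b, hb⟩ := hx
    obtain ⟨c, hc⟩ := hy
    refine ⟨c * b, fun x' y' => ?_⟩
    rw [mul_smul, hb, hc, ← mul_smul]

theorem exists_tau {F E V H : Type*} [Field F] [Field E] [Algebra F E]
    [AddCommGroup V] [Module F V] [Module E V] [IsScalarTower F E V] [CommGroup H]
    (i : H →* E) (hgen : Algebra.adjoin F (Set.range i) = ⊤) [Nontrivial V]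
    (B : LinearMap.BilinForm F V) (hBn : B.Nondegenerate)
    (hB : ∀ (h : H) (x y : V), B (i h • x) (i h • y) = B x y) :
    ∃ τ : E →ₐ[F] E, ∀ h : H, τ (i h) = i h⁻¹ := by
  have huniq : ∀ b c : E, (∀ x y : V, B x (b • y) = B x (c • y)) → b = c := by
    intro b c h
    obtain ⟨y, hy⟩ := exists_ne (0 : V)
    have h1 : (b - c) • y = 0 := by
      apply hBn.2
      intro x
      rw [sub_smul, map_sub, h x y, sub_self]
    rcases smul_eq_zero.1 h1 with h2 | h2
    · exact sub_eq_zero.1 h2
    · exact absurd h2 hy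
  choose f hf using adjoint_exists i hgen B hB
  refine ⟨AlgHom.mk' (R := F) ⟨⟨⟨f, ?_⟩, ?_⟩, ?_, ?_⟩ ?_, ?_⟩
  · apply huniq
    intro x y
    rw [← hf, one_smul, one_smul]
  · intro a b
    apply huniq
    intro x y
    rw [← hf, mul_smul, hf, hf, ← mul_smul, mul_comm]
  · apply huniq
    intro x y
    rw [← hf, zero_smul, zero_smul, map_zero, map_zero, LinearMap.zero_apply]
  · intro a b
    apply huniq
    intro x y
    rw [← hf, add_smul, map_add, LinearMap.add_apply, hf, hf, add_smul, map_add]
  · intro c x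
    apply huniq
    intro y z
    show B y (f (c • x) • z) = B y ((c • f x) • z)
    rw [← hf, smul_assoc, smul_assoc, B.map_smul c, LinearMap.smul_apply, (B y).map_smul c, hf]
  · intro h
    apply huniq
    intro x y
    show B x (f (i h) • y) = _
    rw [← hf]
    have h1 : y = i h • (i h⁻¹ • y) := by
      rw [← mul_smul, ← map_mul, mul_inv_cancel, map_one, one_smul]
    conv_lhs => rw [h1]
    rw [hB]

noncomputable def evalEquiv {F E V : Type*} [Field F] [Field E] [Algebra F E]
    [AddCommGroup V] [Module F V] [Module E V] [IsScalarTower F E V] (v0 : V) (h0 : v0 ≠ 0)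
    (hsurj : ∀ v : V, ∃ a : E, a • v0 = v) : E ≃ₗ[F] V :=
  LinearEquiv.ofBijective
    { toFun := fun a => a • v0
      map_add' := fun a b => add_smul a b v0
      map_smul' := fun c a => by rw [RingHom.id_apply, smul_assoc] }
    ⟨fun a b h => by
      have h1 : (a - b) • v0 = 0 := by
        have h2 : a • v0 = b • v0 := h
        rw [sub_smul, h2, sub_self]
      rcases smul_eq_zero.1 h1 with h2 | h2
      · exact sub_eq_zero.1 h2
      · exact absurd h2 h0, fun v => hsurj v⟩

theorem evalEquiv_apply {F E V : Type*} [Field F] [Field E] [Algebra F E]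
    [AddCommGroup V] [Module F V] [Module E V] [IsScalarTower F E V] (v0 : V) (h0 : v0 ≠ 0)
    (hsurj : ∀ v : V, ∃ a : E, a • v0 = v) (a : E) : evalEquiv (F := F) v0 h0 hsurj a = a • v0 := rfl

theorem selfdual_iff {F E V H : Type*} [Field F] [Fintype F] [Field E] [Finite E] [Algebra F E]
    [AddCommGroup V] [Module F V] [Module E V] [IsScalarTower F E V] [CommGroup H] [Finite H]
    (i : H →* E) (hi : Function.Injective i) (hgen : Algebra.adjoin F (Set.range i) = ⊤)
    (v0 : V) (h0 : v0 ≠ 0) (hsurj : ∀ v : V, ∃ a : E, a • v0 = v) (h2 : 2 ≤ Module.finrank F V) :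
    (∃ B : LinearMap.BilinForm F V, B.Nondegenerate ∧ ∀ (h : H) (x y : V), B (i h • x) (i h • y) = B x y) ↔
      (Even (Module.finrank F V) ∧ Nat.card H ∣ Fintype.card F ^ (Module.finrank F V / 2) + 1) := by
  classical
  have hfin : Module.finrank F E = Module.finrank F V := (evalEquiv (F := F) v0 h0 hsurj).finrank_eq
  have : IsCyclic H := isCyclic_of_injective_ringHom i hi
  have hext : ∀ (f g : E →ₐ[F] E), (∀ h : H, f (i h) = g (i h)) → f = g := by
    intro f g h
    apply AlgHom.ext_of_adjoin_eq_top hgen
    rintro _ ⟨h', rfl⟩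
    exact h h'
  have hfrob : ∀ (k : ℕ) (x : E), ((frobeniusAlgHom F E) ^ k) x = x ^ (Fintype.card F ^ k) := by
    intro k x
    rw [AlgHom.coe_pow, coe_frobeniusAlgHom, pow_iterate]
  constructor
  · rintro ⟨B, hBn, hB⟩
    have : Nontrivial V := ⟨⟨v0, 0, h0⟩⟩
    obtain ⟨τ, hτ⟩ := exists_tau i hgen B hBn hB
    obtain ⟨⟨k, hk⟩, hkτ⟩ := (bijective_frobeniusAlgHom_pow F E).2 τ
    have hkτ' : (frobeniusAlgHom F E) ^ k = τ := hkτ
    have h3 : (frobeniusAlgHom F E) ^ (k + k) = 1 := by
      rw [pow_add, hkτ']
      apply hext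
      intro h
      show τ (τ (i h)) = i h
      rw [hτ, hτ, inv_inv]
    have h4 := orderOf_dvd_of_pow_eq_one h3
    rw [orderOf_frobeniusAlgHom, hfin] at h4
    rw [hfin] at hk
    have hk0 : k ≠ 0 := by
      rintro rfl
      rw [pow_zero] at hkτ'
      have h5 : ∀ h : H, i h = 1 ∨ i h = -1 := by
        intro h
        have h6 := hτ h
        rw [← hkτ', AlgHom.one_apply] at h6
        have h7 : i h * i h = 1 := by
          nth_rewrite 2 [h6]
          rw [← map_mul, mul_inv_cancel, map_one]
        exact mul_self_eq_one_iff.1 h7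
      have h8 : (⊥ : Subalgebra F E) = ⊤ := by
        rw [eq_top_iff, ← hgen]
        apply Algebra.adjoin_le
        rintro _ ⟨h, rfl⟩
        rcases h5 h with h9 | h9
        · rw [h9]; exact one_mem _
        · rw [h9]; exact neg_mem (one_mem _)
      have h9 : Module.finrank F E = 1 := by
        rw [← Subalgebra.bot_eq_top_iff_finrank_eq_one]; exact h8
      omega
    have h5 : Module.finrank F V = k + k := by
      obtain ⟨c, hc⟩ := h4
      have hc1 : c = 1 := by
        rcases Nat.lt_trichotomy c 1 with h | h | h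
        · have : c = 0 := by omega
          subst this
          omega
        · exact h
        · exfalso
          have : Module.finrank F V * 2 ≤ Module.finrank F V * c := Nat.mul_le_mul_left _ h
          omega
      rw [hc1, mul_one] at hc
      exact hc.symm
    refine ⟨⟨k, h5⟩, ?_⟩
    have h6 : Module.finrank F V / 2 = k := by omega
    rw [h6]
    obtain ⟨g, hg⟩ := IsCyclic.exists_generator (α := H)
    rw [← orderOf_eq_card_of_forall_mem_zpowers hg]
    apply orderOf_dvd_of_pow_eq_one
    apply hi
    rw [map_pow, map_one, pow_succ, ← hfrob, hkτ', hτ, ← map_mul, inv_mul_cancel, map_one]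
  · rintro ⟨⟨k, hk⟩, hdvd⟩
    have h6 : Module.finrank F V / 2 = k := by omega
    rw [h6] at hdvd
    set σ : E →ₐ[F] E := (frobeniusAlgHom F E) ^ k with hσ
    have hσi : ∀ h : H, σ (i h) = i h⁻¹ := by
      intro h
      have h7 : i h ^ (Fintype.card F ^ k + 1) = 1 := by
        obtain ⟨c, hc⟩ := hdvd
        rw [← map_pow, hc, pow_mul, pow_card_eq_one', one_pow, map_one]
      rw [hfrob]
      have h8 : i h * i h⁻¹ = 1 := by rw [← map_mul, mul_inv_cancel, map_one]
      rw [pow_succ] at h7
      have h9 : i h ^ (Fintype.card F ^ k) = i h ^ (Fintype.card F ^ k) * (i h * i h⁻¹) := by rw [h8, mul_one]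
      rw [h9, ← mul_assoc, h7, one_mul]
    have hσinj : Function.Injective σ := σ.toRingHom.injective
    have hσsurj : Function.Surjective σ := Finite.surjective_of_injective hσinj
    have : FiniteDimensional F E := Module.Finite.of_finite
    set e := evalEquiv (F := F) v0 h0 hsurj with he
    have hesm : ∀ (a : E) (x : V), e.symm (a • x) = a * e.symm x := by
      intro a x
      apply e.injective
      rw [LinearEquiv.apply_symm_apply, he, evalEquiv_apply, mul_smul, ← evalEquiv_apply (F := F) v0 h0 hsurj,
        ← he, LinearEquiv.apply_symm_apply]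
    refine ⟨(Algebra.traceForm F E).compl₁₂ e.symm.toLinearMap (σ.toLinearMap ∘ₗ e.symm.toLinearMap), ⟨?_, ?_⟩, ?_⟩
    · intro x hx
      have h7 : e.symm x = 0 := by
        apply (traceForm_nondegenerate F E).1
        intro z
        obtain ⟨w, rfl⟩ := hσsurj z
        have := hx (e w)
        rw [LinearMap.compl₁₂_apply] at this
        simpa using! this
      exact e.symm.map_eq_zero_iff.1 h7
    · intro y hy
      have h7 : σ (e.symm y) = 0 := by
        apply (traceForm_nondegenerate F E).2
        intro z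
        have := hy (e z)
        rw [LinearMap.compl₁₂_apply] at this
        simpa using! this
      have h8 : e.symm y = 0 := by
        apply hσinj
        rw [h7, map_zero]
      exact e.symm.map_eq_zero_iff.1 h8
    · intro h x y
      rw [LinearMap.compl₁₂_apply, LinearMap.compl₁₂_apply]
      show Algebra.traceForm F E (e.symm (i h • x)) (σ (e.symm (i h • y))) =
        Algebra.traceForm F E (e.symm x) (σ (e.symm y))
      rw [hesm, hesm, map_mul σ, hσi, Algebra.traceForm_apply, Algebra.traceForm_apply]
      congr 1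
      have h8 : i h * i h⁻¹ = 1 := by rw [← map_mul, mul_inv_cancel, map_one]
      calc i h * e.symm x * (i h⁻¹ * σ (e.symm y)) = (i h * i h⁻¹) * (e.symm x * σ (e.symm y)) := by ring
        _ = _ := by rw [h8, one_mul]

theorem main {F : Type*} [Field F] [Fintype F] {H : Type*} [CommGroup H] [Finite H] {V : Type*}
    [AddCommGroup V] [Module F V] [FiniteDimensional F V] (ρ : Representation F H V)
    (hfaith : Function.Injective ρ)
    (hirr : ∀ U : Submodule F V, (∀ h : H, ∀ u ∈ U, ρ h u ∈ U) → U = ⊥ ∨ U = ⊤)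
    (h2 : 2 ≤ Module.finrank F V) :
    (∃ B : LinearMap.BilinForm F V, B.Nondegenerate ∧ ∀ (h : H) (x y : V), B (ρ h x) (ρ h y) = B x y) ↔
      (Even (Module.finrank F V) ∧ Nat.card H ∣ Fintype.card F ^ (Module.finrank F V / 2) + 1) := by
  classical
  have : Finite V := Module.finite_of_finite F
  have : Finite (Module.End F V) := Finite.of_injective (fun f : Module.End F V => (f : V → V)) DFunLike.coe_injective
  set E := Algebra.adjoin F (Set.range ρ) with hE
  have hcomm : ∀ x ∈ Set.range ρ, ∀ y ∈ Set.range ρ, x * y = y * x := by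
    rintro _ ⟨h, rfl⟩ _ ⟨k, rfl⟩
    rw [← map_mul, ← map_mul, mul_comm]
  have hmc : IsMulCommutative E := Algebra.isMulCommutative_adjoin F hcomm
  have hinv : ∀ U : Submodule F V, (∀ h : H, ∀ u ∈ U, ρ h u ∈ U) → ∀ a ∈ E, ∀ u ∈ U, a u ∈ U := by
    intro U hU a ha
    rw [hE] at ha
    induction ha using Algebra.adjoin_induction with
    | mem x hx => obtain ⟨h, rfl⟩ := hx; exact hU h
    | algebraMap r => intro u hu; exact U.smul_mem r hu
    | add x y _ _ hx hy => intro u hu; exact U.add_mem (hx u hu) (hy u hu)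
    | mul x y _ _ hx hy => intro u hu; exact hx _ (hy u hu)
  have hnt : Nontrivial V := by
    apply Module.nontrivial_of_finrank_pos (R := F)
    omega
  obtain ⟨v0, hv0⟩ := exists_ne (0 : V)
  have hker : ∀ a : E, a ≠ 0 → ∀ v : V, (a : Module.End F V) v = 0 → v = 0 := by
    intro a ha v hv
    have h3 := hirr (LinearMap.ker (a : Module.End F V)) (by
      intro h u hu
      rw [LinearMap.mem_ker] at hu ⊢
      have h4 : (a : Module.End F V) * ρ h = ρ h * (a : Module.End F V) := by
        have h5 := hmc.is_comm.comm a ⟨ρ h, Algebra.subset_adjoin ⟨h, rfl⟩⟩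
        exact congrArg Subtype.val h5
      have h5 := congrArg (fun f : Module.End F V => f u) h4
      have h6 : (a : Module.End F V) (ρ h u) = ρ h ((a : Module.End F V) u) := h5
      rw [h6, hu, map_zero])
    rcases h3 with h3 | h3
    · have : v ∈ LinearMap.ker (a : Module.End F V) := hv
      rw [h3] at this
      exact (Submodule.mem_bot F).1 this
    · exfalso
      apply ha
      apply Subtype.ext
      exact LinearMap.ker_eq_top.1 h3
  have hdom : IsDomain E := by
    have : Nontrivial E := ⟨⟨0, 1, fun h => hv0 (by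
      have h3 := congrArg (fun f : E => (f : Module.End F V) v0) h
      exact h3.symm)⟩⟩
    have : NoZeroDivisors E := ⟨by
      intro a b hab
      by_contra hne
      rw [not_or] at hne
      apply hne.2
      apply Subtype.ext
      apply LinearMap.ext
      intro v
      apply hker a hne.1
      exact congrArg (fun f : E => (f : Module.End F V) v) hab⟩
    exact NoZeroDivisors.to_isDomain E
  have hfE : Finite E := inferInstance
  let fE : Field E := (@Finite.isDomain_to_isField E _ _ hdom).toField
  let alg : @Algebra F E _ fE.toSemiring := (inferInstance : Algebra F E)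
  let md : @Module E V fE.toSemiring _ := (inferInstance : Module E V)
  have hst : @IsScalarTower F E V alg.toSMul md.toSMul _ := ⟨fun c a v => rfl⟩
  let i : H →* E :=
    { toFun := fun h => ⟨ρ h, Algebra.subset_adjoin ⟨h, rfl⟩⟩
      map_one' := Subtype.ext (map_one ρ)
      map_mul' := fun a b => Subtype.ext (map_mul ρ a b) }
  have hi : Function.Injective i := fun a b h => hfaith (congrArg Subtype.val h)
  have hgen : @Algebra.adjoin F E _ fE.toSemiring alg (Set.range i) = ⊤ := by
    have h3 : Set.range i = (Subtype.val : E → Module.End F V) ⁻¹' (Set.range ρ) := by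
      ext x
      constructor
      · rintro ⟨h, rfl⟩; exact ⟨h, rfl⟩
      · rintro ⟨h, hx⟩; exact ⟨h, Subtype.ext hx⟩
    rw [h3]
    exact Algebra.adjoin_adjoin_coe_preimage
  have hsurj : ∀ v : V, ∃ a : E, (a : Module.End F V) v0 = v := by
    have h3 := hirr (Submodule.map (LinearMap.applyₗ v0 : (V →ₗ[F] V) →ₗ[F] V) (Subalgebra.toSubmodule E)) (by
      rintro h _ ⟨a, ha, rfl⟩
      exact ⟨ρ h * a, E.mul_mem (Algebra.subset_adjoin ⟨h, rfl⟩) ha, rfl⟩)
    rcases h3 with h3 | h3
    · exfalso
      apply hv0
      have h4 : v0 ∈ Submodule.map (LinearMap.applyₗ v0 : (V →ₗ[F] V) →ₗ[F] V) (Subalgebra.toSubmodule E) :=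
        ⟨1, E.one_mem, rfl⟩
      rw [h3] at h4
      exact (Submodule.mem_bot F).1 h4
    · intro v
      have h4 : v ∈ Submodule.map (LinearMap.applyₗ v0 : (V →ₗ[F] V) →ₗ[F] V) (Subalgebra.toSubmodule E) := by
        rw [h3]; trivial
      obtain ⟨a, ha, hav⟩ := h4
      exact ⟨⟨a, ha⟩, hav⟩
  exact @selfdual_iff F E V H _ _ fE hfE alg _ _ md hst _ _ i hi hgen v0 hv0 hsurj h2

end Cfsg.Agent.Lib.KGVSelfDual
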