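import Cfsg.Agent.Lib.KInf6
import Cfsg.Agent.Lib.NilMain

/-!
Groups with a normal series `p`-group, abelian `p'`-group, `p`-group: all sections are `p`-stable.
Normal `p`-complement criterion for a characteristic functor.
-/

set_option autoImplicit false

namespace Cfsg.Agent.Lib.KInf7

open Cfsg.Agent.Lib.CFSylow Cfsg.Agent.Lib.CFFusion Cfsg.Agent.Lib.CFControl
  Cfsg.Agent.Lib.CFLocal Cfsg.Agent.Lib.CFCore Cfsg.Agent.Lib.CFSection Cfsg.Agent.Lib.CFMin
  Cfsg.Agent.Lib.CFMain Cfsg.Agent.Lib.CFRed Cfsg.Agent.Lib.CFStmt Cfsg.Agent.Lib.ClosedCF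
  Cfsg.Agent.Lib.ClsStab Cfsg.Agent.Lib.NilCtrl Cfsg.Agent.Lib.KInf6
open scoped commutatorElement

universe u

section cls
variable {p : ℕ} [Fact p.Prime]

/-- elementwise version of `Cls` -/
def Cls' (p : ℕ) (X : Type*) [Group X] : Prop :=
  ∃ Q K : Subgroup X, Q.Normal ∧ K.Normal ∧ Q ≤ K ∧ IsPGroup p Q ∧ ⁅K, K⁆ ≤ Q ∧
    (∀ x ∈ K, ∃ m : ℕ, m.Coprime p ∧ x ^ m ∈ Q) ∧ ∀ x : X, ∃ k : ℕ, x ^ p ^ k ∈ K

theorem cls'_of_cls {X : Type*} [Group X] [Finite X] (h : Cls p X) : Cls' p X := by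
  obtain ⟨Q, K, hQ, hK, hQK, hQp, hc, hrel, k, hk⟩ := h
  refine ⟨Q, K, hQ, hK, hQK, hQp, hc, ?_, ?_⟩
  · intro x hx
    exact ⟨_, hrel, pow_relIndex_mem hx⟩
  · intro x
    refine ⟨k, ?_⟩
    rw [← hk]; exact Subgroup.pow_index_mem K x

theorem cls_of_cls' {X : Type*} [Group X] [Finite X] (h : Cls' p X) : Cls p X := by
  obtain ⟨Q, K, hQ, hK, hQK, hQp, hc, h1, h2⟩ := h
  refine ⟨Q, K, hQ, hK, hQK, hQp, hc, ?_, ?_⟩
  · rw [Nat.coprime_comm, Nat.Prime.coprime_iff_not_dvd Fact.out]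
    intro hd
    have hd' : p ∣ Nat.card (↥K ⧸ Q.subgroupOf K) := hd
    obtain ⟨x, hx⟩ := exists_prime_orderOf_dvd_card' p hd'
    obtain ⟨y, rfl⟩ := QuotientGroup.mk'_surjective _ x
    obtain ⟨m, hm, hmy⟩ := h1 y y.2
    have h3 : (QuotientGroup.mk' (Q.subgroupOf K) y) ^ m = 1 := by
      rw [← map_pow]
      exact (QuotientGroup.eq_one_iff _).2 hmy
    have h4 := orderOf_dvd_of_pow_eq_one h3
    rw [hx] at h4
    exact (Nat.Prime.coprime_iff_not_dvd Fact.out).1 hm.symm h4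
  · have h3 : IsPGroup p (X ⧸ K) := by
      intro x
      obtain ⟨y, rfl⟩ := QuotientGroup.mk'_surjective _ x
      obtain ⟨k, hk⟩ := h2 y
      refine ⟨k, ?_⟩
      rw [← map_pow]
      exact (QuotientGroup.eq_one_iff _).2 hk
    obtain ⟨n, hn⟩ := IsPGroup.iff_card.1 h3
    exact ⟨n, hn⟩

theorem cls'_subgroup {X : Type*} [Group X] (h : Cls' p X) (H : Subgroup X) : Cls' p ↥H := by
  obtain ⟨Q, K, hQ, hK, hQK, hQp, hc, h1, h2⟩ := h
  refine ⟨Q.subgroupOf H, K.subgroupOf H, inferInstance, inferInstance, Subgroup.comap_mono hQK,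
    hQp.comap_of_injective _ H.subtype_injective, ?_, fun x hx => h1 x hx, fun x => h2 x⟩
  rw [Subgroup.commutator_le]
  intro x hx y hy
  exact hc (Subgroup.commutator_mem_commutator hx hy)

theorem cls'_surj {X Y : Type*} [Group X] [Group Y] (h : Cls' p X) (f : X →* Y)
    (hf : Function.Surjective f) : Cls' p Y := by
  obtain ⟨Q, K, hQ, hK, hQK, hQp, hc, h1, h2⟩ := h
  refine ⟨Q.map f, K.map f, hQ.map f hf, hK.map f hf, Subgroup.map_mono hQK, hQp.map f, ?_, ?_, ?_⟩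
  · rw [← Subgroup.map_commutator]; exact Subgroup.map_mono hc
  · rintro _ ⟨x, hx, rfl⟩
    obtain ⟨m, hm, hmx⟩ := h1 x hx
    exact ⟨m, hm, x ^ m, hmx, map_pow f x m⟩
  · intro y
    obtain ⟨x, rfl⟩ := hf y
    obtain ⟨k, hk⟩ := h2 x
    exact ⟨k, x ^ p ^ k, hk, map_pow f x _⟩

theorem cls_isSec {X Y : Type u} [Group X] [Finite X] [Group Y] [Finite Y] (h : Cls p X)
    (hY : IsSec Y X) : Cls p Y := by
  obtain ⟨K, f, hf⟩ := hY
  exact cls_of_cls' (cls'_surj (cls'_subgroup (cls'_of_cls h) K) f hf)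

theorem stable_of_cls {X : Type u} [Group X] [Finite X] (hp : p ≠ 2) (h : Cls p X) :
    Cfsg.IsNormalizerPStable p X := by
  rw [stable_iff]
  intro P hP g hg hq
  have hN : Cls p ↥(nz P) := cls_of_cls' (cls'_subgroup (cls'_of_cls h) (nz P))
  set V : Subgroup ↥(nz P) := P.subgroupOf (nz P) with hV
  have hPN : P ≤ nz P := Subgroup.le_normalizer
  have hVn : V.Normal := Subgroup.normal_in_normalizer
  have hVp : IsPGroup p V := hP.comap_of_injective _ (nz P).subtype_injective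
  have hst := hN.stable hp V hVp
  rw [PStab.isPStableOn_iff] at hst
  have hmap : V.map (nz P).subtype = P := Cfsg.Agent.Lib.KInf4.map_subgroupOf hPN
  have hgD := hst ⟨g, hg⟩ (by
    apply (Subgroup.map_eq_bot_iff_of_injective _ (nz P).subtype_injective).1
    rw [Subgroup.map_commutator, Subgroup.map_commutator, MonoidHom.map_zpowers, hmap]
    exact hq)
  set D := PStab.Dcore p (Subgroup.centralizer (V : Set ↥(nz P))) with hD
  have hDn : D.Normal := by rw [hD]; unfold PStab.Dcore; infer_instance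
  refine ⟨D.map (nz P).subtype, Subgroup.map_subtype_le _, ?_, ⟨⟨g, hg⟩, hgD, rfl⟩, ?_⟩
  · change nz P ≤ Subgroup.normalizer ((D.map (nz P).subtype : Subgroup X) : Set X)
    rw [le_normalizer_iff]
    rintro n hn _ ⟨k, hk, rfl⟩
    exact ⟨⟨n, hn⟩ * k * ⟨n, hn⟩⁻¹, hDn.conj_mem k hk _, rfl⟩
  · rintro _ ⟨x, hx, rfl⟩ hxo
    rw [orderOf_injective _ (nz P).subtype_injective x] at hxo
    obtain ⟨k, hk⟩ := PStab.exists_pow_mem_of_mem_Dcore hx
    have h1 : x ∈ Subgroup.centralizer (V : Set ↥(nz P)) := by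
      refine mem_of_pow_coprime (m := p ^ k) (n := orderOf x) ?_ hk ?_
      · exact (Nat.Coprime.pow_right k hxo).symm
      · rw [pow_orderOf_eq_one]; exact one_mem _
    change (x : X) ∈ cz P
    rw [mem_centralizer]
    intro a ha
    exact congrArg Subtype.val (mem_centralizer.1 h1 ⟨a, hPN ha⟩ ha)

end cls

section npc
variable {p : ℕ} [Fact p.Prime] {W : ∀ (Q : Type u) [Group Q], Subgroup Q}

/-- In a constrained group, control of strong fusion by `W(S)` means `W(S)` is normal. -/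
theorem normal_of_ctrl {X : Type u} [Group X] [Finite X] (hW : Cfsg.IsCharPFunctor.{u} p W)
    (hc : cz (Cfsg.pCore p X) ≤ Cfsg.pCore p X) {S : Subgroup X} (hS : SylIn p S ⊤)
    (h : Cfsg.ControlsStrongFusion p (Cfsg.inducedFunctor W S)) :
    (Cfsg.inducedFunctor W S).Normal := by
  obtain ⟨T, hUT, hT⟩ := h
  have hQn : (Cfsg.pCore p X).Normal := pCore_normal p X
  have hQS : Cfsg.pCore p X ≤ S := pCore_le hS
  have hQT : Cfsg.pCore p X ≤ T := pCore_le (sylIn_sylow T)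
  obtain ⟨-, h1⟩ := hT (Cfsg.pCore p X : Set X) hQT
  have hSN : S ≤ nz (Cfsg.inducedFunctor W S) :=
    le_nz_functor (isConjugacyFunctor_induced hW) hS.isPGroup
  rw [← nz_eq_top_iff, eq_top_iff]
  intro g _
  obtain ⟨x, hx, hgx⟩ := h1 g (by
    rintro _ ⟨a, ha, rfl⟩
    exact hQT (hQn.conj_mem a ha g))
  have h2 : x⁻¹ * g ∈ cz (Cfsg.pCore p X) := by
    rw [mem_centralizer]
    intro a ha
    have h3 := hgx a ha
    calc x⁻¹ * g * a * (x⁻¹ * g)⁻¹ = x⁻¹ * (g * a * g⁻¹) * x := by group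
      _ = x⁻¹ * (x * a * x⁻¹) * x := by rw [h3]
      _ = a := by group
  have h3 : g = x * (x⁻¹ * g) := by group
  rw [h3]
  exact mul_mem hx (hSN (hQS (hc h2)))

/-- The normal `p`-complement criterion. -/
theorem npc_main {G : Type u} [Group G] [Finite G] (hp : p ≠ 2)
    (hW : Cfsg.IsCharPFunctor.{u} p W) (S : Sylow p G)
    (hN : Cfsg.HasNormalPComplement p ↥(nz (Cfsg.inducedFunctor (G := G) W (S : Subgroup G))))
    (hctl : ∀ (K R : Subgroup G) [hR : (R.subgroupOf K).Normal],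
      (∀ (K' R' : Subgroup (↥K ⧸ R.subgroupOf K)) [hR' : (R'.subgroupOf K').Normal],
        Cfsg.IsNormalizerPStable p (↥K' ⧸ R'.subgroupOf K')) →
      ∀ T : Sylow p (↥K ⧸ R.subgroupOf K), Cfsg.ControlsStrongFusion p
        (Cfsg.inducedFunctor (G := (↥K ⧸ R.subgroupOf K)) W (T : Subgroup (↥K ⧸ R.subgroupOf K)))) :
    Cfsg.HasNormalPComplement p G := by
  have key : NilCtrl p W True G := by
    refine sec_induction (G := G) (P := fun X _ => NilCtrl p W True X) ?_ G (isSec_refl G)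
    intro X _ _ hX ih
    refine NilMain.nil_main hW ih ?_
    intro hcls hO hc S D hS hD hfl
    have hDS : D = S := hfl trivial
    subst hDS
    obtain ⟨K, R, hR, hC', ⟨e⟩⟩ := exists_KR_constrained hX hc
    obtain ⟨T, rfl⟩ := exists_sylow_transport e hS
    rw [induced_transport hW e (sylIn_sylow T).isPGroup]
    refine Subgroup.Normal.map ?_ _ e.surjective
    refine normal_of_ctrl hW hC' (sylIn_sylow T) (hctl K R ?_ T)
    intro K' R' hR'
    exact stable_of_cls hp (cls_isSec hcls ((isSec_KR K' R').trans (isSec_of_equiv e.symm)))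
  exact key S S (sylIn_sylow S) (ClosedIn.self _ _) (fun _ => rfl) hN

end npc

end Cfsg.Agent.Lib.KInf7
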