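import Cfsg.Agent.S4200

set_option autoImplicit false

namespace Cfsg.Agent.Lib.KR66

theorem kle {G : Type} [Group G] [Finite G] (H : Subgroup G) :
    Nat.card (ConjClasses G) ≤ H.index * Nat.card (ConjClasses H) :=
  (Cfsg.Agent.S4200.result H).2.1

theorem kge {G : Type} [Group G] [Finite G] (H : Subgroup G) :
    Nat.card (ConjClasses H) ≤ H.index * Nat.card (ConjClasses G) :=
  (Cfsg.Agent.S4200.result H).1

end Cfsg.Agent.Lib.KR66
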