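import Cfsg.Agent.Lib.KS9Struct2
import Cfsg.Agent.Lib.H58ElemAb

/-!
# Coprime automorphisms of groups generated by best offenders (Kurzweil-Stellmacher 9.3.10) (helper30)
-/

set_option autoImplicit false
set_option linter.unusedSectionVars false

namespace Cfsg.Agent.Lib.KS9Act

open Subgroup Cfsg.Agent.Lib.SubgroupTools Cfsg.Agent.Lib.KS9
open scoped commutatorElement MatrixGroups

universe u

section diag

variable {Γ : Type u} [Group Γ]

/-- conjugation by `t` on a subgroup -/
def cjHom (F : Subgroup Γ) (t : Γ) : F →* Γ := (MulAut.conj t).toMonoidHom.comp F.subtype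

theorem cjHom_apply (F : Subgroup Γ) (t : Γ) (x : F) : cjHom F t x = t * x * t⁻¹ := rfl

/-- **The diagonal map** of a subgroup `F` whose conjugates under `T` commute. -/
theorem exists_diag [Finite Γ] {X N T F : Subgroup Γ} (hTX : T ≤ X) (hsup : X ≤ N ⊔ T)
    (hXab : X ≤ centralizer (X : Set Γ)) (hNX : N ≤ X) (hN : N ≤ centralizer (F : Set Γ))
    (hcomm : ∀ t ∈ T, t ≠ 1 → ∀ x ∈ F, ∀ y ∈ F, Commute x (t * y * t⁻¹)) :
    ∃ δ : F →* Γ, (∀ e, δ e ∈ centralizer (X : Set Γ)) ∧
      (∀ (e : F) (M : Subgroup Γ), (∀ t ∈ T, t ≠ 1 → t * e * t⁻¹ ∈ M) → (e : Γ)⁻¹ * δ e ∈ M) ∧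
      (∀ (e : F) (M : Subgroup Γ), (∀ t ∈ T, t * e * t⁻¹ ∈ M) → δ e ∈ M) ∧
      (∀ g ∈ centralizer (T : Set Γ), ∀ (h : ∀ x ∈ F, g * x * g⁻¹ ∈ F) (u : F),
        g * δ u * g⁻¹ = δ ⟨g * u * g⁻¹, h u u.2⟩) := by
  classical
  have hfin : Fintype T := Fintype.ofFinite T
  let φ : T → (F →* Γ) := fun t => cjHom F (t : Γ)
  have hpair : Pairwise fun i j : T => ∀ (x : F) (y : F), Commute (φ i x) (φ j y) := by
    intro s t hst x y
    have hne : (s : Γ)⁻¹ * t ≠ 1 := by
      intro h
      apply hst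
      apply Subtype.ext
      rw [inv_mul_eq_one] at h
      exact h
    have h1 := hcomm ((s : Γ)⁻¹ * t) (mul_mem (inv_mem s.2) t.2) hne x x.2 y y.2
    have h2 := (h1.map (MulAut.conj (s : Γ)))
    rw [MulAut.conj_apply, MulAut.conj_apply] at h2
    have h3 : (s : Γ) * ((s : Γ)⁻¹ * t * y * ((s : Γ)⁻¹ * t)⁻¹) * (s : Γ)⁻¹ = t * y * (t : Γ)⁻¹ := by group
    rw [h3] at h2
    exact h2
  let Φ := MonoidHom.noncommPiCoprod φ hpair
  let c : F →* (T → F) := Pi.constMonoidHom T F
  have hΦ1 : ∀ (t : T) (x : F), Φ (Pi.mulSingle t x) = t * x * (t : Γ)⁻¹ := fun t x =>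
    MonoidHom.noncommPiCoprod_mulSingle φ t x
  have hΦM : ∀ (f : T → F) (M : Subgroup Γ), (∀ t : T, (t : Γ) * f t * (t : Γ)⁻¹ ∈ M) → Φ f ∈ M := by
    intro f M hM
    change MonoidHom.noncommPiCoprod φ hpair f ∈ M
    rw [MonoidHom.noncommPiCoprod_apply]
    exact Subgroup.noncommProd_mem M _ (fun t _ => hM t)
  refine ⟨Φ.comp c, ?_, ?_, ?_, ?_⟩
  · intro e
    -- commutes with `T`
    have h1 : ∀ y : T, (y : Γ) * Φ (c e) * (y : Γ)⁻¹ = Φ (c e) := by
      intro y
      let σ : (T → F) →* (T → F) :=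
        { toFun := fun f t => f (y⁻¹ * t)
          map_one' := rfl
          map_mul' := fun _ _ => rfl }
      have h2 : (MulAut.conj (y : Γ)).toMonoidHom.comp Φ = Φ.comp σ := by
        apply MonoidHom.pi_ext
        intro t x
        have h3 : σ (Pi.mulSingle t x) = Pi.mulSingle (y * t) x := by
          funext s
          change (Pi.mulSingle t x : T → F) (y⁻¹ * s) = _
          by_cases hs : s = y * t
          · subst hs
            rw [inv_mul_cancel_left, Pi.mulSingle_eq_same, Pi.mulSingle_eq_same]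
          · rw [Pi.mulSingle_eq_of_ne hs, Pi.mulSingle_eq_of_ne]
            intro h
            apply hs
            rw [← h, mul_inv_cancel_left]
        rw [MonoidHom.comp_apply, MonoidHom.comp_apply, h3, hΦ1, hΦ1]
        change (y : Γ) * (t * x * (t : Γ)⁻¹) * (y : Γ)⁻¹ = _
        rw [coe_mul]; group
      have h4 := DFunLike.congr_fun h2 (c e)
      exact h4
    -- commutes with `N`
    have h2 : ∀ y ∈ N, y * Φ (c e) * y⁻¹ = Φ (c e) := by
      intro y hy
      have h3 : Φ (c e) ∈ centralizer ({y} : Set Γ) := by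
        apply hΦM
        intro t
        rw [mem_centralizer_singleton_iff]
        have h4 : y * (t : Γ) = t * y := (mem_centralizer_iff.mp (hXab (hNX hy)) t (hTX t.2)).symm
        have h5 : y * (e : Γ) = e * y := (mem_centralizer_iff.mp (hN hy) e e.2).symm
        have h6 : y * (t : Γ)⁻¹ = (t : Γ)⁻¹ * y := (Commute.inv_right h4).eq
        change (t : Γ) * e * (t : Γ)⁻¹ * y = y * (t * e * (t : Γ)⁻¹)
        calc (t : Γ) * e * (t : Γ)⁻¹ * y = t * e * ((t : Γ)⁻¹ * y) := by group
          _ = t * (e * y) * (t : Γ)⁻¹ := by rw [← h6]; group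
          _ = (t * y) * e * (t : Γ)⁻¹ := by rw [← h5]; group
          _ = _ := by rw [← h4]; group
      rw [mem_centralizer_singleton_iff] at h3
      rw [← h3, mul_inv_cancel_right]
    have h3 : X ≤ centralizer ({Φ (c e)} : Set Γ) := by
      refine hsup.trans (sup_le ?_ ?_)
      · intro y hy
        rw [mem_centralizer_singleton_iff]
        have := h2 y hy
        nth_rw 2 [← this]; group
      · intro y hy
        rw [mem_centralizer_singleton_iff]
        have := h1 ⟨y, hy⟩
        change y * Φ (c e) * y⁻¹ = _ at this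
        nth_rw 2 [← this]; group
    rw [MonoidHom.comp_apply, mem_centralizer_iff]
    intro y hy
    exact mem_centralizer_singleton_iff.mp (h3 hy)
  · intro e M hM
    have h1 : c e = Pi.mulSingle 1 e * Function.update (c e) 1 1 := by
      funext t
      by_cases ht : t = 1
      · subst ht
        rw [Pi.mul_apply, Pi.mulSingle_eq_same, Function.update_self, mul_one]; rfl
      · rw [Pi.mul_apply, Pi.mulSingle_eq_of_ne ht, Function.update_of_ne ht, one_mul]
    rw [MonoidHom.comp_apply, h1, map_mul, hΦ1, ← mul_assoc]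
    have h2 : (e : Γ)⁻¹ * (((1 : T) : Γ) * e * ((1 : T) : Γ)⁻¹) = 1 := by
      rw [coe_one]; group
    rw [h2, one_mul]
    apply hΦM
    intro t
    by_cases ht : t = 1
    · subst ht
      rw [Function.update_self, coe_one, coe_one]
      simp
    · rw [Function.update_of_ne ht]
      exact hM t t.2 (fun h => ht (Subtype.ext h))
  · intro e M hM
    exact hΦM _ _ fun t => hM t t.2
  · intro g hg h u
    let g' : F →* F :=
      { toFun := fun x => ⟨g * x * g⁻¹, h x x.2⟩
        map_one' := Subtype.ext (by simp)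
        map_mul' := fun x y => Subtype.ext (by simp) }
    let σ : (T → F) →* (T → F) :=
      { toFun := fun f t => g' (f t)
        map_one' := by funext t; exact map_one g'
        map_mul' := fun f f' => by funext t; exact map_mul g' (f t) (f' t) }
    have h2 : (MulAut.conj g).toMonoidHom.comp Φ = Φ.comp σ := by
      apply MonoidHom.pi_ext
      intro t x
      have h3 : σ (Pi.mulSingle t x) = Pi.mulSingle t (g' x) := by
        funext s
        change g' ((Pi.mulSingle t x : T → F) s) = _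
        by_cases hs : s = t
        · subst hs
          rw [Pi.mulSingle_eq_same, Pi.mulSingle_eq_same]
        · rw [Pi.mulSingle_eq_of_ne hs, Pi.mulSingle_eq_of_ne hs, map_one]
      rw [MonoidHom.comp_apply, MonoidHom.comp_apply, h3, hΦ1, hΦ1]
      change g * (t * x * (t : Γ)⁻¹) * g⁻¹ = t * (g * x * g⁻¹) * (t : Γ)⁻¹
      have h4 : (t : Γ) * g = g * t := mem_centralizer_iff.mp hg t t.2
      have h5 : (t : Γ)⁻¹ * g⁻¹ = g⁻¹ * (t : Γ)⁻¹ := by rw [← mul_inv_rev, ← mul_inv_rev, h4]
      calc g * (t * x * (t : Γ)⁻¹) * g⁻¹ = (g * t) * x * ((t : Γ)⁻¹ * g⁻¹) := by group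
        _ = _ := by rw [h5, ← h4]; group
    exact DFunLike.congr_fun h2 (c u)

end diag

section complement

variable {G : Type u} [Group G] [Finite G] {q : ℕ} [hq : Fact q.Prime]

theorem exists_compl {X N : Subgroup G} (hX : Cfsg.IsElementaryAbelian q X) (hN : N ≤ X) :
    ∃ T : Subgroup G, T ≤ X ∧ T ⊓ N = ⊥ ∧ X ≤ N ⊔ T := by
  obtain ⟨T, ⟨hTX, hTN⟩, hmax⟩ := Set.exists_max_image {T : Subgroup G | T ≤ X ∧ T ⊓ N = ⊥}
    (fun T => Nat.card T) (Set.toFinite _) ⟨⊥, bot_le, bot_inf_eq _⟩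
  refine ⟨T, hTX, hTN, ?_⟩
  by_contra hcon
  obtain ⟨x, hxX, hx⟩ := SetLike.not_le_iff_exists.mp hcon
  have hnorm : ∀ {C D : Subgroup G}, C ≤ X → D ≤ X → C ≤ normalizer (D : Set G) := fun {C D} hC hD =>
    (hC.trans ((CoprimeHyper.elemAb_le_centralizer hX).trans (centralizer_le hD))).trans (centralizer_le_normalizer _)
  have hzx : zpowers x ≤ X := by rw [zpowers_le]; exact hxX
  have h1 : T ⊔ zpowers x ≤ X := sup_le hTX hzx
  have h2 : (T ⊔ zpowers x) ⊓ N = ⊥ := by
    rw [eq_bot_iff_forall]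
    rintro y ⟨hy1, hy2⟩
    have hy1' : y ∈ T ⊔ zpowers x := hy1
    rw [mem_sup_of_le_normalizer (hnorm hzx hTX)] at hy1'
    obtain ⟨t, ht, z, hz, rfl⟩ := hy1'
    have hz1 : z = 1 := by
      by_contra hne
      have h3 : zpowers z = zpowers x := by
        apply Subgroup.eq_of_le_of_card_ge
        · rw [zpowers_le]; exact hz
        · rw [Nat.card_zpowers z, CoprimeHyper.orderOf_eq_of_ne_one hX (hzx hz) hne]
          exact CoprimeHyper.card_zpowers_le hX hxX
      apply hx
      have h4 : z ∈ N ⊔ T := by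
        have : z = (t * z) * t⁻¹ := by
          have h5 := CoprimeHyper.elemAb_comm hX (hTX ht) (hzx hz)
          rw [h5]; group
        rw [this]
        exact mul_mem (mem_sup_left hy2) (mem_sup_right (inv_mem ht))
      have h5 : zpowers x ≤ N ⊔ T := by rw [← h3, zpowers_le]; exact h4
      exact h5 (mem_zpowers x)
    rw [hz1, mul_one] at hy2 ⊢
    have : t ∈ T ⊓ N := ⟨ht, hy2⟩
    rwa [hTN, mem_bot] at this
  have h3 := hmax (T ⊔ zpowers x) ⟨h1, h2⟩
  have h4 : T = T ⊔ zpowers x := Subgroup.eq_of_le_of_card_ge le_sup_left h3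
  apply hx
  apply mem_sup_right
  rw [h4]
  exact mem_sup_right (mem_zpowers x)

end complement

end Cfsg.Agent.Lib.KS9Act
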