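import Cfsg.Agent.Lib.KS9Act

/-!
# Coprime automorphisms of groups generated by best offenders (Kurzweil-Stellmacher 9.3.10), II (helper30)
-/

set_option autoImplicit false
set_option linter.unusedSectionVars false

namespace Cfsg.Agent.Lib.KS9Act

open Subgroup Cfsg.Agent.Lib.SubgroupTools Cfsg.Agent.Lib.KS9
open scoped commutatorElement MatrixGroups

universe u

variable {G : Type u} [Group G] [Finite G] {p : ℕ} [hp : Fact p.Prime]

/-- conjugate subgroup -/
abbrev cj (x : G) (A : Subgroup G) : Subgroup G := A.map (MulAut.conj x).toMonoidHom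

theorem cj_eq_iff {x : G} {A : Subgroup G} : cj x A = A ↔ x ∈ normalizer (A : Set G) :=
  mem_normalizer_iff_conj_smul.symm

theorem cj_inv_cj (x : G) (A : Subgroup G) : cj x⁻¹ (cj x A) = A := by
  ext y
  constructor
  · rintro ⟨_, ⟨z, hz, rfl⟩, rfl⟩
    change x⁻¹ * (x * z * x⁻¹) * x⁻¹⁻¹ ∈ A
    have : x⁻¹ * (x * z * x⁻¹) * x⁻¹⁻¹ = z := by group
    rw [this]; exact hz
  · intro hy
    exact ⟨_, ⟨y, hy, rfl⟩, by
      change x⁻¹ * (x * y * x⁻¹) * x⁻¹⁻¹ = y
      group⟩

theorem cj_cj_inv (x : G) (A : Subgroup G) : cj x (cj x⁻¹ A) = A := by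
  have := cj_inv_cj x⁻¹ A
  rwa [inv_inv] at this

theorem map_centralizer_cj (x : G) (B : Subgroup G) :
    cj x (centralizer (B : Set G)) = centralizer ((cj x B : Subgroup G) : Set G) := by
  have key : ∀ (x : G) (B : Subgroup G), cj x (centralizer (B : Set G)) ≤ centralizer ((cj x B : Subgroup G) : Set G) := by
    rintro x B _ ⟨y, hy, rfl⟩
    rw [mem_centralizer_iff]
    rintro _ ⟨b, hb, rfl⟩
    rw [← map_mul, ← map_mul, mem_centralizer_iff.mp hy b hb]
  apply le_antisymm (key x B)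
  have h1 := key x⁻¹ (cj x B)
  rw [cj_inv_cj] at h1
  have h2 := map_mono (f := (MulAut.conj x).toMonoidHom) h1
  change cj x (cj x⁻¹ _) ≤ _ at h2
  rwa [cj_cj_inv] at h2

theorem bestOff_cj {V A : Subgroup G} {x : G} (hx : cj x V = V) (hA : Cfsg.IsBestOffenderOn p V A) :
    Cfsg.IsBestOffenderOn p V (cj x A) := by
  have hinj : Function.Injective (MulAut.conj x).toMonoidHom := (MulAut.conj x).injective
  have hcard : ∀ B : Subgroup G, Nat.card ↥(cj x B) = Nat.card B := fun B => card_map_of_injective hinj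
  have hfix : ∀ B : Subgroup G, Nat.card ↥(V ⊓ centralizer ((cj x B : Subgroup G) : Set G)) =
      Nat.card ↥(V ⊓ centralizer (B : Set G)) := by
    intro B
    rw [← hcard (V ⊓ centralizer (B : Set G)), ← map_centralizer_cj]
    have h : V ⊓ cj x (centralizer (B : Set G)) = cj x (V ⊓ centralizer (B : Set G)) := by
      conv_lhs => rw [← hx]
      exact (map_inf_eq _ _ _ hinj).symm
    rw [h]
  refine ⟨?_, ?_, ?_⟩
  · intro B hB
    have h1 : cj x⁻¹ B ≤ A := by
      have := map_mono (f := (MulAut.conj x⁻¹).toMonoidHom) hB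
      change cj x⁻¹ B ≤ cj x⁻¹ (cj x A) at this
      rwa [cj_inv_cj] at this
    have h2 := hA.1 _ h1
    rw [← hcard (cj x⁻¹ B), ← hfix (cj x⁻¹ B), cj_cj_inv, ← hcard A, ← hfix A] at h2
    exact h2
  · have h1 := map_mono (f := (MulAut.conj x).toMonoidHom) hA.2.1
    rw [map_commutator] at h1
    refine h1.trans ?_
    change cj x (centralizer (V : Set G)) ≤ _
    rw [map_centralizer_cj, hx]
  · rintro _ ⟨a, ha, rfl⟩
    have h1 : (MulAut.conj x).toMonoidHom (a ^ p) ∈ cj x (centralizer (V : Set G)) := ⟨_, hA.2.2 a ha, rfl⟩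
    rw [map_centralizer_cj, hx, map_pow] at h1
    exact h1

theorem cj_commutator (x : G) (A B : Subgroup G) : cj x ⁅A, B⁆ = ⁅cj x A, cj x B⁆ := map_commutator _ _ _

theorem cj_EA {x : G} {Q A : Subgroup G} (hx : cj x Q = Q) : cj x (EA Q A) = EA Q (cj x A) := by
  unfold EA
  rw [cj, Subgroup.map_sup, map_commutator]
  change ⁅cj x Q, cj x A⁆ ⊔ _ = _
  rw [hx]

variable {V H Q A X : Subgroup G}

theorem minOff_cj (S : Setting p V H Q) {x : G} (hxV : cj x V = V) (hxH : cj x H = H) (hAH : A ≤ H)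
    (hA : IsMinOff p V A) : cj x A ≤ H ∧ IsMinOff p V (cj x A) := by
  have h1 : cj x A ≤ H := by
    have := map_mono (f := (MulAut.conj x).toMonoidHom) hAH
    rwa [show H.map (MulAut.conj x).toMonoidHom = H from hxH] at this
  refine ⟨h1, S.minOff_of_card h1 (bestOff_cj hxV hA.1) ?_⟩
  rw [card_map_of_injective (MulAut.conj x).injective]
  exact S.card_minOff hAH hA

/-- elements of prime order at least `5` act trivially on elementary abelian groups of order `4` or `9` -/
theorem centralizes_plane {q : ℕ} [hq : Fact q.Prime] (hq2 : q ≠ 2) (hq3 : q ≠ 3) (hp3 : p = 2 ∨ p = 3)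
    {U : Subgroup G} (hU : Cfsg.IsElementaryAbelian p U) (hc : Nat.card U = p ^ 2) {x : G} (hx : x ^ q = 1)
    (hxU : x ∈ normalizer (U : Set G)) : x ∈ centralizer (U : Set G) := by
  letI : CommGroup U := { (inferInstance : Group U) with
    mul_comm := fun a b => Subtype.ext (CoprimeHyper.elemAb_comm hU a.2 b.2) }
  obtain ⟨φ, hφ⟩ := H58ElemAb.exists_mulAut_toGL (A := U) p 2 (fun a => Subtype.ext (by simpa using hU.2 a a.2)) hc
  have hle : zpowers x ≤ normalizer (U : Set G) := by rw [zpowers_le]; exact hxU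
  have h1 : ElabRep.conjHom (zpowers x) U hle ⟨x, mem_zpowers x⟩ = 1 := by
    apply hφ
    rw [map_one]
    set y := φ (ElabRep.conjHom (zpowers x) U hle ⟨x, mem_zpowers x⟩) with hy
    have h2 : y ^ q = 1 := by
      rw [hy, ← map_pow, ← map_pow]
      have : (⟨x, mem_zpowers x⟩ : zpowers x) ^ q = 1 := Subtype.ext (by simpa using hx)
      rw [this, map_one, map_one]
    have h3 : orderOf y ∣ q := orderOf_dvd_of_pow_eq_one h2
    have h4 : orderOf y ∣ Nat.card (GL (Fin 2) (ZMod p)) := orderOf_dvd_natCard y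
    have h5 : q.Coprime (Nat.card (GL (Fin 2) (ZMod p))) := by
      rw [hq.out.coprime_iff_not_dvd]
      intro h6
      rw [Matrix.card_GL_field, Fin.prod_univ_two, ZMod.card] at h6
      have h7 : ∀ n : ℕ, q ∣ 2 ^ n * 3 → False := by
        intro n h
        rcases (Nat.Prime.dvd_mul hq.out).mp h with h' | h'
        · exact hq2 ((Nat.prime_dvd_prime_iff_eq hq.out Nat.prime_two).mp (hq.out.dvd_of_dvd_pow h'))
        · exact hq3 ((Nat.prime_dvd_prime_iff_eq hq.out Nat.prime_three).mp h')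
      rcases hp3 with rfl | rfl
      · exact h7 1 (by simpa using h6)
      · exact h7 4 (by simpa using h6)
    exact orderOf_eq_one_iff.mp (Nat.eq_one_of_dvd_coprimes h5 h3 h4)
  exact (ElabRep.conjHom_eq_one_iff (zpowers x) U hle ⟨x, mem_zpowers x⟩).mp h1

/-- **K-S 9.3.10**: the diagonal subgroups. -/
theorem act {q : ℕ} [hq : Fact q.Prime] (S : Setting p V H Q) (hAH : A ≤ H) (hA : IsMinOff p V A)
    (hXV : X ≤ normalizer (V : Set G)) (hXH : X ≤ normalizer (H : Set G)) (hXQ : X ≤ normalizer (Q : Set G))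
    (hX : Cfsg.IsElementaryAbelian q X) (hq2 : q ≠ 2) (hq3 : q ≠ 3) :
    ∃ (δ : EA Q A →* G) (ε : (⁅V, EA Q A⁆ : Subgroup G) →* G),
      (∀ e, δ e ∈ H ⊓ centralizer (X : Set G)) ∧
      (∀ (e : EA Q A), ∀ y ∈ EA Q A, δ e * y * (δ e)⁻¹ = e * y * (e : G)⁻¹) ∧
      (∀ (e : EA Q A), ∀ y ∈ ⁅V, EA Q A⁆, δ e * y * (δ e)⁻¹ = e * y * (e : G)⁻¹) ∧
      (∀ u, ε u ∈ V ⊓ centralizer (X : Set G)) ∧ Function.Injective ε ∧
      (∀ (e : EA Q A) (u v : (⁅V, EA Q A⁆ : Subgroup G)), (v : G) = e * u * (e : G)⁻¹ →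
        δ e * ε u * (δ e)⁻¹ = ε v) := by
  have P := isPlane S hAH hA
  set E := EA Q A with hE
  set U := ⁅V, E⁆ with hU
  have hUV : U ≤ V := IsPlane.U_le S hAH
  have hUe : Cfsg.IsElementaryAbelian p U := CoprimeHyper.elemAb_mono S.hV hUV
  have hEU : E ≤ normalizer (U : Set G) := normalizer_commutator_ge_right V E
  have hXab : X ≤ centralizer (X : Set G) := CoprimeHyper.elemAb_le_centralizer hX
  -- the stabilizer
  set N := X ⊓ normalizer (E : Set G) with hN
  have hNU : N ≤ centralizer (U : Set G) := by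
    intro x hx
    apply centralizes_plane hq2 hq3 P.p23 hUe P.card (hX.2 x hx.1)
    exact normalizer_inf_le_normalizer_commutator V E (mem_inf.mpr ⟨hXV hx.1, hx.2⟩)
  have hNE : N ≤ centralizer (E : Set G) := by
    intro x hx
    rw [mem_centralizer_iff]
    intro e he
    have h1 : ⁅x, e⁆ = 1 := by
      apply P.eq_one S hAH
      · have : ⁅x, e⁆ = (x * e * x⁻¹) * e⁻¹ := by rw [commutatorElement_def]
        rw [this]
        exact mul_mem ((mem_normalizer_iff.mp hx.2 e).mp he) (inv_mem he)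
      · have : ⁅x, e⁆ = x * (e * x⁻¹ * e⁻¹) := by rw [commutatorElement_def]; group
        rw [this]
        refine mul_mem (hNU hx) ?_
        exact (mem_normalizer_iff.mp (OffenderBasic.normalizer_le_normalizer_centralizer _ (hEU he)) _).mp
          (inv_mem (hNU hx))
    exact (commutatorElement_eq_one_iff_mul_comm.mp h1).symm
  obtain ⟨T, hTX, hTN, hsup⟩ := exists_compl hX (inf_le_left : N ≤ X)
  -- other conjugates
  have hconj : ∀ t ∈ T, t ≠ 1 → ⁅E, cj t E⁆ = ⊥ ∧ cj t E ≤ centralizer (U : Set G) ∧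
      cj t U ≤ centralizer (E : Set G) := by
    intro t ht ht1
    have htV : cj t V = V := cj_eq_iff.mpr (hXV (hTX ht))
    have htH : cj t H = H := cj_eq_iff.mpr (hXH (hTX ht))
    have htQ : cj t Q = Q := cj_eq_iff.mpr (hXQ (hTX ht))
    obtain ⟨hBH, hB⟩ := minOff_cj S htV htH hAH hA
    have h1 : EA Q (cj t A) = cj t E := (cj_EA htQ).symm
    rcases P.eq_or_comm S hAH hBH hA hB (isPlane S hBH hB) with h | ⟨h2, h3, h4⟩
    · exfalso
      apply ht1
      have h5 : t ∈ T ⊓ N := by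
        refine ⟨ht, hTX ht, ?_⟩
        change t ∈ normalizer (E : Set G)
        rw [← cj_eq_iff, ← h1]
        exact h.symm
      rwa [hTN, mem_bot] at h5
    · rw [h1] at h2 h3 h4
      refine ⟨h2, h3, ?_⟩
      have h5 : cj t U = ⁅V, cj t E⁆ := by rw [hU, cj_commutator, htV]
      rw [h5, le_centralizer_iff]
      exact h4
  obtain ⟨δ, d1, d2, d3, d4⟩ := exists_diag (F := E) hTX hsup hXab inf_le_left hNE (by
    intro t ht ht1 x hx y hy
    have h1 := (hconj t ht ht1).1
    rw [commutator_eq_bot_iff_le_centralizer] at h1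
    exact (mem_centralizer_iff.mp (h1 hx) _ ⟨y, hy, rfl⟩).symm)
  obtain ⟨ε, e1, e2, e3, e4⟩ := exists_diag (F := U) hTX hsup hXab inf_le_left hNU (by
    intro t ht ht1 x hx y hy
    exact CoprimeHyper.elemAb_comm S.hV (hUV hx) ((mem_normalizer_iff.mp (hXV (hTX ht)) y).mp (hUV hy)))
  have hδH : ∀ e, δ e ∈ H := by
    intro e
    apply d3 e H
    intro t ht
    exact (mem_normalizer_iff.mp (hXH (hTX ht)) _).mp (EA_le S hAH e.2)
  have key : ∀ (e : E) (y : G), (e : G)⁻¹ * δ e ∈ centralizer ({y} : Set G) →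
      δ e * y * (δ e)⁻¹ = e * y * (e : G)⁻¹ := by
    intro e y h
    rw [mem_centralizer_singleton_iff] at h
    have h1 : δ e * y = e * y * (e : G)⁻¹ * δ e := by
      calc δ e * y = e * ((e : G)⁻¹ * δ e * y) := by group
        _ = _ := by rw [h]; group
    rw [h1, mul_inv_cancel_right]
  have hδU : ∀ (e : E), ∀ y ∈ U, δ e * y * (δ e)⁻¹ = e * y * (e : G)⁻¹ := by
    intro e y hy
    apply key
    apply d2 e
    intro t ht ht1
    rw [mem_centralizer_singleton_iff]
    exact (mem_centralizer_iff.mp ((hconj t ht ht1).2.1 ⟨e, e.2, rfl⟩) y hy).symm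
  refine ⟨δ, ε, fun e => mem_inf.mpr ⟨hδH e, d1 e⟩, ?_, hδU, ?_, ?_, ?_⟩
  · intro e y hy
    apply key
    apply d2 e
    intro t ht ht1
    rw [mem_centralizer_singleton_iff]
    have h1 := (hconj t ht ht1).1
    rw [commutator_eq_bot_iff_le_centralizer] at h1
    exact mem_centralizer_iff.mp (h1 hy) _ ⟨e, e.2, rfl⟩
  · intro u
    refine mem_inf.mpr ⟨?_, e1 u⟩
    apply e3 u V
    intro t ht
    exact (mem_normalizer_iff.mp (hXV (hTX ht)) _).mp (hUV u.2)
  · rw [injective_iff_map_eq_one]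
    intro u hu
    have h1 := e2 u (centralizer (E : Set G)) (by
      intro t ht ht1
      exact (hconj t ht ht1).2.2 ⟨u, u.2, rfl⟩)
    rw [hu, mul_one] at h1
    have h2 : (u : G) ∈ U ⊓ centralizer (E : Set G) := mem_inf.mpr ⟨u.2, by
      have := inv_mem h1
      rwa [inv_inv] at this⟩
    rw [P.inf, mem_bot] at h2
    exact Subtype.ext h2
  · intro e u v hv
    have h1 : ∀ x ∈ U, δ e * x * (δ e)⁻¹ ∈ U := by
      intro x hx
      rw [hδU e x hx]
      exact (mem_normalizer_iff.mp (hEU e.2) x).mp hx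
    rw [e4 (δ e) (centralizer_le hTX (d1 e)) h1 u]
    congr 1
    apply Subtype.ext
    rw [hv]
    exact hδU e u u.2

end Cfsg.Agent.Lib.KS9Act
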