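import Cfsg.Agent.Lib.KS9Fac
import Cfsg.Agent.Lib.KS9Act2
import Cfsg.Agent.Lib.FactorizeQuot
import Cfsg.Agent.Lib.CoprimeAction

/-!
# Failure of Thompson factorization with coprime operators (Kurzweil-Stellmacher 9.3.10, 9.3.11) (helper30)
-/

set_option autoImplicit false
set_option linter.unusedSectionVars false

namespace Cfsg.Agent.Lib.KS9Fac

open Subgroup Cfsg.Agent.Lib.SubgroupTools Cfsg.Agent.Lib.KS9 Cfsg.Agent.Lib.KS9Rep Cfsg.Agent.Lib.KS9Act
  Cfsg.Agent.Lib.RelSylow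
open scoped commutatorElement MatrixGroups

universe u

variable {G : Type u} [Group G] [Finite G] {p : ℕ} [hp : Fact p.Prime]

/-- `V = ⟨Ω₁(Z(S)) : S ∈ Syl_p(K)⟩` -/
abbrev VZ (p : ℕ) (K : Type u) [Group K] : Subgroup K :=
  ⨆ S : Sylow p K, Cfsg.omegaOne p ((S : Subgroup K) ⊓ centralizer ((S : Subgroup K) : Set K))

theorem VZ_characteristic : (VZ p G).Characteristic := by
  rw [characteristic_iff_map_le]
  intro φ
  rw [Subgroup.map_iSup]
  apply iSup_le
  intro S
  have h1 := FactorizeQuot.map_Z0_of_injOn (p := p) φ.toMonoidHom (S : Subgroup G)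
    (fun x _ h => by
      have : φ x = 1 := h
      exact φ.map_eq_one_iff.mp this)
  have h2 : IsSyl p ((S : Subgroup G).map φ.toMonoidHom) (⊤ : Subgroup G) := by
    have := (isSyl_top_iff S).map φ.toMonoidHom
    rwa [← MonoidHom.range_eq_map, MonoidHom.range_eq_top.mpr φ.surjective] at this
  obtain ⟨T, hT⟩ := h2.toSylow
  refine (le_of_eq h1).trans ?_
  rw [← hT]
  exact le_iSup (fun S : Sylow p G => Cfsg.omegaOne p ((S : Subgroup G) ⊓ centralizer ((S : Subgroup G) : Set G))) T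

/-- the data of K-S 9.3.10-11 -/
structure Data (p q : ℕ) [Fact p.Prime] [Fact q.Prime] (K X : Subgroup G) : Prop where
  hXK : X ≤ normalizer (K : Set G)
  hX : Cfsg.IsElementaryAbelian q X
  hq : ¬ q ∣ Nat.card K
  hsep : Cfsg.IsPSolvable p ↥K
  hO : Cfsg.pPrimeCore p ↥K = ⊥
  hnf : ¬ Cfsg.IsThompsonFactorizable p ↥K

variable {q : ℕ} [hq : Fact q.Prime] {K X : Subgroup G}

namespace Data

/-- `V` in `G` -/
abbrev V (p : ℕ) (K : Subgroup G) : Subgroup G := (VZ p K).map K.subtype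

theorem XV (D : Data p q K X) : X ≤ normalizer ((V p K : Subgroup G) : Set G) := by
  have : (VZ p K).Characteristic := VZ_characteristic
  exact D.hXK.trans (normalizer_le_of_characteristic (VZ p K))

theorem KV (p : ℕ) [Fact p.Prime] (K : Subgroup G) (k : K) :
    K.subtype k ∈ normalizer ((V p K : Subgroup G) : Set G) := by
  have : (VZ p K).Characteristic := VZ_characteristic
  exact (le_normalizer.trans (normalizer_le_of_characteristic (VZ p K))) k.2

theorem V_normal (p : ℕ) [Fact p.Prime] (K : Subgroup G) : (VZ p K).Normal := by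
  have : (VZ p K).Characteristic := VZ_characteristic
  infer_instance

/-- the representation of `K` -/
noncomputable def θ (p : ℕ) [Fact p.Prime] (K : Subgroup G) : K →* Hol (V p K) :=
  (eta (V p K)).comp (K.subtype.codRestrict _ (KV p K))

noncomputable def ψ (p : ℕ) (K : Subgroup G) : VZ p K ≃* VV (V p K) :=
  (equivMapOfInjective (VZ p K) K.subtype K.subtype_injective).trans (psi (V p K))

theorem rep (p : ℕ) [Fact p.Prime] (K : Subgroup G) :
    haveI := V_normal p K
    IsRep (VZ p K) (VV (V p K)) (θ p K) (ψ p K) :=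
  haveI := V_normal p K
  isRep K.subtype_injective (VZ p K) (KV p K)

/-- the representation of `X` -/
noncomputable def ξ (D : Data p q K X) : X →* Hol (V p K) := (eta (V p K)).comp (inclusion D.XV)

theorem xi_conj_theta (D : Data p q K X) (x : X) (k : K) (h : (x : G) * k * (x : G)⁻¹ ∈ K) :
    D.ξ x * θ p K k * (D.ξ x)⁻¹ = θ p K ⟨x * k * (x : G)⁻¹, h⟩ := by
  change eta (V p K) _ * eta (V p K) _ * (eta (V p K) _)⁻¹ = eta (V p K) _
  rw [← map_mul, ← map_inv, ← map_mul]
  rfl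

theorem conj_mem (D : Data p q K X) (x : X) (k : K) : (x : G) * k * (x : G)⁻¹ ∈ K :=
  (mem_normalizer_iff.mp (D.hXK x.2) k).mp k.2

/-- characteristic subgroups of `K` have `X`-invariant images -/
theorem xi_normalizes (D : Data p q K X) (J : Subgroup K) [J.Characteristic] :
    D.ξ.range ≤ normalizer ((J.map (θ p K) : Subgroup _) : Set (Hol (V p K))) := by
  have key : ∀ (x : X) (y : Hol (V p K)), y ∈ J.map (θ p K) → D.ξ x * y * (D.ξ x)⁻¹ ∈ J.map (θ p K) := by
    rintro x _ ⟨j, hj, rfl⟩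
    rw [D.xi_conj_theta x j (D.conj_mem x j)]
    refine ⟨_, ?_, rfl⟩
    have h1 := (mem_normalizer_iff.mp (normalizer_le_of_characteristic J (D.hXK x.2)) j).mp ⟨j, hj, rfl⟩
    obtain ⟨j', hj', h⟩ := h1
    have h2 : (⟨(x : G) * j * (x : G)⁻¹, D.conj_mem x j⟩ : K) = j' := Subtype.ext h.symm
    rw [h2]; exact hj'
  rintro _ ⟨x, rfl⟩
  rw [mem_normalizer_iff]
  intro y
  refine ⟨key x y, fun h => ?_⟩
  have := key x⁻¹ _ h
  rw [map_inv] at this
  have h2 : (D.ξ x)⁻¹ * (D.ξ x * y * (D.ξ x)⁻¹) * (D.ξ x)⁻¹⁻¹ = y := by group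
  rwa [h2] at this

theorem xi_conj_psi (D : Data p q K X) (x : X) (v : G) (hv : v ∈ V p K)
    (h : (x : G) * v * (x : G)⁻¹ ∈ V p K) :
    D.ξ x * (psi (V p K) ⟨v, hv⟩ : Hol (V p K)) * (D.ξ x)⁻¹ = (psi (V p K) ⟨x * v * (x : G)⁻¹, h⟩ : Hol (V p K)) :=
  (eta_conj (V p K) ⟨x, D.XV x.2⟩ ⟨v, hv⟩).symm

theorem xi_normalizes_V (D : Data p q K X) :
    D.ξ.range ≤ normalizer ((VV (V p K) : Subgroup _) : Set (Hol (V p K))) := by
  have key : ∀ (x : X) (y : Hol (V p K)), y ∈ VV (V p K) → D.ξ x * y * (D.ξ x)⁻¹ ∈ VV (V p K) := by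
    intro x y hy
    obtain ⟨v, hv⟩ := (psi (V p K)).surjective ⟨y, hy⟩
    have h1 := D.xi_conj_psi x v v.2 ((mem_normalizer_iff.mp (D.XV x.2) v).mp v.2)
    have h2 : ((psi (V p K) ⟨v, v.2⟩ : VV (V p K)) : Hol (V p K)) = y := congrArg Subtype.val hv
    rw [h2] at h1
    rw [h1]; exact Subtype.prop _
  rintro _ ⟨x, rfl⟩
  rw [mem_normalizer_iff]
  intro y
  refine ⟨key x y, fun h => ?_⟩
  have := key x⁻¹ _ h
  rw [map_inv] at this
  have h2 : (D.ξ x)⁻¹ * (D.ξ x * y * (D.ξ x)⁻¹) * (D.ξ x)⁻¹⁻¹ = y := by group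
  rwa [h2] at this

theorem xi_elemAb (D : Data p q K X) : Cfsg.IsElementaryAbelian q D.ξ.range := by
  rw [MonoidHom.range_eq_map]
  apply ThompsonJ.elemAb_map
  refine ⟨?_, ?_⟩
  · rw [isMulCommutative_iff_of_setLike]
    intro a _ b _
    exact Subtype.ext (CoprimeHyper.elemAb_comm D.hX a.2 b.2)
  · intro a _
    exact Subtype.ext (by simpa using D.hX.2 a a.2)

/-- fixed points of `X` on the image of `K` lift to `K` -/
theorem exists_lift (D : Data p q K X) {k : K} (hk : θ p K k ∈ centralizer (D.ξ.range : Set (Hol (V p K)))) :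
    ∃ c : K, (c : G) ∈ centralizer (X : Set G) ∧ θ p K c = θ p K k := by
  have hn := V_normal p K
  have R := rep p K
  set N : Subgroup G := (centralizer (VZ p K : Set K)).map K.subtype with hN
  have hch : (VZ p K).Characteristic := VZ_characteristic
  have hch2 : (centralizer (VZ p K : Set K)).Characteristic := inferInstance
  have hXN : X ≤ normalizer (N : Set G) := D.hXK.trans (normalizer_le_of_characteristic _)
  have hcop : (Nat.card X).Coprime (Nat.card N) := by
    apply CoprimeHyper.elemAb_coprime D.hX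
    intro h
    exact D.hq (h.trans (card_dvd_of_le (map_subtype_le _)))
  obtain ⟨c, hc, hcN⟩ := CoprimeAction.exists_mem_centralizer_of_quotient hXN hcop
    (Or.inl (CoprimeHyper.elemAb_solvable D.hX)) (k : G)
    ((le_normalizer.trans (normalizer_le_of_characteristic (centralizer (VZ p K : Set K)))) k.2) (by
      intro a ha
      have h1 : D.ξ ⟨a, ha⟩ * θ p K k = θ p K k * D.ξ ⟨a, ha⟩ := mem_centralizer_iff.mp hk _ ⟨⟨a, ha⟩, rfl⟩
      have h2 := D.xi_conj_theta ⟨a, ha⟩ k (D.conj_mem ⟨a, ha⟩ k)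
      rw [h1, mul_inv_cancel_right] at h2
      refine ⟨⟨a * k * a⁻¹, D.conj_mem ⟨a, ha⟩ k⟩ * k⁻¹, ?_, rfl⟩
      rw [SetLike.mem_coe, ← R.ker, MonoidHom.mem_ker, map_mul, map_inv, ← h2, mul_inv_cancel])
  obtain ⟨n, hn', hnc⟩ := hcN
  refine ⟨k * n, ?_, ?_⟩
  · have : ((k * n : K) : G) = c := by
      rw [coe_mul]
      change (k : G) * K.subtype n = c
      rw [hnc]; group
    rw [this]; exact hc
  · rw [map_mul]
    have h3 : θ p K n = 1 := by
      rw [← MonoidHom.mem_ker, R.ker]; exact hn'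
    rw [h3, mul_one]

end Data

end Cfsg.Agent.Lib.KS9Fac
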