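import Cfsg.Agent.Lib.KS9Fac2

/-!
# Failure of Thompson factorization with coprime operators, the theorems (helper30)
-/

set_option autoImplicit false
set_option linter.unusedSectionVars false

namespace Cfsg.Agent.Lib.KS9Fac

open Subgroup Cfsg.Agent.Lib.SubgroupTools Cfsg.Agent.Lib.KS9 Cfsg.Agent.Lib.KS9Rep Cfsg.Agent.Lib.KS9Act
  Cfsg.Agent.Lib.RelSylow
open scoped commutatorElement MatrixGroups

universe u

variable {G : Type u} [Group G] [Finite G] {p : ℕ} [hp : Fact p.Prime] {q : ℕ} [hq : Fact q.Prime] {K X : Subgroup G}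

/-- `J(K) C_K(V)` -/
abbrev JJ (p : ℕ) (K : Type u) [Group K] : Subgroup K :=
  Cfsg.thompsonSubgroup p K ⊔ centralizer (VZ p K : Set K)

theorem JJ_characteristic (K : Type u) [Group K] [Finite K] : (JJ p K).Characteristic := by
  have h1 : (Cfsg.thompsonSubgroup p K).Characteristic := thompson_characteristic
  have h2 : (VZ p K).Characteristic := VZ_characteristic
  have h3 : (centralizer (VZ p K : Set K)).Characteristic := inferInstance
  rw [characteristic_iff_map_le]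
  intro φ
  rw [Subgroup.map_sup]
  exact sup_le_sup (characteristic_iff_map_le.mp h1 φ) (characteristic_iff_map_le.mp h3 φ)

/-- the `p'`-core -/
noncomputable abbrev QQ (p : ℕ) [Fact p.Prime] (K : Subgroup G) : Subgroup (Hol (Data.V p K)) :=
  (Cfsg.pPrimeCore p ↥((JJ p K).map (Data.θ p K))).map ((JJ p K).map (Data.θ p K)).subtype

/-- everything about failure of factorization in `K` with the operators `X` -/
structure Full (p q : ℕ) [Fact p.Prime] [Fact q.Prime] (K X : Subgroup G) : Prop where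
  D : Data p q K X
  S : Setting p (VV (Data.V p K)) ((JJ p K).map (Data.θ p K)) (QQ p K)
  gen : GenOff p (VV (Data.V p K)) ((JJ p K).map (Data.θ p K))
  ex : ∃ A ≤ (JJ p K).map (Data.θ p K), IsMinOff p (VV (Data.V p K)) A
  q2 : q ≠ 2
  q3 : q ≠ 3
  elem : Cfsg.IsElementaryAbelian p (Data.V p K)

theorem Data.full (D : Data p q K X) : Full p q K X := by
  have hn := Data.V_normal p K
  have R := Data.rep p K
  have hc := H32PSolv.centralizer_pCore_le D.hsep D.hO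
  have hV : Cfsg.IsElementaryAbelian p (VZ p K) := OffenderGen.omegaV_elemAb hc
  have hOp : Cfsg.pCore p (K ⧸ centralizer (VZ p K : Set K)) = ⊥ :=
    OffenderGen.pCore_quotient_eq_bot _ OffenderGen.omegaV_gen
  have hJ : ¬ Cfsg.thompsonSubgroup p K ≤ centralizer (VZ p K : Set K) := fun h => D.hnf ((S0608.result D.hO).mpr h)
  have hch := JJ_characteristic (p := p) K
  have hJn : (JJ p K).Normal := inferInstance
  have S := R.setting hV D.hsep hOp (JJ p K)
  have hgen := R.genOff hV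
  obtain ⟨A, hAH, hA⟩ := exists_minOff S hgen (by
    intro h
    apply hJ
    rw [← R.ker, ← Subgroup.map_eq_bot_iff, eq_bot_iff, ← h]
    exact map_mono le_sup_left)
  have P := isPlane S hAH hA
  obtain ⟨e⟩ := P.iso
  have h6 : 6 ∣ Nat.card ↥(EA (QQ p K) A) := by
    rw [Nat.card_congr e.toEquiv]
    rcases P.p23 with h | h
    · subst h; rw [card_sl22]
    · subst h; rw [card_sl23]; norm_num
  have hK6 : 6 ∣ Nat.card K := by
    refine h6.trans ((card_dvd_of_le (EA_le S hAH)).trans ?_)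
    exact (card_map_dvd (H := JJ p K) (Data.θ p K)).trans (card_subgroup_dvd_card _)
  refine ⟨D, S, hgen, ⟨A, hAH, hA⟩, ?_, ?_, ?_⟩
  · rintro rfl
    exact D.hq ((show 2 ∣ 6 by norm_num).trans hK6)
  · rintro rfl
    exact D.hq ((show 3 ∣ 6 by norm_num).trans hK6)
  · exact ThompsonJ.elemAb_map _ hV

theorem Full.exists_act (F : Full p q K X) {A : Subgroup (Hol (Data.V p K))} (hAH : A ≤ (JJ p K).map (Data.θ p K))
    (hA : IsMinOff p (VV (Data.V p K)) A) :
    ∃ (δ : EA (QQ p K) A →* Hol (Data.V p K))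
      (ε : (⁅VV (Data.V p K), EA (QQ p K) A⁆ : Subgroup (Hol (Data.V p K))) →* Hol (Data.V p K)),
      (∀ e, δ e ∈ (JJ p K).map (Data.θ p K) ⊓ centralizer (F.D.ξ.range : Set (Hol (Data.V p K)))) ∧
      (∀ (e : EA (QQ p K) A), ∀ y ∈ EA (QQ p K) A, δ e * y * (δ e)⁻¹ = e * y * (e : Hol (Data.V p K))⁻¹) ∧
      (∀ (e : EA (QQ p K) A), ∀ y ∈ ⁅VV (Data.V p K), EA (QQ p K) A⁆,
        δ e * y * (δ e)⁻¹ = e * y * (e : Hol (Data.V p K))⁻¹) ∧
      (∀ u, ε u ∈ VV (Data.V p K) ⊓ centralizer (F.D.ξ.range : Set (Hol (Data.V p K)))) ∧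
      Function.Injective ε ∧
      (∀ (e : EA (QQ p K) A) (u v : (⁅VV (Data.V p K), EA (QQ p K) A⁆ : Subgroup (Hol (Data.V p K)))),
        (v : Hol (Data.V p K)) = e * u * (e : Hol (Data.V p K))⁻¹ → δ e * ε u * (δ e)⁻¹ = ε v) := by
  have hch := JJ_characteristic (p := p) K
  have hXH := F.D.xi_normalizes (JJ p K)
  have hch2 : (Cfsg.pPrimeCore p ↥((JJ p K).map (Data.θ p K))).Characteristic :=
    Cores.pPrimeCore_characteristic p _
  exact act F.S hAH hA F.D.xi_normalizes_V hXH (hXH.trans (normalizer_le_of_characteristic _)) F.D.xi_elemAb F.q2 F.q3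

/-- **K-S 9.3.10** -/
theorem s0620 (hXK : X ≤ normalizer (K : Set G)) (hX : Cfsg.IsElementaryAbelian q X) (hqK : ¬ q ∣ Nat.card K)
    (hsep : Cfsg.IsPSolvable p ↥K) (hO : Cfsg.pPrimeCore p ↥K = ⊥) (S : Sylow p ↥K) :
    (normalizer (Cfsg.thompsonSubgroupOf p (S : Subgroup ↥K) : Set ↥K) ⊔
      centralizer (Cfsg.omegaOne p ((S : Subgroup ↥K) ⊓ centralizer ((S : Subgroup ↥K) : Set ↥K)) : Set ↥K) ⊔
      (centralizer (X : Set G)).subgroupOf K) = ⊤ := by
  set M := (normalizer (Cfsg.thompsonSubgroupOf p (S : Subgroup ↥K) : Set ↥K) ⊔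
      centralizer (Cfsg.omegaOne p ((S : Subgroup ↥K) ⊓ centralizer ((S : Subgroup ↥K) : Set ↥K)) : Set ↥K) ⊔
      (centralizer (X : Set G)).subgroupOf K) with hM
  have hM1 : normalizer (Cfsg.thompsonSubgroupOf p (S : Subgroup ↥K) : Set ↥K) ≤ M := le_sup_left.trans le_sup_left
  have hM2 : centralizer (Cfsg.omegaOne p ((S : Subgroup ↥K) ⊓ centralizer ((S : Subgroup ↥K) : Set ↥K)) : Set ↥K) ≤
    M := le_sup_right.trans le_sup_left
  have hM3 : (centralizer (X : Set G)).subgroupOf K ≤ M := le_sup_right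
  by_cases hnf : Cfsg.IsThompsonFactorizable p ↥K
  · rw [eq_top_iff]
    intro g _
    obtain ⟨x, hx, c, hc, n, hn, rfl⟩ := hnf S g
    rw [hO, mem_bot] at hx
    rw [hx, one_mul]
    exact mul_mem (hM2 hc) (hM1 hn)
  have D : Data p q K X := ⟨hXK, hX, hqK, hsep, hO, hnf⟩
  have F := D.full
  have hn := Data.V_normal p K
  have R := Data.rep p K
  have hch := JJ_characteristic (p := p) K
  have hJn : (JJ p K).Normal := inferInstance
  -- `S ≤ M`
  have hSM : (S : Subgroup K) ≤ M := by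
    refine le_trans ?_ hM1
    rw [ThompsonJ.thompsonSubgroupOf_eq]
    exact le_normalizer.trans (ThompsonJ.normalizer_le_normalizer_J_elem _)
  have hJM : (JJ p K).map (Data.θ p K) ≤ M.map (Data.θ p K) := by
    apply le_of_minOff F.S F.gen
    intro B hBH hB
    obtain ⟨δ, ε, d1, d2, -, -, -, -⟩ := F.exists_act hBH hB
    have hS1 : IsSyl p ((S : Subgroup K) ⊓ JJ p K) (JJ p K) :=
      (isSyl_top_iff S).inf le_top (by rw [Subgroup.normalizer_eq_top])
    have hS2 := hS1.map (Data.θ p K)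
    have hEn := H_le_normalizer_E F.S F.gen hBH hB
    have hS3 := hS2.inf (EA_le F.S hBH) hEn
    obtain ⟨e, he, hle⟩ := hS3.exists_conj_le (Q := B)
      (CoprimeHyper.elemAb_isPGroup (F.S.elemAb hBH hB.1)) le_sup_right
    refine hle.trans ?_
    rintro _ ⟨y, ⟨hy1, hy2⟩, rfl⟩
    change e * y * e⁻¹ ∈ _
    have h1 := d2 ⟨e, he⟩ y hy2
    rw [← h1]
    have h2 : δ ⟨e, he⟩ ∈ M.map (Data.θ p K) := by
      obtain ⟨⟨k, hk, hkd⟩, hd⟩ := d1 ⟨e, he⟩
      rw [← hkd] at hd ⊢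
      obtain ⟨c, hc, hck⟩ := F.D.exists_lift hd
      exact ⟨c, hM3 (mem_subgroupOf.mpr hc), hck⟩
    have h3 : y ∈ M.map (Data.θ p K) := by
      obtain ⟨s, hs, rfl⟩ := hy1
      exact ⟨s, hSM hs.1, rfl⟩
    exact mul_mem (mul_mem h2 h3) (inv_mem h2)
  have hJM' : JJ p K ≤ M := by
    intro j hj
    obtain ⟨m, hm, h⟩ := hJM ⟨j, hj, rfl⟩
    have h1 : m⁻¹ * j ∈ centralizer (VZ p K : Set K) := by
      rw [← R.ker, MonoidHom.mem_ker, map_mul, map_inv, h, inv_mul_cancel]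
    have h2 : centralizer (VZ p K : Set K) ≤ M := by
      refine le_trans (centralizer_le ?_) hM2
      exact le_iSup (fun S : Sylow p K => Cfsg.omegaOne p ((S : Subgroup K) ⊓ centralizer ((S : Subgroup K) : Set K))) S
    have h3 : j = m * (m⁻¹ * j) := by group
    rw [h3]
    exact mul_mem hm (h2 h1)
  rw [eq_top_iff]
  intro g _
  obtain ⟨n, hn', x, hx, rfl⟩ := Factorize.frattini_J (isSyl_top_iff S) (le_top : JJ p K ≤ ⊤)
    (by rw [Subgroup.normalizer_eq_top]) ((Factorize.J_syl_le (isSyl_top_iff S)).trans (by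
      rw [← ThompsonJ.thompsonSubgroup_eq]; exact le_sup_left)) (mem_top g)
  rw [← ThompsonJ.thompsonSubgroupOf_eq] at hx
  exact mul_mem (hJM' hn') (hM1 hx)

theorem aux21 (F : Full p q K X) (E U : Subgroup (Hol (Data.V p K)))
    (δ : E →* Hol (Data.V p K)) (ε : U →* Hol (Data.V p K))
    (hE1 : ∀ e ∈ E, (∀ u ∈ U, e * u * e⁻¹ = u) → e = 1)
    (hEU : ∀ e : E, ∀ u ∈ U, (e : Hol (Data.V p K)) * u * (e : Hol (Data.V p K))⁻¹ ∈ U)
    (hcard : Nat.card U = p ^ 2) (iso : Nonempty (E ≃* SL(2, ZMod p)))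
    (d1 : ∀ e, δ e ∈ (JJ p K).map (Data.θ p K) ⊓ centralizer (F.D.ξ.range : Set (Hol (Data.V p K))))
    (d3 : ∀ (e : E), ∀ y ∈ U, δ e * y * (δ e)⁻¹ = e * y * (e : Hol (Data.V p K))⁻¹)
    (e1 : ∀ u, ε u ∈ VV (Data.V p K) ⊓ centralizer (F.D.ξ.range : Set (Hol (Data.V p K))))
    (e2 : Function.Injective ε)
    (e3 : ∀ (e : E) (u v : U), (v : Hol (Data.V p K)) = e * u * (e : Hol (Data.V p K))⁻¹ → δ e * ε u * (δ e)⁻¹ = ε v) :
    ∃ W D : Subgroup G, W ≤ K ⊓ centralizer (X : Set G) ∧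
      D ≤ K ⊓ centralizer (X : Set G) ∧ Cfsg.IsElementaryAbelian p W ∧ Nat.card W = p ^ 2 ∧
      D ≤ normalizer (W : Set G) ∧ ∃ _ : ((centralizer (W : Set G)).subgroupOf D).Normal,
        Nonempty ((↥D ⧸ (centralizer (W : Set G)).subgroupOf D) ≃* SL(2, ZMod p)) := by
  have hn := Data.V_normal p K
  -- `δ` is injective
  have hδ : Function.Injective δ := by
    rw [injective_iff_map_eq_one]
    intro e he
    apply Subtype.ext
    apply hE1 _ e.2
    intro u hu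
    have h1 := d3 e u hu
    rw [he] at h1
    rw [← h1]; group
  -- the plane `W`
  let w : U →* G := (Data.V p K).subtype.comp ((psi (Data.V p K)).symm.toMonoidHom.comp
    (ε.codRestrict (VV (Data.V p K)) (fun u => (e1 u).1)))
  have hw : ∀ u : U, ∃ h : w u ∈ Data.V p K, ((psi (Data.V p K) ⟨w u, h⟩ : VV (Data.V p K)) : Hol (Data.V p K)) = ε u := by
    intro u
    refine ⟨((psi (Data.V p K)).symm ⟨ε u, (e1 u).1⟩).2, ?_⟩
    change ((psi (Data.V p K) ((psi (Data.V p K)).symm ⟨ε u, (e1 u).1⟩) : VV (Data.V p K)) : Hol (Data.V p K)) = ε u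
    rw [MulEquiv.apply_symm_apply]
  have hwinj : Function.Injective w := by
    intro u v h
    apply e2
    have h1 : (psi (Data.V p K)).symm ⟨ε u, (e1 u).1⟩ = (psi (Data.V p K)).symm ⟨ε v, (e1 v).1⟩ := Subtype.ext h
    exact congrArg Subtype.val ((psi (Data.V p K)).symm.injective h1)
  set W := w.range with hW
  have hWV : W ≤ Data.V p K := by
    rintro _ ⟨u, rfl⟩
    exact (hw u).1
  have hVK : Data.V p K ≤ K := map_subtype_le _
  have hWX : W ≤ centralizer (X : Set G) := by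
    rintro _ ⟨u, rfl⟩
    rw [mem_centralizer_iff]
    intro x hx
    obtain ⟨h1, h2⟩ := hw u
    have h3 : x * w u * x⁻¹ ∈ Data.V p K := (mem_normalizer_iff.mp (F.D.XV hx) _).mp h1
    have h4 := F.D.xi_conj_psi ⟨x, hx⟩ (w u) h1 h3
    have h5 : F.D.ξ ⟨x, hx⟩ * ε u = ε u * F.D.ξ ⟨x, hx⟩ := mem_centralizer_iff.mp (e1 u).2 _ ⟨⟨x, hx⟩, rfl⟩
    rw [h2, h5, mul_inv_cancel_right, ← h2] at h4
    have h6 := (psi (Data.V p K)).injective (Subtype.ext h4)
    have h7 : w u = x * w u * x⁻¹ := congrArg Subtype.val h6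
    nth_rw 2 [h7]; group
  -- the group `D`
  set D₁ : Subgroup G := ((δ.range.comap (Data.θ p K)).map K.subtype) ⊓ centralizer (X : Set G) with hD₁
  have hD₁K : D₁ ≤ K := inf_le_left.trans (map_subtype_le _)
  have hD₁δ : ∀ g : D₁, Data.θ p K ⟨g, hD₁K g.2⟩ ∈ δ.range := by
    rintro ⟨_, ⟨k, hk, rfl⟩, _⟩
    exact hk
  let f : D₁ →* δ.range := ((Data.θ p K).comp (inclusion hD₁K)).codRestrict _ hD₁δ
  have hfs : Function.Surjective f := by
    rintro ⟨_, ⟨e, rfl⟩⟩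
    obtain ⟨⟨k, hk, hkd⟩, hd⟩ := d1 e
    rw [← hkd] at hd
    obtain ⟨c, hc, hck⟩ := F.D.exists_lift hd
    refine ⟨⟨c, ⟨c, ?_, rfl⟩, hc⟩, Subtype.ext ?_⟩
    · rw [SetLike.mem_coe, mem_comap, hck, hkd]; exact ⟨e, rfl⟩
    · change Data.θ p K c = δ e
      rw [hck, hkd]
  -- action of `D` on `W`
  have hact : ∀ (g : D₁) (e : E) (u v : U), f g = ⟨δ e, ⟨e, rfl⟩⟩ → (v : Hol (Data.V p K)) = e * u * (e : Hol (Data.V p K))⁻¹ →
      (g : G) * w u * (g : G)⁻¹ = w v := by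
    intro g e u v hg hv
    have h1 : Data.θ p K ⟨g, hD₁K g.2⟩ = δ e := congrArg Subtype.val hg
    obtain ⟨h2, h3⟩ := hw u
    obtain ⟨h4, h5⟩ := hw v
    have h6 := eta_conj (Data.V p K) ⟨g, Data.KV p K ⟨g, hD₁K g.2⟩⟩ ⟨w u, h2⟩
    have h7 : eta (Data.V p K) ⟨g, Data.KV p K ⟨g, hD₁K g.2⟩⟩ = δ e := h1
    rw [h7, h3, e3 e u v hv, ← h5] at h6
    have h8 := (psi (Data.V p K)).injective (Subtype.ext h6)
    exact congrArg Subtype.val h8
  have hker : f.ker = (centralizer (W : Set G)).subgroupOf D₁ := by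
    ext g
    rw [MonoidHom.mem_ker, mem_subgroupOf]
    constructor
    · intro h
      rw [mem_centralizer_iff]
      rintro _ ⟨u, rfl⟩
      have h1 := hact g 1 u u (by rw [h]; exact Subtype.ext (by simp)) (by simp)
      nth_rw 1 [← h1]; group
    · intro h
      obtain ⟨e, he⟩ := (f g).2
      have he' : f g = ⟨δ e, ⟨e, rfl⟩⟩ := Subtype.ext he.symm
      have h1 : (e : Hol (Data.V p K)) = 1 := by
        apply hE1 _ e.2
        intro u hu
        have h2 := hact g e ⟨u, hu⟩ ⟨_, hEU e u hu⟩ he' rfl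
        have h3 := mem_centralizer_iff.mp h _ ⟨⟨u, hu⟩, rfl⟩
        rw [← h3, mul_inv_cancel_right] at h2
        have h4 := hwinj h2
        exact (congrArg Subtype.val h4).symm
      rw [he']
      apply Subtype.ext
      have h2 : e = 1 := Subtype.ext h1
      change δ e = 1
      rw [h2, map_one]
  have hWnorm : D₁ ≤ normalizer (W : Set G) := by
    have key : ∀ g ∈ D₁, ∀ y ∈ W, g * y * g⁻¹ ∈ W := by
      rintro g hg _ ⟨u, rfl⟩
      obtain ⟨e, he⟩ := (f ⟨g, hg⟩).2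
      have h1 := hact ⟨g, hg⟩ e u ⟨_, hEU e u u.2⟩ (Subtype.ext he.symm) rfl
      exact ⟨_, h1.symm⟩
    intro g hg
    rw [mem_normalizer_iff]
    intro y
    refine ⟨key g hg y, fun h => ?_⟩
    have := key g⁻¹ (inv_mem hg) _ h
    have h2 : g⁻¹ * (g * y * g⁻¹) * g⁻¹⁻¹ = y := by group
    rwa [h2] at this
  refine ⟨W, D₁, le_inf (hWV.trans hVK) hWX, le_inf hD₁K inf_le_right,
    CoprimeHyper.elemAb_mono F.elem hWV, ?_, hWnorm, ?_⟩
  · rw [← hcard]
    exact (Nat.card_congr (MonoidHom.ofInjective hwinj).toEquiv).symm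
  · have hnk : ((centralizer (W : Set G)).subgroupOf D₁).Normal := by rw [← hker]; infer_instance
    obtain ⟨e⟩ := iso
    refine ⟨hnk, ⟨?_⟩⟩
    exact (QuotientGroup.quotientMulEquivOfEq hker.symm).trans
      ((QuotientGroup.quotientKerEquivOfSurjective f hfs).trans ((MonoidHom.ofInjective hδ).symm.trans e))

/-- **K-S 9.3.11** -/
theorem s0621 (hXK : X ≤ normalizer (K : Set G)) (hX : Cfsg.IsElementaryAbelian q X) (hqK : ¬ q ∣ Nat.card K)
    (hsep : Cfsg.IsPSolvable p ↥K) (hO : Cfsg.pPrimeCore p ↥K = ⊥) (hnf : ¬ Cfsg.IsThompsonFactorizable p ↥K) :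
    (p = 2 ∨ p = 3) ∧ ∃ W D : Subgroup G, W ≤ K ⊓ centralizer (X : Set G) ∧
      D ≤ K ⊓ centralizer (X : Set G) ∧ Cfsg.IsElementaryAbelian p W ∧ Nat.card W = p ^ 2 ∧
      D ≤ normalizer (W : Set G) ∧ ∃ _ : ((centralizer (W : Set G)).subgroupOf D).Normal,
        Nonempty ((↥D ⧸ (centralizer (W : Set G)).subgroupOf D) ≃* SL(2, ZMod p)) := by
  have D : Data p q K X := ⟨hXK, hX, hqK, hsep, hO, hnf⟩
  have F := D.full
  have hn := Data.V_normal p K
  have R := Data.rep p K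
  obtain ⟨A, hAH, hA⟩ := F.ex
  have P := isPlane F.S hAH hA
  refine ⟨P.p23, ?_⟩
  obtain ⟨δ, ε, d1, -, d3, e1, e2, e3⟩ := F.exists_act hAH hA
  refine aux21 F _ _ δ ε ?_ ?_ P.card P.iso d1 d3 e1 e2 e3
  · intro e he h
    apply P.eq_one F.S hAH he
    rw [mem_centralizer_iff]
    intro u hu
    have h1 := h u hu
    nth_rw 1 [← h1]; group
  · intro e u hu
    exact (mem_normalizer_iff.mp (normalizer_commutator_ge_right (VV (Data.V p K)) (EA (QQ p K) A) e.2) u).mp hu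

end Cfsg.Agent.Lib.KS9Fac
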