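import Cfsg.Agent.Lib.KS9Act2
import Cfsg.Agent.Lib.Subnormal
import Cfsg.Agent.Lib.Cores
import Cfsg.Agent.Lib.OffenderBasic

/-!
# Two subnormal subgroups with irreducible commutator modules (Kurzweil-Stellmacher 9.3.4, S0615) (helper30)
-/

set_option autoImplicit false
set_option linter.unusedSectionVars false

namespace Cfsg.Agent.Lib.KS9Pair

open Subgroup Cfsg.Agent.Lib.KS9Act
open scoped commutatorElement

variable {G : Type*} [Group G] [Finite G] {p : ℕ} [hp : Fact p.Prime] {V A B : Subgroup G}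

/-- one factor: `A` acts faithfully on `V`, `O_p(A) = 1`, `[V, A]` is irreducible and `|A| > 2` -/
structure Fac (p : ℕ) (V A : Subgroup G) : Prop where
  nV : A ≤ normalizer (V : Set G)
  f : A ⊓ centralizer (V : Set G) = ⊥
  op : ∀ N ≤ A, A ≤ normalizer (N : Set G) → IsPGroup p N → N = ⊥
  irr : ∀ U ≤ ⁅V, A⁆, A ≤ normalizer (U : Set G) → U = ⊥ ∨ U = ⁅V, A⁆
  two : 2 < Nat.card A

theorem le_V (h : A ≤ normalizer (V : Set G)) : ⁅V, A⁆ ≤ V := by
  rw [commutator_le]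
  intro v hv a ha
  have h1 := (mem_normalizer_iff.mp (h ha) v⁻¹).mp (inv_mem hv)
  have h2 : ⁅v, a⁆ = v * (a * v⁻¹ * a⁻¹) := by rw [commutatorElement_def]; group
  rw [h2]; exact mul_mem hv h1

theorem conj_mem {U : Subgroup G} {x u : G} (hx : x ∈ normalizer (U : Set G)) (hu : u ∈ U) : x * u * x⁻¹ ∈ U :=
  (mem_normalizer_iff.mp hx u).mp hu

theorem conj_mem' {U : Subgroup G} {x u : G} (hx : x ∈ normalizer (U : Set G)) (hu : u ∈ U) : x⁻¹ * u * x ∈ U := by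
  have := conj_mem (inv_mem hx) hu
  rwa [inv_inv] at this

/-- quadratic action -/
theorem quad (hV : Cfsg.IsElementaryAbelian p V) (f : A ⊓ centralizer (V : Set G) = ⊥) {X : Subgroup G} (hX : X ≤ A)
    (hA : A ≤ normalizer (V : Set G))
    (h : ∀ v ∈ V, ∀ x ∈ X, Commute x ⁅v, x⁆) : IsPGroup p X := by
  rintro ⟨x, hx⟩
  refine ⟨1, Subtype.ext ?_⟩
  rw [pow_one]
  change x ^ p = 1
  rw [← mem_bot, ← f]
  refine mem_inf.mpr ⟨pow_mem (hX hx) p, ?_⟩
  rw [mem_centralizer_iff]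
  intro v hv
  have hc : ⁅v, x⁆ ∈ V := le_V hA (commutator_mem_commutator hv (hX hx))
  have hcx := h v hv x hx
  have h1 : v * x * v⁻¹ = ⁅v, x⁆ * x := by rw [commutatorElement_def]; group
  have h2 : v * x ^ p * v⁻¹ = x ^ p := by
    rw [← conj_pow, h1, hcx.symm.mul_pow, show ⁅v, x⁆ ^ p = 1 from hV.2 _ hc, one_mul]
  nth_rw 2 [← h2]; group

theorem Fac.fix (hA : Fac p V A) (hV : Cfsg.IsElementaryAbelian p V) {v : G} (hv : v ∈ ⁅V, A⁆) (h : ∀ a ∈ A, Commute a v) :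
    v = 1 := by
  have h1 := hA.irr (⁅V, A⁆ ⊓ centralizer (A : Set G)) inf_le_left (by
    intro a ha
    rw [mem_normalizer_iff]
    intro y
    have key : ∀ a ∈ A, ∀ y ∈ ⁅V, A⁆ ⊓ centralizer (A : Set G), a * y * a⁻¹ ∈ ⁅V, A⁆ ⊓ centralizer (A : Set G) := by
      intro a ha y hy
      have : a * y * a⁻¹ = y := by rw [mem_centralizer_iff.mp hy.2 a ha, mul_inv_cancel_right]
      rw [this]; exact hy
    refine ⟨key a ha y, fun h => ?_⟩
    have := key a⁻¹ (inv_mem ha) _ h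
    have h2 : a⁻¹ * (a * y * a⁻¹) * a⁻¹⁻¹ = y := by group
    rwa [h2] at this)
  rcases h1 with h1 | h1
  · rw [← mem_bot, ← h1]
    exact ⟨hv, mem_centralizer_iff.mpr fun a ha => h a ha⟩
  · exfalso
    have h2 : IsPGroup p A := by
      refine quad hV hA.f le_rfl hA.nV ?_
      intro v hv x hx
      have h3 : ⁅v, x⁆ ∈ ⁅V, A⁆ ⊓ centralizer (A : Set G) := by
        rw [h1]; exact commutator_mem_commutator hv hx
      exact mem_centralizer_iff.mp h3.2 x hx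
    have h3 := hA.op A le_rfl le_normalizer h2
    have h4 := hA.two
    rw [h3, card_bot] at h4
    omega

theorem Fac.inv (A V : Subgroup G) : A ≤ normalizer ((⁅V, A⁆ : Subgroup G) : Set G) :=
  normalizer_commutator_ge_right V A

theorem Fac.comm (hA : Fac p V A) (hV : Cfsg.IsElementaryAbelian p V) : ⁅⁅V, A⁆, A⁆ = ⁅V, A⁆ := by
  have h0 : ⁅⁅V, A⁆, A⁆ ≤ ⁅V, A⁆ := le_V (Fac.inv A V)
  rcases hA.irr ⁅⁅V, A⁆, A⁆ h0 (Fac.inv A _) with h1 | h1
  · exfalso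
    have h2 : IsPGroup p A := by
      refine quad hV hA.f le_rfl hA.nV ?_
      intro v hv x hx
      have h3 := commutator_mem_commutator (commutator_mem_commutator hv hx) hx
      rw [h1, mem_bot, commutatorElement_eq_one_iff_mul_comm] at h3
      exact h3.symm
    have h3 := hA.op A le_rfl le_normalizer h2
    have h4 := hA.two
    rw [h3, card_bot] at h4
    omega
  · exact h1

/-- the conclusion from mutual normalization -/
theorem concl (hV : Cfsg.IsElementaryAbelian p V) (hA : Fac p V A) (hB : Fac p V B)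
    (hf : (A ⊔ B) ⊓ centralizer (V : Set G) = ⊥) (h12 : ¬ ⁅V, A⁆ ≤ ⁅V, B⁆)
    (hBA : B ≤ normalizer ((⁅V, A⁆ : Subgroup G) : Set G)) (hAB : A ≤ normalizer ((⁅V, B⁆ : Subgroup G) : Set G)) :
    ⁅A, B⁆ = ⊥ ∧ A ⊓ B = ⊥ ∧ ⁅V, A⁆ ⊓ ⁅V, B⁆ = ⊥ ∧ (∀ a ∈ A, ∀ v ∈ ⁅V, B⁆, Commute a v) := by
  have h1 : ⁅V, A⁆ ⊓ ⁅V, B⁆ = ⊥ := by
    rcases hA.irr (⁅V, A⁆ ⊓ ⁅V, B⁆) inf_le_left (by
      refine le_trans (le_inf (Fac.inv A V) hAB) (inf_normalizer_le_normalizer_inf)) with h | h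
    · exact h
    · exact absurd (inf_eq_left.mp h) h12
  have h2 : ⁅⁅V, A⁆, B⁆ = ⊥ := by
    rw [eq_bot_iff, ← h1]
    exact le_inf (le_V hBA) (commutator_mono (le_V hA.nV) le_rfl)
  have h3 : ⁅⁅V, B⁆, A⁆ = ⊥ := by
    rw [eq_bot_iff, ← h1]
    exact le_inf (commutator_mono (le_V hB.nV) le_rfl) (le_V hAB)
  have h4 : ⁅⁅A, B⁆, V⁆ = ⊥ := by
    apply commutator_commutator_eq_bot_of_rotate
    · rw [commutator_comm B V]; exact h3
    · exact h2
  refine ⟨?_, ?_, h1, ?_⟩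
  · rw [eq_bot_iff, ← hf]
    refine le_inf ?_ (commutator_eq_bot_iff_le_centralizer.mp h4)
    rw [commutator_le]
    intro a ha b hb
    have ha' : a ∈ A ⊔ B := mem_sup_left ha
    have hb' : b ∈ A ⊔ B := mem_sup_right hb
    rw [commutatorElement_def]
    exact mul_mem (mul_mem (mul_mem ha' hb') (inv_mem ha')) (inv_mem hb')
  · rw [eq_bot_iff, ← hf]
    refine le_inf (inf_le_left.trans le_sup_left) ?_
    rw [← commutator_eq_bot_iff_le_centralizer, commutator_comm, eq_bot_iff, ← h1]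
    exact le_inf (commutator_mono le_rfl inf_le_left) (commutator_mono le_rfl inf_le_right)
  · intro a ha v hv
    have h5 := commutator_mem_commutator hv ha
    rw [h3, mem_bot, commutatorElement_eq_one_iff_mul_comm] at h5
    exact h5.symm

/-- the main argument -/
theorem step (hV : Cfsg.IsElementaryAbelian p V) (hA : Fac p V A) (hB : Fac p V B)
    (h12 : ¬ ⁅V, A⁆ ≤ ⁅V, B⁆)
    (iA : ∀ g ∈ B, g ∉ normalizer ((⁅V, A⁆ : Subgroup G) : Set G) → ∀ a ∈ A, ∀ v ∈ ⁅V, A⁆, Commute a (g * v * g⁻¹))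
    (iB : ∀ e ∈ A, e ∉ normalizer ((⁅V, B⁆ : Subgroup G) : Set G) → ∀ b ∈ B, ∀ v ∈ ⁅V, B⁆, Commute b (e * v * e⁻¹)) :
    B ≤ normalizer ((⁅V, A⁆ : Subgroup G) : Set G) := by
  by_contra hcon
  obtain ⟨g, hg, hgM⟩ := SetLike.not_le_iff_exists.mp hcon
  set V₁ := ⁅V, A⁆ with hV1
  set V₂ := ⁅V, B⁆ with hV2
  set M := normalizer (V₁ : Set G) with hM
  have hV1V : V₁ ≤ V := le_V hA.nV
  have hV2V : V₂ ≤ V := le_V hB.nV
  have hinv : ∀ a ∈ A, ∀ v ∈ V₁, a * v * a⁻¹ ∈ V₁ := fun a ha v hv => conj_mem (Fac.inv A V ha) hv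
  have hinv2 : ∀ b ∈ B, ∀ v ∈ V₂, b * v * b⁻¹ ∈ V₂ := fun a ha v hv => conj_mem (Fac.inv B V ha) hv
  -- `w = [v, g]`
  have hw : ∀ v ∈ V₁, v * (g * v⁻¹ * g⁻¹) ∈ V₂ := by
    intro v hv
    have h1 : v * (g * v⁻¹ * g⁻¹) = ⁅v, g⁆ := by rw [commutatorElement_def]; group
    rw [h1]; exact commutator_mem_commutator (hV1V hv) hg
  -- `A` does not normalize `V₂`
  have h1 : ¬ A ≤ normalizer (V₂ : Set G) := by
    intro hAV
    apply h12
    rw [hV1, ← hA.comm hV, ← hV1, commutator_le]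
    intro v hv a ha
    have hw1 := hw v hv
    have hw2 := conj_mem (hAV ha) hw1
    have h2 := (iA g hg hgM a ha v⁻¹ (inv_mem hv)).eq
    have h3 : ⁅v, a⁆ = (v * (g * v⁻¹ * g⁻¹)) * (a * (v * (g * v⁻¹ * g⁻¹)) * a⁻¹)⁻¹ := by
      have h4 : a * (v * (g * v⁻¹ * g⁻¹)) * a⁻¹ = a * v * a⁻¹ * (g * v⁻¹ * g⁻¹) := by
        have : a * (v * (g * v⁻¹ * g⁻¹)) * a⁻¹ = a * v * a⁻¹ * (a * (g * v⁻¹ * g⁻¹)) * a⁻¹ := by group
        rw [this, h2]; group
      rw [h4, commutatorElement_def]; group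
    rw [h3]
    exact mul_mem hw1 (inv_mem hw2)
  obtain ⟨e, he, heM⟩ := SetLike.not_le_iff_exists.mp h1
  -- main equation
  have hmain : ∀ v ∈ V₁, ∀ h ∈ B, Commute h (e * v * e⁻¹ * (g * v⁻¹ * g⁻¹)) := by
    intro v hv h hh
    have h2 := iB e he heM h hh _ (hw v hv)
    have h3 := (iA g hg hgM e he v⁻¹ (inv_mem hv)).eq
    have h4 : e * (v * (g * v⁻¹ * g⁻¹)) * e⁻¹ = e * v * e⁻¹ * (g * v⁻¹ * g⁻¹) := by
      have : e * (v * (g * v⁻¹ * g⁻¹)) * e⁻¹ = e * v * e⁻¹ * (e * (g * v⁻¹ * g⁻¹)) * e⁻¹ := by group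
      rw [this, h3]; group
    rwa [h4] at h2
  have hne : ∃ v ∈ V₁, v ≠ 1 := by
    by_contra hc
    push Not at hc
    apply h12
    intro v hv
    rw [hc v hv]; exact one_mem _
  -- the orbit has length two
  have h2 : ∀ h ∈ B, h ∈ M ∨ g⁻¹ * h ∈ M := by
    intro h hh
    by_contra hc
    push Not at hc
    obtain ⟨v, hv, hv1⟩ := hne
    have k1 : h⁻¹ ∉ M := fun hx => hc.1 (by simpa using inv_mem hx)
    have k2 : h⁻¹ * g ∉ M := fun hx => hc.2 (by simpa using inv_mem hx)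
    have hx : e * v * e⁻¹ ∈ V₁ := hinv e he v hv
    have h3 : e * v * e⁻¹ = 1 := by
      apply hA.fix hV hx
      intro a ha
      have c1 := iA h⁻¹ (inv_mem hh) k1 a ha _ hx
      have c2 := iA (h⁻¹ * g) (mul_mem (inv_mem hh) hg) k2 a ha _ (inv_mem hv)
      have c3 := (iA g hg hgM a ha _ (inv_mem hv)).inv_right
      have c4 := (c1.mul_right c2).mul_right c3
      have h5 := (hmain v hv h hh).eq
      have h6 : h⁻¹ * (e * v * e⁻¹) * h⁻¹⁻¹ * (h⁻¹ * g * v⁻¹ * (h⁻¹ * g)⁻¹) * (g * v⁻¹ * g⁻¹)⁻¹ = e * v * e⁻¹ := by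
        have h7 : h⁻¹ * (e * v * e⁻¹) * h⁻¹⁻¹ * (h⁻¹ * g * v⁻¹ * (h⁻¹ * g)⁻¹) * (g * v⁻¹ * g⁻¹)⁻¹ =
          h⁻¹ * ((e * v * e⁻¹ * (g * v⁻¹ * g⁻¹)) * h) * (g * v⁻¹ * g⁻¹)⁻¹ := by group
        rw [h7, ← h5]; group
      rwa [h6] at c4
    apply hv1
    have : v = e⁻¹ * (e * v * e⁻¹) * e := by group
    rw [this, h3]; group
  have h3 : ∀ h ∈ B, h ∈ M → ∀ v ∈ V₁, Commute h v := by
    intro h hh hhM
    have key : ∀ v ∈ V₁, Commute h (e * v * e⁻¹) := by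
      intro v hv
      have hx : e * v * e⁻¹ ∈ V₁ := hinv e he v hv
      have k2 : h * g ∉ M := fun hx => hgM (by simpa using mul_mem (inv_mem hhM) hx)
      have h4 : (e * v * e⁻¹)⁻¹ * (h * (e * v * e⁻¹) * h⁻¹) = 1 := by
        apply hA.fix hV (mul_mem (inv_mem hx) (conj_mem hhM hx))
        intro a ha
        have c1 := iA g hg hgM a ha _ (inv_mem hv)
        have c2 := (iA (h * g) (mul_mem hh hg) k2 a ha _ (inv_mem hv)).inv_right
        have c3 := c1.mul_right c2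
        have h5 := (hmain v hv h hh).eq
        have h6 : g * v⁻¹ * g⁻¹ * (h * g * v⁻¹ * (h * g)⁻¹)⁻¹ = (e * v * e⁻¹)⁻¹ * (h * (e * v * e⁻¹) * h⁻¹) := by
          have h7 : g * v⁻¹ * g⁻¹ * (h * g * v⁻¹ * (h * g)⁻¹)⁻¹ =
            (e * v * e⁻¹)⁻¹ * ((e * v * e⁻¹ * (g * v⁻¹ * g⁻¹)) * h) * (g * v⁻¹ * g⁻¹)⁻¹ * h⁻¹ := by group
          rw [h7, ← h5]; group
        rwa [h6] at c3
      have h5 : h * (e * v * e⁻¹) * h⁻¹ = e * v * e⁻¹ := (inv_mul_eq_one.mp h4).symm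
      change h * (e * v * e⁻¹) = (e * v * e⁻¹) * h
      nth_rw 2 [← h5]; group
    intro v hv
    have h4 := key (e⁻¹ * v * e) (conj_mem' (Fac.inv A V he) hv)
    have h5 : e * (e⁻¹ * v * e) * e⁻¹ = v := by group
    rwa [h5] at h4
  -- `N = B ∩ M` is normal in `B`
  have h4 : ∀ h ∈ B, ∀ n ∈ B ⊓ M, h * n * h⁻¹ ∈ B ⊓ M := by
    intro h hh n hn
    have hk : h * n * h⁻¹ ∈ B := mul_mem (mul_mem hh hn.1) (inv_mem hh)
    refine ⟨hk, ?_⟩
    rcases h2 _ hk with h5 | h5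
    · exact h5
    · rcases h2 h hh with h6 | h6
      · exact M.mul_mem (M.mul_mem h6 hn.2) (M.inv_mem h6)
      · exfalso
        have h7 : n * h⁻¹ ∈ M := by
          have := M.mul_mem (M.inv_mem h6) h5
          have h8 : (g⁻¹ * h)⁻¹ * (g⁻¹ * (h * n * h⁻¹)) = n * h⁻¹ := by group
          rwa [h8] at this
        have h8 : h⁻¹ ∈ M := by
          have := M.mul_mem (M.inv_mem hn.2) h7
          rwa [inv_mul_cancel_left] at this
        have h9 : g ∈ M := by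
          have := M.mul_mem (M.inv_mem h8) (M.inv_mem h6)
          have h10 : h⁻¹⁻¹ * (g⁻¹ * h)⁻¹ = g := by group
          rwa [h10] at this
        exact hgM h9
  have h4' : B ≤ normalizer ((B ⊓ M : Subgroup G) : Set G) := by
    intro h hh
    rw [mem_normalizer_iff]
    intro y
    refine ⟨h4 h hh y, fun hy => ?_⟩
    have := h4 h⁻¹ (inv_mem hh) _ hy
    have h5 : h⁻¹ * (h * y * h⁻¹) * h⁻¹⁻¹ = y := by group
    rwa [h5] at this
  -- `N` centralizes `V₂`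
  have h5 : V₂ ⊓ centralizer ((B ⊓ M : Subgroup G) : Set G) = V₂ := by
    rcases hB.irr (V₂ ⊓ centralizer ((B ⊓ M : Subgroup G) : Set G)) inf_le_left (by
      refine le_trans (le_inf (Fac.inv B V) ?_) (inf_normalizer_le_normalizer_inf)
      exact h4'.trans (OffenderBasic.normalizer_le_normalizer_centralizer _)) with h | h
    · exfalso
      obtain ⟨v, hv, hv1⟩ := hne
      have h6 : v * (g * v⁻¹ * g⁻¹) ∈ V₂ ⊓ centralizer ((B ⊓ M : Subgroup G) : Set G) := by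
        refine ⟨hw v hv, mem_centralizer_iff.mpr ?_⟩
        intro n hn
        have c1 := h3 n hn.1 hn.2 v hv
        have hn' := h4 g⁻¹ (inv_mem hg) n hn
        have c2 := (h3 _ hn'.1 hn'.2 v⁻¹ (inv_mem hv)).eq
        have c3 : Commute n (g * v⁻¹ * g⁻¹) := by
          change n * (g * v⁻¹ * g⁻¹) = (g * v⁻¹ * g⁻¹) * n
          have e1 : n * (g * v⁻¹ * g⁻¹) = g * (g⁻¹ * n * g⁻¹⁻¹ * v⁻¹) * g⁻¹ := by group
          rw [e1, c2]; group
        exact (c1.mul_right c3).eq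
      rw [h, mem_bot] at h6
      apply hv1
      apply hA.fix hV hv
      intro a ha
      have h7 := (iA g hg hgM a ha _ (inv_mem hv)).inv_right
      have h8 : (g * v⁻¹ * g⁻¹)⁻¹ = v := (mul_eq_one_iff_eq_inv.mp h6).symm
      rwa [h8] at h7
    · exact h
  -- hence `N = 1`
  have h6 : B ⊓ M = ⊥ := by
    apply hB.op _ inf_le_left h4'
    refine quad hV hB.f inf_le_left hB.nV ?_
    intro v hv x hx
    have h7 : ⁅v, x⁆ ∈ V₂ := commutator_mem_commutator hv hx.1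
    rw [← h5] at h7
    exact mem_centralizer_iff.mp h7.2 x hx
  -- and `|B| ≤ 2`
  have h7 : ∀ h ∈ B, h = 1 ∨ h = g := by
    intro h hh
    rcases h2 h hh with h8 | h8
    · left
      rw [← mem_bot, ← h6]; exact ⟨hh, h8⟩
    · right
      have h9 : g⁻¹ * h ∈ B ⊓ M := ⟨B.mul_mem (B.inv_mem hg) hh, h8⟩
      rw [h6, mem_bot, inv_mul_eq_one] at h9
      exact h9.symm
  have h8 : Nat.card B ≤ 2 := by
    have h9 : (B : Set G) ⊆ {1, g} := by
      intro h hh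
      rcases h7 h hh with h | h
      · exact Or.inl h
      · exact Or.inr h
    have h10 := Set.ncard_le_ncard h9 (Set.toFinite _)
    have h11 : ({1, g} : Set G).ncard ≤ 2 := by
      have := Set.ncard_insert_le (1 : G) {g}
      rwa [Set.ncard_singleton] at this
    exact h10.trans h11
  have := hB.two
  omega

theorem cj_mono {x : G} {U W : Subgroup G} (h : U ≤ W) : cj x U ≤ cj x W := map_mono h

theorem cj_normalizer {x : G} {U W : Subgroup G} (h : U ≤ normalizer (W : Set G)) :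
    cj x U ≤ normalizer ((cj x W : Subgroup G) : Set G) :=
  (map_mono h).trans (W.le_normalizer_map _)

theorem cj_le_iff {x : G} {U W : Subgroup G} : cj x U ≤ W ↔ U ≤ cj x⁻¹ W := by
  constructor
  · intro h
    have := cj_mono (x := x⁻¹) h
    rwa [cj_inv_cj] at this
  · intro h
    have := cj_mono (x := x) h
    rwa [cj_cj_inv] at this

theorem le_cj_iff {x : G} {U W : Subgroup G} : U ≤ cj x W ↔ cj x⁻¹ U ≤ W := by
  constructor
  · intro h
    have := cj_mono (x := x⁻¹) h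
    rwa [cj_inv_cj] at this
  · intro h
    have := cj_mono (x := x) h
    rwa [cj_cj_inv] at this

theorem card_cj (x : G) (U : Subgroup G) : Nat.card (cj x U) = Nat.card U :=
  card_map_of_injective (MulAut.conj x).injective

theorem cj_eq_bot {x : G} {U : Subgroup G} (h : cj x U = ⊥) : U = ⊥ := by
  rw [← card_eq_one, ← card_cj x, h, card_bot]

theorem Fac.cj {g : G} (hA : Fac p V A) (hg : KS9Act.cj g V = V) : Fac p V (KS9Act.cj g A) := by
  refine ⟨?_, ?_, ?_, ?_, ?_⟩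
  · have := cj_normalizer (x := g) hA.nV
    rwa [hg] at this
  · have h1 : KS9Act.cj g A ⊓ centralizer (V : Set G) = KS9Act.cj g (A ⊓ centralizer (V : Set G)) := by
      conv_lhs => rw [← hg, ← map_centralizer_cj]
      exact (map_inf_eq _ _ _ (MulAut.conj g).injective).symm
    rw [h1, hA.f]; exact map_bot _
  · intro N hN hn hNp
    have h1 := hA.op (KS9Act.cj g⁻¹ N) (by rw [cj_le_iff, inv_inv]; exact hN) (by
      have := cj_normalizer (x := g⁻¹) hn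
      rwa [cj_inv_cj] at this) (hNp.map _)
    exact cj_eq_bot h1
  · intro U hU hn
    have hV' : KS9Act.cj g ⁅V, A⁆ = ⁅V, KS9Act.cj g A⁆ := by rw [cj_commutator, hg]
    rw [← hV'] at hU
    have h1 := hA.irr (KS9Act.cj g⁻¹ U) (by rw [cj_le_iff, inv_inv]; exact hU) (by
      have := cj_normalizer (x := g⁻¹) hn
      rwa [cj_inv_cj] at this)
    rcases h1 with h1 | h1
    · left; exact cj_eq_bot h1
    · right
      rw [← hV', ← h1, cj_cj_inv]
  · rw [card_cj]; exact hA.two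

theorem main (hV : Cfsg.IsElementaryAbelian p V) (n : ℕ) : ∀ A B : Subgroup G, Nat.card ↥(A ⊔ B) < n →
    Fac p V A → Fac p V B → (A.subgroupOf (A ⊔ B)).IsSubnormal → (B.subgroupOf (A ⊔ B)).IsSubnormal →
    (A ⊔ B) ⊓ centralizer (V : Set G) = ⊥ → ¬ ⁅V, A⁆ ≤ ⁅V, B⁆ → ¬ ⁅V, B⁆ ≤ ⁅V, A⁆ →
    B ≤ normalizer ((⁅V, A⁆ : Subgroup G) : Set G) ∧ A ≤ normalizer ((⁅V, B⁆ : Subgroup G) : Set G) := by
  induction n with
  | zero => intro A B h; omega
  | succ n ih =>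
    -- information on conjugates
    have info : ∀ A B : Subgroup G, Nat.card ↥(A ⊔ B) < n + 1 →
        Fac p V A → Fac p V B → (A.subgroupOf (A ⊔ B)).IsSubnormal →
        (A ⊔ B) ⊓ centralizer (V : Set G) = ⊥ → ¬ ⁅V, B⁆ ≤ ⁅V, A⁆ →
        ∀ g ∈ B, g ∉ normalizer ((⁅V, A⁆ : Subgroup G) : Set G) → ∀ a ∈ A, ∀ v ∈ ⁅V, A⁆, Commute a (g * v * g⁻¹) := by
      intro A B hn hA hB hsA hf h21 g hg hgM a ha v hv
      have hgV : cj g V = V := cj_eq_iff.mpr (hB.nV hg)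
      rcases hsA.lt_normal with h1 | ⟨K, hK, hAK, hKt⟩
      · exfalso
        apply h21
        have : B ≤ A := by
          rw [subgroupOf_eq_top] at h1
          exact le_sup_right.trans h1
        exact commutator_mono le_rfl this
      · have hgE : g ∈ A ⊔ B := mem_sup_right hg
        have hM1 : A ≤ K.map (A ⊔ B).subtype := by
          intro x hx
          exact ⟨⟨x, mem_sup_left hx⟩, hAK hx, rfl⟩
        have hM2 : cj g A ≤ K.map (A ⊔ B).subtype := by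
          rintro _ ⟨x, hx, rfl⟩
          exact ⟨_, hK.conj_mem ⟨x, mem_sup_left hx⟩ (hAK hx) ⟨g, hgE⟩, rfl⟩
        have hM3 : K.map (A ⊔ B).subtype < A ⊔ B := by
          refine lt_of_le_of_ne (map_subtype_le K) fun h => hKt.ne ?_
          rw [eq_top_iff]
          rintro ⟨x, hx⟩ -
          rw [← h] at hx
          obtain ⟨y, hy, hyx⟩ := hx
          have : y = ⟨x, by rw [← h]; exact ⟨y, hy, hyx⟩⟩ := Subtype.ext hyx
          rw [← this]; exact hy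
        have hle : A ⊔ cj g A ≤ A ⊔ B := (sup_le hM1 hM2).trans hM3.le
        have hcard : Nat.card ↥(A ⊔ cj g A) < n := by
          have h2 : A ⊔ cj g A < A ⊔ B := lt_of_le_of_lt (sup_le hM1 hM2) hM3
          have h3 : Nat.card ↥(A ⊔ cj g A) < Nat.card ↥(A ⊔ B) := Set.ncard_lt_ncard (SetLike.coe_ssubset_coe.mpr h2)
          omega
        have hcj : cj g ⁅V, A⁆ = ⁅V, cj g A⁆ := by rw [cj_commutator, hgV]
        have hne : ∀ U W : Subgroup G, Nat.card U = Nat.card W → U ≤ W → U = W := fun U W h1 h2 =>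
          eq_of_le_of_card_ge h2 h1.ge
        have hs2 : ((cj g A).subgroupOf (A ⊔ B)).IsSubnormal := by
          have h2 := hsA.map (f := (MulAut.conj (⟨g, hgE⟩ : ↥(A ⊔ B))).toMonoidHom) (MulAut.conj _).surjective
          have h3 : (cj g A).subgroupOf (A ⊔ B) =
              (A.subgroupOf (A ⊔ B)).map (MulAut.conj (⟨g, hgE⟩ : ↥(A ⊔ B))).toMonoidHom := by
            ext ⟨x, hx⟩
            constructor
            · rintro ⟨y, hy, hyx⟩
              exact ⟨⟨y, mem_sup_left hy⟩, hy, Subtype.ext hyx⟩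
            · rintro ⟨y, hy, hyx⟩
              exact ⟨y, hy, congrArg Subtype.val hyx⟩
          rwa [h3]
        have h12' : ¬ ⁅V, A⁆ ≤ ⁅V, cj g A⁆ := by
          intro h
          rw [← hcj] at h
          have := hne _ _ (card_cj g _).symm h
          exact hgM (cj_eq_iff.mp this.symm)
        have h21' : ¬ ⁅V, cj g A⁆ ≤ ⁅V, A⁆ := by
          intro h
          rw [← hcj] at h
          have := hne _ _ (card_cj g _) h
          exact hgM (cj_eq_iff.mp this)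
        have hf' : (A ⊔ cj g A) ⊓ centralizer (V : Set G) = ⊥ := by
          rw [eq_bot_iff, ← hf]
          exact inf_le_inf_right _ hle
        obtain ⟨k1, k2⟩ := ih A (cj g A) hcard hA (hA.cj hgV) (Subnormal.isSubnormal_subgroupOf_of_le hle hsA)
          (Subnormal.isSubnormal_subgroupOf_of_le hle hs2) hf' h12' h21'
        obtain ⟨-, -, -, k3⟩ := concl hV hA (hA.cj hgV) hf' h12' k1 k2
        apply k3 a ha
        rw [← hcj]
        exact ⟨v, hv, rfl⟩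
    intro A B hn hA hB hsA hsB hf h12 h21
    have iA := info A B hn hA hB hsA hf h21
    have iB := info B A (by rw [sup_comm]; exact hn) hB hA (by rw [sup_comm]; exact hsB) (by rw [sup_comm]; exact hf) h12
    exact ⟨step hV hA hB h12 iA iB, step hV hB hA h21 iB iA⟩

theorem s0615 (V E E₁ E₂ : Subgroup G) (hV : Cfsg.IsElementaryAbelian p V) (hEV : E ≤ Subgroup.normalizer (V : Set G))
    (hf : E ⊓ Subgroup.centralizer (V : Set G) = ⊥) (hgen : E = E₁ ⊔ E₂) (hs₁ : (E₁.subgroupOf E).IsSubnormal)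
    (hs₂ : (E₂.subgroupOf E).IsSubnormal) (hOp : Cfsg.pCore p ↥E = ⊥)
    (hirr₁ : (∀ U : Subgroup G, U ≤ ⁅V, E₁⁆ → E₁ ≤ Subgroup.normalizer (U : Set G) → U = ⊥ ∨ U = ⁅V, E₁⁆))
    (hirr₂ : (∀ U : Subgroup G, U ≤ ⁅V, E₂⁆ → E₂ ≤ Subgroup.normalizer (U : Set G) → U = ⊥ ∨ U = ⁅V, E₂⁆))
    (h12 : ¬ ⁅V, E₁⁆ ≤ ⁅V, E₂⁆) (h21 : ¬ ⁅V, E₂⁆ ≤ ⁅V, E₁⁆) (hc₁ : 2 < Nat.card E₁) (hc₂ : 2 < Nat.card E₂) :
    ⁅E₁, E₂⁆ = ⊥ ∧ E₁ ⊓ E₂ = ⊥ ∧ ⁅V, E₁⁆ ⊓ ⁅V, E₂⁆ = ⊥ ∧ ⁅V, E⁆ = ⁅V, E₁⁆ ⊔ ⁅V, E₂⁆ := by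
  have hop : ∀ F ≤ E, (F.subgroupOf E).IsSubnormal → ∀ N ≤ F, F ≤ normalizer (N : Set G) → IsPGroup p N → N = ⊥ := by
    intro F hFE hF N hN hFN hNp
    set N' := (N.subgroupOf E).subgroupOf (F.subgroupOf E) with hN'
    have h1 : N'.Normal := by
      refine ⟨fun n hn g => ?_⟩
      exact (mem_normalizer_iff.mp (hFN g.2) _).mp hn
    have h2 : IsPGroup p N' := by
      refine hNp.of_injective (⟨⟨fun x => ⟨x.1.1, x.2⟩, rfl⟩, fun _ _ => rfl⟩ : N' →* N) ?_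
      intro x y h
      have : ((x : F.subgroupOf E) : E).1 = ((y : F.subgroupOf E) : E).1 := congrArg (Subtype.val : N → G) h
      exact Subtype.ext (Subtype.ext (Subtype.ext this))
    have h3 := Cores.map_pCore_le_of_isSubnormal p hF
    rw [hOp] at h3
    rw [eq_bot_iff]
    intro x hx
    have h4 : (⟨⟨x, hFE (hN hx)⟩, hN hx⟩ : F.subgroupOf E) ∈ Cfsg.pCore p (F.subgroupOf E) := Cores.le_pCore h1 h2 hx
    have h5 := h3 ⟨_, h4, rfl⟩
    rw [mem_bot] at h5 ⊢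
    exact congrArg Subtype.val h5
  subst hgen
  have hle1 : E₁ ≤ E₁ ⊔ E₂ := le_sup_left
  have hle2 : E₂ ≤ E₁ ⊔ E₂ := le_sup_right
  have hA : Fac p V E₁ := ⟨hle1.trans hEV, by rw [eq_bot_iff, ← hf]; exact inf_le_inf_right _ hle1,
    hop _ hle1 hs₁, hirr₁, hc₁⟩
  have hB : Fac p V E₂ := ⟨hle2.trans hEV, by rw [eq_bot_iff, ← hf]; exact inf_le_inf_right _ hle2,
    hop _ hle2 hs₂, hirr₂, hc₂⟩
  obtain ⟨k1, k2⟩ := main hV _ E₁ E₂ (Nat.lt_succ_self _) hA hB hs₁ hs₂ hf h12 h21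
  obtain ⟨c1, c2, c3, -⟩ := concl hV hA hB hf h12 k1 k2
  refine ⟨c1, c2, c3, le_antisymm ?_ (sup_le (commutator_mono le_rfl hle1) (commutator_mono le_rfl hle2))⟩
  -- `[V, E] ≤ [V, E₁][V, E₂]`
  set W := ⁅V, E₁⁆ ⊔ ⁅V, E₂⁆ with hW
  have hWV : W ≤ V := sup_le (le_V hA.nV) (le_V hB.nV)
  have hEW : E₁ ⊔ E₂ ≤ normalizer (W : Set G) :=
    sup_le ((le_inf (Fac.inv _ _) k2).trans (Subnormal.normalizer_inf_le_normalizer_sup _ _))
      ((le_inf k1 (Fac.inv _ _)).trans (Subnormal.normalizer_inf_le_normalizer_sup _ _))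
  rw [commutator_le]
  intro v hv x hx
  rw [sup_eq_closure] at hx
  induction hx using closure_induction generalizing v with
  | mem x hx =>
    rcases hx with hx | hx
    · exact (le_sup_left : _ ≤ W) (commutator_mem_commutator hv hx)
    · exact (le_sup_right : _ ≤ W) (commutator_mem_commutator hv hx)
  | one => rw [commutatorElement_one_right]; exact one_mem _
  | mul x y hx hy h1 h2 =>
    rw [← sup_eq_closure] at hx hy
    have h3 : ⁅v, x * y⁆ = ⁅v, x⁆ * (x * ⁅v, y⁆ * x⁻¹) := by simp only [commutatorElement_def]; group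
    rw [h3]
    exact mul_mem (h1 v hv) (conj_mem (hEW hx) (h2 v hv))
  | inv x hx h1 =>
    rw [← sup_eq_closure] at hx
    have h3 : ⁅v, x⁻¹⁆ = x⁻¹ * ⁅v, x⁆⁻¹ * x := by simp only [commutatorElement_def]; group
    rw [h3]
    exact conj_mem' (hEW hx) (inv_mem (h1 v hv))

end Cfsg.Agent.Lib.KS9Pair
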