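import Mathlib
import Cfsg.Agent.Lib.WielandtProd

/-!
Kegel--Wielandt: a product of two nilpotent groups is solvable. (helper10)
-/

set_option autoImplicit false
set_option linter.unusedSectionVars false
set_option linter.unusedVariables false

namespace Cfsg.Agent.Lib.KegelWielandt

open Subgroup Pointwise
open Cfsg.Agent.Lib.HallPi Cfsg.Agent.Lib.HallFactor Cfsg.Agent.Lib.NilpotentHall
open Cfsg.Agent.Lib.NilPieces Cfsg.Agent.Lib.Kegel Cfsg.Agent.Lib.ProdHall Cfsg.Agent.Lib.Products
open Cfsg.Agent.Lib.WielandtProd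
open Cfsg.Agent.Lib.LocBase (IsSyl)
open Cfsg.Agent.Lib.SubgroupTools (conj_smul_eq_map card_conj_smul
  conj_smul_mono conj_smul_le_iff mem_normalizer_iff_conj_smul conj_smul_of_mem_normalizer
  card_mul_relIndex_of_le)

universe u

theorem eq_sy_of_isSyl {G : Type u} [Group G] [Finite G] {p : ℕ} [hp : Fact p.Prime]
    {A P : Subgroup G} (hA : Group.IsNilpotent A) (hP : IsSyl p P A) : P = sy p A :=
  hP.eq_of_le (sy_pgroup p A) (sy_le p A) (le_sy hA hP.le hP.pgroup)

/-- factorisation data for the Sylow `p`-subgroups of the factors -/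
theorem permutes_sy {G : Type u} [Group G] [Finite G] {A B : Subgroup G}
    (hA : Group.IsNilpotent A) (hB : Group.IsNilpotent B)
    (hfac : ∀ g : G, ∃ a ∈ A, ∃ b ∈ B, g = a * b) (p : ℕ) [hp : Fact p.Prime] (x : G) :
    Permutes (sy p A) (MulAut.conj x • sy p B) ∧
      IsPGroup p (sy p A ⊔ MulAut.conj x • sy p B : Subgroup G) := by
  obtain ⟨P, Q, R, hP, hQ, hR, hPQ⟩ := exists_sylow_factor hfac p
  rw [eq_sy_of_isSyl hA hP, eq_sy_of_isSyl hB hQ] at hPQ
  have h1 := permutes_of_coe_eq hPQ
  obtain ⟨g, h2, h3, h4⟩ := permutes_conj_of_permutes hfac (sy_norm p A) (sy_norm p B) h1 1 x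
  rw [map_one, one_smul] at h2 h4
  refine ⟨h4, ?_⟩
  rw [h2, h3, ← Lib.SubgroupTools.conj_smul_sup]
  have h5 : sy p A ⊔ sy p B = R := by
    apply SetLike.coe_injective
    rw [h1.coe_sup, hPQ]
  rw [h5, conj_smul_eq_map]
  exact hR.pgroup.map _

theorem isSolvable_aux (n : ℕ) : ∀ (G : Type u) [Group G] [Finite G], Nat.card G = n →
    ∀ A B : Subgroup G, Group.IsNilpotent A → Group.IsNilpotent B →
    (∀ g : G, ∃ a ∈ A, ∃ b ∈ B, g = a * b) → Group.IsSolvable G := by
  induction n using Nat.strong_induction_on with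
  | _ n ih =>
    intro G _ _ hn A B hA hB hfac
    by_contra hns
    have hih : ∀ M : Subgroup G, M ≠ ⊤ →
        (∀ g ∈ M, ∃ a ∈ M ⊓ A, ∃ b ∈ M ⊓ B, g = a * b) → Group.IsSolvable M := by
      intro M hM hMf
      have hlt : Nat.card M < n := by
        rw [← hn]
        have h1 := Subgroup.card_mul_index M
        have h2 : M.index ≠ 1 := by rwa [ne_eq, index_eq_one]
        have h3 : M.index ≠ 0 := index_ne_zero_of_finite
        have h4 : 0 < Nat.card M := Nat.card_pos
        have h5 : 2 ≤ M.index := by omega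
        nlinarith
      exact ih _ hlt M rfl (A.subgroupOf M) (B.subgroupOf M) (isNilpotent_subgroupOf hA)
        (isNilpotent_subgroupOf hB) (subgroupOf_factor hMf)
    have hsolN : ∀ N : Subgroup G, N.Normal → N ≠ ⊥ → ¬ Group.IsSolvable N := by
      intro N hN hNb hNs
      apply hns
      have hlt : Nat.card (G ⧸ N) < n := by
        have h1 := Subgroup.card_mul_index N
        have h2 : 1 < Nat.card N := (Subgroup.one_lt_card_iff_ne_bot N).mpr hNb
        have h3 : Nat.card (G ⧸ N) = N.index := rfl
        have h4 : 0 < N.index := Nat.pos_of_ne_zero Subgroup.index_ne_zero_of_finite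
        rw [h3, ← hn]
        nlinarith
      have hQs : Group.IsSolvable (G ⧸ N) := by
        exact ih _ hlt (G ⧸ N) rfl (A.map (QuotientGroup.mk' N)) (B.map (QuotientGroup.mk' N))
          (isNilpotent_map _ hA) (isNilpotent_map _ hB)
          (map_factor hfac _ (QuotientGroup.mk'_surjective N))
      exact Group.isSolvable_of_ker_le_range N.subtype (QuotientGroup.mk' N)
        (by rw [QuotientGroup.ker_mk', Subgroup.range_subtype])
    have hAN : ∀ N : Subgroup G, N.Normal → N ≠ ⊥ → A ⊔ N = ⊤ := by
      intro N hN hNb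
      by_contra h
      apply hsolN N hN hNb
      refine Lib.SubgroupTools.isSolvable_of_le (le_sup_right : N ≤ A ⊔ N) (hih (A ⊔ N) h ?_)
      intro g hg
      obtain ⟨a, ha, b, hb, e⟩ := dedekind_left hfac (le_sup_left : A ≤ A ⊔ N) g hg
      exact ⟨a, mem_inf.mpr ⟨mem_sup_left ha, ha⟩, b, hb, e⟩
    have hBN : ∀ N : Subgroup G, N.Normal → N ≠ ⊥ → B ⊔ N = ⊤ := by
      intro N hN hNb
      by_contra h
      apply hsolN N hN hNb
      refine Lib.SubgroupTools.isSolvable_of_le (le_sup_right : N ≤ B ⊔ N) (hih (B ⊔ N) h ?_)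
      intro g hg
      obtain ⟨a, ha, b, hb, e⟩ := dedekind_right hfac (le_sup_left : B ≤ B ⊔ N) g hg
      exact ⟨a, ha, b, mem_inf.mpr ⟨mem_sup_left hb, hb⟩, e⟩
    by_cases hcop : (Nat.card A).Coprime (Nat.card B)
    · exact hns (isSolvable_of_coprime hA hB hcop hfac)
    obtain ⟨p, hp, hpA, hpB⟩ := Nat.Prime.not_coprime_iff_dvd.mp hcop
    have : Fact p.Prime := ⟨hp⟩
    have hAp := sy_ne_bot (r := p) hA hpA
    have hBp := sy_ne_bot (r := p) hB hpB
    obtain ⟨M, hM, hMt, hMle⟩ := kegel (A := sy p A) (B := sy p B)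
      (fun x => (permutes_sy hA hB hfac p x).1) (by
        intro x htop
        have h1 := (permutes_sy hA hB hfac p x).2
        rw [htop] at h1
        have h2 : Group.IsNilpotent (⊤ : Subgroup G) := h1.isNilpotent
        have h3 : Group.IsNilpotent G := Group.nilpotent_of_mulEquiv Subgroup.topEquiv
        exact hns inferInstance)
    -- normal subgroups containing one of the Sylow subgroups contain the other
    have hcont : ∀ {A B : Subgroup G}, Group.IsNilpotent A → Group.IsNilpotent B →
        ∀ M : Subgroup G, M.Normal → A ⊔ M = ⊤ → sy p A ≤ M → sy p B ≤ M := by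
      intro A B hA hB M hM hAM hle
      apply Lib.Supersolvable.le_of_isPGroup_of_coprime_index (sy_pgroup p B)
      rw [← relIndex_top_right, ← hAM, ← relIndex_eq_relIndex_sup' le_normalizer_of_normal]
      intro hd
      apply (isSyl_sy (r := p) hA).ndvd
      rw [← inf_relIndex_right M A] at hd
      rw [← relIndex_mul_relIndex (sy p A) (M ⊓ A) A (le_inf hle (sy_le p A)) inf_le_right]
      exact hd.mul_left _
    set X := normalClosure (sy p A : Set G) with hX
    have hXn : X.Normal := normalClosure_normal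
    set X' := normalClosure (sy p B : Set G) with hX'
    have hXn' : X'.Normal := normalClosure_normal
    have hAX : sy p A ≤ X := le_normalClosure
    have hBX' : sy p B ≤ X' := le_normalClosure
    have hXb : X ≠ ⊥ := fun h => hAp (le_bot_iff.mp (h ▸ hAX))
    have hXb' : X' ≠ ⊥ := fun h => hBp (le_bot_iff.mp (h ▸ hBX'))
    have hBX : sy p B ≤ X := hcont hA hB X hXn (hAN X hXn hXb) hAX
    have hAX' : sy p A ≤ X' := hcont hB hA X' hXn' (hBN X' hXn' hXb') hBX'
    have hXX' : X' = X := le_antisymm (normalClosure_le_normal hBX) (normalClosure_le_normal hAX')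
    have hXt : X ≠ ⊤ := by
      intro h
      have hMb : M ≠ ⊥ := by
        rintro rfl
        rcases hMle with h | h
        · exact hAp (le_bot_iff.mp h)
        · exact hBp (le_bot_iff.mp h)
      apply hMt
      rw [eq_top_iff, ← h]
      rcases hMle with h1 | h1
      · exact normalClosure_le_normal h1
      · exact normalClosure_le_normal (hcont hB hA M hM (hBN M hM hMb) h1)
    -- Kegel in `X`
    obtain ⟨Y, hY, hYt, hYle⟩ := kegel (A := (sy p A).subgroupOf X) (B := (sy p B).subgroupOf X)
      (by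
        intro x w hw y hy
        rw [Lib.SubgroupTools.mem_conj_smul] at hw
        have h1 := (permutes_sy hA hB hfac p (x : G)).1 (w : G)
          (Lib.SubgroupTools.mem_conj_smul.mpr hw) (y : G) hy
        obtain ⟨y', hy', w', hw', e⟩ := h1
        have hy'X : y' ∈ X := hAX hy'
        have hw'X : w' ∈ X := by
          rw [Lib.SubgroupTools.mem_conj_smul] at hw'
          have h2 := hXn.conj_mem _ (hBX hw') (x : G)
          have h3 : (x : G) * ((x : G)⁻¹ * w' * x) * (x : G)⁻¹ = w' := by group
          rwa [h3] at h2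
        refine ⟨⟨y', hy'X⟩, hy', ⟨w', hw'X⟩, ?_, Subtype.ext e⟩
        rw [Lib.SubgroupTools.mem_conj_smul] at hw' ⊢
        exact hw')
      (by
        intro x htop
        apply hsolN X hXn hXb
        have h1 := (permutes_sy hA hB hfac p (x : G)).2
        have h2 : X ≤ sy p A ⊔ MulAut.conj (x : G) • sy p B := by
          have h3 := congrArg (fun Z => Z.map X.subtype) htop
          rw [Subgroup.map_sup, Lib.SubgroupTools.conj_smul_map_subtype,
            map_subgroupOf_eq_of_le hAX, map_subgroupOf_eq_of_le hBX, ← MonoidHom.range_eq_map,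
            range_subtype] at h3
          exact h3.ge
        have h3 : IsPGroup p X := Lib.LocBase.isPGroup_mono h1 h2
        have h4 : Group.IsNilpotent X := h3.isNilpotent
        infer_instance)
    -- contradiction
    have hfin : ∀ {A : Subgroup G}, A ⊔ X = ⊤ → normalClosure (sy p A : Set G) = X →
        (sy p A).subgroupOf X ≤ Y → False := by
      intro A hAX hcl hle
      apply hYt
      rw [eq_top_iff]
      have hsyX : sy p A ≤ X := by rw [← hcl]; exact le_normalClosure
      have h1 : sy p A ≤ Y.map X.subtype := by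
        have := map_mono (f := X.subtype) hle
        rwa [map_subgroupOf_eq_of_le hsyX] at this
      have h2 : X ≤ Y.map X.subtype := by
        conv_lhs => rw [← hcl]
        rw [normalClosure, closure_le]
        intro z hz
        obtain ⟨y, hy, hyz⟩ := Group.mem_conjugatesOfSet_iff.mp hz
        obtain ⟨g, rfl⟩ := isConj_iff.mp hyz
        have hg : g ∈ X ⊔ A := by rw [sup_comm, hAX]; trivial
        obtain ⟨x, hx, a, ha, rfl⟩ := mem_sup_of_normal_left.mp hg
        have h3 : a * y * a⁻¹ ∈ sy p A := (mem_normalizer_iff.mp (sy_norm p A ha) y).mp hy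
        obtain ⟨w, hw, hwe⟩ := h1 h3
        refine ⟨⟨x, hx⟩ * w * ⟨x, hx⟩⁻¹, hY.conj_mem w hw _, ?_⟩
        rw [map_mul, map_mul, hwe]
        simp [mul_assoc]
      intro y _
      obtain ⟨w, hw, hwe⟩ := h2 y.2
      have : w = y := Subtype.ext hwe
      rw [← this]; exact hw
    rcases hYle with h | h
    · exact hfin (hAN X hXn hXb) rfl h
    · exact hfin (hBN X hXn hXb) hXX' h

/-- **Kegel--Wielandt** -/
theorem isSolvable {G : Type u} [Group G] [Finite G] {A B : Subgroup G}
    (hA : Group.IsNilpotent A) (hB : Group.IsNilpotent B)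
    (hfac : ∀ g : G, ∃ a ∈ A, ∃ b ∈ B, g = a * b) : Group.IsSolvable G :=
  isSolvable_aux _ G rfl A B hA hB hfac

end Cfsg.Agent.Lib.KegelWielandt
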