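import Mathlib
import Cfsg.Agent.Lib.L34eH87

set_option autoImplicit false

/-!
# Central extensions of `PSL_3(4)` by elementary abelian 2-groups, part 4 (helper87): `|Z| ≤ 4`.
-/

namespace Cfsg.Agent.Lib.L34H87

open Matrix MatrixGroups
open Cfsg.Agent.Lib.PSLAut

theorem comm_closure {G : Type*} [Group G] (S : Set G) (D : Subgroup G)
    (hD : ∀ d ∈ D, ∀ x ∈ Subgroup.closure S, x * d = d * x) (hS : ∀ x ∈ S, ∀ y ∈ S, x * y * x⁻¹ * y⁻¹ ∈ D) :
    ∀ x ∈ Subgroup.closure S, ∀ y ∈ Subgroup.closure S, x * y * x⁻¹ * y⁻¹ ∈ D := by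
  have step : ∀ y : G, (∀ x ∈ S, x * y * x⁻¹ * y⁻¹ ∈ D) → ∀ x ∈ Subgroup.closure S, x * y * x⁻¹ * y⁻¹ ∈ D := by
    intro y hy x hx
    induction hx using Subgroup.closure_induction with
    | mem x hx => exact hy x hx
    | one => simp
    | mul a b ha hb iha ihb =>
      have e : a * b * y * (a * b)⁻¹ * y⁻¹ = (a * (b * y * b⁻¹ * y⁻¹) * a⁻¹) * (a * y * a⁻¹ * y⁻¹) := by group
      rw [e, hD _ ihb a ha, mul_inv_cancel_right]
      exact D.mul_mem ihb iha
    | inv a ha iha =>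
      have e : a⁻¹ * y * a⁻¹⁻¹ * y⁻¹ = a⁻¹ * (a * y * a⁻¹ * y⁻¹)⁻¹ * a⁻¹⁻¹ := by group
      rw [e, hD _ (D.inv_mem iha) a⁻¹ (inv_mem ha), mul_inv_cancel_right]
      exact D.inv_mem iha
  have inv : ∀ x y : G, x * y * x⁻¹ * y⁻¹ ∈ D → y * x * y⁻¹ * x⁻¹ ∈ D := by
    intro x y h
    have e : y * x * y⁻¹ * x⁻¹ = (x * y * x⁻¹ * y⁻¹)⁻¹ := by group
    rw [e]; exact D.inv_mem h
  intro x hx y hy
  apply inv
  exact step x (fun s hs => inv _ _ (step s (fun r hr => hS r hr s hs) x hx)) y hy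

theorem card_sup_le {G : Type*} [Group G] [Finite G] (a : G) (K : Subgroup G) (ha : a ^ 2 = 1)
    (hc : ∀ x ∈ K, a * x = x * a) : Nat.card (Subgroup.zpowers a ⊔ K : Subgroup G) ≤ 2 * Nat.card K := by
  have h1 : K ≤ Subgroup.normalizer ((Subgroup.zpowers a : Subgroup G) : Set G) := by
    apply le_norm
    rintro u hu _ ⟨n, rfl⟩
    have h2 : Commute a u := hc u hu
    have h3 : Commute (a ^ n) u := h2.zpow_left n
    show u * a ^ n * u⁻¹ ∈ _
    rw [← h3.eq, mul_inv_cancel_right]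
    exact ⟨n, rfl⟩
  have h2 := SubgroupTools.card_sup_mul_card_inf h1
  have h3 : Nat.card (Subgroup.zpowers a) ≤ 2 := by
    rw [Nat.card_zpowers]
    exact Nat.le_of_dvd (by norm_num) (orderOf_dvd_of_pow_eq_one ha)
  have h4 : 0 < Nat.card (Subgroup.zpowers a ⊓ K : Subgroup G) := Nat.card_pos
  calc Nat.card (Subgroup.zpowers a ⊔ K : Subgroup G)
      ≤ Nat.card (Subgroup.zpowers a ⊔ K : Subgroup G) * Nat.card (Subgroup.zpowers a ⊓ K : Subgroup G) :=
        Nat.le_mul_of_pos_right _ h4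
    _ = Nat.card (Subgroup.zpowers a) * Nat.card K := h2
    _ ≤ 2 * Nat.card K := Nat.mul_le_mul_right _ h3

/-- transfer: in a perfect group, central involutions of a Sylow 2-subgroup lie in its derived subgroup. -/
theorem mem_of_perfect {X : Type*} [Group X] [Finite X] (hperf : commutator X = ⊤) (T : Sylow 2 X)
    (D : Subgroup X) (hD : ∀ x ∈ (T : Subgroup X), ∀ y ∈ (T : Subgroup X), x * y * x⁻¹ * y⁻¹ ∈ D)
    (z : X) (hzT : z ∈ (T : Subgroup X)) (hz : z ∈ Subgroup.center X) (hz2 : z ^ 2 = 1) : z ∈ D := by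
  have hp : Fact (Nat.Prime 2) := ⟨Nat.prime_two⟩
  have hcom : ∀ g : X, g * z = z * g := fun g => Subgroup.mem_center_iff.1 hz g
  let ϕ : (T : Subgroup X) →* Abelianization (T : Subgroup X) := Abelianization.of
  have h1 : ∀ x : X, ϕ.transfer x = 1 := by
    intro x
    have h2 : commutator X ≤ ϕ.transfer.ker := Abelianization.commutator_subset_ker _
    rw [hperf] at h2
    exact h2 trivial
  have key : ∀ (k : ℕ) (g₀ : X), g₀⁻¹ * z ^ k * g₀ ∈ (T : Subgroup X) → g₀⁻¹ * z ^ k * g₀ = z ^ k := by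
    intro k g₀ _
    have : Commute g₀ (z ^ k) := (show Commute g₀ z from hcom g₀).pow_right k
    rw [mul_assoc, ← this.eq, inv_mul_cancel_left]
  have h3 := MonoidHom.transfer_eq_pow ϕ z key
  rw [h1] at h3
  have hodd : (T : Subgroup X).index % 2 = 1 := by
    have := T.not_dvd_index
    omega
  have hzi : z ^ (T : Subgroup X).index = z := by
    rw [← Nat.div_add_mod (T : Subgroup X).index 2, hodd, pow_add, pow_mul, hz2, one_pow, one_mul, pow_one]
  have h4 : (⟨z, hzT⟩ : (T : Subgroup X)) ∈ commutator (T : Subgroup X) := by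
    have e : ϕ ⟨z, hzT⟩ = 1 := by
      rw [h3]
      congr 1
      exact Subtype.ext hzi.symm
    have h5 : (⟨z, hzT⟩ : (T : Subgroup X)) ∈ (Abelianization.of (G := (T : Subgroup X))).ker := e
    rwa [Abelianization.ker_of] at h5
  have h6 : commutator (T : Subgroup X) ≤ D.subgroupOf T := by
    rw [commutator_def, Subgroup.commutator_le]
    rintro ⟨x, hx⟩ _ ⟨y, hy⟩ _
    exact hD x hx y hy
  exact h6 h4

theorem exists_omega {F : Type*} [Field F] [Fintype F] (hF : Fintype.card F = 4) :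
    ∃ w : F, w ≠ 0 ∧ w ≠ 1 ∧ ∀ x : F, x = 0 ∨ x = 1 ∨ x = w ∨ x = 1 + w := by
  classical
  obtain ⟨w, hw⟩ : ∃ w : F, w ∉ ({0, 1} : Finset F) := by
    by_contra hcon
    push Not at hcon
    have h1 : (Finset.univ : Finset F) ⊆ {0, 1} := fun x _ => hcon x
    have h2 := Finset.card_le_card h1
    rw [Finset.card_univ, hF] at h2
    have h3 : ({0, 1} : Finset F).card ≤ 2 := Finset.card_le_two
    omega
  simp only [Finset.mem_insert, Finset.mem_singleton, not_or] at hw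
  refine ⟨w, hw.1, hw.2, ?_⟩
  have h2 := two_eq hF
  have h11 : (1 : F) + w ≠ 0 := by
    intro h
    apply hw.2
    have : w = (1 + w) + 1 - 2 := by ring
    rw [this, h, h2]; ring
  have h4 : ({0, 1, w, 1 + w} : Finset F).card = 4 := by
    rw [Finset.card_insert_of_notMem, Finset.card_insert_of_notMem, Finset.card_insert_of_notMem,
      Finset.card_singleton]
    · simp only [Finset.mem_singleton]
      intro h
      have : (1 : F) = 0 := by
        have h5 : w + 0 = w + 1 := by rw [add_zero, add_comm w 1]; exact h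
        exact (add_left_cancel h5).symm
      exact one_ne_zero this
    · simp only [Finset.mem_insert, Finset.mem_singleton, not_or]
      refine ⟨fun h => hw.2 h.symm, fun h => hw.1 ?_⟩
      have h5 : (1 : F) + 0 = 1 + w := by rw [add_zero]; exact h
      exact (add_left_cancel h5).symm
    · simp only [Finset.mem_insert, Finset.mem_singleton, not_or]
      exact ⟨zero_ne_one, fun h => hw.1 h.symm, fun h => h11 h.symm⟩
  have h5 : ({0, 1, w, 1 + w} : Finset F) = Finset.univ := by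
    apply Finset.eq_univ_of_card
    rw [h4, hF]
  intro x
  have h6 : x ∈ ({0, 1, w, 1 + w} : Finset F) := by rw [h5]; exact Finset.mem_univ x
  simpa only [Finset.mem_insert, Finset.mem_singleton] using h6

section bound

variable {F : Type*} [Field F] [Fintype F]

local notation "PL" => ProjectiveSpecialLinearGroup (Fin 3) F

theorem card_center_le (hF : Fintype.card F = 4) {X : Type*} [Group X] [Finite X] (hperf : commutator X = ⊤)
    (π : X →* PL) (hπ : Function.Surjective π) (hker : π.ker = Subgroup.center X)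
    (hZ : ∀ z ∈ Subgroup.center X, z ^ 2 = 1) (T : Sylow 2 X) (hT : (T : Subgroup X) = (UTb 3 F).comap π) :
    Nat.card (Subgroup.center X) ≤ 4 := by
  classical
  have hP := pair hF
  obtain ⟨w, hw0, hw1, hw⟩ := exists_omega hF
  set H := (EL (e0 : Fin 3 → F)).comap π with hH
  set K := (ER (e2 : Fin 3 → F)).comap π with hK
  have hHel := el_ab π hπ hker hZ hP
  have hKel := el_ab π hπ hker hZ hP.symm
  have hHc : ∀ a ∈ H, ∀ b ∈ H, a * b = b * a := fun a ha b hb =>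
    congrArg (fun z : H => (z : X)) (hHel.1.is_comm.comm ⟨a, ha⟩ ⟨b, hb⟩)
  have hKc : ∀ a ∈ K, ∀ b ∈ K, a * b = b * a := fun a ha b hb =>
    congrArg (fun z : K => (z : X)) (hKel.1.is_comm.comm ⟨a, ha⟩ ⟨b, hb⟩)
  obtain ⟨h1, hh1⟩ := hπ (QuotientGroup.mk (um 1 0 0))
  obtain ⟨h2, hh2⟩ := hπ (QuotientGroup.mk (um w 0 0))
  obtain ⟨k1, hk1⟩ := hπ (QuotientGroup.mk (um 0 0 1))
  obtain ⟨k2, hk2⟩ := hπ (QuotientGroup.mk (um 0 0 w))
  have hh1H : h1 ∈ H := by show π h1 ∈ EL (e0 : Fin 3 → F); rw [hh1]; exact mem_EL0.2 ⟨_, _, rfl⟩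
  have hh2H : h2 ∈ H := by show π h2 ∈ EL (e0 : Fin 3 → F); rw [hh2]; exact mem_EL0.2 ⟨_, _, rfl⟩
  have hk1K : k1 ∈ K := by show π k1 ∈ ER (e2 : Fin 3 → F); rw [hk1]; exact mem_ER2.2 ⟨_, _, rfl⟩
  have hk2K : k2 ∈ K := by show π k2 ∈ ER (e2 : Fin 3 → F); rw [hk2]; exact mem_ER2.2 ⟨_, _, rfl⟩
  have hHT : H ≤ (T : Subgroup X) := by
    rw [hT]; exact Subgroup.comap_mono (le_sup_left.trans hP.sup.le)
  have hKT : K ≤ (T : Subgroup X) := by
    rw [hT]; exact Subgroup.comap_mono (le_sup_right.trans hP.sup.le)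
  have hTH : ∀ t ∈ (T : Subgroup X), ∀ h ∈ H, t * h * t⁻¹ ∈ H := by
    intro t ht h hh
    show π (t * h * t⁻¹) ∈ EL (e0 : Fin 3 → F)
    rw [map_mul, map_mul, map_inv]
    exact (Subgroup.mem_normalizer_iff.1 (hP.nA (by rw [hT] at ht; exact ht)) _).1 hh
  have hTK : ∀ t ∈ (T : Subgroup X), ∀ h ∈ K, t * h * t⁻¹ ∈ K := by
    intro t ht h hh
    show π (t * h * t⁻¹) ∈ ER (e2 : Fin 3 → F)
    rw [map_mul, map_mul, map_inv]
    exact (Subgroup.mem_normalizer_iff.1 (hP.nB (by rw [hT] at ht; exact ht)) _).1 hh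
  have hcW : ∀ h ∈ H, ∀ k ∈ K, h * k * h⁻¹ * k⁻¹ ∈ H ⊓ K := by
    intro h hh k hk
    refine ⟨?_, K.mul_mem (hTK h (hHT hh) k hk) (K.inv_mem hk)⟩
    have e : h * k * h⁻¹ * k⁻¹ = h * (k * h⁻¹ * k⁻¹) := by group
    rw [e]
    exact H.mul_mem hh (hTH k (hKT hk) _ (H.inv_mem hh))
  set D := Subgroup.zpowers (h1 * k1 * h1⁻¹ * k1⁻¹) ⊔ (Subgroup.zpowers (h1 * k2 * h1⁻¹ * k2⁻¹) ⊔
    (Subgroup.zpowers (h2 * k1 * h2⁻¹ * k1⁻¹) ⊔ (Subgroup.zpowers (h2 * k2 * h2⁻¹ * k2⁻¹) ⊔ ⊥))) with hDdef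
  have c11 := hcW h1 hh1H k1 hk1K
  have c12 := hcW h1 hh1H k2 hk2K
  have c21 := hcW h2 hh2H k1 hk1K
  have c22 := hcW h2 hh2H k2 hk2K
  have hD4 : (Subgroup.zpowers (h2 * k2 * h2⁻¹ * k2⁻¹) ⊔ ⊥) ≤ H ⊓ K :=
    sup_le (by rw [Subgroup.zpowers_le]; exact c22) bot_le
  have hD3 : (Subgroup.zpowers (h2 * k1 * h2⁻¹ * k1⁻¹) ⊔ (Subgroup.zpowers (h2 * k2 * h2⁻¹ * k2⁻¹) ⊔ ⊥)) ≤ H ⊓ K :=
    sup_le (by rw [Subgroup.zpowers_le]; exact c21) hD4
  have hD2 : (Subgroup.zpowers (h1 * k2 * h1⁻¹ * k2⁻¹) ⊔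
    (Subgroup.zpowers (h2 * k1 * h2⁻¹ * k1⁻¹) ⊔ (Subgroup.zpowers (h2 * k2 * h2⁻¹ * k2⁻¹) ⊔ ⊥))) ≤ H ⊓ K :=
    sup_le (by rw [Subgroup.zpowers_le]; exact c12) hD3
  have hDW : D ≤ H ⊓ K := sup_le (by rw [Subgroup.zpowers_le]; exact c11) hD2
  have hcomW : ∀ a ∈ H ⊓ K, ∀ b ∈ H ⊓ K, a * b = b * a := fun a ha b hb => hHc a ha.1 b hb.1
  have hcard : Nat.card D ≤ 16 := by
    have i4 := card_sup_le (h2 * k2 * h2⁻¹ * k2⁻¹) ⊥ (hHel.2 _ c22.1) (fun x hx => by
      rw [Subgroup.mem_bot.1 hx, mul_one, one_mul])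
    have i3 := card_sup_le (h2 * k1 * h2⁻¹ * k1⁻¹) _ (hHel.2 _ c21.1) (fun x hx => hcomW _ c21 _ (hD4 hx))
    have i2 := card_sup_le (h1 * k2 * h1⁻¹ * k2⁻¹) _ (hHel.2 _ c12.1) (fun x hx => hcomW _ c12 _ (hD3 hx))
    have i1 := card_sup_le (h1 * k1 * h1⁻¹ * k1⁻¹) _ (hHel.2 _ c11.1) (fun x hx => hcomW _ c11 _ (hD2 hx))
    rw [Subgroup.card_bot] at i4
    rw [hDdef]
    omega
  -- generation of `T`
  let S : Set X := (H ⊓ K : Subgroup X) ∪ {h1, h2, k1, k2}
  have hWS : (H ⊓ K : Subgroup X) ≤ Subgroup.closure S := fun x hx => Subgroup.subset_closure (Or.inl hx)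
  have hs1 : h1 ∈ Subgroup.closure S := Subgroup.subset_closure (Or.inr (by simp))
  have hs2 : h2 ∈ Subgroup.closure S := Subgroup.subset_closure (Or.inr (by simp))
  have hs3 : k1 ∈ Subgroup.closure S := Subgroup.subset_closure (Or.inr (by simp))
  have hs4 : k2 ∈ Subgroup.closure S := Subgroup.subset_closure (Or.inr (by simp))
  have hSin : ∀ x y : X, y ∈ Subgroup.closure S → x * y⁻¹ ∈ H ⊓ K → x ∈ Subgroup.closure S := by
    intro x y hy hxy
    have := Subgroup.mul_mem _ (hWS hxy) hy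
    rwa [inv_mul_cancel_right] at this
  have hHS : H ≤ Subgroup.closure S := by
    intro x hx
    obtain ⟨a, b, hab⟩ := mem_EL0.1 (show π x ∈ EL (e0 : Fin 3 → F) from hx)
    have hgen : ∀ y ∈ Subgroup.closure S, y ∈ H → (∃ b', π y = QuotientGroup.mk (um a b' 0)) → x ∈ Subgroup.closure S := by
      rintro y hy hyH ⟨b', hyb⟩
      apply hSin x y hy
      refine ⟨H.mul_mem hx (H.inv_mem hyH), ?_⟩
      show π (x * y⁻¹) ∈ ER (e2 : Fin 3 → F)
      rw [map_mul, map_inv, hab, hyb]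
      have e : um a b 0 = um 0 (b - b') 0 * um a b' 0 := by rw [um_mul]; congr 1 <;> ring
      rw [e, QuotientGroup.mk_mul, mul_inv_cancel_right]
      exact mem_ER2.2 ⟨_, _, rfl⟩
    rcases hw a with h | h | h | h
    · exact hgen 1 (Subgroup.one_mem _) (Subgroup.one_mem _) ⟨0, by rw [map_one, h, um_zero]; rfl⟩
    · exact hgen h1 hs1 hh1H ⟨0, by rw [hh1, h]⟩
    · exact hgen h2 hs2 hh2H ⟨0, by rw [hh2, h]⟩
    · exact hgen (h1 * h2) (Subgroup.mul_mem _ hs1 hs2) (H.mul_mem hh1H hh2H) ⟨0, by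
        rw [map_mul, hh1, hh2, h, ← QuotientGroup.mk_mul, um_mul]; congr 2 <;> ring⟩
  have hKS : K ≤ Subgroup.closure S := by
    intro x hx
    obtain ⟨b, c, hab⟩ := mem_ER2.1 (show π x ∈ ER (e2 : Fin 3 → F) from hx)
    have hgen : ∀ y ∈ Subgroup.closure S, y ∈ K → (∃ b', π y = QuotientGroup.mk (um 0 b' c)) → x ∈ Subgroup.closure S := by
      rintro y hy hyH ⟨b', hyb⟩
      apply hSin x y hy
      refine ⟨?_, K.mul_mem hx (K.inv_mem hyH)⟩
      show π (x * y⁻¹) ∈ EL (e0 : Fin 3 → F)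
      rw [map_mul, map_inv, hab, hyb]
      have e : um 0 b c = um 0 (b - b') 0 * um 0 b' c := by rw [um_mul]; congr 1 <;> ring
      rw [e, QuotientGroup.mk_mul, mul_inv_cancel_right]
      exact mem_EL0.2 ⟨_, _, rfl⟩
    rcases hw c with h | h | h | h
    · exact hgen 1 (Subgroup.one_mem _) (Subgroup.one_mem _) ⟨0, by rw [map_one, h, um_zero]; rfl⟩
    · exact hgen k1 hs3 hk1K ⟨0, by rw [hk1, h]⟩
    · exact hgen k2 hs4 hk2K ⟨0, by rw [hk2, h]⟩
    · exact hgen (k1 * k2) (Subgroup.mul_mem _ hs3 hs4) (K.mul_mem hk1K hk2K) ⟨0, by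
        rw [map_mul, hk1, hk2, h, ← QuotientGroup.mk_mul, um_mul]; congr 2 <;> ring⟩
  have hST : Subgroup.closure S ≤ (T : Subgroup X) := by
    rw [Subgroup.closure_le]
    rintro x (hx | hx)
    · exact hHT hx.1
    · simp only [Set.mem_insert_iff, Set.mem_singleton_iff] at hx
      rcases hx with rfl | rfl | rfl | rfl
      · exact hHT hh1H
      · exact hHT hh2H
      · exact hKT hk1K
      · exact hKT hk2K
  have hTS : (T : Subgroup X) ≤ Subgroup.closure S := by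
    rw [hT, ← sup_comap π hπ hP]
    exact sup_le hHS hKS
  have hWc : ∀ d ∈ H ⊓ K, ∀ x ∈ (T : Subgroup X), x * d = d * x := by
    intro d hd x hx
    have h1' : (T : Subgroup X) ≤ Subgroup.centralizer ({d} : Set X) := by
      rw [hT, ← sup_comap π hπ hP]
      apply sup_le
      · intro a ha
        rw [Subgroup.mem_centralizer_singleton_iff]
        exact hHc a ha d hd.1
      · intro a ha
        rw [Subgroup.mem_centralizer_singleton_iff]
        exact hKc a ha d hd.2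
    exact Subgroup.mem_centralizer_singleton_iff.1 (h1' hx)
  have m11 : h1 * k1 * h1⁻¹ * k1⁻¹ ∈ D := Subgroup.mem_sup_left (Subgroup.mem_zpowers _)
  have m12 : h1 * k2 * h1⁻¹ * k2⁻¹ ∈ D := Subgroup.mem_sup_right (Subgroup.mem_sup_left (Subgroup.mem_zpowers _))
  have m21 : h2 * k1 * h2⁻¹ * k1⁻¹ ∈ D :=
    Subgroup.mem_sup_right (Subgroup.mem_sup_right (Subgroup.mem_sup_left (Subgroup.mem_zpowers _)))
  have m22 : h2 * k2 * h2⁻¹ * k2⁻¹ ∈ D :=
    Subgroup.mem_sup_right (Subgroup.mem_sup_right (Subgroup.mem_sup_right (Subgroup.mem_sup_left (Subgroup.mem_zpowers _))))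
  have hinv : ∀ x y : X, x * y * x⁻¹ * y⁻¹ ∈ D → y * x * y⁻¹ * x⁻¹ ∈ D := by
    intro x y h
    have e : y * x * y⁻¹ * x⁻¹ = (x * y * x⁻¹ * y⁻¹)⁻¹ := by group
    rw [e]; exact D.inv_mem h
  have hone : ∀ x y : X, x * y = y * x → x * y * x⁻¹ * y⁻¹ ∈ D := by
    intro x y h
    rw [h, mul_inv_cancel_right, mul_inv_cancel]; exact D.one_mem
  have hSS : ∀ x ∈ S, ∀ y ∈ S, x * y * x⁻¹ * y⁻¹ ∈ D := by
    rintro x (hx | hx) y hy
    · exact hone x y (hWc x hx y (hST (Subgroup.subset_closure hy))).symm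
    · rcases hy with hy | hy
      · exact hone x y (hWc y hy x (hST (Subgroup.subset_closure (Or.inr hx))))
      · simp only [Set.mem_insert_iff, Set.mem_singleton_iff] at hx hy
        rcases hx with rfl | rfl | rfl | rfl <;> rcases hy with rfl | rfl | rfl | rfl
        · exact hone _ _ rfl
        · exact hone _ _ (hHc _ hh1H _ hh2H)
        · exact m11
        · exact m12
        · exact hone _ _ (hHc _ hh2H _ hh1H)
        · exact hone _ _ rfl
        · exact m21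
        · exact m22
        · exact hinv _ _ m11
        · exact hinv _ _ m21
        · exact hone _ _ rfl
        · exact hone _ _ (hKc _ hk1K _ hk2K)
        · exact hinv _ _ m12
        · exact hinv _ _ m22
        · exact hone _ _ (hKc _ hk2K _ hk1K)
        · exact hone _ _ rfl
  have hDT := comm_closure S D (fun d hd x hx => hWc d (hDW hd) x (hST hx)) hSS
  have hZD : Subgroup.center X ≤ D := by
    intro z hz
    have hzT : z ∈ (T : Subgroup X) := by
      rw [hT]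
      show π z ∈ UTb 3 F
      have : z ∈ π.ker := by rw [hker]; exact hz
      rw [MonoidHom.mem_ker.1 this]; exact Subgroup.one_mem _
    exact mem_of_perfect hperf T D (fun x hx y hy => hDT x (hTS hx) y (hTS hy)) z hzT hz (hZ z hz)
  -- the image of `D`
  have hmap := SubgroupTools.card_map_mul_card_inf_ker π D
  have hinf : D ⊓ π.ker = Subgroup.center X := by rw [hker]; exact inf_of_le_right hZD
  rw [hinf] at hmap
  have him : ∀ b : F, (QuotientGroup.mk (um 0 b 0) : PL) ∈ D.map π := by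
    have i1 : (QuotientGroup.mk (um 0 1 0) : PL) ∈ D.map π := by
      refine ⟨_, m11, ?_⟩
      rw [map_mul, map_mul, map_mul, map_inv, map_inv, hh1, hk1]
      rw [mul_inv_eq_iff_eq_mul, mul_inv_eq_iff_eq_mul]
      rw [← QuotientGroup.mk_mul, ← QuotientGroup.mk_mul, ← QuotientGroup.mk_mul, um_mul, um_mul, um_mul]
      congr 2 <;> ring
    have i2 : (QuotientGroup.mk (um 0 w 0) : PL) ∈ D.map π := by
      refine ⟨_, m12, ?_⟩
      rw [map_mul, map_mul, map_mul, map_inv, map_inv, hh1, hk2]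
      rw [mul_inv_eq_iff_eq_mul, mul_inv_eq_iff_eq_mul]
      rw [← QuotientGroup.mk_mul, ← QuotientGroup.mk_mul, ← QuotientGroup.mk_mul, um_mul, um_mul, um_mul]
      congr 2 <;> ring
    intro b
    rcases hw b with h | h | h | h
    · rw [h, um_zero]; exact Subgroup.one_mem _
    · rw [h]; exact i1
    · rw [h]; exact i2
    · rw [h]
      have := Subgroup.mul_mem _ i1 i2
      rw [← QuotientGroup.mk_mul, um_mul] at this
      have e : um (0 + 0) (1 + w + 0 * 0) (0 + 0) = um (0 : F) (1 + w) 0 := by congr 1 <;> ring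
      rwa [e] at this
  have hge : 4 ≤ Nat.card (D.map π) := by
    let f : F → D.map π := fun b => ⟨_, him b⟩
    have hf : Function.Injective f := by
      intro b b' h
      exact (um_inj (congrArg Subtype.val h)).2.1
    have := Nat.card_le_card_of_injective f hf
    rwa [Nat.card_eq_fintype_card, hF] at this
  by_contra hcon
  push Not at hcon
  have : 4 * 5 ≤ Nat.card (D.map π) * Nat.card (Subgroup.center X) := Nat.mul_le_mul hge hcon
  omega

end bound

end Cfsg.Agent.Lib.L34H87
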