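import Mathlib
import Cfsg.Prelude.Def_CaseTheorems
import Cfsg.Agent.Lib.L34fH87

set_option autoImplicit false

/-!
# Central extensions of `PSL_3(4)` by elementary abelian 2-groups, part 5 (helper87): uniqueness of `2^2.L3(4)`.
-/

namespace Cfsg.Agent.Lib.L34H87

open Matrix MatrixGroups
open scoped commutatorElement
open Cfsg.Agent.Lib.PSLAut

section bound

variable {F : Type*} [Field F] [Fintype F]

local notation "PL" => ProjectiveSpecialLinearGroup (Fin 3) F

theorem card_center_le' (hF : Fintype.card F = 4) {X : Type*} [Group X] [Finite X] (hperf : commutator X = ⊤)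
    (e : (X ⧸ Subgroup.center X) ≃* PL) (hZ : ∀ z ∈ Subgroup.center X, z ^ 2 = 1) :
    Nat.card (Subgroup.center X) ≤ 4 := by
  have hp : Fact (Nat.Prime 2) := ⟨Nat.prime_two⟩
  have h1 : IsPGroup 2 (Subgroup.center X) := by
    rintro ⟨z, hz⟩
    exact ⟨1, Subtype.ext (by rw [pow_one]; exact hZ z hz)⟩
  obtain ⟨T, hT⟩ := h1.exists_le_sylow
  obtain ⟨e', he'⟩ := exists_std hF e T
  set π : X →* PL := e'.toMonoidHom.comp (QuotientGroup.mk' (Subgroup.center X)) with hπdef
  have hπ : Function.Surjective π := e'.surjective.comp (QuotientGroup.mk'_surjective _)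
  have hker : π.ker = Subgroup.center X := by
    ext x
    rw [MonoidHom.mem_ker]
    show e' (QuotientGroup.mk' (Subgroup.center X) x) = 1 ↔ _
    rw [EmbeddingLike.map_eq_one_iff, QuotientGroup.mk'_apply, QuotientGroup.eq_one_iff]
  refine card_center_le hF hperf π hπ hker hZ T ?_
  rw [← he', Subgroup.comap_map_eq, hker, sup_of_le_left hT]

/-- a perfect group is generated by nothing smaller modulo the centre. -/
theorem eq_top_of_sup_center {G : Type*} [Group G] (hperf : commutator G = ⊤) (M : Subgroup G)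
    (hM : M ⊔ Subgroup.center G = ⊤) : M = ⊤ := by
  have hMn : M.Normal := by
    refine ⟨fun n hn g => ?_⟩
    have hg : g ∈ M ⊔ Subgroup.center G := by rw [hM]; trivial
    obtain ⟨m, hm, z, hz, rfl⟩ := Subgroup.mem_sup_of_normal_right.1 hg
    have hc := Subgroup.mem_center_iff.1 hz n
    have e : m * z * n * (m * z)⁻¹ = m * n * m⁻¹ := by
      calc m * z * n * (m * z)⁻¹ = m * (z * n) * z⁻¹ * m⁻¹ := by group
        _ = m * (n * z) * z⁻¹ * m⁻¹ := by rw [hc]
        _ = _ := by group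
    rw [e]
    exact M.mul_mem (M.mul_mem hm hn) (M.inv_mem hm)
  rw [eq_top_iff, ← hperf, commutator_def, Subgroup.commutator_le]
  intro a _ b _
  have ha : a ∈ M ⊔ Subgroup.center G := by rw [hM]; trivial
  have hb : b ∈ M ⊔ Subgroup.center G := by rw [hM]; trivial
  obtain ⟨m, hm, z, hz, rfl⟩ := Subgroup.mem_sup_of_normal_right.1 ha
  obtain ⟨n, hn, w, hw, rfl⟩ := Subgroup.mem_sup_of_normal_right.1 hb
  have e : ⁅m * z, n * w⁆ = ⁅m, n⁆ := by
    rw [commutatorElement_def, commutatorElement_def]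
    have hz' := Subgroup.mem_center_iff.1 hz
    have hw' := Subgroup.mem_center_iff.1 hw
    have hzi := Subgroup.mem_center_iff.1 (Subgroup.inv_mem _ hz)
    calc m * z * (n * w) * (m * z)⁻¹ * (n * w)⁻¹ = m * (z * (n * w) * z⁻¹) * m⁻¹ * w⁻¹ * n⁻¹ := by group
      _ = m * (n * w) * m⁻¹ * w⁻¹ * n⁻¹ := by rw [← hz' (n * w), mul_inv_cancel_right]
      _ = m * n * (w * m⁻¹) * w⁻¹ * n⁻¹ := by group
      _ = m * n * (m⁻¹ * w) * w⁻¹ * n⁻¹ := by rw [← hw' m⁻¹]
      _ = _ := by group
  rw [e, commutatorElement_def]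
  exact M.mul_mem (M.mul_mem (M.mul_mem hm hn) (M.inv_mem hm)) (M.inv_mem hn)

theorem unique (hF : Fintype.card F = 4) {L₁ L₂ : Type*} [Group L₁] [Finite L₁] [Group L₂] [Finite L₂]
    (h₁ : Cfsg.IsQuasisimple L₁) (h₂ : Cfsg.IsQuasisimple L₂)
    (hc₁ : Nat.card (Subgroup.center L₁) = 4) (hc₂ : Nat.card (Subgroup.center L₂) = 4)
    (he₁ : ∀ x ∈ Subgroup.center L₁, x * x = 1) (he₂ : ∀ x ∈ Subgroup.center L₂, x * x = 1)
    (e₁ : L₁ ⧸ Subgroup.center L₁ ≃* PL) (e₂ : L₂ ⧸ Subgroup.center L₂ ≃* PL) : Nonempty (L₁ ≃* L₂) := by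
  classical
  have hp1 : commutator L₁ = ⊤ := h₁.1.commutator_eq_top
  have hp2 : commutator L₂ = ⊤ := h₂.1.commutator_eq_top
  let π₁ : L₁ →* PL := e₁.toMonoidHom.comp (QuotientGroup.mk' (Subgroup.center L₁))
  let π₂ : L₂ →* PL := e₂.toMonoidHom.comp (QuotientGroup.mk' (Subgroup.center L₂))
  have hπ₁ : Function.Surjective π₁ := e₁.surjective.comp (QuotientGroup.mk'_surjective _)
  have hπ₂ : Function.Surjective π₂ := e₂.surjective.comp (QuotientGroup.mk'_surjective _)
  have hk₁ : π₁.ker = Subgroup.center L₁ := by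
    ext x
    rw [MonoidHom.mem_ker]
    show e₁ (QuotientGroup.mk' (Subgroup.center L₁) x) = 1 ↔ _
    rw [EmbeddingLike.map_eq_one_iff, QuotientGroup.mk'_apply, QuotientGroup.eq_one_iff]
  have hk₂ : π₂.ker = Subgroup.center L₂ := by
    ext x
    rw [MonoidHom.mem_ker]
    show e₂ (QuotientGroup.mk' (Subgroup.center L₂) x) = 1 ↔ _
    rw [EmbeddingLike.map_eq_one_iff, QuotientGroup.mk'_apply, QuotientGroup.eq_one_iff]
  have hPL : commutator PL = ⊤ := by
    have := congrArg (Subgroup.map π₁) hp1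
    rw [commutator_def, Subgroup.map_commutator, Subgroup.map_top_of_surjective π₁ hπ₁] at this
    exact this
  have hsimp : IsSimpleGroup PL := by
    have := h₁.2
    exact e₁.symm.isSimpleGroup
  have hcPL : Subgroup.center PL = ⊥ := by
    rcases (inferInstance : (Subgroup.center PL).Normal).eq_bot_or_eq_top with h | h
    · exact h
    · exfalso
      have h1 : commutator PL = ⊥ := by
        rw [commutator_def, Subgroup.commutator_eq_bot_iff_le_centralizer]
        intro x _ y _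
        have : y ∈ Subgroup.center PL := by rw [h]; trivial
        exact (Subgroup.mem_center_iff.1 this x).symm
      rw [hPL] at h1
      exact top_ne_bot h1
  -- the fibre product
  let Q : L₁ × L₂ →* PL := π₁.comp (MonoidHom.fst L₁ L₂)
  let Y : Subgroup (L₁ × L₂) := MonoidHom.eqLocus Q (π₂.comp (MonoidHom.snd L₁ L₂))
  have hYmem : ∀ p : L₁ × L₂, p ∈ Y ↔ π₁ p.1 = π₂ p.2 := fun p => Iff.rfl
  have hYtop : Y.map Q = ⊤ := by
    rw [eq_top_iff]
    intro g _
    obtain ⟨a, ha⟩ := hπ₁ g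
    obtain ⟨b, hb⟩ := hπ₂ g
    exact ⟨(a, b), (hYmem _).2 (ha.trans hb.symm), ha⟩
  obtain ⟨W, hWY, hWmin⟩ := Set.exists_min_image {M : Subgroup (L₁ × L₂) | M ≤ Y ∧ M.map Q = ⊤}
    (fun M => Nat.card M) (Set.toFinite _) ⟨Y, le_rfl, hYtop⟩
  have hWperf : ⁅W, W⁆ = W := by
    have h1 : ⁅W, W⁆ ≤ W := Subgroup.commutator_le_self W
    have h2 : (⁅W, W⁆).map Q = ⊤ := by
      rw [Subgroup.map_commutator, hWY.2, ← commutator_def, hPL]
    exact Subgroup.eq_of_le_of_card_ge h1 (hWmin _ ⟨h1.trans hWY.1, h2⟩)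
  have hperfW : commutator W = ⊤ := by
    apply Subgroup.map_injective W.subtype_injective
    rw [commutator_def, Subgroup.map_commutator, ← MonoidHom.range_eq_map, Subgroup.range_subtype, hWperf]
  let ρ : W →* PL := Q.comp W.subtype
  have hρ : Function.Surjective ρ := by
    intro g
    have : g ∈ W.map Q := by rw [hWY.2]; trivial
    obtain ⟨x, hx, rfl⟩ := this
    exact ⟨⟨x, hx⟩, rfl⟩
  have hker : ρ.ker = Subgroup.center W := by
    apply le_antisymm
    · rintro ⟨⟨a, b⟩, hab⟩ h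
      have h1 : π₁ a = 1 := h
      have h2 : π₂ b = 1 := by rw [← (hYmem _).1 (hWY.1 hab)]; exact h1
      have h1' : a ∈ Subgroup.center L₁ := by rw [← hk₁]; exact h1
      have h2' : b ∈ Subgroup.center L₂ := by rw [← hk₂]; exact h2
      rw [Subgroup.mem_center_iff]
      rintro ⟨⟨c, d⟩, hcd⟩
      apply Subtype.ext
      exact Prod.ext (Subgroup.mem_center_iff.1 h1' c) (Subgroup.mem_center_iff.1 h2' d)
    · intro x hx
      have h1 : ρ x ∈ Subgroup.center PL := by
        rw [Subgroup.mem_center_iff]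
        intro g
        obtain ⟨y, rfl⟩ := hρ g
        rw [← map_mul, ← map_mul, Subgroup.mem_center_iff.1 hx y]
      rw [hcPL, Subgroup.mem_bot] at h1
      exact h1
  have hsq : ∀ z ∈ Subgroup.center W, z ^ 2 = 1 := by
    rw [← hker]
    rintro ⟨⟨a, b⟩, hab⟩ h
    have h1 : π₁ a = 1 := h
    have h2 : π₂ b = 1 := by rw [← (hYmem _).1 (hWY.1 hab)]; exact h1
    have h1' : a ∈ Subgroup.center L₁ := by rw [← hk₁]; exact h1
    have h2' : b ∈ Subgroup.center L₂ := by rw [← hk₂]; exact h2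
    apply Subtype.ext
    rw [pow_two]
    exact Prod.ext (he₁ a h1') (he₂ b h2')
  let eW : (W ⧸ Subgroup.center W) ≃* PL :=
    (QuotientGroup.quotientMulEquivOfEq hker.symm).trans (QuotientGroup.quotientKerEquivOfSurjective ρ hρ)
  have hcW := card_center_le' hF hperfW eW hsq
  have hcardW : Nat.card W ≤ 4 * Nat.card PL := by
    rw [Subgroup.card_eq_card_quotient_mul_card_subgroup (Subgroup.center W), Nat.card_congr eW.toEquiv, mul_comm]
    exact Nat.mul_le_mul_right _ hcW
  have hcard1 : Nat.card L₁ = 4 * Nat.card PL := by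
    rw [Subgroup.card_eq_card_quotient_mul_card_subgroup (Subgroup.center L₁), Nat.card_congr e₁.toEquiv, mul_comm, hc₁]
  have hcard2 : Nat.card L₂ = 4 * Nat.card PL := by
    rw [Subgroup.card_eq_card_quotient_mul_card_subgroup (Subgroup.center L₂), Nat.card_congr e₂.toEquiv, mul_comm, hc₂]
  let f₁ : W →* L₁ := (MonoidHom.fst L₁ L₂).comp W.subtype
  let f₂ : W →* L₂ := (MonoidHom.snd L₁ L₂).comp W.subtype
  have hs1 : Function.Surjective f₁ := by
    rw [← MonoidHom.range_eq_top]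
    apply eq_top_of_sup_center hp1
    rw [eq_top_iff]
    intro g _
    obtain ⟨x, hx⟩ := hρ (π₁ g)
    have h1 : (f₁ x)⁻¹ * g ∈ Subgroup.center L₁ := by
      rw [← hk₁, MonoidHom.mem_ker, map_mul, map_inv, ← hx]
      exact inv_mul_cancel _
    have := Subgroup.mul_mem_sup (show f₁ x ∈ f₁.range from ⟨x, rfl⟩) h1
    rwa [mul_inv_cancel_left] at this
  have hs2 : Function.Surjective f₂ := by
    rw [← MonoidHom.range_eq_top]
    apply eq_top_of_sup_center hp2
    rw [eq_top_iff]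
    intro g _
    obtain ⟨x, hx⟩ := hρ (π₂ g)
    have h1 : (f₂ x)⁻¹ * g ∈ Subgroup.center L₂ := by
      rw [← hk₂, MonoidHom.mem_ker, map_mul, map_inv, ← hx]
      have : π₂ (f₂ x) = ρ x := ((hYmem _).1 (hWY.1 x.2)).symm
      rw [this, inv_mul_cancel]
    have := Subgroup.mul_mem_sup (show f₂ x ∈ f₂.range from ⟨x, rfl⟩) h1
    rwa [mul_inv_cancel_left] at this
  have hb1 : Function.Bijective f₁ := by
    refine (Nat.bijective_iff_surjective_and_card f₁).2 ⟨hs1, le_antisymm ?_ (Nat.card_le_card_of_surjective f₁ hs1)⟩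
    rw [hcard1]; exact hcardW
  have hb2 : Function.Bijective f₂ := by
    refine (Nat.bijective_iff_surjective_and_card f₂).2 ⟨hs2, le_antisymm ?_ (Nat.card_le_card_of_surjective f₂ hs2)⟩
    rw [hcard2]; exact hcardW
  exact ⟨(MulEquiv.ofBijective f₁ hb1).symm.trans (MulEquiv.ofBijective f₂ hb2)⟩

end bound

end Cfsg.Agent.Lib.L34H87
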