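import Mathlib


set_option autoImplicit false

/-!
# Degree bounds in cross characteristic by counting weights (helper40)
-/

namespace Cfsg.Agent.Lib.LSeitz
open Module

section
variable {K V : Type*} [Field K] [AddCommGroup V] [Module K V] [FiniteDimensional K V]

/-- common eigenvectors of commuting endomorphisms -/
theorem exists_common [IsAlgClosed K] {ι : Type*} (f : ι → End K V) (hf : ∀ i j, Commute (f i) (f j)) :
    ∀ n : ℕ, ∀ W : Submodule K V, finrank K W = n → W ≠ ⊥ → (∀ i, ∀ w ∈ W, f i w ∈ W) →
      ∃ v ∈ W, v ≠ 0 ∧ ∃ χ : ι → K, ∀ i, f i v = χ i • v := by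
  intro n
  induction n using Nat.strong_induction_on with
  | _ n ih =>
    intro W hn hW hst
    by_cases hall : ∀ i, ∃ c : K, ∀ w ∈ W, f i w = c • w
    · obtain ⟨v, hv, hv0⟩ := (Submodule.ne_bot_iff W).mp hW
      choose χ hχ using hall
      exact ⟨v, hv, hv0, χ, fun i => hχ i v hv⟩
    · push Not at hall
      obtain ⟨i, hi⟩ := hall
      have : Nontrivial W := (Submodule.nontrivial_iff_ne_bot).mpr hW
      obtain ⟨μ, hμ⟩ := Module.End.exists_eigenvalue ((f i).restrict (hst i))
      obtain ⟨⟨w, hw⟩, hw1⟩ := hμ.exists_hasEigenvector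
      have hw2 : f i w = μ • w := congrArg Subtype.val hw1.apply_eq_smul
      have hw0 : w ≠ 0 := fun h => hw1.2 (Subtype.ext h)
      let W' : Submodule K V := W ⊓ (f i).eigenspace μ
      have hlt : W' < W := by
        refine lt_of_le_of_ne inf_le_left fun h => ?_
        obtain ⟨u, hu, hu2⟩ := hi μ
        apply hu2
        rw [← h] at hu
        exact Module.End.mem_eigenspace_iff.mp hu.2
      have hfin : finrank K W' < n := hn ▸ Submodule.finrank_lt_finrank_of_lt hlt
      obtain ⟨v, hv, h1, h2⟩ := ih _ hfin W' rfl
        ((Submodule.ne_bot_iff _).mpr ⟨w, ⟨hw, Module.End.mem_eigenspace_iff.mpr hw2⟩, hw0⟩) fun j x hx =>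
          ⟨hst j x hx.1, by
            show f j x ∈ (f i).eigenspace μ
            rw [Module.End.mem_eigenspace_iff]
            have h3 : f i (f j x) = f j (f i x) := LinearMap.congr_fun (hf i j) x
            rw [h3, Module.End.mem_eigenspace_iff.mp hx.2, map_smul]⟩
      exact ⟨v, hv.1, h1, h2⟩

/-- weight vectors of distinct weights are independent -/
theorem card_le_finrank {ι κ : Type*} [Fintype κ] (f : ι → End K V) (χ : κ → ι → K) (hinj : Function.Injective χ)
    (v : κ → V) (hv : ∀ k, v k ≠ 0) (h : ∀ k i, f i (v k) = χ k i • v k) : Fintype.card κ ≤ finrank K V := by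
  classical
  have hli : LinearIndependent K v := by
    rw [linearIndependent_iff']
    intro s
    induction s using Finset.induction_on with
    | empty => intro g _ i hi; exact absurd hi (Finset.notMem_empty i)
    | insert k0 s hk0 ih =>
      intro g hg
      rw [Finset.sum_insert hk0] at hg
      have h1 : ∀ k ∈ s, g k = 0 := by
        intro k hk
        have hne : k ≠ k0 := fun h => hk0 (h ▸ hk)
        obtain ⟨i, hi⟩ : ∃ i, χ k i ≠ χ k0 i := by
          by_contra hno
          push Not at hno
          exact hne (hinj (funext hno))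
        have h2 := congrArg (f i) hg
        rw [map_add, map_sum, map_zero, map_smul, h] at h2
        have h3 : ∑ k ∈ s, (g k * (χ k i - χ k0 i)) • v k = 0 := by
          have h4 : ∑ k ∈ s, (g k * (χ k i - χ k0 i)) • v k = (g k0 • χ k0 i • v k0 + ∑ k ∈ s, f i (g k • v k)) -
              χ k0 i • (g k0 • v k0 + ∑ k ∈ s, g k • v k) := by
            rw [smul_add, Finset.smul_sum, smul_comm (χ k0 i) (g k0), add_sub_add_left_eq_sub, ← Finset.sum_sub_distrib]
            refine Finset.sum_congr rfl fun k _ => ?_
            rw [map_smul, h, smul_smul, smul_smul, ← sub_smul]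
            congr 1; ring
          rw [h4, h2, hg, smul_zero, sub_zero]
        have h5 := ih _ h3 k hk
        exact (mul_eq_zero.mp h5).resolve_right (sub_ne_zero.mpr hi)
      intro k hk
      rcases Finset.mem_insert.mp hk with rfl | hk
      · rw [Finset.sum_eq_zero (fun k hk => by rw [h1 k hk, zero_smul]), add_zero] at hg
        exact (smul_eq_zero.mp hg).resolve_right (hv k)
      · exact h1 k hk
  exact hli.fintype_card_le_finrank

end

end Cfsg.Agent.Lib.LSeitz
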