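import Mathlib

/-!
Multiply transitive permutation groups: groups induced on subsets (helper13).
-/

set_option autoImplicit false
set_option linter.unusedSectionVars false

namespace Cfsg.Agent.Lib.LW

open MulAction Equiv

variable {β : Type*}

/-- the group induced on `Δ` by its stabiliser -/
def ind (G : Subgroup (Perm β)) (Δ : Finset β) : Subgroup (Perm ↥Δ) where
  carrier := {σ | ∃ g ∈ G, ∀ x : ↥Δ, g (x : β) = σ x}
  one_mem' := ⟨1, G.one_mem, fun _ => rfl⟩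
  mul_mem' := by
    rintro σ τ ⟨g, hg, h1⟩ ⟨h, hh, h2⟩
    exact ⟨g * h, G.mul_mem hg hh, fun x => by rw [Perm.mul_apply, h2, h1]; rfl⟩
  inv_mem' := by
    rintro σ ⟨g, hg, h1⟩
    refine ⟨g⁻¹, G.inv_mem hg, fun x => ?_⟩
    rw [Perm.inv_eq_iff_eq, h1]
    simp

theorem mem_ind {G : Subgroup (Perm β)} {Δ : Finset β} {σ : Perm ↥Δ} :
    σ ∈ ind G Δ ↔ ∃ g ∈ G, ∀ x : ↥Δ, g (x : β) = σ x := Iff.rfl

/-- transitivity on partial injections -/
def Trans (G : Subgroup (Perm β)) (t : ℕ) : Prop :=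
  ∀ (s : Finset β) (f : β → β), s.card ≤ t → Set.InjOn f s → ∃ g ∈ G, ∀ x ∈ s, g x = f x

theorem trans_of [Finite β] {G : Subgroup (Perm β)} {t : ℕ} (h : IsMultiplyPretransitive G β t)
    (ht : t ≤ Nat.card β) : Trans G t := by
  intro s f hs hf
  have h1 : IsMultiplyPretransitive G β s.card := by
    apply isMultiplyPretransitive_of_le' hs
    rw [ENat.card_eq_coe_natCard]
    exact_mod_cast ht
  let x : Fin s.card ↪ β := (s.equivFin.symm.toEmbedding).trans (Function.Embedding.subtype _)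
  have hxs : ∀ i, x i ∈ s := fun i => (s.equivFin.symm i).2
  let y : Fin s.card ↪ β := ⟨fun i => f (x i), fun i j hij => x.injective (hf (hxs i) (hxs j) hij)⟩
  obtain ⟨g, hg⟩ := isMultiplyPretransitive_iff.1 h1 x y
  refine ⟨g, g.2, fun z hz => ?_⟩
  have h2 := DFunLike.congr_fun hg (s.equivFin ⟨z, hz⟩)
  have h3 : x (s.equivFin ⟨z, hz⟩) = z := by
    change ((s.equivFin.symm (s.equivFin ⟨z, hz⟩) : ↥s) : β) = z
    rw [Equiv.symm_apply_apply]
  change (g : Perm β) (x (s.equivFin ⟨z, hz⟩)) = f (x (s.equivFin ⟨z, hz⟩)) at h2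
  rwa [h3] at h2

theorem Trans.mono {G : Subgroup (Perm β)} {t s : ℕ} (h : Trans G t) (hs : s ≤ t) : Trans G s :=
  fun A f hA hf => h A f (hA.trans hs) hf

/-- no involution fixes `t` points -/
def NoInv (G : Subgroup (Perm β)) (t : ℕ) : Prop :=
  ∀ w ∈ G, w * w = 1 → ∀ Γ : Finset β, t ≤ Γ.card → (∀ x ∈ Γ, w x = x) → w = 1

section basic

variable [Fintype β] [DecidableEq β] {G : Subgroup (Perm β)} {t : ℕ}

theorem pow_fix {g : Perm β} {x : β} (h : g x = x) (k : ℕ) : (g ^ k) x = x := by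
  induction k with
  | zero => rfl
  | succ k ih => rw [pow_succ, Perm.mul_apply, h, ih]

theorem pow_odd_apply {g : Perm β} {x : β} (h : g (g x) = x) (j : ℕ) :
    (g ^ (2 * j + 1)) x = g x := by
  have h1 : (g ^ 2) (g x) = g x := by
    rw [sq, Perm.mul_apply, h]
  rw [pow_succ, pow_mul, Perm.mul_apply, pow_fix h1]

theorem odd_of_fix (hK : NoInv G t) {g : Perm β} (hg : g ∈ G) {Γ : Finset β} (hΓ : t ≤ Γ.card)
    (h : ∀ x ∈ Γ, g x = x) : Odd (orderOf g) := by
  by_contra hodd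
  rw [Nat.not_odd_iff_even] at hodd
  obtain ⟨m, hm⟩ := hodd
  have hpos : 0 < orderOf g := orderOf_pos g
  have h1 : g ^ m = 1 := by
    refine hK _ (G.pow_mem hg m) ?_ Γ hΓ (fun x hx => pow_fix (h x hx) m)
    rw [← pow_add, ← hm, pow_orderOf_eq_one]
  have h2 := orderOf_dvd_of_pow_eq_one h1
  have h3 := Nat.le_of_dvd (by omega) h2
  omega

/-- lifting an involutive permutation of a `t`-set, commuting with a given involution -/
theorem lift_comm (hT : Trans G t) (hK : NoInv G t) {Γ : Finset β} (hΓ : Γ.card = t) {z : Perm β}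
    (hz : z ∈ G) (hzz : z * z = 1) (hzΓ : ∀ x ∈ Γ, z x ∈ Γ) (π : β → β) (hπ : ∀ x ∈ Γ, π x ∈ Γ)
    (hππ : ∀ x ∈ Γ, π (π x) = x) (hzπ : ∀ x ∈ Γ, z (π x) = π (z x)) :
    ∃ w ∈ G, w * w = 1 ∧ w * z = z * w ∧ ∀ x ∈ Γ, w x = π x := by
  -- first an involution lifting π
  obtain ⟨g0, hg0, hg0π⟩ := hT Γ π hΓ.le (fun x hx y hy hxy => by
    rw [← hππ x hx, ← hππ y hy, hxy])
  have h0 : ∀ x ∈ Γ, g0 (g0 x) = x := fun x hx => by
    rw [hg0π x hx, hg0π _ (hπ x hx), hππ x hx]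
  obtain ⟨j0, hj0⟩ := odd_of_fix hK (G.mul_mem hg0 hg0) hΓ.ge (fun x hx => h0 x hx)
  set g := g0 ^ (2 * j0 + 1) with hgdef
  have hg : g ∈ G := G.pow_mem hg0 _
  have hgg : g * g = 1 := by
    rw [hgdef, ← pow_add, ← two_mul, pow_mul, sq, ← hj0, pow_orderOf_eq_one]
  have hgπ : ∀ x ∈ Γ, g x = π x := fun x hx => by
    rw [hgdef, pow_odd_apply (h0 x hx), hg0π x hx]
  -- now make it commute with z
  set d := z * g with hd
  have hdd : ∀ x ∈ Γ, d (d x) = x := by
    intro x hx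
    change z (g (z (g x))) = x
    rw [hgπ x hx, hzπ x hx, hgπ _ (hπ _ (hzΓ x hx)), hππ _ (hzΓ x hx)]
    exact DFunLike.congr_fun hzz x
  have hdG : d ∈ G := G.mul_mem hz hg
  obtain ⟨j, hj⟩ := odd_of_fix hK (G.mul_mem hdG hdG) hΓ.ge (fun x hx => hdd x hx)
  have hd1 : d ^ (2 * j + 1) * d ^ (2 * j + 1) = 1 := by
    rw [← pow_add, ← two_mul, pow_mul, sq, ← hj, pow_orderOf_eq_one]
  have hzinv : z⁻¹ = z := inv_eq_of_mul_eq_one_right hzz
  have hginv : g⁻¹ = g := inv_eq_of_mul_eq_one_right hgg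
  have hzd : ∀ k : ℕ, z * d ^ k * z = (d ^ k)⁻¹ := by
    intro k
    have h1 : z * d * z⁻¹ = d⁻¹ := by
      rw [hd, mul_inv_rev, hzinv, hginv]
      rw [← mul_assoc, hzz, one_mul]
    have h2 : z * d ^ k * z⁻¹ = (z * d * z⁻¹) ^ k := conj_pow.symm
    rw [h1, hzinv, inv_pow] at h2
    exact h2
  have hcomm : z * d ^ (2 * j + 1) = d ^ (2 * j + 1) * z := by
    have h1 := hzd (2 * j + 1)
    have h2 : (d ^ (2 * j + 1))⁻¹ = d ^ (2 * j + 1) := inv_eq_of_mul_eq_one_right hd1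
    rw [h2] at h1
    calc z * d ^ (2 * j + 1) = z * d ^ (2 * j + 1) * z * z := by
          rw [mul_assoc (z * d ^ (2 * j + 1)), hzz, mul_one]
      _ = d ^ (2 * j + 1) * z := by rw [h1]
  refine ⟨z * d ^ (2 * j + 1), G.mul_mem hz (G.pow_mem hdG _), ?_, ?_, ?_⟩
  · rw [mul_assoc, ← mul_assoc (d ^ (2 * j + 1)), ← hcomm, mul_assoc z, hd1, mul_one, hzz]
  · rw [mul_assoc, ← hcomm]
  · intro x hx
    rw [Perm.mul_apply, pow_odd_apply (hdd x hx)]
    change z (z (g x)) = π x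
    rw [hgπ x hx]
    exact DFunLike.congr_fun hzz (π x)

/-- dihedral conjugation -/
theorem dihedral {X : Type*} [Group X] {z1 z2 : X} (h1 : z1 * z1 = 1) (h2 : z2 * z2 = 1)
    {m : ℕ} (hm : orderOf (z1 * z2) = 2 * m + 1) :
    (z1 * (z1 * z2) ^ (m + 1)) * (z1 * (z1 * z2) ^ (m + 1)) = 1 ∧
      (z1 * (z1 * z2) ^ (m + 1)) * z1 * (z1 * (z1 * z2) ^ (m + 1)) = z2 := by
  set d := z1 * z2 with hd
  have hi1 : z1⁻¹ = z1 := inv_eq_of_mul_eq_one_right h1
  have hi2 : z2⁻¹ = z2 := inv_eq_of_mul_eq_one_right h2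
  have hzd : z1 * d ^ (m + 1) * z1 = (d ^ (m + 1))⁻¹ := by
    have e1 : z1 * d * z1⁻¹ = d⁻¹ := by
      rw [hd, mul_inv_rev, hi1, hi2]
      rw [← mul_assoc, h1, one_mul]
    have e2 : z1 * d ^ (m + 1) * z1⁻¹ = (z1 * d * z1⁻¹) ^ (m + 1) := conj_pow.symm
    rw [e1, hi1, inv_pow] at e2
    exact e2
  constructor
  · rw [← mul_assoc, hzd, inv_mul_cancel]
  · rw [mul_assoc (z1 * d ^ (m + 1)), ← mul_assoc z1 z1, h1, one_mul, mul_assoc, ← pow_add,
      show m + 1 + (m + 1) = (2 * m + 1) + 1 by ring, pow_succ, ← hm, pow_orderOf_eq_one, one_mul,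
      hd, ← mul_assoc, h1, one_mul]

/-- swaps are induced -/
theorem swap_mem {Δ : Finset β} {i j : ↥Δ} {c : Perm β} (hc : c ∈ G) (hi : c i = j)
    (hj : c j = i) (hx : ∀ x ∈ Δ, x ≠ i → x ≠ j → c x = x) : Equiv.swap i j ∈ ind G Δ := by
  refine ⟨c, hc, fun x => ?_⟩
  by_cases h1 : x = i
  · rw [h1, Equiv.swap_apply_left, hi]
  · by_cases h2 : x = j
    · rw [h2, Equiv.swap_apply_right, hj]
    · rw [Equiv.swap_apply_of_ne_of_ne h1 h2]
      exact hx x x.2 (fun h => h1 (Subtype.ext h)) (fun h => h2 (Subtype.ext h))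

theorem ind_top {Δ : Finset β} (h : ∀ i j : ↥Δ, i ≠ j → Equiv.swap i j ∈ ind G Δ) : ind G Δ = ⊤ := by
  rw [eq_top_iff, ← Perm.closure_isSwap, Subgroup.closure_le]
  rintro σ ⟨i, j, hij, rfl⟩
  exact h i j hij

/-- **Case B**: every `t`-set is the fixed point set of an involution -/
theorem caseB (hinv : ∀ Γ : Finset β, Γ.card = t → ∃ z ∈ G, z * z = 1 ∧ ∀ x, z x = x ↔ x ∈ Γ)
    (hK : NoInv G (t + 1)) (Δ : Finset β) (hΔ : Δ.card = t + 1) : ind G Δ = ⊤ := by
  apply ind_top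
  intro i j hij
  have hij' : (i : β) ≠ j := fun h => hij (Subtype.ext h)
  obtain ⟨z1, hz1, hz1z, hf1⟩ := hinv (Δ.erase j) (by rw [Finset.card_erase_of_mem j.2, hΔ]; rfl)
  obtain ⟨z2, hz2, hz2z, hf2⟩ := hinv (Δ.erase i) (by rw [Finset.card_erase_of_mem i.2, hΔ]; rfl)
  have f1 : ∀ x ∈ Δ, x ≠ j → z1 x = x := fun x hx hxj => (hf1 x).2 (Finset.mem_erase.2 ⟨hxj, hx⟩)
  have f2 : ∀ x ∈ Δ, x ≠ i → z2 x = x := fun x hx hxi => (hf2 x).2 (Finset.mem_erase.2 ⟨hxi, hx⟩)
  set d := z1 * z2 with hd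
  have hdG : d ∈ G := G.mul_mem hz1 hz2
  have hdf : ∀ x ∈ Δ, x ≠ i → x ≠ j → d x = x := by
    intro x hx hxi hxj
    rw [hd, Perm.mul_apply, f2 x hx hxi, f1 x hx hxj]
  have hi1 : z1⁻¹ = z1 := inv_eq_of_mul_eq_one_right hz1z
  have hi2 : z2⁻¹ = z2 := inv_eq_of_mul_eq_one_right hz2z
  have hodd : Odd (orderOf d) := by
    by_contra hodd
    rw [Nat.not_odd_iff_even] at hodd
    obtain ⟨m, hm⟩ := hodd
    have hpos : 0 < orderOf d := orderOf_pos d
    set w := d ^ m with hw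
    have hww : w * w = 1 := by rw [hw, ← pow_add, ← hm, pow_orderOf_eq_one]
    have hwinv : w⁻¹ = w := inv_eq_of_mul_eq_one_right hww
    have hwne : w ≠ 1 := by
      intro h1
      have h2 := orderOf_dvd_of_pow_eq_one h1
      have h3 := Nat.le_of_dvd (by omega) h2
      omega
    have hc1 : z1 * w = w * z1 := by
      have e1 : z1 * d * z1⁻¹ = d⁻¹ := by
        rw [hd, mul_inv_rev, hi1, hi2]
        rw [← mul_assoc, hz1z, one_mul]
      have e2 : z1 * d ^ m * z1⁻¹ = (z1 * d * z1⁻¹) ^ m := conj_pow.symm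
      rw [e1, inv_pow, ← hw, hwinv] at e2
      rw [← mul_inv_eq_iff_eq_mul]; exact e2
    have hcd : d * w = w * d := by
      rw [hw, ← pow_succ, ← pow_succ']
    have hc2 : z2 * w = w * z2 := by
      have e3 : z2 = z1 * d := by rw [hd, ← mul_assoc, hz1z, one_mul]
      rw [e3, mul_assoc, hcd, ← mul_assoc, hc1, mul_assoc]
    have hwf : ∀ x ∈ Δ, x ≠ i → x ≠ j → w x = x := fun x hx hxi hxj => pow_fix (hdf x hx hxi hxj) m
    -- w i = i
    have hwi : w i = i := by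
      have h1 : z1 (w i) = w i := by
        have := DFunLike.congr_fun hc1 (i : β)
        rw [Perm.mul_apply, Perm.mul_apply, f1 i i.2 hij'] at this
        exact this
      have h2 := (hf1 (w i)).1 h1
      rw [Finset.mem_erase] at h2
      by_contra hne
      have h3 := hwf (w i) h2.2 hne h2.1
      exact hne (w.injective h3)
    have hwj : w j = j := by
      have h1 : z2 (w j) = w j := by
        have := DFunLike.congr_fun hc2 (j : β)
        rw [Perm.mul_apply, Perm.mul_apply, f2 j j.2 (Ne.symm hij')] at this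
        exact this
      have h2 := (hf2 (w j)).1 h1
      rw [Finset.mem_erase] at h2
      by_contra hne
      have h3 := hwf (w j) h2.2 h2.1 hne
      exact hne (w.injective h3)
    apply hwne
    refine hK w (G.pow_mem hdG m) hww Δ hΔ.ge (fun x hx => ?_)
    by_cases h1 : x = i
    · rw [h1, hwi]
    · by_cases h2 : x = j
      · rw [h2, hwj]
      · exact hwf x hx h1 h2
  obtain ⟨m, hm⟩ := hodd
  obtain ⟨hcc, hconj⟩ := dihedral hz1z hz2z hm
  set c := z1 * (z1 * z2) ^ (m + 1) with hc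
  have hcG : c ∈ G := G.mul_mem hz1 (G.pow_mem hdG _)
  have hcf : ∀ x ∈ Δ, x ≠ i → x ≠ j → c x = x := by
    intro x hx hxi hxj
    rw [hc, Perm.mul_apply, pow_fix (hdf x hx hxi hxj), f1 x hx hxj]
  have hci : c i = j := by
    have h1 : z2 (c i) = c i := by
      rw [← hconj, Perm.mul_apply, Perm.mul_apply]
      have h2 : c (c i) = i := DFunLike.congr_fun hcc (i : β)
      rw [h2, f1 i i.2 hij']
    have h2 := (hf2 (c i)).1 h1
    rw [Finset.mem_erase] at h2
    by_contra hne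
    have h3 := hcf (c i) h2.2 h2.1 hne
    exact h2.1 (c.injective h3)
  have hcj : c j = i := by
    rw [← hci]; exact DFunLike.congr_fun hcc (i : β)
  exact swap_mem hcG hci hcj hcf

/-- number of fixed points of an involution -/
theorem card_fix_mod {w : Perm β} (hw : w * w = 1) :
    (Finset.univ.filter (fun x => w x = x)).card % 2 = Fintype.card β % 2 := by
  have h1 : 2 ∣ w.support.card := Perm.two_dvd_card_support (by rw [sq, hw])
  have h2 : (Finset.univ.filter (fun x => w x = x)).card + w.support.card = Fintype.card β := by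
    have h3 := Finset.card_filter_add_card_filter_not (s := (Finset.univ : Finset β))
      (fun x => w x = x)
    rw [Finset.card_univ] at h3
    rw [← h3]
    congr 1
  omega

end basic

end Cfsg.Agent.Lib.LW
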