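import Mathlib
import Cfsg.Agent.Lib.LW1

/-!
Multiply transitive permutation groups with pointwise stabilisers of odd order: the odd case
(helper13).
-/

set_option autoImplicit false
set_option linter.unusedSectionVars false

namespace Cfsg.Agent.Lib.LW

open MulAction Equiv

variable {β : Type*} [Fintype β] [DecidableEq β] {G : Subgroup (Perm β)} {t : ℕ}

/-- the transposition `(c d)` of `Δ` is induced by an involution -/
def Good (G : Subgroup (Perm β)) (Δ : Finset β) (c d : β) : Prop :=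
  ∃ w ∈ G, w * w = 1 ∧ ∀ x ∈ Δ, w x = Equiv.swap c d x

/-- the fixed point set -/
def fx (w : Perm β) : Finset β := Finset.univ.filter (fun x => w x = x)

theorem mem_fx {w : Perm β} {x : β} : x ∈ fx w ↔ w x = x := by simp [fx]

theorem card_fx_lt (hK : NoInv G t) {w : Perm β} (hw : w ∈ G) (hww : w * w = 1) (hw1 : w ≠ 1) :
    (fx w).card < t := by
  by_contra h
  push Not at h
  exact hw1 (hK w hw hww _ h (fun x hx => mem_fx.1 hx))

theorem good_prop (hT : Trans G t) (hK : NoInv G t) {Δ : Finset β} (hΔ : Δ.card = t + 1)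
    (ht : 4 ≤ t) {c d i j : β} (hc : c ∈ Δ) (hd : d ∈ Δ) (hcd : c ≠ d) (hi : i ∈ Δ) (hj : j ∈ Δ)
    (hci : c ≠ i) (hcj : c ≠ j) (hdi : d ≠ i) (hdj : d ≠ j) (h : Good G Δ c d) :
    Good G Δ i j := by
  obtain ⟨w, hw, hww, hwΔ⟩ := h
  obtain ⟨k, hk, hkn⟩ : ∃ k ∈ Δ, k ∉ ({c, d, i, j} : Finset β) := by
    by_contra hcon
    push Not at hcon
    have h1 := Finset.card_le_card (s := Δ) (t := {c, d, i, j}) hcon
    have h2 := Finset.card_le_four (a := c) (b := d) (c := i) (d := j)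
    omega
  simp only [Finset.mem_insert, Finset.mem_singleton, not_or] at hkn
  obtain ⟨hkc, hkd, hki, hkj⟩ := hkn
  set Γ := Δ.erase k with hΓ
  have hΓc : Γ.card = t := by rw [hΓ, Finset.card_erase_of_mem hk, hΔ]; rfl
  have hΓΔ : ∀ x ∈ Γ, x ∈ Δ := fun x hx => Finset.mem_of_mem_erase hx
  have hcΓ : c ∈ Γ := Finset.mem_erase.2 ⟨Ne.symm hkc, hc⟩
  have hdΓ : d ∈ Γ := Finset.mem_erase.2 ⟨Ne.symm hkd, hd⟩
  have hiΓ : i ∈ Γ := Finset.mem_erase.2 ⟨Ne.symm hki, hi⟩
  have hjΓ : j ∈ Γ := Finset.mem_erase.2 ⟨Ne.symm hkj, hj⟩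
  have hswap : ∀ {S : Finset β} {a b : β}, a ∈ S → b ∈ S → ∀ x ∈ S, Equiv.swap a b x ∈ S := by
    intro S a b ha hb x hx
    rw [Equiv.swap_apply_def]
    split_ifs
    · exact hb
    · exact ha
    · exact hx
  have hcomm : ∀ x, Equiv.swap c d (Equiv.swap i j x) = Equiv.swap i j (Equiv.swap c d x) := by
    have hdis : Perm.Disjoint (Equiv.swap c d) (Equiv.swap i j) := by
      intro x
      by_cases h1 : x = c
      · right; rw [h1]; exact Equiv.swap_apply_of_ne_of_ne hci hcj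
      · by_cases h2 : x = d
        · right; rw [h2]; exact Equiv.swap_apply_of_ne_of_ne hdi hdj
        · left; exact Equiv.swap_apply_of_ne_of_ne h1 h2
    intro x
    exact DFunLike.congr_fun hdis.commute.eq x
  have hw1 : w ≠ 1 := by
    intro h1
    have h2 := hwΔ c hc
    rw [h1, Equiv.swap_apply_left] at h2
    exact hcd h2
  -- fixed points of w
  have hfx : fx w = (Δ.erase c).erase d := by
    symm
    apply Finset.eq_of_subset_of_card_le
    · intro x hx
      rw [Finset.mem_erase, Finset.mem_erase] at hx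
      rw [mem_fx, hwΔ x hx.2.2, Equiv.swap_apply_of_ne_of_ne hx.2.1 hx.1]
    · rw [Finset.card_erase_of_mem (Finset.mem_erase.2 ⟨Ne.symm hcd, hd⟩),
        Finset.card_erase_of_mem hc, hΔ]
      have := card_fx_lt hK hw hww hw1
      omega
  obtain ⟨w', hw', hww', hcw, hw'Γ⟩ := lift_comm hT hK hΓc hw hww
    (fun x hx => by rw [hwΔ x (hΓΔ x hx)]; exact hswap hcΓ hdΓ x hx) (Equiv.swap i j)
    (fun x hx => hswap hiΓ hjΓ x hx) (fun x _ => Equiv.swap_apply_self i j x)
    (fun x hx => by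
      rw [hwΔ _ (hΓΔ _ (hswap hiΓ hjΓ x hx)), hwΔ x (hΓΔ x hx), hcomm])
  have hsk : Equiv.swap i j k = k := Equiv.swap_apply_of_ne_of_ne hki hkj
  have hw'k : w' k = k := by
    by_contra hne
    have h1 : w (w' k) = w' k := by
      have h2 := DFunLike.congr_fun hcw k
      rw [Perm.mul_apply, Perm.mul_apply, hwΔ k hk, Equiv.swap_apply_of_ne_of_ne hkc hkd] at h2
      exact h2.symm
    have h2 : w' k ∈ Δ := by
      have h3 : w' k ∈ fx w := mem_fx.2 h1
      rw [hfx, Finset.mem_erase, Finset.mem_erase] at h3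
      exact h3.2.2
    have h4 := hw'Γ (w' k) (Finset.mem_erase.2 ⟨hne, h2⟩)
    have h5 : w' (w' k) = k := DFunLike.congr_fun hww' k
    rw [h5] at h4
    have h6 : Equiv.swap i j k = w' k := by
      conv_lhs => rw [h4]
      exact Equiv.swap_apply_self i j (w' k)
    rw [hsk] at h6
    exact hne h6.symm
  refine ⟨w', hw', hww', fun x hx => ?_⟩
  by_cases hxk : x = k
  · rw [hxk, hw'k, hsk]
  · exact hw'Γ x (Finset.mem_erase.2 ⟨hxk, hx⟩)

theorem good_symm {Δ : Finset β} {c d : β} (h : Good G Δ c d) : Good G Δ d c := by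
  obtain ⟨w, hw, hww, hwΔ⟩ := h
  exact ⟨w, hw, hww, fun x hx => by rw [hwΔ x hx, Equiv.swap_comm]⟩

/-- **odd case** -/
theorem caseOdd (hT : Trans G t) (hK : NoInv G t) (ht : 4 ≤ t) (hn : t < Fintype.card β)
    (hpar : Odd (Fintype.card β - t)) : ∃ Δ : Finset β, Δ.card = t + 1 ∧ ind G Δ = ⊤ := by
  obtain ⟨Γ, hΓ⟩ : ∃ Γ : Finset β, Γ.card = t := by
    obtain ⟨Γ, -, hΓ⟩ := Finset.exists_subset_card_eq (s := (Finset.univ : Finset β)) (n := t)
      (by rw [Finset.card_univ]; omega)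
    exact ⟨Γ, hΓ⟩
  obtain ⟨c, hc, d, hd, hcd⟩ := Finset.one_lt_card.1 (by omega : 1 < Γ.card)
  have hswap : ∀ x ∈ Γ, Equiv.swap c d x ∈ Γ := by
    intro x hx
    rw [Equiv.swap_apply_def]
    split_ifs
    · exact hd
    · exact hc
    · exact hx
  obtain ⟨z, hz, hzz, -, hzΓ⟩ := lift_comm hT hK hΓ G.one_mem (one_mul 1) (fun x hx => hx)
    (Equiv.swap c d) hswap (fun x _ => Equiv.swap_apply_self c d x) (fun x _ => rfl)
  have hzc : z c = d := by rw [hzΓ c hc, Equiv.swap_apply_left]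
  have hzd : z d = c := by rw [hzΓ d hd, Equiv.swap_apply_right]
  have hz1 : z ≠ 1 := by
    intro h1
    rw [h1] at hzc
    exact hcd hzc
  have hlt := card_fx_lt hK hz hzz hz1
  have hge : t - 2 ≤ (fx z).card := by
    have h1 : (Γ.erase c).erase d ⊆ fx z := by
      intro x hx
      rw [Finset.mem_erase, Finset.mem_erase] at hx
      rw [mem_fx, hzΓ x hx.2.2, Equiv.swap_apply_of_ne_of_ne hx.2.1 hx.1]
    have h2 := Finset.card_le_card h1
    rw [Finset.card_erase_of_mem (Finset.mem_erase.2 ⟨Ne.symm hcd, hd⟩),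
        Finset.card_erase_of_mem hc, hΓ] at h2
    omega
  have hmod := card_fix_mod hzz
  change (fx z).card % 2 = _ at hmod
  have hcard : (fx z).card = t - 1 := by
    obtain ⟨r, hr⟩ := hpar
    omega
  have hcf : c ∉ fx z := by
    rw [mem_fx, hzc]; exact Ne.symm hcd
  have hdf : d ∉ fx z := by
    rw [mem_fx, hzd]; exact hcd
  set Δ := insert c (insert d (fx z)) with hΔdef
  have hΔ : Δ.card = t + 1 := by
    rw [hΔdef, Finset.card_insert_of_notMem, Finset.card_insert_of_notMem hdf, hcard]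
    · omega
    · rw [Finset.mem_insert]
      rintro (h | h)
      · exact hcd h
      · exact hcf h
  have hcΔ : c ∈ Δ := Finset.mem_insert_self _ _
  have hdΔ : d ∈ Δ := Finset.mem_insert_of_mem (Finset.mem_insert_self _ _)
  have hgood : Good G Δ c d := by
    refine ⟨z, hz, hzz, fun x hx => ?_⟩
    rw [hΔdef, Finset.mem_insert, Finset.mem_insert] at hx
    rcases hx with rfl | rfl | hx
    · rw [hzc, Equiv.swap_apply_left]
    · rw [hzd, Equiv.swap_apply_right]
    · have h1 : x ≠ c := by rintro rfl; exact hcf hx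
      have h2 : x ≠ d := by rintro rfl; exact hdf hx
      rw [Equiv.swap_apply_of_ne_of_ne h1 h2]
      exact mem_fx.1 hx
  -- all pairs are good
  have key : ∀ {c d i : β}, c ∈ Δ → d ∈ Δ → i ∈ Δ → c ≠ d → c ≠ i → d ≠ i → Good G Δ c d →
      Good G Δ c i := by
    intro c d i hc hd hi hcd hci hdi hg
    obtain ⟨j, hj, k, hk, hjk⟩ : ∃ j ∈ Δ \ {c, d, i}, ∃ k ∈ Δ \ {c, d, i}, j ≠ k := by
      apply Finset.one_lt_card.1
      have h1 := Finset.le_card_sdiff ({c, d, i} : Finset β) Δ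
      have h2 := Finset.card_le_three (a := c) (b := d) (c := i)
      omega
    simp only [Finset.mem_sdiff, Finset.mem_insert, Finset.mem_singleton, not_or] at hj hk
    have h1 := good_prop hT hK hΔ ht hc hd hcd hj.1 hk.1 (Ne.symm hj.2.1) (Ne.symm hk.2.1)
      (Ne.symm hj.2.2.1) (Ne.symm hk.2.2.1) hg
    exact good_prop hT hK hΔ ht hj.1 hk.1 hjk hc hi hj.2.1 hj.2.2.2 hk.2.1 hk.2.2.2 h1
  refine ⟨Δ, hΔ, ind_top ?_⟩
  intro i j hij
  have hij' : (i : β) ≠ j := fun h => hij (Subtype.ext h)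
  have hall : Good G Δ i j := by
    by_cases h1 : c = i
    · by_cases h2 : d = j
      · rw [← h1, ← h2]; exact hgood
      · rw [← h1]
        exact key hcΔ hdΔ j.2 hcd (h1 ▸ hij') h2 hgood
    · by_cases h2 : d = i
      · by_cases h3 : c = j
        · rw [← h2, ← h3]; exact good_symm hgood
        · rw [← h2]
          exact key hdΔ hcΔ j.2 (Ne.symm hcd) (h2 ▸ hij') h3 (good_symm hgood)
      · by_cases h3 : c = j
        · rw [← h3]
          exact good_symm (key hcΔ hdΔ i.2 hcd h1 h2 hgood)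
        · by_cases h4 : d = j
          · rw [← h4]
            exact good_symm (key hdΔ hcΔ i.2 (Ne.symm hcd) h2 h1 (good_symm hgood))
          · exact good_prop hT hK hΔ ht hcΔ hdΔ hcd i.2 j.2 h1 h3 h2 h4 hgood
  obtain ⟨w, hw, hww, hwΔ⟩ := hall
  refine swap_mem hw ?_ ?_ ?_
  · rw [hwΔ i i.2, Equiv.swap_apply_left]
  · rw [hwΔ j j.2, Equiv.swap_apply_right]
  · intro x hx h1 h2
    rw [hwΔ x hx, Equiv.swap_apply_of_ne_of_ne h1 h2]

end Cfsg.Agent.Lib.LW
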