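import Mathlib

/-!
Generation of the alternating group by the 3-cycles `(a b x)` (helper13).
-/

set_option autoImplicit false
set_option linter.unusedSectionVars false

namespace Cfsg.Agent.Lib.LW

open MulAction Equiv

variable {Λ : Type*} [Fintype Λ] [DecidableEq Λ]

/-- the 3-cycle `a ↦ b ↦ x ↦ a` -/
def c3 (a b x : Λ) : Perm Λ := Equiv.swap a b * Equiv.swap b x

theorem c3_a {a b x : Λ} (hab : a ≠ b) (hax : a ≠ x) : c3 a b x a = b := by
  rw [c3, Perm.mul_apply, Equiv.swap_apply_of_ne_of_ne hab hax, Equiv.swap_apply_left]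

theorem c3_b {a b x : Λ} (hax : a ≠ x) (hbx : b ≠ x) : c3 a b x b = x := by
  rw [c3, Perm.mul_apply, Equiv.swap_apply_left,
    Equiv.swap_apply_of_ne_of_ne (Ne.symm hax) (Ne.symm hbx)]

theorem c3_x {a b x : Λ} : c3 a b x x = a := by
  rw [c3, Perm.mul_apply, Equiv.swap_apply_right, Equiv.swap_apply_right]

theorem c3_ne {a b x y : Λ} (ha : y ≠ a) (hb : y ≠ b) (hx : y ≠ x) : c3 a b x y = y := by
  rw [c3, Perm.mul_apply, Equiv.swap_apply_of_ne_of_ne hb hx, Equiv.swap_apply_of_ne_of_ne ha hb]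

theorem c3_ext {a b x : Λ} (hab : a ≠ b) (hax : a ≠ x) (hbx : b ≠ x) {σ : Perm Λ} (h1 : σ a = b)
    (h2 : σ b = x) (h3 : σ x = a) (h : ∀ y, y ≠ a → y ≠ b → y ≠ x → σ y = y) : σ = c3 a b x := by
  ext y
  by_cases ha : y = a
  · rw [ha, h1, c3_a hab hax]
  · by_cases hb : y = b
    · rw [hb, h2, c3_b hax hbx]
    · by_cases hx : y = x
      · rw [hx, h3, c3_x]
      · rw [h y ha hb hx, c3_ne ha hb hx]

theorem c3_conj (σ : Perm Λ) (a b x : Λ) : σ * c3 a b x * σ⁻¹ = c3 (σ a) (σ b) (σ x) := by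
  rw [c3, c3, Equiv.swap_apply_apply, Equiv.swap_apply_apply]
  group

theorem alt_le {H : Subgroup (Perm Λ)} (h4 : 4 ≤ Fintype.card Λ) {a b : Λ} (hab : a ≠ b)
    (h : ∀ x, x ≠ a → x ≠ b → c3 a b x ∈ H) : alternatingGroup Λ ≤ H := by
  have h2 : IsMultiplyPretransitive H Λ 2 := by
    rw [is_two_pretransitive_iff]
    have key : ∀ x y : Λ, x ≠ y → ∃ g ∈ H, g a = x ∧ g b = y := by
      -- element with a ↦ x, b ↦ b
      have e1 : ∀ x w, x ≠ a → x ≠ b → w ≠ a → w ≠ b → w ≠ x → ∃ g ∈ H, g a = x ∧ g b = b := by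
        intro x w hxa hxb hwa hwb hwx
        refine ⟨c3 a b w * (c3 a b x)⁻¹, H.mul_mem (h w hwa hwb) (H.inv_mem (h x hxa hxb)), ?_, ?_⟩
        · have : (c3 a b x)⁻¹ a = x := by
            rw [Perm.inv_eq_iff_eq, c3_x]
          rw [Perm.mul_apply, this, c3_ne hxa hxb (Ne.symm hwx)]
        · have : (c3 a b x)⁻¹ b = a := by
            rw [Perm.inv_eq_iff_eq, c3_a hab (Ne.symm hxa)]
          rw [Perm.mul_apply, this, c3_a hab (Ne.symm hwa)]
      -- element with a ↦ a, b ↦ y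
      have e2 : ∀ y w, y ≠ a → y ≠ b → w ≠ a → w ≠ b → w ≠ y → ∃ g ∈ H, g a = a ∧ g b = y := by
        intro y w hya hyb hwa hwb hwy
        refine ⟨(c3 a b w)⁻¹ * c3 a b y, H.mul_mem (H.inv_mem (h w hwa hwb)) (h y hya hyb), ?_, ?_⟩
        · rw [Perm.mul_apply, c3_a hab (Ne.symm hya), Perm.inv_eq_iff_eq, c3_a hab (Ne.symm hwa)]
        · rw [Perm.mul_apply, c3_b (Ne.symm hya) (Ne.symm hyb), Perm.inv_eq_iff_eq,
            c3_ne hya hyb (Ne.symm hwy)]
      have fresh : ∀ x : Λ, ∃ w, w ≠ a ∧ w ≠ b ∧ w ≠ x := by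
        intro x
        obtain ⟨w, hw⟩ : ∃ w, w ∉ ({a, b, x} : Finset Λ) := by
          by_contra hcon
          push Not at hcon
          have h5 := Finset.card_le_three (a := a) (b := b) (c := x)
          have h6 := Finset.card_le_card (s := Finset.univ) (t := ({a, b, x} : Finset Λ))
            (fun y _ => hcon y)
          rw [Finset.card_univ] at h6
          omega
        simp only [Finset.mem_insert, Finset.mem_singleton, not_or] at hw
        exact ⟨w, hw⟩
      intro x y hxy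
      by_cases hxa : x = a
      · subst hxa
        by_cases hyb : y = b
        · subst hyb
          exact ⟨1, H.one_mem, rfl, rfl⟩
        · obtain ⟨w, hwa, hwb, hwy⟩ := fresh y
          exact e2 y w (Ne.symm hxy) hyb hwa hwb hwy
      · by_cases hxb : x = b
        · subst hxb
          by_cases hya : y = a
          · subst hya
            -- a ↦ b, b ↦ a
            obtain ⟨w, hwa, hwb, -⟩ := fresh y
            obtain ⟨v, hva, hvb, hvw⟩ := fresh w
            obtain ⟨g, hg, hga, hgb⟩ := e2 w v hwa hwb hva hvb hvw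
            refine ⟨g⁻¹ * (c3 y x w * c3 y x w), H.mul_mem (H.inv_mem hg) (H.mul_mem (h w hwa hwb)
              (h w hwa hwb)), ?_, ?_⟩
            · rw [Perm.mul_apply, Perm.mul_apply, c3_a hab (Ne.symm hwa), c3_b (Ne.symm hwa) (Ne.symm hwb),
                Perm.inv_eq_iff_eq, hgb]
            · rw [Perm.mul_apply, Perm.mul_apply, c3_b (Ne.symm hwa) (Ne.symm hwb), c3_x,
                Perm.inv_eq_iff_eq, hga]
          · exact ⟨_, h y hya (Ne.symm hxy), c3_a hab (Ne.symm hya), c3_b (Ne.symm hya) hxy⟩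
        · by_cases hya : y = a
          · subst hya
            refine ⟨c3 y b x * c3 y b x, H.mul_mem (h x hxa hxb) (h x hxa hxb), ?_, ?_⟩
            · rw [Perm.mul_apply, c3_a hab (Ne.symm hxa), c3_b (Ne.symm hxa) (Ne.symm hxb)]
            · rw [Perm.mul_apply, c3_b (Ne.symm hxa) (Ne.symm hxb), c3_x]
          · by_cases hyb : y = b
            · subst hyb
              obtain ⟨w, hwa, hwb, hwx⟩ := fresh x
              exact e1 x w hxa hxb hwa hwb hwx
            · obtain ⟨g, hg, hga, hgb⟩ := e1 x y hxa hxb hya hyb (Ne.symm hxy)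
              refine ⟨c3 a b y * g, H.mul_mem (h y hya hyb) hg, ?_, ?_⟩
              · rw [Perm.mul_apply, hga, c3_ne hxa hxb hxy]
              · rw [Perm.mul_apply, hgb, c3_b (Ne.symm hya) (Ne.symm hyb)]
    intro x y z w hxy hzw
    obtain ⟨g, hg, hga, hgb⟩ := key x y hxy
    obtain ⟨k, hk, hka, hkb⟩ := key z w hzw
    refine ⟨⟨k * g⁻¹, H.mul_mem hk (H.inv_mem hg)⟩, ?_, ?_⟩
    · change (k * g⁻¹) x = z
      rw [Perm.mul_apply, Perm.inv_eq_iff_eq.2 hga.symm, hka]
    · change (k * g⁻¹) y = w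
      rw [Perm.mul_apply, Perm.inv_eq_iff_eq.2 hgb.symm, hkb]
  have hprim : IsPreprimitive H Λ := isPreprimitive_of_is_two_pretransitive h2
  obtain ⟨x, hx⟩ : ∃ x, x ∉ ({a, b} : Finset Λ) := by
    by_contra hcon
    push Not at hcon
    have h5 := Finset.card_le_two (a := a) (b := b)
    have h6 := Finset.card_le_card (s := Finset.univ) (t := ({a, b} : Finset Λ))
      (fun y _ => hcon y)
    rw [Finset.card_univ] at h6
    omega
  simp only [Finset.mem_insert, Finset.mem_singleton, not_or] at hx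
  refine Perm.alternatingGroup_le_of_isPreprimitive_of_isThreeCycle_mem hprim ?_ (h x hx.1 hx.2)
  have h3 : Perm.IsThreeCycle (Equiv.swap b a * Equiv.swap b x) :=
    Perm.isThreeCycle_swap_mul_swap_same (Ne.symm hab) (Ne.symm hx.2) (Ne.symm hx.1)
  rw [Equiv.swap_comm b a] at h3
  exact h3

end Cfsg.Agent.Lib.LW
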