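import Mathlib
import Cfsg.Agent.Lib.LW2
import Cfsg.Agent.Lib.LWGen

/-!
Multiply transitive permutation groups with pointwise stabilisers of odd order: the even case
(helper13).
-/

set_option autoImplicit false
set_option linter.unusedSectionVars false

namespace Cfsg.Agent.Lib.LW

open MulAction Equiv

theorem conj_odd {X : Type*} [Group X] {a b : X} (ha : a * a = 1) (hb : b * b = 1) {m : ℕ}
    (hm : orderOf (a * b) = 2 * m + 1) : (a * b) ^ (m + 1) * b = a * (a * b) ^ (m + 1) := by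
  obtain ⟨h1, h2⟩ := dihedral ha hb hm
  set c := a * (a * b) ^ (m + 1) with hc
  have hk : (a * b) ^ (m + 1) = a * c := by rw [hc, ← mul_assoc, ha, one_mul]
  have hcb : c * b = a * c := by
    rw [← h2]
    calc c * (c * a * c) = (c * c) * (a * c) := by group
      _ = a * c := by rw [h1, one_mul]
  rw [hk, mul_assoc, hcb, ← mul_assoc, ha, one_mul]

variable {β : Type*} [Fintype β] [DecidableEq β] {G : Subgroup (Perm β)} {t : ℕ}

/-- lifting a permutation of a `t`-set normalising a Klein four group -/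
theorem lift_norm (hT : Trans G t) (hK : NoInv G t) {Γ : Finset β} (hΓ : Γ.card = t) (π : β → β)
    (hπi : Set.InjOn π Γ) (hπ : ∀ x ∈ Γ, π x ∈ Γ) (hπs : ∀ y ∈ Γ, ∃ x ∈ Γ, π x = y)
    {u v u' v' : Perm β} (hu : u ∈ G) (hv : v ∈ G) (hu' : u' ∈ G) (hv' : v' ∈ G)
    (huu : u * u = 1) (hvv : v * v = 1) (huu' : u' * u' = 1) (hvv' : v' * v' = 1)
    (huv : u * v = v * u) (huv' : u' * v' = v' * u') (huΓ : ∀ x ∈ Γ, u x ∈ Γ)
    (hvΓ : ∀ x ∈ Γ, v x ∈ Γ) (h1 : ∀ x ∈ Γ, u' (π x) = π (u x))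
    (h2 : ∀ x ∈ Γ, v' (π x) = π (v x)) :
    ∃ g ∈ G, (∀ x ∈ Γ, g x = π x) ∧ g * u = u' * g ∧ g * v = v' * g := by
  -- one step
  have step : ∀ {g w w' : Perm β}, g ∈ G → w ∈ G → w' ∈ G → w * w = 1 → w' * w' = 1 →
      (∀ x ∈ Γ, w x ∈ Γ) → (∀ x ∈ Γ, g x = π x) → (∀ x ∈ Γ, w' (π x) = π (w x)) →
      ∃ m : ℕ, (∀ x ∈ Γ, ((w' * (g * w * g⁻¹)) ^ (m + 1)) x = x) ∧
        ((w' * (g * w * g⁻¹)) ^ (m + 1) * g) * w = w' * ((w' * (g * w * g⁻¹)) ^ (m + 1) * g) := by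
    intro g w w' hg hw hw' hww hww' hwΓ hgπ hrel
    set b := g * w * g⁻¹ with hb
    have hbb : b * b = 1 := by
      rw [hb]
      calc g * w * g⁻¹ * (g * w * g⁻¹) = g * (w * w) * g⁻¹ := by group
        _ = 1 := by rw [hww]; group
    have hbG : b ∈ G := G.mul_mem (G.mul_mem hg hw) (G.inv_mem hg)
    have hd : ∀ y ∈ Γ, (w' * b) y = y := by
      intro y hy
      obtain ⟨x, hx, rfl⟩ := hπs y hy
      have e1 : g⁻¹ (π x) = x := by rw [Perm.inv_eq_iff_eq, hgπ x hx]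
      have e2 : b (π x) = w' (π x) := by
        rw [hb, Perm.mul_apply, Perm.mul_apply, e1, hgπ _ (hwΓ x hx), hrel x hx]
      rw [Perm.mul_apply, e2]
      exact DFunLike.congr_fun hww' (π x)
    obtain ⟨m, hm⟩ := odd_of_fix hK (G.mul_mem hw' hbG) hΓ.ge hd
    refine ⟨m, fun x hx => pow_fix (hd x hx) _, ?_⟩
    have e3 := conj_odd hww' hbb hm
    have e4 : b * g = g * w := by rw [hb]; group
    rw [mul_assoc, ← e4, ← mul_assoc, e3, mul_assoc]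
  obtain ⟨g0, hg0, hg0π⟩ := hT Γ π hΓ.le hπi
  obtain ⟨m1, hf1, hc1⟩ := step hg0 hu hu' huu huu' huΓ hg0π h1
  set k1 := (u' * (g0 * u * g0⁻¹)) ^ (m1 + 1) with hk1
  have hk1G : k1 ∈ G := G.pow_mem (G.mul_mem hu' (G.mul_mem (G.mul_mem hg0 hu) (G.inv_mem hg0))) _
  set g1 := k1 * g0 with hg1
  have hg1G : g1 ∈ G := G.mul_mem hk1G hg0
  have hg1π : ∀ x ∈ Γ, g1 x = π x := fun x hx => by
    rw [hg1, Perm.mul_apply, hg0π x hx, hf1 _ (hπ x hx)]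
  obtain ⟨m2, hf2, hc2⟩ := step hg1G hv hv' hvv hvv' hvΓ hg1π h2
  set k2 := (v' * (g1 * v * g1⁻¹)) ^ (m2 + 1) with hk2
  have hk2G : k2 ∈ G := G.pow_mem (G.mul_mem hv' (G.mul_mem (G.mul_mem hg1G hv) (G.inv_mem hg1G))) _
  have hcomm : Commute (v' * (g1 * v * g1⁻¹)) u' := by
    have e1 : Commute v' u' := huv'.symm
    have e2 : Commute (g1 * v * g1⁻¹) u' := by
      have e3 : u' = g1 * u * g1⁻¹ := by rw [hc1]; group
      rw [e3]
      change g1 * v * g1⁻¹ * (g1 * u * g1⁻¹) = g1 * u * g1⁻¹ * (g1 * v * g1⁻¹)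
      have e4 : g1 * v * g1⁻¹ * (g1 * u * g1⁻¹) = g1 * (v * u) * g1⁻¹ := by group
      have e5 : g1 * u * g1⁻¹ * (g1 * v * g1⁻¹) = g1 * (u * v) * g1⁻¹ := by group
      rw [e4, e5, huv]
    exact e1.mul_left e2
  have hk2u : k2 * u' = u' * k2 := (hcomm.pow_left _).eq
  refine ⟨k2 * g1, G.mul_mem hk2G hg1G, ?_, ?_, hc2⟩
  · intro x hx
    rw [Perm.mul_apply, hg1π x hx, hf2 _ (hπ x hx)]
  · rw [mul_assoc, hc1, ← mul_assoc, hk2u, mul_assoc]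

/-- a 3-cycle of `Λ` is induced -/
def C (G : Subgroup (Perm β)) (Λ : Finset β) (a b x : β) : Prop :=
  ∃ g ∈ G, g a = b ∧ g b = x ∧ g x = a ∧ ∀ y ∈ Λ, y ≠ a → y ≠ b → y ≠ x → g y = y

theorem C.conj {Λ : Finset β} {a b x : β} (h : C G Λ a b x) {k : Perm β} (hk : k ∈ G)
    (hkΛ : ∀ y ∈ Λ, k y ∈ Λ) : C G Λ (k a) (k b) (k x) := by
  obtain ⟨g, hg, h1, h2, h3, h4⟩ := h
  have hinv : ∀ y ∈ Λ, ∃ z ∈ Λ, k z = y := by
    intro y hy
    have hs : Set.SurjOn k Λ Λ := by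
      apply Finset.surjOn_of_injOn_of_card_le k (fun y hy => hkΛ y hy) (k.injective.injOn) le_rfl
    exact hs hy
  have e : ∀ z, (k * g * k⁻¹) (k z) = k (g z) := fun z => by
    rw [Perm.mul_apply, Perm.mul_apply, Perm.inv_eq_iff_eq.2 rfl]
  refine ⟨k * g * k⁻¹, G.mul_mem (G.mul_mem hk hg) (G.inv_mem hk), by rw [e, h1], by rw [e, h2],
    by rw [e, h3], ?_⟩
  intro y hy ha hb hx
  obtain ⟨z, hz, rfl⟩ := hinv y hy
  rw [e, h4 z hz (fun h => ha (by rw [h])) (fun h => hb (by rw [h])) (fun h => hx (by rw [h]))]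

theorem C.symm {Λ : Finset β} {a b x : β} (h : C G Λ a b x) : C G Λ b a x := by
  obtain ⟨g, hg, h1, h2, h3, h4⟩ := h
  refine ⟨g⁻¹, G.inv_mem hg, ?_, ?_, ?_, ?_⟩
  · rw [Perm.inv_eq_iff_eq, h1]
  · rw [Perm.inv_eq_iff_eq, h3]
  · rw [Perm.inv_eq_iff_eq, h2]
  · intro y hy hb ha hx
    rw [Perm.inv_eq_iff_eq, h4 y hy ha hb hx]

theorem C.mem {Λ : Finset β} {a b x : ↥Λ} (hab : a ≠ b) (hax : a ≠ x) (hbx : b ≠ x)
    (h : C G Λ a b x) : c3 a b x ∈ ind G Λ := by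
  obtain ⟨g, hg, h1, h2, h3, h4⟩ := h
  refine ⟨g, hg, fun y => ?_⟩
  by_cases ha : y = a
  · rw [ha, c3_a hab hax, h1]
  · by_cases hb : y = b
    · rw [hb, c3_b hax hbx, h2]
    · by_cases hx : y = x
      · rw [hx, c3_x, h3]
      · rw [c3_ne ha hb hx]
        exact h4 y y.2 (fun h => ha (Subtype.ext h)) (fun h => hb (Subtype.ext h))
          (fun h => hx (Subtype.ext h))

end Cfsg.Agent.Lib.LW
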