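import Mathlib
import Cfsg.Agent.Lib.LW3

/-!
Multiply transitive permutation groups with pointwise stabilisers of odd order: the even case,
a Klein four group with common fixed points (helper13).
-/

set_option autoImplicit false
set_option linter.unusedSectionVars false

namespace Cfsg.Agent.Lib.LW

open MulAction Equiv

variable {β : Type*} [Fintype β] [DecidableEq β] {G : Subgroup (Perm β)} {t : ℕ}

theorem card_fx_le (hK : NoInv G t) (ht : 2 ≤ t) (hn : t ≤ Fintype.card β)
    (hpar : Even (Fintype.card β - t)) {w : Perm β} (hw : w ∈ G) (hww : w * w = 1) (hw1 : w ≠ 1) :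
    (fx w).card ≤ t - 2 := by
  have h1 := card_fx_lt hK hw hww hw1
  have h2 := card_fix_mod hww
  change (fx w).card % 2 = _ at h2
  obtain ⟨r, hr⟩ := hpar
  omega

theorem fx_eq_of (hK : NoInv G t) (ht : 2 ≤ t) (hn : t ≤ Fintype.card β)
    (hpar : Even (Fintype.card β - t)) {w : Perm β} (hw : w ∈ G) (hww : w * w = 1) (hw1 : w ≠ 1)
    {F : Finset β} (hF : F.card = t - 2) (h : ∀ x ∈ F, w x = x) : fx w = F := by
  symm
  apply Finset.eq_of_subset_of_card_le
  · intro x hx
    exact mem_fx.2 (h x hx)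
  · rw [hF]
    exact card_fx_le hK ht hn hpar hw hww hw1

set_option maxHeartbeats 1600000 in
theorem alt_of_klein (hT : Trans G t) (hK : NoInv G t) (ht : 4 ≤ t) (hn : t < Fintype.card β)
    (hpar : Even (Fintype.card β - t)) {u v : Perm β} (hu : u ∈ G) (hv : v ∈ G)
    (huu : u * u = 1) (hvv : v * v = 1) (huv : u * v = v * u) (hne : u ≠ v)
    (hfx : fx u = fx v) (hc : (fx u).card = t - 2) :
    ∃ Λ : Finset β, Λ.card = t + 2 ∧ alternatingGroup ↥Λ ≤ ind G Λ := by
  set F := fx u with hFdef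
  have hFu : ∀ x, x ∈ F ↔ u x = x := fun x => mem_fx
  have hFv : ∀ x, x ∈ F ↔ v x = x := fun x => by rw [hfx]; exact mem_fx
  have uu : ∀ x, u (u x) = x := fun x => DFunLike.congr_fun huu x
  have vv : ∀ x, v (v x) = x := fun x => DFunLike.congr_fun hvv x
  have uv : ∀ x, u (v x) = v (u x) := fun x => DFunLike.congr_fun huv x
  have huvne : u * v ≠ 1 := by
    intro h
    apply hne
    calc u = u * (v * v) := by rw [hvv, mul_one]
      _ = (u * v) * v := by rw [mul_assoc]
      _ = v := by rw [h, one_mul]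
  have huvG : u * v ∈ G := G.mul_mem hu hv
  have huvuv : (u * v) * (u * v) = 1 := by
    calc (u * v) * (u * v) = u * (v * u) * v := by group
      _ = u * (u * v) * v := by rw [huv]
      _ = (u * u) * (v * v) := by group
      _ = 1 := by rw [huu, hvv, one_mul]
  have hfuv : fx (u * v) = F := fx_eq_of hK (by omega) hn.le hpar huvG huvuv huvne hc
    (fun x hx => by rw [Perm.mul_apply, (hFv x).1 hx, (hFu x).1 hx])
  have hFuv : ∀ x, x ∈ F ↔ u (v x) = x := fun x => by rw [← hfuv]; exact mem_fx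
  have huF : ∀ x, x ∉ F → u x ∉ F := by
    intro x hx h
    have h1 := (hFu _).1 h
    rw [uu] at h1
    exact hx ((hFu x).2 h1.symm)
  have hvF : ∀ x, x ∉ F → v x ∉ F := by
    intro x hx h
    have h1 := (hFv _).1 h
    rw [vv] at h1
    exact hx ((hFv x).2 h1.symm)
  obtain ⟨p1, hp1⟩ : ∃ p1, p1 ∉ F := by
    by_contra hcon
    push Not at hcon
    have h6 := Finset.card_le_card (s := Finset.univ) (t := F) (fun y _ => hcon y)
    rw [Finset.card_univ] at h6
    omega
  obtain ⟨p2, hp2⟩ : ∃ p2, p2 = u p1 := ⟨_, rfl⟩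
  obtain ⟨p3, hp3⟩ : ∃ p3, p3 = v p1 := ⟨_, rfl⟩
  obtain ⟨p4, hp4⟩ : ∃ p4, p4 = u (v p1) := ⟨_, rfl⟩
  have u1 : u p1 = p2 := hp2.symm
  have u2 : u p2 = p1 := by rw [hp2, uu]
  have u3 : u p3 = p4 := by rw [hp3, hp4]
  have u4 : u p4 = p3 := by rw [hp4, uu, hp3]
  have v1 : v p1 = p3 := hp3.symm
  have v3 : v p3 = p1 := by rw [hp3, vv]
  have v2 : v p2 = p4 := by rw [hp2, hp4, uv]
  have v4 : v p4 = p2 := by rw [← v2, vv]
  have hp2F : p2 ∉ F := hp2 ▸ huF p1 hp1
  have hp3F : p3 ∉ F := hp3 ▸ hvF p1 hp1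
  have hp4F : p4 ∉ F := hp4 ▸ huF _ (hvF p1 hp1)
  have h12 : p1 ≠ p2 := fun h => hp1 ((hFu p1).2 (u1.trans h.symm))
  have h13 : p1 ≠ p3 := fun h => hp1 ((hFv p1).2 (v1.trans h.symm))
  have h14 : p1 ≠ p4 := fun h => hp1 ((hFuv p1).2 (by rw [v1, u3, ← h]))
  have h23 : p2 ≠ p3 := fun h => hp1 ((hFuv p1).2 (by rw [v1, ← h, u2]))
  have h24 : p2 ≠ p4 := fun h => hp2F ((hFv p2).2 (v2.trans h.symm))
  have h34 : p3 ≠ p4 := fun h => hp3F ((hFu p3).2 (u3.trans h.symm))
  set Γ4 : Finset β := {p1, p2, p3, p4} with hΓ4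
  have hΓ4c : Γ4.card = 4 := by
    rw [hΓ4, Finset.card_insert_of_notMem, Finset.card_insert_of_notMem,
      Finset.card_insert_of_notMem, Finset.card_singleton]
    · simp [h34]
    · simp [h23, h24]
    · simp [h12, h13, h14]
  have hdisF : ∀ {E : Finset β}, E ⊆ F → Disjoint Γ4 E := by
    intro E hE
    rw [Finset.disjoint_left]
    intro x hx hxE
    have hxF := hE hxE
    simp only [hΓ4, Finset.mem_insert, Finset.mem_singleton] at hx
    rcases hx with rfl | rfl | rfl | rfl
    · exact hp1 hxF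
    · exact hp2F hxF
    · exact hp3F hxF
    · exact hp4F hxF
  set Λ := Γ4 ∪ F with hΛ
  have hΛc : Λ.card = t + 2 := by
    rw [hΛ, Finset.card_union_of_disjoint (hdisF (Finset.Subset.refl _)), hΓ4c, hc]
    omega
  have memΛ : ∀ x, x ∈ Λ ↔ x = p1 ∨ x = p2 ∨ x = p3 ∨ x = p4 ∨ x ∈ F := by
    intro x
    simp [hΛ, hΓ4, or_assoc]
  -- the main construction
  have pair : ∀ q ∈ F, ∀ q' ∈ F, q ≠ q' →
      C G Λ p1 p2 p3 ∧ C G Λ p1 p2 p4 ∧ C G Λ p1 p2 q := by
    intro q hq q' hq' hqq'
    set E := (F.erase q).erase q' with hE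
    have hEF : E ⊆ F := (Finset.erase_subset _ _).trans (Finset.erase_subset _ _)
    have hEc : E.card = t - 4 := by
      rw [hE, Finset.card_erase_of_mem (Finset.mem_erase.2 ⟨Ne.symm hqq', hq'⟩),
        Finset.card_erase_of_mem hq, hc]
      omega
    have hqE : q ∉ E := by simp [hE]
    have hq'E : q' ∉ E := by simp [hE]
    have memF : ∀ x, x ∈ F ↔ x = q ∨ x = q' ∨ x ∈ E := by
      intro x
      constructor
      · intro hx
        by_cases h1 : x = q
        · exact Or.inl h1
        · by_cases h2 : x = q'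
          · exact Or.inr (Or.inl h2)
          · exact Or.inr (Or.inr (Finset.mem_erase.2 ⟨h2, Finset.mem_erase.2 ⟨h1, hx⟩⟩))
      · rintro (rfl | rfl | hx)
        · exact hq
        · exact hq'
        · exact hEF hx
    set Γ := Γ4 ∪ E with hΓ
    have hΓc : Γ.card = t := by
      rw [hΓ, Finset.card_union_of_disjoint (hdisF hEF), hΓ4c, hEc]
      omega
    have memΓ : ∀ x, x ∈ Γ ↔ x = p1 ∨ x = p2 ∨ x = p3 ∨ x = p4 ∨ x ∈ E := by
      intro x
      simp [hΓ, hΓ4, or_assoc]
    have m1 : p1 ∈ Γ := (memΓ _).2 (Or.inl rfl)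
    have m2 : p2 ∈ Γ := (memΓ _).2 (Or.inr (Or.inl rfl))
    have m3 : p3 ∈ Γ := (memΓ _).2 (Or.inr (Or.inr (Or.inl rfl)))
    have m4 : p4 ∈ Γ := (memΓ _).2 (Or.inr (Or.inr (Or.inr (Or.inl rfl))))
    have mE : ∀ x ∈ E, x ∈ Γ := fun x hx => (memΓ _).2 (Or.inr (Or.inr (Or.inr (Or.inr hx))))
    have hxE : ∀ x ∈ E, x ≠ p1 ∧ x ≠ p2 ∧ x ≠ p3 ∧ x ≠ p4 := by
      intro x hx
      have hxF := hEF hx
      exact ⟨fun h => hp1 (h ▸ hxF), fun h => hp2F (h ▸ hxF), fun h => hp3F (h ▸ hxF),
        fun h => hp4F (h ▸ hxF)⟩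
    have huE : ∀ x ∈ E, u x = x := fun x hx => (hFu x).1 (hEF hx)
    have hvE : ∀ x ∈ E, v x = x := fun x hx => (hFv x).1 (hEF hx)
    -- the 3-cycle
    set π := c3 p1 p2 p3 with hπ
    have π1 : π p1 = p2 := c3_a h12 h13
    have π2 : π p2 = p3 := c3_b h13 h23
    have π3 : π p3 = p1 := c3_x
    have π4 : π p4 = p4 := c3_ne (Ne.symm h14) (Ne.symm h24) (Ne.symm h34)
    have πE : ∀ x ∈ E, π x = x := fun x hx =>
      c3_ne (hxE x hx).1 (hxE x hx).2.1 (hxE x hx).2.2.1
    have hπΓ : ∀ x ∈ Γ, π x ∈ Γ := by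
      intro x hx
      rcases (memΓ x).1 hx with rfl | rfl | rfl | rfl | hx'
      · rw [π1]; exact m2
      · rw [π2]; exact m3
      · rw [π3]; exact m1
      · rw [π4]; exact m4
      · rw [πE x hx']; exact hx
    have hπs : ∀ y ∈ Γ, ∃ x ∈ Γ, π x = y := by
      intro y hy
      rcases (memΓ y).1 hy with rfl | rfl | rfl | rfl | hy'
      · exact ⟨_, m3, π3⟩
      · exact ⟨_, m1, π1⟩
      · exact ⟨_, m2, π2⟩
      · exact ⟨_, m4, π4⟩
      · exact ⟨y, hy, πE y hy'⟩
    have huΓ : ∀ x ∈ Γ, u x ∈ Γ := by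
      intro x hx
      rcases (memΓ x).1 hx with rfl | rfl | rfl | rfl | hx'
      · rw [u1]; exact m2
      · rw [u2]; exact m1
      · rw [u3]; exact m4
      · rw [u4]; exact m3
      · rw [huE x hx']; exact hx
    have hvΓ : ∀ x ∈ Γ, v x ∈ Γ := by
      intro x hx
      rcases (memΓ x).1 hx with rfl | rfl | rfl | rfl | hx'
      · rw [v1]; exact m3
      · rw [v2]; exact m4
      · rw [v3]; exact m1
      · rw [v4]; exact m2
      · rw [hvE x hx']; exact hx
    obtain ⟨e, he, heπ, heu, hev⟩ := lift_norm hT hK hΓc π (π.injective.injOn) hπΓ hπs hu hv huvG hu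
      huu hvv huvuv huu huv (by rw [← mul_assoc, huu, one_mul, mul_assoc, ← huv, ← mul_assoc, huu, one_mul])
      huΓ hvΓ
      (by
        intro x hx
        rw [Perm.mul_apply]
        rcases (memΓ x).1 hx with rfl | rfl | rfl | rfl | hx'
        · rw [π1, u1, π2, v2, u4]
        · rw [π2, u2, π1, v3, u1]
        · rw [π3, u3, π4, v1, u3]
        · rw [π4, u4, π3, v4, u2]
        · rw [πE x hx', huE x hx', πE x hx', hvE x hx', huE x hx'])
      (by
        intro x hx
        rcases (memΓ x).1 hx with rfl | rfl | rfl | rfl | hx'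
        · rw [π1, v1, π3, u2]
        · rw [π2, v2, π4, u3]
        · rw [π3, v3, π1, u1]
        · rw [π4, v4, π2, u4]
        · rw [πE x hx', hvE x hx', πE x hx', huE x hx'])
    have heE : ∀ x ∈ E, e x = x := fun x hx => by rw [heπ x (mE x hx), πE x hx]
    have heF : ∀ x ∈ F, e x ∈ F := by
      intro x hx
      rw [hFuv]
      have h1 := DFunLike.congr_fun heu x
      change e (u x) = u (v (e x)) at h1
      rw [← h1, (hFu x).1 hx]
    have heq : e q = q ∨ e q = q' := by
      rcases (memF _).1 (heF q hq) with h | h | h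
      · exact Or.inl h
      · exact Or.inr h
      · exact absurd (e.injective (heE _ h) ▸ h) hqE
    have heq' : e q' = q ∨ e q' = q' := by
      rcases (memF _).1 (heF q' hq') with h | h | h
      · exact Or.inl h
      · exact Or.inr h
      · exact absurd (e.injective (heE _ h) ▸ h) hq'E
    have he2 : ∀ x ∈ F, e (e x) = x := by
      intro x hx
      rcases (memF x).1 hx with rfl | rfl | hx'
      · rcases heq with h | h
        · rw [h, h]
        · rcases heq' with h' | h'
          · rw [h, h']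
          · exact absurd (e.injective (h.trans h'.symm)) hqq'
      · rcases heq' with h | h
        · rcases heq with h' | h'
          · exact absurd (e.injective (h'.trans h.symm)) hqq'
          · rw [h, h']
        · rw [h, h]
      · rw [heE x hx', heE x hx']
    have e1 : e p1 = p2 := by rw [heπ p1 m1, π1]
    have e2 : e p2 = p3 := by rw [heπ p2 m2, π2]
    have e3 : e p3 = p1 := by rw [heπ p3 m3, π3]
    have e4 : e p4 = p4 := by rw [heπ p4 m4, π4]
    have hC3 : C G Λ p1 p2 p3 := by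
      refine ⟨e * (e * (e * e)), G.mul_mem he (G.mul_mem he (G.mul_mem he he)), ?_, ?_, ?_, ?_⟩
      · change e (e (e (e p1))) = p2
        rw [e1, e2, e3, e1]
      · change e (e (e (e p2))) = p3
        rw [e2, e3, e1, e2]
      · change e (e (e (e p3))) = p1
        rw [e3, e1, e2, e3]
      · intro y hy hy1 hy2 hy3
        change e (e (e (e y))) = y
        rcases (memΛ y).1 hy with h | h | h | h | h
        · exact absurd h hy1
        · exact absurd h hy2
        · exact absurd h hy3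
        · rw [h, e4, e4, e4, e4]
        · rw [he2 y h, he2 y h]
    -- the involution `a`
    have hsw : ∀ x ∈ Γ, Equiv.swap p3 p4 x ∈ Γ := by
      intro x hx
      rw [Equiv.swap_apply_def]
      split_ifs
      · exact m4
      · exact m3
      · exact hx
    have s1 : Equiv.swap p3 p4 p1 = p1 := Equiv.swap_apply_of_ne_of_ne h13 h14
    have s2 : Equiv.swap p3 p4 p2 = p2 := Equiv.swap_apply_of_ne_of_ne h23 h24
    have s3 : Equiv.swap p3 p4 p3 = p4 := Equiv.swap_apply_left _ _
    have s4 : Equiv.swap p3 p4 p4 = p3 := Equiv.swap_apply_right _ _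
    have sE : ∀ x ∈ E, Equiv.swap p3 p4 x = x := fun x hx =>
      Equiv.swap_apply_of_ne_of_ne (hxE x hx).2.2.1 (hxE x hx).2.2.2
    obtain ⟨a, ha, haa, hau, haΓ⟩ := lift_comm hT hK hΓc hu huu huΓ (Equiv.swap p3 p4) hsw
      (fun x _ => Equiv.swap_apply_self p3 p4 x)
      (by
        intro x hx
        rcases (memΓ x).1 hx with rfl | rfl | rfl | rfl | hx'
        · rw [s1, u1, s2]
        · rw [s2, u2, s1]
        · rw [s3, u3, s4, u4]
        · rw [s4, u4, s3, u3]
        · rw [sE x hx', huE x hx', sE x hx'])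
    have a1 : a p1 = p1 := by rw [haΓ p1 m1, s1]
    have a2 : a p2 = p2 := by rw [haΓ p2 m2, s2]
    have a3 : a p3 = p4 := by rw [haΓ p3 m3, s3]
    have a4 : a p4 = p3 := by rw [haΓ p4 m4, s4]
    have aE : ∀ x ∈ E, a x = x := fun x hx => by rw [haΓ x (mE x hx), sE x hx]
    have hane : a ≠ 1 := by
      intro h
      rw [h] at a3
      exact h34 a3
    have hfxa : fx a = insert p1 (insert p2 E) := by
      apply fx_eq_of hK (by omega) hn.le hpar ha haa hane
      · rw [Finset.card_insert_of_notMem, Finset.card_insert_of_notMem, hEc]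
        · omega
        · exact fun h => (hxE _ h).2.1 rfl
        · rw [Finset.mem_insert]
          rintro (h | h)
          · exact h12 h
          · exact (hxE _ h).1 rfl
      · intro x hx
        rw [Finset.mem_insert, Finset.mem_insert] at hx
        rcases hx with rfl | rfl | hx
        · exact a1
        · exact a2
        · exact aE x hx
    have hafx : ∀ x, a x = x → x = p1 ∨ x = p2 ∨ x ∈ E := by
      intro x hx
      have h1 : x ∈ fx a := mem_fx.2 hx
      rw [hfxa, Finset.mem_insert, Finset.mem_insert] at h1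
      exact h1
    have haF : ∀ x ∈ F, a x ∈ F := by
      intro x hx
      rw [hFu]
      have h1 := DFunLike.congr_fun hau x
      change a (u x) = u (a x) at h1
      rw [← h1, (hFu x).1 hx]
    have hqp : ∀ x ∈ F, x ≠ p1 ∧ x ≠ p2 ∧ x ≠ p3 ∧ x ≠ p4 := fun x hxF =>
      ⟨fun h => hp1 (h ▸ hxF), fun h => hp2F (h ▸ hxF), fun h => hp3F (h ▸ hxF),
        fun h => hp4F (h ▸ hxF)⟩
    have aq : a q = q' := by
      rcases (memF _).1 (haF q hq) with h | h | h
      · rcases hafx q h with h' | h' | h'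
        · exact absurd h' (hqp q hq).1
        · exact absurd h' (hqp q hq).2.1
        · exact absurd h' hqE
      · exact h
      · exact absurd (a.injective (aE _ h) ▸ h) hqE
    have aq' : a q' = q := by
      rw [← aq]; exact DFunLike.congr_fun haa q
    have haΛ : ∀ y ∈ Λ, a y ∈ Λ := by
      intro y hy
      rw [memΛ]
      rcases (memΛ y).1 hy with rfl | rfl | rfl | rfl | h
      · exact Or.inl a1
      · exact Or.inr (Or.inl a2)
      · exact Or.inr (Or.inr (Or.inr (Or.inl a3)))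
      · exact Or.inr (Or.inr (Or.inl a4))
      · exact Or.inr (Or.inr (Or.inr (Or.inr (haF y h))))
    have hC4 : C G Λ p1 p2 p4 := by
      have h := hC3.conj ha haΛ
      rwa [a1, a2, a3] at h
    -- the involution `f`
    set Γ' : Finset β := insert p3 (insert p4 (insert q (insert q' E))) with hΓ'
    have hΓ'c : Γ'.card = t := by
      rw [hΓ', Finset.card_insert_of_notMem, Finset.card_insert_of_notMem,
        Finset.card_insert_of_notMem, Finset.card_insert_of_notMem hq'E, hEc]
      · omega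
      · simp [hqq', hqE]
      · have h1 := (hqp q hq).2.2.2
        have h2 := (hqp q' hq').2.2.2
        have h3 : p4 ∉ E := fun h => (hxE _ h).2.2.2 rfl
        simp [Ne.symm h1, Ne.symm h2, h3]
      · have h1 := (hqp q hq).2.2.1
        have h2 := (hqp q' hq').2.2.1
        have h3 : p3 ∉ E := fun h => (hxE _ h).2.2.1 rfl
        simp [Ne.symm h1, Ne.symm h2, h3, h34]
    have memΓ' : ∀ x, x ∈ Γ' ↔ x = p3 ∨ x = p4 ∨ x = q ∨ x = q' ∨ x ∈ E := by
      intro x
      simp [hΓ']
    obtain ⟨hq1, hq2, hq3, hq4⟩ := hqp q hq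
    obtain ⟨hq1', hq2', hq3', hq4'⟩ := hqp q' hq'
    set ρ : Perm β := Equiv.swap p3 q * Equiv.swap p4 q' with hρ
    have r3 : ρ p3 = q := by
      rw [hρ, Perm.mul_apply, Equiv.swap_apply_of_ne_of_ne h34 (Ne.symm hq3'),
        Equiv.swap_apply_left]
    have rq : ρ q = p3 := by
      rw [hρ, Perm.mul_apply, Equiv.swap_apply_of_ne_of_ne hq4 hqq', Equiv.swap_apply_right]
    have r4 : ρ p4 = q' := by
      rw [hρ, Perm.mul_apply, Equiv.swap_apply_left, Equiv.swap_apply_of_ne_of_ne hq3' (Ne.symm hqq')]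
    have rq' : ρ q' = p4 := by
      rw [hρ, Perm.mul_apply, Equiv.swap_apply_right, Equiv.swap_apply_of_ne_of_ne (Ne.symm h34)
        (Ne.symm hq4)]
    have rE : ∀ x ∈ E, ρ x = x := by
      intro x hx
      have h1 : x ≠ q := fun h => hqE (h ▸ hx)
      have h2 : x ≠ q' := fun h => hq'E (h ▸ hx)
      rw [hρ, Perm.mul_apply, Equiv.swap_apply_of_ne_of_ne (hxE x hx).2.2.2 h2,
        Equiv.swap_apply_of_ne_of_ne (hxE x hx).2.2.1 h1]
    have n3 : p3 ∈ Γ' := (memΓ' _).2 (Or.inl rfl)
    have n4 : p4 ∈ Γ' := (memΓ' _).2 (Or.inr (Or.inl rfl))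
    have nq : q ∈ Γ' := (memΓ' _).2 (Or.inr (Or.inr (Or.inl rfl)))
    have nq' : q' ∈ Γ' := (memΓ' _).2 (Or.inr (Or.inr (Or.inr (Or.inl rfl))))
    have nE : ∀ x ∈ E, x ∈ Γ' := fun x hx => (memΓ' _).2 (Or.inr (Or.inr (Or.inr (Or.inr hx))))
    obtain ⟨f, hf, hff, hfa, hfΓ'⟩ := lift_comm hT hK hΓ'c ha haa
      (by
        intro x hx
        rcases (memΓ' x).1 hx with rfl | rfl | rfl | rfl | hx'
        · rw [a3]; exact n4
        · rw [a4]; exact n3
        · rw [aq]; exact nq'
        · rw [aq']; exact nq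
        · rw [aE x hx']; exact hx) ρ
      (by
        intro x hx
        rcases (memΓ' x).1 hx with rfl | rfl | rfl | rfl | hx'
        · rw [r3]; exact nq
        · rw [r4]; exact nq'
        · rw [rq]; exact n3
        · rw [rq']; exact n4
        · rw [rE x hx']; exact hx)
      (by
        intro x hx
        rcases (memΓ' x).1 hx with rfl | rfl | rfl | rfl | hx'
        · rw [r3, rq]
        · rw [r4, rq']
        · rw [rq, r3]
        · rw [rq', r4]
        · rw [rE x hx', rE x hx'])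
      (by
        intro x hx
        rcases (memΓ' x).1 hx with rfl | rfl | rfl | rfl | hx'
        · rw [r3, aq, a3, r4]
        · rw [r4, aq', a4, r3]
        · rw [rq, a3, aq, rq']
        · rw [rq', a4, aq', rq]
        · rw [rE x hx', aE x hx', rE x hx'])
    have f3 : f p3 = q := by rw [hfΓ' p3 n3, r3]
    have f4 : f p4 = q' := by rw [hfΓ' p4 n4, r4]
    have fq : f q = p3 := by rw [hfΓ' q nq, rq]
    have fq' : f q' = p4 := by rw [hfΓ' q' nq', rq']
    have fE : ∀ x ∈ E, f x = x := fun x hx => by rw [hfΓ' x (nE x hx), rE x hx]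
    have hfp : ∀ x, a x = x → x ∉ E → f x = p1 ∨ f x = p2 := by
      intro x hax hxE'
      have h1 : a (f x) = f x := by
        have h2 := DFunLike.congr_fun hfa x
        change f (a x) = a (f x) at h2
        rw [← h2, hax]
      rcases hafx _ h1 with h | h | h
      · exact Or.inl h
      · exact Or.inr h
      · exact absurd (f.injective (fE _ h) ▸ h) hxE'
    have fp1 := hfp p1 a1 (fun h => (hxE _ h).1 rfl)
    have fp2 := hfp p2 a2 (fun h => (hxE _ h).2.1 rfl)
    have hfΛ : ∀ y ∈ Λ, f y ∈ Λ := by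
      intro y hy
      rw [memΛ]
      rcases (memΛ y).1 hy with rfl | rfl | rfl | rfl | h
      · rcases fp1 with h | h
        · exact Or.inl h
        · exact Or.inr (Or.inl h)
      · rcases fp2 with h | h
        · exact Or.inl h
        · exact Or.inr (Or.inl h)
      · rw [f3]; exact Or.inr (Or.inr (Or.inr (Or.inr hq)))
      · rw [f4]; exact Or.inr (Or.inr (Or.inr (Or.inr hq')))
      · rcases (memF y).1 h with rfl | rfl | h'
        · exact Or.inr (Or.inr (Or.inl fq))
        · exact Or.inr (Or.inr (Or.inr (Or.inl fq')))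
        · rw [fE y h']
          exact Or.inr (Or.inr (Or.inr (Or.inr h)))
    have hCq : C G Λ p1 p2 q := by
      have h := hC3.conj hf hfΛ
      rw [f3] at h
      rcases fp1 with h1 | h1
      · rcases fp2 with h2 | h2
        · exact absurd (f.injective (h1.trans h2.symm)) h12
        · rwa [h1, h2] at h
      · rcases fp2 with h2 | h2
        · rw [h1, h2] at h
          exact h.symm
        · exact absurd (f.injective (h1.trans h2.symm)) h12
    exact ⟨hC3, hC4, hCq⟩
  have hFc : 1 < F.card := by omega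
  obtain ⟨q0, hq0, q1, hq1, hq01⟩ := Finset.one_lt_card.1 hFc
  obtain ⟨hC3, hC4, -⟩ := pair q0 hq0 q1 hq1 hq01
  have l1 : p1 ∈ Λ := (memΛ _).2 (Or.inl rfl)
  have l2 : p2 ∈ Λ := (memΛ _).2 (Or.inr (Or.inl rfl))
  refine ⟨Λ, hΛc, alt_le (a := (⟨p1, l1⟩ : ↥Λ)) (b := ⟨p2, l2⟩) ?_ ?_ ?_⟩
  · rw [Fintype.card_coe, hΛc]
    omega
  · exact fun h => h12 (congrArg Subtype.val h)
  · rintro ⟨x, hx⟩ hxa hxb
    have hxa' : x ≠ p1 := fun h => hxa (Subtype.ext h)
    have hxb' : x ≠ p2 := fun h => hxb (Subtype.ext h)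
    have hCx : C G Λ p1 p2 x := by
      rcases (memΛ x).1 hx with rfl | rfl | rfl | rfl | h
      · exact absurd rfl hxa'
      · exact absurd rfl hxb'
      · exact hC3
      · exact hC4
      · obtain ⟨q', hq'⟩ : ∃ q' ∈ F, x ≠ q' := by
          by_cases h0 : x = q0
          · exact ⟨q1, hq1, by rw [h0]; exact hq01⟩
          · exact ⟨q0, hq0, h0⟩
        exact (pair x h q' hq'.1 hq'.2).2.2
    exact C.mem (fun h => h12 (congrArg Subtype.val h)) (Ne.symm hxa) (Ne.symm hxb) hCx

end Cfsg.Agent.Lib.LW
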