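import Mathlib
import Cfsg.Agent.Lib.LW4
import Cfsg.Agent.Lib.ZStarU

/-!
Multiply transitive permutation groups with pointwise stabilisers of odd order: the even case,
existence of a Klein four group with common fixed points, by the Z*-theorem (helper13).
-/

set_option autoImplicit false
set_option linter.unusedSectionVars false

namespace Cfsg.Agent.Lib.LW

open MulAction Equiv

variable {β : Type*} [Fintype β] [DecidableEq β] {G : Subgroup (Perm β)} {t : ℕ}

/-- the pointwise stabiliser -/
def pst (G : Subgroup (Perm β)) (F : Finset β) : Subgroup (Perm β) where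
  carrier := {g | g ∈ G ∧ ∀ x ∈ F, g x = x}
  one_mem' := ⟨G.one_mem, fun _ _ => rfl⟩
  mul_mem' := by
    rintro g h ⟨hg, h1⟩ ⟨hh, h2⟩
    exact ⟨G.mul_mem hg hh, fun x hx => by rw [Perm.mul_apply, h2 x hx, h1 x hx]⟩
  inv_mem' := by
    rintro g ⟨hg, h1⟩
    exact ⟨G.inv_mem hg, fun x hx => by rw [Perm.inv_eq_iff_eq, h1 x hx]⟩

theorem mem_pst {F : Finset β} {g : Perm β} : g ∈ pst G F ↔ g ∈ G ∧ ∀ x ∈ F, g x = x := Iff.rfl

theorem move_one (hT : Trans G t) {F : Finset β} (hF : F.card < t) {y y' : β} (hy : y ∉ F)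
    (hy' : y' ∉ F) : ∃ g ∈ pst G F, g y = y' := by
  obtain ⟨g, hg, hgf⟩ := hT (insert y F) (Function.update id y y')
    (by rw [Finset.card_insert_of_notMem hy]; omega)
    (by
      intro a ha b hb hab
      rw [Finset.mem_coe, Finset.mem_insert] at ha hb
      by_cases h1 : a = y
      · by_cases h2 : b = y
        · rw [h1, h2]
        · exfalso
          rw [h1, Function.update_self, Function.update_of_ne h2, id] at hab
          rcases hb with hb | hb
          · exact h2 hb
          · exact hy' (hab ▸ hb)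
      · by_cases h2 : b = y
        · exfalso
          rw [h2, Function.update_self, Function.update_of_ne h1, id] at hab
          rcases ha with ha | ha
          · exact h1 ha
          · exact hy' (hab ▸ ha)
        · rw [Function.update_of_ne h1, Function.update_of_ne h2] at hab
          exact hab)
  refine ⟨g, ⟨hg, fun x hx => ?_⟩, ?_⟩
  · have h1 : x ≠ y := fun h => hy (h ▸ hx)
    rw [hgf x (Finset.mem_insert_of_mem hx), Function.update_of_ne h1, id]
  · rw [hgf y (Finset.mem_insert_self _ _), Function.update_self]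

/-- a pointwise stabiliser which is doubly transitive on an even number of points has no normal
subgroup of odd order -/
theorem core_trivial (hT : Trans G t) (ht : 2 ≤ t) {F : Finset β} (hF : F.card = t - 2)
    (heven : Even (Fintype.card β - F.card)) (O : Subgroup ↥(pst G F)) [O.Normal]
    (hO : (Nat.card O).Coprime 2) : O = ⊥ := by
  rw [Subgroup.eq_bot_iff_forall]
  intro o ho
  by_contra hne
  obtain ⟨x, hx⟩ : ∃ x, (o : Perm β) x ≠ x := by
    by_contra hcon
    push Not at hcon
    exact hne (Subtype.ext (Equiv.ext hcon))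
  have hofix : ∀ (g : ↥(pst G F)) (w : β), w ∈ F → (g : Perm β) w = w := fun g w hw => g.2.2 w hw
  have hxF : x ∉ F := fun h => hx (hofix o x h)
  have hinv : ∀ (g : ↥(pst G F)) (w : β), w ∉ F → (g : Perm β) w ∉ F := by
    intro g w hw h
    have h1 := hofix g⁻¹ _ h
    have h2 : ((g⁻¹ : ↥(pst G F)) : Perm β) ((g : Perm β) w) = w := by
      change (g : Perm β)⁻¹ ((g : Perm β) w) = w
      rw [Perm.inv_eq_iff_eq]
    rw [h2] at h1
    rw [← h1] at h
    exact hw h
  have horb : MulAction.orbit O x = (((Finset.univ \ F : Finset β)) : Set β) := by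
    ext y
    rw [Finset.mem_coe, Finset.mem_sdiff]
    constructor
    · rintro ⟨g, rfl⟩
      exact ⟨Finset.mem_univ _, hinv g x hxF⟩
    · rintro ⟨-, hy⟩
      by_cases hyx : y = x
      · rw [hyx]; exact mem_orbit_self x
      · have hox : (o : Perm β) x ∉ insert x F := by
          rw [Finset.mem_insert]
          rintro (h | h)
          · exact hx h
          · exact hinv o x hxF h
        have hy' : y ∉ insert x F := by
          rw [Finset.mem_insert]
          rintro (h | h)
          · exact hyx h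
          · exact hy h
        obtain ⟨g, hg, hgy⟩ := move_one hT (F := insert x F)
          (by rw [Finset.card_insert_of_notMem hxF]; omega) hox hy'
        have hgx : g x = x := hg.2 x (Finset.mem_insert_self _ _)
        have hgF : g ∈ pst G F := ⟨hg.1, fun w hw => hg.2 w (Finset.mem_insert_of_mem hw)⟩
        refine ⟨⟨⟨g, hgF⟩ * o * ⟨g, hgF⟩⁻¹, ‹O.Normal›.conj_mem o ho _⟩, ?_⟩
        change g ((o : Perm β) (g⁻¹ x)) = y
        rw [Perm.inv_eq_iff_eq.2 hgx.symm, hgy]
  have h1 := Nat.card_congr (orbitProdStabilizerEquivGroup O x)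
  rw [Nat.card_prod] at h1
  have h2 : Nat.card (orbit O x) = Fintype.card β - F.card := by
    rw [horb]
    change (((Finset.univ \ F : Finset β)) : Set β).ncard = _
    rw [Set.ncard_coe_finset, Finset.card_sdiff_of_subset (Finset.subset_univ _),
      Finset.card_univ]
  have h3 : 2 ∣ Nat.card O := by
    rw [← h1, h2]
    exact Dvd.dvd.mul_right (even_iff_two_dvd.1 heven) _
  have h4 := Nat.dvd_gcd h3 (dvd_refl 2)
  rw [Nat.Coprime.gcd_eq_one hO] at h4
  omega

theorem exists_klein (hT : Trans G t) (hK : NoInv G t) (ht : 4 ≤ t) (hn : t < Fintype.card β)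
    (hpar : Even (Fintype.card β - t)) :
    ∃ u ∈ G, ∃ v ∈ G, u * u = 1 ∧ v * v = 1 ∧ u * v = v * u ∧ u ≠ v ∧ fx u = fx v ∧
      (fx u).card = t - 2 := by
  obtain ⟨Γ, hΓ⟩ : ∃ Γ : Finset β, Γ.card = t := by
    obtain ⟨Γ, -, hΓ⟩ := Finset.exists_subset_card_eq (s := (Finset.univ : Finset β)) (n := t)
      (by rw [Finset.card_univ]; omega)
    exact ⟨Γ, hΓ⟩
  obtain ⟨c, hc, d, hd, hcd⟩ := Finset.one_lt_card.1 (by omega : 1 < Γ.card)
  have hswap : ∀ x ∈ Γ, Equiv.swap c d x ∈ Γ := by
    intro x hx
    rw [Equiv.swap_apply_def]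
    split_ifs
    · exact hd
    · exact hc
    · exact hx
  obtain ⟨z, hz, hzz, -, hzΓ⟩ := lift_comm hT hK hΓ G.one_mem (one_mul 1) (fun x hx => hx)
    (Equiv.swap c d) hswap (fun x _ => Equiv.swap_apply_self c d x) (fun x _ => rfl)
  have hzc : z c = d := by rw [hzΓ c hc, Equiv.swap_apply_left]
  have hz1 : z ≠ 1 := by
    intro h1
    rw [h1] at hzc
    exact hcd hzc
  have hcard : (fx z).card = t - 2 := by
    have h1 := card_fx_le hK (by omega) hn.le hpar hz hzz hz1
    have h2 : (Γ.erase c).erase d ⊆ fx z := by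
      intro x hx
      rw [Finset.mem_erase, Finset.mem_erase] at hx
      rw [mem_fx, hzΓ x hx.2.2, Equiv.swap_apply_of_ne_of_ne hx.2.1 hx.1]
    have h3 := Finset.card_le_card h2
    rw [Finset.card_erase_of_mem (Finset.mem_erase.2 ⟨Ne.symm hcd, hd⟩),
        Finset.card_erase_of_mem hc, hΓ] at h3
    omega
  by_contra hcon
  push Not at hcon
  set F := fx z with hF
  have hzF : ∀ x, x ∈ F ↔ z x = x := fun x => mem_fx
  have hzY : z ∈ pst G F := ⟨hz, fun x hx => (hzF x).1 hx⟩
  have hzo : orderOf (⟨z, hzY⟩ : ↥(pst G F)) = 2 := by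
    rw [Subgroup.orderOf_mk]
    have := Fact.mk Nat.prime_two
    exact orderOf_eq_prime (by rw [sq, hzz]) hz1
  have hzinv : z⁻¹ = z := inv_eq_of_mul_eq_one_right hzz
  have hiso : ZStar.OddIso (⟨z, hzY⟩ : ↥(pst G F)) := by
    rintro ⟨g, hg⟩
    have e0 : ((⟨z, hzY⟩ * (⟨g, hg⟩ * ⟨z, hzY⟩ * (⟨g, hg⟩)⁻¹) : ↥(pst G F)) : Perm β) =
      z * (g * z * g⁻¹) := rfl
    rw [← Subgroup.orderOf_coe, e0]
    by_contra hodd
    rw [Nat.not_odd_iff_even] at hodd
    obtain ⟨m, hm⟩ := hodd
    set z' := g * z * g⁻¹ with hz'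
    have hz'z' : z' * z' = 1 := by
      rw [hz', show g * z * g⁻¹ * (g * z * g⁻¹) = g * (z * z) * g⁻¹ by group, hzz]
      group
    have hz'Y : z' ∈ pst G F := (pst G F).mul_mem ((pst G F).mul_mem hg hzY) ((pst G F).inv_mem hg)
    have hz'inv : z'⁻¹ = z' := inv_eq_of_mul_eq_one_right hz'z'
    set d := z * z' with hd
    have hdY : d ∈ pst G F := (pst G F).mul_mem hzY hz'Y
    have hpos : 0 < orderOf d := orderOf_pos d
    set w := d ^ m with hw
    have hww : w * w = 1 := by rw [hw, ← pow_add, ← hm, pow_orderOf_eq_one]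
    have hwinv : w⁻¹ = w := inv_eq_of_mul_eq_one_right hww
    have hwne : w ≠ 1 := by
      intro h1
      have h2 := orderOf_dvd_of_pow_eq_one h1
      have h3 := Nat.le_of_dvd (by omega) h2
      omega
    have hwY : w ∈ pst G F := (pst G F).pow_mem hdY m
    have e1 : z * d * z⁻¹ = d⁻¹ := by
      rw [hd, mul_inv_rev, hzinv, hz'inv, ← mul_assoc, hzz, one_mul]
    have hc1 : z * w = w * z := by
      have e2 : z * d ^ m * z⁻¹ = (z * d * z⁻¹) ^ m := conj_pow.symm
      rw [e1, inv_pow, ← hw, hwinv] at e2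
      rw [← mul_inv_eq_iff_eq_mul]; exact e2
    have hzw : z ≠ w := by
      intro h
      have h1 : d * w = w * d := by rw [hw, ← pow_succ, ← pow_succ']
      rw [← h] at h1
      have h2 : z * d * z⁻¹ = d := by rw [← h1, mul_inv_cancel_right]
      rw [e1] at h2
      have h3 : d * d = 1 := by
        nth_rewrite 1 [← h2]
        exact inv_mul_cancel d
      have h4 : orderOf d ∣ 2 := orderOf_dvd_of_pow_eq_one (by rw [sq, h3])
      have h5 := Nat.le_of_dvd (by norm_num) h4
      have h6 : m = 1 := by omega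
      rw [hw, h6, pow_one, hd] at h
      have h7 : z' = 1 := by
        have : z * 1 = z * z' := by rw [mul_one]; exact h
        exact (mul_left_cancel this).symm
      apply hz1
      rw [hz'] at h7
      have : z = g⁻¹ * (g * z * g⁻¹) * g := by group
      rw [this, h7]; group
    have hfw : fx w = F := fx_eq_of hK (by omega) hn.le hpar hwY.1 hww hwne hcard
      (fun x hx => hwY.2 x hx)
    exact hcon z hz w hwY.1 hzz hww hc1 hzw hfw.symm hcard
  have hZ := ZStar.inZStar_of_oddIso ZStarU.brauerSuzuki hzo hiso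
  have heven : Even (Fintype.card β - F.card) := by
    obtain ⟨r, hr⟩ := hpar
    exact ⟨r + 1, by omega⟩
  have hcore : Cfsg.pPrimeCore 2 ↥(pst G F) = ⊥ :=
    core_trivial hT (by omega) hcard heven _ (Cores.coprime_card_pPrimeCore 2 _)
  have hcent : ∀ g ∈ pst G F, g * z = z * g := by
    intro g hg
    have h1 := hZ ⟨g, hg⟩
    rw [hcore, Subgroup.mem_bot] at h1
    have h2 : g * z * g⁻¹ * z⁻¹ = 1 := congrArg Subtype.val h1
    rw [mul_inv_eq_one, mul_inv_eq_iff_eq_mul] at h2
    exact h2
  -- contradiction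
  have hcF : c ∉ F := by
    rw [hzF, hzc]; exact Ne.symm hcd
  have hdF : d ∉ F := by
    rw [hzF]
    intro h
    have h1 : z c = z d := by rw [hzc, h]
    exact hcd (z.injective h1)
  obtain ⟨y', hy'⟩ : ∃ y', y' ∉ insert c (insert d F) := by
    by_contra hcon
    push Not at hcon
    have h6 := Finset.card_le_card (s := Finset.univ) (t := insert c (insert d F)) (fun y _ => hcon y)
    rw [Finset.card_univ] at h6
    have h7 := Finset.card_insert_le c (insert d F)
    have h8 := Finset.card_insert_le d F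
    omega
  rw [Finset.mem_insert, Finset.mem_insert, not_or, not_or] at hy'
  obtain ⟨g, hg, hgd⟩ := move_one hT (F := insert c F)
    (by rw [Finset.card_insert_of_notMem hcF]; omega) (y := d) (y' := y')
    (by
      rw [Finset.mem_insert]
      rintro (h | h)
      · exact hcd h.symm
      · exact hdF h)
    (by
      rw [Finset.mem_insert]
      rintro (h | h)
      · exact hy'.1 h
      · exact hy'.2.2 h)
  have h1 := hcent g ⟨hg.1, fun x hx => hg.2 x (Finset.mem_insert_of_mem hx)⟩
  have h2 := DFunLike.congr_fun h1 c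
  change g (z c) = z (g c) at h2
  rw [hzc, hgd, hg.2 c (Finset.mem_insert_self _ _), hzc] at h2
  exact hy'.2.1 h2

end Cfsg.Agent.Lib.LW
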