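import Mathlib
import Cfsg.Agent.Lib.LW5
import Cfsg.Agent.Lib.SylowTools
import Cfsg.Agent.Lib.H31PGroup

/-!
Multiply transitive permutation groups: some set of size `t + 1` carries the alternating group
(helper13).
-/

set_option autoImplicit false
set_option linter.unusedSectionVars false

namespace Cfsg.Agent.Lib.LW

open MulAction Equiv

open scoped Pointwise in
theorem conj_into {X : Type*} [Group X] [Finite X] {H Q Q' : Subgroup X} (hQ : IsPGroup 2 Q)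
    (hQH : Q ≤ H) (hmax : ∀ R : Subgroup X, IsPGroup 2 R → R ≤ H → Q ≤ R → R ≤ Q)
    (hQ' : IsPGroup 2 Q') (hQ'H : Q' ≤ H) : ∃ h ∈ H, ∀ x ∈ Q', h * x * h⁻¹ ∈ Q := by
  have := Fact.mk Nat.prime_two
  obtain ⟨P, hP⟩ := (hQ.comap_subtype (K := H)).exists_le_sylow
  obtain ⟨P', hP'⟩ := (hQ'.comap_subtype (K := H)).exists_le_sylow
  have hPQ : ∀ y : H, y ∈ P → (y : X) ∈ Q := by
    intro y hy
    apply hmax ((P : Subgroup H).map H.subtype) (P.isPGroup'.map _) (Subgroup.map_subtype_le _) ?_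
      ⟨y, hy, rfl⟩
    intro q hq
    exact ⟨⟨q, hQH hq⟩, hP (Subgroup.mem_subgroupOf.2 hq), rfl⟩
  obtain ⟨h, hh⟩ := MulAction.exists_smul_eq H P' P
  refine ⟨h, h.2, fun x hx => ?_⟩
  have h1 : (⟨x, hQ'H hx⟩ : H) ∈ (P' : Subgroup H) := hP' (Subgroup.mem_subgroupOf.2 hx)
  have h2 : MulAut.conj h • (⟨x, hQ'H hx⟩ : H) ∈ MulAut.conj h • (P' : Subgroup H) :=
    Subgroup.smul_mem_pointwise_smul _ _ _ h1
  rw [← Sylow.coe_subgroup_smul, hh, MulAut.smul_def, MulAut.conj_apply] at h2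
  exact hPQ _ h2

variable {β : Type*} [Fintype β] [DecidableEq β] {G : Subgroup (Perm β)} {t : ℕ}

/-- all even permutations of `Δ` are induced -/
def IndAlt (G : Subgroup (Perm β)) (Δ : Finset β) : Prop :=
  ∀ σ : Perm β, Perm.sign σ = 1 → (∀ x, σ x ≠ x → x ∈ Δ) → ∃ g ∈ G, ∀ x ∈ Δ, g x = σ x

theorem supp_iff {σ : Perm β} {Δ : Finset β} (h : ∀ x, σ x ≠ x → x ∈ Δ) (x : β) :
    σ x ∈ Δ ↔ x ∈ Δ := by
  constructor
  · intro hx
    by_cases h1 : σ x = x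
    · rwa [h1] at hx
    · exact h x h1
  · intro hx
    by_cases h1 : σ x = x
    · rwa [h1]
    · apply h
      intro h2
      exact h1 (σ.injective h2)

theorem sign_sub {σ : Perm β} {Δ : Finset β} (h : ∀ x, σ x ≠ x → x ∈ Δ) :
    Perm.sign (σ.subtypePerm (p := (· ∈ Δ)) (supp_iff h)) = Perm.sign σ := by
  convert Perm.sign_subtypePerm σ (p := (· ∈ Δ)) (supp_iff h) h

theorem IndAlt.of_le {Δ : Finset β} (h : alternatingGroup ↥Δ ≤ ind G Δ) : IndAlt G Δ := by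
  intro σ hσ hΔ
  have h1 : σ.subtypePerm (supp_iff hΔ) ∈ alternatingGroup ↥Δ := by
    rw [Perm.mem_alternatingGroup, sign_sub hΔ, hσ]
  obtain ⟨g, hg, hgx⟩ := h h1
  exact ⟨g, hg, fun x hx => hgx ⟨x, hx⟩⟩

theorem IndAlt.le {Δ : Finset β} (h : IndAlt G Δ) : alternatingGroup ↥Δ ≤ ind G Δ := by
  intro σ hσ
  rw [Perm.mem_alternatingGroup] at hσ
  obtain ⟨g, hg, hgx⟩ := h (Perm.ofSubtype σ) (by rw [Perm.sign_ofSubtype, hσ])
    (fun x hx => by
      by_contra hxΔ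
      exact hx (Perm.ofSubtype_apply_of_not_mem σ hxΔ))
  refine ⟨g, hg, fun x => ?_⟩
  rw [hgx x x.2, Perm.ofSubtype_apply_coe]

theorem IndAlt.mono {Δ Λ : Finset β} (h : IndAlt G Λ) (hΔ : Δ ⊆ Λ) : IndAlt G Δ := by
  intro σ hσ hs
  obtain ⟨g, hg, hgx⟩ := h σ hσ (fun x hx => hΔ (hs x hx))
  exact ⟨g, hg, fun x hx => hgx x (hΔ hx)⟩

/-- transfer from a group on a subset -/
theorem IndAlt.map {Φ : Finset β} {M : Subgroup (Perm ↥Φ)} (hM : M ≤ ind G Φ) {Δ : Finset ↥Φ}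
    (h : IndAlt M Δ) : IndAlt G (Δ.map (Function.Embedding.subtype _)) := by
  intro σ hσ hs
  have hsΦ : ∀ x, σ x ≠ x → x ∈ Φ := by
    intro x hx
    obtain ⟨y, -, rfl⟩ := Finset.mem_map.1 (hs x hx)
    exact y.2
  obtain ⟨m, hm, hmx⟩ := h (σ.subtypePerm (supp_iff hsΦ))
    (by rw [sign_sub hsΦ, hσ])
    (by
      intro x hx
      have h1 : σ x ≠ x := fun h' => hx (Subtype.ext h')
      obtain ⟨y, hy, hyx⟩ := Finset.mem_map.1 (hs x h1)
      have h2 : y = x := Subtype.ext hyx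
      rwa [← h2])
  obtain ⟨g, hg, hgx⟩ := hM hm
  refine ⟨g, hg, ?_⟩
  intro x hx
  obtain ⟨y, hy, rfl⟩ := Finset.mem_map.1 hx
  change g (y : β) = σ y
  rw [hgx y, hmx y hy]
  rfl

/-- the case of pointwise stabilisers of odd order -/
theorem caseA (hT : Trans G t) (hK : NoInv G t) (ht : 4 ≤ t) (hn : t < Fintype.card β) :
    ∃ Δ : Finset β, Δ.card = t + 1 ∧ IndAlt G Δ := by
  rcases Nat.even_or_odd (Fintype.card β - t) with hpar | hpar
  · obtain ⟨u, hu, v, hv, huu, hvv, huv, hne, hfx, hc⟩ := exists_klein hT hK ht hn hpar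
    obtain ⟨Λ, hΛ, hA⟩ := alt_of_klein hT hK ht hn hpar hu hv huu hvv huv hne hfx hc
    obtain ⟨Δ, hΔΛ, hΔ⟩ := Finset.exists_subset_card_eq (s := Λ) (n := t + 1) (by omega)
    exact ⟨Δ, hΔ, (IndAlt.of_le hA).mono hΔΛ⟩
  · obtain ⟨Δ, hΔ, htop⟩ := caseOdd hT hK ht hn hpar
    refine ⟨Δ, hΔ, IndAlt.of_le ?_⟩
    rw [htop]
    exact le_top

/-- fixed points of a subgroup -/
noncomputable def Fx (Q : Subgroup (Perm β)) : Finset β :=
  haveI := Classical.decPred (fun x => ∀ q ∈ Q, q x = x)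
  Finset.univ.filter (fun x => ∀ q ∈ Q, q x = x)

theorem mem_Fx {Q : Subgroup (Perm β)} {x : β} : x ∈ Fx Q ↔ ∀ q ∈ Q, q x = x := by
  simp [Fx]

/-- the group induced on the fixed points of `Q` by its normaliser -/
def nrm (G Q : Subgroup (Perm β)) : Subgroup (Perm ↥(Fx Q)) where
  carrier := {m | ∃ g ∈ G, g ∈ Subgroup.normalizer (Q : Set (Perm β)) ∧ ∀ x : ↥(Fx Q), g (x : β) = m x}
  one_mem' := ⟨1, G.one_mem, Subgroup.one_mem _, fun _ => rfl⟩
  mul_mem' := by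
    rintro σ τ ⟨g, hg, hn, h1⟩ ⟨h, hh, hn', h2⟩
    exact ⟨g * h, G.mul_mem hg hh, Subgroup.mul_mem _ hn hn', fun x => by
      rw [Perm.mul_apply, h2, h1]; rfl⟩
  inv_mem' := by
    rintro σ ⟨g, hg, hn, h1⟩
    refine ⟨g⁻¹, G.inv_mem hg, Subgroup.inv_mem _ hn, fun x => ?_⟩
    rw [Perm.inv_eq_iff_eq, h1]
    simp

theorem nrm_le (G Q : Subgroup (Perm β)) : nrm G Q ≤ ind G (Fx Q) := by
  rintro m ⟨g, hg, -, h⟩
  exact ⟨g, hg, h⟩

/-- a normalising element acts on the fixed points -/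
theorem nrm_Fx {Q : Subgroup (Perm β)} {g : Perm β} (hg : g ∈ Subgroup.normalizer (Q : Set (Perm β)))
    (x : β) : g x ∈ Fx Q ↔ x ∈ Fx Q := by
  rw [mem_Fx, mem_Fx]
  constructor
  · intro h q hq
    have h1 : g * q * g⁻¹ ∈ Q := (Subgroup.mem_normalizer_iff.1 hg q).1 hq
    have h2 := h _ h1
    rw [Perm.mul_apply, Perm.mul_apply, Perm.inv_eq_iff_eq.2 rfl] at h2
    exact g.injective h2
  · intro h q hq
    have h1 : g⁻¹ * q * g ∈ Q := by
      have h3 := Subgroup.mem_normalizer_iff.1 (Subgroup.inv_mem _ hg) q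
      rw [inv_inv] at h3
      exact h3.1 hq
    have h2 := h _ h1
    rw [Perm.mul_apply, Perm.mul_apply, Perm.inv_eq_iff_eq] at h2
    exact h2

/-- an involution of the induced group lifts to a 2-element -/
theorem exists_lift {Q : Subgroup (Perm β)} {m : Perm ↥(Fx Q)} (hm : m ∈ nrm G Q)
    (hmm : m * m = 1) : ∃ g ∈ G, g ∈ Subgroup.normalizer (Q : Set (Perm β)) ∧
      (∀ x : ↥(Fx Q), g (x : β) = m x) ∧ IsPGroup 2 (Subgroup.zpowers g) := by
  obtain ⟨g, hg, hn, hgm⟩ := hm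
  have hpos := orderOf_pos g
  obtain ⟨k, r, hr, hk⟩ := Nat.exists_eq_two_pow_mul_odd hpos.ne'
  obtain ⟨j, hj⟩ := hr
  refine ⟨g ^ r, G.pow_mem hg r, Subgroup.pow_mem _ hn r, ?_, ?_⟩
  · intro x
    have h1 : g (g (x : β)) = x := by
      rw [hgm x, hgm (m x)]
      have := DFunLike.congr_fun hmm x
      exact congrArg Subtype.val this
    rw [hj, pow_odd_apply h1, hgm x]
  · apply IsPGroup.of_card (n := k)
    rw [Nat.card_zpowers, orderOf_pow, hk, Nat.gcd_eq_right (Dvd.intro_left _ rfl),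
      Nat.mul_div_cancel _ (by omega)]

end Cfsg.Agent.Lib.LW
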