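import Mathlib
import Cfsg.Agent.Lib.LW6

/-!
Multiply transitive permutation groups: some set of size `t + 1` carries the alternating group
(helper13).
-/

set_option autoImplicit false
set_option linter.unusedSectionVars false

namespace Cfsg.Agent.Lib.LW

open MulAction Equiv

variable {β : Type*} [Fintype β] [DecidableEq β] {G : Subgroup (Perm β)} {t : ℕ}

theorem pst_le {Γ : Finset β} : pst G Γ ≤ G := fun _ h => h.1

theorem le_pst_iff {Q : Subgroup (Perm β)} (hQ : Q ≤ G) {Γ : Finset β} :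
    Q ≤ pst G Γ ↔ Γ ⊆ Fx Q := by
  constructor
  · intro h x hx
    rw [mem_Fx]
    exact fun q hq => (h hq).2 x hx
  · intro h q hq
    exact ⟨hQ hq, fun x hx => mem_Fx.1 (h hx) q hq⟩

theorem sup_props {Q : Subgroup (Perm β)} (hQp : IsPGroup 2 Q) {Γ : Finset β} (hQ : Q ≤ pst G Γ)
    {g : Perm β} (hg : g ∈ pst G Γ) (hgN : g ∈ Subgroup.normalizer (Q : Set (Perm β)))
    (hgp : IsPGroup 2 (Subgroup.zpowers g)) :
    IsPGroup 2 (Subgroup.zpowers g ⊔ Q : Subgroup (Perm β)) ∧ Subgroup.zpowers g ⊔ Q ≤ pst G Γ ∧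
      g ∈ Subgroup.zpowers g ⊔ Q := by
  refine ⟨hgp.to_sup_of_normal_right' hQp ?_, ?_, ?_⟩
  · rw [Subgroup.zpowers_le]; exact hgN
  · exact sup_le (by rw [Subgroup.zpowers_le]; exact hg) hQ
  · exact (le_sup_left : Subgroup.zpowers g ≤ _) (Subgroup.mem_zpowers g)

theorem exists_map {Γ Γ0 : Finset β} (hT : Trans G t) (h1 : Γ.card = t) (h2 : Γ0.card = t) :
    ∃ k ∈ G, (∀ x ∈ Γ, k x ∈ Γ0) ∧ ∀ y ∈ Γ0, ∃ x ∈ Γ, k x = y := by
  classical
  let e : ↥Γ ≃ ↥Γ0 := Finset.equivOfCardEq (h1.trans h2.symm)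
  obtain ⟨k, hk, hkf⟩ := hT Γ (fun x => if h : x ∈ Γ then (e ⟨x, h⟩ : β) else x) h1.le
    (by
      intro a ha b hb hab
      rw [Finset.mem_coe] at ha hb
      simp only [ha, hb, dif_pos] at hab
      have := e.injective (Subtype.ext hab)
      exact congrArg Subtype.val this)
  have hk1 : ∀ x (hx : x ∈ Γ), k x = e ⟨x, hx⟩ := fun x hx => by rw [hkf x hx, dif_pos hx]
  refine ⟨k, hk, fun x hx => ?_, fun y hy => ?_⟩
  · rw [hk1 x hx]; exact (e _).2
  · refine ⟨e.symm ⟨y, hy⟩, (e.symm _).2, ?_⟩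
    rw [hk1 _ (e.symm ⟨y, hy⟩).2]
    simp

/-- **Some `(t+1)`-set of a `t`-transitive group, `t ≥ 4`, carries the alternating group.** -/
theorem exists_indAlt (hG : IsMultiplyPretransitive G β t) (ht : 4 ≤ t) (hn : t < Fintype.card β) :
    ∃ Δ : Finset β, Δ.card = t + 1 ∧ IndAlt G Δ := by
  classical
  have := Fact.mk Nat.prime_two
  have hT : Trans G t := trans_of hG (by rw [Nat.card_eq_fintype_card]; exact hn.le)
  obtain ⟨Q, ⟨hQp, hQG, hQc⟩, hmax⟩ := Set.exists_max_image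
    {Q : Subgroup (Perm β) | IsPGroup 2 Q ∧ Q ≤ G ∧ t + 1 ≤ (Fx Q).card} (fun Q => Nat.card Q)
    (Set.toFinite _) ⟨⊥, IsPGroup.of_bot, bot_le, by
      have : Fx (⊥ : Subgroup (Perm β)) = Finset.univ := by
        ext x
        rw [mem_Fx]
        constructor
        · intro _; exact Finset.mem_univ _
        · intro _ q hq
          rw [Subgroup.mem_bot] at hq
          rw [hq]; rfl
      rw [this, Finset.card_univ]
      exact hn⟩
  have hbig : ∀ R : Subgroup (Perm β), IsPGroup 2 R → R ≤ G → Q ≤ R → t + 1 ≤ (Fx R).card → R ≤ Q := by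
    intro R hR hRG hQR hRc
    exact (Subgroup.eq_of_le_of_card_ge hQR (hmax R ⟨hR, hRG, hRc⟩)).ge
  set Φ := Fx Q with hΦ
  set M := nrm G Q with hM
  have hΦc : t + 1 ≤ Fintype.card ↥Φ := by rw [Fintype.card_coe]; exact hQc
  have hQf : ∀ q ∈ Q, ∀ x ∈ Φ, q x = x := fun q hq x hx => mem_Fx.1 hx q hq
  -- from elements of `Q` to the identity
  have hone : ∀ {m : Perm ↥Φ} {g : Perm β}, g ∈ Q → (∀ x : ↥Φ, g (x : β) = m x) → m = 1 := by
    intro m g hg hgm
    ext x
    rw [← hgm x, hQf g hg x x.2]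
    rfl
  have hmapsub : ∀ Γ : Finset ↥Φ, Γ.map (Function.Embedding.subtype _) ⊆ Φ := by
    intro Γ x hx
    obtain ⟨y, -, rfl⟩ := Finset.mem_map.1 hx
    exact y.2
  have hNo1 : NoInv M (t + 1) := by
    intro m hm hmm Γ hΓ hfix
    obtain ⟨g, hg, hgN, hgm, hgp⟩ := exists_lift hm hmm
    set Γ' := Γ.map (Function.Embedding.subtype _) with hΓ'
    have hgΓ : g ∈ pst G Γ' := by
      refine ⟨hg, fun x hx => ?_⟩
      obtain ⟨y, hy, rfl⟩ := Finset.mem_map.1 hx
      change g (y : β) = y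
      rw [hgm y, hfix y hy]
    obtain ⟨h1, h2, h3⟩ := sup_props hQp ((le_pst_iff hQG).2 (hmapsub Γ)) hgΓ hgN hgp
    refine hone (hbig _ h1 (h2.trans pst_le) le_sup_right ?_ h3) hgm
    refine le_trans ?_ (Finset.card_le_card ((le_pst_iff (h2.trans pst_le)).1 h2))
    rw [Finset.card_map]
    exact hΓ
  by_cases hA : ∃ Γ0 ⊆ Φ, Γ0.card = t ∧ ∀ R : Subgroup (Perm β), IsPGroup 2 R → R ≤ pst G Γ0 →
      Q ≤ R → R ≤ Q
  · obtain ⟨Γ0, hΓ0, hΓ0c, hΓ0m⟩ := hA
    have maxAll : ∀ Γ ⊆ Φ, Γ.card = t → ∀ R : Subgroup (Perm β), IsPGroup 2 R → R ≤ pst G Γ →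
        Q ≤ R → R ≤ Q := by
      intro Γ hΓ hΓc R hR hRΓ hQR
      obtain ⟨k, hk, hk1, hk2⟩ := exists_map hT hΓc hΓ0c
      have hR'p : IsPGroup 2 (R.map (MulAut.conj k).toMonoidHom) := hR.map _
      have hR' : R.map (MulAut.conj k).toMonoidHom ≤ pst G Γ0 := by
        rintro _ ⟨r, hr, rfl⟩
        change k * r * k⁻¹ ∈ pst G Γ0
        refine ⟨G.mul_mem (G.mul_mem hk (hRΓ hr).1) (G.inv_mem hk), fun y hy => ?_⟩
        obtain ⟨x, hx, rfl⟩ := hk2 y hy
        rw [Perm.mul_apply, Perm.mul_apply, Perm.inv_eq_iff_eq.2 rfl, (hRΓ hr).2 x hx]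
      obtain ⟨h, hh, hconj⟩ := conj_into hQp ((le_pst_iff hQG).2 hΓ0) hΓ0m hR'p hR'
      have hle : (R.map (MulAut.conj k).toMonoidHom).map (MulAut.conj h).toMonoidHom ≤ Q := by
        rintro _ ⟨r, hr, rfl⟩
        exact hconj r hr
      have hc := Subgroup.card_le_of_le hle
      rw [Subgroup.card_map_of_injective (MulAut.conj h).injective,
        Subgroup.card_map_of_injective (MulAut.conj k).injective] at hc
      exact (Subgroup.eq_of_le_of_card_ge hQR hc).ge
    have hNo : NoInv M t := by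
      intro m hm hmm Γ hΓ hfix
      obtain ⟨Γ1, hΓ1, hΓ1c⟩ := Finset.exists_subset_card_eq (s := Γ) (n := t) hΓ
      obtain ⟨g, hg, hgN, hgm, hgp⟩ := exists_lift hm hmm
      set Γ' := Γ1.map (Function.Embedding.subtype _) with hΓ'
      have hgΓ : g ∈ pst G Γ' := by
        refine ⟨hg, fun x hx => ?_⟩
        obtain ⟨y, hy, rfl⟩ := Finset.mem_map.1 hx
        change g (y : β) = y
        rw [hgm y, hfix y (hΓ1 hy)]
      obtain ⟨h1, h2, h3⟩ := sup_props hQp ((le_pst_iff hQG).2 (hmapsub Γ1)) hgΓ hgN hgp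
      exact hone (maxAll Γ' (hmapsub Γ1) (by rw [hΓ', Finset.card_map, hΓ1c]) _ h1 h2 le_sup_right h3)
        hgm
    have hTM : IsMultiplyPretransitive M ↥Φ t := by
      rw [isMultiplyPretransitive_iff]
      intro x y
      let ι : ↥Φ ↪ β := Function.Embedding.subtype _
      obtain ⟨g, hg⟩ := isMultiplyPretransitive_iff.1 hG (x.trans ι) (y.trans ι)
      have hgx : ∀ i, (g : Perm β) (x i) = y i := fun i => DFunLike.congr_fun hg i
      set Γ : Finset β := Finset.univ.map (y.trans ι) with hΓ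
      have hΓc : Γ.card = t := by rw [hΓ, Finset.card_map, Finset.card_univ, Fintype.card_fin]
      have hΓΦ : Γ ⊆ Φ := by
        intro z hz
        obtain ⟨i, -, rfl⟩ := Finset.mem_map.1 hz
        exact (y i).2
      have hQ' : Q.map (MulAut.conj (g : Perm β)).toMonoidHom ≤ pst G Γ := by
        rintro _ ⟨q, hq, rfl⟩
        change (g : Perm β) * q * (g : Perm β)⁻¹ ∈ pst G Γ
        refine ⟨G.mul_mem (G.mul_mem g.2 (hQG hq)) (G.inv_mem g.2), fun z hz => ?_⟩
        obtain ⟨i, -, rfl⟩ := Finset.mem_map.1 hz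
        change ((g : Perm β) * q * (g : Perm β)⁻¹) (y i) = y i
        rw [← hgx i, Perm.mul_apply, Perm.mul_apply, Perm.inv_eq_iff_eq.2 rfl, hQf q hq _ (x i).2]
      obtain ⟨h, hh, hconj⟩ := conj_into hQp ((le_pst_iff hQG).2 hΓΦ) (maxAll Γ hΓΦ hΓc)
        (hQp.map (MulAut.conj (g : Perm β)).toMonoidHom) hQ'
      set k : Perm β := h * g with hk
      have hkN : k ∈ Subgroup.normalizer (Q : Set (Perm β)) := by
        apply SylowTools.mem_normalizer_of_forall
        intro q hq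
        have h1 := hconj ((g : Perm β) * q * (g : Perm β)⁻¹) ⟨q, hq, rfl⟩
        have h2 : k * q * k⁻¹ = h * ((g : Perm β) * q * (g : Perm β)⁻¹) * h⁻¹ := by
          rw [hk]; group
        rw [h2]; exact h1
      have hkG : k ∈ G := G.mul_mem hh.1 g.2
      refine ⟨⟨k.subtypePerm (p := (· ∈ Φ)) (nrm_Fx hkN), k, hkG, hkN, fun _ => rfl⟩, ?_⟩
      ext i
      change k (x i) = y i
      rw [hk, Perm.mul_apply, hgx i]
      exact hh.2 _ (Finset.mem_map.2 ⟨i, Finset.mem_univ _, rfl⟩)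
    have hTM' : Trans M t := trans_of hTM (by
      rw [Nat.card_eq_fintype_card]; exact (Nat.le_succ t).trans hΦc)
    obtain ⟨Δ, hΔ, hI⟩ := caseA hTM' hNo ht (Nat.lt_of_succ_le hΦc)
    exact ⟨Δ.map (Function.Embedding.subtype _), by rw [Finset.card_map, hΔ], hI.map (nrm_le G Q)⟩
  · push Not at hA
    have hinv : ∀ Γ : Finset ↥Φ, Γ.card = t → ∃ z ∈ M, z * z = 1 ∧ ∀ x, z x = x ↔ x ∈ Γ := by
      intro Γ hΓ
      set Γ' := Γ.map (Function.Embedding.subtype _) with hΓ'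
      obtain ⟨R, hR, hRΓ, hQR, hRQ⟩ := hA Γ' (hmapsub Γ) (by rw [hΓ', Finset.card_map, hΓ])
      have hlt : Q < R := lt_of_le_of_ne hQR (fun h => hRQ h.ge)
      obtain ⟨y, hyR, hyQ, hyN⟩ := H31PGroup.exists_mem_normalizer hR hlt
      have hyp : IsPGroup 2 (Subgroup.zpowers y) := hR.to_le (by rw [Subgroup.zpowers_le]; exact hyR)
      have hyG : y ∈ G := (hRΓ hyR).1
      set m : Perm ↥Φ := y.subtypePerm (p := (· ∈ Φ)) (nrm_Fx hyN) with hm
      have hmM : m ∈ M := ⟨y, hyG, hyN, fun _ => rfl⟩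
      have hmy : ∀ x : ↥Φ, y (x : β) = m x := fun _ => rfl
      have hmne : m ≠ 1 := by
        intro h1
        have hyΦ : y ∈ pst G Φ := by
          refine ⟨hyG, fun x hx => ?_⟩
          have h2 := hmy ⟨x, hx⟩
          rw [h1] at h2
          exact h2
        obtain ⟨h2, h3, h4⟩ := sup_props hQp ((le_pst_iff hQG).2 (Finset.Subset.refl _)) hyΦ hyN hyp
        apply hyQ
        refine hbig _ h2 (h3.trans pst_le) le_sup_right ?_ h4
        exact hQc.trans (Finset.card_le_card ((le_pst_iff (h3.trans pst_le)).1 h3))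
      obtain ⟨j, hj⟩ : ∃ j : ℕ, m ^ 2 ^ j = 1 := by
        obtain ⟨j, hj⟩ := hyp ⟨y, Subgroup.mem_zpowers y⟩
        have hj' : y ^ 2 ^ j = 1 := congrArg Subtype.val hj
        refine ⟨j, ?_⟩
        have h5 : ∀ (i : ℕ) (x : ↥Φ), (y ^ i) (x : β) = (m ^ i) x := by
          intro i
          induction i with
          | zero => intro x; rfl
          | succ i ih => intro x; rw [pow_succ, pow_succ, Perm.mul_apply, Perm.mul_apply, hmy, ih]
        ext x
        rw [← h5, hj']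
        rfl
      obtain ⟨k, -, hk⟩ := (Nat.dvd_prime_pow Nat.prime_two).1 (orderOf_dvd_of_pow_eq_one hj)
      have hk0 : k ≠ 0 := by
        rintro rfl
        rw [pow_zero, orderOf_eq_one_iff] at hk
        exact hmne hk
      obtain ⟨l, rfl⟩ : ∃ l, k = l + 1 := ⟨k - 1, by omega⟩
      set z := m ^ 2 ^ l with hz
      have hzz : z * z = 1 := by
        rw [hz, ← pow_add, ← two_mul, ← pow_succ', ← hk, pow_orderOf_eq_one]
      have hzne : z ≠ 1 := by
        intro h
        have h1 := orderOf_dvd_of_pow_eq_one h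
        rw [hk] at h1
        have h2 := Nat.le_of_dvd (by positivity) h1
        rw [pow_succ] at h2
        have h3 : 0 < 2 ^ l := by positivity
        omega
      have hzM : z ∈ M := M.pow_mem hmM _
      have hzΓ : ∀ x ∈ Γ, z x = x := by
        intro x hx
        apply pow_fix
        apply Subtype.ext
        rw [← hmy x]
        exact (hRΓ hyR).2 x (Finset.mem_map.2 ⟨x, hx, rfl⟩)
      refine ⟨z, hzM, hzz, fun x => ⟨fun hx => ?_, hzΓ x⟩⟩
      by_contra hxΓ
      apply hzne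
      refine hNo1 z hzM hzz (insert x Γ) (by rw [Finset.card_insert_of_notMem hxΓ, hΓ]) ?_
      intro w hw
      rw [Finset.mem_insert] at hw
      rcases hw with rfl | hw
      · exact hx
      · exact hzΓ w hw
    obtain ⟨Δ, -, hΔ⟩ := Finset.exists_subset_card_eq (s := (Finset.univ : Finset ↥Φ)) (n := t + 1)
      (by rw [Finset.card_univ]; omega)
    have htop := caseB hinv hNo1 Δ hΔ
    have hI : IndAlt M Δ := IndAlt.of_le (by rw [htop]; exact le_top)
    exact ⟨Δ.map (Function.Embedding.subtype _), by rw [Finset.card_map, hΔ], hI.map (nrm_le G Q)⟩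

end Cfsg.Agent.Lib.LW
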