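import Mathlib
import Cfsg.Agent.Lib.LW7
import Cfsg.Agent.Lib.Homog

/-!
Set-homogeneous permutation groups inducing the alternating group on small sets (helper13).
-/

set_option autoImplicit false
set_option linter.unusedSectionVars false

namespace Cfsg.Agent.Lib.LW

open MulAction Equiv

variable {β : Type*} [Fintype β] [DecidableEq β] {G : Subgroup (Perm β)} {t k : ℕ}

/-- set-homogeneity -/
def Hom (G : Subgroup (Perm β)) (k : ℕ) : Prop :=
  ∀ s t : Finset β, s.card = k → t.card = k → ∃ g ∈ G, ∀ x, g x ∈ t ↔ x ∈ s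

open scoped Pointwise in
theorem hom_of (h : IsPretransitive G (Set.powersetCard β k)) : Hom G k := by
  intro s t hs ht
  obtain ⟨g, hg⟩ := Homog.exists_smul h hs ht
  refine ⟨g, g.2, fun x => ?_⟩
  rw [← hg]
  exact Finset.smul_mem_smul_finset_iff g

theorem Hom.indAlt (h : Hom G k) {Δ : Finset β} (hΔ : Δ.card = k) (hI : IndAlt G Δ) {Δ' : Finset β}
    (hΔ' : Δ'.card = k) : IndAlt G Δ' := by
  obtain ⟨g, hg, hgx⟩ := h Δ' Δ hΔ' hΔ
  intro σ hσ hs
  obtain ⟨f, hf, hfx⟩ := hI (g * σ * g⁻¹) (by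
      rw [Perm.sign_mul, Perm.sign_mul, Perm.sign_inv, hσ, mul_one]
      exact Int.units_mul_self _)
    (by
      intro x hx
      obtain ⟨y, rfl⟩ := g.surjective x
      rw [hgx]
      apply hs
      intro h1
      apply hx
      rw [Perm.mul_apply, Perm.mul_apply, Perm.inv_eq_iff_eq.2 rfl, h1])
  refine ⟨g⁻¹ * f * g, G.mul_mem (G.mul_mem (G.inv_mem hg) hf) hg, fun x hx => ?_⟩
  rw [Perm.mul_apply, Perm.mul_apply, hfx _ ((hgx x).2 hx), Perm.mul_apply, Perm.mul_apply,
    Perm.inv_eq_iff_eq.2 rfl, Perm.inv_eq_iff_eq.2 rfl]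

/-- no odd permutation of a `k`-set is induced -/
def NoOdd (G : Subgroup (Perm β)) (k : ℕ) : Prop :=
  ∀ Δ : Finset β, Δ.card = k → ∀ σ : Perm β, (∀ x, σ x ≠ x → x ∈ Δ) →
    (∃ g ∈ G, ∀ x ∈ Δ, g x = σ x) → Perm.sign σ = 1

theorem noInv_of_noOdd (h : NoOdd G (k + 2)) : NoInv G k := by
  intro w hw hww Γ hΓ hfix
  by_contra hne
  obtain ⟨a, ha⟩ : ∃ a, w a ≠ a := by
    by_contra hcon
    push Not at hcon
    exact hne (Equiv.ext hcon)
  obtain ⟨Γ1, hΓ1, hΓ1c⟩ := Finset.exists_subset_card_eq (s := Γ) (n := k) hΓ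
  have haΓ : a ∉ Γ := fun h' => ha (hfix a h')
  have hwa : w (w a) = a := DFunLike.congr_fun hww a
  have hwaΓ : w a ∉ Γ := fun h' => ha (by
    have := hfix _ h'
    rw [hwa] at this
    exact this.symm)
  have h1 := h (insert a (insert (w a) Γ1)) (by
      rw [Finset.card_insert_of_notMem, Finset.card_insert_of_notMem, hΓ1c]
      · exact fun h' => hwaΓ (hΓ1 h')
      · rw [Finset.mem_insert]
        rintro (h' | h')
        · exact ha h'.symm
        · exact haΓ (hΓ1 h')) (Equiv.swap a (w a))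
    (by
      intro x hx
      rw [Finset.mem_insert, Finset.mem_insert]
      by_cases h1 : x = a
      · exact Or.inl h1
      · by_cases h2 : x = w a
        · exact Or.inr (Or.inl h2)
        · exact absurd (Equiv.swap_apply_of_ne_of_ne h1 h2) hx)
    ⟨w, hw, fun x hx => by
      rw [Finset.mem_insert, Finset.mem_insert] at hx
      rcases hx with rfl | rfl | hx
      · rw [Equiv.swap_apply_left]
      · rw [Equiv.swap_apply_right, hwa]
      · have h1 : x ≠ a := by rintro rfl; exact haΓ (hΓ1 hx)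
        have h2 : x ≠ w a := by rintro rfl; exact hwaΓ (hΓ1 hx)
        rw [Equiv.swap_apply_of_ne_of_ne h1 h2, hfix x (hΓ1 hx)]⟩
  rw [Perm.sign_swap (Ne.symm ha)] at h1
  exact absurd h1 (by decide)

theorem NoInv.mono {s : ℕ} (h : NoInv G t) (hs : t ≤ s) : NoInv G s :=
  fun w hw hww Γ hΓ hfix => h w hw hww Γ (hs.trans hΓ) hfix

/-- a homogeneous group inducing the alternating group on the sets of size `k` is `k`-transitive
or induces no odd permutation -/
theorem noOdd_of (h : Hom G k) (hI : ∀ Δ : Finset β, Δ.card = k → IndAlt G Δ)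
    (hnt : ¬ IsMultiplyPretransitive G β k) : NoOdd G k := by
  intro Δ hΔ σ hσ ⟨g, hg, hgσ⟩
  by_contra hsign
  have hsign' : Perm.sign σ = -1 := (Int.units_eq_one_or _).resolve_left hsign
  apply hnt
  -- the symmetric group is induced on `Δ`
  have hsym : ∀ τ : Perm β, (∀ x, τ x ≠ x → x ∈ Δ) → ∃ f ∈ G, ∀ x ∈ Δ, f x = τ x := by
    intro τ hτ
    rcases Int.units_eq_one_or (Perm.sign τ) with h1 | h1
    · exact hI Δ hΔ τ h1 hτ
    · have hs' : ∀ x, (τ * σ⁻¹) x ≠ x → x ∈ Δ := by
        intro x hx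
        by_contra hxΔ
        apply hx
        have h2 : σ x = x := by
          by_contra h3
          exact hxΔ (hσ x h3)
        have h3 : σ⁻¹ x = x := by rw [Perm.inv_eq_iff_eq, h2]
        have h4 : τ x = x := by
          by_contra h5
          exact hxΔ (hτ x h5)
        rw [Perm.mul_apply, h3, h4]
      obtain ⟨f, hf, hfx⟩ := hI Δ hΔ (τ * σ⁻¹) (by
        rw [Perm.sign_mul, Perm.sign_inv, h1, hsign']; decide) hs'
      refine ⟨f * g, G.mul_mem hf hg, fun x hx => ?_⟩
      rw [Perm.mul_apply, hgσ x hx, hfx _ ((supp_iff hσ x).2 hx), Perm.mul_apply,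
        Perm.inv_eq_iff_eq.2 rfl]
  rw [isMultiplyPretransitive_iff]
  intro x y
  set X : Finset β := Finset.univ.map x with hX
  set Y : Finset β := Finset.univ.map y with hY
  have hXc : X.card = k := by rw [hX, Finset.card_map, Finset.card_univ, Fintype.card_fin]
  have hYc : Y.card = k := by rw [hY, Finset.card_map, Finset.card_univ, Fintype.card_fin]
  have hxX : ∀ i, x i ∈ X := fun i => Finset.mem_map.2 ⟨i, Finset.mem_univ _, rfl⟩
  have hyY : ∀ i, y i ∈ Y := fun i => Finset.mem_map.2 ⟨i, Finset.mem_univ _, rfl⟩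
  obtain ⟨a, ha, hax⟩ := h X Δ hXc hΔ
  obtain ⟨b, hb, hbx⟩ := h Y Δ hYc hΔ
  let e1 : Fin k ≃ ↥Δ := Equiv.ofBijective (fun i => ⟨a (x i), (hax _).2 (hxX i)⟩)
    ((Fintype.bijective_iff_injective_and_card _).2 ⟨fun i j hij => by
      have := congrArg Subtype.val hij
      exact x.injective (a.injective this), by rw [Fintype.card_fin, Fintype.card_coe, hΔ]⟩)
  let e2 : Fin k ≃ ↥Δ := Equiv.ofBijective (fun i => ⟨b (y i), (hbx _).2 (hyY i)⟩)
    ((Fintype.bijective_iff_injective_and_card _).2 ⟨fun i j hij => by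
      have := congrArg Subtype.val hij
      exact y.injective (b.injective this), by rw [Fintype.card_fin, Fintype.card_coe, hΔ]⟩)
  let ρ : Perm ↥Δ := e1.symm.trans e2
  obtain ⟨f, hf, hfx⟩ := hsym (Perm.ofSubtype ρ) (fun x hx => by
    by_contra hxΔ
    exact hx (Perm.ofSubtype_apply_of_not_mem ρ hxΔ))
  refine ⟨⟨b⁻¹ * f * a, G.mul_mem (G.mul_mem (G.inv_mem hb) hf) ha⟩, ?_⟩
  ext i
  change (b⁻¹ * f * a) (x i) = y i
  rw [Perm.mul_apply, Perm.mul_apply, Perm.inv_eq_iff_eq, hfx _ ((hax _).2 (hxX i))]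
  have h1 : Perm.ofSubtype ρ (a (x i)) = ρ (e1 i) := Perm.ofSubtype_apply_coe ρ (e1 i)
  rw [h1]
  change ((e1.symm.trans e2) (e1 i) : β) = b (y i)
  rw [Equiv.trans_apply, Equiv.symm_apply_apply]
  rfl

/-- three disjoint transpositions -/
theorem big_false (hT : Trans G (k - 1)) (hk : 6 ≤ k) (hn : k + 2 ≤ Fintype.card β)
    (hN : NoOdd G k) : False := by
  obtain ⟨j, rfl⟩ : ∃ j, k = j + 6 := ⟨k - 6, by omega⟩
  have hK : NoInv G (j + 4) := noInv_of_noOdd hN
  have hK' : NoInv G (j + 6 - 1) := hK.mono (by omega)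
  obtain ⟨Γ, hΓ⟩ : ∃ Γ : Finset β, Γ.card = j + 6 - 1 := by
    obtain ⟨Γ, -, hΓ⟩ := Finset.exists_subset_card_eq (s := (Finset.univ : Finset β))
      (n := j + 6 - 1) (by rw [Finset.card_univ]; omega)
    exact ⟨Γ, hΓ⟩
  obtain ⟨c, hc, d, hd, hcd⟩ := Finset.one_lt_card.1 (by omega : 1 < Γ.card)
  have hswap : ∀ x ∈ Γ, Equiv.swap c d x ∈ Γ := by
    intro x hx
    rw [Equiv.swap_apply_def]
    split_ifs
    · exact hd
    · exact hc
    · exact hx
  obtain ⟨z, hz, hzz, -, hzΓ⟩ := lift_comm hT hK' hΓ G.one_mem (one_mul 1) (fun x hx => hx)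
    (Equiv.swap c d) hswap (fun x _ => Equiv.swap_apply_self c d x) (fun x _ => rfl)
  have hzc : z c = d := by rw [hzΓ c hc, Equiv.swap_apply_left]
  have hz1 : z ≠ 1 := by
    intro h1
    rw [h1] at hzc
    exact hcd hzc
  have hlt := card_fx_lt hK hz hzz hz1
  have hge : j + 3 ≤ (fx z).card := by
    have h1 : (Γ.erase c).erase d ⊆ fx z := by
      intro x hx
      rw [Finset.mem_erase, Finset.mem_erase] at hx
      rw [mem_fx, hzΓ x hx.2.2, Equiv.swap_apply_of_ne_of_ne hx.2.1 hx.1]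
    have h2 := Finset.card_le_card h1
    rw [Finset.card_erase_of_mem (Finset.mem_erase.2 ⟨Ne.symm hcd, hd⟩),
        Finset.card_erase_of_mem hc, hΓ] at h2
    omega
  have hmod := card_fix_mod hzz
  change (fx z).card % 2 = _ at hmod
  have zz : ∀ x, z (z x) = x := fun x => DFunLike.congr_fun hzz x
  have hzF : ∀ x, x ∉ fx z → z x ∉ fx z := by
    intro x hx h1
    rw [mem_fx] at h1 hx
    exact hx (z.injective h1)
  -- pick three two-cycles
  have pick : ∀ S : Finset β, S.card ≤ (fx z).card + 4 → ∃ x, x ∉ S := by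
    intro S hS
    by_contra hcon
    push Not at hcon
    have h6 := Finset.card_le_card (s := Finset.univ) (t := S) (fun y _ => hcon y)
    rw [Finset.card_univ] at h6
    omega
  obtain ⟨a, ha⟩ := pick (fx z) (by omega)
  obtain ⟨b, hb⟩ := pick (insert a (insert (z a) (fx z))) (by
    have h1 := Finset.card_insert_le a (insert (z a) (fx z))
    have h2 := Finset.card_insert_le (z a) (fx z)
    omega)
  obtain ⟨e, he⟩ := pick (insert a (insert (z a) (insert b (insert (z b) (fx z))))) (by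
    have h1 := Finset.card_insert_le a (insert (z a) (insert b (insert (z b) (fx z))))
    have h2 := Finset.card_insert_le (z a) (insert b (insert (z b) (fx z)))
    have h3 := Finset.card_insert_le b (insert (z b) (fx z))
    have h4 := Finset.card_insert_le (z b) (fx z)
    omega)
  simp only [Finset.mem_insert, not_or] at hb he
  obtain ⟨hba, hbza, hbF⟩ := hb
  obtain ⟨hea, heza, heb, hezb, heF⟩ := he
  have haz : a ≠ z a := fun h => ha (mem_fx.2 h.symm)
  have hbz : b ≠ z b := fun h => hbF (mem_fx.2 h.symm)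
  have hez : e ≠ z e := fun h => heF (mem_fx.2 h.symm)
  have hzba : z b ≠ a := fun h => hbza (by rw [← h, zz])
  have hzbza : z b ≠ z a := fun h => hba (z.injective h)
  have hzea : z e ≠ a := fun h => heza (by rw [← h, zz])
  have hzeza : z e ≠ z a := fun h => hea (z.injective h)
  have hzeb : z e ≠ b := fun h => hezb (by rw [← h, zz])
  have hzezb : z e ≠ z b := fun h => heb (z.injective h)
  obtain ⟨F, hF, hFc⟩ := Finset.exists_subset_card_eq (s := fx z) (n := j) (by omega)
  have hnF : ∀ x, x ∉ fx z → x ∉ F := fun x hx h => hx (hF h)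
  set Δ : Finset β := insert a (insert (z a) (insert b (insert (z b) (insert e (insert (z e) F)))))
    with hΔ
  have hΔc : Δ.card = j + 6 := by
    rw [hΔ, Finset.card_insert_of_notMem, Finset.card_insert_of_notMem, Finset.card_insert_of_notMem,
      Finset.card_insert_of_notMem, Finset.card_insert_of_notMem, Finset.card_insert_of_notMem, hFc]
    · exact hnF _ (hzF _ heF)
    · simp only [Finset.mem_insert, not_or]
      exact ⟨hez, hnF _ heF⟩
    · simp only [Finset.mem_insert, not_or]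
      exact ⟨Ne.symm hezb, Ne.symm hzezb, hnF _ (hzF _ hbF)⟩
    · simp only [Finset.mem_insert, not_or]
      exact ⟨hbz, Ne.symm heb, Ne.symm hzeb, hnF _ hbF⟩
    · simp only [Finset.mem_insert, not_or]
      exact ⟨Ne.symm hbza, Ne.symm hzbza, Ne.symm heza, Ne.symm hzeza, hnF _ (hzF _ ha)⟩
    · simp only [Finset.mem_insert, not_or]
      exact ⟨haz, Ne.symm hba, Ne.symm hzba, Ne.symm hea, Ne.symm hzea, hnF _ ha⟩
  have memΔ : ∀ x, x ∈ Δ ↔ x = a ∨ x = z a ∨ x = b ∨ x = z b ∨ x = e ∨ x = z e ∨ x ∈ F := by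
    intro x
    simp only [hΔ, Finset.mem_insert]
  set σ : Perm β := Equiv.swap a (z a) * (Equiv.swap b (z b) * Equiv.swap e (z e)) with hσ
  have sne : ∀ x, x ≠ a → x ≠ z a → x ≠ b → x ≠ z b → x ≠ e → x ≠ z e → σ x = x := by
    intro x h1 h2 h3 h4 h5 h6
    rw [hσ, Perm.mul_apply, Perm.mul_apply, Equiv.swap_apply_of_ne_of_ne h5 h6,
      Equiv.swap_apply_of_ne_of_ne h3 h4, Equiv.swap_apply_of_ne_of_ne h1 h2]
  have h1 := hN Δ hΔc σ
    (by
      intro x hx
      rw [memΔ]
      by_contra hcon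
      push Not at hcon
      exact hx (sne x hcon.1 hcon.2.1 hcon.2.2.1 hcon.2.2.2.1 hcon.2.2.2.2.1 hcon.2.2.2.2.2.1))
    ⟨z, hz, by
      intro x hx
      rcases (memΔ x).1 hx with rfl | rfl | rfl | rfl | rfl | rfl | h
      · rw [hσ, Perm.mul_apply, Perm.mul_apply, Equiv.swap_apply_of_ne_of_ne (Ne.symm hea) (Ne.symm hzea),
          Equiv.swap_apply_of_ne_of_ne (Ne.symm hba) (Ne.symm hzba), Equiv.swap_apply_left]
      · rw [hσ, Perm.mul_apply, Perm.mul_apply,
          Equiv.swap_apply_of_ne_of_ne (Ne.symm heza) (Ne.symm hzeza),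
          Equiv.swap_apply_of_ne_of_ne (Ne.symm hbza) (Ne.symm hzbza), Equiv.swap_apply_right, zz]
      · rw [hσ, Perm.mul_apply, Perm.mul_apply,
          Equiv.swap_apply_of_ne_of_ne (Ne.symm heb) (Ne.symm hzeb), Equiv.swap_apply_left,
          Equiv.swap_apply_of_ne_of_ne hzba hzbza]
      · rw [hσ, Perm.mul_apply, Perm.mul_apply,
          Equiv.swap_apply_of_ne_of_ne (Ne.symm hezb) (Ne.symm hzezb), Equiv.swap_apply_right,
          Equiv.swap_apply_of_ne_of_ne hba hbza, zz]
      · rw [hσ, Perm.mul_apply, Perm.mul_apply, Equiv.swap_apply_left,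
          Equiv.swap_apply_of_ne_of_ne hzeb hzezb, Equiv.swap_apply_of_ne_of_ne hzea hzeza]
      · rw [hσ, Perm.mul_apply, Perm.mul_apply, Equiv.swap_apply_right,
          Equiv.swap_apply_of_ne_of_ne heb hezb, Equiv.swap_apply_of_ne_of_ne hea heza, zz]
      · have hx' : x ∈ fx z := hF h
        rw [mem_fx.1 hx', sne]
        · rintro rfl; exact ha hx'
        · rintro rfl; exact hzF _ ha hx'
        · rintro rfl; exact hbF hx'
        · rintro rfl; exact hzF _ hbF hx'
        · rintro rfl; exact heF hx'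
        · rintro rfl; exact hzF _ heF hx'⟩
  rw [hσ, Perm.sign_mul, Perm.sign_mul, Perm.sign_swap haz, Perm.sign_swap hbz,
    Perm.sign_swap hez] at h1
  exact absurd h1 (by decide)

end Cfsg.Agent.Lib.LW
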