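import Mathlib
import Cfsg.Agent.Lib.LW8

/-!
No 4-transitive group of degree at least 7 induces exactly the alternating group on all
sets of size five (helper13).
-/

set_option autoImplicit false
set_option linter.unusedSectionVars false

namespace Cfsg.Agent.Lib.LW

open MulAction Equiv

variable {β : Type*} [Fintype β] [DecidableEq β] {G : Subgroup (Perm β)} {t k : ℕ}

theorem cent_adjust (hK : NoInv G t) {z : Perm β} (hz : z ∈ G) (hzz : z * z = 1) {Γ : Finset β}
    (hΓ : t ≤ Γ.card) {g0 : Perm β} (hg0 : g0 ∈ G) (h : ∀ x ∈ Γ, z (g0 x) = g0 (z x)) :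
    ∃ g ∈ G, g * z = z * g ∧ ∀ x ∈ Γ, g x = g0 x := by
  set b := g0 * z * g0⁻¹ with hb
  have hbb : b * b = 1 := by
    rw [hb]
    calc g0 * z * g0⁻¹ * (g0 * z * g0⁻¹) = g0 * (z * z) * g0⁻¹ := by group
      _ = 1 := by rw [hzz]; group
  have hbG : b ∈ G := G.mul_mem (G.mul_mem hg0 hz) (G.inv_mem hg0)
  have hd : ∀ y ∈ Γ.image g0, (z * b) y = y := by
    intro y hy
    obtain ⟨x, hx, rfl⟩ := Finset.mem_image.1 hy
    rw [Perm.mul_apply, hb, Perm.mul_apply, Perm.mul_apply, Perm.inv_eq_iff_eq.2 rfl, ← h x hx]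
    exact DFunLike.congr_fun hzz (g0 x)
  obtain ⟨m, hm⟩ := odd_of_fix hK (G.mul_mem hz hbG)
    (by rw [Finset.card_image_of_injective _ g0.injective]; exact hΓ) hd
  have e3 := conj_odd hzz hbb hm
  have e4 : b * g0 = g0 * z := by rw [hb]; group
  refine ⟨(z * b) ^ (m + 1) * g0, G.mul_mem (G.pow_mem (G.mul_mem hz hbG) _) hg0, ?_, ?_⟩
  · rw [mul_assoc, ← e4, ← mul_assoc, e3, mul_assoc]
  · intro x hx
    rw [Perm.mul_apply, pow_fix (hd _ (Finset.mem_image_of_mem _ hx))]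

theorem three_fix (hK : NoInv G 3) {w : Perm β} (hw : w ∈ G) (hww : w * w = 1) {x y z : β}
    (hxy : x ≠ y) (hxz : x ≠ z) (hyz : y ≠ z) (hx : w x = x) (hy : w y = y) (hz : w z = z) :
    w = 1 := by
  apply hK w hw hww {x, y, z}
  · rw [Finset.card_eq_three.2 ⟨x, y, z, hxy, hxz, hyz, rfl⟩]
  · intro u hu
    simp only [Finset.mem_insert, Finset.mem_singleton] at hu
    rcases hu with rfl | rfl | rfl
    · exact hx
    · exact hy
    · exact hz

/-- no 4-cycle together with a fixed point -/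
theorem sq_of_fix (hN : NoOdd G 5) {g : Perm β} (hg : g ∈ G)
    (h2 : IsPGroup 2 (Subgroup.zpowers g)) {p : β} (hp : g p = p) : g * g = 1 := by
  by_contra hne
  have := Fact.mk Nat.prime_two
  obtain ⟨k, hk⟩ := (IsPGroup.iff_card).1 h2
  rw [Nat.card_zpowers] at hk
  have hk2 : 2 ≤ k := by
    by_contra hlt
    apply hne
    rw [← sq]
    apply orderOf_dvd_iff_pow_eq_one.1
    rw [hk]
    have h3 : k ≤ 1 := by omega
    exact (pow_dvd_pow 2 h3).trans (by rw [pow_one])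
  have h4 : 4 ∣ orderOf g := by
    rw [hk]
    exact (pow_dvd_pow 2 hk2)
  set h := g ^ (orderOf g / 4) with hh
  have hord : orderOf h = 4 := orderOf_pow_orderOf_div (orderOf_pos g).ne' h4
  have hhG : h ∈ G := G.pow_mem hg _
  have hhp : h p = p := pow_fix hp _
  have h4' : h ^ 4 = 1 := by rw [← hord, pow_orderOf_eq_one]
  have h4a : ∀ x, h (h (h (h x))) = x := fun x => DFunLike.congr_fun h4' x
  obtain ⟨x, hx⟩ : ∃ x, h (h x) ≠ x := by
    by_contra hcon
    push Not at hcon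
    have h5 : h ^ 2 = 1 := Equiv.ext hcon
    have h6 := orderOf_dvd_of_pow_eq_one h5
    rw [hord] at h6
    omega
  have h12 : x ≠ h x := fun e => hx (by rw [← e, ← e])
  have h13 : x ≠ h (h x) := Ne.symm hx
  have h14 : x ≠ h (h (h x)) := fun e => h12 (by
    have := congrArg h e
    rw [h4a] at this
    exact this.symm)
  have h23 : h x ≠ h (h x) := fun e => h12 (h.injective e)
  have h24 : h x ≠ h (h (h x)) := fun e => h13 (h.injective e)
  have h34 : h (h x) ≠ h (h (h x)) := fun e => h23 (h.injective e)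
  have p1 : p ≠ x := fun e => h12 (by rw [← e, hhp])
  have p2 : p ≠ h x := fun e => p1 (h.injective (by rw [hhp]; exact e))
  have p3 : p ≠ h (h x) := fun e => p2 (h.injective (by rw [hhp]; exact e))
  have p4 : p ≠ h (h (h x)) := fun e => p3 (h.injective (by rw [hhp]; exact e))
  set y2 := h x with hy2
  set y3 := h y2 with hy3
  set y4 := h y3 with hy4
  have hy1 : h y4 = x := h4a x
  set σ : Perm β := Equiv.swap x y2 * (Equiv.swap y2 y3 * Equiv.swap y3 y4) with hσ
  have s1 : σ x = y2 := by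
    rw [hσ, Perm.mul_apply, Perm.mul_apply, Equiv.swap_apply_of_ne_of_ne h13 h14,
      Equiv.swap_apply_of_ne_of_ne h12 h13, Equiv.swap_apply_left]
  have s2 : σ y2 = y3 := by
    rw [hσ, Perm.mul_apply, Perm.mul_apply, Equiv.swap_apply_of_ne_of_ne h23 h24,
      Equiv.swap_apply_left, Equiv.swap_apply_of_ne_of_ne (Ne.symm h13) (Ne.symm h23)]
  have s3 : σ y3 = y4 := by
    rw [hσ, Perm.mul_apply, Perm.mul_apply, Equiv.swap_apply_left,
      Equiv.swap_apply_of_ne_of_ne (Ne.symm h24) (Ne.symm h34),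
      Equiv.swap_apply_of_ne_of_ne (Ne.symm h14) (Ne.symm h24)]
  have s4 : σ y4 = x := by
    rw [hσ, Perm.mul_apply, Perm.mul_apply, Equiv.swap_apply_right, Equiv.swap_apply_right,
      Equiv.swap_apply_right]
  have sne : ∀ u, u ≠ x → u ≠ y2 → u ≠ y3 → u ≠ y4 → σ u = u := by
    intro u u1 u2 u3 u4
    rw [hσ, Perm.mul_apply, Perm.mul_apply, Equiv.swap_apply_of_ne_of_ne u3 u4,
      Equiv.swap_apply_of_ne_of_ne u2 u3, Equiv.swap_apply_of_ne_of_ne u1 u2]
  have hsg := hN {p, x, y2, y3, y4} (by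
      rw [Finset.card_insert_of_notMem, Finset.card_insert_of_notMem, Finset.card_insert_of_notMem,
        Finset.card_insert_of_notMem, Finset.card_singleton]
      · simp [h34]
      · simp [h23, h24]
      · simp [h12, h13, h14]
      · simp [p1, p2, p3, p4]) σ
    (by
      intro u hu
      simp only [Finset.mem_insert, Finset.mem_singleton]
      by_contra hcon
      push Not at hcon
      exact hu (sne u hcon.2.1 hcon.2.2.1 hcon.2.2.2.1 hcon.2.2.2.2))
    ⟨h, hhG, by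
      intro u hu
      simp only [Finset.mem_insert, Finset.mem_singleton] at hu
      rcases hu with rfl | rfl | rfl | rfl | rfl
      · rw [hhp, sne u p1 p2 p3 p4]
      · rw [s1]
      · rw [s2]
      · rw [s3]
      · rw [s4, hy1]⟩
  rw [hσ, Perm.sign_mul, Perm.sign_mul, Perm.sign_swap h12, Perm.sign_swap h23,
    Perm.sign_swap h34] at hsg
  exact absurd hsg (by decide)

theorem Trans.four (hT : Trans G 4) {x1 x2 x3 x4 y1 y2 y3 y4 : β} (h12 : x1 ≠ x2) (h13 : x1 ≠ x3)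
    (h14 : x1 ≠ x4) (h23 : x2 ≠ x3) (h24 : x2 ≠ x4) (h34 : x3 ≠ x4) (k12 : y1 ≠ y2) (k13 : y1 ≠ y3)
    (k14 : y1 ≠ y4) (k23 : y2 ≠ y3) (k24 : y2 ≠ y4) (k34 : y3 ≠ y4) :
    ∃ g ∈ G, g x1 = y1 ∧ g x2 = y2 ∧ g x3 = y3 ∧ g x4 = y4 := by
  set f : β → β := fun x => if x = x1 then y1 else if x = x2 then y2 else if x = x3 then y3 else y4
    with hf
  have f1 : f x1 = y1 := by simp [hf]
  have f2 : f x2 = y2 := by simp [hf, h12.symm]
  have f3 : f x3 = y3 := by simp [hf, h13.symm, h23.symm]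
  have f4 : f x4 = y4 := by simp [hf, h14.symm, h24.symm, h34.symm]
  obtain ⟨g, hg, h⟩ := hT {x1, x2, x3, x4} f Finset.card_le_four (by
    intro a ha b hb hab
    simp only [Finset.coe_insert, Finset.coe_singleton, Set.mem_insert_iff,
      Set.mem_singleton_iff] at ha hb
    rcases ha with rfl | rfl | rfl | rfl <;> rcases hb with rfl | rfl | rfl | rfl <;>
      first
      | rfl
      | (exfalso
         simp only [f1, f2, f3, f4] at hab
         first
         | exact k12 hab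
         | exact k13 hab
         | exact k14 hab
         | exact k23 hab
         | exact k24 hab
         | exact k34 hab
         | exact k12 hab.symm
         | exact k13 hab.symm
         | exact k14 hab.symm
         | exact k23 hab.symm
         | exact k24 hab.symm
         | exact k34 hab.symm))
  exact ⟨g, hg, by rw [h x1 (by simp), f1], by rw [h x2 (by simp), f2], by rw [h x3 (by simp), f3],
    by rw [h x4 (by simp), f4]⟩

/-- the centraliser -/
def Cz (G : Subgroup (Perm β)) (z : Perm β) : Subgroup (Perm β) where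
  carrier := {g | g ∈ G ∧ g * z = z * g}
  one_mem' := ⟨G.one_mem, by rw [one_mul, mul_one]⟩
  mul_mem' := by
    rintro g h ⟨hg, h1⟩ ⟨hh, h2⟩
    exact ⟨G.mul_mem hg hh, by rw [mul_assoc, h2, ← mul_assoc, h1, mul_assoc]⟩
  inv_mem' := by
    rintro g ⟨hg, h1⟩
    exact ⟨G.inv_mem hg, by rw [inv_mul_eq_iff_eq_mul, ← mul_assoc, h1, mul_inv_cancel_right]⟩

/-- the set-up: `z` is an involution with exactly two fixed points `p`, `q` -/
structure Ctx (G : Subgroup (Perm β)) (z : Perm β) (p q : β) : Prop where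
  hT : Trans G 4
  hN : NoOdd G 5
  hz : z ∈ G
  zz : z * z = 1
  pq : p ≠ q
  fz : ∀ x, z x = x ↔ x = p ∨ x = q

namespace Ctx

variable {z : Perm β} {p q : β}

theorem k3 (h : Ctx G z p q) : NoInv G 3 := noInv_of_noOdd h.hN

theorem k4 (h : Ctx G z p q) : NoInv G 4 := h.k3.mono (by omega)

theorem az (h : Ctx G z p q) (x : β) : z (z x) = x := DFunLike.congr_fun h.zz x

theorem zp (h : Ctx G z p q) : z p = p := (h.fz p).2 (Or.inl rfl)

theorem zq (h : Ctx G z p q) : z q = q := (h.fz q).2 (Or.inr rfl)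

theorem perm (h : Ctx G z p q) {g : Perm β} (hg : g ∈ Cz G z) : g p = p ∨ g p = q := by
  have h1 := DFunLike.congr_fun hg.2 p
  change g (z p) = z (g p) at h1
  rw [h.zp] at h1
  exact (h.fz _).1 h1.symm

theorem perm' (h : Ctx G z p q) {g : Perm β} (hg : g ∈ Cz G z) : g q = p ∨ g q = q := by
  have h1 := DFunLike.congr_fun hg.2 q
  change g (z q) = z (g q) at h1
  rw [h.zq] at h1
  exact (h.fz _).1 h1.symm

theorem cz (h : Ctx G z p q) {g : Perm β} (hg : g ∈ Cz G z) (x : β) : g (z x) = z (g x) :=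
  DFunLike.congr_fun hg.2 x

theorem card4 (h : Ctx G z p q) {a b : β} (ha : a ≠ p ∧ a ≠ q) (hb : b ≠ p ∧ b ≠ q)
    (hab : b ≠ a) (hab' : b ≠ z a) : a ≠ z a ∧ a ≠ b ∧ a ≠ z b ∧ z a ≠ b ∧ z a ≠ z b ∧ b ≠ z b := by
  refine ⟨?_, Ne.symm hab, ?_, Ne.symm hab', ?_, ?_⟩
  · intro e
    rcases (h.fz a).1 e.symm with h1 | h1
    · exact ha.1 h1
    · exact ha.2 h1
  · intro e
    exact hab' (by rw [e, h.az])
  · intro e
    exact hab (z.injective e.symm)
  · intro e
    rcases (h.fz b).1 e.symm with h1 | h1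
    · exact hb.1 h1
    · exact hb.2 h1

theorem nz (h : Ctx G z p q) {a : β} (ha : a ≠ p ∧ a ≠ q) : z a ≠ p ∧ z a ≠ q :=
  ⟨fun e => ha.1 (z.injective (by rw [e, h.zp])), fun e => ha.2 (z.injective (by rw [e, h.zq]))⟩

/-- an involution swapping `p` and `q` -/
theorem exists_s (h : Ctx G z p q) {a b : β} (ha : a ≠ p ∧ a ≠ q) (hb : b ≠ p ∧ b ≠ q)
    (hab : b ≠ a) (hab' : b ≠ z a) :
    ∃ s ∈ Cz G z, s * s = 1 ∧ s a = a ∧ s b = z b ∧ s p = q ∧ s q = p := by
  obtain ⟨e1, e2, e3, e4, e5, e6⟩ := h.card4 ha hb hab hab'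
  set Γ : Finset β := {a, z a, b, z b} with hΓ
  have hΓc : Γ.card = 4 := by
    rw [hΓ, Finset.card_insert_of_notMem, Finset.card_insert_of_notMem,
      Finset.card_insert_of_notMem, Finset.card_singleton]
    · simp [e6]
    · simp [e4, e5]
    · simp [e1, e2, e3]
  have memΓ : ∀ x, x ∈ Γ ↔ x = a ∨ x = z a ∨ x = b ∨ x = z b := by
    intro x; simp [hΓ]
  obtain ⟨w, hw, hww, hwz, hwΓ⟩ := lift_comm h.hT h.k4 hΓc h.hz h.zz
    (by
      intro x hx
      rw [memΓ]
      rcases (memΓ x).1 hx with rfl | rfl | rfl | rfl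
      · simp
      · rw [h.az]; simp
      · simp
      · rw [h.az]; simp) (Equiv.swap b (z b))
    (by
      intro x hx
      rw [Equiv.swap_apply_def]
      split_ifs
      · simp [hΓ]
      · simp [hΓ]
      · exact hx)
    (fun x _ => Equiv.swap_apply_self _ _ x)
    (by
      intro x _
      by_cases h1 : x = b
      · rw [h1, Equiv.swap_apply_left, Equiv.swap_apply_right, h.az]
      · by_cases h2 : x = z b
        · rw [h2, Equiv.swap_apply_right, h.az, Equiv.swap_apply_left]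
        · rw [Equiv.swap_apply_of_ne_of_ne h1 h2, Equiv.swap_apply_of_ne_of_ne]
          · intro e; exact h2 (by rw [← e, h.az])
          · intro e; exact h1 (z.injective e))
  have wa : w a = a := by
    rw [hwΓ a ((memΓ _).2 (Or.inl rfl)), Equiv.swap_apply_of_ne_of_ne e2 e3]
  have wza : w (z a) = z a := by
    rw [hwΓ (z a) ((memΓ _).2 (Or.inr (Or.inl rfl))), Equiv.swap_apply_of_ne_of_ne e4 e5]
  have wb : w b = z b := by
    rw [hwΓ b ((memΓ _).2 (Or.inr (Or.inr (Or.inl rfl)))), Equiv.swap_apply_left]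
  have hwC : w ∈ Cz G z := ⟨hw, hwz⟩
  have wp : w p = q := by
    rcases h.perm hwC with h1 | h1
    · exfalso
      have := three_fix h.k3 hw hww (Ne.symm ha.1) (Ne.symm (h.nz ha).1) e1 h1 wa wza
      rw [this] at wb
      exact e6 wb
    · exact h1
  refine ⟨w, hwC, hww, wa, wb, wp, ?_⟩
  rw [← wp]
  exact DFunLike.congr_fun hww p

theorem trans2 (h : Ctx G z p q) {a b a' b' : β} (ha : a ≠ p ∧ a ≠ q) (hb : b ≠ p ∧ b ≠ q)
    (hab : b ≠ a) (hab' : b ≠ z a) (ha' : a' ≠ p ∧ a' ≠ q) (hb' : b' ≠ p ∧ b' ≠ q)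
    (hab1 : b' ≠ a') (hab1' : b' ≠ z a') :
    ∃ g ∈ pst (Cz G z) {p, q}, g a = a' ∧ (g b = b' ∨ g b = z b') := by
  obtain ⟨e1, e2, e3, e4, e5, e6⟩ := h.card4 ha hb hab hab'
  obtain ⟨e1', e2', e3', e4', e5', e6'⟩ := h.card4 ha' hb' hab1 hab1'
  obtain ⟨g0, hg0, g1, g2, g3, g4⟩ := h.hT.four e1 e2 e3 e4 e5 e6 e1' e2' e3' e4' e5' e6'
  have memΓ : ∀ x, x ∈ ({a, z a, b, z b} : Finset β) ↔ x = a ∨ x = z a ∨ x = b ∨ x = z b := by
    intro x; simp
  have hΓc : 3 ≤ ({a, z a, b, z b} : Finset β).card := by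
    rw [Finset.card_insert_of_notMem, Finset.card_insert_of_notMem,
      Finset.card_insert_of_notMem, Finset.card_singleton]
    · norm_num
    · simp [e6]
    · simp [e4, e5]
    · simp [e1, e2, e3]
  obtain ⟨g, hg, hgz, hgx⟩ := cent_adjust h.k3 h.hz h.zz hΓc hg0 (by
    intro x hx
    rcases (memΓ x).1 hx with rfl | rfl | rfl | rfl
    · rw [g1, g2]
    · rw [g2, h.az, h.az, g1]
    · rw [g3, g4]
    · rw [g4, h.az, h.az, g3])
  have ga : g a = a' := by rw [hgx a (by simp), g1]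
  have gb : g b = b' := by rw [hgx b (by simp), g3]
  have hgC : g ∈ Cz G z := ⟨hg, hgz⟩
  rcases h.perm hgC with h1 | h1
  · have h2 : g q = q := by
      rcases h.perm' hgC with h3 | h3
      · exact absurd (g.injective (h1.trans h3.symm)) h.pq
      · exact h3
    refine ⟨g, ⟨hgC, ?_⟩, ga, Or.inl gb⟩
    intro x hx
    simp only [Finset.mem_insert, Finset.mem_singleton] at hx
    rcases hx with rfl | rfl
    · exact h1
    · exact h2
  · have h2 : g q = p := by
      rcases h.perm' hgC with h3 | h3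
      · exact h3
      · exact absurd (g.injective (h1.trans h3.symm)) h.pq
    obtain ⟨s, hs, hss, sa, sb, sp, sq'⟩ := h.exists_s ha' hb' hab1 hab1'
    refine ⟨s * g, ⟨(Cz G z).mul_mem hs hgC, ?_⟩, ?_, Or.inr ?_⟩
    · intro x hx
      simp only [Finset.mem_insert, Finset.mem_singleton] at hx
      rcases hx with rfl | rfl
      · rw [Perm.mul_apply, h1, sq']
      · rw [Perm.mul_apply, h2, sp]
    · rw [Perm.mul_apply, ga, sa]
    · rw [Perm.mul_apply, gb, sb]

theorem exists_v (h : Ctx G z p q) (hI : ∀ Δ : Finset β, Δ.card = 5 → IndAlt G Δ) {a b : β}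
    (ha : a ≠ p ∧ a ≠ q) (hb : b ≠ p ∧ b ≠ q) (hab : b ≠ a) (hab' : b ≠ z a) :
    ∃ v ∈ pst (Cz G z) {p, q}, v * v = 1 ∧ v a = b := by
  obtain ⟨e1, e2, e3, e4, e5, e6⟩ := h.card4 ha hb hab hab'
  have pa : p ≠ a := Ne.symm ha.1
  have pza : p ≠ z a := Ne.symm (h.nz ha).1
  have pb : p ≠ b := Ne.symm hb.1
  have pzb : p ≠ z b := Ne.symm (h.nz hb).1
  set Δ : Finset β := {p, a, z a, b, z b} with hΔ
  have memΔ : ∀ x, x ∈ Δ ↔ x = p ∨ x = a ∨ x = z a ∨ x = b ∨ x = z b := by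
    intro x; simp [hΔ]
  have hΔc : Δ.card = 5 := by
    rw [hΔ, Finset.card_insert_of_notMem, Finset.card_insert_of_notMem,
      Finset.card_insert_of_notMem, Finset.card_insert_of_notMem, Finset.card_singleton]
    · simp [e6]
    · simp [e4, e5]
    · simp [e1, e2, e3]
    · simp [pa, pza, pb, pzb]
  set ρ : Perm β := Equiv.swap a b * Equiv.swap (z a) (z b) with hρ
  have ra : ρ a = b := by
    rw [hρ, Perm.mul_apply, Equiv.swap_apply_of_ne_of_ne e1 e3, Equiv.swap_apply_left]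
  have rb : ρ b = a := by
    rw [hρ, Perm.mul_apply, Equiv.swap_apply_of_ne_of_ne (Ne.symm e4) e6, Equiv.swap_apply_right]
  have rza : ρ (z a) = z b := by
    rw [hρ, Perm.mul_apply, Equiv.swap_apply_left, Equiv.swap_apply_of_ne_of_ne (Ne.symm e3)
      (Ne.symm e6)]
  have rzb : ρ (z b) = z a := by
    rw [hρ, Perm.mul_apply, Equiv.swap_apply_right, Equiv.swap_apply_of_ne_of_ne (Ne.symm e1) e4]
  have rne : ∀ x, x ≠ a → x ≠ z a → x ≠ b → x ≠ z b → ρ x = x := by
    intro x h1 h2 h3 h4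
    rw [hρ, Perm.mul_apply, Equiv.swap_apply_of_ne_of_ne h2 h4, Equiv.swap_apply_of_ne_of_ne h1 h3]
  have rp : ρ p = p := rne p pa pza pb pzb
  obtain ⟨g0, hg0, hg0x⟩ := hI Δ hΔc ρ
    (by rw [hρ, Perm.sign_mul, Perm.sign_swap e2, Perm.sign_swap e5]; decide)
    (by
      intro x hx
      rw [memΔ]
      by_contra hcon
      push Not at hcon
      exact hx (rne x hcon.2.1 hcon.2.2.1 hcon.2.2.2.1 hcon.2.2.2.2))
  have gp : g0 p = p := by rw [hg0x p ((memΔ _).2 (Or.inl rfl)), rp]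
  have ga : g0 a = b := by rw [hg0x a ((memΔ _).2 (Or.inr (Or.inl rfl))), ra]
  have gza : g0 (z a) = z b := by rw [hg0x (z a) ((memΔ _).2 (Or.inr (Or.inr (Or.inl rfl)))), rza]
  have gb : g0 b = a := by rw [hg0x b ((memΔ _).2 (Or.inr (Or.inr (Or.inr (Or.inl rfl))))), rb]
  have gzb : g0 (z b) = z a := by
    rw [hg0x (z b) ((memΔ _).2 (Or.inr (Or.inr (Or.inr (Or.inr rfl))))), rzb]
  obtain ⟨g, hg, hgz, hgx⟩ := cent_adjust h.k3 h.hz h.zz (Γ := Δ) (by omega) hg0 (by
    intro x hx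
    rcases (memΔ x).1 hx with rfl | rfl | rfl | rfl | rfl
    · rw [gp, h.zp, gp]
    · rw [ga, gza]
    · rw [gza, h.az, h.az, ga]
    · rw [gb, gzb]
    · rw [gzb, h.az, h.az, gb])
  have hgg : ∀ x ∈ Δ, g (g x) = x := by
    intro x hx
    rcases (memΔ x).1 hx with rfl | rfl | rfl | rfl | rfl
    · rw [hgx _ hx, gp, hgx _ hx, gp]
    · rw [hgx _ hx, ga, hgx b (by simp [hΔ]), gb]
    · rw [hgx _ hx, gza, hgx (z b) (by simp [hΔ]), gzb]
    · rw [hgx _ hx, gb, hgx a (by simp [hΔ]), ga]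
    · rw [hgx _ hx, gzb, hgx (z a) (by simp [hΔ]), gza]
  obtain ⟨j, hj⟩ := odd_of_fix h.k3 (G.mul_mem hg hg) (Γ := Δ) (by omega) (fun x hx => hgg x hx)
  have hvC : g ^ (2 * j + 1) ∈ Cz G z := (Cz G z).pow_mem ⟨hg, hgz⟩ _
  have hvv : g ^ (2 * j + 1) * g ^ (2 * j + 1) = 1 := by
    rw [← pow_add, ← two_mul, pow_mul, sq, ← hj, pow_orderOf_eq_one]
  have hvp : (g ^ (2 * j + 1)) p = p := by
    rw [pow_odd_apply (hgg p (by simp [hΔ])), hgx p (by simp [hΔ]), gp]
  have hva : (g ^ (2 * j + 1)) a = b := by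
    rw [pow_odd_apply (hgg a (by simp [hΔ])), hgx a (by simp [hΔ]), ga]
  refine ⟨g ^ (2 * j + 1), ⟨hvC, ?_⟩, hvv, hva⟩
  intro x hx
  simp only [Finset.mem_insert, Finset.mem_singleton] at hx
  rcases hx with rfl | rfl
  · exact hvp
  · rcases h.perm' hvC with h3 | h3
    · exact absurd ((g ^ (2 * j + 1)).injective (hvp.trans h3.symm)) h.pq
    · exact h3

end Ctx

end Cfsg.Agent.Lib.LW
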