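import Mathlib
import Cfsg.Agent.Lib.LW9

/-!
No 4-transitive group of degree at least 7 induces exactly the alternating group on all
sets of size five: the final contradiction (helper13).
-/

set_option autoImplicit false
set_option linter.unusedSectionVars false

namespace Cfsg.Agent.Lib.LW

open MulAction Equiv

variable {β : Type*} [Fintype β] [DecidableEq β] {G : Subgroup (Perm β)}

namespace Ctx

variable {z : Perm β} {p q : β}

/-- a maximal 2-subgroup of the centraliser of `z` in the stabiliser of `p` and `q` is a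
four group -/
theorem exists_T (h : Ctx G z p q) (hI : ∀ Δ : Finset β, Δ.card = 5 → IndAlt G Δ) {a b : β}
    (ha : a ≠ p ∧ a ≠ q) (hb : b ≠ p ∧ b ≠ q) (hab : b ≠ a) (hab' : b ≠ z a) :
    ∃ T : Subgroup (Perm β), IsPGroup 2 T ∧ T ≤ pst (Cz G z) {p, q} ∧
      (∀ R : Subgroup (Perm β), IsPGroup 2 R → R ≤ pst (Cz G z) {p, q} → T ≤ R → R ≤ T) ∧
      ∃ v ∈ T, z ∈ T ∧ z ≠ 1 ∧ v ≠ 1 ∧ v ≠ z ∧ v * v = 1 ∧
        ∀ x ∈ T, x = 1 ∨ x = z ∨ x = v ∨ x = z * v := by
  have := Fact.mk Nat.prime_two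
  obtain ⟨s, hs, hss, sa, sb, sp, sq'⟩ := h.exists_s ha hb hab hab'
  obtain ⟨v0, hv0, hvv0, hva0⟩ := h.exists_v hI ha hb hab hab'
  obtain ⟨e1, e2, e3, e4, e5, e6⟩ := h.card4 ha hb hab hab'
  set C := Cz G z with hC
  set C0 := pst C {p, q} with hC0
  have hzC : z ∈ C := ⟨h.hz, rfl⟩
  have hzC0 : z ∈ C0 := ⟨hzC, by
    intro x hx
    simp only [Finset.mem_insert, Finset.mem_singleton] at hx
    rcases hx with rfl | rfl
    · exact h.zp
    · exact h.zq⟩
  have hC0C : C0 ≤ C := fun g hg => hg.1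
  have hz1 : z ≠ 1 := by
    intro e
    have := (h.fz a).1 (by rw [e]; rfl)
    rcases this with h1 | h1
    · exact ha.1 h1
    · exact ha.2 h1
  have hs1 : s ≠ 1 := by
    intro e
    rw [e] at sp
    exact h.pq sp
  have hsinv : s⁻¹ = s := inv_eq_of_mul_eq_one_right hss
  have hzinv : z⁻¹ = z := inv_eq_of_mul_eq_one_right h.zz
  have zpow2 : ∀ {w : Perm β}, w * w = 1 → IsPGroup 2 (Subgroup.zpowers w) := by
    intro w hww
    rw [IsPGroup.iff_card]
    have h1 : orderOf w ∣ 2 := orderOf_dvd_of_pow_eq_one (by rw [sq, hww])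
    rw [Nat.card_zpowers]
    rcases (Nat.dvd_prime Nat.prime_two).1 h1 with h2 | h2
    · exact ⟨0, by rw [h2, pow_zero]⟩
    · exact ⟨1, by rw [h2, pow_one]⟩
  -- conjugation by elements of `C` preserves `C0`
  have hnorm : ∀ c ∈ C, ∀ g ∈ C0, c * g * c⁻¹ ∈ C0 := by
    intro c hc g hg
    refine ⟨C.mul_mem (C.mul_mem hc hg.1) (C.inv_mem hc), ?_⟩
    intro x hx
    have hgp : g p = p := hg.2 p (by simp)
    have hgq : g q = q := hg.2 q (by simp)
    have hci := C.inv_mem hc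
    rw [Perm.mul_apply, Perm.mul_apply]
    have hx' : c⁻¹ x = p ∨ c⁻¹ x = q := by
      simp only [Finset.mem_insert, Finset.mem_singleton] at hx
      rcases hx with rfl | rfl
      · exact h.perm hci
      · exact h.perm' hci
    rcases hx' with h1 | h1
    · rw [h1, hgp, ← h1]
      exact c.apply_symm_apply x
    · rw [h1, hgq, ← h1]
      exact c.apply_symm_apply x
  -- a maximal 2-subgroup of `C` containing `s`
  obtain ⟨P, ⟨hPp, hPC, hsP⟩, hmax⟩ := Set.exists_max_image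
    {P : Subgroup (Perm β) | IsPGroup 2 P ∧ P ≤ C ∧ s ∈ P} (fun Q => Nat.card Q)
    (Set.toFinite _) ⟨Subgroup.zpowers s, zpow2 hss, by
      rw [Subgroup.zpowers_le]; exact hs, Subgroup.mem_zpowers s⟩
  have hmaxP : ∀ R : Subgroup (Perm β), IsPGroup 2 R → R ≤ C → P ≤ R → R ≤ P := by
    intro R hR hRC hPR
    exact (Subgroup.eq_of_le_of_card_ge hPR (hmax R ⟨hR, hRC, hPR hsP⟩)).ge
  set T := P ⊓ C0 with hT
  have hTP : T ≤ P := inf_le_left
  have hTC0 : T ≤ C0 := inf_le_right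
  have hTp : IsPGroup 2 T := hPp.to_le hTP
  have hmaxT : ∀ R : Subgroup (Perm β), IsPGroup 2 R → R ≤ C0 → T ≤ R → R ≤ T := by
    intro R hR hRC hTR
    obtain ⟨c, hc, hcR⟩ := conj_into hPp hPC hmaxP hR (hRC.trans hC0C)
    have hle : R.map (MulAut.conj c).toMonoidHom ≤ T := by
      rintro _ ⟨r, hr, rfl⟩
      exact ⟨hcR r hr, hnorm c hc r (hRC hr)⟩
    have hcard := Subgroup.card_le_of_le hle
    rw [Subgroup.card_map_of_injective (MulAut.conj c).injective] at hcard
    exact (Subgroup.eq_of_le_of_card_ge hTR hcard).ge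
  -- `z ∈ T`
  have hzcomm : ∀ g ∈ C, g * z = z * g := fun g hg => hg.2
  have hzN : z ∈ Subgroup.normalizer (P : Set (Perm β)) := by
    apply SylowTools.mem_normalizer_of_forall
    intro g hg
    have h1 := hzcomm g (hPC hg)
    have h2 : z * g * z⁻¹ = g := by rw [← h1, mul_inv_cancel_right]
    rw [h2]; exact hg
  have hzP : z ∈ P := by
    apply hmaxP (Subgroup.zpowers z ⊔ P)
    · exact (zpow2 h.zz).to_sup_of_normal_right' hPp (by rw [Subgroup.zpowers_le]; exact hzN)
    · exact sup_le (by rw [Subgroup.zpowers_le]; exact hzC) hPC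
    · exact le_sup_right
    · exact (le_sup_left : Subgroup.zpowers z ≤ _) (Subgroup.mem_zpowers z)
  have hzT : z ∈ T := ⟨hzP, hzC0⟩
  -- exponent two
  have hTG : ∀ x ∈ T, x ∈ G := fun x hx => (hTC0 hx).1.1
  have hTfp : ∀ x ∈ T, x p = p := fun x hx => (hTC0 hx).2 p (by simp)
  have hTfq : ∀ x ∈ T, x q = q := fun x hx => (hTC0 hx).2 q (by simp)
  have hTsq : ∀ x ∈ T, x * x = 1 := by
    intro x hx
    exact sq_of_fix h.hN (hTG x hx) (hTp.to_le (by rw [Subgroup.zpowers_le]; exact hx)) (hTfp x hx)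
  have hTinv : ∀ x ∈ T, x⁻¹ = x := fun x hx => inv_eq_of_mul_eq_one_right (hTsq x hx)
  have hTcomm : ∀ x ∈ T, ∀ y ∈ T, x * y = y * x := by
    intro x hx y hy
    have h1 := hTinv _ (T.mul_mem hx hy)
    rw [mul_inv_rev, hTinv x hx, hTinv y hy] at h1
    exact h1.symm
  have hTa : ∀ x ∈ T, x a = a → x = 1 := fun x hx hxa =>
    three_fix h.k3 (hTG x hx) (hTsq x hx) h.pq (Ne.symm ha.1) (Ne.symm ha.2) (hTfp x hx)
      (hTfq x hx) hxa
  -- the action of `s`
  have hsT : ∀ x ∈ T, s * x * s⁻¹ ∈ T := fun x hx =>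
    ⟨P.mul_mem (P.mul_mem hsP (hTP hx)) (P.inv_mem hsP), hnorm s hs x (hTC0 hx)⟩
  have hsza : s (z a) = z a := by rw [h.cz hs, sa]
  have hfs : ∀ y, s y = y → y = a ∨ y = z a := by
    intro y hy
    by_contra hcon
    push Not at hcon
    exact hs1 (three_fix h.k3 hs.1 hss e1 (Ne.symm hcon.1) (Ne.symm hcon.2) sa hsza hy)
  have hD : ∀ x ∈ T, s * x * s⁻¹ = x → x = 1 ∨ x = z := by
    intro x hx hsx
    have h1 : s (x a) = x a := by
      have h2 : s * x = x * s := by rwa [mul_inv_eq_iff_eq_mul] at hsx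
      have h3 := DFunLike.congr_fun h2 a
      change s (x a) = x (s a) at h3
      rw [h3, sa]
    rcases hfs _ h1 with h2 | h2
    · exact Or.inl (hTa x hx h2)
    · right
      have h3 := hTa (z * x) (T.mul_mem hzT hx) (by rw [Perm.mul_apply, h2, h.az])
      have h4 : x = z⁻¹ := eq_inv_of_mul_eq_one_right h3
      rw [h4, hzinv]
  have hS : ∀ x ∈ T, s * x * s⁻¹ = x ∨ s * x * s⁻¹ = z * x := by
    intro x hx
    have hw : x * (s * x * s⁻¹) ∈ T := T.mul_mem hx (hsT x hx)
    have hss' : s * (s * x * s⁻¹) * s⁻¹ = x := by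
      rw [hsinv]
      calc s * (s * x * s) * s = (s * s) * x * (s * s) := by group
        _ = x := by rw [hss, one_mul, mul_one]
    have h1 : s * (x * (s * x * s⁻¹)) * s⁻¹ = x * (s * x * s⁻¹) := by
      calc s * (x * (s * x * s⁻¹)) * s⁻¹ = (s * x * s⁻¹) * (s * (s * x * s⁻¹) * s⁻¹) := by group
        _ = (s * x * s⁻¹) * x := by rw [hss']
        _ = x * (s * x * s⁻¹) := hTcomm _ (hsT x hx) _ hx
    rcases hD _ hw h1 with h2 | h2
    · left
      have h3 : s * x * s⁻¹ = x⁻¹ := eq_inv_of_mul_eq_one_right h2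
      rw [h3, hTinv x hx]
    · right
      have h3 : s * x * s⁻¹ = x⁻¹ * z := by rw [← h2, inv_mul_cancel_left]
      rw [h3, hTinv x hx]
      exact hTcomm x hx z hzT
  -- a second involution in `T`
  obtain ⟨c, hc, hcv⟩ := conj_into hTp hTC0 hmaxT (zpow2 hvv0)
    (by rw [Subgroup.zpowers_le]; exact hv0)
  set v := c * v0 * c⁻¹ with hv
  have hvT : v ∈ T := hcv v0 (Subgroup.mem_zpowers v0)
  have hv01 : v0 ≠ 1 := by
    intro e
    rw [e] at hva0
    exact hab hva0.symm
  have hv0z : v0 ≠ z := by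
    intro e
    rw [e] at hva0
    exact hab' hva0.symm
  have hv1 : v ≠ 1 := by
    intro e
    apply hv01
    have : v0 = c⁻¹ * v * c := by rw [hv]; group
    rw [this, e]; group
  have hvz : v ≠ z := by
    intro e
    apply hv0z
    have h1 : v0 = c⁻¹ * v * c := by rw [hv]; group
    have h2 : c * z = z * c := hzcomm c hc.1
    rw [h1, e, mul_assoc, ← h2, inv_mul_cancel_left]
  refine ⟨T, hTp, hTC0, hmaxT, v, hvT, hzT, hz1, hv1, hvz, hTsq v hvT, ?_⟩
  intro x hx
  have hsv : s * v * s⁻¹ = z * v := by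
    rcases hS v hvT with h1 | h1
    · rcases hD v hvT h1 with h2 | h2
      · exact absurd h2 hv1
      · exact absurd h2 hvz
    · exact h1
  rcases hS x hx with h1 | h1
  · rcases hD x hx h1 with h2 | h2
    · exact Or.inl h2
    · exact Or.inr (Or.inl h2)
  · have h2 : s * (x * v) * s⁻¹ = x * v := by
      calc s * (x * v) * s⁻¹ = (s * x * s⁻¹) * (s * v * s⁻¹) := by group
        _ = z * x * (z * v) := by rw [h1, hsv]
        _ = (z * x) * z * v := by group
        _ = (x * z) * z * v := by rw [hTcomm z hzT x hx]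
        _ = x * v := by rw [mul_assoc x z z, h.zz, mul_one]
    rcases hD _ (T.mul_mem hx hvT) h2 with h3 | h3
    · right; right; left
      have h4 : x = v⁻¹ := eq_inv_of_mul_eq_one_left h3
      rw [h4, hTinv v hvT]
    · right; right; right
      rw [← h3, mul_assoc, hTsq v hvT, mul_one]

end Ctx

end Cfsg.Agent.Lib.LW
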