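import Mathlib
import Cfsg.Agent.Lib.LW10

/-!
No 4-transitive group of degree at least 7 induces exactly the alternating group on all
sets of size five: the final contradiction (helper13).
-/

set_option autoImplicit false
set_option linter.unusedSectionVars false

namespace Cfsg.Agent.Lib.LW

open MulAction Equiv

variable {β : Type*} [Fintype β] [DecidableEq β] {G : Subgroup (Perm β)}

/-- a normaliser condition -/
theorem norm_le_cent {K : Type*} [Group K] [Finite K] {P : Sylow 2 K} {z v : K} (hz1 : z ≠ 1)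
    (hv1 : v ≠ 1) (hzz : z * z = 1) (hvv : v * v = 1)
    (hzP : z ∈ P) (hvP : v ∈ P) (hcz : ∀ g : K, g * z = z * g)
    (hP : ∀ x ∈ P, x = 1 ∨ x = z ∨ x = v ∨ x = z * v) :
    Subgroup.normalizer ((P : Subgroup K) : Set K) ≤ Subgroup.centralizer ((P : Subgroup K) : Set K) := by
  intro g hg
  have h2 := Fact.mk Nat.prime_two
  have hPcomm : ∀ x ∈ P, x * v = v * x := by
    intro x hx
    rcases hP x hx with rfl | rfl | rfl | rfl
    · rw [one_mul, mul_one]
    · exact (hcz v).symm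
    · rfl
    · rw [mul_assoc, ← mul_assoc v, hcz v, mul_assoc, hvv]
  -- conjugation
  have hgv : g * v * g⁻¹ = v ∨ g * v * g⁻¹ = z * v := by
    have h1 : g * v * g⁻¹ ∈ P := (Subgroup.mem_normalizer_iff.1 hg v).1 hvP
    rcases hP _ h1 with h3 | h3 | h3 | h3
    · exfalso
      apply hv1
      have : v = g⁻¹ * (g * v * g⁻¹) * g := by group
      rw [this, h3]; group
    · have : v = z := by
        have e : v = g⁻¹ * (g * v * g⁻¹) * g := by group
        rw [e, h3, mul_assoc, ← hcz g, ← mul_assoc, inv_mul_cancel, one_mul]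
      left
      rw [h3, this]
    · exact Or.inl h3
    · exact Or.inr h3
  have hggv : ∀ n : ℕ, g ^ (2 * n) * v * (g ^ (2 * n))⁻¹ = v := by
    intro n
    induction n with
    | zero => simp
    | succ n ih =>
      have e : g ^ (2 * (n + 1)) = g * (g * g ^ (2 * n)) := by
        rw [← pow_succ', ← pow_succ']
        congr 1
      have e1 : g ^ (2 * (n + 1)) * v * (g ^ (2 * (n + 1)))⁻¹ =
          g * (g * (g ^ (2 * n) * v * (g ^ (2 * n))⁻¹) * g⁻¹) * g⁻¹ := by
        rw [e]; group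
      rw [e1, ih]
      rcases hgv with h3 | h3
      · rw [h3, h3]
      · rw [h3]
        have e2 : g * (z * v) * g⁻¹ = z * (g * v * g⁻¹) := by
          rw [← mul_assoc, hcz g]; group
        rw [e2, h3, ← mul_assoc, hzz, one_mul]
  obtain ⟨k, r, hr, hk⟩ := Nat.exists_eq_two_pow_mul_odd (orderOf_pos g).ne'
  obtain ⟨j, hj⟩ := hr
  have hgr : g ^ r ∈ P := by
    have h3 : IsPGroup 2 (Subgroup.zpowers (g ^ r)) := by
      apply IsPGroup.of_card (n := k)
      rw [Nat.card_zpowers, orderOf_pow, hk, Nat.gcd_eq_right (Dvd.intro_left _ rfl),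
        Nat.mul_div_cancel _ (by omega)]
    have h4 : g ^ r ∈ Subgroup.normalizer ((P : Subgroup K) : Set K) := Subgroup.pow_mem _ hg r
    have h5 : IsPGroup 2 (Subgroup.zpowers (g ^ r) ⊔ (P : Subgroup K) : Subgroup K) :=
      h3.to_sup_of_normal_right' P.2 (by rw [Subgroup.zpowers_le]; exact h4)
    have h6 := P.3 h5 le_sup_right
    have h7 : g ^ r ∈ Subgroup.zpowers (g ^ r) ⊔ (P : Subgroup K) :=
      (le_sup_left : Subgroup.zpowers (g ^ r) ≤ _) (Subgroup.mem_zpowers _)
    rw [h6] at h7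
    exact h7
  have hgrv : g * v * g⁻¹ = v := by
    have h3 : g ^ r * v * (g ^ r)⁻¹ = v := by
      rw [hPcomm _ hgr, mul_inv_cancel_right]
    have h4 : g ^ r * v * (g ^ r)⁻¹ = g * (g ^ (2 * j) * v * (g ^ (2 * j))⁻¹) * g⁻¹ := by
      rw [hj, pow_succ']; group
    rw [h4, hggv] at h3
    exact h3
  have hgv' : g * v = v * g := by rwa [mul_inv_eq_iff_eq_mul] at hgrv
  rw [Subgroup.mem_centralizer_iff]
  intro x hx
  rcases hP x hx with rfl | rfl | rfl | rfl
  · rw [one_mul, mul_one]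
  · exact (hcz g).symm
  · exact hgv'.symm
  · rw [mul_assoc, ← hgv', ← mul_assoc, ← hcz g, mul_assoc]

theorem orbit_card {K : Subgroup (Perm β)} {F : Finset β} {x : β} (hx : x ∉ F)
    (hF : ∀ g ∈ K, ∀ y ∈ F, g y = y) (htr : ∀ y, y ∉ F → ∃ g ∈ K, g x = y) (L : Subgroup ↥K)
    (hL : ∀ y, y ∉ F → ∃ g : ↥K, g ∈ L ∧ (g : Perm β) x = y) :
    Nat.card L = (Fintype.card β - F.card) * Nat.card (stabilizer L x) := by
  have hinv : ∀ g ∈ K, ∀ w, w ∉ F → g w ∉ F := by
    intro g hg w hw h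
    have h1 := hF _ (K.inv_mem hg) _ h
    rw [Perm.inv_eq_iff_eq.2 rfl] at h1
    rw [← h1] at h
    exact hw h
  have horb : MulAction.orbit L x = (((Finset.univ \ F : Finset β)) : Set β) := by
    ext y
    rw [Finset.mem_coe, Finset.mem_sdiff]
    constructor
    · rintro ⟨g, rfl⟩
      exact ⟨Finset.mem_univ _, hinv _ (g : ↥K).2 x hx⟩
    · rintro ⟨-, hy⟩
      obtain ⟨g, hg, hgx⟩ := hL y hy
      exact ⟨⟨g, hg⟩, hgx⟩
  have h1 := Nat.card_congr (orbitProdStabilizerEquivGroup L x)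
  rw [Nat.card_prod] at h1
  have h2 : Nat.card (orbit L x) = Fintype.card β - F.card := by
    rw [horb]
    change (((Finset.univ \ F : Finset β)) : Set β).ncard = _
    rw [Set.ncard_coe_finset, Finset.card_sdiff_of_subset (Finset.subset_univ _),
      Finset.card_univ]
  rw [← h1, h2]

theorem e5_false (hT : Trans G 4) (hN : NoOdd G 5)
    (hI : ∀ Δ : Finset β, Δ.card = 5 → IndAlt G Δ) (hn : 7 ≤ Fintype.card β) : False := by
  have h2 := Fact.mk Nat.prime_two
  have hK3 : NoInv G 3 := noInv_of_noOdd hN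
  have hK4 : NoInv G 4 := hK3.mono (by omega)
  obtain ⟨Γ, hΓ⟩ : ∃ Γ : Finset β, Γ.card = 4 := by
    obtain ⟨Γ, -, hΓ⟩ := Finset.exists_subset_card_eq (s := (Finset.univ : Finset β))
      (n := 4) (by rw [Finset.card_univ]; omega)
    exact ⟨Γ, hΓ⟩
  obtain ⟨c, hc, d, hd, hcd⟩ := Finset.one_lt_card.1 (by omega : 1 < Γ.card)
  have hswap : ∀ x ∈ Γ, Equiv.swap c d x ∈ Γ := by
    intro x hx
    rw [Equiv.swap_apply_def]
    split_ifs
    · exact hd
    · exact hc
    · exact hx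
  obtain ⟨z, hz, hzz, -, hzΓ⟩ := lift_comm hT hK4 hΓ G.one_mem (one_mul 1) (fun x hx => hx)
    (Equiv.swap c d) hswap (fun x _ => Equiv.swap_apply_self c d x) (fun x _ => rfl)
  have hzc : z c = d := by rw [hzΓ c hc, Equiv.swap_apply_left]
  have hz1 : z ≠ 1 := by
    intro h1
    rw [h1] at hzc
    exact hcd hzc
  have hlt := card_fx_lt hK3 hz hzz hz1
  have hge : 2 ≤ (fx z).card := by
    have h1 : (Γ.erase c).erase d ⊆ fx z := by
      intro x hx
      rw [Finset.mem_erase, Finset.mem_erase] at hx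
      rw [mem_fx, hzΓ x hx.2.2, Equiv.swap_apply_of_ne_of_ne hx.2.1 hx.1]
    have h2 := Finset.card_le_card h1
    rw [Finset.card_erase_of_mem (Finset.mem_erase.2 ⟨Ne.symm hcd, hd⟩),
        Finset.card_erase_of_mem hc, hΓ] at h2
    omega
  have hmod := card_fix_mod hzz
  change (fx z).card % 2 = _ at hmod
  obtain ⟨p, q, hpq, hfz⟩ := Finset.card_eq_two.1 (by omega : (fx z).card = 2)
  have hctx : Ctx G z p q := ⟨hT, hN, hz, hzz, hpq, fun x => by
    rw [← mem_fx, hfz, Finset.mem_insert, Finset.mem_singleton]⟩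
  have pick : ∀ S : Finset β, S.card ≤ 6 → ∃ x, x ∉ S := by
    intro S hS
    by_contra hcon
    push Not at hcon
    have h6 := Finset.card_le_card (s := Finset.univ) (t := S) (fun y _ => hcon y)
    rw [Finset.card_univ] at h6
    omega
  obtain ⟨a, ha⟩ := pick {p, q} (by have := Finset.card_le_two (a := p) (b := q); omega)
  obtain ⟨b, hb⟩ := pick {p, q, a, z a} (by
    have := Finset.card_le_four (a := p) (b := q) (c := a) (d := z a); omega)
  simp only [Finset.mem_insert, Finset.mem_singleton, not_or] at ha hb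
  obtain ⟨T, hTp, hTC0, hmaxT, v, hvT, hzT, -, hv1, hvz, hvv, hTel⟩ :=
    hctx.exists_T hI ha ⟨hb.1, hb.2.1⟩ hb.2.2.1 hb.2.2.2
  set C0 := pst (Cz G z) {p, q} with hC0
  have hC0fix : ∀ g ∈ C0, g p = p ∧ g q = q := fun g hg => ⟨hg.2 p (by simp), hg.2 q (by simp)⟩
  have hC0F : ∀ g ∈ C0, ∀ y ∈ ({p, q} : Finset β), g y = y := fun g hg y hy => hg.2 y hy
  have hC0z : ∀ g ∈ C0, ∀ x, g (z x) = z (g x) := fun g hg x => hctx.cz hg.1 x
  have notF : ∀ x, x ∉ ({p, q} : Finset β) ↔ x ≠ p ∧ x ≠ q := by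
    intro x; simp
  -- the order of `T`
  have hTcard : Nat.card T = 4 := by
    have h1 : (T : Set (Perm β)) = (({1, z, v, z * v} : Finset (Perm β)) : Set (Perm β)) := by
      ext x
      simp only [SetLike.mem_coe, Finset.coe_insert, Finset.coe_singleton, Set.mem_insert_iff,
        Set.mem_singleton_iff]
      constructor
      · exact hTel x
      · rintro (rfl | rfl | rfl | rfl)
        · exact T.one_mem
        · exact hzT
        · exact hvT
        · exact T.mul_mem hzT hvT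
    have h3 : Nat.card T = ({1, z, v, z * v} : Finset (Perm β)).card := by
      have : Nat.card T = Nat.card (T : Set (Perm β)) := rfl
      rw [this, h1]
      change (({1, z, v, z * v} : Finset (Perm β)) : Set (Perm β)).ncard = _
      rw [Set.ncard_coe_finset]
    rw [h3, Finset.card_insert_of_notMem, Finset.card_insert_of_notMem,
      Finset.card_insert_of_notMem, Finset.card_singleton]
    · rw [Finset.mem_singleton]
      intro e
      apply hz1
      have : z * v = 1 * v := by rw [one_mul]; exact e.symm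
      exact mul_right_cancel this
    · simp only [Finset.mem_insert, Finset.mem_singleton, not_or]
      refine ⟨Ne.symm hvz, fun e => hv1 ?_⟩
      have : z * v = z * 1 := by rw [mul_one]; exact e.symm
      exact mul_left_cancel this
    · simp only [Finset.mem_insert, Finset.mem_singleton, not_or]
      refine ⟨Ne.symm hz1, Ne.symm hv1, fun e => hvz ?_⟩
      have h4 : v = z⁻¹ := eq_inv_of_mul_eq_one_right e.symm
      rw [h4, inv_eq_of_mul_eq_one_right hzz]
  -- Sylow subgroup of `C0`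
  let P0 : Sylow 2 ↥C0 := ⟨T.subgroupOf C0, hTp.comap_subtype, by
    intro Q hQ hTQ
    apply le_antisymm _ hTQ
    have h3 : Q.map C0.subtype ≤ T := by
      apply hmaxT _ (hQ.map _) (Subgroup.map_subtype_le _)
      intro x hx
      exact ⟨⟨x, hTC0 hx⟩, hTQ (Subgroup.mem_subgroupOf.2 hx), rfl⟩
    intro y hy
    exact Subgroup.mem_subgroupOf.2 (h3 ⟨y, hy, rfl⟩)⟩
  have hP0mem : ∀ x : ↥C0, x ∈ P0 ↔ (x : Perm β) ∈ T := fun x => Subgroup.mem_subgroupOf
  have hzC0 : z ∈ C0 := hTC0 hzT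
  have hvC0 : v ∈ C0 := hTC0 hvT
  have hNC := norm_le_cent (P := P0) (z := ⟨z, hzC0⟩) (v := ⟨v, hvC0⟩)
    (fun e => hz1 (congrArg Subtype.val e)) (fun e => hv1 (congrArg Subtype.val e))
    (Subtype.ext hzz) (Subtype.ext hvv) ((hP0mem _).2 hzT) ((hP0mem _).2 hvT)
    (fun g => Subtype.ext g.2.1.2)
    (by
      intro x hx
      rcases hTel x ((hP0mem x).1 hx) with h1 | h1 | h1 | h1
      · exact Or.inl (Subtype.ext h1)
      · exact Or.inr (Or.inl (Subtype.ext h1))
      · exact Or.inr (Or.inr (Or.inl (Subtype.ext h1)))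
      · exact Or.inr (Or.inr (Or.inr (Subtype.ext h1))))
  have hcompl := MonoidHom.ker_transferSylow_isComplement' P0 hNC
  have hUodd := MonoidHom.not_dvd_card_ker_transferSylow P0 hNC
  set U := (MonoidHom.transferSylow P0 hNC).ker with hU
  have hUn : U.Normal := MonoidHom.normal_ker _
  have hP0card : Nat.card P0 = 4 := by
    rw [← hTcard]
    exact Nat.card_congr (Subgroup.subgroupOfEquivOfLe hTC0).toEquiv
  have hcardU : Nat.card U * 4 = Nat.card ↥C0 := by
    rw [← hP0card]; exact hcompl.card_mul_card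
  -- transitivity of `C0`
  have htr : ∀ x, x ∉ ({p, q} : Finset β) → ∀ y, y ∉ ({p, q} : Finset β) → ∃ g ∈ C0, g x = y := by
    intro x hx y hy
    rw [notF] at hx hy
    obtain ⟨x', hx'⟩ := pick {p, q, x, z x} (by
      have := Finset.card_le_four (a := p) (b := q) (c := x) (d := z x); omega)
    obtain ⟨y', hy'⟩ := pick {p, q, y, z y} (by
      have := Finset.card_le_four (a := p) (b := q) (c := y) (d := z y); omega)
    simp only [Finset.mem_insert, Finset.mem_singleton, not_or] at hx' hy'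
    obtain ⟨g, hg, hgx, -⟩ := hctx.trans2 hx ⟨hx'.1, hx'.2.1⟩ hx'.2.2.1 hx'.2.2.2 hy
      ⟨hy'.1, hy'.2.1⟩ hy'.2.2.1 hy'.2.2.2
    exact ⟨g, hg, hgx⟩
  have hFc : ({p, q} : Finset β).card = 2 := Finset.card_pair hpq
  have haF : a ∉ ({p, q} : Finset β) := (notF a).2 ha
  -- `4 ∣ n - 2`
  have h4 : 4 ∣ Fintype.card β - 2 := by
    have h1 := orbit_card haF hC0F (fun y hy => htr a haF y hy) (⊤ : Subgroup ↥C0)
      (fun y hy => by
        obtain ⟨g, hg, hgx⟩ := htr a haF y hy
        exact ⟨⟨g, hg⟩, Subgroup.mem_top _, hgx⟩)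
    rw [hFc] at h1
    have h3 : Nat.card (⊤ : Subgroup ↥C0) = Nat.card ↥C0 := Nat.card_congr Subgroup.topEquiv.toEquiv
    rw [h3, ← hcardU] at h1
    have h5 : 4 ∣ (Fintype.card β - 2) * Nat.card (stabilizer (⊤ : Subgroup ↥C0) a) :=
      ⟨Nat.card U, by rw [← h1]; ring⟩
    refine Nat.Coprime.dvd_of_dvd_mul_right ?_ h5
    rw [show (4 : ℕ) = 2 ^ 2 by norm_num]
    apply Nat.Coprime.pow_left
    rw [Nat.Prime.coprime_iff_not_dvd Nat.prime_two]
    intro hdvd
    obtain ⟨w, hw⟩ := exists_prime_orderOf_dvd_card' 2 hdvd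
    have hw1 : w ≠ 1 := by
      rintro rfl
      rw [orderOf_one] at hw
      omega
    have hww : w * w = 1 := by rw [← sq, ← hw, pow_orderOf_eq_one]
    apply hw1
    have hwa : (((w : ↥(⊤ : Subgroup ↥C0)) : ↥C0) : Perm β) a = a := w.2
    have hwC : (((w : ↥(⊤ : Subgroup ↥C0)) : ↥C0) : Perm β) ∈ C0 :=
      ((w : ↥(⊤ : Subgroup ↥C0)) : ↥C0).2
    have hww' : (((w : ↥(⊤ : Subgroup ↥C0)) : ↥C0) : Perm β) *
        (((w : ↥(⊤ : Subgroup ↥C0)) : ↥C0) : Perm β) = 1 := by
      have := congrArg Subtype.val (congrArg Subtype.val (congrArg Subtype.val hww))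
      exact this
    have h6 : (((w : ↥(⊤ : Subgroup ↥C0)) : ↥C0) : Perm β) = 1 :=
      three_fix hK3 hwC.1.1 hww' hpq (Ne.symm ha.1) (Ne.symm ha.2) (hC0fix _ hwC).1 (hC0fix _ hwC).2 hwa
    exact Subtype.ext (Subtype.ext (Subtype.ext h6))
  by_cases hcase : ∃ u ∈ U, ∃ x, x ∉ ({p, q} : Finset β) ∧ (u : Perm β) x ≠ x ∧ (u : Perm β) x ≠ z x
  · obtain ⟨u, hu, x, hxF, hux, huzx⟩ := hcase
    have hx := (notF x).1 hxF
    have hzK : (⟨z, hzC0⟩ : ↥C0) ∈ Subgroup.zpowers (⟨z, hzC0⟩ : ↥C0) ⊔ U :=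
      (le_sup_left : Subgroup.zpowers (⟨z, hzC0⟩ : ↥C0) ≤ _) (Subgroup.mem_zpowers _)
    have hUK : U ≤ Subgroup.zpowers (⟨z, hzC0⟩ : ↥C0) ⊔ U := le_sup_right
    have huxF : (u : Perm β) x ≠ p ∧ (u : Perm β) x ≠ q := by
      constructor
      · intro e
        exact hx.1 ((u : Perm β).injective (e.trans (hC0fix _ u.2).1.symm))
      · intro e
        exact hx.2 ((u : Perm β).injective (e.trans (hC0fix _ u.2).2.symm))
    have h1 := orbit_card hxF hC0F (fun y hy => htr x hxF y hy)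
      (Subgroup.zpowers (⟨z, hzC0⟩ : ↥C0) ⊔ U) (fun y hyF => by
        have hy := (notF y).1 hyF
        by_cases hyx : y = x
        · exact ⟨1, Subgroup.one_mem _, hyx.symm⟩
        · by_cases hyz : y = z x
          · exact ⟨⟨z, hzC0⟩, hzK, hyz.symm⟩
          · obtain ⟨g, hg, hgx, hgu⟩ := hctx.trans2 hx huxF hux huzx hx hy hyx hyz
            have hgi : g⁻¹ x = x := by rw [Perm.inv_eq_iff_eq, hgx]
            have hconj : (⟨g, hg⟩ : ↥C0) * u * (⟨g, hg⟩ : ↥C0)⁻¹ ∈ U := hUn.conj_mem u hu _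
            rcases hgu with h3 | h3
            · refine ⟨_, hUK hconj, ?_⟩
              change g ((u : Perm β) (g⁻¹ x)) = y
              rw [hgi, h3]
            · refine ⟨⟨z, hzC0⟩ * _, Subgroup.mul_mem _ hzK (hUK hconj), ?_⟩
              change z (g ((u : Perm β) (g⁻¹ x))) = y
              rw [hgi, h3, hctx.az])
    rw [hFc] at h1
    have h3 : 4 ∣ Nat.card (Subgroup.zpowers (⟨z, hzC0⟩ : ↥C0) ⊔ U : Subgroup ↥C0) := by
      rw [h1]; exact Dvd.dvd.mul_right h4 _
    have h5 : Nat.card (Subgroup.zpowers (⟨z, hzC0⟩ : ↥C0) ⊔ U : Subgroup ↥C0) =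
        Nat.card U * U.relIndex (Subgroup.zpowers (⟨z, hzC0⟩ : ↥C0)) := by
      rw [← Subgroup.relIndex_sup_right, ← Subgroup.card_mul_index (U.subgroupOf _)]
      congr 1
      exact Nat.card_congr (Subgroup.subgroupOfEquivOfLe hUK).toEquiv
    have h6 : U.relIndex (Subgroup.zpowers (⟨z, hzC0⟩ : ↥C0)) ∣ 2 := by
      refine (Subgroup.relIndex_dvd_card _ _).trans ?_
      rw [Nat.card_zpowers]
      exact orderOf_dvd_of_pow_eq_one (Subtype.ext (by
        change z ^ 2 = 1
        rw [sq, hzz]))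
    rw [h5] at h3
    have h7 : 2 * 2 ∣ Nat.card U * 2 := by
      exact (by exact h3 : 2 * 2 ∣ _).trans (Nat.mul_dvd_mul_left _ h6)
    exact hUodd (Nat.dvd_of_mul_dvd_mul_right (by norm_num) h7)
  · push Not at hcase
    have hUbot : U = ⊥ := by
      rw [Subgroup.eq_bot_iff_forall]
      intro u hu
      have hu2 : u * u = 1 := by
        apply Subtype.ext
        apply Equiv.ext
        intro x
        change (u : Perm β) ((u : Perm β) x) = x
        by_cases hxF : x ∈ ({p, q} : Finset β)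
        · rw [hC0F _ u.2 x hxF, hC0F _ u.2 x hxF]
        · by_cases h1 : (u : Perm β) x = x
          · rw [h1, h1]
          · have h3 := hcase u hu x hxF h1
            rw [h3, hC0z _ u.2, h3, hctx.az]
      by_contra hu1
      have h3 : orderOf (⟨u, hu⟩ : ↥U) = 2 := orderOf_eq_prime (Subtype.ext (by
        change u ^ 2 = 1
        rw [sq, hu2])) (fun e => hu1 (congrArg Subtype.val e))
      exact hUodd (h3 ▸ orderOf_dvd_natCard _)
    have h1 := orbit_card haF hC0F (fun y hy => htr a haF y hy) (⊤ : Subgroup ↥C0)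
      (fun y hy => by
        obtain ⟨g, hg, hgx⟩ := htr a haF y hy
        exact ⟨⟨g, hg⟩, Subgroup.mem_top _, hgx⟩)
    rw [hFc] at h1
    have h3 : Nat.card (⊤ : Subgroup ↥C0) = Nat.card ↥C0 := Nat.card_congr Subgroup.topEquiv.toEquiv
    rw [h3, ← hcardU, hUbot, Subgroup.card_bot, one_mul] at h1
    have h5 : Fintype.card β - 2 ∣ 4 := ⟨_, h1⟩
    have h6 := Nat.le_of_dvd (by norm_num) h5
    omega

end Cfsg.Agent.Lib.LW
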