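import Mathlib
import Cfsg.Agent.Lib.LW11

/-!
Orders of multiply transitive and set-homogeneous groups with trivial pointwise stabilisers
(helper13).
-/

set_option autoImplicit false
set_option linter.unusedSectionVars false

namespace Cfsg.Agent.Lib.LW

open MulAction Equiv

variable {β : Type*} [Fintype β] [DecidableEq β] {G : Subgroup (Perm β)} {t k : ℕ}

theorem card_pst_step (hT : Trans G t) {Γ : Finset β} (hΓ : Γ.card < t) {x : β} (hx : x ∉ Γ) :
    Nat.card (pst G Γ) = (Fintype.card β - Γ.card) * Nat.card (pst G (insert x Γ)) := by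
  have htr : ∀ y, y ∉ Γ → ∃ g ∈ pst G Γ, g x = y := fun y hy => move_one hT hΓ hx hy
  have h1 := orbit_card (K := pst G Γ) hx (fun g hg y hy => hg.2 y hy) htr (⊤ : Subgroup ↥(pst G Γ))
    (fun y hy => by
      obtain ⟨g, hg, hgx⟩ := htr y hy
      exact ⟨⟨g, hg⟩, Subgroup.mem_top _, hgx⟩)
  have h2 : Nat.card (⊤ : Subgroup ↥(pst G Γ)) = Nat.card ↥(pst G Γ) :=
    Nat.card_congr Subgroup.topEquiv.toEquiv
  rw [h2] at h1
  rw [h1]
  congr 1
  refine Nat.card_congr ⟨fun g => ⟨((g : ↥(⊤ : Subgroup ↥(pst G Γ))) : ↥(pst G Γ)), ?_⟩,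
    fun g => ⟨⟨⟨g.1, ?_⟩, Subgroup.mem_top _⟩, ?_⟩, ?_, ?_⟩
  · refine ⟨(((g : ↥(⊤ : Subgroup ↥(pst G Γ))) : ↥(pst G Γ))).2.1, ?_⟩
    intro y hy
    rw [Finset.mem_insert] at hy
    rcases hy with rfl | hy
    · exact g.2
    · exact (((g : ↥(⊤ : Subgroup ↥(pst G Γ))) : ↥(pst G Γ))).2.2 y hy
  · exact ⟨g.2.1, fun y hy => g.2.2 y (Finset.mem_insert_of_mem hy)⟩
  · exact g.2.2 x (Finset.mem_insert_self _ _)
  · intro g; rfl
  · intro g; rfl

open scoped Pointwise in
theorem card_ind (h : IsPretransitive G (Set.powersetCard β k)) {Δ : Finset β} (hΔ : Δ.card = k)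
    (hp : ∀ g ∈ G, (∀ x ∈ Δ, g x = x) → g = 1) :
    Nat.card G = (Fintype.card β).choose k * Nat.card (ind G Δ) := by
  have h1 := Nat.card_congr (orbitProdStabilizerEquivGroup G (⟨Δ, hΔ⟩ : Set.powersetCard β k))
  rw [Nat.card_prod] at h1
  have h2 : Nat.card (orbit G (⟨Δ, hΔ⟩ : Set.powersetCard β k)) = (Fintype.card β).choose k := by
    rw [MulAction.orbit_eq_univ]
    rw [← Nat.card_eq_fintype_card, ← Set.powersetCard.card]
    exact Nat.card_congr (Equiv.Set.univ _)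
  have hst : ∀ g : stabilizer G (⟨Δ, hΔ⟩ : Set.powersetCard β k), ∀ x,
      ((g : G) : Perm β) x ∈ Δ ↔ x ∈ Δ := by
    intro g x
    have h3 : (g : G) • (⟨Δ, hΔ⟩ : Set.powersetCard β k) = ⟨Δ, hΔ⟩ := g.2
    have h4 : (g : G) • Δ = Δ := congrArg Subtype.val h3
    have h5 : ((g : G) : Perm β) x ∈ (g : G) • Δ ↔ x ∈ Δ := Finset.smul_mem_smul_finset_iff (g : G)
    rwa [h4] at h5
  rw [← h1, h2]
  congr 1
  refine Nat.card_congr (Equiv.ofBijective (fun g => ⟨(((g : G) : Perm β)).subtypePerm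
    (p := (· ∈ Δ)) (hst g), ((g : G) : Perm β), (g : G).2, fun _ => rfl⟩) ⟨?_, ?_⟩)
  · intro g g' hgg'
    have h3 := congrArg Subtype.val hgg'
    have h4 : ∀ x ∈ Δ, ((g : G) : Perm β) x = ((g' : G) : Perm β) x := by
      intro x hx
      exact congrArg Subtype.val (DFunLike.congr_fun h3 ⟨x, hx⟩)
    have h5 : (((g' : G) : Perm β))⁻¹ * ((g : G) : Perm β) = 1 := by
      apply hp _ (G.mul_mem (G.inv_mem (g' : G).2) (g : G).2)
      intro x hx
      rw [Perm.mul_apply, Perm.inv_eq_iff_eq, h4 x hx]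
    apply Subtype.ext
    apply Subtype.ext
    rw [inv_mul_eq_one] at h5
    exact h5.symm
  · rintro ⟨σ, g, hg, hgσ⟩
    have hmem : (⟨g, hg⟩ : G) ∈ stabilizer G (⟨Δ, hΔ⟩ : Set.powersetCard β k) := by
      rw [mem_stabilizer_iff]
      apply Subtype.ext
      change (⟨g, hg⟩ : G) • Δ = Δ
      apply Finset.eq_of_subset_of_card_le
      · intro y hy
        obtain ⟨x, hx, rfl⟩ := Finset.mem_smul_finset.1 hy
        change g x ∈ Δ
        have := hgσ ⟨x, hx⟩
        change g x = _ at this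
        rw [this]
        exact (σ ⟨x, hx⟩).2
      · rw [Finset.card_smul_finset]
    refine ⟨⟨⟨g, hg⟩, hmem⟩, ?_⟩
    apply Subtype.ext
    ext x
    exact hgσ x

/-- invariant sets -/
theorem even_ind {z : Perm β} (hz : z ∈ G) (hzz : z * z = 1) {F : Finset β}
    (hF : ∀ x ∈ F, z x = x) (hc : (fx z).card + 4 ≤ Fintype.card β) :
    ∃ Δ : Finset β, Δ.card = F.card + 4 ∧ 2 ∣ Nat.card (ind G Δ) := by
  have az : ∀ x, z (z x) = x := fun x => DFunLike.congr_fun hzz x
  have pick : ∀ S : Finset β, S.card ≤ (fx z).card + 2 → ∃ x, x ∉ S := by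
    intro S hS
    by_contra hcon
    push Not at hcon
    have h6 := Finset.card_le_card (s := Finset.univ) (t := S) (fun y _ => hcon y)
    rw [Finset.card_univ] at h6
    omega
  obtain ⟨a, ha⟩ := pick (fx z) (by omega)
  obtain ⟨b, hb⟩ := pick (insert a (insert (z a) (fx z))) (by
    have h1 := Finset.card_insert_le a (insert (z a) (fx z))
    have h2 := Finset.card_insert_le (z a) (fx z)
    omega)
  simp only [Finset.mem_insert, not_or] at hb
  obtain ⟨hba, hbza, hbF⟩ := hb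
  have hzF : ∀ x, x ∉ fx z → z x ∉ fx z := by
    intro x hx h1
    rw [mem_fx] at h1 hx
    exact hx (z.injective h1)
  have haz : a ≠ z a := fun h => ha (mem_fx.2 h.symm)
  have hbz : b ≠ z b := fun h => hbF (mem_fx.2 h.symm)
  have hzba : z b ≠ a := fun h => hbza (by rw [← h, az])
  have hzbza : z b ≠ z a := fun h => hba (z.injective h)
  have hnF : ∀ x, x ∉ fx z → x ∉ F := fun x hx h => hx (mem_fx.2 (hF x h))
  set Δ : Finset β := insert a (insert (z a) (insert b (insert (z b) F))) with hΔ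
  have hΔc : Δ.card = F.card + 4 := by
    rw [hΔ, Finset.card_insert_of_notMem, Finset.card_insert_of_notMem,
      Finset.card_insert_of_notMem, Finset.card_insert_of_notMem]
    · exact hnF _ (hzF _ hbF)
    · simp only [Finset.mem_insert, not_or]
      exact ⟨hbz, hnF _ hbF⟩
    · simp only [Finset.mem_insert, not_or]
      exact ⟨Ne.symm hbza, Ne.symm hzbza, hnF _ (hzF _ ha)⟩
    · simp only [Finset.mem_insert, not_or]
      exact ⟨haz, Ne.symm hba, Ne.symm hzba, hnF _ ha⟩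
  have memΔ : ∀ x, x ∈ Δ ↔ x = a ∨ x = z a ∨ x = b ∨ x = z b ∨ x ∈ F := by
    intro x
    simp only [hΔ, Finset.mem_insert]
  have hzΔ1 : ∀ x, x ∈ Δ → z x ∈ Δ := by
    intro x hx
    rw [memΔ]
    rcases (memΔ x).1 hx with rfl | rfl | rfl | rfl | h
    · exact Or.inr (Or.inl rfl)
    · exact Or.inl (az _)
    · exact Or.inr (Or.inr (Or.inr (Or.inl rfl)))
    · exact Or.inr (Or.inr (Or.inl (az _)))
    · rw [hF x h]; exact Or.inr (Or.inr (Or.inr (Or.inr h)))
  have hzΔ : ∀ x, z x ∈ Δ ↔ x ∈ Δ := by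
    intro x
    constructor
    · intro h
      have := hzΔ1 _ h
      rwa [az] at this
    · exact hzΔ1 x
  refine ⟨Δ, hΔc, ?_⟩
  have haΔ : a ∈ Δ := (memΔ a).2 (Or.inl rfl)
  set ζ : ↥(ind G Δ) := ⟨z.subtypePerm (p := (· ∈ Δ)) hzΔ, z, hz, fun _ => rfl⟩ with hζ
  have h3 : orderOf ζ = 2 := by
    have := Fact.mk Nat.prime_two
    apply orderOf_eq_prime
    · apply Subtype.ext
      ext x
      change z (z x) = x
      rw [az]
    · intro h
      apply haz
      have h4 := congrArg Subtype.val h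
      have h5 := congrArg Subtype.val (DFunLike.congr_fun h4 ⟨a, haΔ⟩)
      exact h5.symm
  exact h3 ▸ orderOf_dvd_natCard _

end Cfsg.Agent.Lib.LW
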