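import Mathlib
import Cfsg.Agent.Lib.LW12

/-!
Exclusion of some parameters (helper13).
-/

set_option autoImplicit false
set_option linter.unusedSectionVars false

namespace Cfsg.Agent.Lib.LW

open MulAction Equiv

variable {β : Type*} [Fintype β] [DecidableEq β] {G : Subgroup (Perm β)} {t k : ℕ}

theorem sylow_false {p m : ℕ} (hp : p.Prime) (hp3 : 3 ≤ p)
    (hm : ∀ d, d ∣ m → d % p = 1 → d = 1) (hpm : ¬ p ∣ m)
    (h4 : ∀ g ∈ G, ∀ Γ : Finset β, 4 ≤ Γ.card → (∀ x ∈ Γ, g x = x) → g = 1)
    {x1 : β} (hcard : Nat.card (pst G {x1}) = p * m)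
    (h2 : ∀ x2, x2 ≠ x1 → p < Nat.card (pst G {x1, x2})) : False := by
  have hpf := Fact.mk hp
  set K := pst G {x1} with hK
  let P : Sylow p ↥K := default
  have hm0 : m ≠ 0 := by
    rintro rfl
    exact hpm (dvd_zero p)
  have hPc : Nat.card P = p := by
    rw [P.card_eq_multiplicity, hcard, Nat.factorization_mul hp.ne_zero hm0, Finsupp.add_apply,
      hp.factorization_self, Nat.factorization_eq_zero_of_not_dvd hpm, add_zero, pow_one]
  have hPi : (P : Subgroup ↥K).index = m := by
    have h1 := (P : Subgroup ↥K).card_mul_index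
    rw [hcard] at h1
    change Nat.card P * _ = _ at h1
    rw [hPc] at h1
    exact Nat.eq_of_mul_eq_mul_left hp.pos h1
  have hS1 : Nat.card (Sylow p ↥K) = 1 := by
    apply hm
    · rw [← hPi]; exact P.card_dvd_index
    · have h1 := card_sylow_modEq_one p ↥K
      have h3 : 1 % p = 1 := Nat.mod_eq_of_lt (by omega)
      rw [← h3]
      exact h1
  have hss : Subsingleton (Sylow p ↥K) := (Nat.card_eq_one_iff_unique.1 hS1).1
  have hPn : (P : Subgroup ↥K).Normal := by
    have := P.characteristic_of_subsingleton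
    infer_instance
  obtain ⟨x, hx⟩ := exists_prime_orderOf_dvd_card' (G := P) p (by rw [hPc])
  set ξ : Perm β := (((x : ↥P) : ↥K) : Perm β) with hξ
  have hξK : ξ ∈ K := ((x : ↥P) : ↥K).2
  have hξp : ξ ^ p = 1 := by
    have h1 : x ^ p = 1 := orderOf_dvd_iff_pow_eq_one.1 hx.dvd
    exact congrArg Subtype.val (congrArg Subtype.val h1)
  have hξ1 : ξ ≠ 1 := by
    intro h
    have h1 : x = 1 := Subtype.ext (Subtype.ext h)
    rw [h1, orderOf_one] at hx
    exact hp.one_lt.ne hx
  obtain ⟨x2, hx2⟩ : ∃ y, ξ y ≠ y := by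
    by_contra hcon
    push Not at hcon
    exact hξ1 (Equiv.ext hcon)
  have hξx1 : ξ x1 = x1 := hξK.2 x1 (by simp)
  have hx21 : x2 ≠ x1 := by
    rintro rfl
    exact hx2 hξx1
  have hxx : ξ (ξ x2) ≠ x2 := by
    intro h
    have hodd : ¬ 2 ∣ p := by
      intro h2p
      have := (Nat.prime_dvd_prime_iff_eq Nat.prime_two hp).1 h2p
      omega
    obtain ⟨j, hj⟩ := Nat.odd_iff.2 (by omega : p % 2 = 1)
    have h1 := pow_odd_apply h j
    rw [← hj, hξp] at h1
    exact hx2 h1.symm
  have h5 := h2 x2 hx21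
  apply absurd h5
  push Not
  rw [← hPc]
  have hsub : ∀ g ∈ pst G {x1, x2}, g ∈ K := by
    intro g hg
    refine ⟨hg.1, fun y hy => hg.2 y ?_⟩
    rw [Finset.mem_singleton] at hy
    rw [hy]; simp
  apply Nat.card_le_card_of_injective (fun g : ↥(pst G {x1, x2}) =>
    (⟨(⟨g, hsub g g.2⟩ : ↥K) * (x : ↥K) * (⟨g, hsub g g.2⟩ : ↥K)⁻¹,
      hPn.conj_mem _ (x : ↥P).2 _⟩ : ↥P))
  intro g g' hgg'
  have h6 : (g : Perm β) * ξ * (g : Perm β)⁻¹ = (g' : Perm β) * ξ * (g' : Perm β)⁻¹ :=
    congrArg Subtype.val (congrArg Subtype.val hgg')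
  set c : Perm β := (g' : Perm β)⁻¹ * g with hc
  have hcξ : c * ξ = ξ * c := by
    have h7 : (g : Perm β) * ξ = (g' : Perm β) * ξ * (g' : Perm β)⁻¹ * g := by
      rw [← h6]; group
    rw [hc, mul_assoc, h7]; group
  have hcξ' : ∀ y, c (ξ y) = ξ (c y) := fun y => DFunLike.congr_fun hcξ y
  have hcP : c ∈ pst G {x1, x2} := Subgroup.mul_mem _ (Subgroup.inv_mem _ g'.2) g.2
  have c1 : c x1 = x1 := hcP.2 x1 (by simp)
  have c2 : c x2 = x2 := hcP.2 x2 (by simp)
  have c3 : c (ξ x2) = ξ x2 := by rw [hcξ', c2]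
  have c4 : c (ξ (ξ x2)) = ξ (ξ x2) := by rw [hcξ', c3]
  have hc1 : c = 1 := by
    apply h4 c hcP.1 {x1, x2, ξ x2, ξ (ξ x2)}
    · rw [Finset.card_insert_of_notMem, Finset.card_insert_of_notMem,
        Finset.card_insert_of_notMem, Finset.card_singleton]
      · rw [Finset.mem_singleton]
        exact fun h => hx2 (ξ.injective h).symm
      · simp only [Finset.mem_insert, Finset.mem_singleton, not_or]
        exact ⟨Ne.symm hx2, Ne.symm hxx⟩
      · simp only [Finset.mem_insert, Finset.mem_singleton, not_or]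
        refine ⟨Ne.symm hx21, ?_, ?_⟩
        · intro h
          exact hx21 (ξ.injective (by rw [← h, hξx1]))
        · intro h
          have h8 : ξ (ξ x1) = ξ (ξ x2) := by rw [hξx1, hξx1, ← h]
          exact hx21 (ξ.injective (ξ.injective h8)).symm
    · intro y hy
      simp only [Finset.mem_insert, Finset.mem_singleton] at hy
      rcases hy with rfl | rfl | rfl | rfl
      · exact c1
      · exact c2
      · exact c3
      · exact c4
  apply Subtype.ext
  rw [hc, inv_mul_eq_one] at hc1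
  exact hc1.symm

theorem seven_false (hT : Trans G 3)
    (h3 : ∀ g ∈ G, ∀ Γ : Finset β, 3 ≤ Γ.card → (∀ x ∈ Γ, g x = x) → g = 1)
    (hn : Fintype.card β = 7) (hcard : ∀ x, 2 < Nat.card (pst G {x})) : False := by
  have h2 := Fact.mk Nat.prime_two
  obtain ⟨x1⟩ : Nonempty β := Fintype.card_pos_iff.1 (by omega)
  set O : Subgroup ↥(pst G {x1}) := (Perm.sign.comp (pst G {x1}).subtype).ker with hO
  have hOn : O.Normal := MonoidHom.normal_ker _
  have hbot : O = ⊥ := by
    apply core_trivial hT (by norm_num) (F := {x1}) (by simp) (by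
      rw [hn, Finset.card_singleton]; exact ⟨3, rfl⟩) O
    rw [Nat.coprime_comm, Nat.Prime.coprime_iff_not_dvd Nat.prime_two]
    intro hdvd
    obtain ⟨w, hw⟩ := exists_prime_orderOf_dvd_card' 2 hdvd
    have hw1 : w ≠ 1 := by
      rintro rfl
      rw [orderOf_one] at hw
      omega
    have hww : w * w = 1 := by rw [← sq, ← hw, pow_orderOf_eq_one]
    set ω : Perm β := (((w : ↥O) : ↥(pst G {x1})) : Perm β) with hω
    have hωω : ω * ω = 1 := congrArg Subtype.val (congrArg Subtype.val hww)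
    have hω1 : ω ≠ 1 := fun e => hw1 (Subtype.ext (Subtype.ext e))
    have hωG : ω ∈ G := ((w : ↥O) : ↥(pst G {x1})).2.1
    have hωs : Perm.sign ω = 1 := w.2
    have hf1 : (fx ω).card < 3 := by
      by_contra hcon
      push Not at hcon
      exact hω1 (h3 ω hωG _ hcon (fun x hx => mem_fx.1 hx))
    have hf2 := card_fix_mod hωω
    change (fx ω).card % 2 = _ at hf2
    rw [hn] at hf2
    have hf3 : (fx ω).card = 1 := by omega
    have hsup : ω.support.card = 6 := by
      have h5 := Finset.card_filter_add_card_filter_not (s := (Finset.univ : Finset β))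
        (fun x => ω x = x)
      rw [Finset.card_univ, hn] at h5
      have h6 : (fx ω).card + ω.support.card = 7 := by
        rw [← h5]; congr 1
      omega
    have hord : orderOf ω = 2 := orderOf_eq_prime (by rw [sq, hωω]) hω1
    obtain ⟨n, hcyc⟩ := Perm.cycleType_prime_order (σ := ω) (by rw [hord]; exact Nat.prime_two)
    have hsum := ω.sum_cycleType
    rw [hcyc, hord, Multiset.sum_replicate, hsup, smul_eq_mul] at hsum
    have hn2 : n = 2 := by omega
    rw [Perm.sign_of_cycleType, hcyc, hord, hn2] at hωs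
    revert hωs
    decide
  have hinj : Function.Injective (Perm.sign.comp (pst G {x1}).subtype) := by
    rw [← MonoidHom.ker_eq_bot_iff]; exact hbot
  have h5 := Nat.card_le_card_of_injective _ hinj
  rw [Nat.card_eq_fintype_card (α := ℤˣ), Fintype.card_units_int] at h5
  have h6 := hcard x1
  omega

end Cfsg.Agent.Lib.LW
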