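import Mathlib
import Cfsg.Agent.Lib.LW13
import Cfsg.Agent.S0744

/-!
The numerical set-up for homogeneous groups which are not transitive enough (helper13).
-/

set_option autoImplicit false
set_option linter.unusedSectionVars false

namespace Cfsg.Agent.Lib.LW

open MulAction Equiv

open scoped Nat

theorem num1 {n K a b N : ℕ} (hK : K ≤ n) (h1 : N = n.choose K * a)
    (h2 : N = n.choose (K + 1) * b) : (n - K) * b = (K + 1) * a := by
  have h3 := Nat.choose_succ_right_eq n K
  have h4 : 0 < n.choose K := Nat.choose_pos hK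
  apply Nat.eq_of_mul_eq_mul_left h4
  calc n.choose K * ((n - K) * b) = (n.choose K * (n - K)) * b := by ring
    _ = (n.choose (K + 1) * (K + 1)) * b := by rw [h3]
    _ = (K + 1) * (n.choose (K + 1) * b) := by ring
    _ = (K + 1) * (n.choose K * a) := by rw [← h2, ← h1]
    _ = n.choose K * ((K + 1) * a) := by ring

theorem num2 {n K a h N : ℕ} (hK : K ≤ n) (h1 : N = n.choose (K + 1) * a)
    (h3 : N = n.descFactorial K * h) : (K + 1)! * h = (n - K) * a := by
  have h4 := Nat.descFactorial_eq_factorial_mul_choose n (K + 1)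
  rw [Nat.descFactorial_succ] at h4
  have h5 : 0 < n.descFactorial K := Nat.descFactorial_pos.2 hK
  apply Nat.eq_of_mul_eq_mul_left h5
  calc n.descFactorial K * ((K + 1)! * h) = (K + 1)! * (n.descFactorial K * h) := by ring
    _ = (K + 1)! * (n.choose (K + 1) * a) := by rw [← h3, ← h1]
    _ = ((K + 1)! * n.choose (K + 1)) * a := by ring
    _ = ((n - K) * n.descFactorial K) * a := by rw [h4]
    _ = n.descFactorial K * ((n - K) * a) := by ring

variable {β : Type*} [Fintype β] [DecidableEq β] {G : Subgroup (Perm β)} {t k : ℕ}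

theorem card_fixing (s : Finset β) :
    Nat.card (fixingSubgroup G (s : Set β)) = Nat.card (pst G s) :=
  Nat.card_congr ⟨fun g => ⟨((g : G) : Perm β), (g : G).2, fun x hx =>
      (mem_fixingSubgroup_iff _).1 g.2 x hx⟩,
    fun g => ⟨⟨g, g.2.1⟩, (mem_fixingSubgroup_iff _).2 fun x hx => g.2.2 x hx⟩,
    fun _ => rfl, fun _ => rfl⟩

theorem card_pst_le {g : Perm β} (hg : g ∈ G) {s t : Finset β} (h : ∀ x, g x ∈ t ↔ x ∈ s) :
    Nat.card (pst G s) ≤ Nat.card (pst G t) := by
  apply Nat.card_le_card_of_injective (fun a : ↥(pst G s) => (⟨g * a * g⁻¹,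
    G.mul_mem (G.mul_mem hg a.2.1) (G.inv_mem hg), by
      intro x hx
      obtain ⟨y, rfl⟩ := g.surjective x
      rw [Perm.mul_apply, Perm.mul_apply, Perm.inv_eq_iff_eq.2 rfl, a.2.2 y ((h y).1 hx)]⟩ :
        ↥(pst G t)))
  intro a b hab
  have h1 : g * (a : Perm β) * g⁻¹ = g * b * g⁻¹ := congrArg Subtype.val hab
  exact Subtype.ext (mul_left_cancel (mul_right_cancel h1))

theorem card_pst_eq (h : Hom G k) {s t : Finset β} (hs : s.card = k) (ht : t.card = k) :
    Nat.card (pst G s) = Nat.card (pst G t) := by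
  obtain ⟨g, hg, hgx⟩ := h s t hs ht
  obtain ⟨g', hg', hgx'⟩ := h t s ht hs
  exact le_antisymm (card_pst_le hg hgx) (card_pst_le hg' hgx')

theorem pst_eq_bot {s : Finset β} (h : Nat.card (pst G s) = 1) {g : Perm β} (hg : g ∈ G)
    (hgs : ∀ x ∈ s, g x = x) : g = 1 := by
  rw [Nat.card_eq_one_iff_unique] at h
  have := h.1.elim (⟨g, hg, hgs⟩ : ↥(pst G s)) 1
  exact congrArg Subtype.val this

theorem card_G (hT : Trans G t) (Γ : Finset β) (hΓ : Γ.card ≤ t) :
    Nat.card G = (Fintype.card β).descFactorial Γ.card * Nat.card (pst G Γ) := by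
  induction Γ using Finset.induction_on with
  | empty =>
    rw [Finset.card_empty, Nat.descFactorial_zero, one_mul]
    exact Nat.card_congr ⟨fun g => ⟨g, g.2, fun x hx => absurd hx (Finset.notMem_empty x)⟩,
      fun g => ⟨g, g.2.1⟩, fun _ => rfl, fun _ => rfl⟩
  | insert x s hx ih =>
    rw [Finset.card_insert_of_notMem hx] at hΓ ⊢
    rw [ih (by omega), card_pst_step hT (by omega) hx, Nat.descFactorial_succ]
    ring

theorem ind_ne_top (h : Hom G k) (hk : 2 ≤ k) (hnt : ¬ IsMultiplyPretransitive G β k)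
    {Δ : Finset β} (hΔ : Δ.card = k) : ind G Δ ≠ ⊤ := by
  intro htop
  have hI : ∀ Δ' : Finset β, Δ'.card = k → IndAlt G Δ' := fun Δ' hΔ' =>
    h.indAlt hΔ (IndAlt.of_le (by rw [htop]; exact le_top)) hΔ'
  have hno := noOdd_of h hI hnt
  obtain ⟨i, hi, j, hj, hij⟩ := Finset.one_lt_card.1 (by omega : 1 < Δ.card)
  have hσ : ∀ x, Equiv.swap i j x ≠ x → x ∈ Δ := by
    intro x hx
    by_cases h1 : x = i
    · rw [h1]; exact hi
    · by_cases h2 : x = j
      · rw [h2]; exact hj
      · exact absurd (Equiv.swap_apply_of_ne_of_ne h1 h2) hx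
  have h1 : (Equiv.swap i j).subtypePerm (p := (· ∈ Δ)) (supp_iff hσ) ∈ ind G Δ := by
    rw [htop]; exact Subgroup.mem_top _
  obtain ⟨g, hg, hgx⟩ := h1
  have h2 := hno Δ hΔ _ hσ ⟨g, hg, fun x hx => hgx ⟨x, hx⟩⟩
  rw [Perm.sign_swap hij] at h2
  exact absurd h2 (by decide)

theorem setup (hk : 1 ≤ t) (hn : t + 2 < Fintype.card β) (ht : IsMultiplyPretransitive G β t)
    (hnt : ¬ IsMultiplyPretransitive G β (t + 1))
    (hh1 : IsPretransitive G (Set.powersetCard β (t + 1)))
    (hh : IsPretransitive G (Set.powersetCard β (t + 2))) :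
    (∀ g ∈ G, ∀ Γ : Finset β, t + 1 ≤ Γ.card → (∀ x ∈ Γ, g x = x) → g = 1) ∧
      ∃ a b h : ℕ, Nat.card G = (Fintype.card β).choose (t + 1) * a ∧
        Nat.card G = (Fintype.card β).choose (t + 2) * b ∧
        Nat.card G = (Fintype.card β).descFactorial t * h ∧ a ∣ (t + 1)! ∧ a ≠ (t + 1)! ∧
        ¬ 2 ∣ h ∧ (∀ Γ : Finset β, Γ.card = t → Nat.card (pst G Γ) = h) ∧
        (∀ Δ : Finset β, Δ.card = t + 2 → Nat.card (ind G Δ) = b) := by
  classical
  have hT : Trans G t := trans_of ht (by rw [Nat.card_eq_fintype_card]; omega)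
  have hH1 : Hom G (t + 1) := hom_of hh1
  have hH : Hom G (t + 2) := hom_of hh
  have sub : ∀ j, j ≤ Fintype.card β → ∃ s : Finset β, s.card = j := by
    intro j hj
    obtain ⟨s, -, hs⟩ := Finset.exists_subset_card_eq (s := (Finset.univ : Finset β)) (n := j)
      (by rw [Finset.card_univ]; exact hj)
    exact ⟨s, hs⟩
  obtain ⟨s1, hs1⟩ := sub (t + 1) (by omega)
  obtain ⟨s2, hs2⟩ := sub (t + 2) (by omega)
  obtain ⟨s0, hs0⟩ := sub t (by omega)
  have hl : Nat.card (pst G s1) = 1 := by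
    by_contra hne
    have hpos : 0 < Nat.card (pst G s1) := Nat.card_pos
    apply hnt
    have h1 := S0744.result G (k := t + 2) (by omega) (by omega) (Nat.card (pst G s1))
      (Nat.card (pst G s2)) (by omega)
      (fun s hs => by rw [card_fixing]; exact card_pst_eq hH1 (by omega) hs1)
      (fun s hs => by rw [card_fixing]; exact card_pst_eq hH (by omega) hs2)
    exact h1
  have htriv : ∀ g ∈ G, ∀ Γ : Finset β, t + 1 ≤ Γ.card → (∀ x ∈ Γ, g x = x) → g = 1 := by
    intro g hg Γ hΓ hfix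
    obtain ⟨Γ1, hΓ1, hΓ1c⟩ := Finset.exists_subset_card_eq (s := Γ) (n := t + 1) hΓ
    exact pst_eq_bot (s := Γ1) (by rw [← hl]; exact card_pst_eq hH1 hΓ1c hs1) hg
      (fun x hx => hfix x (hΓ1 hx))
  have hpstT : ∀ Γ : Finset β, Γ.card = t → Nat.card (pst G Γ) = Nat.card (pst G s0) := by
    intro Γ hΓ
    have h1 := card_G hT Γ (by omega)
    have h2 := card_G hT s0 (by omega)
    rw [hΓ] at h1
    rw [hs0] at h2
    have h3 : 0 < (Fintype.card β).descFactorial t := Nat.descFactorial_pos.2 (by omega)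
    exact Nat.eq_of_mul_eq_mul_left h3 (h1.symm.trans h2)
  have hcardperm : ∀ Δ : Finset β, Nat.card (Perm ↥Δ) = (Δ.card)! := by
    intro Δ
    rw [Nat.card_perm, Nat.card_eq_fintype_card, Fintype.card_coe]
  have hne : Nat.card (ind G s1) ≠ (t + 1)! := by
    intro h
    apply ind_ne_top hH1 (by omega) hnt hs1
    apply Subgroup.eq_top_of_card_eq
    rw [h, hcardperm, hs1]
  refine ⟨htriv, Nat.card (ind G s1), Nat.card (ind G s2), Nat.card (pst G s0), ?_, ?_, ?_, ?_,
    hne, ?_, hpstT, ?_⟩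
  · exact card_ind hh1 hs1 (fun g hg hx => htriv g hg s1 hs1.ge hx)
  · exact card_ind hh hs2 (fun g hg hx => htriv g hg s2 (by omega) hx)
  · have := card_G hT s0 (by omega)
    rwa [hs0] at this
  · have := (ind G s1).card_subgroup_dvd_card
    rwa [hcardperm, hs1] at this
  · intro hdvd
    have h2 := Fact.mk Nat.prime_two
    have hinv : ∀ Γ : Finset β, Γ.card = t → ∃ z ∈ G, z * z = 1 ∧ ∀ x, z x = x ↔ x ∈ Γ := by
      intro Γ hΓ
      rw [← hpstT Γ hΓ] at hdvd
      obtain ⟨w, hw⟩ := exists_prime_orderOf_dvd_card' 2 hdvd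
      have hw1 : w ≠ 1 := by
        rintro rfl
        rw [orderOf_one] at hw
        omega
      have hww : w * w = 1 := by rw [← sq, ← hw, pow_orderOf_eq_one]
      refine ⟨w, w.2.1, congrArg Subtype.val hww, fun x => ⟨fun hx => ?_, fun hx => w.2.2 x hx⟩⟩
      by_contra hxΓ
      apply hw1
      apply Subtype.ext
      apply htriv _ w.2.1 (insert x Γ) (by rw [Finset.card_insert_of_notMem hxΓ, hΓ])
      intro y hy
      rw [Finset.mem_insert] at hy
      rcases hy with rfl | hy
      · exact hx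
      · exact w.2.2 y hy
    have htop := caseB hinv (fun w hw hww Γ hΓ hfix => htriv w hw Γ hΓ hfix) s1 hs1
    exact ind_ne_top hH1 (by omega) hnt hs1 htop
  · intro Δ hΔ
    have h1 := card_ind hh hΔ (fun g hg hx => htriv g hg Δ (by omega) hx)
    have h2 := card_ind hh hs2 (fun g hg hx => htriv g hg s2 (by omega) hx)
    have h3 : 0 < (Fintype.card β).choose (t + 2) := Nat.choose_pos (by omega)
    exact Nat.eq_of_mul_eq_mul_left h3 (h1.symm.trans h2)

end Cfsg.Agent.Lib.LW
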