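import Mathlib

/-!
Lang's theorem for `GL_n`: a `q`-semilinear injective endomorphism of a finite-dimensional space
over an algebraically closed field has a basis of fixed vectors.
-/

set_option autoImplicit false

namespace Cfsg.Agent.Lib.Lang

open Module Polynomial

variable {K : Type*} [Field K] [IsAlgClosed K]

/-- The recursion for the coefficients. -/
noncomputable def Z (q : ℕ) (a : ℕ → K) : ℕ → K[X]
  | 0 => C (a 0)
  | (i + 1) => C (a (i + 1)) + X ^ (q * q - q) * Z q a i ^ q

theorem Z_eq_zero {q : ℕ} (hq : 2 ≤ q) (a : ℕ → K) : ∀ k, Z q a k = 0 → ∀ i ≤ k, a i = 0 := by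
  intro k
  induction k with
  | zero =>
    intro h i hi
    obtain rfl : i = 0 := by omega
    exact C_eq_zero.1 h
  | succ k ih =>
    intro h
    have h0 : q * q - q ≠ 0 := by
      have : q * 2 ≤ q * q := Nat.mul_le_mul_left q hq
      omega
    have h1 : a (k + 1) = 0 := by
      have := congrArg (eval 0) h
      simpa [Z, h0] using this
    have h2 : Z q a k = 0 := by
      rw [Z, h1, C_0, zero_add] at h
      have h3 := (mul_eq_zero.1 h).resolve_left (pow_ne_zero _ X_ne_zero)
      exact pow_eq_zero_iff (by omega) |>.1 h3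
    intro i hi
    rcases Nat.lt_or_ge i (k + 1) with h3 | h3
    · exact ih h2 i (by omega)
    · obtain rfl : i = k + 1 := by omega
      exact h1

theorem exists_coeffs {q : ℕ} (hq : 2 ≤ q) (a : ℕ → K) (k : ℕ) (ha : ∃ i ≤ k, a i ≠ 0) :
    ∃ x : ℕ → K, x k ≠ 0 ∧ x 0 = a 0 * x k ^ q ∧
      ∀ i, x (i + 1) = a (i + 1) * x k ^ q + x i ^ q := by
  have hZ : Z q a k ≠ 0 := by
    intro h
    obtain ⟨i, hi, hai⟩ := ha
    exact hai (Z_eq_zero hq a k h i hi)
  obtain ⟨y, hy⟩ := IsAlgClosed.exists_root (X ^ (q - 1) * Z q a k - 1) (by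
    intro h
    have h1 : X ^ (q - 1) * Z q a k = C 1 + 1 * (C (eval 0 (X ^ (q - 1) * Z q a k - 1))) := by
      have h2 := eq_C_of_degree_eq_zero h
      rw [← coeff_zero_eq_eval_zero, ← C_1]
      rw [sub_eq_iff_eq_add] at h2
      rw [h2]
      simp
    have h3 := congrArg natDegree h1
    rw [natDegree_mul (pow_ne_zero _ X_ne_zero) hZ, natDegree_X_pow, one_mul, ← C_add,
      natDegree_C] at h3
    omega)
  have hy' : y ^ (q - 1) * eval y (Z q a k) = 1 := by
    have : eval y (X ^ (q - 1) * Z q a k - 1) = 0 := hy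
    simp only [eval_sub, eval_mul, eval_pow, eval_X, eval_one] at this
    linear_combination this
  have hy0 : y ≠ 0 := by
    rintro rfl
    rw [zero_pow (by omega), zero_mul] at hy'
    exact zero_ne_one hy'
  have hxk : y ^ q * eval y (Z q a k) = y := by
    have : y ^ q = y * y ^ (q - 1) := by
      rw [← pow_succ']; congr 1; omega
    rw [this, mul_assoc, hy', mul_one]
  refine ⟨fun i => y ^ q * eval y (Z q a i), ?_, ?_, ?_⟩
  · simp only [hxk]; exact hy0
  · simp only [hxk]
    simp [Z]; ring
  · intro i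
    simp only [hxk]
    simp only [Z, eval_add, eval_C, eval_mul, eval_pow, eval_X, mul_add, mul_pow]
    rw [← mul_assoc, ← pow_add, ← pow_mul, mul_comm (y ^ q) (a (i + 1))]
    congr 3
    have : q ≤ q * q := Nat.le_mul_self q
    omega

variable {V : Type*} [AddCommGroup V] [Module K V] {σ : K →+* K}

theorem exists_fixed [FiniteDimensional K V] [Nontrivial V] {q : ℕ} (hq : 2 ≤ q)
    (hσ : ∀ x, σ x = x ^ q) (φ : V →ₛₗ[σ] V) (hφ : Function.Injective φ) :
    ∃ v : V, v ≠ 0 ∧ φ v = v := by
  classical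
  obtain ⟨u, hu⟩ := exists_ne (0 : V)
  have hiter : ∀ n, φ^[n] u ≠ 0 := by
    intro n
    induction n with
    | zero => exact hu
    | succ n ih =>
      rw [Function.iterate_succ_apply']
      intro h
      exact ih (hφ (by rw [h, map_zero]))
  have hex : ∃ m, ¬ LinearIndependent K (fun i : Fin m => φ^[(i : ℕ)] u) := by
    refine ⟨finrank K V + 1, fun h => ?_⟩
    have := h.fintype_card_le_finrank
    rw [Fintype.card_fin] at this
    omega
  obtain ⟨k, hk⟩ : ∃ k, Nat.find hex = k + 1 := by
    refine ⟨Nat.find hex - 1, ?_⟩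
    have : Nat.find hex ≠ 0 := by
      intro h
      have h1 := Nat.find_spec hex
      rw [h] at h1
      exact h1 (linearIndependent_empty_type)
    omega
  have hdep : ¬ LinearIndependent K (fun i : Fin (k + 1) => φ^[(i : ℕ)] u) := by
    rw [← hk]; exact Nat.find_spec hex
  have hind : LinearIndependent K (fun i : Fin k => φ^[(i : ℕ)] u) := by
    by_contra h
    exact Nat.find_min hex (m := k) (by omega) h
  rw [linearIndependent_fin_succ'] at hdep
  have hmem : φ^[k] u ∈ Submodule.span K (Set.range fun i : Fin k => φ^[(i : ℕ)] u) := by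
    by_contra h
    exact hdep ⟨hind, h⟩
  have hk0 : k ≠ 0 := by
    rintro rfl
    rw [Set.range_eq_empty, Submodule.span_empty, Submodule.mem_bot] at hmem
    exact hiter 0 hmem
  obtain ⟨j, rfl⟩ : ∃ j, k = j + 1 := ⟨k - 1, by omega⟩
  rw [Submodule.mem_span_range_iff_exists_fun] at hmem
  obtain ⟨c, hc⟩ := hmem
  set a : ℕ → K := fun i => if h : i < j + 1 then c ⟨i, h⟩ else 0 with ha
  have hrel : φ^[j + 1] u = ∑ i ∈ Finset.range (j + 1), a i • φ^[i] u := by
    rw [← hc, Finset.sum_range]
    apply Finset.sum_congr rfl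
    intro i _
    rw [ha]
    simp only [i.is_lt, dif_pos]
  have hane : ∃ i ≤ j, a i ≠ 0 := by
    by_contra hcon
    push Not at hcon
    apply hiter (j + 1)
    rw [hrel]
    apply Finset.sum_eq_zero
    intro i hi
    rw [hcon i (by rw [Finset.mem_range] at hi; omega), zero_smul]
  obtain ⟨x, hx1, hx2, hx3⟩ := exists_coeffs hq a j hane
  refine ⟨∑ i ∈ Finset.range (j + 1), x i • φ^[i] u, ?_, ?_⟩
  · intro h
    have h1 : ∑ i : Fin (j + 1), x i • φ^[(i : ℕ)] u = 0 := by
      rw [← h, Finset.sum_range]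
    have h2 := Fintype.linearIndependent_iff.1 hind (fun i => x i) h1 ⟨j, by omega⟩
    exact hx1 h2
  · have h1 : φ (∑ i ∈ Finset.range (j + 1), x i • φ^[i] u) =
        ∑ i ∈ Finset.range (j + 1), (x i ^ q) • φ^[i + 1] u := by
      rw [map_sum]
      apply Finset.sum_congr rfl
      intro i _
      rw [LinearMap.map_smulₛₗ, hσ, Function.iterate_succ_apply']
    rw [h1, Finset.sum_range_succ, hrel, Finset.smul_sum, Finset.sum_range_succ' _ j,
      Finset.sum_range_succ' _ j, ← add_assoc, ← Finset.sum_add_distrib, smul_smul, hx2,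
      mul_comm (a 0)]
    congr 1
    apply Finset.sum_congr rfl
    intro i _
    rw [smul_smul, ← add_smul, hx3]
    congr 1
    ring

/-- solving `t^q - t = c` -/
theorem exists_as_root {q : ℕ} (hq : 2 ≤ q) (c : K) : ∃ t : K, t ^ q - t = c := by
  obtain ⟨t, ht⟩ := IsAlgClosed.exists_root (X ^ q - X - C c) (by
    intro h
    have h1 : (X ^ q - X - C c : K[X]).natDegree = q := by
      rw [sub_sub, natDegree_sub_eq_left_of_natDegree_lt]
      · simp
      · rw [natDegree_X_add_C, natDegree_X_pow]; omega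
    rw [degree_eq_natDegree (by intro h0; rw [h0, natDegree_zero] at h1; omega), h1] at h
    have : q = 0 := by exact_mod_cast h
    omega)
  refine ⟨t, ?_⟩
  have : eval t (X ^ q - X - C c) = 0 := ht
  simp only [eval_sub, eval_pow, eval_X, eval_C] at this
  linear_combination this

/-- **Lang's theorem**: fixed vectors span. -/
theorem span_fixed [FiniteDimensional K V] {q : ℕ} (hq : 2 ≤ q)
    (hσ : ∀ x, σ x = x ^ q) (φ : V →ₛₗ[σ] V) (hφ : Function.Injective φ) :
    Submodule.span K {v : V | φ v = v} = ⊤ := by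
  by_contra hne
  set S := Submodule.span K {v : V | φ v = v} with hS
  have hSle : S ≤ S.comap φ := by
    intro s hs
    rw [hS] at hs
    show φ s ∈ S
    induction hs using Submodule.span_induction with
    | mem x hx =>
      have : φ x = x := hx
      rw [this]; exact Submodule.subset_span hx
    | zero => rw [map_zero]; exact zero_mem _
    | add a b _ _ ha hb => rw [map_add]; exact add_mem ha hb
    | smul c a _ ha => rw [LinearMap.map_smulₛₗ]; exact Submodule.smul_mem _ _ ha
  -- every element of `S` is `φ t - t` and `φ t'`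
  have hsolve : ∀ s ∈ S, ∃ t ∈ S, φ t - t = s := by
    intro s hs
    rw [hS] at hs
    induction hs using Submodule.closure_induction with
    | zero => exact ⟨0, zero_mem _, by simp⟩
    | add a b _ _ ha hb =>
      obtain ⟨t, ht, h1⟩ := ha
      obtain ⟨t', ht', h1'⟩ := hb
      refine ⟨t + t', add_mem ht ht', ?_⟩
      rw [map_add, ← h1, ← h1']; abel
    | smul_mem c x hx =>
      obtain ⟨t, ht⟩ := exists_as_root (K := K) hq c
      refine ⟨t • x, S.smul_mem _ (Submodule.subset_span hx), ?_⟩
      have : φ x = x := hx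
      rw [LinearMap.map_smulₛₗ, hσ, this, ← sub_smul, ht]
  have hsurj : ∀ s ∈ S, ∃ t ∈ S, φ t = s := by
    intro s hs
    rw [hS] at hs
    induction hs using Submodule.closure_induction with
    | zero => exact ⟨0, zero_mem _, by simp⟩
    | add a b _ _ ha hb =>
      obtain ⟨t, ht, h1⟩ := ha
      obtain ⟨t', ht', h1'⟩ := hb
      refine ⟨t + t', add_mem ht ht', ?_⟩
      rw [map_add, ← h1, ← h1']
    | smul_mem c x hx =>
      obtain ⟨t, ht⟩ := IsAlgClosed.exists_pow_nat_eq c (by omega : 0 < q)
      refine ⟨t • x, S.smul_mem _ (Submodule.subset_span hx), ?_⟩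
      have : φ x = x := hx
      rw [LinearMap.map_smulₛₗ, hσ, this, ht]
  have hnt : Nontrivial (V ⧸ S) := Submodule.Quotient.nontrivial_iff.2 hne
  obtain ⟨v, hv0, hv⟩ := exists_fixed hq hσ (S.mapQ S φ hSle) (by
    rw [injective_iff_map_eq_zero]
    intro w
    obtain ⟨w, rfl⟩ := S.mkQ_surjective w
    intro h
    rw [Submodule.mkQ_apply, Submodule.mapQ_apply, Submodule.Quotient.mk_eq_zero] at h
    obtain ⟨t, ht, htw⟩ := hsurj _ h
    have := hφ htw
    rw [Submodule.mkQ_apply, Submodule.Quotient.mk_eq_zero, ← this]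
    exact ht)
  obtain ⟨w, rfl⟩ := S.mkQ_surjective v
  rw [Submodule.mkQ_apply, Submodule.mapQ_apply, Submodule.Quotient.eq] at hv
  obtain ⟨t, ht, htw⟩ := hsolve _ hv
  apply hv0
  rw [Submodule.mkQ_apply, Submodule.Quotient.mk_eq_zero]
  have h1 : φ (w - t) = w - t := by
    rw [map_sub]
    have : φ t = t + (φ w - w) := by rw [← htw]; abel
    rw [this]; abel
  have h2 : w - t ∈ S := Submodule.subset_span h1
  have := S.add_mem h2 ht
  rwa [sub_add_cancel] at this

/-- a basis of fixed vectors -/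
theorem exists_fixed_basis [FiniteDimensional K V] {q : ℕ} (hq : 2 ≤ q)
    (hσ : ∀ x, σ x = x ^ q) (φ : V →ₛₗ[σ] V) (hφ : Function.Injective φ) {n : ℕ}
    (hn : finrank K V = n) : ∃ b : Basis (Fin n) K V, ∀ i, φ (b i) = b i := by
  have hs : ⊤ ≤ Submodule.span K {v : V | φ v = v} := by rw [span_fixed hq hσ φ hφ]
  let b := Basis.ofSpan hs
  have hb : ∀ i, φ (b i) = b i := fun i => Basis.ofSpan_subset hs ⟨i, rfl⟩
  haveI := Module.Finite.finite_basis b
  haveI := Fintype.ofFinite ((linearIndepOn_empty K (id : V → V)).extend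
    (Set.empty_subset {v : V | φ v = v}))
  have hc := finrank_eq_card_basis b
  let e := Fintype.equivFinOfCardEq (hc.symm.trans hn)
  exact ⟨b.reindex e, fun i => by rw [Basis.reindex_apply]; exact hb _⟩

end Cfsg.Agent.Lib.Lang
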