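import Mathlib
import Cfsg.Agent.Lib.LargeSylow
import Cfsg.Agent.Lib.ClSLn
import Cfsg.Agent.Lib.ClEmbed
import Cfsg.Agent.Lib.ClIso
import Cfsg.Agent.Lib.ClSympOrd

set_option autoImplicit false

/-!
Sylow `r`-subgroups of `GL_n(q)`, `SL_n(q)`, `Sp_{2n}(q)` for primes `r` larger than `n`.
-/

namespace Cfsg.Agent.Lib.LargeSylow2

open Finset
open scoped MatrixGroups
open Cfsg.Agent.Lib.LargeSylow

variable {F : Type*} [Field F] [Fintype F]

/-- the exponent -/
noncomputable abbrev vv (r q : ℕ) : ℕ := padicValNat r ((Polynomial.cyclotomic (orderOf (q : ZMod r)) ℤ).eval (q : ℤ)).natAbs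

lemma fact_prod (r : ℕ) [Fact r.Prime] {N A B : ℕ} (hA : ¬ r ∣ A) (hB : B ≠ 0) (h : N = A * B) : N.factorization r = padicValNat r B := by
  have hA0 : A ≠ 0 := fun h => hA (h ▸ dvd_zero _)
  rw [h, Nat.factorization_mul hA0 hB, Finsupp.add_apply, Nat.factorization_eq_zero_of_not_dvd hA, zero_add,
    Nat.factorization_def _ (Fact.out : r.Prime)]

lemma two_le_card {q : ℕ} (hq : Fintype.card F = q) : 2 ≤ q := by
  rw [← hq]; exact Fintype.one_lt_card

lemma prod_ne (q : ℕ) (hq : 2 ≤ q) {ι : Type*} (s : Finset ι) (f : ι → ℕ) (hf : ∀ i ∈ s, f i ≠ 0) : ∏ i ∈ s, (q ^ f i - 1) ≠ 0 := by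
  apply Finset.prod_ne_zero_iff.mpr
  intro i hi
  have := Nat.one_lt_pow (hf i hi) (show 1 < q by omega)
  omega

lemma fact_GL {q : ℕ} (hq : Fintype.card F = q) (n r : ℕ) [Fact r.Prime] (hrq : ¬ r ∣ q) (hn : n / orderOf (q : ZMod r) < r) :
    (Nat.card (GL (Fin n) F)).factorization r = vv r q * (n / orderOf (q : ZMod r)) := by
  have h2 := two_le_card hq
  have hd := ord_pos r q hrq
  rw [fact_prod r (A := q ^ (n * (n - 1) / 2)) (B := ∏ i ∈ Finset.range n, (q ^ (i + 1) - 1)) (fun h => hrq ((Fact.out : r.Prime).dvd_of_dvd_pow h))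
    (prod_ne q h2 _ _ (fun i _ => Nat.succ_ne_zero i)) (ClSLn.card_GL_formula hq n)]
  rw [val_prod r q h2 hd.ne' _ _ (fun i _ => Nat.succ_ne_zero i), val_cyclo r q h2 hd.ne', Nat.card_multiples]
  intro i hi k hk hrk
  rw [Finset.mem_range] at hi
  have hk0 : 0 < k := by
    rcases Nat.eq_zero_or_pos k with h | h
    · rw [h, mul_zero] at hk; omega
    · exact h
  have h3 : k ≤ n / orderOf (q : ZMod r) := by
    rw [Nat.le_div_iff_mul_le hd, mul_comm]; omega
  have := Nat.le_of_dvd hk0 hrk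
  omega

theorem sylow_GL {q : ℕ} (hq : Fintype.card F = q) (n r : ℕ) [Fact r.Prime] (hrq : ¬ r ∣ q) (hn : n / orderOf (q : ZMod r) < r)
    (P : Sylow r (GL (Fin n) F)) : Nonempty (↥(P : Subgroup (GL (Fin n) F)) ≃* HC r (vv r q) (n / orderOf (q : ZMod r))) := by
  classical
  have h2 := two_le_card hq
  have hd := ord_pos r q hrq
  have : NeZero (orderOf (q : ZMod r)) := ⟨hd.ne'⟩
  obtain ⟨p, hpc⟩ := CharP.exists F
  have hp : Fact p.Prime := ⟨CharP.char_is_prime F p⟩
  let K := FiniteField.Extension F p (orderOf (q : ZMod r))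
  have hfin : Module.finrank F K = orderOf (q : ZMod r) := FiniteField.finrank_extension F p _
  have hcard : Nat.card K = q ^ orderOf (q : ZMod r) := by
    rw [FiniteField.natCard_extension, Nat.card_eq_fintype_card, hq]
  obtain ⟨φ, hφ⟩ := exists_torus (F := F) K n (n / orderOf (q : ZMod r)) (by rw [hfin]; exact Nat.mul_div_le _ _)
  have hdiv : r ^ vv r q ∣ Nat.card Kˣ := by
    have := Fintype.ofFinite K
    rw [Nat.card_eq_fintype_card, Fintype.card_units, ← Nat.card_eq_fintype_card, hcard]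
    have := val_cyclo r q h2 hd.ne'
    unfold vv
    rw [← this]
    exact pow_padicValNat_dvd
  obtain ⟨ψ, hψ⟩ := exists_cyclic_hom (A := Kˣ) (r ^ vv r q) hdiv
  let Ψ : HC r (vv r q) (n / orderOf (q : ZMod r)) →* (Fin (n / orderOf (q : ZMod r)) → Kˣ) := ψ.compLeft _
  have hΨ : Function.Injective Ψ := by
    intro x y hxy
    funext i
    exact hψ (congrFun hxy i)
  exact sylow_equiv (vv r q) (n / orderOf (q : ZMod r)) (φ.comp Ψ) (hφ.comp hΨ) (fact_GL hq n r hrq hn) P

/-- count -/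
lemma filter_Icc (n d : ℕ) (hd : 2 ≤ d) : ((Finset.Icc 2 n).filter (fun i => d ∣ i)).card = n / d := by
  rw [← Nat.Ioc_filter_dvd_card_eq_div n d]
  congr 1
  ext i
  simp only [Finset.mem_filter, Finset.mem_Icc, Finset.mem_Ioc]
  constructor
  · rintro ⟨⟨h1, h2⟩, h3⟩
    exact ⟨⟨by omega, h2⟩, h3⟩
  · rintro ⟨⟨h1, h2⟩, h3⟩
    have := Nat.le_of_dvd h1 h3
    exact ⟨⟨by omega, h2⟩, h3⟩

/-- diagonal matrices of determinant one -/
def diagFun (m : ℕ) (c : Fin m → Fˣ) : Fin (m + 1) → Fˣ := Fin.cons (∏ i, c i)⁻¹ c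

omit [Fintype F] in
lemma diagFun_mul (m : ℕ) (c d : Fin m → Fˣ) : diagFun m (c * d) = diagFun m c * diagFun m d := by
  funext i
  refine Fin.cases ?_ (fun j => ?_) i
  · simp [diagFun, Finset.prod_mul_distrib, mul_comm]
  · simp [diagFun]

omit [Fintype F] in
lemma diagFun_prod (m : ℕ) (c : Fin m → Fˣ) : ∏ i, diagFun m c i = 1 := by
  rw [Fin.prod_univ_succ]
  simp [diagFun]

/-- diagonal torus of `SL` -/
noncomputable def diagSL (m : ℕ) (F : Type*) [Field F] : (Fin m → Fˣ) →* Matrix.SpecialLinearGroup (Fin (m + 1)) F where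
  toFun c := ⟨Matrix.diagonal fun i => (diagFun m c i : F), by
    rw [Matrix.det_diagonal]
    have := congrArg (fun u : Fˣ => (u : F)) (diagFun_prod m c)
    simpa using this⟩
  map_one' := by
    apply Subtype.ext
    change Matrix.diagonal (fun i => ((diagFun m (1 : Fin m → Fˣ) i : Fˣ) : F)) = 1
    have : diagFun m (1 : Fin m → Fˣ) = 1 := by
      funext i
      refine Fin.cases ?_ (fun j => ?_) i
      · simp [diagFun]
      · simp [diagFun]
    rw [this]
    simp
  map_mul' c d := by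
    apply Subtype.ext
    change Matrix.diagonal (fun i => ((diagFun m (c * d) i : Fˣ) : F)) =
      Matrix.diagonal (fun i => ((diagFun m c i : Fˣ) : F)) * Matrix.diagonal (fun i => ((diagFun m d i : Fˣ) : F))
    rw [diagFun_mul, Matrix.diagonal_mul_diagonal]
    simp

omit [Fintype F] in
lemma diagSL_injective (m : ℕ) : Function.Injective (diagSL m F) := by
  intro c d h
  funext i
  apply Units.ext
  have h1 := congrArg (fun A : Matrix.SpecialLinearGroup (Fin (m + 1)) F => (A : Matrix (Fin (m + 1)) (Fin (m + 1)) F) i.succ i.succ) h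
  change (Matrix.diagonal fun i => (diagFun m c i : F)) i.succ i.succ = (Matrix.diagonal fun i => (diagFun m d i : F)) i.succ i.succ at h1
  rw [Matrix.diagonal_apply_eq, Matrix.diagonal_apply_eq] at h1
  simpa [diagFun] using h1

theorem sylow_SL {q : ℕ} (hq : Fintype.card F = q) (n r : ℕ) [Fact r.Prime] (hrn : n < r) (hrq : ¬ r ∣ q)
    (P : Sylow r (Matrix.SpecialLinearGroup (Fin n) F)) : Nonempty (↥(P : Subgroup (Matrix.SpecialLinearGroup (Fin n) F)) ≃*
      HC r (vv r q) ((Finset.Icc 2 n).filter (fun i => orderOf (q : ZMod r) ∣ i)).card) := by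
  classical
  have h2 := two_le_card hq
  have hd := ord_pos r q hrq
  rcases Nat.eq_zero_or_pos n with hn | hn
  · subst hn
    have hsub : Subsingleton (Matrix.SpecialLinearGroup (Fin 0) F) := ⟨fun a b => Subtype.ext (Subsingleton.elim _ _)⟩
    have h0 : ((Finset.Icc 2 0).filter (fun i => orderOf (q : ZMod r) ∣ i)).card = 0 := by simp
    rw [h0]
    refine sylow_equiv (vv r q) 0 1 (Function.injective_of_subsingleton _) ?_ P
    rw [Nat.card_unique]; simp
  have hSL := ClSLn.card_SL_formula (F := F) hq n hn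
  by_cases h1 : orderOf (q : ZMod r) = 1
  · -- split torus
    have hcount : ((Finset.Icc 2 n).filter (fun i => orderOf (q : ZMod r) ∣ i)).card = n - 1 := by
      rw [h1, Finset.filter_true_of_mem (fun i _ => one_dvd i), Nat.card_Icc]
      omega
    rw [hcount]
    have hdiv : r ^ vv r q ∣ Nat.card Fˣ := by
      rw [Nat.card_eq_fintype_card, Fintype.card_units, hq]
      have := val_cyclo r q h2 hd.ne'
      rw [h1, pow_one] at this
      unfold vv
      rw [h1, ← this]
      exact pow_padicValNat_dvd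
    obtain ⟨ψ, hψ⟩ := exists_cyclic_hom (A := Fˣ) (r ^ vv r q) hdiv
    obtain ⟨m, rfl⟩ : ∃ m, n = m + 1 := ⟨n - 1, by omega⟩
    rw [Nat.add_sub_cancel]
    let Φ : HC r (vv r q) m →* Matrix.SpecialLinearGroup (Fin (m + 1)) F := (diagSL m F).comp (ψ.compLeft _)
    have hΦ : Function.Injective Φ := by
      intro x y hxy
      have h3 := diagSL_injective m hxy
      funext i
      exact hψ (congrFun h3 i)
    refine sylow_equiv (vv r q) m Φ hΦ ?_ P
    rw [Finset.prod_range_succ'] at hSL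
    have hq1 : q - 1 ≠ 0 := by omega
    have hSL2 : Nat.card (Matrix.SpecialLinearGroup (Fin (m + 1)) F) = q ^ ((m + 1) * (m + 1 - 1) / 2) * ∏ i ∈ Finset.range m, (q ^ (i + 1 + 1) - 1) := by
      apply Nat.eq_of_mul_eq_mul_left (Nat.pos_of_ne_zero hq1)
      rw [hSL]
      simp only [zero_add, pow_one]
      ring
    rw [fact_prod r (fun h => hrq ((Fact.out : r.Prime).dvd_of_dvd_pow h)) (prod_ne q h2 _ _ (fun i _ => Nat.succ_ne_zero _)) hSL2]
    rw [val_prod r q h2 hd.ne' _ _ (fun i _ => Nat.succ_ne_zero _), val_cyclo r q h2 hd.ne']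
    · rw [Finset.filter_true_of_mem (fun i _ => by rw [h1]; exact one_dvd _), Finset.card_range]
    · intro i hi k hk hrk
      rw [Finset.mem_range] at hi
      rw [h1, one_mul] at hk
      have := Nat.le_of_dvd (by omega) hrk
      omega
  · have hd2 : 2 ≤ orderOf (q : ZMod r) := by omega
    rw [filter_Icc n _ hd2]
    have hq1 : ¬ r ∣ q - 1 := by
      intro h
      have := (dvd_iff r q (by omega) 1).mp (by rwa [pow_one])
      exact h1 (Nat.dvd_one.mp this)
    have hnd : n / orderOf (q : ZMod r) < r := lt_of_le_of_lt (Nat.div_le_self _ _) hrn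
    have hGL : Nat.card (GL (Fin n) F) = (q - 1) * Nat.card (Matrix.SpecialLinearGroup (Fin n) F) := ClSLn.card_GL_eq hq n hn
    have hfac : (Nat.card (Matrix.SpecialLinearGroup (Fin n) F)).factorization r = (Nat.card (GL (Fin n) F)).factorization r := by
      rw [fact_prod r hq1 Nat.card_pos.ne' hGL, Nat.factorization_def _ (Fact.out : r.Prime)]
    obtain ⟨Q⟩ : Nonempty (Sylow r (GL (Fin n) F)) := inferInstance
    obtain ⟨e1⟩ := sylow_transfer (Matrix.SpecialLinearGroup.toGL : Matrix.SpecialLinearGroup (Fin n) F →* GL (Fin n) F)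
      (fun a b h => Subtype.ext (congrArg Units.val h)) hfac P Q
    obtain ⟨e2⟩ := sylow_GL hq n r hrq hnd Q
    exact ⟨e1.trans e2⟩

lemma count_even (n e : ℕ) (he : 0 < e) : ((Finset.Icc 1 n).filter (fun i => 2 * e ∣ 2 * i)).card = n / e := by
  rw [← Nat.Ioc_filter_dvd_card_eq_div n e]
  congr 1
  ext i
  simp only [Finset.mem_filter, Finset.mem_Icc, Finset.mem_Ioc]
  rw [Nat.mul_dvd_mul_iff_left (by norm_num)]
  constructor
  · rintro ⟨⟨h1, h2⟩, h3⟩; exact ⟨⟨by omega, h2⟩, h3⟩
  · rintro ⟨⟨h1, h2⟩, h3⟩; exact ⟨⟨by omega, h2⟩, h3⟩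

lemma count_odd (n d : ℕ) (hd : Odd d) : ((Finset.Icc 1 n).filter (fun i => d ∣ 2 * i)).card = n / d := by
  rw [← Nat.Ioc_filter_dvd_card_eq_div n d]
  congr 1
  ext i
  simp only [Finset.mem_filter, Finset.mem_Icc, Finset.mem_Ioc]
  have hc : d.Coprime 2 := Nat.coprime_two_right.mpr hd
  rw [hc.dvd_mul_left]
  constructor
  · rintro ⟨⟨h1, h2⟩, h3⟩; exact ⟨⟨by omega, h2⟩, h3⟩
  · rintro ⟨⟨h1, h2⟩, h3⟩; exact ⟨⟨by omega, h2⟩, h3⟩

lemma fact_Sp {q : ℕ} (hq : Fintype.card F = q) (n r : ℕ) [Fact r.Prime] (hr2 : r ≠ 2) (hrn : n < r) (hrq : ¬ r ∣ q) :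
    (Nat.card (Matrix.symplecticGroup (Fin n) F)).factorization r =
      vv r q * ((Finset.Icc 1 n).filter (fun i => orderOf (q : ZMod r) ∣ 2 * i)).card := by
  have h2 := two_le_card hq
  have hd := ord_pos r q hrq
  have hc := ClSympOrd.card_symplectic (F := F) n
  rw [hq] at hc
  rw [fact_prod r (fun h => hrq ((Fact.out : r.Prime).dvd_of_dvd_pow h)) (prod_ne q h2 _ _ (fun i _ => by omega)) hc]
  rw [val_prod r q h2 hd.ne' _ _ (fun i _ => by omega), val_cyclo r q h2 hd.ne']
  · congr 1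
    apply Finset.card_bij (fun i _ => i + 1)
    · intro i hi
      rw [Finset.mem_filter, Finset.mem_range] at hi
      rw [Finset.mem_filter, Finset.mem_Icc]
      exact ⟨⟨by omega, by omega⟩, hi.2⟩
    · intro a _ b _ h; omega
    · intro i hi
      rw [Finset.mem_filter, Finset.mem_Icc] at hi
      refine ⟨i - 1, ?_, by omega⟩
      rw [Finset.mem_filter, Finset.mem_range]
      refine ⟨by omega, ?_⟩
      have : i - 1 + 1 = i := by omega
      rw [this]; exact hi.2
  · intro i hi k hk hrk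
    rw [Finset.mem_range] at hi
    have h3 : r ∣ 2 * (i + 1) := by rw [hk]; exact dvd_mul_of_dvd_right hrk _
    rcases ((Fact.out : r.Prime).dvd_mul).mp h3 with h | h
    · have := Nat.le_of_dvd (by norm_num) h
      have := (Fact.out : r.Prime).two_le
      omega
    · have := Nat.le_of_dvd (by omega) h
      omega

theorem sylow_Sp {q : ℕ} (hq : Fintype.card F = q) (n r : ℕ) [Fact r.Prime] (hr2 : r ≠ 2) (hrn : n < r) (hrq : ¬ r ∣ q)
    (P : Sylow r (Matrix.symplecticGroup (Fin n) F)) : Nonempty (↥(P : Subgroup (Matrix.symplecticGroup (Fin n) F)) ≃*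
      HC r (vv r q) ((Finset.Icc 1 n).filter (fun i => orderOf (q : ZMod r) ∣ 2 * i)).card) := by
  classical
  have h2 := two_le_card hq
  have hd := ord_pos r q hrq
  have hf := fact_Sp hq n r hr2 hrn hrq
  have hr := (Fact.out : r.Prime)
  rcases Nat.even_or_odd' (orderOf (q : ZMod r)) with ⟨e, he | he⟩
  · -- even order: inside GL_{2n}
    have he0 : 0 < e := by omega
    have hcount : ((Finset.Icc 1 n).filter (fun i => orderOf (q : ZMod r) ∣ 2 * i)).card = n / e := by
      rw [he]; exact count_even n e he0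
    have hdiv : (n + n) / orderOf (q : ZMod r) = n / e := by
      rw [he, ← two_mul, Nat.mul_div_mul_left _ _ (by norm_num)]
    have hnd : (n + n) / orderOf (q : ZMod r) < r := by
      rw [hdiv]; exact lt_of_le_of_lt (Nat.div_le_self _ _) hrn
    rw [hcount] at hf ⊢
    let ee : (Fin n ⊕ Fin n) ≃ Fin (n + n) := finSumFinEquiv
    let ι : Matrix.symplecticGroup (Fin n) F →* GL (Fin (n + n)) F :=
      (Units.map ((Matrix.reindexAlgEquiv F F ee : Matrix (Fin n ⊕ Fin n) (Fin n ⊕ Fin n) F ≃ₐ[F] _) :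
        Matrix (Fin n ⊕ Fin n) (Fin n ⊕ Fin n) F →* Matrix (Fin (n + n)) (Fin (n + n)) F)).comp ClIso.sympToGL
    have hι : Function.Injective ι := by
      intro a b hab
      apply Subtype.ext
      exact (Matrix.reindexAlgEquiv F F ee).injective (congrArg Units.val hab)
    have hfac : (Nat.card (Matrix.symplecticGroup (Fin n) F)).factorization r = (Nat.card (GL (Fin (n + n)) F)).factorization r := by
      rw [hf, fact_GL hq (n + n) r hrq hnd, hdiv]
    obtain ⟨Q⟩ : Nonempty (Sylow r (GL (Fin (n + n)) F)) := inferInstance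
    obtain ⟨e1⟩ := sylow_transfer ι hι hfac P Q
    obtain ⟨e2⟩ := sylow_GL hq (n + n) r hrq hnd Q
    rw [hdiv] at e2
    exact ⟨e1.trans e2⟩
  · -- odd order: GL_n inside
    have hodd : Odd (orderOf (q : ZMod r)) := ⟨e, he⟩
    have hcount := count_odd n _ hodd
    have hnd : n / orderOf (q : ZMod r) < r := lt_of_le_of_lt (Nat.div_le_self _ _) hrn
    rw [hcount] at hf ⊢
    have hfac : (Nat.card (GL (Fin n) F)).factorization r = (Nat.card (Matrix.symplecticGroup (Fin n) F)).factorization r := by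
      rw [hf, fact_GL hq n r hrq hnd]
    obtain ⟨Q⟩ : Nonempty (Sylow r (GL (Fin n) F)) := inferInstance
    obtain ⟨e1⟩ := sylow_transfer (ClEmbed.glToSp (m := Fin n) (F := F)) ClEmbed.glToSp_injective hfac Q P
    obtain ⟨e2⟩ := sylow_GL hq n r hrq hnd Q
    exact ⟨e1.symm.trans e2⟩

end Cfsg.Agent.Lib.LargeSylow2
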