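import Cfsg.Agent.Lib.LeechCen6
import Cfsg.Agent.Lib.ClSymp3
import Cfsg.Agent.Lib.Cores
import Cfsg.Agent.S0245
import Cfsg.Agent.S0246

/-!
The involution centraliser of shape `2^{1+8} Sp(6, 2)` in the second Conway group.
-/

set_option autoImplicit false
set_option maxHeartbeats 400000

namespace Cfsg.Agent.Lib.LeechSyl

open Cfsg Cfsg.Agent.Lib.Golay Cfsg.Agent.Lib.LeechMin Cfsg.Agent.Lib.GolayCoset Cfsg.Agent.Lib.LeechXi
  Cfsg.Agent.Lib.LeechTrans Cfsg.Agent.Lib.LeechCo2 Cfsg.Agent.Lib.LeechFrame Cfsg.Agent.Lib.LeechCount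
  Cfsg.Agent.Lib.LeechOrder Cfsg.Agent.Lib.LeechMod Cfsg.Agent.Lib.LeechQuot Cfsg.Agent.Lib.LeechChain
open Subgroup
open scoped Pointwise Matrix

theorem isExtraspecial_congr {G H : Type*} [Group G] [Group H] {p : ℕ} (e : G ≃* H) (h : IsExtraspecial p G) :
    IsExtraspecial p H := by
  have hc : (center G).map e.toMonoidHom = center H := by
    apply le_antisymm
    · rintro _ ⟨x, hx, rfl⟩
      rw [Subgroup.mem_center_iff]
      intro g
      obtain ⟨g, rfl⟩ := e.surjective g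
      have := Subgroup.mem_center_iff.mp hx g
      change e g * e x = e x * e g
      rw [← map_mul, this, map_mul]
    · intro y hy
      obtain ⟨y, rfl⟩ := e.surjective y
      refine ⟨y, ?_, rfl⟩
      rw [SetLike.mem_coe, Subgroup.mem_center_iff]
      intro g
      have := Subgroup.mem_center_iff.mp hy (e g)
      rw [← map_mul, ← map_mul] at this
      exact e.injective this
  refine ⟨⟨h.1.1.of_equiv e, ?_, ?_⟩, ?_⟩
  · rw [← hc, ← h.1.2.1]
    exact (e.mapSubgroup.map_radical).symm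
  · rw [← hc, ← h.1.2.2, commutator_def, commutator_def, Subgroup.map_commutator]
    have : (⊤ : Subgroup G).map e.toMonoidHom = ⊤ := Subgroup.map_top_of_surjective _ e.surjective
    rw [this]
  · rw [← hc, ← h.2]
    exact Nat.card_congr ((center G).equivMapOfInjective e.toMonoidHom e.injective).toEquiv.symm

/-- the largest normal `p`-subgroup is the kernel of a surjection to a group without normal `p`-subgroups -/
theorem pCore_eq_ker {C S : Type*} [Group C] [Group S] {p : ℕ} (ρ : C →* S) (hs : Function.Surjective ρ) (hk : IsPGroup p ρ.ker)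
    (hS : ∀ N : Subgroup S, N.Normal → IsPGroup p N → N = ⊥) : pCore p C = ρ.ker := by
  apply le_antisymm
  · apply sSup_le
    rintro N ⟨hN, hp⟩
    have h1 := hS (N.map ρ) (hN.map ρ hs) (hp.map ρ)
    rwa [Subgroup.map_eq_bot_iff] at h1
  · exact le_sSup ⟨inferInstance, hk⟩

theorem card_Sp6 : Nat.card (Matrix.symplecticGroup (Fin 3) (ZMod 2)) = 1451520 := by
  rw [S0245.result (F := ZMod 2) (q := 2) (by simp) 3]
  decide

theorem Sp6_simple : IsSimpleGroup (Matrix.symplecticGroup (Fin 3) (ZMod 2)) := by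
  have h1 := ClSymp3.simple (F := ZMod 2) 3 (by norm_num) (by norm_num)
  have h2 : Subgroup.center (Matrix.symplecticGroup (Fin 3) (ZMod 2)) = ⊥ := by
    rw [← Subgroup.card_eq_one]
    exact S0246.result (F := ZMod 2) (q := 2) (by simp) 3 (by norm_num)
  let e : Matrix.symplecticGroup (Fin 3) (ZMod 2) ⧸ Subgroup.center (Matrix.symplecticGroup (Fin 3) (ZMod 2)) ≃*
      Matrix.symplecticGroup (Fin 3) (ZMod 2) := (QuotientGroup.quotientMulEquivOfEq h2).trans QuotientGroup.quotientBot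
  haveI : Nontrivial (Matrix.symplecticGroup (Fin 3) (ZMod 2)) := e.symm.toEquiv.nontrivial
  exact IsSimpleGroup.isSimpleGroup_of_surjective e.toMonoidHom e.surjective

theorem Sp6_core (N : Subgroup (Matrix.symplecticGroup (Fin 3) (ZMod 2))) (hN : N.Normal) (hp : IsPGroup 2 N) : N = ⊥ := by
  haveI := Sp6_simple
  rcases hN.eq_bot_or_eq_top with h | h
  · exact h
  · exfalso
    haveI : Fact (Nat.Prime 2) := ⟨Nat.prime_two⟩
    rw [h] at hp
    obtain ⟨n, hn⟩ := IsPGroup.iff_card.1 hp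
    have h3 : Nat.card (⊤ : Subgroup (Matrix.symplecticGroup (Fin 3) (ZMod 2))) = 1451520 := by
      rw [Nat.card_congr Subgroup.topEquiv.toEquiv, card_Sp6]
    rw [h3] at hn
    have h4 : 3 ∣ 2 ^ n := by rw [← hn]; norm_num
    have := Nat.Prime.dvd_of_dvd_pow Nat.prime_three h4
    norm_num at this

theorem ker_eq : rho6.ker = Q9.subgroupOf D2 := by
  ext g
  rw [MonoidHom.mem_ker, Subgroup.mem_subgroupOf]
  constructor
  · intro h x hx
    exact ker_fix h hx
  · intro h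
    rw [rho6_ker]
    intro x
    have : act6 g x = x := Subtype.ext (h x x.2.1)
    rw [this]

theorem Q9_le_D2 : Q9 ≤ D2 := by
  intro g hg
  rw [mem_D2]
  exact ⟨hg _ X_LO, Q9_zz hg⟩

theorem isP_Q9 : IsPGroup 2 Q9 := IsPGroup.of_card card_Q9

noncomputable def kerEquiv : rho6.ker ≃* Q9 :=
  (MulEquiv.subgroupCongr ker_eq).trans (Subgroup.subgroupOfEquivOfLe Q9_le_D2)

theorem core_D2 : pCore 2 D2 = rho6.ker := pCore_eq_ker rho6 rho6_surj (isP_Q9.of_equiv kerEquiv.symm) Sp6_core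

theorem leechU_X : Spor.leechU = X hab := by
  apply Subtype.ext
  show Spor.vecU = _
  rw [coe_X]
  decide +kernel

theorem zz_co2 : (zz : Equiv.Perm leechLattice) ∈ Spor.Co2 := by
  refine ⟨zz.2, ?_⟩
  rw [leechU_X]
  exact zz_fix.2 X_LO

/-- the centraliser in the second Conway group -/
noncomputable def centEquiv : ↥(Subgroup.centralizer ({(⟨zz, zz_co2⟩ : Spor.Co2)} : Set Spor.Co2)) ≃* D2 where
  toFun c := ⟨⟨c.1.1, c.1.2.1⟩, mem_D2.2 ⟨by
    have h := c.1.2.2
    rw [leechU_X] at h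
    exact h, by
    have h := Subgroup.mem_centralizer_singleton_iff.1 c.2
    exact Subtype.ext (congrArg (fun y : Spor.Co2 => (y : Equiv.Perm leechLattice)) h)⟩⟩
  invFun g := ⟨⟨g.1.1, g.1.2, by
    rw [leechU_X]
    exact (mem_D2.1 g.2).1⟩, Subgroup.mem_centralizer_singleton_iff.2 (Subtype.ext
      (congrArg (fun y : Co0 => (y : Equiv.Perm leechLattice)) (mem_D2.1 g.2).2))⟩
  left_inv _ := rfl
  right_inv _ := rfl
  map_mul' _ _ := rfl

theorem co2_centralizer : ∃ t : ↥Cfsg.Spor.Co2, orderOf t = 2 ∧ Cfsg.IsExtraspecial 2 (Cfsg.pCore 2 ↥(Subgroup.centralizer ({t} : Set ↥Cfsg.Spor.Co2))) ∧ Nat.card (Cfsg.pCore 2 ↥(Subgroup.centralizer ({t} : Set ↥Cfsg.Spor.Co2))) = 2 ^ 9 ∧ Nonempty (↥(Subgroup.centralizer ({t} : Set ↥Cfsg.Spor.Co2)) ⧸ Cfsg.pCore 2 ↥(Subgroup.centralizer ({t} : Set ↥Cfsg.Spor.Co2)) ≃* Matrix.symplecticGroup (Fin 3) (ZMod 2)) := by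
  set e := centEquiv
  have h1 : (pCore 2 ↥(Subgroup.centralizer ({(⟨zz, zz_co2⟩ : Spor.Co2)} : Set Spor.Co2))).map e.toMonoidHom = pCore 2 D2 :=
    Cores.map_pCore_equiv 2 e
  have e2 : pCore 2 ↥(Subgroup.centralizer ({(⟨zz, zz_co2⟩ : Spor.Co2)} : Set Spor.Co2)) ≃* Q9 :=
    ((Subgroup.equivMapOfInjective _ e.toMonoidHom e.injective).trans (MulEquiv.subgroupCongr (h1.trans core_D2))).trans kerEquiv
  refine ⟨⟨zz, zz_co2⟩, ?_, isExtraspecial_congr e2.symm Q9_extraspecial, ?_, ⟨?_⟩⟩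
  · apply orderOf_eq_prime
    · rw [pow_two]
      exact Subtype.ext (congrArg (fun y : Co0 => (y : Equiv.Perm leechLattice)) zz_sq)
    · intro h
      exact zz_ne (Subtype.ext (congrArg (fun y : Spor.Co2 => (y : Equiv.Perm leechLattice)) h))
  · rw [Nat.card_congr e2.toEquiv, card_Q9]
  · have h2 : (pCore 2 ↥(Subgroup.centralizer ({(⟨zz, zz_co2⟩ : Spor.Co2)} : Set Spor.Co2))).map (e : _ →* D2) = rho6.ker := h1.trans core_D2
    exact (QuotientGroup.congr _ _ e h2).trans (QuotientGroup.quotientKerEquivOfSurjective rho6 rho6_surj)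

end Cfsg.Agent.Lib.LeechSyl
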