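import Cfsg.Agent.Lib.LeechCen9
import Cfsg.Agent.Lib.LeechCen7
import Cfsg.Agent.S0287
import Cfsg.Agent.S0293
import Cfsg.Agent.S0296

/-!
The image of the centraliser of the involution is the commutator subgroup of the isometry group.
-/

set_option autoImplicit false
set_option maxHeartbeats 400000

namespace Cfsg.Agent.Lib.LeechSyl

open Cfsg Cfsg.Agent.Lib.Golay Cfsg.Agent.Lib.LeechMin Cfsg.Agent.Lib.GolayCoset Cfsg.Agent.Lib.LeechXi
  Cfsg.Agent.Lib.LeechTrans Cfsg.Agent.Lib.LeechCo2 Cfsg.Agent.Lib.LeechFrame Cfsg.Agent.Lib.LeechCount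
  Cfsg.Agent.Lib.LeechOrder Cfsg.Agent.Lib.LeechMod Cfsg.Agent.Lib.LeechQuot Cfsg.Agent.Lib.LeechChain
open Subgroup
open scoped Pointwise Matrix

/-- roots with the same image agree up to sign -/
theorem pm_of_kap8 {x y : LO} (hx : sqNorm ((x : leechLattice) : GolayPt → ℤ) = 32)
    (hy : sqNorm ((y : leechLattice) : GolayPt → ℤ) = 32) (h : kap8 x = kap8 y) :
    (x : leechLattice) = y ∨ (x : leechLattice) = -(y : leechLattice) := by
  have h1 : kap8 (x - y) = 0 := by rw [map_sub, h, sub_self]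
  obtain ⟨w, hw⟩ := kap8_ker h1
  have hw' : (x : leechLattice) - y = (w : leechLattice) + w := congrArg Subtype.val hw
  set d := dotInt ((x : leechLattice) : GolayPt → ℤ) ((y : leechLattice) : GolayPt → ℤ) with hd
  have h5 : sqNorm (((x : leechLattice) - y : leechLattice) : GolayPt → ℤ) = 64 - 2 * d := by
    rw [coe_sub_L, sqNorm_sub, hx, hy]; ring
  have h6 : sqNorm (((x : leechLattice) + y : leechLattice) : GolayPt → ℤ) = 64 + 2 * d := by
    rw [coe_add_L, sqNorm_add, hx, hy]; ring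
  have h7 := norm_nonneg (((x : leechLattice) - y : leechLattice) : GolayPt → ℤ)
  have h8 := norm_nonneg (((x : leechLattice) + y : leechLattice) : GolayPt → ℤ)
  have h9 := norm32 w.2
  have h10 := h5
  rw [hw', coe_add_L, norm_double] at h10
  have h11 : d = 32 ∨ d = -32 := by omega
  rcases h11 with h11 | h11
  · left
    have := zero_of_norm (x := (x : leechLattice) - y) (by rw [h5, h11]; norm_num)
    exact sub_eq_zero.1 this
  · right
    have := zero_of_norm (x := (x : leechLattice) + y) (by rw [h6, h11]; norm_num)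
    exact eq_neg_of_add_eq_zero_left this

theorem negOne_D8 : negOne ∈ D8 := mem_D8.2 (negOne_comm zz).symm

theorem negOne_notin_Q9 {q : Co0} (hq : q ∈ Q9) : negOne * q ∉ Q9 := by
  intro h
  have h1 := h _ X_LO
  rw [mul_smul, hq _ X_LO, negOne_smul] at h1
  have h2 := congrFun (congrArg Subtype.val h1) none
  have h3 : -((X hab : GolayPt → ℤ) none) = (X hab : GolayPt → ℤ) none := h2
  rw [X_none] at h3
  norm_num at h3

theorem kap8_neg (x : LO) : kap8 (-x) = kap8 x := by
  rw [map_neg]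
  funext k
  exact CharTwo.neg_eq _

theorem rho8_negOne : rho8 ⟨negOne, negOne_D8⟩ = 1 := by
  rw [rho8_ker]
  intro x
  have : act8 ⟨negOne, negOne_D8⟩ x = -x := Subtype.ext (negOne_smul _)
  rw [this, kap8_neg]

theorem j68 : ∀ k : Fin 3 ⊕ Fin 3, ∃ l : Fin 4 ⊕ Fin 4, j8 l = j6 k := by decide

theorem Q9_D8 {q : Co0} (hq : q ∈ Q9) : q ∈ D8 := mem_D8.2 (Q9_zz hq)

theorem rho8_Q9 {q : Co0} (hq : q ∈ Q9) : rho8 ⟨q, Q9_D8 hq⟩ = 1 := by
  rw [rho8_ker]
  intro x
  have : act8 ⟨q, Q9_D8 hq⟩ x = x := Subtype.ext (hq _ x.2)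
  rw [this]

/-- elements of the kernel fixing `X` -/
theorem ker8_fix {g : D8} (hg : rho8 g = 1) (hX : (g : Co0) • X hab = X hab) : (g : Co0) ∈ Q9 := by
  have hD2 : (g : Co0) ∈ D2 := mem_D2.2 ⟨hX, mem_D8.1 g.2⟩
  have h1 : rho6 ⟨g, hD2⟩ = 1 := by
    rw [rho6_ker]
    intro x
    funext k
    obtain ⟨l, hl⟩ := j68 k
    have h2 := congrFun (rho8_ker.1 hg ⟨(x : leechLattice), x.2.1⟩) l
    show kap (bV (j6 k)) ((g : Co0) • (x : leechLattice)) = kap (bV (j6 k)) x
    rw [← hl]
    exact h2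
  intro x hx
  exact ker_fix h1 hx

theorem ker8_pm {g : D8} (hg : rho8 g = 1) : (g : Co0) ∈ Q9 ∨ negOne * (g : Co0) ∈ Q9 := by
  have h1 := pm_of_kap8 (x := act8 g ⟨X hab, X_LO⟩) (y := ⟨X hab, X_LO⟩) (by
    show sqNorm (((g : Co0) • X hab : leechLattice) : GolayPt → ℤ) = 32
    rw [sqNorm_smul, sqNorm_X]) (sqNorm_X hab) (rho8_ker.1 hg _)
  rcases h1 with h1 | h1
  · left
    exact ker8_fix hg h1
  · right
    have h2 : rho8 (⟨negOne, negOne_D8⟩ * g) = 1 := by rw [map_mul, rho8_negOne, hg, one_mul]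
    apply ker8_fix h2
    show (negOne * (g : Co0)) • X hab = X hab
    have h1' : (g : Co0) • X hab = -X hab := h1
    rw [mul_smul, h1', negOne_smul, neg_neg]

theorem card_ker8 : Nat.card rho8.ker = 1024 := by
  have h1 : Nat.card (Q9 × Bool) = Nat.card rho8.ker := by
    apply Nat.card_congr
    refine Equiv.ofBijective (fun p => if p.2 then ⟨⟨p.1.1, Q9_D8 p.1.2⟩, rho8_Q9 p.1.2⟩ else
      ⟨⟨negOne, negOne_D8⟩ * ⟨p.1.1, Q9_D8 p.1.2⟩, by rw [MonoidHom.mem_ker, map_mul, rho8_negOne, rho8_Q9 p.1.2, one_mul]⟩) ⟨?_, ?_⟩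
    · rintro ⟨⟨p, hp⟩, b⟩ ⟨⟨q, hq⟩, c⟩ h
      cases b <;> cases c
      · have h2 : negOne * p = negOne * q := congrArg (fun y : rho8.ker => ((y : D8) : Co0)) h
        have h3 : p = q := mul_left_cancel h2
        subst h3
        rfl
      · have h2 : negOne * p = q := congrArg (fun y : rho8.ker => ((y : D8) : Co0)) h
        exact absurd (h2 ▸ hq) (negOne_notin_Q9 hp)
      · have h2 : p = negOne * q := congrArg (fun y : rho8.ker => ((y : D8) : Co0)) h
        exact absurd (h2 ▸ hp) (negOne_notin_Q9 hq)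
      · have h2 : p = q := congrArg (fun y : rho8.ker => ((y : D8) : Co0)) h
        subst h2
        rfl
    · rintro ⟨g, hg⟩
      rcases ker8_pm hg with h | h
      · exact ⟨⟨⟨g, h⟩, true⟩, rfl⟩
      · refine ⟨⟨⟨negOne * g, h⟩, false⟩, ?_⟩
        apply Subtype.ext
        apply Subtype.ext
        show negOne * (negOne * (g : Co0)) = g
        rw [← mul_assoc, negOne_sq, one_mul]
  rw [← h1, Nat.card_prod, card_Q9]
  simp

theorem card_D2 : Nat.card D2 = 512 * 1451520 := by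
  have h1 := Subgroup.card_mul_index rho6.ker
  rw [Subgroup.index_ker, MonoidHom.range_eq_top.2 rho6_surj, Nat.card_congr Subgroup.topEquiv.toEquiv, card_Sp6,
    Nat.card_congr kerEquiv.toEquiv, card_Q9] at h1
  rw [← h1]
  norm_num

theorem card_T8 : Fintype.card {v : V8 // quadFormPlus 4 (ZMod 2) v = 1} = 120 := by decide +kernel

theorem D8_inf : D8 ⊓ MulAction.stabilizer Co0 (X hab) = D2 := inf_comm _ _

theorem card_D8 : Nat.card D8 = 240 * (512 * 1451520) := by
  rw [card_orbit D8 (X hab), D8_inf, card_D2]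
  congr 1
  choose r hr using fun v : {v : V8 // quadFormPlus 4 (ZMod 2) v = 1} => nonsing_trans v.1 v.2
  have hn : ∀ g : D8, sqNorm (((g : Co0) • X hab : leechLattice) : GolayPt → ℤ) = 32 := by
    intro g; rw [sqNorm_smul, sqNorm_X]
  have hne : ∀ x : leechLattice, sqNorm (x : GolayPt → ℤ) = 32 → x ≠ -x := by
    intro x hx h
    have h2 : x = 0 := by
      apply Subtype.ext
      funext i
      have h3 := congrFun (congrArg Subtype.val h) i
      have h4 : (x : GolayPt → ℤ) i = -((x : GolayPt → ℤ) i) := h3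
      show (x : GolayPt → ℤ) i = 0
      omega
    rw [h2] at hx
    have : sqNorm ((0 : leechLattice) : GolayPt → ℤ) = 0 := sqNorm_zero
    rw [this] at hx
    norm_num at hx
  have h1 : Nat.card ({v : V8 // quadFormPlus 4 (ZMod 2) v = 1} × Bool) = Nat.card {y | ∃ g ∈ D8, g • X hab = y} := by
    apply Nat.card_congr
    refine Equiv.ofBijective (fun p => if p.2 then ⟨(r p.1 : Co0) • X hab, (r p.1 : Co0), (r p.1).2, rfl⟩ else
      ⟨-((r p.1 : Co0) • X hab), negOne * (r p.1 : Co0), D8.mul_mem negOne_D8 (r p.1).2, by rw [mul_smul, negOne_smul]⟩) ⟨?_, ?_⟩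
    · rintro ⟨u, b⟩ ⟨v, c⟩ h
      have key : ∀ (a a' : LO), (a : leechLattice) = a' → kap8 a = kap8 a' := fun a a' h => by rw [Subtype.ext h]
      cases b <;> cases c
      · have h2 : -((r u : Co0) • X hab) = -((r v : Co0) • X hab) := congrArg Subtype.val h
        have h3 := key (act8 (r u) ⟨X hab, X_LO⟩) (act8 (r v) ⟨X hab, X_LO⟩) (neg_injective h2)
        rw [hr, hr] at h3
        rw [Subtype.ext h3]
      · have h2 : -((r u : Co0) • X hab) = ((r v : Co0) • X hab) := congrArg Subtype.val h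
        have h3 := key (-(act8 (r u) ⟨X hab, X_LO⟩)) (act8 (r v) ⟨X hab, X_LO⟩) h2
        rw [kap8_neg, hr, hr] at h3
        have h4 : u = v := Subtype.ext h3
        subst h4
        exact absurd h2.symm (hne _ (hn _))
      · have h2 : ((r u : Co0) • X hab) = -((r v : Co0) • X hab) := congrArg Subtype.val h
        have h3 := key (act8 (r u) ⟨X hab, X_LO⟩) (-(act8 (r v) ⟨X hab, X_LO⟩)) h2
        rw [kap8_neg, hr, hr] at h3
        have h4 : u = v := Subtype.ext h3
        subst h4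
        exact absurd h2 (hne _ (hn _))
      · have h2 : ((r u : Co0) • X hab) = ((r v : Co0) • X hab) := congrArg Subtype.val h
        have h3 := key (act8 (r u) ⟨X hab, X_LO⟩) (act8 (r v) ⟨X hab, X_LO⟩) h2
        rw [hr, hr] at h3
        rw [Subtype.ext h3]
    · rintro ⟨y, g, hg, hy⟩
      have hq : quadFormPlus 4 (ZMod 2) (kap8 (act8 ⟨g, hg⟩ ⟨X hab, X_LO⟩)) = 1 := by
        rw [q8_kap]
        show q8 (g • X hab) = 1
        unfold q8
        rw [sqNorm_smul, sqNorm_X]
        rfl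
      have h2 := pm_of_kap8 (x := act8 ⟨g, hg⟩ ⟨X hab, X_LO⟩) (y := act8 (r ⟨_, hq⟩) ⟨X hab, X_LO⟩) (hn ⟨g, hg⟩)
        (hn _) (by rw [hr])
      rcases h2 with h2 | h2
      · refine ⟨⟨⟨_, hq⟩, true⟩, Subtype.ext ?_⟩
        exact h2.symm.trans hy
      · refine ⟨⟨⟨_, hq⟩, false⟩, Subtype.ext ?_⟩
        exact h2.symm.trans hy
  rw [← Nat.card_coe_set_eq, ← h1, Nat.card_prod, Nat.card_eq_fintype_card, card_T8]
  simp

theorem card_range8 : Nat.card rho8.range = 174182400 := by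
  have h1 := Subgroup.card_mul_index rho8.ker
  rw [Subgroup.index_ker, card_D8, card_ker8] at h1
  omega

theorem card_iso8 : Nat.card (isometryGroup (ZMod 2) (quadFormPlus 4 (ZMod 2))) = 2 * 174182400 := by
  rw [S0287.result (F := ZMod 2) (q := 2) (by simp) 4 (by norm_num)]
  decide

theorem card_POm8 : Nat.card (POmega (ZMod 2) (quadFormPlus 4 (ZMod 2))) = 174182400 := by
  have h1 := S0293.result (F := ZMod 2) (q := 2) (by simp) 4 (by norm_num)
  have h2 : Nat.gcd 4 (2 ^ 4 - 1) = 1 := by decide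
  rw [h2, one_mul] at h1
  rw [h1]
  decide

theorem index_range8 : rho8.range.index = 2 := by
  have h1 := Subgroup.card_mul_index rho8.range
  rw [card_range8, card_iso8] at h1
  omega

theorem Omega_le : Omega (ZMod 2) (quadFormPlus 4 (ZMod 2)) ≤ rho8.range := by
  rw [Omega, commutator_def, Subgroup.commutator_le]
  intro a _ b _
  rw [commutatorElement_def, Subgroup.mul_mem_iff_of_index_two index_range8, Subgroup.mul_mem_iff_of_index_two index_range8,
    Subgroup.mul_mem_iff_of_index_two index_range8, inv_mem_iff, inv_mem_iff]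
  tauto

theorem card_Omega8 : Nat.card (Omega (ZMod 2) (quadFormPlus 4 (ZMod 2))) = 174182400 ∧
    Nat.card (Subgroup.center (Omega (ZMod 2) (quadFormPlus 4 (ZMod 2)))) = 1 := by
  have h1 := Subgroup.card_eq_card_quotient_mul_card_subgroup (Subgroup.center (Omega (ZMod 2) (quadFormPlus 4 (ZMod 2))))
  have h2 : Nat.card (Omega (ZMod 2) (quadFormPlus 4 (ZMod 2)) ⧸ Subgroup.center (Omega (ZMod 2) (quadFormPlus 4 (ZMod 2)))) = 174182400 :=
    card_POm8
  have h3 := Subgroup.card_le_of_le Omega_le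
  rw [card_range8] at h3
  rw [h2] at h1
  have h4 : 0 < Nat.card (Subgroup.center (Omega (ZMod 2) (quadFormPlus 4 (ZMod 2)))) := Nat.card_pos
  constructor
  · nlinarith
  · nlinarith

theorem Omega_eq : rho8.range = Omega (ZMod 2) (quadFormPlus 4 (ZMod 2)) := by
  symm
  apply Subgroup.eq_of_le_of_card_ge Omega_le
  rw [card_range8, card_Omega8.1]

theorem Omega_simple : IsSimpleGroup (Omega (ZMod 2) (quadFormPlus 4 (ZMod 2))) := by
  have h1 : IsSimpleGroup (Omega (ZMod 2) (quadFormPlus 4 (ZMod 2)) ⧸ Subgroup.center (Omega (ZMod 2) (quadFormPlus 4 (ZMod 2)))) :=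
    S0296.result (F := ZMod 2) 4 (by norm_num)
  have h2 : Subgroup.center (Omega (ZMod 2) (quadFormPlus 4 (ZMod 2))) = ⊥ := by
    rw [← Subgroup.card_eq_one]
    exact card_Omega8.2
  let e : Omega (ZMod 2) (quadFormPlus 4 (ZMod 2)) ⧸ Subgroup.center (Omega (ZMod 2) (quadFormPlus 4 (ZMod 2))) ≃*
      Omega (ZMod 2) (quadFormPlus 4 (ZMod 2)) := (QuotientGroup.quotientMulEquivOfEq h2).trans QuotientGroup.quotientBot
  haveI : Nontrivial (Omega (ZMod 2) (quadFormPlus 4 (ZMod 2))) := e.symm.toEquiv.nontrivial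
  exact IsSimpleGroup.isSimpleGroup_of_surjective e.toMonoidHom e.surjective

theorem Omega_core (N : Subgroup (Omega (ZMod 2) (quadFormPlus 4 (ZMod 2)))) (hN : N.Normal) (hp : IsPGroup 2 N) : N = ⊥ := by
  haveI := Omega_simple
  rcases hN.eq_bot_or_eq_top with h | h
  · exact h
  · exfalso
    haveI : Fact (Nat.Prime 2) := ⟨Nat.prime_two⟩
    rw [h] at hp
    obtain ⟨n, hn⟩ := IsPGroup.iff_card.1 hp
    rw [Nat.card_congr Subgroup.topEquiv.toEquiv, card_Omega8.1] at hn
    have h4 : 3 ∣ 2 ^ n := by rw [← hn]; norm_num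
    have := Nat.Prime.dvd_of_dvd_pow Nat.prime_three h4
    norm_num at this

end Cfsg.Agent.Lib.LeechSyl
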