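import Cfsg.Agent.Lib.LeechCen10
import Cfsg.Agent.Lib.CharPLocal

/-!
The involution centraliser of shape `2^{1+8} Ω8+(2)` in the first Conway group.
-/

set_option autoImplicit false
set_option maxHeartbeats 400000

namespace Cfsg.Agent.Lib.LeechSyl

open Cfsg Cfsg.Agent.Lib.Golay Cfsg.Agent.Lib.LeechMin Cfsg.Agent.Lib.GolayCoset Cfsg.Agent.Lib.LeechXi
  Cfsg.Agent.Lib.LeechTrans Cfsg.Agent.Lib.LeechCo2 Cfsg.Agent.Lib.LeechFrame Cfsg.Agent.Lib.LeechCount
  Cfsg.Agent.Lib.LeechOrder Cfsg.Agent.Lib.LeechMod Cfsg.Agent.Lib.LeechQuot Cfsg.Agent.Lib.LeechChain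
open Subgroup
open scoped Pointwise Matrix

theorem zz_neg {x : leechLattice} (h : ∀ i ∈ oc, (x : GolayPt → ℤ) i = 0) : zz • x = -x := by
  apply Subtype.ext
  funext i
  show ((zz • x : leechLattice) : GolayPt → ℤ) i = -((x : GolayPt → ℤ) i)
  rw [zz, eps_apply]
  by_cases hi : i ∈ oc
  · rw [if_neg (fun h' => Finset.mem_compl.1 h' hi), h i hi, neg_zero]
  · rw [if_pos (Finset.mem_compl.2 hi)]

theorem h48 : (some 4 : GolayPt) ≠ some 8 := by decide

/-- the involution is not conjugate to its negative -/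
theorem zz_not_neg (g : Co0) : g * zz ≠ negOne * (zz * g) := by
  intro h
  have h1 : zz * g⁻¹ = negOne * (g⁻¹ * zz) := by
    have h2 : g⁻¹ * (g * zz) * g⁻¹ = g⁻¹ * (negOne * (zz * g)) * g⁻¹ := by rw [h]
    have h3 : g⁻¹ * (g * zz) * g⁻¹ = zz * g⁻¹ := by group
    have h4 : g⁻¹ * (negOne * (zz * g)) * g⁻¹ = (g⁻¹ * negOne) * zz := by group
    rw [h3, h4, negOne_comm] at h2
    rw [h2, mul_assoc]
  have h2 : ∀ x : leechLattice, (∀ i ∈ oc, (x : GolayPt → ℤ) i = 0) → g⁻¹ • x ∈ LO := by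
    intro x hx
    rw [← zz_fix, ← mul_smul, h1, mul_smul, mul_smul, zz_neg hx, negOne_smul, smul_neg', neg_neg]
  have h3 := h2 (X h48) (by
    intro i hi
    rw [coe_X]
    revert i
    decide +kernel)
  have h4 := h2 ⟨_, two_chi_mem o1_mem.1⟩ (by
    intro i hi
    show 2 * chi (mset 6889680) i = 0
    rcases chi_cases (mset 6889680) i with ⟨e3, e⟩ | ⟨e3, e⟩
    · exact absurd e3 (o1_disj i hi)
    · rw [e]; rfl)
  have h5 := dot16 h3 h4
  rw [dot_smul] at h5
  have h6 : dotInt (X h48 : GolayPt → ℤ) ((⟨_, two_chi_mem o1_mem.1⟩ : leechLattice) : GolayPt → ℤ) = 8 := by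
    rw [coe_X, dot_add_left, dot_single, dot_single]
    show 4 * (2 * chi (mset 6889680) (some 4)) + 4 * (2 * chi (mset 6889680) (some 8)) = 8
    decide +kernel
  rw [h6] at h5
  norm_num at h5

/-- the involution in the quotient -/
noncomputable def z1 : Spor.Co1 := mkZ zz

/-- its centraliser -/
noncomputable abbrev CC : Subgroup Spor.Co1 := Subgroup.centralizer ({z1} : Set Spor.Co1)

theorem mkZ_mem_CC {g : Co0} (hg : g ∈ D8) : mkZ g ∈ CC := by
  rw [Subgroup.mem_centralizer_singleton_iff]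
  show mkZ g * mkZ zz = mkZ zz * mkZ g
  rw [← map_mul, ← map_mul, mem_D8.1 hg]

theorem mem_D8_of_CC {g : Co0} (hg : mkZ g ∈ CC) : g ∈ D8 := by
  rw [Subgroup.mem_centralizer_singleton_iff] at hg
  have h1 : mkZ (g * zz) = mkZ (zz * g) := by rw [map_mul, map_mul]; exact hg
  rcases mkZ_eq h1 with h | h
  · exact mem_D8.2 h
  · exact absurd h (zz_not_neg g)

noncomputable def piC : D8 →* CC := (mkZ.comp D8.subtype).codRestrict CC (fun g => mkZ_mem_CC g.2)

theorem piC_coe (g : D8) : (piC g : Spor.Co1) = mkZ g := rfl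

theorem piC_surj : Function.Surjective piC := by
  rintro ⟨c, hc⟩
  obtain ⟨g, rfl⟩ := mkZ_surj c
  exact ⟨⟨g, mem_D8_of_CC hc⟩, rfl⟩

theorem piC_eq_one {g : D8} : piC g = 1 ↔ (g : Co0) = 1 ∨ (g : Co0) = negOne := by
  rw [← mkZ_eq_one]
  constructor
  · intro h; exact congrArg Subtype.val h
  · intro h; exact Subtype.ext h

theorem ker_le : piC.ker ≤ rho8.ker := by
  intro g hg
  rw [MonoidHom.mem_ker, piC_eq_one] at hg
  rw [MonoidHom.mem_ker]
  rcases hg with h | h
  · have : g = 1 := Subtype.ext h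
    rw [this, map_one]
  · have : g = ⟨negOne, negOne_D8⟩ := Subtype.ext h
    rw [this, rho8_negOne]

noncomputable def rhoC : CC →* isometryGroup (ZMod 2) (quadFormPlus 4 (ZMod 2)) :=
  piC.liftOfSurjective piC_surj ⟨rho8, ker_le⟩

theorem rhoC_pi (g : D8) : rhoC (piC g) = rho8 g :=
  MonoidHom.liftOfRightInverse_comp_apply piC _ _ ⟨rho8, ker_le⟩ g

theorem rhoC_range : rhoC.range = Omega (ZMod 2) (quadFormPlus 4 (ZMod 2)) := by
  rw [← Omega_eq]
  ext y
  constructor
  · rintro ⟨c, rfl⟩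
    obtain ⟨g, rfl⟩ := piC_surj c
    exact ⟨g, (rhoC_pi g).symm⟩
  · rintro ⟨g, rfl⟩
    exact ⟨piC g, rhoC_pi g⟩

/-- the extraspecial subgroup -/
noncomputable def QC : Subgroup CC := rhoC.ker

theorem mem_QC {c : CC} : c ∈ QC ↔ ∃ (q : Co0) (hq : q ∈ Q9), c = piC ⟨q, Q9_D8 hq⟩ := by
  constructor
  · intro h
    obtain ⟨g, rfl⟩ := piC_surj c
    have h1 : rhoC (piC g) = 1 := h
    rw [rhoC_pi] at h1
    rcases ker8_pm h1 with h2 | h2
    · exact ⟨g, h2, rfl⟩
    · refine ⟨_, h2, Subtype.ext ?_⟩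
      rw [piC_coe, piC_coe]
      exact (mkZ_negOne _).symm
  · rintro ⟨q, hq, rfl⟩
    show rhoC _ = 1
    rw [rhoC_pi, rho8_Q9 hq]

noncomputable def fQ : Q9 →* QC where
  toFun q := ⟨piC ⟨q.1, Q9_D8 q.2⟩, mem_QC.2 ⟨q.1, q.2, rfl⟩⟩
  map_one' := Subtype.ext (map_one piC)
  map_mul' a b := Subtype.ext (map_mul piC ⟨a.1, Q9_D8 a.2⟩ ⟨b.1, Q9_D8 b.2⟩)

theorem fQ_bij : Function.Bijective fQ := by
  constructor
  · rw [injective_iff_map_eq_one]
    intro q hq
    have h1 : piC ⟨q.1, Q9_D8 q.2⟩ = 1 := congrArg Subtype.val hq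
    rcases piC_eq_one.1 h1 with h2 | h2
    · exact Subtype.ext h2
    · exfalso
      apply negOne_notin_Q9 (one_mem Q9)
      rw [mul_one, ← h2]
      exact q.2
  · rintro ⟨c, hc⟩
    obtain ⟨q, hq, rfl⟩ := mem_QC.1 hc
    exact ⟨⟨q, hq⟩, rfl⟩

noncomputable def eQ : Q9 ≃* QC := MulEquiv.ofBijective fQ fQ_bij

theorem QC_extraspecial : IsExtraspecial 2 QC := isExtraspecial_congr eQ Q9_extraspecial

theorem card_QC : Nat.card QC = 2 ^ 9 := by rw [← Nat.card_congr eQ.toEquiv, card_Q9]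

theorem QC_core : pCore 2 CC = QC := by
  have h1 : ∀ c, rhoC c ∈ Omega (ZMod 2) (quadFormPlus 4 (ZMod 2)) := by
    intro c
    rw [← rhoC_range]
    exact ⟨c, rfl⟩
  have h2 : (rhoC.codRestrict _ h1).ker = QC := MonoidHom.ker_codRestrict _ _ _
  rw [← h2]
  apply pCore_eq_ker
  · rintro ⟨y, hy⟩
    rw [← rhoC_range] at hy
    obtain ⟨c, rfl⟩ := hy
    exact ⟨c, rfl⟩
  · rw [h2]
    exact isP_Q9.of_equiv eQ
  · exact Omega_core

/-- elements centralising the extraspecial group -/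
theorem cent_Q9 {g : Co0} (hg : ∀ q ∈ Q9, g * q = q * g) : g = 1 ∨ g = negOne ∨ g = zz ∨ g = negOne * zz := by
  -- images of frame vectors
  have h1 : ∀ i, i ∉ oc → ∀ j, j ≠ i → ((g • ef i : leechLattice) : GolayPt → ℤ) j = 0 := by
    intro i hi j hji
    have hi' : tb 8536111 (ix i) = false := by
      by_contra h
      rw [Bool.not_eq_false] at h
      have h' := (mem_mset_tb (ix_lt i)).2 h
      rw [pt_ix] at h'
      exact hi h'
    obtain ⟨b, hb, hd, h2, h3⟩ := sep_spec (ix_lt i) (ix_lt j) hi' (fun e => hji (ix_inj.mp e).symm)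
    rw [pt_ix] at h2 h3
    have hbo : ∀ k ∈ oc, k ∉ b := fun k hk => Finset.disjoint_left.1 hd hk
    have h4 : eps b hb.1 • (g • ef i) = -(g • ef i) := by
      rw [← mul_smul, ← hg _ (eps_Q9 hb.1 hbo), mul_smul]
      have h5 : eps b hb.1 • ef i = -ef i := by
        apply Subtype.ext
        funext k
        rw [eps_apply]
        show _ = -((ef i : GolayPt → ℤ) k)
        by_cases hk : k ∈ b
        · rw [if_pos hk]
        · rw [if_neg hk, coe_ef, Pi.single_eq_of_ne (fun e => hk (by rw [e]; exact h2))]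
          rfl
      rw [h5, smul_neg']
    have h6 := congrFun (congrArg Subtype.val h4) j
    have h7 : ((eps b hb.1 • (g • ef i) : leechLattice) : GolayPt → ℤ) j = -(((g • ef i : leechLattice) : GolayPt → ℤ) j) := h6
    rw [eps_apply, if_neg h3] at h7
    omega
  have h2 : ∀ i, i ∉ oc → g • ef i = ef i ∨ g • ef i = -ef i := by
    intro i hi
    have h3 : sqNorm ((g • ef i : leechLattice) : GolayPt → ℤ) = 64 := by
      rw [sqNorm_smul, coe_ef, sqNorm_single]; norm_num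
    have h4 : ((g • ef i : leechLattice) : GolayPt → ℤ) = Pi.single i (((g • ef i : leechLattice) : GolayPt → ℤ) i) := by
      funext j
      by_cases hj : j = i
      · rw [hj, Pi.single_eq_same]
      · rw [h1 i hi j hj, Pi.single_eq_of_ne hj]
    set a := ((g • ef i : leechLattice) : GolayPt → ℤ) i with ha
    rw [h4, sqNorm_single] at h3
    have h5 : (a - 8) * (a + 8) = 0 := by
      have : (a - 8) * (a + 8) = a ^ 2 - 64 := by ring
      rw [this, h3]; norm_num
    rcases mul_eq_zero.1 h5 with h6 | h6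
    · left
      apply Subtype.ext
      rw [h4, coe_ef, show a = 8 by omega]
    · right
      apply Subtype.ext
      rw [h4, show a = -8 by omega]
      show _ = -(ef i : GolayPt → ℤ)
      rw [coe_ef, Pi.single_neg]
  -- the signs are equal
  have h3 : ∀ i j, i ∉ oc → j ∉ oc → g • ef i = ef i → g • ef j = ef j := by
    intro i j hi hj h
    obtain ⟨τ, hτ, e⟩ := OctPt_transitive oct0_mem hi hj
    have h4 : peH ⟨τ, (mem_OctPt.1 hτ).1⟩ • ef i = ef j := by rw [peH_ef', ← e]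
    rw [← h4, ← mul_smul, hg _ (peH_Q9 (σ := ⟨τ, (mem_OctPt.1 hτ).1⟩) hτ), mul_smul, h]
  have key : ∀ k : Co0, (∀ i, i ∉ oc → k • ef i = ef i) → k = 1 ∨ k = negOne * zz := by
    intro k hk
    obtain ⟨σ, hσ, c, hc, hm⟩ := mono_of_ef (hk (some 4) four_notin)
    have h5 : ∀ i, i ∉ oc → σ i = i ∧ i ∉ c := by
      intro i hi
      have h2 := hm (ef i)
      rw [hk i hi, coe_ef, signedPerm_single] at h2
      have h3 : σ i = i := by
        by_contra hne
        have h4 := congrFun h2 i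
        rw [Pi.single_eq_same, Pi.single_eq_of_ne (Ne.symm hne)] at h4
        norm_num at h4
      refine ⟨h3, fun hic => ?_⟩
      have h4 := congrFun h2 i
      rw [h3, Pi.single_eq_same, Pi.single_eq_same, if_pos hic] at h4
      norm_num at h4
    have h6 : σ = 1 := eq_one_of_fix_compl hσ (fun p hp => (h5 p (by
      rw [occ_eq, Finset.mem_compl] at hp
      exact hp)).1)
    have h7 : c ⊆ oc := by
      intro i hi
      by_contra hno
      exact (h5 i hno).2 hi
    subst h6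
    have h8 := eps_ext hc hm
    rcases sub_oc hc h7 with h9 | h9
    · left
      rw [h8, ← eps_empty]
      exact eps_congr hc _ h9
    · right
      rw [h8]
      have h10 : negOne * zz = eps Finset.univ univ_mem * eps ocᶜ occ_mem := rfl
      rw [h10, eps_mul]
      apply eps_congr
      rw [h9]
      ext i
      rw [Finset.mem_symmDiff]
      simp
  rcases h2 (some 4) four_notin with h4 | h4
  · rcases key g (fun i hi => h3 (some 4) i four_notin hi h4) with h5 | h5
    · exact Or.inl h5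
    · exact Or.inr (Or.inr (Or.inr h5))
  · have h5 : ∀ i, i ∉ oc → (negOne * g) • ef i = ef i := by
      intro i hi
      rcases h2 i hi with h6 | h6
      · exfalso
        have h7 := h3 i (some 4) hi four_notin h6
        rw [h4] at h7
        have h8 := congrFun (congrArg Subtype.val h7) (some 4)
        have h9 : -((ef (some 4) : GolayPt → ℤ) (some 4)) = (ef (some 4) : GolayPt → ℤ) (some 4) := h8
        rw [coe_ef, Pi.single_eq_same] at h9
        norm_num at h9
      · rw [mul_smul, h6, negOne_smul, neg_neg]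
    rcases key (negOne * g) h5 with h6 | h6
    · right; left
      have : negOne * (negOne * g) = negOne * 1 := by rw [h6]
      rw [← mul_assoc, negOne_sq, one_mul, mul_one] at this
      exact this
    · right; right; left
      have : negOne * (negOne * g) = negOne * (negOne * zz) := by rw [h6]
      rw [← mul_assoc, ← mul_assoc, negOne_sq, one_mul, one_mul] at this
      exact this

theorem D8_conj {g q : Co0} (hg : g ∈ D8) (hq : q ∈ Q9) : g * q * g⁻¹ ∈ Q9 := by
  intro x hx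
  have h1 : g⁻¹ • x ∈ LO := comm_LO (mem_D8.1 (inv_mem hg)) hx
  rw [mul_smul, mul_smul, hq _ h1, smul_inv_smul]

theorem cent_QC {c : CC} (hc : c ∈ Subgroup.centralizer (QC : Set CC)) : c ∈ QC := by
  obtain ⟨g, rfl⟩ := piC_surj c
  have h1 : ∀ q ∈ Q9, (g : Co0) * q = q * (g : Co0) := by
    intro q hq
    have h2 := Subgroup.mem_centralizer_iff.1 hc (piC ⟨q, Q9_D8 hq⟩) (mem_QC.2 ⟨q, hq, rfl⟩)
    have h3 : mkZ (q * (g : Co0)) = mkZ ((g : Co0) * q) := by
      rw [map_mul, map_mul]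
      exact congrArg Subtype.val h2
    rcases mkZ_eq h3 with h4 | h4
    · exact h4.symm
    · exfalso
      have h5 := D8_conj g.2 hq
      have h6 : (g : Co0) * q = negOne * (q * g) := by
        rw [h4, ← mul_assoc, negOne_sq, one_mul]
      rw [h6] at h5
      apply negOne_notin_Q9 hq
      have h7 : negOne * (q * (g : Co0)) * (g : Co0)⁻¹ = negOne * q := by group
      rwa [h7] at h5
  have h2 : (g : Co0) ∈ Q9 ∨ negOne * (g : Co0) ∈ Q9 := by
    rcases cent_Q9 h1 with h | h | h | h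
    · left; rw [h]; exact one_mem _
    · right; rw [h, negOne_sq]; exact one_mem _
    · left; rw [h]; exact zz_Q9
    · right; rw [h, ← mul_assoc, negOne_sq, one_mul]; exact zz_Q9
  rw [mem_QC]
  rcases h2 with h2 | h2
  · exact ⟨g, h2, rfl⟩
  · refine ⟨_, h2, Subtype.ext ?_⟩
    rw [piC_coe, piC_coe]
    exact (mkZ_negOne _).symm

theorem QC_fit : generalizedFittingSubgroup CC = QC := by
  haveI : Fact (Nat.Prime 2) := ⟨Nat.prime_two⟩
  rw [← QC_core, CharPLocal.genFitting_eq_pCore_iff, QC_core]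
  exact fun c hc => cent_QC hc

theorem zz_ne' : z1 ≠ 1 := by
  intro h
  rcases mkZ_eq_one.1 h with h1 | h1
  · exact zz_ne h1
  · have h2 : zz ∈ Q9 := zz_Q9
    rw [h1, ← mul_one negOne] at h2
    exact negOne_notin_Q9 (one_mem _) h2

theorem co1_centralizer : ∃ z : Cfsg.Spor.Co1, orderOf z = 2 ∧ ∃ (Q : Subgroup (Subgroup.centralizer ({z} : Set Cfsg.Spor.Co1))) (_ : Q.Normal), Cfsg.generalizedFittingSubgroup (Subgroup.centralizer ({z} : Set Cfsg.Spor.Co1)) = Q ∧ Cfsg.IsExtraspecial 2 Q ∧ Nat.card Q = 2 ^ 9 ∧ Nonempty ((Subgroup.centralizer ({z} : Set Cfsg.Spor.Co1)) ⧸ Q ≃* Cfsg.Omega (ZMod 2) (Cfsg.quadFormPlus 4 (ZMod 2))) ∧ ∃ g : Cfsg.Spor.Co1, (∃ hq : g * z * g⁻¹ ∈ Subgroup.centralizer ({z} : Set Cfsg.Spor.Co1), (⟨g * z * g⁻¹, hq⟩ : Subgroup.centralizer ({z} : Set Cfsg.Spor.Co1)) ∈ Q) ∧ g * z * g⁻¹ ≠ z := by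
  refine ⟨z1, ?_, QC, MonoidHom.normal_ker rhoC, QC_fit, QC_extraspecial, card_QC, ⟨?_⟩, ?_⟩
  · apply orderOf_eq_prime
    · rw [pow_two]
      show mkZ zz * mkZ zz = 1
      rw [← map_mul, zz_sq, map_one]
    · exact zz_ne'
  · exact (QuotientGroup.quotientKerEquivRange rhoC).trans (MulEquiv.subgroupCongr rhoC_range)
  · obtain ⟨σ, hσ, e⟩ := Golay.octad_transitive oct0_mem o1_mem
    have h1 : peH ⟨σ, hσ⟩ * zz * (peH ⟨σ, hσ⟩)⁻¹ = negOne * eps (mset 6889680) o1_mem.1 := by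
      show peH ⟨σ, hσ⟩ * eps ocᶜ occ_mem * (peH ⟨σ, hσ⟩)⁻¹ = eps Finset.univ univ_mem * _
      rw [eps_conj, eps_mul]
      apply eps_congr
      show σ • ocᶜ = _
      have h2 : σ • oc = mset 6889680 := e
      ext i
      rw [← h2, Finset.mem_symmDiff, mem_smul, mem_smul, Finset.mem_compl]
      simp
    have h2 : mkZ (peH ⟨σ, hσ⟩) * z1 * (mkZ (peH ⟨σ, hσ⟩))⁻¹ = mkZ (eps (mset 6889680) o1_mem.1) := by
      show mkZ (peH ⟨σ, hσ⟩) * mkZ zz * (mkZ (peH ⟨σ, hσ⟩))⁻¹ = _
      rw [← map_mul, ← map_inv, ← map_mul, h1, mkZ_negOne]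
    have hQ := eps_Q9 o1_mem.1 o1_disj
    refine ⟨mkZ (peH ⟨σ, hσ⟩), ⟨?_, ?_⟩, ?_⟩
    · rw [h2]
      exact mkZ_mem_CC (Q9_D8 hQ)
    · rw [mem_QC]
      exact ⟨_, hQ, Subtype.ext h2⟩
    · rw [h2]
      intro h3
      rcases mkZ_eq h3 with h4 | h4
      · have h5 := congrArg Finset.card (eps_inj (h4 : _ = eps ocᶜ occ_mem))
        rw [o1_mem.2, Finset.card_compl, card_oc] at h5
        exact absurd h5 (by decide)
      · have h6 : negOne * zz ∈ Q9 := by rw [← h4]; exact hQ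
        exact negOne_notin_Q9 zz_Q9 h6

end Cfsg.Agent.Lib.LeechSyl
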