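import Cfsg.Agent.Lib.LeechCen6
import Cfsg.Prelude.Def_Classical

/-!
The quadratic space of dimension eight attached to an octad.
-/

set_option autoImplicit false
set_option maxHeartbeats 400000

namespace Cfsg.Agent.Lib.LeechSyl

open Cfsg Cfsg.Agent.Lib.Golay Cfsg.Agent.Lib.LeechMin Cfsg.Agent.Lib.GolayCoset Cfsg.Agent.Lib.LeechXi
  Cfsg.Agent.Lib.LeechTrans Cfsg.Agent.Lib.LeechCo2 Cfsg.Agent.Lib.LeechFrame Cfsg.Agent.Lib.LeechCount
  Cfsg.Agent.Lib.LeechOrder Cfsg.Agent.Lib.LeechMod Cfsg.Agent.Lib.LeechQuot Cfsg.Agent.Lib.LeechChain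
open Subgroup
open scoped Pointwise Matrix

abbrev V8 : Type := Fin 4 ⊕ Fin 4 → ZMod 2

def j8 : Fin 4 ⊕ Fin 4 → Fin 8
  | Sum.inl i => ![4, 5, 6, 7] i
  | Sum.inr i => ![0, 1, 2, 3] i

def k8 : Fin 4 ⊕ Fin 4 → Fin 8
  | Sum.inl i => ![0, 1, 2, 3] i
  | Sum.inr i => ![4, 5, 6, 7] i

theorem j8_surj : ∀ k : Fin 8, ∃ l, j8 l = k := by decide
theorem j8_swap : ∀ k, j8 (Sum.swap k) = k8 k := by decide

theorem kap_zero (b : leechLattice) (hb : b ∈ LO) : kap b 0 = 0 := by
  have h0 : kap b ((0 : leechLattice) + 0) = kap b 0 + kap b 0 := kap_add hb (zero_mem _) (zero_mem _)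
  rw [add_zero, two_kap] at h0
  exact h0

/-- coordinates modulo two -/
def kap8 : LO →+ V8 where
  toFun x := fun k => kap (bV (j8 k)) x
  map_zero' := by
    funext k
    exact kap_zero _ (bV_mem _)
  map_add' x y := by
    funext k
    exact kap_add (bV_mem _) x.2 y.2

theorem kap8_apply (x : LO) (k : Fin 4 ⊕ Fin 4) : kap8 x k = kap (bV (j8 k)) x := rfl

def bW8 (k : Fin 4 ⊕ Fin 4) : LO := ⟨bV (k8 k), bV_mem _⟩

theorem bW8_single : ∀ k l : Fin 4 ⊕ Fin 4, (if ((j8 l : Fin 8) : ℕ) + 4 = k8 k ∨ ((k8 k : Fin 8) : ℕ) + 4 = j8 l then (1 : ZMod 2) else 0) =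
    (Pi.single k 1 : V8) l := by decide

theorem kap8_bW (k : Fin 4 ⊕ Fin 4) : kap8 (bW8 k) = Pi.single k 1 := by
  funext l
  show kap (bV (j8 l)) (bV (k8 k)) = _
  rw [kap_bV, bW8_single]

def lift8 (v : V8) : LO := ∑ k, (v k).val • bW8 k

theorem kap8_lift (v : V8) : kap8 (lift8 v) = v := by
  unfold lift8
  rw [map_sum]
  funext l
  rw [Finset.sum_apply, Finset.sum_eq_single_of_mem l (Finset.mem_univ _)]
  · rw [map_nsmul, kap8_bW, Pi.smul_apply, Pi.single_eq_same, nsmul_eq_mul, mul_one, ZMod.natCast_zmod_val]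
  · intro b _ hb
    rw [map_nsmul, kap8_bW, Pi.smul_apply, Pi.single_eq_of_ne hb.symm, smul_zero]

theorem kap8_surj : Function.Surjective kap8 := fun v => ⟨lift8 v, kap8_lift v⟩

theorem kap8_ker {x : LO} (h : kap8 x = 0) : ∃ y : LO, x = y + y := by
  obtain ⟨y, hy, h1⟩ := half_of_even x.2 (fun k => by
    rw [← kap_zero_iff (bV_mem k) x.2]
    obtain ⟨l, rfl⟩ := j8_surj k
    exact congrFun h l)
  exact ⟨⟨y, hy⟩, Subtype.ext h1⟩

theorem rad8 {x : LO} (h : kap8 x = 0) (z : LO) : kap (x : leechLattice) z = 0 := by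
  obtain ⟨y, rfl⟩ := kap8_ker h
  exact kap_double y.2 z.2

/-- the polar form -/
def B8 (u v : V8) : ZMod 2 := ∑ k, u k * v (Sum.swap k)

theorem B8_kap (x z : LO) : B8 (kap8 x) (kap8 z) = kap (x : leechLattice) z := by
  have h1 : kap8 (x - lift8 (kap8 x)) = 0 := by rw [map_sub, kap8_lift, sub_self]
  have h2 : kap (x : leechLattice) z = kap (lift8 (kap8 x) : leechLattice) z := by
    have h3 := rad8 h1 z
    have h4 : kap ((lift8 (kap8 x) : leechLattice) + ((x - lift8 (kap8 x) : LO) : leechLattice)) z =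
        kap (lift8 (kap8 x) : leechLattice) z + kap ((x - lift8 (kap8 x) : LO) : leechLattice) z :=
      kap_add_left z.2 (lift8 (kap8 x)).2 (x - lift8 (kap8 x)).2
    rw [h3, add_zero] at h4
    rw [← h4]
    congr 1
    rw [AddSubgroup.coe_sub, add_sub_cancel]
  rw [h2]
  let φ : LO →+ ZMod 2 :=
    { toFun := fun w => kap (w : leechLattice) z
      map_zero' := by rw [kap_comm]; exact kap_zero _ z.2
      map_add' := fun a b => kap_add_left z.2 a.2 b.2 }
  have h5 : φ (lift8 (kap8 x)) = ∑ k, kap8 x k * φ (bW8 k) := by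
    unfold lift8
    rw [map_sum]
    apply Finset.sum_congr rfl
    intro k _
    rw [map_nsmul, nsmul_eq_mul, ZMod.natCast_zmod_val]
  have h6 : kap (lift8 (kap8 x) : leechLattice) z = ∑ k, kap8 x k * φ (bW8 k) := h5
  rw [h6]
  unfold B8
  apply Finset.sum_congr rfl
  intro k _
  congr 1
  show kap (bV (j8 (Sum.swap k))) z = kap (bV (k8 k)) z
  rw [j8_swap]

theorem qf_add (u v : V8) : quadFormPlus 4 (ZMod 2) (u + v) = quadFormPlus 4 (ZMod 2) u + quadFormPlus 4 (ZMod 2) v + B8 u v := by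
  unfold quadFormPlus B8
  rw [Fintype.sum_sum_type, ← Finset.sum_add_distrib, ← Finset.sum_add_distrib, ← Finset.sum_add_distrib]
  apply Finset.sum_congr rfl
  intro i _
  rw [Pi.add_apply, Pi.add_apply]
  show _ = u (Sum.inl i) * u (Sum.inr i) + v (Sum.inl i) * v (Sum.inr i) + (u (Sum.inl i) * v (Sum.inr i) + u (Sum.inr i) * v (Sum.inl i))
  ring

/-- the norm modulo two -/
def q8 (x : leechLattice) : ZMod 2 := ((sqNorm (x : GolayPt → ℤ) / 32 : ℤ) : ZMod 2)

theorem q8_add {x y : leechLattice} (hx : x ∈ LO) (hy : y ∈ LO) : q8 (x + y) = q8 x + q8 y + kap x y := by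
  unfold q8 kap
  have h1 := norm32 hx
  have h2 := norm32 hy
  have h3 := dot16 hx hy
  have h4 : sqNorm ((x + y : leechLattice) : GolayPt → ℤ) = sqNorm (x : GolayPt → ℤ) + 2 * dotInt (x : GolayPt → ℤ) (y : GolayPt → ℤ) + sqNorm (y : GolayPt → ℤ) :=
    sqNorm_add _ _
  rw [h4, ← Int.cast_add, ← Int.cast_add]
  congr 1
  omega

theorem q8_double {y : leechLattice} (hy : y ∈ LO) : q8 (y + y) = 0 := by
  unfold q8
  have h1 := norm32 hy
  have h2 : sqNorm ((y + y : leechLattice) : GolayPt → ℤ) = 4 * sqNorm (y : GolayPt → ℤ) := norm_double _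
  rw [h2, ZMod.intCast_zmod_eq_zero_iff_dvd]
  push_cast
  omega

theorem q8_basis : ∀ k : Fin 8, ((sqNorm (vl (bL.getD k [])) / 32 : ℤ) : ZMod 2) = 0 := by decide +kernel

theorem qf_single : ∀ k : Fin 4 ⊕ Fin 4, quadFormPlus 4 (ZMod 2) (Pi.single k 1) = 0 := by decide +kernel

/-- vectors on which the two forms agree -/
def Agree : AddSubmonoid LO where
  carrier := {x | quadFormPlus 4 (ZMod 2) (kap8 x) = q8 x}
  zero_mem' := by
    show quadFormPlus 4 (ZMod 2) (kap8 0) = q8 0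
    have h1 := q8_double (zero_mem LO)
    rw [add_zero] at h1
    rw [map_zero, h1]
    rfl
  add_mem' := fun {a b} ha hb => by
    show quadFormPlus 4 (ZMod 2) (kap8 (a + b)) = q8 ((a : leechLattice) + b)
    rw [map_add, qf_add, q8_add a.2 b.2, B8_kap]
    change quadFormPlus 4 (ZMod 2) (kap8 a) = q8 a at ha
    change quadFormPlus 4 (ZMod 2) (kap8 b) = q8 b at hb
    rw [ha, hb]

theorem q8_kap (x : LO) : quadFormPlus 4 (ZMod 2) (kap8 x) = q8 x := by
  have h1 : kap8 (x - lift8 (kap8 x)) = 0 := by rw [map_sub, kap8_lift, sub_self]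
  obtain ⟨y, hy⟩ := kap8_ker h1
  have h2 : x = lift8 (kap8 x) + (y + y) := by rw [← hy, add_sub_cancel]
  have h3 : x ∈ Agree := by
    rw [h2]
    apply add_mem
    · unfold lift8
      apply sum_mem
      intro k _
      apply nsmul_mem
      show quadFormPlus 4 (ZMod 2) (kap8 (bW8 k)) = q8 (bW8 k : leechLattice)
      rw [kap8_bW, qf_single]
      exact (q8_basis (k8 k)).symm
    · show quadFormPlus 4 (ZMod 2) (kap8 (y + y)) = q8 ((y : leechLattice) + y)
      rw [q8_double y.2, map_add]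
      have : kap8 y + kap8 y = 0 := by
        funext k
        exact two_kap _
      rw [this]
      rfl
  exact h3

/-! ### the action -/

/-- the centraliser of the involution -/
def D8 : Subgroup Co0 := centralizer {zz}

theorem mem_D8 {g : Co0} : g ∈ D8 ↔ g * zz = zz * g := Subgroup.mem_centralizer_singleton_iff

theorem D8_LO (g : D8) {x : leechLattice} (hx : x ∈ LO) : (g : Co0) • x ∈ LO := comm_LO (mem_D8.1 g.2) hx

def act8 (g : D8) : LO →+ LO where
  toFun x := ⟨(g : Co0) • (x : leechLattice), D8_LO g x.2⟩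
  map_zero' := Subtype.ext (by
    have h := smul_add' (g : Co0) (0 : leechLattice) 0
    rw [add_zero] at h
    exact (add_eq_left.1 h.symm))
  map_add' x y := Subtype.ext (smul_add' _ _ _)

theorem act8_coe (g : D8) (x : LO) : ((act8 g x : LO) : leechLattice) = (g : Co0) • (x : leechLattice) := rfl

theorem act8_ker (g : D8) {x : LO} (h : kap8 x = 0) : kap8 (act8 g x) = 0 := by
  obtain ⟨y, rfl⟩ := kap8_ker h
  rw [map_add, map_add]
  funext k
  exact two_kap _

theorem act8_congr (g : D8) {x y : LO} (h : kap8 x = kap8 y) : kap8 (act8 g x) = kap8 (act8 g y) := by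
  have h1 : kap8 (x - y) = 0 := by rw [map_sub, h, sub_self]
  have h2 := act8_ker g h1
  rw [map_sub, map_sub] at h2
  exact sub_eq_zero.1 h2

def mp8 (g : D8) : V8 →ₗ[ZMod 2] V8 :=
  AddMonoidHom.toZModLinearMap 2
    { toFun := fun v => kap8 (act8 g (lift8 v))
      map_zero' := act8_ker g (kap8_lift 0)
      map_add' := fun u v => by
        rw [← map_add kap8, ← map_add (act8 g)]
        apply act8_congr
        rw [map_add, kap8_lift, kap8_lift, kap8_lift] }

theorem mp8_kap (g : D8) (x : LO) : mp8 g (kap8 x) = kap8 (act8 g x) := act8_congr g (kap8_lift _)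

theorem end_ext8 {f g : V8 →ₗ[ZMod 2] V8} (h : ∀ x : LO, f (kap8 x) = g (kap8 x)) : f = g := by
  apply LinearMap.ext
  intro v
  obtain ⟨x, rfl⟩ := kap8_surj v
  exact h x

def rho8E : D8 →* Module.End (ZMod 2) V8 where
  toFun := mp8
  map_one' := by
    apply end_ext8
    intro x
    rw [mp8_kap]
    show kap8 _ = kap8 x
    have : act8 1 x = x := Subtype.ext (one_smul _ _)
    rw [this]
  map_mul' g h := by
    apply end_ext8
    intro x
    rw [mp8_kap]
    show kap8 _ = mp8 g (mp8 h (kap8 x))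
    rw [mp8_kap, mp8_kap]
    have : act8 (g * h) x = act8 g (act8 h x) := Subtype.ext (mul_smul _ _ _)
    rw [this]

noncomputable def rho8G : D8 →* Matrix.GeneralLinearGroup (Fin 4 ⊕ Fin 4) (ZMod 2) :=
  (Matrix.GeneralLinearGroup.toLin (n := Fin 4 ⊕ Fin 4) (R := ZMod 2)).symm.toMonoidHom.comp rho8E.toHomUnits

theorem rho8G_spec (g : D8) (x : LO) :
    ((rho8G g : Matrix.GeneralLinearGroup (Fin 4 ⊕ Fin 4) (ZMod 2)) : Matrix (Fin 4 ⊕ Fin 4) (Fin 4 ⊕ Fin 4) (ZMod 2)) *ᵥ kap8 x =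
      kap8 (act8 g x) := by
  rw [← mp8_kap]
  have h1 : Matrix.GeneralLinearGroup.toLin (rho8G g) = rho8E.toHomUnits g := by
    unfold rho8G
    rw [MonoidHom.comp_apply]
    exact MulEquiv.apply_symm_apply _ _
  have h2 : ((Matrix.GeneralLinearGroup.toLin (rho8G g) : LinearMap.GeneralLinearGroup (ZMod 2) V8) : V8 →ₗ[ZMod 2] V8) = mp8 g := by
    rw [h1]; rfl
  rw [← h2]
  rfl

theorem rho8G_mem (g : D8) : rho8G g ∈ isometryGroup (ZMod 2) (quadFormPlus 4 (ZMod 2)) := by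
  intro v w
  obtain ⟨x, rfl⟩ := kap8_surj v
  show quadFormPlus 4 (ZMod 2) (((rho8G g : Matrix.GeneralLinearGroup (Fin 4 ⊕ Fin 4) (ZMod 2)) :
    Matrix (Fin 4 ⊕ Fin 4) (Fin 4 ⊕ Fin 4) (ZMod 2)) *ᵥ kap8 x) = quadFormPlus 4 (ZMod 2) (kap8 x)
  rw [rho8G_spec, q8_kap, q8_kap]
  show q8 ((g : Co0) • (x : leechLattice)) = _
  unfold q8
  rw [sqNorm_smul]

/-- the representation -/
noncomputable def rho8 : D8 →* isometryGroup (ZMod 2) (quadFormPlus 4 (ZMod 2)) :=
  rho8G.codRestrict _ rho8G_mem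

theorem rho8_spec (g : D8) (x : LO) :
    (((rho8 g : isometryGroup (ZMod 2) (quadFormPlus 4 (ZMod 2))) : Matrix.GeneralLinearGroup (Fin 4 ⊕ Fin 4) (ZMod 2)) : Matrix (Fin 4 ⊕ Fin 4) (Fin 4 ⊕ Fin 4) (ZMod 2)) *ᵥ kap8 x =
      kap8 (act8 g x) := rho8G_spec g x

theorem rho8_ker {g : D8} : rho8 g = 1 ↔ ∀ x : LO, kap8 (act8 g x) = kap8 x := by
  constructor
  · intro h x
    rw [← rho8_spec, h]
    simp
  · intro h
    apply Subtype.ext
    apply Units.ext
    apply Matrix.ext_of_mulVec_single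
    intro i
    rw [← kap8_bW, rho8_spec, h]
    simp

end Cfsg.Agent.Lib.LeechSyl
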