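import Cfsg.Agent.Lib.LeechCen8

/-!
The centraliser of the involution permutes the nonsingular vectors transitively.
-/

set_option autoImplicit false
set_option maxHeartbeats 400000

namespace Cfsg.Agent.Lib.LeechSyl

open Cfsg Cfsg.Agent.Lib.Golay Cfsg.Agent.Lib.LeechMin Cfsg.Agent.Lib.GolayCoset Cfsg.Agent.Lib.LeechXi
  Cfsg.Agent.Lib.LeechTrans Cfsg.Agent.Lib.LeechCo2 Cfsg.Agent.Lib.LeechFrame Cfsg.Agent.Lib.LeechCount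
  Cfsg.Agent.Lib.LeechOrder Cfsg.Agent.Lib.LeechMod Cfsg.Agent.Lib.LeechQuot Cfsg.Agent.Lib.LeechChain
open Subgroup
open scoped Pointwise Matrix

theorem mem_D8_of {g : Co0} {G : List ℤ → List ℤ} (hg : IsL g G) (h1 : ∀ n : Fin 24, G (epl 8241104 (el n)) = epl 8241104 (G (el n))) :
    g ∈ D8 :=
  mem_D8.2 (IsL_ef (hg.mul (fun v l hv => zz_vl hv)) (IsL.mul (fun v l hv => zz_vl hv) hg) h1)

theorem D2_le_D8 : D2 ≤ D8 := inf_le_right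

/-- the matrix of an element -/
def mL8 (G : List ℤ → List ℤ) : Matrix (Fin 4 ⊕ Fin 4) (Fin 4 ⊕ Fin 4) (ZMod 2) := fun i j =>
  ((dotInt (vl (bL.getD (j8 i) [])) (vl (G (bL.getD (k8 j) []))) / 16 : ℤ) : ZMod 2)

theorem rho8_mL (g : D8) {G : List ℤ → List ℤ} (hg : IsL g G) :
    ((rho8G g : Matrix.GeneralLinearGroup (Fin 4 ⊕ Fin 4) (ZMod 2)) : Matrix (Fin 4 ⊕ Fin 4) (Fin 4 ⊕ Fin 4) (ZMod 2)) = mL8 G := by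
  ext i j
  have h1 := congrFun (rho8G_spec g (bW8 j)) i
  rw [kap8_bW, Matrix.mulVec_single_one] at h1
  have h2 : kap8 (act8 g (bW8 j)) i = mL8 G i j := by
    show ((dotInt (vl (bL.getD (j8 i) [])) (((g : Co0) • bV (k8 j) : leechLattice) : GolayPt → ℤ) / 16 : ℤ) : ZMod 2) = _
    rw [hg _ _ (bV_coe (k8 j))]
    rfl
  rw [← h2, ← h1]
  rfl

def wtab8 : List (List ℕ) :=
  [[], [], [], [], [], [], [], [],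
    [], [], [], [], [], [], [], [],
    [], [0, 2, 0, 1, 0, 2], [], [1, 1, 1, 2], [], [2, 1, 2, 0, 0, 2], [], [0, 2, 0, 2],
    [], [2, 0, 2, 2, 0, 2], [], [2, 2, 2], [], [1, 1, 2, 0, 1, 2], [], [2, 0, 1, 1, 1, 2],
    [], [], [0, 0, 1, 2], [2, 2, 0, 2], [], [], [0, 0, 0, 2], [2, 2, 1, 0, 2],
    [], [], [0, 2, 1, 1, 2], [0, 1, 1, 2, 2, 2], [], [], [2, 0, 2, 2], [0, 0, 1, 2, 2, 2],
    [], [1, 0, 2], [1, 1, 1, 0, 2], [], [], [2, 0, 0, 0, 0, 2], [1, 1, 0, 2], [],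
    [], [0, 0, 2, 1, 2, 2], [1, 0, 2, 0, 0, 2], [], [], [0, 2, 0, 1, 1, 2], [2, 2, 2, 0, 2], [],
    [], [], [], [], [0, 1, 2], [2, 1, 1, 1, 2], [1, 2, 1, 2], [0, 2, 1, 2],
    [], [], [], [], [0, 2, 0, 1, 2], [0, 0, 2, 0, 1, 2], [2, 0, 1, 2], [2, 2, 0, 1, 2],
    [], [1, 0, 2, 1, 2], [], [2, 1, 0, 1, 2], [2, 1, 2, 0, 1, 2], [], [1, 2], [],
    [], [0, 2, 2, 0, 2, 2], [], [2, 2, 0, 0, 2], [2, 1, 1, 2], [], [1, 1, 2, 2, 2], [],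
    [], [], [1, 2, 0, 2], [0, 1, 1, 2], [2, 1, 2, 1, 0, 2], [1, 0, 0, 0, 0, 2], [], [],
    [], [], [0, 2, 1, 2, 2], [0, 2, 2, 1, 2], [0, 2, 0, 0, 2], [1, 2, 0, 2, 2], [], [],
    [], [1, 0, 0, 0, 2], [0, 0, 0, 1, 2], [], [0, 0, 0, 0, 2], [], [], [0, 2, 1, 0, 2],
    [], [2, 1, 1, 1, 0, 2], [0, 1, 0, 2, 0, 0, 2], [], [2, 2, 0, 2, 2], [], [], [2, 0, 0, 0, 2],
    [], [], [], [], [], [], [], [],
    [], [2, 2, 2, 0, 0, 2], [0, 0, 2, 0, 2], [1, 1, 2], [0, 1, 1, 1, 2], [1, 2, 1, 0, 1, 2], [0, 0, 1, 1, 1, 2], [2, 2, 2, 0, 1, 2],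
    [], [2, 1, 2, 2], [], [2, 2, 1, 2], [], [2, 0, 0, 2], [], [1, 1, 1, 2, 2, 2],
    [0, 2, 2, 0, 2], [], [2, 2], [], [2, 0, 0, 2, 0, 2], [], [2], [],
    [], [], [2, 2, 0, 1, 0, 2], [0, 2, 0, 0, 2, 2], [], [], [2, 0, 0, 1, 0, 2], [1, 0, 2, 1, 2, 2],
    [0, 2, 1, 0, 1, 2], [2, 0, 1, 0, 2], [], [], [1, 0, 2, 2], [2, 0, 2], [], [],
    [], [2, 0, 2, 0, 0, 2], [0, 2, 0, 0, 0, 2], [], [], [0, 2, 1, 1, 1, 0, 2], [1, 0, 2, 2, 2], [],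
    [0, 2, 1, 1, 0, 2], [], [], [2, 1, 0, 2], [1, 2, 1, 0, 2], [], [], [0, 0, 1, 0, 2],
    [], [], [], [], [1, 2, 2, 2], [0, 1, 2, 2, 2], [2, 2, 1, 2, 0, 0, 2], [0, 2, 2, 0, 0, 2],
    [1, 1, 2, 1, 2], [1, 2, 2], [1, 0, 1, 2], [2, 1, 2], [], [], [], [],
    [], [1, 2, 0, 0, 2], [], [2, 1, 2, 2, 2], [1, 2, 0, 1, 2], [], [2, 0, 0, 2, 2], [],
    [0, 0, 2, 2], [], [2, 2, 1, 2, 2], [], [], [0, 0, 2, 1, 0, 2], [], [0, 0, 2],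
    [], [], [1, 2, 0, 0, 0, 2], [0, 2, 2, 2], [2, 0, 2, 0, 0, 0, 2], [1, 2, 0, 0, 1, 0, 2], [], [],
    [0, 2], [2, 2, 0, 1, 1, 2], [], [], [], [], [0, 2, 2], [1, 0, 1, 0, 2],
    [], [2, 0, 1, 1, 2], [1, 0, 2, 1, 1, 2], [], [2, 2, 0, 0, 0, 2], [], [], [2, 0, 2, 1, 0, 2],
    [2, 1, 1, 0, 2], [], [], [1, 1, 0, 2, 2], [], [0, 1, 0, 2, 2], [0, 1, 0, 2], []]
def cP3 : ℕ := 601835130987901020415411080593441794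
def cP3i : ℕ := 224959276162654597035586110569775169
def A1r : List (List (ZMod 2)) := [[0, 1, 0, 1, 1, 1, 0, 1], [1, 0, 1, 1, 1, 1, 0, 1], [0, 0, 1, 1, 1, 0, 1, 1], [1, 0, 0, 1, 0, 0, 0, 0], [0, 0, 0, 0, 0, 1, 0, 0], [1, 0, 0, 1, 1, 1, 1, 1], [1, 0, 0, 1, 1, 1, 0, 1], [1, 0, 0, 0, 0, 0, 0, 1]]
def A2r : List (List (ZMod 2)) := [[1, 0, 1, 0, 1, 0, 1, 0], [0, 1, 1, 0, 1, 0, 0, 0], [0, 0, 1, 1, 0, 1, 1, 1], [1, 0, 1, 1, 0, 1, 0, 0], [1, 0, 1, 1, 0, 0, 1, 1], [0, 0, 0, 0, 0, 1, 0, 0], [0, 0, 0, 0, 1, 1, 1, 0], [1, 0, 1, 0, 0, 1, 0, 1]]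
def A3r : List (List (ZMod 2)) := [[0, 0, 1, 1, 1, 0, 1, 1], [0, 1, 0, 1, 1, 0, 1, 0], [0, 0, 0, 0, 1, 1, 1, 1], [0, 0, 0, 0, 0, 1, 1, 1], [0, 0, 0, 0, 0, 1, 0, 1], [0, 0, 0, 0, 0, 1, 0, 0], [1, 0, 0, 0, 0, 1, 1, 0], [1, 0, 1, 0, 1, 1, 1, 1]]

theorem inM_cP3 : inM cP3 = true := by decide +kernel
noncomputable def pP3 : M24 := ⟨toPerm cP3, toPerm_mem_M24 inM_cP3⟩
theorem pP3_inv (p : GolayPt) : (pP3 : Equiv.Perm GolayPt) (pt (img cP3i (ix p))) = p := by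
  show toPerm cP3 _ = _
  rw [toPerm_apply (valid_of_inM inM_cP3)]; revert p; decide +kernel
theorem pP3_lt : ∀ p : GolayPt, img cP3i (ix p) < 24 := by decide +kernel
theorem pP3_L : IsL (peH pP3) (pl cP3i) := fun _ _ hv => pl_spec pP3_inv pP3_lt hv

noncomputable def g1 : D8 := ⟨h1, D2_le_D8 h1.2⟩
noncomputable def g2 : D8 := ⟨h2, D2_le_D8 h2.2⟩
noncomputable def g3 : D8 := ⟨peH pP3, mem_D8_of pP3_L (by decide +kernel)⟩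

def mR8 (r : List (List (ZMod 2))) : Matrix (Fin 4 ⊕ Fin 4) (Fin 4 ⊕ Fin 4) (ZMod 2) := fun i j =>
  (r.getD (Sum.elim (fun k : Fin 4 => (k : ℕ)) (fun k : Fin 4 => (k : ℕ) + 4) i) []).getD
    (Sum.elim (fun k : Fin 4 => (k : ℕ)) (fun k : Fin 4 => (k : ℕ) + 4) j) 0

theorem A1_eq : ∀ p : (Fin 4 ⊕ Fin 4) × (Fin 4 ⊕ Fin 4), mL8 G1 p.1 p.2 = mR8 A1r p.1 p.2 := by decide +kernel
theorem A2_eq : ∀ p : (Fin 4 ⊕ Fin 4) × (Fin 4 ⊕ Fin 4), mL8 G2 p.1 p.2 = mR8 A2r p.1 p.2 := by decide +kernel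
theorem A3_eq : ∀ p : (Fin 4 ⊕ Fin 4) × (Fin 4 ⊕ Fin 4), mL8 (pl cP3i) p.1 p.2 = mR8 A3r p.1 p.2 := by decide +kernel

def v08 : V8 := Sum.elim ![0, 0, 0, 1] ![0, 0, 0, 1]

theorem kap8_X : kap8 ⟨X hab, X_LO⟩ = v08 := by
  funext k
  show kap (bV (j8 k)) (X hab) = _
  rw [kap_comm, kap_X_bV]
  revert k
  decide

def evW8 : List ℕ → V8
  | [] => v08
  | 0 :: l => mR8 A1r *ᵥ evW8 l
  | 1 :: l => mR8 A2r *ᵥ evW8 l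
  | _ :: l => mR8 A3r *ᵥ evW8 l

def numV8 (v : V8) : ℕ := (v (Sum.inl 0)).val + 2 * (v (Sum.inl 1)).val + 4 * (v (Sum.inl 2)).val + 8 * (v (Sum.inl 3)).val +
  16 * (v (Sum.inr 0)).val + 32 * (v (Sum.inr 1)).val + 64 * (v (Sum.inr 2)).val + 128 * (v (Sum.inr 3)).val

theorem reach8 : ∀ v : V8, quadFormPlus 4 (ZMod 2) v = 1 → evW8 (wtab8.getD (numV8 v) []) = v := by decide +kernel

theorem ev_mem (l : List ℕ) : ∃ g : D8, kap8 (act8 g ⟨X hab, X_LO⟩) = evW8 l := by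
  have step : ∀ (h : D8) {G : List ℤ → List ℤ} (hG : IsL (h : Co0) G) {A : List (List (ZMod 2))}
      (hA : ∀ p : (Fin 4 ⊕ Fin 4) × (Fin 4 ⊕ Fin 4), mL8 G p.1 p.2 = mR8 A p.1 p.2) {v : V8},
      (∃ g : D8, kap8 (act8 g ⟨X hab, X_LO⟩) = v) → ∃ g : D8, kap8 (act8 g ⟨X hab, X_LO⟩) = mR8 A *ᵥ v := by
    rintro h G hG A hA v ⟨g, rfl⟩
    refine ⟨h * g, ?_⟩
    rw [← show mL8 G = mR8 A from Matrix.ext fun i j => hA (i, j), ← rho8_mL h hG, rho8G_spec]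
    have : act8 (h * g) ⟨X hab, X_LO⟩ = act8 h (act8 g ⟨X hab, X_LO⟩) := Subtype.ext (mul_smul _ _ _)
    rw [this]
  induction l with
  | nil =>
    refine ⟨1, ?_⟩
    have : act8 1 ⟨X hab, X_LO⟩ = ⟨X hab, X_LO⟩ := Subtype.ext (one_smul _ _)
    rw [this, kap8_X]
    rfl
  | cons a l ih =>
    rcases a with _ | _ | a
    · exact step g1 g1_L A1_eq ih
    · exact step g2 g2_L A2_eq ih
    · exact step g3 pP3_L A3_eq ih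

/-- transitivity on nonsingular vectors -/
theorem nonsing_trans (v : V8) (hv : quadFormPlus 4 (ZMod 2) v = 1) : ∃ g : D8, kap8 (act8 g ⟨X hab, X_LO⟩) = v := by
  rw [← reach8 v hv]
  exact ev_mem _

end Cfsg.Agent.Lib.LeechSyl
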