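import Cfsg.Agent.Lib.LeechRank2
import Cfsg.Agent.Lib.LeechTab2

/-!
The suborbits of `Co3` on 11178 vectors: numbers of vectors with given inner products.
-/

set_option autoImplicit false
set_option maxRecDepth 10000

namespace Cfsg.Agent.Lib.LeechChain

open Cfsg Cfsg.Agent.Lib.Golay Cfsg.Agent.Lib.LeechMin Cfsg.Agent.Lib.GolayCoset Cfsg.Agent.Lib.LeechXi
  Cfsg.Agent.Lib.LeechTrans Cfsg.Agent.Lib.LeechCo2 Cfsg.Agent.Lib.LeechFrame Cfsg.Agent.Lib.LeechCount
  Cfsg.Agent.Lib.LeechOrder Cfsg.Agent.Lib.LeechMod Cfsg.Agent.Lib.LeechQuot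
open scoped Pointwise

/-- `(1, -1, 3, (-1) ^ 6, 1 ^ 15)` -/
def yw : GolayPt → ℤ := fun i => if i ∈ mset m3 then -(if i = c0 then -3 else 1) else (if i = c0 then -3 else 1)

theorem coe_yw : (y1232 : GolayPt → ℤ) = yw := coe_y1232

theorem yw_mem : yw ∈ leechLattice := coe_yw ▸ y1232.2

/-- vectors of norm 32, table 5 -/
theorem cls32_5 {C : List (leechLattice × ℤ)} {l1 l2 l3 l4 l5 : List (ℕ × ℤ)} {K M j : ℕ} (ls : List (ℕ × (GolayPt → ℤ)))
    (h : ∀ x : leechLattice, x ∈ cls C (32 : ℕ) ↔ (ls.map fun p => (p.1 : ℤ) * sqNorm (p.2 - (x : GolayPt → ℤ))).sum = j)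
    (hls : ∀ i : GolayPt, look [(8388608, l1), (1, l2), (2, l3), (5276, l4), (8383328, l5)] (ix i) = ls.map fun p => (p.1, p.2 i))
    (hM : bndE (box 5) M [(8388608, l1), (1, l2), (2, l3), (5276, l4), (8383328, l5)]) (hK : 24 * M < K) (hj : j < K) :
    (cls C (32 : ℕ)).ncard = cntE (box 5) K (2 ^ 52) j [(8388608, l1), (1, l2), (2, l3), (5276, l4), (8383328, l5)] mC5 := by
  rw [← mT5_map]
  exact ncard_cls ls hls h mR5_disj mR5_union mT5_ok mT5_nodup card_box5 (by norm_num) hM hK hj (by norm_num)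

/-- vectors of norm 32, table 6 -/
theorem cls32_6 {C : List (leechLattice × ℤ)} {l1 l2 l3 l4 : List (ℕ × ℤ)} {K M j : ℕ} (ls : List (ℕ × (GolayPt → ℤ)))
    (h : ∀ x : leechLattice, x ∈ cls C (32 : ℕ) ↔ (ls.map fun p => (p.1 : ℤ) * sqNorm (p.2 - (x : GolayPt → ℤ))).sum = j)
    (hls : ∀ i : GolayPt, look [(8388608, l1), (1, l2), (10558, l3), (8378048, l4)] (ix i) = ls.map fun p => (p.1, p.2 i))
    (hM : bndE (box 5) M [(8388608, l1), (1, l2), (10558, l3), (8378048, l4)]) (hK : 24 * M < K) (hj : j < K) :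
    (cls C (32 : ℕ)).ncard = cntE (box 5) K (2 ^ 52) j [(8388608, l1), (1, l2), (10558, l3), (8378048, l4)] mC6 := by
  rw [← mT6_map]
  exact ncard_cls ls hls h mR6_disj mR6_union mT6_ok mT6_nodup card_box5 (by norm_num) hM hK hj (by norm_num)

/-- `1100` -/
theorem cls1100 : (cls [(U none, 16), (S hab, 16)] 32).ncard = 1100 := by
  refine Eq.trans (cls32_1 (j := 176) (K := 7489) (M := 312) (l1 := [(2, 0), (2, 4), (1, 5)]) (l2 := [(2, 0), (2, -4), (1, 1)]) (l3 := [(2, 0), (2, 0), (1, 1)])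
    [(2, (0 : GolayPt → ℤ)), (2, ((Pi.single none 4 - Pi.single b0 4 : GolayPt → ℤ))), (1, (cv ∅ {none}))] ?_ (by decide +kernel) (by decide +kernel) (by norm_num) (by norm_num)) (by decide +kernel)
  intro x
  simp only [cls_def, List.forall_mem_cons, List.map_cons, List.map_nil, List.sum_cons, List.sum_nil,
    List.not_mem_nil, false_imp_iff, implies_true, and_true, add_zero, Nat.cast_ofNat, Nat.cast_one, one_mul, sqNorm_zero_sub]
  simp only [coe_S, coe_U]
  have h1 := sqNorm_sub ((Pi.single none 4 - Pi.single b0 4 : GolayPt → ℤ)) (x : GolayPt → ℤ)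
  have n1 : sqNorm ((Pi.single none 4 - Pi.single b0 4 : GolayPt → ℤ)) = 32 := by decide +kernel
  try simp only [dot_add_left, dot_sub_left] at h1
  have h2 := sqNorm_sub (cv ∅ {none}) (x : GolayPt → ℤ)
  have n2 : sqNorm (cv ∅ {none}) = 48 := by decide +kernel
  try simp only [dot_add_left, dot_sub_left] at h2
  try simp only [dot_add_left, dot_sub_left]
  rcases norm_alt' (leechLattice.zero_mem) x with h5 | ⟨p0, hp0, hq0⟩
  · have e0 : sqNorm (x : GolayPt → ℤ) = 0 := by rw [h5]; decide +kernel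
    have e1 : sqNorm (((Pi.single none 4 - Pi.single b0 4 : GolayPt → ℤ)) - (x : GolayPt → ℤ)) = 32 := by rw [h5]; decide +kernel
    have e2 : sqNorm ((cv ∅ {none}) - (x : GolayPt → ℤ)) = 48 := by rw [h5]; decide +kernel
    omega
  rcases norm_alt' ((four_single_sub_mem hab)) x with h5 | ⟨p1, hp1, hq1⟩
  · have e0 : sqNorm (x : GolayPt → ℤ) = 32 := by rw [h5]; decide +kernel
    have e1 : sqNorm (((Pi.single none 4 - Pi.single b0 4 : GolayPt → ℤ)) - (x : GolayPt → ℤ)) = 0 := by rw [h5]; decide +kernel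
    have e2 : sqNorm ((cv ∅ {none}) - (x : GolayPt → ℤ)) = 48 := by rw [h5]; decide +kernel
    omega
  rcases norm_alt' (U_mem none) x with h5 | ⟨p2, hp2, hq2⟩
  · have e0 : sqNorm (x : GolayPt → ℤ) = 48 := by rw [h5]; decide +kernel
    have e1 : sqNorm (((Pi.single none 4 - Pi.single b0 4 : GolayPt → ℤ)) - (x : GolayPt → ℤ)) = 48 := by rw [h5]; decide +kernel
    have e2 : sqNorm ((cv ∅ {none}) - (x : GolayPt → ℤ)) = 0 := by rw [h5]; decide +kernel
    omega
  rw [sqNorm_zero_sub] at hq0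
  omega

/-- `4125` -/
theorem cls4125 : (cls [(U none, 16), (S hab, 0)] 32).ncard = 4125 := by
  refine Eq.trans (cls32_1 (j := 368) (K := 11329) (M := 472) (l1 := [(4, 0), (2, 5), (3, 1)]) (l2 := [(4, 0), (2, 1), (3, 5)]) (l3 := [(4, 0), (2, 1), (3, 1)])
    [(4, (0 : GolayPt → ℤ)), (2, (cv ∅ {none})), (3, (cv ∅ {none} - (Pi.single none 4 - Pi.single b0 4 : GolayPt → ℤ)))] ?_ (by decide +kernel) (by decide +kernel) (by norm_num) (by norm_num)) (by decide +kernel)
  intro x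
  simp only [cls_def, List.forall_mem_cons, List.map_cons, List.map_nil, List.sum_cons, List.sum_nil,
    List.not_mem_nil, false_imp_iff, implies_true, and_true, add_zero, Nat.cast_ofNat, Nat.cast_one, one_mul, sqNorm_zero_sub]
  simp only [coe_S, coe_U]
  have h1 := sqNorm_sub (cv ∅ {none}) (x : GolayPt → ℤ)
  have n1 : sqNorm (cv ∅ {none}) = 48 := by decide +kernel
  try simp only [dot_add_left, dot_sub_left] at h1
  have h2 := sqNorm_sub (cv ∅ {none} - (Pi.single none 4 - Pi.single b0 4 : GolayPt → ℤ)) (x : GolayPt → ℤ)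
  have n2 : sqNorm (cv ∅ {none} - (Pi.single none 4 - Pi.single b0 4 : GolayPt → ℤ)) = 48 := by decide +kernel
  try simp only [dot_add_left, dot_sub_left] at h2
  try simp only [dot_add_left, dot_sub_left]
  rcases norm_alt' (leechLattice.zero_mem) x with h5 | ⟨p0, hp0, hq0⟩
  · have e0 : sqNorm (x : GolayPt → ℤ) = 0 := by rw [h5]; decide +kernel
    have e1 : sqNorm ((cv ∅ {none}) - (x : GolayPt → ℤ)) = 48 := by rw [h5]; decide +kernel
    have e2 : sqNorm ((cv ∅ {none} - (Pi.single none 4 - Pi.single b0 4 : GolayPt → ℤ)) - (x : GolayPt → ℤ)) = 48 := by rw [h5]; decide +kernel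
    omega
  rcases norm_alt' (U_mem none) x with h5 | ⟨p1, hp1, hq1⟩
  · have e0 : sqNorm (x : GolayPt → ℤ) = 48 := by rw [h5]; decide +kernel
    have e1 : sqNorm ((cv ∅ {none}) - (x : GolayPt → ℤ)) = 0 := by rw [h5]; decide +kernel
    have e2 : sqNorm ((cv ∅ {none} - (Pi.single none 4 - Pi.single b0 4 : GolayPt → ℤ)) - (x : GolayPt → ℤ)) = 32 := by rw [h5]; decide +kernel
    omega
  rcases norm_alt' ((leechLattice.sub_mem (U_mem none) (four_single_sub_mem hab))) x with h5 | ⟨p2, hp2, hq2⟩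
  · have e0 : sqNorm (x : GolayPt → ℤ) = 48 := by rw [h5]; decide +kernel
    have e1 : sqNorm ((cv ∅ {none}) - (x : GolayPt → ℤ)) = 32 := by rw [h5]; decide +kernel
    have e2 : sqNorm ((cv ∅ {none} - (Pi.single none 4 - Pi.single b0 4 : GolayPt → ℤ)) - (x : GolayPt → ℤ)) = 0 := by rw [h5]; decide +kernel
    omega
  rw [sqNorm_zero_sub] at hq0
  omega

/-- `352` -/
theorem cls352 : (cls [(U none, 16), (S hab, -8)] 32).ncard = 352 := by
  refine Eq.trans (cls32_1 (j := 176) (K := 6865) (M := 286) (l1 := [(2, 0), (2, 1), (1, 5)]) (l2 := [(2, 0), (2, 5), (1, 1)]) (l3 := [(2, 0), (2, 1), (1, 1)])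
    [(2, (0 : GolayPt → ℤ)), (2, (cv ∅ {none} - (Pi.single none 4 - Pi.single b0 4 : GolayPt → ℤ))), (1, (cv ∅ {none}))] ?_ (by decide +kernel) (by decide +kernel) (by norm_num) (by norm_num)) (by decide +kernel)
  intro x
  simp only [cls_def, List.forall_mem_cons, List.map_cons, List.map_nil, List.sum_cons, List.sum_nil,
    List.not_mem_nil, false_imp_iff, implies_true, and_true, add_zero, Nat.cast_ofNat, Nat.cast_one, one_mul, sqNorm_zero_sub]
  simp only [coe_S, coe_U]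
  have h1 := sqNorm_sub (cv ∅ {none} - (Pi.single none 4 - Pi.single b0 4 : GolayPt → ℤ)) (x : GolayPt → ℤ)
  have n1 : sqNorm (cv ∅ {none} - (Pi.single none 4 - Pi.single b0 4 : GolayPt → ℤ)) = 48 := by decide +kernel
  try simp only [dot_add_left, dot_sub_left] at h1
  have h2 := sqNorm_sub (cv ∅ {none}) (x : GolayPt → ℤ)
  have n2 : sqNorm (cv ∅ {none}) = 48 := by decide +kernel
  try simp only [dot_add_left, dot_sub_left] at h2
  try simp only [dot_add_left, dot_sub_left]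
  rcases norm_alt' (leechLattice.zero_mem) x with h5 | ⟨p0, hp0, hq0⟩
  · have e0 : sqNorm (x : GolayPt → ℤ) = 0 := by rw [h5]; decide +kernel
    have e1 : sqNorm ((cv ∅ {none} - (Pi.single none 4 - Pi.single b0 4 : GolayPt → ℤ)) - (x : GolayPt → ℤ)) = 48 := by rw [h5]; decide +kernel
    have e2 : sqNorm ((cv ∅ {none}) - (x : GolayPt → ℤ)) = 48 := by rw [h5]; decide +kernel
    omega
  rcases norm_alt' ((leechLattice.sub_mem (U_mem none) (four_single_sub_mem hab))) x with h5 | ⟨p1, hp1, hq1⟩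
  · have e0 : sqNorm (x : GolayPt → ℤ) = 48 := by rw [h5]; decide +kernel
    have e1 : sqNorm ((cv ∅ {none} - (Pi.single none 4 - Pi.single b0 4 : GolayPt → ℤ)) - (x : GolayPt → ℤ)) = 0 := by rw [h5]; decide +kernel
    have e2 : sqNorm ((cv ∅ {none}) - (x : GolayPt → ℤ)) = 32 := by rw [h5]; decide +kernel
    omega
  rcases norm_alt' (U_mem none) x with h5 | ⟨p2, hp2, hq2⟩
  · have e0 : sqNorm (x : GolayPt → ℤ) = 48 := by rw [h5]; decide +kernel
    have e1 : sqNorm ((cv ∅ {none} - (Pi.single none 4 - Pi.single b0 4 : GolayPt → ℤ)) - (x : GolayPt → ℤ)) = 32 := by rw [h5]; decide +kernel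
    have e2 : sqNorm ((cv ∅ {none}) - (x : GolayPt → ℤ)) = 0 := by rw [h5]; decide +kernel
    omega
  rw [sqNorm_zero_sub] at hq0
  omega

/-- `2` -/
theorem cls2t : (cls [(S hac, 16), (U none, 24), (S hab, 0)] 32).ncard = 2 := by
  refine Eq.trans (cls32_2 (j := 160) (K := 8209) (M := 342) (l1 := [(1, 0), (2, 5), (1, 1), (1, 4)]) (l2 := [(1, 0), (2, 1), (1, 5), (1, 0)]) (l3 := [(1, 0), (2, 1), (1, 1), (1, -4)]) (l4 := [(1, 0), (2, 1), (1, 1), (1, 0)])
    [(1, (0 : GolayPt → ℤ)), (2, (cv ∅ {none})), (1, (cv ∅ {none} - (Pi.single none 4 - Pi.single b0 4 : GolayPt → ℤ))), (1, ((Pi.single none 4 - Pi.single c0 4 : GolayPt → ℤ)))] ?_ (by decide +kernel) (by decide +kernel) (by norm_num) (by norm_num)) (by decide +kernel)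
  intro x
  simp only [cls_def, List.forall_mem_cons, List.map_cons, List.map_nil, List.sum_cons, List.sum_nil,
    List.not_mem_nil, false_imp_iff, implies_true, and_true, add_zero, Nat.cast_ofNat, Nat.cast_one, one_mul, sqNorm_zero_sub]
  simp only [coe_S, coe_U]
  have h1 := sqNorm_sub (cv ∅ {none}) (x : GolayPt → ℤ)
  have n1 : sqNorm (cv ∅ {none}) = 48 := by decide +kernel
  try simp only [dot_add_left, dot_sub_left] at h1
  have h2 := sqNorm_sub (cv ∅ {none} - (Pi.single none 4 - Pi.single b0 4 : GolayPt → ℤ)) (x : GolayPt → ℤ)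
  have n2 : sqNorm (cv ∅ {none} - (Pi.single none 4 - Pi.single b0 4 : GolayPt → ℤ)) = 48 := by decide +kernel
  try simp only [dot_add_left, dot_sub_left] at h2
  have h3 := sqNorm_sub ((Pi.single none 4 - Pi.single c0 4 : GolayPt → ℤ)) (x : GolayPt → ℤ)
  have n3 : sqNorm ((Pi.single none 4 - Pi.single c0 4 : GolayPt → ℤ)) = 32 := by decide +kernel
  try simp only [dot_add_left, dot_sub_left] at h3
  try simp only [dot_add_left, dot_sub_left]
  rcases norm_alt' (leechLattice.zero_mem) x with h5 | ⟨p0, hp0, hq0⟩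
  · have e0 : sqNorm (x : GolayPt → ℤ) = 0 := by rw [h5]; decide +kernel
    have e1 : sqNorm ((cv ∅ {none}) - (x : GolayPt → ℤ)) = 48 := by rw [h5]; decide +kernel
    have e2 : sqNorm ((cv ∅ {none} - (Pi.single none 4 - Pi.single b0 4 : GolayPt → ℤ)) - (x : GolayPt → ℤ)) = 48 := by rw [h5]; decide +kernel
    have e3 : sqNorm (((Pi.single none 4 - Pi.single c0 4 : GolayPt → ℤ)) - (x : GolayPt → ℤ)) = 32 := by rw [h5]; decide +kernel
    omega
  rcases norm_alt' (U_mem none) x with h5 | ⟨p1, hp1, hq1⟩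
  · have e0 : sqNorm (x : GolayPt → ℤ) = 48 := by rw [h5]; decide +kernel
    have e1 : sqNorm ((cv ∅ {none}) - (x : GolayPt → ℤ)) = 0 := by rw [h5]; decide +kernel
    have e2 : sqNorm ((cv ∅ {none} - (Pi.single none 4 - Pi.single b0 4 : GolayPt → ℤ)) - (x : GolayPt → ℤ)) = 32 := by rw [h5]; decide +kernel
    have e3 : sqNorm (((Pi.single none 4 - Pi.single c0 4 : GolayPt → ℤ)) - (x : GolayPt → ℤ)) = 48 := by rw [h5]; decide +kernel
    omega
  rcases norm_alt' ((leechLattice.sub_mem (U_mem none) (four_single_sub_mem hab))) x with h5 | ⟨p2, hp2, hq2⟩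
  · have e0 : sqNorm (x : GolayPt → ℤ) = 48 := by rw [h5]; decide +kernel
    have e1 : sqNorm ((cv ∅ {none}) - (x : GolayPt → ℤ)) = 32 := by rw [h5]; decide +kernel
    have e2 : sqNorm ((cv ∅ {none} - (Pi.single none 4 - Pi.single b0 4 : GolayPt → ℤ)) - (x : GolayPt → ℤ)) = 0 := by rw [h5]; decide +kernel
    have e3 : sqNorm (((Pi.single none 4 - Pi.single c0 4 : GolayPt → ℤ)) - (x : GolayPt → ℤ)) = 80 := by rw [h5]; decide +kernel
    omega
  rcases norm_alt' ((four_single_sub_mem hac)) x with h5 | ⟨p3, hp3, hq3⟩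
  · have e0 : sqNorm (x : GolayPt → ℤ) = 32 := by rw [h5]; decide +kernel
    have e1 : sqNorm ((cv ∅ {none}) - (x : GolayPt → ℤ)) = 48 := by rw [h5]; decide +kernel
    have e2 : sqNorm ((cv ∅ {none} - (Pi.single none 4 - Pi.single b0 4 : GolayPt → ℤ)) - (x : GolayPt → ℤ)) = 80 := by rw [h5]; decide +kernel
    have e3 : sqNorm (((Pi.single none 4 - Pi.single c0 4 : GolayPt → ℤ)) - (x : GolayPt → ℤ)) = 0 := by rw [h5]; decide +kernel
    omega
  rw [sqNorm_zero_sub] at hq0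
  omega

/-- `8` -/
theorem cls8m : (cls [(O2 (mset m1) oct1.1, 0), (U none, 24), (S hab, 0)] 32).ncard = 8 := by
  refine Eq.trans (cls32_6 (j := 128) (K := 6265) (M := 261) (l1 := [(1, 0), (1, 5), (1, 1), (1, 5)]) (l2 := [(1, 0), (1, 1), (1, 5), (1, 1)]) (l3 := [(1, 0), (1, 1), (1, 1), (1, -1)]) (l4 := [(1, 0), (1, 1), (1, 1), (1, 1)])
    [(1, (0 : GolayPt → ℤ)), (1, (cv ∅ {none})), (1, (cv ∅ {none} - (Pi.single none 4 - Pi.single b0 4 : GolayPt → ℤ))), (1, (cv ∅ {none} - (fun i => 2 * chi (mset m1) i : GolayPt → ℤ)))] ?_ (by decide +kernel) (by decide +kernel) (by norm_num) (by norm_num)) (by decide +kernel)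
  intro x
  simp only [cls_def, List.forall_mem_cons, List.map_cons, List.map_nil, List.sum_cons, List.sum_nil,
    List.not_mem_nil, false_imp_iff, implies_true, and_true, add_zero, Nat.cast_ofNat, Nat.cast_one, one_mul, sqNorm_zero_sub]
  simp only [coe_O, coe_S, coe_U]
  have h1 := sqNorm_sub (cv ∅ {none}) (x : GolayPt → ℤ)
  have n1 : sqNorm (cv ∅ {none}) = 48 := by decide +kernel
  try simp only [dot_add_left, dot_sub_left] at h1
  have h2 := sqNorm_sub (cv ∅ {none} - (Pi.single none 4 - Pi.single b0 4 : GolayPt → ℤ)) (x : GolayPt → ℤ)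
  have n2 : sqNorm (cv ∅ {none} - (Pi.single none 4 - Pi.single b0 4 : GolayPt → ℤ)) = 48 := by decide +kernel
  try simp only [dot_add_left, dot_sub_left] at h2
  have h3 := sqNorm_sub (cv ∅ {none} - (fun i => 2 * chi (mset m1) i : GolayPt → ℤ)) (x : GolayPt → ℤ)
  have n3 : sqNorm (cv ∅ {none} - (fun i => 2 * chi (mset m1) i : GolayPt → ℤ)) = 48 := by decide +kernel
  try simp only [dot_add_left, dot_sub_left] at h3
  try simp only [dot_add_left, dot_sub_left]
  rcases norm_alt' (leechLattice.zero_mem) x with h5 | ⟨p0, hp0, hq0⟩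
  · have e0 : sqNorm (x : GolayPt → ℤ) = 0 := by rw [h5]; decide +kernel
    have e1 : sqNorm ((cv ∅ {none}) - (x : GolayPt → ℤ)) = 48 := by rw [h5]; decide +kernel
    have e2 : sqNorm ((cv ∅ {none} - (Pi.single none 4 - Pi.single b0 4 : GolayPt → ℤ)) - (x : GolayPt → ℤ)) = 48 := by rw [h5]; decide +kernel
    have e3 : sqNorm ((cv ∅ {none} - (fun i => 2 * chi (mset m1) i : GolayPt → ℤ)) - (x : GolayPt → ℤ)) = 48 := by rw [h5]; decide +kernel
    omega
  rcases norm_alt' (U_mem none) x with h5 | ⟨p1, hp1, hq1⟩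
  · have e0 : sqNorm (x : GolayPt → ℤ) = 48 := by rw [h5]; decide +kernel
    have e1 : sqNorm ((cv ∅ {none}) - (x : GolayPt → ℤ)) = 0 := by rw [h5]; decide +kernel
    have e2 : sqNorm ((cv ∅ {none} - (Pi.single none 4 - Pi.single b0 4 : GolayPt → ℤ)) - (x : GolayPt → ℤ)) = 32 := by rw [h5]; decide +kernel
    have e3 : sqNorm ((cv ∅ {none} - (fun i => 2 * chi (mset m1) i : GolayPt → ℤ)) - (x : GolayPt → ℤ)) = 32 := by rw [h5]; decide +kernel
    omega
  rcases norm_alt' ((leechLattice.sub_mem (U_mem none) (four_single_sub_mem hab))) x with h5 | ⟨p2, hp2, hq2⟩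
  · have e0 : sqNorm (x : GolayPt → ℤ) = 48 := by rw [h5]; decide +kernel
    have e1 : sqNorm ((cv ∅ {none}) - (x : GolayPt → ℤ)) = 32 := by rw [h5]; decide +kernel
    have e2 : sqNorm ((cv ∅ {none} - (Pi.single none 4 - Pi.single b0 4 : GolayPt → ℤ)) - (x : GolayPt → ℤ)) = 0 := by rw [h5]; decide +kernel
    have e3 : sqNorm ((cv ∅ {none} - (fun i => 2 * chi (mset m1) i : GolayPt → ℤ)) - (x : GolayPt → ℤ)) = 64 := by rw [h5]; decide +kernel
    omega
  rcases norm_alt' ((leechLattice.sub_mem (U_mem none) (two_chi_mem oct1.1))) x with h5 | ⟨p3, hp3, hq3⟩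
  · have e0 : sqNorm (x : GolayPt → ℤ) = 48 := by rw [h5]; decide +kernel
    have e1 : sqNorm ((cv ∅ {none}) - (x : GolayPt → ℤ)) = 32 := by rw [h5]; decide +kernel
    have e2 : sqNorm ((cv ∅ {none} - (Pi.single none 4 - Pi.single b0 4 : GolayPt → ℤ)) - (x : GolayPt → ℤ)) = 64 := by rw [h5]; decide +kernel
    have e3 : sqNorm ((cv ∅ {none} - (fun i => 2 * chi (mset m1) i : GolayPt → ℤ)) - (x : GolayPt → ℤ)) = 0 := by rw [h5]; decide +kernel
    omega
  rw [sqNorm_zero_sub] at hq0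
  omega

/-- `50` -/
theorem cls50n : (cls [(O2 (mset m3) oct3.1, 8), (U none, 24), (S hab, 0)] 32).ncard = 50 := by
  refine Eq.trans (cls32_5 (j := 192) (K := 9337) (M := 389) (l1 := [(1, 0), (1, 5), (2, 1), (2, 1)]) (l2 := [(1, 0), (1, 1), (2, 5), (2, 3)]) (l3 := [(1, 0), (1, 1), (2, 1), (2, -1)]) (l4 := [(1, 0), (1, 1), (2, 1), (2, -1)]) (l5 := [(1, 0), (1, 1), (2, 1), (2, 1)])
    [(1, (0 : GolayPt → ℤ)), (1, (cv ∅ {none})), (2, (cv ∅ {none} - (Pi.single none 4 - Pi.single b0 4 : GolayPt → ℤ))), (2, (cv ∅ {none} - (Pi.single none 4 - Pi.single b0 4 : GolayPt → ℤ) - (fun i => 2 * chi (mset m3) i : GolayPt → ℤ)))] ?_ (by decide +kernel) (by decide +kernel) (by norm_num) (by norm_num)) (by decide +kernel)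
  intro x
  simp only [cls_def, List.forall_mem_cons, List.map_cons, List.map_nil, List.sum_cons, List.sum_nil,
    List.not_mem_nil, false_imp_iff, implies_true, and_true, add_zero, Nat.cast_ofNat, Nat.cast_one, one_mul, sqNorm_zero_sub]
  simp only [coe_O, coe_S, coe_U]
  have h1 := sqNorm_sub (cv ∅ {none}) (x : GolayPt → ℤ)
  have n1 : sqNorm (cv ∅ {none}) = 48 := by decide +kernel
  try simp only [dot_add_left, dot_sub_left] at h1
  have h2 := sqNorm_sub (cv ∅ {none} - (Pi.single none 4 - Pi.single b0 4 : GolayPt → ℤ)) (x : GolayPt → ℤ)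
  have n2 : sqNorm (cv ∅ {none} - (Pi.single none 4 - Pi.single b0 4 : GolayPt → ℤ)) = 48 := by decide +kernel
  try simp only [dot_add_left, dot_sub_left] at h2
  have h3 := sqNorm_sub (cv ∅ {none} - (Pi.single none 4 - Pi.single b0 4 : GolayPt → ℤ) - (fun i => 2 * chi (mset m3) i : GolayPt → ℤ)) (x : GolayPt → ℤ)
  have n3 : sqNorm (cv ∅ {none} - (Pi.single none 4 - Pi.single b0 4 : GolayPt → ℤ) - (fun i => 2 * chi (mset m3) i : GolayPt → ℤ)) = 32 := by decide +kernel
  try simp only [dot_add_left, dot_sub_left] at h3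
  try simp only [dot_add_left, dot_sub_left]
  rcases norm_alt' (leechLattice.zero_mem) x with h5 | ⟨p0, hp0, hq0⟩
  · have e0 : sqNorm (x : GolayPt → ℤ) = 0 := by rw [h5]; decide +kernel
    have e1 : sqNorm ((cv ∅ {none}) - (x : GolayPt → ℤ)) = 48 := by rw [h5]; decide +kernel
    have e2 : sqNorm ((cv ∅ {none} - (Pi.single none 4 - Pi.single b0 4 : GolayPt → ℤ)) - (x : GolayPt → ℤ)) = 48 := by rw [h5]; decide +kernel
    have e3 : sqNorm ((cv ∅ {none} - (Pi.single none 4 - Pi.single b0 4 : GolayPt → ℤ) - (fun i => 2 * chi (mset m3) i : GolayPt → ℤ)) - (x : GolayPt → ℤ)) = 32 := by rw [h5]; decide +kernel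
    omega
  rcases norm_alt' (U_mem none) x with h5 | ⟨p1, hp1, hq1⟩
  · have e0 : sqNorm (x : GolayPt → ℤ) = 48 := by rw [h5]; decide +kernel
    have e1 : sqNorm ((cv ∅ {none}) - (x : GolayPt → ℤ)) = 0 := by rw [h5]; decide +kernel
    have e2 : sqNorm ((cv ∅ {none} - (Pi.single none 4 - Pi.single b0 4 : GolayPt → ℤ)) - (x : GolayPt → ℤ)) = 32 := by rw [h5]; decide +kernel
    have e3 : sqNorm ((cv ∅ {none} - (Pi.single none 4 - Pi.single b0 4 : GolayPt → ℤ) - (fun i => 2 * chi (mset m3) i : GolayPt → ℤ)) - (x : GolayPt → ℤ)) = 48 := by rw [h5]; decide +kernel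
    omega
  rcases norm_alt' ((leechLattice.sub_mem (U_mem none) (four_single_sub_mem hab))) x with h5 | ⟨p2, hp2, hq2⟩
  · have e0 : sqNorm (x : GolayPt → ℤ) = 48 := by rw [h5]; decide +kernel
    have e1 : sqNorm ((cv ∅ {none}) - (x : GolayPt → ℤ)) = 32 := by rw [h5]; decide +kernel
    have e2 : sqNorm ((cv ∅ {none} - (Pi.single none 4 - Pi.single b0 4 : GolayPt → ℤ)) - (x : GolayPt → ℤ)) = 0 := by rw [h5]; decide +kernel
    have e3 : sqNorm ((cv ∅ {none} - (Pi.single none 4 - Pi.single b0 4 : GolayPt → ℤ) - (fun i => 2 * chi (mset m3) i : GolayPt → ℤ)) - (x : GolayPt → ℤ)) = 32 := by rw [h5]; decide +kernel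
    omega
  rcases norm_alt' ((leechLattice.sub_mem ((leechLattice.sub_mem (U_mem none) (four_single_sub_mem hab))) (two_chi_mem oct3.1))) x with h5 | ⟨p3, hp3, hq3⟩
  · have e0 : sqNorm (x : GolayPt → ℤ) = 32 := by rw [h5]; decide +kernel
    have e1 : sqNorm ((cv ∅ {none}) - (x : GolayPt → ℤ)) = 48 := by rw [h5]; decide +kernel
    have e2 : sqNorm ((cv ∅ {none} - (Pi.single none 4 - Pi.single b0 4 : GolayPt → ℤ)) - (x : GolayPt → ℤ)) = 32 := by rw [h5]; decide +kernel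
    have e3 : sqNorm ((cv ∅ {none} - (Pi.single none 4 - Pi.single b0 4 : GolayPt → ℤ) - (fun i => 2 * chi (mset m3) i : GolayPt → ℤ)) - (x : GolayPt → ℤ)) = 0 := by rw [h5]; decide +kernel
    omega
  rw [sqNorm_zero_sub] at hq0
  omega

/-- `22` -/
theorem cls22w : (cls [(y1232, 0), (U none, 24), (S hab, 0)] 32).ncard = 22 := by
  refine Eq.trans (cls32_5 (j := 160) (K := 7753) (M := 323) (l1 := [(1, 0), (1, 5), (1, 1), (2, 4)]) (l2 := [(1, 0), (1, 1), (1, 5), (2, 2)]) (l3 := [(1, 0), (1, 1), (1, 1), (2, -2)]) (l4 := [(1, 0), (1, 1), (1, 1), (2, 2)]) (l5 := [(1, 0), (1, 1), (1, 1), (2, 0)])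
    [(1, (0 : GolayPt → ℤ)), (1, (cv ∅ {none})), (1, (cv ∅ {none} - (Pi.single none 4 - Pi.single b0 4 : GolayPt → ℤ))), (2, (cv ∅ {none} - (yw : GolayPt → ℤ)))] ?_ (by decide +kernel) (by decide +kernel) (by norm_num) (by norm_num)) (by decide +kernel)
  intro x
  simp only [cls_def, List.forall_mem_cons, List.map_cons, List.map_nil, List.sum_cons, List.sum_nil,
    List.not_mem_nil, false_imp_iff, implies_true, and_true, add_zero, Nat.cast_ofNat, Nat.cast_one, one_mul, sqNorm_zero_sub]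
  simp only [coe_S, coe_U, coe_yw]
  have h1 := sqNorm_sub (cv ∅ {none}) (x : GolayPt → ℤ)
  have n1 : sqNorm (cv ∅ {none}) = 48 := by decide +kernel
  try simp only [dot_add_left, dot_sub_left] at h1
  have h2 := sqNorm_sub (cv ∅ {none} - (Pi.single none 4 - Pi.single b0 4 : GolayPt → ℤ)) (x : GolayPt → ℤ)
  have n2 : sqNorm (cv ∅ {none} - (Pi.single none 4 - Pi.single b0 4 : GolayPt → ℤ)) = 48 := by decide +kernel
  try simp only [dot_add_left, dot_sub_left] at h2
  have h3 := sqNorm_sub (cv ∅ {none} - (yw : GolayPt → ℤ)) (x : GolayPt → ℤ)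
  have n3 : sqNorm (cv ∅ {none} - (yw : GolayPt → ℤ)) = 48 := by decide +kernel
  try simp only [dot_add_left, dot_sub_left] at h3
  try simp only [dot_add_left, dot_sub_left]
  rcases norm_alt' (leechLattice.zero_mem) x with h5 | ⟨p0, hp0, hq0⟩
  · have e0 : sqNorm (x : GolayPt → ℤ) = 0 := by rw [h5]; decide +kernel
    have e1 : sqNorm ((cv ∅ {none}) - (x : GolayPt → ℤ)) = 48 := by rw [h5]; decide +kernel
    have e2 : sqNorm ((cv ∅ {none} - (Pi.single none 4 - Pi.single b0 4 : GolayPt → ℤ)) - (x : GolayPt → ℤ)) = 48 := by rw [h5]; decide +kernel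
    have e3 : sqNorm ((cv ∅ {none} - (yw : GolayPt → ℤ)) - (x : GolayPt → ℤ)) = 48 := by rw [h5]; decide +kernel
    omega
  rcases norm_alt' (U_mem none) x with h5 | ⟨p1, hp1, hq1⟩
  · have e0 : sqNorm (x : GolayPt → ℤ) = 48 := by rw [h5]; decide +kernel
    have e1 : sqNorm ((cv ∅ {none}) - (x : GolayPt → ℤ)) = 0 := by rw [h5]; decide +kernel
    have e2 : sqNorm ((cv ∅ {none} - (Pi.single none 4 - Pi.single b0 4 : GolayPt → ℤ)) - (x : GolayPt → ℤ)) = 32 := by rw [h5]; decide +kernel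
    have e3 : sqNorm ((cv ∅ {none} - (yw : GolayPt → ℤ)) - (x : GolayPt → ℤ)) = 32 := by rw [h5]; decide +kernel
    omega
  rcases norm_alt' ((leechLattice.sub_mem (U_mem none) (four_single_sub_mem hab))) x with h5 | ⟨p2, hp2, hq2⟩
  · have e0 : sqNorm (x : GolayPt → ℤ) = 48 := by rw [h5]; decide +kernel
    have e1 : sqNorm ((cv ∅ {none}) - (x : GolayPt → ℤ)) = 32 := by rw [h5]; decide +kernel
    have e2 : sqNorm ((cv ∅ {none} - (Pi.single none 4 - Pi.single b0 4 : GolayPt → ℤ)) - (x : GolayPt → ℤ)) = 0 := by rw [h5]; decide +kernel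
    have e3 : sqNorm ((cv ∅ {none} - (yw : GolayPt → ℤ)) - (x : GolayPt → ℤ)) = 48 := by rw [h5]; decide +kernel
    omega
  rcases norm_alt' ((leechLattice.sub_mem (U_mem none) yw_mem)) x with h5 | ⟨p3, hp3, hq3⟩
  · have e0 : sqNorm (x : GolayPt → ℤ) = 48 := by rw [h5]; decide +kernel
    have e1 : sqNorm ((cv ∅ {none}) - (x : GolayPt → ℤ)) = 32 := by rw [h5]; decide +kernel
    have e2 : sqNorm ((cv ∅ {none} - (Pi.single none 4 - Pi.single b0 4 : GolayPt → ℤ)) - (x : GolayPt → ℤ)) = 48 := by rw [h5]; decide +kernel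
    have e3 : sqNorm ((cv ∅ {none} - (yw : GolayPt → ℤ)) - (x : GolayPt → ℤ)) = 0 := by rw [h5]; decide +kernel
    omega
  rw [sqNorm_zero_sub] at hq0
  omega


end Cfsg.Agent.Lib.LeechChain
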