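import Cfsg.Agent.Lib.LeechTrans
import Cfsg.Agent.Lib.LeechGen

/-!
The Leech lattice modulo 2 is a faithful irreducible module for `Co0` modulo its centre (helper89).
-/

set_option autoImplicit false
set_option linter.all false

namespace Cfsg.Agent.Lib.LeechIrr

open Cfsg Cfsg.Agent.Lib.Golay Cfsg.Agent.Lib.LeechMin Cfsg.Agent.Lib.LeechTrans
open scoped Pointwise

/-- invariant subgroups between `2Λ` and `Λ` -/
structure Good (M : AddSubgroup (GolayPt → ℤ)) : Prop where
  two : ∀ v ∈ leechLattice, (2 : ℤ) • v ∈ M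
  le : M ≤ leechLattice
  inv : ∀ g : ↥Co0, ∀ v : ↥leechLattice, (v : GolayPt → ℤ) ∈ M → ((g • v : ↥leechLattice) : GolayPt → ℤ) ∈ M

variable {M : AddSubgroup (GolayPt → ℤ)}

theorem Good.of_E (hM : Good M) {v w : leechLattice} (h : E v w) (hv : (v : GolayPt → ℤ) ∈ M) :
    (w : GolayPt → ℤ) ∈ M := by
  obtain ⟨g, rfl⟩ := h
  exact hM.inv g v hv

theorem Good.restrict (hM : Good M) {v : GolayPt → ℤ} (hv : v ∈ M) {A : Finset GolayPt} (hA : A ∈ Sup) :
    (fun i => 2 * (chi A i * v i)) ∈ M := by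
  have h1 := hM.of_E (E_mono M24.one_mem hA ⟨v, hM.le hv⟩) hv
  have h2 := M.sub_mem hv h1
  have h3 : v - signedPerm 1 A v = fun i => 2 * (chi A i * v i) := by
    funext i
    rw [Pi.sub_apply, signedPerm_apply]
    show v i - (1 - 2 * chi A i) * v i = _
    ring
  rw [← h3]
  exact h2

theorem four_mem {y : GolayPt → ℤ} (h : (2 : ℤ) ∣ ∑ i, y i) : (fun i => 4 * y i) ∈ leechLattice :=
  LeechGen.S_le (LeechGen.four_mem y h)

/-- an odd vector gives everything -/
theorem Good.odd (hM : Good M) {v : leechLattice} (hv : (v : GolayPt → ℤ) ∈ M) {i : GolayPt}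
    (hi : ¬ (2 : ℤ) ∣ (v : GolayPt → ℤ) i) : M = leechLattice := by
  obtain ⟨w, hw, hw4⟩ := exists_normal hi
  have hwM := hM.of_E hw hv
  have hO := bas_octad 0 (by norm_num)
  have hO' := bas_octad 8 (by norm_num)
  have h1 := hM.restrict (hM.restrict hwM hO.1) hO'.1
  have hcard : (mset (bas 0) ∩ mset (bas 8)).card = 2 := by
    rw [← mset_and, card_mset]; decide +kernel
  obtain ⟨a, b, hab, hs⟩ := Finset.card_eq_two.1 hcard
  choose k hk using hw4
  have hmin : (Pi.single a 4 + Pi.single b 4 : GolayPt → ℤ) ∈ M := by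
    have h2 : (2 : ℤ) • ((8 : ℤ) • (fun i => chi (mset (bas 0) ∩ mset (bas 8)) i * k i)) ∈ M :=
      hM.two _ (LeechMod.eight_smul_mem _)
    have h3 := M.sub_mem h1 h2
    have hchi : ∀ i, chi (mset (bas 8)) i * chi (mset (bas 0)) i = chi (mset (bas 0) ∩ mset (bas 8)) i := by
      intro i
      by_cases h5 : i ∈ mset (bas 0) <;> by_cases h6 : i ∈ mset (bas 8) <;> simp only [chi, Finset.mem_inter, h5, h6] <;> norm_num
    have h4 : (fun i => 2 * (chi (mset (bas 8)) i * (2 * (chi (mset (bas 0)) i * (w : GolayPt → ℤ) i)))) -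
        (2 : ℤ) • ((8 : ℤ) • (fun i => chi (mset (bas 0) ∩ mset (bas 8)) i * k i)) =
        (Pi.single a 4 + Pi.single b 4 : GolayPt → ℤ) := by
      funext i
      have h5 := hk i
      have h6 : (w : GolayPt → ℤ) i = 1 + 4 * k i := by omega
      simp only [Pi.sub_apply, Pi.smul_apply, smul_eq_mul, Pi.add_apply]
      rw [h6]
      have h7 : 2 * (chi (mset (bas 8)) i * (2 * (chi (mset (bas 0)) i * (1 + 4 * k i)))) -
          2 * (8 * (chi (mset (bas 0) ∩ mset (bas 8)) i * k i)) = 4 * chi (mset (bas 0) ∩ mset (bas 8)) i := by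
        rw [← hchi i]; ring
      rw [h7, hs]
      by_cases h8 : i = a
      · subst h8
        rw [Pi.single_eq_same, Pi.single_eq_of_ne hab]
        simp [chi]
      · by_cases h9 : i = b
        · subst h9
          rw [Pi.single_eq_same, Pi.single_eq_of_ne h8]
          simp [chi]
        · rw [Pi.single_eq_of_ne h8, Pi.single_eq_of_ne h9]
          simp [chi, h8, h9]
    rw [← h4]
    exact h3
  have hn : sqNorm (Pi.single a 4 + Pi.single b 4 : GolayPt → ℤ) = 32 := (LeechGen.pair_add_min hab).2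
  apply le_antisymm hM.le
  rw [← LeechGen.closure_min, AddSubgroup.closure_le]
  rintro x ⟨hx, hx32⟩
  have h0 : (⟨_, hM.le hmin⟩ : leechLattice) ≠ 0 := by
    intro h
    have h1 : (Pi.single a 4 + Pi.single b 4 : GolayPt → ℤ) = 0 := congrArg Subtype.val h
    rw [h1] at hn
    simp [sqNorm] at hn
  obtain ⟨g, hg⟩ := transitive (v := ⟨_, hM.le hmin⟩) (w := ⟨x, hx⟩) h0 (by show sqNorm _ ≤ 64; rw [hn]; norm_num)
    (by show sqNorm _ = sqNorm _; rw [hn, hx32])
  have h2 := hM.inv g ⟨_, hM.le hmin⟩ hmin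
  rw [hg] at h2
  exact h2

/-- a short vector gives everything -/
theorem Good.short (hM : Good M) {v : GolayPt → ℤ} (hv : v ∈ M) (h0 : v ≠ 0) (hn : sqNorm v ≤ 64) :
    M = leechLattice := by
  obtain ⟨w, i, hw, hi⟩ := exists_odd (v := ⟨v, hM.le hv⟩) (fun h => h0 (congrArg Subtype.val h)) hn
  exact hM.odd (hM.of_E hw hv) hi

theorem sqNorm_four_chi_sub (t : Finset GolayPt) (p : GolayPt) (hp : p ∈ t) :
    sqNorm (fun i => 4 * chi t i - 8 * chi {p} i) = 16 * t.card := by
  have h : ∀ i, (4 * chi t i - 8 * chi {p} i) ^ 2 = 16 * chi t i := by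
    intro i
    by_cases h1 : i = p
    · subst h1
      simp [chi, hp]
    · have : chi {p} i = 0 := by simp [chi, h1]
      rw [this]
      rcases chi_cases t i with ⟨_, h6⟩ | ⟨_, h6⟩ <;> rw [h6] <;> norm_num
  unfold sqNorm
  rw [Finset.sum_congr rfl (fun i _ => h i), ← Finset.mul_sum, sum_chi]

theorem sqNorm_four_chi (t : Finset GolayPt) : sqNorm (fun i => 4 * chi t i) = 16 * t.card := by
  have h : ∀ i, (4 * chi t i) ^ 2 = 16 * chi t i := by
    intro i
    rcases chi_cases t i with ⟨_, h6⟩ | ⟨_, h6⟩ <;> rw [h6] <;> norm_num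
  unfold sqNorm
  rw [Finset.sum_congr rfl (fun i _ => h i), ← Finset.mul_sum, sum_chi]

theorem sqNorm_eight_chi (p : GolayPt) : sqNorm (fun i => 8 * chi {p} i) = 64 := by
  have h : ∀ i, (8 * chi {p} i) ^ 2 = 64 * chi {p} i := by
    intro i
    rcases chi_cases {p} i with ⟨_, h6⟩ | ⟨_, h6⟩ <;> rw [h6] <;> norm_num
  unfold sqNorm
  rw [Finset.sum_congr rfl (fun i _ => h i), ← Finset.mul_sum, sum_chi]
  simp

/-- vectors with all coordinates divisible by 4 -/
theorem Good.four (hM : Good M) {v : GolayPt → ℤ} (hv : v ∈ M) (h4 : ∀ i, (4 : ℤ) ∣ v i)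
    (h2 : ¬ ∃ w ∈ leechLattice, v = (2 : ℤ) • w) : M = leechLattice := by
  choose y hy using h4
  -- the sum is divisible by 8
  have hsum : (2 : ℤ) ∣ ∑ i, y i := by
    obtain ⟨m, A, hA, h5, h6⟩ := (mem_lattice_iff' v).1 (hM.le hv)
    have hm : (2 : ℤ) ∣ m := by
      have h7 := h5 none
      rw [hy none] at h7
      rcases chi_cases A none with ⟨_, h8⟩ | ⟨_, h8⟩ <;> rw [h8] at h7 <;> omega
    obtain ⟨n, hn⟩ := hm
    have h7 : ∑ i, v i = 4 * ∑ i, y i := by
      rw [Finset.mul_sum]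
      exact Finset.sum_congr rfl (fun i _ => hy i)
    rw [h7] at h6
    omega
  -- the leader
  set s := Finset.univ.filter fun i => ¬ (2 : ℤ) ∣ y i with hs
  obtain ⟨t, ht4, hC⟩ := GolayCoset.exists_leader s
  set C := symmDiff s t with hCdef
  have hst : s = symmDiff C t := by rw [hCdef, symmDiff_symmDiff_cancel_right]
  have hk : ∀ i, ∃ k : ℤ, y i = chi C i + chi t i + 2 * k := by
    intro i
    have h5 : (2 : ℤ) ∣ y i - chi s i := by
      by_cases h6 : i ∈ s
      · have h7 : chi s i = 1 := by simp [chi, h6]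
        have h8 : ¬ (2 : ℤ) ∣ y i := (Finset.mem_filter.1 h6).2
        rw [h7]; omega
      · have h7 : chi s i = 0 := by simp [chi, h6]
        have h8 : (2 : ℤ) ∣ y i := by
          by_contra h9
          exact h6 (Finset.mem_filter.2 ⟨Finset.mem_univ _, h9⟩)
        rw [h7]; omega
    have h6 := LeechGen.chi_symmDiff C t i
    rw [← hst] at h6
    obtain ⟨k, hk⟩ := h5
    exact ⟨k - chi (C ∩ t) i, by omega⟩
  choose k hk using hk
  have hv' : ∀ i, v i = 4 * chi C i + 4 * chi t i + 8 * k i := by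
    intro i
    rw [hy i, hk i]; ring
  have hC2 := LeechGen.two_chi_mem_lattice hC
  -- subtracting twice a lattice vector
  have hsub : ∀ z : GolayPt → ℤ, (∃ u : GolayPt → ℤ, (2 : ℤ) ∣ ∑ i, u i ∧ ∀ i, v i = z i + 4 * chi C i + 8 * u i) →
      z ∈ M ∧ z ≠ 0 := by
    rintro z ⟨u, hu, hvz⟩
    have h5 := leechLattice.add_mem hC2 (four_mem hu)
    have h6 : v = z + (2 : ℤ) • ((fun i => 2 * chi C i) + fun i => 4 * u i) := by
      funext i
      rw [hvz i]
      simp only [Pi.add_apply, Pi.smul_apply, smul_eq_mul]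
      ring
    have h7 : z = v - (2 : ℤ) • ((fun i => 2 * chi C i) + fun i => 4 * u i) := by
      rw [h6]; simp
    refine ⟨by rw [h7]; exact M.sub_mem hv (hM.two _ h5), ?_⟩
    rintro rfl
    apply h2
    exact ⟨_, h5, by rw [h6]; simp⟩
  by_cases hpar : (2 : ℤ) ∣ ∑ i, k i
  · obtain ⟨h5, h6⟩ := hsub (fun i => 4 * chi t i) ⟨k, hpar, fun i => by rw [hv' i]; ring⟩
    refine hM.short h5 h6 ?_
    rw [sqNorm_four_chi]
    have : (t.card : ℤ) ≤ 4 := by exact_mod_cast ht4
    omega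
  · have hsingle : ∀ p : GolayPt, ∀ c : ℤ, ∑ i, (k i + c * chi {p} i) = ∑ i, k i + c := by
      intro p c
      rw [Finset.sum_add_distrib, ← Finset.mul_sum, sum_chi]
      simp
    rcases t.eq_empty_or_nonempty with hte | ⟨p, hp⟩
    · obtain ⟨h5, h6⟩ := hsub (fun i => 8 * chi {none} i) ⟨fun i => k i + (-1) * chi {none} i, by
        rw [hsingle]; omega, fun i => by
        rw [hv' i, hte]
        have : chi ∅ i = 0 := by simp [chi]
        rw [this]; ring⟩
      exact hM.short h5 h6 (by rw [sqNorm_eight_chi])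
    · obtain ⟨h5, h6⟩ := hsub (fun i => 4 * chi t i - 8 * chi {p} i) ⟨fun i => k i + 1 * chi {p} i, by
        rw [hsingle]; omega, fun i => by
        rw [hv' i]
        ring⟩
      refine hM.short h5 h6 ?_
      rw [sqNorm_four_chi_sub t p hp]
      have : (t.card : ℤ) ≤ 4 := by exact_mod_cast ht4
      omega

/-- irreducibility -/
theorem irreducible (hM : Good M) : (∀ x ∈ M, ∃ w ∈ leechLattice, x = (2 : ℤ) • w) ∨ M = leechLattice := by
  by_cases hall : ∀ x ∈ M, ∃ w ∈ leechLattice, x = (2 : ℤ) • w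
  · exact Or.inl hall
  right
  push Not at hall
  obtain ⟨v, hv, hv2⟩ := hall
  have hv2' : ¬ ∃ w ∈ leechLattice, v = (2 : ℤ) • w := by
    rintro ⟨w, hw, h⟩; exact hv2 w hw h
  by_cases hodd : ∃ i, ¬ (2 : ℤ) ∣ v i
  · obtain ⟨i, hi⟩ := hodd
    exact hM.odd (v := ⟨v, hM.le hv⟩) hv hi
  push Not at hodd
  by_cases hmix : ∃ p q, (4 : ℤ) ∣ v p - 2 ∧ (4 : ℤ) ∣ v q
  · obtain ⟨p, q, hp, hq⟩ := hmix
    obtain ⟨w, i, hw, hi⟩ := exists_odd_A (v := ⟨v, hM.le hv⟩) hp hq
    exact hM.odd (hM.of_E hw hv) hi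
  push Not at hmix
  by_cases h4 : ∀ i, (4 : ℤ) ∣ v i
  · exact hM.four hv h4 hv2'
  · push Not at h4
    obtain ⟨p, hp⟩ := h4
    have hp2 : (4 : ℤ) ∣ v p - 2 := by
      have := hodd p
      omega
    have hall2 : ∀ q, (4 : ℤ) ∣ v q - 2 := by
      intro q
      have h5 := hmix p q hp2
      have := hodd q
      omega
    have hsv := LeechGen.sv_min.1
    refine hM.four (v := v - (2 : ℤ) • LeechGen.sv) (M.sub_mem hv (hM.two _ hsv)) ?_ ?_
    · intro i
      have h5 := hall2 i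
      simp only [Pi.sub_apply, Pi.smul_apply, smul_eq_mul, LeechGen.sv]
      rcases chi_cases {none} i with ⟨_, h6⟩ | ⟨_, h6⟩ <;> rw [h6] <;> omega
    · rintro ⟨w, hw, h⟩
      apply hv2'
      refine ⟨w + LeechGen.sv, leechLattice.add_mem hw hsv, ?_⟩
      rw [smul_add, ← h, sub_add_cancel]

/-- faithfulness -/
theorem faithful (g : ↥Co0) (hg : ∀ v : ↥leechLattice, ∃ w : ↥leechLattice,
    ((g • v : ↥leechLattice) : GolayPt → ℤ) - (v : GolayPt → ℤ) = 2 • (w : GolayPt → ℤ)) :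
    g ∈ Subgroup.center ↥Co0 := by
  set φ := LeechMod.ext8 g.2 with hφ
  have hmin : ∀ v : leechLattice, sqNorm (v : GolayPt → ℤ) = 32 → ∃ c : ℤ, (c = 1 ∨ c = -1) ∧
      φ (v : GolayPt → ℤ) = (8 * c) • (v : GolayPt → ℤ) := by
    intro v hv
    have h1 := LeechMod.ext8_of_mem g.2 v
    obtain ⟨w, hw⟩ := hg v
    have hn : sqNorm (((g : Equiv.Perm leechLattice) v : leechLattice) : GolayPt → ℤ) = 32 := by
      rw [g.2.2 v, hv]
    by_cases he : (((g : Equiv.Perm leechLattice) v : leechLattice) : GolayPt → ℤ) = v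
    · refine ⟨1, Or.inl rfl, ?_⟩
      rw [hφ, h1, he, mul_one]
    · rcases congr_short ((g : Equiv.Perm leechLattice) v).2 v.2 he (by rw [hn]; norm_num) (by rw [hv]; norm_num)
        ⟨w, w.2, hw⟩ with h2 | h2
      · refine ⟨-1, Or.inr rfl, ?_⟩
        rw [hφ, h1, h2]
        simp
      · rw [hv] at h2; omega
  have hp : ∀ i j : GolayPt, i ≠ j → ∃ c : ℤ, (c = 1 ∨ c = -1) ∧
      ∀ l, φ (Pi.single i 1) l + φ (Pi.single j 1) l = 8 * c * ((Pi.single i 1 : GolayPt → ℤ) l + (Pi.single j 1 : GolayPt → ℤ) l) := by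
    intro i j hij
    obtain ⟨c, hc, h⟩ := hmin ⟨_, LeechMod.four_single_add_mem hij⟩ (LeechGen.pair_add_min hij).2
    refine ⟨c, hc, fun l => ?_⟩
    have e : (Pi.single i 4 + Pi.single j 4 : GolayPt → ℤ) = (4 : ℤ) • (Pi.single i 1 + Pi.single j 1) := by
      funext l
      simp only [Pi.add_apply, Pi.smul_apply, smul_eq_mul, Pi.single_apply]
      split_ifs <;> norm_num
    change φ (Pi.single i 4 + Pi.single j 4 : GolayPt → ℤ) = (8 * c) • (Pi.single i 4 + Pi.single j 4 : GolayPt → ℤ) at h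
    rw [e, map_smul, map_add] at h
    have h3 := congrFun h l
    simp only [Pi.smul_apply, smul_eq_mul, Pi.add_apply] at h3
    linarith
  have hm : ∀ i j : GolayPt, i ≠ j → ∃ c : ℤ, (c = 1 ∨ c = -1) ∧
      ∀ l, φ (Pi.single i 1) l - φ (Pi.single j 1) l = 8 * c * ((Pi.single i 1 : GolayPt → ℤ) l - (Pi.single j 1 : GolayPt → ℤ) l) := by
    intro i j hij
    obtain ⟨c, hc, h⟩ := hmin ⟨_, LeechMod.four_single_sub_mem hij⟩ (LeechGen.pair_sub_min hij).2
    refine ⟨c, hc, fun l => ?_⟩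
    have e : (Pi.single i 4 - Pi.single j 4 : GolayPt → ℤ) = (4 : ℤ) • (Pi.single i 1 - Pi.single j 1) := by
      funext l
      simp only [Pi.sub_apply, Pi.smul_apply, smul_eq_mul, Pi.single_apply]
      split_ifs <;> norm_num
    change φ (Pi.single i 4 - Pi.single j 4 : GolayPt → ℤ) = (8 * c) • (Pi.single i 4 - Pi.single j 4 : GolayPt → ℤ) at h
    rw [e, map_smul, map_sub] at h
    have h3 := congrFun h l
    simp only [Pi.smul_apply, smul_eq_mul, Pi.sub_apply] at h3
    linarith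
  have hthird : ∀ i l : GolayPt, ∃ j : GolayPt, j ≠ i ∧ j ≠ l := by decide
  have hA : ∀ i l : GolayPt, l ≠ i → φ (Pi.single i 1) l = 0 := by
    intro i l hli
    obtain ⟨j, hji, hjl⟩ := hthird i l
    obtain ⟨c, -, h1⟩ := hp i j (Ne.symm hji)
    obtain ⟨d, -, h2⟩ := hm i j (Ne.symm hji)
    have h3 := h1 l
    have h4 := h2 l
    rw [Pi.single_eq_of_ne hli, Pi.single_eq_of_ne (Ne.symm hjl)] at h3 h4
    simp only [add_zero, sub_zero, mul_zero] at h3 h4
    omega
  have hB : ∀ i j : GolayPt, i ≠ j → ∃ c : ℤ, (c = 1 ∨ c = -1) ∧ φ (Pi.single i 1) i = 8 * c ∧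
      φ (Pi.single j 1) j = 8 * c := by
    intro i j hij
    obtain ⟨c, hc, h1⟩ := hp i j hij
    refine ⟨c, hc, ?_, ?_⟩
    · have h2 := h1 i
      rw [hA j i hij, Pi.single_eq_same, Pi.single_eq_of_ne hij] at h2
      simpa using h2
    · have h2 := h1 j
      rw [hA i j hij.symm, Pi.single_eq_same, Pi.single_eq_of_ne hij.symm] at h2
      simpa using h2
  obtain ⟨c, hc, hcn, -⟩ := hB none (some 0) (by simp)
  have hC : ∀ i, φ (Pi.single i 1) = (8 * c) • (Pi.single i 1 : GolayPt → ℤ) := by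
    intro i
    have hii : φ (Pi.single i 1) i = 8 * c := by
      by_cases h : i = none
      · rw [h]; exact hcn
      · obtain ⟨d, -, h1, h2⟩ := hB i none h
        rw [h1, ← h2, hcn]
    funext l
    by_cases hl : l = i
    · subst hl
      rw [hii]
      simp
    · rw [hA i l hl]
      simp [Pi.single_eq_of_ne hl]
  have hall : ∀ x : GolayPt → ℤ, φ x = (8 * c) • x := by
    intro x
    have e : x = ∑ i, x i • (Pi.single i 1 : GolayPt → ℤ) := by
      funext l
      simp only [Finset.sum_apply, Pi.smul_apply, smul_eq_mul, Pi.single_apply]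
      simp
    conv_lhs => rw [e]
    rw [map_sum]
    simp only [map_smul, hC]
    conv_rhs => rw [e]
    rw [Finset.smul_sum]
    exact Finset.sum_congr rfl fun i _ => smul_comm _ _ _
  have hgv : ∀ v : leechLattice, (g : Equiv.Perm leechLattice) v = c • v := by
    intro v
    apply Subtype.ext
    have h1 := LeechMod.ext8_of_mem g.2 v
    rw [← hφ, hall] at h1
    funext l
    have h2 := congrFun h1 l
    simp only [Pi.smul_apply, smul_eq_mul] at h2
    show (((g : Equiv.Perm leechLattice) v : leechLattice) : GolayPt → ℤ) l = c * (v : GolayPt → ℤ) l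
    linarith
  rw [Subgroup.mem_center_iff]
  intro h
  apply Subtype.ext
  ext1 v
  show (h : Equiv.Perm leechLattice) ((g : Equiv.Perm leechLattice) v) = (g : Equiv.Perm leechLattice) ((h : Equiv.Perm leechLattice) v)
  rw [hgv, hgv]
  rcases hc with rfl | rfl
  · rw [one_smul, one_smul]
  · rw [neg_smul, neg_smul, one_smul, one_smul]
    exact map_neg (LeechMod.toHom h.2) v

end Cfsg.Agent.Lib.LeechIrr
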