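import Cfsg.Agent.Lib.LeechCount8

/-!
The suborbits of `Co3` on 11178 vectors.
-/

set_option autoImplicit false
set_option maxHeartbeats 400000

namespace Cfsg.Agent.Lib.LeechChain

open Cfsg Cfsg.Agent.Lib.Golay Cfsg.Agent.Lib.LeechMin Cfsg.Agent.Lib.GolayCoset Cfsg.Agent.Lib.LeechXi
  Cfsg.Agent.Lib.LeechTrans Cfsg.Agent.Lib.LeechCo2 Cfsg.Agent.Lib.LeechFrame Cfsg.Agent.Lib.LeechCount
  Cfsg.Agent.Lib.LeechOrder Cfsg.Agent.Lib.LeechMod Cfsg.Agent.Lib.LeechQuot
open scoped Pointwise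

theorem card2520 : Nat.card ↥(St none ⊓ St b0 ⊓ MulAction.stabilizer M24 (mset m3)) ≤ 2520 := by
  set K := St none ⊓ St b0 ⊓ MulAction.stabilizer M24 (mset m3) with hK
  have s1 : Nat.card ↥(K ⊓ St c0) ≤ 360 := by
    refine le_trans (Subgroup.card_le_of_le ?_) card1232
    intro g hg
    exact ⟨⟨hg.1.1, hg.2⟩, hg.1.2⟩
  have s0 : Nat.card K ≤ 7 * 360 := by
    refine step (mset m3) {b0} c0 7 _ (fun g hg => hg.2) ?_ (by decide +kernel)
      (by decide +kernel) (by decide +kernel) (by decide +kernel) s1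
    intro q hq g hg
    rw [Finset.mem_singleton] at hq
    subst hq
    exact hg.1.2
  omega

theorem chainCo3 {z : leechLattice} {d k : ℤ} {s m M : ℕ} (hz : z ∈ cls [(U none, 16), (S hab, d)] 32)
    (hs : (cls [(U none, 16), (S hab, d)] 32).ncard = s) (hX : X hab ∈ cls [(z, k), (U none, 24), (S hab, 0)] 32)
    (hm : (cls [(z, k), (U none, 24), (S hab, 0)] 32).ncard = m) (hv : Nat.card (fixL [X hab, z, U none, S hab]) ≤ M)
    (hord : 44352000 = s * (m * M)) :
    ∀ y ∈ cls [(U none, 16), (S hab, d)] 32, ∃ g ∈ fixL [U none, S hab], g • z = y := by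
  have hle : Nat.card (fixL [z, U none, S hab]) ≤ m * M := by
    have h1 := card_fixL_le (C := [(z, k), (U none, 24), (S hab, 0)]) (n := 32) (by norm_num) (x := X hab) hX
    rw [hm] at h1
    exact h1.trans (Nat.mul_le_mul_left _ hv)
  have h0 : 0 < s := Nat.pos_of_ne_zero (by rintro rfl; omega)
  have h0' : 0 < m * M := Nat.pos_of_ne_zero (by intro h; rw [h] at hord; omega)
  exact (chain (C := [(U none, 16), (S hab, d)]) (n := 32) (by norm_num) (x := z) (s := s) (M := m * M) hz
    (by show Nat.card (fixL [U none, S hab]) = _; rw [chainHS.2, hord]) (le_of_eq hs) hle h0 h0').1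

theorem mem_z16 : S hac ∈ cls [(U none, 16), (S hab, 16)] 32 := by
  refine ⟨?_, ?_⟩
  · rw [coe_S]; decide +kernel
  · simp only [List.forall_mem_cons, List.not_mem_nil, false_imp_iff, implies_true, and_true, coe_U, coe_S]
    decide +kernel

theorem mem_z0 : O2 (mset m1) oct1.1 ∈ cls [(U none, 16), (S hab, 0)] 32 := by
  refine ⟨?_, ?_⟩
  · rw [coe_O]; decide +kernel
  · simp only [List.forall_mem_cons, List.not_mem_nil, false_imp_iff, implies_true, and_true, coe_U, coe_S, coe_O]
    decide +kernel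

theorem mem_zm8 : O2 (mset m3) oct3.1 ∈ cls [(U none, 16), (S hab, -8)] 32 := by
  refine ⟨?_, ?_⟩
  · rw [coe_O]; decide +kernel
  · simp only [List.forall_mem_cons, List.not_mem_nil, false_imp_iff, implies_true, and_true, coe_U, coe_S, coe_O]
    decide +kernel

theorem mem_z8 : y1232 ∈ cls [(U none, 16), (S hab, 8)] 32 := by
  refine ⟨?_, ?_⟩
  · rw [coe_yw]; decide +kernel
  · simp only [List.forall_mem_cons, List.not_mem_nil, false_imp_iff, implies_true, and_true, coe_U, coe_S, coe_yw]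
    decide +kernel

theorem fix_of_S {σ : M24} {p : GolayPt} (hp : none ≠ p)
    (h : ∀ i, (S hp : GolayPt → ℤ) ((σ : Equiv.Perm GolayPt) i) = (S hp : GolayPt → ℤ) i) : (σ : Equiv.Perm GolayPt) p = p := by
  by_contra hne
  have h1 := h p
  rw [coe_S] at h1
  simp only [Pi.sub_apply, Pi.single_eq_of_ne hne, Pi.single_eq_same, Pi.single_eq_of_ne (Ne.symm hp)] at h1
  by_cases h2 : (σ : Equiv.Perm GolayPt) p = none
  · rw [h2, Pi.single_eq_same] at h1
    norm_num at h1
  · rw [Pi.single_eq_of_ne h2] at h1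
    norm_num at h1

theorem trans16 : ∀ y ∈ cls [(U none, 16), (S hab, 16)] 32, ∃ g ∈ fixL [U none, S hab], g • S hac = y := by
  refine chainCo3 (k := 16) mem_z16 cls1100 ?_ cls2t (M := 20160) ?_ (by norm_num)
  · refine ⟨?_, ?_⟩
    · rw [coe_X]; decide +kernel
    · simp only [List.forall_mem_cons, List.not_mem_nil, false_imp_iff, implies_true, and_true, coe_U, coe_S, coe_X]
      decide +kernel
  · rw [← card_M3]
    refine card_visible_le' _ _ ?_ (by simp) (by simp) (by simp)
    intro σ h0 h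
    exact ⟨⟨h0, fix_of_X hab h0 (h _ (by simp))⟩, fix_of_S hac (h _ (by simp))⟩

theorem trans0 : ∀ y ∈ cls [(U none, 16), (S hab, 0)] 32, ∃ g ∈ fixL [U none, S hab], g • O2 (mset m1) oct1.1 = y := by
  refine chainCo3 (k := 0) mem_z0 cls4125 ?_ cls8m (M := 1344) ?_ (by norm_num)
  · refine ⟨?_, ?_⟩
    · rw [coe_X]; decide +kernel
    · simp only [List.forall_mem_cons, List.not_mem_nil, false_imp_iff, implies_true, and_true, coe_U, coe_S, coe_X, coe_O]
      decide +kernel
  · refine le_trans ?_ card330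
    refine card_visible_le' _ _ ?_ (by simp) (by simp) (by simp)
    intro σ h0 h
    exact ⟨⟨h0, fix_of_X hab h0 (h _ (by simp))⟩, fix_of_O oct1.1 (h _ (by simp))⟩

theorem transm8 : ∀ y ∈ cls [(U none, 16), (S hab, -8)] 32, ∃ g ∈ fixL [U none, S hab], g • O2 (mset m3) oct3.1 = y := by
  refine chainCo3 (k := 8) mem_zm8 cls352 ?_ cls50n (M := 2520) ?_ (by norm_num)
  · refine ⟨?_, ?_⟩
    · rw [coe_X]; decide +kernel
    · simp only [List.forall_mem_cons, List.not_mem_nil, false_imp_iff, implies_true, and_true, coe_U, coe_S, coe_X, coe_O]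
      decide +kernel
  · refine le_trans ?_ card2520
    refine card_visible_le' _ _ ?_ (by simp) (by simp) (by simp)
    intro σ h0 h
    exact ⟨⟨h0, fix_of_X hab h0 (h _ (by simp))⟩, fix_of_O oct3.1 (h _ (by simp))⟩

/-- possible inner products -/
theorem dots11178 {y : leechLattice} (hy : y ∈ cls [(U none, 16)] 32) (hne : y ≠ S hab) :
    y ∈ cls [(U none, 16), (S hab, 16)] 32 ∨ y ∈ cls [(U none, 16), (S hab, 8)] 32 ∨
      y ∈ cls [(U none, 16), (S hab, 0)] 32 ∨ y ∈ cls [(U none, 16), (S hab, -8)] 32 := by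
  have hy' := mem_cls1.1 hy
  have h1 := norm_alt' (l := (S hab : GolayPt → ℤ)) (S hab).2 y
  have h2 := norm_alt' (l := ((U none - S hab : leechLattice) : GolayPt → ℤ)) (U none - S hab).2 y
  have hS : sqNorm (S hab : GolayPt → ℤ) = 32 := sqNorm_S
  have e : ((U none - S hab : leechLattice) : GolayPt → ℤ) = (U none : GolayPt → ℤ) - (S hab : GolayPt → ℤ) := rfl
  have hW : sqNorm ((U none - S hab : leechLattice) : GolayPt → ℤ) = 48 := by
    rw [e, coe_U, coe_S]; decide +kernel
  have hdW : dotInt ((U none - S hab : leechLattice) : GolayPt → ℤ) (y : GolayPt → ℤ) =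
      16 - dotInt (S hab : GolayPt → ℤ) (y : GolayPt → ℤ) := by
    rw [e, dot_sub_left, hy'.2]
  rw [mem_cls2, mem_cls2, mem_cls2, mem_cls2]
  rcases h1 with h1 | ⟨a, ha, h1⟩
  · exact absurd (Subtype.ext h1) hne
  rcases h2 with h2 | ⟨b, hb, h2⟩
  · exfalso
    have e1 := hy'.1
    rw [h2, hW] at e1
    norm_num at e1
  · rw [sqNorm_sub, hS, hy'.1] at h1
    rw [sqNorm_sub, hW, hy'.1, hdW] at h2
    have e : dotInt (S hab : GolayPt → ℤ) (y : GolayPt → ℤ) = 16 ∨ dotInt (S hab : GolayPt → ℤ) (y : GolayPt → ℤ) = 8 ∨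
        dotInt (S hab : GolayPt → ℤ) (y : GolayPt → ℤ) = 0 ∨ dotInt (S hab : GolayPt → ℤ) (y : GolayPt → ℤ) = -8 := by omega
    tauto

theorem mem_S11178 : S hab ∈ cls [(U none, 16)] 32 := by
  refine ⟨?_, ?_⟩
  · rw [coe_S]; decide +kernel
  · simp only [List.forall_mem_cons, List.not_mem_nil, false_imp_iff, implies_true, and_true, coe_S, coe_U]
    decide +kernel

theorem cls5600 : (cls [(U none, 16), (S hab, 8)] 32).ncard = 5600 := by
  set A := cls [(U none, 16), (S hab, 16)] 32 with hA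
  set B := cls [(U none, 16), (S hab, 8)] 32 with hB
  set C := cls [(U none, 16), (S hab, 0)] 32 with hC
  set D := cls [(U none, 16), (S hab, -8)] 32 with hD
  have hfA : A.Finite := finite_cls (by norm_num)
  have hfB : B.Finite := finite_cls (by norm_num)
  have hfC : C.Finite := finite_cls (by norm_num)
  have hfD : D.Finite := finite_cls (by norm_num)
  have hS : dotInt (S hab : GolayPt → ℤ) (S hab : GolayPt → ℤ) = 32 := by rw [dot_self', sqNorm_S]
  have heq : insert (S hab) (A ∪ (B ∪ (C ∪ D))) = cls [(U none, 16)] 32 := by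
    ext z
    constructor
    · rintro (rfl | hz | hz | hz | hz)
      · exact mem_S11178
      all_goals
        rw [mem_cls2] at hz
        exact mem_cls1.2 ⟨hz.1, hz.2.1⟩
    · intro hz
      by_cases hne : z = S hab
      · left; exact hne
      · right
        rcases dots11178 hz hne with h | h | h | h
        · left; exact h
        · right; left; exact h
        · right; right; left; exact h
        · right; right; right; exact h
  have hn : S hab ∉ A ∪ (B ∪ (C ∪ D)) := by
    rintro (h | h | h | h) <;>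
    · have := (mem_cls2.1 h).2.2
      rw [hS] at this
      norm_num at this
  have hd1 : Disjoint A (B ∪ (C ∪ D)) := by
    rw [Set.disjoint_left]
    rintro z h1 (h2 | h2 | h2) <;>
    · have e1 := (mem_cls2.1 h1).2.2
      have e2 := (mem_cls2.1 h2).2.2
      omega
  have hd2 : Disjoint B (C ∪ D) := by
    rw [Set.disjoint_left]
    rintro z h1 (h2 | h2) <;>
    · have e1 := (mem_cls2.1 h1).2.2
      have e2 := (mem_cls2.1 h2).2.2
      omega
  have hd3 : Disjoint C D := by
    rw [Set.disjoint_left]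
    rintro z h1 h2
    have e1 := (mem_cls2.1 h1).2.2
    have e2 := (mem_cls2.1 h2).2.2
    omega
  have h := cls11178
  rw [← heq, Set.ncard_insert_of_notMem hn (hfA.union (hfB.union (hfC.union hfD))),
    Set.ncard_union_eq hd1 hfA (hfB.union (hfC.union hfD)),
    Set.ncard_union_eq hd2 hfB (hfC.union hfD), Set.ncard_union_eq hd3 hfC hfD, cls1100, cls4125, cls352] at h
  omega

theorem trans8 : ∀ y ∈ cls [(U none, 16), (S hab, 8)] 32, ∃ g ∈ fixL [U none, S hab], g • y1232 = y := by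
  refine chainCo3 (k := 0) mem_z8 cls5600 ?_ cls22w (M := 360) ?_ (by norm_num)
  · refine ⟨?_, ?_⟩
    · rw [coe_X]; decide +kernel
    · simp only [List.forall_mem_cons, List.not_mem_nil, false_imp_iff, implies_true, and_true, coe_U, coe_S, coe_X, coe_yw]
      decide +kernel
  · refine le_trans ?_ card1232
    refine card_visible_le' _ _ ?_ (by simp) (by simp) (by simp)
    intro σ h0 h
    have hb := fix_of_X hab h0 (h _ (by simp))
    have h1 := h y1232 (by simp)
    have hc : ∀ i, (y1232 : GolayPt → ℤ) i = 3 ↔ i = c0 := by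
      rw [coe_y1232]; decide +kernel
    have hs : ∀ i, i ∈ mset m3 ↔ ((y1232 : GolayPt → ℤ) i = 3 ∨ (y1232 : GolayPt → ℤ) i = -1) := by
      rw [coe_y1232]; decide +kernel
    refine ⟨⟨⟨h0, hb⟩, ?_⟩, ?_⟩
    · exact (hc _).1 ((h1 c0).trans ((hc _).2 rfl))
    · show (σ : Equiv.Perm GolayPt) • mset m3 = mset m3
      ext i
      rw [mem_smul, hs, hs, ← h1 ((σ : Equiv.Perm GolayPt).symm i), Equiv.apply_symm_apply]

/-! ### general position -/

theorem std11178 {u x : leechLattice} (hu : sqNorm (u : GolayPt → ℤ) = 48) (hx : x ∈ cls [(u, -16)] 32) :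
    ∃ k : Co0, k • u = U none ∧ k • x = -S hab := by
  obtain ⟨k, hk⟩ := std3 hu
  have h1 : k • x ∈ cls [(U none, -16)] 32 := by
    have := (mem_cls_smul k).1 hx
    simp only [List.map_cons, List.map_nil, hk] at this
    exact this
  have h2 : -S hab ∈ cls [(U none, -16)] 32 := by
    rw [mem_cls_neg, neg_neg]
    exact mem_S11178
  obtain ⟨g, hg1, hg2⟩ := trans11178 (sqNorm_U none) h1 h2
  exact ⟨g * k, by rw [mul_smul, hk, hg1], by rw [mul_smul, hg2]⟩

/-- an orbit -/
theorem orbit_co3 {u x z : leechLattice} {k : Co0} {d : ℤ} (h1 : k • u = U none) (h2 : k • x = -S hab)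
    (hz : z ∈ cls [(U none, 16), (S hab, d)] 32)
    (ht : ∀ y ∈ cls [(U none, 16), (S hab, d)] 32, ∃ g ∈ fixL [U none, S hab], g • z = y) :
    (MulAction.orbit ↥(MulAction.stabilizer ↥Co0 u ⊓ MulAction.stabilizer ↥Co0 x) (k⁻¹ • (-z))) =
      {y | -(k • y) ∈ cls [(U none, 16), (S hab, d)] 32} := by
  ext y
  constructor
  · rintro ⟨g, rfl⟩
    obtain ⟨g1, g2⟩ := g.2
    have g1' : (g : Co0) • u = u := g1
    have g2' : (g : Co0) • x = x := g2
    have e1 : ∀ a b : leechLattice, (g : Co0) • a = a → k • a = b → (k * (g : Co0) * k⁻¹) • b = b := by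
      rintro a _ ha rfl
      rw [mul_smul, mul_smul, inv_smul_smul, ha]
    have eU := e1 _ _ g1' h1
    have eS : (k * (g : Co0) * k⁻¹) • S hab = S hab := by
      have := e1 _ _ g2' h2
      rw [smul_neg'] at this
      exact neg_injective this
    have := (mem_cls_smul (k * g * k⁻¹)).1 hz
    simp only [List.map_cons, List.map_nil, eU, eS] at this
    show -(k • ((g : Co0) • k⁻¹ • (-z))) ∈ cls [(U none, 16), (S hab, d)] 32
    rw [← smul_neg', ← smul_neg', ← smul_neg', neg_neg, ← mul_smul, ← mul_smul]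
    exact this
  · intro hy
    obtain ⟨g, hg, hgz⟩ := ht _ hy
    rw [mem_fix2] at hg
    have e1 : ∀ a b : leechLattice, g • b = b → k • a = b → (k⁻¹ * g * k) • a = a := by
      rintro a _ hb rfl
      rw [mul_smul, mul_smul, hb, inv_smul_smul]
    refine ⟨⟨k⁻¹ * g * k, e1 u _ hg.1 h1, e1 x (-S hab) ?_ h2⟩, ?_⟩
    · rw [smul_neg', hg.2]
    · show (k⁻¹ * g * k) • k⁻¹ • (-z) = y
      rw [mul_smul, mul_smul, smul_inv_smul, smul_neg', hgz, neg_neg, inv_smul_smul]

theorem ncard_neg_smul (k : Co0) (T : Set leechLattice) : {y : leechLattice | -(k • y) ∈ T}.ncard = T.ncard := by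
  refine Set.ncard_congr (fun x _ => -(k • x)) (fun x hx => hx) (fun x y _ _ e => ?_) ?_
  · exact MulAction.injective k (neg_injective e)
  · intro y hy
    refine ⟨k⁻¹ • (-y), ?_, ?_⟩
    · show -(k • k⁻¹ • (-y)) ∈ T
      rw [smul_inv_smul, neg_neg]; exact hy
    · show -(k • k⁻¹ • (-y)) = y
      rw [smul_inv_smul, neg_neg]

theorem rank11178 (u x : leechLattice) (hu : sqNorm (u : GolayPt → ℤ) = 48) (hx : x ∈ cls [(u, -16)] 32) :
    ∃ y₁ ∈ cls [(u, -16)] 32, ∃ y₂ ∈ cls [(u, -16)] 32, ∃ y₃ ∈ cls [(u, -16)] 32, ∃ y₄ ∈ cls [(u, -16)] 32,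
      (MulAction.orbit ↥(MulAction.stabilizer ↥Co0 u ⊓ MulAction.stabilizer ↥Co0 x) y₁).ncard = 352 ∧
      (MulAction.orbit ↥(MulAction.stabilizer ↥Co0 u ⊓ MulAction.stabilizer ↥Co0 x) y₂).ncard = 1100 ∧
      (MulAction.orbit ↥(MulAction.stabilizer ↥Co0 u ⊓ MulAction.stabilizer ↥Co0 x) y₃).ncard = 4125 ∧
      (MulAction.orbit ↥(MulAction.stabilizer ↥Co0 u ⊓ MulAction.stabilizer ↥Co0 x) y₄).ncard = 5600 ∧
      cls [(u, -16)] 32 = {x} ∪ MulAction.orbit ↥(MulAction.stabilizer ↥Co0 u ⊓ MulAction.stabilizer ↥Co0 x) y₁ ∪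
        MulAction.orbit ↥(MulAction.stabilizer ↥Co0 u ⊓ MulAction.stabilizer ↥Co0 x) y₂ ∪
        MulAction.orbit ↥(MulAction.stabilizer ↥Co0 u ⊓ MulAction.stabilizer ↥Co0 x) y₃ ∪
        MulAction.orbit ↥(MulAction.stabilizer ↥Co0 u ⊓ MulAction.stabilizer ↥Co0 x) y₄ := by
  obtain ⟨k, h1, h2⟩ := std11178 hu hx
  have hcls : ∀ y, y ∈ cls [(u, -16)] 32 ↔ -(k • y) ∈ cls [(U none, 16)] 32 := by
    intro y
    have e := mem_cls_smul (C := [(u, -16)]) (n := 32) k (y := y)
    simp only [List.map_cons, List.map_nil, h1] at e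
    rw [e, mem_cls_neg]
  have hmem : ∀ z, z ∈ cls [(U none, 16)] 32 → k⁻¹ • (-z) ∈ cls [(u, -16)] 32 := by
    intro z hz
    rw [hcls, smul_inv_smul, neg_neg]
    exact hz
  have h21 : ∀ {z d}, z ∈ cls [(U none, 16), (S hab, d)] 32 → z ∈ cls [(U none, 16)] 32 := by
    intro z d hz
    rw [mem_cls2] at hz
    exact mem_cls1.2 ⟨hz.1, hz.2.1⟩
  refine ⟨_, hmem _ (h21 mem_zm8), _, hmem _ (h21 mem_z16), _, hmem _ (h21 mem_z0), _, hmem _ (h21 mem_z8), ?_⟩
  rw [orbit_co3 h1 h2 mem_zm8 transm8, orbit_co3 h1 h2 mem_z16 trans16, orbit_co3 h1 h2 mem_z0 trans0,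
    orbit_co3 h1 h2 mem_z8 trans8, ncard_neg_smul, ncard_neg_smul, ncard_neg_smul, ncard_neg_smul]
  refine ⟨cls352, cls1100, cls4125, cls5600, ?_⟩
  ext y
  constructor
  · intro hy
    by_cases hne : y = x
    · left; left; left; left; exact hne
    · have hy' := (hcls y).1 hy
      have hne' : -(k • y) ≠ S hab := by
        intro e
        apply hne
        apply MulAction.injective k
        show k • y = k • x
        rw [h2, ← e, neg_neg]
      rcases dots11178 hy' hne' with h | h | h | h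
      · left; left; right; exact h
      · right; exact h
      · left; right; exact h
      · left; left; left; right; exact h
  · rintro ((((rfl | h) | h) | h) | h)
    · exact hx
    all_goals exact (hcls y).2 (h21 h)

end Cfsg.Agent.Lib.LeechChain
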