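import Mathlib
import Cfsg.Agent.Lib.LargeExtra
import Cfsg.Agent.Lib.Layer
import Cfsg.Agent.Lib.Cores
import Cfsg.Agent.Lib.Subnormal

/-!
Large extraspecial subgroups: the structure of the generalized Fitting subgroup, part 1 (helper60).
-/

set_option autoImplicit false

namespace Cfsg.Agent.Lib.LgEx

open Subgroup Cfsg Cfsg.Agent.Lib.LargeExtra

variable {G : Type*} [Group G] {Q : Subgroup G} {z : G}

structure LHyp (Q : Subgroup G) (z : G) : Prop extends PreLarge Q z where
  odd : ∀ K : Subgroup G, Odd (Nat.card K) → Q ≤ Subgroup.normalizer (K : Set G) → K = ⊥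

theorem le_normalizer_of_normal (Q K : Subgroup G) [K.Normal] : Q ≤ normalizer (K : Set G) := by
  rw [normalizer_eq_top]; exact le_top

variable [Finite G]

namespace LHyp

/-- every nontrivial subgroup normalized by `Q` contains `z` -/
theorem mem_of_norm (h : LHyp Q z) {D : Subgroup G} (hD : D ≠ ⊥) (hQD : Q ≤ normalizer (D : Set G)) : z ∈ D := by
  by_contra hz
  have heven : Even (Nat.card D) := by
    rw [← Nat.not_odd_iff_even]
    intro ho
    exact hD (h.odd D ho hQD)
  have : Fact (Nat.Prime 2) := ⟨Nat.prime_two⟩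
  have hn : ∀ q ∈ Q, ∀ d ∈ D, q * d * q⁻¹ ∈ D := fun q hq d hd => (mem_normalizer_iff.1 (hQD hq) d).1 hd
  letI : MulAction Q D :=
    { smul := fun q d => ⟨q * d * (q : G)⁻¹, hn q q.2 d d.2⟩
      one_smul := fun d => Subtype.ext (by change (1 : G) * d * (1 : G)⁻¹ = d; group)
      mul_smul := fun p q d => Subtype.ext (by
        change ((p : G) * q) * d * ((p : G) * q)⁻¹ = p * (q * d * (q : G)⁻¹) * (p : G)⁻¹; group) }
  have h1 := h.isP.card_modEq_card_fixedPoints (α := D)
  have h2 : Nat.card (MulAction.fixedPoints Q D) = 1 := by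
    rw [Nat.card_eq_one_iff_unique]
    constructor
    · refine ⟨fun a b => ?_⟩
      have key : ∀ a : MulAction.fixedPoints Q D, ((a : D) : G) = 1 := by
        intro a
        rcases h.cent ((a : D) : G) (fun q hq => by
          have h3 : (⟨q, hq⟩ : Q) • (a : D) = a := a.2 ⟨q, hq⟩
          have h4 : q * ((a : D) : G) * q⁻¹ = (a : D) := congrArg Subtype.val h3
          calc q * ((a : D) : G) = (q * ((a : D) : G) * q⁻¹) * q := by group
            _ = (a : D) * q := by rw [h4]) with h5 | h5
        · exact h5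
        · exfalso
          apply hz
          rw [← h5]; exact (a : D).2
      apply Subtype.ext
      apply Subtype.ext
      rw [key a, key b]
    · refine ⟨⟨1, ?_⟩⟩
      intro q
      apply Subtype.ext
      change (q : G) * 1 * (q : G)⁻¹ = 1
      group
  rw [h2] at h1
  have h3 : Nat.card D % 2 = 1 := h1
  rw [Nat.even_iff] at heven
  omega

theorem pCore_odd (h : LHyp Q z) {p : ℕ} (hp : p.Prime) (hp2 : p ≠ 2) : pCore p G = ⊥ := by
  have : Fact p.Prime := ⟨hp⟩
  have hn : (pCore p G).Normal := inferInstance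
  apply h.odd _ _ (le_normalizer_of_normal Q _)
  obtain ⟨k, hk⟩ := (Cores.isPGroup_pCore p G).exists_card_eq
  rw [hk]
  exact (hp.odd_of_ne_two hp2).pow

theorem fitting_eq (h : LHyp Q z) : fittingSubgroup G = pCore 2 G := by
  apply le_antisymm
  · rw [Cores.fittingSubgroup_eq_fitProd]
    apply iSup_le
    rintro ⟨p, hp⟩
    by_cases h2 : p = 2
    · subst h2; exact le_rfl
    · rw [h.pCore_odd hp h2]; exact bot_le
  · have : Fact (Nat.Prime 2) := ⟨Nat.prime_two⟩
    exact Cores.pCore_le_fittingSubgroup 2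

theorem layer_comm_pCore (h : LHyp Q z) : layer G ≤ centralizer (pCore 2 G : Set G) := by
  rw [← h.fitting_eq]
  exact Layer.layer_le_centralizer_fitting

theorem genFitting_ne_bot (h : LHyp Q z) : generalizedFittingSubgroup G ≠ ⊥ := by
  intro hb
  have h1 := Layer.centralizer_genFitting_le (G := G)
  rw [hb] at h1
  have h2 : z ∈ centralizer ((⊥ : Subgroup G) : Set G) := by
    rw [mem_centralizer_iff]
    intro g hg
    have : g = 1 := hg
    rw [this, one_mul, mul_one]
  exact h.ne (mem_bot.1 (h1 h2))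

/-- `z` is central in a nontrivial `O_2(G)` -/
theorem mem_center_pCore (h : LHyp Q z) (hP : pCore 2 G ≠ ⊥) : z ∈ (center (pCore 2 G)).map (pCore 2 G).subtype := by
  have : Fact (Nat.Prime 2) := ⟨Nat.prime_two⟩
  have hn : ((center (pCore 2 G)).map (pCore 2 G).subtype).Normal := inferInstance
  apply h.mem_of_norm _ (le_normalizer_of_normal Q _)
  have h1 : Nontrivial (pCore 2 G) := (nontrivial_iff_ne_bot _).2 hP
  have h2 := (Cores.isPGroup_pCore 2 G).center_nontrivial
  intro h3
  rw [map_eq_bot_iff_of_injective _ (subtype_injective _)] at h3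
  rw [h3] at h2
  exact not_nontrivial _ h2

/-- Case A -/
theorem caseA (h : LHyp Q z) (hL : layer G = ⊥) :
    IsMulCommutative (normalClosure ({z} : Set G)) ∧ generalizedFittingSubgroup G = pCore 2 G := by
  have h1 : generalizedFittingSubgroup G = pCore 2 G := by
    change layer G ⊔ fittingSubgroup G = _
    rw [hL, bot_sup_eq, h.fitting_eq]
  refine ⟨?_, h1⟩
  have h2 : pCore 2 G ≠ ⊥ := by rw [← h1]; exact h.genFitting_ne_bot
  have h3 := h.mem_center_pCore h2
  have hn : ((center (pCore 2 G)).map (pCore 2 G).subtype).Normal := inferInstance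
  have h4 : normalClosure ({z} : Set G) ≤ (center (pCore 2 G)).map (pCore 2 G).subtype := by
    apply normalClosure_le_normal
    rw [Set.singleton_subset_iff]
    exact h3
  refine ⟨⟨?_⟩⟩
  intro a b
  apply Subtype.ext
  obtain ⟨c, hc, hca⟩ := h4 a.2
  obtain ⟨d, hd, hdb⟩ := h4 b.2
  have h5 := mem_center_iff.1 hc d
  change (a : G) * b = b * a
  rw [← hca, ← hdb]
  exact (congrArg Subtype.val h5).symm

/-- Case B: the layer is not trivial -/
theorem pCore_bot (h : LHyp Q z) (hL : layer G ≠ ⊥) : pCore 2 G = ⊥ := by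
  by_contra hP
  obtain ⟨c, hc, hcz⟩ := h.mem_center_pCore hP
  have hzP : z ∈ pCore 2 G := by rw [← hcz]; exact c.2
  have hE := h.layer_comm_pCore
  have hEz : ∀ e ∈ layer G, e * z = z * e := fun e he => (mem_centralizer_iff.1 (hE he) z hzP).symm
  obtain ⟨K, hK⟩ : ∃ K : Subgroup G, IsComponent K := by
    by_contra hcon
    push Not at hcon
    apply hL
    change sSup _ = ⊥
    rw [sSup_eq_bot]
    intro K hK
    exact absurd hK (hcon K)
  have hKE := Layer.component_le_layer hK
  have hEN : layer G ≤ normalizer (Q : Set G) := by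
    intro e he
    rw [mem_normalizer_iff]
    intro q
    constructor
    · exact fun hq => h.norm e (hEz e he) q hq
    · intro hq
      have h1 := h.norm e⁻¹ (hEz e⁻¹ (inv_mem he)) _ hq
      have h2 : e⁻¹ * (e * q * e⁻¹) * e⁻¹⁻¹ = q := by group
      rwa [h2] at h1
  have hEn : (layer G).Normal := inferInstance
  -- `E ∩ Q` is normal in `E`
  have hsub : (Q ⊓ layer G).IsSubnormal := by
    refine IsSubnormal.step _ (layer G) inf_le_right hEn.isSubnormal ?_
    refine ⟨?_⟩
    intro x hx g
    rw [mem_subgroupOf] at hx ⊢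
    refine ⟨?_, (layer G).mul_mem ((layer G).mul_mem g.2 x.2) ((layer G).inv_mem g.2)⟩
    exact (mem_normalizer_iff.1 (hEN g.2) x).1 hx.1
  have hsol : Group.IsSolvable ↥(Q ⊓ layer G) := by
    have : Fact (Nat.Prime 2) := ⟨Nat.prime_two⟩
    have h1 : IsPGroup 2 ↥(Q ⊓ layer G) := h.isP.to_le inf_le_left
    have h2 := h1.isNilpotent
    infer_instance
  have hKc := Components.component_centralizes_solvable hK hsol hsub
  have h3 : K ≤ centralizer (Q : Set G) := by
    apply Components.le_centralizer_of_perfect (Components.component_perfect hK) _ (Components.le_centralizer_comm hKc)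
    rw [commutator_le]
    intro k hk q hq
    rw [commutatorElement_def]
    refine ⟨?_, ?_⟩
    · exact Q.mul_mem ((mem_normalizer_iff.1 (hEN (hKE hk)) q).1 hq) (Q.inv_mem hq)
    · have h4 := hEn.conj_mem _ (inv_mem (hKE hk)) q
      have h5 := (layer G).mul_mem (hKE hk) h4
      have h6 : k * (q * k⁻¹ * q⁻¹) = k * q * k⁻¹ * q⁻¹ := by group
      rwa [h6] at h5
  apply Components.component_not_le_centralizer_self hK
  intro k hk
  rw [mem_centralizer_iff]
  intro l hl
  have hk1 := h.cent k (fun q hq => mem_centralizer_iff.1 (h3 hk) q hq)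
  rcases hk1 with rfl | rfl
  · rw [one_mul, mul_one]
  · exact hEz l (hKE hl)

end LHyp

end Cfsg.Agent.Lib.LgEx
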