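import Mathlib
import Cfsg.Agent.Lib.LgEx1

/-!
Large extraspecial subgroups: the structure of the generalized Fitting subgroup, part 2 (helper60): the components.
-/

set_option autoImplicit false

namespace Cfsg.Agent.Lib.LgEx

open Subgroup Cfsg Cfsg.Agent.Lib.LargeExtra

variable {G : Type*} [Group G] {Q : Subgroup G} {z : G} [Finite G]

theorem mem_map_conj {K : Subgroup G} {u x : G} : x ∈ K.map (MulAut.conj u).toMonoidHom ↔ u⁻¹ * x * u ∈ K := by
  constructor
  · rintro ⟨k, hk, rfl⟩
    have : u⁻¹ * (u * k * u⁻¹) * u = k := by group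
    change u⁻¹ * (u * k * u⁻¹) * u ∈ K
    rwa [this]
  · intro h
    refine ⟨_, h, ?_⟩
    change u * (u⁻¹ * x * u) * u⁻¹ = x
    group

/-- the situation of case B -/
structure Lay (Q : Subgroup G) (z : G) : Prop extends LHyp Q z where
  lay : layer G ≠ ⊥

namespace Lay

theorem fitting_bot (h : Lay Q z) : fittingSubgroup G = ⊥ := by
  rw [h.fitting_eq, h.pCore_bot h.lay]

theorem gen_eq (h : Lay Q z) : generalizedFittingSubgroup G = layer G := by
  change layer G ⊔ fittingSubgroup G = _
  rw [h.fitting_bot, sup_bot_eq]

theorem center_bot (h : Lay Q z) : layer G ⊓ centralizer (layer G : Set G) = ⊥ := by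
  rw [← h.gen_eq, eq_bot_iff, ← h.fitting_bot]
  exact Layer.center_genFitting_le_fitting

theorem comp_center (h : Lay Q z) {K : Subgroup G} (hK : IsComponent K) {x : G} (hx : x ∈ K)
    (hxc : ∀ k ∈ K, k * x = x * k) : x = 1 := by
  rw [← mem_bot, ← h.center_bot]
  refine ⟨Layer.component_le_layer hK hx, ?_⟩
  have h1 : layer G ≤ centralizer ({x} : Set G) := by
    change sSup _ ≤ _
    apply sSup_le
    intro L hL l hl
    rw [mem_centralizer_singleton_iff]
    rcases Components.component_eq_or_le_centralizer hL hK with rfl | h2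
    · exact hxc l hl
    · exact (mem_centralizer_iff.1 (h2 hl) x hx).symm
  refine mem_centralizer_iff.2 ?_
  intro l hl
  exact mem_centralizer_singleton_iff.1 (h1 hl)

theorem comp_simple (h : Lay Q z) {K : Subgroup G} (hK : IsComponent K) : IsSimpleGroup K := by
  have h1 : center K = ⊥ := by
    rw [eq_bot_iff]
    intro x hx
    rw [mem_bot]
    apply Subtype.ext
    apply h.comp_center hK x.2
    intro k hk
    exact congrArg Subtype.val (mem_center_iff.1 hx ⟨k, hk⟩)
  have h2 := hK.2
  have hnt := Components.nontrivial_of_quasisimple h2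
  refine { exists_pair_ne := hnt.exists_pair_ne, eq_bot_or_eq_top_of_normal := ?_ }
  intro N hN
  rcases Components.normal_le_center_or_eq_top h2 N with h3 | h3
  · left; rw [h1, le_bot_iff] at h3; exact h3
  · right; exact h3

theorem mem_layer (h : Lay Q z) : z ∈ layer G :=
  h.mem_of_norm h.lay (le_normalizer_of_normal Q _)

/-- no component centralizes `z` -/
theorem not_cent (h : Lay Q z) {K : Subgroup G} (hK : IsComponent K) : ¬ K ≤ centralizer ({z} : Set G) := by
  intro hKz
  let S : Set (Subgroup G) := {L | IsComponent L ∧ L ≤ centralizer ({z} : Set G)}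
  have h1 : sSup S ≠ ⊥ := by
    intro h2
    have h3 : K ≤ sSup S := le_sSup ⟨hK, hKz⟩
    rw [h2, le_bot_iff] at h3
    exact Components.component_ne_bot hK h3
  have h2 : Q ≤ normalizer ((sSup S : Subgroup G) : Set G) := by
    have key : ∀ q ∈ Q, (sSup S).map (MulAut.conj q).toMonoidHom ≤ sSup S := by
      intro q hq
      rw [map_le_iff_le_comap]
      apply sSup_le
      rintro L ⟨hL, hLz⟩
      rw [← map_le_iff_le_comap]
      apply le_sSup
      refine ⟨Components.isComponent_conj q hL, ?_⟩
      rintro _ ⟨l, hl, rfl⟩
      rw [mem_centralizer_singleton_iff]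
      change q * l * q⁻¹ * z = z * (q * l * q⁻¹)
      have e1 := h.cen q hq
      have e2 := h.cen q⁻¹ (inv_mem hq)
      have e3 := mem_centralizer_singleton_iff.1 (hLz hl)
      calc q * l * q⁻¹ * z = q * l * (q⁻¹ * z) := by group
        _ = q * (l * z) * q⁻¹ := by rw [e2]; group
        _ = (q * z) * l * q⁻¹ := by rw [e3]; group
        _ = z * (q * l * q⁻¹) := by rw [e1]; group
    intro q hq
    rw [mem_normalizer_iff]
    intro x
    constructor
    · intro hx
      exact key q hq ⟨x, hx, rfl⟩
    · intro hx
      have := key q⁻¹ (inv_mem hq) ⟨_, hx, rfl⟩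
      have e : (MulAut.conj q⁻¹).toMonoidHom (q * x * q⁻¹) = x := by
        change q⁻¹ * (q * x * q⁻¹) * q⁻¹⁻¹ = x
        group
      rwa [e] at this
  have h3 := h.mem_of_norm h1 h2
  apply h.ne
  rw [← mem_bot, ← h.center_bot]
  refine ⟨h.mem_layer, ?_⟩
  have h4 : layer G ≤ centralizer ({z} : Set G) := by
    change sSup _ ≤ _
    apply sSup_le
    intro L hL
    by_cases hLS : L ≤ centralizer ({z} : Set G)
    · exact hLS
    · have h5 : L ≤ centralizer ((sSup S : Subgroup G) : Set G) := by
        apply Components.le_centralizer_sSup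
        rintro K' ⟨hK', hKz'⟩
        apply Components.components_commute hL hK'
        rintro rfl
        exact hLS hKz'
      intro l hl
      rw [mem_centralizer_singleton_iff]
      exact (mem_centralizer_iff.1 (h5 hl) z h3).symm
  refine mem_centralizer_iff.2 ?_
  intro l hl
  exact mem_centralizer_singleton_iff.1 (h4 hl)

theorem normalClosure_eq (h : Lay Q z) : normalClosure ({z} : Set G) = layer G := by
  apply le_antisymm
  · apply normalClosure_le_normal
    rw [Set.singleton_subset_iff]
    exact h.mem_layer
  · change sSup _ ≤ _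
    apply sSup_le
    intro L hL
    have hn : (normalClosure ({z} : Set G)).Normal := inferInstance
    rcases Components.component_le_or_le_centralizer hL hn.isSubnormal with h1 | h1
    · exact h1
    · exfalso
      apply h.not_cent hL
      intro l hl
      rw [mem_centralizer_singleton_iff]
      exact (mem_centralizer_iff.1 (h1 hl) z (subset_normalClosure (Set.mem_singleton z))).symm

theorem exists_comp (h : Lay Q z) : ∃ K : Subgroup G, IsComponent K := by
  by_contra hcon
  push Not at hcon
  apply h.lay
  change sSup _ = ⊥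
  rw [sSup_eq_bot]
  intro K hK
  exact absurd hK (hcon K)

/-- one component only -/
theorem one_comp (h : Lay Q z) {L : Subgroup G} (hL : IsComponent L) (h1 : ∀ K : Subgroup G, IsComponent K → K = L) :
    layer G = L := by
  apply le_antisymm
  · change sSup _ ≤ _
    apply sSup_le
    intro K hK
    rw [h1 K hK]
  · exact Layer.component_le_layer hL

/-- `Q` normalizes no component if there are at least two -/
theorem not_norm (h : Lay Q z) {L L' : Subgroup G} (hL : IsComponent L) (hL' : IsComponent L') (hne : L ≠ L') :
    z ∉ L ∧ ¬ Q ≤ normalizer (L : Set G) := by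
  have h1 : z ∉ L := by
    intro hz
    apply h.not_cent hL'
    intro l hl
    rw [mem_centralizer_singleton_iff]
    exact (mem_centralizer_iff.1 (Components.components_commute hL' hL hne.symm hl) z hz).symm
  exact ⟨h1, fun h2 => h1 (h.mem_of_norm (Components.component_ne_bot hL) h2)⟩

end Lay

end Cfsg.Agent.Lib.LgEx
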