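import Mathlib
import Cfsg.Agent.Lib.LgEx2
import Cfsg.Agent.Lib.QWFusion
import Cfsg.Agent.Lib.FrattiniQuot

/-!
Large extraspecial subgroups: the structure of the generalized Fitting subgroup, part 3 (helper60): several components.
-/

set_option autoImplicit false

namespace Cfsg.Agent.Lib.LgEx

open Subgroup Cfsg Cfsg.Agent.Lib.LargeExtra

variable {G : Type*} [Group G] {Q : Subgroup G} {z : G} [Finite G]

abbrev cj (L : Subgroup G) (u : G) : Subgroup G := L.map (MulAut.conj u).toMonoidHom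

theorem mem_cj {K : Subgroup G} {u x : G} (hx : x ∈ K) : u * x * u⁻¹ ∈ cj K u := ⟨x, hx, rfl⟩

structure Sev (Q : Subgroup G) (z : G) (L : Subgroup G) (u : G) : Prop extends Lay Q z where
  comp : IsComponent L
  uQ : u ∈ Q
  ne_cj : cj L u ≠ L

variable {L : Subgroup G} {u : G}

namespace Sev

theorem comp_cj (h : Sev Q z L u) : IsComponent (cj L u) := Components.isComponent_conj u h.comp

theorem cmt (h : Sev Q z L u) {x y : G} (hx : x ∈ L) (hy : y ∈ cj L u) : x * y = y * x :=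
  (mem_centralizer_iff.1 (Components.components_commute h.comp h.comp_cj h.ne_cj.symm hx) y hy).symm

theorem disj (h : Sev Q z L u) {x : G} (hx : x ∈ L) (hy : x ∈ cj L u) : x = 1 :=
  h.comp_center h.comp hx (fun _ hk => h.cmt hk hy)

theorem a_mem (h : Sev Q z L u) {x : G} (hx : x * z = z * x) : x⁻¹ * (u * x * u⁻¹) ∈ Q := by
  have h1 : x⁻¹ * z = z * x⁻¹ := by
    calc x⁻¹ * z = x⁻¹ * (z * x) * x⁻¹ := by group
      _ = x⁻¹ * (x * z) * x⁻¹ := by rw [hx]
      _ = z * x⁻¹ := by group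
  have h2 := h.norm x⁻¹ h1 u h.uQ
  have h3 := Q.mul_mem h2 (Q.inv_mem h.uQ)
  have h4 : x⁻¹ * u * x⁻¹⁻¹ * u⁻¹ = x⁻¹ * (u * x * u⁻¹) := by group
  rwa [h4] at h3

theorem two_group (h : Sev Q z L u) {x : G} (hx : x ∈ L) (hxz : x * z = z * x) : ∃ k, x ^ 2 ^ k = 1 := by
  obtain ⟨k, hk⟩ := h.isP ⟨_, h.a_mem hxz⟩
  have hk' : (x⁻¹ * (u * x * u⁻¹)) ^ 2 ^ k = 1 := congrArg Subtype.val hk
  have hc : Commute x⁻¹ (u * x * u⁻¹) := h.cmt (L.inv_mem hx) (mem_cj hx)
  rw [hc.mul_pow, inv_pow, inv_mul_eq_one] at hk'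
  refine ⟨k, ?_⟩
  apply h.disj (L.pow_mem hx _)
  rw [hk']
  exact (cj L u).pow_mem (mem_cj hx) _

/-- the `L`-component of `z` -/
structure Z1 (L : Subgroup G) (z z₁ c : G) : Prop where
  mem : z₁ ∈ L
  eq : z = z₁ * c
  cent : ∀ l ∈ L, l * c = c * l

theorem exists_Z1 (h : Sev Q z L u) : ∃ z₁ c, Z1 L z z₁ c := by
  let S : Set (Subgroup G) := {K | IsComponent K ∧ K ≠ L}
  have h1 : L ≤ centralizer ((sSup S : Subgroup G) : Set G) := by
    apply Components.le_centralizer_sSup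
    rintro K ⟨hK, hKL⟩
    exact Components.components_commute h.comp hK hKL.symm
  have h2 : layer G ≤ L ⊔ sSup S := by
    change sSup _ ≤ _
    apply sSup_le
    intro K hK
    by_cases hKL : K = L
    · rw [hKL]; exact le_sup_left
    · exact (le_sSup (show K ∈ S from ⟨hK, hKL⟩)).trans le_sup_right
  obtain ⟨z₁, hz₁, c, hc, hzc⟩ := (Components.mem_sup_of_commute h1).1 (h2 h.mem_layer)
  exact ⟨z₁, c, hz₁, hzc.symm, fun l hl => (mem_centralizer_iff.1 (h1 hl) c hc).symm⟩

variable {z₁ c : G}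

theorem Z1_unique (h : Sev Q z L u) (hz : Z1 L z z₁ c) {x c' : G} (hx : x ∈ L) (hc' : ∀ l ∈ L, l * c' = c' * l)
    (hxc : z = x * c') : x = z₁ := by
  have h1 : z₁⁻¹ * x = c * c'⁻¹ := by
    have : x * c' = z₁ * c := by rw [← hxc, ← hz.eq]
    calc z₁⁻¹ * x = z₁⁻¹ * (x * c') * c'⁻¹ := by group
      _ = z₁⁻¹ * (z₁ * c) * c'⁻¹ := by rw [this]
      _ = _ := by group
  have h2 : z₁⁻¹ * x = 1 := by
    apply h.comp_center h.comp (L.mul_mem (L.inv_mem hz.mem) hx)
    intro l hl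
    rw [h1]
    have e1 := hz.cent l hl
    have e2 := hc' l hl
    have e3 : l * c'⁻¹ = c'⁻¹ * l := by
      calc l * c'⁻¹ = c'⁻¹ * (c' * l) * c'⁻¹ := by group
        _ = c'⁻¹ * (l * c') * c'⁻¹ := by rw [e2]
        _ = _ := by group
    calc l * (c * c'⁻¹) = (l * c) * c'⁻¹ := by group
      _ = c * (l * c'⁻¹) := by rw [e1]; group
      _ = c * c'⁻¹ * l := by rw [e3]; group
  exact (inv_mul_eq_one.1 h2).symm

theorem Z1_ne (h : Sev Q z L u) (hz : Z1 L z z₁ c) : z₁ ≠ 1 := by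
  intro h1
  apply h.not_cent h.comp
  intro l hl
  rw [mem_centralizer_singleton_iff, hz.eq, h1, one_mul]
  exact hz.cent l hl

theorem Z1_sq (h : Sev Q z L u) (hz : Z1 L z z₁ c) : z₁ * z₁ = 1 := by
  have h1 : z₁ * c = c * z₁ := hz.cent z₁ hz.mem
  have h2 : (z₁ * z₁) * (c * c) = 1 := by
    calc (z₁ * z₁) * (c * c) = z₁ * (z₁ * c) * c := by group
      _ = z₁ * (c * z₁) * c := by rw [h1]
      _ = (z₁ * c) * (z₁ * c) := by group
      _ = 1 := by rw [← hz.eq]; exact h.sq
  apply h.comp_center h.comp (L.mul_mem hz.mem hz.mem)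
  intro l hl
  have h3 : z₁ * z₁ = (c * c)⁻¹ := mul_eq_one_iff_eq_inv.1 h2
  have e1 := hz.cent l hl
  have e2 : l * (c * c) = (c * c) * l := by
    calc l * (c * c) = (l * c) * c := by group
      _ = (c * l) * c := by rw [e1]
      _ = c * (l * c) := by group
      _ = c * (c * l) := by rw [e1]
      _ = c * c * l := by group
  rw [h3]
  calc l * (c * c)⁻¹ = (c * c)⁻¹ * ((c * c) * l) * (c * c)⁻¹ := by group
    _ = (c * c)⁻¹ * (l * (c * c)) * (c * c)⁻¹ := by rw [e2]
    _ = _ := by group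

theorem Z1_inv (h : Sev Q z L u) (hz : Z1 L z z₁ c) : z₁⁻¹ = z₁ := inv_eq_of_mul_eq_one_left (h.Z1_sq hz)

/-- `C_L(z) = C_L(z₁)` -/
theorem cent_iff (_h : Sev Q z L u) (hz : Z1 L z z₁ c) {x : G} (hx : x ∈ L) : x * z = z * x ↔ x * z₁ = z₁ * x := by
  have e1 := hz.cent x hx
  rw [hz.eq]
  constructor
  · intro h1
    have h2 : x * z₁ * c = z₁ * x * c := by
      calc x * z₁ * c = x * (z₁ * c) := by group
        _ = z₁ * (c * x) := by rw [h1]; group
        _ = z₁ * x * c := by rw [← e1]; group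
    exact mul_right_cancel h2
  · intro h1
    calc x * (z₁ * c) = (x * z₁) * c := by group
      _ = z₁ * (x * c) := by rw [h1]; group
      _ = z₁ * c * x := by rw [e1]; group

theorem z1_cent (h : Sev Q z L u) (hz : Z1 L z z₁ c) : z₁ * z = z * z₁ := (h.cent_iff hz hz.mem).2 rfl

/-- the squares -/
theorem sq_mem (h : Sev Q z L u) (hz : Z1 L z z₁ c) {x : G} (hx : x ∈ L) (hxz : x * z = z * x) :
    x * x = 1 ∨ x * x = z₁ := by
  have ha := h.a_mem hxz
  have hc : x⁻¹ * (u * x * u⁻¹) = (u * x * u⁻¹) * x⁻¹ := h.cmt (L.inv_mem hx) (mem_cj hx)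
  have hxx : (u * x * u⁻¹) * (u * x * u⁻¹) ∈ cj L u := (cj L u).mul_mem (mem_cj hx) (mem_cj hx)
  have h1 : x⁻¹ * (u * x * u⁻¹) * (x⁻¹ * (u * x * u⁻¹)) = (x * x)⁻¹ * ((u * x * u⁻¹) * (u * x * u⁻¹)) := by
    calc x⁻¹ * (u * x * u⁻¹) * (x⁻¹ * (u * x * u⁻¹)) = x⁻¹ * ((u * x * u⁻¹) * x⁻¹) * (u * x * u⁻¹) := by group
      _ = x⁻¹ * (x⁻¹ * (u * x * u⁻¹)) * (u * x * u⁻¹) := by rw [← hc]
      _ = _ := by group
  rcases h.qsq _ ha with h2 | h2
  · left
    rw [h1, inv_mul_eq_one] at h2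
    apply h.disj (L.mul_mem hx hx)
    rw [h2]; exact hxx
  · right
    rw [h1] at h2
    have h3 := h.Z1_unique hz (x := (x * x)⁻¹) (L.inv_mem (L.mul_mem hx hx)) (fun l hl => h.cmt hl hxx) h2.symm
    rw [← h.Z1_inv hz, ← h3, inv_inv]

/-- elements of other components -/
theorem comp_comm {K K' : Subgroup G} (hK : IsComponent K) (hK' : IsComponent K') (hne : K ≠ K') {x y : G}
    (hx : x ∈ K) (hy : y ∈ K') : x * y = y * x :=
  (mem_centralizer_iff.1 (Components.components_commute hK hK' hne hx) y hy).symm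

/-- three components -/
theorem third (h : Sev Q z L u) (hz : Z1 L z z₁ c) {L₃ : Subgroup G} (hL₃ : IsComponent L₃) (h3 : L₃ ≠ L)
    (h3' : L₃ ≠ cj L u) {x : G} (hx : x ∈ L) (hxz : x * z = z * x) : x = 1 ∨ x = z₁ := by
  by_contra hcon
  push Not at hcon
  obtain ⟨hx1, hxz1⟩ := hcon
  set y := u * x * u⁻¹ with hy
  have hyL : y ∈ cj L u := mem_cj hx
  have ha : x⁻¹ * y ∈ Q := h.a_mem hxz
  have hxy : x⁻¹ * y = y * x⁻¹ := h.cmt (L.inv_mem hx) hyL
  have hL₃a : ∀ w ∈ L₃, w * (x⁻¹ * y) = (x⁻¹ * y) * w := by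
    intro w hw
    have e1 := comp_comm hL₃ h.comp h3 hw (L.inv_mem hx)
    have e2 := comp_comm hL₃ h.comp_cj h3' hw hyL
    calc w * (x⁻¹ * y) = (w * x⁻¹) * y := by group
      _ = x⁻¹ * (w * y) := by rw [e1]; group
      _ = x⁻¹ * y * w := by rw [e2]; group
  obtain ⟨v, hv, hva⟩ : ∃ v ∈ Q, (x⁻¹ * y) * v ≠ v * (x⁻¹ * y) := by
    by_contra hcon
    push Not at hcon
    rcases h.center _ ha hcon with h1 | h1
    · apply hx1
      apply h.disj hx
      rw [inv_mul_eq_one.1 h1]; exact hyL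
    · apply h.not_cent hL₃
      intro w hw
      rw [mem_centralizer_singleton_iff, ← h1]
      exact hL₃a w hw
  have h1 := (LargeExtra.ExData.comm h.toExData _ ha v hv).resolve_left hva
  have h2 : v * (x⁻¹ * y) * v⁻¹ = z * (x⁻¹ * y) := by
    calc v * (x⁻¹ * y) * v⁻¹ = (z * z) * (v * (x⁻¹ * y)) * v⁻¹ := by rw [h.sq, one_mul]
      _ = z * (z * (v * (x⁻¹ * y))) * v⁻¹ := by group
      _ = z * ((x⁻¹ * y) * v) * v⁻¹ := by rw [h1]
      _ = _ := by group
  -- components not among the conjugates by `v` centralize `z a`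
  have key : ∀ K : Subgroup G, IsComponent K → K ≠ cj L v → K ≠ cj (cj L u) v → ∀ w ∈ K,
      w * (z * (x⁻¹ * y)) = z * (x⁻¹ * y) * w := by
    intro K hK hK1 hK2 w hw
    rw [← h2]
    have e1 := comp_comm hK (Components.isComponent_conj v h.comp) hK1 hw (mem_cj (u := v) (L.inv_mem hx))
    have e2 := comp_comm hK (Components.isComponent_conj v h.comp_cj) hK2 hw (mem_cj (u := v) hyL)
    calc w * (v * (x⁻¹ * y) * v⁻¹) = (w * (v * x⁻¹ * v⁻¹)) * (v * y * v⁻¹) := by group
      _ = (v * x⁻¹ * v⁻¹) * (w * (v * y * v⁻¹)) := by rw [e1]; group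
      _ = (v * x⁻¹ * v⁻¹) * ((v * y * v⁻¹) * w) := by rw [e2]
      _ = _ := by group
  have hmem3 : L₃ = cj L v ∨ L₃ = cj (cj L u) v := by
    by_contra hcon
    push Not at hcon
    apply h.not_cent hL₃
    intro w hw
    rw [mem_centralizer_singleton_iff]
    have e1 := key L₃ hL₃ hcon.1 hcon.2 w hw
    have e2 := hL₃a w hw
    have e3 : w * z * (x⁻¹ * y) = z * w * (x⁻¹ * y) := by
      calc w * z * (x⁻¹ * y) = w * (z * (x⁻¹ * y)) := by group
        _ = z * ((x⁻¹ * y) * w) := by rw [e1]; group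
        _ = z * (w * (x⁻¹ * y)) := by rw [e2]
        _ = _ := by group
    exact mul_right_cancel e3
  have hor : (L ≠ cj L v ∧ L ≠ cj (cj L u) v) ∨ (cj L u ≠ cj L v ∧ cj L u ≠ cj (cj L u) v) := by
    by_contra hcon
    push Not at hcon
    obtain ⟨c1, c2⟩ := hcon
    rcases hmem3 with h4 | h4
    · have h5 : L ≠ cj L v := by rw [← h4]; exact h3.symm
      have h6 : cj L u ≠ cj L v := by rw [← h4]; exact h3'.symm
      exact h.ne_cj ((c2 h6).trans (c1 h5).symm)
    · have h5 : L ≠ cj (cj L u) v := by rw [← h4]; exact h3.symm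
      have h6 : cj L u ≠ cj (cj L u) v := by rw [← h4]; exact h3'.symm
      have h7 : L = cj L v := by
        by_contra h8; exact h5 (c1 h8)
      have h9 : cj L u = cj L v := by
        by_contra h8; exact h6 (c2 h8)
      exact h.ne_cj (h9.trans h7.symm)
  rcases hor with ⟨h4, h5⟩ | ⟨h4, h5⟩
  · apply hxz1
    have e0 := key L h.comp h4 h5
    apply h.Z1_unique hz (c' := x⁻¹ * z) hx
    · intro l hl
      have e1 := e0 l hl
      have e2 := h.cmt hl hyL
      have e3 : l * (z * x⁻¹) * y = (z * x⁻¹) * l * y := by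
        calc l * (z * x⁻¹) * y = l * (z * (x⁻¹ * y)) := by group
          _ = z * x⁻¹ * (y * l) := by rw [e1]; group
          _ = z * x⁻¹ * (l * y) := by rw [e2]
          _ = _ := by group
      have e4 := mul_right_cancel e3
      have e5 : z * x⁻¹ = x⁻¹ * z := by
        calc z * x⁻¹ = x⁻¹ * (x * z) * x⁻¹ := by group
          _ = x⁻¹ * (z * x) * x⁻¹ := by rw [hxz]
          _ = _ := by group
      rwa [e5] at e4
    · group
  · apply hxz1
    have e0 := key (cj L u) h.comp_cj h4 h5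
    have e6 : x⁻¹ = z₁ := by
      apply h.Z1_unique hz (c' := x * z) (L.inv_mem hx)
      · intro l hl
        have e1 := e0 (u * l * u⁻¹) (mem_cj hl)
        have e2 := h.cmt (L.inv_mem hx) (mem_cj (u := u) hl)
        have e3 : (u * l * u⁻¹) * (z * y) * x⁻¹ = (z * y) * (u * l * u⁻¹) * x⁻¹ := by
          calc (u * l * u⁻¹) * (z * y) * x⁻¹ = (u * l * u⁻¹) * (z * (y * x⁻¹)) := by group
            _ = (u * l * u⁻¹) * (z * (x⁻¹ * y)) := by rw [hxy]
            _ = z * (x⁻¹ * y) * (u * l * u⁻¹) := e1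
            _ = z * (y * x⁻¹) * (u * l * u⁻¹) := by rw [hxy]
            _ = z * y * (x⁻¹ * (u * l * u⁻¹)) := by group
            _ = z * y * ((u * l * u⁻¹) * x⁻¹) := by rw [e2]
            _ = _ := by group
        have e4 := mul_right_cancel e3
        have e5 := h.cen u h.uQ
        have e7 : z * y = u * (x * z) * u⁻¹ := by
          calc z * y = z * u * x * u⁻¹ := by rw [hy]; group
            _ = u * z * x * u⁻¹ := by rw [e5]
            _ = u * (z * x) * u⁻¹ := by group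
            _ = u * (x * z) * u⁻¹ := by rw [hxz]
        rw [e7] at e4
        have e8 : u * (l * (x * z)) * u⁻¹ = u * ((x * z) * l) * u⁻¹ := by
          calc u * (l * (x * z)) * u⁻¹ = u * l * u⁻¹ * (u * (x * z) * u⁻¹) := by group
            _ = u * (x * z) * u⁻¹ * (u * l * u⁻¹) := e4
            _ = _ := by group
        exact mul_left_cancel (mul_right_cancel e8)
      · group
    rw [← h.Z1_inv hz, ← e6, inv_inv]

/-- the Sylow subgroup of `L` -/
theorem sylow (h : Sev Q z L u) : ∃ T : Sylow 2 ↥L, (T : Subgroup ↥L) = (centralizer ({z} : Set G)).subgroupOf L := by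
  have : Fact (Nat.Prime 2) := ⟨Nat.prime_two⟩
  obtain ⟨S, hS⟩ := h.isP.exists_le_sylow
  have hzS : z ∈ (center (S : Subgroup G)).map (S : Subgroup G).subtype := by
    apply h.mem_of_norm
    · have h1 : Nontrivial (S : Subgroup G) := by
        rw [nontrivial_iff_ne_bot]
        intro hb
        have : z ∈ (S : Subgroup G) := hS h.mem
        rw [hb, mem_bot] at this
        exact h.ne this
      have h2 := S.isPGroup'.center_nontrivial
      intro h3
      rw [map_eq_bot_iff_of_injective _ (subtype_injective _)] at h3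
      rw [h3] at h2
      exact not_nontrivial _ h2
    · intro q hq
      rw [mem_normalizer_iff]
      intro w
      have hc : ∀ w ∈ (center (S : Subgroup G)).map (S : Subgroup G).subtype, ∀ q ∈ Q, q * w = w * q := by
        rintro _ ⟨w, hw, rfl⟩ q hq
        exact congrArg Subtype.val (mem_center_iff.1 hw ⟨q, hS hq⟩)
      constructor
      · intro hw
        rw [hc w hw q hq, mul_inv_cancel_right]
        exact hw
      · intro hw
        have e1 := hc _ hw q⁻¹ (Q.inv_mem hq)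
        have e2 : q⁻¹ * (q * w * q⁻¹) = w * q⁻¹ := by group
        rw [e2] at e1
        have e3 : q * w * q⁻¹ = w := by
          calc q * w * q⁻¹ = (q * w * q⁻¹ * q⁻¹) * q := by group
            _ = w * q⁻¹ * q := by rw [← e1]
            _ = w := by group
        rwa [e3] at hw
  obtain ⟨s, hs, hsz⟩ := hzS
  have hSz : ∀ w ∈ (S : Subgroup G), w * z = z * w := by
    intro w hw
    rw [← hsz]
    exact congrArg Subtype.val (mem_center_iff.1 hs ⟨w, hw⟩)
  have h1 : IsPGroup 2 ((centralizer ({z} : Set G)).subgroupOf L) := by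
    rintro ⟨⟨x, hxL⟩, hx⟩
    rw [mem_subgroupOf, mem_centralizer_singleton_iff] at hx
    obtain ⟨k, hk⟩ := h.two_group hxL hx
    exact ⟨k, Subtype.ext (Subtype.ext hk)⟩
  have h2 : ¬ 2 ∣ ((centralizer ({z} : Set G)).subgroupOf L).index := by
    have h3 := Subnormal.not_dvd_relIndex_sylow 2 h.comp.1 S
    rw [inf_relIndex_right] at h3
    intro hd
    apply h3
    apply hd.trans
    apply index_dvd_of_le
    intro w hw
    rw [mem_subgroupOf] at hw ⊢
    rw [mem_centralizer_singleton_iff]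
    exact hSz _ hw
  exact ⟨h1.toSylow h2, rfl⟩

/-- the Sylow subgroup of `L` has order at least 4 -/
theorem not_small (h : Sev Q z L u) (hz : Z1 L z z₁ c) (hs : ∀ x ∈ L, x * z = z * x → x = 1 ∨ x = z₁) : False := by
  have : Fact (Nat.Prime 2) := ⟨Nat.prime_two⟩
  obtain ⟨T, hT⟩ := h.sylow
  have hmem : ∀ x : ↥L, x ∈ (T : Subgroup ↥L) ↔ (x : G) * z = z * x := by
    intro x
    rw [hT, mem_subgroupOf, mem_centralizer_singleton_iff]
  have hcyc : IsCyclic (T : Subgroup ↥L) := by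
    refine ⟨⟨⟨⟨z₁, hz.mem⟩, (hmem _).2 (h.z1_cent hz)⟩, ?_⟩⟩
    rintro ⟨⟨x, hxL⟩, hx⟩
    rcases hs x hxL ((hmem _).1 hx) with rfl | rfl
    · exact ⟨0, zpow_zero _⟩
    · exact mem_zpowers _
  obtain ⟨H, hH⟩ := QWFusion.exists_index_two_of_cyclic_sylow T hcyc (by
    intro hb
    have : (⟨z₁, hz.mem⟩ : ↥L) ∈ (T : Subgroup ↥L) := (hmem _).2 (h.z1_cent hz)
    rw [hb, mem_bot] at this
    exact h.Z1_ne hz (congrArg Subtype.val this))
  have hsimple := h.comp_simple h.comp
  have hn : H.Normal := normal_of_index_eq_two hH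
  rcases hn.eq_bot_or_eq_top with h1 | h1
  · rw [h1, index_bot] at hH
    have hp : IsCyclic ↥L := isCyclic_of_prime_card hH
    apply Components.not_isMulCommutative_of_quasisimple h.comp.2
    exact ⟨⟨fun a b => hp.commGroup.mul_comm a b⟩⟩
  · rw [h1, index_top] at hH
    omega

/-- all components are `L` and its conjugate -/
theorem only_two (h : Sev Q z L u) {K : Subgroup G} (hK : IsComponent K) : K = L ∨ K = cj L u := by
  by_contra hcon
  push Not at hcon
  obtain ⟨z₁, c, hz⟩ := h.exists_Z1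
  exact h.not_small hz (fun x hx hxz => h.third hz hK hcon.1 hcon.2 hx hxz)

theorem layer_eq (h : Sev Q z L u) : L ⊔ cj L u = layer G := by
  apply le_antisymm
  · exact sup_le (Layer.component_le_layer h.comp) (Layer.component_le_layer h.comp_cj)
  · change sSup _ ≤ _
    apply sSup_le
    intro K hK
    rcases h.only_two hK with h1 | h1
    · rw [h1]; exact le_sup_left
    · rw [h1]; exact le_sup_right

theorem mem_layer_iff (h : Sev Q z L u) {m : G} (hm : m ∈ layer G) : ∃ l ∈ L, ∃ l' ∈ cj L u, m = l * l' := by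
  rw [← h.layer_eq, Components.mem_sup_of_commute (Components.components_commute h.comp h.comp_cj h.ne_cj.symm)] at hm
  obtain ⟨l, hl, l', hl', e⟩ := hm
  exact ⟨l, hl, l', hl', e.symm⟩

theorem cj_cj (h : Sev Q z L u) : cj (cj L u) u = L := by
  rcases h.only_two (Components.isComponent_conj u h.comp_cj) with h1 | h1
  · exact h1
  · exfalso
    have h2 : cj (cj L u) u = cj L u := h1
    have h3 : cj L u = L := Subgroup.map_injective (MulAut.conj u).injective h2
    exact h.ne_cj h3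

/-- the second component of `z` -/
theorem z_eq (h : Sev Q z L u) (hz : Z1 L z z₁ c) : c = u * z₁ * u⁻¹ := by
  obtain ⟨l, hl, l', hl', e⟩ := h.mem_layer_iff h.mem_layer
  have e1 := h.Z1_unique hz hl (fun x hx => h.cmt hx hl') e
  have e2 : l' = c := by
    have := hz.eq
    rw [e, e1] at this
    exact mul_left_cancel this
  rw [e2] at hl'
  have hu : u * z * u⁻¹ = z := by
    rw [h.cen u h.uQ, mul_inv_cancel_right]
  have h3 : u * c * u⁻¹ ∈ L := by
    have := mem_cj (u := u) hl'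
    rwa [h.cj_cj] at this
  have h4 : u * z₁ * u⁻¹ ∈ cj L u := mem_cj hz.mem
  have h5 : z = (u * c * u⁻¹) * (u * z₁ * u⁻¹) := by
    calc z = u * z * u⁻¹ := hu.symm
      _ = (u * z₁ * u⁻¹) * (u * c * u⁻¹) := by rw [hz.eq]; group
      _ = _ := (h.cmt h3 h4).symm
  have h6 := h.Z1_unique hz h3 (fun x hx => h.cmt hx h4) h5
  rw [h6] at h5
  have h7 : z₁ * c = z₁ * (u * z₁ * u⁻¹) := by rw [← hz.eq]; exact h5
  exact mul_left_cancel h7

/-- the last claim -/
theorem ne_core (h : Sev Q z L u) :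
    Q ≠ (pCore 2 ↥(centralizer ({z} : Set G))).map (centralizer ({z} : Set G)).subtype := by
  intro hQ
  obtain ⟨z₁, c, hz⟩ := h.exists_Z1
  have hc := h.z_eq hz
  have hcL : c ∈ cj L u := by rw [hc]; exact mem_cj hz.mem
  have hEn : (layer G).Normal := inferInstance
  have hD : (layer G).subgroupOf (centralizer ({z} : Set G)) ≤ pCore 2 ↥(centralizer ({z} : Set G)) := by
    apply le_sSup
    refine ⟨inferInstance, ?_⟩
    rintro ⟨⟨m, hmz⟩, hm⟩
    rw [mem_subgroupOf] at hm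
    rw [mem_centralizer_singleton_iff] at hmz
    obtain ⟨l, hl, l', hl', hm''⟩ := h.mem_layer_iff hm
    have hm' : m = l * l' := hm''
    have hll' := h.cmt hl hl'
    have h1 : m * z * m⁻¹ = z := by rw [hmz, mul_inv_cancel_right]
    have h2 : m * z * m⁻¹ = (l * z₁ * l⁻¹) * (l' * c * l'⁻¹) := by
      have f1 : l' * z₁ = z₁ * l' := (h.cmt hz.mem hl').symm
      have f2 : l⁻¹ * (l' * c * l'⁻¹) = (l' * c * l'⁻¹) * l⁻¹ :=
        h.cmt (L.inv_mem hl) ((cj L u).mul_mem ((cj L u).mul_mem hl' hcL) ((cj L u).inv_mem hl'))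
      calc m * z * m⁻¹ = l * (l' * z₁) * c * l'⁻¹ * l⁻¹ := by rw [hm', hz.eq]; group
        _ = l * z₁ * ((l' * c * l'⁻¹) * l⁻¹) := by rw [f1]; group
        _ = l * z₁ * (l⁻¹ * (l' * c * l'⁻¹)) := by rw [f2]
        _ = _ := by group
    rw [h1] at h2
    have h3 := h.Z1_unique hz (x := l * z₁ * l⁻¹) (L.mul_mem (L.mul_mem hl hz.mem) (L.inv_mem hl))
      (fun x hx => h.cmt hx ((cj L u).mul_mem ((cj L u).mul_mem hl' hcL) ((cj L u).inv_mem hl'))) h2
    have h4 : l * z₁ = z₁ * l := by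
      calc l * z₁ = (l * z₁ * l⁻¹) * l := by group
        _ = z₁ * l := by rw [h3]
    have h5 : l' * c = c * l' := by
      have : z₁ * c = z₁ * (l' * c * l'⁻¹) := by
        rw [h3] at h2
        rw [← hz.eq]; exact h2
      have h6 := mul_left_cancel this
      calc l' * c = (l' * c * l'⁻¹) * l' := by group
        _ = c * l' := by rw [← h6]
    obtain ⟨i, hi⟩ := h.two_group hl ((h.cent_iff hz hl).2 h4)
    obtain ⟨k, hk, hkl⟩ := hl'
    have hkl' : u * k * u⁻¹ = l' := hkl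
    have h7 : k * z₁ = z₁ * k := by
      have h8 : u * (k * z₁) * u⁻¹ = u * (z₁ * k) * u⁻¹ := by
        calc u * (k * z₁) * u⁻¹ = (u * k * u⁻¹) * (u * z₁ * u⁻¹) := by group
          _ = (u * z₁ * u⁻¹) * (u * k * u⁻¹) := by rw [hkl', ← hc, h5]
          _ = _ := by group
      exact mul_left_cancel (mul_right_cancel h8)
    obtain ⟨j, hj⟩ := h.two_group hk ((h.cent_iff hz hk).2 h7)
    have hj' : l' ^ 2 ^ j = 1 := by
      rw [← hkl', conj_pow, hj]; group
    refine ⟨i + j, Subtype.ext (Subtype.ext ?_)⟩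
    change m ^ 2 ^ (i + j) = 1
    have hcm : Commute l l' := hll'
    rw [hm', hcm.mul_pow, pow_add, pow_mul, hi, one_pow, one_mul, mul_comm, pow_mul, hj', one_pow]
  apply h.not_small hz
  intro x hx hxz
  have hxQ : x ∈ Q := by
    rw [hQ]
    refine ⟨⟨x, mem_centralizer_singleton_iff.2 hxz⟩, hD ?_, rfl⟩
    rw [mem_subgroupOf]
    exact Layer.component_le_layer h.comp hx
  rcases LargeExtra.ExData.comm h.toExData x hxQ u h.uQ with h1 | h1
  · left
    apply h.disj hx
    have h2 : u * x * u⁻¹ = x := by rw [← h1, mul_inv_cancel_right]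
    rw [← h2]
    exact mem_cj hx
  · right
    have h2 : z = x * (u * x * u⁻¹)⁻¹ := by
      calc z = (z * (u * x)) * (u * x)⁻¹ := by group
        _ = (x * u) * (u * x)⁻¹ := by rw [h1]
        _ = _ := by group
    exact h.Z1_unique hz hx (fun l hl => h.cmt hl ((cj L u).inv_mem (mem_cj hx))) h2

end Sev

end Cfsg.Agent.Lib.LgEx
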