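import Mathlib
import Cfsg.Prelude.Def_RootSubgroups

/-!
Linear Baer–Suzuki (owner: helper84): a conjugation-invariant set `W` of subgroups of `GL(M)`, any two of which
generate a unipotent group, generates a unipotent group.
-/
set_option autoImplicit false
open Cfsg
open scoped Pointwise

namespace Cfsg.Agent.Lib.LinBaerSuzuki

section alg
variable {k : Type*} [Field k] {R : Type*} [Ring R] [Algebra k R]

/-- the non-unital algebra generated by a set, as a submodule -/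
def Cl (k : Type*) [Field k] {R : Type*} [Ring R] [Algebra k R] (X : Set R) : Submodule k R :=
  sInf {S : Submodule k R | X ⊆ (S : Set R) ∧ S * S ≤ S}

theorem subset_Cl (X : Set R) : X ⊆ (Cl k X : Set R) := by
  intro x hx
  simp only [Cl, SetLike.mem_coe, Submodule.mem_sInf]
  intro S hS
  exact hS.1 hx

theorem Cl_le {X : Set R} {S : Submodule k R} (h1 : X ⊆ (S : Set R)) (h2 : S * S ≤ S) : Cl k X ≤ S :=
  sInf_le ⟨h1, h2⟩

theorem Cl_mul (X : Set R) : Cl k X * Cl k X ≤ Cl k X := by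
  refine le_sInf fun S hS => ?_
  exact (mul_le_mul' (Cl_le hS.1 hS.2) (Cl_le hS.1 hS.2)).trans hS.2

theorem Cl_mono {X Y : Set R} (h : X ⊆ Y) : Cl k X ≤ Cl k Y :=
  Cl_le (h.trans (subset_Cl Y)) (Cl_mul Y)

theorem one_sup_mul {X : Submodule k R} (hX : X * X ≤ X) : (1 ⊔ X) * (1 ⊔ X) ≤ 1 ⊔ X := by
  rw [Submodule.mul_sup, Submodule.sup_mul, Submodule.sup_mul]
  simp only [mul_one, one_mul]
  exact sup_le le_rfl (sup_le le_sup_right (hX.trans le_sup_right))

theorem combine {D X : Submodule k R} (hD : D * D ≤ D) (hX : X * X ≤ X) (hXD : X * D ≤ D * (1 ⊔ X))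
    {n q : ℕ} (hDn : D ^ n = ⊥) (hXq : X ^ q = ⊥) (hq : 1 ≤ q) (Z : Set R) (hZ : Z ⊆ ((X ⊔ D : Submodule k R) : Set R)) :
    (Cl k Z) ^ (q * n) = ⊥ := by
  set Y := (1 : Submodule k R) ⊔ X with hY
  have hYY : Y * Y ≤ Y := one_sup_mul hX
  have h1Y : (1 : Submodule k R) ≤ Y := le_sup_left
  have hXY : X ≤ Y := le_sup_right
  have hYD : Y * D ≤ D * Y := by
    rw [hY, Submodule.sup_mul, one_mul]
    refine sup_le ?_ hXD
    calc D = D * 1 := (mul_one D).symm
      _ ≤ D * Y := mul_le_mul' le_rfl h1Y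
  have hDDY : D ≤ D * Y := by
    calc D = D * 1 := (mul_one D).symm
      _ ≤ D * Y := mul_le_mul' le_rfl h1Y
  have hYDY : Y * (D * Y) ≤ D * Y := by
    calc Y * (D * Y) = (Y * D) * Y := (mul_assoc _ _ _).symm
      _ ≤ (D * Y) * Y := mul_le_mul' hYD le_rfl
      _ = D * (Y * Y) := mul_assoc _ _ _
      _ ≤ D * Y := mul_le_mul' le_rfl hYY
  have hDYY : (D * Y) * Y ≤ D * Y := by
    rw [mul_assoc]; exact mul_le_mul' le_rfl hYY
  have hDYDY : (D * Y) * (D * Y) ≤ (D * D) * Y := by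
    calc (D * Y) * (D * Y) = D * (Y * (D * Y)) := mul_assoc _ _ _
      _ ≤ D * (D * Y) := mul_le_mul' le_rfl hYDY
      _ = (D * D) * Y := (mul_assoc _ _ _).symm
  set B := X ⊔ D * Y with hB
  have hBj : ∀ j : ℕ, B ^ (j + 1) ≤ X ^ (j + 1) ⊔ D * Y := by
    have hXj : ∀ j : ℕ, X ^ (j + 1) ≤ Y := by
      intro j
      induction j with
      | zero => simpa using hXY
      | succ j ih => rw [pow_succ]; exact (mul_le_mul' ih hXY).trans hYY
    intro j
    induction j with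
    | zero => simp [hB]
    | succ j ih =>
      rw [pow_succ]
      refine (mul_le_mul' ih le_rfl).trans ?_
      rw [hB, Submodule.mul_sup, Submodule.sup_mul, Submodule.sup_mul, ← pow_succ]
      refine sup_le (sup_le le_sup_left ?_) (sup_le ?_ ?_)
      · exact ((mul_le_mul' le_rfl hXY).trans hDYY).trans le_sup_right
      · exact ((mul_le_mul' (hXj j) le_rfl).trans hYDY).trans le_sup_right
      · exact (hDYDY.trans (mul_le_mul' hD le_rfl)).trans le_sup_right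
  have hBB : B * B ≤ B := by
    have := hBj 1
    rw [pow_two] at this
    refine this.trans ?_
    rw [pow_two]
    exact sup_le (hX.trans le_sup_left) le_sup_right
  have hBq : B ^ q ≤ D * Y := by
    obtain ⟨j, rfl⟩ : ∃ j, q = j + 1 := ⟨q - 1, by omega⟩
    have := hBj j
    rwa [hXq, bot_sup_eq] at this
  have hDn' : ∀ m : ℕ, (D * Y) ^ m ≤ D ^ m * Y := by
    intro m
    induction m with
    | zero => simpa using h1Y
    | succ m ih =>
      calc (D * Y) ^ (m + 1) = (D * Y) ^ m * (D * Y) := pow_succ _ _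
        _ ≤ (D ^ m * Y) * (D * Y) := mul_le_mul' ih le_rfl
        _ = D ^ m * (Y * (D * Y)) := mul_assoc _ _ _
        _ ≤ D ^ m * (D * Y) := mul_le_mul' le_rfl hYDY
        _ = D ^ (m + 1) * Y := by rw [← mul_assoc, pow_succ]
  have hClB : Cl k Z ≤ B := by
    refine Cl_le (hZ.trans ?_) hBB
    have : X ⊔ D ≤ B := sup_le le_sup_left (hDDY.trans le_sup_right)
    exact this
  rw [eq_bot_iff, pow_mul]
  calc ((Cl k Z) ^ q) ^ n ≤ (B ^ q) ^ n := pow_le_pow_left' (pow_le_pow_left' hClB q) n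
    _ ≤ (D * Y) ^ n := pow_le_pow_left' hBq n
    _ ≤ D ^ n * Y := hDn' n
    _ = ⊥ := by rw [hDn, Submodule.bot_mul]

end alg

section grp
variable {k : Type*} [Field k] {M : Type*} [AddCommGroup M] [Module k M]

/-- augmentation elements of a subgroup -/
def XA (A : Subgroup (LinearMap.GeneralLinearGroup k M)) : Set (Module.End k M) :=
  {r | ∃ g ∈ A, r = (g : M →ₗ[k] M) - 1}

/-- augmentation elements of a family -/
def XD (D : Set (Subgroup (LinearMap.GeneralLinearGroup k M))) : Set (Module.End k M) :=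
  {r | ∃ A ∈ D, r ∈ XA A}

theorem XD_mono {D E : Set (Subgroup (LinearMap.GeneralLinearGroup k M))} (h : D ⊆ E) : XD D ⊆ XD E := by
  rintro r ⟨A, hA, hr⟩; exact ⟨A, h hA, hr⟩

theorem XA_subset_XD {D : Set (Subgroup (LinearMap.GeneralLinearGroup k M))} {A : Subgroup (LinearMap.GeneralLinearGroup k M)}
    (h : A ∈ D) : XA A ⊆ XD D := fun _ hr => ⟨A, h, hr⟩

theorem span_XA_mul (A : Subgroup (LinearMap.GeneralLinearGroup k M)) :
    Submodule.span k (XA A) * Submodule.span k (XA A) ≤ Submodule.span k (XA A) := by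
  rw [Submodule.span_mul_span, Submodule.span_le]
  rintro _ ⟨_, ⟨g, hg, rfl⟩, _, ⟨h, hh, rfl⟩, rfl⟩
  have : ((g : M →ₗ[k] M) - 1) * ((h : M →ₗ[k] M) - 1) =
      (((g * h : LinearMap.GeneralLinearGroup k M) : M →ₗ[k] M) - 1) - ((g : M →ₗ[k] M) - 1) - ((h : M →ₗ[k] M) - 1) := by
    rw [Units.val_mul]; noncomm_ring
  show ((g : M →ₗ[k] M) - 1) * ((h : M →ₗ[k] M) - 1) ∈ Submodule.span k (XA A)
  rw [this]
  exact Submodule.sub_mem _ (Submodule.sub_mem _ (Submodule.subset_span ⟨g * h, A.mul_mem hg hh, rfl⟩)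
    (Submodule.subset_span ⟨g, hg, rfl⟩)) (Submodule.subset_span ⟨h, hh, rfl⟩)

theorem list_prod_mem_pow {R : Type*} [Ring R] [Algebra k R] (S : Submodule k R) :
    ∀ l : List R, (∀ r ∈ l, r ∈ S) → l.prod ∈ S ^ l.length := by
  intro l
  induction l with
  | nil => intro _; rw [List.prod_nil, List.length_nil, pow_zero]; exact Submodule.one_le.mp le_rfl
  | cons a l ih =>
    intro h
    rw [List.prod_cons, List.length_cons, pow_succ']
    exact Submodule.mul_mem_mul (h a (by simp)) (ih fun r hr => h r (by simp [hr]))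

theorem isUnipotentOn_iff (A : Subgroup (LinearMap.GeneralLinearGroup k M)) : Cfsg.IsUnipotentOn A ↔
    ∃ n : ℕ, ∀ l : List (LinearMap.GeneralLinearGroup k M), (∀ g ∈ l, g ∈ A) → l.length = n →
      (l.map (fun g : LinearMap.GeneralLinearGroup k M => (Units.val g : Module.End k M) - 1)).prod = 0 := by
  have key : ∀ l : List (LinearMap.GeneralLinearGroup k M),
      (l.map fun g => (g : M →ₗ[k] M) - 1) = (l.map (fun g : LinearMap.GeneralLinearGroup k M => (Units.val g : Module.End k M) - 1)) := by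
    intro l
    induction l with
    | nil => rfl
    | cons a l ih => 
      rw [List.map_cons, ← ih]
      rfl
  unfold Cfsg.IsUnipotentOn
  simp only [key]

theorem unipotent_of_pow {A : Subgroup (LinearMap.GeneralLinearGroup k M)} {S : Submodule k (Module.End k M)} {n : ℕ}
    (hS : S ^ n = ⊥) (hA : XA A ⊆ (S : Set (Module.End k M))) : Cfsg.IsUnipotentOn A := by
  rw [isUnipotentOn_iff]
  refine ⟨n, fun l hl hn => ?_⟩
  have := list_prod_mem_pow S (l.map (fun g : LinearMap.GeneralLinearGroup k M => (Units.val g : Module.End k M) - 1)) (by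
    intro r hr
    obtain ⟨g, hg, rfl⟩ := List.mem_map.mp hr
    exact hA ⟨g, hl g hg, rfl⟩)
  rw [List.length_map, hn, hS] at this
  simpa using this

theorem pow_of_unipotent {A : Subgroup (LinearMap.GeneralLinearGroup k M)} (h : Cfsg.IsUnipotentOn A) :
    ∃ n : ℕ, 1 ≤ n ∧ (Submodule.span k (XA A)) ^ n = ⊥ := by
  rw [isUnipotentOn_iff] at h
  obtain ⟨n, hn⟩ := h
  refine ⟨n + 1, by omega, ?_⟩
  have key : ∀ m : ℕ, (XA A) ^ m ⊆ {r : Module.End k M | ∃ l : List (LinearMap.GeneralLinearGroup k M),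
      (∀ g ∈ l, g ∈ A) ∧ l.length = m ∧ r = (l.map (fun g : LinearMap.GeneralLinearGroup k M => (Units.val g : Module.End k M) - 1)).prod} := by
    intro m
    induction m with
    | zero =>
      intro r hr
      rw [pow_zero] at hr
      have hr' : r = 1 := hr
      exact ⟨[], by simp, rfl, by simpa using hr'⟩
    | succ m ih =>
      intro r hr
      rw [pow_succ'] at hr
      obtain ⟨_, ⟨g, hg, rfl⟩, b, hb, rfl⟩ := hr
      obtain ⟨l, h1, h2, rfl⟩ := ih hb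
      refine ⟨g :: l, ?_, by simp [h2], by simp⟩
      intro x hx
      rcases List.mem_cons.mp hx with rfl | hx
      · exact hg
      · exact h1 x hx
  rw [Submodule.span_pow, eq_bot_iff, Submodule.span_le]
  intro r hr
  rw [pow_succ] at hr
  obtain ⟨a, ha, b, hb, rfl⟩ := hr
  obtain ⟨l, h1, h2, rfl⟩ := key n ha
  show (l.map (fun g : LinearMap.GeneralLinearGroup k M => (Units.val g : Module.End k M) - 1)).prod * b ∈ (⊥ : Submodule k (Module.End k M))
  rw [hn l h1 h2, zero_mul]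
  exact Submodule.zero_mem _

theorem mem_XA_iSup {D : Set (Subgroup (LinearMap.GeneralLinearGroup k M))} :
    XA (⨆ A ∈ D, A) ⊆ (Cl k (XD D) : Set (Module.End k M)) := by
  rintro _ ⟨g, hg, rfl⟩
  rw [iSup_subtype'] at hg
  refine Subgroup.iSup_induction (fun A : D => (A : Subgroup (LinearMap.GeneralLinearGroup k M)))
    (C := fun g => (g : M →ₗ[k] M) - 1 ∈ (Cl k (XD D) : Set (Module.End k M))) hg ?_ ?_ ?_
  · intro A x hx
    exact subset_Cl _ ⟨A, A.2, x, hx, rfl⟩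
  · simp
  · intro x y hx hy
    have : ((x * y : LinearMap.GeneralLinearGroup k M) : M →ₗ[k] M) - 1 =
      ((x : M →ₗ[k] M) - 1) * ((y : M →ₗ[k] M) - 1) + ((x : M →ₗ[k] M) - 1) + ((y : M →ₗ[k] M) - 1) := by
      rw [Units.val_mul]; noncomm_ring
    rw [this]
    exact Submodule.add_mem _ (Submodule.add_mem _ (Cl_mul _ (Submodule.mul_mem_mul hx hy)) hx) hy

theorem XA_conj (A : Subgroup (LinearMap.GeneralLinearGroup k M)) (a : LinearMap.GeneralLinearGroup k M) :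
    XA (Cfsg.conjBy A a) = {r | ∃ s ∈ XA A, r = (a : M →ₗ[k] M) * s * ((a⁻¹ : LinearMap.GeneralLinearGroup k M) : M →ₗ[k] M)} := by
  ext r
  constructor
  · rintro ⟨_, ⟨g, hg, rfl⟩, rfl⟩
    refine ⟨_, ⟨g, hg, rfl⟩, ?_⟩
    show ((a * g * a⁻¹ : LinearMap.GeneralLinearGroup k M) : M →ₗ[k] M) - 1 = _
    rw [Units.val_mul, Units.val_mul, mul_sub, sub_mul, mul_one, Units.mul_inv]
  · rintro ⟨_, ⟨g, hg, rfl⟩, rfl⟩
    refine ⟨a * g * a⁻¹, ⟨g, hg, rfl⟩, ?_⟩
    rw [Units.val_mul, Units.val_mul, mul_sub, sub_mul, mul_one, Units.mul_inv]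

/-- conjugation preserving a family preserves its algebra -/
theorem conj_Cl {D : Set (Subgroup (LinearMap.GeneralLinearGroup k M))} {a : LinearMap.GeneralLinearGroup k M}
    (h : ∀ B ∈ D, Cfsg.conjBy B a ∈ D) {r : Module.End k M} (hr : r ∈ Cl k (XD D)) :
    (a : M →ₗ[k] M) * r * ((a⁻¹ : LinearMap.GeneralLinearGroup k M) : M →ₗ[k] M) ∈ Cl k (XD D) := by
  let φ : Module.End k M →ₗ[k] Module.End k M :=
    (LinearMap.mulRight k ((a⁻¹ : LinearMap.GeneralLinearGroup k M) : Module.End k M)) ∘ₗ (LinearMap.mulLeft k (a : Module.End k M))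
  have hφ : ∀ r, φ r = (a : Module.End k M) * r * ((a⁻¹ : LinearMap.GeneralLinearGroup k M) : Module.End k M) := fun r => rfl
  have : Cl k (XD D) ≤ (Cl k (XD D)).comap φ := by
    refine Cl_le ?_ ?_
    · rintro r ⟨B, hB, hr⟩
      show φ r ∈ Cl k (XD D)
      refine subset_Cl _ ⟨Cfsg.conjBy B a, h B hB, ?_⟩
      rw [XA_conj]
      exact ⟨r, hr, rfl⟩
    · rw [Submodule.mul_le]
      intro x hx y hy
      show φ (x * y) ∈ Cl k (XD D)
      have : φ (x * y) = φ x * φ y := by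
        rw [hφ, hφ, hφ]
        calc (a : Module.End k M) * (x * y) * ((a⁻¹ : LinearMap.GeneralLinearGroup k M) : Module.End k M)
            = (a : Module.End k M) * x * (((a⁻¹ : LinearMap.GeneralLinearGroup k M) : Module.End k M) * (a : Module.End k M)) * y *
              ((a⁻¹ : LinearMap.GeneralLinearGroup k M) : Module.End k M) := by rw [Units.inv_mul]; noncomm_ring
          _ = _ := by noncomm_ring
      rw [this]
      exact Cl_mul _ (Submodule.mul_mem_mul hx hy)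
  exact this hr

/-- the growth lemma -/
theorem growth {W D U : Set (Subgroup (LinearMap.GeneralLinearGroup k M))}
    (hW : ∀ A ∈ W, ∀ B ∈ W, ∀ a ∈ A, Cfsg.conjBy B a ∈ W)
    (hDW : D ⊆ W) (hDU : D ⊆ U) (hUW : U ⊆ W)
    (hD : ∀ B ∈ W, XA B ⊆ (Cl k (XD D) : Set (Module.End k M)) → B ∈ D)
    (hU : ∀ B ∈ W, XA B ⊆ (Cl k (XD U) : Set (Module.End k M)) → B ∈ U)
    {m : ℕ} (hm : (Cl k (XD U)) ^ m = ⊥) (hne : ∃ B ∈ U, B ∉ D) :
    ∃ A ∈ U, A ∉ D ∧ ∀ a ∈ A, ∀ B ∈ D, Cfsg.conjBy B a ∈ D := by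
  classical
  set d := Cl k (XD D) with hd
  set u := Cl k (XD U) with hu
  have hdu : d ≤ u := Cl_mono (XD_mono hDU)
  have huu : u * u ≤ u := Cl_mul _
  have hdd : d * d ≤ d := Cl_mul _
  -- property P i
  let P : ℕ → Prop := fun i => ∀ B ∈ W, XA B ⊆ ((d ⊔ u ^ (i + 1) : Submodule k (Module.End k M)) : Set (Module.End k M)) → B ∈ D
  have hPm : P m := by
    intro B hB h
    apply hD B hB
    have : u ^ (m + 1) = ⊥ := by rw [pow_succ, hm, Submodule.bot_mul]
    rwa [this, sup_bot_eq] at h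
  have hP0 : ¬ P 0 := by
    intro h
    obtain ⟨B, hB, hBD⟩ := hne
    apply hBD
    apply h B (hUW hB)
    rw [zero_add, pow_one]
    intro r hr
    exact (le_sup_right : u ≤ d ⊔ u) (subset_Cl _ ⟨B, hB, hr⟩)
  -- find the last failure
  have hex : ∃ i, ¬ P i ∧ P (i + 1) := by
    by_contra hcon
    push Not at hcon
    have : ∀ i, ¬ P i := by
      intro i
      induction i with
      | zero => exact hP0
      | succ i ih => exact hcon i ih
    exact this m hPm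
  obtain ⟨i, hi1, hi2⟩ := hex
  have hi1' : ∃ B ∈ W, XA B ⊆ ((d ⊔ u ^ (i + 1) : Submodule k (Module.End k M)) : Set (Module.End k M)) ∧ B ∉ D := by
    by_contra hcon
    apply hi1
    intro B hB hBX
    by_contra hBD
    exact hcon ⟨B, hB, hBX, hBD⟩
  obtain ⟨A, hAW, hAX, hAD⟩ := hi1'
  have hupow : ∀ j, u ^ (j + 1) ≤ u := by
    intro j
    induction j with
    | zero => simp
    | succ j ih => rw [pow_succ]; exact (mul_le_mul' ih le_rfl).trans huu
  have hAU : A ∈ U := by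
    apply hU A hAW
    intro r hr
    have h1 := hAX hr
    have h2 : d ⊔ u ^ (i + 1) ≤ u := sup_le hdu (hupow i)
    exact h2 h1
  refine ⟨A, hAU, hAD, fun a ha B hB => ?_⟩
  apply hi2 _ (hW A hAW B (hDW hB) a ha)
  rw [XA_conj]
  rintro _ ⟨s, hs, rfl⟩
  set Q := d ⊔ u ^ (i + 1 + 1) with hQ
  have hsd : s ∈ d := subset_Cl _ ⟨B, hB, hs⟩
  have ha1 : (a : M →ₗ[k] M) - 1 ∈ d ⊔ u ^ (i + 1) := hAX ⟨a, ha, rfl⟩
  have ha2 : ((a⁻¹ : LinearMap.GeneralLinearGroup k M) : M →ₗ[k] M) - 1 ∈ d ⊔ u ^ (i + 1) := hAX ⟨a⁻¹, A.inv_mem ha, rfl⟩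
  have hdui : ∀ x ∈ d, ∀ y ∈ u ^ (i + 1), x * y ∈ u ^ (i + 1 + 1) := by
    intro x hx y hy
    rw [pow_succ' u (i + 1)]
    exact Submodule.mul_mem_mul (hdu hx) hy
  have huid : ∀ x ∈ u ^ (i + 1), ∀ y ∈ d, x * y ∈ u ^ (i + 1 + 1) := by
    intro x hx y hy
    rw [pow_succ u (i + 1)]
    exact Submodule.mul_mem_mul hx (hdu hy)
  have hQl : u ^ (i + 1 + 1) ≤ Q := le_sup_right
  have hQd : d ≤ Q := le_sup_left
  -- the commutator lies in Q
  have hcomm : (a : M →ₗ[k] M) * s - s * (a : M →ₗ[k] M) ∈ Q := by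
    obtain ⟨x, hx, y, hy, hxy⟩ := Submodule.mem_sup.mp ha1
    have e : (a : M →ₗ[k] M) * s - s * (a : M →ₗ[k] M) = (x * s - s * x) + (y * s - s * y) := by
      have : (a : M →ₗ[k] M) = 1 + (x + y) := by rw [hxy]; abel
      rw [this]; noncomm_ring
    rw [e]
    refine Q.add_mem (hQd (d.sub_mem ?_ ?_)) (hQl (Submodule.sub_mem _ (huid _ hy _ hsd) (hdui _ hsd _ hy)))
    · exact hdd (Submodule.mul_mem_mul hx hsd)
    · exact hdd (Submodule.mul_mem_mul hsd hx)
  have hQmul : ∀ x ∈ Q, ∀ y ∈ d ⊔ u ^ (i + 1), x * y ∈ Q := by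
    intro x hx y hy
    obtain ⟨x1, hx1, x2, hx2, rfl⟩ := Submodule.mem_sup.mp hx
    obtain ⟨y1, hy1, y2, hy2, rfl⟩ := Submodule.mem_sup.mp hy
    have h2 : ∀ z ∈ u, x2 * z ∈ Q := by
      intro z hz
      apply hQl
      have h3 : x2 * z ∈ u ^ (i + 1 + 1) * u := Submodule.mul_mem_mul hx2 hz
      have h4 : u ^ (i + 1 + 1) * u ≤ u ^ (i + 1 + 1) := by
        rw [pow_succ u (i + 1), mul_assoc]
        exact mul_le_mul' le_rfl huu
      exact h4 h3
    rw [add_mul, mul_add]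
    refine Q.add_mem (Q.add_mem (hQd (hdd (Submodule.mul_mem_mul hx1 hy1))) (hQl (hdui _ hx1 _ hy2))) ?_
    exact h2 _ (u.add_mem (hdu hy1) (hupow i hy2))
  have e : (a : M →ₗ[k] M) * s * ((a⁻¹ : LinearMap.GeneralLinearGroup k M) : M →ₗ[k] M) =
      s + ((a : M →ₗ[k] M) * s - s * (a : M →ₗ[k] M)) + ((a : M →ₗ[k] M) * s - s * (a : M →ₗ[k] M)) *
        (((a⁻¹ : LinearMap.GeneralLinearGroup k M) : M →ₗ[k] M) - 1) := by
    have h1 : (a : M →ₗ[k] M) * ((a⁻¹ : LinearMap.GeneralLinearGroup k M) : M →ₗ[k] M) = 1 := Units.mul_inv a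
    calc (a : M →ₗ[k] M) * s * ((a⁻¹ : LinearMap.GeneralLinearGroup k M) : M →ₗ[k] M)
        = s * ((a : M →ₗ[k] M) * ((a⁻¹ : LinearMap.GeneralLinearGroup k M) : M →ₗ[k] M)) +
          ((a : M →ₗ[k] M) * s - s * (a : M →ₗ[k] M)) * ((a⁻¹ : LinearMap.GeneralLinearGroup k M) : M →ₗ[k] M) := by noncomm_ring
      _ = _ := by rw [h1]; noncomm_ring
  show (a : M →ₗ[k] M) * s * ((a⁻¹ : LinearMap.GeneralLinearGroup k M) : M →ₗ[k] M) ∈ Q
  rw [e]
  exact Q.add_mem (Q.add_mem (hQd hsd) hcomm) (hQmul _ hcomm _ ha2)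

theorem nilp_mono {S T : Submodule k (Module.End k M)} (h : S ≤ T) {n : ℕ} (hT : T ^ n = ⊥) : S ^ n = ⊥ := by
  rw [eq_bot_iff, ← hT]; exact pow_le_pow_left' h n

theorem pair_nilp {A B : Subgroup (LinearMap.GeneralLinearGroup k M)} (h : Cfsg.IsUnipotentOn (A ⊔ B)) :
    ∃ n : ℕ, 1 ≤ n ∧ (Cl k (XA A ∪ XA B)) ^ n = ⊥ := by
  obtain ⟨n, hn1, hn⟩ := pow_of_unipotent h
  have h1 : Cl k (XA A ∪ XA B) ≤ Submodule.span k (XA (A ⊔ B)) := by
    refine Cl_le ?_ (span_XA_mul (A ⊔ B))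
    apply Set.union_subset
    · rintro r ⟨g, hg, hr⟩
      exact Submodule.subset_span ⟨g, (le_sup_left : A ≤ A ⊔ B) hg, hr⟩
    · rintro r ⟨g, hg, hr⟩
      exact Submodule.subset_span ⟨g, (le_sup_right : B ≤ A ⊔ B) hg, hr⟩
  exact ⟨n, hn1, nilp_mono h1 hn⟩

theorem pair_norm {D : Set (Subgroup (LinearMap.GeneralLinearGroup k M))} {A₁ A₂ : Subgroup (LinearMap.GeneralLinearGroup k M)}
    (hA₁n : ∀ a ∈ A₁, ∀ B ∈ D, Cfsg.conjBy B a ∈ D) (hA₂n : ∀ a ∈ A₂, ∀ B ∈ D, Cfsg.conjBy B a ∈ D) :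
    Cl k (XA A₁ ∪ XA A₂) * Cl k (XD D) ≤ Cl k (XD D) * (1 ⊔ Cl k (XA A₁ ∪ XA A₂)) := by
  set d := Cl k (XD D) with hd
  set X := Cl k (XA A₁ ∪ XA A₂) with hX
  set Y := (1 : Submodule k (Module.End k M)) ⊔ X with hY
  have hYY : Y * Y ≤ Y := one_sup_mul (Cl_mul _)
  -- the submodule of elements x with x * d ≤ d * Y
  let T : Submodule k (Module.End k M) :=
    { carrier := {x | ∀ y ∈ d, x * y ∈ d * Y}
      add_mem' := by
        intro a b ha hb y hy
        rw [add_mul]; exact Submodule.add_mem _ (ha y hy) (hb y hy)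
      zero_mem' := by
        intro y hy
        rw [zero_mul]; exact Submodule.zero_mem _
      smul_mem' := by
        intro c x hx y hy
        rw [smul_mul_assoc]; exact Submodule.smul_mem _ _ (hx y hy) }
  have hXT : X ≤ T := by
    refine Cl_le ?_ ?_
    · have hgen : ∀ A' : Subgroup (LinearMap.GeneralLinearGroup k M), XA A' ⊆ (X : Set (Module.End k M)) →
          (∀ a ∈ A', ∀ B ∈ D, Cfsg.conjBy B a ∈ D) → XA A' ⊆ (T : Set (Module.End k M)) := by
        rintro A' hA'X hA' r hr y hy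
        obtain ⟨a, ha, rfl⟩ := hr
        have h1 := conj_Cl (hA' a ha) hy
        set y' := (a : M →ₗ[k] M) * y * ((a⁻¹ : LinearMap.GeneralLinearGroup k M) : M →ₗ[k] M) with hy'
        have h2 : (a : M →ₗ[k] M) * y = y' * (a : M →ₗ[k] M) := by
          rw [hy']
          calc (a : M →ₗ[k] M) * y = (a : M →ₗ[k] M) * y * (((a⁻¹ : LinearMap.GeneralLinearGroup k M) : M →ₗ[k] M) * (a : M →ₗ[k] M)) := by
                rw [Units.inv_mul, mul_one]
            _ = _ := by noncomm_ring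
        have h3 : ((a : M →ₗ[k] M) - 1) * y = y' * ((a : M →ₗ[k] M) - 1) + (y' - y) * 1 := by
          rw [sub_mul, h2]; noncomm_ring
        rw [h3]
        refine Submodule.add_mem _ (Submodule.mul_mem_mul h1 ?_) (Submodule.mul_mem_mul (d.sub_mem h1 hy) ?_)
        · exact (le_sup_right : X ≤ Y) (hA'X ⟨a, ha, rfl⟩)
        · exact (le_sup_left : (1 : Submodule k (Module.End k M)) ≤ Y) (Submodule.one_le.mp le_rfl)
      apply Set.union_subset
      · exact hgen A₁ (Set.subset_union_left.trans (subset_Cl _)) hA₁n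
      · exact hgen A₂ (Set.subset_union_right.trans (subset_Cl _)) hA₂n
    · rw [Submodule.mul_le]
      intro x hx x' hx' y hy
      have h1 := hx' y hy
      rw [mul_assoc]
      have h2 : ∀ w ∈ d * Y, x * w ∈ d * Y := by
        intro w hw
        induction hw using Submodule.mul_induction_on' with
        | mem_mul_mem m hm n hn =>
          rw [← mul_assoc]
          have h3 : x * m * n ∈ (d * Y) * Y := Submodule.mul_mem_mul (hx m hm) hn
          have h4 : (d * Y) * Y ≤ d * Y := by rw [mul_assoc]; exact mul_le_mul' le_rfl hYY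
          exact h4 h3
        | add a ha b hb h3 h4 => rw [mul_add]; exact Submodule.add_mem _ h3 h4
      exact h2 _ h1
  rw [Submodule.mul_le]
  intro x hx y hy
  exact hXT hx y hy

variable [FiniteDimensional k M]

/-- main step: the algebra generated by the whole family is nilpotent -/
theorem main {W : Set (Subgroup (LinearMap.GeneralLinearGroup k M))}
    (hW : ∀ A ∈ W, ∀ B ∈ W, ∀ a ∈ A, Cfsg.conjBy B a ∈ W)
    (hWW : ∀ A ∈ W, ∀ B ∈ W, Cfsg.IsUnipotentOn (A ⊔ B)) : ∃ n : ℕ, 1 ≤ n ∧ (Cl k (XD W)) ^ n = ⊥ := by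
  classical
  -- good families
  let Good : Set (Subgroup (LinearMap.GeneralLinearGroup k M)) → Prop := fun D => D ⊆ W ∧ ∃ n : ℕ, 1 ≤ n ∧ (Cl k (XD D)) ^ n = ⊥
  let dm : Set (Subgroup (LinearMap.GeneralLinearGroup k M)) → ℕ := fun D => Module.finrank k (Cl k (XD D))
  have hdm_mono : ∀ D E : Set (Subgroup (LinearMap.GeneralLinearGroup k M)), D ⊆ E → dm D ≤ dm E := by
    intro D E h
    exact Submodule.finrank_mono (Cl_mono (XD_mono h))
  have hdm_bound : ∀ D, dm D ≤ Module.finrank k (Module.End k M) := fun D => Submodule.finrank_le _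
  -- maximal good families
  let Mx : Set (Subgroup (LinearMap.GeneralLinearGroup k M)) → Prop := fun U => Good U ∧
    ∀ B ∈ W, XA B ⊆ (Cl k (XD U) : Set (Module.End k M)) → B ∈ U
  let MMx : Set (Subgroup (LinearMap.GeneralLinearGroup k M)) → Prop := fun U => Mx U ∧ ∀ V, Good V → U ⊆ V → V ⊆ U
  have hclose : ∀ D, Good D → ∃ U, D ⊆ U ∧ Mx U ∧ dm U = dm D := by
    intro D hD
    let U : Set (Subgroup (LinearMap.GeneralLinearGroup k M)) := {B | B ∈ W ∧ XA B ⊆ (Cl k (XD D) : Set (Module.End k M))}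
    have hDU : D ⊆ U := fun B hB => ⟨hD.1 hB, (XA_subset_XD hB).trans (subset_Cl _)⟩
    have hUD : Cl k (XD U) = Cl k (XD D) := by
      apply le_antisymm
      · refine Cl_le ?_ (Cl_mul _)
        rintro r ⟨B, hB, hr⟩
        exact hB.2 hr
      · exact Cl_mono (XD_mono hDU)
    refine ⟨U, hDU, ⟨⟨fun B hB => hB.1, ?_⟩, ?_⟩, ?_⟩
    · obtain ⟨n, hn1, hn⟩ := hD.2
      exact ⟨n, hn1, by rw [hUD]; exact hn⟩
    · intro B hB hBX
      rw [hUD] at hBX
      exact ⟨hB, hBX⟩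
    · show Module.finrank k (Cl k (XD U)) = Module.finrank k (Cl k (XD D))
      rw [hUD]
  have hmax : ∀ D, Good D → ∃ U, D ⊆ U ∧ MMx U := by
    intro D hD
    -- choose a good family containing D of maximal dimension
    have : ∃ E, (Good E ∧ D ⊆ E) ∧ ∀ F, (Good F ∧ D ⊆ F) → dm F ≤ dm E := by
      by_contra hcon
      push Not at hcon
      have : ∀ n : ℕ, ∃ E, (Good E ∧ D ⊆ E) ∧ n ≤ dm E := by
        intro n
        induction n with
        | zero => exact ⟨D, ⟨hD, subset_rfl⟩, Nat.zero_le _⟩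
        | succ n ih =>
          obtain ⟨E, hE, hn⟩ := ih
          obtain ⟨F, hF, hlt⟩ := hcon E hE
          exact ⟨F, hF, by omega⟩
      obtain ⟨E, _, hE⟩ := this (Module.finrank k (Module.End k M) + 1)
      have := hdm_bound E
      omega
    obtain ⟨E, ⟨hE, hDE⟩, hEm⟩ := this
    obtain ⟨U, hEU, hU, hdU⟩ := hclose E hE
    refine ⟨U, hDE.trans hEU, hU, fun V hV hUV => ?_⟩
    have h1 : dm V ≤ dm U := by rw [hdU]; exact hEm V ⟨hV, hDE.trans (hEU.trans hUV)⟩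
    have h2 : Cl k (XD U) = Cl k (XD V) := by
      apply Submodule.eq_of_le_of_finrank_le (Cl_mono (XD_mono hUV))
      exact h1
    intro B hB
    apply hU.2 B (hV.1 hB)
    rw [h2]
    exact (XA_subset_XD hB).trans (subset_Cl _)
  -- singletons and pairs are good
  have hpair : ∀ A ∈ W, ∀ B ∈ W, ∃ n : ℕ, 1 ≤ n ∧ (Cl k (XA A ∪ XA B)) ^ n = ⊥ :=
    fun A hA B hB => pair_nilp (hWW A hA B hB)
  by_contra hcon
  have hWbad : ¬ Good W := fun h => hcon h.2
  have hW0 : Good ∅ := by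
    refine ⟨Set.empty_subset _, 1, le_rfl, ?_⟩
    rw [pow_one, eq_bot_iff]
    refine Cl_le ?_ ?_
    · rintro r ⟨A, hA, _⟩
      exact absurd hA (Set.notMem_empty A)
    · rw [Submodule.bot_mul]
  -- two distinct maximal families
  obtain ⟨U₁, -, hU₁⟩ := hmax ∅ hW0
  have hA : ∃ A ∈ W, A ∉ U₁ := by
    by_contra h
    push Not at h
    apply hWbad
    have : U₁ = W := Set.Subset.antisymm hU₁.1.1.1 h
    rw [← this]
    exact hU₁.1.1
  obtain ⟨A, hAW, hAU⟩ := hA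
  have hGA : Good {A} := by
    refine ⟨by simpa using hAW, ?_⟩
    obtain ⟨n, hn1, hn⟩ := hpair A hAW A hAW
    refine ⟨n, hn1, nilp_mono (Cl_mono ?_) hn⟩
    rintro r ⟨B, hB, hr⟩
    rw [Set.mem_singleton_iff] at hB
    subst hB
    exact Or.inl hr
  obtain ⟨U₂, hAU2, hU₂⟩ := hmax {A} hGA
  have hne : U₁ ≠ U₂ := by
    rintro rfl
    exact hAU (hAU2 rfl)
  -- choose pair with maximal intersection
  have : ∃ V₁ V₂ : Set (Subgroup (LinearMap.GeneralLinearGroup k M)), (MMx V₁ ∧ MMx V₂ ∧ V₁ ≠ V₂) ∧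
      ∀ X₁ X₂ : Set (Subgroup (LinearMap.GeneralLinearGroup k M)), (MMx X₁ ∧ MMx X₂ ∧ X₁ ≠ X₂) → dm (X₁ ∩ X₂) ≤ dm (V₁ ∩ V₂) := by
    by_contra hcon2
    push Not at hcon2
    have : ∀ n : ℕ, ∃ V₁ V₂ : Set (Subgroup (LinearMap.GeneralLinearGroup k M)), (MMx V₁ ∧ MMx V₂ ∧ V₁ ≠ V₂) ∧ n ≤ dm (V₁ ∩ V₂) := by
      intro n
      induction n with
      | zero => exact ⟨U₁, U₂, ⟨hU₁, hU₂, hne⟩, Nat.zero_le _⟩
      | succ n ih =>
        obtain ⟨V₁, V₂, hV, hn⟩ := ih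
        obtain ⟨X₁, X₂, hX, hlt⟩ := hcon2 V₁ V₂ hV
        exact ⟨X₁, X₂, hX, by omega⟩
    obtain ⟨V₁, V₂, _, hE⟩ := this (Module.finrank k (Module.End k M) + 1)
    have := hdm_bound (V₁ ∩ V₂)
    omega
  obtain ⟨V₁, V₂, ⟨hV₁, hV₂, hV12⟩, hVmax⟩ := this
  set D := V₁ ∩ V₂ with hD
  have hDW : D ⊆ W := fun B hB => hV₁.1.1.1 hB.1
  have hDcl : ∀ B ∈ W, XA B ⊆ (Cl k (XD D) : Set (Module.End k M)) → B ∈ D := by
    intro B hB hBX
    refine ⟨hV₁.1.2 B hB (hBX.trans ?_), hV₂.1.2 B hB (hBX.trans ?_)⟩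
    · exact Cl_mono (XD_mono Set.inter_subset_left)
    · exact Cl_mono (XD_mono Set.inter_subset_right)
  have hne1 : ∃ B ∈ V₁, B ∉ D := by
    by_contra h
    push Not at h
    have h12 : V₁ ⊆ V₂ := fun B hB => (h B hB).2
    exact hV12 (Set.Subset.antisymm h12 (hV₁.2 V₂ hV₂.1.1 h12))
  have hne2 : ∃ B ∈ V₂, B ∉ D := by
    by_contra h
    push Not at h
    have h12 : V₂ ⊆ V₁ := fun B hB => (h B hB).1
    exact hV12 (Set.Subset.antisymm (hV₂.2 V₁ hV₁.1.1 h12) h12)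
  obtain ⟨n₁, hn₁, hn₁'⟩ := hV₁.1.1.2
  obtain ⟨n₂, hn₂, hn₂'⟩ := hV₂.1.1.2
  obtain ⟨A₁, hA₁, hA₁D, hA₁n⟩ := growth hW hDW Set.inter_subset_left hV₁.1.1.1 hDcl hV₁.1.2 hn₁' hne1
  obtain ⟨A₂, hA₂, hA₂D, hA₂n⟩ := growth hW hDW Set.inter_subset_right hV₂.1.1.1 hDcl hV₂.1.2 hn₂' hne2
  have hA₁W := hV₁.1.1.1 hA₁
  have hA₂W := hV₂.1.1.1 hA₂
  -- the combined family is good
  set E : Set (Subgroup (LinearMap.GeneralLinearGroup k M)) := D ∪ {A₁, A₂} with hE
  have hEgood : Good E := by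
    refine ⟨?_, ?_⟩
    · apply Set.union_subset hDW
      rintro B (rfl | rfl)
      · exact hA₁W
      · exact hA₂W
    · obtain ⟨q, hq1, hq⟩ := hpair A₁ hA₁W A₂ hA₂W
      have hDn : (Cl k (XD D)) ^ n₁ = ⊥ := nilp_mono (Cl_mono (XD_mono Set.inter_subset_left)) hn₁'
      have hXD' := pair_norm hA₁n hA₂n
      refine ⟨q * n₁, Nat.mul_pos hq1 hn₁, ?_⟩
      refine combine (Cl_mul _) (Cl_mul _) hXD' hDn hq hq1 (XD E) ?_
      rintro r ⟨B, hB, hr⟩
      rcases hB with hB | hB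
      · exact (le_sup_right : Cl k (XD D) ≤ _) (subset_Cl _ ⟨B, hB, hr⟩)
      · apply (le_sup_left : Cl k (XA A₁ ∪ XA A₂) ≤ Cl k (XA A₁ ∪ XA A₂) ⊔ Cl k (XD D))
        apply subset_Cl
        rcases hB with rfl | hB
        · exact Or.inl hr
        · rw [Set.mem_singleton_iff] at hB
          subst hB
          exact Or.inr hr
  obtain ⟨V₃, hEV, hV₃⟩ := hmax E hEgood
  have hbig : ∀ (A' : Subgroup (LinearMap.GeneralLinearGroup k M)) (V : Set (Subgroup (LinearMap.GeneralLinearGroup k M))),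
      A' ∈ W → A' ∉ D → D ⊆ V → A' ∈ V → A' ∈ V₃ → dm D < dm (V ∩ V₃) := by
    intro A' V hA'W hA' hDV hA'V hA'3
    have hDV3 : D ⊆ V ∩ V₃ := fun B hB => ⟨hDV hB, hEV (Or.inl hB)⟩
    apply lt_of_le_of_ne (hdm_mono _ _ hDV3)
    intro heq
    have h2 : Cl k (XD D) = Cl k (XD (V ∩ V₃)) := by
      apply Submodule.eq_of_le_of_finrank_le (Cl_mono (XD_mono hDV3))
      exact heq.ge
    apply hA'
    apply hDcl A' hA'W
    rw [h2]
    exact (XA_subset_XD (D := V ∩ V₃) ⟨hA'V, hA'3⟩).trans (subset_Cl _)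
  have h13 : V₁ = V₃ := by
    by_contra h
    have h1 := hVmax V₁ V₃ ⟨hV₁, hV₃, h⟩
    have h2 := hbig A₁ V₁ hA₁W hA₁D Set.inter_subset_left hA₁ (hEV (Or.inr (Or.inl rfl)))
    omega
  have h23 : V₂ = V₃ := by
    by_contra h
    have h1 := hVmax V₂ V₃ ⟨hV₂, hV₃, h⟩
    have h2 := hbig A₂ V₂ hA₂W hA₂D Set.inter_subset_right hA₂ (hEV (Or.inr (Or.inr rfl)))
    omega
  exact hV12 (h13.trans h23.symm)

theorem iSup_unipotent {W : Set (Subgroup (LinearMap.GeneralLinearGroup k M))}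
    (hW : ∀ A ∈ W, ∀ B ∈ W, ∀ a ∈ A, Cfsg.conjBy B a ∈ W)
    (hWW : ∀ A ∈ W, ∀ B ∈ W, Cfsg.IsUnipotentOn (A ⊔ B)) : Cfsg.IsUnipotentOn (⨆ A ∈ W, A) := by
  obtain ⟨n, _, hn⟩ := main hW hWW
  exact unipotent_of_pow hn mem_XA_iSup

end grp

end Cfsg.Agent.Lib.LinBaerSuzuki
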