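import Cfsg.Agent.Lib.CharMisc

set_option autoImplicit false

/-!
Finite unitary groups: elements with all eigenvalues within 30 degrees of 1 generate an abelian normal subgroup
(Frobenius, Blichfeldt; Isaacs, chapter 14). Part 1: matrices.
-/

namespace Cfsg.Agent.Lib.LinBound

open Matrix

variable {n : ℕ}

/-- squared norm of a vector -/
noncomputable def N (v : Fin n → ℂ) : ℝ := ∑ i, ‖v i‖ ^ 2

/-- real part of the quadratic form of a matrix -/
noncomputable def R (A : Matrix (Fin n) (Fin n) ℂ) (v : Fin n → ℂ) : ℝ := (star v ⬝ᵥ A *ᵥ v).re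

/-- Frobenius norm squared -/
noncomputable def θ (M : Matrix (Fin n) (Fin n) ℂ) : ℝ := ∑ j, N (fun i => M i j)

/-- unitary -/
def Un (A : Matrix (Fin n) (Fin n) ℂ) : Prop := Aᴴ * A = 1

def Near (A : Matrix (Fin n) (Fin n) ℂ) : Prop := ∀ v : Fin n → ℂ, v ≠ 0 → Real.sqrt 3 / 2 * N v < R A v

def Half (A : Matrix (Fin n) (Fin n) ℂ) : Prop := ∀ v : Fin n → ℂ, v ≠ 0 → 0 < R A v

theorem N_nonneg (v : Fin n → ℂ) : 0 ≤ N v := Finset.sum_nonneg fun _ _ => by positivity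

theorem N_pos {v : Fin n → ℂ} (hv : v ≠ 0) : 0 < N v := by
  obtain ⟨i, hi⟩ := Function.ne_iff.mp hv
  refine Finset.sum_pos' (fun _ _ => by positivity) ⟨i, Finset.mem_univ _, ?_⟩
  have : 0 < ‖v i‖ := norm_pos_iff.mpr hi
  positivity

theorem N_eq (v : Fin n → ℂ) : star v ⬝ᵥ v = (N v : ℂ) := by
  unfold N dotProduct
  push_cast
  refine Finset.sum_congr rfl fun i _ => ?_
  rw [Pi.star_apply, Complex.star_def, ← Complex.normSq_eq_conj_mul_self, Complex.normSq_eq_norm_sq]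
  push_cast; rfl

theorem N_re (v : Fin n → ℂ) : (star v ⬝ᵥ v).re = N v := by rw [N_eq, Complex.ofReal_re]

theorem R_sub (A B : Matrix (Fin n) (Fin n) ℂ) (v : Fin n → ℂ) : R (A - B) v = R A v - R B v := by
  unfold R; rw [sub_mulVec, dotProduct_sub, Complex.sub_re]

theorem R_one (v : Fin n → ℂ) : R 1 v = N v := by unfold R; rw [one_mulVec, N_re]

theorem star_dot_comm (v w : Fin n → ℂ) : star (star v ⬝ᵥ w) = star w ⬝ᵥ v := by
  rw [Matrix.star_dotProduct, star_star]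

theorem R_conjTranspose (A : Matrix (Fin n) (Fin n) ℂ) (v : Fin n → ℂ) : R Aᴴ v = R A v := by
  unfold R
  have h : star v ⬝ᵥ Aᴴ *ᵥ v = star (star v ⬝ᵥ A *ᵥ v) := by
    rw [star_dot_comm, star_mulVec, ← dotProduct_mulVec]
  rw [h, Complex.star_def, Complex.conj_re]

theorem N_add (v w : Fin n → ℂ) : N (v + w) = N v + N w + 2 * (star v ⬝ᵥ w).re := by
  rw [← N_re, ← N_re, ← N_re, star_add, add_dotProduct, dotProduct_add, dotProduct_add]
  have h : (star w ⬝ᵥ v).re = (star v ⬝ᵥ w).re := by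
    rw [← star_dot_comm, Complex.star_def, Complex.conj_re]
  simp only [Complex.add_re, h]
  ring

theorem N_neg (v : Fin n → ℂ) : N (-v) = N v := by simp [N]

theorem N_sub (v w : Fin n → ℂ) : N (v - w) = N v + N w - 2 * (star v ⬝ᵥ w).re := by
  rw [sub_eq_add_neg, N_add, N_neg, dotProduct_neg, Complex.neg_re]; ring

theorem N_smul (c : ℝ) (v : Fin n → ℂ) : N ((c : ℂ) • v) = c ^ 2 * N v := by
  unfold N
  rw [Finset.mul_sum]
  refine Finset.sum_congr rfl fun i _ => ?_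
  rw [Pi.smul_apply, smul_eq_mul, norm_mul, Complex.norm_real, mul_pow, Real.norm_eq_abs, sq_abs]

theorem N_sub_le (v w : Fin n → ℂ) : N (v - w) ≤ 2 * N v + 2 * N w := by
  have h1 := N_add v w
  have h2 := N_sub v w
  have h3 := N_nonneg (v + w)
  linarith

theorem Un.dot {A : Matrix (Fin n) (Fin n) ℂ} (hA : Un A) (v w : Fin n → ℂ) :
    star (A *ᵥ v) ⬝ᵥ (A *ᵥ w) = star v ⬝ᵥ w := by
  rw [star_mulVec, ← dotProduct_mulVec, mulVec_mulVec, hA, one_mulVec]

theorem Un.N {A : Matrix (Fin n) (Fin n) ℂ} (hA : Un A) (v : Fin n → ℂ) : LinBound.N (A *ᵥ v) = LinBound.N v := by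
  rw [← N_re, hA.dot, N_re]

theorem Un.mul {A B : Matrix (Fin n) (Fin n) ℂ} (hA : Un A) (hB : Un B) : Un (A * B) := by
  unfold Un at *
  rw [conjTranspose_mul, mul_assoc, ← mul_assoc Aᴴ, hA, one_mul, hB]

theorem Un.right {A : Matrix (Fin n) (Fin n) ℂ} (hA : Un A) : A * Aᴴ = 1 := mul_eq_one_comm.mp hA

theorem Un.conjTranspose {A : Matrix (Fin n) (Fin n) ℂ} (hA : Un A) : Un Aᴴ := by
  unfold Un; rw [conjTranspose_conjTranspose]; exact hA.right

theorem Near.conjTranspose {A : Matrix (Fin n) (Fin n) ℂ} (hA : Near A) : Near Aᴴ := by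
  intro v hv; rw [R_conjTranspose]; exact hA v hv

theorem Near.half {A : Matrix (Fin n) (Fin n) ℂ} (hA : Near A) : Half A := by
  intro v hv
  have h1 := hA v hv
  have h2 : 0 ≤ Real.sqrt 3 / 2 * LinBound.N v := mul_nonneg (by positivity) (N_nonneg v)
  linarith

theorem R_conj (A B : Matrix (Fin n) (Fin n) ℂ) (v : Fin n → ℂ) : R (Bᴴ * A * B) v = R A (B *ᵥ v) := by
  unfold R
  rw [star_mulVec, ← mulVec_mulVec, ← mulVec_mulVec, ← dotProduct_mulVec]

theorem Un.mulVec_ne {A : Matrix (Fin n) (Fin n) ℂ} (hA : Un A) {v : Fin n → ℂ} (hv : v ≠ 0) : A *ᵥ v ≠ 0 := by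
  intro h
  have h1 := hA.N v
  rw [h] at h1
  have h2 := N_pos hv
  rw [← h1] at h2
  simp [LinBound.N] at h2

theorem Near.conj {A B : Matrix (Fin n) (Fin n) ℂ} (hA : Near A) (hB : Un B) : Near (Bᴴ * A * B) := by
  intro v hv
  rw [R_conj, ← hB.N v]
  exact hA _ (hB.mulVec_ne hv)

theorem sqrt3_sq : Real.sqrt 3 ^ 2 = 3 := Real.sq_sqrt (by norm_num)

theorem sqrt3_gt : (1.7 : ℝ) < Real.sqrt 3 := by
  rw [show (1.7 : ℝ) = Real.sqrt (1.7 ^ 2) from (Real.sqrt_sq (by norm_num)).symm]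
  exact Real.sqrt_lt_sqrt (by norm_num) (by norm_num)

/-- product of two near unitary matrices is in the open half plane -/
theorem Near.mul_half {A B : Matrix (Fin n) (Fin n) ℂ} (hA : Near A) (hB : Near B) (uA : Un A) (uB : Un B) :
    Half (A * B) := by
  intro v hv
  have h1 : R (A * B) v = (star (Aᴴ *ᵥ v) ⬝ᵥ (B *ᵥ v)).re := by
    unfold R
    rw [star_mulVec, conjTranspose_conjTranspose, ← dotProduct_mulVec, mulVec_mulVec]
  have h2 := N_sub (Aᴴ *ᵥ v) (B *ᵥ v)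
  rw [uA.conjTranspose.N, uB.N] at h2
  have h3 : Aᴴ *ᵥ v - B *ᵥ v = (Aᴴ *ᵥ v - v) - (B *ᵥ v - v) := by abel
  have h4 := N_sub_le (Aᴴ *ᵥ v - v) (B *ᵥ v - v)
  rw [← h3] at h4
  have h5 := N_sub (Aᴴ *ᵥ v) v
  have h6 := N_sub (B *ᵥ v) v
  rw [uA.conjTranspose.N] at h5
  rw [uB.N] at h6
  have h7 : (star (Aᴴ *ᵥ v) ⬝ᵥ v).re = R A v := by
    rw [← R_conjTranspose A v, ← Complex.conj_re, ← Complex.star_def, star_dot_comm]; rfl
  have h8 : (star (B *ᵥ v) ⬝ᵥ v).re = R B v := by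
    rw [← Complex.conj_re, ← Complex.star_def, star_dot_comm]; rfl
  rw [h7] at h5
  rw [h8] at h6
  have h9 := hA v hv
  have h10 := hB v hv
  have h11 := sqrt3_gt
  have h12 := N_pos hv
  rw [h1]
  nlinarith

theorem θ_nonneg (M : Matrix (Fin n) (Fin n) ℂ) : 0 ≤ θ M := Finset.sum_nonneg fun _ _ => N_nonneg _

theorem θ_sub_le (A B : Matrix (Fin n) (Fin n) ℂ) : θ (A - B) ≤ 2 * θ A + 2 * θ B := by
  unfold θ
  rw [Finset.mul_sum, Finset.mul_sum, ← Finset.sum_add_distrib]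
  exact Finset.sum_le_sum fun j _ => N_sub_le _ _

theorem θ_conjTranspose (M : Matrix (Fin n) (Fin n) ℂ) : θ Mᴴ = θ M := by
  unfold θ N
  rw [Finset.sum_comm]
  refine Finset.sum_congr rfl fun i _ => Finset.sum_congr rfl fun j _ => ?_
  show ‖Mᴴ i j‖ ^ 2 = ‖M j i‖ ^ 2
  rw [conjTranspose_apply, norm_star]

theorem col_mul (A M : Matrix (Fin n) (Fin n) ℂ) (j : Fin n) :
    (fun i => (A * M) i j) = A *ᵥ (fun i => M i j) := by
  ext i; simp [Matrix.mul_apply, mulVec, dotProduct]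

theorem Un.θ {A : Matrix (Fin n) (Fin n) ℂ} (hA : Un A) (M : Matrix (Fin n) (Fin n) ℂ) :
    LinBound.θ (A * M) = LinBound.θ M := by
  unfold LinBound.θ
  refine Finset.sum_congr rfl fun j _ => ?_
  rw [col_mul, hA.N]

theorem Near.N_lt {A : Matrix (Fin n) (Fin n) ℂ} (hA : Near A) (uA : Un A) {v : Fin n → ℂ} (hv : v ≠ 0) :
    N ((A - ((Real.sqrt 3 / 2 : ℝ) : ℂ) • (1 : Matrix (Fin n) (Fin n) ℂ)) *ᵥ v) < N v / 4 := by
  rw [sub_mulVec, smul_mulVec, one_mulVec, N_sub, uA.N, N_smul, dotProduct_smul, smul_eq_mul,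
    Complex.re_ofReal_mul]
  have h8 : (star (A *ᵥ v) ⬝ᵥ v).re = R A v := by
    rw [← Complex.conj_re, ← Complex.star_def, star_dot_comm]; rfl
  rw [h8]
  have h1 := hA v hv
  have h2 := sqrt3_sq
  have h3 := N_pos hv
  have h4 := sqrt3_gt
  nlinarith

theorem Near.θ_lt {A : Matrix (Fin n) (Fin n) ℂ} (hA : Near A) (uA : Un A) {M : Matrix (Fin n) (Fin n) ℂ}
    (hM : M ≠ 0) :
    θ ((A - ((Real.sqrt 3 / 2 : ℝ) : ℂ) • (1 : Matrix (Fin n) (Fin n) ℂ)) * M) < θ M / 4 := by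
  unfold θ
  rw [Finset.sum_div]
  have hj : ∃ j, (fun i => M i j) ≠ 0 := by
    by_contra hc
    push Not at hc
    apply hM
    ext i j
    exact congrFun (hc j) i
  obtain ⟨j, hj⟩ := hj
  refine Finset.sum_lt_sum (fun k _ => ?_) ⟨j, Finset.mem_univ _, ?_⟩
  · rw [col_mul]
    by_cases hk : (fun i => M i k) = 0
    · rw [hk, mulVec_zero]; simp [N]
    · exact (hA.N_lt uA hk).le
  · rw [col_mul]; exact hA.N_lt uA hj

/-- the commutator estimate -/
theorem Near.comm_lt {A B : Matrix (Fin n) (Fin n) ℂ} (hA : Near A) (uA : Un A) (hB : B ≠ 1) :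
    θ (A * B - B * A) < θ (B - 1) := by
  set c : ℂ := ((Real.sqrt 3 / 2 : ℝ) : ℂ) with hc
  have h0 : B - 1 ≠ 0 := sub_ne_zero.mpr hB
  have h1 := hA.θ_lt uA h0
  have h0' : (B - 1)ᴴ ≠ 0 := fun h => h0 (by rw [← conjTranspose_conjTranspose (B - 1), h, conjTranspose_zero])
  have h2 := hA.conjTranspose.θ_lt uA.conjTranspose h0'
  have h3 : (Aᴴ - c • (1 : Matrix (Fin n) (Fin n) ℂ)) * (B - 1)ᴴ = ((B - 1) * (A - c • 1))ᴴ := by
    rw [conjTranspose_mul, conjTranspose_sub, conjTranspose_sub A, conjTranspose_smul, conjTranspose_one]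
    rw [hc, Complex.star_def, Complex.conj_ofReal]
  rw [h3, θ_conjTranspose, θ_conjTranspose] at h2
  have h4 : A * B - B * A = (A - c • 1) * (B - 1) - (B - 1) * (A - c • 1) := by
    simp only [sub_mul, mul_sub, mul_one, one_mul, smul_mul_assoc, mul_smul_comm, smul_sub]
    abel
  rw [h4]
  have h5 := θ_sub_le ((A - c • 1) * (B - 1)) ((B - 1) * (A - c • 1))
  linarith

end Cfsg.Agent.Lib.LinBound
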