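import Cfsg.Agent.Lib.LinBound1

set_option autoImplicit false

/-!
Finite unitary groups, part 2: the abelian normal subgroup generated by the elements near 1, and `|H : H ∩ A| ≤ 12^n`.
-/

namespace Cfsg.Agent.Lib.LinBound

open Matrix Module
open scoped ComplexOrder MatrixOrder

variable {n : ℕ} {G : Type*} [Group G] [Finite G]

/-- every representation of a finite group on coordinate space is equivalent to a unitary one -/
theorem exists_unitary (ρ : Representation ℂ G (Fin n → ℂ)) :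
    ∃ U : G →* Matrix (Fin n) (Fin n) ℂ, (∀ g, Un (U g)) ∧ (∀ g, U g = 1 ↔ ρ g = 1) ∧
      ∀ g, (U g).trace = ρ.character g := by
  classical
  haveI := Fintype.ofFinite G
  let M : G → Matrix (Fin n) (Fin n) ℂ := fun g => LinearMap.toMatrix' (ρ g)
  have hM1 : M 1 = 1 := by
    show LinearMap.toMatrix' (ρ 1) = 1
    rw [map_one]; exact LinearMap.toMatrix'_one
  have hM : ∀ g h, M (g * h) = M g * M h := by
    intro g h
    show LinearMap.toMatrix' (ρ (g * h)) = _
    rw [map_mul]; exact LinearMap.toMatrix'_mul _ _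
  let P : Matrix (Fin n) (Fin n) ℂ := ∑ g : G, (M g)ᴴ * M g
  have hPd : P.PosDef := by
    have h1 : P = (M 1)ᴴ * M 1 + ∑ g ∈ Finset.univ.erase (1 : G), (M g)ᴴ * M g :=
      (Finset.add_sum_erase _ (fun g => (M g)ᴴ * M g) (Finset.mem_univ (1 : G))).symm
    rw [h1, hM1, conjTranspose_one, one_mul]
    exact PosDef.one.add_posSemidef (posSemidef_sum _ fun g _ => posSemidef_conjTranspose_mul_self _)
  have hPinv : ∀ g, (M g)ᴴ * P * M g = P := by
    intro g
    show (M g)ᴴ * (∑ h : G, (M h)ᴴ * M h) * M g = ∑ h : G, (M h)ᴴ * M h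
    rw [Finset.mul_sum, Finset.sum_mul]
    rw [← Equiv.sum_comp (Equiv.mulRight g) (fun h : G => (M h)ᴴ * M h)]
    refine Finset.sum_congr rfl fun h _ => ?_
    rw [Equiv.coe_mulRight, hM, conjTranspose_mul]
    simp only [mul_assoc]
  obtain ⟨B, hB⟩ : ∃ B : Matrix (Fin n) (Fin n) ℂ, P = Bᴴ * B :=
    CStarAlgebra.nonneg_iff_eq_star_mul_self.mp hPd.posSemidef.nonneg
  have hBu : IsUnit B := by
    have h1 : IsUnit P.det := (Matrix.isUnit_iff_isUnit_det P).mp hPd.isUnit
    rw [hB, det_mul] at h1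
    exact (Matrix.isUnit_iff_isUnit_det B).mpr (isUnit_of_mul_isUnit_right h1)
  have hBd : IsUnit B.det := (Matrix.isUnit_iff_isUnit_det B).mp hBu
  have hBB : B * B⁻¹ = 1 := Matrix.mul_nonsing_inv B hBd
  have hBB' : B⁻¹ * B = 1 := Matrix.nonsing_inv_mul B hBd
  let U : G →* Matrix (Fin n) (Fin n) ℂ :=
    { toFun := fun g => B * M g * B⁻¹
      map_one' := by rw [hM1, mul_one, hBB]
      map_mul' := fun g h => by
        rw [hM]
        calc B * (M g * M h) * B⁻¹ = B * M g * 1 * M h * B⁻¹ := by simp only [mul_assoc, one_mul]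
          _ = B * M g * (B⁻¹ * B) * M h * B⁻¹ := by rw [hBB']
          _ = B * M g * B⁻¹ * (B * M h * B⁻¹) := by simp only [mul_assoc] }
  refine ⟨U, ?_, ?_, ?_⟩
  · intro g
    show (B * M g * B⁻¹)ᴴ * (B * M g * B⁻¹) = 1
    rw [conjTranspose_mul, conjTranspose_mul]
    calc B⁻¹ᴴ * ((M g)ᴴ * Bᴴ) * (B * M g * B⁻¹) = B⁻¹ᴴ * ((M g)ᴴ * (Bᴴ * B) * M g) * B⁻¹ := by
          simp only [mul_assoc]
      _ = B⁻¹ᴴ * (Bᴴ * B) * B⁻¹ := by rw [← hB, hPinv]
      _ = (B * B⁻¹)ᴴ * (B * B⁻¹) := by rw [conjTranspose_mul]; simp only [mul_assoc]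
      _ = 1 := by rw [hBB, conjTranspose_one, one_mul]
  · intro g
    have h1 : U g = 1 ↔ M g = 1 := by
      show B * M g * B⁻¹ = 1 ↔ _
      constructor
      · intro h
        calc M g = (B⁻¹ * B) * M g * (B⁻¹ * B) := by rw [hBB', one_mul, mul_one]
          _ = B⁻¹ * (B * M g * B⁻¹) * B := by simp only [mul_assoc]
          _ = 1 := by rw [h, mul_one, hBB']
      · intro h; rw [h, mul_one, hBB]
    rw [h1]
    show LinearMap.toMatrix' (ρ g) = 1 ↔ _
    rw [← LinearMap.toMatrix'_one]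
    exact LinearMap.toMatrix'.injective.eq_iff
  · intro g
    show (B * M g * B⁻¹).trace = LinearMap.trace ℂ _ (ρ g)
    rw [Matrix.trace_mul_comm, ← mul_assoc, hBB', one_mul]
    rw [LinearMap.trace_eq_matrix_trace ℂ (Pi.basisFun ℂ (Fin n))]
    rfl

variable (U : G →* Matrix (Fin n) (Fin n) ℂ) (hU : ∀ g, Un (U g))

include hU in
theorem U_inv (g : G) : U g⁻¹ = (U g)ᴴ := by
  have h1 : U g⁻¹ * U g = 1 := by rw [← map_mul, inv_mul_cancel, map_one]
  calc U g⁻¹ = U g⁻¹ * (U g * (U g)ᴴ) := by rw [(hU g).right, mul_one]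
    _ = (U g)ᴴ := by rw [← mul_assoc, h1, one_mul]

theorem U_pow (g : G) : (toLin' (U g)) ^ orderOf g = 1 := by
  rw [← Matrix.toLin'_pow, ← map_pow, pow_orderOf_eq_one, map_one, Matrix.toLin'_one]; rfl

theorem norm_of_eigen {A : Matrix (Fin n) (Fin n) ℂ} (hA : Un A) {v : Fin n → ℂ} (hv : v ≠ 0) {α : ℂ}
    (h : A *ᵥ v = α • v) : star α * α = 1 := by
  have h1 := hA.dot v v
  rw [h, star_smul, smul_dotProduct, dotProduct_smul, smul_eq_mul, smul_eq_mul, ← mul_assoc] at h1
  have h2 : star v ⬝ᵥ v ≠ 0 := by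
    rw [N_eq]
    exact_mod_cast (N_pos hv).ne'
  exact mul_right_cancel₀ h2 (h1.trans (one_mul _).symm)

include hU in
/-- if the commutator of `x` and `y` commutes with `x`, and `y` is in the half plane, then `x` and `y` commute -/
theorem comm_aux {x y : G} (hy : Half (U y)) (hc : Commute x (x⁻¹ * y⁻¹ * x * y)) :
    U (x⁻¹ * y⁻¹ * x * y) = 1 := by
  set z := x⁻¹ * y⁻¹ * x * y with hz
  by_contra hne
  obtain ⟨b, μ, h⟩ := Cfsg.Agent.Lib.CharValues.exists_common_eigenbasis
    (fun i : Bool => toLin' (U (cond i x z)))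
    (by
      have h1 : Commute (toLin' (U x)) (toLin' (U z)) := by
        show toLin' (U x) ∘ₗ toLin' (U z) = toLin' (U z) ∘ₗ toLin' (U x)
        rw [← Matrix.toLin'_mul, ← Matrix.toLin'_mul, ← map_mul, ← map_mul, hc.eq]
      intro i j
      cases i <;> cases j
      · exact Commute.refl _
      · exact h1.symm
      · exact h1
      · exact Commute.refl _)
    (fun i => ⟨orderOf (cond i x z), orderOf_pos _, U_pow U _⟩)
  obtain ⟨j, hj⟩ : ∃ j, μ j false ≠ 1 := by
    by_contra hc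
    push Not at hc
    apply hne
    apply toLin'.injective
    refine b.ext fun j => ?_
    have := h j false
    rw [hc j, one_smul] at this
    rw [toLin'_one]
    exact this
  set v := b j
  have hv : v ≠ 0 := b.ne_zero j
  have hx : U x *ᵥ v = μ j true • v := h j true
  have hzv : U z *ᵥ v = μ j false • v := h j false
  have hα := norm_of_eigen (hU x) hv hx
  have h1 : U x *ᵥ (U y *ᵥ v) = (μ j true * μ j false) • (U y *ᵥ v) := by
    have h2 : x * y = y * (x * z) := by rw [hz]; group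
    rw [mulVec_mulVec, ← map_mul, h2, map_mul, map_mul, ← mulVec_mulVec, ← mulVec_mulVec, hzv, mulVec_smul, hx,
      mulVec_smul, mulVec_smul, smul_smul, mul_comm]
  have h3 := (hU x).dot v (U y *ᵥ v)
  rw [h1, hx, star_smul, smul_dotProduct, dotProduct_smul, smul_eq_mul, smul_eq_mul, ← mul_assoc, ← mul_assoc, hα,
    one_mul] at h3
  have h4 : star v ⬝ᵥ U y *ᵥ v ≠ 0 := by
    intro h0
    have := hy v hv
    unfold R at this
    rw [h0] at this
    simp at this
  exact hj (mul_right_cancel₀ h4 (h3.trans (one_mul _).symm))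

/-- elements near 1 -/
def S : Set G := {x | Near (U x)}

variable (hinj : ∀ g, U g = 1 → g = 1)

include hU hinj

theorem commute_of {x y : G} (hy : Half (U y)) (hc : Commute x (x⁻¹ * y⁻¹ * x * y)) : Commute x y := by
  have h := hinj _ (comm_aux U hU hy hc)
  have : x * y = y * x * (x⁻¹ * y⁻¹ * x * y) := by group
  show x * y = y * x
  rw [this, h, mul_one]

theorem comm_lt {x y : G} (hx : x ∈ S U) (hy : y ≠ 1) :
    θ (U (x⁻¹ * y⁻¹ * x * y) - 1) < θ (U y - 1) := by
  have h1 : U y ≠ 1 := fun h => hy (hinj y h)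
  have h2 := Near.comm_lt (A := U x) (B := U y) hx (hU x) h1
  have h3 : U (x⁻¹ * y⁻¹ * x * y) - 1 = U (x⁻¹ * y⁻¹) * (U x * U y - U y * U x) := by
    rw [mul_sub, ← map_mul, ← map_mul, ← map_mul, ← map_mul]
    congr 1
    · congr 1; group
    · rw [← map_one U]; congr 1; group
  rw [h3, (hU _).θ]
  exact h2

theorem half_comm {x : G} (hx : x ∈ S U) (w : G) : Half (U (x⁻¹ * w⁻¹ * x * w)) := by
  have h1 : U (x⁻¹ * w⁻¹ * x * w) = (U x)ᴴ * ((U w)ᴴ * U x * U w) := by
    rw [map_mul, map_mul, map_mul, U_inv U hU, U_inv U hU]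
    simp only [mul_assoc]
  rw [h1]
  exact Near.mul_half (Near.conjTranspose hx) (Near.conj hx (hU w)) (hU x).conjTranspose
    (((hU w).conjTranspose.mul (hU x)).mul (hU w))

theorem comm1 {x : G} (hx : x ∈ S U) (w : G) : Commute x (x⁻¹ * w⁻¹ * x * w) := by
  have hwf : WellFounded (InvImage (fun a b : ℝ => a < b) (fun y : G => θ (U y - 1))) :=
    Finite.wellFounded_of_trans_of_irrefl _
  have key : ∀ y : G, (∃ w, y = x⁻¹ * w⁻¹ * x * w) → Commute x y := by
    intro y
    refine hwf.induction (C := fun y => (∃ w, y = x⁻¹ * w⁻¹ * x * w) → Commute x y) y ?_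
    intro y ih ⟨w, hw⟩
    by_cases hy : y = 1
    · rw [hy]; exact Commute.one_right x
    · have h1 : Commute x (x⁻¹ * y⁻¹ * x * y) := ih _ (comm_lt U hU hinj hx hy) ⟨y, rfl⟩
      exact commute_of U hU hinj (hw ▸ half_comm U hU hinj hx w) h1
  exact key _ ⟨w, rfl⟩

theorem comm2 {x y : G} (hx : x ∈ S U) (hy : y ∈ S U) : Commute x y :=
  commute_of U hU hinj (Near.half hy) (comm1 U hU hinj hx y)

omit hinj in
theorem conj_mem_S {x : G} (hx : x ∈ S U) (g : G) : g * x * g⁻¹ ∈ S U := by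
  show Near (U (g * x * g⁻¹))
  have h1 : U (g * x * g⁻¹) = (U g⁻¹)ᴴ * U x * U g⁻¹ := by
    rw [map_mul, map_mul, U_inv U hU, conjTranspose_conjTranspose]
  rw [h1]
  exact Near.conj hx (hU _)

omit hinj in
theorem closure_normal : (Subgroup.closure (S U)).Normal := by
  constructor
  intro x hx g
  refine Subgroup.closure_induction (p := fun x _ => g * x * g⁻¹ ∈ Subgroup.closure (S U)) ?_ ?_ ?_ ?_ hx
  · intro x hx; exact Subgroup.subset_closure (conj_mem_S U hU hx g)
  · simp
  · intro a b _ _ ha hb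
    have : g * (a * b) * g⁻¹ = (g * a * g⁻¹) * (g * b * g⁻¹) := by group
    rw [this]; exact mul_mem ha hb
  · intro a _ ha
    have : g * a⁻¹ * g⁻¹ = (g * a * g⁻¹)⁻¹ := by group
    rw [this]; exact inv_mem ha

theorem closure_comm : ∀ x ∈ Subgroup.closure (S U), ∀ y ∈ Subgroup.closure (S U), x * y = y * x := by
  have h1 : ∀ x ∈ S U, ∀ y ∈ Subgroup.closure (S U), Commute x y := by
    intro x hx y hy
    refine Subgroup.closure_induction (p := fun y _ => Commute x y) ?_ ?_ ?_ ?_ hy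
    · intro y hy; exact comm2 U hU hinj hx hy
    · exact Commute.one_right x
    · intro a b _ _ ha hb; exact ha.mul_right hb
    · intro a _ ha; exact ha.inv_right
  intro x hx y hy
  refine Subgroup.closure_induction (p := fun x _ => Commute x y) ?_ ?_ ?_ ?_ hx
  · intro x hx; exact h1 x hx y hy
  · exact Commute.one_left y
  · intro a b _ _ ha hb; exact ha.mul_left hb
  · intro a _ ha; exact ha.inv_left

end Cfsg.Agent.Lib.LinBound
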