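import Cfsg.Agent.Lib.LinBound2
import Cfsg.Agent.Lib.BlockDeg

set_option autoImplicit false

/-!
Finite unitary groups, part 3: `|H : H ∩ A| ≤ 12^n`.
-/

namespace Cfsg.Agent.Lib.LinBound

open Matrix Module
open scoped ComplexOrder

variable {n : ℕ}

theorem near_of_eigen {A : Matrix (Fin n) (Fin n) ℂ} (hA : Un A)
    (b : Basis (Fin (finrank ℂ (Fin n → ℂ))) ℂ (Fin n → ℂ)) (lam : Fin (finrank ℂ (Fin n → ℂ)) → ℂ)
    (h : ∀ j, A *ᵥ (b j) = lam j • b j) (hl : ∀ j, Real.sqrt 3 / 2 < (lam j).re) : Near A := by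
  classical
  set T : Matrix (Fin n) (Fin n) ℂ := A + Aᴴ - ((Real.sqrt 3 : ℝ) : ℂ) • 1 with hT
  have hTh : T.IsHermitian := by
    unfold IsHermitian
    rw [hT, conjTranspose_sub, conjTranspose_add, conjTranspose_conjTranspose, conjTranspose_smul, conjTranspose_one,
      Complex.star_def, Complex.conj_ofReal, add_comm]
  have hTb : ∀ j, T *ᵥ b j = ((2 * (lam j).re - Real.sqrt 3 : ℝ) : ℂ) • b j := by
    intro j
    have h1 := norm_of_eigen hA (b.ne_zero j) (h j)
    have h2 : Aᴴ *ᵥ b j = star (lam j) • b j := by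
      have h3 : Aᴴ *ᵥ (A *ᵥ b j) = b j := by rw [mulVec_mulVec, hA, one_mulVec]
      rw [h j, mulVec_smul] at h3
      calc Aᴴ *ᵥ b j = (star (lam j) * lam j) • Aᴴ *ᵥ b j := by rw [h1, one_smul]
        _ = star (lam j) • (lam j • Aᴴ *ᵥ b j) := by rw [smul_smul]
        _ = _ := by rw [h3]
    rw [hT, sub_mulVec, add_mulVec, h j, h2, smul_mulVec, one_mulVec, ← add_smul, ← sub_smul]
    congr 1
    rw [Complex.star_def, Complex.add_conj]
    push_cast; ring
  have hpos : T.PosDef := by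
    rw [hTh.posDef_iff_eigenvalues_pos]
    intro i
    set w : Fin n → ℂ := ⇑(hTh.eigenvectorBasis i) with hw
    have hw0 : w ≠ 0 := by
      intro h0
      have h1 : hTh.eigenvectorBasis i ≠ 0 := hTh.eigenvectorBasis.orthonormal.ne_zero i
      apply h1
      ext k
      exact congrFun h0 k
    have hTw : T *ᵥ w = ((hTh.eigenvalues i : ℝ) : ℂ) • w := hTh.mulVec_eigenvectorBasis i
    obtain ⟨j, hj⟩ : ∃ j, b.repr w j ≠ 0 := by
      by_contra hc
      push Not at hc
      exact hw0 (b.repr.map_eq_zero_iff.mp (Finsupp.ext hc))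
    have h1 : b.repr (T *ᵥ w) j = ((2 * (lam j).re - Real.sqrt 3 : ℝ) : ℂ) * b.repr w j := by
      conv_lhs => rw [← b.sum_repr w, mulVec_sum]
      simp only [mulVec_smul, hTb, map_sum, map_smul, Finsupp.coe_finset_sum, Finset.sum_apply, Finsupp.smul_apply,
        Basis.repr_self, Finsupp.single_apply, smul_eq_mul]
      rw [Finset.sum_eq_single j]
      · rw [if_pos rfl]; ring
      · intro k _ hk; rw [if_neg hk]; ring
      · intro h; exact absurd (Finset.mem_univ j) h
    rw [hTw, map_smul, Finsupp.smul_apply, smul_eq_mul] at h1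
    have h2 := mul_right_cancel₀ hj h1
    have h3 : hTh.eigenvalues i = 2 * (lam j).re - Real.sqrt 3 := by exact_mod_cast h2
    rw [h3]
    have := hl j
    linarith
  intro v hv
  have h1 : 0 < (star v ⬝ᵥ (T *ᵥ v)).re := hpos.re_dotProduct_pos hv
  have h2 : (star v ⬝ᵥ (T *ᵥ v)).re = 2 * R A v - Real.sqrt 3 * N v := by
    have h3 : R Aᴴ v = R A v := R_conjTranspose A v
    unfold R at *
    rw [hT, sub_mulVec, add_mulVec, dotProduct_sub, dotProduct_add, smul_mulVec, one_mulVec, dotProduct_smul,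
      smul_eq_mul, Complex.sub_re, Complex.add_re, Complex.re_ofReal_mul, N_re, h3]
    ring
  rw [h2] at h1
  linarith

/-- the sector of a complex number -/
noncomputable def sec (z : ℂ) : ℤ := ⌈(z.arg + Real.pi) * 6 / Real.pi⌉

theorem sec_mem (z : ℂ) : 1 ≤ sec z ∧ sec z ≤ 12 := by
  have hp := Real.pi_pos
  have h1 := Complex.neg_pi_lt_arg z
  have h2 := Complex.arg_le_pi z
  constructor
  · have : 0 < sec z := by
      rw [sec, Int.ceil_pos]
      have : 0 < z.arg + Real.pi := by linarith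
      positivity
    omega
  · rw [sec, Int.ceil_le, div_le_iff₀ hp]
    push_cast
    nlinarith

theorem re_of_sec {z w : ℂ} (hz : ‖z‖ = 1) (hw : ‖w‖ = 1) (h : sec z = sec w) :
    Real.sqrt 3 / 2 < (z⁻¹ * w).re := by
  have hp := Real.pi_pos
  have h1 : |w.arg - z.arg| < Real.pi / 6 := by
    have h2 := Int.ceil_lt_add_one ((z.arg + Real.pi) * 6 / Real.pi)
    have h3 := Int.le_ceil ((z.arg + Real.pi) * 6 / Real.pi)
    have h4 := Int.ceil_lt_add_one ((w.arg + Real.pi) * 6 / Real.pi)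
    have h5 := Int.le_ceil ((w.arg + Real.pi) * 6 / Real.pi)
    unfold sec at h
    rw [h] at h2 h3
    have h6 : (w.arg + Real.pi) * 6 / Real.pi < (z.arg + Real.pi) * 6 / Real.pi + 1 := lt_of_le_of_lt h5 h2
    have h7 : (z.arg + Real.pi) * 6 / Real.pi < (w.arg + Real.pi) * 6 / Real.pi + 1 := lt_of_le_of_lt h3 h4
    rw [← sub_lt_iff_lt_add', ← sub_div, div_lt_one hp] at h6 h7
    rw [abs_lt]
    constructor <;> linarith
  have h2 : z⁻¹ * w = Complex.exp ((w.arg - z.arg : ℝ) * Complex.I) := by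
    have hz' : z = Complex.exp (z.arg * Complex.I) := by
      conv_lhs => rw [← Complex.norm_mul_exp_arg_mul_I z, hz, Complex.ofReal_one, one_mul]
    have hw' : w = Complex.exp (w.arg * Complex.I) := by
      conv_lhs => rw [← Complex.norm_mul_exp_arg_mul_I w, hw, Complex.ofReal_one, one_mul]
    conv_lhs => rw [hz', hw', ← Complex.exp_neg, ← Complex.exp_add]
    congr 1
    push_cast; ring
  rw [h2, Complex.exp_ofReal_mul_I_re, ← Real.cos_pi_div_six, ← Real.cos_abs (w.arg - z.arg)]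
  exact Real.cos_lt_cos_of_nonneg_of_le_pi (abs_nonneg _) (by linarith) h1

variable {G : Type*} [Group G] [Finite G]

theorem index_le (U : G →* Matrix (Fin n) (Fin n) ℂ) (hU : ∀ g, Un (U g)) (H : Subgroup G)
    (hH : ∀ x ∈ H, ∀ y ∈ H, x * y = y * x) :
    ((Subgroup.closure (S U)).subgroupOf H).index ≤ 12 ^ n := by
  classical
  obtain ⟨b, μ, h⟩ := Cfsg.Agent.Lib.CharValues.exists_common_eigenbasis
    (fun i : H => toLin' (U (i : G)))
    (by
      intro x y
      show toLin' (U x) ∘ₗ toLin' (U y) = toLin' (U y) ∘ₗ toLin' (U x)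
      rw [← Matrix.toLin'_mul, ← Matrix.toLin'_mul, ← map_mul, ← map_mul, hH x x.2 y y.2])
    (fun i => ⟨orderOf (i : G), orderOf_pos _, U_pow U _⟩)
  have hμ1 : ∀ j (x : H), star (μ j x) * μ j x = 1 := fun j x => norm_of_eigen (hU x) (b.ne_zero j) (h j x)
  have hμn : ∀ j (x : H), ‖μ j x‖ = 1 := by
    intro j x
    have := congrArg norm (hμ1 j x)
    rw [norm_mul, norm_star, norm_one] at this
    nlinarith [norm_nonneg (μ j x)]
  have hμm : ∀ j (x y : H), μ j (x⁻¹ * y) = (μ j x)⁻¹ * μ j y := by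
    intro j x y
    have h0 : μ j x ≠ 0 := fun h0 => by have := hμn j x; rw [h0] at this; simp at this
    have h1 : U (x : G) *ᵥ (U ((x⁻¹ * y : H) : G) *ᵥ b j) = U (y : G) *ᵥ b j := by
      rw [mulVec_mulVec, ← map_mul]; congr 2; simp
    have h2 : U ((x⁻¹ * y : H) : G) *ᵥ b j = μ j (x⁻¹ * y) • b j := h j (x⁻¹ * y)
    have h3 : U (y : G) *ᵥ b j = μ j y • b j := h j y
    have h4 : U (x : G) *ᵥ b j = μ j x • b j := h j x
    rw [h2, h3, mulVec_smul, h4, smul_smul] at h1
    have h5 := smul_left_injective ℂ (b.ne_zero j) h1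
    rw [← h5]; field_simp
  have hfin : finrank ℂ (Fin n → ℂ) = n := by simp
  let f : H → (Fin (finrank ℂ (Fin n → ℂ)) → Fin 12) := fun x j =>
    ⟨(sec (μ j x) - 1).toNat, by have := sec_mem (μ j x); omega⟩
  have hf : ∀ x y : H, f x = f y → ((x⁻¹ * y : H) : G) ∈ Subgroup.closure (S U) := by
    intro x y hxy
    apply Subgroup.subset_closure
    show Near (U ((x⁻¹ * y : H) : G))
    refine near_of_eigen (hU _) b (fun j => μ j (x⁻¹ * y)) (fun j => h j _) (fun j => ?_)
    rw [hμm]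
    refine re_of_sec (hμn j x) (hμn j y) ?_
    have h1 := congrArg Fin.val (congrFun hxy j)
    have h2 := sec_mem (μ j x)
    have h3 := sec_mem (μ j y)
    have h4 : (sec (μ j x) - 1).toNat = (sec (μ j y) - 1).toNat := h1
    omega
  have hcard : Nat.card (Fin (finrank ℂ (Fin n → ℂ)) → Fin 12) = 12 ^ n := by
    rw [Nat.card_fun, Nat.card_eq_fintype_card, Nat.card_eq_fintype_card, Fintype.card_fin, Fintype.card_fin, hfin]
  rw [← hcard]
  refine Nat.card_le_card_of_injective (fun q : H ⧸ (Subgroup.closure (S U)).subgroupOf H => f q.out) ?_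
  intro q r hqr
  have h1 := hf q.out r.out hqr
  rw [← Quotient.out_eq q, ← Quotient.out_eq r]
  apply Quotient.sound
  rw [← Quotient.eq_iff_equiv]
  rw [Quotient.eq, QuotientGroup.leftRel_apply]
  exact h1

open Cfsg in
/-- the main theorem -/
theorem main {G : Type*} [Group G] [Finite G] (χ : G → ℂ) (hχ : IsCharacter G χ)
    (hfaith : ∀ g : G, χ g = χ 1 → g = 1) (n : ℕ) (hn : charDegree χ = n) :
    ∃ A : Subgroup G, A.Normal ∧ (∀ x ∈ A, ∀ y ∈ A, x * y = y * x) ∧
      ∀ H : Subgroup G, (∀ x ∈ H, ∀ y ∈ H, x * y = y * x) → (A.subgroupOf H).index ≤ 12 ^ n := by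
  obtain ⟨m, ρ, rfl⟩ := hχ
  have hm : m = n := by
    have h1 := Cfsg.Agent.Lib.BlockDeg.charDegree_cast (G := G) ⟨m, ρ, rfl⟩
    rw [hn, Representation.char_one] at h1
    simp at h1
    exact_mod_cast h1.symm
  subst hm
  obtain ⟨U, hU, hU1, -⟩ := exists_unitary ρ
  have hinj : ∀ g, U g = 1 → g = 1 := by
    intro g hg
    apply hfaith
    have h1 := (hU1 g).mp hg
    unfold Representation.character
    rw [h1, map_one ρ]
  exact ⟨Subgroup.closure (S U), closure_normal U hU, closure_comm U hU hinj, fun H hH => index_le U hU H hH⟩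

end Cfsg.Agent.Lib.LinBound
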