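import Cfsg.Agent.Lib.CharGalois
import Cfsg.Agent.Lib.CharCentral
import Cfsg.Agent.Lib.CharBasic2

set_option autoImplicit false

/-!
Linear groups of small degree (Blichfeldt; Isaacs chapter 14), part 1.
-/

namespace Cfsg.Agent.Lib.LinHall

open Cfsg Module Cfsg.Agent.Lib.CharValues Cfsg.Agent.Lib.CharBasic Cfsg.Agent.Lib.CharGalois
open scoped ComplexConjugate

universe u

variable {G : Type u} [Group G] [Finite G]

/-- faithful character of degree `n` -/
structure Faith (χ : G → ℂ) (n : ℕ) : Prop where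
  char : IsCharacter G χ
  faith : ∀ g : G, χ g = χ 1 → g = 1
  deg : χ 1 = n

theorem Faith.restrict {χ : G → ℂ} {n : ℕ} (h : Faith χ n) (H : Subgroup G) :
    Faith (fun x : H => χ x) n where
  char := h.char.restrict H
  faith := fun g hg => Subtype.ext (h.faith g hg)
  deg := h.deg

/-- the degree of a constituent is at most `n` -/
theorem Faith.exists_const {χ : G → ℂ} {n : ℕ} (h : Faith χ n) {g : G} (hg : g ≠ 1) :
    ∃ ψ : IrrCharacter G, (∃ d : ℕ, 0 < d ∧ d ≤ n ∧ (ψ : G → ℂ) 1 = d) ∧ (ψ : G → ℂ) g ≠ (ψ : G → ℂ) 1 := by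
  classical
  haveI := Fintype.ofFinite G
  obtain ⟨c, hc, hs⟩ := h.char.exists_coeff
  by_contra hcon
  push Not at hcon
  apply hg
  apply h.faith
  rw [hs]
  simp only [Finset.sum_apply, Pi.smul_apply, smul_eq_mul]
  refine Finset.sum_congr rfl fun ψ _ => ?_
  by_cases h0 : c ψ = 0
  · rw [h0]; simp
  · rw [hcon ψ]
    obtain ⟨d, hd, hd1⟩ := ψ.2.exists_degree
    refine ⟨d, hd, ?_, hd1⟩
    -- degree bound
    have h1 := congrFun hs 1
    rw [h.deg] at h1
    simp only [Finset.sum_apply, Pi.smul_apply, smul_eq_mul] at h1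
    choose e he he1 using fun φ : IrrCharacter G => φ.2.exists_degree
    have h2 : (n : ℂ) = ((∑ φ : IrrCharacter G, c φ * e φ : ℕ) : ℂ) := by
      rw [h1]; push_cast
      exact Finset.sum_congr rfl fun φ _ => by rw [he1]
    have h3 : n = ∑ φ : IrrCharacter G, c φ * e φ := by exact_mod_cast h2
    have h4 : d = e ψ := by
      have := he1 ψ
      rw [hd1] at this
      exact_mod_cast this
    rw [h3, h4]
    calc e ψ ≤ c ψ * e ψ := Nat.le_mul_of_pos_left _ (Nat.pos_of_ne_zero h0)
      _ ≤ _ := Finset.single_le_sum (f := fun φ => c φ * e φ) (fun _ _ => Nat.zero_le _) (Finset.mem_univ ψ)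

/-- a linear group of degree smaller than all prime divisors of its order is abelian -/
theorem Faith.comm {χ : G → ℂ} {n : ℕ} (h : Faith χ n) (hp : ∀ q : ℕ, q.Prime → q ∣ Nat.card G → n < q)
    (x y : G) : x * y = y * x := by
  by_contra hne
  have h1 : x * y * x⁻¹ * y⁻¹ ≠ 1 := by
    intro h1
    apply hne
    calc x * y = (x * y * x⁻¹ * y⁻¹) * (y * x) := by group
      _ = y * x := by rw [h1, one_mul]
  obtain ⟨ψ, ⟨d, hd, hdn, hd1⟩, hψ⟩ := h.exists_const h1
  have hdvd : d ∣ Nat.card G := by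
    obtain ⟨m, ρ, hρ, hρχ⟩ := ψ.2
    have := CharCentral.finrank_dvd_card ρ
    rw [finrank_fin_fun] at this
    have h2 : (ψ : G → ℂ) 1 = m := by rw [← hρχ]; simp
    rw [hd1] at h2
    have h3 : d = m := by exact_mod_cast h2
    rwa [h3]
  have hd2 : d = 1 := by
    by_contra hne1
    obtain ⟨q, hq, hqd⟩ := Nat.exists_prime_and_dvd hne1
    have := hp q hq (hqd.trans hdvd)
    have := Nat.le_of_dvd hd hqd
    omega
  rw [hd2, Nat.cast_one] at hd1
  apply hψ
  rw [ψ.2.isCharacter.map_mul_of_linear hd1, ψ.2.isCharacter.map_mul_of_linear hd1,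
    ψ.2.isCharacter.map_mul_of_linear hd1]
  have hx : (ψ : G → ℂ) x * (ψ : G → ℂ) x⁻¹ = 1 := by
    rw [← ψ.2.isCharacter.map_mul_of_linear hd1, mul_inv_cancel, hd1]
  have hy : (ψ : G → ℂ) y * (ψ : G → ℂ) y⁻¹ = 1 := by
    rw [← ψ.2.isCharacter.map_mul_of_linear hd1, mul_inv_cancel, hd1]
  rw [hd1]
  linear_combination (ψ : G → ℂ) y * (ψ : G → ℂ) y⁻¹ * hx + hy

/-- an element of prime order `p` at which a character of degree `< p - 1` is rational is in the kernel -/
theorem ker_of_rational {ψ : G → ℂ} (hψ : IsCharacter G ψ) {d p : ℕ} (hp : p.Prime) (hd : ψ 1 = d)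
    (hdp : d + 1 < p) {x : G} (hx : x ^ p = 1) (hrat : ∀ j : ℕ, j.Coprime p → ψ (x ^ j) = ψ x) : ψ x = ψ 1 := by
  classical
  obtain ⟨m, ρ, rfl⟩ := hψ
  have hm : m = d := by
    rw [Representation.char_one] at hd
    simp at hd
    exact_mod_cast hd
  subst hm
  obtain ⟨μ, h1, h2⟩ := exists_eigenvalues ρ x
  have hord : orderOf x ∣ p := orderOf_dvd_of_pow_eq_one hx
  have hμp : ∀ i, μ i ^ p = 1 := by
    intro i
    obtain ⟨k, hk⟩ := hord
    rw [hk, pow_mul, h1, one_pow]
  have hfin : finrank ℂ (Fin m → ℂ) = m := by simp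
  -- the sum over all powers
  have h3 : ∑ j ∈ Finset.range p, ρ.character (x ^ j) = (m : ℂ) + ((p : ℂ) - 1) * ρ.character x := by
    obtain ⟨p', rfl⟩ : ∃ p', p = p' + 1 := ⟨p - 1, by have := hp.pos; omega⟩
    rw [Finset.sum_range_succ', pow_zero, Representation.char_one, hfin, add_comm]
    congr 1
    rw [Finset.sum_congr rfl (g := fun _ => ρ.character x)]
    · rw [Finset.sum_const, Finset.card_range, nsmul_eq_mul]; push_cast; ring
    · intro j hj
      apply hrat
      rw [Nat.coprime_comm]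
      apply (Nat.Prime.coprime_iff_not_dvd hp).mpr
      intro hdvd
      have := Nat.le_of_dvd (Nat.succ_pos _) hdvd
      have := Finset.mem_range.mp hj
      omega
  have h4 : ∑ j ∈ Finset.range p, ρ.character (x ^ j) =
      (p : ℂ) * ((Finset.univ.filter fun i => μ i = 1).card : ℂ) := by
    simp only [h2]
    rw [Finset.sum_comm]
    have h5 : ∀ i, ∑ j ∈ Finset.range p, μ i ^ j = if μ i = 1 then (p : ℂ) else 0 := by
      intro i
      by_cases hi : μ i = 1
      · rw [if_pos hi]; simp [hi]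
      · rw [if_neg hi, geom_sum_eq hi, hμp, sub_self, zero_div]
    simp only [h5]
    rw [← Finset.sum_filter, Finset.sum_const, nsmul_eq_mul, mul_comm]
  set c := (Finset.univ.filter fun i => μ i = 1).card with hc
  have hcm : c ≤ m := by
    have := Finset.card_filter_le (Finset.univ : Finset (Fin (finrank ℂ (Fin m → ℂ)))) (fun i => μ i = 1)
    rw [Finset.card_univ, Fintype.card_fin] at this
    exact this.trans hfin.le
  rw [h3] at h4
  have hp1 : ((p : ℂ) - 1) ≠ 0 := by
    intro h0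
    have : (p : ℂ) = 1 := by linear_combination h0
    have : p = 1 := by exact_mod_cast this
    exact hp.one_lt.ne' this
  have h6 : (c : ℂ) - ρ.character x = ((m - c : ℕ) : ℂ) / ((p - 1 : ℕ) : ℂ) := by
    rw [Nat.cast_sub hcm, Nat.cast_sub hp.one_lt.le, Nat.cast_one, eq_div_iff hp1]
    linear_combination -h4
  have hint : IsIntegral ℤ ((c : ℂ) - ρ.character x) := by
    have h9 : IsIntegral ℤ ((c : ℤ) : ℂ) := isIntegral_algebraMap (R := ℤ) (A := ℂ) (x := (c : ℤ))
    rw [Int.cast_natCast] at h9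
    exact h9.sub (isIntegral_character ρ x)
  rw [h6] at hint
  have h7 : (p - 1) ∣ (m - c) := CharCentral.nat_dvd_of_isIntegral_div (by have := hp.one_lt; omega) hint
  have h8 : m - c = 0 := Nat.eq_zero_of_dvd_of_lt h7 (by omega)
  rw [h8, Nat.cast_zero, zero_div, sub_eq_zero] at h6
  rw [← h6, Representation.char_one, hfin]
  have : c = m := by omega
  rw [this]

end Cfsg.Agent.Lib.LinHall
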