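import Cfsg.Agent.Lib.LinHall1

set_option autoImplicit false

/-!
Linear groups of small degree, part 2: elements of distinct prime orders `> n + 1` which commute.
-/

namespace Cfsg.Agent.Lib.LinHall

open Cfsg Module Cfsg.Agent.Lib.CharValues Cfsg.Agent.Lib.CharBasic Cfsg.Agent.Lib.CharGalois
open scoped ComplexConjugate

universe u

variable {G : Type u} [Group G] [Finite G]

theorem ker_mul {ψ : G → ℂ} (hψ : IsCharacter G ψ) {x : G} (hx : ψ x = ψ 1) (g : G) :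
    ψ (x * g) = ψ g ∧ ψ (g * x) = ψ g := by
  obtain ⟨m, ρ, rfl⟩ := hψ
  have h1 : ρ x = LinearMap.id := by
    rw [← character_eq_finrank_iff ρ x, hx, Representation.char_one]
  constructor
  · show LinearMap.trace ℂ _ (ρ (x * g)) = _
    rw [map_mul, h1]; rfl
  · show LinearMap.trace ℂ _ (ρ (g * x)) = _
    rw [map_mul, h1]; rfl

theorem ker_comm {ψ : G → ℂ} (hψ : IsCharacter G ψ) {x y : G} (hx : ψ x = ψ 1 ∨ ψ y = ψ 1) :
    ψ (x * y * x⁻¹ * y⁻¹) = ψ 1 := by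
  have hinv : ∀ z, ψ z = ψ 1 → ψ z⁻¹ = ψ 1 := by
    intro z hz
    have := (ker_mul hψ hz z⁻¹).1
    rw [mul_inv_cancel] at this
    exact this.symm
  rcases hx with h | h
  · have h1 : ψ (y * x⁻¹ * y⁻¹) = ψ 1 := by
      rw [hψ.isClassFunction]; exact hinv x h
    have : x * y * x⁻¹ * y⁻¹ = x * (y * x⁻¹ * y⁻¹) := by group
    rw [this, (ker_mul hψ h _).1, h1]
  · have h1 : ψ (x * y * x⁻¹) = ψ 1 := by
      rw [hψ.isClassFunction]; exact h
    rw [(ker_mul hψ (hinv y h) _).2, h1]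

/-- choice of the Galois twist -/
theorem exists_twist {χ : G → ℂ} (hχ : IsCharacter G χ) {d p : ℕ} (hp : p.Prime) (hd : χ 1 = d)
    (hdp : d + 1 < p) {x : G} (hx : orderOf x = p) (hne : χ x ≠ χ 1) :
    ∃ k : ℕ, k.Coprime (Nat.card G) ∧ χ (x ^ k) ≠ χ x ∧ ∀ g : G, ¬ p ∣ orderOf g → g ^ k = g := by
  have hx1 : x ^ p = 1 := by rw [← hx]; exact pow_orderOf_eq_one x
  have h1 : ¬ ∀ j : ℕ, j.Coprime p → χ (x ^ j) = χ x := fun h => hne (ker_of_rational hχ hp hd hdp hx1 h)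
  push Not at h1
  obtain ⟨j, hj, hjx⟩ := h1
  have hcard : Nat.card G ≠ 0 := Nat.card_pos.ne'
  obtain ⟨a, m, hm, hG⟩ := Nat.exists_eq_pow_mul_and_not_dvd hcard p hp.ne_one
  have ha : a ≠ 0 := by
    rintro rfl
    apply hm
    rw [pow_zero, one_mul] at hG
    rw [← hG, ← hx]
    exact orderOf_dvd_natCard x
  have hcop : (p ^ a).Coprime m := Nat.Coprime.pow_left _ (hp.coprime_iff_not_dvd.mpr hm)
  obtain ⟨k, hk1, hk2⟩ := Nat.chineseRemainder hcop j 1
  refine ⟨k, ?_, ?_, ?_⟩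
  · rw [hG]
    refine Nat.Coprime.mul_right ?_ ?_
    · have := hk1.gcd_eq
      rw [Nat.Coprime, this]
      exact hj.pow_right a
    · have := hk2.gcd_eq
      rw [Nat.Coprime, this]
      exact Nat.gcd_one_left _
  · have h2 : x ^ k = x ^ j := by
      rw [pow_eq_pow_iff_modEq, hx]
      exact hk1.of_dvd (dvd_pow_self p ha)
    rw [h2]; exact hjx
  · intro g hg
    conv_rhs => rw [← pow_one g]
    rw [pow_eq_pow_iff_modEq]
    apply hk2.of_dvd
    have h3 : orderOf g ∣ p ^ a * m := hG ▸ orderOf_dvd_natCard g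
    exact (Nat.Coprime.pow_right a ((hp.coprime_iff_not_dvd.mpr hg).symm)).dvd_of_dvd_mul_left h3

/-- **Blichfeldt.** -/
theorem exists_commute {χ : G → ℂ} {n : ℕ} (h : Faith χ n) {p r : ℕ} (hp : p.Prime) (hr : r.Prime)
    (hpr : p ≠ r) (hpn : n + 1 < p) (hrn : n + 1 < r) (hpG : p ∣ Nat.card G) (hrG : r ∣ Nat.card G) :
    ∃ x y : G, orderOf x = p ∧ orderOf y = r ∧ Commute x y := by
  classical
  haveI := Fintype.ofFinite G
  haveI : Fact p.Prime := ⟨hp⟩
  haveI : Fact r.Prime := ⟨hr⟩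
  by_contra hcon
  push Not at hcon
  obtain ⟨x, hx⟩ := exists_prime_orderOf_dvd_card' p hpG
  obtain ⟨y, hy⟩ := exists_prime_orderOf_dvd_card' r hrG
  have hxy := hcon x y hx hy
  have hne : x * y * x⁻¹ * y⁻¹ ≠ 1 := by
    intro h1
    apply hxy
    show x * y = y * x
    calc x * y = (x * y * x⁻¹ * y⁻¹) * (y * x) := by group
      _ = y * x := by rw [h1, one_mul]
  obtain ⟨ψ, ⟨d, hd, hdn, hd1⟩, hψ⟩ := h.exists_const hne
  have hx1 : (ψ : G → ℂ) x ≠ (ψ : G → ℂ) 1 := fun h1 => hψ (ker_comm ψ.2.isCharacter (Or.inl h1))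
  have hy1 : (ψ : G → ℂ) y ≠ (ψ : G → ℂ) 1 := fun h1 => hψ (ker_comm ψ.2.isCharacter (Or.inr h1))
  obtain ⟨k, hk, hkx, hkg⟩ := exists_twist ψ.2.isCharacter hp hd1 (by omega) hx hx1
  obtain ⟨l, hl, hly, hlg⟩ := exists_twist ψ.2.isCharacter hr hd1 (by omega) hy hy1
  set ψk : IrrCharacter G := ⟨fun g => (ψ : G → ℂ) (g ^ k), isIrrCharacter_pow ψ.2 hk⟩ with hψk
  set ψl : IrrCharacter G := ⟨fun g => (ψ : G → ℂ) (g ^ l), isIrrCharacter_pow ψ.2 hl⟩ with hψl
  have hk' : ψk ≠ ψ := fun h1 => hkx (congrFun (congrArg Subtype.val h1) x)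
  have hl' : ψl ≠ ψ := fun h1 => hly (congrFun (congrArg Subtype.val h1) y)
  -- no element of order divisible by both
  have hno : ∀ g : G, ¬ p ∣ orderOf g ∨ ¬ r ∣ orderOf g := by
    intro g
    by_contra hc
    push Not at hc
    obtain ⟨u, hu⟩ := hc.1
    obtain ⟨v, hv⟩ := hc.2
    have hpos := orderOf_pos g
    have hu0 : u ≠ 0 := by rintro rfl; omega
    have hv0 : v ≠ 0 := by rintro rfl; omega
    have h1 : orderOf (g ^ u) = p := by
      rw [orderOf_pow_of_dvd hu0 ⟨p, by rw [hu, mul_comm]⟩, hu, Nat.mul_div_cancel _ (Nat.pos_of_ne_zero hu0)]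
    have h2 : orderOf (g ^ v) = r := by
      rw [orderOf_pow_of_dvd hv0 ⟨r, by rw [hv, mul_comm]⟩, hv, Nat.mul_div_cancel _ (Nat.pos_of_ne_zero hv0)]
    exact hcon _ _ h1 h2 ((Commute.refl g).pow_pow u v)
  have hzero : classInner ((ψk : G → ℂ) - (ψ : G → ℂ)) ((ψl : G → ℂ) - (ψ : G → ℂ)) = 0 := by
    unfold classInner
    rw [Finset.sum_eq_zero, mul_zero]
    intro g _
    rcases hno g with h1 | h1
    · have : (ψk : G → ℂ) g = (ψ : G → ℂ) g := by show (ψ : G → ℂ) (g ^ k) = _; rw [hkg g h1]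
      rw [Pi.sub_apply, this, sub_self, zero_mul]
    · have : (ψl : G → ℂ) g = (ψ : G → ℂ) g := by show (ψ : G → ℂ) (g ^ l) = _; rw [hlg g h1]
      rw [Pi.sub_apply (ψl : G → ℂ), this, sub_self, map_zero, mul_zero]
  rw [classInner_sub_left, classInner_sub_right, classInner_sub_right, irr_orthonormal, irr_orthonormal,
    irr_orthonormal, irr_orthonormal, if_neg hk', if_neg (Ne.symm hl'), if_pos rfl] at hzero
  by_cases hkl : ψk = ψl
  · rw [if_pos hkl] at hzero; norm_num at hzero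
  · rw [if_neg hkl] at hzero; norm_num at hzero

end Cfsg.Agent.Lib.LinHall
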