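import Cfsg.Agent.Lib.LinHall2
import Cfsg.Agent.Lib.NilpotentHall

set_option autoImplicit false

/-!
Linear groups of degree `n` have abelian Hall subgroups for the primes `> n + 1` (Blichfeldt).
-/

namespace Cfsg.Agent.Lib.LinHall

open Cfsg Subgroup Pointwise
open Cfsg.Agent.Lib.SubgroupTools

universe u

/-- only primes `> n + 1` divide the order -/
def PiG {G : Type u} [Group G] (n : ℕ) (A : Subgroup G) : Prop := ∀ q : ℕ, q.Prime → q ∣ Nat.card A → n + 1 < q

/-- Hall subgroup in a subgroup -/
def HallIn {G : Type u} [Group G] (n : ℕ) (A H : Subgroup G) : Prop :=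
  A ≤ H ∧ PiG n A ∧ ∀ q : ℕ, q.Prime → q ∣ A.relIndex H → q ≤ n + 1

variable {G : Type u} [Group G] [Finite G] {n : ℕ}

theorem Faith.pi_comm {χ : G → ℂ} (h : Faith χ n) {A : Subgroup G} (hA : PiG n A) :
    ∀ x ∈ A, ∀ y ∈ A, x * y = y * x := by
  intro x hx y hy
  have h1 := (h.restrict A).comm (fun q hq hqA => by have := hA q hq hqA; omega) ⟨x, hx⟩ ⟨y, hy⟩
  exact congrArg Subtype.val h1

theorem Faith.wiel {χ : G → ℂ} (h : Faith χ n) {A B H : Subgroup G} (hA : HallIn n A H) (hBH : B ≤ H)
    (hB : PiG n B) : ∃ x ∈ H, B ≤ MulAut.conj x • A := by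
  have hAcomm := h.pi_comm hA.2.1
  have hcA : Nat.card (A.subgroupOf H) = Nat.card A := card_subgroupOf_of_le hA.1
  have hcB : Nat.card (B.subgroupOf H) = Nat.card B := card_subgroupOf_of_le hBH
  have hnil : Group.IsNilpotent (A.subgroupOf H) := by
    letI : CommGroup (A.subgroupOf H) := { (inferInstance : Group (A.subgroupOf H)) with
      mul_comm := fun a b => by
        apply Subtype.ext
        apply Subtype.ext
        exact hAcomm _ a.2 _ b.2 }
    exact CommGroup.isNilpotent
  obtain ⟨x, hx⟩ := NilpotentHall.exists_conj_ge (G := H) (H := A.subgroupOf H) (K := B.subgroupOf H) hnil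
    (by
      rw [hcA]
      refine NilpotentHall.coprime_of_forall_prime ?_
      intro q hq h1 h2
      have := hA.2.1 q hq h1
      have := hA.2.2 q hq h2
      omega)
    (by
      intro q hq hqB
      rw [hcB] at hqB
      rw [hcA]
      have h1 := hB q hq hqB
      have h2 : q ∣ Nat.card A * A.relIndex H := by
        rw [card_mul_relIndex_of_le hA.1]
        exact hqB.trans (Subgroup.card_dvd_of_le hBH)
      rcases hq.dvd_mul.mp h2 with h3 | h3
      · exact h3
      · have := hA.2.2 q hq h3
        omega)
  refine ⟨x, x.2, ?_⟩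
  have h1 := Subgroup.map_mono (f := H.subtype) hx
  rw [Subgroup.map_subgroupOf_eq_of_le hBH, conj_smul_map_subtype, Subgroup.map_subgroupOf_eq_of_le hA.1] at h1
  exact h1

theorem mem_sylow_of_central {p : ℕ} [Fact p.Prime] {x : G} (hx : x ∈ center G) (hxp : orderOf x = p)
    (P : Sylow p G) : x ∈ P := by
  have hn : (zpowers x).Normal := by
    constructor
    intro y hy g
    obtain ⟨k, rfl⟩ := hy
    have h1 : g * x ^ k * g⁻¹ = x ^ k := by
      have : x ^ k ∈ center G := zpow_mem hx k
      rw [(mem_center_iff.mp this g)]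
      group
    show g * x ^ k * g⁻¹ ∈ _
    rw [h1]; exact zpow_mem (mem_zpowers x) k
  have hp : IsPGroup p (zpowers x) := IsPGroup.of_card (n := 1) (by rw [Nat.card_zpowers, hxp, pow_one])
  have h1 : IsPGroup p ((P : Subgroup G) ⊔ zpowers x : Subgroup G) := IsPGroup.to_sup_of_normal_right P.2 hp
  have h2 := P.3 h1 le_sup_left
  rw [← SetLike.mem_coe, ← Sylow.coe_coe, SetLike.mem_coe, ← h2]
  exact (le_sup_right : zpowers x ≤ _) (mem_zpowers x)

/-- a central element of prime order in an abelian Sylow subgroup: there is a normal subgroup of index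
a nontrivial power of `p`. -/
theorem exists_normal {p : ℕ} [hp : Fact p.Prime] {x : G} (hx : x ∈ center G) (hxp : orderOf x = p) (P : Sylow p G)
    (hP : ∀ a ∈ (P : Subgroup G), ∀ b ∈ (P : Subgroup G), a * b = b * a) :
    ∃ K : Subgroup G, K.Normal ∧ K ≠ ⊤ ∧ ∀ q : ℕ, q.Prime → q ∣ K.index → q = p := by
  letI : CommGroup P := { (inferInstance : Group P) with
    mul_comm := fun a b => Subtype.ext (hP _ a.2 _ b.2) }
  let f : G →* P := MonoidHom.transfer (MonoidHom.id P)
  have hfx : f x ≠ 1 := by
    intro h1
    have h2 := MonoidHom.transfer_eq_pow (MonoidHom.id P) x (fun k g₀ _ => by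
      have : x ^ k ∈ center G := pow_mem hx k
      rw [mul_assoc, ← mem_center_iff.mp this g₀]; group)
    rw [show f x = _ from h2] at h1
    have h3 : x ^ (P : Subgroup G).index = 1 := congrArg Subtype.val h1
    have h4 := orderOf_dvd_of_pow_eq_one h3
    rw [hxp] at h4
    exact P.not_dvd_index h4
  refine ⟨f.ker, inferInstance, ?_, ?_⟩
  · intro h; apply hfx
    have : x ∈ f.ker := by rw [h]; exact mem_top x
    exact this
  · intro q hq hqi
    rw [Subgroup.index_ker] at hqi
    have h1 : Nat.card f.range ∣ Nat.card P := Subgroup.card_subgroup_dvd_card _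
    obtain ⟨k, hk⟩ := IsPGroup.iff_card.mp P.2
    rw [hk] at h1
    exact (Nat.prime_dvd_prime_iff_eq hq hp.out).mp (hq.dvd_of_dvd_pow (hqi.trans h1))

theorem exists_hall_aux (n : ℕ) : ∀ (k : ℕ) (G : Type u) [Group G] [Finite G] (χ : G → ℂ), Faith χ n →
    Nat.card G ≤ k → ∃ A : Subgroup G, PiG n A ∧ ∀ q : ℕ, q.Prime → q ∣ A.index → q ≤ n + 1 := by
  intro k
  induction k with
  | zero =>
    intro G _ _ χ _ h
    have : 0 < Nat.card G := Nat.card_pos
    omega
  | succ k ih =>
  intro G _ _ χ hF hcard
  have IH : ∀ H : Subgroup G, H ≠ ⊤ → ∃ A : Subgroup G, HallIn n A H := by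
    intro H hH
    have h1 : Nat.card H < Nat.card G := by
      refine lt_of_le_of_ne (Subgroup.card_le_card_group H) ?_
      intro h; exact hH (Subgroup.eq_top_of_card_eq H h)
    obtain ⟨A, hA1, hA2⟩ := ih H _ (hF.restrict H) (by omega)
    refine ⟨A.map H.subtype, Subgroup.map_subtype_le A, ?_, ?_⟩
    · intro q hq hqA
      apply hA1 q hq
      rwa [Subgroup.card_map_of_injective H.subtype_injective] at hqA
    · intro q hq hqA
      apply hA2 q hq
      unfold Subgroup.relIndex at hqA
      have : (A.map H.subtype).subgroupOf H = A := Subgroup.comap_map_eq_self_of_injective H.subtype_injective A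
      rwa [this] at hqA
  by_cases hcen : ∃ x ∈ center G, ∃ p : ℕ, p.Prime ∧ n + 1 < p ∧ orderOf x = p
  · -- central element of prime order
    obtain ⟨x, hx, p, hp, hpn, hxp⟩ := hcen
    haveI : Fact p.Prime := ⟨hp⟩
    obtain ⟨P⟩ : Nonempty (Sylow p G) := inferInstance
    have hPi : PiG n (P : Subgroup G) := by
      intro q hq hqP
      obtain ⟨k, hk⟩ := IsPGroup.iff_card.mp P.2
      rw [hk] at hqP
      rw [(Nat.prime_dvd_prime_iff_eq hq hp).mp (hq.dvd_of_dvd_pow hqP)]; exact hpn
    obtain ⟨K, hKn, hKt, hKi⟩ := exists_normal hx hxp P (hF.pi_comm hPi)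
    obtain ⟨A, hA⟩ := IH K hKt
    set N := normalizer (A : Set G) with hN
    have hfrat : K ⊔ N = ⊤ := by
      rw [eq_top_iff]
      intro g _
      have h1 : MulAut.conj g • A ≤ K := by
        rintro _ ⟨a, ha, rfl⟩
        exact hKn.conj_mem a (hA.1 ha) g
      obtain ⟨k, hk, hk2⟩ := hF.wiel hA h1 (by
        intro q hq hqA
        rw [card_conj_smul] at hqA
        exact hA.2.1 q hq hqA)
      have h2 : MulAut.conj g • A = MulAut.conj k • A :=
        Subgroup.eq_of_le_of_card_ge hk2 (by rw [card_conj_smul, card_conj_smul])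
      have h3 : k⁻¹ * g ∈ N := by
        rw [hN, mem_normalizer_iff_conj_smul, conj_smul_mul, h2, ← conj_smul_mul, inv_mul_cancel, conj_smul_one]
      have : g = k * (k⁻¹ * g) := by group
      rw [this]
      exact mul_mem (mem_sup_left hk) (mem_sup_right h3)
    have hAN : A ≤ N := le_normalizer
    have hNi : ∀ q : ℕ, q.Prime → q ∣ N.index → q ≤ n + 1 := by
      intro q hq hqN
      apply hA.2.2 q hq
      have h1 : N.index = N.relIndex K := by
        have h2 := card_sup_mul_card_inf (N := K) (H := N) (by rw [Subgroup.normalizer_eq_top_iff.mpr hKn]; exact le_top)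
        rw [hfrat, Subgroup.card_top] at h2
        have h3 := Subgroup.card_mul_index N
        have h4 := card_mul_relIndex N K
        have h5 : Nat.card (N ⊓ K : Subgroup G) * (Nat.card N * N.index) =
            Nat.card (N ⊓ K : Subgroup G) * (Nat.card N * N.relIndex K) := by
          rw [h3]
          calc Nat.card (N ⊓ K : Subgroup G) * Nat.card G = Nat.card G * Nat.card (K ⊓ N : Subgroup G) := by
                rw [inf_comm, mul_comm]
            _ = Nat.card K * Nat.card N := h2
            _ = (Nat.card (N ⊓ K : Subgroup G) * N.relIndex K) * Nat.card N := by rw [h4]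
            _ = _ := by ring
        exact Nat.eq_of_mul_eq_mul_left Nat.card_pos (Nat.eq_of_mul_eq_mul_left Nat.card_pos h5)
      rw [h1] at hqN
      refine hqN.trans ?_
      have h2 : A ≤ N ⊓ K := le_inf hAN hA.1
      rw [← Subgroup.inf_relIndex_right N K]
      exact Subgroup.relIndex_dvd_of_le_left K h2
    by_cases hNt : N = ⊤
    · -- A normal
      haveI hAn : A.Normal := Subgroup.normalizer_eq_top_iff.mp hNt
      refine ⟨A ⊔ P, ?_, ?_⟩
      · intro q hq hqA
        have h1 : Nat.card (A ⊔ (P : Subgroup G) : Subgroup G) ∣ Nat.card A * Nat.card P := by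
          rw [← card_sup_mul_card_inf (N := A) (H := (P : Subgroup G)) (by rw [← hN, hNt]; exact le_top)]
          exact Dvd.intro _ rfl
        rcases hq.dvd_mul.mp (hqA.trans h1) with h2 | h2
        · exact hA.2.1 q hq h2
        · exact hPi q hq h2
      · intro q hq hqA
        by_contra hlt
        have h1 : q ∣ A.index := hqA.trans (Subgroup.index_dvd_of_le le_sup_left)
        have h2 : q ∣ A.relIndex K * K.index := by rw [Subgroup.relIndex_mul_index hA.1]; exact h1
        rcases hq.dvd_mul.mp h2 with h3 | h3
        · exact hlt (hA.2.2 q hq h3)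
        · have h4 := hKi q hq h3
          rw [h4] at hqA
          exact P.not_dvd_index (hqA.trans (Subgroup.index_dvd_of_le le_sup_right))
    · obtain ⟨B, hB⟩ := IH N hNt
      refine ⟨B, hB.2.1, ?_⟩
      intro q hq hqB
      rw [← Subgroup.relIndex_mul_index hB.1] at hqB
      rcases hq.dvd_mul.mp hqB with h3 | h3
      · exact hB.2.2 q hq h3
      · exact hNi q hq h3
  · push Not at hcen
    by_cases hpr : ∃ p : ℕ, p.Prime ∧ n + 1 < p ∧ p ∣ Nat.card G
    · obtain ⟨p, hp, hpn, hpG⟩ := hpr
      haveI : Fact p.Prime := ⟨hp⟩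
      obtain ⟨x, hx⟩ := exists_prime_orderOf_dvd_card' p hpG
      have hxPi : PiG n (zpowers x) := by
        intro q hq hqA
        rw [Nat.card_zpowers, hx] at hqA
        rw [(Nat.prime_dvd_prime_iff_eq hq hp).mp hqA]; exact hpn
      obtain ⟨A, hxA, hAmax⟩ := (Set.toFinite {A : Subgroup G | PiG n A}).exists_le_maximal hxPi
      have hAPi : PiG n A := hAmax.1
      have hAcomm := hF.pi_comm hAPi
      -- centralizers
      have hcent : ∀ a ∈ A, ∀ q : ℕ, q.Prime → orderOf a = q → HallIn n A (centralizer {a}) := by
        intro a ha q hq haq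
        have hqn : n + 1 < q := hAPi q hq (by rw [← haq]; exact Subgroup.orderOf_dvd_natCard A ha)
        have hne : centralizer {a} ≠ ⊤ := by
          intro h
          refine hcen a ?_ q hq hqn haq
          rw [mem_center_iff]
          intro g
          have : g ∈ centralizer {a} := by rw [h]; exact mem_top g
          exact (mem_centralizer_singleton_iff.mp this)
        obtain ⟨B, hB⟩ := IH _ hne
        have hAle : A ≤ centralizer {a} := by
          intro b hb
          rw [mem_centralizer_singleton_iff]
          exact hAcomm b hb a ha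
        obtain ⟨c, hc, hAc⟩ := hF.wiel hB hAle hAPi
        have hBc : PiG n (MulAut.conj c • B) := by
          intro q hq hqB
          rw [card_conj_smul] at hqB
          exact hB.2.1 q hq hqB
        have hAeq : A = MulAut.conj c • B := le_antisymm hAc (hAmax.2 hBc hAc)
        refine ⟨hAle, hAPi, ?_⟩
        intro r hr hrA
        apply hB.2.2 r hr
        have hcard : Nat.card A = Nat.card B := by rw [hAeq, card_conj_smul]
        have h1 := card_mul_relIndex_of_le hAle
        have h2 := card_mul_relIndex_of_le hB.1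
        rw [← h2, hcard] at h1
        have h3 := Nat.eq_of_mul_eq_mul_left Nat.card_pos h1
        rwa [h3] at hrA
      -- A contains full Sylow subgroups
      have hfull : ∀ q : ℕ, q.Prime → q ∣ Nat.card A → ¬ q ∣ A.index := by
        intro q hq hqA hqi
        haveI : Fact q.Prime := ⟨hq⟩
        obtain ⟨a, ha⟩ := exists_prime_orderOf_dvd_card' (G := A) q hqA
        have haq : orderOf (a : G) = q := by rw [Subgroup.orderOf_coe]; exact ha
        have hH := hcent a a.2 q hq haq
        have hz : IsPGroup q (zpowers (a : G)) := IsPGroup.of_card (n := 1) (by rw [Nat.card_zpowers, haq, pow_one])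
        obtain ⟨Q, hQ⟩ := hz.exists_le_sylow
        have haQ : (a : G) ∈ (Q : Subgroup G) := hQ (mem_zpowers _)
        have hqn : n + 1 < q := hAPi q hq hqA
        have hQPi : PiG n (Q : Subgroup G) := by
          intro r hr hrQ
          obtain ⟨k, hk⟩ := IsPGroup.iff_card.mp Q.2
          rw [hk] at hrQ
          rw [(Nat.prime_dvd_prime_iff_eq hr hq).mp (hr.dvd_of_dvd_pow hrQ)]; exact hqn
        have hQc : (Q : Subgroup G) ≤ centralizer {(a : G)} := by
          intro b hb
          rw [mem_centralizer_singleton_iff]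
          exact hF.pi_comm hQPi b hb a haQ
        have h1 : Nat.card Q ∣ Nat.card A := by
          have h2 : Nat.card Q ∣ Nat.card A * A.relIndex (centralizer {(a : G)}) := by
            rw [card_mul_relIndex_of_le hH.1]
            exact Subgroup.card_dvd_of_le hQc
          refine Nat.Coprime.dvd_of_dvd_mul_right ?_ h2
          refine NilpotentHall.coprime_of_forall_prime ?_
          intro r hr hrQ hrA
          have := hQPi r hr hrQ
          have := hH.2.2 r hr hrA
          omega
        have h3 : A.index ∣ (Q : Subgroup G).index := by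
          have h4 := Subgroup.card_mul_index A
          have h5 := Subgroup.card_mul_index (Q : Subgroup G)
          obtain ⟨c, hc⟩ := h1
          refine ⟨c, ?_⟩
          have h6 : Nat.card Q * ((Q : Subgroup G).index) = Nat.card Q * (A.index * c) := by
            rw [h5, ← h4, hc]; ring
          exact Nat.eq_of_mul_eq_mul_left Nat.card_pos h6
        exact Q.not_dvd_index (hqi.trans h3)
      refine ⟨A, hAPi, ?_⟩
      intro r hr hrA
      by_contra hrn
      have hrn : n + 1 < r := by omega
      have hpA : p ∣ Nat.card A := by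
        rw [← hx]; exact Subgroup.orderOf_dvd_natCard A (hxA (mem_zpowers x))
      have hrA' : ¬ r ∣ Nat.card A := fun h => hfull r hr h hrA
      have hprne : p ≠ r := by rintro rfl; exact hrA' hpA
      obtain ⟨y, z, hy, hz, hyz⟩ := exists_commute hF hp hr hprne hpn hrn hpG
        (hrA.trans (Subgroup.index_dvd_card A))
      -- conjugate y into A
      have hAH : HallIn n A ⊤ ∨ True := Or.inr trivial
      have hnilA : Group.IsNilpotent A := by
        letI : CommGroup A := { (inferInstance : Group A) with
          mul_comm := fun a b => Subtype.ext (hAcomm _ a.2 _ b.2) }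
        exact CommGroup.isNilpotent
      obtain ⟨g, hg⟩ := NilpotentHall.exists_conj_ge (H := A) (K := zpowers y) hnilA
        (NilpotentHall.coprime_of_forall_prime fun q hq h1 h2 => hfull q hq h1 h2)
        (by
          intro q hq hqy
          rw [Nat.card_zpowers, hy] at hqy
          rwa [(Nat.prime_dvd_prime_iff_eq hq hp).mp hqy])
      obtain ⟨a, ha, hay⟩ := hg (mem_zpowers y)
      have hay' : g * a * g⁻¹ = y := hay
      have hap : orderOf a = p := by
        rw [← hy, ← hay']
        exact (MulAut.conj g).orderOf_eq a |>.symm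
      have hH := hcent a ha p hp hap
      -- the conjugate of z centralizes a
      have hz' : g⁻¹ * z * g ∈ centralizer {a} := by
        rw [mem_centralizer_singleton_iff]
        have h1 : a = g⁻¹ * y * g := by rw [← hay']; group
        rw [h1]
        calc g⁻¹ * z * g * (g⁻¹ * y * g) = g⁻¹ * (z * y) * g := by group
          _ = g⁻¹ * (y * z) * g := by rw [hyz.eq]
          _ = _ := by group
      have hzr : orderOf (g⁻¹ * z * g) = r := by
        rw [← hz]
        have := (MulAut.conj g⁻¹).orderOf_eq z
        simpa using this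
      have h1 : r ∣ Nat.card A * A.relIndex (centralizer {a}) := by
        rw [card_mul_relIndex_of_le hH.1, ← hzr]
        exact Subgroup.orderOf_dvd_natCard _ hz'
      rcases hr.dvd_mul.mp h1 with h2 | h2
      · exact hrA' h2
      · have := hH.2.2 r hr h2
        omega
    · push Not at hpr
      refine ⟨⊥, ?_, ?_⟩
      · intro q hq h
        rw [Subgroup.card_bot] at h
        exact absurd (Nat.dvd_one.mp h) hq.one_lt.ne'
      · intro q hq h
        rw [Subgroup.index_bot] at h
        by_contra hlt
        exact hpr q hq (by omega) h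

theorem exists_hall {χ : G → ℂ} (h : Faith χ n) : ∃ A : Subgroup G, PiG n A ∧
    (∀ x ∈ A, ∀ y ∈ A, x * y = y * x) ∧ ∀ q : ℕ, q.Prime → q ∣ A.index → q ≤ n + 1 := by
  obtain ⟨A, hA, hA2⟩ := exists_hall_aux n (Nat.card G) G χ h le_rfl
  exact ⟨A, hA, h.pi_comm hA, hA2⟩

end Cfsg.Agent.Lib.LinHall
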