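import Cfsg.Agent.Lib.LinHall3
import Cfsg.Agent.Lib.MGroups
import Cfsg.Agent.Lib.LinBound3

set_option autoImplicit false

/-!
The classical index bound for finite linear groups.
-/

namespace Cfsg.Agent.Lib.LinHall

open Cfsg Subgroup Pointwise
open Cfsg.Agent.Lib.SubgroupTools Cfsg.Agent.Lib.CharBasic

universe u

/-- a nilpotent linear group of degree `n` has an abelian subgroup of index dividing `n!` -/
theorem Faith.exists_abelian {G : Type u} [Group G] [Finite G] {n : ℕ} {χ : G → ℂ} (h : Faith χ n)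
    (hG : Group.IsNilpotent G) :
    ∃ B : Subgroup G, (∀ x ∈ B, ∀ y ∈ B, x * y = y * x) ∧ B.index ∣ n.factorial := by
  classical
  haveI := Fintype.ofFinite G
  obtain ⟨c, hc, hs⟩ := h.char.exists_coeff
  choose H lam hlam using fun ψ : IrrCharacter G => MGroups.monomial_of_nilpotent hG ψ.2
  let T := {ψ : IrrCharacter G // c ψ ≠ 0}
  let X := Σ ψ : T, G ⧸ H ψ.1
  let f : G →* Equiv.Perm X := MulAction.toPermHom G X
  have hdeg : ∀ ψ : IrrCharacter G, (ψ : G → ℂ) 1 = ((H ψ).index : ℂ) := by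
    intro ψ
    rw [hlam ψ, IndFun.indFun_one]; simp
  have hmem : ∀ b ∈ f.ker, ∀ ψ : T, ∀ g : G, g⁻¹ * b * g ∈ H ψ.1 := by
    intro b hb ψ g
    have h1 : f b ⟨ψ, (g : G ⧸ H ψ.1)⟩ = ⟨ψ, (g : G ⧸ H ψ.1)⟩ := by
      rw [MonoidHom.mem_ker.mp hb]; rfl
    have h2 : ((b * g : G) : G ⧸ H ψ.1) = (g : G ⧸ H ψ.1) := by
      have h3 : f b ⟨ψ, (g : G ⧸ H ψ.1)⟩ = ⟨ψ, ((b * g : G) : G ⧸ H ψ.1)⟩ := rfl
      rw [h3] at h1
      exact eq_of_heq (Sigma.mk.inj_iff.mp h1).2
    have h3 := QuotientGroup.eq.mp h2.symm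
    rwa [← mul_assoc] at h3
  refine ⟨f.ker, ?_, ?_⟩
  · intro x hx y hy
    have h1 : x * y * x⁻¹ * y⁻¹ = 1 := by
      apply h.faith
      rw [hs]
      simp only [Finset.sum_apply, Pi.smul_apply, smul_eq_mul]
      refine Finset.sum_congr rfl fun ψ _ => ?_
      by_cases h0 : c ψ = 0
      · rw [h0]; simp
      · congr 1
        rw [hlam ψ, IndFun.indFun_apply, IndFun.indFun_apply]
        congr 1
        refine Finset.sum_congr rfl fun g _ => ?_
        have hx' := hmem x hx ⟨ψ, h0⟩ g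
        have hy' := hmem y hy ⟨ψ, h0⟩ g
        have h2 : g⁻¹ * (x * y * x⁻¹ * y⁻¹) * g =
            ((⟨_, hx'⟩ * ⟨_, hy'⟩ * (⟨_, hx'⟩)⁻¹ * (⟨_, hy'⟩)⁻¹ : H ψ) : G) := by
          simp only [Subgroup.coe_mul, Subgroup.coe_inv]
          group
        have h3 : g⁻¹ * 1 * g = ((1 : H ψ) : G) := by simp
        rw [h2, h3]
        unfold extendByZero
        rw [Subtype.val_injective.extend_apply, Subtype.val_injective.extend_apply]
        simp only [map_mul, map_inv, map_one]
        congr 1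
        rw [mul_comm (lam ψ ⟨_, hx'⟩), mul_inv_cancel_right, mul_inv_cancel]
    calc x * y = (x * y * x⁻¹ * y⁻¹) * (y * x) := by group
      _ = y * x := by rw [h1, one_mul]
  · have hX : Nat.card X ≤ n := by
      have h1 : Nat.card X = ∑ ψ : T, (H ψ.1).index := by
        rw [Nat.card_sigma]; rfl
      rw [h1]
      have h2 := congrFun hs 1
      rw [h.deg] at h2
      simp only [Finset.sum_apply, Pi.smul_apply, smul_eq_mul] at h2
      have h3 : n = ∑ ψ : IrrCharacter G, c ψ * (H ψ).index := by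
        have : (n : ℂ) = ((∑ ψ : IrrCharacter G, c ψ * (H ψ).index : ℕ) : ℂ) := by
          rw [h2]; push_cast
          exact Finset.sum_congr rfl fun ψ _ => by rw [hdeg]
        exact_mod_cast this
      calc ∑ ψ : T, (H ψ.1).index ≤ ∑ ψ : T, c ψ.1 * (H ψ.1).index :=
            Finset.sum_le_sum fun ψ _ => Nat.le_mul_of_pos_left _ (Nat.pos_of_ne_zero ψ.2)
        _ = ∑ ψ ∈ Finset.univ.filter (fun ψ : IrrCharacter G => c ψ ≠ 0), c ψ * (H ψ).index := by
            rw [← Finset.sum_subtype (Finset.univ.filter (fun ψ : IrrCharacter G => c ψ ≠ 0)) (by simp)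
              (fun ψ => c ψ * (H ψ).index)]
        _ ≤ ∑ ψ : IrrCharacter G, c ψ * (H ψ).index :=
            Finset.sum_le_sum_of_subset (Finset.filter_subset _ _)
        _ = n := h3.symm
    haveI : Finite X := by
      haveI : ∀ ψ : T, Finite (G ⧸ H ψ.1) := fun _ => inferInstance
      exact inferInstance
    rw [Subgroup.index_ker]
    refine (Subgroup.card_subgroup_dvd_card f.range).trans ?_
    rw [Nat.card_perm]
    exact Nat.factorial_dvd_factorial hX

end Cfsg.Agent.Lib.LinHall
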