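import Cfsg.Agent.Lib.LinHall4

set_option autoImplicit false

/-!
The classical index bound for finite linear groups, final step.
-/

namespace Cfsg.Agent.Lib.LinHall

open Cfsg Subgroup Pointwise
open Cfsg.Agent.Lib.SubgroupTools Cfsg.Agent.Lib.CharBasic

universe u

variable {G : Type u} [Group G] [Finite G] {n : ℕ}

theorem pow_dvd_relIndex {A B : Subgroup G} [A.Normal] {q : ℕ} (hq : q.Prime) (hB : ¬ q ∣ B.index) :
    q ^ (A.index.factorization q) ∣ A.relIndex B := by
  have h1 : A.relIndex B * (B ⊔ A).index = A.index := by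
    rw [← Subgroup.relIndex_sup_left (H := B) (K := A), sup_comm A B, Subgroup.relIndex_mul_index le_sup_right]
  have h2 : q ^ (A.index.factorization q) ∣ A.relIndex B * (B ⊔ A).index := by
    rw [h1]; exact Nat.ordProj_dvd _ _
  refine Nat.Coprime.dvd_of_dvd_mul_right ?_ h2
  refine Nat.Coprime.pow_left _ (hq.coprime_iff_not_dvd.mpr ?_)
  intro h; exact hB (h.trans (Subgroup.index_dvd_of_le le_sup_left))

theorem sylow_bound {χ : G → ℂ} (h : Faith χ n) {A : Subgroup G} [A.Normal] {c : ℕ}
    (hA : ∀ H : Subgroup G, (∀ x ∈ H, ∀ y ∈ H, x * y = y * x) → A.relIndex H ≤ c) {q : ℕ} (hq : q.Prime) :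
    q ^ (A.index.factorization q) ≤ q ^ ((n.factorial).factorization q) * c := by
  haveI : Fact q.Prime := ⟨hq⟩
  obtain ⟨P⟩ : Nonempty (Sylow q G) := inferInstance
  obtain ⟨B, hB, hBi⟩ := (h.restrict (P : Subgroup G)).exists_abelian P.2.isNilpotent
  have h1 := Nat.le_of_dvd (Nat.pos_of_ne_zero Subgroup.FiniteIndex.index_ne_zero)
    (pow_dvd_relIndex (A := A) hq P.not_dvd_index)
  refine h1.trans ?_
  have h2 : A.relIndex (P : Subgroup G) ≤ (A.subgroupOf P ⊓ B).index :=
    Nat.le_of_dvd (Nat.pos_of_ne_zero Subgroup.FiniteIndex.index_ne_zero) (Subgroup.index_dvd_of_le inf_le_left)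
  have h3 : (A.subgroupOf P ⊓ B).index = (A.subgroupOf P).relIndex B * B.index := by
    rw [← Subgroup.inf_relIndex_right (A.subgroupOf P) B, Subgroup.relIndex_mul_index inf_le_right]
  have h4 : (A.subgroupOf P).relIndex B = A.relIndex (B.map (P : Subgroup G).subtype) := by
    unfold Subgroup.subgroupOf
    rw [Subgroup.relIndex_comap]
  have h5 : A.relIndex (B.map (P : Subgroup G).subtype) ≤ c := by
    apply hA
    rintro _ ⟨x, hx, rfl⟩ _ ⟨y, hy, rfl⟩
    exact congrArg Subtype.val (hB x hx y hy)
  have h6 : B.index ≤ q ^ ((n.factorial).factorization q) := by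
    obtain ⟨k, hk⟩ := IsPGroup.iff_card.mp P.2
    have h7 : B.index ∣ q ^ k := by rw [← hk]; exact Subgroup.index_dvd_card B
    obtain ⟨j, -, hj⟩ := (Nat.dvd_prime_pow hq).mp h7
    rw [hj] at hBi ⊢
    exact Nat.pow_le_pow_right hq.pos
      ((hq.pow_dvd_iff_le_factorization (Nat.factorial_ne_zero n)).mp hBi)
  calc A.relIndex (P : Subgroup G) ≤ (A.subgroupOf P).relIndex B * B.index := by rw [← h3]; exact h2
    _ ≤ c * q ^ ((n.factorial).factorization q) := Nat.mul_le_mul (by rw [h4]; exact h5) h6
    _ = _ := mul_comm _ _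

theorem index_bound {χ : G → ℂ} (h : Faith χ n) {A : Subgroup G} [A.Normal]
    (hA : ∀ H : Subgroup G, (∀ x ∈ H, ∀ y ∈ H, x * y = y * x) → (A.subgroupOf H).index ≤ 12 ^ n) :
    A.index ≤ Nat.factorial n * 12 ^ (n * (Nat.primeCounting (n + 1) + 1)) := by
  classical
  set S := (Finset.range (n + 2)).filter Nat.Prime with hS
  have hScard : S.card = Nat.primeCounting (n + 1) := by
    rw [hS, Nat.primeCounting, Nat.primeCounting', Nat.count_eq_card_filter_range]
  have hN : A.index ≠ 0 := Subgroup.FiniteIndex.index_ne_zero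
  obtain ⟨A₀, hA₀, hA₀c, hA₀i⟩ := exists_hall h
  set m := ∏ q ∈ A.index.primeFactors \ S, q ^ (A.index.factorization q) with hm
  have hmle : m ≤ 12 ^ n := by
    refine le_trans ?_ (hA A₀ hA₀c)
    refine Nat.le_of_dvd (Nat.pos_of_ne_zero Subgroup.FiniteIndex.index_ne_zero) ?_
    refine Finset.prod_dvd_of_isRelPrime ?_ ?_
    · intro a ha b hb hab
      have ha' := Nat.prime_of_mem_primeFactors (Finset.mem_sdiff.mp ha).1
      have hb' := Nat.prime_of_mem_primeFactors (Finset.mem_sdiff.mp hb).1
      rw [Function.onFun, ← Nat.coprime_iff_isRelPrime]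
      exact Nat.Coprime.pow _ _ ((Nat.coprime_primes ha' hb').mpr hab)
    · intro q hq
      have hq' := Nat.prime_of_mem_primeFactors (Finset.mem_sdiff.mp hq).1
      have hqS := (Finset.mem_sdiff.mp hq).2
      refine pow_dvd_relIndex hq' ?_
      intro hqi
      apply hqS
      rw [hS, Finset.mem_filter, Finset.mem_range]
      exact ⟨by have := hA₀i q hq' hqi; omega, hq'⟩
  have hsplit : A.index = (∏ q ∈ S, q ^ (A.index.factorization q)) * m := by
    conv_lhs => rw [← Nat.prod_factorization_pow_eq_self hN, Finsupp.prod, Nat.support_factorization]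
    have h1 : ∏ q ∈ S, q ^ (A.index.factorization q) =
        ∏ q ∈ A.index.primeFactors ∩ S, q ^ (A.index.factorization q) := by
      symm
      apply Finset.prod_subset Finset.inter_subset_right
      intro q hq hq2
      have : q ∉ A.index.primeFactors := fun h => hq2 (Finset.mem_inter.mpr ⟨h, hq⟩)
      rw [← Nat.support_factorization, Finsupp.notMem_support_iff] at this
      rw [this, pow_zero]
    rw [h1, hm, ← Finset.prod_union (Finset.disjoint_left.mpr (by
      intro a ha hb
      exact (Finset.mem_sdiff.mp hb).2 (Finset.mem_inter.mp ha).2))]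
    congr 1
    rw [Finset.union_comm, Finset.sdiff_union_inter]
  have hfact : ∏ q ∈ S, q ^ ((n.factorial).factorization q) = n.factorial := by
    conv_rhs => rw [← Nat.prod_factorization_pow_eq_self (Nat.factorial_ne_zero n), Finsupp.prod,
      Nat.support_factorization]
    symm
    apply Finset.prod_subset
    · intro q hq
      have hq' := Nat.prime_of_mem_primeFactors hq
      have hqd := Nat.dvd_of_mem_primeFactors hq
      have := (hq'.dvd_factorial).mp hqd
      rw [hS, Finset.mem_filter, Finset.mem_range]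
      exact ⟨by omega, hq'⟩
    · intro q _ hq2
      rw [← Nat.support_factorization, Finsupp.notMem_support_iff] at hq2
      rw [hq2, pow_zero]
  have hS2 : ∏ q ∈ S, q ^ (A.index.factorization q) ≤ n.factorial * (12 ^ n) ^ S.card := by
    calc ∏ q ∈ S, q ^ (A.index.factorization q) ≤ ∏ q ∈ S, (q ^ ((n.factorial).factorization q) * 12 ^ n) := by
          refine Finset.prod_le_prod' fun q hq => ?_
          exact sylow_bound h hA (Finset.mem_filter.mp hq).2
      _ = _ := by rw [Finset.prod_mul_distrib, hfact, Finset.prod_const]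
  rw [hsplit]
  calc (∏ q ∈ S, q ^ (A.index.factorization q)) * m ≤ (n.factorial * (12 ^ n) ^ S.card) * 12 ^ n :=
        Nat.mul_le_mul hS2 hmle
    _ = _ := by rw [hScard, ← pow_mul]; ring

end Cfsg.Agent.Lib.LinHall
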