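import Mathlib

/-!
# Counting lines (2-dimensional subspaces) with a property over a finite field (helper14)
-/

set_option autoImplicit false

namespace Cfsg.Agent.Lib.LineCount

open Module

theorem card_fib {α β : Type*} [Finite α] [Finite β] (f : α → β) (n : ℕ)
    (h : ∀ b, Nat.card {a // f a = b} = n) : Nat.card α = n * Nat.card β := by
  classical
  have : Fintype β := Fintype.ofFinite β
  rw [Nat.card_congr (Equiv.sigmaFiberEquiv f).symm, Nat.card_sigma, Finset.sum_congr rfl (fun b _ => h b),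
    Finset.sum_const, smul_eq_mul, mul_comm, Finset.card_univ, Nat.card_eq_fintype_card]

variable {F V : Type*} [Field F] [AddCommGroup V] [Module F V]

theorem finrank_pair {v w : V} (hv : v ≠ 0) (hw : w ∉ Submodule.span F {v}) :
    finrank F (Submodule.span F {v, w}) = 2 := by
  have hli : LinearIndependent F ![v, w] := by
    rw [LinearIndependent.pair_iff' hv]
    intro a ha
    exact hw (Submodule.mem_span_singleton.mpr ⟨a, ha⟩)
  have h := finrank_span_eq_card hli
  have hr : Set.range ![v, w] = {v, w} := by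
    rw [Matrix.range_cons, Matrix.range_cons, Matrix.range_empty, Set.union_empty]
    rfl
  rw [hr] at h
  exact h

variable [Fintype F] [Finite V]

theorem card_submodule (W : Submodule F V) : Nat.card W = Fintype.card F ^ finrank F W := by
  have hfin : FiniteDimensional F V := Module.Finite.of_finite
  rw [Module.natCard_eq_pow_finrank (K := F), Nat.card_eq_fintype_card]

/-- second vectors of bases -/
theorem card_pairs (P : Submodule F V → Prop) (v : V) (hv : v ≠ 0) :
    Nat.card {w : V // w ∉ Submodule.span F {v} ∧ P (Submodule.span F {v, w})} =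
      (Fintype.card F ^ 2 - Fintype.card F) * Nat.card {W : Submodule F V // finrank F W = 2 ∧ v ∈ W ∧ P W} := by
  have hfin : FiniteDimensional F V := Module.Finite.of_finite
  apply card_fib (fun w => (⟨Submodule.span F {v, w.1}, finrank_pair hv w.2.1, Submodule.subset_span (Or.inl rfl), w.2.2⟩ :
    {W : Submodule F V // finrank F W = 2 ∧ v ∈ W ∧ P W}))
  rintro ⟨W, hW, hvW, hP⟩
  have hle : Submodule.span F {v} ≤ W := by
    rw [Submodule.span_singleton_le_iff_mem]; exact hvW
  have hspan : ∀ w : V, w ∈ W → w ∉ Submodule.span F {v} → Submodule.span F {v, w} = W := by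
    intro w hw hwv
    apply Submodule.eq_of_le_of_finrank_eq
    · rw [Submodule.span_le]
      rintro x (rfl | rfl)
      · exact hvW
      · exact hw
    · rw [finrank_pair hv hwv, hW]
  have e1 : Nat.card {w : V // w ∈ (W : Set V) \ (Submodule.span F {v} : Submodule F V)} = Fintype.card F ^ 2 - Fintype.card F := by
    have h1 : Nat.card {w : V // w ∈ (W : Set V) \ (Submodule.span F {v} : Submodule F V)} =
        Set.ncard ((W : Set V) \ (Submodule.span F {v} : Submodule F V)) := rfl
    have h2 : Set.ncard (W : Set V) = Fintype.card F ^ 2 := by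
      rw [← hW, ← card_submodule]; rfl
    have h3 : Set.ncard ((Submodule.span F {v} : Submodule F V) : Set V) = Fintype.card F := by
      have := card_submodule (Submodule.span F {v})
      rw [finrank_span_singleton hv, pow_one] at this
      exact this
    rw [h1, Set.ncard_sdiff (by exact hle), h2, h3]
  rw [← e1]
  refine Nat.card_congr ⟨fun a => ⟨a.1.1, ?_, a.1.2.1⟩, fun w => ⟨⟨w.1, w.2.2, ?_⟩, ?_⟩, fun a => rfl, fun w => rfl⟩
  · have h : Submodule.span F {v, a.1.1} = W := congrArg Subtype.val a.2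
    exact h.le (Submodule.subset_span (Or.inr rfl))
  · rw [hspan w.1 w.2.1 w.2.2]; exact hP
  · apply Subtype.ext
    exact hspan w.1 w.2.1 w.2.2

/-- double counting of flags -/
theorem card_flags (P : Submodule F V → Prop) (Iso : V → Prop) (t : ℕ)
    (h1 : ∀ v : V, v ≠ 0 → Iso v → Nat.card {W : Submodule F V // finrank F W = 2 ∧ v ∈ W ∧ P W} = t)
    (h2 : ∀ W : Submodule F V, P W → ∀ v ∈ W, Iso v) :
    (Fintype.card F ^ 2 - 1) * Nat.card {W : Submodule F V // finrank F W = 2 ∧ P W} =
      t * Nat.card {v : V // v ≠ 0 ∧ Iso v} := by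
  let A := {p : V × Submodule F V // p.1 ≠ 0 ∧ p.1 ∈ p.2 ∧ finrank F p.2 = 2 ∧ P p.2}
  have hA1 : Nat.card A = t * Nat.card {v : V // v ≠ 0 ∧ Iso v} := by
    apply card_fib (fun a : A => (⟨a.1.1, a.2.1, h2 _ a.2.2.2.2 _ a.2.2.1⟩ : {v : V // v ≠ 0 ∧ Iso v}))
    rintro ⟨v, hv, hiv⟩
    rw [← h1 v hv hiv]
    refine Nat.card_congr ⟨fun a => ⟨a.1.1.2, a.1.2.2.2.1, ?_, a.1.2.2.2.2⟩,
      fun W => ⟨⟨(v, W.1), hv, W.2.2.1, W.2.1, W.2.2.2⟩, rfl⟩, ?_, fun W => rfl⟩
    · have h : a.1.1.1 = v := congrArg Subtype.val a.2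
      have h3 := a.1.2.2.1
      exact (congrArg (fun z => z ∈ a.1.1.2) h).mp h3
    · rintro ⟨⟨⟨x, W⟩, h⟩, hx⟩
      have h3 : x = v := congrArg Subtype.val hx
      subst h3
      rfl
  have hA2 : Nat.card A = (Fintype.card F ^ 2 - 1) * Nat.card {W : Submodule F V // finrank F W = 2 ∧ P W} := by
    apply card_fib (fun a : A => (⟨a.1.2, a.2.2.2⟩ : {W : Submodule F V // finrank F W = 2 ∧ P W}))
    rintro ⟨W, hW, hP⟩
    have e1 : Nat.card {w : V // w ∈ (W : Set V) \ {0}} = Fintype.card F ^ 2 - 1 := by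
      have h1 : Nat.card {w : V // w ∈ (W : Set V) \ {0}} = Set.ncard ((W : Set V) \ {0}) := rfl
      have h2 : Set.ncard (W : Set V) = Fintype.card F ^ 2 := by
        rw [← hW, ← card_submodule]; rfl
      rw [h1, Set.ncard_sdiff_singleton_of_mem (by exact W.zero_mem), h2]
    rw [← e1]
    refine Nat.card_congr ⟨fun a => ⟨a.1.1.1, ?_, a.1.2.1⟩, fun w => ⟨⟨(w.1, W), w.2.2, w.2.1, hW, hP⟩, rfl⟩, ?_, fun w => rfl⟩
    · have h : a.1.1.2 = W := congrArg Subtype.val a.2
      exact h.le a.1.2.2.1
    · rintro ⟨⟨⟨x, W'⟩, h⟩, hx⟩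
      have h3 : W' = W := congrArg Subtype.val hx
      subst h3
      rfl
  rw [← hA2, hA1]

end Cfsg.Agent.Lib.LineCount
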