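import Cfsg.Agent.Lib.LowDim
import Cfsg.Agent.Lib.ClSLn
import Cfsg.Agent.Lib.QuadSum

/-! Tools: representations to linear automorphisms, images of `SL_n` in `Ω`, centre lemma. -/

set_option autoImplicit false

namespace Cfsg.Agent.Lib.LowDimB

open QuadraticMap Cfsg.Agent.Lib Cfsg.Agent.Lib.Quad Matrix

section

variable {F V G : Type*} [Field F] [AddCommGroup V] [Module F V] [Group G]

/-- A homomorphism to endomorphisms gives a homomorphism to automorphisms. -/
noncomputable def liftLE (f : G →* (V →ₗ[F] V)) : G →* (V ≃ₗ[F] V) :=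
  (LinearMap.GeneralLinearGroup.generalLinearEquiv F V).toMonoidHom.comp f.toHomUnits

theorem liftLE_apply (f : G →* (V →ₗ[F] V)) (g : G) (v : V) : liftLE f g v = f g v := rfl

/-- restriction of a homomorphism to an invariant submodule -/
def restrictHom (f : G →* (V →ₗ[F] V)) (W : Submodule F V) (h : ∀ g, ∀ w ∈ W, f g w ∈ W) :
    G →* (W →ₗ[F] W) where
  toFun g := (f g).restrict (h g)
  map_one' := by
    apply LinearMap.ext
    intro w
    apply Subtype.ext
    show f 1 w = w
    rw [map_one]; rfl
  map_mul' g g' := by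
    apply LinearMap.ext
    intro w
    apply Subtype.ext
    show f (g * g') w = f g (f g' w)
    rw [map_mul]; rfl

theorem restrictHom_apply (f : G →* (V →ₗ[F] V)) (W : Submodule F V) (h : ∀ g, ∀ w ∈ W, f g w ∈ W)
    (g : G) (w : W) : (restrictHom f W h g w : V) = f g w := rfl

end

section

variable {n : ℕ} {K : Type*} [Field K]

theorem transvection_sq (h2 : (2 : K) ≠ 0) {i j : Fin n} (hij : i ≠ j) (c : K) :
    SpecialLinearGroup.transvection hij c =
      SpecialLinearGroup.transvection hij (c / 2) * SpecialLinearGroup.transvection hij (c / 2) := by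
  apply Subtype.ext
  show Matrix.transvection i j c = Matrix.transvection i j (c / 2) * Matrix.transvection i j (c / 2)
  rw [Matrix.transvection_mul_transvection_same i j hij]
  congr 1
  field_simp
  ring

variable {F V : Type*} [Field F] [AddCommGroup V] [Module F V] {Q : QuadraticForm F V}

theorem perfect_mem_Om {G : Type*} [Group G] (hG : commutator G = ⊤) (ρ : G →* (V ≃ₗ[F] V))
    (hρ : ∀ g, ρ g ∈ O Q) (g : G) : ρ g ∈ Om Q := by
  have h1 : (commutator G).map ρ ≤ Om Q := by
    rw [commutator_def, Subgroup.map_commutator, Om]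
    apply Subgroup.commutator_mono
    · rintro _ ⟨x, _, rfl⟩; exact hρ x
    · rintro _ ⟨x, _, rfl⟩; exact hρ x
  rw [hG] at h1
  exact h1 ⟨g, trivial, rfl⟩

theorem SL_mem_Om [FiniteDimensional F V] (ρ : SpecialLinearGroup (Fin n) K →* (V ≃ₗ[F] V))
    (hρ : ∀ g, ρ g ∈ O Q) (hR : R Q = O Q)
    (h : (2 : K) ≠ 0 ∨ commutator (SpecialLinearGroup (Fin n) K) = ⊤) (g) : ρ g ∈ Om Q := by
  rcases h with h2 | h
  · have : (Om Q).comap ρ = ⊤ := by
      apply ClSLn.eq_top_of_transvection_mem
      intro i j hij c
      show ρ _ ∈ Om Q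
      rw [transvection_sq h2, map_mul]
      exact sq_mem_Om hR (hρ _)
    have h1 : g ∈ (Om Q).comap ρ := by rw [this]; trivial
    exact h1
  · exact perfect_mem_Om h ρ hρ g

theorem trace_transvection {i j : Fin n} (hij : i ≠ j) (c : K) :
    (Matrix.transvection i j c).trace = n := by
  rw [Matrix.transvection, Matrix.trace_add, Matrix.trace_one, Matrix.trace_single_eq_of_ne _ _ _ hij]
  simp

theorem mem_center_of_sign (hn : (2 : K) = 0 ∨ (2 * n : K) ≠ 0) (A : SpecialLinearGroup (Fin n) K)
    (h : ∀ B : SpecialLinearGroup (Fin n) K, (A * B).1 = (B * A).1 ∨ (A * B).1 = -(B * A).1) :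
    A ∈ Subgroup.center (SpecialLinearGroup (Fin n) K) := by
  have hc : Subgroup.centralizer {A} = ⊤ := by
    apply ClSLn.eq_top_of_transvection_mem
    intro i j hij c
    rw [Subgroup.mem_centralizer_singleton_iff]
    set B := SpecialLinearGroup.transvection hij c with hB
    rcases h B with h1 | h1
    · exact Subtype.ext h1.symm
    · rcases hn with h2 | h2
      · apply Subtype.ext
        rw [h1]
        ext a b
        simp only [Matrix.neg_apply]
        linear_combination ((B * A).1 a b) * h2
      · exfalso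
        have e1 : B.1 = -((A⁻¹).1 * (B.1 * A.1)) := by
          have : (A⁻¹).1 * (A * B).1 = B.1 := by
            have : A⁻¹ * (A * B) = B := by group
            exact congrArg Subtype.val this
          calc B.1 = (A⁻¹).1 * (A * B).1 := this.symm
            _ = (A⁻¹).1 * (-(B * A).1) := by rw [h1]
            _ = -((A⁻¹).1 * (B.1 * A.1)) := by rw [mul_neg]; rfl
        have e2 : B.1.trace = -B.1.trace := by
          conv_lhs => rw [e1]
          rw [Matrix.trace_neg, Matrix.trace_mul_comm, Matrix.mul_assoc]
          have : A.1 * (A⁻¹).1 = 1 := by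
            have : A * A⁻¹ = 1 := by group
            exact congrArg Subtype.val this
          rw [this, mul_one]
        have e3 : B.1.trace = n := trace_transvection hij c
        rw [e3] at e2
        apply h2
        linear_combination e2
  rw [Subgroup.mem_center_iff]
  intro g
  have : g ∈ Subgroup.centralizer {A} := by rw [hc]; trivial
  exact Subgroup.mem_centralizer_singleton_iff.1 this

end

/-- nondegeneracy is invariant under isometry -/
theorem nd_of_equiv {F V W : Type*} [Field F] [AddCommGroup V] [Module F V] [AddCommGroup W]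
    [Module F W] {Q : QuadraticForm F V} {Q' : QuadraticForm F W} (e : V ≃ₗ[F] W)
    (he : ∀ v, Q' (e v) = Q v) (h : Nd Q) : Nd Q' := by
  rw [nd_iff]
  intro x hx
  obtain ⟨v, rfl⟩ := e.surjective x
  have h1 : ∀ y, polar Q v y = 0 := by
    intro y
    rw [← polar_map e.toLinearMap he]
    exact hx _
  rw [h.eq_zero h1, map_zero]

theorem genHyp_of_equiv {F V W : Type*} [Field F] [AddCommGroup V] [Module F V] [AddCommGroup W]
    [Module F W] {Q : QuadraticForm F V} {Q' : QuadraticForm F W} (e : V ≃ₗ[F] W)
    (he : ∀ v, Q' (e v) = Q v) (h : GenHyp Q) : GenHyp Q' := by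
  rcases h with h | h | h
  · exact Or.inl h
  · right; left
    rwa [← e.finrank_eq]
  · right; right
    intro u v hu hv huv hu0
    obtain ⟨u, rfl⟩ := e.surjective u
    obtain ⟨v, rfl⟩ := e.surjective v
    obtain ⟨c, hc⟩ := h u v (by rw [← he, hu]) (by rw [← he, hv])
      (by rw [← polar_map e.toLinearMap he]; exact huv) (by rintro rfl; exact hu0 (map_zero e))
    exact ⟨c, by rw [hc, map_smul]⟩

/-- sign lemma for products -/
theorem eq_or_eq_neg_of_comm {n : ℕ} {K : Type*} [Field K] (A B : SpecialLinearGroup (Fin n) K)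
    (h : (A * B * (B * A)⁻¹).1 = 1 ∨ (A * B * (B * A)⁻¹).1 = -1) :
    (A * B).1 = (B * A).1 ∨ (A * B).1 = -(B * A).1 := by
  rcases h with h | h
  · left
    have h3 : A * B * (B * A)⁻¹ = 1 := Subtype.ext h
    rw [mul_inv_eq_one] at h3
    rw [h3]
  · right
    have h3 : (A * B).1 = (A * B * (B * A)⁻¹).1 * (B * A).1 := by
      have : A * B = (A * B * (B * A)⁻¹) * (B * A) := by group
      exact congrArg Subtype.val this
    rw [h3, h, neg_mul, one_mul]

/-- counting helper -/
theorem card_le_two {G : Type*} [Group G] (K : Subgroup G) (z : G) (h : ∀ g ∈ K, g = 1 ∨ g = z) :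
    Nat.card K ≤ 2 := by
  have hsub : (K : Set G) ⊆ {1, z} := fun g hg => h g hg
  calc Nat.card K = (K : Set G).ncard := (Nat.card_coe_set_eq _)
    _ ≤ ({1, z} : Set G).ncard := Set.ncard_le_ncard hsub (Set.toFinite _)
    _ ≤ 2 := by
      have := Set.ncard_insert_le (1 : G) {z}
      rwa [Set.ncard_singleton] at this

theorem card_eq_one {G : Type*} [Group G] (K : Subgroup G) (h : ∀ g ∈ K, g = 1) :
    Nat.card K = 1 := by
  rw [Subgroup.card_eq_one, eq_bot_iff]
  intro g hg
  rw [Subgroup.mem_bot]
  exact h g hg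

end Cfsg.Agent.Lib.LowDimB
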