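import Cfsg.Agent.Lib.LowDimB
import Cfsg.Agent.Lib.ClSLn

/-! Alternating `4 × 4` matrices, Pfaffian, action of `SL_4`. -/

set_option autoImplicit false

namespace Cfsg.Agent.Lib.LowDimP

open Matrix Cfsg.Agent.Lib Cfsg.Agent.Lib.LowDimB

variable (K : Type*) [Field K]

abbrev M4 := Matrix (Fin 4) (Fin 4) K

/-- alternating matrices -/
def W : Submodule K (M4 K) where
  carrier := {X | (∀ i, X i i = 0) ∧ ∀ i j, X j i = - X i j}
  add_mem' {a b} ha hb := by
    refine ⟨fun i => ?_, fun i j => ?_⟩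
    · rw [Matrix.add_apply, ha.1, hb.1, add_zero]
    · rw [Matrix.add_apply, Matrix.add_apply, ha.2 i j, hb.2 i j]; ring
  zero_mem' := ⟨fun i => rfl, fun i j => by simp⟩
  smul_mem' c a ha := by
    refine ⟨fun i => ?_, fun i j => ?_⟩
    · rw [Matrix.smul_apply, ha.1, smul_zero]
    · rw [Matrix.smul_apply, Matrix.smul_apply, ha.2 i j]; simp

variable {K}

theorem mem_W {X : M4 K} : X ∈ W K ↔ (∀ i, X i i = 0) ∧ ∀ i j, X j i = - X i j := Iff.rfl

/-- the Pfaffian -/
def pf (X : M4 K) : K := X 0 1 * X 2 3 - X 0 2 * X 1 3 + X 0 3 * X 1 2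

/-- the alternating matrix with given entries -/
def alt4 (a b c d e f : K) : M4 K := !![0, a, b, c; -a, 0, d, e; -b, -d, 0, f; -c, -e, -f, 0]

theorem alt4_mem (a b c d e f : K) : alt4 a b c d e f ∈ W K := by
  refine ⟨fun i => ?_, fun i j => ?_⟩
  · fin_cases i <;> rfl
  · fin_cases i <;> fin_cases j <;> simp [alt4]

theorem eq_alt4 {X : M4 K} (hX : X ∈ W K) : X = alt4 (X 0 1) (X 0 2) (X 0 3) (X 1 2) (X 1 3) (X 2 3) := by
  ext i j
  fin_cases i <;> fin_cases j <;> simp [alt4, hX.1, hX.2 0 1, hX.2 0 2, hX.2 0 3, hX.2 1 2, hX.2 1 3, hX.2 2 3]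

theorem pf_alt4 (a b c d e f : K) : pf (alt4 a b c d e f) = a * f - b * e + c * d := by
  simp [pf, alt4]

theorem alt4_add (a b c d e f a' b' c' d' e' f' : K) :
    alt4 (a + a') (b + b') (c + c') (d + d') (e + e') (f + f') =
      alt4 a b c d e f + alt4 a' b' c' d' e' f' := by
  ext i j
  fin_cases i <;> fin_cases j <;> simp [alt4, add_comm]

theorem alt4_smul (k a b c d e f : K) :
    alt4 (k * a) (k * b) (k * c) (k * d) (k * e) (k * f) = k • alt4 a b c d e f := by
  ext i j
  fin_cases i <;> fin_cases j <;> simp [alt4]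

/-- closure under congruence -/
theorem congr_mem (A : M4 K) {X : M4 K} (hX : X ∈ W K) : A * X * Aᵀ ∈ W K := by
  have hT : Xᵀ = -X := by
    ext i j
    rw [Matrix.transpose_apply, Matrix.neg_apply, hX.2]
  have hskew : (A * X * Aᵀ)ᵀ = -(A * X * Aᵀ) := by
    rw [transpose_mul, transpose_mul, transpose_transpose, hT]
    simp [mul_assoc]
  refine ⟨fun i => ?_, fun i j => ?_⟩
  · rw [eq_alt4 hX]
    simp only [Matrix.mul_apply, Fin.sum_univ_four, Matrix.transpose_apply, alt4]
    simp
    ring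
  · have := congrFun (congrFun hskew i) j
    rwa [Matrix.transpose_apply, Matrix.neg_apply] at this

/-- the action -/
def f : SpecialLinearGroup (Fin 4) K →* (M4 K →ₗ[K] M4 K) where
  toFun A :=
    { toFun := fun X => A.1 * X * A.1ᵀ
      map_add' := fun X Y => by rw [mul_add, add_mul]
      map_smul' := fun c X => by rw [Matrix.mul_smul, Matrix.smul_mul]; rfl }
  map_one' := by
    apply LinearMap.ext
    intro X
    show (1 : M4 K) * X * (1 : M4 K)ᵀ = X
    rw [transpose_one, one_mul, mul_one]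
  map_mul' A B := by
    apply LinearMap.ext
    intro X
    show (A.1 * B.1) * X * (A.1 * B.1)ᵀ = A.1 * (B.1 * X * B.1ᵀ) * A.1ᵀ
    rw [transpose_mul]
    simp only [mul_assoc]

theorem f_apply (A : SpecialLinearGroup (Fin 4) K) (X : M4 K) : f A X = A.1 * X * A.1ᵀ := rfl

theorem f_mem (A : SpecialLinearGroup (Fin 4) K) : ∀ X ∈ W K, f A X ∈ W K :=
  fun _ hX => congr_mem A.1 hX

theorem pf_transvection {i j : Fin 4} (hij : i ≠ j) (c : K) {X : M4 K} (hX : X ∈ W K) :
    pf (Matrix.transvection i j c * X * (Matrix.transvection i j c)ᵀ) = pf X := by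
  rw [eq_alt4 hX]
  generalize X 0 1 = x1
  generalize X 0 2 = x2
  generalize X 0 3 = x3
  generalize X 1 2 = x4
  generalize X 1 3 = x5
  generalize X 2 3 = x6
  rw [pf_alt4]
  fin_cases i <;> fin_cases j <;>
    first
    | exact absurd rfl hij
    | (simp [pf, Matrix.mul_apply, Fin.sum_univ_four, alt4, Matrix.transvection, Matrix.one_apply, Matrix.single_apply]
       ring)

theorem pf_SL (A : SpecialLinearGroup (Fin 4) K) : ∀ X ∈ W K, pf (A.1 * X * A.1ᵀ) = pf X := by
  refine ClSLn.transvection_induction (P := fun A => ∀ X ∈ W K, pf (A.1 * X * A.1ᵀ) = pf X) ?_ ?_ A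
  · intro i j hij c X hX
    exact pf_transvection hij c hX
  · intro A B hA hB X hX
    have h1 : (A * B).1 * X * ((A * B).1)ᵀ = A.1 * (B.1 * X * B.1ᵀ) * A.1ᵀ := by
      show (A.1 * B.1) * X * (A.1 * B.1)ᵀ = _
      rw [transpose_mul]
      simp only [mul_assoc]
    rw [h1, hA _ (congr_mem B.1 hX), hB X hX]

/-- the entry of `A X Aᵀ` for `X = E_ij - E_ji`. -/
theorem minor (A : M4 K) {i j : Fin 4} (hij : i ≠ j)
    (h : A * (Matrix.single i j 1 - Matrix.single j i 1) * Aᵀ = Matrix.single i j 1 - Matrix.single j i 1)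
    (k l : Fin 4) : A k i * A l j - A k j * A l i =
      (if k = i ∧ l = j then 1 else 0) - (if k = j ∧ l = i then 1 else 0) := by
  have h1 := congrFun (congrFun h k) l
  have e1 : ∀ (p r : Fin 4), (A * Matrix.single p r (1 : K) * Aᵀ) k l = A k p * A l r := by
    intro p r
    rw [Matrix.mul_apply, Finset.sum_eq_single r]
    · rw [Matrix.mul_apply, Finset.sum_eq_single p]
      · simp [Matrix.single_apply]
      · intro b _ hb
        simp [Matrix.single_apply, hb.symm]
      · simp
    · intro b _ hb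
      rw [Matrix.mul_apply, Finset.sum_eq_zero, zero_mul]
      intro x _
      simp [Matrix.single_apply, hb.symm]
    · simp
  rw [mul_sub, sub_mul, Matrix.sub_apply, e1, e1, Matrix.sub_apply, Matrix.single_apply,
    Matrix.single_apply] at h1
  rw [h1]
  congr 1
  · simp only [eq_comm]
  · simp only [eq_comm]

/-- columns i, j are fixed up to scalars modulo each other. -/
theorem col_zero (A : M4 K) {i j : Fin 4} (hij : i ≠ j)
    (h : A * (Matrix.single i j 1 - Matrix.single j i 1) * Aᵀ = Matrix.single i j 1 - Matrix.single j i 1)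
    {k : Fin 4} (hki : k ≠ i) (hkj : k ≠ j) : A k i = 0 ∧ A k j = 0 := by
  have m1 := minor A hij h k i
  have m2 := minor A hij h k j
  have m3 := minor A hij h i j
  simp only [hki, hkj, hij, false_and, if_false, sub_zero, true_and, if_true, and_self] at m1 m2 m3
  rw [← sub_eq_zero] at m1
  constructor
  · linear_combination (A k i) * (-m3) + A i i * m2 - A j i * m1
  · linear_combination (A k j) * (-m3) + A i j * m2 - A j j * m1

theorem single_mem {i j : Fin 4} (hij : i ≠ j) :
    (Matrix.single i j (1 : K) - Matrix.single j i 1) ∈ W K := by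
  refine ⟨fun k => ?_, fun k l => ?_⟩
  · rw [Matrix.sub_apply, Matrix.single_apply, Matrix.single_apply, if_neg, if_neg, sub_zero]
    · rintro ⟨h1, h2⟩; exact hij (h2.trans h1.symm)
    · rintro ⟨h1, h2⟩; exact hij (h1.trans h2.symm)
  · rw [Matrix.sub_apply, Matrix.sub_apply, Matrix.single_apply, Matrix.single_apply,
      Matrix.single_apply, Matrix.single_apply]
    have e1 : (i = l ∧ j = k) ↔ (j = k ∧ i = l) := and_comm
    have e2 : (j = l ∧ i = k) ↔ (i = k ∧ j = l) := and_comm
    simp only [e1, e2]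
    ring

theorem eq_one_or_neg (A : M4 K) (h : ∀ X ∈ W K, A * X * Aᵀ = X) : A = 1 ∨ A = -1 := by
  have h' : ∀ {i j : Fin 4}, i ≠ j → A * (Matrix.single i j 1 - Matrix.single j i 1) * Aᵀ =
      Matrix.single i j 1 - Matrix.single j i 1 := fun hij => h _ (single_mem hij)
  have hoff : ∀ k i : Fin 4, k ≠ i → A k i = 0 := by
    intro k i hki
    obtain ⟨j, hj1, hj2⟩ : ∃ j : Fin 4, j ≠ i ∧ j ≠ k := by
      revert k i; decide
    exact (col_zero A (Ne.symm hj1) (h' (Ne.symm hj1)) hki (Ne.symm hj2)).1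
  have hdiag : ∀ i j : Fin 4, i ≠ j → A i i * A j j = 1 := by
    intro i j hij
    have := minor A hij (h' hij) i j
    rw [hoff i j hij, hoff j i hij.symm] at this
    simpa [hij] using this
  have h01 := hdiag 0 1 (by decide)
  have h02 := hdiag 0 2 (by decide)
  have h03 := hdiag 0 3 (by decide)
  have h12 := hdiag 1 2 (by decide)
  have hA0 : A 0 0 ≠ 0 := by intro h; rw [h, zero_mul] at h01; exact zero_ne_one h01
  have e12 : A 1 1 = A 2 2 := mul_left_cancel₀ hA0 (h01.trans h02.symm)
  have e13 : A 1 1 = A 3 3 := mul_left_cancel₀ hA0 (h01.trans h03.symm)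
  have hsq : A 1 1 * A 1 1 = 1 := by
    conv_lhs => rw [e12]
    rw [← e12]
    conv_lhs => rw [e12]
    rw [← h12, e12]
  have e10 : A 1 1 = A 0 0 := by
    have : A 1 1 * A 1 1 = A 1 1 * A 0 0 := by rw [hsq, mul_comm, h01]
    have hA1 : A 1 1 ≠ 0 := by intro h; rw [h, mul_zero] at h01; exact zero_ne_one h01
    exact mul_left_cancel₀ hA1 this
  have hcase : A 1 1 = 1 ∨ A 1 1 = -1 := by
    have : (A 1 1 - 1) * (A 1 1 + 1) = 0 := by linear_combination hsq
    rcases mul_eq_zero.1 this with h | h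
    · left; linear_combination h
    · right; linear_combination h
  have hall : ∀ i, A i i = A 1 1 := by
    intro i
    fin_cases i
    · exact e10.symm
    · rfl
    · exact e12.symm
    · exact e13.symm
  rcases hcase with h | h
  · left
    ext i j
    by_cases hij : i = j
    · subst hij; rw [hall, h, Matrix.one_apply_eq]
    · rw [hoff i j hij, Matrix.one_apply_ne hij]
  · right
    ext i j
    by_cases hij : i = j
    · subst hij; rw [hall, h, Matrix.neg_apply, Matrix.one_apply_eq]
    · rw [hoff i j hij, Matrix.neg_apply, Matrix.one_apply_ne hij, neg_zero]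

end Cfsg.Agent.Lib.LowDimP
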