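import Mathlib
import Cfsg.Agent.Lib.OrthNdBridge

set_option autoImplicit false
set_option linter.unusedSectionVars false

/-!
# Stabilizers of nondegenerate subspaces in small dimension (helper14; adapted from `OrthNd`)
-/

namespace Cfsg.Agent.Lib.LowNd

open QuadraticMap Module Cfsg.Agent.Lib.Quad Cfsg.Agent.Lib.OrthMax Cfsg.Agent.Lib.OrthNd

variable {F V : Type*} [Field F] [AddCommGroup V] [Module F V] [FiniteDimensional F V]
  {Q : QuadraticForm F V} {M : Subgroup (V ≃ₗ[F] V)} {A : Submodule F V}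

/-- **Stabilisers of nondegenerate subspaces.** -/
theorem nd_stab_max5 [Finite F] (hQ : Nd Q) (hgen : GenHyp Q) (hM : M ≤ O Q)
    {W : Submodule F V} (hW : NDs Q W)
    (hd : 5 ≤ finrank F (perp Q W))
    (hH : ∀ g ∈ Om Q, (∀ w ∈ W, g w ∈ W) → g ∈ M)
    (hex : ∃ g ∈ M, ∃ w ∈ W, g w ∉ W)
    (hsw : ∀ g ∈ M, ¬ (∀ w ∈ perp Q W, g w ∈ W))
    (hexc : finrank F W = 2 → 4 ≤ Nat.card F ∨ ∀ w ∈ W, Q w = 0 → w = 0) : Om Q ≤ M := by
  have hn := hQ.finrank_add_finrank_perp W
  have hn4 : 4 ≤ finrank F V := by omega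
  have hpp : perp Q (perp Q W) = W := hQ.perp_perp W
  set W2 := perp Q W with hW2
  have hW2nd : NDs Q W2 := nds_perp hQ hW
  have hWW2 : ∀ w ∈ W, ∀ x ∈ W2, polar Q w x = 0 := fun w hw x hx => mem_perp.1 hx w hw
  have hS2 : Sin Q M W2 := by
    intro z hz y hy hQz hzy
    refine ⟨sieg hQ hQz hzy, hH _ (SI_Om hQ hgen _ _) ?_, fun x => by rw [sieg_apply, siegMap_apply]⟩
    intro w hw
    rw [sieg_apply, polar_comm Q z w, hWW2 w hw z hz, polar_comm Q y w, hWW2 w hw y hy]
    simpa using hw
  have hS1 : Sin Q M W := by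
    intro z hz y hy hQz hzy
    refine ⟨sieg hQ hQz hzy, hH _ (SI_Om hQ hgen _ _) ?_, fun x => by rw [sieg_apply, siegMap_apply]⟩
    intro w hw
    rw [sieg_apply]
    exact W.sub_mem (W.sub_mem (W.add_mem hw (W.smul_mem _ hy)) (W.smul_mem _ hz)) (W.smul_mem _ hz)
  -- Step 1
  obtain ⟨z', y', x, hx, hxe, u, hu, hxu⟩ : ∃ z' y' : V, ∃ x ∈ M, (∀ v, x v = siegMap Q z' y' v) ∧
      ∃ u ∈ W2, x u ∉ W2 := by
    obtain ⟨g, hg, w, hw, hgw⟩ := hex
    have hgO := hM hg
    have hAnd : NDs Q (W2.map g.toLinearMap) := nds_map hW2nd hgO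
    have hAdim : finrank F (W2.map g.toLinearMap) = finrank F W2 := LinearEquiv.finrank_map_eq g W2
    have hSA : Sin Q M (W2.map g.toLinearMap) := by
      rintro _ ⟨z, hz, rfl⟩ _ ⟨y, hy, rfl⟩ hQz hzy
      refine SI.map (hS2 z hz y hy ?_ ?_) hg hgO
      · rw [← hgO]; exact hQz
      · rw [← O_polar hgO]; exact hzy
    by_contra hcon
    push Not at hcon
    have hle2 : W2.map g.toLinearMap ≤ W2 := by
      obtain ⟨w₀, hw₀, hw₀A⟩ : ∃ w₀ ∈ W2, w₀ ∉ perp Q (W2.map g.toLinearMap) := by
        by_contra hc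
        push Not at hc
        apply hsw g⁻¹ (inv_mem hg)
        intro y hy
        rw [← hpp, mem_perp]
        intro a ha
        have h1 := mem_perp.1 (hc y hy) (g a) ⟨a, ha, rfl⟩
        rw [← O_polar hgO]
        have : g (g⁻¹ y) = y := by
          show (g * g⁻¹) y = y
          rw [mul_inv_cancel]; rfl
        rw [this]; exact h1
      refine le_of_sieg_stable hQ hAnd (by omega) ?_ hw₀ hw₀A
      intro z hz y hy hQz hzy u hu
      obtain ⟨s, hs, hse⟩ := hSA z hz y hy hQz hzy
      rw [← hse]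
      exact hcon z y s hs hse u hu
    have heq : W2.map g.toLinearMap = W2 := Submodule.eq_of_le_of_finrank_eq hle2 hAdim
    apply hgw
    rw [← hpp, mem_perp]
    intro a ha
    rw [← heq] at ha
    obtain ⟨b, hb, rfl⟩ := ha
    show polar Q (g b) (g w) = 0
    rw [O_polar hgO, polar_comm]
    exact hWW2 w hw b hb
  -- Step 2
  have hxO := hM hx
  obtain ⟨z, hzW2, hz0, hQz, y, hzy, hSy, hyW2⟩ : ∃ z ∈ W2, z ≠ 0 ∧ Q z = 0 ∧ ∃ y, polar Q z y = 0 ∧ SI Q M z y ∧ y ∉ W2 := by
    have h1 := finrank_cut hQ W2 z' y'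
    obtain ⟨z₁, hz₁, hz₁0, hQz₁⟩ := exists_sing_in (Q := Q)
      (W2 ⊓ perp Q (Submodule.span F {z', y'})) (by omega)
    obtain ⟨hz₁W, hz₁z', hz₁y'⟩ := mem_cut.1 hz₁
    have hxz₁ : x z₁ = z₁ := by rw [hxe, siegMap_apply, hz₁z', hz₁y']; simp
    by_contra hcon
    push Not at hcon
    have hcon' : ∀ z ∈ W2, z ≠ 0 → Q z = 0 → x z ∈ W2 → ∀ y ∈ W2, polar Q z y = 0 → x y ∈ W2 := by
      intro z hz hz0 hQz hxz y hy hzy
      refine hcon (x z) hxz (fun h => hz0 (x.map_eq_zero_iff.1 h)) (by rw [hxO]; exact hQz) (x y)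
        (by rw [O_polar hxO]; exact hzy) ?_
      exact (hS2 z hz y hy hQz hzy).map hx hxO
    have h2 := hcon' z₁ hz₁W hz₁0 hQz₁ (by rw [hxz₁]; exact hz₁W)
    obtain ⟨z₄, hz₄, hQz₄, hzz₄⟩ := exists_partner hQ hW2nd hz₁W hz₁0 hQz₁
    have h3 := finrank_cut hQ W2 z₁ z₄
    obtain ⟨e, he, f, hf, hQe, hQf, hef⟩ := exists_pair_in hQ
      (nds_cut hQ hW2nd hz₁W hz₄ hQz₁ hQz₄ hzz₄) (by omega)
    obtain ⟨heW, hze, -⟩ := mem_cut.1 he
    obtain ⟨hfW, hzf, -⟩ := mem_cut.1 hf
    have he0 : e ≠ 0 := by rintro rfl; rw [polar_zero_left] at hef; exact zero_ne_one hef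
    have h4 := hcon' e heW he0 hQe (h2 e heW hze) (u - polar Q e u • f) (W2.sub_mem hu (W2.smul_mem _ hfW))
      (by rw [polar_sub_right, polar_smul_right, hef]; simp)
    have h5 := h2 f hfW hzf
    apply hxu
    have h6 := W2.add_mem h4 (W2.smul_mem (polar Q e u) h5)
    rwa [map_sub, LinearEquiv.map_smul, sub_add_cancel] at h6
  -- Step 3
  obtain ⟨w₁, hw₁, w₂, hw₂, hww⟩ := nds_sup hQ hW y
  have hzW : ∀ w ∈ W, polar Q z w = 0 := fun w hw => by rw [polar_comm]; exact hWW2 w hw z hzW2
  have hw₁0 : w₁ ≠ 0 := by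
    rintro rfl
    rw [zero_add] at hww
    exact hyW2 (hww ▸ hw₂)
  have hzw₂ : polar Q z w₂ = 0 := by
    have h1 := hzy
    rw [← hww, polar_add_right, hzW w₁ hw₁, zero_add] at h1
    exact h1
  have hSw₁ : SI Q M z w₁ := by
    have h1 := hSy
    rw [← hww] at h1
    have h2 := h1.sub hQz (by rw [polar_add_right, hzW w₁ hw₁, hzw₂, add_zero]) hzw₂
      (hS2 z hzW2 w₂ hw₂ hQz hzw₂)
    rwa [add_sub_cancel_right] at h2
  -- the subspace N
  let N : Submodule F V :=
    { carrier := {y | y ∈ W ∧ SI Q M z y}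
      add_mem' := fun {a b} ha hb =>
        ⟨W.add_mem ha.1 hb.1, ha.2.add hQz (hzW _ ha.1) (hzW _ hb.1) hb.2⟩
      zero_mem' := ⟨W.zero_mem, SI.zero z⟩
      smul_mem' := fun c y hy => ⟨W.smul_mem c hy.1, by
        by_cases hc : c = 0
        · rw [hc, zero_smul]; exact SI.zero z
        obtain ⟨h, hh, hfix, hhz⟩ := exists_scale hQ hW2nd (by omega) hS2 hzW2 hz0 hQz hc
        have h1 := hy.2.map hh (hM hh)
        rw [hhz, hfix y (by rw [hpp]; exact hy.1)] at h1
        exact SI.smul_left.1 h1⟩ }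
  have memN : ∀ y, y ∈ N ↔ y ∈ W ∧ SI Q M z y := fun y => Iff.rfl
  have hw₁N : w₁ ∈ N := ⟨hw₁, hSw₁⟩
  have hNW : N ≤ W := fun y hy => hy.1
  -- Step 4
  have hWN : W ≤ N := by
    by_cases h3 : 3 ≤ finrank F W
    · refine le_of_sieg_stable hQ hW h3 ?_ hw₁N ?_
      · intro z₃ hz₃ y₃ hy₃ hQz₃ hzy₃ v hv
        obtain ⟨s, hs, hsf, hse⟩ := hS1.exists_fix hz₃ hy₃ hQz₃ hzy₃
        have h1 := hv.2.map hs (hM hs)
        rw [hsf z hzW2, hse] at h1
        refine ⟨?_, h1⟩
        rw [siegMap_apply]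
        exact W.sub_mem (W.sub_mem (W.add_mem hv.1 (W.smul_mem _ hy₃)) (W.smul_mem _ hz₃))
          (W.smul_mem _ hz₃)
      · intro hcon
        have : w₁ ∈ W ⊓ perp Q W := ⟨hw₁, hcon⟩
        rw [show W ⊓ perp Q W = ⊥ from hW, Submodule.mem_bot] at this
        exact hw₁0 this
    · by_contra hcon
      have hlt : finrank F N < finrank F W :=
        Submodule.finrank_lt_finrank_of_lt (lt_of_le_of_ne hNW fun h => hcon h.ge)
      have hw₁le : F ∙ w₁ ≤ N := (Submodule.span_singleton_le_iff_mem _ _).2 hw₁N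
      have hN1 : 1 ≤ finrank F N := by
        have := Submodule.finrank_mono hw₁le
        rwa [finrank_span_singleton hw₁0] at this
      have hW2' : finrank F W = 2 := by omega
      have hNe : F ∙ w₁ = N := by
        apply Submodule.eq_of_le_of_finrank_eq hw₁le
        rw [finrank_span_singleton hw₁0]; omega
      -- reflections
      have hrefl : ∀ v ∈ W, Q v ≠ 0 → v ∉ N → polar Q v w₁ = 0 := by
        intro v hv hQv hvN
        obtain ⟨z₄, hz₄, hQz₄, hzz₄⟩ := exists_partner hQ hW2nd hzW2 hz0 hQz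
        have h1 := finrank_cut hQ W2 z z₄
        obtain ⟨e, he, f, hf, hQe, hQf, hef⟩ := exists_pair_in hQ
          (nds_cut hQ hW2nd hzW2 hz₄ hQz hQz₄ hzz₄) (by omega)
        obtain ⟨heW, hze, -⟩ := mem_cut.1 he
        obtain ⟨hfW, hzf, -⟩ := mem_cut.1 hf
        set u := e + Q v • f with hu
        have huW : u ∈ W2 := W2.add_mem heW (W2.smul_mem _ hfW)
        have hQu : Q u = Q v := by
          rw [hu, Q_add, Q_smul, hQe, hQf, polar_smul_right, hef]; simp
        have hzu : polar Q z u = 0 := by rw [hu, polar_add_right, polar_smul_right, hze, hzf]; simp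
        have hmem : refl Q v * refl Q u ∈ M := by
          apply hH
          · rw [hQ.Om_eq_Sg hgen hn4]
            exact refl_mul_refl_mem_Sg' hQ hn4 hQv hQu.symm
          · intro w hw
            rw [LinearEquiv.mul_apply,
              refl_of_perp (show polar Q u w = 0 by rw [polar_comm]; exact hWW2 w hw u huW),
              refl_apply hQv]
            exact W.sub_mem hw (W.smul_mem _ hv)
        have h2 := hSw₁.map hmem (hM hmem)
        rw [LinearEquiv.mul_apply, LinearEquiv.mul_apply,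
          refl_of_perp (show polar Q u z = 0 by rw [polar_comm]; exact hzu),
          refl_of_perp (show polar Q v z = 0 from hWW2 v hv z hzW2),
          refl_of_perp (show polar Q u w₁ = 0 by rw [polar_comm]; exact hWW2 w₁ hw₁ u huW),
          refl_apply hQv] at h2
        have h3 : w₁ - ((Q v)⁻¹ * polar Q v w₁) • v ∈ N :=
          ⟨W.sub_mem hw₁ (W.smul_mem _ hv), h2⟩
        have h4 := N.sub_mem hw₁N h3
        rw [sub_sub_cancel] at h4
        by_contra hne
        rw [Submodule.smul_mem_iff _ (mul_ne_zero (inv_ne_zero hQv) hne)] at h4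
        exact hvN h4
      by_cases hww1 : polar Q w₁ w₁ = 0
      · obtain ⟨t, htW, -, ht⟩ := exists_one_in hQ hW bot_le hw₁ (by simpa using hw₁0)
        have htN : ∀ s : F, t + s • w₁ ∉ N := by
          intro s hs
          rw [← hNe] at hs
          obtain ⟨c, hc⟩ := Submodule.mem_span_singleton.1 hs
          have h1 : polar Q w₁ (c • w₁) = polar Q w₁ (t + s • w₁) := by rw [hc]
          rw [polar_add_right, polar_smul_right, polar_smul_right, hww1, ht] at h1
          simp at h1
        have hQt : ∀ s : F, Q (t + s • w₁) = 0 := by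
          intro s
          by_contra hne
          have h1 := hrefl _ (W.add_mem htW (W.smul_mem _ hw₁)) hne (htN s)
          rw [polar_add_left, polar_smul_left, polar_comm Q t w₁, ht, hww1] at h1
          simp at h1
        have hQt0 : Q t = 0 := by simpa using hQt 0
        rcases hexc hW2' with h4 | han
        · obtain ⟨a, ha0, ha1, -⟩ := exists_scalar h4
          have h1 := hQt 1
          have h2 := hQt a
          rw [Q_add, Q_smul, polar_smul_right, polar_comm Q t w₁, ht, hQt0] at h1 h2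
          have h3 : Q w₁ = -1 := by
            have : Q w₁ + 1 = 0 := by simpa using h1
            linear_combination this
          rw [h3] at h2
          have h5 : a * (1 - a) = 0 := by
            simp only [smul_eq_mul] at h2
            linear_combination h2
          rcases mul_eq_zero.1 h5 with h6 | h6
          · exact ha0 h6
          · exact ha1 (by linear_combination -h6)
        · have := han t htW hQt0
          rw [this, polar_zero_right] at ht
          exact zero_ne_one ht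
      · obtain ⟨t, htW, htN⟩ : ∃ t ∈ W, t ∉ N := by
          by_contra hc; push Not at hc; exact hcon hc
        set b := t - (polar Q t w₁ / polar Q w₁ w₁) • w₁ with hb
        have hbW : b ∈ W := W.sub_mem htW (W.smul_mem _ hw₁)
        have hbw : polar Q b w₁ = 0 := by
          rw [hb, polar_sub_left, polar_smul_left, smul_eq_mul, div_mul_cancel₀ _ hww1, sub_self]
        have hbN : ∀ s : F, b + s • w₁ ∉ N := by
          intro s hs
          apply htN
          have h1 := N.add_mem (N.sub_mem hs (N.smul_mem s hw₁N))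
            (N.smul_mem (polar Q t w₁ / polar Q w₁ w₁) hw₁N)
          rwa [hb, add_sub_cancel_right, sub_add_cancel] at h1
        have hQb : ∀ s : F, s ≠ 0 → Q b + s * s * Q w₁ = 0 := by
          intro s hs
          have h2 : Q (b + s • w₁) = 0 := by
            by_contra hne
            have h1 := hrefl _ (W.add_mem hbW (W.smul_mem _ hw₁)) hne (hbN s)
            rw [polar_add_left, polar_smul_left, hbw, zero_add, smul_eq_mul] at h1
            rcases mul_eq_zero.1 h1 with h | h
            · exact hs h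
            · exact hww1 h
          rw [Q_add, Q_smul, polar_smul_right, hbw] at h2
          simpa using h2
        rcases hexc hW2' with h4 | han
        · obtain ⟨a, ha0, -, haa⟩ := exists_scalar h4
          have h1 := hQb 1 one_ne_zero
          have h2 := hQb a ha0
          have h3 : (a * a - 1) * Q w₁ = 0 := by linear_combination h2 - h1
          rcases mul_eq_zero.1 h3 with h | h
          · exact haa (by linear_combination h)
          · exact hww1 (by rw [polar_self', h, mul_zero])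
        · have h1 := hQb 1 one_ne_zero
          have h2 := han (b + (1 : F) • w₁) (W.add_mem hbW (W.smul_mem _ hw₁)) (by
            rw [Q_add, Q_smul, polar_smul_right, hbw]
            simpa using h1)
          exact hbN 1 (by rw [h2]; exact N.zero_mem)
  -- Step 5
  have hfull : Full Q M z := by
    refine ⟨hQz, fun y hy => ?_⟩
    obtain ⟨a, ha, b, hb, rfl⟩ := nds_sup hQ hW y
    have hzb : polar Q z b = 0 := by rw [polar_add_right, hzW a ha, zero_add] at hy; exact hy
    exact (hWN ha).2.add hQz (hzW a ha) hzb (hS2 z hzW2 b hb hQz hzb)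
  obtain ⟨z₄, hz₄, hQz₄, hzz₄⟩ := exists_partner hQ hW2nd hzW2 hz0 hQz
  have h1 := finrank_cut hQ W2 z z₄
  obtain ⟨e, he, f, hf, hQe, hQf, hef⟩ := exists_pair_in hQ
    (nds_cut hQ hW2nd hzW2 hz₄ hQz hQz₄ hzz₄) (by omega)
  obtain ⟨heW, hze, hz₄e⟩ := mem_cut.1 he
  obtain ⟨hfW, hzf, hz₄f⟩ := mem_cut.1 hf
  obtain ⟨s, hs, hse⟩ := hS2 z₄ hz₄ (e + f) (W2.add_mem heW hfW) hQz₄ (by
    rw [polar_add_right, hz₄e, hz₄f, add_zero])
  have hz₄z : polar Q z₄ z = 1 := by rw [polar_comm]; exact hzz₄
  refine Om_le_of_two hQ hgen hn4 hM hfull (hfull.map hM hs) ?_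
  rw [hse, siegMap_apply, polar_sub_right, polar_sub_right, polar_add_right, polar_smul_right,
    polar_smul_right, polar_smul_right, polar_self', hQz, hzz₄, hz₄z, polar_add_right, hze, hzf,
    polar_add_left, polar_comm Q e z, polar_comm Q f z, hze, hzf, Q_add, hQe, hQf, hef]
  simp

end Cfsg.Agent.Lib.LowNd
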