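import Mathlib
import Cfsg.Agent.Lib.OrthPoint

set_option autoImplicit false
set_option linter.unusedSectionVars false

/-!
Overgroups in `Om Q` of the normaliser of a quadratic extension field (unitary structure).
-/

namespace Cfsg.Agent.Lib.OrthExtH94

open QuadraticMap Module Cfsg.Agent.Lib.Quad Cfsg.Agent.Lib.OrthMax Cfsg.Agent.Lib.OrthPoint

variable {F V : Type*} [Field F] [AddCommGroup V] [Module F V] [FiniteDimensional F V]
  {Q : QuadraticForm F V} {M : Subgroup (V ≃ₗ[F] V)}

theorem finrank_pair_le (a b : V) : finrank F (Submodule.span F ({a, b} : Set V)) ≤ 2 := by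
  classical
  have h3 := finrank_span_finset_le_card (R := F) ({a, b} : Finset V)
  have h4 : ({a, b} : Finset V).card ≤ 2 := Finset.card_le_two (a := a) (b := b)
  rw [Finset.coe_pair] at h3
  exact h3.trans h4

theorem finrank_sup_le (W W' : Submodule F V) : finrank F ↥(W ⊔ W') ≤ finrank F W + finrank F W' :=
  Submodule.finrank_add_le_finrank_add_finrank W W'

/-- a vector of `perp W` not orthogonal to two given vectors outside `W` -/
theorem exists_common_perp (hQ : Nd Q) (W : Submodule F V) {u v : V} (hu : u ∉ W) (hv : v ∉ W) :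
    ∃ y ∈ perp Q W, polar Q y u ≠ 0 ∧ polar Q y v ≠ 0 := by
  obtain ⟨y, hyW, hy⟩ := hQ.exists_polar_one W hu
  obtain ⟨z, hzW, hz⟩ := hQ.exists_polar_one W hv
  rw [polar_comm] at hy hz
  by_cases h1 : polar Q y v = 0
  · by_cases h2 : polar Q z u = 0
    · refine ⟨y + z, Submodule.add_mem _ hyW hzW, ?_, ?_⟩
      · rw [polar_add_left, hy, h2, add_zero]; exact one_ne_zero
      · rw [polar_add_left, h1, hz, zero_add]; exact one_ne_zero
    · exact ⟨z, hzW, h2, by rw [hz]; exact one_ne_zero⟩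
  · exact ⟨y, hyW, by rw [hy]; exact one_ne_zero, h1⟩

/-- singular vectors in general position -/
theorem exists_sing_gen [Finite F] (hQ : Nd Q) (W Z : Submodule F V) {y₁ y₂ : V} (h1 : y₁ ∉ W)
    (h2 : y₂ ∉ W) (d : ℕ) (hd : finrank F ↥(W ⊔ Submodule.span F {y₁, y₂}) ≤ d)
    (hd1 : 2 * d + 3 ≤ finrank F V) (hd2 : d + finrank F Z + 4 ≤ finrank F V) :
    ∃ u, Q u = 0 ∧ (∀ w ∈ W, polar Q w u = 0) ∧ polar Q u y₁ ≠ 0 ∧ polar Q u y₂ ≠ 0 ∧ u ∉ Z := by
  set W' := W ⊔ Submodule.span F {y₁, y₂} with hW'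
  have hy₁ : y₁ ∈ W' := Submodule.mem_sup_right (Submodule.subset_span (by simp))
  have hy₂ : y₂ ∈ W' := Submodule.mem_sup_right (Submodule.subset_span (by simp))
  have hp := hQ.finrank_add_finrank_perp W'
  obtain ⟨u₀, hu₀, hu₀W, hQu₀⟩ := exists_sing_avoid (Q := Q) (perp Q W') W' (by omega)
  -- z₁ and z₂
  obtain ⟨z₁, hz₁, hz₁1, hz₁2⟩ := exists_common_perp hQ W h1 h2
  obtain ⟨z₂, hz₂, hz₂0⟩ := hQ.exists_polar_one W' hu₀W
  have hz₂' := mem_perp'.1 hz₂
  obtain ⟨z, hz, hz1, hz2, hzu⟩ : ∃ z ∈ perp Q W, polar Q z y₁ ≠ 0 ∧ polar Q z y₂ ≠ 0 ∧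
      polar Q z u₀ ≠ 0 := by
    by_cases h0 : polar Q z₁ u₀ = 0
    · refine ⟨z₁ + z₂, Submodule.add_mem _ hz₁ ?_, ?_, ?_, ?_⟩
      · exact mem_perp.2 fun w hw => mem_perp.1 hz₂ w (Submodule.mem_sup_left hw)
      · rw [polar_add_left, hz₂' y₁ hy₁, add_zero]; exact hz₁1
      · rw [polar_add_left, hz₂' y₂ hy₂, add_zero]; exact hz₁2
      · rw [polar_add_left, h0, zero_add, polar_comm, hz₂0]; exact one_ne_zero
    · exact ⟨z₁, hz₁, hz₁1, hz₁2, h0⟩
  obtain ⟨a, ha⟩ := exists_sing_add hQu₀ hzu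
  have hu₀' := mem_perp'.1 hu₀
  have hu1 : polar Q (z + a • u₀) y₁ ≠ 0 := by
    rw [polar_add_left, polar_smul_left, hu₀' y₁ hy₁, smul_zero, add_zero]; exact hz1
  have hu2 : polar Q (z + a • u₀) y₂ ≠ 0 := by
    rw [polar_add_left, polar_smul_left, hu₀' y₂ hy₂, smul_zero, add_zero]; exact hz2
  have huW : ∀ w ∈ W, polar Q w (z + a • u₀) = 0 := by
    intro w hw
    rw [polar_add_right, polar_smul_right, mem_perp.1 hz w hw,
      mem_perp.1 hu₀ w (Submodule.mem_sup_left hw), smul_zero, add_zero]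
  by_cases hZ : z + a • u₀ ∈ Z
  · set u := z + a • u₀ with hu
    have hp2 := hQ.finrank_add_finrank_perp (W' ⊔ F ∙ u)
    have h3 := finrank_sup_le W' (F ∙ u)
    have h4 : finrank F (F ∙ u) ≤ 1 := by
      have := finrank_span_le_card (R := F) ({u} : Set V)
      simpa using this
    obtain ⟨v', hv', hv'Z, hQv'⟩ := exists_sing_avoid (Q := Q) (perp Q (W' ⊔ F ∙ u)) Z (by omega)
    have hv'' := mem_perp.1 hv'
    have huv : polar Q u v' = 0 :=
      hv'' u (Submodule.mem_sup_right (Submodule.mem_span_singleton_self u))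
    refine ⟨u + v', ?_, ?_, ?_, ?_, ?_⟩
    · rw [Q_add, ha, hQv', huv]; ring
    · intro w hw
      rw [polar_add_right, huW w hw, hv'' w (Submodule.mem_sup_left (Submodule.mem_sup_left hw)),
        add_zero]
    · rw [polar_add_left, polar_comm Q v' y₁, hv'' y₁ (Submodule.mem_sup_left hy₁), add_zero]
      exact hu1
    · rw [polar_add_left, polar_comm Q v' y₂, hv'' y₂ (Submodule.mem_sup_left hy₂), add_zero]
      exact hu2
    · intro hmem
      apply hv'Z
      have := Z.sub_mem hmem hZ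
      rwa [add_sub_cancel_left] at this
  · exact ⟨_, ha, huW, hu1, hu2, hZ⟩

/-- an additive predicate holding on enough singular vectors of `R` holds on `R` -/
theorem all_of_sing {R : Submodule F V} {P : V → Prop} (hadd : ∀ x ∈ R, ∀ y ∈ R, P x → P y → P (x + y))
    {u z : V} (hu : u ∈ R) (hQu : Q u = 0) (hz : z ∈ R) (huz : polar Q u z ≠ 0)
    (hPu : ∀ c : F, P (c • u)) (hP : ∀ x ∈ R, Q x = 0 → polar Q u x ≠ 0 → P x)
    (hneg : ∀ x ∈ R, P x → P (-x)) :
    ∀ x ∈ R, P x := by
  -- a singular partner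
  obtain ⟨u', hu'R, hu', huu'⟩ : ∃ u' ∈ R, Q u' = 0 ∧ polar Q u u' = 1 := by
    have h1 : polar Q u ((polar Q u z)⁻¹ • z) = 1 := by
      rw [polar_smul_right, smul_eq_mul, inv_mul_cancel₀ huz]
    obtain ⟨h2, h3⟩ := adjust_singular hQu h1
    exact ⟨_, R.sub_mem (R.smul_mem _ hz) (R.smul_mem _ hu), h2, h3⟩
  have huu : polar Q u u = 0 := by rw [polar_self', hQu, mul_zero]
  have hsm : ∀ c : F, P (c • u') := by
    intro c
    by_cases hc : c = 0
    · have := hPu 0
      rw [hc]; rwa [zero_smul] at this ⊢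
    · apply hP _ (R.smul_mem _ hu'R)
      · rw [Q_smul, hu', mul_zero]
      · rw [polar_smul_right, huu', smul_eq_mul, mul_one]; exact hc
  have hw : ∀ w ∈ R, polar Q u w = 0 → polar Q u' w = 0 → P w := by
    intro w hwR huw hu'w
    have h1 : P (u' + w + (-Q w) • u) := by
      apply hP _ (R.add_mem (R.add_mem hu'R hwR) (R.smul_mem _ hu))
      · rw [Q_add, Q_add, Q_smul, hu', hQu, hu'w, polar_smul_right, polar_add_left, polar_comm Q u' u,
          huu', polar_comm Q w u, huw, smul_eq_mul]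
        ring
      · rw [polar_add_right, polar_add_right, huu', huw, polar_smul_right, huu]; simp
    have h2 := hadd _ (R.add_mem (R.add_mem hu'R hwR) (R.smul_mem _ hu)) _ (R.neg_mem hu'R) h1
      (hneg _ hu'R (by have := hsm 1; rwa [one_smul] at this))
    have h3 := hadd _ (R.add_mem (R.add_mem (R.add_mem hu'R hwR) (R.smul_mem _ hu)) (R.neg_mem hu'R)) _
      (R.smul_mem (Q w) hu) h2 (hPu _)
    have e : u' + w + (-Q w) • u + -u' + Q w • u = w := by module
    rwa [e] at h3
  intro x hx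
  have hwx : polar Q u (x - polar Q u' x • u - polar Q u x • u') = 0 := by
    rw [polar_sub_right, polar_sub_right, polar_smul_right, polar_smul_right, huu, huu']; simp
  have hwx' : polar Q u' (x - polar Q u' x • u - polar Q u x • u') = 0 := by
    rw [polar_sub_right, polar_sub_right, polar_smul_right, polar_smul_right, polar_self', hu',
      polar_comm Q u' u, huu']; simp
  have hxR : x - polar Q u' x • u - polar Q u x • u' ∈ R :=
    R.sub_mem (R.sub_mem hx (R.smul_mem _ hu)) (R.smul_mem _ hu'R)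
  have h1 := hadd _ (R.add_mem hxR (R.smul_mem (polar Q u' x) hu)) _ (R.smul_mem (polar Q u x) hu'R)
    (hadd _ hxR _ (R.smul_mem (polar Q u' x) hu) (hw _ hxR hwx hwx') (hPu _)) (hsm _)
  have e : x - polar Q u' x • u - polar Q u x • u' + polar Q u' x • u + polar Q u x • u' = x := by
    module
  rwa [e] at h1

/-- a quadratic extension field acting by similitudes with nontrivial adjoint automorphism -/
structure KS (Q : QuadraticForm F V) (κ : V →ₗ[F] V) (T N : F) : Prop where
  sq : ∀ x, κ (κ x) = T • κ x - N • x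
  adj : ∀ x y, polar Q (κ x) y = T * polar Q x y - polar Q x (κ y)
  qk : ∀ x, Q (κ x) = N * Q x
  pk : ∀ x, polar Q x (κ x) = T * Q x
  irr : ∀ a b : F, b * b + a * b * T + a * a * N = 0 → a = 0

namespace KS
variable {κ : V →ₗ[F] V} {T N : F} (k : KS Q κ T N)
include k

theorem N_ne : N ≠ 0 := by
  intro h
  have := k.irr 1 0 (by rw [h]; ring)
  exact one_ne_zero this

theorem polar_kk (x y : V) : polar Q (κ x) (κ y) = N * polar Q x y := by
  rw [k.adj, k.sq, polar_sub_right, polar_smul_right, polar_smul_right, smul_eq_mul, smul_eq_mul]; ring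

/-- `b + aκ` is injective -/
theorem inj {a b : F} {x : V} (h : a • κ x + b • x = 0) (hx : x ≠ 0) : a = 0 ∧ b = 0 := by
  have h1 : (b * b + a * b * T + a * a * N) • x = 0 := by
    have h2 : (b + a * T) • (a • κ x + b • x) - a • κ (a • κ x + b • x) = 0 := by
      rw [h, map_zero, smul_zero, smul_zero, sub_zero]
    rw [map_add, map_smul, map_smul, k.sq] at h2
    rw [← h2]; module
  have h2 := k.irr a b ((smul_eq_zero.1 h1).resolve_right hx)
  refine ⟨h2, ?_⟩
  rw [h2, zero_smul, zero_add] at h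
  exact (smul_eq_zero.1 h).resolve_right hx

theorem mem_of_comb {W : Submodule F V} (hW : ∀ w ∈ W, κ w ∈ W) {a b : F} {x : V}
    (h : a • κ x + b • x ∈ W) (hab : ¬ (a = 0 ∧ b = 0)) : x ∈ W := by
  have h1 : (b * b + a * b * T + a * a * N) • x ∈ W := by
    have h2 : (b + a * T) • (a • κ x + b • x) - a • κ (a • κ x + b • x) ∈ W :=
      W.sub_mem (W.smul_mem _ h) (W.smul_mem _ (hW _ h))
    rw [map_add, map_smul, map_smul, k.sq] at h2
    convert h2 using 1
    module
  have h2 : b * b + a * b * T + a * a * N ≠ 0 := by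
    intro h0
    have ha := k.irr a b h0
    rw [ha] at h0
    have hb : b * b = 0 := by linear_combination h0
    exact hab ⟨ha, mul_self_eq_zero.1 hb⟩
  exact (Submodule.smul_mem_iff _ h2).1 h1

/-- the `K`-line of a vector is invariant -/
theorem inv_span (x : V) : ∀ w ∈ Submodule.span F {x, κ x}, κ w ∈ Submodule.span F {x, κ x} := by
  intro w hw
  obtain ⟨a, b, rfl⟩ := Submodule.mem_span_pair.1 hw
  rw [Submodule.mem_span_pair]
  refine ⟨-(b * N), a + b * T, ?_⟩
  rw [map_add, map_smul, map_smul, k.sq]; module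

theorem inv_sup {W W' : Submodule F V} (hW : ∀ w ∈ W, κ w ∈ W) (hW' : ∀ w ∈ W', κ w ∈ W') :
    ∀ w ∈ W ⊔ W', κ w ∈ W ⊔ W' := by
  intro w hw
  obtain ⟨a, ha, b, hb, rfl⟩ := Submodule.mem_sup.1 hw
  rw [map_add]
  exact Submodule.add_mem _ (Submodule.mem_sup_left (hW a ha)) (Submodule.mem_sup_right (hW' b hb))

/-- perpendicularity to a `K`-line -/
theorem perp_symm {x y : V} (h1 : polar Q x y = 0) (h2 : polar Q (κ x) y = 0) :
    polar Q y x = 0 ∧ polar Q (κ y) x = 0 := by
  refine ⟨by rw [polar_comm]; exact h1, ?_⟩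
  rw [k.adj, polar_comm Q y x, h1, polar_comm Q y (κ x), h2]; ring

theorem polar_line {x y : V} (h1 : polar Q x y = 0) (h2 : polar Q (κ x) y = 0) {t : V}
    (ht : t ∈ Submodule.span F {x, κ x}) : polar Q t y = 0 ∧ polar Q (κ t) y = 0 := by
  have key : ∀ t ∈ Submodule.span F {x, κ x}, polar Q t y = 0 := by
    intro t ht
    obtain ⟨a, b, rfl⟩ := Submodule.mem_span_pair.1 ht
    rw [polar_add_left, polar_smul_left, polar_smul_left, h1, h2]; simp
  exact ⟨key t ht, key _ (k.inv_span x t ht)⟩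

theorem sing_line {x : V} (h : Q x = 0) {t : V} (ht : t ∈ Submodule.span F {x, κ x}) : Q t = 0 := by
  obtain ⟨a, b, rfl⟩ := Submodule.mem_span_pair.1 ht
  rw [Q_add, Q_smul, Q_smul, k.qk, h, polar_smul_left, polar_smul_right, k.pk, h]
  simp

/-- conjugation by the standard Siegel element -/
theorem SI_step (hM : M ≤ O Q) (hS : ∀ u, Q u = 0 → ∀ c : F, SI Q M u (c • κ u)) {v s y : V}
    (hv : Q v = 0) (hs : Q s = 0) (h1 : polar Q s v = 0) (h2 : polar Q (κ s) v = 0)
    (hy : polar Q v y = 0) (h : SI Q M v y) :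
    SI Q M v (polar Q s y • κ s - polar Q (κ s) y • s) := by
  obtain ⟨g, hg, hgx⟩ := hS s hs 1
  rw [one_smul] at hgx
  have hgx' : ∀ x, g x = x + (polar Q s x • κ s - polar Q (κ s) x • s) := by
    intro x
    rw [hgx, siegMap_apply, k.qk, hs]; simp [add_sub_assoc]
  have h3 := h.map hg (hM hg)
  rw [hgx' v, h1, h2, zero_smul, zero_smul, sub_zero, add_zero, hgx' y] at h3
  have h4 : polar Q v (polar Q s y • κ s - polar Q (κ s) y • s) = 0 := by
    rw [polar_sub_right, polar_smul_right, polar_smul_right, polar_comm Q v s, h1,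
      polar_comm Q v (κ s), h2]; simp
  have h5 := h3.sub hv (by rw [polar_add_right, hy, h4, add_zero]) hy h
  rwa [add_sub_cancel_left] at h5

/-- the centre `v` is full on the `K`-orthogonal -/
theorem SI_perp [Finite F] (hQ : Nd Q) (hn : 13 ≤ finrank F V) (hM : M ≤ O Q)
    (hS : ∀ u, Q u = 0 → ∀ c : F, SI Q M u (c • κ u)) {v y : V}
    (hv : Q v = 0) (hy1 : polar Q v y = 0) (hy2 : polar Q (κ v) y = 0)
    (hyv : y ∉ Submodule.span F {v, κ v}) (h : SI Q M v y) :
    ∀ r, polar Q v r = 0 → polar Q (κ v) r = 0 → SI Q M v r := by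
  set Wv := Submodule.span F {v, κ v} with hWv
  set W₀ := Wv ⊔ Submodule.span F {y, κ y} with hW₀
  have hd₀ : finrank F W₀ ≤ 4 := by
    have h1 : finrank F W₀ ≤ _ := finrank_sup_le Wv (Submodule.span F {y, κ y})
    have h2 : finrank F Wv ≤ 2 := finrank_pair_le (F := F) v (κ v)
    have h3 := finrank_pair_le (F := F) y (κ y)
    omega
  have hp₀ := hQ.finrank_add_finrank_perp W₀
  obtain ⟨u₂, hu₂, hu₂W, hQu₂⟩ := exists_sing_avoid (Q := Q) (perp Q W₀) W₀ (by omega)
  have hu₂' := mem_perp'.1 hu₂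
  have hvm : v ∈ Wv := Submodule.subset_span (by simp)
  have hκvm : κ v ∈ Wv := Submodule.subset_span (by simp)
  have hu₂v : polar Q u₂ v = 0 := hu₂' v (Submodule.mem_sup_left hvm)
  have hu₂κv : polar Q u₂ (κ v) = 0 := hu₂' (κ v) (Submodule.mem_sup_left hκvm)
  have hu₂y : polar Q u₂ y = 0 := hu₂' y (Submodule.mem_sup_right (Submodule.subset_span (by simp)))
  have hu₂κy : polar Q u₂ (κ y) = 0 :=
    hu₂' (κ y) (Submodule.mem_sup_right (Submodule.subset_span (by simp)))
  have hκu₂v : polar Q (κ u₂) v = 0 := by rw [k.adj, hu₂v, hu₂κv]; ring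
  have hκu₂y : polar Q (κ u₂) y = 0 := by rw [k.adj, hu₂y, hu₂κy]; ring
  set L₂ := Submodule.span F {u₂, κ u₂} with hL₂
  set W₁ := Wv ⊔ L₂ with hW₁
  have hyW₁ : y ∉ W₁ := by
    intro hmem
    obtain ⟨p, hp, t, ht, hpt⟩ := Submodule.mem_sup.1 hmem
    obtain ⟨a, b, rfl⟩ := Submodule.mem_span_pair.1 ht
    by_cases hab : b = 0 ∧ a = 0
    · rw [hab.1, hab.2, zero_smul, zero_smul, add_zero, add_zero] at hpt
      exact hyv (hpt ▸ hp)
    · apply hu₂W
      refine k.mem_of_comb (k.inv_sup (k.inv_span v) (k.inv_span y)) (a := b) (b := a) ?_ hab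
      have e : b • κ u₂ + a • u₂ = y - p := by rw [← hpt]; abel
      rw [e]
      exact Submodule.sub_mem _ (Submodule.mem_sup_right (Submodule.subset_span (by simp)))
        (Submodule.mem_sup_left hp)
  obtain ⟨u₁, hQu₁, hu₁W, hu₁y, -, -⟩ := exists_sing_gen hQ W₁ ⊥ hyW₁ hyW₁ 5 (by
    have h1 := finrank_sup_le W₁ (Submodule.span F {y, y})
    have h2 : finrank F W₁ ≤ _ := finrank_sup_le Wv L₂
    have h3 : finrank F Wv ≤ 2 := finrank_pair_le (F := F) v (κ v)
    have h4 : finrank F L₂ ≤ 2 := finrank_pair_le (F := F) u₂ (κ u₂)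
    have h5 : finrank F (Submodule.span F ({y, y} : Set V)) ≤ 1 := by
      rw [Set.pair_eq_singleton]
      have := finrank_span_le_card (R := F) ({y} : Set V)
      simpa using this
    omega) (by omega) (by rw [finrank_bot]; omega)
  have hu₁v : polar Q u₁ v = 0 := by
    rw [polar_comm]; exact hu₁W v (Submodule.mem_sup_left hvm)
  have hu₁κv : polar Q u₁ (κ v) = 0 := by
    rw [polar_comm]; exact hu₁W _ (Submodule.mem_sup_left hκvm)
  have hκu₁v : polar Q (κ u₁) v = 0 := by rw [k.adj, hu₁v, hu₁κv]; ring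
  -- all of L₂
  have hL : ∀ t ∈ L₂, SI Q M v t := by
    have h1 : ∀ t ∈ L₂, SI Q M v (polar Q u₁ y • κ t - polar Q (κ u₁) y • t) := by
      intro t ht
      have htv := k.polar_line hu₂v hκu₂v ht
      have hty := k.polar_line hu₂y hκu₂y ht
      have hQt := k.sing_line hQu₂ ht
      have hu₁t : polar Q u₁ t = 0 := by
        rw [polar_comm]; exact hu₁W t (Submodule.mem_sup_right ht)
      have h2 := k.SI_step hM hS (s := u₁ + t) hv (by rw [Q_add, hQu₁, hQt, hu₁t]; ring)
        (by rw [polar_add_left, hu₁v, htv.1, add_zero])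
        (by rw [map_add, polar_add_left, hκu₁v, htv.2, add_zero]) hy1 h
      have h3 := k.SI_step hM hS (s := u₁) hv hQu₁ hu₁v hκu₁v hy1 h
      rw [map_add, polar_add_left, polar_add_left, hty.1, hty.2, add_zero, add_zero] at h2
      have hp1 : polar Q v (κ u₁) = 0 := by rw [polar_comm]; exact hκu₁v
      have hp2 : polar Q v u₁ = 0 := by rw [polar_comm]; exact hu₁v
      have hp3 : polar Q v (κ t) = 0 := by rw [polar_comm]; exact htv.2
      have hp4 : polar Q v t = 0 := by rw [polar_comm]; exact htv.1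
      have h4 := h2.sub hv (by
        rw [polar_sub_right, polar_smul_right, polar_smul_right, polar_add_right, polar_add_right, hp1,
          hp2, hp3, hp4]; simp) (by
        rw [polar_sub_right, polar_smul_right, polar_smul_right, hp1, hp2]; simp) h3
      convert h4 using 1
      module
    intro t ht
    set a := polar Q u₁ y with ha
    set b := polar Q (κ u₁) y with hb
    have hD : b * b - a * b * T + a * a * N ≠ 0 := by
      intro h0
      exact hu₁y (k.irr a (-b) (by linear_combination h0))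
    have h2 := h1 ((b * b - a * b * T + a * a * N)⁻¹ • ((a * T - b) • t - a • κ t))
      (L₂.smul_mem _ (L₂.sub_mem (L₂.smul_mem _ ht) (L₂.smul_mem _ (k.inv_span u₂ t ht))))
    convert h2 using 1
    simp only [map_smul, map_sub, k.sq]
    have e : (b * b - a * b * T + a * a * N)⁻¹ * (b * b - a * b * T + a * a * N) = 1 :=
      inv_mul_cancel₀ hD
    have e2 : t = ((b * b - a * b * T + a * a * N)⁻¹ * (b * b - a * b * T + a * a * N)) • t := by
      rw [e, one_smul]
    conv_lhs => rw [e2]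
    module
  -- singular vectors
  have hR : ∀ r ∈ perp Q Wv, polar Q v r = 0 := fun r hr => mem_perp.1 hr v hvm
  obtain ⟨z, hz, hu₂z⟩ := hQ.exists_polar_one Wv (v := u₂) (fun hmem => hu₂W (Submodule.mem_sup_left hmem))
  have hall := all_of_sing (Q := Q) (R := perp Q Wv) (P := fun y => SI Q M v y)
    (fun x hx y hy h1 h2 => h1.add hv (hR x hx) (hR y hy) h2)
    (u := u₂) (z := z) (mem_perp'.2 fun w hw => hu₂' w (Submodule.mem_sup_left hw)) hQu₂ hz
    (by rw [hu₂z]; exact one_ne_zero)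
    (fun c => hL _ (L₂.smul_mem _ (Submodule.subset_span (by simp)))) (by
      intro x hx hQx hux
      have hxv : polar Q x v = 0 := by rw [polar_comm]; exact hR x hx
      have hxκv : polar Q x (κ v) = 0 := by rw [polar_comm]; exact mem_perp.1 hx _ hκvm
      have hκxv : polar Q (κ x) v = 0 := by rw [k.adj, hxv, hxκv]; ring
      set a := polar Q x u₂ with ha
      set b := polar Q (κ x) u₂ with hb
      have ha0 : a ≠ 0 := by rw [ha, polar_comm]; exact hux
      have hD : b * b - a * b * T + a * a * N ≠ 0 := by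
        intro h0
        exact ha0 (k.irr a (-b) (by linear_combination h0))
      have e1 : polar Q x (κ u₂) = T * a - b := by
        have := k.adj x u₂
        rw [← ha, ← hb] at this
        linear_combination this
      have e2 : polar Q (κ x) (κ u₂) = N * a := by rw [k.polar_kk]
      have ht : (b * b - a * b * T + a * a * N)⁻¹ • ((T * a - b) • u₂ - a • κ u₂) ∈ L₂ :=
        L₂.smul_mem _ (L₂.sub_mem (L₂.smul_mem _ (Submodule.subset_span (by simp)))
          (L₂.smul_mem _ (Submodule.subset_span (by simp))))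
      have h3 := k.SI_step hM hS (s := x) hv hQx hxv hκxv (by
        rw [polar_comm]; exact (k.polar_line hu₂v hκu₂v ht).1) (hL _ ht)
      have e3 : polar Q x ((b * b - a * b * T + a * a * N)⁻¹ • ((T * a - b) • u₂ - a • κ u₂)) = 0 := by
        rw [polar_smul_right, polar_sub_right, polar_smul_right, polar_smul_right, e1, ← ha]
        simp only [smul_eq_mul]; ring
      have e4 : polar Q (κ x) ((b * b - a * b * T + a * a * N)⁻¹ • ((T * a - b) • u₂ - a • κ u₂)) = -1 := by
        rw [polar_smul_right, polar_sub_right, polar_smul_right, polar_smul_right, e2, ← hb]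
        simp only [smul_eq_mul]
        rw [show (T * a - b) * b - a * (N * a) = -(b * b - a * b * T + a * a * N) by ring, mul_neg,
          inv_mul_cancel₀ hD]
      rw [e3, e4, zero_smul, zero_sub, neg_smul, one_smul, neg_neg] at h3
      exact h3)
    (fun x hx h1 => h1.neg hv (hR x hx))
  intro r h1 h2
  apply hall r
  rw [mem_perp_span]
  rintro w (rfl | rfl)
  · exact h1
  · exact h2

theorem full_of [Finite F] (hQ : Nd Q) (hn : 13 ≤ finrank F V) (hM : M ≤ O Q)
    (hS : ∀ u, Q u = 0 → ∀ c : F, SI Q M u (c • κ u)) {g : V ≃ₗ[F] V} (hg : g ∈ M) {a' b' : V}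
    (hgx : ∀ w, g w = w + polar Q a' w • b' - polar Q b' w • a') {v : V}
    (hv : Q v = 0) (h1 : polar Q a' v = 0) (h2 : polar Q b' v = 0)
    (hy : polar Q a' (κ v) • b' - polar Q b' (κ v) • a' ∉ Submodule.span F {v, κ v}) : Full Q M v := by
  obtain ⟨y, hyd⟩ : ∃ y, y = polar Q a' (κ v) • b' - polar Q b' (κ v) • a' := ⟨_, rfl⟩
  rw [← hyd] at hy
  have hgv : g v = v := by rw [hgx, h1, h2]; simp
  have hgκ : g (κ v) = κ v + y := by rw [hgx, hyd]; abel
  have hvκ : polar Q v (κ v) = 0 := by rw [k.pk, hv, mul_zero]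
  have hy1 : polar Q v y = 0 := by
    rw [hyd, polar_sub_right, polar_smul_right, polar_smul_right, polar_comm Q v b', h2,
      polar_comm Q v a', h1]; simp
  have hy2 : polar Q (κ v) y = 0 := by
    rw [hyd, polar_sub_right, polar_smul_right, polar_smul_right, polar_comm Q (κ v) b',
      polar_comm Q (κ v) a']; simp only [smul_eq_mul]; ring
  have h3 := hS v hv 1
  rw [one_smul] at h3
  have h4 := h3.map hg (hM hg)
  rw [hgv, hgκ] at h4
  have h5 := h4.sub hv (by rw [polar_add_right, hvκ, hy1, add_zero]) hvκ h3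
  rw [add_sub_cancel_left] at h5
  have hR := k.SI_perp hQ hn hM hS hv hy1 hy2 hy h5
  obtain ⟨r, hr, hyr⟩ := hQ.exists_polar_one _ hy
  have hvr : polar Q v r = 0 := mem_perp.1 hr v (Submodule.subset_span (by simp))
  have hκvr : polar Q (κ v) r = 0 := mem_perp.1 hr (κ v) (Submodule.subset_span (by simp))
  have hvgr : polar Q v (g r) = 0 := by
    rw [← hgv, O_polar (hM hg)]; exact hvr
  have hκgr : polar Q (κ v) (g r) = -1 := by
    rw [hgx, polar_sub_right, polar_add_right, polar_smul_right, polar_smul_right, hκvr, ← hyr, hyd,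
      polar_sub_left, polar_smul_left, polar_smul_left, polar_comm Q (κ v) b', polar_comm Q (κ v) a']
    simp only [smul_eq_mul]; ring
  refine ⟨hv, fun t ht => ?_⟩
  have h6 := (hR (polar Q (κ v) t • r) (by rw [polar_smul_right, hvr, smul_zero])
    (by rw [polar_smul_right, hκvr, smul_zero])).map hg (hM hg)
  rw [hgv, LinearEquiv.map_smul] at h6
  have h7 := hR (t + polar Q (κ v) t • g r) (by rw [polar_add_right, ht, polar_smul_right, hvgr]; simp)
    (by rw [polar_add_right, polar_smul_right, hκgr]; simp)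
  have h8 := h7.sub hv (by rw [polar_add_right, ht, polar_smul_right, hvgr]; simp)
    (by rw [polar_smul_right, hvgr, smul_zero]) h6
  rwa [add_sub_cancel_right] at h8

end KS

/-- the normalising condition -/
def Nrm (κ : V →ₗ[F] V) (g : V ≃ₗ[F] V) : Prop :=
  ∃ α β : F, ∀ x, g (κ x) = α • g x + β • κ (g x)

namespace KS
variable {κ : V →ₗ[F] V} {T N : F} (k : KS Q κ T N)
include k

theorem exists_moved [Finite F] (hQ : Nd Q) (hn : 13 ≤ finrank F V) {g : V ≃ₗ[F] V}
    (hgN : ¬ Nrm κ g) : ∃ v, Q v = 0 ∧ v ≠ 0 ∧ g (κ v) ∉ Submodule.span F {g v, κ (g v)} := by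
  by_contra hcon
  push Not at hcon
  apply hgN
  have key1 : ∀ v w, Q v = 0 → v ≠ 0 → Q w = 0 → w ∉ Submodule.span F {v, κ v} → polar Q v w = 0 →
      polar Q (κ v) w = 0 → ∀ α β : F, g (κ v) = α • g v + β • κ (g v) →
      g (κ w) = α • g w + β • κ (g w) := by
    intro v w hv hv0 hw hwv h1 h2 α β hαβ
    have hw0 : w ≠ 0 := by rintro rfl; exact hwv (Submodule.zero_mem _)
    have hvw : v + w ≠ 0 := by
      intro h0
      apply hwv
      rw [show w = -v by rw [← sub_eq_zero]; rw [← h0]; abel]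
      exact Submodule.neg_mem _ (Submodule.subset_span (by simp))
    obtain ⟨α₁, β₁, h3⟩ := Submodule.mem_span_pair.1 (hcon w hw hw0)
    obtain ⟨α₂, β₂, h4⟩ := Submodule.mem_span_pair.1 (hcon (v + w) (by rw [Q_add, hv, hw, h1]; ring) hvw)
    have hgv0 : g v ≠ 0 := by simpa using hv0
    have hβ : β ≠ 0 := by
      rintro rfl
      rw [zero_smul, add_zero, ← LinearEquiv.map_smul] at hαβ
      have h5 := g.injective hαβ
      have h6 := (k.inj (a := 1) (b := -α) (x := v) (by rw [h5]; module) hv0).1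
      exact one_ne_zero h6
    have h5 : (β₂ - β₁) • κ (g w) + (α₂ - α₁) • g w =
        -((β₂ - β) • κ (g v) + (α₂ - α) • g v) := by
      simp only [map_add] at h4
      rw [hαβ, ← h3] at h4
      have : α₂ • (g v + g w) + β₂ • (κ (g v) + κ (g w)) -
        (α • g v + β • κ (g v) + (α₁ • g w + β₁ • κ (g w))) = 0 := by rw [h4, sub_self]
      rw [← sub_eq_zero, ← this]; module
    have h6 : β₂ - β₁ = 0 ∧ α₂ - α₁ = 0 := by
      by_contra hne
      have h7 : g w ∈ Submodule.span F {g v, κ (g v)} := by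
        apply k.mem_of_comb (k.inv_span (g v)) (a := β₂ - β₁) (b := α₂ - α₁) _ hne
        rw [h5]
        exact Submodule.neg_mem _ (Submodule.add_mem _
          (Submodule.smul_mem _ _ (Submodule.subset_span (by simp)))
          (Submodule.smul_mem _ _ (Submodule.subset_span (by simp))))
      obtain ⟨c, d, h8⟩ := Submodule.mem_span_pair.1 h7
      apply hwv
      rw [Submodule.mem_span_pair]
      refine ⟨c - d * β⁻¹ * α, d * β⁻¹, ?_⟩
      apply g.injective
      rw [map_add, LinearEquiv.map_smul, LinearEquiv.map_smul, hαβ, ← h8, smul_add, smul_smul,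
        smul_smul, mul_assoc d, mul_assoc (d) , inv_mul_cancel₀ hβ, mul_one]
      module
    rw [h6.1, h6.2, zero_smul, zero_smul, add_zero, zero_eq_neg] at h5
    obtain ⟨h7, h8⟩ := k.inj h5 hgv0
    have e1 : α₁ = α := by linear_combination h8 - h6.2
    have e2 : β₁ = β := by linear_combination h7 - h6.1
    rw [← h3, e1, e2]
  obtain ⟨v₀, hv₀, hQv₀⟩ := hQ.exists_singular (by omega)
  obtain ⟨α, β, h0⟩ := Submodule.mem_span_pair.1 (hcon v₀ hQv₀ hv₀)
  have key2 : ∀ w, Q w = 0 → g (κ w) = α • g w + β • κ (g w) := by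
    intro w hw
    by_cases hw0 : w = 0
    · rw [hw0]; simp
    obtain ⟨W, hW⟩ : ∃ W, W = Submodule.span F {v₀, κ v₀} ⊔ Submodule.span F {w, κ w} := ⟨_, rfl⟩
    have hWd : finrank F W ≤ 4 := by
      rw [hW]
      have h1 := finrank_sup_le (Submodule.span F {v₀, κ v₀}) (Submodule.span F {w, κ w})
      have h2 := finrank_pair_le (F := F) v₀ (κ v₀)
      have h3 := finrank_pair_le (F := F) w (κ w)
      omega
    have hp := hQ.finrank_add_finrank_perp W
    obtain ⟨u, hu, huW, hQu⟩ := exists_sing_avoid (Q := Q) (perp Q W) W (by omega)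
    have hu' := mem_perp.1 hu
    rw [hW] at huW hu'
    have h1 := hu' v₀ (Submodule.mem_sup_left (Submodule.subset_span (by simp)))
    have h2 := hu' (κ v₀) (Submodule.mem_sup_left (Submodule.subset_span (by simp)))
    have h3 := hu' w (Submodule.mem_sup_right (Submodule.subset_span (by simp)))
    have h4 := hu' (κ w) (Submodule.mem_sup_right (Submodule.subset_span (by simp)))
    have hu0 : u ≠ 0 := by rintro rfl; exact huW (Submodule.zero_mem _)
    have h5 := key1 v₀ u hQv₀ hv₀ hQu (fun h => huW (Submodule.mem_sup_left h)) h1 h2 α β h0.symm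
    obtain ⟨h6, h7⟩ := k.perp_symm h3 h4
    refine key1 u w hQu hu0 hw ?_ h6 h7 α β h5
    intro hmem
    obtain ⟨a, b, hab⟩ := Submodule.mem_span_pair.1 hmem
    apply huW
    apply Submodule.mem_sup_right
    apply k.mem_of_comb (k.inv_span w) (a := b) (b := a)
    · rw [add_comm, hab]; exact Submodule.subset_span (by simp)
    · rintro ⟨rfl, rfl⟩
      rw [zero_smul, zero_smul, add_zero] at hab
      exact hw0 hab.symm
  obtain ⟨z, hz⟩ := hQ.exists_polar_one' hv₀
  refine ⟨α, β, fun x => ?_⟩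
  refine all_of_sing (Q := Q) (R := ⊤) (P := fun x => g (κ x) = α • g x + β • κ (g x)) ?_ (u := v₀)
    (z := z) trivial hQv₀ trivial (by rw [hz]; exact one_ne_zero) ?_ (fun x _ hx _ => key2 x hx) ?_ x trivial
  · intro x _ y _ hx hy
    simp only [map_add] at hx hy ⊢
    rw [hx, hy]; module
  · intro c
    exact key2 _ (by rw [Q_smul, hQv₀, mul_zero])
  · intro x _ hx
    simp only [map_neg] at hx ⊢
    rw [hx]; module

/-- **Main theorem.** -/
theorem main [Finite F] (hQ : Nd Q) (hgen : GenHyp Q) (hn : 14 ≤ finrank F V) (hM : M ≤ O Q)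
    (hS : ∀ u, Q u = 0 → ∀ c : F, SI Q M u (c • κ u)) (hex : ∃ g ∈ M, ¬ Nrm κ g) : Om Q ≤ M := by
  obtain ⟨g, hg, hgN⟩ := hex
  obtain ⟨v₀, hv₀, hv₀0, hgv₀⟩ := k.exists_moved hQ (by omega) hgN
  have h1 := hS v₀ hv₀ 1
  rw [one_smul] at h1
  obtain ⟨x, hx, hxw⟩ := h1.map hg (hM hg)
  obtain ⟨a', ha'⟩ : ∃ a', a' = g v₀ := ⟨_, rfl⟩
  obtain ⟨b', hb'⟩ : ∃ b', b' = g (κ v₀) := ⟨_, rfl⟩
  rw [← ha', ← hb'] at hxw
  rw [← ha', ← hb'] at hgv₀
  have hQb : Q b' = 0 := by rw [hb', hM hg, k.qk, hv₀, mul_zero]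
  have ha'0 : a' ≠ 0 := by rw [ha']; simpa using hv₀0
  replace hxw : ∀ w, x w = w + polar Q a' w • b' - polar Q b' w • a' := by
    intro w
    rw [hxw, siegMap_apply, hQb, zero_mul, zero_smul, sub_zero]
  obtain ⟨l, hl⟩ : ∃ l, l = Submodule.span F {a', b'} := ⟨_, rfl⟩
  obtain ⟨Z, hZ⟩ : ∃ Z, Z = Submodule.span F {a', κ a'} ⊔ Submodule.span F {b', κ b'} := ⟨_, rfl⟩
  have hal : a' ∈ l := by rw [hl]; exact Submodule.subset_span (by simp)
  have hbl : b' ∈ l := by rw [hl]; exact Submodule.subset_span (by simp)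
  have haZ : a' ∈ Z := by rw [hZ]; exact Submodule.mem_sup_left (Submodule.subset_span (by simp))
  have hbZ : b' ∈ Z := by rw [hZ]; exact Submodule.mem_sup_right (Submodule.subset_span (by simp))
  have hZi : ∀ w ∈ Z, κ w ∈ Z := by
    rw [hZ]; exact k.inv_sup (k.inv_span a') (k.inv_span b')
  have hlZ : l ≤ Z := by
    rw [hl, Submodule.span_le]
    rintro w (rfl | rfl)
    · exact haZ
    · exact hbZ
  have hld : finrank F l ≤ 2 := by rw [hl]; exact finrank_pair_le _ _
  have hZd : finrank F Z ≤ 4 := by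
    rw [hZ]
    have h1 := finrank_sup_le (Submodule.span F {a', κ a'}) (Submodule.span F {b', κ b'})
    have h2 := finrank_pair_le (F := F) a' (κ a')
    have h3 := finrank_pair_le (F := F) b' (κ b')
    omega
  have hκl : κ a' ∉ l := by
    intro hmem
    rw [hl] at hmem
    obtain ⟨c, d, hcd⟩ := Submodule.mem_span_pair.1 hmem
    by_cases hd : d = 0
    · rw [hd, zero_smul, add_zero] at hcd
      exact one_ne_zero (k.inj (a := 1) (b := -c) (x := a') (by rw [← hcd]; module) ha'0).1
    · apply hgv₀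
      rw [Submodule.mem_span_pair]
      refine ⟨-(d⁻¹ * c), d⁻¹, ?_⟩
      rw [← hcd, smul_add, smul_smul, smul_smul, inv_mul_cancel₀ hd]
      module
  have hfull : ∀ v, Q v = 0 → (∀ w ∈ l, polar Q w v = 0) → polar Q v (κ a') ≠ 0 → v ∉ Z →
      Full Q M v := by
    intro v hv hvl hvκ hvZ
    have hav := hvl a' hal
    have hbv := hvl b' hbl
    have haκ : polar Q a' (κ v) ≠ 0 := by
      intro h0
      apply hvκ
      rw [polar_comm, k.adj, hav, h0]; ring
    refine k.full_of hQ (by omega) hM hS hx hxw hv hav hbv ?_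
    intro hmem
    obtain ⟨c, d, hcd⟩ := Submodule.mem_span_pair.1 hmem
    by_cases hc : d = 0 ∧ c = 0
    · rw [hc.1, hc.2, zero_smul, zero_smul, add_zero] at hcd
      apply hgv₀
      rw [Submodule.mem_span_pair]
      refine ⟨(polar Q a' (κ v))⁻¹ * polar Q b' (κ v), 0, ?_⟩
      rw [zero_smul, add_zero, mul_smul, ← sub_eq_zero.1 hcd.symm, smul_smul, inv_mul_cancel₀ haκ,
        one_smul]
    · apply hvZ
      apply k.mem_of_comb hZi (a := d) (b := c) _ hc
      rw [add_comm, hcd]
      exact Z.sub_mem (Z.smul_mem _ hbZ) (Z.smul_mem _ haZ)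
  obtain ⟨v₁, hv₁, hv₁l, hv₁κ, -, hv₁Z⟩ := exists_sing_gen hQ l Z hκl hκl 4 (by
    have h1 := finrank_sup_le l (Submodule.span F {κ a', κ a'})
    have h2 := finrank_pair_le (F := F) (κ a') (κ a')
    omega) (by omega) (by omega)
  obtain ⟨v₂, hv₂, hv₂l, hv₂v₁, hv₂κ, hv₂Z⟩ := exists_sing_gen hQ l Z (y₁ := v₁) (y₂ := κ a')
    (fun h => hv₁Z (hlZ h)) hκl 4 (by
    have h1 := finrank_sup_le l (Submodule.span F {v₁, κ a'})
    have h2 := finrank_pair_le (F := F) v₁ (κ a')
    omega) (by omega) (by omega)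
  exact Om_le_of_two hQ hgen (by omega) hM (hfull v₂ hv₂ hv₂l hv₂κ hv₂Z) (hfull v₁ hv₁ hv₁l hv₁κ hv₁Z)
    hv₂v₁

theorem exists_not [Finite F] (hQ : Nd Q) (hgen : GenHyp Q) (hn : 13 ≤ finrank F V) :
    ∃ g ∈ Om Q, ¬ Nrm κ g := by
  obtain ⟨v, hv0, hv⟩ := hQ.exists_singular (by omega)
  obtain ⟨W, hW⟩ : ∃ W, W = Submodule.span F {v, κ v} := ⟨_, rfl⟩
  have hWd : finrank F W ≤ 2 := by rw [hW]; exact finrank_pair_le _ _
  have hp := hQ.finrank_add_finrank_perp W
  obtain ⟨y, hy, hyW, hQy⟩ := exists_sing_avoid (Q := Q) (perp Q W) W (by omega)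
  have hvy : polar Q v y = 0 := mem_perp.1 hy v (by rw [hW]; exact Submodule.subset_span (by simp))
  have hg : ∀ w, sieg hQ hv hvy w = w + polar Q v w • y - polar Q y w • v := by
    intro w
    rw [sieg_apply, hQy, zero_mul, zero_smul, sub_zero]
  refine ⟨sieg hQ hv hvy, SI_Om hQ hgen hv hvy, ?_⟩
  rintro ⟨α, β, h⟩
  -- a common fixed vector
  obtain ⟨W', hW'⟩ : ∃ W', W' = W ⊔ Submodule.span F {y, κ y} := ⟨_, rfl⟩
  have hWd' : finrank F W' ≤ 4 := by
    rw [hW']
    have h1 := finrank_sup_le W (Submodule.span F {y, κ y})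
    have h3 := finrank_pair_le (F := F) y (κ y)
    omega
  have hp' := hQ.finrank_add_finrank_perp W'
  obtain ⟨x, hx, hx0⟩ := Submodule.exists_mem_ne_zero_of_ne_bot (show perp Q W' ≠ ⊥ by
    intro h0; rw [h0, finrank_bot] at hp'; omega)
  have hx' := mem_perp'.1 hx
  rw [hW', hW] at hx'
  have h1 := hx' v (Submodule.mem_sup_left (Submodule.subset_span (by simp)))
  have h2 := hx' (κ v) (Submodule.mem_sup_left (Submodule.subset_span (by simp)))
  have h3 := hx' y (Submodule.mem_sup_right (Submodule.subset_span (by simp)))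
  have h4 := hx' (κ y) (Submodule.mem_sup_right (Submodule.subset_span (by simp)))
  have h5 : polar Q (κ x) v = 0 := by rw [k.adj, h1, h2]; ring
  have h6 : polar Q (κ x) y = 0 := by rw [k.adj, h3, h4]; ring
  rw [polar_comm] at h1 h3 h5 h6
  have h7 := h x
  rw [hg, hg, h1, h3, h5, h6] at h7
  simp only [zero_smul, add_zero, sub_zero] at h7
  obtain ⟨h8, h9⟩ := k.inj (a := β - 1) (b := α) (x := x) (by
    rw [sub_smul, one_smul, sub_add_eq_add_sub, add_comm (β • κ x), ← h7, sub_self]) hx0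
  have hβ : β = 1 := by linear_combination h8
  rw [h9, hβ] at h
  -- a vector detecting non-commutation
  have hvκ : v ∉ F ∙ κ v := by
    intro hmem
    obtain ⟨c, hc⟩ := Submodule.mem_span_singleton.1 hmem
    have := (k.inj (a := c) (b := -1) (x := v) (by rw [hc]; module) hv0).2
    exact neg_ne_zero.2 one_ne_zero this
  obtain ⟨z, hz, hvz⟩ := hQ.exists_polar_one _ hvκ
  have hκz : polar Q (κ v) z = 0 := mem_perp_singleton.1 hz
  have hvκz : polar Q v (κ z) = T := by
    have := k.adj v z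
    rw [hκz, hvz] at this
    linear_combination this
  have h10 := h z
  rw [hg, hg, hvz, hvκz, zero_smul, zero_add, one_smul, one_smul, map_sub, map_add, map_smul] at h10
  apply hyW
  rw [hW]
  apply k.mem_of_comb (k.inv_span v) (a := 1) (b := -T)
  · have e : (1 : F) • κ y + -T • y = polar Q y z • κ v - polar Q y (κ z) • v := by
      have h11 : κ z + T • y - polar Q y (κ z) • v - (κ z + κ y - polar Q y z • κ v) = 0 := by
        rw [h10, sub_self]
      rw [← sub_eq_zero]
      rw [← neg_eq_zero] at h11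
      rw [← h11]; module
    rw [e]
    exact Submodule.sub_mem _ (Submodule.smul_mem _ _ (Submodule.subset_span (by simp)))
      (Submodule.smul_mem _ _ (Submodule.subset_span (by simp)))
  · rintro ⟨h, -⟩
    exact one_ne_zero h

end KS

end Cfsg.Agent.Lib.OrthExtH94
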