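import Mathlib
import Cfsg.Agent.Lib.OrthExtH94
import Cfsg.Agent.Lib.SLUn

set_option autoImplicit false
set_option linter.unusedSectionVars false

/-!
Overgroups of `Om Q` in the special linear group, odd characteristic.
-/

namespace Cfsg.Agent.Lib.SLOrthH94

open QuadraticMap Module Cfsg.Agent.Lib.Quad Cfsg.Agent.Lib.OrthMax Cfsg.Agent.Lib.OrthPoint
  Cfsg.Agent.Lib.OrthExtH94
open Cfsg.Agent.Lib.SLMax (tr tr_apply)
open Cfsg.Agent.Lib.SLUn (cenSL cenSL_smul cenSL_map cenSL_add)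

variable {F V : Type*} [Field F] [AddCommGroup V] [Module F V] [FiniteDimensional F V]
  {Q : QuadraticForm F V} {M : Subgroup (V ≃ₗ[F] V)}

/-- the transvection with centre `z` and functional `f(p,·)` lies in `M` -/
def PZ (Q : QuadraticForm F V) (M : Subgroup (V ≃ₗ[F] V)) (z p : V) : Prop :=
  polar Q p z = 0 ∧ ∃ g ∈ M, ∀ w, g w = w + polar Q p w • z

theorem PZ.add {z p p' : V} (h : PZ Q M z p) (h' : PZ Q M z p') : PZ Q M z (p + p') := by
  obtain ⟨h1, g, hg, hgx⟩ := h
  obtain ⟨h1', g', hg', hgx'⟩ := h'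
  refine ⟨by rw [polar_add_left, h1, h1', add_zero], g * g', mul_mem hg hg', fun w => ?_⟩
  rw [LinearEquiv.mul_apply, hgx, hgx', polar_add_right, polar_smul_right, h1, polar_add_left]
  module

theorem PZ.neg {z p : V} (h : PZ Q M z p) : PZ Q M z (-p) := by
  obtain ⟨h1, g, hg, hgx⟩ := h
  refine ⟨by rw [polar_neg_left, h1, neg_zero], g⁻¹, inv_mem hg, fun w => ?_⟩
  apply g.injective
  rw [← LinearEquiv.mul_apply, mul_inv_cancel, hgx, polar_add_right, polar_smul_right, polar_neg_left, h1]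
  show w = _
  module

theorem PZ.sub {z p p' : V} (h : PZ Q M z p) (h' : PZ Q M z p') : PZ Q M z (p - p') := by
  rw [sub_eq_add_neg]; exact h.add h'.neg

theorem PZ.map {z p : V} (h : PZ Q M z p) {g : V ≃ₗ[F] V} (hg : g ∈ M) (hgO : g ∈ O Q) :
    PZ Q M (g z) (g p) := by
  obtain ⟨h1, t, ht, htx⟩ := h
  refine ⟨by rw [O_polar hgO]; exact h1, g * t * g⁻¹, mul_mem (mul_mem hg ht) (inv_mem hg), fun x => ?_⟩
  obtain ⟨x, rfl⟩ := g.surjective x
  have : (g * t * g⁻¹) (g x) = g (t x) := by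
    show (g * t * g⁻¹ * g) x = _
    rw [inv_mul_cancel_right]; rfl
  rw [this, htx, O_polar hgO, map_add, LinearEquiv.map_smul]

/-- every functional is represented -/
theorem exists_rep (hQ : Nd Q) (φ : Dual F V) : ∃ p, ∀ w, polar Q p w = φ w := by
  refine ⟨(LinearMap.BilinForm.toDual (polarBilin Q) hQ).symm φ, fun w => ?_⟩
  exact LinearMap.BilinForm.apply_toDual_symm_apply (hB := hQ) φ w

theorem mem_cenSL (hQ : Nd Q) {z : V} (h : ∀ p, polar Q p z = 0 → PZ Q M z p) : z ∈ cenSL M := by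
  intro φ hφ
  obtain ⟨p, hp⟩ := exists_rep hQ φ
  obtain ⟨-, g, hg, hgx⟩ := h p (by rw [hp, hφ])
  have : tr z φ hφ = g := by
    apply LinearEquiv.ext
    intro w
    rw [tr_apply, hgx, hp]
  rw [this]; exact hg

/-- action of a Siegel element of `M` -/
theorem PZ.sieg [Finite F] (hQ : Nd Q) (hgen : GenHyp Q) (hO : Om Q ≤ M) {z p : V} (h : PZ Q M z p) {a b : V}
    (ha : Q a = 0) (hab : polar Q a b = 0) (hza : polar Q a z = 0) (hzb : polar Q b z = 0) :
    PZ Q M z (polar Q a p • b - polar Q b p • a - (Q b * polar Q a p) • a) := by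
  have h1 := h.map (hO (SI_Om hQ hgen ha hab)) (Om_le (SI_Om hQ hgen ha hab))
  have h2 : Cfsg.Agent.Lib.Quad.sieg hQ ha hab z = z := by
    rw [sieg_apply, hza, hzb]; simp
  rw [h2, sieg_apply] at h1
  have h3 := h1.sub h
  convert h3 using 1
  abel

theorem full_of_PZ [Finite F] (hQ : Nd Q) (hgen : GenHyp Q) (hn : 9 ≤ finrank F V) (hO : Om Q ≤ M)
    {z p : V} (hz : Q z = 0) (hz0 : z ≠ 0) (h : PZ Q M z p) (hp : p ∉ F ∙ z) : z ∈ cenSL M := by
  have hpz := h.1
  have hzz : polar Q z z = 0 := by rw [polar_self', hz, mul_zero]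
  have hsing : ∀ x, Q x = 0 → polar Q z x = 0 → PZ Q M z x := by
    intro x hx hzx
    obtain ⟨z', hz', hzz', hz'p, -, -⟩ := exists_sing_gen hQ (F ∙ z) ⊥ hp hp 2 (by
      have h3 := finrank_sup_le (F ∙ z) (Submodule.span F {p, p})
      rw [Set.pair_eq_singleton] at h3 ⊢
      have h4 : finrank F (F ∙ z) ≤ 1 := by
        have := finrank_span_le_card (R := F) ({z} : Set V)
        simpa using this
      have h5 : finrank F (F ∙ p) ≤ 1 := by
        have := finrank_span_le_card (R := F) ({p} : Set V)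
        simpa using this
      omega) (by omega) (by rw [finrank_bot]; omega)
    replace hzz' := hzz' z (Submodule.mem_span_singleton_self z)
    obtain ⟨W, hW⟩ : ∃ W, W = Submodule.span F {z, z'} ⊔ Submodule.span F {p, x} := ⟨_, rfl⟩
    have hWd : finrank F W ≤ 4 := by
      rw [hW]
      have h1 := finrank_sup_le (Submodule.span F {z, z'}) (Submodule.span F {p, x})
      have h2 := finrank_pair_le (F := F) z z'
      have h3 := finrank_pair_le (F := F) p x
      omega
    have hp' := hQ.finrank_add_finrank_perp W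
    obtain ⟨p₂, hp₂, hp₂W, hQp₂⟩ := exists_sing_avoid (Q := Q) (perp Q W) (Submodule.span F {z, x}) (by
      have := finrank_pair_le (F := F) z x
      omega)
    have hp₂' := mem_perp.1 hp₂
    rw [hW] at hp₂'
    have q1 : polar Q z p₂ = 0 := hp₂' z (Submodule.mem_sup_left (Submodule.subset_span (by simp)))
    have q2 : polar Q z' p₂ = 0 := hp₂' z' (Submodule.mem_sup_left (Submodule.subset_span (by simp)))
    have q3 : polar Q p p₂ = 0 := hp₂' p (Submodule.mem_sup_right (Submodule.subset_span (by simp)))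
    have q4 : polar Q x p₂ = 0 := hp₂' x (Submodule.mem_sup_right (Submodule.subset_span (by simp)))
    have h1 := h.sieg hQ hgen hO hz' q2 (by rw [polar_comm]; exact hzz') (by rw [polar_comm]; exact q1)
    rw [hQp₂, polar_comm Q p₂ p, q3, zero_mul, zero_smul, sub_zero, sub_zero] at h1
    have hp₃ : p₂ ∉ Submodule.span F {z, x} := hp₂W
    obtain ⟨z₂, hz₂, hz₂W, hz₂p, -, -⟩ := exists_sing_gen hQ (Submodule.span F {z, x}) ⊥ hp₃ hp₃ 3 (by
      have h3 := finrank_sup_le (Submodule.span F {z, x}) (Submodule.span F {p₂, p₂})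
      rw [Set.pair_eq_singleton] at h3 ⊢
      have h4 := finrank_pair_le (F := F) z x
      have h5 : finrank F (F ∙ p₂) ≤ 1 := by
        have := finrank_span_le_card (R := F) ({p₂} : Set V)
        simpa using this
      omega) (by omega) (by rw [finrank_bot]; omega)
    have hz₂z : polar Q z z₂ = 0 := hz₂W z (Submodule.subset_span (by simp))
    have hz₂x : polar Q x z₂ = 0 := hz₂W x (Submodule.subset_span (by simp))
    obtain ⟨c, hc⟩ : ∃ c, c = (polar Q z' p * polar Q z₂ p₂)⁻¹ := ⟨_, rfl⟩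
    have h2 := h1.sieg hQ hgen hO (a := z₂) (b := c • x) hz₂
      (by rw [polar_smul_right, polar_comm, hz₂x, smul_zero]) (by rw [polar_comm]; exact hz₂z)
      (by rw [polar_smul_left, polar_comm, hzx, smul_zero])
    have e : polar Q z₂ (polar Q z' p • p₂) • c • x - polar Q (c • x) (polar Q z' p • p₂) • z₂ -
        (Q (c • x) * polar Q z₂ (polar Q z' p • p₂)) • z₂ = x := by
      have e1 : polar Q x (polar Q z' p • p₂) = 0 := by rw [polar_smul_right, q4, smul_zero]
      have e2 : polar Q z₂ (polar Q z' p • p₂) = polar Q z' p * polar Q z₂ p₂ := by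
        rw [polar_smul_right, smul_eq_mul]
      rw [Q_smul, hx, polar_smul_left, e1, e2, smul_smul, hc, mul_inv_cancel₀ (mul_ne_zero hz'p hz₂p)]
      simp
    rwa [e] at h2
  apply mem_cenSL hQ
  -- a singular vector outside
  have hdz : finrank F (F ∙ z) ≤ 1 := by
    have := finrank_span_le_card (R := F) ({z} : Set V)
    simpa using this
  have hpz' := hQ.finrank_add_finrank_perp (F ∙ z)
  obtain ⟨u, hu, huz, hQu⟩ := exists_sing_avoid (Q := Q) (perp Q (F ∙ z)) (F ∙ z) (by omega)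
  obtain ⟨y, hy, huy⟩ := hQ.exists_polar_one _ huz
  have hu' : polar Q z u = 0 := mem_perp_singleton.1 hu
  have hall := all_of_sing (Q := Q) (R := perp Q (F ∙ z)) (P := fun y => PZ Q M z y)
    (fun x _ y _ h1 h2 => h1.add h2) (u := u) (z := y) hu hQu hy (by rw [huy]; exact one_ne_zero)
    (fun c => hsing _ (by rw [Q_smul, hQu, mul_zero]) (by rw [polar_smul_right, hu', smul_zero]))
    (fun x hx hQx _ => hsing x hQx (mem_perp_singleton.1 hx)) (fun x _ h => h.neg)
  intro p' hp'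
  apply hall p'
  rw [mem_perp_singleton, polar_comm]
  exact hp'

/-- a form invariant under all Siegel elements -/
theorem exists_scalar [Finite F] (hQ : Nd Q) (hn : 9 ≤ finrank F V)
    (f' : LinearMap.BilinForm F V) (hsymm : ∀ x y, f' x y = f' y x)
    (hinv : ∀ a b, Q a = 0 → polar Q a b = 0 → ∀ u w, f' (siegMap Q a b u) (siegMap Q a b w) = f' u w) :
    ∃ c : F, ∀ x y, f' x y = c * polar Q x y := by
  have h1 : ∀ a, Q a = 0 → a ≠ 0 → ∃ c : F, ∀ w, f' a w = c * polar Q a w := by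
    intro a ha ha0
    have haa : polar Q a a = 0 := by rw [polar_self', ha, mul_zero]
    have h2 : ∀ b, polar Q a b = 0 → ∀ w, polar Q a w * f' a b =
        (polar Q b w + Q b * polar Q a w) * f' a a := by
      intro b hab w
      have h3 := hinv a b ha hab a w
      have h4 : siegMap Q a b a = a := by
        rw [siegMap_apply, haa, polar_comm Q b a, hab]; simp
      rw [h4, siegMap_apply] at h3
      simp only [map_sub, map_add, map_smul, smul_eq_mul] at h3
      linear_combination h3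
    -- f' a a = 0
    have hda : finrank F (F ∙ a) ≤ 1 := by
      have := finrank_span_le_card (R := F) ({a} : Set V)
      simpa using this
    have hpa := hQ.finrank_add_finrank_perp (F ∙ a)
    obtain ⟨b, hb, hba, -⟩ := exists_sing_avoid (Q := Q) (perp Q (F ∙ a)) (F ∙ a) (by omega)
    obtain ⟨w, hw, hbw⟩ := hQ.exists_polar_one _ hba
    have haw : polar Q a w = 0 := mem_perp_singleton.1 hw
    have h5 := h2 b (mem_perp_singleton.1 hb) w
    rw [haw, hbw, zero_mul, mul_zero, add_zero, one_mul] at h5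
    obtain ⟨w', hw'⟩ := hQ.exists_polar_one' ha0
    have h6 : ∀ b, polar Q a b = 0 → f' a b = 0 := by
      intro b hb
      have h7 := h2 b hb w'
      rw [← h5, mul_zero, hw', one_mul] at h7
      exact h7
    refine ⟨f' a w', fun w => ?_⟩
    have h7 := h6 (w - polar Q a w • w') (by
      rw [polar_sub_right, polar_smul_right, hw', smul_eq_mul, mul_one, sub_self])
    rw [map_sub, map_smul, smul_eq_mul, sub_eq_zero] at h7
    rw [h7]; ring
  obtain ⟨a, ha0, ha⟩ := hQ.exists_singular (by omega)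
  obtain ⟨c, hc⟩ := h1 a ha ha0
  have h2 : ∀ a', Q a' = 0 → ∀ w, f' a' w = c * polar Q a' w := by
    have key : ∀ a a' c, Q a = 0 → Q a' = 0 → a' ≠ 0 → polar Q a a' ≠ 0 →
        (∀ w, f' a w = c * polar Q a w) → ∀ w, f' a' w = c * polar Q a' w := by
      intro a a' c ha ha' ha'0 haa hc
      obtain ⟨c', hc'⟩ := h1 a' ha' ha'0
      have h3 : c' = c := by
        have h4 := hc a'
        rw [hsymm, hc', polar_comm] at h4
        exact mul_right_cancel₀ haa h4
      rw [← h3]; exact hc'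
    intro a' ha'
    by_cases ha'0 : a' = 0
    · intro w; rw [ha'0]; simp
    obtain ⟨s, hs, -, h3, h4, -⟩ := exists_sing_gen hQ ⊥ ⊥ (y₁ := a) (y₂ := a') (by simpa using ha0)
      (by simpa using ha'0) 2 (by
        have h3 := finrank_sup_le ⊥ (Submodule.span F {a, a'})
        have h5 := finrank_pair_le (F := F) a a'
        rw [finrank_bot] at h3
        omega) (by omega) (by rw [finrank_bot]; omega)
    have hs0 : s ≠ 0 := by rintro rfl; rw [polar_zero_left] at h3; exact h3 rfl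
    exact key s a' c hs ha' ha'0 h4 (key a s c ha hs hs0 (by rwa [polar_comm]) hc)
  obtain ⟨y, hy⟩ := hQ.exists_polar_one' ha0
  refine ⟨c, fun x => ?_⟩
  refine all_of_sing (Q := Q) (R := ⊤) (P := fun x => ∀ w, f' x w = c * polar Q x w) ?_ (u := a) (z := y)
    trivial ha trivial (by rw [hy]; exact one_ne_zero) ?_ (fun x _ hx _ => h2 x hx) ?_ x trivial
  · intro x _ y _ hx hy w
    rw [map_add, LinearMap.add_apply, hx, hy, polar_add_left]; ring
  · intro d
    exact h2 _ (by rw [Q_smul, ha, mul_zero])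
  · intro x _ hx w
    rw [map_neg, LinearMap.neg_apply, hx, polar_neg_left]; ring

/-- **Main theorem.** -/
theorem all_tr_mem [Finite F] (h2 : (2 : F) ≠ 0) (hQ : Nd Q) (hgen : GenHyp Q) (hn : 9 ≤ finrank F V)
    (hO : Om Q ≤ M) {g : V ≃ₗ[F] V} (hg : g ∈ M)
    (hns : ¬ ∃ c : F, ∀ x y, polar Q (g x) (g y) = c * polar Q x y) :
    ∀ (u : V) (φ : Module.Dual F V) (h : φ u = 0), tr u φ h ∈ M := by
  have hgx : ∀ x, g (g⁻¹ x) = x := fun x => by
    rw [← LinearEquiv.mul_apply, mul_inv_cancel]; rfl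
  have hgx' : ∀ x, g⁻¹ (g x) = x := fun x => by
    rw [← LinearEquiv.mul_apply, inv_mul_cancel]; rfl
  -- an element x = g S(a,b) g⁻¹ not preserving Q
  obtain ⟨a, b, ha, hab, y₀, hy₀⟩ : ∃ a b, ∃ ha : Q a = 0, ∃ hab : polar Q a b = 0, ∃ y₀,
      Q ((g * Cfsg.Agent.Lib.Quad.sieg hQ ha hab * g⁻¹) y₀) ≠ Q y₀ := by
    by_contra hcon
    push Not at hcon
    apply hns
    obtain ⟨f', hf'⟩ : ∃ f' : LinearMap.BilinForm F V, ∀ x y, f' x y = polar Q (g x) (g y) :=
      ⟨(polarBilin Q).compl₁₂ g.toLinearMap g.toLinearMap, fun x y => rfl⟩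
    obtain ⟨c, hc⟩ := exists_scalar hQ hn f' (fun x y => by rw [hf', hf', polar_comm]) (by
      intro a b ha hab u w
      have h3 : ∀ v, Q (g (siegMap Q a b v)) = Q (g v) := by
        intro v
        have h4 := hcon a b ha hab (g v)
        have h5 : (g * Cfsg.Agent.Lib.Quad.sieg hQ ha hab * g⁻¹) (g v) = g (siegMap Q a b v) := by
          show g (Cfsg.Agent.Lib.Quad.sieg hQ ha hab (g⁻¹ (g v))) = _
          rw [hgx', sieg_apply, siegMap_apply]
        rwa [h5] at h4
      rw [hf', hf', polar, polar, ← map_add, ← map_add, ← map_add, h3, h3, h3])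
    exact ⟨c, fun x y => by rw [← hf', hc]⟩
  obtain ⟨x, hxd⟩ : ∃ x, x = g * Cfsg.Agent.Lib.Quad.sieg hQ ha hab * g⁻¹ := ⟨_, rfl⟩
  rw [← hxd] at hy₀
  have hx : x ∈ M := by rw [hxd]; exact mul_mem (mul_mem hg (hO (SI_Om hQ hgen ha hab))) (inv_mem hg)
  obtain ⟨α, hα⟩ : ∃ α : Dual F V, ∀ w, α w = polar Q a (g⁻¹ w) :=
    ⟨(polarBilin Q a).comp (g⁻¹ : V ≃ₗ[F] V).toLinearMap, fun w => rfl⟩
  obtain ⟨β, hβ⟩ : ∃ β : Dual F V, ∀ w, β w = polar Q b (g⁻¹ w) :=
    ⟨(polarBilin Q b).comp (g⁻¹ : V ≃ₗ[F] V).toLinearMap, fun w => rfl⟩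
  obtain ⟨a', ha'⟩ : ∃ a', a' = g a := ⟨_, rfl⟩
  obtain ⟨b', hb'⟩ : ∃ b', b' = g b - Q b • g a := ⟨_, rfl⟩
  have hxw : ∀ w, x w = w + α w • b' - β w • a' := by
    intro w
    have h3 : x w = g (Cfsg.Agent.Lib.Quad.sieg hQ ha hab (g⁻¹ w)) := by rw [hxd]; rfl
    rw [h3, sieg_apply, map_sub, map_sub, map_add, hgx, LinearEquiv.map_smul, LinearEquiv.map_smul,
      LinearEquiv.map_smul, hα, hβ, ha', hb']
    module
  -- the vector z
  obtain ⟨W, hW⟩ : ∃ W, W = Submodule.span F {a', b'} ⊔ F ∙ y₀ := ⟨_, rfl⟩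
  obtain ⟨pα, hpα⟩ := exists_rep hQ α
  obtain ⟨pβ, hpβ⟩ := exists_rep hQ β
  obtain ⟨W₂, hW₂⟩ : ∃ W₂, W₂ = W ⊔ Submodule.span F {pα, pβ} := ⟨_, rfl⟩
  have hW₂d : finrank F W₂ ≤ 5 := by
    rw [hW₂, hW]
    have h1 := finrank_sup_le (Submodule.span F {a', b'} ⊔ F ∙ y₀) (Submodule.span F {pα, pβ})
    have h2 := finrank_sup_le (Submodule.span F {a', b'}) (F ∙ y₀)
    have h3 := finrank_pair_le (F := F) a' b'
    have h4 := finrank_pair_le (F := F) pα pβ
    have h5 : finrank F (F ∙ y₀) ≤ 1 := by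
      have := finrank_span_le_card (R := F) ({y₀} : Set V)
      simpa using this
    omega
  have hp₂ := hQ.finrank_add_finrank_perp W₂
  obtain ⟨z, hz, hz0, hQz⟩ := exists_sing_avoid (Q := Q) (perp Q W₂) ⊥ (by rw [finrank_bot]; omega)
  have hz' := mem_perp.1 hz
  rw [hW₂, hW] at hz'
  have hz0' : z ≠ 0 := by simpa using hz0
  have hza' : polar Q a' z = 0 :=
    hz' _ (Submodule.mem_sup_left (Submodule.mem_sup_left (Submodule.subset_span (by simp))))
  have hzb' : polar Q b' z = 0 :=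
    hz' _ (Submodule.mem_sup_left (Submodule.mem_sup_left (Submodule.subset_span (by simp))))
  have hzy : polar Q y₀ z = 0 :=
    hz' _ (Submodule.mem_sup_left (Submodule.mem_sup_right (Submodule.mem_span_singleton_self _)))
  have hαz : α z = 0 := by rw [← hpα]; exact hz' _ (Submodule.mem_sup_right (Submodule.subset_span (by simp)))
  have hβz : β z = 0 := by rw [← hpβ]; exact hz' _ (Submodule.mem_sup_right (Submodule.subset_span (by simp)))
  have hxz : x z = z := by rw [hxw, hαz, hβz]; simp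
  have hzx : ∀ w, polar Q z (x w) = polar Q z w := by
    intro w
    rw [hxw, polar_sub_right, polar_add_right, polar_smul_right, polar_smul_right, polar_comm Q z a', hza',
      polar_comm Q z b', hzb']; simp
  have hzy' : polar Q z y₀ = 0 := by rw [polar_comm]; exact hzy
  have hzxy : polar Q z (x y₀) = 0 := by rw [hzx]; exact hzy'
  -- representation of w ↦ f(y₀, x⁻¹ w)
  obtain ⟨p₁, hp₁⟩ := exists_rep hQ ((polarBilin Q y₀).comp (x⁻¹ : V ≃ₗ[F] V).toLinearMap)
  replace hp₁ : ∀ w, polar Q p₁ (x w) = polar Q y₀ w := by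
    intro w
    rw [hp₁]
    show polar Q y₀ (x⁻¹ (x w)) = _
    rw [← LinearEquiv.mul_apply, inv_mul_cancel]; rfl
  have hp₁z : polar Q p₁ z = 0 := by rw [← hxz, hp₁, hzy]
  have hs : Cfsg.Agent.Lib.Quad.sieg hQ hQz hzy' ∈ M := hO (SI_Om hQ hgen hQz hzy')
  have hs' : Cfsg.Agent.Lib.Quad.sieg hQ hQz hzxy ∈ M := hO (SI_Om hQ hgen hQz hzxy)
  obtain ⟨T, hT⟩ : ∃ T, T = x * Cfsg.Agent.Lib.Quad.sieg hQ hQz hzy' * x⁻¹ *
    (Cfsg.Agent.Lib.Quad.sieg hQ hQz hzxy)⁻¹ := ⟨_, rfl⟩
  have hTM : T ∈ M := by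
    rw [hT]; exact mul_mem (mul_mem (mul_mem hx hs) (inv_mem hx)) (inv_mem hs')
  obtain ⟨p₂, hp₂⟩ : ∃ p₂, p₂ = x y₀ - p₁ + (Q (x y₀) - Q y₀) • z := ⟨_, rfl⟩
  have hzz : polar Q z z = 0 := by rw [polar_self', hQz, mul_zero]
  have hp₂z : polar Q p₂ z = 0 := by
    rw [hp₂, polar_add_left, polar_sub_left, polar_smul_left, hzz, hp₁z, polar_comm, hzxy]; simp
  have hS'z : Cfsg.Agent.Lib.Quad.sieg hQ hQz hzxy z = z := by
    rw [sieg_apply, hzz, polar_comm, hzxy]; simp
  have hTw : ∀ w, T (Cfsg.Agent.Lib.Quad.sieg hQ hQz hzxy w) =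
      Cfsg.Agent.Lib.Quad.sieg hQ hQz hzxy w + polar Q p₂ w • z := by
    intro w
    obtain ⟨w, rfl⟩ := x.surjective w
    have h3 : T (Cfsg.Agent.Lib.Quad.sieg hQ hQz hzxy (x w)) =
        x (Cfsg.Agent.Lib.Quad.sieg hQ hQz hzy' w) := by
      rw [hT]
      show (x * Cfsg.Agent.Lib.Quad.sieg hQ hQz hzy' * x⁻¹ * (Cfsg.Agent.Lib.Quad.sieg hQ hQz hzxy)⁻¹ *
        Cfsg.Agent.Lib.Quad.sieg hQ hQz hzxy * x) w = _
      rw [inv_mul_cancel_right, inv_mul_cancel_right]; rfl
    rw [h3, sieg_apply, sieg_apply, map_sub, map_sub, map_add, LinearEquiv.map_smul,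
      LinearEquiv.map_smul, LinearEquiv.map_smul, hxz, hzx, hp₂, polar_add_left, polar_sub_left, hp₁,
      polar_smul_left, hzx, smul_eq_mul]
    module
  have hPZ : PZ Q M z (Cfsg.Agent.Lib.Quad.sieg hQ hQz hzxy p₂) := by
    refine ⟨?_, T, hTM, fun w => ?_⟩
    · have h3 := O_polar (sieg_mem hQ hQz hzxy) p₂ z
      rw [hS'z] at h3
      rw [h3, hp₂z]
    · obtain ⟨w, rfl⟩ := (Cfsg.Agent.Lib.Quad.sieg hQ hQz hzxy).surjective w
      rw [hTw, O_polar (sieg_mem hQ hQz hzxy)]
  have hnot : Cfsg.Agent.Lib.Quad.sieg hQ hQz hzxy p₂ ∉ F ∙ z := by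
    intro hmem
    obtain ⟨c, hc⟩ := Submodule.mem_span_singleton.1 hmem
    have h3 : p₂ = c • z := by
      apply (Cfsg.Agent.Lib.Quad.sieg hQ hQz hzxy).injective
      rw [LinearEquiv.map_smul, hS'z, hc]
    have h4 : polar Q p₂ (x y₀) = 0 := by rw [h3, polar_smul_left, hzxy, smul_zero]
    rw [hp₂, polar_add_left, polar_sub_left, hp₁, polar_smul_left, hzxy, polar_self', polar_self',
      smul_zero, add_zero] at h4
    apply hy₀
    have h5 : 2 * (Q (x y₀) - Q y₀) = 0 := by linear_combination h4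
    exact sub_eq_zero.1 ((mul_eq_zero.1 h5).resolve_left h2)
  have hzc := full_of_PZ hQ hgen hn hO hQz hz0' hPZ hnot
  -- the centres form an invariant subspace
  let C : Submodule F V :=
    { carrier := cenSL M
      add_mem' := fun {a b} ha hb => cenSL_add ha hb
      zero_mem' := by
        have := cenSL_smul hzc (0 : F)
        rwa [zero_smul] at this
      smul_mem' := fun c z hz => cenSL_smul hz c }
  have hC0 : C ≠ ⊥ := by
    intro h0
    have : z ∈ C := hzc
    rw [h0, Submodule.mem_bot] at this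
    exact hz0' this
  have hCtop : C = ⊤ := by
    by_contra hC1
    obtain ⟨t, ht, w, hw, htw⟩ := exists_move hQ hgen (by omega) hC0 hC1
    exact htw (cenSL_map hw (hO ht))
  intro u φ h
  have : u ∈ C := by rw [hCtop]; trivial
  exact this φ h

end Cfsg.Agent.Lib.SLOrthH94
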