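import Mathlib
import Cfsg.Agent.Lib.SLOrthH94
import Cfsg.Agent.Lib.QuadIndex

set_option autoImplicit false
set_option linter.unusedSectionVars false

/-!
Overgroups of `Om Q` in the special linear group, odd characteristic, dimension `≥ 6` (helper14).
-/

namespace Cfsg.Agent.Lib.LowOr

open QuadraticMap Module Cfsg.Agent.Lib.Quad Cfsg.Agent.Lib.OrthMax Cfsg.Agent.Lib.OrthPoint
  Cfsg.Agent.Lib.OrthExtH94 Cfsg.Agent.Lib.SLOrthH94
open Cfsg.Agent.Lib.SLMax (tr tr_apply)
open Cfsg.Agent.Lib.SLUn (cenSL cenSL_smul cenSL_map cenSL_add)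

variable {F V : Type*} [Field F] [AddCommGroup V] [Module F V] [FiniteDimensional F V]
  {Q : QuadraticForm F V} {M : Subgroup (V ≃ₗ[F] V)}

theorem polar_zero_of_all {D : Submodule F V} (h : ∀ x ∈ D, Q x = 0) {x y : V} (hx : x ∈ D) (hy : y ∈ D) :
    polar Q x y = 0 := by
  rw [polar, h _ (D.add_mem hx hy), h _ hx, h _ hy]; ring

theorem exists_two_form [Finite F] (h2 : (2 : F) ≠ 0) {α β : F} (hα : α ≠ 0) (hβ : β ≠ 0) (c : F) :
    ∃ x y : F, α * x ^ 2 + β * y ^ 2 = c := by
  have := Fintype.ofFinite F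
  have hodd : Fintype.card F % 2 = 1 := by
    by_contra h
    have h3 : ringChar F = 2 := by
      by_contra h4
      exact h (FiniteField.odd_card_of_char_ne_two h4)
    apply h2
    have := (ringChar.spec F 2).2 (by rw [h3])
    exact_mod_cast this
  obtain ⟨x, y, h⟩ := FiniteField.exists_root_sum_quadratic (R := F)
    (f := Polynomial.C α * Polynomial.X ^ 2) (g := Polynomial.C β * Polynomial.X ^ 2 + Polynomial.C (-c))
    (by rw [Polynomial.degree_C_mul_X_pow 2 hα]; rfl)
    (by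
      have h1 : (Polynomial.C β * Polynomial.X ^ 2 + Polynomial.C (-c)).degree =
          (Polynomial.C β * Polynomial.X ^ 2).degree := by
        apply Polynomial.degree_add_eq_left_of_degree_lt
        rw [Polynomial.degree_C_mul_X_pow 2 hβ]
        exact lt_of_le_of_lt Polynomial.degree_C_le (by norm_num)
      rw [h1, Polynomial.degree_C_mul_X_pow 2 hβ]; rfl) hodd
  refine ⟨x, y, ?_⟩
  simp only [Polynomial.eval_mul, Polynomial.eval_C, Polynomial.eval_pow, Polynomial.eval_X,
    Polynomial.eval_add] at h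
  linear_combination h

/-- a subspace of large dimension represents everything -/
theorem exists_value [Finite F] (h2 : (2 : F) ≠ 0) (hQ : Nd Q) {W : Submodule F V}
    (hW : 2 * finrank F W + 2 ≤ finrank F V) (c : F) : ∃ b ∈ perp Q W, Q b = c := by
  have h1 := hQ.finrank_add_finrank_perp W
  obtain ⟨b₁, hb₁, hQ₁⟩ : ∃ b ∈ perp Q W, Q b ≠ 0 := by
    by_contra hcon
    push Not at hcon
    have h3 : perp Q W ≤ W := by
      intro x hx
      rw [← hQ.perp_perp W, mem_perp]
      intro y hy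
      exact polar_zero_of_all hcon hy hx
    have := Submodule.finrank_mono h3
    omega
  obtain ⟨b₂, hb₂, hb₁₂, hQ₂⟩ : ∃ b ∈ perp Q W, polar Q b₁ b = 0 ∧ Q b ≠ 0 := by
    by_contra hcon
    push Not at hcon
    have h3 : perp Q W ⊓ perp Q (F ∙ b₁) ≤ W := by
      intro x hx
      rw [← hQ.perp_perp W, mem_perp]
      have hx1 : polar Q b₁ x = 0 := mem_perp_singleton.1 hx.2
      have hQx := hcon x hx.1 hx1
      intro y hy
      have hyb : polar Q b₁ (y - (polar Q b₁ y / (2 * Q b₁)) • b₁) = 0 := by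
        rw [polar_sub_right, polar_smul_right, polar_self', smul_eq_mul,
          div_mul_cancel₀ _ (mul_ne_zero h2 hQ₁), sub_self]
      have hy' : y - (polar Q b₁ y / (2 * Q b₁)) • b₁ ∈ perp Q W :=
        Submodule.sub_mem _ hy (Submodule.smul_mem _ _ hb₁)
      have hQy := hcon _ hy' hyb
      have hQs := hcon _ (Submodule.add_mem _ hx.1 hy') (by rw [polar_add_right, hx1, hyb, add_zero])
      rw [Q_add, hQx, hQy, zero_add, zero_add, polar_sub_right, polar_smul_right, polar_comm Q x b₁, hx1,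
        smul_zero, sub_zero] at hQs
      rw [polar_comm]; exact hQs
    have h4 := Submodule.finrank_mono h3
    have h5 := hQ.finrank_add_finrank_perp (F ∙ b₁)
    have h6 : finrank F (F ∙ b₁) ≤ 1 := by
      have := finrank_span_le_card (R := F) ({b₁} : Set V)
      simpa using this
    have h7 := Submodule.finrank_sup_add_finrank_inf_eq (perp Q W) (perp Q (F ∙ b₁))
    have h8 := Submodule.finrank_le (perp Q W ⊔ perp Q (F ∙ b₁))
    omega
  obtain ⟨x, y, hxy⟩ := exists_two_form h2 hQ₁ hQ₂ c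
  refine ⟨x • b₁ + y • b₂, Submodule.add_mem _ (Submodule.smul_mem _ _ hb₁) (Submodule.smul_mem _ _ hb₂), ?_⟩
  rw [Q_add, Q_smul, Q_smul, polar_smul_left, polar_smul_right, hb₁₂, smul_zero, smul_zero, add_zero]
  linear_combination hxy

theorem step1 [Finite F] (h2 : (2 : F) ≠ 0) (hQ : Nd Q) (hgen : GenHyp Q) (hn : 6 ≤ finrank F V)
    (hO : Om Q ≤ M) {z p a : V} (h : PZ Q M z p) (ha : Q a = 0) (haz : polar Q a z = 0)
    (hap : polar Q a p ≠ 0) (c : F) : PZ Q M z (c • a) := by
  obtain ⟨b, hb, hQb⟩ := exists_value h2 hQ (W := Submodule.span F {a, z}) (by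
    have := finrank_pair_le (F := F) a z
    omega) (-c / (2 * polar Q a p))
  have hb' := mem_perp.1 hb
  have hab : polar Q a b = 0 := hb' a (Submodule.subset_span (by simp))
  have hzb : polar Q z b = 0 := hb' z (Submodule.subset_span (by simp))
  have h1 := h.sieg hQ hgen hO ha hab haz (by rw [polar_comm]; exact hzb)
  have h3 := h.sieg hQ hgen hO (b := -b) ha (by rw [polar_neg_right, hab, neg_zero]) haz
    (by rw [polar_neg_left, polar_comm, hzb, neg_zero])
  have h4 := h1.add h3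
  have e : (polar Q a p • b - polar Q b p • a - (Q b * polar Q a p) • a) +
      (polar Q a p • -b - polar Q (-b) p • a - (Q (-b) * polar Q a p) • a) = c • a := by
    have e1 : Q (-b) = Q b := QuadraticMap.map_neg Q b
    have e2 : -c = Q b * (2 * polar Q a p) := by
      rw [hQb, div_mul_cancel₀ _ (mul_ne_zero h2 hap)]
    have e3 : c = -(Q b * (2 * polar Q a p)) := by rw [← e2, neg_neg]
    rw [e1, polar_neg_left, e3]
    module
  rwa [e] at h4

theorem full_of_PZ [Finite F] (h2 : (2 : F) ≠ 0) (hQ : Nd Q) (hgen : GenHyp Q) (hn : 6 ≤ finrank F V)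
    (hO : Om Q ≤ M) {z p : V} (hz : Q z = 0) (hz0 : z ≠ 0) (h : PZ Q M z p) (hp : p ∉ F ∙ z) :
    z ∈ cenSL M := by
  have hpz := h.1
  have hdz : finrank F (F ∙ z) ≤ 1 := by
    have := finrank_span_le_card (R := F) ({z} : Set V)
    simpa using this
  have hpz' := hQ.finrank_add_finrank_perp (F ∙ z)
  obtain ⟨u, hu, huz, hQu⟩ := exists_sing_avoid (Q := Q) (perp Q (F ∙ z)) (F ∙ z) (by omega)
  obtain ⟨y, hy, huy⟩ := hQ.exists_polar_one _ huz
  -- a singular vector not orthogonal to `p`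
  obtain ⟨a, haz, ha, hap⟩ : ∃ a, polar Q z a = 0 ∧ Q a = 0 ∧ polar Q a p ≠ 0 := by
    by_contra hcon
    push Not at hcon
    have hall := all_of_sing (Q := Q) (R := perp Q (F ∙ z)) (P := fun y => polar Q y p = 0)
      (fun x _ y _ h1 h2 => by rw [polar_add_left, h1, h2, add_zero]) (u := u) (z := y) hu hQu hy
      (by rw [huy]; exact one_ne_zero)
      (fun c => by rw [polar_smul_left, hcon u (mem_perp_singleton.1 hu) hQu, smul_zero])
      (fun x hx hQx _ => hcon x (mem_perp_singleton.1 hx) hQx)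
      (fun x _ h => by rw [polar_neg_left, h, neg_zero])
    apply hp
    rw [← hQ.perp_perp (F ∙ z), mem_perp]
    exact hall
  have haP := step1 h2 hQ hgen hn hO h ha (by rw [polar_comm]; exact haz) hap
  have ha0 : a ∉ F ∙ z := by
    intro hmem
    obtain ⟨c, rfl⟩ := Submodule.mem_span_singleton.1 hmem
    apply hap
    rw [polar_smul_left, polar_comm, hpz, smul_zero]
  obtain ⟨y', hy', hay⟩ := hQ.exists_polar_one _ ha0
  have hall := all_of_sing (Q := Q) (R := perp Q (F ∙ z)) (P := fun y => PZ Q M z y)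
    (fun x _ y _ h1 h2 => h1.add h2) (u := a) (z := y') (mem_perp_singleton.2 haz) ha hy'
    (by rw [hay]; exact one_ne_zero) haP
    (fun x hx hQx hax => by
      have h3 := step1 h2 hQ hgen hn hO (haP 1) hQx (by rw [polar_comm]; exact mem_perp_singleton.1 hx)
        (by rw [one_smul, polar_comm]; exact hax) 1
      rwa [one_smul] at h3)
    (fun x _ h => h.neg)
  apply mem_cenSL hQ
  intro p' hp'
  apply hall p'
  rw [mem_perp_singleton, polar_comm]
  exact hp'

theorem exists_scalar [Finite F] (hQ : Nd Q) (hn : 5 ≤ finrank F V)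
    (f' : LinearMap.BilinForm F V) (hsymm : ∀ x y, f' x y = f' y x)
    (h1 : ∀ a, Q a = 0 → a ≠ 0 → ∃ c : F, ∀ w, f' a w = c * polar Q a w) :
    ∃ c : F, ∀ x y, f' x y = c * polar Q x y := by
  obtain ⟨a, ha0, ha⟩ := hQ.exists_singular (by omega)
  obtain ⟨c, hc⟩ := h1 a ha ha0
  have h2 : ∀ a', Q a' = 0 → ∀ w, f' a' w = c * polar Q a' w := by
    have key : ∀ a a' c, Q a = 0 → Q a' = 0 → a' ≠ 0 → polar Q a a' ≠ 0 →
        (∀ w, f' a w = c * polar Q a w) → ∀ w, f' a' w = c * polar Q a' w := by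
      intro a a' c ha ha' ha'0 haa hc
      obtain ⟨c', hc'⟩ := h1 a' ha' ha'0
      have h3 : c' = c := by
        have h4 := hc a'
        rw [hsymm, hc', polar_comm] at h4
        exact mul_right_cancel₀ haa h4
      rw [← h3]; exact hc'
    intro a' ha'
    by_cases hdep : a' ∈ F ∙ a
    · obtain ⟨l, rfl⟩ := Submodule.mem_span_singleton.1 hdep
      intro w
      rw [map_smul, LinearMap.smul_apply, hc, polar_smul_left, smul_eq_mul, smul_eq_mul]; ring
    have ha'0 : a' ≠ 0 := by rintro rfl; exact hdep (Submodule.zero_mem _)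
    by_cases haa : polar Q a a' = 0
    · obtain ⟨y₁, hy₁, h3⟩ := hQ.exists_polar_one _ hdep
      obtain ⟨y₂, h4⟩ := hQ.exists_polar_one' ha0
      have hy₁' : polar Q a y₁ = 0 := mem_perp_singleton.1 hy₁
      obtain ⟨y, hy⟩ : ∃ y, y = y₂ + (1 - polar Q a' y₂) • y₁ := ⟨_, rfl⟩
      have h5 : polar Q a y = 1 := by
        rw [hy, polar_add_right, polar_smul_right, hy₁', h4, smul_zero, add_zero]
      have h6 : polar Q a' y = 1 := by
        rw [hy, polar_add_right, polar_smul_right, h3, smul_eq_mul]; ring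
      obtain ⟨s, hs⟩ : ∃ s, s = y - Q y • a := ⟨_, rfl⟩
      have hQs : Q s = 0 := by
        rw [hs, Q_sub, Q_smul, ha, polar_smul_right, polar_comm Q y a, h5, smul_eq_mul]; ring
      have h7 : polar Q a s = 1 := by
        rw [hs, polar_sub_right, polar_smul_right, h5, polar_self', ha, mul_zero, smul_zero, sub_zero]
      have h8 : polar Q s a' = 1 := by
        rw [polar_comm, hs, polar_sub_right, polar_smul_right, h6, polar_comm Q a' a, haa, smul_zero, sub_zero]
      have hs0 : s ≠ 0 := by rintro rfl; rw [polar_zero_left] at h8; exact zero_ne_one h8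
      exact key s a' c hQs ha' ha'0 (by rw [h8]; exact one_ne_zero)
        (key a s c ha hQs hs0 (by rw [h7]; exact one_ne_zero) hc)
    · exact key a a' c ha ha' ha'0 haa hc
  obtain ⟨y, hy⟩ := hQ.exists_polar_one' ha0
  refine ⟨c, fun x => ?_⟩
  refine all_of_sing (Q := Q) (R := ⊤) (P := fun x => ∀ w, f' x w = c * polar Q x w) ?_ (u := a) (z := y)
    trivial ha trivial (by rw [hy]; exact one_ne_zero) ?_ (fun x _ hx _ => h2 x hx) ?_ x trivial
  · intro x _ y _ hx hy w
    rw [map_add, LinearMap.add_apply, hx, hy, polar_add_left]; ring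
  · intro d
    exact h2 _ (by rw [Q_smul, ha, mul_zero])
  · intro x _ hx w
    rw [map_neg, LinearMap.neg_apply, hx, polar_neg_left]; ring

theorem sq_mem_Om [Finite F] (hQ : Nd Q) (hgen : GenHyp Q) {u : V ≃ₗ[F] V} (hu : u ∈ O Q) :
    u * u ∈ Om Q := by
  have h := (mem_Om_iff_homs hQ hgen (⟨u, hu⟩ * ⟨u, hu⟩)).2
    ⟨by rw [map_mul]; exact Int.units_mul_self _, by rw [map_mul]; exact Int.units_mul_self _⟩
  exact h

theorem exists_abz [Finite F] (h2 : (2 : F) ≠ 0) (hQ : Nd Q) (hn : 6 ≤ finrank F V) {g : V ≃ₗ[F] V}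
    (hns : ¬ ∃ c : F, ∀ x y, polar Q (g x) (g y) = c * polar Q x y) :
    ∃ a b z, ∃ ha : Q a = 0, ∃ hab : polar Q a b = 0, Q z = 0 ∧ z ≠ 0 ∧ polar Q (g a) z = 0 ∧
      polar Q (g b) z = 0 ∧ polar Q a (g⁻¹ z) = 0 ∧ polar Q b (g⁻¹ z) = 0 ∧
      ∃ y₀, Q ((g * Cfsg.Agent.Lib.Quad.sieg hQ ha hab * g⁻¹) y₀) ≠ Q y₀ := by
  have hgx' : ∀ x, g⁻¹ (g x) = x := fun x => by
    rw [← LinearEquiv.mul_apply, inv_mul_cancel]; rfl
  by_contra hcon
  push Not at hcon
  apply hns
  obtain ⟨f', hf'⟩ : ∃ f' : LinearMap.BilinForm F V, ∀ x y, f' x y = polar Q (g x) (g y) :=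
    ⟨(polarBilin Q).compl₁₂ g.toLinearMap g.toLinearMap, fun x y => rfl⟩
  obtain ⟨c, hc⟩ := exists_scalar hQ (by omega) f' (fun x y => by rw [hf', hf', polar_comm]) (by
    intro a ha ha0
    have haa : polar Q a a = 0 := by rw [polar_self', ha, mul_zero]
    -- choose z
    obtain ⟨pa, hpa⟩ := exists_rep hQ ((polarBilin Q a).comp (g⁻¹ : V ≃ₗ[F] V).toLinearMap)
    have h3 := hQ.finrank_add_finrank_perp (Submodule.span F {g a, pa})
    have h4 := finrank_pair_le (F := F) (g a) pa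
    obtain ⟨z, hz, hz0, hQz⟩ := exists_sing_avoid (Q := Q) (perp Q (Submodule.span F {g a, pa})) ⊥
      (by rw [finrank_bot]; omega)
    have hz' := mem_perp.1 hz
    have hz0' : z ≠ 0 := by simpa using hz0
    have hza : polar Q (g a) z = 0 := hz' _ (Submodule.subset_span (by simp))
    have hza' : polar Q a (g⁻¹ z) = 0 := by
      have := hz' pa (Submodule.subset_span (by simp))
      rw [hpa] at this
      exact this
    -- choose b
    obtain ⟨pz, hpz⟩ := exists_rep hQ ((polarBilin Q z).comp (g : V ≃ₗ[F] V).toLinearMap)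
    obtain ⟨b, hbW, hba⟩ : ∃ b ∈ perp Q (Submodule.span F {a, g⁻¹ z} ⊔ F ∙ pz), b ∉ F ∙ a := by
      by_contra hcon'
      push Not at hcon'
      have h5 := Submodule.finrank_mono (show perp Q (Submodule.span F {a, g⁻¹ z} ⊔ F ∙ pz) ≤ F ∙ a from hcon')
      have h6 := hQ.finrank_add_finrank_perp (Submodule.span F {a, g⁻¹ z} ⊔ F ∙ pz)
      have h7 := finrank_sup_le (Submodule.span F {a, g⁻¹ z}) (F ∙ pz)
      have h8 := finrank_pair_le (F := F) a (g⁻¹ z)
      have h9 : finrank F (F ∙ pz) ≤ 1 := by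
        have := finrank_span_le_card (R := F) ({pz} : Set V)
        simpa using this
      have h10 : finrank F (F ∙ a) ≤ 1 := by
        have := finrank_span_le_card (R := F) ({a} : Set V)
        simpa using this
      omega
    have hb' := mem_perp.1 hbW
    have hab : polar Q a b = 0 := hb' _ (Submodule.mem_sup_left (Submodule.subset_span (by simp)))
    have hzb' : polar Q b (g⁻¹ z) = 0 := by
      rw [polar_comm]
      exact hb' _ (Submodule.mem_sup_left (Submodule.subset_span (by simp)))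
    have hzb : polar Q (g b) z = 0 := by
      have := hb' pz (Submodule.mem_sup_right (Submodule.mem_span_singleton_self _))
      rw [hpz] at this
      rw [polar_comm]; exact this
    have h5 := hcon a b z ha hab hQz hz0' hza hzb hza' hzb'
    have hS : ∀ w, polar Q a w = 0 → polar Q b w * (polar Q b w * Q (g a) - polar Q (g w) (g a)) = 0 := by
      intro w hw
      have h6 := h5 (g w)
      have h7 : (g * Cfsg.Agent.Lib.Quad.sieg hQ ha hab * g⁻¹) (g w) = g w - polar Q b w • g a := by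
        show g (Cfsg.Agent.Lib.Quad.sieg hQ ha hab (g⁻¹ (g w))) = _
        rw [hgx', sieg_apply, hw, zero_smul, mul_zero, zero_smul, add_zero, sub_zero, map_sub,
          LinearEquiv.map_smul]
      rw [h7, Q_sub, Q_smul, polar_smul_right, smul_eq_mul] at h6
      linear_combination h6
    obtain ⟨w₁, hw₁, hbw₁⟩ := hQ.exists_polar_one _ hba
    have haw₁ : polar Q a w₁ = 0 := mem_perp_singleton.1 hw₁
    have e1 := hS w₁ haw₁
    have e2 := hS (w₁ + a) (by rw [polar_add_right, haw₁, haa, add_zero])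
    rw [polar_add_right, hbw₁, polar_comm Q b a, hab, map_add, polar_add_left, polar_self'] at e2
    rw [hbw₁] at e1
    have hga : Q (g a) = 0 := by
      have : 2 * Q (g a) = 0 := by linear_combination e1 - e2
      exact (mul_eq_zero.1 this).resolve_left h2
    have e3 : ∀ w, polar Q a w = 0 → polar Q b w ≠ 0 → polar Q (g w) (g a) = 0 := by
      intro w hw hbw
      have h6 := hS w hw
      rw [hga, mul_zero, zero_sub] at h6
      exact neg_eq_zero.1 ((mul_eq_zero.1 h6).resolve_left hbw)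
    have e4 : ∀ w, polar Q a w = 0 → polar Q (g w) (g a) = 0 := by
      intro w hw
      by_cases hbw : polar Q b w = 0
      · have h6 := e3 (w + w₁) (by rw [polar_add_right, hw, haw₁, add_zero])
          (by rw [polar_add_right, hbw, hbw₁, zero_add]; exact one_ne_zero)
        have h7 := e3 w₁ haw₁ (by rw [hbw₁]; exact one_ne_zero)
        rw [map_add, polar_add_left, h7, add_zero] at h6
        exact h6
      · exact e3 w hw hbw
    obtain ⟨w', hw'⟩ := hQ.exists_polar_one' ha0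
    refine ⟨f' a w', fun w => ?_⟩
    have h7 := e4 (w - polar Q a w • w') (by
      rw [polar_sub_right, polar_smul_right, hw', smul_eq_mul, mul_one, sub_self])
    rw [polar_comm, ← hf', map_sub, map_smul, smul_eq_mul, sub_eq_zero] at h7
    rw [h7]; ring)
  exact ⟨c, fun x y => by rw [← hf', hc]⟩

/-- the commutator trick -/
theorem PZ_of [Finite F] (hQ : Nd Q) (hgen : GenHyp Q) (hO : Om Q ≤ M) {x : V ≃ₗ[F] V} {z y₀ : V}
    (hx : x ∈ M) (hQz : Q z = 0) (hxz : x z = z) (hzx : ∀ w, polar Q z (x w) = polar Q z w)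
    (hzy' : polar Q z y₀ = 0) :
    ∃ p₁, (∀ w, polar Q p₁ (x w) = polar Q y₀ w) ∧ ∃ hzxy : polar Q z (x y₀) = 0,
      PZ Q M z (Cfsg.Agent.Lib.Quad.sieg hQ hQz hzxy (x y₀ - p₁ + (Q (x y₀) - Q y₀) • z)) := by
  have hzxy : polar Q z (x y₀) = 0 := by rw [hzx]; exact hzy'
  obtain ⟨p₁, hp₁⟩ := exists_rep hQ ((polarBilin Q y₀).comp (x⁻¹ : V ≃ₗ[F] V).toLinearMap)
  replace hp₁ : ∀ w, polar Q p₁ (x w) = polar Q y₀ w := by
    intro w
    rw [hp₁]
    show polar Q y₀ (x⁻¹ (x w)) = _
    rw [← LinearEquiv.mul_apply, inv_mul_cancel]; rfl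
  refine ⟨p₁, hp₁, hzxy, ?_⟩
  have hp₁z : polar Q p₁ z = 0 := by
    have := hp₁ z
    rw [hxz, polar_comm Q y₀ z, hzy'] at this
    exact this
  have hs : Cfsg.Agent.Lib.Quad.sieg hQ hQz hzy' ∈ M := hO (SI_Om hQ hgen hQz hzy')
  have hs' : Cfsg.Agent.Lib.Quad.sieg hQ hQz hzxy ∈ M := hO (SI_Om hQ hgen hQz hzxy)
  obtain ⟨T, hT⟩ : ∃ T, T = x * Cfsg.Agent.Lib.Quad.sieg hQ hQz hzy' * x⁻¹ *
    (Cfsg.Agent.Lib.Quad.sieg hQ hQz hzxy)⁻¹ := ⟨_, rfl⟩
  have hTM : T ∈ M := by
    rw [hT]; exact mul_mem (mul_mem (mul_mem hx hs) (inv_mem hx)) (inv_mem hs')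
  obtain ⟨p₂, hp₂⟩ : ∃ p₂, p₂ = x y₀ - p₁ + (Q (x y₀) - Q y₀) • z := ⟨_, rfl⟩
  rw [← hp₂]
  have hzz : polar Q z z = 0 := by rw [polar_self', hQz, mul_zero]
  have hp₂z : polar Q p₂ z = 0 := by
    rw [hp₂, polar_add_left, polar_sub_left, polar_smul_left, hzz, hp₁z, polar_comm, hzxy]; simp
  have hS'z : Cfsg.Agent.Lib.Quad.sieg hQ hQz hzxy z = z := by
    rw [sieg_apply, hzz, polar_comm, hzxy]; simp
  have hTw : ∀ w, T (Cfsg.Agent.Lib.Quad.sieg hQ hQz hzxy w) =
      Cfsg.Agent.Lib.Quad.sieg hQ hQz hzxy w + polar Q p₂ w • z := by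
    intro w
    obtain ⟨w, rfl⟩ := x.surjective w
    have h3 : T (Cfsg.Agent.Lib.Quad.sieg hQ hQz hzxy (x w)) =
        x (Cfsg.Agent.Lib.Quad.sieg hQ hQz hzy' w) := by
      rw [hT]
      show (x * Cfsg.Agent.Lib.Quad.sieg hQ hQz hzy' * x⁻¹ * (Cfsg.Agent.Lib.Quad.sieg hQ hQz hzxy)⁻¹ *
        Cfsg.Agent.Lib.Quad.sieg hQ hQz hzxy * x) w = _
      rw [inv_mul_cancel_right, inv_mul_cancel_right]; rfl
    rw [h3, sieg_apply, sieg_apply, map_sub, map_sub, map_add, LinearEquiv.map_smul,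
      LinearEquiv.map_smul, LinearEquiv.map_smul, hxz, hzx, hp₂, polar_add_left, polar_sub_left, hp₁,
      polar_smul_left, hzx, smul_eq_mul]
    module
  refine ⟨?_, T, hTM, fun w => ?_⟩
  · have h3 := O_polar (sieg_mem hQ hQz hzxy) p₂ z
    rw [hS'z] at h3
    rw [h3, hp₂z]
  · obtain ⟨w, rfl⟩ := (Cfsg.Agent.Lib.Quad.sieg hQ hQz hzxy).surjective w
    rw [hTw, O_polar (sieg_mem hQ hQz hzxy)]

/-- from a transvection with axis `z^⊥` -/
theorem PZ_of_self [Finite F] (h2 : (2 : F) ≠ 0) (hQ : Nd Q) (hgen : GenHyp Q) (hn : 6 ≤ finrank F V)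
    (hO : Om Q ≤ M) {z : V} (hz : Q z = 0) (hz0 : z ≠ 0) {c : F} (hc : c ≠ 0) (h : PZ Q M z (c • z)) :
    ∃ p, PZ Q M z p ∧ p ∉ F ∙ z := by
  have hdz : finrank F (F ∙ z) ≤ 1 := by
    have := finrank_span_le_card (R := F) ({z} : Set V)
    simpa using this
  have hpz' := hQ.finrank_add_finrank_perp (F ∙ z)
  obtain ⟨z₂, hz₂, hz₂z, hQz₂⟩ := exists_sing_avoid (Q := Q) (perp Q (F ∙ z)) (F ∙ z) (by omega)
  have hzz₂ : polar Q z z₂ = 0 := mem_perp_singleton.1 hz₂
  have hzz : polar Q z z = 0 := by rw [polar_self', hz, mul_zero]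
  have hz₂z₂ : polar Q z₂ z₂ = 0 := by rw [polar_self', hQz₂, mul_zero]
  have hz₂z' : polar Q z₂ z = 0 := by rw [polar_comm]; exact hzz₂
  -- z ↦ z + z₂
  have hzn : z ∉ F ∙ z₂ := by
    intro hmem
    obtain ⟨l, hl⟩ := Submodule.mem_span_singleton.1 hmem
    have hl0 : l ≠ 0 := by rintro rfl; rw [zero_smul] at hl; exact hz0 hl.symm
    apply hz₂z
    rw [← hl]
    exact Submodule.mem_span_singleton.2 ⟨l⁻¹, by rw [smul_smul, inv_mul_cancel₀ hl0, one_smul]⟩
  obtain ⟨b, hb, hbz⟩ := hQ.exists_polar_one _ hzn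
  have hbz₂ : polar Q z₂ b = 0 := mem_perp_singleton.1 hb
  obtain ⟨b', hb', hbz'⟩ := hQ.exists_polar_one _ hz₂z
  have hbz₂' : polar Q z b' = 0 := mem_perp_singleton.1 hb'
  have h3 := h.map (g := Cfsg.Agent.Lib.Quad.sieg hQ (z := z₂) (y := -b) hQz₂ (by rw [polar_neg_right, hbz₂, neg_zero]))
    (hO (SI_Om hQ hgen _ _)) (Om_le (SI_Om hQ hgen _ _))
  have e3 : Cfsg.Agent.Lib.Quad.sieg hQ (z := z₂) (y := -b) hQz₂ (by rw [polar_neg_right, hbz₂, neg_zero]) z = z + z₂ := by
    rw [sieg_apply, hz₂z', polar_neg_left, polar_comm Q b z, hbz]; simp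
  rw [LinearEquiv.map_smul, e3] at h3
  have h4 := h3.map (g := Cfsg.Agent.Lib.Quad.sieg hQ (z := z) (y := b') hz hbz₂')
    (hO (SI_Om hQ hgen _ _)) (Om_le (SI_Om hQ hgen _ _))
  have e4 : Cfsg.Agent.Lib.Quad.sieg hQ (z := z) (y := b') hz hbz₂' (z + z₂) = z₂ := by
    rw [sieg_apply, polar_add_right, polar_add_right, hzz, hzz₂, polar_comm Q b' z, hbz₂', polar_comm Q b' z₂, hbz']
    simp
  rw [LinearEquiv.map_smul, e4] at h4
  obtain ⟨-, g₁, hg₁, hg₁x⟩ := h3
  obtain ⟨-, g₂, hg₂, hg₂x⟩ := h.neg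
  obtain ⟨-, g₃, hg₃, hg₃x⟩ := h4.neg
  have hs : polar Q z (-c • z₂) = 0 := by rw [polar_smul_right, hzz₂, smul_zero]
  refine ⟨(2 * c) • z₂, ⟨by rw [polar_smul_left, hz₂z', smul_zero],
    g₁ * (g₂ * (g₃ * Cfsg.Agent.Lib.Quad.sieg hQ hz hs)),
    mul_mem hg₁ (mul_mem hg₂ (mul_mem hg₃ (hO (SI_Om hQ hgen _ _)))), fun w => ?_⟩, ?_⟩
  · rw [LinearEquiv.mul_apply, LinearEquiv.mul_apply, LinearEquiv.mul_apply, sieg_apply, hg₃x, hg₂x, hg₁x]
    simp only [polar_add_right, polar_sub_right, polar_smul_right, polar_smul_left, polar_neg_left,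
      polar_add_left, hzz, hzz₂, hz₂z', hz₂z₂, Q_smul, hQz₂, smul_eq_mul, mul_zero, add_zero, sub_zero,
      zero_smul, neg_zero, zero_add]
    module
  · intro hmem
    obtain ⟨l, hl⟩ := Submodule.mem_span_singleton.1 hmem
    apply hz₂z
    refine Submodule.mem_span_singleton.2 ⟨(2 * c)⁻¹ * l, ?_⟩
    rw [mul_smul, hl, smul_smul, inv_mul_cancel₀ (mul_ne_zero h2 hc), one_smul]

/-- **Main theorem.** -/
theorem all_tr_mem [Finite F] (h2 : (2 : F) ≠ 0) (hQ : Nd Q) (hgen : GenHyp Q) (hn : 6 ≤ finrank F V)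
    (hO : Om Q ≤ M) {g : V ≃ₗ[F] V} (hg : g ∈ M)
    (hns : ¬ ∃ c : F, ∀ x y, polar Q (g x) (g y) = c * polar Q x y) :
    ∀ (u : V) (φ : Module.Dual F V) (h : φ u = 0), tr u φ h ∈ M := by
  have hgx : ∀ x, g (g⁻¹ x) = x := fun x => by
    rw [← LinearEquiv.mul_apply, mul_inv_cancel]; rfl
  obtain ⟨a, b, z, ha, hab, hQz, hz0, hza, hzb, haz, hbz, y₀, hy₀⟩ := exists_abz h2 hQ hn hns
  obtain ⟨x, hxd⟩ : ∃ x, x = g * Cfsg.Agent.Lib.Quad.sieg hQ ha hab * g⁻¹ := ⟨_, rfl⟩
  rw [← hxd] at hy₀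
  have hx : x ∈ M := by rw [hxd]; exact mul_mem (mul_mem hg (hO (SI_Om hQ hgen ha hab))) (inv_mem hg)
  have hxw : ∀ w, x w = w + polar Q a (g⁻¹ w) • g b - polar Q b (g⁻¹ w) • g a -
      (Q b * polar Q a (g⁻¹ w)) • g a := by
    intro w
    have h3 : x w = g (Cfsg.Agent.Lib.Quad.sieg hQ ha hab (g⁻¹ w)) := by rw [hxd]; rfl
    rw [h3, sieg_apply, map_sub, map_sub, map_add, hgx, LinearEquiv.map_smul, LinearEquiv.map_smul,
      LinearEquiv.map_smul]
  have hxz : x z = z := by rw [hxw, haz, hbz]; simp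
  have hzx : ∀ w, polar Q z (x w) = polar Q z w := by
    intro w
    rw [hxw, polar_sub_right, polar_sub_right, polar_add_right, polar_smul_right, polar_smul_right,
      polar_smul_right, polar_comm Q z (g a), hza, polar_comm Q z (g b), hzb]; simp
  have hzz : polar Q z z = 0 := by rw [polar_self', hQz, mul_zero]
  -- it suffices to find one
  obtain ⟨p, hp, hpz⟩ : ∃ p, PZ Q M z p ∧ p ∉ F ∙ z := by
    by_cases hA : ∃ y p₁, polar Q z y = 0 ∧ (∀ w, polar Q p₁ (x w) = polar Q y w) ∧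
        x y - p₁ + (Q (x y) - Q y) • z ∉ F ∙ z
    · obtain ⟨y, p₁, hy, hp₁, hnot⟩ := hA
      obtain ⟨p₁', hp₁', hzxy, hPZ⟩ := PZ_of hQ hgen hO hx hQz hxz hzx hy
      have hpp : p₁' = p₁ := by
        rw [← sub_eq_zero]
        apply hQ.eq_zero
        intro w
        obtain ⟨w, rfl⟩ := x.surjective w
        rw [polar_sub_left, hp₁', hp₁, sub_self]
      rw [hpp] at hPZ
      refine ⟨_, hPZ, fun hmem => hnot ?_⟩
      obtain ⟨c, hc⟩ := Submodule.mem_span_singleton.1 hmem
      have hS'z : Cfsg.Agent.Lib.Quad.sieg hQ hQz hzxy z = z := by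
        rw [sieg_apply, hzz, polar_comm, hzxy]; simp
      have h3 : x y - p₁ + (Q (x y) - Q y) • z = c • z := by
        apply (Cfsg.Agent.Lib.Quad.sieg hQ hQz hzxy).injective
        rw [LinearEquiv.map_smul, hS'z, hc]
      rw [h3]; exact Submodule.smul_mem _ _ (Submodule.mem_span_singleton_self z)
    · push Not at hA
      -- `Q` is preserved on `z^⊥`
      have hB : ∀ y, polar Q z y = 0 → Q (x y) = Q y ∧ ∃ c : F, (∀ w, polar Q (x y) (x w) - polar Q y w =
          c * polar Q z w) ∧ PZ Q M z (c • z) := by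
        intro y hy
        obtain ⟨p₁, hp₁, hzxy, hPZ⟩ := PZ_of hQ hgen hO hx hQz hxz hzx hy
        obtain ⟨c, hc⟩ := Submodule.mem_span_singleton.1 (hA y p₁ hy hp₁)
        have h3 : Q (x y) = Q y := by
          have h4 : polar Q (x y - p₁ + (Q (x y) - Q y) • z) (x y) = 0 := by
            rw [← hc, polar_smul_left, hzxy, smul_zero]
          rw [polar_add_left, polar_sub_left, hp₁, polar_smul_left, hzxy, polar_self', polar_self',
            smul_zero, add_zero] at h4
          have h5 : 2 * (Q (x y) - Q y) = 0 := by linear_combination h4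
          exact sub_eq_zero.1 ((mul_eq_zero.1 h5).resolve_left h2)
        refine ⟨h3, c, fun w => ?_, ?_⟩
        · have h4 : polar Q (x y - p₁ + (Q (x y) - Q y) • z) (x w) = c * polar Q z w := by
            rw [← hc, polar_smul_left, hzx, smul_eq_mul]
          rw [h3, sub_self, zero_smul, add_zero, polar_sub_left, hp₁] at h4
          exact h4
        · rw [← hc] at hPZ
          have hS'z : Cfsg.Agent.Lib.Quad.sieg hQ hQz hzxy z = z := by
            rw [sieg_apply, hzz, polar_comm, hzxy]; simp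
          rwa [LinearEquiv.map_smul, hS'z] at hPZ
      by_cases hC : ∀ y, polar Q z y = 0 → ∀ w, polar Q (x y) (x w) = polar Q y w
      · -- `x` is an isometry times a transvection
        obtain ⟨h, hh⟩ := hQ.exists_polar_one' hz0
        obtain ⟨κ, hκ⟩ : ∃ κ, κ = Q (x h) - Q h := ⟨_, rfl⟩
        have hxQ : ∀ w, Q (x w) = Q w + κ * (polar Q z w * polar Q z w) := by
          intro w
          obtain ⟨y, hy⟩ : ∃ y, y = w - polar Q z w • h := ⟨_, rfl⟩
          have hyz : polar Q z y = 0 := by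
            rw [hy, polar_sub_right, polar_smul_right, hh, smul_eq_mul, mul_one, sub_self]
          have hw : w = y + polar Q z w • h := by rw [hy]; abel
          have h3 : Q (x w) = Q (x y) + Q (polar Q z w • x h) + polar Q (x y) (polar Q z w • x h) := by
            rw [← Q_add, ← LinearEquiv.map_smul, ← map_add, ← hw]
          have h4 : Q w = Q y + Q (polar Q z w • h) + polar Q y (polar Q z w • h) := by
            rw [← Q_add, ← hw]
          rw [h3, h4, (hB y hyz).1, Q_smul, Q_smul, polar_smul_right, polar_smul_right, hC y hyz, hκ]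
          ring
        have hκ0 : κ ≠ 0 := by
          rintro h0
          apply hy₀
          rw [hxQ, h0, zero_mul, add_zero]
        have h3 : (κ • polarBilin Q z) z = 0 := by
          rw [LinearMap.smul_apply]
          show κ • polar Q z z = 0
          rw [hzz, smul_zero]
        obtain ⟨τ, hτ⟩ : ∃ τ, τ = tr z (κ • polarBilin Q z) h3 := ⟨_, rfl⟩
        have hτx : ∀ w, τ w = w + (κ * polar Q z w) • z := by
          intro w; rw [hτ, tr_apply]; rfl
        have hcomm : x * τ = τ * x := by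
          apply LinearEquiv.ext
          intro w
          rw [LinearEquiv.mul_apply, LinearEquiv.mul_apply, hτx, hτx, map_add, LinearEquiv.map_smul, hxz, hzx]
        have hyO : x * τ⁻¹ ∈ O Q := by
          rw [mem_O]
          intro w
          obtain ⟨w, rfl⟩ := τ.surjective w
          have h4 : (x * τ⁻¹) (τ w) = x w := by
            show (x * τ⁻¹ * τ) w = x w
            rw [inv_mul_cancel_right]
          rw [h4, hxQ, hτx, Q_add, Q_smul, hQz, polar_smul_right, polar_comm Q w z, smul_eq_mul]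
          ring
        have h4 := hO (sq_mem_Om hQ hgen hyO)
        have h5 : x * τ⁻¹ * (x * τ⁻¹) = x * x * (τ * τ)⁻¹ := by
          have h6 : τ⁻¹ * x = x * τ⁻¹ := by
            rw [inv_mul_eq_iff_eq_mul, ← mul_assoc, ← hcomm, mul_inv_cancel_right]
          rw [mul_inv_rev, mul_assoc, ← mul_assoc τ⁻¹ x, h6]
          group
        rw [h5] at h4
        have h6 : τ * τ ∈ M := by
          have h7 := mul_mem (inv_mem h4) (mul_mem hx hx)
          have h8 : (x * x * (τ * τ)⁻¹)⁻¹ * (x * x) = τ * τ := by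
            rw [mul_inv_rev, inv_inv, inv_mul_cancel_right]
          rwa [h8] at h7
        refine PZ_of_self h2 hQ hgen hn hO hQz hz0 (c := 2 * κ) (mul_ne_zero h2 hκ0)
          ⟨by rw [polar_smul_left, hzz, smul_zero], τ * τ, h6, fun w => ?_⟩
        rw [LinearEquiv.mul_apply, hτx, hτx, polar_add_right, polar_smul_right, hzz, polar_smul_left, smul_eq_mul]
        module
      · push Not at hC
        obtain ⟨y, hy, w, hw⟩ := hC
        obtain ⟨-, c, hc, hPZ⟩ := hB y hy
        refine PZ_of_self h2 hQ hgen hn hO hQz hz0 (c := c) ?_ hPZ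
        rintro rfl
        apply hw
        have := hc w
        rw [zero_mul, sub_eq_zero] at this
        exact this
  have hzc := full_of_PZ h2 hQ hgen hn hO hQz hz0 hp hpz
  -- the centres form an invariant subspace
  let C : Submodule F V :=
    { carrier := cenSL M
      add_mem' := fun {a b} ha hb => cenSL_add ha hb
      zero_mem' := by
        have := cenSL_smul hzc (0 : F)
        rwa [zero_smul] at this
      smul_mem' := fun c z hz => cenSL_smul hz c }
  have hC0 : C ≠ ⊥ := by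
    intro h0
    have : z ∈ C := hzc
    rw [h0, Submodule.mem_bot] at this
    exact hz0 this
  have hCtop : C = ⊤ := by
    by_contra hC1
    obtain ⟨t, ht, w, hw, htw⟩ := exists_move hQ hgen (by omega) hC0 hC1
    exact htw (cenSL_map hw (hO ht))
  intro u φ h
  have : u ∈ C := by rw [hCtop]; trivial
  exact this φ h

end Cfsg.Agent.Lib.LowOr
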