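import Cfsg.Agent.Lib.LowOrBridge
import Cfsg.Agent.Lib.LowNd44
import Cfsg.Agent.Lib.QuadDB67
import Cfsg.Agent.Lib.OrthPoint

/-!
# Bridges for small orthogonal groups in even dimension (helper14)
-/

set_option autoImplicit false

namespace Cfsg.Agent.Lib.LowOrBr8

open Cfsg Cfsg.Geo Cfsg.Agent.Lib.GeoBridge QuadraticMap Module Cfsg.Agent.Lib.Quad
open Cfsg.Agent.Lib.OrthMax Cfsg.Agent.Lib.OrthNd Cfsg.Agent.Lib.OrthBridge Cfsg.Agent.Lib.OrthNdBridge
open scoped MatrixGroups Matrix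

section types

open Cfsg.Agent.Lib.QuadD67

variable {F V : Type*} [Field F] [Finite F] [AddCommGroup V] [Module F V] [FiniteDimensional F V]
  {Q : QuadraticForm F V}

/-- multiplicativity of `D` -/
theorem D_mul (hQ : Nd Q) {W : Submodule F V} (hW : NDs Q W) (hb : Bal (res Q W)) (hb' : Bal (res Q (perp Q W))) :
    D Q = D (res Q W) * D (res Q (perp Q W)) := by
  have hc : IsCompl W (perp Q W) := by
    refine ⟨disjoint_iff.2 hW, codisjoint_iff.2 ?_⟩
    rw [eq_top_iff]
    intro v _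
    obtain ⟨a, ha, b, hb, hab⟩ := nds_sup hQ hW v
    exact Submodule.mem_sup.2 ⟨a, ha, b, hb, hab⟩
  have : Finite W := Module.finite_of_finite F
  have : Finite (perp Q W) := Module.finite_of_finite F
  rw [← D_prod hb hb']
  refine D_congr (Submodule.prodEquivOfIsCompl W (perp Q W) hc) ?_
  intro v
  rw [Submodule.coe_prodEquivOfIsCompl', QuadraticMap.prod_apply]
  change Q ((v.1 : V) + (v.2 : V)) = Q (v.1 : V) + Q (v.2 : V)
  rw [Q_add, mem_perp.1 v.2.2 v.1 v.1.2, add_zero]

/-- types of complements -/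
theorem types (hQ : Nd Q) (hm : ¬ Plus Q) {W : Submodule F V} (hW : NDs Q W) {a b : ℕ} (ha : finrank F W = 2 * a)
    (hb : finrank F (perp Q W) = 2 * b) :
    (Plus (res Q W) ∧ ¬ Plus (res Q (perp Q W))) ∨ (¬ Plus (res Q W) ∧ Plus (res Q (perp Q W))) := by
  have hdim := hQ.finrank_add_finrank_perp W
  have h1 := D_cases a (nd_res_of_inf hW) ha
  have h2 := D_cases b (nd_res_of_inf (nds_perp hQ hW)) hb
  have h3 := D_mul hQ hW h1.1 h2.1
  have h4 := (D_cases (a + b) hQ (by omega)).2.resolve_left (fun h => hm h.1)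
  have hq : (0 : ℤ) < (Nat.card F : ℤ) := by exact_mod_cast Nat.card_pos
  have h5 := pow_pos hq (a + b)
  rcases h1.2 with ⟨p1, d1⟩ | ⟨p1, d1⟩ <;> rcases h2.2 with ⟨p2, d2⟩ | ⟨p2, d2⟩
  · exfalso
    rw [h3, d1, d2, ← pow_add] at h4
    linarith [h4.2]
  · exact Or.inl ⟨p1, p2⟩
  · exact Or.inr ⟨p1, p2⟩
  · exfalso
    rw [h3, d1, d2, neg_mul_neg, ← pow_add] at h4
    linarith [h4.2]

/-- the two types cannot be both plus or both minus in a plus space -/
theorem types' (hQ : Nd Q) (hm : Plus Q) {W : Submodule F V} (hW : NDs Q W) {a b : ℕ} (ha : finrank F W = 2 * a)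
    (hb : finrank F (perp Q W) = 2 * b) :
    (Plus (res Q W) ∧ Plus (res Q (perp Q W))) ∨ (¬ Plus (res Q W) ∧ ¬ Plus (res Q (perp Q W))) := by
  have hdim := hQ.finrank_add_finrank_perp W
  have h1 := D_cases a (nd_res_of_inf hW) ha
  have h2 := D_cases b (nd_res_of_inf (nds_perp hQ hW)) hb
  have h3 := D_mul hQ hW h1.1 h2.1
  have h4 := (D_cases (a + b) hQ (by omega)).2.resolve_right (fun h => h.1 hm)
  have hq : (0 : ℤ) < (Nat.card F : ℤ) := by exact_mod_cast Nat.card_pos
  have h5 := pow_pos hq (a + b)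
  rcases h1.2 with ⟨p1, d1⟩ | ⟨p1, d1⟩ <;> rcases h2.2 with ⟨p2, d2⟩ | ⟨p2, d2⟩
  · exact Or.inl ⟨p1, p2⟩
  · exfalso
    rw [h3, d1, d2, mul_neg, ← pow_add] at h4
    linarith [h4.2]
  · exfalso
    rw [h3, d1, d2, neg_mul, ← pow_add] at h4
    linarith [h4.2]
  · exact Or.inr ⟨p1, p2⟩

/-- `Plus` for a subspace -/
theorem plus_res {W : Submodule F V} : Plus (res Q W) ↔ ∃ U : Submodule F V, U ≤ W ∧ (∀ u ∈ U, Q u = 0) ∧ 2 * finrank F U = finrank F W := by
  constructor
  · rintro ⟨U, hU, hd⟩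
    refine ⟨U.map W.subtype, ?_, ?_, ?_⟩
    · rintro _ ⟨u, _, rfl⟩; exact u.2
    · rintro _ ⟨u, hu, rfl⟩; exact hU u hu
    · rw [← hd]
      congr 1
      exact (Submodule.equivMapOfInjective _ W.injective_subtype _).finrank_eq.symm
  · rintro ⟨U, hUW, hU, hd⟩
    refine ⟨U.comap W.subtype, fun u hu => hU _ hu, ?_⟩
    rw [← hd]
    congr 1
    have h1 : (U.comap W.subtype).map W.subtype = U := by
      rw [Submodule.map_comap_subtype, inf_eq_right]; exact hUW
    conv_rhs => rw [← h1]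
    exact (Submodule.equivMapOfInjective _ W.injective_subtype _).finrank_eq

end types

variable {ι : Type} [Fintype ι] [DecidableEq ι] {F : Type*} [Field F]

/-- nondegenerate subspaces, the dimensions of `W` and its complement being different -/
theorem Om_nd_ne [Finite F] {Q : QuadraticForm F (ι → F)} (hQ : Nd Q)
    (hn : 5 ≤ finrank F (ι → F)) {W : Submodule F (ι → F)} (h0 : W ≠ ⊥) (h1 : W ≠ ⊤) (hW : NDs Q W)
    (hlt : (finrank F W < finrank F (perp Q W) ∧ 5 ≤ finrank F (perp Q W)) ∨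
      (finrank F (perp Q W) < finrank F W ∧ 5 ≤ finrank F W))
    (hexc : finrank F W = 2 → 4 ≤ Nat.card F ∨ ∀ w ∈ W, Q w = 0 → w = 0)
    (hexc' : finrank F (perp Q W) = 2 → 4 ≤ Nat.card F ∨ ∀ w ∈ perp Q W, Q w = 0 → w = 0) :
    IsMaximalIn (omegaGL ⇑Q) (subspaceStabilizer W ⊓ omegaGL ⇑Q) := by
  apply Om_stab_max_of hQ hn h0 h1
  intro M hM hH hex
  have hMO := hM.trans (Om_le (Q := Q))
  have hgen : GenHyp Q := Or.inr (Or.inl (by omega))
  have hpp := hQ.perp_perp W
  rcases hlt with ⟨hlt, h5⟩ | ⟨hlt, h5⟩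
  · refine LowNd.nd_stab_max5 hQ hgen hMO hW h5 hH hex ?_ hexc
    intro g hg hgw
    have hle' : (perp Q W).map g.toLinearMap ≤ W := by
      rintro _ ⟨x, hx, rfl⟩; exact hgw x hx
    have h3 : finrank F ((perp Q W).map g.toLinearMap) = finrank F (perp Q W) :=
      LinearEquiv.finrank_map_eq g _
    have h4 := Submodule.finrank_mono hle'
    omega
  · refine LowNd.nd_stab_max5 (W := perp Q W) hQ hgen hMO (nds_perp hQ hW) (by rw [hpp]; exact h5) ?_ ?_ ?_ hexc'
    · intro g hg hgw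
      refine hH g hg ?_
      have := stab_perp (Om_le hg) hgw
      rwa [hpp] at this
    · obtain ⟨g, hg, w, hw, hgw⟩ := hex
      by_contra hcon
      push Not at hcon
      have := stab_perp (hMO hg) (hcon g hg)
      rw [hpp] at this
      exact hgw (this w hw)
    · intro g hg hgw
      rw [hpp] at hgw
      have hle' : W.map g.toLinearMap ≤ perp Q W := by
        rintro _ ⟨x, hx, rfl⟩; exact hgw x hx
      have h3 : finrank F (W.map g.toLinearMap) = finrank F W := LinearEquiv.finrank_map_eq g _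
      have h4 := Submodule.finrank_mono hle'
      omega

/-- nondegenerate 4-spaces in dimension eight, minus type -/
theorem Om_nd_44 [Finite F] {Q : QuadraticForm F (ι → F)} (hQ : Nd Q)
    (hn : finrank F (ι → F) = 8) (hm : ¬ QuadD67.Plus Q) {W : Submodule F (ι → F)} (hW : NDs Q W)
    (hd : finrank F W = 4) :
    IsMaximalIn (omegaGL ⇑Q) (subspaceStabilizer W ⊓ omegaGL ⇑Q) := by
  have hdim := hQ.finrank_add_finrank_perp W
  apply Om_stab_max_of hQ (by omega)
  · rintro rfl
    rw [finrank_bot] at hd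
    omega
  · rintro rfl
    rw [finrank_top] at hd
    omega
  intro M hM hH hex
  have hMO := hM.trans (Om_le (Q := Q))
  have hgen : GenHyp Q := Or.inr (Or.inl (by omega))
  have hpp := hQ.perp_perp W
  have hd2 : finrank F (perp Q W) = 4 := by omega
  rcases types hQ hm hW (a := 2) (b := 2) (by omega) (by omega) with ⟨hp, hp'⟩ | ⟨hp, hp'⟩
  · -- `W` is of plus type
    rw [plus_res] at hp hp'
    refine LowNd44.nd44 (W := perp Q W) hQ hgen hMO (nds_perp hQ hW) hd2 (by rw [hpp]; exact hd) ?_ ?_ ?_ ?_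
    · intro U hU hUs hUd
      exact hp' ⟨U, hU, hUs, by omega⟩
    · obtain ⟨U, hU, hUs, hUd⟩ := hp
      exact ⟨U, by rw [hpp]; exact hU, hUs, by omega⟩
    · intro g hg hgw
      refine hH g hg ?_
      have := stab_perp (Om_le hg) hgw
      rwa [hpp] at this
    · obtain ⟨g, hg, w, hw, hgw⟩ := hex
      by_contra hcon
      push Not at hcon
      have := stab_perp (hMO hg) (hcon g hg)
      rw [hpp] at this
      exact hgw (this w hw)
  · rw [plus_res] at hp hp'
    refine LowNd44.nd44 hQ hgen hMO hW hd hd2 ?_ ?_ hH hex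
    · intro U hU hUs hUd
      exact hp ⟨U, hU, hUs, by omega⟩
    · obtain ⟨U, hU, hUs, hUd⟩ := hp'
      exact ⟨U, hU, hUs, by omega⟩

/-- nonsingular points in characteristic two -/
theorem Om_point [Finite F] {Q : QuadraticForm F (ι → F)} (hQ : Nd Q)
    (hn : 7 ≤ finrank F (ι → F)) {v : ι → F} (hv : Q v ≠ 0) :
    IsMaximalIn (omegaGL ⇑Q) (subspaceStabilizer (Submodule.span F {v}) ⊓ omegaGL ⇑Q) := by
  have hv0 : v ≠ 0 := by rintro rfl; exact hv (QuadraticMap.map_zero Q)
  refine Om_stab_max_of (Q := Q) hQ (by omega) (by simpa using hv0) ?_ ?_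
  · intro h
    have h1 : Module.finrank F (Submodule.span F {v}) = 1 := finrank_span_singleton hv0
    rw [h, finrank_top] at h1
    omega
  · intro M hM hH ⟨g, hg, w, hw, hgw⟩
    refine OrthPoint.point_max hQ (Or.inr (Or.inl (by omega))) (by omega) (hM.trans Om_le) hv0 ?_ ?_
    · intro x hx hxv
      apply hH x hx
      intro w hw
      obtain ⟨c, rfl⟩ := Submodule.mem_span_singleton.1 hw
      rw [LinearEquiv.map_smul, hxv]
      exact hw
    · refine ⟨g, hg, fun hcon => hgw ?_⟩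
      obtain ⟨c, rfl⟩ := Submodule.mem_span_singleton.1 hw
      rw [LinearEquiv.map_smul]
      exact Submodule.smul_mem _ _ hcon

end Cfsg.Agent.Lib.LowOrBr8
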