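import Mathlib
import Cfsg.Agent.Lib.OrthFrameH94

set_option autoImplicit false
set_option linter.unusedSectionVars false

/-!
Non-maximal decomposition stabilisers in `Om Q`, even characteristic.
-/

namespace Cfsg.Agent.Lib.OrthFrame2H94

open Cfsg Cfsg.Geo Cfsg.Agent.Lib.GeoBridge QuadraticMap Module Cfsg.Agent.Lib.Quad
open Cfsg.Agent.Lib.OrthMax Cfsg.Agent.Lib.OrthNd Cfsg.Agent.Lib.OrthBridge
  Cfsg.Agent.Lib.OrthNdBridge Cfsg.Agent.Lib.OrthNot Cfsg.Agent.Lib.OrthFrameH94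
open scoped MatrixGroups Matrix

variable {ι : Type} [Fintype ι] [DecidableEq ι] {F : Type*} [Field F] {Q : QuadraticForm F (ι → F)}
  {t k : ℕ} {D : Fin t → Submodule F (ι → F)}

theorem ns_perm {c : F} {g : (ι → F) ≃ₗ[F] (ι → F)} (hg : g ∈ O Q)
    (h : ∃ σ : Equiv.Perm (Fin t), ∀ i, (D i).map g.toLinearMap = D (σ i)) :
    ∀ v, v ∈ NS Q D c ↔ g v ∈ NS Q D c := by
  obtain ⟨σ, hσ⟩ := h
  intro v
  constructor
  · rintro ⟨i, hi, hQv⟩
    exact ⟨σ i, by rw [← hσ i]; exact ⟨v, hi, rfl⟩, by rw [hg]; exact hQv⟩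
  · rintro ⟨j, hj, hQv⟩
    obtain ⟨i, rfl⟩ := σ.surjective j
    rw [← hσ i] at hj
    obtain ⟨w, hw, hwv⟩ := hj
    have : w = v := g.injective hwv
    subst this
    exact ⟨i, hw, by rw [← hQv]; exact (hg w).symm⟩

/-- members of an orthogonal decomposition meet trivially -/
theorem eq_of_mem (hD : IsOrthogonalMDecomposition ⇑Q k D) {i j : Fin t} {x : ι → F} (hx0 : x ≠ 0)
    (hi : x ∈ D i) (hj : x ∈ D j) : i = j := by
  by_contra hne
  have h1 : x ∈ D i ⊓ perp Q (D i) :=
    ⟨hi, mem_perp.2 fun w hw => hD.decomp.orthogonal i j hne w hw x hj⟩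
  rw [show D i ⊓ perp Q (D i) = ⊥ from nds_of_nondeg (hD.decomp.nondegenerate i), Submodule.mem_bot] at h1
  exact hx0 h1

/-- hyperbolic bases of the members -/
theorem exists_bases (hQ : Nd Q) (hD : IsOrthogonalMDecomposition ⇑Q 2 D)
    (hpl : ∀ i, IsPlusTypeOn ⇑Q (D i)) : ∃ e f : Fin t → ι → F, (∀ i, e i ∈ D i) ∧ (∀ i, f i ∈ D i) ∧
      (∀ i, Q (e i) = 0) ∧ (∀ i, Q (f i) = 0) ∧ (∀ i, polar Q (e i) (f i) = 1) ∧
      ∀ i, ∀ x ∈ D i, x = polar Q (f i) x • e i + polar Q (e i) x • f i := by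
  have h : ∀ i, ∃ e f : ι → F, e ∈ D i ∧ f ∈ D i ∧ Q e = 0 ∧ Q f = 0 ∧ polar Q e f = 1 ∧
      ∀ x ∈ D i, x = polar Q f x • e + polar Q e x • f := by
    intro i
    obtain ⟨U, hU, hUQ, hUd⟩ := hpl i
    rw [hD.decomp.decomp.finrank_eq] at hUd
    obtain ⟨e, he, he0⟩ := Submodule.exists_mem_ne_zero_of_ne_bot (show U ≠ ⊥ by
      rintro rfl; rw [finrank_bot] at hUd; omega)
    obtain ⟨f, hf, hQf, hef, hexp⟩ := exists_hyp_basis hQ (nds_of_nondeg (hD.decomp.nondegenerate i))
      (hD.decomp.decomp.finrank_eq i) (hU he) he0 (hUQ e he)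
    exact ⟨e, f, hU he, hf, hUQ e he, hQf, hef, hexp⟩
  choose e f h1 h2 h3 h4 h5 h6 using h
  exact ⟨e, f, h1, h2, h3, h4, h5, h6⟩

theorem two_zero_of_card [Fintype F] {r : ℕ} (h : Fintype.card F = 2 * r) : (2 : F) = 0 := by
  have h1 : ((Fintype.card F : ℕ) : F) = 0 := Nat.cast_card_eq_zero F
  rw [h, Nat.cast_mul, Nat.cast_ofNat] at h1
  by_contra h2
  have h3 : (r : F) = 0 := (mul_eq_zero.1 h1).resolve_left h2
  -- characteristic divides r and 2 r = p ^ n
  obtain ⟨p, hp⟩ := CharP.exists F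
  have hpp : p.Prime := (CharP.char_is_prime_or_zero F p).resolve_right (by
    rintro rfl
    haveI := CharP.charP_to_charZero F
    have h5 := (Nat.cast_eq_zero (R := F)).1 h3
    rw [h5] at h
    exact Fintype.card_ne_zero h)
  haveI : Fact p.Prime := ⟨hpp⟩
  obtain ⟨n, -, hn⟩ := FiniteField.card F p
  have h6 : 2 ∣ p ^ (n : ℕ) := by rw [← hn, h]; exact Dvd.intro _ rfl
  have h7 : 2 ∣ p := Nat.prime_two.dvd_of_dvd_pow h6
  have h8 : p = 2 := ((Nat.prime_dvd_prime_iff_eq Nat.prime_two hpp).1 h7).symm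
  subst h8
  exact h2 (by exact_mod_cast (CharP.cast_eq_zero_iff F 2 2).2 (dvd_refl 2))

/-- case `q = 2`, `k = 2`, plus type -/
theorem case_two_two [Fintype F] (hq : Fintype.card F = 2) (hQ : Nd Q) (hn : 5 ≤ finrank F (ι → F))
    (hD : IsOrthogonalMDecomposition ⇑Q 2 D) (ht : 4 ≤ t) (hpl : ∀ i, IsPlusTypeOn ⇑Q (D i)) :
    ∃ K : Subgroup (GL ι F), decompositionStabilizer D ⊓ omegaGL ⇑Q < K ∧ K < omegaGL ⇑Q := by
  have h2 : (2 : F) = 0 := two_zero_of_card (r := 1) (by omega)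
  have hgen : GenHyp Q := Or.inr (Or.inl (by omega))
  have hF : ∀ a : F, a ≠ 0 → a = 1 := by
    intro a ha
    rcases pm_of_card (by omega) a ha with h | h
    · exact h
    · rw [h]; linear_combination (-1 : F) * h2
  obtain ⟨e, f, he, hf, hQe, hQf, hef, hexp⟩ := exists_bases hQ hD hpl
  obtain ⟨v, hv⟩ : ∃ v : Fin t → ι → F, ∀ i, v i = e i + f i := ⟨_, fun _ => rfl⟩
  have hvD : ∀ i, v i ∈ D i := fun i => by rw [hv]; exact (D i).add_mem (he i) (hf i)
  have hQv : ∀ i, Q (v i) = 1 := fun i => by rw [hv, Q_add, hQe, hQf, hef]; simp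
  have hvv : ∀ i j, polar Q (v i) (v j) = 0 := by
    intro i j
    by_cases hij : i = j
    · subst hij; rw [polar_self', h2, zero_mul]
    · exact hD.decomp.orthogonal i j hij _ (hvD i) _ (hvD j)
  have hve : ∀ i, polar Q (v i) (e i) = 1 := by
    intro i
    rw [hv, polar_add_left, polar_self', hQe, mul_zero, zero_add, polar_comm, hef]
  have hve' : ∀ i j, i ≠ j → polar Q (v i) (e j) = 0 := fun i j hij =>
    hD.decomp.orthogonal i j hij _ (hvD i) _ (he j)
  have hN : ∀ x, x ∈ NS Q D 1 ↔ ∃ i, x = v i := by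
    intro x
    constructor
    · rintro ⟨i, hi, hQx⟩
      refine ⟨i, ?_⟩
      have h3 := hexp i x hi
      set a := polar Q (f i) x
      set b := polar Q (e i) x
      rw [h3, Q_add, Q_smul, Q_smul, hQe, hQf, polar_smul_left, polar_smul_right, hef] at hQx
      have h4 : a * b = 1 := by simpa using hQx
      have ha := hF a (left_ne_zero_of_mul_eq_one h4)
      have hb := hF b (right_ne_zero_of_mul_eq_one h4)
      rw [h3, ha, hb, one_smul, one_smul, hv]
    · rintro ⟨i, rfl⟩; exact ⟨i, hvD i, hQv i⟩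
  let i₀ : Fin t := ⟨0, by omega⟩
  let i₁ : Fin t := ⟨1, by omega⟩
  let i₂ : Fin t := ⟨2, by omega⟩
  let i₃ : Fin t := ⟨3, by omega⟩
  have h01 : i₀ ≠ i₁ := by simp [i₀, i₁]
  have h12 : i₁ ≠ i₂ := by simp [i₁, i₂]
  have h13 : i₁ ≠ i₃ := by simp [i₁, i₃]
  have h23 : i₂ ≠ i₃ := by simp [i₂, i₃]
  have hv0 : ∀ i, v i ≠ 0 := by
    intro i h
    have := hQv i
    rw [h, QuadraticMap.map_zero] at this
    exact zero_ne_one this
  refine between_of (Q := Q) (K₀ := Cfsg.stabilizing (Cfsg.glToMat ι F) (NS Q D 1))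
    (P := fun g => ∃ σ : Equiv.Perm (Fin t), ∀ i, (D i).map g.toLinearMap = D (σ i))
    (P₀ := fun g => ∀ v, v ∈ NS Q D 1 ↔ g v ∈ NS Q D 1)
    (mem_decompositionStabilizer_iff D) (fun g => Iff.rfl) (fun x hx hP => ns_perm (Om_le hx) hP) ?_ ?_
  · have hQz : Q (v i₀ + v i₁ + v i₂ + v i₃) = 0 := by
      rw [Q_add, Q_add, Q_add, hQv, hQv, hQv, hQv, polar_add_left, polar_add_left, polar_add_left,
        hvv, hvv, hvv, hvv, hvv, hvv]
      linear_combination (2 : F) * h2
    have hzy : polar Q (v i₀ + v i₁ + v i₂ + v i₃) (v i₀) = 0 := by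
      rw [polar_add_left, polar_add_left, polar_add_left, hvv, hvv, hvv, hvv]; simp
    obtain ⟨g, hg, hgx⟩ := stab_of_sieg hQ hgen hQz hzy
    have hgv : ∀ i, g (v i) = v i := by
      intro i
      rw [hgx, siegMap_apply, polar_add_left, polar_add_left, polar_add_left, hvv, hvv, hvv, hvv]
      simp
    refine ⟨g, hg, ?_, ?_⟩
    · intro x
      rw [hN, hN]
      constructor
      · rintro ⟨i, rfl⟩; exact ⟨i, hgv i⟩
      · rintro ⟨i, hi⟩
        refine ⟨i, ?_⟩
        rw [← hgv i] at hi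
        exact g.injective hi
    · rintro ⟨σ, hσ⟩
      have h3 : v i₁ ∈ D (σ i₁) := by rw [← hσ i₁]; exact ⟨v i₁, hvD _, hgv _⟩
      have h4 : σ i₁ = i₁ := eq_of_mem hD (hv0 _) h3 (hvD i₁)
      have h5 : g (e i₁) ∈ D i₁ := by
        have : g (e i₁) ∈ (D i₁).map g.toLinearMap := ⟨e i₁, he i₁, rfl⟩
        rwa [hσ i₁, h4] at this
      have h6 := hD.decomp.orthogonal i₁ i₂ h12 _ h5 _ (he i₂)
      have h7 : polar Q (v i₀ + v i₁ + v i₂ + v i₃) (e i₁) = 1 := by
        rw [polar_add_left, polar_add_left, polar_add_left, hve, hve' _ _ h01, hve' _ _ h12.symm,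
          hve' _ _ h13.symm]
        simp
      have h8 : polar Q (g (e i₁)) (e i₂) = 1 := by
        rw [hgx, siegMap_apply, h7, hve' _ _ h01, hQv]
        have h02 : i₀ ≠ i₂ := by simp [i₀, i₂]
        have h9 : polar Q (e i₁) (e i₂) = 0 := hD.decomp.orthogonal i₁ i₂ h12 _ (he _) _ (he _)
        simp only [one_smul, zero_smul, sub_zero, mul_one]
        rw [polar_sub_left, polar_add_left, h9, hve' _ _ h02, polar_add_left, polar_add_left,
          polar_add_left, hve' _ _ h02, hve' _ _ h12, hve, hve' _ _ h23.symm]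
        linear_combination (-1 : F) * h2
      rw [h8] at h6
      exact one_ne_zero h6
  · set T := Submodule.span F (NS Q D 1) with hT
    have hT0 : T ≠ ⊥ := by
      intro h
      have h3 : v i₀ ∈ T := Submodule.subset_span ⟨i₀, hvD _, hQv _⟩
      rw [h, Submodule.mem_bot] at h3
      exact hv0 _ h3
    have hT1 : T ≠ ⊤ := by
      intro h
      apply hv0 i₀
      apply hQ.eq_zero
      intro y
      have h3 : y ∈ T := by rw [h]; trivial
      have h4 : v i₀ ∈ perp Q T := by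
        rw [hT, mem_perp_span]
        intro w hw
        obtain ⟨i, rfl⟩ := (hN w).1 hw
        exact hvv _ _
      rw [polar_comm]
      exact mem_perp.1 h4 y h3
    obtain ⟨g, hg, w, hw, hgw⟩ := exists_move hQ hgen (by omega) hT0 hT1
    refine ⟨g, hg, fun hcon => hgw ?_⟩
    have h3 : T ≤ T.comap g.toLinearMap := by
      rw [hT, Submodule.span_le]
      intro x hx
      exact Submodule.subset_span ((hcon x).1 hx)
    exact h3 hw

/-- case `q = 4`, `k = 2`, plus type -/
theorem case_four_two [Fintype F] (hq : Fintype.card F = 4) (hQ : Nd Q) (hn : 5 ≤ finrank F (ι → F))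
    (hD : IsOrthogonalMDecomposition ⇑Q 2 D) (ht : 4 ≤ t) (hpl : ∀ i, IsPlusTypeOn ⇑Q (D i)) :
    ∃ K : Subgroup (GL ι F), decompositionStabilizer D ⊓ omegaGL ⇑Q < K ∧ K < omegaGL ⇑Q := by
  have h2 : (2 : F) = 0 := two_zero_of_card (r := 2) (by omega)
  have hgen : GenHyp Q := Or.inr (Or.inl (by omega))
  have hcube : ∀ a : F, a ≠ 0 → a ^ 3 = 1 := by
    intro a ha
    have := FiniteField.pow_card_sub_one_eq_one a ha
    rwa [hq] at this
  obtain ⟨ω, hω0, hω1, -⟩ := exists_scalar (F := F) (by rw [Nat.card_eq_fintype_card]; omega)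
  have hω : ω * ω = ω + 1 := by
    have h3 := hcube ω hω0
    have h4 : (ω - 1) * (ω * ω + ω + 1) = 0 := by linear_combination h3
    have h5 := (mul_eq_zero.1 h4).resolve_left (sub_ne_zero.2 hω1)
    linear_combination h5 - (ω + 1) * h2
  obtain ⟨e, f, he, hf, hQe, hQf, hef, hexp⟩ := exists_bases hQ hD hpl
  have hfe : ∀ i, polar Q (f i) (e i) = 1 := fun i => by rw [polar_comm]; exact hef i
  have hee : ∀ i, polar Q (e i) (e i) = 0 := fun i => by rw [polar_self', hQe, mul_zero]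
  have hff : ∀ i, polar Q (f i) (f i) = 0 := fun i => by rw [polar_self', hQf, mul_zero]
  obtain ⟨v, hv⟩ : ∃ v : Fin t → ι → F, ∀ i, v i = e i + f i := ⟨_, fun _ => rfl⟩
  obtain ⟨w, hw⟩ : ∃ w : Fin t → ι → F, ∀ i, w i = ω • e i + (ω + 1) • f i := ⟨_, fun _ => rfl⟩
  have hvD : ∀ i, v i ∈ D i := fun i => by rw [hv]; exact (D i).add_mem (he i) (hf i)
  have hwD : ∀ i, w i ∈ D i := fun i => by
    rw [hw]; exact (D i).add_mem ((D i).smul_mem _ (he i)) ((D i).smul_mem _ (hf i))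
  have hQv : ∀ i, Q (v i) = 1 := fun i => by rw [hv, Q_add, hQe, hQf, hef]; simp
  have hQw : ∀ i, Q (w i) = 1 := fun i => by
    rw [hw, Q_add, Q_smul, Q_smul, hQe, hQf, polar_smul_left, polar_smul_right, hef]
    simp only [smul_eq_mul, mul_zero, zero_add, mul_one]
    linear_combination hω + ω * h2
  have hvN : ∀ i, v i ∈ NS Q D 1 := fun i => ⟨i, hvD i, hQv i⟩
  have hwN : ∀ i, w i ∈ NS Q D 1 := fun i => ⟨i, hwD i, hQw i⟩
  have hor : ∀ i j, i ≠ j → ∀ x ∈ D i, ∀ y ∈ D j, polar Q x y = 0 := fun i j hij x hx y hy =>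
    hD.decomp.orthogonal i j hij _ hx _ hy
  have hvv : ∀ i j, polar Q (v i) (v j) = 0 := by
    intro i j
    by_cases hij : i = j
    · subst hij; rw [polar_self', h2, zero_mul]
    · exact hor i j hij _ (hvD i) _ (hvD j)
  have hvw : ∀ i, polar Q (v i) (w i) = 1 := by
    intro i
    rw [hv, hw, polar_add_left, polar_add_right, polar_add_right, polar_smul_right, polar_smul_right,
      polar_smul_right, polar_smul_right, hee, hef, hfe, hff]
    simp only [smul_eq_mul]
    linear_combination ω * h2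
  have hvw' : ∀ i j, i ≠ j → polar Q (v i) (w j) = 0 := fun i j hij =>
    hor i j hij _ (hvD i) _ (hwD j)
  have hv0 : ∀ i, v i ≠ 0 := by
    intro i h
    have := hQv i
    rw [h, QuadraticMap.map_zero] at this
    exact zero_ne_one this
  -- binary scalars
  have badd : ∀ a b : F, (a = 0 ∨ a = 1) → (b = 0 ∨ b = 1) → (a + b = 0 ∨ a + b = 1) := by
    rintro a b (rfl | rfl) (rfl | rfl)
    · left; simp
    · right; simp
    · right; simp
    · left; linear_combination h2
  have bmul : ∀ a b : F, (a = 0 ∨ a = 1) → (b = 0 ∨ b = 1) → (a * b = 0 ∨ a * b = 1) := by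
    rintro a b (rfl | rfl) (rfl | rfl) <;> simp
  have hNN : ∀ x ∈ NS Q D 1, ∀ y ∈ NS Q D 1, polar Q x y = 0 ∨ polar Q x y = 1 := by
    rintro x ⟨i, hi, hQx⟩ y ⟨j, hj, hQy⟩
    by_cases hij : i = j
    · subst hij
      obtain ⟨a, b, rfl⟩ : ∃ a b : F, x = a • e i + b • f i := ⟨_, _, hexp i x hi⟩
      obtain ⟨a', b', rfl⟩ : ∃ a b : F, y = a • e i + b • f i := ⟨_, _, hexp i y hj⟩
      rw [Q_add, Q_smul, Q_smul, hQe, hQf, polar_smul_left, polar_smul_right, hef] at hQx hQy
      have h3 : a * b = 1 := by simpa using hQx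
      have h4 : a' * b' = 1 := by simpa using hQy
      have h5 : polar Q (a • e i + b • f i) (a' • e i + b' • f i) = a * b' + b * a' := by
        rw [polar_add_left, polar_add_right, polar_add_right]
        simp only [polar_smul_left, polar_smul_right, hee, hff, hef, hfe, smul_eq_mul]
        ring
      rw [h5]
      have h6 := hcube (a * b') (mul_ne_zero (left_ne_zero_of_mul_eq_one h3) (right_ne_zero_of_mul_eq_one h4))
      have h7 : b * a' = (a * b') ^ 2 := by
        have h8 : (b * a') * (a * b') = 1 := by linear_combination (a' * b') * h3 + h4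
        have h9 : (b * a') = (b * a') * (a * b') ^ 3 := by rw [h6, mul_one]
        rw [h9]
        linear_combination (a * b') ^ 2 * h8
      have h10 : (a * b' + b * a') * (a * b' + b * a' - 1) = 0 := by
        rw [h7]
        linear_combination (2 + a * b') * h6 + h2
      rcases mul_eq_zero.1 h10 with h | h
      · exact Or.inl h
      · exact Or.inr (by linear_combination h)
    · exact Or.inl (hor i j hij x hi y hj)
  set Λ : Set (ι → F) := {u | ∀ x ∈ NS Q D 1, polar Q u x = 0 ∨ polar Q u x = 1} with hΛ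
  have hNΛ : ∀ x ∈ NS Q D 1, x ∈ Λ := hNN
  let i₀ : Fin t := ⟨0, by omega⟩
  let i₁ : Fin t := ⟨1, by omega⟩
  let i₂ : Fin t := ⟨2, by omega⟩
  have h01 : i₀ ≠ i₁ := by simp [i₀, i₁]
  have h02 : i₀ ≠ i₂ := by simp [i₀, i₂]
  have h12 : i₁ ≠ i₂ := by simp [i₁, i₂]
  have hQz : Q (v i₀ + v i₁) = 0 := by
    rw [Q_add, hQv, hQv, hvv]
    linear_combination h2
  have hzy : polar Q (v i₀ + v i₁) (v i₂) = 0 := by
    rw [polar_add_left, hvv, hvv]; simp
  refine between_of (Q := Q) (K₀ := Cfsg.stabilizing (Cfsg.glToMat ι F) Λ)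
    (P := fun g => ∃ σ : Equiv.Perm (Fin t), ∀ i, (D i).map g.toLinearMap = D (σ i))
    (P₀ := fun g => ∀ v, v ∈ Λ ↔ g v ∈ Λ)
    (mem_decompositionStabilizer_iff D) (fun g => Iff.rfl) ?_ ?_ ?_
  · intro g hg hP u
    have hgO := Om_le hg
    have hns := ns_perm (c := 1) hgO hP
    constructor
    · intro hu x hx
      obtain ⟨x', rfl⟩ := g.surjective x
      rw [O_polar hgO]
      exact hu x' ((hns x').2 hx)
    · intro hu x hx
      have := hu (g x) ((hns x).1 hx)
      rwa [O_polar hgO] at this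
  · obtain ⟨g, hg, hgx⟩ := stab_of_sieg hQ hgen hQz hzy
    have hgΛ : ∀ u ∈ Λ, g u ∈ Λ := by
      intro u hu x hx
      rw [hgx, siegMap_apply, polar_sub_left, polar_sub_left, polar_add_left, polar_smul_left,
        polar_smul_left, polar_smul_left, hQv, one_mul, smul_eq_mul, smul_eq_mul, smul_eq_mul]
      have hb1 := hu x hx
      have hb2 : polar Q (v i₀ + v i₁) u = 0 ∨ polar Q (v i₀ + v i₁) u = 1 := by
        rw [polar_add_left, polar_comm Q (v i₀) u, polar_comm Q (v i₁) u]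
        exact badd _ _ (hu _ (hvN _)) (hu _ (hvN _))
      have hb3 := hNN _ (hvN i₂) x hx
      have hb4 : polar Q (v i₂) u = 0 ∨ polar Q (v i₂) u = 1 := by
        rw [polar_comm]; exact hu _ (hvN _)
      have hb5 : polar Q (v i₀ + v i₁) x = 0 ∨ polar Q (v i₀ + v i₁) x = 1 := by
        rw [polar_add_left]
        exact badd _ _ (hNN _ (hvN _) x hx) (hNN _ (hvN _) x hx)
      have h3 := badd _ _ (badd _ _ (badd _ _ hb1 (bmul _ _ hb2 hb3)) (bmul _ _ hb4 hb5)) (bmul _ _ hb2 hb5)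
      have h4 : polar Q u x + polar Q (v i₀ + v i₁) u * polar Q (v i₂) x -
          polar Q (v i₂) u * polar Q (v i₀ + v i₁) x - polar Q (v i₀ + v i₁) u * polar Q (v i₀ + v i₁) x =
          polar Q u x + polar Q (v i₀ + v i₁) u * polar Q (v i₂) x +
          polar Q (v i₂) u * polar Q (v i₀ + v i₁) x + polar Q (v i₀ + v i₁) u * polar Q (v i₀ + v i₁) x := by
        linear_combination (-(polar Q (v i₂) u * polar Q (v i₀ + v i₁) x) -
          polar Q (v i₀ + v i₁) u * polar Q (v i₀ + v i₁) x) * h2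
      rw [h4]
      exact h3
    have hgg : ∀ u, g (g u) = u := by
      intro u
      have hzz : polar Q (v i₀ + v i₁) (v i₀ + v i₁) = 0 := by rw [polar_self', hQz, mul_zero]
      have hyz : polar Q (v i₂) (v i₀ + v i₁) = 0 := by rw [polar_comm]; exact hzy
      have hyy : polar Q (v i₂) (v i₂) = 0 := hvv _ _
      rw [hgx, hgx]
      simp only [siegMap_apply, polar_add_right Q (v i₀ + v i₁) u, polar_sub_right, polar_smul_right,
        hzz, hzy, hyz, hQv, polar_add_right Q (v i₂) u, hyy, smul_eq_mul, mul_zero, sub_zero, add_zero,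
        one_mul]
      have : ∀ a b : F, ∀ x y z : ι → F, x + a • y - b • z - a • z + a • y - b • z - a • z =
          x + (2 : F) • (a • y - b • z - a • z) := by intros; module
      rw [this, h2, zero_smul, add_zero]
    refine ⟨g, hg, ?_, ?_⟩
    · intro u
      refine ⟨hgΛ u, fun hu => ?_⟩
      have := hgΛ _ hu
      rwa [hgg] at this
    · rintro ⟨σ, hσ⟩
      have hgv : g (v i₀) = v i₀ := by
        rw [hgx, siegMap_apply, polar_add_left, hvv, hvv, hvv]; simp
      have h3 : v i₀ ∈ D (σ i₀) := by rw [← hσ i₀]; exact ⟨v i₀, hvD _, hgv⟩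
      have h4 : σ i₀ = i₀ := eq_of_mem hD (hv0 _) h3 (hvD i₀)
      have h5 : g (w i₀) ∈ D i₀ := by
        have : g (w i₀) ∈ (D i₀).map g.toLinearMap := ⟨w i₀, hwD i₀, rfl⟩
        rwa [hσ i₀, h4] at this
      have h6 := hor i₀ i₂ h02 _ h5 _ (hwD i₂)
      have h7 : polar Q (v i₀ + v i₁) (w i₀) = 1 := by
        rw [polar_add_left, hvw, hvw' _ _ h01.symm]; simp
      rw [hgx, siegMap_apply, h7, hvw' _ _ h02.symm, hQv, one_smul, zero_smul, one_mul, one_smul, sub_zero,
        polar_sub_left, polar_add_left, polar_add_left, hor _ _ h02 _ (hwD _) _ (hwD _), hvw, hvw' _ _ h02,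
        hvw' _ _ h12] at h6
      simp at h6
  · have hQz' : Q (ω • (v i₀ + v i₁)) = 0 := by rw [Q_smul, hQz, mul_zero]
    have hzy' : polar Q (ω • (v i₀ + v i₁)) (v i₂) = 0 := by rw [polar_smul_left, hzy, smul_zero]
    obtain ⟨g, hg, hgx⟩ := stab_of_sieg hQ hgen hQz' hzy'
    refine ⟨g, hg, fun hcon => ?_⟩
    have h3 := (hcon (w i₀)).1 (hNΛ _ (hwN _)) (w i₂) (hwN i₂)
    have h7 : polar Q (v i₀ + v i₁) (w i₀) = 1 := by
      rw [polar_add_left, hvw, hvw' _ _ h01.symm]; simp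
    rw [hgx, siegMap_apply, polar_smul_left, h7, hvw' _ _ h02.symm, hQv, smul_eq_mul, mul_one, zero_smul,
      sub_zero, one_mul, polar_sub_left, polar_add_left, polar_smul_left, polar_smul_left, polar_smul_left,
      polar_add_left, hor _ _ h02 _ (hwD _) _ (hwD _), hvw, hvw' _ _ h02, hvw' _ _ h12] at h3
    simp only [smul_eq_mul, mul_one, zero_add, add_zero, mul_zero, sub_zero] at h3
    rcases h3 with h3 | h3
    · exact hω0 h3
    · exact hω1 h3

theorem finrank_cut_eq (hQ : Nd Q) {A : Submodule F (ι → F)} {e f : ι → F} (he : e ∈ A)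
    (hf : f ∈ A) (hQe : Q e = 0) (hQf : Q f = 0) (hef : polar Q e f = 1) :
    finrank F ↥(A ⊓ perp Q (Submodule.span F {e, f})) + 2 = finrank F A := by
  have hfe : polar Q f e = 1 := by rw [polar_comm]; exact hef
  have hee : polar Q e e = 0 := by rw [polar_self', hQe, mul_zero]
  have hff : polar Q f f = 0 := by rw [polar_self', hQf, mul_zero]
  have hli : LinearIndependent F ![e, f] := by
    rw [LinearIndependent.pair_iff]
    intro s t hst
    have h3 : polar Q e (s • e + t • f) = 0 := by rw [hst, polar_zero_right]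
    have h4 : polar Q f (s • e + t • f) = 0 := by rw [hst, polar_zero_right]
    rw [polar_add_right, polar_smul_right, polar_smul_right, hee, hef] at h3
    rw [polar_add_right, polar_smul_right, polar_smul_right, hfe, hff] at h4
    exact ⟨by simpa using h4, by simpa using h3⟩
  have hS : finrank F (Submodule.span F {e, f}) = 2 := by
    have := finrank_span_eq_card hli
    rw [Matrix.range_cons, Matrix.range_cons, Matrix.range_empty, Set.union_empty,
      Set.singleton_union, Fintype.card_fin] at this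
    exact this
  have h1 := Submodule.finrank_sup_add_finrank_inf_eq (Submodule.span F {e, f})
    (A ⊓ perp Q (Submodule.span F {e, f}))
  have h2 : Submodule.span F {e, f} ⊓ (A ⊓ perp Q (Submodule.span F {e, f})) = ⊥ := by
    rw [eq_bot_iff]
    rintro x ⟨hx, hx'⟩
    obtain ⟨-, h3, h4⟩ := mem_cut.1 hx'
    obtain ⟨s, t, rfl⟩ := Submodule.mem_span_pair.1 hx
    rw [polar_add_right, polar_smul_right, polar_smul_right, hee, hef] at h3
    rw [polar_add_right, polar_smul_right, polar_smul_right, hfe, hff] at h4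
    have hs : s = 0 := by simpa using h4
    have ht : t = 0 := by simpa using h3
    rw [hs, ht]; simp
  have h3 : Submodule.span F {e, f} ⊔ (A ⊓ perp Q (Submodule.span F {e, f})) = A := by
    apply le_antisymm
    · refine sup_le ?_ inf_le_left
      rw [Submodule.span_le]
      rintro x (rfl | rfl)
      · exact he
      · exact hf
    · intro x hx
      have h4 : x - polar Q f x • e - polar Q e x • f ∈ A ⊓ perp Q (Submodule.span F {e, f}) := by
        rw [mem_cut]
        refine ⟨A.sub_mem (A.sub_mem hx (A.smul_mem _ he)) (A.smul_mem _ hf), ?_, ?_⟩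
        · rw [polar_sub_right, polar_sub_right, polar_smul_right, polar_smul_right, hee, hef]; simp
        · rw [polar_sub_right, polar_sub_right, polar_smul_right, polar_smul_right, hfe, hff]; simp
      have h5 : polar Q f x • e + polar Q e x • f ∈ Submodule.span F {e, f} :=
        Submodule.mem_span_pair.2 ⟨_, _, rfl⟩
      have h6 := Submodule.add_mem_sup h5 h4
      have e1 : polar Q f x • e + polar Q e x • f + (x - polar Q f x • e - polar Q e x • f) = x := by
        module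
      rwa [e1] at h6
  rw [h2, h3, hS, finrank_bot] at h1
  omega

/-- the structure of a plus type 4-space over `F₂` -/
theorem plus_four (hQ : Nd Q) (h2 : (2 : F) = 0) (hF : ∀ a : F, a = 0 ∨ a = 1)
    {W : Submodule F (ι → F)} (hW : NDs Q W) (h4 : finrank F W = 4) (hpl : IsPlusTypeOn ⇑Q W) :
    ∃ a a' c : ι → F, a ∈ W ∧ a' ∈ W ∧ c ∈ W ∧ c ≠ 0 ∧ Q a = 1 ∧ Q a' = 1 ∧ polar Q a a' = 1 ∧
      polar Q a c = 0 ∧ polar Q a' c = 0 ∧
      ∀ x ∈ W, Q x = 1 → (polar Q a x = 0 ∧ polar Q a' x = 0) ∨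
        x = polar Q a' x • a + polar Q a x • a' := by
  obtain ⟨U, hU, hUQ, hUd⟩ := hpl
  rw [h4] at hUd
  obtain ⟨e₁, he₁, he₁0⟩ := Submodule.exists_mem_ne_zero_of_ne_bot (show U ≠ ⊥ by
    rintro rfl; rw [finrank_bot] at hUd; omega)
  obtain ⟨u, hu, hue⟩ : ∃ u ∈ U, u ∉ F ∙ e₁ := by
    by_contra hcon
    push Not at hcon
    have := Submodule.finrank_mono (show U ≤ F ∙ e₁ from hcon)
    rw [finrank_span_singleton he₁0] at this
    omega
  obtain ⟨f₁, hf₁, hQf₁, hef₁⟩ := exists_partner hQ hW (hU he₁) he₁0 (hUQ e₁ he₁)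
  have hQe₁ := hUQ e₁ he₁
  have hfe₁ : polar Q f₁ e₁ = 1 := by rw [polar_comm]; exact hef₁
  have hee₁ : polar Q e₁ e₁ = 0 := by rw [polar_self', hQe₁, mul_zero]
  have hff₁ : polar Q f₁ f₁ = 0 := by rw [polar_self', hQf₁, mul_zero]
  set e₂ := u - polar Q f₁ u • e₁ with he₂def
  have he₂U : e₂ ∈ U := U.sub_mem hu (U.smul_mem _ he₁)
  have he₂0 : e₂ ≠ 0 := by
    intro h
    apply hue
    rw [sub_eq_zero.1 h]
    exact Submodule.smul_mem _ _ (Submodule.mem_span_singleton_self _)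
  have hcut := finrank_cut_eq hQ (hU he₁) hf₁ hQe₁ hQf₁ hef₁
  have hcnd := nds_cut hQ hW (hU he₁) hf₁ hQe₁ hQf₁ hef₁
  have he₂c : e₂ ∈ W ⊓ perp Q (Submodule.span F {e₁, f₁}) := by
    rw [mem_cut]
    refine ⟨hU he₂U, polar_of_ts hUQ he₁ he₂U, ?_⟩
    rw [he₂def, polar_sub_right, polar_smul_right, hfe₁]; simp
  obtain ⟨f₂, hf₂, hQf₂, hef₂, hexp₂⟩ := exists_hyp_basis hQ hcnd (by omega) he₂c he₂0 (hUQ e₂ he₂U)
  have hQe₂ := hUQ e₂ he₂U
  obtain ⟨-, he12, hf1e2⟩ := mem_cut.1 he₂c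
  obtain ⟨hf₂W, he1f2, hf12⟩ := mem_cut.1 hf₂
  have hfe₂ : polar Q f₂ e₂ = 1 := by rw [polar_comm]; exact hef₂
  have hee₂ : polar Q e₂ e₂ = 0 := by rw [polar_self', hQe₂, mul_zero]
  have hff₂ : polar Q f₂ f₂ = 0 := by rw [polar_self', hQf₂, mul_zero]
  have he21 : polar Q e₂ e₁ = 0 := by rw [polar_comm]; exact he12
  have he2f1 : polar Q e₂ f₁ = 0 := by rw [polar_comm]; exact hf1e2
  have hf2e1 : polar Q f₂ e₁ = 0 := by rw [polar_comm]; exact he1f2
  have hf21 : polar Q f₂ f₁ = 0 := by rw [polar_comm]; exact hf12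
  clear_value e₂
  have hexp : ∀ x ∈ W, ∃ x₁ y₁ x₂ y₂ : F, x = x₁ • e₁ + y₁ • f₁ + (x₂ • e₂ + y₂ • f₂) := by
    intro x hx
    have h5 : x - polar Q f₁ x • e₁ - polar Q e₁ x • f₁ ∈ W ⊓ perp Q (Submodule.span F {e₁, f₁}) := by
      rw [mem_cut]
      refine ⟨W.sub_mem (W.sub_mem hx (W.smul_mem _ (hU he₁))) (W.smul_mem _ hf₁), ?_, ?_⟩
      · rw [polar_sub_right, polar_sub_right, polar_smul_right, polar_smul_right, hee₁, hef₁]; simp
      · rw [polar_sub_right, polar_sub_right, polar_smul_right, polar_smul_right, hfe₁, hff₁]; simp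
    refine ⟨polar Q f₁ x, polar Q e₁ x, polar Q f₂ (x - polar Q f₁ x • e₁ - polar Q e₁ x • f₁),
      polar Q e₂ (x - polar Q f₁ x • e₁ - polar Q e₁ x • f₁), ?_⟩
    rw [← hexp₂ _ h5]
    module
  refine ⟨e₁ + f₁, e₁ + (e₂ + f₂), e₂ + f₂, W.add_mem (hU he₁) hf₁,
    W.add_mem (hU he₁) (W.add_mem (hU he₂U) hf₂W), W.add_mem (hU he₂U) hf₂W, ?_, ?_, ?_, ?_, ?_, ?_, ?_⟩
  · intro h
    have h5 : Q (e₂ + f₂) = 0 := by rw [h, QuadraticMap.map_zero]
    rw [Q_add, hQe₂, hQf₂, hef₂] at h5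
    simp at h5
  · rw [Q_add, hQe₁, hQf₁, hef₁]; simp
  · rw [Q_add, Q_add, hQe₁, hQe₂, hQf₂, hef₂, polar_add_right, he12, he1f2]; simp
  · rw [polar_add_left, polar_add_right, polar_add_right, polar_add_right, polar_add_right, hee₁, he12, he1f2,
      hfe₁, hf1e2, hf12]
    simp
  · rw [polar_add_left, polar_add_right, polar_add_right, he12, he1f2, hf1e2, hf12]; simp
  · rw [polar_add_left, polar_add_left, polar_add_right, polar_add_right, polar_add_right, he12, he1f2, hee₂,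
      hef₂, hfe₂, hff₂]
    linear_combination h2
  · intro x hx hQx
    obtain ⟨x₁, y₁, x₂, y₂, rfl⟩ := hexp x hx
    have hpa : polar Q (e₁ + f₁) (x₁ • e₁ + y₁ • f₁ + (x₂ • e₂ + y₂ • f₂)) = x₁ + y₁ := by
      simp only [polar_add_left, polar_add_right, polar_smul_right, hee₁, hef₁, hfe₁, hff₁, he12, he1f2,
        hf1e2, hf12, smul_eq_mul]
      ring
    have hpa' : polar Q (e₁ + (e₂ + f₂)) (x₁ • e₁ + y₁ • f₁ + (x₂ • e₂ + y₂ • f₂)) = y₁ + x₂ + y₂ := by
      simp only [polar_add_left, polar_add_right, polar_smul_right, hee₁, hef₁, he12, he1f2,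
        he21, he2f1, hf2e1, hf21, hee₂, hef₂, hfe₂, hff₂, smul_eq_mul]
      ring
    have hQx' : x₁ * y₁ + x₂ * y₂ = 1 := by
      rw [Q_add, Q_add, Q_add, Q_smul, Q_smul, Q_smul, Q_smul, hQe₁, hQf₁, hQe₂, hQf₂] at hQx
      simp only [polar_add_left, polar_add_right, polar_smul_right, polar_smul_left, hef₁, hef₂, he12, he1f2,
        hf1e2, hf12, smul_eq_mul] at hQx
      linear_combination hQx
    rw [hpa, hpa']
    have h11 : (1 : F) + 1 = 0 := by linear_combination h2
    have hcases : (x₁ + y₁ = 0 ∧ y₁ + x₂ + y₂ = 0) ∨ (x₂ = x₁ + y₁ ∧ y₂ = x₁ + y₁) := by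
      rcases hF x₁ with rfl | rfl <;> rcases hF y₁ with rfl | rfl <;> rcases hF x₂ with rfl | rfl <;>
        rcases hF y₂ with rfl | rfl <;>
        first
        | (exfalso; simp [h11, h2] at hQx'; done)
        | (left; constructor <;> simp [h11, h2]; done)
        | (right; constructor <;> simp [h11, h2]; done)
    rcases hcases with h5 | ⟨h5, h6⟩
    · exact Or.inl h5
    · right
      rw [h5, h6]
      have e1 : (y₁ + (x₁ + y₁) + (x₁ + y₁)) • (e₁ + f₁) + (x₁ + y₁) • (e₁ + (e₂ + f₂)) =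
          x₁ • e₁ + y₁ • f₁ + ((x₁ + y₁) • e₂ + (x₁ + y₁) • f₂) +
            (2 : F) • ((y₁ + (x₁ + y₁)) • e₁ + (x₁ + y₁) • f₁) := by module
      rw [e1, h2, zero_smul, add_zero]

/-- case `q = 2`, `k = 4`, plus type -/
theorem case_two_four [Fintype F] (hq : Fintype.card F = 2) (hQ : Nd Q) (hn : 5 ≤ finrank F (ι → F))
    (hD : IsOrthogonalMDecomposition ⇑Q 4 D) (ht : 4 ≤ t) (hpl : ∀ i, IsPlusTypeOn ⇑Q (D i)) :
    ∃ K : Subgroup (GL ι F), decompositionStabilizer D ⊓ omegaGL ⇑Q < K ∧ K < omegaGL ⇑Q := by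
  have h2 : (2 : F) = 0 := two_zero_of_card (r := 1) (by omega)
  have hgen : GenHyp Q := Or.inr (Or.inl (by omega))
  have hF : ∀ a : F, a = 0 ∨ a = 1 := by
    intro a
    by_cases ha : a = 0
    · exact Or.inl ha
    · right
      rcases pm_of_card (by omega) a ha with h | h
      · exact h
      · rw [h]; linear_combination (-1 : F) * h2
  have hex := fun i => plus_four hQ h2 hF (nds_of_nondeg (hD.decomp.nondegenerate i))
    (hD.decomp.decomp.finrank_eq i) (hpl i)
  choose a a' c haD haD' hcD hc0 hQa hQa' haa' hac hac' hN4 using hex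
  have hor : ∀ i j, i ≠ j → ∀ x ∈ D i, ∀ y ∈ D j, polar Q x y = 0 := fun i j hij x hx y hy =>
    hD.decomp.orthogonal i j hij _ hx _ hy
  have haa : ∀ i, polar Q (a i) (a i) = 0 := fun i => by rw [polar_self', h2, zero_mul]
  have haa'' : ∀ i, polar Q (a' i) (a' i) = 0 := fun i => by rw [polar_self', h2, zero_mul]
  have ha'a : ∀ i, polar Q (a' i) (a i) = 1 := fun i => by rw [polar_comm]; exact haa' i
  have ha0 : ∀ i, a i ≠ 0 := by
    intro i h
    have := hQa i
    rw [h, QuadraticMap.map_zero] at this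
    exact zero_ne_one this
  let i₀ : Fin t := ⟨0, by omega⟩
  let i₁ : Fin t := ⟨1, by omega⟩
  let i₂ : Fin t := ⟨2, by omega⟩
  let i₃ : Fin t := ⟨3, by omega⟩
  have h01 : i₀ ≠ i₁ := by simp [i₀, i₁]
  have h02 : i₀ ≠ i₂ := by simp [i₀, i₂]
  have h03 : i₀ ≠ i₃ := by simp [i₀, i₃]
  have h12 : i₁ ≠ i₂ := by simp [i₁, i₂]
  refine between_of (Q := Q) (K₀ := Cfsg.stabilizing (Cfsg.glToMat ι F) (NS Q D 1))
    (P := fun g => ∃ σ : Equiv.Perm (Fin t), ∀ i, (D i).map g.toLinearMap = D (σ i))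
    (P₀ := fun g => ∀ v, v ∈ NS Q D 1 ↔ g v ∈ NS Q D 1)
    (mem_decompositionStabilizer_iff D) (fun g => Iff.rfl) (fun x hx hP => ns_perm (Om_le hx) hP) ?_ ?_
  · have hQz : Q (a i₀ + a i₁) = 0 := by
      rw [Q_add, hQa, hQa, hor _ _ h01 _ (haD _) _ (haD _)]
      linear_combination h2
    have hQy : Q (a' i₀ + a' i₁) = 0 := by
      rw [Q_add, hQa', hQa', hor _ _ h01 _ (haD' _) _ (haD' _)]
      linear_combination h2
    have hzy : polar Q (a i₀ + a i₁) (a' i₀ + a' i₁) = 0 := by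
      rw [polar_add_left, polar_add_right, polar_add_right, haa', haa', hor _ _ h01 _ (haD _) _ (haD' _),
        hor _ _ h01.symm _ (haD _) _ (haD' _)]
      linear_combination h2
    obtain ⟨g, hg, hgx'⟩ := stab_of_sieg hQ hgen hQz hzy
    have hgx : ∀ x, g x = x + polar Q (a i₀ + a i₁) x • (a' i₀ + a' i₁) +
        polar Q (a' i₀ + a' i₁) x • (a i₀ + a i₁) := by
      intro x
      rw [hgx', siegMap_apply, hQy, zero_mul, zero_smul, sub_zero]
      have e1 : x + polar Q (a i₀ + a i₁) x • (a' i₀ + a' i₁) - polar Q (a' i₀ + a' i₁) x • (a i₀ + a i₁) =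
          x + polar Q (a i₀ + a i₁) x • (a' i₀ + a' i₁) + polar Q (a' i₀ + a' i₁) x • (a i₀ + a i₁) -
            (2 : F) • (polar Q (a' i₀ + a' i₁) x • (a i₀ + a i₁)) := by module
      rw [e1, h2, zero_smul, sub_zero]
    have hstep : ∀ i j, i ≠ j → ∀ x ∈ D i, Q x = 1 →
        x + polar Q (a i + a j) x • (a' i + a' j) + polar Q (a' i + a' j) x • (a i + a j) ∈ NS Q D 1 := by
      intro i j hij x hx hQx
      rw [polar_add_left, polar_add_left, hor _ _ hij.symm _ (haD j) _ hx, hor _ _ hij.symm _ (haD' j) _ hx,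
        add_zero, add_zero]
      rcases hN4 i x hx hQx with ⟨h3, h4⟩ | h3
      · rw [h3, h4, zero_smul, zero_smul, add_zero, add_zero]
        exact ⟨i, hx, hQx⟩
      · set p := polar Q (a' i) x
        set q := polar Q (a i) x
        refine ⟨j, ?_, ?_⟩
        · rw [h3]
          have e1 : p • a i + q • a' i + q • (a' i + a' j) + p • (a i + a j) =
            p • a j + q • a' j + (2 : F) • (p • a i + q • a' i) := by module
          rw [e1, h2, zero_smul, add_zero]
          exact (D j).add_mem ((D j).smul_mem _ (haD j)) ((D j).smul_mem _ (haD' j))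
        · rw [h3] at hQx ⊢
          have e1 : p • a i + q • a' i + q • (a' i + a' j) + p • (a i + a j) =
            p • a j + q • a' j + (2 : F) • (p • a i + q • a' i) := by module
          rw [e1, h2, zero_smul, add_zero]
          rw [Q_add, Q_smul, Q_smul, polar_smul_left, polar_smul_right, hQa, hQa', haa'] at hQx ⊢
          exact hQx
    have hgN : ∀ x ∈ NS Q D 1, g x ∈ NS Q D 1 := by
      rintro x ⟨i, hi, hQx⟩
      rw [hgx]
      by_cases hi0 : i = i₀
      · subst hi0; exact hstep i₀ i₁ h01 x hi hQx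
      · by_cases hi1 : i = i₁
        · subst hi1
          have := hstep i₁ i₀ h01.symm x hi hQx
          rwa [add_comm (a i₁), add_comm (a' i₁)] at this
        · rw [polar_add_left, polar_add_left, hor _ _ (Ne.symm hi0) _ (haD _) _ hi,
            hor _ _ (Ne.symm hi1) _ (haD _) _ hi, hor _ _ (Ne.symm hi0) _ (haD' _) _ hi,
            hor _ _ (Ne.symm hi1) _ (haD' _) _ hi, add_zero, zero_smul, zero_smul, add_zero, add_zero]
          exact ⟨i, hi, hQx⟩
    have hgg : ∀ x, g (g x) = x := by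
      intro x
      have hzz : polar Q (a i₀ + a i₁) (a i₀ + a i₁) = 0 := by rw [polar_self', hQz, mul_zero]
      have hyy : polar Q (a' i₀ + a' i₁) (a' i₀ + a' i₁) = 0 := by rw [polar_self', hQy, mul_zero]
      have hyz : polar Q (a' i₀ + a' i₁) (a i₀ + a i₁) = 0 := by rw [polar_comm]; exact hzy
      have h3 : polar Q (a i₀ + a i₁) (g x) = polar Q (a i₀ + a i₁) x := by
        rw [hgx, polar_add_right _ _ (x + _), polar_add_right _ _ x, polar_smul_right, polar_smul_right,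
          hzz, hzy]; simp
      have h4 : polar Q (a' i₀ + a' i₁) (g x) = polar Q (a' i₀ + a' i₁) x := by
        rw [hgx, polar_add_right _ _ (x + _), polar_add_right _ _ x, polar_smul_right, polar_smul_right,
          hyy, hyz]; simp
      rw [hgx (g x), h3, h4, hgx x]
      have e1 : x + polar Q (a i₀ + a i₁) x • (a' i₀ + a' i₁) + polar Q (a' i₀ + a' i₁) x • (a i₀ + a i₁) +
          polar Q (a i₀ + a i₁) x • (a' i₀ + a' i₁) + polar Q (a' i₀ + a' i₁) x • (a i₀ + a i₁) = x +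
          (2 : F) • (polar Q (a i₀ + a i₁) x • (a' i₀ + a' i₁) + polar Q (a' i₀ + a' i₁) x • (a i₀ + a i₁)) := by
        module
      rw [e1, h2, zero_smul, add_zero]
    refine ⟨g, hg, ?_, ?_⟩
    · intro x
      refine ⟨hgN x, fun h => ?_⟩
      have := hgN _ h
      rwa [hgg] at this
    · rintro ⟨σ, hσ⟩
      have h3 : g (a i₀) = a i₁ := by
        rw [hgx, polar_add_left, polar_add_left, haa, ha'a, hor _ _ h01.symm _ (haD _) _ (haD _),
          hor _ _ h01.symm _ (haD' _) _ (haD _)]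
        have e1 : a i₀ + ((0 : F) + 0) • (a' i₀ + a' i₁) + ((1 : F) + 0) • (a i₀ + a i₁) =
            a i₁ + (2 : F) • a i₀ := by module
        rw [e1, h2, zero_smul, add_zero]
      have h4 : g (c i₀) = c i₀ := by
        rw [hgx, polar_add_left, polar_add_left, hac, hac', hor _ _ h01.symm _ (haD _) _ (hcD _),
          hor _ _ h01.symm _ (haD' _) _ (hcD _)]
        simp
      have h5 : a i₁ ∈ D (σ i₀) := by rw [← hσ i₀]; exact ⟨a i₀, haD _, h3⟩
      have h6 : σ i₀ = i₁ := eq_of_mem hD (ha0 _) h5 (haD i₁)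
      have h7 : c i₀ ∈ D (σ i₀) := by rw [← hσ i₀]; exact ⟨c i₀, hcD _, h4⟩
      rw [h6] at h7
      exact h01 (eq_of_mem hD (hc0 _) (hcD i₀) h7)
  · obtain ⟨u, hu⟩ : ∃ u, u = a' i₀ + a i₁ + a i₂ := ⟨_, rfl⟩
    have hQu : Q u = 1 := by
      rw [hu, Q_add, Q_add, hQa', hQa, hQa, polar_add_left, hor _ _ h01 _ (haD' _) _ (haD _),
        hor _ _ h02 _ (haD' _) _ (haD _), hor _ _ h12 _ (haD _) _ (haD _)]
      linear_combination h2
    refine ⟨Quad.refl Q u * Quad.refl Q (a i₃), ?_, fun hcon => ?_⟩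
    · rw [hQ.Om_eq_Sg hgen (by omega)]
      exact refl_mul_refl_mem_Sg' hQ (by omega) (by rw [hQu]; exact one_ne_zero) (by rw [hQu, hQa])
    · have h3 := (hcon (a i₀)).1 ⟨i₀, haD _, hQa _⟩
      have hua : polar Q u (a i₀) = 1 := by
        rw [hu, polar_add_left, polar_add_left, ha'a, hor _ _ h01.symm _ (haD _) _ (haD _),
          hor _ _ h02.symm _ (haD _) _ (haD _)]
        simp
      rw [LinearEquiv.mul_apply, refl_of_perp (show polar Q (a i₃) (a i₀) = 0 from
        hor _ _ h03.symm _ (haD _) _ (haD _)), refl_apply (by rw [hQu]; exact one_ne_zero), hQu, hua] at h3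
      obtain ⟨j, hj, -⟩ := h3
      have h4 : polar Q (a i₀ - ((1 : F)⁻¹ * 1) • u) (a' i₁) ≠ 0 := by
        rw [polar_sub_left, polar_smul_left, hu, polar_add_left, polar_add_left,
          hor _ _ h01 _ (haD _) _ (haD' _), hor _ _ h01 _ (haD' _) _ (haD' _), haa',
          hor _ _ h12.symm _ (haD _) _ (haD' _)]
        simp
      have h5 : polar Q (a i₀ - ((1 : F)⁻¹ * 1) • u) (a' i₂) ≠ 0 := by
        rw [polar_sub_left, polar_smul_left, hu, polar_add_left, polar_add_left,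
          hor _ _ h02 _ (haD _) _ (haD' _), hor _ _ h02 _ (haD' _) _ (haD' _), haa',
          hor _ _ h12 _ (haD _) _ (haD' _)]
        simp
      have h6 : j = i₁ := by
        by_contra hne
        exact h4 (hor j i₁ hne _ hj _ (haD' _))
      have h7 : j = i₂ := by
        by_contra hne
        exact h5 (hor j i₂ hne _ hj _ (haD' _))
      exact h12 (h6.symm.trans h7)

end Cfsg.Agent.Lib.OrthFrame2H94
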