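import Mathlib
import Cfsg.Agent.Lib.LowOr

set_option autoImplicit false
set_option linter.unusedSectionVars false
set_option linter.unusedSimpArgs false

/-!
# Ternary forms in `2 × 2` matrices (helper14)

`ph` maps `F³` with the form `t₀² + t₁² + ν t₂²` onto the trace zero matrices; conjugation by `ph t` is
minus the reflection in `t`.
-/

namespace Cfsg.Agent.Lib.Rf

open Matrix
open scoped MatrixGroups

variable {F : Type*} [Field F]

def ph (ν x y : F) (t : Fin 3 → F) : Matrix (Fin 2) (Fin 2) F :=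
  !![t 1 * x - t 2 * (ν * y), -(t 0 * ν) + t 1 * (ν * y) + t 2 * (ν * x);
     t 0 + t 1 * y + t 2 * x, -(t 1 * x) + t 2 * (ν * y)]

def bt (ν : F) (t s : Fin 3 → F) : F := t 0 * s 0 + t 1 * s 1 + ν * (t 2 * s 2)

theorem bt_comm (ν : F) (t s : Fin 3 → F) : bt ν t s = bt ν s t := by unfold bt; ring

section
variable {ν x y : F} (h : x ^ 2 + ν * y ^ 2 = -ν)
include h

theorem ph_anti (t s : Fin 3 → F) :
    ph ν x y t * ph ν x y s + ph ν x y s * ph ν x y t =
      (-(2 * ν) * bt ν t s) • (1 : Matrix (Fin 2) (Fin 2) F) := by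
  ext i j
  fin_cases i <;> fin_cases j <;>
    simp [ph, bt, Matrix.mul_apply, Fin.sum_univ_two]
  · linear_combination (2 * t 1 * s 1 + 2 * ν * t 2 * s 2) * h
  · ring
  · ring
  · linear_combination (2 * t 1 * s 1 + 2 * ν * t 2 * s 2) * h

theorem ph_sq (t : Fin 3 → F) :
    ph ν x y t * ph ν x y t = (-(ν * bt ν t t)) • (1 : Matrix (Fin 2) (Fin 2) F) := by
  ext i j
  fin_cases i <;> fin_cases j <;>
    simp [ph, bt, Matrix.mul_apply, Fin.sum_univ_two]
  · linear_combination (t 1 * t 1 + ν * t 2 * t 2) * h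
  · ring
  · ring
  · linear_combination (t 1 * t 1 + ν * t 2 * t 2) * h

theorem ph_det (t : Fin 3 → F) : (ph ν x y t).det = ν * bt ν t t := by
  rw [ph, Matrix.det_fin_two_of, bt]
  linear_combination (-(t 1 * t 1 + ν * t 2 * t 2)) * h

theorem ph_inj (hν : ν ≠ 0) (h2 : (2 : F) ≠ 0) {t s : Fin 3 → F} (hts : ph ν x y t = ph ν x y s) : t = s := by
  have e0 := congrFun (congrFun hts 0) 0
  have e1 := congrFun (congrFun hts 0) 1
  have e2 := congrFun (congrFun hts 1) 0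
  simp [ph] at e0 e1 e2
  have k0 : t 0 = s 0 := by
    have : (2 * ν) * (t 0 - s 0) = 0 := by linear_combination ν * e2 - e1
    exact sub_eq_zero.1 ((mul_eq_zero.1 this).resolve_left (mul_ne_zero h2 hν))
  have k1 : t 1 = s 1 := by
    have : ν * (t 1 - s 1) = 0 := by
      linear_combination (-(ν * y)) * (e2 - k0) - x * e0 + (t 1 - s 1) * h
    exact sub_eq_zero.1 ((mul_eq_zero.1 this).resolve_left hν)
  have k2 : t 2 = s 2 := by
    have : ν * (t 2 - s 2) = 0 := by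
      linear_combination (-x) * (e2 - k0) + y * e0 + (t 2 - s 2) * h
    exact sub_eq_zero.1 ((mul_eq_zero.1 this).resolve_left hν)
  funext i
  fin_cases i
  · exact k0
  · exact k1
  · exact k2

theorem ph_surj (hν : ν ≠ 0) (h2 : (2 : F) ≠ 0) (Z : Matrix (Fin 2) (Fin 2) F) (hZ : Z 0 0 + Z 1 1 = 0) :
    ∃ t, ph ν x y t = Z := by
  obtain ⟨a, ha⟩ : ∃ a, a = (ν * Z 1 0 - Z 0 1) / (2 * ν) := ⟨_, rfl⟩
  have ha' : a * (2 * ν) = ν * Z 1 0 - Z 0 1 := by rw [ha, div_mul_cancel₀ _ (mul_ne_zero h2 hν)]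
  obtain ⟨u, hu⟩ : ∃ u, u = Z 1 0 - a := ⟨_, rfl⟩
  obtain ⟨b, hb⟩ : ∃ b, b = (-(ν * y * u) - x * Z 0 0) / ν := ⟨_, rfl⟩
  have hb' : b * ν = -(ν * y * u) - x * Z 0 0 := by rw [hb, div_mul_cancel₀ _ hν]
  obtain ⟨c, hc⟩ : ∃ c, c = (-(x * u) + y * Z 0 0) / ν := ⟨_, rfl⟩
  have hc' : c * ν = -(x * u) + y * Z 0 0 := by rw [hc, div_mul_cancel₀ _ hν]
  have k1 : b * x - c * (ν * y) = Z 0 0 := by
    apply mul_left_cancel₀ hν
    linear_combination x * hb' - (ν * y) * hc' - Z 0 0 * h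
  have k2 : b * y + c * x = u := by
    apply mul_left_cancel₀ hν
    linear_combination y * hb' + x * hc' - u * h
  refine ⟨![a, b, c], ?_⟩
  ext i j
  fin_cases i <;> fin_cases j <;> simp [ph]
  · exact k1
  · linear_combination ν * k2 + ν * hu - ha'
  · linear_combination k2 + hu
  · linear_combination -k1 - hZ

end

/-- powers of a quadratic matrix -/
theorem pow_sc {T : Matrix (Fin 2) (Fin 2) F} {m d : F} (hT : T * T = (-(2 * m)) • T - d • 1)
    (hns : ¬ ∃ l : F, T = l • 1) :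
    ((∃ l : F, T ^ 2 = l • 1) → (2 : F) ≠ 0 → m = 0) ∧
    ((∃ l : F, T ^ 3 = l • 1) → 4 * m ^ 2 = d) ∧
    ((∃ l : F, T ^ 4 = l • 1) → (2 : F) ≠ 0 → m = 0 ∨ 2 * m ^ 2 = d) ∧
    ((∃ l : F, T ^ 5 = l • 1) → 16 * m ^ 4 - 12 * m ^ 2 * d + d ^ 2 = 0) := by
  have key : ∀ u v l : F, u • T + v • (1 : Matrix (Fin 2) (Fin 2) F) = l • 1 → u = 0 := by
    intro u v l huv
    by_contra hu
    apply hns
    refine ⟨u⁻¹ * (l - v), ?_⟩
    have h1 : u • T = (l - v) • (1 : Matrix (Fin 2) (Fin 2) F) := by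
      rw [sub_smul, ← huv]; abel
    rw [mul_smul, ← h1, smul_smul, inv_mul_cancel₀ hu, one_smul]
  have p2 : T ^ 2 = (-(2 * m)) • T + (-d) • 1 := by rw [sq, hT]; module
  have p3 : T ^ 3 = (4 * m ^ 2 - d) • T + (2 * m * d) • 1 := by
    rw [pow_succ, p2, add_mul, smul_mul_assoc, hT, smul_mul_assoc, one_mul]; module
  have p4 : T ^ 4 = (-(8 * m ^ 3) + 4 * m * d) • T + (-(4 * m ^ 2 - d) * d) • 1 := by
    rw [pow_succ, p3, add_mul, smul_mul_assoc, hT, smul_mul_assoc, one_mul]; module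
  have p5 : T ^ 5 = (16 * m ^ 4 - 12 * m ^ 2 * d + d ^ 2) • T + (-(-(8 * m ^ 3) + 4 * m * d) * d) • 1 := by
    rw [pow_succ, p4, add_mul, smul_mul_assoc, hT, smul_mul_assoc, one_mul]; module
  refine ⟨?_, ?_, ?_, ?_⟩
  · rintro ⟨l, hl⟩ h2
    rw [p2] at hl
    have := key _ _ _ hl
    exact (mul_eq_zero.1 (neg_eq_zero.1 this)).resolve_left h2
  · rintro ⟨l, hl⟩
    rw [p3] at hl
    exact sub_eq_zero.1 (key _ _ _ hl)
  · rintro ⟨l, hl⟩ h2
    rw [p4] at hl
    have h4 := key _ _ _ hl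
    have : (2 * 2 * m) * (2 * m ^ 2 - d) = 0 := by linear_combination -h4
    rcases mul_eq_zero.1 this with h5 | h5
    · left; exact (mul_eq_zero.1 h5).resolve_left (mul_ne_zero h2 h2)
    · right; exact sub_eq_zero.1 h5
  · rintro ⟨l, hl⟩
    rw [p5] at hl
    exact key _ _ _ hl

section
variable {ν x y : F} (h : x ^ 2 + ν * y ^ 2 = -ν)
include h

/-- the product of two trace zero matrices -/
theorem ph_mul_sq (t s : Fin 3 → F) :
    (ph ν x y t * ph ν x y s) * (ph ν x y t * ph ν x y s) =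
      (-(2 * (ν * bt ν t s))) • (ph ν x y t * ph ν x y s) - (ν * bt ν t t * (ν * bt ν s s)) • 1 := by
  have h1 := ph_anti h t s
  have h2 : ph ν x y s * ph ν x y t = (-(2 * ν) * bt ν t s) • (1 : Matrix (Fin 2) (Fin 2) F) -
      ph ν x y t * ph ν x y s := by rw [← h1]; abel
  calc _ = ph ν x y t * (ph ν x y s * ph ν x y t) * ph ν x y s := by simp only [mul_assoc]
    _ = (-(2 * ν) * bt ν t s) • (ph ν x y t * ph ν x y s) -
        (ph ν x y t * ph ν x y t) * (ph ν x y s * ph ν x y s) := by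
      rw [h2, mul_sub, mul_smul_comm, mul_one, sub_mul, smul_mul_assoc]
      simp only [mul_assoc]
    _ = _ := by
      rw [ph_sq h, ph_sq h, smul_mul_smul_comm, one_mul]
      congr 1
      · congr 1; ring
      · congr 1; ring

theorem mul_not_sc (hν : ν ≠ 0) (h2 : (2 : F) ≠ 0) {t s : Fin 3 → F} (ht : bt ν t t ≠ 0)
    (hns : ¬ ∃ l : F, s = l • t) : ¬ ∃ l : F, ph ν x y t * ph ν x y s = l • 1 := by
  rintro ⟨l, hl⟩
  apply hns
  refine ⟨(-(ν * bt ν t t))⁻¹ * l, ?_⟩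
  apply ph_inj h hν h2
  have h3 : ph ν x y t * (ph ν x y t * ph ν x y s) = l • ph ν x y t := by rw [hl, mul_smul_comm, mul_one]
  rw [← mul_assoc, ph_sq h, smul_mul_assoc, one_mul] at h3
  have h4 : ph ν x y (((-(ν * bt ν t t))⁻¹ * l) • t) = ((-(ν * bt ν t t))⁻¹ * l) • ph ν x y t := by
    ext i j
    fin_cases i <;> fin_cases j <;> simp [ph] <;> ring
  rw [h4, mul_smul, ← h3, smul_smul, inv_mul_cancel₀ (neg_ne_zero.2 (mul_ne_zero hν ht)), one_smul]

omit h in
/-- conjugacy of trace zero matrices under `SL_2` -/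
theorem conj_comp [Finite F] (h2 : (2 : F) ≠ 0) {δ : F} (hδ : δ ≠ 0) (Y : Matrix (Fin 2) (Fin 2) F)
    (hYY : Y * Y = (-δ) • 1) (htr : Y 0 0 + Y 1 1 = 0) :
    ∃ g : Matrix (Fin 2) (Fin 2) F, g.det = 1 ∧ g * !![0, -δ; 1, 0] = Y * g := by
  have e00 := congrFun (congrFun hYY 0) 0
  have e01 := congrFun (congrFun hYY 0) 1
  have e10 := congrFun (congrFun hYY 1) 0
  have e11 := congrFun (congrFun hYY 1) 1
  simp [Matrix.mul_apply, Fin.sum_univ_two] at e00 e01 e10 e11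
  -- a cyclic vector
  obtain ⟨g₀, hg₀, hdet⟩ : ∃ g₀ : Matrix (Fin 2) (Fin 2) F, g₀ * !![0, -δ; 1, 0] = Y * g₀ ∧ g₀.det ≠ 0 := by
    have key : ∀ w : Fin 2 → F, (!![w 0, Y 0 0 * w 0 + Y 0 1 * w 1; w 1, Y 1 0 * w 0 + Y 1 1 * w 1] :
        Matrix (Fin 2) (Fin 2) F) * !![0, -δ; 1, 0] =
        Y * !![w 0, Y 0 0 * w 0 + Y 0 1 * w 1; w 1, Y 1 0 * w 0 + Y 1 1 * w 1] := by
      intro w
      ext i j
      fin_cases i <;> fin_cases j <;> simp [Matrix.mul_apply, Fin.sum_univ_two]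
      · linear_combination (-(w 0)) * e00 - w 1 * e01
      · linear_combination (-(w 0)) * e10 - w 1 * e11
    by_cases h10 : Y 1 0 = 0
    · by_cases h01 : Y 0 1 = 0
      · refine ⟨_, key ![1, 1], ?_⟩
        rw [Matrix.det_fin_two_of]
        simp only [Matrix.cons_val_zero, Matrix.cons_val_one, h10, h01]
        intro h0
        have h3 : 2 * Y 0 0 = 0 := by linear_combination -h0 + htr
        have h4 := (mul_eq_zero.1 h3).resolve_left h2
        rw [h4, h01] at e00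
        simp at e00
        exact hδ e00
      · refine ⟨_, key ![0, 1], ?_⟩
        rw [Matrix.det_fin_two_of]
        simp only [Matrix.cons_val_zero, Matrix.cons_val_one]
        intro h0
        exact h01 (by linear_combination -h0)
    · refine ⟨_, key ![1, 0], ?_⟩
      rw [Matrix.det_fin_two_of]
      simp only [Matrix.cons_val_zero, Matrix.cons_val_one]
      intro h0
      exact h10 (by linear_combination h0)
  obtain ⟨r, s, hrs⟩ := Cfsg.Agent.Lib.LowOr.exists_two_form h2 (one_ne_zero) hδ (g₀.det)⁻¹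
  have hd1 : (g₀ * !![r, -(s * δ); s, r]).det = 1 := by
    rw [Matrix.det_mul, Matrix.det_fin_two_of]
    have : r * r - -(s * δ) * s = g₀.det⁻¹ := by rw [← hrs]; ring
    rw [this, mul_inv_cancel₀ hdet]
  refine ⟨g₀ * !![r, -(s * δ); s, r], hd1, ?_⟩
  have hc : (!![r, -(s * δ); s, r] : Matrix (Fin 2) (Fin 2) F) * !![0, -δ; 1, 0] = !![0, -δ; 1, 0] * !![r, -(s * δ); s, r] := by
    ext i j
    fin_cases i <;> fin_cases j <;> simp [Matrix.mul_apply, Fin.sum_univ_two] <;> ring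
  rw [mul_assoc, hc, ← mul_assoc, hg₀, mul_assoc]

theorem ph_tr (t : Fin 3 → F) : (ph ν x y t) 0 0 + (ph ν x y t) 1 1 = 0 := by simp [ph]

/-- conjugacy of matrices of the same norm under `SL_2` -/
theorem exists_conj [Finite F] (hν : ν ≠ 0) (h2 : (2 : F) ≠ 0) {t s : Fin 3 → F} (ht : bt ν t t = bt ν s s)
    (h0 : bt ν s s ≠ 0) :
    ∃ g : GL (Fin 2) F, (g : Matrix (Fin 2) (Fin 2) F).det = 1 ∧
      ph ν x y s * (g : Matrix (Fin 2) (Fin 2) F) = (g : Matrix (Fin 2) (Fin 2) F) * ph ν x y t := by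
  obtain ⟨g, hg1, hg⟩ := conj_comp h2 (mul_ne_zero hν h0) (ph ν x y t) (by rw [ph_sq h, ht]) (ph_tr h t)
  obtain ⟨k, hk1, hk⟩ := conj_comp h2 (mul_ne_zero hν h0) (ph ν x y s) (by rw [ph_sq h]) (ph_tr h s)
  refine ⟨(Matrix.GeneralLinearGroup.mkOfDetNeZero k (by rw [hk1]; exact one_ne_zero)) *
    (Matrix.GeneralLinearGroup.mkOfDetNeZero g (by rw [hg1]; exact one_ne_zero))⁻¹, ?_, ?_⟩
  · have h1 : (Matrix.GeneralLinearGroup.mkOfDetNeZero g (by rw [hg1]; exact one_ne_zero) : GL (Fin 2) F)⁻¹.val.det * g.det = 1 := by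
      rw [← Matrix.det_mul]
      have : ((Matrix.GeneralLinearGroup.mkOfDetNeZero g (by rw [hg1]; exact one_ne_zero) : GL (Fin 2) F)⁻¹.val * g) = 1 :=
        Units.inv_mul _
      rw [this, Matrix.det_one]
    rw [Units.val_mul, Matrix.det_mul]
    have h3 : (Matrix.GeneralLinearGroup.mkOfDetNeZero k (by rw [hk1]; exact one_ne_zero) : GL (Fin 2) F).val = k := rfl
    rw [h3, hk1, one_mul]
    have h5 := h1
    simp only [hg1, mul_one] at h5
    exact h5
  · obtain ⟨G, hG⟩ : ∃ G : GL (Fin 2) F, G = Matrix.GeneralLinearGroup.mkOfDetNeZero g (by rw [hg1]; exact one_ne_zero) := ⟨_, rfl⟩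
    have hGv : (G : Matrix (Fin 2) (Fin 2) F) = g := by rw [hG]; rfl
    rw [← hG, Units.val_mul]
    change ph ν x y s * (k * (G⁻¹ : GL (Fin 2) F).val) = (k * (G⁻¹ : GL (Fin 2) F).val) * ph ν x y t
    have h4 : (G⁻¹ : GL (Fin 2) F).val * ph ν x y t = !![0, -(ν * bt ν s s); 1, 0] * (G⁻¹ : GL (Fin 2) F).val := by
      have h5 : (G⁻¹ : GL (Fin 2) F).val * (G.val * !![0, -(ν * bt ν s s); 1, 0]) * (G⁻¹ : GL (Fin 2) F).val =
          (G⁻¹ : GL (Fin 2) F).val * (ph ν x y t * G.val) * (G⁻¹ : GL (Fin 2) F).val := by rw [hGv, hg]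
      rw [← mul_assoc, Units.inv_mul, one_mul] at h5
      rw [h5, mul_assoc, mul_assoc, Units.mul_inv, mul_one]
    rw [mul_assoc, h4, ← mul_assoc, ← mul_assoc, hk]

theorem ph_mul_01 : ph ν x y ![1, 0, 0] * ph ν x y ![0, 1, 0] = ph ν x y ![0, 0, 1] := by
  ext i j
  fin_cases i <;> fin_cases j <;> simp [ph, Matrix.mul_apply, Fin.sum_univ_two]

theorem ph_smul (c : F) (t : Fin 3 → F) : ph ν x y (c • t) = c • ph ν x y t := by
  ext i j
  fin_cases i <;> fin_cases j <;> simp [ph] <;> ring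

theorem ph_add (t s : Fin 3 → F) : ph ν x y (t + s) = ph ν x y t + ph ν x y s := by
  ext i j
  fin_cases i <;> fin_cases j <;> simp [ph] <;> ring

/-- conjugation by a matrix is minus the reflection -/
theorem ph_refl {r t : Fin 3 → F} (hr : bt ν r r = 1) :
    ph ν x y ((2 * bt ν r t) • r + (-1 : F) • t) * ph ν x y r = ph ν x y r * ph ν x y t := by
  rw [ph_add h, ph_smul h, ph_smul h, add_mul, smul_mul_assoc, ph_sq h, hr, smul_mul_assoc, neg_one_smul]
  have h1 := ph_anti h r t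
  have h3 : ph ν x y r * ph ν x y t = (-(2 * ν) * bt ν r t) • (1 : Matrix (Fin 2) (Fin 2) F) - ph ν x y t * ph ν x y r := by
    rw [← h1]; abel
  rw [h3, smul_smul]
  rw [show 2 * bt ν r t * -(ν * 1) = -(2 * ν) * bt ν r t by ring]
  abel

/-- conjugation by the difference of the first two unit vectors -/
theorem ph_swap (t : Fin 3 → F) :
    ph ν x y ![-(t 1), -(t 0), -(t 2)] * ph ν x y ![1, -1, 0] = ph ν x y ![1, -1, 0] * ph ν x y t := by
  ext i j
  fin_cases i <;> fin_cases j <;> simp [ph, Matrix.mul_apply, Fin.sum_univ_two]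
  · linear_combination (t 0 + t 1) * h
  · ring
  · ring
  · linear_combination (t 0 + t 1) * h

/-- two matrices that commute modulo scalars -/
theorem not_comm_mod (hν : ν ≠ 0) (h2 : (2 : F) ≠ 0) {t s : Fin 3 → F} (ht : bt ν t t ≠ 0) (hst : bt ν t s ≠ 0)
    (hs : bt ν s s ≠ 0)
    (hns : ¬ ∃ l : F, s = l • t) : ¬ ∃ l : F, ph ν x y t * ph ν x y s = l • (ph ν x y s * ph ν x y t) := by
  rintro ⟨l, hl⟩
  have hd : (ph ν x y t * ph ν x y s).det ≠ 0 := by
    rw [Matrix.det_mul, ph_det h, ph_det h]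
    exact mul_ne_zero (mul_ne_zero hν ht) (mul_ne_zero hν hs)
  have h1 := congrArg Matrix.det hl
  rw [Matrix.det_smul, Fintype.card_fin, Matrix.det_mul_comm] at h1
  have hd' : (ph ν x y s * ph ν x y t).det ≠ 0 := by rwa [Matrix.det_mul_comm]
  have hl1 : (l - 1) * (l + 1) = 0 := by
    have : (l ^ 2 - 1) * (ph ν x y s * ph ν x y t).det = 0 := by rw [sub_mul, one_mul, ← h1, sub_self]
    have := (mul_eq_zero.1 this).resolve_right hd'
    linear_combination this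
  have h3 := ph_anti h t s
  rcases mul_eq_zero.1 hl1 with h4 | h4
  · have h5 : l = 1 := sub_eq_zero.1 h4
    rw [h5, one_smul] at hl
    rw [← hl] at h3
    apply mul_not_sc h hν h2 ht hns
    refine ⟨-(ν * bt ν t s), ?_⟩
    have h6 : (2 : F) • (ph ν x y t * ph ν x y s) = (2 : F) • ((-(ν * bt ν t s)) • (1 : Matrix (Fin 2) (Fin 2) F)) := by
      rw [two_smul, h3, smul_smul]
      congr 1
      ring
    exact smul_right_injective _ h2 h6
  · have h5 : l = -1 := eq_neg_of_add_eq_zero_left h4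
    rw [h5, neg_one_smul] at hl
    rw [hl, neg_add_cancel] at h3
    have h7 := congrFun (congrFun h3 0) 0
    simp at h7
    rcases h7 with (h7 | h7) | h7
    · exact h2 h7
    · exact hν h7
    · exact hst h7

end

end Cfsg.Agent.Lib.Rf
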