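import Mathlib
import Cfsg.Agent.Lib.Rf1
import Cfsg.Agent.Lib.MobDickson
import Cfsg.Agent.Lib.DkSub

set_option autoImplicit false
set_option linter.unusedSectionVars false
set_option linter.unusedSimpArgs false

/-!
# Dickson's theorem for groups of reflections in dimension 3 over a prime field (helper14)
-/

namespace Cfsg.Agent.Lib.Rf

open Matrix Cfsg.Agent.Lib.MobCount
open scoped MatrixGroups LinearAlgebra.Projectivization

section group
variable {H : Type*} [Group H] {a b c : H}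

theorem not_dih (ha : a * a = 1) (hb : b * b = 1) (ha1 : a ≠ 1) (hb1 : b ≠ 1) (hab : a * b = b * a) (hne : a ≠ b)
    (hca : c * a ≠ a * c) (hcb : c * b ≠ b * c) (hcab : c * (a * b) ≠ (a * b) * c)
    (C : Subgroup H) [hC : IsCyclic C] (h2 : Nat.card H = 2 * Nat.card C) (hfin : Finite H)
    (ht : ∀ t : H, t ∉ C → t * t = 1) : False := by
  have hcen : ∀ z ∈ C, z * z = 1 → c * z = z * c := by
    intro z hz hzz
    by_cases hc : c ∈ C
    · have := (IsCyclic.commGroup (α := C)).mul_comm ⟨c, hc⟩ ⟨z, hz⟩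
      exact congrArg Subtype.val this
    · have h1 : (c * z) ∉ C := fun h => hc (by simpa using C.mul_mem h (C.inv_mem hz))
      have h3 := ht _ h1
      have h4 := ht _ hc
      have h5 : z⁻¹ = z := inv_eq_of_mul_eq_one_right hzz
      have h6 : c⁻¹ = c := inv_eq_of_mul_eq_one_right h4
      calc c * z = (c * z)⁻¹ := (inv_eq_of_mul_eq_one_right h3).symm
        _ = z * c := by rw [_root_.mul_inv_rev, h5, h6]
  have hidx : C.index = 2 := by
    have h3 := C.card_mul_index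
    rw [h2, mul_comm] at h3
    exact Nat.eq_of_mul_eq_mul_right Nat.card_pos h3
  by_cases h1 : a ∈ C
  · exact hca (hcen a h1 ha)
  by_cases h3 : b ∈ C
  · exact hcb (hcen b h3 hb)
  have h4 : a * b ∈ C := (Subgroup.mul_mem_iff_of_index_two hidx).2 (by tauto)
  refine hcab (hcen _ h4 ?_)
  rw [show a * b * (a * b) = (a * a) * (b * b) by rw [mul_assoc, ← mul_assoc b, ← hab, mul_assoc, ← mul_assoc a a, mul_assoc], ha, hb, one_mul]

theorem a4_comm : ∀ x y : Equiv.Perm (Fin 4), Equiv.Perm.sign x = 1 → Equiv.Perm.sign y = 1 → x * x = 1 → y * y = 1 → x * y = y * x := by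
  decide

theorem not_a4 (ha : a * a = 1) (hc : c * c = 1) (hca : c * a ≠ a * c) (e : H ≃* alternatingGroup (Fin 4)) : False := by
  apply hca
  apply e.injective
  apply Subtype.ext
  rw [map_mul, map_mul, Subgroup.coe_mul, Subgroup.coe_mul]
  apply a4_comm _ _ (Equiv.Perm.mem_alternatingGroup.1 (e c).2) (Equiv.Perm.mem_alternatingGroup.1 (e a).2)
  · rw [← Subgroup.coe_mul, ← map_mul, hc, map_one]; rfl
  · rw [← Subgroup.coe_mul, ← map_mul, ha, map_one]; rfl

end group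

section field
variable {F : Type*} [Field F] [Fintype F]

theorem subfield_top (hp : (Fintype.card F).Prime) (k : Subfield F) : k = ⊤ := by
  have : Fact (Nat.card F).Prime := ⟨by rwa [Nat.card_eq_fintype_card]⟩
  rcases AddSubgroup.eq_bot_or_eq_top_of_prime_card k.toSubring.toAddSubgroup with h | h
  · exfalso
    have h1 : (1 : F) ∈ k.toSubring.toAddSubgroup := k.one_mem
    rw [h] at h1
    exact one_ne_zero (AddSubgroup.mem_bot.1 h1)
  · ext z
    constructor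
    · intro; trivial
    · intro _
      have h1 : z ∈ k.toSubring.toAddSubgroup := by rw [h]; trivial
      exact h1

/-- an element of `GL_2` for a nonsingular vector -/
noncomputable def G2 (ν x y : F) (t : Fin 3 → F) (h : (ph ν x y t).det ≠ 0) : GL (Fin 2) F :=
  Matrix.GeneralLinearGroup.mkOfDetNeZero _ h

theorem coe_G2 (ν x y : F) (t : Fin 3 → F) (h : (ph ν x y t).det ≠ 0) : (G2 ν x y t h : Matrix (Fin 2) (Fin 2) F) = ph ν x y t := rfl

theorem mk_eq_one_iff (g : GL (Fin 2) F) :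
    Matrix.ProjGenLinGroup.mk g = 1 ↔ ∃ l : F, (g : Matrix (Fin 2) (Fin 2) F) = l • 1 := by
  rw [Matrix.ProjGenLinGroup.mk_eq_one, Matrix.GeneralLinearGroup.center_eq_range_scalar]
  constructor
  · rintro ⟨u, rfl⟩
    refine ⟨u, ?_⟩
    rw [Matrix.GeneralLinearGroup.coe_scalar]
    ext i j
    simp [Matrix.scalar_apply, Matrix.diagonal_apply, Matrix.one_apply]
  · rintro ⟨l, hl⟩
    have hl0 : l ≠ 0 := by
      rintro rfl
      have h1 : (g : Matrix (Fin 2) (Fin 2) F).det ≠ 0 := by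
        rw [← Matrix.GeneralLinearGroup.val_det_apply]; exact (Matrix.GeneralLinearGroup.det g).ne_zero
      rw [hl, zero_smul, Matrix.det_zero] at h1
      exact h1 rfl
    refine ⟨Units.mk0 l hl0, ?_⟩
    apply Units.ext
    rw [hl, Matrix.GeneralLinearGroup.coe_scalar]
    ext i j
    simp [Matrix.scalar_apply, Matrix.diagonal_apply, Matrix.one_apply]

theorem mk_sq_eq_one {ν x y : F} (h : x ^ 2 + ν * y ^ 2 = -ν) {t : Fin 3 → F} (ht : (ph ν x y t).det ≠ 0) :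
    Matrix.ProjGenLinGroup.mk (G2 ν x y t ht) * Matrix.ProjGenLinGroup.mk (G2 ν x y t ht) = 1 := by
  rw [← map_mul, mk_eq_one_iff]
  exact ⟨_, by rw [Units.val_mul, coe_G2, ph_sq h]⟩

theorem mk_eq_mk_iff' (g k : GL (Fin 2) F) :
    Matrix.ProjGenLinGroup.mk g = Matrix.ProjGenLinGroup.mk k ↔
      ∃ l : F, (g : Matrix (Fin 2) (Fin 2) F) = l • (k : Matrix (Fin 2) (Fin 2) F) := by
  rw [← mul_inv_eq_one, ← map_inv, ← map_mul, mk_eq_one_iff]
  constructor
  · rintro ⟨l, hl⟩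
    refine ⟨l, ?_⟩
    have h1 : ((g * k⁻¹ : GL (Fin 2) F) : Matrix (Fin 2) (Fin 2) F) * k = (l • (1 : Matrix (Fin 2) (Fin 2) F)) * k := by
      rw [hl]
    rw [smul_mul_assoc, one_mul, ← Units.val_mul, inv_mul_cancel_right] at h1
    exact h1
  · rintro ⟨l, hl⟩
    refine ⟨l, ?_⟩
    rw [Units.val_mul, hl, smul_mul_assoc, Units.mul_inv]

theorem mk_not_comm {ν x y : F} (h : x ^ 2 + ν * y ^ 2 = -ν) (hν : ν ≠ 0) (h2 : (2 : F) ≠ 0) {t s : Fin 3 → F}
    (ht : (ph ν x y t).det ≠ 0) (hs : (ph ν x y s).det ≠ 0) (hst : bt ν t s ≠ 0)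
    (hns : ¬ ∃ l : F, s = l • t) :
    Matrix.ProjGenLinGroup.mk (G2 ν x y t ht) * Matrix.ProjGenLinGroup.mk (G2 ν x y s hs) ≠
      Matrix.ProjGenLinGroup.mk (G2 ν x y s hs) * Matrix.ProjGenLinGroup.mk (G2 ν x y t ht) := by
  rw [← map_mul, ← map_mul, Ne, mk_eq_mk_iff']
  rw [Units.val_mul, Units.val_mul, coe_G2, coe_G2]
  refine not_comm_mod h hν h2 ?_ hst ?_ hns
  · intro h0; rw [ph_det h, h0, mul_zero] at ht; exact ht rfl
  · intro h0; rw [ph_det h, h0, mul_zero] at hs; exact hs rfl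

theorem det_e0 {ν x y : F} (h : x ^ 2 + ν * y ^ 2 = -ν) (hν : ν ≠ 0) : (ph ν x y ![1, 0, 0]).det ≠ 0 := by
  rw [ph_det h]; simp [bt]; exact hν

theorem det_e1 {ν x y : F} (h : x ^ 2 + ν * y ^ 2 = -ν) (hν : ν ≠ 0) : (ph ν x y ![0, 1, 0]).det ≠ 0 := by
  rw [ph_det h]; simp [bt]; exact hν

theorem det_e2 {ν x y : F} (h : x ^ 2 + ν * y ^ 2 = -ν) (hν : ν ≠ 0) : (ph ν x y ![0, 0, 1]).det ≠ 0 := by
  rw [ph_det h]; simp [bt]; exact hν

theorem det_ne {ν x y : F} (h : x ^ 2 + ν * y ^ 2 = -ν) (hν : ν ≠ 0) {t : Fin 3 → F} (ht : bt ν t t ≠ 0) :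
    (ph ν x y t).det ≠ 0 := by
  rw [ph_det h]; exact mul_ne_zero hν ht

/-- **Dickson's theorem** for reflection groups -/
theorem dk (hp : (Fintype.card F).Prime) {ν x y : F} (h : x ^ 2 + ν * y ^ 2 = -ν) (hν : ν ≠ 0) (h2 : (2 : F) ≠ 0)
    (K : Subgroup (GL (Fin 2) F)) {t : Fin 3 → F} (ht0 : t 0 ≠ 0) (ht1 : t 1 ≠ 0) (ht2 : t 2 ≠ 0)
    (ht : bt ν t t ≠ 0) (hA : G2 ν x y ![1, 0, 0] (det_e0 h hν) ∈ K) (hB : G2 ν x y ![0, 1, 0] (det_e1 h hν) ∈ K)
    (hC : G2 ν x y t (det_ne h hν ht) ∈ K) :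
    (∀ g : GL (Fin 2) F, (g : Matrix (Fin 2) (Fin 2) F).det = 1 → ∃ k ∈ K, ∃ l : F,
      (g : Matrix (Fin 2) (Fin 2) F) = l • (k : Matrix (Fin 2) (Fin 2) F)) ∨
    (∃ f : K →* Equiv.Perm (Fin 4), ∀ k : K, f k = 1 ↔ ∃ l : F, ((k : GL (Fin 2) F) : Matrix (Fin 2) (Fin 2) F) = l • 1) ∨
    (∃ f : K →* alternatingGroup (Fin 5), ∀ k : K, f k = 1 ↔ ∃ l : F, ((k : GL (Fin 2) F) : Matrix (Fin 2) (Fin 2) F) = l • 1) := by
  classical
  obtain ⟨H, hH⟩ : ∃ H : Subgroup (PGL(Fin 2, F)), H = K.map Matrix.ProjGenLinGroup.mk := ⟨_, rfl⟩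
  obtain ⟨m, hm⟩ : ∃ m : K →* H, ∀ k : K, (m k : PGL(Fin 2, F)) = Matrix.ProjGenLinGroup.mk (k : GL (Fin 2) F) := by
    refine ⟨(Matrix.ProjGenLinGroup.mk.comp K.subtype).codRestrict H (fun k => ?_), fun k => rfl⟩
    rw [hH]
    exact Subgroup.mem_map_of_mem _ k.2
  have hm1 : ∀ k : K, m k = 1 ↔ ∃ l : F, ((k : GL (Fin 2) F) : Matrix (Fin 2) (Fin 2) F) = l • 1 := by
    intro k
    rw [← mk_eq_one_iff, ← hm, ← Subgroup.coe_one (H := H)]
    exact ⟨fun h => by rw [h], fun h => Subtype.ext h⟩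
  obtain ⟨p, hpF⟩ : ∃ p, p = Fintype.card F := ⟨_, rfl⟩
  have hpp : Fact p.Prime := ⟨hpF ▸ hp⟩
  have hch : CharP F p := charP_of_card_eq_prime hpF.symm
  have hHfin : Finite H := inferInstance
  obtain ⟨a, ha⟩ : ∃ a : H, a = m ⟨_, hA⟩ := ⟨_, rfl⟩
  obtain ⟨b, hb⟩ : ∃ b : H, b = m ⟨_, hB⟩ := ⟨_, rfl⟩
  obtain ⟨c, hc⟩ : ∃ c : H, c = m ⟨_, hC⟩ := ⟨_, rfl⟩
  have ha' : (a : PGL(Fin 2, F)) = Matrix.ProjGenLinGroup.mk (G2 ν x y ![1, 0, 0] (det_e0 h hν)) := by rw [ha, hm]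
  have hb' : (b : PGL(Fin 2, F)) = Matrix.ProjGenLinGroup.mk (G2 ν x y ![0, 1, 0] (det_e1 h hν)) := by rw [hb, hm]
  have hc' : (c : PGL(Fin 2, F)) = Matrix.ProjGenLinGroup.mk (G2 ν x y t (det_ne h hν ht)) := by rw [hc, hm]
  have haa : a * a = 1 := Subtype.ext (by rw [Subgroup.coe_mul, ha']; exact mk_sq_eq_one h _)
  have hbb : b * b = 1 := Subtype.ext (by rw [Subgroup.coe_mul, hb']; exact mk_sq_eq_one h _)
  have hcc : c * c = 1 := Subtype.ext (by rw [Subgroup.coe_mul, hc']; exact mk_sq_eq_one h _)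
  have hab' : ((a * b : H) : PGL(Fin 2, F)) = Matrix.ProjGenLinGroup.mk (G2 ν x y ![0, 0, 1] (det_e2 h hν)) := by
    rw [Subgroup.coe_mul, ha', hb', ← map_mul, mk_eq_mk_iff']
    exact ⟨1, by rw [one_smul, Units.val_mul, coe_G2, coe_G2, coe_G2, ph_mul_01 h]⟩
  have hab : a * b = b * a := by
    apply Subtype.ext
    rw [Subgroup.coe_mul, Subgroup.coe_mul, ha', hb', ← map_mul, ← map_mul, mk_eq_mk_iff']
    refine ⟨-1, ?_⟩
    rw [Units.val_mul, Units.val_mul, coe_G2, coe_G2]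
    have := ph_anti h ![1, 0, 0] ![0, 1, 0]
    simp only [bt] at this
    simp at this
    rw [neg_one_smul]
    exact eq_neg_of_add_eq_zero_left this
  have hca : c * a ≠ a * c := by
    intro h3
    have h4 := congrArg Subtype.val h3
    rw [Subgroup.coe_mul, Subgroup.coe_mul, ha', hc'] at h4
    refine mk_not_comm h hν h2 _ _ ?_ ?_ h4.symm
    · simp [bt]; exact ht0
    · rintro ⟨l, hl⟩
      have := congrFun hl 1
      simp at this
      exact ht1 this
  have hcb : c * b ≠ b * c := by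
    intro h3
    have h4 := congrArg Subtype.val h3
    rw [Subgroup.coe_mul, Subgroup.coe_mul, hb', hc'] at h4
    refine mk_not_comm h hν h2 _ _ ?_ ?_ h4.symm
    · simp [bt]; exact ht1
    · rintro ⟨l, hl⟩
      have := congrFun hl 0
      simp at this
      exact ht0 this
  have hcab : c * (a * b) ≠ (a * b) * c := by
    intro h3
    have h4 := congrArg Subtype.val h3
    rw [Subgroup.coe_mul, Subgroup.coe_mul (x := a * b), hab', hc'] at h4
    refine mk_not_comm h hν h2 _ _ ?_ ?_ h4.symm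
    · simp [bt]; exact ⟨hν, ht2⟩
    · rintro ⟨l, hl⟩
      have := congrFun hl 0
      simp at this
      exact ht0 this
  have ha1 : a ≠ 1 := by rintro rfl; exact hca (by rw [mul_one, one_mul])
  have hb1 : b ≠ 1 := by rintro rfl; exact hcb (by rw [mul_one, one_mul])
  have hne : a ≠ b := by rintro rfl; exact hcab (by rw [haa, mul_one, one_mul])
  rcases dickson p H.subtype H.subtype_injective with ⟨-, h3⟩ | ⟨C, h3, -, h4, h5, -⟩ | ⟨-, -, ⟨e⟩⟩ | ⟨-, -, ⟨e⟩⟩ | ⟨-, h3, h4⟩ |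
    ⟨-, z, hz⟩ | ⟨g, k, h3⟩
  · exact absurd ((IsCyclic.commGroup (α := H)).mul_comm c a) hca
  · exact (not_dih haa hbb ha1 hb1 hab hne hca hcb hcab C h4 hHfin h5).elim
  · exact (not_a4 haa hcc hca e).elim
  · right; left
    refine ⟨e.toMonoidHom.comp m, fun k => ?_⟩
    rw [← hm1]
    change e (m k) = 1 ↔ _
    exact map_eq_one_iff e e.injective
  · right; right
    obtain ⟨e⟩ := ClSmall.equiv_alternating_five h3
    refine ⟨e.toMonoidHom.comp m, fun k => ?_⟩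
    rw [← hm1]
    change e (m k) = 1 ↔ _
    exact map_eq_one_iff e e.injective
  · exfalso
    induction z using Projectivization.ind with | _ v hv
    have h3 := hz a
    have h4 := hz b
    rw [Subgroup.subtype_apply, ha'] at h3
    rw [Subgroup.subtype_apply, hb'] at h4
    obtain ⟨l, hl⟩ := (fixed_iff _ v hv).1 h3
    obtain ⟨k, hk⟩ := (fixed_iff _ v hv).1 h4
    have hl0 := eig_ne_zero _ v hv l hl
    have hk0 := eig_ne_zero _ v hv k hk
    have h5 := ph_anti h ![1, 0, 0] ![0, 1, 0]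
    simp only [bt] at h5
    simp at h5
    have h6 : (ph ν x y ![1, 0, 0] * ph ν x y ![0, 1, 0] + ph ν x y ![0, 1, 0] * ph ν x y ![1, 0, 0]) *ᵥ v = 0 := by
      rw [h5, Matrix.zero_mulVec]
    rw [coe_G2] at hl hk
    rw [Matrix.add_mulVec, ← Matrix.mulVec_mulVec, ← Matrix.mulVec_mulVec, hl, hk, Matrix.mulVec_smul, Matrix.mulVec_smul, hl, hk,
      smul_smul, smul_smul, ← add_smul] at h6
    have h7 := (smul_eq_zero.1 h6).resolve_right hv
    have h8 : 2 * (k * l) = 0 := by linear_combination h7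
    exact (mul_ne_zero h2 (mul_ne_zero hk0 hl0)) h8
  · left
    intro g' hg'
    have hk := subfield_top hp k
    have hle : ∀ S : GL (Fin 2) F, (S : Matrix (Fin 2) (Fin 2) F).det = 1 →
        Matrix.ProjGenLinGroup.mk S ∈ (pslMap k.subtype).range := by
      intro S hS
      subst hk
      let S' : SL(2, (⊤ : Subfield F)) := ⟨Matrix.of fun i j => (⟨S.1 i j, trivial⟩ : (⊤ : Subfield F)), by
        apply Subtype.ext
        rw [Matrix.det_fin_two]
        rw [Matrix.det_fin_two] at hS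
        exact hS⟩
      refine ⟨(S' : P2 (⊤ : Subfield F)), ?_⟩
      rw [pslMap, MonoidHom.comp_apply, ProjectiveSpecialLinearGroup.toPGL_mk, Matrix.ProjGenLinGroup.map_mk]
      congr 1
      apply Units.ext
      ext i j
      rfl
    have hle2 : ∀ S : GL (Fin 2) F, (S : Matrix (Fin 2) (Fin 2) F).det = 1 →
        Matrix.ProjGenLinGroup.mk S ∈ (H.subtype.range.map (MulAut.conj g).toMonoidHom) := by
      intro S hS
      rcases h3 with h3 | h3
      · rw [h3]; exact hle S hS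
      · rw [h3]; exact Cfsg.Agent.Lib.DkSub.psl_le_pgl _ (hle S hS)
    obtain ⟨G, rfl⟩ := Matrix.ProjGenLinGroup.mk_surjective g
    have h4 := hle2 (G * g' * G⁻¹) (by
      rw [Units.val_mul, Units.val_mul, Matrix.det_mul, Matrix.det_mul, hg', mul_one, ← Matrix.det_mul, Units.mul_inv, Matrix.det_one])
    rw [Subgroup.mem_map] at h4
    obtain ⟨q, hq, hq2⟩ := h4
    have h5 : q = Matrix.ProjGenLinGroup.mk g' := by
      rw [map_mul, map_mul, map_inv] at hq2
      change Matrix.ProjGenLinGroup.mk G * q * (Matrix.ProjGenLinGroup.mk G)⁻¹ = _ at hq2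
      exact mul_left_cancel (mul_right_cancel hq2)
    obtain ⟨q', rfl⟩ := hq
    have h6 : (q' : PGL(Fin 2, F)) ∈ K.map Matrix.ProjGenLinGroup.mk := hH ▸ q'.2
    obtain ⟨κ, hκ, hκ2⟩ := h6
    refine ⟨κ, hκ, ?_⟩
    rw [Subgroup.subtype_apply, ← hκ2] at h5
    obtain ⟨l, hl⟩ := (mk_eq_mk_iff' _ _).1 h5.symm
    exact ⟨l, hl⟩

end field

end Cfsg.Agent.Lib.Rf
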