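import Mathlib
import Cfsg.Agent.Lib.Rf2

set_option autoImplicit false
set_option linter.unusedSectionVars false
set_option linter.unusedSimpArgs false
set_option maxRecDepth 100000

/-!
# The three-dimensional lemma (helper14)
-/

namespace Cfsg.Agent.Lib.Rf

open Matrix
open scoped MatrixGroups

theorem p4 : ∀ s : Equiv.Perm (Fin 4), s ^ 3 = 1 ∨ s ^ 4 = 1 := by decide

theorem p5 : ∀ s : Equiv.Perm (Fin 5), Equiv.Perm.sign s = 1 → s ^ 2 = 1 ∨ s ^ 3 = 1 ∨ s ^ 5 = 1 := by decide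

theorem p5' (s : alternatingGroup (Fin 5)) : s ^ 2 = 1 ∨ s ^ 3 = 1 ∨ s ^ 5 = 1 := by
  rcases p5 s.1 (Equiv.Perm.mem_alternatingGroup.1 s.2) with h | h | h
  · left; exact Subtype.ext h
  · right; left; exact Subtype.ext h
  · right; right; exact Subtype.ext h

def PP (a b c : Equiv.Perm (Fin 4)) : Prop :=
  c * a ≠ a * c → c * b ≠ b * c → c * (a * b) ≠ (a * b) * c → (a * c) ^ 3 = 1 ∧ (b * c) ^ 3 = 1

instance (a b c : Equiv.Perm (Fin 4)) : Decidable (PP a b c) := by unfold PP; infer_instance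

def PQ (a d : Equiv.Perm (Fin 4)) : Prop :=
  a * (d * a * d) = (d * a * d) * a → ∀ c : Equiv.Perm (Fin 4), c * c = 1 → PP a (d * a * d) c

instance (a b : Equiv.Perm (Fin 4)) : Decidable (PQ a b) := by unfold PQ; infer_instance

theorem p4' : ∀ a : Equiv.Perm (Fin 4), a * a = 1 → ∀ d : Equiv.Perm (Fin 4), d * d = 1 → PQ a d := by decide

variable {F : Type*} [Field F] [Fintype F] {ν x y : F}

section ax
variable (h : x ^ 2 + ν * y ^ 2 = -ν) (hν : ν ≠ 0) (h2 : (2 : F) ≠ 0) {K : Subgroup (GL (Fin 2) F)}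
  {G : Type*} [Group G] {f : K →* G} (hf : ∀ k : K, f k = 1 ↔ ∃ l : F, ((k : GL (Fin 2) F) : Matrix (Fin 2) (Fin 2) F) = l • 1)
include h hν h2 hf

/-- the algebraic consequence of an order of a product of two reflections -/
theorem ord_cases {r t : Fin 3 → F} (hr : bt ν r r = 1) (ht : bt ν t t = 1) (hrt : bt ν r t ≠ 0)
    (hns : ¬ ∃ l : F, t = l • r)
    {A C : K} (hA : ((A : GL (Fin 2) F) : Matrix (Fin 2) (Fin 2) F) = ph ν x y r)
    (hC : ((C : GL (Fin 2) F) : Matrix (Fin 2) (Fin 2) F) = ph ν x y t) :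
    ((f A * f C) ^ 2 ≠ 1) ∧ ((f A * f C) ^ 3 = 1 → 4 * bt ν r t ^ 2 = 1) ∧
    ((f A * f C) ^ 4 = 1 → 2 * bt ν r t ^ 2 = 1) ∧
    ((f A * f C) ^ 5 = 1 → 16 * bt ν r t ^ 4 - 12 * bt ν r t ^ 2 + 1 = 0) := by
  have hT := ph_mul_sq h r t
  have hn := mul_not_sc h hν h2 (by rw [hr]; exact one_ne_zero) hns
  have hp := pow_sc hT hn
  rw [hr, ht] at hp
  have hsc : ∀ n : ℕ, (f A * f C) ^ n = 1 → ∃ l : F, (ph ν x y r * ph ν x y t) ^ n = l • 1 := by
    intro n hn
    rw [← map_mul, ← map_pow, hf] at hn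
    obtain ⟨l, hl⟩ := hn
    refine ⟨l, ?_⟩
    rw [← hl, ← hA, ← hC]
    rfl
  refine ⟨fun h3 => ?_, fun h3 => ?_, fun h3 => ?_, fun h3 => ?_⟩
  · have := hp.1 (hsc _ h3) h2
    exact (mul_ne_zero hν hrt) this
  · have := hp.2.1 (hsc _ h3)
    have h5 : (ν * ν) * (4 * bt ν r t ^ 2 - 1) = 0 := by linear_combination this
    exact sub_eq_zero.1 ((mul_eq_zero.1 h5).resolve_left (mul_ne_zero hν hν))
  · have := (hp.2.2.1 (hsc _ h3) h2).resolve_left (mul_ne_zero hν hrt)
    have h5 : (ν * ν) * (2 * bt ν r t ^ 2 - 1) = 0 := by linear_combination this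
    exact sub_eq_zero.1 ((mul_eq_zero.1 h5).resolve_left (mul_ne_zero hν hν))
  · have := hp.2.2.2 (hsc _ h3)
    have h5 : (ν * ν * (ν * ν)) * (16 * bt ν r t ^ 4 - 12 * bt ν r t ^ 2 + 1) = 0 := by linear_combination this
    exact (mul_eq_zero.1 h5).resolve_left (mul_ne_zero (mul_ne_zero hν hν) (mul_ne_zero hν hν))

end ax

theorem bt_e0 (t : Fin 3 → F) : bt ν ![1, 0, 0] t = t 0 := by simp [bt]
theorem bt_e1 (t : Fin 3 → F) : bt ν ![0, 1, 0] t = t 1 := by simp [bt]
theorem bt_e2 (t : Fin 3 → F) : bt ν ![0, 0, 1] t = ν * t 2 := by simp [bt]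

theorem det_d (h : x ^ 2 + ν * y ^ 2 = -ν) (hν : ν ≠ 0) (h2 : (2 : F) ≠ 0) : (ph ν x y ![1, -1, 0]).det ≠ 0 := by
  rw [ph_det h]
  refine mul_ne_zero hν ?_
  simp [bt]
  rw [one_add_one_eq_two]
  exact h2

/-- the possible squares of coordinates -/
def Gd (s : F) : Prop := 4 * s ^ 2 = 1 ∨ 2 * s ^ 2 = 1 ∨ 16 * s ^ 4 - 12 * s ^ 2 + 1 = 0

theorem three (hp : (Fintype.card F).Prime) (h : x ^ 2 + ν * y ^ 2 = -ν) (hν : ν ≠ 0) (h2 : (2 : F) ≠ 0)
    (K : Subgroup (GL (Fin 2) F)) {t : Fin 3 → F} (ht0 : t 0 ≠ 0) (ht1 : t 1 ≠ 0) (ht2 : t 2 ≠ 0)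
    (ht : bt ν t t = 1) (hA : G2 ν x y ![1, 0, 0] (det_e0 h hν) ∈ K) (hB : G2 ν x y ![0, 1, 0] (det_e1 h hν) ∈ K)
    (hC : G2 ν x y t (det_ne h hν (by rw [ht]; exact one_ne_zero)) ∈ K) :
    (∀ g : GL (Fin 2) F, (g : Matrix (Fin 2) (Fin 2) F).det = 1 → ∃ k ∈ K, ∃ l : F,
      (g : Matrix (Fin 2) (Fin 2) F) = l • (k : Matrix (Fin 2) (Fin 2) F)) ∨
    ((Gd (t 0) ∧ Gd (t 1)) ∧ (G2 ν x y ![1, -1, 0] (det_d h hν h2) ∈ K → 4 * t 0 ^ 2 = 1 ∧ 4 * t 1 ^ 2 = 1)) := by
  obtain ⟨A, hAe⟩ : ∃ A : K, A = ⟨_, hA⟩ := ⟨_, rfl⟩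
  obtain ⟨B, hBe⟩ : ∃ B : K, B = ⟨_, hB⟩ := ⟨_, rfl⟩
  obtain ⟨C, hCe⟩ : ∃ C : K, C = ⟨_, hC⟩ := ⟨_, rfl⟩
  have hAm : ((A : GL (Fin 2) F) : Matrix (Fin 2) (Fin 2) F) = ph ν x y ![1, 0, 0] := by rw [hAe]; rfl
  have hBm : ((B : GL (Fin 2) F) : Matrix (Fin 2) (Fin 2) F) = ph ν x y ![0, 1, 0] := by rw [hBe]; rfl
  have hCm : ((C : GL (Fin 2) F) : Matrix (Fin 2) (Fin 2) F) = ph ν x y t := by rw [hCe]; rfl
  have hns0 : ¬ ∃ l : F, t = l • ![1, 0, 0] := by
    rintro ⟨l, hl⟩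
    have := congrFun hl 1
    simp at this
    exact ht1 this
  have hns1 : ¬ ∃ l : F, t = l • ![0, 1, 0] := by
    rintro ⟨l, hl⟩
    have := congrFun hl 0
    simp at this
    exact ht0 this
  have hns2 : ¬ ∃ l : F, t = l • ![0, 0, 1] := by
    rintro ⟨l, hl⟩
    have := congrFun hl 0
    simp at this
    exact ht0 this
  have b00 : bt ν ![1, 0, 0] ![1, 0, 0] = 1 := by simp [bt]
  have b11 : bt ν ![0, 1, 0] ![0, 1, 0] = 1 := by simp [bt]
  have hAA : ((A : GL (Fin 2) F) : Matrix (Fin 2) (Fin 2) F) * (A : GL (Fin 2) F) = (-ν) • 1 := by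
    rw [hAm, ph_sq h, b00, mul_one]
  have hBB : ((B : GL (Fin 2) F) : Matrix (Fin 2) (Fin 2) F) * (B : GL (Fin 2) F) = (-ν) • 1 := by
    rw [hBm, ph_sq h, b11, mul_one]
  have hCC : ((C : GL (Fin 2) F) : Matrix (Fin 2) (Fin 2) F) * (C : GL (Fin 2) F) = (-ν) • 1 := by
    rw [hCm, ph_sq h, ht, mul_one]
  rcases dk hp h hν h2 K ht0 ht1 ht2 (by rw [ht]; exact one_ne_zero) hA hB hC with h3 | ⟨f, hf⟩ | ⟨f, hf⟩
  · exact Or.inl h3
  · right
    have o0 := ord_cases h hν h2 hf b00 ht (by rw [bt_e0]; exact ht0) hns0 hAm hCm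
    have o1 := ord_cases h hν h2 hf b11 ht (by rw [bt_e1]; exact ht1) hns1 hBm hCm
    rw [bt_e0] at o0
    rw [bt_e1] at o1
    refine ⟨⟨?_, ?_⟩, fun hD => ?_⟩
    · rcases p4 (f A * f C) with h4 | h4
      · exact Or.inl (o0.2.1 h4)
      · exact Or.inr (Or.inl (o0.2.2.1 h4))
    · rcases p4 (f B * f C) with h4 | h4
      · exact Or.inl (o1.2.1 h4)
      · exact Or.inr (Or.inl (o1.2.2.1 h4))
    · obtain ⟨D, hDe⟩ : ∃ D : K, D = ⟨_, hD⟩ := ⟨_, rfl⟩
      have hDm : ((D : GL (Fin 2) F) : Matrix (Fin 2) (Fin 2) F) = ph ν x y ![1, -1, 0] := by rw [hDe]; rfl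
      have fsc : ∀ P R : K, (∃ l : F, ((P : GL (Fin 2) F) : Matrix (Fin 2) (Fin 2) F) = l • ((R : GL (Fin 2) F) : Matrix (Fin 2) (Fin 2) F)) →
          f P = f R := by
        rintro P R ⟨l, hl⟩
        rw [← mul_inv_eq_one, ← map_inv, ← map_mul, hf]
        refine ⟨l, ?_⟩
        rw [Subgroup.coe_mul, Units.val_mul, hl, smul_mul_assoc, Subgroup.coe_inv, Units.mul_inv]
      have fnc : ∀ {r s : Fin 3 → F} {P R : K}, ((P : GL (Fin 2) F) : Matrix (Fin 2) (Fin 2) F) = ph ν x y r →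
          ((R : GL (Fin 2) F) : Matrix (Fin 2) (Fin 2) F) = ph ν x y s → bt ν r r ≠ 0 → bt ν s s ≠ 0 → bt ν s r ≠ 0 →
          (¬ ∃ l : F, r = l • s) → f P * f R ≠ f R * f P := by
        intro r s P R hP hR hr hs hrs hns h9
        rw [← map_mul, ← map_mul, ← mul_inv_eq_one, ← map_inv, ← map_mul, hf] at h9
        obtain ⟨l, hl⟩ := h9
        apply not_comm_mod h hν h2 hs hrs hr hns
        have h10 : (((P * R : K) : GL (Fin 2) F) : Matrix (Fin 2) (Fin 2) F) = l • (((R * P : K) : GL (Fin 2) F) : Matrix (Fin 2) (Fin 2) F) := by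
          have h11 : (((P * R * (R * P)⁻¹ : K) : GL (Fin 2) F) : Matrix (Fin 2) (Fin 2) F) * (((R * P : K) : GL (Fin 2) F) : Matrix (Fin 2) (Fin 2) F) =
            (l • (1 : Matrix (Fin 2) (Fin 2) F)) * (((R * P : K) : GL (Fin 2) F) : Matrix (Fin 2) (Fin 2) F) := by rw [hl]
          rw [smul_mul_assoc, one_mul, ← Units.val_mul, ← Subgroup.coe_mul, inv_mul_cancel_right] at h11
          exact h11
        rw [Subgroup.coe_mul, Units.val_mul, Subgroup.coe_mul, Units.val_mul, hP, hR] at h10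
        have hl0 : l ≠ 0 := by
          rintro rfl
          rw [zero_smul] at h10
          have := congrArg Matrix.det h10
          rw [Matrix.det_mul, ph_det h, ph_det h, Matrix.det_zero] at this
          exact mul_ne_zero (mul_ne_zero hν hr) (mul_ne_zero hν hs) this
        refine ⟨l⁻¹, ?_⟩
        rw [h10, smul_smul, inv_mul_cancel₀ hl0, one_smul]
      have hAD : ph ν x y ![0, -1, 0] * ph ν x y ![1, -1, 0] = ph ν x y ![1, -1, 0] * ph ν x y ![1, 0, 0] := by
        have := ph_swap h ![1, 0, 0]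
        simpa using this
      have hBB' : ph ν x y ![0, -1, 0] = (-1 : F) • ph ν x y ![0, 1, 0] := by
        rw [← ph_smul h]
        congr 1
        ext i
        fin_cases i <;> simp
      have bdd : ph ν x y ![1, -1, 0] * ph ν x y ![1, -1, 0] = (-(2 * ν)) • (1 : Matrix (Fin 2) (Fin 2) F) := by
        rw [ph_sq h]
        congr 1
        simp [bt]
        ring
      have hDAD : f B = f D * f A * f D := by
        rw [← map_mul, ← map_mul]
        apply Eq.symm
        apply fsc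
        refine ⟨2 * ν, ?_⟩
        rw [Subgroup.coe_mul, Units.val_mul, Subgroup.coe_mul, Units.val_mul, hAm, hBm, hDm, ← hAD, mul_assoc, bdd, hBB',
          smul_mul_assoc, mul_smul_comm, mul_one, smul_smul]
        congr 1
        ring
      have haa : f A * f A = 1 := by
        rw [← map_mul, hf]; exact ⟨_, hAA⟩
      have hcc : f C * f C = 1 := by
        rw [← map_mul, hf]; exact ⟨_, hCC⟩
      have hdd : f D * f D = 1 := by
        rw [← map_mul, hf]; exact ⟨-(2 * ν), by rw [Subgroup.coe_mul, Units.val_mul, hDm, bdd]⟩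
      have hab : f A * f B = f B * f A := by
        rw [← map_mul, ← map_mul]
        apply fsc
        refine ⟨-1, ?_⟩
        rw [Subgroup.coe_mul, Units.val_mul, Subgroup.coe_mul, Units.val_mul, hAm, hBm]
        have := ph_anti h ![1, 0, 0] ![0, 1, 0]
        simp only [bt] at this
        simp at this
        rw [neg_one_smul]
        exact eq_neg_of_add_eq_zero_left this
      have hABm : (((A * B : K) : GL (Fin 2) F) : Matrix (Fin 2) (Fin 2) F) = ph ν x y ![0, 0, 1] := by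
        rw [Subgroup.coe_mul, Units.val_mul, hAm, hBm, ph_mul_01 h]
      have h1ne : bt ν t t ≠ 0 := by rw [ht]; exact one_ne_zero
      have hca : f C * f A ≠ f A * f C := fnc hCm hAm h1ne (by rw [b00]; exact one_ne_zero) (by rw [bt_e0]; exact ht0) hns0
      have hcb : f C * f B ≠ f B * f C := fnc hCm hBm h1ne (by rw [b11]; exact one_ne_zero) (by rw [bt_e1]; exact ht1) hns1
      have hcab : f C * (f A * f B) ≠ (f A * f B) * f C := by
        rw [← map_mul]
        exact fnc hCm hABm h1ne (by simp [bt]; exact hν) (by rw [bt_e2]; exact mul_ne_zero hν ht2) hns2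
      have key := p4' (f A) haa (f D) hdd
      rw [PQ, ← hDAD] at key
      have key2 := key hab (f C) hcc hca hcb hcab
      exact ⟨o0.2.1 key2.1, o1.2.1 key2.2⟩
  · right
    have o0 := ord_cases h hν h2 hf b00 ht (by rw [bt_e0]; exact ht0) hns0 hAm hCm
    have o1 := ord_cases h hν h2 hf b11 ht (by rw [bt_e1]; exact ht1) hns1 hBm hCm
    rw [bt_e0] at o0
    rw [bt_e1] at o1
    refine ⟨⟨?_, ?_⟩, fun hD => ?_⟩
    · rcases p5' (f A * f C) with h4 | h4 | h4
      · exact absurd h4 o0.1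
      · exact Or.inl (o0.2.1 h4)
      · exact Or.inr (Or.inr (o0.2.2.2 h4))
    · rcases p5' (f B * f C) with h4 | h4 | h4
      · exact absurd h4 o1.1
      · exact Or.inl (o1.2.1 h4)
      · exact Or.inr (Or.inr (o1.2.2.2 h4))
    · exfalso
      obtain ⟨D, hDe⟩ : ∃ D : K, D = ⟨_, hD⟩ := ⟨_, rfl⟩
      have hDm : ((D : GL (Fin 2) F) : Matrix (Fin 2) (Fin 2) F) = ph ν x y ![1, -1, 0] := by rw [hDe]; rfl
      have hAD : ph ν x y ![0, -1, 0] * ph ν x y ![1, -1, 0] = ph ν x y ![1, -1, 0] * ph ν x y ![1, 0, 0] := by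
        have := ph_swap h ![1, 0, 0]
        simpa using this
      have hBB' : ph ν x y ![0, -1, 0] = (-1 : F) • ph ν x y ![0, 1, 0] := by
        rw [← ph_smul h]
        congr 1
        ext i
        fin_cases i <;> simp
      have bdd : ph ν x y ![1, -1, 0] * ph ν x y ![1, -1, 0] = (-(2 * ν)) • (1 : Matrix (Fin 2) (Fin 2) F) := by
        rw [ph_sq h]
        congr 1
        simp [bt]
        ring
      have e2 : (((A * D * (A * D) : K) : GL (Fin 2) F) : Matrix (Fin 2) (Fin 2) F) = (2 * ν) • ph ν x y ![0, 0, 1] := by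
        rw [Subgroup.coe_mul, Units.val_mul, Subgroup.coe_mul, Units.val_mul, hAm, hDm, mul_assoc,
          ← mul_assoc (ph ν x y ![1, -1, 0]), ← hAD, mul_assoc (ph ν x y ![0, -1, 0]), bdd, hBB', smul_mul_assoc, mul_smul_comm,
          mul_smul_comm, mul_smul_comm, mul_one, ph_mul_01 h, smul_smul]
        congr 1
        ring
      have e3 : f (A * D * (A * D)) ^ 2 = 1 := by
        rw [← map_pow, hf]
        refine ⟨(2 * ν) * (2 * ν) * (-(ν * ν)), ?_⟩
        rw [sq, Subgroup.coe_mul, Units.val_mul, e2, smul_mul_assoc, mul_smul_comm, ph_sq h, smul_smul, smul_smul, bt_e2]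
        congr 1
        simp
      have e4 : f (A * D) ^ 2 = 1 := by
        rw [map_mul f (A * D) (A * D), ← sq, ← pow_mul] at e3
        rcases p5' (f (A * D)) with h4 | h4 | h4
        · exact h4
        · have : f (A * D) = 1 := by
            have h5 : f (A * D) ^ (2 * 2) = f (A * D) := by rw [show 2 * 2 = 3 + 1 by norm_num, pow_succ, h4, one_mul]
            rw [← h5, e3]
          rw [this, one_pow]
        · have : f (A * D) = 1 := by
            have h5 : f (A * D) ^ 5 = f (A * D) := by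
              have h6 : f (A * D) ^ (2 * 2 + 1) = f (A * D) := by rw [pow_succ, e3, one_mul]
              exact h6
            rw [← h5, h4]
          rw [this, one_pow]
      rw [sq, ← map_mul, hf] at e4
      obtain ⟨l, hl⟩ := e4
      rw [e2] at hl
      have h7 := congrFun (congrFun hl 0) 1
      have h8 := congrFun (congrFun hl 0) 0
      have h9 := congrFun (congrFun hl 1) 1
      simp [ph] at h7 h8 h9
      have hy : y = 0 := by
        have h10 : (2 * (2 * ν) * ν) * y = 0 := by linear_combination -h8 + h9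
        exact (mul_eq_zero.1 h10).resolve_left (mul_ne_zero (mul_ne_zero h2 (mul_ne_zero h2 hν)) hν)
      have hx : x = 0 := by
        rcases h7 with (h7 | h7) | (h7 | h7)
        · exact absurd h7 h2
        · exact absurd h7 hν
        · exact absurd h7 hν
        · exact h7
      rw [hx, hy] at h
      apply hν
      linear_combination h

end Cfsg.Agent.Lib.Rf
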