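import Mathlib
import Cfsg.Agent.Lib.Rf3
import Cfsg.Agent.Lib.MobSolv

set_option autoImplicit false
set_option linter.unusedSectionVars false
set_option linter.unusedSimpArgs false

/-!
# The three-dimensional lemma inside a bigger space (helper14)
-/

namespace Cfsg.Agent.Lib.Rf

open Matrix Cfsg.Agent.Lib.MobCount
open scoped MatrixGroups

variable {F : Type*} [Field F] [Fintype F] {ν x y : F}
variable {V : Type*} [AddCommGroup V] [Module F V] (X : Subgroup (V ≃ₗ[F] V)) (b : Fin 3 → V)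

/-- linear combinations of a frame -/
def lin (b : Fin 3 → V) (t : Fin 3 → F) : V := t 0 • b 0 + t 1 • b 1 + t 2 • b 2

theorem lin_smul (c : F) (t : Fin 3 → F) : lin b (c • t) = c • lin b t := by
  simp only [lin, Pi.smul_apply, smul_eq_mul, smul_add, smul_smul]

theorem lin_add (t s : Fin 3 → F) : lin b (t + s) = lin b t + lin b s := by
  simp only [lin, Pi.add_apply, add_smul]; abel

theorem exists_s (h : x ^ 2 + ν * y ^ 2 = -ν) (hν : ν ≠ 0) (h2 : (2 : F) ≠ 0) (g : GL (Fin 2) F) (t : Fin 3 → F) :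
    ∃ s, ph ν x y s * (g : Matrix (Fin 2) (Fin 2) F) = (g : Matrix (Fin 2) (Fin 2) F) * ph ν x y t := by
  have h1 : ((g : Matrix (Fin 2) (Fin 2) F) * ph ν x y t * ((g⁻¹ : GL (Fin 2) F) : Matrix (Fin 2) (Fin 2) F)).trace = 0 := by
    rw [Matrix.trace_mul_comm, ← mul_assoc, Units.inv_mul, one_mul, Matrix.trace_fin_two]
    exact ph_tr h t
  rw [Matrix.trace_fin_two] at h1
  obtain ⟨s, hs⟩ := ph_surj h hν h2 _ h1
  exact ⟨s, by rw [hs, mul_assoc, Units.inv_mul, mul_one]⟩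

/-- the projective image of the stabilizer of a frame space -/
def KX (h : x ^ 2 + ν * y ^ 2 = -ν) (hν : ν ≠ 0) (h2 : (2 : F) ≠ 0) : Subgroup (GL (Fin 2) F) where
  carrier := {g | ∃ k ∈ X, ∃ ε : F, (ε = 1 ∨ ε = -1) ∧ ∀ t s, ph ν x y s * (g : Matrix (Fin 2) (Fin 2) F) =
    (g : Matrix (Fin 2) (Fin 2) F) * ph ν x y t → k (lin b t) = ε • lin b s}
  one_mem' := by
    refine ⟨1, one_mem _, 1, Or.inl rfl, fun t s hts => ?_⟩
    rw [Units.val_one, mul_one, one_mul] at hts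
    rw [ph_inj h hν h2 hts, one_smul]
    rfl
  mul_mem' := by
    rintro g g' ⟨k, hk, ε, hε, h3⟩ ⟨k', hk', ε', hε', h3'⟩
    refine ⟨k * k', mul_mem hk hk', ε * ε', ?_, fun t s hts => ?_⟩
    · rcases hε with rfl | rfl <;> rcases hε' with rfl | rfl <;> simp
    · obtain ⟨r, hr⟩ := exists_s h hν h2 g' t
      rw [Units.val_mul, mul_assoc _ _ (ph ν x y t), ← hr, ← mul_assoc, ← mul_assoc] at hts
      have h4 : ph ν x y s * (g : Matrix (Fin 2) (Fin 2) F) = (g : Matrix (Fin 2) (Fin 2) F) * ph ν x y r := by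
        have h5 := congrArg (fun M => M * ((g'⁻¹ : GL (Fin 2) F) : Matrix (Fin 2) (Fin 2) F)) hts
        simp only [mul_assoc, Units.mul_inv, mul_one] at h5
        exact h5
      change k (k' (lin b t)) = _
      rw [h3' _ _ hr, map_smul, h3 _ _ h4, smul_smul, mul_comm ε']
  inv_mem' := by
    rintro g ⟨k, hk, ε, hε, h3⟩
    refine ⟨k⁻¹, inv_mem hk, ε, hε, fun t s hts => ?_⟩
    have h4 : ph ν x y t * (g : Matrix (Fin 2) (Fin 2) F) = (g : Matrix (Fin 2) (Fin 2) F) * ph ν x y s := by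
      have h5 := congrArg (fun M => (g : Matrix (Fin 2) (Fin 2) F) * M * (g : Matrix (Fin 2) (Fin 2) F)) hts
      simp only [mul_assoc, Units.inv_mul, mul_one] at h5
      rw [← mul_assoc (g : Matrix (Fin 2) (Fin 2) F) ((g⁻¹ : GL (Fin 2) F) : Matrix (Fin 2) (Fin 2) F), Units.mul_inv, one_mul] at h5
      exact h5.symm
    have h5 := h3 _ _ h4
    change k.symm (lin b t) = _
    rw [LinearEquiv.symm_apply_eq, map_smul, h5, smul_smul]
    rcases hε with rfl | rfl <;> simp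

theorem mem_KX_iff (h : x ^ 2 + ν * y ^ 2 = -ν) (hν : ν ≠ 0) (h2 : (2 : F) ≠ 0) (g : GL (Fin 2) F) :
    g ∈ KX X b h hν h2 ↔ ∃ k ∈ X, ∃ ε : F, (ε = 1 ∨ ε = -1) ∧ ∀ t s, ph ν x y s * (g : Matrix (Fin 2) (Fin 2) F) =
    (g : Matrix (Fin 2) (Fin 2) F) * ph ν x y t → k (lin b t) = ε • lin b s := Iff.rfl

/-- the reflections of the frame space that are in `X` -/
def RF (ν : F) (r : Fin 3 → F) : Prop := ∃ k ∈ X, ∀ s : Fin 3 → F, k (lin b s) = lin b (s + (-(2 * bt ν r s)) • r)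

variable {X b}

theorem mem_KX_of_RF (h : x ^ 2 + ν * y ^ 2 = -ν) (hν : ν ≠ 0) (h2 : (2 : F) ≠ 0) {r : Fin 3 → F} (hr : bt ν r r = 1)
    (hd : (ph ν x y r).det ≠ 0) (hX : RF X b ν r) : G2 ν x y r hd ∈ KX X b h hν h2 := by
  obtain ⟨k, hk, h3⟩ := hX
  refine ⟨k, hk, -1, Or.inr rfl, fun t s hts => ?_⟩
  rw [coe_G2, ← ph_refl h hr] at hts
  have h4 : ph ν x y s = ph ν x y ((2 * bt ν r t) • r + (-1 : F) • t) := by
    have h5 := congrArg (fun M => M * (((G2 ν x y r hd)⁻¹ : GL (Fin 2) F) : Matrix (Fin 2) (Fin 2) F)) hts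
    simp only [mul_assoc, ← coe_G2 ν x y r hd, Units.mul_inv, mul_one] at h5
    exact h5
  rw [ph_inj h hν h2 h4, h3, ← lin_smul]
  congr 1
  rw [smul_add, smul_smul, smul_smul]
  module

theorem mem_KX_of_swap (h : x ^ 2 + ν * y ^ 2 = -ν) (hν : ν ≠ 0) (h2 : (2 : F) ≠ 0)
    (hX : ∃ k ∈ X, ∀ s : Fin 3 → F, k (lin b s) = lin b ![s 1, s 0, s 2]) :
    G2 ν x y ![1, -1, 0] (det_d h hν h2) ∈ KX X b h hν h2 := by
  obtain ⟨k, hk, h3⟩ := hX
  refine ⟨k, hk, -1, Or.inr rfl, fun t s hts => ?_⟩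
  rw [coe_G2, ← ph_swap h] at hts
  have h4 : ph ν x y s = ph ν x y ![-(t 1), -(t 0), -(t 2)] := by
    have h5 := congrArg (fun M => M * (((G2 ν x y ![1, -1, 0] (det_d h hν h2))⁻¹ : GL (Fin 2) F) : Matrix (Fin 2) (Fin 2) F)) hts
    simp only [mul_assoc, ← coe_G2 ν x y ![1, -1, 0] (det_d h hν h2), Units.mul_inv, mul_one] at h5
    exact h5
  rw [ph_inj h hν h2 h4, h3, ← lin_smul]
  congr 1
  ext i
  fin_cases i <;> simp

/-- the group is full -/
def FullK (K : Subgroup (GL (Fin 2) F)) : Prop :=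
  ∀ g : GL (Fin 2) F, (g : Matrix (Fin 2) (Fin 2) F).det = 1 → ∃ k ∈ K, ∃ l : F,
      (g : Matrix (Fin 2) (Fin 2) F) = l • (k : Matrix (Fin 2) (Fin 2) F)

theorem trans_of_full (h : x ^ 2 + ν * y ^ 2 = -ν) (hν : ν ≠ 0) (h2 : (2 : F) ≠ 0) (hf : FullK (KX X b h hν h2))
    {t s : Fin 3 → F} (ht : bt ν t t = bt ν s s) (h0 : bt ν s s ≠ 0) :
    ∃ k ∈ X, k (lin b t) = lin b s ∨ k (lin b t) = -lin b s := by
  obtain ⟨g, hg, hg2⟩ := exists_conj h hν h2 ht h0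
  obtain ⟨k', ⟨k, hk, ε, hε, h3⟩, l, hl⟩ := hf g hg
  have hl0 : l ≠ 0 := by
    rintro rfl
    rw [zero_smul] at hl
    rw [hl, Matrix.det_zero] at hg
    exact zero_ne_one hg
  rw [hl, mul_smul_comm, smul_mul_assoc] at hg2
  have h4 := smul_right_injective _ hl0 hg2
  have h5 := h3 _ _ h4
  refine ⟨k, hk, ?_⟩
  rcases hε with rfl | rfl
  · left; rw [h5, one_smul]
  · right; rw [h5, neg_one_smul]

/-- the three-dimensional lemma -/
theorem three' (hp : (Fintype.card F).Prime) (hν : ν ≠ 0) (h2 : (2 : F) ≠ 0) {t : Fin 3 → F} (ht0 : t 0 ≠ 0)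
    (ht1 : t 1 ≠ 0) (ht2 : t 2 ≠ 0) (ht : bt ν t t = 1) (hA : RF X b ν ![1, 0, 0]) (hB : RF X b ν ![0, 1, 0])
    (hC : RF X b ν t) :
    (∀ t s : Fin 3 → F, bt ν t t = bt ν s s → bt ν s s ≠ 0 → ∃ k ∈ X, k (lin b t) = lin b s ∨ k (lin b t) = -lin b s) ∨
    ((Gd (t 0) ∧ Gd (t 1)) ∧ ((∃ k ∈ X, ∀ s : Fin 3 → F, k (lin b s) = lin b ![s 1, s 0, s 2]) → 4 * t 0 ^ 2 = 1 ∧ 4 * t 1 ^ 2 = 1)) := by
  obtain ⟨x, y, hxy⟩ := Cfsg.Agent.Lib.LowOr.exists_two_form h2 (one_ne_zero) hν (-ν)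
  have h : x ^ 2 + ν * y ^ 2 = -ν := by rw [← hxy]; ring
  rcases three hp h hν h2 (KX X b h hν h2) ht0 ht1 ht2 ht (mem_KX_of_RF h hν h2 (by simp [bt]) _ hA)
    (mem_KX_of_RF h hν h2 (by simp [bt]) _ hB) (mem_KX_of_RF h hν h2 ht _ hC) with h3 | ⟨h3, h4⟩
  · left
    intro t s hts hs
    exact trans_of_full h hν h2 h3 hts hs
  · right
    exact ⟨h3, fun hD => h4 (mem_KX_of_swap h hν h2 hD)⟩

/-- the class in `PSL_2` -/
def toP (g : Matrix (Fin 2) (Fin 2) F) (hg : g.det = 1) : P2 F :=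
  QuotientGroup.mk (⟨g, hg⟩ : Matrix.SpecialLinearGroup (Fin 2) F)

theorem toPGL_toP (g : GL (Fin 2) F) (hg : (g : Matrix (Fin 2) (Fin 2) F).det = 1) :
    ProjectiveSpecialLinearGroup.toPGL (toP (g : Matrix (Fin 2) (Fin 2) F) hg) = Matrix.ProjGenLinGroup.mk g := by
  change Matrix.ProjGenLinGroup.mk _ = _
  congr 1
  exact Units.ext rfl

/-- all unit reflections generate -/
theorem full_of_unit (h4 : 4 ≤ Fintype.card F) (h : x ^ 2 + 1 * y ^ 2 = -1) (h2 : (2 : F) ≠ 0)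
    (K : Subgroup (GL (Fin 2) F)) (hK : ∀ r : Fin 3 → F, ∀ hr : bt 1 r r = 1,
      G2 1 x y r (det_ne h one_ne_zero (by rw [hr]; exact one_ne_zero)) ∈ K) : FullK K := by
  have hs := simple_P2 (F := F) h4
  obtain ⟨N, hN⟩ : ∃ N : Subgroup (GL (Fin 2) F), N = Subgroup.closure {g : GL (Fin 2) F | ∃ r : Fin 3 → F, bt 1 r r = 1 ∧
    (g : Matrix (Fin 2) (Fin 2) F) = ph 1 x y r} := ⟨_, rfl⟩
  have hNK : N ≤ K := by
    rw [hN, Subgroup.closure_le]
    rintro g ⟨r, hr, hg⟩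
    have : g = G2 1 x y r (det_ne h one_ne_zero (by rw [hr]; exact one_ne_zero)) := Units.ext hg
    rw [this]
    exact hK r hr
  have hconj : ∀ (S : GL (Fin 2) F), ∀ n ∈ N, S * n * S⁻¹ ∈ N := by
    intro S n hn
    have h5 : N ≤ N.comap (MulAut.conj S).toMonoidHom := by
      conv_lhs => rw [hN]
      rw [Subgroup.closure_le]
      rintro g ⟨r, hr, hg⟩
      change S * g * S⁻¹ ∈ N
      obtain ⟨s, hs⟩ := exists_s h one_ne_zero h2 S r
      have h6 : ((S * g * S⁻¹ : GL (Fin 2) F) : Matrix (Fin 2) (Fin 2) F) = ph 1 x y s := by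
        rw [Units.val_mul, Units.val_mul, hg, ← hs, mul_assoc, Units.mul_inv, mul_one]
      rw [hN]
      apply Subgroup.subset_closure
      refine ⟨s, ?_, h6⟩
      have h7 : (ph 1 x y s).det = (ph 1 x y r).det := by
        rw [← h6, Units.val_mul, Units.val_mul, hg, Matrix.det_mul, Matrix.det_mul, mul_right_comm, ← Matrix.det_mul,
          Units.mul_inv, Matrix.det_one, one_mul]
      rw [ph_det h, ph_det h, one_mul, one_mul] at h7
      rw [h7, hr]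
    exact h5 hn
  obtain ⟨Nb, hNb⟩ : ∃ Nb : Subgroup (P2 F), Nb = (N.map Matrix.ProjGenLinGroup.mk).comap
    (ProjectiveSpecialLinearGroup.toPGL) := ⟨_, rfl⟩
  have hnorm : Nb.Normal := by
    constructor
    intro n hn s
    rw [hNb, Subgroup.mem_comap] at hn ⊢
    obtain ⟨n', hn', hn2⟩ := hn
    obtain ⟨S, rfl⟩ := QuotientGroup.mk_surjective s
    rw [map_mul, map_mul, map_inv, ProjectiveSpecialLinearGroup.toPGL_mk, ← hn2, ← map_inv, ← map_mul, ← map_mul]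
    exact Subgroup.mem_map_of_mem _ (hconj _ _ hn')
  have hmem : ∀ g : GL (Fin 2) F, g ∈ N → ∀ hg : (g : Matrix (Fin 2) (Fin 2) F).det = 1,
      toP (g : Matrix (Fin 2) (Fin 2) F) hg ∈ Nb := by
    intro g hg hg1
    rw [hNb, Subgroup.mem_comap, toPGL_toP]
    exact ⟨g, hg, rfl⟩
  have hne : Nb ≠ ⊥ := by
    intro hbot
    have hd2 : (ph 1 x y ![0, 0, 1]).det = 1 := by rw [ph_det h]; simp [bt]
    obtain ⟨g, hg⟩ : ∃ g : GL (Fin 2) F, (g : Matrix (Fin 2) (Fin 2) F) = ph 1 x y ![0, 0, 1] :=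
      ⟨G2 1 x y ![0, 0, 1] (by rw [hd2]; exact one_ne_zero), rfl⟩
    have hgd : (g : Matrix (Fin 2) (Fin 2) F).det = 1 := by rw [hg, hd2]
    have h5 := hmem g (by
      rw [hN]
      apply Subgroup.subset_closure
      exact ⟨![0, 0, 1], by simp [bt], hg⟩) hgd
    rw [hbot, Subgroup.mem_bot] at h5
    have h6 := congrArg (ProjectiveSpecialLinearGroup.toPGL (n := Fin 2) (R := F)) h5
    rw [toPGL_toP, map_one] at h6
    obtain ⟨l, hl⟩ := (mk_eq_one_iff _).1 h6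
    rw [hg] at hl
    have h7 := congrFun (congrFun hl 0) 1
    have h8 := congrFun (congrFun hl 0) 0
    have h9 := congrFun (congrFun hl 1) 1
    simp [ph] at h7 h8 h9
    have hy : y = 0 := by
      have h10 : 2 * y = 0 := by linear_combination -h8 + h9
      exact (mul_eq_zero.1 h10).resolve_left h2
    rw [hy, h7] at h
    apply one_ne_zero (α := F)
    linear_combination h
  have htop : Nb = ⊤ := (IsSimpleGroup.eq_bot_or_eq_top_of_normal Nb hnorm).resolve_left hne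
  intro g hg
  have h5 : toP (g : Matrix (Fin 2) (Fin 2) F) hg ∈ Nb := by rw [htop]; trivial
  rw [hNb, Subgroup.mem_comap, toPGL_toP] at h5
  obtain ⟨k, hk, hk2⟩ := h5
  obtain ⟨l, hl⟩ := (mk_eq_mk_iff' _ _).1 hk2.symm
  exact ⟨k, hNK hk, l, hl⟩

end Cfsg.Agent.Lib.Rf
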