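import Mathlib
import Cfsg.Agent.Lib.Rf4

set_option autoImplicit false
set_option linter.unusedSectionVars false
set_option linter.unusedSimpArgs false

/-!
# Orbits of reflection groups containing the monomial group: basic closure properties (helper14)
-/

namespace Cfsg.Agent.Lib.Rf

open Matrix
open Equiv (Perm)

variable {ι : Type*} [Fintype ι] [DecidableEq ι] {F : Type*} [Field F] [Fintype F]

/-- the coordinate vector -/
def ei (i : ι) : ι → F := Pi.single i 1

theorem ei_dot (i : ι) (v : ι → F) : ei i ⬝ᵥ v = v i := by simp [ei]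
theorem dot_ei (i : ι) (v : ι → F) : v ⬝ᵥ ei i = v i := by simp [ei]
theorem ei_self (i : ι) : (ei i : ι → F) i = 1 := by simp [ei]
theorem ei_ne {i j : ι} (h : j ≠ i) : (ei i : ι → F) j = 0 := by simp [ei, h]

/-- overgroups of the monomial group -/
structure Sys (X : Subgroup ((ι → F) ≃ₗ[F] (ι → F))) : Prop where
  iso : ∀ h ∈ X, ∀ u v : ι → F, h u ⬝ᵥ h v = u ⬝ᵥ v
  rf : ∀ i, ∃ h ∈ X, ∀ w : ι → F, h w = w + (-(2 * w i)) • ei i
  alt : ∀ σ : Perm ι, Perm.sign σ = 1 → ∃ h ∈ X, ∀ w : ι → F, h w = w ∘ σ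

/-- the orbit of the coordinate vectors -/
def Ob (X : Subgroup ((ι → F) ≃ₗ[F] (ι → F))) : Set (ι → F) := {v | ∃ h ∈ X, ∃ i, h (ei i) = v}

variable {X : Subgroup ((ι → F) ≃ₗ[F] (ι → F))}

theorem ei_mem (i : ι) : ei i ∈ Ob X := ⟨1, one_mem _, i, rfl⟩

theorem map_mem {h : (ι → F) ≃ₗ[F] (ι → F)} (hh : h ∈ X) {v : ι → F} (hv : v ∈ Ob X) : h v ∈ Ob X := by
  obtain ⟨k, hk, i, rfl⟩ := hv
  exact ⟨h * k, mul_mem hh hk, i, rfl⟩

section
variable (S : Sys X)
include S

theorem norm_one {v : ι → F} (hv : v ∈ Ob X) : v ⬝ᵥ v = 1 := by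
  obtain ⟨k, hk, i, rfl⟩ := hv
  rw [S.iso k hk, ei_dot, ei_self]

theorem refl_mem {v : ι → F} (hv : v ∈ Ob X) : ∃ k ∈ X, ∀ w : ι → F, k w = w + (-(2 * (v ⬝ᵥ w))) • v := by
  obtain ⟨k, hk, i, rfl⟩ := hv
  obtain ⟨r, hr, hr2⟩ := S.rf i
  refine ⟨k * r * k⁻¹, mul_mem (mul_mem hk hr) (inv_mem hk), fun w => ?_⟩
  change k (r (k.symm w)) = _
  rw [hr2, map_add, map_smul, LinearEquiv.apply_symm_apply]
  congr 4
  rw [← ei_dot i (k.symm w), ← S.iso k hk, LinearEquiv.apply_symm_apply]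

theorem neg_mem' {v : ι → F} (hv : v ∈ Ob X) : -v ∈ Ob X := by
  obtain ⟨k, hk, h⟩ := refl_mem S hv
  have h1 := map_mem hk hv
  rw [h, norm_one S hv] at h1
  have : v + (-(2 * (1 : F))) • v = -v := by module
  rwa [this] at h1

theorem refl_mem' {v w : ι → F} (hv : v ∈ Ob X) (hw : w ∈ Ob X) : w + (-(2 * (v ⬝ᵥ w))) • v ∈ Ob X := by
  obtain ⟨k, hk, h⟩ := refl_mem S hv
  rw [← h]
  exact map_mem hk hw

theorem perm_mem {v : ι → F} (hv : v ∈ Ob X) {σ : Perm ι} (hσ : Perm.sign σ = 1) : v ∘ σ ∈ Ob X := by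
  obtain ⟨k, hk, h⟩ := S.alt σ hσ
  rw [← h]
  exact map_mem hk hv

/-- change of signs -/
def flp (T : Finset ι) (v : ι → F) : ι → F := fun i => if i ∈ T then -v i else v i

theorem flips (T : Finset ι) : ∃ h ∈ X, ∀ w : ι → F, h w = flp T w := by
  induction T using Finset.induction_on with
  | empty => exact ⟨1, one_mem _, fun w => by ext i; simp [flp]⟩
  | insert a T ha ih =>
    obtain ⟨h, hh, h1⟩ := ih
    obtain ⟨r, hr, h3⟩ := S.rf a
    refine ⟨r * h, mul_mem hr hh, fun w => ?_⟩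
    change r (h w) = _
    rw [h3, h1]
    ext i
    by_cases hi : i = a
    · subst hi
      simp [flp, ha, ei]
      ring
    · by_cases hiT : i ∈ T
      · simp only [flp, Pi.add_apply, Pi.smul_apply, hiT, Finset.mem_insert, or_true, if_true, ei_ne hi, smul_zero, add_zero]
      · simp only [flp, Pi.add_apply, Pi.smul_apply, hiT, Finset.mem_insert, or_false, hi, if_false, ei_ne hi, smul_zero, add_zero]

theorem flp_mem (T : Finset ι) {v : ι → F} (hv : v ∈ Ob X) : flp T v ∈ Ob X := by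
  obtain ⟨h, hh, h1⟩ := flips S T
  rw [← h1]
  exact map_mem hh hv

end

/-- natural numbers exhaust a prime field -/
theorem nat_surj (hp : (Fintype.card F).Prime) (z : F) : ∃ n : ℕ, (n : F) = z := by
  obtain ⟨p, hpF⟩ : ∃ p, p = Fintype.card F := ⟨_, rfl⟩
  have hpp : Fact p.Prime := ⟨hpF ▸ hp⟩
  have e := ZMod.ringEquivOfPrime F hpp.out hpF.symm
  refine ⟨(e.symm z).val, ?_⟩
  have h1 : e (((e.symm z).val : ℕ) : ZMod p) = z := by
    rw [ZMod.natCast_zmod_val, RingEquiv.apply_symm_apply]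
  rw [map_natCast] at h1
  exact h1

theorem lemT (S : Sys X) (hp : (Fintype.card F).Prime) (h2 : (2 : F) ≠ 0) {x y : ι → F} (hx : x ⬝ᵥ x = 1)
    (hxy : x ⬝ᵥ y = 0) (hy : y ⬝ᵥ y = 0) (h1 : x + y ∈ Ob X) (h1' : x - y ∈ Ob X) (a : F) : x + a • y ∈ Ob X := by
  have step : ∀ a b : F, x + a • y ∈ Ob X → x + b • y ∈ Ob X → x + (2 * a - b) • y ∈ Ob X := by
    intro a b ha hb
    have h3 := refl_mem' S ha hb
    have h4 : (x + a • y) ⬝ᵥ (x + b • y) = 1 := by
      simp only [add_dotProduct, dotProduct_add, smul_dotProduct, dotProduct_smul, smul_eq_mul, hx, hxy, hy,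
        dotProduct_comm y x]
      ring
    rw [h4] at h3
    have h5 := neg_mem' S h3
    have h6 : -(x + b • y + (-(2 * (1 : F))) • (x + a • y)) = x + (2 * a - b) • y := by module
    rwa [h6] at h5
  have key : ∀ n : ℕ, x + (2 * (n : F) - 1) • y ∈ Ob X ∧ x + (2 * (n : F) + 1) • y ∈ Ob X := by
    intro n
    induction n with
    | zero =>
      constructor
      · have : x + (2 * ((0 : ℕ) : F) - 1) • y = x - y := by push_cast; module
        rwa [this]
      · have : x + (2 * ((0 : ℕ) : F) + 1) • y = x + y := by push_cast; module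
        rwa [this]
    | succ n ih =>
      constructor
      · have h3 := ih.2
        have : (2 * ((n + 1 : ℕ) : F) - 1) = 2 * (n : F) + 1 := by push_cast; ring
        rwa [this]
      · have h3 := step _ _ ih.2 ih.1
        have : (2 * ((n + 1 : ℕ) : F) + 1) = 2 * (2 * (n : F) + 1) - (2 * (n : F) - 1) := by push_cast; ring
        rwa [this]
  obtain ⟨n, hn⟩ := nat_surj hp ((a - 1) / 2)
  have h3 := (key n).2
  rw [hn] at h3
  have : 2 * ((a - 1) / 2) + 1 = a := by field_simp; ring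
  rwa [this] at h3

section pair

/-- the rest of a vector -/
def rest (v : ι → F) (i j : ι) : ι → F := fun l => if l = i ∨ l = j then 0 else v l

theorem rest_i (v : ι → F) (i j : ι) : rest v i j i = 0 := by simp [rest]
theorem rest_j (v : ι → F) (i j : ι) : rest v i j j = 0 := by simp [rest]
theorem rest_ne (v : ι → F) {i j l : ι} (h1 : l ≠ i) (h2 : l ≠ j) : rest v i j l = v l := by simp [rest, h1, h2]

theorem dec (v : ι → F) {i j : ι} (hij : i ≠ j) : v = v i • ei i + v j • ei j + rest v i j := by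
  ext l
  by_cases h1 : l = i
  · subst h1; simp [rest, ei, hij]
  · by_cases h2 : l = j
    · subst h2; simp [rest, ei, h1]
    · simp [rest, ei, h1, h2]

/-- frame of a pair -/
def fr (v : ι → F) (i j : ι) : Fin 3 → (ι → F) := ![ei i, ei j, rest v i j]

theorem lin_fr (v : ι → F) (i j : ι) (t : Fin 3 → F) : lin (fr v i j) t = t 0 • ei i + t 1 • ei j + t 2 • rest v i j := rfl

theorem lin_dot (v : ι → F) {i j : ι} (hij : i ≠ j) (t s : Fin 3 → F) :
    lin (fr v i j) t ⬝ᵥ lin (fr v i j) s = bt (rest v i j ⬝ᵥ rest v i j) t s := by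
  simp only [lin_fr, add_dotProduct, dotProduct_add, smul_dotProduct, dotProduct_smul, smul_eq_mul, ei_dot, dot_ei, rest_i,
    rest_j, ei_self, ei_ne hij, ei_ne hij.symm, bt, Pi.add_apply, Pi.smul_apply]
  ring

theorem nu_eq (v : ι → F) {i j : ι} (hij : i ≠ j) : v ⬝ᵥ v = v i ^ 2 + v j ^ 2 + rest v i j ⬝ᵥ rest v i j := by
  have h := lin_dot v hij ![v i, v j, 1] ![v i, v j, 1]
  have h1 : lin (fr v i j) ![v i, v j, 1] = v := by
    rw [lin_fr]
    conv_rhs => rw [dec v hij]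
    simp
  rw [h1] at h
  rw [h]
  simp [bt]
  ring

theorem RF_of_mem (S : Sys X) {v : ι → F} {i j : ι} (hij : i ≠ j) {r : Fin 3 → F} (hr : lin (fr v i j) r ∈ Ob X) :
    RF X (fr v i j) (rest v i j ⬝ᵥ rest v i j) r := by
  obtain ⟨k, hk, h⟩ := refl_mem S hr
  refine ⟨k, hk, fun s => ?_⟩
  rw [h, lin_add, lin_smul, lin_dot v hij]

/-- the swap element -/
theorem exists_swap (S : Sys X) {v : ι → F} {i j : ι} (hij : i ≠ j) {k l : ι} (hkl : k ≠ l) (hki : k ≠ i) (hkj : k ≠ j)
    (hli : l ≠ i) (hlj : l ≠ j) (hv : v k ^ 2 = v l ^ 2) :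
    ∃ g ∈ X, ∀ s : Fin 3 → F, g (lin (fr v i j) s) = lin (fr v i j) ![s 1, s 0, s 2] := by
  have hs : Perm.sign (Equiv.swap i j * Equiv.swap k l) = 1 := by
    rw [map_mul, Perm.sign_swap hij, Perm.sign_swap hkl]; rfl
  obtain ⟨g, hg, h⟩ := S.alt _ hs
  have hi : (Equiv.swap i j * Equiv.swap k l) i = j := by
    rw [Perm.mul_apply, Equiv.swap_apply_of_ne_of_ne hki.symm hli.symm, Equiv.swap_apply_left]
  have hj : (Equiv.swap i j * Equiv.swap k l) j = i := by
    rw [Perm.mul_apply, Equiv.swap_apply_of_ne_of_ne hkj.symm hlj.symm, Equiv.swap_apply_right]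
  have hk : (Equiv.swap i j * Equiv.swap k l) k = l := by
    rw [Perm.mul_apply, Equiv.swap_apply_left, Equiv.swap_apply_of_ne_of_ne hli hlj]
  have hl : (Equiv.swap i j * Equiv.swap k l) l = k := by
    rw [Perm.mul_apply, Equiv.swap_apply_right, Equiv.swap_apply_of_ne_of_ne hki hkj]
  have hm : ∀ m, m ≠ i → m ≠ j → m ≠ k → m ≠ l → (Equiv.swap i j * Equiv.swap k l) m = m := by
    intro m h1 h2 h3 h4
    rw [Perm.mul_apply, Equiv.swap_apply_of_ne_of_ne h3 h4, Equiv.swap_apply_of_ne_of_ne h1 h2]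
  have hkl' : v k = v l ∨ v k = -v l := sq_eq_sq_iff_eq_or_eq_neg.1 hv
  rcases hkl' with h3 | h3
  · refine ⟨g, hg, fun s => ?_⟩
    rw [h]
    ext m
    simp only [Function.comp_apply, lin_fr, Pi.add_apply, Pi.smul_apply, smul_eq_mul]
    by_cases m1 : m = i
    · subst m1
      rw [hi, ei_ne hij.symm, ei_self, rest_j, rest_i, ei_self, ei_ne hij]
      simp
    by_cases m2 : m = j
    · subst m2
      rw [hj, ei_ne hij, ei_self, rest_j, rest_i, ei_self, ei_ne hij.symm]
      simp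
    by_cases m3 : m = k
    · subst m3
      rw [hk, ei_ne hki, ei_ne hkj, ei_ne hli, ei_ne hlj, rest_ne v hki hkj, rest_ne v hli hlj, h3]
      simp
    by_cases m4 : m = l
    · subst m4
      rw [hl, ei_ne hki, ei_ne hkj, ei_ne hli, ei_ne hlj, rest_ne v hki hkj, rest_ne v hli hlj, h3]
      simp
    rw [hm m m1 m2 m3 m4, ei_ne m1, ei_ne m2]
    simp
  · obtain ⟨g', hg', h'⟩ := flips S {k, l}
    refine ⟨g' * g, mul_mem hg' hg, fun s => ?_⟩
    change g' (g _) = _
    rw [h', h]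
    ext m
    simp only [flp, Finset.mem_insert, Finset.mem_singleton, Function.comp_apply, lin_fr, Pi.add_apply, Pi.smul_apply, smul_eq_mul]
    by_cases m1 : m = i
    · subst m1
      rw [if_neg (by tauto), hi, ei_ne hij.symm, ei_self, rest_j, rest_i, ei_self, ei_ne hij]
      simp
    by_cases m2 : m = j
    · subst m2
      rw [if_neg (by tauto), hj, ei_ne hij, ei_self, rest_j, rest_i, ei_self, ei_ne hij.symm]
      simp
    by_cases m3 : m = k
    · subst m3
      rw [if_pos (by tauto), hk, ei_ne hki, ei_ne hkj, ei_ne hli, ei_ne hlj, rest_ne v hki hkj, rest_ne v hli hlj, h3]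
      simp
    by_cases m4 : m = l
    · subst m4
      rw [if_pos (by tauto), hl, ei_ne hki, ei_ne hkj, ei_ne hli, ei_ne hlj, rest_ne v hki hkj, rest_ne v hli hlj, h3]
      simp
    rw [if_neg (by tauto), hm m m1 m2 m3 m4, ei_ne m1, ei_ne m2]
    simp

/-- **the pair lemma** -/
theorem pair (S : Sys X) (hp : (Fintype.card F).Prime) (h2 : (2 : F) ≠ 0) {v : ι → F} (hv : v ∈ Ob X) {i j : ι} (hij : i ≠ j)
    (hi : v i ≠ 0) (hj : v j ≠ 0) :
    (rest v i j ⬝ᵥ rest v i j = 0 ∧ ∀ a : F, (v i • ei i + v j • ei j) + a • rest v i j ∈ Ob X) ∨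
    (rest v i j ⬝ᵥ rest v i j ≠ 0 ∧ ∀ t, bt (rest v i j ⬝ᵥ rest v i j) t t = 1 → lin (fr v i j) t ∈ Ob X) ∨
    (Gd (v i) ∧ Gd (v j) ∧ ∀ k l, k ≠ l → k ≠ i → k ≠ j → l ≠ i → l ≠ j → v k ^ 2 = v l ^ 2 →
      4 * v i ^ 2 = 1 ∧ 4 * v j ^ 2 = 1) := by
  have hn := norm_one S hv
  by_cases hν : rest v i j ⬝ᵥ rest v i j = 0
  · left
    refine ⟨hν, ?_⟩
    apply lemT S hp h2
    · have h1 := nu_eq v hij
      rw [hν, hn] at h1
      simp only [add_dotProduct, dotProduct_add, smul_dotProduct, dotProduct_smul, smul_eq_mul, ei_dot, dot_ei,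
        ei_self, ei_ne hij, ei_ne hij.symm, Pi.add_apply, Pi.smul_apply]
      linear_combination -h1
    · simp only [add_dotProduct, smul_dotProduct, smul_eq_mul, ei_dot, rest_i, rest_j]
      ring
    · exact hν
    · rw [← dec v hij]; exact hv
    · have h1 := flp_mem S (Finset.univ \ {i, j}) hv
      have h3 : flp (Finset.univ \ {i, j}) v = v i • ei i + v j • ei j - rest v i j := by
        ext l
        by_cases m1 : l = i
        · subst m1; simp [flp, rest, ei, hij]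
        · by_cases m2 : l = j
          · subst m2; simp [flp, rest, ei, m1]
          · simp [flp, rest, ei, m1, m2]
      rwa [h3] at h1
  · right
    have ht : bt (rest v i j ⬝ᵥ rest v i j) ![v i, v j, 1] ![v i, v j, 1] = 1 := by
      have hn' := hn
      rw [nu_eq v hij] at hn'
      simp [bt]
      linear_combination hn'
    have e0 : lin (fr v i j) ![(1 : F), 0, 0] = ei i := by rw [lin_fr]; simp
    have e1 : lin (fr v i j) ![(0 : F), 1, 0] = ei j := by rw [lin_fr]; simp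
    have e3 : lin (fr v i j) ![v i, v j, 1] = v := by
      rw [lin_fr]
      conv_rhs => rw [dec v hij]
      simp
    rcases three' (X := X) (b := fr v i j) (t := ![v i, v j, 1]) hp hν h2 hi hj one_ne_zero ht
      (RF_of_mem S hij (by rw [e0]; exact ei_mem i)) (RF_of_mem S hij (by rw [e1]; exact ei_mem j))
      (RF_of_mem S hij (by rw [e3]; exact hv)) with h3 | ⟨⟨h3, h4⟩, h5⟩
    · left
      refine ⟨hν, fun t htt => ?_⟩
      obtain ⟨k, hk, h6⟩ := h3 ![1, 0, 0] t (by rw [htt]; simp [bt]) (by rw [htt]; exact one_ne_zero)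
      rw [e0] at h6
      rcases h6 with h6 | h6
      · rw [← h6]; exact map_mem hk (ei_mem i)
      · have h7 := neg_mem' S (map_mem hk (ei_mem (F := F) i))
        rw [h6, neg_neg] at h7
        exact h7
    · right
      refine ⟨h3, h4, fun k l hkl hki hkj hli hlj hkl2 => ?_⟩
      exact h5 (exists_swap S hij hkl hki hkj hli hlj hkl2)

end pair

end Cfsg.Agent.Lib.Rf
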