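import Mathlib
import Cfsg.Agent.Lib.Rf5

set_option autoImplicit false
set_option linter.unusedSectionVars false
set_option linter.unusedSimpArgs false

/-!
# Descent on the support (helper14)
-/

namespace Cfsg.Agent.Lib.Rf

open Matrix
open Equiv (Perm)

variable {ι : Type*} [Fintype ι] [DecidableEq ι] {F : Type*} [Field F] [Fintype F] [DecidableEq F]
variable {X : Subgroup ((ι → F) ≃ₗ[F] (ι → F))}

/-- support -/
def sup (v : ι → F) : Finset ι := Finset.univ.filter (fun i => v i ≠ 0)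

theorem mem_sup {v : ι → F} {i : ι} : i ∈ sup v ↔ v i ≠ 0 := by simp [sup]

theorem not_mem_sup {v : ι → F} {i : ι} : i ∉ sup v ↔ v i = 0 := by simp [sup]

/-- vectors of the orbit that are not monomial -/
def Good (X : Subgroup ((ι → F) ≃ₗ[F] (ι → F))) (v : ι → F) : Prop :=
  v ∈ Ob X ∧ 2 ≤ (sup v).card ∧ ¬ ((sup v).card = 2 ∧ ∀ i ∈ sup v, 2 * v i ^ 2 = 1)

/-- minimal support -/
def Min (X : Subgroup ((ι → F) ≃ₗ[F] (ι → F))) (v : ι → F) : Prop :=
  Good X v ∧ ∀ w, Good X w → (sup v).card ≤ (sup w).card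

theorem exists_min {v : ι → F} (hv : Good X v) : ∃ w, Min X w := by
  classical
  have h : ∃ n, ∃ w, Good X w ∧ (sup w).card = n := ⟨_, v, hv, rfl⟩
  obtain ⟨w, hw, hn⟩ := Nat.find_spec h
  refine ⟨w, hw, fun u hu => ?_⟩
  rw [hn]
  exact Nat.find_min' h ⟨u, hu, rfl⟩

theorem Min.of_card {v w : ι → F} (hv : Min X v) (hw : Good X w) (h : (sup w).card = (sup v).card) : Min X w :=
  ⟨hw, fun u hu => by rw [h]; exact hv.2 u hu⟩

theorem good_of_three {v : ι → F} (hv : v ∈ Ob X) (h : 3 ≤ (sup v).card) : Good X v :=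
  ⟨hv, by omega, fun h1 => by omega⟩

theorem no_sqrt_five (hp : (Fintype.card F).Prime) (h5 : (5 : F) = 0) (s : F) : 2 * s ^ 2 ≠ 1 := by
  obtain ⟨n, rfl⟩ := nat_surj hp s
  have h2 : (2 : F) ≠ 0 := by
    intro h
    apply one_ne_zero (α := F)
    linear_combination h5 - 2 * h
  have h3 : (3 : F) ≠ 0 := by
    intro h
    apply one_ne_zero (α := F)
    linear_combination 2 * h - h5
  have hn : (n : F) = ((n % 5 : ℕ) : F) := by
    conv_lhs => rw [← Nat.div_add_mod n 5]
    push_cast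
    linear_combination ((n / 5 : ℕ) : F) * h5
  rw [hn]
  have hlt : n % 5 < 5 := Nat.mod_lt _ (by norm_num)
  intro h
  interval_cases n % 5
  · push_cast at h
    apply one_ne_zero (α := F)
    linear_combination -h
  · push_cast at h
    apply one_ne_zero (α := F)
    linear_combination h
  · push_cast at h
    apply h2
    linear_combination h - h5
  · push_cast at h
    apply h2
    linear_combination h - 3 * h5
  · push_cast at h
    apply one_ne_zero (α := F)
    linear_combination h - 6 * h5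

theorem conic (h2 : (2 : F) ≠ 0) (h3 : (3 : F) ≠ 0) (ν : F) :
    ∃ α γ : F, α ^ 2 + ν * γ ^ 2 = 1 ∧ γ ≠ 0 ∧ (α ≠ 0 ∨ (5 : F) = 0) := by
  have key : ∀ t : F, t ≠ 0 → 1 + ν * t ^ 2 ≠ 0 → (1 - ν * t ^ 2 ≠ 0 ∨ (5 : F) = 0) →
      ∃ α γ : F, α ^ 2 + ν * γ ^ 2 = 1 ∧ γ ≠ 0 ∧ (α ≠ 0 ∨ (5 : F) = 0) := by
    intro t ht h1 h4
    refine ⟨(1 - ν * t ^ 2) / (1 + ν * t ^ 2), 2 * t / (1 + ν * t ^ 2), ?_, ?_, ?_⟩
    · field_simp
      ring
    · exact div_ne_zero (mul_ne_zero h2 ht) h1
    · rcases h4 with h4 | h4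
      · exact Or.inl (div_ne_zero h4 h1)
      · exact Or.inr h4
  by_cases h5 : (5 : F) = 0
  · by_cases h1 : 1 + ν * 1 ^ 2 = 0
    · apply key 2 h2 _ (Or.inr h5)
      intro h6
      apply h3
      linear_combination 4 * h1 - h6
    · exact key 1 one_ne_zero h1 (Or.inr h5)
  · by_cases h1 : 1 + ν * 1 ^ 2 = 0
    · apply key 2 h2
      · intro h6
        apply h3
        linear_combination 4 * h1 - h6
      · left
        intro h6
        apply h5
        linear_combination 4 * h1 + h6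
    · by_cases h1' : 1 - ν * 1 ^ 2 = 0
      · apply key 2 h2
        · intro h6
          apply h5
          linear_combination 4 * h1' + h6
        · left
          intro h6
          apply h3
          linear_combination 4 * h1' - h6
      · exact key 1 one_ne_zero h1 (Or.inl h1')

section desc
variable (S : Sys X) (hp : (Fintype.card F).Prime) (h2 : (2 : F) ≠ 0) (h3 : (3 : F) ≠ 0)
include S hp h2 h3

/-- the full case contradicts minimality -/
theorem not_full {v : ι → F} (hv : Min X v) (hk : 4 ≤ (sup v).card) {i j : ι} (hij : i ≠ j) (hi : v i ≠ 0) (hj : v j ≠ 0)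
    (hν : rest v i j ⬝ᵥ rest v i j ≠ 0)
    (h : ∀ t, bt (rest v i j ⬝ᵥ rest v i j) t t = 1 → lin (fr v i j) t ∈ Ob X) : False := by
  obtain ⟨α, γ, h1, hγ, hα⟩ := conic h2 h3 (rest v i j ⬝ᵥ rest v i j)
  obtain ⟨z, hz⟩ : ∃ z, z = lin (fr v i j) ![α, 0, γ] := ⟨_, rfl⟩
  have hzO : z ∈ Ob X := by
    rw [hz]
    apply h
    simp [bt]
    linear_combination h1
  have zi : z i = α := by
    rw [hz, lin_fr]
    simp [ei_self, ei_ne hij, rest_i]
  have zj : z j = 0 := by
    rw [hz, lin_fr]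
    simp [ei_self, ei_ne hij.symm, rest_j]
  have zl : ∀ l, l ≠ i → l ≠ j → z l = γ * v l := by
    intro l h4 h5
    rw [hz, lin_fr]
    simp [ei_ne h4, ei_ne h5, rest_ne v h4 h5]
  have hc : (((sup v).erase i).erase j).card = (sup v).card - 2 := by
    rw [Finset.card_erase_of_mem, Finset.card_erase_of_mem]
    · omega
    · exact mem_sup.2 hi
    · exact Finset.mem_erase.2 ⟨hij.symm, mem_sup.2 hj⟩
  by_cases ha : α = 0
  · have hs : sup z = ((sup v).erase i).erase j := by
      ext l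
      rw [mem_sup, Finset.mem_erase, Finset.mem_erase, mem_sup]
      by_cases h4 : l = i
      · subst h4; simp [zi, ha]
      · by_cases h5 : l = j
        · subst h5; simp [zj]
        · rw [zl l h4 h5]; simp [h4, h5, hγ]
    have hg : Good X z := by
      refine ⟨hzO, by rw [hs, hc]; omega, ?_⟩
      rintro ⟨h4, h5⟩
      have h6 : (sup z).Nonempty := by rw [← Finset.card_pos]; omega
      obtain ⟨l, hl⟩ := h6
      exact no_sqrt_five hp (hα.resolve_left (by simpa using ha)) _ (h5 l hl)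
    have := hv.2 z hg
    rw [hs, hc] at this
    omega
  · have hs : sup z = insert i (((sup v).erase i).erase j) := by
      ext l
      rw [mem_sup, Finset.mem_insert, Finset.mem_erase, Finset.mem_erase, mem_sup]
      by_cases h4 : l = i
      · subst h4; simp [zi, ha]
      · by_cases h5 : l = j
        · subst h5; simp [zj, h4]
        · rw [zl l h4 h5]; simp [h4, h5, hγ]
    have hcs : (sup z).card = (sup v).card - 1 := by
      rw [hs, Finset.card_insert_of_notMem (by simp), hc]; omega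
    have := hv.2 z (good_of_three hzO (by omega))
    omega

/-- the degenerate case -/
theorem sing_case {v : ι → F} (hv : Min X v) (hk : 4 ≤ (sup v).card) {i j : ι} (hij : i ≠ j) (hi : v i ≠ 0) (hj : v j ≠ 0)
    (h : ∀ a : F, (v i • ei i + v j • ei j) + a • rest v i j ∈ Ob X) : 2 * v i ^ 2 = 1 ∧ 2 * v j ^ 2 = 1 := by
  obtain ⟨z, hz⟩ : ∃ z : ι → F, z = v i • ei i + v j • ei j := ⟨_, rfl⟩
  have hzO : z ∈ Ob X := by
    have := h 0
    rwa [zero_smul, add_zero, ← hz] at this
  have hs : sup z = {i, j} := by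
    ext l
    rw [mem_sup, Finset.mem_insert, Finset.mem_singleton, hz]
    by_cases h4 : l = i
    · subst h4; simp [ei_self, ei_ne hij, hi]
    · by_cases h5 : l = j
      · subst h5; simp [ei_self, ei_ne h4, hj, h4]
      · simp [ei_ne h4, ei_ne h5, h4, h5]
  have hc : (sup z).card = 2 := by rw [hs, Finset.card_pair hij]
  by_contra hcon
  have hg : Good X z := by
    refine ⟨hzO, by omega, ?_⟩
    rintro ⟨-, h5⟩
    apply hcon
    have h6 := h5 i (by rw [hs]; simp)
    have h7 := h5 j (by rw [hs]; simp)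
    rw [hz] at h6 h7
    simp [ei_self, ei_ne hij, ei_ne hij.symm] at h6 h7
    exact ⟨h6, h7⟩
  have := hv.2 z hg
  omega

theorem not_sing {v : ι → F} (hv : Min X v) (hk : 4 ≤ (sup v).card) {i j : ι} (hij : i ≠ j) (hi : v i ≠ 0) (hj : v j ≠ 0)
    (h : ∀ a : F, (v i • ei i + v j • ei j) + a • rest v i j ∈ Ob X) : False := by
  have h1 := sing_case S hp h2 h3 hv hk hij hi hj h
  obtain ⟨T, hT, hTc⟩ := Finset.exists_subset_card_eq (s := ((sup v).erase i).erase j) (n := 2) (by
    rw [Finset.card_erase_of_mem, Finset.card_erase_of_mem]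
    · omega
    · exact mem_sup.2 hi
    · exact Finset.mem_erase.2 ⟨hij.symm, mem_sup.2 hj⟩)
  obtain ⟨l, m, hlm, rfl⟩ := Finset.card_eq_two.1 hTc
  have hl := hT (Finset.mem_insert_self l _)
  have hm := hT (Finset.mem_insert_of_mem (Finset.mem_singleton_self m))
  rw [Finset.mem_erase, Finset.mem_erase, mem_sup] at hl hm
  have key : ∀ a : F, a ≠ 0 → 2 * (a ^ 2 * v l ^ 2) = 1 ∨ 4 * (a ^ 2 * v l ^ 2) = 1 := by
    intro a ha
    obtain ⟨w, hw⟩ : ∃ w : ι → F, w = (v i • ei i + v j • ei j) + a • rest v i j := ⟨_, rfl⟩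
    have hwO : w ∈ Ob X := by rw [hw]; exact h a
    have wi : w i = v i := by rw [hw]; simp [ei_self, ei_ne hij, rest_i]
    have wj : w j = v j := by rw [hw]; simp [ei_self, ei_ne hij.symm, rest_j]
    have wl : ∀ l, l ≠ i → l ≠ j → w l = a * v l := by
      intro l h4 h5
      rw [hw]
      simp [ei_ne h4, ei_ne h5, rest_ne v h4 h5]
    have hs : sup w = sup v := by
      ext r
      rw [mem_sup, mem_sup]
      by_cases h4 : r = i
      · rw [h4, wi]
      · by_cases h5 : r = j
        · rw [h5, wj]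
        · rw [wl r h4 h5]; simp [ha]
    have hg : Good X w := ⟨hwO, by rw [hs]; omega, fun h4 => by rw [hs] at h4; omega⟩
    have hmin : Min X w := hv.of_card hg (by rw [hs])
    have hk' : 4 ≤ (sup w).card := by rw [hs]; exact hk
    have hwl : w l ≠ 0 := by rw [wl l hl.2.1 hl.1]; exact mul_ne_zero ha hl.2.2
    have hwm : w m ≠ 0 := by rw [wl m hm.2.1 hm.1]; exact mul_ne_zero ha hm.2.2
    rcases pair S hp h2 hwO hlm hwl hwm with ⟨-, h6⟩ | ⟨h5, h6⟩ | ⟨-, -, h6⟩
    · have := (sing_case S hp h2 h3 hmin hk' hlm hwl hwm h6).1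
      rw [wl l hl.2.1 hl.1] at this
      left
      linear_combination this
    · exact (not_full S hp h2 h3 hmin hk' hlm hwl hwm h5 h6).elim
    · have := (h6 i j hij hl.2.1.symm hm.2.1.symm hl.1.symm hm.1.symm (by
        rw [wi, wj]
        apply mul_left_cancel₀ h2
        rw [h1.1, h1.2])).1
      rw [wl l hl.2.1 hl.1] at this
      right
      linear_combination this
  have k1 := key 1 one_ne_zero
  have k2 := key 2 h2
  have k3 := key 3 h3
  obtain ⟨s, hs⟩ : ∃ s, s = v l ^ 2 := ⟨_, rfl⟩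
  rw [← hs] at k1 k2 k3
  rcases k1 with k1 | k1
  · rcases k2 with k2 | k2
    · apply h3; linear_combination k2 - 4 * k1
    · have h7 : (7 : F) = 0 := by linear_combination k2 - 8 * k1
      rcases k3 with k3 | k3
      · apply h2
        have h8 : (8 : F) = 0 := by linear_combination k3 - 9 * k1
        linear_combination h8 * 2 - 2 * h7
      · apply h3
        have h17 : (17 : F) = 0 := by linear_combination k3 - 18 * k1
        linear_combination h17 - 2 * h7
  · rcases k2 with k2 | k2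
    · apply one_ne_zero (α := F); linear_combination k2 - 2 * k1
    · apply h3; linear_combination k2 - 4 * k1

theorem min_pair {v : ι → F} (hv : Min X v) (hk : 4 ≤ (sup v).card) {i j : ι} (hij : i ≠ j) (hi : v i ≠ 0) (hj : v j ≠ 0) :
    (Gd (v i) ∧ Gd (v j) ∧ ∀ k l, k ≠ l → k ≠ i → k ≠ j → l ≠ i → l ≠ j → v k ^ 2 = v l ^ 2 →
      4 * v i ^ 2 = 1 ∧ 4 * v j ^ 2 = 1) := by
  rcases pair S hp h2 hv.1.1 hij hi hj with ⟨-, h6⟩ | ⟨h5, h6⟩ | h6
  · exact (not_sing S hp h2 h3 hv hk hij hi hj h6).elim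
  · exact (not_full S hp h2 h3 hv hk hij hi hj h5 h6).elim
  · exact h6

omit S hp h2 h3 in
theorem exists_eq_sq {v : ι → F} (T : Finset ι) (hT : ∀ i ∈ T, Gd (v i)) (hc : 5 ≤ T.card) :
    ∃ k ∈ T, ∃ l ∈ T, k ≠ l ∧ v k ^ 2 = v l ^ 2 := by
  classical
  obtain ⟨P, hP⟩ : ∃ P : Polynomial F, P = (Polynomial.C 4 * Polynomial.X - 1) * (Polynomial.C 2 * Polynomial.X - 1) *
    (Polynomial.C 16 * Polynomial.X ^ 2 - Polynomial.C 12 * Polynomial.X + 1) := ⟨_, rfl⟩
  have hP0 : P ≠ 0 := by
    intro h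
    have := congrArg (Polynomial.eval 0) h
    rw [hP] at this
    simp at this
  have hdeg : P.natDegree ≤ 4 := by
    rw [hP]
    compute_degree
  have hm : Set.MapsTo (fun i => v i ^ 2) (T : Set ι) (P.roots.toFinset : Set F) := by
    intro i hi
    rw [Finset.mem_coe, Multiset.mem_toFinset, Polynomial.mem_roots hP0, Polynomial.IsRoot, hP]
    simp only [Polynomial.eval_mul, Polynomial.eval_sub, Polynomial.eval_add, Polynomial.eval_one, Polynomial.eval_C,
      Polynomial.eval_X, Polynomial.eval_pow]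
    rcases hT i hi with h | h | h
    · rw [h]; ring
    · rw [h]; ring
    · have : 16 * (v i ^ 2) ^ 2 - 12 * v i ^ 2 + 1 = 0 := by linear_combination h
      rw [this, mul_zero]
  have hlt : P.roots.toFinset.card < T.card := by
    calc P.roots.toFinset.card ≤ Multiset.card P.roots := Multiset.toFinset_card_le _
      _ ≤ P.natDegree := Polynomial.card_roots' _
      _ ≤ 4 := hdeg
      _ < T.card := by omega
  obtain ⟨k, hk, l, hl, hkl, h⟩ := Finset.exists_ne_map_eq_of_card_lt_of_maps_to hlt hm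
  exact ⟨k, hk, l, hl, hkl, h⟩

theorem min_quarter (hn : 7 ≤ Fintype.card ι) {v : ι → F} (hv : Min X v) (hk : 4 ≤ (sup v).card) :
    ∀ i ∈ sup v, 4 * v i ^ 2 = 1 := by
  have P := fun {i j : ι} (hij : i ≠ j) (hi : i ∈ sup v) (hj : j ∈ sup v) =>
    min_pair S hp h2 h3 hv hk hij (mem_sup.1 hi) (mem_sup.1 hj)
  have other : ∀ (T : Finset ι) (i : ι), 2 ≤ T.card → ∃ j ∈ T, j ≠ i := by
    intro T i hT
    obtain ⟨j, hj⟩ : (T.erase i).Nonempty := by
      rw [← Finset.card_pos]
      have := Finset.pred_card_le_card_erase (s := T) (a := i)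
      omega
    rw [Finset.mem_erase] at hj
    exact ⟨j, hj.2, hj.1⟩
  by_cases hc : (sup v).card ≤ Fintype.card ι - 2
  · obtain ⟨T, hT, hTc⟩ := Finset.exists_subset_card_eq (s := (sup v)ᶜ) (n := 2) (by rw [Finset.card_compl]; omega)
    obtain ⟨k, l, hkl, rfl⟩ := Finset.card_eq_two.1 hTc
    have hk' := Finset.mem_compl.1 (hT (Finset.mem_insert_self k _))
    have hl' := Finset.mem_compl.1 (hT (Finset.mem_insert_of_mem (Finset.mem_singleton_self l)))
    intro i hi
    obtain ⟨j, hj, hji⟩ := other (sup v) i (by omega)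
    refine ((P hji.symm hi hj).2.2 k l hkl ?_ ?_ ?_ ?_ ?_).1
    · rintro rfl; exact hk' hi
    · rintro rfl; exact hk' hj
    · rintro rfl; exact hl' hi
    · rintro rfl; exact hl' hj
    · rw [not_mem_sup.1 hk', not_mem_sup.1 hl']
  · have h6 : 6 ≤ (sup v).card := by omega
    have hGd : ∀ i ∈ sup v, Gd (v i) := by
      intro i hi
      obtain ⟨j, hj, hji⟩ := other (sup v) i (by omega)
      exact (P hji.symm hi hj).1
    obtain ⟨k, hk', l, hl', hkl, hkl2⟩ := exists_eq_sq (sup v) hGd (by omega)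
    have hcard : (((sup v).erase k).erase l).card = (sup v).card - 2 := by
      rw [Finset.card_erase_of_mem, Finset.card_erase_of_mem]
      · omega
      · exact hk'
      · exact Finset.mem_erase.2 ⟨hkl.symm, hl'⟩
    have h7 : ∀ i ∈ ((sup v).erase k).erase l, 4 * v i ^ 2 = 1 := by
      intro i hi
      obtain ⟨j, hj, hji⟩ := other _ i (by rw [hcard]; omega)
      rw [Finset.mem_erase, Finset.mem_erase] at hi hj
      exact ((P hji.symm hi.2.2 hj.2.2).2.2 k l hkl hi.2.1.symm hj.2.1.symm hi.1.symm hj.1.symm hkl2).1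
    obtain ⟨T, hT, hTc⟩ := Finset.exists_subset_card_eq (s := ((sup v).erase k).erase l) (n := 2) (by rw [hcard]; omega)
    obtain ⟨k', l', hkl', rfl⟩ := Finset.card_eq_two.1 hTc
    have hk1 := (hT (Finset.mem_insert_self k' _))
    have hl1 := (hT (Finset.mem_insert_of_mem (Finset.mem_singleton_self l')))
    have hk2 := h7 k' hk1
    have hl2 := h7 l' hl1
    rw [Finset.mem_erase, Finset.mem_erase] at hk1 hl1
    have h4 : (4 : F) ≠ 0 := by
      intro h
      apply mul_ne_zero h2 h2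
      linear_combination h
    have heq : v k' ^ 2 = v l' ^ 2 := mul_left_cancel₀ h4 (by rw [hk2, hl2])
    intro i hi
    by_cases hik : i = k
    · subst hik
      exact ((P hkl hi hl').2.2 k' l' hkl' hk1.2.1 hk1.1 hl1.2.1 hl1.1 heq).1
    · by_cases hil : i = l
      · subst hil
        exact ((P hkl.symm hi hk').2.2 k' l' hkl' hk1.1 hk1.2.1 hl1.1 hl1.2.1 heq).1
      · exact h7 i (Finset.mem_erase.2 ⟨hil, Finset.mem_erase.2 ⟨hik, hi⟩⟩)

end desc

end Cfsg.Agent.Lib.Rf
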