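import Mathlib
import Cfsg.Agent.Lib.Rf6

set_option autoImplicit false
set_option linter.unusedSectionVars false
set_option linter.unusedSimpArgs false

/-!
# Descent on the support: supports of size at least four, existence of vectors of weight three (helper14)
-/

namespace Cfsg.Agent.Lib.Rf

open Matrix
open Equiv (Perm)

variable {ι : Type*} [Fintype ι] [DecidableEq ι] {F : Type*} [Field F] [Fintype F] [DecidableEq F]
variable {X : Subgroup ((ι → F) ≃ₗ[F] (ι → F))}

/-- restriction of a vector to a set of coordinates -/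
def res (T : Finset ι) (v : ι → F) : ι → F := fun i => if i ∈ T then v i else 0

theorem dot_sum_sup (v : ι → F) : v ⬝ᵥ v = ∑ i ∈ sup v, v i ^ 2 := by
  rw [dotProduct, ← Finset.sum_subset (Finset.subset_univ (sup v))]
  · exact Finset.sum_congr rfl fun i _ => by ring
  · intro i _ hi
    rw [not_mem_sup.1 hi, mul_zero]

theorem res_dot (T : Finset ι) (v : ι → F) : res T v ⬝ᵥ res T v = ∑ i ∈ T, v i ^ 2 := by
  rw [dotProduct, ← Finset.sum_subset (Finset.subset_univ T)]
  · exact Finset.sum_congr rfl fun i hi => by simp [res, hi]; ring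
  · intro i _ hi
    simp [res, hi]

theorem sup_res {T : Finset ι} {v : ι → F} (hT : T ⊆ sup v) : sup (res T v) = T := by
  ext i
  rw [mem_sup]
  by_cases hi : i ∈ T
  · simp [res, hi, mem_sup.1 (hT hi)]
  · simp [res, hi]

/-- cutting a singular part -/
theorem cut (S : Sys X) (hp : (Fintype.card F).Prime) (h2 : (2 : F) ≠ 0) {v : ι → F} (hv : v ∈ Ob X) (T : Finset ι)
    (hT : ∑ i ∈ T, v i ^ 2 = 1) : res T v ∈ Ob X := by
  have h1 : v = res T v + res Tᶜ v := by
    ext i
    by_cases hi : i ∈ T <;> simp [res, hi]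
  have h3 : res T v ⬝ᵥ res T v = 1 := by rw [res_dot, hT]
  have h4 : res T v ⬝ᵥ res Tᶜ v = 0 := by
    rw [dotProduct]
    apply Finset.sum_eq_zero
    intro i _
    by_cases hi : i ∈ T <;> simp [res, hi]
  have h5 : res Tᶜ v ⬝ᵥ res Tᶜ v = 0 := by
    have h6 := norm_one S hv
    rw [h1, add_dotProduct, dotProduct_add, dotProduct_add, dotProduct_comm (res Tᶜ v) (res T v), h3, h4] at h6
    linear_combination h6
  have h7 := lemT S hp h2 h3 h4 h5 (by rw [← h1]; exact hv) (by
    have h8 := flp_mem S Tᶜ hv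
    have h9 : flp Tᶜ v = res T v - res Tᶜ v := by
      ext i
      by_cases hi : i ∈ T <;> simp [res, flp, hi]
    rwa [h9] at h8) 0
  rwa [zero_smul, add_zero] at h7

section
variable (S : Sys X) (hp : (Fintype.card F).Prime) (h2 : (2 : F) ≠ 0) (h3 : (3 : F) ≠ 0) (hn : 7 ≤ Fintype.card ι)
include S hp h2 h3 hn

theorem min_le_three {v : ι → F} (hv : Min X v) : (sup v).card ≤ 3 := by
  by_contra hk
  have hk4 : 4 ≤ (sup v).card := by omega
  have hq := min_quarter S hp h2 h3 hn hv hk4
  have h4 : (4 : F) ≠ 0 := by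
    intro h
    apply mul_ne_zero h2 h2
    linear_combination h
  -- the support has size four
  have hk5 : (sup v).card = 4 := by
    obtain ⟨T, hT, hTc⟩ := Finset.exists_subset_card_eq (s := sup v) (n := 4) hk4
    have h5 : ∑ i ∈ T, v i ^ 2 = 1 := by
      have h6 : ∀ i ∈ T, v i ^ 2 = 1 / 4 := by
        intro i hi
        rw [eq_div_iff h4, mul_comm]
        exact hq i (hT hi)
      rw [Finset.sum_congr rfl h6, Finset.sum_const, hTc]
      simp
      field_simp
    have h6 := cut S hp h2 hv.1.1 T h5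
    have h7 := hv.2 _ (good_of_three h6 (by rw [sup_res hT]; omega))
    rw [sup_res hT] at h7
    omega
  -- change signs
  obtain ⟨h, hh⟩ : ∃ h : F, 2 * h = 1 := ⟨1 / 2, by field_simp⟩
  have hh0 : h ≠ 0 := by rintro rfl; simp at hh
  obtain ⟨u, hu⟩ : ∃ u : ι → F, u = fun i => if i ∈ sup v then h else 0 := ⟨_, rfl⟩
  have huO : u ∈ Ob X := by
    have h5 := flp_mem S (Finset.univ.filter (fun i => v i = -h)) hv.1.1
    have h6 : flp (Finset.univ.filter (fun i => v i = -h)) v = u := by
      ext i
      rw [hu]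
      by_cases hi : i ∈ sup v
      · have h7 := hq i hi
        have h8 : (v i - h) * (v i + h) = 0 := by
          apply mul_left_cancel₀ h4
          linear_combination h7 - (2 * h + 1) * hh
        simp only [flp, Finset.mem_filter, Finset.mem_univ, true_and, hi, if_true]
        rcases mul_eq_zero.1 h8 with h9 | h9
        · rw [sub_eq_zero.1 h9]
          by_cases h10 : h = -h
          · rw [if_pos h10]; exact h10.symm
          · rw [if_neg h10]
        · rw [eq_neg_of_add_eq_zero_left h9]
          simp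
      · have h7 := not_mem_sup.1 hi
        simp [flp, hi, h7]
    rwa [h6] at h5
  obtain ⟨s, hs⟩ : ∃ s, s = sup v := ⟨_, rfl⟩
  rw [← hs] at hk5 hu
  -- elements
  obtain ⟨a, hsa⟩ : ∃ a, a ∈ s := by
    have : s.Nonempty := by rw [← Finset.card_pos]; omega
    exact this
  obtain ⟨b, c, e, hbc, hbe, hce, hse⟩ := Finset.card_eq_three.1 (show (s.erase a).card = 3 by rw [Finset.card_erase_of_mem hsa]; omega)
  have hb : b ∈ s.erase a := by rw [hse]; simp
  have hc : c ∈ s.erase a := by rw [hse]; simp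
  have he : e ∈ s.erase a := by rw [hse]; simp
  rw [Finset.mem_erase] at hb hc he
  have hsmem : ∀ m, m ∈ s ↔ m = a ∨ m = b ∨ m = c ∨ m = e := by
    intro m
    by_cases hm : m = a
    · subst hm; simp [hsa]
    · have : m ∈ s ↔ m ∈ s.erase a := by rw [Finset.mem_erase]; tauto
      rw [this, hse]
      simp [hm]
  obtain ⟨T, hT, hTc⟩ := Finset.exists_subset_card_eq (s := sᶜ) (n := 2) (by rw [Finset.card_compl]; omega)
  obtain ⟨x, y, hxy, rfl⟩ := Finset.card_eq_two.1 hTc
  have hx := Finset.mem_compl.1 (hT (Finset.mem_insert_self x _))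
  have hy := Finset.mem_compl.1 (hT (Finset.mem_insert_of_mem (Finset.mem_singleton_self y)))
  have hxa : x ≠ a := by rintro rfl; exact hx hsa
  have hxb : x ≠ b := by rintro rfl; exact hx hb.2
  have hxc : x ≠ c := by rintro rfl; exact hx hc.2
  have hxe : x ≠ e := by rintro rfl; exact hx he.2
  have hya : y ≠ a := by rintro rfl; exact hy hsa
  have hyb : y ≠ b := by rintro rfl; exact hy hb.2
  have hyc : y ≠ c := by rintro rfl; exact hy hc.2
  have hye : y ≠ e := by rintro rfl; exact hy he.2
  have hsg : Perm.sign (Equiv.swap x a * Equiv.swap a y) = 1 := by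
    rw [map_mul, Perm.sign_swap hxa, Perm.sign_swap hya.symm]; rfl
  obtain ⟨w, hw⟩ : ∃ w : ι → F, w = u ∘ (Equiv.swap x a * Equiv.swap a y) := ⟨_, rfl⟩
  have hwO : w ∈ Ob X := by rw [hw]; exact perm_mem S huO hsg
  have hwx : w x = h := by
    rw [hw, Function.comp_apply, Perm.mul_apply, Equiv.swap_apply_of_ne_of_ne hxa hxy, Equiv.swap_apply_left, hu]
    simp [hsa]
  have hwa : w a = 0 := by
    rw [hw, Function.comp_apply, Perm.mul_apply, Equiv.swap_apply_left, Equiv.swap_apply_of_ne_of_ne hxy.symm hya, hu]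
    simp [hy]
  have hwy : w y = 0 := by
    rw [hw, Function.comp_apply, Perm.mul_apply, Equiv.swap_apply_right, Equiv.swap_apply_right, hu]
    simp [hx]
  have hwo : ∀ m, m ≠ x → m ≠ a → m ≠ y → w m = u m := by
    intro m h5 h6 h7
    rw [hw, Function.comp_apply, Perm.mul_apply, Equiv.swap_apply_of_ne_of_ne h6 h7, Equiv.swap_apply_of_ne_of_ne h5 h6]
  have hum : ∀ m, m ∈ s → u m = h := by intro m hm; rw [hu]; simp [hm]
  have hum0 : ∀ m, m ∉ s → u m = 0 := by intro m hm; rw [hu]; simp [hm]
  have huw : u ⬝ᵥ w = 3 * h ^ 2 := by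
    rw [dotProduct, ← Finset.sum_subset (Finset.subset_univ {b, c, e})]
    · rw [Finset.sum_insert (by simp [hbc, hbe]), Finset.sum_insert (by simp [hce]), Finset.sum_singleton,
        hwo b hxb.symm hb.1 hyb.symm, hwo c hxc.symm hc.1 hyc.symm, hwo e hxe.symm he.1 hye.symm, hum b hb.2, hum c hc.2, hum e he.2]
      ring
    · intro m _ hm
      by_cases h5 : m = a
      · rw [h5, hwa, mul_zero]
      · rw [hum0 m, zero_mul]
        rw [hsmem]
        simp at hm
        tauto
  obtain ⟨z, hz⟩ : ∃ z : ι → F, z = w + (-(2 * (u ⬝ᵥ w))) • u := ⟨_, rfl⟩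
  have hzO : z ∈ Ob X := by rw [hz]; exact refl_mem' S huO hwO
  rw [huw] at hz
  have hza : 4 * z a = -3 := by
    rw [hz]
    simp only [Pi.add_apply, Pi.smul_apply, smul_eq_mul, hwa, hum a hsa]
    linear_combination (-3 * (4 * h ^ 2 + 2 * h + 1)) * hh
  have hzs : ∀ m, m ∈ s → m ≠ a → 4 * z m = -1 := by
    intro m hm hma
    have h5 : m ≠ x := by rintro rfl; exact hx hm
    have h6 : m ≠ y := by rintro rfl; exact hy hm
    rw [hz]
    simp only [Pi.add_apply, Pi.smul_apply, smul_eq_mul, hwo m h5 hma h6, hum m hm]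
    linear_combination (-3 * (4 * h ^ 2 + 2 * h + 1) + 2) * hh
  have hzx : 4 * z x = 2 := by
    rw [hz]
    simp only [Pi.add_apply, Pi.smul_apply, smul_eq_mul, hwx, hum0 x hx]
    linear_combination 2 * hh
  have hz0 : ∀ m, m ∉ s → m ≠ x → z m = 0 := by
    intro m hm hmx
    rw [hz]
    have h5 : m ≠ a := by rintro rfl; exact hm hsa
    by_cases h6 : m = y
    · subst h6; simp [hwy, hum0 m hm]
    · simp [hwo m hmx h5 h6, hum0 m hm]
  have hza0 : z a ≠ 0 := by
    intro h5
    rw [h5, mul_zero] at hza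
    exact h3 (by linear_combination hza)
  have hzb0 : z b ≠ 0 := by
    intro h5
    have := hzs b hb.2 hb.1
    rw [h5, mul_zero] at this
    exact one_ne_zero (by linear_combination this)
  have hq' : 16 * (z c) ^ 2 = 1 := by
    have := hzs c hc.2 hc.1
    linear_combination (4 * z c - 1) * this
  have hqe : 16 * (z e) ^ 2 = 1 := by
    have := hzs e he.2 he.1
    linear_combination (4 * z e - 1) * this
  have h16 : (16 : F) ≠ 0 := by
    intro h
    apply mul_ne_zero h4 h4
    linear_combination h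
  have hzce : z c ^ 2 = z e ^ 2 := mul_left_cancel₀ h16 (by rw [hq', hqe])
  rcases pair S hp h2 hzO hb.1.symm hza0 hzb0 with ⟨h5, -⟩ | ⟨h5, h6⟩ | ⟨-, -, h6⟩
  · have h7 := nu_eq z hb.1.symm
    rw [norm_one S hzO, h5] at h7
    have h8 := hzs b hb.2 hb.1
    apply mul_ne_zero h2 h3
    have : (16 : F) * 1 = 10 := by
      rw [h7]
      linear_combination (4 * z a - 3) * hza + (4 * z b - 1) * h8
    linear_combination this
  · obtain ⟨α, γ, h7, hγ, -⟩ := conic h2 h3 (rest z a b ⬝ᵥ rest z a b)
    obtain ⟨t, ht⟩ : ∃ t, t = lin (fr z a b) ![α, 0, γ] := ⟨_, rfl⟩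
    have htO : t ∈ Ob X := by
      rw [ht]
      apply h6
      simp [bt]
      linear_combination h7
    have tl : ∀ l, l ≠ a → l ≠ b → t l = γ * z l := by
      intro l h8 h9
      rw [ht, lin_fr]
      simp [ei_ne h8, ei_ne h9, rest_ne z h8 h9]
    have tb : t b = 0 := by
      rw [ht, lin_fr]
      simp [ei_self, ei_ne hb.1, rest_j]
    have hzc0 : z c ≠ 0 := by
      intro h8
      rw [h8] at hq'
      simp at hq'
    have hze0 : z e ≠ 0 := by
      intro h8
      rw [h8] at hqe
      simp at hqe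
    have hzx0 : z x ≠ 0 := by
      intro h8
      rw [h8] at hzx
      exact h2 (by linear_combination -hzx)
    have htc : t c ≠ 0 := by rw [tl c hc.1 hbc.symm]; exact mul_ne_zero hγ hzc0
    have hte : t e ≠ 0 := by rw [tl e he.1 hbe.symm]; exact mul_ne_zero hγ hze0
    have htx : t x ≠ 0 := by rw [tl x hxa hxb]; exact mul_ne_zero hγ hzx0
    have hsub1 : {c, e, x} ⊆ sup t := by
      intro m hm
      simp at hm
      rcases hm with rfl | rfl | rfl
      · exact mem_sup.2 htc
      · exact mem_sup.2 hte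
      · exact mem_sup.2 htx
    have hsub2 : sup t ⊆ {a, c, e, x} := by
      intro m hm
      by_contra h8
      simp at h8
      by_cases h9 : m = b
      · exact mem_sup.1 hm (by rw [h9, tb])
      · apply mem_sup.1 hm
        rw [tl m (by tauto) h9, hz0 m _ (by tauto), mul_zero]
        rw [hsmem]
        tauto
    have hcard3 : ({c, e, x} : Finset ι).card = 3 := Finset.card_eq_three.2 ⟨c, e, x, hce, hxc.symm, hxe.symm, rfl⟩
    have h8 := Finset.card_le_card hsub1
    have h9 := (Finset.card_le_card hsub2).trans (Finset.card_le_four)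
    rw [hcard3] at h8
    have hg := good_of_three htO h8
    have h10 := hv.2 t hg
    rw [← hs, hk5] at h10
    have hmt := hv.of_card hg (by rw [← hs, hk5]; omega)
    have h11 := min_quarter S hp h2 h3 hn hmt (by omega)
    have k1 := h11 c (mem_sup.2 htc)
    have k2 := h11 x (mem_sup.2 htx)
    rw [tl c hc.1 hbc.symm] at k1
    rw [tl x hxa hxb] at k2
    have hzx2 : 4 * z x ^ 2 = 1 := by
      apply mul_left_cancel₀ h4
      linear_combination (4 * z x + 2) * hzx
    have k3 : γ ^ 2 = 4 := by linear_combination 4 * k1 - γ ^ 2 * hq'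
    have k4 : γ ^ 2 = 1 := by linear_combination k2 - γ ^ 2 * hzx2
    apply h3
    linear_combination k4 - k3
  · have h7 := (h6 c e hce hc.1 hbc.symm he.1 hbe.symm hzce).2
    have h8 := hzs b hb.2 hb.1
    apply h3
    have : 16 * z b ^ 2 = 1 := by linear_combination (4 * z b - 1) * h8
    linear_combination this - 4 * h7 

end

end Cfsg.Agent.Lib.Rf
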