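import Mathlib
import Cfsg.Agent.Lib.Rf7

set_option autoImplicit false
set_option linter.unusedSectionVars false
set_option linter.unusedSimpArgs false

/-!
# All unit vectors are in the orbit (helper14)
-/

namespace Cfsg.Agent.Lib.Rf

open Matrix
open Equiv (Perm)

variable {ι : Type*} [Fintype ι] [DecidableEq ι] {F : Type*} [Field F] [Fintype F] [DecidableEq F]
variable {X : Subgroup ((ι → F) ≃ₗ[F] (ι → F))}

/-- even permutations are highly transitive -/
theorem exists_even {k : ℕ} (hk : k + 2 ≤ Fintype.card ι) (a b : Fin k ↪ ι) :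
    ∃ σ : Perm ι, Perm.sign σ = 1 ∧ ∀ i, σ (a i) = b i := by
  have h := alternatingGroup.isMultiplyPretransitive ι
  have h1 : MulAction.IsMultiplyPretransitive (alternatingGroup ι) ι k :=
    MulAction.isMultiplyPretransitive_of_le (n := Nat.card ι - 2) (by rw [Nat.card_eq_fintype_card]; omega)
      (Nat.sub_le _ _)
  obtain ⟨g, hg⟩ := (MulAction.isMultiplyPretransitive_iff.1 h1) a b
  refine ⟨g.1, Equiv.Perm.mem_alternatingGroup.1 g.2, fun i => ?_⟩
  have := DFunLike.congr_fun hg i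
  exact this

section
variable (S : Sys X) (hp : (Fintype.card F).Prime) (h2 : (2 : F) ≠ 0) (h3 : (3 : F) ≠ 0) (hn : 7 ≤ Fintype.card ι)
include S hp h2 h3 hn

theorem exists_third' (i j : ι) : ∃ l : ι, l ≠ i ∧ l ≠ j := by
  obtain ⟨l, hl⟩ : (({i, j} : Finset ι)ᶜ).Nonempty := by
    rw [← Finset.card_pos, Finset.card_compl]
    have := Finset.card_le_two (a := i) (b := j)
    omega
  simp at hl
  exact ⟨l, hl.1, hl.2⟩

/-- a vector with support of size three -/
theorem exists_three {v : ι → F} (hv : Good X v) : ∃ w ∈ Ob X, (sup w).card = 3 := by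
  obtain ⟨w, hw⟩ := exists_min hv
  have h4 := min_le_three S hp h2 h3 hn hw
  have h5 := hw.1.2.1
  by_cases h6 : (sup w).card = 3
  · exact ⟨w, hw.1.1, h6⟩
  have h7 : (sup w).card = 2 := by omega
  obtain ⟨i, j, hij, hsij⟩ := Finset.card_eq_two.1 h7
  have hi : w i ≠ 0 := mem_sup.1 (by rw [hsij]; simp)
  have hj : w j ≠ 0 := mem_sup.1 (by rw [hsij]; simp)
  have ho : ∀ m, m ≠ i → m ≠ j → w m = 0 := by
    intro m h8 h9
    apply not_mem_sup.1
    rw [hsij]
    simp [h8, h9]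
  have hnorm : w i ^ 2 + w j ^ 2 = 1 := by
    rw [← norm_one S hw.1.1, dot_sum_sup, hsij, Finset.sum_pair hij]
  have hB : 2 * w j ^ 2 ≠ 1 := by
    intro h8
    apply hw.1.2.2
    refine ⟨h7, fun m hm => ?_⟩
    rw [hsij] at hm
    simp at hm
    rcases hm with rfl | rfl
    · linear_combination 2 * hnorm - h8
    · exact h8
  obtain ⟨l, hli, hlj⟩ := exists_third' S hp h2 h3 hn i j
  have hsg : Perm.sign (Equiv.swap j i * Equiv.swap i l) = 1 := by
    rw [map_mul, Perm.sign_swap hij.symm, Perm.sign_swap hli.symm]; rfl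
  obtain ⟨u, hu⟩ : ∃ u : ι → F, u = w ∘ (Equiv.swap j i * Equiv.swap i l) := ⟨_, rfl⟩
  have huO : u ∈ Ob X := by rw [hu]; exact perm_mem S hw.1.1 hsg
  have hul : u l = w j := by
    rw [hu, Function.comp_apply, Perm.mul_apply, Equiv.swap_apply_right, Equiv.swap_apply_right]
  have huj : u j = w i := by
    rw [hu, Function.comp_apply, Perm.mul_apply, Equiv.swap_apply_of_ne_of_ne hij.symm hlj.symm, Equiv.swap_apply_left]
  have hui : u i = 0 := by
    rw [hu, Function.comp_apply, Perm.mul_apply, Equiv.swap_apply_left, Equiv.swap_apply_of_ne_of_ne hlj hli, ho l hli hlj]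
  have huo : ∀ m, m ≠ i → m ≠ j → m ≠ l → u m = 0 := by
    intro m h8 h9 h10
    rw [hu, Function.comp_apply, Perm.mul_apply, Equiv.swap_apply_of_ne_of_ne h8 h10, Equiv.swap_apply_of_ne_of_ne h9 h8, ho m h8 h9]
  have hwu : w ⬝ᵥ u = w j * w i := by
    rw [dotProduct, Finset.sum_eq_single j, huj]
    · intro m _ hm
      by_cases h8 : m = i
      · rw [h8, hui, mul_zero]
      · rw [ho m h8 hm, zero_mul]
    · intro h8; exact absurd (Finset.mem_univ _) h8
  obtain ⟨z, hz⟩ : ∃ z : ι → F, z = u + (-(2 * (w ⬝ᵥ u))) • w := ⟨_, rfl⟩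
  have hzO : z ∈ Ob X := by rw [hz]; exact refl_mem' S hw.1.1 huO
  rw [hwu] at hz
  have hzi : z i ≠ 0 := by
    rw [hz]
    simp only [Pi.add_apply, Pi.smul_apply, smul_eq_mul, hui, zero_add]
    exact mul_ne_zero (neg_ne_zero.2 (mul_ne_zero h2 (mul_ne_zero hj hi))) hi
  have hzj : z j ≠ 0 := by
    rw [hz]
    simp only [Pi.add_apply, Pi.smul_apply, smul_eq_mul, huj]
    have h8 : w i + -(2 * (w j * w i)) * w j = w i * (1 - 2 * w j ^ 2) := by ring
    rw [h8]
    exact mul_ne_zero hi (sub_ne_zero.2 hB.symm)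
  have hzl : z l ≠ 0 := by
    rw [hz]
    simp only [Pi.add_apply, Pi.smul_apply, smul_eq_mul, hul, ho l hli hlj, mul_zero, add_zero]
    exact hj
  refine ⟨z, hzO, ?_⟩
  have hs : sup z = {i, j, l} := by
    ext m
    rw [mem_sup]
    simp only [Finset.mem_insert, Finset.mem_singleton]
    constructor
    · intro hm
      by_contra h8
      push Not at h8
      apply hm
      rw [hz]
      simp only [Pi.add_apply, Pi.smul_apply, smul_eq_mul, huo m h8.1 h8.2.1 h8.2.2, ho m h8.1 h8.2.1, mul_zero, add_zero]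
    · rintro (rfl | rfl | rfl)
      · exact hzi
      · exact hzj
      · exact hzl
  rw [hs]
  exact Finset.card_eq_three.2 ⟨i, j, l, hij, hli.symm, hlj.symm, rfl⟩

/-- all unit vectors of some coordinate triple -/
theorem triple_of_three {v : ι → F} (hv : v ∈ Ob X) (hc : (sup v).card = 3) :
    ∃ i j l : ι, i ≠ j ∧ i ≠ l ∧ j ≠ l ∧ ∀ w : ι → F, w ⬝ᵥ w = 1 → (∀ m, m ≠ i → m ≠ j → m ≠ l → w m = 0) → w ∈ Ob X := by
  obtain ⟨i, j, l, hij, hil, hjl, hs⟩ := Finset.card_eq_three.1 hc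
  have hi : v i ≠ 0 := mem_sup.1 (by rw [hs]; simp)
  have hj : v j ≠ 0 := mem_sup.1 (by rw [hs]; simp)
  have hl : v l ≠ 0 := mem_sup.1 (by rw [hs]; simp)
  have ho : ∀ m, m ≠ i → m ≠ j → m ≠ l → v m = 0 := by
    intro m h4 h5 h6
    apply not_mem_sup.1
    rw [hs]
    simp [h4, h5, h6]
  have hsum : v i ^ 2 + v j ^ 2 + v l ^ 2 = 1 := by
    rw [← norm_one S hv, dot_sum_sup, hs, Finset.sum_insert (by simp [hij, hil]), Finset.sum_pair hjl]
    ring
  have key : ∀ i j l : ι, i ≠ j → i ≠ l → j ≠ l → v i ≠ 0 → v j ≠ 0 → v l ≠ 0 → (∀ m, m ≠ i → m ≠ j → m ≠ l → v m = 0) →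
      (∀ w : ι → F, w ⬝ᵥ w = 1 → (∀ m, m ≠ i → m ≠ j → m ≠ l → w m = 0) → w ∈ Ob X) ∨ (4 * v i ^ 2 = 1 ∧ 4 * v j ^ 2 = 1) := by
    intro i j l hij hil hjl hi hj hl ho
    have hrest : rest v i j = v l • ei l := by
      ext m
      by_cases h4 : m = i
      · subst h4; simp [rest_i, ei_ne hil]
      · by_cases h5 : m = j
        · subst h5; simp [rest_j, ei_ne hjl]
        · rw [rest_ne v h4 h5]
          by_cases h6 : m = l
          · subst h6; simp [ei_self]
          · simp [ei_ne h6, ho m h4 h5 h6]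
    have hν : rest v i j ⬝ᵥ rest v i j = v l ^ 2 := by
      rw [hrest, smul_dotProduct, dotProduct_smul, ei_dot, ei_self]
      simp
      ring
    rcases pair S hp h2 hv hij hi hj with ⟨h5, -⟩ | ⟨h5, h6⟩ | ⟨-, -, h6⟩
    · rw [hν] at h5
      exact absurd h5 (pow_ne_zero 2 hl)
    · left
      intro w hw hwo
      have hwl : lin (fr v i j) ![w i, w j, w l / v l] = w := by
        rw [lin_fr, hrest]
        ext m
        by_cases h7 : m = i
        · subst h7; simp [ei_self, ei_ne hij, ei_ne hil]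
        · by_cases h8 : m = j
          · subst h8; simp [ei_self, ei_ne h7, ei_ne hjl]
          · by_cases h9 : m = l
            · subst h9
              simp [ei_self, ei_ne h7, ei_ne h8]
              field_simp
            · simp [ei_ne h7, ei_ne h8, ei_ne h9, hwo m h7 h8 h9]
      rw [← hwl]
      apply h6
      rw [← lin_dot v hij, hwl, hw]
    · right
      obtain ⟨T, hT, hTc⟩ := Finset.exists_subset_card_eq (s := ({i, j, l} : Finset ι)ᶜ) (n := 2) (by
        rw [Finset.card_compl]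
        have : ({i, j, l} : Finset ι).card ≤ 3 := Finset.card_le_three
        omega)
      obtain ⟨a, b, hab, rfl⟩ := Finset.card_eq_two.1 hTc
      have ha := Finset.mem_compl.1 (hT (Finset.mem_insert_self a _))
      have hb := Finset.mem_compl.1 (hT (Finset.mem_insert_of_mem (Finset.mem_singleton_self b)))
      simp only [Finset.mem_insert, Finset.mem_singleton, not_or] at ha hb
      exact h6 a b hab ha.1 ha.2.1 hb.1 hb.2.1 (by rw [ho a ha.1 ha.2.1 ha.2.2, ho b hb.1 hb.2.1 hb.2.2])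
  rcases key i j l hij hil hjl hi hj hl ho with h4 | h4
  · exact ⟨i, j, l, hij, hil, hjl, h4⟩
  rcases key i l j hil hij hjl.symm hi hl hj (fun m h5 h6 h7 => ho m h5 h7 h6) with h5 | h5
  · exact ⟨i, l, j, hil, hij, hjl.symm, h5⟩
  exfalso
  apply one_ne_zero (α := F)
  linear_combination -4 * hsum + h4.1 + h4.2 + h5.2

/-- all unit vectors of all coordinate triples -/
theorem triple_all (hex : ∃ i j l : ι, i ≠ j ∧ i ≠ l ∧ j ≠ l ∧ ∀ w : ι → F, w ⬝ᵥ w = 1 →
      (∀ m, m ≠ i → m ≠ j → m ≠ l → w m = 0) → w ∈ Ob X) {a b c : ι} (hab : a ≠ b) (hac : a ≠ c) (hbc : b ≠ c)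
    {w : ι → F} (hw : w ⬝ᵥ w = 1) (hwo : ∀ m, m ≠ a → m ≠ b → m ≠ c → w m = 0) : w ∈ Ob X := by
  obtain ⟨i, j, l, hij, hil, hjl, h⟩ := hex
  obtain ⟨σ, hσ, hσ2⟩ := exists_even (k := 3) (by omega) (⟨![a, b, c], by
    intro r s hrs
    fin_cases r <;> fin_cases s <;> simp_all⟩ : Fin 3 ↪ ι) (⟨![i, j, l], by
    intro r s hrs
    fin_cases r <;> fin_cases s <;> simp_all⟩ : Fin 3 ↪ ι)
  have h0 : σ a = i := hσ2 0
  have h1 : σ b = j := hσ2 1
  have h4 : σ c = l := hσ2 2
  have h5 : w ∘ (σ⁻¹ : Perm ι) ∈ Ob X := by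
    apply h
    · rw [← hw]
      simp only [dotProduct, Function.comp_apply]
      exact Equiv.sum_comp (σ⁻¹ : Perm ι) (fun m => w m * w m)
    · intro m h5 h6 h7
      rw [Function.comp_apply]
      apply hwo
      · intro h8; apply h5; rw [← h0, ← h8]; simp
      · intro h8; apply h6; rw [← h1, ← h8]; simp
      · intro h8; apply h7; rw [← h4, ← h8]; simp
  have h6 := perm_mem S h5 hσ
  rw [Function.comp_assoc] at h6
  have h7 : ((σ⁻¹ : Perm ι) : ι → ι) ∘ σ = id := by ext m; simp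
  rwa [h7, Function.comp_id] at h6

end

end Cfsg.Agent.Lib.Rf
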