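import Mathlib
import Cfsg.Agent.Lib.Rf8

set_option autoImplicit false
set_option linter.unusedSectionVars false
set_option linter.unusedSimpArgs false

/-!
# All unit vectors are in the orbit: conclusion (helper14)
-/

namespace Cfsg.Agent.Lib.Rf

open Matrix
open Equiv (Perm)

variable {ι : Type*} [Fintype ι] [DecidableEq ι] {F : Type*} [Field F] [Fintype F] [DecidableEq F]
variable {X : Subgroup ((ι → F) ≃ₗ[F] (ι → F))}

/-- the elements acting trivially off a triple -/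
def XT (X : Subgroup ((ι → F) ≃ₗ[F] (ι → F))) (i j l : ι) : Subgroup ((ι → F) ≃ₗ[F] (ι → F)) where
  carrier := {g | g ∈ X ∧ ∀ w : ι → F, w i = 0 → w j = 0 → w l = 0 → g w = w}
  one_mem' := ⟨one_mem _, fun w _ _ _ => rfl⟩
  mul_mem' := by
    rintro g g' ⟨h1, h2⟩ ⟨h3, h4⟩
    refine ⟨mul_mem h1 h3, fun w a b c => ?_⟩
    change g (g' w) = w
    rw [h4 w a b c, h2 w a b c]
  inv_mem' := by
    rintro g ⟨h1, h2⟩
    refine ⟨inv_mem h1, fun w a b c => ?_⟩
    change g.symm w = w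
    rw [LinearEquiv.symm_apply_eq, h2 w a b c]

section
variable (S : Sys X) (hp : (Fintype.card F).Prime) (h2 : (2 : F) ≠ 0) (h3 : (3 : F) ≠ 0) (hn : 7 ≤ Fintype.card ι)
include S hp h2 h3

theorem card_ge : 4 ≤ Fintype.card F := by
  by_contra h
  have h5 := hp.two_le
  obtain ⟨p, hpF⟩ : ∃ p, p = Fintype.card F := ⟨_, rfl⟩
  have hcast : ((Fintype.card F : ℕ) : F) = 0 := by
    have := card_nsmul_eq_zero' (G := F) (x := (1 : F))
    rw [Nat.card_eq_fintype_card, nsmul_one] at this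
    exact this
  rw [← hpF] at h h5 hcast
  interval_cases p
  · exact h2 (by exact_mod_cast hcast)
  · exact h3 (by exact_mod_cast hcast)

include hn

/-- transitivity inside a triple -/
theorem trans_triple (hex : ∃ i j l : ι, i ≠ j ∧ i ≠ l ∧ j ≠ l ∧ ∀ w : ι → F, w ⬝ᵥ w = 1 →
      (∀ m, m ≠ i → m ≠ j → m ≠ l → w m = 0) → w ∈ Ob X) {i j l : ι} (hij : i ≠ j) (hil : i ≠ l) (hjl : j ≠ l)
      (t s : Fin 3 → F) (hts : t 0 ^ 2 + t 1 ^ 2 + t 2 ^ 2 = s 0 ^ 2 + s 1 ^ 2 + s 2 ^ 2) (hs : s 0 ^ 2 + s 1 ^ 2 + s 2 ^ 2 ≠ 0) :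
      ∃ k ∈ XT X i j l, k (lin ![ei i, ei j, ei l] t) = lin ![ei i, ei j, ei l] s ∨
        k (lin ![ei i, ei j, ei l] t) = -lin ![ei i, ei j, ei l] s := by
  obtain ⟨x, y, hxy⟩ := Cfsg.Agent.Lib.LowOr.exists_two_form h2 (one_ne_zero) (one_ne_zero) (-1 : F)
  have h : x ^ 2 + 1 * y ^ 2 = -1 := by rw [← hxy]; ring
  have hbt : ∀ t : Fin 3 → F, bt 1 t t = t 0 ^ 2 + t 1 ^ 2 + t 2 ^ 2 := by intro t; simp [bt]; ring
  have hdot : ∀ (r : Fin 3 → F) (w : ι → F), lin ![ei i, ei j, ei l] r ⬝ᵥ w = r 0 * w i + r 1 * w j + r 2 * w l := by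
    intro r w
    simp [lin, add_dotProduct, smul_dotProduct, ei_dot]
  have hli : ∀ r : Fin 3 → F, lin ![ei i, ei j, ei l] r i = r 0 := by
    intro r; simp [lin, ei_self, ei_ne hij, ei_ne hil]
  have hlj : ∀ r : Fin 3 → F, lin ![ei i, ei j, ei l] r j = r 1 := by
    intro r; simp [lin, ei_self, ei_ne hij.symm, ei_ne hjl]
  have hll : ∀ r : Fin 3 → F, lin ![ei i, ei j, ei l] r l = r 2 := by
    intro r; simp [lin, ei_self, ei_ne hil.symm, ei_ne hjl.symm]
  have hfull : FullK (KX (XT X i j l) ![ei i, ei j, ei l] h one_ne_zero h2) := by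
    apply full_of_unit (card_ge S hp h2 h3) h h2
    intro r hr
    apply mem_KX_of_RF h one_ne_zero h2 hr
    have hrO : lin ![ei i, ei j, ei l] r ∈ Ob X := by
      apply triple_all S hp h2 h3 hn hex hij hil hjl
      · rw [hdot, hli, hlj, hll, ← hr]
        simp [bt]
      · intro m h5 h6 h7
        simp [lin, ei_ne h5, ei_ne h6, ei_ne h7]
    obtain ⟨k, hk, hk2⟩ := refl_mem S hrO
    refine ⟨k, ⟨hk, fun w a b c => ?_⟩, fun s => ?_⟩
    · rw [hk2, hdot, a, b, c]
      simp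
    · rw [hk2, lin_add, lin_smul, hdot, hli, hlj, hll]
      congr 4
      simp [bt]
  exact trans_of_full h one_ne_zero h2 hfull (by rw [hbt, hbt, hts]) (by rw [hbt]; exact hs)

/-- all unit vectors -/
theorem unit_of_triple (hex : ∃ i j l : ι, i ≠ j ∧ i ≠ l ∧ j ≠ l ∧ ∀ w : ι → F, w ⬝ᵥ w = 1 →
      (∀ m, m ≠ i → m ≠ j → m ≠ l → w m = 0) → w ∈ Ob X) : ∀ u : ι → F, u ⬝ᵥ u = 1 → u ∈ Ob X := by
  have key : ∀ n : ℕ, ∀ u : ι → F, u ⬝ᵥ u = 1 → (sup u).card = n → u ∈ Ob X := by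
    intro n
    induction n using Nat.strong_induction_on with
    | _ n ih =>
      intro u hu hc
      by_cases hn3 : n ≤ 3
      · obtain ⟨T, hT, hTc⟩ := Finset.exists_superset_card_eq (s := sup u) (n := 3) (by omega) (by omega)
        obtain ⟨i, j, l, hij, hil, hjl, rfl⟩ := Finset.card_eq_three.1 hTc
        apply triple_all S hp h2 h3 hn hex hij hil hjl hu
        intro m h5 h6 h7
        apply not_mem_sup.1
        intro h8
        have := hT h8
        simp [h5, h6, h7] at this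
      · -- a nonsingular triple
        obtain ⟨i, j, l, hij, hil, hjl, hi, hj, hl, hN⟩ : ∃ i j l : ι, i ≠ j ∧ i ≠ l ∧ j ≠ l ∧ u i ≠ 0 ∧ u j ≠ 0 ∧ u l ≠ 0 ∧
            u i ^ 2 + u j ^ 2 + u l ^ 2 ≠ 0 := by
          obtain ⟨T, hT, hTc⟩ := Finset.exists_subset_card_eq (s := sup u) (n := 4) (by omega)
          obtain ⟨a, haT⟩ : T.Nonempty := by rw [← Finset.card_pos]; omega
          obtain ⟨b, c, e, hbc, hbe, hce, hse⟩ := Finset.card_eq_three.1 (show (T.erase a).card = 3 by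
            rw [Finset.card_erase_of_mem haT]; omega)
          have hb : b ∈ T.erase a := by rw [hse]; simp
          have hcc : c ∈ T.erase a := by rw [hse]; simp
          have he : e ∈ T.erase a := by rw [hse]; simp
          rw [Finset.mem_erase] at hb hcc he
          have ua := mem_sup.1 (hT haT)
          have ub := mem_sup.1 (hT hb.2)
          have uc := mem_sup.1 (hT hcc.2)
          have ue := mem_sup.1 (hT he.2)
          by_contra hcon
          push Not at hcon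
          have k1 := hcon a b c hb.1.symm hcc.1.symm hbc ua ub uc
          have k2 := hcon a b e hb.1.symm he.1.symm hbe ua ub ue
          have k3 := hcon a c e hcc.1.symm he.1.symm hce ua uc ue
          have k4 := hcon b c e hbc hbe hce ub uc ue
          have k5 : 3 * u a ^ 2 = 0 := by linear_combination k1 + k2 + k3 - 2 * k4
          exact mul_ne_zero h3 (pow_ne_zero 2 ua) k5
        obtain ⟨s0, s1, hs⟩ := Cfsg.Agent.Lib.LowOr.exists_two_form h2 (one_ne_zero) (one_ne_zero) (u i ^ 2 + u j ^ 2 + u l ^ 2)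
        have hs' : u i ^ 2 + u j ^ 2 + u l ^ 2 = s0 ^ 2 + s1 ^ 2 + 0 ^ 2 := by rw [← hs]; ring
        obtain ⟨k, ⟨hk, hk2⟩, hk3⟩ := trans_triple S hp h2 h3 hn hex hij hil hjl ![u i, u j, u l] ![s0, s1, 0] hs' (by
          change s0 ^ 2 + s1 ^ 2 + 0 ^ 2 ≠ 0
          rw [← hs']; exact hN)
        obtain ⟨r, hr⟩ : ∃ r : ι → F, r = u - lin ![ei i, ei j, ei l] ![u i, u j, u l] := ⟨_, rfl⟩
        have hri : r i = 0 := by rw [hr]; simp [lin, ei_self, ei_ne hij, ei_ne hil]
        have hrj : r j = 0 := by rw [hr]; simp [lin, ei_self, ei_ne hij.symm, ei_ne hjl]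
        have hrl : r l = 0 := by rw [hr]; simp [lin, ei_self, ei_ne hil.symm, ei_ne hjl.symm]
        have hro : ∀ m, m ≠ i → m ≠ j → m ≠ l → r m = u m := by
          intro m h5 h6 h7
          rw [hr]; simp [lin, ei_ne h5, ei_ne h6, ei_ne h7]
        have hur : u = lin ![ei i, ei j, ei l] ![u i, u j, u l] + r := by rw [hr]; abel
        have hku : (k u) l = 0 ∧ ∀ m, u m = 0 → (k u) m = 0 := by
          rw [hur, map_add, hk2 r hri hrj hrl, ← hur]
          constructor
          · rcases hk3 with h4 | h4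
            · rw [h4]; simp [lin, ei_ne hil.symm, ei_ne hjl.symm, hrl]
            · rw [h4]; simp [lin, ei_ne hil.symm, ei_ne hjl.symm, hrl]
          · intro m hm
            have h5 : m ≠ i := by rintro rfl; exact hi hm
            have h6 : m ≠ j := by rintro rfl; exact hj hm
            have h7 : m ≠ l := by rintro rfl; exact hl hm
            rcases hk3 with h4 | h4
            · rw [h4]; simp [lin, ei_ne h5, ei_ne h6, hro m h5 h6 h7, hm]
            · rw [h4]; simp [lin, ei_ne h5, ei_ne h6, hro m h5 h6 h7, hm]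
        have hlt : (sup (k u)).card < n := by
          rw [← hc]
          apply Finset.card_lt_card
          refine ⟨fun m hm => mem_sup.2 fun h4 => mem_sup.1 hm (hku.2 m h4), fun hsub => ?_⟩
          exact mem_sup.1 (hsub (mem_sup.2 hl)) hku.1
        have hkO := ih _ hlt (k u) (by rw [S.iso k hk, hu]) rfl
        have h5 := map_mem (inv_mem hk) hkO
        change k.symm (k u) ∈ Ob X at h5
        rwa [LinearEquiv.symm_apply_apply] at h5
  intro u hu
  exact key _ u hu rfl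

/-- existence of good vectors -/
theorem exists_good (hm : ∃ h ∈ X, ∃ i : ι, ∀ j, h (ei i) ≠ ei j ∧ h (ei i) ≠ -ei j) : ∃ v, Good X v := by
  obtain ⟨h, hh, i, hi⟩ := hm
  obtain ⟨v, hv⟩ : ∃ v, v = h (ei i) := ⟨_, rfl⟩
  have hvO : v ∈ Ob X := by rw [hv]; exact ⟨h, hh, i, rfl⟩
  rw [← hv] at hi
  have one : ∀ {w : ι → F}, w ∈ Ob X → (sup w).card ≤ 1 → ∃ j, (w = w j • ei j) ∧ w j ^ 2 = 1 := by
    intro w hw hc
    have hn1 := norm_one S hw
    rw [dot_sum_sup] at hn1
    have h1 : (sup w).card = 1 := by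
      rcases Nat.lt_or_ge (sup w).card 1 with h4 | h4
      · have : sup w = ∅ := Finset.card_eq_zero.1 (by omega)
        rw [this, Finset.sum_empty] at hn1
        exact absurd hn1 zero_ne_one
      · omega
    obtain ⟨j, hj⟩ := Finset.card_eq_one.1 h1
    refine ⟨j, ?_, ?_⟩
    · ext m
      by_cases h4 : m = j
      · subst h4; simp [ei_self]
      · have h5 : w m = 0 := not_mem_sup.1 (by rw [hj]; simp [h4])
        simp [ei_ne h4, h5]
    · rw [hj, Finset.sum_singleton] at hn1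
      exact hn1
  have h2' : 2 ≤ (sup v).card := by
    by_contra h4
    obtain ⟨j, hj, hj2⟩ := one hvO (by omega)
    have h5 : (v j - 1) * (v j + 1) = 0 := by linear_combination hj2
    rcases mul_eq_zero.1 h5 with h6 | h6
    · apply (hi j).1
      rw [hj, sub_eq_zero.1 h6, one_smul]
    · apply (hi j).2
      rw [hj, eq_neg_of_add_eq_zero_left h6, neg_one_smul]
  by_cases hg : Good X v
  · exact ⟨v, hg⟩
  have hB : (sup v).card = 2 ∧ ∀ i ∈ sup v, 2 * v i ^ 2 = 1 := by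
    by_contra h4
    exact hg ⟨hvO, h2', h4⟩
  obtain ⟨a, b, hab, hsab⟩ := Finset.card_eq_two.1 hB.1
  have ha := hB.2 a (by rw [hsab]; simp)
  have hb := hB.2 b (by rw [hsab]; simp)
  have ho : ∀ m, m ≠ a → m ≠ b → v m = 0 := by
    intro m h4 h5
    apply not_mem_sup.1
    rw [hsab]
    simp [h4, h5]
  obtain ⟨s, hs⟩ : ∃ s, s = v a := ⟨_, rfl⟩
  rw [← hs] at ha
  -- normalise signs
  obtain ⟨u, huO, hua, hub, huo⟩ : ∃ u ∈ Ob X, u a = s ∧ u b = s ∧ ∀ m, m ≠ a → m ≠ b → u m = 0 := by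
    have h4 : (v b - s) * (v b + s) = 0 := by
      apply mul_left_cancel₀ h2
      linear_combination hb - ha
    rcases mul_eq_zero.1 h4 with h5 | h5
    · exact ⟨v, hvO, hs.symm, sub_eq_zero.1 h5, ho⟩
    · refine ⟨flp {b} v, flp_mem S _ hvO, ?_, ?_, ?_⟩
      · simp [flp, hab, hs]
      · simp [flp, eq_neg_of_add_eq_zero_left h5]
      · intro m h6 h7
        simp [flp, h7, ho m h6 h7]
  obtain ⟨c, hca, hcb⟩ := exists_third' S hp h2 h3 hn a b
  have hsg : Perm.sign (Equiv.swap b a * Equiv.swap a c) = 1 := by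
    rw [map_mul, Perm.sign_swap hab.symm, Perm.sign_swap hca.symm]; rfl
  obtain ⟨w, hw⟩ : ∃ w : ι → F, w = u ∘ (Equiv.swap b a * Equiv.swap a c) := ⟨_, rfl⟩
  have hwO : w ∈ Ob X := by rw [hw]; exact perm_mem S huO hsg
  have hwa : w a = 0 := by
    rw [hw, Function.comp_apply, Perm.mul_apply, Equiv.swap_apply_left, Equiv.swap_apply_of_ne_of_ne hcb hca, huo c hca hcb]
  have hwb : w b = s := by
    rw [hw, Function.comp_apply, Perm.mul_apply, Equiv.swap_apply_of_ne_of_ne hab.symm hcb.symm, Equiv.swap_apply_left, hua]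
  have huw : u ⬝ᵥ w = s ^ 2 := by
    rw [dotProduct, Finset.sum_eq_single b, hub, hwb, sq]
    · intro m _ hm
      by_cases h8 : m = a
      · rw [h8, hwa, mul_zero]
      · rw [huo m h8 hm, zero_mul]
    · intro h8; exact absurd (Finset.mem_univ _) h8
  obtain ⟨k, hk, m, hkm⟩ := huO
  obtain ⟨z, hz⟩ : ∃ z, z = k⁻¹ w := ⟨_, rfl⟩
  have hzO : z ∈ Ob X := by rw [hz]; exact map_mem (inv_mem hk) hwO
  have hzm : z m = s ^ 2 := by
    rw [← ei_dot m z, ← S.iso k hk, hkm, hz]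
    change u ⬝ᵥ k (k.symm w) = _
    rw [LinearEquiv.apply_symm_apply, huw]
  have hs0 : s ≠ 0 := by
    rintro rfl
    simp at ha
  refine ⟨z, hzO, ?_, ?_⟩
  · by_contra h4
    obtain ⟨j, hj, hj2⟩ := one hzO (by omega)
    have h5 : m = j := by
      by_contra h6
      rw [hj] at hzm
      simp [ei_ne h6] at hzm
      exact hs0 ((pow_eq_zero_iff two_ne_zero).1 hzm.symm)
    subst h5
    rw [hzm] at hj2
    apply h3
    linear_combination -4 * hj2 + (2 * s ^ 2 + 1) * ha
  · rintro ⟨-, h5⟩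
    have h6 := h5 m (mem_sup.2 (by rw [hzm]; exact pow_ne_zero 2 hs0))
    rw [hzm] at h6
    apply one_ne_zero (α := F)
    linear_combination -2 * h6 + (2 * s ^ 2 + 1) * ha

/-- **main theorem**, characteristic at least five -/
theorem main5 (hm : ∃ h ∈ X, ∃ i : ι, ∀ j, h (ei i) ≠ ei j ∧ h (ei i) ≠ -ei j) :
    ∀ u : ι → F, u ⬝ᵥ u = 1 → u ∈ Ob X := by
  obtain ⟨v, hv⟩ := exists_good S hp h2 h3 hn hm
  obtain ⟨w, hw, hwc⟩ := exists_three S hp h2 h3 hn hv
  exact unit_of_triple S hp h2 h3 hn (triple_of_three S hp h2 h3 hn hw hwc)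

end

end Cfsg.Agent.Lib.Rf
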