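import Mathlib
import Cfsg.Agent.Lib.Rf9

set_option autoImplicit false
set_option linter.unusedSectionVars false
set_option linter.unusedSimpArgs false

/-!
# All unit vectors are in the orbit: characteristic three, and the general statement (helper14)
-/

namespace Cfsg.Agent.Lib.Rf

open Matrix
open Equiv (Perm)

variable {ι : Type*} [Fintype ι] [DecidableEq ι] {F : Type*} [Field F] [Fintype F] [DecidableEq F]
variable {X : Subgroup ((ι → F) ≃ₗ[F] (ι → F))}

theorem sq_one_three (hp : (Fintype.card F).Prime) (h3 : (3 : F) = 0) (s : F) (hs : s ≠ 0) : s ^ 2 = 1 := by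
  obtain ⟨n, rfl⟩ := nat_surj hp s
  have hn : (n : F) = ((n % 3 : ℕ) : F) := by
    conv_lhs => rw [← Nat.div_add_mod n 3]
    push_cast
    linear_combination ((n / 3 : ℕ) : F) * h3
  rw [hn] at hs ⊢
  have hlt : n % 3 < 3 := Nat.mod_lt _ (by norm_num)
  interval_cases n % 3
  · simp at hs
  · simp
  · push_cast
    linear_combination h3

theorem card_mod (h3 : (3 : F) = 0) {n : ℕ} (h : (n : F) = 1) : n % 3 = 1 := by
  have hn : (n : F) = ((n % 3 : ℕ) : F) := by
    conv_lhs => rw [← Nat.div_add_mod n 3]
    push_cast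
    linear_combination ((n / 3 : ℕ) : F) * h3
  rw [hn] at h
  have hlt : n % 3 < 3 := Nat.mod_lt _ (by norm_num)
  interval_cases n % 3
  · simp at h
  · rfl
  · exfalso
    push_cast at h
    apply one_ne_zero (α := F)
    linear_combination h

section
variable (S : Sys X) (hp : (Fintype.card F).Prime) (h2 : (2 : F) ≠ 0) (h3 : (3 : F) = 0) (hn : 7 ≤ Fintype.card ι)
include S hp h2 h3

omit S h2 in
theorem sum_sq {v : ι → F} {T : Finset ι} (hT : T ⊆ sup v) : ∑ i ∈ T, v i ^ 2 = (T.card : F) := by
  rw [Finset.sum_congr rfl (fun i hi => sq_one_three hp h3 _ (mem_sup.1 (hT hi))), Finset.sum_const, nsmul_one]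

include hn

theorem four_all {x : ι → F} (hx : x ∈ Ob X) (hxc : (sup x).card = 4) {z : ι → F} (hz : (sup z).card = 4) : z ∈ Ob X := by
  obtain ⟨σ, hσ, hσ2⟩ := exists_even (k := 4) (by omega)
    (((sup z).equivFinOfCardEq hz).symm.toEmbedding.trans (Function.Embedding.subtype _))
    (((sup x).equivFinOfCardEq hxc).symm.toEmbedding.trans (Function.Embedding.subtype _))
  have key : ∀ m, σ m ∈ sup x ↔ m ∈ sup z := by
    intro m
    constructor
    · intro hm
      have h4 := hσ2 (((sup x).equivFinOfCardEq hxc) ⟨σ m, hm⟩)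
      simp at h4
      rw [← h4]
      exact Subtype.prop _
    · intro hm
      have h4 := hσ2 (((sup z).equivFinOfCardEq hz) ⟨m, hm⟩)
      simp at h4
      rw [h4]
      exact Subtype.prop _
  have h5 := flp_mem S (Finset.univ.filter (fun m => z m ≠ x (σ m))) (perm_mem S hx hσ)
  have h6 : flp (Finset.univ.filter (fun m => z m ≠ x (σ m))) (x ∘ σ) = z := by
    ext m
    by_cases hm : z m = x (σ m)
    · simp [flp, hm]
    · simp only [flp, Finset.mem_filter, Finset.mem_univ, true_and, hm, not_false_eq_true, if_true, ne_eq, Function.comp_apply]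
      by_cases hmz : m ∈ sup z
      · have h7 := sq_one_three hp h3 _ (mem_sup.1 hmz)
        have h8 := sq_one_three hp h3 _ (mem_sup.1 ((key m).2 hmz))
        have h9 : (z m - x (σ m)) * (z m + x (σ m)) = 0 := by linear_combination h7 - h8
        have h10 := (mul_eq_zero.1 h9).resolve_left (sub_ne_zero.2 hm)
        linear_combination -h10
      · exfalso
        apply hm
        rw [not_mem_sup.1 hmz, not_mem_sup.1 (fun h => hmz ((key m).1 h))]
  rwa [h6] at h5

theorem main3 (hm : ∃ h ∈ X, ∃ i : ι, ∀ j, h (ei i) ≠ ei j ∧ h (ei i) ≠ -ei j) :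
    ∀ u : ι → F, u ⬝ᵥ u = 1 → u ∈ Ob X := by
  have hmod : ∀ w : ι → F, w ⬝ᵥ w = 1 → (sup w).card % 3 = 1 := by
    intro w hw
    rw [dot_sum_sup, sum_sq hp h3 (Finset.Subset.refl _)] at hw
    exact card_mod h3 hw
  have one : ∀ w : ι → F, w ⬝ᵥ w = 1 → (sup w).card = 1 → ∃ j, w = ei j ∨ w = -ei j := by
    intro w hw hc
    obtain ⟨j, hj⟩ := Finset.card_eq_one.1 hc
    have hwj : w = w j • ei j := by
      ext m
      by_cases h4 : m = j
      · subst h4; simp [ei_self]
      · have h5 : w m = 0 := not_mem_sup.1 (by rw [hj]; simp [h4])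
        simp [ei_ne h4, h5]
    have h6 : w j ^ 2 = 1 := by
      rw [dot_sum_sup, hj, Finset.sum_singleton] at hw
      exact hw
    refine ⟨j, ?_⟩
    have h5 : (w j - 1) * (w j + 1) = 0 := by linear_combination h6
    rcases mul_eq_zero.1 h5 with h7 | h7
    · left; rw [hwj, sub_eq_zero.1 h7, one_smul]
    · right; rw [hwj, eq_neg_of_add_eq_zero_left h7, neg_one_smul]
  -- a vector of weight four
  obtain ⟨x, hx, hxc⟩ : ∃ x ∈ Ob X, (sup x).card = 4 := by
    obtain ⟨h, hh, i, hi⟩ := hm
    obtain ⟨v, hv⟩ : ∃ v, v = h (ei i) := ⟨_, rfl⟩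
    have hvO : v ∈ Ob X := by rw [hv]; exact ⟨h, hh, i, rfl⟩
    rw [← hv] at hi
    have h4 := hmod v (norm_one S hvO)
    have h5 : (sup v).card ≠ 1 := by
      intro h6
      obtain ⟨j, hj⟩ := one v (norm_one S hvO) h6
      rcases hj with hj | hj
      · exact (hi j).1 hj
      · exact (hi j).2 hj
    obtain ⟨T, hT, hTc⟩ := Finset.exists_subset_card_eq (s := sup v) (n := 4) (by omega)
    refine ⟨res T v, cut S hp h2 hvO T ?_, by rw [sup_res hT, hTc]⟩
    rw [sum_sq hp h3 hT, hTc]
    push_cast
    linear_combination h3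
  have key : ∀ n : ℕ, ∀ u : ι → F, u ⬝ᵥ u = 1 → (sup u).card = n → u ∈ Ob X := by
    intro n
    induction n using Nat.strong_induction_on with
    | _ n ih =>
      intro u hu hc
      have hmu := hmod u hu
      rw [hc] at hmu
      by_cases h1 : n = 1
      · obtain ⟨j, hj⟩ := one u hu (by rw [hc, h1])
        rcases hj with hj | hj
        · rw [hj]; exact ei_mem j
        · rw [hj]; exact neg_mem' S (ei_mem j)
      by_cases h4 : n = 4
      · exact four_all S hp h2 h3 hn hx hxc (by rw [hc, h4])
      have h7 : 7 ≤ n := by omega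
      obtain ⟨T, hT, hTc⟩ := Finset.exists_subset_card_eq (s := sup u) (n := 4) (by omega)
      obtain ⟨i, hiT⟩ : T.Nonempty := by rw [← Finset.card_pos]; omega
      have hui := mem_sup.1 (hT hiT)
      obtain ⟨y, hy⟩ : ∃ y : ι → F, y = flp {i} (res T u) := ⟨_, rfl⟩
      obtain ⟨w, hw⟩ : ∃ w : ι → F, w = flp {i} (res (T.erase i)ᶜ u) := ⟨_, rfl⟩
      have hsy : sup y = T := by
        rw [← sup_res hT]
        ext m
        rw [mem_sup, mem_sup, hy]
        by_cases hm : m = i
        · subst hm; simp [flp]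
        · simp [flp, hm]
      have hyO : y ∈ Ob X := four_all S hp h2 h3 hn hx hxc (by rw [hsy, hTc])
      have hsw : sup w = sup u \ (T.erase i) := by
        ext m
        rw [Finset.mem_sdiff, mem_sup, mem_sup, hw]
        by_cases hm : m = i
        · subst hm; simp [flp, res]
        · by_cases hmT : m ∈ T
          · simp [flp, res, hm, hmT]
          · simp [flp, res, hm, hmT]
      have hcw : (sup w).card = n - 3 := by
        rw [hsw, Finset.card_sdiff_of_subset ((Finset.erase_subset _ _).trans hT), Finset.card_erase_of_mem hiT, hTc, hc]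
      have hww : w ⬝ᵥ w = 1 := by
        rw [dot_sum_sup, sum_sq hp h3 (Finset.Subset.refl _), hcw]
        have h8 : ((n - 3 : ℕ) : F) = (n : F) := by
          rw [Nat.cast_sub (by omega)]
          push_cast
          rw [h3, sub_zero]
        rw [h8, ← hc, ← sum_sq hp h3 (Finset.Subset.refl _), ← dot_sum_sup, hu]
      have hwO := ih (n - 3) (by omega) w hww hcw
      have hyw : y ⬝ᵥ w = 1 := by
        rw [dotProduct, Finset.sum_eq_single i]
        · rw [hy, hw]
          simp only [flp, res, Finset.mem_singleton, if_true, hiT, Finset.mem_compl, Finset.mem_erase, ne_eq, not_true_eq_false,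
            false_and, not_false_eq_true]
          have := sq_one_three hp h3 _ hui
          linear_combination this
        · intro m _ hm
          rw [hy, hw]
          by_cases hmT : m ∈ T
          · simp [flp, res, hm, hmT]
          · simp [flp, res, hm, hmT]
        · intro h8; exact absurd (Finset.mem_univ _) h8
      have h9 := refl_mem' S hyO hwO
      rw [hyw] at h9
      have h10 : w + (-(2 * (1 : F))) • y = u := by
        ext m
        rw [Pi.add_apply, Pi.smul_apply, smul_eq_mul, hy, hw]
        by_cases hm : m = i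
        · subst hm
          simp only [flp, res, Finset.mem_singleton, if_true, hiT, Finset.mem_compl, Finset.mem_erase, ne_eq, not_true_eq_false,
            false_and, not_false_eq_true]
          linear_combination 0 * h3
        · by_cases hmT : m ∈ T
          · simp [flp, res, hm, hmT]
            linear_combination (-(u m)) * h3
          · simp [flp, res, hm, hmT]
      rwa [h10] at h9
  intro u hu
  exact key _ u hu rfl

end

/-- **main theorem** -/
theorem main (S : Sys X) (hp : (Fintype.card F).Prime) (h2 : (2 : F) ≠ 0) (hn : 7 ≤ Fintype.card ι)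
    (hm : ∃ h ∈ X, ∃ i : ι, ∀ j, h (ei i) ≠ ei j ∧ h (ei i) ≠ -ei j) : ∀ u : ι → F, u ⬝ᵥ u = 1 → u ∈ Ob X := by
  by_cases h3 : (3 : F) = 0
  · exact main3 S hp h2 h3 hn hm
  · exact main5 S hp h2 h3 hn hm

end Cfsg.Agent.Lib.Rf
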