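import Mathlib
import Cfsg.Agent.Lib.OrthDec2H94
import Cfsg.Agent.Lib.QuadNeg

set_option autoImplicit false
set_option linter.unusedSectionVars false
set_option linter.unusedSimpArgs false

/-!
# Groups containing all reflections in vectors of a given norm (helper14)
-/

namespace Cfsg.Agent.Lib.Rf

open Cfsg Cfsg.Geo QuadraticMap Module Cfsg.Agent.Lib.Quad
open Cfsg.Agent.Lib.OrthMax Cfsg.Agent.Lib.OrthNd Cfsg.Agent.Lib.OrthDecH94

variable {F V : Type*} [Field F] [AddCommGroup V] [Module F V] [FiniteDimensional F V]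
  {Q : QuadraticForm F V}

theorem SI.congr {M : Subgroup (V ≃ₗ[F] V)} {z y : V} (hz : Q z = 0) (hy : polar Q z y = 0) (l : F) (h : SI Q M z y) :
    SI Q M z (y + l • z) := by
  have hzz : polar Q z z = 0 := by rw [polar_self', hz, mul_zero]
  apply SI.add hz hy (by rw [polar_smul_right, hzz, smul_zero]) h
  refine ⟨1, one_mem _, fun x => ?_⟩
  rw [siegMap_apply]
  change x = _
  rw [Q_smul, hz, polar_smul_left]
  simp only [smul_eq_mul]
  module

/-- reflections in all vectors of norm `c` generate `Om` -/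
theorem Om_le_of_refl [Finite F] (hQ : Nd Q) (h2 : (2 : F) ≠ 0) (hn : 5 ≤ finrank F V) {c : F} (hc : c ≠ 0)
    (X : Subgroup (V ≃ₗ[F] V)) (hX : ∀ v : V, Q v = c → Quad.refl Q v ∈ X) : Om Q ≤ X := by
  have h4 : (4 : F) ≠ 0 := by
    intro h
    apply mul_ne_zero h2 h2
    linear_combination h
  rw [hQ.Om_eq_Sg (genHyp_of_two_ne_zero h2) (by omega), Sg, Subgroup.closure_le]
  rintro _ ⟨z, y, hz, hzy, rfl⟩
  -- it suffices to show SI
  suffices hSI : SI Q X z y by
    obtain ⟨g, hg, hgx⟩ := hSI
    have : sieg hQ hz hzy = g := by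
      apply LinearEquiv.ext
      intro x
      rw [hgx, sieg_apply, siegMap_apply]
    rw [this]
    exact hg
  by_cases hz0 : z = 0
  · subst hz0; exact SI.zero_left y
  have hunit : ∀ w : V, polar Q z w = 0 → Q w = c → SI Q X z w := by
    intro w hw hQw
    refine ⟨sieg hQ hz hw, ?_, fun x => by rw [sieg_apply, siegMap_apply]⟩
    rw [sieg_eq_refl hQ hz hw (by rw [hQw]; exact hc)]
    refine mul_mem (hX w hQw) (hX _ ?_)
    rw [Q_add, Q_smul, hz, polar_smul_right, polar_comm Q w z, hw, hQw]
    simp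
  -- a hyperbolic partner
  have htop : NDs Q (⊤ : Submodule F V) := by
    rw [NDs, eq_bot_iff]
    rintro x ⟨-, hx⟩
    rw [Submodule.mem_bot]
    apply hQ.eq_zero
    intro y
    rw [polar_comm]
    exact mem_perp.1 hx y trivial
  obtain ⟨f, -, hQf, hzf⟩ := exists_partner hQ htop (z := z) trivial hz0 hz
  obtain ⟨A, hA⟩ : ∃ A : Submodule F V, A = ⊤ ⊓ perp Q (Submodule.span F {z, f}) := ⟨_, rfl⟩
  have hAnd : NDs Q A := by rw [hA]; exact nds_cut hQ htop trivial trivial hz hQf hzf
  have hAd : 3 ≤ finrank F A := by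
    have := finrank_cut hQ ⊤ z f
    rw [finrank_top] at this
    rw [hA]
    omega
  have hAz : ∀ a ∈ A, polar Q z a = 0 := by
    intro a ha
    rw [hA, mem_cut] at ha
    exact ha.2.1
  have hns : ∀ a ∈ A, Q a ≠ 0 → SI Q X z a := by
    intro a ha hQa
    obtain ⟨u, hu, hQu⟩ := universal hQ h2 (nds_cut1 hQ h2 hAnd ha hQa)
      (by have := finrank_cut1 hQ (A := A) (a := a); omega) (c - Q a / 4)
    obtain ⟨huA, hau⟩ := mem_cut1.1 hu
    have e1 : a = ((1 / 2 : F) • a + u) + ((1 / 2 : F) • a - u) := by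
      rw [show ((1 / 2 : F) • a + u) + ((1 / 2 : F) • a - u) = (1 / 2 + 1 / 2 : F) • a by rw [add_smul]; abel]
      rw [show (1 / 2 + 1 / 2 : F) = 1 by field_simp; norm_num, one_smul]
    have hq : (1 / 2 : F) * (1 / 2) * Q a = Q a / 4 := by field_simp; norm_num
    rw [e1]
    apply SI.add hz
    · rw [polar_add_right, polar_smul_right, hAz a ha, hAz u huA, smul_zero, add_zero]
    · rw [polar_sub_right, polar_smul_right, hAz a ha, hAz u huA, smul_zero, sub_zero]
    · apply hunit
      · rw [polar_add_right, polar_smul_right, hAz a ha, hAz u huA, smul_zero, add_zero]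
      · rw [Q_add, Q_smul, polar_smul_left, hau, hQu, smul_zero, add_zero, hq]
        ring
    · apply hunit
      · rw [polar_sub_right, polar_smul_right, hAz a ha, hAz u huA, smul_zero, sub_zero]
      · rw [Q_sub, Q_smul, polar_smul_left, hau, hQu, smul_zero, sub_zero, hq]
        ring
  have hAall : ∀ a ∈ A, SI Q X z a := by
    intro a ha
    by_cases hQa : Q a = 0
    · obtain ⟨d, hd, hQd⟩ := exists_nonsing hAnd (by omega)
      have key : ∀ d ∈ A, Q d ≠ 0 → Q (a - d) ≠ 0 → SI Q X z a := by
        intro d hd hQd h3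
        have e1 : a = (a - d) + d := by abel
        rw [e1]
        apply SI.add hz
        · rw [polar_sub_right, hAz a ha, hAz d hd, sub_zero]
        · exact hAz d hd
        · exact hns _ (A.sub_mem ha hd) h3
        · exact hns _ hd hQd
      by_cases h3 : Q (a - d) = 0
      · apply key (-d) (A.neg_mem hd) (by rw [QuadraticMap.map_neg]; exact hQd)
        rw [sub_neg_eq_add, Q_add, hQa]
        rw [Q_sub, hQa] at h3
        intro h5
        apply mul_ne_zero h2 hQd
        linear_combination h3 + h5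
      · exact key d hd hQd h3
    · exact hns a ha hQa
  -- decompose y
  have hy : y - polar Q f y • z ∈ A := by
    rw [hA, mem_cut]
    refine ⟨trivial, ?_, ?_⟩
    · rw [polar_sub_right, polar_smul_right, hzy, polar_self', hz]; simp
    · rw [polar_sub_right, polar_smul_right, polar_comm Q f z, hzf]; simp
  have h5 := SI.congr hz (hAz _ hy) (polar Q f y) (hAall _ hy)
  rwa [sub_add_cancel] at h5

end Cfsg.Agent.Lib.Rf
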