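import Mathlib
import Cfsg.Agent.Lib.Rf10
import Cfsg.Agent.Lib.Rf11
import Cfsg.Agent.Lib.OrthBridge
import Cfsg.Agent.Lib.OrthFrame2H94

set_option autoImplicit false
set_option linter.unusedSectionVars false
set_option linter.unusedSimpArgs false

/-!
# Stabilizers of orthonormal frames over prime fields, odd dimension (helper14)
-/

namespace Cfsg.Agent.Lib.Rf

open Cfsg Cfsg.Geo QuadraticMap Module Cfsg.Agent.Lib.Quad
open Cfsg.Agent.Lib.OrthMax Cfsg.Agent.Lib.OrthNd Cfsg.Agent.Lib.OrthDecH94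
open Equiv (Perm)
open scoped Matrix

variable {F V : Type*} [Field F] [AddCommGroup V] [Module F V] [FiniteDimensional F V]
  {Q : QuadraticForm F V} {n : ℕ}

section frame
variable (b : Basis (Fin n) F V)

/-- transport of linear automorphisms -/
noncomputable def tr : ((Fin n → F) ≃ₗ[F] (Fin n → F)) →* (V ≃ₗ[F] V) where
  toFun g := (b.equivFun.trans g).trans b.equivFun.symm
  map_one' := by
    ext x
    simp
  map_mul' g h := by
    apply LinearEquiv.ext
    intro x
    change b.equivFun.symm (g (h (b.equivFun x))) = b.equivFun.symm (g (b.equivFun (b.equivFun.symm (h (b.equivFun x)))))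
    rw [LinearEquiv.apply_symm_apply]

theorem tr_apply (g : (Fin n → F) ≃ₗ[F] (Fin n → F)) (x : V) : tr b g x = b.equivFun.symm (g (b.equivFun x)) := rfl

theorem tr_apply' (g : (Fin n → F) ≃ₗ[F] (Fin n → F)) (x : Fin n → F) :
    tr b g (b.equivFun.symm x) = b.equivFun.symm (g x) := by
  rw [tr_apply, LinearEquiv.apply_symm_apply]

theorem tr_surj (h : V ≃ₗ[F] V) : ∃ g, tr b g = h := by
  refine ⟨(b.equivFun.symm.trans h).trans b.equivFun, ?_⟩
  ext x
  rw [tr_apply]
  simp

theorem symm_ei (i : Fin n) : b.equivFun.symm (ei i) = b i := by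
  rw [ei, Basis.equivFun_symm_single]

variable {b}

theorem polar_symm (hb : ∀ i j, i ≠ j → polar Q (b i) (b j) = 0) {c : F} (hc : ∀ i, Q (b i) = c) (x y : Fin n → F) :
    polar Q (b.equivFun.symm x) (b.equivFun.symm y) = 2 * c * (x ⬝ᵥ y) := by
  rw [Basis.equivFun_symm_apply, Basis.equivFun_symm_apply]
  have h1 : ∀ u v, polar Q u v = (polarBilin Q) u v := fun u v => rfl
  have h3 : ∀ w : V, (polarBilin Q) (∑ i, x i • b i) w = ∑ i, x i • (polarBilin Q) (b i) w := by
    intro w
    rw [map_sum, LinearMap.sum_apply]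
    exact Finset.sum_congr rfl fun i _ => by rw [map_smul, LinearMap.smul_apply]
  rw [h1, h3, dotProduct, Finset.mul_sum]
  apply Finset.sum_congr rfl
  intro i _
  rw [map_sum, Finset.sum_eq_single i]
  · rw [map_smul, polarBilin_apply_apply, polar_self', hc]
    simp only [smul_eq_mul]
    ring
  · intro j _ hj
    rw [map_smul, polarBilin_apply_apply, hb i j hj.symm, smul_zero]
  · intro h; exact absurd (Finset.mem_univ _) h

theorem Q_symm (h2 : (2 : F) ≠ 0) (hb : ∀ i j, i ≠ j → polar Q (b i) (b j) = 0) {c : F} (hc : ∀ i, Q (b i) = c)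
    (x : Fin n → F) : Q (b.equivFun.symm x) = c * (x ⬝ᵥ x) := by
  have h := polar_symm hb hc x x
  rw [polar_self'] at h
  apply mul_left_cancel₀ h2
  rw [h]; ring

/-- permutation of coordinates -/
def pm (n : ℕ) (F : Type*) [Field F] : Perm (Fin n) →* ((Fin n → F) ≃ₗ[F] (Fin n → F)) where
  toFun σ := LinearEquiv.funCongrLeft F F (σ⁻¹ : Perm (Fin n))
  map_one' := by ext x i; simp [LinearEquiv.funCongrLeft_apply]
  map_mul' σ τ := by
    apply LinearEquiv.ext
    intro x
    ext i
    change x (((σ * τ)⁻¹ : Perm (Fin n)) i) = x ((τ⁻¹ : Perm (Fin n)) ((σ⁻¹ : Perm (Fin n)) i))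
    rw [mul_inv_rev]
    rfl

theorem pm_apply (σ : Perm (Fin n)) (x : Fin n → F) : pm n F σ x = x ∘ (σ⁻¹ : Perm (Fin n)) := rfl

theorem pm_mem_O (h2 : (2 : F) ≠ 0) (hb : ∀ i j, i ≠ j → polar Q (b i) (b j) = 0) {c : F} (hc : ∀ i, Q (b i) = c) (σ : Perm (Fin n)) :
    tr b (pm n F σ) ∈ O Q := by
  intro v
  obtain ⟨x, rfl⟩ := b.equivFun.symm.surjective v
  rw [tr_apply', Q_symm h2 hb hc, Q_symm h2 hb hc, pm_apply]
  congr 1
  simp only [dotProduct, Function.comp_apply]
  exact Equiv.sum_comp (σ⁻¹ : Perm (Fin n)) (fun m => x m * x m)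

theorem pm_mem_Om (h2 : (2 : F) ≠ 0) (hb : ∀ i j, i ≠ j → polar Q (b i) (b j) = 0) {c : F} (hc : ∀ i, Q (b i) = c)
    (hn : 5 ≤ n) {σ : Perm (Fin n)} (hσ : Perm.sign σ = 1) : tr b (pm n F σ) ∈ Om Q := by
  have h1 : σ ∈ commutator (Perm (Fin n)) := by
    rw [alternatingGroup.commutator_perm_eq (by simpa using hn)]
    exact Perm.mem_alternatingGroup.2 hσ
  have h3 : commutator (Perm (Fin n)) ≤ (Om Q).comap ((tr b).comp (pm n F)) := by
    rw [commutator, Subgroup.commutator_le]
    intro x _ y _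
    rw [Subgroup.mem_comap, map_commutatorElement]
    exact Subgroup.commutator_mem_commutator (pm_mem_O h2 hb hc x) (pm_mem_O h2 hb hc y)
  exact h3 h1

theorem negrefl_mem_Om [Finite F] (hQ : Nd Q) (h2 : (2 : F) ≠ 0) (hb : ∀ i j, i ≠ j → polar Q (b i) (b j) = 0) {c : F}
    (hc0 : c ≠ 0) (hc : ∀ i, Q (b i) = c) (hodd : Odd n) (i : Fin n) :
    (LinearEquiv.neg F : V ≃ₗ[F] V) * Quad.refl Q (b i) ∈ Om Q := by
  rw [← neg_eq_list b hb (fun i => by rw [hc]; exact hc0)]
  have h1 : ((List.ofFn b).map (Quad.refl Q)).prod * Quad.refl Q (b i) = ((List.ofFn b ++ [b i]).map (Quad.refl Q)).prod := by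
    rw [List.map_append, List.prod_append]
    simp
  rw [h1, hQ.list_mem_Om_iff (genHyp_of_two_ne_zero h2)]
  · refine ⟨?_, ?_⟩
    · rw [List.length_append, List.length_ofFn]
      simpa using hodd.add_one
    · rw [List.map_append, List.prod_append, prod_list_ofFn_Q]
      simp only [hc, Finset.prod_const, Finset.card_univ, Fintype.card_fin, List.map_cons, List.map_nil, List.prod_cons,
        List.prod_nil, mul_one]
      rw [← pow_succ]
      exact hodd.add_one.isSquare_pow c
  · intro v hv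
    rw [List.mem_append] at hv
    rcases hv with hv | hv
    · obtain ⟨j, rfl⟩ := (List.mem_ofFn' b v).1 hv
      rw [hc]; exact hc0
    · rw [List.mem_singleton] at hv
      rw [hv, hc]; exact hc0

/-- monomial elements -/
def Mo (b : Basis (Fin n) F V) (g : V ≃ₗ[F] V) : Prop := ∀ i, ∃ j, g (b i) = b j ∨ g (b i) = -b j

/-- `M` and its negatives -/
def pmX (M : Subgroup (V ≃ₗ[F] V)) : Subgroup (V ≃ₗ[F] V) where
  carrier := {g | g ∈ M ∨ (LinearEquiv.neg F : V ≃ₗ[F] V) * g ∈ M}
  one_mem' := Or.inl (one_mem _)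
  mul_mem' := by
    rintro g h (hg | hg) (hh | hh)
    · exact Or.inl (mul_mem hg hh)
    · right
      have : (LinearEquiv.neg F : V ≃ₗ[F] V) * (g * h) = g * ((LinearEquiv.neg F : V ≃ₗ[F] V) * h) := by
        ext x
        change -(g (h x)) = g (-(h x))
        rw [map_neg]
      rw [this]; exact mul_mem hg hh
    · right
      rw [← mul_assoc]; exact mul_mem hg hh
    · left
      have : g * h = (LinearEquiv.neg F : V ≃ₗ[F] V) * g * ((LinearEquiv.neg F : V ≃ₗ[F] V) * h) := by
        ext x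
        change g (h x) = -(g (-(h x)))
        rw [map_neg, neg_neg]
      rw [this]; exact mul_mem hg hh
  inv_mem' := by
    rintro g (hg | hg)
    · exact Or.inl (inv_mem hg)
    · right
      have : (LinearEquiv.neg F : V ≃ₗ[F] V) * g⁻¹ = ((LinearEquiv.neg F : V ≃ₗ[F] V) * g)⁻¹ := by
        ext x
        change -(g.symm x) = g.symm (-x)
        rw [map_neg]
      rw [this]; exact inv_mem hg

/-- **the stabilizer of an orthonormal frame is maximal** -/
theorem lines_max [Fintype F] (hQ : Nd Q) (hp : (Fintype.card F).Prime) (h2 : (2 : F) ≠ 0) (hn : 7 ≤ n) (hodd : Odd n)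
    (hb : ∀ i j, i ≠ j → polar Q (b i) (b j) = 0) {c : F} (hc0 : c ≠ 0) (hc : ∀ i, Q (b i) = c)
    (M : Subgroup (V ≃ₗ[F] V)) (hM : M ≤ Om Q) (hH : ∀ g ∈ Om Q, Mo b g → g ∈ M) (hex : ∃ g ∈ M, ¬ Mo b g) : Om Q ≤ M := by
  classical
  have hfin : finrank F V = n := by rw [finrank_eq_card_basis b, Fintype.card_fin]
  obtain ⟨X, hX⟩ : ∃ X : Subgroup ((Fin n → F) ≃ₗ[F] (Fin n → F)), X = (pmX M).comap (tr b) := ⟨_, rfl⟩
  have hXO : ∀ g ∈ X, tr b g ∈ O Q := by
    intro g hg
    rw [hX, Subgroup.mem_comap] at hg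
    rcases hg with hg | hg
    · exact Om_le (hM hg)
    · have h3 := Om_le (hM hg)
      intro v
      have h4 := h3 v
      change Q (-(tr b g v)) = Q v at h4
      rwa [QuadraticMap.map_neg] at h4
  have S : Sys X := by
    refine ⟨?_, ?_, ?_⟩
    · intro h hh u v
      have h3 := O_polar (hXO h hh) (b.equivFun.symm u) (b.equivFun.symm v)
      rw [tr_apply', tr_apply', polar_symm hb hc, polar_symm hb hc] at h3
      exact mul_left_cancel₀ (mul_ne_zero h2 hc0) h3
    · intro i
      obtain ⟨g, hg⟩ := tr_surj b (Quad.refl Q (b i))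
      have hgX : g ∈ X := by
        rw [hX, Subgroup.mem_comap, hg]
        right
        apply hH _ (negrefl_mem_Om hQ h2 hb hc0 hc hodd i)
        intro j
        refine ⟨j, ?_⟩
        by_cases hij : j = i
        · left
          subst hij
          change -(Quad.refl Q (b j) (b j)) = b j
          rw [refl_self (by rw [hc]; exact hc0), neg_neg]
        · right
          change -(Quad.refl Q (b i) (b j)) = -b j
          rw [refl_of_perp (hb i j (Ne.symm hij))]
      refine ⟨g, hgX, fun w => ?_⟩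
      apply b.equivFun.symm.injective
      rw [← tr_apply', hg, refl_apply (by rw [hc]; exact hc0), hc, map_add, map_smul, symm_ei, ← symm_ei b i, polar_symm hb hc,
        ei_dot, sub_eq_add_neg, ← neg_smul]
      congr 2
      field_simp
    · intro σ hσ
      refine ⟨pm n F (σ⁻¹ : Perm (Fin n)), ?_, fun w => by rw [pm_apply, inv_inv]⟩
      rw [hX, Subgroup.mem_comap]
      left
      apply hH _ (pm_mem_Om h2 hb hc (by omega) (by rw [Perm.sign_inv, hσ]))
      intro i
      refine ⟨(σ⁻¹ : Perm (Fin n)) i, Or.inl ?_⟩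
      rw [← symm_ei b i, tr_apply', ← symm_ei b, pm_apply]
      congr 1
      ext m
      rw [inv_inv, Function.comp_apply]
      by_cases hm : m = (σ⁻¹ : Perm (Fin n)) i
      · have h4 : σ ((σ⁻¹ : Perm (Fin n)) i) = i := σ.apply_symm_apply i
        rw [hm, ei_self, h4, ei_self]
      · rw [ei_ne hm, ei_ne]
        intro h3
        apply hm
        rw [← h3]
        exact (σ.symm_apply_apply m).symm
  have hmon : ∃ h ∈ X, ∃ i : Fin n, ∀ j, h (ei i) ≠ ei j ∧ h (ei i) ≠ -ei j := by
    obtain ⟨g, hg, hgm⟩ := hex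
    obtain ⟨h, hh⟩ := tr_surj b g
    rw [Mo] at hgm
    push Not at hgm
    obtain ⟨i, hi⟩ := hgm
    refine ⟨h, by rw [hX, Subgroup.mem_comap, hh]; exact Or.inl hg, i, fun j => ⟨fun h3 => ?_, fun h3 => ?_⟩⟩
    · apply (hi j).1
      rw [← symm_ei b i, ← symm_ei b j, ← hh, tr_apply', h3]
    · apply (hi j).2
      rw [← symm_ei b i, ← symm_ei b j, ← hh, tr_apply', h3, map_neg]
  have hmain := main S hp h2 (by rw [Fintype.card_fin]; exact hn) hmon
  have hrefl : ∀ v : V, Q v = c → Quad.refl Q v ∈ pmX M := by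
    intro v hv
    obtain ⟨x, rfl⟩ := b.equivFun.symm.surjective v
    rw [Q_symm h2 hb hc] at hv
    have hx : x ⬝ᵥ x = 1 := by
      apply mul_left_cancel₀ hc0
      rw [hv, mul_one]
    obtain ⟨k, hk, hk2⟩ := refl_mem S (hmain x hx)
    have h3 : tr b k = Quad.refl Q (b.equivFun.symm x) := by
      apply LinearEquiv.ext
      intro u
      obtain ⟨w, rfl⟩ := b.equivFun.symm.surjective u
      have hQx : Q (b.equivFun.symm x) = c := by rw [Q_symm h2 hb hc, hx, mul_one]
      rw [tr_apply', hk2, refl_apply (by rw [hQx]; exact hc0), hQx, polar_symm hb hc, map_add, map_smul, sub_eq_add_neg, ← neg_smul]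
      congr 2
      field_simp
    rw [hX, Subgroup.mem_comap, h3] at hk
    exact hk
  have hle := Om_le_of_refl hQ h2 (by omega) hc0 (pmX M) hrefl
  have hneg : (LinearEquiv.neg F : V ≃ₗ[F] V) ∉ Om Q := by
    intro h
    have := ((hQ.neg_mem_Om_iff h2 b).1 h).1
    rw [hfin] at this
    exact (Nat.not_even_iff_odd.2 hodd) this
  intro g hg
  rcases hle hg with h3 | h3
  · exact h3
  · exfalso
    apply hneg
    have h4 := mul_mem (hM h3) (inv_mem hg)
    rwa [mul_inv_cancel_right] at h4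

end frame

end Cfsg.Agent.Lib.Rf
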