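import Mathlib
import Cfsg.Agent.Lib.Rf12
import Cfsg.Agent.Lib.LowNd

set_option autoImplicit false
set_option linter.unusedSectionVars false
set_option linter.unusedSimpArgs false

/-!
# Stabilizers of nondegenerate subspaces in odd dimension via reflections (helper14)
-/

namespace Cfsg.Agent.Lib.LowRef

open QuadraticMap Module Cfsg.Agent.Lib.Quad Cfsg.Agent.Lib.OrthMax Cfsg.Agent.Lib.OrthNd Cfsg.Agent.Lib.OrthDecH94
open Cfsg.Agent.Lib.Rf

variable {F V : Type*} [Field F] [AddCommGroup V] [Module F V] [FiniteDimensional F V]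
  {Q : QuadraticForm F V} {M : Subgroup (V ≃ₗ[F] V)}

/-- the negative of a product of reflections -/
theorem neg_list_mem [Finite F] (hQ : Nd Q) (h2 : (2 : F) ≠ 0) {n : ℕ} (b : Basis (Fin n) F V)
    (hb : ∀ i j, i ≠ j → polar Q (b i) (b j) = 0) (hb0 : ∀ i, Q (b i) ≠ 0) (vs : List V) (hvs : ∀ v ∈ vs, Q v ≠ 0) :
    (LinearEquiv.neg F : V ≃ₗ[F] V) * (vs.map (Quad.refl Q)).prod ∈ Om Q ↔
      Even (n + vs.length) ∧ IsSquare ((∏ i, Q (b i)) * (vs.map Q).prod) := by
  rw [← neg_eq_list b hb hb0, ← List.prod_append, ← List.map_append, hQ.list_mem_Om_iff (genHyp_of_two_ne_zero h2),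
    List.length_append, List.length_ofFn, List.map_append, List.prod_append, prod_list_ofFn_Q]
  intro v hv
  rw [List.mem_append] at hv
  rcases hv with hv | hv
  · obtain ⟨j, rfl⟩ := (List.mem_ofFn' b v).1 hv
    exact hb0 j
  · exact hvs v hv

theorem class_adj [Finite F] (hQ : Nd Q) (h2 : (2 : F) ≠ 0) {n : ℕ} (hn : Odd n) (b : Basis (Fin n) F V)
    (hb : ∀ i j, i ≠ j → polar Q (b i) (b j) = 0) (hb0 : ∀ i, Q (b i) ≠ 0) {g : V ≃ₗ[F] V} (hg : g ∈ O Q)
    {s : V} (hs : Q s ≠ 0) (hsq : ¬ IsSquare ((∏ i, Q (b i)) * Q s)) :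
    (g ∈ Om Q ∨ (LinearEquiv.neg F : V ≃ₗ[F] V) * g ∈ Om Q) ∨
    (g * Quad.refl Q s ∈ Om Q ∨ (LinearEquiv.neg F : V ≃ₗ[F] V) * (g * Quad.refl Q s) ∈ Om Q) := by
  have hgen : GenHyp Q := genHyp_of_two_ne_zero h2
  obtain ⟨vs, hvs, rfl⟩ := exists_list_of_mem_R ((hQ.R_eq_O hgen).symm ▸ hg : g ∈ R Q)
  have hδ : (∏ i, Q (b i)) ≠ 0 := Finset.prod_ne_zero_iff.2 fun i _ => hb0 i
  have hN : (vs.map Q).prod ≠ 0 := by
    rw [Ne, List.prod_eq_zero_iff, List.mem_map]
    rintro ⟨v, hv, h⟩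
    exact hvs v hv h
  obtain ⟨δ, hδe⟩ : ∃ δ, δ = ∏ i, Q (b i) := ⟨_, rfl⟩
  obtain ⟨N, hNe⟩ : ∃ N, N = (vs.map Q).prod := ⟨_, rfl⟩
  have hvs' : ∀ v ∈ vs ++ [s], Q v ≠ 0 := by
    intro v hv
    rw [List.mem_append, List.mem_singleton] at hv
    rcases hv with hv | rfl
    · exact hvs v hv
    · exact hs
  have e1 : (vs.map (Quad.refl Q)).prod * Quad.refl Q s = ((vs ++ [s]).map (Quad.refl Q)).prod := by
    rw [List.map_append, List.prod_append]
    simp
  have e2 : ((vs ++ [s]).map Q).prod = (vs.map Q).prod * Q s := by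
    rw [List.map_append, List.prod_append]
    simp
  rw [e1, hQ.list_mem_Om_iff hgen _ hvs, neg_list_mem hQ h2 b hb hb0 _ hvs, hQ.list_mem_Om_iff hgen _ hvs',
    neg_list_mem hQ h2 b hb hb0 _ hvs', e2, List.length_append, List.length_singleton, ← hδe, ← hNe]
  rw [← hδe] at hδ hsq
  rw [← hNe] at hN
  rcases Nat.even_or_odd vs.length with hev | hod
  · by_cases h3 : IsSquare N
    · exact Or.inl (Or.inl ⟨hev, h3⟩)
    · right; right
      refine ⟨?_, ?_⟩
      · rw [Nat.even_add]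
        constructor
        · intro h; exact absurd h (Nat.not_even_iff_odd.2 hn)
        · intro h; exact absurd h (Nat.not_even_iff_odd.2 hev.add_one)
      · have := isSquare_mul_of_not_isSquare h3 hsq
        rw [show δ * (N * Q s) = N * (δ * Q s) by ring]
        exact this
  · by_cases h3 : IsSquare (δ * N)
    · exact Or.inl (Or.inr ⟨by rw [Nat.even_add]; constructor <;> intro h <;> [exact absurd h (Nat.not_even_iff_odd.2 hn); exact absurd h (Nat.not_even_iff_odd.2 hod)], h3⟩)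
    · right; left
      refine ⟨hod.add_one, ?_⟩
      have := isSquare_mul_of_not_isSquare h3 hsq
      have h4 : δ * N * (δ * Q s) = δ * δ * (N * Q s) := by ring
      rw [h4] at this
      obtain ⟨r, hr⟩ := this
      refine ⟨r / δ, ?_⟩
      field_simp
      rw [_root_.sq, _root_.sq]
      linear_combination hr

section main
variable {W : Submodule F V}

/-- a complement vector in `W` -/
theorem exists_t [Finite F] (hQ : Nd Q) (h2 : (2 : F) ≠ 0) (hW : NDs Q W) {k : ℕ} (hk : 3 ≤ k) (hd : k ≤ finrank F W) {w : V} (hw : w ∈ W)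
    (hw0 : w ≠ 0) (hc : 4 ≤ k ∨ Q w ≠ 0) (γ : F) :
    ∃ t ∈ W, polar Q w t = 0 ∧ Q t = γ ∧ (1 / 2 : F) • w + t ≠ 0 ∧ -((1 / 2 : F) • w) + t ≠ 0 := by
  by_cases hQw : Q w = 0
  · obtain ⟨f, hf, hQf, hwf⟩ := exists_partner hQ hW hw hw0 hQw
    have h1 := finrank_cut hQ W w f
    have hc' : 4 ≤ k := hc.resolve_right (fun h => h hQw)
    obtain ⟨t, ht, hQt⟩ := universal hQ h2 (nds_cut hQ hW hw hf hQw hQf hwf) (by omega) γ
    obtain ⟨htW, hwt, hft⟩ := mem_cut.1 ht
    have hfw : polar Q f w = 1 := by rw [polar_comm]; exact hwf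
    refine ⟨t, htW, hwt, hQt, ?_, ?_⟩
    · intro h
      have h3 : polar Q f ((1 / 2 : F) • w + t) = 0 := by rw [h, polar_zero_right]
      rw [polar_add_right, polar_smul_right, hfw, hft] at h3
      simp at h3
      exact h2 h3
    · intro h
      have h3 : polar Q f (-((1 / 2 : F) • w) + t) = 0 := by rw [h, polar_zero_right]
      rw [polar_add_right, polar_neg_right, polar_smul_right, hfw, hft] at h3
      simp at h3
      exact h2 h3
  · have h1 := finrank_cut1 hQ (A := W) (a := w)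
    obtain ⟨t, ht, hQt⟩ := universal hQ h2 (nds_cut1 hQ h2 hW hw hQw) (by omega) γ
    obtain ⟨htW, hwt⟩ := mem_cut1.1 ht
    have hww : polar Q w w ≠ 0 := by rw [polar_self']; exact mul_ne_zero h2 hQw
    refine ⟨t, htW, hwt, hQt, ?_, ?_⟩
    · intro h
      have h3 : polar Q w ((1 / 2 : F) • w + t) = 0 := by rw [h, polar_zero_right]
      rw [polar_add_right, polar_smul_right, hwt, add_zero, smul_eq_mul] at h3
      rcases mul_eq_zero.1 h3 with h4 | h4
      · simp at h4; exact h2 h4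
      · exact hww h4
    · intro h
      have h3 : polar Q w (-((1 / 2 : F) • w) + t) = 0 := by rw [h, polar_zero_right]
      rw [polar_add_right, polar_neg_right, polar_smul_right, hwt, add_zero, smul_eq_mul, neg_eq_zero] at h3
      rcases mul_eq_zero.1 h3 with h4 | h4
      · simp at h4; exact h2 h4
      · exact hww h4

/-- vectors of norm `δ ≠ 0` separate -/
theorem exists_sep [Finite F] (hQ : Nd Q) (h2 : (2 : F) ≠ 0) (hW : NDs Q W) (hd : 3 ≤ finrank F W) (δ : F) {y : V}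
    (hy : y ∈ W) (hy0 : y ≠ 0) : ∃ v ∈ W, Q v = δ ∧ polar Q v y ≠ 0 := by
  by_cases hQy : Q y = 0
  · obtain ⟨f, hf, hQf, hyf⟩ := exists_partner hQ hW hy hy0 hQy
    have hfy : polar Q f y = 1 := by rw [polar_comm]; exact hyf
    refine ⟨f + δ • y, W.add_mem hf (W.smul_mem _ hy), ?_, ?_⟩
    · rw [Q_add, Q_smul, polar_smul_right, hfy, hQf, hQy]; simp
    · rw [polar_add_left, polar_smul_left, polar_self', hQy, hfy]; simp
  · have h1 := finrank_cut1 hQ (A := W) (a := y)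
    obtain ⟨s, hs, hQs⟩ := universal hQ h2 (nds_cut1 hQ h2 hW hy hQy) (by omega) (δ - Q y)
    obtain ⟨hsW, hys⟩ := mem_cut1.1 hs
    refine ⟨y + s, W.add_mem hy hsW, ?_, ?_⟩
    · rw [Q_add, hys, hQs]; ring
    · rw [polar_add_left, polar_self', polar_comm Q s y, hys, add_zero]
      exact mul_ne_zero h2 hQy

/-- **maximality via reflections** -/
theorem refl_max [Fintype F] (hQ : Nd Q) (h2 : (2 : F) ≠ 0) (hodd : Odd (finrank F V)) (hW : NDs Q W)
    (hdW : 4 ≤ finrank F W) (hdU : 3 ≤ finrank F (perp Q W)) (hlt : finrank F (perp Q W) < finrank F W)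
    (hM : M ≤ Om Q) (hH : ∀ g ∈ Om Q, (∀ w ∈ W, g w ∈ W) → g ∈ M) (hex : ∃ g ∈ M, ∃ w ∈ W, g w ∉ W) : Om Q ≤ M := by
  classical
  obtain ⟨b, hb, hb0⟩ := hQ.exists_orth_basis h2
  obtain ⟨δ, hδ⟩ : ∃ δ, δ = ∏ i, Q (b i) := ⟨_, rfl⟩
  have hδ0 : δ ≠ 0 := by rw [hδ]; exact Finset.prod_ne_zero_iff.2 fun i _ => hb0 i
  have hdim := hQ.finrank_add_finrank_perp W
  obtain ⟨U, hU⟩ : ∃ U, U = perp Q W := ⟨_, rfl⟩
  have hUnd : NDs Q U := by rw [hU]; exact nds_perp hQ hW
  have hWU : ∀ w ∈ W, ∀ u ∈ U, polar Q w u = 0 := fun w hw u hu => mem_perp.1 (hU ▸ hu) w hw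
  have hUW : ∀ u ∈ U, ∀ w ∈ W, polar Q u w = 0 := fun u hu w hw => by rw [polar_comm]; exact hWU w hw u hu
  rw [← hU] at hdU hlt hdim
  have hWUi : ∀ w, w ∈ W → w ∈ U → w = 0 := by
    intro w hw hu
    have : w ∈ W ⊓ perp Q W := ⟨hw, hU ▸ hu⟩
    rw [show W ⊓ perp Q W = ⊥ from hW, Submodule.mem_bot] at this
    exact this
  have hXO : pmX M ≤ O Q := by
    intro g hg
    rcases hg with hg | hg
    · exact Om_le (hM hg)
    · have h3 := Om_le (hM hg)
      intro v
      have h4 := h3 v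
      change Q (-(g v)) = Q v at h4
      rwa [QuadraticMap.map_neg] at h4
  have hstab : ∀ g : V ≃ₗ[F] V, (g ∈ Om Q ∨ (LinearEquiv.neg F : V ≃ₗ[F] V) * g ∈ Om Q) → (∀ w ∈ W, g w ∈ W) → g ∈ pmX M := by
    intro g hg hw
    rcases hg with hg | hg
    · exact Or.inl (hH g hg hw)
    · exact Or.inr (hH _ hg fun w hww => W.neg_mem (hw w hww))
  -- reflections in W and U
  have hrefl : ∀ v : V, (v ∈ W ∨ v ∈ U) → Q v = δ → Quad.refl Q v ∈ pmX M := by
    intro v hv hQv
    apply hstab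
    · right
      have h3 := (neg_list_mem hQ h2 b hb hb0 [v] (by simp [hQv, hδ0])).2 ⟨by simpa using hodd.add_one, by
        simp [← hδ, hQv]⟩
      simpa using h3
    · intro w hw
      rw [refl_apply (by rw [hQv]; exact hδ0)]
      rcases hv with hv | hv
      · exact W.sub_mem hw (W.smul_mem _ hv)
      · rw [hUW v hv w hw, mul_zero, zero_smul, sub_zero]; exact hw
  -- transitivity
  have htrans : ∀ w w' u u' : V, w ∈ W → w' ∈ W → u ∈ U → u' ∈ U → w ≠ 0 → w' ≠ 0 → u ≠ 0 → u' ≠ 0 → Q w = Q w' →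
      Q u = Q u' → ∃ g ∈ pmX M, g w = w' ∧ g u = u' := by
    intro w w' u u' hw hw' hu hu' hw0 hw0' hu0 hu0' hww huu
    obtain ⟨g1, hg1, hg1w, hg1U⟩ := hQ.witt_step U (fun h => hw0 (hWUi w hw h)) (fun h => hw0' (hWUi w' hw' h)) hww
      (fun h hh => by rw [hUW h hh w hw, hUW h hh w' hw'])
    obtain ⟨g2, hg2, hg2u, hg2W⟩ := hQ.witt_step W (fun h => hu0 (hWUi u h hu)) (fun h => hu0' (hWUi u' h hu')) huu
      (fun h hh => by rw [hWU h hh u hu, hWU h hh u' hu'])
    have hg1W : ∀ x ∈ W, g1 x ∈ W := by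
      intro x hx
      rw [← hQ.perp_perp W, mem_perp]
      intro y hy
      rw [← hU] at hy
      rw [← hg1U y hy, O_polar hg1]
      exact hUW y hy x hx
    have hgW : ∀ x ∈ W, (g2 * g1) x ∈ W := by
      intro x hx
      change g2 (g1 x) ∈ W
      rw [hg2W _ (hg1W x hx)]
      exact hg1W x hx
    have hgw : (g2 * g1) w = w' := by change g2 (g1 w) = w'; rw [hg1w, hg2W _ hw']
    have hgu : (g2 * g1) u = u' := by change g2 (g1 u) = u'; rw [hg1U u hu, hg2u]
    -- correcting reflection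
    obtain ⟨η, hη⟩ : ∃ η : F, ¬ IsSquare η := by
      have hch : ringChar F ≠ 2 := by
        intro h
        apply h2
        have := CharP.cast_eq_zero F (ringChar F)
        rw [h] at this
        exact_mod_cast this
      exact FiniteField.exists_nonsquare hch
    have hη0 : η ≠ 0 := by rintro rfl; exact hη IsSquare.zero
    obtain ⟨s, hs, hws, hQs, -, -⟩ := exists_t hQ h2 hW (k := 4) (by norm_num) hdW hw hw0 (Or.inl le_rfl) (δ * η)
    have hs0 : Q s ≠ 0 := by rw [hQs]; exact mul_ne_zero hδ0 hη0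
    have hsq : ¬ IsSquare ((∏ i, Q (b i)) * Q s) := by
      rw [← hδ, hQs]
      rintro ⟨r, hr⟩
      apply hη
      refine ⟨r / δ, ?_⟩
      field_simp
      rw [_root_.sq, _root_.sq]
      linear_combination hr
    rcases class_adj hQ h2 hodd b hb hb0 (mul_mem hg2 hg1) hs0 hsq with h3 | h3
    · exact ⟨_, hstab _ h3 hgW, hgw, hgu⟩
    · refine ⟨_, hstab _ h3 ?_, ?_, ?_⟩
      · intro x hx
        change (g2 * g1) (Quad.refl Q s x) ∈ W
        apply hgW
        rw [refl_apply hs0]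
        exact W.sub_mem hx (W.smul_mem _ hs)
      · change (g2 * g1) (Quad.refl Q s w) = w'
        rw [refl_of_perp (by rw [polar_comm]; exact hws)]
        exact hgw
      · change (g2 * g1) (Quad.refl Q s u) = u'
        rw [refl_of_perp (hWU s hs u hu)]
        exact hgu
  have hinv : ∀ g ∈ pmX M, ∀ v, Quad.refl Q v ∈ pmX M → Quad.refl Q (g v) ∈ pmX M := by
    intro g hg v hv
    rw [← refl_conj (hXO hg)]
    exact mul_mem (mul_mem hg hv) (inv_mem hg)
  -- spreading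
  have hspread : ∀ w0 u0 w u : V, w0 ∈ W → u0 ∈ U → w ∈ W → u ∈ U → w0 ≠ 0 → u0 ≠ 0 → Q w0 + Q u0 = δ →
      Quad.refl Q (w0 + u0) ∈ pmX M → Q w + Q u = δ →
      (∃ t ∈ W, polar Q w t = 0 ∧ Q t = Q w0 - Q w / 4 ∧ (1 / 2 : F) • w + t ≠ 0 ∧ -((1 / 2 : F) • w) + t ≠ 0) →
      (∃ t ∈ U, polar Q u t = 0 ∧ Q t = Q u0 - Q u / 4 ∧ (1 / 2 : F) • u + t ≠ 0 ∧ -((1 / 2 : F) • u) + t ≠ 0) →
      Quad.refl Q (w + u) ∈ pmX M := by
    intro w0 u0 w u hw0 hu0 hw hu hw00 hu00 hsum hX hsum' ⟨t, ht, hwt, hQt, ht1, ht2⟩ ⟨r, hr, hur, hQr, hr1, hr2⟩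
    have h4' : (4 : F) ≠ 0 := by
      intro h
      apply mul_ne_zero h2 h2
      linear_combination h
    have q0 : ∀ w : V, (1 / 2 : F) * (1 / 2) * Q w = Q w / 4 := by
      intro w
      rw [eq_div_iff h4', show (4 : F) = 2 * 2 by norm_num]
      field_simp
    have q1 : ∀ {w t : V} {a : F}, polar Q w t = 0 → Q t = a - Q w / 4 → Q ((1 / 2 : F) • w + t) = a := by
      intro w t a h1 h3
      rw [Q_add, Q_smul, polar_smul_left, h1, h3, q0, smul_zero]
      ring
    have q2 : ∀ {w t : V} {a : F}, polar Q w t = 0 → Q t = a - Q w / 4 → Q (-((1 / 2 : F) • w) + t) = a := by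
      intro w t a h1 h3
      rw [Q_add, QuadraticMap.map_neg, Q_smul, polar_neg_left, polar_smul_left, h1, h3, q0, smul_zero]
      ring
    have m1 : (1 / 2 : F) • w + t ∈ W := W.add_mem (W.smul_mem _ hw) ht
    have m2 : -((1 / 2 : F) • w) + t ∈ W := W.add_mem (W.neg_mem (W.smul_mem _ hw)) ht
    have n1 : (1 / 2 : F) • u + r ∈ U := U.add_mem (U.smul_mem _ hu) hr
    have n2 : -((1 / 2 : F) • u) + r ∈ U := U.add_mem (U.neg_mem (U.smul_mem _ hu)) hr
    obtain ⟨g, hg, hgw, hgu⟩ := htrans _ _ _ _ hw0 m1 hu0 n1 hw00 ht1 hu00 hr1 (q1 hwt hQt).symm (q1 hur hQr).symm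
    obtain ⟨k, hk, hkw, hku⟩ := htrans _ _ _ _ hw0 m2 hu0 n2 hw00 ht2 hu00 hr2 (q2 hwt hQt).symm (q2 hur hQr).symm
    have d1 := hinv g hg _ hX
    have d2 := hinv k hk _ hX
    rw [map_add, hgw, hgu] at d1
    rw [map_add, hkw, hku] at d2
    obtain ⟨v1, hv1⟩ : ∃ v1, v1 = ((1 / 2 : F) • w + t) + ((1 / 2 : F) • u + r) := ⟨_, rfl⟩
    obtain ⟨v2, hv2⟩ : ∃ v2, v2 = (-((1 / 2 : F) • w) + t) + (-((1 / 2 : F) • u) + r) := ⟨_, rfl⟩
    rw [← hv1] at d1
    rw [← hv2] at d2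
    have hQv1 : Q v1 = δ := by rw [hv1, Q_add, hWU _ m1 _ n1, q1 hwt hQt, q1 hur hQr, add_zero, hsum]
    have hQv2 : Q v2 = δ := by rw [hv2, Q_add, hWU _ m2 _ n2, q2 hwt hQt, q2 hur hQr, add_zero, hsum]
    have h12 : v1 - v2 = w + u := by
      rw [hv1, hv2]
      have e1 : ∀ x : V, (1 / 2 : F) • x + (1 / 2 : F) • x = x := by
        intro x
        rw [← add_smul, show (1 / 2 + 1 / 2 : F) = 1 by field_simp; norm_num, one_smul]
      calc _ = ((1 / 2 : F) • w + (1 / 2 : F) • w) + ((1 / 2 : F) • u + (1 / 2 : F) • u) := by abel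
        _ = _ := by rw [e1, e1]
    have hQ12 : Q (v1 - v2) = δ := by rw [h12, Q_add, hWU w hw u hu, add_zero, hsum']
    have hp12 : polar Q v2 v1 = δ := by
      rw [polar_comm]
      have := Q_sub (Q := Q) v1 v2
      rw [hQ12, hQv1, hQv2] at this
      linear_combination this
    have h3 := hinv _ d2 _ d1
    rw [refl_apply (by rw [hQv2]; exact hδ0), hQv2, hp12, inv_mul_cancel₀ hδ0, one_smul, h12] at h3
    exact h3
  -- a mixed vector
  obtain ⟨w0, hw0, u0, hu0, hw00, hu00, hsum0, hX0⟩ : ∃ w0 ∈ W, ∃ u0 ∈ U, w0 ≠ 0 ∧ u0 ≠ 0 ∧ Q w0 + Q u0 = δ ∧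
      Quad.refl Q (w0 + u0) ∈ pmX M := by
    by_contra hcon
    push Not at hcon
    obtain ⟨g, hg, w, hw, hgw⟩ := hex
    have hgX : g ∈ pmX M := Or.inl hg
    have hgO := hXO hgX
    have key : ∀ v ∈ W, Q v = δ → g v ∈ W ∨ g v ∈ U := by
      intro v hv hQv
      obtain ⟨x, hx, y, hy, hxy⟩ := nds_sup hQ hW (g v)
      rw [← hU] at hy
      by_cases hx0 : x = 0
      · right; rw [← hxy, hx0, zero_add]; exact hy
      · by_cases hy0 : y = 0
        · left; rw [← hxy, hy0, add_zero]; exact hx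
        · exfalso
          refine hcon x hx y hy hx0 hy0 ?_ ?_
          · have h3 := hgO v
            rw [← hxy, Q_add, hWU x hx y hy, add_zero, hQv] at h3
            exact h3
          · rw [hxy]
            exact hinv g hgX v (hrefl v (Or.inl hv) hQv)
    have key2 : (∀ v ∈ W, Q v = δ → g v ∈ W) ∨ (∀ v ∈ W, Q v = δ → g v ∈ U) := by
      by_contra hc
      push Not at hc
      obtain ⟨⟨v1, hv1, hQv1, hgv1⟩, v2, hv2, hQv2, hgv2⟩ := hc
      have h1 := (key v1 hv1 hQv1).resolve_left hgv1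
      have h3 := (key v2 hv2 hQv2).resolve_right hgv2
      have h12 : polar Q v1 v2 = 0 := by
        rw [← O_polar hgO]
        exact hUW _ h1 _ h3
      have hdim1 := finrank_cut1 hQ (A := W) (a := v1)
      have hnd1 := nds_cut1 hQ h2 hW hv1 (by rw [hQv1]; exact hδ0)
      have hdim2 := finrank_cut1 hQ (A := W ⊓ perp Q (F ∙ v1)) (a := v2)
      have hnd2 := nds_cut1 hQ h2 hnd1 (mem_cut1.2 ⟨hv2, h12⟩) (by rw [hQv2]; exact hδ0)
      obtain ⟨s, hs, hQs⟩ := universal hQ h2 hnd2 (by omega) (-δ)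
      obtain ⟨hs1, hv2s⟩ := mem_cut1.1 hs
      obtain ⟨hsW, hv1s⟩ := mem_cut1.1 hs1
      have hv3 : v1 + v2 + s ∈ W := W.add_mem (W.add_mem hv1 hv2) hsW
      have hQv3 : Q (v1 + v2 + s) = δ := by
        rw [Q_add, Q_add, polar_add_left, h12, hv1s, hv2s, hQv1, hQv2, hQs]; ring
      have p1 : polar Q (v1 + v2 + s) v1 = 2 * δ := by
        rw [polar_add_left, polar_add_left, polar_self', polar_comm Q v2, h12, polar_comm Q s, hv1s, hQv1]; ring
      have p2 : polar Q (v1 + v2 + s) v2 = 2 * δ := by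
        rw [polar_add_left, polar_add_left, polar_self', h12, polar_comm Q s, hv2s, hQv2]; ring
      rcases key _ hv3 hQv3 with h4 | h4
      · rw [← O_polar hgO, hWU _ h4 _ h1] at p1
        exact mul_ne_zero h2 hδ0 p1.symm
      · rw [← O_polar hgO, hUW _ h4 _ h3] at p2
        exact mul_ne_zero h2 hδ0 p2.symm
    have span : ∀ P : Submodule F V, (∀ v ∈ W, Q v = δ → v ∈ P) → W ≤ P := by
      intro P hP x hx
      by_contra hxP
      obtain ⟨y, hy, hy1, hy2⟩ := exists_one_in hQ hW (B := W ⊓ P) inf_le_left hx (fun h => hxP h.2)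
      have hy0 : y ≠ 0 := by rintro rfl; rw [polar_zero_right] at hy2; exact zero_ne_one hy2
      obtain ⟨v, hv, hQv, hvy⟩ := exists_sep hQ h2 hW (by omega) δ hy hy0
      exact hvy (hy1 v ⟨hv, hP v hv hQv⟩)
    rcases key2 with h3 | h3
    · have := span (W.comap g.toLinearMap) (fun v hv hQv => h3 v hv hQv)
      exact hgw (this hw)
    · have h4 := span (U.comap g.toLinearMap) (fun v hv hQv => h3 v hv hQv)
      have h5 : W.map g.toLinearMap ≤ U := by
        rintro _ ⟨x, hx, rfl⟩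
        exact h4 hx
      have h6 := Submodule.finrank_mono h5
      have h7 : finrank F (W.map g.toLinearMap) = finrank F W := LinearEquiv.finrank_map_eq g _
      omega
  -- all vectors of norm δ
  have step1 : ∀ w ∈ W, ∀ u ∈ U, w ≠ 0 → u ≠ 0 → Q w + Q u = δ → Q u ≠ 0 → Quad.refl Q (w + u) ∈ pmX M := by
    intro w hw u hu hw1 hu1 hsum hQu
    apply hspread w0 u0 w u hw0 hu0 hw hu hw00 hu00 hsum0 hX0 hsum
    · exact exists_t hQ h2 hW (k := 4) (by norm_num) hdW hw hw1 (Or.inl le_rfl) _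
    · exact exists_t hQ h2 hUnd (k := 3) le_rfl hdU hu hu1 (Or.inr hQu) _
  have hall : ∀ v : V, Q v = δ → Quad.refl Q v ∈ pmX M := by
    intro v hv
    obtain ⟨w, hw, u, hu, rfl⟩ := nds_sup hQ hW v
    rw [← hU] at hu
    by_cases hw1 : w = 0
    · rw [hw1, zero_add] at hv ⊢
      exact hrefl u (Or.inr hu) hv
    by_cases hu1 : u = 0
    · rw [hu1, add_zero] at hv ⊢
      exact hrefl w (Or.inl hw) hv
    have hsum : Q w + Q u = δ := by
      rw [Q_add, hWU w hw u hu, add_zero] at hv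
      exact hv
    by_cases hQu : Q u = 0
    · obtain ⟨f, hf, hQf, huf⟩ := exists_partner hQ hUnd hu hu1 hQu
      have hd1 := finrank_cut hQ U u f
      obtain ⟨t, ht, hQt⟩ := exists_nonsing (nds_cut hQ hUnd hu hf hQu hQf huf) (by omega)
      obtain ⟨htU, hut, hft⟩ := mem_cut.1 ht
      have ht0 : t ≠ 0 := by rintro rfl; rw [QuadraticMap.map_zero] at hQt; exact hQt rfl
      obtain ⟨x, hx, hx0, hQx⟩ : ∃ x ∈ W, x ≠ 0 ∧ Q x = δ - Q t := by
        obtain ⟨y, hy, hy0⟩ := Submodule.exists_mem_ne_zero_of_ne_bot (show W ≠ ⊥ by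
          rintro rfl; rw [finrank_bot] at hdW; omega)
        obtain ⟨x, hx, hQx, hxy⟩ := exists_sep hQ h2 hW (by omega) (δ - Q t) hy hy0
        exact ⟨x, hx, fun h => hxy (by rw [h, polar_zero_left]), hQx⟩
      have hfu : polar Q f u = 1 := by rw [polar_comm]; exact huf
      apply hspread x t w u hx htU hw hu hx0 ht0 (by rw [hQx]; ring) (step1 x hx t htU hx0 ht0 (by rw [hQx]; ring) hQt) hsum
      · exact exists_t hQ h2 hW (k := 4) (by norm_num) hdW hw hw1 (Or.inl le_rfl) _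
      · refine ⟨t, htU, hut, by rw [hQu]; ring, ?_, ?_⟩
        · intro h
          have h3 : polar Q f ((1 / 2 : F) • u + t) = 0 := by rw [h, polar_zero_right]
          rw [polar_add_right, polar_smul_right, hfu, hft] at h3
          simp at h3
          exact h2 h3
        · intro h
          have h3 : polar Q f (-((1 / 2 : F) • u) + t) = 0 := by rw [h, polar_zero_right]
          rw [polar_add_right, polar_neg_right, polar_smul_right, hfu, hft] at h3
          simp at h3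
          exact h2 h3
    · exact step1 w hw u hu hw1 hu1 hsum hQu
  have hle := Om_le_of_refl hQ h2 (by omega) hδ0 (pmX M) hall
  have hneg : (LinearEquiv.neg F : V ≃ₗ[F] V) ∉ Om Q := by
    intro h
    exact (Nat.not_even_iff_odd.2 hodd) ((hQ.neg_mem_Om_iff h2 b).1 h).1
  intro g hg
  rcases hle hg with h3 | h3
  · exact h3
  · exfalso
    apply hneg
    have h4 := mul_mem (hM h3) (inv_mem hg)
    rwa [mul_inv_cancel_right] at h4

end main

end Cfsg.Agent.Lib.LowRef
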