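import Mathlib
import Cfsg.Agent.Lib.LowSubOm4

/-!
# Overgroups of `Ω(V₀)` in `Ω(V)`: the final argument (dimension at least 7, after helper98)
-/

set_option autoImplicit false
set_option linter.unusedSectionVars false

namespace Cfsg.Agent.Lib.LowSubOm

open Cfsg.Agent.Lib QuadraticMap Module Cfsg.Agent.Lib.Quad Cfsg.Agent.Lib.OrthMax

variable {F V : Type*} [Field F] [Finite F] [AddCommGroup V] [Module F V] [FiniteDimensional F V]
variable {Q : QuadraticForm F V} {F₀ : Subfield F} {V0 : Submodule F₀ V} {M : Subgroup (V ≃ₗ[F] V)}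

section

variable (S : OrF Q F₀ V0)
include S

theorem mem_of_smul {x : V} (hx : x ∈ V0) (hx0 : x ≠ 0) {c : F} (h : c • x ∈ V0) : c ∈ F₀ := by
  obtain ⟨y, hy, hxy⟩ := S.nd0 hx0
  have h1 := S.polar_mem h hy
  rw [polar_smul_left, smul_eq_mul] at h1
  have := F₀.div_mem h1 (S.polar_mem hx hy)
  rwa [mul_div_assoc, div_self hxy, mul_one] at this

/-- orthogonal singular vectors have the same multiplier -/
theorem mult_orth (g : V ≃ₗ[F] V) (h : ∀ v ∈ V0, v ≠ 0 → Q v = 0 → ∃ c : F, c ≠ 0 ∧ c • g v ∈ V0) {x y : V}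
    (hx : x ∈ V0) (hx0 : x ≠ 0) (hQx : Q x = 0) (hy : y ∈ V0) (hQy : Q y = 0) (hxy : polar Q x y = 0)
    {c : F} (hc : c ≠ 0) (hcx : c • g x ∈ V0) : c • g y ∈ V0 := by
  by_cases hws : y ∈ Submodule.span F₀ {x}
  · obtain ⟨a, rfl⟩ := Submodule.mem_span_singleton.mp hws
    have e : c • g (a • x) = a • (c • g x) := by
      change c • g ((a : F) • x) = (a : F) • (c • g x)
      rw [map_smul, smul_comm]
    rw [e]; exact V0.smul_mem a hcx
  have hy0 : y ≠ 0 := by
    rintro rfl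
    exact hws (Submodule.zero_mem _)
  obtain ⟨a, ha, haw⟩ := h y hy hy0 hQy
  have hsum0 : y + x ≠ 0 := by
    intro h0
    apply hws
    rw [Submodule.mem_span_singleton]
    refine ⟨-1, ?_⟩
    rw [neg_smul, one_smul]
    exact (eq_neg_of_add_eq_zero_left h0).symm
  obtain ⟨b, hb, hbw⟩ := h (y + x) (V0.add_mem hy hx) hsum0 (by rw [Q_add, hQy, hQx, polar_comm, hxy]; simp)
  have hi := li2 S hx hy hx0 hws
  have n1 : c • g x ∉ Submodule.span F₀ {a • g y} := by
    intro hs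
    obtain ⟨t, ht⟩ := Submodule.mem_span_singleton.mp hs
    have h1 : g (c • x + (-((t : F) * a)) • y) = 0 := by
      rw [map_add, map_smul, map_smul, ← ht]
      change (t : F) • a • g y + _ = 0
      module
    exact hc (hi _ _ (g.map_eq_zero_iff.mp h1)).1
  have n2 : a • g y ∉ Submodule.span F₀ {c • g x} := by
    intro hs
    obtain ⟨t, ht⟩ := Submodule.mem_span_singleton.mp hs
    have h1 : g ((-((t : F) * c)) • x + a • y) = 0 := by
      rw [map_add, map_smul, map_smul, ← ht]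
      change _ + (t : F) • c • g x = 0
      module
    exact ha (hi _ _ (g.map_eq_zero_iff.mp h1)).2
  have e1 : b • g (y + x) = (b / a) • (a • g y) + (b / c) • (c • g x) := by
    rw [map_add, smul_smul, smul_smul, div_mul_cancel₀ _ ha, div_mul_cancel₀ _ hc, smul_add]
  have h1 : b / a ∈ F₀ := coef_mem S haw hcx n2 (by rw [← e1]; exact hbw)
  have h2 : b / c ∈ F₀ := coef_mem S hcx haw n1 (α := b / c) (β := b / a) (by rw [add_comm, ← e1]; exact hbw)
  have h3 : c / a ∈ F₀ := by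
    have := F₀.div_mem h1 h2
    have e : b / a / (b / c) = c / a := by field_simp
    rwa [e] at this
  have e2 : c • g y = (c / a) • (a • g y) := by
    rw [smul_smul, div_mul_cancel₀ _ ha]
  rw [e2]; exact S.smul_mem h3 haw

/-- a linear map sending rational singular vectors to multiples of rational vectors -/
theorem iso_uniform (g : V ≃ₗ[F] V) (h : ∀ v ∈ V0, v ≠ 0 → Q v = 0 → ∃ c : F, c ≠ 0 ∧ c • g v ∈ V0) :
    ∃ c : F, c ≠ 0 ∧ ∀ v ∈ V0, ∃ v' ∈ V0, g v = c • v' := by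
  obtain ⟨x₀, hx₀, hx₀0, hQx₀, -, -⟩ := S.exists_sing_perp (n := 0) (by omega) ![] (fun i => i.elim0)
  obtain ⟨c, hc, hcx⟩ := h x₀ hx₀ hx₀0 hQx₀
  let K : Submodule F₀ V :=
    { carrier := {v | c • g v ∈ V0}
      add_mem' := by
        intro a b ha hb
        change c • g (a + b) ∈ V0
        rw [map_add, smul_add]; exact V0.add_mem ha hb
      zero_mem' := by
        change c • g 0 ∈ V0
        rw [map_zero, smul_zero]; exact V0.zero_mem
      smul_mem' := by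
        intro a b hb
        change c • g ((a : F) • b) ∈ V0
        rw [map_smul, smul_comm]
        exact V0.smul_mem a hb }
  have hKV : V0 ≤ K := by
    apply S.sing_span_top
    intro y hy hyy
    change c • g y ∈ V0
    obtain ⟨u, hu, hu0, hQu, hup, -⟩ := S.exists_sing_perp (n := 2) (by omega) ![x₀, y] (by
      intro i; fin_cases i
      · exact hx₀
      · exact hy)
    have h1 : polar Q x₀ u = 0 := hup 0
    have h2 : polar Q y u = 0 := hup 1
    have h3 := mult_orth S g h hx₀ hx₀0 hQx₀ hu hQu h1 hc hcx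
    exact mult_orth S g h hu hu0 hQu hy hyy (by rw [polar_comm]; exact h2) hc h3
  refine ⟨c⁻¹, inv_ne_zero hc, fun v hv => ⟨c • g v, hKV hv, ?_⟩⟩
  rw [smul_smul, inv_mul_cancel₀ hc, one_smul]

/-- nonrational elements of `Ω` -/
theorem exists_nonrational (hne : ∃ l : F, l ∉ F₀) : ∃ g ∈ Om Q, ¬ ∃ c : F, c ≠ 0 ∧ ∀ x ∈ V0, ∃ x' ∈ V0, g x = c • x' := by
  obtain ⟨l, hl⟩ := hne
  obtain ⟨y, hy, hy0, hQy, -, -⟩ := S.exists_sing_perp (n := 0) (by omega) ![] (fun i => i.elim0)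
  have m1 : ∀ i, (![y] : Fin 1 → V) i ∈ V0 := by intro i; fin_cases i; exact hy
  obtain ⟨z, hz, hz0, hQz, hz1, hz2⟩ := S.exists_sing_perp (n := 1) (by omega) ![y] m1
  obtain ⟨u, hu, hQu, hzu, hu1⟩ := S.exists_partner hz hQz ![y] m1 hz1 hz2
  have hyz : polar Q y z = 0 := hz1 0
  have hyu : polar Q y u = 0 := hu1 0
  have hzy : polar Q z y = 0 := by rw [polar_comm]; exact hyz
  have hd := S.dim_le
  have hzly : polar Q z (l • y) = 0 := by rw [polar_smul_right, hzy, smul_zero]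
  refine ⟨sieg S.nd hQz hzly, S.nd.sieg_mem_Om (Or.inr (Or.inl (by omega))) hQz hzly, ?_⟩
  rintro ⟨c, hc, h⟩
  obtain ⟨x, hx, e1⟩ := h z hz
  obtain ⟨x', hx', e2⟩ := h u hu
  have hzz : polar Q z z = 0 := by rw [polar_self', hQz, mul_zero]
  rw [sieg_apply, hzz, polar_smul_left, hyz] at e1
  rw [sieg_apply, hzu, polar_smul_left, hyu, Q_smul, hQy] at e2
  simp only [zero_smul, add_zero, smul_zero, sub_zero, mul_zero, one_smul, zero_mul, mul_one] at e1 e2
  have hcF : c ∈ F₀ := by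
    have h3 : x = c⁻¹ • z := by rw [e1, smul_smul, inv_mul_cancel₀ hc, one_smul]
    rw [h3] at hx
    have := F₀.inv_mem (mem_of_smul S hz hz0 hx)
    rwa [inv_inv] at this
  have h5 : l • y ∈ V0 := by
    have h6 : l • y = c • x' - u := by rw [← e2]; abel
    rw [h6]
    exact V0.sub_mem (S.smul_mem hcF hx') hu
  exact hl (mem_of_smul S hy hy0 h5)

/-- rational Siegel elements are rational -/
theorem sieg_rational {z y : V} (hz : z ∈ V0) (hy : y ∈ V0) {x : V} (hx : x ∈ V0) : siegMap Q z y x ∈ V0 := by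
  rw [siegMap_apply]
  exact V0.sub_mem (V0.sub_mem (V0.add_mem hx (S.smul_mem (S.polar_mem hz hx) hy)) (S.smul_mem (S.polar_mem hy hx) hz))
    (S.smul_mem (F₀.mul_mem (S.form _ hy) (S.polar_mem hz hx)) hz)

/-- **the main theorem on overgroups** -/
theorem main [Fintype F] (r : ℕ) (hr : r.Prime) (hcard : Fintype.card F = Nat.card F₀ ^ r) (H : Hyp Q F₀ V0 M)
    (hex : ∃ g ∈ M, ¬ ∃ c : F, c ≠ 0 ∧ ∀ x ∈ V0, ∃ x' ∈ V0, g x = c • x') : Om Q ≤ M := by
  by_contra hOm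
  have hF : Rat Q F₀ V0 M := by
    intro z hz hz0 hQz y hzy hy
    by_contra hcon
    push Not at hcon
    exact hOm (full S H r hr hcard hz hz0 hQz hzy hy hcon)
  obtain ⟨g, hg, hgP⟩ := hex
  have hgO := H.le hg
  obtain ⟨v₀, hv₀, hv₀0, hQv₀, h1⟩ : ∃ v₀ ∈ V0, v₀ ≠ 0 ∧ Q v₀ = 0 ∧ ∀ c : F, c ≠ 0 → c • g v₀ ∉ V0 := by
    by_contra hc
    push Not at hc
    exact hgP (iso_uniform S g hc)
  have m1 : ∀ i, (![v₀] : Fin 1 → V) i ∈ V0 := by intro i; fin_cases i; exact hv₀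
  obtain ⟨w, hw, hw0, hQw, hw1, hw2⟩ := S.exists_sing_perp (n := 1) (by omega) ![v₀] m1
  have m2 : ∀ i, (![v₀, w] : Fin 2 → V) i ∈ V0 := by
    intro i; fin_cases i
    · exact hv₀
    · exact hw
  obtain ⟨w', hw', hw'0, hQw', hw'1, hw'2⟩ := S.exists_sing_perp (n := 2) (by omega) ![v₀, w] m2
  have hvw : polar Q v₀ w = 0 := hw1 0
  have hvw' : polar Q v₀ w' = 0 := hw'1 0
  have hwn : w ∉ Submodule.span F₀ {v₀} := by simpa using hw2
  have hr2 : Set.range ![v₀, w] = {v₀, w} := by simp [Matrix.range_cons, Matrix.range_empty, Set.pair_comm]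
  rw [hr2] at hw'2
  have hw'n : w' ∉ Submodule.span F₀ {v₀} := fun hs => hw'2 (Submodule.span_mono (by simp) hs)
  have key : ∀ w ∈ V0, Q w = 0 → polar Q v₀ w = 0 → w ∉ Submodule.span F₀ {v₀} → ∀ y ∈ V0, ∀ y' ∈ V0, DD Q (g v₀) (g w) y y' ∈ F₀ := by
    intro w hw hQw hvw hwn y hy y' hy'
    have a1 : Q (g v₀) = 0 := by rw [hgO]; exact hQv₀
    have a2 : Q (g w) = 0 := by rw [hgO]; exact hQw
    have a3 : polar Q (g v₀) (g w) = 0 := by rw [O_polar hgO]; exact hvw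
    have a4 : SI Q M (g v₀) (g w) := (H.mem v₀ hv₀ w hw hQv₀ hvw).map hg hgO
    have a5 : ∀ α β : F, α • g v₀ + β • g w = 0 → α = 0 ∧ β = 0 := by
      intro α β hab
      have h2 : g (α • v₀ + β • w) = 0 := by rw [map_add, map_smul, map_smul, hab]
      exact li2 S hv₀ hw hv₀0 hwn α β (g.map_eq_zero_iff.mp h2)
    by_cases hA : ∃ w₀ ∈ V0, w₀ ≠ 0 ∧ Q w₀ = 0 ∧ polar Q (g v₀) w₀ = 0 ∧ polar Q (g w) w₀ = 0
    · obtain ⟨w₀, hw₀, hw₀0, hQw₀, b1, b2⟩ := hA
      exact DD_mem S H hF a1 a2 a3 a4 a5 hw₀ hw₀0 hQw₀ (by rw [polar_comm]; exact b1) (by rw [polar_comm]; exact b2) hy hy'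
    · exfalso
      refine caseB S H hF r hr hcard a1 a2 a3 a4 a5 (fun u hu hQu b1 b2 => ?_)
      by_contra hu0
      exact hA ⟨u, hu, hu0, hQu, b1, b2⟩
  obtain ⟨c, hc, h2⟩ := rat_of_two S (v := g v₀) (x := g w') (x' := g w) (key w' hw' hQw' hvw' hw'n) (key w hw hQw hvw hwn) (by
    intro α β hab
    have h2 : g (α • v₀ + β • w) = 0 := by rw [map_add, map_smul, map_smul, hab]
    exact li2 S hv₀ hw hv₀0 hwn α β (g.map_eq_zero_iff.mp h2)) (by
    intro α β hab
    have h2 : g w' = g (α • v₀ + β • w) := by rw [map_add, map_smul, map_smul, hab]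
    exact li3 S hv₀ hw hw' hw'2 α β (g.injective h2))
  exact h1 c hc h2

end

end Cfsg.Agent.Lib.LowSubOm
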