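import Cfsg.Agent.Lib.OrthNdBridge
import Cfsg.Agent.Lib.LowNd
import Cfsg.Agent.Lib.LowRef
import Cfsg.Agent.Lib.LowSubOm5
import Cfsg.Agent.Lib.QuadForms
import Cfsg.Agent.S5650

/-!
# Bridges for small orthogonal groups in odd dimension at least seven (helper14)
-/

set_option autoImplicit false

namespace Cfsg.Agent.Lib.LowOrBridge

open Cfsg Cfsg.Geo Cfsg.Agent.Lib.GeoBridge QuadraticMap Module Cfsg.Agent.Lib.Quad
open Cfsg.Agent.Lib.OrthMax Cfsg.Agent.Lib.OrthNd Cfsg.Agent.Lib.OrthBridge Cfsg.Agent.Lib.OrthNdBridge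
open scoped MatrixGroups Matrix

variable {ι : Type} [Fintype ι] [DecidableEq ι] {F : Type*} [Field F]

/-- nondegenerate even-dimensional subspaces -/
theorem Om_nd_even [Fintype F] {Q : QuadraticForm F (ι → F)} (hQ : Nd Q) (h2 : (2 : F) ≠ 0)
    (hn : 7 ≤ finrank F (ι → F)) (hodd : Odd (finrank F (ι → F))) {W : Submodule F (ι → F)} (h0 : W ≠ ⊥)
    (hev : Even (finrank F W)) (hW : NDs Q W)
    (hexc : finrank F W = 2 → 4 ≤ Nat.card F ∨ ∀ w ∈ W, Q w = 0 → w = 0) :
    IsMaximalIn (omegaGL ⇑Q) (subspaceStabilizer W ⊓ omegaGL ⇑Q) := by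
  have h1 : W ≠ ⊤ := by
    rintro rfl
    rw [finrank_top] at hev
    exact (Nat.not_even_iff_odd.2 hodd) hev
  apply Om_stab_max_of hQ (by omega) h0 h1
  intro M hM hH hex
  have hMO := hM.trans (Om_le (Q := Q))
  have hgen : GenHyp Q := Or.inr (Or.inl (by omega))
  have hdim := hQ.finrank_add_finrank_perp W
  have hpp := hQ.perp_perp W
  have hW0 : finrank F W ≠ 0 := by
    intro h
    exact h0 (Submodule.finrank_eq_zero.1 h)
  obtain ⟨a, ha⟩ := hev
  obtain ⟨b, hb⟩ := hodd
  rcases Nat.lt_or_ge (finrank F (perp Q W)) (finrank F W) with hlt | hle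
  · -- `W` is the larger one
    rcases Nat.lt_or_ge (finrank F W) 5 with h4 | h5
    · exact LowRef.refl_max hQ h2 ⟨b, hb⟩ hW (by omega) (by omega) hlt hM hH hex
    · refine LowNd.nd_stab_max5 (W := perp Q W) hQ hgen hMO (nds_perp hQ hW) (by rw [hpp]; exact h5) ?_ ?_ ?_ ?_
      · intro g hg hgw
        refine hH g hg ?_
        have := stab_perp (Om_le hg) hgw
        rwa [hpp] at this
      · obtain ⟨g, hg, w, hw, hgw⟩ := hex
        by_contra hcon
        push Not at hcon
        have := stab_perp (hMO hg) (hcon g hg)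
        rw [hpp] at this
        exact hgw (this w hw)
      · intro g hg hgw
        rw [hpp] at hgw
        have hle' : W.map g.toLinearMap ≤ perp Q W := by
          rintro _ ⟨x, hx, rfl⟩; exact hgw x hx
        have h3 : finrank F (W.map g.toLinearMap) = finrank F W := LinearEquiv.finrank_map_eq g _
        have h4 := Submodule.finrank_mono hle'
        omega
      · intro h; omega
  · refine LowNd.nd_stab_max5 hQ hgen hMO hW (by omega) hH hex ?_ hexc
    intro g hg hgw
    have hle' : (perp Q W).map g.toLinearMap ≤ W := by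
      rintro _ ⟨x, hx, rfl⟩; exact hgw x hx
    have h3 : finrank F ((perp Q W).map g.toLinearMap) = finrank F (perp Q W) :=
      LinearEquiv.finrank_map_eq g _
    have h4 := Submodule.finrank_mono hle'
    omega

open Matrix Cfsg.Agent.Lib.LowSubOm Cfsg.Agent.Lib.SubfieldGeo
open Cfsg.Agent.S5650 (ratS mem_ratS finrank_ratS range_par)

/-- subfield groups -/
theorem subf_gen [Fintype F] (h7 : 7 ≤ Fintype.card ι)
    (Q : QuadraticForm F (ι → F)) (hQ : Nd Q) (F₀ : Subfield F) (r : ℕ) (hr : r.Prime)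
    (hcard : Fintype.card F = Nat.card F₀ ^ r)
    (P : Matrix.GeneralLinearGroup ι F) (ζ : F) (hζ : ζ ≠ 0)
    (hP : ∀ u : ι → F, (∀ i, u i ∈ F₀) → ζ * Q ((P : Matrix ι ι F) *ᵥ u) ∈ F₀) :
    Cfsg.Geo.IsMaximalIn (Cfsg.Geo.omegaGL ⇑Q) (Cfsg.Geo.subfieldSubgroup F₀ P ⊓ Cfsg.Geo.omegaGL ⇑Q) := by
  set Q' : QuadraticForm F (ι → F) := ζ • Q with hQ'def
  have hQ'app : ∀ x, Q' x = ζ * Q x := fun x => rfl
  have hpol : ∀ x y, polar Q' x y = ζ * polar Q x y := by
    intro x y
    simp only [polar, hQ'app]; ring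
  have hO : O Q' = O Q := by
    ext g
    rw [mem_O, mem_O]
    constructor
    · intro h v
      have := h v
      rw [hQ'app, hQ'app] at this
      exact mul_left_cancel₀ hζ this
    · intro h v
      rw [hQ'app, hQ'app, h]
  have hOm : Om Q' = Om Q := by rw [Om, Om, hO]
  have hnd' : Nd Q' := by
    apply nd_of
    intro x hx
    apply hQ.eq_zero
    intro y
    have := hx y
    rw [hpol] at this
    exact (mul_eq_zero.mp this).resolve_left hζ
  have S : OrF Q' F₀ (ratS F₀ P) :=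
    { form := by
        rintro _ ⟨u, hu, rfl⟩
        exact hP u hu
      span := span_rat
      nd := hnd'
      fin := by rw [← range_par]; infer_instance
      dim := by rw [finrank_ratS]; exact h7 }
  have h1F : 1 < Nat.card F₀ := Finite.one_lt_card
  have hne : ∃ x : F, x ∉ F₀ := by
    by_contra hcon
    push Not at hcon
    have h1 : Nat.card F₀ = Nat.card F :=
      Nat.card_congr (Equiv.subtypeUnivEquiv hcon)
    rw [Nat.card_eq_fintype_card (α := F), hcard] at h1
    have h3 : Nat.card F₀ ^ 1 < Nat.card F₀ ^ r := Nat.pow_lt_pow_right h1F hr.one_lt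
    rw [pow_one] at h3
    omega
  have hdim := S.dim_le
  apply Om_max_of (P := fun g => ∃ c : F, c ≠ 0 ∧ ∀ x ∈ ratS F₀ P, ∃ x' ∈ ratS F₀ P, g x = c • x')
    (fun g => mem_subfieldSubgroup_iff g)
  · obtain ⟨g, hg, h⟩ := exists_nonrational S hne
    rw [hOm] at hg
    exact ⟨g, hg, h⟩
  · intro M hM hH hex
    rw [← hOm] at hM hH ⊢
    have H : Hyp Q' F₀ (ratS F₀ P) M :=
      { le := hM.trans Om_le
        mem := by
          intro z hz y hy hQz hzy
          refine ⟨sieg hnd' hQz hzy, hH _ (hnd'.sieg_mem_Om (Or.inr (Or.inl (by omega))) hQz hzy) ⟨1, one_ne_zero, fun x hx =>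
            ⟨siegMap Q' z y x, sieg_rational S hz hy hx, ?_⟩⟩, fun x => ?_⟩
          · rw [one_smul, sieg_apply, siegMap_apply]
          · rw [sieg_apply, siegMap_apply] }
    exact LowSubOm.main S r hr hcard H hex

/-- without a scalar -/
theorem subf_odd [Fintype F] (h7 : 7 ≤ Fintype.card ι)
    (Q : QuadraticForm F (ι → F)) (hQ : Nd Q) (F₀ : Subfield F) (r : ℕ) (hr : r.Prime)
    (hcard : Fintype.card F = Nat.card F₀ ^ r)
    (P : Matrix.GeneralLinearGroup ι F) (hP : IsQuadFormRationalStructure ⇑Q F₀ P) :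
    Cfsg.Geo.IsMaximalIn (Cfsg.Geo.omegaGL ⇑Q) (Cfsg.Geo.subfieldSubgroup F₀ P ⊓ Cfsg.Geo.omegaGL ⇑Q) :=
  subf_gen h7 Q hQ F₀ r hr hcard P 1 one_ne_zero (fun u hu => by rw [one_mul]; exact hP u hu)

end Cfsg.Agent.Lib.LowOrBridge
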