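import Mathlib
import Cfsg.Agent.Lib.SLMax
import Cfsg.Agent.Lib.SLUn

set_option autoImplicit false
set_option linter.unusedSectionVars false
set_option linter.unusedSimpArgs false
set_option linter.unusedVariables false

/-!
Monomial maps with respect to a basis.
-/

namespace Cfsg.Agent.Lib.SLMonoH94

open Module

variable {F V ι : Type*} [Field F] [AddCommGroup V] [Module F V] [Fintype ι] [DecidableEq ι]
  (e : Basis ι F V)

/-- the monomial map `e i ↦ c i • e (σ i)` -/
noncomputable def mo (σ : Equiv.Perm ι) (c : ι → Fˣ) : V ≃ₗ[F] V :=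
  (e.equiv (e.unitsSMul c) (Equiv.refl ι)).trans (e.equiv e σ)

theorem mo_apply (σ : Equiv.Perm ι) (c : ι → Fˣ) (i : ι) : mo e σ c (e i) = (c i : F) • e (σ i) := by
  rw [mo, LinearEquiv.trans_apply, Basis.equiv_apply, Equiv.refl_apply, Basis.unitsSMul_apply]
  show (e.equiv e σ) ((c i : F) • e i) = _
  rw [LinearEquiv.map_smul, Basis.equiv_apply]

theorem ext_basis {g h : V ≃ₗ[F] V} (H : ∀ i, g (e i) = h (e i)) : g = h := by
  apply LinearEquiv.toLinearMap_injective
  exact e.ext H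

theorem mo_mul (σ τ : Equiv.Perm ι) (c d : ι → Fˣ) :
    mo e σ c * mo e τ d = mo e (σ * τ) (fun i => d i * c (τ i)) := by
  apply ext_basis e
  intro i
  rw [LinearEquiv.mul_apply, mo_apply, LinearEquiv.map_smul, mo_apply, mo_apply, smul_smul, Units.val_mul,
    Equiv.Perm.mul_apply]

theorem mo_one : mo e 1 1 = 1 := by
  apply ext_basis e
  intro i
  rw [mo_apply]
  simp

theorem mo_inv (σ : Equiv.Perm ι) (c : ι → Fˣ) : (mo e σ c)⁻¹ = mo e σ⁻¹ (fun i => (c (σ⁻¹ i))⁻¹) := by
  rw [inv_eq_iff_mul_eq_one, mo_mul, mul_inv_cancel]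
  have : (fun i => (c (σ⁻¹ i))⁻¹ * c (σ⁻¹ i)) = (1 : ι → Fˣ) := by
    funext i; rw [inv_mul_cancel]; rfl
  rw [this, mo_one]

/-- monomial maps -/
def Mono (g : V ≃ₗ[F] V) : Prop := ∃ (σ : Equiv.Perm ι) (c : ι → Fˣ), g = mo e σ c

theorem Mono.mul {g h : V ≃ₗ[F] V} (hg : Mono e g) (hh : Mono e h) : Mono e (g * h) := by
  obtain ⟨σ, c, rfl⟩ := hg
  obtain ⟨τ, d, rfl⟩ := hh
  exact ⟨_, _, mo_mul e σ τ c d⟩

theorem Mono.inv {g : V ≃ₗ[F] V} (hg : Mono e g) : Mono e g⁻¹ := by
  obtain ⟨σ, c, rfl⟩ := hg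
  exact ⟨_, _, mo_inv e σ c⟩

theorem mo_det (σ : Equiv.Perm ι) (c : ι → Fˣ) :
    LinearMap.det ((mo e σ c : V ≃ₗ[F] V) : V →ₗ[F] V) =
      ((Equiv.Perm.sign σ : ℤ) : F) * ∏ i, (c i : F) := by
  have h1 : LinearMap.det (((e.equiv e σ : V ≃ₗ[F] V)) : V →ₗ[F] V) = ((Equiv.Perm.sign σ : ℤ) : F) := by
    rw [← LinearMap.det_toMatrix e]
    have : LinearMap.toMatrix e e ((e.equiv e σ : V ≃ₗ[F] V) : V →ₗ[F] V) = ((σ⁻¹ : Equiv.Perm ι).toPEquiv.toMatrix : Matrix ι ι F) := by
      ext i j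
      rw [LinearMap.toMatrix_apply, PEquiv.toMatrix_apply]
      show e.repr (e.equiv e σ (e j)) i = _
      rw [Basis.equiv_apply, Basis.repr_self, Finsupp.single_apply]
      simp only [Equiv.toPEquiv_apply, Option.mem_def, Option.some_inj]
      congr 1
      rw [eq_iff_iff, Equiv.Perm.inv_eq_iff_eq, eq_comm, eq_comm (a := i)]
    rw [this, Matrix.det_permutation, Equiv.Perm.sign_inv]
  have h2 : LinearMap.det (((e.equiv (e.unitsSMul c) (Equiv.refl ι) : V ≃ₗ[F] V)) : V →ₗ[F] V) = ∏ i, (c i : F) := by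
    rw [← LinearMap.det_toMatrix e]
    have : LinearMap.toMatrix e e ((e.equiv (e.unitsSMul c) (Equiv.refl ι) : V ≃ₗ[F] V) : V →ₗ[F] V) =
        Matrix.diagonal (fun i => (c i : F)) := by
      ext i j
      rw [LinearMap.toMatrix_apply, Matrix.diagonal_apply]
      show e.repr (e.equiv (e.unitsSMul c) (Equiv.refl ι) (e j)) i = _
      rw [Basis.equiv_apply, Equiv.refl_apply, Basis.unitsSMul_apply]
      show e.repr ((c j : F) • e j) i = _
      rw [map_smul, Basis.repr_self, Finsupp.smul_apply, Finsupp.single_apply, smul_eq_mul]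
      by_cases h : j = i
      · subst h; simp
      · rw [if_neg h, if_neg (Ne.symm h), mul_zero]
    rw [this, Matrix.det_diagonal]
  have h3 : ((mo e σ c : V ≃ₗ[F] V) : V →ₗ[F] V) = ((e.equiv e σ : V ≃ₗ[F] V) : V →ₗ[F] V) ∘ₗ
      ((e.equiv (e.unitsSMul c) (Equiv.refl ι) : V ≃ₗ[F] V) : V →ₗ[F] V) := rfl
  rw [h3, LinearMap.det_comp, h1, h2]

theorem mo_repr (σ : Equiv.Perm ι) (c : ι → Fˣ) (v : V) (i : ι) :
    e.repr (mo e σ c v) (σ i) = (c i : F) * e.repr v i := by
  have h : v = ∑ j, e.repr v j • e j := (e.sum_repr v).symm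
  conv_lhs => rw [h]
  rw [map_sum, map_sum, Finset.sum_apply']
  rw [Finset.sum_eq_single i]
  · rw [LinearEquiv.map_smul, mo_apply, smul_smul, map_smul, Basis.repr_self, Finsupp.smul_apply,
      Finsupp.single_apply, if_pos rfl, smul_eq_mul, mul_one, mul_comm]
  · intro j _ hj
    rw [LinearEquiv.map_smul, mo_apply, smul_smul, map_smul, Basis.repr_self, Finsupp.smul_apply,
      Finsupp.single_apply, if_neg (fun h => hj (σ.injective h)), smul_zero]
  · intro h; exact absurd (Finset.mem_univ i) h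

theorem mo1_repr (c : ι → Fˣ) (v : V) (i : ι) :
    e.repr (mo e 1 c v) i = (c i : F) * e.repr v i := mo_repr e 1 c v i

theorem repr_ext {u v : V} (h : ∀ i, e.repr u i = e.repr v i) : u = v := by
  apply e.repr.injective
  ext i; exact h i

theorem repr_e (i j : ι) : e.repr (e i) j = if i = j then 1 else 0 := by
  rw [Basis.repr_self, Finsupp.single_apply]

/-- monomiality from the action on the basis -/
theorem mono_of {g : V ≃ₗ[F] V} (h : ∀ i, ∃ (j : ι) (c : F), g (e i) = c • e j) : Mono e g := by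
  choose s c hsc using h
  have hc : ∀ i, c i ≠ 0 := by
    intro i h0
    have := hsc i
    rw [h0, zero_smul, LinearEquiv.map_eq_zero_iff] at this
    exact e.ne_zero i this
  have hinj : Function.Injective s := by
    intro i j hij
    by_contra hne
    have h1 : g (c j • e i - c i • e j) = 0 := by
      rw [map_sub, LinearEquiv.map_smul, LinearEquiv.map_smul, hsc i, hsc j, hij, smul_smul, smul_smul,
        mul_comm, sub_self]
    rw [LinearEquiv.map_eq_zero_iff] at h1
    have h2 := congrArg (fun v => e.repr v i) h1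
    simp only [map_sub, map_smul, Finsupp.sub_apply, Finsupp.smul_apply, repr_e, map_zero,
      Finsupp.zero_apply, smul_eq_mul] at h2
    rw [if_neg (Ne.symm hne), if_true, mul_one, mul_zero, sub_zero] at h2
    exact hc j h2
  obtain ⟨σ, hσ⟩ : ∃ σ : Equiv.Perm ι, ∀ i, σ i = s i :=
    ⟨Equiv.ofBijective s (Finite.injective_iff_bijective.1 hinj), fun i => rfl⟩
  refine ⟨σ, fun i => Units.mk0 (c i) (hc i), ?_⟩
  apply ext_basis e
  intro i
  rw [mo_apply, hsc, hσ]; rfl

/-- the diagonal element with entries `b`, `b⁻¹` -/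
def dgc (k l : ι) (b : Fˣ) : ι → Fˣ := fun i => if i = k then b else if i = l then b⁻¹ else 1

theorem dgc_prod {k l : ι} (hkl : k ≠ l) (b : Fˣ) : ∏ i, (dgc k l b i : F) = 1 := by
  have h1 : ∏ i, dgc k l b i = 1 := by
    rw [← Finset.mul_prod_erase Finset.univ _ (Finset.mem_univ k),
      ← Finset.mul_prod_erase (Finset.univ.erase k) _ (Finset.mem_erase.2 ⟨hkl.symm, Finset.mem_univ l⟩)]
    rw [Finset.prod_eq_one]
    · simp [dgc, hkl.symm]
    · intro i hi
      rw [Finset.mem_erase, Finset.mem_erase] at hi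
      simp [dgc, hi.1, hi.2.1]
  have := congrArg (Units.val : Fˣ → F) h1
  rwa [Units.coe_prod, Units.val_one] at this

/-- the torus element -/
noncomputable def T (k l : ι) (b : Fˣ) : V ≃ₗ[F] V := mo e 1 (dgc k l b)

variable {M : Subgroup (V ≃ₗ[F] V)}

/-- `M` contains the monomial elements of determinant one -/
def HN (M : Subgroup (V ≃ₗ[F] V)) : Prop :=
  ∀ (σ : Equiv.Perm ι) (c : ι → Fˣ), ((Equiv.Perm.sign σ : ℤ) : F) * ∏ i, (c i : F) = 1 → mo e σ c ∈ M

theorem T_mem (hN : HN e M) {k l : ι} (hkl : k ≠ l) (b : Fˣ) : T e k l b ∈ M :=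
  hN 1 _ (by rw [dgc_prod hkl]; simp)

theorem T_repr (k l : ι) (b : Fˣ) (v : V) (i : ι) :
    e.repr (T e k l b v) i = (dgc k l b i : F) * e.repr v i := mo1_repr e _ v i

theorem T_repr_k (k l : ι) (b : Fˣ) (v : V) : e.repr (T e k l b v) k = (b : F) * e.repr v k := by
  rw [T_repr, dgc, if_pos rfl]

theorem T_repr_l {k l : ι} (hkl : k ≠ l) (b : Fˣ) (v : V) :
    e.repr (T e k l b v) l = (b : F)⁻¹ * e.repr v l := by
  rw [T_repr, dgc, if_neg hkl.symm, if_pos rfl, Units.val_inv_eq_inv_val]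

theorem T_repr_o {k l i : ι} (hk : i ≠ k) (hl : i ≠ l) (b : Fˣ) (v : V) :
    e.repr (T e k l b v) i = e.repr v i := by
  rw [T_repr, dgc, if_neg hk, if_neg hl, Units.val_one, one_mul]

/-- the cubic relation -/
theorem T_cubic (k l : ι) (b : Fˣ) (v : V) : T e k l b (T e k l b (T e k l b v)) =
    (1 + ((b : F) + (b : F)⁻¹)) • T e k l b (T e k l b v) - (1 + ((b : F) + (b : F)⁻¹)) • T e k l b v + v := by
  apply repr_ext e
  intro i
  have hb : (b : F) ≠ 0 := b.ne_zero
  simp only [map_add, map_sub, map_smul, Finsupp.add_apply, Finsupp.sub_apply, Finsupp.smul_apply, T_repr,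
    smul_eq_mul]
  have key : ((dgc k l b i : F) - 1) * ((dgc k l b i : F) - b) * ((dgc k l b i : F) - (b : F)⁻¹) = 0 := by
    unfold dgc
    split_ifs <;> simp
  have hbb : (b : F) * (b : F)⁻¹ = 1 := mul_inv_cancel₀ hb
  linear_combination (e.repr v i) * key + ((dgc k l b i : F) - 1) * e.repr v i * hbb * (-1 : F)

/-- a monomial element satisfying the cubic relation -/
theorem core_perm {σ : Equiv.Perm ι} {c : ι → Fˣ} {τ : F} (rel : ∀ v, mo e σ c (mo e σ c (mo e σ c v)) =
    (1 + τ) • mo e σ c (mo e σ c v) - (1 + τ) • mo e σ c v + v) {i : ι} (hi : σ i ≠ i) :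
    τ = -1 ∨ (σ (σ i) = i ∧ (c i : F) * c (σ i) = -(1 + τ) ∧ (1 + τ) ^ 2 = 1) := by
  have h := rel (e i)
  simp only [mo_apply, LinearEquiv.map_smul, smul_smul] at h
  have hk : ∀ k, (if σ (σ (σ i)) = k then (c i : F) * c (σ i) * c (σ (σ i)) else 0) =
      (if σ (σ i) = k then (1 + τ) * (c i * c (σ i)) else 0) - (if σ i = k then (1 + τ) * (c i : F) else 0) +
        (if i = k then 1 else 0) := by
    intro k
    have h1 := congrArg (fun v => e.repr v k) h
    simp only [map_add, map_sub, map_smul, Finsupp.add_apply, Finsupp.sub_apply, Finsupp.smul_apply,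
      repr_e, smul_eq_mul, mul_ite, mul_one, mul_zero] at h1
    exact h1
  have hcσ : ((c (σ i) : Fˣ) : F) ≠ 0 := (c (σ i)).ne_zero
  have hci : ((c i : Fˣ) : F) ≠ 0 := (c i).ne_zero
  by_cases h2 : σ (σ i) = i
  · right
    have h3 := hk i
    have h4 := hk (σ i)
    rw [h2] at h3 h4
    rw [if_neg hi, if_pos rfl, if_neg hi, if_pos rfl] at h3
    rw [if_pos rfl, if_neg (Ne.symm hi), if_pos rfl, if_neg (Ne.symm hi)] at h4
    have h5 : (c i : F) * c (σ i) = -(1 + τ) := by
      apply mul_right_cancel₀ hci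
      linear_combination h4
    refine ⟨h2, h5, ?_⟩
    have h6 : (1 + τ) * ((c i : F) * c (σ i)) = -1 := by linear_combination -h3
    rw [h5] at h6
    linear_combination -h6
  · left
    have h3 := hk i
    rw [if_neg h2, if_neg hi, if_pos rfl] at h3
    have h4 : σ (σ (σ i)) = i := by
      by_contra h5
      rw [if_neg h5] at h3
      simp at h3
    have h5 := hk (σ (σ i))
    have h6 : σ i ≠ σ (σ i) := fun h => hi (σ.injective h.symm)
    rw [h4, if_neg (Ne.symm h2), if_pos rfl, if_neg h6, if_neg (Ne.symm h2)] at h5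
    have h7 : (1 + τ) * ((c i : F) * c (σ i)) = 0 := by linear_combination -h5
    rcases mul_eq_zero.1 h7 with h8 | h8
    · linear_combination h8
    · exact absurd h8 (mul_ne_zero hci hcσ)

/-- eigenvectors of torus elements -/
theorem eig {k l : ι} (hkl : k ≠ l) {b : Fˣ} (hb : (b : F) ^ 2 ≠ 1) {u : V} {c : F} (hc : c ≠ 1)
    (h : T e k l b u = c • u) : ∃ (m : ι) (a : F), (m = k ∨ m = l) ∧ u = a • e m := by
  have hb0 : (b : F) ≠ 0 := b.ne_zero
  have ho : ∀ i, i ≠ k → i ≠ l → e.repr u i = 0 := by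
    intro i hk hl
    have h1 := congrArg (fun v => e.repr v i) h
    simp only [T_repr_o e hk hl, map_smul, Finsupp.smul_apply, smul_eq_mul] at h1
    have h2 : (1 - c) * e.repr u i = 0 := by linear_combination h1
    exact (mul_eq_zero.1 h2).resolve_left (sub_ne_zero.2 (Ne.symm hc))
  have hk : ((b : F) - c) * e.repr u k = 0 := by
    have h1 := congrArg (fun v => e.repr v k) h
    simp only [T_repr_k, map_smul, Finsupp.smul_apply, smul_eq_mul] at h1
    linear_combination h1
  have hl : ((b : F)⁻¹ - c) * e.repr u l = 0 := by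
    have h1 := congrArg (fun v => e.repr v l) h
    simp only [T_repr_l e hkl, map_smul, Finsupp.smul_apply, smul_eq_mul] at h1
    linear_combination h1
  by_cases huk : e.repr u k = 0
  · refine ⟨l, e.repr u l, Or.inr rfl, repr_ext e fun i => ?_⟩
    rw [map_smul, Finsupp.smul_apply, repr_e, smul_eq_mul]
    by_cases hil : l = i
    · rw [if_pos hil, mul_one, hil]
    · rw [if_neg hil, mul_zero]
      by_cases hik : i = k
      · rw [hik, huk]
      · exact ho i hik (Ne.symm hil)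
  · have hul : e.repr u l = 0 := by
      by_contra hul
      have h1 := (mul_eq_zero.1 hk).resolve_right huk
      have h2 := (mul_eq_zero.1 hl).resolve_right hul
      apply hb
      have h3 : (b : F) = (b : F)⁻¹ := by linear_combination h1 - h2
      calc (b : F) ^ 2 = b * b := by ring
        _ = b * (b : F)⁻¹ := by rw [← h3]
        _ = 1 := mul_inv_cancel₀ hb0
    refine ⟨k, e.repr u k, Or.inl rfl, repr_ext e fun i => ?_⟩
    rw [map_smul, Finsupp.smul_apply, repr_e, smul_eq_mul]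
    by_cases hik : k = i
    · rw [if_pos hik, mul_one, hik]
    · rw [if_neg hik, mul_zero]
      by_cases hil : i = l
      · rw [hil, hul]
      · exact ho i (Ne.symm hik) hil

/-- three basis vectors cannot have images supported on two coordinates -/
theorem three {g : V ≃ₗ[F] V} {a b c k l : ι} (hab : a ≠ b) (hac : a ≠ c) (hbc : b ≠ c)
    (ha : ∀ m, m ≠ k → m ≠ l → e.repr (g (e a)) m = 0) (hb : ∀ m, m ≠ k → m ≠ l → e.repr (g (e b)) m = 0)
    (hc : ∀ m, m ≠ k → m ≠ l → e.repr (g (e c)) m = 0) : False := by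
  obtain ⟨xa, hxa⟩ : ∃ x, x = e.repr (g (e a)) k := ⟨_, rfl⟩
  obtain ⟨xb, hxb⟩ : ∃ x, x = e.repr (g (e b)) k := ⟨_, rfl⟩
  obtain ⟨xc, hxc⟩ : ∃ x, x = e.repr (g (e c)) k := ⟨_, rfl⟩
  obtain ⟨ya, hya⟩ : ∃ x, x = e.repr (g (e a)) l := ⟨_, rfl⟩
  obtain ⟨yb, hyb⟩ : ∃ x, x = e.repr (g (e b)) l := ⟨_, rfl⟩
  obtain ⟨yc, hyc⟩ : ∃ x, x = e.repr (g (e c)) l := ⟨_, rfl⟩
  have key : ∀ p q r : F, p * xa + q * xb + r * xc = 0 → p * ya + q * yb + r * yc = 0 →
      p = 0 ∧ q = 0 ∧ r = 0 := by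
    intro p q r h1 h2
    have h3 : g (p • e a + q • e b + r • e c) = 0 := by
      apply repr_ext e
      intro m
      simp only [map_add, LinearEquiv.map_smul, map_smul, Finsupp.add_apply, Finsupp.smul_apply, smul_eq_mul, map_zero,
        Finsupp.zero_apply]
      by_cases hmk : m = k
      · rw [hmk, ← hxa, ← hxb, ← hxc]; exact h1
      · by_cases hml : m = l
        · rw [hml, ← hya, ← hyb, ← hyc]; exact h2
        · rw [ha m hmk hml, hb m hmk hml, hc m hmk hml]; ring
    rw [LinearEquiv.map_eq_zero_iff] at h3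
    refine ⟨?_, ?_, ?_⟩
    · have h4 := congrArg (fun v => e.repr v a) h3
      simp only [map_add, map_smul, Finsupp.add_apply, Finsupp.smul_apply, repr_e, smul_eq_mul, map_zero,
        Finsupp.zero_apply] at h4
      rw [if_neg hab.symm, if_neg hac.symm] at h4
      simpa using h4
    · have h4 := congrArg (fun v => e.repr v b) h3
      simp only [map_add, map_smul, Finsupp.add_apply, Finsupp.smul_apply, repr_e, smul_eq_mul, map_zero,
        Finsupp.zero_apply] at h4
      rw [if_neg hab, if_neg hbc.symm] at h4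
      simpa using h4
    · have h4 := congrArg (fun v => e.repr v c) h3
      simp only [map_add, map_smul, Finsupp.add_apply, Finsupp.smul_apply, repr_e, smul_eq_mul, map_zero,
        Finsupp.zero_apply] at h4
      rw [if_neg hac, if_neg hbc] at h4
      simpa using h4
  obtain ⟨h1, h2, h3⟩ := key (xb * yc - xc * yb) (xc * ya - xa * yc) (xa * yb - xb * ya) (by ring) (by ring)
  have h4 := key xb (-xa) 0 (by ring) (by linear_combination -h3)
  have h5 := key yb (-ya) 0 (by linear_combination h3) (by ring)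
  have h6 := key 1 0 0 (by rw [neg_eq_zero.1 h4.2.1]; ring) (by rw [neg_eq_zero.1 h5.2.1]; ring)
  exact one_ne_zero h6.1

/-- the pair lemma -/
theorem pl {b : Fˣ} (hb2 : (b : F) ^ 2 ≠ 1) (hb3 : (b : F) ^ 3 ≠ 1) {g : V ≃ₗ[F] V}
    (hgm : ∀ i m (a : F), g (e i) ≠ a • e m) {k l : ι} (hkl : k ≠ l) (hy : Mono e (g⁻¹ * T e k l b * g)) :
    (b : F) ^ 4 = 1 ∧ ∃ i j, i ≠ j ∧ (∀ m, m ≠ k → m ≠ l → e.repr (g (e i)) m = 0) ∧
      (∀ m, m ≠ k → m ≠ l → e.repr (g (e j)) m = 0) ∧
      (∀ i', i' ≠ i → i' ≠ j → e.repr (g (e i')) k = 0 ∧ e.repr (g (e i')) l = 0) := by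
  have hb0 : (b : F) ≠ 0 := b.ne_zero
  have hb1 : (b : F) ≠ 1 := by intro h; apply hb2; rw [h, one_pow]
  obtain ⟨σ, c, hy⟩ := hy
  have hT : ∀ v, T e k l b (g v) = g (mo e σ c v) := by
    intro v
    rw [← hy, LinearEquiv.mul_apply, LinearEquiv.mul_apply, ← LinearEquiv.mul_apply g, mul_inv_cancel]
    rfl
  have hTi : ∀ i, T e k l b (g (e i)) = (c i : F) • g (e (σ i)) := by
    intro i
    rw [hT, mo_apply, LinearEquiv.map_smul]
  have rel : ∀ v, mo e σ c (mo e σ c (mo e σ c v)) = (1 + ((b : F) + (b : F)⁻¹)) • mo e σ c (mo e σ c v) -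
      (1 + ((b : F) + (b : F)⁻¹)) • mo e σ c v + v := by
    intro v
    apply g.injective
    rw [← hT, ← hT, ← hT, T_cubic, hT, hT, map_add, map_sub, LinearEquiv.map_smul, LinearEquiv.map_smul,
      ← hT (mo e σ c v), ← hT v, hT, hT]
  have hfix : ∀ i', σ i' = i' → e.repr (g (e i')) k = 0 ∧ e.repr (g (e i')) l = 0 := by
    intro i' hi'
    have h1 := hTi i'
    rw [hi'] at h1
    by_cases hc : (c i' : F) = 1
    · rw [hc, one_smul] at h1
      constructor
      · have h2 := congrArg (fun v => e.repr v k) h1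
        simp only [T_repr_k] at h2
        have h3 : ((b : F) - 1) * e.repr (g (e i')) k = 0 := by linear_combination h2
        exact (mul_eq_zero.1 h3).resolve_left (sub_ne_zero.2 hb1)
      · have h2 := congrArg (fun v => e.repr v l) h1
        simp only [T_repr_l e hkl] at h2
        have h3 : ((b : F)⁻¹ - 1) * e.repr (g (e i')) l = 0 := by linear_combination h2
        refine (mul_eq_zero.1 h3).resolve_left (sub_ne_zero.2 ?_)
        intro h4
        exact hb1 (inv_eq_one.1 h4)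
    · obtain ⟨m, a, -, h⟩ := eig e hkl hb2 hc h1
      exact absurd h (hgm i' m a)
  obtain ⟨i, hi⟩ : ∃ i, σ i ≠ i := by
    by_contra hcon
    push Not at hcon
    have h1 : ∀ v, e.repr v k = 0 := by
      intro v
      obtain ⟨u, rfl⟩ := g.surjective v
      have hu : u = ∑ j, e.repr u j • e j := (e.sum_repr u).symm
      rw [hu, map_sum, map_sum, Finset.sum_apply']
      apply Finset.sum_eq_zero
      intro j _
      rw [LinearEquiv.map_smul, map_smul, Finsupp.smul_apply, (hfix j (hcon j)).1, smul_zero]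
    have h2 := h1 (e k)
    rw [repr_e, if_pos rfl] at h2
    exact one_ne_zero h2
  have hcore : ∀ i, σ i ≠ i → (b : F) ^ 4 = 1 ∧ σ (σ i) = i ∧
      (∀ m, m ≠ k → m ≠ l → e.repr (g (e i)) m = 0) := by
    intro i hi
    rcases core_perm e rel hi with h | ⟨h1, h2, h3⟩
    · exfalso
      apply hb3
      have h4 : (b : F) ^ 2 + b + 1 = 0 := by
        have := congrArg (fun x => x * (b : F)) h
        simp only [add_mul, inv_mul_cancel₀ hb0] at this
        linear_combination this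
      linear_combination ((b : F) - 1) * h4
    · have h4 : ((b : F) + (b : F)⁻¹) * ((b : F) + (b : F)⁻¹ + 2) = 0 := by linear_combination h3
      rcases mul_eq_zero.1 h4 with h5 | h5
      · have h6 : (b : F) ^ 2 = -1 := by
          have := congrArg (fun x => x * (b : F)) h5
          simp only [add_mul, inv_mul_cancel₀ hb0, zero_mul] at this
          linear_combination this
        refine ⟨by linear_combination ((b : F) ^ 2 - 1) * h6, h1, fun m hmk hml => ?_⟩
        have h7 : T e k l b (T e k l b (g (e i))) = (-1 : F) • g (e i) := by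
          rw [hTi, LinearEquiv.map_smul, hTi, smul_smul, h1, h2, h5]; simp
        have h8 := congrArg (fun v => e.repr v m) h7
        simp only [T_repr_o e hmk hml, map_smul, Finsupp.smul_apply, smul_eq_mul] at h8
        have h9 : (2 : F) * e.repr (g (e i)) m = 0 := by linear_combination h8
        refine (mul_eq_zero.1 h9).resolve_left ?_
        intro h10
        apply hb2
        rw [h6]; linear_combination -h10
      · exfalso
        apply hb2
        have h6 : ((b : F) + 1) ^ 2 = 0 := by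
          have := congrArg (fun x => x * (b : F)) h5
          simp only [add_mul, inv_mul_cancel₀ hb0, zero_mul] at this
          linear_combination this
        have h7 : (b : F) + 1 = 0 := pow_eq_zero_iff (two_ne_zero) |>.1 h6
        linear_combination ((b : F) - 1) * h7
  obtain ⟨h4, hσσ, hsi⟩ := hcore i hi
  have hj : σ (σ i) ≠ σ i := by rw [hσσ]; exact Ne.symm hi
  obtain ⟨-, -, hsj⟩ := hcore (σ i) hj
  refine ⟨h4, i, σ i, Ne.symm hi, hsi, hsj, fun i' h1 h2 => ?_⟩
  by_cases h3 : σ i' = i'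
  · exact hfix i' h3
  · exact (three e (Ne.symm hi) (Ne.symm h1) (Ne.symm h2) hsi hsj (hcore i' h3).2.2).elim

/-- supports of the inverse -/
theorem supp_inv {g : V ≃ₗ[F] V} {i j k l : ι} (hij : i ≠ j)
    (hi : ∀ m, m ≠ k → m ≠ l → e.repr (g (e i)) m = 0) (hj : ∀ m, m ≠ k → m ≠ l → e.repr (g (e j)) m = 0)
    (ho : ∀ i', i' ≠ i → i' ≠ j → e.repr (g (e i')) k = 0 ∧ e.repr (g (e i')) l = 0) {k' : ι}
    (hk' : k' = k ∨ k' = l) {i' : ι} (hi1 : i' ≠ i) (hi2 : i' ≠ j) : e.repr (g⁻¹ (e k')) i' = 0 := by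
  obtain ⟨h, hh⟩ : ∃ h, h = g⁻¹ (e k') := ⟨_, rfl⟩
  have hgh : g h = e k' := by rw [hh, ← LinearEquiv.mul_apply, mul_inv_cancel]; rfl
  rw [← hh]
  obtain ⟨w, hw⟩ : ∃ w, w = h - e.repr h i • e i - e.repr h j • e j := ⟨_, rfl⟩
  have hw1 : ∀ m, e.repr w m = if m = i ∨ m = j then 0 else e.repr h m := by
    intro m
    rw [hw]
    simp only [map_sub, map_smul, Finsupp.sub_apply, Finsupp.smul_apply, repr_e, smul_eq_mul]
    by_cases hmi : m = i
    · subst hmi
      simp [Ne.symm hij]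
    · by_cases hmj : m = j
      · subst hmj
        simp [hij]
      · simp [Ne.symm hmi, Ne.symm hmj, hmi, hmj]
  have hgw : g w = 0 := by
    apply repr_ext e
    intro m
    rw [map_zero, Finsupp.zero_apply]
    by_cases hm : m = k ∨ m = l
    · have h1 : w = ∑ a, e.repr w a • e a := (e.sum_repr w).symm
      rw [h1, map_sum, map_sum, Finset.sum_apply']
      apply Finset.sum_eq_zero
      intro a _
      rw [LinearEquiv.map_smul, map_smul, Finsupp.smul_apply, hw1, smul_eq_mul]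
      by_cases ha : a = i ∨ a = j
      · rw [if_pos ha, zero_mul]
      · push Not at ha
        have := ho a ha.1 ha.2
        rcases hm with rfl | rfl
        · rw [this.1, mul_zero]
        · rw [this.2, mul_zero]
    · push Not at hm
      rw [hw]
      simp only [map_sub, LinearEquiv.map_smul, map_smul, Finsupp.sub_apply, Finsupp.smul_apply, smul_eq_mul,
        hi m hm.1 hm.2, hj m hm.1 hm.2, hgh, repr_e]
      rw [if_neg]
      · ring
      · rintro rfl
        rcases hk' with h | h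
        · exact hm.1 h
        · exact hm.2 h
  rw [LinearEquiv.map_eq_zero_iff] at hgw
  have h2 := hw1 i'
  rw [hgw, map_zero, Finsupp.zero_apply, if_neg (by push Not; exact ⟨hi1, hi2⟩)] at h2
  exact h2.symm

/-- the assumption that stabilisers of basis points are monomial -/
def A1 (M : Subgroup (V ≃ₗ[F] V)) : Prop := ∀ g ∈ M, ∀ (i : ι) (c : F), g (e i) = c • e i → Mono e g

theorem A1.mono {M : Subgroup (V ≃ₗ[F] V)} (hN : HN e M) (hA : A1 e M) {g : V ≃ₗ[F] V} (hg : g ∈ M) {i m : ι}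
    {a : F} (h : g (e i) = a • e m) : Mono e g := by
  by_cases him : i = m
  · rw [← him] at h; exact hA g hg i a h
  · obtain ⟨c, hc⟩ : ∃ c : ι → Fˣ, c = fun j => if j = m then -1 else 1 := ⟨_, rfl⟩
    have h1 : mo e (Equiv.swap i m) c ∈ M := by
      apply hN
      rw [Equiv.Perm.sign_swap him]
      have : ∏ j, (c j : F) = -1 := by
        rw [Finset.prod_eq_single m]
        · rw [hc]; simp
        · intro j _ hj; rw [hc]; simp [hj]
        · intro h; exact absurd (Finset.mem_univ m) h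
      rw [this]; simp
    have h2 : (mo e (Equiv.swap i m) c * g) (e i) = (-a) • e i := by
      rw [LinearEquiv.mul_apply, h, LinearEquiv.map_smul, mo_apply, Equiv.swap_apply_right, hc]
      simp
    have h3 := hA _ (mul_mem h1 hg) i _ h2
    have h4 := (Mono.inv e ⟨_, _, rfl⟩ : Mono e (mo e (Equiv.swap i m) c)⁻¹).mul e h3
    rwa [inv_mul_cancel_left] at h4

/-- **weights**: non-monomial images of basis vectors have at most one zero coordinate -/
theorem W {M : Subgroup (V ≃ₗ[F] V)} (hN : HN e M) (hA : A1 e M) (hcard : 6 ≤ Fintype.card ι) {b : Fˣ}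
    (hb2 : (b : F) ^ 2 ≠ 1) (hb3 : (b : F) ^ 3 ≠ 1) {g : V ≃ₗ[F] V} (hg : g ∈ M) (hgm : ¬ Mono e g) {i₀ k l : ι}
    (hkl : k ≠ l) (hk : e.repr (g (e i₀)) k = 0) (hl : e.repr (g (e i₀)) l = 0) : False := by
  have hgm' : ∀ i m (a : F), g (e i) ≠ a • e m := fun i m a h => hgm (hA.mono e hN hg h)
  have hgm'' : ∀ i m (a : F), g⁻¹ (e i) ≠ a • e m := by
    intro i m a h
    have h1 : e i = a • g (e m) := by
      rw [← LinearEquiv.map_smul, ← h, ← LinearEquiv.mul_apply, mul_inv_cancel]; rfl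
    have ha : a ≠ 0 := by
      rintro rfl
      rw [zero_smul] at h1
      exact e.ne_zero i h1
    apply hgm' m i a⁻¹
    rw [h1, smul_smul, inv_mul_cancel₀ ha, one_smul]
  have hTfix : T e k l b (g (e i₀)) = g (e i₀) := by
    apply repr_ext e
    intro i
    by_cases hik : i = k
    · rw [hik, T_repr_k, hk, mul_zero]
    · by_cases hil : i = l
      · rw [hil, T_repr_l e hkl, hl, mul_zero]
      · rw [T_repr_o e hik hil]
  have hy : Mono e (g⁻¹ * T e k l b * g) := by
    apply hA _ (mul_mem (mul_mem (inv_mem hg) (T_mem e hN hkl b)) hg) i₀ 1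
    rw [one_smul, LinearEquiv.mul_apply, LinearEquiv.mul_apply, hTfix, ← LinearEquiv.mul_apply, inv_mul_cancel]
    rfl
  obtain ⟨-, i, j, hij, hi, hj, ho⟩ := pl e hb2 hb3 hgm' hkl hy
  have hnz : g (e i₀) ≠ 0 := by rw [Ne, LinearEquiv.map_eq_zero_iff]; exact e.ne_zero i₀
  have h0i : i₀ ≠ i := by
    rintro rfl
    apply hnz
    apply repr_ext e
    intro m
    rw [map_zero, Finsupp.zero_apply]
    by_cases h1 : m = k
    · rw [h1, hk]
    · by_cases h2 : m = l
      · rw [h2, hl]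
      · exact hi m h1 h2
  have h0j : i₀ ≠ j := by
    rintro rfl
    apply hnz
    apply repr_ext e
    intro m
    rw [map_zero, Finsupp.zero_apply]
    by_cases h1 : m = k
    · rw [h1, hk]
    · by_cases h2 : m = l
      · rw [h2, hl]
      · exact hj m h1 h2
  -- the second step
  have hstep : ∀ j₀, j₀ ≠ i → j₀ ≠ j → j₀ ≠ i₀ → ∃ m m', m ≠ m' ∧
      (∀ r, r ≠ m → r ≠ m' → e.repr (g (e i₀)) r = 0) ∧ (∀ r, r ≠ m → r ≠ m' → e.repr (g (e j₀)) r = 0) := by
    intro j₀ h1 h2 h3
    have hz : Mono e (g⁻¹⁻¹ * T e i₀ j₀ b * g⁻¹) := by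
      rw [inv_inv]
      apply hA _ (mul_mem (mul_mem hg (T_mem e hN h3.symm b)) (inv_mem hg)) k 1
      have h4 : T e i₀ j₀ b (g⁻¹ (e k)) = g⁻¹ (e k) := by
        apply repr_ext e
        intro r
        by_cases hr1 : r = i₀
        · rw [hr1, T_repr_k, supp_inv e hij hi hj ho (Or.inl rfl) h0i h0j, mul_zero]
        · by_cases hr2 : r = j₀
          · rw [hr2, T_repr_l e h3.symm, supp_inv e hij hi hj ho (Or.inl rfl) h1 h2, mul_zero]
          · rw [T_repr_o e hr1 hr2]
      rw [one_smul, LinearEquiv.mul_apply, LinearEquiv.mul_apply, h4, ← LinearEquiv.mul_apply, mul_inv_cancel]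
      rfl
    obtain ⟨-, m, m', hmm, hm, hm', hmo⟩ := pl e hb2 hb3 hgm'' h3.symm hz
    refine ⟨m, m', hmm, fun r hr1 hr2 => ?_, fun r hr1 hr2 => ?_⟩
    · have := supp_inv e (g := g⁻¹) hmm hm hm' hmo (Or.inl rfl) hr1 hr2
      rwa [inv_inv] at this
    · have := supp_inv e (g := g⁻¹) hmm hm hm' hmo (Or.inr rfl) hr1 hr2
      rwa [inv_inv] at this
  -- two further indices
  obtain ⟨j₀, hj₀⟩ : ∃ j₀, j₀ ∉ ({i, j, i₀} : Finset ι) := by
    by_contra hcon
    push Not at hcon
    have h1 : Finset.univ ⊆ ({i, j, i₀} : Finset ι) := fun x _ => hcon x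
    have h2 := Finset.card_le_card h1
    have h3 : ({i, j, i₀} : Finset ι).card ≤ 3 := Finset.card_le_three
    rw [Finset.card_univ] at h2
    omega
  obtain ⟨j₁, hj₁⟩ : ∃ j₁, j₁ ∉ ({i, j, i₀, j₀} : Finset ι) := by
    by_contra hcon
    push Not at hcon
    have h1 : Finset.univ ⊆ ({i, j, i₀, j₀} : Finset ι) := fun x _ => hcon x
    have h2 := Finset.card_le_card h1
    have h3 : ({i, j, i₀, j₀} : Finset ι).card ≤ 4 := Finset.card_le_four
    rw [Finset.card_univ] at h2
    omega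
  simp only [Finset.mem_insert, Finset.mem_singleton, not_or] at hj₀ hj₁
  obtain ⟨m, m', hmm, hm1, hm2⟩ := hstep j₀ hj₀.1 hj₀.2.1 hj₀.2.2
  obtain ⟨r, r', hrr, hr1, hr2⟩ := hstep j₁ hj₁.1 hj₁.2.1 hj₁.2.2.1
  have hne : ∀ x y : ι, x ≠ y → (∀ r, r ≠ x → r ≠ y → e.repr (g (e i₀)) r = 0) →
      e.repr (g (e i₀)) x ≠ 0 := by
    intro x y hxy h h0
    apply hgm' i₀ y (e.repr (g (e i₀)) y)
    apply repr_ext e
    intro s
    rw [map_smul, Finsupp.smul_apply, repr_e, smul_eq_mul]
    by_cases h1 : y = s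
    · rw [if_pos h1, mul_one, h1]
    · rw [if_neg h1, mul_zero]
      by_cases h2 : s = x
      · rw [h2, h0]
      · exact h s h2 (Ne.symm h1)
  have hmr : m = r ∨ m = r' := by
    by_contra hcon
    push Not at hcon
    exact hne m m' hmm hm1 (hr1 m hcon.1 hcon.2)
  have hmr' : m' = r ∨ m' = r' := by
    by_contra hcon
    push Not at hcon
    exact hne m' m hmm.symm (fun r h1 h2 => hm1 r h2 h1) (hr1 m' hcon.1 hcon.2)
  have hr2' : ∀ s, s ≠ m → s ≠ m' → e.repr (g (e j₁)) s = 0 := by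
    intro s h1 h2
    apply hr2 s
    · intro h3
      rcases hmr with h4 | h4
      · exact h1 (h3.trans h4.symm)
      · rcases hmr' with h5 | h5
        · exact h2 (h3.trans h5.symm)
        · exact hmm (h4.trans h5.symm)
    · intro h3
      rcases hmr with h4 | h4
      · rcases hmr' with h5 | h5
        · exact hmm (h4.trans h5.symm)
        · exact h2 (h3.trans h5.symm)
      · exact h1 (h3.trans h4.symm)
  exact three e (g := g) (Ne.symm hj₀.2.2) (Ne.symm hj₁.2.2.1) (Ne.symm hj₁.2.2.2) hm1 hm2 hr2'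

/-- three scalars with sum three and product one -/
theorem exists_three [Fintype F] (hF : 5 ≤ Fintype.card F) :
    ∃ b : Fin 3 → Fˣ, (b 0 : F) + b 1 + b 2 = 3 ∧ b 0 * b 1 * b 2 = 1 ∧ b 1 ≠ 1 := by
  classical
  obtain ⟨t, ht⟩ : ∃ t : F, t ∉ (Polynomial.X * (Polynomial.X + 1) * (Polynomial.X ^ 2 + Polynomial.X + 1) :
      Polynomial F).roots.toFinset := by
    by_contra hcon
    push Not at hcon
    have h1 : (Finset.univ : Finset F) ⊆ (Polynomial.X * (Polynomial.X + 1) * (Polynomial.X ^ 2 + Polynomial.X + 1) :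
      Polynomial F).roots.toFinset := fun x _ => hcon x
    have h2 := Finset.card_le_card h1
    have h3 := (Multiset.toFinset_card_le (Polynomial.X * (Polynomial.X + 1) * (Polynomial.X ^ 2 + Polynomial.X + 1) :
      Polynomial F).roots).trans (Polynomial.card_roots' _)
    have h4 : (Polynomial.X * (Polynomial.X + 1) * (Polynomial.X ^ 2 + Polynomial.X + 1) :
      Polynomial F).natDegree = 4 := by compute_degree!
    rw [Finset.card_univ] at h2
    omega
  have hne : (Polynomial.X * (Polynomial.X + 1) * (Polynomial.X ^ 2 + Polynomial.X + 1) :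
      Polynomial F) ≠ 0 := by
    intro h0
    have h4 : (Polynomial.X * (Polynomial.X + 1) * (Polynomial.X ^ 2 + Polynomial.X + 1) :
      Polynomial F).natDegree = 4 := by compute_degree!
    rw [h0] at h4
    simp at h4
  rw [Multiset.mem_toFinset, Polynomial.mem_roots hne, Polynomial.IsRoot] at ht
  simp only [Polynomial.eval_mul, Polynomial.eval_add, Polynomial.eval_X, Polynomial.eval_one,
    Polynomial.eval_pow, mul_eq_zero, not_or] at ht
  obtain ⟨⟨h0, h1⟩, h2⟩ := ht
  obtain ⟨y, hy⟩ : ∃ y, y = -(t ^ 2 + t + 1) / (t * (t + 1)) := ⟨_, rfl⟩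
  have hprod : (1 + t * y) * (1 + y) * (1 - t * y - y) = 1 := by
    rw [hy]; field_simp; ring
  have hne0 : (1 + t * y) * (1 + y) * (1 - t * y - y) ≠ 0 := by rw [hprod]; exact one_ne_zero
  have n1 : 1 + t * y ≠ 0 := fun h => hne0 (by rw [h]; ring)
  have n2 : 1 + y ≠ 0 := fun h => hne0 (by rw [h]; ring)
  have n3 : 1 - t * y - y ≠ 0 := fun h => hne0 (by rw [h]; ring)
  refine ⟨![Units.mk0 _ n1, Units.mk0 _ n2, Units.mk0 _ n3], ?_, ?_, ?_⟩
  · simp only [Matrix.cons_val_zero, Matrix.cons_val_one, Units.val_mk0, Matrix.cons_val]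
    ring
  · apply Units.ext
    simp only [Matrix.cons_val_zero, Matrix.cons_val_one, Units.val_mk0, Matrix.cons_val, Units.val_mul,
      Units.val_one]
    exact hprod
  · intro h
    have h3 := congrArg Units.val h
    simp only [Matrix.cons_val_one, Units.val_mk0, Units.val_one, Matrix.cons_val_zero] at h3
    have hy0 : y = 0 := by linear_combination h3
    rw [hy, div_eq_zero_iff] at hy0
    rcases hy0 with h4 | h4
    · exact h2 (neg_eq_zero.1 h4)
    · exact mul_ne_zero h0 h1 h4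

/-- stabilisers of basis points are not all monomial -/
theorem noA1 [Fintype F] (hF : 5 ≤ Fintype.card F) {M : Subgroup (V ≃ₗ[F] V)} (hN : HN e M)
    (hcard : 6 ≤ Fintype.card ι) {b : Fˣ} (hb2 : (b : F) ^ 2 ≠ 1) (hb3 : (b : F) ^ 3 ≠ 1) {g : V ≃ₗ[F] V}
    (hg : g ∈ M) (hgm : ¬ Mono e g) : ¬ A1 e M := by
  intro hA
  have hW : ∀ g ∈ M, ¬ Mono e g → ∀ i₀ k l : ι, k ≠ l → ¬ (e.repr (g (e i₀)) k = 0 ∧ e.repr (g (e i₀)) l = 0) :=
    fun g hg hgm i₀ k l hkl h => W e hN hA hcard hb2 hb3 hg hgm hkl h.1 h.2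
  have hne : Nonempty ι := Fintype.card_pos_iff.1 (by omega)
  obtain ⟨i₀⟩ := hne
  obtain ⟨u, hu⟩ : ∃ u, u = g (e i₀) := ⟨_, rfl⟩
  -- three nonzero coordinates
  obtain ⟨k1, k2, k3, h1, h2, h3, h12, h13, h23⟩ : ∃ k1 k2 k3, e.repr u k1 ≠ 0 ∧ e.repr u k2 ≠ 0 ∧
      e.repr u k3 ≠ 0 ∧ k1 ≠ k2 ∧ k1 ≠ k3 ∧ k2 ≠ k3 := by
    classical
    have hz : (Finset.univ.filter (fun k => e.repr u k = 0)).card ≤ 1 := by
      rw [Finset.card_le_one]
      intro a ha c hc
      by_contra hac
      rw [Finset.mem_filter] at ha hc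
      exact hW g hg hgm i₀ a c hac (hu ▸ ⟨ha.2, hc.2⟩)
    have hz2 := Finset.card_filter_add_card_filter_not (s := (Finset.univ : Finset ι)) (fun k => e.repr u k = 0)
    rw [Finset.card_univ] at hz2
    have hz3 : 2 < (Finset.univ.filter (fun k => ¬ e.repr u k = 0)).card := by omega
    rw [Finset.two_lt_card] at hz3
    obtain ⟨a, ha, b, hb, c, hc, hab, hac, hbc⟩ := hz3
    rw [Finset.mem_filter] at ha hb hc
    exact ⟨a, b, c, ha.2, hb.2, hc.2, hab, hac, hbc⟩
  -- the three-cycle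
  obtain ⟨σ, hσ⟩ : ∃ σ : Equiv.Perm ι, σ = Equiv.swap k1 k2 * Equiv.swap k2 k3 := ⟨_, rfl⟩
  have hσ1 : σ k1 = k2 := by
    rw [hσ, Equiv.Perm.mul_apply, Equiv.swap_apply_of_ne_of_ne h12 h13, Equiv.swap_apply_left]
  have hσ2 : σ k2 = k3 := by
    rw [hσ, Equiv.Perm.mul_apply, Equiv.swap_apply_left, Equiv.swap_apply_of_ne_of_ne h13.symm h23.symm]
  have hσ3 : σ k3 = k1 := by
    rw [hσ, Equiv.Perm.mul_apply, Equiv.swap_apply_right, Equiv.swap_apply_right]
  have hσo : ∀ m, m ≠ k1 → m ≠ k2 → m ≠ k3 → σ m = m := by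
    intro m a1 a2 a3
    rw [hσ, Equiv.Perm.mul_apply, Equiv.swap_apply_of_ne_of_ne a2 a3, Equiv.swap_apply_of_ne_of_ne a1 a2]
  obtain ⟨U, hU1, hU2, hU3, hUo⟩ : ∃ U : ι → Fˣ, (U k1 : F) = e.repr u k1 ∧ (U k2 : F) = e.repr u k2 ∧
      (U k3 : F) = e.repr u k3 ∧ ∀ m, m ≠ k1 → m ≠ k2 → m ≠ k3 → U m = 1 := by
    refine ⟨fun m => if m = k1 then Units.mk0 _ h1 else if m = k2 then Units.mk0 _ h2 else
      if m = k3 then Units.mk0 _ h3 else 1, ?_, ?_, ?_, ?_⟩
    · simp
    · simp [h12.symm]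
    · simp [h13.symm, h23.symm]
    · intro m a1 a2 a3; simp [a1, a2, a3]
  obtain ⟨c, hc⟩ : ∃ c, c = mo e σ (fun i => (U i)⁻¹ * U (σ i)) := ⟨_, rfl⟩
  have hcM : c ∈ M := by
    rw [hc]
    apply hN
    have e1 : ∏ i, (((U i)⁻¹ * U (σ i) : Fˣ) : F) = 1 := by
      have : ∏ i, ((U i)⁻¹ * U (σ i)) = 1 := by
        rw [Finset.prod_mul_distrib, Equiv.prod_comp σ U, Finset.prod_inv_distrib, inv_mul_cancel]
      have := congrArg (Units.val : Fˣ → F) this
      rwa [Units.coe_prod, Units.val_one] at this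
    have e2 : Equiv.Perm.sign σ = 1 := by
      rw [hσ, Equiv.Perm.sign_mul, Equiv.Perm.sign_swap h12, Equiv.Perm.sign_swap h23]; rfl
    rw [e1, e2]; simp
  have hc3 : c * c * c = 1 := by
    apply ext_basis e
    intro i
    rw [LinearEquiv.mul_apply, LinearEquiv.mul_apply, hc, mo_apply, LinearEquiv.map_smul, mo_apply,
      LinearEquiv.map_smul, LinearEquiv.map_smul, mo_apply, smul_smul, smul_smul, ← Units.val_mul, ← Units.val_mul]
    have e3 : σ (σ (σ i)) = i := by
      by_cases a1 : i = k1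
      · rw [a1, hσ1, hσ2, hσ3]
      · by_cases a2 : i = k2
        · rw [a2, hσ2, hσ3, hσ1]
        · by_cases a3 : i = k3
          · rw [a3, hσ3, hσ1, hσ2]
          · rw [hσo i a1 a2 a3, hσo i a1 a2 a3, hσo i a1 a2 a3]
    have e4 : (U i)⁻¹ * U (σ i) * ((U (σ i))⁻¹ * U (σ (σ i))) * ((U (σ (σ i)))⁻¹ * U (σ (σ (σ i)))) = 1 := by
      rw [e3]; group
    rw [e3] at e4 ⊢
    rw [e4]
    simp
  have hcu : c u = u := by
    apply repr_ext e
    intro m
    obtain ⟨i, rfl⟩ := σ.surjective m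
    rw [hc, mo_repr]
    by_cases a1 : i = k1
    · rw [a1, hσ1, Units.val_mul, hU2, Units.val_inv_eq_inv_val, hU1]; field_simp
    · by_cases a2 : i = k2
      · rw [a2, hσ2, Units.val_mul, hU3, Units.val_inv_eq_inv_val, hU2]; field_simp
      · by_cases a3 : i = k3
        · rw [a3, hσ3, Units.val_mul, hU1, Units.val_inv_eq_inv_val, hU3]; field_simp
        · rw [hσo i a1 a2 a3]; simp
  have hcm : ∀ v m, m ≠ k1 → m ≠ k2 → m ≠ k3 → e.repr (c v) m = e.repr v m := by
    intro v m a1 a2 a3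
    have := mo_repr e σ (fun i => (U i)⁻¹ * U (σ i)) v m
    rw [hσo m a1 a2 a3] at this
    rw [hc, this]; simp
  -- the conjugate
  have hyM : g⁻¹ * c * g ∈ M := mul_mem (mul_mem (inv_mem hg) hcM) hg
  have hy0 : (g⁻¹ * c * g) (e i₀) = e i₀ := by
    rw [LinearEquiv.mul_apply, LinearEquiv.mul_apply, ← hu, hcu, hu, ← LinearEquiv.mul_apply, inv_mul_cancel]
    rfl
  obtain ⟨τ, d, hy⟩ := hA _ hyM i₀ 1 (by rw [one_smul]; exact hy0)
  have hcg : ∀ v, c (g v) = g (mo e τ d v) := by
    intro v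
    rw [← hy, LinearEquiv.mul_apply, LinearEquiv.mul_apply, ← LinearEquiv.mul_apply g, mul_inv_cancel]
    rfl
  have hcgi : ∀ i, c (g (e i)) = (d i : F) • g (e (τ i)) := by
    intro i; rw [hcg, mo_apply, LinearEquiv.map_smul]
  have hc3' : ∀ v, c (c (c v)) = v := by
    intro v
    have := congrArg (fun t : V ≃ₗ[F] V => t v) hc3
    exact this
  -- outside indices
  have hout : ∀ j : ι, ∃ m m', m ≠ m' ∧ (m ≠ k1 ∧ m ≠ k2 ∧ m ≠ k3 ∧ m ≠ j) ∧
      (m' ≠ k1 ∧ m' ≠ k2 ∧ m' ≠ k3 ∧ m' ≠ j) := by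
    intro j
    have h4 : 1 < (Finset.univ \ ({k1, k2, k3, j} : Finset ι)).card := by
      have h5 := Finset.le_card_sdiff ({k1, k2, k3, j} : Finset ι) Finset.univ
      have h6 : ({k1, k2, k3, j} : Finset ι).card ≤ 4 := Finset.card_le_four
      rw [Finset.card_univ] at h5
      omega
    obtain ⟨m, hm, m', hm', hmm⟩ := Finset.one_lt_card.1 h4
    simp only [Finset.mem_sdiff, Finset.mem_univ, true_and, Finset.mem_insert, Finset.mem_singleton,
      not_or] at hm hm'
    exact ⟨m, m', hmm, hm, hm'⟩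
  obtain ⟨a, ha⟩ : ∃ a, τ a ≠ a := by
    by_contra hcon
    push Not at hcon
    obtain ⟨i, hi⟩ : ∃ i, (d i : F) ≠ 1 := by
      by_contra hcon2
      push Not at hcon2
      have h4 : c = 1 := by
        apply LinearEquiv.ext
        intro v
        obtain ⟨w, rfl⟩ := g.surjective v
        rw [hcg]
        have : mo e τ d w = w := by
          apply repr_ext e
          intro i
          have := mo_repr e τ d w i
          rw [hcon i, hcon2 i, one_mul] at this
          exact this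
        rw [this]; rfl
      have h5 : c (e k1) = e k1 := by rw [h4]; rfl
      have h6 := congrArg (fun v => e.repr v k1) h5
      simp only [hc, mo_apply, map_smul, Finsupp.smul_apply, repr_e, smul_eq_mul] at h6
      rw [hσ1, if_neg h12.symm, mul_zero] at h6
      simp at h6
    have h4 := hcgi i
    rw [hcon i] at h4
    have h5 : ∀ m, m ≠ k1 → m ≠ k2 → m ≠ k3 → e.repr (g (e i)) m = 0 := by
      intro m a1 a2 a3
      have h6 := congrArg (fun v => e.repr v m) h4
      simp only [hcm _ m a1 a2 a3, map_smul, Finsupp.smul_apply, smul_eq_mul] at h6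
      have h7 : (1 - (d i : F)) * e.repr (g (e i)) m = 0 := by linear_combination h6
      exact (mul_eq_zero.1 h7).resolve_left (sub_ne_zero.2 (Ne.symm hi))
    obtain ⟨m, m', hmm, hm, hm'⟩ := hout k1
    exact hW g hg hgm i m m' hmm ⟨h5 m hm.1 hm.2.1 hm.2.2.1, h5 m' hm'.1 hm'.2.1 hm'.2.2.1⟩
  -- the three points
  obtain ⟨a', ha'⟩ : ∃ a', a' = τ a := ⟨_, rfl⟩
  obtain ⟨a'', ha''⟩ : ∃ a'', a'' = τ a' := ⟨_, rfl⟩
  have hτ3 : τ a'' = a := by
    have h4 := hc3' (g (e a))
    rw [hcgi, LinearEquiv.map_smul, hcgi, LinearEquiv.map_smul, LinearEquiv.map_smul, hcgi, ← ha', ← ha'',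
      smul_smul, smul_smul, ← LinearEquiv.map_smul] at h4
    have h5 := congrArg (fun v => e.repr v (τ a'')) (g.injective h4)
    simp only [map_smul, Finsupp.smul_apply, repr_e, smul_eq_mul] at h5
    by_contra h6
    rw [if_neg (Ne.symm h6)] at h5
    simp at h5
  have haa' : a ≠ a' := by rw [ha']; exact Ne.symm ha
  have ha'a'' : a' ≠ a'' := by
    intro h
    apply haa'
    have : τ a = τ a' := by rw [← ha', ← ha'']; exact h
    exact τ.injective this
  have haa'' : a ≠ a'' := by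
    intro h
    apply ha'a''
    have : τ a' = τ a'' := by rw [← ha'', hτ3]; exact h.symm
    exact τ.injective this
  have hτ0 : τ i₀ = i₀ := by
    rw [hy, mo_apply] at hy0
    by_contra h6
    have h5 := congrArg (fun v => e.repr v i₀) hy0
    simp only [map_smul, Finsupp.smul_apply, repr_e, smul_eq_mul] at h5
    rw [if_neg h6] at h5
    simp at h5
  have hi0a : i₀ ≠ a := by
    rintro rfl; exact ha hτ0
  have hi0a' : i₀ ≠ a' := by
    intro h
    apply hi0a
    apply τ.injective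
    rw [hτ0, h, ha']
  have hi0a'' : i₀ ≠ a'' := by
    intro h
    apply hi0a'
    apply τ.injective
    rw [hτ0, h, ha'']
  -- the element d'
  obtain ⟨β, hβs, hβp, hβ1⟩ := exists_three (F := F) hF
  obtain ⟨D, hD⟩ : ∃ D : ι → Fˣ, D = fun i => if i = a then β 0 else if i = a' then β 1 else
    if i = a'' then β 2 else 1 := ⟨_, rfl⟩
  have hDa : D a = β 0 := by rw [hD]; simp
  have hDa' : D a' = β 1 := by rw [hD]; simp [haa'.symm]
  have hDa'' : D a'' = β 2 := by rw [hD]; simp [haa''.symm, ha'a''.symm]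
  have hDo : ∀ i, i ≠ a → i ≠ a' → i ≠ a'' → D i = 1 := by
    intro i b1 b2 b3; rw [hD]; simp [b1, b2, b3]
  have hDM : mo e 1 D ∈ M := by
    apply hN
    have h4 : ∏ i, D i = 1 := by
      rw [← Finset.mul_prod_erase Finset.univ _ (Finset.mem_univ a),
        ← Finset.mul_prod_erase (Finset.univ.erase a) _ (Finset.mem_erase.2 ⟨haa'.symm, Finset.mem_univ a'⟩),
        ← Finset.mul_prod_erase ((Finset.univ.erase a).erase a') _
          (Finset.mem_erase.2 ⟨ha'a''.symm, Finset.mem_erase.2 ⟨haa''.symm, Finset.mem_univ a''⟩⟩)]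
      rw [Finset.prod_eq_one, hDa, hDa', hDa'', mul_one, ← mul_assoc]
      · exact hβp
      · intro i hi
        rw [Finset.mem_erase, Finset.mem_erase, Finset.mem_erase] at hi
        exact hDo i hi.2.2.1 hi.2.1 hi.1
    have h5 := congrArg (Units.val : Fˣ → F) h4
    rw [Units.coe_prod, Units.val_one] at h5
    rw [h5]; simp
  have hDv : ∀ v, mo e 1 D v = v + (((β 0 : F) - 1) * e.repr v a) • e a +
      (((β 1 : F) - 1) * e.repr v a') • e a' + (((β 2 : F) - 1) * e.repr v a'') • e a'' := by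
    intro v
    apply repr_ext e
    intro i
    rw [mo1_repr]
    simp only [map_add, map_smul, Finsupp.add_apply, Finsupp.smul_apply, repr_e, smul_eq_mul]
    by_cases b1 : i = a
    · subst b1
      rw [hDa, if_pos rfl, if_neg haa'.symm, if_neg haa''.symm]; ring
    · by_cases b2 : i = a'
      · rw [b2, hDa', if_neg haa', if_pos rfl, if_neg ha'a''.symm]; ring
      · by_cases b3 : i = a''
        · rw [b3, hDa'', if_neg haa'', if_neg ha'a'', if_pos rfl]; ring
        · rw [hDo i b1 b2 b3, if_neg (Ne.symm b1), if_neg (Ne.symm b2), if_neg (Ne.symm b3), Units.val_one]; ring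
  have hd'M : g * mo e 1 D * g⁻¹ ∈ M := mul_mem (mul_mem hg hDM) (inv_mem hg)
  -- coordinates of g⁻¹ e_j
  have hhj : ∀ j, j ≠ k1 → j ≠ k2 → j ≠ k3 → e.repr (g⁻¹ (e j)) a' = d a * e.repr (g⁻¹ (e j)) a ∧
      e.repr (g⁻¹ (e j)) a'' = d a' * (d a * e.repr (g⁻¹ (e j)) a) := by
    intro j b1 b2 b3
    have hcj : c (e j) = e j := by
      rw [hc, mo_apply, hσo j b1 b2 b3]; simp
    have hyj : mo e τ d (g⁻¹ (e j)) = g⁻¹ (e j) := by
      apply g.injective
      rw [← hcg, ← LinearEquiv.mul_apply g, mul_inv_cancel]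
      exact hcj
    have h4 := mo_repr e τ d (g⁻¹ (e j)) a
    have h5 := mo_repr e τ d (g⁻¹ (e j)) a'
    rw [hyj, ← ha'] at h4
    rw [hyj, ← ha'', h4] at h5
    exact ⟨h4, h5⟩
  have hzero : ∀ j, j ≠ k1 → j ≠ k2 → j ≠ k3 → e.repr (g⁻¹ (e j)) a = 0 := by
    intro j b1 b2 b3
    obtain ⟨x, hx⟩ : ∃ x, x = e.repr (g⁻¹ (e j)) a := ⟨_, rfl⟩
    obtain ⟨hj1, hj2⟩ := hhj j b1 b2 b3
    rw [← hx] at hj1 hj2 ⊢
    obtain ⟨w, hw⟩ : ∃ w, w = ((β 0 : F) - 1) • g (e a) + (((β 1 : F) - 1) * d a) • g (e a') +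
        (((β 2 : F) - 1) * (d a' * d a)) • g (e a'') := ⟨_, rfl⟩
    have hd' : (g * mo e 1 D * g⁻¹) (e j) = e j + x • w := by
      rw [LinearEquiv.mul_apply, LinearEquiv.mul_apply, hDv, ← hx, hj1, hj2, map_add, map_add, map_add,
        LinearEquiv.map_smul, LinearEquiv.map_smul, LinearEquiv.map_smul, ← LinearEquiv.mul_apply g, mul_inv_cancel,
        hw]
      show e j + _ + _ + _ = _
      module
    have hwm : ∀ m, m ≠ k1 → m ≠ k2 → m ≠ k3 → e.repr w m = 0 := by
      intro m c1 c2 c3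
      have f2 : e.repr (c (g (e a))) m = e.repr (g (e a)) m := hcm _ m c1 c2 c3
      have f3 : e.repr (c (c (g (e a)))) m = e.repr (g (e a)) m := by rw [hcm _ m c1 c2 c3, f2]
      rw [hcgi, ← ha', map_smul, Finsupp.smul_apply, smul_eq_mul] at f2
      rw [hcgi, LinearEquiv.map_smul, hcgi, ← ha', ← ha'', map_smul, map_smul, Finsupp.smul_apply,
        Finsupp.smul_apply, smul_eq_mul, smul_eq_mul] at f3
      rw [hw]
      simp only [map_add, map_smul, Finsupp.add_apply, Finsupp.smul_apply, smul_eq_mul]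
      linear_combination ((β 1 : F) - 1) * f2 + ((β 2 : F) - 1) * f3 + e.repr (g (e a)) m * hβs
    have hwne : w ≠ 0 := by
      intro h0
      have h4 : w = g (((β 0 : F) - 1) • e a + (((β 1 : F) - 1) * d a) • e a' +
        (((β 2 : F) - 1) * (d a' * d a)) • e a'') := by
        rw [hw, map_add, map_add, LinearEquiv.map_smul, LinearEquiv.map_smul, LinearEquiv.map_smul]
      rw [h0, eq_comm, LinearEquiv.map_eq_zero_iff] at h4
      have h5 := congrArg (fun v => e.repr v a') h4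
      simp only [map_add, map_smul, Finsupp.add_apply, Finsupp.smul_apply, repr_e, smul_eq_mul, map_zero,
        Finsupp.zero_apply] at h5
      rw [if_neg haa', if_neg ha'a''.symm] at h5
      simp only [mul_zero, zero_add, add_zero, if_true, mul_one] at h5
      rcases mul_eq_zero.1 h5 with h6 | h6
      · exact hβ1 (Units.ext (by rw [Units.val_one]; linear_combination h6))
      · exact (d a).ne_zero h6
    -- d' is monomial
    have hmono : Mono e (g * mo e 1 D * g⁻¹) := by
      by_contra hnm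
      obtain ⟨m, m', hmm, hm, hm'⟩ := hout j
      refine hW _ hd'M hnm j m m' hmm ⟨?_, ?_⟩
      · rw [hd', map_add, Finsupp.add_apply, map_smul, Finsupp.smul_apply, hwm m hm.1 hm.2.1 hm.2.2.1, repr_e,
          if_neg (Ne.symm hm.2.2.2)]; simp
      · rw [hd', map_add, Finsupp.add_apply, map_smul, Finsupp.smul_apply, hwm m' hm'.1 hm'.2.1 hm'.2.2.1, repr_e,
          if_neg (Ne.symm hm'.2.2.2)]; simp
    obtain ⟨ρ, r, hρ⟩ := hmono
    rw [hρ, mo_apply] at hd'
    have h4 := congrArg (fun v => e.repr v j) hd'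
    simp only [map_add, map_smul, Finsupp.add_apply, Finsupp.smul_apply, repr_e, smul_eq_mul,
      hwm j b1 b2 b3] at h4
    have h5 : ρ j = j := by
      by_contra h5
      rw [if_neg h5] at h4
      simp at h4
    rw [h5] at h4 hd'
    have h6 : (r j : F) = 1 := by simpa using h4
    rw [h6, one_smul, left_eq_add] at hd'
    exact (smul_eq_zero.1 hd').resolve_right hwne
  -- final contradiction
  obtain ⟨A, hAdef⟩ : ∃ A : Fin 3 → ι, A = ![a, a', a''] := ⟨_, rfl⟩
  obtain ⟨K, hK⟩ : ∃ K : Fin 3 → ι, K = ![k1, k2, k3] := ⟨_, rfl⟩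
  have hzA : ∀ j, j ≠ k1 → j ≠ k2 → j ≠ k3 → ∀ x, e.repr (g⁻¹ (e j)) (A x) = 0 := by
    intro j b1 b2 b3 x
    have h4 := hzero j b1 b2 b3
    obtain ⟨h5, h6⟩ := hhj j b1 b2 b3
    rw [h4, mul_zero] at h5 h6
    rw [mul_zero] at h6
    rw [hAdef]
    fin_cases x
    · exact h4
    · exact h5
    · exact h6
  have hsum : ∀ (v : V) (x : Fin 3), e.repr (g⁻¹ v) (A x) = ∑ k : Fin 3, e.repr (g⁻¹ (e (K k))) (A x) * e.repr v (K k) := by
    intro v x
    have h4 : v = ∑ j, e.repr v j • e j := (e.sum_repr v).symm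
    conv_lhs => rw [h4]
    rw [map_sum, map_sum, Finset.sum_apply']
    have h5 : ∀ j, e.repr (g⁻¹ (e.repr v j • e j)) (A x) = e.repr v j * e.repr (g⁻¹ (e j)) (A x) := by
      intro j
      rw [LinearEquiv.map_smul, map_smul, Finsupp.smul_apply, smul_eq_mul]
    rw [Finset.sum_congr rfl (fun j _ => h5 j)]
    rw [← Finset.sum_subset (Finset.subset_univ ({k1, k2, k3} : Finset ι))]
    · rw [Finset.sum_insert (by simp [h12, h13]), Finset.sum_insert (by simp [h23]), Finset.sum_singleton,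
        Fin.sum_univ_three, hK]
      simp only [Matrix.cons_val_zero, Matrix.cons_val_one, Matrix.cons_val]
      ring
    · intro j _ hj
      simp only [Finset.mem_insert, Finset.mem_singleton, not_or] at hj
      rw [hzA j hj.1 hj.2.1 hj.2.2, mul_zero]
  obtain ⟨H, hH⟩ : ∃ H : Matrix (Fin 3) (Fin 3) F, H = Matrix.of fun x k => e.repr (g⁻¹ (e (K k))) (A x) := ⟨_, rfl⟩
  have hsing : ∃ v, v ≠ 0 ∧ H.mulVec v = 0 := by
    refine ⟨fun k => e.repr u (K k), ?_, ?_⟩
    · intro h0
      have := congrFun h0 0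
      rw [hK] at this
      exact h1 this
    · funext x
      have h4 := hsum u x
      have h5 : g⁻¹ u = e i₀ := by rw [hu, ← LinearEquiv.mul_apply, inv_mul_cancel]; rfl
      rw [h5] at h4
      rw [Matrix.mulVec, dotProduct, Pi.zero_apply]
      simp only [hH, Matrix.of_apply]
      rw [← h4, repr_e, if_neg]
      rw [hAdef]
      fin_cases x
      · exact hi0a
      · exact hi0a'
      · exact hi0a''
  rw [Matrix.exists_mulVec_eq_zero_iff, ← Matrix.exists_vecMul_eq_zero_iff] at hsing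
  obtain ⟨ξ, hξ0, hξ⟩ := hsing
  have hall : ∀ v, ∑ x, ξ x * e.repr (g⁻¹ v) (A x) = 0 := by
    intro v
    have h4 : ∀ k, ∑ x, ξ x * H x k = 0 := fun k => congrFun hξ k
    calc ∑ x, ξ x * e.repr (g⁻¹ v) (A x) = ∑ x, ξ x * ∑ k : Fin 3, H x k * e.repr v (K k) := by
          refine Finset.sum_congr rfl fun x _ => ?_
          rw [hsum, hH]; rfl
      _ = ∑ k, (∑ x, ξ x * H x k) * e.repr v (K k) := by
          simp only [Fin.sum_univ_three]
          ring
      _ = 0 := by simp only [h4, zero_mul, Finset.sum_const_zero]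
  apply hξ0
  funext x
  have h4 := hall (g (e (A x)))
  have h5 : g⁻¹ (g (e (A x))) = e (A x) := by rw [← LinearEquiv.mul_apply, inv_mul_cancel]; rfl
  rw [h5] at h4
  rw [Finset.sum_eq_single x] at h4
  · rw [repr_e, if_pos rfl, mul_one] at h4
    exact h4
  · intro y _ hyx
    rw [repr_e, if_neg, mul_zero]
    intro h6
    apply hyx
    rw [hAdef] at h6
    clear h4 h5
    fin_cases x <;> fin_cases y <;> first
      | rfl
      | exact absurd h6 haa'
      | exact absurd h6 haa'.symm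
      | exact absurd h6 haa''
      | exact absurd h6 haa''.symm
      | exact absurd h6 ha'a''
      | exact absurd h6 ha'a''.symm
  · intro h6; exact absurd (Finset.mem_univ x) h6

end Cfsg.Agent.Lib.SLMonoH94
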