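import Mathlib
import Cfsg.Agent.Lib.SLMonoH94

set_option autoImplicit false
set_option linter.unusedSectionVars false
set_option linter.unusedSimpArgs false
set_option linter.unusedVariables false

/-!
Overgroups of the group of monomial matrices in the special linear group.
-/

namespace Cfsg.Agent.Lib.SLMono2H94

open Module Cfsg.Agent.Lib.SLMonoH94 Cfsg.Agent.Lib.SLMax Cfsg.Agent.Lib.UnTrans

variable {F V ι : Type*} [Field F] [AddCommGroup V] [Module F V] [Fintype ι] [DecidableEq ι]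
  (e : Basis ι F V)

/-- `M` contains a root element -/
def Root (M : Subgroup (V ≃ₗ[F] V)) : Prop :=
  ∃ (m k : ι) (c : F) (w : V ≃ₗ[F] V), m ≠ k ∧ c ≠ 0 ∧ w ∈ M ∧ ∀ v, w v = v + (c * e.repr v k) • e m

theorem exists_avoid (S : Finset ι) {n : ℕ} (hn : S.card ≤ n) (h : n < Fintype.card ι) : ∃ i, i ∉ S := by
  by_contra hcon
  push Not at hcon
  have h1 : Finset.univ ⊆ S := fun x _ => hcon x
  have h2 := Finset.card_le_card h1
  rw [Finset.card_univ] at h2
  omega

theorem T_eq {k l : ι} (hkl : k ≠ l) (b : Fˣ) (v : V) : T e k l b v =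
    v + (((b : F) - 1) * e.repr v k) • e k + (((b : F)⁻¹ - 1) * e.repr v l) • e l := by
  apply repr_ext e
  intro i
  simp only [map_add, map_smul, Finsupp.add_apply, Finsupp.smul_apply, repr_e, smul_eq_mul]
  by_cases h1 : i = k
  · subst h1
    rw [T_repr_k, if_pos rfl, if_neg hkl.symm]; ring
  · by_cases h2 : i = l
    · subst h2
      rw [T_repr_l e hkl, if_pos rfl, if_neg hkl]; ring
    · rw [T_repr_o e h1 h2, if_neg (Ne.symm h1), if_neg (Ne.symm h2)]; ring

theorem T_inv (k l : ι) (b : Fˣ) : (T e k l b)⁻¹ = T e k l b⁻¹ := by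
  rw [inv_eq_iff_mul_eq_one, T, T, mo_mul, one_mul]
  have : (fun i => dgc k l b⁻¹ i * dgc k l b ((1 : Equiv.Perm ι) i)) = 1 := by
    funext i
    show dgc k l b⁻¹ i * dgc k l b i = 1
    unfold dgc
    split_ifs <;> simp
  rw [this, mo_one]

variable {M : Subgroup (V ≃ₗ[F] V)}

/-- Case A: a transvection with centre `e o` -/
theorem root_of_tr (hN : HN e M) (hcard : 6 ≤ Fintype.card ι) {b : Fˣ} (hb : (b : F) ≠ 1) {o : ι}
    {w : V ≃ₗ[F] V} (hw : w ∈ M) (hw1 : w ≠ 1) {η : Dual F V} (hη : ∀ v, w v = v + η v • e o)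
    (hηo : η (e o) = 0) : Root e M := by
  obtain ⟨k, hk⟩ : ∃ k, η (e k) ≠ 0 := by
    by_contra hcon
    push Not at hcon
    apply hw1
    have : η = 0 := e.ext hcon
    apply LinearEquiv.ext
    intro v
    rw [hη, this]; simp
  have hko : k ≠ o := by rintro rfl; exact hk hηo
  obtain ⟨i, hi⟩ := exists_avoid ({o, k} : Finset ι) Finset.card_le_two (by omega)
  obtain ⟨i', hi'⟩ := exists_avoid ({o, k, i} : Finset ι) Finset.card_le_three (by omega)
  simp only [Finset.mem_insert, Finset.mem_singleton, not_or] at hi hi'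
  have key : ∀ (w : V ≃ₗ[F] V) (η : Dual F V) (j : ι), w ∈ M → (∀ v, w v = v + η v • e o) → η (e o) = 0 →
      j ≠ o → j ≠ k → ∃ w' ∈ M, ∀ v, w' v = v + ((((b : F)⁻¹ - 1) * η (e k)) * e.repr v k +
        (((b : F) - 1) * η (e j)) * e.repr v j) • e o := by
    intro w η j hw hη hηo hjo hjk
    have hd := T_mem e hN (Ne.symm hjk) b
    refine ⟨T e k j b * w * (T e k j b)⁻¹ * w⁻¹, mul_mem (mul_mem (mul_mem hd hw) (inv_mem hd)) (inv_mem hw), ?_⟩
    intro v
    have h1 : w⁻¹ v = v - η v • e o := by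
      apply w.injective
      rw [← LinearEquiv.mul_apply, mul_inv_cancel, hη, map_sub, map_smul, hηo]
      show v = _
      simp
    have hTo : T e k j b (e o) = e o := by
      rw [T_eq e (Ne.symm hjk), repr_e, repr_e, if_neg (Ne.symm hko), if_neg (Ne.symm hjo)]; simp
    have h2 : η ((T e k j b)⁻¹ (w⁻¹ v)) = η v + (((b : F)⁻¹ - 1) * η (e k)) * e.repr v k +
        (((b : F) - 1) * η (e j)) * e.repr v j := by
      rw [T_inv, T_eq e (Ne.symm hjk), h1]
      simp only [map_add, map_sub, map_smul, Finsupp.sub_apply, Finsupp.smul_apply, repr_e, smul_eq_mul, hηo,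
        Units.val_inv_eq_inv_val, inv_inv, if_neg (Ne.symm hko), if_neg (Ne.symm hjo)]
      ring
    rw [LinearEquiv.mul_apply, LinearEquiv.mul_apply, LinearEquiv.mul_apply, hη, h2, map_add,
      LinearEquiv.map_smul, hTo, ← LinearEquiv.mul_apply (T e k j b), mul_inv_cancel]
    show w⁻¹ v + _ = _
    rw [h1]
    module
  obtain ⟨w₁, hw₁, h1⟩ := key w η i hw hη hηo hi.1 hi.2
  obtain ⟨η₁, hη₁⟩ : ∃ η₁ : Dual F V, ∀ v, η₁ v = (((b : F)⁻¹ - 1) * η (e k)) * e.repr v k +
        (((b : F) - 1) * η (e i)) * e.repr v i :=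
    ⟨((((b : F)⁻¹ - 1) * η (e k)) • e.coord k + (((b : F) - 1) * η (e i)) • e.coord i), fun v => by
      simp [Basis.coord_apply]⟩
  obtain ⟨w₂, hw₂, h2⟩ := key w₁ η₁ i' hw₁ (fun v => by rw [h1, hη₁]) (by
    rw [hη₁, repr_e, repr_e, if_neg (Ne.symm hko), if_neg (Ne.symm hi.1)]; simp) hi'.1 hi'.2.1
  refine ⟨o, k, ((b : F)⁻¹ - 1) * ((((b : F)⁻¹ - 1) * η (e k))), w₂, Ne.symm hko, ?_, hw₂, fun v => ?_⟩
  · have hb' : (b : F)⁻¹ - 1 ≠ 0 := by
      intro h
      exact hb (inv_eq_one.1 (sub_eq_zero.1 h))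
    exact mul_ne_zero hb' (mul_ne_zero hb' hk)
  · rw [h2, hη₁, hη₁]
    simp only [repr_e, if_true, if_neg (Ne.symm hi.2), if_neg hi'.2.1, if_neg (Ne.symm hi'.2.1),
      if_neg hi'.2.2, if_neg (Ne.symm hi'.2.2), if_neg hi.2]
    congr 2
    ring

/-- from a root element modulo `e o` -/
theorem root_of_mod (hN : HN e M) (hcard : 6 ≤ Fintype.card ι) {b : Fˣ} (hb : (b : F) ^ 2 ≠ 1) {o m k : ι}
    (hmo : m ≠ o) (hko : k ≠ o) (hmk : m ≠ k)
    {z : V ≃ₗ[F] V} (hz : z ∈ M) {c : F} (hc : c ≠ 0) {ξ : Dual F V} (hξo : ξ (e o) = 0)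
    (hzv : ∀ v, z v = v + (c * e.repr v k) • e m + ξ v • e o) : Root e M := by
  have hb0 : (b : F) ≠ 0 := b.ne_zero
  have hb1 : (b : F) ≠ 1 := by intro h; apply hb; rw [h, one_pow]
  obtain ⟨i, hi⟩ := exists_avoid ({o, k, m} : Finset ι) Finset.card_le_three (by omega)
  simp only [Finset.mem_insert, Finset.mem_singleton, not_or] at hi
  have hio : i ≠ o := hi.1
  have hd := T_mem e hN (Ne.symm hio) b
  have hwM : T e o i b * z * (T e o i b)⁻¹ * z⁻¹ ∈ M :=
    mul_mem (mul_mem (mul_mem hd hz) (inv_mem hd)) (inv_mem hz)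
  have hTo : T e o i b (e o) = (b : F) • e o := by
    rw [T_eq e (Ne.symm hio), repr_e, repr_e, if_pos rfl, if_neg (Ne.symm hio)]; module
  have hTm : T e o i b (e m) = e m := by
    rw [T_eq e (Ne.symm hio), repr_e, repr_e, if_neg hmo, if_neg (Ne.symm hi.2.2)]; simp
  by_cases hw1 : T e o i b * z * (T e o i b)⁻¹ * z⁻¹ = 1
  · -- ξ = 0
    have hcomm : T e o i b * z = z * T e o i b := by
      rwa [mul_inv_eq_one, mul_inv_eq_iff_eq_mul] at hw1
    have hξ : ∀ v, (b : F) * ξ v = ξ (T e o i b v) := by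
      intro v
      have h1 : e.repr ((T e o i b * z) v) o = e.repr ((z * T e o i b) v) o := by rw [hcomm]
      rw [LinearEquiv.mul_apply, LinearEquiv.mul_apply, hzv (T e o i b v), hzv v] at h1
      simp only [map_add, LinearEquiv.map_smul, hTo, hTm, map_smul, Finsupp.add_apply,
        Finsupp.smul_apply, repr_e, smul_eq_mul, if_neg hmo, T_repr_k, if_true] at h1
      linear_combination h1
    have hξ0 : ξ = 0 := by
      apply e.ext
      intro j
      rw [LinearMap.zero_apply]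
      by_cases hjo : j = o
      · rw [hjo, hξo]
      · have h1 := hξ (e j)
        by_cases hji : j = i
        · subst hji
          rw [T_eq e (Ne.symm hio), repr_e, repr_e, if_neg hjo, if_pos rfl] at h1
          simp only [mul_zero, zero_smul, add_zero, mul_one, map_add, map_smul, smul_eq_mul] at h1
          have h2 : ((b : F) ^ 2 - 1) * ξ (e j) = 0 := by
            have hbb : (b : F) * (b : F)⁻¹ = 1 := mul_inv_cancel₀ hb0
            linear_combination (b : F) * h1 + ξ (e j) * hbb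
          exact (mul_eq_zero.1 h2).resolve_left (sub_ne_zero.2 hb)
        · rw [T_eq e (Ne.symm hio), repr_e, repr_e, if_neg hjo, if_neg hji] at h1
          simp only [mul_zero, zero_smul, add_zero] at h1
          have h2 : ((b : F) - 1) * ξ (e j) = 0 := by linear_combination h1
          exact (mul_eq_zero.1 h2).resolve_left (sub_ne_zero.2 hb1)
    refine ⟨m, k, c, z, hmk, hc, hz, fun v => ?_⟩
    rw [hzv, hξ0]; simp
  · -- Case A
    have hzi : ∀ v, z⁻¹ v = v - (c * e.repr v k) • e m - (ξ v - c * e.repr v k * ξ (e m)) • e o := by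
      intro v
      apply z.injective
      rw [← LinearEquiv.mul_apply, mul_inv_cancel, hzv]
      show v = _
      simp only [map_sub, map_smul, Finsupp.sub_apply, Finsupp.smul_apply, repr_e, smul_eq_mul, hξo,
        if_neg hmk, if_neg (Ne.symm hko)]
      module
    obtain ⟨η, hη⟩ : ∃ η : Dual F V, ∀ v, η v = (b : F) * ξ ((T e o i b)⁻¹ (z⁻¹ v)) - (ξ v - c * e.repr v k * ξ (e m)) := by
      refine ⟨(b : F) • (ξ ∘ₗ ((T e o i b)⁻¹ : V ≃ₗ[F] V).toLinearMap ∘ₗ (z⁻¹ : V ≃ₗ[F] V).toLinearMap) -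
        (ξ - (c * ξ (e m)) • e.coord k), fun v => ?_⟩
      simp only [LinearMap.sub_apply, LinearMap.smul_apply, LinearMap.comp_apply, smul_eq_mul, Basis.coord_apply]
      show _ * ξ _ - _ = _
      ring_nf
      rfl
    refine root_of_tr e hN hcard hb1 hwM hw1 (η := η) (o := o) (fun v => ?_) ?_
    · rw [LinearEquiv.mul_apply, LinearEquiv.mul_apply, LinearEquiv.mul_apply, hzv ((T e o i b)⁻¹ (z⁻¹ v)), map_add,
        map_add, LinearEquiv.map_smul, LinearEquiv.map_smul, hTo, hTm, ← LinearEquiv.mul_apply (T e o i b),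
        mul_inv_cancel, hη]
      show z⁻¹ v + _ + _ = _
      have h1 : e.repr ((T e o i b)⁻¹ (z⁻¹ v)) k = e.repr v k := by
        rw [T_inv, T_repr_o e hko (Ne.symm hi.2.1), hzi]
        simp only [map_sub, map_smul, Finsupp.sub_apply, Finsupp.smul_apply, repr_e, smul_eq_mul, if_neg hmk,
          if_neg (Ne.symm hko)]
        ring
      rw [h1]
      generalize ξ ((T e o i b)⁻¹ (z⁻¹ v)) = x
      rw [hzi]
      module
    · rw [hη, hzi, T_inv]
      simp only [repr_e, if_neg (Ne.symm hko), mul_zero, zero_smul, sub_zero, hξo, zero_mul]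
      rw [T_eq e (Ne.symm hio), repr_e, repr_e, if_pos rfl, if_neg (Ne.symm hio)]
      simp [hξo]

/-- sums with three modified entries -/
theorem sum3 {k l m : ι} (hkl : k ≠ l) (hkm : k ≠ m) (hlm : l ≠ m) (s : ι → F) (x y z : F) :
    ∑ i, (if i = k then x else if i = l then y else if i = m then z else 1) * s i =
      ∑ i, s i + (x - 1) * s k + (y - 1) * s l + (z - 1) * s m := by
  have h1 : ∀ i, (if i = k then x else if i = l then y else if i = m then z else 1) * s i =
      s i + (if i = k then (x - 1) * s k else 0) + (if i = l then (y - 1) * s l else 0) +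
        (if i = m then (z - 1) * s m else 0) := by
    intro i
    by_cases h1 : i = k
    · subst h1; simp only [if_true, if_neg hkl, if_neg hkm]; ring
    · by_cases h2 : i = l
      · subst h2; simp only [if_true, if_neg h1, if_neg hlm]; ring
      · by_cases h3 : i = m
        · subst h3; simp only [if_true, if_neg h1, if_neg h2]; ring
        · simp only [if_neg h1, if_neg h2, if_neg h3]; ring
  rw [Finset.sum_congr rfl (fun i _ => h1 i), Finset.sum_add_distrib, Finset.sum_add_distrib,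
    Finset.sum_add_distrib, Finset.sum_ite_eq', Finset.sum_ite_eq', Finset.sum_ite_eq']
  simp

theorem exists_scalar_avoid [Fintype F] (hF : 5 ≤ Fintype.card F) (S : Finset F) (hS : S.card ≤ 4) :
    ∃ b, b ∉ S := by
  classical
  by_contra hcon
  push Not at hcon
  have h1 : Finset.univ ⊆ S := fun x _ => hcon x
  have h2 := Finset.card_le_card h1
  rw [Finset.card_univ] at h2
  omega

/-- the two possibilities for the products -/
theorem pure_lemma [Fintype F] (hF : 5 ≤ Fintype.card F) (hcard : 6 ≤ Fintype.card ι) {s : ι → F}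
    (hs : ∑ i, s i = 1) (H : ∀ d : ι → Fˣ, ∑ i, (d i : F) * s i = 0 ↔ ∑ i, (((d i)⁻¹ : Fˣ) : F) * s i = 0) :
    (∃ k, s k = 1 ∧ ∀ l, l ≠ k → s l = 0) ∨
      (∃ k l, k ≠ l ∧ 2 * s k = 1 ∧ 2 * s l = 1 ∧ ∀ m, m ≠ k → m ≠ l → s m = 0) := by
  classical
  have H3 : ∀ (k l m : ι) (x y z : F), k ≠ l → k ≠ m → l ≠ m → x ≠ 0 → y ≠ 0 → z ≠ 0 →
      1 + (x - 1) * s k + (y - 1) * s l + (z - 1) * s m = 0 →
      1 + (x⁻¹ - 1) * s k + (y⁻¹ - 1) * s l + (z⁻¹ - 1) * s m = 0 := by
    intro k l m x y z hkl hkm hlm hx hy hz h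
    obtain ⟨d, hd⟩ : ∃ d : ι → Fˣ, d = fun i => if i = k then Units.mk0 x hx else if i = l then Units.mk0 y hy
      else if i = m then Units.mk0 z hz else 1 := ⟨_, rfl⟩
    have h1 : ∀ i, (d i : F) = if i = k then x else if i = l then y else if i = m then z else 1 := by
      intro i; rw [hd]; dsimp only; split_ifs <;> rfl
    have h2 : ∀ i, (((d i)⁻¹ : Fˣ) : F) = if i = k then x⁻¹ else if i = l then y⁻¹ else if i = m then z⁻¹ else 1 := by
      intro i; rw [hd]; dsimp only; split_ifs <;> simp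
    have h3 := H d
    simp only [h1, h2, sum3 hkl hkm hlm, hs] at h3
    exact h3.1 h
  -- existence of further indices
  have hex1 : ∀ k : ι, ∃ l m, k ≠ l ∧ k ≠ m ∧ l ≠ m := by
    intro k
    obtain ⟨l, hl⟩ := exists_avoid ({k} : Finset ι) (n := 1) (by simp) (by omega)
    obtain ⟨m, hm⟩ := exists_avoid ({k, l} : Finset ι) Finset.card_le_two (by omega)
    simp only [Finset.mem_insert, Finset.mem_singleton, not_or] at hl hm
    exact ⟨l, m, Ne.symm hl, Ne.symm hm.1, Ne.symm hm.2⟩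
  have hex2 : ∀ k l : ι, ∃ m, k ≠ m ∧ l ≠ m := by
    intro k l
    obtain ⟨m, hm⟩ := exists_avoid ({k, l} : Finset ι) Finset.card_le_two (by omega)
    simp only [Finset.mem_insert, Finset.mem_singleton, not_or] at hm
    exact ⟨m, Ne.symm hm.1, Ne.symm hm.2⟩
  have ha : ∀ k, s k = 0 ∨ s k = 1 ∨ 2 * s k = 1 := by
    intro k
    by_contra hcon
    push Not at hcon
    obtain ⟨h0, h1, h2⟩ := hcon
    obtain ⟨l, m, hkl, hkm, hlm⟩ := hex1 k
    have h3 : s k - 1 ≠ 0 := sub_ne_zero.2 h1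
    have h4 := H3 k l m ((s k - 1) / s k) 1 1 hkl hkm hlm (div_ne_zero h3 h0) one_ne_zero one_ne_zero
      (by field_simp; ring)
    apply h2
    rw [inv_div] at h4
    field_simp at h4
    linear_combination h4
  have hb1 : ∀ k l, k ≠ l → s k = 1 → s l = 1 → False := by
    intro k l hkl hk hl
    obtain ⟨m, hkm, hlm⟩ := hex2 k l
    have hne : (Polynomial.X ^ 2 - Polynomial.X + 1 : Polynomial F) ≠ 0 := by
      intro h0
      have h4 : (Polynomial.X ^ 2 - Polynomial.X + 1 : Polynomial F).natDegree = 2 := by compute_degree!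
      rw [h0] at h4
      simp at h4
    obtain ⟨b, hb⟩ := exists_scalar_avoid hF ({0, 1} ∪ (Polynomial.X ^ 2 - Polynomial.X + 1 : Polynomial F).roots.toFinset)
      (by
        refine (Finset.card_union_le _ _).trans ?_
        have h1 : ({0, 1} : Finset F).card ≤ 2 := Finset.card_le_two
        have h3 := (Multiset.toFinset_card_le (Polynomial.X ^ 2 - Polynomial.X + 1 : Polynomial F).roots).trans
          (Polynomial.card_roots' _)
        have h4 : (Polynomial.X ^ 2 - Polynomial.X + 1 : Polynomial F).natDegree = 2 := by compute_degree!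
        omega)
    simp only [Finset.mem_union, Finset.mem_insert, Finset.mem_singleton, Multiset.mem_toFinset,
      Polynomial.mem_roots hne, Polynomial.IsRoot, Polynomial.eval_add, Polynomial.eval_sub, Polynomial.eval_pow,
      Polynomial.eval_X, Polynomial.eval_one, not_or] at hb
    obtain ⟨⟨hb0, hb1⟩, hb2⟩ := hb
    have hb1' : 1 - b ≠ 0 := sub_ne_zero.2 (Ne.symm hb1)
    have h4 := H3 k l m b (1 - b) 1 hkl hkm hlm hb0 hb1' one_ne_zero (by rw [hk, hl]; ring)
    rw [hk, hl] at h4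
    apply hb2
    field_simp at h4
    linear_combination h4
  have hb2 : ∀ k l, k ≠ l → s k = 1 → 2 * s l = 1 → False := by
    intro k l hkl hk hl
    obtain ⟨m, hkm, hlm⟩ := hex2 k l
    obtain ⟨b, hb⟩ := exists_scalar_avoid hF ({0, 1, -1}) (Finset.card_le_three.trans (by norm_num))
    simp only [Finset.mem_insert, Finset.mem_singleton, not_or] at hb
    obtain ⟨hb0, hb1, hb2⟩ := hb
    have hb1' : 1 - b ≠ 0 := sub_ne_zero.2 (Ne.symm hb1)
    have hsl : s l ≠ 0 := by intro h; rw [h, mul_zero] at hl; exact zero_ne_one hl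
    have h2 : (2 : F) ≠ 0 := by intro h; rw [h, zero_mul] at hl; exact zero_ne_one hl
    have hsl' : s l = 1 / 2 := by field_simp; linear_combination hl
    have h4 := H3 k l m ((1 - b) * s l) b 1 hkl hkm hlm (mul_ne_zero hb1' hsl) hb0 one_ne_zero (by
      rw [hk]; ring)
    rw [hk, hsl'] at h4
    have h5 : (b + 1) ^ 2 = 0 := by
      field_simp at h4
      linear_combination h4
    exact hb2 (by linear_combination (pow_eq_zero_iff two_ne_zero).1 h5)
  have hb3 : ∀ k l m, k ≠ l → k ≠ m → l ≠ m → 2 * s k = 1 → 2 * s l = 1 → 2 * s m = 1 → False := by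
    intro k l m hkl hkm hlm hk hl hm
    obtain ⟨b, hb⟩ := exists_scalar_avoid hF ({0, 1, s k}) (Finset.card_le_three.trans (by norm_num))
    simp only [Finset.mem_insert, Finset.mem_singleton, not_or] at hb
    obtain ⟨hb0, hb1, hb2⟩ := hb
    have h2 : (2 : F) ≠ 0 := by intro h; rw [h, zero_mul] at hl; exact zero_ne_one hl
    have hsk : s k = 1 / 2 := by field_simp; linear_combination hk
    have hsl : s l = 1 / 2 := by field_simp; linear_combination hl
    have hsm : s m = 1 / 2 := by field_simp; linear_combination hm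
    have hb3 : 1 - 2 * b ≠ 0 := by
      intro h
      apply hb2
      rw [hsk]; field_simp; linear_combination -h
    have h4 := H3 k l m b b (1 - 2 * b) hkl hkm hlm hb0 hb0 hb3 (by rw [hsk, hsl, hsm]; field_simp; ring)
    have hbb : b * b⁻¹ = 1 := mul_inv_cancel₀ hb0
    have hcc : (1 - 2 * b) * (1 - 2 * b)⁻¹ = 1 := mul_inv_cancel₀ hb3
    have h5 : 2 * (b - 1) ^ 2 = 0 := by
      linear_combination (2 * b * (1 - 2 * b)) * h4 - (b⁻¹ - 1) * b * (1 - 2 * b) * (hk + hl) -
        ((1 - 2 * b)⁻¹ - 1) * b * (1 - 2 * b) * hm - 2 * (1 - 2 * b) * hbb - b * hcc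
    exact hb1 (by linear_combination (pow_eq_zero_iff two_ne_zero).1 ((mul_eq_zero.1 h5).resolve_left h2))
  by_cases h1 : ∃ k, s k = 1
  · obtain ⟨k, hk⟩ := h1
    refine Or.inl ⟨k, hk, fun l hl => ?_⟩
    rcases ha l with h | h | h
    · exact h
    · exact (hb1 k l (Ne.symm hl) hk h).elim
    · exact (hb2 k l (Ne.symm hl) hk h).elim
  · push Not at h1
    obtain ⟨k, hk⟩ : ∃ k, s k ≠ 0 := by
      by_contra hcon
      push Not at hcon
      rw [Finset.sum_eq_zero (fun i _ => hcon i)] at hs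
      exact zero_ne_one hs
    obtain ⟨l, hlk, hl⟩ : ∃ l, l ≠ k ∧ s l ≠ 0 := by
      by_contra hcon
      push Not at hcon
      rw [Finset.sum_eq_single k (fun i _ hi => hcon i hi) (fun h => absurd (Finset.mem_univ k) h)] at hs
      exact h1 k hs
    have hk' : 2 * s k = 1 := ((ha k).resolve_left hk).resolve_left (h1 k)
    have hl' : 2 * s l = 1 := ((ha l).resolve_left hl).resolve_left (h1 l)
    refine Or.inr ⟨k, l, Ne.symm hlk, hk', hl', fun m hmk hml => ?_⟩
    by_contra hm
    have hm' : 2 * s m = 1 := ((ha m).resolve_left hm).resolve_left (h1 m)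
    exact hb3 k l m (Ne.symm hlk) (Ne.symm hmk) (Ne.symm hml) hk' hl' hm'

/-- duality of entries for elements fixing the point `e o` -/
def Star (M : Subgroup (V ≃ₗ[F] V)) (o : ι) : Prop :=
  ∀ h ∈ M, (∃ c : F, h (e o) = c • e o) → ∀ k l, k ≠ o → l ≠ o →
    (e.repr (h (e l)) k = 0 ↔ e.repr (h⁻¹ (e k)) l = 0)

theorem inv_o {h : V ≃ₗ[F] V} {o : ι} {c : F} (hc : h (e o) = c • e o) : c ≠ 0 ∧ h⁻¹ (e o) = c⁻¹ • e o := by
  have hc0 : c ≠ 0 := by
    rintro rfl
    rw [zero_smul, LinearEquiv.map_eq_zero_iff] at hc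
    exact e.ne_zero o hc
  refine ⟨hc0, ?_⟩
  apply h.injective
  rw [← LinearEquiv.mul_apply, mul_inv_cancel, LinearEquiv.map_smul, hc, smul_smul, inv_mul_cancel₀ hc0, one_smul]
  rfl

theorem entry (h : V ≃ₗ[F] V) (d : ι → Fˣ) (l : ι) : e.repr ((h⁻¹ * mo e 1 d * h) (e l)) l =
    ∑ k, (d k : F) * (e.repr (h (e l)) k * e.repr (h⁻¹ (e k)) l) := by
  rw [LinearEquiv.mul_apply, LinearEquiv.mul_apply]
  have h1 : mo e 1 d (h (e l)) = ∑ k, ((d k : F) * e.repr (h (e l)) k) • e k := by
    conv_lhs => rw [← e.sum_repr (h (e l))]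
    rw [map_sum]
    refine Finset.sum_congr rfl fun k _ => ?_
    rw [LinearEquiv.map_smul, mo_apply, smul_smul, mul_comm]; rfl
  rw [h1, map_sum, map_sum, Finset.sum_apply']
  refine Finset.sum_congr rfl fun k _ => ?_
  rw [LinearEquiv.map_smul, map_smul, Finsupp.smul_apply, smul_eq_mul]
  ring

theorem mo1_inv (d : ι → Fˣ) : (mo e 1 d)⁻¹ = mo e 1 (fun i => (d i)⁻¹) := by
  rw [mo_inv]
  rfl

theorem conj_inv' (h : V ≃ₗ[F] V) (x : V ≃ₗ[F] V) : (h⁻¹ * x * h)⁻¹ = h⁻¹ * x⁻¹ * h := by group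

/-- the product alternatives -/
theorem two_alt [Fintype F] (hF : 5 ≤ Fintype.card F) (hcard : 6 ≤ Fintype.card ι) (hN : HN e M) {o : ι}
    (hS : Star e M o) {h : V ≃ₗ[F] V} (hh : h ∈ M) {c : F} (hc : h (e o) = c • e o) {l : ι} (hl : l ≠ o) :
    (∃ k, e.repr (h (e l)) k * e.repr (h⁻¹ (e k)) l = 1 ∧
      ∀ l', l' ≠ k → e.repr (h (e l)) l' * e.repr (h⁻¹ (e l')) l = 0) ∨
    (∃ k l', k ≠ l' ∧ 2 * (e.repr (h (e l)) k * e.repr (h⁻¹ (e k)) l) = 1 ∧
      2 * (e.repr (h (e l)) l' * e.repr (h⁻¹ (e l')) l) = 1 ∧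
      ∀ m, m ≠ k → m ≠ l' → e.repr (h (e l)) m * e.repr (h⁻¹ (e m)) l = 0) := by
  obtain ⟨hc0, hci⟩ := inv_o e hc
  have hso : e.repr (h (e l)) o * e.repr (h⁻¹ (e o)) l = 0 := by
    rw [hci, map_smul, Finsupp.smul_apply, repr_e, if_neg (Ne.symm hl), smul_zero, mul_zero]
  refine pure_lemma hF hcard (s := fun k => e.repr (h (e l)) k * e.repr (h⁻¹ (e k)) l) ?_ ?_
  · have h1 := entry e h 1 l
    rw [mo_one, mul_one, inv_mul_cancel] at h1
    simp only [Pi.one_apply, Units.val_one, one_mul] at h1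
    rw [← h1]
    show e.repr (e l) l = 1
    rw [repr_e, if_pos rfl]
  · intro d
    obtain ⟨d', hd'⟩ : ∃ d' : ι → Fˣ, d' = fun i => if i = o then (∏ j ∈ Finset.univ.erase o, d j)⁻¹ else d i :=
      ⟨_, rfl⟩
    have hd'o : ∀ i, i ≠ o → d' i = d i := by intro i hi; rw [hd']; simp [hi]
    have hD : mo e 1 d' ∈ M := by
      apply hN
      have h1 : ∏ i, d' i = 1 := by
        rw [← Finset.mul_prod_erase Finset.univ _ (Finset.mem_univ o)]
        have h2 : ∏ i ∈ Finset.univ.erase o, d' i = ∏ j ∈ Finset.univ.erase o, d j :=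
          Finset.prod_congr rfl fun i hi => hd'o i (Finset.ne_of_mem_erase hi)
        rw [h2, hd']
        simp
      have h2 := congrArg (Units.val : Fˣ → F) h1
      rw [Units.coe_prod, Units.val_one] at h2
      rw [h2]; simp
    have hh' : h⁻¹ * mo e 1 d' * h ∈ M := mul_mem (mul_mem (inv_mem hh) hD) hh
    have hh'o : (h⁻¹ * mo e 1 d' * h) (e o) = (d' o : F) • e o := by
      rw [LinearEquiv.mul_apply, LinearEquiv.mul_apply, hc, LinearEquiv.map_smul, mo_apply, LinearEquiv.map_smul,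
        LinearEquiv.map_smul]
      show c • (d' o : F) • h⁻¹ (e o) = _
      rw [hci, smul_smul, smul_smul, mul_comm c, mul_assoc, mul_inv_cancel₀ hc0, mul_one]
    have h1 := hS _ hh' ⟨_, hh'o⟩ l l hl hl
    rw [conj_inv', mo1_inv, entry, entry] at h1
    have h2 : ∀ (x y : ι → Fˣ), (∀ i, i ≠ o → x i = y i) →
        ∑ k, (x k : F) * (e.repr (h (e l)) k * e.repr (h⁻¹ (e k)) l) =
        ∑ k, (y k : F) * (e.repr (h (e l)) k * e.repr (h⁻¹ (e k)) l) := by
      intro x y hxy
      refine Finset.sum_congr rfl fun k _ => ?_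
      by_cases hk : k = o
      · rw [hk, hso, mul_zero, mul_zero]
      · rw [hxy k hk]
    rw [h2 d' d hd'o, h2 (fun i => (d' i)⁻¹) (fun i => (d i)⁻¹) (fun i hi => by rw [hd'o i hi])] at h1
    exact h1

/-- scalar for characteristic three -/
theorem exists_b3 [Fintype F] (hF : 5 ≤ Fintype.card F) (h3 : (3 : F) = 0) :
    ∃ b : F, b ≠ 0 ∧ b ≠ 1 ∧ b ≠ -1 ∧ b ^ 2 + 1 ≠ 0 := by
  classical
  obtain ⟨x, hx⟩ := exists_scalar_avoid hF ({0, 1, -1} : Finset F) (Finset.card_le_three.trans (by norm_num))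
  simp only [Finset.mem_insert, Finset.mem_singleton, not_or] at hx
  obtain ⟨h0, h1, h2⟩ := hx
  by_cases h4 : x ^ 2 + 1 = 0
  · refine ⟨x + 1, fun h => h2 (by linear_combination h), fun h => h0 (by linear_combination h),
      fun h => h1 (by linear_combination h - h3), fun h => ?_⟩
    have h5 : 2 * x + 1 = 0 := by linear_combination h - h4
    apply h1
    linear_combination -h5 + x * h3
  · exact ⟨x, h0, h1, h2, h4⟩

/-- the second alternative does not occur -/
theorem one_alt [Fintype F] (hF : 5 ≤ Fintype.card F) (hcard : 6 ≤ Fintype.card ι) (hN : HN e M) {o : ι}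
    (hS : Star e M o) {h : V ≃ₗ[F] V} (hh : h ∈ M) {c : F} (hc : h (e o) = c • e o) {l : ι} (hl : l ≠ o) :
    ∃ k, k ≠ o ∧ e.repr (h (e l)) k ≠ 0 ∧ ∀ k', k' ≠ k → k' ≠ o → e.repr (h (e l)) k' = 0 := by
  obtain ⟨hc0, hci⟩ := inv_o e hc
  have hso : e.repr (h⁻¹ (e o)) l = 0 := by
    rw [hci, map_smul, Finsupp.smul_apply, repr_e, if_neg (Ne.symm hl), smul_zero]
  -- a general consequence of `two_alt`
  have hdiag : ∀ h' ∈ M, (∃ c : F, h' (e o) = c • e o) → ∀ s : F, s = e.repr (h' (e l)) l * e.repr (h'⁻¹ (e l)) l →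
      s = 0 ∨ s = 1 ∨ 2 * s = 1 := by
    intro h' hh' ⟨c', hc'⟩ s hs
    rcases two_alt e hF hcard hN hS hh' hc' hl with ⟨k, h1, h2⟩ | ⟨k, l', -, h1, h2, h3⟩
    · by_cases hk : l = k
      · rw [← hk] at h1; right; left; rw [hs, h1]
      · left; rw [hs, h2 l hk]
    · by_cases hk : l = k
      · rw [← hk] at h1; right; right; rw [hs, h1]
      · by_cases hk' : l = l'
        · rw [← hk'] at h2; right; right; rw [hs, h2]
        · left; rw [hs, h3 l hk hk']
  rcases two_alt e hF hcard hN hS hh hc hl with ⟨k, h1, h2⟩ | ⟨k, k', hkk, h1, h2, h3⟩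
  · have hk : e.repr (h (e l)) k ≠ 0 := by intro h0; rw [h0, zero_mul] at h1; exact zero_ne_one h1
    have hko : k ≠ o := by rintro rfl; rw [hso, mul_zero] at h1; exact zero_ne_one h1
    refine ⟨k, hko, hk, fun k' hk' hk'o => ?_⟩
    rcases mul_eq_zero.1 (h2 k' hk') with h3 | h3
    · exact h3
    · exact (hS h hh ⟨c, hc⟩ k' l hk'o hl).2 h3
  · exfalso
    have h20 : (2 : F) ≠ 0 := by intro h; rw [h, zero_mul] at h1; exact zero_ne_one h1
    have hko : k ≠ o := by rintro rfl; rw [hso, mul_zero, mul_zero] at h1; exact zero_ne_one h1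
    have hk'o : k' ≠ o := by rintro rfl; rw [hso, mul_zero, mul_zero] at h2; exact zero_ne_one h2
    by_cases h30 : (3 : F) = 0
    · obtain ⟨b, hb0, hb1, hb2, hb3⟩ := exists_b3 hF h30
      -- the element
      have hD := T_mem e hN hko (Units.mk0 b hb0)
      have hh' : h⁻¹ * T e k o (Units.mk0 b hb0) * h ∈ M := mul_mem (mul_mem (inv_mem hh) hD) hh
      have hTo : T e k o (Units.mk0 b hb0) (e o) = b⁻¹ • e o := by
        rw [T_eq e hko, repr_e, repr_e, if_neg (Ne.symm hko), if_pos rfl, Units.val_mk0]; module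
      have hh'o : (h⁻¹ * T e k o (Units.mk0 b hb0) * h) (e o) = b⁻¹ • e o := by
        rw [LinearEquiv.mul_apply, LinearEquiv.mul_apply, hc, LinearEquiv.map_smul, hTo, LinearEquiv.map_smul,
          LinearEquiv.map_smul, hci, smul_smul, smul_smul]
        congr 1; field_simp
      obtain ⟨m, hm⟩ := exists_avoid ({k, o} : Finset ι) Finset.card_le_two (by omega)
      simp only [Finset.mem_insert, Finset.mem_singleton, not_or] at hm
      have hsum1 : ∑ i, e.repr (h (e l)) i * e.repr (h⁻¹ (e i)) l = 1 := by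
        have h1 := entry e h 1 l
        rw [mo_one, mul_one, inv_mul_cancel] at h1
        simp only [Pi.one_apply, Units.val_one, one_mul] at h1
        rw [← h1]
        show e.repr (e l) l = 1
        rw [repr_e, if_pos rfl]
      have hent : ∀ (x : F) (hx : x ≠ 0), e.repr ((h⁻¹ * T e k o (Units.mk0 x hx) * h) (e l)) l =
          1 + (x - 1) * (e.repr (h (e l)) k * e.repr (h⁻¹ (e k)) l) := by
        intro x hx
        rw [T, entry]
        have h4 : ∀ i, ((dgc k o (Units.mk0 x hx) i : Fˣ) : F) = if i = k then x else if i = o then x⁻¹ else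
            if i = m then 1 else 1 := by
          intro i
          unfold dgc
          split_ifs <;> simp
        rw [Finset.sum_congr rfl (fun i _ => by rw [h4 i]),
          sum3 hko (Ne.symm hm.1) (Ne.symm hm.2) (fun i => e.repr (h (e l)) i * e.repr (h⁻¹ (e i)) l), hsum1, hso]
        ring
      have hinv : (h⁻¹ * T e k o (Units.mk0 b hb0) * h)⁻¹ = h⁻¹ * T e k o (Units.mk0 b⁻¹ (inv_ne_zero hb0)) * h := by
        rw [conj_inv', T_inv]
        congr 3
        ext; simp
      have hs := hdiag _ hh' ⟨_, hh'o⟩ _ rfl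
      rw [hinv, hent, hent] at hs
      obtain ⟨s, hsd⟩ : ∃ s, s = e.repr (h (e l)) k * e.repr (h⁻¹ (e k)) l := ⟨_, rfl⟩
      rw [← hsd] at hs h1
      have hs' : s = 1 / 2 := by field_simp; linear_combination h1
      have hbb : b * b⁻¹ = 1 := mul_inv_cancel₀ hb0
      rcases hs with h4 | h4 | h4
      · apply hb2
        have h5 : (b + 1) ^ 2 = 0 := by
          rw [hs'] at h4
          field_simp at h4
          linear_combination h4
        linear_combination (pow_eq_zero_iff two_ne_zero).1 h5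
      · apply hb1
        have h5 : (b - 1) ^ 2 = 0 := by
          rw [hs'] at h4
          field_simp at h4
          linear_combination h4
        linear_combination (pow_eq_zero_iff two_ne_zero).1 h5
      · apply hb3
        rw [hs'] at h4
        field_simp at h4
        linear_combination h4
    · -- a three-cycle
      obtain ⟨m, hm⟩ := exists_avoid ({k, k', o} : Finset ι) Finset.card_le_three (by omega)
      obtain ⟨m', hm'⟩ := exists_avoid ({k, k', o, m} : Finset ι) Finset.card_le_four (by omega)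
      simp only [Finset.mem_insert, Finset.mem_singleton, not_or] at hm hm'
      obtain ⟨ρ, hρ⟩ : ∃ ρ : Equiv.Perm ι, ρ = Equiv.swap k' m * Equiv.swap m m' := ⟨_, rfl⟩
      have hρk : ρ k = k := by
        rw [hρ, Equiv.Perm.mul_apply, Equiv.swap_apply_of_ne_of_ne (Ne.symm hm.1) (Ne.symm hm'.1),
          Equiv.swap_apply_of_ne_of_ne hkk (Ne.symm hm.1)]
      have hρo : ρ o = o := by
        rw [hρ, Equiv.Perm.mul_apply, Equiv.swap_apply_of_ne_of_ne (Ne.symm hm.2.2) (Ne.symm hm'.2.2.1),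
          Equiv.swap_apply_of_ne_of_ne (Ne.symm hk'o) (Ne.symm hm.2.2)]
      have hρk' : ρ k' = m := by
        rw [hρ, Equiv.Perm.mul_apply, Equiv.swap_apply_of_ne_of_ne (Ne.symm hm.2.1) (Ne.symm hm'.2.1),
          Equiv.swap_apply_left]
      have hρm' : ρ m' = k' := by
        rw [hρ, Equiv.Perm.mul_apply, Equiv.swap_apply_right, Equiv.swap_apply_right]
      have hρs : Equiv.Perm.sign ρ = 1 := by
        rw [hρ, Equiv.Perm.sign_mul, Equiv.Perm.sign_swap (Ne.symm hm.2.1),
          Equiv.Perm.sign_swap (Ne.symm hm'.2.2.2)]; rfl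
      have hπ : mo e ρ 1 ∈ M := by apply hN; rw [hρs]; simp
      have hπi : (mo e ρ 1)⁻¹ = mo e ρ⁻¹ 1 := by
        rw [mo_inv]; congr 1
      have hh' : h⁻¹ * mo e ρ 1 * h ∈ M := mul_mem (mul_mem (inv_mem hh) hπ) hh
      have hh'o : (h⁻¹ * mo e ρ 1 * h) (e o) = (1 : F) • e o := by
        have h5 : mo e ρ 1 (e o) = e o := by rw [mo_apply, hρo]; simp
        rw [LinearEquiv.mul_apply, LinearEquiv.mul_apply, hc, LinearEquiv.map_smul, h5,
          LinearEquiv.map_smul, hci, smul_smul]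
        congr 1; field_simp
      have hhel : h (e l) = e.repr (h (e l)) k • e k + e.repr (h (e l)) k' • e k' + e.repr (h (e l)) o • e o := by
        apply repr_ext e
        intro i
        simp only [map_add, map_smul, Finsupp.add_apply, Finsupp.smul_apply, repr_e, smul_eq_mul]
        by_cases i1 : i = k
        · rw [i1, if_pos rfl, if_neg (Ne.symm hkk), if_neg (Ne.symm hko)]; ring
        · by_cases i2 : i = k'
          · rw [i2, if_neg hkk, if_pos rfl, if_neg (Ne.symm hk'o)]; ring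
          · by_cases i3 : i = o
            · rw [i3, if_neg hko, if_neg hk'o, if_pos rfl]; ring
            · rw [if_neg (Ne.symm i1), if_neg (Ne.symm i2), if_neg (Ne.symm i3)]
              rcases mul_eq_zero.1 (h3 i i1 i2) with h5 | h5
              · rw [h5]; ring
              · rw [(hS h hh ⟨c, hc⟩ i l i3 hl).2 h5]; ring
      have hzero : ∀ i, i ≠ k → i ≠ k' → i ≠ o → e.repr (h⁻¹ (e i)) l = 0 := by
        intro i i1 i2 i3
        rcases mul_eq_zero.1 (h3 i i1 i2) with h5 | h5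
        · exact (hS h hh ⟨c, hc⟩ i l i3 hl).1 h5
        · exact h5
      have hent : ∀ ρ' : Equiv.Perm ι, ρ' k = k → ρ' o = o → (ρ' k' ≠ k ∧ ρ' k' ≠ k' ∧ ρ' k' ≠ o) →
          e.repr ((h⁻¹ * mo e ρ' 1 * h) (e l)) l = e.repr (h (e l)) k * e.repr (h⁻¹ (e k)) l := by
        intro ρ' r1 r2 r3
        rw [LinearEquiv.mul_apply, LinearEquiv.mul_apply, hhel]
        simp only [map_add, LinearEquiv.map_smul, mo_apply, r1, r2, map_smul, Finsupp.add_apply,
          Finsupp.smul_apply, smul_eq_mul, Pi.one_apply, Units.val_one, one_smul, hso,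
          hzero _ r3.1 r3.2.1 r3.2.2, repr_e, if_true, if_neg hkk, if_neg (Ne.symm hkk), if_neg hko,
          if_neg (Ne.symm hko), if_neg hk'o, if_neg (Ne.symm hk'o)]
        ring
      have hs := hdiag _ hh' ⟨_, hh'o⟩ _ rfl
      rw [conj_inv', hπi, hent ρ hρk hρo (by rw [hρk']; exact ⟨hm.1, hm.2.1, hm.2.2⟩),
        hent ρ⁻¹ (by rw [Equiv.Perm.inv_eq_iff_eq, hρk]) (by rw [Equiv.Perm.inv_eq_iff_eq, hρo])
          (by
            have : ρ⁻¹ k' = m' := by rw [Equiv.Perm.inv_eq_iff_eq, hρm']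
            rw [this]; exact ⟨hm'.1, hm'.2.1, hm'.2.2.1⟩)] at hs
      obtain ⟨s, hsd⟩ : ∃ s, s = e.repr (h (e l)) k * e.repr (h⁻¹ (e k)) l := ⟨_, rfl⟩
      rw [← hsd] at hs h1
      rcases hs with h4 | h4 | h4
      · have h5 : s = 0 := mul_self_eq_zero.1 h4
        rw [h5, mul_zero] at h1
        exact zero_ne_one h1
      · apply h30
        linear_combination (2 * s + 1) * h1 - 4 * h4
      · have h5 : (1 : F) = 0 := by linear_combination (2 * s + 1) * h1 - 2 * h4
        exact one_ne_zero h5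

end Cfsg.Agent.Lib.SLMono2H94
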