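import Mathlib
import Cfsg.Agent.Lib.SLMono2H94

set_option autoImplicit false
set_option linter.unusedSectionVars false
set_option linter.unusedSimpArgs false
set_option linter.unusedVariables false

/-!
Overgroups of the group of monomial matrices in the special linear group: conclusion.
-/

namespace Cfsg.Agent.Lib.SLMono3H94

open Module Cfsg.Agent.Lib.SLMonoH94 Cfsg.Agent.Lib.SLMono2H94 Cfsg.Agent.Lib.SLMax Cfsg.Agent.Lib.SLUn

variable {F V ι : Type*} [Field F] [AddCommGroup V] [Module F V] [Fintype ι] [DecidableEq ι]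
  (e : Basis ι F V) {M : Subgroup (V ≃ₗ[F] V)}

theorem exists_b1 [Fintype F] (hF : 5 ≤ Fintype.card F) : ∃ b : Fˣ, (b : F) ≠ 1 ∧ (b : F) ^ 2 ≠ 1 := by
  classical
  obtain ⟨b, hb⟩ := exists_scalar_avoid hF ({0, 1, -1} : Finset F) (Finset.card_le_three.trans (by norm_num))
  simp only [Finset.mem_insert, Finset.mem_singleton, not_or] at hb
  refine ⟨Units.mk0 b hb.1, hb.2.1, ?_⟩
  rw [Units.val_mk0]
  intro h
  have h2 : (b - 1) * (b + 1) = 0 := by linear_combination h
  rcases mul_eq_zero.1 h2 with h3 | h3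
  · exact hb.2.1 (sub_eq_zero.1 h3)
  · exact hb.2.2 (by linear_combination h3)

/-- a non-monomial element fixing a basis point, in the dual case -/
theorem root_of_star [Fintype F] (hF : 5 ≤ Fintype.card F) (hcard : 6 ≤ Fintype.card ι) (hN : HN e M)
    (hdet : ∀ g ∈ M, LinearMap.det ((g : V ≃ₗ[F] V) : V →ₗ[F] V) = 1) {o : ι}
    (hS : SLMono2H94.Star e M o) {h : V ≃ₗ[F] V} (hh : h ∈ M) {c : F} (hc : h (e o) = c • e o) (hm : ¬ Mono e h) :
    Root e M := by
  obtain ⟨hc0, hci⟩ := inv_o e hc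
  have H := fun l (hl : l ≠ o) => one_alt e hF hcard hN hS hh hc hl
  obtain ⟨κ, hκo, hκ1, hκ2, hκ3⟩ : ∃ κ : ι → ι, κ o = o ∧ (∀ l, l ≠ o → κ l ≠ o) ∧
      (∀ l, l ≠ o → e.repr (h (e l)) (κ l) ≠ 0) ∧
      (∀ l, l ≠ o → ∀ k', k' ≠ κ l → k' ≠ o → e.repr (h (e l)) k' = 0) := by
    have : ∀ l, ∃ k, (l = o → k = o) ∧ (l ≠ o → (k ≠ o ∧ e.repr (h (e l)) k ≠ 0 ∧ ∀ k', k' ≠ k → k' ≠ o →
        e.repr (h (e l)) k' = 0)) := by
      intro l
      by_cases hl : l = o
      · exact ⟨o, fun _ => rfl, fun h => absurd hl h⟩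
      · obtain ⟨k, hk⟩ := H l hl
        exact ⟨k, fun h => absurd h hl, fun _ => hk⟩
    choose κ hκ using this
    exact ⟨κ, (hκ o).1 rfl, fun l hl => ((hκ l).2 hl).1, fun l hl => ((hκ l).2 hl).2.1,
      fun l hl => ((hκ l).2 hl).2.2⟩
  have hhe : ∀ l, l ≠ o → h (e l) = e.repr (h (e l)) (κ l) • e (κ l) + e.repr (h (e l)) o • e o := by
    intro l hl
    apply repr_ext e
    intro i
    simp only [map_add, map_smul, Finsupp.add_apply, Finsupp.smul_apply, repr_e, smul_eq_mul]
    by_cases h1 : i = κ l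
    · rw [h1, if_pos rfl, if_neg (Ne.symm (hκ1 l hl))]; ring
    · by_cases h2 : i = o
      · rw [h2, if_pos rfl, if_neg (hκ1 l hl)]; ring
      · rw [if_neg (Ne.symm h1), if_neg (Ne.symm h2), hκ3 l hl i h1 h2]; ring
  have hinj : Function.Injective κ := by
    intro l l' hll
    by_cases hl : l = o
    · by_contra hne
      have hl' : l' ≠ o := fun h => hne (hl.trans h.symm)
      apply hκ1 l' hl'
      rw [← hll, hl, hκo]
    · by_cases hl' : l' = o
      · exfalso
        apply hκ1 l hl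
        rw [hll, hl', hκo]
      · by_contra hne
        -- h (x' e_l - x e_l') ∈ ⟨e o⟩
        obtain ⟨x, hx⟩ : ∃ x, x = e.repr (h (e l)) (κ l) := ⟨_, rfl⟩
        obtain ⟨x', hx'⟩ : ∃ x, x = e.repr (h (e l')) (κ l') := ⟨_, rfl⟩
        obtain ⟨y, hy⟩ : ∃ x, x = e.repr (h (e l)) o := ⟨_, rfl⟩
        obtain ⟨y', hy'⟩ : ∃ x, x = e.repr (h (e l')) o := ⟨_, rfl⟩
        have h1 : h (x' • e l - x • e l') = h ((c⁻¹ * (x' * y - x * y')) • e o) := by
          have e1 := hhe l hl
          have e2 := hhe l' hl'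
          rw [← hx, ← hy] at e1
          rw [← hx', ← hy', ← hll] at e2
          rw [map_sub, LinearEquiv.map_smul, LinearEquiv.map_smul, LinearEquiv.map_smul, hc, e1, e2, smul_smul]
          have : c⁻¹ * (x' * y - x * y') * c = x' * y - x * y' := by field_simp
          rw [this]
          module
        have h2 := congrArg (fun v => e.repr v l) (h.injective h1)
        simp only [map_sub, map_smul, Finsupp.sub_apply, Finsupp.smul_apply, repr_e, smul_eq_mul, if_true] at h2
        rw [if_neg (Ne.symm hne), if_neg (Ne.symm hl)] at h2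
        apply hκ2 l' hl'
        rw [← hx']
        simpa using h2
  obtain ⟨σ, hσ⟩ : ∃ σ : Equiv.Perm ι, ∀ i, σ i = κ i :=
    ⟨Equiv.ofBijective κ (Finite.injective_iff_bijective.1 hinj), fun i => rfl⟩
  -- the monomial element
  obtain ⟨a, ha⟩ : ∃ a : ι → Fˣ, ∀ l, l ≠ o → (a l : F) = e.repr (h (e l)) (κ l) :=
    ⟨fun l => if hl : l = o then 1 else Units.mk0 _ (hκ2 l hl), fun l hl => by simp [hl]⟩
  obtain ⟨d, hd⟩ : ∃ d : ι → Fˣ, d = fun i => if i = o then
      ((Equiv.Perm.sign σ : ℤˣ).map (Int.castRingHom F).toMonoidHom * ∏ j ∈ Finset.univ.erase o, a j)⁻¹ else a i := ⟨_, rfl⟩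
  have hdi : ∀ i, i ≠ o → d i = a i := by intro i hi; rw [hd]; simp [hi]
  have hπ : mo e σ d ∈ M := by
    apply hN
    have h1 : (Units.map (Int.castRingHom F).toMonoidHom (Equiv.Perm.sign σ)) * ∏ i, d i = 1 := by
      rw [← Finset.mul_prod_erase Finset.univ _ (Finset.mem_univ o)]
      have h2 : ∏ i ∈ Finset.univ.erase o, d i = ∏ j ∈ Finset.univ.erase o, a j :=
        Finset.prod_congr rfl fun i hi => hdi i (Finset.ne_of_mem_erase hi)
      rw [h2, hd]
      simp only [if_true]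
      rw [mul_comm (_)⁻¹, ← mul_assoc, mul_inv_cancel]
    have h2 := congrArg (Units.val : Fˣ → F) h1
    rw [Units.val_mul, Units.coe_prod, Units.val_one] at h2
    exact h2
  obtain ⟨z, hz⟩ : ∃ z, z = (mo e σ d)⁻¹ * h := ⟨_, rfl⟩
  have hzM : z ∈ M := by rw [hz]; exact mul_mem (inv_mem hπ) hh
  have hzd : mo e σ d * z = h := by rw [hz, mul_inv_cancel_left]
  -- action of z
  have hπo : mo e σ d (e o) = (d o : F) • e o := by rw [mo_apply, hσ, hκo]
  have hdo0 : ((d o : Fˣ) : F) ≠ 0 := (d o).ne_zero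
  have hzo : z (e o) = (c * (d o : F)⁻¹) • e o := by
    apply (mo e σ d).injective
    rw [← LinearEquiv.mul_apply, hzd, hc, LinearEquiv.map_smul, hπo, smul_smul]
    congr 1; field_simp
  have hzl : ∀ l, l ≠ o → z (e l) = e l + (e.repr (h (e l)) o * (d o : F)⁻¹) • e o := by
    intro l hl
    apply (mo e σ d).injective
    rw [← LinearEquiv.mul_apply, hzd, map_add, LinearEquiv.map_smul, hπo, mo_apply, hσ, smul_smul, hdi l hl, ha l hl]
    conv_lhs => rw [hhe l hl]
    congr 2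
    field_simp
  -- determinant
  have hγ : c * (d o : F)⁻¹ = 1 := by
    obtain ⟨ξ, hξ⟩ : ∃ ξ : Dual F V, ∀ l, ξ (e l) = if l = o then 0 else e.repr (h (e l)) o * (d o : F)⁻¹ :=
      ⟨e.constr F (fun l => if l = o then (0 : F) else e.repr (h (e l)) o * (d o : F)⁻¹), fun l => by
        rw [Basis.constr_basis]⟩
    have hξo : ξ (e o) = 0 := by rw [hξ, if_pos rfl]
    have hne : c * (d o : F)⁻¹ ≠ 0 := mul_ne_zero hc0 (inv_ne_zero hdo0)
    have h1 : z = tr (e o) ξ hξo * mo e 1 (fun i => if i = o then Units.mk0 _ hne else 1) := by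
      apply ext_basis e
      intro i
      rw [LinearEquiv.mul_apply, mo_apply, LinearEquiv.map_smul, tr_apply]
      by_cases hi : i = o
      · subst hi
        rw [if_pos rfl, Units.val_mk0, hzo]
        show _ = _ • (e i + ξ (e i) • e i)
        rw [hξo, zero_smul, add_zero]
      · rw [if_neg hi, Units.val_one, one_smul, hzl i hi]
        show _ = e i + ξ (e i) • e o
        rw [hξ, if_neg hi]
    have h2 := hdet z hzM
    have h3 : ((z : V ≃ₗ[F] V) : V →ₗ[F] V) = ((tr (e o) ξ hξo : V ≃ₗ[F] V) : V →ₗ[F] V) ∘ₗ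
        ((mo e 1 (fun i => if i = o then Units.mk0 _ hne else 1) : V ≃ₗ[F] V) : V →ₗ[F] V) := by
      rw [h1]; rfl
    rw [h3, LinearMap.det_comp, tr_det, mo_det, one_mul, Equiv.Perm.sign_one] at h2
    rw [Finset.prod_eq_single o (fun i _ hi => by rw [if_neg hi, Units.val_one])
      (fun h => absurd (Finset.mem_univ o) h), if_pos rfl, Units.val_mk0] at h2
    simpa using h2
  rw [hγ, one_smul] at hzo
  obtain ⟨b, hb, -⟩ := exists_b1 hF
  obtain ⟨η, hη⟩ : ∃ η : Dual F V, ∀ v, η v = e.repr (z v - v) o :=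
    ⟨e.coord o ∘ₗ ((z : V →ₗ[F] V) - LinearMap.id), fun v => rfl⟩
  refine root_of_tr e hN hcard hb hzM ?_ (o := o) (η := η) ?_ ?_
  · intro h1
    apply hm
    rw [← hzd, h1, mul_one]
    exact ⟨_, _, rfl⟩
  · have h1 : (z : V →ₗ[F] V) = LinearMap.id + (LinearMap.toSpanSingleton F V (e o)) ∘ₗ η := by
      apply e.ext
      intro i
      show z (e i) = e i + η (e i) • e o
      rw [hη]
      by_cases hi : i = o
      · subst hi
        rw [hzo, sub_self, map_zero]; simp
      · rw [hzl i hi, add_sub_cancel_left, map_smul, Finsupp.smul_apply, repr_e, if_pos rfl, smul_eq_mul, mul_one]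
    intro v
    exact congrArg (fun f : V →ₗ[F] V => f v) h1
  · rw [hη, hzo, sub_self, map_zero]; rfl

/-- the non-dual case, core -/
theorem root_core (hcard : 6 ≤ Fintype.card ι) (hN : HN e M) {o : ι} {b : Fˣ} (hb1 : (b : F) ≠ 1)
    (hb2 : (b : F) ^ 2 ≠ 1) {h : V ≃ₗ[F] V} (hh : h ∈ M) {c : F} (hc : h (e o) = c • e o) {k l : ι} (hko : k ≠ o)
    (hlo : l ≠ o) (h1 : e.repr (h (e l)) k = 0) (h2 : e.repr (h⁻¹ (e k)) l ≠ 0) : Root e M := by
  obtain ⟨hc0, hci⟩ := inv_o e hc
  have hb0 : (b : F) ≠ 0 := b.ne_zero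
  have hbi : (b : F)⁻¹ - 1 ≠ 0 := by
    intro h
    exact hb1 (inv_eq_one.1 (sub_eq_zero.1 h))
  obtain ⟨u, hu⟩ : ∃ u, u = h (e l) := ⟨_, rfl⟩
  rw [← hu] at h1
  obtain ⟨φ, hφ⟩ : ∃ φ : Dual F V, ∀ v, φ v = e.repr (h⁻¹ v) l :=
    ⟨e.coord l ∘ₗ ((h⁻¹ : V ≃ₗ[F] V) : V →ₗ[F] V), fun v => rfl⟩
  have hφo : φ (e o) = 0 := by
    rw [hφ, hci, map_smul, Finsupp.smul_apply, repr_e, if_neg (Ne.symm hlo), smul_zero]
  have hφu : φ u = 1 := by
    rw [hφ, hu, ← LinearEquiv.mul_apply, inv_mul_cancel]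
    show e.repr (e l) l = 1
    rw [repr_e, if_pos rfl]
  obtain ⟨f, hf⟩ : ∃ f, f = φ (e k) := ⟨_, rfl⟩
  have hf0 : f ≠ 0 := by rw [hf, hφ]; exact h2
  -- the quotient map
  obtain ⟨π, hπ⟩ : ∃ π : V →ₗ[F] V ⧸ (Submodule.span F {e o}), π = (Submodule.span F {e o}).mkQ := ⟨_, rfl⟩
  have hπo : π (e o) = 0 := by
    rw [hπ, Submodule.mkQ_apply, Submodule.Quotient.mk_eq_zero]
    exact Submodule.mem_span_singleton_self _
  have hπ2 : ∀ v w, π v = π w → ∃ t : F, v = w + t • e o := by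
    intro v w hvw
    have h3 : v - w ∈ Submodule.span F {e o} := by
      rw [← Submodule.Quotient.mk_eq_zero, Submodule.Quotient.mk_sub]
      have h4 : (Submodule.span F {e o}).mkQ v = (Submodule.span F {e o}).mkQ w := by rw [← hπ]; exact hvw
      rw [Submodule.mkQ_apply, Submodule.mkQ_apply] at h4
      rw [h4, sub_self]
    obtain ⟨t, ht⟩ := Submodule.mem_span_singleton.1 h3
    exact ⟨t, by rw [ht]; abel⟩
  -- x
  have hx1 : ∀ (b : Fˣ) v, π (T e k o b v) = π v + (((b : F) - 1) * e.repr v k) • π (e k) := by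
    intro b v; rw [T_eq e hko, map_add, map_add, map_smul, map_smul, hπo, smul_zero, add_zero]
  have hx2 : ∀ (b : Fˣ) v, e.repr (T e k o b v) k = b * e.repr v k := fun b v => T_repr_k e k o b v
  have hx3 : ∀ (b : Fˣ) v, φ (T e k o b v) = φ v + (((b : F) - 1) * e.repr v k) * f := by
    intro b v; rw [T_eq e hko, map_add, map_add, map_smul, map_smul, hφo, smul_zero, add_zero, hf, smul_eq_mul]
  -- y
  obtain ⟨Y, hY⟩ : ∃ Y : Fˣ → V ≃ₗ[F] V, ∀ b, Y b = h * T e l o b * h⁻¹ := ⟨_, fun b => rfl⟩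
  have hYv : ∀ (b : Fˣ) v, ∃ t : F, Y b v = v + (((b : F) - 1) * φ v) • u + t • e o := by
    intro b v
    refine ⟨((b : F)⁻¹ - 1) * e.repr (h⁻¹ v) o * c, ?_⟩
    rw [hY, LinearEquiv.mul_apply, LinearEquiv.mul_apply, T_eq e hlo, map_add, map_add, LinearEquiv.map_smul,
      LinearEquiv.map_smul, hc, ← LinearEquiv.mul_apply h, mul_inv_cancel, hφ, hu, smul_smul]
    rfl
  have hy1 : ∀ (b : Fˣ) v, π (Y b v) = π v + (((b : F) - 1) * φ v) • π u := by
    intro b v
    obtain ⟨t, ht⟩ := hYv b v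
    rw [ht, map_add, map_add, map_smul, map_smul, hπo, smul_zero, add_zero]
  have hy2 : ∀ (b : Fˣ) v, e.repr (Y b v) k = e.repr v k := by
    intro b v
    obtain ⟨t, ht⟩ := hYv b v
    rw [ht]
    simp only [map_add, map_smul, Finsupp.add_apply, Finsupp.smul_apply, h1, repr_e, if_neg (Ne.symm hko), smul_eq_mul]
    ring
  have hy3 : ∀ (b : Fˣ) v, φ (Y b v) = b * φ v := by
    intro b v
    obtain ⟨t, ht⟩ := hYv b v
    rw [ht, map_add, map_add, map_smul, map_smul, hφu, hφo, smul_eq_mul, smul_eq_mul]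
    ring
  have hYi : (Y b)⁻¹ = Y b⁻¹ := by
    rw [hY, hY, ← T_inv]; group
  -- z
  obtain ⟨z, hz⟩ : ∃ z, z = T e k o b * Y b * (T e k o b)⁻¹ * (Y b)⁻¹ := ⟨_, rfl⟩
  have hYM : Y b ∈ M := by rw [hY]; exact mul_mem (mul_mem hh (T_mem e hN hlo b)) (inv_mem hh)
  have hxM := T_mem e hN hko b
  have hzM : z ∈ M := by rw [hz]; exact mul_mem (mul_mem (mul_mem hxM hYM) (inv_mem hxM)) (inv_mem hYM)
  obtain ⟨κ, hκ⟩ : ∃ κ, κ = ((b : F) - 1) * (((b : F)⁻¹ - 1) * f) := ⟨_, rfl⟩
  have hκ0 : κ ≠ 0 := by rw [hκ]; exact mul_ne_zero (sub_ne_zero.2 hb1) (mul_ne_zero hbi hf0)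
  have hbb : (b : F) * (b : F)⁻¹ = 1 := mul_inv_cancel₀ hb0
  have hz1 : ∀ v, π (z v) = π v + (κ * e.repr v k) • π u := by
    intro v
    rw [hz, T_inv, hYi, LinearEquiv.mul_apply, LinearEquiv.mul_apply, LinearEquiv.mul_apply]
    simp only [hx1, hy1, hx3, hy3, hy2, hx2, Units.val_inv_eq_inv_val, hκ]
    match_scalars
    · ring
    · linear_combination (φ v) * hbb
    · linear_combination (e.repr v k) * hbb
  have hz2 : ∀ v, e.repr (z v) k = e.repr v k := by
    intro v
    obtain ⟨t, ht⟩ := hπ2 (z v) (v + (κ * e.repr v k) • u) (by rw [hz1, map_add, map_smul])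
    rw [ht]
    simp only [map_add, map_smul, Finsupp.add_apply, Finsupp.smul_apply, h1, repr_e, if_neg (Ne.symm hko), smul_eq_mul]
    ring
  -- m
  obtain ⟨m, hmo, hm0⟩ : ∃ m, m ≠ o ∧ e.repr u m ≠ 0 := by
    by_contra hcon
    push Not at hcon
    have h3 : u = (e.repr u o) • e o := by
      apply repr_ext e
      intro i
      rw [map_smul, Finsupp.smul_apply, repr_e, smul_eq_mul]
      by_cases hi : i = o
      · rw [hi, if_pos rfl, mul_one]
      · rw [if_neg (Ne.symm hi), hcon i hi, mul_zero]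
    rw [h3, map_smul, hφo, smul_zero] at hφu
    exact zero_ne_one hφu
  have hmk : m ≠ k := by rintro rfl; exact hm0 h1
  have hz3 : ∀ v, e.repr (z v) m = e.repr v m + κ * e.repr v k * e.repr u m := by
    intro v
    obtain ⟨t, ht⟩ := hπ2 (z v) (v + (κ * e.repr v k) • u) (by rw [hz1, map_add, map_smul])
    rw [ht]
    simp only [map_add, map_smul, Finsupp.add_apply, Finsupp.smul_apply, h1, repr_e, if_neg (Ne.symm hmo), smul_eq_mul]
    ring
  have hzi1 : ∀ v, π (z⁻¹ v) = π v - (κ * e.repr v k) • π u := by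
    intro v
    obtain ⟨w, rfl⟩ := z.surjective v
    rw [← LinearEquiv.mul_apply, inv_mul_cancel, hz1, hz2]
    show π w = _
    abel
  have hzi2 : ∀ v, e.repr (z⁻¹ v) k = e.repr v k := by
    intro v
    obtain ⟨w, rfl⟩ := z.surjective v
    rw [← LinearEquiv.mul_apply, inv_mul_cancel, hz2]
    rfl
  have hzi3 : ∀ v, e.repr (z⁻¹ v) m = e.repr v m - κ * e.repr v k * e.repr u m := by
    intro v
    obtain ⟨w, rfl⟩ := z.surjective v
    rw [← LinearEquiv.mul_apply, inv_mul_cancel, hz3, hz2]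
    show e.repr w m = _
    ring
  -- z'
  have ht1 : ∀ (b : Fˣ) v, π (T e m o b v) = π v + (((b : F) - 1) * e.repr v m) • π (e m) := by
    intro b v; rw [T_eq e hmo, map_add, map_add, map_smul, map_smul, hπo, smul_zero, add_zero]
  have ht2 : ∀ (b : Fˣ) v, e.repr (T e m o b v) m = b * e.repr v m := fun b v => T_repr_k e m o b v
  have ht3 : ∀ (b : Fˣ) v, e.repr (T e m o b v) k = e.repr v k := fun b v => T_repr_o e (Ne.symm hmk) hko b v
  obtain ⟨z', hz'⟩ : ∃ z', z' = T e m o b * z * (T e m o b)⁻¹ * z⁻¹ := ⟨_, rfl⟩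
  have htM := T_mem e hN hmo b
  have hz'M : z' ∈ M := by rw [hz']; exact mul_mem (mul_mem (mul_mem htM hzM) (inv_mem htM)) (inv_mem hzM)
  obtain ⟨c', hc'⟩ : ∃ c', c' = ((b : F) - 1) * κ * e.repr u m := ⟨_, rfl⟩
  have hc'0 : c' ≠ 0 := by
    rw [hc']; exact mul_ne_zero (mul_ne_zero (sub_ne_zero.2 hb1) hκ0) hm0
  have hz'1 : ∀ v, π (z' v) = π v + (c' * e.repr v k) • π (e m) := by
    intro v
    rw [hz', T_inv, LinearEquiv.mul_apply, LinearEquiv.mul_apply, LinearEquiv.mul_apply]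
    simp only [ht1, hz1, hzi1, hz3, ht2, ht3, hzi2, hzi3, Units.val_inv_eq_inv_val, hc']
    match_scalars
    · ring
    · ring
    · linear_combination (e.repr v m - κ * e.repr v k * e.repr u m) * hbb
  -- fixing e o
  have hfix : ∀ x y : V ≃ₗ[F] V, (∃ a : F, x (e o) = a • e o) → (∃ a : F, y (e o) = a • e o) →
      (x * y * x⁻¹ * y⁻¹) (e o) = e o := by
    intro x y ⟨a, ha⟩ ⟨a', ha'⟩
    obtain ⟨ha0, hai⟩ := inv_o e ha
    obtain ⟨ha'0, ha'i⟩ := inv_o e ha'
    simp only [LinearEquiv.mul_apply, LinearEquiv.map_smul, ha, ha', hai, ha'i, smul_smul]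
    have : a'⁻¹ * (a⁻¹ * (a' * a)) = 1 := by field_simp
    rw [this, one_smul]
  have hTo : ∀ i, i ≠ o → ∃ a : F, T e i o b (e o) = a • e o := by
    intro i hi
    refine ⟨(b : F)⁻¹, ?_⟩
    rw [T_eq e hi, repr_e, repr_e, if_neg (Ne.symm hi), if_pos rfl]
    module
  have hYo : ∃ a : F, Y b (e o) = a • e o := by
    obtain ⟨t, ht⟩ := hYv b (e o)
    exact ⟨1 + t, by rw [ht, hφo]; module⟩
  have hzo : z (e o) = e o := by rw [hz]; exact hfix _ _ (hTo k hko) hYo
  have hz'o : z' (e o) = e o := by rw [hz']; exact hfix _ _ (hTo m hmo) ⟨1, by rw [hzo, one_smul]⟩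
  obtain ⟨ξ, hξ⟩ : ∃ ξ : Dual F V, ∀ v, ξ v = e.repr (z' v - v - (c' * e.repr v k) • e m) o := by
    refine ⟨e.coord o ∘ₗ ((z' : V →ₗ[F] V) - LinearMap.id - (c' • (LinearMap.toSpanSingleton F V (e m)) ∘ₗ e.coord k)), fun v => ?_⟩
    simp only [LinearMap.comp_apply, LinearMap.sub_apply, LinearMap.smul_apply, Basis.coord_apply,
      LinearMap.toSpanSingleton_apply, LinearMap.id_apply, smul_smul]
    rfl
  refine root_of_mod e hN hcard hb2 hmo hko hmk hz'M hc'0 (ξ := ξ) ?_ ?_
  · rw [hξ, hz'o, repr_e, if_neg (Ne.symm hko)]; simp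
  · intro v
    obtain ⟨t, ht⟩ := hπ2 (z' v) (v + (c' * e.repr v k) • e m) (by rw [hz'1, map_add, map_smul])
    have h3 : ξ v = t := by
      rw [hξ, ht]
      have : v + (c' * e.repr v k) • e m + t • e o - v - (c' * e.repr v k) • e m = t • e o := by abel
      rw [this, map_smul, Finsupp.smul_apply, repr_e, if_pos rfl, smul_eq_mul, mul_one]
    rw [h3]; exact ht

/-- the non-dual case -/
theorem root_of_not_star [Fintype F] (hF : 5 ≤ Fintype.card F) (hcard : 6 ≤ Fintype.card ι) (hN : HN e M) {o : ι}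
    (hS : ¬ SLMono2H94.Star e M o) : Root e M := by
  obtain ⟨b, hb1, hb2⟩ := exists_b1 hF
  unfold SLMono2H94.Star at hS
  push Not at hS
  obtain ⟨h, hh, ⟨c, hc⟩, k, l, hko, hlo, h1⟩ := hS
  rcases h1 with ⟨h1, h2⟩ | ⟨h1, h2⟩
  · exact root_core e hcard hN hb1 hb2 hh hc hko hlo h1 h2
  · obtain ⟨hc0, hci⟩ := inv_o e hc
    exact root_core e hcard hN hb1 hb2 (inv_mem hh) hci hlo hko h2 (by rw [inv_inv]; exact h1)

/-- all transvections from a root element -/
theorem all_of_root (hcard : 6 ≤ Fintype.card ι) (hN : HN e M) (hR : Root e M) :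
    ∀ (u : V) (φ : Dual F V) (h : φ u = 0), tr u φ h ∈ M := by
  obtain ⟨m, k, c, w, hmk, hc0, hw, hwv⟩ := hR
  -- all elementary transvections
  have h1 : ∀ (m' k' : ι) (a : F) (h : (a • e.coord k') (e m') = 0), m' ≠ k' →
      tr (e m') (a • e.coord k') h ∈ M := by
    intro m' k' a h hmk'
    by_cases ha : a = 0
    · have : tr (e m') (a • e.coord k') h = 1 := by
        apply LinearEquiv.ext
        intro v
        rw [tr_apply, ha]; simp
      rw [this]; exact one_mem _
    -- the permutation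
    obtain ⟨σ, hσ1, hσ2⟩ : ∃ σ : Equiv.Perm ι, σ m = m' ∧ σ k = k' := by
      refine ⟨Equiv.swap (Equiv.swap m m' k) k' * Equiv.swap m m', ?_, ?_⟩
      · rw [Equiv.Perm.mul_apply, Equiv.swap_apply_left, Equiv.swap_apply_of_ne_of_ne ?_ hmk']
        intro h
        apply hmk
        apply (Equiv.swap m m').injective
        rw [Equiv.swap_apply_left]; exact h
      · rw [Equiv.Perm.mul_apply, Equiv.swap_apply_left]
    obtain ⟨i, hi⟩ := exists_avoid ({m, k} : Finset ι) Finset.card_le_two (by omega)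
    simp only [Finset.mem_insert, Finset.mem_singleton, not_or] at hi
    obtain ⟨x, hx⟩ : ∃ x : Fˣ, (x : F) = a / c := ⟨Units.mk0 (a / c) (div_ne_zero ha hc0), rfl⟩
    obtain ⟨d, hd⟩ : ∃ d : ι → Fˣ, d = fun j => if j = m then x else if j = i then
      ((Equiv.Perm.sign σ : ℤˣ).map (Int.castRingHom F).toMonoidHom * x)⁻¹ else 1 := ⟨_, rfl⟩
    have hdM : mo e σ d ∈ M := by
      apply hN
      have h1 : (Units.map (Int.castRingHom F).toMonoidHom (Equiv.Perm.sign σ)) * ∏ i, d i = 1 := by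
        rw [← Finset.mul_prod_erase Finset.univ _ (Finset.mem_univ m),
          ← Finset.mul_prod_erase (Finset.univ.erase m) _ (Finset.mem_erase.2 ⟨hi.1, Finset.mem_univ i⟩),
          Finset.prod_eq_one (fun j hj => by
            rw [Finset.mem_erase, Finset.mem_erase] at hj
            rw [hd]; simp [hj.1, hj.2.1]), mul_one]
        rw [hd]
        simp only [if_true, if_neg hi.1]
        rw [← mul_assoc, mul_inv_cancel]
      have h2 := congrArg (Units.val : Fˣ → F) h1
      rw [Units.val_mul, Units.coe_prod, Units.val_one] at h2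
      exact h2
    have h2 : tr (e m') (a • e.coord k') h = mo e σ d * w * (mo e σ d)⁻¹ := by
      apply LinearEquiv.ext
      intro v
      obtain ⟨v, rfl⟩ := (mo e σ d).surjective v
      rw [tr_apply, LinearEquiv.mul_apply, LinearEquiv.mul_apply, ← LinearEquiv.mul_apply (mo e σ d)⁻¹, inv_mul_cancel]
      show _ = mo e σ d (w v)
      rw [hwv, map_add, LinearEquiv.map_smul, mo_apply, hσ1, LinearMap.smul_apply, Basis.coord_apply, ← hσ2, mo_repr]
      have h3 : d k = 1 := by rw [hd]; simp [Ne.symm hmk, Ne.symm hi.2]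
      have h4 : (d m : F) = a / c := by rw [hd]; simp [hx]
      rw [h3, h4, Units.val_one, one_mul, smul_eq_mul, smul_smul]
      congr 2
      field_simp
    rw [h2]
    exact mul_mem (mul_mem hdM hw) (inv_mem hdM)
  -- centres
  have h2 : ∀ m', e m' ∈ cenSL M := by
    intro m' φ hφ
    have h3 : ∀ (s : Finset ι) (_ : m' ∉ s) (h : (∑ k ∈ s, φ (e k) • e.coord k) (e m') = 0),
        tr (e m') (∑ k ∈ s, φ (e k) • e.coord k) h ∈ M := by
      intro s
      induction s using Finset.induction_on with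
      | empty =>
        intro _ h
        have : tr (e m') (∑ k ∈ (∅ : Finset ι), φ (e k) • e.coord k) h = 1 := by
          apply LinearEquiv.ext
          intro v
          rw [tr_apply]; simp
        rw [this]; exact one_mem _
      | insert a s has ih =>
        intro hm h
        rw [Finset.mem_insert, not_or] at hm
        have e1 : (φ (e a) • e.coord a) (e m') = 0 := by
          rw [LinearMap.smul_apply, Basis.coord_apply, repr_e, if_neg hm.1, smul_zero]
        have e2 : (∑ k ∈ s, φ (e k) • e.coord k) (e m') = 0 := by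
          rw [Finset.sum_insert has, LinearMap.add_apply, e1, zero_add] at h; exact h
        have e3 : tr (e m') (∑ k ∈ insert a s, φ (e k) • e.coord k) h =
            tr (e m') (φ (e a) • e.coord a) e1 * tr (e m') (∑ k ∈ s, φ (e k) • e.coord k) e2 := by
          rw [tr_mul _ _ _ e1 e2 (by rw [LinearMap.add_apply, e1, e2, add_zero])]
          apply LinearEquiv.ext
          intro v
          rw [tr_apply, tr_apply, Finset.sum_insert has]
        rw [e3]
        exact mul_mem (h1 _ _ _ e1 hm.1) (ih hm.2 e2)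
    have h4 : φ = ∑ k ∈ Finset.univ.erase m', φ (e k) • e.coord k := by
      apply e.ext
      intro i
      rw [LinearMap.sum_apply]
      simp only [LinearMap.smul_apply, Basis.coord_apply, repr_e, smul_eq_mul, mul_ite, mul_one, mul_zero]
      rw [Finset.sum_ite_eq]
      by_cases hi : i = m'
      · subst hi; rw [if_neg (by simp), hφ]
      · rw [if_pos (Finset.mem_erase.2 ⟨hi, Finset.mem_univ i⟩)]
    have h5 : (∑ k ∈ Finset.univ.erase m', φ (e k) • e.coord k) (e m') = 0 := by rw [← h4]; exact hφ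
    have h6 : tr (e m') φ hφ = tr (e m') (∑ k ∈ Finset.univ.erase m', φ (e k) • e.coord k) h5 := by
      apply LinearEquiv.ext
      intro v
      rw [tr_apply, tr_apply, ← h4]
    rw [h6]
    exact h3 _ (by simp) h5
  intro u φ hφ
  have : FiniteDimensional F V := Module.Finite.of_basis e
  have h3 : ∀ u, u ∈ cenSL M := by
    intro u
    rw [← e.sum_repr u]
    have : ∀ s : Finset ι, ∑ i ∈ s, e.repr u i • e i ∈ cenSL M := by
      intro s
      induction s using Finset.induction_on with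
      | empty =>
        intro φ h
        have : tr (∑ i ∈ (∅ : Finset ι), e.repr u i • e i) φ h = 1 := by
          apply LinearEquiv.ext
          intro v
          rw [tr_apply]; simp
        rw [this]; exact one_mem _
      | insert a s has ih =>
        rw [Finset.sum_insert has]
        exact cenSL_add (cenSL_smul (h2 a) _) ih
    exact this _
  exact h3 u φ hφ

/-- the conclusion for monomial groups -/
theorem main [Fintype F] (hF : 5 ≤ Fintype.card F) (hcard : 6 ≤ Fintype.card ι) (hN : HN e M)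
    (hdet : ∀ g ∈ M, LinearMap.det ((g : V ≃ₗ[F] V) : V →ₗ[F] V) = 1)
    (hex : ∃ g ∈ M, ¬ Mono e g) : ∀ (u : V) (φ : Dual F V) (h : φ u = 0), tr u φ h ∈ M := by
  apply all_of_root e hcard hN
  obtain ⟨g, hg, hgm⟩ := hex
  classical
  -- a scalar of large order
  obtain ⟨b, hb⟩ := IsCyclic.exists_generator (α := Fˣ)
  have hord : orderOf b = Fintype.card F - 1 := by
    rw [orderOf_eq_card_of_forall_mem_zpowers hb, Nat.card_eq_fintype_card, Fintype.card_units]
  have hpow : ∀ n, 0 < n → n < 4 → (b : F) ^ n ≠ 1 := by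
    intro n h0 h4 h
    have h1 : b ^ n = 1 := Units.ext (by rw [Units.val_pow_eq_pow_val, Units.val_one]; exact h)
    have h2 := orderOf_le_of_pow_eq_one h0 h1
    rw [hord] at h2
    omega
  have hA := noA1 e hF hN hcard (hpow 2 (by norm_num) (by norm_num)) (hpow 3 (by norm_num) (by norm_num)) hg hgm
  unfold A1 at hA
  push Not at hA
  obtain ⟨h, hh, o, c, hc, hm⟩ := hA
  by_cases hS : SLMono2H94.Star e M o
  · exact root_of_star e hF hcard hN hdet hS hh hc hm
  · exact root_of_not_star e hF hcard hN hS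

end Cfsg.Agent.Lib.SLMono3H94
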