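import Cfsg.Agent.Lib.GeoBridge
import Cfsg.Agent.Lib.SLMax
import Cfsg.Agent.Lib.SLMono3H94
import Cfsg.Agent.Lib.SLBlockH94

set_option autoImplicit false
open Cfsg

namespace Cfsg.Agent.Lib.LowSLImp


open Module Cfsg.Agent.Lib.GeoBridge Cfsg.Agent.Lib.SLMax Cfsg.Agent.Lib.SLMonoH94 Cfsg.Agent.Lib.SLMono3H94
  Cfsg.Agent.Lib.SLBlockH94

section aux
variable {F V : Type*} [Field F] [AddCommGroup V] [Module F V] [FiniteDimensional F V]

/-- homologies -/
theorem exists_homology {y : V} {α : Dual F V} (h : α y = 1) {δ : F} (hδ : δ ≠ 0) :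
    ∃ g : V ≃ₗ[F] V, (∀ x, g x = x + ((δ - 1) * α x) • y) ∧
      LinearMap.det ((g : V ≃ₗ[F] V) : V →ₗ[F] V) = δ := by
  have h1 : ∀ a b : F, a * b = 1 → (LinearMap.transvection ((a - 1) • α) y) ∘ₗ
      (LinearMap.transvection ((b - 1) • α) y) = LinearMap.id := by
    intro a b hab
    apply LinearMap.ext
    intro x
    rw [LinearMap.comp_apply, LinearMap.transvection.apply, LinearMap.transvection.apply,
      LinearMap.smul_apply, LinearMap.smul_apply, map_add, map_smul, h, LinearMap.id_apply]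
    simp only [smul_eq_mul]
    match_scalars
    · ring
    · linear_combination (α x) * hab
  refine ⟨LinearEquiv.ofLinear (LinearMap.transvection ((δ - 1) • α) y)
    (LinearMap.transvection ((δ⁻¹ - 1) • α) y) (h1 _ _ (mul_inv_cancel₀ hδ)) (h1 _ _ (inv_mul_cancel₀ hδ)), ?_, ?_⟩
  · intro x
    rw [LinearEquiv.ofLinear_apply, LinearMap.transvection.apply, LinearMap.smul_apply, smul_eq_mul]
  · rw [LinearEquiv.ofLinear_toLinearMap, LinearMap.transvection.det, LinearMap.smul_apply, h]
    simp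

end aux

section main
variable {F : Type*} [Field F] [Fintype F] {n t m : ℕ} {D : Fin t → Submodule F (Fin n → F)}

/-- an adapted basis -/
theorem exists_adapted (hD : Cfsg.Geo.IsMDecomposition m D) :
    ∃ e : Basis (Σ _ : Fin t, Fin m) F (Fin n → F), ∀ p, e p ∈ D p.1 := by
  have hint := DirectSum.isInternal_submodule_of_iSupIndep_of_iSup_eq_top hD.indep hD.iSup_eq_top
  exact ⟨hint.collectedBasis (fun i => Module.finBasisOfFinrankEq F (D i) (hD.finrank_eq i)),
    hint.collectedBasis_mem _⟩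

theorem mul_eq (hD : Cfsg.Geo.IsMDecomposition m D) : t * m = n := by
  obtain ⟨e, -⟩ := exists_adapted hD
  have h1 := Module.finrank_eq_card_basis e
  rw [Module.finrank_fintype_fun_eq_card, Fintype.card_fin, Fintype.card_sigma] at h1
  simpa using h1.symm

/-- permuting the blocks -/
theorem map_of_mem (hD : Cfsg.Geo.IsMDecomposition m D) {g : (Fin n → F) ≃ₗ[F] (Fin n → F)} {σ : Fin t → Fin t}
    (h : ∀ i, ∀ x ∈ D i, g x ∈ D (σ i)) (i : Fin t) : (D i).map (g : (Fin n → F) →ₗ[F] (Fin n → F)) = D (σ i) := by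
  apply Submodule.eq_of_le_of_finrank_eq
  · rintro _ ⟨v, hv, rfl⟩; exact h i v hv
  · rw [hD.finrank_eq, ← hD.finrank_eq i]
    exact LinearEquiv.finrank_map_eq g (D i)

/-- membership of the block from the coordinates -/
theorem mem_iff {e : Basis (Σ _ : Fin t, Fin m) F (Fin n → F)} (he : ∀ p, e p ∈ D p.1)
    {pr : Fin t → (Fin n → F) →ₗ[F] (Fin n → F)} (R : Dec D pr) {i : Fin t} {x : Fin n → F}
    (hx : x ∈ D i) : x = ∑ k : Fin m, e.repr x ⟨i, k⟩ • e ⟨i, k⟩ := by
  conv_lhs => rw [← R.self i x hx, ← e.sum_repr x, map_sum]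
  rw [Fintype.sum_sigma, Finset.sum_eq_single i]
  · apply Finset.sum_congr rfl
    intro k _
    rw [map_smul, R.self i _ (he ⟨i, k⟩)]
  · intro j _ hj
    apply Finset.sum_eq_zero
    intro k _
    rw [map_smul, R.zero i j _ (Ne.symm hj) (he ⟨j, k⟩), smul_zero]
  · intro h; exact absurd (Finset.mem_univ i) h

end main

/-- For a finite field F with q elements and n ≥ 13, let D be a decomposition of F^n into t ≥ 2 independent subspaces of equal dimension m ≥ 1 spanning F^n. Unless m = 1 and q ≤ 4, or m = 2 and q = 2, the elements of SL_n(F) permuting the members of D form a maximal subgroup of SL_n(F). -/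
theorem gen {F : Type*} [Field F] [Fintype F] (n : ℕ) (hn : 6 ≤ n) {t : ℕ} (m : ℕ) (D : Fin t → Submodule F (Fin n → F)) (hD : Cfsg.Geo.IsMDecomposition m D) (h1 : ¬ (m = 1 ∧ Fintype.card F ≤ 4)) (h2 : ¬ (m = 2 ∧ Fintype.card F = 2)) : Cfsg.Geo.IsMaximalIn (Cfsg.Geo.specialLinear (Fin n) F) (Cfsg.Geo.decompositionStabilizer D ⊓ Cfsg.Geo.specialLinear (Fin n) F) := by
  classical
  obtain ⟨e, he⟩ := exists_adapted hD
  obtain ⟨pr, R⟩ := exists_dec hD.indep hD.iSup_eq_top
  have htm := mul_eq hD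
  have hm0 := hD.pos
  have ht2 := hD.two_le
  have hmem : ∀ M : Subgroup ((Fin n → F) ≃ₗ[F] (Fin n → F)),
      (∀ g ∈ Cfsg.Geo.decompositionStabilizer D ⊓ Cfsg.Geo.specialLinear (Fin n) F, le g ∈ M) →
      ∀ (g : (Fin n → F) ≃ₗ[F] (Fin n → F)) (σ : Equiv.Perm (Fin t)),
      LinearMap.det (g : (Fin n → F) →ₗ[F] (Fin n → F)) = 1 → (∀ i, ∀ x ∈ D i, g x ∈ D (σ i)) → g ∈ M := by
    intro M hHM g σ hdet hg
    have := hHM (le.symm g) (Subgroup.mem_inf.2 ⟨?_, ?_⟩)
    · rwa [MulEquiv.apply_symm_apply] at this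
    · rw [mem_decompositionStabilizer_iff, MulEquiv.apply_symm_apply]
      exact ⟨σ, map_of_mem hD hg⟩
    · rw [mem_specialLinear_iff, MulEquiv.apply_symm_apply]; exact hdet
  apply isMaximalIn_of
  · refine lt_of_le_of_ne inf_le_right fun heq => ?_
    have hi0 : 0 < t := by omega
    have hi1 : 1 < t := by omega
    obtain ⟨a, ha⟩ : ∃ a : Σ _ : Fin t, Fin m, a = ⟨⟨0, hi0⟩, ⟨0, hm0⟩⟩ := ⟨_, rfl⟩
    obtain ⟨b, hb⟩ : ∃ b : Σ _ : Fin t, Fin m, b = ⟨⟨1, hi1⟩, ⟨0, hm0⟩⟩ := ⟨_, rfl⟩
    have hab1 : a.1 ≠ b.1 := by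
      rw [ha, hb]
      intro h
      exact absurd (congrArg Fin.val h) (by simp)
    have hab : e.coord a (e b) = 0 := by
      rw [Basis.coord_apply, repr_e, if_neg]
      rintro rfl; exact hab1 rfl
    have h1 := tr_mem_sl (e b) (e.coord a) hab
    rw [← heq] at h1
    obtain ⟨σ, hσ⟩ := (mem_decompositionStabilizer_iff D _).1 h1.1
    rw [MulEquiv.apply_symm_apply] at hσ
    have h2 : e a + e b ∈ D (σ a.1) := by
      rw [← hσ]
      refine ⟨e a, he a, ?_⟩
      show tr (e b) (e.coord a) hab (e a) = _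
      rw [tr_apply, Basis.coord_apply, repr_e, if_pos rfl, one_smul]
    have h3 : σ a.1 = a.1 := by
      by_contra hne
      have := R.zero a.1 (σ a.1) _ (Ne.symm hne) h2
      rw [map_add, R.self _ _ (he a), R.zero a.1 b.1 _ hab1 (he b), add_zero] at this
      exact e.ne_zero a this
    have h4 : σ a.1 = b.1 := by
      by_contra hne
      have := R.zero b.1 (σ a.1) _ (Ne.symm hne) h2
      rw [map_add, R.self _ _ (he b), R.zero b.1 a.1 _ (Ne.symm hab1) (he a), zero_add] at this
      exact e.ne_zero b this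
    exact hab1 (h3.symm.trans h4)
  · intro M hHM hMK hex g hg
    have hmem' := hmem M hHM
    have hMdet : ∀ x ∈ M, LinearMap.det ((x : (Fin n → F) ≃ₗ[F] (Fin n → F)) : (Fin n → F) →ₗ[F] (Fin n → F)) = 1 := by
      intro x hx
      have := hMK (le.symm x) (by rwa [MulEquiv.apply_symm_apply])
      rwa [mem_specialLinear_iff, MulEquiv.apply_symm_apply] at this
    have hex' : ∃ g ∈ M, ¬ ∃ σ : Equiv.Perm (Fin t), ∀ i,
        (D i).map ((g : (Fin n → F) ≃ₗ[F] (Fin n → F)) : (Fin n → F) →ₗ[F] (Fin n → F)) = D (σ i) := by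
      obtain ⟨x, hx, hxH⟩ := hex
      refine ⟨le x, hx, ?_⟩
      intro hcon
      exact hxH (Subgroup.mem_inf.2 ⟨(mem_decompositionStabilizer_iff D x).2 hcon, hMK x hx⟩)
    refine sl_le M ?_ g hg
    rcases Nat.lt_or_ge m 2 with hm2 | hm2
    · -- m = 1
      have hm1 : m = 1 := by omega
      subst hm1
      have hF : 5 ≤ Fintype.card F := by
        by_contra hcon
        exact h1 ⟨rfl, by omega⟩
      obtain ⟨e', he'⟩ : ∃ e' : Basis (Fin t) F (Fin n → F), ∀ i, e' i ∈ D i := by
        refine ⟨e.reindex (Equiv.sigmaUnique (Fin t) (fun _ => Fin 1)), fun i => ?_⟩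
        rw [Basis.reindex_apply]
        exact he ((Equiv.sigmaUnique (Fin t) (fun _ => Fin 1)).symm i)
      have hspan : ∀ i, ∀ x ∈ D i, ∃ c : F, x = c • e' i := by
        intro i x hx
        have h3 := (finrank_eq_one_iff_of_nonzero' (⟨e' i, he' i⟩ : D i) (by
          intro h; exact e'.ne_zero i (congrArg Subtype.val h))).1 (hD.finrank_eq i) ⟨x, hx⟩
        obtain ⟨c, hc⟩ := h3
        exact ⟨c, (congrArg Subtype.val hc).symm⟩
      have hmo : ∀ (σ : Equiv.Perm (Fin t)) (c : Fin t → Fˣ), ∀ i, ∀ x ∈ D i, mo e' σ c x ∈ D (σ i) := by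
        intro σ c i x hx
        obtain ⟨d, rfl⟩ := hspan i x hx
        rw [LinearEquiv.map_smul, mo_apply]
        exact Submodule.smul_mem _ _ (Submodule.smul_mem _ _ (he' _))
      refine Cfsg.Agent.Lib.SLMono3H94.main e' hF ?_ ?_ hMdet ?_
      · rw [Fintype.card_fin]; omega
      · intro σ c hc
        exact hmem' _ σ (by rw [mo_det]; exact hc) (hmo σ c)
      · obtain ⟨x, hx, hxD⟩ := hex'
        refine ⟨x, hx, ?_⟩
        rintro ⟨σ, c, rfl⟩
        exact hxD ⟨σ, map_of_mem hD (hmo σ c)⟩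
    · -- m ≥ 2
      have hq : m = 2 → ∃ δ : F, δ ≠ 0 ∧ δ ≠ 1 := by
        intro hmm
        have h3 : 2 < Fintype.card F := by
          have h4 := Fintype.one_lt_card (α := F)
          rcases Nat.lt_or_ge 2 (Fintype.card F) with h5 | h5
          · exact h5
          · exact absurd ⟨hmm, by omega⟩ h2
        by_contra hcon
        push Not at hcon
        have h4 : (Finset.univ : Finset F) ⊆ {0, 1} := by
          intro x _
          by_cases hx : x = 0
          · simp [hx]
          · simp [hcon x hx]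
        have h5 := Finset.card_le_card h4
        rw [Finset.card_univ] at h5
        have h6 : ({0, 1} : Finset F).card ≤ 2 := Finset.card_le_two
        omega
      refine Dec.main R ?_ ?_ ?_ hm2 hD.finrank_eq hq ?_ hex'
      · -- block transvections
        intro i v φ hv hφ hφv
        refine ⟨hφv, fun c => ?_⟩
        have h3 : φ (c • v) = 0 := by rw [map_smul, hφv, smul_zero]
        refine ⟨tr (c • v) φ h3, hmem' _ 1 (tr_det _ _ _) ?_, fun x => ?_⟩
        · intro j x hx
          rw [Equiv.Perm.one_apply, tr_apply]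
          by_cases hij : i = j
          · subst hij
            exact Submodule.add_mem _ hx (Submodule.smul_mem _ _ (Submodule.smul_mem _ _ hv))
          · rw [R.dual_zero hij hφ hx, zero_smul, add_zero]; exact hx
        · rw [tr_apply, smul_smul, mul_comm]
      · -- permutations
        intro σ
        obtain ⟨σ', hσ'⟩ : ∃ σ' : Equiv.Perm (Σ _ : Fin t, Fin m), ∀ i k, σ' ⟨i, k⟩ = ⟨σ i, k⟩ :=
          ⟨⟨fun p => ⟨σ p.1, p.2⟩, fun p => ⟨σ.symm p.1, p.2⟩, fun p => by simp, fun p => by simp⟩, fun i k => rfl⟩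
        obtain ⟨a, -⟩ : ∃ a : Σ _ : Fin t, Fin m, a = ⟨⟨0, by omega⟩, ⟨0, hm0⟩⟩ := ⟨_, rfl⟩
        obtain ⟨s, hs⟩ : ∃ s : Fˣ, (s : F) = ((Equiv.Perm.sign σ' : ℤ) : F) := by
          rcases Int.units_eq_one_or (Equiv.Perm.sign σ') with h | h
          · exact ⟨1, by rw [h]; simp⟩
          · exact ⟨-1, by rw [h]; simp⟩
        have hss : (s : F) * s = 1 := by
          rw [hs]
          rcases Int.units_eq_one_or (Equiv.Perm.sign σ') with h | h <;> rw [h] <;> simp
        obtain ⟨c, hc⟩ : ∃ c : (Σ _ : Fin t, Fin m) → Fˣ, c = fun p => if p = a then s else 1 := ⟨_, rfl⟩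
        have hmap : ∀ i, ∀ x ∈ D i, mo e σ' c x ∈ D (σ i) := by
          intro i x hx
          rw [mem_iff he R hx, map_sum]
          apply Submodule.sum_mem
          intro k _
          rw [LinearEquiv.map_smul, mo_apply, hσ']
          exact Submodule.smul_mem _ _ (Submodule.smul_mem _ _ (he ⟨σ i, k⟩))
        refine ⟨mo e σ' c, hmem' _ σ ?_ hmap, map_of_mem hD hmap⟩
        rw [mo_det, ← hs, Finset.prod_eq_single a]
        · rw [hc]; simp only [if_true]; exact hss
        · intro b _ hb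
          rw [hc]; simp only [if_neg hb, Units.val_one]
        · intro h; exact absurd (Finset.mem_univ a) h
      · -- homologies
        intro j k y y' α β δ hjk hδ hy hy' hα hβ hαy hβy
        obtain ⟨g1, hg1, hd1⟩ := exists_homology hαy hδ
        obtain ⟨g2, hg2, hd2⟩ := exists_homology hβy (inv_ne_zero hδ)
        have hα' : α y' = 0 := R.dual_zero hjk hα hy'
        have h3 : ∀ x, (g1 * g2) x = x + ((δ - 1) * α x) • y + ((δ⁻¹ - 1) * β x) • y' := by
          intro x
          rw [LinearEquiv.mul_apply, hg2, hg1, map_add, map_smul, hα', smul_zero, add_zero]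
          abel
        refine ⟨g1 * g2, hmem' _ 1 ?_ ?_, h3⟩
        · have : ((g1 * g2 : (Fin n → F) ≃ₗ[F] (Fin n → F)) : (Fin n → F) →ₗ[F] (Fin n → F)) =
              (g1 : (Fin n → F) →ₗ[F] (Fin n → F)) ∘ₗ (g2 : (Fin n → F) →ₗ[F] (Fin n → F)) := rfl
          rw [this, LinearMap.det_comp, hd1, hd2, mul_inv_cancel₀ hδ]
        · intro i x hx
          rw [Equiv.Perm.one_apply, h3]
          refine Submodule.add_mem _ (Submodule.add_mem _ hx ?_) ?_
          · by_cases hij : j = i
            · subst hij; exact Submodule.smul_mem _ _ hy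
            · rw [R.dual_zero hij hα hx, mul_zero, zero_smul]; exact Submodule.zero_mem _
          · by_cases hik : k = i
            · subst hik; exact Submodule.smul_mem _ _ hy'
            · rw [R.dual_zero hik hβ hx, mul_zero, zero_smul]; exact Submodule.zero_mem _
      · intro hmm
        rw [Fintype.card_fin]
        subst hmm
        omega


end Cfsg.Agent.Lib.LowSLImp
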