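import Cfsg.Agent.Lib.OrthBridge
import Cfsg.Agent.Lib.SLOrthH94
import Cfsg.Agent.Lib.LowOr

set_option autoImplicit false
open Cfsg

namespace Cfsg.Agent.Lib.LowSLOr

open Cfsg.Agent.Lib.Quad Cfsg.Agent.Lib.OrthBridge Cfsg.Agent.Lib.GeoBridge Cfsg.Agent.Lib.OrthMax
  Cfsg.Agent.Lib.OrthExtH94 Cfsg.Agent.Lib.OrthPoint Cfsg.Agent.Lib.SLOrthH94 QuadraticMap
open Cfsg.Agent.Lib.SLMax (tr tr_apply tr_det sl_le tr_mem_sl)


/-- For a finite field F of odd order and n ≥ 13, let Q be a non-degenerate quadratic form on F^n (its polar form is non-degenerate). Then the elements of SL_n(F) that are similarities of Q (Q(gv) = c Q(v) for a non-zero scalar c depending on g) form a maximal subgroup of SL_n(F). -/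
theorem gen {F : Type*} [Field F] [Fintype F] (n : ℕ) (hn : 6 ≤ n) (hodd : Odd (Fintype.card F)) (Q : (Fin n → F) → F) (hQ : Cfsg.Geo.IsNondegenerateQuadraticForm Q) : Cfsg.Geo.IsMaximalIn (Cfsg.Geo.specialLinear (Fin n) F) (Cfsg.Geo.quadSimilarityGroup Q ⊓ Cfsg.Geo.specialLinear (Fin n) F) := by
  have hfr : Module.finrank F (Fin n → F) = n := Module.finrank_fin_fun F
  have h2 : (2 : F) ≠ 0 := by
    intro h
    have hchar : ringChar F = 2 := by
      have h1 : ringChar F ∣ 2 := (ringChar.spec F 2).1 (by exact_mod_cast h)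
      rcases (Nat.dvd_prime Nat.prime_two).1 h1 with h3 | h3
      · exfalso
        have : CharP F 1 := h3 ▸ (inferInstance : CharP F (ringChar F))
        exact one_ne_zero (CharP.cast_eq_zero F 1 ▸ (Nat.cast_one (R := F)).symm ▸ rfl : (1 : F) = 0)
      · exact h3
    have h4 := FiniteField.even_card_of_char_two hchar
    have h5 := Nat.odd_iff.1 hodd
    omega
  have hnd : Nd (qf hQ) := nd_qf hQ
  have hgen : GenHyp (qf hQ) := Or.inr (Or.inl (by omega))
  apply isMaximalIn_of
  · refine lt_of_le_of_ne inf_le_right fun heq => ?_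
    obtain ⟨z, hz0, hz⟩ := hnd.exists_singular (by omega)
    have hdz : Module.finrank F (Submodule.span F {z}) ≤ 1 := by
      have := finrank_span_le_card (R := F) ({z} : Set (Fin n → F))
      simpa using this
    have hp := hnd.finrank_add_finrank_perp (Submodule.span F {z})
    obtain ⟨p, hp, hpz, -⟩ := exists_sing_avoid (Q := qf hQ) (perp (qf hQ) (Submodule.span F {z}))
      (Submodule.span F {z}) (by omega)
    have hzp : polar (qf hQ) z p = 0 := mem_perp_singleton.1 hp
    have h5 : le.symm (tr z (polarBilin (qf hQ) p) (by rw [← hzp]; exact polar_comm _ _ _)) ∈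
      Cfsg.Geo.specialLinear (Fin n) F := tr_mem_sl _ _ _
    rw [← heq] at h5
    obtain ⟨c, hc⟩ := (mem_quadSimilarityGroup_iff _ _).1 (Subgroup.mem_inf.1 h5).1
    simp only [MulEquiv.apply_symm_apply, tr_apply] at hc
    have hc' : ∀ v, qf hQ v + polar (qf hQ) p v * polar (qf hQ) z v = (c : F) * qf hQ v := by
      intro v
      have h6 : qf hQ (v + polar (qf hQ) p v • z) = (c : F) * qf hQ v := hc v
      rw [Q_add, Q_smul, hz, polar_smul_right, polar_comm _ v z, smul_eq_mul] at h6
      linear_combination h6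
    -- c = 1
    obtain ⟨u, hu, huz⟩ : ∃ u, polar (qf hQ) z u = 0 ∧ qf hQ u ≠ 0 := by
      by_contra hcon
      push Not at hcon
      have h7 : perp (qf hQ) (Submodule.span F {z}) ≤ perp (qf hQ) (perp (qf hQ) (Submodule.span F {z})) := by
        intro x hx
        rw [mem_perp]
        intro y hy
        rw [polar, hcon _ (mem_perp_singleton.1 (Submodule.add_mem _ hy hx)),
          hcon _ (mem_perp_singleton.1 hy), hcon _ (mem_perp_singleton.1 hx)]
        ring
      rw [hnd.perp_perp] at h7
      have := Submodule.finrank_mono h7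
      omega
    have hc1 : (c : F) = 1 := by
      have h6 := hc' u
      rw [hu, mul_zero, add_zero] at h6
      have h7 : ((c : F) - 1) * qf hQ u = 0 := by linear_combination -h6
      exact sub_eq_zero.1 ((mul_eq_zero.1 h7).resolve_right huz)
    obtain ⟨y, hy1, hy2⟩ := exists_common hnd hz0 (show p ≠ 0 by
      rintro rfl; exact hpz (Submodule.zero_mem _))
    have h6 := hc' y
    rw [hc1, one_mul, add_eq_left] at h6
    exact mul_ne_zero hy2 hy1 h6
  · intro M hHM hMK hex g hg
    have hO : Om (qf hQ) ≤ M := by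
      intro t ht
      have := hHM (le.symm t) (Subgroup.mem_inf.2 ⟨?_, ?_⟩)
      · rwa [MulEquiv.apply_symm_apply] at this
      · rw [mem_quadSimilarityGroup_iff, MulEquiv.apply_symm_apply]
        refine ⟨1, fun v => ?_⟩
        rw [Units.val_one, one_mul]
        exact Om_le ht v
      · rw [mem_specialLinear_iff, MulEquiv.apply_symm_apply]
        have h3 : Om (qf hQ) ≤ (LinearEquiv.det : ((Fin n → F) ≃ₗ[F] (Fin n → F)) →* Fˣ).ker := by
          rw [Om, Subgroup.commutator_le]
          intro a _ b _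
          rw [MonoidHom.mem_ker, map_commutatorElement, commutatorElement_eq_one_iff_mul_comm]
          exact mul_comm _ _
        have h4 : LinearEquiv.det t = 1 := h3 ht
        rw [← LinearEquiv.coe_det, h4, Units.val_one]
    obtain ⟨x, hx, hxH⟩ := hex
    refine sl_le M (Cfsg.Agent.Lib.LowOr.all_tr_mem (Q := qf hQ) h2 hnd hgen (by omega) hO hx ?_) g hg
    rintro ⟨c, hc⟩
    apply hxH
    have hQc : ∀ v, Q (le x v) = c * Q v := by
      intro v
      have h3 := hc v v
      rw [polar_self', polar_self'] at h3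
      have h4 : 2 * (qf hQ (le x v) - c * qf hQ v) = 0 := by linear_combination h3
      exact sub_eq_zero.1 ((mul_eq_zero.1 h4).resolve_left h2)
    have hc0 : c ≠ 0 := by
      rintro rfl
      obtain ⟨z, hz0, -⟩ := hnd.exists_singular (by omega)
      have h5 : le x z = 0 := by
        apply hnd.eq_zero
        intro y
        obtain ⟨y, rfl⟩ := (le x).surjective y
        rw [hc, zero_mul]
      exact hz0 ((le x).injective (by rw [h5, map_zero]))
    exact Subgroup.mem_inf.2 ⟨⟨Units.mk0 c hc0, fun v => hQc v⟩, hMK x hx⟩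

end Cfsg.Agent.Lib.LowSLOr
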