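import Mathlib
import Cfsg.Agent.Lib.DkSubMax
import Cfsg.Agent.Lib.DkOdd

/-!
# The rank two lemma for subfield overgroups (helper98)

Let `F / F₀` be of prime degree, `Λ` a large `F₀`-subspace of `F`. A subgroup of `SL_2(F)` containing the upper
unitriangular matrices with entry in `Λ` and one nontrivial lower unitriangular matrix is the whole group up to the centre.
-/

set_option autoImplicit false
set_option linter.unusedSectionVars false

namespace Cfsg.Agent.Lib.SubfRankTwo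

open Cfsg.Agent.Lib Cfsg.Agent.Lib.MobCount Cfsg.Agent.Lib.MobOct MulAction Matrix Cfsg.Agent.Lib.ClProjLine
  Cfsg.Agent.Lib.DkTorus Cfsg.Agent.Lib.DkSub Cfsg.Agent.Lib.DkMax Cfsg.Agent.Lib.DkSubMax Cfsg.Agent.Lib.ClSL2
open scoped LinearAlgebra.Projectivization MatrixGroups

variable {F : Type*} [Field F] [Fintype F]

/-- a finite additively and multiplicatively closed set is a subfield -/
theorem exists_subfield (S : Set F) (h1 : (1 : F) ∈ S) (hadd : ∀ a ∈ S, ∀ b ∈ S, a + b ∈ S) (hneg : ∀ a ∈ S, -a ∈ S)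
    (hmul : ∀ a ∈ S, ∀ b ∈ S, a * b ∈ S) : ∃ k : Subfield F, (k : Set F) = S := by
  have h0 : (0 : F) ∈ S := by
    have := hadd 1 h1 (-1) (hneg 1 h1)
    rwa [add_neg_cancel] at this
  have hpow : ∀ a ∈ S, ∀ n : ℕ, a ^ n ∈ S := by
    intro a ha n
    induction n with
    | zero => rw [pow_zero]; exact h1
    | succ n ih => rw [pow_succ]; exact hmul _ ih _ ha
  refine ⟨{ carrier := S, mul_mem' := fun {a b} ha hb => hmul a ha b hb, one_mem' := h1,
            add_mem' := fun {a b} ha hb => hadd a ha b hb, zero_mem' := h0, neg_mem' := fun {a} ha => hneg a ha,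
            inv_mem' := ?_ }, rfl⟩
  intro a ha
  by_cases ha0 : a = 0
  · rw [ha0, _root_.inv_zero]; exact h0
  · have hq : 2 ≤ Fintype.card F := Fintype.one_lt_card
    have e : a⁻¹ = a ^ (Fintype.card F - 2) := by
      have h2 : a ^ (Fintype.card F - 1) = 1 := FiniteField.pow_card_sub_one_eq_one a ha0
      have h3 : Fintype.card F - 1 = (Fintype.card F - 2) + 1 := by omega
      rw [h3, pow_succ] at h2
      exact (eq_inv_of_mul_eq_one_left h2).symm
    show a⁻¹ ∈ S
    rw [e]; exact hpow a ha _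

/-- towers: the order of a larger subfield is a power -/
theorem exists_pow_of_le {k k' : Subfield F} (h : k ≤ k') : ∃ d : ℕ, Nat.card k' = Nat.card k ^ d := by
  classical
  letI := (Subfield.inclusion h).toAlgebra
  haveI : Fintype k := Fintype.ofFinite k
  haveI : Fintype k' := Fintype.ofFinite k'
  refine ⟨Module.finrank k k', ?_⟩
  rw [Nat.card_eq_fintype_card, Nat.card_eq_fintype_card]
  exact Module.card_eq_pow_finrank

/-- no intermediate fields in prime degree -/
theorem eq_or_eq_top (F₀ k : Subfield F) (r : ℕ) (hr : r.Prime) (hcard : Fintype.card F = Nat.card F₀ ^ r) (h : F₀ ≤ k) :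
    k = F₀ ∨ k = ⊤ := by
  obtain ⟨d, hd⟩ := exists_pow_of_le h
  obtain ⟨m, hm⟩ := exists_pow_of_le (le_top : k ≤ ⊤)
  have hF : Nat.card (⊤ : Subfield F) = Fintype.card F := by
    rw [← Nat.card_eq_fintype_card]
    exact Nat.card_congr Subfield.topEquiv.toEquiv
  have h1 : 1 < Nat.card F₀ := Finite.one_lt_card
  have h2 : r = d * m := by
    apply Nat.pow_right_injective h1
    change Nat.card F₀ ^ r = Nat.card F₀ ^ (d * m)
    rw [← hcard, ← hF, hm, hd, pow_mul]
  have h3 : d = 1 ∨ d = r := (Nat.dvd_prime hr).mp ⟨m, h2⟩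
  rcases h3 with h3 | h3
  · left
    rw [h3, pow_one] at hd
    have : (F₀ : Set F) = (k : Set F) := by
      apply Set.eq_of_subset_of_ncard_le h _ (Set.toFinite _)
      rw [← Nat.card_coe_set_eq, ← Nat.card_coe_set_eq]
      exact hd.le
    exact (SetLike.coe_injective this).symm
  · right
    apply DkOdd.sub_eq_top
    rw [hd, h3, ← hcard]

theorem eq_top_of_mem (F₀ k : Subfield F) (r : ℕ) (hr : r.Prime) (hcard : Fintype.card F = Nat.card F₀ ^ r) (h : F₀ ≤ k)
    {x : F} (hx : x ∈ k) (hx0 : x ∉ F₀) : k = ⊤ := by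
  rcases eq_or_eq_top F₀ k r hr hcard h with h1 | h1
  · rw [h1] at hx; exact absurd hx hx0
  · exact h1

/-- squares in a subfield, characteristic 2 -/
theorem mem_of_sq_mem (k : Subfield F) [CharP F 2] {x : F} (h : x ^ 2 ∈ k) : x ∈ k := by
  haveI : CharP k 2 := (RingHom.charP_iff k.subtype k.subtype.injective 2).mpr inferInstance
  haveI : Fintype k := Fintype.ofFinite k
  obtain ⟨y, hy⟩ := FiniteField.isSquare_of_char_two (F := k) (by exact ringChar.eq_iff.mpr inferInstance) ⟨x ^ 2, h⟩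
  have h1 : x ^ 2 = (y : F) * y := congrArg Subtype.val hy
  have h2 : (x - y) ^ 2 = 0 := by
    rw [sub_sq, h1]
    have h3 : (2 : F) = 0 := CharP.cast_eq_zero F 2
    linear_combination (-x * (y : F) + (y : F) ^ 2) * h3
  have h3 : x = y := sub_eq_zero.mp (pow_eq_zero_iff (by norm_num) |>.mp h2)
  rw [h3]; exact y.2

/-- `(2 + s x)^2 ∈ k` for all `s ∈ F₀` implies `F₀ ≤ k` -/
theorem le_of_sq (F₀ k : Subfield F) (x : F) (hx : x ≠ 0) (h : ∀ s ∈ F₀, (2 + s * x) ^ 2 ∈ k) : F₀ ≤ k := by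
  have h4 : (4 : F) ∈ k := by
    have : (4 : F) = ((4 : ℕ) : F) := by norm_num
    rw [this]; exact natCast_mem k 4
  have hf : ∀ s ∈ F₀, 4 * s * x + s ^ 2 * x ^ 2 ∈ k := by
    intro s hs
    have e : 4 * s * x + s ^ 2 * x ^ 2 = (2 + s * x) ^ 2 - 4 := by ring
    rw [e]; exact k.sub_mem (h s hs) h4
  by_cases h2 : (2 : F) = 0
  · haveI : CharP F 2 := CharTwo.of_one_ne_zero_of_two_eq_zero one_ne_zero h2
    have hsx : ∀ s ∈ F₀, s * x ∈ k := by
      intro s hs
      apply mem_of_sq_mem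
      have h3 := hf s hs
      have e : 4 * s * x + s ^ 2 * x ^ 2 = (s * x) ^ 2 := by linear_combination (2 * s * x) * h2
      rwa [e] at h3
    have hx1 : x ∈ k := by have := hsx 1 F₀.one_mem; rwa [one_mul] at this
    intro s hs
    have h3 := k.div_mem (hsx s hs) hx1
    rwa [mul_div_assoc, div_self hx, mul_one] at h3
  · have h8 : (8 : F) ≠ 0 := by
      have : (8 : F) = 2 ^ 3 := by norm_num
      rw [this]; exact pow_ne_zero 3 h2
    have h8k : (8 : F) ∈ k := by
      have : (8 : F) = ((8 : ℕ) : F) := by norm_num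
      rw [this]; exact natCast_mem k 8
    have hsx : ∀ s ∈ F₀, s * x ∈ k := by
      intro s hs
      have h3 := k.div_mem (k.sub_mem (hf s hs) (hf (-s) (F₀.neg_mem hs))) h8k
      have e : (4 * s * x + s ^ 2 * x ^ 2 - (4 * -s * x + (-s) ^ 2 * x ^ 2)) / 8 = s * x := by
        field_simp; ring
      rwa [e] at h3
    have hx1 : x ∈ k := by have := hsx 1 F₀.one_mem; rwa [one_mul] at this
    intro s hs
    have h3 := k.div_mem (hsx s hs) hx1
    rwa [mul_div_assoc, div_self hx, mul_one] at h3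

/-- the rational trace -/
theorem tr_sq_mem (k : Subfield F) (G A : GL (Fin 2) F) (A0 : GL (Fin 2) k) (hdet : A.1.det = 1)
    (h : (Matrix.ProjGenLinGroup.mk G : PGL(Fin 2, F)) * Matrix.ProjGenLinGroup.mk A * (Matrix.ProjGenLinGroup.mk G)⁻¹ =
      Matrix.ProjGenLinGroup.map (n := Fin 2) k.subtype (Matrix.ProjGenLinGroup.mk A0)) : A.1.trace ^ 2 ∈ k := by
  rw [Matrix.ProjGenLinGroup.map_mk, ← map_mul, ← map_inv, ← map_mul] at h
  obtain ⟨c, hc, h1⟩ := smul_of_mk_eq h
  set B := (Matrix.GeneralLinearGroup.map k.subtype A0 : GL (Fin 2) F) with hB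
  have hB' : ∀ i j, B.1 i j = ((A0.1 i j : k) : F) := fun i j => rfl
  have htr : B.1.trace = c * A.1.trace := by
    rw [h1, Matrix.trace_smul, smul_eq_mul]
    congr 1
    rw [Units.val_mul, Units.val_mul, Matrix.trace_mul_cycle, ← Units.val_mul, inv_mul_cancel, Units.val_one, one_mul]
  have hd : B.1.det = c ^ 2 := by
    rw [h1, Matrix.det_smul, Fintype.card_fin, Units.val_mul, Units.val_mul, Matrix.det_mul, Matrix.det_mul, hdet, mul_one,
      ← Matrix.det_mul, ← Units.val_mul, mul_inv_cancel, Units.val_one, Matrix.det_one, mul_one]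
  have hB1 : B.1.trace ∈ k := by
    rw [Matrix.trace_fin_two, hB', hB']
    exact k.add_mem (SetLike.coe_mem _) (SetLike.coe_mem _)
  have hB2 : B.1.det ∈ k := by
    rw [Matrix.det_fin_two, hB', hB', hB', hB']
    exact k.sub_mem (k.mul_mem (SetLike.coe_mem _) (SetLike.coe_mem _)) (k.mul_mem (SetLike.coe_mem _) (SetLike.coe_mem _))
  have e : A.1.trace ^ 2 = B.1.trace ^ 2 / B.1.det := by
    rw [htr, hd]; field_simp
  rw [e]
  exact k.div_mem (k.pow_mem hB1 2) hB2

/-- the image in `PSL_2` is everything -/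
theorem map_eq_top (F₀ : Subfield F) (r : ℕ) (hr : r.Prime) (hcard : Fintype.card F = Nat.card F₀ ^ r)
    (Λ : AddSubgroup F) (hΛ : ∀ s ∈ F₀, ∀ l ∈ Λ, s * l ∈ Λ) (hbig : 60 < Nat.card Λ) (hbig2 : Nat.card F₀ < Nat.card Λ)
    (c : F) (hc : c ≠ 0) (K : Subgroup SL(2, F)) (hU : ∀ l ∈ Λ, uS l ∈ K) (hL : lS c ∈ K) :
    K.map (QuotientGroup.mk' (Subgroup.center SL(2, F))) = ⊤ := by
  obtain ⟨p, hpF⟩ := CharP.exists F
  haveI : CharP F p := hpF
  haveI hpp : Fact p.Prime := ⟨CharP.char_is_prime F p⟩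
  by_contra hH
  set H : Subgroup (P2 F) := K.map (QuotientGroup.mk' (Subgroup.center SL(2, F))) with hHdef
  have hmem : ∀ κ ∈ K, ((κ : SL(2, F)) : P2 F) ∈ H := fun κ hκ => ⟨κ, hκ, rfl⟩
  have hq : 60 < Fintype.card F := by
    rw [← Nat.card_eq_fintype_card]
    exact lt_of_lt_of_le hbig (Nat.card_le_card_of_injective _ Λ.subtype_injective)
  -- `Λ` embeds
  have htP : ∀ a : F, tP F ((uS a : SL(2, F)) : P2 F) = tG a := by
    intro a
    rw [tP, ProjectiveSpecialLinearGroup.toPGL_mk, toGL_uS]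
    rfl
  let j : Multiplicative Λ →* H :=
    { toFun := fun a => ⟨((uS (a.toAdd : F) : SL(2, F)) : P2 F), hmem _ (hU _ a.toAdd.2)⟩
      map_one' := by
        apply Subtype.ext
        apply tP_inj
        change tP F ((uS ((0 : Λ) : F) : SL(2, F)) : P2 F) = tP F 1
        rw [htP, map_one]
        exact tG_zero
      map_mul' := by
        intro a b
        apply Subtype.ext
        apply tP_inj
        change tP F ((uS ((a.toAdd + b.toAdd : Λ) : F) : SL(2, F)) : P2 F) = tP F (((uS (a.toAdd : F) : SL(2, F)) : P2 F) * ((uS (b.toAdd : F) : SL(2, F)) : P2 F))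
        rw [map_mul, htP, htP, htP]
        exact tG_add _ _ }
  have hj : Function.Injective j := by
    intro a b hab
    have h1 := congrArg (fun z : H => tP F (z : P2 F)) hab
    have h2 : tG (a.toAdd : F) = tG (b.toAdd : F) := by
      rw [← htP, ← htP]; exact h1
    exact Subtype.ext (tG_inj h2)
  have hdvd : Nat.card Λ ∣ Nat.card H := by
    have := Subgroup.card_dvd_of_injective j hj
    exact this
  obtain ⟨n, hn0, hn⟩ := ClSLn.exists_card_eq_pow (F := F) p
  obtain ⟨a, ha, hΛa⟩ : ∃ a ≤ n, Nat.card Λ = p ^ a := by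
    have h1 : Nat.card Λ ∣ p ^ n := by
      rw [← hn, ← Nat.card_eq_fintype_card]
      exact AddSubgroup.card_addSubgroup_dvd_card Λ
    exact (Nat.dvd_prime_pow hpp.out).mp h1
  have ha0 : a ≠ 0 := by rintro rfl; rw [pow_zero] at hΛa; omega
  have hpH : p ∣ Nat.card H := (dvd_pow_self p ha0).trans (by rw [← hΛa]; exact hdvd)
  have hle := Nat.le_of_dvd Nat.card_pos hdvd
  obtain ⟨l₀, hl₀, hl₀0⟩ : ∃ l₀ ∈ Λ, l₀ ≠ 0 := by
    by_contra hcon
    push Not at hcon
    have : Λ = ⊥ := (AddSubgroup.eq_bot_iff_forall _).mpr hcon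
    rw [this, AddSubgroup.card_bot] at hbig
    omega
  rcases psl_cases (F := F) rfl p H hH with ⟨_, h, _⟩ | ⟨C, _, _, hpC, hcC, _, _, _⟩ | ⟨_, h, _⟩ | ⟨_, h, _⟩ | ⟨_, h, _⟩ | ⟨_, x, hx⟩ | ⟨g, k, m, hm, hk, h⟩
  · exact h hpH
  · rw [hcC, hΛa] at hdvd
    have h1 : Nat.Coprime (p ^ a) (Nat.card C) := Nat.Coprime.pow_left a ((Nat.Prime.coprime_iff_not_dvd hpp.out).mpr hpC)
    have h2 := Nat.le_of_dvd (by norm_num) (h1.dvd_of_dvd_mul_right hdvd)
    rw [← hΛa] at h2
    omega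
  · omega
  · omega
  · omega
  · have h1 : tG l₀ • x = x := by
      rw [← htP, toPGL_smul]
      exact hx (hmem _ (hU _ hl₀))
    have h2 : (Matrix.ProjGenLinGroup.mk (SpecialLinearGroup.toGL (lS c)) : PGL(Fin 2, F)) • x = x := by
      have h3 : tP F ((lS c : SL(2, F)) : P2 F) • x = x := by
        rw [toPGL_smul]
        exact hx (hmem _ hL)
      rw [tP, ProjectiveSpecialLinearGroup.toPGL_mk] at h3
      exact h3
    rcases e0_or_pt x with rfl | ⟨b, rfl⟩
    · unfold e0 at h2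
      rw [fixed_iff] at h2
      obtain ⟨l, hl⟩ := h2
      have h3 := congrFun hl 1
      have h4 : (SpecialLinearGroup.toGL (lS c) : GL (Fin 2) F).1 = !![1, 0; c, 1] := coe_lS c
      rw [h4] at h3
      simp [Matrix.mulVec, dotProduct, Fin.sum_univ_two] at h3
      exact hc h3
    · rw [tG_smul_pt] at h1
      have := pt_inj h1
      rw [add_eq_left] at this
      exact hl₀0 this
  · haveI : Fintype k := Fintype.ofFinite k
    haveI : CharP k p := (RingHom.charP_iff k.subtype k.subtype.injective p).mpr inferInstance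
    obtain ⟨b, hb0, hb⟩ := ClSLn.exists_card_eq_pow (F := k) p
    -- all traces
    have htr : ∀ κ ∈ K, (κ : Matrix (Fin 2) (Fin 2) F).trace ^ 2 ∈ k := by
      intro κ hκ
      have hin : g * tP F ((κ : SL(2, F)) : P2 F) * g⁻¹ ∈ (Matrix.ProjGenLinGroup.map (n := Fin 2) k.subtype).range := by
        rcases h with h | h
        · apply psl_le_pgl k.subtype
          rw [← h]
          exact ⟨_, ⟨_, hmem κ hκ, rfl⟩, rfl⟩
        · rw [← h]
          exact ⟨_, ⟨_, hmem κ hκ, rfl⟩, rfl⟩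
      obtain ⟨y, hy⟩ := hin
      obtain ⟨A0, rfl⟩ := Matrix.ProjGenLinGroup.mk_surjective y
      obtain ⟨G, rfl⟩ := Matrix.ProjGenLinGroup.mk_surjective g
      rw [tP, ProjectiveSpecialLinearGroup.toPGL_mk] at hy
      exact tr_sq_mem k G (SpecialLinearGroup.toGL κ) A0 κ.2 hy.symm
    have hF₀k : F₀ ≤ k := by
      apply le_of_sq F₀ k (l₀ * c) (mul_ne_zero hl₀0 hc)
      intro s hs
      have h1 := htr _ (K.mul_mem (hU _ (hΛ s hs l₀ hl₀)) hL)
      have h2 : ((uS (s * l₀) * lS c : SL(2, F)) : Matrix (Fin 2) (Fin 2) F).trace = 2 + s * (l₀ * c) := by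
        rw [Matrix.SpecialLinearGroup.coe_mul, coe_uS, coe_lS, Matrix.trace_fin_two, Matrix.mul_fin_two]
        simp
        ring
      rwa [h2] at h1
    have hMk : Nat.card H ∣ Fintype.card k * (Fintype.card k ^ 2 - 1) := by
      rcases h with h | h
      · rw [card_of_range_psl H g k h, ← card_P2 (F := k) rfl]
        exact dvd_mul_left _ _
      · rw [card_of_range_pgl H g k h, card_G2 rfl]
    have h1 : Nat.card Λ ≤ Fintype.card k := by
      have h2 := hdvd.trans hMk
      rw [hΛa] at h2 ⊢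
      have hk1 : 1 ≤ Fintype.card k ^ 2 := Nat.one_le_pow _ _ Fintype.card_pos
      have h3 : Nat.Coprime (p ^ a) (Fintype.card k ^ 2 - 1) := by
        apply Nat.Coprime.pow_left
        rw [Nat.Prime.coprime_iff_not_dvd hpp.out]
        intro h4
        have h5 : p ∣ Fintype.card k ^ 2 := by rw [hb]; exact (dvd_pow_self p hb0).trans (dvd_pow_self _ (by norm_num))
        have h6 := Nat.dvd_sub h5 h4
        have h7 : Fintype.card k ^ 2 - (Fintype.card k ^ 2 - 1) = 1 := by omega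
        rw [h7] at h6
        exact hpp.out.one_lt.ne' (Nat.dvd_one.mp h6)
      exact Nat.le_of_dvd Fintype.card_pos (h3.dvd_of_dvd_mul_right h2)
    rcases eq_or_eq_top F₀ k r hr hcard hF₀k with h2 | h2
    · rw [← Nat.card_eq_fintype_card, h2] at h1
      omega
    · have h3 : Nat.card k = Fintype.card F := by
        rw [h2, ← Nat.card_eq_fintype_card]
        exact Nat.card_congr Subfield.topEquiv.toEquiv
      have h4 : 1 < Nat.card k := Finite.one_lt_card
      rw [← h3] at hk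
      have h5 : Nat.card k ^ 1 < Nat.card k ^ m := Nat.pow_lt_pow_right h4 (by omega)
      rw [hk, pow_one] at h5
      exact lt_irrefl _ h5

/-- **the rank two lemma** -/
theorem rank_two (F₀ : Subfield F) (r : ℕ) (hr : r.Prime) (hcard : Fintype.card F = Nat.card F₀ ^ r)
    (Λ : AddSubgroup F) (hΛ : ∀ s ∈ F₀, ∀ l ∈ Λ, s * l ∈ Λ) (hbig : 60 < Nat.card Λ) (hbig2 : Nat.card F₀ < Nat.card Λ)
    (c : F) (hc : c ≠ 0) (K : Subgroup SL(2, F)) (hU : ∀ l ∈ Λ, uS l ∈ K) (hL : lS c ∈ K) (κ : SL(2, F)) :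
    ∃ κ' ∈ K, ∃ ε : F, ε ^ 2 = 1 ∧ (κ' : Matrix (Fin 2) (Fin 2) F) = ε • (κ : Matrix (Fin 2) (Fin 2) F) := by
  have h := map_eq_top F₀ r hr hcard Λ hΛ hbig hbig2 c hc K hU hL
  have h1 : ((κ : SL(2, F)) : P2 F) ∈ K.map (QuotientGroup.mk' (Subgroup.center SL(2, F))) := by rw [h]; trivial
  obtain ⟨κ', hκ', h2⟩ := h1
  have h3 : (κ' : P2 F) = (κ : P2 F) := h2
  rw [QuotientGroup.eq] at h3
  rw [Matrix.SpecialLinearGroup.mem_center_iff] at h3
  obtain ⟨z, hz, hz2⟩ := h3
  rw [Fintype.card_fin] at hz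
  -- κ'⁻¹ κ = z, so κ' = z⁻¹ κ
  have hz0 : z ≠ 0 := by rintro rfl; norm_num at hz
  refine ⟨κ', hκ', z⁻¹, by rw [inv_pow, hz, inv_one], ?_⟩
  have h4 : (κ : Matrix (Fin 2) (Fin 2) F) = (κ' : Matrix (Fin 2) (Fin 2) F) * ((κ'⁻¹ * κ : SL(2, F)) : Matrix (Fin 2) (Fin 2) F) := by
    rw [← Matrix.SpecialLinearGroup.coe_mul, mul_inv_cancel_left]
  rw [← hz2] at h4
  rw [h4]
  ext i j
  simp [Matrix.scalar_apply, Matrix.mul_diagonal]
  field_simp

end Cfsg.Agent.Lib.SubfRankTwo
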