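import Mathlib
import Cfsg.Agent.Lib.OrthMax
import Cfsg.Agent.Lib.QuadTrans
import Cfsg.Agent.Lib.SubfRankTwo

/-!
# Overgroups of `Ω(V₀)` in `Ω(V)`, `V = F ⊗ V₀`: rational structure (dimension at least 7, after helper98)
-/

set_option autoImplicit false
set_option linter.unusedSectionVars false

namespace Cfsg.Agent.Lib.LowSubOm

open Cfsg.Agent.Lib QuadraticMap Module Cfsg.Agent.Lib.Quad Cfsg.Agent.Lib.OrthMax

variable {F V : Type*} [Field F] [Finite F] [AddCommGroup V] [Module F V] [FiniteDimensional F V]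

/-- an `F₀`-structure `V0` on the quadratic space `V` on which the form is `F₀`-valued -/
structure OrF (Q : QuadraticForm F V) (F₀ : Subfield F) (V0 : Submodule F₀ V) : Prop where
  form : ∀ x ∈ V0, Q x ∈ F₀
  span : Submodule.span F (V0 : Set V) = ⊤
  nd : Nd Q
  fin : Module.Finite F₀ V0
  dim : 7 ≤ finrank F₀ V0

variable {Q : QuadraticForm F V} {F₀ : Subfield F} {V0 : Submodule F₀ V}

/-- the overgroup -/
structure Hyp (Q : QuadraticForm F V) (F₀ : Subfield F) (V0 : Submodule F₀ V) (M : Subgroup (V ≃ₗ[F] V)) : Prop where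
  le : M ≤ O Q
  mem : ∀ z ∈ V0, ∀ y ∈ V0, Q z = 0 → polar Q z y = 0 → SI Q M z y

omit [FiniteDimensional F V] in
theorem finrank_span_le (F₀ : Subfield F) {n : ℕ} (us : Fin n → V) :
    finrank F₀ (Submodule.span F₀ (Set.range us)) ≤ n := by
  have := finrank_range_le_card (R := F₀) us
  rwa [Fintype.card_fin] at this

namespace OrF

variable (S : OrF Q F₀ V0)
include S

theorem smul_mem {c : F} (hc : c ∈ F₀) {x : V} (hx : x ∈ V0) : c • x ∈ V0 := V0.smul_mem (⟨c, hc⟩ : F₀) hx

theorem polar_mem {x y : V} (hx : x ∈ V0) (hy : y ∈ V0) : polar Q x y ∈ F₀ :=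
  F₀.sub_mem (F₀.sub_mem (S.form _ (V0.add_mem hx hy)) (S.form _ hx)) (S.form _ hy)

theorem nd0 {x : V} (hx : x ≠ 0) : ∃ y ∈ V0, polar Q x y ≠ 0 := by
  by_contra hcon
  push Not at hcon
  apply hx
  apply S.nd.eq_zero
  intro y
  have h1 : Submodule.span F (V0 : Set V) ≤ LinearMap.ker (polarBilin Q x) := by
    rw [Submodule.span_le]
    intro z hz
    exact hcon z hz
  have h2 : y ∈ LinearMap.ker (polarBilin Q x) := h1 (by rw [S.span]; trivial)
  exact h2

/-- the restricted form -/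
def Q0 : QuadraticForm F₀ V0 where
  toFun x := ⟨Q x, S.form _ x.2⟩
  toFun_smul a x := by
    apply Subtype.ext
    change Q ((a : F) • (x : V)) = (a : F) * a * Q x
    rw [Q_smul]
  exists_companion' := ⟨LinearMap.mk₂ F₀ (fun x y => (⟨polar Q (x : V) y, S.polar_mem x.2 y.2⟩ : F₀))
      (fun x y z => Subtype.ext (polar_add_left _ _ _ _))
      (fun c x y => Subtype.ext (polar_smul_left Q (c : F) (x : V) (y : V)))
      (fun x y z => Subtype.ext (polar_add_right _ _ _ _))
      (fun c x y => Subtype.ext (polar_smul_right Q (c : F) (x : V) (y : V))),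
    fun x y => by
      apply Subtype.ext
      change Q ((x : V) + y) = Q x + Q y + polar Q (x : V) y
      rw [Q_add]⟩

theorem Q0_coe (x : V0) : ((S.Q0 x : F₀) : F) = Q x := rfl

theorem polar_Q0 (x y : V0) : ((polar S.Q0 x y : F₀) : F) = polar Q (x : V) y := rfl

theorem ndQ0 : Nd S.Q0 := by
  apply nd_of
  intro x hx
  by_contra hne
  obtain ⟨y, hy, hxy⟩ := S.nd0 (x := (x : V)) (by simpa using hne)
  apply hxy
  rw [← S.polar_Q0 x ⟨y, hy⟩, hx]; rfl

theorem finite : Finite V0 := by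
  have := S.fin
  exact Module.finite_of_finite F₀

/-- every `F₀`-linear functional of `V0` is given by the form -/
theorem exists_rep (φ : V0 →ₗ[F₀] F₀) : ∃ u ∈ V0, ∀ x : V0, polar Q (x : V) u = (φ x : F₀) := by
  have := S.fin
  have : Finite V0 := S.finite
  have : Finite (Module.Dual F₀ V0) := Module.finite_of_finite F₀
  have : Fintype V0 := Fintype.ofFinite _
  have : Fintype (Module.Dual F₀ V0) := Fintype.ofFinite _
  have : Fintype F₀ := Fintype.ofFinite _
  let T : V0 → Module.Dual F₀ V0 := fun u => polarBilin S.Q0 u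
  have hinj : Function.Injective T := by
    intro u u' h
    apply Subtype.ext
    by_contra hne
    obtain ⟨y, hy, hy'⟩ := S.nd0 (x := (u : V) - u') (sub_ne_zero.mpr hne)
    apply hy'
    have h1 := LinearMap.congr_fun h ⟨y, hy⟩
    have h2 : polar Q (u : V) y = polar Q (u' : V) y := congrArg Subtype.val h1
    rw [polar_sub_left, h2, sub_self]
  have hbij : Function.Bijective T := by
    rw [Fintype.bijective_iff_injective_and_card]
    refine ⟨hinj, ?_⟩
    rw [Module.card_eq_pow_finrank (K := F₀) (V := V0), Module.card_eq_pow_finrank (K := F₀) (V := Module.Dual F₀ V0),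
      Subspace.dual_finrank_eq]
  obtain ⟨u, hu⟩ := hbij.2 φ
  exact ⟨u, u.2, fun x => by rw [polar_comm, ← hu]; rfl⟩

/-- `V0` is its own dual -/
theorem mem_of_dual {x : V} (h : ∀ y ∈ V0, polar Q x y ∈ F₀) : x ∈ V0 := by
  let φ : V0 →ₗ[F₀] F₀ :=
    { toFun := fun y => ⟨polar Q x y, h _ y.2⟩
      map_add' := by intro y z; exact Subtype.ext (polar_add_right _ _ _ _)
      map_smul' := by intro c y; exact Subtype.ext (polar_smul_right Q (c : F) x (y : V)) }
  obtain ⟨u, hu, h1⟩ := S.exists_rep φ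
  have h2 : x - u = 0 := by
    by_contra hne
    obtain ⟨y, hy, hy2⟩ := S.nd0 hne
    apply hy2
    rw [polar_sub_left, polar_comm Q u y, h1 ⟨y, hy⟩]
    exact sub_self _
  rw [sub_eq_zero.mp h2]; exact hu

/-- a rational vector orthogonal to `W` and with product one with `w ∉ W` -/
theorem exists_sep {W : Submodule F₀ V} {w : V} (hw : w ∈ V0) (hwW : w ∉ W) :
    ∃ u ∈ V0, (∀ x ∈ W, x ∈ V0 → polar Q x u = 0) ∧ polar Q w u = 1 := by
  have h1 : (⟨w, hw⟩ : V0) ∉ W.comap V0.subtype := hwW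
  obtain ⟨φ, hφ, hφ2⟩ := Submodule.exists_le_ker_of_notMem h1
  obtain ⟨u, hu, hu2⟩ := S.exists_rep ((φ ⟨w, hw⟩)⁻¹ • φ)
  refine ⟨u, hu, ?_, ?_⟩
  · intro x hx hx0
    rw [hu2 ⟨x, hx0⟩]
    have : φ ⟨x, hx0⟩ = 0 := hφ2 hx
    rw [LinearMap.smul_apply, this, smul_zero]; rfl
  · rw [hu2 ⟨w, hw⟩, LinearMap.smul_apply, smul_eq_mul, inv_mul_cancel₀ hφ]; rfl

/-- dimension of the perp of a few rational vectors inside a subspace -/
theorem finrank_perp {K : Submodule F₀ V} (hK : K ≤ V0) {j : ℕ} (us : Fin j → V) (hus : ∀ i, us i ∈ V0) :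
    ∃ K' : Submodule F₀ V, K' ≤ K ∧ (∀ x, x ∈ K' ↔ x ∈ K ∧ ∀ i, polar Q x (us i) = 0) ∧
      finrank F₀ K ≤ finrank F₀ K' + j := by
  have := S.fin
  let L : K →ₗ[F₀] (Fin j → F₀) :=
    { toFun := fun x i => ⟨polar Q (x : V) (us i), S.polar_mem (hK x.2) (hus i)⟩
      map_add' := by intro x y; ext i; exact polar_add_left _ _ _ _
      map_smul' := by intro c x; ext i; exact polar_smul_left Q (c : F) (x : V) (us i) }
  have : Module.Finite F₀ K := Module.Finite.of_injective (Submodule.inclusion hK) (Submodule.inclusion_injective hK)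
  refine ⟨(LinearMap.ker L).map K.subtype, ?_, ?_, ?_⟩
  · rintro _ ⟨x, _, rfl⟩; exact x.2
  · intro x
    constructor
    · rintro ⟨y, hy, rfl⟩
      refine ⟨y.2, fun i => ?_⟩
      have := congrFun (LinearMap.mem_ker.mp hy) i
      exact congrArg Subtype.val this
    · rintro ⟨hx, h⟩
      refine ⟨⟨x, hx⟩, ?_, rfl⟩
      rw [SetLike.mem_coe, LinearMap.mem_ker]
      ext i
      exact h i
  · have h1 := LinearMap.finrank_range_add_finrank_ker L
    have h2 : finrank F₀ (LinearMap.range L) ≤ j := by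
      have := Submodule.finrank_le (LinearMap.range L)
      rwa [finrank_fin_fun] at this
    have h3 : finrank F₀ ((LinearMap.ker L).map K.subtype) = finrank F₀ (LinearMap.ker L) :=
      (Submodule.equivMapOfInjective _ K.injective_subtype _).finrank_eq.symm
    omega

/-- singular vectors in subspaces of dimension at least three -/
theorem exists_sing {K : Submodule F₀ V} (hK : K ≤ V0) (h3 : 3 ≤ finrank F₀ K) :
    ∃ x ∈ K, x ≠ 0 ∧ Q x = 0 := by
  have := S.fin
  have : Module.Finite F₀ K := Module.Finite.of_injective (Submodule.inclusion hK) (Submodule.inclusion_injective hK)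
  let QK : QuadraticForm F₀ K := S.Q0.comp (Submodule.inclusion hK)
  have hQK : ∀ x : K, ((QK x : F₀) : F) = Q x := fun x => rfl
  have hpK : ∀ x y : K, ((polar QK x y : F₀) : F) = polar Q (x : V) y := fun x y => rfl
  have key : (∃ z : K, z ≠ 0 ∧ QK z = 0) → ∃ x ∈ K, x ≠ 0 ∧ Q x = 0 := by
    rintro ⟨z, hz, h⟩
    exact ⟨z, z.2, by simpa using hz, by rw [← hQK, h]; rfl⟩
  apply key
  by_cases hnd : Nd QK
  · exact hnd.exists_singular h3
  rw [nd_iff] at hnd
  push Not at hnd
  obtain ⟨x, hx, hx0⟩ := hnd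
  by_cases h2 : (2 : F₀) = 0
  · have hnot : ¬ (⊤ : Submodule F₀ K) ≤ F₀ ∙ x := by
      intro hle
      have h4 := Submodule.finrank_mono hle
      rw [finrank_top, finrank_span_singleton hx0] at h4
      omega
    obtain ⟨w, _, hw⟩ := Set.not_subset.1 hnot
    exact exists_singular_of_two_eq_zero h2 QK hx0 hw (hx w)
  · refine ⟨x, hx0, ?_⟩
    have h4 := hx x
    rw [polar_self'] at h4
    exact (mul_eq_zero.mp h4).resolve_left h2

/-- singular vectors of `K` outside `L` -/
theorem exists_sing_off {K L : Submodule F₀ V} (hK : K ≤ V0) (hL : Module.Finite F₀ L)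
    (h3 : finrank F₀ L + 3 ≤ finrank F₀ K) :
    ∃ x ∈ K, x ∉ L ∧ x ≠ 0 ∧ Q x = 0 := by
  have := S.fin
  have : Module.Finite F₀ K := Module.Finite.of_injective (Submodule.inclusion hK) (Submodule.inclusion_injective hK)
  obtain ⟨C, hC⟩ := Submodule.exists_isCompl (L.comap K.subtype)
  have hLc : finrank F₀ (L.comap K.subtype) ≤ finrank F₀ L := by
    have h1 : finrank F₀ (L.comap K.subtype) = finrank F₀ ((L.comap K.subtype).map K.subtype) :=
      (Submodule.equivMapOfInjective _ K.injective_subtype _).finrank_eq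
    rw [h1]
    apply Submodule.finrank_mono
    rintro _ ⟨y, hy, rfl⟩
    exact hy
  have hCf : finrank F₀ (L.comap K.subtype) + finrank F₀ C = finrank F₀ K :=
    Submodule.finrank_add_eq_of_isCompl hC
  obtain ⟨x, hx, hx0, hxx⟩ := S.exists_sing (K := C.map K.subtype) (by
    rintro _ ⟨y, _, rfl⟩; exact hK y.2) (by
    have h3 : finrank F₀ (C.map K.subtype) = finrank F₀ C :=
      (Submodule.equivMapOfInjective _ K.injective_subtype _).finrank_eq.symm
    omega)
  obtain ⟨y, hyC, rfl⟩ := hx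
  refine ⟨y, y.2, ?_, hx0, hxx⟩
  intro h
  have h1 : y ∈ (L.comap K.subtype) ⊓ C := ⟨h, hyC⟩
  rw [hC.inf_eq_bot] at h1
  exact hx0 (by rw [(Submodule.mem_bot F₀).mp h1]; rfl)

/-- a singular rational vector orthogonal to and independent of a few rational vectors -/
theorem exists_sing_perp {n : ℕ} (hn : n ≤ 2) (us : Fin n → V) (hus : ∀ i, us i ∈ V0) :
    ∃ x ∈ V0, x ≠ 0 ∧ Q x = 0 ∧ (∀ i, polar Q (us i) x = 0) ∧ x ∉ Submodule.span F₀ (Set.range us) := by
  have hd := S.dim
  obtain ⟨K, hK, hK2, hK3⟩ := S.finrank_perp (K := V0) le_rfl us hus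
  have h1 := finrank_span_le F₀ us
  obtain ⟨x, hx, hxL, hx0, hxx⟩ := S.exists_sing_off (K := K) (L := Submodule.span F₀ (Set.range us)) hK
    (Module.Finite.span_of_finite F₀ (Set.finite_range us)) (by omega)
  exact ⟨x, hK hx, hx0, hxx, fun i => by rw [polar_comm]; exact ((hK2 x).mp hx).2 i, hxL⟩

/-- a singular partner of `e`, orthogonal to a few vectors -/
theorem exists_partner {e : V} (he : e ∈ V0) (hQe : Q e = 0) {n : ℕ} (us : Fin n → V) (hus : ∀ i, us i ∈ V0)
    (hperp : ∀ i, polar Q (us i) e = 0) (heL : e ∉ Submodule.span F₀ (Set.range us)) :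
    ∃ f ∈ V0, Q f = 0 ∧ polar Q e f = 1 ∧ ∀ i, polar Q (us i) f = 0 := by
  obtain ⟨y, hy, h1, h2⟩ := S.exists_sep he heL
  obtain ⟨h3, h4⟩ := adjust_singular hQe h2
  refine ⟨y - Q y • e, V0.sub_mem hy (S.smul_mem (S.form _ hy) he), h3, h4, fun i => ?_⟩
  rw [polar_sub_right, polar_smul_right, hperp i, smul_zero, sub_zero]
  exact h1 _ (Submodule.subset_span ⟨i, rfl⟩) (hus i)

/-- singular vectors span every subspace containing a hyperbolic pair -/
theorem sing_span {P T : Submodule F₀ V} (hP : P ≤ V0) {e f : V} (he : e ∈ P) (hf : f ∈ P) (hQe : Q e = 0)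
    (hQf : Q f = 0) (hef : polar Q e f = 1) (hT : ∀ z ∈ P, Q z = 0 → z ∈ T) : P ≤ T := by
  intro y hy
  have psm : ∀ {c : F}, c ∈ F₀ → ∀ {x : V}, x ∈ P → c • x ∈ P := fun {c} hc {x} hx => P.smul_mem (⟨c, hc⟩ : F₀) hx
  have tsm : ∀ {c : F}, c ∈ F₀ → ∀ {x : V}, x ∈ T → c • x ∈ T := fun {c} hc {x} hx => T.smul_mem (⟨c, hc⟩ : F₀) hx
  obtain ⟨y', hy'⟩ : ∃ y', y' = y - polar Q f y • e - polar Q e y • f := ⟨_, rfl⟩
  have c1 : polar Q f y ∈ F₀ := S.polar_mem (hP hf) (hP hy)
  have c2 : polar Q e y ∈ F₀ := S.polar_mem (hP he) (hP hy)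
  have hy'P : y' ∈ P := by
    rw [hy']
    exact P.sub_mem (P.sub_mem hy (psm c1 he)) (psm c2 hf)
  have h1 : polar Q e y' = 0 := by
    rw [hy', polar_sub_right, polar_sub_right, polar_smul_right, polar_smul_right, polar_self',
      hQe, hef]; simp
  have h2 : polar Q f y' = 0 := by
    rw [hy', polar_sub_right, polar_sub_right, polar_smul_right, polar_smul_right, polar_self',
      hQf, polar_comm Q f e, hef]; simp
  have h3 : Q (f + y' - Q y' • e) = 0 := by
    rw [Q_sub, Q_add, Q_smul, hQf, hQe, h2, polar_smul_right, polar_add_left,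
      polar_comm Q f e, hef, polar_comm Q y' e, h1]
    simp
  have hQy' : Q y' ∈ F₀ := S.form _ (hP hy'P)
  have h4 := hT _ (P.sub_mem (P.add_mem hf hy'P) (psm hQy' he)) h3
  have he' := hT e he hQe
  have hf' := hT f hf hQf
  have e1 : y = (f + y' - Q y' • e) - f + Q y' • e + polar Q f y • e + polar Q e y • f := by
    rw [hy']; abel
  rw [e1]
  exact T.add_mem (T.add_mem (T.add_mem (T.sub_mem h4 hf') (tsm hQy' he')) (tsm c1 he')) (tsm c2 hf')

/-- the rational singular vectors span `V0` -/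
theorem sing_span_top {T : Submodule F₀ V} (hT : ∀ z ∈ V0, Q z = 0 → z ∈ T) : V0 ≤ T := by
  obtain ⟨e, he, he0, hQe, -, h1⟩ := S.exists_sing_perp (n := 0) (by omega) ![] (fun i => i.elim0)
  obtain ⟨f, hf, hQf, hef, -⟩ := S.exists_partner he hQe ![] (fun i => i.elim0) (fun i => i.elim0) h1
  exact S.sing_span le_rfl he hf hQe hQf hef hT

omit [Finite F] [FiniteDimensional F V] S in
theorem polar_of_ts {W : Submodule F₀ V} (hW : ∀ x ∈ W, Q x = 0) {x y : V} (hx : x ∈ W) (hy : y ∈ W) :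
    polar Q x y = 0 := by
  rw [polar, hW _ (W.add_mem hx hy), hW _ hx, hW _ hy]; ring

/-- a singular vector orthogonal to two orthogonal hyperbolic pairs -/
theorem exists_sing_pairs {z z' w w' : V} (hz : z ∈ V0) (hz' : z' ∈ V0) (hw : w ∈ V0) (hw' : w' ∈ V0) (hzz' : polar Q z z' = 1)
    (hww' : polar Q w w' = 1) (hzw' : polar Q z w' = 0) (hwz' : polar Q w z' = 0) :
    ∃ x ∈ V0, x ≠ 0 ∧ Q x = 0 ∧ polar Q z x = 0 ∧ polar Q z' x = 0 ∧ polar Q w x = 0 ∧ polar Q w' x = 0 ∧
      x ∉ Submodule.span F₀ (Set.range ![z, w]) := by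
  have hd := S.dim
  have m4 : ∀ i, (![z, z', w, w'] : Fin 4 → V) i ∈ V0 := by
    intro i; fin_cases i
    · exact hz
    · exact hz'
    · exact hw
    · exact hw'
  obtain ⟨K, hK, hK2, hK3⟩ := S.finrank_perp (K := V0) le_rfl ![z, z', w, w'] m4
  obtain ⟨x, hx, hx0, hxx⟩ := S.exists_sing (K := K) hK (by omega)
  have h1 := ((hK2 x).mp hx).2
  have a1 : polar Q x z = 0 := h1 0
  have a2 : polar Q x z' = 0 := h1 1
  have a3 : polar Q x w = 0 := h1 2
  have a4 : polar Q x w' = 0 := h1 3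
  refine ⟨x, hK hx, hx0, hxx, by rw [polar_comm]; exact a1, by rw [polar_comm]; exact a2, by rw [polar_comm]; exact a3,
    by rw [polar_comm]; exact a4, ?_⟩
  intro hs
  have hr2 : Set.range ![z, w] = {z, w} := by simp [Matrix.range_cons, Matrix.range_empty, Set.pair_comm]
  rw [hr2] at hs
  obtain ⟨a, b, rfl⟩ := Submodule.mem_span_pair.mp hs
  have e0 : ∀ (c : F₀) (x : V), c • x = (c : F) • x := fun _ _ => rfl
  rw [e0, e0, polar_add_left, polar_smul_left, polar_smul_left, hzz', hwz', smul_zero, add_zero, smul_eq_mul, mul_one] at a2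
  rw [e0, e0, polar_add_left, polar_smul_left, polar_smul_left, hww', hzw', smul_zero, zero_add, smul_eq_mul, mul_one] at a4
  apply hx0
  rw [e0, e0, a2, a4, zero_smul, zero_smul, add_zero]

/-- totally singular subspaces can be enlarged up to dimension 3 -/
theorem ts_step {W : Submodule F₀ V} (hW : W ≤ V0) (hQ : ∀ x ∈ W, Q x = 0) {k : ℕ} (hk : finrank F₀ W = k) (hk5 : k ≤ 2) :
    ∃ W' : Submodule F₀ V, W ≤ W' ∧ W' ≤ V0 ∧ finrank F₀ W' = k + 1 ∧ ∀ x ∈ W', Q x = 0 := by
  classical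
  have := S.fin
  have hd := S.dim
  have : Module.Finite F₀ W := Module.Finite.of_injective (Submodule.inclusion hW) (Submodule.inclusion_injective hW)
  let b := Module.finBasisOfFinrankEq F₀ W hk
  obtain ⟨K, hK, hK2, hK3⟩ := S.finrank_perp (K := V0) le_rfl (fun i : Fin k => (b i : V)) (fun i => hW (b i).2)
  have : Module.Finite F₀ K := Module.Finite.of_injective (Submodule.inclusion hK) (Submodule.inclusion_injective hK)
  have hperp : ∀ x ∈ K, ∀ y ∈ W, polar Q x y = 0 := by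
    intro x hx y hy
    have h1 : (⟨y, hy⟩ : W) ∈ Submodule.span F₀ (Set.range b) := by rw [b.span_eq]; trivial
    have h2 : ∀ y : W, y ∈ Submodule.span F₀ (Set.range b) → polar Q x (y : V) = 0 := by
      intro y hy
      induction hy using Submodule.span_induction with
      | mem y hy => obtain ⟨i, rfl⟩ := hy; exact ((hK2 x).mp hx).2 i
      | zero => exact polar_zero_right _ _
      | add y z _ _ h1 h2 => rw [Submodule.coe_add, polar_add_right, h1, h2, add_zero]
      | smul c y _ h1 =>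
        change polar Q x ((c : F) • (y : V)) = 0
        rw [polar_smul_right, h1, smul_zero]
    exact h2 _ h1
  obtain ⟨x, hxK, hxW, hx0, hxx⟩ := S.exists_sing_off (K := K) (L := W) hK inferInstance (by omega)
  refine ⟨W ⊔ Submodule.span F₀ {x}, le_sup_left, sup_le hW (by
    rw [Submodule.span_singleton_le_iff_mem]; exact hK hxK), ?_, ?_⟩
  · have hinf : W ⊓ Submodule.span F₀ {x} = ⊥ := by
      rw [Submodule.eq_bot_iff]
      rintro y ⟨hy1, hy2⟩
      obtain ⟨c, rfl⟩ := Submodule.mem_span_singleton.mp hy2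
      by_cases hc : c = 0
      · rw [hc, zero_smul]
      · exfalso
        apply hxW
        have := W.smul_mem c⁻¹ hy1
        rwa [smul_smul, inv_mul_cancel₀ hc, one_smul] at this
    have h1 := Submodule.finrank_sup_add_finrank_inf_eq W (Submodule.span F₀ {x})
    rw [hinf, finrank_bot, add_zero, hk, finrank_span_singleton hx0] at h1
    exact h1
  · intro y hy
    obtain ⟨y1, hy1, y2, hy2, rfl⟩ := Submodule.mem_sup.mp hy
    obtain ⟨c, rfl⟩ := Submodule.mem_span_singleton.mp hy2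
    have e1 : ∀ (c : F₀) (x : V), c • x = (c : F) • x := fun _ _ => rfl
    rw [e1, Q_add, Q_smul, hQ y1 hy1, hxx, polar_smul_right, polar_comm, hperp x hxK y1 hy1]
    simp

theorem ts_extend {W : Submodule F₀ V} (hW : W ≤ V0) (hQ : ∀ x ∈ W, Q x = 0) {k : ℕ} (hk : finrank F₀ W = k) (hk6 : k ≤ 3) :
    ∃ W' : Submodule F₀ V, W ≤ W' ∧ W' ≤ V0 ∧ finrank F₀ W' = 3 ∧ ∀ x ∈ W', Q x = 0 := by
  obtain ⟨d, hd⟩ : ∃ d, k + d = 3 := ⟨3 - k, by omega⟩
  induction d generalizing W k with
  | zero => exact ⟨W, le_rfl, hW, by omega, hQ⟩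
  | succ d ih =>
    obtain ⟨W1, h1, h2, h3, h4⟩ := S.ts_step hW hQ hk (by omega)
    obtain ⟨W2, g1, g2, g3, g4⟩ := ih h2 h4 h3 (by omega) (by omega)
    exact ⟨W2, h1.trans g1, g2, g3, g4⟩

end OrF

end Cfsg.Agent.Lib.LowSubOm
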