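import Mathlib
import Cfsg.Agent.Lib.LowSubOm1

/-!
# Overgroups of `Ω(V₀)` in `Ω(V)`: one nonrational Siegel element with rational centre gives everything (dimension at least 7, after helper98)
-/

set_option autoImplicit false
set_option linter.unusedSectionVars false

namespace Cfsg.Agent.Lib.LowSubOm

open Cfsg.Agent.Lib QuadraticMap Module Cfsg.Agent.Lib.Quad Cfsg.Agent.Lib.OrthMax

variable {F V : Type*} [Field F] [Finite F] [AddCommGroup V] [Module F V] [FiniteDimensional F V]
variable {Q : QuadraticForm F V} {F₀ : Subfield F} {V0 : Submodule F₀ V} {M : Subgroup (V ≃ₗ[F] V)}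

/-- the dimension of `V` -/
theorem OrF.dim_le (S : OrF Q F₀ V0) : 7 ≤ finrank F V := by
  classical
  have := S.fin
  let b := Module.finBasis F₀ V0
  have hdual : ∀ i, ∃ u ∈ V0, ∀ j, polar Q (b j : V) u = if j = i then 1 else 0 := by
    intro i
    obtain ⟨u, hu, h1⟩ := S.exists_rep (b.coord i)
    refine ⟨u, hu, fun j => ?_⟩
    rw [h1, Basis.coord_apply, Basis.repr_self, Finsupp.single_apply]
    split_ifs <;> rfl
  choose u hu hu2 using hdual
  have hli : LinearIndependent F (fun i => (b i : V)) := by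
    rw [Fintype.linearIndependent_iff]
    intro g hg i
    have h1 : polarBilin Q (u i) (∑ j, g j • (b j : V)) = 0 := by rw [hg, map_zero]
    rw [map_sum] at h1
    have h2 : ∀ j, polarBilin Q (u i) (g j • (b j : V)) = if j = i then g j else 0 := by
      intro j
      rw [map_smul, smul_eq_mul]
      change g j * polar Q (u i) (b j : V) = _
      rw [polar_comm, hu2]
      split_ifs <;> simp
    rw [Finset.sum_congr rfl (fun j _ => h2 j)] at h1
    simpa using h1
  have h1 := hli.fintype_card_le_finrank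
  rw [Fintype.card_fin] at h1
  exact S.dim.trans h1

/-! ### formulas for `SI` -/

theorem SI.congr {z y z' y' : V} (h : ∀ x, siegMap Q z y x = siegMap Q z' y' x) (hM : SI Q M z y) : SI Q M z' y' := by
  obtain ⟨g, hg, hx⟩ := hM
  exact ⟨g, hg, fun x => by rw [hx, h]⟩

/-- for singular `y` the last term disappears -/
theorem siegMap_sing {z y : V} (hy : Q y = 0) (x : V) :
    siegMap Q z y x = x + polar Q z x • y - polar Q y x • z := by
  rw [siegMap_apply, hy]; simp

/-- the dependence on the bivector -/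
theorem SI_comb {z w : V} (hz : Q z = 0) (hw : Q w = 0) (hzw : polar Q z w = 0) {a b c d s : F}
    (h : SI Q M (a • z + b • w) (s • (c • z + d • w))) : SI Q M z ((s * (a * d - b * c)) • w) := by
  apply SI.congr _ h
  intro x
  have h1 : Q (s • (c • z + d • w)) = 0 := by
    rw [Q_smul, Q_add, Q_smul, Q_smul, hz, hw, polar_smul_left, polar_smul_right, hzw]; simp
  have h2 : Q ((s * (a * d - b * c)) • w) = 0 := by rw [Q_smul, hw, mul_zero]
  rw [siegMap_sing h1, siegMap_sing h2]
  simp only [polar_add_left, polar_smul_left, smul_eq_mul]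
  module

theorem SI_swap {z w : V} (hz : Q z = 0) (hw : Q w = 0) (h : SI Q M z w) : SI Q M w (-z) := by
  apply SI.congr _ h
  intro x
  rw [siegMap_sing hw, siegMap_sing (by rw [QuadraticMap.map_neg, hz]), polar_neg_left]
  module

theorem SI_dep (z : V) (hz : Q z = 0) (c : F) : SI Q M z (c • z) := by
  refine ⟨1, M.one_mem, fun x => ?_⟩
  rw [siegMap_sing (by rw [Q_smul, hz, mul_zero]), polar_smul_left, LinearEquiv.coe_one, id, smul_smul, smul_eq_mul, mul_comm c]
  abel

/-- modifying the second vector by a multiple of the centre -/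
theorem SI_add_dep {z y : V} (hz : Q z = 0) (hy : polar Q z y = 0) (c : F) (h : SI Q M z y) : SI Q M z (y + c • z) := by
  apply SI.add hz hy (by rw [polar_smul_right, polar_self', hz]; simp) h (SI_dep z hz c)

/-- the action of a root element -/
theorem SI_root {u v : V} (hv : Q v = 0) (h : SI Q M u v) :
    ∃ g ∈ M, ∀ x, g x = x + polar Q u x • v - polar Q v x • u := by
  obtain ⟨g, hg, hx⟩ := h
  exact ⟨g, hg, fun x => by rw [hx, siegMap_sing hv]⟩

section

variable (S : OrF Q F₀ V0) (H : Hyp Q F₀ V0 M)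
include S H

/-- rational root elements -/
theorem root_mem {z w : V} (hz : z ∈ V0) (hw : w ∈ V0) (hQz : Q z = 0) (hQw : Q w = 0) (hzw : polar Q z w = 0) {c : F}
    (hc : c ∈ F₀) : ∃ g ∈ M, ∀ x, g x = x + (c * polar Q z x) • w - (c * polar Q w x) • z := by
  obtain ⟨g, hg, hx⟩ := SI_root (by rw [Q_smul, hQw, mul_zero])
    (H.mem z hz (c • w) (S.smul_mem hc hw) hQz (by rw [polar_smul_right, hzw, smul_zero]))
  refine ⟨g, hg, fun x => ?_⟩
  rw [hx, polar_smul_left, smul_smul, smul_eq_mul, mul_comm c (polar Q z x)]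

/-- `SI z y` with one application of a rational root element `SI u v` with `u, v ⊥ z` -/
theorem step_root {z y u v : V} (hz : Q z = 0) (hzy : polar Q z y = 0) (h : SI Q M z y) (hu : u ∈ V0) (hv : v ∈ V0)
    (hQu : Q u = 0) (hQv : Q v = 0) (huv : polar Q u v = 0) (hzu : polar Q z u = 0) (hzv : polar Q z v = 0) {c : F} (hc : c ∈ F₀) :
    SI Q M z ((c * polar Q u y) • v - (c * polar Q v y) • u) := by
  obtain ⟨g, hg, hx⟩ := root_mem S H hu hv hQu hQv huv hc
  have h1 := h.map hg (H.le hg)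
  have e1 : g z = z := by
    rw [hx, polar_comm Q u z, polar_comm Q v z, hzu, hzv]; simp
  have e2 : g y = y + ((c * polar Q u y) • v - (c * polar Q v y) • u) := by rw [hx]; abel
  rw [e1, e2] at h1
  have h2 : polar Q z (y + ((c * polar Q u y) • v - (c * polar Q v y) • u)) = 0 := by
    rw [polar_add_right, polar_sub_right, polar_smul_right, polar_smul_right, hzu, hzv, hzy]; simp
  have h3 := h1.sub hz h2 hzy h
  rwa [add_sub_cancel_left] at h3

/-- `SI z y` with one application of a rational Siegel element `SI u v` with `u, v ⊥ z` -/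
theorem step_sieg {z y u v : V} (hz : Q z = 0) (hzy : polar Q z y = 0) (h : SI Q M z y) (hu : u ∈ V0) (hv : v ∈ V0)
    (hQu : Q u = 0) (huv : polar Q u v = 0) (hzu : polar Q z u = 0) (hzv : polar Q z v = 0) :
    SI Q M z (polar Q u y • v - polar Q v y • u - (Q v * polar Q u y) • u) := by
  obtain ⟨g, hg, hx⟩ := H.mem u hu v hv hQu huv
  have h1 := h.map hg (H.le hg)
  have e1 : g z = z := by
    rw [hx, siegMap_apply, polar_comm Q u z, polar_comm Q v z, hzu, hzv]; simp
  have e2 : g y = y + (polar Q u y • v - polar Q v y • u - (Q v * polar Q u y) • u) := by rw [hx, siegMap_apply]; abel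
  rw [e1, e2] at h1
  have h2 : polar Q z (y + (polar Q u y • v - polar Q v y • u - (Q v * polar Q u y) • u)) = 0 := by
    rw [polar_add_right, polar_sub_right, polar_sub_right, polar_smul_right, polar_smul_right, polar_smul_right, hzu, hzv, hzy]; simp
  have h3 := h1.sub hz h2 hzy h
  rwa [add_sub_cancel_left] at h3

/-- the extra element: rational line, nonrational multiple -/
theorem exists_mult {z y : V} (hz : z ∈ V0) (hz0 : z ≠ 0) (hQz : Q z = 0) (hzy : polar Q z y = 0) (h : SI Q M z y)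
    (hy : ∀ c : F, y - c • z ∉ V0) : ∃ l : F, l ∉ F₀ ∧ ∃ w ∈ V0, w ∉ Submodule.span F₀ {z} ∧ Q w = 0 ∧ polar Q z w = 0 ∧
      SI Q M z (l • w) := by
  -- partner of `z`
  obtain ⟨z', hz', hQz', hzz', -⟩ := S.exists_partner hz hQz ![] (fun i => i.elim0) (fun i => i.elim0) (by simpa using hz0)
  have hz'z : polar Q z' z = 1 := by rw [polar_comm]; exact hzz'
  have hzz : polar Q z z = 0 := by rw [polar_self', hQz, mul_zero]
  have hz'z' : polar Q z' z' = 0 := by rw [polar_self', hQz', mul_zero]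
  set y₁ := y - polar Q z' y • z with hy₁
  have a1 : polar Q z y₁ = 0 := by rw [hy₁, polar_sub_right, polar_smul_right, hzz, hzy]; simp
  have a2 : polar Q z' y₁ = 0 := by rw [hy₁, polar_sub_right, polar_smul_right, hz'z]; simp
  have h1 : SI Q M z y₁ := by
    have := SI_add_dep hQz hzy (-polar Q z' y) h
    rwa [neg_smul, ← sub_eq_add_neg] at this
  have hy₁0 : y₁ ∉ V0 := hy _
  -- `U0`
  obtain ⟨U0, hU0, hU02, -⟩ := S.finrank_perp (K := V0) le_rfl ![z, z'] (by
    intro i; fin_cases i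
    · exact hz
    · exact hz')
  have hU : ∀ x, x ∈ U0 ↔ x ∈ V0 ∧ polar Q z x = 0 ∧ polar Q z' x = 0 := by
    intro x
    rw [hU02]
    constructor
    · rintro ⟨h1, h2⟩
      exact ⟨h1, by rw [polar_comm]; exact h2 0, by rw [polar_comm]; exact h2 1⟩
    · rintro ⟨h1, h2, h3⟩
      refine ⟨h1, fun i => ?_⟩
      fin_cases i
      · change polar Q x z = 0
        rw [polar_comm]; exact h2
      · change polar Q x z' = 0
        rw [polar_comm]; exact h3
  -- a singular `u` with nonrational product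
  obtain ⟨u, hu, hQu, hul⟩ : ∃ u ∈ U0, Q u = 0 ∧ polar Q y₁ u ∉ F₀ := by
    by_contra hcon
    push Not at hcon
    apply hy₁0
    apply S.mem_of_dual
    intro x hx
    -- a hyperbolic pair in `U0`
    obtain ⟨e, he, he0, hQe, he1, he2⟩ := S.exists_sing_perp (n := 2) (by omega) ![z, z'] (by
      intro i; fin_cases i
      · exact hz
      · exact hz')
    obtain ⟨f, hf, hQf, hef, hf1⟩ := S.exists_partner he hQe ![z, z'] (by
      intro i; fin_cases i
      · exact hz
      · exact hz') he1 he2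
    let T : Submodule F₀ V :=
      { carrier := {x | polar Q y₁ x ∈ F₀}
        add_mem' := by
          intro a b ha hb
          change polar Q y₁ (a + b) ∈ F₀
          rw [polar_add_right]; exact F₀.add_mem ha hb
        zero_mem' := by
          change polar Q y₁ 0 ∈ F₀
          rw [polar_zero_right]; exact F₀.zero_mem
        smul_mem' := by
          intro c a ha
          change polar Q y₁ ((c : F) • a) ∈ F₀
          rw [polar_smul_right]; exact F₀.mul_mem c.2 ha }
    have hUT : U0 ≤ T := S.sing_span hU0 ((hU e).mpr ⟨he, he1 0, he1 1⟩) ((hU f).mpr ⟨hf, hf1 0, hf1 1⟩) hQe hQf hef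
      (fun v hv hQv => hcon v hv hQv)
    have c1 : polar Q z' x ∈ F₀ := S.polar_mem hz' hx
    have c2 : polar Q z x ∈ F₀ := S.polar_mem hz hx
    have hx' : x - polar Q z' x • z - polar Q z x • z' ∈ U0 := by
      rw [hU]
      refine ⟨V0.sub_mem (V0.sub_mem hx (S.smul_mem c1 hz)) (S.smul_mem c2 hz'), ?_, ?_⟩
      · rw [polar_sub_right, polar_sub_right, polar_smul_right, polar_smul_right, hzz, hzz']; simp
      · rw [polar_sub_right, polar_sub_right, polar_smul_right, polar_smul_right, hz'z', hz'z]; simp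
    have h2 : polar Q y₁ (x - polar Q z' x • z - polar Q z x • z') ∈ F₀ := hUT hx'
    rwa [polar_sub_right, polar_sub_right, polar_smul_right, polar_smul_right, polar_comm Q y₁ z, polar_comm Q y₁ z', a1, a2,
      smul_zero, smul_zero, sub_zero, sub_zero] at h2
  obtain ⟨hu0, hzu, hz'u⟩ := (hU u).mp hu
  have hune : u ≠ 0 := by
    rintro rfl
    exact hul (by rw [polar_zero_right]; exact F₀.zero_mem)
  -- partner of `u`
  have m2 : ∀ i, (![z, z'] : Fin 2 → V) i ∈ V0 := by
    intro i; fin_cases i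
    · exact hz
    · exact hz'
  have hr2 : Set.range ![z, z'] = {z, z'} := by simp [Matrix.range_cons, Matrix.range_empty, Set.pair_comm]
  have e0 : ∀ (c : F₀) (x : V), c • x = (c : F) • x := fun _ _ => rfl
  have hus : u ∉ Submodule.span F₀ (Set.range ![z, z']) := by
    rw [hr2]
    intro hs
    obtain ⟨a, b, rfl⟩ := Submodule.mem_span_pair.mp hs
    rw [e0, e0, polar_add_right, polar_smul_right, polar_smul_right, hzz, hzz', smul_zero, zero_add, smul_eq_mul, mul_one] at hzu
    rw [e0, e0, polar_add_right, polar_smul_right, polar_smul_right, hz'z, hz'z', smul_zero, add_zero, smul_eq_mul, mul_one] at hz'u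
    apply hune
    rw [e0, e0, hzu, hz'u, zero_smul, zero_smul, add_zero]
  obtain ⟨u', hu', hQu', huu', hu'1⟩ := S.exists_partner hu0 hQu ![z, z'] m2 (by
    intro i; fin_cases i
    · exact hzu
    · exact hz'u) hus
  have hzu' : polar Q z u' = 0 := hu'1 0
  have hz'u' : polar Q z' u' = 0 := hu'1 1
  have huz' : polar Q u z' = 0 := by rw [polar_comm]; exact hz'u
  -- `v`
  obtain ⟨v, hv, hv0, hQv, hzv, hz'v, huv, hu'v, -⟩ := S.exists_sing_pairs hz hz' hu0 hu' hzz' huu' hzu' huz'
  have huu : polar Q u u = 0 := by rw [polar_self', hQu, mul_zero]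
  have hvv : polar Q v v = 0 := by rw [polar_self', hQv, mul_zero]
  have m4 : ∀ i, (![z, z', u, u'] : Fin 4 → V) i ∈ V0 := by
    intro i; fin_cases i
    · exact hz
    · exact hz'
    · exact hu0
    · exact hu'
  have hvs : v ∉ Submodule.span F₀ (Set.range ![z, z', u, u']) := by
    intro hs
    have h0 : ∀ s ∈ Submodule.span F₀ (Set.range ![z, z', u, u']), polar Q v s = 0 := by
      intro s hs
      induction hs using Submodule.span_induction with
      | mem x hx =>
        obtain ⟨i, rfl⟩ := hx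
        rw [polar_comm]
        fin_cases i
        · exact hzv
        · exact hz'v
        · exact huv
        · exact hu'v
      | zero => exact polar_zero_right _ _
      | add x y _ _ h1 h2 => rw [polar_add_right, h1, h2, add_zero]
      | smul c x _ h1 => rw [e0, polar_smul_right, h1, smul_zero]
    -- `v` is orthogonal to its span, which is nondegenerate
    obtain ⟨g, hg⟩ := (Submodule.mem_span_range_iff_exists_fun F₀).mp hs
    rw [Fin.sum_univ_four] at hg
    simp only [Matrix.cons_val_zero, Matrix.cons_val_one, Matrix.cons_val] at hg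
    have hu'u : polar Q u' u = 1 := by rw [polar_comm]; exact huu'
    have hu'u' : polar Q u' u' = 0 := by rw [polar_self', hQu', mul_zero]
    have hu'z : polar Q u' z = 0 := by rw [polar_comm]; exact hzu'
    have hu'z' : polar Q u' z' = 0 := by rw [polar_comm]; exact hz'u'
    have huz : polar Q u z = 0 := by rw [polar_comm]; exact hzu
    have c1 : polar Q z' v = g 0 := by
      rw [← hg, e0, e0, e0, e0]
      simp only [polar_add_right, polar_smul_right, hz'z, hz'z', hz'u, hz'u', smul_eq_mul]; ring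
    have c2 : polar Q z v = g 1 := by
      rw [← hg, e0, e0, e0, e0]
      simp only [polar_add_right, polar_smul_right, hzz, hzz', hzu, hzu', smul_eq_mul]; ring
    have c3 : polar Q u' v = g 2 := by
      rw [← hg, e0, e0, e0, e0]
      simp only [polar_add_right, polar_smul_right, hu'u, hu'u', hu'z, hu'z', smul_eq_mul]; ring
    have c4 : polar Q u v = g 3 := by
      rw [← hg, e0, e0, e0, e0]
      simp only [polar_add_right, polar_smul_right, huu, huu', huz, huz', smul_eq_mul]; ring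
    apply hv0
    rw [← hg, e0, e0, e0, e0, ← c1, ← c2, ← c3, ← c4, hzv, hz'v, huv, hu'v]; simp
  obtain ⟨v', hv', hQv', hvv', hv'1⟩ := S.exists_partner hv hQv ![z, z', u, u'] m4 (by
    intro i; fin_cases i
    · exact hzv
    · exact hz'v
    · exact huv
    · exact hu'v) hvs
  have hzv' : polar Q z v' = 0 := hv'1 0
  have huv' : polar Q u v' = 0 := hv'1 2
  -- `w`
  have hd := S.dim
  have m6 : ∀ i, (![z, z', u, u', v, v'] : Fin 6 → V) i ∈ V0 := by
    intro i; fin_cases i
    · exact hz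
    · exact hz'
    · exact hu0
    · exact hu'
    · exact hv
    · exact hv'
  obtain ⟨K, hK, hK2, hK3⟩ := S.finrank_perp (K := V0) le_rfl ![z, z', u, u', v, v'] m6
  obtain ⟨w, hwK, hw0⟩ : ∃ w ∈ K, w ≠ 0 := by
    have hKne : K ≠ ⊥ := by
      rintro rfl
      rw [finrank_bot] at hK3
      omega
    exact K.ne_bot_iff.mp hKne
  have hwp := ((hK2 w).mp hwK).2
  have hw : w ∈ V0 := hK hwK
  have hzw : polar Q z w = 0 := by rw [polar_comm]; exact hwp 0
  have huw : polar Q u w = 0 := by rw [polar_comm]; exact hwp 2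
  have hvw : polar Q v w = 0 := by rw [polar_comm]; exact hwp 4
  have hv'w : polar Q v' w = 0 := by rw [polar_comm]; exact hwp 5
  have hz'w : polar Q z' w = 0 := by rw [polar_comm]; exact hwp 1
  -- first step
  have h2 := step_sieg S H hQz a1 h1 hu0 hv hQu huv hzu hzv
  rw [hQv, zero_mul, zero_smul, sub_zero] at h2
  have a3 : polar Q z (polar Q u y₁ • v - polar Q v y₁ • u) = 0 := by
    rw [polar_sub_right, polar_smul_right, polar_smul_right, hzu, hzv]; simp
  have hl : polar Q u y₁ = polar Q y₁ u := polar_comm _ _ _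
  set l := polar Q y₁ u with hldef
  -- second step
  have h3 := step_sieg S H hQz a3 h2 hv' hw hQv' hv'w hzv' hzw
  have e1 : polar Q v' (polar Q u y₁ • v - polar Q v y₁ • u) = l := by
    rw [polar_sub_right, polar_smul_right, polar_smul_right, polar_comm Q v' v, hvv', polar_comm Q v' u, huv', hl]; simp
  have e2 : polar Q w (polar Q u y₁ • v - polar Q v y₁ • u) = 0 := by
    rw [polar_sub_right, polar_smul_right, polar_smul_right, polar_comm Q w v, hvw, polar_comm Q w u, huw]; simp
  rw [e1, e2, zero_smul, sub_zero] at h3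
  have hzuspan : u ∉ Submodule.span F₀ {z} := by
    intro hs
    obtain ⟨c, rfl⟩ := Submodule.mem_span_singleton.mp hs
    rw [e0, polar_smul_right, hz'z, smul_eq_mul, mul_one] at hz'u
    apply hune
    rw [e0, hz'u, zero_smul]
  by_cases hQw : Q w = 0
  · refine ⟨l, hul, w, hw, ?_, hQw, hzw, ?_⟩
    · intro hs
      obtain ⟨c, rfl⟩ := Submodule.mem_span_singleton.mp hs
      rw [e0, polar_smul_right, hz'z, smul_eq_mul, mul_one] at hz'w
      apply hw0
      rw [e0, hz'w, zero_smul]
    · rw [hQw, zero_mul, zero_smul, sub_zero] at h3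
      exact h3
  · -- third step
    have a4 : polar Q z (l • w - (Q w * l) • v') = 0 := by
      rw [polar_sub_right, polar_smul_right, polar_smul_right, hzw, hzv']; simp
    have h4 := step_sieg S H hQz a4 h3 hv hu0 hQv (by rw [polar_comm]; exact huv) hzv hzu
    have e3 : polar Q v (l • w - (Q w * l) • v') = -(Q w * l) := by
      rw [polar_sub_right, polar_smul_right, polar_smul_right, hvw, hvv']; simp
    have e4 : polar Q u (l • w - (Q w * l) • v') = 0 := by
      rw [polar_sub_right, polar_smul_right, polar_smul_right, huw, huv']; simp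
    rw [e3, e4, hQu, zero_smul, sub_zero, zero_mul, zero_smul, sub_zero] at h4
    refine ⟨-(Q w * l), ?_, u, hu0, hzuspan, hQu, hzu, h4⟩
    intro hm
    apply hul
    have h5 := F₀.div_mem (F₀.neg_mem hm) (S.form w hw)
    rwa [neg_neg, mul_div_assoc, mul_comm, div_mul_cancel₀ _ hQw] at h5

/-- `F₀`-stability -/
theorem smul_stable {z w : V} (hz : z ∈ V0) (hw : w ∈ V0) (hQz : Q z = 0) (hQw : Q w = 0) (hzw : polar Q z w = 0)
    (hz0 : z ≠ 0) (hw0 : w ∉ Submodule.span F₀ {z}) {s c : F} (hc : c ∈ F₀) (h : SI Q M z (s • w)) :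
    SI Q M z ((s * c) • w) := by
  have e0 : ∀ (c : F₀) (x : V), c • x = (c : F) • x := fun _ _ => rfl
  have hwne : w ≠ 0 := by
    rintro rfl
    exact hw0 (Submodule.zero_mem _)
  have hww : polar Q w w = 0 := by rw [polar_self', hQw, mul_zero]
  -- the partner of `z`, orthogonal to `w`
  have hzs : z ∉ Submodule.span F₀ (Set.range ![w]) := by
    intro hs
    have hr1 : Set.range ![w] = {w} := by simp [Matrix.range_cons, Matrix.range_empty]
    rw [hr1] at hs
    obtain ⟨a, ha⟩ := Submodule.mem_span_singleton.mp hs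
    apply hw0
    rw [Submodule.mem_span_singleton]
    have ha0 : a ≠ 0 := by
      rintro rfl
      rw [zero_smul] at ha
      exact hz0 ha.symm
    exact ⟨a⁻¹, by rw [← ha, smul_smul, inv_mul_cancel₀ ha0, one_smul]⟩
  obtain ⟨z', hz', hQz', hzz', hz'1⟩ := S.exists_partner hz hQz ![w] (by intro i; fin_cases i; exact hw) (by
    intro i; fin_cases i
    change polar Q w z = 0
    rw [polar_comm]; exact hzw) hzs
  have hwz' : polar Q w z' = 0 := hz'1 0
  have m2 : ∀ i, (![z, z'] : Fin 2 → V) i ∈ V0 := by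
    intro i; fin_cases i
    · exact hz
    · exact hz'
  have hws : w ∉ Submodule.span F₀ (Set.range ![z, z']) := by
    have hr2 : Set.range ![z, z'] = {z, z'} := by simp [Matrix.range_cons, Matrix.range_empty, Set.pair_comm]
    rw [hr2]
    intro hs
    obtain ⟨a, b, rfl⟩ := Submodule.mem_span_pair.mp hs
    have hzz : polar Q z z = 0 := by rw [polar_self', hQz, mul_zero]
    rw [e0, e0, polar_add_right, polar_smul_right, polar_smul_right, hzz, hzz', smul_zero, zero_add, smul_eq_mul, mul_one] at hzw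
    apply hw0
    rw [e0 b, hzw, zero_smul, add_zero]
    exact Submodule.smul_mem _ _ (Submodule.mem_span_singleton_self z)
  obtain ⟨u', hu', hQu', hwu', hzu'⟩ := S.exists_partner hw hQw ![z, z'] m2 (by
    intro i; fin_cases i
    · exact hzw
    · change polar Q z' w = 0
      rw [polar_comm]; exact hwz') hws
  have hzu'' : polar Q z u' = 0 := hzu' 0
  obtain ⟨w₂, hw₂, hw₂0, hQw₂, hzw₂, hz'w₂, hww₂, hu'w₂, hw₂s⟩ := S.exists_sing_pairs hz hz' hw hu' hzz' hwu' hzu'' hwz'
  have h1 := step_root S H hQz (by rw [polar_smul_right, hzw, smul_zero]) h hu' hw₂ hQu' hQw₂ hu'w₂ hzu'' hzw₂ hc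
  rw [polar_smul_right, polar_smul_right, polar_comm Q u' w, hwu', polar_comm Q w₂ w, hww₂] at h1
  have h2 : SI Q M z ((s * c) • w₂) := by
    have e : (c * (s • (1 : F))) • w₂ - (c * (s • (0 : F))) • u' = (s * c) • w₂ := by
      simp only [smul_eq_mul]; module
    rwa [e] at h1
  have m2' : ∀ i, (![z, w] : Fin 2 → V) i ∈ V0 := by
    intro i; fin_cases i
    · exact hz
    · exact hw
  obtain ⟨u'', hu'', hQu'', hwu'', hu''1⟩ := S.exists_partner hw₂ hQw₂ ![z, w] m2' (by
    intro i; fin_cases i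
    · exact hzw₂
    · exact hww₂) hw₂s
  have g1 : polar Q z u'' = 0 := hu''1 0
  have g2 : polar Q w u'' = 0 := hu''1 1
  have h3 := step_root S H hQz (by rw [polar_smul_right, hzw₂, smul_zero]) h2 hu'' hw hQu'' hQw (by rw [polar_comm]; exact g2)
    g1 hzw F₀.one_mem
  rw [polar_smul_right, polar_smul_right, polar_comm Q u'' w₂, hwu'', hww₂] at h3
  have e : (1 * ((s * c) • (1 : F))) • w - (1 * ((s * c) • (0 : F))) • u'' = (s * c) • w := by
    simp only [smul_eq_mul]; module
  rwa [e] at h3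

end

/-! ### transfer from `Ω(V₀)` -/

section

variable (S : OrF Q F₀ V0) (H : Hyp Q F₀ V0 M)
include S H

/-- elements of `Ω(V₀)` extend to elements of `M` -/
theorem transfer (hd : 4 ≤ finrank F₀ V0) (hgen : GenHyp S.Q0) [FiniteDimensional F₀ V0] {g0 : V0 ≃ₗ[F₀] V0} (hg0 : g0 ∈ Om S.Q0) :
    ∃ g ∈ M, ∀ x : V0, g (x : V) = g0 x := by
  rw [S.ndQ0.Om_eq_Sg hgen hd] at hg0
  rw [Sg] at hg0
  induction hg0 using Subgroup.closure_induction with
  | mem x hx =>
    obtain ⟨z, y, hz, hzy, rfl⟩ := hx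
    have hz' : Q (z : V) = 0 := by rw [← S.Q0_coe, hz]; rfl
    have hzy' : polar Q (z : V) (y : V) = 0 := by rw [← S.polar_Q0, hzy]; rfl
    obtain ⟨g, hg, hgx⟩ := H.mem z z.2 y y.2 hz' hzy'
    refine ⟨g, hg, fun x => ?_⟩
    rw [hgx, sieg_apply, siegMap_apply]
    rfl
  | one => exact ⟨1, M.one_mem, fun x => rfl⟩
  | mul a b _ _ ha hb =>
    obtain ⟨g, hg, h1⟩ := ha
    obtain ⟨g', hg', h2⟩ := hb
    refine ⟨g * g', M.mul_mem hg hg', fun x => ?_⟩
    rw [LinearEquiv.mul_apply, LinearEquiv.mul_apply, h2, h1]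
  | inv a _ ha =>
    obtain ⟨g, hg, h1⟩ := ha
    refine ⟨g⁻¹, M.inv_mem hg, fun x => ?_⟩
    apply g.injective
    rw [← LinearEquiv.mul_apply, mul_inv_cancel, h1, ← LinearEquiv.mul_apply, mul_inv_cancel]
    rfl

/-- transitivity on totally singular lines -/
theorem line_transfer {z w z₁ w₁ : V} (hz : z ∈ V0) (hw : w ∈ V0) (hQz : Q z = 0) (hQw : Q w = 0) (hzw : polar Q z w = 0)
    (hz0 : z ≠ 0) (hw0 : w ∉ Submodule.span F₀ {z}) (hz₁ : z₁ ∈ V0) (hw₁ : w₁ ∈ V0) (hQz₁ : Q z₁ = 0) (hQw₁ : Q w₁ = 0)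
    (hzw₁ : polar Q z₁ w₁ = 0) (hz₁0 : z₁ ≠ 0) (hw₁0 : w₁ ∉ Submodule.span F₀ {z₁}) :
    ∃ D ∈ F₀, D ≠ 0 ∧ ∀ s : F, SI Q M z (s • w) → SI Q M z₁ ((s * D) • w₁) := by
  have := S.fin
  have hd := S.dim
  have e0 : ∀ (c : F₀) (x : V), c • x = (c : F) • x := fun _ _ => rfl
  -- the lines
  have hline : ∀ z w : V, ∀ (hz : z ∈ V0) (hw : w ∈ V0), Q z = 0 → Q w = 0 → polar Q z w = 0 → z ≠ 0 → w ∉ Submodule.span F₀ {z} →
      (∀ u ∈ Submodule.span F₀ {(⟨z, hz⟩ : V0), ⟨w, hw⟩}, S.Q0 u = 0) ∧ finrank F₀ (Submodule.span F₀ {(⟨z, hz⟩ : V0), ⟨w, hw⟩}) = 2 := by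
    intro z w hz hw hQz hQw hzw hz0 hw0
    constructor
    · intro u hu
      obtain ⟨a, b, rfl⟩ := Submodule.mem_span_pair.mp hu
      apply Subtype.ext
      change Q ((a : F) • z + (b : F) • w) = 0
      rw [Q_add, Q_smul, Q_smul, hQz, hQw, polar_smul_left, polar_smul_right, hzw]; simp
    · have hli : LinearIndependent F₀ ![(⟨z, hz⟩ : V0), ⟨w, hw⟩] := by
        rw [LinearIndependent.pair_iff' (by simpa using hz0)]
        intro a ha
        apply hw0
        rw [Submodule.mem_span_singleton]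
        exact ⟨a, congrArg Subtype.val ha⟩
      have h1 := finrank_span_eq_card hli
      rw [Fintype.card_fin] at h1
      have h2 : Set.range ![(⟨z, hz⟩ : V0), ⟨w, hw⟩] = {(⟨z, hz⟩ : V0), ⟨w, hw⟩} := by
        simp [Matrix.range_cons, Matrix.range_empty, Set.pair_comm]
      rwa [h2] at h1
  obtain ⟨a1, a2⟩ := hline z w hz hw hQz hQw hzw hz0 hw0
  obtain ⟨b1, b2⟩ := hline z₁ w₁ hz₁ hw₁ hQz₁ hQw₁ hzw₁ hz₁0 hw₁0
  have hgen : GenHyp S.Q0 := Or.inr (Or.inl (by omega))
  obtain ⟨g0, hg0, hmap⟩ := S.ndQ0.Om_trans_ts hgen a1 b1 (by rw [a2, b2]) (by omega)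
  obtain ⟨g, hg, hgx⟩ := transfer S H (by omega) hgen hg0
  have key : ∀ x : V0, x ∈ Submodule.span F₀ {(⟨z, hz⟩ : V0), ⟨w, hw⟩} → ∃ a ∈ F₀, ∃ b ∈ F₀, g (x : V) = a • z₁ + b • w₁ := by
    intro x hx
    have h1 : g0 x ∈ Submodule.span F₀ {(⟨z₁, hz₁⟩ : V0), ⟨w₁, hw₁⟩} := by
      rw [← hmap]; exact ⟨x, hx, rfl⟩
    obtain ⟨a, b, hab⟩ := Submodule.mem_span_pair.mp h1
    refine ⟨a, a.2, b, b.2, ?_⟩
    rw [hgx, ← hab]; rfl
  obtain ⟨a, ha, b, hb, e1⟩ := key ⟨z, hz⟩ (Submodule.subset_span (by simp))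
  obtain ⟨c, hc, d, hd', e2⟩ := key ⟨w, hw⟩ (Submodule.subset_span (by simp))
  change g z = _ at e1
  change g w = _ at e2
  refine ⟨a * d - b * c, F₀.sub_mem (F₀.mul_mem ha hd') (F₀.mul_mem hb hc), ?_, ?_⟩
  · intro hD
    -- `z, w` would be dependent
    have h1 : g (d • z - b • w) = (0 : F) • w₁ := by
      rw [map_sub, map_smul, map_smul, e1, e2]
      have : d • (a • z₁ + b • w₁) - b • (c • z₁ + d • w₁) = (a * d - b * c) • z₁ := by module
      rw [this, hD, zero_smul, zero_smul]
    have h2 : g (c • z - a • w) = (0 : F) • w₁ := by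
      rw [map_sub, map_smul, map_smul, e1, e2]
      have : c • (a • z₁ + b • w₁) - a • (c • z₁ + d • w₁) = -(a * d - b * c) • w₁ := by module
      rw [this, hD, neg_zero]
    rw [zero_smul] at h1 h2
    have h3 : d • z - b • w = 0 := g.map_eq_zero_iff.mp h1
    have h4 : c • z - a • w = 0 := g.map_eq_zero_iff.mp h2
    have hb0 : b = 0 := by
      by_contra hb0
      apply hw0
      rw [Submodule.mem_span_singleton]
      refine ⟨⟨d / b, F₀.div_mem hd' hb⟩, ?_⟩
      change (d / b) • z = w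
      have h5 : d • z = b • w := sub_eq_zero.mp h3
      rw [div_eq_inv_mul, mul_smul, h5, smul_smul, inv_mul_cancel₀ hb0, one_smul]
    have ha0 : a = 0 := by
      by_contra ha0
      apply hw0
      rw [Submodule.mem_span_singleton]
      refine ⟨⟨c / a, F₀.div_mem hc ha⟩, ?_⟩
      change (c / a) • z = w
      have h5 : c • z = a • w := sub_eq_zero.mp h4
      rw [div_eq_inv_mul, mul_smul, h5, smul_smul, inv_mul_cancel₀ ha0, one_smul]
    rw [ha0, hb0, zero_smul, zero_smul, add_zero] at e1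
    exact hz0 (g.map_eq_zero_iff.mp e1)
  · intro s hs
    have h1 := hs.map hg (H.le hg)
    rw [map_smul, e1, e2] at h1
    exact SI_comb hQz₁ hQw₁ hzw₁ h1

/-- the multiples on all rational lines -/
def Ls (Q : QuadraticForm F V) (F₀ : Subfield F) (V0 : Submodule F₀ V) (M : Subgroup (V ≃ₗ[F] V)) : Set F :=
  {s | ∀ z ∈ V0, ∀ w ∈ V0, Q z = 0 → Q w = 0 → polar Q z w = 0 → SI Q M z (s • w)}

theorem mem_Ls {z w : V} {s : F} (hz : z ∈ V0) (hw : w ∈ V0) (hQz : Q z = 0) (hQw : Q w = 0) (hzw : polar Q z w = 0)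
    (hz0 : z ≠ 0) (hw0 : w ∉ Submodule.span F₀ {z}) (h : SI Q M z (s • w)) : s ∈ Ls Q F₀ V0 M := by
  intro z₁ hz₁ w₁ hw₁ hQz₁ hQw₁ hzw₁
  by_cases hz₁0 : z₁ = 0
  · rw [hz₁0]; exact SI.zero_left _
  by_cases hw₁0 : w₁ ∈ Submodule.span F₀ {z₁}
  · obtain ⟨c, rfl⟩ := Submodule.mem_span_singleton.mp hw₁0
    have e : s • (c • z₁) = (s * (c : F)) • z₁ := by
      rw [mul_smul]; rfl
    rw [e]
    exact SI_dep z₁ hQz₁ _
  obtain ⟨D, hD, hD0, h1⟩ := line_transfer S H hz hw hQz hQw hzw hz0 hw0 hz₁ hw₁ hQz₁ hQw₁ hzw₁ hz₁0 hw₁0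
  have h2 := smul_stable S H hz₁ hw₁ hQz₁ hQw₁ hzw₁ hz₁0 hw₁0 (F₀.inv_mem hD) (h1 s h)
  rwa [mul_assoc, mul_inv_cancel₀ hD0, mul_one] at h2

theorem Ls_add {s t : F} (hs : s ∈ Ls Q F₀ V0 M) (ht : t ∈ Ls Q F₀ V0 M) : s + t ∈ Ls Q F₀ V0 M := by
  intro z hz w hw hQz hQw hzw
  rw [add_smul]
  exact SI.add hQz (by rw [polar_smul_right, hzw, smul_zero]) (by rw [polar_smul_right, hzw, smul_zero])
    (hs z hz w hw hQz hQw hzw) (ht z hz w hw hQz hQw hzw)

theorem Ls_neg {s : F} (hs : s ∈ Ls Q F₀ V0 M) : -s ∈ Ls Q F₀ V0 M := by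
  intro z hz w hw hQz hQw hzw
  rw [neg_smul]
  exact SI.neg hQz (by rw [polar_smul_right, hzw, smul_zero]) (hs z hz w hw hQz hQw hzw)

theorem Ls_rat {s : F} (hs : s ∈ F₀) : s ∈ Ls Q F₀ V0 M := by
  intro z hz w hw hQz hQw hzw
  exact H.mem z hz _ (S.smul_mem hs hw) hQz (by rw [polar_smul_right, hzw, smul_zero])

theorem Ls_mul {s t : F} (hs : s ∈ Ls Q F₀ V0 M) (ht : t ∈ Ls Q F₀ V0 M) : s * t ∈ Ls Q F₀ V0 M := by
  -- the configuration `z, y, w, w'`
  obtain ⟨z, hz, hz0, hQz, -, -⟩ := S.exists_sing_perp (n := 0) (by omega) ![] (fun i => i.elim0)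
  have m1 : ∀ i, (![z] : Fin 1 → V) i ∈ V0 := by intro i; fin_cases i; exact hz
  obtain ⟨y, hy, hy0, hQy, hy1, hy2⟩ := S.exists_sing_perp (n := 1) (by omega) ![z] m1
  have m2 : ∀ i, (![z, y] : Fin 2 → V) i ∈ V0 := by
    intro i; fin_cases i
    · exact hz
    · exact hy
  obtain ⟨w, hw, hw0, hQw, hw1, hw2⟩ := S.exists_sing_perp (n := 2) (by omega) ![z, y] m2
  obtain ⟨w', hw', hQw', hww', hw'1⟩ := S.exists_partner hw hQw ![z, y] m2 hw1 hw2
  have hzy : polar Q z y = 0 := hy1 0
  have hzw : polar Q z w = 0 := hw1 0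
  have hyw : polar Q y w = 0 := hw1 1
  have hzw' : polar Q z w' = 0 := hw'1 0
  have hyw' : polar Q y w' = 0 := hw'1 1
  apply mem_Ls S H hz hy hQz hQy hzy hz0 (by simpa using hy2)
  obtain ⟨g, hg, hgx⟩ := SI_root (by rw [Q_smul, hQw, mul_zero]) (hs z hz w hw hQz hQw hzw)
  have hSI : SI Q M w' (t • y) := ht w' hw' y hy hQw' hQy (by rw [polar_comm]; exact hyw')
  have h1 := hSI.map hg (H.le hg)
  have e1 : g w' = w' - s • z := by
    rw [hgx, hzw', polar_smul_left, hww', smul_eq_mul, mul_one, zero_smul, add_zero]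
  have e2 : g (t • y) = t • y := by
    rw [hgx, polar_smul_right, polar_smul_left, polar_smul_right, hzy, polar_comm Q w y, hyw]; simp
  rw [e1, e2] at h1
  have hQty : Q (t • y) = 0 := by rw [Q_smul, hQy, mul_zero]
  have hQ1 : Q (w' - s • z) = 0 := by
    rw [Q_sub, Q_smul, hQz, hQw', polar_smul_right, polar_comm, hzw']; simp
  have h2 := SI_swap hQ1 hQty h1
  have h3 := SI_swap hQw' hQty hSI
  have h4 := h2.sub hQty (by
    rw [polar_neg_right, polar_sub_right, polar_smul_left, hyw', polar_smul_left, polar_smul_right, polar_comm Q y z, hzy]; simp)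
    (by rw [polar_neg_right, polar_smul_left, hyw']; simp) h3
  have e3 : -(w' - s • z) - -w' = s • z := by abel
  rw [e3] at h4
  have h5 := SI_swap hQty (by rw [Q_smul, hQz, mul_zero]) h4
  rw [SI.smul_left] at h5
  have h6 := h5.neg hQz (by rw [polar_smul_right, polar_neg_right, polar_smul_right, hzy]; simp)
  have e4 : -(s • -(t • y)) = (s * t) • y := by module
  rwa [e4] at h6

/-- all centres are full -/
theorem full_of_Ls (htop : ∀ s : F, s ∈ Ls Q F₀ V0 M) {z : V} (hz : z ∈ V0) (hz0 : z ≠ 0) (hQz : Q z = 0) : Full Q M z := by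
  refine ⟨hQz, ?_⟩
  obtain ⟨z', hz', hQz', hzz', -⟩ := S.exists_partner hz hQz ![] (fun i => i.elim0) (fun i => i.elim0) (by simpa using hz0)
  have hz'z : polar Q z' z = 1 := by rw [polar_comm]; exact hzz'
  have hzz : polar Q z z = 0 := by rw [polar_self', hQz, mul_zero]
  have hz'z' : polar Q z' z' = 0 := by rw [polar_self', hQz', mul_zero]
  have m2 : ∀ i, (![z, z'] : Fin 2 → V) i ∈ V0 := by
    intro i; fin_cases i
    · exact hz
    · exact hz'
  obtain ⟨U0, hU0, hU02, -⟩ := S.finrank_perp (K := V0) le_rfl ![z, z'] m2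
  have hU : ∀ x, x ∈ U0 ↔ x ∈ V0 ∧ polar Q z x = 0 ∧ polar Q z' x = 0 := by
    intro x
    rw [hU02]
    constructor
    · rintro ⟨h1, h2⟩
      exact ⟨h1, by rw [polar_comm]; exact h2 0, by rw [polar_comm]; exact h2 1⟩
    · rintro ⟨h1, h2, h3⟩
      refine ⟨h1, fun i => ?_⟩
      fin_cases i
      · change polar Q x z = 0
        rw [polar_comm]; exact h2
      · change polar Q x z' = 0
        rw [polar_comm]; exact h3
  obtain ⟨e, he, he0, hQe, he1, he2⟩ := S.exists_sing_perp (n := 2) (by omega) ![z, z'] m2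
  obtain ⟨f, hf, hQf, hef, hf1⟩ := S.exists_partner he hQe ![z, z'] m2 he1 he2
  -- rational vectors of `U0`, all multiples
  have hUT : ∀ x ∈ U0, ∀ s : F, SI Q M z (s • x) := by
    intro x hx
    let T : Submodule F₀ V :=
      { carrier := {x | polar Q z x = 0 ∧ ∀ s : F, SI Q M z (s • x)}
        add_mem' := by
          rintro a b ⟨ha, ha'⟩ ⟨hb, hb'⟩
          refine ⟨by rw [polar_add_right, ha, hb, add_zero], fun s => ?_⟩
          rw [smul_add]
          exact SI.add hQz (by rw [polar_smul_right, ha, smul_zero]) (by rw [polar_smul_right, hb, smul_zero]) (ha' s) (hb' s)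
        zero_mem' := ⟨polar_zero_right _ _, fun s => by rw [smul_zero]; exact SI.zero z⟩
        smul_mem' := by
          rintro c a ⟨ha, ha'⟩
          refine ⟨?_, fun s => ?_⟩
          · change polar Q z ((c : F) • a) = 0
            rw [polar_smul_right, ha, smul_zero]
          · have : s • (c • a) = (s * (c : F)) • a := by rw [mul_smul]; rfl
            rw [this]; exact ha' _ }
    have h1 : U0 ≤ T := S.sing_span hU0 ((hU e).mpr ⟨he, he1 0, he1 1⟩) ((hU f).mpr ⟨hf, hf1 0, hf1 1⟩) hQe hQf hef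
      (fun v hv hQv => by
        obtain ⟨a1, a2, a3⟩ := (hU v).mp hv
        exact ⟨a2, fun s => htop s z hz v a1 hQz hQv a2⟩)
    exact (h1 hx).2
  -- all vectors
  have hperp : ∀ y : V, polar Q z (y - polar Q z y • z' - polar Q z' y • z) = 0 := by
    intro y
    rw [polar_sub_right, polar_sub_right, polar_smul_right, polar_smul_right, hzz, hzz']; simp
  have hperp' : ∀ (s : F) (y : V), polar Q z (s • (y - polar Q z y • z' - polar Q z' y • z)) = 0 := by
    intro s y
    rw [polar_smul_right, hperp, smul_zero]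
  have key : ∀ y : V, y ∈ Submodule.span F (V0 : Set V) → ∀ s : F, SI Q M z (s • (y - polar Q z y • z' - polar Q z' y • z)) := by
    intro y hy
    induction hy using Submodule.span_induction with
    | mem x hx =>
      have c1 : polar Q z' x ∈ F₀ := S.polar_mem hz' hx
      have c2 : polar Q z x ∈ F₀ := S.polar_mem hz hx
      have hx' : x - polar Q z x • z' - polar Q z' x • z ∈ U0 := by
        rw [hU]
        refine ⟨V0.sub_mem (V0.sub_mem hx (S.smul_mem c2 hz')) (S.smul_mem c1 hz), hperp x, ?_⟩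
        rw [polar_sub_right, polar_sub_right, polar_smul_right, polar_smul_right, hz'z', hz'z]; simp
      exact hUT _ hx'
    | zero =>
      intro s
      simp only [polar_zero_right, zero_smul, sub_zero, smul_zero]
      exact SI.zero z
    | add x y _ _ h1 h2 =>
      intro s
      have := SI.add hQz (hperp' s x) (hperp' s y) (h1 s) (h2 s)
      have e : s • (x - polar Q z x • z' - polar Q z' x • z) + s • (y - polar Q z y • z' - polar Q z' y • z) =
        s • (x + y - polar Q z (x + y) • z' - polar Q z' (x + y) • z) := by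
        rw [polar_add_right, polar_add_right]; module
      rwa [e] at this
    | smul c y hy h1 =>
      intro s
      have e : s • (c • y - polar Q z (c • y) • z' - polar Q z' (c • y) • z) =
        (s * c) • (y - polar Q z y • z' - polar Q z' y • z) := by
        rw [polar_smul_right, polar_smul_right, smul_eq_mul, smul_eq_mul]; module
      rw [e]; exact h1 _
  intro y hy
  have h1 := key y (by rw [S.span]; trivial) 1
  rw [hy, zero_smul, sub_zero, one_smul] at h1
  have h2 := SI_add_dep hQz (by rw [polar_sub_right, polar_smul_right, hy, hzz]; simp) (polar Q z' y) h1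
  rwa [sub_add_cancel] at h2

/-- **one nonrational Siegel element with rational centre gives everything** -/
theorem full [Fintype F] (r : ℕ) (hr : r.Prime) (hcard : Fintype.card F = Nat.card F₀ ^ r) {z y : V} (hz : z ∈ V0) (hz0 : z ≠ 0)
    (hQz : Q z = 0) (hzy : polar Q z y = 0) (h : SI Q M z y) (hy : ∀ c : F, y - c • z ∉ V0) : Om Q ≤ M := by
  obtain ⟨l, hl, w, hw, hws, hQw, hzw, h1⟩ := exists_mult S H hz hz0 hQz hzy h hy
  have hlL : l ∈ Ls Q F₀ V0 M := mem_Ls S H hz hw hQz hQw hzw hz0 hws h1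
  obtain ⟨k, hk⟩ := SubfRankTwo.exists_subfield (Ls Q F₀ V0 M) (Ls_rat S H F₀.one_mem)
    (fun a ha b hb => Ls_add S H ha hb) (fun a ha => Ls_neg S H ha) (fun a ha b hb => Ls_mul S H ha hb)
  have hF₀k : F₀ ≤ k := by
    intro x hx
    have : x ∈ (k : Set F) := by rw [hk]; exact Ls_rat S H hx
    exact this
  have hlk : l ∈ k := by
    have : l ∈ (k : Set F) := by rw [hk]; exact hlL
    exact this
  have htop := SubfRankTwo.eq_top_of_mem F₀ k r hr hcard hF₀k hlk hl
  have hall : ∀ s : F, s ∈ Ls Q F₀ V0 M := by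
    intro s
    rw [← hk, htop]; trivial
  obtain ⟨z', hz', hQz', hzz', -⟩ := S.exists_partner hz hQz ![] (fun i => i.elim0) (fun i => i.elim0) (by simpa using hz0)
  have hz'0 : z' ≠ 0 := by
    rintro rfl
    rw [polar_zero_right] at hzz'
    exact zero_ne_one hzz'
  have hdim : 7 ≤ finrank F V := S.dim_le
  exact Om_le_of_two S.nd (Or.inr (Or.inl (by omega))) (by omega) H.le (full_of_Ls S H hall hz hz0 hQz)
    (full_of_Ls S H hall hz' hz'0 hQz') (by rw [hzz']; exact one_ne_zero)

end

end Cfsg.Agent.Lib.LowSubOm
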