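import Mathlib
import Cfsg.Agent.Lib.SLGen
import Cfsg.Agent.Lib.SubfieldGeo
import Cfsg.Agent.Lib.SubfRankTwo

/-!
# Overgroups of `SL_n(F₀)` in `SL_n(F)`, `F / F₀` finite of prime degree (helper98)
-/

set_option autoImplicit false
set_option linter.unusedSectionVars false

namespace Cfsg.Agent.Lib.SubfMax

open Matrix Cfsg.Agent.Lib Cfsg.Agent.Lib.SLGeom
open scoped MatrixGroups

variable {ι : Type} [Fintype ι] [DecidableEq ι] {F : Type*} [Field F]

/-- transvections in `M` -/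
def T (M : Subgroup (GL ι F)) (v w : ι → F) : Prop := ∃ h : w ⬝ᵥ v = 0, tv v w h ∈ M

section T

variable {M : Subgroup (GL ι F)} {v w φ ψ : ι → F}

theorem T.dot (h : T M v w) : w ⬝ᵥ v = 0 := h.1

theorem T_comm (h1 : T M v φ) (h2 : T M w ψ) (h : φ ⬝ᵥ w = 0) : T M w ((ψ ⬝ᵥ v) • φ) := by
  obtain ⟨e1, m1⟩ := h1
  obtain ⟨e2, m2⟩ := h2
  have e3 : ((ψ ⬝ᵥ v) • φ) ⬝ᵥ w = 0 := by rw [smul_dotProduct, h, smul_zero]
  refine ⟨e3, ?_⟩
  have key : tv w ψ e2 * tv v φ e1 = tv w ((ψ ⬝ᵥ v) • φ) e3 * (tv v φ e1 * tv w ψ e2) := by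
    apply gl_ext
    intro x
    simp only [Units.val_mul, ← Matrix.mulVec_mulVec, tv_mulVec, dotProduct_add, dotProduct_smul, smul_dotProduct, h, e1, e2,
      smul_eq_mul, mul_zero, add_zero]
    module
  have h4 : tv w ((ψ ⬝ᵥ v) • φ) e3 = tv w ψ e2 * tv v φ e1 * (tv v φ e1 * tv w ψ e2)⁻¹ := by
    rw [key, mul_inv_cancel_right]
  rw [h4]
  exact M.mul_mem (M.mul_mem m2 m1) (M.inv_mem (M.mul_mem m1 m2))

theorem T_add (h1 : T M v φ) (h2 : T M v ψ) : T M v (φ + ψ) := by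
  obtain ⟨e1, m1⟩ := h1
  obtain ⟨e2, m2⟩ := h2
  have e3 : (φ + ψ) ⬝ᵥ v = 0 := by rw [add_dotProduct, e1, e2, add_zero]
  refine ⟨e3, ?_⟩
  have key : tv v (φ + ψ) e3 = tv v φ e1 * tv v ψ e2 := by
    apply gl_ext
    intro x
    simp only [Units.val_mul, ← Matrix.mulVec_mulVec, tv_mulVec, dotProduct_add, dotProduct_smul, add_dotProduct, e1,
      smul_eq_mul, mul_zero, add_zero]
    module
  rw [key]
  exact M.mul_mem m1 m2

theorem T_smul {c : F} (h : T M (c • v) w) : T M v (c • w) := by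
  obtain ⟨e, m⟩ := h
  have e' : (c • w) ⬝ᵥ v = 0 := by
    rw [smul_dotProduct, ← dotProduct_smul]; exact e
  refine ⟨e', ?_⟩
  have key : tv v (c • w) e' = tv (c • v) w e := by
    apply gl_ext
    intro x
    simp only [tv_mulVec, smul_dotProduct, smul_eq_mul]
    module
  rw [key]; exact m

theorem T_smul' {c : F} (h : T M v (c • w)) : T M (c • v) w := by
  by_cases hc : c = 0
  · subst hc
    by_cases hw : w ⬝ᵥ ((0 : F) • v) = 0
    · refine ⟨hw, ?_⟩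
      have key : tv ((0 : F) • v) w hw = 1 := by
        apply gl_ext
        intro x
        simp [tv_mulVec]
      rw [key]; exact M.one_mem
    · exfalso; apply hw; simp
  · have : c⁻¹ • (c • v) = v := by rw [smul_smul, inv_mul_cancel₀ hc, one_smul]
    rw [← this] at h
    have h1 := h
    have h2 : T M (c • v) (c⁻¹ • (c • w)) := T_smul h1
    rwa [smul_smul, inv_mul_cancel₀ hc, one_smul] at h2

theorem T_neg (h : T M v w) : T M v (-w) := by
  obtain ⟨e, m⟩ := h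
  have e' : (-w) ⬝ᵥ v = 0 := by rw [neg_dotProduct, e, neg_zero]
  refine ⟨e', ?_⟩
  have key : tv v (-w) e' = (tv v w e)⁻¹ := by
    rw [eq_inv_iff_mul_eq_one]
    apply gl_ext
    intro x
    simp only [Units.val_mul, ← Matrix.mulVec_mulVec, tv_mulVec, dotProduct_add, dotProduct_smul, neg_dotProduct, e,
      smul_eq_mul, mul_zero, Units.val_one, Matrix.one_mulVec]
    module
  rw [key]; exact M.inv_mem m

theorem T_conj {g : GL ι F} (hg : g ∈ M) (h : T M v w) :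
    T M ((g : Matrix ι ι F) *ᵥ v) (w ᵥ* ((g⁻¹ : GL ι F) : Matrix ι ι F)) := by
  obtain ⟨e, m⟩ := h
  have e' : (w ᵥ* ((g⁻¹ : GL ι F) : Matrix ι ι F)) ⬝ᵥ ((g : Matrix ι ι F) *ᵥ v) = 0 := by
    rw [← Matrix.dotProduct_mulVec, Matrix.mulVec_mulVec, ← Units.val_mul, inv_mul_cancel, Units.val_one,
      Matrix.one_mulVec]
    exact e
  refine ⟨e', ?_⟩
  rw [← tv_conj g v w e _ (fun x => (Matrix.dotProduct_mulVec _ _ _).symm) e']
  exact M.mul_mem (M.mul_mem hg m) (M.inv_mem hg)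

end T

/-- rational vectors -/
def Rt (F₀ : Subfield F) (v : ι → F) : Prop := ∀ i, v i ∈ F₀

section R

variable {F₀ : Subfield F}

theorem Rt.dot {v w : ι → F} (hv : Rt F₀ v) (hw : Rt F₀ w) : w ⬝ᵥ v ∈ F₀ :=
  F₀.sum_mem (fun i _ => F₀.mul_mem (hw i) (hv i))

theorem Rt.smul {v : ι → F} (hv : Rt F₀ v) {c : F} (hc : c ∈ F₀) : Rt F₀ (c • v) :=
  fun i => F₀.mul_mem hc (hv i)

theorem Rt.add {v w : ι → F} (hv : Rt F₀ v) (hw : Rt F₀ w) : Rt F₀ (v + w) :=
  fun i => F₀.add_mem (hv i) (hw i)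

theorem Rt.sub {v w : ι → F} (hv : Rt F₀ v) (hw : Rt F₀ w) : Rt F₀ (v - w) :=
  fun i => F₀.sub_mem (hv i) (hw i)

theorem Rt.neg {v : ι → F} (hv : Rt F₀ v) : Rt F₀ (-v) := fun i => F₀.neg_mem (hv i)

theorem Rt_single (i : ι) {c : F} (hc : c ∈ F₀) : Rt F₀ (Pi.single i c) := by
  intro j
  by_cases h : j = i
  · subst h; rw [Pi.single_eq_same]; exact hc
  · rw [Pi.single_eq_of_ne h]; exact F₀.zero_mem

theorem exists_perp2 (h3 : 3 ≤ Fintype.card ι) {v w : ι → F} (hv : Rt F₀ v) (hw : Rt F₀ w) :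
    ∃ ψ : ι → F, Rt F₀ ψ ∧ ψ ≠ 0 ∧ ψ ⬝ᵥ v = 0 ∧ ψ ⬝ᵥ w = 0 := by
  let v' : ι → F₀ := fun i => ⟨v i, hv i⟩
  let w' : ι → F₀ := fun i => ⟨w i, hw i⟩
  let L : (ι → F₀) →ₗ[F₀] (Fin 2 → F₀) := Matrix.mulVecLin !![0;0] |> fun _ =>
    LinearMap.pi ![Fintype.linearCombination F₀ v', Fintype.linearCombination F₀ w']
  have hL : ∀ x, L x = ![∑ i, x i * v' i, ∑ i, x i * w' i] := by
    intro x
    ext j
    fin_cases j <;> simp [L, Fintype.linearCombination_apply]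
  have hker : LinearMap.ker L ≠ ⊥ := by
    apply LinearMap.ker_ne_bot_of_finrank_lt
    rw [Module.finrank_fintype_fun_eq_card, Module.finrank_fintype_fun_eq_card, Fintype.card_fin]
    omega
  obtain ⟨x, hx, hx0⟩ := Submodule.exists_mem_ne_zero_of_ne_bot hker
  rw [LinearMap.mem_ker, hL] at hx
  refine ⟨fun i => (x i : F), fun i => (x i).2, ?_, ?_, ?_⟩
  · intro h
    apply hx0
    ext i
    exact congrFun h i
  · have := congrFun hx 0
    simpa [dotProduct] using congrArg (F₀.subtype) this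
  · have := congrFun hx 1
    simpa [dotProduct] using congrArg (F₀.subtype) this

theorem exists_perp_one {a b : ι → F} (ha : Rt F₀ a) (hb : Rt F₀ b) (ha0 : a ≠ 0) (h : ∀ c : F, b ≠ c • a) :
    ∃ ψ : ι → F, Rt F₀ ψ ∧ ψ ⬝ᵥ a = 0 ∧ ψ ⬝ᵥ b = 1 := by
  obtain ⟨i, hi⟩ := Function.ne_iff.1 ha0
  have hi : a i ≠ 0 := hi
  obtain ⟨j, hj⟩ : ∃ j, a i * b j - a j * b i ≠ 0 := by
    by_contra hcon
    push Not at hcon
    refine h (b i / a i) ?_
    ext j
    rw [Pi.smul_apply, smul_eq_mul]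
    field_simp
    linear_combination hcon j
  set d := a i * b j - a j * b i with hd
  have hdF : d ∈ F₀ := F₀.sub_mem (F₀.mul_mem (ha i) (hb j)) (F₀.mul_mem (ha j) (hb i))
  refine ⟨d⁻¹ • (Pi.single j (a i) - Pi.single i (a j)), ?_, ?_, ?_⟩
  · exact ((Rt_single j (ha i)).sub (Rt_single i (ha j))).smul (F₀.inv_mem hdF)
  · rw [smul_dotProduct, sub_dotProduct, single_dotProduct, single_dotProduct]
    rw [mul_comm (a i), sub_self, smul_zero]
  · rw [smul_dotProduct, sub_dotProduct, single_dotProduct, single_dotProduct, smul_eq_mul, ← hd, inv_mul_cancel₀ hj]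

/-- a nonzero rational vector of `w^⊥` independent of `v` -/
theorem exists_perp_indep (h3 : 3 ≤ Fintype.card ι) {v w : ι → F} (hv : Rt F₀ v) (hv0 : v ≠ 0) (hw : Rt F₀ w) :
    ∃ u : ι → F, Rt F₀ u ∧ u ≠ 0 ∧ w ⬝ᵥ u = 0 ∧ ∀ c : F, u ≠ c • v := by
  obtain ⟨i, hi⟩ := Function.ne_iff.1 hv0
  have hi : v i ≠ 0 := hi
  obtain ⟨u, hu, hu0, h1, h2⟩ := exists_perp2 h3 hw (Rt_single (F₀ := F₀) i F₀.one_mem)
  refine ⟨u, hu, hu0, by rw [dotProduct_comm]; exact h1, ?_⟩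
  rintro c rfl
  rw [dotProduct_single, mul_one, Pi.smul_apply, smul_eq_mul] at h2
  rcases mul_eq_zero.mp h2 with h | h
  · apply hu0; rw [h, zero_smul]
  · exact hi h

end R

section Full

variable {F₀ : Subfield F} {M : Subgroup (GL ι F)}
variable (h3 : 3 ≤ Fintype.card ι) (hX : ∀ v w : ι → F, Rt F₀ v → Rt F₀ w → w ⬝ᵥ v = 0 → T M v w)

include hX in
theorem left1 {v w u : ι → F} {l : F} (hv : Rt F₀ v) (hT : T M v (l • w)) (hu : Rt F₀ u)
    (hu0 : u ≠ 0) (hwu : w ⬝ᵥ u = 0) (hne : ∀ c : F, v ≠ c • u) : T M u (l • w) := by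
  obtain ⟨ψ, hψ, h1, h2⟩ := exists_perp_one hu hv hu0 hne
  have := T_comm hT (hX u ψ hu hψ h1) (by rw [smul_dotProduct, hwu, smul_zero])
  rwa [h2, one_smul] at this

include hX in
theorem right1 {v w ψ : ι → F} {l : F} (hw : Rt F₀ w) (hT : T M v (l • w)) (hψ : Rt F₀ ψ)
    (hψ0 : ψ ≠ 0) (hψv : ψ ⬝ᵥ v = 0) (hne : ∀ c : F, w ≠ c • ψ) : T M v (l • ψ) := by
  obtain ⟨u, hu, h1, h2⟩ := exists_perp_one hψ hw hψ0 hne
  have := T_comm (hX u ψ hu hψ (by rw [dotProduct_comm]; exact h1)) hT hψv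
  rwa [smul_dotProduct, dotProduct_comm, h2, smul_eq_mul, mul_one] at this

include h3 hX in
theorem left2 {v w u : ι → F} {l : F} (hv : Rt F₀ v) (hv0 : v ≠ 0) (hw : Rt F₀ w) (hT : T M v (l • w)) (hu : Rt F₀ u)
    (hu0 : u ≠ 0) (hwu : w ⬝ᵥ u = 0) : T M u (l • w) := by
  by_cases hne : ∀ c : F, v ≠ c • u
  · exact left1 hX hv hT hu hu0 hwu hne
  · push Not at hne
    obtain ⟨c, hc⟩ := hne
    have hc0 : c ≠ 0 := by rintro rfl; rw [zero_smul] at hc; exact hv0 hc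
    obtain ⟨u', hu', hu'0, h1, h2⟩ := exists_perp_indep h3 hv hv0 hw
    have h4 := left1 hX hv hT hu' hu'0 h1 (by
      intro d hd
      by_cases hd0 : d = 0
      · rw [hd0, zero_smul] at hd; exact hv0 hd
      · apply h2 d⁻¹
        rw [hd, smul_smul, inv_mul_cancel₀ hd0, one_smul])
    refine left1 hX hu' h4 hu hu0 hwu ?_
    intro d hd
    apply h2 (d * c⁻¹)
    rw [hc, smul_smul, mul_assoc, inv_mul_cancel₀ hc0, mul_one]
    exact hd

include h3 hX in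
theorem right2 {v w ψ : ι → F} {l : F} (hv : Rt F₀ v) (hw : Rt F₀ w) (hw0 : w ≠ 0) (hT : T M v (l • w)) (hψ : Rt F₀ ψ)
    (hψ0 : ψ ≠ 0) (hψv : ψ ⬝ᵥ v = 0) : T M v (l • ψ) := by
  by_cases hne : ∀ c : F, w ≠ c • ψ
  · exact right1 hX hw hT hψ hψ0 hψv hne
  · push Not at hne
    obtain ⟨c, hc⟩ := hne
    have hc0 : c ≠ 0 := by rintro rfl; rw [zero_smul] at hc; exact hw0 hc
    obtain ⟨u', hu', hu'0, h1, h2⟩ := exists_perp_indep h3 hw hw0 hv
    have h4 := right1 hX hw hT hu' hu'0 (by rw [dotProduct_comm]; exact h1) (by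
      intro d hd
      by_cases hd0 : d = 0
      · rw [hd0, zero_smul] at hd; exact hw0 hd
      · apply h2 d⁻¹
        rw [hd, smul_smul, inv_mul_cancel₀ hd0, one_smul])
    refine right1 hX hu' h4 hψ hψ0 hψv ?_
    intro d hd
    apply h2 (d * c⁻¹)
    rw [hc, smul_smul, mul_assoc, inv_mul_cancel₀ hc0, mul_one]
    exact hd

include h3 hX in
theorem move {v w v' w' : ι → F} {l : F} (hv : Rt F₀ v) (hv0 : v ≠ 0) (hw : Rt F₀ w) (hw0 : w ≠ 0) (hT : T M v (l • w))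
    (hv' : Rt F₀ v') (hv'0 : v' ≠ 0) (hw' : Rt F₀ w') (hw'0 : w' ≠ 0) (h : w' ⬝ᵥ v' = 0) : T M v' (l • w') := by
  obtain ⟨u, hu, hu0, h1, h2⟩ := exists_perp2 h3 hw hw'
  have a1 := left2 h3 hX hv hv0 hw hT hu hu0 (by rw [dotProduct_comm]; exact h1)
  have a2 := right2 h3 hX hu hw hw0 a1 hw' hw'0 (by rw [dotProduct_comm]; exact h2)
  exact left2 h3 hX hu hu0 hw' a2 hv' hv'0 h

include h3 hX in
/-- one nonrational multiple of a rational transvection gives everything -/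
theorem full [Fintype F] (r : ℕ) (hr : r.Prime) (hcard : Fintype.card F = Nat.card F₀ ^ r) {v w : ι → F} {l : F}
    (hv : Rt F₀ v) (hv0 : v ≠ 0) (hw : Rt F₀ w) (hw0 : w ≠ 0) (hT : T M v (l • w)) (hl : l ∉ F₀) :
    Cfsg.Geo.specialLinear ι F ≤ M := by
  have hnt : Nontrivial ι := Fintype.one_lt_card_iff_nontrivial.mp (by omega)
  have e3 : ∀ v w : ι → F, (0 : F) • w = 0 := fun _ w => zero_smul F w
  obtain ⟨k, hk⟩ := SubfRankTwo.exists_subfield
    {l : F | ∀ v w : ι → F, Rt F₀ v → v ≠ 0 → Rt F₀ w → w ≠ 0 → w ⬝ᵥ v = 0 → T M v (l • w)}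
    (fun v w hv _ hw _ h => by rw [one_smul]; exact hX v w hv hw h)
    (fun a ha b hb v w hv hv0 hw hw0 h => by
      rw [add_smul]; exact T_add (ha v w hv hv0 hw hw0 h) (hb v w hv hv0 hw hw0 h))
    (fun a ha v w hv hv0 hw hw0 h => by rw [neg_smul]; exact T_neg (ha v w hv hv0 hw hw0 h))
    (fun a ha b hb v w hv hv0 hw hw0 h => by
      obtain ⟨u, hu, hu0, h1, h2⟩ := exists_perp_indep h3 hv hv0 hw
      obtain ⟨ψ, hψ, h4, h5⟩ := exists_perp_one hv hu hv0 h2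
      have hψ0 : ψ ≠ 0 := by rintro rfl; rw [zero_dotProduct] at h5; exact zero_ne_one h5
      have a1 := ha u w hu hu0 hw hw0 h1
      have a2 := hb v ψ hv hv0 hψ hψ0 h4
      have a3 := T_comm a1 a2 (by rw [smul_dotProduct, h, smul_zero])
      rwa [smul_dotProduct, h5, smul_eq_mul, mul_one, smul_smul, mul_comm] at a3)
  have hkF : F₀ ≤ k := by
    intro s hs
    have : s ∈ (k : Set F) := by
      rw [hk]
      intro v w hv _ hw _ h
      exact hX v _ hv (hw.smul hs) (by rw [smul_dotProduct, h, smul_zero])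
    exact this
  have hlk : l ∈ k := by
    have : l ∈ (k : Set F) := by
      rw [hk]
      intro v' w' hv' hv'0 hw' hw'0 h
      exact move h3 hX hv hv0 hw hw0 hT hv' hv'0 hw' hw'0 h
    exact this
  have htop := SubfRankTwo.eq_top_of_mem F₀ k r hr hcard hkF hlk hl
  apply sl_le_of_el
  intro i j hij c
  have hc : c ∈ (k : Set F) := by rw [htop]; trivial
  rw [hk] at hc
  have hne : ∀ i : ι, (Pi.single i (1 : F) : ι → F) ≠ 0 := by
    intro i h
    have := congrFun h i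
    rw [Pi.single_eq_same] at this
    exact one_ne_zero this
  have h5 := hc (Pi.single i 1) (Pi.single j 1) (Rt_single i F₀.one_mem) (hne i) (Rt_single j F₀.one_mem) (hne j) (by
    rw [single_dotProduct, Pi.single_eq_of_ne hij.symm, mul_zero])
  obtain ⟨e, m⟩ := h5
  have key : el i j hij c = tv (Pi.single i 1) (c • Pi.single j 1) e := by
    apply gl_ext
    intro x
    rw [el_mulVec, tv_mulVec, smul_dotProduct, single_dotProduct, one_mul]
    ext k
    by_cases hk : k = i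
    · subst hk
      simp
    · simp [Function.update_of_ne hk, Pi.single_eq_of_ne hk]
  rw [key]; exact m

end Full

end Cfsg.Agent.Lib.SubfMax
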