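import Mathlib
import Cfsg.Agent.Lib.SubfMax2
import Cfsg.Agent.Lib.LowRankTwo

/-!
# Overgroups of `SL_n(F₀)` in `SL_n(F)`: rationality of the transvections, `n ≥ 5` (after helper98)
-/

set_option autoImplicit false
set_option linter.unusedSectionVars false

namespace Cfsg.Agent.Lib.LowSubf

open Matrix Cfsg.Agent.Lib Cfsg.Agent.Lib.SLGeom Cfsg.Agent.Lib.SubfMax
open scoped MatrixGroups

variable {ι : Type} [Fintype ι] [DecidableEq ι] {F : Type*} [Field F] {F₀ : Subfield F} {M : Subgroup (GL ι F)}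

variable (H : Hyp F₀ M)

include H in
/-- totally nonrational transvections do not exist -/
theorem caseB [Fintype F] (hn : 5 ≤ Fintype.card ι) (r : ℕ) (hr : r.Prime) (hcard : Fintype.card F = Nat.card F₀ ^ r)
    {v φ : ι → F} (hT : T M v φ) (h1 : ∀ w₀ : ι → F, Rt F₀ w₀ → w₀ ≠ 0 → φ ⬝ᵥ w₀ ≠ 0)
    (h2 : ∀ ψ₀ : ι → F, Rt F₀ ψ₀ → ψ₀ ≠ 0 → ψ₀ ⬝ᵥ v ≠ 0) : False := by
  classical
  obtain ⟨i₀⟩ : Nonempty ι := Fintype.card_pos_iff.mp (by omega)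
  set w₀ : ι → F := Pi.single i₀ 1 with hw₀
  have hw₀R : Rt F₀ w₀ := Rt_single i₀ F₀.one_mem
  have hw₀0 : w₀ ≠ 0 := single_ne i₀
  have hdw : ∀ ψ : ι → F, ψ ⬝ᵥ w₀ = ψ i₀ := fun ψ => by rw [hw₀, dotProduct_single, mul_one]
  let Λ : AddSubgroup F :=
    { carrier := {l | ∃ ψ : ι → F, Rt F₀ ψ ∧ ψ i₀ = 0 ∧ ψ ⬝ᵥ v = l}
      zero_mem' := ⟨0, fun i => F₀.zero_mem, rfl, zero_dotProduct _⟩
      add_mem' := by
        rintro _ _ ⟨ψ, a, b, rfl⟩ ⟨ψ', a', b', rfl⟩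
        exact ⟨ψ + ψ', a.add a', by rw [Pi.add_apply, b, b', add_zero], add_dotProduct _ _ _⟩
      neg_mem' := by
        rintro _ ⟨ψ, a, b, rfl⟩
        exact ⟨-ψ, a.neg, by rw [Pi.neg_apply, b, neg_zero], neg_dotProduct _ _⟩ }
  have hΛ : ∀ s ∈ F₀, ∀ l ∈ Λ, s * l ∈ Λ := by
    rintro s hs _ ⟨ψ, a, b, rfl⟩
    exact ⟨s • ψ, a.smul hs, by rw [Pi.smul_apply, b, smul_zero], smul_dotProduct _ _ _⟩
  have hF0 : 2 ≤ Nat.card F₀ := Finite.one_lt_card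
  have hcardΛ : Nat.card F₀ ^ 4 ≤ Nat.card Λ := by
    let J : ({i : ι // i ≠ i₀} → F₀) → Λ := fun x =>
      ⟨(fun i => if h : i ≠ i₀ then ((x ⟨i, h⟩ : F₀) : F) else 0) ⬝ᵥ v, _, fun i => by
        by_cases h : i ≠ i₀
        · rw [dif_pos h]; exact SetLike.coe_mem _
        · rw [dif_neg h]; exact F₀.zero_mem, by simp, rfl⟩
    have hJ : Function.Injective J := by
      intro x y hxy
      have h3 := congrArg Subtype.val hxy
      change (fun i => if h : i ≠ i₀ then ((x ⟨i, h⟩ : F₀) : F) else 0) ⬝ᵥ v =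
        (fun i => if h : i ≠ i₀ then ((y ⟨i, h⟩ : F₀) : F) else 0) ⬝ᵥ v at h3
      rw [← sub_eq_zero, ← sub_dotProduct] at h3
      by_contra hne
      refine h2 _ ?_ ?_ h3
      · intro i
        rw [Pi.sub_apply]
        by_cases h : i ≠ i₀
        · rw [dif_pos h, dif_pos h]; exact F₀.sub_mem (SetLike.coe_mem _) (SetLike.coe_mem _)
        · rw [dif_neg h, dif_neg h, sub_zero]; exact F₀.zero_mem
      · intro h0
        apply hne
        funext ⟨i, hi⟩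
        have := congrFun h0 i
        rw [Pi.sub_apply, dif_pos hi, dif_pos hi, Pi.zero_apply, sub_eq_zero] at this
        exact Subtype.ext this
    have h3 := Nat.card_le_card_of_injective J hJ
    rw [Nat.card_fun, Nat.card_eq_fintype_card (α := {i : ι // i ≠ i₀}), Fintype.card_subtype_compl,
      Fintype.card_subtype_eq] at h3
    exact (Nat.pow_le_pow_right (by omega) (by omega)).trans h3
  have hbig : 8 < Nat.card Λ := by
    have : 2 ^ 4 ≤ Nat.card F₀ ^ 4 := Nat.pow_le_pow_left hF0 4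
    omega
  have hbig2 : Nat.card F₀ < Nat.card Λ := by
    have : Nat.card F₀ ^ 1 < Nat.card F₀ ^ 4 := Nat.pow_lt_pow_right (by omega) (by norm_num)
    rw [pow_one] at this
    omega
  have hU : ∀ l ∈ Λ, ClSL2.uS l ∈ planeGrp M w₀ v := by
    rintro _ ⟨ψ, a, b, rfl⟩
    obtain ⟨e, m⟩ := H.hX w₀ ψ hw₀R a (by rw [hdw, b])
    refine ⟨_, m, ?_, ?_⟩
    · rw [tv_mulVec, e, ClSL2.coe_uS]; simp
    · rw [tv_mulVec, ClSL2.coe_uS]; simp [add_comm]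
  have hL : ClSL2.lS (φ i₀) ∈ planeGrp M w₀ v := by
    obtain ⟨e, m⟩ := hT
    refine ⟨_, m, ?_, ?_⟩
    · rw [tv_mulVec, hdw, ClSL2.coe_lS]; simp
    · rw [tv_mulVec, e, ClSL2.coe_lS]; simp
  have hc : φ i₀ ≠ 0 := by
    rw [← hdw φ]; exact h1 w₀ hw₀R hw₀0
  have hsq : ∀ m : F, ∀ l ∈ Λ, m ^ 2 * l ∈ Λ := by
    intro μ l hl
    by_cases hμ : μ = 0
    · rw [hμ, zero_pow (by norm_num), zero_mul]; exact Λ.zero_mem
    obtain ⟨ψ, a, b, rfl⟩ := hl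
    let κ : SL(2, F) := ⟨!![μ, 0; 0, μ⁻¹], by rw [Matrix.det_fin_two_of, mul_inv_cancel₀ hμ]; simp⟩
    obtain ⟨κ', ⟨g, hg, g1, g2⟩, ε, hε, hκ'⟩ := LowRankTwo.rank_two F₀ r hr hcard Λ hΛ hbig hbig2 (φ i₀) hc
      (planeGrp M w₀ v) hU hL κ
    have hε0 : ε ≠ 0 := by rintro rfl; norm_num at hε
    have hε2 : ε⁻¹ = ε := inv_eq_of_mul_eq_one_left (by rw [← sq]; exact hε)
    rw [hκ'] at g1 g2
    have g1' : (g : Matrix ι ι F) *ᵥ w₀ = (ε * μ) • w₀ := by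
      rw [g1]; simp [κ]
    have g2' : (g : Matrix ι ι F) *ᵥ v = (ε * μ⁻¹) • v := by
      rw [g2]; simp [κ]
    have gi : ∀ {c : F} {x : ι → F}, c ≠ 0 → (g : Matrix ι ι F) *ᵥ x = c • x → ((g⁻¹ : GL ι F) : Matrix ι ι F) *ᵥ x = c⁻¹ • x := by
      intro c x hc hx
      have : x = c⁻¹ • ((g : Matrix ι ι F) *ᵥ x) := by rw [hx, smul_smul, inv_mul_cancel₀ hc, one_smul]
      conv_lhs => rw [this]
      rw [Matrix.mulVec_smul, Matrix.mulVec_mulVec, ← Units.val_mul, inv_mul_cancel, Units.val_one, Matrix.one_mulVec]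
    have a1 := T_conj hg (H.hX w₀ ψ hw₀R a (by rw [hdw, b]))
    rw [g1'] at a1
    have a2 := T_smul a1
    obtain ⟨η₀, hη₀, hη₀0, e1, _⟩ := exists_perp2 H.h3 hw₀R hw₀R
    set θ := (ε * μ) • (ψ ᵥ* ((g⁻¹ : GL ι F) : Matrix ι ι F)) with hθ
    have hθR : Rt F₀ θ := by
      intro i
      have := caseR H a2 hη₀ hη₀0 e1 (Rt_single i₀ F₀.one_mem) (Rt_single i F₀.one_mem)
      rwa [hdw, Pi.single_eq_same, one_mul, dotProduct_single, mul_one] at this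
    refine ⟨θ, hθR, ?_, ?_⟩
    · rw [← hdw θ, hθ, smul_dotProduct, ← Matrix.dotProduct_mulVec, gi (mul_ne_zero hε0 hμ) g1', dotProduct_smul, hdw, b,
        smul_zero, smul_zero]
    · rw [hθ, smul_dotProduct, ← Matrix.dotProduct_mulVec, gi (mul_ne_zero hε0 (inv_ne_zero hμ)) g2', dotProduct_smul,
        smul_smul, mul_inv, inv_inv, hε2, smul_eq_mul]
      congr 1
      calc ε * μ * (ε * μ) = ε ^ 2 * μ ^ 2 := by ring
        _ = μ ^ 2 := by rw [hε, one_mul]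
  -- conclusion
  obtain ⟨j, hj⟩ : ∃ j, j ≠ i₀ := by
    have : Nontrivial ι := Fintype.one_lt_card_iff_nontrivial.mp (by omega)
    exact exists_ne i₀
  have hvi : ∀ i, v i ≠ 0 := by
    intro i
    have := h2 (Pi.single i 1) (Rt_single i F₀.one_mem) (single_ne i)
    rwa [single_dotProduct, one_mul] at this
  have hvj : v j ∈ Λ := ⟨Pi.single j 1, Rt_single j F₀.one_mem, Pi.single_eq_of_ne hj.symm 1, by
    rw [single_dotProduct, one_mul]⟩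
  have h5 := stable Λ hsq (v i₀ / v j) (v j) hvj
  rw [div_mul_cancel₀ _ (hvi j)] at h5
  obtain ⟨ψ, a, b, e⟩ := h5
  refine h2 (ψ - w₀) (a.sub hw₀R) ?_ ?_
  · intro h0
    have := congrFun h0 i₀
    rw [Pi.sub_apply, b, hw₀, Pi.single_eq_same, zero_sub, Pi.zero_apply, neg_eq_zero] at this
    exact one_ne_zero this
  · rw [sub_dotProduct, e, hw₀, single_dotProduct, one_mul, sub_self]

include H in
/-- all transvections are rational -/
theorem rational [Fintype F] (hn : 5 ≤ Fintype.card ι) (r : ℕ) (hr : r.Prime) (hcard : Fintype.card F = Nat.card F₀ ^ r)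
    {v φ : ι → F} (hT : T M v φ) (i j : ι) : v i * φ j ∈ F₀ := by
  have key : ∀ {ψ₀ w₁ : ι → F}, Rt F₀ ψ₀ → Rt F₀ w₁ → (ψ₀ ⬝ᵥ v) * (φ ⬝ᵥ w₁) ∈ F₀ := by
    by_cases h1 : ∀ w₀ : ι → F, Rt F₀ w₀ → w₀ ≠ 0 → φ ⬝ᵥ w₀ ≠ 0
    · by_cases h2 : ∀ ψ₀ : ι → F, Rt F₀ ψ₀ → ψ₀ ≠ 0 → ψ₀ ⬝ᵥ v ≠ 0
      · exact (caseB H hn r hr hcard hT h1 h2).elim
      · push Not at h2
        obtain ⟨η₀, a, b, c⟩ := h2
        intro hψ₀ hw₁
        exact caseR H hT a b c hψ₀ hw₁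
    · push Not at h1
      obtain ⟨w₀, a, b, c⟩ := h1
      intro hψ₀ hw₁
      exact caseL H hT a b c hψ₀ hw₁
  have := key (Rt_single i F₀.one_mem) (Rt_single j F₀.one_mem)
  rwa [single_dotProduct, dotProduct_single, one_mul, mul_one] at this

end Cfsg.Agent.Lib.LowSubf
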