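import Mathlib
import Cfsg.Agent.Lib.SLUn

set_option autoImplicit false
set_option linter.unusedSectionVars false

/-!
Overgroups of the special unitary group in the special linear group, dimension `≥ 6` (after helper94).
-/

namespace Cfsg.Agent.Lib.LowUn

open Cfsg.Agent.Lib.SpTrans (isom mem_isom)
open Cfsg.Agent.Lib.UnTrans Cfsg.Agent.Lib.UnMax Cfsg.Agent.Lib.SLUn
open Cfsg.Agent.Lib.SLMax (tr tr_apply tr_det conj_tr tr_mul)

variable {F V : Type*} [Field F] [AddCommGroup V] [Module F V] [FiniteDimensional F V]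
variable {σ : F →+* F} {f : V → V → F} (H : HS σ f)

include H in
/-- a good isotropic vector orthogonal to three given vectors -/
theorem exists_hyp3 (hnd : Nd f (⊤ : Submodule F V)) (hdim : 6 ≤ Module.finrank F V) {v w e : V}
    (hvw : f v w = 0) (hev : f e v = 0) (hee : f e e = 0) (hew : f e w ≠ 0) :
    ∃ z, f z v = 0 ∧ f z w = 0 ∧ f z e = 0 ∧ f z z = 0 ∧ ∃ y, f y v = 0 ∧ f y w = 0 ∧ f y e = 0 ∧
      f z y ≠ 0 := by
  set U : Submodule F V := ⊤ ⊓ LinearMap.ker (H.fl v) ⊓ LinearMap.ker (H.fl w) ⊓ LinearMap.ker (H.fl e)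
    with hU
  have memU : ∀ x, x ∈ U ↔ f x v = 0 ∧ f x w = 0 ∧ f x e = 0 := by
    intro x; simp [hU, and_assoc]
  have h1 := HS.finrank_inf_ker (⊤ : Submodule F V) (H.fl v)
  have h2 := HS.finrank_inf_ker (⊤ ⊓ LinearMap.ker (H.fl v)) (H.fl w)
  have h3 := HS.finrank_inf_ker (⊤ ⊓ LinearMap.ker (H.fl v) ⊓ LinearMap.ker (H.fl w)) (H.fl e)
  rw [finrank_top] at h1
  rw [← hU] at h3
  set R : Submodule F V := Submodule.span F {v} with hR
  have hRd : Module.finrank F R ≤ 1 := by
    have := finrank_span_le_card (R := F) ({v} : Set V)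
    simpa using this
  have hwv := H.symm_zero hvw
  have hve := H.symm_zero hev
  have hwe := H.symm_ne hew
  obtain ⟨z, hz, hzz, y, hy, hzy⟩ := exists_hyp' H (U := U) (R := R) (by omega) (by
    intro u hu h
    obtain ⟨-, huw, hue⟩ := (memU u).1 hu
    by_contra huR
    obtain ⟨x, hx, hxu⟩ := exists_perp_ne H hnd huR
    have hxv : f x v = 0 := hx v (Submodule.subset_span rfl)
    -- correct `x` by a combination of `e` and `w`
    obtain ⟨a, ha⟩ : ∃ a, a = -(f x e) / f w e := ⟨_, rfl⟩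
    obtain ⟨b, hb⟩ : ∃ b, b = -(f x w + a * f w w) / f e w := ⟨_, rfl⟩
    have k1 : f (x + a • w + b • e) v = 0 := by
      rw [H.add_left, H.add_left, H.smul_left, H.smul_left, hxv, hwv, hev]; ring
    have k2 : f (x + a • w + b • e) w = 0 := by
      rw [H.add_left, H.add_left, H.smul_left, H.smul_left, hb, div_mul_cancel₀ _ hew]; ring
    have k3 : f (x + a • w + b • e) e = 0 := by
      rw [H.add_left, H.add_left, H.smul_left, H.smul_left, hee, ha, div_mul_cancel₀ _ hwe]; ring
    apply hxu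
    have k4 := h _ ((memU _).2 ⟨k1, k2, k3⟩)
    rw [H.add_left, H.add_left, H.smul_left, H.smul_left, H.symm_zero huw, H.symm_zero hue] at k4
    simpa using k4)
  obtain ⟨a1, a2, a3⟩ := (memU z).1 hz
  obtain ⟨b1, b2, b3⟩ := (memU y).1 hy
  exact ⟨z, a1, a2, a3, hzz, y, b1, b2, b3, hzy⟩

variable {H} {M : Subgroup (V ≃ₗ[F] V)}

/-- growing `Psi` -/
theorem psi_full (hnd : Nd f (⊤ : Submodule F V)) (hdim : 6 ≤ Module.finrank F V)
    (hT : tgrp H ⊤ ≤ M) {v w : V} (hw : w ∈ Psi H M v) (hne : ∃ u, f u v = 0 ∧ f u w ≠ 0) :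
    ∀ y, f v y = 0 → y ∈ Psi H M v := by
  have htop4 : 4 ≤ Module.finrank F (⊤ : Submodule F V) := by rw [finrank_top]; omega
  have hvw := H.symm_zero hw.1
  -- isotropic e with f w e ≠ 0
  obtain ⟨e, hev, hee, hew⟩ : ∃ e, f e v = 0 ∧ f e e = 0 ∧ f e w ≠ 0 := by
    by_contra hcon
    push Not at hcon
    obtain ⟨u, huv, huw⟩ := hne
    apply huw
    obtain ⟨z, -, hze, hzz, y, -, hwe, hzw⟩ := H.exists_hyp hnd htop4 (w := v) trivial
    have h1 : u ∈ Submodule.span F {z | z ∈ ⊤ ⊓ LinearMap.ker (H.fl v) ∧ f z z = 0} :=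
      H.mem_span_iso (z := z) (y := y) (by simp [*]) hzz (by simp [*]) hzw (by simp [*])
    have h2 : Submodule.span F {z | z ∈ ⊤ ⊓ LinearMap.ker (H.fl v) ∧ f z z = 0} ≤
        LinearMap.ker (H.fl w) := by
      rw [Submodule.span_le]
      rintro e ⟨he, hee⟩
      exact hcon e (by simpa using he) hee
    exact h2 h1
  obtain ⟨z, hzv, hzw, hze, hzz, y0, hy0v, -, -, hzy⟩ := exists_hyp3 H hnd hdim hw.1 hev hee hew
  -- all multiples of z are in Psi
  have hz : ∀ c : F, c • z ∈ Psi H M v := by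
    intro c
    -- rho (l e) z 0 maps w to w + f(w, l e) z - f(w,z) l e
    have hwz : f w z = 0 := H.symm_zero hzw
    have hwe : f w e ≠ 0 := H.symm_ne hew
    have h1 : f ((σ (c / f w e)) • e) ((σ (c / f w e)) • e) = 0 := by
      rw [H.smul_left, H.smul_right, hee]; ring
    have h2 : f z ((σ (c / f w e)) • e) = 0 := by rw [H.smul_right, hze, mul_zero]
    obtain ⟨t, ht, htx⟩ := rhoIn_iso H (le_refl (tgrp H ⊤)) (e := (σ (c / f w e)) • e) (u := z)
      trivial trivial h1 hzz h2
    have h3 := psi_map hw (hT ht) (tgrp_le_isom H _ ht)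
    have h4 : t v = v := by
      rw [htx, rho, H.smul_right, H.symm_zero hev, H.symm_zero hzv]; simp
    have h5 : t w = w + c • z := by
      rw [htx, rho, H.smul_right, hwz, H.inv, div_mul_cancel₀ _ hwe]; simp
    rw [h4, h5] at h3
    have := psi_sub h3 hw
    simpa using this
  -- isotropic z' with f z z' ≠ 0
  obtain ⟨τ, hτ0, hτ⟩ := H.exists_tr0
  have hz' : ∀ z', f z' v = 0 → f z' z' = 0 → f z z' ≠ 0 → ∀ c : F, c • z' ∈ Psi H M v := by
    intro z' h1 h2 h3 c
    have h4 := psi_map (hz (c / (τ * f z z'))) (hT (tv_mem_tgrp H (W := ⊤) (w := z') trivial h2 τ hτ)) (tv_mem H _ _ _ _)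
    have h5 : tv H z' h2 τ hτ v = v := by rw [tv_apply, H.symm_zero h1]; simp
    rw [h5, tv_apply, H.smul_left] at h4
    have h6 := psi_sub h4 (hz (c / (τ * f z z')))
    have h7 : τ * (c / (τ * f z z') * f z z') = c := by field_simp
    rw [add_sub_cancel_left, h7] at h6
    exact h6
  have hyy : ∀ y, f y v = 0 → f z y ≠ 0 → ∀ c : F, c • y ∈ Psi H M v := by
    intro y h1 h2 c
    obtain ⟨a, ha⟩ := H.exists_add_norm hzz h2 (map_zero σ)
    have h3 := hz' (y + a • z) (by rw [H.add_left, H.smul_left, h1, hzv]; ring) ha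
      (by rw [H.add_right, H.smul_right, hzz, mul_zero, add_zero]; exact h2) c
    have h4 := psi_sub h3 (hz (c * a))
    have h5 : c • (y + a • z) - (c * a) • z = c • y := by module
    rwa [h5] at h4
  intro y hy
  have hy' := H.symm_zero hy
  by_cases h : f z y = 0
  · have h1 := hyy (y + y0) (by rw [H.add_left, hy', hy0v, add_zero])
      (by rw [H.add_right, h, zero_add]; exact hzy) 1
    have h2 := hyy y0 hy0v hzy 1
    have h3 := psi_sub h1 h2
    simpa using h3
  · have := hyy y hy' h 1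
    simpa using this

/-- an overgroup of `SU(f)` with an element that is not a similarity contains all transvections -/
theorem all_tr_mem_of_not_similarity (hnd : Nd f (⊤ : Submodule F V)) (hdim : 6 ≤ Module.finrank F V)
    (hT : tgrp H ⊤ ≤ M) {g : V ≃ₗ[F] V} (hg : g ∈ M)
    (hns : ¬ ∃ c : F, c ≠ 0 ∧ ∀ x y, f (g x) (g y) = c * f x y) :
    ∀ (u : V) (φ : Module.Dual F V) (h : φ u = 0), tr u φ h ∈ M := by
  have htop4 : 4 ≤ Module.finrank F (⊤ : Submodule F V) := by rw [finrank_top]; omega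
  have hgx : ∀ x, g (g⁻¹ x) = x := fun x => by
    rw [← LinearEquiv.mul_apply, mul_inv_cancel]; rfl
  have hgx' : ∀ x, g⁻¹ (g x) = x := fun x => by
    rw [← LinearEquiv.mul_apply, inv_mul_cancel]; rfl
  -- adjoint
  have hadj : ∀ v0, ∃ w, ∀ x, f (g⁻¹ x) v0 = f x w := by
    intro v0
    obtain ⟨w, hw⟩ := fl_surj H hnd (H.fl v0 ∘ₗ (g⁻¹ : V ≃ₗ[F] V).toLinearMap)
    exact ⟨w, fun x => (LinearMap.congr_fun hw x).symm⟩
  by_cases hall : ∀ v0, f v0 v0 = 0 → ∃ c : F, ∀ x, f x v0 = c * f (g x) (g v0)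
  · exfalso
    apply hns
    obtain ⟨z0, -, -, hz00, y0, -, -, hzy0⟩ := H.exists_hyp hnd htop4 (w := 0) trivial
    obtain ⟨c0, hc0⟩ := hall z0 hz00
    have hz0ne : z0 ≠ 0 := by rintro rfl; exact hzy0 (H.zero_left _)
    have hcst : ∀ v1, f v1 v1 = 0 → ∀ x, f x v1 = c0 * f (g x) (g v1) := by
      intro v1 hv1
      by_cases hdep : ∃ l : F, v1 = l • z0
      · obtain ⟨l, rfl⟩ := hdep
        intro x
        rw [LinearEquiv.map_smul, H.smul_right, H.smul_right, hc0]; ring
      push Not at hdep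
      obtain ⟨c1, hc1⟩ := hall v1 hv1
      obtain ⟨τ, hτ0, hτ⟩ := H.exists_tr0
      obtain ⟨l, hl0, hl⟩ : ∃ l : F, l ≠ 0 ∧ l * f v1 z0 + σ (l * f v1 z0) = 0 := by
        by_cases h : f v1 z0 = 0
        · exact ⟨1, one_ne_zero, by rw [h]; simp⟩
        · exact ⟨τ / f v1 z0, div_ne_zero hτ0 h, by rw [div_mul_cancel₀ _ h]; exact hτ⟩
      have hs : f (z0 + l • v1) (z0 + l • v1) = 0 := by
        rw [H.expand, hz00, hv1]; linear_combination hl
      obtain ⟨cs, hcs⟩ := hall _ hs
      have h1 : ∀ x, f x (σ (cs - c0) • g z0 + (l * σ (cs - c1)) • g v1) = 0 := by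
        intro x
        obtain ⟨x, rfl⟩ := g.surjective x
        have h2 := hcs x
        rw [map_add, LinearEquiv.map_smul, H.add_right, H.add_right, H.smul_right, H.smul_right,
          hc0 x, hc1 x] at h2
        rw [H.add_right, H.smul_right, H.smul_right, H.inv, map_mul, H.inv]
        linear_combination -h2
      have h2 : σ (cs - c0) • g z0 + (l * σ (cs - c1)) • g v1 = 0 := by
        by_contra hne
        obtain ⟨y, -, hy⟩ := hnd _ trivial hne
        exact H.symm_ne hy (h1 y)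
      rw [← LinearEquiv.map_smul, ← LinearEquiv.map_smul, ← map_add, LinearEquiv.map_eq_zero_iff] at h2
      have h3 : l * σ (cs - c1) = 0 := by
        by_contra hne
        apply hdep (-((l * σ (cs - c1))⁻¹ * σ (cs - c0)))
        have h4 : (l * σ (cs - c1)) • v1 = -(σ (cs - c0) • z0) := eq_neg_of_add_eq_zero_right h2
        rw [neg_smul, mul_smul, ← smul_neg, ← h4, smul_smul, inv_mul_cancel₀ hne, one_smul]
      rw [h3, zero_smul, add_zero] at h2
      have h5 : σ (cs - c0) = 0 := (smul_eq_zero.1 h2).resolve_right hz0ne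
      have h6 : cs = c0 := by
        have : cs - c0 = 0 := by rw [← H.inv (cs - c0), h5, map_zero]
        exact sub_eq_zero.1 this
      have h7 : cs = c1 := by
        have h8 : σ (cs - c1) = 0 := (mul_eq_zero.1 h3).resolve_left hl0
        have : cs - c1 = 0 := by rw [← H.inv (cs - c1), h8, map_zero]
        exact sub_eq_zero.1 this
      intro x
      rw [hc1 x, ← h7, h6]
    have hlin : ∀ y x, f x y = c0 * f (g x) (g y) := by
      intro y
      have h1 : y ∈ Submodule.span F {z | z ∈ (⊤ : Submodule F V) ∧ f z z = 0} :=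
        H.mem_span_iso (z := z0) (y := y0) trivial hz00 trivial hzy0 trivial
      refine Submodule.span_induction ?_ ?_ ?_ ?_ h1
      · rintro z ⟨-, hz⟩; exact hcst z hz
      · intro x; rw [map_zero, H.zero_right, H.zero_right, mul_zero]
      · intro a b _ _ ha hb x
        rw [map_add, H.add_right, H.add_right, ha, hb]; ring
      · intro a b _ hb x
        rw [LinearEquiv.map_smul, H.smul_right, H.smul_right, hb]; ring
    have hc00 : c0 ≠ 0 := by
      rintro rfl
      have := hlin y0 z0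
      rw [zero_mul] at this
      exact hzy0 this
    refine ⟨c0⁻¹, inv_ne_zero hc00, fun x y => ?_⟩
    rw [hlin y x, ← mul_assoc, inv_mul_cancel₀ hc00, one_mul]
  · push Not at hall
    obtain ⟨v0, hv0, hv0c⟩ := hall
    obtain ⟨w, hw⟩ := hadj v0
    have hwspan : w ∉ Submodule.span F {g v0} := by
      intro h
      obtain ⟨c, hc⟩ := Submodule.mem_span_singleton.1 h
      obtain ⟨x, hx⟩ := hv0c (σ c)
      apply hx
      have h1 := hw (g x)
      rw [hgx', ← hc, H.smul_right] at h1
      exact h1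
    have hne : ∃ u, f u (g v0) = 0 ∧ f u w ≠ 0 := by
      by_contra hcon
      push Not at hcon
      exact hwspan (H.mem_span_of_perp hnd trivial trivial fun x _ hx => hcon x hx)
    obtain ⟨τ, hτ0, hτ⟩ := H.exists_tr0
    have hpsi : σ τ • w ∈ Psi H M (g v0) := by
      have h0 : f (g v0) w = 0 := by rw [← hw, hgx', hv0]
      refine ⟨by rw [H.smul_right, h0, mul_zero], fun h => ?_⟩
      have : tr (g v0) (H.fl (σ τ • w)) h = g * tv H v0 hv0 τ hτ * g⁻¹ := by
        ext x
        rw [tr_apply, LinearEquiv.mul_apply, LinearEquiv.mul_apply, tv_apply, map_add,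
          LinearEquiv.map_smul g, hgx, hw]
        show x + f x (σ τ • w) • g v0 = _
        rw [H.smul_right, H.inv]
      rw [this]
      exact mul_mem (mul_mem hg (hT (tv_mem_tgrp H (W := ⊤) trivial _ _ _))) (inv_mem hg)
    have hne' : ∃ u, f u (g v0) = 0 ∧ f u (σ τ • w) ≠ 0 := by
      obtain ⟨u, h1, h2⟩ := hne
      refine ⟨u, h1, ?_⟩
      rw [H.smul_right, H.inv]
      exact mul_ne_zero hτ0 h2
    have hfull := psi_full hnd hdim hT hpsi hne'
    have hgv0 : g v0 ≠ 0 := by
      intro h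
      apply hwspan
      have hv00 : v0 = 0 := by simpa using h
      have : w = 0 := by
        by_contra hne
        obtain ⟨y, -, hy⟩ := hnd w trivial hne
        apply H.symm_ne hy
        rw [← hw, hv00, H.zero_right]
      rw [this]; exact Submodule.zero_mem _
    have hcen : g v0 ∈ cenSL M := by
      intro φ h
      obtain ⟨y, rfl⟩ := fl_surj H hnd φ
      exact (hfull y h).2 h
    exact fun u => cenSL_all hnd (by omega) hT hcen hgv0 u

end Cfsg.Agent.Lib.LowUn
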