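import Cfsg.Agent.Lib.LyCXr
import Cfsg.Prelude.Def_Sporadic

/-!
The centralizer of an element of order 3 of the Lyons group (helper23)
-/

set_option autoImplicit false
set_option linter.all false

namespace Cfsg.Agent.Lib.LyCX

open Cfsg.Spor Cfsg.Agent.Lib.M5 Cfsg.Agent.Lib.BenesWord Cfsg.Agent.Lib.H58SM
open Cfsg

theorem key (W : Wd) (hW : Cfsg.Agent.Lib.CoxBridge.lets 39 W = true) : LyH.ρ (W.eval LyH.Y) = W.eval LyRep.u := by
  rw [Wd.map_eval]
  exact Cfsg.Agent.Lib.CoxBridge.eval_congr (n := 39) (fun c hc => LyH.ρ_spec c hc) W hW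

/-- the centralizer of an element of order 3 -/
theorem main (hrho : Function.Injective LyH.ρ) [Finite Ly] {x : Ly} (hxe : x = Wx.eval LyH.Y)
    (hcard : Nat.card (Subgroup.centralizer ({x} : Set Ly)) ≤ 2694384000) :
    orderOf x = 3 ∧ Nat.card (Subgroup.center (Subgroup.centralizer ({x} : Set Ly))) = 3 ∧
      IsMcL ((Subgroup.centralizer ({x} : Set Ly)) ⧸ Subgroup.center (Subgroup.centralizer ({x} : Set Ly))) := by
  have h0 := key W0 (by decide)
  have h1 := key W1 (by decide)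
  have hx := key Wx (by decide)
  rw [← hxe] at hx
  have hx3 : orderOf x = 3 := by
    rw [← orderOf_injective LyH.ρ hrho, hx]
    exact orderOf_eq_prime cC_spec.2.2 x_ne
  refine ⟨hx3, ?_⟩
  have comm : ∀ {k : Ly} {g : GL111}, LyH.ρ k = g → Wx.eval LyRep.u * g * (Wx.eval LyRep.u)⁻¹ * g⁻¹ = 1 →
      k ∈ Subgroup.centralizer ({x} : Set Ly) := by
    intro k g hk h
    rw [Subgroup.mem_centralizer_singleton_iff]
    apply hrho
    rw [map_mul, map_mul, hk, hx]
    have h2 := mul_inv_eq_one.mp h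
    have h3 := mul_inv_eq_iff_eq_mul.mp h2
    exact h3.symm
  set C := Subgroup.centralizer ({x} : Set Ly) with hC
  let k0 : C := ⟨W0.eval LyH.Y, comm h0 cC_spec.1⟩
  let k1 : C := ⟨W1.eval LyH.Y, comm h1 cC_spec.2.1⟩
  have hxC : x ∈ C := Subgroup.mem_centralizer_singleton_iff.2 rfl
  let kx : C := ⟨x, hxC⟩
  let f : C →* GL111 := LyH.ρ.comp C.subtype
  have hord : orderOf kx = 3 := by
    rw [← orderOf_injective C.subtype Subtype.coe_injective]
    exact hx3
  obtain ⟨h2, ⟨φ⟩⟩ := sub_ext (A := ML.G) (C := C) (center_bot_of_simple (by rw [ML.cardG]; norm_num)) (DK f)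
    (sur f (k0 := k0) (k1 := k1) h0 h1) (nmemK f) (x := kx) hord (by
      show ((1 : ML.G), LyH.ρ x) ∈ D
      rw [hx]; exact memx) (by
      intro c
      apply Subtype.ext
      exact Subgroup.mem_centralizer_singleton_iff.1 c.2) (by
      rw [ML.cardG]; exact hcard)
  refine ⟨h2, ?_, ?_⟩
  · exact φ.isSimpleGroup
  · rw [Nat.card_congr φ.toEquiv, ML.cardG]

end Cfsg.Agent.Lib.LyCX
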