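import Cfsg.Agent.Lib.LyTi
import Cfsg.Agent.Lib.LyM3
import Cfsg.Agent.Lib.LyLow
import Cfsg.Agent.Lib.StemDbl
import Cfsg.Agent.Lib.H15AltMult3
import Cfsg.Agent.S2100

/-!
# The Schur multiplier of the Lyons group
-/

set_option autoImplicit false
set_option linter.all false

namespace Cfsg.Agent.Lib.LyMul

open Cfsg.Spor Subgroup Cfsg.Agent.Lib.SchurSylow
open Cfsg.Agent.Lib.LyH (Y ρ HH iso)
open Cfsg.Agent.Lib.LyT Cfsg.Agent.Lib.LyTi

theorem p3 (hρ : Function.Injective ρ) (hc : Nat.card Ly = 51765179004000000) : PStemDvd 3 Ly 1 := by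
  haveI : Finite Ly := Nat.finite_of_card_ne_zero (by rw [hc]; norm_num)
  exact LyM3.p3 (n := 11) (Y 0 ^ 4) LyCU.Z_sq TT (fun i => T3 hρ i) (fun i => TZ hρ i)
    (fun i j => T_comm hρ i i.2 j j.2) r s k (rZ hρ) (sZ hρ) (kZ hρ) (r3 hρ) (s3 hρ) (k2 hρ) (rs hρ) (kr hρ) (ks hρ)
    (rT hρ) (sT' hρ) (kT hρ) (fun i j hij => pair hρ i j hij) (index_S hρ hc)

theorem p2 (hρ : Function.Injective ρ) (hc : Nat.card Ly = 51765179004000000) : PStemDvd 2 Ly 1 := by
  haveI : Finite Ly := Nat.finite_of_card_ne_zero (by rw [hc]; norm_num)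
  haveI : Fact (Nat.Prime 2) := ⟨Nat.prime_two⟩
  obtain ⟨D, -, h2, h3⟩ := LyCU.main hρ
  have hidx : ¬ 2 ∣ D.index := by
    intro h
    have h4 := D.card_mul_index
    have h5 : 39916800 * 2 ∣ Nat.card Ly := by rw [← h4, h2]; exact Nat.mul_dvd_mul_left _ h
    rw [hc] at h5
    revert h5
    norm_num
  refine PStemDvd.of_index hidx (StemDvd.pStemDvd ?_ 2)
  have hs : IsSimpleGroup (alternatingGroup (Fin 11)) := alternatingGroup.isSimpleGroup (by simp)
  have hperf : commutator (alternatingGroup (Fin 11)) = ⊤ := by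
    apply StemDbl.perfect_of_simple hs
    intro hcomm
    have h1 := hcomm ⟨Equiv.swap 0 1 * Equiv.swap 1 2, by
      rw [Equiv.Perm.mem_alternatingGroup]; decide⟩ ⟨Equiv.swap 0 1 * Equiv.swap 1 3, by
      rw [Equiv.Perm.mem_alternatingGroup]; decide⟩
    have h2 := congrArg Subtype.val h1
    have h3 : (Equiv.swap 0 1 * Equiv.swap 1 2) * (Equiv.swap 0 1 * Equiv.swap 1 3) =
      (Equiv.swap 0 1 * Equiv.swap 1 3) * (Equiv.swap 0 1 * Equiv.swap (1 : Fin 11) 2) := h2
    have h4 := congrArg (fun e : Equiv.Perm (Fin 11) => e 0) h3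
    revert h4
    decide
  exact StemDbl.stemDvd_dbl h3 hperf (n := 1)
    (Cfsg.Agent.Lib.H15AltMult.stemDvd_alternating (n := 11) (by norm_num) (by norm_num) (by norm_num))

theorem p5 (hc : Nat.card Ly = 51765179004000000) (hi : HH.index = 8835156) : PStemDvd 5 Ly 1 := by
  haveI : Fact (Nat.Prime 5) := ⟨Nat.prime_five⟩
  obtain ⟨e⟩ := iso
  refine PStemDvd.of_index (H := HH) (by rw [hi]; norm_num) (StemDvd.pStemDvd ?_ 5)
  have h := Cfsg.Agent.S2100.result (F := ZMod 5) (by rw [ZMod.card])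
  exact StemDvd.congr e.symm (stemDvd_of_hasTrivial h)

theorem pp {G : Type} [Group G] [Finite G] {p : ℕ} [hp : Fact p.Prime] (h : ¬ p ^ 2 ∣ Nat.card G) : PStemDvd p G 1 := by
  obtain ⟨P⟩ : Nonempty (Sylow p G) := inferInstance
  have hcard := P.card_eq_multiplicity
  have hle : (Nat.card G).factorization p ≤ 1 := by
    by_contra hlt
    exact h ((Nat.pow_dvd_pow p (by omega)).trans (Nat.ordProj_dvd _ p))
  have hcyc : IsCyclic (P : Subgroup G) := by
    rcases Nat.eq_zero_or_pos ((Nat.card G).factorization p) with h0 | h0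
    · rw [h0, pow_zero] at hcard
      haveI := (Nat.card_eq_one_iff_unique.1 hcard).1
      exact isCyclic_of_subsingleton
    · have h1 : (Nat.card G).factorization p = 1 := by omega
      rw [h1, pow_one] at hcard
      exact isCyclic_of_prime_card hcard
  exact PStemDvd.of_index (H := (P : Subgroup G)) (Sylow.not_dvd_index P) (stemDvd_of_isCyclic.pStemDvd p)

theorem stem (hρ : Function.Injective ρ) (hc : Nat.card Ly = 51765179004000000) (hi : HH.index = 8835156) :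
    StemDvd Ly 1 := by
  haveI : Finite Ly := Nat.finite_of_card_ne_zero (by rw [hc]; norm_num)
  apply StemDvd.of_forall
  intro p hp
  haveI : Fact p.Prime := ⟨hp⟩
  by_cases h2 : p = 2
  · subst h2; exact p2 hρ hc
  by_cases h3 : p = 3
  · subst h3; exact p3 hρ hc
  by_cases h5 : p = 5
  · subst h5; exact p5 hc hi
  apply pp
  rw [hc]
  intro h
  have hN : (51765179004000000 : ℕ) = (2 ^ 8 * 3 ^ 7 * 5 ^ 6) * (7 * 11 * 31 * 37 * 67) := by norm_num
  rw [hN] at h
  have c2 : Nat.Coprime (p ^ 2) (2 ^ 8) := Nat.Coprime.pow _ _ ((Nat.coprime_primes hp Nat.prime_two).2 h2)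
  have c3 : Nat.Coprime (p ^ 2) (3 ^ 7) := Nat.Coprime.pow _ _ ((Nat.coprime_primes hp Nat.prime_three).2 h3)
  have c5 : Nat.Coprime (p ^ 2) (5 ^ 6) := Nat.Coprime.pow _ _ ((Nat.coprime_primes hp Nat.prime_five).2 h5)
  have h6 : p ^ 2 ∣ 7 * 11 * 31 * 37 * 67 := ((c2.mul_right c3).mul_right c5).dvd_of_dvd_mul_left h
  have h7 : p ∣ 7 * 11 * 31 * 37 * 67 := (dvd_pow_self p (by norm_num)).trans h6
  rw [hp.dvd_mul, hp.dvd_mul, hp.dvd_mul, hp.dvd_mul, Nat.prime_dvd_prime_iff_eq hp (by norm_num),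
    Nat.prime_dvd_prime_iff_eq hp (by norm_num), Nat.prime_dvd_prime_iff_eq hp (by norm_num),
    Nat.prime_dvd_prime_iff_eq hp (by norm_num), Nat.prime_dvd_prime_iff_eq hp (by norm_num)] at h7
  rcases h7 with (((rfl | rfl) | rfl) | rfl) | rfl <;> revert h6 <;> norm_num

theorem mult (h0 : HH.index ≠ 0) (h : HH.index ≤ 8835156) : Cfsg.HasCyclicSchurMultiplier Ly 1 := by
  obtain ⟨hi, hc, hρ⟩ := LyLow.final h0 h
  haveI : Finite Ly := Nat.finite_of_card_ne_zero (by rw [hc]; norm_num)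
  exact hasTrivial_of_stemDvd (stem hρ hc hi)

end Cfsg.Agent.Lib.LyMul
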