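import Cfsg.Agent.Lib.LyTw
import Cfsg.Agent.Lib.LyCU

/-!
# An elementary abelian subgroup of order 243 of the Lyons group
-/

set_option autoImplicit false
set_option linter.all false
set_option maxRecDepth 100000

namespace Cfsg.Agent.Lib.LyT

open Cfsg.Spor Cfsg.Agent.Lib.M5 Cfsg.Agent.Lib.BenesWord Cfsg.Agent.Lib.LyTw Subgroup
open Cfsg.Agent.Lib.LyH (Y ρ ρ_spec relY)
open Cfsg.Agent.Lib.LyCU (YY Y6 X map_ev ρY6 ρX)
open Cfsg.Agent.Lib.LyCUw (Zw)

theorem v_eq : ∀ c < 16, v c = LyCUw.v c := by
  intro c hc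
  apply Units.ext
  have h1 : c < L.length := by show c < 22; omega
  have h2 : c < LyCUw.L.length := by show c < 16; omega
  have e1 : ((v c : (Matrix (Fin 111) (Fin 111) (ZMod 5))ˣ) : Matrix (Fin 111) (Fin 111) (ZMod 5)) = matR 111 (GG L c) := by
    unfold v uu; rw [dif_pos h1]
  have e2 : ((LyCUw.v c : (Matrix (Fin 111) (Fin 111) (ZMod 5))ˣ) : Matrix (Fin 111) (Fin 111) (ZMod 5)) =
      matR 111 (GG LyCUw.L c) := by
    unfold LyCUw.v uu; rw [dif_pos h2]
  rw [e1, e2]
  interval_cases c <;> rfl

theorem ρYY : ∀ c < 16, ρ (YY c) = v c := by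
  intro c hc
  rw [v_eq c hc]
  unfold YY
  split
  · next h =>
    rw [ρX (c - 7) (by omega)]
    congr 1
    omega
  · next h => exact ρY6 c (by omega)

/-- the elements -/
noncomputable def t : Ly := tw.eval YY
noncomputable def A : Ly := Aw.eval YY
noncomputable def B : Ly := Bw.eval YY
noncomputable def Y7 (c : ℕ) : Ly := if c = 16 then t else if c = 17 then A else if c = 18 then B else YY c
noncomputable def r : Ly := rw'.eval Y7
noncomputable def s : Ly := sw.eval Y7
noncomputable def k : Ly := kw.eval Y7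
noncomputable def Y8 (c : ℕ) : Ly := if c = 19 then r else if c = 20 then s else if c = 21 then k else Y7 c

theorem lets1 : Cfsg.Agent.Lib.CoxBridge.lets 16 tw = true ∧ Cfsg.Agent.Lib.CoxBridge.lets 16 Aw = true ∧
    Cfsg.Agent.Lib.CoxBridge.lets 16 Bw = true := by decide +kernel
theorem lets2 : Cfsg.Agent.Lib.CoxBridge.lets 19 rw' = true ∧ Cfsg.Agent.Lib.CoxBridge.lets 19 sw = true ∧
    Cfsg.Agent.Lib.CoxBridge.lets 19 kw = true := by decide +kernel

theorem ρof {n : ℕ} {c : ℕ} {y : ℕ → Ly} {W : Wd} (hm : Wd.mul (.inv (.g c)) W ∈ relD)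
    (hy : ∀ c < n, ρ (y c) = v c) (hl : Cfsg.Agent.Lib.CoxBridge.lets n W = true) : ρ (W.eval y) = v c := by
  have h1 := relv.1 _ hm
  simp only [Wd.eval] at h1
  have h2 : v c = W.eval v := inv_mul_eq_one.1 h1
  rw [h2, map_ev]
  exact Cfsg.Agent.Lib.CoxBridge.eval_congr (n := n) hy W hl

theorem ρY7 : ∀ c < 19, ρ (Y7 c) = v c := by
  intro c hc
  by_cases h : c < 16
  · have : Y7 c = YY c := by
      unfold Y7; rw [if_neg (by omega), if_neg (by omega), if_neg (by omega)]
    rw [this]; exact ρYY c h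
  · have h3 : c = 16 ∨ c = 17 ∨ c = 18 := by omega
    rcases h3 with rfl | rfl | rfl
    · exact ρof (c := 16) (W := tw) (by simp [relD]) ρYY lets1.1
    · exact ρof (c := 17) (W := Aw) (by simp [relD]) ρYY lets1.2.1
    · exact ρof (c := 18) (W := Bw) (by simp [relD]) ρYY lets1.2.2

theorem ρY8 : ∀ c < 22, ρ (Y8 c) = v c := by
  intro c hc
  by_cases h : c < 19
  · have : Y8 c = Y7 c := by
      unfold Y8; rw [if_neg (by omega), if_neg (by omega), if_neg (by omega)]
    rw [this]; exact ρY7 c h
  · have h3 : c = 19 ∨ c = 20 ∨ c = 21 := by omega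
    rcases h3 with rfl | rfl | rfl
    · exact ρof (c := 19) (W := rw') (by simp [relD]) ρY7 lets2.1
    · exact ρof (c := 20) (W := sw) (by simp [relD]) ρY7 lets2.2.1
    · exact ρof (c := 21) (W := kw) (by simp [relD]) ρY7 lets2.2.2

theorem t_ne1 : t ≠ 1 := by
  intro h
  apply t_ne
  have := ρY8 16 (by norm_num)
  show v 16 = 1
  rw [← this]
  show ρ t = 1
  rw [h, map_one]

/-- the elements of the elementary abelian group -/
noncomputable def T (i : ℕ) : Ly := (A ^ i)⁻¹ * t * A ^ i

theorem T_zero : T 0 = t := by simp [T]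

theorem T_succ (i : ℕ) : A⁻¹ * T i * A = T (i + 1) := by
  unfold T
  rw [pow_succ]; group

theorem cenX {i : ℕ} (hρ : Function.Injective ρ) (hi : i < 9) : YY (7 + i) ∈ centralizer ({Y 0 ^ 4} : Set Ly) := by
  rw [mem_centralizer_singleton_iff]
  have : YY (7 + i) = X i := by
    unfold YY; rw [if_pos (by omega)]; congr 1; omega
  rw [this]
  exact (LyCU.XZ hρ i hi).symm

theorem cenA (hρ : Function.Injective ρ) : A ∈ centralizer ({Y 0 ^ 4} : Set Ly) := by
  have h := fun i (hi : i < 9) => cenX hρ hi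
  have h0 := h 0 (by norm_num)
  have h1 := h 1 (by norm_num)
  have h2 := h 2 (by norm_num)
  have h3 := h 3 (by norm_num)
  have h4 := h 4 (by norm_num)
  have h5 := h 5 (by norm_num)
  have h6 := h 6 (by norm_num)
  have h7 := h 7 (by norm_num)
  have h8 := h 8 (by norm_num)
  show YY 7 * (YY 8)⁻¹ * YY 9 * (YY 10)⁻¹ * YY 11 * (YY 12)⁻¹ * YY 13 * (YY 14)⁻¹ * YY 15 ∈ _
  exact mul_mem (mul_mem (mul_mem (mul_mem (mul_mem (mul_mem (mul_mem (mul_mem h0 (inv_mem h1)) h2) (inv_mem h3)) h4)
    (inv_mem h5)) h6) (inv_mem h7)) h8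

theorem cenB (hρ : Function.Injective ρ) : B ∈ centralizer ({Y 0 ^ 4} : Set Ly) := by
  have h := fun i (hi : i < 9) => cenX hρ hi
  have h0 := h 0 (by norm_num)
  have h1 := h 1 (by norm_num)
  have h2 := h 2 (by norm_num)
  have h3 := h 3 (by norm_num)
  have h4 := h 4 (by norm_num)
  have h5 := h 5 (by norm_num)
  have h6 := h 6 (by norm_num)
  have h7 := h 7 (by norm_num)
  have h8 := h 8 (by norm_num)
  show (YY 7)⁻¹ * YY 11 * (YY 15)⁻¹ * YY 12 * (YY 7)⁻¹ * YY 8 * (YY 14)⁻¹ * YY 9 * (YY 10)⁻¹ * YY 8 ∈ _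
  exact mul_mem (mul_mem (mul_mem (mul_mem (mul_mem (mul_mem (mul_mem (mul_mem (mul_mem (inv_mem h0) h4) (inv_mem h8)) h5)
    (inv_mem h0)) h1) (inv_mem h7)) h2) (inv_mem h3)) h1

section inj

variable (hρ : Function.Injective ρ)
include hρ

theorem rel_of {W : Wd} (hl : Cfsg.Agent.Lib.CoxBridge.lets 22 W = true) (h : W.eval v = 1) : W.eval Y8 = 1 := by
  apply hρ
  rw [map_one, map_ev, ← h]
  exact Cfsg.Agent.Lib.CoxBridge.eval_congr (n := 22) ρY8 W hl

theorem relsT : ∀ W ∈ relT, W.eval Y8 = 1 := fun W hW => rel_of hρ (lets_T W hW) (relv.2.1 W hW)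
theorem relsB : ∀ W ∈ relB, W.eval Y8 = 1 := fun W hW => rel_of hρ (lets_B W hW) (relv.2.2.1 W hW)
theorem relsR : ∀ W ∈ relR, W.eval Y8 = 1 := fun W hW => rel_of hρ (lets_R W hW) (relv.2.2.2 W hW)

theorem t3 : t ^ 3 = 1 := relsT hρ (.pow (.g 16) 3) (by simp [relT])

theorem A11 : A ^ 11 = 1 := relsT hρ (.pow (.g 17) 11) (by simp [relT])

theorem tZ : Y 0 ^ 4 * t * (Y 0 ^ 4)⁻¹ = t⁻¹ := by
  have h : (Y 0 ^ 4)⁻¹ * t * Y 0 ^ 4 * t = 1 := relsT hρ (.mul (.mul (.mul (.inv Zw) (.g 16)) Zw) (.g 16)) (by simp [relT])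
  have h2 : (Y 0 ^ 4)⁻¹ = Y 0 ^ 4 := by
    rw [inv_eq_iff_mul_eq_one, ← pow_two]; exact LyCU.Z_sq
  rw [h2] at h ⊢
  exact eq_inv_of_mul_eq_one_left h

theorem T_add (i : ℕ) : T (i + 11) = T i := by
  unfold T
  rw [pow_add, A11 hρ, mul_one]

theorem Tw_eval {i : ℕ} (hi : i ≤ 11) : (Tw i).eval Y8 = T i := by
  unfold Tw
  split
  · rfl
  · show A ^ (11 - i) * t * (A ^ (11 - i))⁻¹ = T i
    have h : (A ^ (11 - i))⁻¹ = A ^ i := by
      rw [inv_eq_iff_mul_eq_one, ← pow_add, show 11 - i + i = 11 by omega]; exact A11 hρ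
    have h' : A ^ (11 - i) = (A ^ i)⁻¹ := by rw [← h, inv_inv]
    rw [h, h']; rfl

theorem T3 (i : ℕ) : T i ^ 3 = 1 := by
  have : T i = MulAut.conj (A ^ i)⁻¹ t := by rw [MulAut.conj_apply, inv_inv]; rfl
  rw [this, ← map_pow, t3 hρ, map_one]

theorem Tconj (m i : ℕ) : (A ^ m)⁻¹ * T i * A ^ m = T (i + m) := by
  unfold T; rw [pow_add]; group

theorem TZ (i : ℕ) : Y 0 ^ 4 * T i * (Y 0 ^ 4)⁻¹ = (T i)⁻¹ := by
  have hA : A ^ i ∈ centralizer ({Y 0 ^ 4} : Set Ly) := pow_mem (cenA hρ) i
  rw [mem_centralizer_singleton_iff] at hA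
  have h2 : Y 0 ^ 4 * (A ^ i)⁻¹ = (A ^ i)⁻¹ * Y 0 ^ 4 := by
    rw [mul_inv_eq_iff_eq_mul, mul_assoc, ← hA]; group
  have h3 : A ^ i * (Y 0 ^ 4)⁻¹ = (Y 0 ^ 4)⁻¹ * A ^ i := by
    rw [mul_inv_eq_iff_eq_mul, mul_assoc, hA]; group
  unfold T
  calc Y 0 ^ 4 * ((A ^ i)⁻¹ * t * A ^ i) * (Y 0 ^ 4)⁻¹ = (Y 0 ^ 4 * (A ^ i)⁻¹) * t * (A ^ i * (Y 0 ^ 4)⁻¹) := by group
    _ = (A ^ i)⁻¹ * (Y 0 ^ 4 * t * (Y 0 ^ 4)⁻¹) * A ^ i := by rw [h2, h3]; group
    _ = _ := by rw [tZ hρ]; group

theorem T_comm0 {l : ℕ} (hl : l < 6) : T 0 * T l = T l * T 0 := by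
  rcases Nat.eq_zero_or_pos l with rfl | h0
  · rfl
  · have h : (Y8 16)⁻¹ * ((Tw l).eval Y8)⁻¹ * Y8 16 * (Tw l).eval Y8 = 1 := by
      refine relsT hρ (.mul (.mul (.mul (.inv (.g 16)) (.inv (Tw l))) (.g 16)) (Tw l)) ?_
      unfold relT
      apply List.mem_append_right
      rw [List.mem_map]
      exact ⟨l - 1, List.mem_range.2 (by omega), by rw [Nat.sub_add_cancel h0]⟩
    rw [Tw_eval hρ (by omega)] at h
    have h' : t⁻¹ * (T l)⁻¹ * t * T l = 1 := h
    rw [T_zero]
    have : (T l * t)⁻¹ * (t * T l) = 1 := by rw [← h']; group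
    exact (inv_mul_eq_one.1 this).symm

theorem T_comm : ∀ i < 11, ∀ j < 11, T i * T j = T j * T i := by
  have key : ∀ i l, l < 6 → T i * T (i + l) = T (i + l) * T i := by
    intro i l hl
    have h := T_comm0 hρ hl
    have e1 : T i = (A ^ i)⁻¹ * T 0 * A ^ i := by rw [Tconj hρ, Nat.zero_add]
    have e2 : T (i + l) = (A ^ i)⁻¹ * T l * A ^ i := by rw [Tconj hρ, Nat.add_comm]
    rw [e1, e2]
    calc (A ^ i)⁻¹ * T 0 * A ^ i * ((A ^ i)⁻¹ * T l * A ^ i) = (A ^ i)⁻¹ * (T 0 * T l) * A ^ i := by group
      _ = (A ^ i)⁻¹ * (T l * T 0) * A ^ i := by rw [h]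
      _ = _ := by group
  have key2 : ∀ i < 11, ∀ j < 11, i ≤ j → T i * T j = T j * T i := by
    intro i hi j hj hij
    rcases Nat.lt_or_ge (j - i) 6 with h | h
    · have := key i (j - i) h
      rwa [Nat.add_sub_cancel' hij] at this
    · have := key j (i + 11 - j) (by omega)
      rw [Nat.add_sub_cancel' (by omega), T_add hρ] at this
      exact this.symm
  intro i hi j hj
  rcases Nat.le_total i j with h | h
  · exact key2 i hi j hj h
  · exact (key2 j hj i hi h).symm

theorem T_B {i : ℕ} (hi : i < 11) : B⁻¹ * T i * B = if bs i = true then T (bp i) else (T (bp i))⁻¹ := by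
  have h := relsB hρ _ (List.mem_map.2 ⟨i, List.mem_range.2 hi, rfl⟩)
  have hb : bp i ≤ 11 := by
    interval_cases i <;> decide
  by_cases hs : bs i = true
  · rw [if_pos hs]
    rw [if_pos hs] at h
    have h' : B⁻¹ * (Tw i).eval Y8 * B * ((Tw (bp i)).eval Y8)⁻¹ = 1 := h
    rw [Tw_eval hρ (by omega), Tw_eval hρ hb] at h'
    exact mul_inv_eq_one.1 h'
  · rw [if_neg hs]
    rw [if_neg hs] at h
    have h' : B⁻¹ * (Tw i).eval Y8 * B * ((Tw (bp i)).eval Y8) = 1 := h
    rw [Tw_eval hρ (by omega), Tw_eval hρ hb] at h'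
    exact eq_inv_of_mul_eq_one_left h'

theorem r3 : r ^ 3 = 1 := relsR hρ (.pow (.g 19) 3) (by simp [relR])
theorem s3 : s ^ 3 = 1 := relsR hρ (.pow (.g 20) 3) (by simp [relR])
theorem k2 : k ^ 2 = 1 := relsR hρ (.pow (.g 21) 2) (by simp [relR])
theorem rs : r * s = s * r := by
  have h : r⁻¹ * s⁻¹ * r * s = 1 :=
    relsR hρ (.mul (.mul (.mul (.inv (.g 19)) (.inv (.g 20))) (.g 19)) (.g 20)) (by simp [relR])
  have : (s * r)⁻¹ * (r * s) = 1 := by rw [← h]; group
  exact (inv_mul_eq_one.1 this).symm
theorem ks : k * s = s * k := by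
  have h : k⁻¹ * s⁻¹ * k * s = 1 :=
    relsR hρ (.mul (.mul (.mul (.inv (.g 21)) (.inv (.g 20))) (.g 21)) (.g 20)) (by simp [relR])
  have : (s * k)⁻¹ * (k * s) = 1 := by rw [← h]; group
  exact (inv_mul_eq_one.1 this).symm
theorem kr : k * r * k⁻¹ = r⁻¹ := by
  have h : k * r * k⁻¹ * r = 1 :=
    relsR hρ (.mul (.mul (.mul (.g 21) (.g 19)) (.inv (.g 21))) (.g 19)) (by simp [relR])
  exact eq_inv_of_mul_eq_one_left h

end inj

/-! ### Words in `A` and `B` -/

noncomputable def ev : List Bool → Ly
  | [] => 1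
  | b :: w => (if b then A else B) * ev w

theorem ev_append (w w' : List Bool) : ev (w ++ w') = ev w * ev w' := by
  induction w with
  | nil => simp [ev]
  | cons b w ih => simp [ev, ih, mul_assoc]

def step (b : Bool) (p : ℕ × Bool) : ℕ × Bool :=
  if b then ((p.1 + 1) % 11, p.2) else (bp p.1, p.2 == bs p.1)

def act : List Bool → ℕ × Bool → ℕ × Bool
  | [], p => p
  | b :: w, p => act w (step b p)

noncomputable def sT (p : ℕ × Bool) : Ly := if p.2 = true then T p.1 else (T p.1)⁻¹

theorem bp_lt {i : ℕ} (hi : i < 11) : bp i < 11 := by interval_cases i <;> decide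

theorem step_lt {b : Bool} {p : ℕ × Bool} (h : p.1 < 11) : (step b p).1 < 11 := by
  unfold step
  split
  · exact Nat.mod_lt _ (by norm_num)
  · exact bp_lt h

theorem act_lt (w : List Bool) : ∀ {p : ℕ × Bool}, p.1 < 11 → (act w p).1 < 11 := by
  induction w with
  | nil => intro p h; exact h
  | cons b w ih => intro p h; exact ih (step_lt h)

theorem step_conj (hρ : Function.Injective ρ) (b : Bool) {p : ℕ × Bool} (h : p.1 < 11) :
    (if b then A else B)⁻¹ * sT p * (if b then A else B) = sT (step b p) := by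
  obtain ⟨i, e⟩ := p
  have h' : i < 11 := h
  cases b
  · have hB := T_B hρ h'
    simp only [Bool.false_eq_true, if_false, sT, step]
    cases e
    · simp only [Bool.false_eq_true, if_false]
      have e1 : B⁻¹ * (T i)⁻¹ * B = (B⁻¹ * T i * B)⁻¹ := by group
      rw [e1, hB]
      cases hb : bs i <;> simp
    · simp only [if_true]
      rw [hB]
      cases hb : bs i <;> simp
  · have hA := T_succ i
    have hm : T ((i + 1) % 11) = T (i + 1) := by
      by_cases h10 : i = 10
      · subst h10
        exact (T_add hρ 0).symm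
      · rw [Nat.mod_eq_of_lt (by omega)]
    simp only [if_true, sT, step]
    cases e
    · simp only [Bool.false_eq_true, if_false]
      have e1 : A⁻¹ * (T i)⁻¹ * A = (A⁻¹ * T i * A)⁻¹ := by group
      rw [e1, hA, hm]
    · simp only [if_true]
      rw [hA, hm]

theorem ev_conj (hρ : Function.Injective ρ) (w : List Bool) : ∀ {p : ℕ × Bool}, p.1 < 11 →
    (ev w)⁻¹ * sT p * ev w = sT (act w p) := by
  induction w with
  | nil => intro p h; simp [ev, act]
  | cons b w ih =>
    intro p h
    have h1 := step_conj hρ b h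
    have h2 := ih (step_lt (b := b) h)
    show ((if b then A else B) * ev w)⁻¹ * sT p * ((if b then A else B) * ev w) = sT (act w (step b p))
    rw [← h2, ← h1]; group

theorem cen_ev (hρ : Function.Injective ρ) (w : List Bool) : ev w ∈ centralizer ({Y 0 ^ 4} : Set Ly) := by
  induction w with
  | nil => exact one_mem _
  | cons b w ih =>
    refine mul_mem ?_ ih
    cases b
    · exact cenB hρ
    · exact cenA hρ

/-- words for the pairs -/
def pws : List (List Bool) := [
  [false],
  [true, true, true, true, true, false],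
  [true, true, true, true, false, true],
  [true, true, true, false, true, true],
  [true, true, false, true, true, true],
  [true, true, false, true, true, false],
  [true, true, false, true, false, false],
  [true, false, true, true, true, true],
  [true, false, true, true, false, true],
  [true, false, true, false, false, true],
  [true, false, false, true, true, false],
  [false, true, true, true, true, true],
  [false, true, true, false, true, true],
  [false, true, true, false, true, false],
  [false, true, false, false, true, true],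
  [false, false, true, true, false, true],
  [true, false, true, false, false, false, true],
  [true, false, false, false, true, true, false],
  [false, true, true, false, true, false, false],
  [false, true, false, false, false, true, true],
  [false, false, true, true, false, true, false],
  [true, false, true, false, false, true, false, false],
  [true, false, false, true, true, false, false, false],
  [true, false, false, false, true, false, false, true],
  [false, true, false, true, false, false, true, false],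
  [false, true, false, false, true, false, true, false],
  [false, false, true, false, true, false, false, true],
  [false, false, true, false, false, true, false, true],
  [false, false, false, true, false, false, true, true],
  [false, false, false, true, false, false, false, true],
  [true, true, true, true, true, true, false, true, false],
  [true, true, true, true, true, false, true, false, true],
  [true, true, true, true, false, true, false, true, true],
  [true, true, true, true, false, false, false, true, true],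
  [true, true, false, true, false, true, false, true, true],
  [true, true, false, false, false, true, false, true, true],
  [true, false, true, true, true, true, false, true, false],
  [true, false, true, false, true, false, true, true, true],
  [true, false, false, true, true, false, true, true, true, true],
  [true, true, false, false, true, true, false, true, false, false, true]]

theorem chk_pair0 : ((List.range 11).all fun i => (List.range 11).all fun j => i == j || pws.any fun w =>
    ((act w (i, true) == (i, true)) && (act w (j, true) == (j, false))) ||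
      ((act w (i, true) == (i, false)) && (act w (j, true) == (j, true)))) = true := by decide +kernel

theorem chk_pair : ∀ i < 11, ∀ j < 11, i ≠ j → ∃ w ∈ pws,
    (act w (i, true) = (i, true) ∧ act w (j, true) = (j, false)) ∨
      (act w (i, true) = (i, false) ∧ act w (j, true) = (j, true)) := by
  intro i hi j hj hij
  have h := List.all_eq_true.1 (List.all_eq_true.1 chk_pair0 i (List.mem_range.2 hi)) j (List.mem_range.2 hj)
  rw [Bool.or_eq_true, List.any_eq_true] at h
  rcases h with h | ⟨w, hw, h⟩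
  · exact absurd (beq_iff_eq.1 h) hij
  · refine ⟨w, hw, ?_⟩
    rw [Bool.or_eq_true, Bool.and_eq_true, Bool.and_eq_true] at h
    simpa only [beq_iff_eq] using h

end Cfsg.Agent.Lib.LyT
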