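import Cfsg.Agent.Lib.LyT
import Cfsg.Agent.Lib.LyCUs
import Cfsg.Agent.Lib.SchurSylow

/-!
# A subgroup of order divisible by `3 ^ 7` in the Lyons group
-/

set_option autoImplicit false
set_option linter.all false

namespace Cfsg.Agent.Lib.LyTi

open Cfsg.Spor Subgroup
open Cfsg.Agent.Lib.LyH (Y ρ)
open Cfsg.Agent.Lib.LyT

/-! ### Generalities -/

theorem comm_of {G : Type*} [Group G] {S : Set G} (h : ∀ x ∈ S, ∀ y ∈ S, x * y = y * x) :
    ∀ x ∈ closure S, ∀ y ∈ closure S, x * y = y * x := by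
  have h1 : closure S ≤ centralizer S := by
    rw [closure_le]
    intro x hx
    rw [SetLike.mem_coe, mem_centralizer_iff]
    intro y hy
    exact h y hy x hx
  have h2 : closure S ≤ centralizer (closure S : Set G) := by
    rw [closure_le]
    intro x hx
    rw [SetLike.mem_coe, mem_centralizer_iff]
    intro y hy
    exact ((mem_centralizer_iff.1 (h1 hy)) x hx).symm
  intro x hx y hy
  exact ((mem_centralizer_iff.1 (h2 hx)) y hy).symm

theorem cube_of {G : Type*} [Group G] {S : Set G} (h : ∀ x ∈ S, ∀ y ∈ S, x * y = y * x) (h3 : ∀ x ∈ S, x ^ 3 = 1) :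
    ∀ x ∈ closure S, x ^ 3 = 1 := by
  intro x hx
  induction hx using closure_induction with
  | mem x hx => exact h3 x hx
  | one => exact one_pow 3
  | mul x y hx hy ihx ihy =>
    have hc : Commute x y := comm_of h x hx y hy
    rw [hc.mul_pow, ihx, ihy, one_mul]
  | inv x hx ih => rw [inv_pow, ih, inv_one]

theorem inv_of {G : Type*} [Group G] {S : Set G} (h : ∀ x ∈ S, ∀ y ∈ S, x * y = y * x) {z : G}
    (hz : ∀ x ∈ S, z * x * z⁻¹ = x⁻¹) : ∀ x ∈ closure S, z * x * z⁻¹ = x⁻¹ := by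
  intro x hx
  induction hx using closure_induction with
  | mem x hx => exact hz x hx
  | one => simp
  | mul x y hx hy ihx ihy =>
    have hc := comm_of h x hx y hy
    calc z * (x * y) * z⁻¹ = (z * x * z⁻¹) * (z * y * z⁻¹) := by group
      _ = (y * x)⁻¹ := by rw [ihx, ihy, mul_inv_rev]
      _ = _ := by rw [hc]
  | inv x hx ih =>
    calc z * x⁻¹ * z⁻¹ = (z * x * z⁻¹)⁻¹ := by group
      _ = _ := by rw [ih]

theorem one_of {G : Type*} [Group G] {x : G} (h3 : x ^ 3 = 1) (h : x = x⁻¹) : x = 1 := by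
  have h2 : x ^ 2 = 1 := by
    rw [pow_two]
    nth_rw 2 [h]
    exact mul_inv_cancel x
  calc x = x ^ 3 * (x ^ 2)⁻¹ := by group
    _ = 1 := by rw [h3, h2]; simp

theorem norm_of {G : Type*} [Group G] [Finite G] {S : Set G} {g : G} (h : ∀ x ∈ S, g * x * g⁻¹ ∈ closure S) :
    g ∈ normalizer (closure S : Set G) := by
  apply mem_normalizer_fintype
  intro n hn
  have h1 : closure S ≤ (closure S).comap (MulAut.conj g).toMonoidHom := by
    rw [closure_le]
    intro x hx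
    exact h x hx
  exact h1 hn

theorem pow_bound {m l : ℕ} (hlm : l < m) (h : 3 ^ m ≡ 3 ^ l [MOD 11]) : 5 ≤ m := by
  by_contra h5
  have h6 : m < 5 := by omega
  interval_cases m <;> interval_cases l <;> simp [Nat.ModEq] at h

theorem five {G : Type*} [Group G] [Finite G] (V : Subgroup G) (hV : IsPGroup 3 V) (a : G) (ha : a ^ 11 = 1)
    (han : a ∈ normalizer (V : Set G)) {v : G} (hv : v ∈ V) (hne : a * v * a⁻¹ ≠ v) : 3 ^ 5 ≤ Nat.card V := by
  haveI : Fact (Nat.Prime 11) := ⟨by norm_num⟩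
  haveI : Fact (Nat.Prime 3) := ⟨by norm_num⟩
  have hle : zpowers a ≤ normalizer (V : Set G) := zpowers_le.2 han
  letI : MulDistribMulAction (zpowers a) V := MulDistribMulAction.compHom V (inclusion hle)
  have hA : IsPGroup 11 (zpowers a) := by
    rintro ⟨x, i, rfl⟩
    refine ⟨1, Subtype.ext ?_⟩
    show (a ^ i) ^ (11 ^ 1) = 1
    rw [pow_one, ← zpow_natCast, ← zpow_mul, mul_comm, zpow_mul, zpow_natCast, ha, one_zpow]
  have h1 := hA.card_modEq_card_fixedPoints V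
  have h2 : Nat.card (MulAction.fixedPoints (zpowers a) V) = Nat.card (FixedPoints.subgroup (zpowers a) V) := rfl
  rw [h2] at h1
  obtain ⟨m, hm⟩ := IsPGroup.iff_card.1 hV
  obtain ⟨l, hl⟩ := IsPGroup.iff_card.1 (hV.to_subgroup (FixedPoints.subgroup (zpowers a) V))
  have hne2 : FixedPoints.subgroup (zpowers a) V ≠ ⊤ := by
    intro h
    have h3 : (⟨v, hv⟩ : V) ∈ FixedPoints.subgroup (zpowers a) V := by rw [h]; trivial
    rw [FixedPoints.mem_subgroup] at h3
    have h4 := h3 ⟨a, mem_zpowers a⟩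
    exact hne (congrArg Subtype.val h4)
  have hlt : Nat.card (FixedPoints.subgroup (zpowers a) V) < Nat.card V := by
    refine lt_of_le_of_ne (card_le_card_group _) ?_
    intro h
    exact hne2 (eq_top_of_card_eq _ h)
  have hlm : l < m := by
    rw [hm, hl] at hlt
    exact (Nat.pow_lt_pow_iff_right (by norm_num)).1 hlt
  rw [hm, hl] at h1
  rw [hm]
  exact Nat.pow_le_pow_right (by norm_num) (pow_bound hlm h1)

/-! ### The group -/

def wr : List Bool := [false, false, true, true, true, false, true]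
def ws : List Bool := [true, true, false, true, false, false, true, true, false]
def wk : List Bool := [true, false, false, true, true, false, false]

theorem r_ev : r = ev wr := by
  show B * B * A * A * A * B * A = _
  simp [ev, wr, mul_assoc]
theorem s_ev : s = ev ws := by
  show A * A * B * A * B * B * A * A * B = _
  simp [ev, ws, mul_assoc]
theorem k_ev : k = ev wk := by
  show A * B * B * A * A * B * B = _
  simp [ev, wk, mul_assoc]

/-- the generators of `V` -/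
noncomputable def TT (i : Fin 11) : Ly := T i

abbrev V : Subgroup Ly := closure (Set.range TT)
abbrev E : Subgroup Ly := closure {r, s}
abbrev S : Subgroup Ly := closure (Set.range TT ∪ {r, s, k})

section

variable (hρ : Function.Injective ρ)
include hρ

theorem T_ne (i : ℕ) : T i ≠ 1 := by
  intro h
  apply t_ne1
  unfold T at h
  have : t = A ^ i * ((A ^ i)⁻¹ * t * A ^ i) * (A ^ i)⁻¹ := by group
  rw [this, h]; group

theorem T_inj : ∀ i < 11, ∀ j < 11, i ≠ j → T i ≠ T j ∧ T i ≠ (T j)⁻¹ := by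
  intro i hi j hj hij
  obtain ⟨w, -, hw⟩ := chk_pair i hi j hj hij
  have hi1 := ev_conj hρ w (p := (i, true)) hi
  have hj1 := ev_conj hρ w (p := (j, true)) hj
  have e1 : sT (i, true) = T i := if_pos rfl
  have e2 : sT (j, true) = T j := if_pos rfl
  have e3 : sT (i, false) = (T i)⁻¹ := if_neg (by simp)
  have e4 : sT (j, false) = (T j)⁻¹ := if_neg (by simp)
  set g := ev w
  have hinv : g⁻¹ * (T j)⁻¹ * g = (g⁻¹ * T j * g)⁻¹ := by group
  rcases hw with ⟨h1, h2⟩ | ⟨h1, h2⟩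
  · rw [h1, e1] at hi1
    rw [h2, e2, e4] at hj1
    constructor
    · intro h
      apply T_ne hρ i
      apply one_of (T3 hρ i)
      nth_rw 1 [← hi1]
      rw [h, hj1]
    · intro h
      apply T_ne hρ i
      apply one_of (T3 hρ i)
      nth_rw 1 [← hi1]
      rw [h, hinv, hj1]
  · rw [h1, e1, e3] at hi1
    rw [h2, e2] at hj1
    constructor
    · intro h
      apply T_ne hρ i
      apply one_of (T3 hρ i)
      rw [← hi1, h, hj1]
    · intro h
      apply T_ne hρ i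
      apply one_of (T3 hρ i)
      rw [← hi1, h, hinv, hj1]

theorem TT_comm : ∀ x ∈ Set.range TT, ∀ y ∈ Set.range TT, x * y = y * x := by
  rintro _ ⟨i, rfl⟩ _ ⟨j, rfl⟩
  exact T_comm hρ i i.2 j j.2

theorem V_cube : ∀ x ∈ V, x ^ 3 = 1 := by
  apply cube_of (TT_comm hρ)
  rintro _ ⟨i, rfl⟩
  exact T3 hρ i

theorem V_inv : ∀ x ∈ V, Y 0 ^ 4 * x * (Y 0 ^ 4)⁻¹ = x⁻¹ := by
  apply inv_of (TT_comm hρ)
  rintro _ ⟨i, rfl⟩
  exact TZ hρ i

theorem sT_mem {p : ℕ × Bool} (h : p.1 < 11) : sT p ∈ V := by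
  have h1 : T p.1 ∈ V := subset_closure ⟨⟨p.1, h⟩, rfl⟩
  unfold sT
  split
  · exact h1
  · exact inv_mem h1

/-- the action of the inverse of a word -/
theorem conj_word (w : List Bool) (i : Fin 11) :
    ∃ j : Fin 11, (ev w)⁻¹ * TT i * ev w = TT j ∨ (ev w)⁻¹ * TT i * ev w = (TT j)⁻¹ := by
  have h := ev_conj hρ w (p := (i.1, true)) i.2
  have e1 : sT (i.1, true) = T i := if_pos rfl
  rw [e1] at h
  refine ⟨⟨(act w (i.1, true)).1, act_lt w i.2⟩, ?_⟩
  show (ev w)⁻¹ * T i * ev w = T _ ∨ (ev w)⁻¹ * T i * ev w = (T _)⁻¹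
  rw [h]
  unfold sT
  split
  · left; rfl
  · right; rfl

theorem conj_of_inv {g : Ly} {w : List Bool} (h : g = (ev w)⁻¹) (i : Fin 11) :
    ∃ j : Fin 11, g * TT i * g⁻¹ = TT j ∨ g * TT i * g⁻¹ = (TT j)⁻¹ := by
  rw [h, inv_inv]
  exact conj_word hρ w i

theorem r_inv : r = (ev (wr ++ wr))⁻¹ := by
  rw [ev_append, ← r_ev, eq_inv_iff_mul_eq_one, ← mul_assoc]
  have := r3 hρ
  rwa [pow_succ, pow_two] at this

theorem s_inv : s = (ev (ws ++ ws))⁻¹ := by
  rw [ev_append, ← s_ev, eq_inv_iff_mul_eq_one, ← mul_assoc]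
  have := s3 hρ
  rwa [pow_succ, pow_two] at this

theorem k_inv : k = (ev wk)⁻¹ := by
  rw [← k_ev, eq_inv_iff_mul_eq_one, ← pow_two]
  exact k2 hρ

theorem rT (i : Fin 11) : ∃ j : Fin 11, r * TT i * r⁻¹ = TT j ∨ r * TT i * r⁻¹ = (TT j)⁻¹ :=
  conj_of_inv hρ (r_inv hρ) i
theorem sT' (i : Fin 11) : ∃ j : Fin 11, s * TT i * s⁻¹ = TT j ∨ s * TT i * s⁻¹ = (TT j)⁻¹ :=
  conj_of_inv hρ (s_inv hρ) i
theorem kT (i : Fin 11) : ∃ j : Fin 11, k * TT i * k⁻¹ = TT j ∨ k * TT i * k⁻¹ = (TT j)⁻¹ :=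
  conj_of_inv hρ (k_inv hρ) i

theorem rZ : r * Y 0 ^ 4 = Y 0 ^ 4 * r := by
  rw [r_ev]; exact mem_centralizer_singleton_iff.1 (cen_ev hρ wr)
theorem sZ : s * Y 0 ^ 4 = Y 0 ^ 4 * s := by
  rw [s_ev]; exact mem_centralizer_singleton_iff.1 (cen_ev hρ ws)
theorem kZ : k * Y 0 ^ 4 = Y 0 ^ 4 * k := by
  rw [k_ev]; exact mem_centralizer_singleton_iff.1 (cen_ev hρ wk)

theorem pair (i j : Fin 11) (hij : i ≠ j) : ∃ g, g * Y 0 ^ 4 = Y 0 ^ 4 * g ∧
    ((g * TT i * g⁻¹ = TT i ∧ g * TT j * g⁻¹ = (TT j)⁻¹) ∨ (g * TT i * g⁻¹ = (TT i)⁻¹ ∧ g * TT j * g⁻¹ = TT j)) := by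
  obtain ⟨w, -, hw⟩ := chk_pair i i.2 j j.2 (fun h => hij (Fin.ext h))
  have hi1 := ev_conj hρ w (p := (i.1, true)) i.2
  have hj1 := ev_conj hρ w (p := (j.1, true)) j.2
  have e1 : sT (i.1, true) = T i := if_pos rfl
  have e2 : sT (j.1, true) = T j := if_pos rfl
  have e3 : sT (i.1, false) = (T i)⁻¹ := if_neg (by simp)
  have e4 : sT (j.1, false) = (T j)⁻¹ := if_neg (by simp)
  refine ⟨(ev w)⁻¹, mem_centralizer_singleton_iff.1 (inv_mem (cen_ev hρ w)), ?_⟩
  rw [inv_inv]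
  rcases hw with ⟨h1, h2⟩ | ⟨h1, h2⟩
  · left
    rw [h1, e1] at hi1
    rw [h2, e2, e4] at hj1
    exact ⟨hi1, hj1⟩
  · right
    rw [h1, e1, e3] at hi1
    rw [h2, e2] at hj1
    exact ⟨hi1, hj1⟩

/-! #### orders -/

theorem E_comm0 : ∀ x ∈ ({r, s} : Set Ly), ∀ y ∈ ({r, s} : Set Ly), x * y = y * x := by
  rintro x (rfl | hx) y (rfl | hy)
  · rfl
  · rw [Set.mem_singleton_iff] at hy; subst hy; exact rs hρ
  · rw [Set.mem_singleton_iff] at hx; subst hx; exact (rs hρ).symm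
  · rw [Set.mem_singleton_iff] at hx hy; subst hx; subst hy; rfl

theorem E_cube : ∀ x ∈ E, x ^ 3 = 1 := by
  apply cube_of (E_comm0 hρ)
  rintro x (rfl | hx)
  · exact r3 hρ
  · rw [Set.mem_singleton_iff] at hx; subst hx; exact s3 hρ

theorem rT0 : r⁻¹ * T 0 * r = (T 5)⁻¹ := by
  have h := ev_conj hρ wr (p := (0, true)) (by norm_num)
  rw [← r_ev] at h
  have h2 : act wr (0, true) = (5, false) := by decide
  rw [h2] at h
  simpa [sT] using h

theorem r2T0 : (r ^ 2)⁻¹ * T 0 * r ^ 2 = (T 7)⁻¹ := by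
  have h := ev_conj hρ (wr ++ wr) (p := (0, true)) (by norm_num)
  rw [ev_append, ← r_ev, ← pow_two] at h
  have h2 : act (wr ++ wr) (0, true) = (7, false) := by decide
  rw [h2] at h
  simpa [sT] using h

theorem sT0 : s⁻¹ * T 0 * s = T 4 := by
  have h := ev_conj hρ ws (p := (0, true)) (by norm_num)
  rw [← s_ev] at h
  have h2 : act ws (0, true) = (4, true) := by decide
  rw [h2] at h
  simpa [sT] using h

theorem r_ne : r ≠ 1 := by
  intro h
  have h1 := rT0 hρ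
  rw [h] at h1
  apply (T_inj hρ 0 (by norm_num) 5 (by norm_num) (by norm_num)).2
  simpa using h1

theorem ord_r : orderOf r = 3 := by
  haveI : Fact (Nat.Prime 3) := ⟨by norm_num⟩
  exact orderOf_eq_prime (r3 hρ) (r_ne hρ)

variable [Finite Ly]

theorem s_not : s ∉ zpowers r := by
  classical
  intro h
  rw [mem_zpowers_iff_mem_range_orderOf, ord_r hρ] at h
  rw [Finset.mem_image] at h
  obtain ⟨i, hi, h⟩ := h
  rw [Finset.mem_range] at hi
  have h1 := sT0 hρ
  have h3 : i = 0 ∨ i = 1 ∨ i = 2 := by omega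
  rcases h3 with rfl | rfl | rfl
  · rw [← h] at h1
    apply (T_inj hρ 0 (by norm_num) 4 (by norm_num) (by norm_num)).1
    simpa using h1
  · rw [← h, pow_one, rT0 hρ] at h1
    exact (T_inj hρ 4 (by norm_num) 5 (by norm_num) (by norm_num)).2 h1.symm
  · rw [← h, r2T0 hρ] at h1
    exact (T_inj hρ 4 (by norm_num) 7 (by norm_num) (by norm_num)).2 h1.symm

omit [Finite Ly] in
theorem V_p : IsPGroup 3 V := fun x => ⟨1, Subtype.ext (by rw [pow_one]; exact V_cube hρ x x.2)⟩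
omit [Finite Ly] in
theorem E_p : IsPGroup 3 E := fun x => ⟨1, Subtype.ext (by rw [pow_one]; exact E_cube hρ x x.2)⟩

theorem card_V : 3 ^ 5 ≤ Nat.card V := by
  have h0 : T 0 ∈ V := subset_closure ⟨0, rfl⟩
  have h10 : T 10 ∈ V := subset_closure ⟨10, rfl⟩
  refine five V (V_p hρ) A (A11 hρ) ?_ (v := T 1) (subset_closure ⟨1, rfl⟩) ?_
  · apply norm_of
    rintro _ ⟨i, rfl⟩
    have h1 := Tconj hρ 10 i
    have h2 : A ^ 10 = A⁻¹ := by
      rw [eq_inv_iff_mul_eq_one, ← pow_succ]; exact A11 hρ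
    rw [h2, inv_inv] at h1
    show A * T i * A⁻¹ ∈ V
    rw [h1]
    by_cases hi : i.1 = 0
    · rw [hi]; exact h10
    · have h3 : i.1 + 10 = (i.1 - 1) + 11 := by omega
      rw [h3, T_add hρ]
      exact subset_closure ⟨⟨i.1 - 1, by omega⟩, rfl⟩
  · intro h
    have h1 := T_succ 0
    have h2 : A * T 1 * A⁻¹ = T 0 := by rw [show (1 : ℕ) = 0 + 1 from rfl, ← h1]; group
    rw [h2] at h
    exact (T_inj hρ 0 (by norm_num) 1 (by norm_num) (by norm_num)).1 h

theorem card_E : 3 ^ 2 ≤ Nat.card E := by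
  haveI : Fact (Nat.Prime 3) := ⟨by norm_num⟩
  obtain ⟨e, he⟩ := IsPGroup.iff_card.1 (E_p hρ)
  have hr : zpowers r ≤ E := zpowers_le.2 (subset_closure (by simp))
  have hcr : Nat.card (zpowers r) = 3 := by rw [Nat.card_zpowers, ord_r hρ]
  have he2 : 2 ≤ e := by
    by_contra hlt
    have h1 : Nat.card E ≤ 3 := by
      rw [he]
      calc 3 ^ e ≤ 3 ^ 1 := Nat.pow_le_pow_right (by norm_num) (by omega)
        _ = 3 := by norm_num
    have h2 : zpowers r = E := Subgroup.eq_of_le_of_card_ge hr (by rw [hcr]; exact h1)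
    apply s_not hρ
    rw [h2]
    exact subset_closure (by simp)
  rw [he]
  exact Nat.pow_le_pow_right (by norm_num) he2

theorem E_norm : E ≤ normalizer (V : Set Ly) := by
  rw [closure_le]
  rintro x (rfl | hx)
  · apply norm_of
    rintro _ ⟨i, rfl⟩
    obtain ⟨j, h | h⟩ := rT hρ i
    · rw [h]; exact subset_closure ⟨j, rfl⟩
    · rw [h]; exact inv_mem (subset_closure ⟨j, rfl⟩)
  · rw [Set.mem_singleton_iff] at hx
    subst hx
    apply norm_of
    rintro _ ⟨i, rfl⟩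
    obtain ⟨j, h | h⟩ := sT' hρ i
    · rw [h]; exact subset_closure ⟨j, rfl⟩
    · rw [h]; exact inv_mem (subset_closure ⟨j, rfl⟩)

omit [Finite Ly] in
theorem E_cen : E ≤ centralizer ({Y 0 ^ 4} : Set Ly) := by
  rw [closure_le]
  rintro x (rfl | hx)
  · exact mem_centralizer_singleton_iff.2 (rZ hρ)
  · rw [Set.mem_singleton_iff] at hx; subst hx; exact mem_centralizer_singleton_iff.2 (sZ hρ)

omit [Finite Ly] in
theorem V_inf_E {x : Ly} (hV : x ∈ V) (hE : x ∈ E) : x = 1 := by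
  apply one_of (V_cube hρ x hV)
  rw [← V_inv hρ x hV]
  have := mem_centralizer_singleton_iff.1 (E_cen hρ hE)
  rw [← this]; group

theorem card_P : 3 ^ 7 ∣ Nat.card (E ⊔ V : Subgroup Ly) := by
  haveI : Fact (Nat.Prime 3) := ⟨by norm_num⟩
  have hP : IsPGroup 3 (E ⊔ V : Subgroup Ly) := IsPGroup.to_sup_of_normal_right' (E_p hρ) (V_p hρ) (E_norm hρ)
  obtain ⟨a, ha⟩ := IsPGroup.iff_card.1 hP
  have hinj : Function.Injective (fun x : E × V => (⟨x.1.1 * x.2.1, mul_mem_sup x.1.2 x.2.2⟩ : (E ⊔ V : Subgroup Ly))) := by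
    rintro ⟨⟨e, he⟩, ⟨v, hv⟩⟩ ⟨⟨e', he'⟩, ⟨v', hv'⟩⟩ h
    have h1 : e * v = e' * v' := congrArg Subtype.val h
    have h2 : e'⁻¹ * e = v' * v⁻¹ := by
      calc e'⁻¹ * e = e'⁻¹ * (e * v) * v⁻¹ := by group
        _ = _ := by rw [h1]; group
    have h3 : e'⁻¹ * e = 1 := by
      apply V_inf_E hρ
      · rw [h2]; exact mul_mem hv' (inv_mem hv)
      · exact mul_mem (inv_mem he') he
    have h4 : v' * v⁻¹ = 1 := by rw [← h2, h3]
    have h5 : e = e' := (inv_mul_eq_one.1 h3).symm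
    have h6 : v = v' := (mul_inv_eq_one.1 h4).symm
    subst h5; subst h6; rfl
  have h1 := Nat.card_le_card_of_injective _ hinj
  rw [Nat.card_prod] at h1
  have h2 : 3 ^ 7 ≤ Nat.card (E ⊔ V : Subgroup Ly) := by
    calc 3 ^ 7 = 3 ^ 2 * 3 ^ 5 := by norm_num
      _ ≤ Nat.card E * Nat.card V := Nat.mul_le_mul (card_E hρ) (card_V hρ)
      _ ≤ _ := h1
  rw [ha] at h2 ⊢
  exact Nat.pow_dvd_pow 3 ((Nat.pow_le_pow_iff_right (by norm_num)).1 h2)

theorem index_S (hc : Nat.card Ly = 51765179004000000) : ¬ 3 ∣ S.index := by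
  intro h
  have h1 : (E ⊔ V : Subgroup Ly) ≤ S := by
    apply sup_le
    · apply Subgroup.closure_mono
      rintro x (rfl | hx)
      · right; left; rfl
      · rw [Set.mem_singleton_iff] at hx; subst hx; right; right; left; rfl
    · exact Subgroup.closure_mono Set.subset_union_left
  have h2 : 3 ^ 7 ∣ Nat.card S := (card_P hρ).trans (card_dvd_of_le h1)
  have h3 := S.card_mul_index
  have h4 : 3 ^ 7 * 3 ∣ Nat.card Ly := by rw [← h3]; exact Nat.mul_dvd_mul h2 h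
  rw [hc] at h4
  revert h4
  norm_num

end

end Cfsg.Agent.Lib.LyTi
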