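import Cfsg.Agent.Lib.M11PAB

set_option autoImplicit false
set_option linter.all false
set_option maxRecDepth 100000
set_option Elab.async false

namespace Cfsg.Agent.Lib.M11PAC0
open Cfsg.Spor Cfsg.Agent.Lib.BenesPerm Cfsg.Agent.Lib.BenesAct Cfsg.Agent.Lib.BenesWord
open Cfsg.Agent.Lib.BenesPlane Cfsg.Agent.Lib.CosetClosure Cfsg.Agent.Lib.CosetFacts
open Cfsg.Agent.Lib.CosetMain Cfsg.Agent.Lib.CoxBridge Cfsg.Agent.Lib.CosetGroup Cfsg.Agent.Lib.CosetInst Cfsg.Agent.Lib.CosetInj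
open Cfsg.Agent.Lib.BenesPack Cfsg.Agent.Lib.CosetPack Cfsg.Agent.Lib.CosetChain Cfsg.Agent.Lib.CosetWide Cfsg.Agent.Lib.CosetWide2
open Cfsg.Agent.Lib.M11PRel Cfsg.Agent.Lib.M11PAN0 Cfsg.Agent.Lib.M11PAR0 Cfsg.Agent.Lib.M11PAD Cfsg.Agent.Lib.M11PAB

noncomputable def cl0_0 : Nat := (nat_lit 0x390)
noncomputable def cl0_1 : Nat := (nat_lit 0x4f0)
noncomputable def cl0_2 : Nat := (nat_lit 0x628)
noncomputable def cl0_3 : Nat := (nat_lit 0x482)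
noncomputable def cl0_4 : Nat := (nat_lit 0x540)
noncomputable def cl0 : Net := (Net.cons (nat_lit 0) cl0_0 (Net.cons (nat_lit 1) cl0_1 (Net.cons (nat_lit 2) cl0_2 (Net.cons (nat_lit 3) cl0_3 (Net.cons (nat_lit 4) cl0_4 Net.nil)))))
def simd0 : List (Wd × ℕ) := [((Wd.mul (Wd.g 1) (Wd.inv (Wd.mul (Wd.mul (Wd.g 3) (Wd.g 0)) (Wd.inv (Wd.g 3))))), 4), ((Wd.pow (Wd.g 3) 4), 1), ((Wd.mul (Wd.mul (Wd.mul (Wd.mul (Wd.mul (Wd.mul (Wd.g 0) (Wd.g 1)) (Wd.inv (Wd.g 3))) (Wd.g 0)) (Wd.inv (Wd.g 3))) (Wd.g 0)) (Wd.g 2)), 7), ((Wd.pow (Wd.mul (Wd.g 1) (Wd.g 2)) 4), 2), ((Wd.mul (Wd.mul (Wd.mul (Wd.mul (Wd.mul (Wd.mul (Wd.mul (Wd.g 0) (Wd.g 1)) (Wd.g 3)) (Wd.g 1)) (Wd.g 2)) (Wd.g 1)) (Wd.inv (Wd.g 3))) (Wd.g 1)), 8), ((Wd.pow (Wd.mul (Wd.g 0) (Wd.g 2)) 5), 2), ((Wd.pow (Wd.mul (Wd.g 0) (Wd.g 1)) 6), 2)]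
theorem cov0 : relsMK nets ivx R 4 (simd0.map (splitW ivx)) Net.nil (claimK cl0) = true := by decide +kernel
theorem slet0 : simdLetK ivx 5 simd0 = true := by decide +kernel
theorem smem0 : ∀ q ∈ simd0, q.1 ∈ wrels := by decide +kernel


end Cfsg.Agent.Lib.M11PAC0
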