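import Cfsg.Agent.Lib.M11PAS
import Cfsg.Agent.Lib.M11PAP0
import Cfsg.Agent.Lib.M11PAP1
import Cfsg.Agent.Lib.M11PAP2
import Cfsg.Agent.Lib.M11PAP3
import Cfsg.Agent.Lib.M11PAF0
import Cfsg.Agent.Lib.M11PAC0

set_option autoImplicit false
set_option linter.all false
set_option maxRecDepth 100000
set_option Elab.async false

namespace Cfsg.Agent.Lib.M11PA
open Cfsg.Spor Cfsg.Agent.Lib.BenesPerm Cfsg.Agent.Lib.BenesAct Cfsg.Agent.Lib.BenesWord
open Cfsg.Agent.Lib.BenesPlane Cfsg.Agent.Lib.CosetClosure Cfsg.Agent.Lib.CosetFacts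
open Cfsg.Agent.Lib.CosetMain Cfsg.Agent.Lib.CoxBridge Cfsg.Agent.Lib.CosetGroup Cfsg.Agent.Lib.CosetInst Cfsg.Agent.Lib.CosetInj
open Cfsg.Agent.Lib.BenesPack Cfsg.Agent.Lib.CosetPack Cfsg.Agent.Lib.CosetChain Cfsg.Agent.Lib.CosetWide Cfsg.Agent.Lib.CosetWide2
open Cfsg.Agent.Lib.M11PRel Cfsg.Agent.Lib.M11PAN0 Cfsg.Agent.Lib.M11PAR0 Cfsg.Agent.Lib.M11PAD Cfsg.Agent.Lib.M11PAB Cfsg.Agent.Lib.M11PAS Cfsg.Agent.Lib.M11PAP0 Cfsg.Agent.Lib.M11PAP1 Cfsg.Agent.Lib.M11PAP2 Cfsg.Agent.Lib.M11PAP3 Cfsg.Agent.Lib.M11PAF0 Cfsg.Agent.Lib.M11PAC0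

/-- further elements of the group used as letters -/
noncomputable def L0 : List (CoxPresented M11P.Gen M11P.edges M11P.extra) := xw.map (fun W => W.eval (C.x []))

theorem rel_eval (L : List (CoxPresented M11P.Gen M11P.edges M11P.extra)) : ∀ W ∈ rels, W.eval (C.x L) = 1 := by
  have h := C.rel_x L
  intro W hW
  rcases List.mem_append.mp hW with h1 | h1
  · exact h.1 W (by rw [show coxWds M11P.edges C.gen C.nn = coxW from coxW_eq]; exact h1)
  · exact h.2.1 W h1

theorem xw_lets : ∀ W ∈ xw, lets 4 W = true := by decide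

theorem x_further (j : ℕ) (hj : j < xw.length) : (xw[j]).eval (C.x L0) = C.x L0 (4 + j) := by
  have h1 : C.x L0 (4 + j) = (L0[j]?).getD 1 := C.x_ge L0 j
  rw [h1, L0, List.getElem?_map, List.getElem?_eq_getElem hj]
  exact eval_x_congr C _ _ (xw_lets _ (List.getElem_mem hj))

theorem wrel_eval : ∀ W ∈ wrels, W.eval (C.x L0) = 1 :=
  eval_of_wOK (C.x L0) x_further (rel_eval L0) c_wok

theorem x_iv0 : ∀ c, C.x L0 (ivx c) = (C.x L0 c)⁻¹ := by
  have h2 : ∀ i, i < 3 → C.x L0 i = (C.x L0 i)⁻¹ := fun i hi => mul_eq_one_iff_eq_inv.mp ((C.rel_x L0).2.2 i hi)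
  intro c
  by_cases hc : c < 5
  · interval_cases c
    · exact h2 0 (by norm_num)
    · exact h2 1 (by norm_num)
    · exact h2 2 (by norm_num)
    · change C.x L0 4 = (C.x L0 3)⁻¹; rfl
    · change C.x L0 3 = (C.x L0 4)⁻¹; exact (inv_inv _).symm
  · have h1 : ivx c = c := ivOf_ge _ (by simpa using hc)
    obtain ⟨d, rfl⟩ := Nat.exists_eq_add_of_le (not_lt.mp hc)
    rw [h1, show C.x L0 (5 + d) = 1 from ?_, inv_one]
    have h3 : 5 + d = C.ng + (1 + d) := by change 5 + d = 4 + (1 + d); omega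
    rw [h3, C.x_ge, List.getElem?_eq_none (by simp [L0, xw])]; rfl

theorem c_pl : ∀ b, b < 4 → plK nets 4 b eqs = true := by
  intro b hb
  interval_cases b
  · exact pl0_0
  · exact pl1_0
  · exact pl2_0
  · exact pl3_0

theorem lane_inv : ∀ c, sperm nets (ivx c) = (sperm nets c)⁻¹ :=
  lane_iv (nc := 5) c_nets rfl (fun c hc => ivOf_ge _ hc) c_pl c_inv_sub

theorem lane_wrels : ∀ W ∈ wrels, W.eval (sperm nets) = 1 := lane_rel c_nets lane_inv c_pl c_rel_sub

theorem c_iv : ivK nets 4 ivx 5 = true := ivK_of c_nets 5 (by decide +kernel) (fun c _ => lane_inv c)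

theorem wrelK : ∀ W ∈ wrels, relK nets 4 (W.flat ivx) = true :=
  fun W hW => relK_of_eval c_nets lane_inv (lane_wrels W hW)

theorem lane_defs : ∀ j (hj : j < xw.length), (xw[j]).eval (sperm nets) = sperm nets (4 + j) := by
  intro j hj
  change j < 1 at hj
  interval_cases j
  · exact (lane_inv 3).symm

theorem lane_rels : ∀ W ∈ rels, W.eval (sperm nets) = 1 := eval_of_wBack (sperm nets) lane_defs lane_wrels c_wback

theorem phi_exists : ∃ φ : (CoxPresented M11P.Gen M11P.edges M11P.extra) →* Equiv.Perm ℕ, ∀ c, φ (C.x L0 c) = sperm nets c := by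
  refine exists_phi' C (k := 4) (rels := rels) rfl c_nets lane_rels ?_ xw rfl rfl xw_lets lane_defs
  intro i hi
  change i < 3 at hi
  have h := lane_inv i
  have e : ivx i = i := by interval_cases i <;> rfl
  rw [e] at h
  exact mul_eq_one_iff_eq_inv.mpr h

theorem c_facts : factsK nets ivx R 5 11 (2 ^ 4) nd T DT patL 2 scr = true := (factsK_appS _ _ _ fact0 fact1)

/-- all covered masks -/
noncomputable def ms : Net := (appN cl0 (exM E D))

theorem c_cover : coverK nets ivx 11 ms 5 = true := by decide +kernel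

theorem map_exists (H : Subgroup (CoxPresented M11P.Gen M11P.edges M11P.extra)) (hH : H = Subgroup.closure (wset (C.x L0) WS)) :
    ∃ f : ℕ → (CoxPresented M11P.Gen M11P.edges M11P.extra) ⧸ H, f 0 = ((1 : (CoxPresented M11P.Gen M11P.edges M11P.extra)) : (CoxPresented M11P.Gen M11P.edges M11P.extra) ⧸ H) ∧
      ∀ c i, c < 5 → i < 11 → C.x L0 c • f i = f (sig nets c i) := by
  refine exists_map_masks (k := 4) (P := 4) (D := D) (R := R) (pats := pats) (scr := scr) (E := E) (T := T) (DT := DT)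
    (nd := nd) (g := 2) c_nets (by norm_num) c_iv c_full c_len c_sym x_iv0 ?_ c_disj c_tree c_treelet ?_ c_dtab ?_ c_facts c_ex
    ms ?_ c_cover
  · rfl
  · intro W hW
    rcases List.mem_append.mp hW with h | h
    · simp only [wtriv, List.mem_cons, List.not_mem_nil, or_false] at h
      have h3 : ∀ c, C.x L0 c * C.x L0 (ivx c) = 1 := fun c => by rw [x_iv0, mul_inv_cancel]
      rcases h with rfl | rfl | rfl | rfl | rfl <;> exact h3 _
    · rcases List.mem_append.mp h with h | h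
      · exact rel_eval L0 W h
      · obtain ⟨V, hV, rfl⟩ := List.mem_map.mp h
        simp only [Wd.eval, rel_eval L0 V hV, inv_one]
  · intro j hj
    have h1 : ∀ j, j < 2 → eSrc (T.get j) = 0 ∧ eDst (T.get j) = 0 ∧ eLet (T.get j) = nthK 0 [4, 2] j := by
      decide +kernel
    obtain ⟨h2, h3, h4⟩ := h1 j hj
    refine ⟨h2, h3, ?_⟩
    rw [h4]
    apply smul_one_coset
    rw [hH]
    interval_cases j
    · exact (show C.x L0 4 = (C.x L0 3)⁻¹ from x_iv0 3) ▸ Subgroup.inv_mem _ (mem_wset (x := C.x L0) (W := (Wd.g 3)) (by simp [WS]))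
    · exact mem_wset (x := C.x L0) (W := (Wd.g 2)) (by simp [WS])
  · intro f h0
    have key : ∀ (simd : List (Wd × ℕ)), (∀ q ∈ simd, q.1 ∈ wrels) → simdLetK ivx 5 simd = true → ∀ cl : Net,
        relsMK nets ivx R 4 (simd.map (splitW ivx)) Net.nil (claimK cl) = true → AllM (CovMask (C.x L0) f nets R 5 11) cl :=
      fun simd hm hl cl hc => claim_cov c_nets c_iv c_full c_len x_iv0 (fun q hq => wrelK _ (hm q hq))
        (fun q hq => wrel_eval _ (hm q hq)) hl cl hc
    exact (allM_appN (key simd0 smem0 slet0 cl0 cov0) h0)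


end Cfsg.Agent.Lib.M11PA
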