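import Cfsg.Agent.Lib.M11PA

set_option autoImplicit false
set_option linter.all false
set_option maxRecDepth 100000
set_option Elab.async false

namespace Cfsg.Agent.Lib.M11PAIdx
open Cfsg.Spor Cfsg.Agent.Lib.BenesPerm Cfsg.Agent.Lib.BenesAct Cfsg.Agent.Lib.BenesWord
open Cfsg.Agent.Lib.BenesPlane Cfsg.Agent.Lib.CosetClosure Cfsg.Agent.Lib.CosetFacts
open Cfsg.Agent.Lib.CosetMain Cfsg.Agent.Lib.CoxBridge Cfsg.Agent.Lib.CosetGroup Cfsg.Agent.Lib.CosetInst Cfsg.Agent.Lib.CosetInj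
open Cfsg.Agent.Lib.BenesPack Cfsg.Agent.Lib.CosetPack Cfsg.Agent.Lib.CosetChain Cfsg.Agent.Lib.CosetWide Cfsg.Agent.Lib.CosetWide2
open Cfsg.Agent.Lib.M11PRel Cfsg.Agent.Lib.M11PAN0 Cfsg.Agent.Lib.M11PAR0 Cfsg.Agent.Lib.M11PAD Cfsg.Agent.Lib.M11PAB Cfsg.Agent.Lib.M11PAS Cfsg.Agent.Lib.M11PA

/-- reachability steps for the whole group -/
def steps0 : List ℕ := [0, 1, 0, 2, 1, 0]

/-- orbit mask -/
noncomputable def M0 : ℕ := (nat_lit 0x7fe)
/-- steps -/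
def l0 : List ℕ := [0, 1, 0, 0, 1]

theorem o0_inv : invK nets (WS.map (Wd.flat ivx)) M0 = true := by decide +kernel
theorem o0_reach : reachK nets (stepsW (WS.map (Wd.flat ivx)) l0) (2 ^ 1) (fun V => Nat.beq V M0) = true := by decide +kernel
theorem o0_lt : M0 < 2 ^ 2 ^ 4 := by decide +kernel
theorem o0_pop : popK 4 M0 = 10 := by decide +kernel

theorem c_fix : invK nets (WS.map (Wd.flat ivx)) (2 ^ 0) = true := by decide +kernel
theorem c_inv0 : invK nets ((letterW 5).map (Wd.flat ivx)) (2 ^ 11 - 1) = true := by decide +kernel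
theorem c_reach0 : reachK nets (stepsW ((letterW 5).map (Wd.flat ivx)) steps0) (2 ^ 0) (fun V => Nat.beq V (2 ^ 11 - 1)) = true := by decide +kernel

theorem gen_top : Subgroup.closure (wset (C.x L0) (letterW 5)) = ⊤ := by
  rw [eq_top_iff, ← C.closure_letters L0]
  apply Subgroup.closure_mono
  rintro _ ⟨W, hW, rfl⟩
  obtain ⟨c, hc, rfl⟩ := List.mem_map.mp hW
  have hc := List.mem_range.mp hc
  change c < 4 at hc
  exact ⟨Wd.g c, List.mem_map.mpr ⟨c, List.mem_range.mpr (by omega), rfl⟩, rfl⟩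

/-- index of the subgroup, action on the cosets and suborbits -/
theorem main (H : Subgroup (CoxPresented M11P.Gen M11P.edges M11P.extra)) (hH : H = Subgroup.closure (wset (C.x L0) WS)) :
    ∃ (φ : (CoxPresented M11P.Gen M11P.edges M11P.extra) →* Equiv.Perm ℕ) (f : ℕ → (CoxPresented M11P.Gen M11P.edges M11P.extra) ⧸ H), (∀ c, φ (C.x L0 c) = sperm nets c) ∧
      f 0 = ((1 : (CoxPresented M11P.Gen M11P.edges M11P.extra)) : (CoxPresented M11P.Gen M11P.edges M11P.extra) ⧸ H) ∧ (∀ g i, i < 11 → g • f i = f (φ g i)) ∧ (∀ g i, i < 11 → φ g i < 11) ∧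
      (∀ i j, i < 11 → j < 11 → f i = f j → i = j) ∧ (∀ j, (∃ g, φ g 0 = j) ↔ j < 11) ∧
      (∀ h ∈ H, φ h 0 = 0) ∧ (∀ q : (CoxPresented M11P.Gen M11P.edges M11P.extra) ⧸ H, ∃ i, i < 11 ∧ f i = q) ∧ H.index = 11 ∧
      (MulAction.orbit H (f 1) = f '' {i | Nat.testBit M0 i = true} ∧ (MulAction.orbit H (f 1)).ncard = 10) := by
  obtain ⟨φ, hφ⟩ := phi_exists
  obtain ⟨f, hf0, hf⟩ := map_exists H hH
  have h := cert_full (k := 4) (n := 11) (nc := 5) c_nets hφ x_iv0 gen_top (by norm_num)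
    c_full WS c_fix steps0 c_inv0 c_reach0 H hH f hf0 hf
  have h' := cert_index (k := 4) (n := 11) (nc := 5) c_nets hφ x_iv0 gen_top (by norm_num) (by norm_num)
    c_full WS c_fix steps0 c_inv0 c_reach0 H hH f hf0 hf
  refine ⟨φ, f, hφ, hf0, h.2.1, h.2.2.1, h.2.2.2.1, h.2.2.2.2.1, h.2.2.2.2.2.1, h.2.2.2.2.2.2, h.1, ?_⟩
  · have h2 := h'.2 1 M0 l0 (by norm_num) o0_lt o0_inv o0_reach
    exact ⟨h2.1, h2.2.trans o0_pop⟩

end Cfsg.Agent.Lib.M11PAIdx
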