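import Cfsg.Agent.Lib.BenesPerm

set_option autoImplicit false
set_option linter.all false
set_option maxRecDepth 100000

namespace Cfsg.Agent.Lib.M11PAN0
open Cfsg.Agent.Lib.BenesPerm

noncomputable def m0_0 : Nat := (nat_lit 0x15)
noncomputable def m0_1 : Nat := (nat_lit 0x130)
noncomputable def m0_2 : Nat := (nat_lit 0x10c)
noncomputable def m0_3 : Nat := (nat_lit 0x10)
noncomputable def m0_4 : Nat := (nat_lit 0x100)
noncomputable def m0_5 : Nat := (nat_lit 0x130)
noncomputable def n0 : Net := (Net.cons (nat_lit 1) m0_0 (Net.cons (nat_lit 2) m0_1 (Net.cons (nat_lit 4) m0_2 (Net.cons (nat_lit 8) m0_3 (Net.cons (nat_lit 4) m0_4 (Net.cons (nat_lit 2) m0_5 Net.nil))))))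
noncomputable def m1_0 : Nat := (nat_lit 0x140)
noncomputable def m1_1 : Nat := (nat_lit 0x303)
noncomputable def m1_2 : Nat := (nat_lit 0xc00)
noncomputable def m1_3 : Nat := (nat_lit 0xc0)
noncomputable def m1_4 : Nat := (nat_lit 0xc00)
noncomputable def m1_5 : Nat := (nat_lit 0x300)
noncomputable def n1 : Net := (Net.cons (nat_lit 1) m1_0 (Net.cons (nat_lit 2) m1_1 (Net.cons (nat_lit 4) m1_2 (Net.cons (nat_lit 8) m1_3 (Net.cons (nat_lit 4) m1_4 (Net.cons (nat_lit 2) m1_5 Net.nil))))))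
noncomputable def m2_0 : Nat := (nat_lit 0x400)
noncomputable def m2_1 : Nat := (nat_lit 0x2)
noncomputable def m2_2 : Nat := (nat_lit 0x904)
noncomputable def m2_3 : Nat := (nat_lit 0x90)
noncomputable def m2_4 : Nat := (nat_lit 0x900)
noncomputable def m2_5 : Nat := (nat_lit 0x400)
noncomputable def n2 : Net := (Net.cons (nat_lit 1) m2_0 (Net.cons (nat_lit 2) m2_1 (Net.cons (nat_lit 4) m2_2 (Net.cons (nat_lit 8) m2_3 (Net.cons (nat_lit 4) m2_4 (Net.cons (nat_lit 1) m2_5 Net.nil))))))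
noncomputable def m3_0 : Nat := (nat_lit 0x414)
noncomputable def m3_1 : Nat := (nat_lit 0x202)
noncomputable def m3_2 : Nat := (nat_lit 0x108)
noncomputable def m3_3 : Nat := (nat_lit 0x10)
noncomputable def m3_4 : Nat := (nat_lit 0x100)
noncomputable def m3_5 : Nat := (nat_lit 0x20)
noncomputable def m3_6 : Nat := (nat_lit 0x514)
noncomputable def n3 : Net := (Net.cons (nat_lit 1) m3_0 (Net.cons (nat_lit 2) m3_1 (Net.cons (nat_lit 4) m3_2 (Net.cons (nat_lit 8) m3_3 (Net.cons (nat_lit 4) m3_4 (Net.cons (nat_lit 2) m3_5 (Net.cons (nat_lit 1) m3_6 Net.nil)))))))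
noncomputable def m4_0 : Nat := (nat_lit 0x514)
noncomputable def m4_1 : Nat := (nat_lit 0x202)
noncomputable def m4_2 : Nat := (nat_lit 0x102)
noncomputable def m4_3 : Nat := (nat_lit 0x10)
noncomputable def m4_4 : Nat := (nat_lit 0x100)
noncomputable def m4_5 : Nat := (nat_lit 0x20)
noncomputable def m4_6 : Nat := (nat_lit 0x414)
noncomputable def n4 : Net := (Net.cons (nat_lit 1) m4_0 (Net.cons (nat_lit 2) m4_1 (Net.cons (nat_lit 4) m4_2 (Net.cons (nat_lit 8) m4_3 (Net.cons (nat_lit 4) m4_4 (Net.cons (nat_lit 2) m4_5 (Net.cons (nat_lit 1) m4_6 Net.nil)))))))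

end Cfsg.Agent.Lib.M11PAN0
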