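import Cfsg.Agent.Lib.BenesPerm

set_option autoImplicit false
set_option linter.all false
set_option maxRecDepth 100000

namespace Cfsg.Agent.Lib.M11PAR0

noncomputable def r0_0 : Nat := (nat_lit 0x380)
noncomputable def r0_1 : Nat := (nat_lit 0x200)
noncomputable def r0_2 : Nat := (nat_lit 0x398)
noncomputable def r0_3 : Nat := (nat_lit 0x0)
noncomputable def r0 : List Nat := (List.cons r0_0 (List.cons r0_1 (List.cons r0_2 (List.cons r0_3 List.nil))))
noncomputable def r1_0 : Nat := (nat_lit 0x250)
noncomputable def r1_1 : Nat := (nat_lit 0x3e0)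
noncomputable def r1_2 : Nat := (nat_lit 0x3f0)
noncomputable def r1_3 : Nat := (nat_lit 0x400)
noncomputable def r1 : List Nat := (List.cons r1_0 (List.cons r1_1 (List.cons r1_2 (List.cons r1_3 List.nil))))
noncomputable def r2_0 : Nat := (nat_lit 0x0)
noncomputable def r2_1 : Nat := (nat_lit 0x20)
noncomputable def r2_2 : Nat := (nat_lit 0xa)
noncomputable def r2_3 : Nat := (nat_lit 0x680)
noncomputable def r2 : List Nat := (List.cons r2_0 (List.cons r2_1 (List.cons r2_2 (List.cons r2_3 List.nil))))
noncomputable def r3_0 : Nat := (nat_lit 0x14a)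
noncomputable def r3_1 : Nat := (nat_lit 0x1a8)
noncomputable def r3_2 : Nat := (nat_lit 0x120)
noncomputable def r3_3 : Nat := (nat_lit 0x440)
noncomputable def r3 : List Nat := (List.cons r3_0 (List.cons r3_1 (List.cons r3_2 (List.cons r3_3 List.nil))))
noncomputable def r4_0 : Nat := (nat_lit 0x44c)
noncomputable def r4_1 : Nat := (nat_lit 0x518)
noncomputable def r4_2 : Nat := (nat_lit 0x500)
noncomputable def r4_3 : Nat := (nat_lit 0x240)
noncomputable def r4 : List Nat := (List.cons r4_0 (List.cons r4_1 (List.cons r4_2 (List.cons r4_3 List.nil))))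

end Cfsg.Agent.Lib.M11PAR0
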