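import Cfsg.Agent.Lib.M11PBB

set_option autoImplicit false
set_option linter.all false
set_option maxRecDepth 100000
set_option Elab.async false

namespace Cfsg.Agent.Lib.M11PBC0
open Cfsg.Spor Cfsg.Agent.Lib.BenesPerm Cfsg.Agent.Lib.BenesAct Cfsg.Agent.Lib.BenesWord
open Cfsg.Agent.Lib.BenesPlane Cfsg.Agent.Lib.CosetClosure Cfsg.Agent.Lib.CosetFacts
open Cfsg.Agent.Lib.CosetMain Cfsg.Agent.Lib.CoxBridge Cfsg.Agent.Lib.CosetGroup Cfsg.Agent.Lib.CosetInst Cfsg.Agent.Lib.CosetInj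
open Cfsg.Agent.Lib.BenesPack Cfsg.Agent.Lib.CosetPack Cfsg.Agent.Lib.CosetChain Cfsg.Agent.Lib.CosetWide Cfsg.Agent.Lib.CosetWide2
open Cfsg.Agent.Lib.M11PRel Cfsg.Agent.Lib.M11PBN0 Cfsg.Agent.Lib.M11PBR0 Cfsg.Agent.Lib.M11PBD Cfsg.Agent.Lib.M11PBB

noncomputable def cl0_0 : Nat := (nat_lit 0xdf80193b880254a50c89aed40c0769621100659c06154abab342f4b4cb180a42148242b0a022c023d01a90541410500820403aa514821d202668e052250b880c840846990290b51082224900091120201444)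
noncomputable def cl0_1 : Nat := (nat_lit 0xdec294c23ed69c66219d613121c502f620281046961526f698a7a90bea423425f01ab60c681088e014673a0210100421800130600284672220a8822ea44d2619420c4c81308041d001a240000740200074408)
noncomputable def cl0_2 : Nat := (nat_lit 0x130101c0509043000d608018aa49bb28252a758168c9a5d162532584dd02838043b215b5d18a67ac83600604ea10110041a0929091509195304701000891001909c001020001c20100008006a800411080100)
noncomputable def cl0_3 : Nat := (nat_lit 0x3f8a48841615610ffa9122f0c1bdacc584d2652f4e5000b80896923e104a02e6414aa154a88c11055ad0820104a2d00675802c41e2020d0040982c10b40e010124036094204a10c2917048098106a44440088)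
noncomputable def cl0_4 : Nat := (nat_lit 0x127260050c09a012012c734028c6099181b01b94060b0408c66954c106c0c064b40963615949002545c110860410b268a38c5d02c05018019020907238090504484220000d900020001100810004c08008810)
noncomputable def cl0 : Net := (Net.cons (nat_lit 0) cl0_0 (Net.cons (nat_lit 1) cl0_1 (Net.cons (nat_lit 2) cl0_2 (Net.cons (nat_lit 3) cl0_3 (Net.cons (nat_lit 4) cl0_4 Net.nil)))))
def simd0 : List (Wd × ℕ) := [((Wd.mul (Wd.g 1) (Wd.inv (Wd.mul (Wd.mul (Wd.g 3) (Wd.g 0)) (Wd.inv (Wd.g 3))))), 4), ((Wd.pow (Wd.g 3) 4), 1), ((Wd.mul (Wd.mul (Wd.mul (Wd.mul (Wd.mul (Wd.mul (Wd.g 0) (Wd.g 1)) (Wd.inv (Wd.g 3))) (Wd.g 0)) (Wd.inv (Wd.g 3))) (Wd.g 0)) (Wd.g 2)), 7), ((Wd.pow (Wd.mul (Wd.g 1) (Wd.g 2)) 4), 2), ((Wd.mul (Wd.mul (Wd.mul (Wd.mul (Wd.mul (Wd.mul (Wd.mul (Wd.g 0) (Wd.g 1)) (Wd.g 3)) (Wd.g 1)) (Wd.g 2)) (Wd.g 1)) (Wd.inv (Wd.g 3))) (Wd.g 1)), 8), ((Wd.pow (Wd.mul (Wd.g 0) (Wd.g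 2)) 5), 2), ((Wd.pow (Wd.mul (Wd.g 0) (Wd.g 1)) 6), 2), ((Wd.pow (Wd.mul (Wd.g 0) (Wd.g 3)) 11), 2)]
theorem cov0 : relsMK nets ivx R 5 (simd0.map (splitW ivx)) Net.nil (claimK cl0) = true := by decide +kernel
theorem slet0 : simdLetK ivx 5 simd0 = true := by decide +kernel
theorem smem0 : ∀ q ∈ simd0, q.1 ∈ wrels := by decide +kernel


end Cfsg.Agent.Lib.M11PBC0
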