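import Cfsg.Agent.Lib.CosetFacts

set_option autoImplicit false
set_option linter.all false
set_option maxRecDepth 100000

namespace Cfsg.Agent.Lib.M11PBD
open Cfsg.Agent.Lib.BenesPerm Cfsg.Agent.Lib.CosetFacts

noncomputable def d0 : Nat := (nat_lit 0x12000248410e4084882524022c060000c08b188428820014404940048002024080a1180040090234404444128210182000a05410a01008209401008808814102011128020c005020504401012844409408810)
noncomputable def d1 : Nat := (nat_lit 0x2108210400000309400088044230a9091504412841405101261004a0111088800a400111010064008880804128208104410080810822900100122900511008202820012480108204820092520010810080120)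
noncomputable def d2 : Nat := (nat_lit 0x4882403126612032000842e0008004800a10801016040a288880901102c44434140ca24808208041141008a0150c024a284e09284005004809205032a02896445206120041842548241900201228080913202)
noncomputable def d3 : Nat := (nat_lit 0x8075940088809c400542110900405212202002408009a442112029404c211009201044a2124208822101110440412490821002021548229222448245024020888040844912210811088224844481122220444)
noncomputable def d4 : Nat := (nat_lit 0x400088210100000329000109109006400402403003000800006020a2008210241020004a4941108022a2208008240011401204402804504408804000406001104884090204a0082012048088102244044088)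
noncomputable def D : Net := (Net.cons (nat_lit 0) d0 (Net.cons (nat_lit 1) d1 (Net.cons (nat_lit 2) d2 (Net.cons (nat_lit 3) d3 (Net.cons (nat_lit 4) d4 Net.nil)))))
noncomputable def Tp0 : Nat := (nat_lit 0x1000000000000000000000000000)
noncomputable def T : Tr := (Tr.leaf Tp0)
noncomputable def DTp0 : Nat := (nat_lit 0x0)
noncomputable def DT : Tr := (Tr.leaf DTp0)
noncomputable def E : Ex := (Ex.cons (nat_lit 0) (nat_lit 0) (nat_lit 0) (Ex.cons (nat_lit 1) (nat_lit 0) (nat_lit 1) Ex.nil))
noncomputable def nd : Nat := (nat_lit 0)

end Cfsg.Agent.Lib.M11PBD
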