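import Cfsg.Agent.Lib.M11PRel
import Cfsg.Agent.Lib.CosetWide2
import Cfsg.Agent.Lib.M11PBN0
import Cfsg.Agent.Lib.M11PBR0
import Cfsg.Agent.Lib.M11PBD

set_option autoImplicit false
set_option linter.all false
set_option maxRecDepth 100000

namespace Cfsg.Agent.Lib.M11PBB
open Cfsg.Spor Cfsg.Agent.Lib.BenesPerm Cfsg.Agent.Lib.BenesAct Cfsg.Agent.Lib.BenesWord
open Cfsg.Agent.Lib.BenesPlane Cfsg.Agent.Lib.CosetClosure Cfsg.Agent.Lib.CosetFacts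
open Cfsg.Agent.Lib.CosetMain Cfsg.Agent.Lib.CoxBridge Cfsg.Agent.Lib.CosetGroup Cfsg.Agent.Lib.CosetInst Cfsg.Agent.Lib.CosetInj
open Cfsg.Agent.Lib.BenesPack Cfsg.Agent.Lib.CosetPack Cfsg.Agent.Lib.CosetChain Cfsg.Agent.Lib.CosetWide Cfsg.Agent.Lib.CosetWide2
open Cfsg.Agent.Lib.M11PRel Cfsg.Agent.Lib.M11PBN0 Cfsg.Agent.Lib.M11PBR0 Cfsg.Agent.Lib.M11PBD

/-- the networks -/
noncomputable def nets : List Net := [n0, n1, n2, n3, n4]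

/-- the ranks -/
noncomputable def R : List (List Nat) := (List.cons r0 (List.cons r1 (List.cons r2 (List.cons r3 (List.cons r4 List.nil)))))

/-- inverse letters -/
noncomputable def ivx : ℕ → ℕ := ivOf [0, 1, 2, 4, 3]

/-- words of the further letters -/
def xw : List Wd := [(Wd.inv (Wd.g 3))]

/-- relators -/
def wrels : List Wd := [(Wd.pow (Wd.mul (Wd.g 0) (Wd.g 1)) 6),
  (Wd.pow (Wd.mul (Wd.g 0) (Wd.g 2)) 5),
  (Wd.pow (Wd.mul (Wd.g 1) (Wd.g 2)) 4),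
  (Wd.mul (Wd.g 1) (Wd.inv (Wd.mul (Wd.mul (Wd.g 3) (Wd.g 0)) (Wd.inv (Wd.g 3))))),
  (Wd.pow (Wd.g 3) 4),
  (Wd.pow (Wd.mul (Wd.g 0) (Wd.g 3)) 11),
  (Wd.mul (Wd.mul (Wd.mul (Wd.mul (Wd.mul (Wd.mul (Wd.g 0) (Wd.g 1)) (Wd.inv (Wd.g 3))) (Wd.g 0)) (Wd.inv (Wd.g 3))) (Wd.g 0)) (Wd.g 2)),
  (Wd.mul (Wd.mul (Wd.mul (Wd.mul (Wd.mul (Wd.mul (Wd.mul (Wd.g 0) (Wd.g 1)) (Wd.g 3)) (Wd.g 1)) (Wd.g 2)) (Wd.g 1)) (Wd.inv (Wd.g 3))) (Wd.g 1))]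

/-- relations of the lanes -/
def eqs0 : List (List ℕ × List ℕ) := [([0, 0], []), ([1, 1], []), ([2, 2], []), ([4, 3], []), ([3, 4], []), ([0, 1, 0, 1, 0, 1], [1, 0, 1, 0, 1, 0]), ([0, 2, 0, 2, 0], [2, 0, 2, 0, 2]), ([1, 2, 1, 2], [2, 1, 2, 1]), ([1, 3], [3, 0]), ([3, 3], [4, 4]), ([0, 3, 0, 3, 0, 3, 0, 3, 0, 3, 0], [4, 0, 4, 0, 4, 0, 4, 0, 4, 0, 4]), ([0, 1, 4, 0], [2, 0, 3]), ([0, 1, 3, 1], [1, 3, 1, 2])]

/-- all relations of the lanes -/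
def eqs : List (List ℕ × List ℕ) := eqs0

/-- words for the subgroup -/
def WS : List Wd := [(Wd.g 0), (Wd.g 1)]

/-- all scripts -/
noncomputable def scr : Scr := Scr.nil

/-- trivial relators -/
def wtriv : List Wd := [Wd.mul (Wd.g 0) (Wd.g 0), Wd.mul (Wd.g 1) (Wd.g 1), Wd.mul (Wd.g 2) (Wd.g 2), Wd.mul (Wd.g 3) (Wd.g 4), Wd.mul (Wd.g 4) (Wd.g 3)]

/-- patterns -/
def pats : List Wd := wtriv ++ (rels ++ rels.map Wd.inv)

/-- patterns as lists of letters -/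
noncomputable def patL : List (List ℕ) := pats.map (fun W => (W.flat ivx).reverse)

theorem c_wok : wOK 4 xw rels wrels = true := by decide +kernel
theorem c_wback : wBack 4 xw rels wrels = true := by decide +kernel
theorem c_inv_sub : ∀ q ∈ invPairs ivx 5, q ∈ eqs := by decide +kernel
theorem c_rel_sub : ∀ q ∈ wrels.map (halfW ivx), q ∈ eqs := by decide +kernel

end Cfsg.Agent.Lib.M11PBB
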