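import Cfsg.Agent.Lib.M11PRel
import Cfsg.Agent.Lib.CosetChain

set_option autoImplicit false
set_option linter.all false
set_option maxRecDepth 100000

namespace Cfsg.Agent.Lib.M11PL1
open Cfsg.Spor Cfsg.Agent.Lib.BenesPerm Cfsg.Agent.Lib.BenesAct Cfsg.Agent.Lib.BenesWord
open Cfsg.Agent.Lib.BenesPlane Cfsg.Agent.Lib.CosetClosure Cfsg.Agent.Lib.CosetFacts
open Cfsg.Agent.Lib.CosetMain Cfsg.Agent.Lib.CoxBridge Cfsg.Agent.Lib.CosetGroup Cfsg.Agent.Lib.CosetInst Cfsg.Agent.Lib.CosetInj
open Cfsg.Agent.Lib.BenesPack Cfsg.Agent.Lib.CosetPack Cfsg.Agent.Lib.CosetChain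
open Cfsg.Agent.Lib.M11PRel (rels)

noncomputable def m0_0 : Nat := (nat_lit 0x401)
noncomputable def m0_1 : Nat := (nat_lit 0x30)
noncomputable def m0_2 : Nat := (nat_lit 0x30c)
noncomputable def m0_3 : Nat := (nat_lit 0x30)
noncomputable def m0_4 : Nat := (nat_lit 0x300)
noncomputable def m0_5 : Nat := (nat_lit 0x30)
noncomputable def n0 : Net := (Net.cons (nat_lit 1) m0_0 (Net.cons (nat_lit 2) m0_1 (Net.cons (nat_lit 4) m0_2 (Net.cons (nat_lit 8) m0_3 (Net.cons (nat_lit 4) m0_4 (Net.cons (nat_lit 2) m0_5 Net.nil))))))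
noncomputable def m1_0 : Nat := (nat_lit 0x333)
noncomputable def n1 : Net := (Net.cons (nat_lit 2) m1_0 Net.nil)
noncomputable def nets : List Net := [n0, n1]

noncomputable def r0_0 : Nat := (nat_lit 0xc00)
noncomputable def r0 : List Nat := (List.cons r0_0 List.nil)
noncomputable def r1_0 : Nat := (nat_lit 0x0)
noncomputable def r1 : List Nat := (List.cons r1_0 List.nil)
noncomputable def R : List (List Nat) := (List.cons r0 (List.cons r1 List.nil))
noncomputable def d1 : Nat := (nat_lit 0xccc)
noncomputable def d0 : Nat := (nat_lit 0x332)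
noncomputable def D : Net := (Net.cons (nat_lit 0) d0 (Net.cons (nat_lit 1) d1 Net.nil))
noncomputable def Tp0 : Nat := (nat_lit 0x0)
noncomputable def T : Tr := (Tr.leaf Tp0)
noncomputable def DTp0 : Nat := (nat_lit 0x0)
noncomputable def DT : Tr := (Tr.leaf DTp0)
noncomputable def scr : Scr := Scr.nil
noncomputable def E : Ex := Ex.nil
noncomputable def nd : Nat := (nat_lit 0)
noncomputable def g : Nat := (nat_lit 0)

/-- letters of the group -/
def sub : List ℕ := [0, 1]
/-- letters of the subgroup -/
def sub' : List ℕ := []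

/-- relators in the local letters -/
def lrels : List Wd := [(Wd.pow (Wd.mul (Wd.g 0) (Wd.g 1)) 6)]

/-- periods -/
def pers : List ℕ := [2]

theorem c_relok : relOK rels lrels sub = true := by decide
theorem c_nets : netsCheck (2 ^ 4) nets = true := by decide +kernel
theorem c_iv : ivK nets 4 ivI 2 = true := by decide +kernel
theorem c_full : fullInvK nets 12 2 = true := by decide +kernel
theorem c_len : lenK R 1 2 = true := by decide +kernel
theorem c_sym : symK nets ivI R 2 = true := by decide +kernel
theorem c_disj : disjK D 1 = true := by decide +kernel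
theorem c_tree : treeK nets 4 D = true := by decide +kernel
theorem c_treelet : netLetK 2 D = true := by decide +kernel
theorem c_dtab : dtabK (2 ^ 4) nd DT = true := by decide +kernel
theorem c_given : ∀ j, j < 0 → eSrc (T.get j) = 0 ∧ eDst (T.get j) = 0 ∧ eLet (T.get j) < sub.length ∧
  nthK 0 sub (eLet (T.get j)) ∈ sub' := by decide +kernel
theorem c_facts : factsK nets ivI R 2 12 (2 ^ 4) nd T DT ((lpats 2 lrels).map (fun W => (W.flat ivI).reverse)) 0 scr = true := by decide +kernel
theorem c_ex : exK nets R 2 T (0 + scr.len) E = true := by decide +kernel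
theorem c_simdlet : simdLetK ivI 2 (lrels.zip pers) = true := by decide +kernel
theorem c_cover : force (2 ^ 4) (fun N => relsMDK nets ivI R N 0 1 ((lrels.zip pers).map (splitW ivI)) (exM E D) (fun ms => coverK nets ivI 12 ms 2)) = true := by decide +kernel
theorem c_rels : relsD nets 4 2 ivI lrels = true := by decide +kernel

/-- the step of the chain -/
theorem step {G : Type*} [Group G] {x : ℕ → G} (hrels : ∀ W ∈ rels, W.eval x = 1) (hinv : ∀ c ∈ sub, x c * x c = 1)
    (hfin : Finite (LG x [])) : Finite (LG x [0, 1]) ∧ Nat.card (LG x [0, 1]) ≤ 12 * Nat.card (LG x []) :=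
  CosetChain.step hrels sub sub' pers c_relok hinv (by decide) (j := 0) (jk := 2) (P := 1) (D := D) (R := R)
    (scr := scr) (E := E) (T := T) (DT := DT) (nd := nd) (g := 0) (k := 4) (n := 12) rfl
    c_nets (by norm_num) (by norm_num) (by norm_num) c_iv c_full c_len c_sym c_disj c_tree c_treelet c_dtab c_given
    (by decide) c_facts c_ex c_rels c_simdlet c_cover hfin

end Cfsg.Agent.Lib.M11PL1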