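import Cfsg.Agent.Lib.CosetOdd
import Cfsg.Agent.Lib.M11PAIdx
import Cfsg.Agent.Lib.M11PL1
import Cfsg.Agent.Lib.M11PBIdx

set_option autoImplicit false
set_option linter.all false
set_option maxRecDepth 100000
set_option Elab.async false

namespace Cfsg.Agent.Lib.M11POrd
open Cfsg.Spor Cfsg.Agent.Lib.BenesPerm Cfsg.Agent.Lib.BenesAct Cfsg.Agent.Lib.BenesWord
open Cfsg.Agent.Lib.BenesPlane Cfsg.Agent.Lib.CosetClosure Cfsg.Agent.Lib.CosetFacts
open Cfsg.Agent.Lib.CosetMain Cfsg.Agent.Lib.CoxBridge Cfsg.Agent.Lib.CosetGroup Cfsg.Agent.Lib.CosetInst Cfsg.Agent.Lib.CosetInj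
open Cfsg.Agent.Lib.BenesPack Cfsg.Agent.Lib.CosetPack Cfsg.Agent.Lib.CosetChain Cfsg.Agent.Lib.CosetWide Cfsg.Agent.Lib.CosetWide2 Cfsg.Agent.Lib.CosetOrder Cfsg.Agent.Lib.CosetOdd
open Cfsg.Agent.Lib.M11PRel Cfsg.Agent.Lib.M11PAN0 Cfsg.Agent.Lib.M11PAB Cfsg.Agent.Lib.M11PAS Cfsg.Agent.Lib.M11PA Cfsg.Agent.Lib.M11PAIdx

/-- strong generators of level 1 -/
def ws1 : List (List ℕ) := [[2], [3], [4]]

/-- basic orbit 1 -/
noncomputable def B1 : ℕ := (nat_lit 0x7fe)
/-- steps -/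
def st1 : List ℕ := [0, 1, 0, 1, 1, 0]

theorem b1_fix0 : invK nets ws1 (2 ^ 0) = true := by decide +kernel
theorem b1_inv : invK nets ws1 B1 = true := by decide +kernel
theorem b1_reach : reachK nets (stepsW ws1 st1) (2 ^ 1) (fun V => Nat.beq V B1) = true := by decide +kernel
theorem b1_lt : B1 < 2 ^ 2 ^ 4 := by decide +kernel
theorem b1_pop : popK 4 B1 = 10 := by decide +kernel

/-- strong generators of level 2 -/
def ws2 : List (List ℕ) := [[2, 3, 2], [4, 4, 2, 3, 2, 4]]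

/-- basic orbit 2 -/
noncomputable def B2 : ℕ := (nat_lit 0x7fc)
/-- steps -/
def st2 : List ℕ := [1, 0, 1, 0, 0]

theorem b2_fix0 : invK nets ws2 (2 ^ 0) = true := by decide +kernel
theorem b2_fix1 : invK nets ws2 (2 ^ 1) = true := by decide +kernel
theorem b2_inv : invK nets ws2 B2 = true := by decide +kernel
theorem b2_reach : reachK nets (stepsW ws2 st2) (2 ^ 2) (fun V => Nat.beq V B2) = true := by decide +kernel
theorem b2_lt : B2 < 2 ^ 2 ^ 4 := by decide +kernel
theorem b2_pop : popK 4 B2 = 9 := by decide +kernel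

/-- strong generators of level 3 -/
def ws3 : List (List ℕ) := [[3, 2, 4, 2, 3, 3, 2, 4, 4, 2, 3, 2, 4, 2, 3, 3, 2, 4, 2, 3, 2, 4, 2, 3, 3], [4, 4, 2, 3, 2, 4, 2, 4, 2, 4, 4, 2, 3, 2, 4, 2, 4, 2, 3, 2, 4, 2, 3, 3]]

/-- basic orbit 3 -/
noncomputable def B3 : ℕ := (nat_lit 0x7f8)
/-- steps -/
def st3 : List ℕ := [0, 1, 0, 0]

theorem b3_fix0 : invK nets ws3 (2 ^ 0) = true := by decide +kernel
theorem b3_fix1 : invK nets ws3 (2 ^ 1) = true := by decide +kernel
theorem b3_fix2 : invK nets ws3 (2 ^ 2) = true := by decide +kernel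
theorem b3_inv : invK nets ws3 B3 = true := by decide +kernel
theorem b3_reach : reachK nets (stepsW ws3 st3) (2 ^ 3) (fun V => Nat.beq V B3) = true := by decide +kernel
theorem b3_lt : B3 < 2 ^ 2 ^ 4 := by decide +kernel
theorem b3_pop : popK 4 B3 = 8 := by decide +kernel

theorem full_lt : (2 ^ 11 - 1 : ℕ) < 2 ^ 2 ^ 4 := by decide +kernel
theorem full_pop : popK 4 (2 ^ 11 - 1) = 11 := by decide +kernel
theorem union_eq : unionK [M0] = 2 ^ 11 - 1 := by decide +kernel
theorem z0 : Nat.testBit M0 0 = false := by decide +kernel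
theorem arith : ∀ I : Finset (Fin 1), (1 + ∑ i ∈ I, ([10] : List ℕ)[i.1]'(by have := i.2; simpa using this)) ∣ 11 →
    (1 + ∑ i ∈ I, ([10] : List ℕ)[i.1]'(by have := i.2; simpa using this)) = 1 ∨
    (1 + ∑ i ∈ I, ([10] : List ℕ)[i.1]'(by have := i.2; simpa using this)) = 11 := by decide +kernel

/-- element of order 11 -/
def v0 : Wd := (Wd.mul (Wd.mul (Wd.mul (Wd.g 2) (Wd.g 4)) (Wd.g 0)) (Wd.g 1))
/-- element of order 11 -/
def v1 : Wd := (Wd.mul (Wd.mul (Wd.g 0) (Wd.g 3)) (Wd.g 2))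
/-- element of order 11 -/
def v2 : Wd := (Wd.mul (Wd.g 0) (Wd.g 3))
/-- element of order 11 -/
def v3 : Wd := (Wd.mul (Wd.mul (Wd.g 2) (Wd.g 0)) (Wd.g 3))
/-- relations between the elements -/
def vl : List Wd := [Wd.pow v0 11, Wd.pow (Wd.mul (Wd.g 0) v0) 11, Wd.pow v1 11, Wd.pow (Wd.mul (Wd.g 1) v1) 11, Wd.pow v2 11, Wd.pow (Wd.mul (Wd.g 2) v2) 11, Wd.pow v3 11, Wd.pow (Wd.mul (Wd.g 3) v3) 11]
/-- plane relations -/
noncomputable def eqsV : List (List ℕ × List ℕ) := vl.map (halfW ivx)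

theorem plv0 : plK nets 4 0 eqsV = true := by decide +kernel
theorem plv1 : plK nets 4 1 eqsV = true := by decide +kernel
theorem plv2 : plK nets 4 2 eqsV = true := by decide +kernel
theorem plv3 : plK nets 4 3 eqsV = true := by decide +kernel
theorem c_plv : ∀ b, b < 4 → plK nets 4 b eqsV = true := by
  intro b hb
  interval_cases b
  · exact plv0
  · exact plv1
  · exact plv2
  · exact plv3

theorem lane_v : ∀ W ∈ vl, W.eval (sperm nets) = 1 := lane_rel c_nets lane_inv c_plv (fun q hq => hq)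

theorem rel_eval' : ∀ W ∈ rels, W.eval (C.x L0) = 1 := rel_eval L0

theorem invol : ∀ c, c < 3 → C.x L0 c * C.x L0 c = 1 := (C.rel_x L0).2.2

theorem bound2 : Finite (LG (C.x L0) []) ∧ Nat.card (LG (C.x L0) []) ≤ 1 := bot_bound _

theorem bound1 : Finite (LG (C.x L0) [0, 1]) ∧ Nat.card (LG (C.x L0) [0, 1]) ≤ 12 :=
  chain_bound (n := 12) (Cfsg.Agent.Lib.M11PL1.step rel_eval' (by intro c hc; apply invol; revert c hc; decide)) bound2 (by norm_num)

theorem index_top : (LG (C.x L0) [0, 1]).index = 660 := by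
  obtain ⟨φ, f, _, _, _, _, _, _, _, _, h⟩ := Cfsg.Agent.Lib.M11PBIdx.main (LG (C.x L0) [0, 1]) rfl
  exact h

/-- everything about the presented group -/
theorem main : IsSimpleGroup (CoxPresented M11P.Gen M11P.edges M11P.extra) ∧ Nat.card (CoxPresented M11P.Gen M11P.edges M11P.extra) = 7920 ∧
    ∃ (φ : (CoxPresented M11P.Gen M11P.edges M11P.extra) →* Equiv.Perm ℕ), (∀ c, φ (C.x L0 c) = sperm nets c) ∧ Function.Injective φ ∧
      ∀ g, (∀ b ∈ [3, 2, 1, 0], φ g b = b) → g = 1 := by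
  have hgen := gen_top
  obtain ⟨φ, hφ⟩ := phi_exists
  obtain ⟨f, hf0, hf⟩ := map_exists _ rfl
  have hc := cert_full (k := 4) (n := 11) (nc := 5) c_nets hφ x_iv0 hgen (by norm_num)
    c_full WS c_fix steps0 c_inv0 c_reach0 _ rfl f hf0 hf
  have hc' := cert_index (k := 4) (n := 11) (nc := 5) c_nets hφ x_iv0 hgen (by norm_num) (by norm_num)
    c_full WS c_fix steps0 c_inv0 c_reach0 _ rfl f hf0 hf
  obtain ⟨hidx, heq, hpres, hfinj, horb, hfix, hfsurj⟩ := hc
  have hGU := index_bound (n := 660) (V := 7920) index_top (by norm_num) rfl bound1 (by norm_num)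
  obtain ⟨hG, hcU⟩ := hGU
  have hfr : Finite φ.range := Finite.of_surjective _ φ.rangeRestrict_surjective
  have hw : ∀ w : List ℕ, (w.map (sperm nets)).prod ∈ φ.range := fun w => word_mem_range hφ w
  have e0 : 11 * Nat.card (stabs φ.range [0]) ≤ Nat.card φ.range :=
    level c_nets hfr hw [] ((letterW 5).map (Wd.flat ivx)) (by intro b hb; exact absurd hb (by simp)) full_lt steps0 c_inv0 c_reach0 full_pop
  have lv1 : 10 * Nat.card (stabs φ.range [1, 0]) ≤ Nat.card (stabs φ.range [0]) :=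
    level c_nets hfr hw [0] ws1 (by
      intro b hb
      simp only [List.mem_cons, List.not_mem_nil, or_false] at hb
      rcases hb with rfl
      · exact b1_fix0) b1_lt st1 b1_inv b1_reach b1_pop
  have e1 : 110 * Nat.card (stabs φ.range [1, 0]) ≤ Nat.card φ.range := level_trans e0 lv1 (by norm_num)
  have lv2 : 9 * Nat.card (stabs φ.range [2, 1, 0]) ≤ Nat.card (stabs φ.range [1, 0]) :=
    level c_nets hfr hw [1, 0] ws2 (by
      intro b hb
      simp only [List.mem_cons, List.not_mem_nil, or_false] at hb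
      rcases hb with rfl | rfl
      · exact b2_fix1
      · exact b2_fix0) b2_lt st2 b2_inv b2_reach b2_pop
  have e2 : 990 * Nat.card (stabs φ.range [2, 1, 0]) ≤ Nat.card φ.range := level_trans e1 lv2 (by norm_num)
  have lv3 : 8 * Nat.card (stabs φ.range [3, 2, 1, 0]) ≤ Nat.card (stabs φ.range [2, 1, 0]) :=
    level c_nets hfr hw [2, 1, 0] ws3 (by
      intro b hb
      simp only [List.mem_cons, List.not_mem_nil, or_false] at hb
      rcases hb with rfl | rfl | rfl
      · exact b3_fix2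
      · exact b3_fix1
      · exact b3_fix0) b3_lt st3 b3_inv b3_reach b3_pop
  have e3 : 7920 * Nat.card (stabs φ.range [3, 2, 1, 0]) ≤ Nat.card φ.range := level_trans e2 lv3 (by norm_num)
  obtain ⟨hcard, hinj, hbase⟩ := order_of_bounds φ hG (U := 7920) hcU e3
  refine ⟨?_, hcard, φ, hφ, hinj, hbase⟩
  have hev : ∀ W ∈ vl, W.eval (C.x L0) = 1 := fun W hW => by
    apply hinj
    rw [Wd.map_eval, map_one]
    simp only [hφ]
    exact lane_v W hW
  apply simple_order (nc := 5) (n := 11) (U := 7920) (p := 11) (h := 720) (φ := φ) (bs := [3, 2, 1, 0])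
    (H := Subgroup.closure (wset (C.x L0) WS)) hgen hcard hG (by norm_num) hidx hfix horb (by decide) hbase
    ?_ (by norm_num) (by norm_num) (by norm_num) (by norm_num)
  · intro N hN hpN
    have n0 : C.x L0 0 ∈ N := mem_of_pow hpN (p := 11) (b := Wd.eval (C.x L0) v0)
          (hev (Wd.pow v0 11) (by simp [vl])) (hev (Wd.pow (Wd.mul (Wd.g 0) v0) 11) (by simp [vl]))
    have n1 : C.x L0 1 ∈ N := mem_of_pow hpN (p := 11) (b := Wd.eval (C.x L0) v1)
          (hev (Wd.pow v1 11) (by simp [vl])) (hev (Wd.pow (Wd.mul (Wd.g 1) v1) 11) (by simp [vl]))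
    have n2 : C.x L0 2 ∈ N := mem_of_pow hpN (p := 11) (b := Wd.eval (C.x L0) v2)
          (hev (Wd.pow v2 11) (by simp [vl])) (hev (Wd.pow (Wd.mul (Wd.g 2) v2) 11) (by simp [vl]))
    have n3 : C.x L0 3 ∈ N := mem_of_pow hpN (p := 11) (b := Wd.eval (C.x L0) v3)
          (hev (Wd.pow v3 11) (by simp [vl])) (hev (Wd.pow (Wd.mul (Wd.g 3) v3) 11) (by simp [vl]))
    have n4 : C.x L0 4 ∈ N := by
      have h := x_iv0 3
      rw [show ivx 3 = 4 from rfl] at h
      rw [h]
      exact N.inv_mem n3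
    intro c hc
    interval_cases c
    · exact n0
    · exact n1
    · exact n2
    · exact n3
    · exact n4
  · refine maximal_of_block hidx (by norm_num) (r := 1) (fun i => ([10] : List ℕ)[i.1]'(by have := i.2; simpa using this)) ?_ arith
    intro K hK
    refine block_of_masks (by norm_num) f hf0 hfinj hfsurj [1] [M0] [10] rfl rfl ?_ ?_ union_eq ?_ ?_ K hK
    · decide
    · intro i
      fin_cases i
      · have h2 := hc'.2 1 M0 l0 (by norm_num) o0_lt o0_inv o0_reach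
        exact ⟨h2.1, h2.2.trans o0_pop⟩
    · intro i j h
      fin_cases i <;> fin_cases j
      · rfl
    · intro i
      fin_cases i
      · exact z0

end Cfsg.Agent.Lib.M11POrd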