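import Cfsg.Agent.Lib.S5612Aut
import Cfsg.Agent.Lib.GolayChain

/-!
Explicit generators of `M12` and `M11` on twelve points (`S3362`).
-/

set_option autoImplicit false
set_option linter.unusedVariables false

namespace Cfsg.Agent.Lib.M12Gens

open Cfsg.Agent.Lib.MaskSet MulAction
open scoped Pointwise

abbrev P12 : Type := Equiv.Perm (Fin 12)

def gS : P12 := Equiv.swap (3 : Fin 12) 5 * Equiv.swap (3 : Fin 12) 4 * Equiv.swap (6 : Fin 12) 8 * Equiv.swap (6 : Fin 12) 7 * Equiv.swap (9 : Fin 12) 11 * Equiv.swap (9 : Fin 12) 10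
def gT : P12 := Equiv.swap (3 : Fin 12) 9 * Equiv.swap (3 : Fin 12) 6 * Equiv.swap (4 : Fin 12) 10 * Equiv.swap (4 : Fin 12) 7 * Equiv.swap (5 : Fin 12) 11 * Equiv.swap (5 : Fin 12) 8
def gU : P12 := Equiv.swap (4 : Fin 12) 9 * Equiv.swap (4 : Fin 12) 5 * Equiv.swap (4 : Fin 12) 6 * Equiv.swap (7 : Fin 12) 10 * Equiv.swap (7 : Fin 12) 11 * Equiv.swap (7 : Fin 12) 8
def gV : P12 := Equiv.swap (4 : Fin 12) 11 * Equiv.swap (4 : Fin 12) 5 * Equiv.swap (4 : Fin 12) 7 * Equiv.swap (6 : Fin 12) 8 * Equiv.swap (6 : Fin 12) 9 * Equiv.swap (6 : Fin 12) 10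
def gW : P12 := Equiv.swap (4 : Fin 12) 8 * Equiv.swap (4 : Fin 12) 5 * Equiv.swap (4 : Fin 12) 10 * Equiv.swap (6 : Fin 12) 7 * Equiv.swap (6 : Fin 12) 9 * Equiv.swap (6 : Fin 12) 11
def gX : P12 := Equiv.swap (0 : Fin 12) 3 * Equiv.swap (6 : Fin 12) 7 * Equiv.swap (8 : Fin 12) 10 * Equiv.swap (9 : Fin 12) 11
def gY : P12 := Equiv.swap (0 : Fin 12) 1 * Equiv.swap (6 : Fin 12) 9 * Equiv.swap (7 : Fin 12) 10 * Equiv.swap (8 : Fin 12) 11
def gZ : P12 := Equiv.swap (1 : Fin 12) 2 * Equiv.swap (6 : Fin 12) 11 * Equiv.swap (7 : Fin 12) 9 * Equiv.swap (8 : Fin 12) 10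

def gn : Fin 8 → P12 := ![gS, gT, gU, gV, gW, gX, gY, gZ]

def gL : List (List ℕ) := [[0, 1, 2, 4, 5, 3, 7, 8, 6, 10, 11, 9], [0, 1, 2, 6, 7, 8, 9, 10, 11, 3, 4, 5], [0, 1, 2, 3, 6, 9, 5, 8, 11, 4, 7, 10], [0, 1, 2, 3, 7, 11, 10, 5, 6, 8, 9, 4], [0, 1, 2, 3, 10, 8, 11, 6, 4, 7, 5, 9], [3, 1, 2, 0, 4, 5, 7, 6, 10, 11, 8, 9], [1, 0, 2, 3, 4, 5, 9, 10, 11, 6, 7, 8], [0, 2, 1, 3, 4, 5, 11, 9, 10, 7, 8, 6]]

def gt (k i : ℕ) : ℕ := (gL.getD k []).getD i 0

theorem gn_apply : ∀ (k : Fin 8) (i : Fin 12), gt k i = (gn k i : ℕ) := by decide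

def hexL : List ℕ := [63, 219, 237, 246, 350, 363, 373, 413, 430, 435, 455, 504, 591, 627, 636, 670, 679, 697, 725, 746, 791, 813, 826, 857, 870, 907, 948, 972, 978, 993, 1117, 1127, 1146, 1175, 1195, 1212, 1230, 1265, 1295, 1334, 1337, 1363, 1388, 1434, 1445, 1481, 1492, 1506, 1563, 1582, 1589, 1622, 1641, 1677, 1714, 1731, 1752, 1764, 1820, 1827, 1861, 1866, 1904, 1926, 1937, 1960, 2135, 2158, 2169, 2191, 2229, 2234, 2268, 2275, 2331, 2343, 2364, 2381, 2418, 2454, 2473, 2506, 2513, 2532, 2589, 2603, 2614, 2650, 2661, 2707, 2732, 2758, 2761, 2800, 2830, 2865, 2883, 2900, 2920, 2949, 2968, 2978, 3102, 3117, 3123, 3147, 3188, 3225, 3238, 3269, 3282, 3304, 3349, 3370, 3398, 3416, 3425, 3459, 3468, 3504, 3591, 3640, 3660, 3665, 3682, 3722, 3732, 3745, 3849, 3858, 3876, 4032]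

def B : Set (Finset (Fin 12)) := {b | ∃ m ∈ hexL, mset 12 m = b}

theorem hex_ok : (hexL.all fun m => decide (m < 4096) && Nat.beq (S5612.pcf m) 6) = true := by decide +kernel

def cnt (m : ℕ) : ℕ := List.rec (motive := fun _ => ℕ) 0
  (fun h _ ih => cond (Nat.beq (Nat.land h m) m) (Nat.succ ih) ih) hexL

theorem cnt_eq (m : ℕ) : cnt m = (hexL.filter fun h => Nat.beq (Nat.land h m) m).length := by
  unfold cnt
  induction hexL with
  | nil => rfl
  | cons a l ih =>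
    rw [List.filter_cons]
    show cond (Nat.beq (Nat.land a m) m) (Nat.succ _) _ = _
    rw [ih]
    cases Nat.beq (Nat.land a m) m <;> rfl

theorem five_ok : ((List.range 4096).all fun m => cond (Nat.beq (S5612.pcf m) 5) (Nat.beq (cnt m) 1) true) = true := by
  decide +kernel

theorem subset_iff {a b : ℕ} (ha : a < 4096) (hb : b < 4096) : mset 12 a ⊆ mset 12 b ↔ Nat.beq (Nat.land b a) a = true := by
  rw [Nat.beq_eq]
  constructor
  · intro h
    apply mset_inj (n := 12) (lt_of_le_of_lt Nat.and_le_right ha) ha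
    show mset 12 (b &&& a) = _
    rw [mset_and]
    exact Finset.inter_eq_right.mpr h
  · intro h x hx
    rw [← h] at hx
    have : mset 12 (Nat.land b a) = mset 12 b ∩ mset 12 a := mset_and 12 b a
    rw [this] at hx
    exact (Finset.mem_inter.mp hx).1

theorem hex_lt {m : ℕ} (h : m ∈ hexL) : m < 4096 ∧ pc 12 m = 6 := by
  have h1 := List.all_eq_true.mp hex_ok m h
  rw [Bool.and_eq_true, decide_eq_true_eq] at h1
  exact ⟨h1.1, by rw [← S5612.pcf_eq]; exact Nat.eq_of_beq_eq_true h1.2⟩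

theorem B_steiner : Cfsg.IsSteinerSystem 5 6 B := by
  constructor
  · rintro b ⟨m, hm, rfl⟩
    rw [card_mset]; exact (hex_lt hm).2
  · intro s hs
    obtain ⟨a, ha, rfl⟩ := exists_mask s
    have ha' : a < 4096 := ha
    rw [card_mset] at hs
    have h1 := List.all_eq_true.mp five_ok a (List.mem_range.mpr ha')
    have h2 : Nat.beq (S5612.pcf a) 5 = true := by rw [S5612.pcf_eq, hs]; rfl
    rw [h2, cond_true] at h1
    have h3 := Nat.eq_of_beq_eq_true h1
    rw [cnt_eq, List.length_eq_one_iff] at h3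
    obtain ⟨h, hh⟩ := h3
    have h4 : h ∈ hexL.filter fun h => Nat.beq (Nat.land h a) a := by rw [hh]; simp
    rw [List.mem_filter] at h4
    refine ⟨mset 12 h, ⟨⟨h, h4.1, rfl⟩, (subset_iff ha' (hex_lt h4.1).1).mpr h4.2⟩, ?_⟩
    rintro b ⟨⟨m, hm, rfl⟩, hsub⟩
    have h5 : m ∈ hexL.filter fun h => Nat.beq (Nat.land h a) a :=
      List.mem_filter.mpr ⟨hm, (subset_iff ha' (hex_lt hm).1).mp hsub⟩
    rw [hh, List.mem_singleton] at h5
    rw [h5]

theorem gn_ok : ((List.range 8).all fun k => hexL.all fun m => hexL.any fun h => Nat.beq (imgN (gt k) 12 m) h) = true := by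
  decide +kernel

theorem gn_B (k : Fin 8) {b : Finset (Fin 12)} (hb : b ∈ B) : gn k • b ∈ B := by
  obtain ⟨m, hm, rfl⟩ := hb
  have h1 := List.all_eq_true.mp (List.all_eq_true.mp gn_ok k (List.mem_range.mpr k.2)) m hm
  obtain ⟨h, hh, h2⟩ := List.any_eq_true.mp h1
  refine ⟨h, hh, ?_⟩
  rw [← Nat.eq_of_beq_eq_true h2, mset_imgN (gn k) (gt k) (fun i => gn_apply k i)]
  rfl

theorem B_finite : B.Finite := Set.toFinite B

theorem gn_aut (k : Fin 8) : gn k ∈ Cfsg.setSystemAut B := by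
  show gn k • B = B
  apply Set.eq_of_subset_of_ncard_le
  · rintro _ ⟨b, hb, rfl⟩
    exact gn_B k hb
  · rw [Set.ncard_smul_set]
  · exact B_finite

def M12' : Subgroup P12 := Subgroup.closure (Set.range gn)
def M11' : Subgroup P12 := Subgroup.closure (Set.range fun k : Fin 7 => gn (Fin.castSucc k))

theorem M12_le : M12' ≤ Cfsg.setSystemAut B := by
  unfold M12'
  rw [Subgroup.closure_le]
  rintro _ ⟨k, rfl⟩
  exact gn_aut k

theorem M11_le : M11' ≤ M12' := by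
  unfold M11' M12'
  apply Subgroup.closure_mono
  rintro _ ⟨k, rfl⟩
  exact ⟨_, rfl⟩

/-! ### transitivity -/

def base : Fin 5 → Fin 12 := ![2, 1, 0, 3, 4]

/-- letters allowed at each level -/
def al (j k : ℕ) : Bool :=
  [[0, 1, 2, 3, 4, 5, 6, 7], [0, 1, 2, 3, 4, 5, 6], [0, 1, 2, 3, 4, 5], [0, 1, 2, 3, 4], [2, 3, 4]].getD j [] |>.contains k

def wd : List (List (List ℕ)) := [[[7, 6], [7], [], [7, 6, 5], [7, 6, 5, 0, 0], [7, 6, 5, 0], [7, 6, 5, 0, 2], [7, 6, 5, 0, 3], [7, 6, 5, 0, 0, 4], [7, 6, 5, 1], [7, 6, 5, 0, 4], [7, 6, 5, 0, 1]], [[6], [], [], [6, 5], [6, 5, 0, 0], [6, 5, 0], [6, 5, 0, 2], [6, 5, 0, 3], [6, 5, 0, 0, 4], [6, 5, 1], [6, 5, 0, 4], [6, 5, 0, 1]], [[], [], [], [5], [5, 0, 0], [5, 0], [5, 0, 2], [5, 0, 3], [5, 0, 0, 4], [5, 1], [5, 0, 4], [5, 0, 1]], [[], [], [], [], [0, 0], [0], [0, 2], [0, 3], [0, 0, 4], [1], [0, 4], [0, 1]], [[], [], [], [], [], [2, 2], [3, 4], [4, 2], [4], [2], [2, 3], [3]]]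

def ev (l : List ℕ) (q : ℕ) : ℕ := l.foldr (fun k q => gt k q) q

theorem lv_ok : ∀ (j : Fin 5) (q : Fin 12), (∃ i : Fin 5, i < j ∧ q = base i) ∨
    (ev ((wd.getD j []).getD q []) q = base j ∧ ((wd.getD j []).getD q []).all (fun k => al j k && decide (k < 8)) = true) := by
  decide +kernel

theorem al_fix : ∀ (j i : Fin 5) (k : Fin 8), i < j → al j k = true → gt k (base i) = base i := by decide +kernel

theorem al_seven : ∀ (j : Fin 5) (k : Fin 8), 1 ≤ (j : ℕ) → al j k = true → (k : ℕ) < 7 := by decide +kernel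

noncomputable def wp (l : List (Fin 8)) : P12 := (l.map gn).prod

theorem wp_apply (l : List (Fin 8)) (q : Fin 12) : ((wp l q : Fin 12) : ℕ) = ev (l.map Fin.val) q := by
  induction l with
  | nil => rfl
  | cons k l ih =>
    show ((gn k (wp l q) : Fin 12) : ℕ) = gt k (ev (l.map Fin.val) q)
    rw [← ih, gn_apply]

theorem exists_list {l : List ℕ} (h : ∀ k ∈ l, k < 8) : ∃ l' : List (Fin 8), l'.map Fin.val = l := by
  refine ⟨l.attach.map fun k => ⟨k.1, h k.1 k.2⟩, ?_⟩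
  rw [List.map_map]
  simp [Function.comp_def]

theorem level (j : Fin 5) (q : Fin 12) (hq : ∀ i : Fin 5, i < j → q ≠ base i) :
    ∃ g ∈ M12', g q = base j ∧ (∀ i : Fin 5, i < j → g (base i) = base i) ∧ (1 ≤ (j : ℕ) → g ∈ M11') := by
  rcases lv_ok j q with ⟨i, hi, h⟩ | ⟨h1, h2⟩
  · exact absurd h (hq i hi)
  · have h3 : ∀ k ∈ ((wd.getD j []).getD q []), al j k = true ∧ k < 8 := by
      intro k hk
      have := List.all_eq_true.mp h2 k hk
      rw [Bool.and_eq_true, decide_eq_true_eq] at this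
      exact this
    obtain ⟨l, hl⟩ := exists_list (fun k hk => (h3 k hk).2)
    have h4 : ∀ k ∈ l, al j k = true := fun k hk => (h3 k (by rw [← hl]; exact List.mem_map_of_mem hk)).1
    have hmem : ∀ l : List (Fin 8), wp l ∈ M12' := by
      intro l
      apply Subgroup.list_prod_mem
      intro x hx
      obtain ⟨k, -, rfl⟩ := List.mem_map.mp hx
      exact Subgroup.subset_closure ⟨k, rfl⟩
    refine ⟨wp l, hmem l, ?_, ?_, ?_⟩
    · apply Fin.ext
      rw [wp_apply, hl, h1]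
    · intro i hi
      clear hl h1 h2 h3
      induction l with
      | nil => rfl
      | cons k l ih =>
        show gn k (wp l (base i)) = base i
        rw [ih (fun k hk => h4 k (List.mem_cons_of_mem _ hk))]
        apply Fin.ext
        rw [← gn_apply]
        exact al_fix j i k hi (h4 k (by simp))
    · intro hj
      apply Subgroup.list_prod_mem
      intro x hx
      obtain ⟨k, hk, rfl⟩ := List.mem_map.mp hx
      have := al_seven j k hj (h4 k hk)
      exact Subgroup.subset_closure ⟨⟨k, this⟩, rfl⟩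

/-- one step -/
theorem stepj (j : Fin 5) (y : Fin 5 → Fin 12) (hy : Function.Injective y) (hb : ∀ i : Fin 5, i < j → y i = base i) :
    ∃ g ∈ M12', (∀ i : Fin 5, i ≤ j → g (y i) = base i) ∧ (1 ≤ (j : ℕ) → g ∈ M11') := by
  obtain ⟨g, hg, h1, h2, h3⟩ := level j (y j) (fun i hi e => by
    rw [← hb i hi] at e
    exact hi.ne (hy e).symm)
  refine ⟨g, hg, ?_, h3⟩
  intro i hi
  rcases lt_or_eq_of_le hi with h | rfl
  · rw [hb i h]; exact h2 i h
  · exact h1

theorem to_base (y : Fin 5 → Fin 12) (hy : Function.Injective y) :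
    ∃ g ∈ M12', (∀ i, g (y i) = base i) ∧ (y 0 = 2 → g ∈ M11') := by
  have h0 : ∃ g ∈ M12', (∀ i : Fin 5, i ≤ 0 → g (y i) = base i) ∧ (y 0 = 2 → g ∈ M11') := by
    by_cases h : y 0 = 2
    · refine ⟨1, M12'.one_mem, ?_, fun _ => M11'.one_mem⟩
      intro i hi
      have : i = 0 := Fin.le_zero_iff.mp hi
      rw [this, Equiv.Perm.one_apply, h]; rfl
    · obtain ⟨g, hg, h1, -⟩ := stepj 0 y hy (fun i hi => absurd hi (by simp))
      exact ⟨g, hg, h1, fun h' => absurd h' h⟩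
  have st : ∀ j : Fin 5, ∀ j' : Fin 5, (j' : ℕ) = j + 1 → (∃ g ∈ M12', (∀ i : Fin 5, i ≤ j → g (y i) = base i) ∧
      (y 0 = 2 → g ∈ M11')) → ∃ g ∈ M12', (∀ i : Fin 5, i ≤ j' → g (y i) = base i) ∧ (y 0 = 2 → g ∈ M11') := by
    rintro j j' hj ⟨g, hg, h1, h2⟩
    obtain ⟨k, hk, k1, k2⟩ := stepj j' (fun i => g (y i)) (g.injective.comp hy) (fun i hi => h1 i (by
      rw [Fin.le_def]; rw [Fin.lt_def] at hi; omega))
    exact ⟨k * g, M12'.mul_mem hk hg, k1, fun h => M11'.mul_mem (k2 (by omega)) (h2 h)⟩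
  obtain ⟨g, hg, h1, h2⟩ := st 3 4 rfl (st 2 3 rfl (st 1 2 rfl (st 0 1 rfl h0)))
  exact ⟨g, hg, fun i => h1 i (by rw [Fin.le_def]; have := i.2; omega), h2⟩

theorem M12_pretransitive : IsMultiplyPretransitive M12' (Fin 12) 5 := by
  rw [isMultiplyPretransitive_iff]
  intro x y
  obtain ⟨g, hg, h1, -⟩ := to_base x x.injective
  obtain ⟨k, hk, k1, -⟩ := to_base y y.injective
  refine ⟨⟨k⁻¹ * g, M12'.mul_mem (M12'.inv_mem hk) hg⟩, ?_⟩
  ext i
  show (((k⁻¹ * g) (x i) : Fin 12) : ℕ) = (y i : ℕ)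
  rw [Equiv.Perm.mul_apply, h1, ← k1]
  congr 1
  exact k.symm_apply_apply _

theorem eq_one {g : P12} (hg : g ∈ M12') (h : ∀ i, g (base i) = base i) : g = 1 := by
  have hb : Function.Injective base := by decide
  have h1 := S5612.aut_sharp (by simp) B_steiner ⟨base, hb⟩
  have h2 : (⟨g, M12_le hg⟩ : Cfsg.setSystemAut B) ∈ stabilizer (Cfsg.setSystemAut B) (⟨base, hb⟩ : Fin 5 ↪ Fin 12) := by
    rw [mem_stabilizer_iff]
    ext i
    show ((g (base i) : Fin 12) : ℕ) = _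
    rw [h i]; rfl
  rw [h1, Subgroup.mem_bot] at h2
  exact congrArg Subtype.val h2

theorem M12_sharp (x : Fin 5 ↪ Fin 12) : stabilizer M12' x = ⊥ := by
  rw [eq_bot_iff]
  rintro ⟨g, hg⟩ hgx
  rw [Subgroup.mem_bot]
  apply Subtype.ext
  show g = 1
  obtain ⟨k, hk, k1, -⟩ := to_base x x.injective
  have hgx' : ∀ i, g (x i) = x i := fun i => DFunLike.congr_fun (mem_stabilizer_iff.mp hgx) i
  have h1 : k * g * k⁻¹ = 1 := by
    apply eq_one (M12'.mul_mem (M12'.mul_mem hk hg) (M12'.inv_mem hk))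
    intro i
    have h2 : k⁻¹ (base i) = x i := by rw [← k1]; exact k.symm_apply_apply _
    rw [Equiv.Perm.mul_apply, Equiv.Perm.mul_apply, h2, hgx', k1]
  have h2 : g = k⁻¹ * (k * g * k⁻¹) * k := by group
  rw [h2, h1]; group

theorem card_M12 : Nat.card M12' = 95040 := by
  rw [SharpMult.card_of_sharp M12_pretransitive (by simp) M12_sharp]
  simp [Nat.descFactorial]

theorem M11_fix {g : P12} (hg : g ∈ M11') : g 2 = 2 := by
  have hle : M11' ≤ stabilizer P12 (2 : Fin 12) := by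
    unfold M11'
    rw [Subgroup.closure_le]
    rintro _ ⟨k, rfl⟩
    have : ∀ k : Fin 7, gn (Fin.castSucc k) 2 = 2 := by decide
    exact this k
  exact hle hg

theorem M11_eq : M11' = M12' ⊓ stabilizer P12 (2 : Fin 12) := by
  apply le_antisymm
  · intro g hg
    exact ⟨M11_le hg, M11_fix hg⟩
  · rintro g ⟨hg, h2⟩
    have h2' : g 2 = 2 := h2
    have hb : Function.Injective base := by decide
    obtain ⟨k, hk, k1, k2⟩ := to_base (fun i => g (base i)) (g.injective.comp hb)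
    have h3 : k * g = 1 := eq_one (M12'.mul_mem hk hg) k1
    have h4 : g = k⁻¹ := (inv_eq_of_mul_eq_one_right h3).symm
    rw [h4]
    exact M11'.inv_mem (k2 h2')

theorem card_M11 : Nat.card M11' = 7920 := by
  have h := Golay.card_eq_mul_inf_stabilizer M12' (2 : Fin 12) Set.univ (fun _ _ => Set.mem_univ _) (fun q _ => by
    obtain ⟨g, hg, h, -⟩ := level 0 q (fun i hi => absurd hi (by simp))
    refine ⟨g⁻¹, M12'.inv_mem hg, ?_⟩
    show g⁻¹ 2 = q
    have : base 0 = 2 := rfl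
    rw [← this, ← h]
    exact g.symm_apply_apply _)
  rw [card_M12, ← M11_eq, Set.ncard_univ, Nat.card_eq_fintype_card, Fintype.card_fin] at h
  omega

end Cfsg.Agent.Lib.M12Gens
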