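import Cfsg.Agent.Lib.MathieuBlock
import Cfsg.Agent.Lib.M22Block
import Cfsg.Agent.Lib.GolayTrans
import Cfsg.Agent.Lib.SylowOrd

/-!
helper27: `M22` has no subgroups of index 56 or 210 (S1606).
-/

set_option autoImplicit false

namespace Cfsg.Agent.Lib.M22Index

open Cfsg Cfsg.Agent.Lib.Golay
open Cfsg.Agent.Lib.GolayFix (Fix mem_Fix)
open scoped Pointwise

abbrev PG := Equiv.Perm GolayPt
abbrev S (a : GolayPt) : Subgroup PG := MulAction.stabilizer PG a

theorem mem_S {g : PG} {a : GolayPt} : g ∈ S a ↔ g a = a := Iff.rfl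

/-- orbits of a permutation group on the 24 points -/
noncomputable def orb (K : Subgroup PG) (a : GolayPt) : Finset GolayPt :=
  open scoped Classical in Finset.univ.filter fun b => ∃ g ∈ K, g a = b

theorem mem_orb {K : Subgroup PG} {a b : GolayPt} : b ∈ orb K a ↔ ∃ g ∈ K, g a = b := by
  classical
  simp [orb]

theorem card_orb (K : Subgroup PG) (a : GolayPt) : Nat.card K = (orb K a).card * Nat.card ↥(K ⊓ S a) := by
  rw [← Set.ncard_coe_finset]
  exact card_eq_mul_inf_stabilizer K a _ (fun g hg => mem_orb.mpr ⟨g, hg, rfl⟩)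
    (fun x hx => mem_orb.mp hx)

theorem self_mem_orb (K : Subgroup PG) (a : GolayPt) : a ∈ orb K a := mem_orb.mpr ⟨1, K.one_mem, rfl⟩

theorem smul_mem_orb {K : Subgroup PG} {a b : GolayPt} (h : b ∈ orb K a) {g : PG} (hg : g ∈ K) : g b ∈ orb K a := by
  obtain ⟨k, hk, rfl⟩ := mem_orb.mp h
  exact mem_orb.mpr ⟨g * k, K.mul_mem hg hk, rfl⟩

theorem orb_eq {K : Subgroup PG} {a b : GolayPt} (h : b ∈ orb K a) : orb K b = orb K a := by
  obtain ⟨k, hk, rfl⟩ := mem_orb.mp h
  ext c
  rw [mem_orb, mem_orb]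
  constructor
  · rintro ⟨g, hg, rfl⟩
    exact ⟨g * k, K.mul_mem hg hk, rfl⟩
  · rintro ⟨g, hg, rfl⟩
    refine ⟨g * k⁻¹, K.mul_mem hg (K.inv_mem hk), ?_⟩
    rw [Equiv.Perm.mul_apply, perm_inv_apply]

/-- an invariant set with all orbits of size divisible by `n` -/
theorem dvd_card_of_orb {K : Subgroup PG} {n : ℕ} : ∀ (m : ℕ) (T : Finset GolayPt), T.card ≤ m →
    (∀ g ∈ K, ∀ a ∈ T, g a ∈ T) → (∀ a ∈ T, n ∣ (orb K a).card) → n ∣ T.card := by
  intro m
  induction m with
  | zero =>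
    intro T hT _ _
    have : T.card = 0 := by omega
    rw [this]; exact dvd_zero n
  | succ m ih =>
    intro T hT h1 h2
    by_cases h0 : T = ∅
    · rw [h0, Finset.card_empty]; exact dvd_zero n
    obtain ⟨a, ha⟩ := Finset.nonempty_iff_ne_empty.mpr h0
    have hsub : orb K a ⊆ T := by
      intro b hb
      obtain ⟨g, hg, rfl⟩ := mem_orb.mp hb
      exact h1 g hg a ha
    have hc := Finset.card_sdiff_add_card_eq_card hsub
    have hpos : 0 < (orb K a).card := Finset.card_pos.mpr ⟨a, self_mem_orb K a⟩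
    rw [← hc]
    apply dvd_add _ (h2 a ha)
    apply ih
    · omega
    · intro g hg b hb
      rw [Finset.mem_sdiff] at hb ⊢
      refine ⟨h1 g hg b hb.1, fun h => hb.2 ?_⟩
      have := smul_mem_orb h (K.inv_mem hg)
      rwa [perm_inv_apply] at this
    · intro b hb
      exact h2 b (Finset.mem_sdiff.mp hb).1

theorem card_stab_four {a b c d : GolayPt} (h1 : a ≠ b) (h2 : a ≠ c) (h3 : b ≠ c)
    (h4 : a ≠ d) (h5 : b ≠ d) (h6 : c ≠ d) :
    Nat.card ↥(MulAction.stabilizer M24 a ⊓ MulAction.stabilizer M24 b ⊓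
      MulAction.stabilizer M24 c ⊓ MulAction.stabilizer M24 d) = 960 := by
  have h := card_eq_mul_inf_stabilizer (MulAction.stabilizer M24 a ⊓ MulAction.stabilizer M24 b ⊓
      MulAction.stabilizer M24 c) d (({a, b, c} : Finset GolayPt)ᶜ : Finset GolayPt)
    (fun g hg => by
      rw [Finset.mem_coe, Finset.mem_compl]
      intro h
      have e1 : g.1 a = a := hg.1.1
      have e2 : g.1 b = b := hg.1.2
      have e3 : g.1 c = c := hg.2
      simp only [Finset.mem_insert, Finset.mem_singleton] at h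
      rcases h with h | h | h
      · exact h4 (g.1.injective (e1.trans h.symm))
      · exact h5 (g.1.injective (e2.trans h.symm))
      · exact h6 (g.1.injective (e3.trans h.symm)))
    (fun x hx => by
      rw [Finset.mem_coe, Finset.mem_compl] at hx
      simp only [Finset.mem_insert, Finset.mem_singleton, not_or] at hx
      obtain ⟨g, hg, e1, e2, e3, e4⟩ := exists_four h1 h2 h3 h4 h5 h6 h1 h2 h3 (Ne.symm hx.1) (Ne.symm hx.2.1)
        (Ne.symm hx.2.2)
      exact ⟨⟨g, hg⟩, ⟨⟨e1, e2⟩, e3⟩, e4⟩)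
  have hc3 : ({a, b, c} : Finset GolayPt).card = 3 := by
    rw [Finset.card_insert_of_notMem, Finset.card_pair h3]
    simp only [Finset.mem_insert, Finset.mem_singleton, not_or]
    exact ⟨h1, h2⟩
  rw [card_stab_three h1 h2 h3, Set.ncard_coe_finset, Finset.card_compl, card_pt, hc3] at h
  omega

theorem dvd_960 {H : Subgroup PG} (hH : H ≤ M24) {a b c d : GolayPt} (h1 : a ≠ b) (h2 : a ≠ c) (h3 : b ≠ c)
    (h4 : a ≠ d) (h5 : b ≠ d) (h6 : c ≠ d) (hf : ∀ g ∈ H, g a = a ∧ g b = b ∧ g c = c ∧ g d = d) :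
    Nat.card H ∣ 960 := by
  rw [← card_stab_four h1 h2 h3 h4 h5 h6, ← Nat.card_congr (Subgroup.subgroupOfEquivOfLe hH).toEquiv]
  apply Subgroup.card_dvd_of_le
  intro g hg
  have := hf g.1 hg
  exact ⟨⟨⟨this.1, this.2.1⟩, this.2.2.1⟩, this.2.2.2⟩

section
variable {K : Subgroup PG} {p q : GolayPt}

/-- fixed points of elements of order 5 and 11 -/
theorem card_Fix_five (hK : K ≤ M24) {g : PG} (hg : g ∈ K) (h : orderOf g = 5) : (Fix g).card = 4 := by
  have : Fact (Nat.Prime 5) := ⟨by norm_num⟩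
  have h1 := M22Block.card_Fix_prime (hK hg) h
  omega

theorem card_Fix_eleven (hK : K ≤ M24) {g : PG} (hg : g ∈ K) (h : orderOf g = 11) : (Fix g).card = 2 := by
  have : Fact (Nat.Prime 11) := ⟨by norm_num⟩
  have h1 := M22Block.card_Fix_prime (hK hg) h
  omega

theorem count_eleven (hK : K ≤ M24) (hpq : p ≠ q) (hf : ∀ g ∈ K, g p = p ∧ g q = q) {n : ℕ} (hn : Nat.card K = 11 * n)
    (hn' : ¬ 11 ∣ n) (hn0 : n ≠ 0) : ∃ (x : K) (c d : ℕ), orderOf x = 11 ∧ c ∣ 2 ∧ d ∣ 10 ∧
      Nat.card (Sylow 11 K) * (11 * c * d) = Nat.card K ∧ Nat.card (Sylow 11 K) ≡ 1 [MOD 11] := by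
  have hp : Fact (Nat.Prime 11) := ⟨by norm_num⟩
  obtain ⟨x, hx⟩ := exists_prime_orderOf_dvd_card' (G := K) 11 (by rw [hn]; exact Dvd.intro _ rfl)
  have hfac : (Nat.card K).factorization 11 = 1 := by
    rw [hn, Nat.factorization_mul (by norm_num) hn0, Finsupp.add_apply, Nat.Prime.factorization_self hp.out,
      Nat.factorization_eq_zero_of_not_dvd hn']
  obtain ⟨c, d, h1, h2, h3, h4⟩ := SylowOrd.sylow_count hfac hx
  refine ⟨x, c, d, hx, ?_, h2, h3, h4⟩
  have h5 := MathieuBlock.card_centralizer_dvd hK hp.out hx {p, q} (by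
    intro g hg y hy
    simp only [Finset.mem_insert, Finset.mem_singleton] at hy
    rcases hy with rfl | rfl
    · exact (hf g hg).1
    · exact (hf g hg).2) (by rw [Finset.card_pair hpq]; norm_num)
  rw [card_Fix_eleven hK x.2 (by rw [Subgroup.orderOf_coe]; exact hx), h1] at h5
  exact Nat.dvd_of_mul_dvd_mul_left (by norm_num : 0 < 11) h5

theorem not_2112 (hK : K ≤ M24) (hpq : p ≠ q) (hf : ∀ g ∈ K, g p = p ∧ g q = q) : Nat.card K ≠ 2112 := by
  intro hc
  obtain ⟨x, c, d, hx, h1, h2, h3, h4⟩ := count_eleven hK hpq hf (n := 192) (by rw [hc]) (by norm_num) (by norm_num)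
  rw [hc] at h3
  have hc' : c = 1 ∨ c = 2 := (Nat.dvd_prime Nat.prime_two).mp h1
  have hd' : d ∈ Nat.divisors 10 := Nat.mem_divisors.mpr ⟨h2, by norm_num⟩
  have e : Nat.divisors 10 = {1, 2, 5, 10} := by decide
  rw [e] at hd'
  simp only [Finset.mem_insert, Finset.mem_singleton] at hd'
  have h4' : Nat.card (Sylow 11 K) % 11 = 1 % 11 := h4
  rcases hc' with rfl | rfl <;> rcases hd' with rfl | rfl | rfl | rfl <;> omega

/-- an element of order 5 normalizing a subgroup of order 11 -/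
theorem exists_five (hK : K ≤ M24) (hpq : p ≠ q) (hf : ∀ g ∈ K, g p = p ∧ g q = q) (hc : Nat.card K = 7920) :
    ∃ x ∈ K, orderOf x = 11 ∧ ∃ s ∈ K, orderOf s = 5 ∧ ∃ j : ℕ, s * x = x ^ j * s := by
  have hp : Fact (Nat.Prime 11) := ⟨by norm_num⟩
  have hp5 : Fact (Nat.Prime 5) := ⟨by norm_num⟩
  obtain ⟨x, c, d, hx, h1, h2, h3, h4⟩ := count_eleven hK hpq hf (n := 720) (by rw [hc]) (by norm_num) (by norm_num)
  rw [hc] at h3
  have hc' : c = 1 ∨ c = 2 := (Nat.dvd_prime Nat.prime_two).mp h1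
  have hd' : d ∈ Nat.divisors 10 := Nat.mem_divisors.mpr ⟨h2, by norm_num⟩
  have e : Nat.divisors 10 = {1, 2, 5, 10} := by decide
  rw [e] at hd'
  simp only [Finset.mem_insert, Finset.mem_singleton] at hd'
  have h4' : Nat.card (Sylow 11 K) % 11 = 1 % 11 := h4
  have h144 : Nat.card (Sylow 11 K) = 144 := by
    rcases hc' with rfl | rfl <;> rcases hd' with rfl | rfl | rfl | rfl <;> omega
  have hfac : (Nat.card K).factorization 11 = 1 := by
    rw [hc]
    have : 7920 = 11 * 720 := by norm_num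
    rw [this, Nat.factorization_mul (by norm_num) (by norm_num), Finsupp.add_apply,
      Nat.Prime.factorization_self hp.out, Nat.factorization_eq_zero_of_not_dvd (by norm_num)]
  have hZc : Nat.card (Subgroup.zpowers x) = 11 := by rw [Nat.card_zpowers, hx]
  let P : Sylow 11 K := Sylow.ofCard (Subgroup.zpowers x) (by rw [hZc, hfac, pow_one])
  have hP : (P : Subgroup K) = Subgroup.zpowers x := Sylow.coe_ofCard _ _
  have hidx : 144 = (Subgroup.normalizer ((P : Subgroup K) : Set K)).index := by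
    rw [← h144]; exact P.card_eq_index_normalizer
  have hN : Nat.card (Subgroup.normalizer ((P : Subgroup K) : Set K)) = 55 := by
    have := Subgroup.card_mul_index (Subgroup.normalizer ((P : Subgroup K) : Set K))
    rw [← hidx, hc] at this
    omega
  obtain ⟨s, hs⟩ := exists_prime_orderOf_dvd_card' (G := Subgroup.normalizer ((P : Subgroup K) : Set K)) 5
    (by rw [hN]; norm_num)
  refine ⟨x.1, x.2, by rw [Subgroup.orderOf_coe]; exact hx, s.1.1, s.1.2, ?_, ?_⟩
  · rw [Subgroup.orderOf_coe, Subgroup.orderOf_coe]; exact hs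
  · have h5 := (Subgroup.mem_normalizer_iff.mp s.2 x).mp (by
      show x ∈ (P : Subgroup K)
      rw [hP]; exact Subgroup.mem_zpowers x)
    have h6 : s.1 * x * s.1⁻¹ ∈ Subgroup.zpowers x := by rw [← hP]; exact h5
    rw [← mem_powers_iff_mem_zpowers] at h6
    obtain ⟨j, hj⟩ := h6
    refine ⟨j, ?_⟩
    have h7 : x ^ j * s.1 = s.1 * x := by
      rw [show x ^ j = s.1 * x * s.1⁻¹ from hj, inv_mul_cancel_right]
    exact (congrArg Subtype.val h7).symm

/-- order of a two-point stabiliser -/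
noncomputable def kap (K : Subgroup PG) (a b : GolayPt) : ℕ := Nat.card ↥(K ⊓ S a ⊓ S b)

theorem kap_comm (a b : GolayPt) : kap K a b = kap K b a := by
  unfold kap
  rw [inf_assoc, inf_comm (S a), ← inf_assoc]

theorem kap_smul {g : PG} (hg : g ∈ K) (a b : GolayPt) : kap K (g a) (g b) = kap K a b := by
  unfold kap
  refine Nat.card_congr
    { toFun := fun h => ⟨g⁻¹ * h.1 * g, ?_⟩
      invFun := fun h => ⟨g * h.1 * g⁻¹, ?_⟩
      left_inv := fun h => Subtype.ext (by group)
      right_inv := fun h => Subtype.ext (by group) }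
  · obtain ⟨⟨h1, h2⟩, h3⟩ := h.2
    refine ⟨⟨K.mul_mem (K.mul_mem (K.inv_mem hg) h1) hg, ?_⟩, ?_⟩
    · show (g⁻¹ * h.1 * g) a = a
      rw [Equiv.Perm.mul_apply, Equiv.Perm.mul_apply, show h.1 (g a) = g a from h2, perm_inv_apply]
    · show (g⁻¹ * h.1 * g) b = b
      rw [Equiv.Perm.mul_apply, Equiv.Perm.mul_apply, show h.1 (g b) = g b from h3, perm_inv_apply]
  · obtain ⟨⟨h1, h2⟩, h3⟩ := h.2
    refine ⟨⟨K.mul_mem (K.mul_mem hg h1) (K.inv_mem hg), ?_⟩, ?_⟩
    · show (g * h.1 * g⁻¹) (g a) = g a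
      rw [Equiv.Perm.mul_apply, Equiv.Perm.mul_apply, perm_inv_apply, show h.1 a = a from h2]
    · show (g * h.1 * g⁻¹) (g b) = g b
      rw [Equiv.Perm.mul_apply, Equiv.Perm.mul_apply, perm_inv_apply, show h.1 b = b from h3]

/-- the 22 points -/
def Om (p q : GolayPt) : Finset GolayPt := {p, q}ᶜ

theorem mem_Om {a : GolayPt} : a ∈ Om p q ↔ a ≠ p ∧ a ≠ q := by
  simp [Om]

theorem card_Om (hpq : p ≠ q) : (Om p q).card = 22 := by
  rw [Om, Finset.card_compl, card_pt, Finset.card_pair hpq]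

theorem smul_Om (hf : ∀ g ∈ K, g p = p ∧ g q = q) {g : PG} (hg : g ∈ K) {a : GolayPt} (ha : a ∈ Om p q) :
    g a ∈ Om p q := by
  rw [mem_Om] at ha ⊢
  obtain ⟨h1, h2⟩ := hf g hg
  exact ⟨fun e => ha.1 (g.injective (e.trans h1.symm)), fun e => ha.2 (g.injective (e.trans h2.symm))⟩

theorem orb_sub (hf : ∀ g ∈ K, g p = p ∧ g q = q) {H : Subgroup PG} (hH : H ≤ K) {a : GolayPt} (ha : a ∈ Om p q) :
    orb H a ⊆ Om p q := by
  intro b hb
  obtain ⟨g, hg, rfl⟩ := mem_orb.mp hb
  exact smul_Om hf (hH hg) ha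

theorem three_dvd (hK : K ≤ M24) (hpq : p ≠ q) (hf : ∀ g ∈ K, g p = p ∧ g q = q) {a b : GolayPt} (ha : a ∈ Om p q)
    (hb : b ∈ Om p q) (hab : a ≠ b) (h9 : 9 ∣ Nat.card ↥(K ⊓ S a)) : 3 ∣ (orb (K ⊓ S a) b).card := by
  have h1 := card_orb (K ⊓ S a) b
  rw [mem_Om] at ha hb
  have h2 : Nat.card ↥(K ⊓ S a ⊓ S b) ∣ 960 := dvd_960 (inf_le_left.trans (inf_le_left.trans hK)) hpq (Ne.symm ha.1)
    (Ne.symm ha.2) (Ne.symm hb.1) (Ne.symm hb.2) hab (fun g hg => ⟨(hf g hg.1.1).1, (hf g hg.1.1).2, hg.1.2, hg.2⟩)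
  by_contra h3
  rw [h1] at h9
  have hco : Nat.Coprime 9 (orb (K ⊓ S a) b).card := by
    have : Nat.Coprime 3 (orb (K ⊓ S a) b).card := (Nat.Prime.coprime_iff_not_dvd Nat.prime_three).mpr h3
    exact Nat.Coprime.pow_left 2 this
  have h4 := (hco.dvd_of_dvd_mul_left h9).trans h2
  norm_num at h4

theorem transitive (hK : K ≤ M24) (hpq : p ≠ q) (hf : ∀ g ∈ K, g p = p ∧ g q = q) (hc : Nat.card K = 7920)
    {x : PG} (hxK : x ∈ K) (hx : orderOf x = 11) {a : GolayPt} (ha : a ∈ Om p q) : orb K a = Om p q := by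
  have hp : Fact (Nat.Prime 11) := ⟨by norm_num⟩
  have hsub := orb_sub hf le_rfl ha
  have hle := Finset.card_le_card hsub
  rw [card_Om hpq] at hle
  have hpos : 0 < (orb K a).card := Finset.card_pos.mpr ⟨a, self_mem_orb K a⟩
  have hFix : Fix x = {p, q} := by
    symm
    apply Finset.eq_of_subset_of_card_le
    · intro y hy
      simp only [Finset.mem_insert, Finset.mem_singleton] at hy
      rw [mem_Fix]
      rcases hy with rfl | rfl
      · exact (hf x hxK).1
      · exact (hf x hxK).2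
    · rw [card_Fix_eleven hK hxK hx, Finset.card_pair hpq]
  have h11 := GolayFix.card_modEq (p := 11) (g := x) (by rw [← hx]; exact pow_orderOf_eq_one x) (orb K a)
    (fun y hy => smul_mem_orb hy hxK)
  have h0 : orb K a ∩ Fix x = ∅ := by
    rw [hFix, Finset.eq_empty_iff_forall_notMem]
    intro y hy
    rw [Finset.mem_inter] at hy
    have h1 := mem_Om.mp (hsub hy.1)
    simp only [Finset.mem_insert, Finset.mem_singleton] at hy
    rcases hy.2 with h | h
    · exact h1.1 h
    · exact h1.2 h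
  rw [h0, Finset.card_empty] at h11
  have h11' : (orb K a).card % 11 = 0 % 11 := h11
  have hcase : (orb K a).card = 11 ∨ (orb K a).card = 22 := by omega
  rcases hcase with h | h
  · exfalso
    have h1 := card_orb K a
    rw [hc, h] at h1
    have h720 : Nat.card ↥(K ⊓ S a) = 720 := by omega
    have h3 : 3 ∣ ((orb K a).erase a).card := by
      apply dvd_card_of_orb (K := K ⊓ S a) 11 _ (by rw [Finset.card_erase_of_mem (self_mem_orb K a), h]; norm_num)
      · intro g hg b hb
        rw [Finset.mem_erase] at hb ⊢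
        exact ⟨fun e => hb.1 (g.injective (e.trans (show g a = a from hg.2).symm)), smul_mem_orb hb.2 hg.1⟩
      · intro b hb
        rw [Finset.mem_erase] at hb
        exact three_dvd hK hpq hf ha (hsub hb.2) (Ne.symm hb.1) (by rw [h720]; norm_num)
    rw [Finset.card_erase_of_mem (self_mem_orb K a), h] at h3
    norm_num at h3
  · exact Finset.eq_of_subset_of_card_le hsub (by rw [card_Om hpq, h])

/-- the suborbit of size six -/
noncomputable def Nb (K : Subgroup PG) (p q a : GolayPt) : Finset GolayPt :=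
  (Om p q).filter fun b => b ≠ a ∧ kap K a b = 60

theorem mem_Nb {a b : GolayPt} : b ∈ Nb K p q a ↔ b ∈ Om p q ∧ b ≠ a ∧ kap K a b = 60 := by
  simp [Nb]

theorem local_struct (hK : K ≤ M24) (hpq : p ≠ q) (hf : ∀ g ∈ K, g p = p ∧ g q = q) (hc : Nat.card K = 7920)
    {x : PG} (hxK : x ∈ K) (hx : orderOf x = 11) {a : GolayPt} (ha : a ∈ Om p q) :
    (Nb K p q a).card = 6 ∧ (∀ b c, b ∈ Om p q → c ∈ Om p q → b ≠ a → c ≠ a → kap K a b ≠ 60 → kap K a c ≠ 60 →
      ∃ k ∈ K, k a = a ∧ k b = c) ∧ (∀ t ∈ K, orderOf t = 5 → t a = a → ∃ b0 ∈ Nb K p q a, t b0 = b0) := by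
  have hp5 : Fact (Nat.Prime 5) := ⟨by norm_num⟩
  have h1 := card_orb K a
  rw [hc, transitive hK hpq hf hc hxK hx ha, card_Om hpq] at h1
  have h360 : Nat.card ↥(K ⊓ S a) = 360 := by omega
  have haO := mem_Om.mp ha
  -- the other points
  set T := (Om p q).erase a with hT
  have hTc : T.card = 21 := by rw [hT, Finset.card_erase_of_mem ha, card_Om hpq]
  have hTinv : ∀ g ∈ K ⊓ S a, ∀ b ∈ T, g b ∈ T := by
    intro g hg b hb
    rw [hT, Finset.mem_erase] at hb ⊢
    exact ⟨fun e => hb.1 (g.injective (e.trans (show g a = a from hg.2).symm)), smul_Om hf hg.1 hb.2⟩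
  have hsubT : ∀ b ∈ T, orb (K ⊓ S a) b ⊆ T := by
    intro b hb c hcb
    obtain ⟨g, hg, rfl⟩ := mem_orb.mp hcb
    exact hTinv g hg b hb
  have h3 : ∀ b ∈ T, 3 ∣ (orb (K ⊓ S a) b).card := by
    intro b hb
    rw [hT, Finset.mem_erase] at hb
    exact three_dvd hK hpq hf ha hb.2 (Ne.symm hb.1) (by rw [h360]; norm_num)
  have hprod : ∀ b, 360 = (orb (K ⊓ S a) b).card * kap K a b := by
    intro b
    rw [← h360]; exact card_orb (K ⊓ S a) b
  -- elements of order five
  have key5 : ∀ t ∈ K, orderOf t = 5 → t a = a → ∃ b0 ∈ T, t b0 = b0 ∧ ∀ b ∈ T, t b = b → b = b0 := by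
    intro t ht h5 hta
    have h4 := card_Fix_five hK ht h5
    have hsub : ({p, q, a} : Finset GolayPt) ⊆ Fix t := by
      intro y hy
      simp only [Finset.mem_insert, Finset.mem_singleton] at hy
      rw [mem_Fix]
      rcases hy with rfl | rfl | rfl
      · exact (hf t ht).1
      · exact (hf t ht).2
      · exact hta
    have h3c : ({p, q, a} : Finset GolayPt).card = 3 := by
      rw [Finset.card_insert_of_notMem, Finset.card_pair (Ne.symm haO.2)]
      simp only [Finset.mem_insert, Finset.mem_singleton, not_or]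
      exact ⟨hpq, Ne.symm haO.1⟩
    have h1c : (Fix t \ {p, q, a}).card = 1 := by
      rw [Finset.card_sdiff_of_subset hsub, h4, h3c]
    obtain ⟨b0, hb0⟩ := Finset.card_eq_one.mp h1c
    have hm : b0 ∈ Fix t \ {p, q, a} := by rw [hb0]; simp
    rw [Finset.mem_sdiff, mem_Fix] at hm
    simp only [Finset.mem_insert, Finset.mem_singleton, not_or] at hm
    refine ⟨b0, ?_, hm.1, ?_⟩
    · rw [hT, Finset.mem_erase, mem_Om]
      exact ⟨hm.2.2.2, hm.2.1, hm.2.2.1⟩
    · intro b hb hbt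
      rw [hT, Finset.mem_erase, mem_Om] at hb
      have : b ∈ Fix t \ {p, q, a} := by
        rw [Finset.mem_sdiff, mem_Fix]
        simp only [Finset.mem_insert, Finset.mem_singleton, not_or]
        exact ⟨hbt, hb.2.1, hb.2.2, hb.1⟩
      rw [hb0, Finset.mem_singleton] at this
      exact this
  obtain ⟨t', ht'⟩ := exists_prime_orderOf_dvd_card' (G := ↥(K ⊓ S a)) 5 (by rw [h360]; norm_num)
  have ht5 : orderOf t'.1 = 5 := by rw [Subgroup.orderOf_coe]; exact ht'
  -- size of the orbits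
  have small : ∀ t ∈ K, orderOf t = 5 → t a = a → ∀ b0 ∈ T, t b0 = b0 → (orb (K ⊓ S a) b0).card = 6 := by
    intro t ht h5 hta b0 hb0 htb0
    obtain ⟨b1, hb1, htb1, huniq⟩ := key5 t ht h5 hta
    have hm := GolayFix.card_modEq (p := 5) (g := t) (by rw [← h5]; exact pow_orderOf_eq_one t) (orb (K ⊓ S a) b0)
      (fun y hy => smul_mem_orb hy ⟨ht, hta⟩)
    have he : orb (K ⊓ S a) b0 ∩ Fix t = {b0} := by
      ext y
      rw [Finset.mem_inter, mem_Fix, Finset.mem_singleton]
      constructor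
      · rintro ⟨h1, h2⟩
        rw [huniq y (hsubT b0 hb0 h1) h2, huniq b0 hb0 htb0]
      · rintro rfl
        exact ⟨self_mem_orb _ _, htb0⟩
    rw [he, Finset.card_singleton] at hm
    have hm' : (orb (K ⊓ S a) b0).card % 5 = 1 % 5 := hm
    have h3' := h3 b0 hb0
    have hle := Finset.card_le_card (hsubT b0 hb0)
    rw [hTc] at hle
    have hpr := hprod b0
    have hcase : (orb (K ⊓ S a) b0).card = 6 ∨ (orb (K ⊓ S a) b0).card = 21 := by omega
    rcases hcase with h | h
    · exact h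
    · rw [h] at hpr
      omega
  obtain ⟨b0, hb0, htb0, huniq⟩ := key5 t'.1 t'.2.1 ht5 t'.2.2
  have h6 := small t'.1 t'.2.1 ht5 t'.2.2 b0 hb0 htb0
  have hk60 : ∀ b ∈ orb (K ⊓ S a) b0, kap K a b = 60 := by
    intro b hb
    have h := hprod b
    rw [orb_eq hb, h6] at h
    omega
  have big : ∀ b ∈ T, b ∉ orb (K ⊓ S a) b0 → orb (K ⊓ S a) b = T \ orb (K ⊓ S a) b0 := by
    intro b hb hbn
    have hsub : orb (K ⊓ S a) b ⊆ T \ orb (K ⊓ S a) b0 := by
      intro y hy
      rw [Finset.mem_sdiff]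
      refine ⟨hsubT b hb hy, fun h => hbn ?_⟩
      rw [← orb_eq h, orb_eq hy]
      exact self_mem_orb _ _
    have hcs : (T \ orb (K ⊓ S a) b0).card = 15 := by
      rw [Finset.card_sdiff_of_subset (hsubT b0 hb0), hTc, h6]
    apply Finset.eq_of_subset_of_card_le hsub
    rw [hcs]
    have hle := Finset.card_le_card hsub
    rw [hcs] at hle
    have hm := GolayFix.card_modEq (p := 5) (g := t'.1) (by rw [← ht5]; exact pow_orderOf_eq_one t'.1)
      (orb (K ⊓ S a) b) (fun y hy => smul_mem_orb hy t'.2)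
    have he : orb (K ⊓ S a) b ∩ Fix t'.1 = ∅ := by
      rw [Finset.eq_empty_iff_forall_notMem]
      intro y hy
      rw [Finset.mem_inter, mem_Fix] at hy
      have := hsub hy.1
      rw [Finset.mem_sdiff] at this
      have e := huniq y this.1 hy.2
      rw [e] at this
      exact this.2 (self_mem_orb _ _)
    rw [he, Finset.card_empty] at hm
    have hm' : (orb (K ⊓ S a) b).card % 5 = 0 % 5 := hm
    have h3' := h3 b hb
    have hpos : 0 < (orb (K ⊓ S a) b).card := Finset.card_pos.mpr ⟨b, self_mem_orb _ b⟩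
    omega
  have hk24 : ∀ b ∈ T, b ∉ orb (K ⊓ S a) b0 → kap K a b = 24 := by
    intro b hb hbn
    have h := hprod b
    rw [big b hb hbn, Finset.card_sdiff_of_subset (hsubT b0 hb0), hTc, h6] at h
    omega
  have hNb : Nb K p q a = orb (K ⊓ S a) b0 := by
    ext b
    rw [mem_Nb]
    constructor
    · rintro ⟨h1, h2, h3⟩
      by_contra hbn
      have := hk24 b (Finset.mem_erase.mpr ⟨h2, h1⟩) hbn
      omega
    · intro hb
      have := Finset.mem_erase.mp (hsubT b0 hb0 hb)
      exact ⟨this.2, this.1, hk60 b hb⟩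
  refine ⟨by rw [hNb, h6], ?_, ?_⟩
  · intro b c hb hc' hba hca hkb hkc
    have hbT : b ∈ T := Finset.mem_erase.mpr ⟨hba, hb⟩
    have hcT : c ∈ T := Finset.mem_erase.mpr ⟨hca, hc'⟩
    have hbn : b ∉ orb (K ⊓ S a) b0 := fun h => hkb (hk60 b h)
    have hcn : c ∉ orb (K ⊓ S a) b0 := fun h => hkc (hk60 c h)
    have : c ∈ orb (K ⊓ S a) b := by
      rw [big b hbT hbn, Finset.mem_sdiff]; exact ⟨hcT, hcn⟩
    obtain ⟨k, hk, e⟩ := mem_orb.mp this
    exact ⟨k, hk.1, hk.2, e⟩
  · intro t ht h5 hta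
    obtain ⟨b1, hb1, htb1, _⟩ := key5 t ht h5 hta
    have h61 := small t ht h5 hta b1 hb1 htb1
    refine ⟨b1, ?_, htb1⟩
    rw [hNb]
    by_contra hbn
    rw [big b1 hb1 hbn, Finset.card_sdiff_of_subset (hsubT b0 hb0), hTc, h6] at h61
    omega

/-- orbit of the element of order 11 -/
noncomputable def X (x : PG) (a : GolayPt) : Finset GolayPt :=
  (Finset.range 11).image fun i => (x ^ i) a

theorem mem_X {x : PG} {a b : GolayPt} : b ∈ X x a ↔ ∃ i < 11, (x ^ i) a = b := by
  simp [X]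

theorem mem_X' {x : PG} (hx : x ^ 11 = 1) {a : GolayPt} (i : ℕ) : (x ^ i) a ∈ X x a := by
  rw [mem_X]
  refine ⟨i % 11, Nat.mod_lt _ (by norm_num), ?_⟩
  conv_rhs => rw [← Nat.div_add_mod i 11, pow_add, pow_mul, hx, one_pow, one_mul]

theorem X_symm {x : PG} (hx : x ^ 11 = 1) {a b : GolayPt} (h : b ∈ X x a) : a ∈ X x b := by
  obtain ⟨i, hi, rfl⟩ := mem_X.mp h
  have : (x ^ (11 - i)) ((x ^ i) a) = a := by
    rw [← Equiv.Perm.mul_apply, ← pow_add, Nat.sub_add_cancel hi.le, hx, Equiv.Perm.one_apply]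
  rw [mem_X]
  by_cases h0 : i = 0
  · subst h0
    exact ⟨0, by norm_num, rfl⟩
  · exact ⟨11 - i, by omega, this⟩

theorem X_trans {x : PG} (hx : x ^ 11 = 1) {a b c : GolayPt} (h : b ∈ X x a) (h' : c ∈ X x b) : c ∈ X x a := by
  obtain ⟨i, hi, rfl⟩ := mem_X.mp h
  obtain ⟨j, hj, rfl⟩ := mem_X.mp h'
  rw [← Equiv.Perm.mul_apply, ← pow_add]
  exact mem_X' hx _

theorem not_7920 (hK : K ≤ M24) (hpq : p ≠ q) (hf : ∀ g ∈ K, g p = p ∧ g q = q) : Nat.card K ≠ 7920 := by
  intro hc
  have hp5 : Fact (Nat.Prime 5) := ⟨by norm_num⟩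
  have hp11 : Fact (Nat.Prime 11) := ⟨by norm_num⟩
  obtain ⟨x, hxK, hx, s, hsK, hs, j, hj⟩ := exists_five hK hpq hf hc
  have hx11 : x ^ 11 = 1 := by rw [← hx]; exact pow_orderOf_eq_one x
  have hs5 : s ^ 5 = 1 := by rw [← hs]; exact pow_orderOf_eq_one s
  have hxi : ∀ i, x ^ i ∈ K := fun i => K.pow_mem hxK i
  have L := fun {a : GolayPt} (ha : a ∈ Om p q) => local_struct hK hpq hf hc hxK hx ha
  have hFix : ∀ a ∈ Om p q, x a ≠ a := by
    intro a ha e
    have h2 := card_Fix_eleven hK hxK hx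
    have hsub : ({p, q, a} : Finset GolayPt) ⊆ Fix x := by
      intro y hy
      simp only [Finset.mem_insert, Finset.mem_singleton] at hy
      rw [mem_Fix]
      rcases hy with rfl | rfl | rfl
      · exact (hf x hxK).1
      · exact (hf x hxK).2
      · exact e
    have haO := mem_Om.mp ha
    have h3c : ({p, q, a} : Finset GolayPt).card = 3 := by
      rw [Finset.card_insert_of_notMem, Finset.card_pair (Ne.symm haO.2)]
      simp only [Finset.mem_insert, Finset.mem_singleton, not_or]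
      exact ⟨hpq, Ne.symm haO.1⟩
    have := Finset.card_le_card hsub
    omega
  have hinj : ∀ a ∈ Om p q, Set.InjOn (fun i => (x ^ i) a) (Finset.range 11 : Set ℕ) := by
    intro a ha i hi k hk e
    simp only [Finset.coe_range, Set.mem_Iio] at hi hk
    have e' : (x ^ i) a = (x ^ k) a := e
    have aux : ∀ {i k : ℕ}, i < 11 → k < 11 → i < k → (x ^ i) a = (x ^ k) a → False := by
      intro i k hi hk hik e
      have h1 : (x ^ (k - i)) a = a := by
        have h2 : x ^ k = x ^ i * x ^ (k - i) := by rw [← pow_add]; congr 1; omega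
        rw [h2, Equiv.Perm.mul_apply] at e
        exact ((x ^ i).injective e).symm
      exact hFix a ha (MathieuBlock.pow_apply_eq hp11.out hx11 (by
        intro hd
        have := Nat.le_of_dvd (by omega) hd
        omega) h1)
    rcases lt_trichotomy i k with h | h | h
    · exact (aux hi hk h e').elim
    · exact h
    · exact (aux hk hi h e'.symm).elim
  have hX11 : ∀ a ∈ Om p q, (X x a).card = 11 := by
    intro a ha
    rw [X, Finset.card_image_of_injOn (hinj a ha), Finset.card_range]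
  have hXO : ∀ a ∈ Om p q, X x a ⊆ Om p q := by
    intro a ha b hb
    obtain ⟨i, _, rfl⟩ := mem_X.mp hb
    exact smul_Om hf (hxi i) ha
  -- parity
  have heven : ∀ a ∈ Om p q, (X x a ∩ Nb K p q a).card % 2 = 0 := by
    intro a ha
    set I := (Finset.range 11).filter fun i => (x ^ i) a ∈ Nb K p q a with hI
    have h1 : X x a ∩ Nb K p q a = I.image fun i => (x ^ i) a := by
      ext b
      rw [Finset.mem_inter, mem_X, Finset.mem_image]
      constructor
      · rintro ⟨⟨i, hi, rfl⟩, h⟩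
        exact ⟨i, Finset.mem_filter.mpr ⟨Finset.mem_range.mpr hi, h⟩, rfl⟩
      · rintro ⟨i, hi, rfl⟩
        rw [hI, Finset.mem_filter, Finset.mem_range] at hi
        exact ⟨⟨i, hi.1, rfl⟩, hi.2⟩
    rw [h1, Finset.card_image_of_injOn (Set.InjOn.mono (by
      intro i hi
      exact (Finset.mem_filter.mp hi).1) (hinj a ha))]
    have hpos : ∀ i ∈ I, 0 < i := by
      intro i hi
      rw [hI, Finset.mem_filter] at hi
      by_contra h0
      have : i = 0 := by omega
      subst this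
      exact (mem_Nb.mp hi.2).2.1 rfl
    have h2 : ∑ i ∈ I, (1 : ZMod 2) = 0 := by
      refine Finset.sum_involution (fun i _ => 11 - i) ?_ ?_ ?_ ?_
      · intro i _; decide
      · intro i hi _ e
        have := hpos i hi
        have := Finset.mem_range.mp (Finset.mem_filter.mp hi).1
        omega
      · intro i hi
        have h3 := hpos i hi
        rw [hI, Finset.mem_filter, Finset.mem_range] at hi
        rw [hI, Finset.mem_filter, Finset.mem_range]
        refine ⟨by omega, ?_⟩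
        obtain ⟨_, h4, h5⟩ := mem_Nb.mp hi.2
        have e1 : (x ^ (11 - i)) ((x ^ i) a) = a := by
          rw [← Equiv.Perm.mul_apply, ← pow_add, Nat.sub_add_cancel hi.1.le, hx11, Equiv.Perm.one_apply]
        rw [mem_Nb]
        refine ⟨smul_Om hf (hxi _) ha, ?_, ?_⟩
        · intro e
          apply h4
          have h6 : (x ^ (11 - i)) ((x ^ i) a) = (x ^ (11 - i)) a := e1.trans e.symm
          exact (x ^ (11 - i)).injective h6
        · rw [← kap_smul (hxi (11 - i)), e1] at h5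
          rw [kap_comm] at h5
          rw [kap_comm]
          rw [kap_comm] at h5
          rw [kap_comm]
          rw [← h5, kap_comm]
      · intro i hi
        have := Finset.mem_range.mp (Finset.mem_filter.mp hi).1
        omega
    rw [Finset.sum_const, nsmul_eq_mul, mul_one] at h2
    have h3 := (ZMod.natCast_eq_zero_iff I.card 2).mp h2
    omega
  -- the element of order five
  have hsX : ∀ a, s a = a → ∀ b ∈ X x a, s b ∈ X x a := by
    intro a hsa b hb
    obtain ⟨i, _, rfl⟩ := mem_X.mp hb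
    have h1 : ∀ i : ℕ, s * x ^ i = x ^ (j * i) * s := by
      intro i
      induction i with
      | zero => simp
      | succ i ih => rw [pow_succ, ← mul_assoc, ih, mul_assoc, hj, ← mul_assoc, ← pow_add, Nat.mul_succ]
    rw [← Equiv.Perm.mul_apply, h1, Equiv.Perm.mul_apply, hsa]
    exact mem_X' hx11 _
  have h4 := card_Fix_five hK hsK hs
  have hFs : (Fix s \ {p, q}).card = 2 := by
    rw [Finset.card_sdiff_of_subset, h4, Finset.card_pair hpq]
    intro y hy
    simp only [Finset.mem_insert, Finset.mem_singleton] at hy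
    rw [mem_Fix]
    rcases hy with rfl | rfl
    · exact (hf s hsK).1
    · exact (hf s hsK).2
  have hXfix : ∀ a ∈ Om p q, s a = a → X x a ∩ Fix s = {a} := by
    intro a ha hsa
    have hm := GolayFix.card_modEq (p := 5) (g := s) hs5 (X x a) (hsX a hsa)
    rw [hX11 a ha] at hm
    have hm' : 11 % 5 = (X x a ∩ Fix s).card % 5 := hm
    have hle : (X x a ∩ Fix s).card ≤ 2 := by
      rw [← hFs]
      apply Finset.card_le_card
      intro y hy
      rw [Finset.mem_inter] at hy
      have := mem_Om.mp (hXO a ha hy.1)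
      rw [Finset.mem_sdiff]
      simp only [Finset.mem_insert, Finset.mem_singleton, not_or]
      exact ⟨hy.2, this.1, this.2⟩
    have h1 : (X x a ∩ Fix s).card = 1 := by omega
    obtain ⟨y, hy⟩ := Finset.card_eq_one.mp h1
    have : a ∈ X x a ∩ Fix s := Finset.mem_inter.mpr ⟨mem_X' hx11 0, mem_Fix.mpr hsa⟩
    rw [hy, Finset.mem_singleton] at this
    rw [hy, this]
  have hdisj : ∀ a ∈ Om p q, s a = a → X x a ∩ Nb K p q a = ∅ := by
    intro a ha hsa
    have hinv : ∀ b, b ∈ X x a ∩ Nb K p q a → s b ∈ X x a ∩ Nb K p q a := by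
      intro b hb
      rw [Finset.mem_inter, mem_Nb] at hb ⊢
      refine ⟨hsX a hsa b hb.1, smul_Om hf hsK hb.2.1, fun e => hb.2.2.1 (s.injective (e.trans hsa.symm)), ?_⟩
      rw [← hb.2.2.2, ← kap_smul hsK a b, hsa]
    have hm := GolayFix.card_modEq (p := 5) (g := s) hs5 _ hinv
    have he : X x a ∩ Nb K p q a ∩ Fix s = ∅ := by
      rw [Finset.eq_empty_iff_forall_notMem]
      intro y hy
      rw [Finset.mem_inter, Finset.mem_inter] at hy
      have : y ∈ X x a ∩ Fix s := Finset.mem_inter.mpr ⟨hy.1.1, hy.2⟩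
      rw [hXfix a ha hsa, Finset.mem_singleton] at this
      exact (mem_Nb.mp hy.1.2).2.1 this
    rw [he, Finset.card_empty] at hm
    have hm' : (X x a ∩ Nb K p q a).card % 5 = 0 % 5 := hm
    have hle : (X x a ∩ Nb K p q a).card ≤ 6 := by
      rw [← (L ha).1]; exact Finset.card_le_card Finset.inter_subset_right
    have := heven a ha
    rw [← Finset.card_eq_zero]
    omega
  -- the two fixed points
  obtain ⟨a1, a2, hne, h12⟩ := Finset.card_eq_two.mp hFs
  have hm1 : a1 ∈ Fix s \ {p, q} := by rw [h12]; simp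
  have hm2 : a2 ∈ Fix s \ {p, q} := by rw [h12]; simp
  rw [Finset.mem_sdiff, mem_Fix] at hm1 hm2
  simp only [Finset.mem_insert, Finset.mem_singleton, not_or] at hm1 hm2
  have ha1 : a1 ∈ Om p q := mem_Om.mpr hm1.2
  have ha2 : a2 ∈ Om p q := mem_Om.mpr hm2.2
  have hn12 : a2 ∉ X x a1 := by
    intro h
    have : a2 ∈ X x a1 ∩ Fix s := Finset.mem_inter.mpr ⟨h, mem_Fix.mpr hm2.1⟩
    rw [hXfix a1 ha1 hm1.1, Finset.mem_singleton] at this
    exact hne this.symm
  have hd12 : Disjoint (X x a1) (X x a2) := by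
    rw [Finset.disjoint_left]
    intro y h1 h2
    exact hn12 (X_trans hx11 h1 (X_symm hx11 h2))
  have hcover : ∀ b ∈ Om p q, b ∈ X x a1 ∨ b ∈ X x a2 := by
    have : X x a1 ∪ X x a2 = Om p q := by
      apply Finset.eq_of_subset_of_card_le (Finset.union_subset (hXO a1 ha1) (hXO a2 ha2))
      rw [Finset.card_union_of_disjoint hd12, hX11 a1 ha1, hX11 a2 ha2, card_Om hpq]
    intro b hb
    rw [← this, Finset.mem_union] at hb
    exact hb
  have star : ∀ a ∈ Om p q, ∀ b ∈ X x a, b ≠ a → kap K a b ≠ 60 := by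
    intro a ha b hb hba hk
    have main : ∀ c ∈ Om p q, s c = c → a ∈ X x c → False := by
      intro c hcO hsc hac
      obtain ⟨i, hi, rfl⟩ := mem_X.mp hac
      obtain ⟨k, hk', rfl⟩ := mem_X.mp hb
      have e1 : (x ^ k) ((x ^ i) c) = (x ^ i) ((x ^ k) c) := by
        rw [← Equiv.Perm.mul_apply, ← Equiv.Perm.mul_apply, ← pow_add, ← pow_add, Nat.add_comm]
      rw [e1] at hba hk
      rw [kap_smul (hxi i)] at hk
      have h1 := hdisj c hcO hsc
      have h2 : (x ^ k) c ∈ X x c ∩ Nb K p q c := by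
        rw [Finset.mem_inter, mem_Nb]
        exact ⟨mem_X' hx11 k, smul_Om hf (hxi k) hcO, fun e => hba (by rw [e]), hk⟩
      rw [h1] at h2
      exact absurd h2 (Finset.notMem_empty _)
    rcases hcover a ha with h | h
    · exact main a1 ha1 hm1.1 h
    · exact main a2 ha2 hm2.1 h
  -- conclusion
  have hcO : x a1 ∈ Om p q := smul_Om hf hxK ha1
  have hca : x a1 ≠ a1 := hFix a1 ha1
  have hcX : x a1 ∈ X x a1 := by
    have := mem_X' hx11 (a := a1) 1
    rwa [pow_one] at this
  have hN1 : Nb K p q a1 ⊆ X x a2 := by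
    intro b hb
    rw [mem_Nb] at hb
    rcases hcover b hb.1 with h | h
    · exact absurd hb.2.2 (star a1 ha1 b h hb.2.1)
    · exact h
  have hN2 : Nb K p q (x a1) ⊆ X x a2 := by
    intro b hb
    rw [mem_Nb] at hb
    rcases hcover b hb.1 with h | h
    · exact absurd hb.2.2 (star (x a1) hcO b (X_trans hx11 (X_symm hx11 hcX) h) hb.2.1)
    · exact h
  obtain ⟨d, hd⟩ : (Nb K p q a1 ∩ Nb K p q (x a1)).Nonempty := by
    rw [← Finset.card_pos]
    have h1 := Finset.card_union_add_card_inter (Nb K p q a1) (Nb K p q (x a1))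
    have h2 := Finset.card_le_card (Finset.union_subset hN1 hN2)
    rw [(L ha1).1, (L hcO).1] at h1
    rw [hX11 a2 ha2] at h2
    omega
  rw [Finset.mem_inter] at hd
  obtain ⟨b, hb⟩ : (X x a2 \ Nb K p q a1).Nonempty := by
    rw [← Finset.card_pos, Finset.card_sdiff_of_subset hN1, hX11 a2 ha2, (L ha1).1]
    norm_num
  rw [Finset.mem_sdiff] at hb
  have hbO : b ∈ Om p q := hXO a2 ha2 hb.1
  have hba : b ≠ a1 := by
    rintro rfl
    exact Finset.disjoint_left.mp hd12 (mem_X' hx11 0) hb.1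
  have hkb : kap K a1 b ≠ 60 := fun h => hb.2 (mem_Nb.mpr ⟨hbO, hba, h⟩)
  obtain ⟨k, hk, hka, hkc⟩ := (L ha1).2.1 (x a1) b hcO hbO hca hba (star a1 ha1 _ hcX hca) hkb
  have hd1 := mem_Nb.mp hd.1
  have hd2 := mem_Nb.mp hd.2
  have e1 : kap K a1 (k d) = 60 := by
    rw [← hd1.2.2, ← kap_smul hk a1 d, hka]
  have e2 : kap K b (k d) = 60 := by
    rw [← hd2.2.2, ← kap_smul hk (x a1) d, hkc]
  have hkd : k d ∈ Nb K p q a1 := mem_Nb.mpr ⟨smul_Om hf hk hd1.1, fun e => hd1.2.1 (k.injective (e.trans hka.symm)), e1⟩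
  have hne' : k d ≠ b := by
    intro e
    rw [e] at e1
    exact hkb e1
  exact star b hbO (k d) (X_trans hx11 (X_symm hx11 hb.1) (hN1 hkd)) hne' e2

end

theorem S1606_main {p q : GolayPt} (hpq : p ≠ q)
    (H : Subgroup ↥(MulAction.stabilizer M24 p ⊓ MulAction.stabilizer M24 q)) : H.index ≠ 56 ∧ H.index ≠ 210 := by
  let K : Subgroup PG := (H.map (MulAction.stabilizer M24 p ⊓ MulAction.stabilizer M24 q).subtype).map M24.subtype
  have hcK : Nat.card K = Nat.card H := by
    rw [Subgroup.card_map_of_injective M24.subtype_injective, Subgroup.card_map_of_injective (Subgroup.subtype_injective _)]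
  have hK : K ≤ M24 := by
    rintro _ ⟨g, _, rfl⟩
    exact g.2
  have hf : ∀ g ∈ K, g p = p ∧ g q = q := by
    rintro _ ⟨_, ⟨g, _, rfl⟩, rfl⟩
    exact ⟨g.2.1, g.2.2⟩
  have hmul := Subgroup.card_mul_index H
  rw [card_stab_two hpq] at hmul
  constructor
  · intro h
    rw [h] at hmul
    exact not_7920 hK hpq hf (by rw [hcK]; omega)
  · intro h
    rw [h] at hmul
    exact not_2112 hK hpq hf (by rw [hcK]; omega)

end Cfsg.Agent.Lib.M22Index
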