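import Cfsg.Agent.Lib.H89FB2

/-!
# The commuting geometry on a class of involutions, after the residues of type 2.M(22): basic facts (helper73, adapting helper89's
files H89FB0-H89FB2)
-/

set_option autoImplicit false
set_option linter.all false

namespace Cfsg.Agent.Lib.M23G

open Cfsg.Agent.Lib.H89FB

universe w'

variable {G : Type w'} [Group G]

/-- the geometry -/
structure Geo3 (Δ : Set G) : Prop where
  inv : ∀ x ∈ Δ, x * x = 1
  one : ∀ x ∈ Δ, x ≠ 1
  cl : ∀ x ∈ Δ, ∀ y ∈ Δ, ∃ g, g * x * g⁻¹ = y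
  cj : ∀ g, ∀ x ∈ Δ, g * x * g⁻¹ ∈ Δ
  ne : Δ.Nonempty
  three : ∀ c ∈ Δ, ∀ x ∈ Δ, ∀ y ∈ Δ, Commute x c → Commute y c → ¬ Commute x y → x * y * x = y * x * y
  card : ∀ B, Bs Δ B → B.ncard = 23
  nr : ∀ l : List G, l.Nodup → (∀ x ∈ l, x ∈ Δ) → (∀ x ∈ l, ∀ y ∈ l, Commute x y) → 1 ≤ l.length → l.length ≤ 6 → l.prod ≠ 1
  odd : ∀ B, Bs Δ B → ∃ l : List G, (∀ x ∈ l, x ∈ B) ∧ Odd l.length ∧ l.prod = 1
  nf : ∀ d ∈ Δ, ∀ t, t * t = 1 → t ≠ 1 → Commute t d → t ∈ Δ ∨ (∃ a ∈ Δ, ∃ b ∈ Δ, a ≠ b ∧ Commute a b ∧ t = a * b) ∨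
    (∃ a b c, T3 Δ a b c ∧ t = a * b * c)
  nb : ∀ x ∈ Δ, ∃ y ∈ Δ, y ≠ x ∧ Commute y x
  y3 : ∀ c ∈ Δ, ∀ a ∈ Δ, ∀ b ∈ Δ, Commute a c → Commute b c → ¬ Commute a b → ∃ y ∈ Δ, y ≠ c ∧ Commute y c ∧ Commute y a ∧ Commute y b
  p2 : ∀ c ∈ Δ, ∀ y ∈ Δ, c ≠ y → Commute c y → Odd (Set.ncard {q | q ∈ Δ ∧ q ≠ c ∧ q ≠ y ∧ Commute q c ∧ Commute q y})
  p45 : ∀ c ∈ Δ, ∀ y ∈ Δ, ∀ a ∈ Δ, ∀ b ∈ Δ, c ≠ y → Commute c y → Commute a c → Commute a y → Commute b c → Commute b y → ¬ Commute a b →
    Odd (Set.ncard {q | q ∈ Δ ∧ q ≠ c ∧ q ≠ y ∧ Commute q c ∧ Commute q y ∧ Commute q a ∧ Commute q b})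
  p51 : ∀ c ∈ Δ, ∀ y ∈ Δ, ∀ a ∈ Δ, ∀ b ∈ Δ, c ≠ y → a ≠ c → a ≠ y → b ≠ c → b ≠ y → a ≠ b → Commute c y → Commute a c → Commute a y →
    Commute b c → Commute b y → Commute a b →
    Odd (Set.ncard {q | q ∈ Δ ∧ q ≠ c ∧ q ≠ y ∧ q ≠ a ∧ q ≠ b ∧ Commute q c ∧ Commute q y ∧ Commute q a ∧ Commute q b})

/-- an involution acting on a finite set with an odd number of elements fixes one of them -/
theorem exists_fixed {P : Set G} (hP : Odd P.ncard) {t : G} (htt : t * t = 1) (ht : ∀ q ∈ P, t * q * t⁻¹ ∈ P) :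
    ∃ q ∈ P, Commute t q := by
  classical
  have hfin : P.Finite := Set.finite_of_ncard_pos (by
    rcases hP with ⟨k, hk⟩; omega)
  haveI : Finite P := hfin
  haveI := Fintype.ofFinite P
  have it : t⁻¹ = t := inv_eq_of_mul_eq_one_left htt
  let f : P → P := fun q => ⟨t * q * t⁻¹, ht q q.2⟩
  have hf : Function.Involutive f := by
    intro q
    apply Subtype.ext
    show t * (t * q * t⁻¹) * t⁻¹ = q
    rw [it]
    calc t * (t * (q : G) * t) * t = (t * t) * q * (t * t) := by group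
      _ = q := by rw [htt, one_mul, mul_one]
  have hodd : Odd (Fintype.card P) := by
    rw [← Nat.card_eq_fintype_card, Nat.card_coe_set_eq]; exact hP
  obtain ⟨q, hq⟩ : ∃ q, f q = q := by
    by_contra hcon
    push Not at hcon
    have h2 : 2 ∣ Fintype.card P := by
      have h3 := Equiv.Perm.two_dvd_card_support (σ := hf.toPerm f) (by
        ext q
        show (f (f q) : G) = q
        rw [hf q])
      have h4 : (hf.toPerm f).support = Finset.univ := by
        ext q
        simp [Equiv.Perm.mem_support, hcon q]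
      rw [h4, Finset.card_univ] at h3
      exact h3
    exact (Nat.not_even_iff_odd.2 hodd) (even_iff_two_dvd.2 h2)
  refine ⟨q, q.2, ?_⟩
  exact cj_eq_iff.1 (congrArg Subtype.val hq)

variable {Δ : Set G} (X : Geo3 Δ)
include X

namespace Geo3

theorem cjm (g x : G) : g * x * g⁻¹ ∈ Δ ↔ x ∈ Δ := by
  constructor
  · intro h
    have := X.cj g⁻¹ _ h
    have e : g⁻¹ * (g * x * g⁻¹) * (g⁻¹)⁻¹ = x := by group
    rwa [e] at this
  · exact X.cj g x

theorem bs_conj {B : Set G} (hB : Bs Δ B) (g : G) : Bs Δ ((fun x => g * x * g⁻¹) '' B) := by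
  refine ⟨?_, ?_, ?_⟩
  · rintro _ ⟨x, hx, rfl⟩; exact X.cj g x (hB.sub x hx)
  · rintro _ ⟨x, hx, rfl⟩ _ ⟨y, hy, rfl⟩
    exact (cm_conj g).2 (hB.com x hx y hy)
  · intro z hz h
    refine ⟨g⁻¹ * z * g, hB.max _ ?_ ?_, by group⟩
    · have := X.cj g⁻¹ z hz
      rwa [inv_inv] at this
    · intro x hx
      rw [← cm_conj g]
      have := h _ ⟨x, hx, rfl⟩
      have e : g * (g⁻¹ * z * g) * g⁻¹ = z := by group
      rwa [e]

theorem finite_bs {B : Set G} (hB : Bs Δ B) : B.Finite := Set.finite_of_ncard_ne_zero (by rw [X.card B hB]; norm_num)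

/-- conjugation maps a base into itself iff onto -/
theorem stab_eq {B : Set G} (hB : Bs Δ B) {g : G} (hg : ∀ x ∈ B, g * x * g⁻¹ ∈ B) : (fun x => g * x * g⁻¹) '' B = B := by
  have hfin := X.finite_bs hB
  apply Set.eq_of_subset_of_ncard_le _ _ hfin
  · rintro _ ⟨x, hx, rfl⟩; exact hg x hx
  · rw [Set.ncard_image_of_injective _ (fun a b h => (cj_inj g).1 h)]

/-- conjugation as a permutation of a base -/
theorem exists_perm {B : Set G} (hB : Bs Δ B) {g : G} (hg : ∀ x ∈ B, g * x * g⁻¹ ∈ B) :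
    ∃ σ : Equiv.Perm B, ∀ x : B, (σ x : G) = g * x * g⁻¹ := by
  have hfin : Finite B := X.finite_bs hB
  have hinj : Function.Injective (fun x : B => (⟨g * x * g⁻¹, hg x x.2⟩ : B)) := by
    intro a b h
    exact Subtype.ext ((cj_inj g).1 (congrArg Subtype.val h))
  exact ⟨Equiv.ofBijective _ ⟨hinj, Finite.injective_iff_surjective.1 hinj⟩, fun x => rfl⟩

theorem nonempty_bs {B : Set G} (hB : Bs Δ B) : B.Nonempty := by
  rw [← Set.ncard_pos (X.finite_bs hB), X.card B hB]; norm_num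

/-- an element of order at most two normalizing a base commutes with a member of the base -/
theorem exists_fix {B : Set G} (hB : Bs Δ B) {t : G} (htt : t * t = 1) (ht : ∀ x ∈ B, t * x * t⁻¹ ∈ B) :
    ∃ e ∈ B, Commute t e := exists_fixed (by rw [X.card B hB]; exact ⟨11, rfl⟩) htt ht

theorem pair {a b c e : G} (ha : a ∈ Δ) (hb : b ∈ Δ) (hc : c ∈ Δ) (he : e ∈ Δ) (hab : a ≠ b) (cab : Commute a b)
    (cac : Commute a c) (cae : Commute a e) (cbc : Commute b c) (cbe : Commute b e) (cce : Commute c e) (h : a * b = c * e) :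
    c = a ∨ c = b := by
  by_contra hcon
  push Not at hcon
  obtain ⟨h1, h2⟩ := hcon
  have hcc := X.inv c hc
  have hee := X.inv e he
  have hbb := X.inv b hb
  have haa := X.inv a ha
  have hce : c ≠ e := by
    intro h'
    rw [← h', hcc] at h
    apply hab
    rw [eq_inv_of_mul_eq_one_left h, inv_eq_of_mul_eq_one_left hbb]
  have hea : e ≠ a := by
    intro h'
    rw [h', ← cac.eq] at h
    exact h2 (mul_left_cancel h).symm
  have heb : e ≠ b := by
    intro h'
    rw [h'] at h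
    exact h1 (mul_right_cancel h).symm
  refine X.nr [a, b, c, e] ?_ ?_ ?_ (by simp) (by simp) ?_
  · simp [hab, h1.symm, h2.symm, hea.symm, heb.symm, hce]
  · simp [ha, hb, hc, he]
  · simp only [List.mem_cons, List.not_mem_nil, or_false]
    rintro x (rfl | rfl | rfl | rfl) y (rfl | rfl | rfl | rfl)
    all_goals first
      | exact Commute.refl _ | exact cab | exact cac | exact cae | exact cbc | exact cbe | exact cce
      | exact cab.symm | exact cac.symm | exact cae.symm | exact cbc.symm | exact cbe.symm | exact cce.symm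
  · simp only [List.prod_cons, List.prod_nil, mul_one]
    calc a * (b * (c * e)) = (a * b) * (c * e) := by group
      _ = (c * e) * (c * e) := by rw [h]
      _ = c * (e * c) * e := by group
      _ = c * (c * e) * e := by rw [cce.eq]
      _ = (c * c) * (e * e) := by group
      _ = 1 := by rw [hcc, hee, one_mul]

theorem two {a b : G} (ha : a ∈ Δ) (hb : b ∈ Δ) (hab : a ≠ b) (cab : Commute a b) : a * b ∉ Δ := by
  intro h
  have haa := X.inv a ha
  have hbb := X.inv b hb
  refine X.nr [a, b, a * b] ?_ ?_ ?_ (by simp) (by simp) ?_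
  · simp only [List.nodup_cons, List.mem_cons, List.not_mem_nil, or_false, not_or, not_false_eq_true, List.nodup_nil, and_true]
    refine ⟨⟨hab, ?_⟩, ?_⟩
    · intro h'
      apply X.one b hb
      have : a * 1 = a * b := by rw [mul_one]; exact h'
      exact (mul_left_cancel this).symm
    · intro h'
      apply X.one a ha
      have : 1 * b = a * b := by rw [one_mul]; exact h'
      exact (mul_right_cancel this).symm
  · simp [ha, hb, h]
  · simp only [List.mem_cons, List.not_mem_nil, or_false]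
    rintro x (rfl | rfl | rfl) y (rfl | rfl | rfl)
    all_goals first
      | exact Commute.refl _ | exact cab | exact cab.symm
      | exact (Commute.refl _).mul_right cab | exact ((Commute.refl _).mul_right cab).symm
      | exact cab.symm.mul_right (Commute.refl _) | exact (cab.symm.mul_right (Commute.refl _)).symm
  · simp only [List.prod_cons, List.prod_nil, mul_one]
    calc a * (b * (a * b)) = a * (b * a) * b := by group
      _ = a * (a * b) * b := by rw [cab.eq]
      _ = (a * a) * (b * b) := by group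
      _ = 1 := by rw [haa, hbb, one_mul]

/-- members commuting with a product of two and with a common neighbour -/
theorem cz {t a b p : G} (ht : t ∈ Δ) (ha : a ∈ Δ) (hb : b ∈ Δ) (hp : p ∈ Δ) (hab : a ≠ b) (cat : Commute a t)
    (cbt : Commute b t) (cpt : Commute p t) (cab : Commute a b) (h : Commute p (a * b)) : Commute p a := by
  by_contra hn
  have haa := X.inv a ha
  have hbb := X.inv b hb
  have hpp := X.inv p hp
  have hnb : ¬ Commute p b := by
    intro h'
    apply hn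
    have : a = (a * b) * b := by rw [mul_assoc, hbb, mul_one]
    rw [this]; exact h.mul_right h'
  have h1 := X.three t ht p hp a ha cpt cat hn
  have h2 := X.three t ht p hp b hb cpt cbt hnb
  -- p a b p = a b
  have h3 : p * a * p * (p * b * p) = a * b := by
    calc p * a * p * (p * b * p) = p * a * (p * p) * b * p := by group
      _ = p * (a * b) * p := by rw [hpp]; group
      _ = (a * b) * p * p := by rw [h.eq]
      _ = a * b := by rw [mul_assoc, hpp, mul_one]
  rw [h1, h2] at h3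
  have h5 : a * (p * (a * b) * p) * b = a * b := by
    calc a * (p * (a * b) * p) * b = a * p * a * (b * p * b) := by group
      _ = a * b := h3
  have h6 : p * (a * b) * p = a * b := by rw [h.eq, mul_assoc, hpp, mul_one]
  rw [h6] at h5
  have h7 : a * (a * b) * b = (a * a) * (b * b) := by group
  rw [h7, haa, hbb, one_mul] at h5
  apply hab
  rw [eq_inv_of_mul_eq_one_left h5.symm, inv_eq_of_mul_eq_one_left hbb]

/-- members normalizing a base lie in it -/
theorem mem_of_norm {B : Set G} (hB : Bs Δ B) {p : G} (hp : p ∈ Δ) (h : ∀ x ∈ B, p * x * p⁻¹ ∈ B) : p ∈ B := by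
  obtain ⟨e, he, hpe⟩ := X.exists_fix hB (X.inv p hp) h
  apply hB.max p hp
  intro x hx
  by_contra hn
  have h3 := X.three e (hB.sub e he) p hp x (hB.sub x hx) hpe (hB.com x hx e he) hn
  have hpp := X.inv p hp
  have hxx := X.inv x (hB.sub x hx)
  have ip : p⁻¹ = p := inv_eq_of_mul_eq_one_left hpp
  have h4 := hB.com _ (h x hx) x hx
  rw [ip, h3] at h4
  have h5 : x * p * x * x = x * (x * p * x) := h4
  have h6 : x * p = p * x := by
    calc x * p = x * p * (x * x) := by rw [hxx, mul_one]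
      _ = x * p * x * x := by group
      _ = x * (x * p * x) := h5
      _ = (x * x) * p * x := by group
      _ = p * x := by rw [hxx, one_mul]
  exact hn h6.symm

/-- 2-groups containing a base normalize it -/
theorem norm_of_two [Finite G] {B : Set G} (hB : Bs Δ B) {T : Subgroup G} (hT : IsPGroup 2 T) (hBT : ∀ x ∈ B, x ∈ T) :
    ∀ t ∈ T, ∀ x ∈ B, t * x * t⁻¹ ∈ B := by
  -- the stabilizer of the base in T
  let N : Subgroup T := {
    carrier := {t | (fun x => (t : G) * x * (t : G)⁻¹) '' B = B}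
    mul_mem' := by
      intro a b ha hb
      show (fun x => ((a * b : T) : G) * x * ((a * b : T) : G)⁻¹) '' B = B
      have h1 : (fun x => ((a * b : T) : G) * x * ((a * b : T) : G)⁻¹) = (fun x => (a : G) * x * (a : G)⁻¹) ∘ (fun x => (b : G) * x * (b : G)⁻¹) := by
        funext x
        show (a : G) * b * x * ((a : G) * b)⁻¹ = a * (b * x * (b : G)⁻¹) * (a : G)⁻¹
        group
      rw [h1, Set.image_comp, show (fun x => (b : G) * x * (b : G)⁻¹) '' B = B from hb]
      exact ha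
    one_mem' := by
      show (fun x => ((1 : T) : G) * x * ((1 : T) : G)⁻¹) '' B = B
      simp
    inv_mem' := by
      intro a ha
      show (fun x => ((a⁻¹ : T) : G) * x * ((a⁻¹ : T) : G)⁻¹) '' B = B
      conv_lhs => rw [← show (fun x => (a : G) * x * (a : G)⁻¹) '' B = B from ha]
      rw [← Set.image_comp]
      have h1 : ((fun x => ((a⁻¹ : T) : G) * x * ((a⁻¹ : T) : G)⁻¹) ∘ fun x => (a : G) * x * (a : G)⁻¹) = id := by
        funext x
        show (a : G)⁻¹ * (a * x * (a : G)⁻¹) * ((a : G)⁻¹)⁻¹ = x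
        group
      rw [h1, Set.image_id] }
  have hmemN : ∀ t : T, t ∈ N ↔ ∀ x ∈ B, (t : G) * x * (t : G)⁻¹ ∈ B := by
    intro t
    constructor
    · intro h x hx
      have h' : (fun x => (t : G) * x * (t : G)⁻¹) '' B = B := h
      rw [← h']; exact ⟨x, hx, rfl⟩
    · intro h; exact X.stab_eq hB h
  have htop : N = ⊤ := by
    by_contra hne
    haveI : Finite T := inferInstance
    haveI : Fact (Nat.Prime 2) := ⟨Nat.prime_two⟩
    haveI : Group.IsNilpotent T := hT.isNilpotent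
    have hlt := normalizerCondition_of_isNilpotent N (lt_top_iff_ne_top.2 hne)
    obtain ⟨g, hg, hgN⟩ := SetLike.exists_of_lt hlt
    apply hgN
    rw [hmemN]
    intro x hx
    have hxN : (⟨x, hBT x hx⟩ : T) ∈ N := by
      rw [hmemN]
      intro y hy
      have : (x : G) * y * (x : G)⁻¹ = y := cj_eq_iff.2 (hB.com x hx y hy)
      rw [this]; exact hy
    have h1 : g * (⟨x, hBT x hx⟩ : T) * g⁻¹ ∈ N := ((Subgroup.mem_normalizer_iff.1 hg) _).1 hxN
    rw [hmemN] at h1
    exact X.mem_of_norm hB (X.cj _ x (hB.sub x hx)) h1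
  intro t ht x hx
  exact (hmemN ⟨t, ht⟩).1 (by rw [htop]; trivial) x hx

/-- commuting sets lie in bases -/
theorem exists_bs [Finite G] {S : Set G} (hS : ∀ x ∈ S, x ∈ Δ) (hc : ∀ x ∈ S, ∀ y ∈ S, Commute x y) : ∃ B, Bs Δ B ∧ S ⊆ B := by
  obtain ⟨B, hSB, hB⟩ := (Set.toFinite {S' : Set G | (∀ x ∈ S', x ∈ Δ) ∧ ∀ x ∈ S', ∀ y ∈ S', Commute x y}).exists_le_maximal
    (a := S) ⟨hS, hc⟩
  refine ⟨B, ⟨hB.prop.1, hB.prop.2, ?_⟩, hSB⟩
  intro z hz h
  have h1 : insert z B ∈ {S' : Set G | (∀ x ∈ S', x ∈ Δ) ∧ ∀ x ∈ S', ∀ y ∈ S', Commute x y} := by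
    refine ⟨?_, ?_⟩
    · rintro x (rfl | hx)
      · exact hz
      · exact hB.prop.1 x hx
    · rintro x (rfl | hx) y (rfl | hy)
      · exact Commute.refl _
      · exact h y hy
      · exact (h x hx).symm
      · exact hB.prop.2 x hx y hy
  exact hB.le_of_ge h1 (Set.subset_insert z B) (Set.mem_insert z B)

theorem cl_sq {B : Set G} (hB : Bs Δ B) : (∀ x ∈ Subgroup.closure B, x * x = 1) ∧
    ∀ x ∈ Subgroup.closure B, ∀ y ∈ Subgroup.closure B, Commute x y :=
  closure_sq (fun x hx => X.inv x (hB.sub x hx)) hB.com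

/-- an element of order at most two normalizing a subgroup containing a base normalizes a base in it -/
theorem exists_norm [Finite G] {Y : Subgroup G} {B : Set G} (hB : Bs Δ B) (hBY : ∀ x ∈ B, x ∈ Y) {t : G} (htt : t * t = 1)
    (ht : ∀ y ∈ Y, t * y * t⁻¹ ∈ Y) : ∃ B', Bs Δ B' ∧ (∀ x ∈ B', x ∈ Y) ∧ ∀ x ∈ B', t * x * t⁻¹ ∈ B' := by
  have it : t⁻¹ = t := inv_eq_of_mul_eq_one_left htt
  -- the product
  let M : Subgroup G := {
    carrier := {x | x ∈ Y ∨ x * t ∈ Y}
    mul_mem' := by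
      rintro a b (ha | ha) (hb | hb)
      · left; exact Y.mul_mem ha hb
      · right; rw [mul_assoc]; exact Y.mul_mem ha hb
      · right
        have : a * b * t = (a * t) * (t * b * t⁻¹) := by rw [it]; calc a * b * t = a * (t * t) * b * t := by rw [htt, mul_one]
              _ = _ := by group
        rw [this]; exact Y.mul_mem ha (ht b hb)
      · left
        have : a * b = (a * t) * (t * (b * t) * t⁻¹) := by
          calc a * b = a * (t * t) * b := by rw [htt, mul_one]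
            _ = (a * t) * (t * (b * t) * t⁻¹) := by group
        rw [this]; exact Y.mul_mem ha (ht _ hb)
    one_mem' := Or.inl Y.one_mem
    inv_mem' := by
      rintro a (ha | ha)
      · left; exact Y.inv_mem ha
      · right
        have : a⁻¹ * t = t * (a * t)⁻¹ * t⁻¹ := by
          rw [mul_inv_rev, it]
          calc a⁻¹ * t = (t * t) * a⁻¹ * t := by rw [htt, one_mul]
            _ = t * (t * a⁻¹) * t := by group
        show a⁻¹ * t ∈ Y
        rw [this]; exact ht _ (Y.inv_mem ha) }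
  have hYM : ∀ y ∈ Y, y ∈ M := fun y hy => Or.inl hy
  have htM : t ∈ M := Or.inr (by rw [htt]; exact Y.one_mem)
  have hnorm : ∀ m ∈ M, ∀ y ∈ Y, m * y * m⁻¹ ∈ Y := by
    rintro m (hm | hm) y hy
    · exact Y.mul_mem (Y.mul_mem hm hy) (Y.inv_mem hm)
    · have : m * y * m⁻¹ = (m * t) * (t * y * t⁻¹) * (m * t)⁻¹ := by
        rw [mul_inv_rev]
        calc m * y * m⁻¹ = m * (t * t) * y * (t⁻¹ * t⁻¹) * m⁻¹ := by rw [htt, ← mul_inv_rev, htt]; group
          _ = _ := by group
      rw [this]; exact Y.mul_mem (Y.mul_mem hm (ht y hy)) (Y.inv_mem hm)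
  have hP : Subgroup.zpowers t ≤ M := by rw [Subgroup.zpowers_le]; exact htM
  have hP2 : IsPGroup 2 (Subgroup.zpowers t) := pgroup_of_sq (fun a ha => by
    rcases (mem_zp htt a).1 ha with rfl | rfl
    · rw [one_mul]
    · exact htt)
  obtain ⟨S, hS1, hS2⟩ := exists_syl hP hP2
  have hAM : Subgroup.closure B ≤ M := (Subgroup.closure_le M).2 (fun x hx => hYM x (hBY x hx))
  obtain ⟨m, hm, hmA⟩ := hS2 _ hAM (pgroup_of_sq (X.cl_sq hB).1)
  set T := (S : Subgroup M).map M.subtype with hT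
  have hT2 : IsPGroup 2 T := S.2.map _
  have hB' := X.bs_conj hB m
  have hBT : ∀ x ∈ (fun x => m * x * m⁻¹) '' B, x ∈ T := by
    rintro _ ⟨x, hx, rfl⟩
    obtain ⟨h, h'⟩ := hmA x (Subgroup.subset_closure hx)
    exact ⟨_, h', rfl⟩
  refine ⟨_, hB', ?_, ?_⟩
  · rintro _ ⟨x, hx, rfl⟩; exact hnorm m hm x (hBY x hx)
  · have htT : t ∈ T := ⟨_, hS1 t (Subgroup.mem_zpowers t), rfl⟩
    exact X.norm_of_two hB' hT2 hBT t htT

/-- a subgroup of index 2 contains a member of a base -/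
theorem exists_mem_index {B : Set G} (hB : Bs Δ B) {A₀ : Subgroup G} (h2 : A₀.relIndex (Subgroup.closure B) = 2) :
    ∃ e ∈ B, e ∈ A₀ := by
  by_contra hcon
  push Not at hcon
  obtain ⟨l, hl, hodd, hprod⟩ := X.odd B hB
  have key : ∀ l : List G, (∀ x ∈ l, x ∈ B) → (l.prod ∈ Subgroup.closure B ∧ (l.prod ∈ A₀ ↔ Even l.length)) := by
    intro l
    induction l with
    | nil => intro _; simp
    | cons a l ih =>
      intro h
      obtain ⟨h1, h2'⟩ := ih (fun x hx => h x (List.mem_cons_of_mem _ hx))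
      have ha : a ∈ B := h a List.mem_cons_self
      have haA : a ∈ Subgroup.closure B := Subgroup.subset_closure ha
      refine ⟨by rw [List.prod_cons]; exact mul_mem haA h1, ?_⟩
      rw [List.prod_cons, List.length_cons, Nat.even_add_one]
      have h3 := Subgroup.mul_mem_iff_of_index_two (H := A₀.subgroupOf (Subgroup.closure B)) h2
        (a := ⟨a, haA⟩) (b := ⟨l.prod, h1⟩)
      rw [Subgroup.mem_subgroupOf, Subgroup.mem_subgroupOf, Subgroup.mem_subgroupOf] at h3
      change (a * l.prod ∈ A₀ ↔ (a ∈ A₀ ↔ l.prod ∈ A₀)) at h3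
      rw [h3, h2']
      have h4 : a ∉ A₀ := hcon a ha
      tauto
  have h3 := (key l hl).2
  rw [hprod] at h3
  exact (Nat.not_even_iff_odd.2 hodd) (h3.1 (one_mem _))

theorem zst [Finite G] {a b : G} (ha : a ∈ Δ) (hb : b ∈ Δ) (hab : a ≠ b) (hc : Commute a b) :
    (∀ g, Commute g (a * b) → g * a * g⁻¹ = a ∨ g * a * g⁻¹ = b) ∧
      ∀ p ∈ Δ, Commute p (a * b) → Commute p a ∧ Commute p b := by
  classical
  obtain ⟨z, hz⟩ : ∃ z, z = a * b := ⟨_, rfl⟩
  rw [← hz]
  have haa := X.inv a ha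
  have hbb := X.inv b hb
  have hzz : z * z = 1 := by
    rw [hz]
    calc a * b * (a * b) = a * (b * a) * b := by group
      _ = a * (a * b) * b := by rw [hc.eq]
      _ = (a * a) * (b * b) := by group
      _ = 1 := by rw [haa, hbb, one_mul]
  have hz1 : z ≠ 1 := by
    intro h
    apply hab
    rw [hz] at h
    rw [eq_inv_of_mul_eq_one_left h, inv_eq_of_mul_eq_one_left hbb]
  have hbz : a * z = b := by rw [hz, ← mul_assoc, haa, one_mul]
  have hza : Commute z a := by rw [hz]; exact (Commute.refl a).mul_left hc.symm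
  have hzb : Commute z b := by rw [hz]; exact hc.mul_left (Commute.refl b)
  obtain ⟨M, hM⟩ : ∃ M, M = Subgroup.centralizer ({z} : Set G) := ⟨_, rfl⟩
  have hmM : ∀ g, g ∈ M ↔ Commute g z := fun g => by
    rw [hM, Subgroup.mem_centralizer_singleton_iff]
    exact ⟨fun h => h, fun h => h.eq⟩
  obtain ⟨B, hB, hSB⟩ := X.exists_bs (S := {a, b}) (by rintro x (rfl | rfl) <;> assumption) (by
    rintro x (rfl | rfl) y (rfl | rfl)
    · exact Commute.refl _
    · exact hc
    · exact hc.symm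
    · exact Commute.refl _)
  have haB : a ∈ B := hSB (by simp)
  have hbB : b ∈ B := hSB (by simp)
  have hBz : ∀ x ∈ B, Commute x z := fun x hx => by
    rw [hz]; exact (hB.com x hx a haB).mul_right (hB.com x hx b hbB)
  obtain ⟨A, hA⟩ : ∃ A, A = Subgroup.closure B := ⟨_, rfl⟩
  have hAM : A ≤ M := by
    rw [hA, Subgroup.closure_le]
    intro x hx
    exact (hmM x).2 (hBz x hx)
  have hAsq := X.cl_sq hB
  rw [← hA] at hAsq
  obtain ⟨S, hS1, -⟩ := exists_syl hAM (pgroup_of_sq hAsq.1)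
  obtain ⟨T, hT⟩ : ∃ T, T = (S : Subgroup M).map M.subtype := ⟨_, rfl⟩
  have hT2 : IsPGroup 2 T := by rw [hT]; exact S.2.map _
  have hBA : ∀ x ∈ B, x ∈ A := fun x hx => by rw [hA]; exact Subgroup.subset_closure hx
  have hBT : ∀ x ∈ B, x ∈ T := fun x hx => by rw [hT]; exact ⟨_, hS1 x (hBA x hx), rfl⟩
  have hmT : ∀ g (hg : g ∈ M), (⟨g, hg⟩ : M) ∈ (S : Subgroup M) → g ∈ T := fun g hg h => by rw [hT]; exact ⟨_, h, rfl⟩
  have hDT : ∀ p ∈ Δ, p ∈ T → p ∈ B := fun p hp hpT => X.mem_of_norm hB hp (X.norm_of_two hB hT2 hBT p hpT)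
  have hzT : z ∈ T := by rw [hz]; exact mul_mem (hBT a haB) (hBT b hbB)
  -- conjugates in T
  have key : ∀ g ∈ M, g * a * g⁻¹ ∈ T → g * a * g⁻¹ = a ∨ g * a * g⁻¹ = b := by
    intro g hg hT'
    have hcD : g * a * g⁻¹ ∈ Δ := X.cj g a ha
    have heD : g * b * g⁻¹ ∈ Δ := X.cj g b hb
    have hcB := hDT _ hcD hT'
    have h1 : g * a * g⁻¹ * (g * b * g⁻¹) = z := by
      calc g * a * g⁻¹ * (g * b * g⁻¹) = g * (a * b) * g⁻¹ := by group
        _ = g * z * g⁻¹ := by rw [hz]
        _ = z := cj_eq_iff.2 ((hmM g).1 hg)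
    have h2 : g * b * g⁻¹ = g * a * g⁻¹ * z := by
      rw [← h1, ← mul_assoc, X.inv _ hcD, one_mul]
    have heB := hDT _ heD (by rw [h2]; exact mul_mem hT' hzT)
    exact X.pair ha hb hcD heD hab hc (hB.com _ haB _ hcB) (hB.com _ haB _ heB) (hB.com _ hbB _ hcB)
      (hB.com _ hbB _ heB) (hB.com _ hcB _ heB) (by rw [h1, hz])
  -- the quotient
  obtain ⟨z', hz'⟩ : ∃ z' : M, z' = ⟨z, (hmM z).2 (Commute.refl z)⟩ := ⟨_, rfl⟩
  have hzv : (z' : G) = z := by rw [hz']
  have hzz' : z' * z' = 1 := Subtype.ext (by rw [Subgroup.coe_mul, hzv, hzz]; rfl)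
  have hcz : ∀ x : M, z' * x = x * z' := fun x => Subtype.ext (by
    rw [Subgroup.coe_mul, Subgroup.coe_mul, hzv]; exact ((hmM x).1 x.2).symm.eq)
  obtain ⟨Z, hZ⟩ : ∃ Z, Z = Subgroup.zpowers z' := ⟨_, rfl⟩
  have hmZ : ∀ x, x ∈ Z ↔ x = 1 ∨ x = z' := fun x => by rw [hZ]; exact mem_zp hzz' x
  haveI : Z.Normal := by
    refine ⟨fun n hn g => ?_⟩
    rw [hmZ] at hn ⊢
    rcases hn with rfl | rfl
    · left; group
    · right; rw [← hcz g]; group
  have hcardZ : Nat.card Z = 2 := by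
    rw [hZ, Nat.card_zpowers]
    haveI : Fact (Nat.Prime 2) := ⟨Nat.prime_two⟩
    exact orderOf_eq_prime (by rw [pow_two]; exact hzz') (fun h => hz1 (by rw [← hzv, h]; rfl))
  haveI : Fact (Nat.Prime 2) := ⟨Nat.prime_two⟩
  have haM : a ∈ M := (hmM a).2 hza.symm
  obtain ⟨mk, hmk⟩ : ∃ mk : M →* M ⧸ Z, mk = QuotientGroup.mk' Z := ⟨_, rfl⟩
  have hmks : Function.Surjective mk := by rw [hmk]; exact QuotientGroup.mk'_surjective Z
  have hmk1 : ∀ x, mk x = 1 ↔ x ∈ Z := fun x => by rw [hmk]; exact QuotientGroup.eq_one_iff x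
  have hZS : ∀ x ∈ Z, x ∈ (S : Subgroup M) := by
    intro x hx
    rcases (hmZ x).1 hx with rfl | rfl
    · exact one_mem _
    · rw [hz']
      have : z ∈ A := by rw [hz]; exact mul_mem (hBA a haB) (hBA b hbB)
      exact hS1 z this
  obtain ⟨u, hu⟩ : ∃ u, u = mk ⟨a, haM⟩ := ⟨_, rfl⟩
  have hu2 : orderOf u = 2 := by
    apply orderOf_eq_prime
    · rw [pow_two, hu, ← map_mul, hmk1, hmZ]
      left; exact Subtype.ext haa
    · intro h
      rw [hu, hmk1, hmZ] at h
      rcases h with h | h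
      · exact X.one a ha (congrArg Subtype.val h)
      · have h1 : a = z := by rw [← hzv, ← h]
        rw [← h1, haa] at hbz
        exact X.one b hb hbz.symm
  have huP : u ∈ S.mapSurjective hmks := by
    show u ∈ ((S.mapSurjective hmks : Sylow 2 (M ⧸ Z)) : Subgroup (M ⧸ Z))
    rw [Sylow.coe_mapSurjective, hu]
    exact ⟨_, hS1 a (hBA a haB), rfl⟩
  have hiso : ∀ q : M ⧸ Z, q * u * q⁻¹ ∈ S.mapSurjective hmks → q * u * q⁻¹ = u := by
    intro q hq
    obtain ⟨g, rfl⟩ := hmks q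
    change mk g * u * (mk g)⁻¹ ∈ ((S.mapSurjective hmks : Sylow 2 (M ⧸ Z)) : Subgroup (M ⧸ Z)) at hq
    rw [Sylow.coe_mapSurjective, hu, ← map_mul, ← map_inv, ← map_mul] at hq
    obtain ⟨s, hs, hse⟩ := hq
    have h1 : s⁻¹ * (g * ⟨a, haM⟩ * g⁻¹) ∈ Z := by
      rw [← hmk1, map_mul, map_inv, hse, inv_mul_cancel]
    have h2 : g * ⟨a, haM⟩ * g⁻¹ ∈ (S : Subgroup M) := by
      have := mul_mem hs (hZS _ h1)
      rwa [← mul_assoc, mul_inv_cancel, one_mul] at this
    have h3 : (g : G) * a * (g : G)⁻¹ ∈ T := by rw [hT]; exact ⟨_, h2, rfl⟩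
    rw [hu, ← map_mul, ← map_inv, ← map_mul]
    rcases key g g.2 h3 with h4 | h4
    · congr 1
      exact Subtype.ext h4
    · have h5 : g * ⟨a, haM⟩ * g⁻¹ = ⟨a, haM⟩ * z' := Subtype.ext (by
        show (g : G) * a * (g : G)⁻¹ = a * (z' : G)
        rw [h4, hzv, hbz])
      rw [h5, map_mul, (hmk1 z').2 ((hmZ z').2 (Or.inr rfl)), mul_one]
  obtain ⟨N, hNn, hNodd, hN⟩ := Cfsg.Agent.S0215.result (S.mapSurjective hmks) u hu2 huP hiso
  have hcN : Nat.card (N.comap mk) = 2 * Nat.card N := by rw [hmk]; exact card_comap_two hcardZ N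
  obtain ⟨N', hN'⟩ : ∃ N' : Subgroup G, N' = (N.comap mk).map M.subtype := ⟨_, rfl⟩
  have hcN' : Nat.card N' = 2 * Nat.card N := by
    rw [hN', Nat.card_congr ((N.comap mk).equivMapOfInjective _ M.subtype_injective).toEquiv.symm, hcN]
  have hmN' : ∀ g (hg : g ∈ M), g ∈ N' ↔ mk ⟨g, hg⟩ ∈ N := by
    intro g hg
    rw [hN']
    constructor
    · rintro ⟨y, hy, hyg⟩
      have : y = ⟨g, hg⟩ := Subtype.ext hyg
      rw [← this]; exact hy
    · intro h; exact ⟨_, h, rfl⟩
  have hN'M : ∀ x ∈ N', x ∈ M := by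
    intro x hx
    rw [hN'] at hx
    obtain ⟨y, -, rfl⟩ := hx
    exact y.2
  have hzM : z ∈ M := (hmM z).2 (Commute.refl z)
  have hzN' : z ∈ N' := by
    rw [hmN' z hzM]
    have : mk ⟨z, hzM⟩ = 1 := by rw [hmk1, hmZ]; right; exact Subtype.ext hzv.symm
    rw [this]; exact one_mem _
  obtain ⟨Y, hYN, hYodd, hY1, hY2⟩ := odd_part hzN' hzz hz1 (fun x hx => ((hmM x).1 (hN'M x hx)).symm) hNodd hcN'
  have hodd : ∀ y ∈ Y, Odd (orderOf y) := by
    intro y hy
    have h1 : orderOf y ∣ Nat.card Y := by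
      have := orderOf_dvd_natCard (⟨y, hy⟩ : Y)
      rwa [Subgroup.orderOf_mk] at this
    exact Odd.of_dvd_nat hYodd h1
  have hYn : ∀ g ∈ M, ∀ y ∈ Y, g * y * g⁻¹ ∈ Y := by
    intro g hg y hy
    have hyM := hN'M y (hYN hy)
    have h1 : g * y * g⁻¹ ∈ M := mul_mem (mul_mem hg hyM) (inv_mem hg)
    apply hY2
    · rw [hmN' _ h1]
      have h2 := (hmN' y hyM).1 (hYN hy)
      have h3 := hNn.conj_mem _ h2 (mk ⟨g, hg⟩)
      rwa [← map_mul, ← map_inv, ← map_mul] at h3
    · have h2 : orderOf (g * y * g⁻¹) = orderOf y := by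
        have := (MulAut.conj g).orderOf_eq y
        rwa [MulAut.conj_apply] at this
      rw [h2]; exact hodd y hy
  -- Y centralizes a
  have hEA : Cfsg.IsElementaryAbelian 2 A :=
    ⟨⟨⟨fun x y => Subtype.ext (hAsq.2 x x.2 y y.2).eq⟩⟩, fun x hx => by rw [pow_two]; exact hAsq.1 x hx⟩
  have hA1 : A ≠ ⊥ := by
    intro h
    have := hBA a haB
    rw [h, Subgroup.mem_bot] at this
    exact X.one a ha this
  have hAY : A ≤ Subgroup.normalizer (Y : Set G) := by
    intro x hx
    rw [Subgroup.mem_normalizer_iff]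
    intro y
    constructor
    · exact hYn x (hAM hx) y
    · intro h
      have := hYn x⁻¹ (inv_mem (hAM hx)) _ h
      have e : x⁻¹ * (x * y * x⁻¹) * (x⁻¹)⁻¹ = y := by group
      rwa [e] at this
  have hcent : Y ≤ Subgroup.centralizer ({a} : Set G) := by
    apply Cfsg.Agent.Lib.CoprimeHyper.le_of_hyper_eq (p := 2) hEA hA1 (fun h => by
      rw [← even_iff_two_dvd] at h
      exact (Nat.not_even_iff_odd.2 hYodd) h) hAY
    intro B₀ hB₀ hrel y hy
    rw [Subgroup.mem_centralizer_singleton_iff]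
    obtain ⟨hyY, hyB₀⟩ := Subgroup.mem_inf.1 hy
    rw [hA] at hrel
    obtain ⟨t, htB, htB₀⟩ := X.exists_mem_index hB hrel
    have hyt : Commute y t := ((Subgroup.mem_centralizer_iff.1 hyB₀) t htB₀).symm
    have hyz : Commute y z := (hmM y).1 (hN'M y (hYN hyY))
    show y * a = a * y
    by_cases hta : t = a
    · rw [← hta]; exact hyt.eq
    by_cases htb : t = b
    · rw [htb] at hyt
      have : a = b * z := by rw [← hbz, mul_assoc, hzz, mul_one]
      rw [this]; exact (hyt.mul_right hyz).eq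
    have htD := hB.sub t htB
    -- the hexad
    have hperp : ∀ v ∈ Δ, Commute v t → Commute v z → Commute v a ∧ Commute v b := by
      intro v hv hvt hvz
      rw [hz] at hvz
      refine ⟨X.cz htD ha hb hv hab (hB.com a haB t htB) (hB.com b hbB t htB) hvt hc hvz, ?_⟩
      refine X.cz htD hb ha hv (Ne.symm hab) (hB.com b hbB t htB) (hB.com a haB t htB) hvt hc.symm ?_
      rw [← hc.eq]; exact hvz
    have haH : ∀ g, Commute g t → Commute g z → g * a * g⁻¹ ∈ HX Δ t a b := by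
      intro g hgt hgz
      refine ⟨X.cj g a ha, fun v hv hvt hva hvb => ?_⟩
      rw [← cm_conj g⁻¹]
      have e1 : g⁻¹ * (g * a * g⁻¹) * (g⁻¹)⁻¹ = a := by group
      rw [e1]
      refine (hperp _ (X.cj g⁻¹ v hv) ?_ ?_).1
      · have e2 : g⁻¹ * t * (g⁻¹)⁻¹ = t := cj_eq_iff.2 hgt.inv_left
        rw [← e2, cm_conj]; exact hvt
      · have e2 : g⁻¹ * z * (g⁻¹)⁻¹ = z := cj_eq_iff.2 hgz.inv_left
        rw [← e2, cm_conj, hz]; exact hva.mul_right hvb
    have h1 := haH y hyt hyz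
    have h2 : Commute a (y * a * y⁻¹) := h1.2 a ha (hB.com a haB t htB) (Commute.refl a) hc
    -- the commutator
    have h3 : y * (a * y⁻¹ * a⁻¹) ∈ Y := mul_mem hyY (hYn a haM _ (inv_mem hyY))
    have ia : a⁻¹ = a := inv_eq_of_mul_eq_one_left haa
    have h4 : y * (a * y⁻¹ * a⁻¹) = (y * a * y⁻¹) * a := by rw [ia]; group
    have h5 : (y * a * y⁻¹) * a * ((y * a * y⁻¹) * a) = 1 := by
      calc (y * a * y⁻¹) * a * ((y * a * y⁻¹) * a) = (y * a * y⁻¹) * (a * (y * a * y⁻¹)) * a := by group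
        _ = (y * a * y⁻¹) * ((y * a * y⁻¹) * a) * a := by rw [h2.eq]
        _ = ((y * a * y⁻¹) * (y * a * y⁻¹)) * (a * a) := by group
        _ = 1 := by rw [X.inv _ (X.cj y a ha), haa, one_mul]
    have h6 := odd_sq_one (hodd _ h3) (by rw [h4]; exact h5)
    rw [h4] at h6
    have h7 : y * a * y⁻¹ = a := by rw [eq_inv_of_mul_eq_one_left h6, ia]
    exact (cj_eq_iff.1 h7).eq
  -- conclusion
  have main : ∀ g, Commute g z → g * a * g⁻¹ = a ∨ g * a * g⁻¹ = b := by
    intro g hg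
    have hgM := (hmM g).2 hg
    obtain ⟨c, hcd⟩ : ∃ c, c = g * a * g⁻¹ := ⟨_, rfl⟩
    have hcD : c ∈ Δ := by rw [hcd]; exact X.cj g a ha
    have hcM : c ∈ M := by rw [hcd]; exact mul_mem (mul_mem hgM haM) (inv_mem hgM)
    rw [← hcd]
    have ia : a⁻¹ = a := inv_eq_of_mul_eq_one_left haa
    have h1 : a * c ∈ N' := by
      rw [hmN' _ (mul_mem haM hcM)]
      have h2 := hN (mk ⟨g, hgM⟩)
      have h3 : u * mk ⟨g, hgM⟩ * u⁻¹ * (mk ⟨g, hgM⟩)⁻¹ = mk ⟨a * c, mul_mem haM hcM⟩ := by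
        rw [hu, ← map_mul, ← map_inv, ← map_mul, ← map_inv, ← map_mul]
        congr 1
        apply Subtype.ext
        show a * g * a⁻¹ * g⁻¹ = a * c
        rw [hcd, ia]; group
      rw [← h3]; exact h2
    have h2 : ∀ y ∈ Y, Commute a y := fun y hy => (show y * a = a * y from Subgroup.mem_centralizer_singleton_iff.1 (hcent hy)).symm
    have hac : Commute a c := by
      rcases hY1 _ h1 with h | h
      · have h3 := h2 _ h
        have h4 := (Commute.refl a).mul_right h3
        have h5 : a * (a * c) = c := by rw [← mul_assoc, haa, one_mul]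
        rwa [h5] at h4
      · have h3 := h2 _ h
        have h4 := ((Commute.refl a).mul_right h3).mul_right hza.symm
        have h5 : a * (a * c * z) * z = c := by
          calc a * (a * c * z) * z = (a * a) * c * (z * z) := by group
            _ = c := by rw [haa, hzz, one_mul, mul_one]
        rwa [h5] at h4
    have hcc := X.inv c hcD
    have hsq : a * c * (a * c) = 1 := by
      calc a * c * (a * c) = a * (c * a) * c := by group
        _ = a * (a * c) * c := by rw [hac.eq]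
        _ = (a * a) * (c * c) := by group
        _ = 1 := by rw [haa, hcc, one_mul]
    rcases hY1 _ h1 with h | h
    · left
      have h3 := odd_sq_one (hodd _ h) hsq
      rw [← inv_eq_of_mul_eq_one_right h3, ia]
    · right
      have hzc : Commute z c := ((hmM c).1 hcM).symm
      have hs2 : a * c * z * (a * c * z) = 1 := by
        have h4 : Commute z (a * c) := hza.mul_right hzc
        calc a * c * z * (a * c * z) = a * c * (z * (a * c)) * z := by group
          _ = a * c * ((a * c) * z) * z := by rw [h4.eq]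
          _ = (a * c * (a * c)) * (z * z) := by group
          _ = 1 := by rw [hsq, hzz, one_mul]
      have h3 := odd_sq_one (hodd _ h) hs2
      have h5 : c = a * z := by
        calc c = a * a * c * (z * z) := by rw [haa, hzz]; group
          _ = a * (a * c * z) * z := by group
          _ = a * z := by rw [h3, mul_one]
      rw [h5, hbz]
  refine ⟨main, ?_⟩
  intro p hp hpz
  -- p is conjugate into the base
  have hpM := (hmM p).2 hpz
  have hP : Subgroup.zpowers p ≤ M := by rw [Subgroup.zpowers_le]; exact hpM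
  have hpp := X.inv p hp
  have hP2 : IsPGroup 2 (Subgroup.zpowers p) := pgroup_of_sq (fun x hx => by
    rcases (mem_zp hpp x).1 hx with rfl | rfl
    · rw [one_mul]
    · exact hpp)
  obtain ⟨S', hS'1, hS'2⟩ := exists_syl hP hP2
  obtain ⟨m, hm, hmA⟩ := hS'2 A hAM (pgroup_of_sq hAsq.1)
  have hB' := X.bs_conj hB m
  have hT'2 : IsPGroup 2 ((S' : Subgroup M).map M.subtype) := S'.2.map _
  have hB'T : ∀ x ∈ (fun x => m * x * m⁻¹) '' B, x ∈ (S' : Subgroup M).map M.subtype := by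
    rintro _ ⟨x, hx, rfl⟩
    obtain ⟨h, h'⟩ := hmA x (hBA x hx)
    exact ⟨_, h', rfl⟩
  have hpT : p ∈ (S' : Subgroup M).map M.subtype := ⟨_, hS'1 p (Subgroup.mem_zpowers p), rfl⟩
  have hpB := X.mem_of_norm hB' hp (X.norm_of_two hB' hT'2 hB'T p hpT)
  have hpa : Commute p (m * a * m⁻¹) := hB'.com _ hpB _ ⟨a, haB, rfl⟩
  have hpb : Commute p (m * b * m⁻¹) := hB'.com _ hpB _ ⟨b, hbB, rfl⟩
  have hmz : m * a * m⁻¹ * (m * b * m⁻¹) = z := by
    calc m * a * m⁻¹ * (m * b * m⁻¹) = m * (a * b) * m⁻¹ := by group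
      _ = m * z * m⁻¹ := by rw [hz]
      _ = z := cj_eq_iff.2 ((hmM m).1 hm)
  rcases main m ((hmM m).1 hm) with h | h
  · rw [h] at hpa hmz
    refine ⟨hpa, ?_⟩
    have : m * b * m⁻¹ = b := by
      have h1 : m * b * m⁻¹ = a * z := by rw [← hmz, ← mul_assoc, haa, one_mul]
      rw [h1, hbz]
    rwa [this] at hpb
  · rw [h] at hpa hmz
    refine ⟨?_, hpa⟩
    have : m * b * m⁻¹ = a := by
      have h1 : m * b * m⁻¹ = b * z := by rw [← hmz, ← mul_assoc, hbb, one_mul]
      rw [h1, ← hbz, mul_assoc, hzz, mul_one]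
    rwa [this] at hpb

end Geo3

end Cfsg.Agent.Lib.M23G
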