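import Cfsg.Agent.Lib.M23A73
import Cfsg.Agent.Lib.H89FB5

/-!
# The commuting geometry after the residues of type 2.M(22): products of three members, common neighbours (helper73, the central
part of `tri_norm` adapts helper89's `hex_norm`)
-/

set_option autoImplicit false
set_option linter.all false

namespace Cfsg.Agent.Lib.M23G

open Cfsg.Agent.Lib.H89FB

universe w'

variable {G : Type w'} [Group G] {Δ : Set G} (X : Geo3 Δ)
include X

namespace Geo3

variable {x y z : G}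

theorem tconj (T : T3 Δ x y z) (g : G) : T3 Δ (g * x * g⁻¹) (g * y * g⁻¹) (g * z * g⁻¹) :=
  ⟨X.cj g _ T.mx, X.cj g _ T.my, X.cj g _ T.mz, fun h => T.xy ((cj_inj g).1 h), fun h => T.xz ((cj_inj g).1 h),
    fun h => T.yz ((cj_inj g).1 h), (cm_conj g).2 T.cxy, (cm_conj g).2 T.cxz, (cm_conj g).2 T.cyz⟩

/-- members commuting with a product of three and with one factor -/
theorem fa [Finite G] (T : T3 Δ x y z) {p : G} (hp : p ∈ Δ) (hu : Commute p (x * y * z)) (hx : Commute p x) :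
    Commute p y ∧ Commute p z := by
  have hxx := X.inv x T.mx
  have h1 : y * z = x * (x * y * z) := by
    calc y * z = (x * x) * (y * z) := by rw [hxx, one_mul]
      _ = x * (x * y * z) := by group
  exact (X.zst T.my T.mz T.yz T.cyz).2 p hp (by rw [h1]; exact hx.mul_right hu)

/-- members commuting with a product of three and with a common neighbour -/
theorem c3 [Finite G] (T : T3 Δ x y z) {q p : G} (hq : q ∈ Δ) (qx : Commute q x) (qy : Commute q y) (qz : Commute q z)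
    (hp : p ∈ Δ) (pq : Commute p q) (hu : Commute p (x * y * z)) : Commute p x ∧ Commute p y ∧ Commute p z := by
  have hxx := X.inv x T.mx
  have hyy := X.inv y T.my
  have hzz := X.inv z T.mz
  have hpp := X.inv p hp
  by_cases hx : Commute p x
  · exact ⟨hx, X.fa T hp hu hx⟩
  by_cases hy : Commute p y
  · have e : x * y * z = y * x * z := by rw [T.cxy.eq]
    obtain ⟨h1, h2⟩ := X.fa (T3.swap T) hp (by rw [← e]; exact hu) hy
    exact ⟨h1, hy, h2⟩
  by_cases hz : Commute p z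
  · have e : x * y * z = z * x * y := by rw [(T.cxz.mul_left T.cyz).eq, mul_assoc]
    obtain ⟨h1, h2⟩ := X.fa (T3.swap (T3.swap' T)) hp (by rw [← e]; exact hu) hz
    exact ⟨h1, h2, hz⟩
  exfalso
  have b1 := X.three q hq p hp x T.mx pq qx.symm hx
  have b2 := X.three q hq p hp y T.my pq qy.symm hy
  have b3 := X.three q hq p hp z T.mz pq qz.symm hz
  have h1 : p * (x * y * z) * p = x * y * z := by rw [hu.eq, mul_assoc, hpp, mul_one]
  have h2 : p * (x * y * z) * p = (x * p * x) * (y * p * y) * (z * p * z) := by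
    calc p * (x * y * z) * p = p * x * (1 * y) * (1 * z) * p := by group
      _ = p * x * ((p * p) * y) * ((p * p) * z) * p := by rw [hpp]
      _ = (p * x * p) * (p * y * p) * (p * z * p) := by group
      _ = _ := by rw [b1, b2, b3]
  rw [h2] at h1
  -- cancel
  have h3 : p * x * y * p * y * z * p = y := by
    have h4 : x * (p * x * y * p * y * z * p) * z = x * y * z := by
      calc x * (p * x * y * p * y * z * p) * z = (x * p * x) * (y * p * y) * (z * p * z) := by group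
        _ = x * y * z := h1
    have h5 := mul_right_cancel h4
    exact mul_left_cancel h5
  have h4 : x * y * p * y * z = y * p * y := by
    calc x * y * p * y * z = (p * p) * (x * y * p * y * z) * (p * p) := by rw [hpp, one_mul, mul_one]
      _ = p * (p * x * y * p * y * z * p) * p := by group
      _ = p * y * p := by rw [h3]
      _ = y * p * y := b2
  have h5 : x * p * z = p := by
    have h6 : y * (x * p * z) * y = y * p * y := by
      calc y * (x * p * z) * y = (y * x) * p * (z * y) := by group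
        _ = (x * y) * p * (y * z) := by rw [T.cxy.eq, T.cyz.eq]
        _ = x * y * p * y * z := by group
        _ = y * p * y := h4
    exact mul_left_cancel (mul_right_cancel h6)
  have h6 : x * p * x = z := by
    have h7 : (x * p * x) * z = 1 := by
      calc (x * p * x) * z = (p * x * p) * z := by rw [b1]
        _ = p * (x * p * z) := by group
        _ = 1 := by rw [h5, hpp]
    rw [eq_inv_of_mul_eq_one_left h7, inv_eq_of_mul_eq_one_left hzz]
  have h7 : p = z := by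
    calc p = (x * x) * p * (x * x) := by rw [hxx, one_mul, mul_one]
      _ = x * (x * p * x) * x := by group
      _ = x * z * x := by rw [h6]
      _ = z * (x * x) := by rw [T.cxz.eq, mul_assoc]
      _ = z := by rw [hxx, mul_one]
  exact hz (by rw [h7])

/-- membership in the triple -/
theorem tri_eq (T : T3 Δ x y z) {x₂ y₂ z₂ : G} (T₂ : T3 Δ x₂ y₂ z₂) (h : x * y * z = x₂ * y₂ * z₂)
    (c1 : Commute x₂ x ∧ Commute x₂ y ∧ Commute x₂ z) (c2 : Commute y₂ x ∧ Commute y₂ y ∧ Commute y₂ z)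
    (c3 : Commute z₂ x ∧ Commute z₂ y ∧ Commute z₂ z) : x₂ = x ∨ x₂ = y ∨ x₂ = z := by
  by_contra hcon
  push Not at hcon
  obtain ⟨n1, n2, n3⟩ := hcon
  have hxx := X.inv x T.mx
  have hyy := X.inv y T.my
  have hzz := X.inv z T.mz
  -- one factor in common
  have key : ∀ a b c a₂ b₂ c₂ : G, T3 Δ a b c → T3 Δ a₂ b₂ c₂ → a * b * c = a₂ * b₂ * c₂ → c = c₂ →
      (Commute a₂ a ∧ Commute a₂ b) → (Commute b₂ a ∧ Commute b₂ b) → a₂ = a ∨ a₂ = b := by
    intro a b c a₂ b₂ c₂ S S₂ e1 e2 k1 k2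
    rw [← e2] at e1
    have e3 : a * b = a₂ * b₂ := mul_right_cancel e1
    exact X.pair S.mx S.my S₂.mx S₂.my S.xy S.cxy k1.1.symm k2.1.symm k1.2.symm k2.2.symm S₂.cxy e3
  have r1 : x * y * z = y * z * x := by rw [mul_assoc, (T.cxy.mul_right T.cxz).eq]
  have r2 : x * y * z = x * z * y := by rw [mul_assoc, T.cyz.eq, ← mul_assoc]
  have s2 : x₂ * y₂ * z₂ = x₂ * z₂ * y₂ := by rw [mul_assoc, T₂.cyz.eq, ← mul_assoc]
  have Tyzx : T3 Δ y z x := ⟨T.my, T.mz, T.mx, T.yz, T.xy.symm, T.xz.symm, T.cyz, T.cxy.symm, T.cxz.symm⟩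
  have Txzy : T3 Δ x z y := T3.swap' T
  have T₂' : T3 Δ x₂ z₂ y₂ := T3.swap' T₂
  have hz2 : z₂ ≠ x ∧ z₂ ≠ y ∧ z₂ ≠ z := by
    refine ⟨fun e => ?_, fun e => ?_, fun e => ?_⟩
    · rcases key y z x x₂ y₂ z₂ Tyzx T₂ (by rw [← r1, h]) e.symm ⟨c1.2.1, c1.2.2⟩ ⟨c2.2.1, c2.2.2⟩ with k | k
      · exact n2 k
      · exact n3 k
    · rcases key x z y x₂ y₂ z₂ Txzy T₂ (by rw [← r2, h]) e.symm ⟨c1.1, c1.2.2⟩ ⟨c2.1, c2.2.2⟩ with k | k
      · exact n1 k
      · exact n3 k
    · rcases key x y z x₂ y₂ z₂ T T₂ h e.symm ⟨c1.1, c1.2.1⟩ ⟨c2.1, c2.2.1⟩ with k | k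
      · exact n1 k
      · exact n2 k
  have hy2 : y₂ ≠ x ∧ y₂ ≠ y ∧ y₂ ≠ z := by
    refine ⟨fun e => ?_, fun e => ?_, fun e => ?_⟩
    · rcases key y z x x₂ z₂ y₂ Tyzx T₂' (by rw [← r1, h, s2]) e.symm ⟨c1.2.1, c1.2.2⟩ ⟨c3.2.1, c3.2.2⟩ with k | k
      · exact n2 k
      · exact n3 k
    · rcases key x z y x₂ z₂ y₂ Txzy T₂' (by rw [← r2, h, s2]) e.symm ⟨c1.1, c1.2.2⟩ ⟨c3.1, c3.2.2⟩ with k | k
      · exact n1 k
      · exact n3 k
    · rcases key x y z x₂ z₂ y₂ T T₂' (by rw [h, s2]) e.symm ⟨c1.1, c1.2.1⟩ ⟨c3.1, c3.2.1⟩ with k | k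
      · exact n1 k
      · exact n2 k
  refine X.nr [x, y, z, x₂, y₂, z₂] ?_ ?_ ?_ (by simp) (by simp) ?_
  · simp only [List.nodup_cons, List.mem_cons, List.not_mem_nil, or_false, not_or, not_false_eq_true, List.nodup_nil, and_true]
    exact ⟨⟨T.xy, T.xz, n1.symm, hy2.1.symm, hz2.1.symm⟩, ⟨T.yz, n2.symm, hy2.2.1.symm, hz2.2.1.symm⟩,
      ⟨n3.symm, hy2.2.2.symm, hz2.2.2.symm⟩, ⟨T₂.xy, T₂.xz⟩, T₂.yz⟩
  · simp only [List.mem_cons, List.not_mem_nil, or_false]
    rintro a (rfl | rfl | rfl | rfl | rfl | rfl)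
    exacts [T.mx, T.my, T.mz, T₂.mx, T₂.my, T₂.mz]
  · have l1 : ∀ a ∈ [x, y, z], ∀ b ∈ [x, y, z], Commute a b := by
      simp only [List.mem_cons, List.not_mem_nil, or_false]
      rintro a (rfl | rfl | rfl) b (rfl | rfl | rfl)
      exacts [Commute.refl _, T.cxy, T.cxz, T.cxy.symm, Commute.refl _, T.cyz, T.cxz.symm, T.cyz.symm, Commute.refl _]
    have l2 : ∀ a ∈ [x₂, y₂, z₂], ∀ b ∈ [x₂, y₂, z₂], Commute a b := by
      simp only [List.mem_cons, List.not_mem_nil, or_false]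
      rintro a (rfl | rfl | rfl) b (rfl | rfl | rfl)
      exacts [Commute.refl _, T₂.cxy, T₂.cxz, T₂.cxy.symm, Commute.refl _, T₂.cyz, T₂.cxz.symm, T₂.cyz.symm, Commute.refl _]
    have l3 : ∀ a ∈ [x₂, y₂, z₂], ∀ b ∈ [x, y, z], Commute a b := by
      simp only [List.mem_cons, List.not_mem_nil, or_false]
      rintro a (rfl | rfl | rfl) b (rfl | rfl | rfl)
      exacts [c1.1, c1.2.1, c1.2.2, c2.1, c2.2.1, c2.2.2, c3.1, c3.2.1, c3.2.2]
    intro a ha b hb
    have ha' : a ∈ [x, y, z] ++ [x₂, y₂, z₂] := ha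
    have hb' : b ∈ [x, y, z] ++ [x₂, y₂, z₂] := hb
    rw [List.mem_append] at ha' hb'
    rcases ha' with ha' | ha' <;> rcases hb' with hb' | hb'
    · exact l1 a ha' b hb'
    · exact (l3 b hb' a ha').symm
    · exact l3 a ha' b hb'
    · exact l2 a ha' b hb'
  · simp only [List.prod_cons, List.prod_nil, mul_one]
    have e : x * (y * (z * (x₂ * (y₂ * z₂)))) = (x * y * z) * (x₂ * y₂ * z₂) := by group
    rw [e, ← h]
    have k1 : Commute x (y * z) := T.cxy.mul_right T.cxz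
    calc x * y * z * (x * y * z) = x * ((y * z) * x) * (y * z) := by group
      _ = x * (x * (y * z)) * (y * z) := by rw [k1.eq]
      _ = (x * x) * y * (z * y) * z := by group
      _ = (x * x) * y * (y * z) * z := by rw [T.cyz.eq]
      _ = (x * x) * (y * y) * (z * z) := by group
      _ = 1 := by rw [hxx, hyy, hzz, one_mul, one_mul]

/-- triples with the same product and a common neighbour -/
theorem ql [Finite G] (T : T3 Δ x y z) {x₂ y₂ z₂ : G} (T₂ : T3 Δ x₂ y₂ z₂) (h : x * y * z = x₂ * y₂ * z₂) {q : G} (hq : q ∈ Δ)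
    (qx : Commute q x) (qy : Commute q y) (qz : Commute q z) (qx₂ : Commute q x₂) (qy₂ : Commute q y₂) (qz₂ : Commute q z₂) :
    (x₂ = x ∨ x₂ = y ∨ x₂ = z) ∧ (y₂ = x ∨ y₂ = y ∨ y₂ = z) ∧ (z₂ = x ∨ z₂ = y ∨ z₂ = z) := by
  have u1 : Commute x₂ (x * y * z) := by
    rw [h]; exact ((Commute.refl _).mul_right T₂.cxy).mul_right T₂.cxz
  have u2 : Commute y₂ (x * y * z) := by
    rw [h]; exact (T₂.cxy.symm.mul_right (Commute.refl _)).mul_right T₂.cyz
  have u3 : Commute z₂ (x * y * z) := by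
    rw [h]; exact (T₂.cxz.symm.mul_right T₂.cyz.symm).mul_right (Commute.refl _)
  have c1 := X.c3 T hq qx qy qz T₂.mx qx₂.symm u1
  have c2 := X.c3 T hq qx qy qz T₂.my qy₂.symm u2
  have c3 := X.c3 T hq qx qy qz T₂.mz qz₂.symm u3
  have e1 : x₂ * y₂ * z₂ = y₂ * x₂ * z₂ := by rw [T₂.cxy.eq]
  have e2 : x₂ * y₂ * z₂ = z₂ * x₂ * y₂ := by rw [(T₂.cxz.mul_left T₂.cyz).eq, mul_assoc]
  exact ⟨X.tri_eq T T₂ h c1 c2 c3, X.tri_eq T (T3.swap T₂) (h.trans e1) c2 c1 c3,
    X.tri_eq T (T3.swap (T3.swap' T₂)) (h.trans e2) c3 c1 c2⟩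

/-- the product of three members is not a member -/
theorem thr (T : T3 Δ x y z) : x * y * z ∉ Δ := by
  intro he
  have hxx := X.inv x T.mx
  have hzz := X.inv z T.mz
  obtain ⟨u, hu⟩ : ∃ u, u = x * y * z := ⟨_, rfl⟩
  rw [← hu] at he
  have ux : Commute x u := by rw [hu]; exact ((Commute.refl _).mul_right T.cxy).mul_right T.cxz
  have uy : Commute y u := by rw [hu]; exact (T.cxy.symm.mul_right (Commute.refl _)).mul_right T.cyz
  have uz : Commute z u := by rw [hu]; exact (T.cxz.symm.mul_right T.cyz.symm).mul_right (Commute.refl _)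
  have h1 : x * y = u * z := by rw [hu, mul_assoc (x * y), hzz, mul_one]
  rcases X.pair T.mx T.my he T.mz T.xy T.cxy ux T.cxz uy T.cyz uz.symm h1 with h2 | h2
  · rw [h2] at h1
    exact T.yz (mul_left_cancel h1)
  · rw [h2, T.cxy.eq] at h1
    exact T.xz (mul_left_cancel h1)

/-- **the centralizer of a product of three members permutes them** -/
theorem tri_norm' [Finite G] (T : T3 Δ x y z) {g : G} (hg : Commute g (x * y * z)) :
    ∀ w, (w = x ∨ w = y ∨ w = z) → (g⁻¹ * w * g⁻¹⁻¹ = x ∨ g⁻¹ * w * g⁻¹⁻¹ = y ∨ g⁻¹ * w * g⁻¹⁻¹ = z) := by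
  classical
  obtain ⟨u, hu⟩ : ∃ u, u = x * y * z := ⟨_, rfl⟩
  -- a fourth member
  obtain ⟨B, hB, hSB⟩ := X.exists_bs (S := {x, y, z}) (by rintro w (rfl | rfl | rfl); exacts [T.mx, T.my, T.mz]) (by
    rintro w (rfl | rfl | rfl) w' (rfl | rfl | rfl)
    exacts [Commute.refl _, T.cxy, T.cxz, T.cxy.symm, Commute.refl _, T.cyz, T.cxz.symm, T.cyz.symm, Commute.refl _])
  have hxB : x ∈ B := hSB (by simp)
  have hyB : y ∈ B := hSB (by simp)
  have hzB : z ∈ B := hSB (by simp)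
  obtain ⟨x', hx'B, hx'n⟩ : ∃ p ∈ B, p ∉ ({x, y, z} : Set G) := by
    by_contra hcon
    push Not at hcon
    have h1 : B.ncard ≤ ({x, y, z} : Set G).ncard := Set.ncard_le_ncard hcon (Set.toFinite _)
    have h2 : ({x, y, z} : Set G).ncard ≤ 3 := by
      refine le_trans (Set.ncard_insert_le _ _) ?_
      have := Set.ncard_insert_le y ({z} : Set G)
      rw [Set.ncard_singleton] at this
      omega
    rw [X.card B hB] at h1
    omega
  simp only [Set.mem_insert_iff, Set.mem_singleton_iff, not_or] at hx'n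
  have mx' := hB.sub x' hx'B
  have hxx' : x ≠ x' := Ne.symm hx'n.1
  have hyx' : y ≠ x' := Ne.symm hx'n.2.1
  have hzx' : z ≠ x' := Ne.symm hx'n.2.2
  have hcxx' : Commute x x' := hB.com x hxB x' hx'B
  have hcyx' : Commute y x' := hB.com y hyB x' hx'B
  have hczx' : Commute z x' := hB.com z hzB x' hx'B
  have hxx := X.inv x T.mx
  have hyy := X.inv y T.my
  have hzz := X.inv z T.mz
  have hx'x' := X.inv x' mx'
  have ix : x⁻¹ = x := inv_eq_of_mul_eq_one_left hxx
  have hux0 : Commute x u := by rw [hu]; exact ((Commute.refl _).mul_right T.cxy).mul_right T.cxz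
  have huy0 : Commute y u := by rw [hu]; exact (T.cxy.symm.mul_right (Commute.refl _)).mul_right T.cyz
  have huz0 : Commute z u := by rw [hu]; exact (T.cxz.symm.mul_right T.cyz.symm).mul_right (Commute.refl _)
  have hux'0 : Commute x' u := by rw [hu]; exact (hcxx'.symm.mul_right hcyx'.symm).mul_right hczx'.symm
  have huu : u * u = 1 := by
    have k1 : Commute x (y * z) := T.cxy.mul_right T.cxz
    rw [hu]
    calc x * y * z * (x * y * z) = x * ((y * z) * x) * (y * z) := by group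
      _ = x * (x * (y * z)) * (y * z) := by rw [k1.eq]
      _ = (x * x) * y * (z * y) * z := by group
      _ = (x * x) * y * (y * z) * z := by rw [T.cyz.eq]
      _ = (x * x) * (y * y) * (z * z) := by group
      _ = 1 := by rw [hxx, hyy, hzz, one_mul, one_mul]
  -- conjugates of the product
  have hprod : ∀ k, Commute k u → k * x * k⁻¹ * (k * y * k⁻¹) * (k * z * k⁻¹) = u := by
    intro k hk
    calc k * x * k⁻¹ * (k * y * k⁻¹) * (k * z * k⁻¹) = k * (x * y * z) * k⁻¹ := by group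
      _ = k * u * k⁻¹ := by rw [hu]
      _ = u := cj_eq_iff.2 hk
  have hQL : ∀ k, Commute k u → ∀ q ∈ Δ, Commute q x → Commute q y → Commute q z → Commute q (k * x * k⁻¹) →
      Commute q (k * y * k⁻¹) → Commute q (k * z * k⁻¹) →
      ∀ w, (w = x ∨ w = y ∨ w = z) → (k * w * k⁻¹ = x ∨ k * w * k⁻¹ = y ∨ k * w * k⁻¹ = z) := by
    intro k hk q hq a1 a2 a3 b1 b2 b3
    obtain ⟨e1, e2, e3⟩ := X.ql T (X.tconj T k) (by rw [hprod k hk, hu]) hq a1 a2 a3 b1 b2 b3
    rintro w (rfl | rfl | rfl)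
    · exact e1
    · exact e2
    · exact e3
  -- a common neighbour suffices
  have hQx : ∀ k, Commute k u → Commute x (k * x * k⁻¹) →
      ∀ w, (w = x ∨ w = y ∨ w = z) → (k * w * k⁻¹ = x ∨ k * w * k⁻¹ = y ∨ k * w * k⁻¹ = z) := by
    intro k hk hc
    have h4 := X.fa (X.tconj T k) T.mx (by rw [hprod k hk]; exact hux0) hc
    exact hQL k hk x T.mx (Commute.refl x) T.cxy T.cxz hc h4.1 h4.2
  obtain ⟨ρ, hρ⟩ : ∃ ρ, ρ = x * x' := ⟨_, rfl⟩
  have hρρ : ρ * ρ = 1 := by
    rw [hρ]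
    calc x * x' * (x * x') = x * (x' * x) * x' := by group
      _ = x * (x * x') * x' := by rw [hcxx'.eq]
      _ = (x * x) * (x' * x') := by group
      _ = 1 := by rw [hxx, hx'x', one_mul]
  have hρΔ : ρ ∉ Δ := by rw [hρ]; exact X.two T.mx mx' hxx' hcxx'
  have hρu : Commute ρ u := by rw [hρ]; exact hux0.mul_left hux'0
  have huρ : u * ρ ∉ Δ := by
    have h5 : u * ρ = y * z * x' := by
      rw [hρ, hu]
      calc x * y * z * (x * x') = x * ((y * z) * x) * x' := by group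
        _ = x * (x * (y * z)) * x' := by rw [(T.cxy.mul_right T.cxz).eq]
        _ = (x * x) * (y * z * x') := by group
        _ = y * z * x' := by rw [hxx, one_mul]
    rw [h5]
    exact X.thr ⟨T.my, T.mz, mx', T.yz, hyx', hzx', T.cyz, hcyx', hczx'⟩
  have hux : u * x ∉ Δ := by
    have h5 : u * x = y * z := by
      rw [hu]
      calc x * y * z * x = x * ((y * z) * x) := by group
        _ = x * (x * (y * z)) := by rw [(T.cxy.mul_right T.cxz).eq]
        _ = y * z := by rw [← mul_assoc, hxx, one_mul]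
    rw [h5]; exact X.two T.my T.mz T.yz T.cyz
  rw [← hu] at hg
  obtain ⟨v, hv⟩ : ∃ v, v = g * ρ * g⁻¹ := ⟨_, rfl⟩
  have hvv : v * v = 1 := by
    rw [hv]
    calc g * ρ * g⁻¹ * (g * ρ * g⁻¹) = g * (ρ * ρ) * g⁻¹ := by group
      _ = 1 := by rw [hρρ]; group
  have iv : v⁻¹ = v := inv_eq_of_mul_eq_one_left hvv
  have hvu : Commute v u := by
    have h5 : g * u * g⁻¹ = u := cj_eq_iff.2 hg
    rw [hv, ← h5, cm_conj]
    exact hρu
  obtain ⟨Y, hY⟩ : ∃ Y, Y = x * v := ⟨_, rfl⟩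
  have hYu : Commute Y u := by rw [hY]; exact (hux0).mul_left hvu
  have hYx : x * Y * x⁻¹ = Y⁻¹ := by
    rw [hY, ix, mul_inv_rev, iv, ix, ← mul_assoc, hxx, one_mul]
  have hYv : v * Y * v⁻¹ = Y⁻¹ := by
    rw [hY, iv, mul_inv_rev, iv, ix, mul_assoc, mul_assoc, hvv, mul_one]
  have hYv' : Y * v = x := by rw [hY, mul_assoc, hvv, mul_one]
  have hex : ∃ n, 0 < n ∧ (Y ^ n = 1 ∨ Y ^ n = u) := ⟨orderOf Y, orderOf_pos Y, Or.inl (pow_orderOf_eq_one Y)⟩
  obtain ⟨hn0, hn1⟩ := Nat.find_spec hex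
  have hmin : ∀ m, m < Nat.find hex → ¬ (0 < m ∧ (Y ^ m = 1 ∨ Y ^ m = u)) := fun m hm => Nat.find_min hex hm
  generalize Nat.find hex = n at hn0 hn1 hmin
  rcases Nat.even_or_odd n with ⟨m, hm⟩ | ⟨j, hj⟩
  swap
  · -- odd order: conjugate
    exfalso
    have h4 := dih hYx hxx j
    have h5 : Y ^ (2 * j) * x = Y ^ n * v := by rw [hj, pow_succ, mul_assoc, hYv']
    have h6 : Y ^ n * v ∈ Δ := by rw [← h5, ← h4]; exact X.cj _ x T.mx
    rcases hn1 with h7 | h7
    · rw [h7, one_mul, hv, X.cjm] at h6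
      exact hρΔ h6
    · rw [h7, hv] at h6
      have h8 : u * (g * ρ * g⁻¹) = g * (u * ρ) * g⁻¹ := by
        calc u * (g * ρ * g⁻¹) = (u * g) * ρ * g⁻¹ := by group
          _ = (g * u) * ρ * g⁻¹ := by rw [hg.eq]
          _ = g * (u * ρ) * g⁻¹ := by group
      rw [h8, X.cjm] at h6
      exact huρ h6
  -- even order
  obtain ⟨s, hs⟩ : ∃ s, s = Y ^ m := ⟨_, rfl⟩
  have hm0 : 0 < m := by omega
  have hs1 : s ≠ 1 := fun h => hmin m (by omega) ⟨hm0, Or.inl (by rw [← hs]; exact h)⟩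
  have hsu : s ≠ u := fun h => hmin m (by omega) ⟨hm0, Or.inr (by rw [← hs]; exact h)⟩
  have hss : s * s = 1 ∨ s * s = u := by rw [hs, ← pow_add, ← hm]; exact hn1
  have hYm : ∀ k : ℕ, Commute (Y ^ k) u := fun k => hYu.pow_left k
  obtain ⟨k, hk, hr⟩ : ∃ k, Commute k u ∧ (s * x = k * x * k⁻¹ ∨ s * x = k * ρ * k⁻¹) := by
    rcases Nat.even_or_odd m with ⟨j, hj⟩ | ⟨j, hj⟩
    · refine ⟨Y ^ j, hYm j, Or.inl ?_⟩
      rw [dih hYx hxx j, hs, hj, two_mul]
    · refine ⟨Y ^ (j + 1) * g, (hYm _).mul_left hg, Or.inr ?_⟩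
      have h4 := dih hYv hvv (j + 1)
      have h5 : Y ^ (j + 1) * g * ρ * (Y ^ (j + 1) * g)⁻¹ = Y ^ (j + 1) * v * (Y ^ (j + 1))⁻¹ := by rw [hv]; group
      rw [h5, h4, show 2 * (j + 1) = (2 * j + 1) + 1 by ring, pow_succ, mul_assoc, hYv', hs, hj]
  have hxs : x * s * x⁻¹ = s⁻¹ := by rw [hs]; exact inv_pow_conj hYx m
  have hrx : s * x * x * (s * x)⁻¹ = s * s * x := by
    have h5 : x * s⁻¹ = s * x := by
      have h6 : s = x * s⁻¹ * x⁻¹ := by rw [← hxs, ix]; calc s = (x * x) * s * (x * x) := by rw [hxx]; group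
            _ = _ := by group
      calc x * s⁻¹ = x * s⁻¹ * x⁻¹ * x := by group
        _ = s * x := by rw [← h6]
    calc s * x * x * (s * x)⁻¹ = s * (x * s⁻¹) := by rw [mul_inv_rev, ix]; calc s * x * x * (x * s⁻¹) = s * (x * x) * (x * s⁻¹) := by group
            _ = _ := by rw [hxx, mul_one]
      _ = s * (s * x) := by rw [h5]
      _ = s * s * x := by group
  have hss1 : s * s = 1 := by
    rcases hss with h | h
    · exact h
    · exfalso
      apply hux
      rw [← h, ← hrx]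
      exact X.cj _ x T.mx
  have hrc : Commute (s * x) x := by
    apply cj_eq_iff.1
    rw [hrx, hss1, one_mul]
  have his : s⁻¹ = s := inv_eq_of_mul_eq_one_left hss1
  have hvs : Commute v s := by
    apply cj_eq_iff.1
    have := inv_pow_conj hYv m
    rw [← hs, his] at this
    exact this
  -- the conjugate triple is the same
  have hxk : Commute x (k * x * k⁻¹) := by
    rcases hr with h | h
    · rw [← h]; exact hrc.symm
    · rw [h, hρ] at hrc
      have h5 : k * (x * x') * k⁻¹ = (k * x * k⁻¹) * (k * x' * k⁻¹) := by group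
      rw [h5] at hrc
      exact ((X.zst (X.cj k x T.mx) (X.cj k x' mx') (fun h => hxx' ((cj_inj k).1 h)) ((cm_conj k).2 hcxx')).2 x T.mx hrc.symm).1
  have hHk := hQx k hk hxk
  have hsr : s = s * x * x := by rw [mul_assoc, hxx, mul_one]
  -- `k` permutes the triple
  have hsurj : ∀ a : G, Commute a x → Commute a y → Commute a z → Commute (k * a * k⁻¹) x ∧ Commute (k * a * k⁻¹) y ∧ Commute (k * a * k⁻¹) z := by
    intro a a1 a2 a3
    have e1 := hHk x (Or.inl rfl)
    have e2 := hHk y (Or.inr (Or.inl rfl))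
    have e3 := hHk z (Or.inr (Or.inr rfl))
    have n12 : k * x * k⁻¹ ≠ k * y * k⁻¹ := fun h => T.xy ((cj_inj k).1 h)
    have n13 : k * x * k⁻¹ ≠ k * z * k⁻¹ := fun h => T.xz ((cj_inj k).1 h)
    have n23 : k * y * k⁻¹ ≠ k * z * k⁻¹ := fun h => T.yz ((cj_inj k).1 h)
    have d1 : Commute (k * a * k⁻¹) (k * x * k⁻¹) := (cm_conj k).2 a1
    have d2 : Commute (k * a * k⁻¹) (k * y * k⁻¹) := (cm_conj k).2 a2
    have d3 : Commute (k * a * k⁻¹) (k * z * k⁻¹) := (cm_conj k).2 a3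
    rcases e1 with e1 | e1 | e1 <;> rcases e2 with e2 | e2 | e2 <;> rcases e3 with e3 | e3 | e3 <;>
      first
        | exact absurd (e1.trans e2.symm) n12
        | exact absurd (e1.trans e3.symm) n13
        | exact absurd (e2.trans e3.symm) n23
        | (rw [e1] at d1; rw [e2] at d2; rw [e3] at d3; exact ⟨by assumption, by assumption, by assumption⟩)
  -- a member commuting with the triple whose conjugate under `v` does too
  obtain ⟨a, ha, ax, ay, az, bx, bY, bz⟩ : ∃ a ∈ Δ, Commute a x ∧ Commute a y ∧ Commute a z ∧ Commute (v * a * v⁻¹) x ∧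
      Commute (v * a * v⁻¹) y ∧ Commute (v * a * v⁻¹) z := by
    have tau : ∀ w, (w = x ∨ w = y ∨ w = z) → w ∈ Δ ∧ Commute w x ∧ Commute w y ∧ Commute w z := by
      rintro w (rfl | rfl | rfl)
      · exact ⟨T.mx, Commute.refl _, T.cxy, T.cxz⟩
      · exact ⟨T.my, T.cxy.symm, Commute.refl _, T.cyz⟩
      · exact ⟨T.mz, T.cxz.symm, T.cyz.symm, Commute.refl _⟩
    rcases hr with h | h
    · -- s x in the triple
      have hw := tau _ (hHk x (Or.inl rfl))
      have hne : k * x * k⁻¹ ≠ x := by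
        intro h5
        rw [h5] at h
        exact hs1 (mul_right_cancel (h.trans (one_mul x).symm))
      have hvw : Commute v (k * x * k⁻¹ * x) := by rw [← h, ← hsr]; exact hvs
      rcases (X.zst hw.1 T.mx hne hw.2.1).1 v hvw with h4 | h4
      · exact ⟨_, hw.1, hw.2.1, hw.2.2.1, hw.2.2.2, by rw [h4]; exact hw.2.1, by rw [h4]; exact hw.2.2.1, by rw [h4]; exact hw.2.2.2⟩
      · exact ⟨_, hw.1, hw.2.1, hw.2.2.1, hw.2.2.2, by rw [h4], by rw [h4]; exact T.cxy, by rw [h4]; exact T.cxz⟩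
    · have h5 : s * x = (k * x * k⁻¹) * (k * x' * k⁻¹) := by rw [h, hρ]; group
      obtain ⟨p₁, hp₁⟩ : ∃ p₁, p₁ = k * x' * k⁻¹ := ⟨_, rfl⟩
      rw [← hp₁] at h5
      have hp₁Δ : p₁ ∈ Δ := by rw [hp₁]; exact X.cj k x' mx'
      have hp₁c := hsurj x' hcxx'.symm hcyx'.symm hczx'.symm
      rw [← hp₁] at hp₁c
      have hp₁n : ∀ w, (w = x ∨ w = y ∨ w = z) → p₁ ≠ k * w * k⁻¹ := by
        intro w hw e
        rw [hp₁] at e
        have := (cj_inj k).1 e
        rcases hw with rfl | rfl | rfl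
        · exact hxx' this.symm
        · exact hyx' this.symm
        · exact hzx' this.symm
      have hp₁1 : Commute p₁ u := by rw [hu]; exact (hp₁c.1.mul_right hp₁c.2.1).mul_right hp₁c.2.2
      -- the case of a product with a member of the triple
      have hcase : ∀ w, (w = x ∨ w = y ∨ w = z) → w ≠ p₁ → Commute v (w * p₁) →
          ∃ a ∈ Δ, Commute a x ∧ Commute a y ∧ Commute a z ∧ Commute (v * a * v⁻¹) x ∧
            Commute (v * a * v⁻¹) y ∧ Commute (v * a * v⁻¹) z := by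
        intro w hw hwp hv'
        obtain ⟨t1, t2, t3, t4⟩ := tau w hw
        have hwp' : Commute w p₁ := by
          rcases hw with rfl | rfl | rfl
          · exact hp₁c.1.symm
          · exact hp₁c.2.1.symm
          · exact hp₁c.2.2.symm
        rcases (X.zst t1 hp₁Δ hwp hwp').1 v hv' with h4 | h4
        · exact ⟨w, t1, t2, t3, t4, by rw [h4]; exact t2, by rw [h4]; exact t3, by rw [h4]; exact t4⟩
        · exact ⟨w, t1, t2, t3, t4, by rw [h4]; exact hp₁c.1, by rw [h4]; exact hp₁c.2.1, by rw [h4]; exact hp₁c.2.2⟩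
      have hvsu : Commute v (s * u) := hvs.mul_right hvu
      have hpn : ∀ w, (w = x ∨ w = y ∨ w = z) → w ≠ p₁ := by
        -- `k` maps the triple onto itself
        intro w hw e
        have e1 := hHk x (Or.inl rfl)
        have e2 := hHk y (Or.inr (Or.inl rfl))
        have e3 := hHk z (Or.inr (Or.inr rfl))
        have n12 : k * x * k⁻¹ ≠ k * y * k⁻¹ := fun h => T.xy ((cj_inj k).1 h)
        have n13 : k * x * k⁻¹ ≠ k * z * k⁻¹ := fun h => T.xz ((cj_inj k).1 h)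
        have n23 : k * y * k⁻¹ ≠ k * z * k⁻¹ := fun h => T.yz ((cj_inj k).1 h)
        have m1 := hp₁n x (Or.inl rfl)
        have m2 := hp₁n y (Or.inr (Or.inl rfl))
        have m3 := hp₁n z (Or.inr (Or.inr rfl))
        rcases hw with hw | hw | hw <;> rw [hw] at e <;>
        rcases e1 with e1 | e1 | e1 <;> rcases e2 with e2 | e2 | e2 <;> rcases e3 with e3 | e3 | e3 <;>
          first
            | exact n12 (e1.trans e2.symm)
            | exact n13 (e1.trans e3.symm)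
            | exact n23 (e2.trans e3.symm)
            | exact m1 (e.symm.trans e1.symm)
            | exact m2 (e.symm.trans e2.symm)
            | exact m3 (e.symm.trans e3.symm)
      rcases hHk x (Or.inl rfl) with e1 | e1 | e1
      · refine ⟨p₁, hp₁Δ, hp₁c.1, hp₁c.2.1, hp₁c.2.2, ?_⟩
        have h6 : s = p₁ := by
          rw [hsr, h5, e1, mul_assoc, hp₁c.1.eq, ← mul_assoc, hxx, one_mul]
        have h7 : v * p₁ * v⁻¹ = p₁ := cj_eq_iff.2 (by rw [← h6]; exact hvs)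
        rw [h7]; exact hp₁c
      · -- s = y p₁ x, s u = p₁ z
        apply hcase z (Or.inr (Or.inr rfl)) (hpn z (Or.inr (Or.inr rfl)))
        have h6 : s * u = z * p₁ := by
          rw [hsr, h5, e1, hu]
          calc y * p₁ * x * (x * y * z) = y * p₁ * (x * x) * y * z := by group
            _ = y * (p₁ * y) * z := by rw [hxx]; group
            _ = y * (y * p₁) * z := by rw [hp₁c.2.1.eq]
            _ = (y * y) * (p₁ * z) := by group
            _ = z * p₁ := by rw [hyy, one_mul, hp₁c.2.2.eq]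
        rw [← h6]; exact hvsu
      · apply hcase y (Or.inr (Or.inl rfl)) (hpn y (Or.inr (Or.inl rfl)))
        have h6 : s * u = y * p₁ := by
          rw [hsr, h5, e1, hu]
          calc z * p₁ * x * (x * y * z) = z * p₁ * (x * x) * (y * z) := by group
            _ = z * p₁ * (z * y) := by rw [hxx, T.cyz.eq]; group
            _ = z * (p₁ * z) * y := by group
            _ = z * (z * p₁) * y := by rw [hp₁c.2.2.eq]
            _ = (z * z) * (p₁ * y) := by group
            _ = y * p₁ := by rw [hzz, one_mul, hp₁c.2.1.eq]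
        rw [← h6]; exact hvsu
  have hHv := hQL v hvu _ (X.cj v a ha) bx bY bz ((cm_conj v).2 ax) ((cm_conj v).2 ay) ((cm_conj v).2 az)
  -- the triple conjugate by g⁻¹ is permuted by ρ
  have T'' := X.tconj T g⁻¹
  obtain ⟨q, hq, hρq⟩ := exists_fixed (P := {w | w = g⁻¹ * x * g⁻¹⁻¹ ∨ w = g⁻¹ * y * g⁻¹⁻¹ ∨ w = g⁻¹ * z * g⁻¹⁻¹}) (by
    have h1 : {w | w = g⁻¹ * x * g⁻¹⁻¹ ∨ w = g⁻¹ * y * g⁻¹⁻¹ ∨ w = g⁻¹ * z * g⁻¹⁻¹} =
        ({g⁻¹ * x * g⁻¹⁻¹, g⁻¹ * y * g⁻¹⁻¹, g⁻¹ * z * g⁻¹⁻¹} : Set G) := by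
      ext w; simp
    rw [h1, Set.ncard_insert_of_notMem, Set.ncard_pair T''.yz]
    · exact ⟨1, rfl⟩
    · simp only [Set.mem_insert_iff, Set.mem_singleton_iff, not_or]
      exact ⟨T''.xy, T''.xz⟩) hρρ (by
    intro w hw
    have hback : ∀ a : G, ρ * (g⁻¹ * a * g⁻¹⁻¹) * ρ⁻¹ = g⁻¹ * (v * a * v⁻¹) * g⁻¹⁻¹ := by
      intro a; rw [hv]; group
    have main : ∀ a, (a = x ∨ a = y ∨ a = z) → ρ * (g⁻¹ * a * g⁻¹⁻¹) * ρ⁻¹ = g⁻¹ * x * g⁻¹⁻¹ ∨
        ρ * (g⁻¹ * a * g⁻¹⁻¹) * ρ⁻¹ = g⁻¹ * y * g⁻¹⁻¹ ∨ ρ * (g⁻¹ * a * g⁻¹⁻¹) * ρ⁻¹ = g⁻¹ * z * g⁻¹⁻¹ := by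
      intro a ha'
      rw [hback]
      rcases hHv a ha' with h | h | h <;> rw [h] <;> simp
    rcases hw with rfl | rfl | rfl
    · exact main x (Or.inl rfl)
    · exact main y (Or.inr (Or.inl rfl))
    · exact main z (Or.inr (Or.inr rfl)))
  have hginv : Commute g⁻¹ u := hg.inv_left
  have hq' : q ∈ Δ ∧ Commute q (g⁻¹ * x * g⁻¹⁻¹) ∧ Commute q (g⁻¹ * y * g⁻¹⁻¹) ∧ Commute q (g⁻¹ * z * g⁻¹⁻¹) := by
    rcases hq with rfl | rfl | rfl
    · exact ⟨T''.mx, Commute.refl _, T''.cxy, T''.cxz⟩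
    · exact ⟨T''.my, T''.cxy.symm, Commute.refl _, T''.cyz⟩
    · exact ⟨T''.mz, T''.cxz.symm, T''.cyz.symm, Commute.refl _⟩
  have hqx : Commute q x := by
    rw [hρ] at hρq
    exact ((X.zst T.mx mx' hxx' hcxx').2 q hq'.1 hρq.symm).1
  have hqu : Commute q u := by
    rw [← hprod g⁻¹ hginv]
    exact (hq'.2.1.mul_right hq'.2.2.1).mul_right hq'.2.2.2
  obtain ⟨hqy, hqz⟩ := X.fa T hq'.1 (by rw [← hu]; exact hqu) hqx
  exact hQL g⁻¹ hginv q hq'.1 hqx hqy hqz hq'.2.1 hq'.2.2.1 hq'.2.2.2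

theorem tri_norm [Finite G] (T : T3 Δ x y z) {g : G} (hg : Commute g (x * y * z)) :
    ∀ w, (w = x ∨ w = y ∨ w = z) → (g * w * g⁻¹ = x ∨ g * w * g⁻¹ = y ∨ g * w * g⁻¹ = z) := by
  have := X.tri_norm' T hg.inv_left
  simpa using this

/-- members commuting with a product of three commute with the factors -/
theorem fd [Finite G] (T : T3 Δ x y z) {p : G} (hp : p ∈ Δ) (hu : Commute p (x * y * z)) :
    Commute p x ∧ Commute p y ∧ Commute p z := by
  obtain ⟨q, hq, hpq⟩ := exists_fixed (P := {w | w = x ∨ w = y ∨ w = z}) (by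
    have h1 : {w | w = x ∨ w = y ∨ w = z} = ({x, y, z} : Set G) := by ext w; simp
    rw [h1, Set.ncard_insert_of_notMem, Set.ncard_pair T.yz]
    · exact ⟨1, rfl⟩
    · simp only [Set.mem_insert_iff, Set.mem_singleton_iff, not_or]
      exact ⟨T.xy, T.xz⟩) (X.inv p hp) (fun w hw => X.tri_norm T hu w hw)
  rcases hq with rfl | rfl | rfl
  · exact ⟨hpq, X.fa T hp hu hpq⟩
  · have e : x * q * z = q * x * z := by rw [T.cxy.eq]
    obtain ⟨h1, h2⟩ := X.fa (T3.swap T) hp (by rw [← e]; exact hu) hpq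
    exact ⟨h1, hpq, h2⟩
  · have e : x * y * q = q * x * y := by rw [(T.cxz.mul_left T.cyz).eq, mul_assoc]
    obtain ⟨h1, h2⟩ := X.fa (T3.swap (T3.swap' T)) hp (by rw [← e]; exact hu) hpq
    exact ⟨h1, h2, hpq⟩

end Geo3

end Cfsg.Agent.Lib.M23G
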