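import Cfsg.Agent.Lib.M23B73

/-!
# The commuting geometry after the residues of type 2.M(22): common neighbours (helper73)
-/

set_option autoImplicit false
set_option linter.all false

namespace Cfsg.Agent.Lib.M23G

open Cfsg.Agent.Lib.H89FB

universe w'

variable {G : Type w'} [Group G] {Δ : Set G} (X : Geo3 Δ)
include X

namespace Geo3

/-- involutions are dominated by members -/
theorem dom [Finite G] {t : G} (htt : t * t = 1) (ht1 : t ≠ 1) : ∃ w ∈ Δ, ∀ p ∈ Δ, Commute p t → Commute p w := by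
  obtain ⟨B, hB, -⟩ := X.exists_bs (S := ∅) (by simp) (by simp)
  obtain ⟨B', hB', -, hn⟩ := X.exists_norm (Y := ⊤) hB (fun _ _ => trivial) htt (fun _ _ => trivial)
  obtain ⟨e, he, hte⟩ := X.exists_fix hB' htt hn
  rcases X.nf e (hB'.sub e he) t htt ht1 hte with h | ⟨a, ha, b, hb, hab, hc, rfl⟩ | ⟨a, b, c, T, rfl⟩
  · exact ⟨t, h, fun p hp hpt => hpt⟩
  · exact ⟨a, ha, fun p hp hpt => ((X.zst ha hb hab hc).2 p hp hpt).1⟩
  · exact ⟨a, T.mx, fun p hp hpt => (X.fd T hp hpt).1⟩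

theorem path3 [Finite G] {b x : G} (hb : b ∈ Δ) (hx : x ∈ Δ) :
    ∃ w ∈ Δ, ∃ q ∈ Δ, Commute b w ∧ Commute w q ∧ Commute q x := by
  obtain ⟨y, hy, hyx, hcyx⟩ := X.nb x hx
  have hbb := X.inv b hb
  have hxx := X.inv x hx
  have hyy := X.inv y hy
  obtain ⟨z, hz⟩ : ∃ z, z = x * y := ⟨_, rfl⟩
  have hzz : z * z = 1 := by
    rw [hz]
    calc x * y * (x * y) = x * (y * x) * y := by group
      _ = x * (x * y) * y := by rw [hcyx.eq]
      _ = (x * x) * (y * y) := by group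
      _ = 1 := by rw [hxx, hyy, one_mul]
  have hzΔ : z ∉ Δ := by rw [hz]; exact X.two hx hy hyx.symm hcyx.symm
  obtain ⟨t, htt, ht1, htb, htz⟩ := exists_mid hbb hzz (fun k h => hzΔ (by rw [← h]; exact X.cj k b hb))
  obtain ⟨w, hw, hdom⟩ := X.dom htt ht1
  have hfix : t * x * t⁻¹ * (t * y * t⁻¹) = x * y := by
    calc t * x * t⁻¹ * (t * y * t⁻¹) = t * (x * y) * t⁻¹ := by group
      _ = t * z * t⁻¹ := by rw [hz]
      _ = z := cj_eq_iff.2 htz
      _ = x * y := hz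
  obtain ⟨q, ⟨hq, hqx, hqy, cqx, cqy⟩, htq⟩ := exists_fixed (X.p2 x hx y hy hyx.symm hcyx.symm) htt (by
    rintro q ⟨hq, hqx, hqy, cqx, cqy⟩
    have h1 : Commute (t * q * t⁻¹) (t * x * t⁻¹) := (cm_conj t).2 cqx
    have h2 : Commute (t * q * t⁻¹) (t * y * t⁻¹) := (cm_conj t).2 cqy
    have n1 : t * q * t⁻¹ ≠ t * x * t⁻¹ := fun h => hqx ((cj_inj t).1 h)
    have n2 : t * q * t⁻¹ ≠ t * y * t⁻¹ := fun h => hqy ((cj_inj t).1 h)
    rcases (X.zst hx hy hyx.symm hcyx.symm).1 t (by rw [← hz]; exact htz) with h | h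
    · rw [h] at hfix h1 n1
      have h3 := mul_left_cancel hfix
      rw [h3] at h2 n2
      exact ⟨X.cj t q hq, n1, n2, h1, h2⟩
    · rw [h] at hfix h1 n1
      have h3 : t * y * t⁻¹ = x := by
        have h4 : y * (t * y * t⁻¹) = y * x := by rw [hfix, hcyx.eq]
        exact mul_left_cancel h4
      rw [h3] at h2 n2
      exact ⟨X.cj t q hq, n2, n1, h2, h1⟩)
  exact ⟨w, hw, q, hq, hdom b hb htb.symm, (hdom q hq htq.symm).symm, cqx⟩

/-- members at distance at most three have a common neighbour -/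
theorem step [Finite G] {a c c' b : G} (ha : a ∈ Δ) (hc : c ∈ Δ) (hc' : c' ∈ Δ) (hb : b ∈ Δ) (h1 : Commute a c) (h2 : Commute c c')
    (h3 : Commute c' b) : ∃ q ∈ Δ, Commute q a ∧ Commute q b := by
  by_cases hac' : Commute a c'
  · exact ⟨c', hc', hac'.symm, h3⟩
  by_cases hcb : Commute c b
  · exact ⟨c, hc, h1.symm, hcb⟩
  obtain ⟨y, hy, hyc, cyc, cya, cyc'⟩ := X.y3 c hc a ha c' hc' h1 h2.symm hac'
  by_cases hyb : Commute y b
  · exact ⟨y, hy, cya, hyb⟩
  have hbb := X.inv b hb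
  have hcc := X.inv c hc
  have hyy := X.inv y hy
  have b1 : b * c * b = c * b * c := X.three c' hc' b hb c hc h3.symm h2 (fun h => hcb h.symm)
  have b2 : b * y * b = y * b * y := X.three c' hc' b hb y hy h3.symm cyc' (fun h => hyb h.symm)
  obtain ⟨t, ht⟩ : ∃ t, t = sw b c y := ⟨_, rfl⟩
  have htt : t * t = 1 := by rw [ht]; exact sw_sq hbb hcc hyy cyc.symm b1 b2
  have htb : Commute t b := by rw [ht]; exact sw_b hbb hcc hyy cyc.symm b1 b2
  have htc : t * c * t⁻¹ = y := by rw [ht]; exact sw_c hbb hcc hyy cyc.symm b1 b2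
  have hty : t * y * t⁻¹ = c := by rw [ht]; exact sw_y hbb hcc hyy cyc.symm b1 b2
  obtain ⟨b', hb'⟩ : ∃ b', b' = c * y * b * (c * y)⁻¹ := ⟨_, rfl⟩
  have hb'Δ : b' ∈ Δ := by rw [hb']; exact X.cj _ b hb
  have htbb : t = b * b' := by rw [ht, hb']; rfl
  have hcbb : Commute b b' := by rw [hb']; exact sw_bb hbb hcc hyy cyc.symm b1 b2
  have hne : b ≠ b' := by
    intro h
    rw [hb'] at h
    have h4 : Commute (c * y) b := cj_eq_iff.1 h.symm
    exact hcb ((X.zst hc hy (Ne.symm hyc) cyc.symm).2 b hb h4.symm).1.symm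
  -- members commuting with `t` commute with `b`
  have key : ∀ q ∈ Δ, Commute q t → Commute q b := fun q hq hqt =>
    ((X.zst hb hb'Δ hne hcbb).2 q hq (by rw [← htbb]; exact hqt)).1
  obtain ⟨a', ha'⟩ : ∃ a', a' = t * a * t⁻¹ := ⟨_, rfl⟩
  have ha'Δ : a' ∈ Δ := by rw [ha']; exact X.cj t a ha
  have it : t⁻¹ = t := inv_eq_of_mul_eq_one_left htt
  have hta' : t * a' * t⁻¹ = a := by
    rw [ha']
    calc t * (t * a * t⁻¹) * t⁻¹ = (t * t) * a * (t * t)⁻¹ := by group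
      _ = a := by rw [htt]; simp
  by_cases haa' : a' = a
  · have h4 : Commute t a := cj_eq_iff.1 (by rw [← ha', haa'])
    exact ⟨a, ha, Commute.refl a, key a ha h4.symm⟩
  have ca'y : Commute a' y := by
    rw [ha', ← htc]; exact (cm_conj t).2 h1
  have ca'c : Commute a' c := by
    rw [ha', ← hty]; exact (cm_conj t).2 cya.symm
  have hac : a ≠ c := by rintro rfl; exact hac' h2
  have hay : a ≠ y := by rintro rfl; exact hac' cyc'
  have ha'c : a' ≠ c := by
    intro h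
    apply hay
    rw [← hta', h, htc]
  have ha'y : a' ≠ y := by
    intro h
    apply hac
    rw [← hta', h, hty]
  by_cases hca : Commute a a'
  · obtain ⟨q, ⟨hq, q1, q2, q3, q4, q5, q6, q7, q8⟩, htq⟩ := exists_fixed (X.p51 c hc y hy a ha a' ha'Δ (Ne.symm hyc) hac hay ha'c ha'y
      (Ne.symm haa') cyc.symm h1 cya.symm ca'c ca'y hca) htt (by
        rintro q ⟨hq, q1, q2, q3, q4, q5, q6, q7, q8⟩
        refine ⟨X.cj t q hq, ?_, ?_, ?_, ?_, ?_, ?_, ?_, ?_⟩
        · rw [← hty]; exact fun h => q2 ((cj_inj t).1 h)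
        · rw [← htc]; exact fun h => q1 ((cj_inj t).1 h)
        · rw [← hta']; exact fun h => q4 ((cj_inj t).1 h)
        · rw [ha']; exact fun h => q3 ((cj_inj t).1 h)
        · rw [← hty]; exact (cm_conj t).2 q6
        · rw [← htc]; exact (cm_conj t).2 q5
        · rw [← hta']; exact (cm_conj t).2 q8
        · rw [ha']; exact (cm_conj t).2 q7)
    exact ⟨q, hq, q7, key q hq htq.symm⟩
  · obtain ⟨q, ⟨hq, q1, q2, q5, q6, q7, q8⟩, htq⟩ := exists_fixed (X.p45 c hc y hy a ha a' ha'Δ (Ne.symm hyc) cyc.symm h1 cya.symm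
      ca'c ca'y hca) htt (by
        rintro q ⟨hq, q1, q2, q5, q6, q7, q8⟩
        refine ⟨X.cj t q hq, ?_, ?_, ?_, ?_, ?_, ?_⟩
        · rw [← hty]; exact fun h => q2 ((cj_inj t).1 h)
        · rw [← htc]; exact fun h => q1 ((cj_inj t).1 h)
        · rw [← hty]; exact (cm_conj t).2 q6
        · rw [← htc]; exact (cm_conj t).2 q5
        · rw [← hta']; exact (cm_conj t).2 q8
        · rw [ha']; exact (cm_conj t).2 q7)
    exact ⟨q, hq, q7, key q hq htq.symm⟩

/-- **two members have a common neighbour** -/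
theorem diam2 [Finite G] {a b : G} (ha : a ∈ Δ) (hb : b ∈ Δ) : ∃ q ∈ Δ, Commute q a ∧ Commute q b := by
  obtain ⟨w, hw, q, hq, h1, h2, h3⟩ := X.path3 hb ha
  exact X.step ha hq hw hb h3.symm h2.symm h1.symm

/-- 3-transpositions -/
theorem braid_all [Finite G] {a b : G} (ha : a ∈ Δ) (hb : b ∈ Δ) (h : ¬ Commute a b) : a * b * a = b * a * b := by
  obtain ⟨q, hq, h1, h2⟩ := X.diam2 ha hb
  exact X.three q hq a ha b hb h1.symm h2.symm h

end Geo3

end Cfsg.Agent.Lib.M23G
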