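import Cfsg.Agent.Lib.M23C73
import Cfsg.Agent.Lib.DC22J73

/-!
# From double covers of groups of type M(22) to the commuting geometry (helper73)
-/

set_option autoImplicit false
set_option linter.all false

namespace Cfsg.Agent.Lib.M23G

open Module Cfsg Cfsg.Agent.Lib.ThreeRank3 Cfsg.Agent.Lib.ThreeDescent Cfsg.Agent.Lib.ThreeQuot Cfsg.Agent.Lib.FiPar
  Cfsg.Agent.Lib.ThreeSimple Cfsg.Agent.Lib.ThreeTypes Cfsg.Agent.Lib.FiComp Cfsg.Agent.Lib.FiMu
open Cfsg.Agent.Lib.H89EB (Cov)
open Cfsg.Agent.Lib.FiHex (HD MT YD)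
open Cfsg.Agent.Lib.FiUniq (T22)
open Cfsg.Agent.Lib.DC22
open Cfsg.Agent.Lib.H89FB (Bs T3 cj_inj cm_conj cj_eq_iff)

universe v w

/-- transport of double covers -/
theorem cov_comap {C C' : Type v} {Q : Type w} [Group C] [Group C'] [Group Q] {φ : C →* Q} {d : C} {D : Set Q} {E : Set C}
    (K : Cov φ d D E) (σ : C' ≃* C) : Cov (φ.comp σ.toMonoidHom) (σ.symm d) D (σ ⁻¹' E) := by
  refine ⟨K.surj.comp σ.surjective, ?_, ?_, ?_, ?_, ?_, ?_, ?_, ?_, ?_⟩
  · intro x
    show φ (σ x) = 1 ↔ _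
    rw [K.ker, MulEquiv.eq_symm_apply, map_eq_one_iff σ σ.injective]
  · intro h
    apply K.d1
    rw [← σ.apply_symm_apply d, h, map_one]
  · rw [← map_mul, K.dd, map_one]
  · intro e he
    apply σ.injective
    rw [map_mul, K.sq _ he, map_one]
  · intro e he; exact K.im _ he
  · intro t ht
    obtain ⟨e, he, h⟩ := K.lift t ht
    exact ⟨σ.symm e, by show σ (σ.symm e) ∈ E; rw [σ.apply_symm_apply]; exact he, by
      show φ (σ (σ.symm e)) = t; rw [σ.apply_symm_apply, h]⟩
  · intro e he h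
    have h1 : σ (e * σ.symm d) ∈ E := h
    rw [map_mul, σ.apply_symm_apply] at h1
    exact K.uniq _ he h1
  · intro g e he
    show σ (g * e * g⁻¹) ∈ E
    rw [map_mul, map_mul, map_inv]
    exact K.conj _ _ he
  · intro e he e' he' h
    apply σ.injective
    rw [map_mul, map_mul]
    exact K.comm _ he _ he' h

variable {G : Type v} [Group G] {Q : Type w} [Group Q]

/-- the isomorphism between centralizers of conjugate elements -/
def sg (g c : G) : CG (g * c * g⁻¹) ≃* CG c where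
  toFun x := ⟨g⁻¹ * x * g, by
    have h := Subgroup.mem_centralizer_singleton_iff.1 x.2
    rw [Subgroup.mem_centralizer_singleton_iff]
    calc g⁻¹ * (x : G) * g * c = g⁻¹ * ((x : G) * (g * c * g⁻¹)) * g := by group
      _ = g⁻¹ * ((g * c * g⁻¹) * (x : G)) * g := by rw [h]
      _ = c * (g⁻¹ * (x : G) * g) := by group⟩
  invFun y := ⟨g * y * g⁻¹, by
    have h := Subgroup.mem_centralizer_singleton_iff.1 y.2
    rw [Subgroup.mem_centralizer_singleton_iff]
    calc g * (y : G) * g⁻¹ * (g * c * g⁻¹) = g * ((y : G) * c) * g⁻¹ := by group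
      _ = g * (c * (y : G)) * g⁻¹ := by rw [h]
      _ = g * c * g⁻¹ * (g * (y : G) * g⁻¹) := by group⟩
  left_inv x := by
    apply Subtype.ext
    show g * (g⁻¹ * (x : G) * g) * g⁻¹ = x
    group
  right_inv x := by
    apply Subtype.ext
    show g⁻¹ * (g * (x : G) * g⁻¹) * g = x
    group
  map_mul' x y := by
    apply Subtype.ext
    show g⁻¹ * ((x : G) * y) * g = (g⁻¹ * x * g) * (g⁻¹ * y * g)
    group

/-- the local data at a member -/
structure Loc (Δ : Set G) (D : Set Q) (c : G) (φ : CG c →* Q) (d : CG c) (E : Set (CG c)) : Prop where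
  hc : (d : G) = c
  K : Cov φ d D E
  all : ∀ x : CG c, (x : G) ∈ Δ ↔ x = d ∨ x ∈ E
  perf : commutator (CG c) = ⊤

theorem perf_equiv {A B : Type*} [Group A] [Group B] (e : A ≃* B) (h : commutator B = ⊤) : commutator A = ⊤ := by
  have h1 : (commutator A).map e.toMonoidHom = commutator B := by
    rw [commutator_def, commutator_def, Subgroup.map_commutator, Subgroup.map_top_of_surjective _ e.surjective]
  rw [h] at h1
  rw [eq_top_iff]
  intro x _
  have h2 : e x ∈ (commutator A).map e.toMonoidHom := by rw [h1]; trivial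
  obtain ⟨y, hy, hyx⟩ := h2
  have : y = x := e.injective hyx
  rwa [← this]

theorem Loc.conj {Δ : Set G} {D : Set Q} (hcj : ∀ g, ∀ x ∈ Δ, g * x * g⁻¹ ∈ Δ) {c : G} {φ : CG c →* Q} {d : CG c}
    {E : Set (CG c)} (L : Loc Δ D c φ d E) (g : G) :
    ∃ (φ' : CG (g * c * g⁻¹) →* Q) (d' : CG (g * c * g⁻¹)) (E' : Set (CG (g * c * g⁻¹))), Loc Δ D (g * c * g⁻¹) φ' d' E' := by
  refine ⟨_, _, _, ?_, cov_comap L.K (sg g c), ?_, perf_equiv (sg g c) L.perf⟩
  · show g * (d : G) * g⁻¹ = g * c * g⁻¹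
    rw [L.hc]
  · intro x
    have h1 : (x : G) ∈ Δ ↔ ((sg g c x : CG c) : G) ∈ Δ := by
      constructor
      · intro h
        have := hcj g⁻¹ _ h
        rwa [inv_inv] at this
      · intro h
        have h2 := hcj g _ h
        have h3 : g * ((sg g c x : CG c) : G) * g⁻¹ = x := by
          show g * (g⁻¹ * (x : G) * g) * g⁻¹ = x
          group
        rwa [h3] at h2
    rw [h1, L.all, MulEquiv.eq_symm_apply]
    rfl

section

variable [Finite G] [Finite Q] {Δ : Set G} {D : Set Q} (hP : PSU62Simple) (W : Q22 D) {c : G} {φ : CG c →* Q} {d : CG c}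
  {E : Set (CG c)} (L : Loc Δ D c φ d E)

include L in
theorem Loc.cE {x : CG c} (hx : x ∈ E) : (x : G) ∈ Δ := (L.all x).2 (Or.inr hx)

include L in
theorem Loc.cm (x : CG c) : Commute (x : G) c := Subgroup.mem_centralizer_singleton_iff.1 x.2

include L in
theorem Loc.c_mem : c ∈ Δ := by
  have := (L.all d).2 (Or.inl rfl)
  have h : (d : G) ∈ Δ ↔ c ∈ Δ := by rw [L.hc]
  exact h.1 this

include hP W L in
theorem Loc.neE {x : CG c} (hx : x ∈ E) : (x : G) ≠ c := by
  intro h
  apply d_notin_E hP L.K W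
  have : x = d := Subtype.ext (h.trans L.hc.symm)
  rwa [← this]

/-- members commuting with `c` -/
theorem Loc.ex (L : Loc Δ D c φ d E) {x : G} (hx : x ∈ Δ) (hxc : Commute x c) (hne : x ≠ c) : ∃ e ∈ E, (e : G) = x := by
  have hm : x ∈ Subgroup.centralizer ({c} : Set G) := Subgroup.mem_centralizer_singleton_iff.2 hxc
  rcases (L.all ⟨x, hm⟩).1 hx with h | h
  · exact absurd ((congrArg Subtype.val h).trans L.hc) hne
  · exact ⟨⟨x, hm⟩, h, rfl⟩

theorem cm_coe {x y : CG c} : Commute (x : G) (y : G) ↔ Commute x y := by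
  constructor
  · intro h; exact Subtype.ext h
  · intro h; exact congrArg Subtype.val h

include L in
theorem Loc.cmφ {x y : CG c} (hx : x ∈ E) (hy : y ∈ E) : Commute (x : G) (y : G) ↔ Commute (φ x) (φ y) := by
  rw [cm_coe]
  exact L.K.comm_iff hx hy

include hP W L in
theorem Loc.three {x y : G} (hx : x ∈ Δ) (hy : y ∈ Δ) (hxc : Commute x c) (hyc : Commute y c) (h : ¬ Commute x y) :
    x * y * x = y * x * y := by
  have hxne : x ≠ c := by rintro rfl; exact h hyc.symm
  have hyne : y ≠ c := by rintro rfl; exact h hxc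
  obtain ⟨e, he, rfl⟩ := L.ex hx hxc hxne
  obtain ⟨f, hf, rfl⟩ := L.ex hy hyc hyne
  have K := L.K
  have hn : ¬ Commute (φ e) (φ f) := fun h' => h ((L.cmφ he hf).2 h')
  have h3 : (φ e * φ f) ^ 3 = 1 := by
    rcases W.tg.1.2 _ (K.im e he) _ (K.im f hf) with h1 | h1
    · exact absurd (commute_of_sq (sq_one W.tg.1 (K.im e he)) (sq_one W.tg.1 (K.im f hf)) h1) hn
    · exact h1
  have hee := K.sq e he
  have hff := K.sq f hf
  have ie : e⁻¹ = e := inv_eq_of_mul_eq_one_left hee
  have if' : f⁻¹ = f := inv_eq_of_mul_eq_one_left hff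
  have h4 : φ (e * f * e * (f * e * f)) = 1 := by
    rw [← h3, map_mul, map_mul, map_mul, map_mul, map_mul, pow_succ, pow_two]
    group
  have hE1 : f * e * f ∈ E := by
    have := K.conj f e he
    rwa [if'] at this
  have hE2 : e * f * e ∈ E := by
    have := K.conj e f hf
    rwa [ie] at this
  have h5 : e * f * e = f * e * f := by
    have h6 : φ (e * f * e) = φ (f * e * f) := by
      rw [map_mul φ (e * f * e)] at h4
      rw [eq_inv_of_mul_eq_one_left h4, ← map_inv]
      congr 1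
      rw [mul_inv_rev, mul_inv_rev, if', ie, mul_assoc]
    exact K.phi_inj hE2 hE1 h6
  exact congrArg Subtype.val h5

end

end Cfsg.Agent.Lib.M23G
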