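import Cfsg.Agent.Lib.M23E73

/-!
# From double covers of groups of type M(22) to the commuting geometry, continued (helper73)
-/

set_option autoImplicit false
set_option linter.all false

namespace Cfsg.Agent.Lib.M23G

open Module Cfsg Cfsg.Agent.Lib.ThreeRank3 Cfsg.Agent.Lib.ThreeDescent Cfsg.Agent.Lib.ThreeQuot Cfsg.Agent.Lib.FiPar
  Cfsg.Agent.Lib.ThreeSimple Cfsg.Agent.Lib.ThreeTypes Cfsg.Agent.Lib.FiComp Cfsg.Agent.Lib.FiMu
open Cfsg.Agent.Lib.H89EB (Cov)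
open Cfsg.Agent.Lib.FiHex (HD MT YD)
open Cfsg.Agent.Lib.FiUniq (T22)
open Cfsg.Agent.Lib.DC22
open Cfsg.Agent.Lib.H89FB (Bs T3 cj_inj cm_conj cj_eq_iff)

universe v w

variable {G : Type v} [Group G] {Q : Type w} [Group Q]

section

variable [Finite G] [Finite Q] {Δ : Set G} {D : Set Q} (hP : PSU62Simple) (W : Q22 D) {c : G} {φ : CG c →* Q} {d : CG c}
  {E : Set (CG c)} (L : Loc Δ D c φ d E)

include L in
theorem Loc.lift_list : ∀ l : List G, (∀ x ∈ l, x ∈ Δ) → (∀ x ∈ l, Commute x c) → (∀ x ∈ l, x ≠ c) →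
    ∃ l' : List (CG c), l'.map (fun x : CG c => (x : G)) = l ∧ ∀ x ∈ l', x ∈ E := by
  intro l
  induction l with
  | nil => intro _ _ _; exact ⟨[], rfl, by simp⟩
  | cons a l ih =>
    intro h1 h2 h3
    obtain ⟨l', hl', hE⟩ := ih (fun x hx => h1 x (List.mem_cons_of_mem _ hx)) (fun x hx => h2 x (List.mem_cons_of_mem _ hx))
      (fun x hx => h3 x (List.mem_cons_of_mem _ hx))
    obtain ⟨e, he, hea⟩ := L.ex (h1 a List.mem_cons_self) (h2 a List.mem_cons_self) (h3 a List.mem_cons_self)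
    refine ⟨e :: l', by rw [List.map_cons, hl', hea], ?_⟩
    intro x hx
    rcases List.mem_cons.1 hx with rfl | hx
    · exact he
    · exact hE x hx

theorem prod_coe {c : G} (l : List (CG c)) : ((l.prod : CG c) : G) = (l.map (fun x : CG c => (x : G))).prod := by
  have := map_list_prod (Subgroup.centralizer ({c} : Set G)).subtype l
  exact this

include hP W L in
theorem Loc.nr {l : List G} (hnd : l.Nodup) (h1 : ∀ x ∈ l, x ∈ Δ) (h2 : ∀ x ∈ l, Commute x c) (h3 : ∀ x ∈ l, x ≠ c)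
    (hc : ∀ x ∈ l, ∀ y ∈ l, Commute x y) (h5 : l.length ≤ 5) : c * l.prod ≠ 1 := by
  intro hp
  obtain ⟨l', hl', hE⟩ := L.lift_list l h1 h2 h3
  have K := L.K
  have hp' : d * l'.prod = 1 := by
    apply Subtype.ext
    show (d : G) * ((l'.prod : CG c) : G) = 1
    rw [prod_coe, hl', L.hc, hp]
  have hlen : l'.length = l.length := by rw [← hl', List.length_map]
  have hnd' : l'.Nodup := by
    rw [← hl'] at hnd
    exact List.Nodup.of_map _ hnd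
  have hφ : (l'.map φ).prod = 1 := by
    rw [← map_list_prod]
    have := congrArg φ hp'
    rwa [map_mul, K.phi_d, one_mul, map_one] at this
  have hcc : ∀ x ∈ l', ∀ y ∈ l', Commute x y := by
    intro x hx y hy
    rw [← cm_coe]
    apply hc
    · rw [← hl']; exact List.mem_map.2 ⟨x, hx, rfl⟩
    · rw [← hl']; exact List.mem_map.2 ⟨y, hy, rfl⟩
  by_cases h0 : l' = []
  · rw [h0, List.prod_nil, mul_one] at hp'
    exact K.d1 hp'
  · have hpos : 1 ≤ l'.length := List.length_pos_iff.2 h0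
    refine (DC22.hd hP W).nr l'.length hpos (by omega) ⟨l'.map φ, by rw [List.length_map], ?_, ?_, ?_, hφ⟩
    · apply List.Nodup.map_on _ hnd'
      intro x hx y hy hxy
      exact K.phi_inj (hE x hx) (hE y hy) hxy
    · intro a ha
      obtain ⟨x, hx, rfl⟩ := List.mem_map.1 ha
      exact K.im x (hE x hx)
    · intro a ha b hb
      obtain ⟨x, hx, rfl⟩ := List.mem_map.1 ha
      obtain ⟨y, hy, rfl⟩ := List.mem_map.1 hb
      exact (hcc x hx y hy).map φ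

include hP W L in
/-- bases through `c` -/
theorem Loc.base {B : Set G} (hB : Bs Δ B) (hcB : c ∈ B) :
    ∃ B₁ : Subgroup (CG c), MC B₁ ∧ B = insert c ((fun x : CG c => (x : G)) '' eA E B₁) := by
  have K := L.K
  obtain ⟨B₁, hB₁, hX⟩ := exists_MC_of hP K W (X := {e | e ∈ E ∧ (e : G) ∈ B}) (fun e he => he.1)
    (fun e he f hf => cm_coe.1 (hB.com _ he.2 _ hf.2))
  refine ⟨B₁, hB₁, ?_⟩
  ext x
  constructor
  · intro hx
    by_cases hxc : x = c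
    · exact Or.inl hxc
    · right
      obtain ⟨e, he, rfl⟩ := L.ex (hB.sub x hx) (hB.com x hx c hcB) hxc
      exact ⟨e, ⟨he, hX ⟨he, hx⟩⟩, rfl⟩
  · rintro (rfl | ⟨e, he, rfl⟩)
    · exact hcB
    · apply hB.max _ (L.cE he.1)
      intro y hy
      by_cases hyc : y = c
      · rw [hyc]; exact L.cm e
      · obtain ⟨f, hf, rfl⟩ := L.ex (hB.sub y hy) (hB.com y hy c hcB) hyc
        exact cm_coe.2 (hB₁.comm he.2 (hX ⟨hf, hy⟩))

include hP W L in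
theorem Loc.card {B : Set G} (hB : Bs Δ B) (hcB : c ∈ B) : B.ncard = 23 := by
  obtain ⟨B₁, hB₁, rfl⟩ := L.base hP W hB hcB
  rw [Set.ncard_insert_of_notMem, Set.ncard_image_of_injective _ Subtype.val_injective, hB₁.ncard hP L.K W]
  · rintro ⟨e, he, hec⟩
    exact L.neE hP W he.1 hec

include hP W L in
theorem Loc.odd {B : Set G} (hB : Bs Δ B) (hcB : c ∈ B) : ∃ l : List G, (∀ x ∈ l, x ∈ B) ∧ Odd l.length ∧ l.prod = 1 := by
  have K := L.K
  obtain ⟨B₁, hB₁, rfl⟩ := L.base hP W hB hcB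
  have T : T22 D := FiUniq.t22 hP W.tg W.prim W.m22
  have Y : YD D := FiHex.yd22 hP W.tg W.prim W.m22
  obtain ⟨S, hS, h6, hp⟩ := exists_hex_d hP K W T Y L.perf hB₁
  letI := commB hB₁.sq
  have e1 : (∏ x ∈ S, x : B₁) = (S.toList).prod := by
    rw [← Finset.prod_map_toList]; simp
  have e2 : ((∏ x ∈ S, x : B₁) : CG c) = (S.toList.map B₁.subtype).prod := by
    rw [← map_list_prod, e1]; rfl
  refine ⟨c :: (S.toList.map B₁.subtype).map (fun x : CG c => (x : G)), ?_, ?_, ?_⟩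
  · intro x hx
    rcases List.mem_cons.1 hx with rfl | hx
    · exact Or.inl rfl
    · right
      obtain ⟨y, hy, rfl⟩ := List.mem_map.1 hx
      obtain ⟨z, hz, rfl⟩ := List.mem_map.1 hy
      exact ⟨_, ⟨mem_TB.1 (hS (Finset.mem_toList.1 hz)), z.2⟩, rfl⟩
  · rw [List.length_cons, List.length_map, List.length_map, Finset.length_toList, h6]
    exact ⟨3, rfl⟩
  · rw [List.prod_cons, ← prod_coe, ← e2, hp]
    have : (d : G) * (d : G) = 1 := congrArg Subtype.val K.dd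
    rw [L.hc] at this ⊢
    exact this

include hP W L in
theorem Loc.nb : ∃ y ∈ Δ, y ≠ c ∧ Commute y c := by
  have T : T22 D := FiUniq.t22 hP W.tg W.prim W.m22
  obtain ⟨t, ht⟩ := T.ne
  obtain ⟨e, he, rfl⟩ := L.K.lift t ht
  exact ⟨e, L.cE he, L.neE hP W he, L.cm e⟩

include hP W L in
theorem Loc.y3 {a b : G} (ha : a ∈ Δ) (hb : b ∈ Δ) (hac : Commute a c) (hbc : Commute b c) (hab : ¬ Commute a b) :
    ∃ y ∈ Δ, y ≠ c ∧ Commute y c ∧ Commute y a ∧ Commute y b := by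
  have hane : a ≠ c := by rintro rfl; exact hab hbc.symm
  have hbne : b ≠ c := by rintro rfl; exact hab hac
  obtain ⟨e, he, rfl⟩ := L.ex ha hac hane
  obtain ⟨f, hf, rfl⟩ := L.ex hb hbc hbne
  have K := L.K
  have Y : YD D := FiHex.yd22 hP W.tg W.prim W.m22
  have hn : ¬ Commute (φ e) (φ f) := fun h' => hab ((L.cmφ he hf).2 h')
  have h1 := Y.mu _ (K.im e he) _ (K.im f hf) hn
  obtain ⟨t, ht1, ht2⟩ : (Dd D (φ e) ∩ Dd D (φ f)).Nonempty := by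
    rw [← Set.ncard_pos (Set.toFinite _), h1]; norm_num
  obtain ⟨y, hy, rfl⟩ := K.lift t ht1.1
  exact ⟨y, L.cE hy, L.neE hP W hy, L.cm y, ((L.cmφ he hy).2 ht1.2.2).symm, ((L.cmφ hf hy).2 ht2.2.2).symm⟩

/-- counting -/
theorem Loc.ncount (hP : PSU62Simple) (W : Q22 D) (L : Loc Δ D c φ d E) {S : Set G} {S' : Set Q} (h1 : ∀ q ∈ S, q ∈ Δ ∧ q ≠ c ∧ Commute q c) (h2 : S' ⊆ D)
    (h3 : ∀ e ∈ E, (e : G) ∈ S ↔ φ e ∈ S') : S.ncard = S'.ncard := by
  have e1 : S = (fun x : CG c => (x : G)) '' {e | e ∈ E ∧ φ e ∈ S'} := by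
    ext q
    constructor
    · intro hq
      obtain ⟨q1, q2, q3⟩ := h1 q hq
      obtain ⟨e, he, rfl⟩ := L.ex q1 q3 q2
      exact ⟨e, ⟨he, (h3 e he).1 hq⟩, rfl⟩
    · rintro ⟨e, ⟨he, heS⟩, rfl⟩
      exact (h3 e he).2 heS
  have e2 : S' = φ '' {e | e ∈ E ∧ φ e ∈ S'} := by
    ext t
    constructor
    · intro ht
      obtain ⟨e, he, rfl⟩ := L.K.lift t (h2 ht)
      exact ⟨e, ⟨he, ht⟩, rfl⟩
    · rintro ⟨e, ⟨he, heS⟩, rfl⟩
      exact heS
  rw [e1, Set.ncard_image_of_injective _ Subtype.val_injective]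
  conv_rhs => rw [e2]
  rw [Set.ncard_image_of_injOn]
  intro x hx y hy hxy
  exact L.K.phi_inj hx.1 hy.1 hxy

include hP W L in
theorem Loc.p2 {y : G} (hy : y ∈ Δ) (hne : c ≠ y) (hc : Commute c y) :
    Odd (Set.ncard {q | q ∈ Δ ∧ q ≠ c ∧ q ≠ y ∧ Commute q c ∧ Commute q y}) := by
  obtain ⟨e, he, rfl⟩ := L.ex hy hc.symm hne.symm
  have K := L.K
  have h1 : Set.ncard {q | q ∈ Δ ∧ q ≠ c ∧ q ≠ (e : G) ∧ Commute q c ∧ Commute q (e : G)} = (Dd D (φ e)).ncard := by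
    apply L.ncount hP W
    · rintro q ⟨q1, q2, q3, q4, q5⟩; exact ⟨q1, q2, q4⟩
    · exact fun t ht => ht.1
    · intro f hf
      constructor
      · rintro ⟨q1, q2, q3, q4, q5⟩
        refine ⟨K.im f hf, ?_, ((L.cmφ hf he).1 q5).symm⟩
        intro h
        exact q3 (congrArg Subtype.val (K.phi_inj hf he h))
      · rintro ⟨q1, q2, q3⟩
        exact ⟨L.cE hf, L.neE hP W hf, fun h => q2 (by rw [Subtype.ext h]), L.cm f, ((L.cmφ he hf).2 q3).symm⟩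
  rw [h1, (DC22.hd hP W).u1 _ (K.im e he)]
  exact ⟨346, rfl⟩

include hP W L in
theorem Loc.p45 {y a b : G} (hy : y ∈ Δ) (ha : a ∈ Δ) (hb : b ∈ Δ) (hne : c ≠ y) (hc : Commute c y) (hac : Commute a c)
    (hay : Commute a y) (hbc : Commute b c) (hby : Commute b y) (hab : ¬ Commute a b) :
    Odd (Set.ncard {q | q ∈ Δ ∧ q ≠ c ∧ q ≠ y ∧ Commute q c ∧ Commute q y ∧ Commute q a ∧ Commute q b}) := by
  have hane : a ≠ c := by rintro rfl; exact hab hbc.symm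
  have hbne : b ≠ c := by rintro rfl; exact hab hac
  have hayn : a ≠ y := by rintro rfl; exact hab hby.symm
  have hbyn : b ≠ y := by rintro rfl; exact hab hay
  obtain ⟨e, he, rfl⟩ := L.ex hy hc.symm hne.symm
  obtain ⟨f, hf, rfl⟩ := L.ex ha hac hane
  obtain ⟨g, hg, rfl⟩ := L.ex hb hbc hbne
  have K := L.K
  have Y : YD D := FiHex.yd22 hP W.tg W.prim W.m22
  have hinj : ∀ {x y : CG c}, x ∈ E → y ∈ E → (x : G) ≠ y → φ x ≠ φ y := fun hx hy h h' =>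
    h (congrArg Subtype.val (K.phi_inj hx hy h'))
  have hn : ¬ Commute (φ f) (φ g) := fun h' => hab ((L.cmφ hf hg).2 h')
  have h1 : Set.ncard {q | q ∈ Δ ∧ q ≠ c ∧ q ≠ (e : G) ∧ Commute q c ∧ Commute q (e : G) ∧ Commute q (f : G) ∧ Commute q (g : G)} =
      (Dd D (φ f) ∩ Dd D (φ g) ∩ Dd D (φ e)).ncard := by
    apply L.ncount hP W
    · rintro q ⟨q1, q2, q3, q4, q5⟩; exact ⟨q1, q2, q4⟩
    · exact fun t ht => ht.1.1.1
    · intro x hx
      constructor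
      · rintro ⟨q1, q2, q3, q4, q5, q6, q7⟩
        have n1 : (x : G) ≠ f := by intro h; rw [h] at q7; exact hab q7
        have n2 : (x : G) ≠ g := by intro h; rw [h] at q6; exact hab q6.symm
        exact ⟨⟨⟨K.im x hx, hinj hx hf n1, ((L.cmφ hx hf).1 q6).symm⟩, ⟨K.im x hx, hinj hx hg n2, ((L.cmφ hx hg).1 q7).symm⟩⟩,
          ⟨K.im x hx, hinj hx he q3, ((L.cmφ hx he).1 q5).symm⟩⟩
      · rintro ⟨⟨⟨q1, q2, q3⟩, ⟨_, q4, q5⟩⟩, ⟨_, q6, q7⟩⟩
        exact ⟨L.cE hx, L.neE hP W hx, fun h => q6 (by rw [Subtype.ext h]), L.cm x, ((L.cmφ he hx).2 q7).symm,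
          ((L.cmφ hf hx).2 q3).symm, ((L.cmφ hg hx).2 q5).symm⟩
  rw [h1, Y.m1 _ (K.im f hf) _ (K.im g hg) hn _ ⟨⟨K.im e he, hinj he hf hayn.symm, (L.cmφ hf he).1 hay⟩,
    ⟨K.im e he, hinj he hg hbyn.symm, (L.cmφ hg he).1 hby⟩⟩]
  exact ⟨22, rfl⟩

include hP W L in
theorem Loc.p51 {y a b : G} (hy : y ∈ Δ) (ha : a ∈ Δ) (hb : b ∈ Δ) (hne : c ≠ y) (hane : a ≠ c) (hayn : a ≠ y) (hbne : b ≠ c)
    (hbyn : b ≠ y) (habn : a ≠ b) (hc : Commute c y) (hac : Commute a c)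
    (hay : Commute a y) (hbc : Commute b c) (hby : Commute b y) (hab : Commute a b) :
    Odd (Set.ncard {q | q ∈ Δ ∧ q ≠ c ∧ q ≠ y ∧ q ≠ a ∧ q ≠ b ∧ Commute q c ∧ Commute q y ∧ Commute q a ∧ Commute q b}) := by
  obtain ⟨e, he, rfl⟩ := L.ex hy hc.symm hne.symm
  obtain ⟨f, hf, rfl⟩ := L.ex ha hac hane
  obtain ⟨g, hg, rfl⟩ := L.ex hb hbc hbne
  have K := L.K
  have hinj : ∀ {x y : CG c}, x ∈ E → y ∈ E → (x : G) ≠ y → φ x ≠ φ y := fun hx hy h h' =>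
    h (congrArg Subtype.val (K.phi_inj hx hy h'))
  have h1 : Set.ncard {q | q ∈ Δ ∧ q ≠ c ∧ q ≠ (e : G) ∧ q ≠ (f : G) ∧ q ≠ (g : G) ∧ Commute q c ∧ Commute q (e : G) ∧
      Commute q (f : G) ∧ Commute q (g : G)} = (Dd D (φ f) ∩ Dd D (φ g) ∩ Dd D (φ e)).ncard := by
    apply L.ncount hP W
    · rintro q ⟨q1, q2, q3, q3', q3'', q4, q5⟩; exact ⟨q1, q2, q4⟩
    · exact fun t ht => ht.1.1.1
    · intro x hx
      constructor
      · rintro ⟨q1, q2, q3, n1, n2, q4, q5, q6, q7⟩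
        exact ⟨⟨⟨K.im x hx, hinj hx hf n1, ((L.cmφ hx hf).1 q6).symm⟩, ⟨K.im x hx, hinj hx hg n2, ((L.cmφ hx hg).1 q7).symm⟩⟩,
          ⟨K.im x hx, hinj hx he q3, ((L.cmφ hx he).1 q5).symm⟩⟩
      · rintro ⟨⟨⟨q1, q2, q3⟩, ⟨_, q4, q5⟩⟩, ⟨_, q6, q7⟩⟩
        exact ⟨L.cE hx, L.neE hP W hx, fun h => q6 (by rw [Subtype.ext h]), fun h => q2 (by rw [Subtype.ext h]),
          fun h => q4 (by rw [Subtype.ext h]), L.cm x, ((L.cmφ he hx).2 q7).symm,
          ((L.cmφ hf hx).2 q3).symm, ((L.cmφ hg hx).2 q5).symm⟩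
  rw [h1, (DC22.hd hP W).u3 _ (K.im f hf) _ ⟨K.im g hg, hinj hg hf habn.symm, (L.cmφ hf hg).1 hab⟩ _
    ⟨K.im e he, hinj he hf hayn.symm, (L.cmφ hf he).1 hay⟩ ⟨K.im e he, hinj he hg hbyn.symm, (L.cmφ hg he).1 hby⟩]
  exact ⟨25, rfl⟩

end

end Cfsg.Agent.Lib.M23G
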