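import Cfsg.Agent.Lib.M23F73

/-!
# From double covers of groups of type M(22) to the commuting geometry: the geometry (helper73)
-/

set_option autoImplicit false
set_option linter.all false

namespace Cfsg.Agent.Lib.M23G

open Module Cfsg Cfsg.Agent.Lib.ThreeRank3 Cfsg.Agent.Lib.ThreeDescent Cfsg.Agent.Lib.ThreeQuot Cfsg.Agent.Lib.FiPar
  Cfsg.Agent.Lib.ThreeSimple Cfsg.Agent.Lib.ThreeTypes Cfsg.Agent.Lib.FiComp Cfsg.Agent.Lib.FiMu
open Cfsg.Agent.Lib.H89EB (Cov)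
open Cfsg.Agent.Lib.FiHex (HD MT YD)
open Cfsg.Agent.Lib.FiUniq (T22)
open Cfsg.Agent.Lib.DC22
open Cfsg.Agent.Lib.H89FB (Bs T3 cj_inj cm_conj cj_eq_iff)
open Cfsg.Agent.Lib.H89EA (comm_of_sq)

universe v w

variable {G : Type v} [Group G] {Q : Type w} [Group Q]

section

variable [Finite G] [Finite Q] {Δ : Set G} {D : Set Q} (hP : PSU62Simple) (W : Q22 D) {c : G} {φ : CG c →* Q} {d : CG c}
  {E : Set (CG c)} (L : Loc Δ D c φ d E)

include hP W L in
theorem Loc.nf (hcl : ∀ x ∈ Δ, ∀ y ∈ Δ, ∃ g, g * x * g⁻¹ = y) {t : G} (htt : t * t = 1) (ht1 : t ≠ 1) (htc : Commute t c) :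
    t ∈ Δ ∨ (∃ a ∈ Δ, ∃ b ∈ Δ, a ≠ b ∧ Commute a b ∧ t = a * b) ∨ (∃ a b c, T3 Δ a b c ∧ t = a * b * c) := by
  have K := L.K
  have T : T22 D := FiUniq.t22 hP W.tg W.prim W.m22
  have Y : YD D := FiHex.yd22 hP W.tg W.prim W.m22
  have htm : t ∈ Subgroup.centralizer ({c} : Set G) := Subgroup.mem_centralizer_singleton_iff.2 htc
  obtain ⟨B, hB, htB⟩ := exists_MC_inv hP K W (x := ⟨t, htm⟩) (Subtype.ext htt)
  have hm := d0_mem hP K W L.hc hB
  obtain ⟨y, hy, hyc, hcy⟩ := L.nb hP W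
  obtain ⟨g, hg⟩ := hcl c L.c_mem y hy
  have hnwc : ∃ g : G, g * c * g⁻¹ ∈ Subgroup.centralizer ({c} : Set G) ∧ g * c * g⁻¹ ≠ c :=
    ⟨g, by rw [hg]; exact ⟨Subgroup.mem_centralizer_singleton_iff.2 hcy, hyc⟩⟩
  letI := commB (AGm_sq hB)
  letI : Fintype (AGm B) := Fintype.ofFinite _
  letI : DecidableEq (AGm B) := Classical.decEq _
  have O := om hP K W T Y L.perf L.hc hB hm (moved hP K W L.hc hB hm hnwc)
  have hcΔ := L.c_mem
  have hTG : ∀ x : AGm B, x ∈ TG E B → (x : G) ∈ Δ ∧ (x : G) ≠ c ∧ Commute (x : G) c := by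
    intro x hx
    obtain ⟨y, _, hyE, hyx⟩ := mem_TG.1 hx
    rw [← hyx]
    exact ⟨L.cE hyE, L.neE hP W hyE, L.cm y⟩
  have hcomm : ∀ x y : AGm B, Commute (x : G) (y : G) := fun x y => comm_of_sq (AGm_sq hB) x.2 y.2
  have htA : t ∈ AGm B := (coe_mem (y := ⟨t, htm⟩)).2 htB
  rcases O.cov ⟨t, htA⟩ with ⟨S, hS, hc4, hp⟩ | ⟨S, hS, hc3, hp⟩
  · have hcase : S.card = 0 ∨ S.card = 1 ∨ S.card = 2 ∨ S.card = 3 := by omega
    rcases hcase with h | h | h | h
    · exfalso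
      rw [Finset.card_eq_zero.1 h] at hp
      exact ht1 (congrArg Subtype.val hp).symm
    · obtain ⟨a, rfl⟩ := Finset.card_eq_one.1 h
      rw [Cfsg.Agent.Lib.OrbM.p_single] at hp
      left
      have h1 : (a : G) = t := congrArg Subtype.val hp
      rw [← h1]
      exact (hTG a (hS (by simp))).1
    · obtain ⟨a, b, hab, rfl⟩ := Finset.card_eq_two.1 h
      rw [Cfsg.Agent.Lib.OrbM.p_pair hab] at hp
      right; left
      have h1 : (a : G) * b = t := congrArg Subtype.val hp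
      exact ⟨a, (hTG a (hS (by simp))).1, b, (hTG b (hS (by simp))).1, fun h => hab (Subtype.ext h), hcomm a b, h1.symm⟩
    · obtain ⟨a, b, e, hab, hae, hbe, rfl⟩ := Finset.card_eq_three.1 h
      rw [Cfsg.Agent.Lib.OrbM.p_insert (by simp [hab, hae]), Cfsg.Agent.Lib.OrbM.p_pair hbe] at hp
      right; right
      have h1 : (a : G) * (b * e) = t := congrArg Subtype.val hp
      exact ⟨a, b, e, ⟨(hTG a (hS (by simp))).1, (hTG b (hS (by simp))).1, (hTG e (hS (by simp))).1, fun h => hab (Subtype.ext h),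
        fun h => hae (Subtype.ext h), fun h => hbe (Subtype.ext h), hcomm a b, hcomm a e, hcomm b e⟩, by rw [← h1, mul_assoc]⟩
  · have hcase : S.card = 0 ∨ S.card = 1 ∨ S.card = 2 := by omega
    rcases hcase with h | h | h
    · left
      rw [Finset.card_eq_zero.1 h, Cfsg.Agent.Lib.OrbM.p_empty, mul_one] at hp
      have h1 : c = t := congrArg Subtype.val hp
      rw [← h1]
      exact hcΔ
    · obtain ⟨a, rfl⟩ := Finset.card_eq_one.1 h
      rw [Cfsg.Agent.Lib.OrbM.p_single] at hp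
      right; left
      have h1 : c * (a : G) = t := congrArg Subtype.val hp
      obtain ⟨a1, a2, a3⟩ := hTG a (hS (by simp))
      exact ⟨c, hcΔ, a, a1, a2.symm, a3.symm, h1.symm⟩
    · obtain ⟨a, b, hab, rfl⟩ := Finset.card_eq_two.1 h
      rw [Cfsg.Agent.Lib.OrbM.p_pair hab] at hp
      right; right
      have h1 : c * ((a : G) * b) = t := congrArg Subtype.val hp
      obtain ⟨a1, a2, a3⟩ := hTG a (hS (by simp))
      obtain ⟨b1, b2, b3⟩ := hTG b (hS (by simp))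
      exact ⟨c, a, b, ⟨hcΔ, a1, b1, a2.symm, b2.symm, fun h => hab (Subtype.ext h), a3.symm, b3.symm, hcomm a b⟩,
        by rw [← h1, mul_assoc]⟩

end

/-- **the geometry** -/
theorem geo3 [Finite G] [Finite Q] (hP : PSU62Simple) {Δ : Set G} {D : Set Q} (W : Q22 D) (hcj : ∀ g, ∀ x ∈ Δ, g * x * g⁻¹ ∈ Δ)
    (hcl : ∀ x ∈ Δ, ∀ y ∈ Δ, ∃ g, g * x * g⁻¹ = y) (hne : Δ.Nonempty)
    (hL : ∀ c ∈ Δ, ∃ (φ : CG c →* Q) (d : CG c) (E : Set (CG c)), Loc Δ D c φ d E) : Geo3 Δ := by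
  have hsq : ∀ c ∈ Δ, c * c = 1 := by
    intro c hc
    obtain ⟨φ, d, E, L⟩ := hL c hc
    exact d0_sq L.K L.hc
  refine
    { inv := hsq
      one := ?_
      cl := hcl
      cj := hcj
      ne := hne
      three := ?_
      card := ?_
      nr := ?_
      odd := ?_
      nf := ?_
      nb := ?_
      y3 := ?_
      p2 := ?_
      p45 := ?_
      p51 := ?_ }
  · rintro c hc rfl
    obtain ⟨φ, d, E, L⟩ := hL 1 hc
    exact L.K.d1 (Subtype.ext L.hc)
  · intro c hc x hx y hy h1 h2 h3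
    obtain ⟨φ, d, E, L⟩ := hL c hc
    exact L.three hP W hx hy h1 h2 h3
  · intro B hB
    obtain ⟨c, hc⟩ : B.Nonempty := by
      by_contra hcon
      rw [Set.not_nonempty_iff_eq_empty] at hcon
      obtain ⟨c, hc⟩ := hne
      have := hB.max c hc (by rw [hcon]; simp)
      rw [hcon] at this
      exact this
    obtain ⟨φ, d, E, L⟩ := hL c (hB.sub c hc)
    exact L.card hP W hB hc
  · intro l hnd hm hcm h1 h6
    match l, h1 with
    | c :: l, _ =>
      obtain ⟨φ, d, E, L⟩ := hL c (hm c List.mem_cons_self)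
      rw [List.nodup_cons] at hnd
      rw [List.prod_cons]
      rw [List.length_cons] at h6
      exact L.nr hP W hnd.2 (fun x hx => hm x (List.mem_cons_of_mem _ hx)) (fun x hx => hcm x (List.mem_cons_of_mem _ hx) c List.mem_cons_self)
        (fun x hx h => hnd.1 (by rw [← h]; exact hx)) (fun x hx y hy => hcm x (List.mem_cons_of_mem _ hx) y (List.mem_cons_of_mem _ hy))
        (by omega)
  · intro B hB
    obtain ⟨c, hc⟩ : B.Nonempty := by
      by_contra hcon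
      rw [Set.not_nonempty_iff_eq_empty] at hcon
      obtain ⟨c, hc⟩ := hne
      have := hB.max c hc (by rw [hcon]; simp)
      rw [hcon] at this
      exact this
    obtain ⟨φ, d, E, L⟩ := hL c (hB.sub c hc)
    exact L.odd hP W hB hc
  · intro c hc t h1 h2 h3
    obtain ⟨φ, d, E, L⟩ := hL c hc
    exact L.nf hP W hcl h1 h2 h3
  · intro c hc
    obtain ⟨φ, d, E, L⟩ := hL c hc
    exact L.nb hP W
  · intro c hc a ha b hb h1 h2 h3
    obtain ⟨φ, d, E, L⟩ := hL c hc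
    exact L.y3 hP W ha hb h1 h2 h3
  · intro c hc y hy h1 h2
    obtain ⟨φ, d, E, L⟩ := hL c hc
    exact L.p2 hP W hy h1 h2
  · intro c hc y hy a ha b hb h1 h2 h3 h4 h5 h6 h7
    obtain ⟨φ, d, E, L⟩ := hL c hc
    exact L.p45 hP W hy ha hb h1 h2 h3 h4 h5 h6 h7
  · intro c hc y hy a ha b hb h1 h2 h3 h4 h5 h6 h7 h8 h9 h10 h11 h12
    obtain ⟨φ, d, E, L⟩ := hL c hc
    exact L.p51 hP W hy ha hb h1 h2 h3 h4 h5 h6 h7 h8 h9 h10 h11 h12

end Cfsg.Agent.Lib.M23G
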