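import Cfsg.Agent.Lib.M23G73
import Cfsg.Agent.Lib.M23D73
import Cfsg.Agent.Lib.H89FC0

/-!
# The class is a class of 3-transpositions with residues of type M(22) (helper73)
-/

set_option autoImplicit false
set_option linter.all false

namespace Cfsg.Agent.Lib.M23G

open Module Cfsg Cfsg.Agent.Lib.ThreeRank3 Cfsg.Agent.Lib.ThreeDescent Cfsg.Agent.Lib.ThreeQuot Cfsg.Agent.Lib.FiPar
  Cfsg.Agent.Lib.ThreeSimple Cfsg.Agent.Lib.ThreeTypes Cfsg.Agent.Lib.FiComp Cfsg.Agent.Lib.FiMu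
open Cfsg.Agent.Lib.H89EB (Cov)
open Cfsg.Agent.Lib.FiHex (HD MT YD)
open Cfsg.Agent.Lib.FiUniq (T22 U22)
open Cfsg.Agent.Lib.FiUniqC (TC)
open Cfsg.Agent.Lib.DC22
open Cfsg.Agent.Lib.H89FB (Bs T3 cj_inj cm_conj cj_eq_iff)
open Cfsg.Agent.Lib.H89FC (closure_cj)

universe v w

open scoped commutatorElement

section transport

variable {A : Type v} {Q : Type w} [Group A] [Group Q] (e : A ≃* Q) {D : Set Q} {D' : Set A} (h : ∀ x, x ∈ D' ↔ e x ∈ D)
include h

theorem comap_tg (hD : IsThreeTranspositionGroup D) : IsThreeTranspositionGroup D' := by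
  obtain ⟨⟨h1, h2⟩, h3, h4⟩ := hD
  refine ⟨⟨?_, ?_⟩, ?_, ?_⟩
  · intro x hx
    rw [← MulEquiv.orderOf_eq e]
    exact h1 _ ((h x).1 hx)
  · intro x hx y hy
    rcases h2 _ ((h x).1 hx) _ ((h y).1 hy) with h5 | h5
    · left; apply e.injective; rw [map_pow, map_mul, h5, map_one]
    · right; apply e.injective; rw [map_pow, map_mul, h5, map_one]
  · intro g x hx
    rw [h, map_mul, map_mul, map_inv]
    exact h3 _ _ ((h x).1 hx)
  · have h5 : (Subgroup.closure D').map e.toMonoidHom = Subgroup.closure D := by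
      rw [MonoidHom.map_closure]
      congr 1
      ext y
      constructor
      · rintro ⟨x, hx, rfl⟩; exact (h x).1 hx
      · intro hy
        exact ⟨e.symm y, (h _).2 (by rw [e.apply_symm_apply]; exact hy), e.apply_symm_apply y⟩
    rw [h4] at h5
    rw [eq_top_iff]
    intro x _
    have h6 : e x ∈ (Subgroup.closure D').map e.toMonoidHom := by rw [h5]; trivial
    obtain ⟨y, hy, hyx⟩ := h6
    have : y = x := e.injective hyx
    rwa [← this]

theorem comap_prim (hD : IsPrimitiveUnderConj D) : IsPrimitiveUnderConj D' := by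
  obtain ⟨h1, ⟨a, ha, b, hb, hab⟩, h3⟩ := hD
  refine ⟨?_, ⟨e.symm a, (h _).2 (by rw [e.apply_symm_apply]; exact ha), e.symm b, (h _).2 (by rw [e.apply_symm_apply]; exact hb),
    fun h => hab (e.symm.injective h)⟩, ?_⟩
  · intro x hx y hy
    obtain ⟨g, hg⟩ := h1 _ ((h x).1 hx) _ ((h y).1 hy)
    exact ⟨e.symm g, e.injective (by rw [map_mul, map_mul, map_inv, e.apply_symm_apply, hg])⟩
  · intro B hB hblk
    have hconj : ∀ g : Q, (fun x => g * x * g⁻¹) '' (e '' B) = e '' ((fun x => e.symm g * x * (e.symm g)⁻¹) '' B) := by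
      intro g
      ext y
      constructor
      · rintro ⟨_, ⟨x, hx, rfl⟩, rfl⟩
        refine ⟨_, ⟨x, hx, rfl⟩, ?_⟩
        show e (e.symm g * x * (e.symm g)⁻¹) = g * e x * g⁻¹
        rw [map_mul, map_mul, map_inv, e.apply_symm_apply]
      · rintro ⟨_, ⟨x, hx, rfl⟩, rfl⟩
        refine ⟨_, ⟨x, hx, rfl⟩, ?_⟩
        show g * e x * g⁻¹ = e (e.symm g * x * (e.symm g)⁻¹)
        rw [map_mul, map_mul, map_inv, e.apply_symm_apply]
    rcases h3 (e '' B) (by rintro _ ⟨x, hx, rfl⟩; exact (h x).1 (hB hx)) (by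
      intro g
      rw [hconj g]
      rcases hblk (e.symm g) with h5 | h5
      · left; rw [h5]
      · right
        exact (Set.disjoint_image_iff e.injective).2 h5) with h5 | h5
    · left
      intro x hx y hy
      exact e.injective (h5 ⟨x, hx, rfl⟩ ⟨y, hy, rfl⟩)
    · right
      apply Set.Subset.antisymm hB
      intro x hx
      have h6 : e x ∈ e '' B := by rw [h5]; exact (h x).1 hx
      obtain ⟨y, hy, hyx⟩ := h6
      rwa [← e.injective hyx]

end transport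

theorem nocen {Q : Type w} [Group Q] {D : Set Q} (T : T22 D) (H : HD D) {t : Q} (ht : t ∈ D) : ∃ y ∈ D, ¬ Commute t y := by
  obtain ⟨e, he⟩ := Set.nonempty_of_ncard_ne_zero (s := Dd D t) (by rw [H.u1 t ht]; norm_num)
  obtain ⟨y, hy, h⟩ := T.nc e he.1 t ⟨ht, he.2.1.symm, he.2.2.symm⟩
  exact ⟨y, hy.1, h⟩

theorem comm_left {C : Type v} [Group C] {d : C} (hd : ∀ z, d * z = z * d) (x y : C) : ⁅x * d, y⁆ = ⁅x, y⁆ := by
  rw [commutatorElement_def, commutatorElement_def, mul_inv_rev]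
  calc x * d * y * (d⁻¹ * x⁻¹) * y⁻¹ = x * (d * y) * d⁻¹ * x⁻¹ * y⁻¹ := by group
    _ = x * (y * d) * d⁻¹ * x⁻¹ * y⁻¹ := by rw [hd y]
    _ = _ := by group

theorem comm_right {C : Type v} [Group C] {d : C} (hd : ∀ z, d * z = z * d) (x y : C) : ⁅x, y * d⁆ = ⁅x, y⁆ := by
  rw [commutatorElement_def, commutatorElement_def, mul_inv_rev]
  calc x * (y * d) * x⁻¹ * (d⁻¹ * y⁻¹) = x * y * (d * x⁻¹) * d⁻¹ * y⁻¹ := by group
    _ = x * y * (x⁻¹ * d) * d⁻¹ * y⁻¹ := by rw [hd x⁻¹]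
    _ = _ := by group

theorem quot_equiv {G : Type v} [Group G] {c : G} {Q : Type w} [Group Q] (φ : CG c →* Q) (hφ : Function.Surjective φ)
    (hker : ∀ x, φ x = 1 ↔ x ∈ Subgroup.center (CG c)) {A : Subgroup G} (hA : A = Subgroup.centralizer ({c} : Set G)) :
    ∃ e : A ⧸ Subgroup.center A ≃* Q, ∀ (x : A) (h : (x : G) ∈ Subgroup.centralizer ({c} : Set G)),
      e (QuotientGroup.mk x) = φ ⟨x, h⟩ := by
  subst hA
  have h1 : Subgroup.center (CG c) = φ.ker := by
    ext x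
    rw [MonoidHom.mem_ker, hker]
  refine ⟨(QuotientGroup.quotientMulEquivOfEq h1).trans (QuotientGroup.quotientKerEquivOfSurjective φ hφ), ?_⟩
  intro x h
  rfl

variable {G : Type v} [Group G] {Q : Type w} [Group Q]

section loc

variable [Finite G] [Finite Q] {Δ : Set G} {D : Set Q} (hP : PSU62Simple) (W : Q22 D) {c : G} {φ : CG c →* Q} {d : CG c}
  {E : Set (CG c)} (L : Loc Δ D c φ d E)
include hP W L

theorem Loc.mem_Dd {x : G} : x ∈ Dd Δ c ↔ ∃ e ∈ E, (e : G) = x := by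
  constructor
  · rintro ⟨h1, h2, h3⟩; exact L.ex h1 h3.symm h2
  · rintro ⟨e, he, rfl⟩; exact ⟨L.cE he, L.neE hP W he, (L.cm e).symm⟩

theorem Loc.clE : Subgroup.closure E = ⊤ := by
  have h1 : (Subgroup.closure E).map φ = ⊤ := by
    rw [MonoidHom.map_closure, eq_top_iff, ← W.tg.2.2]
    apply Subgroup.closure_mono
    intro t ht
    obtain ⟨e, he, h⟩ := L.K.lift t ht
    exact ⟨e, he, h⟩
  have h2 : ∀ x : CG c, ∃ y ∈ Subgroup.closure E, x = y ∨ x = y * d := by
    intro x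
    have : φ x ∈ (Subgroup.closure E).map φ := by rw [h1]; trivial
    obtain ⟨y, hy, hyx⟩ := this
    refine ⟨y, hy, ?_⟩
    have h3 : φ (y⁻¹ * x) = 1 := by rw [map_mul, map_inv, hyx, inv_mul_cancel]
    rcases (L.K.ker _).1 h3 with h | h
    · left; rw [inv_mul_eq_one] at h; exact h.symm
    · right; rw [← h]; group
  have hdc : ∀ z, d * z = z * d := fun z => L.K.dc z
  rw [eq_top_iff, ← L.perf, _root_.commutator_def, Subgroup.commutator_le]
  rintro x - y -
  obtain ⟨x', hx', hx⟩ := h2 x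
  obtain ⟨y', hy', hy⟩ := h2 y
  have h3 : ⁅x, y⁆ = ⁅x', y'⁆ := by
    rcases hx with rfl | rfl <;> rcases hy with rfl | rfl
    · rfl
    · rw [comm_right hdc]
    · rw [comm_left hdc]
    · rw [comm_left hdc, comm_right hdc]
  rw [h3, commutatorElement_def]
  exact mul_mem (mul_mem (mul_mem hx' hy') (inv_mem hx')) (inv_mem hy')

theorem Loc.cmc {g : G} (hg : Commute g c) : g ∈ Subgroup.closure (Dd Δ c) := by
  have hm : g ∈ Subgroup.centralizer ({c} : Set G) := Subgroup.mem_centralizer_singleton_iff.2 hg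
  have h1 : (⟨g, hm⟩ : CG c) ∈ Subgroup.closure E := by rw [L.clE hP W]; trivial
  have h2 : (Subgroup.closure E).map (Subgroup.centralizer ({c} : Set G)).subtype = Subgroup.closure (Dd Δ c) := by
    rw [MonoidHom.map_closure]
    congr 1
    ext x
    rw [L.mem_Dd hP W]
    rfl
  rw [← h2]
  exact ⟨_, h1, rfl⟩

theorem Loc.nocen : NoCentral Δ c := by
  have T : T22 D := FiUniq.t22 hP W.tg W.prim W.m22
  have H : HD D := FiHex.hd22 hP W.tg W.prim W.m22
  intro f hf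
  obtain ⟨e, he, rfl⟩ := (L.mem_Dd hP W).1 hf
  obtain ⟨y, hy, hn⟩ := M23G.nocen T H (L.K.im e he)
  obtain ⟨f', hf', rfl⟩ := L.K.lift y hy
  exact ⟨f', (L.mem_Dd hP W).2 ⟨f', hf', rfl⟩, fun h => hn ((L.cmφ he hf').1 h)⟩

theorem Loc.cc {g : G} (hg : ∀ e ∈ Dd Δ c, Commute g e) : g = 1 ∨ g = c := by
  have T : T22 D := FiUniq.t22 hP W.tg W.prim W.m22
  have H : HD D := FiHex.hd22 hP W.tg W.prim W.m22
  have h1 : ∀ x ∈ Subgroup.closure (Dd Δ c), Commute g x := by
    intro x hx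
    induction hx using Subgroup.closure_induction with
    | mem x hx => exact hg x hx
    | one => exact Commute.one_right g
    | mul a b _ _ ha hb => exact ha.mul_right hb
    | inv a _ ha => exact ha.inv_right
  have hgc : Commute g c := h1 c (L.cmc hP W (Commute.refl c))
  have hm : g ∈ Subgroup.centralizer ({c} : Set G) := Subgroup.mem_centralizer_singleton_iff.2 hgc
  have hcomm : ∀ t ∈ D, Commute (φ ⟨g, hm⟩) t := by
    intro t ht
    obtain ⟨e, he, rfl⟩ := L.K.lift t ht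
    exact ((cm_coe (x := ⟨g, hm⟩) (y := e)).1 (hg e ((L.mem_Dd hP W).2 ⟨e, he, rfl⟩))).map φ
  obtain ⟨t, ht⟩ := T.ne
  have h2 : φ ⟨g, hm⟩ = 1 := by
    rcases T.cc t ht _ (fun e he => hcomm e he.1) with h | h
    · exact h
    · exfalso
      obtain ⟨y, hy, hn⟩ := M23G.nocen T H ht
      apply hn
      rw [← h]
      exact hcomm y hy
  rcases (L.K.ker _).1 h2 with h | h
  · left; exact congrArg Subtype.val h
  · right; exact (congrArg Subtype.val h).trans L.hc

theorem Loc.conjE {x y : G} (hx : x ∈ Dd Δ c) (hy : y ∈ Dd Δ c) : ∃ g ∈ Subgroup.closure Δ, Commute g c ∧ g * x * g⁻¹ = y := by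
  have T : T22 D := FiUniq.t22 hP W.tg W.prim W.m22
  obtain ⟨e, he, rfl⟩ := (L.mem_Dd hP W).1 hx
  obtain ⟨f, hf, rfl⟩ := (L.mem_Dd hP W).1 hy
  obtain ⟨q, hq⟩ := T.cl _ (L.K.im e he) _ (L.K.im f hf)
  obtain ⟨g, rfl⟩ := L.K.surj q
  have h1 : g * e * g⁻¹ = f := L.K.phi_inj (L.K.conj g e he) hf (by rw [map_mul, map_mul, map_inv, hq])
  refine ⟨g, ?_, L.cm g, congrArg Subtype.val h1⟩
  exact Subgroup.closure_mono (fun x hx => hx.1) (L.cmc hP W (L.cm g))

theorem Loc.HH_eq : HH Δ c = Subgroup.centralizer ({c} : Set G) := by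
  apply le_antisymm
  · rw [Subgroup.closure_le]
    rintro x ⟨-, -, hx⟩
    exact Subgroup.mem_centralizer_singleton_iff.2 hx.eq.symm
  · intro g hg
    exact L.cmc hP W (Subgroup.mem_centralizer_singleton_iff.1 hg)

theorem Loc.ker_center (x : CG c) : φ x = 1 ↔ x ∈ Subgroup.center (CG c) := by
  rw [L.K.ker, Subgroup.mem_center_iff]
  constructor
  · rintro (rfl | rfl) y
    · rw [one_mul, mul_one]
    · exact (L.K.dc y).symm
  · intro h
    rcases L.cc hP W (g := (x : G)) (by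
      intro e he
      obtain ⟨f, hf, rfl⟩ := (L.mem_Dd hP W).1 he
      exact cm_coe.2 (h f).symm) with h1 | h1
    · left; exact Subtype.ext h1
    · right; exact Subtype.ext (h1.trans L.hc.symm)

theorem Loc.u22 : U22 (QD Δ c) := by
  obtain ⟨e, he⟩ := quot_equiv φ L.K.surj (L.ker_center hP W) (L.HH_eq hP W)
  have hle : ∀ x : HH Δ c, (x : G) ∈ Subgroup.centralizer ({c} : Set G) := fun x => (L.HH_eq hP W).le x.2
  have h : ∀ x : QQ Δ c, x ∈ QD Δ c ↔ e x ∈ D := by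
    intro x
    constructor
    · rintro ⟨y, hy, rfl⟩
      obtain ⟨f, hf, hfy⟩ := (L.mem_Dd hP W).1 hy
      have h1 := he y (hle y)
      have h2 : (⟨y, hle y⟩ : CG c) = f := Subtype.ext hfy.symm
      rw [h2] at h1
      have h3 : e (QuotientGroup.mk y) ∈ D := by
        rw [h1]
        exact L.K.im f hf
      exact h3
    · intro hx
      obtain ⟨f, hf, hfx⟩ := L.K.lift _ hx
      have hm : (f : G) ∈ Dd Δ c := (L.mem_Dd hP W).2 ⟨f, hf, rfl⟩
      have h1 := he ⟨f, mem_HH hm⟩ f.2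
      have h2 : e (QuotientGroup.mk (⟨f, mem_HH hm⟩ : HH Δ c)) = e x := h1.trans hfx
      exact ⟨⟨f, mem_HH hm⟩, hm, e.injective h2⟩
  refine FiUniq.u22 hP (comap_tg e h W.tg) (comap_prim e h W.prim) (FiMu.type22_map e.symm ?_ W.m22)
  intro x
  rw [h, e.apply_symm_apply]

end loc

variable [Finite G] [Finite Q] {Δ : Set G} {D : Set Q}

/-- members are conjugate in the group they generate -/
theorem conj_cl (hP : PSU62Simple) (W : Q22 D) (X : Geo3 Δ)
    (hL : ∀ c ∈ Δ, ∃ (φ : CG c →* Q) (d : CG c) (E : Set (CG c)), Loc Δ D c φ d E) {a b : G} (ha : a ∈ Δ) (hb : b ∈ Δ) :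
    ∃ g ∈ Subgroup.closure Δ, g * a * g⁻¹ = b := by
  have hnc : ∀ a ∈ Δ, ∀ b ∈ Δ, ¬ Commute a b → ∃ g ∈ Subgroup.closure Δ, g * a * g⁻¹ = b := by
    intro a ha b hb h
    have h1 := X.braid_all ha hb h
    have haa := X.inv a ha
    have hbb := X.inv b hb
    have ia : a⁻¹ = a := inv_eq_of_mul_eq_one_left haa
    have ib : b⁻¹ = b := inv_eq_of_mul_eq_one_left hbb
    refine ⟨a * b, mul_mem (Subgroup.subset_closure ha) (Subgroup.subset_closure hb), ?_⟩
    rw [mul_inv_rev, ia, ib]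
    calc a * b * a * (b * a) = (a * b * a) * b * a := by group
      _ = b * a * (b * b) * a := by rw [h1]; group
      _ = b := by rw [hbb, mul_one, mul_assoc, haa, mul_one]
  by_cases hab : Commute a b
  swap
  · exact hnc a ha b hb hab
  by_cases hne : a = b
  · exact ⟨1, one_mem _, by rw [hne]; simp⟩
  have hodd := X.p2 a ha b hb hne hab
  obtain ⟨q, hq, hqa, hqb, ca, cb⟩ := Set.nonempty_of_ncard_ne_zero (fun h => by
    rw [h] at hodd
    exact Nat.not_odd_zero hodd)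
  obtain ⟨φ, d, E, L⟩ := hL q hq
  obtain ⟨g, hg, -, h⟩ := L.conjE hP W (x := a) (y := b) ⟨ha, hqa.symm, ca⟩ ⟨hb, hqb.symm, cb⟩
  exact ⟨g, hg, h⟩

theorem tc (hP : PSU62Simple) (W : Q22 D) (X : Geo3 Δ)
    (hL : ∀ c ∈ Δ, ∃ (φ : CG c →* Q) (d : CG c) (E : Set (CG c)), Loc Δ D c φ d E) : TC Δ := by
  refine ⟨⟨⟨?_, ?_⟩, X.cj, ?_⟩, ?_, ?_, ?_, ?_, X.ne⟩
  · intro d hd
    exact orderOf_eq_prime (by rw [pow_two]; exact X.inv d hd) (X.one d hd)
  · intro d hd e he
    have hdd := X.inv d hd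
    have hee := X.inv e he
    by_cases h : Commute d e
    · left
      calc (d * e) ^ 2 = d * (e * d) * e := by rw [pow_two]; group
        _ = (d * d) * (e * e) := by rw [h.eq.symm]; group
        _ = 1 := by rw [hdd, hee, one_mul]
    · right
      have h1 := X.braid_all hd he h
      calc (d * e) ^ 3 = (d * e * d) * (e * d * e) := by rw [pow_succ, pow_two]; simp only [mul_assoc]
        _ = (d * e * d) * (d * e * d) := by rw [h1]
        _ = d * e * (d * d) * e * d := by group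
        _ = 1 := by rw [hdd, mul_one, mul_assoc d e e, hee, mul_one, hdd]
  · rw [eq_top_iff]
    intro x _
    obtain ⟨d₀, hd₀⟩ := X.ne
    obtain ⟨g, hg, h1⟩ := conj_cl hP W X hL (X.cj x d₀ hd₀) hd₀
    have h2 : g * x * d₀ * (g * x)⁻¹ = d₀ := by
      have e : g * x * d₀ * (g * x)⁻¹ = g * (x * d₀ * x⁻¹) * g⁻¹ := by group
      rw [e, h1]
    obtain ⟨φ, d, E, L⟩ := hL d₀ hd₀
    have h3 := L.cmc hP W (cj_eq_iff.1 h2)
    have h4 : g * x ∈ Subgroup.closure Δ := Subgroup.closure_mono (fun y hy => hy.1) h3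
    have h5 : x = g⁻¹ * (g * x) := by group
    rw [h5]; exact mul_mem (inv_mem hg) h4
  · intro c hc g hg
    obtain ⟨φ, d, E, L⟩ := hL c hc
    exact L.cc hP W hg
  · intro c hc
    obtain ⟨φ, d, E, L⟩ := hL c hc
    exact L.nocen hP W
  · rintro n h1 h6 ⟨l, hl, hnd, hlD, hcm, hp⟩
    exact X.nr l hnd hlD hcm (by omega) (by omega) hp
  · intro c hc
    obtain ⟨φ, d, E, L⟩ := hL c hc
    exact L.u22 hP W

end Cfsg.Agent.Lib.M23G
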