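import Cfsg.Agent.Lib.H92TyM

/-!
# Facts on the presented Fischer group `Fi₂₃` (helper73)
-/

set_option autoImplicit false
set_option linter.all false
set_option maxRecDepth 100000

namespace Cfsg.Agent.Lib.M23F

open Cfsg Cfsg.Spor Cfsg.Agent.Lib.BenesPerm Cfsg.Agent.Lib.BenesAct Cfsg.Agent.Lib.BenesWord
open Cfsg.Agent.Lib.CosetMain Cfsg.Agent.Lib.CoxBridge Cfsg.Agent.Lib.CosetGroup Cfsg.Agent.Lib.CosetInst Cfsg.Agent.Lib.CosetInj
open Cfsg.Agent.Lib.BenesPlane Cfsg.Agent.Lib.CosetClosure Cfsg.Agent.Lib.CosetFacts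
open Cfsg.Agent.Lib.BenesPack Cfsg.Agent.Lib.CosetPack Cfsg.Agent.Lib.CosetOrder Cfsg.Agent.Lib.CosetChain
open Cfsg.Agent.Lib.Fi23Rel Cfsg.Agent.Lib.Fi23NetsA Cfsg.Agent.Lib.Fi23A
open Cfsg.Agent.Lib.H92TyA Cfsg.Agent.Lib.H92TyB Cfsg.Agent.Lib.H92TyL Cfsg.Agent.Lib.H92TyC Cfsg.Agent.Lib.H92Ty23D
open Cfsg.Agent.Lib.H92Ty23

theorem facts : Nat.card ↥(Subgroup.centralizer ({z} : Set G)) = 129123503308800 ∧
    (∃ i, IsConj z (PresentedGroup.of i : G)) ∧ ∃ v : G, IsConj z v ∧ v ≠ z ∧ Commute v z := by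
  obtain ⟨hsimp, hcard, -⟩ := Fi23Ord.main
  obtain ⟨-, hc1, -⟩ := Fi23Real.main _ rfl
  set H : Subgroup G := Subgroup.closure (wset x WS) with hH
  obtain ⟨φ, f, hφ, hf0, hf, hpres, hinj, horb, hfix, hsurj, hidx, -, -⟩ := Fi23AIdx.main H rfl
  have hst : ∀ g : G, φ g 0 = 0 → g ∈ H := by
    intro g h
    have h1 : g • f 0 = f 0 := by rw [hf g 0 (by norm_num), h]
    rw [hf0] at h1
    change ((g * 1 : G) : _ ⧸ H) = ((1 : G) : _ ⧸ H) at h1
    rw [mul_one, eq_comm, QuotientGroup.eq, inv_one, one_mul] at h1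
    exact h1
  have hcen : Subgroup.centralizer ({z} : Set G) = H := cent_eq (by norm_num) comm_H hidx hc1
  obtain ⟨p, La⟩ := exists_lan (φ := φ) (n := 31671) (z := z) horb (by
    intro g
    constructor
    · intro h
      have h1 := hst g h
      rw [← hcen] at h1
      rw [Subgroup.mem_centralizer_singleton_iff.mp h1, mul_inv_cancel_right]
    · intro h
      apply hfix
      rw [← hcen]
      exact Subgroup.mem_centralizer_singleton_iff.mpr (mul_inv_eq_iff_eq_mul.mp h))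
  obtain ⟨e0, e9, e6, e5, e4, e3, e2, e1, ea, e7, e8⟩ := lanes hφ La
  refine ⟨?_, ⟨gen 9, ?_⟩, ⟨x 0, ?_, ?_, ?_⟩⟩
  · rw [hcen]
    have h1 := H.card_mul_index
    have h2 : Nat.card G = 4089470473293004800 := hcard
    rw [hidx, h2] at h1
    omega
  · have h9 : x 9 = PresentedGroup.of (gen 9) := C.x_of_lt L0 (by decide)
    rw [← h9]
    exact La.mem_conj.2 ⟨7999, by norm_num, e9⟩
  · exact La.mem_conj.2 ⟨11589, by norm_num, ea⟩
  · intro h
    rw [← ea, ← e0] at h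
    have h1 := La.inj (by norm_num) (by norm_num) h
    omega
  · exact zrel.2.2 0 (by norm_num)

end Cfsg.Agent.Lib.M23F
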