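import Cfsg.Agent.Lib.M23H73
import Cfsg.Agent.Lib.M23I73
import Cfsg.Agent.Lib.H89EC5
import Cfsg.Agent.Lib.FiAutD73

/-!
# Involution centralizers of type 2.Fi22: the group is `Fi₂₃` (helper73)
-/

set_option autoImplicit false
set_option linter.all false

namespace Cfsg.Agent.Lib.M23G

open Module Cfsg Cfsg.Agent.Lib.ThreeRank3 Cfsg.Agent.Lib.ThreeDescent Cfsg.Agent.Lib.ThreeQuot Cfsg.Agent.Lib.FiPar
  Cfsg.Agent.Lib.ThreeSimple Cfsg.Agent.Lib.ThreeTypes Cfsg.Agent.Lib.FiComp Cfsg.Agent.Lib.FiMu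
open Cfsg.Agent.Lib.H89EB (Cov)
open Cfsg.Agent.Lib.FiHex (HD MT YD)
open Cfsg.Agent.Lib.FiUniq (T22 U22)
open Cfsg.Agent.Lib.FiUniqC (TC)
open Cfsg.Agent.Lib.DC22
open Cfsg.Agent.Lib.H89FB (Bs T3 cj_inj cm_conj cj_eq_iff)

universe v w

variable {G : Type v} [Group G] {Q : Type w} [Group Q] [Finite G] [Finite Q] {Δ : Set G} {D : Set Q}

theorem Loc.card_cent (hP : PSU62Simple) (W : Q22 D) {c : G} {φ : CG c →* Q} {d : CG c}
    {E : Set (CG c)} (L : Loc Δ D c φ d E) : Nat.card ↥(Subgroup.centralizer ({c} : Set G)) = 129123503308800 := by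
  have T : T22 D := FiUniq.t22 hP W.tg W.prim W.m22
  have h1 := H89EC.card_cov L.K
  rw [T.card] at h1
  exact h1

theorem iso23 (hP : PSU62Simple) (W : Q22 D) (X : Geo3 Δ)
    (hL : ∀ c ∈ Δ, ∃ (φ : CG c →* Q) (d : CG c) (E : Set (CG c)), Loc Δ D c φ d E) :
    ∃ e : Spor.Fi23 ≃* G, ∀ x, e (PresentedGroup.of x) ∈ Δ := by
  obtain ⟨e, hinj, hgen⟩ := (tc hP W X hL).exists_hom
  obtain ⟨hcard, ⟨i, hi⟩, v, hv, hvz, hvc⟩ := M23F.facts
  obtain ⟨z, hz⟩ : ∃ z : Spor.Fi23, z = H92Ty23.z := ⟨_, rfl⟩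
  rw [← hz] at hcard hi hv hvz hvc
  have hzΔ : e z ∈ Δ := by
    obtain ⟨g, hg⟩ := isConj_iff.1 hi.symm
    rw [← hg, map_mul, map_mul, map_inv]
    exact X.cj _ _ (hgen i)
  have hC : ∀ g : G, Commute g (e z) → g ∈ e.range := by
    have h1 : (Subgroup.centralizer ({z} : Set Spor.Fi23)).map e ≤ Subgroup.centralizer ({e z} : Set G) := by
      rintro _ ⟨x, hx, rfl⟩
      have h2 : Commute x z := Subgroup.mem_centralizer_singleton_iff.1 hx
      exact Subgroup.mem_centralizer_singleton_iff.2 (h2.map e)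
    have h2 : Nat.card ((Subgroup.centralizer ({z} : Set Spor.Fi23)).map e) = 129123503308800 := by
      rw [← hcard]
      exact (Nat.card_congr ((Subgroup.centralizer ({z} : Set Spor.Fi23)).equivMapOfInjective e hinj).toEquiv).symm
    obtain ⟨φ, d, E, L⟩ := hL _ hzΔ
    have h3 := Subgroup.eq_of_le_of_card_ge h1 (by rw [h2, L.card_cent hP W])
    intro g hg
    have h4 : g ∈ Subgroup.centralizer ({e z} : Set G) := Subgroup.mem_centralizer_singleton_iff.2 hg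
    rw [← h3] at h4
    obtain ⟨x, -, rfl⟩ := h4
    exact ⟨x, rfl⟩
  have key : ∀ u, (∃ h ∈ e.range, h * e z * h⁻¹ = u) → ∀ w ∈ Δ, Commute u w → ∃ h ∈ e.range, h * e z * h⁻¹ = w := by
    rintro u ⟨h, hh, rfl⟩ w hw huw
    by_cases hwu : w = h * e z * h⁻¹
    · exact ⟨h, hh, hwu.symm⟩
    have e1 : h * (h⁻¹ * w * h) * h⁻¹ = w := by group
    have hw' : h⁻¹ * w * h ∈ Dd Δ (e z) := by
      refine ⟨?_, ?_, ?_⟩
      · have := X.cj h⁻¹ w hw
        rwa [inv_inv] at this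
      · intro h1
        apply hwu
        rw [← h1, e1]
      · rw [← cm_conj h, e1]
        exact huw
    have hv' : e v ∈ Dd Δ (e z) := by
      refine ⟨?_, fun h => hvz (hinj h), (hvc.map e).symm⟩
      obtain ⟨k, hk⟩ := isConj_iff.1 hv
      rw [← hk, map_mul, map_mul, map_inv]
      exact X.cj _ _ hzΔ
    obtain ⟨φ, d, E, L⟩ := hL (e z) hzΔ
    obtain ⟨g, -, hg, hgw⟩ := L.conjE hP W hv' hw'
    obtain ⟨k, hk⟩ := isConj_iff.1 hv
    refine ⟨h * g * e k, mul_mem (mul_mem hh (hC g hg)) ⟨k, rfl⟩, ?_⟩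
    calc h * g * e k * e z * (h * g * e k)⁻¹ = h * (g * (e k * e z * (e k)⁻¹) * g⁻¹) * h⁻¹ := by group
      _ = h * (g * e v * g⁻¹) * h⁻¹ := by rw [← map_inv, ← map_mul, ← map_mul, hk]
      _ = h * (h⁻¹ * w * h) * h⁻¹ := by rw [hgw]
      _ = w := e1
  have hall : ∀ w ∈ Δ, ∃ h ∈ e.range, h * e z * h⁻¹ = w := by
    intro w hw
    obtain ⟨q, hq, h1, h2⟩ := X.diam2 hzΔ hw
    have hq' := key (e z) ⟨1, one_mem _, by simp⟩ q hq h1.symm
    exact key q hq' w hw h2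
  have hsurj : Function.Surjective e := by
    intro g
    obtain ⟨h, hh, hg⟩ := hall _ (X.cj g _ hzΔ)
    have h1 : Commute (h⁻¹ * g) (e z) := by
      apply cj_eq_iff.1
      calc h⁻¹ * g * e z * (h⁻¹ * g)⁻¹ = h⁻¹ * (g * e z * g⁻¹) * h := by group
        _ = h⁻¹ * (h * e z * h⁻¹) * h := by rw [hg]
        _ = e z := by group
    have h2 := hC _ h1
    have h3 : g = h * (h⁻¹ * g) := by group
    have h4 : g ∈ e.range := by
      rw [h3]
      exact mul_mem hh h2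
    exact h4
  exact ⟨MulEquiv.ofBijective e ⟨hinj, hsurj⟩, hgen⟩

/-- **the involution centralizer 2.Fi22 determines `Fi₂₃`** -/
theorem main23 (hP : PSU62Simple) {G : Type v} [Group G] [Finite G] {d₀ : G} (hd : orderOf d₀ = 2)
    (hq : Cfsg.IsQuasisimple ↥(Subgroup.centralizer ({d₀} : Set G)))
    [hzn : ((Subgroup.zpowers d₀).subgroupOf (Subgroup.centralizer ({d₀} : Set G))).Normal]
    (htype : ∃ E : Set (H89EF.QD0 d₀), Cfsg.IsThreeTranspositionClass E ∧ Cfsg.IsOfTypeM22 _ E)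
    (hnwc : ∃ g : G, g * d₀ * g⁻¹ ∈ Subgroup.centralizer ({d₀} : Set G) ∧ g * d₀ * g⁻¹ ≠ d₀) :
    IsThreeTranspositionGroup (conjugatesOf d₀) ∧ (∀ a ∈ conjugatesOf d₀, ∀ b ∈ conjugatesOf d₀, ∃ g : G, g * a * g⁻¹ = b) ∧
      ∃ e : Spor.Fi23 ≃* G, ∀ x, e (PresentedGroup.of x) ∈ conjugatesOf d₀ := by
  obtain ⟨d, D₀, E, hd0, K, W, hall, -, hperf⟩ := data23 hP hd hq htype hnwc
  have L₀ : Loc (conjugatesOf d₀) D₀ d₀ _ d E := ⟨hd0, K, fun x => hall x, hperf⟩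
  have hcj : ∀ g : G, ∀ x ∈ conjugatesOf d₀, g * x * g⁻¹ ∈ conjugatesOf d₀ := fun g x hx =>
    (show IsConj d₀ x from hx).trans (isConj_iff.2 ⟨g, rfl⟩)
  have hcl : ∀ a ∈ conjugatesOf d₀, ∀ b ∈ conjugatesOf d₀, ∃ g : G, g * a * g⁻¹ = b := fun a ha b hb =>
    isConj_iff.1 ((show IsConj d₀ a from ha).symm.trans hb)
  have hL : ∀ c ∈ conjugatesOf d₀, ∃ (φ : CG c →* H89EF.QD0 d₀) (d : CG c) (E : Set (CG c)), Loc (conjugatesOf d₀) D₀ c φ d E := by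
    intro c hc
    obtain ⟨g, rfl⟩ := isConj_iff.1 (show IsConj d₀ c from hc)
    exact L₀.conj hcj g
  have X := geo3 hP W hcj hcl ⟨d₀, mem_conjugatesOf_self⟩ hL
  exact ⟨(tc hP W X hL).tg, hcl, iso23 hP W X hL⟩

theorem type23_of_iso {G : Type v} [Group G] {D : Set G} (hc : ∀ g : G, ∀ d ∈ D, g * d * g⁻¹ ∈ D)
    (hcl : ∀ a ∈ D, ∀ b ∈ D, ∃ g : G, g * a * g⁻¹ = b)
    (e : Spor.Fi23 ≃* G) (he : ∀ x, e (PresentedGroup.of x) ∈ D) : IsOfTypeM23 G D := by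
  obtain ⟨-, ⟨i, hi⟩, -⟩ := M23F.facts
  have h0 : e H92Ty23.z ∈ D := by
    obtain ⟨g, hg⟩ := isConj_iff.1 hi.symm
    rw [← hg, map_mul, map_mul, map_inv]
    exact hc _ _ (he i)
  refine FiMu.type23_map e ?_ H92Ty23.type23
  intro x
  constructor
  · intro hx
    obtain ⟨g, hg⟩ := isConj_iff.mp (show IsConj _ x from hx)
    rw [← hg, map_mul, map_mul, map_inv]
    exact hc _ _ h0
  · intro hx
    obtain ⟨g, hg⟩ := hcl _ h0 _ hx
    obtain ⟨h, rfl⟩ := e.surjective g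
    apply isConj_iff.mpr
    refine ⟨h, ?_⟩
    apply e.injective
    rw [map_mul, map_mul, map_inv]
    exact hg

theorem type22_of_iso {Q : Type w} [Group Q] (e : Spor.Fi22 ≃* Q) :
    ∃ E : Set Q, Cfsg.IsThreeTranspositionClass E ∧ Cfsg.IsOfTypeM22 _ E := by
  obtain ⟨h1, -, h2⟩ := H92TyM.m22
  refine ⟨e '' (conjugatesOf (Fi22Rel.C.x Fi22A.L0 0)), FiGlue.class_map h1 e, FiMu.type22_map e ?_ h2⟩
  intro x
  constructor
  · intro hx; exact ⟨x, hx, rfl⟩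
  · rintro ⟨y, hy, hyx⟩
    rwa [← e.injective hyx]

end Cfsg.Agent.Lib.M23G
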