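import Cfsg.Agent.Lib.M22Block
import Cfsg.Agent.Lib.GolaySteiner

/-!
# Elements of prime order in `M24` (helper83)
-/

set_option autoImplicit false
set_option linter.all false

namespace Cfsg.Agent.Lib.M24Count
open Cfsg Cfsg.Agent.Lib.Golay
open Cfsg.Agent.Lib.GolayFix (Fix mem_Fix Fix_mem_Sup)
open Cfsg.Agent.Lib.MathieuFix Cfsg.Agent.Lib.SingleBlock Cfsg.Agent.Lib.MathieuBlock
open Cfsg.Agent.Lib.DefZeroCount Cfsg.Agent.Lib.SylowOrd Cfsg.Agent.Lib.M22Block
open scoped Pointwise

noncomputable instance : Fintype M24 := Fintype.ofFinite _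

lemma fact_M24 {q : ℕ} (hq : q.Prime) {k n : ℕ} (h : 244823040 = q ^ k * n) (hn : ¬ q ∣ n) :
    (Nat.card M24).factorization q = k := by
  rw [natCard_M24, h, Nat.factorization_mul (pow_ne_zero _ hq.ne_zero) (by rintro rfl; simp at hn),
    Nat.factorization_pow]
  simp [hq.factorization_self, Nat.factorization_eq_zero_of_not_dvd hn]

lemma exists_order {q : ℕ} [hq : Fact q.Prime] (hd : q ∣ 244823040) : ∃ x : M24, orderOf x = q := by
  apply exists_prime_orderOf_dvd_card'
  rw [natCard_M24]; exact hd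

lemma card_syl_aux {q : ℕ} [hq : Fact q.Prime] {t N : ℕ} (ht : t ≠ 0) (hd : q ∣ 244823040)
    (hfact : (Nat.card M24).factorization q = 1)
    (hcent : ∀ x : M24, orderOf x = q →
      Nat.card (Subgroup.centralizer ({x} : Set M24)) ∣ q * t)
    (hnum : ∀ c ∈ t.divisors, ∀ d ∈ (q - 1).divisors, ∀ n, n * (q * c * d) = 244823040 →
      n % q = 1 % q → n = N) :
    (ordSet M24 q).card = (q - 1) * N := by
  obtain ⟨x, hx⟩ := exists_order hd
  obtain ⟨c, d, h1, h2, h3, h4⟩ := sylow_count hfact hx
  have hc : c ∣ t := by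
    have := hcent x hx
    rw [h1] at this
    exact Nat.dvd_of_mul_dvd_mul_left hq.out.pos this
  rw [natCard_M24] at h3
  rw [card_ordSet hfact]
  congr 1
  have hq0 := hq.out.two_le
  exact hnum c (Nat.mem_divisors.2 ⟨hc, ht⟩) d (Nat.mem_divisors.2 ⟨h2, by omega⟩) _ h3 h4

lemma card_ord_twentythree : (ordSet M24 23).card = 21288960 := by
  haveI : Fact (Nat.Prime 23) := ⟨by norm_num⟩
  have h := card_syl_aux (q := 23) (t := 1) (N := 967680) (by norm_num) (by norm_num)
    (fact_M24 (by norm_num) (k := 1) (n := 10644480) (by norm_num) (by norm_num))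
    (fun x hx => by
      have h1 := card_centralizer_dvd le_rfl (by norm_num) hx ∅ (by simp) (by simp)
      have h2 := card_Fix_prime x.2 (q := 23) (by rw [Subgroup.orderOf_coe]; exact hx)
      have h3 : (Fix (x : Equiv.Perm GolayPt)).card = 1 := by omega
      rw [h3] at h1
      exact h1) (by
      intro c hc d hd n h1 h2
      have e1 : Nat.divisors 1 = {1} := by decide
      have e2 : Nat.divisors (23 - 1) = {1, 2, 11, 22} := by decide
      rw [e1] at hc
      rw [e2] at hd
      simp only [Finset.mem_insert, Finset.mem_singleton] at hc hd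
      subst hc
      rcases hd with rfl | rfl | rfl | rfl <;> omega)
  rw [h]

lemma card_ord_eleven : (ordSet M24 11).card = 22256640 := by
  haveI : Fact (Nat.Prime 11) := ⟨by norm_num⟩
  have h := card_syl_aux (q := 11) (t := 2) (N := 2225664) (by norm_num) (by norm_num)
    (fact_M24 (by norm_num) (k := 1) (n := 22256640) (by norm_num) (by norm_num))
    (fun x hx => by
      have h1 := card_centralizer_dvd le_rfl (by norm_num) hx ∅ (by simp) (by simp)
      have h2 := card_Fix_prime x.2 (q := 11) (by rw [Subgroup.orderOf_coe]; exact hx)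
      have h3 : (Fix (x : Equiv.Perm GolayPt)).card = 2 := by omega
      rw [h3] at h1
      exact h1) (by
      intro c hc d hd n h1 h2
      have e1 : Nat.divisors 2 = {1, 2} := by decide
      have e2 : Nat.divisors (11 - 1) = {1, 2, 5, 10} := by decide
      rw [e1] at hc
      rw [e2] at hd
      simp only [Finset.mem_insert, Finset.mem_singleton] at hc hd
      rcases hc with rfl | rfl <;> rcases hd with rfl | rfl | rfl | rfl <;> omega)
  rw [h]

/-- elements of order `q` fixing two given points -/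
def SS (q : ℕ) (a b : GolayPt) : Set (Equiv.Perm GolayPt) :=
  {g | g ∈ M24 ∧ orderOf g = q ∧ g a = a ∧ g b = b}

lemma ncard_SS_conj {q : ℕ} {a b : GolayPt} {k : Equiv.Perm GolayPt} (hk : k ∈ M24) :
    (SS q (k a) (k b)).ncard = (SS q a b).ncard := by
  have h : SS q (k a) (k b) = (fun g => k * g * k⁻¹) '' SS q a b := by
    ext g
    constructor
    · rintro ⟨h1, h2, h3, h4⟩
      refine ⟨k⁻¹ * g * k, ⟨M24.mul_mem (M24.mul_mem (M24.inv_mem hk) h1) hk, ?_, ?_, ?_⟩, by group⟩
      · rw [← h2]
        have := orderOf_injective (MulAut.conj k⁻¹).toMonoidHom (MulAut.conj k⁻¹).injective g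
        simpa using this
      · show k⁻¹ (g (k a)) = a
        rw [h3, perm_inv_apply]
      · show k⁻¹ (g (k b)) = b
        rw [h4, perm_inv_apply]
    · rintro ⟨g, ⟨h1, h2, h3, h4⟩, rfl⟩
      refine ⟨M24.mul_mem (M24.mul_mem hk h1) (M24.inv_mem hk), ?_, ?_, ?_⟩
      · rw [← h2]
        have := orderOf_injective (MulAut.conj k).toMonoidHom (MulAut.conj k).injective g
        simpa using this
      · show k (g (k⁻¹ (k a))) = k a
        rw [perm_inv_apply, h3]
      · show k (g (k⁻¹ (k b))) = k b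
        rw [perm_inv_apply, h4]
  rw [h, Set.ncard_image_of_injective]
  intro x y hxy
  simpa using hxy

lemma card_filter_eq {q : ℕ} (a b : GolayPt) :
    ((ordSet M24 q).filter (fun g : M24 => (g : Equiv.Perm GolayPt) a = a ∧
      (g : Equiv.Perm GolayPt) b = b)).card = (SS q a b).ncard := by
  classical
  rw [← Set.ncard_coe_finset, ← Set.ncard_image_of_injective _ (Subtype.val_injective)]
  congr 1
  ext g
  simp only [Set.mem_image, Finset.mem_coe, Finset.mem_filter, mem_ordSet, SS, Set.mem_setOf_eq]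
  constructor
  · rintro ⟨g, ⟨h1, h2, h3⟩, rfl⟩
    exact ⟨g.2, by rw [Subgroup.orderOf_coe]; exact h1, h2, h3⟩
  · rintro ⟨h0, h1, h2, h3⟩
    exact ⟨⟨g, h0⟩, ⟨by rw [← Subgroup.orderOf_coe]; exact h1, h2, h3⟩, rfl⟩

lemma card_M22_eq {q : ℕ} : (ordSet Spor.M22 q).card = (SS q none (some 0)).ncard := by
  classical
  rw [← Set.ncard_coe_finset, ← Set.ncard_image_of_injective _ (Subtype.val_injective)]
  congr 1
  ext g
  simp only [Set.mem_image, Finset.mem_coe, mem_ordSet, SS, Set.mem_setOf_eq]
  constructor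
  · rintro ⟨g, h1, rfl⟩
    have := mem_M22.1 g.2
    exact ⟨this.1, by rw [Subgroup.orderOf_coe]; exact h1, this.2.1, this.2.2⟩
  · rintro ⟨h0, h1, h2, h3⟩
    exact ⟨⟨g, mem_M22.2 ⟨h0, h2, h3⟩⟩, by rw [← Subgroup.orderOf_coe]; exact h1, rfl⟩

lemma card_fix_pair {q : ℕ} {a b : GolayPt} (hab : a ≠ b) :
    ((ordSet M24 q).filter (fun g : M24 => (g : Equiv.Perm GolayPt) a = a ∧
      (g : Equiv.Perm GolayPt) b = b)).card = (ordSet Spor.M22 q).card := by
  obtain ⟨k, hk, h1, h2⟩ := exists_two (a := (none : GolayPt)) (b := (some 0 : GolayPt)) (by decide) hab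
  rw [card_filter_eq, card_M22_eq, ← h1, ← h2, ncard_SS_conj hk]

/-- double counting -/
theorem card_ord_mul {q f : ℕ} (hf : ∀ g : M24, orderOf g = q → (Fix (g : Equiv.Perm GolayPt)).card = f) :
    (ordSet M24 q).card * (f * f - f) = 552 * (ordSet Spor.M22 q).card := by
  classical
  have h1 := Finset.sum_card_bipartiteAbove_eq_sum_card_bipartiteBelow
    (s := ordSet M24 q) (t := (Finset.univ : Finset GolayPt).offDiag)
    (fun (g : M24) (p : GolayPt × GolayPt) => (g : Equiv.Perm GolayPt) p.1 = p.1 ∧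
      (g : Equiv.Perm GolayPt) p.2 = p.2)
  have h2 : ∀ g ∈ ordSet M24 q, (Finset.bipartiteAbove (fun (g : M24) (p : GolayPt × GolayPt) =>
      (g : Equiv.Perm GolayPt) p.1 = p.1 ∧ (g : Equiv.Perm GolayPt) p.2 = p.2)
      (Finset.univ : Finset GolayPt).offDiag g).card = f * f - f := by
    intro g hg
    have h3 : Finset.bipartiteAbove (fun (g : M24) (p : GolayPt × GolayPt) =>
      (g : Equiv.Perm GolayPt) p.1 = p.1 ∧ (g : Equiv.Perm GolayPt) p.2 = p.2)
      (Finset.univ : Finset GolayPt).offDiag g = (Fix (g : Equiv.Perm GolayPt)).offDiag := by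
      ext ⟨a, b⟩
      simp only [Finset.bipartiteAbove, Finset.mem_filter, Finset.mem_offDiag, mem_Fix]
      constructor
      · rintro ⟨⟨-, -, h⟩, h1, h2⟩
        exact ⟨h1, h2, h⟩
      · rintro ⟨h1, h2, h⟩
        exact ⟨⟨Finset.mem_univ _, Finset.mem_univ _, h⟩, h1, h2⟩
    rw [h3, Finset.offDiag_card, hf g (mem_ordSet.1 hg)]
  have h4 : ∀ p ∈ (Finset.univ : Finset GolayPt).offDiag, (Finset.bipartiteBelow
      (fun (g : M24) (p : GolayPt × GolayPt) =>
      (g : Equiv.Perm GolayPt) p.1 = p.1 ∧ (g : Equiv.Perm GolayPt) p.2 = p.2)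
      (ordSet M24 q) p).card = (ordSet Spor.M22 q).card := by
    intro p hp
    exact card_fix_pair (Finset.mem_offDiag.1 hp).2.2
  rw [Finset.sum_congr rfl h2, Finset.sum_congr rfl h4, Finset.sum_const, Finset.sum_const,
    Finset.offDiag_card, Finset.card_univ, card_pt, smul_eq_mul, smul_eq_mul] at h1
  exact h1

lemma card_ord_seven : (ordSet M24 7).card = 11658240 := by
  haveI : Fact (Nat.Prime 7) := ⟨by norm_num⟩
  have h := card_ord_mul (q := 7) (f := 3) (fun g hg => by
    have h2 := card_Fix_prime g.2 (q := 7) (by rw [Subgroup.orderOf_coe]; exact hg)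
    omega)
  rw [M22Block.card_ord_seven] at h
  omega

lemma card_ord_five : (ordSet M24 5).card = 4080384 := by
  haveI : Fact (Nat.Prime 5) := ⟨by norm_num⟩
  have h := card_ord_mul (q := 5) (f := 4) (fun g hg => by
    have h2 := card_Fix_prime g.2 (q := 5) (by rw [Subgroup.orderOf_coe]; exact hg)
    omega)
  rw [M22Block.card_ord_five] at h
  omega

/-- 4 divides the order of the centralizer of an element of order 5 -/
lemma four_dvd_centralizer {x : M24} (hx : orderOf x = 5) :
    4 ∣ Nat.card (Subgroup.centralizer ({x} : Set M24)) := by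
  haveI : Fact (Nat.Prime 5) := ⟨by norm_num⟩
  have hfact := fact_M24 (q := 5) (by norm_num) (k := 1) (n := 48964608) (by norm_num) (by norm_num)
  obtain ⟨c, d, h1, h2, h3, h4⟩ := sylow_count hfact hx
  have h5 := card_ordSet hfact
  rw [card_ord_five] at h5
  have h6 : Nat.card (Sylow 5 M24) = 1020096 := by omega
  rw [h6, natCard_M24] at h3
  have h7 : c * d = 48 := by
    have : 1020096 * (5 * (c * d)) = 244823040 := by rw [← h3]; ring
    omega
  rw [h1]
  have e2 : Nat.divisors (5 - 1) = {1, 2, 4} := by decide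
  have h8 : d ∈ Nat.divisors (5 - 1) := Nat.mem_divisors.2 ⟨h2, by norm_num⟩
  rw [e2] at h8
  simp only [Finset.mem_insert, Finset.mem_singleton] at h8
  rcases h8 with rfl | rfl | rfl
  · omega
  · omega
  · omega

/-- an element of order 7 commutes with an involution -/
lemma exists_involution {x : M24} (hx : orderOf x = 7) :
    ∃ u : M24, orderOf u = 2 ∧ Commute u x := by
  classical
  haveI : Fact (Nat.Prime 7) := ⟨by norm_num⟩
  have hP : IsPGroup 7 (Subgroup.zpowers x) := by
    apply IsPGroup.of_card (n := 1)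
    rw [Nat.card_zpowers, hx, pow_one]
  -- a fixed octad
  letI act : MulAction (Subgroup.zpowers x) octads :=
    { smul := fun g o => ⟨((g : M24) : Equiv.Perm GolayPt) • (o : Finset GolayPt),
        (smul_mem_octads (g : M24).2).2 o.2⟩
      one_smul := fun o => Subtype.ext (one_smul _ _)
      mul_smul := fun a b o => Subtype.ext (mul_smul _ _ _) }
  have h1 := hP.card_modEq_card_fixedPoints octads
  have h2 : Nat.card octads = 759 := ncard_octads
  rw [h2] at h1
  have h3 : 0 < Nat.card (MulAction.fixedPoints (Subgroup.zpowers x) octads) := by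
    rw [Nat.pos_iff_ne_zero]
    intro h0
    rw [h0] at h1
    exact absurd h1 (by decide)
  obtain ⟨⟨o, ho⟩⟩ : Nonempty (MulAction.fixedPoints (Subgroup.zpowers x) octads) := by
    rw [← not_isEmpty_iff]
    intro hem
    rw [Nat.card_of_isEmpty] at h3
    exact lt_irrefl _ h3
  have hoo : ∀ g ∈ Subgroup.zpowers x, ((g : M24) : Equiv.Perm GolayPt) • (o : Finset GolayPt) = o := by
    intro g hg
    exact congrArg Subtype.val (ho ⟨g, hg⟩)
  -- conjugation action on the pointwise stabiliser
  have hconj : ∀ g ∈ Subgroup.zpowers x, ∀ h ∈ OctPt (o : Finset GolayPt),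
      ((g : M24) : Equiv.Perm GolayPt) * h * ((g : M24) : Equiv.Perm GolayPt)⁻¹ ∈ OctPt (o : Finset GolayPt) := by
    intro g hg h hh
    have h4 := hoo g hg
    rw [← h4]
    rw [OctPt_conj g.2]
    have e : ((g : M24) : Equiv.Perm GolayPt)⁻¹ * (((g : M24) : Equiv.Perm GolayPt) * h *
      ((g : M24) : Equiv.Perm GolayPt)⁻¹) * ((g : M24) : Equiv.Perm GolayPt) = h := by group
    rw [e]; exact hh
  letI act2 : MulAction (Subgroup.zpowers x) (OctPt (o : Finset GolayPt)) :=
    { smul := fun g h => ⟨((g : M24) : Equiv.Perm GolayPt) * h * ((g : M24) : Equiv.Perm GolayPt)⁻¹,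
        hconj g g.2 h h.2⟩
      one_smul := fun h => Subtype.ext (by
        show ((1 : M24) : Equiv.Perm GolayPt) * h * ((1 : M24) : Equiv.Perm GolayPt)⁻¹ = h
        simp)
      mul_smul := fun a b h => Subtype.ext (by
        show (((a * b : Subgroup.zpowers x) : M24) : Equiv.Perm GolayPt) * h *
          (((a * b : Subgroup.zpowers x) : M24) : Equiv.Perm GolayPt)⁻¹ =
          ((a : M24) : Equiv.Perm GolayPt) * (((b : M24) : Equiv.Perm GolayPt) * h *
            ((b : M24) : Equiv.Perm GolayPt)⁻¹) * ((a : M24) : Equiv.Perm GolayPt)⁻¹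
        have : (((a * b : Subgroup.zpowers x) : M24) : Equiv.Perm GolayPt) =
          ((a : M24) : Equiv.Perm GolayPt) * ((b : M24) : Equiv.Perm GolayPt) := rfl
        rw [this]; group) }
  have h5 := hP.card_modEq_card_fixedPoints (OctPt (o : Finset GolayPt))
  rw [card_OctPt o.2] at h5
  have h6 : 1 < Nat.card (MulAction.fixedPoints (Subgroup.zpowers x) (OctPt (o : Finset GolayPt))) := by
    by_contra hn
    push Not at hn
    have h7 : Nat.card (MulAction.fixedPoints (Subgroup.zpowers x) (OctPt (o : Finset GolayPt))) = 0 ∨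
      Nat.card (MulAction.fixedPoints (Subgroup.zpowers x) (OctPt (o : Finset GolayPt))) = 1 := by omega
    rcases h7 with h7 | h7 <;> · rw [h7] at h5; exact absurd h5 (by decide)
  have h8 := (Finite.one_lt_card_iff_nontrivial.1 h6)
  obtain ⟨⟨u, hu⟩, hu1⟩ := exists_ne (⟨1, by
    intro g
    apply Subtype.ext
    show ((g : M24) : Equiv.Perm GolayPt) * 1 * ((g : M24) : Equiv.Perm GolayPt)⁻¹ = 1
    simp⟩ : MulAction.fixedPoints (Subgroup.zpowers x) (OctPt (o : Finset GolayPt)))
  have hu1' : (u : Equiv.Perm GolayPt) ≠ 1 := by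
    intro h
    apply hu1
    apply Subtype.ext
    exact Subtype.ext h
  have huM := (mem_OctPt.1 u.2).1
  refine ⟨⟨u, huM⟩, ?_, ?_⟩
  · rw [orderOf_eq_prime_iff]
    refine ⟨?_, fun h => hu1' (congrArg Subtype.val h)⟩
    apply Subtype.ext
    show (u : Equiv.Perm GolayPt) ^ 2 = 1
    rw [sq]; exact OctPt_sq o.2 u.2
  · have h9 := congrArg Subtype.val (hu ⟨x, Subgroup.mem_zpowers x⟩)
    have h10 : (x : Equiv.Perm GolayPt) * u * (x : Equiv.Perm GolayPt)⁻¹ = u := h9
    rw [mul_inv_eq_iff_eq_mul] at h10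
    show (⟨u, huM⟩ : M24) * x = x * ⟨u, huM⟩
    apply Subtype.ext
    exact h10.symm

/-- `M24` has no character of 2-defect zero -/
theorem no_defect_zero (χ : IrrCharacter M24) :
    ¬ (Nat.card M24).factorization 2 ≤ (charDegree (χ : M24 → ℂ)).factorization 2 := by
  classical
  intro hle
  have hf2 := fact_M24 (q := 2) (k := 10) (n := 239085) (by norm_num) (by norm_num) (by norm_num)
  set f : M24 → ℂ := (χ : M24 → ℂ) with hf
  have hχ : IsIrrCharacter M24 f := χ.2
  have hvan : ∀ x : M24, 2 ∣ orderOf x → f x = 0 := fun x hx => vanish Nat.prime_two hχ hle hx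
  set a := charDegree f with ha
  have ha1 : f 1 = a := (DefectZero.charDegree_eq hχ.isCharacter).symm
  have hapos : 0 < a := DefectZero.charDegree_pos hχ
  have h1024 : 2 ^ 10 ∣ a := by
    rw [hf2] at hle
    exact (Nat.prime_two.pow_dvd_iff_le_factorization hapos.ne').2 hle
  have hdvd : a ∣ 244823040 := by
    rw [← natCard_M24]; exact DefectZero.charDegree_dvd hχ
  have hnorm := sum_norm_sq hχ
  rw [natCard_M24] at hnorm
  -- the subset
  have hd : ∀ {q r : ℕ}, q ≠ r → Disjoint (ordSet M24 q) (ordSet M24 r) := by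
    intro q r hqr
    rw [Finset.disjoint_left]
    intro g hg hg'
    rw [mem_ordSet] at hg hg'
    exact hqr (hg.symm.trans hg')
  set U : Finset M24 := (((ordSet M24 1 ∪ ordSet M24 5) ∪ ordSet M24 7) ∪ ordSet M24 11) ∪
    ordSet M24 23 with hU
  have hUsum : ∀ F : M24 → ℝ, ∑ g ∈ U, F g = F 1 + ∑ g ∈ ordSet M24 5, F g +
      ∑ g ∈ ordSet M24 7, F g + ∑ g ∈ ordSet M24 11, F g + ∑ g ∈ ordSet M24 23, F g := by
    intro F
    have h1 : ordSet M24 1 = {1} := by
      ext g
      rw [mem_ordSet, Finset.mem_singleton, orderOf_eq_one_iff]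
    rw [hU, Finset.sum_union, Finset.sum_union, Finset.sum_union, Finset.sum_union (hd (by norm_num)),
      h1, Finset.sum_singleton]
    · rw [Finset.disjoint_union_left]; exact ⟨hd (by norm_num), hd (by norm_num)⟩
    · rw [Finset.disjoint_union_left, Finset.disjoint_union_left]
      exact ⟨⟨hd (by norm_num), hd (by norm_num)⟩, hd (by norm_num)⟩
    · rw [Finset.disjoint_union_left, Finset.disjoint_union_left, Finset.disjoint_union_left]
      exact ⟨⟨⟨hd (by norm_num), hd (by norm_num)⟩, hd (by norm_num)⟩, hd (by norm_num)⟩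
  have hUle : ∑ g ∈ U, ‖f g‖ ^ 2 ≤ ∑ g, ‖f g‖ ^ 2 :=
    Finset.sum_le_sum_of_subset_of_nonneg (Finset.subset_univ _) (fun _ _ _ => by positivity)
  have hU1 := hUsum (fun g => ‖f g‖ ^ 2)
  have hf1 : ‖f 1‖ ^ 2 = (a : ℝ) ^ 2 := by rw [ha1]; simp
  simp only [hf1] at hU1
  rw [hU1] at hUle
  set S5 := ∑ g ∈ ordSet M24 5, ‖f g‖ ^ 2 with hS5
  set S7 := ∑ g ∈ ordSet M24 7, ‖f g‖ ^ 2 with hS7
  set S11 := ∑ g ∈ ordSet M24 11, ‖f g‖ ^ 2 with hS11
  set S23 := ∑ g ∈ ordSet M24 23, ‖f g‖ ^ 2 with hS23
  rw [hnorm] at hUle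
  have hS5' : 0 ≤ S5 := Finset.sum_nonneg fun _ _ => by positivity
  have hS7' : 0 ≤ S7 := Finset.sum_nonneg fun _ _ => by positivity
  have hS11' : 0 ≤ S11 := Finset.sum_nonneg fun _ _ => by positivity
  have hS23' : 0 ≤ S23 := Finset.sum_nonneg fun _ _ => by positivity
  have h5 : ¬ 5 ∣ a → (65286144 : ℝ) ≤ S5 := by
    intro h
    have := sum_order_ge_of_dvd (q := 5) (c := 4) hχ.isCharacter (by norm_num) ha1 h (by norm_num)
      (by
        intro g hg
        haveI : Fact (Nat.Prime 2) := ⟨Nat.prime_two⟩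
        obtain ⟨K, hK⟩ := Sylow.exists_subgroup_card_pow_prime 2 (n := 2) (four_dvd_centralizer hg)
        have hK' : Nat.card (K.map (Subgroup.centralizer ({g} : Set M24)).subtype) = 4 := by
          rw [Subgroup.card_map_of_injective (Subgroup.subtype_injective _), hK]; norm_num
        have := div_integral Nat.prime_two hχ.isCharacter hvan
          (P := K.map (Subgroup.centralizer ({g} : Set M24)).subtype)
          (IsPGroup.of_card (n := 2) (by rw [hK']; norm_num)) (g := g) (by rw [hg]; norm_num) (by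
            rintro _ ⟨u, -, rfl⟩
            exact Subgroup.mem_centralizer_singleton_iff.1 u.2)
        rw [hK'] at this
        exact this)
    rw [card_ord_five] at this
    norm_num at this
    exact this
  have h7 : ¬ 7 ∣ a → (46632960 : ℝ) ≤ S7 := by
    intro h
    have := sum_order_ge_of_dvd (q := 7) (c := 2) hχ.isCharacter (by norm_num) ha1 h (by norm_num)
      (by
        intro g hg
        obtain ⟨u, hu, hug⟩ := exists_involution hg
        have hu2 : Nat.card (Subgroup.zpowers u) = 2 := by rw [Nat.card_zpowers, hu]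
        have := div_integral Nat.prime_two hχ.isCharacter hvan
          (P := Subgroup.zpowers u)
          (IsPGroup.of_card (n := 1) (by rw [hu2]; norm_num)) (g := g) (by rw [hg]; norm_num) (by
            intro v hv
            obtain ⟨k, rfl⟩ := Subgroup.mem_zpowers_iff.1 hv
            exact hug.zpow_left k)
        rw [hu2] at this
        exact this)
    rw [card_ord_seven] at this
    norm_num at this
    exact this
  have h11 := fun k r hk => sum_order_ge (q := 11) (k := k) (r := r) hχ.isCharacter (by norm_num) ha1 hk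
  have h23 := fun k r hk => sum_order_ge (q := 23) (k := k) (r := r) hχ.isCharacter (by norm_num) ha1 hk
  rw [card_ord_eleven] at h11
  rw [card_ord_twentythree] at h23
  -- possible degrees
  obtain ⟨m, hm⟩ := h1024
  have hm0 : 0 < m := by
    rcases Nat.eq_zero_or_pos m with h | h
    · rw [h] at hm; omega
    · exact h
  have hmle : m ≤ 15 := by
    by_contra hn
    push Not at hn
    have : (16384 : ℝ) ≤ a := by
      have : 16384 ≤ a := by rw [hm]; omega
      exact_mod_cast this
    have h3 : (16384 : ℝ) ^ 2 ≤ (a : ℝ) ^ 2 := by gcongr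
    push_cast at hUle
    linarith
  have hmd : m ∣ 239085 := by
    rw [hm] at hdvd
    have : 2 ^ 10 * m ∣ 2 ^ 10 * 239085 := by
      have e : 2 ^ 10 * 239085 = 244823040 := by norm_num
      rw [e]; exact hdvd
    exact Nat.dvd_of_mul_dvd_mul_left (by norm_num) this
  interval_cases m
  · have ha' : (a : ℝ) = 1024 := by rw [hm]; norm_num
    have e5 := h5 (by rw [hm]; norm_num)
    have e7 := h7 (by rw [hm]; norm_num)
    have e11 := h11 93 1 (by rw [hm]; norm_num)
    have e23 := h23 44 12 (by rw [hm]; norm_num)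
    rw [ha'] at hUle
    norm_num at e11 e23 hUle
    linarith
  · norm_num at hmd
  · have ha' : (a : ℝ) = 3072 := by rw [hm]; norm_num
    have e5 := h5 (by rw [hm]; norm_num)
    have e7 := h7 (by rw [hm]; norm_num)
    have e11 := h11 279 3 (by rw [hm]; norm_num)
    have e23 := h23 133 13 (by rw [hm]; norm_num)
    rw [ha'] at hUle
    norm_num at e11 e23 hUle
    linarith
  · norm_num at hmd
  · have ha' : (a : ℝ) = 5120 := by rw [hm]; norm_num
    have e7 := h7 (by rw [hm]; norm_num)
    have e11 := h11 465 5 (by rw [hm]; norm_num)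
    have e23 := h23 222 14 (by rw [hm]; norm_num)
    rw [ha'] at hUle
    norm_num at e11 e23 hUle
    linarith
  · norm_num at hmd
  · have ha' : (a : ℝ) = 7168 := by rw [hm]; norm_num
    have e5 := h5 (by rw [hm]; norm_num)
    have e11 := h11 651 7 (by rw [hm]; norm_num)
    have e23 := h23 311 15 (by rw [hm]; norm_num)
    rw [ha'] at hUle
    norm_num at e11 e23 hUle
    linarith
  · norm_num at hmd
  · have ha' : (a : ℝ) = 9216 := by rw [hm]; norm_num
    have e7 := h7 (by rw [hm]; norm_num)
    have e11 := h11 837 9 (by rw [hm]; norm_num)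
    have e23 := h23 400 16 (by rw [hm]; norm_num)
    rw [ha'] at hUle
    norm_num at e11 e23 hUle
    linarith
  · norm_num at hmd
  · have ha' : (a : ℝ) = 11264 := by rw [hm]; norm_num
    have e7 := h7 (by rw [hm]; norm_num)
    have e23 := h23 489 17 (by rw [hm]; norm_num)
    rw [ha'] at hUle
    norm_num at e23 hUle
    linarith
  · norm_num at hmd
  · norm_num at hmd
  · norm_num at hmd
  · have ha' : (a : ℝ) = 15360 := by rw [hm]; norm_num
    have e23 := h23 667 19 (by rw [hm]; norm_num)
    rw [ha'] at hUle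
    norm_num at e23 hUle
    linarith

end Cfsg.Agent.Lib.M24Count
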