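import Cfsg.Agent.Lib.GolayFrames
import Cfsg.Agent.Lib.GolayCoset
import Cfsg.Agent.Lib.MathieuFix

/-!
# The involutions of `M24` (helper83)

* `conj_c0` : every fixed-point-free involution of `M24` is conjugate to `toPerm c0`
* `conj_d0` : every involution of `M24` with a fixed point is conjugate to `toPerm d0`
-/

set_option autoImplicit false
set_option linter.all false

namespace Cfsg.Agent.Lib.M24Inv
open Cfsg Cfsg.Agent.Lib.Golay
open Cfsg.Agent.Lib.GolayFix (Fix mem_Fix Fix_mem_Sup)
open Cfsg.Agent.Lib.GolayCoset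
open Cfsg.Agent.Lib.MathieuFix
open scoped Pointwise

/-- code of a fixed-point-free involution -/
def c0 : ℕ := 14693711278714818796648777220523095

theorem inM_c0 : inM c0 = true := by decide +kernel

theorem c0_sq : toPerm c0 * toPerm c0 = 1 := by
  rw [← toPerm_mulC (valid_of_inM inM_c0) (valid_of_inM inM_c0), ← toPerm_cId]
  exact congrArg toPerm (by decide +kernel)

theorem c0_fI : ∀ i : Fin 6, toPerm c0 (fI i) = fI (![1, 0, 3, 2, 5, 4] i) := by
  intro i
  rw [toPerm_apply (valid_of_inM inM_c0)]
  revert i
  decide +kernel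

theorem c0_free : ∀ p, toPerm c0 p ≠ p := by
  intro p
  rw [toPerm_apply (valid_of_inM inM_c0)]
  revert p
  decide +kernel

/-- conjugating elements -/
def hs : List ℕ := [984818244535754528103549039458486304, 756012019744213590084851730190959339,
  767694572507259806287458726699172584, 851921513519798898444734661022417653,
  672935219831431705180537723191624428, 192792747836872317977076595049104107]

/-- does `c` fix no point -/
def noFix (c : ℕ) : Bool := allLt 24 fun i => ! (Nat.beq (img c i) i)

/-- is the square of `c` trivial -/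
def isInv (c : ℕ) : Bool := allLt 24 fun i => Nat.beq (img c (img c i)) i

def chk (d : ℕ) : Bool :=
  cond (isInv (mulC c0 d)) (cond (noFix (mulC c0 d))
    (hs.any fun h => cond (inM h) (Nat.beq (mulC h c0) (mulC (mulC c0 d) h)) false) true) true

theorem chk_all : tr6.all chk = true := by decide +kernel

theorem isInv_of {v : ℕ} (hv : valid v = true) (h : toPerm v * toPerm v = 1) : isInv v = true := by
  rw [isInv, allLt_iff]
  intro i hi
  have h1 : (toPerm v * toPerm v) (pt i) = pt i := by rw [h]; rfl
  rw [Equiv.Perm.mul_apply, toPerm_pt hv hi, toPerm_pt hv (img_lt hv hi)] at h1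
  have h2 := congrArg ix h1
  rw [ix_pt (img_lt hv (img_lt hv hi)), ix_pt hi] at h2
  rw [h2]
  exact Nat.beq_refl i

theorem noFix_of {v : ℕ} (hv : valid v = true) (h : ∀ p, toPerm v p ≠ p) : noFix v = true := by
  rw [noFix, allLt_iff]
  intro i hi
  have h1 := h (pt i)
  rw [toPerm_pt hv hi] at h1
  rw [Bool.not_eq_true', ← Bool.not_eq_true]
  intro h2
  exact h1 (congrArg pt (Nat.eq_of_beq_eq_true h2))

/-- an involution on a finset of odd cardinality has a fixed point -/
theorem exists_fixed {α : Type*} [DecidableEq α] (s : Finset α) (f : α → α) (hf : ∀ a ∈ s, f a ∈ s)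
    (hff : ∀ a ∈ s, f (f a) = a) (hodd : s.card % 2 = 1) : ∃ a ∈ s, f a = a := by
  by_contra hn
  push Not at hn
  have h1 : ∑ a ∈ s, (1 : ZMod 2) = 0 := by
    apply Finset.sum_involution (fun a _ => f a)
    · intro a ha; decide
    · intro a ha _; exact hn a ha
    · intro a ha; exact hf a ha
    · intro a ha; exact hff a ha
  rw [Finset.sum_const, nsmul_eq_mul, mul_one] at h1
  have h2 := (ZMod.natCast_eq_zero_iff s.card 2).1 h1
  omega

/-- the frame of a fixed-point-free involution -/
theorem exists_frame {u : Equiv.Perm GolayPt} (hu : u ∈ M24) (h2 : u * u = 1) (hf : ∀ p, u p ≠ p) :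
    ∃ x : Fin 6 → GolayPt, Function.Injective x ∧ InOct x ∧ ∀ i, u (x i) = x (![1, 0, 3, 2, 5, 4] i) := by
  classical
  have huu : ∀ p, u (u p) = p := fun p => by rw [← Equiv.Perm.mul_apply, h2]; rfl
  obtain ⟨a, b, hab, hab'⟩ : ∃ a b : GolayPt, b ≠ a ∧ b ≠ u a := by
    by_contra hn
    push Not at hn
    have : (Finset.univ : Finset GolayPt) ⊆ {none, u none} := by
      intro p _
      rw [Finset.mem_insert, Finset.mem_singleton]
      by_cases hp : p = none
      · exact Or.inl hp
      · exact Or.inr (hn none p hp)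
    have h3 := Finset.card_le_card this
    rw [Finset.card_univ, card_pt] at h3
    have h4 : ({none, u none} : Finset GolayPt).card ≤ 2 := Finset.card_le_two
    omega
  have hbu : u b ≠ a := fun h => hab' (by rw [← h, huu])
  have hbu' : u b ≠ u a := fun h => hab (u.injective h)
  set T : Finset GolayPt := {a, u a, b, u b} with hT
  have hT4 : T.card = 4 := by
    rw [hT, Finset.card_insert_of_notMem, Finset.card_insert_of_notMem, Finset.card_insert_of_notMem,
      Finset.card_singleton]
    · rw [Finset.mem_singleton]; exact fun h => hf b h.symm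
    · rw [Finset.mem_insert, Finset.mem_singleton, not_or]
      exact ⟨fun h => hab' h.symm, fun h => hbu' h.symm⟩
    · rw [Finset.mem_insert, Finset.mem_insert, Finset.mem_singleton, not_or, not_or]
      exact ⟨fun h => hf a h.symm, fun h => hab h.symm, fun h => hbu h.symm⟩
  have huT : u • T = T := by
    apply Finset.eq_of_subset_of_card_le
    · intro y hy
      obtain ⟨x, hx, rfl⟩ := (mem_smul_iff _ _ _).1 hy
      rw [hT] at hx ⊢
      simp only [Finset.mem_insert, Finset.mem_singleton] at hx ⊢
      rcases hx with rfl | rfl | rfl | rfl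
      · exact Or.inr (Or.inl rfl)
      · exact Or.inl (huu _)
      · exact Or.inr (Or.inr (Or.inr rfl))
      · exact Or.inr (Or.inr (Or.inl (huu _)))
    · rw [Finset.card_smul_finset]
  -- the other five tetrads
  have hTm : T ∈ sextetOf T := mem_sextetOf.2 ⟨hT4, by rw [symmDiff_self]; exact empty_mem⟩
  obtain ⟨T', hT', hfix⟩ := exists_fixed ((sextetOf T).erase T) (fun t => u • t)
    (by
      intro t ht
      rw [Finset.mem_erase, mem_sextetOf] at ht ⊢
      refine ⟨?_, ?_, ?_⟩
      · intro h
        apply ht.1
        rw [← huT] at h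
        exact smul_left_cancel u h
      · rw [Finset.card_smul_finset]; exact ht.2.1
      · have : symmDiff T (u • t) = u • symmDiff T t := by rw [smul_symmDiff', huT]
        rw [this]
        exact (smul_mem_supports_iff hu _).2 ht.2.2)
    (by
      intro t ht
      show u • u • t = t
      rw [smul_smul, h2, one_smul])
    (by
      rw [Finset.card_erase_of_mem hTm, card_sextetOf hT4])
  rw [Finset.mem_erase, mem_sextetOf] at hT'
  have hdisj : Disjoint T T' := disjoint_of_tetrads hT'.2.2 hT4 hT'.2.1 (Ne.symm hT'.1)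
  obtain ⟨c, hc⟩ : T'.Nonempty := Finset.card_pos.1 (by rw [hT'.2.1]; norm_num)
  have hfix' : u • T' = T' := hfix
  have huc : u c ∈ T' := by
    have := (smul_mem_smul u T' c).2 hc
    rwa [hfix'] at this
  have hne : ∀ {p q : GolayPt}, p ∈ T → q ∈ T' → p ≠ q := by
    intro p q hp hq h
    rw [h] at hp
    exact Finset.disjoint_left.1 hdisj hp hq
  have ha : a ∈ T := by simp [hT]
  have hua : u a ∈ T := by simp [hT]
  have hb : b ∈ T := by simp [hT]
  have hub : u b ∈ T := by simp [hT]
  have hoct : T ∪ T' ∈ octads := by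
    have h1 : symmDiff T T' = T ∪ T' := by
      rw [symmDiff_eq_sup_sdiff_inf, Finset.inf_eq_inter, Finset.disjoint_iff_inter_eq_empty.1 hdisj,
        Finset.sdiff_empty, Finset.sup_eq_union]
    refine ⟨?_, ?_⟩
    · rw [← h1]; exact hT'.2.2
    · show (T ∪ T').card = 8
      rw [Finset.card_union_of_disjoint hdisj, hT4, hT'.2.1]
  refine ⟨![a, u a, b, u b, c, u c], ?_, ⟨_, hoct, ?_⟩, ?_⟩
  · intro i j hij
    have e1 := fun h : a = u a => hf a h.symm
    have e2 := fun h : b = u b => hf b h.symm
    have e3 := fun h : c = u c => hf c h.symm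
    have e4 := hne ha hc
    have e5 := hne ha huc
    have e6 := hne hua hc
    have e7 := hne hua huc
    have e8 := hne hb hc
    have e9 := hne hb huc
    have e10 := hne hub hc
    have e11 := hne hub huc
    have e12 := hab.symm
    have e13 := hab'.symm
    have e14 := hbu.symm
    have e15 := hbu'.symm
    fin_cases i <;> fin_cases j <;> first | rfl | (exfalso; revert hij; first | exact e1 | exact e2 | exact e3 | exact e4 | exact e5 | exact e6 | exact e7 | exact e8 | exact e9 | exact e10 | exact e11 | exact e12 | exact e13 | exact e14 | exact e15 | exact fun h => e1 h.symm | exact fun h => e2 h.symm | exact fun h => e3 h.symm | exact fun h => e4 h.symm | exact fun h => e5 h.symm | exact fun h => e6 h.symm | exact fun h => e7 h.symm | exact fun h => e8 h.symm | exact fun h => e9 h.symm | exact fun h => e10 h.symm | exact fun h => e11 h.symm | exact fun h => e12 h.symm | exact fun h => e13 h.symm | exact fun h => e14 h.symm | exact fun h => e15 h.symm)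
  · intro i
    rw [Finset.mem_union]
    fin_cases i
    · exact Or.inl ha
    · exact Or.inl hua
    · exact Or.inl hb
    · exact Or.inl hub
    · exact Or.inr hc
    · exact Or.inr huc
  · intro i
    fin_cases i
    · rfl
    · exact huu a
    · rfl
    · exact huu b
    · rfl
    · exact huu c

/-- the fixed-point-free involutions form one conjugacy class -/
theorem conj_c0 {u : Equiv.Perm GolayPt} (hu : u ∈ M24) (h2 : u * u = 1) (hf : ∀ p, u p ≠ p) :
    ∃ k ∈ M24, k * toPerm c0 * k⁻¹ = u := by
  obtain ⟨x, hx, hxo, hux⟩ := exists_frame hu h2 hf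
  obtain ⟨g, hg, hgx⟩ := exists_from_fI hx hxo
  have hv : g⁻¹ * u * g ∈ M24 := M24.mul_mem (M24.mul_mem (M24.inv_mem hg) hu) hg
  obtain ⟨d, hd, hvd⟩ := cosetI hv inM_c0 (by
    intro i
    rw [Equiv.Perm.mul_apply, Equiv.Perm.mul_apply, hgx, hux, ← hgx, perm_inv_apply, c0_fI])
  have hd' := (lvl_mem lvl6 hd).1
  have hval : valid (mulC c0 d) = true := valid_mulC (valid_of_inM inM_c0) (valid_of_inM hd')
  have h3 : isInv (mulC c0 d) = true := by
    apply isInv_of hval
    rw [← hvd]
    have : g⁻¹ * u * g * (g⁻¹ * u * g) = g⁻¹ * (u * u) * g := by group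
    rw [this, h2, mul_one, inv_mul_cancel]
  have h4 : noFix (mulC c0 d) = true := by
    apply noFix_of hval
    intro p hp
    rw [← hvd, Equiv.Perm.mul_apply, Equiv.Perm.mul_apply] at hp
    have hp' := congrArg g hp
    rw [perm_apply_inv] at hp'
    exact hf (g p) hp'
  have h5 := List.all_eq_true.mp chk_all d hd
  rw [chk, h3, h4, cond_true, cond_true, List.any_eq_true] at h5
  obtain ⟨h, -, h6⟩ := h5
  rw [cond_false_eq] at h6
  refine ⟨g * toPerm h, M24.mul_mem hg (toPerm_mem_M24 h6.1), ?_⟩
  have h7 : toPerm h * toPerm c0 = (g⁻¹ * u * g) * toPerm h := by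
    rw [hvd, ← toPerm_mulC (valid_of_inM h6.1) (valid_of_inM inM_c0), ← toPerm_mulC hval (valid_of_inM h6.1),
      Nat.eq_of_beq_eq_true h6.2]
  calc g * toPerm h * toPerm c0 * (g * toPerm h)⁻¹ = g * (toPerm h * toPerm c0) * (toPerm h)⁻¹ * g⁻¹ := by group
    _ = u := by rw [h7]; group

/-! ### involutions with a fixed point -/

/-- code of an involution with eight fixed points -/
def d0 : ℕ := 965128854020860192151391391390468128

theorem d0_mem : d0 ∈ tr6 := by decide +kernel

theorem inM_d0 : inM d0 = true := (lvl_mem lvl6 d0_mem).1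

theorem d0_sq : toPerm d0 * toPerm d0 = 1 := OctPt0_sq (tr6_mem d0_mem)

theorem d0_ne_one : toPerm d0 ≠ 1 := by
  intro h
  have h1 : toPerm d0 (pt 4) = pt 4 := by rw [h]; rfl
  rw [toPerm_pt (valid_of_inM inM_d0) (by norm_num)] at h1
  revert h1
  decide +kernel

theorem Fix_d0 : Fix (toPerm d0) = mset 8536111 := by
  ext p
  rw [mem_Fix, mem_mset, toPerm_apply (valid_of_inM inM_d0)]
  revert p
  decide +kernel

/-- conjugating elements -/
def hs2 : List ℕ := [984818244535754528103549039458486304, 606633648861008815637604708982479973,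
  145572804706844961681053934335036145, 132870247841455396362589422586170097,
  720042346866773751518514190165902339, 49627431043106863078593822104194050,
  141948003442370106020751358538466338, 735457031787224583686945679181190594,
  133191237381969392379639919137702946, 711657238013097824444892782897763778,
  224952469895227093856048348668856771, 136590132638578724515936959394399266,
  58586227216971739167344803046984706, 151477086544098511359492178809195249,
  723397783692622887797692544489461186]

def chk2 (v : ℕ) : Bool :=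
  cond (Nat.beq v cId) true (hs2.any fun h => cond (inM h) (Nat.beq (mulC h d0) (mulC v h)) false)

theorem chk2_all : tr6.all chk2 = true := by decide +kernel

/-- the involutions with a fixed point form one conjugacy class -/
theorem conj_d0 {u : Equiv.Perm GolayPt} (hu : u ∈ M24) (h2 : u * u = 1) (h1 : u ≠ 1)
    {p : GolayPt} (hp : u p = p) : ∃ k ∈ M24, k * toPerm d0 * k⁻¹ = u := by
  have ho := fix_involution hu (by rw [sq]; exact h2) h1 hp
  obtain ⟨g, hg, hgo⟩ := exists_smul_oct0 ho
  have hv : g⁻¹ * u * g ∈ OctPt (mset 8536111) := by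
    rw [← OctPt_conj hg, hgo, mem_OctPt]
    exact ⟨hu, fun q hq => mem_Fix.1 hq⟩
  obtain ⟨d, hd, hvd⟩ := mem_OctPt0 hv
  have hd' := (lvl_mem lvl6 hd).1
  have h5 := List.all_eq_true.mp chk2_all d hd
  have h3 : Nat.beq d cId = false := by
    rw [← Bool.not_eq_true]
    intro h
    rw [Nat.eq_of_beq_eq_true h, toPerm_cId] at hvd
    apply h1
    have : u = g * (g⁻¹ * u * g) * g⁻¹ := by group
    rw [this, hvd, mul_one, mul_inv_cancel]
  rw [chk2, h3, cond_false, List.any_eq_true] at h5
  obtain ⟨h, -, h6⟩ := h5
  rw [cond_false_eq] at h6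
  refine ⟨g * toPerm h, M24.mul_mem hg (toPerm_mem_M24 h6.1), ?_⟩
  have h7 : toPerm h * toPerm d0 = (g⁻¹ * u * g) * toPerm h := by
    rw [hvd, ← toPerm_mulC (valid_of_inM h6.1) (valid_of_inM inM_d0),
      ← toPerm_mulC (valid_of_inM hd') (valid_of_inM h6.1), Nat.eq_of_beq_eq_true h6.2]
  calc g * toPerm h * toPerm d0 * (g * toPerm h)⁻¹ = g * (toPerm h * toPerm d0) * (toPerm h)⁻¹ * g⁻¹ := by group
    _ = u := by rw [h7]; group

end Cfsg.Agent.Lib.M24Inv
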