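import Cfsg.Agent.Lib.M24Inv
import Cfsg.Agent.Lib.MathieuBlock

/-!
# The fixed-point-free involutions of `M24` are good (helper83)
-/

set_option autoImplicit false
set_option linter.all false

namespace Cfsg.Agent.Lib.M24TwoB
open Cfsg Cfsg.Agent.Lib.Golay
open Cfsg.Agent.Lib.GolayFix (Fix mem_Fix Fix_mem_Sup)
open Cfsg.Agent.Lib.MathieuFix Cfsg.Agent.Lib.MathieuBlock Cfsg.Agent.Lib.SingleBlock
open Cfsg.Agent.Lib.M24Inv
open scoped Pointwise

/-- transport of goodness along an automorphism -/
theorem Good.conj {G : Type*} [Group G] {p : ℕ} {u : G} {Q : Subgroup G} (h : Good p u Q) (φ : G ≃* G) :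
    Good p (φ u) (Q.map φ.toMonoidHom) := by
  have hc : ∀ g : G, g ∈ Subgroup.centralizer ({φ u} : Set G) ↔ φ.symm g ∈ Subgroup.centralizer ({u} : Set G) := by
    intro g
    rw [Subgroup.mem_centralizer_singleton_iff, Subgroup.mem_centralizer_singleton_iff]
    constructor
    · intro h
      apply φ.injective
      rw [map_mul, map_mul, φ.apply_symm_apply]
      exact h
    · intro h
      have := congrArg φ h
      rw [map_mul, map_mul, φ.apply_symm_apply] at this
      exact this
  have hm : ∀ g : G, g ∈ Q.map φ.toMonoidHom ↔ φ.symm g ∈ Q := by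
    intro g
    constructor
    · rintro ⟨x, hx, rfl⟩
      have : φ.symm (φ.toMonoidHom x) = x := φ.symm_apply_apply x
      rw [this]; exact hx
    · intro hg
      exact ⟨_, hg, φ.apply_symm_apply g⟩
  refine ⟨h.pgroup.map _, ?_, ?_, ?_⟩
  · intro g hg
    rw [hc]
    exact h.le ((hm g).1 hg)
  · intro g hg
    rw [hc] at hg
    have h1 := Subgroup.mem_normalizer_iff.1 (h.norm hg)
    rw [Subgroup.mem_normalizer_iff]
    intro q
    rw [hm, hm, h1 (φ.symm q), map_mul, map_mul, map_inv]
  · intro g hg hodd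
    have h1 : φ.symm g ∈ Subgroup.centralizer (Q : Set G) := by
      rw [Subgroup.mem_centralizer_iff] at hg ⊢
      intro q hq
      apply φ.injective
      rw [map_mul, map_mul, φ.apply_symm_apply]
      exact hg (φ q) ⟨q, hq, rfl⟩
    have h2 := h.reg (φ.symm g) h1 (by
      rw [MulEquiv.orderOf_eq]; exact hodd)
    rw [← φ.apply_symm_apply g, h2, map_one]

/-- the six tetrads of the sextet attached to `c0` -/
def ts : List ℕ := [147462, 274448, 557632, 3146880, 4262144, 8388649]

/-- elements commuting with `c0`, preserving the six tetrads -/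
def es : List ℕ := [984818244535754528103549039458486304, 139190950683482814636890552860903461,
  218914645743932732553402088631044131, 21184326359540341300256793493145655,
  10681993389825168598708525836961847, 222385980639373302900800334119045155,
  146222987389865760054764078822557733, 237126973915516031343759309117867459,
  29435457300488123727637385847159351, 154050333581815603186534157902382149,
  977029622887571601827047247563572672, 966644684235801628085642631091160128,
  970539023977335016678111280765188640]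

theorem es_all : es.all (fun e => inM e) = true := by decide +kernel

theorem es_inv : es.all (fun e => isInv e) = true := by decide +kernel

theorem es_comm : es.all (fun e => Nat.beq (mulC e c0) (mulC c0 e)) = true := by decide +kernel

/-- the octads invariant under `c0` are invariant under all `e ∈ es` -/
theorem es_oct : allLt 4096 (fun n => cond (Nat.beq (pc (enc n)) 8)
    (cond (Nat.beq (imgM c0 (enc n)) (enc n)) (es.all fun e => Nat.beq (imgM e (enc n)) (enc n)) true) true)
    = true := by decide +kernel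

theorem es_trans : ∀ x y : GolayPt, (∀ t ∈ ts, t.testBit (ix x) = true → t.testBit (ix y) = true) →
    ∃ e ∈ es, pt (img e (ix x)) = y := by decide +kernel

theorem ts_four : ∀ x y : GolayPt, (∀ t ∈ ts, t.testBit (ix x) = true → t.testBit (ix y) = true) →
    y ≠ x → y ≠ pt (img c0 (ix x)) → ∀ z : GolayPt,
    (∀ t ∈ ts, t.testBit (ix x) = true → t.testBit (ix z) = true) →
    z = x ∨ z = pt (img c0 (ix x)) ∨ z = y ∨ z = pt (img c0 (ix y)) := by decide +kernel

theorem es_mem {e : ℕ} (he : e ∈ es) : inM e = true := List.all_eq_true.mp es_all e he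

theorem es_commute {e : ℕ} (he : e ∈ es) : toPerm e * toPerm c0 = toPerm c0 * toPerm e := by
  have h := valid_of_inM (es_mem he)
  have h0 := valid_of_inM inM_c0
  rw [← toPerm_mulC h h0, ← toPerm_mulC h0 h, Nat.eq_of_beq_eq_true (List.all_eq_true.mp es_comm e he)]

theorem es_apply_apply {e : ℕ} (he : e ∈ es) (x : GolayPt) : toPerm e (toPerm e x) = x := by
  have h := valid_of_inM (es_mem he)
  have h1 := List.all_eq_true.mp es_inv e he
  rw [isInv, allLt_iff] at h1
  rw [toPerm_apply h, ix_toPerm h, Nat.eq_of_beq_eq_true (h1 _ (ix_lt x)), pt_ix]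

theorem es_octad {e : ℕ} (he : e ∈ es) {o : Finset GolayPt} (ho : o ∈ octads) (hc : toPerm c0 • o = o) :
    toPerm e • o = o := by
  obtain ⟨n, hn, rfl, h8⟩ := mem_octads_iff.1 ho
  have h0 := valid_of_inM inM_c0
  have h := valid_of_inM (es_mem he)
  have h1 := allLt_iff.1 es_oct n hn
  rw [toPerm_smul_mset h0] at hc
  have h2 := mset_injOn (imgM_lt h0 _) (enc_lt n) hc
  rw [show Nat.beq (pc (enc n)) 8 = true from by rw [h8]; rfl, cond_true, h2,
    show Nat.beq (enc n) (enc n) = true from Nat.beq_refl _, cond_true] at h1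
  rw [toPerm_smul_mset h, Nat.eq_of_beq_eq_true (List.all_eq_true.mp h1 e he)]

/-- the elements commuting with `c0` and preserving its invariant octads -/
def Q0 : Subgroup (Equiv.Perm GolayPt) where
  carrier := {g | g ∈ M24 ∧ g * toPerm c0 = toPerm c0 * g ∧ ∀ o ∈ octads, toPerm c0 • o = o → g • o = o}
  one_mem' := ⟨M24.one_mem, by rw [one_mul, mul_one], fun o _ _ => one_smul _ o⟩
  mul_mem' := by
    rintro a b ⟨ha, ha2, ha3⟩ ⟨hb, hb2, hb3⟩
    refine ⟨M24.mul_mem ha hb, ?_, ?_⟩
    · rw [mul_assoc, hb2, ← mul_assoc, ha2, mul_assoc]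
    · intro o ho hc
      rw [mul_smul, hb3 o ho hc, ha3 o ho hc]
  inv_mem' := by
    rintro a ⟨ha, ha2, ha3⟩
    refine ⟨M24.inv_mem ha, ?_, ?_⟩
    · exact (Commute.inv_left (show Commute a (toPerm c0) from ha2)).eq
    · intro o ho hc
      rw [inv_smul_eq_iff, ha3 o ho hc]

theorem mem_Q0 {g : Equiv.Perm GolayPt} : g ∈ Q0 ↔
    g ∈ M24 ∧ g * toPerm c0 = toPerm c0 * g ∧ ∀ o ∈ octads, toPerm c0 • o = o → g • o = o := Iff.rfl

theorem es_Q0 {e : ℕ} (he : e ∈ es) : toPerm e ∈ Q0 :=
  ⟨toPerm_mem_M24 (es_mem he), es_commute he, fun o ho hc => es_octad he ho hc⟩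

/-- four of the invariant octads -/
def os : List ℕ := [421910, 705094, 7409024, 11535529]

theorem os_ok : os.all (fun m => cond (isCode m) (cond (Nat.beq (pc m) 8) (Nat.beq (imgM c0 m) m) false) false)
    = true := by decide +kernel

theorem os_octad {m : ℕ} (hm : m ∈ os) : mset m ∈ octads := by
  have h := List.all_eq_true.mp os_ok m hm
  rw [cond_false_eq, cond_false_eq] at h
  rw [mem_octads_iff]
  obtain ⟨n, hn, h1⟩ := isCode_iff.1 h.1
  exact ⟨n, hn, by rw [h1], by rw [h1]; exact Nat.eq_of_beq_eq_true h.2.1⟩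

theorem os_inv {m : ℕ} (hm : m ∈ os) : toPerm c0 • mset m = mset m := by
  have h := List.all_eq_true.mp os_ok m hm
  rw [cond_false_eq, cond_false_eq] at h
  rw [toPerm_smul_mset (valid_of_inM inM_c0), Nat.eq_of_beq_eq_true h.2.2]

/-- membership in the tetrads is determined by membership in the four octads -/
theorem ts_of_os : ∀ x y : GolayPt, (∀ m ∈ os, m.testBit (ix x) = m.testBit (ix y)) →
    ∀ t ∈ ts, t.testBit (ix x) = true → t.testBit (ix y) = true := by decide +kernel

/-- an element preserving the four octads preserves the tetrads -/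
theorem same_tetrad {g : Equiv.Perm GolayPt} (h : ∀ m ∈ os, g • mset m = mset m) (x : GolayPt) :
    ∀ t ∈ ts, t.testBit (ix x) = true → t.testBit (ix (g x)) = true := by
  apply ts_of_os
  intro m hm
  have h1 := smul_mem_smul g (mset m) x
  rw [h m hm, mem_mset, mem_mset] at h1
  exact (Bool.eq_iff_iff.2 h1).symm

theorem Q0_pow_four {g : Equiv.Perm GolayPt} (hg : g ∈ Q0) : g ^ 4 = 1 := by
  rw [mem_Q0] at hg
  have hcomm : ∀ x, g (toPerm c0 x) = toPerm c0 (g x) := fun x => commute_apply hg.2.1 x
  have hcc : ∀ x, toPerm c0 (toPerm c0 x) = x := fun x => by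
    rw [← Equiv.Perm.mul_apply, c0_sq]; rfl
  have hap : ∀ x, toPerm c0 x = pt (img c0 (ix x)) := toPerm_apply (valid_of_inM inM_c0)
  have hst := same_tetrad (g := g) (fun m hm => hg.2.2 _ (os_octad hm) (os_inv hm))
  ext1 x
  have e4 : (g ^ 4) x = g (g (g (g x))) := rfl
  rw [e4, Equiv.Perm.one_apply]
  by_cases h1 : g x = x
  · rw [h1, h1, h1, h1]
  by_cases h2 : g x = toPerm c0 x
  · have h3 : g (g x) = x := by rw [h2, hcomm, h2, hcc]
    rw [h3, h3]
  have h3 := ts_four x (g x) (hst x) h1 (by rw [← hap]; exact h2) (g (g x)) (by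
    intro t ht hx
    exact hst (g x) t ht (hst x t ht hx))
  rw [← hap, ← hap] at h3
  rcases h3 with h3 | h3 | h3 | h3
  · rw [h3, h3]
  · rw [h3, hcomm, hcomm, h3, hcc]
  · exact absurd (g.injective h3) h1
  · rw [← hcomm] at h3
    exact absurd (g.injective h3) h2

theorem os_fix : ∀ m ∈ os, ∃ e ∈ es, ∀ p : GolayPt, (pt (img e (ix p)) = p ↔ m.testBit (ix p) = true) := by
  decide +kernel

/-- the fixed-point-free involution `c0` is good -/
theorem good_c0 (u : M24) (hu : (u : Equiv.Perm GolayPt) = toPerm c0) : Good 2 u (Q0.subgroupOf M24) := by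
  refine ⟨?_, ?_, ?_, ?_⟩
  · intro g
    refine ⟨2, ?_⟩
    have := Q0_pow_four (Subgroup.mem_subgroupOf.1 g.2)
    apply Subtype.ext; apply Subtype.ext
    exact this
  · intro g hg
    rw [Subgroup.mem_centralizer_singleton_iff]
    apply Subtype.ext
    show (g : Equiv.Perm GolayPt) * u = u * g
    rw [hu]
    exact (mem_Q0.1 (Subgroup.mem_subgroupOf.1 hg)).2.1
  · have key : ∀ k : M24, k ∈ Subgroup.centralizer ({u} : Set M24) → ∀ q : M24,
        q ∈ Q0.subgroupOf M24 → k * q * k⁻¹ ∈ Q0.subgroupOf M24 := by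
      intro k hk q hq
      rw [Subgroup.mem_subgroupOf, mem_Q0] at hq ⊢
      have hc : (k : Equiv.Perm GolayPt) * toPerm c0 = toPerm c0 * k := by
        rw [← hu]
        exact congrArg Subtype.val (Subgroup.mem_centralizer_singleton_iff.1 hk)
      have hc' : Commute (k : Equiv.Perm GolayPt) (toPerm c0) := hc
      refine ⟨(k * q * k⁻¹).2, ?_, ?_⟩
      · show (k : Equiv.Perm GolayPt) * q * (k : Equiv.Perm GolayPt)⁻¹ * toPerm c0
            = toPerm c0 * ((k : Equiv.Perm GolayPt) * q * (k : Equiv.Perm GolayPt)⁻¹)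
        exact ((hc'.mul_left hq.2.1).mul_left hc'.inv_left).eq
      · intro o ho hco
        show ((k : Equiv.Perm GolayPt) * q * (k : Equiv.Perm GolayPt)⁻¹) • o = o
        rw [mul_smul, mul_smul, hq.2.2 _ ((smul_mem_octads (M24.inv_mem k.2)).2 ho), smul_inv_smul]
        rw [smul_smul, ← hc'.inv_left.eq, mul_smul, hco]
    intro k hk
    rw [Subgroup.mem_normalizer_iff]
    intro q
    refine ⟨key k hk q, fun h => ?_⟩
    have h1 := key k⁻¹ (Subgroup.inv_mem _ hk) _ h
    have h2 : k⁻¹ * (k * q * k⁻¹) * k⁻¹⁻¹ = q := by group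
    rwa [h2] at h1
  · intro g hg hodd
    have hcomm : ∀ e ∈ es, ∀ x, (g : Equiv.Perm GolayPt) (toPerm e x) = toPerm e ((g : Equiv.Perm GolayPt) x) := by
      intro e he x
      have h1 := Subgroup.mem_centralizer_iff.1 hg ⟨toPerm e, toPerm_mem_M24 (es_mem he)⟩
        (Subgroup.mem_subgroupOf.2 (es_Q0 he))
      have h2 : toPerm e * (g : Equiv.Perm GolayPt) = g * toPerm e := congrArg Subtype.val h1
      exact commute_apply h2.symm x
    have hos : ∀ m ∈ os, (g : Equiv.Perm GolayPt) • mset m = mset m := by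
      intro m hm
      obtain ⟨e, he, h⟩ := os_fix m hm
      have hv := valid_of_inM (es_mem he)
      have h1 : mset m = Fix (toPerm e) := by
        ext p
        rw [mem_Fix, mem_mset, toPerm_apply hv]
        exact (h p).symm
      rw [h1]
      apply smul_Fix_of_commute
      ext1 x
      exact hcomm e he x
    have hsq : g ^ 2 = 1 := by
      apply Subtype.ext
      ext1 x
      show (g : Equiv.Perm GolayPt) ((g : Equiv.Perm GolayPt) x) = x
      obtain ⟨e, he, h⟩ := es_trans x ((g : Equiv.Perm GolayPt) x) (same_tetrad hos x)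
      rw [← toPerm_apply (valid_of_inM (es_mem he))] at h
      rw [← h, hcomm e he, ← h, es_apply_apply he]
    have h4 : orderOf g ∣ 2 := orderOf_dvd_of_pow_eq_one hsq
    rcases (Nat.dvd_prime Nat.prime_two).1 h4 with h5 | h5
    · exact orderOf_eq_one_iff.1 h5
    · exact absurd (by rw [h5]) hodd

/-- every involution of `M24` is good -/
theorem good (u : M24) (hu : orderOf u = 2) : ∃ Q, Good 2 u Q := by
  have hu2 : (u : Equiv.Perm GolayPt) * u = 1 := by
    have : u ^ 2 = 1 := by rw [← hu, pow_orderOf_eq_one]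
    rw [sq] at this
    exact congrArg Subtype.val this
  have hu1 : (u : Equiv.Perm GolayPt) ≠ 1 := by
    intro h
    have : u = 1 := Subtype.ext h
    rw [this, orderOf_one] at hu
    exact absurd hu (by norm_num)
  by_cases hf : ∀ p, (u : Equiv.Perm GolayPt) p ≠ p
  · obtain ⟨k, hk, hkc⟩ := conj_c0 u.2 hu2 hf
    have h := Good.conj (good_c0 ⟨toPerm c0, toPerm_mem_M24 inM_c0⟩ rfl) (MulAut.conj (⟨k, hk⟩ : M24))
    have e : MulAut.conj (⟨k, hk⟩ : M24) ⟨toPerm c0, toPerm_mem_M24 inM_c0⟩ = u := Subtype.ext hkc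
    rw [e] at h
    exact ⟨_, h⟩
  · push Not at hf
    obtain ⟨x, hx⟩ := hf
    have ho := fix_involution u.2 (by rw [sq]; exact hu2) hu1 hx
    exact ⟨_, good_of_octad (K := M24) le_rfl hu ho rfl inf_le_left⟩

end Cfsg.Agent.Lib.M24TwoB
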