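import Cfsg.Agent.Lib.H8LU43

/-!
# Recognition of the McLaughlin group: the isotropic points of PSU(4,3)
-/

set_option autoImplicit false

namespace Cfsg.Agent.Lib.MLRec

open Cfsg Cfsg.Agent.Lib Matrix Subgroup
open Cfsg.Agent.Lib.H58SM Cfsg.Agent.Lib.H3Code Cfsg.Agent.Lib.H3Prj Cfsg.Agent.Lib.H3PU Cfsg.Agent.Lib.H8LU
open Cfsg.Agent.Lib.H3F9 Cfsg.Agent.Lib.H58F9 Cfsg.Agent.Lib.H3U43 Cfsg.Agent.Lib.ClUnitary

set_option maxRecDepth 1000000

/-- a permutation representation from an action on points -/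
theorem hom_of_tab {U α : Type*} [Group U] [MulAction U α] {N k : ℕ} (gs : ℕ → U)
    (hgen : Subgroup.closure {z | ∃ i < k, z = gs i} = ⊤) (e : Fin N → α) (he : Function.Injective e)
    (T : ℕ → Fin N → Fin N) (h : ∀ i < k, ∀ a, gs i • e a = e (T i a)) :
    ∃ ρ : U →* Equiv.Perm (Fin N), (∀ x a, x • e a = e (ρ x a)) ∧ ∀ i < k, ∀ a, ρ (gs i) a = T i a := by
  have key : ∀ x : U, ∃ σ : Equiv.Perm (Fin N), ∀ a, x • e a = e (σ a) := by
    intro x
    have hx : x ∈ Subgroup.closure {z | ∃ i < k, z = gs i} := by rw [hgen]; trivial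
    induction hx using Subgroup.closure_induction with
    | mem x hx =>
      obtain ⟨i, hi, rfl⟩ := hx
      have hinj : Function.Injective (T i) := by
        intro a b hab
        apply he
        apply MulAction.injective (gs i)
        show gs i • e a = gs i • e b
        rw [h i hi, h i hi, hab]
      exact ⟨Equiv.ofBijective (T i) (Finite.injective_iff_bijective.1 hinj), fun a => h i hi a⟩
    | one => exact ⟨1, fun a => one_smul _ _⟩
    | mul x y _ _ hx hy =>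
      obtain ⟨σ, hσ⟩ := hx
      obtain ⟨τ, hτ⟩ := hy
      exact ⟨σ * τ, fun a => by rw [mul_smul, hτ, hσ]; rfl⟩
    | inv x _ hx =>
      obtain ⟨σ, hσ⟩ := hx
      refine ⟨σ⁻¹, fun a => ?_⟩
      rw [inv_smul_eq_iff, hσ]
      congr 1
      exact (Equiv.apply_symm_apply σ a).symm
  choose σ hσ using key
  refine ⟨⟨⟨σ, ?_⟩, ?_⟩, fun x a => hσ x a, fun i hi a => ?_⟩
  · ext a
    congr 1
    apply he
    rw [← hσ 1 a, one_smul]; rfl
  · intro x y
    ext a
    congr 1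
    apply he
    rw [← hσ, mul_smul, hσ, hσ]; rfl
  · apply he
    show e (σ (gs i) a) = _
    rw [← hσ, h i hi]

/-- the pivot -/
def pvt (v : ℕ → ℕ) : ℕ := cond (Nat.beq (v 0) 0) (cond (Nat.beq (v 1) 0) (cond (Nat.beq (v 2) 0) 3 2) 1) 0

theorem pv_ok : ∀ a < 280, H8LU43.D.VC a (pvt (H8LU43.D.VC a)) = 1 := by decide +kernel

theorem pvt_lt (v : ℕ → ℕ) : pvt v < 4 := by
  unfold pvt
  cases Nat.beq (v 0) 0 <;> cases Nat.beq (v 1) 0 <;> cases Nat.beq (v 2) 0 <;> decide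

theorem pvt_zero (v : ℕ → ℕ) : ∀ j < pvt v, v j = 0 := by
  unfold pvt
  intro j hj
  cases h0 : Nat.beq (v 0) 0
  · rw [h0, cond_false] at hj; omega
  · rw [h0, cond_true] at hj
    have h0' := Nat.eq_of_beq_eq_true h0
    cases h1 : Nat.beq (v 1) 0
    · rw [h1, cond_false] at hj
      interval_cases j; exact h0'
    · rw [h1, cond_true] at hj
      have h1' := Nat.eq_of_beq_eq_true h1
      cases h2 : Nat.beq (v 2) 0
      · rw [h2, cond_false] at hj
        interval_cases j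
        · exact h0'
        · exact h1'
      · rw [h2, cond_true] at hj
        have h2' := Nat.eq_of_beq_eq_true h2
        interval_cases j
        · exact h0'
        · exact h1'
        · exact h2'

def cdv (v : ℕ → ℕ) : ℕ := v 0 + 9 * v 1 + 81 * v 2 + 729 * v 3

theorem cd_ok : ∀ a < 280, H3U43.D.IX (cdv (H8LU43.D.VC a)) = a := by decide +kernel

theorem dec_inj : ∀ x < 9, ∀ y < 9, C.dec x = C.dec y → x = y := by decide +kernel

theorem e_inj {a b : ℕ} (ha : a < 280) (hb : b < 280) (h : PD.e H8LU43.D C a = PD.e H8LU43.D C b) : a = b := by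
  have hva := PD.v_spec (D := H8LU43.D) ok H8LU43.v_ok (show a < H8LU43.D.N from ha)
  have hvb := PD.v_spec (D := H8LU43.D) ok H8LU43.v_ok (show b < H8LU43.D.N from hb)
  rw [PD.e_eq ok H8LU43.v_ok (show a < H8LU43.D.N from ha), PD.e_eq ok H8LU43.v_ok (show b < H8LU43.D.N from hb),
    Projectivization.mk_eq_mk_iff'] at h
  obtain ⟨c, hc⟩ := h
  have hc' : ∀ j, j < 4 → c * C.dec (H8LU43.D.VC b j) = C.dec (H8LU43.D.VC a j) := by
    intro j hj
    exact congrFun hc ⟨j, hj⟩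
  have la := FC.vlt_iff.1 hva.1
  have lb := FC.vlt_iff.1 hvb.1
  set va := H8LU43.D.VC a with hvadef
  set vb := H8LU43.D.VC b with hvbdef
  have pa : va (pvt va) = 1 := pv_ok a ha
  have pb : vb (pvt vb) = 1 := pv_ok b hb
  have h1 : C.dec 1 = 1 := ok.dec_one
  have h0 : C.dec 0 = 0 := ok.dec_zero
  have hcb := hc' (pvt vb) (pvt_lt vb)
  rw [pb, h1, mul_one] at hcb
  have hca := hc' (pvt va) (pvt_lt va)
  rw [pa, h1] at hca
  have hc1 : c = 1 := by
    rcases lt_trichotomy (pvt va) (pvt vb) with hl | hl | hl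
    · rw [pvt_zero vb _ hl, h0, mul_zero] at hca
      exact absurd hca zero_ne_one
    · rw [← hl, pa, h1] at hcb
      exact hcb
    · rw [pvt_zero va _ hl, h0] at hcb
      rw [hcb, zero_mul] at hca
      exact absurd hca zero_ne_one
  have hv : ∀ j, j < 4 → va j = vb j := by
    intro j hj
    have := hc' j hj
    rw [hc1, one_mul] at this
    exact (dec_inj _ (lb j hj) _ (la j hj) this).symm
  have h2 := cd_ok a ha
  have h3 := cd_ok b hb
  rw [← hvadef] at h2
  rw [← hvbdef] at h3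
  rw [← h2, ← h3]
  unfold cdv
  rw [hv 0 (by norm_num), hv 1 (by norm_num), hv 2 (by norm_num), hv 3 (by norm_num)]

/-- action tables on the 280 points -/
def T280 (i : ℕ) (a : Fin 280) : Fin 280 := ⟨H8LU43.D.T i a % 280, Nat.mod_lt _ (by norm_num)⟩

abbrev UD : Type := PU (H8LU43.D.n + 1) F9 H8LU43.D.q

theorem exists_280' : ∃ ρ : UD →* Equiv.Perm (Fin 280), ∃ gs : ℕ → UD,
    Subgroup.closure {z | ∃ i < 2, z = gs i} = ⊤ ∧ ∀ i < 2, ∀ a, ρ (gs i) a = T280 i a := by
  have hgen : Subgroup.closure {z : UD | ∃ i < 2, z = PD.g H8LU43.D C i} = ⊤ := H8LU43.gen3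
  obtain ⟨ρ, h1, h2⟩ := hom_of_tab (U := UD) (α := Projectivization F9 (Fin (H8LU43.D.n + 1) → F9)) (PD.g H8LU43.D C) hgen
    (fun a : Fin 280 => PD.e H8LU43.D C a) (fun a b h => Fin.ext (e_inj a.2 b.2 h)) T280 (by
      intro i hi a
      have h := PD.fwd (D := H8LU43.D) (C := C) H8LU43.cF9 ok H3U43.m_ok H8LU43.v_ok H8LU43.f_ok
        (i := i) (show i < H8LU43.D.k + 1 from by have : H8LU43.D.k = 2 := rfl; omega) (a := a) a.2
      refine h.2.trans ?_
      congr 1
      exact (Nat.mod_eq_of_lt h.1).symm)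
  exact ⟨ρ, PD.g H8LU43.D C, hgen, h2⟩

theorem exists_280 : ∃ ρ : PU 4 F9 3 →* Equiv.Perm (Fin 280), ∃ gs : ℕ → PU 4 F9 3,
    Subgroup.closure {z | ∃ i < 2, z = gs i} = ⊤ ∧ ∀ i < 2, ∀ a, ρ (gs i) a = T280 i a := exists_280'

end Cfsg.Agent.Lib.MLRec
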