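import Cfsg.Agent.Lib.H58SMe
import Cfsg.Agent.Lib.MLRecD

/-!
# Recognition of the McLaughlin group: tables and the search for hemisystems
-/

set_option autoImplicit false

namespace Cfsg.Agent.Lib.MLRec

open Cfsg.Agent.Lib.H58SM

/-- bits -/
def bt (m x : ℕ) : Bool := Nat.beq (Nat.land (Nat.shiftRight m x) 1) 1

theorem bt_eq (m x : ℕ) : bt m x = m.testBit x := by
  have h1 : Nat.land (Nat.shiftRight m x) 1 = (m >>> x) &&& 1 := rfl
  unfold bt
  rw [h1, Nat.testBit, Nat.and_comm]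
  have h2 : 1 &&& (m >>> x) < 2 := by
    have := @Nat.and_le_left 1 (m >>> x); omega
  generalize 1 &&& (m >>> x) = y at h2
  interval_cases y <;> rfl

def F112 : ℕ := 0xffffffffffffffffffffffffffff
def F280 : ℕ := 0xffffffffffffffffffffffffffffffffffffffffffffffffffffffffffffffffffffff

/-- the four letters on 112 points -/
def pl (i a : ℕ) : ℕ := gt (([PB0, PB1, PB2, PB3] : List ℕ).getD i 0) 8 255 a
def lnm (j : ℕ) : ℕ := gt LNB 280 F280 j
def adm (a : ℕ) : ℕ := gt ADJB 112 F112 a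
/-- the points of the blocks -/
def bq (k j : ℕ) : ℕ := gt BQB 8 255 (Nat.add (Nat.mul 4 k) j)
def ul (i a : ℕ) : ℕ := gt (([UB0, UB1, UB2, UB3, UB4, UB5, UB6, UB7, UB8, UB9, UB10, UB11] : List ℕ).getD i 0) 8 255 a
def solm (t : ℕ) : ℕ := gt SOLB 112 F112 t

/-- evaluation of words -/
def evw (f : ℕ → ℕ → ℕ) : List ℕ → ℕ → ℕ
  | [], a => a
  | i :: w, a => f i (evw f w a)

/-! ### the search -/

/-- the points of a step -/
def pp (j pr : ℕ) : ℕ := gt (([0x15400000, 0, 0, 0] : List ℕ).getD j 0) 2 3 pr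

/-- four values with exactly two true -/
def ct (b0 b1 b2 b3 : Bool) : ℕ := b0.toNat + b1.toNat + b2.toNat + b3.toNat

def Hemi (S : ℕ → Bool) : Prop := ∀ k < 280, ct (S (bq k 0)) (S (bq k 1)) (S (bq k 2)) (S (bq k 3)) = 2

/-- consistency -/
def Cons (S : ℕ → Bool) (I O : ℕ) : Prop := (∀ x, bt I x = true → S x = true) ∧ ∀ x, bt O x = true → S x = false

/-- four entries sorted by the pair number -/
def sel (pr : ℕ) (K : ℕ → ℕ → ℕ → ℕ → Bool) : Bool :=
  Nat.rec (K 0 1 2 3) (fun pr _ => Nat.rec (K 0 2 1 3) (fun pr _ => Nat.rec (K 0 3 1 2) (fun pr _ =>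
    Nat.rec (K 1 2 0 3) (fun pr _ => Nat.rec (K 1 3 0 2) (fun _ _ => K 2 3 0 1) pr) pr) pr) pr) pr

theorem sel_spec {pr : ℕ} {K : ℕ → ℕ → ℕ → ℕ → Bool} (h : sel pr K = true) :
    K 0 1 2 3 = true ∨ K 0 2 1 3 = true ∨ K 0 3 1 2 = true ∨ K 1 2 0 3 = true ∨ K 1 3 0 2 = true ∨ K 2 3 0 1 = true := by
  rcases pr with _ | _ | _ | _ | _ | pr
  · exact Or.inl h
  · exact Or.inr (Or.inl h)
  · exact Or.inr (Or.inr (Or.inl h))
  · exact Or.inr (Or.inr (Or.inr (Or.inl h)))
  · exact Or.inr (Or.inr (Or.inr (Or.inr (Or.inl h))))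
  · exact Or.inr (Or.inr (Or.inr (Or.inr (Or.inr h))))

def st1 (k sd I O : ℕ) (K : ℕ → ℕ → Bool) (a b c d : ℕ) : Bool :=
  frc (bq k a) fun a => frc (bq k b) fun b => frc (bq k c) fun c => frc (bq k d) fun d =>
    cond (Nat.beq sd 0)
      (bt I a && (bt I b && frc (Nat.lor O (Nat.lor (Nat.shiftLeft 1 c) (Nat.shiftLeft 1 d))) fun O => K I O))
      (bt O a && (bt O b && frc (Nat.lor I (Nat.lor (Nat.shiftLeft 1 c) (Nat.shiftLeft 1 d))) fun I => K I O))

def stp (c I O : ℕ) (K : ℕ → ℕ → Bool) : Bool :=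
  frc (Nat.land c 511) fun k => Nat.blt k 280 &&
    sel (Nat.land (Nat.shiftRight c 9) 7) (st1 k (Nat.shiftRight c 12) I O K)

theorem bt_lor {m a b x : ℕ} (h : bt (Nat.lor m (Nat.lor (Nat.shiftLeft 1 a) (Nat.shiftLeft 1 b))) x = true) :
    bt m x = true ∨ x = a ∨ x = b := by
  rw [bt_eq] at h ⊢
  have h1 : Nat.lor m (Nat.lor (Nat.shiftLeft 1 a) (Nat.shiftLeft 1 b)) = m ||| ((1 <<< a) ||| (1 <<< b)) := rfl
  rw [h1, Nat.testBit_or, Nat.testBit_or, Nat.shiftLeft_eq, Nat.shiftLeft_eq, one_mul, one_mul, Bool.or_eq_true,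
    Bool.or_eq_true, Nat.testBit_two_pow, Nat.testBit_two_pow, decide_eq_true_eq, decide_eq_true_eq] at h
  rcases h with h | h | h
  · exact Or.inl h
  · exact Or.inr (Or.inl h.symm)
  · exact Or.inr (Or.inr h.symm)

theorem bt_lor1 {m a x : ℕ} (h : bt (Nat.lor m (Nat.shiftLeft 1 a)) x = true) : bt m x = true ∨ x = a := by
  rw [bt_eq] at h ⊢
  have h1 : Nat.lor m (Nat.shiftLeft 1 a) = m ||| (1 <<< a) := rfl
  rw [h1, Nat.testBit_or, Nat.shiftLeft_eq, one_mul, Bool.or_eq_true, Nat.testBit_two_pow, decide_eq_true_eq] at h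
  exact h.imp id Eq.symm

/-- a step is sound -/
theorem st1_spec {S : ℕ → Bool} (hS : Hemi S) {k sd I O : ℕ} {K : ℕ → ℕ → Bool} (hk : k < 280) (hC : Cons S I O) {a b c d : ℕ}
    (hct : ct (S (bq k 0)) (S (bq k 1)) (S (bq k 2)) (S (bq k 3)) = ct (S (bq k a)) (S (bq k b)) (S (bq k c)) (S (bq k d)))
    (h : st1 k sd I O K a b c d = true) : ∃ I' O', Cons S I' O' ∧ K I' O' = true := by
  unfold st1 at h
  simp only [frc_eq] at h
  have h2 := hS k hk
  rw [hct] at h2
  cases hsd : Nat.beq sd 0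
  · rw [hsd, cond_false, Bool.and_eq_true, Bool.and_eq_true] at h
    have ha := hC.2 _ h.1
    have hb := hC.2 _ h.2.1
    refine ⟨_, O, ⟨fun x hx => ?_, hC.2⟩, h.2.2⟩
    rw [ha, hb] at h2
    rcases bt_lor hx with hx | rfl | rfl
    · exact hC.1 x hx
    · revert h2; cases S (bq k c) <;> cases S (bq k d) <;> simp [ct]
    · revert h2; cases S (bq k c) <;> cases S (bq k d) <;> simp [ct]
  · rw [hsd, cond_true, Bool.and_eq_true, Bool.and_eq_true] at h
    have ha := hC.1 _ h.1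
    have hb := hC.1 _ h.2.1
    refine ⟨I, _, ⟨hC.1, fun x hx => ?_⟩, h.2.2⟩
    rw [ha, hb] at h2
    rcases bt_lor hx with hx | rfl | rfl
    · exact hC.2 x hx
    · revert h2; cases S (bq k c) <;> cases S (bq k d) <;> simp [ct]
    · revert h2; cases S (bq k c) <;> cases S (bq k d) <;> simp [ct]

theorem stp_spec {S : ℕ → Bool} (hS : Hemi S) {c I O : ℕ} {K : ℕ → ℕ → Bool} (hC : Cons S I O)
    (h : stp c I O K = true) : ∃ I' O', Cons S I' O' ∧ K I' O' = true := by
  unfold stp at h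
  rw [frc_eq, Bool.and_eq_true, Sol.blt_iff] at h
  obtain ⟨hk, h⟩ := h
  rcases sel_spec h with h | h | h | h | h | h
  · exact st1_spec hS hk hC rfl h
  · exact st1_spec hS hk hC (by unfold ct; omega) h
  · exact st1_spec hS hk hC (by unfold ct; omega) h
  · exact st1_spec hS hk hC (by unfold ct; omega) h
  · exact st1_spec hS hk hC (by unfold ct; omega) h
  · exact st1_spec hS hk hC (by unfold ct; omega) h

def runs (n : ℕ) : ℕ → ℕ → ℕ → (ℕ → ℕ → Bool) → Bool :=
  Nat.rec (fun _ I O K => K I O) (fun _ ih s I O K => stp (Nat.land s 65535) I O fun I O =>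
    frc (Nat.shiftRight s 16) fun s => ih s I O K) n

theorem runs_spec {S : ℕ → Bool} (hS : Hemi S) (n : ℕ) : ∀ {s I O : ℕ} {K : ℕ → ℕ → Bool} (_ : Cons S I O)
    (_ : runs n s I O K = true), ∃ I' O', Cons S I' O' ∧ K I' O' = true := by
  induction n with
  | zero => intro s I O K hC h; exact ⟨I, O, hC, h⟩
  | succ n ih =>
    intro s I O K hC h
    have e : runs (n + 1) s I O K = stp (Nat.land s 65535) I O fun I O => frc (Nat.shiftRight s 16) fun s => runs n s I O K := rfl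
    rw [e] at h
    obtain ⟨I', O', hC', h'⟩ := stp_spec hS hC h
    rw [frc_eq] at h'
    exact ih hC' h'

inductive Tr where
  | sol (n s t : ℕ)
  | dead (n s k : ℕ)
  | br (n s j : ℕ) (a b : Tr)

def cn (I k : ℕ) : ℕ := ct (bt I (bq k 0)) (bt I (bq k 1)) (bt I (bq k 2)) (bt I (bq k 3))

def Tr.chk : Tr → ℕ → ℕ → Bool
  | .sol n s t, I, O => runs n s I O fun I O => Nat.blt t 648 && (Nat.beq (Nat.lor I O) F112 && Nat.beq I (solm t))
  | .dead n s k, I, O => runs n s I O fun I O => Nat.blt k 280 && (Nat.blt 2 (cn I k) || Nat.blt 2 (cn O k))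
  | .br n s j a b, I, O => runs n s I O fun I O => a.chk (Nat.lor I (Nat.shiftLeft 1 j)) O && b.chk I (Nat.lor O (Nat.shiftLeft 1 j))

theorem bt_full {x : ℕ} (h : x < 112) : bt F112 x = true := by
  rw [bt_eq, show F112 = 2 ^ 112 - 1 by decide, Nat.testBit_two_pow_sub_one]
  simpa using h

theorem Tr.chk_spec {S : ℕ → Bool} (hS : Hemi S) (t : Tr) : ∀ {I O : ℕ} (_ : Cons S I O) (_ : t.chk I O = true),
    ∃ s < 648, ∀ x < 112, S x = bt (solm s) x := by
  induction t with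
  | sol n s t =>
    intro I O hC h
    obtain ⟨I', O', hC', h'⟩ := runs_spec hS n hC h
    rw [Bool.and_eq_true, Bool.and_eq_true, Sol.blt_iff, Sol.beq_iff, Sol.beq_iff] at h'
    refine ⟨t, h'.1, fun x hx => ?_⟩
    rw [← h'.2.2]
    have hf := bt_full hx
    rw [← h'.2.1, bt_eq, show Nat.lor I' O' = I' ||| O' from rfl, Nat.testBit_or, Bool.or_eq_true, ← bt_eq, ← bt_eq] at hf
    rcases hf with hf | hf
    · rw [hf, hC'.1 x hf]
    · have h1 := hC'.2 x hf
      rw [h1]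
      cases h2 : bt I' x
      · rfl
      · rw [hC'.1 x h2] at h1
        exact h1.symm
  | dead n s k =>
    intro I O hC h
    obtain ⟨I', O', hC', h'⟩ := runs_spec hS n hC h
    rw [Bool.and_eq_true, Sol.blt_iff, Bool.or_eq_true, Sol.blt_iff, Sol.blt_iff] at h'
    exfalso
    have h2 := hS k h'.1
    have le1 : ∀ {b c : Bool}, (b = true → c = true) → b.toNat ≤ c.toNat := by
      intro b c h; cases b <;> cases c <;> simp_all
    have le2 : ∀ {b c : Bool}, (b = true → c = false) → b.toNat + c.toNat ≤ 1 := by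
      intro b c h; cases b <;> cases c <;> simp_all
    rcases h'.2 with h3 | h3
    · unfold cn ct at h3
      unfold ct at h2
      have g0 := le1 (hC'.1 (bq k 0))
      have g1 := le1 (hC'.1 (bq k 1))
      have g2 := le1 (hC'.1 (bq k 2))
      have g3 := le1 (hC'.1 (bq k 3))
      omega
    · unfold cn ct at h3
      unfold ct at h2
      have g0 := le2 (hC'.2 (bq k 0))
      have g1 := le2 (hC'.2 (bq k 1))
      have g2 := le2 (hC'.2 (bq k 2))
      have g3 := le2 (hC'.2 (bq k 3))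
      omega
  | br n s j a b iha ihb =>
    intro I O hC h
    obtain ⟨I', O', hC', h'⟩ := runs_spec hS n hC h
    rw [Bool.and_eq_true] at h'
    cases hj : S j
    · refine ihb ⟨hC'.1, fun x hx => ?_⟩ h'.2
      rcases bt_lor1 hx with hx | rfl
      · exact hC'.2 x hx
      · exact hj
    · refine iha ⟨fun x hx => ?_, hC'.2⟩ h'.1
      rcases bt_lor1 hx with hx | rfl
      · exact hC'.1 x hx
      · exact hj

end Cfsg.Agent.Lib.MLRec
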