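import Cfsg.Agent.Lib.MLRecT

/-!
# Recognition of the McLaughlin group: table checks
-/

set_option autoImplicit false
set_option maxRecDepth 100000

namespace Cfsg.Agent.Lib.MLRec

open Cfsg.Agent.Lib.H58SM

theorem tree_ok : tree.chk 1 0 = true := by decide +kernel

/-! ### letters -/

theorem pl_lt : ∀ i < 4, ∀ a < 112, pl i a < 112 := by decide +kernel
theorem pl01 : ∀ a < 112, pl 0 (pl 1 a) = a := by decide +kernel
theorem pl10 : ∀ a < 112, pl 1 (pl 0 a) = a := by decide +kernel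
theorem pl23 : ∀ a < 112, pl 2 (pl 3 a) = a := by decide +kernel
theorem pl32 : ∀ a < 112, pl 3 (pl 2 a) = a := by decide +kernel

/-! ### adjacency -/

def ad (a b : ℕ) : Bool := bt (adm a) b

theorem ad_inv' : alln (fun a => frc (adm a) fun m => frc (adm (pl 0 a)) fun m' =>
    alln (fun b => bt m b == bt m' (pl 0 b)) 112) 112 = true := by decide +kernel
theorem ad_inv2' : alln (fun a => frc (adm a) fun m => frc (adm (pl 2 a)) fun m' =>
    alln (fun b => bt m b == bt m' (pl 2 b)) 112) 112 = true := by decide +kernel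
theorem ad_symm' : alln (fun a => frc (adm a) fun m => alln (fun b => bt m b == bt (adm b) a) 112) 112 = true := by decide +kernel
theorem ad_irr : ∀ a < 112, ad a a = false := by decide +kernel

theorem ad_inv {a b : ℕ} (ha : a < 112) (hb : b < 112) : ad (pl 0 a) (pl 0 b) = ad a b := by
  have h := alln_iff.1 ad_inv' a ha
  rw [frc_eq, frc_eq] at h
  exact (beq_iff_eq.1 (alln_iff.1 h b hb)).symm

theorem ad_inv2 {a b : ℕ} (ha : a < 112) (hb : b < 112) : ad (pl 2 a) (pl 2 b) = ad a b := by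
  have h := alln_iff.1 ad_inv2' a ha
  rw [frc_eq, frc_eq] at h
  exact (beq_iff_eq.1 (alln_iff.1 h b hb)).symm

theorem ad_symm {a b : ℕ} (ha : a < 112) (hb : b < 112) : ad a b = ad b a := by
  have h := alln_iff.1 ad_symm' a ha
  rw [frc_eq] at h
  exact beq_iff_eq.1 (alln_iff.1 h b hb)

/-! ### blocks -/

theorem bq_lt : ∀ k < 280, ∀ j < 4, bq k j < 112 := by decide +kernel
theorem bq_ad : ∀ k < 280, ad (bq k 0) (bq k 1) = true ∧ ad (bq k 0) (bq k 2) = true ∧ ad (bq k 0) (bq k 3) = true ∧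
    ad (bq k 1) (bq k 2) = true ∧ ad (bq k 1) (bq k 3) = true ∧ ad (bq k 2) (bq k 3) = true := by decide +kernel

/-- membership in a block -/
def inb (k x : ℕ) : Bool := Nat.beq x (bq k 0) || (Nat.beq x (bq k 1) || (Nat.beq x (bq k 2) || Nat.beq x (bq k 3)))
def bpar (k : ℕ) : ℕ := gt BPB 9 511 k
def bgen (k : ℕ) : ℕ := Nat.mul 2 (gt BGB 1 1 k)

theorem bpar_lt : ∀ k < 120, 0 < k → bpar k < k ∧ (bgen k = 0 ∨ bgen k = 2) := by decide +kernel
theorem bpar_ok : ∀ k < 120, 0 < k → ∀ x < 112, inb (bpar k) x = inb k (pl (bgen k) x) := by decide +kernel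
theorem inb_inj : ∀ k < 120, ∀ l < 120, (∀ j < 4, inb l (bq k j) = true) → k = l := by decide +kernel
/-- ten blocks through each point -/
theorem bq_ten : alln (fun x => Nat.beq (Nat.rec 0 (fun k r => Nat.add r (cond (inb k x) 1 0)) 280) 10) 112 = true := by decide +kernel

/-! ### the 3-group -/

theorem ul_lt : ∀ i < 12, ∀ a < 112, ul i a < 112 := by decide +kernel
theorem ul_inv1 : ∀ i < 6, ∀ a < 112, ul (i + 6) (ul i a) = a := by decide +kernel
theorem ul_inv2 : ∀ i < 6, ∀ a < 112, ul i (ul (i + 6) a) = a := by decide +kernel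
theorem ul_zero : ∀ i < 12, ul i 0 = 0 := by decide +kernel
theorem UW_ok : ∀ i < 6, ∀ a < 112, evw pl (UW.getD i []) a = ul i a := by decide +kernel
theorem UW_lt : ∀ i < 6, ∀ l ∈ UW.getD i [], l < 4 := by decide +kernel
theorem ul_nine : ∀ i < 6, ∀ a < 112, evw ul [i, i, i, i, i, i, i, i, i] a = a := by decide +kernel
theorem CW_ok : ∀ k < 6, ∀ i < k, ∀ a < 112, evw ul [k, i, k + 6] a = evw ul ((CW.getD k []).getD i []) a := by decide +kernel
theorem CV_ok : ∀ k < 6, ∀ i < k, ∀ a < 112, evw ul [k + 6, i, k] a = evw ul ((CV.getD k []).getD i []) a := by decide +kernel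
theorem CW_lt : ∀ k < 6, ∀ i < k, ∀ l ∈ (CW.getD k []).getD i [], l < k := by decide +kernel
theorem CV_lt : ∀ k < 6, ∀ i < k, ∀ l ∈ (CV.getD k []).getD i [], l < k := by decide +kernel

def rt (a : ℕ) : ℕ := gt RTB 8 255 a
theorem rt_mem : ∀ a < 112, rt a = 0 ∨ rt a = 1 ∨ rt a = 4 ∨ rt a = 7 := by decide +kernel
theorem WA_ok : ∀ a < 112, evw ul (WA.getD a []) (rt a) = a := by decide +kernel
theorem WA_lt : ∀ a < 112, ∀ l ∈ WA.getD a [], l < 12 := by decide +kernel

/-! ### quadrangle -/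

/-- one of three -/
def one3 (a b c : Bool) : Bool := Nat.beq (a.toNat + b.toNat + c.toNat) 1

theorem gq0' : alln (fun k1 => cond (ad 0 k1) (alln (fun k2 => cond (ad 0 k2 && ad k1 k2) (alln (fun k3 =>
    cond (ad 0 k3 && (ad k1 k3 && ad k2 k3)) (alln (fun y => cond (Nat.beq y 0 || ad y 0) true (one3 (ad y k1) (ad y k2) (ad y k3)))
      112) true) 112) true) 112) true) 112 = true := by decide +kernel

theorem gq0 {k1 k2 k3 y : ℕ} (h1 : k1 < 112) (h2 : k2 < 112) (h3 : k3 < 112) (hy : y < 112) (a1 : ad 0 k1 = true)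
    (a2 : ad 0 k2 = true) (a3 : ad 0 k3 = true) (a12 : ad k1 k2 = true) (a13 : ad k1 k3 = true) (a23 : ad k2 k3 = true)
    (hy0 : y ≠ 0) (ay : ad y 0 = false) : one3 (ad y k1) (ad y k2) (ad y k3) = true := by
  have g1 := alln_iff.1 gq0' k1 h1
  rw [a1, cond_true] at g1
  have g2 := alln_iff.1 g1 k2 h2
  rw [a2, a12, Bool.and_self, cond_true] at g2
  have g3 := alln_iff.1 g2 k3 h3
  rw [a3, a13, a23, Bool.and_self, Bool.and_self, cond_true] at g3
  have g4 := alln_iff.1 g3 y hy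
  have hb : Nat.beq y 0 = false := by
    cases h : Nat.beq y 0
    · rfl
    · exact absurd (Nat.eq_of_beq_eq_true h) hy0
  rw [hb, ay, Bool.or_self, cond_false] at g4
  exact g4

theorem ad01 : (∀ a < 112, ad 0 a = true ↔ (rt a = 1 ∨ rt a = 4)) := by decide +kernel

end Cfsg.Agent.Lib.MLRec
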