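import Cfsg.Agent.Lib.MLRecC

/-!
# Recognition of the McLaughlin group: table checks for the 648 hemisystems and for the graph on 275 points
-/

set_option autoImplicit false
set_option maxRecDepth 100000

namespace Cfsg.Agent.Lib.MLRec

open Cfsg.Agent.Lib.H58SM

def F162 : ℕ := 0x3ffffffffffffffffffffffffffffffffffffffff
def F275 : ℕ := 0x7ffffffffffffffffffffffffffffffffffffffffffffffffffffffffffffffffffff

/-- number `i` of the family `f` -/
def sm (f i : ℕ) : ℕ := solm (Nat.add (Nat.mul 162 f) i)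
def nx (f g i : ℕ) : ℕ := gt (([NXB0, NXB1, NXB2, NXB3] : List ℕ).getD f 0) 8 255 (Nat.add (Nat.mul 162 g) i)
def spar (f i : ℕ) : ℕ := gt SPB 8 255 (Nat.add (Nat.mul 162 f) i)
def sgen (f i : ℕ) : ℕ := gt SGB 1 1 (Nat.add (Nat.mul 162 f) i)
def tm (f i : ℕ) : ℕ := gt TMB 8 255 (Nat.add (Nat.mul 162 f) i)
def tau (f x : ℕ) : ℕ := gt TAUB 8 255 (Nat.add (Nat.mul 112 f) x)
def rmm (f i : ℕ) : ℕ := gt (([RB0, RB1, RB2, RB3] : List ℕ).getD f 0) 162 F162 i
def rm (f i j : ℕ) : Bool := bt (rmm f i) j
def am (v : ℕ) : ℕ := gt AB 275 F275 v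
def aj (u v : ℕ) : Bool := bt (am u) v

theorem nx_lt : ∀ f < 4, ∀ g < 2, ∀ i < 162, nx f g i < 162 := by decide +kernel
theorem nx_sol' : alln (fun f => alln (fun g => alln (fun i => frc (sm f i) fun m => frc (sm f (nx f g i)) fun m' =>
    alln (fun x => bt m x == bt m' (pl (Nat.mul 2 g) x)) 112) 162) 2) 4 = true := by decide +kernel

theorem nx_sol {f g i x : ℕ} (hf : f < 4) (hg : g < 2) (hi : i < 162) (hx : x < 112) :
    bt (sm f (nx f g i)) (pl (2 * g) x) = bt (sm f i) x := by
  have h := alln_iff.1 (alln_iff.1 (alln_iff.1 nx_sol' f hf) g hg) i hi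
  rw [frc_eq, frc_eq] at h
  exact (beq_iff_eq.1 (alln_iff.1 h x hx)).symm

theorem sol_tree : ∀ f < 4, ∀ i < 162, 0 < i → spar f i < i ∧ sgen f i < 2 ∧ nx f (sgen f i) (spar f i) = i := by decide +kernel

def co (t : ℕ) : ℕ := gt COB 10 1023 t
theorem co_ok : ∀ t < 648, co t < 648 ∧ Nat.xor (solm t) F112 = solm (co t) := by decide +kernel

theorem rm_inv' : alln (fun f => alln (fun g => alln (fun i => frc (rmm f i) fun m => frc (rmm f (nx f g i)) fun m' =>
    alln (fun j => bt m j == bt m' (nx f g j)) 162) 162) 2) 4 = true := by decide +kernel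

theorem rm_inv {f g i j : ℕ} (hf : f < 4) (hg : g < 2) (hi : i < 162) (hj : j < 162) :
    rm f (nx f g i) (nx f g j) = rm f i j := by
  have h := alln_iff.1 (alln_iff.1 (alln_iff.1 rm_inv' f hf) g hg) i hi
  rw [frc_eq, frc_eq] at h
  exact (beq_iff_eq.1 (alln_iff.1 h j hj)).symm

/-- number of common elements -/
def cap (m m' : ℕ) : ℕ := Nat.rec 0 (fun x r => Nat.add r (cond (bt m x && bt m' x) 1 0)) 112
theorem rm_cap : alln (fun f => frc (sm f 0) fun m => alln (fun j => Nat.beq j 0 || (Nat.blt 30 (cap m (sm f j)) || rm f 0 j)) 162) 4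
    = true := by decide +kernel
theorem rm_56 : ∀ f < 4, Nat.beq (Nat.rec 0 (fun j r => Nat.add r (cond (rm f 0 j) 1 0)) 162) 56 = true := by decide +kernel

theorem tm_lt : ∀ f < 4, ∀ i < 162, tm f i < 162 := by decide +kernel
theorem tau_lt : ∀ f < 4, ∀ x < 112, tau f x < 112 := by decide +kernel
theorem tau_inj : ∀ f < 4, ∀ x < 112, ∀ y < 112, tau f x = tau f y → x = y := by decide +kernel
theorem tm_inj' : alln (fun f => alln (fun i => frc (tm f i) fun a => alln (fun j => Nat.beq i j || !(Nat.beq a (tm f j))) 162) 162) 4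
    = true := by decide +kernel
theorem tau_sol' : alln (fun f => alln (fun j => frc (sm f j) fun m => frc (sm 0 (tm f j)) fun m' =>
    alln (fun x => bt m (tau f x) == bt m' x) 112) 162) 4 = true := by decide +kernel
theorem tau_ad' : alln (fun f => alln (fun x => frc (adm x) fun m => frc (adm (tau f x)) fun m' =>
    alln (fun y => bt m' (tau f y) == bt m y) 112) 112) 4 = true := by decide +kernel
theorem tm_rm' : alln (fun f => alln (fun i => frc (rmm f i) fun m => frc (rmm 0 (tm f i)) fun m' =>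
    alln (fun j => bt m j == bt m' (tm f j)) 162) 162) 4 = true := by decide +kernel

/-! ### the graph on 275 points -/

theorem aj0 : ∀ x < 112, aj 0 (x + 1) = true := by decide +kernel
theorem aj1 : ∀ i < 162, aj 0 (i + 113) = false := by decide +kernel
theorem aj2' : alln (fun x => frc (am (Nat.add x 1)) fun m => frc (adm x) fun m' => alln (fun y => bt m (Nat.add y 1) == bt m' y) 112 &&
    alln (fun i => bt m (Nat.add i 113) == bt (sm 0 i) x) 162) 112 = true := by decide +kernel
theorem aj3' : alln (fun i => frc (am (Nat.add i 113)) fun m => frc (rmm 0 i) fun m' => alln (fun j => bt m (Nat.add j 113) == bt m' j) 162)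
    162 = true := by decide +kernel
theorem aj_symm' : alln (fun u => frc (am u) fun m => alln (fun v => bt m v == bt (am v) u) 275) 275 = true := by decide +kernel
theorem aj_irr : ∀ u < 275, aj u u = false := by decide +kernel

/-! ### the chain of cells -/

def ordv (k : ℕ) : ℕ := gt ORDB 9 511 k
def cel (k : ℕ) : ℕ := gt CELB 9 511 k

theorem ordv_lt : ∀ k < 275, ordv k < 275 := by decide +kernel

/-- the cell of `u` with respect to the first `k` vertices, as a mask -/
def cmask (u k : ℕ) : ℕ :=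
  Nat.rec F275 (fun i r => frc (ordv i) fun w => frc (am w) fun m => cond (bt m u) (Nat.land r m)
    (Nat.land (Nat.land r (Nat.xor m F275)) (Nat.xor (Nat.shiftLeft 1 w) F275))) k

/-- bit count -/
def pcn (m : ℕ) : ℕ := Nat.rec 0 (fun x r => Nat.add r (cond (bt m x) 1 0)) 275

theorem cel_ok : alln (fun k => frc (cmask (ordv k) k) fun m => Nat.beq (pcn m) (cel k)) 275 = true := by decide +kernel
theorem cel_prod : Nat.rec (motive := fun _ => ℕ) 1 (fun k r => Nat.mul (cel k) r) 275 = 1796256000 := by decide +kernel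
theorem ordv_surj : alln (fun v => !(alln (fun k => !(Nat.beq (ordv k) v)) 275)) 275 = true := by decide +kernel

end Cfsg.Agent.Lib.MLRec
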