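import Cfsg.Agent.Lib.MLRecA
import Cfsg.Agent.Lib.MLRecC
import Cfsg.Agent.S0283

/-!
# Recognition of the McLaughlin group: the representation of PSU(4,3) of degree 112
-/

set_option autoImplicit false
set_option maxHeartbeats 400000

namespace Cfsg.Agent.Lib.MLRec

open Cfsg Cfsg.Agent.Lib Subgroup
open Cfsg.Agent.Lib.H58SM Cfsg.Agent.Lib.H58F9
open Cfsg.Agent.Lib.H3Prj (PU)
open scoped Pointwise

theorem bt_mask {m x n : ℕ} (h : n ≤ x) : bt (Nat.land m (2 ^ n - 1)) x = false := by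
  rw [bt_eq, show Nat.land m (2 ^ n - 1) = m &&& (2 ^ n - 1) from rfl, Nat.testBit_and, Nat.testBit_two_pow_sub_one,
    decide_eq_false (by omega), Bool.and_false]

theorem mask_ext {m m' n : ℕ} (h : ∀ x < n, bt (Nat.land m (2 ^ n - 1)) x = bt (Nat.land m' (2 ^ n - 1)) x) :
    Nat.land m (2 ^ n - 1) = Nat.land m' (2 ^ n - 1) := by
  apply Nat.eq_of_testBit_eq
  intro x
  rw [← bt_eq, ← bt_eq]
  by_cases hx : x < n
  · exact h x hx
  · rw [bt_mask (by omega), bt_mask (by omega)]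

theorem lnm_ext {j k : ℕ} (h : ∀ x < 280, bt (lnm j) x = bt (lnm k) x) : lnm j = lnm k := by
  have e : F280 = 2 ^ 280 - 1 := by decide +kernel
  unfold lnm gt at h ⊢
  rw [e] at h ⊢
  exact mask_ext h

theorem ln_ok' : alln (fun i => alln (fun j => frc (lnm j) fun m => frc (lnm (pl (Nat.mul 2 i) j)) fun m' =>
    alln (fun b => bt m b == bt m' (Nat.mod (H8LU43.D.T i b) 280)) 280) 112) 2 = true := by decide +kernel

theorem ln_ok {i j : ℕ} (hi : i < 2) (hj : j < 112) (b : Fin 280) : bt (lnm (pl (2 * i) j)) (T280 i b) = bt (lnm j) b := by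
  have h := alln_iff.1 (alln_iff.1 ln_ok' i hi) j hj
  rw [frc_eq, frc_eq] at h
  exact (beq_iff_eq.1 (alln_iff.1 h b b.2)).symm

theorem ln_inj' : alln (fun j => frc (lnm j) fun m => alln (fun k => Nat.beq j k || !(Nat.beq m (lnm k))) 112) 112 = true := by
  decide +kernel

theorem ln_inj {j k : ℕ} (hj : j < 112) (hk : k < 112) (h : lnm j = lnm k) : j = k := by
  have h1 := alln_iff.1 ln_inj' j hj
  rw [frc_eq] at h1
  have h2 := alln_iff.1 h1 k hk
  rw [Bool.or_eq_true] at h2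
  rcases h2 with h2 | h2
  · exact Sol.beq_iff.1 h2
  · rw [← h] at h2
    rw [show Nat.beq (lnm j) (lnm j) = true from Sol.beq_iff.2 rfl] at h2
    exact absurd h2 (by decide)

/-- the line as a set of points -/
def lnS (j : Fin 112) : Set (Fin 280) := {b | bt (lnm j) b = true}

theorem lnS_inj : Function.Injective lnS := by
  intro j k h
  apply Fin.ext
  apply ln_inj j.2 k.2
  apply lnm_ext
  intro x hx
  have h1 : (⟨x, hx⟩ : Fin 280) ∈ lnS j ↔ (⟨x, hx⟩ : Fin 280) ∈ lnS k := by rw [h]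
  exact Bool.eq_iff_iff.2 h1

def T112 (i : ℕ) (a : Fin 112) : Fin 112 := ⟨pl (2 * i) a % 112, Nat.mod_lt _ (by norm_num)⟩

theorem T112_val {i : ℕ} (hi : i < 2) (a : Fin 112) : (T112 i a : ℕ) = pl (2 * i) a :=
  Nat.mod_eq_of_lt (pl_lt (2 * i) (by omega) a a.2)

/-- the action of degree 112 -/
structure Rep (H : Type*) [Group H] where
  r : H →* Equiv.Perm (Fin 112)
  gs : ℕ → H
  gen : Subgroup.closure {z | ∃ i < 2, z = gs i} = ⊤
  inj : Function.Injective r
  tab : ∀ i < 2, ∀ a : Fin 112, (r (gs i) a : ℕ) = pl (2 * i) a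
  card : Nat.card H = 3265920

theorem simplePU : IsSimpleGroup (PU 4 F9 3) := by
  have h := S0283.result (F := F9) (q := 3) H8LU43.cF9 4 (by norm_num) (by norm_num)
  exact (H3Prj.equivPSU (n := 4) (F := F9) (q := 3) H8LU43.cF9 (by norm_num)).isSimpleGroup_congr.2 h

theorem pl0_ne : pl 0 1 ≠ 1 ∨ pl 0 0 ≠ 0 := by decide +kernel

theorem exists_rep : Nonempty (Rep (PU 4 F9 3)) := by
  obtain ⟨ρ, gs, hgen, hT⟩ := exists_280
  letI : MulAction (PU 4 F9 3) (Set (Fin 280)) := MulAction.compHom _ ρ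
  obtain ⟨r, h1, h2⟩ := hom_of_tab gs hgen lnS lnS_inj T112 (by
    intro i hi a
    show (ρ (gs i)) • lnS a = lnS (T112 i a)
    ext x
    obtain ⟨b, rfl⟩ := (ρ (gs i)).surjective x
    rw [Set.mem_smul_set_iff_inv_smul_mem]
    have e : (ρ (gs i))⁻¹ • (ρ (gs i)) b = b := (ρ (gs i)).symm_apply_apply b
    rw [e, hT i hi]
    show bt (lnm a) b = true ↔ bt (lnm (T112 i a)) (T280 i b) = true
    rw [T112_val hi, ln_ok hi a.2])
  have htab : ∀ i < 2, ∀ a : Fin 112, (r (gs i) a : ℕ) = pl (2 * i) a := by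
    intro i hi a
    rw [h2 i hi, T112_val hi]
  refine ⟨⟨r, gs, hgen, ?_, htab, H8LU43.cardG⟩⟩
  rcases simplePU.eq_bot_or_eq_top_of_normal r.ker inferInstance with h | h
  · exact (MonoidHom.ker_eq_bot_iff r).1 h
  · exfalso
    have h3 : r (gs 0) = 1 := by
      rw [← MonoidHom.mem_ker, h]; trivial
    have h4 : ∀ a : Fin 112, pl 0 a = a := by
      intro a
      have := htab 0 (by norm_num) a
      rw [h3] at this
      exact this.symm
    rcases pl0_ne with h5 | h5
    · exact h5 (h4 1)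
    · exact h5 (h4 0)

/-- transport -/
def Rep.map {H H' : Type*} [Group H] [Group H'] (e : H ≃* H') (R : Rep H) : Rep H' where
  r := R.r.comp e.symm.toMonoidHom
  gs i := e (R.gs i)
  gen := by
    have h := congrArg (Subgroup.map e.toMonoidHom) R.gen
    rw [MonoidHom.map_closure, Subgroup.map_top_of_surjective _ e.surjective] at h
    rw [← h]
    congr 1
    ext z
    constructor
    · rintro ⟨i, hi, rfl⟩
      exact ⟨_, ⟨i, hi, rfl⟩, rfl⟩
    · rintro ⟨_, ⟨i, hi, rfl⟩, rfl⟩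
      exact ⟨i, hi, rfl⟩
  inj := fun x y h => e.symm.injective (R.inj h)
  tab := by
    intro i hi a
    show (R.r (e.symm (e (R.gs i))) a : ℕ) = _
    rw [e.symm_apply_apply]
    exact R.tab i hi a
  card := by rw [← Nat.card_congr e.toEquiv, R.card]

/-! ### words -/

section
variable {H : Type*} [Group H]

def evH (f : ℕ → H) : List ℕ → H
  | [] => 1
  | i :: w => f i * evH f w

theorem evH_tab {r : H →* Equiv.Perm (Fin 112)} {f : ℕ → H} {t : ℕ → ℕ → ℕ} {n : ℕ}
    (h : ∀ i < n, ∀ a : Fin 112, (r (f i) a : ℕ) = t i a) (w : List ℕ) (hw : ∀ l ∈ w, l < n) (a : Fin 112) :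
    (r (evH f w) a : ℕ) = evw t w a := by
  induction w with
  | nil =>
    show (r 1 a : ℕ) = a
    rw [map_one]; rfl
  | cons i w ih =>
    show (r (f i * evH f w) a : ℕ) = t i (evw t w a)
    rw [map_mul]
    show (r (f i) (r (evH f w) a) : ℕ) = _
    rw [h i (hw i (List.mem_cons_self)), ih fun l hl => hw l (List.mem_cons_of_mem _ hl)]

theorem evH_mem {f : ℕ → H} {K : Subgroup H} (w : List ℕ) (h : ∀ l ∈ w, f l ∈ K) : evH f w ∈ K := by
  induction w with
  | nil => exact K.one_mem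
  | cons i w ih => exact K.mul_mem (h i List.mem_cons_self) (ih fun l hl => h l (List.mem_cons_of_mem _ hl))

variable (R : Rep H)

def Rep.L (i : ℕ) : H := ([R.gs 0, (R.gs 0)⁻¹, R.gs 1, (R.gs 1)⁻¹] : List H).getD i 1

theorem inv_tab {r : H →* Equiv.Perm (Fin 112)} {x : H} {t t' : ℕ → ℕ} (h : ∀ a : Fin 112, (r x a : ℕ) = t a)
    (h' : ∀ a < 112, t' (t a) = a) (a : Fin 112) : (r x⁻¹ a : ℕ) = t' a := by
  obtain ⟨b, rfl⟩ := (r x).surjective a
  rw [map_inv]
  have e : (r x)⁻¹ (r x b) = b := (r x).symm_apply_apply b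
  rw [e, h, h' b b.2]

theorem Rep.L_tab : ∀ i < 4, ∀ a : Fin 112, (R.r (R.L i) a : ℕ) = pl i a := by
  intro i hi a
  have h0 := R.tab 0 (by norm_num)
  have h1 := R.tab 1 (by norm_num)
  interval_cases i
  · exact h0 a
  · exact inv_tab (t := pl 0) (t' := pl 1) h0 pl10 a
  · exact h1 a
  · exact inv_tab (t := pl 2) (t' := pl 3) h1 pl32 a

/-- the elements of the 3-group -/
def Rep.y (i : ℕ) : H := if i < 6 then evH R.L (UW.getD i []) else (evH R.L (UW.getD (i - 6) []))⁻¹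

theorem Rep.y_tab : ∀ i < 12, ∀ a : Fin 112, (R.r (R.y i) a : ℕ) = ul i a := by
  have h0 : ∀ i < 6, ∀ a : Fin 112, (R.r (evH R.L (UW.getD i [])) a : ℕ) = ul i a := by
    intro i hi a
    rw [evH_tab R.L_tab _ (UW_lt i hi), UW_ok i hi a a.2]
  intro i hi a
  unfold Rep.y
  split_ifs with h
  · exact h0 i h a
  · have h1 := inv_tab (t := ul (i - 6)) (t' := ul i) (h0 (i - 6) (by omega)) (by
      intro b hb
      have := ul_inv1 (i - 6) (by omega) b hb
      rwa [show i - 6 + 6 = i by omega] at this) a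
    exact h1

theorem Rep.eq_of_word {w w' : List ℕ} (hw : ∀ l ∈ w, l < 12) (hw' : ∀ l ∈ w', l < 12)
    (h : ∀ a < 112, evw ul w a = evw ul w' a) : evH R.y w = evH R.y w' := by
  apply R.inj
  ext a
  rw [evH_tab R.y_tab w hw, evH_tab R.y_tab w' hw']
  exact h a a.2

theorem Rep.y_inv {i : ℕ} (hi : i < 6) : R.y (i + 6) = (R.y i)⁻¹ := by
  unfold Rep.y
  rw [if_pos hi, if_neg (by omega), Nat.add_sub_cancel]

def Rep.Q (k : ℕ) : Subgroup H := Subgroup.closure {z | ∃ i < k, z = R.y i}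

theorem Rep.y_mem {i k : ℕ} (h : i < k) : R.y i ∈ R.Q k := Subgroup.subset_closure ⟨i, h, rfl⟩

theorem Rep.y_nine {i : ℕ} (hi : i < 6) : R.y i ^ 9 = 1 := by
  have h := R.eq_of_word (w := [i, i, i, i, i, i, i, i, i]) (w' := []) (by
    intro l hl
    simp only [List.mem_cons, List.not_mem_nil, or_false, or_self] at hl
    omega) (by simp) (fun a ha => ul_nine i hi a ha)
  rw [← show evH R.y [i, i, i, i, i, i, i, i, i] = R.y i ^ 9 by
    simp only [evH, pow_succ, pow_zero, one_mul, mul_one, mul_assoc], h]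
  rfl

theorem Rep.y_conj {i k : ℕ} (hk : k < 6) (hi : i < k) : R.y k * R.y i * (R.y k)⁻¹ ∈ R.Q k ∧ (R.y k)⁻¹ * R.y i * R.y k ∈ R.Q k := by
  constructor
  · have h := R.eq_of_word (w := [k, i, k + 6]) (w' := (CW.getD k []).getD i []) (by
      intro l hl
      simp only [List.mem_cons, List.not_mem_nil, or_false] at hl
      omega) (fun l hl => by have := CW_lt k hk i hi l hl; omega) (fun a ha => CW_ok k hk i hi a ha)
    have h2 : evH R.y [k, i, k + 6] = R.y k * R.y i * (R.y k)⁻¹ := by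
      simp only [evH, mul_one, mul_assoc, R.y_inv hk]
    rw [← h2, h]
    exact evH_mem _ fun l hl => R.y_mem (CW_lt k hk i hi l hl)
  · have h := R.eq_of_word (w := [k + 6, i, k]) (w' := (CV.getD k []).getD i []) (by
      intro l hl
      simp only [List.mem_cons, List.not_mem_nil, or_false] at hl
      omega) (fun l hl => by have := CV_lt k hk i hi l hl; omega) (fun a ha => CV_ok k hk i hi a ha)
    have h2 : evH R.y [k + 6, i, k] = (R.y k)⁻¹ * R.y i * R.y k := by
      simp only [evH, mul_one, mul_assoc, R.y_inv hk]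
    rw [← h2, h]
    exact evH_mem _ fun l hl => R.y_mem (CV_lt k hk i hi l hl)

theorem Rep.conj_mem {k : ℕ} (hk : k < 6) : ∀ x ∈ R.Q k, R.y k * x * (R.y k)⁻¹ ∈ R.Q k ∧ (R.y k)⁻¹ * x * R.y k ∈ R.Q k := by
  intro x hx
  constructor
  · have h : R.Q k ≤ (R.Q k).comap (MulAut.conj (R.y k)).toMonoidHom := by
      unfold Rep.Q
      rw [Subgroup.closure_le]
      rintro _ ⟨i, hi, rfl⟩
      exact (R.y_conj hk hi).1
    exact h hx
  · have h : R.Q k ≤ (R.Q k).comap (MulAut.conj (R.y k)⁻¹).toMonoidHom := by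
      unfold Rep.Q
      rw [Subgroup.closure_le]
      rintro _ ⟨i, hi, rfl⟩
      have := (R.y_conj hk hi).2
      show (R.y k)⁻¹ * R.y i * ((R.y k)⁻¹)⁻¹ ∈ R.Q k
      rwa [inv_inv]
    have h2 : (R.y k)⁻¹ * x * ((R.y k)⁻¹)⁻¹ ∈ R.Q k := h hx
    rwa [inv_inv] at h2

theorem Rep.isPGroup_Q : ∀ k ≤ 6, IsPGroup 3 (R.Q k) := by
  intro k
  induction k with
  | zero =>
    intro _
    have : R.Q 0 = ⊥ := by
      unfold Rep.Q
      rw [Subgroup.closure_eq_bot_iff]
      rintro _ ⟨i, hi, _⟩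
      omega
    rw [this]
    exact IsPGroup.of_bot
  | succ k ih =>
    intro hk
    have h1 := ih (by omega)
    have h2 : IsPGroup 3 (Subgroup.zpowers (R.y k)) := by
      rintro ⟨_, n, rfl⟩
      refine ⟨2, Subtype.ext ?_⟩
      show (R.y k ^ n) ^ (3 ^ 2) = 1
      rw [← zpow_natCast, ← zpow_mul, mul_comm, zpow_mul, zpow_natCast]
      norm_num
      rw [R.y_nine (by omega), one_zpow]
    have h3 : IsPGroup 3 (↥(Subgroup.zpowers (R.y k) ⊔ R.Q k)) := by
      refine IsPGroup.to_sup_of_normal_right' h2 h1 ?_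
      rw [Subgroup.zpowers_le, Subgroup.mem_normalizer_iff]
      intro x
      constructor
      · intro hx
        exact (R.conj_mem (by omega) x hx).1
      · intro hx
        have := (R.conj_mem (by omega) _ hx).2
        rwa [show (R.y k)⁻¹ * (R.y k * x * (R.y k)⁻¹) * R.y k = x by group] at this
    have h4 : R.Q (k + 1) ≤ Subgroup.zpowers (R.y k) ⊔ R.Q k := by
      show Subgroup.closure _ ≤ _
      rw [Subgroup.closure_le]
      rintro _ ⟨i, hi, rfl⟩
      rcases Nat.lt_succ_iff_lt_or_eq.1 hi with hi | rfl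
      · exact (le_sup_right : R.Q k ≤ _) (R.y_mem hi)
      · exact (le_sup_left : Subgroup.zpowers (R.y i) ≤ _) (Subgroup.mem_zpowers _)
    exact h3.to_le h4

theorem Rep.y_fix {i : ℕ} (hi : i < 12) : R.r (R.y i) 0 = 0 := by
  apply Fin.ext
  rw [R.y_tab i hi]
  exact ul_zero i hi

end

end Cfsg.Agent.Lib.MLRec
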