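import Cfsg.Agent.Lib.MLRecF

/-!
# Recognition of the McLaughlin group: the actions of PSU(4,3) of degree 112
-/

set_option autoImplicit false
set_option maxHeartbeats 400000

namespace Cfsg.Agent.Lib.MLRec

open Cfsg Cfsg.Agent.Lib Subgroup
open Cfsg.Agent.Lib.H58SM
open scoped Pointwise

/-- the union of the classes -/
def clsS (p0 p1 p4 p7 : Bool) : Finset (Fin 112) :=
  Finset.univ.filter fun a => ((p0 && Nat.beq (rt a) 0) || ((p1 && Nat.beq (rt a) 1) || ((p4 && Nat.beq (rt a) 4) ||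
    (p7 && Nat.beq (rt a) 7)))) = true

theorem clsS_card : ∀ p0 p1 p4 p7, (clsS p0 p1 p4 p7).card = p0.toNat + 3 * p1.toNat + 27 * p4.toNat + 81 * p7.toNat := by
  decide +kernel

theorem rt_lt : ∀ a < 112, rt a < 112 := by decide +kernel
theorem rt_rt : ∀ a < 112, rt (rt a) = rt a := by decide +kernel
theorem WR_ok : evw pl [2, 0, 2, 2, 0, 3, 0, 3, 3, 0, 2] 0 = 1 ∧ evw pl [0, 2, 0, 2, 2, 0, 3, 0, 3, 3, 0, 2] 0 = 4 ∧
    evw pl [2] 0 = 7 := by decide +kernel
theorem inb0 : ∀ a < 112, inb 0 a = true ↔ (rt a = 0 ∨ rt a = 1) := by decide +kernel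
theorem rt_val : rt 0 = 0 ∧ rt 1 = 1 ∧ rt 4 = 4 ∧ rt 7 = 7 := by decide +kernel

theorem beq_dec (x y : ℕ) : Nat.beq x y = decide (x = y) := by
  by_cases h : x = y
  · rw [decide_eq_true h]; exact Sol.beq_iff.2 h
  · rw [decide_eq_false h]
    cases h2 : Nat.beq x y
    · rfl
    · exact absurd (Sol.beq_iff.1 h2) h

theorem eq_clsS {S : Set (Fin 112)} (hS : ∀ a c : Fin 112, rt a = rt c → a ∈ S → c ∈ S) :
    ∃ p0 p1 p4 p7 : Bool, S = ↑(clsS p0 p1 p4 p7) ∧ (p0 = true ↔ 0 ∈ S) ∧ (p1 = true ↔ 1 ∈ S) ∧ (p4 = true ↔ 4 ∈ S) ∧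
      (p7 = true ↔ 7 ∈ S) := by
  classical
  have h0 : ∀ a : Fin 112, (a ∈ S ↔ (⟨rt a, rt_lt a a.2⟩ : Fin 112) ∈ S) := by
    intro a
    exact ⟨hS a _ (rt_rt a a.2).symm, hS _ a (rt_rt a a.2)⟩
  refine ⟨decide (0 ∈ S), decide (1 ∈ S), decide (4 ∈ S), decide (7 ∈ S), ?_, decide_eq_true_iff, decide_eq_true_iff,
    decide_eq_true_iff, decide_eq_true_iff⟩
  ext a
  rw [h0 a]
  unfold clsS
  rw [Finset.coe_filter]
  show _ ↔ (a ∈ Finset.univ ∧ _)
  simp only [Finset.mem_univ, true_and, beq_dec]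
  rcases rt_mem a a.2 with h | h | h | h
  · have e : (⟨rt a, rt_lt a a.2⟩ : Fin 112) = 0 := Fin.ext h
    rw [e, h]
    simp
  · have e : (⟨rt a, rt_lt a a.2⟩ : Fin 112) = 1 := Fin.ext h
    rw [e, h]
    simp
  · have e : (⟨rt a, rt_lt a a.2⟩ : Fin 112) = 4 := Fin.ext h
    rw [e, h]
    simp
  · have e : (⟨rt a, rt_lt a a.2⟩ : Fin 112) = 7 := Fin.ext h
    rw [e, h]
    simp

section
variable {H : Type*} [Group H] (R : Rep H)

include R in
theorem Rep.fin : Finite H := Nat.finite_of_card_ne_zero (by rw [R.card]; norm_num)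

theorem Rep.Q_word {w : List ℕ} (hw : ∀ l ∈ w, l < 12) : evH R.y w ∈ R.Q 6 := by
  apply evH_mem
  intro l hl
  by_cases h : l < 6
  · exact R.y_mem h
  · have h2 := R.y_inv (i := l - 6) (by have := hw l hl; omega)
    rw [show l - 6 + 6 = l by omega] at h2
    rw [h2]
    exact (R.Q 6).inv_mem (R.y_mem (by have := hw l hl; omega))

theorem Rep.root {a : Fin 112} : ∃ x ∈ R.Q 6, R.r x ⟨rt a, rt_lt a a.2⟩ = a := by
  refine ⟨_, R.Q_word (WA_lt a a.2), ?_⟩
  apply Fin.ext
  rw [evH_tab R.y_tab _ (WA_lt a a.2)]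
  exact WA_ok a a.2

theorem Rep.cls {S : Set (Fin 112)} (hS : ∀ x ∈ R.Q 6, ∀ a ∈ S, R.r x a ∈ S) (a c : Fin 112) (h : rt a = rt c) (ha : a ∈ S) :
    c ∈ S := by
  obtain ⟨x, hx, h1⟩ := R.root (a := a)
  obtain ⟨y, hy, h2⟩ := R.root (a := c)
  have e : (⟨rt a, rt_lt a a.2⟩ : Fin 112) = ⟨rt c, rt_lt c c.2⟩ := Fin.ext h
  have h3 : R.r x⁻¹ a = ⟨rt a, rt_lt a a.2⟩ := by
    rw [map_inv]
    exact (Equiv.symm_apply_eq (R.r x)).2 h1.symm
  rw [← h2, ← e, ← h3]
  exact hS y hy _ (hS _ ((R.Q 6).inv_mem hx) a ha)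

theorem Rep.trans (a : Fin 112) : ∃ h : H, R.r h 0 = a := by
  have key : ∃ h : H, R.r h 0 = ⟨rt a, rt_lt a a.2⟩ := by
    have hL := R.L_tab
    rcases rt_mem a a.2 with h | h | h | h
    · refine ⟨1, Fin.ext ?_⟩
      rw [map_one]; exact h.symm
    · refine ⟨evH R.L [2, 0, 2, 2, 0, 3, 0, 3, 3, 0, 2], Fin.ext ?_⟩
      rw [evH_tab hL _ (by decide)]
      exact WR_ok.1.trans h.symm
    · refine ⟨evH R.L [0, 2, 0, 2, 2, 0, 3, 0, 3, 3, 0, 2], Fin.ext ?_⟩
      rw [evH_tab hL _ (by decide)]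
      exact WR_ok.2.1.trans h.symm
    · refine ⟨evH R.L [2], Fin.ext ?_⟩
      rw [evH_tab hL _ (by decide)]
      exact WR_ok.2.2.trans h.symm
  obtain ⟨h, hh⟩ := key
  obtain ⟨x, -, hx⟩ := R.root (a := a)
  exact ⟨x * h, by rw [map_mul]; show R.r x (R.r h 0) = a; rw [hh, hx]⟩

/-- the blocks -/
def blS (k : ℕ) : Set (Fin 112) := {a | inb k a = true}

theorem Rep.bl_orbit : ∀ k < 120, ∃ h : H, ∀ a : Fin 112, a ∈ blS 0 ↔ R.r h a ∈ blS k := by
  intro k
  induction k using Nat.strong_induction_on with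
  | _ k ih =>
    intro hk
    rcases Nat.eq_zero_or_pos k with rfl | h0
    · exact ⟨1, fun a => by rw [map_one]; exact Iff.rfl⟩
    · obtain ⟨h1, h2⟩ := bpar_lt k hk h0
      obtain ⟨h, hh⟩ := ih _ h1 (by omega)
      have h3 := bpar_ok k hk h0
      refine ⟨R.L (bgen k) * h, fun a => ?_⟩
      rw [hh a, map_mul]
      show inb (bpar k) (R.r h a) = true ↔ inb k (R.r (R.L (bgen k)) (R.r h a)) = true
      rw [R.L_tab (bgen k) (by omega), h3 _ (R.r h a).2]

/-- an action of degree 112 -/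
theorem Rep.exists_phi {X : Type*} [MulAction H X] (b : X) (hb : (MulAction.orbit H b).ncard = 112) :
    ∃ φ : Fin 112 → X, Function.Injective φ ∧ Set.range φ = MulAction.orbit H b ∧
      ∀ (h : H) (i : Fin 112), φ (R.r h i) = h • φ i := by
  have hfin := R.fin
  have f3 : Fact (Nat.Prime 3) := ⟨by norm_num⟩
  -- a fixed point of the 3-group
  obtain ⟨b', hb', hfix⟩ : ∃ b' ∈ MulAction.orbit H b, ∀ x ∈ R.Q 6, x • b' = b' := by
    obtain ⟨⟨b', hb'⟩, h⟩ := (R.isPGroup_Q 6 le_rfl).nonempty_fixed_point_of_prime_not_dvd_card (MulAction.orbit H b) (by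
      rw [Nat.card_coe_set_eq, hb]; norm_num)
    refine ⟨b', hb', fun x hx => ?_⟩
    exact congrArg Subtype.val (h ⟨x, hx⟩)
  have hob : MulAction.orbit H b' = MulAction.orbit H b := MulAction.orbit_eq_iff.2 hb'
  set K := MulAction.stabilizer H b' with hK
  have hKi : K.index = 112 := by rw [hK, MulAction.index_stabilizer, hob, hb]
  have hKc : Nat.card K = 29160 := by
    have := Subgroup.card_mul_index K
    rw [hKi, R.card] at this
    omega
  have hQK : R.Q 6 ≤ K := fun x hx => hfix x hx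
  letI : MulAction H (Fin 112) := MulAction.compHom _ R.r
  have hsm : ∀ (h : H) (a : Fin 112), h • a = R.r h a := fun _ _ => rfl
  set O : Set (Fin 112) := MulAction.orbit K (0 : Fin 112) with hO
  have h0O : (0 : Fin 112) ∈ O := MulAction.mem_orbit_self _
  have hdvd : O.ncard ∣ 29160 := by
    rw [hO, ← MulAction.index_stabilizer, ← hKc]
    exact Subgroup.index_dvd_card _
  have hOK : ∀ x ∈ K, ∀ a ∈ O, R.r x a ∈ O := by
    rintro x hx _ ⟨k, rfl⟩
    exact ⟨⟨x, hx⟩ * k, mul_smul (⟨x, hx⟩ : K) k (0 : Fin 112)⟩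
  obtain ⟨p0, p1, p4, p7, hS, e0, -, -, -⟩ := eq_clsS (R.cls fun x hx a ha => hOK x (hQK hx) a ha)
  have hp0 : p0 = true := e0.2 h0O
  have hcard := clsS_card p0 p1 p4 p7
  rw [← Set.ncard_coe_finset, ← hS, hp0] at hcard
  have hcase : p4 = false ∧ p7 = false := by
    rw [hcard] at hdvd
    revert hdvd
    cases p1 <;> cases p4 <;> cases p7 <;> decide
  have hnb : p1 ≠ true := by
    intro hp1
    -- the block
    have hO0 : O = blS 0 := by
      rw [hS, hp0, hp1, hcase.1, hcase.2]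
      ext a
      unfold clsS
      rw [Finset.coe_filter]
      show (a ∈ Finset.univ ∧ _) ↔ inb 0 a = true
      rw [inb0 a a.2]
      simp only [Finset.mem_univ, true_and, beq_dec, Bool.false_and, Bool.or_false, Bool.true_and, Bool.or_eq_true,
        decide_eq_true_eq]
    have hKs : K ≤ MulAction.stabilizer H O := by
      intro x hx
      rw [MulAction.mem_stabilizer_iff]
      ext a
      rw [Set.mem_smul_set_iff_inv_smul_mem]
      constructor
      · intro h
        have := hOK x hx _ h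
        rwa [← hsm, smul_inv_smul] at this
      · intro h
        exact hOK _ (K.inv_mem hx) a h
    have h1 : (MulAction.stabilizer H O).index ∣ 112 := by
      have h := Subgroup.index_dvd_of_le hKs
      rwa [hKi] at h
    have h2 := Nat.le_of_dvd (by norm_num) h1
    rw [MulAction.index_stabilizer] at h2
    have h3 : 120 ≤ (MulAction.orbit H O).ncard := by
      have h4 : (blS '' Set.Iio 120) ⊆ MulAction.orbit H O := by
        rintro _ ⟨k, hk, rfl⟩
        obtain ⟨h, hh⟩ := R.bl_orbit k hk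
        refine ⟨h, ?_⟩
        show h • O = blS k
        ext a
        rw [Set.mem_smul_set_iff_inv_smul_mem, hO0, hh, ← hsm, smul_inv_smul]
      have h5 := Set.ncard_le_ncard h4 (Set.toFinite _)
      rw [Set.ncard_image_of_injOn, Set.ncard_eq_toFinset_card'] at h5
      · simpa using h5
      · intro k hk l hl hkl
        apply inb_inj k hk l hl
        intro j hj
        have h6 : (⟨bq k j, bq_lt k (by have : k < 120 := hk; omega) j hj⟩ : Fin 112) ∈ blS l := by
          rw [← hkl]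
          show inb k (bq k j) = true
          unfold inb
          have hb' : Nat.beq (bq k j) (bq k j) = true := Sol.beq_iff.2 rfl
          interval_cases j <;> rw [hb'] <;> simp
        exact h6
    omega
  have hp1 : p1 = false := by
    cases p1
    · rfl
    · exact absurd rfl hnb
  have hO1 : ∀ x ∈ K, R.r x 0 = 0 := by
    intro x hx
    have h1 := hOK x hx 0 h0O
    rw [hS, hp0, hp1, hcase.1, hcase.2] at h1
    unfold clsS at h1
    rw [Finset.coe_filter] at h1
    have h2 := h1.2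
    simp only [beq_dec, Bool.false_and, Bool.or_false, Bool.true_and, decide_eq_true_eq] at h2
    -- the class of 0 has one element
    have h3 : (clsS true false false false).card = 1 := by decide +kernel
    have h4 : ∀ a < 112, rt a = 0 → a = 0 := by decide +kernel
    exact Fin.ext (h4 _ (R.r x 0).2 h2)
  have hKle : K ≤ MulAction.stabilizer H (0 : Fin 112) := fun x hx => hO1 x hx
  have hKeq : K = MulAction.stabilizer H (0 : Fin 112) := by
    have h1 : (MulAction.stabilizer H (0 : Fin 112)).index = 112 := by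
      rw [MulAction.index_stabilizer]
      have h2 : MulAction.orbit H (0 : Fin 112) = Set.univ := by
        rw [Set.eq_univ_iff_forall]
        intro a
        obtain ⟨h, hh⟩ := R.trans a
        exact ⟨h, hh⟩
      rw [h2, Set.ncard_univ, Nat.card_eq_fintype_card, Fintype.card_fin]
    apply Subgroup.eq_of_le_of_card_ge hKle
    have h3 := Subgroup.card_mul_index (MulAction.stabilizer H (0 : Fin 112))
    rw [h1, R.card] at h3
    omega
  have hst : ∀ x : H, x • b' = b' ↔ R.r x 0 = 0 := by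
    intro x
    have h1 : x ∈ K ↔ x ∈ MulAction.stabilizer H (0 : Fin 112) := by rw [hKeq]
    exact h1
  choose t ht using R.trans
  have key : ∀ x y : H, R.r x 0 = R.r y 0 ↔ x • b' = y • b' := by
    intro x y
    rw [← inv_smul_eq_iff, ← mul_smul, hst, map_mul, map_inv]
    show _ ↔ (R.r y).symm (R.r x 0) = 0
    rw [Equiv.symm_apply_eq]
  refine ⟨fun i => t i • b', ?_, ?_, ?_⟩
  · intro i j hij
    have h1 := (key _ _).2 hij
    rwa [ht, ht] at h1
  · ext z
    rw [← hob]
    constructor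
    · rintro ⟨i, rfl⟩
      exact ⟨t i, rfl⟩
    · rintro ⟨h, rfl⟩
      refine ⟨R.r h 0, ?_⟩
      show t _ • b' = h • b'
      rw [← key, ht]
  · intro h i
    show t _ • b' = h • t i • b'
    rw [← mul_smul, ← key, ht, map_mul]
    show _ = R.r h (R.r (t i) 0)
    rw [ht]

end

end Cfsg.Agent.Lib.MLRec
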