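import Cfsg.Agent.Lib.MLRecE

/-!
# Recognition of the McLaughlin group: the automorphism group of the graph given by the tables
-/

set_option autoImplicit false
set_option maxHeartbeats 400000
set_option maxRecDepth 100000

namespace Cfsg.Agent.Lib.MLRec

open Cfsg Cfsg.Agent.Lib
open Cfsg.Agent.Lib.H58SM

/-- automorphisms -/
def AutT : Subgroup (Equiv.Perm (Fin 275)) where
  carrier := {σ | ∀ u v : Fin 275, aj (σ u) (σ v) = aj u v}
  one_mem' := fun _ _ => rfl
  mul_mem' := by
    intro σ τ hσ hτ u v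
    exact (hσ _ _).trans (hτ u v)
  inv_mem' := by
    intro σ hσ u v
    have h := hσ (σ⁻¹ u) (σ⁻¹ v)
    have e : ∀ w, σ (σ⁻¹ w) = w := fun w => σ.apply_symm_apply w
    rw [e, e] at h
    exact h.symm

def ov (k : ℕ) : Fin 275 := ⟨ordv k % 275, Nat.mod_lt _ (by norm_num)⟩

theorem ov_val {k : ℕ} (hk : k < 275) : (ov k : ℕ) = ordv k := Nat.mod_eq_of_lt (ordv_lt k hk)

theorem ov_surj (v : Fin 275) : ∃ k < 275, ov k = v := by
  have h := alln_iff.1 ordv_surj v v.2
  by_contra hcon
  push Not at hcon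
  have h2 : alln (fun k => !(Nat.beq (ordv k) v)) 275 = true := by
    rw [alln_iff]
    intro j hj
    cases hP : Nat.beq (ordv j) v
    · rfl
    · exact absurd (Fin.ext ((ov_val hj).trans (Sol.beq_iff.1 hP))) (hcon j hj)
  rw [h2] at h
  exact absurd h (by decide)

theorem ov_inj {k l : ℕ} (hk : k < 275) (hl : l < 275) (h : ov k = ov l) : k = l := by
  have hs : Function.Surjective (fun k : Fin 275 => ov k) := by
    intro v
    obtain ⟨k, hk, h⟩ := ov_surj v
    exact ⟨⟨k, hk⟩, h⟩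
  have hi := Finite.injective_iff_surjective.2 hs
  exact congrArg Fin.val (@hi ⟨k, hk⟩ ⟨l, hl⟩ h)

theorem bt_F275 {x : ℕ} (h : x < 275) : bt F275 x = true := by
  rw [bt_eq, show F275 = 2 ^ 275 - 1 by decide +kernel, Nat.testBit_two_pow_sub_one]
  simpa using h

theorem bt_land (m m' x : ℕ) : bt (Nat.land m m') x = (bt m x && bt m' x) := by
  rw [bt_eq, bt_eq, bt_eq]; exact Nat.testBit_and _ _ _

theorem bt_xor (m m' x : ℕ) : bt (Nat.xor m m') x = (bt m x ^^ bt m' x) := by
  rw [bt_eq, bt_eq, bt_eq]; exact Nat.testBit_xor _ _ _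

theorem bt_shl (w x : ℕ) : bt (Nat.shiftLeft 1 w) x = decide (w = x) := by
  rw [bt_eq, show Nat.shiftLeft 1 w = 1 <<< w from rfl, Nat.shiftLeft_eq, one_mul, Nat.testBit_two_pow]

theorem cmask_succ (u k : ℕ) : cmask u (k + 1) = cond (aj (ordv k) u) (Nat.land (cmask u k) (am (ordv k)))
    (Nat.land (Nat.land (cmask u k) (Nat.xor (am (ordv k)) F275)) (Nat.xor (Nat.shiftLeft 1 (ordv k)) F275)) := by
  have h : cmask u (k + 1) = frc (ordv k) fun w => frc (am w) fun m => cond (bt m u) (Nat.land (cmask u k) m)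
    (Nat.land (Nat.land (cmask u k) (Nat.xor m F275)) (Nat.xor (Nat.shiftLeft 1 w) F275)) := rfl
  rw [h, frc_eq, frc_eq]
  rfl

theorem cmask_spec {u : Fin 275} {σ : Equiv.Perm (Fin 275)} (hσ : σ ∈ AutT) (k : ℕ) (hk : k ≤ 275)
    (h1 : ∀ i < k, σ (ov i) = ov i) (h2 : ∀ i < k, ov i ≠ u) : bt (cmask u k) (σ u : Fin 275) = true := by
  induction k with
  | zero => exact bt_F275 (σ u).2
  | succ k ih =>
    have h3 := ih (by omega) (fun i hi => h1 i (by omega)) (fun i hi => h2 i (by omega))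
    rw [cmask_succ]
    have h4 : aj (ordv k) u = bt (am (ordv k)) (σ u : Fin 275) := by
      have h5 := hσ (ov k) u
      rw [h1 k (by omega), ov_val (by omega)] at h5
      exact h5.symm
    cases h6 : aj (ordv k) u
    · rw [cond_false, bt_land, bt_land, bt_xor, bt_xor, h3, ← h4, h6, bt_F275 (σ u).2, bt_shl]
      have h7 : ordv k ≠ (σ u : Fin 275) := by
        intro h8
        have h9 : ov k = σ u := Fin.ext ((ov_val (by omega)).trans h8)
        rw [← h1 k (by omega)] at h9
        exact h2 k (by omega) (σ.injective h9)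
      rw [decide_eq_false h7]
      rfl
    · rw [cond_true, bt_land, h3, ← h4, h6]; rfl

/-- the stabilizers -/
def Ak (k : ℕ) : Subgroup (Equiv.Perm (Fin 275)) where
  carrier := {σ | σ ∈ AutT ∧ ∀ i < k, σ (ov i) = ov i}
  one_mem' := ⟨AutT.one_mem, fun _ _ => rfl⟩
  mul_mem' := by
    rintro σ τ ⟨h1, h2⟩ ⟨h3, h4⟩
    refine ⟨AutT.mul_mem h1 h3, fun i hi => ?_⟩
    show σ (τ (ov i)) = ov i
    rw [h4 i hi, h2 i hi]
  inv_mem' := by
    rintro σ ⟨h1, h2⟩
    refine ⟨AutT.inv_mem h1, fun i hi => ?_⟩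
    exact (Equiv.symm_apply_eq σ).2 (h2 i hi).symm

theorem ncard_bt (m n : ℕ) : Set.ncard {i : Fin n | bt m i = true} =
    Nat.rec (motive := fun _ => ℕ) 0 (fun x r => Nat.add r (cond (bt m x) 1 0)) n := by
  have h : {i : Fin n | bt m i = true} = ↑(Finset.univ.filter fun i : Fin n => bt m i = true) := by
    ext i; simp
  rw [h, Set.ncard_coe_finset, ← Finset.card_map Fin.valEmbedding]
  have h2 : ((Finset.univ.filter fun i : Fin n => bt m i = true).map Fin.valEmbedding) =
      (Finset.range n).filter fun x => bt m x = true := by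
    ext k
    simp only [Finset.mem_map, Finset.mem_filter, Finset.mem_univ, true_and, Fin.valEmbedding_apply, Finset.mem_range]
    constructor
    · rintro ⟨i, hi, rfl⟩
      exact ⟨i.2, hi⟩
    · rintro ⟨hk, h⟩
      exact ⟨⟨k, hk⟩, h, rfl⟩
  rw [h2, Finset.card_filter]
  clear h h2
  induction n with
  | zero => rfl
  | succ n ih =>
    rw [Finset.sum_range_succ, ih]
    show _ = Nat.add _ (cond (bt m n) 1 0)
    cases bt m n <;> rfl

theorem Ak_step {k : ℕ} (hk : k < 275) : Nat.card (Ak k) ≤ cel k * Nat.card (Ak (k + 1)) := by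
  have h1 := Subgroup.card_mul_index (MulAction.stabilizer (Ak k) (ov k))
  rw [MulAction.index_stabilizer] at h1
  have h2 : (MulAction.orbit (Ak k) (ov k)).ncard ≤ cel k := by
    have h3 := alln_iff.1 cel_ok k hk
    rw [frc_eq] at h3
    have h4 : Set.ncard {i : Fin 275 | bt (cmask (ordv k) k) i = true} = cel k := by
      rw [ncard_bt]
      exact Sol.beq_iff.1 h3
    rw [← h4]
    apply Set.ncard_le_ncard _ (Set.toFinite _)
    rintro _ ⟨σ, rfl⟩
    show bt (cmask (ordv k) k) ((σ : Equiv.Perm (Fin 275)) (ov k) : Fin 275) = true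
    have h5 := cmask_spec (u := ov k) σ.2.1 k (by omega) σ.2.2 (by
      intro i hi h6
      have := ov_inj (by omega) hk h6
      omega)
    rwa [ov_val hk] at h5
  have h3 : Nat.card (MulAction.stabilizer (Ak k) (ov k)) ≤ Nat.card (Ak (k + 1)) := by
    refine Nat.card_le_card_of_injective (fun σ => (⟨σ.1.1, σ.1.2.1, fun i hi => ?_⟩ : Ak (k + 1))) ?_
    · rcases Nat.lt_succ_iff_lt_or_eq.1 hi with hi | rfl
      · exact σ.1.2.2 i hi
      · exact σ.2
    · intro σ τ h
      apply Subtype.ext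
      apply Subtype.ext
      exact congrArg (fun x : Ak (k + 1) => (x : Equiv.Perm (Fin 275))) h
  rw [← h1, mul_comm]
  exact Nat.mul_le_mul h2 h3

def Pk (k : ℕ) : ℕ := Nat.rec (motive := fun _ => ℕ) 1 (fun k r => Nat.mul (cel k) r) k

theorem Ak_le (k : ℕ) (hk : k ≤ 275) : Nat.card (Ak 0) ≤ Pk k * Nat.card (Ak k) := by
  induction k with
  | zero => show _ ≤ 1 * _; omega
  | succ k ih =>
    have h1 := ih (by omega)
    have h2 := Ak_step (k := k) (by omega)
    calc Nat.card (Ak 0) ≤ Pk k * Nat.card (Ak k) := h1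
      _ ≤ Pk k * (cel k * Nat.card (Ak (k + 1))) := Nat.mul_le_mul_left _ h2
      _ = Pk (k + 1) * Nat.card (Ak (k + 1)) := by
          show _ = (cel k * Pk k) * _
          ring

theorem card_AutT : Nat.card AutT ≤ 1796256000 := by
  have h0 : AutT = Ak 0 := by
    ext σ
    exact ⟨fun h => ⟨h, fun i hi => absurd hi (Nat.not_lt_zero i)⟩, fun h => h.1⟩
  have h1 : Nat.card (Ak 275) = 1 := by
    have : Ak 275 = ⊥ := by
      rw [eq_bot_iff]
      rintro σ ⟨-, h⟩
      rw [Subgroup.mem_bot]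
      ext v
      obtain ⟨k, hk, rfl⟩ := ov_surj v
      rw [h k hk]; rfl
    rw [this, Subgroup.card_bot]
  have h2 := Ak_le 275 le_rfl
  rw [h1, mul_one] at h2
  rw [h0]
  exact h2.trans (le_of_eq cel_prod)

end Cfsg.Agent.Lib.MLRec
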