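import Cfsg.Agent.Lib.MSUHeisD
import Cfsg.Agent.Lib.MSU3p

/-! `M₃(SU₅(3)) = 1` and `M₂(SU₇(2)) = 1` (helper35). -/

set_option autoImplicit false

namespace Cfsg.Agent.Lib.MSUHeis

open Cfsg Cfsg.Agent.Lib.SchurSylow Cfsg.Agent.Lib.ClUnitary Cfsg.Agent.Lib.HermMat

universe u

variable {F : Type u} [Field F] [Fintype F]

theorem charP_of {q : ℕ} (hq : q.Prime) (hF : Fintype.card F = q ^ 2) : CharP F q := by
  obtain ⟨p, e, hp, hc, hqe, he⟩ := exists_char hF
  have h1 : p ∣ q := by rw [hqe]; exact dvd_pow_self p (by omega)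
  have h2 : p = q := (Nat.prime_dvd_prime_iff_eq hp hq).1 h1
  rw [← h2]; exact hc

/-- `M₃(SU₅(3)) = 1` -/
theorem five_three (hF : Fintype.card F = 3 ^ 2) : PStemDvd 3 (SU 5 F 3) 1 := by
  haveI : Fact (Nat.Prime 3) := ⟨Nat.prime_three⟩
  haveI := charP_of Nat.prime_three hF
  refine pStemDvd_step (k := 3) hF (by norm_num) (lam := -1) ?_ (by norm_num) (by norm_num)
    (H3USim.su_perfect hF 3 (by norm_num) (by omega)) (MSU3p.pStemDvd hF (le_refl 3) 3)
  intro h
  have h2 : ((2 : ℕ) : F) = 0 := by push_cast; linear_combination -h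
  rw [CharP.cast_eq_zero_iff F 3] at h2
  omega

/-- `M₂(SU₇(2)) = 1` from `M₂(SU₅(2)) = 1` -/
theorem seven_two (hF : Fintype.card F = 2 ^ 2) (h5 : PStemDvd 2 (SU 5 F 2) 1) : PStemDvd 2 (SU 7 F 2) 1 := by
  classical
  haveI : Fact (Nat.Prime 2) := ⟨Nat.prime_two⟩
  haveI := charP_of Nat.prime_two hF
  obtain ⟨w, hw0, hw1⟩ : ∃ w : F, w ≠ 0 ∧ w ≠ 1 := by
    by_contra hcon
    push Not at hcon
    have h1 : (Finset.univ : Finset F) ⊆ {0, 1} := by
      intro x _
      by_cases hx : x = 0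
      · simp [hx]
      · simp [hcon x hx]
    have h2 := Finset.card_le_card h1
    rw [Finset.card_univ, hF] at h2
    have h3 := Finset.card_le_two (a := (0 : F)) (b := 1)
    omega
  have hw3 : w ^ 3 = 1 := by
    have := FiniteField.pow_card_sub_one_eq_one w hw0
    rwa [hF] at this
  exact pStemDvd_step (k := 5) hF (by norm_num) (lam := w) hw1 hw3 (by rw [show 5 + 1 = 3 * 2 by norm_num, pow_mul, hw3, one_pow])
    (H3USim.su_perfect hF 5 (by norm_num) (by omega)) h5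

end Cfsg.Agent.Lib.MSUHeis
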