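import Cfsg.Agent.Lib.PhanMulB

/-! Stem extensions and extraspecial-like radicals: the abstract part (helper35). -/

set_option autoImplicit false
set_option linter.unusedSectionVars false
set_option linter.unusedVariables false

namespace Cfsg.Agent.Lib.MSUHeis

open Cfsg Cfsg.Agent.Lib.SchurSylow Cfsg.Agent.Lib.PhanMul Subgroup
open scoped commutatorElement

universe u

variable {G : Type u} [Group G] {Γ : Type u} [Group Γ] {σ : Γ →* G}

/-- commutators of elements which commute with `b` modulo the kernel commute with `b` -/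
theorem comm_comm (hc : σ.ker ≤ center Γ) {b c d : Γ} (hx : σ c * σ b = σ b * σ c) (hy : σ d * σ b = σ b * σ d) :
    ⁅c, d⁆ * b = b * ⁅c, d⁆ := by
  have h1 : σ (c * b * c⁻¹ * b⁻¹) = 1 := by
    rw [map_mul, map_mul, map_mul, map_inv, map_inv, hx]; group
  have h2 : σ (d * b * d⁻¹ * b⁻¹) = 1 := by
    rw [map_mul, map_mul, map_mul, map_inv, map_inv, hy]; group
  set z := c * b * c⁻¹ * b⁻¹ with hz
  set w := d * b * d⁻¹ * b⁻¹ with hw
  have e1 : c * b = z * b * c := by rw [hz]; group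
  have e2 : d * b = w * b * d := by rw [hw]; group
  have zc := comm_ker hc h1
  have wc := comm_ker hc h2
  have hwi : ∀ g, g * w⁻¹ = w⁻¹ * g := fun g => (show Commute g w from wc g).inv_right.eq
  have hzi : ∀ g, g * z⁻¹ = z⁻¹ * g := fun g => (show Commute g z from zc g).inv_right.eq
  have f1 : c * b * c⁻¹ = z * b := by rw [e1]; group
  have f2 : d * b * d⁻¹ = w * b := by rw [e2]; group
  have f3 : c⁻¹ * b * c = z⁻¹ * b := by
    have h5 : b * c = z⁻¹ * (c * b) := by rw [e1]; group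
    rw [mul_assoc, h5, ← mul_assoc, ← mul_assoc, hzi]; group
  have f4 : d⁻¹ * b * d = w⁻¹ * b := by
    have h5 : b * d = w⁻¹ * (d * b) := by rw [e2]; group
    rw [mul_assoc, h5, ← mul_assoc, ← mul_assoc, hwi]; group
  have g1 : ⁅c, d⁆ * b * ⁅c, d⁆⁻¹ = b := by
    have s1 : ⁅c, d⁆ * b * ⁅c, d⁆⁻¹ = c * (d * (c⁻¹ * (d⁻¹ * b * d) * c) * d⁻¹) * c⁻¹ := by
      rw [commutatorElement_def]; group
    rw [s1, f4]
    have s2 : c⁻¹ * (w⁻¹ * b) * c = w⁻¹ * (c⁻¹ * b * c) := by rw [← mul_assoc, hwi]; group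
    rw [s2, f3]
    have s3 : d * (w⁻¹ * (z⁻¹ * b)) * d⁻¹ = w⁻¹ * z⁻¹ * (d * b * d⁻¹) := by
      rw [← mul_assoc, hwi, mul_assoc w⁻¹ d, ← mul_assoc d, hzi]; group
    rw [s3, f2]
    have s4 : w⁻¹ * z⁻¹ * (w * b) = z⁻¹ * b := by
      rw [mul_assoc, ← mul_assoc z⁻¹, wc z⁻¹]; group
    rw [s4]
    have s5 : c * (z⁻¹ * b) * c⁻¹ = z⁻¹ * (c * b * c⁻¹) := by rw [← mul_assoc, hzi]; group
    rw [s5, f1]; group
  exact mul_inv_eq_iff_eq_mul.1 g1

/-- coprime elements -/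
theorem cop_comm {p m : ℕ} (hc : σ.ker ≤ center Γ) (hk : IsPGroup p σ.ker) (hm : m.Coprime p) {t z : Γ}
    (ht : σ t ^ m = 1) (htz : σ t * σ z = σ z * σ t) : t * z = z * t := by
  have h1 : σ (t * z * t⁻¹ * z⁻¹) = 1 := by
    rw [map_mul, map_mul, map_mul, map_inv, map_inv, htz]; group
  set c := t * z * t⁻¹ * z⁻¹ with hcd
  have cc := comm_ker hc h1
  have e1 : t * z = c * (z * t) := by rw [hcd]; group
  have key : ∀ i : ℕ, t ^ i * z = c ^ i * (z * t ^ i) := by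
    intro i
    induction i with
    | zero => simp
    | succ i ih =>
      have hci : t * c ^ i = c ^ i * t := ((show Commute t c from cc t).pow_right i).eq
      calc t ^ (i + 1) * z = t * (t ^ i * z) := by rw [pow_succ']; group
        _ = t * c ^ i * (z * t ^ i) := by rw [ih]; group
        _ = c ^ i * (t * z) * t ^ i := by rw [hci]; group
        _ = c ^ i * (c * (z * t)) * t ^ i := by rw [e1]
        _ = c ^ (i + 1) * (z * t ^ (i + 1)) := by rw [pow_succ c i, pow_succ' t i]; group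
  have h2 := key m
  have h3 : σ (t ^ m) = 1 := by rw [map_pow, ht]
  rw [← comm_ker hc h3 z] at h2
  have h4 : c ^ m = 1 := by
    have : c ^ m * (z * t ^ m) = 1 * (z * t ^ m) := by rw [one_mul]; exact h2.symm
    exact mul_right_cancel this
  obtain ⟨k, hk'⟩ := hk ⟨c, h1⟩
  have h5 : c ^ p ^ k = 1 := by simpa using congrArg Subtype.val hk'
  have h6 : orderOf c ∣ 1 := by
    rw [← (hm.pow_right k).gcd_eq_one]
    exact Nat.dvd_gcd (orderOf_dvd_of_pow_eq_one h4) (orderOf_dvd_of_pow_eq_one h5)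
  have h7 : c = 1 := orderOf_eq_one_iff.1 (Nat.dvd_one.1 h6)
  rw [e1, h7, one_mul]

theorem comm_congr {n n' a a' : Γ} (ha : a ∈ center Γ) (ha' : a' ∈ center Γ) : ⁅n * a, n' * a'⁆ = ⁅n, n'⁆ := by
  have c1 := mem_center_iff.1 ha
  have c2 := mem_center_iff.1 ha'
  rw [commutatorElement_def, commutatorElement_def, mul_inv_rev, mul_inv_rev]
  calc n * a * (n' * a') * (a⁻¹ * n⁻¹) * (a'⁻¹ * n'⁻¹) = n * (a * (n' * a')) * a⁻¹ * n⁻¹ * a'⁻¹ * n'⁻¹ := by group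
    _ = n * (n' * a' * a) * a⁻¹ * n⁻¹ * a'⁻¹ * n'⁻¹ := by rw [c1]
    _ = n * n' * (a' * n⁻¹) * a'⁻¹ * n'⁻¹ := by group
    _ = n * n' * (n⁻¹ * a') * a'⁻¹ * n'⁻¹ := by rw [c2]
    _ = _ := by group

/-- a radical `R` with center `Z` and an automorphism `T` without fixed points on `R/Z` centralizing `Z` -/
structure HDat (R Z : Subgroup G) (T : G) : Prop where
  ZR : Z ≤ R
  RZ : ∀ x ∈ R, ∀ y ∈ R, ⁅x, y⁆ ∈ Z
  ZRc : ∀ z ∈ Z, ∀ x ∈ R, z * x = x * z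
  ZT : ∀ z ∈ Z, T * z = z * T
  TR : ∀ x ∈ R, T * x * T⁻¹ ∈ R
  gen : ∀ x ∈ R, ∃ v ∈ R, ∃ z ∈ Z, x = T * v * T⁻¹ * v⁻¹ * z
  fpf : ∀ v ∈ R, T * v * T⁻¹ * v⁻¹ ∈ Z → v ∈ Z
  Zc : Z ≤ ⁅R, R⁆

variable {R Z : Subgroup G} {T : G}

theorem HDat.lift_Z (D : HDat R Z T) (hs : Function.Surjective σ) {z : G} (hz : z ∈ Z) :
    ∃ k ∈ ⁅R.comap σ, R.comap σ⁆, σ k = z := by
  have h1 := D.Zc hz
  have h2 : ⁅R, R⁆ = (⁅R.comap σ, R.comap σ⁆).map σ := by
    rw [Subgroup.map_commutator, Subgroup.map_comap_eq_self_of_surjective hs]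
  rw [h2] at h1
  exact h1

/-- the preimage of the center is central in the preimage of the radical -/
theorem HDat.central (D : HDat R Z T) (hs : Function.Surjective σ) (hc : σ.ker ≤ center Γ) {b x : Γ} (hb : σ b ∈ Z)
    (hx : σ x ∈ R) : x * b = b * x := by
  obtain ⟨t, ht⟩ := hs T
  -- commutators of the radical commute with b
  have h1 : ∀ k ∈ ⁅R.comap σ, R.comap σ⁆, k * b = b * k := by
    have : ⁅R.comap σ, R.comap σ⁆ ≤ centralizer {b} := by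
      rw [Subgroup.commutator_le]
      intro c hc' d hd
      rw [mem_centralizer_singleton_iff]
      exact comm_comm hc (D.ZRc _ hb _ hc').symm (D.ZRc _ hb _ hd).symm
    intro k hk
    exact mem_centralizer_singleton_iff.1 (this hk)
  have h2 : ∀ b', σ b' ∈ Z → b' * b = b * b' := by
    intro b' hb'
    obtain ⟨k, hk, e⟩ := D.lift_Z hs hb'
    have h3 : σ (k⁻¹ * b') = 1 := by rw [map_mul, map_inv, e, inv_mul_cancel]
    have h4 := comm_ker hc h3 b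
    have e2 : b' = k * (k⁻¹ * b') := by group
    rw [e2]
    calc k * (k⁻¹ * b') * b = k * (b * (k⁻¹ * b')) := by rw [mul_assoc, ← h4]
      _ = b * (k * (k⁻¹ * b')) := by rw [← mul_assoc, h1 k hk]; group
  obtain ⟨v, hv, z, hz, e⟩ := D.gen _ hx
  obtain ⟨v', hv'⟩ := hs v
  have h5 : ⁅t, v'⁆ * b = b * ⁅t, v'⁆ :=
    comm_comm hc (by rw [ht]; exact D.ZT _ hb) (by rw [hv']; exact (D.ZRc _ hb _ hv).symm)
  have h6 : (⁅t, v'⁆⁻¹ * x) * b = b * (⁅t, v'⁆⁻¹ * x) := by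
    apply h2
    rw [map_mul, map_inv, map_commutatorElement, ht, hv', e, commutatorElement_def]
    have : (T * v * T⁻¹ * v⁻¹)⁻¹ * (T * v * T⁻¹ * v⁻¹ * z) = z := by group
    rw [this]; exact hz
  have e2 : x = ⁅t, v'⁆ * (⁅t, v'⁆⁻¹ * x) := by group
  rw [e2]
  calc ⁅t, v'⁆ * (⁅t, v'⁆⁻¹ * x) * b = ⁅t, v'⁆ * (b * (⁅t, v'⁆⁻¹ * x)) := by rw [mul_assoc, h6]
    _ = b * (⁅t, v'⁆ * (⁅t, v'⁆⁻¹ * x)) := by rw [← mul_assoc, h5]; group

/-- **the complement** -/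
theorem HDat.compl (D : HDat R Z T) (hs : Function.Surjective σ) (hc : σ.ker ≤ center Γ) {p m : ℕ} (hk : IsPGroup p σ.ker)
    (hm : m.Coprime p) (hT : T ^ m = 1) (hK : ∀ k ∈ ⁅R.comap σ, R.comap σ⁆, σ k = 1 → k = 1) :
    ∃ E : Subgroup Γ, (∀ x ∈ E, σ x = 1 → x = 1) ∧ (∀ x ∈ E, σ x ∈ R) ∧ (∀ x ∈ R, ∃ d ∈ E, σ d = x) ∧
      (∀ g, σ g ∈ R → ∀ d ∈ E, g * d * g⁻¹ ∈ E) ∧
      (∀ g, (∀ x ∈ R, σ g * x * (σ g)⁻¹ ∈ R) → σ g * T = T * σ g → ∀ d ∈ E, g * d * g⁻¹ ∈ E) := by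
  obtain ⟨t, ht⟩ := hs T
  set Rh := R.comap σ with hRh
  set K := ⁅Rh, Rh⁆ with hKd
  have hKR : K ≤ Rh := by
    rw [hKd, Subgroup.commutator_le]
    intro a ha b hb
    rw [commutatorElement_def]
    exact mul_mem (mul_mem (mul_mem ha hb) (inv_mem ha)) (inv_mem hb)
  have hKn : ∀ g, (∀ x ∈ Rh, g * x * g⁻¹ ∈ Rh) → ∀ k ∈ K, g * k * g⁻¹ ∈ K := by
    intro g hg
    have : K ≤ K.comap (MulAut.conj g).toMonoidHom := by
      conv_lhs => rw [hKd]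
      rw [Subgroup.commutator_le]
      intro a ha b hb
      rw [mem_comap]
      show g * ⁅a, b⁆ * g⁻¹ ∈ K
      have e : g * ⁅a, b⁆ * g⁻¹ = ⁅g * a * g⁻¹, g * b * g⁻¹⁆ := by
        rw [commutatorElement_def, commutatorElement_def]; group
      rw [e]; exact Subgroup.commutator_mem_commutator (hg a ha) (hg b hb)
    intro k hk
    exact this hk
  have hRn : ∀ g ∈ Rh, ∀ x ∈ Rh, g * x * g⁻¹ ∈ Rh := fun g hg x hx => mul_mem (mul_mem hg hx) (inv_mem hg)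
  have htR : ∀ x ∈ Rh, t * x * t⁻¹ ∈ Rh := by
    intro x hx
    rw [hRh, mem_comap, map_mul, map_mul, map_inv, ht]; exact D.TR _ hx
  have hyR : ∀ v ∈ Rh, t * v * t⁻¹ * v⁻¹ ∈ Rh := fun v hv => mul_mem (htR v hv) (inv_mem hv)
  have hcomm : ∀ a ∈ Rh, ∀ b ∈ Rh, a * b * a⁻¹ * b⁻¹ ∈ K := fun a ha b hb => Subgroup.commutator_mem_commutator ha hb
  let E : Subgroup Γ :=
    { carrier := {x | ∃ v ∈ Rh, ∃ k ∈ K, x = t * v * t⁻¹ * v⁻¹ * k}
      one_mem' := ⟨1, one_mem _, 1, one_mem _, by group⟩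
      mul_mem' := by
        rintro _ _ ⟨v, hv, k, hk, rfl⟩ ⟨v', hv', k', hk', rfl⟩
        set y := t * v' * t⁻¹ * v'⁻¹ with hy
        have hyr : y ∈ Rh := hyR v' hv'
        refine ⟨v * v', mul_mem hv hv', (v * y⁻¹ * v⁻¹ * y) * (y⁻¹ * k * y) * k', ?_, ?_⟩
        · refine mul_mem (mul_mem ?_ ?_) hk'
          · have := hcomm v hv y⁻¹ (inv_mem hyr)
            rwa [inv_inv] at this
          · have := hKn y⁻¹ (hRn _ (inv_mem hyr)) k hk
            rwa [inv_inv] at this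
        · rw [hy]; group
      inv_mem' := by
        rintro _ ⟨v, hv, k, hk, rfl⟩
        set y := t * v⁻¹ * t⁻¹ * v with hy
        have hyr : y ∈ Rh := by
          have := hyR v⁻¹ (inv_mem hv)
          rwa [inv_inv] at this
        refine ⟨v⁻¹, inv_mem hv, (y⁻¹ * k⁻¹ * y) * (y⁻¹ * v * y * v⁻¹), ?_, ?_⟩
        · refine mul_mem ?_ ?_
          · have := hKn y⁻¹ (hRn _ (inv_mem hyr)) _ (inv_mem hk)
            rwa [inv_inv] at this
          · have := hcomm y⁻¹ (inv_mem hyr) v hv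
            rwa [inv_inv] at this
        · rw [hy]; group }
  have hE : ∀ x, x ∈ E ↔ ∃ v ∈ Rh, ∃ k ∈ K, x = t * v * t⁻¹ * v⁻¹ * k := fun x => Iff.rfl
  have hKE : K ≤ E := fun k hk => ⟨1, one_mem _, k, hk, by group⟩
  refine ⟨E, ?_, ?_, ?_, ?_, ?_⟩
  · rintro _ ⟨v, hv, k, hkK, rfl⟩ h1
    have h2 : T * σ v * T⁻¹ * (σ v)⁻¹ ∈ Z := by
      have h3 : σ k ∈ Z := by
        have : K ≤ Z.comap σ := by
          rw [hKd, Subgroup.commutator_le]
          intro a ha b hb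
          rw [mem_comap, map_commutatorElement]
          exact D.RZ _ ha _ hb
        exact this hkK
      rw [map_mul, map_mul, map_mul, map_mul, map_inv, map_inv, ht, mul_eq_one_iff_eq_inv] at h1
      rw [h1]; exact inv_mem h3
    have h3 := D.fpf _ hv h2
    have h4 : t * v = v * t := cop_comm hc hk (m := m) (p := p) hm (by rw [ht, hT]) (by rw [ht]; exact D.ZT _ h3)
    have h5 : t * v * t⁻¹ * v⁻¹ = 1 := by rw [h4]; group
    rw [h5, one_mul] at h1 ⊢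
    exact hK k hkK h1
  · rintro _ ⟨v, hv, k, hk, rfl⟩
    exact mul_mem (hyR v hv) (hKR hk)
  · intro x hx
    obtain ⟨v, hv, z, hz, e⟩ := D.gen x hx
    obtain ⟨v', rfl⟩ := hs v
    obtain ⟨k, hk, rfl⟩ := D.lift_Z hs hz
    exact ⟨_, ⟨v', hv, k, hk, rfl⟩, by rw [map_mul, map_mul, map_mul, map_mul, map_inv, map_inv, ht, e]⟩
  · intro g hg d hd
    have hdR : d ∈ Rh := by
      obtain ⟨v, hv, k, hk, rfl⟩ := hd
      exact mul_mem (hyR v hv) (hKR hk)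
    have e : g * d * g⁻¹ = (g * d * g⁻¹ * d⁻¹) * d := by group
    rw [e]
    exact mul_mem (hKE (hcomm g hg d hdR)) hd
  · rintro g hg1 hg2 _ ⟨v, hv, k, hk, rfl⟩
    have hgR : ∀ x ∈ Rh, g * x * g⁻¹ ∈ Rh := by
      intro x hx
      rw [hRh, mem_comap, map_mul, map_mul, map_inv]; exact hg1 _ hx
    have h1 : σ (t⁻¹ * (g * t * g⁻¹)) = 1 := by
      rw [map_mul, map_mul, map_mul, map_inv, map_inv, ht, hg2]; group
    set a := t⁻¹ * (g * t * g⁻¹) with ha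
    have e1 : g * t * g⁻¹ = t * a := by rw [ha]; group
    have ac := comm_ker hc h1
    refine ⟨g * v * g⁻¹, hgR v hv, g * k * g⁻¹, hKn g hgR k hk, ?_⟩
    have e2 : g * (t * v * t⁻¹ * v⁻¹ * k) * g⁻¹ = (g * t * g⁻¹) * (g * v * g⁻¹) * (g * t * g⁻¹)⁻¹ * (g * v * g⁻¹)⁻¹ * (g * k * g⁻¹) := by
      group
    rw [e2, e1]
    have e3 : t * a * (g * v * g⁻¹) * (t * a)⁻¹ = t * (g * v * g⁻¹) * t⁻¹ := by
      have h6 := ac (g * v * g⁻¹)
      calc t * a * (g * v * g⁻¹) * (t * a)⁻¹ = t * (a * (g * v * g⁻¹)) * a⁻¹ * t⁻¹ := by group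
        _ = _ := by rw [← h6]; group
    rw [e3]

/-- **reduction to the Levi factor** -/
theorem HDat.main (D : HDat R Z T) [Finite Γ] (hσ : IsStemExtension σ) {p m : ℕ} [hp : Fact p.Prime] (hk : IsPGroup p σ.ker)
    (hm : m.Coprime p) (hT : T ^ m = 1) (hK : ∀ k ∈ ⁅R.comap σ, R.comap σ⁆, σ k = 1 → k = 1)
    {Q : Type u} [Group Q] (hQ : commutator Q = ⊤) (hM : PStemDvd p Q 1) (j : Q →* G) (hj : Function.Injective j)
    (hjR : ∀ s, ∀ x ∈ R, j s * x * (j s)⁻¹ ∈ R) (hjT : ∀ s, j s * T = T * j s) (hRj : ∀ s, j s ∈ R → s = 1)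
    (H : Subgroup G) (hH : ∀ g ∈ H, ∃ x ∈ R, ∃ s, g = x * j s) (hidx : ¬ p ∣ H.index) : Nat.card σ.ker = 1 := by
  obtain ⟨hs, hc, -⟩ := id hσ
  obtain ⟨E, E1, E2, E3, E4, E5⟩ := D.compl hs hc hk hm hT hK
  obtain ⟨f, hf⟩ := exists_section hs hc hk hQ hM j hj
  have hfE : ∀ s, ∀ d ∈ E, f s * d * (f s)⁻¹ ∈ E := fun s =>
    E5 (f s) (by intro x hx; rw [hf]; exact hjR s x hx) (by rw [hf]; exact hjT s)
  let N : Subgroup Γ :=
    { carrier := {g | ∃ d ∈ E, ∃ s, g = d * f s}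
      one_mem' := ⟨1, one_mem _, 1, by rw [map_one, mul_one]⟩
      mul_mem' := by
        rintro _ _ ⟨d, hd, s, rfl⟩ ⟨d', hd', s', rfl⟩
        refine ⟨d * (f s * d' * (f s)⁻¹), mul_mem hd (hfE s d' hd'), s * s', ?_⟩
        rw [map_mul]; group
      inv_mem' := by
        rintro _ ⟨d, hd, s, rfl⟩
        refine ⟨f s⁻¹ * d⁻¹ * (f s⁻¹)⁻¹, hfE s⁻¹ _ (inv_mem hd), s⁻¹, ?_⟩
        rw [map_inv]; group }
  have hker := ker_le_commutator_comap σ hσ hk H hidx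
  have hN : ⁅H.comap σ, H.comap σ⁆ ≤ N := by
    rw [Subgroup.commutator_le]
    have key : ∀ a, σ a ∈ H → ∃ n ∈ N, ∃ z ∈ center Γ, a = n * z := by
      intro a ha
      obtain ⟨x, hx, s, e⟩ := hH _ ha
      obtain ⟨d, hd, ed⟩ := E3 x hx
      refine ⟨d * f s, ⟨d, hd, s, rfl⟩, (d * f s)⁻¹ * a, hc ?_, by group⟩
      rw [MonoidHom.mem_ker, map_mul, map_inv, map_mul, ed, hf, ← e, inv_mul_cancel]
    intro a ha b hb
    obtain ⟨n, hn, z, hz, rfl⟩ := key a ha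
    obtain ⟨n', hn', z', hz', rfl⟩ := key b hb
    rw [comm_congr hz hz', commutatorElement_def]
    exact mul_mem (mul_mem (mul_mem hn hn') (inv_mem hn)) (inv_mem hn')
  rw [Subgroup.card_eq_one, eq_bot_iff]
  intro z hz
  rw [mem_bot]
  obtain ⟨d, hd, s, rfl⟩ := hN (hker hz)
  have h1 : σ (d * f s) = 1 := hz
  rw [map_mul, hf] at h1
  have h2 : j s = (σ d)⁻¹ := (inv_eq_of_mul_eq_one_right h1).symm
  have h3 : s = 1 := hRj s (by rw [h2]; exact inv_mem (E2 d hd))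
  rw [h3, map_one, mul_one] at hz ⊢
  exact E1 d hd hz

end Cfsg.Agent.Lib.MSUHeis
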