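import Cfsg.Agent.Lib.MSUHeisA

/-! Commutators of lifts of elements of Heisenberg groups over fields of order `p ^ 2` (helper35). -/

set_option autoImplicit false
set_option linter.unusedSectionVars false
set_option linter.unusedVariables false

namespace Cfsg.Agent.Lib.MSUHeis

open Cfsg Cfsg.Agent.Lib.SchurSylow Cfsg.Agent.Lib.PhanMul Subgroup
open scoped commutatorElement

universe u

variable {G : Type u} [Group G] {Γ : Type u} [Group Γ] {σ : Γ →* G}
variable {R Z : Subgroup G} {T : G}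
variable {F : Type*} [Field F] {k : ℕ}

/-- coordinates on `R/Z` -/
structure Coord (R Z : Subgroup G) (Rel : (Fin k → F) → G → Prop) : Prop where
  mem : ∀ w x, Rel w x → x ∈ R
  ex : ∀ x ∈ R, ∃ w, Rel w x
  ex' : ∀ w, ∃ x, Rel w x
  mul : ∀ w x w' x', Rel w x → Rel w' x' → Rel (w + w') (x * x')
  zero : ∀ w x x', Rel w x → Rel w x' → x⁻¹ * x' ∈ Z

/-- generation of the additive group of a field of order `p ^ 2` -/
theorem closure_pair [Finite F] {p : ℕ} (hp : p.Prime) (hF : Nat.card F = p ^ 2) {ω : F}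
    (hω : ω ∉ AddSubgroup.zmultiples (1 : F)) : AddSubgroup.closure {1, ω} = ⊤ := by
  haveI := Fact.mk hp
  have h1 : AddSubgroup.zmultiples (1 : F) ≤ AddSubgroup.closure {1, ω} := by
    rw [AddSubgroup.zmultiples_le]; exact AddSubgroup.subset_closure (Set.mem_insert _ _)
  have h2 : ω ∈ AddSubgroup.closure {1, ω} := AddSubgroup.subset_closure (Set.mem_insert_of_mem _ rfl)
  have h3 : AddSubgroup.zmultiples (1 : F) ≠ ⊥ := by
    intro h
    have : (1 : F) ∈ AddSubgroup.zmultiples (1 : F) := AddSubgroup.mem_zmultiples _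
    rw [h, AddSubgroup.mem_bot] at this
    exact one_ne_zero this
  -- indices
  set A := AddSubgroup.zmultiples (1 : F) with hA
  set B := AddSubgroup.closure ({1, ω} : Set F) with hB
  have hAd : Nat.card A ∣ p ^ 2 := hF ▸ AddSubgroup.card_addSubgroup_dvd_card A
  have hBd : Nat.card B ∣ p ^ 2 := hF ▸ AddSubgroup.card_addSubgroup_dvd_card B
  have hAB : Nat.card A ∣ Nat.card B := AddSubgroup.card_dvd_of_le h1
  obtain ⟨i, hi, hAi⟩ := (Nat.dvd_prime_pow hp).1 hAd
  obtain ⟨l, hl, hBl⟩ := (Nat.dvd_prime_pow hp).1 hBd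
  have hi0 : i ≠ 0 := by
    rintro rfl
    rw [pow_zero] at hAi
    exact h3 (AddSubgroup.card_eq_one.1 hAi)
  have hne : A ≠ B := fun h => hω (h ▸ h2)
  have hlt : Nat.card A < Nat.card B := by
    refine lt_of_le_of_ne (Nat.le_of_dvd Nat.card_pos hAB) fun h => hne ?_
    exact AddSubgroup.eq_of_le_of_card_ge h1 h.ge
  rw [hAi, hBl] at hlt
  have h4 := (Nat.pow_lt_pow_iff_right hp.one_lt).1 hlt
  have h5 : l = 2 := by omega
  apply AddSubgroup.eq_top_of_card_eq
  rw [hBl, h5, hF]

theorem heis [Finite F] (D : HDat R Z T) {Rel : (Fin k → F) → G → Prop} (C : Coord R Z Rel) (hs : Function.Surjective σ)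
    (hc : σ.ker ≤ center Γ) {p : ℕ} (hp : p.Prime) (hF : Nat.card F = p ^ 2) [CharP F p] (i0 : Fin k) {ω : F}
    (hω : ω ∉ AddSubgroup.zmultiples (1 : F))
    (h1 : ∀ i, ∃ g : Γ, ∃ ζ : F, ζ ≠ 1 ∧ (∀ b, σ b ∈ Z → g * b = b * g) ∧
      (∀ w x, Rel w x → Rel (fun a => if a = i then ζ * w a else w a) (σ g * x * (σ g)⁻¹)))
    (h2 : ∀ i, ∃ g : Γ, (∀ b, σ b ∈ Z → g * b = b * g) ∧
      (∀ a x, Rel (Pi.single i0 a) x → Rel (Pi.single i a) (σ g * x * (σ g)⁻¹)))
    (h3 : ∀ x y, Rel (Pi.single i0 1) x → Rel (Pi.single i0 ω) y → ⁅x, y⁆ ≠ 1) :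
    ∀ k ∈ ⁅R.comap σ, R.comap σ⁆, σ k = 1 → k = 1 := by
  classical
  have hex : ∀ w, ∃ x : Γ, Rel w (σ x) := by
    intro w
    obtain ⟨x, hx⟩ := C.ex' w
    obtain ⟨y, rfl⟩ := hs x
    exact ⟨y, hx⟩
  choose X hX using hex
  have hXR : ∀ w, σ (X w) ∈ R := fun w => C.mem _ _ (hX w)
  set κ : (Fin k → F) → (Fin k → F) → Γ := fun w w' => ⁅X w, X w'⁆ with hκ
  have hcomZ : ∀ x y : Γ, σ x ∈ R → σ y ∈ R → σ ⁅x, y⁆ ∈ Z := by
    intro x y hx hy
    rw [map_commutatorElement]; exact D.RZ _ hx _ hy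
  have cen : ∀ b x : Γ, σ b ∈ Z → σ x ∈ R → x * b = b * x := fun b x hb hx => D.central hs hc hb hx
  -- independence of the lifts
  have keq : ∀ w w' x x', Rel w (σ x) → Rel w' (σ x') → ⁅x, x'⁆ = κ w w' := by
    intro w w' x x' hx hx'
    have e1 := C.zero _ _ _ (hX w) hx
    have e2 := C.zero _ _ _ (hX w') hx'
    rw [← map_inv, ← map_mul] at e1 e2
    set b := (X w)⁻¹ * x with hb
    set b' := (X w')⁻¹ * x' with hb'
    have f1 : x = X w * b := by rw [hb]; group
    have f2 : x' = X w' * b' := by rw [hb']; group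
    have c1 := cen b (X w') e1 (hXR w')
    have c2 := cen b b' e1 (D.ZR e2)
    have c3 := cen b' (X w) e2 (hXR w)
    have c4 : b * (X w' * b') = X w' * b' * b := by
      calc b * (X w' * b') = b * X w' * b' := (mul_assoc _ _ _).symm
        _ = X w' * b * b' := by rw [c1]
        _ = X w' * (b * b') := mul_assoc _ _ _
        _ = X w' * (b' * b) := by rw [c2]
        _ = _ := (mul_assoc _ _ _).symm
    have c5 : b' * (X w)⁻¹ = (X w)⁻¹ * b' := (show Commute (X w) b' from c3).inv_left.eq.symm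
    rw [f1, f2, hκ]
    simp only [commutatorElement_def]
    calc X w * b * (X w' * b') * (X w * b)⁻¹ * (X w' * b')⁻¹
        = X w * (b * (X w' * b')) * b⁻¹ * (X w)⁻¹ * b'⁻¹ * (X w')⁻¹ := by group
      _ = X w * X w' * (b' * (X w)⁻¹) * b'⁻¹ * (X w')⁻¹ := by rw [c4]; group
      _ = _ := by rw [c5]; group
  have κZ : ∀ w w', σ (κ w w') ∈ Z := fun w w' => hcomZ _ _ (hXR w) (hXR w')
  have κcomm : ∀ w w' v v', κ w w' * κ v v' = κ v v' * κ w w' := fun w w' v v' => cen _ _ (κZ v v') (D.ZR (κZ w w'))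
  have κl : ∀ w v w', κ (w + v) w' = κ w w' * κ v w' := by
    intro w v w'
    have e1 : ⁅X w * X v, X w'⁆ = κ (w + v) w' := keq _ _ _ _ (by rw [map_mul]; exact C.mul _ _ _ _ (hX w) (hX v)) (hX w')
    have c1 := cen (κ v w') (X w) (κZ _ _) (hXR w)
    rw [← e1, κcomm]
    have : ⁅X w * X v, X w'⁆ = X w * κ v w' * (X w)⁻¹ * κ w w' := by
      simp only [hκ, commutatorElement_def]; group
    rw [this, c1]; group
  have κr : ∀ w v v', κ w (v + v') = κ w v * κ w v' := by
    intro w v v'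
    have e1 : ⁅X w, X v * X v'⁆ = κ w (v + v') := keq _ _ _ _ (hX w) (by rw [map_mul]; exact C.mul _ _ _ _ (hX v) (hX v'))
    have c1 := cen (κ w v') (X v) (κZ _ _) (hXR v)
    rw [← e1]
    have : ⁅X w, X v * X v'⁆ = κ w v * (X v * κ w v' * (X v)⁻¹) := by
      simp only [hκ, commutatorElement_def]; group
    rw [this, c1]; group
  have κ0l : ∀ w, κ 0 w = 1 := by
    intro w
    have := κl 0 0 w
    rw [add_zero] at this
    exact mul_eq_left.1 this.symm
  have κ0r : ∀ w, κ w 0 = 1 := by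
    intro w
    have := κr w 0 0
    rw [add_zero] at this
    exact mul_eq_left.1 this.symm
  have κself : ∀ w, κ w w = 1 := fun w => commutatorElement_self _
  have κnegl : ∀ w v, κ (-w) v = (κ w v)⁻¹ := by
    intro w v
    rw [eq_inv_iff_mul_eq_one, ← κl, neg_add_cancel, κ0l]
  have κnegr : ∀ w v, κ w (-v) = (κ w v)⁻¹ := by
    intro w v
    rw [eq_inv_iff_mul_eq_one, ← κr, neg_add_cancel, κ0r]
  have κskew : ∀ w v, κ v w = (κ w v)⁻¹ := by
    intro w v
    simp only [hκ, commutatorElement_inv]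
  have κinv : ∀ (g : Γ) (A : (Fin k → F) → Fin k → F) w v, (∀ b, σ b ∈ Z → g * b = b * g) →
      (∀ x, Rel w x → Rel (A w) (σ g * x * (σ g)⁻¹)) → (∀ x, Rel v x → Rel (A v) (σ g * x * (σ g)⁻¹)) →
      κ (A w) (A v) = κ w v := by
    intro g A w v hg hw hv
    have e1 : ⁅g * X w * g⁻¹, g * X v * g⁻¹⁆ = κ (A w) (A v) :=
      keq _ _ _ _ (by rw [map_mul, map_mul, map_inv]; exact hw _ (hX w)) (by rw [map_mul, map_mul, map_inv]; exact hv _ (hX v))
    have e2 : ⁅g * X w * g⁻¹, g * X v * g⁻¹⁆ = g * κ w v * g⁻¹ := by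
      simp only [hκ, commutatorElement_def]; group
    rw [← e1, e2, hg _ (κZ w v)]; group
  -- one coordinate against the others
  have κoff : ∀ i a w, w i = 0 → κ (Pi.single i a) w = 1 := by
    intro i a w hw
    obtain ⟨g, ζ, hζ, hg, hA⟩ := h1 i
    have hz1 : ζ - 1 ≠ 0 := sub_ne_zero.2 hζ
    have key : ∀ b : F, κ (Pi.single i (ζ * b)) w = κ (Pi.single i b) w := by
      intro b
      have e := κinv g (fun w a => if a = i then ζ * w a else w a) (Pi.single i b) w hg (hA _) (hA _)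
      have e1 : (fun a => if a = i then ζ * (Pi.single i b : Fin k → F) a else (Pi.single i b : Fin k → F) a) = Pi.single i (ζ * b) := by
        funext a
        by_cases h : a = i
        · subst h; simp
        · rw [if_neg h, Pi.single_eq_of_ne h, Pi.single_eq_of_ne h]
      have e2 : (fun a => if a = i then ζ * w a else w a) = w := by
        funext a
        by_cases h : a = i
        · rw [if_pos h, h, hw, mul_zero]
        · rw [if_neg h]
      rw [e1, e2] at e
      exact e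
    have e3 := key (a / (ζ - 1))
    have e4 : (Pi.single i (ζ * (a / (ζ - 1))) : Fin k → F) = Pi.single i a + Pi.single i (a / (ζ - 1)) := by
      rw [← Pi.single_add]
      congr 1
      field_simp
      ring
    rw [e4, κl] at e3
    exact mul_eq_right.1 e3
  set k0 := κ (Pi.single i0 1) (Pi.single i0 ω) with hk0
  have hki : ∀ i, κ (Pi.single i 1) (Pi.single i ω) = k0 := by
    intro i
    obtain ⟨g, hg, hA⟩ := h2 i
    have e1 : ⁅g * X (Pi.single i0 1) * g⁻¹, g * X (Pi.single i0 ω) * g⁻¹⁆ = κ (Pi.single i 1) (Pi.single i ω) :=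
      keq _ _ _ _ (by rw [map_mul, map_mul, map_inv]; exact hA _ _ (hX _)) (by rw [map_mul, map_mul, map_inv]; exact hA _ _ (hX _))
    have e2 : ⁅g * X (Pi.single i0 1) * g⁻¹, g * X (Pi.single i0 ω) * g⁻¹⁆ = g * k0 * g⁻¹ := by
      show _ = g * ⁅X (Pi.single i0 1), X (Pi.single i0 ω)⁆ * g⁻¹
      simp only [commutatorElement_def]; group
    rw [← e1, e2, hg k0 (κZ _ _), mul_inv_cancel_right]
  have hgen := closure_pair hp hF hω
  have hdiag1 : ∀ i (a : F), κ (Pi.single i a) (Pi.single i 1) ∈ zpowers k0 ∧ κ (Pi.single i a) (Pi.single i ω) ∈ zpowers k0 := by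
    intro i a
    have ha : a ∈ AddSubgroup.closure ({1, ω} : Set F) := by rw [hgen]; trivial
    induction ha using AddSubgroup.closure_induction with
    | mem x hx =>
      rcases hx with rfl | hx
      · exact ⟨by rw [κself]; exact one_mem _, by rw [hki]; exact mem_zpowers _⟩
      · rw [Set.mem_singleton_iff] at hx
        subst hx
        exact ⟨by rw [κskew, hki]; exact inv_mem (mem_zpowers _), by rw [κself]; exact one_mem _⟩
    | zero => rw [Pi.single_zero, κ0l, κ0l]; exact ⟨one_mem _, one_mem _⟩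
    | add x y _ _ hx hy =>
      rw [Pi.single_add, κl, κl]
      exact ⟨mul_mem hx.1 hy.1, mul_mem hx.2 hy.2⟩
    | neg x _ hx =>
      rw [Pi.single_neg, κnegl, κnegl]
      exact ⟨inv_mem hx.1, inv_mem hx.2⟩
  have hdiag : ∀ i (a b : F), κ (Pi.single i a) (Pi.single i b) ∈ zpowers k0 := by
    intro i a b
    have hb : b ∈ AddSubgroup.closure ({1, ω} : Set F) := by rw [hgen]; trivial
    induction hb using AddSubgroup.closure_induction with
    | mem x hx =>
      rcases hx with rfl | hx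
      · exact (hdiag1 i a).1
      · rw [Set.mem_singleton_iff] at hx
        subst hx
        exact (hdiag1 i a).2
    | zero => rw [Pi.single_zero, κ0r]; exact one_mem _
    | add x y _ _ hx hy => rw [Pi.single_add, κr]; exact mul_mem hx hy
    | neg x _ hx => rw [Pi.single_neg, κnegr]; exact inv_mem hx
  have hone : ∀ i a w, κ (Pi.single i a) w ∈ zpowers k0 := by
    intro i a w
    have e : w = Pi.single i (w i) + (w - (Pi.single i (w i) : Fin k → F)) := by abel
    have e0 := κoff i a (w - (Pi.single i (w i) : Fin k → F)) (by simp)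
    have e2 := κr (Pi.single i a) (Pi.single i (w i)) (w - (Pi.single i (w i) : Fin k → F))
    rw [← e, e0, mul_one] at e2
    rw [e2]
    exact hdiag i a (w i)
  have hall : ∀ w v, κ w v ∈ zpowers k0 := by
    intro w v
    let S : AddSubgroup (Fin k → F) :=
      { carrier := {w | κ w v ∈ zpowers k0}
        zero_mem' := by show κ 0 v ∈ zpowers k0; rw [κ0l]; exact one_mem _
        add_mem' := by
          intro a b ha hb
          show κ (a + b) v ∈ zpowers k0
          rw [κl]; exact mul_mem ha hb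
        neg_mem' := by
          intro a ha
          show κ (-a) v ∈ zpowers k0
          rw [κnegl]; exact inv_mem ha }
    have : w ∈ S := by
      rw [← Finset.univ_sum_single w]
      exact AddSubgroup.sum_mem _ fun i _ => hone i _ v
    exact this
  have hK : ⁅R.comap σ, R.comap σ⁆ ≤ zpowers k0 := by
    rw [Subgroup.commutator_le]
    intro x hx y hy
    obtain ⟨w, hw⟩ := C.ex _ hx
    obtain ⟨v, hv⟩ := C.ex _ hy
    rw [keq _ _ _ _ hw hv]
    exact hall w v
  -- the order of k0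
  have hk0p : k0 ^ p = 1 := by
    have key : ∀ n : ℕ, κ (Pi.single i0 (n : F)) (Pi.single i0 ω) = k0 ^ n := by
      intro n
      induction n with
      | zero => rw [Nat.cast_zero, Pi.single_zero, κ0l, pow_zero]
      | succ n ih => rw [Nat.cast_succ, Pi.single_add, κl, ih, pow_succ]
    rw [← key, CharP.cast_eq_zero, Pi.single_zero, κ0l]
  have hσk : σ k0 ≠ 1 := by
    rw [hk0, hκ]
    show σ ⁅X _, X _⁆ ≠ 1
    rw [map_commutatorElement]
    exact h3 _ _ (hX _) (hX _)
  haveI := Fact.mk hp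
  have hord : orderOf (σ k0) = p := orderOf_eq_prime (by rw [← map_pow, hk0p, map_one]) hσk
  intro z hz h1z
  obtain ⟨n, rfl⟩ := mem_zpowers_iff.1 (hK hz)
  rw [map_zpow] at h1z
  have h5 : ((orderOf (σ k0) : ℕ) : ℤ) ∣ n := orderOf_dvd_iff_zpow_eq_one.2 h1z
  rw [hord] at h5
  obtain ⟨m, rfl⟩ := h5
  rw [zpow_mul, zpow_natCast, hk0p, one_zpow]

end Cfsg.Agent.Lib.MSUHeis
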