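import Cfsg.Agent.Lib.MSUHeisB
import Cfsg.Agent.Lib.SylU3

/-! The Heisenberg radical in `SU_{k+2}(q)` (helper35). -/

set_option autoImplicit false
set_option linter.unusedSectionVars false
set_option linter.unusedVariables false

namespace Cfsg.Agent.Lib.MSUHeis

open Cfsg Cfsg.Agent.Lib.SchurSylow Cfsg.Agent.Lib.PhanMul Cfsg.Agent.Lib.Phan Cfsg.Agent.Lib.UnTrans Cfsg.Agent.Lib.UnBridge
open Cfsg.Agent.Lib.ClUnSimple Cfsg.Agent.Lib.ClUnitary
open Subgroup (center mem_center_iff)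
open scoped commutatorElement Matrix

universe u

section rho
variable {F V : Type*} [Field F] [AddCommGroup V] [Module F V] {τ : F →+* F} {f : V → V → F} (H : HS τ f)
include H

theorem rho_comp {e u u' : V} {c c' : F} (hee : f e e = 0) (hu : f u e = 0) (hu' : f u' e = 0) (x : V) :
    rho f e u c (rho f e u' c' x) = rho f e (u + u') (c + c' - f u' u) x := by
  have heu := H.symm_zero hu
  unfold rho
  have h1 : f (x + f x e • u' - f x u' • e + (c' * f x e) • e) e = f x e := by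
    rw [H.add_left, H.sub_left, H.add_left, H.smul_left, H.smul_left, H.smul_left, hee, hu']; ring
  have h2 : f (x + f x e • u' - f x u' • e + (c' * f x e) • e) u = f x u + f x e * f u' u := by
    rw [H.add_left, H.sub_left, H.add_left, H.smul_left, H.smul_left, H.smul_left, heu]; ring
  rw [h1, h2, H.add_right]
  module

theorem rho_conj {g g' : V → V} (hg : ∀ x y, f (g x) (g y) = f x y) (hgg : ∀ x, g (g' x) = x) (ha : ∀ x y, g (x + y) = g x + g y)
    (hm : ∀ (a : F) x, g (a • x) = a • g x) {e u : V} {c lam : F} (hl : lam * τ lam = 1) (he : g e = lam • e) (x : V) :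
    g (rho f e u c (g' x)) = rho f e (τ lam • g u) c x := by
  have hs : ∀ x y, g (x - y) = g x - g y := by
    intro x y
    have : g x = g (x - y) + g y := by rw [← ha]; congr 1; abel
    rw [this]; abel
  have h1 : f (g' x) e = τ lam * f x e := by
    rw [← hg, hgg, he, H.smul_right]
  have h2 : f (g' x) u = f x (g u) := by rw [← hg, hgg]
  unfold rho
  rw [ha, hs, ha, hm, hm, hm, hgg, h1, h2, he, H.smul_right, H.inv]
  have h3 : c * (τ lam * f x e) * lam = c * f x e := by linear_combination (c * f x e) * hl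
  rw [smul_smul (c * (τ lam * f x e)), h3]
  module

end rho

variable {F : Type u} [Field F] {q k : ℕ}

/-- the isotropic vector -/
def ev (k : ℕ) (θ : F) : Fin (k + 2) → F := Pi.single 0 1 + θ • Pi.single 1 1

/-- the complementary coordinates -/
def j2 (k : ℕ) : Fin k ↪ Fin (k + 2) := sh 2 (by omega)

theorem j2_ne0 (b : Fin k) : j2 k b ≠ 0 := by
  rw [j2, sh_apply, Ne, Fin.ext_iff]
  show ¬ (2 + b.1 = 0); omega

theorem j2_ne1 (b : Fin k) : j2 k b ≠ 1 := by
  rw [j2, sh_apply, Ne, Fin.ext_iff]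
  show ¬ (2 + b.1 = 1); omega

theorem ext_zero_coord (w : Fin k → F) : Phan.ext (j2 k) w 0 = 0 := by
  apply ext_out
  rintro ⟨b, hb⟩
  exact j2_ne0 b hb

theorem ext_one_coord (w : Fin k → F) : Phan.ext (j2 k) w 1 = 0 := by
  apply ext_out
  rintro ⟨b, hb⟩
  exact j2_ne1 b hb

theorem ev_zero (θ : F) : ev k θ 0 = 1 := by simp [ev]
theorem ev_one (θ : F) : ev k θ 1 = θ := by simp [ev]
theorem ev_j2 (θ : F) (b : Fin k) : ev k θ (j2 k b) = 0 := by
  simp only [ev, Pi.add_apply, Pi.smul_apply]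
  rw [Pi.single_eq_of_ne (j2_ne0 b), Pi.single_eq_of_ne (j2_ne1 b)]; simp

section finite
variable [Fintype F] (hF : Fintype.card F = q ^ 2) (θ : F) (hθ : θ * sig hF θ = -1)

/-- the coordinate relation -/
def Rel (q : ℕ) (θ : F) (hF : Fintype.card F = q ^ 2) (w : Fin k → F) (g : SU (k + 2) F q) : Prop :=
  ∃ c, c + sig hF c + hermForm k F q w w = 0 ∧ ∀ x, g.1.1 *ᵥ x = rho (hermForm (k + 2) F q) (ev k θ) (Phan.ext (j2 k) w) c x

include hθ in
theorem ev_iso : hermForm (k + 2) F q (ev k θ) (ev k θ) = 0 := by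
  have H := herm_HS (k + 2) hF
  rw [ev, H.add_left, H.add_right, H.add_right, H.smul_left, H.smul_left, H.smul_right, H.smul_right, herm_ss hF, herm_ss hF,
    herm_ss hF, herm_ss hF, if_pos rfl, if_pos rfl, if_neg (by simp), if_neg (by simp)]
  linear_combination hθ

theorem herm_ev (x : Fin (k + 2) → F) : hermForm (k + 2) F q x (ev k θ) = x 0 + sig hF θ * x 1 := by
  have H := herm_HS (k + 2) hF
  rw [ev, H.add_right, H.smul_right, herm_single hF, herm_single hF]

include hF in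
theorem herm_ext_ev (w : Fin k → F) : hermForm (k + 2) F q (Phan.ext (j2 k) w) (ev k θ) = 0 := by
  rw [herm_ev hF, ext_zero_coord, ext_one_coord, mul_zero, add_zero]

theorem ext_add (w w' : Fin k → F) : Phan.ext (j2 k) (w + w') = Phan.ext (j2 k) w + Phan.ext (j2 k) w' := by
  rw [Phan.ext, Matrix.mulVec_add]; rfl

theorem ext_smul (a : F) (w : Fin k → F) : Phan.ext (j2 k) (a • w) = a • Phan.ext (j2 k) w := by
  rw [Phan.ext, Matrix.mulVec_smul]; rfl

variable {θ}

include hF in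
theorem Rel.apply0 {w : Fin k → F} {g : SU (k + 2) F q} {c : F}
    (h : ∀ x, g.1.1 *ᵥ x = rho (hermForm (k + 2) F q) (ev k θ) (Phan.ext (j2 k) w) c x) :
    g.1.1 *ᵥ Pi.single 0 1 = Pi.single 0 1 + Phan.ext (j2 k) w + c • ev k θ := by
  have H := herm_HS (k + 2) hF
  rw [h, rho]
  have h1 : hermForm (k + 2) F q (Pi.single 0 1) (ev k θ) = 1 := by
    rw [herm_ev hF]; simp
  have h2 : hermForm (k + 2) F q (Pi.single 0 1) (Phan.ext (j2 k) w) = 0 := by
    apply H.symm_zero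
    rw [herm_single hF, ext_zero_coord]
  rw [h1, h2, one_smul, zero_smul, mul_one, sub_zero]

/-- the coordinates are determined -/
theorem Rel.w_eq {w : Fin k → F} {g : SU (k + 2) F q} (h : Rel q θ hF w g) (b : Fin k) :
    (g.1.1 *ᵥ Pi.single 0 1) (j2 k b) = w b := by
  obtain ⟨c, -, h⟩ := h
  rw [Rel.apply0 hF h, Pi.add_apply, Pi.add_apply, Pi.smul_apply, ev_j2, ext_in, Pi.single_eq_of_ne (j2_ne0 b)]
  simp

theorem Rel.unique {w w' : Fin k → F} {g : SU (k + 2) F q} (h : Rel q θ hF w g) (h' : Rel q θ hF w' g) : w = w' := by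
  funext b
  rw [← h.w_eq hF b, ← h'.w_eq hF b]

include hF in
theorem c_eq {w : Fin k → F} {g : SU (k + 2) F q} {c : F}
    (h : ∀ x, g.1.1 *ᵥ x = rho (hermForm (k + 2) F q) (ev k θ) (Phan.ext (j2 k) w) c x) : (g.1.1 *ᵥ Pi.single 0 1) 0 = 1 + c := by
  rw [Rel.apply0 hF h, Pi.add_apply, Pi.add_apply, Pi.smul_apply, ev_zero, ext_zero_coord]
  simp

include hθ

theorem comp_apply {w w' : Fin k → F} {g g' : SU (k + 2) F q} {c c' : F}
    (h : ∀ x, g.1.1 *ᵥ x = rho (hermForm (k + 2) F q) (ev k θ) (Phan.ext (j2 k) w) c x)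
    (h' : ∀ x, g'.1.1 *ᵥ x = rho (hermForm (k + 2) F q) (ev k θ) (Phan.ext (j2 k) w') c' x) (x : Fin (k + 2) → F) :
    (g * g').1.1 *ᵥ x = rho (hermForm (k + 2) F q) (ev k θ) (Phan.ext (j2 k) (w + w')) (c + c' - hermForm k F q w' w) x := by
  rw [mul_mulVec', h', h, rho_comp (herm_HS (k + 2) hF) (ev_iso hF θ hθ) (herm_ext_ev hF θ w) (herm_ext_ev hF θ w'), ext_add,
    herm_ext]

theorem Rel.mul {w w' : Fin k → F} {g g' : SU (k + 2) F q} (h : Rel q θ hF w g) (h' : Rel q θ hF w' g') :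
    Rel q θ hF (w + w') (g * g') := by
  obtain ⟨c, hc, h⟩ := h
  obtain ⟨c', hc', h'⟩ := h'
  have H := herm_HS k hF
  refine ⟨_, ?_, comp_apply hF hθ h h'⟩
  rw [map_sub, map_add, ← H.herm, H.add_left, H.add_right, H.add_right]
  linear_combination hc + hc'

theorem exists_Rel (hk : 2 ≤ k) (w : Fin k → F) {c : F} (hc : c + sig hF c + hermForm k F q w w = 0) :
    ∃ g : SU (k + 2) F q, ∀ x, g.1.1 *ᵥ x = rho (hermForm (k + 2) F q) (ev k θ) (Phan.ext (j2 k) w) c x := by
  have H := herm_HS (k + 2) hF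
  obtain ⟨t, ht, ht'⟩ := rhoIn_all H (le_refl (tgrp H ⊤)) (herm_nd (k + 2) hF)
    (by rw [finrank_top, Module.finrank_fin_fun]; omega) (e := ev k θ) (u := Phan.ext (j2 k) w) trivial (ev_iso hF θ hθ) trivial
    (herm_ext_ev hF θ w) c (by rw [herm_ext]; exact hc)
  refine ⟨(suIso (k + 2) F q).symm ⟨t, tgrp_le_isom H ⊤ ht, tgrp_det H ht⟩, fun x => ?_⟩
  rw [← suIso_apply, MulEquiv.apply_symm_apply]
  exact ht' x

theorem exists_Rel' (hk : 2 ≤ k) (w : Fin k → F) : ∃ g, Rel q θ hF w g := by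
  have H := herm_HS k hF
  obtain ⟨c, hc⟩ := H.exists_trace (-hermForm k F q w w) (by rw [map_neg, H.self_fixed])
  have hc' : c + sig hF c + hermForm k F q w w = 0 := by rw [hc]; ring
  obtain ⟨g, hg⟩ := exists_Rel hF hθ hk w hc'
  exact ⟨g, c, hc', hg⟩

theorem rel_one : Rel q θ hF (0 : Fin k → F) (1 : SU (k + 2) F q) := by
  have H := herm_HS (k + 2) hF
  refine ⟨0, ?_, fun x => ?_⟩
  · rw [map_zero, (herm_HS k hF).zero_left]; ring
  · have h1 : Phan.ext (j2 k) (0 : Fin k → F) = 0 := by rw [Phan.ext, Matrix.mulVec_zero]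
    rw [h1, rho, H.zero_right]
    show (1 : Matrix _ _ F) *ᵥ x = _
    rw [Matrix.one_mulVec]
    simp

theorem Rel.inv (hk : 2 ≤ k) {w : Fin k → F} {g : SU (k + 2) F q} (h : Rel q θ hF w g) : Rel q θ hF (-w) g⁻¹ := by
  obtain ⟨c, hc, hg⟩ := h
  have H := herm_HS k hF
  have hc' : sig hF c + sig hF (sig hF c) + hermForm k F q (-w) (-w) = 0 := by
    rw [H.inv, H.neg_left, H.neg_right]; linear_combination hc
  obtain ⟨g', hg'⟩ := exists_Rel hF hθ hk (-w) hc'
  have e : g * g' = 1 := by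
    apply SU_ext
    intro x
    rw [comp_apply hF hθ hg hg' x, add_neg_cancel]
    have h1 : c + sig hF c - hermForm k F q (-w) w = 0 := by rw [H.neg_left]; linear_combination hc
    have h2 : Phan.ext (j2 k) (0 : Fin k → F) = 0 := by rw [Phan.ext, Matrix.mulVec_zero]
    rw [h1, h2, rho, (herm_HS (k + 2) hF).zero_right]
    show _ = (1 : Matrix _ _ F) *ᵥ x
    rw [Matrix.one_mulVec]
    simp
  have e2 : g⁻¹ = g' := inv_eq_of_mul_eq_one_right e
  rw [e2]
  exact ⟨_, hc', hg'⟩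

/-- the radical -/
def Rad (hk : 2 ≤ k) : Subgroup (SU (k + 2) F q) where
  carrier := {g | ∃ w, Rel q θ hF w g}
  one_mem' := ⟨0, rel_one hF hθ⟩
  mul_mem' := by
    rintro a b ⟨w, hw⟩ ⟨v, hv⟩
    exact ⟨_, hw.mul hF hθ hv⟩
  inv_mem' := by
    rintro a ⟨w, hw⟩
    exact ⟨_, hw.inv hF hθ hk⟩

/-- its center -/
def Cen (hk : 2 ≤ k) : Subgroup (SU (k + 2) F q) where
  carrier := {g | Rel q θ hF 0 g}
  one_mem' := rel_one hF hθ
  mul_mem' := by
    intro a b ha hb
    have := Rel.mul hF hθ ha hb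
    rwa [add_zero] at this
  inv_mem' := by
    intro a ha
    have := Rel.inv hF hθ hk ha
    rwa [neg_zero] at this

theorem coord (hk : 2 ≤ k) : Coord (Rad (q := q) hF hθ hk) (Cen hF hθ hk) (Rel q θ hF) where
  mem w x h := ⟨w, h⟩
  ex x h := h
  ex' w := exists_Rel' hF hθ hk w
  mul w x w' x' h h' := h.mul hF hθ h'
  zero w x x' h h' := by
    have := (h.inv hF hθ hk).mul hF hθ h'
    rw [neg_add_cancel] at this
    exact this

/-- conjugation by an isometry which is scalar on `e` and preserves the complement -/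
theorem Rel.conj {w w' : Fin k → F} {g s : SU (k + 2) F q} {lam : F} (hl : lam * sig hF lam = 1)
    (hs : s.1.1 *ᵥ ev k θ = lam • ev k θ) (hw : sig hF lam • (s.1.1 *ᵥ Phan.ext (j2 k) w) = Phan.ext (j2 k) w')
    (h : Rel q θ hF w g) : Rel q θ hF w' (s * g * s⁻¹) := by
  obtain ⟨c, hc, hg⟩ := h
  have H := herm_HS (k + 2) hF
  have hsi : ∀ x, s.1.1 *ᵥ (s⁻¹.1.1 *ᵥ x) = x := by
    intro x
    rw [← mul_mulVec', mul_inv_cancel]; exact Matrix.one_mulVec x
  refine ⟨c, ?_, fun x => ?_⟩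
  · rw [← herm_ext (j2 k), ← hw, H.smul_left, H.smul_right, herm_blk' hF, herm_ext, H.inv]
    linear_combination hc + hermForm k F q w w * hl
  · rw [mul_mulVec', mul_mulVec', hg, ← hw]
    exact rho_conj H (g := fun x => s.1.1 *ᵥ x) (g' := fun x => s⁻¹.1.1 *ᵥ x) (fun x y => herm_blk' hF s x y) hsi
      (fun x y => Matrix.mulVec_add _ _ _) (fun a x => Matrix.mulVec_smul _ _ _) hl hs x

end finite

end Cfsg.Agent.Lib.MSUHeis
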