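import Cfsg.Agent.Lib.MSUHeisC

/-! The multipliers of `SU₅(3)` and `SU₇(2)` in the defining characteristic (helper35). -/

set_option autoImplicit false
set_option linter.unusedSectionVars false
set_option linter.unusedVariables false

namespace Cfsg.Agent.Lib.MSUHeis

open Cfsg Cfsg.Agent.Lib.SchurSylow Cfsg.Agent.Lib.PhanMul Cfsg.Agent.Lib.Phan Cfsg.Agent.Lib.UnTrans Cfsg.Agent.Lib.UnBridge
open Cfsg.Agent.Lib.ClUnSimple Cfsg.Agent.Lib.ClUnitary
open Subgroup (center mem_center_iff)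
open scoped commutatorElement Matrix

universe u

variable {F : Type u} [Field F] {q k : ℕ}

theorem fin_cases2 (a : Fin (k + 2)) : a = 0 ∨ a = 1 ∨ ∃ b, a = j2 k b := by
  by_cases h0 : a.1 = 0
  · exact Or.inl (Fin.ext h0)
  by_cases h1 : a.1 = 1
  · exact Or.inr (Or.inl (Fin.ext h1))
  refine Or.inr (Or.inr ⟨⟨a.1 - 2, by omega⟩, Fin.ext ?_⟩)
  rw [j2, sh_apply]; show a.1 = 2 + (a.1 - 2); omega

/-- diagonal elements -/
def dgs {n : ℕ} [Fintype F] (d : Fin n → F) (h1 : ∀ i, d i ^ (q + 1) = 1) (h2 : ∏ i, d i = 1) : SU n F q :=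
  ⟨⟨Matrix.diagonal d, by rw [Matrix.det_diagonal]; exact h2⟩, isUn_diagonal h1⟩

section finite
variable [Fintype F]

theorem dgs_apply {n : ℕ} (d : Fin n → F) (h1 : ∀ i, d i ^ (q + 1) = 1) (h2 : ∏ i, d i = 1) (x : Fin n → F) (a : Fin n) :
    ((dgs d h1 h2 : SU n F q).1.1 *ᵥ x) a = d a * x a := Matrix.mulVec_diagonal d x a

theorem dgs_pow {n m : ℕ} (d : Fin n → F) (h1 : ∀ i, d i ^ (q + 1) = 1) (h2 : ∏ i, d i = 1) :
    (dgs d h1 h2 : SU n F q) ^ (q + 1) = 1 := by
  have key : ∀ (m : ℕ) x a, (((dgs d h1 h2 : SU n F q) ^ m).1.1 *ᵥ x) a = d a ^ m * x a := by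
    intro m
    induction m with
    | zero =>
      intro x a
      rw [pow_zero, pow_zero, one_mul]
      show ((1 : Matrix _ _ F) *ᵥ x) a = _
      rw [Matrix.one_mulVec]
    | succ m ih =>
      intro x a
      rw [pow_succ, mul_mulVec', ih, dgs_apply, pow_succ, mul_assoc]
  apply SU_ext
  intro x
  funext a
  rw [key, h1, one_mul]
  show _ = ((1 : Matrix _ _ F) *ᵥ x) a
  rw [Matrix.one_mulVec]

variable (hF : Fintype.card F = q ^ 2) {θ : F} (hθ : θ * sig hF θ = -1)

theorem dgs_ev (d : Fin (k + 2) → F) (h1 : ∀ i, d i ^ (q + 1) = 1) (h2 : ∏ i, d i = 1) {lam : F} (e0 : d 0 = lam) (e1 : d 1 = lam) :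
    (dgs d h1 h2 : SU (k + 2) F q).1.1 *ᵥ ev k θ = lam • ev k θ := by
  funext a
  rw [dgs_apply, Pi.smul_apply, smul_eq_mul]
  rcases fin_cases2 a with rfl | rfl | ⟨b, rfl⟩
  · rw [e0]
  · rw [e1]
  · rw [ev_j2, mul_zero, mul_zero]

theorem dgs_ext (d : Fin (k + 2) → F) (h1 : ∀ i, d i ^ (q + 1) = 1) (h2 : ∏ i, d i = 1) (w : Fin k → F) (c : F) :
    c • ((dgs d h1 h2 : SU (k + 2) F q).1.1 *ᵥ Phan.ext (j2 k) w) = Phan.ext (j2 k) (fun b => c * (d (j2 k b) * w b)) := by
  funext a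
  rw [Pi.smul_apply, dgs_apply, smul_eq_mul]
  rcases fin_cases2 a with rfl | rfl | ⟨b, rfl⟩
  · rw [ext_zero_coord, ext_zero_coord, mul_zero, mul_zero]
  · rw [ext_one_coord, ext_one_coord, mul_zero, mul_zero]
  · rw [ext_in, ext_in]

theorem blk_ev (s : SU k F q) : (blk (j2 k) s).1.1 *ᵥ ev k θ = (1 : F) • ev k θ := by
  rw [one_smul, blk_coe, blkM_fix]
  intro b
  exact ev_j2 θ b

theorem blk_ext (s : SU k F q) (w : Fin k → F) : (blk (j2 k) s).1.1 *ᵥ Phan.ext (j2 k) w = Phan.ext (j2 k) (s.1.1 *ᵥ w) := by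
  rw [blk_coe, blkM_ext]

include hF in
theorem herm_singles (i : Fin k) (a b : F) : hermForm k F q (Pi.single i a) (Pi.single i b) = a * sig hF b := by
  have e : (Pi.single i b : Fin k → F) = b • Pi.single i 1 := by
    rw [← Pi.single_smul]; congr 1; rw [smul_eq_mul, mul_one]
  rw [e, (herm_HS k hF).smul_right, herm_single hF, Pi.single_eq_same, mul_comm]

include hθ

/-- isometries which are scalar on `e` and of norm one centralize the center -/
theorem conj_cen {s z : SU (k + 2) F q} {lam : F} (hl : lam * sig hF lam = 1) (hs : s.1.1 *ᵥ ev k θ = lam • ev k θ)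
    (hz : Rel q θ hF 0 z) : s * z = z * s := by
  obtain ⟨c, hc, hg⟩ := hz
  have H := herm_HS (k + 2) hF
  have hsi : ∀ x, s.1.1 *ᵥ (s⁻¹.1.1 *ᵥ x) = x := by
    intro x
    rw [← mul_mulVec', mul_inv_cancel]; exact Matrix.one_mulVec x
  rw [← mul_inv_eq_iff_eq_mul]
  apply SU_ext
  intro x
  rw [mul_mulVec', mul_mulVec', hg, hg]
  have h1 := rho_conj H (g := fun x => s.1.1 *ᵥ x) (g' := fun x => s⁻¹.1.1 *ᵥ x) (fun x y => herm_blk' hF s x y) hsi
      (fun x y => Matrix.mulVec_add _ _ _) (fun a x => Matrix.mulVec_smul _ _ _) (u := Phan.ext (j2 k) 0) (c := c) hl hs x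
  have h2 : Phan.ext (j2 k) (0 : Fin k → F) = 0 := by rw [Phan.ext, Matrix.mulVec_zero]
  refine h1.trans ?_
  rw [h2, Matrix.mulVec_zero, smul_zero]

/-- the full data -/
theorem hdat (hk : 2 ≤ k) {lam : F} (hlam : lam ≠ 1) (hlq : lam ^ (q + 1) = 1) (hlk : lam ^ (k + 1) = 1) :
    ∃ T : SU (k + 2) F q, HDat (Rad hF hθ hk) (Cen hF hθ hk) T ∧ T ^ (q + 1) = 1 ∧
      ∀ s : SU k F q, blk (j2 k) s * T = T * blk (j2 k) s := by
  classical
  have hsl : sig hF lam = lam ^ q := sig_apply hF lam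
  have hll : lam * sig hF lam = 1 := by rw [hsl, ← pow_succ', hlq]
  set d : Fin (k + 2) → F := fun a => if a.1 < 2 then lam ^ k else lam ^ (k - 1) with hd
  have h1 : ∀ i, d i ^ (q + 1) = 1 := by
    intro i
    simp only [hd]
    split_ifs
    · rw [← pow_mul, mul_comm, pow_mul, hlq, one_pow]
    · rw [← pow_mul, mul_comm, pow_mul, hlq, one_pow]
  have h2 : ∏ i, d i = 1 := by
    rw [Fin.prod_univ_succ, Fin.prod_univ_succ]
    have e0 : d 0 = lam ^ k := by simp [hd]
    have e1 : d (Fin.succ 0) = lam ^ k := by simp [hd]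
    have e2 : ∀ i : Fin k, d i.succ.succ = lam ^ (k - 1) := by
      intro i
      simp only [hd]
      rw [if_neg]
      simp only [Fin.val_succ]; omega
    rw [e0, e1, Finset.prod_congr rfl (fun i _ => e2 i), Finset.prod_const, Finset.card_univ, Fintype.card_fin, ← pow_mul,
      ← pow_add, ← pow_add]
    have e3 : k + (k + (k - 1) * k) = (k + 1) * k := by
      obtain ⟨l, rfl⟩ : ∃ l, k = l + 1 := ⟨k - 1, by omega⟩
      simp only [Nat.add_sub_cancel]; ring
    rw [e3, pow_mul, hlk, one_pow]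
  set T : SU (k + 2) F q := dgs d h1 h2 with hT
  have hL : lam ^ k * sig hF (lam ^ k) = 1 := by rw [map_pow, ← mul_pow, hll, one_pow]
  have hTe : T.1.1 *ᵥ ev k θ = lam ^ k • ev k θ := dgs_ev d h1 h2 (by simp [hd]) (by simp [hd])
  set ζ := sig hF lam with hζ
  have hζ1 : ζ ≠ 1 := by
    intro h
    apply hlam
    rw [h, mul_one] at hll
    exact hll
  have hTw : ∀ w : Fin k → F, sig hF (lam ^ k) • (T.1.1 *ᵥ Phan.ext (j2 k) w) = Phan.ext (j2 k) (ζ • w) := by
    intro w
    rw [hT, dgs_ext]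
    congr 1
    funext b
    have e1 : d (j2 k b) = lam ^ (k - 1) := by
      simp only [hd]
      rw [if_neg]
      rw [j2, sh_apply]; show ¬ (2 + b.1 < 2); omega
    rw [e1, map_pow, Pi.smul_apply, smul_eq_mul, ← hζ]
    obtain ⟨l, hl⟩ : ∃ l, k = l + 1 := ⟨k - 1, by omega⟩
    have e2 : ζ ^ k * lam ^ (k - 1) = ζ := by
      rw [hl, Nat.add_sub_cancel, pow_succ]
      have : ζ ^ l * lam ^ l = 1 := by rw [← mul_pow, mul_comm ζ, hll, one_pow]
      linear_combination ζ * this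
    linear_combination (w b) * e2
  have hTR : ∀ w x, Rel q θ hF w x → Rel q θ hF (ζ • w) (T * x * T⁻¹) := fun w x h =>
    h.conj hF hθ hL hTe (hTw w)
  have C := coord (q := q) hF hθ hk
  refine ⟨T, ?_, dgs_pow (m := 0) d h1 h2, ?_⟩
  · constructor
    · exact fun x hx => ⟨0, hx⟩
    · rintro x ⟨w, hw⟩ y ⟨v, hv⟩
      have := ((hw.mul hF hθ hv).mul hF hθ (hw.inv hF hθ hk)).mul hF hθ (hv.inv hF hθ hk)
      have e : w + v + -w + -v = 0 := by abel
      rw [e] at this
      exact this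
    · rintro z ⟨c, hc, hz⟩ x ⟨w, c', hc', hx⟩
      apply SU_ext
      intro y
      rw [comp_apply hF hθ hz hx, comp_apply hF hθ hx hz, zero_add, add_zero, (herm_HS k hF).zero_left, (herm_HS k hF).zero_right,
        add_comm c c']
    · intro z hz
      exact conj_cen hF hθ hL hTe hz
    · rintro x ⟨w, hw⟩
      exact ⟨_, hTR w x hw⟩
    · rintro x ⟨w, hw⟩
      obtain ⟨v, hv⟩ := C.ex' ((ζ - 1)⁻¹ • w)
      have h3 := (hTR _ _ hv).mul hF hθ (hv.inv hF hθ hk)
      have e : ζ • (ζ - 1)⁻¹ • w + -((ζ - 1)⁻¹ • w) = w := by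
        have : (ζ - 1) * (ζ - 1)⁻¹ = 1 := mul_inv_cancel₀ (sub_ne_zero.2 hζ1)
        rw [smul_smul, ← neg_smul, ← add_smul]
        have h5 : ζ * (ζ - 1)⁻¹ + -(ζ - 1)⁻¹ = 1 := by linear_combination this
        rw [h5, one_smul]
      rw [e] at h3
      exact ⟨v, ⟨_, hv⟩, (T * v * T⁻¹ * v⁻¹)⁻¹ * x, C.zero _ _ _ h3 hw, by group⟩
    · rintro v ⟨w, hv⟩ h
      have h3 := (hTR _ _ hv).mul hF hθ (hv.inv hF hθ hk)
      have h4 := Rel.unique hF h3 h
      have h5 : w = 0 := by
        have e : (ζ - 1) • w = 0 := by rw [sub_smul, one_smul, sub_eq_add_neg]; exact h4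
        exact (smul_eq_zero.1 e).resolve_left (sub_ne_zero.2 hζ1)
      rw [h5] at hv
      exact hv
    · rintro z ⟨c, hc, hz⟩
      have H := herm_HS k hF
      have hc2 : c + sig hF c = 0 := by rw [H.zero_left] at hc; rw [← hc, add_zero]
      obtain ⟨t, ht⟩ := H.exists_trace (1 : F) (map_one _)
      let i0 : Fin k := ⟨0, by omega⟩
      obtain ⟨x, c1, hc1, hx⟩ := exists_Rel' hF hθ hk (Pi.single i0 (t * c) : Fin k → F)
      obtain ⟨y, c2, hc2', hy⟩ := exists_Rel' hF hθ hk (Pi.single i0 1 : Fin k → F)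
      have e : x * y = z * (y * x) := by
        apply SU_ext
        intro v
        rw [comp_apply hF hθ hx hy, comp_apply hF hθ hz (comp_apply hF hθ hy hx), zero_add, add_comm (Pi.single i0 (t * c) : Fin k → F),
          H.zero_right, herm_singles hF, herm_singles hF, map_one, map_mul]
        congr 1
        linear_combination c * ht - sig hF t * hc2
      have e2 : z = ⁅x, y⁆ := by rw [commutatorElement_def, e]; group
      rw [e2]
      exact Subgroup.commutator_mem_commutator ⟨_, c1, hc1, hx⟩ ⟨_, c2, hc2', hy⟩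
  · intro s
    have h5 : ∀ x : Fin (k + 2) → F, ∀ a, (T.1.1 *ᵥ x) a = d a * x a := fun x a => dgs_apply d h1 h2 x a
    apply SU_ext
    intro x
    rw [mul_mulVec', mul_mulVec']
    funext a
    rw [h5, blk_coe]
    by_cases ha : a ∈ Set.range (j2 k)
    · obtain ⟨b, rfl⟩ := ha
      have e1 := congrFun (blkM_in (j2 k) s.1.1 (T.1.1 *ᵥ x)) b
      have e2 := congrFun (blkM_in (j2 k) s.1.1 x) b
      have e3 : (T.1.1 *ᵥ x) ∘ (j2 k) = lam ^ (k - 1) • (x ∘ (j2 k)) := by
        funext b'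
        show (T.1.1 *ᵥ x) (j2 k b') = lam ^ (k - 1) * x (j2 k b')
        rw [h5]
        congr 1
        simp only [hd]
        rw [if_neg]
        rw [j2, sh_apply]; show ¬ (2 + b'.1 < 2); omega
      have e4 : d (j2 k b) = lam ^ (k - 1) := by
        simp only [hd]
        rw [if_neg]
        rw [j2, sh_apply]; show ¬ (2 + b.1 < 2); omega
      rw [e3, Matrix.mulVec_smul] at e1
      rw [e4]
      show (blkM (j2 k) s.1.1 *ᵥ (T.1.1 *ᵥ x)) (j2 k b) = lam ^ (k - 1) * (blkM (j2 k) s.1.1 *ᵥ x) (j2 k b)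
      exact e1.trans (by rw [Pi.smul_apply, smul_eq_mul]; exact congrArg _ e2.symm)
    · rw [blkM_out _ _ _ ha, blkM_out _ _ _ ha, h5]

/-! ### orders -/

theorem card_Rad (hk : 2 ≤ k) : Nat.card (Rad (q := q) hF hθ hk) = q ^ (2 * k + 1) := by
  classical
  have H := herm_HS k hF
  have hex : ∀ (w : Fin k → F) (c : {b : F // b + b ^ q = -hermForm k F q w w}), ∃ g : SU (k + 2) F q,
      ∀ x, g.1.1 *ᵥ x = rho (hermForm (k + 2) F q) (ev k θ) (Phan.ext (j2 k) w) c.1 x := by
    intro w c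
    refine exists_Rel hF hθ hk w ?_
    rw [sig_apply, c.2]; ring
  choose E hE using hex
  have h1 : Nat.card (Rad (q := q) hF hθ hk) = Nat.card (Σ w : Fin k → F, {b : F // b + b ^ q = -hermForm k F q w w}) := by
    symm
    apply Nat.card_congr
    refine Equiv.ofBijective (fun p => ⟨E p.1 p.2, p.1, p.2.1, by rw [sig_apply, p.2.2]; ring, hE _ _⟩) ⟨?_, ?_⟩
    · rintro ⟨w, c⟩ ⟨w', c'⟩ he
      have he' : E w c = E w' c' := congrArg Subtype.val he
      have e1 : w = w' := by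
        have a1 : Rel q θ hF w (E w c) := ⟨c.1, by rw [sig_apply, c.2]; ring, hE _ _⟩
        have a2 : Rel q θ hF w' (E w' c') := ⟨c'.1, by rw [sig_apply, c'.2]; ring, hE _ _⟩
        rw [he'] at a1
        exact Rel.unique hF a1 a2
      subst e1
      have e2 : c = c' := by
        apply Subtype.ext
        have a1 := c_eq hF (hE w c)
        have a2 := c_eq hF (hE w c')
        rw [he', a2] at a1
        exact (add_left_cancel a1).symm
      rw [e2]
    · rintro ⟨g, w, c, hc, hg⟩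
      have hc' : c + c ^ q = -hermForm k F q w w := by rw [← sig_apply hF]; linear_combination hc
      refine ⟨⟨w, c, hc'⟩, Subtype.ext ?_⟩
      apply SU_ext
      intro x
      rw [hg]
      exact hE _ _ x
  have h2 : ∀ w : Fin k → F, Nat.card {b : F // b + b ^ q = -hermForm k F q w w} = q := by
    intro w
    apply SylU3.card_fiber hF
    rw [← sig_apply hF, map_neg, H.self_fixed]
  rw [h1, Nat.card_sigma]
  simp only [h2]
  rw [Finset.sum_const, Finset.card_univ, Fintype.card_fun, hF, smul_eq_mul, Fintype.card_fin, ← pow_mul, pow_succ]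

theorem rad_blk (hk : 2 ≤ k) {s : SU k F q} (h : blk (j2 k) s ∈ Rad (q := q) hF hθ hk) : s = 1 := by
  obtain ⟨w, c, hc, hg⟩ := h
  have h0 : (blk (j2 k) s).1.1 *ᵥ Pi.single 0 1 = Pi.single 0 1 := by
    rw [blk_coe, blkM_fix]
    intro b
    exact Pi.single_eq_of_ne (j2_ne0 b) _
  have hw : w = 0 := by
    funext b
    have := Rel.w_eq hF ⟨c, hc, hg⟩ b
    rw [h0, Pi.single_eq_of_ne (j2_ne0 b)] at this
    exact this.symm
  have hc0 : c = 0 := by
    have := c_eq hF hg
    rw [h0, Pi.single_eq_same] at this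
    linear_combination -this
  apply blk_inj (j2 k)
  rw [map_one]
  apply SU_ext
  intro x
  have h2 : Phan.ext (j2 k) (0 : Fin k → F) = 0 := by rw [Phan.ext, Matrix.mulVec_zero]
  rw [hg, hw, hc0, h2, rho, (herm_HS (k + 2) hF).zero_right]
  show _ = (1 : Matrix _ _ F) *ᵥ x
  rw [Matrix.one_mulVec]
  simp

theorem blk_norm (hk : 2 ≤ k) (s : SU k F q) {w : Fin k → F} {x : SU (k + 2) F q} (hx : Rel q θ hF w x) :
    Rel q θ hF (s.1.1 *ᵥ w) (blk (j2 k) s * x * (blk (j2 k) s)⁻¹) :=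
  hx.conj hF hθ (lam := 1) (by rw [map_one, one_mul]) (blk_ev s) (by rw [map_one, one_smul, blk_ext])

/-- the subgroup `R : SU_k` -/
def Par (hk : 2 ≤ k) : Subgroup (SU (k + 2) F q) where
  carrier := {g | ∃ x ∈ Rad (q := q) hF hθ hk, ∃ s, g = x * blk (j2 k) s}
  one_mem' := ⟨1, one_mem _, 1, by rw [map_one, one_mul]⟩
  mul_mem' := by
    rintro _ _ ⟨x, hx, s, rfl⟩ ⟨y, ⟨v, hv⟩, t, rfl⟩
    refine ⟨x * (blk (j2 k) s * y * (blk (j2 k) s)⁻¹), mul_mem hx ⟨_, blk_norm hF hθ hk s hv⟩, s * t, ?_⟩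
    rw [map_mul]; group
  inv_mem' := by
    rintro _ ⟨x, hx, s, rfl⟩
    obtain ⟨v, hv⟩ := inv_mem hx
    refine ⟨blk (j2 k) s⁻¹ * x⁻¹ * (blk (j2 k) s⁻¹)⁻¹, ⟨_, blk_norm hF hθ hk s⁻¹ hv⟩, s⁻¹, ?_⟩
    rw [map_inv]; group

theorem card_Par (hk : 2 ≤ k) : Nat.card (Par (q := q) hF hθ hk) = q ^ (2 * k + 1) * Nat.card (SU k F q) := by
  rw [← card_Rad hF hθ hk, ← Nat.card_prod]
  symm
  apply Nat.card_congr
  refine Equiv.ofBijective (fun p : Rad (q := q) hF hθ hk × SU k F q => (⟨p.1.1 * blk (j2 k) p.2, p.1.1, p.1.2, p.2, rfl⟩ : Par (q := q) hF hθ hk)) ⟨?_, ?_⟩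
  · rintro ⟨x, s⟩ ⟨y, t⟩ he
    have he' : x.1 * blk (j2 k) s = y.1 * blk (j2 k) t := congrArg Subtype.val he
    have h1 : blk (j2 k) (s * t⁻¹) ∈ Rad (q := q) hF hθ hk := by
      have : blk (j2 k) (s * t⁻¹) = x.1⁻¹ * y.1 := by
        rw [map_mul, map_inv, mul_inv_eq_iff_eq_mul, mul_assoc, ← he']; group
      rw [this]; exact mul_mem (inv_mem x.2) y.2
    have h2 : s = t := mul_inv_eq_one.1 (rad_blk hF hθ hk h1)
    subst h2
    have h3 : x = y := Subtype.ext (mul_right_cancel he')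
    rw [h3]
  · rintro ⟨_, x, hx, s, rfl⟩
    exact ⟨(⟨x, hx⟩, s), rfl⟩

theorem index_Par (hk : 2 ≤ k) : (Par (q := q) hF hθ hk).index =
    (if Even k then q ^ (k + 1) + 1 else q ^ (k + 1) - 1) * (if Even (k + 1) then q ^ (k + 2) + 1 else q ^ (k + 2) - 1) := by
  have h1 := (Par (q := q) hF hθ hk).card_mul_index
  have h2 := card_SU (n := k + 2) hF (by omega)
  have h3 := card_SU (n := k) hF (by omega)
  rw [Finset.prod_range_succ, Finset.prod_range_succ] at h2
  have hq := one_lt_q hF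
  have e : (k + 2) * (k + 2 - 1) / 2 = (2 * k + 1) + k * (k - 1) / 2 := by
    obtain ⟨l, rfl⟩ : ∃ l, k = l + 1 := ⟨k - 1, by omega⟩
    have e1 : (l + 1 + 2) * (l + 1 + 2 - 1) = (l + 1) * (l + 1 - 1) + 2 * (2 * (l + 1) + 1) := by
      simp only [Nat.add_sub_cancel, show l + 1 + 2 - 1 = l + 2 by omega]; ring
    rw [e1]
    omega
  rw [card_Par] at h1
  have h4 : 0 < q ^ (2 * k + 1) * Nat.card (SU k F q) := by
    have : 0 < Nat.card (SU k F q) := Nat.card_pos
    positivity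
  have h5 : 0 < q + 1 := by omega
  apply Nat.eq_of_mul_eq_mul_left h4
  apply Nat.eq_of_mul_eq_mul_left h5
  rw [h1, h2, e, pow_add, show k + 1 + 1 = k + 2 from rfl]
  revert h3
  generalize (∏ i ∈ Finset.range k, if Even i then q ^ (i + 1) + 1 else q ^ (i + 1) - 1) = P
  generalize (if Even k then q ^ (k + 1) + 1 else q ^ (k + 1) - 1) = A
  generalize (if Even (k + 1) then q ^ (k + 2) + 1 else q ^ (k + 2) - 1) = B
  generalize Nat.card (SU k F q) = N
  generalize q ^ (k * (k - 1) / 2) = u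
  generalize q ^ (2 * k + 1) = v
  intro h3
  calc v * u * (P * A * B) = v * (u * P) * (A * B) := by ring
    _ = v * ((q + 1) * N) * (A * B) := by rw [h3]
    _ = _ := by ring

theorem not_dvd_index (hk : 2 ≤ k) {p : ℕ} (hp : p.Prime) (hpq : ∃ e, 0 < e ∧ q = p ^ e) :
    ¬ p ∣ (Par (q := q) hF hθ hk).index := by
  rw [index_Par]
  obtain ⟨e, he, rfl⟩ := hpq
  have key1 : ∀ m, 0 < m → ¬ p ∣ (p ^ e) ^ m + 1 := by
    intro m hm h
    have h2 : p ∣ (p ^ e) ^ m := by rw [← pow_mul]; exact dvd_pow_self p (by positivity)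
    exact hp.one_lt.ne' (Nat.dvd_one.mp ((Nat.dvd_add_right h2).mp h))
  have key2 : ∀ m, 0 < m → ¬ p ∣ (p ^ e) ^ m - 1 := by
    intro m hm h
    have h2 : p ∣ (p ^ e) ^ m := by rw [← pow_mul]; exact dvd_pow_self p (by positivity)
    have h3 : 1 ≤ (p ^ e) ^ m := Nat.one_le_pow _ _ (pow_pos hp.pos _)
    have h4 : p ∣ (p ^ e) ^ m - ((p ^ e) ^ m - 1) := Nat.dvd_sub h2 h
    rw [Nat.sub_sub_self h3] at h4
    exact hp.one_lt.ne' (Nat.dvd_one.mp h4)
  intro h
  rcases hp.dvd_mul.1 h with h | h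
  · split_ifs at h
    · exact key1 _ (by omega) h
    · exact key2 _ (by omega) h
  · split_ifs at h
    · exact key1 _ (by omega) h
    · exact key2 _ (by omega) h

end finite

/-- **from rank `k` to rank `k + 2`, in the defining characteristic, for prime `q`** -/
theorem pStemDvd_step [Fintype F] {p : ℕ} [hp : Fact p.Prime] [hcp : CharP F p] (hF : Fintype.card F = p ^ 2) (hk : 3 ≤ k)
    {lam : F} (hlam : lam ≠ 1) (hlq : lam ^ (p + 1) = 1) (hlk : lam ^ (k + 1) = 1) (hQ : commutator (SU k F p) = ⊤)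
    (hM : PStemDvd p (SU k F p) 1) : PStemDvd p (SU (k + 2) F p) 1 := by
  classical
  intro Γ _ _ σ hσ hker
  have hk2 : 2 ≤ k := by omega
  have H := herm_HS k hF
  obtain ⟨θ, hθ⟩ : ∃ θ : F, θ * sig hF θ = -1 := by
    obtain ⟨c, hc⟩ := exists_norm hF (c := (-1 : F)) (by rw [HermMat.neg_pow_q hF, one_pow])
    exact ⟨c, by rw [sig_apply, ← pow_succ', hc]⟩
  obtain ⟨T, D, hT, hTs⟩ := hdat hF hθ hk2 hlam hlq hlk
  have C := coord (q := p) hF hθ hk2
  have hs := hσ.1
  have hc := hσ.2.1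
  have hcop : (p + 1).Coprime p := by
    rw [Nat.coprime_self_add_left]; exact Nat.coprime_one_left p
  have hll : lam * sig hF lam = 1 := by rw [sig_apply hF lam, ← pow_succ', hlq]
  have hζ1 : sig hF lam ≠ 1 := by
    intro h
    apply hlam
    rw [h, mul_one] at hll
    exact hll
  obtain ⟨ω, hω⟩ := H.ne
  have hωm : ω ∉ AddSubgroup.zmultiples (1 : F) := by
    rintro ⟨n, hn⟩
    apply hω
    rw [← hn]
    simp
  let i0 : Fin k := ⟨0, by omega⟩
  have hK := heis D C hs hc hp.out (by rw [Nat.card_eq_fintype_card]; exact hF) i0 hωm (by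
      intro i
      set d : Fin (k + 2) → F := fun a => if a = j2 k i then 1 else lam with hd
      have h1 : ∀ a, d a ^ (p + 1) = 1 := by
        intro a
        simp only [hd]
        split_ifs
        · exact one_pow _
        · exact hlq
      have h2 : ∏ a, d a = 1 := by
        rw [← Finset.mul_prod_erase Finset.univ _ (Finset.mem_univ (j2 k i))]
        have e1 : d (j2 k i) = 1 := by simp [hd]
        have e2 : ∀ a ∈ Finset.univ.erase (j2 k i), d a = lam := by
          intro a ha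
          simp only [hd]
          rw [if_neg (Finset.ne_of_mem_erase ha)]
        rw [e1, one_mul, Finset.prod_congr rfl e2, Finset.prod_const, Finset.card_erase_of_mem (Finset.mem_univ _),
          Finset.card_univ, Fintype.card_fin]
        exact hlk
      obtain ⟨g, hg⟩ := hs (dgs d h1 h2)
      have he : (dgs d h1 h2 : SU (k + 2) F p).1.1 *ᵥ ev k θ = lam • ev k θ := by
        apply dgs_ev
        · simp only [hd]; rw [if_neg (fun h => j2_ne0 i h.symm)]
        · simp only [hd]; rw [if_neg (fun h => j2_ne1 i h.symm)]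
      refine ⟨g, sig hF lam, hζ1, ?_, ?_⟩
      · intro b hb
        exact cop_comm hc hker hcop (by rw [hg, dgs_pow (m := 0)]) (by rw [hg]; exact conj_cen hF hθ hll he hb)
      · intro w x hx
        rw [hg]
        refine hx.conj hF hθ hll he ?_
        rw [dgs_ext]
        congr 1
        funext b
        by_cases hb : b = i
        · subst hb
          simp only [hd, if_true]
          rw [one_mul]
        · rw [if_neg hb]
          simp only [hd]
          rw [if_neg (fun h => hb ((j2 k).injective h))]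
          linear_combination (w b) * hll)
    (by
      intro i
      obtain ⟨s, hs'⟩ := exists_w (F := F) hF (show 1 < k by omega) (⟨fun _ => i0, fun a b _ => Subsingleton.elim a b⟩ : Fin 1 ↪ Fin k)
        (⟨fun _ => i, fun a b _ => Subsingleton.elim a b⟩ : Fin 1 ↪ Fin k)
      have hs1 : s.1.1 *ᵥ Pi.single i0 1 = Pi.single i 1 := hs' 0
      obtain ⟨g, hg⟩ := hs (blk (j2 k) s)
      refine ⟨g, ?_, ?_⟩
      · intro b hb
        refine comm_lift hs hc hQ (blk (j2 k)) ?_ hg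
        intro x
        exact conj_cen hF hθ (lam := 1) (by rw [map_one, one_mul]) (blk_ev x) hb
      · intro a x hx
        rw [hg]
        have := blk_norm hF hθ hk2 s hx
        have e : s.1.1 *ᵥ (Pi.single i0 a : Fin k → F) = Pi.single i a := by
          have e1 : ∀ j : Fin k, (Pi.single j a : Fin k → F) = a • Pi.single j 1 := by
            intro j
            rw [← Pi.single_smul, smul_eq_mul, mul_one]
          rw [e1, e1, Matrix.mulVec_smul, hs1]
        rw [e] at this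
        exact this)
    (by
      rintro x y ⟨c, hc1, hx⟩ ⟨c', hc2, hy⟩ h
      rw [commutatorElement_eq_one_iff_mul_comm] at h
      have e1 := c_eq hF (comp_apply hF hθ hx hy)
      have e2 := c_eq hF (comp_apply hF hθ hy hx)
      rw [h, e2, herm_singles hF, herm_singles hF] at e1
      apply hω
      rw [map_one] at e1
      linear_combination -e1)
  have hidx := not_dvd_index hF hθ hk2 hp.out ⟨1, one_pos, (pow_one p).symm⟩
  rw [D.main hσ hker hcop hT hK hQ hM (blk (j2 k)) (blk_inj _) (by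
      rintro s x ⟨w, hw⟩
      exact ⟨_, blk_norm hF hθ hk2 s hw⟩) hTs (fun s h => rad_blk hF hθ hk2 h) (Par hF hθ hk2) (fun g hg => hg) hidx]

end Cfsg.Agent.Lib.MSUHeis
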