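import Mathlib
import Cfsg.Agent.Lib.CoopF

set_option autoImplicit false
set_option linter.unusedSectionVars false

/-!
Counting the points of a set acted on by a Heisenberg type group by characters (helper60).
-/

namespace Cfsg.Agent.Lib.MSp

open Cfsg.Agent.Lib.Coop

section ann

variable {K W : Type*} [Field K] [AddCommGroup W] [Module K W]

/-- annihilators with respect to a character and a bilinear form -/
def ann (ψ : AddChar K ℂ) (β : W →ₗ[K] W →ₗ[K] K) (S : AddSubgroup W) : AddSubgroup W where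
  carrier := {b | ∀ s ∈ S, ψ (β b s) = 1}
  zero_mem' := by
    intro s _
    rw [map_zero, LinearMap.zero_apply, AddChar.map_zero_eq_one]
  add_mem' := by
    intro b b' h h' s hs
    rw [map_add, LinearMap.add_apply, AddChar.map_add_eq_mul, h s hs, h' s hs, mul_one]
  neg_mem' := by
    intro b h s hs
    have h1 := h (-s) (S.neg_mem hs)
    rw [map_neg] at h1
    rw [map_neg, LinearMap.neg_apply, h1]

theorem mem_ann {ψ : AddChar K ℂ} {β : W →ₗ[K] W →ₗ[K] K} {S : AddSubgroup W} {b : W} :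
    b ∈ ann ψ β S ↔ ∀ s ∈ S, ψ (β b s) = 1 := Iff.rfl

theorem mem_of_ann [Finite W] {ψ : AddChar K ℂ} {β : W →ₗ[K] W →ₗ[K] K} {S : AddSubgroup W}
    (hβ : ∀ w, β w = 0 → w = 0) {a : K} (hψ : ψ a ≠ 1) {w : W} (h : ∀ b ∈ ann ψ β S, ψ (β b w) = 1) : w ∈ S := by
  by_contra hw
  obtain ⟨χ, hχ, hχw⟩ := exists_char hw
  obtain ⟨b, hb⟩ := chi_surjective β hβ hψ χ
  apply hχw
  rw [hb]
  apply h
  intro s hs
  rw [← hb]
  exact hχ s hs

theorem card_ann [Finite W] {ψ : AddChar K ℂ} {β : W →ₗ[K] W →ₗ[K] K} (S : AddSubgroup W)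
    (hβ : ∀ w, β w = 0 → w = 0) {a : K} (hψ : ψ a ≠ 1) : Nat.card (ann ψ β S) = Nat.card (W ⧸ S) := by
  classical
  haveI : Fintype (W ⧸ S) := Fintype.ofFinite _
  have key : ∀ b : ann ψ β S, ∃ χ : AddChar (W ⧸ S) ℂ, ∀ u : W, χ (QuotientAddGroup.mk u) = ψ (β (b : W) u) := by
    intro b
    let g : W →+ Additive ℂ := AddChar.toAddMonoidHomEquiv (ψ.compAddMonoidHom (β (b : W)).toAddMonoidHom)
    let g' : (W ⧸ S) →+ Additive ℂ := QuotientAddGroup.lift S g (fun u hu => b.2 u hu)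
    exact ⟨AddChar.toAddMonoidHomEquiv.symm g', fun u => rfl⟩
  choose φ hφ using key
  have h1 : Function.Bijective φ := by
    constructor
    · intro b b' h
      apply Subtype.ext
      apply chi_injective β hβ hψ
      ext u
      show ψ (β (b : W) u) = ψ (β (b' : W) u)
      rw [← hφ, ← hφ, h]
    · intro χ
      obtain ⟨b, hb⟩ := chi_surjective β hβ hψ (χ.compAddMonoidHom (QuotientAddGroup.mk' S))
      refine ⟨⟨b, fun s hs => ?_⟩, ?_⟩
      · rw [← hb]
        show χ (QuotientAddGroup.mk s) = 1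
        rw [(QuotientAddGroup.eq_zero_iff s).2 hs, AddChar.map_zero_eq_one]
      · ext u
        obtain ⟨u, rfl⟩ := QuotientAddGroup.mk_surjective u
        rw [hφ]
        exact (hb u).symm
  rw [Nat.card_congr (Equiv.ofBijective φ h1), Nat.card_eq_fintype_card, AddChar.card_eq, Nat.card_eq_fintype_card]

end ann

/-- Heisenberg data, with the centre parametrised by a field -/
structure HK (K G W : Type*) [Field K] [Group G] [AddCommGroup W] extends HD G W where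
  ζ : K → G
  ζ_zero : ζ 0 = 1
  ζ_add : ∀ a b, ζ (a + b) = ζ a * ζ b
  mem_Z : ∀ g, g ∈ Z ↔ ∃ a, ζ a = g

namespace HK

variable {K G W X : Type*} [Field K] [Group G] [AddCommGroup W] [Module K W] [MulAction G X] (D : HK K G W)

theorem ζ_mem (a : K) : D.ζ a ∈ D.Z := (D.mem_Z _).2 ⟨a, rfl⟩

theorem ζ_neg (a : K) : D.ζ (-a) = (D.ζ a)⁻¹ := by
  rw [eq_inv_iff_mul_eq_one, ← D.ζ_add, neg_add_cancel, D.ζ_zero]

theorem Z_le : D.Z ≤ D.Qg := fun z hz => ⟨0, z, hz, by rw [D.e_zero, one_mul]⟩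

theorem e_mem (w : W) : D.e w ∈ D.Qg := ⟨w, 1, one_mem _, by rw [mul_one]⟩

theorem Z_comm {g z : G} (hg : g ∈ D.Qg) (hz : z ∈ D.Z) : g * z = z * g := by
  obtain ⟨u, s, hs, rfl⟩ := hg
  rw [mul_assoc, D.zcomm s hs z hz, ← mul_assoc, D.comm u z hz, mul_assoc]

/-- the stabiliser in the centre -/
def A (x : X) : AddSubgroup K where
  carrier := {a | D.ζ a • x = x}
  zero_mem' := by
    show D.ζ 0 • x = x
    rw [D.ζ_zero, one_smul]
  add_mem' := by
    intro a b ha hb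
    show D.ζ (a + b) • x = x
    have ha : D.ζ a • x = x := ha
    have hb : D.ζ b • x = x := hb
    rw [D.ζ_add, mul_smul, hb, ha]
  neg_mem' := by
    intro a ha
    show D.ζ (-a) • x = x
    have ha : D.ζ a • x = x := ha
    rw [D.ζ_neg, inv_smul_eq_iff, ha]

theorem mem_A {x : X} {a : K} : a ∈ D.A x ↔ D.ζ a • x = x := Iff.rfl

theorem A_smul {g : G} (hg : g ∈ D.Qg) (x : X) : D.A (g • x) = D.A x := by
  ext a
  rw [mem_A, mem_A, ← mul_smul, ← D.Z_comm hg (D.ζ_mem a), mul_smul]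
  exact ⟨fun h => MulAction.injective g h, fun h => by rw [h]⟩

theorem card_orbit_Z (x : X) : Nat.card (MulAction.orbit D.Z x) = Nat.card (K ⧸ D.A x) := by
  refine (Nat.card_congr (Equiv.ofBijective (fun c : K ⧸ D.A x => (⟨D.ζ c.out • x, ⟨⟨D.ζ c.out, D.ζ_mem _⟩, rfl⟩⟩ :
    MulAction.orbit D.Z x)) ⟨?_, ?_⟩)).symm
  · intro c d h
    have h1 : D.ζ c.out • x = D.ζ d.out • x := congrArg Subtype.val h
    rw [← QuotientAddGroup.out_eq' c, ← QuotientAddGroup.out_eq' d, QuotientAddGroup.eq, mem_A, D.ζ_add, D.ζ_neg,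
      mul_smul, ← h1, inv_smul_smul]
  · rintro ⟨_, ⟨z, hz⟩, rfl⟩
    obtain ⟨a, rfl⟩ := (D.mem_Z z).1 hz
    refine ⟨QuotientAddGroup.mk a, Subtype.ext ?_⟩
    show D.ζ ((QuotientAddGroup.mk a : K ⧸ D.A x).out) • x = D.ζ a • x
    have h1 : -a + (QuotientAddGroup.mk a : K ⧸ D.A x).out ∈ D.A x := by
      rw [← QuotientAddGroup.eq, QuotientAddGroup.out_eq']
    rw [mem_A, D.ζ_add, D.ζ_neg, mul_smul, inv_smul_eq_iff] at h1
    exact h1

theorem card_orbit [Finite X] (x : X) :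
    Nat.card (MulAction.orbit D.Qg x) = Nat.card (W ⧸ D.bar x) * Nat.card (K ⧸ D.A x) := by
  rw [← card_orbit_Z]
  apply le_antisymm _ (D.card_orbit_ge x)
  rw [← Nat.card_prod]
  have hmem : ∀ p : (W ⧸ D.bar x) × MulAction.orbit D.Z x, D.e p.1.out • (p.2 : X) ∈ MulAction.orbit D.Qg x := by
    rintro ⟨w, ⟨_, ⟨z, hz⟩, rfl⟩⟩
    exact ⟨⟨D.e w.out * z, ⟨_, z, hz, rfl⟩⟩, by
      show (D.e w.out * z) • x = D.e w.out • (z • x)
      rw [mul_smul]⟩
  rcases finite_or_infinite (W ⧸ D.bar x) with hf | hf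
  · refine Nat.card_le_card_of_surjective (fun p => ⟨D.e p.1.out • (p.2 : X), hmem p⟩) ?_
    rintro ⟨_, ⟨g, u, z, hz, rfl⟩, rfl⟩
    have h1 : -u + (QuotientAddGroup.mk u : W ⧸ D.bar x).out ∈ D.bar x := by
      rw [← QuotientAddGroup.eq, QuotientAddGroup.out_eq']
    set u' := (QuotientAddGroup.mk u : W ⧸ D.bar x).out with hu'
    obtain ⟨s, hs, h2⟩ := D.mul u' (u - u')
    rw [add_sub_cancel] at h2
    have h3 : u - u' ∈ D.bar x := by
      have := (D.bar x).neg_mem h1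
      rwa [neg_add_rev, neg_neg, neg_add_eq_sub] at this
    obtain ⟨t, ht, h4⟩ := h3
    refine ⟨⟨QuotientAddGroup.mk u, ⟨(s⁻¹ * z * t) • x, ⟨⟨s⁻¹ * z * t,
      mul_mem (mul_mem (inv_mem hs) hz) ht⟩, rfl⟩⟩⟩, Subtype.ext ?_⟩
    show D.e u' • (s⁻¹ * z * t) • x = (D.e u * z) • x
    have h5 : D.e u = D.e u' * D.e (u - u') * s⁻¹ := by rw [h2, mul_inv_cancel_right]
    rw [h5, mul_smul (s⁻¹ * z), ← h4, ← mul_smul, ← mul_smul]
    congr 1
    rw [mul_assoc (D.e u') (s⁻¹ * z), ← D.comm (u - u') _ (mul_mem (inv_mem hs) hz)]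
    simp only [mul_assoc]
  · exfalso
    haveI : Nonempty (MulAction.orbit D.Z x) := ⟨⟨x, MulAction.mem_orbit_self x⟩⟩
    haveI : Finite (MulAction.orbit D.Qg x) := Finite.of_injective _ Subtype.val_injective
    have hinj : Function.Injective (fun w : W ⧸ D.bar x => (⟨D.e w.out • x, hmem ⟨w, ⟨x, MulAction.mem_orbit_self x⟩⟩⟩ :
        MulAction.orbit D.Qg x)) := by
      intro w w' h
      have h' : D.e w.out • x = D.e w'.out • x := congrArg Subtype.val h
      rw [← QuotientAddGroup.out_eq' w, ← QuotientAddGroup.out_eq' w', QuotientAddGroup.eq, neg_add_eq_sub]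
      obtain ⟨s, hs, h1⟩ := D.inv_mul w.out w'.out
      have h2 : (D.e w.out)⁻¹ • D.e w'.out • x = x := by rw [← h', inv_smul_smul]
      rw [← mul_smul, h1, D.comm _ _ hs, mul_smul, smul_eq_iff_eq_inv_smul] at h2
      exact ⟨s⁻¹, inv_mem hs, h2⟩
    exact hf.not_finite (Finite.of_injective _ hinj)

variable (ψ : AddChar K ℂ) (β : W →ₗ[K] W →ₗ[K] K)

/-- the characters of the centre appearing on the orbit -/
def Cc (x : X) : AddSubgroup K := ann ψ (LinearMap.mul K K) (D.A x)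

/-- the characters of the quotient appearing on the orbit -/
def Dd (x : X) : AddSubgroup W := ann ψ β (D.bar x)

theorem mem_Cc {x : X} {c : K} : c ∈ D.Cc ψ x ↔ ∀ a, D.ζ a • x = x → ψ (c * a) = 1 := Iff.rfl

theorem mem_Dd {x : X} {b : W} : b ∈ D.Dd ψ β x ↔ ∀ w ∈ D.bar x, ψ (β b w) = 1 := Iff.rfl

theorem Cc_smul {g : G} (hg : g ∈ D.Qg) (x : X) : D.Cc ψ (g • x) = D.Cc ψ x := by
  rw [Cc, Cc, D.A_smul hg]

theorem Dd_smul {g : G} (hg : g ∈ D.Qg) (x : X) : D.Dd ψ β (g • x) = D.Dd ψ β x := by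
  rw [Dd, Dd, D.bar_smul hg]

/-- the orbits -/
abbrev Om (X : Type*) [MulAction G X] : Type _ := MulAction.orbitRel.Quotient D.Qg X

theorem out_spec (x : X) : ∃ g ∈ D.Qg, (Quotient.out (Quotient.mk _ x : D.Om X)) = g • x := by
  have h1 : (Quotient.mk _ (Quotient.out (Quotient.mk _ x : D.Om X)) : D.Om X) = Quotient.mk _ x := Quotient.out_eq _
  obtain ⟨⟨g, hg⟩, h⟩ := MulAction.orbitRel_apply.1 (Quotient.exact h1)
  exact ⟨g, hg, h.symm⟩

/-- the pairs -/
def Wp (c : K) (b : W) (x : X) : Prop := c ∈ D.Cc ψ x ∧ b ∈ D.Dd ψ β x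

theorem Wp_smul {g : G} (hg : g ∈ D.Qg) (c : K) (b : W) (x : X) : D.Wp ψ β c b (g • x) ↔ D.Wp ψ β c b x := by
  rw [Wp, Wp, D.Cc_smul ψ hg, D.Dd_smul ψ β hg]

theorem Wp_out (c : K) (b : W) (x : X) :
    D.Wp ψ β c b (Quotient.out (Quotient.mk _ x : D.Om X)) ↔ D.Wp ψ β c b x := by
  obtain ⟨g, hg, h⟩ := D.out_spec x
  rw [h, D.Wp_smul ψ β hg]

/-- the number of orbits on which two characters appear -/
noncomputable def r (X : Type*) [MulAction G X] (c : K) (b : W) : ℕ :=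
  Nat.card {ω : D.Om X // D.Wp ψ β c b (Quotient.out ω)}

variable {ψ β}

theorem card_eq [Finite X] [Fintype K] [Fintype W] (hβ : ∀ w, β w = 0 → w = 0) {a : K} (hψ : ψ a ≠ 1) :
    Nat.card X = ∑ c : K, ∑ b : W, D.r ψ β X c b := by
  classical
  haveI := Fintype.ofFinite X
  let Ω := D.Om X
  haveI : Finite Ω := Quotient.finite _
  haveI := Fintype.ofFinite Ω
  have h1 : Nat.card X = ∑ ω : Ω, Nat.card ω.orbit := by
    rw [Nat.card_congr (MulAction.selfEquivSigmaOrbits' D.Qg X), Nat.card_sigma]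
  have h2 : ∀ ω : Ω, Nat.card ω.orbit = ∑ c : K, ∑ b : W, if D.Wp ψ β c b (Quotient.out ω) then 1 else 0 := by
    intro ω
    have h3 : ω.orbit = MulAction.orbit D.Qg (Quotient.out ω) := by
      conv_lhs => rw [← Quotient.out_eq ω]
      exact MulAction.orbitRel.Quotient.orbit_mk _
    rw [h3, D.card_orbit, mul_comm, ← card_ann (D.A _) (β := LinearMap.mul K K) (fun w hw => by
        have := LinearMap.congr_fun hw 1
        simpa using this) hψ, ← card_ann (D.bar _) hβ hψ, ← Nat.card_prod, Nat.card_eq_fintype_card]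
    rw [← Finset.sum_product', ← Finset.card_filter, ← Fintype.card_coe]
    refine Fintype.card_congr ⟨fun p => ⟨(p.1, p.2), ?_⟩, fun p => (⟨p.1.1, ?_⟩, ⟨p.1.2, ?_⟩), fun p => rfl, fun p => rfl⟩
    · exact Finset.mem_filter.2 ⟨Finset.mem_univ _, p.1.2, p.2.2⟩
    · exact (Finset.mem_filter.1 p.2).2.1
    · exact (Finset.mem_filter.1 p.2).2.2
  rw [h1, Finset.sum_congr rfl (fun ω _ => h2 ω), Finset.sum_comm]
  refine Finset.sum_congr rfl fun c _ => ?_
  rw [Finset.sum_comm]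
  refine Finset.sum_congr rfl fun b _ => ?_
  rw [r, Nat.card_eq_fintype_card, Fintype.card_subtype, Finset.card_filter]

theorem r_card [Finite X] {ι : Type*} [Fintype ι] (f : ι → X) {c : K} {b : W} (h : ∀ i, D.Wp ψ β c b (f i))
    (hf : ∀ i j, f i ∈ MulAction.orbit D.Qg (f j) → i = j) : Fintype.card ι ≤ D.r ψ β X c b := by
  haveI : Finite (D.Om X) := Quotient.finite _
  rw [← Nat.card_eq_fintype_card]
  refine Nat.card_le_card_of_injective (fun i => (⟨Quotient.mk _ (f i), (D.Wp_out ψ β c b _).2 (h i)⟩ :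
    {ω : D.Om X // D.Wp ψ β c b (Quotient.out ω)})) ?_
  intro i j hij
  exact hf i j (MulAction.orbitRel_apply.1 (Quotient.exact (congrArg Subtype.val hij)))

theorem r_pos [Finite X] {c : K} {b : W} {x : X} (h : D.Wp ψ β c b x) : 1 ≤ D.r ψ β X c b := by
  have := D.r_card (ψ := ψ) (β := β) (fun _ : Unit => x) (fun _ => h) (fun _ _ _ => rfl)
  simpa using this

theorem r_two [Finite X] {c : K} {b : W} {x y : X} (hx : D.Wp ψ β c b x) (hy : D.Wp ψ β c b y)
    (h : y ∉ MulAction.orbit D.Qg x) : 2 ≤ D.r ψ β X c b := by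
  have h' : x ∉ MulAction.orbit D.Qg y := fun h1 => h ((MulAction.orbit_eq_iff.2 h1) ▸ MulAction.mem_orbit_self y)
  have := D.r_card (ψ := ψ) (β := β) (fun i : Bool => cond i x y) (fun i => by cases i <;> assumption)
    (fun i j hij => by
      cases i <;> cases j
      · rfl
      · exact (h hij).elim
      · exact (h' hij).elim
      · rfl)
  simpa using this

theorem orbit_of_r [Finite X] {c : K} {b : W} (hr : D.r ψ β X c b ≤ 1) {x y : X} (hx : D.Wp ψ β c b x)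
    (hy : D.Wp ψ β c b y) : y ∈ MulAction.orbit D.Qg x := by
  by_contra h
  have := D.r_two hx hy h
  omega

theorem exists_of_r {c : K} {b : W} (hr : D.r ψ β X c b ≠ 0) : ∃ x : X, D.Wp ψ β c b x := by
  rcases isEmpty_or_nonempty {ω : D.Om X // D.Wp ψ β c b (Quotient.out ω)} with h | ⟨⟨ω, hω⟩⟩
  · exact (hr Nat.card_of_isEmpty).elim
  · exact ⟨_, hω⟩

theorem r_le [Finite X] {Y : Type*} [MulAction G Y] [Finite Y] {c c' : K} {b b' : W} (g : X → Y)
    (h1 : ∀ x, D.Wp ψ β c b x → D.Wp ψ β c' b' (g x))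
    (h2 : ∀ x y, g x ∈ MulAction.orbit D.Qg (g y) → x ∈ MulAction.orbit D.Qg y) :
    D.r ψ β X c b ≤ D.r ψ β Y c' b' := by
  haveI : Finite (D.Om X) := Quotient.finite _
  haveI : Fintype {ω : D.Om X // D.Wp ψ β c b (Quotient.out ω)} := Fintype.ofFinite _
  rw [r, Nat.card_eq_fintype_card]
  refine D.r_card (fun ω => g (Quotient.out ω.1)) (fun ω => h1 _ ω.2) ?_
  intro ω ω' h
  apply Subtype.ext
  have := h2 _ _ h
  rw [← Quotient.out_eq ω.1, ← Quotient.out_eq ω'.1]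
  exact Quotient.sound (MulAction.orbitRel_apply.2 this)

theorem r_mono_c [Finite X] (c : K) (b : W) : D.r ψ β X c b ≤ D.r ψ β X 0 b :=
  D.r_le id (fun _ h => ⟨zero_mem _, h.2⟩) (fun _ _ h => h)

theorem r_mono_b [Finite X] (c : K) (b : W) : D.r ψ β X c b ≤ D.r ψ β X c 0 :=
  D.r_le id (fun _ h => ⟨h.1, zero_mem _⟩) (fun _ _ h => h)

end HK

end Cfsg.Agent.Lib.MSp
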