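import Mathlib
import Cfsg.Agent.Lib.ClSymp2
import Cfsg.Agent.Lib.MSpA

set_option autoImplicit false
set_option linter.unusedSectionVars false

/-!
The unipotent radical of a point stabiliser in a symplectic group (helper60).
-/

namespace Cfsg.Agent.Lib.MSp

open Cfsg.Agent.Lib.Coop Cfsg.Agent.Lib.ClSymp Cfsg.Agent.Lib.ClSymp2

variable {F V : Type*} [Field F] [AddCommGroup V] [Module F V] {B : LinearMap.BilinForm F V}

theorem sh_mul (hB : IsSymp B) {v w w' : V} (hw : B v w = 0) (hw' : B v w' = 0) :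
    sh hB 1 v w * sh hB 1 v w' = sh hB 1 v (w + w') * tv hB (B w w') v := by
  apply Spg_ext
  intro y
  have h1 : B v (w + w') = 0 := by rw [map_add, hw, hw', add_zero]
  rw [mul_apply', mul_apply', sh_apply hB _ _ _ hw', sh_apply hB _ _ _ hw, sh_apply hB _ _ _ h1, tv_apply]
  simp only [map_add, map_smul, LinearMap.add_apply, hB.alt, hw', hw, smul_eq_mul]
  have h2 : B w v = 0 := by rw [hB.skew, hw, neg_zero]
  have h3 : B w' v = 0 := by rw [hB.skew, hw', neg_zero]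
  rw [h2, h3]
  module

theorem sh_zero (hB : IsSymp B) (v : V) : sh hB 1 v 0 = 1 := by
  apply Spg_ext
  intro y
  rw [sh_apply hB _ _ _ (map_zero _), map_zero, LinearMap.zero_apply]
  simp

theorem sh_comm_swap (hB : IsSymp B) (a : F) {v w : V} (hw : B v w = 0) : sh hB a v w = sh hB a w v := by
  apply Spg_ext
  intro y
  have h2 : B w v = 0 := by rw [hB.skew, hw, neg_zero]
  rw [sh_apply hB _ _ _ hw, sh_apply hB _ _ _ h2]
  module

theorem sh_smul (hB : IsSymp B) (a c : F) {v w : V} (hw : B v w = 0) : sh hB a v (c • w) = sh hB (a * c) v w := by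
  apply Spg_ext
  intro y
  have h2 : B v (c • w) = 0 := by rw [map_smul, hw, smul_zero]
  rw [sh_apply hB _ _ _ hw, sh_apply hB _ _ _ h2]
  simp only [map_smul, LinearMap.smul_apply, smul_eq_mul]
  module

theorem sh_smul_left (hB : IsSymp B) (a c : F) {v w : V} (hw : B v w = 0) : sh hB a (c • v) w = sh hB (a * c) v w := by
  have h1 : B (c • v) w = 0 := by rw [map_smul, LinearMap.smul_apply, hw, smul_zero]
  have h2 : B w v = 0 := by rw [hB.skew, hw, neg_zero]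
  rw [sh_comm_swap hB _ h1, sh_smul hB _ _ h2, sh_comm_swap hB _ h2]

theorem sh_self (hB : IsSymp B) (a : F) (v : V) : sh hB a v v = tv hB (2 * a) v := by
  apply Spg_ext
  intro y
  rw [sh_apply hB _ _ _ (hB.alt v), tv_apply]
  module

theorem sh_add_smul (hB : IsSymp B) (μ : F) {v w : V} (hw : B v w = 0) :
    sh hB 1 v (w + μ • v) = sh hB 1 v w * tv hB (2 * μ) v := by
  have h1 : B v (μ • v) = 0 := by rw [map_smul, hB.alt, smul_zero]
  have h2 := sh_mul hB hw h1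
  have h3 : B w (μ • v) = 0 := by rw [map_smul, hB.skew, hw]; simp
  rw [h3, tv_zero, mul_one, sh_smul hB _ _ (hB.alt v), sh_self, one_mul] at h2
  exact h2.symm

theorem tv_comm_sh (hB : IsSymp B) (a : F) {v w : V} (hw : B v w = 0) :
    sh hB 1 v w * tv hB a v = tv hB a v * sh hB 1 v w := by
  apply Spg_ext
  intro y
  have h2 : B w v = 0 := by rw [hB.skew, hw, neg_zero]
  rw [mul_apply', mul_apply', sh_apply hB _ _ _ hw, sh_apply hB _ _ _ hw, tv_apply, tv_apply]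
  simp only [map_add, map_smul, LinearMap.add_apply, hB.alt, hw, h2, smul_eq_mul]
  module

variable (B) in
/-- the orthogonal complement of a hyperbolic pair -/
def Uc (v v' : V) : Submodule F V where
  carrier := {y | B v y = 0 ∧ B v' y = 0}
  zero_mem' := ⟨map_zero _, map_zero _⟩
  add_mem' := by
    rintro a b ⟨h1, h2⟩ ⟨h3, h4⟩
    exact ⟨by rw [map_add, h1, h3, add_zero], by rw [map_add, h2, h4, add_zero]⟩
  smul_mem' := by
    rintro c a ⟨h1, h2⟩
    exact ⟨by rw [map_smul, h1, smul_zero], by rw [map_smul, h2, smul_zero]⟩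

theorem mem_Uc {v v' y : V} : y ∈ Uc B v v' ↔ B v y = 0 ∧ B v' y = 0 := Iff.rfl

theorem proj_mem (hB : IsSymp B) {v v' : V} (h : B v v' = 1) (y : V) : y + B v' y • v - B v y • v' ∈ Uc B v v' := by
  have h' : B v' v = -1 := by rw [hB.skew, h]
  rw [mem_Uc]
  simp only [map_sub, map_add, map_smul, smul_eq_mul, hB.alt, h, h']
  constructor <;> ring

theorem Uc_nondeg (hB : IsSymp B) {v v' : V} (h : B v v' = 1) : ∀ u ∈ Uc B v v', u ≠ 0 → ∃ w ∈ Uc B v v', B u w ≠ 0 := by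
  intro u hu hu0
  obtain ⟨z, hz⟩ := hB.nondeg u hu0
  refine ⟨_, proj_mem hB h z, ?_⟩
  obtain ⟨h1, h2⟩ := mem_Uc.1 hu
  have h3 : B u v = 0 := by rw [hB.skew, h1, neg_zero]
  have h4 : B u v' = 0 := by rw [hB.skew, h2, neg_zero]
  rw [map_sub, map_add, map_smul, map_smul, h3, h4]
  simpa using hz

variable (B) in
/-- the form on the complement -/
noncomputable def bU (v v' : V) : ↥(Uc B v v') →ₗ[F] ↥(Uc B v v') →ₗ[F] F := B.domRestrict₁₂ _ _

@[simp] theorem bU_apply {v v' : V} (x y : ↥(Uc B v v')) : bU B v v' x y = B (x : V) (y : V) := rfl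

theorem bU_nondeg (hB : IsSymp B) {v v' : V} (h : B v v' = 1) : ∀ w, bU B v v' w = 0 → w = 0 := by
  intro w hw
  by_contra hne
  obtain ⟨u, hu, hwu⟩ := Uc_nondeg hB h w w.2 (fun h0 => hne (Subtype.ext h0))
  exact hwu (LinearMap.congr_fun hw ⟨u, hu⟩)

/-- the Heisenberg data -/
noncomputable def hk (hB : IsSymp B) (v v' : V) : HK F (Spg B) ↥(Uc B v v') where
  e w := sh hB 1 v w
  Z := Tgrp hB v
  e_zero := by
    show sh hB 1 v ((0 : ↥(Uc B v v')) : V) = 1
    rw [ZeroMemClass.coe_zero, sh_zero]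
  comm := by
    intro u z hz
    obtain ⟨a, rfl⟩ := mem_Tgrp.1 hz
    exact tv_comm_sh hB a (mem_Uc.1 u.2).1
  zcomm := by
    intro z hz z' hz'
    obtain ⟨a, rfl⟩ := mem_Tgrp.1 hz
    obtain ⟨b, rfl⟩ := mem_Tgrp.1 hz'
    rw [tv_mul, tv_mul, add_comm]
  mul := by
    intro u w
    exact ⟨tv hB (B u w) v, mem_Tgrp.2 ⟨_, rfl⟩, by
      rw [sh_mul hB (mem_Uc.1 u.2).1 (mem_Uc.1 w.2).1]; rfl⟩
  ζ a := tv hB a v
  ζ_zero := tv_zero hB v
  ζ_add := fun a b => (tv_mul hB a b v).symm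
  mem_Z := fun g => mem_Tgrp

section
variable {X : Type*} [MulAction (Spg B) X]

theorem hk_e (hB : IsSymp B) {v v' : V} (w : ↥(Uc B v v')) : (hk hB v v').e w = sh hB 1 v w := rfl

theorem hk_ζ (hB : IsSymp B) {v v' : V} (a : F) : (hk hB v v').ζ a = tv hB a v := rfl

theorem hk_A (hB : IsSymp B) {v v' : V} {x : X} {a : F} : a ∈ (hk hB v v').A x ↔ tv hB a v • x = x := Iff.rfl

theorem hk_bar (hB : IsSymp B) {v v' : V} {x : X} {w : ↥(Uc B v v')} :
    w ∈ (hk hB v v').bar x ↔ ∃ a, sh hB 1 v (w : V) • x = tv hB a v • x := by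
  constructor
  · rintro ⟨z, hz, h⟩
    obtain ⟨a, rfl⟩ := mem_Tgrp.1 hz
    exact ⟨a, h⟩
  · rintro ⟨a, h⟩
    exact ⟨_, mem_Tgrp.2 ⟨a, rfl⟩, h⟩

end

theorem decomp (hB : IsSymp B) {v v' : V} (h : B v v' = 1) (y : V) :
    ∃ u ∈ Uc B v v', ∃ a b : F, y = u + a • v + b • v' :=
  ⟨_, proj_mem hB h y, -B v' y, B v y, by module⟩

theorem fix_of (hB : IsSymp B) {v v' : V} (h : B v v' = 1) (k : Spg B) (h1 : (k : V ≃ₗ[F] V) v = v)
    (h2 : ∀ y, B v y = 0 → ∃ μ : F, (k : V ≃ₗ[F] V) y = y + μ • v) (h3 : (k : V ≃ₗ[F] V) v' = v') : k = 1 := by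
  apply Spg_ext
  intro y
  obtain ⟨u, hu, a, b, rfl⟩ := decomp hB h y
  obtain ⟨μ, hμ⟩ := h2 u (mem_Uc.1 hu).1
  have h4 : μ = 0 := by
    have h5 := Spg_apply k v' u
    rw [h3, hμ, map_add, map_smul, (mem_Uc.1 hu).2, hB.skew v' v, h, zero_add] at h5
    simpa using h5
  rw [map_add, map_add, map_smul, map_smul, h1, h3, hμ, h4, zero_smul, add_zero]
  rfl

theorem mem_Qg_iff (hB : IsSymp B) {v v' : V} (h : B v v' = 1) {g : Spg B} :
    g ∈ (hk hB v v').Qg ↔ (g : V ≃ₗ[F] V) v = v ∧ ∀ y, B v y = 0 → ∃ μ : F, (g : V ≃ₗ[F] V) y = y + μ • v := by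
  constructor
  · rintro ⟨u, z, hz, rfl⟩
    obtain ⟨a, rfl⟩ := mem_Tgrp.1 hz
    have hu := mem_Uc.1 u.2
    have hu' : B (u : V) v = 0 := by rw [hB.skew, hu.1, neg_zero]
    constructor
    · rw [mul_apply', hk_e, tv_apply, sh_apply hB _ _ _ hu.1]
      simp [hB.alt, hu', hu.1]
    · intro y hy
      refine ⟨B (u : V) y, ?_⟩
      rw [mul_apply', hk_e, tv_apply, sh_apply hB _ _ _ hu.1, hy]
      simp [hy, hu']
  · rintro ⟨h1, h2⟩
    obtain ⟨u, hu, a, b, h3⟩ := decomp hB h ((g : V ≃ₗ[F] V) v')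
    have hu' := mem_Uc.1 hu
    have hu1 : B u v = 0 := by rw [hB.skew, hu'.1, neg_zero]
    have hu2 : B u v' = 0 := by rw [hB.skew, hu'.2, neg_zero]
    have hb : b = 1 := by
      have h4 := Spg_apply g v v'
      rw [h1, h3, map_add, map_add, map_smul, map_smul, hu'.1, hB.alt, h] at h4
      simpa using h4
    rw [hb, one_smul] at h3
    have h5 : (sh hB 1 v u * tv hB a v)⁻¹ * g = 1 := by
      apply fix_of hB h
      · rw [mul_apply', h1]
        have h6 : ((sh hB 1 v u * tv hB a v : Spg B) : V ≃ₗ[F] V) v = v := by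
          rw [mul_apply', tv_apply, sh_apply hB _ _ _ hu'.1]
          simp [hB.alt, hu1, hu'.1]
        have h7 := inv_apply_self' (sh hB 1 v u * tv hB a v) v
        rwa [h6] at h7
      · intro y hy
        obtain ⟨μ, hμ⟩ := h2 y hy
        have h6 : ((sh hB 1 v u * tv hB a v : Spg B) : V ≃ₗ[F] V) (y + (μ - B u y) • v) = (g : V ≃ₗ[F] V) y := by
          rw [hμ, mul_apply', tv_apply, sh_apply hB _ _ _ hu'.1]
          simp only [map_add, map_smul, hB.alt, hu1, hu'.1, hy, smul_eq_mul]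
          module
        refine ⟨μ - B u y, ?_⟩
        rw [mul_apply', ← h6, inv_apply_self']
      · have h6 : ((sh hB 1 v u * tv hB a v : Spg B) : V ≃ₗ[F] V) v' = (g : V ≃ₗ[F] V) v' := by
          rw [h3, mul_apply', tv_apply, sh_apply hB _ _ _ hu'.1]
          simp only [map_add, map_smul, hB.alt, hu1, hu'.1, h, hu2, smul_eq_mul]
          module
        rw [mul_apply', ← h6, inv_apply_self']
    have h6 : g = sh hB 1 v u * tv hB a v := (inv_mul_eq_one.1 h5).symm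
    exact ⟨⟨u, hu⟩, tv hB a v, mem_Tgrp.2 ⟨a, rfl⟩, h6⟩

theorem exists_pair (hB : IsSymp B) {v : V} (hv : v ≠ 0) : ∃ v', B v v' = 1 := by
  obtain ⟨z, hz⟩ := hB.nondeg v hv
  exact ⟨(B v z)⁻¹ • z, by rw [map_smul, smul_eq_mul, inv_mul_cancel₀ hz]⟩

theorem tv_of_fix (hB : IsSymp B) {v : V} (hv : v ≠ 0) {g : Spg B}
    (hg : ∀ y, B v y = 0 → (g : V ≃ₗ[F] V) y = y) : ∃ a, g = tv hB a v := by
  obtain ⟨v', h⟩ := exists_pair hB hv
  have h1 : g ∈ (hk hB v v').Qg := (mem_Qg_iff hB h).2 ⟨hg v (hB.alt v), fun y hy => ⟨0, by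
    rw [hg y hy, zero_smul, add_zero]⟩⟩
  obtain ⟨u, z, hz, rfl⟩ := h1
  obtain ⟨a, rfl⟩ := mem_Tgrp.1 hz
  refine ⟨a, ?_⟩
  have hu : u = 0 := by
    apply bU_nondeg hB h
    ext y
    have hy := mem_Uc.1 y.2
    have h2 := hg y hy.1
    rw [mul_apply', hk_e, tv_apply, hy.1, mul_zero, zero_smul, add_zero,
      sh_apply hB _ _ _ (mem_Uc.1 u.2).1, hy.1, mul_zero, zero_smul, add_zero, one_mul, add_eq_left] at h2
    rcases smul_eq_zero.1 h2 with h3 | h3
    · exact h3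
    · exact (hv h3).elim
  rw [hk_e, hu, ZeroMemClass.coe_zero, sh_zero, one_mul]

end Cfsg.Agent.Lib.MSp
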