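import Mathlib
import Cfsg.Agent.Lib.MSpB

set_option autoImplicit false
set_option linter.unusedSectionVars false

/-!
Equivariance of the counting functions for symplectic groups (helper60).
-/

namespace Cfsg.Agent.Lib.MSp

open Cfsg.Agent.Lib.Coop Cfsg.Agent.Lib.ClSymp Cfsg.Agent.Lib.ClSymp2

variable {F V : Type*} [Field F] [AddCommGroup V] [Module F V] {B : LinearMap.BilinForm F V}

/-- separating independent vectors -/
theorem indep_sep (hB : IsSymp B) {U : Submodule F V} (hU : ∀ u ∈ U, u ≠ 0 → ∃ w ∈ U, B u w ≠ 0) {s b : V}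
    (hs : s ∈ U) (hb : b ∈ U) (hs0 : s ≠ 0) (hsb : ∀ μ : F, b ≠ μ • s) : ∃ z ∈ U, B s z = 0 ∧ B b z ≠ 0 := by
  by_contra hcon
  push Not at hcon
  obtain ⟨z0, hz0, hsz⟩ := hU s hs hs0
  have h1 : b - (B b z0 / B s z0) • s ≠ 0 := fun h => hsb _ (sub_eq_zero.1 h)
  obtain ⟨z, hz, h2⟩ := hU _ (U.sub_mem hb (U.smul_mem _ hs)) h1
  apply h2
  have h3 := hcon (z - (B s z / B s z0) • z0) (U.sub_mem hz (U.smul_mem _ hz0)) (by
    rw [map_sub, map_smul, smul_eq_mul, div_mul_cancel₀ _ hsz, sub_self])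
  rw [map_sub, map_smul, smul_eq_mul] at h3
  rw [map_sub, LinearMap.sub_apply, map_smul, LinearMap.smul_apply, smul_eq_mul]
  linear_combination h3

/-- subgroups invariant under the stabiliser of a vector -/
theorem lemD (hB : IsSymp B) {U : Submodule F V} (hU : ∀ u ∈ U, u ≠ 0 → ∃ w ∈ U, B u w ≠ 0) (S : AddSubgroup ↥U)
    {b : ↥U} (hb : b ∈ S) (hb0 : b ≠ 0)
    (hS : ∀ a : F, ∀ y ∈ U, B y b = 0 → ∀ s ∈ S, ∀ t : ↥U, (t : V) = (tv hB a y : V ≃ₗ[F] V) s → t ∈ S) :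
    (∀ s ∈ S, ∃ μ : F, s = μ • b) ∨ ∀ y : ↥U, B b y = 0 → y ∈ S := by
  by_cases hall : ∀ s ∈ S, ∃ μ : F, s = μ • b
  · exact Or.inl hall
  right
  push Not at hall
  obtain ⟨d, hd, hdb⟩ := hall
  have hb0' : (b : V) ≠ 0 := fun h => hb0 (Subtype.ext h)
  obtain ⟨y0, hy0, h1, h2⟩ := indep_sep hB hU b.2 d.2 hb0' (fun μ h => hdb μ (Subtype.ext h))
  have key : ∀ y : ↥U, B b y = 0 → B (d : V) y ≠ 0 → y ∈ S := by
    intro y hy hdy
    have hyb : B (y : V) b = 0 := by rw [hB.skew, hy, neg_zero]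
    have hyd : B (y : V) d ≠ 0 := by rw [hB.skew]; exact neg_ne_zero.2 hdy
    have h3 := hS (B (y : V) d)⁻¹ y y.2 hyb d hd (d + y) (by
      rw [tv_apply, inv_mul_cancel₀ hyd, one_smul]; rfl)
    have h4 := S.sub_mem h3 hd
    rwa [add_sub_cancel_left] at h4
  intro y hy
  by_cases hdy : B (d : V) y = 0
  · have h3 := key ⟨y0, hy0⟩ h1 h2
    have h4 := key (y + ⟨y0, hy0⟩) (by
      show B (b : V) ((y : V) + y0) = 0
      rw [map_add, hy, h1, add_zero]) (by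
      show B (d : V) ((y : V) + y0) ≠ 0
      rw [map_add, hdy, zero_add]; exact h2)
    have h5 := S.sub_mem h4 h3
    rwa [add_sub_cancel_right] at h5
  · exact key y hy hdy

theorem lemD2 (hB : IsSymp B) {U : Submodule F V} (hU : ∀ u ∈ U, u ≠ 0 → ∃ w ∈ U, B u w ≠ 0) (S : AddSubgroup ↥U)
    (hS : ∀ b ∈ S, b ≠ 0 → ∀ a : F, ∀ y ∈ U, B y b = 0 → ∀ s ∈ S, ∀ t : ↥U,
      (t : V) = (tv hB a y : V ≃ₗ[F] V) s → t ∈ S) :
    S = ⊤ ∨ ∀ b ∈ S, b ≠ 0 → ∀ s ∈ S, ∃ μ : F, s = μ • b := by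
  by_cases hall : ∀ b ∈ S, b ≠ 0 → ∀ s ∈ S, ∃ μ : F, s = μ • b
  · exact Or.inr hall
  left
  push Not at hall
  obtain ⟨b, hb, hb0, s, hs, hsb⟩ := hall
  have hs0 : s ≠ 0 := by
    rintro rfl
    exact hsb 0 (by rw [zero_smul])
  have h1 : ∀ y : ↥U, B b y = 0 → y ∈ S := (lemD hB hU S hb hb0 (hS b hb hb0)).resolve_left (fun h => by
    obtain ⟨μ, hμ⟩ := h s hs
    exact hsb μ hμ)
  have h2 : ∀ y : ↥U, B s y = 0 → y ∈ S := (lemD hB hU S hs hs0 (hS s hs hs0)).resolve_left (fun h => by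
    obtain ⟨μ, hμ⟩ := h b hb
    have hμ0 : μ ≠ 0 := by
      rintro rfl
      exact hb0 (by rw [hμ, zero_smul])
    exact hsb μ⁻¹ (by rw [hμ, inv_smul_smul₀ hμ0]))
  obtain ⟨z, hz, h3, h4⟩ := indep_sep hB hU s.2 b.2 (fun h => hs0 (Subtype.ext h)) (fun μ h => by
    have h5 : b = μ • s := Subtype.ext h
    have hμ0 : μ ≠ 0 := by
      rintro rfl
      exact hb0 (by rw [h5, zero_smul])
    exact hsb μ⁻¹ (by rw [h5, inv_smul_smul₀ hμ0]))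
  rw [eq_top_iff]
  intro y _
  have h5 : y - (B (b : V) y / B (b : V) z) • (⟨z, hz⟩ : ↥U) ∈ S := h1 _ (by
    show B (b : V) ((y : V) - (B (b : V) y / B (b : V) z) • z) = 0
    rw [map_sub, map_smul, smul_eq_mul, div_mul_cancel₀ _ h4, sub_self])
  have h6 : (B (b : V) y / B (b : V) z) • (⟨z, hz⟩ : ↥U) ∈ S := h2 _ (by
    show B (s : V) ((B (b : V) y / B (b : V) z) • z) = 0
    rw [map_smul, h3, smul_zero])
  have h7 := S.add_mem h5 h6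
  rwa [sub_add_cancel] at h7

section act

variable {X : Type*} [MulAction (Spg B) X] (hB : IsSymp B) {v v' : V}

theorem tv_eq_conj {g : Spg B} {μ : F} (hμ : μ ≠ 0) (hg : (g : V ≃ₗ[F] V) v = μ • v) (a : F) :
    tv hB a v = g * tv hB (a * (μ ^ 2)⁻¹) v * g⁻¹ := by
  rw [tv_conj, hg, tv_smul, inv_mul_cancel_right₀ (pow_ne_zero 2 hμ)]

theorem A_act {g : Spg B} {μ : F} (hμ : μ ≠ 0) (hg : (g : V ≃ₗ[F] V) v = μ • v) (a : F) (x : X) :
    tv hB a v • g • x = g • x ↔ tv hB (a * (μ ^ 2)⁻¹) v • x = x := by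
  conv_lhs => rw [tv_eq_conj hB hμ hg a, mul_smul, mul_smul, inv_smul_smul]
  exact ⟨fun h => MulAction.injective g h, fun h => by rw [h]⟩

theorem act_mem {g : Spg B} {μ : F} (hμ : μ ≠ 0) (hg : (g : V ≃ₗ[F] V) v = μ • v)
    (hg' : (g : V ≃ₗ[F] V) v' = μ⁻¹ • v') {y : V} :
    (g : V ≃ₗ[F] V) y ∈ Uc B v v' ↔ y ∈ Uc B v v' := by
  rw [mem_Uc, mem_Uc]
  have h1 : B v ((g : V ≃ₗ[F] V) y) = μ⁻¹ * B v y := by
    have h2 := Spg_apply g v y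
    rw [hg, map_smul, LinearMap.smul_apply, smul_eq_mul] at h2
    rw [← h2, inv_mul_cancel_left₀ hμ]
  have h3 : B v' ((g : V ≃ₗ[F] V) y) = μ * B v' y := by
    have h2 := Spg_apply g v' y
    rw [hg', map_smul, LinearMap.smul_apply, smul_eq_mul] at h2
    rw [← h2, mul_inv_cancel_left₀ hμ]
  rw [h1, h3, mul_eq_zero, mul_eq_zero]
  simp [hμ]

theorem bar_act {g : Spg B} {μ : F} (hg : (g : V ≃ₗ[F] V) v = μ • v)
    {w w' : ↥(Uc B v v')} (hw : (w : V) = μ • (g : V ≃ₗ[F] V) w') (hμ : μ ≠ 0) (x : X) :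
    w ∈ (hk hB v v').bar (g • x) ↔ w' ∈ (hk hB v v').bar x := by
  have hw'1 := (mem_Uc.1 w'.2).1
  have h0 : B v ((g : V ≃ₗ[F] V) w') = 0 := by
    have h2 := Spg_apply g v w'
    rw [hg, map_smul, LinearMap.smul_apply, smul_eq_mul, hw'1] at h2
    exact (mul_eq_zero.1 h2).resolve_left hμ
  have h1 : sh hB 1 v (w : V) = g * sh hB 1 v (w' : V) * g⁻¹ := by
    rw [sh_conj, hg, sh_smul_left hB _ _ h0, hw, sh_smul hB _ _ h0]
  rw [hk_bar, hk_bar]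
  constructor
  · rintro ⟨a, ha⟩
    refine ⟨a * (μ ^ 2)⁻¹, ?_⟩
    rw [h1, tv_eq_conj hB hμ hg a, mul_smul, mul_smul, mul_smul, mul_smul, inv_smul_smul] at ha
    exact MulAction.injective g ha
  · rintro ⟨a, ha⟩
    refine ⟨a * μ ^ 2, ?_⟩
    rw [h1, tv_eq_conj hB hμ hg (a * μ ^ 2), mul_smul, mul_smul, mul_smul, mul_smul, inv_smul_smul, ha,
      mul_inv_cancel_right₀ (pow_ne_zero 2 hμ)]

variable (ψ : AddChar F ℂ)

theorem Cc_act {g : Spg B} {μ : F} (hμ : μ ≠ 0) (hg : (g : V ≃ₗ[F] V) v = μ • v) (c : F) (x : X) :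
    c ∈ (hk hB v v').Cc ψ (g • x) ↔ c * μ ^ 2 ∈ (hk hB v v').Cc ψ x := by
  rw [HK.mem_Cc, HK.mem_Cc]
  constructor
  · intro h a ha
    have := h (a * μ ^ 2) (by
      rw [hk_ζ] at ha ⊢
      rw [A_act hB hμ hg, mul_inv_cancel_right₀ (pow_ne_zero 2 hμ)]
      exact ha)
    rwa [mul_comm a, ← mul_assoc] at this
  · intro h a ha
    have := h (a * (μ ^ 2)⁻¹) (by
      rw [hk_ζ] at ha ⊢
      rw [A_act hB hμ hg] at ha
      exact ha)
    rwa [mul_comm a, ← mul_assoc, mul_inv_cancel_right₀ (pow_ne_zero 2 hμ)] at this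

theorem Dd_act {g : Spg B} {μ : F} (hμ : μ ≠ 0) (hg : (g : V ≃ₗ[F] V) v = μ • v)
    (hg' : (g : V ≃ₗ[F] V) v' = μ⁻¹ • v') {b b' : ↥(Uc B v v')} (hb : μ • (b : V) = (g : V ≃ₗ[F] V) b') (x : X) :
    b ∈ (hk hB v v').Dd ψ (bU B v v') (g • x) ↔ b' ∈ (hk hB v v').Dd ψ (bU B v v') x := by
  rw [HK.mem_Dd, HK.mem_Dd]
  have key : ∀ w' : ↥(Uc B v v'), B (b : V) (μ • (g : V ≃ₗ[F] V) w') = B (b' : V) w' := by
    intro w'
    rw [map_smul, ← LinearMap.smul_apply, ← map_smul, hb, Spg_apply]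
  constructor
  · intro h w' hw'
    have hm : μ • (g : V ≃ₗ[F] V) (w' : V) ∈ Uc B v v' := Submodule.smul_mem _ _ ((act_mem hμ hg hg').2 w'.2)
    have := h ⟨_, hm⟩ ((bar_act hB hg (w := ⟨_, hm⟩) rfl hμ x).2 hw')
    rw [bU_apply] at this ⊢
    rwa [key] at this
  · intro h w hw
    have hm : μ⁻¹ • ((g⁻¹ : Spg B) : V ≃ₗ[F] V) (w : V) ∈ Uc B v v' := by
      rw [← act_mem hμ hg hg', map_smul, apply_inv_self']
      exact Submodule.smul_mem _ _ w.2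
    have hw1 : (w : V) = μ • (g : V ≃ₗ[F] V) (μ⁻¹ • ((g⁻¹ : Spg B) : V ≃ₗ[F] V) (w : V)) := by
      rw [map_smul, apply_inv_self', smul_inv_smul₀ hμ]
    have := h ⟨_, hm⟩ ((bar_act hB hg (w' := ⟨_, hm⟩) hw1 hμ x).1 hw)
    rw [bU_apply] at this ⊢
    rw [← key, ← hw1] at this
    exact this

theorem Wp_act {g : Spg B} {μ : F} (hμ : μ ≠ 0) (hg : (g : V ≃ₗ[F] V) v = μ • v)
    (hg' : (g : V ≃ₗ[F] V) v' = μ⁻¹ • v') {b b' : ↥(Uc B v v')} (hb : μ • (b : V) = (g : V ≃ₗ[F] V) b') (c : F) (x : X) :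
    (hk hB v v').Wp ψ (bU B v v') c b (g • x) ↔ (hk hB v v').Wp ψ (bU B v v') (c * μ ^ 2) b' x := by
  rw [HK.Wp, HK.Wp, Cc_act hB ψ hμ hg, Dd_act hB ψ hμ hg hg' hb]

theorem Qg_conj (h : B v v' = 1) {g : Spg B} {μ : F} (hμ : μ ≠ 0) (hg : (g : V ≃ₗ[F] V) v = μ • v) {t : Spg B}
    (ht : t ∈ (hk hB v v').Qg) : g⁻¹ * t * g ∈ (hk hB v v').Qg := by
  rw [mem_Qg_iff hB h] at ht ⊢
  have hg2 : ((g⁻¹ : Spg B) : V ≃ₗ[F] V) v = μ⁻¹ • v := by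
    have h1 : (g : V ≃ₗ[F] V) (μ⁻¹ • v) = v := by rw [map_smul, hg, inv_smul_smul₀ hμ]
    conv_lhs => rw [← h1]
    exact inv_apply_self' g _
  constructor
  · rw [mul_apply', mul_apply', hg, map_smul, ht.1, map_smul, hg2, smul_inv_smul₀ hμ]
  · intro y hy
    obtain ⟨ν, hν⟩ := ht.2 ((g : V ≃ₗ[F] V) y) (by
      have h2 := Spg_apply g v y
      rw [hg, map_smul, LinearMap.smul_apply, smul_eq_mul, hy] at h2
      exact (mul_eq_zero.1 h2).resolve_left hμ)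
    refine ⟨ν * μ⁻¹, ?_⟩
    rw [mul_apply', mul_apply', hν, map_add, map_smul, hg2, inv_apply_self', smul_smul]

theorem orbit_act (h : B v v' = 1) {g : Spg B} {μ : F} (hμ : μ ≠ 0) (hg : (g : V ≃ₗ[F] V) v = μ • v) {x y : X}
    (hxy : g • x ∈ MulAction.orbit (hk hB v v').Qg (g • y)) : x ∈ MulAction.orbit (hk hB v v').Qg y := by
  obtain ⟨⟨t, ht⟩, h1⟩ := hxy
  have h1 : t • g • y = g • x := h1
  refine ⟨⟨g⁻¹ * t * g, Qg_conj hB h hμ hg ht⟩, ?_⟩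
  show (g⁻¹ * t * g) • y = x
  rw [mul_smul, mul_smul, h1, inv_smul_smul]

theorem inv_vec {g : Spg B} {μ : F} (hμ : μ ≠ 0) {v : V} (hg : (g : V ≃ₗ[F] V) v = μ • v) :
    ((g⁻¹ : Spg B) : V ≃ₗ[F] V) v = μ⁻¹ • v := by
  have h1 : (g : V ≃ₗ[F] V) (μ⁻¹ • v) = v := by rw [map_smul, hg, inv_smul_smul₀ hμ]
  conv_lhs => rw [← h1]
  exact inv_apply_self' g _

theorem r_act [Finite X] (h : B v v' = 1) {g : Spg B} {μ : F} (hμ : μ ≠ 0) (hg : (g : V ≃ₗ[F] V) v = μ • v)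
    (hg' : (g : V ≃ₗ[F] V) v' = μ⁻¹ • v') {b b' : ↥(Uc B v v')} (hb : μ • (b : V) = (g : V ≃ₗ[F] V) b') (c : F) :
    (hk hB v v').r ψ (bU B v v') X c b = (hk hB v v').r ψ (bU B v v') X (c * μ ^ 2) b' := by
  apply le_antisymm
  · refine (hk hB v v').r_le (fun x => g⁻¹ • x) ?_ ?_
    · intro x hx
      rw [← Wp_act hB ψ hμ hg hg' hb, smul_inv_smul]
      exact hx
    · intro x y hxy
      exact orbit_act hB h (inv_ne_zero hμ) (inv_vec hμ hg) hxy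
  · refine (hk hB v v').r_le (fun x => g • x) ?_ ?_
    · intro x hx
      exact (Wp_act hB ψ hμ hg hg' hb c x).2 hx
    · intro x y hxy
      exact orbit_act hB h hμ hg hxy

theorem TU_Uc {l : Spg B} (hl : l ∈ TU hB (Uc B v v')) : (l : V ≃ₗ[F] V) v = v ∧ (l : V ≃ₗ[F] V) v' = v' :=
  ⟨TU_fix hB hl fun w hw => by rw [hB.skew, (mem_Uc.1 hw).1, neg_zero],
    TU_fix hB hl fun w hw => by rw [hB.skew, (mem_Uc.1 hw).2, neg_zero]⟩

theorem r_const [Finite X] (h : B v v' = 1) (c : F) {b b' : ↥(Uc B v v')} (hb : b ≠ 0) (hb' : b' ≠ 0) :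
    (hk hB v v').r ψ (bU B v v') X c b = (hk hB v v').r ψ (bU B v v') X c b' := by
  obtain ⟨l, hl, hlb⟩ := trans_one hB (Uc_nondeg hB h) b'.2 b.2 (fun h => hb' (Subtype.ext h))
    (fun h => hb (Subtype.ext h))
  obtain ⟨h1, h2⟩ := TU_Uc hB hl
  have := r_act (X := X) hB ψ h (g := l) one_ne_zero (by rw [h1, one_smul]) (by rw [h2, inv_one, one_smul])
    (b := b) (b' := b') (by rw [one_smul, hlb]) c
  rwa [one_pow, mul_one] at this

include hB in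
theorem exists_torus (h : B v v' = 1) {μ : F} (hμ : μ ≠ 0) :
    ∃ g : Spg B, (g : V ≃ₗ[F] V) v = μ • v ∧ (g : V ≃ₗ[F] V) v' = μ⁻¹ • v' := by
  obtain ⟨s, -, h1, h2⟩ := trans_two hB (U := ⊤) (fun u _ hu => by
    obtain ⟨w, hw⟩ := hB.nondeg u hu
    exact ⟨w, Submodule.mem_top, hw⟩) (u := v) (v := v') (u' := μ • v) (v' := μ⁻¹ • v') Submodule.mem_top
    Submodule.mem_top h Submodule.mem_top Submodule.mem_top (by
      rw [map_smul, map_smul, LinearMap.smul_apply, h, smul_eq_mul, smul_eq_mul, mul_one, inv_mul_cancel₀ hμ])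
  exact ⟨s, h1, h2⟩

theorem r_torus [Finite X] (h : B v v' = 1) (c : F) {μ : F} (hμ : μ ≠ 0) {b b' : ↥(Uc B v v')}
    (hb : (b ≠ 0 ∧ b' ≠ 0) ∨ (b = 0 ∧ b' = 0)) :
    (hk hB v v').r ψ (bU B v v') X c b = (hk hB v v').r ψ (bU B v v') X (c * μ ^ 2) b' := by
  obtain ⟨g, hg, hg'⟩ := exists_torus hB h hμ
  rcases hb with ⟨hb, hb'⟩ | ⟨hb, hb'⟩
  · have hm : μ⁻¹ • (g : V ≃ₗ[F] V) (b' : V) ∈ Uc B v v' := Submodule.smul_mem _ _ ((act_mem hμ hg hg').2 b'.2)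
    have hm0 : (⟨_, hm⟩ : ↥(Uc B v v')) ≠ 0 := by
      intro h0
      have h1 : μ⁻¹ • (g : V ≃ₗ[F] V) (b' : V) = 0 := congrArg Subtype.val h0
      rcases smul_eq_zero.1 h1 with h2 | h2
      · exact inv_ne_zero hμ h2
      · exact hb' (Subtype.ext ((LinearEquiv.map_eq_zero_iff _).1 h2))
    rw [r_const hB ψ h c hb hm0]
    exact r_act hB ψ h hμ hg hg' (by
      show μ • μ⁻¹ • (g : V ≃ₗ[F] V) (b' : V) = _
      rw [smul_inv_smul₀ hμ]) c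
  · subst hb; subst hb'
    exact r_act hB ψ h hμ hg hg' (by
      rw [ZeroMemClass.coe_zero, smul_zero, map_zero]) c

end act

end Cfsg.Agent.Lib.MSp
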