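import Mathlib
import Cfsg.Agent.Lib.MSpC

set_option autoImplicit false
set_option linter.unusedSectionVars false

/-!
Counting consequences of a small number of points (helper60).
-/

namespace Cfsg.Agent.Lib.MSp

open Cfsg.Agent.Lib.Coop Cfsg.Agent.Lib.ClSymp Cfsg.Agent.Lib.ClSymp2

theorem sum_ge2 {F : Type*} [Field F] [Fintype F] (S : F → ℕ) {a b d : ℕ} {c0 : F} (hc0 : c0 ≠ 0) (h0 : a ≤ S 0)
    (h1 : b ≤ S c0) (h2 : ∀ c, c ≠ 0 → c ≠ c0 → d ≤ S c) : a + b + (Fintype.card F - 2) * d ≤ ∑ c, S c := by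
  classical
  rw [← Finset.add_sum_erase Finset.univ S (Finset.mem_univ (0 : F)),
    ← Finset.add_sum_erase (Finset.univ.erase 0) S (Finset.mem_erase.2 ⟨hc0, Finset.mem_univ _⟩), ← add_assoc]
  apply Nat.add_le_add (Nat.add_le_add h0 h1)
  have h3 : ((Finset.univ.erase (0 : F)).erase c0).card = Fintype.card F - 2 := by
    rw [Finset.card_erase_of_mem (Finset.mem_erase.2 ⟨hc0, Finset.mem_univ _⟩),
      Finset.card_erase_of_mem (Finset.mem_univ _), Finset.card_univ]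
    omega
  rw [← h3, ← smul_eq_mul]
  apply Finset.card_nsmul_le_sum
  intro c hc
  rw [Finset.mem_erase, Finset.mem_erase] at hc
  exact h2 c hc.2.1 hc.1

theorem sum_ge1 {F : Type*} [Field F] [Fintype F] (S : F → ℕ) {a d : ℕ} (h0 : a ≤ S 0)
    (h2 : ∀ c, c ≠ 0 → d ≤ S c) : a + (Fintype.card F - 1) * d ≤ ∑ c, S c := by
  classical
  rw [← Finset.add_sum_erase Finset.univ S (Finset.mem_univ (0 : F))]
  apply Nat.add_le_add h0
  have h3 : (Finset.univ.erase (0 : F)).card = Fintype.card F - 1 := by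
    rw [Finset.card_erase_of_mem (Finset.mem_univ _), Finset.card_univ]
  rw [← h3, ← smul_eq_mul]
  apply Finset.card_nsmul_le_sum
  intro c hc
  exact h2 c (Finset.ne_of_mem_erase hc)

variable {F V : Type*} [Field F] [AddCommGroup V] [Module F V] {B : LinearMap.BilinForm F V}

section

variable {X : Type*} [MulAction (Spg B) X] (hB : IsSymp B) {v v' : V} (ψ : AddChar F ℂ)

/-- the number of orbits for the trivial character of the quotient -/
noncomputable abbrev R0 (v v' : V) (X : Type*) [MulAction (Spg B) X] (c : F) : ℕ :=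
  (hk hB v v').r ψ (bU B v v') X c 0

variable [Fintype F] [Finite X] [Finite V]

theorem total (h : B v v' = 1) {b0 : ↥(Uc B v v')} (hb0 : b0 ≠ 0) {a : F} (hψ : ψ a ≠ 1) :
    Nat.card X = ∑ c : F, (R0 hB ψ v v' X c + (Nat.card ↥(Uc B v v') - 1) * (hk hB v v').r ψ (bU B v v') X c b0) := by
  classical
  haveI : Fintype ↥(Uc B v v') := Fintype.ofFinite _
  rw [(hk hB v v').card_eq (bU_nondeg hB h) hψ]
  refine Finset.sum_congr rfl fun c _ => ?_
  rw [← Finset.add_sum_erase Finset.univ _ (Finset.mem_univ (0 : ↥(Uc B v v'))),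
    Finset.sum_congr rfl (fun b hb => r_const hB ψ h c (Finset.ne_of_mem_erase hb) hb0), Finset.sum_const,
    Finset.card_erase_of_mem (Finset.mem_univ _), Finset.card_univ, Nat.card_eq_fintype_card, smul_eq_mul]

variable {hB ψ}

/-- orbits under elements of the Levi subgroup -/
theorem orbit_of_mem {c : F} {b : ↥(Uc B v v')} {x : X}
    (hr : ∀ b : ↥(Uc B v v'), b ≠ 0 → (hk hB v v').r ψ (bU B v v') X c b ≤ 1) (hc : c ∈ (hk hB v v').Cc ψ x)
    (hb : b ∈ (hk hB v v').Dd ψ (bU B v v') x) {b' : ↥(Uc B v v')} (hb' : b' ∈ (hk hB v v').Dd ψ (bU B v v') x)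
    (hb0 : b' ≠ 0) {l : Spg B} (h1 : (l : V ≃ₗ[F] V) v = v) (h2 : (l : V ≃ₗ[F] V) v' = v')
    (hl : (b' : V) = (l : V ≃ₗ[F] V) b) : l • x ∈ MulAction.orbit (hk hB v v').Qg x := by
  refine (hk hB v v').orbit_of_r (hr b' hb0) ⟨hc, hb'⟩ ?_
  rw [Wp_act hB ψ one_ne_zero (by rw [h1, one_smul]) (by rw [h2, inv_one, one_smul]) (b' := b) (by
    rw [one_smul, hl])]
  rw [one_pow, mul_one]
  exact ⟨hc, hb⟩

theorem Dd_of_orbit {x y : X} (h : y ∈ MulAction.orbit (hk hB v v').Qg x) :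
    (hk hB v v').Dd ψ (bU B v v') y = (hk hB v v').Dd ψ (bU B v v') x := by
  obtain ⟨⟨g, hg⟩, rfl⟩ := h
  exact (hk hB v v').Dd_smul ψ (bU B v v') hg x

theorem Cc_of_orbit {x y : X} (h : y ∈ MulAction.orbit (hk hB v v').Qg x) :
    (hk hB v v').Cc ψ y = (hk hB v v').Cc ψ x := by
  obtain ⟨⟨g, hg⟩, rfl⟩ := h
  exact (hk hB v v').Cc_smul ψ hg x

/-- the dichotomy for the annihilator -/
theorem dich (h : B v v' = 1) {c : F} {x : X}
    (hr : ∀ b : ↥(Uc B v v'), b ≠ 0 → (hk hB v v').r ψ (bU B v v') X c b ≤ 1) (hc : c ∈ (hk hB v v').Cc ψ x) :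
    (hk hB v v').Dd ψ (bU B v v') x = ⊤ ∨ ∀ b ∈ (hk hB v v').Dd ψ (bU B v v') x, b ≠ 0 →
      ∀ s ∈ (hk hB v v').Dd ψ (bU B v v') x, ∃ μ : F, s = μ • b := by
  apply lemD2 hB (Uc_nondeg hB h)
  intro b hb hb0 a y hy hyb s hs t ht
  have hl : tv hB a y ∈ TU hB (Uc B v v') := tv_mem_TU hB a hy
  obtain ⟨h1, h2⟩ := TU_Uc hB hl
  have h3 : (b : V) = (tv hB a y : V ≃ₗ[F] V) b := by
    rw [tv_apply, hyb, mul_zero, zero_smul, add_zero]
  have h4 := orbit_of_mem hr hc hb hb hb0 h1 h2 h3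
  rw [← Dd_of_orbit (ψ := ψ) h4, Dd_act hB ψ one_ne_zero (by rw [h1, one_smul]) (by rw [h2, inv_one, one_smul])
    (b' := s) (by rw [one_smul, ht])]
  exact hs

/-- many orbits when the annihilators are small -/
theorem R0_ge (h : B v v' = 1) {c : F} {x : X} {b : ↥(Uc B v v')} (hb0 : b ≠ 0)
    (hx : (hk hB v v').Wp ψ (bU B v v') c b x) :
    Nat.card ↥(Uc B v v') - 1 ≤ (Nat.card ((hk hB v v').Dd ψ (bU B v v') x) - 1) * R0 hB ψ v v' X c := by
  classical
  haveI : Fintype ↥(Uc B v v') := Fintype.ofFinite _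
  haveI : Finite ((hk hB v v').Om X) := Quotient.finite _
  haveI : Fintype {ω : (hk hB v v').Om X // (hk hB v v').Wp ψ (bU B v v') c 0 (Quotient.out ω)} := Fintype.ofFinite _
  have key : ∀ b' : ↥(Uc B v v'), ∃ l : Spg B, b' ≠ 0 → l ∈ TU hB (Uc B v v') ∧ (l : V ≃ₗ[F] V) b = b' := by
    intro b'
    by_cases hb' : b' = 0
    · exact ⟨1, fun h => (h hb').elim⟩
    · obtain ⟨l, hl, hlb⟩ := trans_one hB (Uc_nondeg hB h) b.2 b'.2 (fun h => hb0 (Subtype.ext h))
        (fun h => hb' (Subtype.ext h))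
      exact ⟨l, fun _ => ⟨hl, hlb⟩⟩
  choose l hl using key
  have hW : ∀ b' : ↥(Uc B v v'), b' ≠ 0 → (hk hB v v').Wp ψ (bU B v v') c b' (l b' • x) := by
    intro b' hb'
    obtain ⟨h1, h2⟩ := TU_Uc hB (hl b' hb').1
    rw [Wp_act hB ψ one_ne_zero (by rw [h1, one_smul]) (by rw [h2, inv_one, one_smul]) (b' := b) (by
      rw [one_smul, (hl b' hb').2])]
    rw [one_pow, mul_one]
    exact hx
  have hcard : ∀ b' : ↥(Uc B v v'), b' ≠ 0 → Nat.card ((hk hB v v').Dd ψ (bU B v v') (l b' • x)) =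
      Nat.card ((hk hB v v').Dd ψ (bU B v v') x) := by
    intro b' hb'
    obtain ⟨h1, h2⟩ := TU_Uc hB (hl b' hb').1
    refine (Nat.card_congr (Equiv.ofBijective (fun s : (hk hB v v').Dd ψ (bU B v v') x =>
      (⟨⟨(l b' : V ≃ₗ[F] V) (s : ↥(Uc B v v')), (act_mem (v' := v') one_ne_zero (by rw [h1, one_smul])
        (by rw [h2, inv_one, one_smul])).2 (s : ↥(Uc B v v')).2⟩, ?_⟩ :
        (hk hB v v').Dd ψ (bU B v v') (l b' • x))) ⟨?_, ?_⟩)).symm
    · rw [Dd_act hB ψ one_ne_zero (by rw [h1, one_smul]) (by rw [h2, inv_one, one_smul])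
        (b' := (s : ↥(Uc B v v'))) (by rw [one_smul])]
      exact s.2
    · intro s t hst
      have h3 : (l b' : V ≃ₗ[F] V) ((s : ↥(Uc B v v')) : V) = (l b' : V ≃ₗ[F] V) ((t : ↥(Uc B v v')) : V) :=
        congrArg (fun z : (hk hB v v').Dd ψ (bU B v v') (l b' • x) => ((z : ↥(Uc B v v')) : V)) hst
      exact Subtype.ext (Subtype.ext ((l b' : V ≃ₗ[F] V).injective h3))
    · rintro ⟨t, ht⟩
      have h3 : (((l b')⁻¹ : Spg B) : V ≃ₗ[F] V) (t : V) ∈ Uc B v v' := by
        rw [← act_mem (g := l b') (v' := v') one_ne_zero (by rw [h1, one_smul]) (by rw [h2, inv_one, one_smul]),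
          apply_inv_self']
        exact t.2
      refine ⟨⟨⟨_, h3⟩, ?_⟩, Subtype.ext (Subtype.ext (apply_inv_self' _ _))⟩
      rw [Dd_act hB ψ one_ne_zero (by rw [h1, one_smul]) (by rw [h2, inv_one, one_smul])
        (b' := ⟨_, h3⟩) (by rw [one_smul]; exact (apply_inv_self' (l b') (t : V)).symm)] at ht
      exact ht
  have hx0 : (hk hB v v').Wp ψ (bU B v v') c 0 x := ⟨hx.1, zero_mem _⟩
  have hom : ∀ b' : ↥(Uc B v v'), b' ≠ 0 → (hk hB v v').Wp ψ (bU B v v') c 0 (l b' • x) :=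
    fun b' hb' => ⟨(hW b' hb').1, zero_mem _⟩
  let f : ↥(Uc B v v') → {ω : (hk hB v v').Om X // (hk hB v v').Wp ψ (bU B v v') c 0 (Quotient.out ω)} := fun b' =>
    if hb' : b' = 0 then ⟨Quotient.mk _ x, ((hk hB v v').Wp_out ψ _ _ _ _).2 hx0⟩
    else ⟨Quotient.mk _ (l b' • x), ((hk hB v v').Wp_out ψ _ _ _ _).2 (hom b' hb')⟩
  have hf : ∀ b' (hb' : b' ≠ 0), (f b').1 = Quotient.mk _ (l b' • x) := by
    intro b' hb'
    simp only [f, dif_neg hb']
  have h5 := Finset.card_le_mul_card_image (f := f) (Finset.univ.erase (0 : ↥(Uc B v v')))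
    (Nat.card ((hk hB v v').Dd ψ (bU B v v') x) - 1) (by
      intro ω hω
      obtain ⟨b', hb', rfl⟩ := Finset.mem_image.1 hω
      have hb'0 := Finset.ne_of_mem_erase hb'
      haveI : Fintype ((hk hB v v').Dd ψ (bU B v v') (l b' • x)) := Fintype.ofFinite _
      calc ((Finset.univ.erase (0 : ↥(Uc B v v'))).filter fun t => f t = f b').card
          ≤ ((Set.toFinset (((hk hB v v').Dd ψ (bU B v v') (l b' • x) : AddSubgroup _) : Set ↥(Uc B v v'))).erase 0).card := by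
            apply Finset.card_le_card
            intro t ht
            obtain ⟨ht1, ht2⟩ := Finset.mem_filter.1 ht
            have ht0 := Finset.ne_of_mem_erase ht1
            rw [Finset.mem_erase, Set.mem_toFinset]
            refine ⟨ht0, ?_⟩
            have h6 : (Quotient.mk _ (l t • x) : (hk hB v v').Om X) = Quotient.mk _ (l b' • x) := by
              rw [← hf t ht0, ← hf b' hb'0, ht2]
            have h7 := Dd_of_orbit (ψ := ψ) (MulAction.orbitRel_apply.1 (Quotient.exact h6))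
            rw [SetLike.mem_coe, ← h7]
            exact (hW t ht0).2
        _ = _ := by
            rw [Finset.card_erase_of_mem (Set.mem_toFinset.2 (zero_mem _)), Set.toFinset_card, ← hcard b' hb'0,
              Nat.card_eq_fintype_card]
            rfl)
  rw [Finset.card_erase_of_mem (Finset.mem_univ _), Finset.card_univ] at h5
  rw [Nat.card_eq_fintype_card]
  refine h5.trans (Nat.mul_le_mul_left _ ?_)
  rw [R0, HK.r, Nat.card_eq_fintype_card]
  exact Finset.card_le_univ _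

end

end Cfsg.Agent.Lib.MSp
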