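import Mathlib
import Cfsg.Agent.Lib.MSpD

set_option autoImplicit false
set_option linter.unusedSectionVars false

/-!
The possible types of points, when there are few of them (helper60).
-/

namespace Cfsg.Agent.Lib.MSp

open Cfsg.Agent.Lib.Coop Cfsg.Agent.Lib.ClSymp Cfsg.Agent.Lib.ClSymp2

variable {F V : Type*} [Field F] [AddCommGroup V] [Module F V] {B : LinearMap.BilinForm F V}

section

variable {X : Type*} [MulAction (Spg B) X] {hB : IsSymp B} {v v' : V} {ψ : AddChar F ℂ}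
variable [Fintype F] [Finite X] [Finite V]

/-- the numerical hypotheses; `q = t + 3` -/
structure Sm (hB : IsSymp B) (ψ : AddChar F ℂ) (v v' : V) (X : Type*) [MulAction (Spg B) X] (t k : ℕ) : Prop where
  h : B v v' = 1
  hq : Fintype.card F = t + 3
  hU : Nat.card ↥(Uc B v v') - 1 = (t + 2) * k
  k_ge : t + 4 ≤ k
  hX : Nat.card X < (t + 3) ^ 2 * k + t + 4
  hψ : ∃ a, ψ a ≠ 1

variable {t k : ℕ}

/-- all characters nontrivial on the centre and on the quotient appear -/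
def Pos (hB : IsSymp B) (ψ : AddChar F ℂ) (v v' : V) (X : Type*) [MulAction (Spg B) X] : Prop :=
  ∀ c : F, c ≠ 0 → ∀ b : ↥(Uc B v v'), b ≠ 0 → 1 ≤ (hk hB v v').r ψ (bU B v v') X c b

theorem r_le_one (S : Sm hB ψ v v' X t k) (hpos : Pos hB ψ v v' X) :
    ∀ c : F, c ≠ 0 → ∀ b : ↥(Uc B v v'), b ≠ 0 → (hk hB v v').r ψ (bU B v v') X c b ≤ 1 := by
  intro c0 hc0 b0 hb0
  by_contra hcon
  push Not at hcon
  obtain ⟨a, ha⟩ := S.hψ
  have h1 := total (X := X) hB ψ S.h hb0 ha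
  rw [S.hU] at h1
  have h2 := (hk hB v v').r_mono_c (ψ := ψ) (β := bU B v v') (X := X) c0 b0
  have h3 := (hk hB v v').r_mono_b (ψ := ψ) (β := bU B v v') (X := X) c0 b0
  have h4 := (hk hB v v').r_mono_b (ψ := ψ) (β := bU B v v') (X := X) 0 b0
  have h5 := sum_ge2 (fun c => R0 hB ψ v v' X c + (t + 2) * k * (hk hB v v').r ψ (bU B v v') X c b0) hc0
    (a := 2 + (t + 2) * k * 2) (b := 2 + (t + 2) * k * 2) (d := 1 + (t + 2) * k * 1)
    (by
      apply Nat.add_le_add _ (Nat.mul_le_mul_left _ _)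
      · show 2 ≤ (hk hB v v').r ψ (bU B v v') X 0 0
        omega
      · omega)
    (by
      apply Nat.add_le_add _ (Nat.mul_le_mul_left _ _)
      · show 2 ≤ (hk hB v v').r ψ (bU B v v') X c0 0
        omega
      · omega)
    (by
      intro c hc _
      have h6 := hpos c hc b0 hb0
      have h7 := (hk hB v v').r_mono_b (ψ := ψ) (β := bU B v v') (X := X) c b0
      apply Nat.add_le_add _ (Nat.mul_le_mul_left _ h6)
      show 1 ≤ (hk hB v v').r ψ (bU B v v') X c 0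
      omega)
  rw [← h1, S.hq] at h5
  have h6 := S.hX
  have h7 : t + 3 - 2 = t + 1 := by omega
  rw [h7] at h5
  nlinarith

/-- a point of type H -/
def TH (hB : IsSymp B) (ψ : AddChar F ℂ) (v v' : V) (x : X) : Prop := (hk hB v v').Dd ψ (bU B v v') x = ⊤

/-- a point of type L -/
def TL (hB : IsSymp B) (ψ : AddChar F ℂ) (v v' : V) (x : X) : Prop :=
  ∃ b ∈ (hk hB v v').Dd ψ (bU B v v') x, b ≠ 0 ∧ ∀ s ∈ (hk hB v v').Dd ψ (bU B v v') x, ∃ μ : F, s = μ • b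

theorem TH_or_TL (S : Sm hB ψ v v' X t k) (hpos : Pos hB ψ v v' X) {x : X} {c : F} (hc0 : c ≠ 0)
    (hc : c ∈ (hk hB v v').Cc ψ x) {b : ↥(Uc B v v')} (hb0 : b ≠ 0) (hb : b ∈ (hk hB v v').Dd ψ (bU B v v') x) :
    TH hB ψ v v' x ∨ TL hB ψ v v' x := by
  rcases dich S.h (r_le_one S hpos c hc0) hc with h1 | h1
  · exact Or.inl h1
  · exact Or.inr ⟨b, hb, hb0, h1 b hb hb0⟩

/-- an annihilator contained in a line -/
theorem card_TL {b : ↥(Uc B v v')} (hb0 : b ≠ 0) {S : AddSubgroup ↥(Uc B v v')} (hS : ∀ s ∈ S, ∃ μ : F, s = μ • b) :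
    Nat.card S ∣ Nat.card F ∧ (Nat.card S = Nat.card F → ∀ μ : F, μ • b ∈ S) := by
  let T : AddSubgroup F := S.comap (LinearMap.toSpanSingleton F ↥(Uc B v v') b).toAddMonoidHom
  have hT : ∀ μ : F, μ ∈ T ↔ μ • b ∈ S := fun μ => Iff.rfl
  have h1 : Nat.card T = Nat.card S := by
    refine Nat.card_congr (Equiv.ofBijective (fun μ : T => (⟨(μ : F) • b, μ.2⟩ : S)) ⟨?_, ?_⟩)
    · intro μ ν h
      have h2 : (μ : F) • b = (ν : F) • b := congrArg Subtype.val h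
      have h3 : ((μ : F) - ν) • b = 0 := by rw [sub_smul, h2, sub_self]
      exact Subtype.ext (sub_eq_zero.1 ((smul_eq_zero.1 h3).resolve_right hb0))
    · rintro ⟨s, hs⟩
      obtain ⟨μ, hμ⟩ := hS s hs
      exact ⟨⟨μ, (hT μ).2 (hμ ▸ hs)⟩, Subtype.ext hμ.symm⟩
  rw [← h1]
  refine ⟨AddSubgroup.card_addSubgroup_dvd_card T, fun h μ => (hT μ).1 ?_⟩
  rw [AddSubgroup.eq_top_of_card_eq T h]
  exact AddSubgroup.mem_top _

theorem R0_TL (S : Sm hB ψ v v' X t k) {x : X} (hx : TL hB ψ v v' x) {c : F} (hc : c ∈ (hk hB v v').Cc ψ x) :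
    k ≤ R0 hB ψ v v' X c := by
  obtain ⟨b, hb, hb0, hs⟩ := hx
  have h1 := R0_ge S.h hb0 ⟨hc, hb⟩
  have h2 := Nat.le_of_dvd Nat.card_pos (card_TL hb0 hs).1
  rw [Nat.card_eq_fintype_card (α := F), S.hq] at h2
  rw [S.hU] at h1
  have h3 : (Nat.card ((hk hB v v').Dd ψ (bU B v v') x) - 1) * R0 hB ψ v v' X c ≤ (t + 2) * R0 hB ψ v v' X c :=
    Nat.mul_le_mul_right _ (by omega)
  exact Nat.le_of_mul_le_mul_left (h1.trans h3) (by omega)

theorem not_both (S : Sm hB ψ v v' X t k) (hpos : Pos hB ψ v v' X) {x y : X} (hx : TH hB ψ v v' x)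
    (hy : TL hB ψ v v' y) {c : F} (hc0 : c ≠ 0) (hc : c ∈ (hk hB v v').Cc ψ y) : False := by
  obtain ⟨b, hb, hb0, hs⟩ := id hy
  obtain ⟨a, ha⟩ := S.hψ
  have h1 := total (X := X) hB ψ S.h hb0 ha
  rw [S.hU] at h1
  have h2 : 2 ≤ (hk hB v v').r ψ (bU B v v') X 0 b := by
    refine (hk hB v v').r_two (x := y) (y := x) ⟨zero_mem _, hb⟩ ⟨zero_mem _, ?_⟩ ?_
    · rw [hx]; exact AddSubgroup.mem_top _
    · intro h3
      have h4 := Dd_of_orbit (ψ := ψ) h3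
      rw [hx] at h4
      have h5 := (Nat.le_of_dvd Nat.card_pos (card_TL hb0 hs).1)
      rw [← h4, AddSubgroup.card_top, Nat.card_eq_fintype_card (α := F), S.hq] at h5
      have h6 := S.hU
      have h7 := S.k_ge
      have : (t + 2) * (t + 4) ≤ (t + 2) * k := Nat.mul_le_mul_left _ h7
      nlinarith [Nat.sub_le (Nat.card ↥(Uc B v v')) 1]
  have h3 := R0_TL S hy hc
  have h4 : R0 hB ψ v v' X c ≤ R0 hB ψ v v' X 0 := (hk hB v v').r_mono_c c 0
  have h5 := sum_ge2 (fun c => R0 hB ψ v v' X c + (t + 2) * k * (hk hB v v').r ψ (bU B v v') X c b) hc0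
    (a := k + (t + 2) * k * 2) (b := k + (t + 2) * k * 1) (d := 1 + (t + 2) * k * 1)
    (Nat.add_le_add (h3.trans h4) (Nat.mul_le_mul_left _ h2))
    (Nat.add_le_add h3 (Nat.mul_le_mul_left _ (hpos c hc0 b hb0)))
    (by
      intro c hc _
      have h6 := hpos c hc b hb0
      have h7 := (hk hB v v').r_mono_b (ψ := ψ) (β := bU B v v') (X := X) c b
      exact Nat.add_le_add (h6.trans h7) (Nat.mul_le_mul_left _ h6))
  rw [← h1, S.hq] at h5
  have h6 := S.hX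
  have h7 : t + 3 - 2 = t + 1 := by omega
  rw [h7] at h5
  have h8 := S.k_ge
  nlinarith

theorem R0_all (S : Sm hB ψ v v' X t k) (hpos : Pos hB ψ v v' X) {y : X} (hy : TL hB ψ v v' y) {c : F} (hc0 : c ≠ 0)
    (hc : c ∈ (hk hB v v').Cc ψ y) (c' : F) (hc' : c' ≠ 0) : k ≤ R0 hB ψ v v' X c' := by
  obtain ⟨b, hb, hb0, hs⟩ := id hy
  obtain ⟨z, hz⟩ := (hk hB v v').exists_of_r (X := X) (Nat.one_le_iff_ne_zero.1 (hpos c' hc' b hb0))
  rcases TH_or_TL S hpos hc' hz.1 hb0 hz.2 with h1 | h1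
  · exact (not_both S hpos h1 hy hc0 hc).elim
  · exact R0_TL S h1 hz.1

theorem TL_card (S : Sm hB ψ v v' X t k) (hpos : Pos hB ψ v v' X) {y : X} (hy : TL hB ψ v v' y) {c : F} (hc0 : c ≠ 0)
    (hc : c ∈ (hk hB v v').Cc ψ y) : Nat.card ((hk hB v v').Dd ψ (bU B v v') y) = t + 3 := by
  obtain ⟨b, hb, hb0, hs⟩ := id hy
  by_contra hne
  obtain ⟨a, ha⟩ := S.hψ
  have h1 := total (X := X) hB ψ S.h hb0 ha
  rw [S.hU] at h1
  have h2 : k + k ≤ R0 hB ψ v v' X c := by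
    have h1 := R0_ge S.h hb0 ⟨hc, hb⟩
    rw [S.hU] at h1
    obtain ⟨m, hm⟩ := (card_TL hb0 hs).1
    rw [Nat.card_eq_fintype_card (α := F), S.hq] at hm
    set s := Nat.card ((hk hB v v').Dd ψ (bU B v v') y) with hs'
    have hs1 : 1 ≤ s := Nat.card_pos
    have hm2 : 2 ≤ m := by
      rcases m with - | - | m
      · omega
      · omega
      · omega
    have h3 : 2 * (s - 1) ≤ t + 1 := by
      have : s * 2 ≤ s * m := Nat.mul_le_mul_left _ hm2
      omega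
    by_contra hcon
    push Not at hcon
    set R := R0 hB ψ v v' X c with hR
    have h4 : 2 * ((t + 2) * k) ≤ (t + 1) * R := by
      calc 2 * ((t + 2) * k) ≤ 2 * ((s - 1) * R) := Nat.mul_le_mul_left _ h1
        _ = (2 * (s - 1)) * R := by ring
        _ ≤ (t + 1) * R := Nat.mul_le_mul_right _ h3
    have h5 : (t + 1) * R ≤ (t + 1) * (2 * k) := Nat.mul_le_mul_left _ (by omega)
    have h6 := S.k_ge
    nlinarith
  have h4 : R0 hB ψ v v' X c ≤ R0 hB ψ v v' X 0 := (hk hB v v').r_mono_c c 0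
  have h5 := sum_ge2 (fun c => R0 hB ψ v v' X c + (t + 2) * k * (hk hB v v').r ψ (bU B v v') X c b) hc0
    (a := k + k + (t + 2) * k * 1) (b := k + k + (t + 2) * k * 1) (d := k + (t + 2) * k * 1)
    (Nat.add_le_add (h2.trans h4) (Nat.mul_le_mul_left _ ((hpos c hc0 b hb0).trans ((hk hB v v').r_mono_c c b))))
    (Nat.add_le_add h2 (Nat.mul_le_mul_left _ (hpos c hc0 b hb0)))
    (by
      intro c' hc' _
      exact Nat.add_le_add (R0_all S hpos hy hc0 hc c' hc') (Nat.mul_le_mul_left _ (hpos c' hc' b hb0)))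
  rw [← h1, S.hq] at h5
  have h6 := S.hX
  have h7 : t + 3 - 2 = t + 1 := by omega
  rw [h7] at h5
  have h8 := S.k_ge
  nlinarith

theorem r_zero_le (S : Sm hB ψ v v' X t k) (hpos : Pos hB ψ v v' X) {y : X} (hy : TL hB ψ v v' y) {c : F} (hc0 : c ≠ 0)
    (hc : c ∈ (hk hB v v').Cc ψ y) (b : ↥(Uc B v v')) (hb0 : b ≠ 0) : (hk hB v v').r ψ (bU B v v') X 0 b ≤ 1 := by
  by_contra hcon
  push Not at hcon
  obtain ⟨a, ha⟩ := S.hψ
  have h1 := total (X := X) hB ψ S.h hb0 ha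
  rw [S.hU] at h1
  have h4 : R0 hB ψ v v' X c ≤ R0 hB ψ v v' X 0 := (hk hB v v').r_mono_c c 0
  have h5 := sum_ge1 (fun c => R0 hB ψ v v' X c + (t + 2) * k * (hk hB v v').r ψ (bU B v v') X c b)
    (a := k + (t + 2) * k * 2) (d := k + (t + 2) * k * 1)
    (Nat.add_le_add ((R0_TL S hy hc).trans h4) (Nat.mul_le_mul_left _ hcon))
    (by
      intro c' hc'
      exact Nat.add_le_add (R0_all S hpos hy hc0 hc c' hc') (Nat.mul_le_mul_left _ (hpos c' hc' b hb0)))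
  rw [← h1, S.hq] at h5
  have h6 := S.hX
  have h7 : t + 3 - 1 = t + 2 := by omega
  rw [h7] at h5
  have h8 := S.k_ge
  nlinarith

/-- in the case of type L, the centre acts semiregularly on the points with nontrivial annihilator -/
theorem L_orbit (S : Sm hB ψ v v' X t k) (hpos : Pos hB ψ v v' X) {y : X} (hy : TL hB ψ v v' y) {c : F} (hc0 : c ≠ 0)
    (hc : c ∈ (hk hB v v').Cc ψ y) {x z : X} {b : ↥(Uc B v v')} (hb0 : b ≠ 0)
    (hx : b ∈ (hk hB v v').Dd ψ (bU B v v') x) (hz : b ∈ (hk hB v v').Dd ψ (bU B v v') z) :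
    z ∈ MulAction.orbit (hk hB v v').Qg x :=
  (hk hB v v').orbit_of_r (r_zero_le S hpos hy hc0 hc b hb0) ⟨zero_mem _, hx⟩ ⟨zero_mem _, hz⟩

theorem L_Cc (S : Sm hB ψ v v' X t k) (hpos : Pos hB ψ v v' X) {y : X} (hy : TL hB ψ v v' y) {c : F} (hc0 : c ≠ 0)
    (hc : c ∈ (hk hB v v').Cc ψ y) {x : X} {b : ↥(Uc B v v')} (hb0 : b ≠ 0)
    (hx : b ∈ (hk hB v v').Dd ψ (bU B v v') x) : (hk hB v v').Cc ψ x = ⊤ := by
  rw [eq_top_iff]
  intro c' _
  by_cases hc' : c' = 0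
  · rw [hc']; exact zero_mem _
  obtain ⟨z, hz⟩ := (hk hB v v').exists_of_r (X := X) (Nat.one_le_iff_ne_zero.1 (hpos c' hc' b hb0))
  rw [← Cc_of_orbit (ψ := ψ) (L_orbit S hpos hy hc0 hc hb0 hx hz.2)]
  exact hz.1

theorem L_TL (S : Sm hB ψ v v' X t k) (hpos : Pos hB ψ v v' X) {y : X} (hy : TL hB ψ v v' y) {c : F} (hc0 : c ≠ 0)
    (hc : c ∈ (hk hB v v').Cc ψ y) {x : X} {b : ↥(Uc B v v')} (hb0 : b ≠ 0)
    (hx : b ∈ (hk hB v v').Dd ψ (bU B v v') x) :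
    TL hB ψ v v' x ∧ Nat.card ((hk hB v v').Dd ψ (bU B v v') x) = t + 3 := by
  have h1 : c ∈ (hk hB v v').Cc ψ x := by
    rw [L_Cc S hpos hy hc0 hc hb0 hx]; exact AddSubgroup.mem_top _
  have h2 : TL hB ψ v v' x := (TH_or_TL S hpos hc0 h1 hb0 hx).resolve_left (fun h => not_both S hpos h hy hc0 hc)
  exact ⟨h2, TL_card S hpos h2 hc0 h1⟩

end

end Cfsg.Agent.Lib.MSp
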