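import Mathlib
import Cfsg.Agent.Lib.MSpE

set_option autoImplicit false
set_option linter.unusedSectionVars false

/-!
Transvection groups fixing a point (helper60).
-/

namespace Cfsg.Agent.Lib.MSp

open Cfsg.Agent.Lib.Coop Cfsg.Agent.Lib.ClSymp Cfsg.Agent.Lib.ClSymp2

variable {F V : Type*} [Field F] [AddCommGroup V] [Module F V] {B : LinearMap.BilinForm F V}

theorem card_V [Fintype F] [Finite V] (hB : IsSymp B) {v v' : V} (h : B v v' = 1) :
    Nat.card V = Fintype.card F ^ 2 * Nat.card ↥(Uc B v v') := by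
  have h' : B v' v = -1 := by rw [hB.skew, h]
  have e : Function.Bijective (fun p : (F × F) × ↥(Uc B v v') => (p.2 : V) + p.1.1 • v + p.1.2 • v') := by
    constructor
    · rintro ⟨⟨a, b⟩, u, hu⟩ ⟨⟨a', b'⟩, u', hu'⟩ he
      obtain ⟨h1, h2⟩ := mem_Uc.1 hu
      obtain ⟨h3, h4⟩ := mem_Uc.1 hu'
      have he' : u + a • v + b • v' = u' + a' • v + b' • v' := he
      have e1 := congrArg (B v) he'
      have e2 := congrArg (B v') he'
      simp only [map_add, map_smul, h1, h2, h3, h4, hB.alt, h, h', smul_eq_mul, mul_zero, zero_add, mul_one, add_zero,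
        mul_neg, neg_inj] at e1 e2
      subst e1; subst e2
      have h5 : u = u' := add_right_cancel (add_right_cancel he')
      subst h5
      rfl
    · intro y
      obtain ⟨u, hu, a, b, rfl⟩ := decomp hB h y
      exact ⟨⟨⟨a, b⟩, u, hu⟩, rfl⟩
  rw [← Nat.card_congr (Equiv.ofBijective _ e), Nat.card_prod, Nat.card_prod, Nat.card_eq_fintype_card (α := F)]
  ring

section

variable {X : Type*} [MulAction (Spg B) X] (hB : IsSymp B)

/-- the vectors whose transvection group fixes a point -/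
def Tx (x : X) : Set V := {u | ∀ a : F, tv hB a u • x = x}

variable {hB}

theorem mem_Tx {x : X} {u : V} : u ∈ Tx hB x ↔ ∀ a : F, tv hB a u • x = x := Iff.rfl

theorem Tx_smul {x : X} {u : V} (hu : u ∈ Tx hB x) (μ : F) : μ • u ∈ Tx hB x := by
  intro a
  rw [tv_smul]
  exact hu _

theorem Tx_zero (x : X) : (0 : V) ∈ Tx hB x := by
  intro a
  rw [tv_zero_right, one_smul]

theorem Tx_act {x : X} (g : Spg B) {u : V} : (g : V ≃ₗ[F] V) u ∈ Tx hB (g • x) ↔ u ∈ Tx hB x := by
  rw [mem_Tx, mem_Tx]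
  refine forall_congr' fun a => ?_
  rw [← tv_conj, mul_smul, mul_smul, inv_smul_smul]
  exact ⟨fun h => MulAction.injective g h, fun h => by rw [h]⟩

theorem Tx_of_fix {x : X} {g : Spg B} (hg : g • x = x) {u : V} (hu : u ∈ Tx hB x) : (g : V ≃ₗ[F] V) u ∈ Tx hB x := by
  have := (Tx_act (x := x) g).2 hu
  rwa [hg] at this

theorem Tx_hyp {x : X} {u w : V} (hu : u ∈ Tx hB x) (hw : w ∈ Tx hB x) (huw : B u w ≠ 0) : u + w ∈ Tx hB x := by
  have h1 : B w u ≠ 0 := by rw [hB.skew]; exact neg_ne_zero.2 huw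
  have h2 := Tx_of_fix (hw (B w u)⁻¹) hu
  rwa [tv_apply, inv_mul_cancel₀ h1, one_smul] at h2

/-- the submodule -/
def Ts (x : X) (hadd : ∀ u ∈ Tx hB x, ∀ w ∈ Tx hB x, B u w = 0 → u + w ∈ Tx hB x) : Submodule F V where
  carrier := Tx hB x
  zero_mem' := Tx_zero x
  add_mem' := by
    intro u w hu hw
    by_cases h : B u w = 0
    · exact hadd u hu w hw h
    · exact Tx_hyp hu hw h
  smul_mem' := fun μ u hu => Tx_smul hu μ

theorem exists_perp_of_ne_top [Finite V] (hB : IsSymp B) (T : Submodule F V) (hT : T ≠ ⊤) :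
    ∃ u, u ≠ 0 ∧ ∀ t ∈ T, B u t = 0 := by
  haveI : FiniteDimensional F V := Module.Finite.of_finite
  obtain ⟨f, hf0, hf⟩ := Submodule.exists_le_ker_of_lt_top T (lt_top_iff_ne_top.2 hT)
  have hBn : LinearMap.ker B = ⊥ := by
    rw [LinearMap.ker_eq_bot']
    intro u hu
    by_contra hne
    obtain ⟨w, hw⟩ := hB.nondeg u hne
    exact hw (LinearMap.congr_fun hu w)
  have hinj : Function.Injective B := LinearMap.ker_eq_bot.1 hBn
  have hsurj : Function.Surjective B := by
    have e := (LinearMap.linearEquivOfInjective B hinj (by rw [Module.finrank_linearMap, Module.finrank_self, mul_one]))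
    refine (LinearMap.injective_iff_surjective_of_finrank_eq_finrank ?_).1 hinj
    rw [Module.finrank_linearMap, Module.finrank_self, mul_one]
  obtain ⟨u, rfl⟩ := hsurj f
  refine ⟨u, ?_, fun t ht => LinearMap.mem_ker.1 (hf ht)⟩
  rintro rfl
  exact hf0 (map_zero _)

theorem Tx_hyperplane [Finite V] {x : X} (hadd : ∀ u ∈ Tx hB x, ∀ w ∈ Tx hB x, B u w = 0 → u + w ∈ Tx hB x)
    (hline : ∀ u w : V, u ≠ 0 → (∀ μ : F, w ≠ μ • u) → B u w = 0 → ∃ α β : F, (α ≠ 0 ∨ β ≠ 0) ∧
      α • u + β • w ∈ Tx hB x) (hne : ∃ u, u ∉ Tx hB x) (hdim : ∀ u : V, ∃ w, B u w = 0 ∧ ∀ μ : F, w ≠ μ • u) :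
    ∃ u, u ≠ 0 ∧ ∀ y, y ∈ Tx hB x ↔ B u y = 0 := by
  have hT : Ts x hadd ≠ ⊤ := by
    intro h
    obtain ⟨u, hu⟩ := hne
    apply hu
    have : u ∈ Ts x hadd := by rw [h]; exact Submodule.mem_top
    exact this
  obtain ⟨u0, hu0, h1⟩ := exists_perp_of_ne_top hB _ hT
  refine ⟨u0, hu0, fun y => ⟨fun hy => h1 y hy, ?_⟩⟩
  have key : ∀ y, B u0 y = 0 → (∀ μ : F, y ≠ μ • u0) → y ∈ Tx hB x := by
    intro y hy hy2
    by_cases hy0 : y = 0
    · rw [hy0]; exact Tx_zero x
    have hU : ∀ u ∈ (⊤ : Submodule F V), u ≠ 0 → ∃ w ∈ (⊤ : Submodule F V), B u w ≠ 0 := fun u _ hu => by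
      obtain ⟨w, hw⟩ := hB.nondeg u hu
      exact ⟨w, Submodule.mem_top, hw⟩
    obtain ⟨z, -, hz1, hz2⟩ := indep_sep hB hU (s := y) (b := u0) Submodule.mem_top Submodule.mem_top hy0
      (fun μ h => by
        have hμ : μ ≠ 0 := by
          rintro rfl
          exact hu0 (by rw [h, zero_smul])
        exact hy2 μ⁻¹ (by rw [h, inv_smul_smul₀ hμ]))
    obtain ⟨α, β, hαβ, h2⟩ := hline y z hy0 (fun μ h => hz2 (by rw [h, map_smul, hy, smul_zero])) hz1
    have h3 := h1 _ h2
    rw [map_add, map_smul, map_smul, hy, smul_zero, zero_add, smul_eq_mul] at h3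
    have hβ : β = 0 := (mul_eq_zero.1 h3).resolve_right hz2
    rw [hβ, zero_smul, add_zero] at h2
    have hα : α ≠ 0 := hαβ.resolve_right (fun h => h hβ)
    have h4 := Tx_smul h2 α⁻¹
    rwa [inv_smul_smul₀ hα] at h4
  intro hy
  by_cases hy2 : ∀ μ : F, y ≠ μ • u0
  · exact key y hy hy2
  · push Not at hy2
    obtain ⟨μ, rfl⟩ := hy2
    obtain ⟨w, hw1, hw2⟩ := hdim u0
    have h3 := key w hw1 hw2
    have h4 := key (w + μ • u0) (by rw [map_add, map_smul, hw1, hB.alt, smul_zero, add_zero]) (fun ν h => by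
      exact hw2 (ν - μ) (by rw [sub_smul, ← h, add_sub_cancel_right]))
    have h5 : μ • u0 = (w + μ • u0) - w := by rw [add_sub_cancel_left]
    rw [h5]
    exact (Ts x hadd).sub_mem h4 h3

theorem card_ge_of_hyperplane [Fintype F] [Finite V] [Finite X] {x : X} {u : V} (hu0 : u ≠ 0)
    (hu : ∀ y, y ∈ Tx hB x ↔ B u y = 0) : Nat.card V - 1 ≤ (Fintype.card F - 1) * Nat.card X := by
  classical
  haveI := Fintype.ofFinite V
  haveI := Fintype.ofFinite X
  have key : ∀ w : V, ∃ z : X, w ≠ 0 → ∀ y, y ∈ Tx hB z ↔ B w y = 0 := by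
    intro w
    by_cases hw : w = 0
    · exact ⟨x, fun h => (h hw).elim⟩
    · obtain ⟨g, hg⟩ := exists_map hB hu0 hw
      refine ⟨g • x, fun _ y => ?_⟩
      obtain ⟨y, rfl⟩ := (g : V ≃ₗ[F] V).surjective y
      rw [Tx_act, hu, ← hg, Spg_apply]
  choose f hf using key
  have h5 := Finset.card_le_mul_card_image (f := f) (Finset.univ.erase (0 : V)) (Fintype.card F - 1) (by
      intro z hz
      obtain ⟨w, hw, rfl⟩ := Finset.mem_image.1 hz
      have hw0 := Finset.ne_of_mem_erase hw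
      calc ((Finset.univ.erase (0 : V)).filter fun t => f t = f w).card
          ≤ ((Finset.univ.erase (0 : F)).image (fun μ : F => μ • w)).card := by
            apply Finset.card_le_card
            intro t ht
            obtain ⟨ht1, ht2⟩ := Finset.mem_filter.1 ht
            have ht0 := Finset.ne_of_mem_erase ht1
            have h1 : ∀ y, B w y = 0 ↔ B t y = 0 := fun y => by
              rw [← hf w hw0 y, ← hf t ht0 y, ht2]
            have h2 : ∃ μ : F, t = μ • w := by
              by_contra hcon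
              push Not at hcon
              have hU : ∀ u ∈ (⊤ : Submodule F V), u ≠ 0 → ∃ w ∈ (⊤ : Submodule F V), B u w ≠ 0 := fun u _ hu => by
                obtain ⟨w, hw⟩ := hB.nondeg u hu
                exact ⟨w, Submodule.mem_top, hw⟩
              obtain ⟨z, -, hz1, hz2⟩ := indep_sep hB hU (s := w) (b := t) Submodule.mem_top Submodule.mem_top hw0 hcon
              exact hz2 ((h1 z).1 hz1)
            obtain ⟨μ, hμ⟩ := h2
            refine Finset.mem_image.2 ⟨μ, Finset.mem_erase.2 ⟨?_, Finset.mem_univ _⟩, hμ.symm⟩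
            rintro rfl
            exact ht0 (by rw [hμ, zero_smul])
        _ ≤ (Finset.univ.erase (0 : F)).card := Finset.card_image_le
        _ = _ := by rw [Finset.card_erase_of_mem (Finset.mem_univ _), Finset.card_univ])
  rw [Finset.card_erase_of_mem (Finset.mem_univ _), Finset.card_univ] at h5
  rw [Nat.card_eq_fintype_card, Nat.card_eq_fintype_card]
  exact h5.trans (Nat.mul_le_mul_left _ (Finset.card_le_univ _))

end

end Cfsg.Agent.Lib.MSp
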