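import Mathlib
import Cfsg.Agent.Lib.MSpF

set_option autoImplicit false
set_option linter.unusedSectionVars false

/-!
Points of type H: the transvection groups fixing a point form a hyperplane (helper60).
-/

namespace Cfsg.Agent.Lib.MSp

open Cfsg.Agent.Lib.Coop Cfsg.Agent.Lib.ClSymp Cfsg.Agent.Lib.ClSymp2

variable {F V : Type*} [Field F] [AddCommGroup V] [Module F V] {B : LinearMap.BilinForm F V}

theorem inv_fix {G X : Type*} [Group G] [MulAction G X] {g : G} {x : X} (h : g • x = x) : g⁻¹ • x = x :=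
  inv_smul_eq_iff.2 h.symm

theorem mul_fix {G X : Type*} [Group G] [MulAction G X] {g g' : G} {x : X} (h : g • x = x) (h' : g' • x = x) :
    (g * g') • x = x := by rw [mul_smul, h', h]

section

variable {X : Type*} [MulAction (Spg B) X] (hB : IsSymp B)

/-- a pair of type H -/
structure HH (x : X) (v : V) : Prop where
  bar : ∀ w, B v w = 0 → (∃ a, sh hB 1 v w • x = tv hB a v • x) → ∃ μ : F, w = μ • v
  lift : ∀ l : Spg B, (l : V ≃ₗ[F] V) v = v → ∃ k : Spg B, k • x = x ∧ (k : V ≃ₗ[F] V) v = v ∧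
    ∀ y, B v y = 0 → ∃ μ : F, (k : V ≃ₗ[F] V) y = (l : V ≃ₗ[F] V) y + μ • v

variable {hB}

theorem HH.act {x : X} {v : V} (H : HH hB x v) (g : Spg B) : HH hB (g • x) ((g : V ≃ₗ[F] V) v) := by
  constructor
  · intro w hw hex
    obtain ⟨a, ha⟩ := hex
    obtain ⟨w, rfl⟩ := (g : V ≃ₗ[F] V).surjective w
    rw [Spg_apply] at hw
    rw [← sh_conj, ← tv_conj, mul_smul, mul_smul, mul_smul, mul_smul, inv_smul_smul] at ha
    obtain ⟨μ, rfl⟩ := H.bar w hw ⟨a, MulAction.injective g ha⟩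
    exact ⟨μ, map_smul _ _ _⟩
  · intro l hl
    obtain ⟨k, h1, h2, h3⟩ := H.lift (g⁻¹ * l * g) (by rw [mul_apply', mul_apply', hl, inv_apply_self'])
    refine ⟨g * k * g⁻¹, by rw [mul_smul, mul_smul, inv_smul_smul, h1],
      by rw [mul_apply', mul_apply', inv_apply_self', h2], ?_⟩
    intro y hy
    obtain ⟨y, rfl⟩ := (g : V ≃ₗ[F] V).surjective y
    rw [Spg_apply] at hy
    obtain ⟨μ, hμ⟩ := h3 y hy
    refine ⟨μ, ?_⟩
    rw [mul_apply', mul_apply', inv_apply_self', hμ, map_add, map_smul, mul_apply', mul_apply', apply_inv_self']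

theorem HH.Q {x : X} {v : V} (H : HH hB x v) (hv : v ≠ 0) {t : Spg B} (ht : t • x = x) (h1 : (t : V ≃ₗ[F] V) v = v)
    (h2 : ∀ y, B v y = 0 → ∃ μ : F, (t : V ≃ₗ[F] V) y = y + μ • v) (y : V) (hy : B v y = 0) :
    (t : V ≃ₗ[F] V) y = y := by
  obtain ⟨v', h⟩ := exists_pair hB hv
  obtain ⟨u, z, hz, rfl⟩ := (mem_Qg_iff hB h).2 ⟨h1, h2⟩
  obtain ⟨a, rfl⟩ := mem_Tgrp.1 hz
  have h3 : sh hB 1 v (u : V) • x = tv hB (-a) v • x := by
    have h4 : sh hB 1 v (u : V) = tv hB (-a) v * (sh hB 1 v (u : V) * tv hB a v) := by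
      rw [tv_comm_sh hB a (mem_Uc.1 u.2).1, ← mul_assoc, tv_mul, neg_add_cancel, tv_zero, one_mul]
    rw [h4, mul_smul]
    congr 1
  obtain ⟨μ, hμ⟩ := H.bar _ (mem_Uc.1 u.2).1 ⟨_, h3⟩
  have hμ0 : μ = 0 := by
    have h5 := (mem_Uc.1 u.2).2
    rw [hμ, map_smul, hB.skew v' v, h, smul_eq_mul] at h5
    simpa using h5
  rw [mul_apply', hk_e, hμ, hμ0, zero_smul, sh_zero, tv_apply, hy, mul_zero, zero_smul, add_zero]
  rfl

theorem perp_act {v : V} {k : Spg B} (h1 : (k : V ≃ₗ[F] V) v = v) {y : V} (hy : B v y = 0) :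
    B v ((k : V ≃ₗ[F] V) y) = 0 := by
  have := Spg_apply k v y
  rwa [h1, hy] at this

theorem HH.comm {x : X} {v : V} (H : HH hB x v) (hv : v ≠ 0) {k k' : Spg B} (hk : k • x = x) (hk' : k' • x = x)
    (h1 : (k : V ≃ₗ[F] V) v = v) (h1' : (k' : V ≃ₗ[F] V) v = v)
    (h2 : ∀ y, B v y = 0 → ∃ μ : F, (k : V ≃ₗ[F] V) ((k' : V ≃ₗ[F] V) y) = (k' : V ≃ₗ[F] V) ((k : V ≃ₗ[F] V) y) + μ • v)
    (y : V) (hy : B v y = 0) :
    (k : V ≃ₗ[F] V) ((k' : V ≃ₗ[F] V) y) = (k' : V ≃ₗ[F] V) ((k : V ≃ₗ[F] V) y) := by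
  have h3 := H.Q hv (t := (k' * k)⁻¹ * (k * k')) (mul_fix (inv_fix (mul_fix hk' hk)) (mul_fix hk hk'))
    (by
      rw [mul_apply', mul_apply', h1', h1]
      have h4 := inv_apply_self' (k' * k) v
      rwa [mul_apply', h1, h1'] at h4)
    (by
      intro y hy
      obtain ⟨μ, hμ⟩ := h2 y hy
      refine ⟨μ, ?_⟩
      have h4 := inv_apply_self' (k' * k) (y + μ • v)
      rw [mul_apply', mul_apply', hμ]
      rwa [mul_apply', map_add, map_add, map_smul, map_smul, h1, h1'] at h4) y hy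
  have h4 := congrArg ((k' * k : Spg B) : V ≃ₗ[F] V) h3
  rw [mul_apply' ((k' * k)⁻¹), apply_inv_self', mul_apply', mul_apply'] at h4
  exact h4

theorem tv_sub_mul (hB : IsSymp B) {v r : V} (hr : B v r = 0) :
    tv hB 1 (v - r) * tv hB (-1) r = sh hB 1 v (-r) * tv hB 1 v := by
  have h1 : B v (-r) = 0 := by rw [map_neg, hr, neg_zero]
  have h2 : B r v = 0 := by rw [hB.skew, hr, neg_zero]
  apply Spg_ext
  intro y
  rw [mul_apply', mul_apply', tv_apply, tv_apply, tv_apply, sh_apply hB _ _ _ h1]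
  simp only [map_add, map_sub, map_neg, map_smul, LinearMap.sub_apply, LinearMap.neg_apply, hB.alt, hr, h2, smul_eq_mul]
  module

/-- closure under sums of perpendicular vectors -/
theorem HH_add {x : X} (H : ∀ v, v ∉ Tx hB x → HH hB x v) :
    ∀ u ∈ Tx hB x, ∀ w ∈ Tx hB x, B u w = 0 → u + w ∈ Tx hB x := by
  intro u hu w hw huw
  by_contra hcon
  set v := u + w with hv
  have hr : B v w = 0 := by rw [hv, map_add, LinearMap.add_apply, huw, hB.alt, add_zero]
  have h1 := tv_sub_mul hB hr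
  have h2 : v - w = u := by rw [hv, add_sub_cancel_right]
  have h3 : (sh hB 1 v (-w) * tv hB 1 v) • x = x := by
    rw [← h1, h2]
    exact mul_fix (hu 1) (hw (-1))
  have hr' : B v (-w) = 0 := by rw [map_neg, hr, neg_zero]
  obtain ⟨μ, hμ⟩ := (H v hcon).bar (-w) hr' ⟨-1, by
    have h4 : sh hB 1 v (-w) = tv hB (-1) v * (sh hB 1 v (-w) * tv hB 1 v) := by
      rw [tv_comm_sh hB 1 hr', ← mul_assoc, tv_mul, neg_add_cancel, tv_zero, one_mul]
    rw [h4, mul_smul, h3]⟩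
  have hw2 : w = (-μ) • v := by rw [neg_smul, ← hμ, neg_neg]
  by_cases hμ0 : μ = 0
  · rw [hμ0, neg_zero, zero_smul] at hw2
    apply hcon
    rw [hv, hw2, add_zero]
    exact hu
  · apply hcon
    have h5 := Tx_smul hw (-μ)⁻¹
    rwa [hw2, inv_smul_smul₀ (neg_ne_zero.2 hμ0)] at h5

/-- an involution -/
theorem exists_neg (hB : IsSymp B) {v : V} (hv : v ≠ 0) : ∃ s : Spg B, (s : V ≃ₗ[F] V) v = v ∧
    ∀ y, B v y = 0 → ∃ μ : F, (s : V ≃ₗ[F] V) y = -y + μ • v := by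
  obtain ⟨v', h⟩ := exists_pair hB hv
  have h' : B v' v = -1 := by rw [hB.skew, h]
  let f : V →ₗ[F] V := -LinearMap.id - (2 : F) • (B v').smulRight v + (2 : F) • (B v).smulRight v'
  have hf : ∀ y, f y = -y - (2 * B v' y) • v + (2 * B v y) • v' := by
    intro y
    simp only [f, LinearMap.add_apply, LinearMap.sub_apply, LinearMap.neg_apply, LinearMap.id_apply,
      LinearMap.smul_apply, LinearMap.smulRight_apply, smul_smul]
  have hinv : Function.Involutive f := by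
    intro y
    rw [hf, hf]
    simp only [map_add, map_sub, map_neg, map_smul, hB.alt, h, h', smul_eq_mul]
    module
  refine ⟨⟨LinearEquiv.ofInvolutive f hinv, ?_⟩, ?_, ?_⟩
  · intro y z
    show B (f y) (f z) = B y z
    rw [hf, hf]
    simp only [map_add, map_sub, map_neg, map_smul, LinearMap.add_apply, LinearMap.sub_apply, LinearMap.neg_apply,
      LinearMap.smul_apply, hB.alt, h, h', smul_eq_mul]
    rw [hB.skew y v, hB.skew y v']
    ring
  · show f v = v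
    rw [hf, hB.alt, h']
    module
  · intro y hy
    refine ⟨-(2 * B v' y), ?_⟩
    show f y = _
    rw [hf, hy]
    module

end

end Cfsg.Agent.Lib.MSp
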