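import Mathlib
import Cfsg.Agent.Lib.MSpG

set_option autoImplicit false
set_option linter.unusedSectionVars false

/-!
Points of type H: totally isotropic lines (helper60).
-/

namespace Cfsg.Agent.Lib.MSp

open Cfsg.Agent.Lib.Coop Cfsg.Agent.Lib.ClSymp Cfsg.Agent.Lib.ClSymp2

variable {F V : Type*} [Field F] [AddCommGroup V] [Module F V] {B : LinearMap.BilinForm F V}

section

variable {X : Type*} [MulAction (Spg B) X] {hB : IsSymp B}

theorem HH_line_odd (h2 : (2 : F) ≠ 0) {x : X} {v w : V} (H : HH hB x v) (hv : v ≠ 0) (hvw : B v w = 0)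
    (hw : ∀ μ : F, w ≠ μ • v)
    (hq : (∃ μ : F, μ ≠ 0 ∧ μ ^ 2 ≠ 1) ∨ ((3 : F) = 0 ∧ ∃ z, B v z = 0 ∧ B w z = 0 ∧ ∀ α β : F, z ≠ α • v + β • w)) :
    ∃ ρ : F, w + ρ • v ∈ Tx hB x := by
  obtain ⟨s, hs1, hs2⟩ := exists_neg hB hv
  obtain ⟨k0, k0x, k0v, k0y⟩ := H.lift s hs1
  have hneg : ∀ y, B v y = 0 → ∃ μ : F, (k0 : V ≃ₗ[F] V) y = -y + μ • v := by
    intro y hy
    obtain ⟨μ, hμ⟩ := k0y y hy
    obtain ⟨ν, hν⟩ := hs2 y hy
    exact ⟨ν + μ, by rw [hμ, hν]; module⟩
  have hE : ∀ y, B v y = 0 → ∃ ρ : F, (k0 : V ≃ₗ[F] V) (y + ρ • v) = -(y + ρ • v) := by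
    intro y hy
    obtain ⟨μ, hμ⟩ := hneg y hy
    refine ⟨-μ / 2, ?_⟩
    rw [map_add, map_smul, k0v, hμ]
    have : μ = -2 * (-μ / 2) := by field_simp
    conv_lhs => rw [this]
    match_scalars <;> field_simp <;> ring
  have hEv : ∀ z : V, ∀ ρ : F, (k0 : V ≃ₗ[F] V) z = -z → (k0 : V ≃ₗ[F] V) (z + ρ • v) = -(z + ρ • v) → ρ = 0 := by
    intro z ρ h1 h3
    rw [map_add, map_smul, k0v, h1] at h3
    have h4 : (2 * ρ) • v = 0 := by
      have : (2 * ρ) • v = (-z + ρ • v) - (-(z + ρ • v)) := by module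
      rw [this, h3, sub_self]
    have h5 := (smul_eq_zero.1 h4).resolve_right hv
    exact (mul_eq_zero.1 h5).resolve_left h2
  have hEk : ∀ k : Spg B, k • x = x → (k : V ≃ₗ[F] V) v = v → ∀ z, B v z = 0 → (k0 : V ≃ₗ[F] V) z = -z →
      (k0 : V ≃ₗ[F] V) ((k : V ≃ₗ[F] V) z) = -((k : V ≃ₗ[F] V) z) := by
    intro k hk hkv z hz hz0
    rw [H.comm hv k0x hk k0v hkv (by
      intro y hy
      obtain ⟨μ, hμ⟩ := hneg y hy
      obtain ⟨ν, hν⟩ := hneg _ (perp_act hkv hy)
      refine ⟨ν - μ, ?_⟩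
      rw [hμ, hν, map_add, map_neg, map_smul, hkv]
      module) z hz, hz0, map_neg]
  have star : ∀ z, B v z = 0 → (k0 : V ≃ₗ[F] V) z = -z → ∀ a : F, ∃ ζ : F, (tv hB a z * tv hB ζ v) • x = x := by
    intro z hz hz0 a
    have hzv : B z v = 0 := by rw [hB.skew, hz, neg_zero]
    obtain ⟨k, kx, kv, ky⟩ := H.lift (tv hB a z) (by rw [tv_apply, hzv, mul_zero, zero_smul, add_zero])
    have h3 : ∀ y, B v y = 0 → (k : V ≃ₗ[F] V) y = (tv hB a z : V ≃ₗ[F] V) y := by
      intro y hy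
      obtain ⟨ρ, hρ⟩ := hE y hy
      have hy' : B v (y + ρ • v) = 0 := by rw [map_add, map_smul, hB.alt, hy, smul_zero, add_zero]
      obtain ⟨μ, hμ⟩ := ky _ hy'
      have h4 := hEk k kx kv _ hy' hρ
      rw [hμ] at h4
      have h5 : (k0 : V ≃ₗ[F] V) ((tv hB a z : V ≃ₗ[F] V) (y + ρ • v)) = -((tv hB a z : V ≃ₗ[F] V) (y + ρ • v)) := by
        rw [tv_apply, map_add, hρ, map_smul, hz0]
        module
      have h6 := hEv _ _ h5 h4
      rw [h6, zero_smul, add_zero, map_add, map_add, map_smul, map_smul, kv, tv_apply, tv_apply, hzv, mul_zero,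
        zero_smul, add_zero] at hμ
      rw [tv_apply]
      exact add_right_cancel hμ
    obtain ⟨ζ, hζ⟩ := tv_of_fix hB hv (g := (tv hB a z)⁻¹ * k) (by
      intro y hy
      rw [mul_apply', h3 y hy, inv_apply_self'])
    exact ⟨ζ, by rw [← hζ, mul_inv_cancel_left, kx]⟩
  obtain ⟨ρ, hρ⟩ := hE w hvw
  refine ⟨ρ, ?_⟩
  set w0 := w + ρ • v with hw0
  have hvw0 : B v w0 = 0 := by rw [hw0, map_add, map_smul, hB.alt, hvw, smul_zero, add_zero]
  have hw0' : ∀ μ : F, w0 ≠ μ • v := by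
    intro μ h
    apply hw (μ - ρ)
    rw [sub_smul, ← h, hw0, add_sub_cancel_right]
  -- elements moving `w0`
  have move0 : ∀ y, B v y = 0 → (k0 : V ≃ₗ[F] V) y = -y → (∀ μ : F, y ≠ μ • v) →
      ∃ k : Spg B, k • x = x ∧ (k : V ≃ₗ[F] V) v = v ∧ (k : V ≃ₗ[F] V) w0 = y := by
    intro y hy hy0 hyv
    obtain ⟨l, hl1, hl2⟩ := trans_perp hB hv hw0' hvw0 hv hyv hy
    obtain ⟨k, kx, kv, ky⟩ := H.lift l hl1
    obtain ⟨μ, hμ⟩ := ky w0 hvw0
    rw [hl2] at hμ
    have h3 := hEk k kx kv w0 hvw0 hρ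
    rw [hμ] at h3
    have h4 := hEv _ _ hy0 h3
    rw [h4, zero_smul, add_zero] at hμ
    exact ⟨k, kx, kv, hμ⟩
  rcases hq with ⟨μ, hμ0, hμ1⟩ | ⟨h3, z, hz1, hz2, hz3⟩
  · obtain ⟨k, kx, kv, kw⟩ := move0 (μ • w0) (by rw [map_smul, hvw0, smul_zero])
      (by rw [map_smul, hρ, smul_neg]) (by
        intro ν h
        apply hw0' (μ⁻¹ * ν)
        rw [mul_smul, ← h, inv_smul_smul₀ hμ0])
    have h4 : ∀ a : F, tv hB (a * (μ ^ 2 - 1)) w0 • x = x := by
      intro a
      obtain ⟨ζ, hζ⟩ := star w0 hvw0 hρ a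
      have h5 : (k * (tv hB a w0 * tv hB ζ v) * k⁻¹) • x = x := mul_fix (mul_fix kx hζ) (inv_fix kx)
      have h6 : k * (tv hB a w0 * tv hB ζ v) * k⁻¹ = tv hB (a * μ ^ 2) w0 * tv hB ζ v := by
        have : k * (tv hB a w0 * tv hB ζ v) * k⁻¹ = (k * tv hB a w0 * k⁻¹) * (k * tv hB ζ v * k⁻¹) := by group
        rw [this, tv_conj, tv_conj, kw, kv, tv_smul]
      rw [h6] at h5
      have h7 := mul_fix h5 (inv_fix hζ)
      have h8 : tv hB (a * μ ^ 2) w0 * tv hB ζ v * (tv hB a w0 * tv hB ζ v)⁻¹ = tv hB (a * (μ ^ 2 - 1)) w0 := by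
        rw [mul_inv_rev, mul_assoc, mul_inv_cancel_left, tv_inv, tv_mul]
        congr 1
        ring
      rwa [h8] at h7
    intro a
    have h5 : μ ^ 2 - 1 ≠ 0 := sub_ne_zero.2 hμ1
    have := h4 (a / (μ ^ 2 - 1))
    rwa [div_mul_cancel₀ _ h5] at this
  · obtain ⟨σ, hσ⟩ := hE z hz1
    set z0 := z + σ • v with hz0
    have hvz0 : B v z0 = 0 := by rw [hz0, map_add, map_smul, hB.alt, hz1, smul_zero, add_zero]
    have hwv : B w v = 0 := by rw [hB.skew, hvw, neg_zero]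
    have hwz : B w0 z0 = 0 := by
      rw [hw0, hz0]
      simp only [map_add, map_smul, LinearMap.add_apply, LinearMap.smul_apply, hz2, hwv, hz1, hB.alt]
      simp
    have hzw : B z0 w0 = 0 := by rw [hB.skew, hwz, neg_zero]
    have hE2 : ∀ ε : F, (k0 : V ≃ₗ[F] V) (w0 + ε • z0) = -(w0 + ε • z0) := by
      intro ε
      rw [map_add, map_smul, hρ, hσ]
      module
    have same : ∀ a ζ : F, (tv hB a w0 * tv hB ζ v) • x = x → ∀ y, B v y = 0 → (k0 : V ≃ₗ[F] V) y = -y →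
        (∀ μ : F, y ≠ μ • v) → (tv hB a y * tv hB ζ v) • x = x := by
      intro a ζ hζ y hy hy0 hyv
      obtain ⟨k, kx, kv, kw⟩ := move0 y hy hy0 hyv
      have h5 : (k * (tv hB a w0 * tv hB ζ v) * k⁻¹) • x = x := mul_fix (mul_fix kx hζ) (inv_fix kx)
      have : k * (tv hB a w0 * tv hB ζ v) * k⁻¹ = (k * tv hB a w0 * k⁻¹) * (k * tv hB ζ v * k⁻¹) := by group
      rwa [this, tv_conj, tv_conj, kw, kv] at h5
    have hzne : ∀ ε : F, ∀ μ : F, ε ≠ 0 → w0 + ε • z0 ≠ μ • v := by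
      intro ε μ hε h
      have h5 : ε • z = (μ - ρ - ε * σ) • v + (-1 : F) • w := by
        have : ε • z = (w0 + ε • z0) - (ρ + ε * σ) • v - w := by rw [hw0, hz0]; module
        rw [this, h]
        module
      apply hz3 (ε⁻¹ * (μ - ρ - ε * σ)) (ε⁻¹ * (-1))
      rw [mul_smul, mul_smul, ← smul_add, ← h5, inv_smul_smul₀ hε]
    have hz0ne : ∀ μ : F, z0 ≠ μ • v := by
      intro μ h
      apply hz3 (μ - σ) 0
      rw [zero_smul, add_zero, sub_smul, ← h, hz0, add_sub_cancel_right]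
    have hcm : ∀ a b : F, ∀ y y' : V, B y y' = 0 → tv hB a y * tv hB b y' = tv hB b y' * tv hB a y := by
      intro a b y y' hyy
      have hyy' : B y' y = 0 := by rw [hB.skew, hyy, neg_zero]
      apply Spg_ext
      intro u
      rw [mul_apply', mul_apply', tv_apply, tv_apply, tv_apply, tv_apply]
      simp only [map_add, map_smul, hyy, hyy', smul_eq_mul]
      module
    clear_value w0 z0
    intro a
    obtain ⟨ζ, hζ⟩ := star w0 hvw0 hρ (-a)
    obtain ⟨ξ, hξ⟩ := star w0 hvw0 hρ a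
    -- first relation
    have hp1 := same _ _ hζ (w0 + (1 : F) • z0) (by rw [map_add, map_smul, hvw0, hvz0, smul_zero, add_zero]) (hE2 1)
      (hzne 1 · one_ne_zero)
    have hp2 := same _ _ hζ (w0 + (-1 : F) • z0) (by rw [map_add, map_smul, hvw0, hvz0, smul_zero, add_zero]) (hE2 (-1))
      (hzne (-1) · (neg_ne_zero.2 one_ne_zero))
    have hp3 := same _ _ hξ z0 hvz0 hσ hz0ne
    have e1 : tv hB (-a) (w0 + (1 : F) • z0) * tv hB ζ v * (tv hB (-a) (w0 + (-1 : F) • z0) * tv hB ζ v) =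
        tv hB a w0 * tv hB ξ v * (tv hB a z0 * tv hB ξ v) * tv hB (2 * ζ - 2 * ξ) v := by
      have hv1 : B w0 v = 0 := by rw [hB.skew, hvw0, neg_zero]
      have hv2 : B z0 v = 0 := by rw [hB.skew, hvz0, neg_zero]
      apply Spg_ext
      intro u
      simp only [mul_apply', tv_apply, map_add, map_smul, LinearMap.add_apply, LinearMap.smul_apply, hB.alt, hv1, hv2,
        hvw0, hvz0, hwz, hzw, smul_eq_mul]
      match_scalars <;> first
        | ring1
        | linear_combination (-a * B w0 u) * h3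
        | linear_combination (-a * B z0 u) * h3
    have hA1 : tv hB (2 * ζ - 2 * ξ) v • x = x := by
      have h5 := mul_fix (inv_fix (mul_fix hξ hp3)) (mul_fix hp1 hp2)
      rwa [e1, inv_mul_cancel_left] at h5
    -- second relation
    have e2 : tv hB (-a) w0 * tv hB ζ v * (tv hB (-a) w0 * tv hB ζ v) =
        tv hB a w0 * tv hB ξ v * tv hB (2 * ζ - ξ) v := by
      have hv1 : B w0 v = 0 := by rw [hB.skew, hvw0, neg_zero]
      apply Spg_ext
      intro u
      simp only [mul_apply', tv_apply, map_add, map_smul, LinearMap.add_apply, LinearMap.smul_apply, hB.alt, hv1,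
        hvw0, smul_eq_mul]
      match_scalars <;> first
        | ring1
        | linear_combination (-a * B w0 u) * h3
    have hA2 : tv hB (2 * ζ - ξ) v • x = x := by
      have h5 := mul_fix (inv_fix hξ) (mul_fix hζ hζ)
      rwa [e2, inv_mul_cancel_left] at h5
    have hA3 : tv hB ξ v • x = x := by
      have h5 := mul_fix hA2 (inv_fix hA1)
      rw [tv_inv, tv_mul] at h5
      have : 2 * ζ - ξ + -(2 * ζ - 2 * ξ) = ξ := by ring
      rwa [this] at h5
    have h5 := mul_fix hξ (inv_fix hA3)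
    rwa [tv_inv, mul_assoc, tv_mul, add_neg_cancel, tv_zero, mul_one] at h5

/-- separating a vector from two others -/
theorem sep_three (hB : IsSymp B) {v v' w y : V} (h : B v v' = 1) (hvw : B v w = 0) (hvy : B v y = 0)
    (hw : ∀ μ : F, w ≠ μ • v) (hy : ∀ α β : F, y ≠ α • v + β • w) : ∃ z, B v z = 0 ∧ B w z = 0 ∧ B y z ≠ 0 := by
  have hw1 := proj_mem hB h w
  have hy1 := proj_mem hB h y
  rw [hvw, zero_smul, sub_zero] at hw1
  rw [hvy, zero_smul, sub_zero] at hy1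
  obtain ⟨z, hz, h1, h2⟩ := indep_sep hB (Uc_nondeg hB h) hw1 hy1 (by
    intro h0
    exact hw (-(B v' w)) (by rw [neg_smul]; exact eq_neg_of_add_eq_zero_left h0)) (by
    intro μ h0
    apply hy (μ * B v' w - B v' y) μ
    calc y = (y + B v' y • v) - B v' y • v := by rw [add_sub_cancel_right]
      _ = μ • (w + B v' w • v) - B v' y • v := by rw [h0]
      _ = _ := by module)
  obtain ⟨hz1, hz2⟩ := mem_Uc.1 hz
  rw [map_add, map_smul, LinearMap.add_apply, LinearMap.smul_apply, hz1, smul_zero, add_zero] at h1 h2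
  exact ⟨z, hz1, h1, h2⟩

theorem HH_line_even (h2 : (2 : F) = 0) (hsq : ∀ a : F, ∃ s : F, s ^ 2 = a) {x : X} {v w : V}
    (H : ∀ v : V, v ∉ Tx hB x → HH hB x v) (hv : v ≠ 0) (hvw : B v w = 0)
    (hw : ∀ μ : F, w ≠ μ • v) : ∃ α β : F, (α ≠ 0 ∨ β ≠ 0) ∧ α • v + β • w ∈ Tx hB x := by
  by_contra hno
  push Not at hno
  have hwv : B w v = 0 := by rw [hB.skew, hvw, neg_zero]
  have hvT : v ∉ Tx hB x := by
    have := hno 1 0 (Or.inl one_ne_zero)
    rwa [one_smul, zero_smul, add_zero] at this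
  have Hv := H v hvT
  obtain ⟨v', h⟩ := exists_pair hB hv
  have h' : B v' v = -1 := by rw [hB.skew, h]
  have hU : ∀ u ∈ (⊤ : Submodule F V), u ≠ 0 → ∃ w ∈ (⊤ : Submodule F V), B u w ≠ 0 := fun u _ hu => by
    obtain ⟨w, hw⟩ := hB.nondeg u hu
    exact ⟨w, Submodule.mem_top, hw⟩
  obtain ⟨z1, -, hz1, hz1'⟩ := indep_sep hB hU (s := v) (b := w) Submodule.mem_top Submodule.mem_top hv hw
  have key : ∀ a : F, a ≠ 0 → ∃ η ζ : F, (tv hB a w * sh hB 1 v (η • w) * tv hB ζ v) • x = x := by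
    intro a ha
    have hav : (tv hB a w : V ≃ₗ[F] V) v = v := by rw [tv_apply, hwv, mul_zero, zero_smul, add_zero]
    obtain ⟨k, kx, kv, ky⟩ := Hv.lift (tv hB a w) hav
    let m : V →ₗ[F] F := (B v').comp ((tv hB a w : V ≃ₗ[F] V).toLinearMap - (k : V ≃ₗ[F] V).toLinearMap)
    have hm : ∀ y, B v y = 0 → (k : V ≃ₗ[F] V) y = (tv hB a w : V ≃ₗ[F] V) y + m y • v := by
      intro y hy
      obtain ⟨μ, hμ⟩ := ky y hy
      have : m y = μ := by
        show B v' ((tv hB a w : V ≃ₗ[F] V) y - (k : V ≃ₗ[F] V) y) = μ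
        rw [hμ, sub_add_cancel_left, map_neg, map_smul, h', smul_eq_mul]
        ring
      rw [this, hμ]
    have hmw : m w = 0 := by
      have hk2 : ∀ z, B v z = 0 → ((k * k : Spg B) : V ≃ₗ[F] V) z = z + (a * B w z * m w) • v := by
        intro z hz
        have hz' : B v ((k : V ≃ₗ[F] V) z) = 0 := perp_act kv hz
        rw [mul_apply', hm z hz, map_add, map_smul, kv, tv_apply, map_add, map_smul, hm z hz, hm w hvw, tv_apply,
          tv_apply, hB.alt]
        match_scalars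
        · ring
        · linear_combination (a * B w z) * h2
        · linear_combination (m z) * h2
      have h3 := Hv.Q hv (mul_fix kx kx) (by rw [mul_apply', kv, kv]) (fun y hy => ⟨_, hk2 y hy⟩) z1 hz1
      rw [hk2 z1 hz1, add_eq_left] at h3
      have h4 := (smul_eq_zero.1 h3).resolve_right hv
      exact (mul_eq_zero.1 h4).resolve_left (mul_ne_zero ha hz1')
    have hmv : m v = 0 := by
      show B v' ((tv hB a w : V ≃ₗ[F] V) v - (k : V ≃ₗ[F] V) v) = 0
      rw [hav, kv, sub_self, map_zero]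
    have hmy : ∀ y, B v y = 0 → B w y = 0 → m y = 0 := by
      intro y hy hwy
      by_cases hdep : ∀ α β : F, y ≠ α • v + β • w
      · obtain ⟨z, hz, hwz, hyz⟩ := sep_three hB h hvw hy hw hdep
        have hyv : B y v = 0 := by rw [hB.skew, hy, neg_zero]
        have hyw : B y w = 0 := by rw [hB.skew, hwy, neg_zero]
        obtain ⟨k', k'x, k'v, k'y⟩ := Hv.lift (tv hB 1 y) (by rw [tv_apply, hyv, mul_zero, zero_smul, add_zero])
        have hc : ∀ u, B v u = 0 → ∃ μ : F, (k : V ≃ₗ[F] V) ((k' : V ≃ₗ[F] V) u) =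
            (k' : V ≃ₗ[F] V) ((k : V ≃ₗ[F] V) u) + μ • v := by
          intro u hu
          obtain ⟨μ, hμ⟩ := k'y u hu
          have h5 : B v ((tv hB 1 y : V ≃ₗ[F] V) u) = 0 := by
            rw [tv_apply, map_add, map_smul, hu, hy, smul_zero, add_zero]
          have h6 : B v ((tv hB a w : V ≃ₗ[F] V) u) = 0 := by
            rw [tv_apply, map_add, map_smul, hu, hvw, smul_zero, add_zero]
          obtain ⟨ν, hν⟩ := k'y _ h6
          refine ⟨m ((tv hB 1 y : V ≃ₗ[F] V) u) + μ - (ν + m u), ?_⟩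
          rw [hμ, map_add, map_smul, kv, hm _ h5, hm u hu, map_add, map_smul, k'v, hν]
          simp only [tv_apply, map_add, map_smul, hyw, hwy, smul_eq_mul]
          module
        have h7 := Hv.comm hv kx k'x kv k'v hc z hz
        obtain ⟨μ, hμ⟩ := k'y z hz
        have h8 : B v y = 0 := hy
        have e1 : (k : V ≃ₗ[F] V) ((k' : V ≃ₗ[F] V) z) = z + m z • v + B y z • (y + m y • v) + μ • v := by
          rw [hμ, map_add, map_smul, kv, tv_apply, map_add, map_smul, hm z hz, hm y hy, tv_apply, tv_apply, hwz, hwy,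
            mul_zero, zero_smul, add_zero, add_zero, one_mul]
        have e2 : (k' : V ≃ₗ[F] V) ((k : V ≃ₗ[F] V) z) = z + B y z • y + μ • v + m z • v := by
          rw [hm z hz, tv_apply, hwz, mul_zero, zero_smul, add_zero, map_add, map_smul, k'v, hμ, tv_apply, one_mul]
        rw [e1, e2] at h7
        have h9 : (B y z * m y) • v = 0 := by
          have e : (B y z * m y) • v = (z + m z • v + B y z • (y + m y • v) + μ • v) -
              (z + B y z • y + μ • v + m z • v) := by module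
          rw [e, h7, sub_self]
        have h10 := (smul_eq_zero.1 h9).resolve_right hv
        exact (mul_eq_zero.1 h10).resolve_left hyz
      · push Not at hdep
        obtain ⟨α, β, rfl⟩ := hdep
        rw [map_add, map_smul, map_smul, hmv, hmw, smul_zero, smul_zero, add_zero]
    set η := m z1 / B w z1 with hη
    have hmz : ∀ z, B v z = 0 → m z = η * B w z := by
      intro z hz
      have h5 := hmy (z - (B w z / B w z1) • z1) (by rw [map_sub, map_smul, hz, hz1, smul_zero, sub_zero]) (by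
        rw [map_sub, map_smul, smul_eq_mul, div_mul_cancel₀ _ hz1', sub_self])
      rw [map_sub, map_smul, smul_eq_mul] at h5
      rw [hη]
      have : m z = B w z / B w z1 * m z1 := by linear_combination h5
      rw [this]
      ring
    obtain ⟨ζ, hζ⟩ := tv_of_fix hB hv (g := (tv hB a w * sh hB 1 v (η • w))⁻¹ * k) (by
      intro z hz
      have hvη : B v (η • w) = 0 := by rw [map_smul, hvw, smul_zero]
      have h5 : ((tv hB a w * sh hB 1 v (η • w) : Spg B) : V ≃ₗ[F] V) z = (k : V ≃ₗ[F] V) z := by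
        rw [mul_apply', sh_apply hB _ _ _ hvη, hz, hm z hz, hmz z hz, tv_apply, tv_apply]
        simp only [map_add, map_smul, LinearMap.smul_apply, hwv, smul_eq_mul]
        module
      rw [mul_apply', ← h5, inv_apply_self'])
    exact ⟨η, ζ, by rw [← hζ, mul_inv_cancel_left, kx]⟩
  -- the points on the line
  have claim : ∀ a η ζ ρ : F, a ≠ 0 → (tv hB a w * sh hB 1 v (η • w) * tv hB ζ v) • x = x → a * ρ ^ 2 = ζ →
      η = a * ρ ∧ tv hB a (w + ρ • v) • x = x := by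
    intro a η ζ ρ ha hx hρ
    have hvη : B v (η • w) = 0 := by rw [map_smul, hvw, smul_zero]
    have hv1 : B (w + ρ • v) ((η - a * ρ) • v) = 0 := by
      simp only [map_add, map_smul, LinearMap.add_apply, LinearMap.smul_apply, hwv, hB.alt, smul_zero, add_zero]
    have e : tv hB a w * sh hB 1 v (η • w) * tv hB ζ v =
        tv hB a (w + ρ • v) * sh hB 1 (w + ρ • v) ((η - a * ρ) • v) := by
      apply Spg_ext
      intro y
      rw [mul_apply', mul_apply', mul_apply', sh_apply hB _ _ _ hvη, sh_apply hB _ _ _ hv1, ← hρ]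
      simp only [tv_apply, map_add, map_smul, LinearMap.add_apply, LinearMap.smul_apply, hwv, hvw, hB.alt, smul_eq_mul]
      match_scalars
      · ring
      · ring
      · linear_combination (-(η - a * ρ) * ρ * B v y) * h2
    rw [e] at hx
    have h1 : w + ρ • v ∉ Tx hB x := by
      have := hno ρ 1 (Or.inr one_ne_zero)
      rwa [one_smul, add_comm] at this
    have h3 : sh hB 1 (w + ρ • v) ((η - a * ρ) • v) • x = tv hB (-a) (w + ρ • v) • x := by
      have h4 : sh hB 1 (w + ρ • v) ((η - a * ρ) • v) = tv hB (-a) (w + ρ • v) *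
          (tv hB a (w + ρ • v) * sh hB 1 (w + ρ • v) ((η - a * ρ) • v)) := by
        rw [← mul_assoc, tv_mul, neg_add_cancel, tv_zero, one_mul]
      rw [h4, mul_smul, hx]
    obtain ⟨μ, hμ⟩ := (H _ h1).bar _ hv1 ⟨_, h3⟩
    have hμ0 : μ = 0 := by
      by_contra hne
      apply hw (μ⁻¹ * (η - a * ρ) - ρ)
      have : w = (w + ρ • v) - ρ • v := by rw [add_sub_cancel_right]
      rw [sub_smul, mul_smul, hμ, inv_smul_smul₀ hne, add_sub_cancel_right]
    rw [hμ0, zero_smul] at hμ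
    have h5 := (smul_eq_zero.1 hμ).resolve_right hv
    refine ⟨sub_eq_zero.1 h5, ?_⟩
    rw [h5, zero_smul, sh_zero, mul_one] at hx
    exact hx
  -- conclusion
  have key2 : ∀ a : F, a ≠ 0 → ∃ ρ : F, tv hB a (w + ρ • v) • x = x := by
    intro a ha
    obtain ⟨η, ζ, hx⟩ := key a ha
    obtain ⟨ρ, hρ⟩ := hsq (ζ / a)
    exact ⟨ρ, (claim a η ζ ρ ha hx (by rw [hρ]; field_simp)).2⟩
  obtain ⟨ρ1, h1⟩ := key2 1 one_ne_zero
  have hfin : w + ρ1 • v ∈ Tx hB x := by
    intro a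
    by_cases ha : a = 0
    · rw [ha, tv_zero, one_smul]
    by_cases ha1 : 1 + a = 0
    · have : a = 1 := by linear_combination ha1 - h2
      rw [this]; exact h1
    obtain ⟨ρ, hρ⟩ := key2 a ha
    obtain ⟨σ, hσ⟩ := hsq ((ρ1 ^ 2 + a * ρ ^ 2) / (1 + a))
    have hvη : B v ((ρ1 + a * ρ) • w) = 0 := by rw [map_smul, hvw, smul_zero]
    have e : tv hB 1 (w + ρ1 • v) * tv hB a (w + ρ • v) =
        tv hB (1 + a) w * sh hB 1 v ((ρ1 + a * ρ) • w) * tv hB (ρ1 ^ 2 + a * ρ ^ 2) v := by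
      apply Spg_ext
      intro y
      rw [mul_apply', mul_apply', mul_apply', sh_apply hB _ _ _ hvη]
      simp only [tv_apply, map_add, map_smul, LinearMap.add_apply, LinearMap.smul_apply, hwv, hvw, hB.alt, smul_eq_mul]
      module
    have h3 := mul_fix h1 hρ
    rw [e] at h3
    obtain ⟨h4, -⟩ := claim (1 + a) (ρ1 + a * ρ) (ρ1 ^ 2 + a * ρ ^ 2) σ ha1 h3 (by rw [hσ]; field_simp)
    have h5 : (ρ1 + a * ρ) ^ 2 = (1 + a) * (ρ1 ^ 2 + a * ρ ^ 2) := by
      have h6 : (1 + a) * σ ^ 2 = ρ1 ^ 2 + a * ρ ^ 2 := by rw [hσ]; field_simp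
      rw [h4, ← h6]; ring
    have h6 : a * (ρ - ρ1) ^ 2 = 0 := by
      linear_combination -h5 + (a * ρ1 * ρ - a * ρ1 * ρ) * h2
    have h7 : ρ = ρ1 := sub_eq_zero.1 (pow_eq_zero_iff two_ne_zero |>.1 ((mul_eq_zero.1 h6).resolve_left ha))
    rw [← h7]; exact hρ
  have := hno ρ1 1 (Or.inr one_ne_zero)
  rw [one_smul, add_comm] at this
  exact this hfin

end

end Cfsg.Agent.Lib.MSp
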