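import Mathlib
import Cfsg.Agent.Lib.MSpH

set_option autoImplicit false
set_option linter.unusedSectionVars false

/-!
Elimination of type H (helper60).
-/

namespace Cfsg.Agent.Lib.MSp

open Cfsg.Agent.Lib.Coop Cfsg.Agent.Lib.ClSymp Cfsg.Agent.Lib.ClSymp2

variable {F V : Type*} [Field F] [AddCommGroup V] [Module F V] {B : LinearMap.BilinForm F V}

theorem mul_nondeg (K : Type*) [Field K] : ∀ w : K, LinearMap.mul K K w = 0 → w = 0 := fun w hw => by
  have := LinearMap.congr_fun hw 1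
  simpa using this

section

variable {X : Type*} [MulAction (Spg B) X] {hB : IsSymp B} {v v' : V} {ψ : AddChar F ℂ}
variable [Fintype F] [Finite X] [Finite V] {t k : ℕ}

theorem exists_Cc (hψ : ∃ a, ψ a ≠ 1) {x : X} (hx : v ∉ Tx hB x) : ∃ c : F, c ≠ 0 ∧ c ∈ (hk hB v v').Cc ψ x := by
  by_contra hcon
  push Not at hcon
  obtain ⟨a, ha⟩ := hψ
  apply hx
  intro s
  have h1 : s ∈ (hk hB v v').A x := by
    refine mem_of_ann (ψ := ψ) (β := LinearMap.mul F F) (mul_nondeg F) ha ?_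
    intro b hb
    have hb0 : b = 0 := by
      by_contra hne
      exact hcon b hne hb
    rw [hb0, map_zero, LinearMap.zero_apply, AddChar.map_zero_eq_one]
  exact h1

theorem bar_iff (h : B v v' = 1) (hψ : ∃ a, ψ a ≠ 1) {x : X} {w : ↥(Uc B v v')} : w ∈ (hk hB v v').bar x ↔
    ∀ b ∈ (hk hB v v').Dd ψ (bU B v v') x, ψ (B (b : V) (w : V)) = 1 := by
  obtain ⟨a, ha⟩ := hψ
  constructor
  · intro hw b hb
    exact hb w hw
  · intro hw
    exact mem_of_ann (bU_nondeg hB h) ha hw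

theorem bar_bot (h : B v v' = 1) (hψ : ∃ a, ψ a ≠ 1) {x : X} (hx : TH hB ψ v v' x) {w : ↥(Uc B v v')}
    (hw : w ∈ (hk hB v v').bar x) : w = 0 := by
  by_contra hne
  obtain ⟨a, ha⟩ := id hψ
  obtain ⟨b, hb, hbw⟩ := Uc_nondeg hB h w w.2 (fun h0 => hne (Subtype.ext h0))
  have hbw' : B b (w : V) ≠ 0 := by rw [hB.skew]; exact neg_ne_zero.2 hbw
  have h1 := (bar_iff (ψ := ψ) h hψ).1 hw ((a / B b (w : V)) • ⟨b, hb⟩) (by
    rw [show (hk hB v v').Dd ψ (bU B v v') x = ⊤ from hx]; exact AddSubgroup.mem_top _)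
  rw [Submodule.coe_smul, map_smul, LinearMap.smul_apply, smul_eq_mul, div_mul_cancel₀ _ hbw'] at h1
  exact ha h1

theorem HH_of_TH (S : Sm hB ψ v v' X t k) (hpos : Pos hB ψ v v' X) {x : X} {c : F} (hc0 : c ≠ 0)
    (hc : c ∈ (hk hB v v').Cc ψ x) (hx : TH hB ψ v v' x) : HH hB x v := by
  have h := S.h
  have hv0 : v ≠ 0 := by
    rintro rfl
    rw [map_zero, LinearMap.zero_apply] at h
    exact zero_ne_one h
  constructor
  · rintro w hw ⟨a, ha⟩
    have hm := proj_mem hB h w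
    rw [hw, zero_smul, sub_zero] at hm
    have h1 : sh hB 1 v (w + B v' w • v) • x = tv hB (2 * B v' w + a) v • x := by
      rw [sh_add_smul hB _ hw, tv_comm_sh hB _ hw, mul_smul, ha, ← mul_smul, tv_mul]
    have h2 := bar_bot h S.hψ hx (w := ⟨_, hm⟩) (hk_bar hB |>.2 ⟨_, h1⟩)
    have h3 : w + B v' w • v = 0 := congrArg Subtype.val h2
    exact ⟨-B v' w, by rw [neg_smul]; exact eq_neg_of_add_eq_zero_left h3⟩
  · intro l hl
    obtain ⟨u, hu, a, b, h3⟩ := decomp hB h ((l : V ≃ₗ[F] V) v')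
    have hu' := mem_Uc.1 hu
    have hu2 : B u v' = 0 := by rw [hB.skew, hu'.2, neg_zero]
    have hu1 : B u v = 0 := by rw [hB.skew, hu'.1, neg_zero]
    have hb : b = 1 := by
      have h4 := Spg_apply l v v'
      rw [hl, h3, map_add, map_add, map_smul, map_smul, hu'.1, hB.alt, h] at h4
      simpa using h4
    rw [hb, one_smul] at h3
    set g := sh hB 1 v u * tv hB a v with hg
    have hgQ : g ∈ (hk hB v v').Qg := ⟨⟨u, hu⟩, tv hB a v, mem_Tgrp.2 ⟨a, rfl⟩, rfl⟩
    have hgv' : (g : V ≃ₗ[F] V) v' = (l : V ≃ₗ[F] V) v' := by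
      rw [h3, hg, mul_apply', tv_apply, sh_apply hB _ _ _ hu'.1]
      simp only [map_add, map_smul, hB.alt, hu1, hu'.1, h, hu2, smul_eq_mul]
      module
    have hgi := inv_mem hgQ
    rw [mem_Qg_iff hB h] at hgi
    have h4 : ((g⁻¹ * l : Spg B) : V ≃ₗ[F] V) v = v := by rw [mul_apply', hl, hgi.1]
    have h5 : ((g⁻¹ * l : Spg B) : V ≃ₗ[F] V) v' = v' := by rw [mul_apply', ← hgv', inv_apply_self']
    obtain ⟨b0, hb0⟩ : ∃ b0 : ↥(Uc B v v'), b0 ≠ 0 := by
      by_contra hcon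
      push Not at hcon
      have h6 : Nat.card ↥(Uc B v v') = 1 := by
        rw [Nat.card_eq_one_iff_unique]
        exact ⟨⟨fun a b => (hcon a).trans (hcon b).symm⟩, ⟨0⟩⟩
      have h7 := S.hU
      rw [h6] at h7
      have h8 := S.k_ge
      have : 0 < (t + 2) * k := Nat.mul_pos (by omega) (by omega)
      omega
    have h6 : ((g⁻¹ * l : Spg B) : V ≃ₗ[F] V) (b0 : V) ∈ Uc B v v' :=
      (act_mem (v' := v') one_ne_zero (by rw [h4, one_smul]) (by rw [h5, inv_one, one_smul])).2 b0.2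
    have hall : ∀ b : ↥(Uc B v v'), b ∈ (hk hB v v').Dd ψ (bU B v v') x := fun b => by
      rw [show (hk hB v v').Dd ψ (bU B v v') x = ⊤ from hx]; exact AddSubgroup.mem_top _
    have h7 := orbit_of_mem (r_le_one S hpos c hc0) hc (hall b0) (hall ⟨_, h6⟩) (by
      intro h0
      have h8 : ((g⁻¹ * l : Spg B) : V ≃ₗ[F] V) (b0 : V) = 0 := congrArg Subtype.val h0
      exact hb0 (Subtype.ext ((LinearEquiv.map_eq_zero_iff _).1 h8))) h4 h5 rfl
    obtain ⟨⟨g1, hg1⟩, h8⟩ := h7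
    have h8 : g1 • x = (g⁻¹ * l) • x := h8
    have hg1i := inv_mem hg1
    rw [mem_Qg_iff hB h] at hg1i
    refine ⟨g1⁻¹ * (g⁻¹ * l), by rw [mul_smul, ← h8, inv_smul_smul], by rw [mul_apply', h4, hg1i.1], ?_⟩
    intro y hy
    have hly : B v ((l : V ≃ₗ[F] V) y) = 0 := perp_act hl hy
    obtain ⟨μ, hμ⟩ := hgi.2 _ hly
    obtain ⟨ν, hν⟩ := hg1i.2 _ hly
    exact ⟨ν + μ, by rw [mul_apply', mul_apply', hμ, map_add, hν, map_smul, hg1i.1]; module⟩

/-- there are enough vectors -/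
theorem hdim_of (S : Sm hB ψ v v' X t k) (u : V) : ∃ w, B u w = 0 ∧ ∀ μ : F, w ≠ μ • u := by
  by_cases hu : u = 0
  · refine ⟨v', by rw [hu, map_zero, LinearMap.zero_apply], fun μ h => ?_⟩
    have h1 := S.h
    rw [h, hu, smul_zero, map_zero] at h1
    exact zero_ne_one h1
  · obtain ⟨u', hu'⟩ := exists_pair hB hu
    have h1 := card_V hB hu'
    rw [card_V hB S.h] at h1
    have h2 := Nat.eq_of_mul_eq_mul_left (pow_pos Fintype.card_pos 2) h1
    obtain ⟨w, hw⟩ : ∃ w : ↥(Uc B u u'), w ≠ 0 := by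
      by_contra hcon
      push Not at hcon
      have h6 : Nat.card ↥(Uc B u u') = 1 := by
        rw [Nat.card_eq_one_iff_unique]
        exact ⟨⟨fun a b => (hcon a).trans (hcon b).symm⟩, ⟨0⟩⟩
      have h7 := S.hU
      rw [h2, h6] at h7
      have h8 := S.k_ge
      have : 0 < (t + 2) * k := Nat.mul_pos (by omega) (by omega)
      omega
    obtain ⟨hw1, hw2⟩ := mem_Uc.1 w.2
    refine ⟨w, hw1, fun μ h => hw (Subtype.ext ?_)⟩
    rw [h, map_smul, hB.skew, hu', smul_eq_mul] at hw2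
    have hμ : μ = 0 := by simpa using hw2
    rw [h, hμ, zero_smul]
    rfl

/-- the final count -/
theorem false_of_hyperplane (S : Sm hB ψ v v' X t k) {x : X} {u : V} (hu0 : u ≠ 0)
    (hu : ∀ y, y ∈ Tx hB x ↔ B u y = 0) : False := by
  have h1 := card_ge_of_hyperplane hu0 hu
  rw [card_V hB S.h, S.hq] at h1
  have h2 := S.hU
  have h3 := S.hX
  have h4 : 1 ≤ Nat.card ↥(Uc B v v') := Nat.card_pos
  obtain ⟨n, hn⟩ : ∃ n, Nat.card ↥(Uc B v v') = n + 1 := ⟨_, (Nat.sub_add_cancel h4).symm⟩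
  rw [hn, Nat.add_sub_cancel] at h2
  rw [hn, h2] at h1
  have h5 : t + 3 - 1 = t + 2 := by omega
  rw [h5] at h1
  have h6 : (t + 3) ^ 2 * ((t + 2) * k + 1) ≤ (t + 2) * Nat.card X + 1 := by omega
  have h7 : (t + 2) * Nat.card X ≤ (t + 2) * ((t + 3) ^ 2 * k + t + 3) := Nat.mul_le_mul_left _ (by omega)
  nlinarith

theorem false_of_lines (S : Sm hB ψ v v' X t k) {x : X}
    (hadd : ∀ u ∈ Tx hB x, ∀ w ∈ Tx hB x, B u w = 0 → u + w ∈ Tx hB x)
    (hline : ∀ u w : V, u ≠ 0 → (∀ μ : F, w ≠ μ • u) → B u w = 0 → ∃ α β : F, (α ≠ 0 ∨ β ≠ 0) ∧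
      α • u + β • w ∈ Tx hB x) (hne : ∃ u, u ∉ Tx hB x) : False := by
  obtain ⟨u, hu0, hu⟩ := Tx_hyperplane hadd hline hne (hdim_of S)
  exact false_of_hyperplane S hu0 hu

/-- a vector orthogonal to a totally isotropic line -/
theorem exists_third (S : Sm hB ψ v v' X t k) (hk : t + 4 < k) {u w : V} (hu : u ≠ 0) (huw : B u w = 0)
    (hw : ∀ μ : F, w ≠ μ • u) : ∃ z, B u z = 0 ∧ B w z = 0 ∧ ∀ α β : F, z ≠ α • u + β • w := by
  classical
  obtain ⟨u', hu'⟩ := exists_pair hB hu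
  have h1 := card_V hB hu'
  rw [card_V hB S.h] at h1
  have h2 := Nat.eq_of_mul_eq_mul_left (pow_pos Fintype.card_pos 2) h1
  have hm := proj_mem hB hu' w
  rw [huw, zero_smul, sub_zero] at hm
  set wb := w + B u' w • u with hwb
  have hwb0 : wb ≠ 0 := by
    intro h0
    exact hw (-(B u' w)) (by rw [neg_smul]; exact eq_neg_of_add_eq_zero_left h0)
  obtain ⟨w'', hw'', hww⟩ := Uc_nondeg hB hu' wb hm hwb0
  obtain ⟨h3, h4⟩ := mem_Uc.1 hw''
  haveI : Fintype ↥(Uc B u u') := Fintype.ofFinite _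
  have h5 : Fintype.card (F × F) < Fintype.card ↥(Uc B u u') := by
    rw [Fintype.card_prod, ← Nat.card_eq_fintype_card (α := ↥(Uc B u u')), ← h2, S.hq]
    have h6 := S.hU
    have h7 : (t + 2) * (t + 5) ≤ (t + 2) * k := Nat.mul_le_mul_left (t + 2) (show t + 5 ≤ k by omega)
    have h8 : (t + 2) * (t + 5) + 1 ≤ Nat.card ↥(Uc B v v') := by
      have h9 : 1 ≤ Nat.card ↥(Uc B v v') := Nat.card_pos
      have h10 : Nat.card ↥(Uc B v v') = (t + 2) * k + 1 := by rw [← h6]; exact (Nat.sub_add_cancel h9).symm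
      rw [h10]; exact Nat.add_le_add_right h7 1
    nlinarith
  obtain ⟨z1, z2, hz, hz'⟩ := Fintype.exists_ne_map_eq_of_card_lt
    (fun z : ↥(Uc B u u') => (B wb (z : V), B w'' (z : V))) h5
  obtain ⟨h6, h7⟩ := Prod.ext_iff.1 hz'
  simp only at h6 h7
  obtain ⟨h8, h9⟩ := mem_Uc.1 (z1 - z2).2
  have h10 : B wb ((z1 - z2 : ↥(Uc B u u')) : V) = 0 := by
    rw [Submodule.coe_sub, map_sub, h6, sub_self]
  have h11 : B w'' ((z1 - z2 : ↥(Uc B u u')) : V) = 0 := by
    rw [Submodule.coe_sub, map_sub, h7, sub_self]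
  refine ⟨((z1 - z2 : ↥(Uc B u u')) : V), h8, ?_, ?_⟩
  · rw [hwb, map_add, map_smul, LinearMap.add_apply, LinearMap.smul_apply, h8, smul_zero, add_zero] at h10
    exact h10
  · intro α β hαβ
    have h12 : ((z1 - z2 : ↥(Uc B u u')) : V) = (α - β * B u' w) • u + β • wb := by
      rw [hαβ, hwb]; module
    have h13 : B w'' u = 0 := by rw [hB.skew, h3, neg_zero]
    have h14 : B w'' wb ≠ 0 := by rw [hB.skew]; exact neg_ne_zero.2 hww
    rw [h12, map_add, map_smul, map_smul, h13, smul_zero, zero_add, smul_eq_mul] at h11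
    have hβ : β = 0 := (mul_eq_zero.1 h11).resolve_right h14
    have h15 : B u' wb = 0 := (mem_Uc.1 hm).2
    have h16 : B u' u = -1 := by rw [hB.skew, hu']
    rw [h12, map_add, map_smul, map_smul, h15, smul_zero, add_zero, h16, smul_eq_mul] at h9
    have hα : α - β * B u' w = 0 := by linear_combination -h9
    apply hz
    apply sub_eq_zero.1
    apply Subtype.ext
    rw [h12, hα, hβ, zero_smul, zero_smul, add_zero]
    rfl

/-- type H is impossible -/
theorem false_of_HH (S : Sm hB ψ v v' X t k) (hex : t = 0 → 4 < k) {x : X} (hne : ∃ u, u ∉ Tx hB x)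
    (H : ∀ u, u ∉ Tx hB x → HH hB x u) : False := by
  refine false_of_lines S (HH_add H) ?_ hne
  intro u w hu0 huw hw
  by_cases hu : u ∈ Tx hB x
  · exact ⟨1, 0, Or.inl one_ne_zero, by rwa [one_smul, zero_smul, add_zero]⟩
  by_cases h2 : (2 : F) = 0
  · refine HH_line_even h2 (fun a => ?_) H hu0 hw huw
    obtain ⟨p, hp⟩ := CharP.exists F
    haveI : CharP F 2 := by
      have h3 : p ∣ 2 := (CharP.cast_eq_zero_iff F p 2).1 (by exact_mod_cast h2)
      have h4 : p ≠ 1 := CharP.char_ne_one F p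
      have h5 : p = 2 := ((Nat.dvd_prime Nat.prime_two).1 h3).resolve_left h4
      rw [← h5]; exact hp
    obtain ⟨s, hs⟩ := FiniteField.isSquare_of_char_two (F := F) (ringChar.eq F 2) a
    exact ⟨s, by rw [hs]; ring⟩
  · obtain ⟨ρ, hρ⟩ := HH_line_odd h2 (H u hu) hu0 hw huw (by
      by_cases ht : t = 0
      · right
        have hcard : Fintype.card F = 3 := by rw [S.hq, ht]
        refine ⟨?_, exists_third S (by rw [ht]; have := hex ht; omega) hu0 hw huw⟩
        have := FiniteField.cast_card_eq_zero F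
        rw [hcard] at this
        exact_mod_cast this
      · left
        classical
        by_contra hcon
        push Not at hcon
        have h3 : (Finset.univ : Finset F) ⊆ {0, 1, -1} := by
          intro μ _
          by_cases hμ : μ = 0
          · rw [hμ]; simp
          · have h4 := hcon μ hμ
            have h5 : (μ - 1) * (μ + 1) = 0 := by linear_combination h4
            rcases mul_eq_zero.1 h5 with h6 | h6
            · rw [sub_eq_zero.1 h6]; simp
            · rw [eq_neg_of_add_eq_zero_left h6]; simp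
        have h4 := Finset.card_le_card h3
        rw [Finset.card_univ, S.hq] at h4
        have h5 : ({0, 1, -1} : Finset F).card ≤ 3 := Finset.card_le_three
        omega)
    exact ⟨ρ, 1, Or.inr one_ne_zero, by rwa [one_smul, add_comm]⟩

end

end Cfsg.Agent.Lib.MSp
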