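import Mathlib
import Cfsg.Agent.Lib.MSpI

set_option autoImplicit false
set_option linter.unusedSectionVars false

/-!
The case of a missing central character in odd characteristic (helper60).
-/

namespace Cfsg.Agent.Lib.MSp

open Cfsg.Agent.Lib.Coop Cfsg.Agent.Lib.ClSymp Cfsg.Agent.Lib.ClSymp2

variable {F V : Type*} [Field F] [AddCommGroup V] [Module F V] {B : LinearMap.BilinForm F V}

/-- the abelian group attached to a totally isotropic line -/
noncomputable def m3 (hB : IsSymp B) (u w : V) (p : F × F × F) : Spg B :=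
  tv hB p.1 u * (sh hB p.2.1 u w * tv hB p.2.2 w)

theorem m3_apply (hB : IsSymp B) {u w : V} (huw : B u w = 0) (p : F × F × F) (y : V) :
    (m3 hB u w p : V ≃ₗ[F] V) y =
      y + (p.1 * B u y + p.2.1 * B w y) • u + (p.2.1 * B u y + p.2.2 * B w y) • w := by
  have hwu : B w u = 0 := by rw [hB.skew, huw, neg_zero]
  rw [m3, mul_apply', mul_apply', tv_apply, sh_apply hB _ _ _ huw, tv_apply]
  simp only [map_add, map_smul, hB.alt, huw, hwu, smul_eq_mul]
  module

theorem m3_add (hB : IsSymp B) {u w : V} (huw : B u w = 0) (p p' : F × F × F) :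
    m3 hB u w (p + p') = m3 hB u w p * m3 hB u w p' := by
  have hwu : B w u = 0 := by rw [hB.skew, huw, neg_zero]
  apply Spg_ext
  intro y
  rw [mul_apply', m3_apply hB huw, m3_apply hB huw, m3_apply hB huw]
  simp only [map_add, map_smul, hB.alt, huw, hwu, smul_eq_mul, Prod.fst_add, Prod.snd_add]
  module

theorem m3_tv (hB : IsSymp B) {u w : V} (huw : B u w = 0) (a l m : F) :
    tv hB a (l • u + m • w) = m3 hB u w (a * l ^ 2, a * l * m, a * m ^ 2) := by
  apply Spg_ext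
  intro y
  rw [m3_apply hB huw, tv_apply]
  simp only [map_add, map_smul, LinearMap.add_apply, LinearMap.smul_apply, smul_eq_mul]
  module

theorem m3_zero (hB : IsSymp B) {u w : V} (huw : B u w = 0) : m3 hB u w 0 = 1 := by
  apply Spg_ext
  intro y
  rw [m3_apply hB huw]
  simp

/-- the pairing on triples -/
noncomputable def β3 (F : Type*) [Field F] : (F × F × F) →ₗ[F] (F × F × F) →ₗ[F] F :=
  LinearMap.mk₂ F (fun c p => c.1 * p.1 + c.2.1 * p.2.1 + c.2.2 * p.2.2)
    (fun a b c => by simp only [Prod.fst_add, Prod.snd_add]; ring)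
    (fun a b c => by simp only [Prod.smul_fst, Prod.smul_snd, smul_eq_mul]; ring)
    (fun a b c => by simp only [Prod.fst_add, Prod.snd_add]; ring)
    (fun a b c => by simp only [Prod.smul_fst, Prod.smul_snd, smul_eq_mul]; ring)

theorem β3_apply (c p : F × F × F) : β3 F c p = c.1 * p.1 + c.2.1 * p.2.1 + c.2.2 * p.2.2 := rfl

theorem β3_nondeg : ∀ w, β3 F w = 0 → w = 0 := by
  intro w hw
  have h1 := LinearMap.congr_fun hw (1, 0, 0)
  have h2 := LinearMap.congr_fun hw (0, 1, 0)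
  have h3 := LinearMap.congr_fun hw (0, 0, 1)
  simp only [β3_apply, LinearMap.zero_apply, mul_one, mul_zero, add_zero, zero_add] at h1 h2 h3
  exact Prod.ext h1 (Prod.ext h2 h3)

/-- nondegenerate binary forms are universal -/
theorem universal [Fintype F] (h2 : (2 : F) ≠ 0) (c1 b c2 c0 : F) (hd : b ^ 2 ≠ 4 * c1 * c2) :
    ∃ l m : F, c1 * l ^ 2 + b * l * m + c2 * m ^ 2 = c0 := by
  by_cases hc1 : c1 = 0
  · subst hc1
    have hb : b ≠ 0 := by
      rintro rfl
      apply hd; ring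
    refine ⟨(c0 - c2) / b, 1, ?_⟩
    field_simp
    ring
  · open Polynomial in
    have hD : b ^ 2 - 4 * c1 * c2 ≠ 0 := sub_ne_zero.2 hd
    obtain ⟨X, m, h⟩ := FiniteField.exists_root_sum_quadratic (R := F) (f := Polynomial.X ^ 2 - Polynomial.C (4 * c1 * c0))
      (g := Polynomial.C (-(b ^ 2 - 4 * c1 * c2)) * Polynomial.X ^ 2)
      (by
        rw [Polynomial.degree_X_pow_sub_C (by norm_num)]; rfl)
      (by
        rw [Polynomial.degree_C_mul_X_pow _ (neg_ne_zero.2 hD)]; rfl)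
      (FiniteField.odd_card_of_char_ne_two (by
        intro h
        apply h2
        have := CharP.cast_eq_zero F (ringChar F)
        rw [h] at this
        exact_mod_cast this))
    simp only [Polynomial.eval_sub, Polynomial.eval_pow, Polynomial.eval_X, Polynomial.eval_C, Polynomial.eval_mul] at h
    have h4 : (4 : F) * c1 ≠ 0 := by
      have : (4 : F) = 2 * 2 := by norm_num
      rw [this]
      exact mul_ne_zero (mul_ne_zero h2 h2) hc1
    refine ⟨(X - b * m) / (2 * c1), m, ?_⟩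
    apply mul_left_cancel₀ h4
    field_simp
    linear_combination 4 * h

/-- a group of binary quadratic forms which do not represent a given element has a common zero -/
theorem common_zero [Fintype F] (h2 : (2 : F) ≠ 0) {c0 : F} (T : AddSubgroup (F × F × F))
    (hT : ∀ c ∈ T, ∀ l m : F, c.1 * l ^ 2 + c.2.1 * l * m + c.2.2 * m ^ 2 ≠ c0) :
    (∀ c ∈ T, c.2.1 ^ 2 = 4 * c.1 * c.2.2) ∧
    ∃ l m : F, (l ≠ 0 ∨ m ≠ 0) ∧ ∀ c ∈ T, c.1 * l ^ 2 + c.2.1 * l * m + c.2.2 * m ^ 2 = 0 := by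
  have h1 : ∀ c ∈ T, c.2.1 ^ 2 = 4 * c.1 * c.2.2 := by
    intro c hc
    by_contra hd
    obtain ⟨l, m, h⟩ := universal h2 c.1 c.2.1 c.2.2 c0 hd
    exact hT c hc l m h
  refine ⟨h1, ?_⟩
  by_cases hT0 : ∀ c ∈ T, c = 0
  · refine ⟨1, 0, Or.inl one_ne_zero, fun c hc => ?_⟩
    rw [hT0 c hc]
    simp
  · push Not at hT0
    obtain ⟨c, hc, hc0⟩ := hT0
    have h3 := h1 c hc
    by_cases hc1 : c.1 = 0
    · have hb : c.2.1 = 0 := by
        rw [hc1] at h3
        exact pow_eq_zero_iff (two_ne_zero) |>.1 (by rw [h3]; ring)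
      have hc2 : c.2.2 ≠ 0 := fun h => hc0 (Prod.ext hc1 (Prod.ext hb h))
      refine ⟨1, 0, Or.inl one_ne_zero, fun d hd => ?_⟩
      have h4 := h1 d hd
      have h5 := h1 _ (T.add_mem hc hd)
      simp only [Prod.fst_add, Prod.snd_add, hc1, hb, zero_add] at h5
      have h6 : (4 : F) * c.2.2 ≠ 0 := by
        have : (4 : F) = 2 * 2 := by norm_num
        rw [this]
        exact mul_ne_zero (mul_ne_zero h2 h2) hc2
      have h7 : (4 * c.2.2) * d.1 = 0 := by linear_combination h4 - h5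
      rw [(mul_eq_zero.1 h7).resolve_left h6]
      ring
    · refine ⟨-c.2.1, 2 * c.1, Or.inr (mul_ne_zero h2 hc1), fun d hd => ?_⟩
      have h4 := h1 d hd
      have h5 := h1 _ (T.add_mem hc hd)
      simp only [Prod.fst_add, Prod.snd_add] at h5
      linear_combination (d.1 + c.1) * h3 + c.1 * h4 - c.1 * h5

section

variable {X : Type*} [MulAction (Spg B) X] {hB : IsSymp B} {ψ : AddChar F ℂ}

/-- the stabiliser of a point in the abelian group of a totally isotropic line -/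
noncomputable def S3 (hB : IsSymp B) {u w : V} (huw : B u w = 0) (x : X) : AddSubgroup (F × F × F) where
  carrier := {p | m3 hB u w p • x = x}
  zero_mem' := by
    show m3 hB u w 0 • x = x
    rw [m3_zero hB huw, one_smul]
  add_mem' := by
    intro p q hp hq
    show m3 hB u w (p + q) • x = x
    rw [m3_add hB huw]
    exact mul_fix hp hq
  neg_mem' := by
    intro p hp
    show m3 hB u w (-p) • x = x
    have h1 : m3 hB u w (-p) = (m3 hB u w p)⁻¹ := by
      rw [eq_inv_iff_mul_eq_one, ← m3_add hB huw, neg_add_cancel, m3_zero hB huw]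
    rw [h1]
    exact inv_fix hp

theorem mem_S3 {u w : V} (huw : B u w = 0) {x : X} {p : F × F × F} : p ∈ S3 hB huw x ↔ m3 hB u w p • x = x := Iff.rfl

theorem ann_S3 [Fintype F] {x : X} {c0 : F} (hc0 : c0 ≠ 0)
    (H : ∀ u : V, u ≠ 0 → ∃ a, tv hB a u • x = x ∧ ψ (c0 * a) ≠ 1) {u w : V} (huw : B u w = 0) (hu : u ≠ 0)
    (hw : ∀ μ : F, w ≠ μ • u) {c : F × F × F} (hc : c ∈ ann ψ (β3 F) (S3 hB huw x)) (l m : F) :
    c.1 * l ^ 2 + c.2.1 * l * m + c.2.2 * m ^ 2 ≠ c0 := by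
  intro he
  have h0 : l • u + m • w ≠ 0 := by
    intro h0
    by_cases hm : m = 0
    · rw [hm, zero_smul, add_zero] at h0
      have hl : l = 0 := (smul_eq_zero.1 h0).resolve_right hu
      rw [hm, hl] at he
      apply hc0
      rw [← he]; ring
    · apply hw (-(m⁻¹ * l))
      have h1 : m • w = -(l • u) := (neg_eq_of_add_eq_zero_right h0).symm
      calc w = m⁻¹ • m • w := by rw [inv_smul_smul₀ hm]
        _ = -(m⁻¹ * l) • u := by rw [h1, smul_neg, smul_smul, neg_smul]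
  obtain ⟨a, ha, hψa⟩ := H _ h0
  rw [m3_tv hB huw] at ha
  apply hψa
  have h1 := hc _ ha
  rw [β3_apply] at h1
  rw [← h1]
  congr 1
  rw [← he]
  ring

/-- Case I -/
theorem caseI_line [Fintype F] (h2 : (2 : F) ≠ 0) (hψ : ∃ a, ψ a ≠ 1) {x : X} {c0 : F} (hc0 : c0 ≠ 0)
    (H : ∀ u : V, u ≠ 0 → ∃ a, tv hB a u • x = x ∧ ψ (c0 * a) ≠ 1) {u w : V} (huw : B u w = 0) (hu : u ≠ 0)
    (hw : ∀ μ : F, w ≠ μ • u) : ∃ α β : F, (α ≠ 0 ∨ β ≠ 0) ∧ α • u + β • w ∈ Tx hB x := by
  obtain ⟨a0, ha0⟩ := hψ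
  obtain ⟨-, l, m, hlm, hz⟩ := common_zero h2 (ann ψ (β3 F) (S3 hB huw x))
    (fun c hc l m => ann_S3 hc0 H huw hu hw hc l m)
  refine ⟨l, m, hlm, fun a => ?_⟩
  rw [m3_tv hB huw]
  refine (mem_S3 (hB := hB) huw).1 (mem_of_ann β3_nondeg ha0 (fun c hc => ?_))
  rw [β3_apply]
  have h1 := hz c hc
  have h3 : c.1 * (a * l ^ 2) + c.2.1 * (a * l * m) + c.2.2 * (a * m ^ 2) = 0 := by
    linear_combination a * h1
  show ψ (c.1 * (a * l ^ 2) + c.2.1 * (a * l * m) + c.2.2 * (a * m ^ 2)) = 1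
  rw [h3, AddChar.map_zero_eq_one]

theorem caseI_add [Fintype F] (h2 : (2 : F) ≠ 0) (hψ : ∃ a, ψ a ≠ 1) {x : X} {c0 : F} (hc0 : c0 ≠ 0)
    (H : ∀ u : V, u ≠ 0 → ∃ a, tv hB a u • x = x ∧ ψ (c0 * a) ≠ 1) :
    ∀ u ∈ Tx hB x, ∀ w ∈ Tx hB x, B u w = 0 → u + w ∈ Tx hB x := by
  intro u hu w hw huw
  by_cases hu0 : u = 0
  · rw [hu0, zero_add]; exact hw
  by_cases hwu : ∃ μ : F, w = μ • u
  · obtain ⟨μ, rfl⟩ := hwu
    have h1 : u + μ • u = (1 + μ) • u := by rw [add_smul, one_smul]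
    rw [h1]
    exact Tx_smul hu _
  push Not at hwu
  obtain ⟨a0, ha0⟩ := hψ
  obtain ⟨h1, -⟩ := common_zero h2 (ann ψ (β3 F) (S3 hB huw x))
    (fun c hc l m => ann_S3 hc0 H huw hu0 hwu hc l m)
  have h3 : ∀ c ∈ ann ψ (β3 F) (S3 hB huw x), c = 0 := by
    intro c hc
    have hc1 : c.1 = 0 := by
      by_contra hne
      apply ha0
      have h4 := hc (a0 / c.1, 0, 0) (by
        rw [mem_S3]
        have := hu (a0 / c.1)
        have h5 := m3_tv hB huw (a0 / c.1) 1 0
        rw [one_smul, zero_smul, add_zero] at h5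
        rw [h5] at this
        convert this using 3
        simp)
      rw [β3_apply] at h4
      rw [← h4]
      congr 1
      show a0 = c.1 * (a0 / c.1) + c.2.1 * 0 + c.2.2 * 0
      field_simp
      ring
    have hc2 : c.2.2 = 0 := by
      by_contra hne
      apply ha0
      have h4 := hc (0, 0, a0 / c.2.2) (by
        rw [mem_S3]
        have := hw (a0 / c.2.2)
        have h5 := m3_tv hB huw (a0 / c.2.2) 0 1
        rw [one_smul, zero_smul, zero_add] at h5
        rw [h5] at this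
        convert this using 3
        simp)
      rw [β3_apply] at h4
      rw [← h4]
      congr 1
      show a0 = c.1 * 0 + c.2.1 * 0 + c.2.2 * (a0 / c.2.2)
      field_simp
      ring
    have hb := h1 c hc
    rw [hc1, mul_zero, zero_mul] at hb
    exact Prod.ext hc1 (Prod.ext ((pow_eq_zero_iff two_ne_zero).1 hb) hc2)
  intro a
  have h4 := m3_tv hB huw a 1 1
  rw [one_smul, one_smul] at h4
  rw [h4]
  refine (mem_S3 (hB := hB) huw).1 (mem_of_ann β3_nondeg ha0 (fun c hc => ?_))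
  rw [h3 c hc, map_zero, LinearMap.zero_apply, AddChar.map_zero_eq_one]

variable {v v' : V} [Fintype F] [Finite X] [Finite V] {t k : ℕ}

theorem false_of_caseI (S : Sm hB ψ v v' X t k) (h2 : (2 : F) ≠ 0) {x : X} {c0 : F} (hc0 : c0 ≠ 0)
    (H : ∀ u : V, u ≠ 0 → ∃ a, tv hB a u • x = x ∧ ψ (c0 * a) ≠ 1) (hne : ∃ u, u ∉ Tx hB x) : False :=
  false_of_lines S (caseI_add h2 S.hψ hc0 H) (fun _ _ hu hw huw => caseI_line h2 S.hψ hc0 H huw hu hw) hne

/-- in odd characteristic the annihilator in the quotient of a moved point is not zero -/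
theorem Dd_ne_bot_odd (S : Sm hB ψ v v' X t k) (h2 : (2 : F) ≠ 0) {x : X} (hx : v ∉ Tx hB x) :
    ∃ b ∈ (hk hB v v').Dd ψ (bU B v v') x, b ≠ 0 := by
  by_contra hcon
  push Not at hcon
  have h := S.h
  have hbar : ∀ w : ↥(Uc B v v'), ∃ a, sh hB 1 v (w : V) • x = tv hB a v • x := by
    intro w
    rw [← hk_bar hB, bar_iff h S.hψ]
    intro b hb
    rw [hcon b hb, ZeroMemClass.coe_zero, map_zero, LinearMap.zero_apply, AddChar.map_zero_eq_one]
  apply hx
  obtain ⟨b0, hb0⟩ : ∃ b0 : ↥(Uc B v v'), b0 ≠ 0 := by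
    by_contra hcon
    push Not at hcon
    have h6 : Nat.card ↥(Uc B v v') = 1 := by
      rw [Nat.card_eq_one_iff_unique]
      exact ⟨⟨fun a b => (hcon a).trans (hcon b).symm⟩, ⟨0⟩⟩
    have h7 := S.hU
    rw [h6] at h7
    have h8 := S.k_ge
    have : 0 < (t + 2) * k := Nat.mul_pos (by omega) (by omega)
    omega
  obtain ⟨w, hw, hbw⟩ := Uc_nondeg hB h b0 b0.2 (fun h => hb0 (Subtype.ext h))
  intro a
  obtain ⟨a1, h3⟩ := hbar ((a / (2 * B (b0 : V) w)) • b0)
  obtain ⟨a2, h4⟩ := hbar ⟨w, hw⟩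
  have hm1 := mem_Uc.1 ((a / (2 * B (b0 : V) w)) • b0).2
  have hm2 := mem_Uc.1 hw
  set y := (((a / (2 * B (b0 : V) w)) • b0 : ↥(Uc B v v')) : V) with hy
  have h5 : (sh hB 1 v y * sh hB 1 v w) • x = (sh hB 1 v w * sh hB 1 v y) • x := by
    rw [mul_smul, mul_smul, h4, h3, ← mul_smul, ← mul_smul, tv_comm_sh hB _ hm1.1, tv_comm_sh hB _ hm2.1, mul_smul,
      mul_smul, h3, h4, ← mul_smul, ← mul_smul, tv_mul, tv_mul, add_comm]
  rw [sh_mul hB hm1.1 hm2.1, sh_mul hB hm2.1 hm1.1, add_comm w y, mul_smul, mul_smul] at h5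
  have h6 := MulAction.injective _ h5
  have h7 : B y w = a / 2 := by
    rw [hy, Submodule.coe_smul, map_smul, LinearMap.smul_apply, smul_eq_mul]
    field_simp
  rw [hB.skew w y, h7] at h6
  have h8 : tv hB (a / 2) v • tv hB (a / 2) v • x = tv hB (a / 2) v • tv hB (-(a / 2)) v • x := by rw [h6]
  rw [← mul_smul, ← mul_smul, tv_mul, tv_mul, add_neg_cancel, tv_zero, one_smul, show a / 2 + a / 2 = a by field_simp; ring] at h8
  exact h8

end

end Cfsg.Agent.Lib.MSp
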