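import Mathlib
import Cfsg.Agent.Lib.MSpJ

set_option autoImplicit false
set_option linter.unusedSectionVars false

/-!
Points of type L: local analysis (helper60).
-/

namespace Cfsg.Agent.Lib.MSp

open Cfsg.Agent.Lib.Coop Cfsg.Agent.Lib.ClSymp Cfsg.Agent.Lib.ClSymp2

variable {F V : Type*} [Field F] [AddCommGroup V] [Module F V] {B : LinearMap.BilinForm F V}

section

variable {X : Type*} [MulAction (Spg B) X]

/-- the local structure at a point of type L -/
structure LP (hB : IsSymp B) (v v' : V) (x : X) (b : V) : Prop where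
  h : B v v' = 1
  hb : b ∈ Uc B v v'
  hb0 : b ≠ 0
  bar : ∀ w ∈ Uc B v v', (∃ a, sh hB 1 v w • x = tv hB a v • x) ↔ B b w = 0
  lift : ∀ l : Spg B, (l : V ≃ₗ[F] V) v = v → (l : V ≃ₗ[F] V) v' = v' →
    (∃ μ : F, μ ≠ 0 ∧ (l : V ≃ₗ[F] V) b = μ • b) →
    ∃ w ∈ Uc B v v', ∃ e : F, (sh hB 1 v w * (tv hB e v * l)) • x = x
  free : ∀ u, u ≠ 0 → ∀ a, tv hB a u • x = x → a = 0

variable {hB : IsSymp B} {v v' : V} {x : X} {b : V}

theorem LP.v0 (H : LP hB v v' x b) : v ≠ 0 := by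
  rintro rfl
  have := H.h
  rw [map_zero, LinearMap.zero_apply] at this
  exact zero_ne_one this

theorem LP.ex (H : LP hB v v' x b) {w : V} (hw : w ∈ Uc B v v') (hbw : B b w = 0) :
    ∃ c, (sh hB 1 v w * tv hB c v) • x = x := by
  obtain ⟨a, ha⟩ := (H.bar w hw).2 hbw
  refine ⟨-a, ?_⟩
  rw [tv_comm_sh hB _ (mem_Uc.1 hw).1, mul_smul, ha, ← mul_smul, tv_mul, neg_add_cancel, tv_zero, one_smul]

theorem LP.uniq (H : LP hB v v' x b) {g : Spg B} {c c' : F} (h1 : (g * tv hB c v) • x = x)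
    (h2 : (g * tv hB c' v) • x = x) : c = c' := by
  rw [mul_smul] at h1 h2
  have h3 := MulAction.injective g (h1.trans h2.symm)
  have h4 : tv hB (c - c') v • x = x := by
    have h5 : tv hB (-c') v • tv hB c v • x = tv hB (-c') v • tv hB c' v • x := by rw [h3]
    rw [← mul_smul, ← mul_smul, tv_mul, tv_mul, neg_add_cancel, tv_zero, one_smul] at h5
    rwa [show c - c' = -c' + c by ring]
  exact sub_eq_zero.1 (H.free v H.v0 _ h4)

/-- commutators in the unipotent radical -/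
theorem sh_swap (hB : IsSymp B) {v w w' : V} (hw : B v w = 0) (hw' : B v w' = 0) :
    sh hB 1 v w * sh hB 1 v w' = sh hB 1 v w' * sh hB 1 v w * tv hB (2 * B w w') v := by
  rw [sh_mul hB hw hw', sh_mul hB hw' hw, mul_assoc, tv_mul, add_comm w' w, hB.skew w' w]
  congr 2
  ring

/-- conjugation by a lift -/
theorem conj_lift (hB : IsSymp B) {x : X} {v w0 w : V} {e c : F} {l : Spg B} (hw0 : B v w0 = 0) (hw : B v w = 0)
    (hl : (l : V ≃ₗ[F] V) v = v) (h1 : (sh hB 1 v w0 * (tv hB e v * l)) • x = x)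
    (h2 : (sh hB 1 v w * tv hB c v) • x = x) :
    (sh hB 1 v ((l : V ≃ₗ[F] V) w) * tv hB (c + 2 * B w0 ((l : V ≃ₗ[F] V) w)) v) • x = x := by
  have hlw : B v ((l : V ≃ₗ[F] V) w) = 0 := perp_act hl hw
  set k := sh hB 1 v w0 * (tv hB e v * l) with hk
  have h3 : (k * (sh hB 1 v w * tv hB c v) * k⁻¹) • x = x := mul_fix (mul_fix h1 h2) (inv_fix h1)
  have h4 : k * (sh hB 1 v w * tv hB c v) * k⁻¹ =
      sh hB 1 v ((l : V ≃ₗ[F] V) w) * tv hB (c + 2 * B w0 ((l : V ≃ₗ[F] V) w)) v := by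
    have h5 : k * (sh hB 1 v w * tv hB c v) * k⁻¹ = (k * sh hB 1 v w * k⁻¹) * (k * tv hB c v * k⁻¹) := by group
    have hkv : (k : V ≃ₗ[F] V) v = v := by
      rw [hk, mul_apply', mul_apply', hl, tv_apply, sh_apply hB _ _ _ hw0]
      simp [hB.alt, hB.skew w0 v, hw0]
    have hkw : (k : V ≃ₗ[F] V) w = (l : V ≃ₗ[F] V) w + B w0 ((l : V ≃ₗ[F] V) w) • v := by
      rw [hk, mul_apply', mul_apply', tv_apply, sh_apply hB _ _ _ hw0, hlw]
      simp [hlw]
    rw [h5, sh_conj, tv_conj, hkv, hkw, sh_add_smul hB _ hlw, mul_assoc, tv_mul]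
    congr 2
    ring
  rw [← h4]
  exact h3

/-- odd characteristic, at least four dimensions -/
theorem LP.false1 (H : LP hB v v' x b) (h2 : (2 : F) ≠ 0) {w w' : V} (hw : w ∈ Uc B v v') (hw' : w' ∈ Uc B v v')
    (hbw : B b w = 0) (hbw' : B b w' = 0) (hww : B w w' ≠ 0) : False := by
  obtain ⟨c, hc⟩ := H.ex hw hbw
  obtain ⟨c', hc'⟩ := H.ex hw' hbw'
  have hm := (mem_Uc.1 hw).1
  have hm' := (mem_Uc.1 hw').1
  have h3 := mul_fix hc hc'
  have h4 := mul_fix hc' hc
  have e1 : sh hB 1 v w * tv hB c v * (sh hB 1 v w' * tv hB c' v) =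
      sh hB 1 v (w + w') * tv hB (B w w' + (c + c')) v := by
    rw [mul_assoc, ← mul_assoc (tv hB c v), ← tv_comm_sh hB c hm', mul_assoc (sh hB 1 v w'), tv_mul, ← mul_assoc,
      sh_mul hB hm hm', mul_assoc, tv_mul]
  have e2 : sh hB 1 v w' * tv hB c' v * (sh hB 1 v w * tv hB c v) =
      sh hB 1 v (w + w') * tv hB (B w' w + (c' + c)) v := by
    rw [mul_assoc, ← mul_assoc (tv hB c' v), ← tv_comm_sh hB c' hm, mul_assoc (sh hB 1 v w), tv_mul, ← mul_assoc,
      sh_mul hB hm' hm, mul_assoc, tv_mul, add_comm w' w]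
  rw [e1] at h3
  rw [e2] at h4
  have h5 := H.uniq h3 h4
  rw [hB.skew w' w] at h5
  apply hww
  have h6 : (2 : F) * B w w' = 0 := by linear_combination h5
  exact (mul_eq_zero.1 h6).resolve_left h2

/-- even characteristic, at least four dimensions -/
theorem LP.false2 (H : LP hB v v' x b) (h2 : (2 : F) = 0) {s : F} (hs0 : s ≠ 0) (hs1 : s ≠ 1) {w y : V}
    (hw : w ∈ Uc B v v') (hy : y ∈ Uc B v v') (hbw : B b w = 0) (hby : B b y = 0) (hww : B w y ≠ 0) : False := by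
  have hyw : B y w ≠ 0 := by rw [hB.skew]; exact neg_ne_zero.2 hww
  have key : ∀ s : F, s ≠ 0 → (sh hB 1 v y * tv hB s v) • x = x := by
    intro s hs
    have hm : (s / B y w) • w ∈ Uc B v v' := Submodule.smul_mem _ _ hw
    have hbm : B b ((s / B y w) • w) = 0 := by rw [map_smul, hbw, smul_zero]
    obtain ⟨c, hc⟩ := H.ex hm hbm
    obtain ⟨w0, hw0, e, he⟩ := H.lift (tv hB s⁻¹ y)
      (by rw [tv_apply, hB.skew y v, (mem_Uc.1 hy).1]; simp)
      (by rw [tv_apply, hB.skew y v', (mem_Uc.1 hy).2]; simp)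
      ⟨1, one_ne_zero, by rw [tv_apply, hB.skew y b, hby]; simp⟩
    have h3 := conj_lift hB (mem_Uc.1 hw0).1 (mem_Uc.1 hm).1
      (by rw [tv_apply, hB.skew y v, (mem_Uc.1 hy).1]; simp) he hc
    have h4 : ((tv hB s⁻¹ y : Spg B) : V ≃ₗ[F] V) ((s / B y w) • w) = (s / B y w) • w + y := by
      rw [tv_apply, map_smul, smul_eq_mul, div_mul_cancel₀ _ hyw, inv_mul_cancel₀ hs, one_smul]
    rw [h4, h2, zero_mul, add_zero] at h3
    have h5 := sh_mul hB (mem_Uc.1 hm).1 (mem_Uc.1 hy).1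
    have h6 : B ((s / B y w) • w) y = -s := by
      rw [map_smul, LinearMap.smul_apply, hB.skew w y, smul_eq_mul]
      field_simp
    rw [h6] at h5
    have h7 : sh hB 1 v y * tv hB s v =
        (sh hB 1 v ((s / B y w) • w) * tv hB c v)⁻¹ * (sh hB 1 v ((s / B y w) • w + y) * tv hB c v) := by
      rw [eq_inv_mul_iff_mul_eq]
      have h8 : sh hB 1 v ((s / B y w) • w + y) = sh hB 1 v ((s / B y w) • w) * sh hB 1 v y * tv hB s v := by
        rw [h5, mul_assoc, tv_mul, neg_add_cancel, tv_zero, mul_one]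
      rw [h8]
      simp only [mul_assoc]
      rw [tv_mul, add_comm s c, ← tv_mul, ← mul_assoc (tv hB c v), ← tv_comm_sh hB c (mem_Uc.1 hy).1, mul_assoc]
    rw [h7]
    exact mul_fix (inv_fix hc) h3
  exact hs1 (H.uniq (key s hs0) (key 1 one_ne_zero))

/-- a lift when the point is adapted -/
theorem LP.lift' (H : LP hB v v' x b) (hdim : ∀ w ∈ Uc B v v', B b w = 0 → ∃ μ : F, w = μ • b)
    (hfix : ∀ t : F, sh hB 1 v (t • b) • x = x) {w0 : V} (hw0 : w0 ∈ Uc B v v') (hbw : B b w0 = 0) {g : Spg B}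
    (hg : (sh hB 1 v w0 * g) • x = x) : g • x = x := by
  obtain ⟨μ, rfl⟩ := hdim w0 hw0 hbw
  rw [mul_smul] at hg
  have h1 := hfix μ
  exact MulAction.injective (sh hB 1 v (μ • b)) (hg.trans h1.symm)

theorem LP.lift_odd (H : LP hB v v' x b) (h2 : (2 : F) ≠ 0)
    (hdim : ∀ w ∈ Uc B v v', B b w = 0 → ∃ μ : F, w = μ • b)
    (hfix : ∀ t : F, sh hB 1 v (t • b) • x = x) (l : Spg B) (hv : (l : V ≃ₗ[F] V) v = v) (hv' : (l : V ≃ₗ[F] V) v' = v')
    (μ : F) (hμ : μ ≠ 0) (hb : (l : V ≃ₗ[F] V) b = μ • b) : ∃ e, (tv hB e v * l) • x = x := by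
  obtain ⟨w0, hw0, e, he⟩ := H.lift l hv hv' ⟨μ, hμ, hb⟩
  have h1 : (sh hB 1 v b * tv hB 0 v) • x = x := by
    have h0 := hfix 1
    rw [one_smul] at h0
    rw [tv_zero, mul_one]
    exact h0
  have h3 := conj_lift hB (mem_Uc.1 hw0).1 (mem_Uc.1 H.hb).1 hv he h1
  rw [hb] at h3
  have h4 := H.uniq (g := sh hB 1 v (μ • b)) (c := 0) (by rw [tv_zero, mul_one]; exact hfix μ) h3
  have h5 : B b w0 = 0 := by
    rw [hB.skew]
    rw [map_smul, smul_eq_mul] at h4
    have h6 : (2 * μ) * B w0 b = 0 := by linear_combination -h4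
    rw [(mul_eq_zero.1 h6).resolve_left (mul_ne_zero h2 hμ), neg_zero]
  exact ⟨e, H.lift' hdim hfix hw0 h5 he⟩

/-- final contradiction in odd characteristic and dimension two -/
theorem LP.false3 (H : LP hB v v' x b) (h2 : (2 : F) ≠ 0)
    (hq : ∃ l1 l2 : F, l1 ≠ 0 ∧ l2 ≠ 0 ∧ (l1 ^ 2 + l2 ^ 2 = 0 ∨ l1 ^ 2 + l2 ^ 2 = 1))
    (hdim : ∀ w ∈ Uc B v v', B b w = 0 → ∃ μ : F, w = μ • b)
    (hfix : ∀ t : F, sh hB 1 v (t • b) • x = x) : False := by
  have hvb : B v b = 0 := (mem_Uc.1 H.hb).1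
  have hbv : B b v = 0 := by rw [hB.skew, hvb, neg_zero]
  have hbv' : B b v' = 0 := by rw [hB.skew, (mem_Uc.1 H.hb).2, neg_zero]
  have hcomm : ∀ (e a : F), tv hB e v * tv hB a b = tv hB a b * tv hB e v := by
    intro e a
    have := tv_conj hB (tv hB a b) e v
    rw [tv_apply, hbv, mul_zero, zero_smul, add_zero] at this
    exact (mul_inv_eq_iff_eq_mul.1 this).symm
  have hex : ∀ a : F, ∃ e, (tv hB a b * tv hB e v) • x = x := by
    intro a
    obtain ⟨e, he⟩ := H.lift_odd h2 hdim hfix (tv hB a b) (by rw [tv_apply, hbv]; simp) (by rw [tv_apply, hbv']; simp)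
      1 one_ne_zero (by rw [tv_apply, hB.alt]; simp)
    exact ⟨e, by rw [← hcomm]; exact he⟩
  choose ξ hξ using hex
  have hadd : ∀ a a', ξ (a + a') = ξ a + ξ a' := by
    intro a a'
    refine H.uniq (hξ _) ?_
    have h3 := mul_fix (hξ a) (hξ a')
    have h4 : tv hB a b * tv hB (ξ a) v * (tv hB a' b * tv hB (ξ a') v) =
        tv hB (a + a') b * tv hB (ξ a + ξ a') v := by
      rw [← tv_mul, ← tv_mul]
      simp only [mul_assoc]
      rw [← mul_assoc (tv hB (ξ a) v), hcomm, mul_assoc]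
    rw [← h4]
    exact h3
  have hinv : ∀ l a : F, l ≠ 0 → ξ (a * l ^ 2) = ξ a := by
    intro l a hl
    obtain ⟨g, hg, hgb⟩ := trans_one hB (Uc_nondeg hB H.h) H.hb (Submodule.smul_mem _ l H.hb) H.hb0
      (smul_ne_zero hl H.hb0)
    obtain ⟨h3, h4⟩ := TU_Uc hB hg
    obtain ⟨e, he⟩ := H.lift_odd h2 hdim hfix g h3 h4 l hl hgb
    have h5 := mul_fix (mul_fix he (hξ a)) (inv_fix he)
    refine H.uniq (hξ _) ?_
    have h6 : tv hB e v * g * (tv hB a b * tv hB (ξ a) v) * (tv hB e v * g)⁻¹ =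
        tv hB (a * l ^ 2) b * tv hB (ξ a) v := by
      have h7 : tv hB e v * g * (tv hB a b * tv hB (ξ a) v) * (tv hB e v * g)⁻¹ =
        tv hB e v * ((g * tv hB a b * g⁻¹) * (g * tv hB (ξ a) v * g⁻¹)) * (tv hB e v)⁻¹ := by group
      rw [h7, tv_conj, tv_conj, h3, hgb, tv_smul, mul_inv_eq_iff_eq_mul, ← mul_assoc, hcomm, mul_assoc, mul_assoc,
        tv_mul, tv_mul, add_comm e]
    rw [← h6]
    exact h5
  have hz : ξ 1 = 0 := by
    obtain ⟨l1, l2, hl1, hl2, h3⟩ := hq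
    have h4 := hadd (1 * l1 ^ 2) (1 * l2 ^ 2)
    rw [hinv l1 1 hl1, hinv l2 1 hl2, one_mul, one_mul] at h4
    rcases h3 with h3 | h3
    · rw [h3] at h4
      have h5 := hadd 0 0
      rw [add_zero] at h5
      have h6 : ξ 0 = 0 := by linear_combination -h5
      rw [h6] at h4
      have h7 : 2 * ξ 1 = 0 := by linear_combination -h4
      exact (mul_eq_zero.1 h7).resolve_left h2
    · rw [h3] at h4
      linear_combination -h4
  have h3 := hξ 1
  rw [hz, tv_zero, mul_one] at h3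
  exact one_ne_zero (H.free b H.hb0 1 h3)

/-- making a point adapted, in odd characteristic -/
theorem LP.false4 (H : ∀ w ∈ Uc B v v', LP hB v v' (sh hB 1 v w • x) b) (h2 : (2 : F) ≠ 0)
    (hq : ∃ l1 l2 : F, l1 ≠ 0 ∧ l2 ≠ 0 ∧ (l1 ^ 2 + l2 ^ 2 = 0 ∨ l1 ^ 2 + l2 ^ 2 = 1))
    (hdim : ∀ w ∈ Uc B v v', B b w = 0 → ∃ μ : F, w = μ • b) : False := by
  have H0 : LP hB v v' x b := by
    have := H 0 (zero_mem _)
    rwa [sh_zero, one_smul] at this
  have hvb : B v b = 0 := (mem_Uc.1 H0.hb).1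
  obtain ⟨g, hg, hgb⟩ := trans_one hB (Uc_nondeg hB H0.h) H0.hb (Submodule.smul_mem _ (2 : F) H0.hb) H0.hb0
    (smul_ne_zero h2 H0.hb0)
  obtain ⟨h3, h4⟩ := TU_Uc hB hg
  obtain ⟨w0, hw0, e, he⟩ := H0.lift g h3 h4 ⟨2, h2, hgb⟩
  have key : ∀ t : F, (sh hB 1 v (t • b) * tv hB (t * (4 * B w0 b)) v) • x = x := by
    intro t
    have hm : t • b ∈ Uc B v v' := Submodule.smul_mem _ _ H0.hb
    have hvm := (mem_Uc.1 hm).1
    obtain ⟨c, hc⟩ := H0.ex hm (by rw [map_smul, hB.alt, smul_zero])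
    have h5 := conj_lift hB (mem_Uc.1 hw0).1 hvm h3 he hc
    have h6 := mul_fix hc hc
    have e1 : sh hB 1 v (t • b) * tv hB c v * (sh hB 1 v (t • b) * tv hB c v) =
        sh hB 1 v ((g : V ≃ₗ[F] V) (t • b)) * tv hB (c + c) v := by
      rw [mul_assoc, ← mul_assoc (tv hB c v), ← tv_comm_sh hB c hvm, mul_assoc (sh hB 1 v (t • b)), tv_mul, ← mul_assoc,
        sh_mul hB hvm hvm, hB.alt, tv_zero, mul_one, map_smul, hgb]
      congr 2
      module
    rw [e1] at h6
    have h7 := H0.uniq h6 h5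
    have h8 : c = t * (4 * B w0 b) := by
      rw [map_smul, hgb, map_smul, map_smul, smul_eq_mul, smul_eq_mul] at h7
      linear_combination h7
    rw [← h8]
    exact hc
  obtain ⟨z, hz, hbz⟩ := Uc_nondeg hB H0.h b H0.hb H0.hb0
  set w1 := (2 * B w0 b / B b z) • z with hw1
  have hw1m : w1 ∈ Uc B v v' := Submodule.smul_mem _ _ hz
  have hbw1 : B b w1 = 2 * B w0 b := by
    rw [hw1, map_smul, smul_eq_mul, div_mul_cancel₀ _ hbz]
  refine (H w1 hw1m).false3 h2 hq hdim ?_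
  intro t
  have hm : t • b ∈ Uc B v v' := Submodule.smul_mem _ _ H0.hb
  rw [← mul_smul, sh_swap hB (mem_Uc.1 hm).1 (mem_Uc.1 hw1m).1, mul_assoc, mul_smul]
  congr 1
  have h5 : 2 * B (t • b) w1 = t * (4 * B w0 b) := by
    rw [LinearMap.map_smul₂, hbw1, smul_eq_mul]
    ring
  rw [h5]
  exact key t

/-- even characteristic and dimension two -/
theorem LP.false5 (H : LP hB v v' x b) (h2 : (2 : F) = 0) (hsq : ∀ a : F, ∃ s : F, s ^ 2 = a) {s : F} (hs0 : s ≠ 0)
    (hs1 : s ≠ 1) (hdim : ∀ w ∈ Uc B v v', B b w = 0 → ∃ μ : F, w = μ • b) : False := by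
  have hvb : B v b = 0 := (mem_Uc.1 H.hb).1
  have hbv : B b v = 0 := by rw [hB.skew, hvb, neg_zero]
  have hbv' : B b v' = 0 := by rw [hB.skew, (mem_Uc.1 H.hb).2, neg_zero]
  have hmt : ∀ t : F, t • b ∈ Uc B v v' := fun t => Submodule.smul_mem _ _ H.hb
  have hex : ∀ t : F, ∃ c, (sh hB 1 v (t • b) * tv hB c v) • x = x := fun t =>
    H.ex (hmt t) (by rw [map_smul, hB.alt, smul_zero])
  choose c hc using hex
  have hadd : ∀ t t', c (t + t') = c t + c t' := by
    intro t t'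
    refine H.uniq (hc _) ?_
    have h3 := mul_fix (hc t) (hc t')
    have e1 : sh hB 1 v (t • b) * tv hB (c t) v * (sh hB 1 v (t' • b) * tv hB (c t') v) =
        sh hB 1 v ((t + t') • b) * tv hB (c t + c t') v := by
      rw [mul_assoc, ← mul_assoc (tv hB (c t) v), ← tv_comm_sh hB (c t) (mem_Uc.1 (hmt t')).1,
        mul_assoc (sh hB 1 v (t' • b)), tv_mul, ← mul_assoc, sh_mul hB (mem_Uc.1 (hmt t)).1 (mem_Uc.1 (hmt t')).1,
        map_smul, map_smul, LinearMap.smul_apply, hB.alt, smul_zero, smul_zero, tv_zero, mul_one, ← add_smul]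
    rw [← e1]
    exact h3
  have hinv : ∀ l t : F, l ≠ 0 → c (t * l) = c t := by
    intro l t hl
    obtain ⟨g, hg, hgb⟩ := trans_one hB (Uc_nondeg hB H.h) H.hb (Submodule.smul_mem _ l H.hb) H.hb0
      (smul_ne_zero hl H.hb0)
    obtain ⟨h3, h4⟩ := TU_Uc hB hg
    obtain ⟨w0, hw0, e, he⟩ := H.lift g h3 h4 ⟨l, hl, hgb⟩
    have h5 := conj_lift hB (mem_Uc.1 hw0).1 (mem_Uc.1 (hmt t)).1 h3 he (hc t)
    rw [h2, zero_mul, add_zero, map_smul, hgb, smul_smul] at h5
    exact H.uniq (hc _) h5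
  have h1s : 1 + s ≠ 0 := by
    intro h0
    apply hs1
    have : s = 1 := by linear_combination h0 - h2
    exact this
  have hc0 : ∀ t, c t = 0 := by
    intro t
    have h3 := hadd t (t * s)
    rw [show t + t * s = t * (1 + s) by ring, hinv _ _ h1s, hinv _ _ hs0] at h3
    linear_combination -h3
  have hfix : ∀ t : F, sh hB 1 v (t • b) • x = x := by
    intro t
    have := hc t
    rwa [hc0, tv_zero, mul_one] at this
  obtain ⟨w0, hw0, e, he⟩ := H.lift (tv hB 1 b) (by rw [tv_apply, hbv]; simp) (by rw [tv_apply, hbv']; simp)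
    ⟨1, one_ne_zero, by rw [tv_apply, hB.alt]; simp⟩
  have hvw0 := (mem_Uc.1 hw0).1
  have hbw : B b w0 = 0 := by
    have h3 := mul_fix he he
    have h4 : (sh hB 1 v w0 * (tv hB e v * tv hB 1 b)) * (sh hB 1 v w0 * (tv hB e v * tv hB 1 b)) =
        sh hB 1 v (B b w0 • b) * tv hB (B b w0 ^ 2) v := by
      set l := tv hB e v * tv hB 1 b with hl
      have hlv : (l : V ≃ₗ[F] V) v = v := by
        rw [hl, mul_apply', tv_apply, tv_apply]
        simp [hbv, hB.alt]
      have hlw : (l : V ≃ₗ[F] V) w0 = w0 + B b w0 • b := by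
        rw [hl, mul_apply', tv_apply, tv_apply]
        simp [hvb, hvw0]
      have hll : l * l = 1 := by
        apply Spg_ext
        intro y
        have h20 : ∀ z : V, z + z = 0 := fun z => by
          have : (2 : F) • z = z + z := two_smul F z
          rw [← this, h2, zero_smul]
        have hly : ∀ y : V, (l : V ≃ₗ[F] V) y = y + B b y • b + (e * B v y) • v := by
          intro y
          rw [hl, mul_apply', tv_apply, tv_apply]
          simp [hvb]
        rw [mul_apply', hly, hly]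
        simp only [map_add, map_smul, hvb, hbv, hB.alt, smul_zero, add_zero]
        have h6 : y + B b y • b + (e * B v y) • v + B b y • b + (e * B v y) • v =
          y + (B b y • b + B b y • b) + ((e * B v y) • v + (e * B v y) • v) := by abel
        rw [h6, h20, h20, add_zero, add_zero]
        rfl
      have h5 : sh hB 1 v w0 * l * (sh hB 1 v w0 * l) = sh hB 1 v w0 * (l * sh hB 1 v w0 * l⁻¹) * (l * l) := by group
      have hw0b : B w0 b = -B b w0 := hB.skew _ _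
      rw [h5, hll, mul_one, sh_conj, hlv, hlw, sh_mul hB hvw0 (by rw [map_add, map_smul, hvw0, hvb, smul_zero, add_zero])]
      have h6 : w0 + (w0 + B b w0 • b) = B b w0 • b := by
        have : (2 : F) • w0 = w0 + w0 := two_smul F w0
        rw [← add_assoc, ← this, h2, zero_smul, zero_add]
      have h7 : B w0 (w0 + B b w0 • b) = B b w0 ^ 2 := by
        rw [map_add, map_smul, hB.alt, hw0b, smul_eq_mul]
        linear_combination (-B b w0 ^ 2) * h2
      rw [h6, h7]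
    rw [h4] at h3
    have h5 := H.uniq (g := sh hB 1 v (B b w0 • b)) (c := 0) (by rw [tv_zero, mul_one]; exact hfix _) h3
    exact (pow_eq_zero_iff two_ne_zero).1 h5.symm
  have h3 := H.lift' hdim hfix hw0 hbw he
  obtain ⟨r, hr⟩ := hsq e
  have h4 : tv hB 1 (b + r • v) = sh hB 1 v (r • b) * (tv hB e v * tv hB 1 b) := by
    apply Spg_ext
    intro y
    have hm1 : B v (r • b) = 0 := by rw [map_smul, hvb, smul_zero]
    simp only [mul_apply', tv_apply, sh_apply hB _ _ _ hm1, ← hr]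
    simp only [map_add, map_smul, LinearMap.add_apply, LinearMap.smul_apply, hB.alt, hvb, hbv, smul_eq_mul]
    module
  have h5 : b + r • v ≠ 0 := by
    intro h0
    have h6 := (mem_Uc.1 H.hb).2
    have h7 : b = -(r • v) := eq_neg_of_add_eq_zero_left h0
    rw [h7, map_neg, map_smul, hB.skew v' v, H.h, smul_eq_mul] at h6
    have hr0 : r = 0 := by linear_combination h6
    apply H.hb0
    rw [h7, hr0, zero_smul, neg_zero]
  refine one_ne_zero (H.free _ h5 1 ?_)
  rw [h4]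
  exact mul_fix (hfix r) h3

end

end Cfsg.Agent.Lib.MSp
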