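import Mathlib
import Cfsg.Agent.Lib.MSpK

set_option autoImplicit false
set_option linter.unusedSectionVars false

/-!
Elimination of type L (helper60).
-/

namespace Cfsg.Agent.Lib.MSp

open Cfsg.Agent.Lib.Coop Cfsg.Agent.Lib.ClSymp Cfsg.Agent.Lib.ClSymp2

variable {F V : Type*} [Field F] [AddCommGroup V] [Module F V] {B : LinearMap.BilinForm F V}

section

variable {X : Type*} [MulAction (Spg B) X] {hB : IsSymp B} {v v' : V} {ψ : AddChar F ℂ}
variable [Fintype F] [Finite X] [Finite V] {t k : ℕ}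

theorem exists_Uc_ne (S : Sm hB ψ v v' X t k) : ∃ b0 : ↥(Uc B v v'), b0 ≠ 0 := by
  by_contra hcon
  push Not at hcon
  have h6 : Nat.card ↥(Uc B v v') = 1 := by
    rw [Nat.card_eq_one_iff_unique]
    exact ⟨⟨fun a b => (hcon a).trans (hcon b).symm⟩, ⟨0⟩⟩
  have h7 := S.hU
  rw [h6] at h7
  have h8 := S.k_ge
  have : 0 < (t + 2) * k := Nat.mul_pos (by omega) (by omega)
  omega

theorem L_Dd (S : Sm hB ψ v v' X t k) (hpos : Pos hB ψ v v' X) {y : X} (hy : TL hB ψ v v' y) {c : F} (hc0 : c ≠ 0)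
    (hc : c ∈ (hk hB v v').Cc ψ y) {x : X} {b : ↥(Uc B v v')} (hb0 : b ≠ 0)
    (hx : b ∈ (hk hB v v').Dd ψ (bU B v v') x) (s : ↥(Uc B v v')) :
    s ∈ (hk hB v v').Dd ψ (bU B v v') x ↔ ∃ μ : F, s = μ • b := by
  obtain ⟨⟨b', hb', hb'0, hs⟩, hcard⟩ := L_TL S hpos hy hc0 hc hb0 hx
  have h1 := (card_TL hb'0 hs).2 (by rw [hcard, Nat.card_eq_fintype_card, S.hq])
  obtain ⟨ν, hν⟩ := hs b hx
  have hν0 : ν ≠ 0 := by
    rintro rfl
    rw [zero_smul] at hν
    exact hb0 hν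
  constructor
  · intro h
    obtain ⟨μ, hμ⟩ := hs s h
    refine ⟨μ * ν⁻¹, ?_⟩
    rw [hν, smul_smul, mul_assoc, inv_mul_cancel₀ hν0, mul_one, hμ]
  · rintro ⟨μ, rfl⟩
    rw [hν, smul_smul]
    exact h1 _

theorem L_bar (S : Sm hB ψ v v' X t k) (hpos : Pos hB ψ v v' X) {y : X} (hy : TL hB ψ v v' y) {c : F} (hc0 : c ≠ 0)
    (hc : c ∈ (hk hB v v').Cc ψ y) {x : X} {b : ↥(Uc B v v')} (hb0 : b ≠ 0)
    (hx : b ∈ (hk hB v v').Dd ψ (bU B v v') x) (w : ↥(Uc B v v')) :
    (∃ a, sh hB 1 v (w : V) • x = tv hB a v • x) ↔ B (b : V) (w : V) = 0 := by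
  rw [← hk_bar hB, bar_iff S.h S.hψ]
  constructor
  · intro h
    by_contra hne
    obtain ⟨a, ha⟩ := S.hψ
    have h1 := h ((a / B (b : V) (w : V)) • b) ((L_Dd S hpos hy hc0 hc hb0 hx _).2 ⟨_, rfl⟩)
    rw [Submodule.coe_smul, map_smul, LinearMap.smul_apply, smul_eq_mul, div_mul_cancel₀ _ hne] at h1
    exact ha h1
  · intro h s hs
    obtain ⟨μ, rfl⟩ := (L_Dd S hpos hy hc0 hc hb0 hx _).1 hs
    rw [Submodule.coe_smul, map_smul, LinearMap.smul_apply, smul_eq_mul, h, mul_zero, AddChar.map_zero_eq_one]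

theorem L_free (S : Sm hB ψ v v' X t k) (hpos : Pos hB ψ v v' X) {y : X} (hy : TL hB ψ v v' y) {c : F} (hc0 : c ≠ 0)
    (hc : c ∈ (hk hB v v').Cc ψ y) {x : X} {b : ↥(Uc B v v')} (hb0 : b ≠ 0)
    (hx : b ∈ (hk hB v v').Dd ψ (bU B v v') x) (a : F) (ha : tv hB a v • x = x) : a = 0 := by
  have h1 := L_Cc S hpos hy hc0 hc hb0 hx
  by_contra hne
  obtain ⟨e, he⟩ := S.hψ
  have h2 : e / a ∈ (hk hB v v').Cc ψ x := by rw [h1]; exact AddSubgroup.mem_top _
  rw [HK.mem_Cc] at h2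
  have h3 := h2 a ha
  rw [div_mul_cancel₀ _ hne] at h3
  exact he h3

theorem L_lift (S : Sm hB ψ v v' X t k) (hpos : Pos hB ψ v v' X) {y : X} (hy : TL hB ψ v v' y) {c : F} (hc0 : c ≠ 0)
    (hc : c ∈ (hk hB v v').Cc ψ y) {x : X} {b : ↥(Uc B v v')} (hb0 : b ≠ 0)
    (hx : b ∈ (hk hB v v').Dd ψ (bU B v v') x) (l : Spg B) (hl : (l : V ≃ₗ[F] V) v = v) (hl' : (l : V ≃ₗ[F] V) v' = v')
    (hlb : ∃ μ : F, μ ≠ 0 ∧ (l : V ≃ₗ[F] V) b = μ • (b : V)) :
    ∃ w ∈ Uc B v v', ∃ e : F, (sh hB 1 v w * (tv hB e v * l)) • x = x := by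
  obtain ⟨μ, hμ, hlb⟩ := hlb
  have h1 : μ • b ∈ (hk hB v v').Dd ψ (bU B v v') (l • x) := by
    rw [Dd_act hB ψ one_ne_zero (by rw [hl, one_smul]) (by rw [hl', inv_one, one_smul]) (b' := b) (by
      rw [one_smul, hlb]; rfl)]
    exact hx
  have h2 : μ • b ∈ (hk hB v v').Dd ψ (bU B v v') x := (L_Dd S hpos hy hc0 hc hb0 hx _).2 ⟨μ, rfl⟩
  obtain ⟨⟨g, hg⟩, h3⟩ := L_orbit S hpos hy hc0 hc (smul_ne_zero hμ hb0) h2 h1
  have h3 : g • x = l • x := h3
  obtain ⟨u, z, hz, hgz⟩ := inv_mem hg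
  obtain ⟨e, rfl⟩ := mem_Tgrp.1 hz
  refine ⟨u, u.2, e, ?_⟩
  have h4 : sh hB 1 v (u : V) * tv hB e v = g⁻¹ := hgz.symm
  rw [← mul_assoc, h4, mul_smul, ← h3, inv_smul_smul]

/-- all frames are of type L -/
structure TLG (hB : IsSymp B) (ψ : AddChar F ℂ) (X : Type*) [MulAction (Spg B) X] (t k : ℕ) : Prop where
  S : ∀ v v', B v v' = 1 → Sm hB ψ v v' X t k
  pos : ∀ v v', B v v' = 1 → Pos hB ψ v v' X
  tl : ∀ v v', B v v' = 1 → ∀ x : X, v ∉ Tx hB x → TL hB ψ v v' x

theorem TLG.moved (G : TLG hB ψ X t k) (h : B v v' = 1) {x : X} {c : F} (hc0 : c ≠ 0)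
    (hc : c ∈ (hk hB v v').Cc ψ x) : v ∉ Tx hB x := by
  intro hv
  obtain ⟨e, he⟩ := (G.S v v' h).hψ
  rw [HK.mem_Cc] at hc
  have h3 := hc (e / c) (hv _)
  rw [mul_div_cancel₀ _ hc0] at h3
  exact he h3

theorem TLG.exists_y (G : TLG hB ψ X t k) (h : B v v' = 1) : ∃ y : X, TL hB ψ v v' y ∧ (1 : F) ∈ (hk hB v v').Cc ψ y := by
  obtain ⟨b0, hb0⟩ := exists_Uc_ne (G.S v v' h)
  obtain ⟨z, hz⟩ := (hk hB v v').exists_of_r (X := X) (Nat.one_le_iff_ne_zero.1 (G.pos v v' h 1 one_ne_zero b0 hb0))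
  exact ⟨z, G.tl v v' h z (G.moved h one_ne_zero hz.1), hz.1⟩

theorem TLG.card_moved (G : TLG hB ψ X t k) (h : B v v' = 1) : Nat.card {x : X // v ∉ Tx hB x} = (t + 3) ^ 2 * k := by
  classical
  obtain ⟨y, hy, hc⟩ := G.exists_y h
  have S := G.S v v' h
  have hpos := G.pos v v' h
  haveI : Fintype X := Fintype.ofFinite _
  haveI : Fintype ↥(Uc B v v') := Fintype.ofFinite _
  let s : Finset X := Finset.univ.filter (fun x => v ∉ Tx hB x)
  let T : Finset ↥(Uc B v v') := Finset.univ.filter (fun b => b ≠ 0)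
  have hcount := Finset.card_mul_eq_card_mul (fun (x : X) (b : ↥(Uc B v v')) => b ∈ (hk hB v v').Dd ψ (bU B v v') x)
    (s := s) (t := T) (m := t + 2) (n := (t + 3) ^ 2)
    (by
      intro x hx
      have hx' : v ∉ Tx hB x := (Finset.mem_filter.1 hx).2
      obtain ⟨b, hb, hb0, -⟩ := G.tl v v' h x hx'
      obtain ⟨-, h1⟩ := L_TL S hpos hy one_ne_zero hc hb0 hb
      haveI : Fintype ((hk hB v v').Dd ψ (bU B v v') x) := Fintype.ofFinite _
      have h2 : Finset.bipartiteAbove (fun (x : X) (b : ↥(Uc B v v')) => b ∈ (hk hB v v').Dd ψ (bU B v v') x) T x =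
          (Set.toFinset (((hk hB v v').Dd ψ (bU B v v') x : AddSubgroup _) : Set ↥(Uc B v v'))).erase 0 := by
        ext z
        rw [Finset.mem_bipartiteAbove, Finset.mem_erase, Set.mem_toFinset, Finset.mem_filter]
        simp
      rw [h2, Finset.card_erase_of_mem (Set.mem_toFinset.2 (zero_mem _)), Set.toFinset_card]
      rw [Nat.card_eq_fintype_card] at h1
      have h3 : Fintype.card ((hk hB v v').Dd ψ (bU B v v') x) - 1 = t + 2 := by rw [h1]; omega
      exact h3)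
    (by
      intro b hb
      have hb0 : b ≠ 0 := (Finset.mem_filter.1 hb).2
      obtain ⟨z, hz⟩ := (hk hB v v').exists_of_r (X := X) (Nat.one_le_iff_ne_zero.1 (hpos 1 one_ne_zero b hb0))
      obtain ⟨-, h1⟩ := L_TL S hpos hy one_ne_zero hc hb0 hz.2
      have h2 : Finset.bipartiteBelow (fun (x : X) (b : ↥(Uc B v v')) => b ∈ (hk hB v v').Dd ψ (bU B v v') x) s b =
          Set.toFinset (MulAction.orbit (hk hB v v').Qg z) := by
        ext x
        rw [Finset.mem_bipartiteBelow, Set.mem_toFinset, Finset.mem_filter]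
        constructor
        · rintro ⟨-, hx⟩
          exact L_orbit S hpos hy one_ne_zero hc hb0 hz.2 hx
        · intro hx
          refine ⟨⟨Finset.mem_univ _, G.moved h one_ne_zero (c := (1 : F)) (v' := v') ?_⟩, ?_⟩
          · rw [Cc_of_orbit hx]; exact hz.1
          · rw [Dd_of_orbit hx]; exact hz.2
      rw [h2, Set.toFinset_card, ← Nat.card_eq_fintype_card]
      rw [(hk hB v v').card_orbit]
      obtain ⟨a, ha⟩ := S.hψ
      have h3 : Nat.card (↥(Uc B v v') ⧸ (hk hB v v').bar z) = t + 3 := by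
        rw [← card_ann ((hk hB v v').bar z) (bU_nondeg hB h) ha]
        exact h1
      have h4 : (hk hB v v').A z = ⊥ := by
        rw [eq_bot_iff]
        intro a ha
        exact L_free S hpos hy one_ne_zero hc hb0 hz.2 a ha
      have h5 : Nat.card (F ⧸ (hk hB v v').A z) = t + 3 := by
        have h6 := AddSubgroup.card_eq_card_quotient_mul_card_addSubgroup ((hk hB v v').A z)
        have h7 : Nat.card ((hk hB v v').A z) = 1 := by rw [h4, AddSubgroup.card_bot]
        rw [h7, mul_one, Nat.card_eq_fintype_card, S.hq] at h6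
        exact h6.symm
      rw [h3, h5]
      ring)
  have hT : T.card = (t + 2) * k := by
    have h1 : T = Finset.univ.erase 0 := by
      ext z
      simp [T]
    rw [h1, Finset.card_erase_of_mem (Finset.mem_univ _), Finset.card_univ, ← Nat.card_eq_fintype_card, S.hU]
  rw [hT] at hcount
  have h1 : Nat.card {x : X // v ∉ Tx hB x} = s.card := by
    rw [Nat.card_eq_fintype_card, Fintype.card_subtype]
  rw [h1]
  have h2 : (t + 2) * s.card = (t + 2) * ((t + 3) ^ 2 * k) := by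
    calc (t + 2) * s.card = s.card * (t + 2) := by ring
      _ = _ := by rw [hcount]; ring
  exact Nat.eq_of_mul_eq_mul_left (by omega) h2

/-- no point is fixed by a full transvection group -/
theorem TLG.no_fix [MulAction.IsPretransitive (Spg B) X] (G : TLG hB ψ X t k) (h : B v v' = 1) (x : X) {u : V}
    (hu : u ≠ 0) : u ∉ Tx hB x := by
  classical
  haveI : Fintype X := Fintype.ofFinite _
  haveI : Fintype V := Fintype.ofFinite _
  have hN : ∀ u : V, u ≠ 0 → (Finset.univ.filter (fun x : X => u ∈ Tx hB x)).card + (t + 3) ^ 2 * k = Nat.card X := by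
    intro u hu
    obtain ⟨u', hu'⟩ := exists_pair hB hu
    rw [← G.card_moved hu', Nat.card_eq_fintype_card, Fintype.card_subtype, Nat.card_eq_fintype_card]
    exact Finset.card_filter_add_card_filter_not _
  set f := (Finset.univ.filter (fun x : X => u ∈ Tx hB x)).card with hf
  have hNu := hN u hu
  rw [← hf] at hNu
  set W := (Finset.univ.filter (fun u : V => u ≠ 0 ∧ u ∈ Tx hB x)).card with hW
  have hcount := Finset.card_mul_eq_card_mul (fun (x : X) (u : V) => u ∈ Tx hB x)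
    (s := Finset.univ) (t := Finset.univ.filter (fun u : V => u ≠ 0)) (m := W) (n := f)
    (by
      intro z _
      obtain ⟨g, rfl⟩ := MulAction.exists_smul_eq (Spg B) x z
      rw [hW]
      refine (Finset.card_bij (fun u _ => (g : V ≃ₗ[F] V) u) ?_ ?_ ?_).symm
      · intro u hu
        obtain ⟨-, h1, h2⟩ := Finset.mem_filter.1 hu
        rw [Finset.mem_bipartiteAbove, Finset.mem_filter]
        exact ⟨⟨Finset.mem_univ _, fun h0 => h1 ((LinearEquiv.map_eq_zero_iff _).1 h0)⟩, (Tx_act g).2 h2⟩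
      · intro u _ u' _ he
        exact (g : V ≃ₗ[F] V).injective he
      · intro u hu
        rw [Finset.mem_bipartiteAbove, Finset.mem_filter] at hu
        obtain ⟨u, rfl⟩ := (g : V ≃ₗ[F] V).surjective u
        refine ⟨u, ?_, rfl⟩
        rw [Finset.mem_filter]
        exact ⟨Finset.mem_univ _, fun h0 => hu.1.2 (by rw [h0, map_zero]), (Tx_act g).1 hu.2⟩)
    (by
      intro y hy
      have h1 := hN y (Finset.mem_filter.1 hy).2
      have h2 : Finset.bipartiteBelow (fun (x : X) (u : V) => u ∈ Tx hB x) Finset.univ y =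
        Finset.univ.filter (fun x : X => y ∈ Tx hB x) := rfl
      rw [h2]
      omega)
  have hT : (Finset.univ.filter (fun u : V => u ≠ 0)).card = Nat.card V - 1 := by
    have h1 : (Finset.univ.filter (fun u : V => u ≠ 0)) = Finset.univ.erase 0 := by
      ext z
      simp
    rw [h1, Finset.card_erase_of_mem (Finset.mem_univ _), Finset.card_univ, Nat.card_eq_fintype_card]
  have S := G.S v v' h
  have hV : Nat.card V - 1 = (t + 2) * ((t + 3) ^ 2 * k + t + 4) := by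
    have h1 : 1 ≤ Nat.card ↥(Uc B v v') := Nat.card_pos
    have h2 : Nat.card ↥(Uc B v v') = (t + 2) * k + 1 := by rw [← S.hU]; omega
    rw [card_V hB h, h2, S.hq]
    have h3 : (t + 3) ^ 2 * ((t + 2) * k + 1) = (t + 2) * ((t + 3) ^ 2 * k + t + 4) + 1 := by ring
    rw [h3]
    rfl
  rw [hT, hV, Finset.card_univ, ← Nat.card_eq_fintype_card] at hcount
  have hX := S.hX
  have hk := S.k_ge
  have hf3 : f ≤ t + 3 := by omega
  obtain ⟨g, hg⟩ : ∃ g, f + g = t + 4 := ⟨t + 4 - f, by omega⟩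
  have h1 : Nat.card X ∣ (t + 2) * g * f := by
    have h2 : Nat.card X * W = (t + 2) * Nat.card X * f + (t + 2) * g * f := by
      rw [hcount]
      have h3 : (t + 3) ^ 2 * k + t + 4 = Nat.card X + g := by omega
      rw [h3]
      ring
    rw [Nat.dvd_add_iff_right (m := (t + 2) * Nat.card X * f) ⟨(t + 2) * f, by ring⟩, ← h2]
    exact ⟨W, rfl⟩
  have h2 : (t + 2) * g * f < Nat.card X := by
    have h3 : (t + 3) ^ 2 * (t + 4) ≤ Nat.card X := by
      calc (t + 3) ^ 2 * (t + 4) ≤ (t + 3) ^ 2 * k := Nat.mul_le_mul_left _ hk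
        _ ≤ Nat.card X := by omega
    have h4 : 4 * (f * g) ≤ (t + 4) ^ 2 := by
      rw [← hg]
      zify
      nlinarith [sq_nonneg ((f : ℤ) - g)]
    nlinarith
  have h3 := Nat.eq_zero_of_dvd_of_lt h1 h2
  have h4 : f = 0 := by
    rcases Nat.mul_eq_zero.1 h3 with h5 | h5
    · rcases Nat.mul_eq_zero.1 h5 with h6 | h6
      · omega
      · omega
    · exact h5
  intro hx
  rw [hf, Finset.card_eq_zero, Finset.filter_eq_empty_iff] at h4
  exact h4 (Finset.mem_univ x) hx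

theorem exists_four (h2 : (2 : F) ≠ 0) (hF : 4 ≤ Fintype.card F) :
    ∃ l1 l2 : F, l1 ≠ 0 ∧ l2 ≠ 0 ∧ (l1 ^ 2 + l2 ^ 2 = 0 ∨ l1 ^ 2 + l2 ^ 2 = 1) := by
  classical
  obtain ⟨s, hs0, hs1⟩ : ∃ s : F, s ≠ 0 ∧ s ^ 2 ≠ 1 := by
    by_contra hcon
    push Not at hcon
    have h3 : (Finset.univ : Finset F) ⊆ {0, 1, -1} := by
      intro μ _
      by_cases hμ : μ = 0
      · rw [hμ]; simp
      · have h4 := hcon μ hμ
        have h5 : (μ - 1) * (μ + 1) = 0 := by linear_combination h4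
        rcases mul_eq_zero.1 h5 with h6 | h6
        · rw [sub_eq_zero.1 h6]; simp
        · rw [eq_neg_of_add_eq_zero_left h6]; simp
    have h4 := Finset.card_le_card h3
    rw [Finset.card_univ] at h4
    have h5 : ({0, 1, -1} : Finset F).card ≤ 3 := Finset.card_le_three
    omega
  by_cases h3 : s ^ 2 = -1
  · exact ⟨1, s, one_ne_zero, hs0, Or.inl (by rw [h3]; ring)⟩
  · have h4 : s ^ 2 + 1 ≠ 0 := fun h => h3 (eq_neg_of_add_eq_zero_left h)
    refine ⟨(s ^ 2 - 1) / (s ^ 2 + 1), 2 * s / (s ^ 2 + 1), div_ne_zero (sub_ne_zero.2 hs1) h4,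
      div_ne_zero (mul_ne_zero h2 hs0) h4, Or.inr ?_⟩
    field_simp
    ring

/-- type L is impossible -/
theorem TLG.false [MulAction.IsPretransitive (Spg B) X] (G : TLG hB ψ X t k) (h : B v v' = 1) (hex : t = 0 → 4 < k)
    (hsq : (2 : F) = 0 → ∀ a : F, ∃ s : F, s ^ 2 = a) : False := by
  classical
  have S := G.S v v' h
  obtain ⟨x, hx, -⟩ := G.exists_y h
  obtain ⟨b, hb, hb0, -⟩ := hx
  have hfree : ∀ x : X, ∀ u, u ≠ 0 → ∀ a, tv hB a u • x = x → a = 0 := by
    intro x u hu a ha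
    obtain ⟨u', hu'⟩ := exists_pair hB hu
    obtain ⟨y, hy, hc⟩ := G.exists_y hu'
    obtain ⟨b, hb, hb0, -⟩ := G.tl u u' hu' x (G.no_fix h x hu)
    exact L_free (G.S u u' hu') (G.pos u u' hu') hy one_ne_zero hc hb0 hb a ha
  have hb00 : (b : V) ≠ 0 := fun h0 => hb0 (Subtype.ext h0)
  have hLP : ∀ x' ∈ MulAction.orbit (hk hB v v').Qg x, LP hB v v' x' (b : V) := by
    intro x' hx'
    obtain ⟨y, hy, hc⟩ := G.exists_y h
    have hb' : b ∈ (hk hB v v').Dd ψ (bU B v v') x' := by rw [Dd_of_orbit hx']; exact hb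
    have S := G.S v v' h
    have hpos := G.pos v v' h
    exact ⟨h, b.2, hb00, fun w hw => L_bar S hpos hy one_ne_zero hc hb0 hb' ⟨w, hw⟩,
      fun l hl hl' hlb => L_lift S hpos hy one_ne_zero hc hb0 hb' l hl hl' hlb, hfree x'⟩
  have H := hLP x (MulAction.mem_orbit_self _)
  obtain ⟨s, hs0, hs1⟩ : ∃ s : F, s ≠ 0 ∧ s ≠ 1 := by
    by_contra hcon
    push Not at hcon
    have h3 : (Finset.univ : Finset F) ⊆ {0, 1} := by
      intro μ _
      by_cases hμ : μ = 0
      · rw [hμ]; simp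
      · rw [hcon μ hμ]; simp
    have h4 := Finset.card_le_card h3
    rw [Finset.card_univ, S.hq] at h4
    have h5 : ({0, 1} : Finset F).card ≤ 2 := Finset.card_le_two
    omega
  by_cases hA : ∃ w ∈ Uc B v v', ∃ w' ∈ Uc B v v', B (b : V) w = 0 ∧ B (b : V) w' = 0 ∧ B w w' ≠ 0
  · obtain ⟨w, hw, w', hw', h1, h2, h3⟩ := hA
    by_cases h20 : (2 : F) = 0
    · exact H.false2 h20 hs0 hs1 hw hw' h1 h2 h3
    · exact H.false1 h20 hw hw' h1 h2 h3
  · push Not at hA
    have hdim : ∀ w ∈ Uc B v v', B (b : V) w = 0 → ∃ μ : F, w = μ • (b : V) := by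
      intro w hw hbw
      by_contra hcon
      push Not at hcon
      obtain ⟨z, hz, h1, h2⟩ := indep_sep hB (Uc_nondeg hB h) b.2 hw hb00 hcon
      exact h2 (hA w hw z hz hbw h1)
    by_cases h20 : (2 : F) = 0
    · exact H.false5 h20 (hsq h20) hs0 hs1 hdim
    · refine LP.false4 (hB := hB) (x := x) (b := (b : V)) ?_ h20 (exists_four h20 ?_) hdim
      · intro w hw
        exact hLP _ ⟨⟨sh hB 1 v w, (hk hB v v').e_mem ⟨w, hw⟩⟩, rfl⟩
      · rw [S.hq]
        by_contra hcon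
        have ht : t = 0 := by omega
        have hk := hex ht
        have h1 : Nat.card ↥(Uc B v v') ≤ Nat.card (F × F) := by
          obtain ⟨z, hz, hbz⟩ := Uc_nondeg hB h b b.2 hb00
          refine Nat.card_le_card_of_surjective (fun p : F × F => p.1 • b + p.2 • (⟨z, hz⟩ : ↥(Uc B v v'))) ?_
          intro w
          have hm : (w : V) - (B b (w : V) / B b z) • z ∈ Uc B v v' := sub_mem w.2 (Submodule.smul_mem _ _ hz)
          obtain ⟨μ, hμ⟩ := hdim _ hm (by
            rw [map_sub, map_smul, smul_eq_mul, div_mul_cancel₀ _ hbz, sub_self])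
          refine ⟨(μ, B b (w : V) / B b z), Subtype.ext ?_⟩
          show μ • (b : V) + (B b (w : V) / B b z) • z = w
          rw [← hμ, sub_add_cancel]
        rw [Nat.card_prod, Nat.card_eq_fintype_card (α := F), S.hq, ht] at h1
        have h2 := S.hU
        rw [ht] at h2
        omega

end

end Cfsg.Agent.Lib.MSp
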