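import Mathlib
import Cfsg.Agent.Lib.MSpL

set_option autoImplicit false
set_option linter.unusedSectionVars false

/-!
Points of type Q in characteristic two: the attached quadratic forms (helper60).
-/

namespace Cfsg.Agent.Lib.MSp

open Cfsg.Agent.Lib.Coop Cfsg.Agent.Lib.ClSymp Cfsg.Agent.Lib.ClSymp2

variable {F V : Type*} [Field F] [AddCommGroup V] [Module F V] {B : LinearMap.BilinForm F V}

theorem psi_ne_zero (ψ : AddChar F ℂ) (y : F) : ψ y ≠ 0 := by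
  intro h
  have h1 : ψ (y + -y) = ψ y * ψ (-y) := AddChar.map_add_eq_mul _ _ _
  rw [add_neg_cancel, AddChar.map_zero_eq_one, h, zero_mul] at h1
  exact one_ne_zero h1

theorem psi_sub {ψ : AddChar F ℂ} {y z : F} (h : ψ y = ψ z) : ψ (y - z) = 1 := by
  have h1 : ψ (y - z) * ψ z = 1 * ψ z := by rw [← AddChar.map_add_eq_mul, sub_add_cancel, h, one_mul]
  exact mul_right_cancel₀ (psi_ne_zero ψ z) h1

theorem psi_mul_self (h2 : (2 : F) = 0) (ψ : AddChar F ℂ) (y : F) : ψ y * ψ y = 1 := by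
  rw [← AddChar.map_add_eq_mul, ← two_mul, h2, zero_mul, AddChar.map_zero_eq_one]

theorem psi_ext {ψ : AddChar F ℂ} (hψ : ∃ a, ψ a ≠ 1) {y z : F} (h : ∀ l, ψ (l * y) = ψ (l * z)) : y = z := by
  obtain ⟨a, ha⟩ := hψ
  by_contra hne
  have h0 : y - z ≠ 0 := sub_ne_zero.2 hne
  have h1 := psi_sub (h (a / (y - z)))
  rw [← mul_sub, div_mul_cancel₀ _ h0] at h1
  exact ha h1

theorem psi_ext2 {ψ : AddChar F ℂ} (hψ : ∃ a, ψ a ≠ 1) (hsq : ∀ a : F, ∃ s : F, s ^ 2 = a) {y z : F}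
    (h : ∀ l, ψ (l ^ 2 * y) = ψ (l ^ 2 * z)) : y = z :=
  psi_ext hψ fun l => by
    obtain ⟨s, hs⟩ := hsq l
    rw [← hs]
    exact h s

/-- a good character -/
theorem exists_psi [Fintype F] (h2 : (2 : F) = 0) (hsq : ∀ a : F, ∃ s : F, s ^ 2 = a) {ψ : AddChar F ℂ}
    (hψ : ∃ a, ψ a ≠ 1) : ∃ ψ' : AddChar F ℂ, (∃ a, ψ' a ≠ 1) ∧ ∀ y, ψ' (y ^ 2) = ψ' y := by
  obtain ⟨a, ha⟩ := hψ
  let χ : AddChar F ℂ :=
    { toFun := fun y => ψ (y ^ 2)
      map_zero_eq_one' := by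
        show ψ (0 ^ 2) = 1
        rw [zero_pow two_ne_zero, AddChar.map_zero_eq_one]
      map_add_eq_mul' := fun y z => by
        show ψ ((y + z) ^ 2) = ψ (y ^ 2) * ψ (z ^ 2)
        rw [← AddChar.map_add_eq_mul]
        congr 1
        linear_combination (y * z) * h2 }
  obtain ⟨κ, hκ⟩ := chi_surjective (LinearMap.mul F F) (mul_nondeg F) ha χ
  have hκ' : ∀ y, ψ (y ^ 2) = ψ (κ * y) := hκ
  have hκ0 : κ ≠ 0 := by
    intro h0
    obtain ⟨s, hs⟩ := hsq a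
    have := hκ' s
    rw [h0, zero_mul, hs, AddChar.map_zero_eq_one] at this
    exact ha this
  let ψ' : AddChar F ℂ :=
    { toFun := fun y => ψ (κ ^ 2 * y)
      map_zero_eq_one' := by
        show ψ (κ ^ 2 * 0) = 1
        rw [mul_zero, AddChar.map_zero_eq_one]
      map_add_eq_mul' := fun y z => by
        show ψ (κ ^ 2 * (y + z)) = _
        rw [mul_add, AddChar.map_add_eq_mul] }
  refine ⟨ψ', ⟨a / κ ^ 2, ?_⟩, fun y => ?_⟩
  · show ψ (κ ^ 2 * (a / κ ^ 2)) ≠ 1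
    rw [mul_div_cancel₀ _ (pow_ne_zero 2 hκ0)]
    exact ha
  · show ψ (κ ^ 2 * y ^ 2) = ψ (κ ^ 2 * y)
    rw [← mul_pow, hκ']
    congr 1
    ring

section

variable {X : Type*} [MulAction (Spg B) X]

/-- the quadratic form attached to a point of type Q and a character of the centre -/
structure IsP (hB : IsSymp B) (ψ : AddChar F ℂ) (v v' : V) (x : X) (c : F) (P : ↥(Uc B v v') → F) : Prop where
  val : ∀ (w : ↥(Uc B v v')) (a : F), sh hB 1 v (w : V) • x = tv hB a v • x → ψ (c * a) = ψ (P w)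
  smul : ∀ (μ : F) (w : ↥(Uc B v v')), P (μ • w) = μ ^ 2 * P w
  add : ∀ w w' : ↥(Uc B v v'), P (w + w') = P w + P w' + c * B (w : V) (w' : V)

/-- points of type Q -/
def QT (hB : IsSymp B) (ψ : AddChar F ℂ) (v v' : V) (x : X) : Prop :=
  ∀ b ∈ (hk hB v v').Dd ψ (bU B v v') x, b = 0

variable {hB : IsSymp B} {v v' : V} {ψ : AddChar F ℂ}

theorem QT.bar [Fintype F] [Finite V] [Finite X] (h : B v v' = 1) (hψ : ∃ a, ψ a ≠ 1) {x : X} (H : QT hB ψ v v' x)
    (w : ↥(Uc B v v')) : ∃ a, sh hB 1 v (w : V) • x = tv hB a v • x := by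
  rw [← hk_bar hB, bar_iff h hψ]
  intro b hb
  rw [H b hb, ZeroMemClass.coe_zero, map_zero, LinearMap.zero_apply, AddChar.map_zero_eq_one]

theorem QT.act {x : X} (H : QT hB ψ v v' x) {g : Spg B} (hg : (g : V ≃ₗ[F] V) v = v)
    (hg' : (g : V ≃ₗ[F] V) v' = v') : QT hB ψ v v' (g • x) := by
  intro b hb
  have h1 : ((g⁻¹ : Spg B) : V ≃ₗ[F] V) b ∈ Uc B v v' := by
    rw [← act_mem (g := g) (v' := v') one_ne_zero (by rw [hg, one_smul]) (by rw [hg', inv_one, one_smul]),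
      apply_inv_self']
    exact b.2
  rw [Dd_act hB ψ one_ne_zero (by rw [hg, one_smul]) (by rw [hg', inv_one, one_smul]) (b' := ⟨_, h1⟩) (by
    rw [one_smul]; exact (apply_inv_self' g (b : V)).symm)] at hb
  have h2 : ((g⁻¹ : Spg B) : V ≃ₗ[F] V) (b : V) = 0 := congrArg Subtype.val (H _ hb)
  exact Subtype.ext ((LinearEquiv.map_eq_zero_iff _).1 h2)

theorem Cc_act_one {x : X} {c : F} (H : c ∈ (hk hB v v').Cc ψ x) {g : Spg B} (hg : (g : V ≃ₗ[F] V) v = v) :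
    c ∈ (hk hB v v').Cc ψ (g • x) := by
  rw [Cc_act hB ψ one_ne_zero (by rw [hg, one_smul]), one_pow, mul_one]
  exact H

theorem exists_IsP [Fintype F] (h2 : (2 : F) = 0) (hsq : ∀ a : F, ∃ s : F, s ^ 2 = a) (hψ : ∃ a, ψ a ≠ 1)
    (hψ2 : ∀ y, ψ (y ^ 2) = ψ y) {x : X} (hbar : ∀ w : ↥(Uc B v v'), ∃ a, sh hB 1 v (w : V) • x = tv hB a v • x)
    {c : F} (hc : c ∈ (hk hB v v').Cc ψ x) : ∃ P, IsP hB ψ v v' x c P := by
  choose a ha using hbar
  rw [HK.mem_Cc] at hc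
  have hwd : ∀ (a1 a2 : F), tv hB a1 v • x = tv hB a2 v • x → ψ (c * a1) = ψ (c * a2) := by
    intro a1 a2 h
    have h3 : tv hB (a1 - a2) v • x = x := by
      have h5 : tv hB (-a2) v • tv hB a1 v • x = tv hB (-a2) v • tv hB a2 v • x := by rw [h]
      rw [← mul_smul, ← mul_smul, tv_mul, tv_mul, neg_add_cancel, tv_zero, one_smul] at h5
      rwa [show a1 - a2 = -a2 + a1 by ring]
    have h4 := hc _ h3
    have h5 : ψ (c * a1) = ψ (c * (a1 - a2)) * ψ (c * a2) := by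
      rw [← AddChar.map_add_eq_mul]
      congr 1; ring
    rw [h5, h4, one_mul]
  have fadd : ∀ w w' : ↥(Uc B v v'), ψ (c * a (w + w')) = ψ (c * a w) * ψ (c * a w') * ψ (c * B (w : V) (w' : V)) := by
    intro w w'
    have hm := (mem_Uc.1 w.2).1
    have hm' := (mem_Uc.1 w'.2).1
    have h3 : (sh hB 1 v (w : V) * sh hB 1 v (w' : V)) • x = tv hB (a w + a w') v • x := by
      rw [mul_smul, ha w', ← mul_smul, tv_comm_sh hB _ hm, mul_smul, ha w, ← mul_smul, tv_mul, add_comm (a w')]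
    rw [sh_mul hB hm hm'] at h3
    have h4 : (sh hB 1 v ((w : V) + (w' : V)) * tv hB (B (w : V) (w' : V)) v) • x =
        tv hB (a (w + w') + B (w : V) (w' : V)) v • x := by
      rw [tv_comm_sh hB _ (by rw [map_add, hm, hm', add_zero]), mul_smul]
      have := ha (w + w')
      rw [Submodule.coe_add] at this
      rw [this, ← mul_smul, tv_mul, add_comm]
    rw [h4] at h3
    have h5 := hwd _ _ h3
    rw [mul_add, mul_add, AddChar.map_add_eq_mul, AddChar.map_add_eq_mul] at h5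
    rw [← h5, mul_assoc, psi_mul_self h2, mul_one]
  have f0 : ψ (c * a 0) = 1 := by
    have h3 := ha 0
    rw [ZeroMemClass.coe_zero, sh_zero, one_smul] at h3
    exact hc _ h3.symm
  let χ : ↥(Uc B v v') → AddChar F ℂ := fun w =>
    { toFun := fun l => ψ (c * a (l • w))
      map_zero_eq_one' := by
        show ψ (c * a ((0 : F) • w)) = 1
        rw [zero_smul, f0]
      map_add_eq_mul' := fun l m => by
        show ψ (c * a ((l + m) • w)) = ψ (c * a (l • w)) * ψ (c * a (m • w))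
        rw [add_smul, fadd, Submodule.coe_smul, Submodule.coe_smul, map_smul, map_smul, LinearMap.smul_apply, hB.alt,
          smul_zero, smul_zero, mul_zero, AddChar.map_zero_eq_one, mul_one] }
  obtain ⟨e, he⟩ := id hψ
  have hρ : ∀ w, ∃ ρ : F, ∀ l : F, ψ (c * a (l • w)) = ψ (l * ρ) := by
    intro w
    obtain ⟨ρ, hρ⟩ := chi_surjective (LinearMap.mul F F) (mul_nondeg F) he (χ w)
    refine ⟨ρ, fun l => ?_⟩
    have h3 := hρ l
    rw [LinearMap.mul_apply', mul_comm ρ l] at h3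
    exact h3
  choose ρ hρ using hρ
  refine ⟨fun w => ρ w ^ 2, ?_, ?_, ?_⟩
  · intro w a' ha'
    rw [hψ2]
    have h3 := hρ w 1
    rw [one_smul, one_mul] at h3
    rw [← h3]
    exact hwd _ _ (ha'.symm.trans (ha w))
  · intro μ w
    have h3 : ρ (μ • w) = μ * ρ w := psi_ext hψ fun l => by
      rw [← hρ, smul_smul, hρ, mul_assoc]
    show ρ (μ • w) ^ 2 = _
    rw [h3]; ring
  · intro w w'
    obtain ⟨s, hs⟩ := hsq (c * B (w : V) (w' : V))
    have h3 : ρ (w + w') = ρ w + ρ w' + s := psi_ext hψ fun l => by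
      rw [← hρ, smul_add, fadd, hρ, hρ, Submodule.coe_smul, Submodule.coe_smul, map_smul, map_smul, LinearMap.smul_apply,
        smul_eq_mul, smul_eq_mul]
      have h4 : c * (l * (l * B (w : V) (w' : V))) = (s * l) ^ 2 := by rw [mul_pow, hs]; ring
      rw [h4, hψ2, ← AddChar.map_add_eq_mul, ← AddChar.map_add_eq_mul]
      congr 1
      ring
    show ρ (w + w') ^ 2 = _
    rw [h3]
    linear_combination hs + (ρ w * ρ w' + ρ w * s + ρ w' * s) * h2

theorem IsP.uniq (hψ : ∃ a, ψ a ≠ 1) (hsq : ∀ a : F, ∃ s : F, s ^ 2 = a) {x : X}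
    (hbar : ∀ w : ↥(Uc B v v'), ∃ a, sh hB 1 v (w : V) • x = tv hB a v • x)
    {c : F} {P P' : ↥(Uc B v v') → F} (H : IsP hB ψ v v' x c P) (H' : IsP hB ψ v v' x c P') : P = P' := by
  funext w
  refine psi_ext2 hψ hsq fun l => ?_
  rw [← H.smul, ← H'.smul]
  obtain ⟨a, ha⟩ := hbar (l • w)
  rw [← H.val _ a ha, H'.val _ a ha]

/-- orbits of the unipotent radical through points of type Q -/
theorem orbit_QT (h : B v v' = 1) {x x' : X}
    (hbar : ∀ w : ↥(Uc B v v'), ∃ a, sh hB 1 v (w : V) • x = tv hB a v • x)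
    (hx : x' ∈ MulAction.orbit (hk hB v v').Qg x) : ∃ e, x' = tv hB e v • x := by
  obtain ⟨⟨g, hg⟩, rfl⟩ := hx
  obtain ⟨u, z, hz, rfl⟩ := hg
  obtain ⟨e, rfl⟩ := mem_Tgrp.1 hz
  obtain ⟨a, ha⟩ := hbar u
  refine ⟨e + a, ?_⟩
  show (sh hB 1 v (u : V) * tv hB e v) • x = _
  rw [tv_comm_sh hB _ (mem_Uc.1 u.2).1, mul_smul, ha, ← mul_smul, tv_mul]

theorem IsP.orbit (h : B v v' = 1) {x x' : X}
    (hbar : ∀ w : ↥(Uc B v v'), ∃ a, sh hB 1 v (w : V) • x = tv hB a v • x)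
    (hx : x' ∈ MulAction.orbit (hk hB v v').Qg x) {c : F} {P : ↥(Uc B v v') → F} (H : IsP hB ψ v v' x c P) :
    IsP hB ψ v v' x' c P := by
  obtain ⟨e, rfl⟩ := orbit_QT h hbar hx
  refine ⟨fun w a ha => H.val w a ?_, H.smul, H.add⟩
  rw [← mul_smul, tv_comm_sh hB _ (mem_Uc.1 w.2).1, ← mul_smul, tv_mul, add_comm a e, ← tv_mul, mul_smul, mul_smul] at ha
  exact MulAction.injective _ ha

theorem IsP.act {x : X} {c : F} {P P' : ↥(Uc B v v') → F} (H : IsP hB ψ v v' x c P) {g : Spg B}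
    (hg : (g : V ≃ₗ[F] V) v = v) (hg' : (g : V ≃ₗ[F] V) v' = v')
    (hP : ∀ w w' : ↥(Uc B v v'), (w : V) = (g : V ≃ₗ[F] V) w' → P' w = P w') : IsP hB ψ v v' (g • x) c P' := by
  have hex : ∀ w : ↥(Uc B v v'), ∃ w' : ↥(Uc B v v'), (w : V) = (g : V ≃ₗ[F] V) w' := by
    intro w
    have h1 : ((g⁻¹ : Spg B) : V ≃ₗ[F] V) w ∈ Uc B v v' := by
      rw [← act_mem (g := g) (v' := v') one_ne_zero (by rw [hg, one_smul]) (by rw [hg', inv_one, one_smul]),
        apply_inv_self']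
      exact w.2
    exact ⟨⟨_, h1⟩, (apply_inv_self' g (w : V)).symm⟩
  refine ⟨?_, ?_, ?_⟩
  · intro w a ha
    obtain ⟨w', hw'⟩ := hex w
    rw [hP w w' hw']
    apply H.val
    rw [hw'] at ha
    have h1 : sh hB 1 v ((g : V ≃ₗ[F] V) w') = g * sh hB 1 v (w' : V) * g⁻¹ := by rw [sh_conj, hg]
    have h2 : tv hB a v = g * tv hB a v * g⁻¹ := by rw [tv_conj, hg]
    rw [h1, h2, mul_smul, mul_smul, mul_smul, mul_smul, inv_smul_smul] at ha
    exact MulAction.injective g ha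
  · intro μ w
    obtain ⟨w', hw'⟩ := hex w
    rw [hP w w' hw', hP (μ • w) (μ • w') (by rw [Submodule.coe_smul, Submodule.coe_smul, map_smul, hw']), H.smul]
  · intro w1 w2
    obtain ⟨w1', h1⟩ := hex w1
    obtain ⟨w2', h2⟩ := hex w2
    rw [hP w1 w1' h1, hP w2 w2' h2, hP (w1 + w2) (w1' + w2') (by
      rw [Submodule.coe_add, Submodule.coe_add, map_add, h1, h2]), H.add, h1, h2, Spg_apply]

/-- acting by a transvection -/
theorem IsP.tv (h2 : (2 : F) = 0) {x : X} {c : F} {P : ↥(Uc B v v') → F} (H : IsP hB ψ v v' x c P) (a : F)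
    (u : ↥(Uc B v v')) :
    IsP hB ψ v v' (tv hB a (u : V) • x) c (fun w => P w + (a ^ 2 * P u + c * a) * B (u : V) (w : V) ^ 2) := by
  refine H.act ?_ ?_ ?_
  · rw [tv_apply, hB.skew, (mem_Uc.1 u.2).1]; simp
  · rw [tv_apply, hB.skew, (mem_Uc.1 u.2).2]; simp
  · intro w w' hw
    rw [tv_apply] at hw
    have hw' : w = w' + (a * B (u : V) (w' : V)) • u := Subtype.ext hw
    have h3 : B (u : V) (w : V) = B (u : V) (w' : V) := by
      rw [hw, map_add, map_smul, hB.alt, smul_zero, add_zero]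
    rw [h3, hw', H.add, H.smul, Submodule.coe_smul, map_smul, hB.skew w' u, smul_eq_mul]
    linear_combination ((a * B (u : V) (w' : V)) ^ 2 * P u) * h2

end

end Cfsg.Agent.Lib.MSp
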