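import Mathlib
import Cfsg.Agent.Lib.MSpM

set_option autoImplicit false
set_option linter.unusedSectionVars false

/-!
Counting points of type Q (helper60).
-/

namespace Cfsg.Agent.Lib.MSp

open Cfsg.Agent.Lib.Coop Cfsg.Agent.Lib.ClSymp Cfsg.Agent.Lib.ClSymp2

variable {F V : Type*} [Field F] [AddCommGroup V] [Module F V] {B : LinearMap.BilinForm F V}

section

variable {X : Type*} [MulAction (Spg B) X] {hB : IsSymp B} {v v' : V} {ψ : AddChar F ℂ}
variable [Fintype F] [Finite X] [Finite V] {t k : ℕ}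

theorem sq_inj (h2 : (2 : F) = 0) {a b : F} (h : a ^ 2 = b ^ 2) : a = b := by
  have h1 : (a - b) ^ 2 = 0 := by linear_combination h - (a * b - b ^ 2) * h2
  exact sub_eq_zero.1 ((pow_eq_zero_iff two_ne_zero).1 h1)

theorem eq_of_sq (h2 : (2 : F) = 0) (h : B v v' = 1) {z z' : ↥(Uc B v v')}
    (hz : ∀ w : ↥(Uc B v v'), B (z : V) (w : V) ^ 2 = B (z' : V) (w : V) ^ 2) (hB : IsSymp B) : z = z' := by
  by_contra hne
  obtain ⟨w, hw, h1⟩ := Uc_nondeg hB h _ (z - z').2 (fun h0 => hne (sub_eq_zero.1 (Subtype.ext h0)))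
  apply h1
  rw [Submodule.coe_sub, map_sub, LinearMap.sub_apply, sq_inj h2 (hz ⟨w, hw⟩), sub_self]

/-- many good vectors -/
theorem card_good (h2 : (2 : F) = 0) (hsq : ∀ a : F, ∃ s : F, s ^ 2 = a) (S : Sm hB ψ v v' X t k) {c : F} (hc : c ≠ 0)
    {P : ↥(Uc B v v') → F} (hP : ∀ (μ : F) (w : ↥(Uc B v v')), P (μ • w) = μ ^ 2 * P w) :
    k ≤ Nat.card {z : ↥(Uc B v v') // z ≠ 0 ∧ ∃ e, e ^ 2 * P z + c * e = 1} := by
  classical
  haveI : Fintype ↥(Uc B v v') := Fintype.ofFinite _
  obtain ⟨j0, hj0, e0, he0⟩ : ∃ j : F, j ≠ 0 ∧ ∃ e : F, e ^ 2 * j + c * e = 1 := by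
    obtain ⟨s, hs0, hs1⟩ : ∃ s : F, s ≠ 0 ∧ s ≠ 1 := by
      by_contra hcon
      push Not at hcon
      have h3 : (Finset.univ : Finset F) ⊆ {0, 1} := by
        intro μ _
        by_cases hμ : μ = 0
        · rw [hμ]; simp
        · rw [hcon μ hμ]; simp
      have h4 := Finset.card_le_card h3
      rw [Finset.card_univ, S.hq] at h4
      have h5 : ({0, 1} : Finset F).card ≤ 2 := Finset.card_le_two
      omega
    refine ⟨(1 - s) / (s / c) ^ 2, div_ne_zero (sub_ne_zero.2 (Ne.symm hs1)) (pow_ne_zero 2 (div_ne_zero hs0 hc)), s / c, ?_⟩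
    field_simp
    ring
  have key : ∀ z : ↥(Uc B v v'), ∃ l : F, l ≠ 0 ∧ ∃ e, e ^ 2 * P (l • z) + c * e = 1 := by
    intro z
    by_cases hz : P z = 0
    · refine ⟨1, one_ne_zero, c⁻¹, ?_⟩
      rw [one_smul, hz, mul_zero, zero_add, mul_inv_cancel₀ hc]
    · obtain ⟨l, hl⟩ := hsq (j0 / P z)
      refine ⟨l, ?_, e0, ?_⟩
      · rintro rfl
        rw [zero_pow two_ne_zero] at hl
        exact div_ne_zero hj0 hz hl.symm
      · rw [hP, hl, div_mul_cancel₀ _ hz, he0]
  choose l hl0 hl using key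
  have h5 := Finset.card_le_mul_card_image (f := fun z => l z • z) (Finset.univ.erase (0 : ↥(Uc B v v')))
    (t + 2) (by
      intro y hy
      obtain ⟨z0, hz0, rfl⟩ := Finset.mem_image.1 hy
      have h6 : ((Finset.univ.erase (0 : ↥(Uc B v v'))).filter fun t => l t • t = l z0 • z0) ⊆
          (Finset.univ.erase (0 : F)).image (fun μ => μ • (l z0 • z0)) := by
        intro z hz
        obtain ⟨-, hz2⟩ := Finset.mem_filter.1 hz
        refine Finset.mem_image.2 ⟨(l z)⁻¹, Finset.mem_erase.2 ⟨inv_ne_zero (hl0 z), Finset.mem_univ _⟩, ?_⟩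
        rw [← hz2, inv_smul_smul₀ (hl0 z)]
      refine (Finset.card_le_card h6).trans (Finset.card_image_le.trans ?_)
      rw [Finset.card_erase_of_mem (Finset.mem_univ _), Finset.card_univ, S.hq]
      omega)
  rw [Finset.card_erase_of_mem (Finset.mem_univ _), Finset.card_univ, ← Nat.card_eq_fintype_card, S.hU] at h5
  have h6 := Nat.le_of_mul_le_mul_left h5 (by omega)
  refine h6.trans ?_
  rw [Nat.card_eq_fintype_card, Fintype.card_subtype]
  apply Finset.card_le_card
  intro y hy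
  obtain ⟨z, hz, rfl⟩ := Finset.mem_image.1 hy
  rw [Finset.mem_filter]
  exact ⟨Finset.mem_univ _, smul_ne_zero (hl0 z) (Finset.ne_of_mem_erase hz), hl z⟩

theorem torus_eq (hsq : ∀ a : F, ∃ s : F, s ^ 2 = a) (h : B v v' = 1) {c c' : F} (hc : c ≠ 0) (hc' : c' ≠ 0)
    {b b' : ↥(Uc B v v')} (hb : (b ≠ 0 ∧ b' ≠ 0) ∨ (b = 0 ∧ b' = 0)) :
    (hk hB v v').r ψ (bU B v v') X c b = (hk hB v v').r ψ (bU B v v') X c' b' := by
  obtain ⟨μ, hμ⟩ := hsq (c' / c)
  have hμ0 : μ ≠ 0 := by
    rintro rfl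
    rw [zero_pow two_ne_zero] at hμ
    exact div_ne_zero hc' hc hμ.symm
  rw [r_torus hB ψ h c hμ0 hb, hμ, mul_div_cancel₀ _ hc]

/-- Q1: if all characters appear then there is no point of type Q -/
theorem Dd_ne_bot_even (h2 : (2 : F) = 0) (hsq : ∀ a : F, ∃ s : F, s ^ 2 = a) (hψ2 : ∀ y, ψ (y ^ 2) = ψ y)
    (S : Sm hB ψ v v' X t k) (hpos : Pos hB ψ v v' X) {x : X} (hx : v ∉ Tx hB x) :
    ∃ b ∈ (hk hB v v').Dd ψ (bU B v v') x, b ≠ 0 := by
  classical
  by_contra hcon
  push Not at hcon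
  have hQ : QT hB ψ v v' x := hcon
  have h := S.h
  obtain ⟨c, hc0, hc⟩ := exists_Cc (ψ := ψ) (v' := v') S.hψ hx
  obtain ⟨P, hP⟩ := exists_IsP h2 hsq S.hψ hψ2 (hQ.bar h S.hψ) hc
  obtain ⟨b0, hb0⟩ := exists_Uc_ne S
  obtain ⟨y, hy⟩ := (hk hB v v').exists_of_r (X := X) (Nat.one_le_iff_ne_zero.1 (hpos c hc0 b0 hb0))
  let G := {z : ↥(Uc B v v') // z ≠ 0 ∧ ∃ e, e ^ 2 * P z + c * e = 1}
  have hG : k ≤ Nat.card G := card_good h2 hsq S hc0 hP.smul
  haveI : Fintype G := Fintype.ofFinite _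
  -- the index type
  let f : Option (Option G) → X := fun i => match i with
    | none => y
    | some none => x
    | some (some z) => tv hB (Classical.choose z.2.2) (z.1 : V) • x
  have htv : ∀ (e : F) (z : ↥(Uc B v v')), ((tv hB e (z : V) : Spg B) : V ≃ₗ[F] V) v = v ∧
      ((tv hB e (z : V) : Spg B) : V ≃ₗ[F] V) v' = v' := by
    intro e z
    constructor
    · rw [tv_apply, hB.skew, (mem_Uc.1 z.2).1]; simp
    · rw [tv_apply, hB.skew, (mem_Uc.1 z.2).2]; simp
  have hR : k + 2 ≤ (hk hB v v').r ψ (bU B v v') X c 0 := by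
    have h3 := (hk hB v v').r_card (ψ := ψ) (β := bU B v v') (c := c) (b := 0) f
      (by
        intro i
        refine ⟨?_, zero_mem _⟩
        match i with
        | none => exact hy.1
        | some none => exact hc
        | some (some z) => exact Cc_act_one hc (htv _ _).1)
      (by
        have hQi : ∀ j : Option G, QT hB ψ v v' (f (some j)) := by
          intro j
          match j with
          | none => exact hQ
          | some z => exact hQ.act (htv _ _).1 (htv _ _).2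
        have hyn : ∀ j : Option G, ¬ QT hB ψ v v' y := fun j hq => hb0 (hq b0 hy.2)
        have hPz : ∀ z : G, IsP hB ψ v v' (f (some (some z))) c (fun w => P w + B (z.1 : V) (w : V) ^ 2) := by
          intro z
          have h4 := hP.tv h2 (Classical.choose z.2.2) z.1
          rw [Classical.choose_spec z.2.2] at h4
          simpa only [one_mul] using h4
        intro i j hij
        match i, j with
        | none, none => rfl
        | none, some j =>
          exfalso
          have h5 := Dd_of_orbit (ψ := ψ) hij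
          have h6 : b0 ∈ (hk hB v v').Dd ψ (bU B v v') (f (some j)) := by rw [← h5]; exact hy.2
          exact hb0 (hQi j _ h6)
        | some j, none =>
          exfalso
          have h5 := Dd_of_orbit (ψ := ψ) hij
          have h6 : b0 ∈ (hk hB v v').Dd ψ (bU B v v') (f (some j)) := by rw [h5]; exact hy.2
          exact hb0 (hQi j _ h6)
        | some none, some none => rfl
        | some none, some (some z) =>
          exfalso
          have h5 := (hPz z).orbit h ((hQi (some z)).bar h S.hψ) hij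
          have h6 := hP.uniq S.hψ hsq (hQ.bar h S.hψ) h5
          apply z.2.1
          refine eq_of_sq h2 h (fun w => ?_) hB
          have h7 := congrFun h6 w
          rw [ZeroMemClass.coe_zero, map_zero, LinearMap.zero_apply]
          linear_combination -h7
        | some (some z), some none =>
          exfalso
          have h5 := hP.orbit h (hQ.bar h S.hψ) hij
          have h6 := (hPz z).uniq S.hψ hsq ((hQi (some z)).bar h S.hψ) h5
          apply z.2.1
          refine eq_of_sq h2 h (fun w => ?_) hB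
          have h7 := congrFun h6 w
          rw [ZeroMemClass.coe_zero, map_zero, LinearMap.zero_apply]
          linear_combination h7
        | some (some z), some (some z') =>
          have h5 := (hPz z').orbit h ((hQi (some z')).bar h S.hψ) hij
          have h6 := (hPz z).uniq S.hψ hsq ((hQi (some z)).bar h S.hψ) h5
          have h8 : z.1 = z'.1 := by
            refine eq_of_sq h2 h (fun w => ?_) hB
            have h7 := congrFun h6 w
            linear_combination h7
          rw [Subtype.ext h8])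
    rw [Fintype.card_option, Fintype.card_option, ← Nat.card_eq_fintype_card] at h3
    omega
  obtain ⟨a, ha⟩ := S.hψ
  have h1 := total (X := X) hB ψ h hb0 ha
  rw [S.hU] at h1
  have h5 := sum_ge1 (fun c => R0 hB ψ v v' X c + (t + 2) * k * (hk hB v v').r ψ (bU B v v') X c b0)
    (a := (k + 2) + (t + 2) * k * 1) (d := (k + 2) + (t + 2) * k * 1)
    (Nat.add_le_add (hR.trans ((hk hB v v').r_mono_c c 0))
      (Nat.mul_le_mul_left _ ((hpos c hc0 b0 hb0).trans ((hk hB v v').r_mono_c c b0))))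
    (by
      intro c' hc'
      refine Nat.add_le_add ?_ (Nat.mul_le_mul_left _ (hpos c' hc' b0 hb0))
      show k + 2 ≤ (hk hB v v').r ψ (bU B v v') X c' 0
      rw [torus_eq hsq h hc' hc0 (Or.inr ⟨rfl, rfl⟩)]
      exact hR)
  rw [← h1, S.hq] at h5
  have h6 := S.hX
  have h7 : t + 3 - 1 = t + 2 := by omega
  rw [h7] at h5
  nlinarith

/-- if not all characters appear then all moved points have type Q -/
theorem QT_of_not_pos (hsq : ∀ a : F, ∃ s : F, s ^ 2 = a) (h : B v v' = 1) (hψ : ∃ a, ψ a ≠ 1)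
    (hnp : ¬ Pos hB ψ v v' X) {x : X} (hx : v ∉ Tx hB x) : QT hB ψ v v' x := by
  unfold Pos at hnp
  push Not at hnp
  obtain ⟨c0, hc0, b0, hb0, hr⟩ := hnp
  intro b hb
  by_contra hne
  obtain ⟨c, hc, hcc⟩ := exists_Cc (ψ := ψ) (v' := v') hψ hx
  have h1 := (hk hB v v').r_pos (ψ := ψ) (β := bU B v v') (X := X) (c := c) (b := b) (x := x) ⟨hcc, hb⟩
  rw [torus_eq hsq h hc hc0 (Or.inl ⟨hne, hb0⟩)] at h1
  omega

/-- all the quadratic forms attached to a point are proportional -/
theorem Q2_prop (h2 : (2 : F) = 0) (hsq : ∀ a : F, ∃ s : F, s ^ 2 = a) (hψ2 : ∀ y, ψ (y ^ 2) = ψ y)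
    (S : Sm hB ψ v v' X t k) {x : X} (hQ : QT hB ψ v v' x) {c1 c2 : F} (hc1 : c1 ≠ 0)
    (hcc : c1 ∈ (hk hB v v').Cc ψ x) {P1 P2 : ↥(Uc B v v') → F}
    (H1 : IsP hB ψ v v' x c1 P1) (H2 : IsP hB ψ v v' x c2 P2) (w : ↥(Uc B v v')) : c2 * P1 w = c1 * P2 w := by
  classical
  by_contra hne
  have h := S.h
  obtain ⟨e, he⟩ := id S.hψ
  -- the associated vector
  let χ : AddChar ↥(Uc B v v') ℂ :=
    { toFun := fun w => ψ (c2 * P1 w + c1 * P2 w)
      map_zero_eq_one' := by
        have h3 : P1 0 = 0 := by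
          have := H1.smul 0 0
          rwa [zero_smul, zero_pow two_ne_zero, zero_mul] at this
        have h4 : P2 0 = 0 := by
          have := H2.smul 0 0
          rwa [zero_smul, zero_pow two_ne_zero, zero_mul] at this
        show ψ (c2 * P1 0 + c1 * P2 0) = 1
        rw [h3, h4, mul_zero, mul_zero, add_zero, AddChar.map_zero_eq_one]
      map_add_eq_mul' := fun w w' => by
        show ψ (c2 * P1 (w + w') + c1 * P2 (w + w')) = ψ (c2 * P1 w + c1 * P2 w) * ψ (c2 * P1 w' + c1 * P2 w')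
        rw [← AddChar.map_add_eq_mul, H1.add, H2.add]
        congr 1
        linear_combination (c1 * c2 * B (w : V) (w' : V)) * h2 }
  obtain ⟨b, hb⟩ := chi_surjective (bU B v v') (bU_nondeg hB h) he χ
  have hD : ∀ w : ↥(Uc B v v'), c2 * P1 w + c1 * P2 w = B (b : V) (w : V) ^ 2 := by
    intro w
    refine psi_ext2 S.hψ hsq fun l => ?_
    have h3 : ψ (c2 * P1 (l • w) + c1 * P2 (l • w)) = ψ (B (b : V) ((l • w : ↥(Uc B v v')) : V)) := hb (l • w)
    rw [H1.smul, H2.smul, Submodule.coe_smul, map_smul, smul_eq_mul] at h3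
    rw [← mul_pow, hψ2, ← h3]
    congr 1
    ring
  have hb0 : b ≠ 0 := by
    intro h0
    apply hne
    have h3 := hD w
    rw [h0, ZeroMemClass.coe_zero, map_zero, LinearMap.zero_apply, zero_pow two_ne_zero] at h3
    linear_combination h3 - (c1 * P2 w) * h2
  -- the second point
  obtain ⟨a, ha⟩ : ∃ a : F, a ^ 2 * P1 b + c1 * a ≠ 0 := by
    by_contra hcon
    push Not at hcon
    obtain ⟨s, hs0, hs1⟩ : ∃ s : F, s ≠ 0 ∧ s ≠ 1 := by
      by_contra hcon
      push Not at hcon
      have h3 : (Finset.univ : Finset F) ⊆ {0, 1} := by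
        intro μ _
        by_cases hμ : μ = 0
        · rw [hμ]; simp
        · rw [hcon μ hμ]; simp
      have h4 := Finset.card_le_card h3
      rw [Finset.card_univ, S.hq] at h4
      have h5 : ({0, 1} : Finset F).card ≤ 2 := Finset.card_le_two
      omega
    have h3 := hcon 1
    have h4 := hcon s
    have h5 : c1 * s * (1 - s) = 0 := by linear_combination h4 - s ^ 2 * h3
    rcases mul_eq_zero.1 h5 with h6 | h6
    · rcases mul_eq_zero.1 h6 with h7 | h7
      · exact hc1 h7
      · exact hs0 h7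
    · exact hs1 (sub_eq_zero.1 h6).symm
  have htv : ∀ (e : F) (z : ↥(Uc B v v')), ((tv hB e (z : V) : Spg B) : V ≃ₗ[F] V) v = v ∧
      ((tv hB e (z : V) : Spg B) : V ≃ₗ[F] V) v' = v' := by
    intro e z
    constructor
    · rw [tv_apply, hB.skew, (mem_Uc.1 z.2).1]; simp
    · rw [tv_apply, hB.skew, (mem_Uc.1 z.2).2]; simp
  set x' := tv hB a (b : V) • x with hx'
  have hQ' : QT hB ψ v v' x' := hQ.act (htv a b).1 (htv a b).2
  have H1' := H1.tv h2 a b
  have H2' := H2.tv h2 a b
  haveI : Fintype ↥(Uc B v v') := Fintype.ofFinite _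
  let Z := {z : ↥(Uc B v v') // z ≠ 0}
  have hg : ∀ z : Z, ∃ g ∈ TU hB (Uc B v v'), ((g : Spg B) : V ≃ₗ[F] V) (b : V) = z.1 := fun z =>
    trans_one hB (Uc_nondeg hB h) b.2 z.1.2 (fun h0 => hb0 (Subtype.ext h0)) (fun h0 => z.2 (Subtype.ext h0))
  choose g hg hgb using hg
  -- transporting data
  have hfix : ∀ z : Z, ((g z : Spg B) : V ≃ₗ[F] V) v = v ∧ ((g z : Spg B) : V ≃ₗ[F] V) v' = v' :=
    fun z => TU_Uc hB (hg z)
  have hinv : ∀ (z : Z) (w : ↥(Uc B v v')), (((g z)⁻¹ : Spg B) : V ≃ₗ[F] V) w ∈ Uc B v v' := by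
    intro z w
    rw [← act_mem (g := g z) (v' := v') one_ne_zero (by rw [(hfix z).1, one_smul])
      (by rw [(hfix z).2, inv_one, one_smul]), apply_inv_self']
    exact w.2
  let tr : (↥(Uc B v v') → F) → Z → ↥(Uc B v v') → F := fun P z w => P ⟨_, hinv z w⟩
  have htr : ∀ (P : ↥(Uc B v v') → F) (z : Z) (w w' : ↥(Uc B v v')), (w : V) = ((g z : Spg B) : V ≃ₗ[F] V) w' →
      tr P z w = P w' := by
    intro P z w w' hw
    show P ⟨_, hinv z w⟩ = P w'
    congr 1
    apply Subtype.ext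
    show (((g z)⁻¹ : Spg B) : V ≃ₗ[F] V) w = w'
    rw [hw, inv_apply_self']
  have htrB : ∀ (z : Z) (w : ↥(Uc B v v')), B (b : V) ((((g z)⁻¹ : Spg B) : V ≃ₗ[F] V) (w : V)) = B (z.1 : V) (w : V) := by
    intro z w
    rw [← Spg_apply (g z), apply_inv_self', hgb]
  let f : Z × Bool → X := fun p => g p.1 • (if p.2 then x' else x)
  have hR : 2 * ((t + 2) * k) ≤ (hk hB v v').r ψ (bU B v v') X c1 0 := by
    have h3 := (hk hB v v').r_card (ψ := ψ) (β := bU B v v') (c := c1) (b := 0) f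
      (by
        rintro ⟨z, i⟩
        refine ⟨Cc_act_one ?_ (hfix z).1, zero_mem _⟩
        cases i
        · exact hcc
        · exact Cc_act_one hcc (htv a b).1)
      (by
        have hQf : ∀ p, QT hB ψ v v' (f p) := by
          rintro ⟨z, i⟩
          refine QT.act ?_ (hfix z).1 (hfix z).2
          cases i
          · exact hQ
          · exact hQ'
        -- the two invariants
        have hI1 : ∀ z : Z, IsP hB ψ v v' (f (z, false)) c1 (tr P1 z) := fun z => H1.act (hfix z).1 (hfix z).2 (htr P1 z)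
        have hI2 : ∀ z : Z, IsP hB ψ v v' (f (z, false)) c2 (tr P2 z) := fun z => H2.act (hfix z).1 (hfix z).2 (htr P2 z)
        have hJ1 : ∀ z : Z, IsP hB ψ v v' (f (z, true)) c1
          (tr (fun w => P1 w + (a ^ 2 * P1 b + c1 * a) * B (b : V) (w : V) ^ 2) z) :=
            fun z => H1'.act (hfix z).1 (hfix z).2
              (htr (fun w => P1 w + (a ^ 2 * P1 b + c1 * a) * B (b : V) (w : V) ^ 2) z)
        have hJ2 : ∀ z : Z, IsP hB ψ v v' (f (z, true)) c2
          (tr (fun w => P2 w + (a ^ 2 * P2 b + c2 * a) * B (b : V) (w : V) ^ 2) z) :=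
            fun z => H2'.act (hfix z).1 (hfix z).2
              (htr (fun w => P2 w + (a ^ 2 * P2 b + c2 * a) * B (b : V) (w : V) ^ 2) z)
        have hDb : c2 * P1 b + c1 * P2 b = 0 := by
          rw [hD, hB.alt, zero_pow two_ne_zero]
        have hex : ∀ p : Z × Bool, ∃ R1 R2, IsP hB ψ v v' (f p) c1 R1 ∧ IsP hB ψ v v' (f p) c2 R2 ∧
            (∀ w : ↥(Uc B v v'), c2 * R1 w + c1 * R2 w = B (p.1.1 : V) (w : V) ^ 2) := by
          rintro ⟨z, i⟩
          cases i
          · refine ⟨_, _, hI1 z, hI2 z, fun w => ?_⟩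
            show c2 * P1 ⟨_, hinv z w⟩ + c1 * P2 ⟨_, hinv z w⟩ = _
            rw [hD]
            show B (b : V) ((((g z)⁻¹ : Spg B) : V ≃ₗ[F] V) (w : V)) ^ 2 = _
            rw [htrB]
          · refine ⟨_, _, hJ1 z, hJ2 z, fun w => ?_⟩
            show c2 * (P1 ⟨_, hinv z w⟩ + (a ^ 2 * P1 b + c1 * a) *
                B (b : V) ((((g z)⁻¹ : Spg B) : V ≃ₗ[F] V) (w : V)) ^ 2) +
              c1 * (P2 ⟨_, hinv z w⟩ + (a ^ 2 * P2 b + c2 * a) *
                B (b : V) ((((g z)⁻¹ : Spg B) : V ≃ₗ[F] V) (w : V)) ^ 2) = _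
            have h4 := hD ⟨_, hinv z w⟩
            have h5 : B (b : V) (((⟨_, hinv z w⟩ : ↥(Uc B v v')) : V)) = B (z.1 : V) (w : V) := htrB z w
            rw [h5] at h4
            rw [htrB]
            linear_combination h4 + (a ^ 2 * B (z.1 : V) (w : V) ^ 2) * hDb +
              (c1 * c2 * a * B (z.1 : V) (w : V) ^ 2) * h2
        have hz : ∀ p p' : Z × Bool, f p ∈ MulAction.orbit (hk hB v v').Qg (f p') → p.1 = p'.1 := by
          intro p p' hpp
          obtain ⟨R1, R2, hR1, hR2, hR⟩ := hex p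
          obtain ⟨R1', R2', hR1', hR2', hR'⟩ := hex p'
          have e1 := hR1.uniq S.hψ hsq ((hQf p).bar h S.hψ) (hR1'.orbit h ((hQf p').bar h S.hψ) hpp)
          have e2 := hR2.uniq S.hψ hsq ((hQf p).bar h S.hψ) (hR2'.orbit h ((hQf p').bar h S.hψ) hpp)
          apply Subtype.ext
          refine eq_of_sq h2 h (fun w => ?_) hB
          rw [← hR, ← hR', e1, e2]
        have hsep : ∀ z : Z, f (z, false) ∉ MulAction.orbit (hk hB v v').Qg (f (z, true)) := by
          intro z hcon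
          have e1 := (hI1 z).uniq S.hψ hsq ((hQf _).bar h S.hψ) ((hJ1 z).orbit h ((hQf _).bar h S.hψ) hcon)
          apply z.2
          refine eq_of_sq h2 h (fun w => ?_) hB
          have e2 : P1 ⟨_, hinv z w⟩ = P1 ⟨_, hinv z w⟩ + (a ^ 2 * P1 b + c1 * a) *
                B (b : V) ((((g z)⁻¹ : Spg B) : V ≃ₗ[F] V) (w : V)) ^ 2 := congrFun e1 w
          rw [htrB] at e2
          have e3 : (a ^ 2 * P1 b + c1 * a) * B (z.1 : V) (w : V) ^ 2 = 0 := by linear_combination -e2
          rw [(mul_eq_zero.1 e3).resolve_left ha, ZeroMemClass.coe_zero, map_zero, LinearMap.zero_apply,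
            zero_pow two_ne_zero]
        rintro ⟨z, i⟩ ⟨z', i'⟩ hpp
        obtain rfl : z = z' := hz _ _ hpp
        cases i <;> cases i'
        · rfl
        · exact (hsep z hpp).elim
        · exfalso
          apply hsep z
          rw [MulAction.orbit_eq_iff.2 hpp]
          exact MulAction.mem_orbit_self _
        · rfl)
    rw [Fintype.card_prod, Fintype.card_bool] at h3
    have h4 : Fintype.card Z = (t + 2) * k := by
      rw [← S.hU, Nat.card_eq_fintype_card, Fintype.card_subtype_compl, Fintype.card_subtype_eq]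
    rw [h4] at h3
    omega
  have h1 := total (X := X) hB ψ h hb0 he
  rw [S.hU] at h1
  have h5 := sum_ge1 (fun c => R0 hB ψ v v' X c + (t + 2) * k * (hk hB v v').r ψ (bU B v v') X c b)
    (a := 2 * ((t + 2) * k) + 0) (d := 2 * ((t + 2) * k) + 0)
    (Nat.add_le_add (hR.trans ((hk hB v v').r_mono_c c1 0)) (Nat.zero_le _))
    (by
      intro c' hc'
      refine Nat.add_le_add ?_ (Nat.zero_le _)
      show 2 * ((t + 2) * k) ≤ (hk hB v v').r ψ (bU B v v') X c' 0
      rw [torus_eq hsq h hc' hc1 (Or.inr ⟨rfl, rfl⟩)]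
      exact hR)
  rw [← h1, S.hq] at h5
  have h6 := S.hX
  have h7 : t + 3 - 1 = t + 2 := by omega
  rw [h7] at h5
  have h8 := S.k_ge
  nlinarith

/-- a quadratic form describing the action at a point -/
theorem exists_quad (h2 : (2 : F) = 0) (hsq : ∀ a : F, ∃ s : F, s ^ 2 = a) (hψ2 : ∀ y, ψ (y ^ 2) = ψ y)
    (S : Sm hB ψ v v' X t k) {x : X} (hx : v ∉ Tx hB x) (hQ : QT hB ψ v v' x) :
    ∃ Q : ↥(Uc B v v') → F, (∀ w : ↥(Uc B v v'), sh hB 1 v (w : V) • x = tv hB (Q w) v • x) ∧
      (∀ (μ : F) (w : ↥(Uc B v v')), Q (μ • w) = μ ^ 2 * Q w) ∧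
      (∀ w w' : ↥(Uc B v v'), Q (w + w') = Q w + Q w' + B (w : V) (w' : V)) := by
  obtain ⟨c, hc0, hc⟩ := exists_Cc (ψ := ψ) (v' := v') S.hψ hx
  have hbar := hQ.bar S.h S.hψ
  obtain ⟨P, hP⟩ := exists_IsP h2 hsq S.hψ hψ2 hbar hc
  obtain ⟨e, he⟩ := id S.hψ
  refine ⟨fun w => P w / c, ?_, ?_, ?_⟩
  · intro w
    obtain ⟨a, ha⟩ := hbar w
    have h3 : a - P w / c ∈ (hk hB v v').A x := by
      refine mem_of_ann (ψ := ψ) (β := LinearMap.mul F F) (mul_nondeg F) he ?_
      intro c' hc'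
      have hc' : c' ∈ (hk hB v v').Cc ψ x := hc'
      obtain ⟨P', hP'⟩ := exists_IsP h2 hsq S.hψ hψ2 hbar hc'
      have h4 := Q2_prop h2 hsq hψ2 S hQ hc0 hc hP hP' w
      rw [LinearMap.mul_apply', mul_sub]
      apply psi_sub
      rw [hP'.val w a ha]
      congr 1
      field_simp
      linear_combination -h4
    rw [hk_A] at h3
    rw [ha]
    have h5 : tv hB a v • x = tv hB (P w / c) v • tv hB (a - P w / c) v • x := by
      rw [← mul_smul, tv_mul, add_sub_cancel]
    rw [h5, h3]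
  · intro μ w
    show P (μ • w) / c = μ ^ 2 * (P w / c)
    rw [hP.smul]
    ring
  · intro w w'
    show P (w + w') / c = P w / c + P w' / c + _
    rw [hP.add]
    field_simp

end

end Cfsg.Agent.Lib.MSp
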