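import Mathlib
import Cfsg.Agent.Lib.MSpN

set_option autoImplicit false
set_option linter.unusedSectionVars false

/-!
Elimination of type Q (helper60).
-/

namespace Cfsg.Agent.Lib.MSp

open Cfsg.Agent.Lib.Coop Cfsg.Agent.Lib.ClSymp Cfsg.Agent.Lib.ClSymp2

variable {F V : Type*} [Field F] [AddCommGroup V] [Module F V] {B : LinearMap.BilinForm F V}

section

variable {X : Type*} [MulAction (Spg B) X]

/-- a quadratic form describing the action at a point -/
structure QV (hB : IsSymp B) (x : X) (v : V) (Q : V → F) : Prop where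
  val : ∀ w, B v w = 0 → sh hB 1 v w • x = tv hB (Q w) v • x
  smul : ∀ (μ : F) w, B v w = 0 → Q (μ • w) = μ ^ 2 * Q w
  add : ∀ w w', B v w = 0 → B v w' = 0 → Q (w + w') = Q w + Q w' + B w w'

variable {hB : IsSymp B}

theorem QV.act {x : X} {v : V} {Q : V → F} (H : QV hB x v Q) (g : Spg B) :
    QV hB (g • x) ((g : V ≃ₗ[F] V) v) (fun y => Q (((g⁻¹ : Spg B) : V ≃ₗ[F] V) y)) := by
  refine ⟨?_, ?_, ?_⟩
  · intro w hw
    obtain ⟨w, rfl⟩ := (g : V ≃ₗ[F] V).surjective w
    rw [Spg_apply] at hw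
    rw [inv_apply_self', ← sh_conj, ← tv_conj, mul_smul, mul_smul, mul_smul, mul_smul, inv_smul_smul, H.val w hw]
  · intro μ w hw
    obtain ⟨w, rfl⟩ := (g : V ≃ₗ[F] V).surjective w
    rw [Spg_apply] at hw
    rw [← map_smul, inv_apply_self', inv_apply_self', H.smul μ w hw]
  · intro w w' hw hw'
    obtain ⟨w, rfl⟩ := (g : V ≃ₗ[F] V).surjective w
    obtain ⟨w', rfl⟩ := (g : V ≃ₗ[F] V).surjective w'
    rw [Spg_apply] at hw hw'
    rw [← map_add, inv_apply_self', inv_apply_self', inv_apply_self', H.add w w' hw hw', Spg_apply]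

/-- from a frame to the perpendicular space -/
theorem exists_QV (h2 : (2 : F) = 0) {v v' : V} (h : B v v' = 1) {x : X}
    (H : ∃ Q : ↥(Uc B v v') → F, (∀ w : ↥(Uc B v v'), sh hB 1 v (w : V) • x = tv hB (Q w) v • x) ∧
      (∀ (μ : F) (w : ↥(Uc B v v')), Q (μ • w) = μ ^ 2 * Q w) ∧
      (∀ w w' : ↥(Uc B v v'), Q (w + w') = Q w + Q w' + B (w : V) (w' : V))) : ∃ Q : V → F, QV hB x v Q := by
  obtain ⟨Q, h3, h4, h5⟩ := H
  have hpr : ∀ (μ : F) (y : V), (⟨_, proj_mem hB h (μ • y)⟩ : ↥(Uc B v v')) = μ • ⟨_, proj_mem hB h y⟩ := by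
    intro μ y
    apply Subtype.ext
    show μ • y + B v' (μ • y) • v - B v (μ • y) • v' = μ • (y + B v' y • v - B v y • v')
    rw [map_smul, map_smul]
    module
  have hpa : ∀ (y y' : V), (⟨_, proj_mem hB h (y + y')⟩ : ↥(Uc B v v')) =
      ⟨_, proj_mem hB h y⟩ + ⟨_, proj_mem hB h y'⟩ := by
    intro y y'
    apply Subtype.ext
    show y + y' + B v' (y + y') • v - B v (y + y') • v' =
      (y + B v' y • v - B v y • v') + (y' + B v' y' • v - B v y' • v')
    rw [map_add, map_add]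
    module
  refine ⟨fun y => Q ⟨_, proj_mem hB h y⟩, ?_, ?_, ?_⟩
  · intro w hw
    have h6 := h3 ⟨_, proj_mem hB h w⟩
    have h7 : w + B v' w • v - B v w • v' = w + B v' w • v := by rw [hw, zero_smul, sub_zero]
    show sh hB 1 v w • x = tv hB (Q ⟨_, proj_mem hB h w⟩) v • x
    rw [← h6]
    show sh hB 1 v w • x = sh hB 1 v (w + B v' w • v - B v w • v') • x
    rw [h7, sh_add_smul hB _ hw, h2, zero_mul, tv_zero, mul_one]
  · intro μ w _
    show Q ⟨_, proj_mem hB h (μ • w)⟩ = _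
    rw [hpr, h4]
  · intro w w' hw hw'
    show Q ⟨_, proj_mem hB h (w + w')⟩ = _
    rw [hpa, h5]
    have h6 : B w v = 0 := by rw [hB.skew, hw, neg_zero]
    have h7 : B (w + B v' w • v - B v w • v') (w' + B v' w' • v - B v w' • v') = B w w' := by
      rw [hw, hw']
      simp only [zero_smul, sub_zero, map_add, map_smul, LinearMap.add_apply, LinearMap.smul_apply, hw', h6, hB.alt,
        smul_zero, add_zero]
    exact congrArg (fun z => Q ⟨_, proj_mem hB h w⟩ + Q ⟨_, proj_mem hB h w'⟩ + z) h7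

theorem QV.zero {x : X} {v : V} {Q : V → F} (H : QV hB x v Q) : Q 0 = 0 := by
  have := H.smul 0 0 (map_zero _)
  rwa [zero_smul, zero_pow two_ne_zero, zero_mul] at this

theorem exists_sep (hB : IsSymp B) {v u : V} (hv : v ≠ 0) (hu : ∀ μ : F, u ≠ μ • v) : ∃ w, B v w = 0 ∧ B u w = 1 := by
  obtain ⟨z, -, h1, h2⟩ := indep_sep hB (U := ⊤) (fun u _ hu => by
    obtain ⟨w, hw⟩ := hB.nondeg u hu
    exact ⟨w, Submodule.mem_top, hw⟩) (s := v) (b := u) Submodule.mem_top Submodule.mem_top hv hu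
  exact ⟨(B u z)⁻¹ • z, by rw [map_smul, h1, smul_zero], by rw [map_smul, smul_eq_mul, inv_mul_cancel₀ h2]⟩

/-- transvections fixing a point of type Q -/
theorem QV.fix (hsq : ∀ a : F, ∃ s : F, s ^ 2 = a) {x : X} {v : V} {Q : V → F} (H : QV hB x v Q) (hv : v ∉ Tx hB x)
    {u : V} (hvu : B v u = 0) (hu : ∀ μ : F, u ≠ μ • v) {a : F} (ha : tv hB a u • x = x) : a = 0 ∨ a * Q u = 1 := by
  have hv0 : v ≠ 0 := by
    rintro rfl
    exact hv (Tx_zero x)
  have huv : B u v = 0 := by rw [hB.skew, hvu, neg_zero]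
  by_contra hcon
  push Not at hcon
  have hne : a ^ 2 * Q u - a ≠ 0 := by
    intro h0
    have h1 : a * (a * Q u - 1) = 0 := by linear_combination h0
    rcases mul_eq_zero.1 h1 with h2 | h2
    · exact hcon.1 h2
    · exact hcon.2 (sub_eq_zero.1 h2)
  obtain ⟨w1, hw1, huw1⟩ := exists_sep hB hv0 hu
  apply hv
  intro e
  obtain ⟨ν, hν⟩ := hsq (e / (a ^ 2 * Q u - a))
  set w := ν • w1 with hw
  have hvw : B v w = 0 := by rw [hw, map_smul, hw1, smul_zero]
  have huw : B u w = ν := by rw [hw, map_smul, huw1, smul_eq_mul, mul_one]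
  have hwu : B w u = -ν := by rw [hB.skew, huw]
  have h1 := H.val w hvw
  have h2 : tv hB a u • sh hB 1 v w • x = tv hB a u • tv hB (Q w) v • x := by rw [h1]
  have htv : ((tv hB a u : Spg B) : V ≃ₗ[F] V) v = v := by rw [tv_apply, huv]; simp
  have htw : ((tv hB a u : Spg B) : V ≃ₗ[F] V) w = w + (a * ν) • u := by rw [tv_apply, huw]
  have h3 : tv hB a u * sh hB 1 v w = sh hB 1 v (w + (a * ν) • u) * tv hB a u := by
    rw [← mul_inv_eq_iff_eq_mul, sh_conj, htv, htw]
  have h4 : tv hB a u * tv hB (Q w) v = tv hB (Q w) v * tv hB a u := by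
    rw [← mul_inv_eq_iff_eq_mul, tv_conj, htv]
  rw [← mul_smul, ← mul_smul, h3, h4, mul_smul (sh hB 1 v _), mul_smul (tv hB (Q w) v), ha] at h2
  have hvu' : B v ((a * ν) • u) = 0 := by rw [map_smul, hvu, smul_zero]
  rw [H.val _ (by rw [map_add, hvw, hvu', add_zero]), H.add _ _ hvw hvu', H.smul _ _ hvu, map_smul, hwu, smul_eq_mul]
    at h2
  have h5 : (a * ν) ^ 2 * Q u + a * ν * -ν = e := by
    have : (a * ν) ^ 2 * Q u + a * ν * -ν = ν ^ 2 * (a ^ 2 * Q u - a) := by ring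
    rw [this, hν, div_mul_cancel₀ _ hne]
  rw [add_assoc, h5, add_comm, ← tv_mul, mul_smul] at h2
  have h6 : tv hB (Q w) v • tv hB e v • x = tv hB (Q w) v • x := by
    rw [← mul_smul, tv_mul, add_comm, ← tv_mul, mul_smul]
    exact h2
  exact MulAction.injective _ h6

/-- no transvection group fixes a point -/
theorem QV_no_fix [Fintype F] (hF : 3 ≤ Fintype.card F) (hsq : ∀ a : F, ∃ s : F, s ^ 2 = a) {x : X}
    (hdim : ∀ v v' : V, B v v' = 1 → ∃ w ∈ Uc B v v', w ≠ 0)
    (HQ : ∀ v, v ∉ Tx hB x → ∃ Q : V → F, QV hB x v Q) {v : V} (hv : v ∉ Tx hB x) {u : V} (hu : u ≠ 0) :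
    u ∉ Tx hB x := by
  classical
  have step : ∀ v, v ∉ Tx hB x → ∀ u, B v u = 0 → (∀ μ : F, u ≠ μ • v) → u ∉ Tx hB x := by
    intro v hv u hvu hu hux
    obtain ⟨Q, H⟩ := HQ v hv
    have h3 : (Finset.univ : Finset F) ⊆ {0, (Q u)⁻¹} := by
      intro a _
      rcases H.fix hsq hv hvu hu (hux a) with h | h
      · rw [h]; simp
      · have : a = (Q u)⁻¹ := eq_inv_of_mul_eq_one_left h
        rw [this]; simp
    have h4 := Finset.card_le_card h3
    rw [Finset.card_univ] at h4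
    have h5 : ({0, (Q u)⁻¹} : Finset F).card ≤ 2 := Finset.card_le_two
    omega
  by_cases huv : ∃ μ : F, u = μ • v
  · obtain ⟨μ, rfl⟩ := huv
    intro h
    apply hv
    have hμ : μ ≠ 0 := by
      rintro rfl
      exact hu (zero_smul _ _)
    have := Tx_smul h μ⁻¹
    rwa [inv_smul_smul₀ hμ] at this
  push Not at huv
  by_cases hvu : B v u = 0
  · exact step v hv u hvu huv
  · obtain ⟨w, hw, hw0⟩ := hdim v ((B v u)⁻¹ • u) (by rw [map_smul, smul_eq_mul, inv_mul_cancel₀ hvu])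
    obtain ⟨h1, h2⟩ := mem_Uc.1 hw
    rw [map_smul, LinearMap.smul_apply, smul_eq_mul] at h2
    have h3 : B u w = 0 := (mul_eq_zero.1 h2).resolve_left (inv_ne_zero hvu)
    have h4 : w ∉ Tx hB x := step v hv w h1 (by
      intro μ hμ
      have h5 : μ = 0 := by
        rw [hμ, map_smul, smul_eq_mul, hB.skew u v, mul_neg, neg_eq_zero] at h3
        exact (mul_eq_zero.1 h3).resolve_right hvu
      apply hw0
      rw [hμ, h5, zero_smul])
    refine step w h4 u (by rw [hB.skew, h3, neg_zero]) ?_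
    intro μ hμ
    have h5 : μ • B v w = B v u := by rw [hμ, map_smul]
    rw [h1, smul_zero] at h5
    exact hvu h5.symm

theorem card_le_of_three [Fintype F] (h2 : (2 : F) = 0) {α β r : F} (hαβ : α ≠ 0 ∨ β ≠ 0)
    (h : ∀ s : F, α * s + β * s ^ 2 = 0 ∨ α * s + β * s ^ 2 = r) : Fintype.card F ≤ 4 := by
  classical
  by_contra hcon
  have h3 : 2 < ((Finset.univ.erase (0 : F)).erase (α / β)).card := by
    have h4 : (Finset.univ.erase (0 : F)).card - 1 ≤ ((Finset.univ.erase (0 : F)).erase (α / β)).card :=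
      Finset.pred_card_le_card_erase
    rw [Finset.card_erase_of_mem (Finset.mem_univ _), Finset.card_univ] at h4
    omega
  obtain ⟨a, ha, b, hb, c, hc, hab, hac, hbc⟩ := Finset.two_lt_card.1 h3
  have key : ∀ s ∈ (Finset.univ.erase (0 : F)).erase (α / β), α * s + β * s ^ 2 = r := by
    intro s hs
    rw [Finset.mem_erase, Finset.mem_erase] at hs
    refine (h s).resolve_left ?_
    intro h0
    have h5 : s * (α + β * s) = 0 := by linear_combination h0
    have h6 := (mul_eq_zero.1 h5).resolve_left hs.2.1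
    by_cases hβ : β = 0
    · rw [hβ, zero_mul, add_zero] at h6
      rcases hαβ with h7 | h7
      · exact h7 h6
      · exact h7 hβ
    · apply hs.1
      rw [eq_div_iff hβ]
      linear_combination h6 - α * h2
  have e1 := key a ha
  have e2 := key b hb
  have e3 := key c hc
  have f1 : (a - b) * (α + β * (a - b)) = 0 := by linear_combination e1 - e2 - (β * a * b - β * b ^ 2) * h2
  have f2 : (a - c) * (α + β * (a - c)) = 0 := by linear_combination e1 - e3 - (β * a * c - β * c ^ 2) * h2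
  have g1 := (mul_eq_zero.1 f1).resolve_left (sub_ne_zero.2 hab)
  have g2 := (mul_eq_zero.1 f2).resolve_left (sub_ne_zero.2 hac)
  have g3 : β * (b - c) = 0 := by linear_combination g2 - g1
  rcases mul_eq_zero.1 g3 with h5 | h5
  · rw [h5, zero_mul, add_zero] at g1
    rcases hαβ with h7 | h7
    · exact h7 g1
    · exact h7 h5
  · exact hbc (sub_eq_zero.1 h5)

/-- final contradiction for type Q -/
theorem false_of_QV [Fintype F] (h2 : (2 : F) = 0) (hF : 4 ≤ Fintype.card F) (hsq : ∀ a : F, ∃ s : F, s ^ 2 = a) {x : X}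
    (hdim : ∀ v v' : V, B v v' = 1 → ∃ w ∈ Uc B v v', w ≠ 0)
    (HQ : ∀ v, v ∉ Tx hB x → ∃ Q : V → F, QV hB x v Q) {v : V} (hv : v ∉ Tx hB x) : False := by
  classical
  have hnf : ∀ u : V, u ≠ 0 → u ∉ Tx hB x := fun u hu => QV_no_fix (by omega) hsq hdim HQ hv hu
  have hv0 : v ≠ 0 := by
    rintro rfl
    exact hv (Tx_zero x)
  obtain ⟨Q, H⟩ := HQ v hv
  obtain ⟨v', h⟩ := exists_pair hB hv0
  -- an element with nonzero value
  obtain ⟨u1, hu1, hQu1⟩ : ∃ u1 ∈ Uc B v v', Q u1 ≠ 0 := by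
    by_contra hcon
    push Not at hcon
    obtain ⟨w, hw, hw0⟩ := hdim v v' h
    obtain ⟨z, hz, hwz⟩ := Uc_nondeg hB h w hw hw0
    apply hwz
    have h3 := H.add w z (mem_Uc.1 hw).1 (mem_Uc.1 hz).1
    rw [hcon w hw, hcon z hz, hcon _ (add_mem hw hz), zero_add, zero_add] at h3
    exact h3.symm
  obtain ⟨p, hp⟩ : ∃ p, tv hB p v • x ≠ x := by
    by_contra hcon
    push Not at hcon
    exact hv hcon
  have hp0 : p ≠ 0 := by
    rintro rfl
    rw [tv_zero, one_smul] at hp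
    exact hp rfl
  obtain ⟨μ, hμ⟩ := hsq (p / Q u1)
  have hμ0 : μ ≠ 0 := by
    rintro rfl
    rw [zero_pow two_ne_zero] at hμ
    exact div_ne_zero hp0 hQu1 hμ.symm
  have hu10 : u1 ≠ 0 := by
    rintro rfl
    exact hQu1 H.zero
  obtain ⟨u, hu⟩ : ∃ u, u = μ • u1 := ⟨_, rfl⟩
  have hum : u ∈ Uc B v v' := by rw [hu]; exact Submodule.smul_mem _ _ hu1
  obtain ⟨hvu, hv'u⟩ := mem_Uc.1 hum
  have huv : B u v = 0 := by rw [hB.skew, hvu, neg_zero]
  have hu0 : u ≠ 0 := by rw [hu]; exact smul_ne_zero hμ0 hu10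
  have hQu : Q u = p := by rw [hu, H.smul _ _ (mem_Uc.1 hu1).1, hμ, div_mul_cancel₀ _ hQu1]
  have hind : ∀ ν : F, u ≠ ν • v := by
    intro ν hν
    rw [hν, map_smul, hB.skew v' v, h, smul_eq_mul] at hv'u
    have hν0 : ν = 0 := by linear_combination -hv'u
    apply hu0
    rw [hν, hν0, zero_smul]
  have hind' : ∀ ν : F, v ≠ ν • u := by
    intro ν hν
    have hν0 : ν ≠ 0 := by
      rintro rfl
      rw [zero_smul] at hν
      exact hv0 hν
    apply hind ν⁻¹
    rw [hν, inv_smul_smul₀ hν0]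
  obtain ⟨Q', H'⟩ := HQ u (hnf u hu0)
  set r := Q' v with hr
  have hsw : ∀ ν : F, tv hB (ν ^ 2 * p) v • x = tv hB (ν ^ 2 * r) u • x := by
    intro ν
    have h3 := H.val (ν • u) (by rw [map_smul, hvu, smul_zero])
    have h4 := H'.val (ν • v) (by rw [map_smul, huv, smul_zero])
    rw [H.smul _ _ hvu, hQu] at h3
    rw [H'.smul _ _ huv] at h4
    rw [← h3, ← h4, sh_smul hB _ _ hvu, sh_smul hB _ _ huv, sh_comm_swap hB _ hvu]
  have hr0 : r ≠ 0 := by
    intro h0
    have h3 := hsw 1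
    rw [h0, mul_zero, tv_zero, one_smul, one_pow, one_mul] at h3
    exact hp h3
  have hA : ∀ s : F, tv hB s u • x = tv hB (s * p / r) v • x := by
    intro s
    obtain ⟨ν, hν⟩ := hsq (s / r)
    have h3 := hsw ν
    rw [hν, div_mul_cancel₀ _ hr0] at h3
    rw [← h3]
    congr 2
    ring
  -- transvections with centre on the line
  have hg : ∀ ν s : F, tv hB s (v + ν • u) • x = tv hB (s * (1 + ν ^ 2 * p / r) + p * ν ^ 2 * s ^ 2) v • x := by
    intro ν s
    have h3 := m3_tv hB hvu s 1 ν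
    rw [one_smul] at h3
    rw [h3, m3]
    simp only [one_pow, mul_one]
    have h4 : sh hB (s * ν) v u = sh hB 1 v ((s * ν) • u) := by rw [sh_smul hB _ _ hvu, one_mul]
    have h5 := H.val ((s * ν) • u) (by rw [map_smul, hvu, smul_zero])
    rw [H.smul _ _ hvu, hQu] at h5
    rw [mul_smul, mul_smul, hA, h4, ← mul_smul (sh hB 1 v _), tv_comm_sh hB _ (by rw [map_smul, hvu, smul_zero]),
      mul_smul, h5, ← mul_smul, ← mul_smul, tv_mul, tv_mul]
    congr 2
    ring
  have hAv : ∀ e : F, tv hB e v • x = x → e = 0 ∨ e = r⁻¹ := by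
    intro e he
    rcases H'.fix hsq (hnf u hu0) huv hind' he with h3 | h3
    · exact Or.inl h3
    · exact Or.inr (eq_inv_of_mul_eq_one_left h3)
  have hl0 : ∀ ν : F, v + ν • u ≠ 0 := by
    intro ν h0
    have h3 : B v' (v + ν • u) = 0 := by rw [h0, map_zero]
    rw [map_add, map_smul, hv'u, smul_zero, add_zero, hB.skew, h] at h3
    exact one_ne_zero (neg_eq_zero.1 h3)
  -- the key function
  have hkey : ∀ ν : F, ν ≠ 0 → ∃ q' : F, ∀ s : F,
      tv hB ((p + q' * (1 + ν ^ 2 * p / r)) * s + (p * ν ^ 2 * q' ^ 2) * s ^ 2) v • x = x := by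
    intro ν hν
    obtain ⟨Q1, H1⟩ := HQ (v + ν • u) (hnf _ (hl0 ν))
    have h1u : B (v + ν • u) u = 0 := by
      rw [map_add, map_smul, LinearMap.add_apply, LinearMap.smul_apply, hvu, hB.alt, smul_zero, add_zero]
    refine ⟨Q1 u, fun s => ?_⟩
    obtain ⟨τ, hτ⟩ := hsq s
    have h3 := H1.val (τ • u) (by rw [map_smul, h1u, smul_zero])
    rw [H1.smul _ _ h1u, hτ, hg] at h3
    have h4 : sh hB 1 (v + ν • u) (τ • u) = sh hB 1 v (τ • u) := by
      apply Spg_ext
      intro y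
      rw [sh_apply hB _ _ _ (by rw [map_smul, h1u, smul_zero]), sh_apply hB _ _ _ (by rw [map_smul, hvu, smul_zero])]
      simp only [map_add, map_smul, LinearMap.add_apply, LinearMap.smul_apply, smul_eq_mul, one_mul]
      have h5 : (2 * ν * τ * B u y) • u = 0 := by rw [h2]; simp
      have h6 : y + (B v y + ν * B u y) • τ • u + (τ * B u y) • (v + ν • u) =
          y + B v y • τ • u + (τ * B u y) • v + (2 * ν * τ * B u y) • u := by module
      rw [h6, h5, add_zero]
    have h5 := H.val (τ • u) (by rw [map_smul, hvu, smul_zero])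
    rw [H.smul _ _ hvu, hQu, hτ] at h5
    rw [h4, h5] at h3
    have h6 : tv hB (s * p) v • tv hB (s * p) v • x =
        tv hB (s * p) v • tv hB (s * Q1 u * (1 + ν ^ 2 * p / r) + p * ν ^ 2 * (s * Q1 u) ^ 2) v • x := by rw [h3]
    rw [← mul_smul, ← mul_smul, tv_mul, tv_mul, ← two_mul, h2, zero_mul, tv_zero, one_smul] at h6
    have h7 : (p + Q1 u * (1 + ν ^ 2 * p / r)) * s + p * ν ^ 2 * Q1 u ^ 2 * s ^ 2 =
        s * p + (s * Q1 u * (1 + ν ^ 2 * p / r) + p * ν ^ 2 * (s * Q1 u) ^ 2) := by ring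
    rw [h7]
    exact h6.symm
  obtain ⟨q', hq'⟩ := hkey 1 one_ne_zero
  have hne : p + q' * (1 + 1 ^ 2 * p / r) ≠ 0 ∨ p * 1 ^ 2 * q' ^ 2 ≠ 0 := by
    by_cases h0 : q' = 0
    · left
      rw [h0, zero_mul, add_zero]
      exact hp0
    · right
      exact mul_ne_zero (mul_ne_zero hp0 (pow_ne_zero 2 one_ne_zero)) (pow_ne_zero 2 h0)
  have hcard : Fintype.card F = 4 := le_antisymm (card_le_of_three h2 hne fun s => hAv _ (hq' s)) hF
  -- the stabiliser is not trivial
  have hrA : tv hB r⁻¹ v • x = x := by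
    by_contra hcon
    have h3 : ∀ s : F, (p + q' * (1 + 1 ^ 2 * p / r)) * s + (p * 1 ^ 2 * q' ^ 2) * s ^ 2 = 0 := by
      intro s
      rcases hAv _ (hq' s) with h4 | h4
      · exact h4
      · exfalso
        apply hcon
        rw [← h4]
        exact hq' s
    have h4 := h3 1
    obtain ⟨s, hs0, hs1⟩ : ∃ s : F, s ≠ 0 ∧ s ≠ 1 := by
      by_contra hcon
      push Not at hcon
      have h3 : (Finset.univ : Finset F) ⊆ {0, 1} := by
        intro μ _
        by_cases hμ : μ = 0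
        · rw [hμ]; simp
        · rw [hcon μ hμ]; simp
      have h4 := Finset.card_le_card h3
      rw [Finset.card_univ, hcard] at h4
      have h5 : ({0, 1} : Finset F).card ≤ 2 := Finset.card_le_two
      omega
    have h5 := h3 s
    set α := p + q' * (1 + 1 ^ 2 * p / r)
    set β := p * 1 ^ 2 * q' ^ 2
    have h6 : s * (s - 1) * β = 0 := by linear_combination h5 - s * h4
    have h7 : β = 0 := (mul_eq_zero.1 h6).resolve_left (mul_ne_zero hs0 (sub_ne_zero.2 hs1))
    have h8 : α = 0 := by rw [h7] at h4; linear_combination h4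
    rcases hne with h9 | h9
    · exact h9 h8
    · exact h9 h7
  -- a primitive cube root of unity
  obtain ⟨ω, hω⟩ : ∃ ω : F, ω ^ 2 = ω + 1 := by
    obtain ⟨s, hs0, hs1⟩ : ∃ s : F, s ≠ 0 ∧ s ≠ 1 := by
      by_contra hcon
      push Not at hcon
      have h3 : (Finset.univ : Finset F) ⊆ {0, 1} := by
        intro μ _
        by_cases hμ : μ = 0
        · rw [hμ]; simp
        · rw [hcon μ hμ]; simp
      have h4 := Finset.card_le_card h3
      rw [Finset.card_univ, hcard] at h4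
      have h5 : ({0, 1} : Finset F).card ≤ 2 := Finset.card_le_two
      omega
    refine ⟨s, ?_⟩
    have h3 := FiniteField.pow_card s
    rw [hcard] at h3
    have h4 : s * (s - 1) * (s ^ 2 + s + 1) = 0 := by linear_combination h3
    have h5 := (mul_eq_zero.1 h4).resolve_left (mul_ne_zero hs0 (sub_ne_zero.2 hs1))
    linear_combination h5 - (s + 1) * h2
  obtain ⟨ν, hν⟩ := hsq (ω * r / p)
  refine hnf (v + ν • u) (hl0 ν) (fun s => ?_)
  rw [hg]
  have hz : ∀ s : F, s ^ 4 = s := fun s => by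
    have h3 := FiniteField.pow_card s
    rwa [hcard] at h3
  have h3 : s * (1 + ν ^ 2 * p / r) + p * ν ^ 2 * s ^ 2 = r⁻¹ * ((1 + ω) * (r * s) + ω * (r * s) ^ 2) := by
    rw [hν]
    field_simp
  have h4 : ((1 + ω) * (r * s) + ω * (r * s) ^ 2) ^ 2 = (1 + ω) * (r * s) + ω * (r * s) ^ 2 := by
    have h5 := hz (r * s)
    have h6 : ω ^ 4 = ω := hz ω
    have h7 : ω ^ 3 = 1 := by
      have : ω ^ 3 = ω * ω ^ 2 := by ring
      rw [this, hω]
      linear_combination hω + ω * h2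
    linear_combination ω ^ 2 * h5 + ((r * s) ^ 2 + r * s + (2 * (r * s) ^ 3)) * hω +
      ((r * s) ^ 2 + ω * (r * s) ^ 2  + (r * s) ^ 3 * (ω + (ω + 1))) * h2
  have h5 : ((1 + ω) * (r * s) + ω * (r * s) ^ 2) = 0 ∨ ((1 + ω) * (r * s) + ω * (r * s) ^ 2) = 1 := by
    set z := (1 + ω) * (r * s) + ω * (r * s) ^ 2
    have h6 : z * (z - 1) = 0 := by linear_combination h4
    rcases mul_eq_zero.1 h6 with h7 | h7
    · exact Or.inl h7
    · exact Or.inr (sub_eq_zero.1 h7)
  rw [h3]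
  rcases h5 with h5 | h5
  · rw [h5, mul_zero, tv_zero, one_smul]
  · rw [h5, mul_one]
    exact hrA

end

end Cfsg.Agent.Lib.MSp
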