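import Mathlib
import Cfsg.Agent.Lib.MSpO

set_option autoImplicit false
set_option linter.unusedSectionVars false

/-!
The minimal degree of a transitive action of a symplectic group (helper60).
-/

namespace Cfsg.Agent.Lib.MSp

open Cfsg.Agent.Lib.Coop Cfsg.Agent.Lib.ClSymp Cfsg.Agent.Lib.ClSymp2

variable {F V : Type*} [Field F] [AddCommGroup V] [Module F V] {B : LinearMap.BilinForm F V}

section

variable {X : Type*} [MulAction (Spg B) X] {hB : IsSymp B} {v v' : V} {ψ : AddChar F ℂ}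
variable [Fintype F] [Finite X] [Finite V] {t k : ℕ}

theorem Sm.frame (S : Sm hB ψ v v' X t k) {u u' : V} (h : B u u' = 1) : Sm hB ψ u u' X t k := by
  have h1 := card_V hB h
  rw [card_V hB S.h] at h1
  have h2 := Nat.eq_of_mul_eq_mul_left (pow_pos Fintype.card_pos 2) h1
  exact ⟨h, S.hq, by rw [← h2]; exact S.hU, S.k_ge, S.hX, S.hψ⟩

theorem moved_of_Cc (hψ : ∃ a, ψ a ≠ 1) {x : X} {c : F} (hc0 : c ≠ 0)
    (hc : c ∈ (hk hB v v').Cc ψ x) : v ∉ Tx hB x := by
  intro hv
  obtain ⟨e, he⟩ := hψ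
  rw [HK.mem_Cc] at hc
  have h3 := hc (e / c) (hv _)
  rw [mul_div_cancel₀ _ hc0] at h3
  exact he h3

theorem transport (hB : IsSymp B) {u : V} (hu : u ≠ 0) {p : X → V → Prop} (hp : ∀ (x : X) (y : V) (g : Spg B), p x y → p (g • x) ((g : V ≃ₗ[F] V) y))
    (H : ∀ x : X, u ∉ Tx hB x → p x u) (x : X) (w : V) (hw : w ∉ Tx hB x) : p x w := by
  have hw0 : w ≠ 0 := by
    rintro rfl
    exact hw (Tx_zero x)
  obtain ⟨g, hg⟩ := exists_map hB hu hw0
  have h1 := H (g⁻¹ • x) (by
    rw [← Tx_act g, hg, smul_inv_smul]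
    exact hw)
  have h2 := hp _ _ g h1
  rwa [hg, smul_inv_smul] at h2

theorem false_of_Sm [MulAction.IsPretransitive (Spg B) X] (S : Sm hB ψ v v' X t k) (hex : t = 0 → 4 < k)
    (hsq : (2 : F) = 0 → ∀ a : F, ∃ s : F, s ^ 2 = a) (hψ2 : (2 : F) = 0 → ∀ y, ψ (y ^ 2) = ψ y)
    (hne : ∃ x : X, ∃ u, u ∉ Tx hB x) : False := by
  obtain ⟨x0, u0, hu0⟩ := hne
  have hpair0 : ∀ u u' : V, B u u' = 1 → u ≠ 0 := by
    rintro u u' h rfl
    rw [map_zero, LinearMap.zero_apply] at h
    exact zero_ne_one h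
  by_cases hpos : ∀ u u' : V, B u u' = 1 → Pos hB ψ u u' X
  · have hDd : ∀ u u' : V, B u u' = 1 → ∀ x : X, u ∉ Tx hB x → ∃ b ∈ (hk hB u u').Dd ψ (bU B u u') x, b ≠ 0 := by
      intro u u' h x hx
      by_cases h2 : (2 : F) = 0
      · exact Dd_ne_bot_even h2 (hsq h2) (hψ2 h2) (S.frame h) (hpos u u' h) hx
      · exact Dd_ne_bot_odd (S.frame h) h2 hx
    by_cases hTH : ∃ u u' : V, B u u' = 1 ∧ ∃ x : X, TH hB ψ u u' x ∧ u ∉ Tx hB x
    · obtain ⟨u, u', h, x, hx, -⟩ := hTH
      have H : ∀ y : X, u ∉ Tx hB y → HH hB y u := by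
        intro y hy
        obtain ⟨c, hc0, hc⟩ := exists_Cc (ψ := ψ) (v' := u') S.hψ hy
        obtain ⟨b, hb, hb0⟩ := hDd u u' h y hy
        rcases TH_or_TL (S.frame h) (hpos u u' h) hc0 hc hb0 hb with h1 | h1
        · exact HH_of_TH (S.frame h) (hpos u u' h) hc0 hc h1
        · exact (not_both (S.frame h) (hpos u u' h) hx h1 hc0 hc).elim
      exact false_of_HH S hex ⟨u0, hu0⟩ (fun w hw => transport hB (hpair0 u u' h) (p := fun x y => HH hB x y)
        (fun x y g hxy => hxy.act g) H x0 w hw)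
    · push Not at hTH
      have G : TLG hB ψ X t k := by
        refine ⟨fun u u' h => S.frame h, hpos, fun u u' h x hx => ?_⟩
        obtain ⟨c, hc0, hc⟩ := exists_Cc (ψ := ψ) (v' := u') S.hψ hx
        obtain ⟨b, hb, hb0⟩ := hDd u u' h x hx
        rcases TH_or_TL (S.frame h) (hpos u u' h) hc0 hc hb0 hb with h1 | h1
        · exact (hx (hTH u u' h x h1)).elim
        · exact h1
      exact G.false S.h hex hsq
  · push Not at hpos
    obtain ⟨u, u', h, hnp⟩ := hpos
    have hu := hpair0 u u' h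
    by_cases h2 : (2 : F) = 0
    · have H : ∀ x : X, u ∉ Tx hB x → ∃ Q : V → F, QV hB x u Q := fun x hx =>
        exists_QV h2 h (exists_quad h2 (hsq h2) (hψ2 h2) (S.frame h) hx
          (QT_of_not_pos (hsq h2) h S.hψ hnp hx))
      have hF : 4 ≤ Fintype.card F := by
        by_contra hcon
        have h3 : Fintype.card F = 3 := by
          have := S.hq
          omega
        have h4 := FiniteField.cast_card_eq_zero F
        rw [h3] at h4
        have h5 : (1 : F) = 0 := by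
          push_cast at h4
          linear_combination h4 - h2
        exact one_ne_zero h5
      exact false_of_QV (x := x0) h2 hF (hsq h2)
        (fun a a' h => by
          obtain ⟨b, hb⟩ := exists_Uc_ne (S.frame h)
          exact ⟨b, b.2, fun h0 => hb (Subtype.ext h0)⟩)
        (fun w hw => transport hB hu (p := fun x y => ∃ Q : V → F, QV hB x y Q)
          (fun x y g hxy => by
            obtain ⟨Q, hQ⟩ := hxy
            exact ⟨_, hQ.act g⟩) H x0 w hw) hu0
    · unfold Pos at hnp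
      push Not at hnp
      obtain ⟨c0, hc0, b0, hb0, hr⟩ := hnp
      have H : ∀ x : X, c0 ∉ (hk hB u u').Cc ψ x := by
        intro x hx
        obtain ⟨b, hb, hbne⟩ := Dd_ne_bot_odd (S.frame h) h2 (moved_of_Cc S.hψ hc0 hx)
        have h1 := (hk hB u u').r_pos (ψ := ψ) (β := bU B u u') (X := X) (c := c0) (b := b) (x := x) ⟨hx, hb⟩
        rw [r_const hB ψ h c0 hbne hb0] at h1
        omega
      refine false_of_caseI (x := x0) S h2 hc0 ?_ ⟨u0, hu0⟩
      intro w hw
      by_contra hcon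
      push Not at hcon
      obtain ⟨g, hg⟩ := exists_map hB hw hu
      apply H (g • x0)
      rw [HK.mem_Cc]
      intro a ha
      apply hcon
      rw [hk_ζ, ← hg, ← tv_conj, mul_smul, mul_smul, inv_smul_smul] at ha
      exact MulAction.injective g ha

/-- the minimal degree of a nontrivial transitive action of a symplectic group -/
theorem bound [MulAction.IsPretransitive (Spg B) X] (hB : IsSymp B) (h : B v v' = 1) (hq : Fintype.card F = t + 3)
    (hU : Nat.card ↥(Uc B v v') - 1 = (t + 2) * k) (hk : t + 4 ≤ k) (hex : t = 0 → 4 < k)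
    (hne : ∃ x : X, ∃ u, u ∉ Tx hB x) : (t + 3) ^ 2 * k + t + 4 ≤ Nat.card X := by
  by_contra hcon
  push Not at hcon
  obtain ⟨ψ, -, hψ⟩ := exists_char (A := F) (C := ⊥) (a := 1) (by rw [AddSubgroup.mem_bot]; exact one_ne_zero)
  by_cases h2 : (2 : F) = 0
  · have hsq : ∀ a : F, ∃ s : F, s ^ 2 = a := by
      obtain ⟨p, hp⟩ := CharP.exists F
      haveI : CharP F 2 := by
        have h3 : p ∣ 2 := (CharP.cast_eq_zero_iff F p 2).1 (by exact_mod_cast h2)
        have h4 : p ≠ 1 := CharP.char_ne_one F p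
        have h5 : p = 2 := ((Nat.dvd_prime Nat.prime_two).1 h3).resolve_left h4
        rw [← h5]; exact hp
      intro a
      obtain ⟨s, hs⟩ := FiniteField.isSquare_of_char_two (F := F) (ringChar.eq F 2) a
      exact ⟨s, by rw [hs]; ring⟩
    obtain ⟨ψ', h1', h2'⟩ := exists_psi h2 hsq ⟨_, hψ⟩
    exact false_of_Sm (ψ := ψ') ⟨h, hq, hU, hk, by omega, h1'⟩ hex (fun _ => hsq) (fun _ => h2') hne
  · exact false_of_Sm (ψ := ψ) ⟨h, hq, hU, hk, by omega, ⟨_, hψ⟩⟩ hex (fun h => (h2 h).elim) (fun h => (h2 h).elim) hne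

end

end Cfsg.Agent.Lib.MSp
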