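import Mathlib
import Cfsg.Prelude.Def_AxialAlgebras

set_option autoImplicit false

/-! Basic consequences of the axioms of Majorana involutions. -/

namespace Cfsg.Agent.Lib.Majorana

open Cfsg Cfsg.Axial

variable {V : Type*} [AddCommGroup V] [Module ℝ V]

theorem mem_eigen {mul : V →ₗ[ℝ] V →ₗ[ℝ] V} {a v : V} {c : ℝ} : v ∈ eigen mul a c ↔ mul a v = c • v :=
  Module.End.mem_eigenspace_iff

theorem eigenSum_singleton (mul : V →ₗ[ℝ] V →ₗ[ℝ] V) (a : V) (c : ℝ) : eigenSum mul a {c} = eigen mul a c := by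
  simp [eigenSum]

theorem eigenSum_pair (mul : V →ₗ[ℝ] V →ₗ[ℝ] V) (a : V) (c d : ℝ) :
    eigenSum mul a {c, d} = eigen mul a c ⊔ eigen mul a d := by
  simp [eigenSum, iSup_or, iSup_sup_eq]

theorem law_00 : monsterLaw (1 / 4 : ℝ) (1 / 32) 0 0 = {0} := by
  unfold monsterLaw; norm_num

theorem law_0q : monsterLaw (1 / 4 : ℝ) (1 / 32) 0 (1 / 4) = {1 / 4} := by
  unfold monsterLaw; norm_num

theorem law_qq : monsterLaw (1 / 4 : ℝ) (1 / 32) (1 / 4) (1 / 4) = {1, 0} := by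
  unfold monsterLaw; norm_num

/-- The consequences of the Majorana axioms in equational form. -/
structure Ax (mul : V →ₗ[ℝ] V →ₗ[ℝ] V) (B : LinearMap.BilinForm ℝ V) (τ : V ≃ₗ[ℝ] V) (a : V) : Prop where
  tmul : ∀ u v : V, τ (mul u v) = mul (τ u) (τ v)
  tB : ∀ u v : V, B (τ u) (τ v) = B u v
  ta : τ a = a
  aa : mul a a = a
  na : B a a = 1
  anti : ∀ v, τ v = -v → mul a v = (1 / 32 : ℝ) • v
  inv : ∀ v, τ v = v → mul a (mul a v) = (3 / 4 * B a v) • a + (1 / 4 : ℝ) • mul a v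
  f00 : ∀ u v, mul a u = 0 → mul a v = 0 → mul a (mul u v) = 0
  f0q : ∀ u v, mul a u = 0 → mul a v = (1 / 4 : ℝ) • v → mul a (mul u v) = (1 / 4 : ℝ) • mul u v
  fqq : ∀ u v, mul a u = (1 / 4 : ℝ) • u → mul a v = (1 / 4 : ℝ) • v →
    mul a (mul u v) = (1 / 4 * B u v) • a

theorem one_eigen {mul : V →ₗ[ℝ] V →ₗ[ℝ] V} {B : LinearMap.BilinForm ℝ V} {μ : V ≃ₗ[ℝ] V} {a : V}
    (h : IsMajoranaPair mul B μ a) : mul a a = a := h.2.2.1.1.2.1

/-- decomposition into eigenvectors -/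
theorem decomp {mul : V →ₗ[ℝ] V →ₗ[ℝ] V} {B : LinearMap.BilinForm ℝ V} {μ : V ≃ₗ[ℝ] V} {a : V}
    (h : IsMajoranaPair mul B μ a) (v : V) :
    ∃ (c : ℝ) (x y z : V), v = c • a + x + y + z ∧ mul a x = 0 ∧ mul a y = (1 / 4 : ℝ) • y ∧
      mul a z = (1 / 32 : ℝ) • z := by
  have hax := h.2.2.1
  have htop : eigenSum mul a majoranaSpectrum = ⊤ := hax.1.2.2.1
  have h1 : eigen mul a 1 = Submodule.span ℝ {a} := hax.2
  have hs : eigenSum mul a majoranaSpectrum = eigen mul a 1 ⊔ (eigen mul a 0 ⊔ (eigen mul a (1 / 4) ⊔ eigen mul a (1 / 32))) := by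
    simp only [eigenSum, majoranaSpectrum, Set.mem_insert_iff, Set.mem_singleton_iff, iSup_or, iSup_sup_eq,
      iSup_iSup_eq_left]
  have hv : v ∈ eigen mul a 1 ⊔ (eigen mul a 0 ⊔ (eigen mul a (1 / 4) ⊔ eigen mul a (1 / 32))) := by
    rw [← hs, htop]; trivial
  rw [Submodule.mem_sup] at hv
  obtain ⟨w, hw, r, hr, rfl⟩ := hv
  rw [Submodule.mem_sup] at hr
  obtain ⟨x, hx, r, hr, rfl⟩ := hr
  rw [Submodule.mem_sup] at hr
  obtain ⟨y, hy, z, hz, rfl⟩ := hr
  rw [h1, Submodule.mem_span_singleton] at hw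
  obtain ⟨c, rfl⟩ := hw
  refine ⟨c, x, y, z, by abel, ?_, mem_eigen.1 hy, mem_eigen.1 hz⟩
  have := mem_eigen.1 hx
  rwa [zero_smul] at this

theorem mu_of_plus {mul : V →ₗ[ℝ] V →ₗ[ℝ] V} {B : LinearMap.BilinForm ℝ V} {μ : V ≃ₗ[ℝ] V} {a : V}
    (h : IsMajoranaPair mul B μ a) {v : V} {c : ℝ} (hc : c ∈ ({1, 0, 1 / 4} : Set ℝ)) (hv : mul a v = c • v) : μ v = v := by
  refine h.2.2.2.1 v ?_
  have : eigen mul a c ≤ eigenSum mul a {1, 0, 1 / 4} := le_iSup₂_of_le c hc le_rfl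
  exact this (mem_eigen.2 hv)

theorem mu_of_minus {mul : V →ₗ[ℝ] V →ₗ[ℝ] V} {B : LinearMap.BilinForm ℝ V} {μ : V ≃ₗ[ℝ] V} {a : V}
    (h : IsMajoranaPair mul B μ a) {v : V} (hv : mul a v = (1 / 32 : ℝ) • v) : μ v = -v :=
  h.2.2.2.2 v (mem_eigen.2 hv)

theorem mu_decomp {mul : V →ₗ[ℝ] V →ₗ[ℝ] V} {B : LinearMap.BilinForm ℝ V} {μ : V ≃ₗ[ℝ] V} {a : V}
    (h : IsMajoranaPair mul B μ a) {c : ℝ} {x y z : V} (hx : mul a x = 0) (hy : mul a y = (1 / 4 : ℝ) • y)
    (hz : mul a z = (1 / 32 : ℝ) • z) : μ (c • a + x + y + z) = c • a + x + y - z := by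
  have ha : μ a = a := mu_of_plus h (c := 1) (by simp) (by rw [one_eigen h, one_smul])
  have hx' : μ x = x := mu_of_plus h (c := 0) (by simp) (by rw [hx, zero_smul])
  have hy' : μ y = y := mu_of_plus h (c := 1 / 4) (by simp) hy
  rw [map_add, map_add, map_add, map_smul, ha, hx', hy', mu_of_minus h hz, sub_eq_add_neg]

theorem B_orth {mul : V →ₗ[ℝ] V →ₗ[ℝ] V} {B : LinearMap.BilinForm ℝ V}
    (hassoc : ∀ u v w : V, B u (mul v w) = B (mul u v) w)
    (hcomm : IsCommMul mul) {a u v : V} {c d : ℝ} (hu : mul a u = c • u) (hv : mul a v = d • v) (hcd : c ≠ d) :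
    B u v = 0 := by
  have h1 : B u (mul a v) = B (mul u a) v := hassoc u a v
  rw [hcomm u a, hu, hv, map_smul, map_smul, LinearMap.smul_apply] at h1
  simp only [smul_eq_mul] at h1
  have : (d - c) * B u v = 0 := by linarith
  rcases mul_eq_zero.1 this with h | h
  · exact absurd (by linarith) hcd
  · exact h

theorem ax_of_majorana {mul : V →ₗ[ℝ] V →ₗ[ℝ] V} {B : LinearMap.BilinForm ℝ V} (hV : IsMajoranaAmbient mul B)
    {μ : V ≃ₗ[ℝ] V} {a : V} (h : IsMajoranaPair mul B μ a) (hn : B a a = 1) : Ax mul B μ a := by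
  obtain ⟨hcomm, hsymm, hpos, hassoc, -⟩ := hV
  have haa := one_eigen h
  have haa' : mul a a = (1 : ℝ) • a := by rw [haa, one_smul]
  have hfus := h.2.2.1.1.2.2.2
  have h0mem : (0 : ℝ) ∈ majoranaSpectrum := by simp [majoranaSpectrum]
  have hqmem : (1 / 4 : ℝ) ∈ majoranaSpectrum := by simp [majoranaSpectrum]
  have e0 : ∀ {u : V}, mul a u = 0 → u ∈ eigen mul a 0 := fun hu => mem_eigen.2 (by rw [hu, zero_smul])
  constructor
  · exact h.1
  · exact h.2.1
  · exact mu_of_plus h (c := 1) (by simp) (by rw [haa, one_smul])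
  · exact haa
  · exact hn
  · -- anti
    intro v hv
    obtain ⟨c, x, y, z, rfl, hx, hy, hz⟩ := decomp h v
    rw [mu_decomp h hx hy hz] at hv
    have h2 : c • a + x + y = 0 := by
      have h3 : (2 : ℝ) • (c • a + x + y) = 0 := by
        have : c • a + x + y - z + (c • a + x + y + z) = 0 := by rw [hv]; abel
        rw [two_smul]
        rw [← this]; abel
      rcases smul_eq_zero.1 h3 with h4 | h4
      · norm_num at h4
      · exact h4
    rw [h2, zero_add, hz]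
  · -- inv
    intro v hv
    obtain ⟨c, x, y, z, rfl, hx, hy, hz⟩ := decomp h v
    rw [mu_decomp h hx hy hz] at hv
    have hz0 : z = 0 := by
      have h3 : (2 : ℝ) • z = 0 := by
        have : c • a + x + y + z - (c • a + x + y - z) = 0 := by rw [hv]; abel
        rw [two_smul, ← this]; abel
      rcases smul_eq_zero.1 h3 with h4 | h4
      · norm_num at h4
      · exact h4
    subst hz0
    have b1 : B a x = 0 := B_orth hassoc hcomm haa' (by rw [hx, zero_smul] : mul a x = (0 : ℝ) • x) one_ne_zero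
    have b2 : B a y = 0 := B_orth hassoc hcomm haa' hy (by norm_num)
    have b3 : B a (c • a + x + y + 0) = c := by
      simp only [map_add, map_smul, b1, b2, hn, map_zero, smul_eq_mul]; ring
    rw [b3]
    simp only [map_add, map_smul, haa, hx, hy, map_zero]
    module
  · -- f00
    intro u v hu hv
    have h1 := hfus 0 h0mem 0 h0mem u (e0 hu) v (e0 hv)
    rw [law_00, eigenSum_singleton, mem_eigen, zero_smul] at h1
    exact h1
  · intro u v hu hv
    have h1 := hfus 0 h0mem (1 / 4) hqmem u (e0 hu) v (mem_eigen.2 hv)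
    rw [law_0q, eigenSum_singleton, mem_eigen] at h1
    exact h1
  · intro u v hu hv
    have h1 := hfus (1 / 4) hqmem (1 / 4) hqmem u (mem_eigen.2 hu) v (mem_eigen.2 hv)
    rw [law_qq, eigenSum_pair, Submodule.mem_sup] at h1
    obtain ⟨w, hw, x, hx, hwx⟩ := h1
    have h2 : eigen mul a 1 = Submodule.span ℝ {a} := h.2.2.1.2
    rw [h2, Submodule.mem_span_singleton] at hw
    obtain ⟨c, rfl⟩ := hw
    have hx' := mem_eigen.1 hx
    rw [zero_smul] at hx'
    have b1 : B a x = 0 := B_orth hassoc hcomm haa' (by rw [hx', zero_smul] : mul a x = (0 : ℝ) • x) one_ne_zero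
    have b2 : B a (mul u v) = 1 / 4 * B u v := by
      rw [hassoc, hu, map_smul, LinearMap.smul_apply, smul_eq_mul]
    have b3 : c = 1 / 4 * B u v := by
      rw [← b2, ← hwx, map_add, map_smul, b1, hn]; simp
    rw [← b3, ← hwx, map_add, map_smul, haa, hx', add_zero]

end Cfsg.Agent.Lib.Majorana
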