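import Mathlib
import Cfsg.Agent.Lib.Majorana

set_option autoImplicit false

/-! Dihedral algebras generated by two Majorana axes (Sakuma's theorem). -/

namespace Cfsg.Agent.Lib.MajoranaDih

open Cfsg Cfsg.Axial Cfsg.Agent.Lib.Majorana

variable {V : Type*} [AddCommGroup V] [Module ℝ V]
variable {mul : V →ₗ[ℝ] V →ₗ[ℝ] V} {B : LinearMap.BilinForm ℝ V}

theorem L1 {τ : V ≃ₗ[ℝ] V} {a : V} (A : Ax mul B τ a) {x y s : V} {c : ℝ} (hxy : τ x = y) (hyx : τ y = x)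
    (hc : B a x = c) (hx : mul a x = s + (1 / 32 : ℝ) • (a + x)) (hy : mul a y = s + (1 / 32 : ℝ) • (a + y)) :
    mul a s = (3 / 4 * c - 25 / 1024) • a + (7 / 32 : ℝ) • s + (7 / 2048 : ℝ) • (x + y) := by
  have hBy : B a y = c := by rw [← hc, ← A.tB a x, A.ta, hxy]
  have h := A.inv (x + y) (by rw [map_add, hxy, hyx, add_comm])
  simp only [map_add, hx, hy, map_smul, A.aa, hc, hBy] at h
  linear_combination (norm := module) (1 / 2 : ℝ) • h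

theorem L2 (hcomm : IsCommMul mul) (hassoc : ∀ u v w : V, B u (mul v w) = B (mul u v) w)
    {τ : V ≃ₗ[ℝ] V} {a : V} (A : Ax mul B τ a) {x1 y1 x2 y2 s t t' : V} {l m' : ℝ}
    (hl : B a x1 = l)
    (hx1 : mul a x1 = s + (1 / 32 : ℝ) • (a + x1)) (hy1 : mul a y1 = s + (1 / 32 : ℝ) • (a + y1))
    (hxx : mul x1 x1 = x1) (hyy : mul y1 y1 = y1)
    (hxy : mul x1 y1 = t' + (1 / 32 : ℝ) • (x1 + y1))
    (has : mul a s = (3 / 4 * l - 25 / 1024) • a + (7 / 32 : ℝ) • s + (7 / 2048 : ℝ) • (x1 + y1))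
    (hxs : mul x1 s = (3 / 4 * l - 25 / 1024) • x1 + (7 / 32 : ℝ) • s + (7 / 2048 : ℝ) • (x2 + a))
    (hys : mul y1 s = (3 / 4 * l - 25 / 1024) • y1 + (7 / 32 : ℝ) • s + (7 / 2048 : ℝ) • (a + y2))
    (hx2 : mul a x2 = t + (1 / 32 : ℝ) • (a + x2)) (hy2 : mul a y2 = t + (1 / 32 : ℝ) • (a + y2))
    (hn : B x1 x1 = 1) (hm : B y1 x1 = m') (hsx : B s x1 = 31 / 32 * l - 1 / 32) :
    mul a t' = (1 / 6 * l - 19 / 3072) • (x1 + y1) + (7 / 6144 : ℝ) • (x2 + y2) +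
      (-32 / 3 * l ^ 2 + 5 / 3 * l - 1 / 24 * m' - 127 / 3072) • a + (32 / 3 * l - 19 / 48) • s + (7 / 96 : ℝ) • t := by
  have hyx : mul y1 x1 = t' + (1 / 32 : ℝ) • (x1 + y1) := by rw [hcomm, hxy]
  have hx1a : mul x1 a = s + (1 / 32 : ℝ) • (a + x1) := by rw [hcomm, hx1]
  have hy1a : mul y1 a = s + (1 / 32 : ℝ) • (a + y1) := by rw [hcomm, hy1]
  have hsa : mul s a = (3 / 4 * l - 25 / 1024) • a + (7 / 32 : ℝ) • s + (7 / 2048 : ℝ) • (x1 + y1) := by rw [hcomm, has]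
  have hsx1 : mul s x1 = (3 / 4 * l - 25 / 1024) • x1 + (7 / 32 : ℝ) • s + (7 / 2048 : ℝ) • (x2 + a) := by rw [hcomm, hxs]
  have hsy1 : mul s y1 = (3 / 4 * l - 25 / 1024) • y1 + (7 / 32 : ℝ) • s + (7 / 2048 : ℝ) • (a + y2) := by rw [hcomm, hys]
  obtain ⟨al, hal⟩ : ∃ al : V, al = (-4 : ℝ) • s + (3 * l - 1 / 8) • a + (7 / 16 : ℝ) • (x1 + y1) := ⟨_, rfl⟩
  obtain ⟨be, hbe⟩ : ∃ be : V, be = (4 : ℝ) • s + (1 / 8 - 4 * l) • a + (1 / 16 : ℝ) • (x1 + y1) := ⟨_, rfl⟩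
  have ea : mul a al = 0 := by
    simp only [hal, map_add, map_smul, has, hx1, hy1, A.aa]
    module
  have eb : mul a be = (1 / 4 : ℝ) • be := by
    simp only [hbe, map_add, map_smul, has, hx1, hy1, A.aa]
    module
  have H1 := A.f00 al al ea ea
  have H2 := A.fqq be be eb eb
  have bb : B be be = 4 * l - 4 * l ^ 2 - 1 / 16 + m' / 16 := by
    have o1 : B be a = 0 := B_orth hassoc hcomm eb (by rw [A.aa, one_smul] : mul a a = (1 : ℝ) • a) (by norm_num)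
    have o2 : B be al = 0 := B_orth hassoc hcomm eb (by rw [ea, zero_smul] : mul a al = (0 : ℝ) • al) (by norm_num)
    have o3 : B be (x1 - y1) = 0 := B_orth hassoc hcomm eb (d := 1 / 32) (by
      rw [map_sub, hx1, hy1]; module) (by norm_num)
    have e1 : x1 = l • a + al + be + (1 / 2 : ℝ) • (x1 - y1) := by
      rw [hal, hbe]; module
    have e2 : B be x1 = B be be := by
      conv_lhs => rw [e1]
      simp only [map_add, map_smul, o1, o2, o3, smul_zero, zero_add, add_zero]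
    rw [← e2, hbe]
    simp only [map_add, map_smul, LinearMap.add_apply, LinearMap.smul_apply, hsx, hl, hn, hm, smul_eq_mul]
    ring
  have E : mul al al - mul be be = (8 * l - 2) • s + (-23 / 8 * l + 75 / 256) • (x1 + y1) + (-7 / 512 : ℝ) • (x2 + y2) +
      (-l ^ 2 + l / 4 - 9 / 256) • a + (3 / 8 : ℝ) • t' := by
    simp only [hal, hbe, map_add, map_smul, LinearMap.add_apply, LinearMap.smul_apply, has, hsa, hx1, hx1a, hy1, hy1a,
      hxs, hsx1, hys, hsy1, hxx, hyy, hxy, hyx, A.aa]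
    module
  have E2 : mul a (mul al al - mul be be) = (-(1 / 4 * B be be)) • a := by
    rw [map_sub, H1, H2]; module
  rw [E, bb] at E2
  simp only [map_add, map_smul, has, hx1, hy1, hx2, hy2, A.aa] at E2
  linear_combination (norm := module) (8 / 3 : ℝ) • E2

theorem L4 (hcomm : IsCommMul mul)
    {τ : V ≃ₗ[ℝ] V} {a : V} (A : Ax mul B τ a) {x1 y1 x2 y2 s t t' : V} {l m' : ℝ}
    (hx1 : mul a x1 = s + (1 / 32 : ℝ) • (a + x1)) (hy1 : mul a y1 = s + (1 / 32 : ℝ) • (a + y1))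
    (hxx : mul x1 x1 = x1) (hyy : mul y1 y1 = y1)
    (hxy : mul x1 y1 = t' + (1 / 32 : ℝ) • (x1 + y1))
    (has : mul a s = (3 / 4 * l - 25 / 1024) • a + (7 / 32 : ℝ) • s + (7 / 2048 : ℝ) • (x1 + y1))
    (hxs : mul x1 s = (3 / 4 * l - 25 / 1024) • x1 + (7 / 32 : ℝ) • s + (7 / 2048 : ℝ) • (x2 + a))
    (hys : mul y1 s = (3 / 4 * l - 25 / 1024) • y1 + (7 / 32 : ℝ) • s + (7 / 2048 : ℝ) • (a + y2))
    (hx2 : mul a x2 = t + (1 / 32 : ℝ) • (a + x2)) (hy2 : mul a y2 = t + (1 / 32 : ℝ) • (a + y2))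
    (hat : mul a t' = (1 / 6 * l - 19 / 3072) • (x1 + y1) + (7 / 6144 : ℝ) • (x2 + y2) +
      (-32 / 3 * l ^ 2 + 5 / 3 * l - 1 / 24 * m' - 127 / 3072) • a + (32 / 3 * l - 19 / 48) • s + (7 / 96 : ℝ) • t) :
    mul s s = (49 / 768 * l - 245 / 196608) • (x1 + y1) + (49 / 196608 : ℝ) • (x2 + y2) +
      (7 / 6 * l ^ 2 - 7 / 384 * l + 7 / 1536 * m' - 7 / 98304) • a + (-5 / 12 * l - 13 / 1536) • s +
      (-7 / 1536 : ℝ) • t + (7 / 2048 : ℝ) • t' := by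
  have hyx : mul y1 x1 = t' + (1 / 32 : ℝ) • (x1 + y1) := by rw [hcomm, hxy]
  have hx1a : mul x1 a = s + (1 / 32 : ℝ) • (a + x1) := by rw [hcomm, hx1]
  have hy1a : mul y1 a = s + (1 / 32 : ℝ) • (a + y1) := by rw [hcomm, hy1]
  have hsa : mul s a = (3 / 4 * l - 25 / 1024) • a + (7 / 32 : ℝ) • s + (7 / 2048 : ℝ) • (x1 + y1) := by rw [hcomm, has]
  have hsx1 : mul s x1 = (3 / 4 * l - 25 / 1024) • x1 + (7 / 32 : ℝ) • s + (7 / 2048 : ℝ) • (x2 + a) := by rw [hcomm, hxs]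
  have hsy1 : mul s y1 = (3 / 4 * l - 25 / 1024) • y1 + (7 / 32 : ℝ) • s + (7 / 2048 : ℝ) • (a + y2) := by rw [hcomm, hys]
  obtain ⟨al, hal⟩ : ∃ al : V, al = (-4 : ℝ) • s + (3 * l - 1 / 8) • a + (7 / 16 : ℝ) • (x1 + y1) := ⟨_, rfl⟩
  obtain ⟨be, hbe⟩ : ∃ be : V, be = (4 : ℝ) • s + (1 / 8 - 4 * l) • a + (1 / 16 : ℝ) • (x1 + y1) := ⟨_, rfl⟩
  have ea : mul a al = 0 := by
    simp only [hal, map_add, map_smul, has, hx1, hy1, A.aa]
    module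
  have eb : mul a be = (1 / 4 : ℝ) • be := by
    simp only [hbe, map_add, map_smul, has, hx1, hy1, A.aa]
    module
  have H1 := A.f00 al al ea ea
  have H2 := A.f0q al be ea eb
  have E1 : mul al al + mul al be = (1 / 2 : ℝ) • mul al (x1 + y1) := by
    have : al + be = (1 / 2 : ℝ) • (x1 + y1) - l • a := by rw [hal, hbe]; module
    rw [← map_add, this, map_sub, map_smul, map_smul, hcomm al a, ea, smul_zero, sub_zero]
  have E2 : mul a ((1 / 2 : ℝ) • mul al (x1 + y1)) = (1 / 4 : ℝ) • mul al be := by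
    rw [← E1, map_add, H1, H2, zero_add]
  simp only [hal, hbe, map_add, map_smul, LinearMap.add_apply, LinearMap.smul_apply, has, hsa, hx1, hx1a, hy1, hy1a,
      hxs, hsx1, hys, hsy1, hxx, hyy, hxy, hyx, A.aa, hat, hx2, hy2] at E2
  linear_combination (norm := module) (1 / 4 : ℝ) • E2

/-- A dihedral sequence of Majorana axes. -/
structure Dih (mul : V →ₗ[ℝ] V →ₗ[ℝ] V) (B : LinearMap.BilinForm ℝ V) (τ : ℤ → V ≃ₗ[ℝ] V) (a : ℤ → V) : Prop where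
  comm : IsCommMul mul
  symm : ∀ u v : V, B u v = B v u
  assoc : ∀ u v w : V, B u (mul v w) = B (mul u v) w
  pos : ∀ u : V, u ≠ 0 → 0 < B u u
  norton : ∀ u v : V, B (mul u v) (mul u v) ≤ B (mul u u) (mul v v)
  ax : ∀ i, Ax mul B (τ i) (a i)
  refl : ∀ i j, τ i (a j) = a (2 * i - j)

namespace Dih

variable {τ : ℤ → V ≃ₗ[ℝ] V} {a : ℤ → V}

theorem refl' (h : Dih mul B τ a) {i j k : ℤ} (e : 2 * i - j = k) : τ i (a j) = a k := by
  rw [h.refl, e]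

theorem ip (h : Dih mul B τ a) (k i j : ℤ) {i' j' : ℤ} (hi : 2 * k - i = i') (hj : 2 * k - j = j') :
    B (a i) (a j) = B (a i') (a j') := by
  rw [← (h.ax k).tB (a i) (a j), h.refl' hi, h.refl' hj]

theorem anti (h : Dih mul B τ a) (i n : ℤ) : mul (a i) (a (i + n) - a (i - n)) = (1 / 32 : ℝ) • (a (i + n) - a (i - n)) := by
  apply (h.ax i).anti
  rw [map_sub, h.refl' (show 2 * i - (i + n) = i - n by ring), h.refl' (show 2 * i - (i - n) = i + n by ring)]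
  abel

/-- the invariant vector attached to pairs at distance one -/
noncomputable def sv (mul : V →ₗ[ℝ] V →ₗ[ℝ] V) (a : ℤ → V) (i : ℤ) : V := mul (a i) (a (i + 1)) - (1 / 32 : ℝ) • (a i + a (i + 1))

/-- the invariant vector attached to pairs at distance two -/
noncomputable def tv (mul : V →ₗ[ℝ] V →ₗ[ℝ] V) (a : ℤ → V) (i : ℤ) : V := mul (a i) (a (i + 2)) - (1 / 32 : ℝ) • (a i + a (i + 2))

theorem sv_succ (h : Dih mul B τ a) (i : ℤ) : sv mul a (i + 1) = sv mul a i := by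
  have h1 := h.anti (i + 1) 1
  rw [show i + 1 - 1 = i by ring, map_sub, h.comm (a (i + 1)) (a i)] at h1
  unfold sv
  linear_combination (norm := module) (1 : ℝ) • h1

theorem sv_const (h : Dih mul B τ a) (i : ℤ) : sv mul a i = sv mul a 0 := by
  induction i using Int.induction_on with
  | zero => rfl
  | succ n ih => rw [h.sv_succ, ih]
  | pred n ih => rw [← h.sv_succ, sub_add_cancel, ih]

theorem tv_add_two (h : Dih mul B τ a) (i : ℤ) : tv mul a (i + 2) = tv mul a i := by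
  have h1 := h.anti (i + 2) 2
  rw [show i + 2 - 2 = i by ring, map_sub, h.comm (a (i + 2)) (a i)] at h1
  unfold tv
  linear_combination (norm := module) (1 : ℝ) • h1

theorem P1 (h : Dih mul B τ a) (i : ℤ) : mul (a i) (a (i + 1)) = sv mul a 0 + (1 / 32 : ℝ) • (a i + a (i + 1)) := by
  rw [← h.sv_const i]; unfold sv; module

theorem P1' (h : Dih mul B τ a) (i : ℤ) : mul (a i) (a (i - 1)) = sv mul a 0 + (1 / 32 : ℝ) • (a i + a (i - 1)) := by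
  have h1 := h.P1 (i - 1)
  rw [sub_add_cancel] at h1
  rw [h.comm, h1, add_comm (a i)]

theorem P2 (i : ℤ) : mul (a i) (a (i + 2)) = tv mul a i + (1 / 32 : ℝ) • (a i + a (i + 2)) := by
  unfold tv; module

theorem P2' (h : Dih mul B τ a) (i : ℤ) : mul (a i) (a (i - 2)) = tv mul a i + (1 / 32 : ℝ) • (a i + a (i - 2)) := by
  have h1 := P2 (mul := mul) (a := a) (i - 2)
  have h2 := h.tv_add_two (i - 2)
  rw [sub_add_cancel] at h1 h2
  rw [h.comm, h1, ← h2, add_comm (a i)]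

theorem B1_succ (h : Dih mul B τ a) (i : ℤ) : B (a (i + 1)) (a (i + 1 + 1)) = B (a i) (a (i + 1)) := by
  rw [h.symm, h.ip (i + 1) (i + 1 + 1) (i + 1) (i' := i) (j' := i + 1) (by ring) (by ring)]

theorem B1 (h : Dih mul B τ a) (i : ℤ) : B (a i) (a (i + 1)) = B (a 0) (a 1) := by
  induction i using Int.induction_on with
  | zero => rfl
  | succ n ih => rw [h.B1_succ, ih]
  | pred n ih =>
    rw [← ih]
    have := h.B1_succ (-(n : ℤ) - 1)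
    rw [sub_add_cancel] at this
    rw [this, sub_add_cancel]

theorem P3 (h : Dih mul B τ a) (i : ℤ) : mul (a i) (sv mul a 0) =
    (3 / 4 * B (a 0) (a 1) - 25 / 1024) • a i + (7 / 32 : ℝ) • sv mul a 0 + (7 / 2048 : ℝ) • (a (i + 1) + a (i - 1)) :=
  L1 (h.ax i) (h.refl' (by ring)) (h.refl' (by ring)) (h.B1 i) (h.P1 i) (h.P1' i)

theorem P4 (h : Dih mul B τ a) (i : ℤ) : mul (a i) (tv mul a i) =
    (3 / 4 * B (a i) (a (i + 2)) - 25 / 1024) • a i + (7 / 32 : ℝ) • tv mul a i + (7 / 2048 : ℝ) • (a (i + 2) + a (i - 2)) :=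
  L1 (h.ax i) (h.refl' (by ring)) (h.refl' (by ring)) rfl (P2 i) (h.P2' i)

theorem Bs (h : Dih mul B τ a) (i : ℤ) : B (sv mul a 0) (a i) = 31 / 32 * B (a 0) (a 1) - 1 / 32 := by
  rw [← h.sv_const i]
  unfold sv
  have h1 : B (mul (a i) (a (i + 1))) (a i) = B (a 0) (a 1) := by
    rw [h.symm, h.assoc, (h.ax i).aa, h.B1]
  have h2 : B (a (i + 1)) (a i) = B (a 0) (a 1) := by rw [h.symm, h.B1]
  simp only [map_sub, map_smul, map_add, LinearMap.sub_apply, LinearMap.smul_apply, LinearMap.add_apply, h1, h2,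
    (h.ax i).na, smul_eq_mul]
  ring

theorem tv_sub_one (h : Dih mul B τ a) (i : ℤ) : tv mul a (i - 1) = tv mul a (i + 1) := by
  have := h.tv_add_two (i - 1)
  rw [← this]; congr 1; ring

theorem P5 (h : Dih mul B τ a) (i : ℤ) : mul (a i) (tv mul a (i + 1)) =
    (1 / 6 * B (a 0) (a 1) - 19 / 3072) • (a (i + 1) + a (i - 1)) + (7 / 6144 : ℝ) • (a (i + 2) + a (i - 2)) +
      (-32 / 3 * B (a 0) (a 1) ^ 2 + 5 / 3 * B (a 0) (a 1) - 1 / 24 * B (a (i - 1)) (a (i + 1)) - 127 / 3072) • a i +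
      (32 / 3 * B (a 0) (a 1) - 19 / 48) • sv mul a 0 + (7 / 96 : ℝ) • tv mul a i := by
  have e1 : mul (a (i + 1)) (a (i - 1)) = tv mul a (i + 1) + (1 / 32 : ℝ) • (a (i + 1) + a (i - 1)) := by
    have := h.P2' (i + 1)
    rwa [show i + 1 - 2 = i - 1 by ring] at this
  have e2 := h.P3 (i + 1)
  have e3 := h.P3 (i - 1)
  rw [show i + 1 + 1 = i + 2 by ring, show i + 1 - 1 = i by ring] at e2
  rw [show i - 1 + 1 = i by ring, show i - 1 - 1 = i - 2 by ring] at e3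
  exact L2 h.comm h.assoc (h.ax i) (h.B1 i) (h.P1 i) (h.P1' i) (h.ax _).aa (h.ax _).aa e1 (h.P3 i) e2 e3
    (P2 i) (h.P2' i) (h.ax _).na rfl (h.Bs _)

theorem P6 (h : Dih mul B τ a) (i : ℤ) : mul (sv mul a 0) (sv mul a 0) =
    (49 / 768 * B (a 0) (a 1) - 245 / 196608) • (a (i + 1) + a (i - 1)) + (49 / 196608 : ℝ) • (a (i + 2) + a (i - 2)) +
      (7 / 6 * B (a 0) (a 1) ^ 2 - 7 / 384 * B (a 0) (a 1) + 7 / 1536 * B (a (i - 1)) (a (i + 1)) - 7 / 98304) • a i +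
      (-5 / 12 * B (a 0) (a 1) - 13 / 1536) • sv mul a 0 +
      (-7 / 1536 : ℝ) • tv mul a i + (7 / 2048 : ℝ) • tv mul a (i + 1) := by
  have e1 : mul (a (i + 1)) (a (i - 1)) = tv mul a (i + 1) + (1 / 32 : ℝ) • (a (i + 1) + a (i - 1)) := by
    have := h.P2' (i + 1)
    rwa [show i + 1 - 2 = i - 1 by ring] at this
  have e2 := h.P3 (i + 1)
  have e3 := h.P3 (i - 1)
  rw [show i + 1 + 1 = i + 2 by ring, show i + 1 - 1 = i by ring] at e2
  rw [show i - 1 + 1 = i by ring, show i - 1 - 1 = i - 2 by ring] at e3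
  exact L4 h.comm (h.ax i) (h.P1 i) (h.P1' i) (h.ax _).aa (h.ax _).aa e1 (h.P3 i) e2 e3
    (P2 i) (h.P2' i) (h.P5 i)

/-- the basic linear relation -/
theorem R1 (h : Dih mul B τ a) : a (-2) - a 3 + (256 * B (a 0) (a 1) - 6) • (a (-1) - a 2) +
    ((32768 * B (a 0) (a 1) ^ 2 - 2304 * B (a 0) (a 1) + 128 * B (a (-1)) (a 1) + 33) / 7) • a 0 -
    ((32768 * B (a 0) (a 1) ^ 2 - 2304 * B (a 0) (a 1) + 128 * B (a 0) (a 2) + 33) / 7) • a 1 -
    (32 : ℝ) • (tv mul a 0 - tv mul a 1) = 0 := by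
  have h0 : mul (sv mul a 0) (sv mul a 0) =
    (49 / 768 * B (a 0) (a 1) - 245 / 196608) • (a 1 + a (-1)) + (49 / 196608 : ℝ) • (a 2 + a (-2)) +
      (7 / 6 * B (a 0) (a 1) ^ 2 - 7 / 384 * B (a 0) (a 1) + 7 / 1536 * B (a (-1)) (a 1) - 7 / 98304) • a 0 +
      (-5 / 12 * B (a 0) (a 1) - 13 / 1536) • sv mul a 0 +
      (-7 / 1536 : ℝ) • tv mul a 0 + (7 / 2048 : ℝ) • tv mul a 1 := h.P6 0
  have h1 : mul (sv mul a 0) (sv mul a 0) =
    (49 / 768 * B (a 0) (a 1) - 245 / 196608) • (a 2 + a 0) + (49 / 196608 : ℝ) • (a 3 + a (-1)) +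
      (7 / 6 * B (a 0) (a 1) ^ 2 - 7 / 384 * B (a 0) (a 1) + 7 / 1536 * B (a 0) (a 2) - 7 / 98304) • a 1 +
      (-5 / 12 * B (a 0) (a 1) - 13 / 1536) • sv mul a 0 +
      (-7 / 1536 : ℝ) • tv mul a 1 + (7 / 2048 : ℝ) • tv mul a 2 := h.P6 1
  have h2 : tv mul a 2 = tv mul a 0 := h.tv_add_two 0
  rw [h2, h0] at h1
  linear_combination (norm := module) (196608 / 49 : ℝ) • h1

theorem Btt (h : Dih mul B τ a) (i : ℤ) : B (tv mul a i) (a i) = 31 / 32 * B (a i) (a (i + 2)) - 1 / 32 := by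
  unfold tv
  have h1 : B (mul (a i) (a (i + 2))) (a i) = B (a i) (a (i + 2)) := by
    rw [h.symm, h.assoc, (h.ax i).aa]
  have h2 : B (a (i + 2)) (a i) = B (a i) (a (i + 2)) := h.symm _ _
  simp only [map_sub, map_smul, map_add, LinearMap.sub_apply, LinearMap.smul_apply, LinearMap.add_apply, h1, h2,
    (h.ax i).na, smul_eq_mul]
  ring

theorem Btd (h : Dih mul B τ a) (i : ℤ) :
    B (tv mul a i) (a (i + 1)) = 30 / 32 * B (a 0) (a 1) - 1 / 32 + B (a i) (a (i + 2)) / 32 := by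
  unfold tv
  have e1 : mul (a (i + 2)) (a (i + 1)) = sv mul a 0 + (1 / 32 : ℝ) • (a (i + 2) + a (i + 1)) := by
    have := h.P1' (i + 2)
    rwa [show i + 2 - 1 = i + 1 by ring] at this
  have h1 : B (mul (a i) (a (i + 2))) (a (i + 1)) = 31 / 32 * B (a 0) (a 1) - 1 / 32 +
      (B (a i) (a (i + 2)) + B (a 0) (a 1)) / 32 := by
    rw [← h.assoc, e1]
    simp only [map_add, map_smul, smul_eq_mul, h.B1 i]
    rw [h.symm (a i) (sv mul a 0), h.Bs]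
    ring
  have h2 : B (a (i + 2)) (a (i + 1)) = B (a 0) (a 1) := by
    rw [h.symm, ← h.B1 (i + 1)]; congr 2; ring
  simp only [map_sub, map_smul, map_add, LinearMap.sub_apply, LinearMap.smul_apply, LinearMap.add_apply, h1, h2,
    h.B1 i, smul_eq_mul]
  ring

theorem R1B (h : Dih mul B τ a) (v : V) : B (a (-2)) v - B (a 3) v + (256 * B (a 0) (a 1) - 6) * (B (a (-1)) v - B (a 2) v) +
    ((32768 * B (a 0) (a 1) ^ 2 - 2304 * B (a 0) (a 1) + 128 * B (a (-1)) (a 1) + 33) / 7) * B (a 0) v -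
    ((32768 * B (a 0) (a 1) ^ 2 - 2304 * B (a 0) (a 1) + 128 * B (a 0) (a 2) + 33) / 7) * B (a 1) v -
    32 * (B (tv mul a 0) v - B (tv mul a 1) v) = 0 := by
  have := congrArg (fun u => B u v) h.R1
  simpa only [map_sub, map_smul, map_add, LinearMap.sub_apply, LinearMap.smul_apply, LinearMap.add_apply, smul_eq_mul,
    map_zero, LinearMap.zero_apply] using this

theorem eq_of_one (h : Dih mul B τ a) {i j : ℤ} (h1 : B (a i) (a j) = 1) : a i = a j := by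
  by_contra hne
  have h2 := h.pos (a i - a j) (sub_ne_zero.2 hne)
  simp only [map_sub, LinearMap.sub_apply, (h.ax i).na, (h.ax j).na, h1, h.symm (a j) (a i)] at h2
  norm_num at h2

theorem l_nonneg (h : Dih mul B τ a) : 0 ≤ B (a 0) (a 1) := by
  have h1 := h.norton (a 0) (a 1)
  rw [(h.ax 0).aa, (h.ax 1).aa] at h1
  refine le_trans ?_ h1
  by_cases h0 : mul (a 0) (a 1) = 0
  · rw [h0]; simp
  · exact (h.pos _ h0).le

/-- the nine solutions of the two polynomial equations -/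
theorem solve {x y : ℝ}
    (E1 : x ^ 4 - 284 * x ^ 3 + 5 * x ^ 2 * y + 5760 * x ^ 2 + 278 * x * y - 38400 * x + 4 * y ^ 2 - 1336 * y + 79872 = 0)
    (E2 : x ^ 5 - 577 / 2 * x ^ 4 + 25 / 2 * x ^ 3 * y + 5388 * x ^ 3 - 389 / 2 * x ^ 2 * y - 26880 * x ^ 2 + 23 / 2 * x * y ^ 2
      + 5183 * x * y - 16128 * x + 87 * y ^ 2 - 23208 * y + 239616 = 0) :
    (x = 0 ∧ y = 256) ∨ (x = 4 ∧ y = 4) ∨ (x = 4 ∧ y = 32) ∨ (x = 5 ∧ y = 13) ∨ (x = 6 ∧ y = 6) ∨ (x = 8 ∧ y = 0) ∨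
      (x = 13 ∧ y = 13) ∨ (x = 32 ∧ y = 256) ∨ x = 256 := by
  have E8 : x * (x - 4) * (x - 5) * (x - 6) * (x - 8) * (x - 13) * (x - 32) * (x - 256) = 0 := by
    linear_combination ((5233/2940)*x^4 + (-1/5880)*x^3*y^1 + (-33619/1960)*x^3 + (14179/11760)*x^2*y^1 + (245137/588)*x^2 + (-23/11760)*x^1*y^2 + (55291/5880)*x^1*y^1 + (-823201/490)*x^1 + (-29/1960)*y^2 + (7589/490)*y^1 + (-5772/35)) * E1 +
      ((-2293/2940)*x^3 + (1/5880)*x^2*y^1 + (-369/14)*x^2 + (-209/588)*x^1*y^1 + (16259/147)*x^1 + (1/1470)*y^2 + (-557/735)*y^1 + (1924/35)) * E2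
  simp only [mul_eq_zero] at E8
  rcases E8 with ((((((h8 | h8) | h8) | h8) | h8) | h8) | h8) | h8
  · rw [h8] at E1 E2
    exact Or.inl ⟨h8, by linarith⟩
  · have hx4 : x = 4 := by linarith
    rw [hx4] at E1
    have hyy : (y - 4) * (y - 32) = 0 := by linarith
    rcases mul_eq_zero.1 hyy with h9 | h9
    · exact Or.inr (Or.inl ⟨hx4, by linarith⟩)
    · exact Or.inr (Or.inr (Or.inl ⟨hx4, by linarith⟩))
  · have hx4 : x = 5 := by linarith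
    rw [hx4] at E1 E2
    exact Or.inr (Or.inr (Or.inr (Or.inl ⟨hx4, by linarith⟩)))
  · have hx4 : x = 6 := by linarith
    rw [hx4] at E1 E2
    exact Or.inr (Or.inr (Or.inr (Or.inr (Or.inl ⟨hx4, by linarith⟩))))
  · have hx4 : x = 8 := by linarith
    rw [hx4] at E1 E2
    exact Or.inr (Or.inr (Or.inr (Or.inr (Or.inr (Or.inl ⟨hx4, by linarith⟩)))))
  · have hx4 : x = 13 := by linarith
    rw [hx4] at E1 E2
    exact Or.inr (Or.inr (Or.inr (Or.inr (Or.inr (Or.inr (Or.inl ⟨hx4, by linarith⟩))))))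
  · have hx4 : x = 32 := by linarith
    rw [hx4] at E1 E2
    exact Or.inr (Or.inr (Or.inr (Or.inr (Or.inr (Or.inr (Or.inr (Or.inl ⟨hx4, by linarith⟩)))))))
  · exact Or.inr (Or.inr (Or.inr (Or.inr (Or.inr (Or.inr (Or.inr (Or.inr (by linarith))))))))

set_option maxHeartbeats 4000000 in
/-- Sakuma's theorem: the sequence of axes has period at most 6 -/
theorem key (h : Dih mul B τ a) : ∃ N : ℕ, 1 ≤ N ∧ N ≤ 6 ∧ ∃ i : ℤ, a (i + N) = a i := by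
  obtain ⟨l, hl⟩ : ∃ l, l = B (a 0) (a 1) := ⟨_, rfl⟩
  obtain ⟨m0, hm0⟩ : ∃ m, m = B (a 0) (a 2) := ⟨_, rfl⟩
  obtain ⟨m1, hm1⟩ : ∃ m, m = B (a (-1)) (a 1) := ⟨_, rfl⟩
  obtain ⟨l3, hl3⟩ : ∃ m, m = B (a 0) (a 3) := ⟨_, rfl⟩
  obtain ⟨l4, hl4⟩ : ∃ m, m = B (a (-2)) (a 2) := ⟨_, rfl⟩
  obtain ⟨l4', hl4'⟩ : ∃ m, m = B (a (-1)) (a 3) := ⟨_, rfl⟩
  obtain ⟨l5, hl5⟩ : ∃ m, m = B (a (-2)) (a 3) := ⟨_, rfl⟩
  obtain ⟨l6, hl6⟩ : ∃ m, m = B (a (-2)) (a 4) := ⟨_, rfl⟩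
  have hlnn : 0 ≤ l := by rw [hl]; exact h.l_nonneg
  have t2 : tv mul a 2 = tv mul a 0 := h.tv_add_two 0
  have tm2 : tv mul a 0 = tv mul a (-2) := by
    have := h.tv_add_two (-2)
    rwa [show (-2 + 2 : ℤ) = 0 by norm_num] at this
  have t4 : tv mul a 4 = tv mul a 0 := (h.tv_add_two 2).trans t2
  have t3 : tv mul a 3 = tv mul a 1 := h.tv_add_two 1
  have tm1 : tv mul a 1 = tv mul a (-1) := by
    have := h.tv_add_two (-1)
    rwa [show (-1 + 2 : ℤ) = 1 by norm_num] at this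
  -- inner products of axes, grouped by the second index
  have n : ∀ i, B (a i) (a i) = 1 := fun i => (h.ax i).na
  have sy : ∀ i j, B (a i) (a j) = B (a j) (a i) := fun i j => h.symm _ _
  have b1 : ∀ i : ℤ, B (a i) (a (i + 1)) = l := fun i => by rw [hl]; exact h.B1 i
  have b1' : ∀ i : ℤ, B (a (i + 1)) (a i) = l := fun i => by rw [sy]; exact b1 i
  -- distance two
  have d_m2_0 : B (a (-2)) (a 0) = m0 := by rw [hm0, sy, h.ip 0 0 (-2) (i' := 0) (j' := 2) rfl rfl]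
  have d_2_0 : B (a 2) (a 0) = m0 := by rw [hm0, sy]
  have d_0_2 : B (a 0) (a 2) = m0 := hm0.symm
  have d_4_2 : B (a 4) (a 2) = m0 := by rw [hm0, h.ip 2 4 2 (i' := 0) (j' := 2) rfl rfl]
  have d_2_4 : B (a 2) (a 4) = m0 := by rw [sy, d_4_2]
  have d_m1_1 : B (a (-1)) (a 1) = m1 := hm1.symm
  have d_3_1 : B (a 3) (a 1) = m1 := by rw [hm1, h.ip 1 3 1 (i' := -1) (j' := 1) rfl rfl]
  have d_1_3 : B (a 1) (a 3) = m1 := by rw [sy, d_3_1]
  have d_3_5 : B (a 3) (a 5) = m1 := by rw [hm1, sy, h.ip 2 5 3 (i' := -1) (j' := 1) rfl rfl]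
  have d_1_m1 : B (a 1) (a (-1)) = m1 := by rw [sy, d_m1_1]
  have d_4_6 : B (a 4) (a 6) = m0 := by rw [hm0, sy, h.ip 3 6 4 (i' := 0) (j' := 2) rfl rfl]
  -- distance three
  have d_3_0 : B (a 3) (a 0) = l3 := by rw [hl3, sy]
  have d_0_3 : B (a 0) (a 3) = l3 := hl3.symm
  have d_m1_2 : B (a (-1)) (a 2) = l3 := by rw [hl3, sy, h.ip 1 2 (-1) (i' := 0) (j' := 3) rfl rfl]
  have d_2_m1 : B (a 2) (a (-1)) = l3 := by rw [sy, d_m1_2]
  have d_1_4 : B (a 1) (a 4) = l3 := by rw [← d_3_0, h.ip 2 1 4 (i' := 3) (j' := 0) rfl rfl]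
  have d_m2_1 : B (a (-2)) (a 1) = l3 := by rw [← d_1_4, sy, h.ip 1 1 (-2) (i' := 1) (j' := 4) rfl rfl]
  -- distance four
  have d_m2_2 : B (a (-2)) (a 2) = l4 := hl4.symm
  have d_0_4 : B (a 0) (a 4) = l4 := by rw [← d_m2_2, sy, h.ip 1 4 0 (i' := -2) (j' := 2) rfl rfl]
  have d_m1_3 : B (a (-1)) (a 3) = l4' := hl4'.symm
  have d_3_m1 : B (a 3) (a (-1)) = l4' := by rw [sy, d_m1_3]
  -- distance five
  have d_m2_3 : B (a (-2)) (a 3) = l5 := hl5.symm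
  have d_m1_4 : B (a (-1)) (a 4) = l5 := by rw [← d_m2_3, sy, h.ip 1 4 (-1) (i' := -2) (j' := 3) rfl rfl]
  have d_m2_4 : B (a (-2)) (a 4) = l6 := hl6.symm
  -- distance one, needed instances
  have c_m1_0 : B (a (-1)) (a 0) = l := b1 (-1)
  have c_0_1 : B (a 0) (a 1) = l := b1 0
  have c_1_2 : B (a 1) (a 2) = l := b1 1
  have c_2_3 : B (a 2) (a 3) = l := b1 2
  have c_3_4 : B (a 3) (a 4) = l := b1 3
  have c_m2_m1 : B (a (-2)) (a (-1)) = l := b1 (-2)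
  have c_1_0 : B (a 1) (a 0) = l := b1' 0
  have c_2_1 : B (a 2) (a 1) = l := b1' 1
  have c_3_2 : B (a 3) (a 2) = l := b1' 2
  have c_0_m1 : B (a 0) (a (-1)) = l := by rw [sy, c_m1_0]
  -- inner products with the t's
  have t0_0 : B (tv mul a 0) (a 0) = 31 / 32 * m0 - 1 / 32 := by rw [h.Btt 0]; exact congrArg (fun x => 31 / 32 * x - 1 / 32) d_0_2
  have t0_2 : B (tv mul a 0) (a 2) = 31 / 32 * m0 - 1 / 32 := by
    rw [← t2, h.Btt 2]; exact congrArg (fun x => 31 / 32 * x - 1 / 32) d_2_4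
  have t0_4 : B (tv mul a 0) (a 4) = 31 / 32 * m0 - 1 / 32 := by
    rw [← t4, h.Btt 4]; exact congrArg (fun x => 31 / 32 * x - 1 / 32) d_4_6
  have t0_1 : B (tv mul a 0) (a 1) = 30 / 32 * l - 1 / 32 + m0 / 32 := by
    have := h.Btd 0
    rw [c_0_1] at this
    rw [← d_0_2]; exact this
  have t0_3 : B (tv mul a 0) (a 3) = 30 / 32 * l - 1 / 32 + m0 / 32 := by
    have := h.Btd 2
    rw [c_0_1, t2] at this
    rw [← d_2_4]; exact this
  have t0_m1 : B (tv mul a 0) (a (-1)) = 30 / 32 * l - 1 / 32 + m0 / 32 := by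
    have := h.Btd (-2)
    rw [c_0_1, ← tm2] at this
    rw [← d_m2_0]; exact this
  have t1_1 : B (tv mul a 1) (a 1) = 31 / 32 * m1 - 1 / 32 := by rw [h.Btt 1]; exact congrArg (fun x => 31 / 32 * x - 1 / 32) d_1_3
  have t1_3 : B (tv mul a 1) (a 3) = 31 / 32 * m1 - 1 / 32 := by
    rw [← t3, h.Btt 3]; exact congrArg (fun x => 31 / 32 * x - 1 / 32) d_3_5
  have t1_m1 : B (tv mul a 1) (a (-1)) = 31 / 32 * m1 - 1 / 32 := by
    rw [tm1, h.Btt (-1)]; exact congrArg (fun x => 31 / 32 * x - 1 / 32) d_m1_1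
  have t1_2 : B (tv mul a 1) (a 2) = 30 / 32 * l - 1 / 32 + m1 / 32 := by
    have := h.Btd 1
    rw [c_0_1] at this
    rw [← d_1_3]; exact this
  have t1_4 : B (tv mul a 1) (a 4) = 30 / 32 * l - 1 / 32 + m1 / 32 := by
    have := h.Btd 3
    rw [c_0_1, t3] at this
    rw [← d_3_5]; exact this
  have t1_0 : B (tv mul a 1) (a 0) = 30 / 32 * l - 1 / 32 + m1 / 32 := by
    have := h.Btd (-1)
    rw [c_0_1, ← tm1] at this
    rw [← d_m1_1]; exact this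
  -- the relation R1 paired with axes
  have r0 := h.R1B (a 0)
  have r1 := h.R1B (a 1)
  have r2 := h.R1B (a 2)
  have r3 := h.R1B (a 3)
  have r4 := h.R1B (a 4)
  have rm1 := h.R1B (a (-1))
  rw [c_0_1, d_m1_1, d_0_2, d_m2_0, d_3_0, c_m1_0, d_2_0, n, c_1_0, t0_0, t1_0] at r0
  rw [c_0_1, d_m1_1, d_0_2, d_m2_1, d_3_1, c_2_1, n, t0_1, t1_1] at r1
  have hmm : m0 = m1 := by
    have h1 : (m0 - m1) * (25 + 128 / 7 + l * (256 + 128 / 7)) = 0 := by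
      linear_combination -r0 - r1
    rcases mul_eq_zero.1 h1 with h2 | h2
    · linarith
    · exfalso
      have : 0 ≤ l * (256 + 128 / 7) := by positivity
      linarith
  rw [c_0_1, d_m1_1, d_0_2, d_m2_2, c_3_2, d_m1_2, n, c_1_2, t0_2, t1_2] at r2
  rw [c_0_1, d_m1_1, d_0_2, d_m2_3, n, d_m1_3, c_2_3, d_0_3, d_1_3, t0_3, t1_3] at r3
  rw [c_0_1, d_m1_1, d_0_2, d_m2_4, c_3_4, d_m1_4, d_2_4, d_0_4, d_1_4, t0_4, t1_4] at r4
  rw [c_0_1, d_m1_1, d_0_2, c_m2_m1, d_3_m1, n, d_2_m1, c_0_m1, d_1_m1, t0_m1, t1_m1] at rm1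
  -- product of a0 with the relation
  have q := congrArg (fun u => mul (a 0) u) h.R1
  have p1 : mul (a 0) (a 1) = sv mul a 0 + (1 / 32 : ℝ) • (a 0 + a 1) := h.P1 0
  have p1' : mul (a 0) (a (-1)) = sv mul a 0 + (1 / 32 : ℝ) • (a 0 + a (-1)) := h.P1' 0
  have p2 : mul (a 0) (a 2) = tv mul a 0 + (1 / 32 : ℝ) • (a 0 + a 2) := P2 0
  have p2' : mul (a 0) (a (-2)) = tv mul a 0 + (1 / 32 : ℝ) • (a 0 + a (-2)) := h.P2' 0
  have p4 : mul (a 0) (tv mul a 0) = (3 / 4 * m0 - 25 / 1024) • a 0 + (7 / 32 : ℝ) • tv mul a 0 + (7 / 2048 : ℝ) • (a 2 + a (-2)) := by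
    rw [← d_0_2]; exact h.P4 0
  have p5 : mul (a 0) (tv mul a 1) =
    (1 / 6 * l - 19 / 3072) • (a 1 + a (-1)) + (7 / 6144 : ℝ) • (a 2 + a (-2)) +
      (-32 / 3 * l ^ 2 + 5 / 3 * l - 1 / 24 * m1 - 127 / 3072) • a 0 +
      (32 / 3 * l - 19 / 48) • sv mul a 0 + (7 / 96 : ℝ) • tv mul a 0 := by
    rw [← d_m1_1, ← c_0_1]; exact h.P5 0
  simp only [map_sub, map_add, map_smul, p1, p1', p2, p2', (h.ax 0).aa, p4, p5, map_zero, c_0_1, d_m1_1, d_0_2] at q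
  have s2 : B (sv mul a 0) (a 2) = 31 / 32 * l - 1 / 32 := by rw [h.Bs, c_0_1]
  have s3 : B (sv mul a 0) (a 3) = 31 / 32 * l - 1 / 32 := by rw [h.Bs, c_0_1]
  have s0' : B (a 0) (sv mul a 0) = 31 / 32 * l - 1 / 32 := by rw [h.symm, h.Bs, c_0_1]
  have x2 : B (mul (a 0) (a 3)) (a 2) = 31 / 32 * l - 1 / 32 + (l3 + m0) / 32 := by
    have e1 : mul (a 3) (a 2) = sv mul a 0 + (1 / 32 : ℝ) • (a 3 + a 2) := h.P1' 3
    rw [← h.assoc, e1]
    simp only [map_add, map_smul, smul_eq_mul, s0', d_0_3, d_0_2]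
    ring
  have x3 : B (mul (a 0) (a 3)) (a 3) = l3 := by
    rw [← h.assoc, (h.ax 3).aa, d_0_3]
  have q2 := congrArg (fun u => B u (a 2)) q
  have q3 := congrArg (fun u => B u (a 3)) q
  simp only [map_sub, map_add, map_smul, LinearMap.sub_apply, LinearMap.add_apply, LinearMap.smul_apply, smul_eq_mul,
    map_zero, LinearMap.zero_apply, x2, n, s2, c_1_2, d_0_2, d_m1_2, d_m2_2, t0_2] at q2
  simp only [map_sub, map_add, map_smul, LinearMap.sub_apply, LinearMap.add_apply, LinearMap.smul_apply, smul_eq_mul,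
    map_zero, LinearMap.zero_apply, x3, s3, c_2_3, d_1_3, d_0_3, d_m1_3, d_m2_3, t0_3] at q3
  subst hmm
  -- solve for l3, l4, l4', l5
  obtain ⟨k, hk⟩ : ∃ k, k = 256 * l - 6 := ⟨_, rfl⟩
  obtain ⟨d, hd⟩ : ∃ d, d = (32768 * l ^ 2 - 2304 * l + 128 * m0 + 33) / 7 := ⟨_, rfl⟩
  have e3 : l3 = -29 * m0 + 30 * l + k * (l - m0) + d * (1 - l) := by
    rw [hk, hd]; linear_combination -r0
  have e4 : l4 = l + k * (1 - l3) + (30 - d) * (m0 - l) := by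
    rw [hk, hd]; linear_combination r2
  have e4' : l4' = l + k * (1 - l3) + (30 - d) * (m0 - l) := by
    rw [hk, hd]; linear_combination -rm1
  have e5 : l5 = 1 - k * (l4' - l) - d * (l3 - m0) - 30 * (m0 - l) := by
    rw [hk, hd]; linear_combination r3
  have e6 : l6 = l - k * (l5 - m0) - d * (l4 - l3) + 30 * (m0 - l) := by
    rw [hk, hd]; linear_combination r4
  obtain ⟨x, hx⟩ : ∃ x, x = 256 * l := ⟨_, rfl⟩
  obtain ⟨y, hy⟩ : ∃ y, y = 256 * m0 := ⟨_, rfl⟩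
  have hlx : l = x / 256 := by rw [hx]; ring
  have hmy : m0 = y / 256 := by rw [hy]; ring
  have E1 : x ^ 4 - 284 * x ^ 3 + 5 * x ^ 2 * y + 5760 * x ^ 2 + 278 * x * y - 38400 * x + 4 * y ^ 2 - 1336 * y + 79872 = 0 := by
    rw [e4, e3, hk, hd] at q2
    rw [hx, hy]
    linear_combination (-114688 / 3) * q2
  have E2 : x ^ 5 - 577 / 2 * x ^ 4 + 25 / 2 * x ^ 3 * y + 5388 * x ^ 3 - 389 / 2 * x ^ 2 * y - 26880 * x ^ 2 + 23 / 2 * x * y ^ 2
      + 5183 * x * y - 16128 * x + 87 * y ^ 2 - 23208 * y + 239616 = 0 := by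
    rw [e5, e4', e3, hk, hd] at q3
    rw [hx, hy]
    linear_combination (401408 / 3) * q3
  have f1 : l = 1 → ∃ N : ℕ, 1 ≤ N ∧ N ≤ 6 ∧ ∃ i : ℤ, a (i + N) = a i := fun h1 =>
    ⟨1, by norm_num, by norm_num, 0, (h.eq_of_one (i := 0) (j := 1) (c_0_1.trans h1)).symm⟩
  have f2 : m0 = 1 → ∃ N : ℕ, 1 ≤ N ∧ N ≤ 6 ∧ ∃ i : ℤ, a (i + N) = a i := fun h1 =>
    ⟨2, by norm_num, by norm_num, 0, (h.eq_of_one (i := 0) (j := 2) (d_0_2.trans h1)).symm⟩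
  have f3 : l3 = 1 → ∃ N : ℕ, 1 ≤ N ∧ N ≤ 6 ∧ ∃ i : ℤ, a (i + N) = a i := fun h1 =>
    ⟨3, by norm_num, by norm_num, 0, (h.eq_of_one (i := 0) (j := 3) (d_0_3.trans h1)).symm⟩
  have f4 : l4 = 1 → ∃ N : ℕ, 1 ≤ N ∧ N ≤ 6 ∧ ∃ i : ℤ, a (i + N) = a i := fun h1 =>
    ⟨4, by norm_num, by norm_num, 0, (h.eq_of_one (i := 0) (j := 4) (d_0_4.trans h1)).symm⟩
  have f5 : l5 = 1 → ∃ N : ℕ, 1 ≤ N ∧ N ≤ 6 ∧ ∃ i : ℤ, a (i + N) = a i := fun h1 =>
    ⟨5, by norm_num, by norm_num, -1, (h.eq_of_one (i := -1) (j := 4) (d_m1_4.trans h1)).symm⟩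
  have f6 : l6 = 1 → ∃ N : ℕ, 1 ≤ N ∧ N ≤ 6 ∧ ∃ i : ℤ, a (i + N) = a i := fun h1 =>
    ⟨6, by norm_num, by norm_num, -2, (h.eq_of_one (i := -2) (j := 4) (d_m2_4.trans h1)).symm⟩
  rcases solve E1 E2 with ⟨hx', hy'⟩ | ⟨hx', hy'⟩ | ⟨hx', hy'⟩ | ⟨hx', hy'⟩ | ⟨hx', hy'⟩ | ⟨hx', hy'⟩ | ⟨hx', hy'⟩ | ⟨hx', hy'⟩ | hx'
  · exact f2 (by rw [hmy, hy']; norm_num)
  · rw [hx'] at hlx
    rw [hy'] at hmy
    apply f3
    rw [e3, hk, hd, hlx, hmy]; norm_num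
  · rw [hx'] at hlx
    rw [hy'] at hmy
    apply f4
    rw [e4, e3, hk, hd, hlx, hmy]; norm_num
  · rw [hx'] at hlx
    rw [hy'] at hmy
    apply f6
    rw [e6, e5, e4', e4, e3, hk, hd, hlx, hmy]; norm_num
  · rw [hx'] at hlx
    rw [hy'] at hmy
    apply f5
    rw [e5, e4', e3, hk, hd, hlx, hmy]; norm_num
  · rw [hx'] at hlx
    rw [hy'] at hmy
    apply f4
    rw [e4, e3, hk, hd, hlx, hmy]; norm_num
  · rw [hx'] at hlx
    rw [hy'] at hmy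
    apply f3
    rw [e3, hk, hd, hlx, hmy]; norm_num
  · exact f2 (by rw [hmy, hy']; norm_num)
  · exact f1 (by rw [hlx, hx']; norm_num)

end Dih

end Cfsg.Agent.Lib.MajoranaDih
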