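import Cfsg.Agent.Lib.MathieuFus2

set_option autoImplicit false
set_option linter.unusedVariables false

/-!
Tools for `M₁₁` and `M₁₂`: elements of `M₂₄` preserving the dodecad of squares and fixing five of its points.
-/

namespace Cfsg.Agent.Lib.MathieuFus

open Cfsg Cfsg.Agent.Lib.Golay
open scoped Pointwise

/-- the bit mask of the dodecad of squares -/
def DM : ℕ := 340831

theorem squareDodecad_eq : Spor.squareDodecad = mset DM := by
  rw [Spor.squareDodecad, qrWord_eq, support₂_wd]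
  congr 1

theorem center_eq'' {L : List ℕ} (hL : ∀ c ∈ L, valid c = true) {G : Subgroup (Equiv.Perm GolayPt)} {z x0 X Y : ℕ}
    (hz : valid z = true) (hzG : toPerm z ∈ G) (hx0 : x0 < 24)
    (hzc : (L.all fun c => Nat.beq (mulC z c) (mulC c z)) = true)
    (hX : trOK L [] x0 X = true)
    (hfix : ∀ g ∈ G, (∀ p ∈ mset X, g p = p) → g = 1)
    (hY : ∀ g ∈ G, g (pt x0) ∈ mset Y)
    (hc : ∀ y : GolayPt, y ∈ mset Y → fxC L x0 (ix y) = true → fxC L (ix y) x0 = true →
      y = pt x0 ∨ y = toPerm z (pt x0))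
    {c : Equiv.Perm GolayPt} (hcG : c ∈ G) (hcW : ∀ w ∈ WL L, c * w = w * c) : c = 1 ∨ c = toPerm z := by
  have hzL : ∀ w ∈ WL L, toPerm z * w = w * toPerm z := zc_of hL hz hzc
  have key : ∀ c ∈ G, (∀ w ∈ WL L, c * w = w * c) → c (pt x0) = pt x0 → c = 1 := by
    intro c hcG hcW hc0
    apply hfix c hcG
    intro p hp
    obtain ⟨w, hw, -, rfl⟩ := tr_exists hL hX (by simp) hx0 p hp
    rw [← Equiv.Perm.mul_apply, hcW w hw, Equiv.Perm.mul_apply, hc0]
  have hF : Fx (WL L) (pt x0) (c (pt x0)) := by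
    intro u hu hux
    rw [← Equiv.Perm.mul_apply, ← hcW u hu, Equiv.Perm.mul_apply, hux]
  have hF' : Fx (WL L) (c (pt x0)) (pt x0) := by
    intro u hu hux
    rw [← Equiv.Perm.mul_apply, ← hcW u hu, Equiv.Perm.mul_apply] at hux
    exact c.injective hux
  have h2 := fx_check hL hF
  have h2' := fx_check hL hF'
  rw [ix_pt hx0] at h2 h2'
  rcases hc _ (hY c hcG) h2 h2' with h3 | h3
  · exact Or.inl (key c hcG hcW h3)
  · right
    have h4 := key ((toPerm z)⁻¹ * c) (G.mul_mem (G.inv_mem hzG) hcG) (by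
      intro w hw
      have h5 := hzL w hw
      have h6 : (toPerm z)⁻¹ * w = w * (toPerm z)⁻¹ := by
        rw [inv_mul_eq_iff_eq_mul, ← mul_assoc, h5, mul_inv_cancel_right]
      rw [mul_assoc, hcW w hw, ← mul_assoc, h6, mul_assoc]) (by
      rw [Equiv.Perm.mul_apply, h3, pia])
    rw [inv_mul_eq_one] at h4
    exact h4.symm

/-- An element of `M₂₄` preserving a dodecad and fixing five of its points is trivial (from certificates). -/
theorem fix_dodecad {o5 m5 s b7 restm m7 : ℕ} {six EL : List ℕ} {steps7 : List (ℕ × ℕ)}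
    (h5 : octFix o5 m5 = true) (ho5 : o5 < 2 ^ 24)
    (hs : ∀ y : GolayPt, y ∈ mset o5 → y ∈ mset DM → y ∉ mset m5 → y = pt s)
    (hs' : pt s ∈ mset o5 ∧ pt s ∈ mset DM ∧ pt s ∉ mset m5)
    (hb : pt b7 ∈ mset DM ∧ pt b7 ∉ mset o5)
    (hrest : ∀ y : GolayPt, y ∈ mset DM → y ∉ mset o5 → y ∈ mset restm)
    (hEL : lvlOK EL six b7 restm = true) (hsix : ∀ i ∈ six, i < 24) (hb7 : b7 < 24)
    (hsix' : ∀ i ∈ six, pt i ∈ mset m5 ∨ i = s)
    (hm7 : ∀ y : GolayPt, y ∈ mset m7 → (∃ i ∈ six, y = pt i) ∨ y = pt b7)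
    (h7 : fixRun steps7 m7 = true)
    (hD : (EL.all fun c => !(Nat.beq (imgM c DM) DM) || (List.range 24).all fun i => Nat.beq (img c i) i) = true)
    {g : Equiv.Perm GolayPt} (hg : g ∈ M24) (hgD : g • mset DM = mset DM) (hF : ∀ p ∈ mset m5, g p = p) : g = 1 := by
  have hgo : g • mset o5 = mset o5 := smul_eq_of_octFix h5 hg hF
  have memo : ∀ y, g y ∈ mset o5 ↔ y ∈ mset o5 := fun y => by
    conv_lhs => rw [← hgo]
    exact smul_mem_smul g _ y
  have memD : ∀ y, g y ∈ mset DM ↔ y ∈ mset DM := fun y => by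
    conv_lhs => rw [← hgD]
    exact smul_mem_smul g _ y
  have hgs : g (pt s) = pt s := by
    refine hs _ ((memo _).mpr hs'.1) ((memD _).mpr hs'.2.1) fun h => ?_
    have h1 := hF _ h
    have h2 := g.injective h1
    rw [h2] at h
    exact hs'.2.2 h
  have hgb := hrest _ ((memD _).mpr hb.1) ((memo _).not.mpr hb.2)
  obtain ⟨c, hc, hcM, hcf, hcb⟩ := lvl_exists hEL hsix hb7 hgb
  have hcv := valid_of_inM (lvl_mem hEL hc).1
  have h8 : (toPerm c)⁻¹ * g = 1 := by
    refine fixRun_sound (M24.mul_mem (M24.inv_mem hcM) hg) steps7 m7 h7 fun p hp => ?_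
    rw [Equiv.Perm.mul_apply, Equiv.Perm.inv_eq_iff_eq]
    rcases hm7 p hp with ⟨i, hi, rfl⟩ | rfl
    · rw [hcf i hi]
      rcases hsix' i hi with h | rfl
      · exact hF _ h
      · exact hgs
    · exact hcb.symm
  rw [inv_mul_eq_one] at h8
  have h9 := List.all_eq_true.mp hD c hc
  rw [not_or_iff] at h9
  have h10 : Nat.beq (imgM c DM) DM = true := by
    rw [← h8, toPerm_smul_mset hcv] at hgD
    rw [mset_injOn (imgM_lt hcv _) (by decide) hgD]
    exact Nat.beq_refl _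
  have h11 := List.all_eq_true.mp (h9 h10)
  rw [← h8]
  ext1 p
  rw [toPerm_apply hcv, Nat.eq_of_beq_eq_true (h11 (ix p) (List.mem_range.mpr (ix_lt p))), pt_ix]
  rfl

end Cfsg.Agent.Lib.MathieuFus
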