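import Mathlib
import Cfsg.Agent.S0713
import Cfsg.Agent.Lib.GroupUtil

/-!
Miller's theorem on `(r+1)`-transitive groups of degree `kp + r` (helper17), part A.
-/

set_option autoImplicit false
set_option linter.unusedSectionVars false

namespace Cfsg.Agent.Lib.Miller

open Equiv MulAction Subgroup
open scoped Pointwise

variable {α : Type*} [Fintype α] [DecidableEq α]

theorem exists_map {G : Subgroup (Perm α)} {m : ℕ} (hG : IsMultiplyPretransitive G α m) (hm : m ≤ Fintype.card α)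
    (S : Finset α) (hS : S.card ≤ m) (φ : α → α) (hφ : Set.InjOn φ S) : ∃ g ∈ G, ∀ x ∈ S, g x = φ x := by
  have h1 : IsMultiplyPretransitive G α S.card :=
    isMultiplyPretransitive_of_le hS (by rw [Nat.card_eq_fintype_card]; exact hm)
  let e : Fin S.card ≃ S := S.equivFin.symm
  let a : Fin S.card ↪ α := ⟨fun i => e i, fun i j h => e.injective (Subtype.ext h)⟩
  let b : Fin S.card ↪ α := ⟨fun i => φ (e i), fun i j h => by
    have := hφ (e i).2 (e j).2 h
    exact e.injective (Subtype.ext this)⟩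
  obtain ⟨g, hg⟩ := h1.exists_smul_eq a b
  refine ⟨g, g.2, fun x hx => ?_⟩
  have h2 := congrArg (fun f : Fin S.card ↪ α => f (e.symm ⟨x, hx⟩)) hg
  have h3 : (g : Perm α) (e (e.symm ⟨x, hx⟩)) = φ (e (e.symm ⟨x, hx⟩)) := h2
  rw [e.apply_symm_apply] at h3
  exact h3

/-- the pointwise stabilizer of `R` in `G` -/
def Hf (G : Subgroup (Perm α)) (R : Finset α) : Subgroup (Perm α) where
  carrier := {g | g ∈ G ∧ ∀ x ∈ R, g x = x}
  one_mem' := ⟨G.one_mem, fun _ _ => rfl⟩
  mul_mem' := by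
    rintro a b ⟨ha, ha'⟩ ⟨hb, hb'⟩
    exact ⟨G.mul_mem ha hb, fun x hx => by rw [Perm.mul_apply, hb' x hx, ha' x hx]⟩
  inv_mem' := by
    rintro a ⟨ha, ha'⟩
    exact ⟨G.inv_mem ha, fun x hx => by rw [Perm.inv_eq_iff_eq, ha' x hx]⟩

structure Mil (G : Subgroup (Perm α)) (R : Finset α) (p k : ℕ) (P : Subgroup (Perm α)) : Prop where
  pp : p.Prime
  k1 : 1 ≤ k
  kp : k < p
  cardR : Rᶜ.card = k * p
  tr : ∀ S : Finset α, S.card ≤ R.card + 1 → ∀ φ : α → α, Set.InjOn φ S → ∃ g ∈ G, ∀ x ∈ S, g x = φ x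
  PH : P ≤ Hf G R
  PG : IsPGroup p P
  idx : ¬ p ∣ P.relIndex (Hf G R)

variable {G : Subgroup (Perm α)} {R : Finset α} {p k : ℕ} {P : Subgroup (Perm α)}

namespace Mil

theorem fixR (M : Mil G R p k P) {y : Perm α} (hy : y ∈ P) {x : α} (hx : x ∈ R) : y x = x := (M.PH hy).2 x hx

theorem PG' (M : Mil G R p k P) {y : Perm α} (hy : y ∈ P) : y ∈ G := (M.PH hy).1

theorem memH_not (M : Mil G R p k P) {h : Perm α} (hh : h ∈ Hf G R) {x : α} (hx : x ∉ R) : h x ∉ R := by
  intro h1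
  have h2 := hh.2 _ h1
  exact hx (by rw [← h.injective h2]; exact h1)

/-- no point outside `R` is fixed by `P` -/
theorem moved (M : Mil G R p k P) {x : α} (hx : x ∉ R) : ∃ y ∈ P, y x ≠ x := by
  by_contra hcon
  push Not at hcon
  let Hx : Subgroup (Perm α) := Hf G R ⊓ stabilizer (Perm α) x
  have h1 : P ≤ Hx := fun y hy => ⟨M.PH hy, hcon y hy⟩
  have h2 : P.relIndex Hx * Hx.relIndex (Hf G R) = P.relIndex (Hf G R) :=
    Subgroup.relIndex_mul_relIndex _ _ _ h1 inf_le_left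
  have h3 : Hx.relIndex (Hf G R) = k * p := by
    have e1 : Hx.subgroupOf (Hf G R) = stabilizer (Hf G R) x := by
      ext g
      simp only [Hx, mem_subgroupOf, Subgroup.mem_inf, mem_stabilizer_iff]
      exact ⟨fun h => h.2, fun h => ⟨g.2, h⟩⟩
    rw [Subgroup.relIndex, e1, index_stabilizer]
    have e2 : orbit (Hf G R) x = ((Rᶜ : Finset α) : Set α) := by
      ext y
      rw [Finset.coe_compl, Set.mem_compl_iff, Finset.mem_coe]
      constructor
      · rintro ⟨h, rfl⟩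
        exact M.memH_not h.2 hx
      · intro hy
        obtain ⟨g, hg, hgm⟩ := M.tr (insert x R) (Finset.card_insert_le _ _) (fun z => if z = x then y else z) (by
          intro a ha b hb hab
          rw [Finset.mem_coe, Finset.mem_insert] at ha hb
          by_cases hax : a = x <;> by_cases hbx : b = x
          · rw [hax, hbx]
          · simp only [hax, hbx, if_true, if_false] at hab
            exact absurd (hab ▸ (hb.resolve_left hbx)) hy
          · simp only [hax, hbx, if_true, if_false] at hab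
            exact absurd (hab ▸ (ha.resolve_left hax)) hy
          · simpa only [hax, hbx, if_false] using hab)
        refine ⟨⟨g, hg, ?_⟩, ?_⟩
        · intro z hz
          have := hgm z (Finset.mem_insert_of_mem hz)
          have hzx : z ≠ x := by rintro rfl; exact hx hz
          simpa only [hzx, if_false] using this
        · have := hgm x (Finset.mem_insert_self _ _)
          rw [if_pos rfl] at this
          exact this
    rw [e2, Set.ncard_coe_finset, M.cardR]
  apply M.idx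
  rw [← h2, h3]
  exact ⟨P.relIndex Hx * k, by ring⟩

theorem orbit_sub (M : Mil G R p k P) {x : α} (hx : x ∉ R) : orbit P x ⊆ ((Rᶜ : Finset α) : Set α) := by
  rintro _ ⟨y, rfl⟩
  rw [Finset.coe_compl, Set.mem_compl_iff, Finset.mem_coe]
  exact M.memH_not (M.PH y.2) hx

theorem orbit_card (M : Mil G R p k P) {x : α} (hx : x ∉ R) : (orbit P x).ncard = p := by
  have := Fact.mk M.pp
  obtain ⟨n, hn⟩ := M.PG.card_orbit x
  rw [Nat.card_coe_set_eq] at hn
  have h1 : n ≠ 0 := by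
    rintro rfl
    rw [pow_zero, Set.ncard_eq_one] at hn
    obtain ⟨a, ha⟩ := hn
    obtain ⟨y, hy, hyx⟩ := M.moved hx
    have h2 : x ∈ orbit P x := mem_orbit_self x
    have h3 : y x ∈ orbit P x := ⟨⟨y, hy⟩, rfl⟩
    rw [ha, Set.mem_singleton_iff] at h2 h3
    exact hyx (by rw [h3, h2])
  have h2 : (orbit P x).ncard ≤ k * p := by
    rw [← M.cardR, ← Set.ncard_coe_finset]
    exact Set.ncard_le_ncard (M.orbit_sub hx)
  rw [hn] at h2 ⊢
  have h3 : n < 2 := by
    by_contra h3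
    have h4 : p ^ 2 ≤ p ^ n := Nat.pow_le_pow_right M.pp.pos (by omega)
    have h5 := M.kp
    have h6 : k * p < p ^ 2 := by rw [pow_two]; exact Nat.mul_lt_mul_of_pos_right h5 M.pp.pos
    omega
  have h4 : n = 1 := by omega
  rw [h4, pow_one]

theorem stab_normal (M : Mil G R p k P) {x : α} (hx : x ∉ R) : (stabilizer P x).Normal ∧ (stabilizer P x).index = p := by
  have := Fact.mk M.pp
  have h1 : (stabilizer P x).index = p := by rw [index_stabilizer, M.orbit_card hx]
  refine ⟨?_, h1⟩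
  apply Subgroup.normal_of_index_eq_minFac_card
  obtain ⟨n, hn⟩ := IsPGroup.iff_card.1 M.PG
  have h2 : n ≠ 0 := by
    rintro rfl
    have h3 : (stabilizer P x).index ∣ Nat.card P := Subgroup.index_dvd_card _
    rw [h1, hn, pow_zero, Nat.dvd_one] at h3
    exact M.pp.one_lt.ne' h3
  rw [h1, hn, Nat.Prime.pow_minFac M.pp h2]

theorem stab_orbit (M : Mil G R p k P) {y w : Perm α} (hy : y ∈ P) (hw : w ∈ P) {x : α} (h : y x = x) : y (w x) = w x := by
  by_cases hx : x ∈ R
  · rw [M.fixR hw hx, h]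
  · have hn := (M.stab_normal hx).1
    have h1 : (⟨y, hy⟩ : P) ∈ stabilizer P x := h
    have h2 := hn.conj_mem _ h1 (⟨w, hw⟩ : P)⁻¹
    have h3 : (w⁻¹ * y * w⁻¹⁻¹ : Perm α) x = x := h2
    rw [inv_inv, Perm.mul_apply, Perm.mul_apply, Perm.inv_eq_iff_eq] at h3
    exact h3.symm ▸ rfl

theorem comm (M : Mil G R p k P) {y w : Perm α} (hy : y ∈ P) (hw : w ∈ P) : y * w = w * y := by
  have := Fact.mk M.pp
  ext x
  by_cases hx : x ∈ R
  · rw [Perm.mul_apply, Perm.mul_apply, M.fixR hw hx, M.fixR hy hx, M.fixR hw hx]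
  · obtain ⟨hn, hi⟩ := M.stab_normal hx
    have hc : IsCyclic (P ⧸ stabilizer P x) := isCyclic_of_prime_card (p := p) hi
    let cg : CommGroup (P ⧸ stabilizer P x) := IsCyclic.commGroup
    have h1 : (QuotientGroup.mk (⟨y, hy⟩ * ⟨w, hw⟩ : P) : P ⧸ stabilizer P x) = QuotientGroup.mk (⟨w, hw⟩ * ⟨y, hy⟩ : P) := by
      rw [QuotientGroup.mk_mul, QuotientGroup.mk_mul]
      exact cg.mul_comm _ _
    rw [QuotientGroup.eq] at h1
    have h2 : ((y * w)⁻¹ * (w * y) : Perm α) x = x := h1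
    rw [Perm.mul_apply, Perm.inv_eq_iff_eq] at h2
    exact h2.symm

theorem pow_p (M : Mil G R p k P) {y : Perm α} (hy : y ∈ P) : y ^ p = 1 := by
  ext x
  by_cases hx : x ∈ R
  · rw [M.fixR (P.pow_mem hy p) hx]; rfl
  · obtain ⟨hn, hi⟩ := M.stab_normal hx
    have h1 := Subgroup.pow_index_mem (stabilizer P x) (⟨y, hy⟩ : P)
    rw [hi] at h1
    exact h1

/-- Witt's lemma -/
theorem witt (M : Mil G R p k P) (φ : α → α) (hφ : Set.InjOn φ R) (hφR : ∀ x ∈ R, φ x ∈ R) :
    ∃ n ∈ G ⊓ normalizer (P : Set (Perm α)), ∀ x ∈ R, n x = φ x := by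
  have := Fact.mk M.pp
  obtain ⟨g, hg, hgm⟩ := M.tr R (Nat.le_succ _) φ hφ
  -- `φ` is a bijection of `R`
  have hsurj : ∀ x ∈ R, ∃ y ∈ R, g y = x := by
    have h1 : R.image g = R := by
      apply Finset.eq_of_subset_of_card_le
      · intro z hz
        obtain ⟨y, hy, rfl⟩ := Finset.mem_image.1 hz
        rw [hgm y hy]; exact hφR y hy
      · rw [Finset.card_image_of_injective _ g.injective]
    intro x hx
    rw [← h1] at hx
    obtain ⟨y, hy, h⟩ := Finset.mem_image.1 hx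
    exact ⟨y, hy, h⟩
  have hconj : ∀ y ∈ Hf G R, g * y * g⁻¹ ∈ Hf G R := by
    intro y hy
    refine ⟨G.mul_mem (G.mul_mem hg hy.1) (G.inv_mem hg), fun x hx => ?_⟩
    obtain ⟨z, hz, rfl⟩ := hsurj x hx
    have h1 : g⁻¹ (g z) = z := by rw [Perm.inv_eq_iff_eq]
    rw [Perm.mul_apply, Perm.mul_apply, h1, hy.2 z hz]
  -- Sylow subgroups of `Hf G R`
  let H := Hf G R
  let Q : Subgroup H := P.subgroupOf H
  have hQ : IsPGroup p Q := M.PG.comap_of_injective H.subtype H.subtype_injective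
  let S : Sylow p H := hQ.toSylow (by exact M.idx)
  have hSQ : (S : Subgroup H) = Q := rfl
  let P2 : Subgroup (Perm α) := P.map (MulAut.conj g).toMonoidHom
  have hP2H : P2 ≤ H := by
    rintro _ ⟨y, hy, rfl⟩
    exact hconj y (M.PH hy)
  have hQ2 : IsPGroup p (P2.subgroupOf H) :=
    (M.PG.map _).comap_of_injective H.subtype H.subtype_injective
  obtain ⟨S2, hS2⟩ := hQ2.exists_le_sylow
  obtain ⟨h, hh⟩ := exists_smul_eq H S2 S
  refine ⟨(h : Perm α) * g, ⟨G.mul_mem h.2.1 hg, ?_⟩, ?_⟩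
  · apply Lib.GroupUtil.mem_normalizer_of_conj_le
    intro y hy
    have h1 : (⟨g * y * g⁻¹, hconj y (M.PH hy)⟩ : H) ∈ (S2 : Subgroup H) := hS2 (by
      rw [mem_subgroupOf]
      exact ⟨y, hy, rfl⟩)
    have h2 : h * ⟨g * y * g⁻¹, hconj y (M.PH hy)⟩ * h⁻¹ ∈ ((h • S2 : Sylow p H) : Subgroup H) := by
      rw [Sylow.coe_subgroup_smul]
      exact Subgroup.smul_mem_pointwise_smul _ (MulAut.conj h) _ h1
    rw [hh, hSQ, mem_subgroupOf] at h2
    have h3 : (h : Perm α) * g * y * ((h : Perm α) * g)⁻¹ = ((h * ⟨g * y * g⁻¹, hconj y (M.PH hy)⟩ * h⁻¹ : H) : Perm α) := by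
      change (h : Perm α) * g * y * ((h : Perm α) * g)⁻¹ = (h : Perm α) * (g * y * g⁻¹) * (h : Perm α)⁻¹
      group
    rw [h3]
    exact h2
  · intro x hx
    rw [Perm.mul_apply, hgm x hx, h.2.2 _ (hφR x hx)]

end Mil

end Cfsg.Agent.Lib.Miller
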