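import Mathlib
import Cfsg.Agent.Lib.MillerA

set_option autoImplicit false
set_option linter.unusedSectionVars false

namespace Cfsg.Agent.Lib.Miller

open Equiv MulAction Subgroup
open scoped Pointwise

variable {α : Type*} [Fintype α] [DecidableEq α]
variable {G : Subgroup (Perm α)} {R : Finset α} {p k : ℕ} {P : Subgroup (Perm α)}

/-- `N_G(P)` -/
def NN (G P : Subgroup (Perm α)) : Subgroup (Perm α) := G ⊓ normalizer (P : Set (Perm α))

namespace Mil

theorem inv_apply' (g : Perm α) (x : α) : g⁻¹ (g x) = x := by rw [Perm.inv_eq_iff_eq]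

theorem apply_inv' (g : Perm α) (x : α) : g (g⁻¹ x) = x := by
  have := inv_apply' g⁻¹ x
  rwa [inv_inv] at this

theorem conjP {n y : Perm α} (hn : n ∈ NN G P) (hy : y ∈ P) : n * y * n⁻¹ ∈ P :=
  (mem_normalizer_iff.1 hn.2 y).1 hy

theorem conjP' {n y : Perm α} (hn : n ∈ NN G P) (hy : y ∈ P) : n⁻¹ * y * n ∈ P := by
  have := conjP (G := G) (P := P) ((NN G P).inv_mem hn) hy
  rwa [inv_inv] at this

theorem presR (M : Mil G R p k P) {n : Perm α} (hn : n ∈ NN G P) {x : α} (hx : x ∈ R) : n x ∈ R := by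
  by_contra h
  obtain ⟨y, hy, hyn⟩ := M.moved h
  apply hyn
  have h1 := M.fixR (conjP' hn hy) hx
  rw [Perm.mul_apply, Perm.mul_apply, Perm.inv_eq_iff_eq] at h1
  exact h1

theorem presRc (M : Mil G R p k P) {n : Perm α} (hn : n ∈ NN G P) {x : α} (hx : x ∉ R) : n x ∉ R := by
  intro h
  have := M.presR ((NN G P).inv_mem hn) h
  rw [inv_apply'] at this
  exact hx this

theorem orb_map {n : Perm α} (hn : n ∈ NN G P) {x z : α} (h : z ∈ orbit P x) : n z ∈ orbit P (n x) := by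
  obtain ⟨y, rfl⟩ := h
  refine ⟨⟨n * y * n⁻¹, conjP hn y.2⟩, ?_⟩
  change (n * (y : Perm α) * n⁻¹) (n x) = n ((y : Perm α) x)
  rw [Perm.mul_apply, Perm.mul_apply, inv_apply']

end Mil

/-- elements of `N_G(P)` fixing every `P`-orbit outside `R` -/
def NN0 (G : Subgroup (Perm α)) (R : Finset α) (P : Subgroup (Perm α)) : Subgroup (Perm α) where
  carrier := {n | n ∈ NN G P ∧ ∀ x, x ∉ R → n x ∈ orbit P x}
  one_mem' := ⟨(NN G P).one_mem, fun x _ => mem_orbit_self x⟩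
  mul_mem' := by
    rintro a b ⟨ha, ha'⟩ ⟨hb, hb'⟩
    refine ⟨(NN G P).mul_mem ha hb, fun x hx => ?_⟩
    have h1 := Mil.orb_map ha (hb' x hx)
    have h2 := ha' x hx
    rw [Perm.mul_apply]
    rw [orbit_eq_iff.2 h2] at h1
    exact h1
  inv_mem' := by
    rintro a ⟨ha, ha'⟩
    refine ⟨(NN G P).inv_mem ha, fun x hx => ?_⟩
    have h1 := Mil.orb_map ((NN G P).inv_mem ha) (mem_orbit_symm.1 (ha' x hx))
    rw [Mil.inv_apply'] at h1
    exact h1

/-- elements of `NN0` centralizing `P` -/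
def CC (G : Subgroup (Perm α)) (R : Finset α) (P : Subgroup (Perm α)) : Subgroup (Perm α) :=
  NN0 G R P ⊓ centralizer (P : Set (Perm α))

/-- elements of `G` that are trivial outside `R` -/
def DD (G : Subgroup (Perm α)) (R : Finset α) : Subgroup (Perm α) where
  carrier := {n | n ∈ G ∧ ∀ x, x ∉ R → n x = x}
  one_mem' := ⟨G.one_mem, fun x _ => rfl⟩
  mul_mem' := by
    rintro a b ⟨ha, ha'⟩ ⟨hb, hb'⟩
    exact ⟨G.mul_mem ha hb, fun x hx => by rw [Perm.mul_apply, hb' x hx, ha' x hx]⟩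
  inv_mem' := by
    rintro a ⟨ha, ha'⟩
    exact ⟨G.inv_mem ha, fun x hx => by rw [Perm.inv_eq_iff_eq, ha' x hx]⟩

namespace Mil

theorem CC_comm {c y : Perm α} (hc : c ∈ CC G R P) (hy : y ∈ P) : c * y = y * c :=
  ((mem_centralizer_iff.1 hc.2) y hy).symm

theorem CC_local {c : Perm α} (hc : c ∈ CC G R P) {x : α} (hx : x ∉ R) : ∃ y ∈ P, c x = y x := by
  obtain ⟨y, hy⟩ := hc.1.2 x hx
  exact ⟨y, y.2, hy.symm⟩

theorem CC_pow {c y : Perm α} (hc : c ∈ CC G R P) (hy : y ∈ P) {x : α} (h : c x = y x) (n : ℕ) :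
    (c ^ n) x = (y ^ n) x := by
  induction n with
  | zero => rfl
  | succ n ih =>
    rw [pow_succ', Perm.mul_apply, ih, ← Perm.mul_apply, CC_comm hc (P.pow_mem hy n), Perm.mul_apply, h,
      ← Perm.mul_apply, ← pow_succ]

theorem CC_pow_p (M : Mil G R p k P) {c : Perm α} (hc : c ∈ CC G R P) : c ^ p ∈ DD G R := by
  refine ⟨G.pow_mem hc.1.1.1 p, fun x hx => ?_⟩
  obtain ⟨y, hy, h⟩ := CC_local hc hx
  rw [CC_pow hc hy h, M.pow_p hy]; rfl

theorem CC_comm_DD (M : Mil G R p k P) {c d : Perm α} (hc : c ∈ CC G R P) (hd : d ∈ CC G R P) :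
    c * d * c⁻¹ * d⁻¹ ∈ DD G R := by
  refine ⟨G.mul_mem (G.mul_mem (G.mul_mem hc.1.1.1 hd.1.1.1) (G.inv_mem hc.1.1.1)) (G.inv_mem hd.1.1.1), fun x hx => ?_⟩
  have key : ∀ z, z ∉ R → c (d z) = d (c z) := by
    intro z hz
    obtain ⟨y, hy, h⟩ := CC_local hc hz
    obtain ⟨w, hw, h'⟩ := CC_local hd hz
    have e1 : c (d z) = w (y z) := by
      rw [h', ← Perm.mul_apply, CC_comm hc hw, Perm.mul_apply, h]
    have e2 : d (c z) = y (w z) := by
      rw [h, ← Perm.mul_apply, CC_comm hd hy, Perm.mul_apply, h']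
    rw [e1, e2, ← Perm.mul_apply, M.comm hw hy, Perm.mul_apply]
  have h1 : c⁻¹ (d⁻¹ x) ∉ R := M.presRc ((NN G P).inv_mem hc.1.1) (M.presRc ((NN G P).inv_mem hd.1.1) hx)
  rw [Perm.mul_apply, Perm.mul_apply, Perm.mul_apply, key _ h1, apply_inv', apply_inv']

/-- an element of `NN0` acts on `P` locally as a power map -/
theorem local_pow (M : Mil G R p k P) {n : Perm α} (hn : n ∈ NN0 G R P) {x : α} (hx : x ∉ R) :
    ∃ a : ℕ, ∀ y ∈ P, ∀ z ∈ orbit P x, (n * y * n⁻¹) z = (y ^ a) z := by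
  obtain ⟨y0, hy0, hy0x⟩ := M.moved hx
  have := Fact.mk M.pp
  -- every element of `P` acts on the orbit of `x` as a power of `y0`
  have hpow : ∀ y ∈ P, ∃ i : ℕ, ∀ z ∈ orbit P x, y z = (y0 ^ i) z := by
    intro y hy
    obtain ⟨hnor, hi⟩ := M.stab_normal hx
    have h0 : (QuotientGroup.mk (⟨y0, hy0⟩ : P) : P ⧸ stabilizer P x) ≠ 1 := by
      intro h
      rw [QuotientGroup.eq_one_iff] at h
      exact hy0x h
    obtain ⟨i, hi'⟩ := mem_powers_of_prime_card (p := p) (G := P ⧸ stabilizer P x) hi h0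
      (g' := QuotientGroup.mk (⟨y, hy⟩ : P))
    refine ⟨i, ?_⟩
    have h1 : (QuotientGroup.mk ((⟨y0, hy0⟩ : P) ^ i) : P ⧸ stabilizer P x) = QuotientGroup.mk (⟨y, hy⟩ : P) := by
      rw [QuotientGroup.mk_pow]; exact hi'
    rw [QuotientGroup.eq] at h1
    have h2 : ((y0 ^ i)⁻¹ * y : Perm α) x = x := h1
    rintro _ ⟨w, rfl⟩
    change y ((w : Perm α) x) = (y0 ^ i) ((w : Perm α) x)
    have h3 := M.stab_orbit (P.mul_mem (P.inv_mem (P.pow_mem hy0 i)) hy) w.2 h2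
    rw [Perm.mul_apply, Perm.inv_eq_iff_eq] at h3
    exact h3
  obtain ⟨a, ha⟩ := hpow _ (conjP hn.1 hy0)
  refine ⟨a, ?_⟩
  intro y hy z hz
  obtain ⟨i, hi⟩ := hpow y hy
  have hnz : n⁻¹ z ∈ orbit P x := by
    have h1 := orb_map ((NN G P).inv_mem hn.1) hz
    have h2 := ((NN0 G R P).inv_mem hn).2 x hx
    rwa [orbit_eq_iff.2 h2] at h1
  have e1 : (n * y * n⁻¹) z = ((n * y0 * n⁻¹) ^ i) z := by
    rw [conj_pow, Perm.mul_apply, Perm.mul_apply, hi _ hnz]; rfl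
  have hpw : ∀ j : ℕ, ∀ w u : Perm α, w ∈ P → u ∈ P → (∀ z ∈ orbit P x, w z = u z) → ∀ z ∈ orbit P x, (w ^ j) z = (u ^ j) z := by
    intro j w u hw hu hwu
    induction j with
    | zero => intro z _; rfl
    | succ j ih =>
      intro z hz
      have h1 : u z ∈ orbit P x := by
        rw [← orbit_eq_iff.2 hz]
        exact ⟨⟨u, hu⟩, rfl⟩
      rw [pow_succ, Perm.mul_apply, hwu z hz, ih _ h1, pow_succ, Perm.mul_apply]
  rw [e1, hpw i _ _ (conjP hn.1 hy0) (P.pow_mem hy0 a) ha z hz, hpw a y (y0 ^ i) hy (P.pow_mem hy0 i) hi z hz,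
    ← pow_mul, ← pow_mul, mul_comm]

theorem pw_local (M : Mil G R p k P) {x : α} (j : ℕ) {w u : Perm α} (hu : u ∈ P)
    (hwu : ∀ z ∈ orbit P x, w z = u z) : ∀ z ∈ orbit P x, (w ^ j) z = (u ^ j) z := by
  induction j with
  | zero => intro z _; rfl
  | succ j ih =>
    intro z hz
    have h1 : u z ∈ orbit P x := by
      rw [← orbit_eq_iff.2 hz]
      exact ⟨⟨u, hu⟩, rfl⟩
    rw [pow_succ, Perm.mul_apply, hwu z hz, ih _ h1, pow_succ, Perm.mul_apply]

theorem comm_conj (M : Mil G R p k P) {n m : Perm α} (hn : n ∈ NN0 G R P) (hm : m ∈ NN0 G R P) {y : Perm α} (hy : y ∈ P) :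
    (n * m) * y * (n * m)⁻¹ = (m * n) * y * (m * n)⁻¹ := by
  ext x
  by_cases hx : x ∈ R
  · rw [M.fixR (conjP ((NN G P).mul_mem hn.1 hm.1) hy) hx, M.fixR (conjP ((NN G P).mul_mem hm.1 hn.1) hy) hx]
  · obtain ⟨a, ha⟩ := M.local_pow hn hx
    obtain ⟨b, hb⟩ := M.local_pow hm hx
    have hxx : x ∈ orbit P x := mem_orbit_self x
    have e1 : (n * m) * y * (n * m)⁻¹ = n * (m * y * m⁻¹) * n⁻¹ := by group
    have e2 : (m * n) * y * (m * n)⁻¹ = m * (n * y * n⁻¹) * m⁻¹ := by group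
    rw [e1, e2, ha _ (conjP hm.1 hy) x hxx, hb _ (conjP hn.1 hy) x hxx,
      M.pw_local a (P.pow_mem hy b) (hb y hy) x hxx, M.pw_local b (P.pow_mem hy a) (ha y hy) x hxx,
      ← pow_mul, ← pow_mul, mul_comm]

theorem comm_CC (M : Mil G R p k P) {n m : Perm α} (hn : n ∈ NN0 G R P) (hm : m ∈ NN0 G R P) :
    n * m * n⁻¹ * m⁻¹ ∈ CC G R P := by
  refine ⟨(NN0 G R P).mul_mem ((NN0 G R P).mul_mem ((NN0 G R P).mul_mem hn hm) ((NN0 G R P).inv_mem hn)) ((NN0 G R P).inv_mem hm), mem_centralizer_iff.2 ?_⟩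
  intro y hy
  have h1 := M.comm_conj hn hm (conjP' ((NN G P).mul_mem hm.1 hn.1) hy)
  have e1 : m * n * ((m * n)⁻¹ * y * (m * n)) * (m * n)⁻¹ = y := by group
  rw [e1] at h1
  have e2 : n * m * n⁻¹ * m⁻¹ * y = (n * m * ((m * n)⁻¹ * y * (m * n)) * (n * m)⁻¹) * (n * m * n⁻¹ * m⁻¹) := by group
  rw [e2, h1]

/-- if a nontrivial element of `P` moves only one orbit, then `G` contains the alternating group -/
theorem cyc (M : Mil G R p k P) (h3 : 3 ≤ R.card) (hG : IsPreprimitive G α) {y : Perm α} (hy : y ∈ P) (hy1 : y ≠ 1)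
    {x : α} (hx : x ∉ R) (h : ∀ z, z ∉ R → z ∉ orbit P x → y z = z) : alternatingGroup α ≤ G := by
  have hsupp : (y.support : Set α) ⊆ orbit P x := by
    intro z hz
    rw [Finset.mem_coe, Perm.mem_support] at hz
    by_contra hzo
    by_cases hzR : z ∈ R
    · exact hz (M.fixR hy hzR)
    · exact hz (h z hzR hzo)
  have hcard : y.support.card ≤ p := by
    rw [← M.orbit_card hx, ← Set.ncard_coe_finset]
    exact Set.ncard_le_ncard hsupp
  have := Fact.mk M.pp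
  have hord : orderOf y = p := orderOf_eq_prime (M.pow_p hy) hy1
  have hcyc : y.IsCycle := by
    apply Perm.isCycle_of_prime_order
    · rw [hord]; exact M.pp
    · rw [hord]; have := M.pp.pos; omega
  have hn : p + R.card ≤ Fintype.card α := by
    have h1 := Finset.card_add_card_compl R
    rw [M.cardR] at h1
    have h2 : p ≤ k * p := Nat.le_mul_of_pos_left p M.k1
    omega
  have hp2 := M.pp.two_le
  exact Cfsg.Agent.S0713.result G hG M.pp (by omega) (by omega) hcyc (by rw [← hcyc.orderOf, hord]) (M.PG' hy)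

end Mil

end Cfsg.Agent.Lib.Miller
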