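import Mathlib
import Cfsg.Agent.Lib.MillerB
import Cfsg.Agent.S0415

set_option autoImplicit false
set_option linter.unusedSectionVars false

namespace Cfsg.Agent.Lib.Miller

open Equiv MulAction Subgroup
open scoped Pointwise

variable {α : Type*} [Fintype α] [DecidableEq α]
variable {G : Subgroup (Perm α)} {R : Finset α} {p k : ℕ} {P : Subgroup (Perm α)}

/-- permutations supported in `R` -/
def TR (R : Finset α) : Subgroup (Perm α) where
  carrier := {n | ∀ x, x ∉ R → n x = x}
  one_mem' := fun x _ => rfl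
  mul_mem' := by
    rintro a b ha' hb'
    exact fun x hx => by rw [Perm.mul_apply, hb' x hx, ha' x hx]
  inv_mem' := by
    rintro a ha'
    exact fun x hx => by rw [Perm.inv_eq_iff_eq, ha' x hx]

theorem TR_mem {σ : Perm α} (h : σ ∈ TR R) {x : α} (hx : x ∈ R) : σ x ∈ R := by
  by_contra h1
  have h2 := h _ h1
  exact h1 (by rw [σ.injective h2]; exact hx)

/-- `n` and `σ` agree on `R` -/
def Ag (R : Finset α) (n σ : Perm α) : Prop := σ ∈ TR R ∧ ∀ x ∈ R, n x = σ x

theorem Ag.mul {n m σ τ : Perm α} (h : Ag R n σ) (h' : Ag R m τ) : Ag R (n * m) (σ * τ) :=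
  ⟨(TR R).mul_mem h.1 h'.1, fun x hx => by rw [Perm.mul_apply, h'.2 x hx, h.2 _ (TR_mem h'.1 hx), Perm.mul_apply]⟩

theorem Ag.inv {n σ : Perm α} (h : Ag R n σ) : Ag R n⁻¹ σ⁻¹ := by
  refine ⟨(TR R).inv_mem h.1, fun x hx => ?_⟩
  have h1 := h.2 _ (TR_mem ((TR R).inv_mem h.1) hx)
  rw [Mil.apply_inv'] at h1
  rw [Perm.inv_eq_iff_eq, h1]

theorem Ag.one : Ag R (1 : Perm α) 1 := ⟨(TR R).one_mem, fun _ _ => rfl⟩

theorem Ag.pow {n σ : Perm α} (h : Ag R n σ) (j : ℕ) : Ag R (n ^ j) (σ ^ j) := by
  induction j with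
  | zero => rw [pow_zero, pow_zero]; exact Ag.one
  | succ j ih => rw [pow_succ, pow_succ]; exact ih.mul h

theorem Ag.comm {n m σ τ : Perm α} (h : Ag R n σ) (h' : Ag R m τ) :
    Ag R (n * m * n⁻¹ * m⁻¹) (σ * τ * σ⁻¹ * τ⁻¹) := ((h.mul h').mul h.inv).mul h'.inv

theorem Ag.eq_of_DD {n σ : Perm α} (h : Ag R n σ) (hn : n ∈ DD G R) : σ ∈ G := by
  have : n = σ := by
    ext x
    by_cases hx : x ∈ R
    · exact h.2 x hx
    · rw [hn.2 x hx, h.1 x hx]
  rw [← this]
  exact hn.1

/-- Witt's lemma again -/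
theorem Mil.witt' (M : Mil G R p k P) {σ : Perm α} (hσ : σ ∈ TR R) : ∃ n ∈ NN G P, Ag R n σ := by
  obtain ⟨n, hn, h⟩ := M.witt σ (σ.injective.injOn) (fun x hx => TR_mem hσ hx)
  exact ⟨n, hn, hσ, h⟩

/-! ### the embedding of `Perm (Fin m)` -/

theorem via_mem {m : ℕ} {ι : Fin m ↪ α} (hι : ∀ i, ι i ∈ R) (s : Perm (Fin m)) : Perm.viaEmbeddingHom ι s ∈ TR R := by
  intro x hx
  rw [Perm.viaEmbeddingHom_apply]
  apply Perm.viaEmbedding_apply_of_notMem
  rintro ⟨i, rfl⟩
  exact hx (hι i)

theorem via_swap {m : ℕ} (ι : Fin m ↪ α) (i j : Fin m) : Perm.viaEmbeddingHom ι (swap i j) = swap (ι i) (ι j) := by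
  ext x
  rw [Perm.viaEmbeddingHom_apply]
  by_cases hx : x ∈ Set.range ι
  · obtain ⟨l, rfl⟩ := hx
    rw [Perm.viaEmbedding_apply]
    exact (ι.injective.swap_apply i j l).symm
  · rw [Perm.viaEmbedding_apply_of_notMem _ _ _ hx, swap_apply_of_ne_of_ne]
    · rintro rfl; exact hx ⟨i, rfl⟩
    · rintro rfl; exact hx ⟨j, rfl⟩

theorem exists_emb {m : ℕ} (h : m ≤ R.card) : ∃ ι : Fin m ↪ α, ∀ i, ι i ∈ R := by
  obtain ⟨S, hS, hc⟩ := Finset.exists_subset_card_eq h
  let e : Fin m ≃ S := (finCongr hc.symm).trans S.equivFin.symm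
  exact ⟨⟨fun i => e i, fun i j h => e.injective (Subtype.ext h)⟩, fun i => hS (e i).2⟩

/-- three-cycles -/
theorem done_three (hG : IsPreprimitive G α) (ι : Fin 3 ↪ α)
    (h : Perm.viaEmbeddingHom ι (swap 0 1 * swap 0 2) ∈ G) : alternatingGroup α ≤ G := by
  rw [map_mul, via_swap, via_swap] at h
  refine Perm.alternatingGroup_le_of_isPreprimitive_of_isThreeCycle_mem hG
    (Perm.isThreeCycle_swap_mul_swap_same ?_ ?_ ?_) h
  · exact fun h => absurd (ι.injective h) (by decide)
  · exact fun h => absurd (ι.injective h) (by decide)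
  · exact fun h => absurd (ι.injective h) (by decide)

/-- double transpositions -/
theorem done_four (hG : IsPreprimitive G α)
    (htr : ∀ S : Finset α, S.card ≤ 4 → ∀ φ : α → α, Set.InjOn φ S → ∃ g ∈ G, ∀ x ∈ S, g x = φ x)
    (hn : 5 ≤ Fintype.card α) {a b c d : α} (hab : a ≠ b) (hac : a ≠ c) (had : a ≠ d) (hbc : b ≠ c) (hbd : b ≠ d)
    (hcd : c ≠ d) (h : swap a b * swap c d ∈ G) : alternatingGroup α ≤ G := by
  have hcard : ({a, b, c, d} : Finset α).card ≤ 4 := Finset.card_le_four
  obtain ⟨e, he⟩ : ∃ e, e ∉ ({a, b, c, d} : Finset α) := by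
    by_contra hcon
    push Not at hcon
    have : Finset.univ ⊆ ({a, b, c, d} : Finset α) := fun x _ => hcon x
    have := Finset.card_le_card this
    rw [Finset.card_univ] at this
    omega
  simp only [Finset.mem_insert, Finset.mem_singleton, not_or] at he
  obtain ⟨hea, heb, hec, hed⟩ := he
  obtain ⟨g, hg, hgm⟩ := htr {a, b, c, d} hcard (swap d e) ((swap d e).injective.injOn)
  have ga : g a = a := by rw [hgm a (by simp), swap_apply_of_ne_of_ne had (Ne.symm hea)]
  have gb : g b = b := by rw [hgm b (by simp), swap_apply_of_ne_of_ne hbd (Ne.symm heb)]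
  have gc : g c = c := by rw [hgm c (by simp), swap_apply_of_ne_of_ne hcd (Ne.symm hec)]
  have gd : g d = e := by rw [hgm d (by simp), swap_apply_left]
  have h1 : g * (swap a b * swap c d) * g⁻¹ ∈ G := G.mul_mem (G.mul_mem hg h) (G.inv_mem hg)
  have h2 : g * (swap a b * swap c d) * g⁻¹ = swap a b * swap c e := by
    have e1 : ∀ x y : α, g * swap x y * g⁻¹ = swap (g x) (g y) := fun x y => by
      rw [Equiv.mul_swap_eq_swap_mul]; group
    calc g * (swap a b * swap c d) * g⁻¹ = (g * swap a b * g⁻¹) * (g * swap c d * g⁻¹) := by group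
      _ = _ := by rw [e1, e1, ga, gb, gc, gd]
  rw [h2] at h1
  have h3 : (swap a b * swap c d) * (swap a b * swap c e) = swap c d * swap c e := by
    have hd : Commute (swap a b) (swap c d) := by
      apply Perm.Disjoint.commute
      rw [Perm.disjoint_iff_disjoint_support, Perm.support_swap hab, Perm.support_swap hcd]
      simp [Ne.symm hac, Ne.symm had, Ne.symm hbc, Ne.symm hbd]
    have hd' : swap a b * swap c d = swap c d * swap a b := hd
    rw [hd', mul_assoc, ← mul_assoc (swap a b), swap_mul_self, one_mul]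
  have h4 := G.mul_mem h h1
  rw [h3] at h4
  exact Perm.alternatingGroup_le_of_isPreprimitive_of_isThreeCycle_mem hG
    (Perm.isThreeCycle_swap_mul_swap_same hcd (Ne.symm hec) (Ne.symm hed)) h4

theorem done_four' (hG : IsPreprimitive G α)
    (htr : ∀ S : Finset α, S.card ≤ 4 → ∀ φ : α → α, Set.InjOn φ S → ∃ g ∈ G, ∀ x ∈ S, g x = φ x)
    (hn : 5 ≤ Fintype.card α) (ι : Fin 4 ↪ α) {s : Perm (Fin 4)}
    (hs : s = swap 0 1 * swap 2 3 ∨ s = swap 0 2 * swap 1 3 ∨ s = swap 0 3 * swap 1 2)
    (h : Perm.viaEmbeddingHom ι s ∈ G) : alternatingGroup α ≤ G := by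
  have hne : ∀ i j : Fin 4, i ≠ j → ι i ≠ ι j := fun i j hij h => hij (ι.injective h)
  rcases hs with rfl | rfl | rfl
  · rw [map_mul, via_swap, via_swap] at h
    exact done_four hG htr hn (hne 0 1 (by decide)) (hne 0 2 (by decide)) (hne 0 3 (by decide)) (hne 1 2 (by decide))
      (hne 1 3 (by decide)) (hne 2 3 (by decide)) h
  · rw [map_mul, via_swap, via_swap] at h
    exact done_four hG htr hn (hne 0 2 (by decide)) (hne 0 1 (by decide)) (hne 0 3 (by decide)) (hne 2 1 (by decide))
      (hne 2 3 (by decide)) (hne 1 3 (by decide)) h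
  · rw [map_mul, via_swap, via_swap] at h
    exact done_four hG htr hn (hne 0 3 (by decide)) (hne 0 1 (by decide)) (hne 0 2 (by decide)) (hne 3 1 (by decide))
      (hne 3 2 (by decide)) (hne 1 2 (by decide)) h

/-! ### degree nine -/

theorem nine (hG : IsPreprimitive G α) (h4 : IsMultiplyPretransitive G α 4) (hn : Fintype.card α = 9) :
    alternatingGroup α ≤ G := by
  have htr := fun S hS φ hφ => exists_map h4 (by omega) S hS φ hφ
  by_cases hsh : ∀ x : Fin 4 ↪ α, stabilizer G x = ⊥
  · have := Cfsg.Agent.S0415.result G (by omega) hsh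
    omega
  push Not at hsh
  obtain ⟨ι, hι⟩ := hsh
  have hcard1 : Nat.card (stabilizer G ι) ≠ 1 := fun h => hι (Subgroup.card_eq_one.1 h)
  obtain ⟨q, hq, hqd⟩ := Nat.exists_prime_and_dvd hcard1
  have := Fact.mk hq
  obtain ⟨j0, hj0⟩ := exists_prime_orderOf_dvd_card' q hqd
  set j : Perm α := ((j0 : G) : Perm α) with hj
  have hjG : j ∈ G := (j0 : G).2
  have hjo : orderOf j = q := by rw [hj, Subgroup.orderOf_coe, Subgroup.orderOf_coe, hj0]
  have hfix : ∀ i, j (ι i) = ι i := by
    intro i
    have h1 := j0.2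
    rw [mem_stabilizer_iff] at h1
    exact congrArg (fun f : Fin 4 ↪ α => f i) h1
  have hsupp : j.support.card ≤ 5 := by
    have h1 : (Finset.univ.map ι) ⊆ j.supportᶜ := by
      intro x hx
      obtain ⟨i, -, rfl⟩ := Finset.mem_map.1 hx
      rw [Finset.mem_compl, Perm.notMem_support]
      exact hfix i
    have h2 := Finset.card_le_card h1
    rw [Finset.card_map, Finset.card_univ, Fintype.card_fin, Finset.card_compl, hn] at h2
    have h3 : j.support.card ≤ Fintype.card α := Finset.card_le_univ _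
    omega
  obtain ⟨m, hm⟩ := Perm.cycleType_prime_order (σ := j) (by rw [hjo]; exact hq)
  rw [hjo] at hm
  have hsum := j.sum_cycleType
  rw [hm, Multiset.sum_replicate, smul_eq_mul] at hsum
  have hq2 := hq.two_le
  have hq5 : q ≤ 5 := by
    have : 1 * q ≤ (m + 1) * q := Nat.mul_le_mul_right q (by omega)
    omega
  by_cases hq2' : q = 2
  · subst hq2'
    have hm2 : m ≤ 1 := by omega
    interval_cases m
    · -- transposition
      have hsw : j.IsSwap := by
        rw [← Perm.card_support_eq_two]; omega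
      have := Perm.subgroup_eq_top_of_isPreprimitive_of_isSwap_mem hG j hsw hjG
      rw [this]; exact le_top
    · -- double transposition
      have hjj : ∀ x, j (j x) = x := by
        intro x
        have h1 := pow_orderOf_eq_one j
        rw [hjo, pow_two] at h1
        exact congrArg (fun f : Perm α => f x) h1
      have hs4 : j.support.card = 4 := by omega
      obtain ⟨a, ha⟩ : j.support.Nonempty := Finset.card_pos.1 (by omega)
      have hja := Perm.mem_support.1 ha
      have hja' : j a ∈ j.support := Perm.apply_mem_support.2 ha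
      obtain ⟨c, hc, hcn⟩ : ∃ c ∈ j.support, c ∉ ({a, j a} : Finset α) := by
        by_contra hcon
        push Not at hcon
        have h1 : j.support ⊆ {a, j a} := fun x hx => hcon x hx
        have h2 := (Finset.card_le_card h1).trans Finset.card_le_two
        omega
      rw [Finset.mem_insert, Finset.mem_singleton, not_or] at hcn
      have hjc := Perm.mem_support.1 hc
      have hne1 : a ≠ j c := by
        intro h; apply hcn.2; rw [h, hjj]
      have hne2 : j a ≠ j c := fun h => hcn.1 (j.injective h).symm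
      have hsub : ({a, j a, c, j c} : Finset α) ⊆ j.support := by
        intro x hx
        simp only [Finset.mem_insert, Finset.mem_singleton] at hx
        rcases hx with rfl | rfl | rfl | rfl
        · exact ha
        · exact hja'
        · exact hc
        · exact Perm.apply_mem_support.2 hc
      have hc4 : ({a, j a, c, j c} : Finset α).card = 4 := by
        rw [Finset.card_insert_of_notMem, Finset.card_insert_of_notMem, Finset.card_pair (Ne.symm hjc)]
        · simp only [Finset.mem_insert, Finset.mem_singleton, not_or]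
          exact ⟨Ne.symm hcn.2, hne2⟩
        · simp only [Finset.mem_insert, Finset.mem_singleton, not_or]
          exact ⟨Ne.symm hja, Ne.symm hcn.1, hne1⟩
      have heq := Finset.eq_of_subset_of_card_le hsub (by omega)
      have hform : j = swap a (j a) * swap c (j c) := by
        ext x
        by_cases hx : x ∈ j.support
        · rw [← heq] at hx
          simp only [Finset.mem_insert, Finset.mem_singleton] at hx
          rcases hx with rfl | rfl | rfl | rfl
          · rw [Perm.mul_apply, swap_apply_of_ne_of_ne (Ne.symm hcn.1) hne1, swap_apply_left]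
          · rw [Perm.mul_apply, swap_apply_of_ne_of_ne (Ne.symm hcn.2) hne2, swap_apply_right, hjj]
          · rw [Perm.mul_apply, swap_apply_left, swap_apply_of_ne_of_ne (Ne.symm hne1) (Ne.symm hne2)]
          · rw [Perm.mul_apply, swap_apply_right, swap_apply_of_ne_of_ne hcn.1 hcn.2, hjj]
        · have hx' := hx
          rw [← heq] at hx'
          simp only [Finset.mem_insert, Finset.mem_singleton, not_or] at hx'
          rw [Perm.notMem_support.1 hx, Perm.mul_apply, swap_apply_of_ne_of_ne hx'.2.2.1 hx'.2.2.2,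
            swap_apply_of_ne_of_ne hx'.1 hx'.2.1]
      rw [hform] at hjG
      exact done_four hG htr (by omega) (Ne.symm hja) (Ne.symm hcn.1) hne1 (Ne.symm hcn.2) hne2 (Ne.symm hjc) hjG
  · have hq3 : 3 ≤ q := by omega
    have hm0 : m = 0 := by
      by_contra hm0
      have : 2 * q ≤ (m + 1) * q := Nat.mul_le_mul_right q (by omega)
      omega
    rw [hm0, zero_add, one_mul] at hsum
    have hcyc : j.IsCycle := by
      apply Perm.isCycle_of_prime_order
      · rw [hjo]; exact hq
      · rw [hjo]; omega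
    exact Cfsg.Agent.S0713.result G hG hq (by omega) (by omega) hcyc hsum.symm hjG

end Cfsg.Agent.Lib.Miller
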