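import Mathlib
import Cfsg.Agent.Lib.MillerC

set_option autoImplicit false
set_option linter.unusedSectionVars false

namespace Cfsg.Agent.Lib.Miller

open Equiv MulAction Subgroup
open scoped Pointwise commutatorElement

variable {α : Type*} [Fintype α] [DecidableEq α]
variable {G : Subgroup (Perm α)} {R : Finset α} {p k : ℕ} {P : Subgroup (Perm α)}

/-- the set of `P`-orbits outside `R` -/
def Orb (R : Finset α) (P : Subgroup (Perm α)) : Type _ := {O : Set α // ∃ x, x ∉ R ∧ O = orbit P x}

instance : Finite (Orb R P) := inferInstanceAs (Finite {O : Set α // ∃ x, x ∉ R ∧ O = orbit P x})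

theorem Mil.card_Orb (M : Mil G R p k P) : Nat.card (Orb R P) = k := by
  classical
  let F : Finset (Set α) := Rᶜ.image (fun x => orbit P x)
  have h1 : Nat.card (Orb R P) = F.card := by
    have : Nat.card (Orb R P) = Nat.card {O : Set α // O ∈ F} := by
      refine Nat.card_congr (Equiv.subtypeEquivRight (fun O => ?_))
      simp only [F, Finset.mem_image, Finset.mem_compl]
      exact ⟨fun ⟨x, hx, h⟩ => ⟨x, hx, h.symm⟩, fun ⟨x, hx, h⟩ => ⟨x, hx, h.symm⟩⟩
    rw [this, Nat.card_eq_fintype_card, Fintype.card_coe]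
  have h2 : Rᶜ.card = F.card * p := by
    rw [Finset.card_eq_sum_card_fiberwise (t := F) (f := fun x => orbit P x)]
    · rw [Finset.sum_const_nat (m := p)]
      intro O hO
      obtain ⟨x, hx, rfl⟩ := Finset.mem_image.1 hO
      rw [← M.orbit_card (Finset.mem_compl.1 hx), ← Set.ncard_coe_finset]
      congr 1
      ext z
      simp only [Finset.coe_filter, Finset.mem_compl, Set.mem_ofPred_eq]
      constructor
      · rintro ⟨_, hz⟩
        rw [← hz]; exact mem_orbit_self z
      · intro hz
        refine ⟨?_, orbit_eq_iff.2 hz⟩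
        have := M.orbit_sub (Finset.mem_compl.1 hx) hz
        rw [Finset.coe_compl, Set.mem_compl_iff, Finset.mem_coe] at this
        exact this
    · intro x hx
      exact Finset.mem_coe.2 (Finset.mem_image_of_mem _ (Finset.mem_coe.1 hx))
  rw [M.cardR] at h2
  rw [h1]
  exact (Nat.eq_of_mul_eq_mul_right M.pp.pos h2).symm

/-- image of an orbit -/
theorem image_orbit {n : Perm α} (hn : n ∈ NN G P) (x : α) : n '' orbit P x = orbit P (n x) := by
  ext z
  constructor
  · rintro ⟨w, hw, rfl⟩
    exact Mil.orb_map hn hw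
  · intro hz
    refine ⟨n⁻¹ z, ?_, Mil.apply_inv' n z⟩
    have h1 := Mil.orb_map ((NN G P).inv_mem hn) hz
    rwa [Mil.inv_apply'] at h1

/-- the action of `N_G(P)` on the orbits -/
noncomputable def psi (M : Mil G R p k P) : NN G P →* Perm (Orb R P) :=
  MonoidHom.mk' (fun n =>
    { toFun := fun O => ⟨(n : Perm α) '' O.1, by
        obtain ⟨x, hx, h⟩ := O.2
        exact ⟨(n : Perm α) x, M.presRc n.2 hx, by rw [h, image_orbit n.2]⟩⟩
      invFun := fun O => ⟨⇑((n : Perm α)⁻¹) '' O.1, by
        obtain ⟨x, hx, h⟩ := O.2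
        exact ⟨(n : Perm α)⁻¹ x, M.presRc ((NN G P).inv_mem n.2) hx, by rw [h, image_orbit ((NN G P).inv_mem n.2)]⟩⟩
      left_inv := fun O => Subtype.ext (by
        change ⇑((n : Perm α)⁻¹) '' ((n : Perm α) '' O.1) = O.1
        rw [← Set.image_comp]
        have : (⇑((n : Perm α)⁻¹) ∘ ⇑(n : Perm α)) = id := funext fun x => Mil.inv_apply' _ x
        rw [this, Set.image_id])
      right_inv := fun O => Subtype.ext (by
        change (n : Perm α) '' (⇑((n : Perm α)⁻¹) '' O.1) = O.1
        rw [← Set.image_comp]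
        have : (⇑(n : Perm α) ∘ ⇑((n : Perm α)⁻¹)) = id := funext fun x => Mil.apply_inv' _ x
        rw [this, Set.image_id]) })
    (by
      intro a b
      ext O
      apply Subtype.ext
      change (↑(a * b) : Perm α) '' O.1 = (a : Perm α) '' ((b : Perm α) '' O.1)
      rw [← Set.image_comp]
      rfl)

theorem psi_one (M : Mil G R p k P) {n : NN G P} (h : psi M n = 1) : (n : Perm α) ∈ NN0 G R P := by
  refine ⟨n.2, fun x hx => ?_⟩
  have h1 := congrArg (fun f : Perm (Orb R P) => (f ⟨orbit P x, x, hx, rfl⟩).1) h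
  have h2 : (n : Perm α) '' orbit P x = orbit P x := h1
  rw [← h2]
  exact ⟨x, mem_orbit_self x, rfl⟩

/-- restriction to `R` -/
noncomputable def phi (M : Mil G R p k P) : NN G P →* Perm {x // x ∈ R} :=
  MonoidHom.mk' (fun n => (n : Perm α).subtypePerm (fun x => ⟨fun h => by
      by_contra hx
      exact M.presRc n.2 hx h, fun h => M.presR n.2 h⟩)) (by
    intro a b
    ext x
    rfl)

theorem phi_apply (M : Mil G R p k P) (n : NN G P) (x : {x // x ∈ R}) : ((phi M n x : {x // x ∈ R}) : α) = (n : Perm α) x := rfl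

theorem phi_surj (M : Mil G R p k P) : Function.Surjective (phi M) := by
  intro s
  have hs : Perm.ofSubtype s ∈ TR R := fun x hx => Perm.ofSubtype_apply_of_not_mem s hx
  obtain ⟨n, hn, hns⟩ := M.witt' hs
  refine ⟨⟨n, hn⟩, ?_⟩
  ext x
  rw [phi_apply]
  change n x = _
  rw [hns.2 x x.2, Perm.ofSubtype_apply_coe]

/-- the case `r ≥ 5` -/
theorem five (M : Mil G R p k P) (hG : IsPreprimitive G α) (hr : 5 ≤ R.card) (hkr : k < R.card) :
    alternatingGroup α ≤ G := by
  classical
  let N0 : Subgroup (NN G P) := (psi M).ker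
  let C : Subgroup (NN G P) := (CC G R P).subgroupOf (NN G P)
  let D : Subgroup (NN G P) := (DD G R).subgroupOf (NN G P)
  have hcR : Nat.card {x // x ∈ R} = R.card := by rw [Nat.card_eq_fintype_card, Fintype.card_coe]
  have hnor : (N0.map (phi M)).Normal := Subgroup.Normal.map inferInstance _ (phi_surj M)
  have hnt : Nontrivial (N0.map (phi M)) := by
    rw [Subgroup.nontrivial_iff_ne_bot]
    intro hbot
    have h1 : N0 ≤ (phi M).ker := by
      intro n hn
      have : phi M n ∈ N0.map (phi M) := ⟨n, hn, rfl⟩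
      rw [hbot, Subgroup.mem_bot] at this
      exact this
    have h2 : (phi M).ker.index ∣ N0.index := Subgroup.index_dvd_of_le h1
    have h3 : (phi M).ker.index = R.card.factorial := by
      rw [Subgroup.index_ker, MonoidHom.range_eq_top.2 (phi_surj M), Subgroup.card_top, Nat.card_perm, hcR]
    have h4 : N0.index ∣ k.factorial := by
      rw [Subgroup.index_ker]
      refine (Subgroup.card_subgroup_dvd_card _).trans ?_
      rw [Nat.card_perm, M.card_Orb]
    have h5 := Nat.le_of_dvd (Nat.factorial_pos k) (h2.trans h4)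
    rw [h3] at h5
    have h6 := Nat.factorial_lt (n := k) (m := R.card) M.k1
    have h7 := h6.2 hkr
    omega
  have hA : alternatingGroup {x // x ∈ R} ≤ N0.map (phi M) :=
    Perm.alternatingGroup_le_of_normal (by rw [hcR]; exact hr) hnt
  have hAA : alternatingGroup {x // x ∈ R} ≤ ⁅alternatingGroup {x // x ∈ R}, alternatingGroup {x // x ∈ R}⁆ := by
    intro s hs
    have h1 := commutator_alternatingGroup_eq_top (α := {x // x ∈ R}) (by rw [hcR]; exact hr)
    have h2 : (⟨s, hs⟩ : alternatingGroup {x // x ∈ R}) ∈ _root_.commutator (alternatingGroup {x // x ∈ R}) := by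
      rw [h1]; exact mem_top _
    have h3 := Subgroup.mem_map_of_mem (alternatingGroup {x // x ∈ R}).subtype h2
    rw [_root_.commutator, Subgroup.map_commutator] at h3
    have h4 : (⊤ : Subgroup (alternatingGroup {x // x ∈ R})).map (alternatingGroup {x // x ∈ R}).subtype =
        alternatingGroup {x // x ∈ R} := by
      rw [← MonoidHom.range_eq_map, Subgroup.range_subtype]
    rw [h4] at h3
    exact h3
  have hC : ⁅N0, N0⁆ ≤ C := by
    rw [Subgroup.commutator_le]
    intro a ha b hb
    rw [Subgroup.mem_subgroupOf]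
    exact M.comm_CC (psi_one M ha) (psi_one M hb)
  have hD : ⁅C, C⁆ ≤ D := by
    rw [Subgroup.commutator_le]
    intro a ha b hb
    rw [Subgroup.mem_subgroupOf]
    exact M.CC_comm_DD (Subgroup.mem_subgroupOf.1 ha) (Subgroup.mem_subgroupOf.1 hb)
  have hAC : alternatingGroup {x // x ∈ R} ≤ C.map (phi M) := by
    refine hAA.trans ((Subgroup.commutator_mono hA hA).trans ?_)
    rw [← Subgroup.map_commutator]
    exact Subgroup.map_mono hC
  have hAD : alternatingGroup {x // x ∈ R} ≤ D.map (phi M) := by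
    refine hAA.trans ((Subgroup.commutator_mono hAC hAC).trans ?_)
    rw [← Subgroup.map_commutator]
    exact Subgroup.map_mono hD
  obtain ⟨ι, hι⟩ := exists_emb (R := R) (m := 3) (by omega)
  let s : Perm {x // x ∈ R} := swap ⟨ι 0, hι 0⟩ ⟨ι 1, hι 1⟩ * swap ⟨ι 0, hι 0⟩ ⟨ι 2, hι 2⟩
  have hs3 : s.IsThreeCycle := by
    apply Perm.isThreeCycle_swap_mul_swap_same
    · intro h; exact absurd (ι.injective (congrArg Subtype.val h)) (by decide)
    · intro h; exact absurd (ι.injective (congrArg Subtype.val h)) (by decide)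
    · intro h; exact absurd (ι.injective (congrArg Subtype.val h)) (by decide)
  obtain ⟨d, hd, hds⟩ := hAD (Perm.IsThreeCycle.mem_alternatingGroup hs3)
  have hag : Ag R (d : Perm α) (Perm.viaEmbeddingHom ι (swap 0 1 * swap 0 2)) := by
    refine ⟨via_mem hι _, fun x hx => ?_⟩
    have h1 := phi_apply M d ⟨x, hx⟩
    rw [hds] at h1
    rw [← h1, map_mul, via_swap, via_swap]
    have h2 : Perm.ofSubtype s = swap (ι 0) (ι 1) * swap (ι 0) (ι 2) := by
      rw [map_mul, Perm.ofSubtype_swap_eq, Perm.ofSubtype_swap_eq]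
    rw [← h2]
    exact (Perm.ofSubtype_apply_coe s ⟨x, hx⟩).symm
  exact done_three hG ι (hag.eq_of_DD (Subgroup.mem_subgroupOf.1 hd))

end Cfsg.Agent.Lib.Miller
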