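import Mathlib
import Cfsg.Agent.Lib.MillerD

set_option autoImplicit false
set_option linter.unusedSectionVars false

namespace Cfsg.Agent.Lib.Miller

open Equiv MulAction Subgroup
open scoped Pointwise commutatorElement

variable {α : Type*} [Fintype α] [DecidableEq α]
variable {G : Subgroup (Perm α)} {R : Finset α} {p k : ℕ} {P : Subgroup (Perm α)}

theorem not_mem_R_of_orbit (M : Mil G R p k P) {x z : α} (hx : x ∉ R) (hz : z ∈ orbit P x) : z ∉ R := by
  have := M.orbit_sub hx hz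
  rw [Finset.coe_compl, Set.mem_compl_iff, Finset.mem_coe] at this
  exact this

theorem ncard_Rc (M : Mil G R p k P) : ((Rᶜ : Finset α) : Set α).ncard = k * p := by
  rw [Set.ncard_coe_finset, M.cardR]

theorem exists_not_mem (M : Mil G R p k P) {S : Set α} (hS : S.ncard < k * p) : ∃ x, x ∉ R ∧ x ∉ S := by
  by_contra hcon
  push Not at hcon
  have h1 : ((Rᶜ : Finset α) : Set α) ⊆ S := by
    intro x hx
    rw [Finset.coe_compl, Set.mem_compl_iff, Finset.mem_coe] at hx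
    exact hcon x hx
  have h2 := Set.ncard_le_ncard h1
  rw [ncard_Rc M] at h2
  omega

theorem cover (M : Mil G R p k P) {S : Set α} (hS : S ⊆ ((Rᶜ : Finset α) : Set α)) (hc : k * p ≤ S.ncard) {z : α} (hz : z ∉ R) :
    z ∈ S := by
  have h1 : S = ((Rᶜ : Finset α) : Set α) := Set.eq_of_subset_of_ncard_le hS (by rw [ncard_Rc M]; exact hc)
  rw [h1, Finset.coe_compl, Set.mem_compl_iff, Finset.mem_coe]
  exact hz

theorem one (M : Mil G R p 1 P) (hG : IsPreprimitive G α) (hr : 3 ≤ R.card) : alternatingGroup α ≤ G := by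
  obtain ⟨x, hx, -⟩ := exists_not_mem M (S := ∅) (by rw [Set.ncard_empty]; have := M.pp.pos; omega)
  obtain ⟨y, hy, hyx⟩ := M.moved hx
  refine M.cyc hr hG hy (by rintro rfl; exact hyx rfl) hx ?_
  intro z hz hzo
  exact absurd (cover M (M.orbit_sub hx) (by rw [M.orbit_card hx, one_mul]) hz) hzo

theorem union_card (M : Mil G R p k P) {x0 x1 : α} (h0 : x0 ∉ R) (h1 : x1 ∉ R) (h01 : x1 ∉ orbit P x0) :
    (orbit P x0 ∪ orbit P x1).ncard = 2 * p := by
  rw [Set.ncard_union_eq, M.orbit_card h0, M.orbit_card h1]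
  · ring
  · rw [Set.disjoint_left]
    intro z hz hz'
    apply h01
    rw [← orbit_eq_iff.2 hz, orbit_eq_iff.2 hz']
    exact mem_orbit_self x1

theorem union_sub (M : Mil G R p k P) {x0 x1 : α} (h0 : x0 ∉ R) (h1 : x1 ∉ R) :
    (orbit P x0 ∪ orbit P x1) ⊆ ((Rᶜ : Finset α) : Set α) :=
  Set.union_subset (M.orbit_sub h0) (M.orbit_sub h1)

/-- commutators centralize a cyclic `P` -/
theorem cyc_comm {y0 : Perm α} (hy0 : y0 ∈ P) (h : ∀ y ∈ P, ∃ i : ℕ, y = y0 ^ i) {n m : Perm α} (hn : n ∈ NN G P)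
    (hm : m ∈ NN G P) {y : Perm α} (hy : y ∈ P) : n * m * n⁻¹ * m⁻¹ * y = y * (n * m * n⁻¹ * m⁻¹) := by
  have key : ∀ n ∈ NN G P, ∃ a : ℕ, ∀ y ∈ P, n * y * n⁻¹ = y ^ a := by
    intro n hn
    obtain ⟨a, ha⟩ := h _ (Mil.conjP hn hy0)
    refine ⟨a, fun y hy => ?_⟩
    obtain ⟨i, rfl⟩ := h y hy
    rw [← conj_pow, ha, ← pow_mul, ← pow_mul, mul_comm]
  obtain ⟨a, ha⟩ := key n hn
  obtain ⟨b, hb⟩ := key m hm
  have h2 : ∀ y ∈ P, (n * m) * y * (n * m)⁻¹ = (m * n) * y * (m * n)⁻¹ := by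
    intro y hy
    have e1 : (n * m) * y * (n * m)⁻¹ = n * (m * y * m⁻¹) * n⁻¹ := by group
    have e2 : (m * n) * y * (m * n)⁻¹ = m * (n * y * n⁻¹) * m⁻¹ := by group
    rw [e1, e2, hb y hy, ha y hy, ha _ (P.pow_mem hy b), hb _ (P.pow_mem hy a), ← pow_mul, ← pow_mul, mul_comm]
  have h1 := h2 _ (Mil.conjP' ((NN G P).mul_mem hm hn) hy)
  have e1 : m * n * ((m * n)⁻¹ * y * (m * n)) * (m * n)⁻¹ = y := by group
  rw [e1] at h1
  have e2 : n * m * n⁻¹ * m⁻¹ * y = (n * m * ((m * n)⁻¹ * y * (m * n)) * (n * m)⁻¹) * (n * m * n⁻¹ * m⁻¹) := by group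
  rw [e2, h1]

/-- if a point stabilizer in `P` is trivial then `P` is generated by each element moving the point -/
theorem cyclic_of_stab (M : Mil G R p k P) {x : α} (hx : x ∉ R) (h : ∀ y ∈ P, y x = x → y = 1) :
    Nat.card P = p ∧ ∃ y0 ∈ P, y0 x ≠ x ∧ ∀ y ∈ P, ∃ i : ℕ, y = y0 ^ i := by
  have := Fact.mk M.pp
  have h1 : stabilizer P x = ⊥ := by
    rw [eq_bot_iff]
    intro y hy
    rw [Subgroup.mem_bot]
    exact Subtype.ext (h y y.2 hy)
  have h2 := (M.stab_normal hx).2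
  rw [h1, Subgroup.index_bot] at h2
  obtain ⟨y0, hy0, hyx⟩ := M.moved hx
  refine ⟨h2, y0, hy0, hyx, fun y hy => ?_⟩
  have h3 : (⟨y0, hy0⟩ : P) ≠ 1 := by
    intro h
    have : y0 = 1 := congrArg Subtype.val h
    rw [this] at hyx
    exact hyx rfl
  obtain ⟨i, hi⟩ := mem_powers_of_prime_card (p := p) h2 h3 (g' := ⟨y, hy⟩)
  exact ⟨i, (congrArg Subtype.val hi).symm⟩

theorem two (M : Mil G R p 2 P) (hG : IsPreprimitive G α) (hr : 3 ≤ R.card) (hp3 : p = 3 → 4 ≤ R.card)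
    (h5 : 5 ≤ Fintype.card α) : alternatingGroup α ≤ G := by
  by_contra hno
  have hpp := M.pp
  have hpos := M.pp.pos
  obtain ⟨x, hx, -⟩ := exists_not_mem M (S := ∅) (by rw [Set.ncard_empty]; omega)
  have htriv : ∀ y ∈ P, y x = x → y = 1 := by
    intro y hy hyx
    by_contra hy1
    obtain ⟨x', hx', hxo⟩ := exists_not_mem M (S := orbit P x) (by rw [M.orbit_card hx]; omega)
    apply hno
    refine M.cyc hr hG hy hy1 hx' ?_
    intro z hz hzo
    have h1 := cover M (union_sub M hx hx') (by rw [union_card M hx hx' hxo]) hz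
    rcases h1 with h1 | h1
    · obtain ⟨w, rfl⟩ := h1
      exact M.stab_orbit hy w.2 hyx
    · exact absurd h1 hzo
  obtain ⟨-, y0, hy0, -, hgen⟩ := cyclic_of_stab M hx htriv
  have hsq : ∀ c ∈ NN G P, c ^ 2 ∈ NN0 G R P := by
    intro c hc
    have h1 : psi M (⟨c, hc⟩ ^ 2) = 1 := by
      rw [map_pow]
      have h2 : Nat.card (Perm (Orb R P)) = 2 := by rw [Nat.card_perm, M.card_Orb]; rfl
      have h3 := pow_card_eq_one' (x := psi M ⟨c, hc⟩)
      rw [h2] at h3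
      exact h3
    exact psi_one M h1
  have hCC : ∀ n ∈ NN G P, ∀ m ∈ NN G P, (n * m * n⁻¹ * m⁻¹) ^ 2 ∈ CC G R P := by
    intro n hn m hm
    refine ⟨hsq _ ((NN G P).mul_mem ((NN G P).mul_mem ((NN G P).mul_mem hn hm) ((NN G P).inv_mem hn)) ((NN G P).inv_mem hm)), ?_⟩
    apply Subgroup.pow_mem
    rw [Subgroup.mem_centralizer_iff]
    intro y hy
    exact (cyc_comm hy0 hgen hn hm hy).symm
  by_cases hp : p = 3
  · -- double transposition
    obtain ⟨ι, hι⟩ := exists_emb (R := R) (m := 4) (hp3 hp)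
    obtain ⟨n1, hn1, ha1⟩ := M.witt' (via_mem hι (swap 0 1))
    obtain ⟨n2, hn2, ha2⟩ := M.witt' (via_mem hι (swap 1 2))
    obtain ⟨n3, hn3, ha3⟩ := M.witt' (via_mem hι (swap 1 3))
    have hD := M.CC_comm_DD (hCC _ hn2 _ hn1) (hCC _ hn3 _ hn1)
    have hA := ((ha2.comm ha1).pow 2).comm ((ha3.comm ha1).pow 2)
    have hmem := hA.eq_of_DD hD
    apply hno
    simp only [← map_mul, ← map_inv, ← map_pow] at hmem
    exact done_four' hG (fun S hS => M.tr S (by have := hp3 hp; omega)) h5 ι (by decide +kernel) hmem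
  · obtain ⟨ι, hι⟩ := exists_emb (R := R) (m := 3) hr
    obtain ⟨n1, hn1, ha1⟩ := M.witt' (via_mem hι (swap 0 1))
    obtain ⟨n2, hn2, ha2⟩ := M.witt' (via_mem hι (swap 1 2))
    have hD := M.CC_pow_p (hCC _ hn2 _ hn1)
    have hA := ((ha2.comm ha1).pow 2).pow p
    have hmem := hA.eq_of_DD hD
    apply hno
    simp only [← map_mul, ← map_inv, ← map_pow] at hmem
    set ρ : Perm (Fin 3) := (swap 1 2 * swap 0 1 * (swap 1 2)⁻¹ * (swap 0 1)⁻¹) ^ 2 with hρ
    have h3 : ρ ^ 3 = 1 := by rw [hρ]; decide +kernel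
    have hmod : p % 3 = 1 ∨ p % 3 = 2 := by
      have h0 : p % 3 ≠ 0 := by
        intro h0
        have := (Nat.prime_dvd_prime_iff_eq Nat.prime_three hpp).1 (Nat.dvd_of_mod_eq_zero h0)
        exact hp this.symm
      omega
    have hpow : ρ ^ p = ρ ^ (p % 3) := by
      conv_lhs => rw [← Nat.mod_add_div p 3, pow_add, pow_mul, h3, one_pow, mul_one]
    rw [hpow] at hmem
    have key : ρ ^ (p % 3) = swap 0 1 * swap 0 2 ∨ ρ ^ (p % 3) = (swap 0 1 * swap 0 2)⁻¹ := by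
      rcases hmod with h | h
      · rw [h, hρ]; decide +kernel
      · rw [h, hρ]; decide +kernel
    rcases key with h | h
    · rw [h] at hmem
      exact done_three hG ι hmem
    · rw [h, map_inv] at hmem
      exact done_three hG ι (by simpa using G.inv_mem hmem)

end Cfsg.Agent.Lib.Miller
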