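import Mathlib
import Cfsg.Agent.Lib.MillerE

set_option autoImplicit false
set_option linter.unusedSectionVars false

namespace Cfsg.Agent.Lib.Miller

open Equiv MulAction Subgroup
open scoped Pointwise commutatorElement

variable {α : Type*} [Fintype α] [DecidableEq α]
variable {G : Subgroup (Perm α)} {R : Finset α} {p k : ℕ} {P : Subgroup (Perm α)}

theorem gen_mod (M : Mil G R p k P) {x : α} (hx : x ∉ R) {w y : Perm α} (hw : w ∈ P) (hwx : w x ≠ x) (hy : y ∈ P) :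
    ∃ i : ℕ, ((w ^ i)⁻¹ * y) x = x := by
  have := Fact.mk M.pp
  obtain ⟨hnor, hi⟩ := M.stab_normal hx
  have h0 : (QuotientGroup.mk (⟨w, hw⟩ : P) : P ⧸ stabilizer P x) ≠ 1 := by
    intro h
    rw [QuotientGroup.eq_one_iff] at h
    exact hwx h
  obtain ⟨i, hi'⟩ := mem_powers_of_prime_card (p := p) (G := P ⧸ stabilizer P x) hi h0
    (g' := QuotientGroup.mk (⟨y, hy⟩ : P))
  refine ⟨i, ?_⟩
  have h1 : (QuotientGroup.mk ((⟨w, hw⟩ : P) ^ i) : P ⧸ stabilizer P x) = QuotientGroup.mk (⟨y, hy⟩ : P) := by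
    rw [QuotientGroup.mk_pow]; exact hi'
  rw [QuotientGroup.eq] at h1
  exact h1

theorem fix_conj (M : Mil G R p k P) {n y : Perm α} (hn : n ∈ NN0 G R P) (hy : y ∈ P) {x : α} (hx : x ∉ R)
    (h : y x = x) : (n * y * n⁻¹) x = x := by
  obtain ⟨w, hw⟩ := ((NN0 G R P).inv_mem hn).2 x hx
  have hw' : (w : Perm α) x = n⁻¹ x := hw
  have h1 := M.stab_orbit hy w.2 h
  rw [Perm.mul_apply, Perm.mul_apply, ← hw', h1, hw', Mil.apply_inv']

theorem star (M : Mil G R p k P) {x0 x1 x2 : α} (h0 : x0 ∉ R) (h1 : x1 ∉ R) (h2 : x2 ∉ R)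
    (k01 : ∀ u ∈ P, u x0 = x0 → u x1 = x1 → u = 1)
    (k02 : ∀ u ∈ P, u x0 = x0 → u x2 = x2 → u = 1)
    (k12 : ∀ u ∈ P, u x1 = x1 → u x2 = x2 → u = 1)
    {n : Perm α} (hn : n ∈ NN0 G R P) (h : ∀ y ∈ P, (n * y * n⁻¹) x0 = y x0) : n ∈ CC G R P := by
  have f0 : ∀ y ∈ P, (y⁻¹ * (n * y * n⁻¹)) x0 = x0 := by
    intro y hy
    rw [Perm.mul_apply, h y hy, Mil.inv_apply']
  have f1 : ∀ y ∈ P, y x1 = x1 → n * y * n⁻¹ = y := by
    intro y hy hy1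
    have := k01 _ (P.mul_mem (P.inv_mem hy) (Mil.conjP hn.1 hy)) (f0 y hy) (by
      rw [Perm.mul_apply, fix_conj M hn hy h1 hy1, Perm.inv_eq_iff_eq, hy1])
    exact (inv_mul_eq_one.1 this).symm
  have f2 : ∀ y ∈ P, y x2 = x2 → n * y * n⁻¹ = y := by
    intro y hy hy1
    have := k02 _ (P.mul_mem (P.inv_mem hy) (Mil.conjP hn.1 hy)) (f0 y hy) (by
      rw [Perm.mul_apply, fix_conj M hn hy h2 hy1, Perm.inv_eq_iff_eq, hy1])
    exact (inv_mul_eq_one.1 this).symm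
  have main : ∀ y ∈ P, n * y * n⁻¹ = y := by
    intro y hy
    by_cases hw : ∃ w ∈ P, w x2 = x2 ∧ w x1 ≠ x1
    · obtain ⟨w, hw, hw2, hw1⟩ := hw
      obtain ⟨i, hi⟩ := gen_mod M h1 hw hw1 hy
      have e1 := f1 _ (P.mul_mem (P.inv_mem (P.pow_mem hw i)) hy) hi
      have e2 := f2 w hw hw2
      have e3 : n * y * n⁻¹ = (n * w * n⁻¹) ^ i * (n * ((w ^ i)⁻¹ * y) * n⁻¹) := by
        rw [conj_pow]; group
      rw [e3, e1, e2]; group
    · push Not at hw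
      have ht : ∀ y ∈ P, y x2 = x2 → y = 1 := fun y hy h => k12 y hy (hw y hy h) h
      obtain ⟨hc, -⟩ := cyclic_of_stab M h2 ht
      have hs := (M.stab_normal h0).2
      have hone : Nat.card (stabilizer P x0) = 1 := by
        have h3 := (stabilizer P x0).card_mul_index
        rw [hs, hc] at h3
        exact Nat.eq_of_mul_eq_mul_right M.pp.pos (by rw [h3, one_mul])
      have hbot := Subgroup.card_eq_one.1 hone
      have h4 : (⟨y⁻¹ * (n * y * n⁻¹), P.mul_mem (P.inv_mem hy) (Mil.conjP hn.1 hy)⟩ : P) ∈ stabilizer P x0 := f0 y hy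
      rw [hbot, mem_bot] at h4
      exact (inv_mul_eq_one.1 (congrArg Subtype.val h4)).symm
  refine ⟨hn, mem_centralizer_iff.2 fun y hy => ?_⟩
  have h3 := main y hy
  rw [mul_inv_eq_iff_eq_mul] at h3
  exact h3.symm

theorem exists_lam (M : Mil G R p k P) {x0 : α} (h0 : x0 ∉ R) :
    ∃ f : NN0 G R P →* (ZMod p)ˣ, ∀ n, f n = 1 → ∀ y ∈ P, ((n : Perm α) * y * (n : Perm α)⁻¹) x0 = y x0 := by
  classical
  have := Fact.mk M.pp
  obtain ⟨y0, hy0, hy0x⟩ := M.moved h0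
  have hinj : ∀ a b : ℕ, (y0 ^ a) x0 = (y0 ^ b) x0 → (a : ZMod p) = (b : ZMod p) := by
    intro a b hab
    obtain ⟨hnor, hi⟩ := M.stab_normal h0
    set q : P ⧸ stabilizer P x0 := QuotientGroup.mk (⟨y0, hy0⟩ : P) with hq
    have h1 : q ≠ 1 := by
      intro h
      rw [hq, QuotientGroup.eq_one_iff] at h
      exact hy0x h
    have h2 : q ^ p = 1 := by
      have h3 : Nat.card (P ⧸ stabilizer P x0) = p := hi
      have h4 := pow_card_eq_one' (x := q)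
      rwa [h3] at h4
    have h3 : orderOf q = p := orderOf_eq_prime h2 h1
    have h4 : q ^ a = q ^ b := by
      rw [hq, ← QuotientGroup.mk_pow, ← QuotientGroup.mk_pow, QuotientGroup.eq]
      change ((y0 ^ a)⁻¹ * y0 ^ b) x0 = x0
      rw [Perm.mul_apply, ← hab, Mil.inv_apply']
    rw [pow_eq_pow_iff_modEq, h3] at h4
    exact (ZMod.natCast_eq_natCast_iff _ _ _).2 h4
  have hself : x0 ∈ orbit P x0 := mem_orbit_self x0
  choose a ha using fun n : NN0 G R P => M.local_pow n.2 h0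
  let f : NN0 G R P →* ZMod p :=
    { toFun := fun n => (a n : ZMod p)
      map_one' := by
        have h1 := ha 1 y0 hy0 x0 hself
        have h2 : (y0 ^ a 1) x0 = (y0 ^ 1) x0 := by
          rw [← h1]
          change (1 * y0 * 1⁻¹ : Perm α) x0 = _
          rw [one_mul, inv_one, mul_one, pow_one]
        have h3 := hinj _ _ h2
        rw [h3, Nat.cast_one]
      map_mul' := fun n m => by
        have e : (y0 ^ a (n * m)) x0 = (y0 ^ (a n * a m)) x0 := by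
          rw [← ha (n * m) y0 hy0 x0 hself]
          change ((n : Perm α) * (m : Perm α) * y0 * ((n : Perm α) * (m : Perm α))⁻¹) x0 = _
          have e1 : (n : Perm α) * (m : Perm α) * y0 * ((n : Perm α) * (m : Perm α))⁻¹ =
              n * (m * y0 * (m : Perm α)⁻¹) * (n : Perm α)⁻¹ := by group
          rw [e1, ha n _ (Mil.conjP m.2.1 hy0) x0 hself,
            M.pw_local (a n) (P.pow_mem hy0 (a m)) (ha m y0 hy0) x0 hself, ← pow_mul, mul_comm]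
        have h3 := hinj _ _ e
        rw [h3, Nat.cast_mul] }
  refine ⟨f.toHomUnits, fun n hn y hy => ?_⟩
  have h1 : (a n : ZMod p) = ((1 : ℕ) : ZMod p) := by
    have := congrArg Units.val hn
    rw [Nat.cast_one]
    exact this
  rw [ZMod.natCast_eq_natCast_iff] at h1
  have h2 : y ^ a n = y := by
    conv_rhs => rw [← pow_one y]
    rw [pow_eq_pow_iff_modEq]
    exact h1.of_dvd (orderOf_dvd_of_pow_eq_one (M.pow_p hy))
  rw [ha n y hy x0 hself, h2]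

theorem alt3_comm {β : Type*} [Finite β] (h : Nat.card β = 3) (a b c d : Perm β) :
    (a * b * a⁻¹ * b⁻¹) * (c * d * c⁻¹ * d⁻¹) = (c * d * c⁻¹ * d⁻¹) * (a * b * a⁻¹ * b⁻¹) := by
  classical
  have := Fintype.ofFinite β
  have : Nontrivial β := by
    apply Finite.one_lt_card_iff_nontrivial.1
    omega
  have h1 : Nat.card (alternatingGroup β) = 3 := by
    rw [nat_card_alternatingGroup, h]; rfl
  have hm : ∀ x y : Perm β, x * y * x⁻¹ * y⁻¹ ∈ alternatingGroup β := by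
    intro x y
    rw [Perm.mem_alternatingGroup, map_mul, map_mul, map_mul, map_inv, map_inv, mul_comm (Perm.sign x), mul_inv_cancel_right,
      mul_inv_cancel]
  have := Fact.mk Nat.prime_three
  have hc : IsCyclic (alternatingGroup β) := isCyclic_of_prime_card h1
  let cg : CommGroup (alternatingGroup β) := IsCyclic.commGroup
  have := cg.mul_comm ⟨_, hm a b⟩ ⟨_, hm c d⟩
  exact congrArg Subtype.val this

theorem meta_mem (M : Mil G R p 3 P) {a b c d : Perm α} (ha : a ∈ NN G P) (hb : b ∈ NN G P) (hc : c ∈ NN G P)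
    (hd : d ∈ NN G P) :
    (a * b * a⁻¹ * b⁻¹) * (c * d * c⁻¹ * d⁻¹) * (a * b * a⁻¹ * b⁻¹)⁻¹ * (c * d * c⁻¹ * d⁻¹)⁻¹ ∈ NN0 G R P := by
  set a' : NN G P := ⟨a, ha⟩
  set b' : NN G P := ⟨b, hb⟩
  set c' : NN G P := ⟨c, hc⟩
  set d' : NN G P := ⟨d, hd⟩
  have h1 : psi M ((a' * b' * a'⁻¹ * b'⁻¹) * (c' * d' * c'⁻¹ * d'⁻¹) * (a' * b' * a'⁻¹ * b'⁻¹)⁻¹ * (c' * d' * c'⁻¹ * d'⁻¹)⁻¹) = 1 := by
    simp only [map_mul, map_inv]
    rw [alt3_comm M.card_Orb, mul_inv_cancel_right, mul_inv_cancel]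
  exact psi_one M h1

/-- the two double transpositions -/
def V1 : Perm (Fin 4) :=
  (swap 0 1 * swap 1 2 * (swap 0 1)⁻¹ * (swap 1 2)⁻¹) * (swap 0 1 * swap 1 3 * (swap 0 1)⁻¹ * (swap 1 3)⁻¹) *
    (swap 0 1 * swap 1 2 * (swap 0 1)⁻¹ * (swap 1 2)⁻¹)⁻¹ * (swap 0 1 * swap 1 3 * (swap 0 1)⁻¹ * (swap 1 3)⁻¹)⁻¹

def V2 : Perm (Fin 4) :=
  (swap 0 1 * swap 1 2 * (swap 0 1)⁻¹ * (swap 1 2)⁻¹) * (swap 0 1 * swap 0 3 * (swap 0 1)⁻¹ * (swap 0 3)⁻¹) *
    (swap 0 1 * swap 1 2 * (swap 0 1)⁻¹ * (swap 1 2)⁻¹)⁻¹ * (swap 0 1 * swap 0 3 * (swap 0 1)⁻¹ * (swap 0 3)⁻¹)⁻¹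

theorem V_cases : ∀ i j : Fin 2, ¬ (i = 0 ∧ j = 0) →
    ((V2 ^ (i : ℕ))⁻¹ * V1 ^ (j : ℕ) = swap 0 1 * swap 2 3 ∨ (V2 ^ (i : ℕ))⁻¹ * V1 ^ (j : ℕ) = swap 0 2 * swap 1 3 ∨
      (V2 ^ (i : ℕ))⁻¹ * V1 ^ (j : ℕ) = swap 0 3 * swap 1 2) := by
  decide +kernel

theorem V1_sq : V1 ^ 2 = 1 := by decide +kernel
theorem V2_sq : V2 ^ 2 = 1 := by decide +kernel
theorem sq_of : ∀ i j : Fin 2, ((V2 ^ (i : ℕ))⁻¹ * V1 ^ (j : ℕ)) ^ 2 = 1 := by decide +kernel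

theorem pow_mod2 {H : Type*} [Group H] {x : H} (h : x ^ 2 = 1) (n : ℕ) : x ^ n = x ^ (n % 2) := by
  conv_lhs => rw [← Nat.mod_add_div n 2, pow_add, pow_mul, h, one_pow, mul_one]

theorem V_done {u v p : ℕ} (huv : Nat.Coprime u v) (hp : p % 2 = 1) :
    (((V2 ^ u)⁻¹ * V1 ^ v) ^ p = swap 0 1 * swap 2 3 ∨ ((V2 ^ u)⁻¹ * V1 ^ v) ^ p = swap 0 2 * swap 1 3 ∨
      ((V2 ^ u)⁻¹ * V1 ^ v) ^ p = swap 0 3 * swap 1 2) := by
  have h1 : ¬ ((⟨u % 2, Nat.mod_lt _ (by norm_num)⟩ : Fin 2) = 0 ∧ (⟨v % 2, Nat.mod_lt _ (by norm_num)⟩ : Fin 2) = 0) := by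
    rintro ⟨h2, h3⟩
    have h4 : u % 2 = 0 := congrArg Fin.val h2
    have h5 : v % 2 = 0 := congrArg Fin.val h3
    have h6 := Nat.dvd_gcd (Nat.dvd_of_mod_eq_zero h4) (Nat.dvd_of_mod_eq_zero h5)
    rw [huv] at h6
    omega
  have h2 := V_cases _ _ h1
  have h3 := sq_of ⟨u % 2, Nat.mod_lt _ (by norm_num)⟩ ⟨v % 2, Nat.mod_lt _ (by norm_num)⟩
  dsimp only at h2 h3
  rw [← pow_mod2 V1_sq, ← pow_mod2 V2_sq] at h2 h3
  rw [pow_mod2 h3 p, hp, pow_one]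
  exact h2

theorem exists_meta (M : Mil G R p 3 P) {ι : Fin 4 ↪ α} (hι : ∀ i, ι i ∈ R) (a b c d : Perm (Fin 4)) :
    ∃ m ∈ NN0 G R P, Ag R m (Perm.viaEmbeddingHom ι
      ((a * b * a⁻¹ * b⁻¹) * (c * d * c⁻¹ * d⁻¹) * (a * b * a⁻¹ * b⁻¹)⁻¹ * (c * d * c⁻¹ * d⁻¹)⁻¹)) := by
  obtain ⟨n1, hn1, ha1⟩ := M.witt' (via_mem hι a)
  obtain ⟨n2, hn2, ha2⟩ := M.witt' (via_mem hι b)
  obtain ⟨n3, hn3, ha3⟩ := M.witt' (via_mem hι c)
  obtain ⟨n4, hn4, ha4⟩ := M.witt' (via_mem hι d)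
  have hA1 := (ha1.comm ha2).comm (ha3.comm ha4)
  simp only [← map_mul, ← map_inv] at hA1
  exact ⟨_, meta_mem M hn1 hn2 hn3 hn4, hA1⟩

theorem exists_mm (M : Mil G R p 3 P) {ι : Fin 4 ↪ α} (hι : ∀ i, ι i ∈ R) :
    (∃ m ∈ NN0 G R P, Ag R m (Perm.viaEmbeddingHom ι V1)) ∧ ∃ m ∈ NN0 G R P, Ag R m (Perm.viaEmbeddingHom ι V2) :=
  ⟨exists_meta M hι _ _ _ _, exists_meta M hι _ _ _ _⟩

theorem three (M : Mil G R p 3 P) (hG : IsPreprimitive G α) (hr : 4 ≤ R.card) (h5 : 5 ≤ Fintype.card α) :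
    alternatingGroup α ≤ G := by
  classical
  by_contra hno
  have hpp := M.pp
  have hpos := M.pp.pos
  have := Fact.mk hpp
  obtain ⟨x0, h0, -⟩ := exists_not_mem M (S := ∅) (by rw [Set.ncard_empty]; omega)
  obtain ⟨x1, h1, h01⟩ := exists_not_mem M (S := orbit P x0) (by rw [M.orbit_card h0]; omega)
  obtain ⟨x2, h2, h012⟩ := exists_not_mem M (S := orbit P x0 ∪ orbit P x1) (by rw [union_card M h0 h1 h01]; omega)
  have h02 : x2 ∉ orbit P x0 := fun h => h012 (Or.inl h)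
  have h12 : x2 ∉ orbit P x1 := fun h => h012 (Or.inr h)
  have hcov : ∀ z, z ∉ R → z ∈ orbit P x0 ∪ orbit P x1 ∪ orbit P x2 := by
    intro z hz
    refine cover M (Set.union_subset (union_sub M h0 h1) (M.orbit_sub h2)) ?_ hz
    rw [Set.ncard_union_eq, union_card M h0 h1 h01, M.orbit_card h2]
    · omega
    · rw [Set.disjoint_left]
      intro z hz hz'
      rcases hz with hz | hz
      · apply h02
        rw [← orbit_eq_iff.2 hz, orbit_eq_iff.2 hz']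
        exact mem_orbit_self x2
      · apply h12
        rw [← orbit_eq_iff.2 hz, orbit_eq_iff.2 hz']
        exact mem_orbit_self x2
  have ptw : ∀ u ∈ P, ∀ x, u x = x → ∀ z ∈ orbit P x, u z = z := by
    rintro u hu x hux _ ⟨w, rfl⟩
    exact M.stab_orbit hu w.2 hux
  have k01 : ∀ u ∈ P, u x0 = x0 → u x1 = x1 → u = 1 := by
    intro u hu e0 e1
    by_contra hu1
    exact hno (M.cyc (by omega) hG hu hu1 h2 (fun z hz hzo => by
      rcases hcov z hz with (h | h) | h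
      · exact ptw u hu x0 e0 z h
      · exact ptw u hu x1 e1 z h
      · exact absurd h hzo))
  have k02 : ∀ u ∈ P, u x0 = x0 → u x2 = x2 → u = 1 := by
    intro u hu e0 e1
    by_contra hu1
    exact hno (M.cyc (by omega) hG hu hu1 h1 (fun z hz hzo => by
      rcases hcov z hz with (h | h) | h
      · exact ptw u hu x0 e0 z h
      · exact absurd h hzo
      · exact ptw u hu x2 e1 z h))
  have k12 : ∀ u ∈ P, u x1 = x1 → u x2 = x2 → u = 1 := by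
    intro u hu e0 e1
    by_contra hu1
    exact hno (M.cyc (by omega) hG hu hu1 h0 (fun z hz hzo => by
      rcases hcov z hz with (h | h) | h
      · exact absurd h hzo
      · exact ptw u hu x1 e0 z h
      · exact ptw u hu x2 e1 z h))
  obtain ⟨f, hf⟩ := exists_lam M h0
  obtain ⟨ι, hι⟩ := exists_emb (R := R) (m := 4) hr
  obtain ⟨⟨m1, hm1, hA1⟩, ⟨m2, hm2, hA2⟩⟩ := exists_mm M hι
  obtain ⟨g, hg⟩ := IsCyclic.exists_monoid_generator (α := (ZMod p)ˣ)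
  obtain ⟨e1, he1⟩ := hg (f ⟨m1, hm1⟩)
  obtain ⟨e2, he2⟩ := hg (f ⟨m2, hm2⟩)
  obtain ⟨u, v, huv, hu, hv⟩ := Nat.exists_coprime e1 e2
  have he1' : f ⟨m1, hm1⟩ = g ^ e1 := he1.symm
  have he2' : f ⟨m2, hm2⟩ = g ^ e2 := he2.symm
  have hfc : f ((⟨m2, hm2⟩ ^ u)⁻¹ * ⟨m1, hm1⟩ ^ v) = 1 := by
    rw [map_mul, map_inv, map_pow, map_pow, he1', he2', ← pow_mul, ← pow_mul, inv_mul_eq_one]
    congr 1
    generalize e1.gcd e2 = w at hu hv
    rw [hu, hv]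
    ring
  have hc : (m2 ^ u)⁻¹ * m1 ^ v ∈ CC G R P :=
    star M h0 h1 h2 k01 k02 k12 (((⟨m2, hm2⟩ : NN0 G R P) ^ u)⁻¹ * ⟨m1, hm1⟩ ^ v).2 (hf _ hfc)
  have hD := M.CC_pow_p hc
  have hA := (((hA2.pow u).inv).mul (hA1.pow v)).pow p
  have hmem := hA.eq_of_DD hD
  simp only [← map_mul, ← map_inv, ← map_pow] at hmem
  apply hno
  refine done_four' hG (fun S hS => M.tr S (by omega)) h5 ι (V_done huv ?_) hmem
  have h3 := M.kp
  rcases hpp.eq_two_or_odd with h | h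
  · omega
  · exact h

end Cfsg.Agent.Lib.Miller
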