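import Mathlib
import Cfsg.Agent.Lib.MillerF

set_option autoImplicit false
set_option linter.unusedSectionVars false

namespace Cfsg.Agent.Lib.Miller

open Equiv MulAction Subgroup
open scoped Pointwise commutatorElement

theorem final {α : Type*} [Fintype α] [DecidableEq α] (G : Subgroup (Equiv.Perm α)) {k p r : ℕ} (hp : p.Prime)
    (hn : Fintype.card α = k * p + r) (hk : 1 ≤ k) (hpk : k < p) (hrk : k < r) (hex : ¬ (k = 1 ∧ r = 2))
    (hG : MulAction.IsMultiplyPretransitive G α (r + 1)) : alternatingGroup α ≤ G := by
  have hp2 := hp.two_le
  have hkp : p ≤ k * p := Nat.le_mul_of_pos_left p hk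
  have hnn : Nat.card α = k * p + r := by rw [Nat.card_eq_fintype_card, hn]
  by_cases h2 : p = 2
  · have hk1 : k = 1 := by omega
    apply IsMultiplyPretransitive.alternatingGroup_le
    have e : Nat.card α - 2 = r := by rw [hnn, hk1, h2]; omega
    rw [e]
    exact isMultiplyPretransitive_of_le (Nat.le_succ r) (by rw [hnn]; omega)
  have hprim : IsPreprimitive G α := by
    apply isPreprimitive_of_is_two_pretransitive
    exact isMultiplyPretransitive_of_le (n := r + 1) (by omega) (by rw [hnn]; omega)
  obtain ⟨R, -, hR⟩ := Finset.exists_subset_card_eq (s := (Finset.univ : Finset α)) (n := r) (by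
    rw [Finset.card_univ, hn]; omega)
  have := Fact.mk hp
  let H := Hf G R
  let S : Sylow p H := default
  let P : Subgroup (Perm α) := (S : Subgroup H).map H.subtype
  have M : Mil G R p k P :=
    { pp := hp
      k1 := hk
      kp := hpk
      cardR := by rw [Finset.card_compl, hn, hR]; omega
      tr := fun T hT φ hφ => exists_map hG (by omega) T (by omega) φ hφ
      PH := Subgroup.map_subtype_le _
      PG := S.isPGroup'.map _
      idx := by
        have h1 : P.subgroupOf H = (S : Subgroup H) := Subgroup.comap_map_eq_self_of_injective H.subtype_injective _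
        change ¬ p ∣ (P.subgroupOf H).index
        rw [h1]
        exact S.not_dvd_index }
  by_cases hr5 : 5 ≤ r
  · exact five M hprim (by omega) (by omega)
  have h5 : 5 ≤ Fintype.card α := by omega
  have hk4 : k < 4 := by omega
  interval_cases k
  · exact one M hprim (by omega)
  · by_cases h33 : p = 3 ∧ r = 3
    · obtain ⟨rfl, rfl⟩ := h33
      exact nine hprim hG (by omega)
    · exact two M hprim (by omega) (by omega) h5
  · exact three M hprim (by omega) h5

end Cfsg.Agent.Lib.Miller
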