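import Mathlib.GroupTheory.GroupAction.Jordan
import Mathlib.GroupTheory.SpecificGroups.Alternating
import Mathlib.GroupTheory.Sylow
import Mathlib.Tactic
import Cfsg.Agent.Lib.JordanCycle

/-!
Minimal degree of multiply transitive groups (helper12).
-/

set_option autoImplicit false

namespace Cfsg.Agent.Lib.MinDegree

open MulAction

variable {α : Type*} [Fintype α] [DecidableEq α]

theorem exists_T (g : Equiv.Perm α) (j : ℕ) (hj : j ≤ g.support.card) :
    ∃ T ⊆ g.support, T.card = j ∧ (T.filter (fun x => g x ∉ T)).card ≤ 1 := by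
  induction j with
  | zero => exact ⟨∅, by simp, by simp, by simp⟩
  | succ j ih =>
    obtain ⟨T, hTS, hTj, hb⟩ := ih (by omega)
    rcases Finset.eq_empty_or_nonempty (T.filter (fun x => g x ∉ T)) with he | ⟨u, hu⟩
    · obtain ⟨w, hwS, hwT⟩ := Finset.exists_mem_notMem_of_card_lt_card
        (by omega : T.card < g.support.card)
      refine ⟨insert w T, Finset.insert_subset hwS hTS, by
        rw [Finset.card_insert_of_notMem hwT, hTj], ?_⟩
      have hsub : (insert w T).filter (fun x => g x ∉ insert w T) ⊆ {w} := by
        intro x hx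
        rw [Finset.mem_filter, Finset.mem_insert] at hx
        rw [Finset.mem_singleton]
        by_contra hne
        have hxT : x ∈ T := hx.1.resolve_left hne
        have h1 : x ∈ T.filter (fun x => g x ∉ T) := by
          rw [Finset.mem_filter]
          exact ⟨hxT, fun h => hx.2 (Finset.mem_insert_of_mem h)⟩
        rw [he] at h1
        exact absurd h1 (Finset.notMem_empty _)
      exact (Finset.card_le_card hsub).trans (Finset.card_singleton w).le
    · have huT := Finset.mem_filter.mp hu
      refine ⟨insert (g u) T, Finset.insert_subset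
        (Equiv.Perm.apply_mem_support.mpr (hTS huT.1)) hTS, by
        rw [Finset.card_insert_of_notMem huT.2, hTj], ?_⟩
      have hsub : (insert (g u) T).filter (fun x => g x ∉ insert (g u) T) ⊆ {g u} := by
        intro x hx
        rw [Finset.mem_filter, Finset.mem_insert] at hx
        rw [Finset.mem_singleton]
        by_contra hne
        have hxT : x ∈ T := hx.1.resolve_left hne
        have h1 : x ∈ T.filter (fun x => g x ∉ T) := by
          rw [Finset.mem_filter]
          exact ⟨hxT, fun h => hx.2 (Finset.mem_insert_of_mem h)⟩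
        have h2 : x = u := Finset.card_le_one.mp hb x h1 u hu
        exact hx.2 (by rw [h2]; exact Finset.mem_insert_self _ _)
      exact (Finset.card_le_card hsub).trans (Finset.card_singleton _).le

theorem prime_dvd_card {g : Equiv.Perm α} {p : ℕ} (hp : p.Prime) (hord : orderOf g = p)
    {T : Finset α} (hT : T ⊆ g.support) (hinv : ∀ x ∈ T, g x ∈ T) : p ∣ T.card := by
  have := Fact.mk hp
  have himg : T.image g = T := by
    apply Finset.eq_of_subset_of_card_le
    · intro y hy
      obtain ⟨z, hz, rfl⟩ := Finset.mem_image.mp hy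
      exact hinv z hz
    · rw [Finset.card_image_of_injective _ g.injective]
  have hinv' : ∀ x ∈ T, g⁻¹ x ∈ T := by
    intro x hx
    rw [← himg, Finset.mem_image] at hx
    obtain ⟨z, hz, rfl⟩ := hx
    have : g⁻¹ (g z) = z := Equiv.symm_apply_apply g z
    rw [this]; exact hz
  have hz : ∀ (i : ℤ) (x : α), x ∈ T → (g ^ i) x ∈ T := by
    intro i
    induction i with
    | zero => intro x hx; exact hx
    | succ i ih =>
      intro x hx
      rw [zpow_add_one, Equiv.Perm.mul_apply]
      exact ih _ (hinv x hx)
    | pred i ih =>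
      intro x hx
      rw [zpow_sub_one, Equiv.Perm.mul_apply]
      exact ih _ (hinv' x hx)
  let X : SubMulAction (Subgroup.zpowers g) α :=
    { carrier := (T : Set α)
      smul_mem' := by
        rintro ⟨k, hk⟩ x hx
        obtain ⟨i, rfl⟩ := Subgroup.mem_zpowers_iff.mp hk
        exact hz i x hx }
  have hXcard : Nat.card X = T.card := by
    rw [show Nat.card X = (T : Set α).ncard from Nat.card_coe_set_eq _, Set.ncard_coe_finset]
  have hpz : IsPGroup p (Subgroup.zpowers g) := by
    apply IsPGroup.of_card (n := 1)
    rw [Nat.card_zpowers, hord, pow_one]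
  by_contra hcon
  rw [← hXcard] at hcon
  obtain ⟨c, hc⟩ := hpz.nonempty_fixed_point_of_prime_not_dvd_card X hcon
  have h1 : g (c : α) = c := congrArg Subtype.val (hc ⟨g, Subgroup.mem_zpowers g⟩)
  exact (Equiv.Perm.mem_support.mp (hT c.2)) h1

theorem comm_ne_one {g h : Equiv.Perm α} {u v : α} (hu' : h (g⁻¹ u) = g⁻¹ u) (hu : h u = v)
    (huv : v ≠ u) : g⁻¹ * (h * g * h⁻¹) ≠ 1 := by
  intro hc
  have h1 : h * g = g * h := by
    have : h * g * h⁻¹ = g := by
      have := congrArg (fun t => g * t) hc
      simpa [mul_assoc] using this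
    calc h * g = h * g * h⁻¹ * h := by group
      _ = g * h := by rw [this]
  have h2 := congrArg (fun t : Equiv.Perm α => t (g⁻¹ u)) h1
  simp only [Equiv.Perm.mul_apply] at h2
  have h3 : g (g⁻¹ u) = u := Equiv.apply_symm_apply g u
  rw [hu', h3, hu] at h2
  exact huv h2

theorem comm_support {g h : Equiv.Perm α} {T : Finset α} (hT : ∀ x ∈ T, h x = x) :
    (g⁻¹ * (h * g * h⁻¹)).support ⊆
      (g.support ∪ g.support.image h) \ (T.filter (fun x => g x ∈ T)) := by
  intro x hx
  rw [Equiv.Perm.mem_support] at hx
  rw [Finset.mem_sdiff, Finset.mem_union]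
  constructor
  · by_contra hcon
    push Not at hcon
    apply hx
    have h1 : g (h⁻¹ x) = h⁻¹ x := by
      apply Equiv.Perm.notMem_support.mp
      intro h2
      apply hcon.2
      rw [Finset.mem_image]
      exact ⟨h⁻¹ x, h2, Equiv.apply_symm_apply h x⟩
    have h2 : g⁻¹ x = x := by
      rw [Equiv.Perm.inv_eq_iff_eq]
      exact (Equiv.Perm.notMem_support.mp hcon.1).symm
    simp only [Equiv.Perm.mul_apply]
    rw [h1, show h (h⁻¹ x) = x from Equiv.apply_symm_apply h x, h2]
  · intro h1
    rw [Finset.mem_filter] at h1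
    apply hx
    simp only [Equiv.Perm.mul_apply]
    have h2 : h⁻¹ x = x := by rw [Equiv.Perm.inv_eq_iff_eq, hT x h1.1]
    rw [h2, hT _ h1.2]
    exact Equiv.symm_apply_apply g x

theorem exists_small {G : Subgroup (Equiv.Perm α)} {k : ℕ} (hk : 3 ≤ k)
    (hkn : k ≤ Fintype.card α) (hG : IsMultiplyPretransitive G α k) {g : Equiv.Perm α}
    (hg : g ∈ G) (hg1 : g ≠ 1) (hsupp : g.support.card < 2 * k - 2) :
    ∃ h ∈ G, h ≠ 1 ∧ h.support.card ≤ 3 := by
  classical
  -- minimal g
  have hmin : ∃ g ∈ G, g ≠ 1 ∧ g.support.card < 2 * k - 2 ∧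
      ∀ h ∈ G, h ≠ 1 → g.support.card ≤ h.support.card := by
    have hex : ∃ m : ℕ, ∃ g ∈ G, g ≠ 1 ∧ g.support.card = m := ⟨_, g, hg, hg1, rfl⟩
    obtain ⟨g', hg', hg1', hm⟩ := Nat.find_spec hex
    refine ⟨g', hg', hg1', ?_, ?_⟩
    · rw [hm]
      exact lt_of_le_of_lt (Nat.find_min' hex ⟨g, hg, hg1, rfl⟩) hsupp
    · intro h hh hh1
      rw [hm]
      exact Nat.find_min' hex ⟨h, hh, hh1, rfl⟩
  clear hsupp hg1 hg g
  obtain ⟨g0, hg0, hg01, hs0, hmin0⟩ := hmin
  -- prime order
  obtain ⟨p, hp, hpd⟩ := Nat.exists_prime_and_dvd (n := orderOf g0) (by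
    rw [Ne, orderOf_eq_one_iff]; exact hg01)
  set g := g0 ^ (orderOf g0 / p) with hgdef
  have hord : orderOf g = p := orderOf_pow_orderOf_div (orderOf_pos g0).ne' hpd
  have hg : g ∈ G := G.pow_mem hg0 _
  have hg1 : g ≠ 1 := by
    intro h; rw [h, orderOf_one] at hord; exact hp.one_lt.ne hord
  have hsupp_le : g.support.card ≤ g0.support.card :=
    Finset.card_le_card (Equiv.Perm.support_pow_le g0 _)
  have hs : g.support.card < 2 * k - 2 := lt_of_le_of_lt hsupp_le hs0
  have hmin : ∀ h ∈ G, h ≠ 1 → g.support.card ≤ h.support.card := fun h hh hh1 =>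
    hsupp_le.trans (hmin0 h hh hh1)
  clear_value g
  clear hmin0 hs0 hsupp_le
  by_cases h3 : g.support.card ≤ 3
  · exact ⟨g, hg, hg1, h3⟩
  rcases Nat.lt_or_ge k g.support.card with hks | hks
  · -- s ≥ k + 1
    exfalso
    have key : ∀ T : Finset α, T ⊆ g.support → T.card = k - 1 →
        (T.filter (fun x => g x ∉ T)).Nonempty →
        g.support.card ≤ 2 * g.support.card - 2 * k + 1 + (T.filter (fun x => g x ∉ T)).card := by
      intro T hTS hTk ⟨u', hu'⟩
      rw [Finset.mem_filter] at hu'
      set u := g u' with hu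
      have huS : u ∈ g.support := Equiv.Perm.apply_mem_support.mpr (hTS hu'.1)
      obtain ⟨v, hvS, hvT⟩ := Finset.exists_mem_notMem_of_card_lt_card
        (s := insert u T) (t := g.support) (by
          rw [Finset.card_insert_of_notMem hu'.2, hTk]; omega)
      have hvu : v ≠ u := fun h => hvT (h ▸ Finset.mem_insert_self _ _)
      have hvT' : v ∉ T := fun h => hvT (Finset.mem_insert_of_mem h)
      obtain ⟨h, hh, hhτ⟩ := JordanCycle.induce (C := insert u T) (m := k) (by
        rw [Finset.card_insert_of_notMem hu'.2, hTk]; omega) hG (Equiv.swap u v)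
      have hhT : ∀ x ∈ T, h x = x := by
        intro x hx
        rw [hhτ x (Finset.mem_insert_of_mem hx), Equiv.swap_apply_of_ne_of_ne]
        · rintro rfl; exact hu'.2 hx
        · rintro rfl; exact hvT' hx
      have hhu : h u = v := by
        rw [hhτ u (Finset.mem_insert_self _ _), Equiv.swap_apply_left]
      have hu'' : g⁻¹ u = u' := Equiv.symm_apply_apply g u'
      have hc1 : g⁻¹ * (h * g * h⁻¹) ≠ 1 := comm_ne_one (by rw [hu'']; exact hhT _ hu'.1) hhu hvu
      have hcG : g⁻¹ * (h * g * h⁻¹) ∈ G :=
        G.mul_mem (G.inv_mem hg) (G.mul_mem (G.mul_mem hh hg) (G.inv_mem hh))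
      have h4 := hmin _ hcG hc1
      have h5 := Finset.card_le_card (comm_support (g := g) hhT)
      have hFsub : T.filter (fun x => g x ∈ T) ⊆ g.support ∪ g.support.image h :=
        fun x hx => Finset.mem_union_left _ (hTS (Finset.mem_filter.mp hx).1)
      rw [Finset.card_sdiff_of_subset hFsub] at h5
      have h6 := Finset.card_union_add_card_inter g.support (g.support.image h)
      rw [Finset.card_image_of_injective _ h.injective] at h6
      have h7 : k ≤ (g.support ∩ g.support.image h).card := by
        have : insert v T ⊆ g.support ∩ g.support.image h := by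
          intro x hx
          rw [Finset.mem_inter, Finset.mem_image]
          rcases Finset.mem_insert.mp hx with rfl | hx
          · exact ⟨hvS, u, huS, hhu⟩
          · exact ⟨hTS hx, x, hTS hx, hhT x hx⟩
        calc k = (insert v T).card := by rw [Finset.card_insert_of_notMem hvT', hTk]; omega
          _ ≤ _ := Finset.card_le_card this
      have h8 := Finset.card_filter_add_card_filter_not (s := T) (fun x => g x ∈ T)
      omega
    obtain ⟨T, hTS, hTk, hb⟩ := exists_T g (k - 1) (by omega)
    rcases Finset.eq_empty_or_nonempty (T.filter (fun x => g x ∉ T)) with he | hne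
    · -- T invariant
      have hinv : ∀ x ∈ T, g x ∈ T := by
        intro x hx
        by_contra hcon
        have : x ∈ T.filter (fun x => g x ∉ T) := Finset.mem_filter.mpr ⟨hx, hcon⟩
        rw [he] at this
        exact absurd this (Finset.notMem_empty _)
      have hd1 : p ∣ T.card := prime_dvd_card hp hord hTS hinv
      have hd2 : p ∣ g.support.card :=
        prime_dvd_card hp hord (Finset.Subset.refl _) (fun x hx => Equiv.Perm.apply_mem_support.mpr hx)
      have hs' : g.support.card < 2 * k - 3 := by
        by_contra hcon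
        have e1 : g.support.card + 1 = 2 * T.card := by omega
        have e2 : p ∣ 1 := by
          rw [← Nat.dvd_add_right hd2, e1]
          exact Dvd.dvd.mul_left hd1 2
        exact hp.one_lt.ne' (Nat.dvd_one.mp e2)
      have hTne : T.Nonempty := by rw [← Finset.card_pos]; omega
      obtain ⟨w, hw⟩ := hTne
      obtain ⟨w', hw'S, hw'T⟩ := Finset.exists_mem_notMem_of_card_lt_card
        (s := T) (t := g.support) (by omega)
      have hww' : w ≠ w' := by rintro rfl; exact hw'T hw
      have hgw' : g w' ∉ T := by
        intro h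
        apply hw'T
        have himg : T.image g = T := by
          apply Finset.eq_of_subset_of_card_le
          · intro y hy
            obtain ⟨z, hz, rfl⟩ := Finset.mem_image.mp hy
            exact hinv z hz
          · rw [Finset.card_image_of_injective _ g.injective]
        rw [← himg, Finset.mem_image] at h
        obtain ⟨z, hz, hz'⟩ := h
        rw [← g.injective hz']; exact hz
      have h9 := key (insert w' (T.erase w)) (by
          apply Finset.insert_subset hw'S
          exact (Finset.erase_subset _ _).trans hTS) (by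
          rw [Finset.card_insert_of_notMem (fun h => hw'T (Finset.mem_of_mem_erase h)),
            Finset.card_erase_of_mem hw]; omega) ⟨w', by
          rw [Finset.mem_filter]
          refine ⟨Finset.mem_insert_self _ _, ?_⟩
          rw [Finset.mem_insert]
          rintro (h | h)
          · exact (Equiv.Perm.mem_support.mp hw'S) h
          · exact hgw' (Finset.mem_of_mem_erase h)⟩
      have h10 : ((insert w' (T.erase w)).filter (fun x => g x ∉ insert w' (T.erase w))).card ≤ 2 := by
        have : (insert w' (T.erase w)).filter (fun x => g x ∉ insert w' (T.erase w)) ⊆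
            {w', g⁻¹ w} := by
          intro x hx
          rw [Finset.mem_filter, Finset.mem_insert] at hx
          rw [Finset.mem_insert, Finset.mem_singleton]
          rcases hx.1 with h | h
          · exact Or.inl h
          · right
            have hxT := Finset.mem_of_mem_erase h
            have h11 := hinv x hxT
            by_contra hcon
            apply hx.2
            apply Finset.mem_insert_of_mem
            rw [Finset.mem_erase]
            refine ⟨fun h => hcon ?_, h11⟩
            rw [Equiv.Perm.eq_inv_iff_eq]; exact h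
        exact (Finset.card_le_card this).trans Finset.card_le_two
      omega
    · have := key T hTS hTk hne
      omega
  · -- s ≤ k
    obtain ⟨C, hSC, _, hCk⟩ := Finset.exists_subsuperset_card_eq (Finset.subset_univ g.support) hks
      (by rw [Finset.card_univ]; exact hkn)
    obtain ⟨u, hu⟩ : g.support.Nonempty := by rw [← Finset.card_pos]; omega
    have hu'S : g⁻¹ u ∈ g.support := by
      rw [← Equiv.Perm.apply_mem_support]
      rw [show g (g⁻¹ u) = u from Equiv.apply_symm_apply g u]; exact hu
    have huu' : g⁻¹ u ≠ u := by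
      intro h
      rw [Equiv.Perm.inv_eq_iff_eq] at h
      exact (Equiv.Perm.mem_support.mp hu) h.symm
    by_cases hn : ∃ v, v ∉ g.support
    · obtain ⟨v, hv⟩ := hn
      have hvu : v ≠ u := by rintro rfl; exact hv hu
      obtain ⟨h, hh, hhτ⟩ := JordanCycle.induce hCk hG (Equiv.swap u v)
      have hhT : ∀ x ∈ g.support.erase u, h x = x := by
        intro x hx
        rw [Finset.mem_erase] at hx
        rw [hhτ x (hSC hx.2), Equiv.swap_apply_of_ne_of_ne hx.1]
        rintro rfl; exact hv hx.2
      have hhu : h u = v := by rw [hhτ u (hSC hu), Equiv.swap_apply_left]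
      have hc1 : g⁻¹ * (h * g * h⁻¹) ≠ 1 :=
        comm_ne_one (hhT _ (Finset.mem_erase.mpr ⟨huu', hu'S⟩)) hhu hvu
      have hcG : g⁻¹ * (h * g * h⁻¹) ∈ G :=
        G.mul_mem (G.inv_mem hg) (G.mul_mem (G.mul_mem hh hg) (G.inv_mem hh))
      refine ⟨_, hcG, hc1, ?_⟩
      have hsub : (g⁻¹ * (h * g * h⁻¹)).support ⊆ {u, v, g⁻¹ u} := by
        refine (comm_support (g := g) hhT).trans ?_
        intro x hx
        rw [Finset.mem_sdiff, Finset.mem_union, Finset.mem_image, Finset.mem_filter] at hx
        rw [Finset.mem_insert, Finset.mem_insert, Finset.mem_singleton]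
        have hx1 : x ∈ g.support ∨ x = v := by
          rcases hx.1 with h1 | ⟨z, hz, rfl⟩
          · exact Or.inl h1
          · by_cases hzu : z = u
            · right; rw [hzu, hhu]
            · left; rw [hhT z (Finset.mem_erase.mpr ⟨hzu, hz⟩)]; exact hz
        rcases hx1 with hx1 | hx1
        · by_contra hcon
          push Not at hcon
          apply hx.2
          refine ⟨Finset.mem_erase.mpr ⟨hcon.1, hx1⟩, Finset.mem_erase.mpr
            ⟨fun h => hcon.2.2 ?_, Equiv.Perm.apply_mem_support.mpr hx1⟩⟩
          rw [Equiv.Perm.eq_inv_iff_eq]; exact h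
        · exact Or.inr (Or.inl hx1)
      exact (Finset.card_le_card hsub).trans Finset.card_le_three
    · push Not at hn
      have hCuniv : ∀ x, x ∈ C := fun x => hSC (hn x)
      obtain ⟨h, hh, hhτ⟩ := JordanCycle.induce hCk hG (Equiv.swap u (g⁻¹ u))
      have hheq : h = Equiv.swap u (g⁻¹ u) := by
        ext x; exact hhτ x (hCuniv x)
      refine ⟨h, hh, ?_, ?_⟩
      · rw [hheq]
        intro hc
        exact huu' ((Equiv.swap_eq_one_iff.mp hc).symm)
      · rw [hheq, Equiv.Perm.card_support_swap huu'.symm]
        omega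

end Cfsg.Agent.Lib.MinDegree
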