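import Mathlib
import Cfsg.Agent.Lib.MinIdxAct

/-!
Finite `SL_n(q)`-sets of size less than `(q^n - 1)/(q - 1)`: transvection subgroups act semiregularly or trivially.
-/
set_option autoImplicit false

namespace Cfsg.Agent.Lib.MinIdxCount

open Matrix MinIdxTv MinIdxFour MinIdxAct

section count

variable {F : Type*} [Field F] [Fintype F] {n : ℕ}

theorem two_le_card : 2 ≤ Fintype.card F := Fintype.one_lt_card

theorem exists_psi : ∃ ψ : AddChar F ℂ, ψ ≠ 0 := by
  obtain ⟨ψ, hψ⟩ := (AddChar.exists_apply_ne_zero (α := F) (a := 1)).mpr one_ne_zero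
  exact ⟨ψ, AddChar.ne_zero_iff.mpr ⟨1, hψ⟩⟩

theorem exists_perp_nonspan (ψ : AddChar F ℂ) (hψ : ψ ≠ 0) (hn : 1 ≤ n) {c : Fin n → F} (hc : c ≠ 0)
    {B : AddSubgroup (Fin n → F)} (h : Nat.card B < Fintype.card F ^ (n - 1)) :
    ∃ v, v ∉ Submodule.span F {c} ∧ v ∈ perp ψ B := by
  classical
  by_contra hcon
  push Not at hcon
  have h1 : (perp ψ B).card ≤ Fintype.card F := by
    rw [← card_span_singleton hc, Nat.card_eq_fintype_card, Fintype.card_subtype]
    apply Finset.card_le_card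
    intro v hv
    rw [Finset.mem_filter]
    refine ⟨Finset.mem_univ _, ?_⟩
    by_contra h2
    exact hcon v h2 hv
  have h2 := card_perp ψ hψ B
  have h3 : (perp ψ B).card * Nat.card B < Fintype.card F * Fintype.card F ^ (n - 1) :=
    lt_of_le_of_lt (Nat.mul_le_mul_right _ h1) (Nat.mul_lt_mul_of_pos_left h Fintype.card_pos)
  rw [h2, ← pow_succ', Nat.sub_add_cancel hn] at h3
  exact lt_irrefl _ h3

variable {X : Type*} [Fintype X] [MulAction (Matrix.SpecialLinearGroup (Fin n) F) X]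

variable (X) in
theorem sum_split (ψ : AddChar F ℂ) (hψ : ψ ≠ 0) (hn : 3 ≤ n) {c v : Fin n → F} (hc : c ≠ 0) (hv : v ∉ Submodule.span F {c}) :
    Fintype.card X * Fintype.card F ^ n = Fintype.card F * (∑ x : X, Nat.card (Bs c x))
      + (Fintype.card F ^ n - Fintype.card F) * Mf X ψ c v := by
  classical
  rw [← sum_Mf X ψ hψ c, ← Finset.sum_filter_add_sum_filter_not Finset.univ (fun w => w ∈ Submodule.span F {c})]
  have hcard : (Finset.univ.filter (fun w : Fin n → F => w ∈ Submodule.span F {c})).card = Fintype.card F := by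
    rw [← Fintype.card_subtype, ← Nat.card_eq_fintype_card]
    exact card_span_singleton hc
  have hcard2 : (Finset.univ.filter (fun w : Fin n → F => ¬ w ∈ Submodule.span F {c})).card = Fintype.card F ^ n - Fintype.card F := by
    have := Finset.card_filter_add_card_filter_not (s := (Finset.univ : Finset (Fin n → F))) (fun w : Fin n → F => w ∈ Submodule.span F {c})
    rw [hcard, Finset.card_univ, Fintype.card_fun, Fintype.card_fin] at this
    omega
  congr 1
  · rw [Finset.sum_congr rfl (fun w hw => Mf_line X ψ c w (Finset.mem_filter.mp hw).2), Finset.sum_const, hcard, smul_eq_mul]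
  · rw [Finset.sum_congr rfl (fun w hw => Mf_const X ψ hn (Finset.mem_filter.mp hw).2 hv), Finset.sum_const, hcard2, smul_eq_mul]

omit [Fintype X] in
theorem card_Bs_pos (c : Fin n → F) (x : X) : 1 ≤ Nat.card (Bs c x) := Nat.card_pos

variable (X) in
/-- The standing hypotheses. -/
structure Small : Prop where
  hn : 3 ≤ n
  nontriv : ∃ (c f : Fin n → F) (x : X), f ⬝ᵥ c = 0 ∧ tv c f • x ≠ x
  lt : Fintype.card X * (Fintype.card F - 1) < Fintype.card F ^ n - 1

theorem pow_pred (F : Type*) [Fintype F] {n : ℕ} (hn : 1 ≤ n) : Fintype.card F ^ n = Fintype.card F * Fintype.card F ^ (n - 1) := by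
  rw [← pow_succ', Nat.sub_add_cancel hn]

theorem lt_card_pow (hn : 2 ≤ n) : Fintype.card F < Fintype.card F ^ n := by
  have h1 := two_le_card (F := F)
  calc Fintype.card F = Fintype.card F ^ 1 := (pow_one _).symm
    _ < Fintype.card F ^ n := Nat.pow_lt_pow_right (by omega) (by omega)

theorem Mf_ge_all (hX : Small (F := F) (n := n) X) (ψ : AddChar F ℂ) (hψ : ψ ≠ 0) {c v : Fin n → F} (hc : c ≠ 0)
    (hv : v ∉ Submodule.span F {c}) : Fintype.card F ^ (n - 1) ≤ Mf X ψ c v := by
  have hn := hX.hn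
  obtain ⟨c0, f0, x0, hf0, hne⟩ := hX.nontriv
  have hc0 : c0 ≠ 0 := by
    rintro rfl
    rw [tv_zero_left, one_smul] at hne
    exact hne rfl
  have hW := card_Wc (F := F) (n := n) (by omega) hc0
  have hlt : Nat.card (Bs c0 x0) < Fintype.card F ^ (n - 1) := by
    rw [← hW]
    have hle : (Bs c0 x0) < (Wc c0).toAddSubgroup := by
      refine lt_of_le_of_ne (Bs_le c0 x0) (fun h => hne ?_)
      have : f0 ∈ Bs c0 x0 := by rw [h]; exact hf0
      exact this.2
    exact Set.Finite.card_lt_card (Set.toFinite _) hle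
  obtain ⟨v0, hv0, hperp⟩ := exists_perp_nonspan ψ hψ (by omega) hc0 hlt
  have h1 := Mf_ge ψ hperp
  rw [hW] at h1
  obtain ⟨g, hg⟩ := exists_move (by omega) hc0 hc
  have hgv : (g : Matrix (Fin n) (Fin n) F) *ᵥ v0 ∉ Submodule.span F {c} := by
    intro h
    obtain ⟨a, ha⟩ := Submodule.mem_span_singleton.mp h
    apply hv0
    rw [Submodule.mem_span_singleton]
    refine ⟨a, ?_⟩
    have := congrArg (fun w => ((g⁻¹ : Matrix.SpecialLinearGroup (Fin n) F) : Matrix (Fin n) (Fin n) F) *ᵥ w) ha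
    rw [mv_inv, mulVec_smul, ← hg, mv_inv] at this
    exact this
  rw [Mf_const X ψ hn hv hgv, ← hg, Mf_smul]
  exact h1

theorem Mf_lt (hX : Small (F := F) (n := n) X) (ψ : AddChar F ℂ) (hψ : ψ ≠ 0) {c v : Fin n → F} (hc : c ≠ 0)
    (hv : v ∉ Submodule.span F {c}) : Mf X ψ c v < 2 * Fintype.card F ^ (n - 1) := by
  by_contra hcon
  push Not at hcon
  have hn := hX.hn
  have h1 := sum_split X ψ hψ hn hc hv
  have h2 : Fintype.card X ≤ ∑ x : X, Nat.card (Bs c x) := by
    rw [← Finset.card_univ, Finset.card_eq_sum_ones]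
    exact Finset.sum_le_sum (fun x _ => card_Bs_pos c x)
  have h3 := hX.lt
  have h4 := pow_pred F (n := n) (by omega)
  have h5 := two_le_card (F := F)
  have h6 := lt_card_pow (F := F) (n := n) (by omega)
  generalize hq : Fintype.card F = q at *
  generalize hQ : q ^ (n - 1) = Q at *
  generalize hm : Fintype.card X = m at *
  generalize hM0 : ∑ x : X, Nat.card (Bs c x) = M0 at *
  generalize hM1 : Mf X ψ c v = M1 at *
  rw [h4] at h1 h3 h6
  -- m q Q = q M0 + (q Q - q) M1 ≥ q m + (q Q - q) 2 Q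
  obtain ⟨t, ht⟩ : ∃ t, q * Q = q + t := ⟨q * Q - q, by omega⟩
  have ht0 : 0 < t := by omega
  have e1 : q * Q - q = t := by omega
  rw [e1] at h1
  have h7 : m * (q * Q) = m * q + m * t := by rw [ht]; ring
  have h8 : q * m ≤ q * M0 := Nat.mul_le_mul_left _ h2
  have h9 : t * (2 * Q) ≤ t * M1 := Nat.mul_le_mul_left _ hcon
  have h10 : t * (2 * Q) ≤ t * m := by
    have : m * q = q * m := by ring
    have : m * t = t * m := by ring
    omega
  have h11 : 2 * Q ≤ m := Nat.le_of_mul_le_mul_left h10 ht0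
  have h12 : 2 * Q * (q - 1) ≤ m * (q - 1) := Nat.mul_le_mul_right _ h11
  have h13 : 2 * Q * (q - 1) < q * Q - 1 := lt_of_le_of_lt h12 h3
  obtain ⟨r, rfl⟩ : ∃ r, q = r + 2 := ⟨q - 2, by omega⟩
  have e2 : r + 2 - 1 = r + 1 := by omega
  rw [e2] at h13
  have : 2 * Q * (r + 1) < (r + 2) * Q := by omega
  nlinarith

theorem orb_of_perp (hX : Small (F := F) (n := n) X) (ψ : AddChar F ℂ) (hψ : ψ ≠ 0) {c v : Fin n → F} (hc : c ≠ 0)
    (hv : v ∉ Submodule.span F {c}) {x y : X} (h : v ∈ perp ψ (Bs c x)) (h' : v ∈ perp ψ (Bs c y)) : y ∈ orb c x := by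
  by_contra hcon
  have h1 := Mf_ge_two ψ h h' hcon
  rw [card_Wc (by have := hX.hn; omega) hc] at h1
  exact absurd (Mf_lt hX ψ hψ hc hv) (not_lt.mpr h1)

theorem exists_perp (hX : Small (F := F) (n := n) X) (ψ : AddChar F ℂ) (hψ : ψ ≠ 0) {c v : Fin n → F} (hc : c ≠ 0)
    (hv : v ∉ Submodule.span F {c}) : ∃ x : X, v ∈ perp ψ (Bs c x) := by
  by_contra hcon
  push Not at hcon
  have h1 := Mf_ge_all hX ψ hψ hc hv
  unfold Mf at h1
  rw [Finset.sum_congr rfl (fun x _ => if_neg (hcon x)), Finset.sum_const_zero] at h1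
  have : 0 < Fintype.card F ^ (n - 1) := pow_pos Fintype.card_pos _
  omega

theorem Mf_eq (hX : Small (F := F) (n := n) X) (ψ : AddChar F ℂ) (hψ : ψ ≠ 0) {c v : Fin n → F} (hc : c ≠ 0)
    (hv : v ∉ Submodule.span F {c}) : Mf X ψ c v = Fintype.card F ^ (n - 1) := by
  classical
  obtain ⟨x, hx⟩ := exists_perp hX ψ hψ hc hv
  rw [← card_Wc (by have := hX.hn; omega) hc, ← card_orb c x, ← smul_eq_mul, ← Finset.sum_const]
  unfold Mf
  rw [← Finset.sum_subset (Finset.subset_univ (orb c x))]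
  · apply Finset.sum_congr rfl
    intro y hy
    rw [Bs_orb hy, if_pos hx]
  · intro y _ hy
    rw [if_neg]
    intro h
    exact hy (orb_of_perp hX ψ hψ hc hv hx h)

theorem count_eq (hX : Small (F := F) (n := n) X) {c : Fin n → F} (hc : c ≠ 0) :
    Fintype.card X * Fintype.card F ^ (n - 1) = (∑ x : X, Nat.card (Bs c x))
      + (Fintype.card F ^ (n - 1) - 1) * Fintype.card F ^ (n - 1) := by
  obtain ⟨ψ, hψ⟩ := exists_psi (F := F)
  have hn := hX.hn
  obtain ⟨v, hv⟩ := exists_notMem_span_singleton (F := F) (n := n) (by omega) c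
  have h1 := sum_split X ψ hψ hn hc hv
  rw [Mf_eq hX ψ hψ hc hv] at h1
  have h4 := pow_pred F (n := n) (by omega)
  rw [h4] at h1
  apply Nat.eq_of_mul_eq_mul_left (Fintype.card_pos (α := F))
  rw [mul_add, ← mul_assoc, ← mul_assoc, mul_comm (Fintype.card F) (Fintype.card X), mul_assoc, h1, Nat.mul_sub, mul_one]

/-- main transfer lemma -/
theorem mem_of_common (hX : Small (F := F) (n := n) X) (ψ : AddChar F ℂ) (hψ : ψ ≠ 0) {c v b f : Fin n → F} (hc : c ≠ 0)
    (hv : v ∉ Submodule.span F {c}) {x : X} (hperp : v ∈ perp ψ (Bs c x)) (hb : b ∈ Bs c x)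
    (hbf : b ∉ Submodule.span F {f}) (hfc : f ⬝ᵥ c = 0) (hfv : f ⬝ᵥ v = 0) : f ∈ Bs c x := by
  obtain ⟨w, hw, hwb⟩ := exists_dot hbf
  have hwf : f ⬝ᵥ w = 0 := by rw [dotProduct_comm]; exact hw f (Submodule.mem_span_singleton_self f)
  rw [dotProduct_comm] at hwb
  have hgc : ((tv w f : Matrix.SpecialLinearGroup (Fin n) F) : Matrix (Fin n) (Fin n) F) *ᵥ c = c := by
    rw [tv_mulVec w f c hwf, hfc, zero_smul, add_zero]
  have hvm : ∀ h : Fin n → F, h ᵥ* ((tv w f : Matrix.SpecialLinearGroup (Fin n) F) : Matrix (Fin n) (Fin n) F) = h + (h ⬝ᵥ w) • f := by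
    intro h
    rw [tv_coe w f hwf, vecMul_add, vecMul_one]
    congr 1
    ext j
    simp only [vecMul, dotProduct, vecMulVec_apply, Pi.smul_apply, smul_eq_mul, Finset.sum_mul]
    exact Finset.sum_congr rfl (fun k _ => by ring)
  have hmem : ∀ h : Fin n → F, h ∈ Bs c (tv w f • x) ↔ h + (h ⬝ᵥ w) • f ∈ Bs c x := by
    intro h
    have := mem_Bs_smul (tv w f) c h x
    rw [hgc, hvm] at this
    exact this
  have hperp' : v ∈ perp ψ (Bs c (tv w f • x)) := by
    rw [mem_perp]
    intro h hh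
    rw [hmem] at hh
    have h1 := (mem_perp ψ _ v).mp hperp _ hh
    rwa [add_dotProduct, smul_dotProduct, hfv, smul_zero, add_zero] at h1
  have horb := orb_of_perp hX ψ hψ hc hv hperp hperp'
  have hBeq := Bs_orb horb
  have h1 : b - f ∈ Bs c (tv w f • x) := by
    rw [hmem, sub_dotProduct, hwb, hwf, sub_zero, one_smul, sub_add_cancel]
    exact hb
  rw [hBeq] at h1
  have := (Bs c x).sub_mem hb h1
  rwa [sub_sub_cancel] at this

theorem card_sup_le (B C : AddSubgroup (Fin n → F)) : Nat.card (B ⊔ C : AddSubgroup (Fin n → F)) ≤ Nat.card B * Nat.card C := by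
  rw [← Nat.card_prod]
  apply Nat.card_le_card_of_surjective (fun p : B × C => (⟨p.1.1 + p.2.1, AddSubgroup.add_mem_sup p.1.2 p.2.2⟩ : (B ⊔ C : AddSubgroup (Fin n → F))))
  rintro ⟨y, hy⟩
  obtain ⟨b, hb, d, hd, rfl⟩ := AddSubgroup.mem_sup.mp hy
  exact ⟨(⟨b, hb⟩, ⟨d, hd⟩), rfl⟩

theorem card_span_le (f : Fin n → F) : Nat.card (Submodule.span F {f}) ≤ Fintype.card F := by
  by_cases hf : f = 0
  · subst hf
    rw [Submodule.span_zero_singleton]
    rw [Nat.card_unique]
    exact Fintype.card_pos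
  · rw [card_span_singleton hf]

theorem Bs_dich (hX : Small (F := F) (n := n) X) {c : Fin n → F} (hc : c ≠ 0) (x : X) :
    Nat.card (Bs c x) = 1 ∨ Fintype.card F ^ (n - 2) ≤ Nat.card (Bs c x) := by
  by_contra hcon
  push Not at hcon
  obtain ⟨h1, h2⟩ := hcon
  obtain ⟨ψ, hψ⟩ := exists_psi (F := F)
  have hn := hX.hn
  have hqpos : 0 < Fintype.card F := Fintype.card_pos
  have hpow : Fintype.card F ^ (n - 1) = Fintype.card F ^ (n - 2) * Fintype.card F := by
    rw [← pow_succ]; congr 1; omega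
  have hbot : ∃ b ∈ Bs c x, b ≠ 0 := by
    by_contra h
    push Not at h
    apply h1
    have : Bs c x = ⊥ := by
      rw [eq_bot_iff]
      intro b hb
      exact h b hb
    rw [this]
    exact Nat.card_unique
  obtain ⟨b, hb, hb0⟩ := hbot
  have key : ∀ f : Fin n → F, f ⬝ᵥ c = 0 → f ∉ Submodule.span F {b} → f ∈ Bs c x := by
    intro f hf hfb
    have hbf : b ∉ Submodule.span F {f} := by
      intro h
      obtain ⟨a, ha⟩ := Submodule.mem_span_singleton.mp h
      have ha0 : a ≠ 0 := by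
        rintro rfl
        rw [zero_smul] at ha
        exact hb0 ha.symm
      apply hfb
      rw [Submodule.mem_span_singleton]
      exact ⟨a⁻¹, by rw [← ha, smul_smul, inv_mul_cancel₀ ha0, one_smul]⟩
    have hC : Nat.card (Bs c x ⊔ (Submodule.span F {f}).toAddSubgroup : AddSubgroup (Fin n → F)) < Fintype.card F ^ (n - 1) := by
      refine lt_of_le_of_lt (card_sup_le _ _) ?_
      rw [hpow]
      calc Nat.card (Bs c x) * Nat.card (Submodule.span F {f}).toAddSubgroup ≤ Nat.card (Bs c x) * Fintype.card F :=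
            Nat.mul_le_mul_left _ (card_span_le f)
        _ < Fintype.card F ^ (n - 2) * Fintype.card F := Nat.mul_lt_mul_of_pos_right h2 hqpos
    obtain ⟨v, hv, hvp⟩ := exists_perp_nonspan ψ hψ (by omega) hc hC
    have hv1 : v ∈ perp ψ (Bs c x) := by
      rw [mem_perp] at hvp ⊢
      exact fun h hh => hvp h (AddSubgroup.mem_sup_left hh)
    have hv2 : v ∈ perp ψ (Submodule.span F {f}).toAddSubgroup := by
      rw [mem_perp] at hvp ⊢
      exact fun h hh => hvp h (AddSubgroup.mem_sup_right hh)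
    rw [mem_perp_sub ψ hψ] at hv2
    exact mem_of_common hX ψ hψ hc hv hv1 hb hbf hf (hv2 f (Submodule.mem_span_singleton_self f))
  have hW := card_Wc (F := F) (n := n) (by omega) hc
  have hex : ∃ f' : Fin n → F, f' ⬝ᵥ c = 0 ∧ f' ∉ Submodule.span F {b} := by
    by_contra h
    push Not at h
    have hle : Nat.card (Wc c) ≤ Nat.card (Submodule.span F {b}) :=
      Nat.card_le_card_of_injective (fun f : Wc c => (⟨f.1, h f.1 f.2⟩ : Submodule.span F {b}))
        (fun f g hfg => Subtype.ext (Subtype.mk.inj hfg))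
    rw [hW] at hle
    have h3 := hle.trans (card_span_le b)
    have h4 := lt_card_pow (F := F) (n := n - 1) (by omega)
    omega
  obtain ⟨f', hf', hf'b⟩ := hex
  have hall : ∀ f : Fin n → F, f ⬝ᵥ c = 0 → f ∈ Bs c x := by
    intro f hf
    by_cases h : f ∈ Submodule.span F {b}
    · have h3 := key f' hf' hf'b
      have h4 := key (f + f') (by rw [add_dotProduct, hf, hf', add_zero]) (by
        intro h5
        apply hf'b
        have := Submodule.sub_mem _ h5 h
        rwa [add_sub_cancel_left] at this)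
      have := (Bs c x).sub_mem h4 h3
      rwa [add_sub_cancel_right] at this
    · exact key f hf h
  have : Nat.card (Wc c) ≤ Nat.card (Bs c x) :=
    Nat.card_le_card_of_injective (fun f : Wc c => (⟨f.1, hall f.1 f.2⟩ : Bs c x))
        (fun f g hfg => Subtype.ext (Subtype.mk.inj hfg))
  rw [hW] at this
  have h6 : Fintype.card F ^ (n - 2) ≤ Fintype.card F ^ (n - 1) := Nat.pow_le_pow_right hqpos (by omega)
  omega

end count

end Cfsg.Agent.Lib.MinIdxCount
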