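import Mathlib
import Cfsg.Agent.Lib.MinIdxCount

/-!
Finite `SL_n(q)`-sets of size less than `(q^n - 1)/(q - 1)`: transvection subgroups act semiregularly or trivially.
-/
set_option autoImplicit false

namespace Cfsg.Agent.Lib.MinIdxCase

open Matrix MinIdxTv MinIdxFour MinIdxAct MinIdxCount

section case

variable {F : Type*} [Field F] [Fintype F] {n : ℕ}

theorem card_span_pair {c v : Fin n → F} (hc : c ≠ 0) (hv : v ∉ Submodule.span F {c}) :
    Nat.card (Submodule.span F {c, v}) = Fintype.card F ^ 2 := by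
  have h : Function.Bijective (fun p : F × F => (⟨p.1 • c + p.2 • v, Submodule.mem_span_pair.mpr ⟨p.1, p.2, rfl⟩⟩ : Submodule.span F {c, v})) := by
    constructor
    · rintro ⟨a, b⟩ ⟨a', b'⟩ h
      have h1 : a • c + b • v = a' • c + b' • v := Subtype.mk.inj h
      have hb : b = b' := by
        by_contra hne
        apply hv
        rw [Submodule.mem_span_singleton]
        refine ⟨(a' - a) / (b - b'), ?_⟩
        have h2 : (b - b') • v = (a' - a) • c := by
          have e1 : (b - b') • v - (a' - a) • c = (a • c + b • v) - (a' • c + b' • v) := by module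
          rw [← sub_eq_zero, e1, h1, sub_self]
        rw [div_eq_inv_mul, mul_smul, ← h2, smul_smul, inv_mul_cancel₀ (sub_ne_zero.mpr hne), one_smul]
      subst hb
      have h3 : a • c = a' • c := add_right_cancel h1
      have h4 : (a - a') • c = 0 := by rw [sub_smul, h3, sub_self]
      rcases smul_eq_zero.mp h4 with h5 | h5
      · rw [sub_eq_zero.mp h5]
      · exact absurd h5 hc
    · rintro ⟨w, hw⟩
      obtain ⟨a, b, hab⟩ := Submodule.mem_span_pair.mp hw
      exact ⟨(a, b), Subtype.ext hab⟩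
  rw [← Nat.card_congr (Equiv.ofBijective _ h), Nat.card_prod, Nat.card_eq_fintype_card, pow_two]

omit [Fintype F] in
theorem mem_U2 {c v f : Fin n → F} : f ∈ (Wc c ⊓ Wc v : Submodule F (Fin n → F)) ↔ f ⬝ᵥ c = 0 ∧ f ⬝ᵥ v = 0 := Iff.rfl

theorem card_U2 (hn : 2 ≤ n) {c v : Fin n → F} (hc : c ≠ 0) (hv : v ∉ Submodule.span F {c}) :
    Nat.card (Wc c ⊓ Wc v : Submodule F (Fin n → F)) = Fintype.card F ^ (n - 2) := by
  obtain ⟨ψ, hψ⟩ := exists_psi (F := F)
  have h := card_annih ψ hψ (Wc c ⊓ Wc v)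
  have h2 : Nat.card {w : Fin n → F // ∀ f ∈ (Wc c ⊓ Wc v : Submodule F (Fin n → F)), f ⬝ᵥ w = 0} = Fintype.card F ^ 2 := by
    rw [← card_span_pair hc hv]
    apply Nat.card_congr
    apply Equiv.subtypeEquivRight
    intro w
    constructor
    · intro h3
      apply mem_span_of_ann
      intro f hf
      exact h3 f ⟨hf c (Submodule.subset_span (by simp)), hf v (Submodule.subset_span (by simp))⟩
    · intro h3 f hf
      obtain ⟨a, b, rfl⟩ := Submodule.mem_span_pair.mp h3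
      rw [dotProduct_add, dotProduct_smul, dotProduct_smul, (mem_U2.mp hf).1, (mem_U2.mp hf).2, smul_zero, smul_zero, add_zero]
  rw [h2] at h
  have h4 : Fintype.card F ^ n = Fintype.card F ^ 2 * Fintype.card F ^ (n - 2) := by
    rw [← pow_add]; congr 1; omega
  rw [h4] at h
  exact Nat.eq_of_mul_eq_mul_left (pow_pos Fintype.card_pos _) h

variable {X : Type*} [Fintype X] [MulAction (Matrix.SpecialLinearGroup (Fin n) F) X]

theorem card_Bs_eq (hX : Small (F := F) (n := n) X) {c : Fin n → F} (hc : c ≠ 0)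
    (hall : ∀ x : X, Fintype.card F ^ (n - 2) ≤ Nat.card (Bs c x)) (x : X) : Nat.card (Bs c x) = Fintype.card F ^ (n - 2) := by
  by_contra hne
  have hn := hX.hn
  have hlt : Fintype.card F ^ (n - 2) < Nat.card (Bs c x) := lt_of_le_of_ne (hall x) (Ne.symm hne)
  have h1 := count_eq hX hc
  have h2 : Fintype.card X * Fintype.card F ^ (n - 2) < ∑ x : X, Nat.card (Bs c x) := by
    rw [← smul_eq_mul, ← Finset.card_univ, ← Finset.sum_const]
    exact Finset.sum_lt_sum (fun y _ => hall y) ⟨x, Finset.mem_univ _, hlt⟩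
  have h3 := hX.lt
  have h4 := pow_pred F (n := n) (by omega)
  have h5 := two_le_card (F := F)
  have h6 : Fintype.card F ^ (n - 1) = Fintype.card F * Fintype.card F ^ (n - 2) := by
    rw [← pow_succ']; congr 1; omega
  have h7 : (Fintype.card F - 1) ∣ (Fintype.card F ^ (n - 1) - 1) := by
    have := Nat.sub_dvd_pow_sub_pow (Fintype.card F) 1 (n - 1)
    rwa [one_pow] at this
  have hR : 0 < Fintype.card F ^ (n - 2) := pow_pos Fintype.card_pos _
  generalize hq : Fintype.card F = q at *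
  generalize hQ : q ^ (n - 1) = Q at *
  generalize hRR : q ^ (n - 2) = R at *
  generalize hm : Fintype.card X = m at *
  generalize hM0 : ∑ x : X, Nat.card (Bs c x) = M0 at *
  obtain ⟨k, hk⟩ := h7
  obtain ⟨r, rfl⟩ : ∃ r, q = r + 2 := ⟨q - 2, by omega⟩
  have e2 : r + 2 - 1 = r + 1 := by omega
  rw [e2] at hk h3
  have hQpos : 0 < Q := by
    rw [h6]; positivity
  have hQk : Q = (r + 1) * k + 1 := by omega
  have h8 : m * Q > m * R + (r + 1) * k * Q := by
    rw [h1, hk]; omega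
  -- divide by R
  have h9 : m * (r + 2) > m + (r + 1) * k * (r + 2) := by
    rw [h6] at h8
    by_contra hle
    push Not at hle
    have := Nat.mul_le_mul_right R hle
    nlinarith
  have h10 : (r + 1) * (k * (r + 2)) < (r + 1) * m := by nlinarith
  have h11 : k * (r + 2) < m := lt_of_mul_lt_mul_left h10 (by omega)
  have h12 : (k * (r + 2) + 1) * (r + 1) ≤ m * (r + 1) := Nat.mul_le_mul_right _ h11
  rw [h4, hQk] at h3
  have h13 : (k * (r + 2) + 1) * (r + 1) < (r + 2) * ((r + 1) * k + 1) - 1 := lt_of_le_of_lt h12 h3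
  have h14 : (r + 2) * ((r + 1) * k + 1) = (k * (r + 2) + 1) * (r + 1) + 1 := by ring
  omega

theorem Bs_eq_U2 (hX : Small (F := F) (n := n) X) {c : Fin n → F} (hc : c ≠ 0) {x : X}
    (hcard : Nat.card (Bs c x) = Fintype.card F ^ (n - 2)) :
    ∃ v, v ∉ Submodule.span F {c} ∧ ∀ f, f ∈ Bs c x ↔ f ⬝ᵥ c = 0 ∧ f ⬝ᵥ v = 0 := by
  obtain ⟨ψ, hψ⟩ := exists_psi (F := F)
  have hn := hX.hn
  have hlt : Nat.card (Bs c x) < Fintype.card F ^ (n - 1) := by
    rw [hcard]
    exact Nat.pow_lt_pow_right (two_le_card) (by omega)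
  obtain ⟨v, hv, hvp⟩ := exists_perp_nonspan ψ hψ (by omega) hc hlt
  refine ⟨v, hv, ?_⟩
  have hU := card_U2 (by omega) hc hv
  have hle : (Wc c ⊓ Wc v : Submodule F (Fin n → F)).toAddSubgroup ≤ Bs c x := by
    by_contra hnle
    have : ¬ (Bs c x ≤ (Wc c ⊓ Wc v : Submodule F (Fin n → F)).toAddSubgroup) := by
      intro hle
      apply hnle
      have : Bs c x = (Wc c ⊓ Wc v : Submodule F (Fin n → F)).toAddSubgroup := by
        apply AddSubgroup.eq_of_le_of_card_ge hle
        rw [hcard, ← hU]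
        exact le_refl _
      rw [this]
    obtain ⟨b, hb, hbU⟩ := SetLike.not_le_iff_exists.mp this
    apply hnle
    intro f hf
    by_cases hf0 : f = 0
    · rw [hf0]; exact zero_mem _
    · refine mem_of_common hX ψ hψ hc hv hvp hb ?_ (mem_U2.mp hf).1 (mem_U2.mp hf).2
      intro h
      apply hbU
      obtain ⟨a, rfl⟩ := Submodule.mem_span_singleton.mp h
      exact Submodule.smul_mem (Wc c ⊓ Wc v) _ hf
  have heq : (Wc c ⊓ Wc v : Submodule F (Fin n → F)).toAddSubgroup = Bs c x := by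
    apply AddSubgroup.eq_of_le_of_card_ge hle
    rw [hcard, ← hU]
    exact le_refl _
  intro f
  rw [← heq]
  exact Iff.rfl

theorem caseII (hX : Small (F := F) (n := n) X)
    (hall : ∀ c : Fin n → F, c ≠ 0 → ∀ x : X, Fintype.card F ^ (n - 2) ≤ Nat.card (Bs c x)) : False := by
  have hn := hX.hn
  obtain ⟨c0, f0, x, hf0, hne⟩ := hX.nontriv
  have hcard : ∀ c : Fin n → F, c ≠ 0 → Nat.card (Bs c x) = Fintype.card F ^ (n - 2) :=
    fun c hc => card_Bs_eq hX hc (hall c hc) x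
  have hsub : ∀ c : Fin n → F, c ≠ 0 → ∀ (a : F) (f : Fin n → F), f ∈ Bs c x → a • f ∈ Bs c x := by
    intro c hc a f hf
    obtain ⟨v, hv, h⟩ := Bs_eq_U2 hX hc (hcard c hc)
    rw [h] at hf ⊢
    rw [smul_dotProduct, smul_dotProduct, hf.1, hf.2, smul_zero]
    exact ⟨rfl, rfl⟩
  have hkey : ∀ c d : Fin n → F, c ≠ 0 → d ≠ 0 → ∀ f b : Fin n → F, f ∈ Bs c x → f ⬝ᵥ d = 0 → b ∈ Bs d x → b ⬝ᵥ c ≠ 0 → f ∈ Bs d x := by
    intro c d hc hd f b hf hfd hb hbc
    have hgd : ((tv c f : Matrix.SpecialLinearGroup (Fin n) F) : Matrix (Fin n) (Fin n) F) *ᵥ d = d := by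
      rw [tv_mulVec c f d hf.1, hfd, zero_smul, add_zero]
    have hvm : ∀ h : Fin n → F, h ᵥ* ((tv c f : Matrix.SpecialLinearGroup (Fin n) F) : Matrix (Fin n) (Fin n) F) = h + (h ⬝ᵥ c) • f := by
      intro h
      rw [tv_coe c f hf.1, vecMul_add, vecMul_one]
      congr 1
      ext j
      simp only [vecMul, dotProduct, vecMulVec_apply, Pi.smul_apply, smul_eq_mul, Finset.sum_mul]
      exact Finset.sum_congr rfl (fun k _ => by ring)
    have h1 := mem_Bs_smul (tv c f) d b x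
    rw [hgd, hf.2, hvm] at h1
    have h2 := (Bs d x).sub_mem (h1.mp hb) hb
    rw [add_sub_cancel_left] at h2
    have h3 := hsub d hd (b ⬝ᵥ c)⁻¹ _ h2
    rwa [smul_smul, inv_mul_cancel₀ hbc, one_smul] at h3
  have hcl2 : ∀ c d : Fin n → F, c ≠ 0 → d ≠ 0 → ∀ f : Fin n → F, f ∈ Bs c x → f ⬝ᵥ d = 0 → f ∈ Bs d x := by
    intro c d hc hd f hf hfd
    by_cases hex : ∃ b ∈ Bs d x, b ⬝ᵥ c ≠ 0
    · obtain ⟨b, hb, hbc⟩ := hex
      exact hkey c d hc hd f b hf hfd hb hbc
    · push Not at hex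
      by_cases hspan : d ∈ Submodule.span F {c}
      · obtain ⟨a, rfl⟩ := Submodule.mem_span_singleton.mp hspan
        refine ⟨hfd, ?_⟩
        rw [tv_smul c f a hf.1]
        exact (hsub c hc a f hf).2
      · have hU := card_U2 (by omega) hc hspan
        have hle : Bs d x ≤ (Wc c ⊓ Wc d : Submodule F (Fin n → F)).toAddSubgroup := by
          intro b hb
          exact ⟨hex b hb, hb.1⟩
        have heq : Bs d x = (Wc c ⊓ Wc d : Submodule F (Fin n → F)).toAddSubgroup := by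
          apply AddSubgroup.eq_of_le_of_card_ge hle
          rw [hcard d hd, ← hU]
          exact le_refl _
        rw [heq]
        exact ⟨hf.1, hfd⟩
  have hcl1 : ∀ c e : Fin n → F, c ≠ 0 → e ≠ 0 → (∀ f ∈ Bs c x, f ⬝ᵥ e = 0) → Bs c x = Bs e x := by
    intro c e hc he h
    apply AddSubgroup.eq_of_le_of_card_ge
    · intro f hf
      exact hcl2 c e hc he f hf (h f hf)
    · rw [hcard c hc, hcard e he]
  have hc0 : c0 ≠ 0 := by
    rintro rfl
    rw [tv_zero_left, one_smul] at hne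
    exact hne rfl
  have hex : ∃ f ∈ Bs c0 x, f ≠ 0 := by
    by_contra h
    push Not at h
    have : Bs c0 x = ⊥ := by
      rw [eq_bot_iff]
      intro b hb
      exact h b hb
    have h1 := hcard c0 hc0
    rw [this] at h1
    have h2 : Nat.card (⊥ : AddSubgroup (Fin n → F)) = 1 := Nat.card_unique
    rw [h2] at h1
    have h3 : 1 < Fintype.card F ^ (n - 2) := Nat.one_lt_pow (by omega) two_le_card
    omega
  obtain ⟨f1, hf1, hf10⟩ := hex
  obtain ⟨d, hd⟩ := exists_dot_eq hf10 1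
  have hd0 : d ≠ 0 := by
    rintro rfl
    rw [dotProduct_zero] at hd
    exact zero_ne_one hd
  obtain ⟨v, hv, hB⟩ := Bs_eq_U2 hX hd0 (hcard d hd0)
  have he0 : v - (f1 ⬝ᵥ v) • d ≠ 0 := by
    intro h
    apply hv
    rw [Submodule.mem_span_singleton]
    exact ⟨f1 ⬝ᵥ v, (sub_eq_zero.mp h).symm⟩
  have he1 : ∀ b ∈ Bs d x, b ⬝ᵥ (v - (f1 ⬝ᵥ v) • d) = 0 := by
    intro b hb
    rw [hB] at hb
    rw [dotProduct_sub, dotProduct_smul, hb.1, hb.2, smul_zero, sub_zero]
  have he2 : ∀ b ∈ Bs c0 x, b ⬝ᵥ (v - (f1 ⬝ᵥ v) • d) = 0 := by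
    intro b hb
    have h1 : b - (b ⬝ᵥ d) • f1 ∈ Bs c0 x := (Bs c0 x).sub_mem hb (hsub c0 hc0 _ _ hf1)
    have h2 : (b - (b ⬝ᵥ d) • f1) ⬝ᵥ d = 0 := by
      rw [sub_dotProduct, smul_dotProduct, hd, smul_eq_mul, mul_one, sub_self]
    have h3 := he1 _ (hcl2 c0 d hc0 hd0 _ h1 h2)
    rw [sub_dotProduct, smul_dotProduct] at h3
    have h4 : f1 ⬝ᵥ (v - (f1 ⬝ᵥ v) • d) = 0 := by
      rw [dotProduct_sub, dotProduct_smul, hd, smul_eq_mul, mul_one, sub_self]
    rw [h4, smul_zero, sub_zero] at h3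
    exact h3
  have h5 := hcl1 c0 _ hc0 he0 he2
  have h6 := hcl1 d _ hd0 he0 he1
  rw [← h6] at h5
  rw [h5] at hf1
  rw [hf1.1] at hd
  exact zero_ne_one hd

/-- Case I: some point has trivial stabilizer in a transvection group. -/
theorem exists_bot (hX : Small (F := F) (n := n) X) {c : Fin n → F} (hc : c ≠ 0) : ∃ x : X, Bs c x = ⊥ := by
  have hn := hX.hn
  by_contra hcon
  push Not at hcon
  apply caseII hX
  intro d hd x
  obtain ⟨g, hg⟩ := exists_move (by omega) hd hc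
  have h1 := card_Bs_smul g d x
  rw [hg] at h1
  rw [← h1]
  rcases Bs_dich hX hc (g • x) with h | h
  · exact absurd (AddSubgroup.eq_bot_of_card_eq _ h) (hcon _)
  · exact h

theorem mem_orb_of_ne (hX : Small (F := F) (n := n) X) {c : Fin n → F} (hc : c ≠ 0) {x y : X} (hx : Bs c x = ⊥)
    (hy : Bs c y ≠ (Wc c).toAddSubgroup) : y ∈ orb c x := by
  obtain ⟨ψ, hψ⟩ := exists_psi (F := F)
  have hn := hX.hn
  have hlt : Nat.card (Bs c y) < Fintype.card F ^ (n - 1) := by
    rw [← card_Wc (by omega) hc]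
    have hlt : Bs c y < (Wc c).toAddSubgroup := lt_of_le_of_ne (Bs_le c y) hy
    exact Set.Finite.card_lt_card (Set.toFinite _) hlt
  obtain ⟨v, hv, hvp⟩ := exists_perp_nonspan ψ hψ (by omega) hc hlt
  refine orb_of_perp hX ψ hψ hc hv ?_ hvp
  rw [hx, mem_perp]
  intro f hf
  rw [AddSubgroup.mem_bot.mp hf, zero_dotProduct, AddChar.map_zero_eq_one]

theorem bot_or_top (hX : Small (F := F) (n := n) X) {c : Fin n → F} (hc : c ≠ 0) (y : X) :
    Bs c y = ⊥ ∨ Bs c y = (Wc c).toAddSubgroup := by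
  obtain ⟨x, hx⟩ := exists_bot hX hc
  by_cases hy : Bs c y = (Wc c).toAddSubgroup
  · exact Or.inr hy
  · left
    rw [Bs_orb (mem_orb_of_ne hX hc hx hy), hx]

end case

end Cfsg.Agent.Lib.MinIdxCase
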