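import Mathlib
import Cfsg.Agent.Lib.MinIdxCase

/-!
Proper subgroups of `SL_n(q)`, `n ≥ 3`, `(n,q) ≠ (4,2)`, have index at least `(q^n - 1)/(q - 1)`.
-/
set_option autoImplicit false

namespace Cfsg.Agent.Lib.MinIdxEnd

open Matrix MinIdxTv MinIdxFour MinIdxAct MinIdxCount MinIdxCase

section sub

variable {F : Type*} [Field F] {n : ℕ}

theorem mem_Bs_one {H : Subgroup (Matrix.SpecialLinearGroup (Fin n) F)} {c f : Fin n → F} :
    f ∈ Bs c ((1 : Matrix.SpecialLinearGroup (Fin n) F) : Matrix.SpecialLinearGroup (Fin n) F ⧸ H) ↔ f ⬝ᵥ c = 0 ∧ tv c f ∈ H := by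
  rw [mem_Bs]
  apply and_congr_right
  intro _
  rw [MulAction.Quotient.smul_coe, smul_eq_mul, mul_one, eq_comm, QuotientGroup.eq, inv_one, one_mul]

theorem transpose_inv_tv (c f : Fin n → F) (h : f ⬝ᵥ c = 0) :
    ((tv c f)⁻¹ : Matrix.SpecialLinearGroup (Fin n) F).transpose = tv f (-c) := by
  apply sl_ext
  rw [tv_inv c f h, Matrix.SpecialLinearGroup.coe_transpose, tv_coe _ _ (by rw [neg_dotProduct, h, neg_zero]),
    tv_coe f (-c) (by rw [neg_dotProduct, dotProduct_comm, h, neg_zero]), transpose_add, transpose_one]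
  congr 1
  ext i j
  simp [vecMulVec_apply, mul_comm]

/-- the inverse transpose automorphism -/
def tau : Matrix.SpecialLinearGroup (Fin n) F →* Matrix.SpecialLinearGroup (Fin n) F where
  toFun g := (g⁻¹).transpose
  map_one' := by
    apply sl_ext
    rw [inv_one, Matrix.SpecialLinearGroup.coe_transpose, Matrix.SpecialLinearGroup.coe_one, transpose_one]
  map_mul' g h := by
    apply sl_ext
    rw [Matrix.SpecialLinearGroup.coe_transpose, _root_.mul_inv_rev, Matrix.SpecialLinearGroup.coe_mul, transpose_mul,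
      Matrix.SpecialLinearGroup.coe_mul, Matrix.SpecialLinearGroup.coe_transpose, Matrix.SpecialLinearGroup.coe_transpose]

theorem tau_tau (g : Matrix.SpecialLinearGroup (Fin n) F) : tau (tau g) = g := by
  have h1 : tau (tau g) * tau (tau g⁻¹) = 1 := by rw [← map_mul, ← map_mul, mul_inv_cancel, map_one, map_one]
  have h2 : tau (tau g) = g := by
    apply sl_ext
    have h3 : ((tau g)⁻¹ : Matrix.SpecialLinearGroup (Fin n) F) = g.transpose := by
      rw [inv_eq_iff_mul_eq_one]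
      apply sl_ext
      change ((g⁻¹).transpose * g.transpose : Matrix.SpecialLinearGroup (Fin n) F).1 = _
      rw [Matrix.SpecialLinearGroup.coe_mul, Matrix.SpecialLinearGroup.coe_transpose, Matrix.SpecialLinearGroup.coe_transpose, ← transpose_mul,
        mul_inv_coe, transpose_one, Matrix.SpecialLinearGroup.coe_one]
    change (((tau g)⁻¹).transpose : Matrix.SpecialLinearGroup (Fin n) F).1 = _
    rw [h3, Matrix.SpecialLinearGroup.coe_transpose, Matrix.SpecialLinearGroup.coe_transpose, transpose_transpose]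
  exact h2

theorem exists_common (hn : 3 ≤ n) (c d : Fin n → F) : ∃ f : Fin n → F, f ≠ 0 ∧ f ⬝ᵥ c = 0 ∧ f ⬝ᵥ d = 0 := by
  obtain ⟨w, hw⟩ := exists_notMem_span_pair hn c d
  obtain ⟨f, hf, hfw⟩ := exists_dot hw
  refine ⟨f, ?_, hf c (Submodule.subset_span (by simp)), hf d (Submodule.subset_span (by simp))⟩
  rintro rfl
  rw [zero_dotProduct] at hfw
  exact zero_ne_one hfw

variable [Fintype F]

theorem small_of_index (hn : 3 ≤ n) {H : Subgroup (Matrix.SpecialLinearGroup (Fin n) F)} (hH : H ≠ ⊤)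
    [Fintype (Matrix.SpecialLinearGroup (Fin n) F ⧸ H)]
    (hidx : H.index * (Fintype.card F - 1) < Fintype.card F ^ n - 1) :
    Small (F := F) (n := n) (Matrix.SpecialLinearGroup (Fin n) F ⧸ H) := by
  refine ⟨hn, ?_, ?_⟩
  · by_contra hcon
    push Not at hcon
    apply hH
    apply eq_top_of_tv_mem
    intro c f hf
    have := hcon c f ((1 : Matrix.SpecialLinearGroup (Fin n) F) : Matrix.SpecialLinearGroup (Fin n) F ⧸ H) hf
    exact (mem_Bs_one.mp (mem_Bs.mpr ⟨hf, this⟩)).2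
  · rw [← Nat.card_eq_fintype_card]
    exact hidx

theorem dich (hn : 3 ≤ n) {H : Subgroup (Matrix.SpecialLinearGroup (Fin n) F)} (hH : H ≠ ⊤)
    (hidx : H.index * (Fintype.card F - 1) < Fintype.card F ^ n - 1) {c f f' : Fin n → F} (hc : c ≠ 0)
    (hf : f ≠ 0) (hfc : f ⬝ᵥ c = 0) (hm : tv c f ∈ H) (hf' : f' ⬝ᵥ c = 0) : tv c f' ∈ H := by
  classical
  have : Fintype (Matrix.SpecialLinearGroup (Fin n) F ⧸ H) := Fintype.ofFinite _
  have hX := small_of_index hn hH hidx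
  rcases bot_or_top hX hc ((1 : Matrix.SpecialLinearGroup (Fin n) F) : Matrix.SpecialLinearGroup (Fin n) F ⧸ H) with h | h
  · have h1 : f ∈ Bs c ((1 : Matrix.SpecialLinearGroup (Fin n) F) : Matrix.SpecialLinearGroup (Fin n) F ⧸ H) := mem_Bs_one.mpr ⟨hfc, hm⟩
    rw [h] at h1
    exact absurd (AddSubgroup.mem_bot.mp h1) hf
  · have h1 : f' ∈ Bs c ((1 : Matrix.SpecialLinearGroup (Fin n) F) : Matrix.SpecialLinearGroup (Fin n) F ⧸ H) := by
      rw [h]; exact hf'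
    exact (mem_Bs_one.mp h1).2

theorem dich' (hn : 3 ≤ n) {H : Subgroup (Matrix.SpecialLinearGroup (Fin n) F)} (hH : H ≠ ⊤)
    (hidx : H.index * (Fintype.card F - 1) < Fintype.card F ^ n - 1) {c c' f : Fin n → F} (hc : c ≠ 0)
    (hf : f ≠ 0) (hfc : f ⬝ᵥ c = 0) (hm : tv c f ∈ H) (hf' : f ⬝ᵥ c' = 0) : tv c' f ∈ H := by
  have hsurj : Function.Surjective (tau (F := F) (n := n)) := fun g => ⟨tau g, tau_tau g⟩
  have h1 : (H.comap tau) ≠ ⊤ := by
    intro h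
    apply hH
    rw [eq_top_iff]
    intro g _
    have : tau g ∈ H.comap tau := by rw [h]; exact Subgroup.mem_top _
    rw [Subgroup.mem_comap, tau_tau] at this
    exact this
  have h2 : (H.comap tau).index * (Fintype.card F - 1) < Fintype.card F ^ n - 1 := by
    rw [Subgroup.index_comap_of_surjective _ hsurj]
    exact hidx
  have htau : ∀ d : Fin n → F, f ⬝ᵥ d = 0 → tau (tv f (-d)) = tv d f := by
    intro d hd
    have h3 : tau (tv d f) = tv f (-d) := transpose_inv_tv d f hd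
    rw [← h3, tau_tau]
  have h3 : tv f (-c) ∈ H.comap tau := by rw [Subgroup.mem_comap, htau c hfc]; exact hm
  have h4 := dich hn h1 h2 hf (neg_ne_zero.mpr hc) (by rw [neg_dotProduct, dotProduct_comm, hfc, neg_zero]) h3
    (f' := -c') (by rw [neg_dotProduct, dotProduct_comm, hf', neg_zero])
  rw [Subgroup.mem_comap, htau c' hf'] at h4
  exact h4

/-- no nontrivial transvection -/
theorem no_tv (hn : 3 ≤ n) {H : Subgroup (Matrix.SpecialLinearGroup (Fin n) F)} (hH : H ≠ ⊤)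
    (hidx : H.index * (Fintype.card F - 1) < Fintype.card F ^ n - 1) {c f : Fin n → F} (hc : c ≠ 0)
    (hf : f ≠ 0) (hfc : f ⬝ᵥ c = 0) : tv c f ∉ H := by
  intro hm
  apply hH
  apply eq_top_of_tv_mem
  intro d g hg
  by_cases hd : d = 0
  · rw [hd, tv_zero_left]; exact H.one_mem
  obtain ⟨e, he, hec, hed⟩ := exists_common hn c d
  have h1 : tv c e ∈ H := dich hn hH hidx hc hf hfc hm hec
  have h2 : tv d e ∈ H := dich' hn hH hidx hc he hec h1 hed
  exact dich hn hH hidx hd he hed h2 hg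

/-- transitivity of the groups of transvections with fixed centre -/
theorem exists_tv_mul (hn : 3 ≤ n) {H : Subgroup (Matrix.SpecialLinearGroup (Fin n) F)} (hH : H ≠ ⊤)
    (hidx : H.index * (Fintype.card F - 1) < Fintype.card F ^ n - 1) {c : Fin n → F} (hc : c ≠ 0)
    (g : Matrix.SpecialLinearGroup (Fin n) F) : ∃ f : Fin n → F, f ⬝ᵥ c = 0 ∧ tv c f * g ∈ H := by
  classical
  have : Fintype (Matrix.SpecialLinearGroup (Fin n) F ⧸ H) := Fintype.ofFinite _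
  have hX := small_of_index hn hH hidx
  have key : ∀ x : Matrix.SpecialLinearGroup (Fin n) F ⧸ H, Bs c x ≠ (Wc c).toAddSubgroup := by
    intro x hx
    obtain ⟨g, rfl⟩ := QuotientGroup.mk_surjective x
    obtain ⟨f, hf, hfc, -⟩ := exists_common hn c c
    have h1 : f ∈ Bs c (g : Matrix.SpecialLinearGroup (Fin n) F ⧸ H) := by rw [hx]; exact hfc
    have e : (g : Matrix.SpecialLinearGroup (Fin n) F ⧸ H) = g • ((1 : Matrix.SpecialLinearGroup (Fin n) F) : Matrix.SpecialLinearGroup (Fin n) F ⧸ H) := by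
      rw [MulAction.Quotient.smul_coe, smul_eq_mul, mul_one]
    have h2 := mem_Bs_smul g (((g⁻¹ : Matrix.SpecialLinearGroup (Fin n) F) : Matrix (Fin n) (Fin n) F) *ᵥ c) f ((1 : Matrix.SpecialLinearGroup (Fin n) F) : Matrix.SpecialLinearGroup (Fin n) F ⧸ H)
    rw [inv_mv, ← e] at h2
    have h3 := mem_Bs_one.mp (h2.mp h1)
    refine no_tv hn hH hidx ?_ ?_ h3.1 h3.2
    · intro h0
      apply hc
      have := inv_mv g c
      rw [h0, mulVec_zero] at this
      exact this.symm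
    · intro h0
      apply hf
      have := vm_inv g f
      rw [h0, zero_vecMul] at this
      exact this.symm
  obtain ⟨x0, hx0⟩ := exists_bot hX hc
  have h1 := mem_orb_of_ne hX hc hx0 (key ((1 : Matrix.SpecialLinearGroup (Fin n) F) : Matrix.SpecialLinearGroup (Fin n) F ⧸ H))
  have h2 := mem_orb_of_ne hX hc hx0 (key (g : Matrix.SpecialLinearGroup (Fin n) F ⧸ H))
  have h3 := orb_trans (orb_symm h2) h1
  obtain ⟨f, hf, h4⟩ := mem_orb.mp h3
  refine ⟨f, hf, ?_⟩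
  rw [MulAction.Quotient.smul_coe, smul_eq_mul, eq_comm, QuotientGroup.eq, inv_one, one_mul] at h4
  exact h4

end sub

/-- The conclusions drawn from a small index: `H` contains no transvection, and the transvections of a given centre are
transitive on cosets. -/
structure Bad {F : Type*} [Field F] {n : ℕ} (H : Subgroup (Matrix.SpecialLinearGroup (Fin n) F)) : Prop where
  no : ∀ c f : Fin n → F, c ≠ 0 → f ≠ 0 → f ⬝ᵥ c = 0 → tv c f ∉ H
  ex : ∀ c : Fin n → F, c ≠ 0 → ∀ g, ∃ f : Fin n → F, f ⬝ᵥ c = 0 ∧ tv c f * g ∈ H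

section bad

variable {F : Type*} [Field F] {n : ℕ} {H : Subgroup (Matrix.SpecialLinearGroup (Fin n) F)}

theorem Bad.pr (hH : Bad H) {h h' : Matrix.SpecialLinearGroup (Fin n) F} (hh : h ∈ H) (hh' : h' ∈ H) {c δ : Fin n → F} (hc : c ≠ 0)
    (heq : (h : Matrix (Fin n) (Fin n) F) = h' + vecMulVec c δ) : δ = 0 := by
  by_contra hδ
  have e1 : ((h * h'⁻¹ : Matrix.SpecialLinearGroup (Fin n) F) : Matrix (Fin n) (Fin n) F) =
      1 + vecMulVec c (δ ᵥ* ((h'⁻¹ : Matrix.SpecialLinearGroup (Fin n) F) : Matrix (Fin n) (Fin n) F)) := by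
    rw [Matrix.SpecialLinearGroup.coe_mul, heq, add_mul, mul_inv_coe, vv_mul_mat]
  have hdet : (δ ᵥ* ((h'⁻¹ : Matrix.SpecialLinearGroup (Fin n) F) : Matrix (Fin n) (Fin n) F)) ⬝ᵥ c = 0 := by
    have h1 : ((h * h'⁻¹ : Matrix.SpecialLinearGroup (Fin n) F) : Matrix (Fin n) (Fin n) F).det = 1 := (h * h'⁻¹).2
    rw [e1, Matrix.vecMulVec_eq Unit, Matrix.det_one_add_replicateCol_mul_replicateRow] at h1
    exact add_eq_left.mp h1
  have e2 : h * h'⁻¹ = tv c (δ ᵥ* ((h'⁻¹ : Matrix.SpecialLinearGroup (Fin n) F) : Matrix (Fin n) (Fin n) F)) := by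
    apply sl_ext
    rw [tv_coe _ _ hdet, e1]
  refine hH.no c _ hc ?_ hdet (e2 ▸ H.mul_mem hh (H.inv_mem hh'))
  intro h0
  apply hδ
  have := inv_vm h' δ
  rw [h0, zero_vecMul] at this
  exact this.symm

/-- elements `1 + u ⊗ f + c ⊗ θ` of `H`. -/
def P (H : Subgroup (Matrix.SpecialLinearGroup (Fin n) F)) (c u f θ : Fin n → F) : Prop :=
  ∃ h ∈ H, (h : Matrix (Fin n) (Fin n) F) = 1 + vecMulVec u f + vecMulVec c θ

theorem Bad.exP (hH : Bad H) {c u f : Fin n → F} (hc : c ≠ 0) (hfc : f ⬝ᵥ c = 0) (hfu : f ⬝ᵥ u = 0) :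
    ∃ θ : Fin n → F, θ ⬝ᵥ c = 0 ∧ P H c u f θ := by
  obtain ⟨φ, hφ, hm⟩ := hH.ex c hc (tv u f)
  refine ⟨φ + (φ ⬝ᵥ u) • f, by rw [add_dotProduct, hφ, smul_dotProduct, hfc, smul_zero, add_zero], _, hm, ?_⟩
  rw [Matrix.SpecialLinearGroup.coe_mul, tv_coe c φ hφ, tv_coe u f hfu, add_mul, one_mul, mul_add, mul_one, vv_mul,
    vv_add_right, vv_smul_right]

theorem Bad.f3 (hH : Bad H) {c u f θ : Fin n → F} (hc : c ≠ 0) (hf : f ≠ 0) (hu : u ∉ Submodule.span F {c})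
    (hP : P H c u f θ) : ∀ a : F, θ ≠ a • f := by
  intro a ha
  obtain ⟨h, hh, e⟩ := hP
  have h0 : u + a • c ≠ 0 := by
    intro h0
    apply hu
    rw [Submodule.mem_span_singleton]
    exact ⟨-a, by rw [neg_smul]; exact (eq_neg_of_add_eq_zero_left h0).symm⟩
  have := hH.pr hh H.one_mem (c := u + a • c) (δ := f) h0 (by
    rw [e, ha, Matrix.SpecialLinearGroup.coe_one, vv_add_left, vv_smul_left, vv_smul_right, add_assoc])
  exact hf this

theorem Bad.lemA (hH : Bad H) {c u f θ x y η : Fin n → F} (hc : c ≠ 0) (hfc : f ⬝ᵥ c = 0) (hyc : y ⬝ᵥ c = 0)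
    (hθc : θ ⬝ᵥ c = 0) (hηc : η ⬝ᵥ c = 0) (h1 : P H c u f θ) (h2 : P H c x y η) (hfx : f ⬝ᵥ x = 0) (hyu : y ⬝ᵥ u = 0) :
    (θ ⬝ᵥ x) • y = (η ⬝ᵥ u) • f := by
  obtain ⟨h, hh, e⟩ := h1
  obtain ⟨k, hk, e'⟩ := h2
  rw [← sub_eq_zero]
  apply hH.pr (H.mul_mem hh hk) (H.mul_mem hk hh) hc
  rw [Matrix.SpecialLinearGroup.coe_mul, Matrix.SpecialLinearGroup.coe_mul, e, e']
  simp only [add_mul, mul_add, one_mul, mul_one, vv_mul, hfx, hfc, hyu, hyc, hθc, hηc, zero_smul, add_zero]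
  have e3 : vecMulVec c ((θ ⬝ᵥ x) • y - (η ⬝ᵥ u) • f) = (θ ⬝ᵥ x) • vecMulVec c y - (η ⬝ᵥ u) • vecMulVec c f := by
    rw [sub_eq_add_neg, vv_add_right, vv_neg_right, vv_smul_right, vv_smul_right, sub_eq_add_neg]
  rw [e3]
  abel

/-- Lemma Z: with a scalar of order not dividing `n`. -/
theorem Bad.lemZ (hH : Bad H) (hn : 3 ≤ n) {μ : F} (hμ : μ ≠ 0) (hμn : μ ^ n ≠ 1) : False := by
  obtain ⟨c, hc⟩ : ∃ c : Fin n → F, c ≠ 0 := by
    obtain ⟨w, hw⟩ := exists_notMem_span_singleton (F := F) (n := n) (by omega) 0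
    exact ⟨w, fun h => hw (by rw [h]; exact Submodule.zero_mem _)⟩
  -- element g = μ + c ⊗ φ
  obtain ⟨φ, hφ⟩ := exists_dot_eq (f := c) hc ((μ ^ (n - 1))⁻¹ - μ)
  rw [dotProduct_comm] at hφ
  have hdet : (μ • (1 : Matrix (Fin n) (Fin n) F) + vecMulVec c φ).det = 1 := by
    have e : μ • (1 : Matrix (Fin n) (Fin n) F) + vecMulVec c φ = μ • (1 + vecMulVec (μ⁻¹ • c) φ) := by
      rw [smul_add, vv_smul_left, smul_smul, mul_inv_cancel₀ hμ, one_smul]
    rw [e, Matrix.det_smul, Fintype.card_fin, Matrix.vecMulVec_eq Unit, Matrix.det_one_add_replicateCol_mul_replicateRow,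
      dotProduct_smul, hφ, smul_eq_mul]
    obtain ⟨k, rfl⟩ : ∃ k, n = k + 1 := ⟨n - 1, by omega⟩
    rw [Nat.add_sub_cancel]
    field_simp
    ring
  obtain ⟨ψ, hψ, hm⟩ := hH.ex c hc (mkSL _ hdet)
  obtain ⟨z, hz⟩ : ∃ z, z = tv c ψ * mkSL _ hdet := ⟨_, rfl⟩
  rw [← hz] at hm
  obtain ⟨φ', hφ'⟩ : ∃ φ', φ' = φ + μ • ψ := ⟨_, rfl⟩
  have hzc : (z : Matrix (Fin n) (Fin n) F) = μ • (1 : Matrix (Fin n) (Fin n) F) + vecMulVec c φ' + vecMulVec c ((ψ ⬝ᵥ c) • φ) := by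
    rw [hz, Matrix.SpecialLinearGroup.coe_mul, tv_coe c ψ hψ, mkSL_coe, hφ', vv_add_right, vv_smul_right, vv_smul_right, add_mul, one_mul, mul_add, vv_mul,
      Matrix.mul_smul, mul_one]
    abel
  rw [hψ, zero_smul, vv_zero_right, add_zero] at hzc
  have hφ'c : φ' ⬝ᵥ c ≠ 0 := by
    rw [hφ', add_dotProduct, smul_dotProduct, hψ, smul_zero, add_zero, hφ, sub_ne_zero]
    intro h
    apply hμn
    obtain ⟨k, rfl⟩ : ∃ k, n = k + 1 := ⟨n - 1, by omega⟩
    rw [Nat.add_sub_cancel] at h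
    rw [pow_succ]
    nth_rewrite 2 [← h]
    exact mul_inv_cancel₀ (pow_ne_zero _ hμ)
  obtain ⟨u, hu⟩ := exists_notMem_span_singleton (F := F) (n := n) (by omega) c
  obtain ⟨f, hf, hfc, hfu⟩ := exists_common hn c u
  obtain ⟨θ, hθc, hP⟩ := hH.exP hc hfc hfu
  obtain ⟨h, hh, e⟩ := id hP
  have key : (φ' ⬝ᵥ u) • f + (φ' ⬝ᵥ c) • θ = 0 := by
    apply hH.pr (H.mul_mem hm hh) (H.mul_mem hh hm) hc
    rw [Matrix.SpecialLinearGroup.coe_mul, Matrix.SpecialLinearGroup.coe_mul, hzc, e]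
    have e3 : vecMulVec c ((φ' ⬝ᵥ u) • f + (φ' ⬝ᵥ c) • θ) = (φ' ⬝ᵥ u) • vecMulVec c f + (φ' ⬝ᵥ c) • vecMulVec c θ := by
      rw [vv_add_right, vv_smul_right, vv_smul_right]
    rw [e3]
    simp only [add_mul, mul_add, one_mul, mul_one, vv_mul, hfc, hθc, zero_smul, add_zero, Matrix.smul_mul, Matrix.mul_smul]
    abel
  have : θ = (-((φ' ⬝ᵥ c)⁻¹ * (φ' ⬝ᵥ u))) • f := by
    have h1 : (φ' ⬝ᵥ c) • θ = -((φ' ⬝ᵥ u) • f) := eq_neg_of_add_eq_zero_right key
    have h2 : θ = (φ' ⬝ᵥ c)⁻¹ • ((φ' ⬝ᵥ c) • θ) := by rw [smul_smul, inv_mul_cancel₀ hφ'c, one_smul]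
    rw [h2, h1, smul_neg, smul_smul, neg_smul]
  exact hH.f3 hc hf hu hP _ this

end bad

end Cfsg.Agent.Lib.MinIdxEnd
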