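import Mathlib
import Cfsg.Agent.Lib.MinIdxEnd

/-!
Proper subgroups of `SL_n(q)` and `PSL_n(q)`, `n ≥ 3`, `(n,q) ≠ (4,2)`, have index at least `(q^n - 1)/(q - 1)`.
-/
set_option autoImplicit false

namespace Cfsg.Agent.Lib.MinIdxSL

open Matrix MinIdxTv MinIdxFour MinIdxAct MinIdxCount MinIdxCase MinIdxEnd

section bad

variable {F : Type*} [Field F] {n : ℕ} {H : Subgroup (Matrix.SpecialLinearGroup (Fin n) F)}

theorem exists_notMem_span_finset (S : Finset (Fin n → F)) (hS : S.card < n) : ∃ w, w ∉ Submodule.span F (S : Set (Fin n → F)) := by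
  by_contra h
  push Not at h
  have htop : Submodule.span F (S : Set (Fin n → F)) = ⊤ := by
    rw [eq_top_iff]; intro w _; exact h w
  have h1 := finrank_span_finset_le_card (R := F) S
  rw [Set.finrank, htop, finrank_top, Module.finrank_fin_fun] at h1
  omega

theorem exists_indep_functional [DecidableEq F] (S : Finset (Fin n → F)) (hS : S.card + 1 < n) {f : Fin n → F} (hf : f ≠ 0) :
    ∃ y : Fin n → F, (∀ x ∈ S, y ⬝ᵥ x = 0) ∧ ∀ a b : F, a • y = b • f → a = 0 := by
  obtain ⟨d, hd⟩ := exists_dot_eq hf 1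
  obtain ⟨w, hw⟩ := exists_notMem_span_finset (insert d S) (lt_of_le_of_lt (Finset.card_insert_le _ _) hS)
  obtain ⟨y, hy, hyw⟩ := exists_dot hw
  refine ⟨y, fun x hx => hy x (Submodule.subset_span (by simp [hx])), ?_⟩
  intro a b hab
  have hyd : y ⬝ᵥ d = 0 := hy d (Submodule.subset_span (by simp))
  have h1 := congrArg (fun z => z ⬝ᵥ d) hab
  simp only [smul_dotProduct, hyd, hd, smul_eq_mul, mul_one, mul_zero] at h1
  have h2 := congrArg (fun z => z ⬝ᵥ w) hab
  simp only [smul_dotProduct, hyw, ← h1, smul_eq_mul, mul_one, zero_mul] at h2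
  exact h2

theorem exists_start (hn : 3 ≤ n) : ∃ c u f : Fin n → F, c ≠ 0 ∧ u ∉ Submodule.span F {c} ∧ f ≠ 0 ∧ f ⬝ᵥ c = 0 ∧ f ⬝ᵥ u = 0 := by
  obtain ⟨c, hc⟩ : ∃ c : Fin n → F, c ≠ 0 := by
    obtain ⟨w, hw⟩ := exists_notMem_span_singleton (F := F) (n := n) (by omega) 0
    exact ⟨w, fun h => hw (by rw [h]; exact Submodule.zero_mem _)⟩
  obtain ⟨u, hu⟩ := exists_notMem_span_singleton (F := F) (n := n) (by omega) c
  obtain ⟨f, hf, hfc, hfu⟩ := exists_common hn c u
  exact ⟨c, u, f, hc, hu, hf, hfc, hfu⟩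

theorem bad5 (hH : Bad H) (hn : 5 ≤ n) : False := by
  classical
  obtain ⟨c, u, f, hc, hu, hf, hfc, hfu⟩ := exists_start (F := F) (n := n) (by omega)
  obtain ⟨θ, hθc, hP⟩ := hH.exP hc hfc hfu
  have hker : ∀ x : Fin n → F, f ⬝ᵥ x = 0 → θ ⬝ᵥ x = 0 := by
    intro x hx
    obtain ⟨y, hy, hyf⟩ := exists_indep_functional ({c, u, x} : Finset (Fin n → F))
      (lt_of_le_of_lt (Nat.succ_le_succ Finset.card_le_three) (by omega)) hf
    have hyc := hy c (by simp)
    have hyu := hy u (by simp)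
    have hyx := hy x (by simp)
    obtain ⟨η, hηc, hP'⟩ := hH.exP hc hyc hyx
    exact hyf _ _ (hH.lemA hc hfc hyc hθc hηc hP hP' hx hyu)
  obtain ⟨a, ha⟩ := mem_span_of_ker hf hker
  exact hH.f3 hc hf hu hP a ha

theorem bad4 (hH : Bad H) (hn : 4 ≤ n) (h2 : (2 : F) ≠ 0) : False := by
  classical
  obtain ⟨c, u, f, hc, hu, hf, hfc, hfu⟩ := exists_start (F := F) (n := n) (by omega)
  have hA1 : ∀ u θ : Fin n → F, f ⬝ᵥ u = 0 → θ ⬝ᵥ c = 0 → P H c u f θ → θ ⬝ᵥ u = 0 := by
    intro u θ hfu hθc hP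
    obtain ⟨y, hy, hyf⟩ := exists_indep_functional ({c, u} : Finset (Fin n → F))
      (lt_of_le_of_lt (Nat.succ_le_succ Finset.card_le_two) (by omega)) hf
    have hyc := hy c (by simp)
    have hyu := hy u (by simp)
    obtain ⟨η, hηc, hP'⟩ := hH.exP hc hyc hyu
    exact hyf _ _ (hH.lemA hc hfc hyc hθc hηc hP hP' hfu hyu)
  obtain ⟨θ, hθc, hP⟩ := hH.exP hc hfc hfu
  have hker : ∀ x : Fin n → F, f ⬝ᵥ x = 0 → θ ⬝ᵥ x = 0 := by
    intro x hx
    obtain ⟨η, hηc, hP'⟩ := hH.exP hc hfc hx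
    have h1 := hH.lemA hc hfc hfc hθc hηc hP hP' hx hfu
    have h3 : θ ⬝ᵥ x = η ⬝ᵥ u := by
      have : (θ ⬝ᵥ x - η ⬝ᵥ u) • f = 0 := by rw [sub_smul, h1, sub_self]
      rcases smul_eq_zero.mp this with h | h
      · exact sub_eq_zero.mp h
      · exact absurd h hf
    have h4 := hA1 u θ hfu hθc hP
    have h5 := hA1 x η hx hηc hP'
    have hsum : P H c (u + x) f (θ + η + (θ ⬝ᵥ x) • f) := by
      obtain ⟨h, hh, e⟩ := hP
      obtain ⟨k, hk, e'⟩ := hP'
      refine ⟨h * k, H.mul_mem hh hk, ?_⟩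
      rw [Matrix.SpecialLinearGroup.coe_mul, e, e']
      simp only [add_mul, mul_add, one_mul, mul_one, vv_mul, hx, hfc, hθc, hηc, zero_smul, add_zero, vv_add_left, vv_add_right,
        vv_smul_right]
      abel
    have h6 := hA1 (u + x) _ (by rw [dotProduct_add, hfu, hx, add_zero])
      (by rw [add_dotProduct, add_dotProduct, smul_dotProduct, hθc, hηc, hfc, smul_zero, add_zero, add_zero]) hsum
    rw [add_dotProduct, add_dotProduct, smul_dotProduct, dotProduct_add, dotProduct_add, dotProduct_add, h4, h5, hfu, hx, ← h3] at h6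
    have h7 : 2 * (θ ⬝ᵥ x) = 0 := by
      have : 2 * (θ ⬝ᵥ x) = 0 + θ ⬝ᵥ x + (θ ⬝ᵥ x + 0) + (θ ⬝ᵥ x) • (0 + 0 : F) := by
        simp only [add_zero, smul_zero, smul_eq_mul, mul_zero]; ring
      rw [this, h6]
    exact (mul_eq_zero.mp h7).resolve_left h2
  obtain ⟨a, ha⟩ := mem_span_of_ker hf hker
  exact hH.f3 hc hf hu hP a ha

theorem bad3odd (hH : Bad H) (hn : n = 3) (h2 : (2 : F) ≠ 0) : False := by
  apply hH.lemZ (by omega) (μ := -1) (neg_ne_zero.mpr one_ne_zero)
  rw [hn]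
  intro h
  apply h2
  have : (-1 : F) ^ 3 = -1 := by ring
  rw [this] at h
  linear_combination -h

theorem bad4even [Fintype F] (hH : Bad H) (hn : n = 4) (h2 : (2 : F) = 0) (hq : 2 < Fintype.card F) : False := by
  classical
  obtain ⟨μ, -, hμ⟩ : ∃ μ ∈ (Finset.univ : Finset F), μ ∉ ({0, 1} : Finset F) := by
    apply Finset.exists_mem_notMem_of_card_lt_card
    rw [Finset.card_univ]
    exact lt_of_le_of_lt Finset.card_le_two hq
  rw [Finset.mem_insert, Finset.mem_singleton, not_or] at hμ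
  apply hH.lemZ (by omega) hμ.1
  rw [hn]
  intro h
  apply hμ.2
  have h4 : (μ + 1) ^ 4 = 0 := by
    linear_combination h + (2 * μ ^ 3 + 3 * μ ^ 2 + 2 * μ + 1) * h2
  have h5 : μ + 1 = 0 := pow_eq_zero_iff (by norm_num) |>.mp h4
  linear_combination h5 - h2

theorem bad3even [Fintype F] (hH : Bad H) (hn : n = 3) (h2 : (2 : F) = 0) : False := by
  classical
  obtain ⟨c, u, f, hc, hu, hf, hfc, hfu⟩ := exists_start (F := F) (n := n) (by omega)
  obtain ⟨θ, hθc, hP⟩ := hH.exP hc hfc hfu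
  obtain ⟨h, hh, e⟩ := id hP
  have h1 : (θ ⬝ᵥ u) • f = 0 := by
    apply hH.pr (H.mul_mem hh hh) H.one_mem hc
    rw [Matrix.SpecialLinearGroup.coe_mul, Matrix.SpecialLinearGroup.coe_one, e]
    simp only [add_mul, mul_add, one_mul, mul_one, vv_mul, hfu, hfc, hθc, zero_smul, add_zero, vv_smul_right]
    have e2 : ∀ A : Matrix (Fin n) (Fin n) F, A + A = 0 := by
      intro A
      rw [← two_smul F, h2, zero_smul]
    have e3 := e2 (vecMulVec u f)
    have e4 := e2 (vecMulVec c θ)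
    calc 1 + vecMulVec u f + vecMulVec c θ + (vecMulVec u f + (θ ⬝ᵥ u) • vecMulVec c f) + vecMulVec c θ
        = 1 + (vecMulVec u f + vecMulVec u f) + (vecMulVec c θ + vecMulVec c θ) + (θ ⬝ᵥ u) • vecMulVec c f := by abel
      _ = _ := by rw [e3, e4, add_zero, add_zero]
  have h3 : θ ⬝ᵥ u = 0 := (smul_eq_zero.mp h1).resolve_right hf
  have hU := card_U2 (F := F) (n := n) (by omega) hc hu
  have hle : (Submodule.span F {f}).toAddSubgroup ≤ (Wc c ⊓ Wc u : Submodule F (Fin n → F)).toAddSubgroup := by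
    intro x hx
    obtain ⟨a, rfl⟩ := Submodule.mem_span_singleton.mp hx
    exact Submodule.smul_mem (Wc c ⊓ Wc u) _ ⟨hfc, hfu⟩
  have heq : (Submodule.span F {f}).toAddSubgroup = (Wc c ⊓ Wc u : Submodule F (Fin n → F)).toAddSubgroup := by
    apply AddSubgroup.eq_of_le_of_card_ge hle
    have e5 : Nat.card (Submodule.span F {f}).toAddSubgroup = Fintype.card F := card_span_singleton hf
    have e6 : Nat.card (Wc c ⊓ Wc u : Submodule F (Fin n → F)).toAddSubgroup = Fintype.card F ^ (n - 2) := hU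
    rw [e5, e6, hn]
    simp
  have hmem : θ ∈ (Submodule.span F {f}).toAddSubgroup := by
    rw [heq]; exact ⟨hθc, h3⟩
  obtain ⟨a, ha⟩ := Submodule.mem_span_singleton.mp hmem
  exact hH.f3 hc hf hu hP a ha.symm

theorem sl_min_index [Fintype F] (hn : 3 ≤ n) (hexc : ¬ (n = 4 ∧ Fintype.card F = 2)) (H : Subgroup (Matrix.SpecialLinearGroup (Fin n) F))
    (hH : H ≠ ⊤) : Fintype.card F ^ n - 1 ≤ H.index * (Fintype.card F - 1) := by
  by_contra hcon
  push Not at hcon
  have hB : Bad H := ⟨fun c f hc hf hfc => no_tv hn hH hcon hc hf hfc, fun c hc g => exists_tv_mul hn hH hcon hc g⟩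
  by_cases h5 : 5 ≤ n
  · exact bad5 hB h5
  by_cases h2 : (2 : F) = 0
  · by_cases h4 : n = 4
    · have hq := two_le_card (F := F)
      exact bad4even hB h4 h2 (by
        have : Fintype.card F ≠ 2 := fun h => hexc ⟨h4, h⟩
        omega)
    · exact bad3even hB (by omega) h2
  · by_cases h4 : 4 ≤ n
    · exact bad4 hB h4 h2
    · exact bad3odd hB (by omega) h2

theorem psl_min_index [Fintype F] (hn : 3 ≤ n) (hexc : ¬ (n = 4 ∧ Fintype.card F = 2))
    (H : Subgroup (Matrix.ProjectiveSpecialLinearGroup (Fin n) F)) (hH : H ≠ ⊤) :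
    (Fintype.card F ^ n - 1) / (Fintype.card F - 1) ≤ H.index := by
  have hsurj : Function.Surjective (QuotientGroup.mk' (Subgroup.center (Matrix.SpecialLinearGroup (Fin n) F))) :=
    QuotientGroup.mk'_surjective _
  have h1 : H.comap (QuotientGroup.mk' (Subgroup.center (Matrix.SpecialLinearGroup (Fin n) F))) ≠ ⊤ := by
    intro h
    apply hH
    rw [← Subgroup.map_comap_eq_self_of_surjective hsurj H, h]
    exact Subgroup.map_top_of_surjective _ hsurj
  have h2 := sl_min_index hn hexc _ h1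
  rw [Subgroup.index_comap_of_surjective _ hsurj] at h2
  apply Nat.div_le_of_le_mul
  rw [mul_comm]
  exact h2

theorem psl_exists_index [Fintype F] (hn : 3 ≤ n) :
    ∃ H : Subgroup (Matrix.ProjectiveSpecialLinearGroup (Fin n) F), H.index = (Fintype.card F ^ n - 1) / (Fintype.card F - 1) := by
  have : Nontrivial (Fin n) := Fin.nontrivial_iff_two_le.mpr (by omega)
  obtain ⟨c, u, f, hc, hu, hf, hfc, hfu⟩ := exists_start (F := F) (n := n) (by omega)
  refine ⟨MulAction.stabilizer _ (Projectivization.mk F c hc), ?_⟩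
  rw [MulAction.index_stabilizer_of_transitive, Projectivization.card'', Nat.card_fun, Nat.card_eq_fintype_card,
    Nat.card_eq_fintype_card, Fintype.card_fin]

end bad

end Cfsg.Agent.Lib.MinIdxSL
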