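import Cfsg.Agent.Lib.ClSymp

/-!
# Minimal index of `Sp(2m, 2)`: the unipotent radical of a point stabilizer (helper83)
-/

set_option autoImplicit false
set_option linter.all false

namespace Cfsg.Agent.Lib.MinSp2A

open Cfsg.Agent.Lib.ClIso Cfsg.Agent.Lib.ClSymp

variable {F : Type*} [Field F] {V : Type*} [AddCommGroup V] [Module F V] {B : LinearMap.BilinForm F V}

/-- the field with two elements -/
def Two (F : Type*) [Field F] : Prop := ∀ c : F, c = 0 ∨ c = 1

theorem Two.add_self (hF : Two F) (c : F) : c + c = 0 := by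
  have h1 : (1 : F) + 1 = 0 := by
    rcases hF (1 + 1) with h | h
    · exact h
    · exfalso
      have : (1 : F) = 0 := by linear_combination h
      exact one_ne_zero this
  linear_combination c * h1

theorem Two.vadd_self (hF : Two F) (x : V) : x + x = 0 := by
  have : x + x = ((1 : F) + 1) • x := by rw [add_smul, one_smul]
  rw [this, hF.add_self, zero_smul]

theorem Two.neg (hF : Two F) (c : F) : -c = c := by
  linear_combination (-1 : F) * hF.add_self c

theorem Two.mul_self (hF : Two F) (c : F) : c * c = c := by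
  rcases hF c with h | h <;> simp [h]

/-- the sign character -/
noncomputable def eps (c : F) : ℂ := by
  classical
  exact if c = 0 then 1 else -1

theorem eps_zero : eps (0 : F) = 1 := by simp [eps]

theorem eps_one : eps (1 : F) = -1 := by simp [eps]

theorem eps_add (hF : Two F) (a b : F) : eps (a + b) = eps a * eps b := by
  rcases hF a with h | h <;> rcases hF b with h' | h' <;> subst h <;> subst h'
  · simp [eps_zero]
  · simp [eps_zero]
  · simp [eps_zero]
  · rw [hF.add_self]; simp [eps_zero, eps_one]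

theorem eps_mul_self (hF : Two F) (a : F) : eps a * eps a = 1 := by
  rw [← eps_add hF, hF.add_self, eps_zero]

theorem eps_ne_zero (a : F) : eps a ≠ 0 := by
  unfold eps; split_ifs <;> norm_num

section orth

variable (U : Submodule F V) [Fintype U]

theorem sum_eps (hF : Two F) (w : V) (hw : ∃ a ∈ U, B a w ≠ 0) :
    ∑ a : U, eps (B (a : V) w) = 0 := by
  obtain ⟨b, hb, hbw⟩ := hw
  have hb1 : B b w = 1 := (hF _).resolve_left hbw
  have h : ∑ a : U, eps (B (a : V) w) = ∑ a : U, eps (B ((a + ⟨b, hb⟩ : U) : V) w) :=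
    (Equiv.sum_comp (Equiv.addRight (⟨b, hb⟩ : U)) (fun a : U => eps (B (a : V) w))).symm
  have h2 : ∀ a : U, eps (B ((a + ⟨b, hb⟩ : U) : V) w) = - eps (B (a : V) w) := by
    intro a
    rw [Submodule.coe_add, map_add, LinearMap.add_apply, eps_add hF]
    simp only [hb1, eps_one]
    ring
  simp only [h2, Finset.sum_neg_distrib] at h
  have h3 : (2 : ℂ) * ∑ a : U, eps (B (a : V) w) = 0 := by linear_combination h
  simpa using h3

end orth

/-! ### relations -/

section rel

variable (hB : IsSymp B)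

theorem sh_mul_sh (hF : Two F) (v a b : V) (ha : B v a = 0) (hb : B v b = 0) :
    sh hB 1 v a * sh hB 1 v b = tv hB (B a b) v * sh hB 1 v (a + b) := by
  have hab : B v (a + b) = 0 := by rw [map_add, ha, hb, add_zero]
  apply Spg_ext
  intro x
  rw [mul_apply', mul_apply', sh_apply hB 1 v a ha, sh_apply hB 1 v b hb, tv_apply,
    sh_apply hB 1 v (a + b) hab]
  have e1 : B v v = 0 := hB.alt v
  have e2 : B a v = 0 := by rw [hB.skew, ha, neg_zero]
  simp only [map_add, map_smul, LinearMap.add_apply, smul_eq_mul, one_mul, e1, e2, hb, ha, mul_zero,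
    add_zero, zero_add]
  module

theorem sh_self (hF : Two F) (v a : V) (ha : B v a = 0) : sh hB 1 v a * sh hB 1 v a = 1 := by
  rw [sh_mul_sh hB hF v a a ha ha, hB.alt, tv_zero, one_mul, hF.vadd_self]
  apply Spg_ext
  intro x
  rw [sh_apply hB 1 v 0 (map_zero _)]
  simp

theorem sh_zero (v : V) : sh hB 1 v 0 = 1 := by
  apply Spg_ext
  intro x
  rw [sh_apply hB 1 v 0 (map_zero _)]
  simp

theorem sh_inv' (hF : Two F) (v a : V) (ha : B v a = 0) : (sh hB 1 v a)⁻¹ = sh hB 1 v a := by
  rw [inv_eq_iff_mul_eq_one, sh_self hB hF v a ha]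

theorem sh_symm (hF : Two F) (v a : V) (ha : B v a = 0) : sh hB 1 v a = sh hB 1 a v := by
  have ha' : B a v = 0 := by rw [hB.skew, ha, neg_zero]
  apply Spg_ext
  intro x
  rw [sh_apply hB 1 v a ha, sh_apply hB 1 a v ha']
  abel

theorem sh_add_self (hF : Two F) (v a : V) (ha : B v a = 0) : sh hB 1 v (a + v) = sh hB 1 v a := by
  have ha' : B v (a + v) = 0 := by rw [map_add, ha, hB.alt, add_zero]
  apply Spg_ext
  intro x
  rw [sh_apply hB 1 v _ ha', sh_apply hB 1 v a ha]
  simp only [map_add, LinearMap.add_apply, one_mul, smul_add, add_smul]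
  have : B v x • v + B v x • v = 0 := hF.vadd_self _
  calc x + (B v x • a + B v x • v) + (B a x • v + B v x • v)
      = x + B v x • a + B a x • v + (B v x • v + B v x • v) := by abel
    _ = _ := by rw [this, add_zero]

theorem sh_third (hF : Two F) (v a : V) (ha : B v a = 0) : sh hB 1 v a = sh hB 1 (v + a) a := by
  have ha' : B a v = 0 := by rw [hB.skew, ha, neg_zero]
  rw [sh_symm hB hF v a ha, ← sh_add_self hB hF a v ha', sh_symm hB hF a (v + a)]
  rw [map_add, ha', hB.alt, add_zero]

theorem tv_comm_sh (v a : V) (ha : B v a = 0) (c : F) : tv hB c v * sh hB 1 v a = sh hB 1 v a * tv hB c v := by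
  have : sh hB 1 v a * tv hB c v * (sh hB 1 v a)⁻¹ = tv hB c v := by
    rw [tv_conj, sh_apply hB 1 v a ha, hB.alt]
    have e2 : B a v = 0 := by rw [hB.skew, ha, neg_zero]
    rw [e2]
    simp
  rw [mul_inv_eq_iff_eq_mul] at this
  exact this.symm

theorem tv_sq (hF : Two F) (v : V) : tv hB 1 v * tv hB 1 v = 1 := by
  rw [tv_mul, hF.add_self, tv_zero]

end rel

/-! ### eigenfunctions on a finite `G`-set -/

section act

variable {X : Type*} [MulAction (Spg B) X]

/-- `f` is an eigenfunction with character `u` -/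
def Eig (hB : IsSymp B) (v : V) (U : Submodule F V) (u : V) (f : X → ℂ) : Prop :=
  (∀ a ∈ U, ∀ x, f (sh hB 1 v a • x) = eps (B a u) * f x) ∧ ∀ x, f (tv hB 1 v • x) = f x

theorem eig_of_point (hB : IsSymp B) (hF : Two F) (v : V) (U : Submodule F V) [Fintype U]
    (hU : ∀ a ∈ U, B v a = 0) (x0 : X) (u0 : V)
    (h1 : ∀ a ∈ U, sh hB 1 v a • x0 = x0 → B a u0 = 0)
    (h2 : ∀ a ∈ U, tv hB 1 v • sh hB 1 v a • x0 = x0 → B a u0 = 0) :
    ∃ f : X → ℂ, Eig hB v U u0 f ∧ f x0 ≠ 0 ∧
      ∀ x, f x ≠ 0 → ∃ a ∈ U, x = sh hB 1 v a • x0 ∨ x = tv hB 1 v • sh hB 1 v a • x0 := by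
  classical
  -- the indicator sums
  let δ : X → X → ℂ := fun x y => if x = y then 1 else 0
  let f : X → ℂ := fun x => ∑ a : U, eps (B (a : V) u0) *
    (δ (sh hB 1 v (a : V) • x0) x + δ (tv hB 1 v • sh hB 1 v (a : V) • x0) x)
  have hδ : ∀ (g : Spg B) (x y : X), δ x (g • y) = δ (g⁻¹ • x) y := by
    intro g x y
    simp only [δ]
    have : (x = g • y) ↔ (g⁻¹ • x = y) := by
      rw [inv_smul_eq_iff]
    simp only [this]
  have hsum2 : ∀ c : F, ∀ g x, δ ((tv hB c v * g) • x0) x + δ ((tv hB 1 v * (tv hB c v * g)) • x0) x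
      = δ (g • x0) x + δ ((tv hB 1 v * g) • x0) x := by
    intro c g x
    rcases hF c with h | h
    · subst h; simp [tv_zero]
    · subst h
      rw [← mul_assoc, tv_sq hB hF, one_mul, add_comm]
  refine ⟨f, ⟨?_, ?_⟩, ?_, ?_⟩
  · intro b hb x
    simp only [f, hδ, sh_inv' hB hF v b (hU b hb)]
    -- rewrite the two terms
    have e : ∀ a : U, δ (sh hB 1 v b • sh hB 1 v (a : V) • x0) x +
        δ (sh hB 1 v b • tv hB 1 v • sh hB 1 v (a : V) • x0) x =
        δ (sh hB 1 v (b + a) • x0) x + δ (tv hB 1 v • sh hB 1 v (b + a) • x0) x := by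
      intro a
      have e1 : sh hB 1 v b • tv hB 1 v • sh hB 1 v (a : V) • x0 =
          (tv hB 1 v * (tv hB (B b (a : V)) v * sh hB 1 v (b + a))) • x0 := by
        rw [smul_smul, smul_smul, ← tv_comm_sh hB v b (hU b hb), mul_assoc,
          sh_mul_sh hB hF v b a (hU b hb) (hU a a.2)]
      have e2 : sh hB 1 v b • sh hB 1 v (a : V) • x0 =
          (tv hB (B b (a : V)) v * sh hB 1 v (b + a)) • x0 := by
        rw [smul_smul, sh_mul_sh hB hF v b a (hU b hb) (hU a a.2)]
      rw [e1, e2, hsum2, smul_smul]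
    simp only [e]
    rw [Finset.mul_sum, ← Equiv.sum_comp (Equiv.addLeft (⟨b, hb⟩ : U))
      (fun a : U => eps (B b u0) * (eps (B (a : V) u0) *
        (δ (sh hB 1 v (a : V) • x0) x + δ (tv hB 1 v • sh hB 1 v (a : V) • x0) x)))]
    refine Finset.sum_congr rfl fun a _ => ?_
    have e3 : ((Equiv.addLeft (⟨b, hb⟩ : U)) a : V) = b + a := rfl
    rw [e3, map_add, LinearMap.add_apply, eps_add hF, ← mul_assoc, ← mul_assoc,
      eps_mul_self hF, one_mul]
  · intro x
    simp only [f, hδ]
    refine Finset.sum_congr rfl fun a _ => ?_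
    have e0 : (tv hB 1 v)⁻¹ = tv hB 1 v := by
      rw [inv_eq_iff_mul_eq_one, tv_sq hB hF]
    rw [e0]
    have e1 : tv hB 1 v • tv hB 1 v • sh hB 1 v (a : V) • x0 = sh hB 1 v (a : V) • x0 := by
      rw [smul_smul, tv_sq hB hF, one_smul]
    rw [e1, add_comm]
  · -- value at `x0`
    have hval : f x0 = ((∑ a : U, ((if sh hB 1 v (a : V) • x0 = x0 then (1 : ℝ) else 0) +
        (if tv hB 1 v • sh hB 1 v (a : V) • x0 = x0 then (1 : ℝ) else 0)) : ℝ) : ℂ) := by
      simp only [f, δ]
      push_cast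
      refine Finset.sum_congr rfl fun a _ => ?_
      by_cases hA : sh hB 1 v (a : V) • x0 = x0
      · rw [h1 a a.2 hA, eps_zero, one_mul]
        split_ifs <;> simp
      · by_cases hC : tv hB 1 v • sh hB 1 v (a : V) • x0 = x0
        · rw [h2 a a.2 hC, eps_zero, one_mul]
          split_ifs <;> simp
        · simp [hA, hC]
    rw [hval, Complex.ofReal_ne_zero]
    apply ne_of_gt
    refine Finset.sum_pos' (fun a _ => by positivity) ⟨0, Finset.mem_univ _, ?_⟩
    have : sh hB 1 v ((0 : U) : V) • x0 = x0 := by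
      rw [Submodule.coe_zero, sh_zero, one_smul]
    rw [if_pos this]
    positivity
  · intro x hx
    by_contra hcon
    push Not at hcon
    apply hx
    simp only [f, δ]
    refine Finset.sum_eq_zero fun a _ => ?_
    have := hcon a a.2
    rw [if_neg (fun h => this.1 h.symm), if_neg (fun h => this.2 h.symm)]
    simp

theorem eig_move (hB : IsSymp B) (v : V) (U : Submodule F V) (g : Spg B)
    (hgv : (g : V ≃ₗ[F] V) v = v) (hgU : ∀ a ∈ U, ((g⁻¹ : Spg B) : V ≃ₗ[F] V) a ∈ U) (u0 : V)
    {f : X → ℂ} (hf : Eig hB v U u0 f) :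
    Eig hB v U ((g : V ≃ₗ[F] V) u0) (fun x => f (g⁻¹ • x)) := by
  have hgv' : ((g⁻¹ : Spg B) : V ≃ₗ[F] V) v = v := by
    have := inv_apply_self' g v
    rw [hgv] at this
    exact this
  constructor
  · intro a ha x
    have e : g⁻¹ • sh hB 1 v a • x = sh hB 1 v (((g⁻¹ : Spg B) : V ≃ₗ[F] V) a) • g⁻¹ • x := by
      rw [smul_smul, smul_smul]
      congr 1
      have := sh_conj hB g⁻¹ 1 v a
      rw [hgv'] at this
      rw [← this]
      group
    simp only [e]
    rw [hf.1 _ (hgU a ha)]
    congr 2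
    have := Spg_apply g (((g⁻¹ : Spg B) : V ≃ₗ[F] V) a) u0
    rw [← this]
    congr 1
    have h2 := inv_apply_self' g⁻¹ a
    rw [inv_inv] at h2
    rw [h2]
  · intro x
    have e : g⁻¹ • tv hB 1 v • x = tv hB 1 v • g⁻¹ • x := by
      rw [smul_smul, smul_smul]
      congr 1
      have := tv_conj hB g⁻¹ 1 v
      rw [hgv', inv_inv] at this
      calc g⁻¹ * tv hB 1 v = (g⁻¹ * tv hB 1 v * g) * g⁻¹ := by group
        _ = tv hB 1 v * g⁻¹ := by rw [this]
    simp only [e]
    exact hf.2 _

/-- the number of points carrying all characters of `U` -/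
theorem card_le (hB : IsSymp B) (hF : Two F) (v : V) (U : Submodule F V) [Fintype U]
    (hnd : ∀ u ∈ U, u ≠ 0 → ∃ w ∈ U, B w u ≠ 0) (hU : ∀ a ∈ U, B v a = 0)
    (f : U → X → ℂ) (hf : ∀ u : U, Eig hB v U (u : V) (f u)) (R : Finset X)
    (hR : ∀ u : U, ∃ x, f u x ≠ 0)
    (hres : ∀ c : U → ℂ, (∀ r ∈ R, ∑ u, c u * f u r = 0) → ∀ x, ∑ u, c u * f u x = 0) :
    Fintype.card U ≤ R.card := by
  classical
  have hind : ∀ c : U → ℂ, (∀ x, ∑ u, c u * f u x = 0) → ∀ u, c u = 0 := by
    intro c hc u'
    obtain ⟨x, hx⟩ := hR u'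
    have h0 : ∑ a : U, eps (B (a : V) (u' : V)) * ∑ u, c u * f u (sh hB 1 v (a : V) • x) = 0 := by
      simp only [hc, mul_zero, Finset.sum_const_zero]
    have h1 : ∑ a : U, eps (B (a : V) (u' : V)) * ∑ u, c u * f u (sh hB 1 v (a : V) • x) =
        ∑ u, c u * f u x * ∑ a : U, eps (B (a : V) ((u + u' : U) : V)) := by
      simp only [Finset.mul_sum]
      rw [Finset.sum_comm]
      refine Finset.sum_congr rfl fun u _ => Finset.sum_congr rfl fun a _ => ?_
      rw [(hf u).1 a a.2 x, Submodule.coe_add, map_add, eps_add hF]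
      ring
    rw [h1, Finset.sum_eq_single u'] at h0
    · have e : (u' + u' : U) = 0 := by
        apply Subtype.ext
        rw [Submodule.coe_add, Submodule.coe_zero]
        exact hF.vadd_self _
      rw [e] at h0
      simp only [Submodule.coe_zero, map_zero, eps_zero, Finset.sum_const, Finset.card_univ,
        nsmul_eq_mul, mul_one] at h0
      have hc0 : ((Fintype.card U : ℕ) : ℂ) ≠ 0 := by
        exact_mod_cast Fintype.card_ne_zero
      have := (mul_eq_zero.1 h0).resolve_right hc0
      exact (mul_eq_zero.1 this).resolve_right hx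
    · intro u _ hu
      have hne : ((u + u' : U) : V) ≠ 0 := by
        intro h
        apply hu
        apply Subtype.ext
        rw [Submodule.coe_add] at h
        have h2 := hF.vadd_self (u' : V)
        calc (u : V) = (u : V) + ((u' : V) + u') := by rw [h2, add_zero]
          _ = ((u : V) + u') + u' := by abel
          _ = u' := by rw [h, zero_add]
      rw [sum_eps U hF _ (hnd _ (u + u').2 hne), mul_zero]
    · intro h; exact absurd (Finset.mem_univ _) h
  have hli : LinearIndependent ℂ (fun (u : U) (r : R) => f u r) := by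
    rw [Fintype.linearIndependent_iff]
    intro c hc
    apply hind
    apply hres
    intro r hr
    have := congrFun hc ⟨r, hr⟩
    simpa using this
  have := hli.fintype_card_le_finrank
  simpa using this

end act

end Cfsg.Agent.Lib.MinSp2A
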