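import Cfsg.Agent.Lib.MinSp2A

/-!
# Minimal index of `Sp(2m, 2)`: the counting steps (helper83)
-/

set_option autoImplicit false
set_option linter.all false

namespace Cfsg.Agent.Lib.MinSp2B

open Cfsg.Agent.Lib.ClIso Cfsg.Agent.Lib.ClSymp Cfsg.Agent.Lib.MinSp2A

variable {F : Type*} [Field F] {V : Type*} [AddCommGroup V] [Module F V] {B : LinearMap.BilinForm F V}

/-- representation of functionals on a nondegenerate subspace -/
theorem exists_perp [FiniteDimensional F V] (U : Submodule F V)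
    (hnd : ∀ u ∈ U, u ≠ 0 → ∃ w ∈ U, B w u ≠ 0) (W : Submodule F V) (hW : W < U) :
    ∃ u ∈ U, u ≠ 0 ∧ ∀ a ∈ W, B a u = 0 := by
  let φ : U →ₗ[F] Module.Dual F U := ((LinearMap.flip B).domRestrict₁₂ U U)
  have hφ : ∀ (u a : U), φ u a = B (a : V) (u : V) := fun u a => rfl
  have hinj : Function.Injective φ := by
    rw [injective_iff_map_eq_zero]
    intro w hw
    by_contra hne
    obtain ⟨y, hy, hy'⟩ := hnd w w.2 (by simpa using hne)
    apply hy'
    exact LinearMap.congr_fun hw ⟨y, hy⟩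
  have hsurj : Function.Surjective φ :=
    (LinearMap.injective_iff_surjective_of_finrank_eq_finrank (Subspace.dual_finrank_eq).symm).1 hinj
  let W' : Submodule F U := W.comap U.subtype
  have hW' : W' < ⊤ := by
    rw [lt_top_iff_ne_top]
    intro h
    apply hW.not_ge
    intro x hx
    have : (⟨x, hx⟩ : U) ∈ W' := by rw [h]; trivial
    exact this
  obtain ⟨f, hf0, hf⟩ := Submodule.exists_le_ker_of_lt_top W' hW'
  obtain ⟨u, hu⟩ := hsurj f
  refine ⟨u, u.2, ?_, ?_⟩
  · intro h
    apply hf0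
    rw [← hu]
    have : u = 0 := by simpa using h
    rw [this, map_zero]
  · intro a ha
    have haU : a ∈ U := hW.le ha
    have : (⟨a, haU⟩ : U) ∈ LinearMap.ker f := hf ha
    rw [LinearMap.mem_ker, ← hu, hφ] at this
    exact this

section steps

variable {X : Type*} [MulAction (Spg B) X]

theorem count [FiniteDimensional F V] (hB : IsSymp B) (hF : Two F) (v : V) (U : Submodule F V) [Fintype U]
    (hnd : ∀ u ∈ U, u ≠ 0 → ∃ w ∈ U, B u w ≠ 0) (hU : ∀ a ∈ U, B v a = 0)
    (P : X → Prop) (hP : ∀ g : Spg B, (g : V ≃ₗ[F] V) v = v → ∀ x, P (g • x) ↔ P x)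
    (x0 : X) (hx0 : P x0) (a0 : V) (ha0 : a0 ∈ U) (h1 : sh hB 1 v a0 • x0 ≠ x0)
    (h2 : sh hB 1 v a0 • x0 ≠ tv hB 1 v • x0) (R : Finset X)
    (hR : ∀ h : X → ℂ, (∀ x, h (tv hB 1 v • x) = h x) → (∀ x, ¬ P x → h x = 0) →
      (∀ r ∈ R, h r = 0) → ∀ x, h x = 0) : Fintype.card U ≤ R.card := by
  classical
  have hnd' : ∀ u ∈ U, u ≠ 0 → ∃ w ∈ U, B w u ≠ 0 := by
    intro u hu hu0
    obtain ⟨w, hw, h⟩ := hnd u hu hu0
    refine ⟨w, hw, ?_⟩
    rw [hB.skew]; simpa using h
  have htt : ∀ x : X, tv hB 1 v • tv hB 1 v • x = x := by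
    intro x; rw [smul_smul, tv_sq hB hF, one_smul]
  have htc : ∀ (c : F) (x : X), tv hB c v • x = x ∨ tv hB c v • x = tv hB 1 v • x := by
    intro c x
    rcases hF c with h | h
    · left; rw [h, tv_zero, one_smul]
    · right; rw [h]
  -- the subspace
  let W : Submodule F V :=
    { carrier := {a | a ∈ U ∧ (sh hB 1 v a • x0 = x0 ∨ sh hB 1 v a • x0 = tv hB 1 v • x0)}
      zero_mem' := ⟨U.zero_mem, Or.inl (by rw [sh_zero, one_smul])⟩
      smul_mem' := by
        intro c a ha
        rcases hF c with h | h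
        · rw [h, zero_smul]; exact ⟨U.zero_mem, Or.inl (by rw [sh_zero, one_smul])⟩
        · rw [h, one_smul]; exact ha
      add_mem' := by
        rintro a b ⟨haU, ha⟩ ⟨hbU, hb⟩
        refine ⟨U.add_mem haU hbU, ?_⟩
        have e : sh hB 1 v (a + b) = tv hB (B a b) v * (sh hB 1 v a * sh hB 1 v b) := by
          rw [sh_mul_sh hB hF v a b (hU a haU) (hU b hbU), ← mul_assoc, tv_mul, hF.add_self,
            tv_zero, one_mul]
        have key : sh hB 1 v a • sh hB 1 v b • x0 = x0 ∨
            sh hB 1 v a • sh hB 1 v b • x0 = tv hB 1 v • x0 := by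
          have hcomm : ∀ y : X, sh hB 1 v a • tv hB 1 v • y = tv hB 1 v • sh hB 1 v a • y := by
            intro y; rw [smul_smul, smul_smul, tv_comm_sh hB v a (hU a haU)]
          rcases hb with hb | hb
          · rw [hb]; exact ha
          · rw [hb, hcomm]
            rcases ha with ha | ha
            · right; rw [ha]
            · left; rw [ha, htt]
        rw [e, mul_smul, mul_smul]
        rcases key with k | k
        · rw [k]; exact htc _ _
        · rw [k]
          rcases htc (B a b) (tv hB 1 v • x0) with h | h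
          · right; exact h
          · left; rw [h, htt] }
  have hWlt : W < U := by
    refine lt_of_le_of_ne (fun a ha => ha.1) ?_
    intro h
    have : a0 ∈ W := by rw [h]; exact ha0
    rcases this.2 with h' | h'
    · exact h1 h'
    · exact h2 h'
  obtain ⟨u0, hu0U, hu00, hu0⟩ := exists_perp U hnd' W hWlt
  obtain ⟨f0, hf0, hf0x, hf0s⟩ := eig_of_point hB hF v U hU x0 u0
    (fun a ha h => hu0 a ⟨ha, Or.inl h⟩)
    (fun a ha h => hu0 a ⟨ha, Or.inr (by
      have h' := congrArg (fun y => tv hB 1 v • y) h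
      simp only [htt] at h'
      exact h')⟩)
  have hvv : ∀ a ∈ U, (sh hB 1 v a : V ≃ₗ[F] V) v = v := by
    intro a ha
    rw [sh_apply hB 1 v a (hU a ha), hB.alt]
    have e2 : B a v = 0 := by rw [hB.skew, hU a ha, neg_zero]
    rw [e2]; simp
  have htv : (tv hB 1 v : V ≃ₗ[F] V) v = v := by rw [tv_apply, hB.alt]; simp
  have hf0P : ∀ x, ¬ P x → f0 x = 0 := by
    intro x hx
    by_contra hne
    obtain ⟨a, ha, h | h⟩ := hf0s x hne
    · apply hx; rw [h, hP _ (hvv a ha)]; exact hx0
    · apply hx; rw [h, hP _ htv, hP _ (hvv a ha)]; exact hx0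
  -- all characters
  have hall : ∀ u : U, ∃ f : X → ℂ, Eig hB v U (u : V) f ∧ (∃ x, f x ≠ 0) ∧ ∀ x, ¬ P x → f x = 0 := by
    intro u
    by_cases hu : (u : V) = 0
    · refine ⟨fun x => if P x then 1 else 0, ⟨?_, ?_⟩, ⟨x0, by simp [hx0]⟩, fun x hx => by simp [hx]⟩
      · intro a ha x
        rw [hu, map_zero, eps_zero, one_mul]
        simp only [hP _ (hvv a ha)]
      · intro x
        simp only [hP _ htv]
    · obtain ⟨g, hg, hgu⟩ := trans_one hB hnd hu0U u.2 hu00 hu
      have hgv : (g : V ≃ₗ[F] V) v = v := TU_fix hB hg (fun w hw => by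
        rw [hB.skew, hU w hw, neg_zero])
      have hg' : g⁻¹ ∈ TU hB U := inv_mem hg
      have hgv' : ((g⁻¹ : Spg B) : V ≃ₗ[F] V) v = v := TU_fix hB hg' (fun w hw => by
        rw [hB.skew, hU w hw, neg_zero])
      have := eig_move hB v U g hgv (fun a ha => (TU_mem_iff hB hg' a).2 ha) u0 hf0
      rw [hgu] at this
      refine ⟨_, this, ⟨g • x0, by simpa using hf0x⟩, fun x hx => hf0P _ ?_⟩
      rw [hP _ hgv']; exact hx
  choose f hf hfne hfP using hall
  refine card_le hB hF v U hnd' hU f hf R hfne ?_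
  intro c hc
  refine hR (fun x => ∑ u, c u * f u x) ?_ ?_ hc
  · intro x
    refine Finset.sum_congr rfl fun u _ => ?_
    rw [(hf u).2]
  · intro x hx
    refine Finset.sum_eq_zero fun u _ => ?_
    rw [hfP u x hx, mul_zero]

/-- a set of representatives of the orbits of a fixed point free involution -/
theorem exists_reps [Fintype X] (σ : X → X) (hσ : ∀ x, σ (σ x) = x) (P : X → Prop)
    (hP : ∀ x, P (σ x) ↔ P x) (hne : ∀ x, P x → σ x ≠ x) :
    ∃ R : Finset X, (∀ x, P x → x ∈ R ∨ σ x ∈ R) ∧ (∀ x ∈ R, P x) ∧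
      2 * R.card = Nat.card {x // P x} := by
  classical
  let e := Fintype.equivFin X
  let R : Finset X := Finset.univ.filter (fun x => P x ∧ e x < e (σ x))
  let R' : Finset X := Finset.univ.filter (fun x => P x ∧ e (σ x) < e x)
  have hR : ∀ x, x ∈ R ↔ P x ∧ e x < e (σ x) := fun x => by simp [R]
  have hR' : ∀ x, x ∈ R' ↔ P x ∧ e (σ x) < e x := fun x => by simp [R']
  refine ⟨R, ?_, fun x hx => ((hR x).1 hx).1, ?_⟩
  · intro x hx
    rcases lt_trichotomy (e x) (e (σ x)) with h | h | h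
    · left; exact (hR x).2 ⟨hx, h⟩
    · exact absurd (e.injective h).symm (hne x hx)
    · right; rw [hR, hP, hσ]; exact ⟨hx, h⟩
  · have hcard : R'.card = R.card := by
      refine Finset.card_bij (fun x _ => σ x) ?_ ?_ ?_
      · intro x hx
        rw [hR']at hx
        rw [hR, hP, hσ]; exact hx
      · intro x _ y _ h
        rw [← hσ x, h, hσ]
      · intro y hy
        rw [hR] at hy
        refine ⟨σ y, ?_, hσ y⟩
        rw [hR', hP, hσ]; exact hy
    have hdisj : Disjoint R R' := by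
      rw [Finset.disjoint_left]
      intro x hx hx'
      exact absurd ((hR x).1 hx).2 (not_lt.2 ((hR' x).1 hx').2.le)
    have hun : R ∪ R' = Finset.univ.filter P := by
      ext x
      rw [Finset.mem_union, hR, hR', Finset.mem_filter]
      constructor
      · rintro (h | h) <;> exact ⟨Finset.mem_univ _, h.1⟩
      · rintro ⟨-, hx⟩
        rcases lt_trichotomy (e x) (e (σ x)) with h | h | h
        · left; exact ⟨hx, h⟩
        · exact absurd (e.injective h).symm (hne x hx)
        · right; exact ⟨hx, h⟩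
    have h3 := Finset.card_union_of_disjoint hdisj
    rw [hun, hcard] at h3
    rw [Nat.card_eq_fintype_card, Fintype.card_subtype, h3]
    ring

/-- Step 1: at a point moved by the transvection, the radical stabilizer covers `U`. -/
theorem step1 [FiniteDimensional F V] [Fintype X] (hB : IsSymp B) (hF : Two F) (v : V)
    (U : Submodule F V) [Fintype U]
    (hnd : ∀ u ∈ U, u ≠ 0 → ∃ w ∈ U, B u w ≠ 0) (hU : ∀ a ∈ U, B v a = 0)
    (hX : Nat.card {x : X // tv hB 1 v • x ≠ x} < 2 * Fintype.card U)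
    (x0 : X) (hx0 : tv hB 1 v • x0 ≠ x0) (a0 : V) (ha0 : a0 ∈ U) :
    sh hB 1 v a0 • x0 = x0 ∨ sh hB 1 v a0 • x0 = tv hB 1 v • x0 := by
  classical
  by_contra hcon
  push Not at hcon
  have htt : ∀ x : X, tv hB 1 v • tv hB 1 v • x = x := by
    intro x; rw [smul_smul, tv_sq hB hF, one_smul]
  have hP : ∀ g : Spg B, (g : V ≃ₗ[F] V) v = v → ∀ x : X,
      (tv hB 1 v • g • x ≠ g • x) ↔ (tv hB 1 v • x ≠ x) := by
    intro g hg x
    have : tv hB 1 v • g • x = g • tv hB 1 v • x := by
      rw [smul_smul, smul_smul]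
      congr 1
      have h := tv_conj hB g 1 v
      rw [hg] at h
      calc tv hB 1 v * g = (g * tv hB 1 v * g⁻¹) * g := by rw [h]
        _ = g * tv hB 1 v := by group
    rw [this]
    exact not_congr (smul_left_cancel_iff g)
  have htv : (tv hB 1 v : V ≃ₗ[F] V) v = v := by rw [tv_apply, hB.alt]; simp
  obtain ⟨R, hR1, hR2, hR3⟩ := exists_reps (fun x : X => tv hB 1 v • x) htt
    (fun x => tv hB 1 v • x ≠ x) (fun x => hP _ htv x) (fun x hx => hx)
  have := count hB hF v U hnd hU (fun x : X => tv hB 1 v • x ≠ x) hP x0 hx0 a0 ha0 hcon.1 hcon.2 R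
    (by
      intro h hinv hsupp hvan x
      by_cases hx : tv hB 1 v • x ≠ x
      · rcases hR1 x hx with h' | h'
        · exact hvan x h'
        · rw [← hinv x]; exact hvan _ h'
      · exact hsupp x hx)
  omega

/-- Step 2, counting part. -/
theorem step2 [FiniteDimensional F V] [Fintype X] (hB : IsSymp B) (hF : Two F) (v : V)
    (U : Submodule F V) [Fintype U]
    (hnd : ∀ u ∈ U, u ≠ 0 → ∃ w ∈ U, B u w ≠ 0) (hU : ∀ a ∈ U, B v a = 0)
    (hX : Nat.card {x : X // tv hB 1 v • x = x} < Fintype.card U)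
    (x0 : X) (hx0 : tv hB 1 v • x0 = x0) (a0 : V) (ha0 : a0 ∈ U) :
    sh hB 1 v a0 • x0 = x0 := by
  classical
  by_contra hcon
  have htt : ∀ x : X, tv hB 1 v • tv hB 1 v • x = x := by
    intro x; rw [smul_smul, tv_sq hB hF, one_smul]
  have hP : ∀ g : Spg B, (g : V ≃ₗ[F] V) v = v → ∀ x : X,
      (tv hB 1 v • g • x = g • x) ↔ (tv hB 1 v • x = x) := by
    intro g hg x
    have : tv hB 1 v • g • x = g • tv hB 1 v • x := by
      rw [smul_smul, smul_smul]
      congr 1
      have h := tv_conj hB g 1 v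
      rw [hg] at h
      calc tv hB 1 v * g = (g * tv hB 1 v * g⁻¹) * g := by rw [h]
        _ = g * tv hB 1 v := by group
    rw [this]
    exact (smul_left_cancel_iff g)
  have := count hB hF v U hnd hU (fun x : X => tv hB 1 v • x = x) hP x0 hx0 a0 ha0 hcon
    (by rw [hx0]; exact hcon) (Finset.univ.filter (fun x : X => tv hB 1 v • x = x))
    (by
      intro h hinv hsupp hvan x
      by_cases hx : tv hB 1 v • x = x
      · exact hvan x (by simp [hx])
      · exact hsupp x hx)
  rw [Nat.card_eq_fintype_card, Fintype.card_subtype] at hX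
  omega

end steps

end Cfsg.Agent.Lib.MinSp2B
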