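import Cfsg.Agent.Lib.MinSp2B

/-!
# Minimal index of `Sp(2m, 2)`: quadratic forms (helper83)
-/

set_option autoImplicit false
set_option linter.all false

namespace Cfsg.Agent.Lib.MinSp2C

open Cfsg.Agent.Lib.ClIso Cfsg.Agent.Lib.ClSymp Cfsg.Agent.Lib.MinSp2A Cfsg.Agent.Lib.MinSp2B

variable {F : Type*} [Field F] {V : Type*} [AddCommGroup V] [Module F V] {B : LinearMap.BilinForm F V}

/-- the Gauss sum of a quadratic form over the field with two elements -/
theorem gauss (hF : Two F) (U : Submodule F V) [Fintype U]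
    (hnd : ∀ u ∈ U, u ≠ 0 → ∃ w ∈ U, B w u ≠ 0) (q : V → F)
    (hq : ∀ a ∈ U, ∀ b ∈ U, q (a + b) = q a + q b + B a b) (n : ℕ) (hn : Fintype.card U = (2 ^ n) ^ 2) :
    (2 * (Nat.card {a : U // q (a : V) = 0} : ℤ) = (2 ^ n) ^ 2 + 2 ^ n) ∨
    (2 * (Nat.card {a : U // q (a : V) = 0} : ℤ) = (2 ^ n) ^ 2 - 2 ^ n) := by
  classical
  set z := Nat.card {a : U // q (a : V) = 0} with hz
  have hzc : z = (Finset.univ.filter (fun a : U => q (a : V) = 0)).card := by
    rw [hz, Nat.card_eq_fintype_card, Fintype.card_subtype]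
  have hS1 : ∑ a : U, eps (q (a : V)) = 2 * (z : ℂ) - ((2 ^ n) ^ 2 : ℕ) := by
    have e : ∀ a : U, eps (q (a : V)) = 2 * (if q (a : V) = 0 then (1 : ℂ) else 0) - 1 := by
      intro a
      unfold eps
      split_ifs <;> norm_num
    simp only [e, Finset.sum_sub_distrib, ← Finset.mul_sum, Finset.sum_boole, Finset.sum_const,
      Finset.card_univ, hn, hzc, nsmul_eq_mul, mul_one]
  have hS2 : (∑ a : U, eps (q (a : V))) * (∑ b : U, eps (q (b : V))) = ((2 ^ n) ^ 2 : ℕ) := by
    rw [Finset.sum_mul_sum]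
    have e1 : ∀ a : U, ∑ b : U, eps (q (a : V)) * eps (q (b : V)) =
        ∑ c : U, eps (q (c : V)) * eps (B (a : V) (c : V)) := by
      intro a
      rw [← Equiv.sum_comp (Equiv.addLeft a)]
      refine Finset.sum_congr rfl fun c _ => ?_
      have : ((Equiv.addLeft a) c : V) = (a : V) + c := rfl
      rw [this, hq a a.2 c c.2, eps_add hF, eps_add hF, ← mul_assoc, ← mul_assoc, eps_mul_self hF,
        one_mul]
    simp only [e1]
    rw [Finset.sum_comm]
    simp only [← Finset.mul_sum]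
    rw [Finset.sum_eq_single 0]
    · have hq0 : q ((0 : U) : V) = 0 := by
        have := hq 0 U.zero_mem 0 U.zero_mem
        rw [add_zero, map_zero, add_zero] at this
        have h2 : q (0 : V) = 0 := by linear_combination -this
        rw [Submodule.coe_zero, h2]
      rw [hq0, eps_zero, one_mul]
      simp only [Submodule.coe_zero, map_zero, eps_zero, Finset.sum_const, Finset.card_univ, hn,
        nsmul_eq_mul, mul_one]
    · intro c _ hc
      rw [sum_eps U hF _ (hnd _ c.2 (by simpa using hc)), mul_zero]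
    · intro h; exact absurd (Finset.mem_univ _) h
  rw [hS1] at hS2
  have h3 : ((2 * (z : ℤ) - (2 ^ n) ^ 2) * (2 * (z : ℤ) - (2 ^ n) ^ 2) : ℤ) = (2 ^ n) ^ 2 := by
    have : (((2 * (z : ℤ) - (2 ^ n) ^ 2) * (2 * (z : ℤ) - (2 ^ n) ^ 2) : ℤ) : ℂ) =
        (((2 ^ n) ^ 2 : ℤ) : ℂ) := by
      push_cast
      push_cast at hS2
      linear_combination hS2
    exact_mod_cast this
  have h4 : ((2 * (z : ℤ) - (2 ^ n) ^ 2) - 2 ^ n) * ((2 * (z : ℤ) - (2 ^ n) ^ 2) + 2 ^ n) = 0 := by
    linear_combination h3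
  rcases mul_eq_zero.1 h4 with h | h
  · left; linear_combination h
  · right; linear_combination h

section

variable {X : Type*} [MulAction (Spg B) X]

/-- the form attached to a bad point -/
noncomputable def qf (hB : IsSymp B) (v : V) (x : X) (a : V) : F := by
  classical
  exact if sh hB 1 v a • x = x then 0 else 1

theorem qf_eq_zero (hB : IsSymp B) (v : V) (x : X) (a : V) : qf hB v x a = 0 ↔ sh hB 1 v a • x = x := by
  unfold qf
  split_ifs with h <;> simp [h]

theorem qf_add (hB : IsSymp B) (hF : Two F) (v : V) (x : X) (hx : tv hB 1 v • x ≠ x) (a b : V)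
    (ha0 : B v a = 0) (hb0 : B v b = 0)
    (ha : sh hB 1 v a • x = x ∨ sh hB 1 v a • x = tv hB 1 v • x)
    (hb : sh hB 1 v b • x = x ∨ sh hB 1 v b • x = tv hB 1 v • x) :
    qf hB v x (a + b) = qf hB v x a + qf hB v x b + B a b := by
  -- action of the elements
  have hval : ∀ c : V, (sh hB 1 v c • x = x ∨ sh hB 1 v c • x = tv hB 1 v • x) →
      sh hB 1 v c • x = tv hB (qf hB v x c) v • x := by
    intro c hc
    by_cases h : sh hB 1 v c • x = x
    · rw [(qf_eq_zero hB v x c).2 h, tv_zero, one_smul, h]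
    · have h1 : qf hB v x c = 1 := (hF _).resolve_left (fun h' => h ((qf_eq_zero hB v x c).1 h'))
      rw [h1]; exact hc.resolve_left h
  have e : sh hB 1 v (a + b) • x = tv hB (B a b + qf hB v x b + qf hB v x a) v • x := by
    have e1 : sh hB 1 v (a + b) = tv hB (B a b) v * (sh hB 1 v a * sh hB 1 v b) := by
      rw [sh_mul_sh hB hF v a b ha0 hb0, ← mul_assoc, tv_mul, hF.add_self, tv_zero, one_mul]
    rw [e1, mul_smul, mul_smul, hval b hb, ← mul_smul (sh hB 1 v a), ← tv_comm_sh hB v a ha0, mul_smul,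
      hval a ha, ← mul_smul, ← mul_smul, tv_mul, tv_mul]
  set c := qf hB v x a + qf hB v x b + B a b with hc
  have hc' : B a b + qf hB v x b + qf hB v x a = c := by rw [hc]; ring
  rw [hc'] at e
  rcases hF c with h | h
  · rw [h, tv_zero, one_smul] at e
    rw [h]; exact (qf_eq_zero hB v x _).2 e
  · rw [h] at e
    rw [h]
    refine (hF _).resolve_left fun h' => hx ?_
    rw [← e]; exact (qf_eq_zero hB v x _).1 h'

theorem badcount [Fintype X] (hB : IsSymp B) (hF : Two F) (v : V)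
    (U : Submodule F V) [Fintype U]
    (hnd : ∀ u ∈ U, u ≠ 0 → ∃ w ∈ U, B w u ≠ 0) (hU : ∀ a ∈ U, B v a = 0)
    (x0 : X) (hx0 : tv hB 1 v • x0 ≠ x0)
    (h1 : ∀ a ∈ U, sh hB 1 v a • x0 = x0 ∨ sh hB 1 v a • x0 = tv hB 1 v • x0) :
    2 * Nat.card {a : U // qf hB v x0 (a : V) = 0} ≤ Nat.card {x : X // tv hB 1 v • x ≠ x} := by
  classical
  have hq : ∀ a ∈ U, ∀ b ∈ U, qf hB v x0 (a + b) = qf hB v x0 a + qf hB v x0 b + B a b :=
    fun a ha b hb => qf_add hB hF v x0 hx0 a b (hU a ha) (hU b hb) (h1 a ha) (h1 b hb)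
  have hq0 : qf hB v x0 0 = 0 := by rw [qf_eq_zero, sh_zero, one_smul]
  have htt : ∀ x : X, tv hB 1 v • tv hB 1 v • x = x := by
    intro x; rw [smul_smul, tv_sq hB hF, one_smul]
  -- commuting
  have hcomm : ∀ u ∈ U, tv hB 1 v * tv hB 1 u = tv hB 1 u * tv hB 1 v := by
    intro u hu
    have h := tv_conj hB (tv hB 1 u) 1 v
    have e : (tv hB 1 u : V ≃ₗ[F] V) v = v := by
      rw [tv_apply, hB.skew, hU u hu]; simp
    rw [e] at h
    rw [mul_inv_eq_iff_eq_mul] at h
    exact h.symm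
  have hfix : ∀ u ∈ U, qf hB v x0 u = 0 → ∀ a ∈ U,
      (sh hB 1 v a • tv hB 1 u • x0 = tv hB 1 u • x0 ↔ qf hB v x0 a + B a u = 0) := by
    intro u hu hqu a ha
    have e1 : sh hB 1 v a * tv hB 1 u = tv hB 1 u * sh hB 1 v ((tv hB 1 u : V ≃ₗ[F] V) a) := by
      have h := sh_conj hB (tv hB 1 u) 1 v ((tv hB 1 u : V ≃ₗ[F] V) a)
      have e : (tv hB 1 u : V ≃ₗ[F] V) v = v := by
        rw [tv_apply, hB.skew, hU u hu]; simp
      have e' : (tv hB 1 u : V ≃ₗ[F] V) ((tv hB 1 u : V ≃ₗ[F] V) a) = a := by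
        rw [← mul_apply', tv_sq hB hF]; rfl
      rw [e, e', mul_inv_eq_iff_eq_mul] at h
      exact h.symm
    have e2 : (tv hB 1 u : V ≃ₗ[F] V) a = a + (B u a) • u := by rw [tv_apply, one_mul]
    rw [← mul_smul, e1, mul_smul, smul_left_cancel_iff, ← qf_eq_zero, e2,
      hq a ha _ (U.smul_mem _ hu)]
    have e3 : qf hB v x0 ((B u a) • u) = 0 := by
      rcases hF (B u a) with h | h
      · rw [h, zero_smul, hq0]
      · rw [h, one_smul, hqu]
    rw [e3, add_zero, map_smul, smul_eq_mul]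
    have e4 : B u a = B a u := by rw [hB.skew, hF.neg]
    rw [e4, hF.mul_self]
  have hfix2 : ∀ (a : V), a ∈ U → ∀ y : X, (sh hB 1 v a • tv hB 1 v • y = tv hB 1 v • y ↔ sh hB 1 v a • y = y) := by
    intro a ha y
    rw [← mul_smul, ← tv_comm_sh hB v a (hU a ha), mul_smul, smul_left_cancel_iff]
  -- the points
  let pt : {a : U // qf hB v x0 (a : V) = 0} × Bool → X := fun p =>
    if p.2 then tv hB 1 (p.1.1 : V) • x0 else tv hB 1 v • tv hB 1 (p.1.1 : V) • x0
  have hbad : ∀ u ∈ U, tv hB 1 v • tv hB 1 u • x0 ≠ tv hB 1 u • x0 := by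
    intro u hu h
    rw [← mul_smul, hcomm u hu, mul_smul, smul_left_cancel_iff] at h
    exact hx0 h
  have hptbad : ∀ p, tv hB 1 v • pt p ≠ pt p := by
    rintro ⟨u, b⟩
    cases b
    · simp only [pt, if_neg Bool.false_ne_true, htt]
      exact (hbad u.1 u.1.2).symm
    · simp only [pt, if_true]
      exact hbad u.1 u.1.2
  have hptfix : ∀ p, ∀ a ∈ U, (sh hB 1 v a • pt p = pt p ↔ qf hB v x0 a + B a (p.1.1 : V) = 0) := by
    rintro ⟨u, b⟩ a ha
    cases b
    · simp only [pt, if_neg Bool.false_ne_true]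
      rw [hfix2 a ha]
      exact hfix u.1 u.1.2 u.2 a ha
    · simp only [pt, if_true]
      exact hfix u.1 u.1.2 u.2 a ha
  have hinj : Function.Injective pt := by
    rintro ⟨u, b⟩ ⟨u', b'⟩ h
    have hu : u = u' := by
      apply Subtype.ext
      apply Subtype.ext
      by_contra hne
      have hne' : ((u.1 - u'.1 : U) : V) ≠ 0 := by
        rw [Submodule.coe_sub]; exact sub_ne_zero.2 hne
      obtain ⟨a, ha, hae⟩ := hnd _ (u.1 - u'.1).2 hne'
      apply hae
      rw [Submodule.coe_sub, map_sub, sub_eq_zero]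
      have i1 := hptfix ⟨u, b⟩ a ha
      have i2 := hptfix ⟨u', b'⟩ a ha
      rw [h, i2] at i1
      simp only at i1
      rcases hF (B a (u.1 : V)) with k | k <;> rcases hF (B a (u'.1 : V)) with k' | k' <;>
        rcases hF (qf hB v x0 a) with k2 | k2 <;> rw [k, k', k2] at i1 <;> simp [k, k', hF.add_self] at i1 ⊢
    subst hu
    cases b <;> cases b'
    · rfl
    · exfalso
      simp only [pt, if_neg Bool.false_ne_true, if_true] at h
      exact hbad u.1 u.1.2 h
    · exfalso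
      simp only [pt, if_neg Bool.false_ne_true, if_true] at h
      exact hbad u.1 u.1.2 h.symm
    · rfl
  have := Nat.card_le_card_of_injective (fun p => (⟨pt p, hptbad p⟩ : {x : X // tv hB 1 v • x ≠ x}))
    (fun p p' h => hinj (congrArg Subtype.val h))
  rw [Nat.card_prod] at this
  have h2 : Nat.card Bool = 2 := by simp
  rw [h2] at this
  omega

end

end Cfsg.Agent.Lib.MinSp2C
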