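import Cfsg.Agent.Lib.MinSp2C
import Cfsg.Agent.Lib.ClSympOrd

/-!
# Minimal index of `Sp(2m, 2)`: the lower bound (helper83)
-/

set_option autoImplicit false
set_option linter.all false

namespace Cfsg.Agent.Lib.MinSp2D

open Cfsg.Agent.Lib.ClIso Cfsg.Agent.Lib.ClSymp Cfsg.Agent.Lib.MinSp2A Cfsg.Agent.Lib.MinSp2B
  Cfsg.Agent.Lib.MinSp2C

variable {F : Type*} [Field F] {V : Type*} [AddCommGroup V] [Module F V] {B : LinearMap.BilinForm F V}

/-- the complement of a hyperbolic plane -/
def hperp (B : LinearMap.BilinForm F V) (v v' : V) : Submodule F V := LinearMap.ker (B v) ⊓ LinearMap.ker (B v')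

theorem mem_hperp {v v' x : V} : x ∈ hperp B v v' ↔ B v x = 0 ∧ B v' x = 0 := by
  simp [hperp]

theorem symm2 (hB : IsSymp B) (hF : Two F) (x y : V) : B x y = B y x := by
  rw [hB.skew, hF.neg]

theorem proj_mem (hB : IsSymp B) (hF : Two F) {v v' : V} (h : B v v' = 1) (x : V) :
    x + (B v' x) • v + (B v x) • v' ∈ hperp B v v' := by
  rw [mem_hperp]
  have h' : B v' v = 1 := by rw [symm2 hB hF, h]
  constructor
  · simp only [map_add, map_smul, hB.alt, h, smul_eq_mul, mul_zero, add_zero, mul_one, hF.add_self]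
  · simp only [map_add, map_smul, hB.alt, h', smul_eq_mul, mul_zero, add_zero, mul_one, hF.add_self]

theorem hperp_nondeg (hB : IsSymp B) (hF : Two F) {v v' : V} (h : B v v' = 1) :
    ∀ u ∈ hperp B v v', u ≠ 0 → ∃ w ∈ hperp B v v', B u w ≠ 0 := by
  intro u hu hu0
  obtain ⟨y, hy⟩ := hB.nondeg u hu0
  refine ⟨_, proj_mem hB hF h y, ?_⟩
  rw [mem_hperp] at hu
  have e1 : B u v = 0 := by rw [symm2 hB hF]; exact hu.1
  have e2 : B u v' = 0 := by rw [symm2 hB hF]; exact hu.2
  simpa only [map_add, map_smul, e1, e2, smul_eq_mul, mul_zero, add_zero] using hy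

theorem card_hperp [Finite V] (hB : IsSymp B) (hF : Two F) {v v' : V} (h : B v v' = 1) (n : ℕ)
    (hV : Nat.card V = (2 ^ (n + 1)) ^ 2) : Nat.card (hperp B v v') = (2 ^ n) ^ 2 := by
  classical
  have h' : B v' v = 1 := by rw [symm2 hB hF, h]
  have hFc : Nat.card F = 2 := by
    have e : F ≃ Bool :=
      { toFun := fun c => if c = 0 then false else true
        invFun := fun b => if b then 1 else 0
        left_inv := by
          intro c
          rcases hF c with h | h <;> simp [h]
        right_inv := by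
          intro b
          cases b <;> simp }
    rw [Nat.card_congr e]; simp
  let e : V ≃ hperp B v v' × F × F :=
    { toFun := fun x => (⟨_, proj_mem hB hF h x⟩, B v' x, B v x)
      invFun := fun p => (p.1 : V) + p.2.1 • v + p.2.2 • v'
      left_inv := by
        intro x
        simp only
        have e1 := hF.vadd_self ((B v' x) • v)
        have e2 := hF.vadd_self ((B v x) • v')
        calc x + (B v' x) • v + (B v x) • v' + (B v' x) • v + (B v x) • v'
            = x + ((B v' x) • v + (B v' x) • v) + ((B v x) • v' + (B v x) • v') := by abel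
          _ = x := by rw [e1, e2, add_zero, add_zero]
      right_inv := by
        rintro ⟨⟨u, hu⟩, c, d⟩
        have hu' := mem_hperp.1 hu
        have e1 : B v' (u + c • v + d • v') = c := by
          simp only [map_add, map_smul, hB.alt, h', smul_eq_mul, mul_zero, add_zero, mul_one, hu'.2, zero_add]
        have e2 : B v (u + c • v + d • v') = d := by
          simp only [map_add, map_smul, hB.alt, h, smul_eq_mul, mul_zero, add_zero, mul_one, hu'.1, zero_add]
        simp only [e1, e2, Prod.mk.injEq, and_true]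
        apply Subtype.ext
        simp only
        have e3 := hF.vadd_self (c • v)
        have e4 := hF.vadd_self (d • v')
        calc u + c • v + d • v' + c • v + d • v' = u + (c • v + c • v) + (d • v' + d • v') := by abel
          _ = u := by rw [e3, e4, add_zero, add_zero] }
  have := Nat.card_congr e
  rw [Nat.card_prod, Nat.card_prod, hFc, hV] at this
  have h2 : (2 ^ (n + 1)) ^ 2 = (2 ^ n) ^ 2 * (2 * 2) := by ring
  rw [h2] at this
  exact (Nat.eq_of_mul_eq_mul_right (by norm_num) this).symm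

theorem exists_one (hB : IsSymp B) (hF : Two F) {v : V} (hv : v ≠ 0) : ∃ v', B v v' = 1 := by
  obtain ⟨y, hy⟩ := hB.nondeg v hv
  exact ⟨y, (hF _).resolve_left hy⟩

theorem sh_perp (hB : IsSymp B) (hF : Two F) {v v' : V} (h : B v v' = 1) {a : V} (ha : B v a = 0) :
    ∃ u ∈ hperp B v v', sh hB 1 v a = sh hB 1 v u := by
  refine ⟨_, proj_mem hB hF h a, ?_⟩
  rw [ha, zero_smul, add_zero]
  rcases hF (B v' a) with h' | h'
  · rw [h', zero_smul, add_zero]
  · rw [h', one_smul, sh_add_self hB hF v a ha]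

section bound

variable {X : Type*} [MulAction (Spg B) X] [Fintype X]

theorem A (hB : IsSymp B) (hF : Two F) [Finite V] [FiniteDimensional F V] (n : ℕ) (hV : Nat.card V = (2 ^ (n + 1)) ^ 2)
    (hX : Nat.card X + 2 ^ n < 2 * (2 ^ n) ^ 2) (v : V) (hv : v ≠ 0) (x : X) (hx : tv hB 1 v • x ≠ x)
    (a : V) (ha : B v a = 0) : sh hB 1 v a • x = x ∨ sh hB 1 v a • x = tv hB 1 v • x := by
  classical
  obtain ⟨v', h⟩ := exists_one hB hF hv
  haveI : Fintype (hperp B v v') := Fintype.ofFinite _
  have hc := card_hperp hB hF h n hV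
  rw [Nat.card_eq_fintype_card] at hc
  obtain ⟨u, hu, he⟩ := sh_perp hB hF h ha
  rw [he]
  refine step1 hB hF v (hperp B v v') (hperp_nondeg hB hF h) (fun a ha => (mem_hperp.1 ha).1) ?_ x hx u hu
  rw [hc]
  have h2 := Finite.card_subtype_le (fun x : X => tv hB 1 v • x ≠ x)
  exact lt_of_le_of_lt h2 (lt_of_le_of_lt (Nat.le_add_right _ _) hX)

theorem Bd (hB : IsSymp B) (hF : Two F) [Finite V] [FiniteDimensional F V] (n : ℕ) (hV : Nat.card V = (2 ^ (n + 1)) ^ 2)
    (hX : Nat.card X + 2 ^ n < 2 * (2 ^ n) ^ 2) (hnt : ∀ v : V, v ≠ 0 → ∃ x : X, tv hB 1 v • x ≠ x)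
    (v : V) (hv : v ≠ 0) (x : X) (hx : tv hB 1 v • x = x)
    (a : V) (ha : B v a = 0) : sh hB 1 v a • x = x := by
  classical
  obtain ⟨v', h⟩ := exists_one hB hF hv
  haveI : Fintype (hperp B v v') := Fintype.ofFinite _
  have hc := card_hperp hB hF h n hV
  rw [Nat.card_eq_fintype_card] at hc
  obtain ⟨x0, hx0⟩ := hnt v hv
  have hnd := hperp_nondeg hB hF h
  have hnd' : ∀ u ∈ hperp B v v', u ≠ 0 → ∃ w ∈ hperp B v v', B w u ≠ 0 := by
    intro u hu hu0
    obtain ⟨w, hw, hw'⟩ := hnd u hu hu0
    exact ⟨w, hw, by rwa [symm2 hB hF]⟩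
  have hU : ∀ a ∈ hperp B v v', B v a = 0 := fun a ha => (mem_hperp.1 ha).1
  have h1 : ∀ a ∈ hperp B v v', sh hB 1 v a • x0 = x0 ∨ sh hB 1 v a • x0 = tv hB 1 v • x0 :=
    fun a ha => A hB hF n hV hX v hv x0 hx0 a (hU a ha)
  have hbc := badcount hB hF v (hperp B v v') hnd' hU x0 hx0 h1
  have hg := gauss hF (hperp B v v') hnd' (qf hB v x0)
    (fun a ha b hb => qf_add hB hF v x0 hx0 a b (hU a ha) (hU b hb) (h1 a ha) (h1 b hb)) n hc
  obtain ⟨u, hu, he⟩ := sh_perp hB hF h ha
  rw [he]
  refine step2 hB hF v (hperp B v v') hnd hU ?_ x hx u hu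
  rw [hc]
  have hsplit : Nat.card X = Nat.card {x : X // tv hB 1 v • x = x} + Nat.card {x : X // tv hB 1 v • x ≠ x} := by
    rw [← Nat.card_sum]
    exact (Nat.card_congr (Equiv.sumCompl (fun x : X => tv hB 1 v • x = x))).symm
  have hbc' : (2 : ℤ) * (Nat.card {a : hperp B v v' // qf hB v x0 (a : V) = 0} : ℤ) ≤
      (Nat.card {x : X // tv hB 1 v • x ≠ x} : ℤ) := by exact_mod_cast hbc
  have hX' : (Nat.card X : ℤ) + 2 ^ n < 2 * (2 ^ n) ^ 2 := by exact_mod_cast hX
  have hs' : (Nat.card X : ℤ) = Nat.card {x : X // tv hB 1 v • x = x} + Nat.card {x : X // tv hB 1 v • x ≠ x} := by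
    exact_mod_cast hsplit
  have hpos : (0 : ℤ) < 2 ^ n := by positivity
  have : (Nat.card {x : X // tv hB 1 v • x = x} : ℤ) < (2 ^ n) ^ 2 := by
    rcases hg with hg | hg
    · linarith
    · linarith
  exact_mod_cast this

theorem fixed (hB : IsSymp B) (hF : Two F) [Finite V] [FiniteDimensional F V] (n : ℕ) (hn : 1 ≤ n) (hV : Nat.card V = (2 ^ (n + 1)) ^ 2)
    (hTU : TU hB ⊤ = ⊤)
    (hX : Nat.card X + 2 ^ n < 2 * (2 ^ n) ^ 2)
    (hex : ∃ v a b b' : V, v ≠ 0 ∧ a ≠ 0 ∧ v + a ≠ 0 ∧ B v a = 0 ∧ B v b = 0 ∧ B v b' = 0 ∧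
      B a b = 0 ∧ B a b' = 0 ∧ B b b' = 1)
    (x : X) (g : Spg B) : g • x = x := by
  classical
  by_contra hgx
  -- generation
  have hgen : ∀ y : X, (∀ w : V, w ≠ 0 → tv hB 1 w • y = y) → ∀ g : Spg B, g • y = y := by
    intro y hy g
    have hg : g ∈ TU hB ⊤ := by rw [hTU]; exact Subgroup.mem_top _
    have hle : TU hB ⊤ ≤ MulAction.stabilizer (Spg B) y := by
      rw [TU, Subgroup.closure_le]
      rintro k ⟨c, w, -, rfl⟩
      rw [SetLike.mem_coe, MulAction.mem_stabilizer_iff]
      by_cases hw : w = 0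
      · rw [hw, tv_zero_right, one_smul]
      · rcases hF c with h | h
        · rw [h, tv_zero, one_smul]
        · rw [h]; exact hy w hw
    exact hle hg
  have hU : ∀ u ∈ (⊤ : Submodule F V), u ≠ 0 → ∃ v ∈ (⊤ : Submodule F V), B u v ≠ 0 := by
    intro u _ hu
    obtain ⟨v, hv⟩ := hB.nondeg u hu
    exact ⟨v, trivial, hv⟩
  have hnt : ∀ v : V, v ≠ 0 → ∃ x : X, tv hB 1 v • x ≠ x := by
    intro v hv
    by_contra hcon
    push Not at hcon
    apply hgx
    apply hgen x
    intro w hw
    obtain ⟨s, -, hs⟩ := trans_one hB hU (u := v) (v := w) trivial trivial hv hw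
    have h1 := tv_conj hB s 1 v
    rw [hs] at h1
    rw [← h1, mul_smul, mul_smul, hcon, smul_inv_smul]
  have hA := fun v hv => A (X := X) hB hF n hV hX v hv x
  have hBd := fun v hv => Bd (X := X) hB hF n hV hX hnt v hv x
  have hinv : ∀ (s : Spg B) (v : V), s • x = x → tv hB 1 v • x = x → tv hB 1 ((s : V ≃ₗ[F] V) v) • x = x := by
    intro s v hs hv
    rw [← tv_conj, mul_smul, mul_smul]
    have : s⁻¹ • x = x := by rw [inv_smul_eq_iff, hs]
    rw [this, hv, hs]
  by_cases hE : ∀ v : V, v ≠ 0 → tv hB 1 v • x ≠ x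
  · -- no transvection fixes `x`
    obtain ⟨v, a, b, b', hv, ha, hva, h1, h2, h3, h4, h5, h6⟩ := hex
    have hqadd : ∀ w : V, w ≠ 0 → ∀ c d, B w c = 0 → B w d = 0 →
        qf hB w x (c + d) = qf hB w x c + qf hB w x d + B c d := by
      intro w hw c d hc hd
      exact qf_add hB hF w x (hE w hw) c d hc hd (hA w hw (hE w hw) c hc) (hA w hw (hE w hw) d hd)
    have hqs : ∀ w c : V, B w c = 0 → qf hB w x c = qf hB c x w := by
      intro w c hwc
      unfold qf
      rw [sh_symm hB hF w c hwc]
    have hb : b ≠ 0 := by rintro rfl; simp at h6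
    have hb' : b' ≠ 0 := by rintro rfl; simp at h6
    have hbb : b + b' ≠ 0 := by
      intro h
      have : B b (b + b') = 1 := by rw [map_add, hB.alt, h6, zero_add]
      rw [h, map_zero] at this
      exact zero_ne_one this
    have hsum : ∀ c : V, c ≠ 0 → B v c = 0 → B a c = 0 →
        qf hB v x c + qf hB a x c + qf hB (v + a) x c = 0 := by
      intro c hc hvc hac
      have hvac : B (v + a) c = 0 := by rw [map_add, LinearMap.add_apply, hvc, hac, add_zero]
      rw [hqs v c hvc, hqs a c hac, hqs (v + a) c hvac, hqadd c hc v a (by rw [symm2 hB hF, hvc])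
        (by rw [symm2 hB hF, hac]), h1, add_zero]
      exact hF.add_self _
    have e1 := hsum b hb h2 h4
    have e2 := hsum b' hb' h3 h5
    have e3 := hsum (b + b') hbb (by rw [map_add, h2, h3, add_zero]) (by rw [map_add, h4, h5, add_zero])
    have hvab : B (v + a) b = 0 := by rw [map_add, LinearMap.add_apply, h2, h4, add_zero]
    have hvab' : B (v + a) b' = 0 := by rw [map_add, LinearMap.add_apply, h3, h5, add_zero]
    rw [hqadd v hv b b' h2 h3, hqadd a ha b b' h4 h5, hqadd (v + a) hva b b' hvab hvab', h6] at e3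
    have e4 : (1 : F) + 1 + 1 = 0 := by linear_combination e3 - e1 - e2
    rw [hF.add_self, zero_add] at e4
    exact one_ne_zero e4
  · push Not at hE
    obtain ⟨v, hv, hvx⟩ := hE
    -- the fixed transvections are pairwise orthogonal
    have horth : ∀ v v' : V, v ≠ 0 → tv hB 1 v • x = x → tv hB 1 v' • x = x → B v v' = 0 := by
      intro v v' hv hvx hvx'
      by_contra hne
      have h1 : B v v' = 1 := (hF _).resolve_left hne
      have hy : ∀ y : V, B v y = 1 → tv hB 1 y • x = x := by
        intro y hy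
        have ha : B v (y + v') = 0 := by rw [map_add, hy, h1, hF.add_self]
        have h2 := hinv _ v' (hBd v hv hvx (y + v') ha) hvx'
        rw [sh_apply hB 1 v _ ha, h1] at h2
        have e1 : v' + (1 * 1 : F) • (y + v') = y := by
          rw [mul_one, one_smul]
          have := hF.vadd_self v'
          calc v' + (y + v') = y + (v' + v') := by abel
            _ = y := by rw [this, add_zero]
        rw [e1, one_mul] at h2
        rcases hF (B (y + v') v') with h3 | h3
        · rwa [h3, zero_smul, add_zero] at h2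
        · rw [h3, one_smul] at h2
          have h4 := hinv _ (y + v) hvx h2
          rw [tv_apply, map_add, hy, hB.alt, add_zero, mul_one, one_smul, add_assoc, hF.vadd_self,
            add_zero] at h4
          exact h4
      apply hgx
      apply hgen x
      intro z hz
      by_cases hvz : B v z = 0
      · obtain ⟨w, -, hw1, hw2⟩ := exists_common hU (u := v) (v := z) trivial trivial hv hz
        have hw1' : B v w = 1 := (hF _).resolve_left hw1
        have hw2' : B w z = 1 := by rw [symm2 hB hF]; exact (hF _).resolve_left hw2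
        have h3 := hy w hw1'
        have h4 := hy (z + w) (by rw [map_add, hvz, hw1', zero_add])
        have h5 := hinv _ _ h3 h4
        rw [tv_apply, map_add, hw2', hB.alt, add_zero, mul_one, one_smul, add_assoc, hF.vadd_self,
            add_zero] at h5
        exact h5
      · exact hy z ((hF _).resolve_left hvz)
    obtain ⟨b, hb⟩ := exists_one hB hF hv
    have hb0 : b ≠ 0 := by rintro rfl; simp at hb
    have hbx : tv hB 1 b • x ≠ x := by
      intro h
      have := horth v b hv hvx h
      rw [hb] at this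
      exact one_ne_zero this
    have htt : tv hB 1 b • tv hB 1 b • x = x := by
      rw [smul_smul, tv_sq hB hF, one_smul]
    have hall : ∀ a : V, B b a = 0 → sh hB 1 b a • x = x := by
      intro a ha
      rcases hA b hb0 hbx a ha with h | h
      · exact h
      · exfalso
        have h1 : (tv hB 1 b * sh hB 1 b a) • x = x := by rw [mul_smul, h, htt]
        have h2 := hinv _ v h1 hvx
        have h3 := horth v _ hv hvx h2
        have hbv : B b v = 1 := by rw [symm2 hB hF, hb]
        have hav : B a v = B v a := symm2 hB hF _ _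
        rw [mul_apply', sh_apply hB 1 b a ha, tv_apply] at h3
        simp only [map_add, map_smul, hB.alt, hbv, ha, hb, smul_eq_mul, mul_one, mul_zero, add_zero,
          one_mul, zero_add, one_smul, hav] at h3
        rw [hF.add_self, zero_add] at h3
        exact one_ne_zero h3
    -- a hyperbolic pair orthogonal to `b`
    obtain ⟨b', hbb'⟩ := exists_one hB hF hb0
    have hc := card_hperp hB hF hbb' n hV
    have h1c : 1 < Nat.card (hperp B b b') := by
      rw [hc]
      have : 2 ≤ 2 ^ n := by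
        calc 2 = 2 ^ 1 := by norm_num
          _ ≤ 2 ^ n := Nat.pow_le_pow_right (by norm_num) hn
      nlinarith
    haveI : Nontrivial (hperp B b b') := (Finite.one_lt_card_iff_nontrivial).1 h1c
    obtain ⟨c, hc0⟩ := exists_ne (0 : hperp B b b')
    obtain ⟨d, hd, hcd⟩ := hperp_nondeg hB hF hbb' c c.2 (by simpa using hc0)
    have hc1 : B b (c : V) = 0 := (mem_hperp.1 c.2).1
    have hd1 : B b d = 0 := (mem_hperp.1 hd).1
    have := qf_add hB hF b x hbx (c : V) d hc1 hd1 (Or.inl (hall _ hc1)) (Or.inl (hall _ hd1))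
    rw [(qf_eq_zero hB b x _).2 (hall _ hc1), (qf_eq_zero hB b x _).2 (hall _ hd1),
      (qf_eq_zero hB b x _).2 (hall ((c : V) + d) (by rw [map_add, hc1, hd1, add_zero])), zero_add,
      zero_add] at this
    exact hcd this.symm

end bound

end Cfsg.Agent.Lib.MinSp2D
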