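import Cfsg.Agent.Lib.MinSp2D

/-!
# Minimal index of `Sp(2m, 2)`: the subgroup of minus type (helper83)
-/

set_option autoImplicit false
set_option linter.all false

namespace Cfsg.Agent.Lib.MinSp2E

open Cfsg.Agent.Lib.ClIso Cfsg.Agent.Lib.ClSymp Cfsg.Agent.Lib.MinSp2A Cfsg.Agent.Lib.MinSp2B
  Cfsg.Agent.Lib.MinSp2C Cfsg.Agent.Lib.MinSp2D

variable {F : Type*} [Field F] {V : Type*} [AddCommGroup V] [Module F V] {B : LinearMap.BilinForm F V}

/-- the action on functions -/
@[reducible] def act (B : LinearMap.BilinForm F V) : MulAction (Spg B) (V → F) where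
  smul g q := fun x => q (((g⁻¹ : Spg B) : V ≃ₗ[F] V) x)
  one_smul q := by
    funext x
    show q (((1⁻¹ : Spg B) : V ≃ₗ[F] V) x) = q x
    rw [inv_one]; rfl
  mul_smul g h q := by
    funext x
    show q ((((g * h)⁻¹ : Spg B) : V ≃ₗ[F] V) x) = q (((h⁻¹ : Spg B) : V ≃ₗ[F] V) (((g⁻¹ : Spg B) : V ≃ₗ[F] V) x))
    rw [mul_inv_rev]; rfl

/-- the number of zeros -/
noncomputable def nz (q : V → F) : ℕ := Nat.card {x : V // q x = 0}

theorem q_zero (hF : Two F) (q : V → F) (hq : ∀ a b, q (a + b) = q a + q b + B a b) : q 0 = 0 := by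
  have := hq 0 0
  rw [add_zero, map_zero, add_zero] at this
  linear_combination -this

theorem nz_shift0 (hB : IsSymp B) (hF : Two F) (q : V → F) (hq : ∀ a b, q (a + b) = q a + q b + B a b)
    (u : V) (hu : q u = 0) : nz (fun x => q x + B x u) = nz q := by
  unfold nz
  refine Nat.card_congr (Equiv.subtypeEquiv (Equiv.addRight u) fun x => ?_)
  have : (Equiv.addRight u) x = x + u := rfl
  rw [this, hq, hu, add_zero]

theorem nz_shift1 [Finite V] (hB : IsSymp B) (hF : Two F) (q : V → F) (hq : ∀ a b, q (a + b) = q a + q b + B a b)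
    (u : V) (hu : q u = 1) : nz (fun x => q x + B x u) + nz q = Nat.card V := by
  classical
  have h1 : nz (fun x => q x + B x u) = Nat.card {x : V // ¬ q x = 0} := by
    unfold nz
    refine Nat.card_congr (Equiv.subtypeEquiv (Equiv.addRight u) fun x => ?_)
    have : (Equiv.addRight u) x = x + u := rfl
    rw [this, hq, hu]
    constructor
    · intro h h'
      have : (1 : F) = 0 := by linear_combination h' - h
      exact one_ne_zero this
    · intro h
      have h2 := (hF _).resolve_left h
      have h3 : (q x + 1 + B x u) = 1 := h2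
      linear_combination h3
  rw [h1, nz, add_comm, ← Nat.card_sum]
  exact Nat.card_congr (Equiv.sumCompl (fun x : V => q x = 0))

theorem nz_values [Finite V] (hB : IsSymp B) (hF : Two F) (n : ℕ) (hV : Nat.card V = (2 ^ n) ^ 2)
    (q : V → F) (hq : ∀ a b, q (a + b) = q a + q b + B a b) :
    (2 * (nz q : ℤ) = (2 ^ n) ^ 2 + 2 ^ n) ∨ (2 * (nz q : ℤ) = (2 ^ n) ^ 2 - 2 ^ n) := by
  classical
  haveI : Fintype V := Fintype.ofFinite V
  haveI : Fintype (⊤ : Submodule F V) := Fintype.ofFinite _
  have h := gauss hF (B := B) (⊤ : Submodule F V) (fun u _ hu => by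
      obtain ⟨w, hw⟩ := hB.nondeg u hu
      exact ⟨w, trivial, by rwa [symm2 hB hF]⟩) q (fun a _ b _ => hq a b) n (by
      rw [← hV, ← Nat.card_eq_fintype_card]
      exact Nat.card_congr (Equiv.subtypeUnivEquiv (fun _ => trivial)))
  have e : Nat.card {a : (⊤ : Submodule F V) // q (a : V) = 0} = nz q := by
    unfold nz
    exact Nat.card_congr (Equiv.subtypeEquiv (Equiv.subtypeUnivEquiv (fun _ => trivial)) fun _ => Iff.rfl)
  rw [e] at h
  exact h

theorem exists_index [Finite V] [FiniteDimensional F V] (hB : IsSymp B) (hF : Two F) (n : ℕ) (hn : 1 ≤ n) (hV : Nat.card V = (2 ^ n) ^ 2)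
    (q : V → F) (hq : ∀ a b, q (a + b) = q a + q b + B a b) (hq1 : ∃ u, q u = 1) :
    ∃ H : Subgroup (Spg B), 2 * (H.index : ℤ) = (2 ^ n) ^ 2 - 2 ^ n := by
  classical
  -- reduce to minus type
  obtain ⟨q, hq, hz⟩ : ∃ q : V → F, (∀ a b, q (a + b) = q a + q b + B a b) ∧
      2 * (nz q : ℤ) = (2 ^ n) ^ 2 - 2 ^ n := by
    rcases nz_values hB hF n hV q hq with h | h
    · obtain ⟨u, hu⟩ := hq1
      refine ⟨fun x => q x + B x u, ?_, ?_⟩
      · intro a b
        simp only
        rw [hq, map_add, LinearMap.add_apply]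
        ring
      · have := nz_shift1 hB hF q hq u hu
        rw [hV] at this
        have h2 : (nz (fun x => q x + B x u) : ℤ) + nz q = (2 ^ n) ^ 2 := by exact_mod_cast this
        linear_combination 2 * h2 - h
    · exact ⟨q, hq, h⟩
  letI := act B
  refine ⟨MulAction.stabilizer (Spg B) q, ?_⟩
  rw [← hz, MulAction.index_stabilizer]
  have horb : MulAction.orbit (Spg B) q = (fun u : V => fun x => q x + B x u) '' {u | q u = 0} := by
    ext q'
    constructor
    · rintro ⟨g, rfl⟩
      -- the image is a form
      have hq' : ∀ a b, (g • q) (a + b) = (g • q) a + (g • q) b + B a b := by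
        intro a b
        show q (((g⁻¹ : Spg B) : V ≃ₗ[F] V) (a + b)) = q (((g⁻¹ : Spg B) : V ≃ₗ[F] V) a) +
          q (((g⁻¹ : Spg B) : V ≃ₗ[F] V) b) + B a b
        rw [map_add, hq, Spg_apply]
      -- the difference is linear
      let δ : V →ₗ[F] F :=
        { toFun := fun x => (g • q) x + q x
          map_add' := by
            intro a b
            rw [hq', hq]
            have := hF.add_self (B a b)
            linear_combination this
          map_smul' := by
            intro c a
            rcases hF c with h | h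
            · rw [h, zero_smul, RingHom.id_apply, zero_smul, q_zero hF q hq, q_zero hF _ hq', add_zero]
            · rw [h, one_smul, RingHom.id_apply, one_smul] }
      obtain ⟨u, hu⟩ : ∃ u : V, ∀ x, δ x = B x u := by
        let φ : V →ₗ[F] Module.Dual F V := LinearMap.flip B
        have hinj : Function.Injective φ := by
          rw [injective_iff_map_eq_zero]
          intro w hw
          by_contra hne
          obtain ⟨y, hy⟩ := hB.nondeg w hne
          apply hy
          rw [symm2 hB hF]
          exact LinearMap.congr_fun hw y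
        have hsurj : Function.Surjective φ :=
          (LinearMap.injective_iff_surjective_of_finrank_eq_finrank (Subspace.dual_finrank_eq).symm).1 hinj
        obtain ⟨u, hu⟩ := hsurj δ
        exact ⟨u, fun x => (LinearMap.congr_fun hu x).symm⟩
      have hgq : g • q = fun x => q x + B x u := by
        funext x
        have h1 : (g • q) x + q x = B x u := hu x
        have := hF.add_self (q x)
        linear_combination h1 - this
      refine ⟨u, ?_, hgq.symm⟩
      show q u = 0
      by_contra hne
      have hu1 : q u = 1 := (hF _).resolve_left hne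
      have h1 := nz_shift1 hB hF q hq u hu1
      rw [← hgq] at h1
      have h2 : nz (g • q) = nz q := by
        unfold nz
        refine Nat.card_congr (Equiv.subtypeEquiv ((g⁻¹ : Spg B) : V ≃ₗ[F] V).toEquiv fun x => ?_)
        exact Iff.rfl
      rw [h2, hV] at h1
      have h3 : (nz q : ℤ) + nz q = (2 ^ n) ^ 2 := by exact_mod_cast h1
      have h4 : (0 : ℤ) < 2 ^ n := by positivity
      linarith
    · rintro ⟨u, hu, rfl⟩
      refine ⟨tv hB 1 u, ?_⟩
      funext x
      show q ((((tv hB 1 u)⁻¹ : Spg B) : V ≃ₗ[F] V) x) = q x + B x u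
      rw [tv_inv, hF.neg, tv_apply, one_mul]
      have hu' : q u = 0 := hu
      rw [symm2 hB hF x u]
      rcases hF (B u x) with h | h
      · rw [h, zero_smul, add_zero, add_zero]
      · rw [h, one_smul, hq, hu', add_zero, symm2 hB hF x u, h]
  rw [horb, Set.ncard_image_of_injective]
  · rw [nz, ← Nat.card_coe_set_eq]; rfl
  · intro u u' h
    by_contra hne
    obtain ⟨w, hw⟩ := hB.nondeg _ (sub_ne_zero.2 hne)
    apply hw
    rw [symm2 hB hF, map_sub, sub_eq_zero]
    have := congrFun h w
    simp only at this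
    exact add_left_cancel this

end Cfsg.Agent.Lib.MinSp2E
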