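import Mathlib

/-!
# Counting lemmas for the minimal index theorems (helper98)

* `mult_bound`: a proper additive subgroup `C` of a finite field `K` has index times number of multiples at least `|K|`.
* `card_perp`, `iso_bound`: perpendicular subgroups for a biadditive form with values in `ZMod p`.
* `card_le_index_of_inj`: families of elements in distinct cosets.
-/

set_option autoImplicit false

namespace Cfsg.Agent.Lib.MinU

/-- the multiple `δ C` of an additive subgroup of a field -/
def ml {K : Type*} [Field K] (C : AddSubgroup K) (δ : K) : AddSubgroup K := C.map (AddMonoidHom.mulLeft δ)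

theorem mem_ml {K : Type*} [Field K] {C : AddSubgroup K} {δ x : K} : x ∈ ml C δ ↔ ∃ c ∈ C, δ * c = x := Iff.rfl

theorem ml_ml {K : Type*} [Field K] (C : AddSubgroup K) (δ ε : K) : ml (ml C δ) ε = ml C (ε * δ) := by
  ext x
  simp only [mem_ml]
  constructor
  · rintro ⟨_, ⟨c, hc, rfl⟩, rfl⟩
    exact ⟨c, hc, by ring⟩
  · rintro ⟨c, hc, rfl⟩
    exact ⟨_, ⟨c, hc, rfl⟩, by ring⟩

theorem ml_one {K : Type*} [Field K] (C : AddSubgroup K) : ml C 1 = C := by
  ext x; simp [mem_ml]

theorem mult_bound {K : Type*} [Field K] [Finite K] (C : AddSubgroup K) (hC : C ≠ ⊤) :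
    Nat.card K ≤ Nat.card (K ⧸ C) * Nat.card (Set.range fun δ : Kˣ => ml C δ) ∧
    (C ≠ ⊥ → Nat.card K < Nat.card (K ⧸ C) * Nat.card (Set.range fun δ : Kˣ => ml C δ)) := by
  classical
  have : Fintype K := Fintype.ofFinite K
  -- stabiliser
  let S : Subgroup Kˣ :=
    { carrier := {δ | ml C δ = C}
      one_mem' := by simp [ml_one]
      mul_mem' := by
        intro a b ha hb
        simp only [Set.mem_setOf_eq] at ha hb ⊢
        rw [Units.val_mul, ← ml_ml, hb, ha]
      inv_mem' := by
        intro a ha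
        simp only [Set.mem_setOf_eq] at ha ⊢
        conv_lhs => rw [← ha]
        rw [ml_ml, Units.inv_mul, ml_one] }
  have hS : ∀ δ : Kˣ, δ ∈ S ↔ ml C δ = C := fun δ => Iff.rfl
  -- the range is Kˣ / S
  have e1 : Nat.card (Set.range fun δ : Kˣ => ml C δ) * Nat.card S = Nat.card Kˣ := by
    have h1 : Nat.card (Set.range fun δ : Kˣ => ml C δ) = Nat.card (Kˣ ⧸ S) := by
      refine Nat.card_congr (Equiv.ofBijective (Quotient.lift (s := QuotientGroup.leftRel S)
        (fun δ : Kˣ => (⟨ml C δ, δ, rfl⟩ : Set.range fun δ : Kˣ => ml C δ)) ?_) ⟨?_, ?_⟩).symm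
      · intro a b hab
        have h2 : a⁻¹ * b ∈ S := QuotientGroup.leftRel_apply.1 hab
        rw [hS] at h2
        apply Subtype.ext
        show ml C a = ml C b
        conv_lhs => rw [← h2, ml_ml]
        congr 1
        rw [Units.val_mul, ← mul_assoc, Units.mul_inv, one_mul]
      · rintro ⟨a⟩ ⟨b⟩ h
        have h3 : ml C a = ml C b := congrArg Subtype.val h
        apply QuotientGroup.eq.2
        rw [hS, Units.val_mul, ← ml_ml, ← h3, ml_ml, Units.inv_mul, ml_one]
      · rintro ⟨_, δ, rfl⟩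
        exact ⟨(δ : Kˣ ⧸ S), rfl⟩
    rw [h1, mul_comm, Nat.mul_comm]
    exact (Subgroup.card_eq_card_quotient_mul_card_subgroup S).symm
  -- an element outside
  obtain ⟨x, hx⟩ : ∃ x, x ∉ C := by
    by_contra h
    push Not at h
    exact hC (eq_top_iff.2 fun y _ => h y)
  have hdiv : ∀ k : K, k ≠ 0 → (∀ c ∈ C, k * c ∈ C) → ∀ y, k * y ∈ C → y ∈ C := by
    intro k hk0 hk y hy
    let φ : C → C := fun c => ⟨k * c, hk c c.2⟩
    have hinj : Function.Injective φ := by
      intro a b hab
      have : k * (a : K) = k * b := congrArg Subtype.val hab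
      exact Subtype.ext (mul_left_cancel₀ hk0 this)
    obtain ⟨c, hc⟩ := (Finite.surjective_of_injective hinj) ⟨k * y, hy⟩
    have : k * (c : K) = k * y := congrArg Subtype.val hc
    rw [← mul_left_cancel₀ hk0 this]; exact c.2
  have hSm : ∀ δ : Kˣ, δ ∈ S → ∀ c ∈ C, (δ : K) * c ∈ C := by
    intro δ hδ c hc
    have := (hS δ).1 hδ
    rw [← this]; exact ⟨c, hc, rfl⟩
  -- S ∪ {0} embeds in K / C
  have e2 : Nat.card S + 1 ≤ Nat.card (K ⧸ C) := by
    have h1 : Nat.card (Option S) = Nat.card S + 1 := by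
      rw [Nat.card_eq_fintype_card, Nat.card_eq_fintype_card, Fintype.card_option]
    rw [← h1]
    let g : Option S → K := fun o => o.elim 0 (fun δ => ((δ : Kˣ) : K))
    have hg : ∀ o, ∀ c ∈ C, g o * c ∈ C := by
      rintro (_ | δ) c hc
      · show (0 : K) * c ∈ C
        rw [zero_mul]; exact C.zero_mem
      · exact hSm δ δ.2 c hc
    have hginj : Function.Injective g := by
      rintro (_ | δ) (_ | δ') h
      · rfl
      · exact absurd h.symm (Units.ne_zero _)
      · exact absurd h (Units.ne_zero _)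
      · have : (δ : Kˣ) = δ' := Units.ext h
        rw [Subtype.ext this]
    refine Nat.card_le_card_of_injective (fun o => ((g o * x : K) : K ⧸ C)) ?_
    intro a b hab
    by_contra hne
    apply hx
    have h2 : -(g a * x) + g b * x ∈ C := QuotientAddGroup.eq.1 hab
    refine hdiv (g b - g a) (sub_ne_zero.2 fun h => hne (hginj h.symm)) ?_ x ?_
    · intro c hc
      rw [sub_mul]
      exact C.sub_mem (hg b c hc) (hg a c hc)
    · convert h2 using 1; ring
  have e3 : Nat.card Kˣ + 1 = Nat.card K := by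
    rw [Nat.card_units]
    have : 0 < Nat.card K := Nat.card_pos
    omega
  have e4 : 0 < Nat.card (Set.range fun δ : Kˣ => ml C δ) := Nat.card_pos
  have e5 : Nat.card (Set.range fun δ : Kˣ => ml C δ) * (Nat.card S + 1) ≤
      Nat.card (K ⧸ C) * Nat.card (Set.range fun δ : Kˣ => ml C δ) := by
    rw [mul_comm]; exact Nat.mul_le_mul_right _ e2
  constructor
  · nlinarith
  · intro hbot
    have e6 : 2 ≤ Nat.card (Set.range fun δ : Kˣ => ml C δ) := by
      by_contra hlt
      have h1 : Nat.card (Set.range fun δ : Kˣ => ml C δ) = 1 := by omega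
      rw [h1, one_mul] at e1
      have h2 : S = ⊤ := Subgroup.eq_top_of_card_eq S e1
      obtain ⟨c, hc, hc0⟩ : ∃ c ∈ C, c ≠ 0 := by
        by_contra h
        push Not at h
        exact hbot ((AddSubgroup.eq_bot_iff_forall _).2 h)
      apply hx
      by_cases hx0 : x = 0
      · rw [hx0]; exact C.zero_mem
      have h3 := hSm (Units.mk0 (x / c) (div_ne_zero hx0 hc0)) (by rw [h2]; trivial) c hc
      rwa [Units.val_mk0, div_mul_cancel₀ _ hc0] at h3
    nlinarith

theorem card_perp {A : Type*} [AddCommGroup A] [Finite A] (p : ℕ) [Fact p.Prime] [Module (ZMod p) A]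
    (B : A →+ A →+ ZMod p) (hnd : ∀ a, (∀ b, B a b = 0) → a = 0) (W : AddSubgroup A) :
    Nat.card W * Nat.card {a : A // ∀ w ∈ W, B w a = 0} = Nat.card A := by
  let B' : LinearMap.BilinForm (ZMod p) A := LinearMap.mk₂ (ZMod p) (fun x y => B x y)
    (fun x y z => by rw [map_add]; rfl)
    (fun c x y => by
      have := ZMod.map_smul (AddMonoidHom.flip B y) c x
      exact this)
    (fun x y z => map_add _ _ _)
    (fun c x y => ZMod.map_smul (B x) c y)
  let W' : Submodule (ZMod p) A := AddSubgroup.toZModSubmodule p W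
  have hker : LinearMap.ker B' = ⊥ := by
    rw [LinearMap.ker_eq_bot']
    intro a ha
    exact hnd a fun b => LinearMap.congr_fun ha b
  have h1 := LinearMap.BilinForm.finrank_add_finrank_orthogonal' (B := B') W'
  rw [hker, inf_bot_eq, finrank_bot, add_zero] at h1
  have h2 : Nat.card W' = p ^ Module.finrank (ZMod p) W' := by
    rw [Module.natCard_eq_pow_finrank (K := ZMod p), Nat.card_zmod]
  have h3 : Nat.card (B'.orthogonal W') = p ^ Module.finrank (ZMod p) (B'.orthogonal W') := by
    rw [Module.natCard_eq_pow_finrank (K := ZMod p), Nat.card_zmod]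
  have h4 : Nat.card A = p ^ Module.finrank (ZMod p) A := by
    rw [Module.natCard_eq_pow_finrank (K := ZMod p), Nat.card_zmod]
  have h5 : Nat.card W = Nat.card W' := rfl
  have h6 : Nat.card {a : A // ∀ w ∈ W, B w a = 0} = Nat.card (B'.orthogonal W') := rfl
  rw [h5, h6, h2, h3, h4, ← pow_add, h1]

theorem iso_bound {A : Type*} [AddCommGroup A] [Finite A] (p : ℕ) [Fact p.Prime] [Module (ZMod p) A]
    (B : A →+ A →+ ZMod p) (hnd : ∀ a, (∀ b, B a b = 0) → a = 0) (W : AddSubgroup A)
    (hW : ∀ x ∈ W, ∀ y ∈ W, B x y = 0) : Nat.card W ^ 2 ≤ Nat.card A := by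
  rw [← card_perp p B hnd W, sq]
  refine Nat.mul_le_mul_left _ ?_
  exact Nat.card_le_card_of_injective (fun w : W => (⟨w, fun x hx => hW x hx w w.2⟩ : {a : A // ∀ w ∈ W, B w a = 0}))
    (fun a b h => Subtype.ext (congrArg (fun z : {a : A // ∀ w ∈ W, B w a = 0} => (z : A)) h))

/-- elements in distinct cosets -/
theorem card_le_relIndex {G ι : Type*} [Group G] [Finite G] (M S : Subgroup G) (g : ι → G) (hg : ∀ i, g i ∈ S)
    (h : ∀ i j, (g i)⁻¹ * g j ∈ M → i = j) : Nat.card ι ≤ M.relIndex S := by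
  have : Nat.card ι ≤ Nat.card (S ⧸ M.subgroupOf S) := by
    refine Nat.card_le_card_of_injective (fun i => ((⟨g i, hg i⟩ : S) : S ⧸ M.subgroupOf S)) ?_
    intro i j hij
    apply h
    have := QuotientGroup.eq.1 hij
    exact this
  exact this

end Cfsg.Agent.Lib.MinU
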