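import Mathlib
import Cfsg.Agent.Lib.SubfUn3
import Cfsg.Agent.Lib.SubfSp4

/-!
# Overgroups of `SU_n(F₀)` in `SU_n(F)`: centres which are orthogonal to no rational isotropic vector (helper98)
-/

set_option autoImplicit false
set_option linter.unusedSectionVars false

namespace Cfsg.Agent.Lib.SubfUn

open Cfsg.Agent.Lib Cfsg.Agent.Lib.UnTrans Cfsg.Agent.Lib.ClSL2
open Cfsg.Agent.Lib.SpTrans (isom mem_isom)
open scoped MatrixGroups

/-- the order of the fixed field of an involution -/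
theorem card_fixed {K : Type*} [Field K] [Finite K] (σ : K →+* K) (hinv : ∀ a, σ (σ a) = a) (hne : ∃ a, σ a ≠ a) :
    Nat.card K = Nat.card {x : K // σ x = x} ^ 2 := by
  obtain ⟨θ, hθ⟩ := hne
  have hθ3 : θ - σ θ ≠ 0 := sub_ne_zero.mpr (Ne.symm hθ)
  rw [sq, ← Nat.card_prod]
  refine (Nat.card_congr (Equiv.ofBijective (fun p : {x : K // σ x = x} × {x : K // σ x = x} => (p.1 : K) + p.2 * θ) ⟨?_, ?_⟩)).symm
  · rintro ⟨⟨a, ha⟩, ⟨b, hb⟩⟩ ⟨⟨a', ha'⟩, ⟨b', hb'⟩⟩ h
    have h1 : a + b * θ = a' + b' * θ := h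
    have h2 : a + b * σ θ = a' + b' * σ θ := by
      have := congrArg σ h1
      rwa [map_add, map_add, map_mul, map_mul, ha, hb, ha', hb'] at this
    have h3 : (b - b') * (θ - σ θ) = 0 := by linear_combination h1 - h2
    have h4 : b = b' := sub_eq_zero.mp ((mul_eq_zero.mp h3).resolve_right hθ3)
    subst h4
    have h5 : a = a' := add_right_cancel h1
    subst h5
    rfl
  · intro b
    have hden : σ θ - θ ≠ 0 := by
      intro h; apply hθ3; linear_combination -h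
    have e2 : σ ((b - σ b) / (θ - σ θ)) = (b - σ b) / (θ - σ θ) := by
      rw [map_div₀, map_sub, map_sub, hinv, hinv, div_eq_div_iff hden hθ3]; ring
    refine ⟨(⟨b - (b - σ b) / (θ - σ θ) * θ, ?_⟩, ⟨(b - σ b) / (θ - σ θ), e2⟩), ?_⟩
    · rw [map_sub, map_mul, e2]
      have h1 : (b - σ b) / (θ - σ θ) * (θ - σ θ) = b - σ b := by rw [div_mul_cancel₀ _ hθ3]
      linear_combination h1
    · change b - (b - σ b) / (θ - σ θ) * θ + (b - σ b) / (θ - σ θ) * θ = b
      ring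

variable {F V : Type*} [Field F] [Finite F] [AddCommGroup V] [Module F V]
variable {σ : F →+* F} {f : V → V → F} {F₀ : Subfield F} {V0 : Submodule F₀ V}
variable {M : Subgroup (V ≃ₗ[F] V)}

/-- the fixed field -/
def EE (σ : F →+* F) : Subfield F := RingHom.eqLocusField σ (RingHom.id F)

theorem mem_EE {x : F} : x ∈ EE σ ↔ σ x = x := Iff.rfl

/-- its rational part -/
def EE0 (σ : F →+* F) (F₀ : Subfield F) : Subfield (EE σ) := F₀.comap (EE σ).subtype

theorem mem_EE0 {x : EE σ} : x ∈ EE0 σ F₀ ↔ (x : F) ∈ F₀ := Iff.rfl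

section

variable (S : UnF σ f F₀ V0)
include S

theorem card_EE : Nat.card F = Nat.card (EE σ) ^ 2 := card_fixed σ S.hs.inv S.hs.ne

theorem card_EE0 : Nat.card F₀ = Nat.card (EE0 σ F₀) ^ 2 := by
  rw [card_fixed (s0 S) S.hs0.inv S.hs0.ne]
  congr 1
  refine Nat.card_congr
    { toFun := fun x => ⟨⟨(x : F₀), congrArg Subtype.val x.2⟩, (x : F₀).2⟩
      invFun := fun y => ⟨⟨(y : EE σ), y.2⟩, Subtype.ext (y : EE σ).2⟩
      left_inv := fun x => rfl
      right_inv := fun y => rfl }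

theorem card_rel (r : ℕ) (hcard : Nat.card F = Nat.card F₀ ^ r) : Nat.card (EE σ) = Nat.card (EE0 σ F₀) ^ r := by
  rw [card_EE S, card_EE0 S, ← pow_mul, mul_comm, pow_mul] at hcard
  exact Nat.pow_left_injective (n := 2) (by norm_num) hcard

end

section

variable (S : UnF σ f F₀ V0) (H : Hyp σ f F₀ V0 M)
include S H

/-- **case B** -/
theorem caseB (r : ℕ) (hr : r.Prime) (hcard : Nat.card F = Nat.card F₀ ^ r)
    (hF : ∀ w ∈ V0, w ≠ 0 → f w w = 0 → ∀ a : F, TV f M w a → a ∈ F₀) {v : V} (hvv : f v v = 0)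
    {δ : F} (hδ0 : δ ≠ 0) (hδF : δ ∈ F₀) (hδ : δ + σ δ = 0) (hT : TV f M v δ)
    (hinj : ∀ w ∈ V0, w ≠ 0 → f w w = 0 → f v w ≠ 0) : False := by
  classical
  have HH := S.hs
  have := S.fin
  have hd := S.dim
  have hσδ : σ δ = -δ := by linear_combination hδ
  have hcE := card_rel S r hcard
  have hcE0 := card_EE0 S
  set q₀ := Nat.card (EE0 σ F₀) with hq₀
  have hq₀2 : 2 ≤ q₀ := Finite.one_lt_card
  have hF₀2 : 2 ≤ Nat.card F₀ := Finite.one_lt_card
  -- `r` is large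
  have hr13 : 13 ≤ r := by
    let φ : V0 →ₗ[F₀] F :=
      { toFun := fun x => f x v
        map_add' := fun x y => HH.add_left _ _ _
        map_smul' := fun c x => HH.smul_left _ _ _ }
    have h1 := LinearMap.finrank_range_add_finrank_ker φ
    have h2 : Module.finrank F₀ (LinearMap.ker φ) ≤ 1 := by
      by_contra hcon
      push Not at hcon
      have h3 : Module.finrank F₀ ((LinearMap.ker φ).map V0.subtype) = Module.finrank F₀ (LinearMap.ker φ) :=
        (Submodule.equivMapOfInjective _ V0.injective_subtype _).finrank_eq.symm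
      obtain ⟨x, hx, hx0, hxx⟩ := S.exists_iso (K := (LinearMap.ker φ).map V0.subtype) (by
        rintro _ ⟨y, _, rfl⟩; exact y.2) (by omega)
      obtain ⟨y, hy, rfl⟩ := hx
      exact hinj _ y.2 hx0 hxx (HH.symm_zero (LinearMap.mem_ker.mp hy))
    have h4 : Nat.card F₀ ^ Module.finrank F₀ (LinearMap.range φ) ≤ Nat.card F₀ ^ r := by
      rw [← hcard]
      have : Fintype F₀ := Fintype.ofFinite _
      have : Fintype (LinearMap.range φ) := Fintype.ofFinite _
      rw [Nat.card_eq_fintype_card (α := F₀), ← Module.card_eq_pow_finrank (K := F₀) (V := LinearMap.range φ),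
        ← Nat.card_eq_fintype_card]
      exact Nat.card_le_card_of_injective _ (LinearMap.range φ).injective_subtype
    have h5 := (Nat.pow_le_pow_iff_right hF₀2).mp h4
    have h6 : r ≠ 12 := by rintro rfl; norm_num at hr
    omega
  obtain ⟨W, hW, hW1, hW2⟩ := S.exists_isotropic 6 le_rfl
  have : Module.Finite F₀ W := Module.Finite.of_injective (Submodule.inclusion hW) (Submodule.inclusion_injective hW)
  obtain ⟨w₀, hw₀, hw₀0⟩ : ∃ w₀ ∈ W, w₀ ≠ 0 := by
    apply Submodule.exists_mem_ne_zero_of_ne_bot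
    rintro rfl
    rw [finrank_bot] at hW1
    omega
  have hww := hW2 w₀ hw₀ w₀ hw₀
  have hWinj : ∀ w ∈ W, w ≠ 0 → f v w ≠ 0 := fun w hw hw0 => hinj w (hW hw) hw0 (hW2 w hw w hw)
  have hβ0 : f v w₀ ≠ 0 := hWinj w₀ hw₀ hw₀0
  set β₀ := f v w₀ with hβ₀
  have hσβ0 : σ β₀ ≠ 0 := HH.sigma_ne hβ0
  have hw₀v : f w₀ v = σ β₀ := HH.herm _ _
  set v' := β₀⁻¹ • v with hv'
  set SW : Submodule F V := Submodule.span F (W : Set V) with hSW
  have hiso : ∀ x ∈ SW, ∀ w ∈ W, f x w = 0 := by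
    intro x hx w hw
    have h1 : SW ≤ LinearMap.ker (HH.fl w) := by
      rw [hSW, Submodule.span_le]
      intro z hz
      exact hW2 z hz w hw
    exact h1 hx
  have hWS : ∀ w ∈ W, w ∈ SW := fun w hw => Submodule.subset_span hw
  have hSV : ∀ z ∈ V0, z ∈ SW → z ∈ W := by
    intro z hz hzS
    by_contra hzW
    obtain ⟨u, hu, h1, h2⟩ := S.exists_sep hz hzW
    have h3 : SW ≤ LinearMap.ker (HH.fl u) := by
      rw [hSW, Submodule.span_le]
      intro x hx
      exact h1 x hx (hW hx)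
    have h4 : f z u = 0 := h3 hzS
    rw [h2] at h4
    exact one_ne_zero h4
  set R : Submodule F V := SW ⊓ LinearMap.ker (HH.fl v) with hR
  have hRv : ∀ x ∈ R, f x v = 0 := fun x hx => hx.2
  -- the field E
  haveI : Fintype (EE σ) := Fintype.ofFinite _
  have hcE' : Fintype.card (EE σ) = Nat.card (EE0 σ F₀) ^ r := by rw [← Nat.card_eq_fintype_card]; exact hcE
  let γ : V → F := fun w => f v' w
  have hγ : ∀ w, γ w = β₀⁻¹ * f v w := fun w => HH.smul_left _ _ _
  have hγw₀ : γ w₀ = 1 := by rw [hγ, ← hβ₀, inv_mul_cancel₀ hβ0]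
  have hγadd : ∀ w w', γ (w + w') = γ w + γ w' := fun w w' => HH.add_right _ _ _
  have hγsmul : ∀ (c : F) w, γ (c • w) = σ c * γ w := fun c w => HH.smul_right _ _ _
  let N : F → EE σ := fun x => ⟨x * σ x, by rw [mem_EE, map_mul, HH.inv, mul_comm]⟩
  let K : Subgroup SL(2, EE σ) := (SubfSp.relK M R (δ • w₀) v').comap (Matrix.SpecialLinearGroup.map (EE σ).subtype)
  have hKmem : ∀ κ : SL(2, EE σ), κ ∈ K ↔ ∃ g ∈ M, SubfSp.Rel R (δ • w₀) v' g (Matrix.SpecialLinearGroup.map (EE σ).subtype κ) :=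
    fun κ => Iff.rfl
  have hent : ∀ (κ : SL(2, EE σ)) i j, (Matrix.SpecialLinearGroup.map (EE σ).subtype κ : SL(2, F)) i j = ((κ i j : EE σ) : F) :=
    fun κ i j => rfl
  -- the upper elements
  have hup : ∀ s ∈ EE0 σ F₀, ∀ w ∈ W, uS (s * N (γ w)) ∈ K := by
    intro s hs w hw
    rw [hKmem]
    have hsσ : σ (s : F) = s := s.2
    obtain ⟨t, ht, h1⟩ := H.mem w (hW hw) (hW2 w hw w hw) (δ * s) (F₀.mul_mem hδF hs) (by
      rw [map_mul, hσδ, hsσ]; ring)
    refine ⟨t, ht, ?_, ?_, ?_⟩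
    · intro x hx
      rw [h1, hiso x hx.1 w hw]; simp
    · rw [h1, hent, hent, coe_uS, HH.smul_left, hW2 w₀ hw₀ w hw]
      simp
    · rw [h1, hent, hent, coe_uS]
      have e1 : v' + (δ * (s : F) * f v' w) • w - (((s : F) * (γ w * σ (γ w))) • δ • w₀ + (1 : F) • v') =
          (δ * (s : F) * γ w) • (w - (σ (γ w)) • w₀) := by
        change v' + (δ * (s : F) * γ w) • w - (((s : F) * (γ w * σ (γ w))) • δ • w₀ + (1 : F) • v') = _
        module
      have h2 : (δ * (s : F) * γ w) • (w - (σ (γ w)) • w₀) ∈ R := by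
        apply R.smul_mem
        refine ⟨SW.sub_mem (hWS w hw) (SW.smul_mem _ (hWS w₀ hw₀)), ?_⟩
        change f (w - (σ (γ w)) • w₀) v = 0
        rw [HH.sub_left, HH.smul_left, hw₀v, HH.herm w v, hγ, map_mul, map_inv₀]
        field_simp
        ring
      rw [← e1] at h2
      simpa [N] using h2
  -- the lower element
  set c₀ : EE σ := ⟨δ ^ 2 * (β₀ * σ β₀), by rw [mem_EE, map_mul, map_mul, map_pow, hσδ, HH.inv]; ring⟩ with hc₀
  have hc₀0 : c₀ ≠ 0 := by
    intro h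
    have h1 : δ ^ 2 * (β₀ * σ β₀) = 0 := congrArg Subtype.val h
    exact mul_ne_zero (pow_ne_zero 2 hδ0) (mul_ne_zero hβ0 hσβ0) h1
  have hlow : lS c₀ ∈ K := by
    rw [hKmem]
    obtain ⟨t, ht, h1⟩ := hT
    refine ⟨t, ht, ?_, ?_, ?_⟩
    · intro x hx
      rw [h1, hRv x hx]; simp
    · rw [h1, hent, hent, coe_lS]
      have e1 : δ • w₀ + (δ * f (δ • w₀) v) • v - ((1 : F) • δ • w₀ + (δ ^ 2 * (β₀ * σ β₀)) • v') = 0 := by
        have h0 : (δ ^ 2 * (β₀ * σ β₀)) • β₀⁻¹ • v = (δ * (δ * σ β₀)) • v := by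
          rw [smul_smul]; congr 1; field_simp
        rw [HH.smul_left, hw₀v, hv', h0]
        module
      have h2 : δ • w₀ + (δ * f (δ • w₀) v) • v - ((1 : F) • δ • w₀ + (δ ^ 2 * (β₀ * σ β₀)) • v') ∈ R := by
        rw [e1]; exact R.zero_mem
      simpa [hc₀] using h2
    · rw [h1, hent, hent, coe_lS, hv', HH.smul_left, hvv]
      simp
  -- `Λ`
  set T : Set (EE σ) := {x | ∃ s ∈ EE0 σ F₀, ∃ w ∈ W, x = s * N (γ w)} with hTdef
  set Λ : AddSubgroup (EE σ) := AddSubgroup.closure T with hΛdef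
  have hΛU : ∀ l ∈ Λ, uS l ∈ K := by
    intro l hl
    have hadd : ∀ x y : EE σ, uS (x + y) = uS x * uS y := by
      intro x y
      apply Subtype.ext
      change ((uS (x + y) : SL(2, EE σ)) : Matrix (Fin 2) (Fin 2) (EE σ)) = ((uS x * uS y : SL(2, EE σ)) : Matrix (Fin 2) (Fin 2) (EE σ))
      rw [Matrix.SpecialLinearGroup.coe_mul, coe_uS, coe_uS, coe_uS, Matrix.mul_fin_two]
      simp [add_comm]
    induction hl using AddSubgroup.closure_induction with
    | mem x hx => obtain ⟨a, ha, w, hw, rfl⟩ := hx; exact hup a ha w hw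
    | zero => rw [uS_zero]; exact Subgroup.one_mem _
    | add x y _ _ h1 h2 => rw [hadd]; exact Subgroup.mul_mem _ h1 h2
    | neg x _ h1 =>
      have e : uS (-x) = (uS x)⁻¹ := by
        rw [eq_inv_iff_mul_eq_one, ← hadd, neg_add_cancel, uS_zero]
      rw [e]; exact Subgroup.inv_mem _ h1
  have hΛs : ∀ s ∈ EE0 σ F₀, ∀ l ∈ Λ, s * l ∈ Λ := by
    intro s hs l hl
    induction hl using AddSubgroup.closure_induction with
    | mem x hx =>
      obtain ⟨a, ha, w, hw, rfl⟩ := hx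
      exact AddSubgroup.subset_closure ⟨s * a, (EE0 σ F₀).mul_mem hs ha, w, hw, by ring⟩
    | zero => rw [mul_zero]; exact Λ.zero_mem
    | add x y _ _ h1 h2 => rw [mul_add]; exact Λ.add_mem h1 h2
    | neg x _ h1 => rw [mul_neg]; exact Λ.neg_mem h1
  have hcW : Nat.card W = (q₀ ^ 6) ^ 2 := by
    have : Finite W := Module.finite_of_finite F₀
    have : Fintype W := Fintype.ofFinite W
    have : Fintype F₀ := Fintype.ofFinite F₀
    rw [Nat.card_eq_fintype_card, Module.card_eq_pow_finrank (K := F₀), hW1, ← Nat.card_eq_fintype_card (α := F₀), hcE0]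
    ring
  -- traces are in `Λ`
  let Tr : F → EE σ := fun x => ⟨x + σ x, by rw [mem_EE, map_add, HH.inv, add_comm]⟩
  have hTr : ∀ w ∈ W, Tr (γ w) ∈ Λ := by
    intro w hw
    have hN : ∀ w ∈ W, N (γ w) ∈ Λ := fun w hw =>
      AddSubgroup.subset_closure ⟨1, (EE0 σ F₀).one_mem, w, hw, by rw [one_mul]⟩
    have h1 := Λ.sub_mem (Λ.sub_mem (hN (w + w₀) (W.add_mem hw hw₀)) (hN w hw)) (hN w₀ hw₀)
    have e1 : N (γ (w + w₀)) - N (γ w) - N (γ w₀) = Tr (γ w) := by
      apply Subtype.ext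
      change γ (w + w₀) * σ (γ (w + w₀)) - γ w * σ (γ w) - γ w₀ * σ (γ w₀) = γ w + σ (γ w)
      rw [hγadd, hγw₀, map_add, map_one]; ring
    rwa [e1] at h1
  obtain ⟨θ, hθ, hθ2⟩ := S.ne0
  have hcΛ : q₀ ^ 6 ≤ Nat.card Λ := by
    have h1 : Nat.card W ≤ Nat.card (Λ × Λ) := by
      apply Nat.card_le_card_of_injective (fun w : W =>
        ((⟨Tr (γ w), hTr w w.2⟩, ⟨Tr (γ (θ • (w : V))), hTr _ (W.smul_mem (⟨θ, hθ⟩ : F₀) w.2)⟩) : Λ × Λ))
      intro x y hxy
      have a1 : γ x + σ (γ x) = γ y + σ (γ y) := congrArg (fun p : Λ × Λ => ((p.1 : EE σ) : F)) hxy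
      have a2 : γ (θ • (x : V)) + σ (γ (θ • (x : V))) = γ (θ • (y : V)) + σ (γ (θ • (y : V))) :=
        congrArg (fun p : Λ × Λ => ((p.2 : EE σ) : F)) hxy
      rw [hγsmul, hγsmul, map_mul, map_mul, HH.inv] at a2
      have a3 : (σ θ - θ) * (γ x - γ y) = 0 := by linear_combination a2 - θ * a1
      have a4 : γ x = γ y := sub_eq_zero.mp ((mul_eq_zero.mp a3).resolve_left (sub_ne_zero.mpr hθ2))
      apply Subtype.ext
      by_contra hne
      apply hWinj ((x : V) - y) (W.sub_mem x.2 y.2) (sub_ne_zero.mpr hne)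
      rw [HH.sub_right]
      rw [hγ, hγ] at a4
      exact sub_eq_zero.mpr (mul_left_cancel₀ (inv_ne_zero hβ0) a4)
    rw [Nat.card_prod, hcW, ← sq] at h1
    exact (Nat.pow_le_pow_iff_left (by norm_num)).mp h1
  have h64 : 2 ^ 6 ≤ q₀ ^ 6 := Nat.pow_le_pow_left hq₀2 6
  have hbig : 60 < Nat.card Λ := by
    have : (2 : ℕ) ^ 6 = 64 := by norm_num
    omega
  have hbig2 : Nat.card (EE0 σ F₀) < Nat.card Λ := by
    have h1 : q₀ ^ 1 < q₀ ^ 6 := Nat.pow_lt_pow_right hq₀2 (by norm_num)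
    rw [pow_one] at h1
    omega
  have key : ∀ μ : EE σ, μ ≠ 0 → ∃ z ∈ W, z ≠ 0 ∧ μ ^ 2 * N β₀ = N (f v z) := by
    intro μ hμ
    let κ : SL(2, EE σ) := ⟨!![μ, 0; 0, μ⁻¹], by rw [Matrix.det_fin_two_of]; field_simp; simp⟩
    obtain ⟨κ', hκ', ε, hε, e⟩ := SubfRankTwo.rank_two (EE0 σ F₀) r hr hcE' Λ hΛs hbig hbig2 c₀ hc₀0 K hΛU hlow κ
    rw [hKmem] at hκ'
    obtain ⟨g, hg, hrel⟩ := hκ'
    have e0 : κ' 0 0 = ε * μ := by
      have := congrFun (congrFun e 0) 0
      simpa [κ] using this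
    have e1 : κ' 1 0 = 0 := by
      have := congrFun (congrFun e 1) 0
      simpa [κ] using this
    have h1 := hrel.2.1
    rw [hent, hent, e0, e1] at h1
    have h1' : g (δ • w₀) - ((ε : F) * μ) • δ • w₀ ∈ R := by simpa using h1
    obtain ⟨ρ, hρ, eρ⟩ : ∃ ρ ∈ R, g w₀ = ((ε : F) * μ) • w₀ + ρ := by
      refine ⟨δ⁻¹ • (g (δ • w₀) - ((ε : F) * μ) • δ • w₀), R.smul_mem _ h1', ?_⟩
      rw [map_smul, smul_sub, smul_smul, inv_mul_cancel₀ hδ0, one_smul, smul_smul, smul_smul]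
      have : δ⁻¹ * ((ε : F) * μ) * δ = (ε : F) * μ := by field_simp
      rw [this]; abel
    have hgS : g w₀ ∈ SW := by
      rw [eρ]; exact SW.add_mem (SW.smul_mem _ (hWS w₀ hw₀)) hρ.1
    have hg0 : g w₀ ≠ 0 := by
      intro h
      exact hw₀0 ((map_eq_zero_iff g g.injective).mp h)
    have hgg : f (g w₀) (g w₀) = 0 := by rw [H.le hg]; exact hww
    have hgtv : TV f M (g w₀) δ := TV.map HH H.le hg (H.mem w₀ (hW hw₀) hww δ hδF hδ)
    obtain ⟨c, hc, z, hz, ez⟩ := caseA' S H hF hg0 hgg hδ0 hδF hδ hgtv (hW hw₀) hw₀0 hww (hiso _ hgS w₀ hw₀)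
    have hz0 : z ≠ 0 := by
      rintro rfl
      rw [smul_zero] at ez
      exact hg0 ez
    have hσc : σ c ≠ 0 := HH.sigma_ne hc
    have hzz : f z z = 0 := by
      rw [ez, HH.smul_left, HH.smul_right] at hgg
      rcases mul_eq_zero.mp hgg with h | h
      · exact absurd h hc
      · exact (mul_eq_zero.mp h).resolve_left hσc
    have hzS : z ∈ SW := by
      have := SW.smul_mem c⁻¹ hgS
      rwa [ez, smul_smul, inv_mul_cancel₀ hc, one_smul] at this
    have hzW := hSV z hz hzS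
    have hNc : c * σ c ∈ F₀ := by
      rw [ez, TV.smul HH] at hgtv
      have := F₀.mul_mem (F₀.inv_mem hδF) (hF z hz hz0 hzz _ hgtv)
      rwa [inv_mul_cancel_left₀ hδ0] at this
    obtain ⟨c', hc'⟩ := S.hs0.norm ⟨c * σ c, hNc⟩ (Subtype.ext (by
      change σ (c * σ c) = c * σ c
      rw [map_mul, HH.inv, mul_comm]))
    have hc'' : (c' : F) * σ c' = c * σ c := congrArg Subtype.val hc'
    have hc'0 : (c' : F) ≠ 0 := by
      intro h
      rw [h, zero_mul] at hc''
      exact mul_ne_zero hc hσc hc''.symm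
    refine ⟨(c' : F) • z, W.smul_mem c' hzW, smul_ne_zero hc'0 hz0, ?_⟩
    apply Subtype.ext
    change (μ : F) ^ 2 * (β₀ * σ β₀) = f v ((c' : F) • z) * σ (f v ((c' : F) • z))
    have h2 : f v (g w₀) = (ε : F) * μ * β₀ := by
      rw [eρ, HH.add_right, HH.smul_right, HH.symm_zero (hRv ρ hρ), add_zero, map_mul, ← hβ₀]
      have h3 : σ (ε : F) = ε := ε.2
      have h4 : σ (μ : F) = μ := μ.2
      rw [h3, h4]
    rw [ez, HH.smul_right] at h2
    have h5 : (ε : F) ^ 2 = 1 := congrArg Subtype.val hε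
    have h6 : σ (σ c * f v z) = σ ((ε : F) * μ * β₀) := by rw [h2]
    have h3 : σ (ε : F) = ε := ε.2
    have h4 : σ (μ : F) = μ := μ.2
    rw [map_mul, map_mul, map_mul, h3, h4, HH.inv] at h6
    rw [HH.smul_right, map_mul, HH.inv]
    have e3 : σ (c' : F) * f v z * ((c' : F) * σ (f v z)) = (c' * σ c') * (f v z * σ (f v z)) := by ring
    rw [e3, hc'']
    have e4 : c * σ c * (f v z * σ (f v z)) = (σ c * f v z) * (c * σ (f v z)) := by ring
    rw [e4, h2, h6]
    have e5 : (ε : F) * μ * β₀ * (ε * μ * σ β₀) = (ε : F) ^ 2 * (μ ^ 2 * (β₀ * σ β₀)) := by ring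
    rw [e5, h5, one_mul]
  -- counting
  have : Finite W := Module.finite_of_finite F₀
  haveI : Fintype W := Fintype.ofFinite W
  have hNβ : N β₀ ≠ 0 := by
    intro h
    exact mul_ne_zero hβ0 hσβ0 (congrArg Subtype.val h)
  have hcount : Fintype.card (EE σ) + 1 ≤ 2 * Fintype.card W := by
    let h : EE σ → EE σ := fun μ => μ ^ 2 * N β₀
    let A : Finset (EE σ) := Finset.univ.erase 0
    let D : Finset W := Finset.univ.erase 0
    let C : Finset (EE σ) := D.image (fun z : W => N (f v z))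
    have h1 : A.card ≤ 2 * C.card := by
      apply Finset.card_le_mul_card_image_of_maps_to (f := h)
      · intro μ hμ
        obtain ⟨z, hz, hz0, e⟩ := key μ (Finset.ne_of_mem_erase hμ)
        refine Finset.mem_image.mpr ⟨⟨z, hz⟩, Finset.mem_erase.mpr ⟨fun h => hz0 (congrArg Subtype.val h), Finset.mem_univ _⟩, e.symm⟩
      · intro b hb
        by_cases hne : ∃ μ ∈ A, h μ = b
        · obtain ⟨μ, hμ, rfl⟩ := hne
          have h2 : A.filter (fun x => h x = h μ) ⊆ {μ, -μ} := by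
            intro x hx
            have h3 : x ^ 2 * N β₀ = μ ^ 2 * N β₀ := (Finset.mem_filter.mp hx).2
            have h4 : x ^ 2 = μ ^ 2 := mul_right_cancel₀ hNβ h3
            rcases sq_eq_sq_iff_eq_or_eq_neg.mp h4 with h | h
            · simp [h]
            · simp [h]
          exact (Finset.card_le_card h2).trans Finset.card_le_two
        · have h2 : A.filter (fun x => h x = b) = ∅ := by
            rw [Finset.filter_eq_empty_iff]
            intro x hx h
            exact hne ⟨x, hx, h⟩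
          rw [h2]; simp
    have h2 : C.card ≤ D.card := Finset.card_image_le
    have h3 : A.card = Fintype.card (EE σ) - 1 := by
      rw [Finset.card_erase_of_mem (Finset.mem_univ _), Finset.card_univ]
    have h4 : D.card = Fintype.card W - 1 := by
      rw [Finset.card_erase_of_mem (Finset.mem_univ _), Finset.card_univ]
    have h5 : 1 ≤ Fintype.card W := Fintype.card_pos
    have h6 : 1 ≤ Fintype.card (EE σ) := Fintype.card_pos
    omega
  rw [← Nat.card_eq_fintype_card, ← Nat.card_eq_fintype_card, hcE, hcW] at hcount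
  have h7 : q₀ ^ 13 ≤ q₀ ^ r := Nat.pow_le_pow_right (by omega) hr13
  have h8 : q₀ ^ 13 = q₀ * (q₀ ^ 6) ^ 2 := by ring
  have h9 : 2 * (q₀ ^ 6) ^ 2 ≤ q₀ * (q₀ ^ 6) ^ 2 := Nat.mul_le_mul_right _ hq₀2
  omega

end

end Cfsg.Agent.Lib.SubfUn
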