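import Mathlib
import Cfsg.Agent.Lib.SubfUn4
import Cfsg.Agent.Lib.MinUA

/-!
# Minimal index of unitary groups: Eichler elements and the main count (helper98)
-/

set_option autoImplicit false
set_option linter.unusedSectionVars false

namespace Cfsg.Agent.Lib.MinU

open Cfsg.Agent.Lib Cfsg.Agent.Lib.UnTrans Cfsg.Agent.Lib.SubfUn
open Cfsg.Agent.Lib.SpTrans (isom mem_isom)

variable {F V : Type*} [Field F] [Finite F] [AddCommGroup V] [Module F V]
variable {σ : F →+* F} {f : V → V → F}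

theorem inv_apply_self' (t : V ≃ₗ[F] V) (x : V) : t⁻¹ (t x) = x := by
  rw [← LinearEquiv.mul_apply, inv_mul_cancel]; rfl

/-- `t` is the Eichler element `rho e u c` -/
def IsR (f : V → V → F) (t : V ≃ₗ[F] V) (e u : V) (c : F) : Prop := ∀ x, t x = rho f e u c x

section basic
variable (H : HS σ f)
include H

theorem IsR.mul {e u u' : V} {c c' : F} {t t' : V ≃ₗ[F] V} (hee : f e e = 0) (hue : f u e = 0) (hue' : f u' e = 0)
    (h : IsR f t e u c) (h' : IsR f t' e u' c') : IsR f (t * t') e (u + u') (c + c' - f u' u) := by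
  intro x
  have h1 : f e u = 0 := H.symm_zero hue
  rw [LinearEquiv.mul_apply, h, h']
  simp only [rho, H.add_left, H.sub_left, H.smul_left, H.add_right, hee, hue', h1]
  match_scalars <;> ring

theorem IsR.inv {e u : V} {c : F} {t : V ≃ₗ[F] V} (hee : f e e = 0) (hue : f u e = 0) (h : IsR f t e u c) :
    IsR f t⁻¹ e (-u) (-c - f u u) := by
  have heu : f e u = 0 := H.symm_zero hue
  intro x
  apply inv_apply_of
  rw [h, rho, rho]
  simp only [H.add_left, H.sub_left, H.smul_left, H.neg_left, H.neg_right, hee, hue, heu]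
  module

theorem IsR.conj {e u : V} {c : F} {t g : V ≃ₗ[F] V} (hg : g ∈ isom f) (h : IsR f t e u c) :
    IsR f (g * t * g⁻¹) (g e) (g u) c := by
  intro x
  have h1 : ∀ w, f (g⁻¹ x) w = f x (g w) := by
    intro w
    have := hg (g⁻¹ x) w
    rw [apply_inv] at this
    exact this.symm
  rw [LinearEquiv.mul_apply, LinearEquiv.mul_apply, h, rho, rho]
  rw [map_add, map_sub, map_add, map_smul, map_smul, map_smul, apply_inv, h1, h1]

theorem rho_smul {e u : V} {c l : F} (x : V) : rho f (l • e) u c x = rho f e (σ l • u) (c * (l * σ l)) x := by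
  simp only [rho, H.smul_right, H.inv]
  module

theorem IsR.smul {e u : V} {c l : F} {t : V ≃ₗ[F] V} (h : IsR f t (l • e) u c) :
    IsR f t e (σ l • u) (c * (l * σ l)) := by
  intro x
  rw [h, rho_smul H]

/-- conjugation inside the group of Eichler elements with centre `e` -/
theorem IsR.conjR {e u v : V} {c d : F} {t g : V ≃ₗ[F] V} (hee : f e e = 0) (hue : f u e = 0) (hve : f v e = 0)
    (hg : IsR f g e v d) (h : IsR f t e u c) : IsR f (g * t * g⁻¹) e u (c + f v u - f u v) := by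
  have h1 := IsR.mul H hee (by rw [H.add_left, hve, hue, add_zero]) (by rw [H.neg_left, hve, neg_zero])
    (IsR.mul H hee hve hue hg h) (IsR.inv H hee hve hg)
  have e1 : v + u + -v = u := by abel
  have e2 : d + c - f u v + (-d - f v v) - f (-v) (v + u) = c + f v u - f u v := by
    rw [H.neg_left, H.add_right]; ring
  rwa [e1, e2] at h1

theorem IsR.one (e : V) : IsR f (1 : V ≃ₗ[F] V) e 0 0 := by
  intro x; simp [rho, H.zero_right]

end basic

/-- a hyperbolic pair with its perpendicular space of dimension at least 4 -/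
structure Ctx (σ : F →+* F) (f : V → V → F) (e e' : V) (V1 : Submodule F V) : Prop where
  hs : HS σ f
  nd : Nd f (⊤ : Submodule F V)
  fd : FiniteDimensional F V
  ee : f e e = 0
  ee' : f e' e' = 0
  ep : f e e' = 1
  mem : ∀ x, x ∈ V1 ↔ f x e = 0 ∧ f x e' = 0
  d4 : 4 ≤ Module.finrank F V1

namespace Ctx
variable {e e' : V} {V1 : Submodule F V} (S : Ctx σ f e e' V1)
include S

theorem ep' : f e' e = 1 := by rw [S.hs.herm, S.ep, map_one]

theorem perp_e {u : V} (hu : u ∈ V1) : f u e = 0 := ((S.mem u).1 hu).1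
theorem perp_e' {u : V} (hu : u ∈ V1) : f u e' = 0 := ((S.mem u).1 hu).2
theorem perp_e2 {u : V} (hu : u ∈ V1) : f e u = 0 := S.hs.symm_zero (S.perp_e hu)
theorem perp_e'2 {u : V} (hu : u ∈ V1) : f e' u = 0 := S.hs.symm_zero (S.perp_e' hu)

theorem decomp (x : V) : ∃ u ∈ V1, x = f x e' • e + f x e • e' + u := by
  refine ⟨x - f x e' • e - f x e • e', (S.mem _).2 ⟨?_, ?_⟩, by abel⟩
  · rw [S.hs.sub_left, S.hs.sub_left, S.hs.smul_left, S.hs.smul_left, S.ee, S.ep']; ring
  · rw [S.hs.sub_left, S.hs.sub_left, S.hs.smul_left, S.hs.smul_left, S.ee', S.ep]; ring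

theorem nd1 : Nd f V1 := by
  intro x hx hx0
  obtain ⟨y, -, hy⟩ := S.nd x trivial hx0
  obtain ⟨u, hu, hyu⟩ := S.decomp y
  refine ⟨u, hu, ?_⟩
  rw [hyu, S.hs.add_right, S.hs.add_right, S.hs.smul_right, S.hs.smul_right, S.perp_e hx, S.perp_e' hx] at hy
  simpa using hy

theorem finite_V : Finite V := by
  have := S.fd
  exact Module.finite_of_finite F

theorem finite_G : Finite (V ≃ₗ[F] V) := by
  have := S.finite_V
  exact Finite.of_injective (fun g : V ≃ₗ[F] V => (g : V → V)) DFunLike.coe_injective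

theorem d4top : 4 ≤ Module.finrank F (⊤ : Submodule F V) := by
  have := S.fd
  exact S.d4.trans (Submodule.finrank_mono le_top)

/-- all Eichler elements exist in `SU(V)` -/
theorem exists_R {a u : V} (haa : f a a = 0) (hua : f u a = 0) {c : F} (hc : c + σ c + f u u = 0) :
    ∃ t ∈ tgrp S.hs ⊤, IsR f t a u c := by
  have := S.fd
  exact rhoIn_all S.hs (le_refl _) S.nd S.d4top (Submodule.mem_top) haa Submodule.mem_top hua c hc

/-- all Eichler elements of `V1` exist in `SU(V1)` -/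
theorem exists_R1 {a u : V} (ha : a ∈ V1) (hu : u ∈ V1) (haa : f a a = 0) (hua : f u a = 0) {c : F}
    (hc : c + σ c + f u u = 0) : ∃ t ∈ tgrp S.hs V1, IsR f t a u c := by
  have := S.fd
  exact rhoIn_all S.hs (le_refl _) S.nd1 S.d4 ha haa hu hua c hc

theorem exists_c (u : V) : ∃ c, c + σ c + f u u = 0 := by
  obtain ⟨x, hx⟩ := S.hs.exists_trace (-f u u) (by rw [map_neg, S.hs.self_fixed])
  exact ⟨x, by rw [hx]; ring⟩

theorem isR_apply_e' {t : V ≃ₗ[F] V} {u : V} {c : F} (hu : u ∈ V1) (h : IsR f t e u c) :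
    t e' = e' + u + c • e := by
  rw [h, rho, S.ep', S.perp_e'2 hu]; module

theorem isR_apply_e {t : V ≃ₗ[F] V} {u : V} {c : F} (hu : u ∈ V1) (h : IsR f t e u c) : t e = e := by
  rw [h, rho, S.ee, S.perp_e2 hu]; module

theorem isR_cond {t : V ≃ₗ[F] V} {u : V} {c : F} (ht : t ∈ isom f) (hu : u ∈ V1) (h : IsR f t e u c) :
    c + σ c + f u u = 0 := by
  have h1 := ht e' e'
  rw [S.isR_apply_e' hu h, S.ee'] at h1
  simp only [S.hs.add_left, S.hs.add_right, S.hs.smul_left, S.hs.smul_right, S.ee, S.ee', S.ep, S.ep', S.perp_e hu,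
    S.perp_e' hu, S.perp_e2 hu, S.perp_e'2 hu] at h1
  linear_combination h1

/-- torus elements -/
theorem exists_T {l : F} (hl : l ≠ 0) : ∃ t ∈ tgrp S.hs ⊤, t e = l • e ∧ t e' = (σ l)⁻¹ • e' := by
  have := S.fd
  have he0 : e ≠ 0 := by
    rintro h; have := S.ep; rw [h, S.hs.zero_left] at this; exact zero_ne_one this
  have hsl : σ l ≠ 0 := S.hs.sigma_ne hl
  have h1 : f (l • e) (l • e) = 0 := by rw [S.hs.smul_left, S.hs.smul_right, S.ee]; ring
  obtain ⟨t, ht, hte⟩ := exists_move S.hs S.nd S.d4top (x := e) (y := l • e) trivial trivial he0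
    (smul_ne_zero hl he0) (by rw [S.ee, h1])
  have hti : t ∈ isom f := tgrp_le_isom S.hs ⊤ ht
  set w := t e' with hw
  have hww : f w w = 0 := by rw [hw, hti, S.ee']
  have hwe : f w (l • e) = 1 := by rw [← hte, hw, hti, S.ep']
  set w' := (σ l)⁻¹ • e' with hw'
  have hw'w' : f w' w' = 0 := by rw [hw', S.hs.smul_left, S.hs.smul_right, S.ee']; ring
  have hw'e : f w' (l • e) = 1 := by
    rw [hw', S.hs.smul_left, S.hs.smul_right, S.ep', mul_one, inv_mul_cancel₀ hsl]
  have hd : f (w' - w) (l • e) = 0 := by rw [S.hs.sub_left, hw'e, hwe, sub_self]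
  obtain ⟨r, hr, hrr⟩ := S.exists_R (a := l • e) (u := w' - w) h1 hd (c := f w (w' - w)) (by
    rw [← S.hs.herm (w' - w) w]
    simp only [S.hs.sub_left, S.hs.sub_right]
    linear_combination hw'w' - hww)
  refine ⟨r * t, mul_mem hr ht, ?_, ?_⟩
  · rw [LinearEquiv.mul_apply, hte, hrr, rho]
    have h2 : f (l • e) (w' - w) = 0 := S.hs.symm_zero hd
    rw [h2, h1]; module
  · rw [LinearEquiv.mul_apply, ← hw, hrr, rho, hwe]
    module

/-- elements with `k e = l e`, `k e' = (σ l)⁻¹ e'` preserve `V1` -/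
theorem map_V1 {k : V ≃ₗ[F] V} (hk : k ∈ isom f) {l : F} (hl : l ≠ 0) (hke : k e = l • e)
    (hke' : k e' = (σ l)⁻¹ • e') {u : V} : k u ∈ V1 ↔ u ∈ V1 := by
  have hsl : σ l ≠ 0 := S.hs.sigma_ne hl
  have h1 : f (k u) e = (σ l)⁻¹ * f u e := by
    have := hk u e
    rw [hke, S.hs.smul_right] at this
    rw [← this, ← mul_assoc, inv_mul_cancel₀ hsl, one_mul]
  have h2 : f (k u) e' = l * f u e' := by
    have := hk u e'
    rw [hke', S.hs.smul_right, map_inv₀, S.hs.inv] at this
    rw [← this, ← mul_assoc, mul_inv_cancel₀ hl, one_mul]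
  rw [S.mem, S.mem, h1, h2]
  simp [hl, hsl]

theorem L_e {k : V ≃ₗ[F] V} (hk : k ∈ tgrp S.hs V1) : k e = e :=
  tgrp_fix S.hs hk fun w hw => S.perp_e2 hw

theorem L_e' {k : V ≃ₗ[F] V} (hk : k ∈ tgrp S.hs V1) : k e' = e' :=
  tgrp_fix S.hs hk fun w hw => S.perp_e'2 hw

theorem L_le : tgrp S.hs V1 ≤ tgrp S.hs ⊤ := tgrp_mono S.hs le_top

end Ctx

end Cfsg.Agent.Lib.MinU
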