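import Mathlib
import Cfsg.Agent.Lib.MinUB

/-!
# Minimal index of unitary groups: orbits of subgroups, the core computation (helper98)
-/

set_option autoImplicit false
set_option linter.unusedSectionVars false

namespace Cfsg.Agent.Lib.MinU

open Cfsg.Agent.Lib Cfsg.Agent.Lib.UnTrans Cfsg.Agent.Lib.SubfUn
open Cfsg.Agent.Lib.SpTrans (isom mem_isom)

section orbit
variable {F V : Type*} [Field F] [Finite F] [AddCommGroup V] [Module F V]

/-- image of an additive subgroup -/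
def mp (g : V ≃ₗ[F] V) (Y : AddSubgroup V) : AddSubgroup V := Y.map (g : V →ₗ[F] V).toAddMonoidHom

theorem mem_mp {g : V ≃ₗ[F] V} {Y : AddSubgroup V} {x : V} : x ∈ mp g Y ↔ ∃ y ∈ Y, g y = x := Iff.rfl

theorem mem_mp' {g : V ≃ₗ[F] V} {Y : AddSubgroup V} {x : V} : x ∈ mp g Y ↔ g⁻¹ x ∈ Y := by
  rw [mem_mp]
  constructor
  · rintro ⟨y, hy, rfl⟩
    rwa [inv_apply_self']
  · intro h
    exact ⟨_, h, apply_inv g x⟩

theorem mp_mem {g : V ≃ₗ[F] V} {Y : AddSubgroup V} {x : V} (h : x ∈ Y) : g x ∈ mp g Y := ⟨x, h, rfl⟩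

theorem mp_mp (g h : V ≃ₗ[F] V) (Y : AddSubgroup V) : mp g (mp h Y) = mp (g * h) Y := by
  ext x
  rw [mem_mp', mem_mp', mem_mp', mul_inv_rev, LinearEquiv.mul_apply]

theorem mp_one (Y : AddSubgroup V) : mp (1 : V ≃ₗ[F] V) Y = Y := by
  ext x
  rw [mem_mp', inv_one]; rfl

theorem card_mp (g : V ≃ₗ[F] V) (Y : AddSubgroup V) : Nat.card (mp g Y) = Nat.card Y := by
  refine (Nat.card_congr (Equiv.ofBijective (fun y : Y => (⟨g y, mp_mem y.2⟩ : mp g Y)) ⟨?_, ?_⟩)).symm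
  · intro a b h
    exact Subtype.ext (g.injective (congrArg Subtype.val h))
  · rintro ⟨_, y, hy, rfl⟩
    exact ⟨⟨y, hy⟩, rfl⟩

theorem mp_eq_of_le [Finite V] {g : V ≃ₗ[F] V} {Y : AddSubgroup V} (h : mp g Y ≤ Y) : mp g Y = Y := by
  apply SetLike.coe_injective
  apply Set.eq_of_subset_of_ncard_le h
  have h1 : Nat.card (mp g Y) = (mp g Y : Set V).ncard := rfl
  have h2 : Nat.card Y = (Y : Set V).ncard := rfl
  rw [← h1, ← h2, card_mp]

/-- orbit of an additive subgroup -/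
def orb (Γ : Subgroup (V ≃ₗ[F] V)) (Y : AddSubgroup V) : Set (AddSubgroup V) := {Y' | ∃ g ∈ Γ, mp g Y = Y'}

theorem self_mem_orb (Γ : Subgroup (V ≃ₗ[F] V)) (Y : AddSubgroup V) : Y ∈ orb Γ Y := ⟨1, one_mem _, mp_one Y⟩

theorem finite_addSubgroup [Finite V] : Finite (AddSubgroup V) :=
  Finite.of_injective (fun Y : AddSubgroup V => (Y : Set V)) SetLike.coe_injective

theorem double_count {A B : Type*} [Finite A] [Finite B] (R : A → B → Prop) (k m : ℕ)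
    (hk : ∀ b, Nat.card {a // R a b} = k) (hm : ∀ a, Nat.card {b // R a b} = m) :
    k * Nat.card B = Nat.card A * m := by
  classical
  have : Fintype A := Fintype.ofFinite A
  have : Fintype B := Fintype.ofFinite B
  have e1 : Nat.card (Σ b : B, {a // R a b}) = Nat.card B * k := by
    rw [Nat.card_sigma]
    simp only [hk, Finset.sum_const, Finset.card_univ, smul_eq_mul, Nat.card_eq_fintype_card]
  have e2 : Nat.card (Σ a : A, {b // R a b}) = Nat.card A * m := by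
    rw [Nat.card_sigma]
    simp only [hm, Finset.sum_const, Finset.card_univ, smul_eq_mul, Nat.card_eq_fintype_card]
  rw [mul_comm, ← e1, ← e2]
  exact Nat.card_congr
    { toFun := fun p => ⟨p.2.1, p.1, p.2.2⟩
      invFun := fun p => ⟨p.2.1, p.1, p.2.2⟩
      left_inv := fun _ => rfl
      right_inv := fun _ => rfl }

/-- number of members of the orbit through a vector -/
noncomputable def kk (Γ : Subgroup (V ≃ₗ[F] V)) (Y : AddSubgroup V) (a : V) : ℕ :=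
  Nat.card {Y' : orb Γ Y // a ∈ (Y' : AddSubgroup V)}

theorem dcount [Finite V] (Γ : Subgroup (V ≃ₗ[F] V)) (Y : AddSubgroup V) (O : Set V)
    (hinv : ∀ g ∈ Γ, ∀ x ∈ O, g x ∈ O) (htr : ∀ x ∈ O, ∀ y ∈ O, ∃ g ∈ Γ, g x = y) {a : V} (ha : a ∈ O) :
    kk Γ Y a * Nat.card O = Nat.card (orb Γ Y) * Nat.card {x : O // (x : V) ∈ Y} := by
  have := finite_addSubgroup (V := V)
  refine double_count (A := orb Γ Y) (B := O) (fun Y' x => (x : V) ∈ (Y' : AddSubgroup V)) _ _ ?_ ?_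
  · rintro ⟨b, hb⟩
    obtain ⟨g, hg, hgb⟩ := htr b hb a ha
    have hgb' : g⁻¹ a = b := by rw [← hgb, inv_apply_self']
    refine Nat.card_congr (Equiv.ofBijective (fun Y' => ⟨⟨mp g Y'.1, ?_⟩, ?_⟩) ⟨?_, ?_⟩)
    · obtain ⟨h, hh, hY⟩ := Y'.1.2
      exact ⟨g * h, mul_mem hg hh, by rw [← mp_mp, hY]⟩
    · show a ∈ mp g _
      rw [mem_mp', hgb']; exact Y'.2
    · rintro ⟨⟨Y1, h1⟩, h1'⟩ ⟨⟨Y2, h2⟩, h2'⟩ h
      have h3 : mp g Y1 = mp g Y2 := congrArg (fun z : {Y' : orb Γ Y // a ∈ (Y' : AddSubgroup V)} => (z.1 : AddSubgroup V)) h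
      have h4 : mp g⁻¹ (mp g Y1) = mp g⁻¹ (mp g Y2) := by rw [h3]
      rw [mp_mp, mp_mp, inv_mul_cancel, mp_one, mp_one] at h4
      subst h4; rfl
    · rintro ⟨⟨Y1, h, hh, hY⟩, h1'⟩
      refine ⟨⟨⟨mp g⁻¹ Y1, g⁻¹ * h, mul_mem (inv_mem hg) hh, by rw [← mp_mp, hY]⟩, ?_⟩, ?_⟩
      · show b ∈ mp g⁻¹ _
        rw [mem_mp', inv_inv, hgb]; exact h1'
      · apply Subtype.ext
        apply Subtype.ext
        show mp g (mp g⁻¹ Y1) = Y1
        rw [mp_mp, mul_inv_cancel, mp_one]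
  · rintro ⟨Y1, g, hg, rfl⟩
    refine Nat.card_congr (Equiv.ofBijective (fun x => ⟨⟨g⁻¹ x.1.1, hinv _ (inv_mem hg) _ x.1.2⟩, mem_mp'.1 x.2⟩) ⟨?_, ?_⟩)
    · rintro ⟨⟨x, h1⟩, h1'⟩ ⟨⟨y, h2⟩, h2'⟩ h
      have h3 : g⁻¹ x = g⁻¹ y := congrArg (fun z : {x : O // (x : V) ∈ Y} => (z.1 : V)) h
      have h4 := (g⁻¹).injective h3
      subst h4; rfl
    · rintro ⟨⟨x, h1⟩, h1'⟩
      refine ⟨⟨⟨g x, hinv _ hg _ h1⟩, mp_mem h1'⟩, ?_⟩
      apply Subtype.ext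
      apply Subtype.ext
      exact inv_apply_self' g x

theorem P2 [Finite V] (Γ U : Subgroup (V ≃ₗ[F] V)) (hU : U ≤ Γ) (Y : AddSubgroup V) {a : V} (ha : a ∈ Y)
    (hfix : ∀ u ∈ U, u a = a) :
    Nat.card U ≤ kk Γ Y a * Nat.card {u : U // mp (u : V ≃ₗ[F] V) Y = Y} := by
  have := finite_addSubgroup (V := V)
  let S : Subgroup U :=
    { carrier := {u | mp (u : V ≃ₗ[F] V) Y = Y}
      one_mem' := mp_one Y
      mul_mem' := by
        intro a b ha hb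
        simp only [Set.mem_ofPred_eq] at ha hb ⊢
        rw [Subgroup.coe_mul, ← mp_mp, hb, ha]
      inv_mem' := by
        intro a ha
        simp only [Set.mem_ofPred_eq] at ha ⊢
        conv_lhs => rw [← ha]
        rw [mp_mp, Subgroup.coe_inv, inv_mul_cancel, mp_one] }
  have h1 : Nat.card {u : U // mp (u : V ≃ₗ[F] V) Y = Y} = Nat.card S := rfl
  rw [h1, Subgroup.card_eq_card_quotient_mul_card_subgroup S]
  apply Nat.mul_le_mul_right
  refine Nat.card_le_card_of_injective (Quotient.lift (s := QuotientGroup.leftRel S)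
    (fun u : U => (⟨⟨mp (u : V ≃ₗ[F] V) Y, u, hU u.2, rfl⟩, ⟨a, ha, hfix u u.2⟩⟩ :
      {Y' : orb Γ Y // a ∈ (Y' : AddSubgroup V)})) ?_) ?_
  · intro u v huv
    have h2 : u⁻¹ * v ∈ S := QuotientGroup.leftRel_apply.1 huv
    have h3 : mp ((u⁻¹ * v : U) : V ≃ₗ[F] V) Y = Y := h2
    apply Subtype.ext
    apply Subtype.ext
    show mp (u : V ≃ₗ[F] V) Y = mp (v : V ≃ₗ[F] V) Y
    conv_lhs => rw [← h3, mp_mp, Subgroup.coe_mul, Subgroup.coe_inv, mul_inv_cancel_left]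
  · rintro ⟨u⟩ ⟨v⟩ h
    have h3 : mp (u : V ≃ₗ[F] V) Y = mp (v : V ≃ₗ[F] V) Y :=
      congrArg (fun z : {Y' : orb Γ Y // a ∈ (Y' : AddSubgroup V)} => (z.1 : AddSubgroup V)) h
    apply QuotientGroup.eq.2
    show mp ((u⁻¹ * v : U) : V ≃ₗ[F] V) Y = Y
    rw [Subgroup.coe_mul, Subgroup.coe_inv, ← mp_mp, ← h3, mp_mp, inv_mul_cancel, mp_one]

end orbit

variable {F V : Type*} [Field F] [Finite F] [AddCommGroup V] [Module F V]
variable {σ : F →+* F} {f : V → V → F}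

namespace Ctx
variable {e e' : V} {V1 : Submodule F V} (S : Ctx σ f e e' V1)

/-- the image of `M ∩ Q(e)` in `V1` -/
def WW (M : Subgroup (V ≃ₗ[F] V)) : AddSubgroup V where
  carrier := {u | u ∈ V1 ∧ ∃ t ∈ M, ∃ c, IsR f t e u c}
  zero_mem' := ⟨V1.zero_mem, 1, one_mem _, 0, IsR.one S.hs e⟩
  add_mem' := by
    rintro u v ⟨hu, t, ht, c, hc⟩ ⟨hv, t', ht', c', hc'⟩
    exact ⟨V1.add_mem hu hv, t * t', mul_mem ht ht', _, IsR.mul S.hs S.ee (S.perp_e hu) (S.perp_e hv) hc hc'⟩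
  neg_mem' := by
    rintro u ⟨hu, t, ht, c, hc⟩
    exact ⟨V1.neg_mem hu, t⁻¹, inv_mem ht, _, IsR.inv S.hs S.ee (S.perp_e hu) hc⟩

theorem mem_WW {M : Subgroup (V ≃ₗ[F] V)} {u : V} : u ∈ S.WW M ↔ u ∈ V1 ∧ ∃ t ∈ M, ∃ c, IsR f t e u c := Iff.rfl

theorem WW_le (M : Subgroup (V ≃ₗ[F] V)) : S.WW M ≤ V1.toAddSubgroup := fun _ h => h.1

/-- the image of `M ∩ Z(e)` in the fixed field -/
def CC (η : F) (M : Subgroup (V ≃ₗ[F] V)) : AddSubgroup (EE σ) where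
  carrier := {x | ∃ t ∈ M, IsR f t e 0 (η * x)}
  zero_mem' := ⟨1, one_mem _, by
    have := IsR.one S.hs e
    simpa using this⟩
  add_mem' := by
    rintro x y ⟨t, ht, hc⟩ ⟨t', ht', hc'⟩
    refine ⟨t * t', mul_mem ht ht', ?_⟩
    have := IsR.mul S.hs S.ee (S.hs.zero_left e) (S.hs.zero_left e) hc hc'
    rw [add_zero, S.hs.zero_left, sub_zero, ← mul_add] at this
    exact this
  neg_mem' := by
    rintro x ⟨t, ht, hc⟩
    refine ⟨t⁻¹, inv_mem ht, ?_⟩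
    have := IsR.inv S.hs S.ee (S.hs.zero_left e) hc
    rw [neg_zero, S.hs.zero_left, sub_zero, ← mul_neg] at this
    exact this

theorem mem_CC {η : F} {M : Subgroup (V ≃ₗ[F] V)} {x : EE σ} : x ∈ S.CC η M ↔ ∃ t ∈ M, IsR f t e 0 (η * x) := Iff.rfl

include S

/-- the core computation -/
theorem core0 {κ r r' : V ≃ₗ[F] V} {l : F} (hκ : κ ∈ isom f)
    (hκe : κ e = l • e) {v v' : V} {d d' : F} (hv : v ∈ V1) (hv' : v' ∈ V1)
    (hr : IsR f r e v d) (hr' : IsR f r' e v' d') (hκV : ∀ u ∈ V1, κ u ∈ V1)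
    {t : V ≃ₗ[F] V} {u : V} {c : F} (hu : u ∈ V1) (h : IsR f t e u c) :
    ∃ c', IsR f ((r * κ * r') * t * (r * κ * r')⁻¹) e (σ l • κ u) c' ∧ (u = 0 → c' = c * (l * σ l)) := by
  have h1 := IsR.conjR S.hs S.ee (S.perp_e hu) (S.perp_e hv') hr' h
  have h2 := IsR.conj S.hs hκ h1
  rw [hκe] at h2
  have h3 := IsR.smul S.hs h2
  have h4 := IsR.conjR S.hs S.ee (S.perp_e (V1.smul_mem _ (hκV u hu))) (S.perp_e hv) hr h3
  have e1 : (r * κ * r') * t * (r * κ * r')⁻¹ = r * (κ * (r' * t * r'⁻¹) * κ⁻¹) * r⁻¹ := by group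
  rw [← e1] at h4
  refine ⟨_, h4, ?_⟩
  rintro rfl
  rw [map_zero, smul_zero, S.hs.zero_left, S.hs.zero_left, S.hs.zero_right, S.hs.zero_right]; ring

/-- an element `r κ r'` of `M` acts on `M ∩ Q(e)` like `κ` -/
theorem core {M : Subgroup (V ≃ₗ[F] V)} {κ r r' : V ≃ₗ[F] V} {l : F} (hκ : κ ∈ isom f)
    (hκe : κ e = l • e) {v v' : V} {d d' : F} (hv : v ∈ V1) (hv' : v' ∈ V1)
    (hr : IsR f r e v d) (hr' : IsR f r' e v' d') (hκV : ∀ u ∈ V1, κ u ∈ V1)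
    (hm : r * κ * r' ∈ M) {t : V ≃ₗ[F] V} (ht : t ∈ M) {u : V} {c : F} (hu : u ∈ V1) (h : IsR f t e u c) :
    ∃ t' ∈ M, ∃ c', IsR f t' e (σ l • κ u) c' ∧ (u = 0 → c' = c * (l * σ l)) := by
  obtain ⟨c', h1, h2⟩ := S.core0 hκ hκe hv hv' hr hr' hκV hu h
  exact ⟨_, mul_mem (mul_mem hm ht) (inv_mem hm), c', h1, h2⟩

theorem uniq {t t' : V ≃ₗ[F] V} {u u' : V} {c c' : F} (hu : u ∈ V1) (hu' : u' ∈ V1) (h : IsR f t e u c)
    (h' : IsR f t' e u' c') (htt : t = t') : u = u' ∧ c = c' := by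
  have h1 := S.isR_apply_e' hu h
  have h2 := S.isR_apply_e' hu' h'
  rw [htt, h2] at h1
  have h3 : (u' - u) + (c' - c) • e = 0 := by
    rw [sub_smul]
    have := sub_eq_zero.2 h1
    rw [← this]; abel
  have h4 : f ((u' - u) + (c' - c) • e) e' = 0 := by rw [h3, S.hs.zero_left]
  rw [S.hs.add_left, S.hs.smul_left, S.ep, S.perp_e' (V1.sub_mem hu' hu), zero_add, mul_one] at h4
  rw [h4, zero_smul, add_zero] at h3
  exact ⟨(sub_eq_zero.1 h3).symm, (sub_eq_zero.1 h4).symm⟩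

omit S in
theorem isR_unique {t t' : V ≃ₗ[F] V} {a u : V} {c : F} (h : IsR f t a u c) (h' : IsR f t' a u c) : t = t' := by
  ext x; rw [h, h']

end Ctx

end Cfsg.Agent.Lib.MinU
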