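import Mathlib
import Cfsg.Agent.Lib.MinUD

/-!
# Minimal index of unitary groups: the bracket form (helper98)
-/

set_option autoImplicit false
set_option linter.unusedSectionVars false

namespace Cfsg.Agent.Lib.MinU

open Cfsg.Agent.Lib Cfsg.Agent.Lib.UnTrans Cfsg.Agent.Lib.SubfUn
open Cfsg.Agent.Lib.SpTrans (isom mem_isom)

variable {F V : Type*} [Field F] [Finite F] [AddCommGroup V] [Module F V]
variable {σ : F →+* F} {f : V → V → F}

/-- the bracket -/
def br (H : HS σ f) {η : F} (hη : η + σ η = 0) (u v : V) : EE σ := ⟨(f u v - f v u) / η, by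
  rw [mem_EE, map_div₀, map_sub, ← H.herm v u, ← H.herm u v, eq_neg_of_add_eq_zero_right hη, div_neg, ← neg_div, neg_sub]⟩

theorem br_coe (H : HS σ f) {η : F} (hη : η + σ η = 0) (u v : V) : (br H hη u v : F) = (f u v - f v u) / η := rfl

theorem br_add_left (H : HS σ f) {η : F} (hη : η + σ η = 0) (u u' v : V) :
    br H hη (u + u') v = br H hη u v + br H hη u' v := by
  apply Subtype.ext
  rw [Subfield.coe_add, br_coe, br_coe, br_coe, H.add_left, H.add_right]; ring

theorem br_add_right (H : HS σ f) {η : F} (hη : η + σ η = 0) (u v v' : V) :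
    br H hη u (v + v') = br H hη u v + br H hη u v' := by
  apply Subtype.ext
  rw [Subfield.coe_add, br_coe, br_coe, br_coe, H.add_left, H.add_right]; ring

/-- the bracket with values in the prime field, restricted to a subspace -/
noncomputable def bf (H : HS σ f) {η : F} (hη : η + σ η = 0) {p : ℕ} (φ : EE σ →+ ZMod p) (U : Submodule F V) :
    U →+ U →+ ZMod p :=
  AddMonoidHom.mk' (fun u => AddMonoidHom.mk' (fun v => φ (br H hη (u : V) (v : V))) (fun v v' => by
    rw [Submodule.coe_add, br_add_right, map_add])) (fun u u' => by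
      ext v
      show φ _ = φ _ + φ _
      rw [Submodule.coe_add, br_add_left, map_add])

theorem bf_apply (H : HS σ f) {η : F} (hη : η + σ η = 0) {p : ℕ} (φ : EE σ →+ ZMod p) (U : Submodule F V) (u v : U) :
    bf H hη φ U u v = φ (br H hη (u : V) (v : V)) := rfl

theorem br_surj (H : HS σ f) {η : F} (hη : η + σ η = 0) (hη0 : η ≠ 0) {a b : V} (hab : f a b ≠ 0) (x : EE σ) :
    ∃ l : F, br H hη a (l • b) = x := by
  obtain ⟨z, hz⟩ := H.exists_trace (x : F) x.2
  refine ⟨σ (η * z / f a b), ?_⟩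
  apply Subtype.ext
  rw [br_coe, H.smul_right, H.inv, div_mul_cancel₀ _ hab, H.smul_left, map_div₀, ← H.herm b a,
    div_mul_cancel₀ _ (H.symm_ne hab), map_mul, div_eq_iff hη0]
  linear_combination -(σ z) * hη + η * hz

theorem iso_small (H : HS σ f) {η : F} (hη : η + σ η = 0) (hη0 : η ≠ 0) {p : ℕ} [hp : Fact p.Prime] [CharP F p]
    (φ : EE σ →+ ZMod p) (hφ : ∃ x, φ x ≠ 0) (U : Submodule F V) [Finite V] (hU : Nd f U) (W : AddSubgroup V)
    (hWU : ∀ w ∈ W, w ∈ U) (hiso : ∀ x ∈ W, ∀ y ∈ W, φ (br H hη x y) = 0) : Nat.card W ^ 2 ≤ Nat.card U := by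
  letI : Module (ZMod p) U := AddCommGroup.zmodModule (n := p) (fun x => by
    have : (p : F) • x = 0 := by rw [CharP.cast_eq_zero, zero_smul]
    rwa [Nat.cast_smul_eq_nsmul] at this)
  have key := iso_bound p (bf H hη φ U) ?_ (W.addSubgroupOf U.toAddSubgroup) ?_
  · have h1 : Nat.card (W.addSubgroupOf U.toAddSubgroup) = Nat.card W :=
      Nat.card_congr (AddSubgroup.addSubgroupOfEquivOfLe (fun w hw => hWU w hw)).toEquiv
    rw [← h1]
    exact key
  · intro a ha
    by_contra ha0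
    obtain ⟨b, hb, hab⟩ := hU a a.2 (fun h => ha0 (Subtype.ext h))
    obtain ⟨x, hx⟩ := hφ
    obtain ⟨l, hl⟩ := br_surj H hη hη0 hab x
    apply hx
    rw [← hl]
    exact ha ⟨l • b, U.smul_mem l hb⟩
  · intro x hx y hy
    exact hiso x hx y hy

theorem exists_phi {K : Type*} [Field K] {p : ℕ} [Fact p.Prime] [CharP K p] {C : AddSubgroup K} (hC : C ≠ ⊤) :
    ∃ φ : K →+ ZMod p, (∃ x, φ x ≠ 0) ∧ ∀ x ∈ C, φ x = 0 := by
  letI := ZMod.algebra K p
  have h1 : AddSubgroup.toZModSubmodule p C < ⊤ := by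
    rw [lt_top_iff_ne_top]
    intro h
    apply hC
    rw [eq_top_iff]
    intro x _
    have : x ∈ AddSubgroup.toZModSubmodule p C := by rw [h]; trivial
    exact this
  obtain ⟨φ, h2, h3⟩ := Submodule.exists_le_ker_of_lt_top _ h1
  refine ⟨φ.toAddMonoidHom, ?_, ?_⟩
  · by_contra h
    push Not at h
    exact h2 (LinearMap.ext h)
  · intro x hx
    exact h3 hx

namespace Ctx
variable {e e' : V} {V1 : Submodule F V} (S : Ctx σ f e e' V1)
include S

theorem br_mem_C {η : F} (hη : η + σ η = 0) (hη0 : η ≠ 0) {M : Subgroup (V ≃ₗ[F] V)} {u v : V}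
    (hu : u ∈ S.WW M) (hv : v ∈ S.WW M) : br S.hs hη u v ∈ S.CC η M := by
  obtain ⟨hu1, t, ht, c, htu⟩ := hu
  obtain ⟨hv1, t', ht', c', htv⟩ := hv
  have h1 := IsR.conjR S.hs S.ee (S.perp_e hv1) (S.perp_e hu1) htu htv
  have h2 := IsR.mul S.hs S.ee (S.perp_e hv1) (by rw [S.hs.neg_left, S.perp_e hv1, neg_zero]) h1
    (IsR.inv S.hs S.ee (S.perp_e hv1) htv)
  rw [add_neg_cancel] at h2
  refine ⟨_, mul_mem (mul_mem (mul_mem ht ht') (inv_mem ht)) (inv_mem ht'), ?_⟩
  convert h2 using 1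
  rw [br_coe, mul_div_cancel₀ _ hη0, S.hs.neg_left]; ring

/-- the size of `W` -/
theorem W_sq {η : F} (hη : η + σ η = 0) (hη0 : η ≠ 0) {M : Subgroup (V ≃ₗ[F] V)} (hC : S.CC η M ≠ ⊤) :
    Nat.card (S.WW M) ^ 2 ≤ Nat.card V1 := by
  have := S.finite_V
  obtain ⟨p, hp⟩ := CharP.exists F
  have : NeZero p := ⟨CharP.char_ne_zero_of_finite F p⟩
  have : Fact p.Prime := ⟨(CharP.char_is_prime_or_zero F p).resolve_right (NeZero.ne p)⟩
  have : CharP (EE σ) p := inferInstance
  obtain ⟨φ, h1, h2⟩ := exists_phi (p := p) hC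
  exact iso_small S.hs hη hη0 φ h1 V1 S.nd1 (S.WW M) (fun w hw => hw.1)
    (fun x hx y hy => h2 _ (S.br_mem_C hη hη0 hx hy))

end Ctx

end Cfsg.Agent.Lib.MinU
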