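import Mathlib
import Cfsg.Agent.Lib.MinUE

/-!
# Minimal index of unitary groups: members of the orbit through a vector (helper98)
-/

set_option autoImplicit false
set_option linter.unusedSectionVars false

namespace Cfsg.Agent.Lib.MinU

open Cfsg.Agent.Lib Cfsg.Agent.Lib.UnTrans Cfsg.Agent.Lib.SubfUn
open Cfsg.Agent.Lib.SpTrans (isom mem_isom)

variable {F V : Type*} [Field F] [Finite F] [AddCommGroup V] [Module F V]
variable {σ : F →+* F} {f : V → V → F}

/-- nonzero vectors of a given norm -/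
def Ocl (f : V → V → F) (U : Submodule F V) (c : F) : Set V := {v | v ∈ U ∧ v ≠ 0 ∧ f v v = c}

/-- a group of Eichler elements with centre `a` and `u ∈ U` -/
def UU (H : HS σ f) (V1 : Submodule F V) {a : V} (haa : f a a = 0) (U : Submodule F V) (hU : ∀ u ∈ U, f u a = 0) :
    Subgroup (V ≃ₗ[F] V) where
  carrier := {t | t ∈ tgrp H V1 ∧ ∃ u ∈ U, ∃ c, IsR f t a u c}
  one_mem' := ⟨one_mem _, 0, U.zero_mem, 0, IsR.one H a⟩
  mul_mem' := by
    rintro t t' ⟨ht, u, hu, c, hc⟩ ⟨ht', u', hu', c', hc'⟩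
    exact ⟨mul_mem ht ht', _, U.add_mem hu hu', _, IsR.mul H haa (hU u hu) (hU u' hu') hc hc'⟩
  inv_mem' := by
    rintro t ⟨ht, u, hu, c, hc⟩
    exact ⟨inv_mem ht, _, U.neg_mem hu, _, IsR.inv H haa (hU u hu) hc⟩

theorem mem_UU {H : HS σ f} {V1 : Submodule F V} {a : V} {haa : f a a = 0} {U : Submodule F V}
    {hU : ∀ u ∈ U, f u a = 0} {t : V ≃ₗ[F] V} :
    t ∈ UU H V1 haa U hU ↔ t ∈ tgrp H V1 ∧ ∃ u ∈ U, ∃ c, IsR f t a u c := Iff.rfl

/-- uniqueness of the parameters -/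
theorem isR_inj (H : HS σ f) {a y : V} (hya : f y a ≠ 0) (ha0 : a ≠ 0) {U : Submodule F V}
    (hU0 : ∀ u ∈ U, u ∈ Submodule.span F {a} → u = 0)
    {t : V ≃ₗ[F] V} {u u' : V} {c c' : F} (hu : u ∈ U) (hu' : u' ∈ U) (h : IsR f t a u c) (h' : IsR f t a u' c') :
    u = u' ∧ c = c' := by
  have h1 := h y
  rw [h' y, rho, rho] at h1
  have h2 : f y a • (u' - u) = (c * f y a - c' * f y a - f y u + f y u') • a := by
    have h3 := sub_eq_zero.2 h1
    have h4 : f y a • (u' - u) - (c * f y a - c' * f y a - f y u + f y u') • a = 0 := by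
      rw [← h3]; module
    exact sub_eq_zero.1 h4
  have h5 : u' - u = 0 := by
    apply hU0 _ (U.sub_mem hu' hu)
    rw [Submodule.mem_span_singleton]
    refine ⟨(f y a)⁻¹ * (c * f y a - c' * f y a - f y u + f y u'), ?_⟩
    rw [mul_smul, ← h2, smul_smul, inv_mul_cancel₀ hya, one_smul]
  have h6 : u' = u := sub_eq_zero.1 h5
  subst h6
  rw [h5, smul_zero] at h2
  have h7 : c * f y a - c' * f y a - f y u' + f y u' = 0 := by
    rcases smul_eq_zero.1 h2.symm with h | h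
    · exact h
    · exact absurd h ha0
  refine ⟨rfl, ?_⟩
  have h8 : (c - c') * f y a = 0 := by linear_combination h7
  rcases mul_eq_zero.1 h8 with h | h
  · exact sub_eq_zero.1 h
  · exact absurd h hya

theorem one_lt_q (H : HS σ f) : 2 ≤ Nat.card (EE σ) := by
  have : Nontrivial (EE σ) := inferInstance
  exact Finite.one_lt_card

theorem card_F (H : HS σ f) : Nat.card F = Nat.card (EE σ) ^ 2 := card_fixed σ H.inv H.ne

namespace Ctx
variable {e e' : V} {V1 : Submodule F V} (S : Ctx σ f e e' V1)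
include S

theorem card_V1 : Nat.card V1 = Nat.card (EE σ) ^ (2 * Module.finrank F V1) := by
  have := S.fd
  rw [Module.natCard_eq_pow_finrank (K := F), card_F S.hs, ← pow_mul]

theorem isR_cond' {a u : V} {c : F} {t : V ≃ₗ[F] V} (ha : a ∈ V1) (ha0 : a ≠ 0) (haa : f a a = 0) (hua : f u a = 0)
    (ht : t ∈ isom f) (h : IsR f t a u c) : c + σ c + f u u = 0 := by
  obtain ⟨y, hy, hay⟩ := S.nd1 a ha ha0
  have hya : f y a ≠ 0 := S.hs.symm_ne hay
  have hau : f a u = 0 := S.hs.symm_zero hua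
  have h1 := ht y y
  rw [h, rho] at h1
  simp only [S.hs.add_left, S.hs.add_right, S.hs.smul_left, S.hs.smul_right, S.hs.sub_left, S.hs.sub_right,
    haa, hua, hau, map_mul] at h1
  rw [← S.hs.herm a y, ← S.hs.herm u y] at h1
  have h2 : (f y a * f a y) * (c + σ c + f u u) = 0 := by linear_combination h1
  rcases mul_eq_zero.1 h2 with h3 | h3
  · exact absurd h3 (mul_ne_zero hya hay)
  · exact h3

/-- order of a group of Eichler elements -/
theorem card_UU {η : F} (hη0 : η ≠ 0) (hη : η + σ η = 0) {a : V} (ha : a ∈ V1) (ha0 : a ≠ 0) (haa : f a a = 0)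
    {U : Submodule F V} (hUV : U ≤ V1) (hU : ∀ u ∈ U, f u a = 0) (hU0 : ∀ u ∈ U, u ∈ Submodule.span F {a} → u = 0) :
    Nat.card U * Nat.card (EE σ) ≤ Nat.card (UU S.hs V1 haa U hU) := by
  have := S.finite_G
  have hc : ∀ u : U, ∃ c, c + σ c + f (u : V) u = 0 := fun u => S.exists_c u
  choose c hc using hc
  have ht : ∀ p : U × EE σ, ∃ t ∈ tgrp S.hs V1, IsR f t a (p.1 : V) (c p.1 + η * p.2) := fun p => by
    apply S.exists_R1 ha (hUV p.1.2) haa (hU _ p.1.2)
    have h1 := hc p.1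
    have h2 := S.eta_cond hη p.2
    rw [map_add]
    linear_combination h1 + h2
  choose t htm ht using ht
  obtain ⟨y, hy, hay⟩ := S.nd1 a ha ha0
  rw [← Nat.card_prod]
  refine Nat.card_le_card_of_injective (fun p => (⟨t p, htm p, p.1, p.1.2, _, ht p⟩ : UU S.hs V1 haa U hU)) ?_
  rintro ⟨u, x⟩ ⟨u', x'⟩ h
  have h1 : t (u, x) = t (u', x') := congrArg Subtype.val h
  have h2 := ht (u, x)
  rw [h1] at h2
  have h3 := isR_inj S.hs (S.hs.symm_ne hay) ha0 hU0 u.2 u'.2 h2 (ht (u', x'))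
  have h4 : u = u' := Subtype.ext h3.1
  subst h4
  have h5 : η * (x : F) = η * x' := add_left_cancel h3.2
  have h6 : x = x' := Subtype.ext (mul_left_cancel₀ hη0 h5)
  rw [h6]

theorem kk_pos (M : Subgroup (V ≃ₗ[F] V)) {a : V} (ha : a ∈ S.WW M) : 1 ≤ kk (tgrp S.hs V1) (S.WW M) a := by
  have := S.finite_V
  have := finite_addSubgroup (V := V)
  have : Nonempty {Y' : orb (tgrp S.hs V1) (S.WW M) // a ∈ (Y' : AddSubgroup V)} :=
    ⟨⟨⟨S.WW M, self_mem_orb _ _⟩, ha⟩⟩
  exact Nat.card_pos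

/-- few members of the orbit of `W` contain a given vector, and `W` is large -/
theorem kk_le {η : F} (hη0 : η ≠ 0) (hη : η + σ η = 0) {M : Subgroup (V ≃ₗ[F] V)} (hC : S.CC η M ≠ ⊤)
    {a : V} (ha : a ∈ S.WW M) (ha0 : a ≠ 0)
    (hN : M.relIndex (tgrp S.hs ⊤) < Nat.card (EE σ) * (Nat.card (EE σ) + 1) * Nat.card (Ocl f V1 (f a a))) :
    kk (tgrp S.hs V1) (S.WW M) a ≤ Nat.card (EE σ) ∧ Nat.card (EE σ) ^ 2 < Nat.card (S.WW M) := by
  have := S.finite_V
  have := S.fd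
  have hdc := dcount (tgrp S.hs V1) (S.WW M) (Ocl f V1 (f a a)) (by
    rintro g hg x ⟨hx, hx0, hxx⟩
    exact ⟨tgrp_mem_of_mem S.hs hg hx, by simpa using hx0, by rw [tgrp_le_isom S.hs V1 hg, hxx]⟩) (by
    rintro x ⟨hx, hx0, hxx⟩ y ⟨hy, hy0, hyy⟩
    exact exists_move S.hs S.nd1 S.d4 hx hy hx0 hy0 (by rw [hxx, hyy])) (a := a) ⟨ha.1, ha0, rfl⟩
  have hm : Nat.card {x : Ocl f V1 (f a a) // (x : V) ∈ S.WW M} ≤ Nat.card (S.WW M) :=
    Nat.card_le_card_of_injective (fun x => (⟨x.1.1, x.2⟩ : S.WW M)) (fun x y h =>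
      Subtype.ext (Subtype.ext (congrArg (fun z : S.WW M => (z : V)) h)))
  have hI := S.I1 hη0 hη M
  have hmu := (mult_bound (S.CC η M) hC).1
  have hid := S.idW_mul M
  have hsq := S.W_sq hη hη0 hC
  have hk := S.kk_pos M ha
  have hV := S.card_V1
  have hd := S.d4
  set q := Nat.card (EE σ) with hq
  have hq2 : 2 ≤ q := one_lt_q S.hs
  set k := kk (tgrp S.hs V1) (S.WW M) a
  set O := Nat.card (Ocl f V1 (f a a))
  set X := M.relIndex (tgrp S.hs ⊤)
  set w := Nat.card (S.WW M)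
  set m := Nat.card {x : Ocl f V1 (f a a) // (x : V) ∈ S.WW M}
  set N := Nat.card (orb (tgrp S.hs V1) (S.WW M))
  set i := S.idW M
  set A := Nat.card (EE σ ⧸ S.CC η M)
  set B := Nat.card (Set.range fun δ : (EE σ)ˣ => ml (S.CC η M) δ)
  have hO : 0 < O := by
    by_contra h
    have : O = 0 := by omega
    rw [this, mul_zero] at hN
    omega
  have h1 : i * (q * N) ≤ X := by
    calc i * (q * N) ≤ i * (A * B * N) := Nat.mul_le_mul_left _ (Nat.mul_le_mul_right _ hmu)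
      _ = i * (A * (N * B)) := by ring
      _ ≤ X := hI
  -- the basic inequality
  have h2 : k * O * q * Nat.card V1 ≤ X * w ^ 2 := by
    calc k * O * q * Nat.card V1 = (N * m) * q * (i * w) := by rw [hdc, hid]
      _ = (i * (q * N)) * (m * w) := by ring
      _ ≤ X * (w * w) := Nat.mul_le_mul h1 (Nat.mul_le_mul_right _ hm)
      _ = X * w ^ 2 := by ring
  have hVpos : 0 < Nat.card V1 := Nat.card_pos
  have h3 : k * O * q ≤ X := by
    have : k * O * q * Nat.card V1 ≤ X * Nat.card V1 := h2.trans (Nat.mul_le_mul_left _ hsq)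
    exact Nat.le_of_mul_le_mul_right this hVpos
  constructor
  · have h4 : k * O * q < q * (q + 1) * O := lt_of_le_of_lt h3 hN
    have h5 : k * (O * q) < (q + 1) * (O * q) := by
      calc k * (O * q) = k * O * q := by ring
        _ < q * (q + 1) * O := h4
        _ = (q + 1) * (O * q) := by ring
    have := Nat.lt_of_mul_lt_mul_right h5
    omega
  · by_contra hw
    push Not at hw
    have h4 : O * q * Nat.card V1 ≤ X * q ^ 4 := by
      calc O * q * Nat.card V1 = 1 * (O * q * Nat.card V1) := by ring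
        _ ≤ k * (O * q * Nat.card V1) := Nat.mul_le_mul_right _ hk
        _ = k * O * q * Nat.card V1 := by ring
        _ ≤ X * w ^ 2 := h2
        _ ≤ X * (q ^ 2) ^ 2 := Nat.mul_le_mul_left _ (Nat.pow_le_pow_left hw 2)
        _ = X * q ^ 4 := by ring
    have h5 : O * q * Nat.card V1 < (O * q) * ((q + 1) * q ^ 4) := by
      calc O * q * Nat.card V1 ≤ X * q ^ 4 := h4
        _ < (q * (q + 1) * O) * q ^ 4 := Nat.mul_lt_mul_of_pos_right hN (by positivity)
        _ = (O * q) * ((q + 1) * q ^ 4) := by ring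
    have h6 : Nat.card V1 < (q + 1) * q ^ 4 := Nat.lt_of_mul_lt_mul_left h5
    have h7 : q ^ 8 ≤ Nat.card V1 := by
      rw [hV]; exact Nat.pow_le_pow_right (by omega) (by omega)
    have h8 : (q + 1) * q ^ 4 ≤ q ^ 8 := by
      have : q + 1 ≤ q ^ 4 := by nlinarith [Nat.pow_le_pow_left hq2 3, Nat.pow_le_pow_left hq2 2]
      calc (q + 1) * q ^ 4 ≤ q ^ 4 * q ^ 4 := Nat.mul_le_mul_right _ this
        _ = q ^ 8 := by ring
    omega

/-- many Eichler elements stabilise `W` -/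
theorem P3 {η : F} (hη0 : η ≠ 0) (hη : η + σ η = 0) {M : Subgroup (V ≃ₗ[F] V)} {w : V} (hw : w ∈ S.WW M)
    (hk : kk (tgrp S.hs V1) (S.WW M) w ≤ Nat.card (EE σ))
    {a : V} (ha : a ∈ V1) (ha0 : a ≠ 0) (haa : f a a = 0) (hwa : f w a = 0)
    {U : Submodule F V} (hUV : U ≤ V1) (hU : ∀ u ∈ U, f u a = 0) (hU0 : ∀ u ∈ U, u ∈ Submodule.span F {a} → u = 0)
    (hwU : ∀ u ∈ U, f w u = 0) :
    Nat.card U ≤ Nat.card {t : UU S.hs V1 haa U hU // mp (t : V ≃ₗ[F] V) (S.WW M) = S.WW M} := by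
  have := S.finite_V
  have h1 := P2 (tgrp S.hs V1) (UU S.hs V1 haa U hU) (fun t ht => ht.1) (S.WW M) hw (by
    rintro t ⟨-, u, hu, c, hc⟩
    rw [hc, rho, hwa, hwU u hu]; simp)
  have h2 := S.card_UU hη0 hη ha ha0 haa hUV hU hU0
  have hq2 : 2 ≤ Nat.card (EE σ) := one_lt_q S.hs
  have h3 : Nat.card (EE σ) * Nat.card U ≤ Nat.card (EE σ) *
      Nat.card {t : UU S.hs V1 haa U hU // mp (t : V ≃ₗ[F] V) (S.WW M) = S.WW M} := by
    rw [mul_comm]
    exact h2.trans (h1.trans (Nat.mul_le_mul_right _ hk))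
  exact Nat.le_of_mul_le_mul_left h3 (by omega)

end Ctx

end Cfsg.Agent.Lib.MinU
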