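import Mathlib
import Cfsg.Agent.Lib.MinUF

/-!
# Minimal index of unitary groups: `W = 0` (helper98)
-/

set_option autoImplicit false
set_option linter.unusedSectionVars false

namespace Cfsg.Agent.Lib.MinU

open Cfsg.Agent.Lib Cfsg.Agent.Lib.UnTrans Cfsg.Agent.Lib.SubfUn
open Cfsg.Agent.Lib.SpTrans (isom mem_isom)

variable {F V : Type*} [Field F] [Finite F] [AddCommGroup V] [Module F V]
variable {σ : F →+* F} {f : V → V → F}

/-- the stabiliser of an additive subgroup -/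
def stW (Y : AddSubgroup V) : Subgroup (V ≃ₗ[F] V) where
  carrier := {g | mp g Y = Y}
  one_mem' := mp_one Y
  mul_mem' := by
    intro a b ha hb
    simp only [Set.mem_ofPred_eq] at ha hb ⊢
    rw [← mp_mp, hb, ha]
  inv_mem' := by
    intro a ha
    simp only [Set.mem_ofPred_eq] at ha ⊢
    conv_lhs => rw [← ha]
    rw [mp_mp, inv_mul_cancel, mp_one]

theorem mem_stW {Y : AddSubgroup V} {g : V ≃ₗ[F] V} : g ∈ stW Y ↔ mp g Y = Y := Iff.rfl

theorem stW_mem {Y : AddSubgroup V} {g : V ≃ₗ[F] V} (hg : g ∈ stW Y) {x : V} (hx : x ∈ Y) : g x ∈ Y := by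
  have := mp_mem (g := g) hx
  rwa [mem_stW.1 hg] at this

theorem nd_sub (H : HS σ f) {V1 : Submodule F V} (h1 : Nd f V1) {a b : V} (ha : a ∈ V1) (hb : b ∈ V1) (haa : f a a = 0)
    (hbb : f b b = 0) (hab : f a b = 1) : Nd f (V1 ⊓ LinearMap.ker (H.fl a) ⊓ LinearMap.ker (H.fl b)) := by
  intro x hx hx0
  have hx1 : x ∈ V1 ∧ f x a = 0 ∧ f x b = 0 := by simpa [and_assoc] using hx
  obtain ⟨y, hy, hxy⟩ := h1 x hx1.1 hx0
  have hba : f b a = 1 := by rw [H.herm, hab, map_one]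
  refine ⟨y - f y b • a - f y a • b, ?_, ?_⟩
  · have e1 : f (y - f y b • a - f y a • b) a = 0 := by
      rw [H.sub_left, H.sub_left, H.smul_left, H.smul_left, haa, hba]; ring
    have e2 : f (y - f y b • a - f y a • b) b = 0 := by
      rw [H.sub_left, H.sub_left, H.smul_left, H.smul_left, hbb, hab]; ring
    have e3 : y - f y b • a - f y a • b ∈ V1 :=
      V1.sub_mem (V1.sub_mem hy (V1.smul_mem _ ha)) (V1.smul_mem _ hb)
    exact ⟨⟨e3, by simpa using e1⟩, by simpa using e2⟩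
  · rw [H.sub_right, H.sub_right, H.smul_right, H.smul_right, hx1.2.1, hx1.2.2]
    simpa using hxy

/-- hyperbolic partner -/
theorem exists_partner (H : HS σ f) {U : Submodule F V} {a y : V} (ha : a ∈ U) (hy : y ∈ U) (haa : f a a = 0)
    (hay : f a y ≠ 0) : ∃ b ∈ U, f a b = 1 ∧ f b b = 0 ∧ ∃ s r : F, s ≠ 0 ∧ b = s • y + r • a := by
  obtain ⟨c, hc⟩ := H.exists_add_norm haa hay (map_zero σ)
  have h1 : f a (y + c • a) = f a y := by rw [H.add_right, H.smul_right, haa]; ring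
  have hs : (σ (f a y))⁻¹ ≠ 0 := inv_ne_zero (H.sigma_ne hay)
  refine ⟨(σ (f a y))⁻¹ • (y + c • a), U.smul_mem _ (U.add_mem hy (U.smul_mem _ ha)), ?_, ?_,
    (σ (f a y))⁻¹, (σ (f a y))⁻¹ * c, hs, ?_⟩
  · rw [H.smul_right, h1, map_inv₀, H.inv, inv_mul_cancel₀ hay]
  · rw [H.smul_left, H.smul_right, hc]; ring
  · rw [smul_add, smul_smul]

namespace Ctx
variable {e e' : V} {V1 : Submodule F V} (S : Ctx σ f e e' V1)
include S

/-- a long root element stabilises `W` -/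
theorem P3' {η : F} (hη0 : η ≠ 0) (hη : η + σ η = 0) {M : Subgroup (V ≃ₗ[F] V)} {w : V} (hw : w ∈ S.WW M)
    (hk : kk (tgrp S.hs V1) (S.WW M) w ≤ Nat.card (EE σ))
    {a : V} (ha : a ∈ V1) (ha0 : a ≠ 0) (haa : f a a = 0) (hwa : f w a = 0)
    {u : V} (hu : u ∈ V1) (hua : f u a = 0) (hwu : f w u = 0) (huu : f u u ≠ 0) :
    ∃ x, x ≠ 0 ∧ ∃ t ∈ tgrp S.hs V1, IsR f t a 0 x ∧ t ∈ stW (S.WW M) := by
  classical
  have := S.finite_V
  have := S.finite_G
  have hu0 : u ≠ 0 := by rintro rfl; exact huu (S.hs.zero_left _)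
  have hau : f a u = 0 := S.hs.symm_zero hua
  have hmem : ∀ x ∈ Submodule.span F {u}, ∃ l : F, x = l • u := fun x hx => by
    obtain ⟨l, hl⟩ := Submodule.mem_span_singleton.1 hx
    exact ⟨l, hl.symm⟩
  have hUV : Submodule.span F {u} ≤ V1 := by
    rw [Submodule.span_singleton_le_iff_mem]; exact hu
  have hU : ∀ x ∈ Submodule.span F {u}, f x a = 0 := by
    intro x hx
    obtain ⟨l, rfl⟩ := hmem x hx
    rw [S.hs.smul_left, hua, mul_zero]
  have hwU : ∀ x ∈ Submodule.span F {u}, f w x = 0 := by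
    intro x hx
    obtain ⟨l, rfl⟩ := hmem x hx
    rw [S.hs.smul_right, hwu, mul_zero]
  have hU0 : ∀ x ∈ Submodule.span F {u}, x ∈ Submodule.span F {a} → x = 0 := by
    intro x hx hxa
    obtain ⟨l, rfl⟩ := hmem x hx
    obtain ⟨m, hm⟩ := Submodule.mem_span_singleton.1 hxa
    have h1 : f (l • u) u = 0 := by rw [← hm, S.hs.smul_left, hau, mul_zero]
    rw [S.hs.smul_left] at h1
    rcases mul_eq_zero.1 h1 with h | h
    · rw [h, zero_smul]
    · exact absurd h huu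
  have h1 := S.P3 hη0 hη hw hk ha ha0 haa hwa hUV hU hU0 hwU
  have hcU : Nat.card (Submodule.span F {u}) = Nat.card F :=
    (Nat.card_congr (LinearEquiv.toSpanNonzeroSingleton F V u hu0).toEquiv).symm
  rw [hcU] at h1
  by_contra hcon
  push Not at hcon
  have hφ : ∀ t : {t : UU S.hs V1 haa _ hU // mp (t : V ≃ₗ[F] V) (S.WW M) = S.WW M}, ∃ l : F, ∃ c,
      IsR f ((t.1 : V ≃ₗ[F] V)) a (l • u) c := by
    rintro ⟨⟨t, ht, x, hx, c, hc⟩, -⟩
    obtain ⟨l, rfl⟩ := hmem x hx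
    exact ⟨l, c, hc⟩
  choose φ c hφ using hφ
  have hinj : Function.Injective φ := by
    intro t t' h
    have h2 := hφ t
    have h3 := hφ t'
    rw [← h] at h3
    have h4 := IsR.mul S.hs haa (by rw [S.hs.neg_left, S.hs.smul_left, hua]; ring)
      (by rw [S.hs.smul_left, hua]; ring) (IsR.inv S.hs haa (by rw [S.hs.smul_left, hua]; ring) h2) h3
    rw [neg_add_cancel] at h4
    by_cases hz : -c t - f (φ t • u) (φ t • u) + c t' - f (φ t • u) (-(φ t • u)) = 0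
    · rw [hz] at h4
      have h5 : ((t.1 : V ≃ₗ[F] V))⁻¹ * (t'.1 : V ≃ₗ[F] V) = 1 := by
        ext x
        rw [h4, rho, S.hs.zero_right]; simp
      exact Subtype.ext (Subtype.ext (inv_mul_eq_one.1 h5))
    · exact (hcon _ hz _ (mul_mem (inv_mem t.1.2.1) t'.1.2.1) h4
        (mul_mem (inv_mem (mem_stW.2 t.2)) (mem_stW.2 t'.2))).elim
  have hbij := hinj.bijective_of_nat_card_le h1
  obtain ⟨μ, hμ⟩ := S.hs.ne
  obtain ⟨t1, ht1⟩ := hbij.2 1
  obtain ⟨t2, ht2⟩ := hbij.2 μ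
  have h2 := hφ t1
  have h3 := hφ t2
  rw [ht1, one_smul] at h2
  rw [ht2] at h3
  have hμa : f (μ • u) a = 0 := by rw [S.hs.smul_left, hua]; ring
  have h4 := IsR.conjR S.hs haa hμa hua h2 h3
  have h5 := IsR.mul S.hs haa hμa (by rw [S.hs.neg_left, hμa]; ring) h4 (IsR.inv S.hs haa hμa h3)
  rw [add_neg_cancel] at h5
  refine hcon _ ?_ _ (mul_mem (mul_mem (mul_mem t1.1.2.1 t2.1.2.1) (inv_mem t1.1.2.1)) (inv_mem t2.1.2.1)) h5
    (mul_mem (mul_mem (mul_mem (mem_stW.2 t1.2) (mem_stW.2 t2.2)) (inv_mem (mem_stW.2 t1.2))) (inv_mem (mem_stW.2 t2.2)))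
  have e1 : c t2 + f u (μ • u) - f (μ • u) u + (-c t2 - f (μ • u) (μ • u)) - f (-(μ • u)) (μ • u) =
      (σ μ - μ) * f u u := by
    rw [S.hs.smul_right, S.hs.smul_left, S.hs.neg_left]; ring
  rw [e1]
  exact mul_ne_zero (sub_ne_zero.2 hμ) huu

/-- isotropic vectors of `W` are perpendicular to `W` -/
theorem A1 {η : F} (hη0 : η ≠ 0) (hη : η + σ η = 0) {M : Subgroup (V ≃ₗ[F] V)} (hC : S.CC η M ≠ ⊤)
    {a : V} (ha : a ∈ S.WW M) (ha0 : a ≠ 0) (haa : f a a = 0)
    (hk : kk (tgrp S.hs V1) (S.WW M) a ≤ Nat.card (EE σ)) {w : V} (hw : w ∈ S.WW M) : f w a = 0 := by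
  classical
  have := S.finite_V
  have := S.finite_G
  have := S.fd
  by_contra hwa
  have haV : a ∈ V1 := ha.1
  have hwV : w ∈ V1 := hw.1
  have haw : f a w ≠ 0 := S.hs.symm_ne hwa
  obtain ⟨b, hb, hab, hbb, -⟩ := exists_partner S.hs haV hwV haa haw
  set U := V1 ⊓ LinearMap.ker (S.hs.fl a) ⊓ LinearMap.ker (S.hs.fl b) with hUdef
  have memU : ∀ x, x ∈ U ↔ x ∈ V1 ∧ f x a = 0 ∧ f x b = 0 := by
    intro x; rw [hUdef]; simp [and_assoc]
  have hUnd : Nd f U := nd_sub S.hs S.nd1 haV hb haa hbb hab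
  have hUV : U ≤ V1 := fun x hx => ((memU x).1 hx).1
  have hU : ∀ x ∈ U, f x a = 0 := fun x hx => ((memU x).1 hx).2.1
  have hU0 : ∀ x ∈ U, x ∈ Submodule.span F {a} → x = 0 := by
    intro x hx hxa
    obtain ⟨m, rfl⟩ := Submodule.mem_span_singleton.1 hxa
    have h1 := ((memU _).1 hx).2.2
    rw [S.hs.smul_left, hab, mul_one] at h1
    rw [h1, zero_smul]
  have h1 := S.P3 hη0 hη ha hk haV ha0 haa haa hUV hU hU0 (fun u hu => S.hs.symm_zero (hU u hu))
  -- the additive group of second parameters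
  let B : AddSubgroup V :=
    { carrier := {u | u ∈ U ∧ ∃ t ∈ stW (S.WW M), ∃ c, IsR f t a u c}
      zero_mem' := ⟨U.zero_mem, 1, one_mem _, 0, IsR.one S.hs a⟩
      add_mem' := by
        rintro u v ⟨hu, t, ht, c, hc⟩ ⟨hv, t', ht', c', hc'⟩
        exact ⟨U.add_mem hu hv, t * t', mul_mem ht ht', _, IsR.mul S.hs haa (hU u hu) (hU v hv) hc hc'⟩
      neg_mem' := by
        rintro u ⟨hu, t, ht, c, hc⟩
        exact ⟨U.neg_mem hu, t⁻¹, inv_mem ht, _, IsR.inv S.hs haa (hU u hu) hc⟩ }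
  have hB : ∀ u ∈ B, u ∈ U ∧ ∃ t ∈ stW (S.WW M), ∃ c, IsR f t a u c := fun u hu => hu
  have hBc : ∀ u : B, ∃ c, c + σ c + f (u : V) u = 0 := fun u => S.exists_c u
  choose cB hcB using hBc
  have h2 : Nat.card {t : UU S.hs V1 haa U hU // mp (t : V ≃ₗ[F] V) (S.WW M) = S.WW M} ≤
      Nat.card B * Nat.card (EE σ) := by
    have hpar : ∀ t : {t : UU S.hs V1 haa U hU // mp (t : V ≃ₗ[F] V) (S.WW M) = S.WW M}, ∃ p : B × EE σ,
        IsR f ((t.1 : V ≃ₗ[F] V)) a (p.1 : V) (cB p.1 + η * p.2) := by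
      rintro ⟨⟨t, ht, x, hx, c, hc⟩, hst⟩
      have hxB : x ∈ B := ⟨hx, t, hst, c, hc⟩
      have h3 := S.isR_cond' haV ha0 haa (hU x hx) (tgrp_le_isom S.hs V1 ht) hc
      have h4 := hcB ⟨x, hxB⟩
      refine ⟨(⟨x, hxB⟩, ⟨(c - cB ⟨x, hxB⟩) / η, ?_⟩), ?_⟩
      · rw [mem_EE, map_div₀, map_sub, eq_neg_of_add_eq_zero_right hη, div_neg, ← neg_div]
        congr 1
        linear_combination h4 - h3
      · show IsR f t a x (cB ⟨x, hxB⟩ + η * ((c - cB ⟨x, hxB⟩) / η))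
        rw [mul_div_cancel₀ _ hη0, add_sub_cancel]
        exact hc
    choose P hP using hpar
    rw [← Nat.card_prod]
    refine Nat.card_le_card_of_injective P ?_
    intro t t' h
    have h3 := hP t
    rw [h] at h3
    exact Subtype.ext (Subtype.ext (isR_unique h3 (hP t')))
  -- isotropy of B
  have h3 : Nat.card B ^ 2 ≤ Nat.card U := by
    obtain ⟨p, hp⟩ := CharP.exists F
    have : NeZero p := ⟨CharP.char_ne_zero_of_finite F p⟩
    have : Fact p.Prime := ⟨(CharP.char_is_prime_or_zero F p).resolve_right (NeZero.ne p)⟩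
    have : CharP (EE σ) p := inferInstance
    obtain ⟨φ, hφ1, hφ2⟩ := exists_phi (p := p) hC
    let N : EE σ := ⟨f w a * σ (f w a), by rw [mem_EE, map_mul, S.hs.inv]; ring⟩
    have hN : N ≠ 0 := by
      intro h
      have h4 : f w a * σ (f w a) = 0 := congrArg Subtype.val h
      exact mul_ne_zero hwa (S.hs.sigma_ne hwa) h4
    refine iso_small S.hs hη hη0 (φ.comp (AddMonoidHom.mulLeft N)) ?_ U hUnd B (fun x hx => (hB x hx).1) ?_
    · obtain ⟨x, hx⟩ := hφ1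
      refine ⟨N⁻¹ * x, ?_⟩
      show φ (N * (N⁻¹ * x)) ≠ 0
      rwa [mul_inv_cancel_left₀ hN]
    · intro x hx y hy
      obtain ⟨hxU, t, ht, c, hc⟩ := hB x hx
      obtain ⟨hyU, t', ht', c', hc'⟩ := hB y hy
      have h5 : t w - w ∈ S.WW M := (S.WW M).sub_mem (stW_mem ht hw) hw
      have h6 : t' w - w ∈ S.WW M := (S.WW M).sub_mem (stW_mem ht' hw) hw
      have h7 := hφ2 _ (S.br_mem_C hη hη0 h5 h6)
      show φ (N * _) = 0
      convert h7 using 2
      apply Subtype.ext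
      rw [Subfield.coe_mul, br_coe, br_coe, hc, hc', rho, rho]
      have e1 := hU x hxU
      have e2 := hU y hyU
      have e3 := S.hs.symm_zero e1
      have e4 := S.hs.symm_zero e2
      have e5 : ∀ s r : F, ∀ z : V, w + s • z - r • a + (c * s) • a - w = s • z + (c * s - r) • a := by
        intro s r z; module
      have e6 : ∀ s r : F, ∀ z : V, w + s • z - r • a + (c' * s) • a - w = s • z + (c' * s - r) • a := by
        intro s r z; module
      rw [e5, e6]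
      simp only [S.hs.add_left, S.hs.add_right, S.hs.smul_left, S.hs.smul_right, haa, e1, e2, e3, e4]
      show f w a * σ (f w a) * ((f x y - f y x) / η) = _
      ring
  -- numbers
  have h4 := HS.finrank_inf_ker V1 (S.hs.fl a)
  have h5 := HS.finrank_inf_ker (V1 ⊓ LinearMap.ker (S.hs.fl a)) (S.hs.fl b)
  have h6 := S.d4
  rw [← hUdef] at h5
  have h7 : 2 ≤ Module.finrank F U := by omega
  have h8 : Nat.card U = Nat.card (EE σ) ^ (2 * Module.finrank F U) := by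
    rw [Module.natCard_eq_pow_finrank (K := F), card_F S.hs, ← pow_mul]
  have hq2 : 2 ≤ Nat.card (EE σ) := one_lt_q S.hs
  have h9 : Nat.card (EE σ) ^ 4 ≤ Nat.card U := by
    rw [h8]; exact Nat.pow_le_pow_right (by omega) (by omega)
  have hUpos : 0 < Nat.card U := Nat.card_pos
  have h10 : Nat.card U * Nat.card U ≤ Nat.card U * Nat.card (EE σ) ^ 2 := by
    calc Nat.card U * Nat.card U ≤ (Nat.card B * Nat.card (EE σ)) * (Nat.card B * Nat.card (EE σ)) :=
          Nat.mul_le_mul (h1.trans h2) (h1.trans h2)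
      _ = Nat.card B ^ 2 * Nat.card (EE σ) ^ 2 := by ring
      _ ≤ Nat.card U * Nat.card (EE σ) ^ 2 := Nat.mul_le_mul_right _ h3
  have h11 := Nat.le_of_mul_le_mul_left h10 hUpos
  have h12 : Nat.card (EE σ) ^ 4 ≤ Nat.card (EE σ) ^ 2 := h9.trans h11
  have h13 := (Nat.pow_lt_pow_iff_right (a := Nat.card (EE σ)) (by omega)).2 (show 2 < 4 by norm_num)
  omega

end Ctx

end Cfsg.Agent.Lib.MinU
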