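import Mathlib
import Cfsg.Agent.Lib.MinUG

/-!
# Minimal index of unitary groups: `W = 0` and the dichotomy (helper98)
-/

set_option autoImplicit false
set_option linter.unusedSectionVars false

namespace Cfsg.Agent.Lib.MinU

open Cfsg.Agent.Lib Cfsg.Agent.Lib.UnTrans Cfsg.Agent.Lib.SubfUn
open Cfsg.Agent.Lib.SpTrans (isom mem_isom)

variable {F V : Type*} [Field F] [Finite F] [AddCommGroup V] [Module F V]
variable {σ : F →+* F} {f : V → V → F}

namespace Ctx
variable {e e' : V} {V1 : Submodule F V} (S : Ctx σ f e e' V1)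
include S

theorem exists_u0 {w a : V} (hw : w ∈ V1) (ha : a ∈ V1) (hww : f w w ≠ 0) (hwa : f w a = 0) :
    ∃ u ∈ V1, f u a = 0 ∧ f w u = 0 ∧ f u u ≠ 0 := by
  have := S.fd
  set V3 := V1 ⊓ LinearMap.ker (S.hs.fl w) with hV3
  have mem3 : ∀ x, x ∈ V3 ↔ x ∈ V1 ∧ f x w = 0 := by intro x; rw [hV3]; simp
  have hnd : Nd f V3 := by
    intro x hx hx0
    obtain ⟨h1, h2⟩ := (mem3 x).1 hx
    obtain ⟨y, hy, hxy⟩ := S.nd1 x h1 hx0
    refine ⟨y - (f y w / f w w) • w, (mem3 _).2 ⟨V1.sub_mem hy (V1.smul_mem _ hw), ?_⟩, ?_⟩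
    · rw [S.hs.sub_left, S.hs.smul_left, div_mul_cancel₀ _ hww, sub_self]
    · rw [S.hs.sub_right, S.hs.smul_right, h2, mul_zero, sub_zero]; exact hxy
  have h4 := HS.finrank_inf_ker V1 (S.hs.fl w)
  rw [← hV3] at h4
  have h5 := HS.finrank_inf_ker V3 (S.hs.fl a)
  have h6 := S.d4
  have ha3 : a ∈ V3 := (mem3 a).2 ⟨ha, S.hs.symm_zero hwa⟩
  obtain ⟨u, hu, huu⟩ := S.hs.exists_aniso (U := V3 ⊓ LinearMap.ker (S.hs.fl a)) (w := a) (by omega) (by
    intro u hu h
    refine S.hs.mem_span_of_perp hnd ha3 hu.1 fun x hx hxa => h x ⟨hx, ?_⟩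
    simpa using hxa)
  have hu1 := (mem3 u).1 hu.1
  refine ⟨u, hu1.1, by simpa using hu.2, S.hs.symm_zero hu1.2, huu⟩

theorem W_eq_bot {η : F} (hη0 : η ≠ 0) (hη : η + σ η = 0) {M : Subgroup (V ≃ₗ[F] V)} (hC : S.CC η M ≠ ⊤)
    (hN : ∀ a ∈ V1, a ≠ 0 → M.relIndex (tgrp S.hs ⊤) <
      Nat.card (EE σ) * (Nat.card (EE σ) + 1) * Nat.card (Ocl f V1 (f a a))) : S.WW M = ⊥ := by
  classical
  have := S.finite_V
  have := S.finite_G
  have := S.fd
  have := finite_addSubgroup (V := V)
  by_contra hne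
  obtain ⟨a0, ha0, ha00⟩ : ∃ a ∈ S.WW M, a ≠ 0 := by
    by_contra h
    push Not at h
    exact hne ((AddSubgroup.eq_bot_iff_forall _).2 h)
  have hk : ∀ a ∈ S.WW M, a ≠ 0 → kk (tgrp S.hs V1) (S.WW M) a ≤ Nat.card (EE σ) := fun a ha ha' =>
    (S.kk_le hη0 hη hC ha ha' (hN a ha.1 ha')).1
  have hbig := (S.kk_le hη0 hη hC ha0 ha00 (hN a0 ha0.1 ha00)).2
  have hA1 : ∀ a ∈ S.WW M, a ≠ 0 → f a a = 0 → ∀ w ∈ S.WW M, f w a = 0 := fun a ha ha' haa w hw =>
    S.A1 hη0 hη hC ha ha' haa (hk a ha ha') hw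
  -- `W` is not contained in a line
  have hline : ∀ w, ∃ v ∈ S.WW M, v ∉ Submodule.span F {w} := by
    intro w
    by_contra h
    push Not at h
    have h1 : Nat.card (S.WW M) ≤ Nat.card F := by
      choose! g hg using (fun v (hv : v ∈ S.WW M) => Submodule.mem_span_singleton.1 (h v hv))
      refine Nat.card_le_card_of_injective (fun v : S.WW M => g v) ?_
      intro v v' hvv
      have h2 : g v = g v' := hvv
      apply Subtype.ext
      rw [← hg v v.2, ← hg v' v'.2, h2]
    rw [card_F S.hs] at h1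
    omega
  by_cases hiso : ∃ a ∈ S.WW M, a ≠ 0 ∧ f a a = 0
  · obtain ⟨a, ha, ha0, haa⟩ := hiso
    have haV : a ∈ V1 := ha.1
    have hperp := hA1 a ha ha0 haa
    by_cases hnon : ∃ w ∈ S.WW M, f w w ≠ 0
    · obtain ⟨w, hw, hww⟩ := hnon
      have hwV : w ∈ V1 := hw.1
      have hwa := hperp w hw
      have haw := S.hs.symm_zero hwa
      obtain ⟨y, hy, hay⟩ := S.nd1 a haV ha0
      have hy' : y - (f y w / f w w) • w ∈ V1 ⊓ LinearMap.ker (S.hs.fl w) := by
        refine ⟨V1.sub_mem hy (V1.smul_mem _ hwV), ?_⟩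
        have : f (y - (f y w / f w w) • w) w = 0 := by
          rw [S.hs.sub_left, S.hs.smul_left, div_mul_cancel₀ _ hww, sub_self]
        simpa using this
      have hay' : f a (y - (f y w / f w w) • w) ≠ 0 := by
        rw [S.hs.sub_right, S.hs.smul_right, haw, mul_zero, sub_zero]; exact hay
      obtain ⟨b, hb, hab, hbb, -⟩ := exists_partner S.hs (U := V1 ⊓ LinearMap.ker (S.hs.fl w)) (a := a)
        ⟨haV, by simpa using haw⟩ hy' haa hay'
      have hbV : b ∈ V1 := hb.1
      have hbw : f b w = 0 := by simpa using hb.2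
      have hwb := S.hs.symm_zero hbw
      have hb0 : b ≠ 0 := by
        rintro rfl; rw [S.hs.zero_right] at hab; exact zero_ne_one hab
      obtain ⟨u, hu, hub, hwu, huu⟩ := S.exists_u0 hwV hbV hww hwb
      have hw0 : w ≠ 0 := by rintro rfl; exact hww (S.hs.zero_left _)
      obtain ⟨x, hx0, t, ht, htx, htW⟩ := S.P3' hη0 hη hw (hk w hw hw0) hbV hb0 hbb hwb hu hub hwu huu
      have h1 : t a - a ∈ S.WW M := (S.WW M).sub_mem (stW_mem htW ha) ha
      have h2 : t a - a = x • b := by
        rw [htx, rho, hab, S.hs.zero_right]; module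
      rw [h2] at h1
      have h3 := S.hs.symm_zero (hperp _ h1)
      rw [S.hs.smul_right, hab, mul_one] at h3
      exact S.hs.sigma_ne hx0 h3
    · push Not at hnon
      have hti : ∀ x ∈ S.WW M, ∀ y ∈ S.WW M, f x y = 0 := by
        intro x hx y hy
        by_cases hy0 : y = 0
        · rw [hy0, S.hs.zero_right]
        · exact hA1 y hy hy0 (hnon y hy) x hx
      obtain ⟨w, hw, hwa⟩ := hline a
      have hwV : w ∈ V1 := hw.1
      have hww := hnon w hw
      have haw := hti a ha w hw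
      have hwa' := hti w hw a ha
      obtain ⟨y, hy, hya, hyw⟩ : ∃ y ∈ V1, f y a = 0 ∧ f y w ≠ 0 := by
        by_contra h
        push Not at h
        exact hwa (S.hs.mem_span_of_perp S.nd1 haV hwV h)
      obtain ⟨b, hb, hwb, hbb, -⟩ := exists_partner S.hs (U := V1 ⊓ LinearMap.ker (S.hs.fl a)) (a := w)
        ⟨hwV, by simpa using hwa'⟩ ⟨hy, by simpa using hya⟩ hww (S.hs.symm_ne hyw)
      have hbV : b ∈ V1 := hb.1
      have hba : f b a = 0 := by simpa using hb.2
      have hab := S.hs.symm_zero hba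
      have hbw : f b w = 1 := by rw [S.hs.herm, hwb, map_one]
      have hg : ∀ c : EE σ, ∃ t ∈ tgrp S.hs V1, IsR f t b 0 (η * c) := fun c => by
        refine S.exists_R1 hbV V1.zero_mem hbb (S.hs.zero_left b) ?_
        rw [S.hs.zero_left, add_zero, S.eta_cond hη]
      choose g hgm hg using hg
      have hga : ∀ c, g c a = a := fun c => by
        rw [hg, rho, hab, S.hs.zero_right]; simp
      have hgw : ∀ c : EE σ, g c w = w + (η * c) • b := fun c => by
        rw [hg, rho, hwb, S.hs.zero_right]; simp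
      obtain ⟨h, hhm, hh⟩ := S.exists_R1 hwV V1.zero_mem hww (S.hs.zero_left w) (c := -η⁻¹) (by
        have : σ η = -η := eq_neg_of_add_eq_zero_right hη
        rw [S.hs.zero_left, map_neg, map_inv₀, this, inv_neg]; ring)
      have hha : h a = a := by rw [hh, rho, haw, S.hs.zero_right]; simp
      have hhw : h (g 1 w) = η • b := by
        rw [hgw, hh, rho, S.hs.add_left, S.hs.smul_left, hww, hbw, S.hs.zero_right]
        have h1 : (((1 : EE σ) : F)) = 1 := rfl
        rw [h1]
        have h2 : -η⁻¹ * (0 + η * 1 * 1) = -1 := by field_simp; ring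
        rw [h2]; module
      -- the map
      have hpt : ∀ k ∈ tgrp S.hs V1, ∀ x ∈ mp k (S.WW M), ∀ y ∈ mp k (S.WW M), f x y = 0 := by
        rintro k hk' _ ⟨x, hx, rfl⟩ _ ⟨y, hy, rfl⟩
        have := tgrp_le_isom S.hs V1 hk' x y
        exact this.trans (hti x hx y hy)
      let K : Option (EE σ) → V ≃ₗ[F] V := fun o => o.elim (h * g 1) g
      have hKm : ∀ o, K o ∈ tgrp S.hs V1 := by
        rintro (_ | c)
        · exact mul_mem hhm (hgm 1)
        · exact hgm c
      have hKa : ∀ o, K o a = a := by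
        rintro (_ | c)
        · show (h * g 1) a = a
          rw [LinearEquiv.mul_apply, hga, hha]
        · exact hga c
      have hcard : Nat.card (EE σ) + 1 ≤ kk (tgrp S.hs V1) (S.WW M) a := by
        have h1 : Nat.card (Option (EE σ)) = Nat.card (EE σ) + 1 := by
          have : Fintype (EE σ) := Fintype.ofFinite _
          rw [Nat.card_eq_fintype_card, Nat.card_eq_fintype_card, Fintype.card_option]
        rw [← h1]
        refine Nat.card_le_card_of_injective (fun o => (⟨⟨mp (K o) (S.WW M), K o, hKm o, rfl⟩, ⟨a, ha, hKa o⟩⟩ :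
          {Y' : orb (tgrp S.hs V1) (S.WW M) // a ∈ (Y' : AddSubgroup V)})) ?_
        intro o o' hoo
        have h2 : mp (K o) (S.WW M) = mp (K o') (S.WW M) :=
          congrArg (fun z : {Y' : orb (tgrp S.hs V1) (S.WW M) // a ∈ (Y' : AddSubgroup V)} => (z.1 : AddSubgroup V)) hoo
        have hno : ∀ c : EE σ, mp (K none) (S.WW M) = mp (K (some c)) (S.WW M) → False := by
          intro c h3
          have h4 : η • b ∈ mp (K (some c)) (S.WW M) := by
            rw [← h3, ← hhw]
            exact mp_mem (g := h * g 1) hw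
          have h5 : w + (η * c) • b ∈ mp (K (some c)) (S.WW M) := by
            rw [← hgw]; exact mp_mem (g := g c) hw
          have h6 := hpt _ (hKm _) _ h4 _ h5
          rw [S.hs.smul_left, S.hs.add_right, S.hs.smul_right, hbw, hbb, mul_zero, add_zero, mul_one] at h6
          exact hη0 h6
        rcases o with _ | c <;> rcases o' with _ | c'
        · rfl
        · exact (hno _ h2).elim
        · exact (hno _ h2.symm).elim
        · have h4 : w + (η * c') • b ∈ mp (K (some c)) (S.WW M) := by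
            rw [h2, ← hgw]
            exact mp_mem (g := g c') hw
          have h5 : w + (η * c) • b ∈ mp (K (some c)) (S.WW M) := by
            rw [← hgw]; exact mp_mem (g := g c) hw
          have h6 := hpt _ (hKm _) _ h4 _ h5
          have hc : σ (c : F) = c := c.2
          have hση : σ η = -η := eq_neg_of_add_eq_zero_right hη
          rw [S.hs.add_left, S.hs.add_right, S.hs.add_right, S.hs.smul_left, S.hs.smul_left, S.hs.smul_right,
            S.hs.smul_right, hbw, hbb, hwb, hww, map_mul, hc, hση] at h6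
          have h7 : η * ((c' : F) - c) = 0 := by linear_combination h6
          have h8 := sub_eq_zero.1 ((mul_eq_zero.1 h7).resolve_left hη0)
          rw [Subtype.ext h8]
      have := hk a ha ha0
      omega
  · push Not at hiso
    have hw0 := hiso a0 ha0 ha00
    obtain ⟨w1, hw1, hw1'⟩ := hline a0
    apply hw1'
    have ha0V : a0 ∈ V1 := ha0.1
    refine S.hs.mem_span_of_perp S.nd1 ha0V hw1.1 fun x hx hxa => ?_
    obtain ⟨z, hz, hza, hzz, y, hy, hya, hzy⟩ := S.hs.exists_hyp S.nd1 S.d4 ha0V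
    have h1 : x ∈ Submodule.span F {z | z ∈ V1 ⊓ LinearMap.ker (S.hs.fl a0) ∧ f z z = 0} :=
      S.hs.mem_span_iso (z := z) (y := y) (by simp [*]) hzz (by simp [*]) hzy (by simp [*])
    have h2 : Submodule.span F {z | z ∈ V1 ⊓ LinearMap.ker (S.hs.fl a0) ∧ f z z = 0} ≤
        LinearMap.ker (S.hs.fl w1) := by
      rw [Submodule.span_le]
      rintro b ⟨hb, hbb⟩
      have hb' : b ∈ V1 ∧ f b a0 = 0 := by simpa using hb
      have hab := S.hs.symm_zero hb'.2
      show S.hs.fl w1 b = 0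
      rw [HS.fl_apply]
      by_cases hb0 : b = 0
      · rw [hb0, S.hs.zero_left]
      obtain ⟨u, hu, hub, hwu, huu⟩ := S.exists_u0 ha0V hb'.1 hw0 hab
      obtain ⟨x, hx0, t, ht, htx, htW⟩ := S.P3' hη0 hη ha0 (hk a0 ha0 ha00) hb'.1 hb0 hbb hab hu hub hwu huu
      have h3 : t w1 - w1 ∈ S.WW M := (S.WW M).sub_mem (stW_mem htW hw1) hw1
      have h4 : t w1 - w1 = (x * f w1 b) • b := by
        rw [htx, rho, S.hs.zero_right]; module
      rw [h4] at h3
      by_contra hbw
      refine hiso _ h3 (smul_ne_zero (mul_ne_zero hx0 (S.hs.symm_ne hbw)) hb0) ?_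
      rw [S.hs.smul_left, S.hs.smul_right, hbb]; ring
    exact h2 h1

end Ctx

end Cfsg.Agent.Lib.MinU
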