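import Mathlib
import Cfsg.Agent.Lib.MinUH

/-!
# Minimal index of unitary groups: the dichotomy (helper98)
-/

set_option autoImplicit false
set_option linter.unusedSectionVars false

namespace Cfsg.Agent.Lib.MinU

open Cfsg.Agent.Lib Cfsg.Agent.Lib.UnTrans Cfsg.Agent.Lib.SubfUn
open Cfsg.Agent.Lib.SpTrans (isom mem_isom)

variable {F V : Type*} [Field F] [Finite F] [AddCommGroup V] [Module F V]
variable {σ : F →+* F} {f : V → V → F}

/-- `Z(e) ≤ M` -/
def ZM (σ : F →+* F) (f : V → V → F) (M : Subgroup (V ≃ₗ[F] V)) (e : V) : Prop :=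
  ∀ c, c + σ c = 0 → ∃ t ∈ M, IsR f t e 0 c

/-- `M ∩ Q(e) = 1` -/
def QM (f : V → V → F) (M : Subgroup (V ≃ₗ[F] V)) (e : V) : Prop :=
  ∀ t ∈ M, ∀ u c, f u e = 0 → IsR f t e u c → t = 1

/-- `Q(e) ≤ M` -/
def QQ (σ : F →+* F) (f : V → V → F) (M : Subgroup (V ≃ₗ[F] V)) (e : V) : Prop :=
  ∀ u c, f u e = 0 → c + σ c + f u u = 0 → ∃ t ∈ M, IsR f t e u c

theorem isR_add_smul (H : HS σ f) {e u : V} {c α : F} {t : V ≃ₗ[F] V} (h : IsR f t e (u + α • e) c) :
    IsR f t e u (c + α - σ α) := by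
  intro x
  rw [h, rho, rho, H.add_right, H.smul_right]
  module

theorem isR_neg_swap (H : HS σ f) {e w : V} {t : V ≃ₗ[F] V} (h : IsR f t e w 0) : IsR f t w (-e) 0 := by
  intro x
  rw [h, rho, rho, H.neg_right]
  module

theorem ZM.of_QQ (H : HS σ f) {M : Subgroup (V ≃ₗ[F] V)} {e : V} (h : QQ σ f M e) : ZM σ f M e := fun c hc =>
  h 0 c (H.zero_left e) (by rw [H.zero_left, add_zero, hc])

theorem ZM.conj (H : HS σ f) {M : Subgroup (V ≃ₗ[F] V)} (hM : M ≤ isom f) {e : V} (h : ZM σ f M e)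
    {m : V ≃ₗ[F] V} (hm : m ∈ M) : ZM σ f M (m e) := by
  intro c hc
  obtain ⟨t, ht, h1⟩ := h c hc
  have h2 := IsR.conj H (hM hm) h1
  rw [map_zero] at h2
  exact ⟨_, mul_mem (mul_mem hm ht) (inv_mem hm), h2⟩

theorem QQ.conj (H : HS σ f) {M : Subgroup (V ≃ₗ[F] V)} (hM : M ≤ isom f) {e : V} (h : QQ σ f M e)
    {m : V ≃ₗ[F] V} (hm : m ∈ M) : QQ σ f M (m e) := by
  intro u c hu hc
  have h3 : f (m⁻¹ u) e = 0 := by
    have := hM hm (m⁻¹ u) e
    rw [apply_inv, hu] at this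
    exact this.symm
  have h4 : f (m⁻¹ u) (m⁻¹ u) = f u u := hM (inv_mem hm) u u
  obtain ⟨t, ht, h1⟩ := h (m⁻¹ u) c h3 (by rw [h4, hc])
  have h2 := IsR.conj H (hM hm) h1
  rw [apply_inv] at h2
  exact ⟨_, mul_mem (mul_mem hm ht) (inv_mem hm), h2⟩

theorem ZM.smul (H : HS σ f) {M : Subgroup (V ≃ₗ[F] V)} {e : V} {l : F} (hl : l ≠ 0) (h : ZM σ f M (l • e)) :
    ZM σ f M e := by
  intro c hc
  have hσl := H.sigma_ne hl
  obtain ⟨t, ht, h1⟩ := h (c * (l * σ l)⁻¹) (by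
    rw [map_mul, map_inv₀, map_mul, H.inv, mul_comm (σ l) l, ← add_mul, hc, zero_mul])
  have h2 := IsR.smul H h1
  rw [smul_zero, inv_mul_cancel_right₀ (mul_ne_zero hl hσl)] at h2
  exact ⟨t, ht, h2⟩

/-- global hypotheses -/
structure Glob (σ : F →+* F) (f : V → V → F) : Prop where
  hs : HS σ f
  nd : Nd f (⊤ : Submodule F V)
  fd : FiniteDimensional F V
  d6 : 6 ≤ Module.finrank F V

theorem finrank_perp {H : HS σ f} [FiniteDimensional F V] {U : Submodule F V} {e e' : V} (he : e ∈ U) (he' : e' ∈ U)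
    (hee : f e e = 0) (hee' : f e' e' = 0) (hep : f e e' = 1) :
    Module.finrank F (U ⊓ LinearMap.ker (H.fl e) ⊓ LinearMap.ker (H.fl e') : Submodule F V) + 2 = Module.finrank F U := by
  have hep' : f e' e = 1 := by rw [H.herm, hep, map_one]
  let φ : U →ₗ[F] F × F := ((H.fl e).prod (H.fl e')).comp U.subtype
  have h1 := LinearMap.finrank_range_add_finrank_ker φ
  have h2 : LinearMap.range φ = ⊤ := by
    rw [eq_top_iff]
    rintro ⟨a, b⟩ _
    refine ⟨⟨b • e + a • e', U.add_mem (U.smul_mem _ he) (U.smul_mem _ he')⟩, ?_⟩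
    show (f (b • e + a • e') e, f (b • e + a • e') e') = (a, b)
    rw [H.add_left, H.add_left, H.smul_left, H.smul_left, H.smul_left, H.smul_left, hee, hee', hep, hep']
    simp
  have h3 : Module.finrank F (LinearMap.ker φ) =
      Module.finrank F (U ⊓ LinearMap.ker (H.fl e) ⊓ LinearMap.ker (H.fl e') : Submodule F V) := by
    refine LinearEquiv.finrank_eq (LinearEquiv.ofBijective
      ({ toFun := fun x => ⟨(x.1 : V), ⟨⟨x.1.2, ?_⟩, ?_⟩⟩, map_add' := fun x y => rfl, map_smul' := fun c x => rfl } :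
        LinearMap.ker φ →ₗ[F] (U ⊓ LinearMap.ker (H.fl e) ⊓ LinearMap.ker (H.fl e') : Submodule F V)) ⟨?_, ?_⟩)
    · have := x.2
      exact congrArg Prod.fst (LinearMap.mem_ker.1 this)
    · have := x.2
      exact congrArg Prod.snd (LinearMap.mem_ker.1 this)
    · intro x y h
      have h4 : (x.1 : V) = y.1 := congrArg
        (fun z : (U ⊓ LinearMap.ker (H.fl e) ⊓ LinearMap.ker (H.fl e') : Submodule F V) => (z : V)) h
      exact Subtype.ext (Subtype.ext h4)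
    · rintro ⟨x, hx⟩
      refine ⟨⟨⟨x, hx.1.1⟩, ?_⟩, rfl⟩
      rw [LinearMap.mem_ker]
      have h5 : f x e = 0 := by simpa using hx.1.2
      have h6 : f x e' = 0 := by simpa using hx.2
      exact Prod.ext h5 h6
  rw [h2, finrank_top, Module.finrank_prod, Module.finrank_self] at h1
  omega

theorem Glob.ctx (G : Glob σ f) {e : V} (he0 : e ≠ 0) (hee : f e e = 0) :
    ∃ (e' : V) (V1 : Submodule F V), Ctx σ f e e' V1 ∧ Module.finrank F V1 + 2 = Module.finrank F V := by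
  have := G.fd
  obtain ⟨y, hy, hey⟩ := G.nd e trivial he0
  obtain ⟨e', -, hep, hee', -⟩ := exists_partner G.hs (U := ⊤) (a := e) trivial hy hee hey
  have h1 := finrank_perp (H := G.hs) (U := ⊤) (e := e) (e' := e') trivial trivial hee hee' hep
  rw [finrank_top] at h1
  have h6 := G.d6
  refine ⟨e', _, ⟨G.hs, G.nd, G.fd, hee, hee', hep, ?_, by omega⟩, h1⟩
  intro x
  simp

/-- the index of `M` is small -/
structure Small (G : Glob σ f) (M : Subgroup (V ≃ₗ[F] V)) : Prop where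
  le : M ≤ tgrp G.hs ⊤
  s1 : ∀ V1 : Submodule F V, Nd f V1 → Module.finrank F V1 + 2 = Module.finrank F V → ∀ a ∈ V1, a ≠ 0 →
    M.relIndex (tgrp G.hs ⊤) < Nat.card (EE σ) * (Nat.card (EE σ) + 1) * Nat.card (Ocl f V1 (f a a))
  s2 : M.relIndex (tgrp G.hs ⊤) < (Nat.card (EE σ) + 1) * Nat.card (EE σ) ^ (2 * (Module.finrank F V - 2))

theorem Ctx.dich {e e' : V} {V1 : Submodule F V} (S : Ctx σ f e e' V1) {η : F} (hη0 : η ≠ 0) (hη : η + σ η = 0)
    {M : Subgroup (V ≃ₗ[F] V)}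
    (hN : ∀ a ∈ V1, a ≠ 0 → M.relIndex (tgrp S.hs ⊤) <
      Nat.card (EE σ) * (Nat.card (EE σ) + 1) * Nat.card (Ocl f V1 (f a a)))
    (hV : M.relIndex (tgrp S.hs ⊤) < (Nat.card (EE σ) + 1) * Nat.card V1) (hC : S.CC η M ≠ ⊤) :
    S.WW M = ⊥ ∧ S.CC η M = ⊥ := by
  have := S.finite_V
  have := finite_addSubgroup (V := V)
  have hW := S.W_eq_bot hη0 hη hC hN
  refine ⟨hW, ?_⟩
  by_contra hC0
  have h1 := (mult_bound (S.CC η M) hC).2 hC0
  have h2 := S.I1 hη0 hη M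
  have h3 := S.idW_mul M
  have h4 : Nat.card (S.WW M) = 1 := by rw [hW]; simp
  rw [h4, mul_one] at h3
  rw [h3] at h2
  have h5 : 1 ≤ Nat.card (orb (tgrp S.hs V1) (S.WW M)) := by
    have : Nonempty (orb (tgrp S.hs V1) (S.WW M)) := ⟨⟨_, self_mem_orb _ _⟩⟩
    exact Nat.card_pos
  have h6 : Nat.card (EE σ) + 1 ≤ Nat.card (EE σ ⧸ S.CC η M) * (Nat.card (orb (tgrp S.hs V1) (S.WW M)) *
      Nat.card (Set.range fun δ : (EE σ)ˣ => ml (S.CC η M) δ)) := by
    calc Nat.card (EE σ) + 1 ≤ Nat.card (EE σ ⧸ S.CC η M) * (1 *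
        Nat.card (Set.range fun δ : (EE σ)ˣ => ml (S.CC η M) δ)) := by rw [one_mul]; exact h1
      _ ≤ _ := Nat.mul_le_mul_left _ (Nat.mul_le_mul_right _ h5)
  have h7 : (Nat.card (EE σ) + 1) * Nat.card V1 ≤ M.relIndex (tgrp S.hs ⊤) := by
    rw [mul_comm]
    exact (Nat.mul_le_mul_left _ h6).trans h2
  omega

theorem Ctx.ZM_of_top {e e' : V} {V1 : Submodule F V} (S : Ctx σ f e e' V1) {η : F} (hη0 : η ≠ 0) (hη : η + σ η = 0)
    {M : Subgroup (V ≃ₗ[F] V)} : S.CC η M = ⊤ ↔ ZM σ f M e := by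
  have hση : σ η = -η := eq_neg_of_add_eq_zero_right hη
  constructor
  · intro h c hc
    have h1 : σ (c / η) = c / η := by
      rw [map_div₀, hση, eq_neg_of_add_eq_zero_right hc, neg_div_neg_eq]
    obtain ⟨t, ht, h2⟩ : (⟨c / η, h1⟩ : EE σ) ∈ S.CC η M := by rw [h]; trivial
    refine ⟨t, ht, ?_⟩
    convert h2 using 1
    show c = η * (c / η)
    rw [mul_div_cancel₀ _ hη0]
  · intro h
    rw [eq_top_iff]
    intro x _
    exact h _ (S.eta_cond hη x)

theorem Ctx.QM_of_bot {e e' : V} {V1 : Submodule F V} (S : Ctx σ f e e' V1) {η : F} (hη0 : η ≠ 0) (hη : η + σ η = 0)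
    {M : Subgroup (V ≃ₗ[F] V)} (hM : M ≤ isom f) (h1 : S.WW M = ⊥) (h2 : S.CC η M = ⊥) : QM f M e := by
  have hση : σ η = -η := eq_neg_of_add_eq_zero_right hη
  have key : ∀ t ∈ M, ∀ u ∈ V1, ∀ c, IsR f t e u c → t = 1 := by
    intro t ht u hu c htu
    have h3 : u ∈ S.WW M := ⟨hu, t, ht, c, htu⟩
    rw [h1] at h3
    have h4 : u = 0 := h3
    subst h4
    have h5 := S.isR_cond (hM ht) hu htu
    rw [S.hs.zero_left, add_zero] at h5
    have h6 : σ (c / η) = c / η := by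
      rw [map_div₀, hση, eq_neg_of_add_eq_zero_right h5, neg_div_neg_eq]
    have h7 : (⟨c / η, h6⟩ : EE σ) ∈ S.CC η M := ⟨t, ht, by
      show IsR f t e 0 (η * (c / η))
      rw [mul_div_cancel₀ _ hη0]; exact htu⟩
    rw [h2] at h7
    have h8 : (⟨c / η, h6⟩ : EE σ) = 0 := h7
    have h9 : c / η = 0 := congrArg Subtype.val h8
    have h10 : c = 0 := by
      rcases div_eq_zero_iff.1 h9 with h | h
      · exact h
      · exact absurd h hη0
    subst h10
    ext x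
    rw [htu, rho, S.hs.zero_right]; simp
  intro t ht u c hu htu
  obtain ⟨u1, hu1, hd⟩ := S.decomp u
  rw [hu, zero_smul, add_zero, add_comm] at hd
  rw [hd] at htu
  exact key t ht u1 hu1 _ (isR_add_smul S.hs htu)

theorem Glob.dich (G : Glob σ f) {M : Subgroup (V ≃ₗ[F] V)} (hS : Small G M) {e : V} (he0 : e ≠ 0) (hee : f e e = 0) :
    ZM σ f M e ∨ QM f M e := by
  obtain ⟨e', V1, S, hd⟩ := G.ctx he0 hee
  obtain ⟨η, hη0, hη⟩ := G.hs.exists_tr0
  by_cases hC : S.CC η M = ⊤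
  · exact Or.inl ((S.ZM_of_top hη0 hη).1 hC)
  · right
    obtain ⟨h1, h2⟩ := S.dich hη0 hη (fun a ha ha0 => hS.s1 V1 S.nd1 hd a ha ha0) (by
      have := hS.s2
      rw [S.card_V1]
      have e1 : Module.finrank F V1 = Module.finrank F V - 2 := by omega
      rw [e1]; exact this) hC
    exact S.QM_of_bot hη0 hη (hS.le.trans (tgrp_le_isom G.hs ⊤)) h1 h2

end Cfsg.Agent.Lib.MinU
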