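import Mathlib
import Cfsg.Agent.Lib.MinUI

/-!
# Minimal index of unitary groups: stabilisers containing a whole `Q(e)`, and stabilisers meeting no `Q(e)` (helper98)
-/

set_option autoImplicit false
set_option linter.unusedSectionVars false

namespace Cfsg.Agent.Lib.MinU

open Cfsg.Agent.Lib Cfsg.Agent.Lib.UnTrans Cfsg.Agent.Lib.SubfUn
open Cfsg.Agent.Lib.SpTrans (isom mem_isom)

variable {F V : Type*} [Field F] [Finite F] [AddCommGroup V] [Module F V]
variable {σ : F →+* F} {f : V → V → F}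

theorem Glob.finite_V (G : Glob σ f) : Finite V := by
  have := G.fd
  exact Module.finite_of_finite F

theorem Glob.finite_G (G : Glob σ f) : Finite (V ≃ₗ[F] V) := by
  have := G.finite_V
  exact Finite.of_injective (fun g : V ≃ₗ[F] V => (g : V → V)) DFunLike.coe_injective

theorem Glob.d4 (G : Glob σ f) : 4 ≤ Module.finrank F (⊤ : Submodule F V) := by
  have := G.d6
  rw [finrank_top]; omega

/-- all long root groups in `M` -/
theorem Glob.top_of_all (G : Glob σ f) {M : Subgroup (V ≃ₗ[F] V)} (h : ∀ v, v ≠ 0 → f v v = 0 → ZM σ f M v) :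
    tgrp G.hs ⊤ ≤ M := by
  rw [tgrp, Subgroup.closure_le]
  rintro t ⟨w, -, hww, a, ha, rfl⟩
  by_cases hw0 : w = 0
  · subst hw0
    rw [tv_zero_left G.hs hww a ha]
    exact one_mem M
  · obtain ⟨t, ht, h1⟩ := h w hw0 hww a ha
    have : tv G.hs w hww a ha = t := by
      ext x
      rw [h1, tv_apply, rho, G.hs.zero_right]; simp
    rw [this]; exact ht

/-- `Q(e)` is transitive on isotropic vectors with given product with `e` -/
theorem exists_Q (H : HS σ f) {M : Subgroup (V ≃ₗ[F] V)} {e g v : V} (hQ : QQ σ f M e) (hgg : f g g = 0)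
    (hvv : f v v = 0) (hge : f g e ≠ 0) (hgv : f g e = f v e) (hee : f e e = 0) : ∃ t ∈ M, t g = v := by
  have hue : f ((f g e)⁻¹ • (v - g)) e = 0 := by
    rw [H.smul_left, H.sub_left, hgv, sub_self, mul_zero]
  obtain ⟨t, ht, h1⟩ := hQ ((f g e)⁻¹ • (v - g)) (f g ((f g e)⁻¹ • (v - g)) / f g e) hue (by
    have hs := H.sigma_ne hge
    rw [map_div₀, H.smul_right, H.smul_left, H.smul_right, map_mul, H.inv, map_inv₀, ← H.herm (v - g) g]
    simp only [H.sub_left, H.sub_right, hgg, hvv]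
    field_simp
    ring)
  refine ⟨t, ht, ?_⟩
  rw [h1, rho, div_mul_cancel₀ _ hge, smul_smul, mul_inv_cancel₀ hge]
  module

theorem Glob.top_of_QQ (G : Glob σ f) {M : Subgroup (V ≃ₗ[F] V)} (hM : M ≤ isom f) {e g : V} (he0 : e ≠ 0)
    (hee : f e e = 0) (hQ : QQ σ f M e) (hgg : f g g = 0) (hg : ZM σ f M g) (hge : f g e ≠ 0) : tgrp G.hs ⊤ ≤ M := by
  have H := G.hs
  have step1 : ∀ v, f v v = 0 → f v e ≠ 0 → ZM σ f M v := by
    intro v hvv hve
    have hs : f g e / f v e ≠ 0 := div_ne_zero hge hve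
    obtain ⟨t, ht, h1⟩ := exists_Q H (v := (f g e / f v e) • v) hQ hgg (by
      rw [H.smul_left, H.smul_right, hvv]; ring) hge (by rw [H.smul_left, div_mul_cancel₀ _ hve]) hee
    have h2 := hg.conj H hM ht
    rw [h1] at h2
    exact h2.smul H hs
  apply G.top_of_all
  intro v hv0 hvv
  by_cases hve : f v e = 0
  · obtain ⟨y, -, hey, hvy⟩ := H.exists_common G.nd (u := e) (v := v) trivial trivial he0 hv0
    obtain ⟨a, ha⟩ := H.exists_add_norm (u := y) hee hey (map_zero σ)
    set w := y + a • e with hw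
    have hwe : f w e ≠ 0 := by
      rw [hw, H.add_left, H.smul_left, hee, mul_zero, add_zero]; exact H.symm_ne hey
    have hvw : f v w ≠ 0 := by
      rw [hw, H.add_right, H.smul_right, hve, mul_zero, add_zero]; exact hvy
    have hZw := step1 w ha hwe
    obtain ⟨τ, hτ0, hτ⟩ := H.exists_tr0
    obtain ⟨t, ht, h1⟩ := hZw τ hτ
    have h2 : t v = v + (τ * f v w) • w := by rw [h1, rho, H.zero_right]; simp
    have h3 : ZM σ f M (t v) := by
      apply step1
      · rw [hM ht]; exact hvv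
      · rw [h2, H.add_left, H.smul_left, hve, zero_add]
        exact mul_ne_zero (mul_ne_zero hτ0 hvw) hwe
    have h4 := h3.conj H hM (inv_mem ht)
    rwa [inv_apply_self'] at h4
  · exact step1 v hvv hve

/-- if `M` contains `Q(e)` and is proper, then `M` stabilises the point `e` -/
theorem Glob.fix_of_QQ (G : Glob σ f) {M : Subgroup (V ≃ₗ[F] V)} (hS : Small G M) (hne : ¬ tgrp G.hs ⊤ ≤ M) {e : V}
    (he0 : e ≠ 0) (hee : f e e = 0) (hQ : QQ σ f M e) {m : V ≃ₗ[F] V} (hm : m ∈ M) :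
    m e ∈ Submodule.span F {e} := by
  have H := G.hs
  have hM : M ≤ isom f := hS.le.trans (tgrp_le_isom G.hs ⊤)
  have hno : ∀ g, f g g = 0 → ZM σ f M g → f g e = 0 := by
    intro g hgg hg
    by_contra hge
    exact hne (G.top_of_QQ hM he0 hee hQ hgg hg hge)
  have hQ2 := hQ.conj H hM hm
  set e2 := m e with he2
  have he22 : f e2 e2 = 0 := by rw [he2, hM hm]; exact hee
  have he20 : e2 ≠ 0 := by rw [he2]; simpa using he0
  have h1 : f e2 e = 0 := hno e2 he22 (ZM.of_QQ H hQ2)
  by_contra hns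
  -- `e ∉ F e2`
  have hns' : e ∉ Submodule.span F {e2} := by
    intro h
    apply hns
    obtain ⟨c, hc⟩ := Submodule.mem_span_singleton.1 h
    have hc0 : c ≠ 0 := by rintro rfl; rw [zero_smul] at hc; exact he0 hc.symm
    rw [Submodule.mem_span_singleton]
    exact ⟨c⁻¹, by rw [← hc, smul_smul, inv_mul_cancel₀ hc0, one_smul]⟩
  obtain ⟨x, hx2, hxe⟩ : ∃ x, f x e2 = 0 ∧ f x e ≠ 0 := by
    by_contra h
    push Not at h
    exact hns' (H.mem_span_of_perp G.nd (w := e2) (u := e) trivial trivial fun x _ hx => h x hx)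
  obtain ⟨a, ha⟩ := H.exists_add_norm (u := x) hee (H.symm_ne hxe) (map_zero σ)
  set w := x + a • e with hw
  have hw2 : f w e2 = 0 := by
    rw [hw, H.add_left, H.smul_left, hx2, H.symm_zero h1]; ring
  have hwe : f w e ≠ 0 := by
    rw [hw, H.add_left, H.smul_left, hee, mul_zero, add_zero]; exact hxe
  have hw0 : w ≠ 0 := by intro h; rw [h, H.zero_left] at hwe; exact hwe rfl
  obtain ⟨t, ht, h2⟩ := hQ2 w 0 hw2 (by rw [ha, map_zero]; ring)
  have h3 := isR_neg_swap H h2
  rcases G.dich hS hw0 ha with h | h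
  · exact hwe (hno w ha h)
  · have h4 := h t ht _ _ (by rw [H.neg_left, H.symm_zero hw2, neg_zero]) h3
    have h5 := h2 e
    rw [h4, rho, H.symm_zero h1] at h5
    have h6 : f e w • e2 = 0 := by
      have h7 : (1 : V ≃ₗ[F] V) e = e := rfl
      rw [h7] at h5
      have h8 : e = e - f e w • e2 := by
        conv_lhs => rw [h5]
        module
      exact sub_eq_self.1 h8.symm
    rcases smul_eq_zero.1 h6 with h7 | h7
    · exact H.symm_ne hwe h7
    · exact he20 h7

/-- isotropic points -/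
def IPt (f : V → V → F) : Set (Submodule F V) := {L | ∃ v, v ≠ 0 ∧ f v v = 0 ∧ L = Submodule.span F {v}}

theorem Glob.le_of_fix (G : Glob σ f) {M : Subgroup (V ≃ₗ[F] V)} {e : V}
    (he0 : e ≠ 0) (hee : f e e = 0) (hfix : ∀ m ∈ M, m e ∈ Submodule.span F {e}) :
    Nat.card (IPt (F := F) f) ≤ M.relIndex (tgrp G.hs ⊤) := by
  have := G.fd
  have := G.finite_G
  have h1 : ∀ L : IPt (F := F) f, ∃ g ∈ tgrp G.hs ⊤, (L : Submodule F V) = Submodule.span F {g e} := by
    rintro ⟨_, v, hv0, hvv, rfl⟩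
    obtain ⟨g, hg, hge⟩ := exists_move G.hs G.nd G.d4 (x := e) (y := v) trivial trivial he0 hv0 (by rw [hee, hvv])
    exact ⟨g, hg, by rw [hge]⟩
  choose g hg hgL using h1
  refine card_le_relIndex M _ g hg ?_
  intro L L' h
  apply Subtype.ext
  rw [hgL L, hgL L']
  obtain ⟨c, hc⟩ := Submodule.mem_span_singleton.1 (hfix _ h)
  have h2 : g L' e = c • g L e := by
    have := congrArg (g L) hc
    rw [map_smul, LinearEquiv.mul_apply, apply_inv] at this
    exact this.symm
  have hc0 : c ≠ 0 := by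
    rintro rfl
    rw [zero_smul] at h2
    exact he0 ((g L').map_eq_zero_iff.1 h2)
  rw [h2]
  exact (Submodule.span_singleton_smul_eq (IsUnit.mk0 c hc0) _).symm

end Cfsg.Agent.Lib.MinU
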