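import Mathlib
import Cfsg.Agent.Lib.MinUJ

/-!
# Minimal index of unitary groups: a subgroup of small index meets some `Q(e)` (helper98)
-/

set_option autoImplicit false
set_option linter.unusedSectionVars false

namespace Cfsg.Agent.Lib.MinU

open Cfsg.Agent.Lib Cfsg.Agent.Lib.UnTrans Cfsg.Agent.Lib.SubfUn
open Cfsg.Agent.Lib.SpTrans (isom mem_isom)

variable {F V : Type*} [Field F] [Finite F] [AddCommGroup V] [Module F V]
variable {σ : F →+* F} {f : V → V → F}

theorem field_lem (H : HS σ f) {η α c : F} (hη : η + σ η = 0) (hc : c + σ c = 0) :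
    (α = 0 ∧ c = 0) ∨ ∃ t, η = α * σ t - t * σ α - c * (t * σ t) := by
  have hση : σ η = -η := eq_neg_of_add_eq_zero_right hη
  have hσc : σ c = -c := eq_neg_of_add_eq_zero_right hc
  by_cases hc0 : c = 0
  · by_cases hα : α = 0
    · exact Or.inl ⟨hα, hc0⟩
    · right
      obtain ⟨z, hz⟩ := H.exists_trace 1 (map_one σ)
      refine ⟨σ (η * z / α), ?_⟩
      have hσα := H.sigma_ne hα
      rw [H.inv, hc0, mul_div_cancel₀ _ hα, map_div₀, map_mul, hση, div_mul_cancel₀ _ hσα]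
      linear_combination -η * hz
  · right
    obtain ⟨t, ht⟩ := H.norm (-η / c - α * σ α / c ^ 2) (by
      rw [map_sub, map_div₀, map_div₀, map_neg, map_mul, map_pow, H.inv, hση, hσc]
      field_simp)
    refine ⟨t + α / c, ?_⟩
    rw [map_add, map_div₀, hσc]
    have h1 : c * (t * σ t) = -η - α * σ α / c := by rw [ht]; field_simp
    have h2 : α * (σ t + σ α / -c) - (t + α / c) * σ α - c * ((t + α / c) * (σ t + σ α / -c)) =
      -(c * (t * σ t)) - α * σ α / c := by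
      field_simp
      ring
    rw [h2, h1]; ring

namespace Ctx
variable {e e' : V} {V1 : Submodule F V} (S : Ctx σ f e e' V1)
include S

/-- lifting of long root elements -/
theorem exists_lift {η : F} (hη0 : η ≠ 0) (hη : η + σ η = 0) {M : Subgroup (V ≃ₗ[F] V)} (hQ : QM f M e)
    (hX : M.relIndex (tgrp S.hs ⊤) < 2 * (Nat.card V1 * Nat.card (EE σ))) {a : V} (ha : a ∈ V1) (haa : f a a = 0) :
    ∃ z ∈ tgrp S.hs V1, IsR f z a 0 η ∧ ∃ r ∈ tgrp S.hs ⊤, ∃ v ∈ V1, ∃ c, IsR f r e v c ∧ z * r ∈ M := by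
  classical
  have := S.finite_V
  have := S.finite_G
  have hfix : ∀ z ∈ tgrp S.hs V1, z e = e := fun z hz => S.L_e hz
  have hiso : ∀ z ∈ tgrp S.hs V1, z ∈ isom f := fun z hz => tgrp_le_isom S.hs V1 hz
  have hconj : ∀ z ∈ tgrp S.hs V1, ∀ r v c, IsR f r e v c → IsR f (z * r * z⁻¹) e (z v) c := by
    intro z hz r v c h
    have := IsR.conj S.hs (hiso z hz) h
    rwa [hfix z hz] at this
  let D : AddSubgroup (EE σ) :=
    { carrier := {x | ∃ z ∈ tgrp S.hs V1, IsR f z a 0 (η * x) ∧ ∃ r ∈ tgrp S.hs ⊤, ∃ v ∈ V1, ∃ c,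
        IsR f r e v c ∧ z * r ∈ M}
      zero_mem' := ⟨1, one_mem _, by
          have := IsR.one S.hs a
          simpa using this, 1, one_mem _, 0, V1.zero_mem, 0, IsR.one S.hs e, by simp⟩
      add_mem' := by
        rintro x x' ⟨z, hz, hzx, r, hr, v, hv, c, hrv, hm⟩ ⟨z', hz', hzx', r', hr', v', hv', c', hrv', hm'⟩
        have h1 := IsR.mul S.hs haa (S.hs.zero_left a) (S.hs.zero_left a) hzx hzx'
        rw [add_zero, S.hs.zero_left, sub_zero, ← mul_add] at h1
        have h2 := hconj _ (inv_mem hz') _ _ _ hrv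
        have hv2 : z'⁻¹ v ∈ V1 := tgrp_mem_of_mem S.hs (inv_mem hz') hv
        have h3 := IsR.mul S.hs S.ee (S.perp_e hv2) (S.perp_e hv') h2 hrv'
        refine ⟨z * z', mul_mem hz hz', h1, z'⁻¹ * r * z'⁻¹⁻¹ * r', ?_, _, V1.add_mem hv2 hv', _, h3, ?_⟩
        · exact mul_mem (mul_mem (mul_mem (S.L_le (inv_mem hz')) hr) (inv_mem (S.L_le (inv_mem hz')))) hr'
        · have : z * z' * (z'⁻¹ * r * z'⁻¹⁻¹ * r') = (z * r) * (z' * r') := by group
          rw [this]; exact mul_mem hm hm'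
      neg_mem' := by
        rintro x ⟨z, hz, hzx, r, hr, v, hv, c, hrv, hm⟩
        have h1 := IsR.inv S.hs haa (S.hs.zero_left a) hzx
        rw [neg_zero, S.hs.zero_left, sub_zero, ← mul_neg] at h1
        have h2 := hconj _ hz _ _ _ (IsR.inv S.hs S.ee (S.perp_e hv) hrv)
        refine ⟨z⁻¹, inv_mem hz, h1, z * r⁻¹ * z⁻¹, ?_, _, tgrp_mem_of_mem S.hs hz (V1.neg_mem hv), _, h2, ?_⟩
        · exact mul_mem (mul_mem (S.L_le hz) (inv_mem hr)) (inv_mem (S.L_le hz))
        · have : z⁻¹ * (z * r⁻¹ * z⁻¹) = (z * r)⁻¹ := by group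
          rw [this]; exact inv_mem hm }
  have hD : ∀ x, x ∈ D ↔ ∃ z ∈ tgrp S.hs V1, IsR f z a 0 (η * x) ∧ ∃ r ∈ tgrp S.hs ⊤, ∃ v ∈ V1, ∃ c,
        IsR f r e v c ∧ z * r ∈ M := fun x => Iff.rfl
  -- counting
  have hcount : Nat.card (EE σ ⧸ D) * (Nat.card V1 * Nat.card (EE σ)) ≤ M.relIndex (tgrp S.hs ⊤) := by
    have h1 : ∀ x : EE σ ⧸ D, ∃ t ∈ tgrp S.hs V1, IsR f t a 0 (η * x.out) := fun x => by
      refine S.exists_R1 ha V1.zero_mem haa (S.hs.zero_left a) ?_
      rw [S.hs.zero_left, add_zero, S.eta_cond hη]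
    have hR : ∀ q : V1, ∃ t ∈ tgrp S.hs ⊤, ∃ c, IsR f t e (q : V) c := fun q => by
      obtain ⟨t, ht, c, -, h⟩ := S.exists_R' q.2
      exact ⟨t, ht, c, h⟩
    have hZ : ∀ z : EE σ, ∃ t ∈ tgrp S.hs ⊤, IsR f t e 0 (η * z) := fun z => S.exists_Z hη _
    choose R hRm cR hR using hR
    choose Z hZm hZ using hZ
    choose T hTm hT using h1
    rw [← Nat.card_prod, ← Nat.card_prod]
    refine card_le_relIndex (ι := (EE σ ⧸ D) × (V1 × EE σ)) M (tgrp S.hs ⊤)
      (fun i => T i.1 * (R i.2.1 * Z i.2.2)) (fun i => mul_mem (S.L_le (hTm _)) (mul_mem (hRm _) (hZm _))) ?_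
    rintro ⟨x, v, y⟩ ⟨x', v', y'⟩ h
    simp only at h
    have hr := S.isR_prod v.2 (hR v) (hZ y)
    have hr' := S.isR_prod v'.2 (hR v') (hZ y')
    have hri := IsR.inv S.hs S.ee (S.perp_e v.2) hr
    have hg : (T x)⁻¹ * T x' ∈ tgrp S.hs V1 := mul_mem (inv_mem (hTm x)) (hTm x')
    have h2 := hconj _ (inv_mem hg) _ _ _ hri
    have hv2 : ((T x)⁻¹ * T x')⁻¹ (-(v : V)) ∈ V1 := tgrp_mem_of_mem S.hs (inv_mem hg) (V1.neg_mem v.2)
    have h3 := IsR.mul S.hs S.ee (S.perp_e hv2) (S.perp_e v'.2) h2 hr'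
    have hxx : x = x' := by
      rw [← QuotientAddGroup.out_eq' x, ← QuotientAddGroup.out_eq' x', QuotientAddGroup.eq, hD]
      have h4 := IsR.mul S.hs haa (by rw [neg_zero, S.hs.zero_left]) (S.hs.zero_left a)
        (IsR.inv S.hs haa (S.hs.zero_left a) (hT x)) (hT x')
      rw [neg_zero, S.hs.zero_left, add_zero, sub_zero, sub_zero, ← mul_neg, ← mul_add] at h4
      refine ⟨_, hg, ?_, _, ?_, _, V1.add_mem hv2 v'.2, _, h3, ?_⟩
      · convert h4 using 1
        push_cast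
        rfl
      · exact mul_mem (mul_mem (mul_mem (S.L_le (inv_mem hg)) (inv_mem (mul_mem (hRm _) (hZm _))))
          (inv_mem (S.L_le (inv_mem hg)))) (mul_mem (hRm _) (hZm _))
      · convert h using 1; group
    subst hxx
    have h5 : (R v * Z y)⁻¹ * (R v' * Z y') ∈ M := by convert h using 1; group
    obtain ⟨d, hd⟩ := S.isR_inv_mul v.2 v'.2 hr hr'
    have h6 := hQ _ h5 _ _ (S.perp_e (V1.add_mem (V1.neg_mem v.2) v'.2)) hd
    have h7 := S.uniq v.2 v'.2 hr hr' (inv_mul_eq_one.1 h6)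
    have h8 : v = v' := Subtype.ext h7.1
    subst h8
    have h9 : η * (y : F) = η * y' := add_left_cancel h7.2
    have h10 : y = y' := Subtype.ext (mul_left_cancel₀ hη0 h9)
    rw [h10]
  have hpos : 0 < Nat.card V1 * Nat.card (EE σ) := Nat.mul_pos Nat.card_pos Nat.card_pos
  have h1 : Nat.card (EE σ ⧸ D) < 2 := by
    have := lt_of_le_of_lt hcount hX
    exact Nat.lt_of_mul_lt_mul_right this
  have h2 : Nat.card (EE σ ⧸ D) = 1 := by
    have : 0 < Nat.card (EE σ ⧸ D) := Nat.card_pos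
    omega
  have h3 : D = ⊤ := by
    have : D.index = 1 := h2
    exact AddSubgroup.index_eq_one.1 this
  obtain ⟨z, hz, hzx, h4⟩ := (hD 1).1 (by rw [h3]; trivial)
  refine ⟨z, hz, ?_, h4⟩
  convert hzx using 1
  show η = η * 1
  rw [mul_one]

theorem lemN {η : F} (hη0 : η ≠ 0) (hη : η + σ η = 0) {M : Subgroup (V ≃ₗ[F] V)} (hM : M ≤ isom f)
    (hQ : ∀ e, e ≠ 0 → f e e = 0 → QM f M e)
    (hX : M.relIndex (tgrp S.hs ⊤) < 2 * (Nat.card V1 * Nat.card (EE σ))) : False := by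
  have := S.finite_V
  have := S.finite_G
  have := S.fd
  have he0 : e ≠ 0 := by
    rintro h; have := S.ep; rw [h, S.hs.zero_left] at this; exact zero_ne_one this
  have hQe := hQ e he0 S.ee
  have hl : ∀ a ∈ V1, f a a = 0 → _ := fun a ha haa => S.exists_lift hη0 hη hQe hX ha haa
  obtain ⟨b, hb, -, hbb, y0, hy0, -, hby0⟩ := S.hs.exists_hyp S.nd1 S.d4 V1.zero_mem
  have hb0 : b ≠ 0 := by rintro rfl; rw [S.hs.zero_left] at hby0; exact hby0 rfl
  obtain ⟨z, hz, hzb, r, hr, u, hu, c, hru, hm⟩ := hl b hb hbb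
  have hfix : ∀ z ∈ tgrp S.hs V1, z e = e := fun z hz => S.L_e hz
  have hiso : ∀ z ∈ tgrp S.hs V1, z ∈ isom f := fun z hz => tgrp_le_isom S.hs V1 hz
  have hconj : ∀ z ∈ tgrp S.hs V1, ∀ r v c, IsR f r e v c → IsR f (z * r * z⁻¹) e (z v) c := by
    intro z hz r v c h
    have := IsR.conj S.hs (hiso z hz) h
    rwa [hfix z hz] at this
  -- u is perpendicular to the isotropic vectors of b^⊥ outside Fb
  have key : ∀ a ∈ V1, f a a = 0 → f a b = 0 → a ∉ Submodule.span F {b} → f u a = 0 := by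
    intro a ha haa hab hns
    obtain ⟨l, hlm, hla, ρ, hρ, v, hv, d, hρv, hm2⟩ := hl a ha haa
    have hba := S.hs.symm_zero hab
    have hcomm : l * z = z * l := by
      ext x
      rw [LinearEquiv.mul_apply, LinearEquiv.mul_apply, hzb, hla, hla, hzb]
      simp only [rho, S.hs.add_left, S.hs.sub_left, S.hs.smul_left, S.hs.zero_right, hab, hba, S.hs.zero_left]
      module
    have h1 := hconj _ (inv_mem hz) _ _ _ hρv
    have h2 := hconj _ (inv_mem hlm) _ _ _ hru
    have hv1 : z⁻¹ v ∈ V1 := tgrp_mem_of_mem S.hs (inv_mem hz) hv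
    have hu1 : l⁻¹ u ∈ V1 := tgrp_mem_of_mem S.hs (inv_mem hlm) hu
    have h3 := IsR.mul S.hs S.ee (S.perp_e hv1) (S.perp_e hu) h1 hru
    have h4 := IsR.mul S.hs S.ee (S.perp_e hu1) (S.perp_e hv) h2 hρv
    obtain ⟨d', hd'⟩ := S.isR_inv_mul (V1.add_mem hu1 hv) (V1.add_mem hv1 hu) h4 h3
    have h5 : (l⁻¹ * r * l⁻¹⁻¹ * ρ)⁻¹ * (z⁻¹ * ρ * z⁻¹⁻¹ * r) ∈ M := by
      have e1 : (l⁻¹ * r * l⁻¹⁻¹ * ρ)⁻¹ * (z⁻¹ * ρ * z⁻¹⁻¹ * r) = ((z * r) * (l * ρ))⁻¹ * ((l * ρ) * (z * r)) := by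
        have e2 : ((z * r) * (l * ρ))⁻¹ = (l⁻¹ * r * l⁻¹⁻¹ * ρ)⁻¹ * (z * l)⁻¹ := by group
        have e3 : (l * ρ) * (z * r) = (l * z) * (z⁻¹ * ρ * z⁻¹⁻¹ * r) := by group
        rw [e2, e3, hcomm]; group
      rw [e1]
      exact mul_mem (inv_mem (mul_mem hm hm2)) (mul_mem hm2 hm)
    have h6 := hQe _ h5 _ _ (S.perp_e (V1.add_mem (V1.neg_mem (V1.add_mem hu1 hv)) (V1.add_mem hv1 hu))) hd'
    have h7 := (S.uniq (V1.add_mem hu1 hv) (V1.add_mem hv1 hu) h4 h3 (inv_mul_eq_one.1 h6)).1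
    have h8 : z⁻¹ v = v - (η * f v b) • b := by
      apply inv_apply_of
      rw [hzb, rho, S.hs.zero_right, S.hs.sub_left, S.hs.smul_left, hbb]; module
    have h9 : l⁻¹ u = u - (η * f u a) • a := by
      apply inv_apply_of
      rw [hla, rho, S.hs.zero_right, S.hs.sub_left, S.hs.smul_left, haa]; module
    rw [h8, h9] at h7
    have h10 : (η * f v b) • b = (η * f u a) • a := by
      have h11 := sub_eq_zero.2 h7
      have h12 : (η * f v b) • b - (η * f u a) • a = 0 := by rw [← h11]; abel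
      exact sub_eq_zero.1 h12
    by_contra hua
    apply hns
    rw [Submodule.mem_span_singleton]
    refine ⟨(η * f u a)⁻¹ * (η * f v b), ?_⟩
    rw [mul_smul, h10, smul_smul, inv_mul_cancel₀ (mul_ne_zero hη0 hua), one_smul]
  -- hence u ∈ F b
  have hub : u ∈ Submodule.span F {b} := by
    obtain ⟨z1, hz1, hz1b, hz1z, y1, hy1, hy1b, hzy1⟩ := S.hs.exists_hyp S.nd1 S.d4 hb
    have hz1s : z1 ∉ Submodule.span F {b} := by
      intro h
      obtain ⟨m, rfl⟩ := Submodule.mem_span_singleton.1 h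
      rw [S.hs.smul_left, S.hs.symm_zero hy1b, mul_zero] at hzy1
      exact hzy1 rfl
    have key2 : ∀ a ∈ V1, f a a = 0 → f a b = 0 → f u a = 0 := by
      intro a ha haa hab
      by_cases hns : a ∈ Submodule.span F {b}
      · have h1 := key z1 hz1 hz1z hz1b hz1s
        have haz : f a z1 = 0 := by
          obtain ⟨m, rfl⟩ := Submodule.mem_span_singleton.1 hns
          rw [S.hs.smul_left, S.hs.symm_zero hz1b, mul_zero]
        have h2 := key (a + z1) (V1.add_mem ha hz1) (by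
          rw [S.hs.add_left, S.hs.add_right, S.hs.add_right, haa, haz, S.hs.symm_zero haz, hz1z]; ring) (by
          rw [S.hs.add_left, hab, hz1b, add_zero]) (fun h => hz1s (by
            have := Submodule.sub_mem _ h hns
            rwa [add_sub_cancel_left] at this))
        rw [S.hs.add_right, h1, add_zero] at h2
        exact h2
      · exact key a ha haa hab hns
    refine S.hs.mem_span_of_perp S.nd1 hb hu fun x hx hxb => ?_
    have h1 : x ∈ Submodule.span F {z | z ∈ V1 ⊓ LinearMap.ker (S.hs.fl b) ∧ f z z = 0} :=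
      S.hs.mem_span_iso (z := z1) (y := y1) (by simp [*]) hz1z (by simp [*]) hzy1 (by simp [*])
    have h2 : Submodule.span F {z | z ∈ V1 ⊓ LinearMap.ker (S.hs.fl b) ∧ f z z = 0} ≤
        LinearMap.ker (S.hs.fl u) := by
      rw [Submodule.span_le]
      rintro a ⟨ha, haa⟩
      have ha' : a ∈ V1 ∧ f a b = 0 := by simpa using ha
      exact S.hs.symm_zero (key2 a ha'.1 haa ha'.2)
    exact h2 h1
  obtain ⟨α, rfl⟩ := Submodule.mem_span_singleton.1 hub
  -- the element y = z r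
  have heb := S.perp_e2 hb
  have hbe := S.perp_e hb
  have hcc : c + σ c = 0 := by
    have := S.isR_cond (tgrp_le_isom S.hs ⊤ hr) hu hru
    rwa [S.hs.smul_left, S.hs.smul_right, hbb, mul_zero, mul_zero, add_zero] at this
  have hσc : σ c = -c := eq_neg_of_add_eq_zero_right hcc
  have hy : ∀ x, (z * r) x = x + (f x e * α) • b - (σ α * f x b) • e + (c * f x e) • e + (η * f x b) • b := by
    intro x
    rw [LinearEquiv.mul_apply, hzb, hru, rho, rho]
    simp only [S.hs.add_left, S.hs.sub_left, S.hs.smul_left, S.hs.smul_right, S.hs.zero_right, hbb, heb]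
    module
  have hy1 : z * r = 1 := by
    rcases field_lem S.hs (α := α) hη hcc with ⟨h1, h2⟩ | ⟨t, ht⟩
    · refine hQ b hb0 hbb _ hm 0 η (S.hs.zero_left b) fun x => ?_
      rw [hy, h1, h2, rho, S.hs.zero_right, map_zero]
      module
    · have h1 : f (e + t • b) (e + t • b) = 0 := by
        simp only [S.hs.add_left, S.hs.add_right, S.hs.smul_left, S.hs.smul_right, S.ee, heb, hbe, hbb]; ring
      have h2 : e + t • b ≠ 0 := by
        intro h
        have h3 : f (e + t • b) e' = 0 := by rw [h, S.hs.zero_left]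
        rw [S.hs.add_left, S.hs.smul_left, S.ep, S.perp_e' hb] at h3
        rw [mul_zero, add_zero] at h3
        exact one_ne_zero h3
      refine hQ (e + t • b) h2 h1 _ hm ((α - c * t) • b) c ?_ fun x => ?_
      · simp only [S.hs.add_right, S.hs.smul_left, S.hs.smul_right, hbe, hbb]; ring
      · rw [hy, rho, S.hs.add_right, S.hs.smul_right, S.hs.smul_right, map_sub, map_mul, hσc]
        conv_lhs => rw [ht]
        module
  obtain ⟨p, hp, hbp⟩ := S.nd1 b hb hb0
  have hpb := S.hs.symm_ne hbp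
  have h1 := hy p
  rw [hy1, S.perp_e hp] at h1
  have h2 : (η * f p b) • b = (σ α * f p b) • e := by
    have h3 : p = p + (0 * α) • b - (σ α * f p b) • e + (c * 0) • e + (η * f p b) • b := h1
    have h4 : (η * f p b) • b - (σ α * f p b) • e = 0 := by
      have h5 := sub_eq_zero.2 h3.symm
      rw [← h5]; module
    exact sub_eq_zero.1 h4
  have h3 := congrArg (fun x => f x e') h2
  simp only [S.hs.smul_left, S.perp_e' hb, S.ep] at h3
  rw [mul_zero, mul_one] at h3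
  rw [← h3, zero_smul] at h2
  rcases smul_eq_zero.1 h2 with h | h
  · exact mul_ne_zero hη0 hpb h
  · exact hb0 h

end Ctx

end Cfsg.Agent.Lib.MinU
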