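import Mathlib
import Cfsg.Agent.Lib.MinUK

/-!
# Minimal index of unitary groups: annihilators and the second count (helper98)
-/

set_option autoImplicit false
set_option linter.unusedSectionVars false

namespace Cfsg.Agent.Lib.MinU

open Cfsg.Agent.Lib Cfsg.Agent.Lib.UnTrans Cfsg.Agent.Lib.SubfUn
open Cfsg.Agent.Lib.SpTrans (isom mem_isom)

variable {F V : Type*} [Field F] [Finite F] [AddCommGroup V] [Module F V]
variable {σ : F →+* F} {f : V → V → F}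

/-- the annihilator of an additive subgroup of `U` in `U` -/
def ann (H : HS σ f) {p : ℕ} (ψ : F →+ ZMod p) (U : Submodule F V) (W : AddSubgroup V) : AddSubgroup V where
  carrier := {v | v ∈ U ∧ ∀ w ∈ W, ψ (f w v) = 0}
  zero_mem' := ⟨U.zero_mem, fun w _ => by rw [H.zero_right, map_zero]⟩
  add_mem' := by
    rintro u v ⟨hu, h1⟩ ⟨hv, h2⟩
    exact ⟨U.add_mem hu hv, fun w hw => by rw [H.add_right, map_add, h1 w hw, h2 w hw, add_zero]⟩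
  neg_mem' := by
    rintro u ⟨hu, h1⟩
    exact ⟨U.neg_mem hu, fun w hw => by rw [H.neg_right, map_neg, h1 w hw, neg_zero]⟩

theorem mem_ann {H : HS σ f} {p : ℕ} {ψ : F →+ ZMod p} {U : Submodule F V} {W : AddSubgroup V} {v : V} :
    v ∈ ann H ψ U W ↔ v ∈ U ∧ ∀ w ∈ W, ψ (f w v) = 0 := Iff.rfl

theorem card_ann (H : HS σ f) {p : ℕ} [hp : Fact p.Prime] [CharP F p] [Finite V] (ψ : F →+ ZMod p) (hψ : ∃ x, ψ x ≠ 0)
    (U : Submodule F V) (hU : Nd f U) (W : AddSubgroup V) (hW : W ≤ U.toAddSubgroup) :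
    Nat.card W * Nat.card (ann H ψ U W) = Nat.card U := by
  letI : Module (ZMod p) U := AddCommGroup.zmodModule (n := p) (fun x => by
    have : (p : F) • x = 0 := by rw [CharP.cast_eq_zero, zero_smul]
    rwa [Nat.cast_smul_eq_nsmul] at this)
  let B : U →+ U →+ ZMod p :=
    AddMonoidHom.mk' (fun u => AddMonoidHom.mk' (fun v => ψ (f (u : V) (v : V))) (fun v v' => by
      rw [Submodule.coe_add, H.add_right, map_add])) (fun u u' => by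
        ext v
        show ψ _ = ψ _ + ψ _
        rw [Submodule.coe_add, H.add_left, map_add])
  have h1 := card_perp p B ?_ (W.addSubgroupOf U.toAddSubgroup)
  · have h2 : Nat.card (W.addSubgroupOf U.toAddSubgroup) = Nat.card W :=
      Nat.card_congr (AddSubgroup.addSubgroupOfEquivOfLe hW).toEquiv
    have h3 : Nat.card {a : U // ∀ w ∈ W.addSubgroupOf U.toAddSubgroup, B w a = 0} = Nat.card (ann H ψ U W) := by
      refine Nat.card_congr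
        { toFun := fun a => ⟨a.1, a.1.2, fun w hw => a.2 ⟨w, hW hw⟩ hw⟩
          invFun := fun a => ⟨⟨a.1, a.2.1⟩, fun w hw => a.2.2 w hw⟩
          left_inv := fun _ => rfl
          right_inv := fun _ => rfl }
    rw [← h2, ← h3]
    exact h1
  · intro a ha
    by_contra ha0
    obtain ⟨b, hb, hab⟩ := hU a a.2 (fun h => ha0 (Subtype.ext h))
    obtain ⟨x, hx⟩ := hψ
    apply hx
    have h4 := ha ⟨σ (x / f a b) • b, U.smul_mem _ hb⟩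
    have h5 : f (a : V) (σ (x / f a b) • b) = x := by
      rw [H.smul_right, H.inv, div_mul_cancel₀ _ hab]
    show ψ x = 0
    rw [← h5]; exact h4

namespace Ctx
variable {e e' : V} {V1 : Submodule F V} (S : Ctx σ f e e' V1)
include S

/-- adjoint pairs -/
def Adj (S : Ctx σ f e e' V1) (γ γ' : V ≃ₗ[F] V) : Prop :=
  ∃ κ ∈ tgrp S.hs ⊤, ∃ l : F, l ≠ 0 ∧ κ e = l • e ∧ κ e' = (σ l)⁻¹ • e' ∧ (∀ u, γ u = σ l • κ u) ∧
    ∀ u, γ' u = l⁻¹ • κ u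

theorem Adj.memGG {γ γ' : V ≃ₗ[F] V} (h : S.Adj γ γ') : γ ∈ S.GG := by
  obtain ⟨κ, hκ, l, hl, h1, h2, h3, -⟩ := h
  exact ⟨κ, hκ, l, hl, h1, h2, h3⟩

theorem exists_adj {γ : V ≃ₗ[F] V} (h : γ ∈ S.GG) : ∃ γ', S.Adj γ γ' := by
  obtain ⟨κ, hκ, l, hl, h1, h2, h3⟩ := h
  exact ⟨LinearEquiv.smulOfNeZero F V l⁻¹ (inv_ne_zero hl) * κ, κ, hκ, l, hl, h1, h2, h3, fun u => rfl⟩

theorem adj_pair {γ γ' : V ≃ₗ[F] V} (h : S.Adj γ γ') (w v : V) : f (γ w) (γ' v) = f w v := by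
  obtain ⟨κ, hκ, l, hl, h1, h2, h3, h4⟩ := h
  have hσl := S.hs.sigma_ne hl
  rw [h3, h4, S.hs.smul_left, S.hs.smul_right, tgrp_le_isom S.hs ⊤ hκ w v, map_inv₀, mul_inv_cancel_left₀ hσl]

theorem adj_mem {γ γ' : V ≃ₗ[F] V} (h : S.Adj γ γ') {v : V} : γ' v ∈ V1 ↔ v ∈ V1 := by
  obtain ⟨κ, hκ, l, hl, h1, h2, h3, h4⟩ := h
  rw [h4, Submodule.smul_mem_iff _ (inv_ne_zero hl)]
  exact S.map_V1 (tgrp_le_isom S.hs ⊤ hκ) hl h1 h2

theorem adj_norm {γ γ' : V ≃ₗ[F] V} (h : S.Adj γ γ') (v : V) : f (γ' v) (γ' v) = 0 ↔ f v v = 0 := by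
  obtain ⟨κ, hκ, l, hl, h1, h2, h3, h4⟩ := h
  have hσl := S.hs.sigma_ne hl
  rw [h4, S.hs.smul_left, S.hs.smul_right, tgrp_le_isom S.hs ⊤ hκ v v]
  simp [hl, hσl]

theorem exists_adj_move {v v' : V} (hv : v ∈ V1) (hv' : v' ∈ V1) (hv0 : v ≠ 0) (hv0' : v' ≠ 0)
    (h : f v v = 0 ↔ f v' v' = 0) : ∃ γ γ', S.Adj γ γ' ∧ γ' v = v' := by
  have := S.fd
  obtain ⟨l, hl0, hl⟩ : ∃ l, l ≠ 0 ∧ f v' v' * (l * σ l) = f v v := by
    by_cases h0 : f v v = 0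
    · exact ⟨1, one_ne_zero, by rw [h0, h.1 h0, zero_mul]⟩
    · have h0' : f v' v' ≠ 0 := fun h' => h0 (h.2 h')
      obtain ⟨l, hl⟩ := S.hs.norm (f v v / f v' v') (by rw [map_div₀, S.hs.self_fixed, S.hs.self_fixed])
      refine ⟨l, ?_, by rw [hl, mul_div_cancel₀ _ h0']⟩
      rintro rfl
      rw [zero_mul] at hl
      exact div_ne_zero h0 h0' hl.symm
  have hσl := S.hs.sigma_ne hl0
  obtain ⟨t, ht, hte, hte'⟩ := S.exists_T hl0
  have htv : t v ∈ V1 := (S.map_V1 (tgrp_le_isom S.hs ⊤ ht) hl0 hte hte').2 hv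
  obtain ⟨k, hk, hkv⟩ := exists_move S.hs S.nd1 S.d4 (x := l⁻¹ • t v) (y := v') (V1.smul_mem _ htv) hv'
    (smul_ne_zero (inv_ne_zero hl0) (by simpa using hv0)) hv0' (by
      rw [S.hs.smul_left, S.hs.smul_right, tgrp_le_isom S.hs ⊤ ht v v, ← hl, map_inv₀]
      field_simp)
  refine ⟨LinearEquiv.smulOfNeZero F V (σ l) hσl * (k * t), LinearEquiv.smulOfNeZero F V l⁻¹ (inv_ne_zero hl0) * (k * t),
    ⟨k * t, mul_mem (S.L_le hk) ht, l, hl0, ?_, ?_, fun u => rfl, fun u => rfl⟩, ?_⟩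
  · rw [LinearEquiv.mul_apply, hte, map_smul, S.L_e hk]
  · rw [LinearEquiv.mul_apply, hte', map_smul, S.L_e' hk]
  · show l⁻¹ • k (t v) = v'
    rw [← map_smul]; exact hkv

/-- number of members of the orbit annihilated by `v` -/
noncomputable def ka (S : Ctx σ f e e' V1) {p : ℕ} (ψ : F →+ ZMod p) (W : AddSubgroup V) (v : V) : ℕ :=
  Nat.card {Y : orb S.GG W // ∀ w ∈ (Y : AddSubgroup V), ψ (f w v) = 0}

theorem dcount2 {p : ℕ} (ψ : F →+ ZMod p) (W : AddSubgroup V) (O : Set V)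
    (hinv : ∀ γ γ', S.Adj γ γ' → ∀ v, γ' v ∈ O ↔ v ∈ O)
    (htr : ∀ v ∈ O, ∀ v' ∈ O, ∃ γ γ', S.Adj γ γ' ∧ γ' v = v') {v0 : V} (hv0 : v0 ∈ O) :
    S.ka ψ W v0 * Nat.card O = Nat.card (orb S.GG W) * Nat.card {v : O // ∀ w ∈ W, ψ (f w (v : V)) = 0} := by
  have := S.finite_V
  have := finite_addSubgroup (V := V)
  refine double_count (A := orb S.GG W) (B := O) (fun Y v => ∀ w ∈ (Y : AddSubgroup V), ψ (f w (v : V)) = 0) _ _ ?_ ?_
  · rintro ⟨b, hb⟩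
    obtain ⟨γ, γ', hγ, hgb⟩ := htr b hb v0 hv0
    have hg := Adj.memGG S hγ
    have hR : ∀ Y : AddSubgroup V, (∀ w ∈ mp γ Y, ψ (f w v0) = 0) ↔ (∀ w ∈ Y, ψ (f w b) = 0) := by
      intro Y
      constructor
      · intro h w hw
        have := h _ (mp_mem (g := γ) hw)
        rwa [← hgb, S.adj_pair hγ] at this
      · rintro h _ ⟨w, hw, rfl⟩
        show ψ (f (γ w) v0) = 0
        rw [← hgb, S.adj_pair hγ]
        exact h w hw
    refine Nat.card_congr (Equiv.ofBijective (fun Y' => ⟨⟨mp γ Y'.1, ?_⟩, ?_⟩) ⟨?_, ?_⟩)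
    · obtain ⟨h, hh, hY⟩ := Y'.1.2
      exact ⟨γ * h, mul_mem hg hh, by rw [← mp_mp, hY]⟩
    · exact (hR _).2 Y'.2
    · rintro ⟨⟨Y1, h1⟩, h1'⟩ ⟨⟨Y2, h2⟩, h2'⟩ h
      have h3 : mp γ Y1 = mp γ Y2 := congrArg (fun z : {Y : orb S.GG W // ∀ w ∈ (Y : AddSubgroup V), ψ (f w v0) = 0} =>
        (z.1 : AddSubgroup V)) h
      have h4 : mp γ⁻¹ (mp γ Y1) = mp γ⁻¹ (mp γ Y2) := by rw [h3]
      rw [mp_mp, mp_mp, inv_mul_cancel, mp_one, mp_one] at h4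
      subst h4; rfl
    · rintro ⟨⟨Y1, h, hh, hY⟩, h1'⟩
      have e1 : mp γ (mp γ⁻¹ Y1) = Y1 := by rw [mp_mp, mul_inv_cancel, mp_one]
      refine ⟨⟨⟨mp γ⁻¹ Y1, γ⁻¹ * h, mul_mem (inv_mem hg) hh, by rw [← mp_mp, hY]⟩, ?_⟩, ?_⟩
      · rw [← hR, e1]
        exact h1'
      · exact Subtype.ext (Subtype.ext e1)
  · rintro ⟨Y1, γ, hg, rfl⟩
    obtain ⟨γ', hγ⟩ := S.exists_adj hg
    have hR : ∀ v : V, (∀ w ∈ mp γ W, ψ (f w (γ' v)) = 0) ↔ (∀ w ∈ W, ψ (f w v) = 0) := by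
      intro v
      constructor
      · intro h w hw
        have := h _ (mp_mem (g := γ) hw)
        rwa [S.adj_pair hγ] at this
      · rintro h _ ⟨w, hw, rfl⟩
        show ψ (f (γ w) (γ' v)) = 0
        rw [S.adj_pair hγ]
        exact h w hw
    refine (Nat.card_congr (Equiv.ofBijective (fun x => ⟨⟨γ' x.1.1, (hinv γ γ' hγ _).2 x.1.2⟩, (hR _).2 x.2⟩) ⟨?_, ?_⟩)).symm
    · rintro ⟨⟨x, h1⟩, h1'⟩ ⟨⟨y, h2⟩, h2'⟩ h
      have h3 : γ' x = γ' y := congrArg (fun z : {v : O // ∀ w ∈ mp γ W, ψ (f w (v : V)) = 0} => (z.1 : V)) h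
      have h4 := γ'.injective h3
      subst h4; rfl
    · rintro ⟨⟨x, h1⟩, h1'⟩
      have e1 : γ' (γ'⁻¹ x) = x := apply_inv γ' x
      refine ⟨⟨⟨γ'⁻¹ x, ?_⟩, ?_⟩, ?_⟩
      · rw [← hinv γ γ' hγ, e1]; exact h1
      · rw [← hR, e1]; exact h1'
      · exact Subtype.ext (Subtype.ext e1)

theorem ka_pos {p : ℕ} (ψ : F →+ ZMod p) {W : AddSubgroup V} {v : V} (h : v ∈ ann S.hs ψ V1 W) : 1 ≤ S.ka ψ W v := by
  have := S.finite_V
  have := finite_addSubgroup (V := V)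
  have : Nonempty {Y : orb S.GG W // ∀ w ∈ (Y : AddSubgroup V), ψ (f w v) = 0} :=
    ⟨⟨⟨W, self_mem_orb _ _⟩, h.2⟩⟩
  exact Nat.card_pos

end Ctx

end Cfsg.Agent.Lib.MinU
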