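import Mathlib
import Cfsg.Agent.Lib.MinUL

/-!
# Minimal index of unitary groups: the second count (helper98)
-/

set_option autoImplicit false
set_option linter.unusedSectionVars false

namespace Cfsg.Agent.Lib.MinU

open Cfsg.Agent.Lib Cfsg.Agent.Lib.UnTrans Cfsg.Agent.Lib.SubfUn
open Cfsg.Agent.Lib.SpTrans (isom mem_isom)

variable {F V : Type*} [Field F] [Finite F] [AddCommGroup V] [Module F V]
variable {σ : F →+* F} {f : V → V → F}

/-- nonisotropic vectors -/
def ON (f : V → V → F) (U : Submodule F V) : Set V := {v | v ∈ U ∧ f v v ≠ 0}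

/-- for `q = 2` at most three quarters of the vectors of an additive subgroup are nonisotropic -/
theorem quarter (H : HS σ f) [Finite V] (h2 : Nat.card (EE σ) = 2) (A : AddSubgroup V) :
    Nat.card A ≤ 4 * Nat.card {v : A // f (v : V) v = 0} := by
  classical
  have hval : ∀ x : F, σ x = x → x = 0 ∨ x = 1 := by
    intro x hx
    by_contra hcon
    push Not at hcon
    have h3 : 3 ≤ Nat.card (EE σ) := by
      have : Fintype (EE σ) := Fintype.ofFinite _
      rw [Nat.card_eq_fintype_card]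
      have h4 : ({0, 1, ⟨x, hx⟩} : Finset (EE σ)).card = 3 := by
        rw [Finset.card_eq_three]
        refine ⟨0, 1, ⟨x, hx⟩, zero_ne_one, fun h => hcon.1 (congrArg Subtype.val h).symm,
          fun h => hcon.2 (congrArg Subtype.val h).symm, rfl⟩
      rw [← h4]
      exact Finset.card_le_univ _
    omega
  have hchar : (2 : F) = 0 := by
    have h3 : (((2 : ℕ) : EE σ)) = 0 := by
      have := card_nsmul_eq_zero' (x := (1 : EE σ))
      rw [h2, nsmul_eq_mul, mul_one] at this
      exact this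
    have := congrArg (fun z : EE σ => (z : F)) h3
    push_cast at this
    exact this
  have hn : ∀ x, f x x = 0 ∨ f x x = 1 := fun x => hval _ (H.self_fixed x)
  have hb : ∀ x y, f x y + f y x = 0 ∨ f x y + f y x = 1 := fun x y => hval _ (by
    rw [map_add, ← H.herm y x, ← H.herm x y, add_comm])
  have key : ∃ τ : Fin 4 → V, (∀ i, τ i ∈ A) ∧ ∀ x ∈ A, ∃ i, f (x + τ i) (x + τ i) = 0 := by
    by_cases h3 : ∃ u ∈ A, ∃ v ∈ A, f u v + f v u ≠ 0
    · obtain ⟨u, hu, v, hv, huv⟩ := h3
      have huv1 : f u v + f v u = 1 := (hb u v).resolve_left huv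
      refine ⟨![0, u, v, u + v], ?_, ?_⟩
      · intro i
        fin_cases i
        · exact A.zero_mem
        · exact hu
        · exact hv
        · exact A.add_mem hu hv
      · intro x hx
        by_contra hcon
        push Not at hcon
        have c0 : f x x = 1 := by
          have := hcon 0
          simp only [Matrix.cons_val_zero, add_zero] at this
          exact (hn x).resolve_left this
        have c1 : f (x + u) (x + u) = 1 := (hn _).resolve_left (hcon 1)
        have c2 : f (x + v) (x + v) = 1 := (hn _).resolve_left (hcon 2)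
        have c3 : f (x + (u + v)) (x + (u + v)) = 1 := (hn _).resolve_left (hcon 3)
        simp only [H.add_left, H.add_right] at c1 c2 c3
        have h4 : (1 : F) = 0 := by
          linear_combination c3 - c1 - c2 + c0 - huv1
        exact one_ne_zero h4
    · push Not at h3
      by_cases h5 : ∃ s ∈ A, f s s ≠ 0
      · obtain ⟨s, hs, hss⟩ := h5
        have hs1 := (hn s).resolve_left hss
        refine ⟨![0, s, s, s], ?_, ?_⟩
        · intro i
          fin_cases i
          · exact A.zero_mem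
          · exact hs
          · exact hs
          · exact hs
        · intro x hx
          rcases hn x with h6 | h6
          · exact ⟨0, by simpa using h6⟩
          · refine ⟨1, ?_⟩
            show f (x + s) (x + s) = 0
            simp only [H.add_left, H.add_right]
            linear_combination h6 + hs1 + h3 x hx s hs + hchar
      · push Not at h5
        exact ⟨fun _ => 0, fun _ => A.zero_mem, fun x hx => ⟨0, by simpa using h5 x hx⟩⟩
  obtain ⟨τ, hτ, hτ2⟩ := key
  have : Nat.card (Fin 4) = 4 := by simp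
  rw [← this, ← Nat.card_prod]
  choose! i hi using hτ2
  refine Nat.card_le_card_of_injective (fun x : A => (i x, (⟨⟨(x : V) + τ (i x), A.add_mem x.2 (hτ _)⟩, hi x x.2⟩ :
    {v : A // f (v : V) v = 0}))) ?_
  intro x y hxy
  have h6 : i x = i y := congrArg Prod.fst hxy
  have h7 : (x : V) + τ (i x) = y + τ (i y) := congrArg (fun z : Fin 4 × {v : A // f (v : V) v = 0} => ((z.2 : A) : V)) hxy
  rw [h6] at h7
  exact Subtype.ext (add_right_cancel h7)

theorem quarter' (H : HS σ f) [Finite V] (h2 : Nat.card (EE σ) = 2) (A : AddSubgroup V) :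
    4 * Nat.card {v : A // f (v : V) v ≠ 0} ≤ 3 * Nat.card A := by
  classical
  have h1 := quarter H h2 A
  have h3 : Nat.card A = Nat.card {v : A // f (v : V) v = 0} + Nat.card {v : A // f (v : V) v ≠ 0} := by
    rw [← Nat.card_sum]
    exact (Nat.card_congr (Equiv.sumCompl (fun v : A => f (v : V) v = 0))).symm
  omega

namespace Ctx
variable {e e' : V} {V1 : Submodule F V} (S : Ctx σ f e e' V1)
include S

theorem alpha {p : ℕ} (ψ : F →+ ZMod p) {W : AddSubgroup V} {v0 : V} (hv0 : v0 ∈ ann S.hs ψ V1 W) (hne : f v0 v0 ≠ 0) :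
    Nat.card (ON f V1) + Nat.card (orb S.GG W) ≤ Nat.card (orb S.GG W) * Nat.card (ann S.hs ψ V1 W) ∧
    (Nat.card (EE σ) = 2 → 4 * Nat.card (ON f V1) ≤ 3 * (Nat.card (orb S.GG W) * Nat.card (ann S.hs ψ V1 W))) := by
  classical
  have := S.finite_V
  have := finite_addSubgroup (V := V)
  have h0 : ∀ v ∈ ON f V1, v ≠ 0 := by
    rintro v hv rfl
    exact hv.2 (S.hs.zero_left _)
  have hdc := S.dcount2 ψ W (ON f V1) (fun γ γ' hγ v => by
      show _ ∧ _ ↔ _ ∧ _
      rw [S.adj_mem hγ, ne_eq, ne_eq, S.adj_norm hγ v])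
    (fun v hv v' hv' => S.exists_adj_move hv.1 hv'.1 (h0 v hv) (h0 v' hv')
      (by simp only [hv.2, hv'.2])) (v0 := v0) ⟨hv0.1, hne⟩
  have hk := S.ka_pos ψ hv0
  set n := Nat.card {v : ON f V1 // ∀ w ∈ W, ψ (f w (v : V)) = 0}
  have hn : n = Nat.card {v : ann S.hs ψ V1 W // f (v : V) v ≠ 0} :=
    Nat.card_congr
      { toFun := fun v => ⟨⟨v.1, v.1.2.1, v.2⟩, v.1.2.2⟩
        invFun := fun v => ⟨⟨v.1, v.1.2.1, v.2⟩, v.1.2.2⟩
        left_inv := fun _ => rfl
        right_inv := fun _ => rfl }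
  have h1 : Nat.card (ON f V1) ≤ Nat.card (orb S.GG W) * n := by
    rw [← hdc]
    calc Nat.card (ON f V1) = 1 * Nat.card (ON f V1) := (one_mul _).symm
      _ ≤ _ := Nat.mul_le_mul_right _ hk
  constructor
  · have h2 : n + 1 ≤ Nat.card (ann S.hs ψ V1 W) := by
      rw [hn]
      have h3 : Nat.card (ann S.hs ψ V1 W) = Nat.card {v : ann S.hs ψ V1 W // f (v : V) v = 0} +
          Nat.card {v : ann S.hs ψ V1 W // f (v : V) v ≠ 0} := by
        rw [← Nat.card_sum]
        exact (Nat.card_congr (Equiv.sumCompl (fun v : ann S.hs ψ V1 W => f (v : V) v = 0))).symm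
      have : Nonempty {v : ann S.hs ψ V1 W // f (v : V) v = 0} := ⟨⟨0, S.hs.zero_left _⟩⟩
      have h4 : 0 < Nat.card {v : ann S.hs ψ V1 W // f (v : V) v = 0} := Nat.card_pos
      omega
    calc Nat.card (ON f V1) + Nat.card (orb S.GG W) ≤ Nat.card (orb S.GG W) * n + Nat.card (orb S.GG W) := by omega
      _ = Nat.card (orb S.GG W) * (n + 1) := by ring
      _ ≤ _ := Nat.mul_le_mul_left _ h2
  · intro hq
    have h3 := quarter' S.hs hq (ann S.hs ψ V1 W)
    rw [← hn] at h3
    calc 4 * Nat.card (ON f V1) ≤ 4 * (Nat.card (orb S.GG W) * n) := Nat.mul_le_mul_left _ h1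
      _ = Nat.card (orb S.GG W) * (4 * n) := by ring
      _ ≤ Nat.card (orb S.GG W) * (3 * Nat.card (ann S.hs ψ V1 W)) := Nat.mul_le_mul_left _ h3
      _ = _ := by ring

theorem beta {p : ℕ} (ψ : F →+ ZMod p) {W : AddSubgroup V} {v0 : V} (hv0 : v0 ∈ ann S.hs ψ V1 W) (hv00 : v0 ≠ 0)
    (hall : ∀ v ∈ ann S.hs ψ V1 W, f v v = 0) :
    2 * Nat.card (Ocl f V1 0) + Nat.card (orb S.GG W) ≤ Nat.card (orb S.GG W) * Nat.card (ann S.hs ψ V1 W) ∨
    Nat.card F * Nat.card (Ocl f V1 0) ≤
      (Nat.card F - 1) * (Nat.card (orb S.GG W) * Nat.card (ann S.hs ψ V1 W)) := by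
  classical
  have := S.finite_V
  have := S.fd
  have := finite_addSubgroup (V := V)
  have hdc : ∀ v ∈ ann S.hs ψ V1 W, v ≠ 0 → _ := fun v hv hv0 =>
    S.dcount2 ψ W (Ocl f V1 0) (fun γ γ' hγ v => by
      show _ ∧ _ ∧ _ ↔ _ ∧ _ ∧ _
      rw [S.adj_mem hγ, S.adj_norm hγ v, ne_eq, LinearEquiv.map_eq_zero_iff])
    (fun v hv v' hv' => S.exists_adj_move hv.1 hv'.1 hv.2.1 hv'.2.1
      (by simp only [hv.2.2, hv'.2.2])) (v0 := v) ⟨hv.1, hv0, hall v hv⟩
  set n := Nat.card {v : Ocl f V1 0 // ∀ w ∈ W, ψ (f w (v : V)) = 0} with hn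
  have hn1 : n = Nat.card {v : ann S.hs ψ V1 W // v ≠ 0} :=
    Nat.card_congr
      { toFun := fun v => ⟨⟨v.1, v.1.2.1, v.2⟩, fun h => v.1.2.2.1 (congrArg Subtype.val h)⟩
        invFun := fun v => ⟨⟨v.1, v.1.2.1, fun h => v.2 (Subtype.ext h), hall _ v.1.2⟩, v.1.2.2⟩
        left_inv := fun _ => rfl
        right_inv := fun _ => rfl }
  have hn2 : n + 1 = Nat.card (ann S.hs ψ V1 W) := by
    rw [hn1]
    have h3 : Nat.card (ann S.hs ψ V1 W) = Nat.card {v : ann S.hs ψ V1 W // v = 0} +
        Nat.card {v : ann S.hs ψ V1 W // v ≠ 0} := by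
      rw [← Nat.card_sum]
      exact (Nat.card_congr (Equiv.sumCompl (fun v : ann S.hs ψ V1 W => v = 0))).symm
    have h4 : Nat.card {v : ann S.hs ψ V1 W // v = 0} = 1 := by simp
    omega
  have hpos : 0 < Nat.card (Ocl f V1 0) := by
    have : Nonempty (Ocl f V1 0) := ⟨⟨v0, hv0.1, hv00, hall v0 hv0⟩⟩
    exact Nat.card_pos
  have hk := S.ka_pos ψ hv0
  have hd0 := hdc v0 hv0 hv00
  by_cases hk2 : 2 ≤ S.ka ψ W v0
  · left
    calc 2 * Nat.card (Ocl f V1 0) + Nat.card (orb S.GG W) ≤
        S.ka ψ W v0 * Nat.card (Ocl f V1 0) + Nat.card (orb S.GG W) := by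
          have := Nat.mul_le_mul_right (Nat.card (Ocl f V1 0)) hk2
          omega
      _ = Nat.card (orb S.GG W) * (n + 1) := by rw [hd0]; ring
      _ = _ := by rw [hn2]
  · right
    have hk1 : S.ka ψ W v0 = 1 := by omega
    have hall1 : ∀ v ∈ ann S.hs ψ V1 W, v ≠ 0 → S.ka ψ W v = 1 := by
      intro v hv hv0'
      have h1 := hdc v hv hv0'
      rw [← hd0, hk1] at h1
      exact Nat.eq_of_mul_eq_mul_right hpos h1
    -- stabilisers
    have hst : ∀ v ∈ ann S.hs ψ V1 W, v ≠ 0 → ∀ g ∈ tgrp S.hs V1, g v = v → ∀ b ∈ ann S.hs ψ V1 W,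
        g b ∈ ann S.hs ψ V1 W := by
      intro v hv hv0' g hg hgv b hb
      have hiso := tgrp_le_isom S.hs V1 hg
      have h1 : mp g W = W := by
        have h2 := hall1 v hv hv0'
        have h3 : Subsingleton {Y : orb S.GG W // ∀ w ∈ (Y : AddSubgroup V), ψ (f w v) = 0} := by
          rw [← Finite.card_le_one_iff_subsingleton]
          exact h2.le
        have h4 := h3.elim ⟨⟨mp g W, g, S.L_le_GG hg, rfl⟩, by
          rintro _ ⟨w, hw, rfl⟩
          show ψ (f (g w) v) = 0
          have := hiso w v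
          rw [hgv] at this
          rw [this]; exact hv.2 w hw⟩ ⟨⟨W, self_mem_orb _ _⟩, hv.2⟩
        exact congrArg (fun z : {Y : orb S.GG W // ∀ w ∈ (Y : AddSubgroup V), ψ (f w v) = 0} =>
          (z.1 : AddSubgroup V)) h4
      refine ⟨tgrp_mem_of_mem S.hs hg hb.1, ?_⟩
      intro w hw
      rw [← h1] at hw
      obtain ⟨w', hw', rfl⟩ := hw
      show ψ (f (g w') (g b)) = 0
      rw [hiso w' b]
      exact hb.2 w' hw'
    have hti : ∀ v ∈ ann S.hs ψ V1 W, ∀ b ∈ ann S.hs ψ V1 W, f b v = 0 := by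
      intro v hv b hb
      by_cases hv0' : v = 0
      · rw [hv0', S.hs.zero_right]
      by_contra hbv
      have hvV : v ∈ V1 := hv.1
      have hvv := hall v hv
      have h4 := HS.finrank_inf_ker V1 (S.hs.fl v)
      have h6 := S.d4
      obtain ⟨u, hu, huu⟩ := S.hs.exists_aniso (U := V1 ⊓ LinearMap.ker (S.hs.fl v)) (w := v) (by omega) (by
        intro u hu h
        refine S.hs.mem_span_of_perp S.nd1 hvV hu.1 fun x hx hxa => h x ⟨hx, ?_⟩
        simpa using hxa)
      have huv : f u v = 0 := by simpa using hu.2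
      have hvu := S.hs.symm_zero huv
      obtain ⟨c, hc⟩ := S.exists_c u
      obtain ⟨g, hg, hgr⟩ := S.exists_R1 hvV hu.1 hvv huv hc
      have hgv : g v = v := by rw [hgr, rho, hvv, hvu]; simp
      have h7 := (ann S.hs ψ V1 W).sub_mem (hst v hv hv0' g hg hgv b hb) hb
      have h8 := hall _ h7
      have h9 : g b - b = f b v • u + (c * f b v - f b u) • v := by rw [hgr, rho]; module
      rw [h9] at h8
      simp only [S.hs.add_left, S.hs.add_right, S.hs.smul_left, S.hs.smul_right, huv, hvu, hvv] at h8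
      have h10 : f b v * σ (f b v) * f u u = 0 := by linear_combination h8
      exact mul_ne_zero (mul_ne_zero hbv (S.hs.sigma_ne hbv)) huu h10
    have hspan : ∀ b ∈ ann S.hs ψ V1 W, b ∈ Submodule.span F {v0} := by
      intro b hb
      by_contra hns
      obtain ⟨x, hx, hxv, hxb⟩ : ∃ x ∈ V1, f x v0 = 0 ∧ f x b ≠ 0 := by
        by_contra h
        push Not at h
        exact hns (S.hs.mem_span_of_perp S.nd1 hv0.1 hb.1 h)
      have hbb := hall b hb
      obtain ⟨α, hα⟩ := S.hs.exists_add_norm (u := x) hbb (S.hs.symm_ne hxb) (map_zero σ)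
      set g0 := x + α • b with hg0
      have hg0V : g0 ∈ V1 := V1.add_mem hx (V1.smul_mem _ hb.1)
      have hg0v : f v0 g0 = 0 := by
        apply S.hs.symm_zero
        rw [hg0, S.hs.add_left, S.hs.smul_left, hxv, hti v0 hv0 b hb]; ring
      have hbg : f b g0 ≠ 0 := by
        rw [hg0, S.hs.add_right, S.hs.smul_right, hbb, mul_zero, add_zero]; exact S.hs.symm_ne hxb
      obtain ⟨τ, hτ0, hτ⟩ := S.hs.exists_tr0
      obtain ⟨t, ht, htr⟩ := S.exists_R1 hg0V V1.zero_mem hα (S.hs.zero_left g0) (c := τ) (by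
        rw [S.hs.zero_left, add_zero, hτ])
      have htv : t v0 = v0 := by rw [htr, rho, hg0v, S.hs.zero_right]; simp
      have h7 := (ann S.hs ψ V1 W).sub_mem (hst v0 hv0 hv00 t ht htv b hb) hb
      have h8 := hti _ h7 b hb
      have h9 : t b - b = (τ * f b g0) • g0 := by rw [htr, rho, S.hs.zero_right]; module
      rw [h9, S.hs.smul_right] at h8
      exact mul_ne_zero (S.hs.sigma_ne (mul_ne_zero hτ0 hbg)) hbg h8
    have hcard : Nat.card (ann S.hs ψ V1 W) ≤ Nat.card F := by
      choose! g hg using (fun v (hv : v ∈ ann S.hs ψ V1 W) => Submodule.mem_span_singleton.1 (hspan v hv))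
      refine Nat.card_le_card_of_injective (fun v : ann S.hs ψ V1 W => g v) ?_
      intro v v' hvv
      have h2 : g v = g v' := hvv
      apply Subtype.ext
      rw [← hg v v.2, ← hg v' v'.2, h2]
    rw [hk1, one_mul] at hd0
    rw [← hn2] at hcard ⊢
    set N := Nat.card (orb S.GG W)
    obtain ⟨m, hm⟩ : ∃ m, Nat.card F = m + 1 := ⟨Nat.card F - 1, by
      have : 0 < Nat.card F := Nat.card_pos
      omega⟩
    rw [hm] at hcard ⊢
    rw [hd0, Nat.add_sub_cancel]
    have h5 : n ≤ m := by omega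
    calc (m + 1) * (N * n) = m * (N * n) + N * n := by ring
      _ ≤ m * (N * n) + N * m := by
        have := Nat.mul_le_mul_left N h5
        omega
      _ = m * (N * (n + 1)) := by ring

end Ctx

end Cfsg.Agent.Lib.MinU
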