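import Mathlib
import Cfsg.Agent.Lib.MinUM

/-!
# Numbers of vectors of given norm in an abstract hermitian space over a finite field (helper98)
-/

set_option autoImplicit false
set_option linter.unusedSectionVars false

namespace Cfsg.Agent.Lib.MinU

open Cfsg.Agent.Lib Cfsg.Agent.Lib.UnTrans Cfsg.Agent.Lib.SubfUn

variable {F V : Type*} [Field F] [Finite F] [AddCommGroup V] [Module F V]
variable {σ : F →+* F} {f : V → V → F}

theorem norm_fiber (H : HS σ f) {s : F} (hs : σ s = s) (hs0 : s ≠ 0) :
    Nat.card {l : F // l * σ l = s} = Nat.card (EE σ) + 1 := by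
  classical
  have hconst : ∀ s : F, σ s = s → s ≠ 0 → Nat.card {l : F // l * σ l = s} = Nat.card {l : F // l * σ l = 1} := by
    intro s hs hs0
    obtain ⟨m, hm⟩ := H.norm s hs
    have hm0 : m ≠ 0 := by rintro rfl; rw [zero_mul] at hm; exact hs0 hm.symm
    have hσm := H.sigma_ne hm0
    refine Nat.card_congr
      { toFun := fun l => ⟨l.1 / m, ?_⟩
        invFun := fun l => ⟨l.1 * m, ?_⟩
        left_inv := fun l => Subtype.ext (div_mul_cancel₀ _ hm0)
        right_inv := fun l => Subtype.ext (mul_div_cancel_right₀ _ hm0) }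
    · have := l.2
      rw [map_div₀, div_mul_div_comm, this, hm, div_self hs0]
    · have := l.2
      rw [map_mul, mul_mul_mul_comm, this, hm, one_mul]
  rw [hconst s hs hs0]
  set m := Nat.card {l : F // l * σ l = 1} with hm
  have : Fintype (EE σ) := Fintype.ofFinite _
  have : Fintype F := Fintype.ofFinite _
  have h1 : Nat.card (Σ s : {s : EE σ // s ≠ 0}, {l : F // l * σ l = ((s : EE σ) : F)}) = Nat.card {l : F // l ≠ 0} := by
    refine Nat.card_congr
      { toFun := fun p => ⟨p.2.1, fun h => ?_⟩
        invFun := fun l => ⟨⟨⟨l.1 * σ l.1, by rw [mem_EE, map_mul, H.inv, mul_comm]⟩, fun h =>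
          mul_ne_zero l.2 (H.sigma_ne l.2) (congrArg Subtype.val h)⟩, ⟨l.1, rfl⟩⟩
        left_inv := ?_
        right_inv := fun l => rfl }
    · have h2 := p.2.2
      rw [h, zero_mul] at h2
      exact p.1.2 (Subtype.ext h2.symm)
    · rintro ⟨⟨⟨s, hs⟩, hs0⟩, ⟨l, hl⟩⟩
      simp only at hl
      subst hl
      rfl
  have h2 : Nat.card (Σ s : {s : EE σ // s ≠ 0}, {l : F // l * σ l = ((s : EE σ) : F)}) =
      Nat.card {s : EE σ // s ≠ 0} * m := by
    rw [Nat.card_sigma]
    have : ∀ s : {s : EE σ // s ≠ 0}, Nat.card {l : F // l * σ l = ((s : EE σ) : F)} = m := fun s =>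
      hconst _ s.1.2 (fun h => s.2 (Subtype.ext h))
    simp only [this, Finset.sum_const, Finset.card_univ, smul_eq_mul, Nat.card_eq_fintype_card]
  have h3 : ∀ (K : Type _) [Zero K] [Finite K], Nat.card K = 1 + Nat.card {x : K // x ≠ 0} := by
    intro K _ _
    have h4 : Nat.card K = Nat.card {v : K // v = 0} + Nat.card {v : K // v ≠ 0} := by
      rw [← Nat.card_sum]
      exact (Nat.card_congr (Equiv.sumCompl (fun v : K => v = 0))).symm
    rw [h4]; simp
  have h4 := h3 F
  have h5 := h3 (EE σ)
  rw [← h1, h2] at h4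
  have h6 := card_F H
  have hq := one_lt_q H
  set q := Nat.card (EE σ)
  set a := Nat.card {s : EE σ // s ≠ 0}
  rw [h6] at h4
  have h7 : q = a + 1 := by omega
  have h8 : a * (q + 1) = a * m := by
    rw [h7] at h4 ⊢
    nlinarith
  exact (Nat.eq_of_mul_eq_mul_left (by omega) h8).symm

/-- number of vectors of norm `c` in a subspace -/
noncomputable def cnt (f : V → V → F) (U : Submodule F V) (c : F) : ℕ := Nat.card {x : U // f (x : V) x = c}

theorem cnt_split (H : HS σ f) [Finite V] [FiniteDimensional F V] {U : Submodule F V} (hU : Nd f U) {k : ℕ}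
    (hk : Module.finrank F U = k + 1) : ∃ U' : Submodule F V, Nd f U' ∧ Module.finrank F U' = k ∧
      ∀ c, σ c = c → cnt f U c + Nat.card (EE σ) * cnt f U' c = (Nat.card (EE σ) + 1) * Nat.card U' := by
  classical
  obtain ⟨v, hv, hvv⟩ : ∃ v ∈ U, f v v ≠ 0 := by
    by_contra h
    push Not at h
    have h1 : U ≠ ⊥ := by
      rintro rfl
      rw [finrank_bot] at hk; omega
    obtain ⟨x, hx, hx0⟩ := (Submodule.ne_bot_iff _).1 h1
    obtain ⟨y, hy, hxy⟩ := hU x hx hx0
    exact hxy (H.eq_zero_of_iso h hx hy)
  set U' := U ⊓ LinearMap.ker (H.fl v) with hU'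
  have mem' : ∀ x, x ∈ U' ↔ x ∈ U ∧ f x v = 0 := by intro x; rw [hU']; simp
  refine ⟨U', ?_, ?_, ?_⟩
  · intro x hx hx0
    obtain ⟨h1, h2⟩ := (mem' x).1 hx
    obtain ⟨y, hy, hxy⟩ := hU x h1 hx0
    refine ⟨y - (f y v / f v v) • v, (mem' _).2 ⟨U.sub_mem hy (U.smul_mem _ hv), ?_⟩, ?_⟩
    · rw [H.sub_left, H.smul_left, div_mul_cancel₀ _ hvv, sub_self]
    · rw [H.sub_right, H.smul_right, h2, mul_zero, sub_zero]; exact hxy
  · have h1 := HS.finrank_inf_ker U (H.fl v)
    have h2 : U' < U := by
      rw [SetLike.lt_iff_le_and_exists]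
      exact ⟨fun x hx => ((mem' x).1 hx).1, v, hv, fun h => hvv ((mem' v).1 h).2⟩
    have h3 := Submodule.finrank_lt_finrank_of_lt h2
    rw [← hU'] at h1
    omega
  · intro c hc
    have : Fintype U' := Fintype.ofFinite _
    have hsum : cnt f U c = ∑ y : U', Nat.card {l : F // l * σ l * f v v + f (y : V) y = c} := by
      rw [← Nat.card_sigma]
      have hfwd : ∀ p : (Σ y : U', {l : F // l * σ l * f v v + f (y : V) y = c}),
          f (p.2.1 • v + (p.1 : V)) (p.2.1 • v + (p.1 : V)) = c := by
        intro p
        have h1 := p.2.2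
        have h2 := ((mem' _).1 p.1.2).2
        have h3 := H.symm_zero h2
        simp only [H.add_left, H.add_right, H.smul_left, H.smul_right, h2, h3]
        linear_combination h1
      symm
      refine Nat.card_congr (Equiv.ofBijective
        (fun p : (Σ y : U', {l : F // l * σ l * f v v + f (y : V) y = c}) =>
          (⟨⟨p.2.1 • v + p.1, U.add_mem (U.smul_mem _ hv) ((mem' _).1 p.1.2).1⟩, hfwd p⟩ :
            {x : U // f (x : V) x = c})) ⟨?_, ?_⟩)
      · rintro ⟨⟨y, hy⟩, ⟨l, hl⟩⟩ ⟨⟨y', hy'⟩, ⟨l', hl'⟩⟩ h
        have h1 : l • v + y = l' • v + y' := congrArg (fun z : {x : U // f (x : V) x = c} => ((z : U) : V)) h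
        have h2 : f (l • v + y) v = f (l' • v + y') v := by rw [h1]
        rw [H.add_left, H.add_left, H.smul_left, H.smul_left, ((mem' _).1 hy).2, ((mem' _).1 hy').2, add_zero,
          add_zero] at h2
        have h3 := mul_right_cancel₀ hvv h2
        subst h3
        have h4 := add_left_cancel h1
        subst h4
        rfl
      · rintro ⟨⟨x, hx⟩, hxc⟩
        have h1 : x - (f x v / f v v) • v ∈ U' := (mem' _).2 ⟨U.sub_mem hx (U.smul_mem _ hv), by
          rw [H.sub_left, H.smul_left, div_mul_cancel₀ _ hvv, sub_self]⟩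
        have h2 : f x v / f v v * σ (f x v / f v v) * f v v +
            f (x - (f x v / f v v) • v) (x - (f x v / f v v) • v) = c := by
          have h3 : σ (f v v) = f v v := H.self_fixed v
          have h4 : f x x = c := hxc
          simp only [H.sub_left, H.sub_right, H.smul_left, H.smul_right, h4]
          rw [map_div₀, h3, ← H.herm v x]
          field_simp
          ring
        refine ⟨⟨⟨_, h1⟩, ⟨_, h2⟩⟩, ?_⟩
        apply Subtype.ext
        apply Subtype.ext
        show (f x v / f v v) • v + (x - (f x v / f v v) • v) = x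
        abel
    have hterm : ∀ y : U', Nat.card {l : F // l * σ l * f v v + f (y : V) y = c} =
        if f (y : V) y = c then 1 else Nat.card (EE σ) + 1 := by
      intro y
      split_ifs with hy
      · have : Unique {l : F // l * σ l * f v v + f (y : V) y = c} :=
          { default := ⟨0, by rw [hy]; ring⟩
            uniq := by
              rintro ⟨l, hl⟩
              apply Subtype.ext
              show l = 0
              rw [hy] at hl
              have h1 : l * σ l * f v v = 0 := by linear_combination hl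
              rcases mul_eq_zero.1 h1 with h | h
              · by_contra hl0
                exact mul_ne_zero hl0 (H.sigma_ne hl0) h
              · exact absurd h hvv }
        exact Nat.card_unique
      · rw [← norm_fiber H (s := (c - f (y : V) y) / f v v) (by
          rw [map_div₀, map_sub, hc, H.self_fixed, H.self_fixed]) (div_ne_zero (sub_ne_zero.2 (Ne.symm hy)) hvv)]
        refine Nat.card_congr (Equiv.subtypeEquivRight fun l => ?_)
        rw [eq_div_iff hvv]
        constructor
        · intro h; linear_combination h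
        · intro h; linear_combination h
    rw [hsum]
    simp only [hterm]
    rw [Finset.sum_ite, Finset.sum_const, Finset.sum_const, smul_eq_mul, smul_eq_mul, mul_one]
    have h1 : cnt f U' c = (Finset.univ.filter fun y : U' => f (y : V) y = c).card := by
      rw [cnt, Nat.card_eq_fintype_card, Fintype.card_subtype]
    have h2 : Nat.card U' = (Finset.univ.filter fun y : U' => f (y : V) y = c).card +
        (Finset.univ.filter fun y : U' => ¬ f (y : V) y = c).card := by
      rw [Nat.card_eq_fintype_card, ← Finset.card_univ, ← Finset.card_filter_add_card_filter_not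
        (s := Finset.univ) (p := fun y : U' => f (y : V) y = c)]
    rw [h1, h2]; ring

theorem cnt_formula (H : HS σ f) [Finite V] [FiniteDimensional F V] : ∀ (k : ℕ) (U : Submodule F V), Nd f U →
    Module.finrank F U = k →
    ((Nat.card (EE σ) : ℤ) * cnt f U 0 = (Nat.card (EE σ) : ℤ) ^ (2 * k) +
        (-1) ^ k * ((Nat.card (EE σ) : ℤ) - 1) * (Nat.card (EE σ) : ℤ) ^ k) ∧
    ∀ c, σ c = c → c ≠ 0 → (Nat.card (EE σ) : ℤ) * cnt f U c =
      (Nat.card (EE σ) : ℤ) ^ (2 * k) - (-1) ^ k * (Nat.card (EE σ) : ℤ) ^ k := by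
  intro k
  induction k with
  | zero =>
    intro U hU hk
    have h1 : U = ⊥ := Submodule.finrank_eq_zero.1 hk
    subst h1
    constructor
    · have h2 : cnt f (⊥ : Submodule F V) 0 = 1 := by
        have : Unique {x : (⊥ : Submodule F V) // f (x : V) x = 0} :=
          { default := ⟨0, H.zero_left _⟩
            uniq := by
              rintro ⟨x, hx⟩
              apply Subtype.ext
              exact Subsingleton.elim _ _ }
        exact Nat.card_unique
      rw [h2]; simp
    · intro c hc hc0
      have h2 : cnt f (⊥ : Submodule F V) c = 0 := by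
        have : IsEmpty {x : (⊥ : Submodule F V) // f (x : V) x = c} := by
          constructor
          rintro ⟨⟨x, hx⟩, hxc⟩
          have hx0 : x = 0 := hx
          subst hx0
          exact hc0 (by rw [← hxc]; exact H.zero_left _)
        exact Nat.card_of_isEmpty
      rw [h2]; simp
  | succ k ih =>
    intro U hU hk
    obtain ⟨U', hU', hk', h⟩ := cnt_split H hU hk
    have h1 := ih U' hU' hk'
    have h3 : Nat.card U' = Nat.card (EE σ) ^ (2 * k) := by
      rw [Module.natCard_eq_pow_finrank (K := F), card_F H, ← pow_mul, hk']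
    have h4 : ∀ c, σ c = c → (cnt f U c : ℤ) = (Nat.card (EE σ) + 1) * (Nat.card (EE σ) : ℤ) ^ (2 * k) -
        Nat.card (EE σ) * cnt f U' c := by
      intro c hc
      have h2 := h c hc
      rw [h3] at h2
      have h4 : (cnt f U c : ℤ) + Nat.card (EE σ) * cnt f U' c =
          (Nat.card (EE σ) + 1) * (Nat.card (EE σ) : ℤ) ^ (2 * k) := by
        exact_mod_cast h2
      linear_combination h4
    have h6 : 2 * (k + 1) = 2 * k + 1 + 1 := by ring
    constructor
    · rw [h4 0 (map_zero σ), h1.1, h6, pow_succ, pow_succ, pow_succ, pow_succ]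
      ring
    · intro c hc hc0
      rw [h4 c hc, h1.2 c hc hc0, h6, pow_succ, pow_succ, pow_succ, pow_succ]
      ring

end Cfsg.Agent.Lib.MinU
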