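import Mathlib

/-!
# Numerical inequalities for the minimal index of unitary groups (helper98)
-/

set_option autoImplicit false

namespace Cfsg.Agent.Lib.MinU.Num

theorem base1 {q P : ℤ} (hq : 2 ≤ q) (hP : q ^ 4 ≤ P) :
    0 ≤ (q ^ 2 - q - 1) * P ^ 2 - (q - 1) * (q ^ 3 + q ^ 2 - 2 * q - 1) * P - q ^ 4 - q ^ 3 + q ^ 2 + q + 1 := by
  obtain ⟨r, hr, rfl⟩ : ∃ r : ℤ, 0 ≤ r ∧ q = r + 2 := ⟨q - 2, by omega, by ring⟩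
  obtain ⟨s, hs, rfl⟩ : ∃ s : ℤ, 0 ≤ s ∧ P = (r + 2) ^ 4 + s := ⟨P - (r + 2) ^ 4, by omega, by ring⟩
  ring_nf
  positivity

theorem base2 {q P : ℤ} (hq : 2 ≤ q) (hP : q ^ 4 ≤ P) :
    0 ≤ (q ^ 2 - q - 1) * P ^ 2 - (q ^ 3 + 2 * q ^ 2 - 2 * q - 1) * P + 1 := by
  obtain ⟨r, hr, rfl⟩ : ∃ r : ℤ, 0 ≤ r ∧ q = r + 2 := ⟨q - 2, by omega, by ring⟩
  obtain ⟨s, hs, rfl⟩ : ∃ s : ℤ, 0 ≤ s ∧ P = (r + 2) ^ 4 + s := ⟨P - (r + 2) ^ 4, by omega, by ring⟩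
  ring_nf
  positivity

theorem base3 {q P : ℤ} (hq : 2 ≤ q) (hP : q ^ 4 ≤ P) :
    0 ≤ (q ^ 2 - q - 1) * P ^ 2 - (q ^ 2 - q) * P + 1 := by
  obtain ⟨r, hr, rfl⟩ : ∃ r : ℤ, 0 ≤ r ∧ q = r + 2 := ⟨q - 2, by omega, by ring⟩
  obtain ⟨s, hs, rfl⟩ : ∃ s : ℤ, 0 ≤ s ∧ P = (r + 2) ^ 4 + s := ⟨P - (r + 2) ^ 4, by omega, by ring⟩
  ring_nf
  positivity

theorem base4 {q P : ℤ} (hq : 3 ≤ q) (hP : q ^ 4 ≤ P) :
    0 ≤ (q ^ 3 - 2 * q ^ 2 - q + 1) * P ^ 2 - (q - 1) * (2 * q ^ 2 - 1) * P + q * (q ^ 2 - 1) + q := by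
  obtain ⟨r, hr, rfl⟩ : ∃ r : ℤ, 0 ≤ r ∧ q = r + 3 := ⟨q - 3, by omega, by ring⟩
  obtain ⟨s, hs, rfl⟩ : ∃ s : ℤ, 0 ≤ s ∧ P = (r + 3) ^ 4 + s := ⟨P - (r + 3) ^ 4, by omega, by ring⟩
  ring_nf
  positivity

theorem base5 {q P : ℤ} (hq : 2 ≤ q) (hP : q ^ 4 ≤ P) :
    0 ≤ (q ^ 2 - 2) * P ^ 2 - (q - 1) * (q ^ 2 - 2) * P - q ^ 3 + 2 * q := by
  obtain ⟨r, hr, rfl⟩ : ∃ r : ℤ, 0 ≤ r ∧ q = r + 2 := ⟨q - 2, by omega, by ring⟩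
  obtain ⟨s, hs, rfl⟩ : ∃ s : ℤ, 0 ≤ s ∧ P = (r + 2) ^ 4 + s := ⟨P - (r + 2) ^ 4, by omega, by ring⟩
  ring_nf
  positivity

variable {q P p z N ε : ℤ}

theorem posP (hq : 2 ≤ q) (hP : q ^ 4 ≤ P) : 0 < P := lt_of_lt_of_le (by positivity) hP

theorem num1 (hq : 2 ≤ q) (hP : q ^ 4 ≤ P) (hε : ε = 1 ∨ ε = -1) (hz : q * z = P ^ 2 + ε * (q - 1) * P)
    (hp : (q ^ 2 - 1) * p = q ^ 3 * P ^ 2 + ε * (q - 1) * q * P - 1) : p ≤ q * (q + 1) * (z - 1) := by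
  have hP0 := posP hq hP
  have h1 : 0 < q ^ 2 - 1 := by nlinarith
  refine le_of_mul_le_mul_left ?_ h1
  rw [hp]
  have e1 : (q ^ 2 - 1) * (q * (q + 1) * (z - 1)) = (q ^ 2 - 1) * (q + 1) * (q * z - q) := by ring
  rw [e1, hz]
  have hb := base1 hq hP
  have h2 : 0 ≤ (q - 1) * (q ^ 3 + q ^ 2 - 2 * q - 1) * P := by
    have : 0 ≤ q ^ 3 + q ^ 2 - 2 * q - 1 := by nlinarith [mul_nonneg (show (0:ℤ) ≤ q - 2 by omega) (sq_nonneg q)]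
    have : 0 ≤ q - 1 := by omega
    positivity
  rcases hε with rfl | rfl
  · linarith [hb, h2]
  · linarith [hb, h2]

theorem num2 (hq : 2 ≤ q) (hP : q ^ 4 ≤ P) (hε : ε = 1 ∨ ε = -1) (hN : q * N = P ^ 2 - ε * P)
    (hp : (q ^ 2 - 1) * p = q ^ 3 * P ^ 2 + ε * (q - 1) * q * P - 1) : p ≤ q * (q + 1) * N := by
  have hP0 := posP hq hP
  have h1 : 0 < q ^ 2 - 1 := by nlinarith
  refine le_of_mul_le_mul_left ?_ h1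
  rw [hp]
  have e1 : (q ^ 2 - 1) * (q * (q + 1) * N) = (q ^ 2 - 1) * (q + 1) * (q * N) := by ring
  rw [e1, hN]
  have hb := base2 hq hP
  have h2 : 0 ≤ (q ^ 3 + 2 * q ^ 2 - 2 * q - 1) * P := by
    have : 0 ≤ q ^ 3 + 2 * q ^ 2 - 2 * q - 1 := by nlinarith [mul_nonneg (show (0:ℤ) ≤ q - 2 by omega) (sq_nonneg q)]
    positivity
  rcases hε with rfl | rfl
  · linarith [hb, h2]
  · linarith [hb, h2]

theorem num3 (hq : 2 ≤ q) (hP : q ^ 4 ≤ P) (hε : ε = 1 ∨ ε = -1)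
    (hp : (q ^ 2 - 1) * p = q ^ 3 * P ^ 2 + ε * (q - 1) * q * P - 1) : p ≤ (q + 1) * P ^ 2 := by
  have hP0 := posP hq hP
  have h1 : 0 < q ^ 2 - 1 := by nlinarith
  refine le_of_mul_le_mul_left ?_ h1
  rw [hp]
  have hb := base3 hq hP
  have h2 : 0 ≤ (q ^ 2 - q) * P := by
    have : 0 ≤ q ^ 2 - q := by nlinarith
    positivity
  rcases hε with rfl | rfl
  · linarith [hb, h2]
  · linarith [hb, h2]

theorem num4 (hq : 3 ≤ q) (hP : q ^ 4 ≤ P) (hε : ε = 1 ∨ ε = -1) (hz : q * z = P ^ 2 + ε * (q - 1) * P)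
    (hp : (q ^ 2 - 1) * p = q ^ 3 * P ^ 2 + ε * (q - 1) * q * P - 1) : p ≤ q * P ^ 2 + (P ^ 2 - z) + 1 := by
  have hP0 := posP (by omega) hP
  have h1 : 0 < q ^ 2 - 1 := by nlinarith
  have h1' : 0 < q * (q ^ 2 - 1) := by positivity
  refine le_of_mul_le_mul_left ?_ h1'
  rw [mul_assoc, hp]
  have e1 : q * (q ^ 2 - 1) * (q * P ^ 2 + (P ^ 2 - z) + 1) = (q ^ 2 - 1) * (q ^ 2 * P ^ 2 + q * P ^ 2 - q * z + q) := by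
    ring
  rw [e1, hz]
  have hb := base4 hq hP
  have h2 : 0 ≤ (q - 1) * (2 * q ^ 2 - 1) * P := by
    have : 0 ≤ q - 1 := by omega
    have : 0 ≤ 2 * q ^ 2 - 1 := by nlinarith
    positivity
  rcases hε with rfl | rfl
  · linarith [hb, h2]
  · linarith [hb, h2]

theorem num5 (hq : 2 ≤ q) (hP : q ^ 4 ≤ P) (hε : ε = 1 ∨ ε = -1) (hz : q * z = P ^ 2 + ε * (q - 1) * P)
    (hp : (q ^ 2 - 1) * p = q ^ 3 * P ^ 2 + ε * (q - 1) * q * P - 1) : p ≤ q * P ^ 2 + 2 * (z - 1) + 1 := by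
  have hP0 := posP hq hP
  have h1 : 0 < q ^ 2 - 1 := by nlinarith
  have h1' : 0 < q * (q ^ 2 - 1) := by positivity
  refine le_of_mul_le_mul_left ?_ h1'
  rw [mul_assoc, hp]
  have e1 : q * (q ^ 2 - 1) * (q * P ^ 2 + 2 * (z - 1) + 1) = (q ^ 2 - 1) * (q ^ 2 * P ^ 2 + 2 * (q * z) - q) := by
    ring
  rw [e1, hz]
  have hb := base5 hq hP
  have h2 : 0 ≤ (q - 1) * (q ^ 2 - 2) * P := by
    have : 0 ≤ q - 1 := by omega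
    have : 0 ≤ q ^ 2 - 2 := by nlinarith
    positivity
  rcases hε with rfl | rfl
  · linarith [hb, h2]
  · linarith [hb, h2]

theorem num6 {T : ℤ} (hq : 2 ≤ q) (hz : q * z = P ^ 2 + ε * (q - 1) * P)
    (hp : (q ^ 2 - 1) * p = q ^ 3 * P ^ 2 + ε * (q - 1) * q * P - 1) (hT : q ^ 2 * (z - 1) ≤ (q ^ 2 - 1) * T) :
    p ≤ q * P ^ 2 + T + 1 := by
  have h1 : 0 < q ^ 2 - 1 := by nlinarith
  refine le_of_mul_le_mul_left ?_ h1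
  rw [hp]
  have e1 : q ^ 2 * (z - 1) = q * (q * z) - q ^ 2 := by ring
  rw [e1, hz] at hT
  linarith [hT]

end Cfsg.Agent.Lib.MinU.Num
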