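import Mathlib
import Cfsg.Agent.Lib.MinUN

/-!
# Minimal index of unitary groups: the main theorem (helper98)
-/

set_option autoImplicit false
set_option linter.unusedSectionVars false

namespace Cfsg.Agent.Lib.MinU

open Cfsg.Agent.Lib Cfsg.Agent.Lib.UnTrans Cfsg.Agent.Lib.SubfUn
open Cfsg.Agent.Lib.SpTrans (isom mem_isom)

theorem coprime_mul {K : Type*} [Group K] [Finite K] (A B : Subgroup K) (h : Nat.Coprime A.index B.index) (g : K) :
    ∃ a ∈ A, ∃ b ∈ B, g = a * b := by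
  have h1 : A.index * B.index ∣ (A ⊓ B).index :=
    Nat.Coprime.mul_dvd_of_dvd_of_dvd h (Subgroup.index_dvd_of_le inf_le_left) (Subgroup.index_dvd_of_le inf_le_right)
  have h2 : B.relIndex A * A.index = (A ⊓ B).index := by
    rw [← Subgroup.inf_relIndex_right B A, inf_comm]
    exact Subgroup.relIndex_mul_index inf_le_left
  have hA : A.index ≠ 0 := Subgroup.index_ne_zero_of_finite
  rw [← h2, mul_comm] at h1
  have h3 : B.index ∣ B.relIndex A := Nat.dvd_of_mul_dvd_mul_right (Nat.pos_of_ne_zero hA) h1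
  have h4 : B.index ≤ B.relIndex A := Nat.le_of_dvd (Nat.pos_of_ne_zero (by
    rw [Subgroup.relIndex]; exact Subgroup.index_ne_zero_of_finite)) h3
  let φ : A ⧸ B.subgroupOf A → K ⧸ B := Quotient.lift (s := QuotientGroup.leftRel (B.subgroupOf A))
    (fun a => ((a : K) : K ⧸ B)) (by
      intro a b hab
      apply QuotientGroup.eq.2
      have : a⁻¹ * b ∈ B.subgroupOf A := QuotientGroup.leftRel_apply.1 hab
      exact this)
  have hinj : Function.Injective φ := by
    rintro ⟨a⟩ ⟨b⟩ hab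
    apply QuotientGroup.eq.2
    have h5 : ((a : K) : K ⧸ B) = ((b : K) : K ⧸ B) := hab
    have h6 := QuotientGroup.eq.1 h5
    exact h6
  have hbij := hinj.bijective_of_nat_card_le h4
  obtain ⟨⟨a⟩, ha⟩ := hbij.2 (g : K ⧸ B)
  have h5 : ((a : K) : K ⧸ B) = (g : K ⧸ B) := ha
  have h6 := QuotientGroup.eq.1 h5
  exact ⟨a, a.2, (a : K)⁻¹ * g, h6, by group⟩

variable {F V : Type*} [Field F] [Finite F] [AddCommGroup V] [Module F V]
variable {σ : F →+* F} {f : V → V → F}

theorem card_IPt (H : HS σ f) [Finite V] : Nat.card (IPt (F := F) f) * (Nat.card F - 1) = Nat.card (Ocl f (⊤ : Submodule F V) 0) := by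
  classical
  have h1 : Nat.card Fˣ = Nat.card F - 1 := Nat.card_units F
  rw [← h1, ← Nat.card_prod]
  choose v hv0 hvv hvL using (fun L : IPt (F := F) f => L.2)
  refine Nat.card_congr (Equiv.ofBijective (fun p : IPt (F := F) f × Fˣ => (⟨(p.2 : F) • v p.1, trivial,
    smul_ne_zero (Units.ne_zero _) (hv0 _), by rw [H.smul_left, H.smul_right, hvv]; ring⟩ :
      Ocl f (⊤ : Submodule F V) 0)) ⟨?_, ?_⟩)
  · rintro ⟨L, l⟩ ⟨L', l'⟩ h
    have h2 : (l : F) • v L = (l' : F) • v L' := congrArg Subtype.val h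
    have h3 : L = L' := by
      apply Subtype.ext
      rw [hvL L, hvL L', ← Submodule.span_singleton_smul_eq (Units.isUnit l) (v L), h2,
        Submodule.span_singleton_smul_eq (Units.isUnit l') (v L')]
    subst h3
    have h4 : ((l : F) - l') • v L = 0 := by rw [sub_smul, h2, sub_self]
    rcases smul_eq_zero.1 h4 with h | h
    · rw [Units.ext (sub_eq_zero.1 h)]
    · exact absurd h (hv0 L)
  · rintro ⟨w, -, hw0, hww⟩
    let L : IPt (F := F) f := ⟨Submodule.span F {w}, w, hw0, hww, rfl⟩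
    have h2 : w ∈ Submodule.span F {v L} := by
      rw [← hvL L]
      exact Submodule.mem_span_singleton_self w
    obtain ⟨l, hl⟩ := Submodule.mem_span_singleton.1 h2
    have hl0 : l ≠ 0 := by rintro rfl; rw [zero_smul] at hl; exact hw0 hl.symm
    exact ⟨(L, Units.mk0 l hl0), Subtype.ext hl⟩

/-- the stabiliser of a line -/
def stL (e : V) : Subgroup (V ≃ₗ[F] V) where
  carrier := {g | Submodule.span F {g e} = Submodule.span F {e}}
  one_mem' := rfl
  mul_mem' := by
    intro a b ha hb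
    have ha' : Submodule.span F {a e} = Submodule.span F {e} := ha
    have hb' : Submodule.span F {b e} = Submodule.span F {e} := hb
    show Submodule.span F {a (b e)} = Submodule.span F {e}
    have h1 := congrArg (Submodule.map (a : V →ₗ[F] V)) hb'
    rw [Submodule.map_span, Submodule.map_span, Set.image_singleton, Set.image_singleton] at h1
    rw [← ha']; exact h1
  inv_mem' := by
    intro a ha
    have ha' : Submodule.span F {a e} = Submodule.span F {e} := ha
    show Submodule.span F {a⁻¹ e} = Submodule.span F {e}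
    have h1 := congrArg (Submodule.map ((a⁻¹ : V ≃ₗ[F] V) : V →ₗ[F] V)) ha'
    rw [Submodule.map_span, Submodule.map_span, Set.image_singleton, Set.image_singleton] at h1
    have h2 : ((a⁻¹ : V ≃ₗ[F] V) : V →ₗ[F] V) (a e) = e := inv_apply_self' a e
    rw [h2] at h1
    exact h1.symm

theorem mem_stL {e : V} {g : V ≃ₗ[F] V} : g ∈ stL e ↔ Submodule.span F {g e} = Submodule.span F {e} := Iff.rfl

theorem Glob.relIndex_stL (G : Glob σ f) {e : V} (he0 : e ≠ 0) (hee : f e e = 0) :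
    (stL e).relIndex (tgrp G.hs ⊤) = Nat.card (IPt (F := F) f) := by
  have := G.fd
  have := G.finite_G
  symm
  apply le_antisymm
  · refine G.le_of_fix he0 hee fun m hm => ?_
    have h1 := mem_stL.1 hm
    rw [← h1]
    exact Submodule.mem_span_singleton_self _
  · have : Finite V := G.finite_V
    have : Finite (IPt (F := F) f) := by
      have h : Finite (Submodule F V) := Finite.of_injective (fun U : Submodule F V => (U : Set V)) SetLike.coe_injective
      infer_instance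
    refine Nat.card_le_card_of_injective (Quotient.lift (s := QuotientGroup.leftRel ((stL e).subgroupOf (tgrp G.hs ⊤)))
      (fun g => (⟨Submodule.span F {(g : V ≃ₗ[F] V) e}, (g : V ≃ₗ[F] V) e, by simpa using he0, by
        rw [tgrp_le_isom G.hs ⊤ g.2]; exact hee, rfl⟩ : IPt (F := F) f)) ?_) ?_
    · intro a b hab
      have h1 : a⁻¹ * b ∈ (stL e).subgroupOf (tgrp G.hs ⊤) := QuotientGroup.leftRel_apply.1 hab
      have h2 : Submodule.span F {((a : V ≃ₗ[F] V)⁻¹ * (b : V ≃ₗ[F] V)) e} = Submodule.span F {e} := h1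
      apply Subtype.ext
      show Submodule.span F {(a : V ≃ₗ[F] V) e} = Submodule.span F {(b : V ≃ₗ[F] V) e}
      have h3 := congrArg (Submodule.map ((a : V ≃ₗ[F] V) : V →ₗ[F] V)) h2
      rw [Submodule.map_span, Submodule.map_span, Set.image_singleton, Set.image_singleton] at h3
      have h4 : ((a : V ≃ₗ[F] V) : V →ₗ[F] V) (((a : V ≃ₗ[F] V)⁻¹ * (b : V ≃ₗ[F] V)) e) = (b : V ≃ₗ[F] V) e := by
        rw [LinearEquiv.mul_apply]; exact apply_inv _ _
      rw [h4] at h3
      exact h3.symm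
    · rintro ⟨a⟩ ⟨b⟩ hab
      have h1 : Submodule.span F {(a : V ≃ₗ[F] V) e} = Submodule.span F {(b : V ≃ₗ[F] V) e} := congrArg Subtype.val hab
      apply QuotientGroup.eq.2
      show (a : V ≃ₗ[F] V)⁻¹ * (b : V ≃ₗ[F] V) ∈ stL e
      rw [mem_stL]
      have h3 := congrArg (Submodule.map (((a : V ≃ₗ[F] V)⁻¹ : V ≃ₗ[F] V) : V →ₗ[F] V)) h1
      rw [Submodule.map_span, Submodule.map_span, Set.image_singleton, Set.image_singleton] at h3
      have h4 : (((a : V ≃ₗ[F] V)⁻¹ : V ≃ₗ[F] V) : V →ₗ[F] V) ((a : V ≃ₗ[F] V) e) = e := inv_apply_self' _ _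
      rw [h4] at h3
      exact h3.symm

/-- exclusion of the index one less than the number of isotropic points -/
theorem Glob.ne_pred (G : Glob σ f) {M : Subgroup (V ≃ₗ[F] V)} (hM : M ≤ tgrp G.hs ⊤) {e0 e2 : V} (he0 : e0 ≠ 0)
    (he00 : f e0 e0 = 0) (hZ : ZM σ f M e0) (he2 : e2 ≠ 0) (he22 : f e2 e2 = 0) (hQ : QM f M e2) :
    M.relIndex (tgrp G.hs ⊤) + 1 ≠ Nat.card (IPt (F := F) f) := by
  intro h
  have := G.fd
  have := G.finite_G
  have hiso : M ≤ isom f := hM.trans (tgrp_le_isom G.hs ⊤)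
  rw [← G.relIndex_stL he0 he00] at h
  have hcop : Nat.Coprime ((stL (F := F) e0).subgroupOf (tgrp G.hs ⊤)).index (M.subgroupOf (tgrp G.hs ⊤)).index := by
    have h1 : ((stL (F := F) e0).subgroupOf (tgrp G.hs ⊤)).index = (M.subgroupOf (tgrp G.hs ⊤)).index + 1 := h.symm
    rw [h1]
    simp
  obtain ⟨g, hg, hge⟩ := exists_move G.hs G.nd G.d4 (x := e2) (y := e0) trivial trivial he2 he0 (by rw [he22, he00])
  obtain ⟨a, ha, b, hb, hab⟩ := coprime_mul _ _ hcop ⟨g, hg⟩
  have hab' : g = (a : V ≃ₗ[F] V) * (b : V ≃ₗ[F] V) := congrArg Subtype.val hab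
  have hbM : (b : V ≃ₗ[F] V) ∈ M := hb
  have haS : (a : V ≃ₗ[F] V) ∈ stL e0 := ha
  have ha2 := mem_stL.1 (inv_mem haS)
  have h3 : (a : V ≃ₗ[F] V)⁻¹ e0 ∈ Submodule.span F {e0} := by
    rw [← ha2]; exact Submodule.mem_span_singleton_self _
  obtain ⟨c, hc⟩ := Submodule.mem_span_singleton.1 h3
  have hc0 : c ≠ 0 := by
    rintro rfl
    rw [zero_smul] at hc
    have := (LinearEquiv.map_eq_zero_iff ((a : V ≃ₗ[F] V)⁻¹)).1 hc.symm
    exact he0 this
  -- b⁻¹ e0 is a multiple of e2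
  have h4 : (b : V ≃ₗ[F] V)⁻¹ e0 = c⁻¹ • e2 := by
    have h5 : e2 = (b : V ≃ₗ[F] V)⁻¹ ((a : V ≃ₗ[F] V)⁻¹ e0) := by
      rw [← hge, hab', LinearEquiv.mul_apply, inv_apply_self', inv_apply_self']
    rw [h5, ← hc, map_smul, smul_smul, inv_mul_cancel₀ hc0, one_smul]
  have h5 := hZ.conj G.hs hiso (inv_mem hbM)
  rw [h4] at h5
  have h6 := h5.smul G.hs (inv_ne_zero hc0)
  obtain ⟨τ, hτ0, hτ⟩ := G.hs.exists_tr0
  obtain ⟨t, ht, h7⟩ := h6 τ hτ
  have h8 := hQ t ht 0 τ (G.hs.zero_left e2) h7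
  obtain ⟨y, -, hy⟩ := G.nd e2 trivial he2
  have hy' := G.hs.symm_ne hy
  have h9 := h7 y
  rw [h8, rho, G.hs.zero_right] at h9
  have h10 : (τ * f y e2) • e2 = 0 := by
    have h11 : y = y + (τ * f y e2) • e2 := by
      have h12 : (1 : V ≃ₗ[F] V) y = y := rfl
      rw [h12] at h9
      conv_lhs => rw [h9]
      module
    exact left_eq_add.1 h11
  rcases smul_eq_zero.1 h10 with h | h
  · exact mul_ne_zero hτ0 hy' h
  · exact he2 h

/-- the counts for a hyperbolic pair -/
theorem Ctx.final {e e' : V} {V1 : Submodule F V} (S : Ctx σ f e e' V1) {M : Subgroup (V ≃ₗ[F] V)}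
    (hM : M ≤ tgrp S.hs ⊤) (hZ : ZM σ f M e) (hQQ : ¬ QQ σ f M e) {e2 : V} (he2 : e2 ≠ 0) (he22 : f e2 e2 = 0)
    (hQ : QM f M e2) : ∃ T N : ℕ, 1 ≤ N ∧ Nat.card V1 * Nat.card (EE σ) + T ≤ M.relIndex (tgrp S.hs ⊤) ∧
      ((Nat.card (ON f V1) + N ≤ T ∧ (Nat.card (EE σ) = 2 → 4 * Nat.card (ON f V1) ≤ 3 * T)) ∨
        2 * Nat.card (Ocl f V1 0) + N ≤ T ∨
        Nat.card F * Nat.card (Ocl f V1 0) ≤ (Nat.card F - 1) * T) := by
  classical
  have := S.fd
  have := S.finite_V
  have := S.finite_G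
  have := finite_addSubgroup (V := V)
  have hiso : M ≤ isom f := hM.trans (tgrp_le_isom S.hs ⊤)
  obtain ⟨η, hη0, hη⟩ := S.hs.exists_tr0
  have hC := (S.ZM_of_top hη0 hη).2 hZ
  have he0 : e ≠ 0 := by
    rintro h; have := S.ep; rw [h, S.hs.zero_left] at this; exact zero_ne_one this
  obtain ⟨g2, hg2, hge⟩ := exists_move S.hs S.nd S.d4top (x := e2) (y := e) trivial trivial he2 he0 (by rw [he22, S.ee])
  have hgi : g2⁻¹ e = e2 := inv_apply_of hge
  have hg2i : g2 ∈ isom f := tgrp_le_isom S.hs ⊤ hg2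
  have hI2 := S.I2 hη0 hη hC hg2 (by
    intro t ht u hu c htu
    have h1 := IsR.conj S.hs (inv_mem hg2i) htu
    rw [hgi] at h1
    have h2 : g2⁻¹ * (g2 * t * g2⁻¹) * g2⁻¹⁻¹ = t := by group
    rw [h2] at h1
    have h3 : f (g2⁻¹ u) e2 = 0 := by
      rw [← hgi, inv_mem hg2i u e]
      exact S.perp_e hu
    rw [hQ t ht _ _ h3 h1]; group)
  obtain ⟨p, hp⟩ := CharP.exists F
  have : NeZero p := ⟨CharP.char_ne_zero_of_finite F p⟩
  have : Fact p.Prime := ⟨(CharP.char_is_prime_or_zero F p).resolve_right (NeZero.ne p)⟩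
  obtain ⟨ψ, hψ, -⟩ := exists_phi (K := F) (p := p) (C := ⊥) (by
    intro h
    have h1 : (1 : F) ∈ (⊥ : AddSubgroup F) := by rw [h]; trivial
    exact one_ne_zero (AddSubgroup.mem_bot.1 h1))
  have hann := card_ann S.hs ψ hψ V1 S.nd1 (S.WW M) (S.WW_le M)
  have hid := S.idW_mul M
  have hWpos : 0 < Nat.card (S.WW M) := Nat.card_pos
  have ha : S.idW M = Nat.card (ann S.hs ψ V1 (S.WW M)) := by
    rw [← hann, mul_comm] at hid
    exact Nat.eq_of_mul_eq_mul_left hWpos hid
  refine ⟨Nat.card (orb S.GG (S.WW M)) * S.idW M, Nat.card (orb S.GG (S.WW M)), ?_, hI2, ?_⟩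
  · have : Nonempty (orb S.GG (S.WW M)) := ⟨⟨_, self_mem_orb _ _⟩⟩
    exact Nat.card_pos
  -- W is proper
  have hWne : 1 < Nat.card (ann S.hs ψ V1 (S.WW M)) := by
    by_contra hle
    have h1 : Nat.card (ann S.hs ψ V1 (S.WW M)) = 1 := by
      have : 0 < Nat.card (ann S.hs ψ V1 (S.WW M)) := Nat.card_pos
      omega
    rw [h1, mul_one] at hann
    have hWtop : ∀ u ∈ V1, u ∈ S.WW M := by
      have h2 : (S.WW M : Set V) = (V1.toAddSubgroup : Set V) := by
        apply Set.eq_of_subset_of_ncard_le (S.WW_le M)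
        have h3 : Nat.card (S.WW M) = (S.WW M : Set V).ncard := rfl
        have h4 : Nat.card V1 = (V1.toAddSubgroup : Set V).ncard := rfl
        rw [← h3, ← h4, hann]
      intro u hu
      have : u ∈ (V1.toAddSubgroup : Set V) := hu
      rw [← h2] at this
      exact this
    apply hQQ
    intro u c hue hc
    obtain ⟨u1, hu1, hd⟩ := S.decomp u
    rw [hue, zero_smul, add_zero, add_comm] at hd
    obtain ⟨-, t, ht, c', htc⟩ := hWtop u1 hu1
    have h5 := S.isR_cond (hiso ht) hu1 htc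
    -- correct the central part
    have h6 : f u u = f u1 u1 := by
      rw [hd]
      simp only [S.hs.add_left, S.hs.add_right, S.hs.smul_left, S.hs.smul_right, S.ee, S.perp_e hu1, S.perp_e2 hu1]
      ring
    set α := f u e' with hα
    have h7 : (c + α - σ α - c') + σ (c + α - σ α - c') = 0 := by
      rw [map_sub, map_sub, map_add, S.hs.inv]
      rw [h6] at hc
      linear_combination hc - h5
    obtain ⟨t', ht', h8⟩ := hZ _ h7
    have h9 := S.isR_prod hu1 htc h8
    refine ⟨t * t', mul_mem ht ht', ?_⟩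
    have e1 : c' + (c + α - σ α - c') = c + α - σ α := by ring
    rw [e1] at h9
    intro x
    rw [h9, hd, rho, rho, S.hs.add_right, S.hs.smul_right]
    module
  rw [ha]
  by_cases hnon : ∃ v ∈ ann S.hs ψ V1 (S.WW M), f v v ≠ 0
  · obtain ⟨v, hv, hvv⟩ := hnon
    exact Or.inl (S.alpha ψ hv hvv)
  · push Not at hnon
    obtain ⟨v, hv, hv0⟩ : ∃ v ∈ ann S.hs ψ V1 (S.WW M), v ≠ 0 := by
      by_contra h
      push Not at h
      have h2 := (AddSubgroup.eq_bot_iff_forall _).2 h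
      rw [h2] at hWne
      simp at hWne
    rcases S.beta ψ hv hv0 hnon with h | h
    · exact Or.inr (Or.inl h)
    · exact Or.inr (Or.inr h)

end Cfsg.Agent.Lib.MinU
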