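import Mathlib
import Cfsg.Agent.Lib.MinUO
import Cfsg.Agent.Lib.MinUNum

/-!
# Minimal index of special unitary groups: the main theorem (helper98)
-/

set_option autoImplicit false
set_option linter.unusedSectionVars false

namespace Cfsg.Agent.Lib.MinU

open Cfsg.Agent.Lib Cfsg.Agent.Lib.UnTrans Cfsg.Agent.Lib.SubfUn
open Cfsg.Agent.Lib.SpTrans (isom mem_isom)

variable {F V : Type*} [Field F] [Finite F] [AddCommGroup V] [Module F V]
variable {σ : F →+* F} {f : V → V → F}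

theorem card_Ocl_zero (H : HS σ f) [Finite V] (U : Submodule F V) : Nat.card (Ocl f U 0) + 1 = cnt f U 0 := by
  classical
  have h1 : cnt f U 0 = Nat.card {x : {x : U // f (x : V) x = 0} // (x.1 : V) = 0} +
      Nat.card {x : {x : U // f (x : V) x = 0} // (x.1 : V) ≠ 0} := by
    rw [← Nat.card_sum]
    exact (Nat.card_congr (Equiv.sumCompl (fun x : {x : U // f (x : V) x = 0} => (x.1 : V) = 0))).symm
  have h2 : Nat.card {x : {x : U // f (x : V) x = 0} // (x.1 : V) = 0} = 1 := by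
    have : Unique {x : {x : U // f (x : V) x = 0} // (x.1 : V) = 0} :=
      { default := ⟨⟨0, H.zero_left _⟩, rfl⟩
        uniq := by
          rintro ⟨⟨⟨x, hx⟩, hxx⟩, hx0⟩
          have : x = 0 := hx0
          subst this
          rfl }
    exact Nat.card_unique
  have h3 : Nat.card (Ocl f U 0) = Nat.card {x : {x : U // f (x : V) x = 0} // (x.1 : V) ≠ 0} :=
    Nat.card_congr
      { toFun := fun x => ⟨⟨⟨x.1, x.2.1⟩, x.2.2.2⟩, x.2.2.1⟩
        invFun := fun x => ⟨x.1.1, x.1.1.2, x.2, x.1.2⟩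
        left_inv := fun _ => rfl
        right_inv := fun _ => rfl }
  omega

theorem card_Ocl_ne (H : HS σ f) [Finite V] (U : Submodule F V) {c : F} (hc : c ≠ 0) : Nat.card (Ocl f U c) = cnt f U c :=
  Nat.card_congr
    { toFun := fun x => ⟨⟨x.1, x.2.1⟩, x.2.2.2⟩
      invFun := fun x => ⟨x.1, x.1.2, fun h => hc (by
        have := x.2
        rw [← this, h, H.zero_left]), x.2⟩
      left_inv := fun _ => rfl
      right_inv := fun _ => rfl }

theorem card_ON (H : HS σ f) [Finite V] (U : Submodule F V) : Nat.card (ON f U) + cnt f U 0 = Nat.card U := by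
  classical
  have h1 : Nat.card U = Nat.card {x : U // f (x : V) x = 0} + Nat.card {x : U // f (x : V) x ≠ 0} := by
    rw [← Nat.card_sum]
    exact (Nat.card_congr (Equiv.sumCompl (fun x : U => f (x : V) x = 0))).symm
  have h3 : Nat.card (ON f U) = Nat.card {x : U // f (x : V) x ≠ 0} :=
    Nat.card_congr
      { toFun := fun x => ⟨⟨x.1, x.2.1⟩, x.2.2⟩
        invFun := fun x => ⟨x.1, x.1.2, x.2⟩
        left_inv := fun _ => rfl
        right_inv := fun _ => rfl }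
  rw [h1, h3, cnt]; ring

theorem Glob.main (G : Glob σ f) {M : Subgroup (V ≃ₗ[F] V)} (hM : M ≤ tgrp G.hs ⊤) (hne : ¬ tgrp G.hs ⊤ ≤ M) :
    Nat.card (IPt (F := F) f) ≤ M.relIndex (tgrp G.hs ⊤) ∨
    (Nat.card (EE σ) = 2 ∧ ∃ V1 : Submodule F V, Nd f V1 ∧ Module.finrank F V1 + 2 = Module.finrank F V ∧
      6 * Nat.card V1 + 4 * Nat.card (ON f V1) ≤ 3 * M.relIndex (tgrp G.hs ⊤)) := by
  classical
  by_contra hcon
  push Not at hcon
  obtain ⟨hXp, hB⟩ := hcon
  have H := G.hs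
  have := G.fd
  have := G.finite_V
  have := G.finite_G
  have hiso : M ≤ isom f := hM.trans (tgrp_le_isom G.hs ⊤)
  obtain ⟨d, hd⟩ : ∃ d, Module.finrank F V = d + 2 := ⟨Module.finrank F V - 2, by have := G.d6; omega⟩
  have hd4 : 4 ≤ d := by have := G.d6; omega
  set q := Nat.card (EE σ) with hqdef
  have hq2 : 2 ≤ q := one_lt_q H
  set X := M.relIndex (tgrp G.hs ⊤) with hX
  set p := Nat.card (IPt (F := F) f) with hpdef
  -- integers
  obtain ⟨ε, hε, hεd⟩ : ∃ ε : ℤ, (ε = 1 ∨ ε = -1) ∧ (-1 : ℤ) ^ d = ε := by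
    rcases neg_one_pow_eq_or ℤ d with h | h
    · exact ⟨1, Or.inl rfl, h⟩
    · exact ⟨-1, Or.inr rfl, h⟩
  have hqZ : (2 : ℤ) ≤ q := by exact_mod_cast hq2
  set P : ℤ := (q : ℤ) ^ d with hPdef
  have hP4 : (q : ℤ) ^ 4 ≤ P := pow_le_pow_right₀ (by omega) hd4
  have hcF : (Nat.card F : ℤ) = (q : ℤ) ^ 2 := by
    rw [card_F H]; push_cast; rfl
  have hform : ∀ V1 : Submodule F V, Nd f V1 → Module.finrank F V1 + 2 = Module.finrank F V →
      ((q : ℤ) * cnt f V1 0 = P ^ 2 + ε * (q - 1) * P) ∧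
      (∀ c, σ c = c → c ≠ 0 → (q : ℤ) * cnt f V1 c = P ^ 2 - ε * P) ∧ (Nat.card V1 : ℤ) = P ^ 2 := by
    intro V1 hV1 hk
    have hk' : Module.finrank F V1 = d := by omega
    obtain ⟨h1, h2⟩ := cnt_formula H d V1 hV1 hk'
    refine ⟨?_, ?_, ?_⟩
    · rw [← hεd, hPdef, ← pow_mul, mul_comm d 2]; exact h1
    · intro c hc hc0
      rw [← hεd, hPdef, ← pow_mul, mul_comm d 2]; exact h2 c hc hc0
    · have h3 : Nat.card V1 = q ^ (2 * d) := by
        rw [Module.natCard_eq_pow_finrank (K := F), card_F H, ← pow_mul, hk']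
      rw [h3, hPdef, ← pow_mul, mul_comm d 2]
      push_cast; rfl
  have hp : ((q : ℤ) ^ 2 - 1) * p = (q : ℤ) ^ 3 * P ^ 2 + ε * (q - 1) * q * P - 1 := by
    have h1 := card_IPt (F := F) H
    have h2 := card_Ocl_zero H (⊤ : Submodule F V)
    have h3 := (cnt_formula H (d + 2) ⊤ G.nd (by rw [finrank_top, hd])).1
    have h4 : (Nat.card (IPt (F := F) f) : ℤ) * ((Nat.card F : ℤ) - 1) = Nat.card (Ocl f (⊤ : Submodule F V) 0) := by
      have h5 : ((Nat.card F - 1 : ℕ) : ℤ) = (Nat.card F : ℤ) - 1 := by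
        have : 0 < Nat.card F := Nat.card_pos
        push_cast [Nat.cast_sub this]; ring
      rw [← h5, ← h1]; push_cast; ring
    have h6 : (Nat.card (Ocl f (⊤ : Submodule F V) 0) : ℤ) + 1 = cnt f (⊤ : Submodule F V) 0 := by exact_mod_cast h2
    have h7 : (q : ℤ) * cnt f (⊤ : Submodule F V) 0 = q * (q ^ 3 * P ^ 2 + ε * (q - 1) * q * P) := by
      rw [h3, pow_add (-1 : ℤ) d 2, hεd]
      have e1 : (q : ℤ) ^ (2 * (d + 2)) = P ^ 2 * q ^ 4 := by rw [hPdef]; ring
      have e2 : (q : ℤ) ^ (d + 2) = P * q ^ 2 := by rw [hPdef]; ring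
      rw [e1, e2]; ring
    have h8 := mul_left_cancel₀ (show (q : ℤ) ≠ 0 by omega) h7
    rw [hcF] at h4
    linear_combination h4 + h6 + h8
  -- M is small
  have hsm : Small G M := by
    refine ⟨hM, ?_, ?_⟩
    · intro V1 hV1 hk a ha ha0
      obtain ⟨h1, h2, h3⟩ := hform V1 hV1 hk
      refine lt_of_lt_of_le hXp ?_
      by_cases hc : f a a = 0
      · rw [hc]
        have h4 := card_Ocl_zero H V1
        have h5 : (Nat.card (Ocl f V1 0) : ℤ) = (cnt f V1 0 : ℤ) - 1 := by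
          have : (Nat.card (Ocl f V1 0) : ℤ) + 1 = cnt f V1 0 := by exact_mod_cast h4
          linear_combination this
        have h6 := Num.num1 hqZ hP4 hε h1 hp
        rw [← h5] at h6
        exact_mod_cast h6
      · rw [card_Ocl_ne H V1 hc]
        have h6 := Num.num2 hqZ hP4 hε (h2 _ (H.self_fixed a) hc) hp
        exact_mod_cast h6
    · refine lt_of_lt_of_le hXp ?_
      have h6 := Num.num3 hqZ hP4 hε hp
      rw [hd, Nat.add_sub_cancel]
      have e1 : P ^ 2 = ((q ^ (2 * d) : ℕ) : ℤ) := by rw [hPdef]; push_cast; ring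
      rw [e1] at h6
      exact_mod_cast h6
  -- an isotropic vector
  obtain ⟨e1, -, -, he11, y1, -, -, hey1⟩ := H.exists_hyp G.nd G.d4 (Submodule.zero_mem _)
  have he10 : e1 ≠ 0 := by rintro rfl; rw [H.zero_left] at hey1; exact hey1 rfl
  -- no full `Q(e)`
  have hnoQQ : ∀ e, e ≠ 0 → f e e = 0 → ¬ QQ σ f M e := by
    intro e he0 hee hQ
    have h1 := G.le_of_fix he0 hee (M := M) fun m hm => G.fix_of_QQ hsm hne he0 hee hQ hm
    omega
  obtain ⟨η, hη0, hη⟩ := H.exists_tr0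
  -- some `Z(e)` in `M`
  obtain ⟨e, he0, hee, hZ⟩ : ∃ e, e ≠ 0 ∧ f e e = 0 ∧ ZM σ f M e := by
    by_contra hno
    push Not at hno
    have hall : ∀ e, e ≠ 0 → f e e = 0 → QM f M e := fun e he0 hee =>
      (G.dich hsm he0 hee).resolve_left (hno e he0 hee)
    obtain ⟨e', V1, S, hk⟩ := G.ctx he10 he11
    refine S.lemN hη0 hη hiso hall ?_
    obtain ⟨-, -, h3⟩ := hform V1 S.nd1 hk
    refine lt_of_lt_of_le hXp ?_
    have h6 := Num.num3 hqZ hP4 hε hp
    rw [← h3] at h6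
    have h7 : (Nat.card V1 : ℤ) * (q + 1) ≤ Nat.card V1 * (2 * q) := by
      have : (0 : ℤ) ≤ Nat.card V1 := by positivity
      nlinarith
    have h8 : (p : ℤ) ≤ 2 * (Nat.card V1 * q) := by linarith
    exact_mod_cast h8
  obtain ⟨e2, he20, he22, hQ2⟩ : ∃ e, e ≠ 0 ∧ f e e = 0 ∧ QM f M e := by
    by_contra hno
    push Not at hno
    exact hne (G.top_of_all fun v hv0 hvv => (G.dich hsm hv0 hvv).resolve_right (hno v hv0 hvv))
  obtain ⟨e', V1, S, hk⟩ := G.ctx he0 hee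
  obtain ⟨T, N, hN, hT, hcases⟩ := S.final hM hZ (hnoQQ e he0 hee) he20 he22 hQ2
  obtain ⟨hz, -, hV⟩ := hform V1 S.nd1 hk
  have hON := card_ON H V1
  have hO0 := card_Ocl_zero H V1
  have hT' : (q : ℤ) * P ^ 2 + T ≤ X := by
    have : ((Nat.card V1 * q + T : ℕ) : ℤ) ≤ X := by exact_mod_cast hT
    rw [← hV]
    push_cast at this
    linarith
  have hON' : (Nat.card (ON f V1) : ℤ) = P ^ 2 - cnt f V1 0 := by
    have : (Nat.card (ON f V1) : ℤ) + cnt f V1 0 = Nat.card V1 := by exact_mod_cast hON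
    rw [← hV]; linarith
  have hO0' : (Nat.card (Ocl f V1 0) : ℤ) = (cnt f V1 0 : ℤ) - 1 := by
    have : (Nat.card (Ocl f V1 0) : ℤ) + 1 = cnt f V1 0 := by exact_mod_cast hO0
    linarith
  have hXp' : (X : ℤ) < p := by exact_mod_cast hXp
  rcases hcases with ⟨h1, h2⟩ | h1 | h1
  · by_cases hq : q = 2
    · have h3 := h2 hq
      have h4 := hB hq V1 S.nd1 hk
      rw [← hqdef, hq, ← hX] at hT
      omega
    · have hq3 : (3 : ℤ) ≤ q := by omega
      have h4 := Num.num4 hq3 hP4 hε hz hp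
      have h5 : (Nat.card (ON f V1) : ℤ) + N ≤ T := by exact_mod_cast h1
      have h6 : (1 : ℤ) ≤ N := by exact_mod_cast hN
      rw [hON'] at h5
      linarith
  · have h4 := Num.num5 hqZ hP4 hε hz hp
    have h5 : 2 * (Nat.card (Ocl f V1 0) : ℤ) + N ≤ T := by exact_mod_cast h1
    have h6 : (1 : ℤ) ≤ N := by exact_mod_cast hN
    rw [hO0'] at h5
    linarith
  · have h5 : (q : ℤ) ^ 2 * ((cnt f V1 0 : ℤ) - 1) ≤ ((q : ℤ) ^ 2 - 1) * T := by
      have h6 : ((Nat.card F - 1 : ℕ) : ℤ) = (Nat.card F : ℤ) - 1 := by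
        have : 0 < Nat.card F := Nat.card_pos
        push_cast [Nat.cast_sub this]; ring
      have h7 : ((Nat.card F * Nat.card (Ocl f V1 0) : ℕ) : ℤ) ≤ (((Nat.card F - 1) * T : ℕ) : ℤ) := by
        exact_mod_cast h1
      rw [Nat.cast_mul, Nat.cast_mul, h6, hcF, hO0'] at h7
      exact h7
    have h6 := Num.num6 hqZ hz hp h5
    have h7 : X + 1 = p := by
      have : (p : ℤ) ≤ X + 1 := by linarith
      omega
    exact G.ne_pred hM he0 hee hZ he20 he22 hQ2 h7

end Cfsg.Agent.Lib.MinU
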