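import Mathlib
import Cfsg.Agent.Lib.MinUP
import Cfsg.Agent.Lib.ClUnSimple
import Cfsg.Agent.Lib.ClUnitary2
import Cfsg.Agent.Lib.UnBridge

/-!
# Minimal index of `PSU_n(q)`: passage to the concrete groups (helper98)
-/

set_option autoImplicit false
set_option linter.unusedSectionVars false

namespace Cfsg.Agent.Lib.MinU

open Cfsg Cfsg.Agent.Lib Cfsg.Agent.Lib.UnTrans Cfsg.Agent.Lib.SubfUn Cfsg.Agent.Lib.UnBridge Cfsg.Agent.Lib.ClUnitary
open Cfsg.Agent.Lib.SpTrans (isom mem_isom)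

section abs
variable {F V : Type*} [Field F] [Finite F] [AddCommGroup V] [Module F V]
variable {σ : F →+* F} {f : V → V → F}

/-- points spanned by vectors of norm `c` -/
def PtC (F : Type*) {V : Type*} [Field F] [AddCommGroup V] [Module F V] (f : V → V → F) (c : F) : Set (Submodule F V) :=
  {L | ∃ v, v ≠ 0 ∧ f v v = c ∧ L = Submodule.span F {v}}

theorem relIndex_pt (H : HS σ f) (hnd : Nd f (⊤ : Submodule F V)) [FiniteDimensional F V]
    (hd : 4 ≤ Module.finrank F V) {e : V} (he0 : e ≠ 0) :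
    (stL e).relIndex (tgrp H ⊤) = Nat.card (PtC F f (f e e)) := by
  have hd' : 4 ≤ Module.finrank F (⊤ : Submodule F V) := by rwa [finrank_top]
  have : Finite V := Module.finite_of_finite F
  have : Finite (V ≃ₗ[F] V) := Finite.of_injective (fun g : V ≃ₗ[F] V => (g : V → V)) DFunLike.coe_injective
  have : Finite (PtC F f (f e e)) := by
    have h : Finite (Submodule F V) := Finite.of_injective (fun U : Submodule F V => (U : Set V)) SetLike.coe_injective
    infer_instance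
  refine Nat.card_congr (Equiv.ofBijective (Quotient.lift (s := QuotientGroup.leftRel ((stL e).subgroupOf (tgrp H ⊤)))
    (fun g => (⟨Submodule.span F {(g : V ≃ₗ[F] V) e}, (g : V ≃ₗ[F] V) e, by simpa using he0,
      tgrp_le_isom H ⊤ g.2 e e, rfl⟩ : PtC F f (f e e))) ?_) ⟨?_, ?_⟩)
  · intro a b hab
    have h1 : a⁻¹ * b ∈ (stL e).subgroupOf (tgrp H ⊤) := QuotientGroup.leftRel_apply.1 hab
    have h2 : Submodule.span F {((a : V ≃ₗ[F] V)⁻¹ * (b : V ≃ₗ[F] V)) e} = Submodule.span F {e} := h1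
    apply Subtype.ext
    show Submodule.span F {(a : V ≃ₗ[F] V) e} = Submodule.span F {(b : V ≃ₗ[F] V) e}
    have h3 := congrArg (Submodule.map ((a : V ≃ₗ[F] V) : V →ₗ[F] V)) h2
    rw [Submodule.map_span, Submodule.map_span, Set.image_singleton, Set.image_singleton] at h3
    have h4 : ((a : V ≃ₗ[F] V) : V →ₗ[F] V) (((a : V ≃ₗ[F] V)⁻¹ * (b : V ≃ₗ[F] V)) e) = (b : V ≃ₗ[F] V) e := by
      rw [LinearEquiv.mul_apply]; exact apply_inv _ _
    rw [h4] at h3
    exact h3.symm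
  · rintro ⟨a⟩ ⟨b⟩ hab
    have h1 : Submodule.span F {(a : V ≃ₗ[F] V) e} = Submodule.span F {(b : V ≃ₗ[F] V) e} := congrArg Subtype.val hab
    apply QuotientGroup.eq.2
    show (a : V ≃ₗ[F] V)⁻¹ * (b : V ≃ₗ[F] V) ∈ stL e
    rw [mem_stL]
    have h3 := congrArg (Submodule.map (((a : V ≃ₗ[F] V)⁻¹ : V ≃ₗ[F] V) : V →ₗ[F] V)) h1
    rw [Submodule.map_span, Submodule.map_span, Set.image_singleton, Set.image_singleton] at h3
    have h4 : (((a : V ≃ₗ[F] V)⁻¹ : V ≃ₗ[F] V) : V →ₗ[F] V) ((a : V ≃ₗ[F] V) e) = e := inv_apply_self' _ _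
    rw [h4] at h3
    exact h3.symm
  · rintro ⟨_, v, hv0, hvv, rfl⟩
    obtain ⟨g, hg, hge⟩ := exists_move H hnd hd' (x := e) (y := v) trivial trivial he0 hv0 hvv.symm
    refine ⟨((⟨g, hg⟩ : tgrp H ⊤) : tgrp H ⊤ ⧸ (stL e).subgroupOf (tgrp H ⊤)), ?_⟩
    apply Subtype.ext
    show Submodule.span F {g e} = _
    rw [hge]

theorem card_PtC_one (H : HS σ f) [Finite V] : Nat.card (PtC F f 1) * (Nat.card (EE σ) + 1) = cnt f (⊤ : Submodule F V) 1 := by
  classical
  rw [← norm_fiber H (s := 1) (map_one σ) one_ne_zero, ← Nat.card_prod]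
  choose v hv0 hvv hvL using (fun L : PtC F f 1 => L.2)
  refine Nat.card_congr (Equiv.ofBijective (fun p : PtC F f 1 × {l : F // l * σ l = 1} => (⟨⟨(p.2 : F) • v p.1, trivial⟩, by
    show f ((p.2 : F) • v p.1) ((p.2 : F) • v p.1) = 1
    rw [H.smul_left, H.smul_right, hvv, mul_one]; exact p.2.2⟩ :
      {x : (⊤ : Submodule F V) // f (x : V) x = 1})) ⟨?_, ?_⟩)
  · rintro ⟨L, l⟩ ⟨L', l'⟩ h
    have h2 : (l : F) • v L = (l' : F) • v L' :=
      congrArg (fun z : {x : (⊤ : Submodule F V) // f (x : V) x = 1} => ((z : (⊤ : Submodule F V)) : V)) h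
    have hl0 : (l : F) ≠ 0 := by intro h0; have := l.2; rw [h0, zero_mul] at this; exact zero_ne_one this
    have hl0' : (l' : F) ≠ 0 := by intro h0; have := l'.2; rw [h0, zero_mul] at this; exact zero_ne_one this
    have h3 : L = L' := by
      apply Subtype.ext
      rw [hvL L, hvL L', ← Submodule.span_singleton_smul_eq (IsUnit.mk0 _ hl0) (v L), h2,
        Submodule.span_singleton_smul_eq (IsUnit.mk0 _ hl0') (v L')]
    subst h3
    have h4 : ((l : F) - l') • v L = 0 := by rw [sub_smul, h2, sub_self]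
    rcases smul_eq_zero.1 h4 with h | h
    · rw [Subtype.ext (sub_eq_zero.1 h)]
    · exact absurd h (hv0 L)
  · rintro ⟨⟨w, -⟩, hww⟩
    have hww' : f w w = 1 := hww
    have hw0 : w ≠ 0 := by rintro rfl; rw [H.zero_left] at hww'; exact zero_ne_one hww'
    let L : PtC F f 1 := ⟨Submodule.span F {w}, w, hw0, hww', rfl⟩
    have h2 : w ∈ Submodule.span F {v L} := by
      rw [← hvL L]
      exact Submodule.mem_span_singleton_self w
    obtain ⟨l, hl⟩ := Submodule.mem_span_singleton.1 h2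
    have hl1 : l * σ l = 1 := by
      have h5 : f (l • v L) (l • v L) = 1 := by rw [hl]; exact hww'
      rw [H.smul_left, H.smul_right, hvv, mul_one] at h5
      exact h5
    exact ⟨(L, ⟨l, hl1⟩), Subtype.ext (Subtype.ext hl)⟩

end abs

section conc
variable {F : Type*} [Field F] [Fintype F] {q n : ℕ}

theorem glob (hF : Fintype.card F = q ^ 2) (hn : 6 ≤ n) : Glob (sig hF) (hermForm n F q) :=
  ⟨herm_HS n hF, herm_nd n hF, inferInstance, by rw [Module.finrank_fin_fun]; exact hn⟩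

theorem SUg_eq (hF : Fintype.card F = q ^ 2) (hn : 4 ≤ n) : ClUnSimple.SUg n F q = tgrp (herm_HS n hF) ⊤ := by
  apply le_antisymm
  · intro g hg
    exact su_le (herm_HS n hF) (herm_nd n hF) (by rw [Module.finrank_fin_fun]; exact hn) (fun u v => hg.1 u v) hg.2
  · intro g hg
    exact ⟨fun u v => tgrp_le_isom (herm_HS n hF) ⊤ hg u v, tgrp_det (herm_HS n hF) hg⟩

theorem card_EE_sig (hF : Fintype.card F = q ^ 2) : Nat.card (EE (sig hF)) = q := by
  have h1 := card_F (herm_HS 1 hF)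
  rw [Nat.card_eq_fintype_card, hF] at h1
  exact (Nat.pow_left_injective (n := 2) (by norm_num) h1).symm

theorem psu_pull {H : Subgroup (PSU n F q)} (hH : H ≠ ⊤) : ∃ M : Subgroup ((Fin n → F) ≃ₗ[F] (Fin n → F)),
    M ≤ ClUnSimple.SUg n F q ∧ M.relIndex (ClUnSimple.SUg n F q) = H.index ∧ ¬ ClUnSimple.SUg n F q ≤ M := by
  let K : Subgroup (SU n F q) := H.comap (QuotientGroup.mk' _)
  have h1 : K.index = H.index := Subgroup.index_comap_of_surjective _ (QuotientGroup.mk'_surjective _)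
  let K' : Subgroup (ClUnSimple.SUg n F q) := K.map (ClUnSimple.suIso n F q : SU n F q →* ClUnSimple.SUg n F q)
  have h2 : K'.index = K.index := Subgroup.index_map_equiv K _
  have h3 : (K'.map (ClUnSimple.SUg n F q).subtype).relIndex (ClUnSimple.SUg n F q) = K'.index := by
    rw [Subgroup.relIndex]
    congr 1
    exact Subgroup.comap_map_eq_self_of_injective (Subgroup.subtype_injective _) K'
  refine ⟨K'.map (ClUnSimple.SUg n F q).subtype, Subgroup.map_subtype_le K', by rw [h3, h2, h1], ?_⟩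
  intro hle
  apply hH
  rw [← Subgroup.index_eq_one, ← h1, ← h2, ← h3]
  exact Subgroup.relIndex_eq_one.2 hle

theorem psu_push (hF : Fintype.card F = q ^ 2) (hn : 2 ≤ n) (M : Subgroup ((Fin n → F) ≃ₗ[F] (Fin n → F)))
    (hM : ∀ g : (Fin n → F) ≃ₗ[F] (Fin n → F), (∃ c : F, ∀ v, g v = c • v) → g ∈ M) :
    ∃ H : Subgroup (PSU n F q), H.index = M.relIndex (ClUnSimple.SUg n F q) := by
  let K' : Subgroup (ClUnSimple.SUg n F q) := M.subgroupOf _
  let K : Subgroup (SU n F q) := K'.comap (ClUnSimple.suIso n F q : SU n F q →* ClUnSimple.SUg n F q)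
  have h1 : K.index = K'.index := Subgroup.index_comap_of_surjective _ (ClUnSimple.suIso n F q).surjective
  refine ⟨K.map (QuotientGroup.mk' _), ?_⟩
  rw [Subgroup.index_map_eq _ (QuotientGroup.mk'_surjective _), h1]
  · rfl
  · rw [QuotientGroup.ker_mk']
    intro g hg
    obtain ⟨c, hc⟩ := (center_SU hF hn g).1 hg
    show ((ClUnSimple.suIso n F q g : ClUnSimple.SUg n F q) : (Fin n → F) ≃ₗ[F] (Fin n → F)) ∈ M
    apply hM
    refine ⟨c, fun v => ?_⟩
    rw [ClUnSimple.suIso_apply, hc]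
    ext i
    simp [Matrix.mulVec, dotProduct, Matrix.diagonal_apply]

theorem scalar_mem_stL (v : Fin n → F) (hv : v ≠ 0) (g : (Fin n → F) ≃ₗ[F] (Fin n → F)) (hg : ∃ c : F, ∀ v, g v = c • v) :
    g ∈ stL v := by
  obtain ⟨c, hc⟩ := hg
  rw [mem_stL, hc v]
  have hc0 : c ≠ 0 := by
    rintro rfl
    have := hc v
    rw [zero_smul] at this
    exact hv ((LinearEquiv.map_eq_zero_iff g).1 this)
  exact Submodule.span_singleton_smul_eq (IsUnit.mk0 c hc0) v

theorem cnt_top (hF : Fintype.card F = q ^ 2) :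
    ((q : ℤ) * cnt (hermForm n F q) (⊤ : Submodule F (Fin n → F)) 0 = (q : ℤ) ^ (2 * n) +
        (-1) ^ n * ((q : ℤ) - 1) * (q : ℤ) ^ n) ∧
    (q : ℤ) * cnt (hermForm n F q) (⊤ : Submodule F (Fin n → F)) 1 =
      (q : ℤ) ^ (2 * n) - (-1) ^ n * (q : ℤ) ^ n := by
  have h := cnt_formula (herm_HS n hF) n ⊤ (herm_nd n hF) (by rw [finrank_top, Module.finrank_fin_fun])
  rw [card_EE_sig hF] at h
  exact ⟨h.1, h.2 1 (map_one _) one_ne_zero⟩

/-- the number of isotropic points -/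
theorem card_IPt_formula (hF : Fintype.card F = q ^ 2) {m : ℕ} (hm : n = m + 1) :
    (Nat.card (IPt (F := F) (hermForm n F q)) : ℤ) * ((q : ℤ) ^ 2 - 1) =
      ((q : ℤ) ^ n - (-1) ^ n) * ((q : ℤ) ^ m + (-1) ^ n) := by
  have H := herm_HS n hF
  have h1 := card_IPt (F := F) H
  have h2 := card_Ocl_zero H (⊤ : Submodule F (Fin n → F))
  have h3 := (cnt_top (n := n) hF).1
  have hq := UnBridge.one_lt_q hF
  have hcF : (Nat.card F : ℤ) = (q : ℤ) ^ 2 := by
    rw [Nat.card_eq_fintype_card, hF]; push_cast; rfl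
  have h5 : ((Nat.card F - 1 : ℕ) : ℤ) = (q : ℤ) ^ 2 - 1 := by
    have : 0 < Nat.card F := Nat.card_pos
    rw [← hcF]
    push_cast [Nat.cast_sub this]; ring
  have h4 : (Nat.card (IPt (F := F) (hermForm n F q)) : ℤ) * ((q : ℤ) ^ 2 - 1) =
      Nat.card (Ocl (hermForm n F q) (⊤ : Submodule F (Fin n → F)) 0) := by
    rw [← h5, ← h1]; push_cast; ring
  have h6 : (Nat.card (Ocl (hermForm n F q) (⊤ : Submodule F (Fin n → F)) 0) : ℤ) + 1 =
      cnt (hermForm n F q) (⊤ : Submodule F (Fin n → F)) 0 := by exact_mod_cast h2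
  apply mul_left_cancel₀ (show (q : ℤ) ≠ 0 by omega)
  rw [h4]
  have e1 : (q : ℤ) ^ n = q * q ^ m := by rw [hm, pow_succ]; ring
  have e2 : (q : ℤ) ^ (2 * n) = (q : ℤ) ^ n * q ^ n := by rw [two_mul, pow_add]
  have e3 : ((-1 : ℤ) ^ n) * (-1) ^ n = 1 := by rw [← mul_pow]; simp
  rw [e2, e1] at h3
  rw [e1]
  linear_combination (q : ℤ) * h6 + h3 + (q : ℤ) * e3

end conc

end Cfsg.Agent.Lib.MinU
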