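import Mathlib
import Cfsg.Agent.Lib.MinVA

/-!
# Minimal index of `SU_5(q)`: the families of cosets (helper98)
-/

set_option autoImplicit false
set_option linter.unusedSectionVars false

namespace Cfsg.Agent.Lib.MinU

open Cfsg.Agent.Lib Cfsg.Agent.Lib.UnTrans Cfsg.Agent.Lib.SubfUn
open Cfsg.Agent.Lib.SpTrans (isom mem_isom)

variable {F V : Type*} [Field F] [Finite F] [AddCommGroup V] [Module F V]
variable {σ : F →+* F} {f : V → V → F}

namespace C3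
variable {e e' : V} {V1 : Submodule F V} (S : C3 σ f e e' V1)

/-- the image of `M ∩ Q(e)` in `V1` -/
def WW (M : Subgroup (V ≃ₗ[F] V)) : AddSubgroup V where
  carrier := {u | u ∈ V1 ∧ ∃ t ∈ M, ∃ c, IsR f t e u c}
  zero_mem' := ⟨V1.zero_mem, 1, one_mem _, 0, IsR.one S.hs e⟩
  add_mem' := by
    rintro u v ⟨hu, t, ht, c, hc⟩ ⟨hv, t', ht', c', hc'⟩
    exact ⟨V1.add_mem hu hv, t * t', mul_mem ht ht', _, IsR.mul S.hs S.ee (S.perp_e hu) (S.perp_e hv) hc hc'⟩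
  neg_mem' := by
    rintro u ⟨hu, t, ht, c, hc⟩
    exact ⟨V1.neg_mem hu, t⁻¹, inv_mem ht, _, IsR.inv S.hs S.ee (S.perp_e hu) hc⟩

theorem mem_WW {M : Subgroup (V ≃ₗ[F] V)} {u : V} : u ∈ S.WW M ↔ u ∈ V1 ∧ ∃ t ∈ M, ∃ c, IsR f t e u c := Iff.rfl

theorem WW_le (M : Subgroup (V ≃ₗ[F] V)) : S.WW M ≤ V1.toAddSubgroup := fun _ h => h.1

/-- the image of `M ∩ Z(e)` in the fixed field -/
def CC (η : F) (M : Subgroup (V ≃ₗ[F] V)) : AddSubgroup (EE σ) where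
  carrier := {x | ∃ t ∈ M, IsR f t e 0 (η * x)}
  zero_mem' := ⟨1, one_mem _, by
    have := IsR.one S.hs e
    simpa using this⟩
  add_mem' := by
    rintro x y ⟨t, ht, hc⟩ ⟨t', ht', hc'⟩
    refine ⟨t * t', mul_mem ht ht', ?_⟩
    have := IsR.mul S.hs S.ee (S.hs.zero_left e) (S.hs.zero_left e) hc hc'
    rw [add_zero, S.hs.zero_left, sub_zero, ← mul_add] at this
    exact this
  neg_mem' := by
    rintro x ⟨t, ht, hc⟩
    refine ⟨t⁻¹, inv_mem ht, ?_⟩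
    have := IsR.inv S.hs S.ee (S.hs.zero_left e) hc
    rw [neg_zero, S.hs.zero_left, sub_zero, ← mul_neg] at this
    exact this

theorem mem_CC {η : F} {M : Subgroup (V ≃ₗ[F] V)} {x : EE σ} : x ∈ S.CC η M ↔ ∃ t ∈ M, IsR f t e 0 (η * x) := Iff.rfl

include S

/-- the core computation -/
theorem core0 {κ r r' : V ≃ₗ[F] V} {l : F} (hκ : κ ∈ isom f)
    (hκe : κ e = l • e) {v v' : V} {d d' : F} (hv : v ∈ V1) (hv' : v' ∈ V1)
    (hr : IsR f r e v d) (hr' : IsR f r' e v' d') (hκV : ∀ u ∈ V1, κ u ∈ V1)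
    {t : V ≃ₗ[F] V} {u : V} {c : F} (hu : u ∈ V1) (h : IsR f t e u c) :
    ∃ c', IsR f ((r * κ * r') * t * (r * κ * r')⁻¹) e (σ l • κ u) c' ∧ (u = 0 → c' = c * (l * σ l)) := by
  have h1 := IsR.conjR S.hs S.ee (S.perp_e hu) (S.perp_e hv') hr' h
  have h2 := IsR.conj S.hs hκ h1
  rw [hκe] at h2
  have h3 := IsR.smul S.hs h2
  have h4 := IsR.conjR S.hs S.ee (S.perp_e (V1.smul_mem _ (hκV u hu))) (S.perp_e hv) hr h3
  have e1 : (r * κ * r') * t * (r * κ * r')⁻¹ = r * (κ * (r' * t * r'⁻¹) * κ⁻¹) * r⁻¹ := by group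
  rw [← e1] at h4
  refine ⟨_, h4, ?_⟩
  rintro rfl
  rw [map_zero, smul_zero, S.hs.zero_left, S.hs.zero_left, S.hs.zero_right, S.hs.zero_right]; ring

/-- an element `r κ r'` of `M` acts on `M ∩ Q(e)` like `κ` -/
theorem core {M : Subgroup (V ≃ₗ[F] V)} {κ r r' : V ≃ₗ[F] V} {l : F} (hκ : κ ∈ isom f)
    (hκe : κ e = l • e) {v v' : V} {d d' : F} (hv : v ∈ V1) (hv' : v' ∈ V1)
    (hr : IsR f r e v d) (hr' : IsR f r' e v' d') (hκV : ∀ u ∈ V1, κ u ∈ V1)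
    (hm : r * κ * r' ∈ M) {t : V ≃ₗ[F] V} (ht : t ∈ M) {u : V} {c : F} (hu : u ∈ V1) (h : IsR f t e u c) :
    ∃ t' ∈ M, ∃ c', IsR f t' e (σ l • κ u) c' ∧ (u = 0 → c' = c * (l * σ l)) := by
  obtain ⟨c', h1, h2⟩ := S.core0 hκ hκe hv hv' hr hr' hκV hu h
  exact ⟨_, mul_mem (mul_mem hm ht) (inv_mem hm), c', h1, h2⟩

theorem uniq {t t' : V ≃ₗ[F] V} {u u' : V} {c c' : F} (hu : u ∈ V1) (hu' : u' ∈ V1) (h : IsR f t e u c)
    (h' : IsR f t' e u' c') (htt : t = t') : u = u' ∧ c = c' := by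
  have h1 := S.isR_apply_e' hu h
  have h2 := S.isR_apply_e' hu' h'
  rw [htt, h2] at h1
  have h3 : (u' - u) + (c' - c) • e = 0 := by
    rw [sub_smul]
    have := sub_eq_zero.2 h1
    rw [← this]; abel
  have h4 : f ((u' - u) + (c' - c) • e) e' = 0 := by rw [h3, S.hs.zero_left]
  rw [S.hs.add_left, S.hs.smul_left, S.ep, S.perp_e' (V1.sub_mem hu' hu), zero_add, mul_one] at h4
  rw [h4, zero_smul, add_zero] at h3
  exact ⟨(sub_eq_zero.1 h3).symm, (sub_eq_zero.1 h4).symm⟩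

end C3

namespace C3
variable {e e' : V} {V1 : Submodule F V} (S : C3 σ f e e' V1)

/-- the index of `W` in `V1` -/
noncomputable def idW (S : C3 σ f e e' V1) (M : Subgroup (V ≃ₗ[F] V)) : ℕ :=
  Nat.card (V1.toAddSubgroup ⧸ (S.WW M).addSubgroupOf V1.toAddSubgroup)

theorem idW_mul (M : Subgroup (V ≃ₗ[F] V)) : S.idW M * Nat.card (S.WW M) = Nat.card V1 := by
  have h1 := AddSubgroup.card_eq_card_quotient_mul_card_addSubgroup ((S.WW M).addSubgroupOf V1.toAddSubgroup)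
  have h2 : Nat.card ((S.WW M).addSubgroupOf V1.toAddSubgroup) = Nat.card (S.WW M) :=
    Nat.card_congr (AddSubgroup.addSubgroupOfEquivOfLe (S.WW_le M)).toEquiv
  rw [h2] at h1
  exact h1.symm

include S

theorem isR_prod {r z : V ≃ₗ[F] V} {u : V} {c d : F} (hu : u ∈ V1) (hr : IsR f r e u c) (hz : IsR f z e 0 d) :
    IsR f (r * z) e u (c + d) := by
  have := IsR.mul S.hs S.ee (S.perp_e hu) (S.hs.zero_left e) hr hz
  rwa [add_zero, S.hs.zero_left, sub_zero] at this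

theorem isR_inv_mul {r r' : V ≃ₗ[F] V} {u u' : V} {c c' : F} (hu : u ∈ V1) (hu' : u' ∈ V1) (hr : IsR f r e u c)
    (hr' : IsR f r' e u' c') : ∃ d, IsR f (r⁻¹ * r') e (-u + u') d :=
  ⟨_, IsR.mul S.hs S.ee (S.perp_e (V1.neg_mem hu)) (S.perp_e hu') (IsR.inv S.hs S.ee (S.perp_e hu) hr) hr'⟩

theorem isZ_inv_mul {r r' : V ≃ₗ[F] V} {c c' : F} (hr : IsR f r e 0 c)
    (hr' : IsR f r' e 0 c') : IsR f (r⁻¹ * r') e 0 (-c + c') := by
  have := IsR.mul S.hs S.ee (by rw [neg_zero, S.hs.zero_left]) (S.hs.zero_left e)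
    (IsR.inv S.hs S.ee (S.hs.zero_left e) hr) hr'
  rw [neg_zero, S.hs.zero_left, add_zero, sub_zero, sub_zero] at this
  exact this

theorem exists_R' {u : V} (hu : u ∈ V1) : ∃ t ∈ tgrp S.hs ⊤, ∃ c, c + σ c + f u u = 0 ∧ IsR f t e u c := by
  obtain ⟨c, hc⟩ := S.exists_c u
  obtain ⟨t, ht, h⟩ := S.exists_R S.ee (S.perp_e hu) hc
  exact ⟨t, ht, c, hc, h⟩

theorem eta_cond {η : F} (hη : η + σ η = 0) (x : EE σ) : η * x + σ (η * x) = 0 := by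
  have := x.2
  rw [mem_EE] at this
  rw [map_mul, this]
  linear_combination (x : F) * hη

theorem exists_Z {η : F} (hη : η + σ η = 0) (x : EE σ) : ∃ t ∈ tgrp S.hs ⊤, IsR f t e 0 (η * x) := by
  refine S.exists_R S.ee (S.hs.zero_left e) ?_
  rw [S.hs.zero_left, add_zero, S.eta_cond hη]

/-- the parabolic subgroup -/
def PP (S : C3 σ f e e' V1) : Subgroup (V ≃ₗ[F] V) := tgrp S.hs ⊤ ⊓ stL e

theorem mem_PP_T {t : V ≃ₗ[F] V} {l : F} (ht : t ∈ tgrp S.hs ⊤) (hl : l ≠ 0) (hte : t e = l • e) :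
    t ∈ S.PP := by
  refine ⟨ht, ?_⟩
  show t ∈ stL e
  rw [mem_stL, hte]
  exact Submodule.span_singleton_smul_eq (IsUnit.mk0 l hl) e

theorem mem_PP_L {t : V ≃ₗ[F] V} (ht : t ∈ S.L) : t ∈ S.PP :=
  S.mem_PP_T (S.L_le ht) one_ne_zero (by rw [S.L_e ht, one_smul])

theorem mem_PP_R {t : V ≃ₗ[F] V} {u : V} {c : F} (hu : u ∈ V1) (ht : t ∈ tgrp S.hs ⊤) (h : IsR f t e u c) : t ∈ S.PP :=
  S.mem_PP_T ht one_ne_zero (by rw [S.isR_apply_e hu h, one_smul])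

/-- the first family -/
theorem I1 {η : F} (hη0 : η ≠ 0) (hη : η + σ η = 0) (M : Subgroup (V ≃ₗ[F] V)) :
    S.idW M * (Nat.card (EE σ ⧸ S.CC η M) * (Nat.card (orb (S.L) (S.WW M)) *
      Nat.card (Set.range fun δ : (EE σ)ˣ => ml (S.CC η M) δ))) ≤ M.relIndex S.PP := by
  classical
  have := S.finite_V
  have := S.finite_G
  have hR : ∀ q : V1.toAddSubgroup ⧸ (S.WW M).addSubgroupOf V1.toAddSubgroup, ∃ t ∈ tgrp S.hs ⊤, ∃ c,
      IsR f t e (q.out : V) c := fun q => by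
    obtain ⟨t, ht, c, -, h⟩ := S.exists_R' q.out.2
    exact ⟨t, ht, c, h⟩
  have hZ : ∀ z : EE σ ⧸ S.CC η M, ∃ t ∈ tgrp S.hs ⊤, IsR f t e 0 (η * z.out) := fun z => S.exists_Z hη _
  have hT : ∀ D : Set.range fun δ : (EE σ)ˣ => ml (S.CC η M) δ, ∃ t ∈ tgrp S.hs ⊤, ∃ l : F, ∃ δ : (EE σ)ˣ,
      l ≠ 0 ∧ l * σ l = δ ∧ t e = l • e ∧ t e' = (σ l)⁻¹ • e' ∧ ml (S.CC η M) δ = D := by
    rintro ⟨_, δ, rfl⟩
    obtain ⟨l, hl⟩ := S.hs.norm (δ : EE σ) (δ : EE σ).2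
    have hl0 : l ≠ 0 := by
      rintro rfl
      rw [zero_mul] at hl
      exact δ.ne_zero (Subtype.ext hl.symm)
    obtain ⟨t, ht, h1, h2⟩ := S.exists_T hl0
    exact ⟨t, ht, l, δ, hl0, hl, h1, h2, rfl⟩
  choose R hRm cR hR using hR
  choose Z hZm hZ using hZ
  choose T hTm lT δT hl0 hlδ hTe hTe' hTD using hT
  choose! L hLm hL using (fun Y : orb (S.L) (S.WW M) => Y.2)
  have key := card_le_relIndex (ι := (V1.toAddSubgroup ⧸ (S.WW M).addSubgroupOf V1.toAddSubgroup) ×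
    ((EE σ ⧸ S.CC η M) × ((orb (S.L) (S.WW M)) × (Set.range fun δ : (EE σ)ˣ => ml (S.CC η M) δ))))
    M S.PP (fun i => T i.2.2.2 * L i.2.2.1 * (R i.1 * Z i.2.1))
    (fun i => mul_mem (mul_mem (S.mem_PP_T (hTm _) (hl0 _) (hTe _)) (S.mem_PP_L (hLm _)))
      (mul_mem (S.mem_PP_R (Submodule.coe_mem _) (hRm _) (hR _)) (S.mem_PP_R V1.zero_mem (hZm _) (hZ _)))) ?_
  · rw [Nat.card_prod, Nat.card_prod, Nat.card_prod] at key
    exact key
  rintro ⟨q, z, Y, D⟩ ⟨q', z', Y', D'⟩ h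
  simp only at h
  have hq : (q.out : V) ∈ V1 := q.out.2
  have hq' : (q'.out : V) ∈ V1 := q'.out.2
  have hRZ := S.isR_prod hq (hR q) (hZ z)
  have hRZ' := S.isR_prod hq' (hR q') (hZ z')
  have hRZi := IsR.inv S.hs S.ee (S.perp_e hq) hRZ
  have hm : (R q * Z z)⁻¹ * ((L Y)⁻¹ * ((T D)⁻¹ * T D') * L Y') * (R q' * Z z') ∈ M := by
    convert h using 1; group
  -- data of κ
  have hisoT : ∀ D, T D ∈ isom f := fun D => tgrp_le_isom S.hs ⊤ (hTm D)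
  have hisoL : ∀ D, L D ∈ isom f := fun D => S.L_iso (hLm D)
  have hκ : (L Y)⁻¹ * ((T D)⁻¹ * T D') * L Y' ∈ isom f :=
    mul_mem (mul_mem (inv_mem (hisoL Y)) (mul_mem (inv_mem (hisoT D)) (hisoT D'))) (hisoL Y')
  have hTi : ∀ D, (T D)⁻¹ e = (lT D)⁻¹ • e := fun D => by
    apply inv_apply_of
    rw [map_smul, hTe, smul_smul, inv_mul_cancel₀ (hl0 D), one_smul]
  have hTi' : ∀ D, (T D)⁻¹ e' = σ (lT D) • e' := fun D => by
    apply inv_apply_of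
    rw [map_smul, hTe', smul_smul, mul_inv_cancel₀ (S.hs.sigma_ne (hl0 D)), one_smul]
  have hLi : ∀ Y, (L Y)⁻¹ e = e := fun Y => inv_apply_of (S.L_e (hLm Y))
  have hLi' : ∀ Y, (L Y)⁻¹ e' = e' := fun Y => inv_apply_of (S.L_e' (hLm Y))
  have hκe : ((L Y)⁻¹ * ((T D)⁻¹ * T D') * L Y') e = ((lT D)⁻¹ * lT D') • e := by
    rw [LinearEquiv.mul_apply, S.L_e (hLm Y'), LinearEquiv.mul_apply, LinearEquiv.mul_apply, hTe, map_smul, hTi,
      map_smul, map_smul, hLi, smul_smul, mul_comm]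
  have hκe' : ((L Y)⁻¹ * ((T D)⁻¹ * T D') * L Y') e' = (σ ((lT D)⁻¹ * lT D'))⁻¹ • e' := by
    rw [LinearEquiv.mul_apply, S.L_e' (hLm Y'), LinearEquiv.mul_apply, LinearEquiv.mul_apply, hTe', map_smul, hTi',
      map_smul, map_smul, hLi', smul_smul, map_mul, map_inv₀, mul_inv, inv_inv, mul_comm]
  have hln : (lT D)⁻¹ * lT D' ≠ 0 := mul_ne_zero (inv_ne_zero (hl0 D)) (hl0 D')
  have hκV : ∀ u ∈ V1, ((L Y)⁻¹ * ((T D)⁻¹ * T D') * L Y') u ∈ V1 := fun u hu =>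
    (S.map_V1 hκ hln hκe hκe').2 hu
  -- step 1
  have hD : D = D' := by
    have h1 : ml (S.CC η M) (((δT D)⁻¹ * δT D' : (EE σ)ˣ) : EE σ) ≤ S.CC η M := by
      rintro _ ⟨x, ⟨t, ht, htx⟩, rfl⟩
      obtain ⟨t', ht', c', h2, h3⟩ := S.core hκ hκe (V1.neg_mem hq) hq' hRZi hRZ' hκV hm ht V1.zero_mem htx
      rw [map_zero, smul_zero, h3 rfl] at h2
      refine ⟨t', ht', ?_⟩
      convert h2 using 1
      show η * ((((δT D)⁻¹ * δT D' : (EE σ)ˣ) : EE σ) * x : EE σ) = _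
      push_cast
      rw [← hlδ D, ← hlδ D', map_mul, map_inv₀, mul_inv]; ring
    have h2 := ml_eq_of_le (Units.ne_zero _) h1
    apply Subtype.ext
    rw [← hTD D, ← hTD D']
    conv_lhs => rw [← h2, ml_ml]
    rw [Units.val_mul, ← mul_assoc, Units.mul_inv, one_mul]
  subst hD
  have hl1 : (lT D)⁻¹ * lT D = 1 := inv_mul_cancel₀ (hl0 D)
  rw [hl1, one_smul] at hκe
  rw [inv_mul_cancel, mul_one] at hκe hκV hm hκ
  -- step 2
  have hY : Y = Y' := by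
    have h1 : mp ((L Y)⁻¹ * L Y') (S.WW M) ≤ S.WW M := by
      rintro _ ⟨u, ⟨hu, t, ht, c, htu⟩, rfl⟩
      obtain ⟨t', ht', c', h2, -⟩ := S.core (l := 1) hκ (by rw [hκe, one_smul]) (V1.neg_mem hq) hq' hRZi hRZ' hκV hm ht
        hu htu
      rw [map_one, one_smul] at h2
      exact ⟨hκV u hu, t', ht', c', h2⟩
    have h2 := mp_eq_of_le h1
    apply Subtype.ext
    rw [← hL Y, ← hL Y']
    conv_lhs => rw [← h2, mp_mp, mul_inv_cancel_left]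
  subst hY
  rw [inv_mul_cancel, mul_one] at hm
  -- step 3
  have hqq : q = q' := by
    obtain ⟨d, hd⟩ := S.isR_inv_mul hq hq' hRZ hRZ'
    rw [← QuotientAddGroup.out_eq' q, ← QuotientAddGroup.out_eq' q', QuotientAddGroup.eq]
    exact ⟨V1.add_mem (V1.neg_mem hq) hq', _, hm, d, hd⟩
  subst hqq
  have hm2 : (Z z)⁻¹ * Z z' ∈ M := by
    convert hm using 1; group
  have hzz : z = z' := by
    have h1 := S.isZ_inv_mul (hZ z) (hZ z')
    rw [← QuotientAddGroup.out_eq' z, ← QuotientAddGroup.out_eq' z', QuotientAddGroup.eq]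
    refine ⟨_, hm2, ?_⟩
    convert h1 using 1
    push_cast; ring
  subst hzz
  rfl

/-- the group induced on `V1 = Q(e)/Z(e)` -/
def GG : Subgroup (V ≃ₗ[F] V) where
  carrier := {γ | ∃ κ ∈ tgrp S.hs ⊤, ∃ l : F, l ≠ 0 ∧ κ e = l • e ∧ κ e' = (σ l)⁻¹ • e' ∧ ∀ u, γ u = σ l • κ u}
  one_mem' := ⟨1, one_mem _, 1, one_ne_zero, by simp, by simp, fun u => by simp⟩
  mul_mem' := by
    rintro γ γ' ⟨κ, hκ, l, hl, h1, h2, h3⟩ ⟨κ', hκ', l', hl', h1', h2', h3'⟩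
    refine ⟨κ * κ', mul_mem hκ hκ', l * l', mul_ne_zero hl hl', ?_, ?_, fun u => ?_⟩
    · rw [LinearEquiv.mul_apply, h1', map_smul, h1, smul_smul, mul_comm]
    · rw [LinearEquiv.mul_apply, h2', map_smul, h2, smul_smul, map_mul, mul_inv, mul_comm]
    · rw [LinearEquiv.mul_apply, h3', map_smul, h3, LinearEquiv.mul_apply, smul_smul, map_mul, mul_comm]
  inv_mem' := by
    rintro γ ⟨κ, hκ, l, hl, h1, h2, h3⟩
    have hsl := S.hs.sigma_ne hl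
    refine ⟨κ⁻¹, inv_mem hκ, l⁻¹, inv_ne_zero hl, ?_, ?_, fun u => ?_⟩
    · apply inv_apply_of
      rw [map_smul, h1, smul_smul, inv_mul_cancel₀ hl, one_smul]
    · apply inv_apply_of
      rw [map_smul, h2, smul_smul, map_inv₀, inv_inv, mul_inv_cancel₀ hsl, one_smul]
    · apply inv_apply_of
      rw [h3, map_smul, apply_inv, smul_smul, map_inv₀, mul_inv_cancel₀ hsl, one_smul]

theorem L_le_GG : S.L ≤ S.GG := by
  intro k hk
  exact ⟨k, S.L_le hk, 1, one_ne_zero, by rw [S.L_e hk, one_smul], by rw [S.L_e' hk, map_one, inv_one, one_smul],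
    fun u => by rw [map_one, one_smul]⟩

/-- the third family -/
theorem I2a {η : F} (hη0 : η ≠ 0) (hη : η + σ η = 0) {M : Subgroup (V ≃ₗ[F] V)} (h2 : QM f M e) :
    Nat.card V1 * Nat.card (EE σ) ≤ M.relIndex S.PP := by
  classical
  have := S.finite_V
  have := S.finite_G
  have hR : ∀ q : V1, ∃ t ∈ tgrp S.hs ⊤, ∃ c, IsR f t e (q : V) c := fun q => by
    obtain ⟨t, ht, c, -, h⟩ := S.exists_R' q.2
    exact ⟨t, ht, c, h⟩
  have hZ : ∀ z : EE σ, ∃ t ∈ tgrp S.hs ⊤, IsR f t e 0 (η * z) := fun z => S.exists_Z hη _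
  choose R hRm cR hR using hR
  choose Z hZm hZ using hZ
  rw [← Nat.card_prod]
  refine card_le_relIndex (ι := V1 × EE σ) M S.PP (fun p => R p.1 * Z p.2)
    (fun i => mul_mem (S.mem_PP_R (Submodule.coe_mem _) (hRm _) (hR _)) (S.mem_PP_R V1.zero_mem (hZm _) (hZ _))) ?_
  rintro ⟨u, x⟩ ⟨u', x'⟩ h
  simp only at h
  have hr := S.isR_prod u.2 (hR u) (hZ x)
  have hr' := S.isR_prod u'.2 (hR u') (hZ x')
  obtain ⟨d, hd⟩ := S.isR_inv_mul u.2 u'.2 hr hr'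
  have h3 := h2 _ h _ _ (S.perp_e (V1.add_mem (V1.neg_mem u.2) u'.2)) hd
  have h4 := S.uniq u.2 u'.2 hr hr' (inv_mul_eq_one.1 h3)
  have h5 : u = u' := Subtype.ext h4.1
  subst h5
  have h6 : η * (x : F) = η * x' := add_left_cancel h4.2
  have h7 : x = x' := Subtype.ext (mul_left_cancel₀ hη0 h6)
  rw [h7]

/-- the second family -/
theorem I2b {M : Subgroup (V ≃ₗ[F] V)} :
    Nat.card (orb S.GG (S.WW M)) * S.idW M ≤ M.relIndex S.PP := by
  classical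
  have := S.finite_V
  have := S.finite_G
  have := finite_addSubgroup (V := V)
  have hR : ∀ q : V1, ∃ t ∈ tgrp S.hs ⊤, ∃ c, IsR f t e (q : V) c := fun q => by
    obtain ⟨t, ht, c, -, h⟩ := S.exists_R' q.2
    exact ⟨t, ht, c, h⟩
  choose R hRm cR hR using hR
  choose γ hγm hγ using (fun Y : orb S.GG (S.WW M) => Y.2)
  choose K hKm lK hl0 hKe hKe' hKγ using hγm
  let T : (V1.toAddSubgroup ⧸ (S.WW M).addSubgroupOf V1.toAddSubgroup) → V1 := fun q => q.out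
  have key := card_le_relIndex (ι := (orb S.GG (S.WW M) ×
    (V1.toAddSubgroup ⧸ (S.WW M).addSubgroupOf V1.toAddSubgroup)))
    M S.PP (fun i => K i.1 * R (T i.2))
    (fun i => mul_mem (S.mem_PP_T (hKm _) (hl0 _) (hKe _)) (S.mem_PP_R (Submodule.coe_mem _) (hRm _) (hR _))) ?_
  · rw [Nat.card_prod] at key
    exact key
  have hisoK : ∀ D, K D ∈ isom f := fun D => tgrp_le_isom S.hs ⊤ (hKm D)
  have hKV : ∀ D, ∀ u ∈ V1, K D u ∈ V1 := fun D u hu =>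
    (S.map_V1 (hisoK D) (hl0 D) (hKe D) (hKe' D)).2 hu
  rintro ⟨Y, q⟩ ⟨Y', q'⟩ h
  · simp only at h
    have hm : (R (T q))⁻¹ * ((K Y)⁻¹ * K Y') * R (T q') ∈ M := by
      convert h using 1; group
    have hinv := IsR.inv S.hs S.ee (S.perp_e (T q).2) (hR (T q))
    have hκ : (K Y)⁻¹ * K Y' ∈ isom f := mul_mem (inv_mem (hisoK Y)) (hisoK Y')
    have hKi : (K Y)⁻¹ e = (lK Y)⁻¹ • e := by
      apply inv_apply_of
      rw [map_smul, hKe, smul_smul, inv_mul_cancel₀ (hl0 Y), one_smul]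
    have hKi' : (K Y)⁻¹ e' = σ (lK Y) • e' := by
      apply inv_apply_of
      rw [map_smul, hKe', smul_smul, mul_inv_cancel₀ (S.hs.sigma_ne (hl0 Y)), one_smul]
    have hκe : ((K Y)⁻¹ * K Y') e = ((lK Y)⁻¹ * lK Y') • e := by
      rw [LinearEquiv.mul_apply, hKe, map_smul, hKi, smul_smul, mul_comm]
    have hκe' : ((K Y)⁻¹ * K Y') e' = (σ ((lK Y)⁻¹ * lK Y'))⁻¹ • e' := by
      rw [LinearEquiv.mul_apply, hKe', map_smul, hKi', smul_smul, map_mul, map_inv₀, mul_inv, inv_inv, mul_comm]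
    have hln : (lK Y)⁻¹ * lK Y' ≠ 0 := mul_ne_zero (inv_ne_zero (hl0 Y)) (hl0 Y')
    have hκV : ∀ u ∈ V1, ((K Y)⁻¹ * K Y') u ∈ V1 := fun u hu => (S.map_V1 hκ hln hκe hκe').2 hu
    have hY : Y = Y' := by
      have h1 : mp ((γ Y)⁻¹ * γ Y') (S.WW M) ≤ S.WW M := by
        rintro _ ⟨u, ⟨hu, t, ht, c, htu⟩, rfl⟩
        obtain ⟨t', ht', c', h2, -⟩ := S.core hκ hκe (V1.neg_mem (T q).2) (T q').2 hinv (hR (T q')) hκV hm ht hu htu
        have e1 : ((γ Y)⁻¹ * γ Y') u = σ ((lK Y)⁻¹ * lK Y') • ((K Y)⁻¹ * K Y') u := by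
          rw [LinearEquiv.mul_apply, hKγ]
          apply inv_apply_of
          rw [hKγ, map_smul, LinearEquiv.mul_apply, apply_inv, smul_smul, map_mul, map_inv₀, ← mul_assoc,
            mul_inv_cancel₀ (S.hs.sigma_ne (hl0 Y)), one_mul]
        show ((γ Y)⁻¹ * γ Y') u ∈ S.WW M
        rw [e1]
        exact ⟨V1.smul_mem _ (hκV u hu), t', ht', c', h2⟩
      have h2 := mp_eq_of_le h1
      apply Subtype.ext
      rw [← hγ Y, ← hγ Y']
      conv_lhs => rw [← h2, mp_mp, mul_inv_cancel_left]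
    subst hY
    rw [inv_mul_cancel, mul_one] at hm
    have hqq : q = q' := by
      obtain ⟨d, hd⟩ := S.isR_inv_mul (T q).2 (T q').2 (hR (T q)) (hR (T q'))
      rw [← QuotientAddGroup.out_eq' q, ← QuotientAddGroup.out_eq' q', QuotientAddGroup.eq]
      exact ⟨V1.add_mem (V1.neg_mem (T q).2) (T q').2, _, hm, d, hd⟩
    rw [hqq]

end C3

end Cfsg.Agent.Lib.MinU
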