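import Mathlib

/-!
# Numerical facts for the minimal index of `SU_5(q)` (helper98)
-/

set_option autoImplicit false

namespace Cfsg.Agent.Lib.MinU.Num5

variable {q Y w i X m K : ℕ}

theorem Y_le (hq : 2 ≤ q) (h : q ^ 4 * Y ≤ X) (hX : X ≤ q ^ 7 + q ^ 5 + q ^ 2) : Y ≤ q ^ 3 + q := by
  by_contra hlt
  push Not at hlt
  have h1 : q ^ 4 * (q ^ 3 + q + 1) ≤ q ^ 4 * Y := Nat.mul_le_mul_left _ hlt
  have h2 : q ^ 2 < q ^ 4 := Nat.pow_lt_pow_right (by omega) (by norm_num)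
  have h3 : q ^ 4 * (q ^ 3 + q + 1) = q ^ 7 + q ^ 5 + q ^ 4 := by ring
  omega

theorem A2a (hq : 2 ≤ q) (hY : Y ≤ q ^ 3 + q) (hw : m + 1 ≤ q ^ 3)
    (h : q ^ 2 * (q ^ 5 + q ^ 2 - (q ^ 3 + 1)) ≤ Y * m) : False := by
  have h0 : q ^ 3 + 1 ≤ q ^ 5 + q ^ 2 := by
    have : q ^ 3 ≤ q ^ 5 := Nat.pow_le_pow_right (by omega) (by norm_num)
    have : 1 ≤ q ^ 2 := Nat.one_le_pow _ _ (by omega)
    omega
  have h1 : Y * m ≤ (q ^ 3 + q) * (q ^ 3 - 1) := Nat.mul_le_mul hY (by omega)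
  have h2 := h.trans h1
  have h3 : 1 ≤ q ^ 3 := Nat.one_le_pow _ _ (by omega)
  zify [h0, h3] at h2
  obtain ⟨r, hr, hqr⟩ : ∃ r : ℤ, 0 ≤ r ∧ (q : ℤ) = r + 2 := ⟨q - 2, by omega, by ring⟩
  rw [hqr] at h2
  have h4 : 0 < (r + 2) ^ 2 * ((r + 2) ^ 5 + (r + 2) ^ 2 - ((r + 2) ^ 3 + 1)) - ((r + 2) ^ 3 + (r + 2)) * ((r + 2) ^ 3 - 1) := by
    ring_nf; positivity
  linarith

theorem A2b (hq : 2 ≤ q) (hY : Y ≤ q ^ 3 + q) (hw : m + K + 1 ≤ q ^ 3)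
    (h1 : q * (q ^ 5 + q ^ 2 - (q ^ 3 + 1)) ≤ Y * m) (h2 : q ^ 5 + q ^ 2 ≤ Y * K) : False := by
  have h0 : q ^ 3 + 1 ≤ q ^ 5 + q ^ 2 := by
    have : q ^ 3 ≤ q ^ 5 := Nat.pow_le_pow_right (by omega) (by norm_num)
    have : 1 ≤ q ^ 2 := Nat.one_le_pow _ _ (by omega)
    omega
  have h3 : Y * (m + K) ≤ (q ^ 3 + q) * (q ^ 3 - 1) := Nat.mul_le_mul hY (by omega)
  have h4 : q * (q ^ 5 + q ^ 2 - (q ^ 3 + 1)) + (q ^ 5 + q ^ 2) ≤ (q ^ 3 + q) * (q ^ 3 - 1) := by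
    refine le_trans ?_ h3
    rw [mul_add]; omega
  have h5 : 1 ≤ q ^ 3 := Nat.one_le_pow _ _ (by omega)
  zify [h0, h5] at h4
  obtain ⟨r, hr, hqr⟩ : ∃ r : ℤ, 0 ≤ r ∧ (q : ℤ) = r + 2 := ⟨q - 2, by omega, by ring⟩
  rw [hqr] at h4
  have h6 : 0 < (r + 2) * ((r + 2) ^ 5 + (r + 2) ^ 2 - ((r + 2) ^ 3 + 1)) + ((r + 2) ^ 5 + (r + 2) ^ 2) -
      ((r + 2) ^ 3 + (r + 2)) * ((r + 2) ^ 3 - 1) := by
    ring_nf; positivity
  linarith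

theorem N1 (hq : 2 ≤ q) (hw : w ≤ q ^ 2) (hiw : i * w = q ^ 6) (h : i * (q * Y) ≤ X)
    (hX : X ≤ q ^ 7 + q ^ 5 + q ^ 2) (h1 : q ^ 5 + q ^ 2 - (q ^ 3 + 1) ≤ Y * m) (hm : m + 1 ≤ w) : False := by
  have hi : q ^ 4 ≤ i := by
    have h2 : q ^ 4 * q ^ 2 ≤ i * q ^ 2 := by
      calc q ^ 4 * q ^ 2 = q ^ 6 := by ring
        _ = i * w := hiw.symm
        _ ≤ i * q ^ 2 := Nat.mul_le_mul_left _ hw
    exact Nat.le_of_mul_le_mul_right h2 (by positivity)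
  have hY : Y ≤ q ^ 2 + 1 := by
    by_contra hlt
    push Not at hlt
    have h2 : q ^ 4 * (q * (q ^ 2 + 2)) ≤ X := by
      refine le_trans (Nat.mul_le_mul hi (Nat.mul_le_mul_left _ ?_)) h
      omega
    have h3 : q ^ 4 * (q * (q ^ 2 + 2)) = q ^ 7 + 2 * q ^ 5 := by ring
    have h4 : q ^ 2 < q ^ 5 := Nat.pow_lt_pow_right (by omega) (by norm_num)
    omega
  have h0 : q ^ 3 + 1 ≤ q ^ 5 + q ^ 2 := by
    have : q ^ 3 ≤ q ^ 5 := Nat.pow_le_pow_right (by omega) (by norm_num)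
    have : 1 ≤ q ^ 2 := Nat.one_le_pow _ _ (by omega)
    omega
  have h5 : 1 ≤ q ^ 2 := Nat.one_le_pow _ _ (by omega)
  have h2 : Y * m ≤ (q ^ 2 + 1) * (q ^ 2 - 1) := Nat.mul_le_mul hY (by omega)
  have h3 := h1.trans h2
  zify [h0, h5] at h3
  obtain ⟨r, hr, hqr⟩ : ∃ r : ℤ, 0 ≤ r ∧ (q : ℤ) = r + 2 := ⟨q - 2, by omega, by ring⟩
  rw [hqr] at h3
  have h6 : 0 < ((r + 2) ^ 5 + (r + 2) ^ 2 - ((r + 2) ^ 3 + 1)) - ((r + 2) ^ 2 + 1) * ((r + 2) ^ 2 - 1) := by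
    ring_nf; positivity
  linarith

theorem N2 (hq : 2 ≤ q) (hY : Y ≤ q ^ 3 + q) (hw : m + K + 1 ≤ q ^ 3)
    (h1 : q ^ 5 + q ^ 2 - (q ^ 3 + 1) ≤ Y * m) (h2 : q * (q ^ 5 + q ^ 2) ≤ Y * K) : False := by
  have h0 : q ^ 3 + 1 ≤ q ^ 5 + q ^ 2 := by
    have : q ^ 3 ≤ q ^ 5 := Nat.pow_le_pow_right (by omega) (by norm_num)
    have : 1 ≤ q ^ 2 := Nat.one_le_pow _ _ (by omega)
    omega
  have h3 : Y * (m + K) ≤ (q ^ 3 + q) * (q ^ 3 - 1) := Nat.mul_le_mul hY (by omega)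
  have h4 : (q ^ 5 + q ^ 2 - (q ^ 3 + 1)) + q * (q ^ 5 + q ^ 2) ≤ (q ^ 3 + q) * (q ^ 3 - 1) := by
    refine le_trans ?_ h3
    rw [mul_add Y]; exact Nat.add_le_add h1 h2
  have h5 : 1 ≤ q ^ 3 := Nat.one_le_pow _ _ (by omega)
  zify [h0, h5] at h4
  obtain ⟨r, hr, hqr⟩ : ∃ r : ℤ, 0 ≤ r ∧ (q : ℤ) = r + 2 := ⟨q - 2, by omega, by ring⟩
  rw [hqr] at h4
  have h6 : 0 < ((r + 2) ^ 5 + (r + 2) ^ 2 - ((r + 2) ^ 3 + 1)) + (r + 2) * ((r + 2) ^ 5 + (r + 2) ^ 2) -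
      ((r + 2) ^ 3 + (r + 2)) * ((r + 2) ^ 3 - 1) := by
    ring_nf; positivity
  linarith

/-- the case without isotropic vectors -/
theorem B1 (hq : 2 ≤ q) (hY : Y ≤ q ^ 3 + q) (hw1 : 1 < w) (hwq : w ∣ q ^ 3) (hcop : Nat.Coprime (q ^ 2) (w - 1))
    (h : Y * (w - 1) = (q ^ 5 + q ^ 2) * K) (hK : 1 ≤ K) : False := by
  have hwle : w ≤ q ^ 3 := Nat.le_of_dvd (by positivity) hwq
  have hw2 : q ^ 2 < w := by
    by_contra hle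
    push Not at hle
    have h1 : Y * (w - 1) ≤ (q ^ 3 + q) * (q ^ 2 - 1) := Nat.mul_le_mul hY (by omega)
    have h2 : (q ^ 5 + q ^ 2) * 1 ≤ (q ^ 5 + q ^ 2) * K := Nat.mul_le_mul_left _ hK
    have h3 : q ^ 5 + q ^ 2 ≤ (q ^ 3 + q) * (q ^ 2 - 1) := by rw [← h, mul_one] at h2; exact h2.trans h1
    have h5 : 1 ≤ q ^ 2 := Nat.one_le_pow _ _ (by omega)
    zify [h5] at h3
    nlinarith [sq_nonneg (q : ℤ)]
  have h1 : q ^ 2 ∣ Y := by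
    apply hcop.dvd_of_dvd_mul_right
    rw [h]
    exact ⟨(q ^ 3 + 1) * K, by ring⟩
  obtain ⟨y, rfl⟩ := h1
  have hq2 : 0 < q ^ 2 := by positivity
  have h2 : y * (w - 1) = (q ^ 3 + 1) * K := by
    apply Nat.eq_of_mul_eq_mul_left hq2
    rw [← mul_assoc, h]; ring
  have hy : y ≤ q := by
    by_contra hlt
    push Not at hlt
    have h3 : q ^ 2 * (q + 1) ≤ q ^ 2 * y := Nat.mul_le_mul_left _ hlt
    have h4 : q ^ 2 * (q + 1) = q ^ 3 + q ^ 2 := by ring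
    have h5 : q < q ^ 2 := by nlinarith
    omega
  have hKy : K < y := by
    by_contra hlt
    push Not at hlt
    have h3 : (q ^ 3 + 1) * y ≤ (q ^ 3 + 1) * K := Nat.mul_le_mul_left _ hlt
    have h4 : y * (w - 1) ≤ y * (q ^ 3 - 1) := Nat.mul_le_mul_left _ (by omega)
    have hy0 : 0 < y := by
      by_contra h0
      have : y = 0 := by omega
      rw [this, zero_mul] at h2
      have h5 : 0 < (q ^ 3 + 1) * K := by positivity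
      omega
    have h5 : y * (q ^ 3 - 1) < (q ^ 3 + 1) * y := by
      rw [mul_comm]
      exact Nat.mul_lt_mul_of_pos_right (by omega) hy0
    omega
  have h3 : w ∣ y + K := by
    have h4 : y * w = q ^ 3 * K + (y + K) := by
      have h5 : y * w = y * (w - 1) + y := by
        obtain ⟨v, rfl⟩ : ∃ v, w = v + 1 := ⟨w - 1, by omega⟩
        rw [Nat.add_sub_cancel]; ring
      rw [h5, h2]; ring
    have h5 : w ∣ q ^ 3 * K + (y + K) := by rw [← h4]; exact Dvd.intro_left y rfl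
    exact (Nat.dvd_add_right (hwq.mul_right K)).1 h5
  have h4 := Nat.le_of_dvd (by omega) h3
  nlinarith

end Cfsg.Agent.Lib.MinU.Num5
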