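import Mathlib
import Cfsg.Agent.Lib.MinVC

/-!
# Minimal index of `SU_5(q)`: `W = 0` (helper98)
-/

set_option autoImplicit false
set_option linter.unusedSectionVars false

namespace Cfsg.Agent.Lib.MinU

open Cfsg.Agent.Lib Cfsg.Agent.Lib.UnTrans Cfsg.Agent.Lib.SubfUn
open Cfsg.Agent.Lib.SpTrans (isom mem_isom)

variable {F V : Type*} [Field F] [Finite F] [AddCommGroup V] [Module F V]
variable {σ : F →+* F} {f : V → V → F}

namespace C3
variable {e e' : V} {V1 : Submodule F V} (S : C3 σ f e e' V1)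
include S

/-- isotropic vectors of `W` not perpendicular to `W` -/
theorem caseA2 {η : F} (hη0 : η ≠ 0) (hη : η + σ η = 0) {M : Subgroup (V ≃ₗ[F] V)} (hC : S.CC η M ≠ ⊤)
    {a : V} (ha : a ∈ S.WW M) (ha0 : a ≠ 0) (haa : f a a = 0) {w : V} (hw : w ∈ S.WW M) (hwa : f w a ≠ 0) :
    Nat.card (EE σ) ^ 2 ≤ kk S.L (S.WW M) a ∨
      (Nat.card (EE σ) ≤ kk S.L (S.WW M) a ∧ ∃ x ∈ S.WW M, f x x ≠ 0) := by
  classical
  have := S.finite_V
  have := S.finite_G
  have := S.fd
  have haV : a ∈ V1 := ha.1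
  have hwV : w ∈ V1 := hw.1
  have haw : f a w ≠ 0 := S.hs.symm_ne hwa
  obtain ⟨b, hb, hab, hbb, -⟩ := exists_partner S.hs haV hwV haa haw
  have hfr := finrank_perp (H := S.hs) (U := V1) (e := a) (e' := b) haV hb haa hbb hab
  rw [S.d3] at hfr
  have hUnd : Nd f (V1 ⊓ LinearMap.ker (S.hs.fl a) ⊓ LinearMap.ker (S.hs.fl b)) := nd_sub S.hs S.nd1 haV hb haa hbb hab
  set U := V1 ⊓ LinearMap.ker (S.hs.fl a) ⊓ LinearMap.ker (S.hs.fl b) with hUdef
  have memU : ∀ x, x ∈ U ↔ x ∈ V1 ∧ f x a = 0 ∧ f x b = 0 := by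
    intro x; rw [hUdef]; simp [and_assoc]
  have hUV : U ≤ V1 := fun x hx => ((memU x).1 hx).1
  have hU : ∀ x ∈ U, f x a = 0 := fun x hx => ((memU x).1 hx).2.1
  have hUn : ∀ x ∈ U, x ≠ 0 → f x x ≠ 0 := by
    intro x hx hx0 hxx
    obtain ⟨z, hz, hxz⟩ := hUnd x hx hx0
    have h3 : Module.finrank F U = 1 := by omega
    obtain ⟨c, hc⟩ := (finrank_eq_one_iff_of_nonzero' (⟨x, hx⟩ : U) (fun h => hx0 (congrArg Subtype.val h))).1 h3 ⟨z, hz⟩
    have hc' : c • x = z := congrArg Subtype.val hc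
    rw [← hc', S.hs.smul_right, hxx, mul_zero] at hxz
    exact hxz rfl
  have hU0 : ∀ x ∈ U, x ∈ Submodule.span F {a} → x = 0 := by
    intro x hx hxa
    obtain ⟨m, rfl⟩ := Submodule.mem_span_singleton.1 hxa
    have h1 := ((memU _).1 hx).2.2
    rw [S.hs.smul_left, hab, mul_one] at h1
    rw [h1, zero_smul]
  have hP2 := P2 S.L (UG S.hs S.L haa U hU) (fun t ht => ht.1) (S.WW M) ha (by
    rintro t ⟨-, u, hu, c, hc⟩
    rw [hc, rho, haa, S.hs.symm_zero (hU u hu)]; simp)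
  have hcU := S.card_UG hη0 hη haV ha0 haa hUV hU hU0
  -- the additive group of second parameters
  let B : AddSubgroup V :=
    { carrier := {u | u ∈ U ∧ ∃ t ∈ stW (S.WW M), ∃ c, IsR f t a u c}
      zero_mem' := ⟨U.zero_mem, 1, one_mem _, 0, IsR.one S.hs a⟩
      add_mem' := by
        rintro u v ⟨hu, t, ht, c, hc⟩ ⟨hv, t', ht', c', hc'⟩
        exact ⟨U.add_mem hu hv, t * t', mul_mem ht ht', _, IsR.mul S.hs haa (hU u hu) (hU v hv) hc hc'⟩
      neg_mem' := by
        rintro u ⟨hu, t, ht, c, hc⟩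
        exact ⟨U.neg_mem hu, t⁻¹, inv_mem ht, _, IsR.inv S.hs haa (hU u hu) hc⟩ }
  have hB : ∀ u ∈ B, u ∈ U ∧ ∃ t ∈ stW (S.WW M), ∃ c, IsR f t a u c := fun u hu => hu
  have hBc : ∀ u : B, ∃ c, c + σ c + f (u : V) u = 0 := fun u => S.exists_c u
  choose cB hcB using hBc
  have h2 : Nat.card {t : UG S.hs S.L haa U hU // mp (t : V ≃ₗ[F] V) (S.WW M) = S.WW M} ≤
      Nat.card B * Nat.card (EE σ) := by
    have hpar : ∀ t : {t : UG S.hs S.L haa U hU // mp (t : V ≃ₗ[F] V) (S.WW M) = S.WW M}, ∃ p : B × EE σ,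
        IsR f ((t.1 : V ≃ₗ[F] V)) a (p.1 : V) (cB p.1 + η * p.2) := by
      rintro ⟨⟨t, ht, x, hx, c, hc⟩, hst⟩
      have hxB : x ∈ B := ⟨hx, t, hst, c, hc⟩
      have h3 := S.isR_cond' haV ha0 haa (hU x hx) (S.L_iso ht) hc
      have h4 := hcB ⟨x, hxB⟩
      refine ⟨(⟨x, hxB⟩, ⟨(c - cB ⟨x, hxB⟩) / η, ?_⟩), ?_⟩
      · rw [mem_EE, map_div₀, map_sub, eq_neg_of_add_eq_zero_right hη, div_neg, ← neg_div]
        congr 1
        linear_combination h4 - h3
      · show IsR f t a x (cB ⟨x, hxB⟩ + η * ((c - cB ⟨x, hxB⟩) / η))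
        rw [mul_div_cancel₀ _ hη0, add_sub_cancel]
        exact hc
    choose P hP using hpar
    rw [← Nat.card_prod]
    refine Nat.card_le_card_of_injective P ?_
    intro t t' h
    have h3 := hP t
    rw [h] at h3
    exact Subtype.ext (Subtype.ext (isR_unique' h3 (hP t')))
  -- isotropy of B
  have h3 : Nat.card B ^ 2 ≤ Nat.card U := by
    obtain ⟨p, hp⟩ := CharP.exists F
    have : NeZero p := ⟨CharP.char_ne_zero_of_finite F p⟩
    have : Fact p.Prime := ⟨(CharP.char_is_prime_or_zero F p).resolve_right (NeZero.ne p)⟩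
    have : CharP (EE σ) p := inferInstance
    obtain ⟨φ, hφ1, hφ2⟩ := exists_phi (p := p) hC
    let N : EE σ := ⟨f w a * σ (f w a), by rw [mem_EE, map_mul, S.hs.inv]; ring⟩
    have hN : N ≠ 0 := by
      intro h
      have h4 : f w a * σ (f w a) = 0 := congrArg Subtype.val h
      exact mul_ne_zero hwa (S.hs.sigma_ne hwa) h4
    refine iso_small S.hs hη hη0 (φ.comp (AddMonoidHom.mulLeft N)) ?_ U hUnd B (fun x hx => (hB x hx).1) ?_
    · obtain ⟨x, hx⟩ := hφ1
      refine ⟨N⁻¹ * x, ?_⟩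
      show φ (N * (N⁻¹ * x)) ≠ 0
      rwa [mul_inv_cancel_left₀ hN]
    · intro x hx y hy
      obtain ⟨hxU, t, ht, c, hc⟩ := hB x hx
      obtain ⟨hyU, t', ht', c', hc'⟩ := hB y hy
      have h5 : t w - w ∈ S.WW M := (S.WW M).sub_mem (stW_mem ht hw) hw
      have h6 : t' w - w ∈ S.WW M := (S.WW M).sub_mem (stW_mem ht' hw) hw
      have h7 := hφ2 _ (S.br_mem_C hη hη0 h5 h6)
      show φ (N * _) = 0
      convert h7 using 2
      apply Subtype.ext
      rw [Subfield.coe_mul, br_coe, br_coe, hc, hc', rho, rho]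
      have e1 := hU x hxU
      have e2 := hU y hyU
      have e3 := S.hs.symm_zero e1
      have e4 := S.hs.symm_zero e2
      have e5 : ∀ s r : F, ∀ z : V, w + s • z - r • a + (c * s) • a - w = s • z + (c * s - r) • a := by
        intro s r z; module
      have e6 : ∀ s r : F, ∀ z : V, w + s • z - r • a + (c' * s) • a - w = s • z + (c' * s - r) • a := by
        intro s r z; module
      rw [e5, e6]
      simp only [S.hs.add_left, S.hs.add_right, S.hs.smul_left, S.hs.smul_right, haa, e1, e2, e3, e4]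
      show f w a * σ (f w a) * ((f x y - f y x) / η) = _
      ring
  have h8 : Nat.card U = Nat.card (EE σ) ^ 2 := by
    have h9 : Module.finrank F U = 1 := by omega
    rw [Module.natCard_eq_pow_finrank (K := F), card_F S.hs, h9, pow_one]
  have hq := one_lt_q S.hs
  set q := Nat.card (EE σ)
  set k := kk S.L (S.WW M) a
  set n := Nat.card {t : UG S.hs S.L haa U hU // mp (t : V ≃ₗ[F] V) (S.WW M) = S.WW M}
  rw [h8] at h3 hcU
  have hBq : Nat.card B ≤ q := by
    by_contra hlt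
    push Not at hlt
    have := Nat.pow_lt_pow_left hlt (n := 2) (by norm_num)
    omega
  have h10 : q ^ 2 * q ≤ (k * Nat.card B) * q := by
    calc q ^ 2 * q ≤ k * n := hcU.trans hP2
      _ ≤ k * (Nat.card B * q) := Nat.mul_le_mul_left _ h2
      _ = (k * Nat.card B) * q := by ring
  have h11 : q ^ 2 ≤ k * Nat.card B := Nat.le_of_mul_le_mul_right h10 (by omega)
  by_cases hB0 : ∃ u ∈ B, u ≠ 0
  · right
    constructor
    · have h12 : q * q ≤ k * q := by
        calc q * q = q ^ 2 := by ring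
          _ ≤ k * Nat.card B := h11
          _ ≤ k * q := Nat.mul_le_mul_left _ hBq
      exact Nat.le_of_mul_le_mul_right h12 (by omega)
    · obtain ⟨u, hu, hu0⟩ := hB0
      obtain ⟨huU, t, ht, c, hc⟩ := hB u hu
      refine ⟨t w - w, (S.WW M).sub_mem (stW_mem ht hw) hw, ?_⟩
      have e1 := hU u huU
      have e3 := S.hs.symm_zero e1
      have e5 : t w - w = f w a • u + (c * f w a - f w u) • a := by
        rw [hc, rho]; module
      rw [e5]
      simp only [S.hs.add_left, S.hs.add_right, S.hs.smul_left, S.hs.smul_right, haa, e1, e3]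
      have e6 := mul_ne_zero (mul_ne_zero hwa (S.hs.sigma_ne hwa)) (hUn u huU hu0)
      intro h
      apply e6
      linear_combination h
  · left
    push Not at hB0
    have h12 : B = ⊥ := (AddSubgroup.eq_bot_iff_forall _).2 hB0
    have h13 : Nat.card B = 1 := by rw [h12]; simp
    rwa [h13, mul_one] at h11

/-- nonisotropic vectors of `W` when `W` is perpendicular to an isotropic vector -/
theorem caseA1 {η : F} (hη0 : η ≠ 0) (hη : η + σ η = 0) {M : Subgroup (V ≃ₗ[F] V)}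
    {a : V} (ha : a ∈ S.WW M) (ha0 : a ≠ 0) (haa : f a a = 0) (hW : ∀ w ∈ S.WW M, f w a = 0)
    {x : V} (hx : x ∈ S.WW M) (hxx : f x x ≠ 0) : Nat.card (EE σ) ≤ kk S.L (S.WW M) x := by
  classical
  have := S.finite_V
  have := S.finite_G
  have := finite_addSubgroup (V := V)
  have haV : a ∈ V1 := ha.1
  have hxV : x ∈ V1 := hx.1
  have hxa := hW x hx
  have hax := S.hs.symm_zero hxa
  -- a partner of `a` perpendicular to `x`
  obtain ⟨y, hy, hay⟩ := S.nd1 a haV ha0
  set y' := y - (f y x / f x x) • x with hy'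
  have hy'x : f y' x = 0 := by
    rw [hy', S.hs.sub_left, S.hs.smul_left, div_mul_cancel₀ _ hxx, sub_self]
  have hay' : f a y' ≠ 0 := by
    rw [hy', S.hs.sub_right, S.hs.smul_right, hax, mul_zero, sub_zero]; exact hay
  obtain ⟨b, hb, hab, hbb, -⟩ := exists_partner S.hs (U := V1 ⊓ LinearMap.ker (S.hs.fl x)) (a := a)
    ⟨haV, by simpa using hax⟩ ⟨V1.sub_mem hy (V1.smul_mem _ hxV), by simpa using hy'x⟩ haa hay'
  have hbV : b ∈ V1 := hb.1
  have hbx : f b x = 0 := by simpa using hb.2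
  have hxb := S.hs.symm_zero hbx
  have hba : f b a = 1 := by rw [S.hs.herm, hab, map_one]
  have hg : ∀ c : EE σ, ∃ t ∈ S.L, IsR f t b 0 (η * c) := fun c => by
    refine S.exists_R1 hbV V1.zero_mem hbb (S.hs.zero_left b) ?_
    rw [S.hs.zero_left, add_zero, S.eta_cond hη]
  choose g hgm hg using hg
  have hgx : ∀ c, g c x = x := fun c => by
    rw [hg, rho, hxb, S.hs.zero_right]; simp
  have hga : ∀ c : EE σ, g c a = a + (η * c) • b := fun c => by
    rw [hg, rho, hab, S.hs.zero_right]; simp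
  refine Nat.card_le_card_of_injective (fun c : EE σ => (⟨⟨mp (g c) (S.WW M), g c, hgm c, rfl⟩, ⟨x, hx, hgx c⟩⟩ :
    {Y' : orb S.L (S.WW M) // x ∈ (Y' : AddSubgroup V)})) ?_
  intro c c' hcc
  have h2 : mp (g c) (S.WW M) = mp (g c') (S.WW M) :=
    congrArg (fun z : {Y' : orb S.L (S.WW M) // x ∈ (Y' : AddSubgroup V)} => (z.1 : AddSubgroup V)) hcc
  have h3 : g c' a ∈ mp (g c) (S.WW M) := by rw [h2]; exact mp_mem ha
  obtain ⟨w, hw, hwe⟩ := h3
  have h4 : f (g c' a) (g c a) = 0 := by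
    have h5 : g c w = g c' a := hwe
    rw [← h5, S.L_iso (hgm c)]
    exact hW w hw
  rw [hga, hga] at h4
  have hc : σ (c : F) = c := c.2
  have hση : σ η = -η := eq_neg_of_add_eq_zero_right hη
  simp only [S.hs.add_left, S.hs.add_right, S.hs.smul_left, S.hs.smul_right, haa, hab, hba, hbb, map_mul, hc, hση] at h4
  have h7 : η * ((c' : F) - c) = 0 := by linear_combination h4
  exact (Subtype.ext (sub_eq_zero.1 ((mul_eq_zero.1 h7).resolve_left hη0))).symm

/-- `W = 0` -/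
theorem W_bot {η : F} (hη0 : η ≠ 0) (hη : η + σ η = 0) {M : Subgroup (V ≃ₗ[F] V)} (hC : S.CC η M ≠ ⊤)
    (hX : M.relIndex S.PP ≤ Nat.card (EE σ) ^ 7 + Nat.card (EE σ) ^ 5 + Nat.card (EE σ) ^ 2) : S.WW M = ⊥ := by
  classical
  have := S.finite_V
  have := S.finite_G
  have := S.fd
  have := finite_addSubgroup (V := V)
  by_contra hne
  obtain ⟨a0, ha0, ha00⟩ : ∃ a ∈ S.WW M, a ≠ 0 := by
    by_contra h
    push Not at h
    exact hne ((AddSubgroup.eq_bot_iff_forall _).2 h)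
  have hI := S.I1 hη0 hη M
  have hmu := (mult_bound (S.CC η M) hC).1
  have hid := S.idW_mul M
  have hsq := S.W_sq hη hη0 hC
  rw [S.card_V1] at hid hsq
  have hq := one_lt_q S.hs
  have hO0 := S.card_O0
  have hOc : ∀ c : F, σ c = c → c ≠ 0 → _ := fun c hc hc0 => S.card_Oc hc hc0
  have hmm0 := S.mm_zero_le M
  have hmm2 : ∀ c : F, σ c = c → c ≠ 0 → _ := fun c hc hc0 => S.mm_two_le M hc hc0
  have hYpos : 0 < Nat.card (orb S.L (S.WW M)) := by
    have : Nonempty (orb S.L (S.WW M)) := ⟨⟨_, self_mem_orb _ _⟩⟩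
    exact Nat.card_pos
  set q := Nat.card (EE σ) with hqdef
  set X := M.relIndex S.PP
  set w := Nat.card (S.WW M) with hwdef
  set Y := Nat.card (orb S.L (S.WW M))
  set i := S.idW M
  set A := Nat.card (EE σ ⧸ S.CC η M)
  set B := Nat.card (Set.range fun δ : (EE σ)ˣ => ml (S.CC η M) δ)
  have hw3 : w ≤ q ^ 3 := by
    by_contra hlt
    push Not at hlt
    have h1 := Nat.pow_lt_pow_left hlt (n := 2) (by norm_num)
    have h2 : (q ^ 3) ^ 2 = q ^ 6 := by ring
    omega
  have h1 : i * (q * Y) ≤ X := by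
    calc i * (q * Y) ≤ i * (A * B * Y) := Nat.mul_le_mul_left _ (Nat.mul_le_mul_right _ hmu)
      _ = i * (A * (Y * B)) := by ring
      _ ≤ X := hI
  have hi3 : q ^ 3 ≤ i := by
    have h2 : q ^ 3 * q ^ 3 ≤ i * q ^ 3 := by
      calc q ^ 3 * q ^ 3 = q ^ 6 := by ring
        _ = i * w := hid.symm
        _ ≤ i * q ^ 3 := Nat.mul_le_mul_left _ hw3
    exact Nat.le_of_mul_le_mul_right h2 (by positivity)
  have h2 : q ^ 4 * Y ≤ X := by
    calc q ^ 4 * Y = q ^ 3 * (q * Y) := by ring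
      _ ≤ i * (q * Y) := Nat.mul_le_mul_right _ hi3
      _ ≤ X := h1
  have hY := Num5.Y_le hq h2 hX
  -- the counts
  have hd0 : ∀ a ∈ S.WW M, a ≠ 0 → f a a = 0 → kk S.L (S.WW M) a * (q ^ 5 + q ^ 2 - (q ^ 3 + 1)) = Y * S.mm M 0 := by
    intro a ha ha' haa
    have := S.dc M ha.1 ha'
    rwa [haa, hO0] at this
  have hdc : ∀ a ∈ S.WW M, f a a ≠ 0 → kk S.L (S.WW M) a * (q ^ 5 + q ^ 2) = Y * S.mm M (f a a) := by
    intro a ha haa
    have := S.dc M ha.1 (by rintro rfl; exact haa (S.hs.zero_left _))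
    rwa [hOc _ (S.hs.self_fixed a) haa] at this
  by_cases hiso : ∃ a ∈ S.WW M, a ≠ 0 ∧ f a a = 0
  · obtain ⟨a, ha, ha', haa⟩ := hiso
    have hk1 := S.kk_pos M ha
    have hd := hd0 a ha ha' haa
    have hI3 : q ^ 5 + q ^ 2 - (q ^ 3 + 1) ≤ Y * S.mm M 0 := by
      rw [← hd]
      calc q ^ 5 + q ^ 2 - (q ^ 3 + 1) = 1 * (q ^ 5 + q ^ 2 - (q ^ 3 + 1)) := (one_mul _).symm
        _ ≤ _ := Nat.mul_le_mul_right _ hk1
    by_cases hperp : ∃ w ∈ S.WW M, f w a ≠ 0
    · obtain ⟨w1, hw1, hwa⟩ := hperp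
      rcases S.caseA2 hη0 hη hC ha ha' haa hw1 hwa with h3 | ⟨h3, x, hx, hxx⟩
      · refine Num5.A2a hq hY (hmm0.trans hw3) ?_
        rw [← hd]
        exact Nat.mul_le_mul_right _ h3
      · have h4 := hmm2 _ (S.hs.self_fixed x) hxx
        refine Num5.A2b hq hY (h4.trans hw3) ?_ ?_
        · rw [← hd]
          exact Nat.mul_le_mul_right _ h3
        · rw [← hdc x hx hxx]
          calc q ^ 5 + q ^ 2 = 1 * (q ^ 5 + q ^ 2) := (one_mul _).symm
            _ ≤ _ := Nat.mul_le_mul_right _ (S.kk_pos M hx)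
    · push Not at hperp
      by_cases hnon : ∃ x ∈ S.WW M, f x x ≠ 0
      · obtain ⟨x, hx, hxx⟩ := hnon
        have h3 := S.caseA1 hη0 hη ha ha' haa hperp hx hxx
        have h4 := hmm2 _ (S.hs.self_fixed x) hxx
        refine Num5.N2 hq hY (h4.trans hw3) hI3 ?_
        rw [← hdc x hx hxx]
        exact Nat.mul_le_mul_right _ h3
      · push Not at hnon
        have hwle : w ≤ q ^ 2 := S.card_line (fun v hv => S.ti1 ha.1 ha' haa hv.1 (hnon v hv) (hperp v hv))
        exact Num5.N1 hq hwle hid h1 hX hI3 hmm0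
  · push Not at hiso
    -- no isotropic vectors
    have : Fintype (EE σ) := Fintype.ofFinite _
    have hsum := S.mm_sum M
    have hdvd : q ^ 5 + q ^ 2 ∣ Y * (w - 1) := by
      have e1 : w - 1 = ∑ c : EE σ, S.mm M (c : F) := by omega
      rw [e1, Finset.mul_sum]
      refine Finset.dvd_sum fun c _ => ?_
      by_cases hm : S.mm M (c : F) = 0
      · rw [hm, mul_zero]; exact dvd_zero _
      · have : Nonempty {x : Ocl f V1 (c : F) // (x : V) ∈ S.WW M} := by
          by_contra h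
          rw [not_nonempty_iff] at h
          exact hm Nat.card_of_isEmpty
        obtain ⟨⟨⟨x, hx1, hx2, hx3⟩, hx4⟩⟩ := this
        have hx5 : x ∈ S.WW M := hx4
        have hxx := hiso x hx5 hx2
        rw [← hx3, ← hdc x hx5 hxx]
        exact Dvd.intro_left _ rfl
    obtain ⟨K, hK⟩ := hdvd
    have hw1 : 1 < w := by
      have hmem : ({0, a0} : Set V).ncard ≤ (S.WW M : Set V).ncard := by
        apply Set.ncard_le_ncard _ (Set.toFinite _)
        rintro x (rfl | rfl)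
        · exact (S.WW M).zero_mem
        · exact ha0
      rw [Set.ncard_pair ha00.symm] at hmem
      have h4 : w = (S.WW M : Set V).ncard := rfl
      omega
    obtain ⟨p, hp⟩ := CharP.exists F
    have : NeZero p := ⟨CharP.char_ne_zero_of_finite F p⟩
    have hpf : Fact p.Prime := ⟨(CharP.char_is_prime_or_zero F p).resolve_right (NeZero.ne p)⟩
    have : CharP (EE σ) p := inferInstance
    have hpp : p.Prime := hpf.out
    obtain ⟨k, hk⟩ : ∃ k, q = p ^ k := by
      obtain ⟨k, -, hk⟩ := FiniteField.card (EE σ) p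
      exact ⟨k, by rw [hqdef, Nat.card_eq_fintype_card, hk]⟩
    obtain ⟨j, hj6, hj⟩ : ∃ j ≤ 6 * k, w = p ^ j := by
      have h5 : w ∣ p ^ (6 * k) := by
        rw [mul_comm 6 k, pow_mul, ← hk, ← hid]
        exact Dvd.intro_left _ rfl
      exact (Nat.dvd_prime_pow hpp).1 h5
    have hj3 : j ≤ 3 * k := by
      by_contra hlt
      push Not at hlt
      have h5 : p ^ (3 * k) < p ^ j := Nat.pow_lt_pow_right hpp.one_lt hlt
      rw [← hj, mul_comm 3 k, pow_mul, ← hk] at h5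
      omega
    have hj0 : j ≠ 0 := by
      rintro rfl
      rw [pow_zero] at hj
      omega
    refine Num5.B1 hq hY hw1 ?_ ?_ hK ?_
    · rw [hk, hj, ← pow_mul, mul_comm k 3]
      exact pow_dvd_pow p hj3
    · rw [hk, ← pow_mul]
      apply Nat.Coprime.pow_left
      rw [Nat.Prime.coprime_iff_not_dvd hpp]
      intro h5
      have h6 : p ∣ w := by rw [hj]; exact dvd_pow_self p hj0
      have h7 : p ∣ w - (w - 1) := Nat.dvd_sub h6 h5
      have h8 : w - (w - 1) = 1 := by omega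
      rw [h8] at h7
      exact hpp.one_lt.ne' (Nat.dvd_one.1 h7)
    · by_contra hlt
      have h5 : K = 0 := by omega
      rw [h5, mul_zero] at hK
      rcases Nat.mul_eq_zero.1 hK with h6 | h6 <;> omega

end C3

end Cfsg.Agent.Lib.MinU
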