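import Mathlib
import Cfsg.Agent.Lib.MinVD

/-!
# Minimal index of `SU_5(q)`: the dichotomy (helper98)
-/

set_option autoImplicit false
set_option linter.unusedSectionVars false

namespace Cfsg.Agent.Lib.MinU

open Cfsg.Agent.Lib Cfsg.Agent.Lib.UnTrans Cfsg.Agent.Lib.SubfUn
open Cfsg.Agent.Lib.SpTrans (isom mem_isom)

variable {F V : Type*} [Field F] [Finite F] [AddCommGroup V] [Module F V]
variable {σ : F →+* F} {f : V → V → F}

/-- global hypotheses in dimension 5 -/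
structure Glob5 (σ : F →+* F) (f : V → V → F) : Prop where
  hs : HS σ f
  nd : Nd f (⊤ : Submodule F V)
  fd : FiniteDimensional F V
  d5 : Module.finrank F V = 5

theorem Glob5.ctx (G : Glob5 σ f) {e : V} (he0 : e ≠ 0) (hee : f e e = 0) :
    ∃ (e' : V) (V1 : Submodule F V), C3 σ f e e' V1 := by
  have := G.fd
  obtain ⟨y, hy, hey⟩ := G.nd e trivial he0
  obtain ⟨e', -, hep, hee', -⟩ := exists_partner G.hs (U := ⊤) (a := e) trivial hy hee hey
  have h1 := finrank_perp (H := G.hs) (U := ⊤) (e := e) (e' := e') trivial trivial hee hee' hep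
  rw [finrank_top, G.d5] at h1
  refine ⟨e', ⊤ ⊓ LinearMap.ker (G.hs.fl e) ⊓ LinearMap.ker (G.hs.fl e'),
    ⟨G.hs, G.nd, G.fd, hee, hee', hep, ?_, by omega, G.d5⟩⟩
  intro x
  simp

theorem Glob5.finite_V (G : Glob5 σ f) : Finite V := by
  have := G.fd
  exact Module.finite_of_finite F

theorem Glob5.finite_G (G : Glob5 σ f) : Finite (V ≃ₗ[F] V) := by
  have := G.finite_V
  exact Finite.of_injective (fun g : V ≃ₗ[F] V => (g : V → V)) DFunLike.coe_injective

theorem Glob5.d4 (G : Glob5 σ f) : 4 ≤ Module.finrank F (⊤ : Submodule F V) := by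
  rw [finrank_top, G.d5]; norm_num

/-- the index of `M` is small -/
structure Small5 (G : Glob5 σ f) (M : Subgroup (V ≃ₗ[F] V)) : Prop where
  le : M ≤ tgrp G.hs ⊤
  s1 : M.relIndex (tgrp G.hs ⊤) ≤ Nat.card (EE σ) ^ 7 + Nat.card (EE σ) ^ 5 + Nat.card (EE σ) ^ 2

theorem C3.dich {e e' : V} {V1 : Submodule F V} (S : C3 σ f e e' V1) {η : F} (hη0 : η ≠ 0) (hη : η + σ η = 0)
    {M : Subgroup (V ≃ₗ[F] V)}
    (hX : M.relIndex S.PP ≤ Nat.card (EE σ) ^ 7 + Nat.card (EE σ) ^ 5 + Nat.card (EE σ) ^ 2) (hC : S.CC η M ≠ ⊤) :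
    S.WW M = ⊥ ∧ S.CC η M = ⊥ := by
  have := S.finite_V
  have := finite_addSubgroup (V := V)
  have hW := S.W_bot hη0 hη hC hX
  refine ⟨hW, ?_⟩
  by_contra hC0
  have h1 := (mult_bound (S.CC η M) hC).2 hC0
  have h2 := S.I1 hη0 hη M
  have h3 := S.idW_mul M
  have h4 : Nat.card (S.WW M) = 1 := by rw [hW]; simp
  rw [h4, mul_one, S.card_V1] at h3
  rw [h3] at h2
  have h5 : 1 ≤ Nat.card (orb S.L (S.WW M)) := by
    have : Nonempty (orb S.L (S.WW M)) := ⟨⟨_, self_mem_orb _ _⟩⟩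
    exact Nat.card_pos
  have h6 : Nat.card (EE σ) + 1 ≤ Nat.card (EE σ ⧸ S.CC η M) * (Nat.card (orb S.L (S.WW M)) *
      Nat.card (Set.range fun δ : (EE σ)ˣ => ml (S.CC η M) δ)) := by
    calc Nat.card (EE σ) + 1 ≤ Nat.card (EE σ ⧸ S.CC η M) * (1 *
        Nat.card (Set.range fun δ : (EE σ)ˣ => ml (S.CC η M) δ)) := by rw [one_mul]; exact h1
      _ ≤ _ := Nat.mul_le_mul_left _ (Nat.mul_le_mul_right _ h5)
  have h7 : Nat.card (EE σ) ^ 6 * (Nat.card (EE σ) + 1) ≤ M.relIndex S.PP := (Nat.mul_le_mul_left _ h6).trans h2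
  have hq := one_lt_q S.hs
  set q := Nat.card (EE σ)
  have h8 : q ^ 6 * (q + 1) = q ^ 7 + q ^ 6 := by ring
  have h9 : q ^ 5 + q ^ 2 < q ^ 6 := by
    have h10 : 2 * q ^ 5 ≤ q ^ 6 := by
      calc 2 * q ^ 5 ≤ q * q ^ 5 := Nat.mul_le_mul_right _ hq
        _ = q ^ 6 := by ring
    have h11 : q ^ 2 < q ^ 5 := Nat.pow_lt_pow_right (by omega) (by norm_num)
    omega
  omega

theorem C3.ZM_of_top {e e' : V} {V1 : Submodule F V} (S : C3 σ f e e' V1) {η : F} (hη0 : η ≠ 0) (hη : η + σ η = 0)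
    {M : Subgroup (V ≃ₗ[F] V)} : S.CC η M = ⊤ ↔ ZM σ f M e := by
  have hση : σ η = -η := eq_neg_of_add_eq_zero_right hη
  constructor
  · intro h c hc
    have h1 : σ (c / η) = c / η := by
      rw [map_div₀, hση, eq_neg_of_add_eq_zero_right hc, neg_div_neg_eq]
    obtain ⟨t, ht, h2⟩ : (⟨c / η, h1⟩ : EE σ) ∈ S.CC η M := by rw [h]; trivial
    refine ⟨t, ht, ?_⟩
    convert h2 using 1
    show c = η * (c / η)
    rw [mul_div_cancel₀ _ hη0]
  · intro h
    rw [eq_top_iff]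
    intro x _
    exact h _ (S.eta_cond hη x)

theorem C3.QM_of_bot {e e' : V} {V1 : Submodule F V} (S : C3 σ f e e' V1) {η : F} (hη0 : η ≠ 0) (hη : η + σ η = 0)
    {M : Subgroup (V ≃ₗ[F] V)} (hM : M ≤ isom f) (h1 : S.WW M = ⊥) (h2 : S.CC η M = ⊥) : QM f M e := by
  have hση : σ η = -η := eq_neg_of_add_eq_zero_right hη
  have key : ∀ t ∈ M, ∀ u ∈ V1, ∀ c, IsR f t e u c → t = 1 := by
    intro t ht u hu c htu
    have h3 : u ∈ S.WW M := ⟨hu, t, ht, c, htu⟩
    rw [h1] at h3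
    have h4 : u = 0 := h3
    subst h4
    have h5 := S.isR_cond (hM ht) hu htu
    rw [S.hs.zero_left, add_zero] at h5
    have h6 : σ (c / η) = c / η := by
      rw [map_div₀, hση, eq_neg_of_add_eq_zero_right h5, neg_div_neg_eq]
    have h7 : (⟨c / η, h6⟩ : EE σ) ∈ S.CC η M := ⟨t, ht, by
      show IsR f t e 0 (η * (c / η))
      rw [mul_div_cancel₀ _ hη0]; exact htu⟩
    rw [h2] at h7
    have h8 : (⟨c / η, h6⟩ : EE σ) = 0 := h7
    have h9 : c / η = 0 := congrArg Subtype.val h8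
    have h10 : c = 0 := by
      rcases div_eq_zero_iff.1 h9 with h | h
      · exact h
      · exact absurd h hη0
    subst h10
    ext x
    rw [htu, rho, S.hs.zero_right]; simp
  intro t ht u c hu htu
  obtain ⟨u1, hu1, hd⟩ := S.decomp u
  rw [hu, zero_smul, add_zero, add_comm] at hd
  rw [hd] at htu
  exact key t ht u1 hu1 _ (isR_add_smul S.hs htu)

theorem Glob5.dich (G : Glob5 σ f) {M : Subgroup (V ≃ₗ[F] V)} (hS : Small5 G M) {e : V} (he0 : e ≠ 0) (hee : f e e = 0) :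
    ZM σ f M e ∨ QM f M e := by
  have := G.finite_G
  obtain ⟨e', V1, S⟩ := G.ctx he0 hee
  obtain ⟨η, hη0, hη⟩ := G.hs.exists_tr0
  by_cases hC : S.CC η M = ⊤
  · exact Or.inl ((S.ZM_of_top hη0 hη).1 hC)
  · right
    have hle : S.PP ≤ tgrp G.hs ⊤ := inf_le_left
    have h0 : M.relIndex S.PP ≤ M.relIndex (tgrp G.hs ⊤) :=
      Subgroup.relIndex_le_of_le_right hle (by rw [Subgroup.relIndex]; exact Subgroup.index_ne_zero_of_finite)
    obtain ⟨h1, h2⟩ := S.dich hη0 hη (h0.trans hS.s1) hC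
    exact S.QM_of_bot hη0 hη (hS.le.trans (tgrp_le_isom G.hs ⊤)) h1 h2

/-- all long root groups in `M` -/
theorem Glob5.top_of_all (G : Glob5 σ f) {M : Subgroup (V ≃ₗ[F] V)} (h : ∀ v, v ≠ 0 → f v v = 0 → ZM σ f M v) :
    tgrp G.hs ⊤ ≤ M := by
  rw [tgrp, Subgroup.closure_le]
  rintro t ⟨w, -, hww, a, ha, rfl⟩
  by_cases hw0 : w = 0
  · subst hw0
    rw [tv_zero_left G.hs hww a ha]
    exact one_mem M
  · obtain ⟨t, ht, h1⟩ := h w hw0 hww a ha
    have : tv G.hs w hww a ha = t := by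
      ext x
      rw [h1, tv_apply, rho, G.hs.zero_right]; simp
    rw [this]; exact ht

theorem Glob5.top_of_QQ (G : Glob5 σ f) {M : Subgroup (V ≃ₗ[F] V)} (hM : M ≤ isom f) {e g : V} (he0 : e ≠ 0)
    (hee : f e e = 0) (hQ : QQ σ f M e) (hgg : f g g = 0) (hg : ZM σ f M g) (hge : f g e ≠ 0) : tgrp G.hs ⊤ ≤ M := by
  have H := G.hs
  have step1 : ∀ v, f v v = 0 → f v e ≠ 0 → ZM σ f M v := by
    intro v hvv hve
    have hs : f g e / f v e ≠ 0 := div_ne_zero hge hve
    obtain ⟨t, ht, h1⟩ := exists_Q H (v := (f g e / f v e) • v) hQ hgg (by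
      rw [H.smul_left, H.smul_right, hvv]; ring) hge (by rw [H.smul_left, div_mul_cancel₀ _ hve]) hee
    have h2 := hg.conj H hM ht
    rw [h1] at h2
    exact h2.smul H hs
  apply G.top_of_all
  intro v hv0 hvv
  by_cases hve : f v e = 0
  · obtain ⟨y, -, hey, hvy⟩ := H.exists_common G.nd (u := e) (v := v) trivial trivial he0 hv0
    obtain ⟨a, ha⟩ := H.exists_add_norm (u := y) hee hey (map_zero σ)
    set w := y + a • e with hw
    have hwe : f w e ≠ 0 := by
      rw [hw, H.add_left, H.smul_left, hee, mul_zero, add_zero]; exact H.symm_ne hey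
    have hvw : f v w ≠ 0 := by
      rw [hw, H.add_right, H.smul_right, hve, mul_zero, add_zero]; exact hvy
    have hZw := step1 w ha hwe
    obtain ⟨τ, hτ0, hτ⟩ := H.exists_tr0
    obtain ⟨t, ht, h1⟩ := hZw τ hτ
    have h2 : t v = v + (τ * f v w) • w := by rw [h1, rho, H.zero_right]; simp
    have h3 : ZM σ f M (t v) := by
      apply step1
      · rw [hM ht]; exact hvv
      · rw [h2, H.add_left, H.smul_left, hve, zero_add]
        exact mul_ne_zero (mul_ne_zero hτ0 hvw) hwe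
    have h4 := h3.conj H hM (inv_mem ht)
    rwa [inv_apply_self'] at h4
  · exact step1 v hvv hve

/-- if `M` contains `Q(e)` and is proper, then `M` stabilises the point `e` -/
theorem Glob5.fix_of_QQ (G : Glob5 σ f) {M : Subgroup (V ≃ₗ[F] V)} (hS : Small5 G M) (hne : ¬ tgrp G.hs ⊤ ≤ M) {e : V}
    (he0 : e ≠ 0) (hee : f e e = 0) (hQ : QQ σ f M e) {m : V ≃ₗ[F] V} (hm : m ∈ M) :
    m e ∈ Submodule.span F {e} := by
  have H := G.hs
  have hM : M ≤ isom f := hS.le.trans (tgrp_le_isom G.hs ⊤)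
  have hno : ∀ g, f g g = 0 → ZM σ f M g → f g e = 0 := by
    intro g hgg hg
    by_contra hge
    exact hne (G.top_of_QQ hM he0 hee hQ hgg hg hge)
  have hQ2 := hQ.conj H hM hm
  set e2 := m e with he2
  have he22 : f e2 e2 = 0 := by rw [he2, hM hm]; exact hee
  have he20 : e2 ≠ 0 := by rw [he2]; simpa using he0
  have h1 : f e2 e = 0 := hno e2 he22 (ZM.of_QQ H hQ2)
  by_contra hns
  -- `e ∉ F e2`
  have hns' : e ∉ Submodule.span F {e2} := by
    intro h
    apply hns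
    obtain ⟨c, hc⟩ := Submodule.mem_span_singleton.1 h
    have hc0 : c ≠ 0 := by rintro rfl; rw [zero_smul] at hc; exact he0 hc.symm
    rw [Submodule.mem_span_singleton]
    exact ⟨c⁻¹, by rw [← hc, smul_smul, inv_mul_cancel₀ hc0, one_smul]⟩
  obtain ⟨x, hx2, hxe⟩ : ∃ x, f x e2 = 0 ∧ f x e ≠ 0 := by
    by_contra h
    push Not at h
    exact hns' (H.mem_span_of_perp G.nd (w := e2) (u := e) trivial trivial fun x _ hx => h x hx)
  obtain ⟨a, ha⟩ := H.exists_add_norm (u := x) hee (H.symm_ne hxe) (map_zero σ)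
  set w := x + a • e with hw
  have hw2 : f w e2 = 0 := by
    rw [hw, H.add_left, H.smul_left, hx2, H.symm_zero h1]; ring
  have hwe : f w e ≠ 0 := by
    rw [hw, H.add_left, H.smul_left, hee, mul_zero, add_zero]; exact hxe
  have hw0 : w ≠ 0 := by intro h; rw [h, H.zero_left] at hwe; exact hwe rfl
  obtain ⟨t, ht, h2⟩ := hQ2 w 0 hw2 (by rw [ha, map_zero]; ring)
  have h3 := isR_neg_swap H h2
  rcases G.dich hS hw0 ha with h | h
  · exact hwe (hno w ha h)
  · have h4 := h t ht _ _ (by rw [H.neg_left, H.symm_zero hw2, neg_zero]) h3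
    have h5 := h2 e
    rw [h4, rho, H.symm_zero h1] at h5
    have h6 : f e w • e2 = 0 := by
      have h7 : (1 : V ≃ₗ[F] V) e = e := rfl
      rw [h7] at h5
      have h8 : e = e - f e w • e2 := by
        conv_lhs => rw [h5]
        module
      exact sub_eq_self.1 h8.symm
    rcases smul_eq_zero.1 h6 with h7 | h7
    · exact H.symm_ne hwe h7
    · exact he20 h7

theorem Glob5.le_of_fix (G : Glob5 σ f) {M : Subgroup (V ≃ₗ[F] V)} {e : V}
    (he0 : e ≠ 0) (hee : f e e = 0) (hfix : ∀ m ∈ M, m e ∈ Submodule.span F {e}) :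
    Nat.card (IPt (F := F) f) ≤ M.relIndex (tgrp G.hs ⊤) := by
  have := G.fd
  have := G.finite_G
  have h1 : ∀ L : IPt (F := F) f, ∃ g ∈ tgrp G.hs ⊤, (L : Submodule F V) = Submodule.span F {g e} := by
    rintro ⟨_, v, hv0, hvv, rfl⟩
    obtain ⟨g, hg, hge⟩ := exists_move G.hs G.nd G.d4 (x := e) (y := v) trivial trivial he0 hv0 (by rw [hee, hvv])
    exact ⟨g, hg, by rw [hge]⟩
  choose g hg hgL using h1
  refine card_le_relIndex M _ g hg ?_
  intro L L' h
  apply Subtype.ext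
  rw [hgL L, hgL L']
  obtain ⟨c, hc⟩ := Submodule.mem_span_singleton.1 (hfix _ h)
  have h2 : g L' e = c • g L e := by
    have := congrArg (g L) hc
    rw [map_smul, LinearEquiv.mul_apply, apply_inv] at this
    exact this.symm
  have hc0 : c ≠ 0 := by
    rintro rfl
    rw [zero_smul] at h2
    exact he0 ((g L').map_eq_zero_iff.1 h2)
  rw [h2]
  exact (Submodule.span_singleton_smul_eq (IsUnit.mk0 c hc0) _).symm

end Cfsg.Agent.Lib.MinU
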