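import Mathlib
import Cfsg.Agent.Lib.MinVE

/-!
# Minimal index of `SU_5(q)`: a subgroup of small index meets some `Q(e)` (helper98)
-/

set_option autoImplicit false
set_option linter.unusedSectionVars false

namespace Cfsg.Agent.Lib.MinU

open Cfsg.Agent.Lib Cfsg.Agent.Lib.UnTrans Cfsg.Agent.Lib.SubfUn
open Cfsg.Agent.Lib.SpTrans (isom mem_isom)

variable {F V : Type*} [Field F] [Finite F] [AddCommGroup V] [Module F V]
variable {σ : F →+* F} {f : V → V → F}

theorem exists_nu (H : HS σ f) : ∃ ν : F, ν * σ ν = 1 ∧ (σ ν) ^ 2 ≠ 1 := by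
  classical
  by_contra hcon
  push Not at hcon
  have h1 := norm_fiber H (s := 1) (map_one σ) one_ne_zero
  have h2 := one_lt_q H
  have h3 : Nat.card {l : F // l * σ l = 1} ≤ Nat.card Bool := by
    refine Nat.card_le_card_of_injective (fun l => decide (l.1 = 1)) ?_
    have h4 : ∀ l : {l : F // l * σ l = 1}, l.1 = 1 ∨ l.1 = -1 := by
      intro l
      have h5 := hcon l.1 l.2
      have h6 : σ (l.1 ^ 2) = σ 1 := by rw [map_pow, h5, map_one]
      have h7 : l.1 ^ 2 = 1 := σ.injective h6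
      exact mul_self_eq_one_iff.1 (by rw [← sq]; exact h7)
    intro l l' h
    apply Subtype.ext
    by_cases hl : l.1 = 1
    · by_cases hl' : l'.1 = 1
      · rw [hl, hl']
      · simp [hl, hl'] at h
    · by_cases hl' : l'.1 = 1
      · simp [hl, hl'] at h
      · rw [(h4 l).resolve_left hl, (h4 l').resolve_left hl']
  rw [h1] at h3
  simp at h3
  omega

namespace C3
variable {e e' : V} {V1 : Submodule F V} (S : C3 σ f e e' V1)
include S

theorem hconj {z : V ≃ₗ[F] V} (hz : z ∈ S.L) {r : V ≃ₗ[F] V} {v : V} {c : F} (h : IsR f r e v c) :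
    IsR f (z * r * z⁻¹) e (z v) c := by
  have := IsR.conj S.hs (S.L_iso hz) h
  rwa [S.L_e hz] at this

/-- lifting of elements of `L` -/
theorem exists_lift {η : F} (hη0 : η ≠ 0) (hη : η + σ η = 0) {M : Subgroup (V ≃ₗ[F] V)} (hQ : QM f M e)
    (hX : M.relIndex (tgrp S.hs ⊤) < 2 * (Nat.card V1 * Nat.card (EE σ))) {l : V ≃ₗ[F] V} (hl : l ∈ S.L) :
    ∃ r, ∃ v ∈ V1, ∃ c, r ∈ tgrp S.hs ⊤ ∧ IsR f r e v c ∧ l * r ∈ M := by
  classical
  have := S.finite_V
  have := S.finite_G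
  by_contra hcon
  push Not at hcon
  have hR : ∀ q : V1, ∃ t ∈ tgrp S.hs ⊤, ∃ c, IsR f t e (q : V) c := fun q => by
    obtain ⟨t, ht, c, -, h⟩ := S.exists_R' q.2
    exact ⟨t, ht, c, h⟩
  have hZ : ∀ z : EE σ, ∃ t ∈ tgrp S.hs ⊤, IsR f t e 0 (η * z) := fun z => S.exists_Z hη _
  choose R hRm cR hR using hR
  choose Z hZm hZ using hZ
  have key := card_le_relIndex (ι := (V1 × EE σ) ⊕ (V1 × EE σ)) M (tgrp S.hs ⊤)
      (Sum.elim (fun i => R i.1 * Z i.2) (fun i => l * (R i.1 * Z i.2)))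
      (by
        rintro (i | i)
        · exact mul_mem (hRm _) (hZm _)
        · exact mul_mem (S.L_le hl) (mul_mem (hRm _) (hZm _))) ?_
  · rw [Nat.card_sum, Nat.card_prod] at key
    omega
  have same : ∀ (v v' : V1) (y y' : EE σ), (R v * Z y)⁻¹ * (R v' * Z y') ∈ M → (v, y) = (v', y') := by
    intro v v' y y' h5
    have hr := S.isR_prod v.2 (hR v) (hZ y)
    have hr' := S.isR_prod v'.2 (hR v') (hZ y')
    obtain ⟨d, hd⟩ := S.isR_inv_mul v.2 v'.2 hr hr'
    have h6 := hQ _ h5 _ _ (S.perp_e (V1.add_mem (V1.neg_mem v.2) v'.2)) hd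
    have h7 := S.uniq v.2 v'.2 hr hr' (inv_mul_eq_one.1 h6)
    have h8 : v = v' := Subtype.ext h7.1
    subst h8
    have h9 : η * (y : F) = η * y' := add_left_cancel h7.2
    have h10 : y = y' := Subtype.ext (mul_left_cancel₀ hη0 h9)
    rw [h10]
  have mixed : ∀ (p p' : V1 × EE σ), (R p.1 * Z p.2)⁻¹ * (l * (R p'.1 * Z p'.2)) ∈ M → False := by
    rintro ⟨v, y⟩ ⟨v', y'⟩ h
    simp only at h
    have hr := S.isR_prod v.2 (hR v) (hZ y)
    have hr' := S.isR_prod v'.2 (hR v') (hZ y')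
    have hri := IsR.inv S.hs S.ee (S.perp_e v.2) hr
    have h2 := S.hconj (inv_mem hl) hri
    have hv2 : l⁻¹ (-(v : V)) ∈ V1 := S.L_mem (inv_mem hl) (V1.neg_mem v.2)
    have h3 := IsR.mul S.hs S.ee (S.perp_e hv2) (S.perp_e v'.2) h2 hr'
    refine hcon _ _ (V1.add_mem hv2 v'.2) _ ?_ h3 ?_
    · exact mul_mem (mul_mem (mul_mem (S.L_le (inv_mem hl)) (inv_mem (mul_mem (hRm _) (hZm _))))
        (inv_mem (S.L_le (inv_mem hl)))) (mul_mem (hRm _) (hZm _))
    · convert h using 1; group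
  rintro (i | i) (j | j) h
  · simp only [Sum.elim_inl] at h
    exact congrArg Sum.inl (same _ _ _ _ h)
  · exact (mixed i j h).elim
  · refine (mixed j i ?_).elim
    have := inv_mem h
    simp only [Sum.elim_inl, Sum.elim_inr] at this
    convert this using 1; group
  · simp only [Sum.elim_inr] at h
    refine congrArg Sum.inr (same _ _ _ _ ?_)
    convert h using 1; group

theorem comm_key {M : Subgroup (V ≃ₗ[F] V)} (hQe : QM f M e) {l z : V ≃ₗ[F] V} (hl : l ∈ S.L) (hz : z ∈ S.L)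
    (hcomm : l * z = z * l) {ρ r : V ≃ₗ[F] V} {v u : V} {d c : F} (hv : v ∈ V1) (hu : u ∈ V1)
    (hρv : IsR f ρ e v d) (hru : IsR f r e u c) (hm : z * r ∈ M) (hm2 : l * ρ ∈ M) :
    l u - u = l (v - z⁻¹ v) := by
  have h1 := S.hconj (inv_mem hz) hρv
  have h2 := S.hconj (inv_mem hl) hru
  have hv1 : z⁻¹ v ∈ V1 := S.L_mem (inv_mem hz) hv
  have hu1 : l⁻¹ u ∈ V1 := S.L_mem (inv_mem hl) hu
  have h3 := IsR.mul S.hs S.ee (S.perp_e hv1) (S.perp_e hu) h1 hru
  have h4 := IsR.mul S.hs S.ee (S.perp_e hu1) (S.perp_e hv) h2 hρv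
  obtain ⟨d', hd'⟩ := S.isR_inv_mul (V1.add_mem hu1 hv) (V1.add_mem hv1 hu) h4 h3
  have h5 : (l⁻¹ * r * l⁻¹⁻¹ * ρ)⁻¹ * (z⁻¹ * ρ * z⁻¹⁻¹ * r) ∈ M := by
    have e1 : (l⁻¹ * r * l⁻¹⁻¹ * ρ)⁻¹ * (z⁻¹ * ρ * z⁻¹⁻¹ * r) = ((z * r) * (l * ρ))⁻¹ * ((l * ρ) * (z * r)) := by
      have e2 : ((z * r) * (l * ρ))⁻¹ = (l⁻¹ * r * l⁻¹⁻¹ * ρ)⁻¹ * (z * l)⁻¹ := by group
      have e3 : (l * ρ) * (z * r) = (l * z) * (z⁻¹ * ρ * z⁻¹⁻¹ * r) := by group
      rw [e2, e3, hcomm]; group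
    rw [e1]
    exact mul_mem (inv_mem (mul_mem hm hm2)) (mul_mem hm2 hm)
  have h6 := hQe _ h5 _ _ (S.perp_e (V1.add_mem (V1.neg_mem (V1.add_mem hu1 hv)) (V1.add_mem hv1 hu))) hd'
  have h7 := (S.uniq (V1.add_mem hu1 hv) (V1.add_mem hv1 hu) h4 h3 (inv_mul_eq_one.1 h6)).1
  have h8 := congrArg l h7
  rw [map_add, map_add, apply_inv] at h8
  rw [map_sub]
  have h9 : u = l (z⁻¹ v) + l u - l v := by rw [← h8]; abel
  have h10 : l u - u = l u - (l (z⁻¹ v) + l u - l v) := by rw [← h9]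
  rw [h10]; abel

theorem exists_iso : ∃ b ∈ V1, b ≠ 0 ∧ f b b = 0 := by
  have := S.finite_V
  have h1 := S.card_O0
  have hq := one_lt_q S.hs
  have h2 : 0 < Nat.card (Ocl f V1 0) := by
    rw [h1]
    set q := Nat.card (EE σ)
    have : q ^ 3 ≤ q ^ 5 := Nat.pow_le_pow_right (by omega) (by norm_num)
    have : 1 < q ^ 2 := Nat.one_lt_pow (by norm_num) (by omega)
    omega
  obtain ⟨⟨b, hb, hb0, hbb⟩⟩ := (Nat.card_pos_iff.1 h2).1
  exact ⟨b, hb, hb0, hbb⟩

/-- a torus element of `L` -/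
theorem exists_h {b b' u0 : V} (hb : b ∈ V1) (hb' : b' ∈ V1) (hu0 : u0 ∈ V1) (hbb : f b b = 0) (hb'b' : f b' b' = 0)
    (hbb' : f b b' = 1) (hub : f u0 b = 0) (hub' : f u0 b' = 0) (huu : f u0 u0 ≠ 0) {ν : F} (hν : ν * σ ν = 1) :
    ∃ h ∈ S.L, h b = ν • b ∧ h u0 = (σ ν) ^ 2 • u0 := by
  have := S.fd
  have hb'b : f b' b = 1 := by rw [S.hs.herm, hbb', map_one]
  have hbu : f b u0 = 0 := S.hs.symm_zero hub
  have hb'u : f b' u0 = 0 := S.hs.symm_zero hub'
  obtain ⟨κ, hκ⟩ := S.hs.exists_trace 1 (map_one σ)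
  have hσσ : σ (σ κ) = κ := S.hs.inv κ
  have hσν : σ (σ ν) = ν := S.hs.inv ν
  set w1 := b + κ • b' with hw1
  set w2 := b - σ κ • b' with hw2
  have n1 : f w1 w1 = 1 := by
    rw [hw1]
    simp only [S.hs.add_left, S.hs.add_right, S.hs.smul_left, S.hs.smul_right, hbb, hb'b', hbb', hb'b]
    linear_combination hκ
  have n2 : f w2 w2 = -1 := by
    rw [hw2]
    simp only [S.hs.sub_left, S.hs.sub_right, S.hs.smul_left, S.hs.smul_right, hbb, hb'b', hbb', hb'b, hσσ]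
    linear_combination -hκ
  have hc1 : (ν - 1) + σ (ν - 1) + (ν - 1) * σ (ν - 1) * f w1 w1 = 0 := by
    rw [n1, map_sub, map_one]
    linear_combination hν
  have hc2 : (1 - ν) + σ (1 - ν) + (1 - ν) * σ (1 - ν) * f w2 w2 = 0 := by
    rw [n2, map_sub, map_one]
    linear_combination -hν
  have hc3 : ((σ ν) ^ 2 - 1) / f u0 u0 + σ (((σ ν) ^ 2 - 1) / f u0 u0) +
      ((σ ν) ^ 2 - 1) / f u0 u0 * σ (((σ ν) ^ 2 - 1) / f u0 u0) * f u0 u0 = 0 := by
    rw [map_div₀, map_sub, map_one, map_pow, hσν, S.hs.self_fixed]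
    field_simp
    linear_combination (ν * σ ν + 1) * hν
  have hw1V : w1 ∈ V1 := V1.add_mem hb (V1.smul_mem _ hb')
  have hw2V : w2 ∈ V1 := V1.sub_mem hb (V1.smul_mem _ hb')
  set h1 := el S.hs w1 _ hc1 with hh1
  set h2 := el S.hs w2 _ hc2 with hh2
  set h3 := el S.hs u0 _ hc3 with hh3
  refine ⟨h1 * h2 * h3, ⟨?_, ?_, ?_⟩, ?_, ?_⟩
  · refine su_le S.hs S.nd (by rw [S.d5]; norm_num)
      (mul_mem (mul_mem (el_mem S.hs _ _ _) (el_mem S.hs _ _ _)) (el_mem S.hs _ _ _)) ?_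
    have e1 : ((h1 * h2 * h3 : V ≃ₗ[F] V) : V →ₗ[F] V) =
        ((h1 : V ≃ₗ[F] V) : V →ₗ[F] V) ∘ₗ ((h2 : V ≃ₗ[F] V) : V →ₗ[F] V) ∘ₗ ((h3 : V ≃ₗ[F] V) : V →ₗ[F] V) := rfl
    rw [e1, LinearMap.det_comp, LinearMap.det_comp, hh1, hh2, hh3, el_det, el_det, el_det, n1, n2,
      div_mul_cancel₀ _ huu]
    linear_combination (ν * σ ν + 1) * hν
  · rw [LinearEquiv.mul_apply, LinearEquiv.mul_apply, (S.el_V1 hu0 _ hc3).1, (S.el_V1 hw2V _ hc2).1,
      (S.el_V1 hw1V _ hc1).1]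
  · rw [LinearEquiv.mul_apply, LinearEquiv.mul_apply, (S.el_V1 hu0 _ hc3).2, (S.el_V1 hw2V _ hc2).2,
      (S.el_V1 hw1V _ hc1).2]
  · have f1 : f b w1 = σ κ := by
      rw [hw1, S.hs.add_right, S.hs.smul_right, hbb, hbb']; ring
    have f2 : f b w2 = -κ := by
      rw [hw2, S.hs.sub_right, S.hs.smul_right, hbb, hbb', hσσ]; ring
    have f3 : f w2 w1 = 0 := by
      rw [hw1, hw2]
      simp only [S.hs.sub_left, S.hs.add_right, S.hs.smul_left, S.hs.smul_right, hbb, hb'b', hbb', hb'b]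
      ring
    have g3 : h3 b = b := by rw [hh3, el_apply, hbu, mul_zero, zero_smul, add_zero]
    have g2 : h2 b = b + ((1 - ν) * -κ) • w2 := by rw [hh2, el_apply, f2]
    rw [LinearEquiv.mul_apply, LinearEquiv.mul_apply, g3, g2, hh1, el_apply, S.hs.add_left, S.hs.smul_left, f1, f3,
      hw1, hw2]
    have hκ' : σ κ = 1 - κ := by linear_combination hκ
    rw [hκ']
    module
  · have f1 : f u0 w1 = 0 := by
      rw [hw1, S.hs.add_right, S.hs.smul_right, hub, hub']; ring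
    have f2 : f u0 w2 = 0 := by
      rw [hw2, S.hs.sub_right, S.hs.smul_right, hub, hub']; ring
    have g3 : h3 u0 = (σ ν) ^ 2 • u0 := by
      rw [hh3, el_apply, div_mul_cancel₀ _ huu]; module
    have g2 : h2 ((σ ν) ^ 2 • u0) = (σ ν) ^ 2 • u0 := by
      rw [hh2, el_apply, S.hs.smul_left, f2, mul_zero, mul_zero, zero_smul, add_zero]
    rw [LinearEquiv.mul_apply, LinearEquiv.mul_apply, g3, g2, hh1, el_apply, S.hs.smul_left, f1, mul_zero, mul_zero,
      zero_smul, add_zero]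

theorem lemN {η : F} (hη0 : η ≠ 0) (hη : η + σ η = 0) {M : Subgroup (V ≃ₗ[F] V)} (hM : M ≤ isom f)
    (hQ : ∀ e, e ≠ 0 → f e e = 0 → QM f M e)
    (hX : M.relIndex (tgrp S.hs ⊤) < 2 * (Nat.card V1 * Nat.card (EE σ))) : False := by
  have := S.finite_V
  have := S.finite_G
  have := S.fd
  have he0 : e ≠ 0 := by
    rintro h; have := S.ep; rw [h, S.hs.zero_left] at this; exact zero_ne_one this
  have hQe := hQ e he0 S.ee
  obtain ⟨b, hb, hb0, hbb⟩ := S.exists_iso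
  obtain ⟨y0, hy0, hby0⟩ := S.nd1 b hb hb0
  obtain ⟨b', hb', hbb', hb'b', -⟩ := exists_partner S.hs (U := V1) (a := b) hb hy0 hbb hby0
  have hfr := finrank_perp (H := S.hs) (U := V1) (e := b) (e' := b') hb hb' hbb hb'b' hbb'
  rw [S.d3] at hfr
  have hUnd := nd_sub S.hs S.nd1 hb hb' hbb hb'b' hbb'
  set U := V1 ⊓ LinearMap.ker (S.hs.fl b) ⊓ LinearMap.ker (S.hs.fl b') with hUdef
  have memU : ∀ x, x ∈ U ↔ x ∈ V1 ∧ f x b = 0 ∧ f x b' = 0 := by
    intro x; rw [hUdef]; simp [and_assoc]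
  have hU1 : Module.finrank F U = 1 := by omega
  obtain ⟨⟨u0, hu0U⟩, hu00, hspan⟩ := finrank_eq_one_iff'.1 hU1
  have hu0ne : u0 ≠ 0 := fun h => hu00 (Subtype.ext h)
  obtain ⟨hu0V, hu0b, hu0b'⟩ := (memU u0).1 hu0U
  have huu : f u0 u0 ≠ 0 := by
    intro hxx
    obtain ⟨z, hz, hxz⟩ := hUnd u0 hu0U hu0ne
    obtain ⟨c, hc⟩ := hspan ⟨z, hz⟩
    have hc' : c • u0 = z := congrArg Subtype.val hc
    rw [← hc', S.hs.smul_right, hxx, mul_zero] at hxz
    exact hxz rfl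
  have hbu0 := S.hs.symm_zero hu0b
  -- the element z
  obtain ⟨z, hz, hzb⟩ := S.exists_R1 hb V1.zero_mem hbb (S.hs.zero_left b) (c := η) (by
    rw [S.hs.zero_left, add_zero, hη])
  obtain ⟨r, u, hu, c, hr, hru, hm⟩ := S.exists_lift hη0 hη hQe hX hz
  have hzv : ∀ v : V, v - z⁻¹ v = (η * f v b) • b := by
    intro v
    have h1 : z⁻¹ v = v - (η * f v b) • b := by
      apply inv_apply_of
      rw [hzb, rho, S.hs.zero_right, S.hs.sub_left, S.hs.smul_left, hbb]; module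
    rw [h1]; abel
  -- `u` is perpendicular to `b`
  have hub : f u b = 0 := by
    obtain ⟨x, hx⟩ := S.exists_c u0
    obtain ⟨l, hl, hlb⟩ := S.exists_R1 hb hu0V hbb hu0b hx
    obtain ⟨ρ, v, hv, d, -, hρ, hm2⟩ := S.exists_lift hη0 hη hQe hX hl
    have hcomm : l * z = z * l := by
      have h1 := IsR.mul S.hs hbb hu0b (S.hs.zero_left b) hlb hzb
      have h2 := IsR.mul S.hs hbb (S.hs.zero_left b) hu0b hzb hlb
      rw [S.hs.zero_left, add_zero, sub_zero] at h1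
      rw [S.hs.zero_right, zero_add, sub_zero, add_comm] at h2
      exact isR_unique' h1 h2
    have h3 := S.comm_key hQe hl hz hcomm hv hu hρ hru hm hm2
    have hlb0 : l b = b := by rw [hlb, rho, hbb, hbu0]; simp
    rw [hzv, map_smul, hlb0] at h3
    have h4 : l u - u = f u b • u0 + (x * f u b - f u u0) • b := by rw [hlb, rho]; module
    rw [h4] at h3
    have h5 := congrArg (fun y => f y u0) h3
    simp only [S.hs.add_left, S.hs.smul_left, hbu0, mul_zero, add_zero] at h5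
    exact (mul_eq_zero.1 h5).resolve_right huu
  -- `u` is a multiple of `b`
  have hub2 : u ∈ Submodule.span F {b} := by
    have h1 : u - f u b' • b ∈ U := by
      rw [memU]
      refine ⟨V1.sub_mem hu (V1.smul_mem _ hb), ?_, ?_⟩
      · rw [S.hs.sub_left, S.hs.smul_left, hub, hbb]; ring
      · rw [S.hs.sub_left, S.hs.smul_left, hbb']; ring
    obtain ⟨γ, hγ⟩ := hspan ⟨_, h1⟩
    have hγ' : γ • u0 = u - f u b' • b := congrArg Subtype.val hγ
    have hud : u = f u b' • b + γ • u0 := by rw [hγ']; abel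
    obtain ⟨ν, hν, hν2⟩ := exists_nu S.hs
    obtain ⟨h, hh, hhb, hhu⟩ := S.exists_h hb hb' hu0V hbb hb'b' hbb' hu0b hu0b' huu hν
    obtain ⟨ρ, v, hv, d, -, hρ, hm2⟩ := S.exists_lift hη0 hη hQe hX hh
    have hcomm : h * z = z * h := by
      have h2 := IsR.conj S.hs (S.L_iso hh) hzb
      rw [hhb, map_zero] at h2
      have h3 := IsR.smul S.hs h2
      rw [smul_zero, hν, mul_one] at h3
      have h4 := isR_unique' h3 hzb
      calc h * z = (h * z * h⁻¹) * h := by group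
        _ = z * h := by rw [h4]
    have h3 := S.comm_key hQe hh hz hcomm hv hu hρ hru hm hm2
    rw [hzv, map_smul, hhb] at h3
    have h4 := congrArg (fun y => f y u0) h3
    have h5 : f (h u - u) u0 = ((σ ν) ^ 2 - 1) * γ * f u0 u0 := by
      conv_lhs => rw [hud]
      rw [map_add, map_smul, map_smul, hhb, hhu]
      simp only [S.hs.sub_left, S.hs.add_left, S.hs.smul_left, hbu0]
      ring
    have h6 : ((σ ν) ^ 2 - 1) * γ * f u0 u0 = 0 := by
      rw [← h5]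
      refine h4.trans ?_
      simp only [S.hs.smul_left, hbu0, mul_zero]
    have h7 : γ = 0 := by
      rcases mul_eq_zero.1 h6 with h | h
      · rcases mul_eq_zero.1 h with h | h
        · exact absurd (sub_eq_zero.1 h) hν2
        · exact h
      · exact absurd h huu
    rw [h7, zero_smul, add_zero] at hud
    rw [hud]
    exact Submodule.smul_mem _ _ (Submodule.mem_span_singleton_self b)
  obtain ⟨α, rfl⟩ := Submodule.mem_span_singleton.1 hub2
  -- the element y = z r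
  have heb := S.perp_e2 hb
  have hbe := S.perp_e hb
  have hcc : c + σ c = 0 := by
    have := S.isR_cond (tgrp_le_isom S.hs ⊤ hr) hu hru
    rwa [S.hs.smul_left, S.hs.smul_right, hbb, mul_zero, mul_zero, add_zero] at this
  have hσc : σ c = -c := eq_neg_of_add_eq_zero_right hcc
  have hy : ∀ x, (z * r) x = x + (f x e * α) • b - (σ α * f x b) • e + (c * f x e) • e + (η * f x b) • b := by
    intro x
    rw [LinearEquiv.mul_apply, hzb, hru, rho, rho]
    simp only [S.hs.add_left, S.hs.sub_left, S.hs.smul_left, S.hs.smul_right, S.hs.zero_right, hbb, heb]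
    module
  have hy1 : z * r = 1 := by
    rcases field_lem S.hs (α := α) hη hcc with ⟨h1, h2⟩ | ⟨t, ht⟩
    · refine hQ b hb0 hbb _ hm 0 η (S.hs.zero_left b) fun x => ?_
      rw [hy, h1, h2, rho, S.hs.zero_right, map_zero]
      module
    · have h1 : f (e + t • b) (e + t • b) = 0 := by
        simp only [S.hs.add_left, S.hs.add_right, S.hs.smul_left, S.hs.smul_right, S.ee, heb, hbe, hbb]; ring
      have h2 : e + t • b ≠ 0 := by
        intro h
        have h3 : f (e + t • b) e' = 0 := by rw [h, S.hs.zero_left]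
        rw [S.hs.add_left, S.hs.smul_left, S.ep, S.perp_e' hb] at h3
        rw [mul_zero, add_zero] at h3
        exact one_ne_zero h3
      refine hQ (e + t • b) h2 h1 _ hm ((α - c * t) • b) c ?_ fun x => ?_
      · simp only [S.hs.add_right, S.hs.smul_left, S.hs.smul_right, hbe, hbb]; ring
      · rw [hy, rho, S.hs.add_right, S.hs.smul_right, S.hs.smul_right, map_sub, map_mul, hσc]
        conv_lhs => rw [ht]
        module
  obtain ⟨p, hp, hbp⟩ := S.nd1 b hb hb0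
  have hpb := S.hs.symm_ne hbp
  have h1 := hy p
  rw [hy1, S.perp_e hp] at h1
  have h2 : (η * f p b) • b = (σ α * f p b) • e := by
    have h3 : p = p + (0 * α) • b - (σ α * f p b) • e + (c * 0) • e + (η * f p b) • b := h1
    have h4 : (η * f p b) • b - (σ α * f p b) • e = 0 := by
      have h5 := sub_eq_zero.2 h3.symm
      rw [← h5]; module
    exact sub_eq_zero.1 h4
  have h3 := congrArg (fun x => f x e') h2
  simp only [S.hs.smul_left, S.perp_e' hb, S.ep] at h3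
  rw [mul_zero, mul_one] at h3
  rw [← h3, zero_smul] at h2
  rcases smul_eq_zero.1 h2 with h | h
  · exact mul_ne_zero hη0 hpb h
  · exact hb0 h

end C3

end Cfsg.Agent.Lib.MinU
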