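import Mathlib
import Cfsg.Agent.Lib.MinVF

/-!
# Minimal index of `SU_5(q)`: the second count (helper98)
-/

set_option autoImplicit false
set_option linter.unusedSectionVars false

namespace Cfsg.Agent.Lib.MinU

open Cfsg.Agent.Lib Cfsg.Agent.Lib.UnTrans Cfsg.Agent.Lib.SubfUn
open Cfsg.Agent.Lib.SpTrans (isom mem_isom)

variable {F V : Type*} [Field F] [Finite F] [AddCommGroup V] [Module F V]
variable {σ : F →+* F} {f : V → V → F}

namespace C3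
variable {e e' : V} {V1 : Submodule F V} (S : C3 σ f e e' V1)
include S

/-- the second family -/
theorem I2 {η : F} (hη0 : η ≠ 0) (hη : η + σ η = 0) {M : Subgroup (V ≃ₗ[F] V)} (hC : S.CC η M = ⊤)
    {g2 : V ≃ₗ[F] V} (hg2 : g2 ∈ tgrp S.hs ⊤)
    (h2 : ∀ t ∈ M, ∀ u ∈ V1, ∀ c, IsR f (g2 * t * g2⁻¹) e u c → g2 * t * g2⁻¹ = 1) :
    Nat.card V1 * Nat.card (EE σ) + Nat.card (orb S.GG (S.WW M)) * S.idW M ≤ M.relIndex (tgrp S.hs ⊤) := by
  classical
  have := S.finite_V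
  have := S.finite_G
  have := finite_addSubgroup (V := V)
  have hR : ∀ q : V1, ∃ t ∈ tgrp S.hs ⊤, ∃ c, IsR f t e (q : V) c := fun q => by
    obtain ⟨t, ht, c, -, h⟩ := S.exists_R' q.2
    exact ⟨t, ht, c, h⟩
  have hZ : ∀ z : EE σ, ∃ t ∈ tgrp S.hs ⊤, IsR f t e 0 (η * z) := fun z => S.exists_Z hη _
  choose R hRm cR hR using hR
  choose Z hZm hZ using hZ
  choose γ hγm hγ using (fun Y : orb S.GG (S.WW M) => Y.2)
  choose K hKm lK hl0 hKe hKe' hKγ using hγm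
  let T : (V1.toAddSubgroup ⧸ (S.WW M).addSubgroupOf V1.toAddSubgroup) → V1 := fun q => q.out
  have key := card_le_relIndex (ι := (V1 × EE σ) ⊕ (orb S.GG (S.WW M) ×
    (V1.toAddSubgroup ⧸ (S.WW M).addSubgroupOf V1.toAddSubgroup)))
    M (tgrp S.hs ⊤) (Sum.elim (fun p => R p.1 * Z p.2 * g2) (fun i => K i.1 * R (T i.2)))
    (fun i => by
      rcases i with p | i
      · exact mul_mem (mul_mem (hRm _) (hZm _)) hg2
      · exact mul_mem (hKm _) (hRm _)) ?_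
  · rw [Nat.card_sum, Nat.card_prod, Nat.card_prod] at key
    exact key
  have hisoK : ∀ D, K D ∈ isom f := fun D => tgrp_le_isom S.hs ⊤ (hKm D)
  have hKV : ∀ D, ∀ u ∈ V1, K D u ∈ V1 := fun D u hu =>
    (S.map_V1 (hisoK D) (hl0 D) (hKe D) (hKe' D)).2 hu
  -- the mixed case
  have mixed : ∀ (p : V1 × EE σ) (i : orb S.GG (S.WW M) × (V1.toAddSubgroup ⧸ (S.WW M).addSubgroupOf V1.toAddSubgroup)),
      (R p.1 * Z p.2 * g2)⁻¹ * (K i.1 * R (T i.2)) ∈ M → False := by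
    intro p i h
    obtain ⟨z0, hz0, hz0'⟩ : (1 : EE σ) ∈ S.CC η M := by rw [hC]; trivial
    have hinv := IsR.inv S.hs S.ee (S.perp_e p.1.2) (S.isR_prod p.1.2 (hR p.1) (hZ p.2))
    obtain ⟨c', h3, h4⟩ := S.core0 (hisoK i.1) (hKe i.1) (V1.neg_mem p.1.2) (T i.2).2 hinv (hR (T i.2)) (hKV i.1)
      V1.zero_mem hz0'
    rw [map_zero, smul_zero, h4 rfl] at h3
    have h5 := h2 _ (mul_mem (mul_mem h hz0) (inv_mem h)) 0 V1.zero_mem (η * (1 : EE σ) * (lK i.1 * σ (lK i.1))) (by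
      convert h3 using 1; group)
    have h6 : (R p.1 * Z p.2)⁻¹ * K i.1 * R (T i.2) * z0 * ((R p.1 * Z p.2)⁻¹ * K i.1 * R (T i.2))⁻¹ = 1 := by
      rw [← h5]; group
    have h7 := (S.uniq V1.zero_mem V1.zero_mem h3 (IsR.one S.hs e) h6).2
    have h8 : η * (1 : EE σ) * (lK i.1 * σ (lK i.1)) ≠ 0 :=
      mul_ne_zero (mul_ne_zero hη0 (by simp)) (mul_ne_zero (hl0 _) (S.hs.sigma_ne (hl0 _)))
    exact h8 h7
  rintro (⟨u, x⟩ | ⟨Y, q⟩) (⟨u', x'⟩ | ⟨Y', q'⟩) h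
  · simp only [Sum.elim_inl] at h
    have hr := S.isR_prod u.2 (hR u) (hZ x)
    have hr' := S.isR_prod u'.2 (hR u') (hZ x')
    obtain ⟨d, hd⟩ := S.isR_inv_mul u.2 u'.2 hr hr'
    have e1 : g2 * ((R u * Z x * g2)⁻¹ * (R u' * Z x' * g2)) * g2⁻¹ = (R u * Z x)⁻¹ * (R u' * Z x') := by group
    have h3 := h2 _ h _ (V1.add_mem (V1.neg_mem u.2) u'.2) d (by rw [e1]; exact hd)
    rw [e1] at h3
    have h4 := S.uniq u.2 u'.2 hr hr' (inv_mul_eq_one.1 h3)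
    have h5 : u = u' := Subtype.ext h4.1
    subst h5
    have h6 : η * (x : F) = η * x' := add_left_cancel h4.2
    have h7 : x = x' := Subtype.ext (mul_left_cancel₀ hη0 h6)
    rw [h7]
  · exact (mixed (u, x) (Y', q') h).elim
  · refine (mixed (u', x') (Y, q) ?_).elim
    have := inv_mem h
    simp only [Sum.elim_inl, Sum.elim_inr] at this
    convert this using 1; group
  · simp only [Sum.elim_inr] at h
    have hm : (R (T q))⁻¹ * ((K Y)⁻¹ * K Y') * R (T q') ∈ M := by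
      convert h using 1; group
    have hinv := IsR.inv S.hs S.ee (S.perp_e (T q).2) (hR (T q))
    have hκ : (K Y)⁻¹ * K Y' ∈ isom f := mul_mem (inv_mem (hisoK Y)) (hisoK Y')
    have hKi : (K Y)⁻¹ e = (lK Y)⁻¹ • e := by
      apply inv_apply_of
      rw [map_smul, hKe, smul_smul, inv_mul_cancel₀ (hl0 Y), one_smul]
    have hKi' : (K Y)⁻¹ e' = σ (lK Y) • e' := by
      apply inv_apply_of
      rw [map_smul, hKe', smul_smul, mul_inv_cancel₀ (S.hs.sigma_ne (hl0 Y)), one_smul]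
    have hκe : ((K Y)⁻¹ * K Y') e = ((lK Y)⁻¹ * lK Y') • e := by
      rw [LinearEquiv.mul_apply, hKe, map_smul, hKi, smul_smul, mul_comm]
    have hκe' : ((K Y)⁻¹ * K Y') e' = (σ ((lK Y)⁻¹ * lK Y'))⁻¹ • e' := by
      rw [LinearEquiv.mul_apply, hKe', map_smul, hKi', smul_smul, map_mul, map_inv₀, mul_inv, inv_inv, mul_comm]
    have hln : (lK Y)⁻¹ * lK Y' ≠ 0 := mul_ne_zero (inv_ne_zero (hl0 Y)) (hl0 Y')
    have hκV : ∀ u ∈ V1, ((K Y)⁻¹ * K Y') u ∈ V1 := fun u hu => (S.map_V1 hκ hln hκe hκe').2 hu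
    have hY : Y = Y' := by
      have h1 : mp ((γ Y)⁻¹ * γ Y') (S.WW M) ≤ S.WW M := by
        rintro _ ⟨u, ⟨hu, t, ht, c, htu⟩, rfl⟩
        obtain ⟨t', ht', c', h2, -⟩ := S.core hκ hκe (V1.neg_mem (T q).2) (T q').2 hinv (hR (T q')) hκV hm ht hu htu
        have e1 : ((γ Y)⁻¹ * γ Y') u = σ ((lK Y)⁻¹ * lK Y') • ((K Y)⁻¹ * K Y') u := by
          rw [LinearEquiv.mul_apply, hKγ]
          apply inv_apply_of
          rw [hKγ, map_smul, LinearEquiv.mul_apply, apply_inv, smul_smul, map_mul, map_inv₀, ← mul_assoc,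
            mul_inv_cancel₀ (S.hs.sigma_ne (hl0 Y)), one_mul]
        show ((γ Y)⁻¹ * γ Y') u ∈ S.WW M
        rw [e1]
        exact ⟨V1.smul_mem _ (hκV u hu), t', ht', c', h2⟩
      have h2 := mp_eq_of_le h1
      apply Subtype.ext
      rw [← hγ Y, ← hγ Y']
      conv_lhs => rw [← h2, mp_mp, mul_inv_cancel_left]
    subst hY
    rw [inv_mul_cancel, mul_one] at hm
    have hqq : q = q' := by
      obtain ⟨d, hd⟩ := S.isR_inv_mul (T q).2 (T q').2 (hR (T q)) (hR (T q'))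
      rw [← QuotientAddGroup.out_eq' q, ← QuotientAddGroup.out_eq' q', QuotientAddGroup.eq]
      exact ⟨V1.add_mem (V1.neg_mem (T q).2) (T q').2, _, hm, d, hd⟩
    rw [hqq]

/-- adjoint pairs -/
def Adj (S : C3 σ f e e' V1) (γ γ' : V ≃ₗ[F] V) : Prop :=
  ∃ κ ∈ tgrp S.hs ⊤, ∃ l : F, l ≠ 0 ∧ κ e = l • e ∧ κ e' = (σ l)⁻¹ • e' ∧ (∀ u, γ u = σ l • κ u) ∧
    ∀ u, γ' u = l⁻¹ • κ u

theorem Adj.memGG {γ γ' : V ≃ₗ[F] V} (h : S.Adj γ γ') : γ ∈ S.GG := by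
  obtain ⟨κ, hκ, l, hl, h1, h2, h3, -⟩ := h
  exact ⟨κ, hκ, l, hl, h1, h2, h3⟩

theorem exists_adj {γ : V ≃ₗ[F] V} (h : γ ∈ S.GG) : ∃ γ', S.Adj γ γ' := by
  obtain ⟨κ, hκ, l, hl, h1, h2, h3⟩ := h
  exact ⟨LinearEquiv.smulOfNeZero F V l⁻¹ (inv_ne_zero hl) * κ, κ, hκ, l, hl, h1, h2, h3, fun u => rfl⟩

theorem adj_pair {γ γ' : V ≃ₗ[F] V} (h : S.Adj γ γ') (w v : V) : f (γ w) (γ' v) = f w v := by
  obtain ⟨κ, hκ, l, hl, h1, h2, h3, h4⟩ := h
  have hσl := S.hs.sigma_ne hl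
  rw [h3, h4, S.hs.smul_left, S.hs.smul_right, tgrp_le_isom S.hs ⊤ hκ w v, map_inv₀, mul_inv_cancel_left₀ hσl]

theorem adj_mem {γ γ' : V ≃ₗ[F] V} (h : S.Adj γ γ') {v : V} : γ' v ∈ V1 ↔ v ∈ V1 := by
  obtain ⟨κ, hκ, l, hl, h1, h2, h3, h4⟩ := h
  rw [h4, Submodule.smul_mem_iff _ (inv_ne_zero hl)]
  exact S.map_V1 (tgrp_le_isom S.hs ⊤ hκ) hl h1 h2

theorem adj_norm {γ γ' : V ≃ₗ[F] V} (h : S.Adj γ γ') (v : V) : f (γ' v) (γ' v) = 0 ↔ f v v = 0 := by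
  obtain ⟨κ, hκ, l, hl, h1, h2, h3, h4⟩ := h
  have hσl := S.hs.sigma_ne hl
  rw [h4, S.hs.smul_left, S.hs.smul_right, tgrp_le_isom S.hs ⊤ hκ v v]
  simp [hl, hσl]

theorem exists_adj_move {v v' : V} (hv : v ∈ V1) (hv' : v' ∈ V1) (hv0 : v ≠ 0) (hv0' : v' ≠ 0)
    (h : f v v = 0 ↔ f v' v' = 0) : ∃ γ γ', S.Adj γ γ' ∧ γ' v = v' := by
  have := S.fd
  obtain ⟨l, hl0, hl⟩ : ∃ l, l ≠ 0 ∧ f v' v' * (l * σ l) = f v v := by
    by_cases h0 : f v v = 0
    · exact ⟨1, one_ne_zero, by rw [h0, h.1 h0, zero_mul]⟩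
    · have h0' : f v' v' ≠ 0 := fun h' => h0 (h.2 h')
      obtain ⟨l, hl⟩ := S.hs.norm (f v v / f v' v') (by rw [map_div₀, S.hs.self_fixed, S.hs.self_fixed])
      refine ⟨l, ?_, by rw [hl, mul_div_cancel₀ _ h0']⟩
      rintro rfl
      rw [zero_mul] at hl
      exact div_ne_zero h0 h0' hl.symm
  have hσl := S.hs.sigma_ne hl0
  obtain ⟨t, ht, hte, hte'⟩ := S.exists_T hl0
  have htv : t v ∈ V1 := (S.map_V1 (tgrp_le_isom S.hs ⊤ ht) hl0 hte hte').2 hv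
  obtain ⟨k, hk, hkv⟩ := S.L_move (x := l⁻¹ • t v) (y := v') (V1.smul_mem _ htv) hv'
    (smul_ne_zero (inv_ne_zero hl0) (by simpa using hv0)) hv0' (by
      rw [S.hs.smul_left, S.hs.smul_right, tgrp_le_isom S.hs ⊤ ht v v, ← hl, map_inv₀]
      field_simp)
  refine ⟨LinearEquiv.smulOfNeZero F V (σ l) hσl * (k * t), LinearEquiv.smulOfNeZero F V l⁻¹ (inv_ne_zero hl0) * (k * t),
    ⟨k * t, mul_mem (S.L_le hk) ht, l, hl0, ?_, ?_, fun u => rfl, fun u => rfl⟩, ?_⟩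
  · rw [LinearEquiv.mul_apply, hte, map_smul, S.L_e hk]
  · rw [LinearEquiv.mul_apply, hte', map_smul, S.L_e' hk]
  · show l⁻¹ • k (t v) = v'
    rw [← map_smul]; exact hkv

/-- number of members of the orbit annihilated by `v` -/
noncomputable def ka (S : C3 σ f e e' V1) {p : ℕ} (ψ : F →+ ZMod p) (W : AddSubgroup V) (v : V) : ℕ :=
  Nat.card {Y : orb S.GG W // ∀ w ∈ (Y : AddSubgroup V), ψ (f w v) = 0}

theorem dcount2 {p : ℕ} (ψ : F →+ ZMod p) (W : AddSubgroup V) (O : Set V)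
    (hinv : ∀ γ γ', S.Adj γ γ' → ∀ v, γ' v ∈ O ↔ v ∈ O)
    (htr : ∀ v ∈ O, ∀ v' ∈ O, ∃ γ γ', S.Adj γ γ' ∧ γ' v = v') {v0 : V} (hv0 : v0 ∈ O) :
    S.ka ψ W v0 * Nat.card O = Nat.card (orb S.GG W) * Nat.card {v : O // ∀ w ∈ W, ψ (f w (v : V)) = 0} := by
  have := S.finite_V
  have := finite_addSubgroup (V := V)
  refine double_count (A := orb S.GG W) (B := O) (fun Y v => ∀ w ∈ (Y : AddSubgroup V), ψ (f w (v : V)) = 0) _ _ ?_ ?_
  · rintro ⟨b, hb⟩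
    obtain ⟨γ, γ', hγ, hgb⟩ := htr b hb v0 hv0
    have hg := Adj.memGG S hγ
    have hR : ∀ Y : AddSubgroup V, (∀ w ∈ mp γ Y, ψ (f w v0) = 0) ↔ (∀ w ∈ Y, ψ (f w b) = 0) := by
      intro Y
      constructor
      · intro h w hw
        have := h _ (mp_mem (g := γ) hw)
        rwa [← hgb, S.adj_pair hγ] at this
      · rintro h _ ⟨w, hw, rfl⟩
        show ψ (f (γ w) v0) = 0
        rw [← hgb, S.adj_pair hγ]
        exact h w hw
    refine Nat.card_congr (Equiv.ofBijective (fun Y' => ⟨⟨mp γ Y'.1, ?_⟩, ?_⟩) ⟨?_, ?_⟩)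
    · obtain ⟨h, hh, hY⟩ := Y'.1.2
      exact ⟨γ * h, mul_mem hg hh, by rw [← mp_mp, hY]⟩
    · exact (hR _).2 Y'.2
    · rintro ⟨⟨Y1, h1⟩, h1'⟩ ⟨⟨Y2, h2⟩, h2'⟩ h
      have h3 : mp γ Y1 = mp γ Y2 := congrArg (fun z : {Y : orb S.GG W // ∀ w ∈ (Y : AddSubgroup V), ψ (f w v0) = 0} =>
        (z.1 : AddSubgroup V)) h
      have h4 : mp γ⁻¹ (mp γ Y1) = mp γ⁻¹ (mp γ Y2) := by rw [h3]
      rw [mp_mp, mp_mp, inv_mul_cancel, mp_one, mp_one] at h4
      subst h4; rfl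
    · rintro ⟨⟨Y1, h, hh, hY⟩, h1'⟩
      have e1 : mp γ (mp γ⁻¹ Y1) = Y1 := by rw [mp_mp, mul_inv_cancel, mp_one]
      refine ⟨⟨⟨mp γ⁻¹ Y1, γ⁻¹ * h, mul_mem (inv_mem hg) hh, by rw [← mp_mp, hY]⟩, ?_⟩, ?_⟩
      · rw [← hR, e1]
        exact h1'
      · exact Subtype.ext (Subtype.ext e1)
  · rintro ⟨Y1, γ, hg, rfl⟩
    obtain ⟨γ', hγ⟩ := S.exists_adj hg
    have hR : ∀ v : V, (∀ w ∈ mp γ W, ψ (f w (γ' v)) = 0) ↔ (∀ w ∈ W, ψ (f w v) = 0) := by
      intro v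
      constructor
      · intro h w hw
        have := h _ (mp_mem (g := γ) hw)
        rwa [S.adj_pair hγ] at this
      · rintro h _ ⟨w, hw, rfl⟩
        show ψ (f (γ w) (γ' v)) = 0
        rw [S.adj_pair hγ]
        exact h w hw
    refine (Nat.card_congr (Equiv.ofBijective (fun x => ⟨⟨γ' x.1.1, (hinv γ γ' hγ _).2 x.1.2⟩, (hR _).2 x.2⟩) ⟨?_, ?_⟩)).symm
    · rintro ⟨⟨x, h1⟩, h1'⟩ ⟨⟨y, h2⟩, h2'⟩ h
      have h3 : γ' x = γ' y := congrArg (fun z : {v : O // ∀ w ∈ mp γ W, ψ (f w (v : V)) = 0} => (z.1 : V)) h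
      have h4 := γ'.injective h3
      subst h4; rfl
    · rintro ⟨⟨x, h1⟩, h1'⟩
      have e1 : γ' (γ'⁻¹ x) = x := apply_inv γ' x
      refine ⟨⟨⟨γ'⁻¹ x, ?_⟩, ?_⟩, ?_⟩
      · rw [← hinv γ γ' hγ, e1]; exact h1
      · rw [← hR, e1]; exact h1'
      · exact Subtype.ext (Subtype.ext e1)

theorem ka_pos {p : ℕ} (ψ : F →+ ZMod p) {W : AddSubgroup V} {v : V} (h : v ∈ ann S.hs ψ V1 W) : 1 ≤ S.ka ψ W v := by
  have := S.finite_V
  have := finite_addSubgroup (V := V)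
  have : Nonempty {Y : orb S.GG W // ∀ w ∈ (Y : AddSubgroup V), ψ (f w v) = 0} :=
    ⟨⟨⟨W, self_mem_orb _ _⟩, h.2⟩⟩
  exact Nat.card_pos

theorem alpha {p : ℕ} (ψ : F →+ ZMod p) {W : AddSubgroup V} {v0 : V} (hv0 : v0 ∈ ann S.hs ψ V1 W) (hne : f v0 v0 ≠ 0) :
    Nat.card (ON f V1) + Nat.card (orb S.GG W) ≤ Nat.card (orb S.GG W) * Nat.card (ann S.hs ψ V1 W) ∧
    (Nat.card (EE σ) = 2 → 4 * Nat.card (ON f V1) ≤ 3 * (Nat.card (orb S.GG W) * Nat.card (ann S.hs ψ V1 W))) := by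
  classical
  have := S.finite_V
  have := finite_addSubgroup (V := V)
  have h0 : ∀ v ∈ ON f V1, v ≠ 0 := by
    rintro v hv rfl
    exact hv.2 (S.hs.zero_left _)
  have hdc := S.dcount2 ψ W (ON f V1) (fun γ γ' hγ v => by
      show _ ∧ _ ↔ _ ∧ _
      rw [S.adj_mem hγ, ne_eq, ne_eq, S.adj_norm hγ v])
    (fun v hv v' hv' => S.exists_adj_move hv.1 hv'.1 (h0 v hv) (h0 v' hv')
      (by simp only [hv.2, hv'.2])) (v0 := v0) ⟨hv0.1, hne⟩
  have hk := S.ka_pos ψ hv0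
  set n := Nat.card {v : ON f V1 // ∀ w ∈ W, ψ (f w (v : V)) = 0}
  have hn : n = Nat.card {v : ann S.hs ψ V1 W // f (v : V) v ≠ 0} :=
    Nat.card_congr
      { toFun := fun v => ⟨⟨v.1, v.1.2.1, v.2⟩, v.1.2.2⟩
        invFun := fun v => ⟨⟨v.1, v.1.2.1, v.2⟩, v.1.2.2⟩
        left_inv := fun _ => rfl
        right_inv := fun _ => rfl }
  have h1 : Nat.card (ON f V1) ≤ Nat.card (orb S.GG W) * n := by
    rw [← hdc]
    calc Nat.card (ON f V1) = 1 * Nat.card (ON f V1) := (one_mul _).symm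
      _ ≤ _ := Nat.mul_le_mul_right _ hk
  constructor
  · have h2 : n + 1 ≤ Nat.card (ann S.hs ψ V1 W) := by
      rw [hn]
      have h3 : Nat.card (ann S.hs ψ V1 W) = Nat.card {v : ann S.hs ψ V1 W // f (v : V) v = 0} +
          Nat.card {v : ann S.hs ψ V1 W // f (v : V) v ≠ 0} := by
        rw [← Nat.card_sum]
        exact (Nat.card_congr (Equiv.sumCompl (fun v : ann S.hs ψ V1 W => f (v : V) v = 0))).symm
      have : Nonempty {v : ann S.hs ψ V1 W // f (v : V) v = 0} := ⟨⟨0, S.hs.zero_left _⟩⟩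
      have h4 : 0 < Nat.card {v : ann S.hs ψ V1 W // f (v : V) v = 0} := Nat.card_pos
      omega
    calc Nat.card (ON f V1) + Nat.card (orb S.GG W) ≤ Nat.card (orb S.GG W) * n + Nat.card (orb S.GG W) := by omega
      _ = Nat.card (orb S.GG W) * (n + 1) := by ring
      _ ≤ _ := Nat.mul_le_mul_left _ h2
  · intro hq
    have h3 := quarter' S.hs hq (ann S.hs ψ V1 W)
    rw [← hn] at h3
    calc 4 * Nat.card (ON f V1) ≤ 4 * (Nat.card (orb S.GG W) * n) := Nat.mul_le_mul_left _ h1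
      _ = Nat.card (orb S.GG W) * (4 * n) := by ring
      _ ≤ Nat.card (orb S.GG W) * (3 * Nat.card (ann S.hs ψ V1 W)) := Nat.mul_le_mul_left _ h3
      _ = _ := by ring

theorem beta {p : ℕ} (ψ : F →+ ZMod p) {W : AddSubgroup V} {v0 : V} (hv0 : v0 ∈ ann S.hs ψ V1 W) (hv00 : v0 ≠ 0)
    (hall : ∀ v ∈ ann S.hs ψ V1 W, f v v = 0) :
    2 * Nat.card (Ocl f V1 0) + Nat.card (orb S.GG W) ≤ Nat.card (orb S.GG W) * Nat.card (ann S.hs ψ V1 W) ∨
    Nat.card F * Nat.card (Ocl f V1 0) ≤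
      (Nat.card F - 1) * (Nat.card (orb S.GG W) * Nat.card (ann S.hs ψ V1 W)) := by
  classical
  have := S.finite_V
  have := S.fd
  have := finite_addSubgroup (V := V)
  have hdc : ∀ v ∈ ann S.hs ψ V1 W, v ≠ 0 → _ := fun v hv hv0 =>
    S.dcount2 ψ W (Ocl f V1 0) (fun γ γ' hγ v => by
      show _ ∧ _ ∧ _ ↔ _ ∧ _ ∧ _
      rw [S.adj_mem hγ, S.adj_norm hγ v, ne_eq, LinearEquiv.map_eq_zero_iff])
    (fun v hv v' hv' => S.exists_adj_move hv.1 hv'.1 hv.2.1 hv'.2.1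
      (by simp only [hv.2.2, hv'.2.2])) (v0 := v) ⟨hv.1, hv0, hall v hv⟩
  set n := Nat.card {v : Ocl f V1 0 // ∀ w ∈ W, ψ (f w (v : V)) = 0} with hn
  have hn1 : n = Nat.card {v : ann S.hs ψ V1 W // v ≠ 0} :=
    Nat.card_congr
      { toFun := fun v => ⟨⟨v.1, v.1.2.1, v.2⟩, fun h => v.1.2.2.1 (congrArg Subtype.val h)⟩
        invFun := fun v => ⟨⟨v.1, v.1.2.1, fun h => v.2 (Subtype.ext h), hall _ v.1.2⟩, v.1.2.2⟩
        left_inv := fun _ => rfl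
        right_inv := fun _ => rfl }
  have hn2 : n + 1 = Nat.card (ann S.hs ψ V1 W) := by
    rw [hn1]
    have h3 : Nat.card (ann S.hs ψ V1 W) = Nat.card {v : ann S.hs ψ V1 W // v = 0} +
        Nat.card {v : ann S.hs ψ V1 W // v ≠ 0} := by
      rw [← Nat.card_sum]
      exact (Nat.card_congr (Equiv.sumCompl (fun v : ann S.hs ψ V1 W => v = 0))).symm
    have h4 : Nat.card {v : ann S.hs ψ V1 W // v = 0} = 1 := by simp
    omega
  have hpos : 0 < Nat.card (Ocl f V1 0) := by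
    have : Nonempty (Ocl f V1 0) := ⟨⟨v0, hv0.1, hv00, hall v0 hv0⟩⟩
    exact Nat.card_pos
  have hk := S.ka_pos ψ hv0
  have hd0 := hdc v0 hv0 hv00
  by_cases hk2 : 2 ≤ S.ka ψ W v0
  · left
    calc 2 * Nat.card (Ocl f V1 0) + Nat.card (orb S.GG W) ≤
        S.ka ψ W v0 * Nat.card (Ocl f V1 0) + Nat.card (orb S.GG W) := by
          have := Nat.mul_le_mul_right (Nat.card (Ocl f V1 0)) hk2
          omega
      _ = Nat.card (orb S.GG W) * (n + 1) := by rw [hd0]; ring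
      _ = _ := by rw [hn2]
  · right
    have hk1 : S.ka ψ W v0 = 1 := by omega
    have hall1 : ∀ v ∈ ann S.hs ψ V1 W, v ≠ 0 → S.ka ψ W v = 1 := by
      intro v hv hv0'
      have h1 := hdc v hv hv0'
      rw [← hd0, hk1] at h1
      exact Nat.eq_of_mul_eq_mul_right hpos h1
    -- stabilisers
    have hst : ∀ v ∈ ann S.hs ψ V1 W, v ≠ 0 → ∀ g ∈ S.L, g v = v → ∀ b ∈ ann S.hs ψ V1 W,
        g b ∈ ann S.hs ψ V1 W := by
      intro v hv hv0' g hg hgv b hb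
      have hiso := S.L_iso hg
      have h1 : mp g W = W := by
        have h2 := hall1 v hv hv0'
        have h3 : Subsingleton {Y : orb S.GG W // ∀ w ∈ (Y : AddSubgroup V), ψ (f w v) = 0} := by
          rw [← Finite.card_le_one_iff_subsingleton]
          exact h2.le
        have h4 := h3.elim ⟨⟨mp g W, g, S.L_le_GG hg, rfl⟩, by
          rintro _ ⟨w, hw, rfl⟩
          show ψ (f (g w) v) = 0
          have := hiso w v
          rw [hgv] at this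
          rw [this]; exact hv.2 w hw⟩ ⟨⟨W, self_mem_orb _ _⟩, hv.2⟩
        exact congrArg (fun z : {Y : orb S.GG W // ∀ w ∈ (Y : AddSubgroup V), ψ (f w v) = 0} =>
          (z.1 : AddSubgroup V)) h4
      refine ⟨S.L_mem hg hb.1, ?_⟩
      intro w hw
      rw [← h1] at hw
      obtain ⟨w', hw', rfl⟩ := hw
      show ψ (f (g w') (g b)) = 0
      rw [hiso w' b]
      exact hb.2 w' hw'
    have hti : ∀ v ∈ ann S.hs ψ V1 W, ∀ b ∈ ann S.hs ψ V1 W, f b v = 0 := by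
      intro v hv b hb
      by_cases hv0' : v = 0
      · rw [hv0', S.hs.zero_right]
      by_contra hbv
      have hvV : v ∈ V1 := hv.1
      have hvv := hall v hv
      obtain ⟨u, hu, huv, huu⟩ := S.exists_aniso_perp hvV
      have hvu := S.hs.symm_zero huv
      obtain ⟨c, hc⟩ := S.exists_c u
      obtain ⟨g, hg, hgr⟩ := S.exists_R1 hvV hu hvv huv hc
      have hgv : g v = v := by rw [hgr, rho, hvv, hvu]; simp
      have h7 := (ann S.hs ψ V1 W).sub_mem (hst v hv hv0' g hg hgv b hb) hb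
      have h8 := hall _ h7
      have h9 : g b - b = f b v • u + (c * f b v - f b u) • v := by rw [hgr, rho]; module
      rw [h9] at h8
      simp only [S.hs.add_left, S.hs.add_right, S.hs.smul_left, S.hs.smul_right, huv, hvu, hvv] at h8
      have h10 : f b v * σ (f b v) * f u u = 0 := by linear_combination h8
      exact mul_ne_zero (mul_ne_zero hbv (S.hs.sigma_ne hbv)) huu h10
    have hspan : ∀ b ∈ ann S.hs ψ V1 W, b ∈ Submodule.span F {v0} := by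
      intro b hb
      by_contra hns
      obtain ⟨x, hx, hxv, hxb⟩ : ∃ x ∈ V1, f x v0 = 0 ∧ f x b ≠ 0 := by
        by_contra h
        push Not at h
        exact hns (S.hs.mem_span_of_perp S.nd1 hv0.1 hb.1 h)
      have hbb := hall b hb
      obtain ⟨α, hα⟩ := S.hs.exists_add_norm (u := x) hbb (S.hs.symm_ne hxb) (map_zero σ)
      set g0 := x + α • b with hg0
      have hg0V : g0 ∈ V1 := V1.add_mem hx (V1.smul_mem _ hb.1)
      have hg0v : f v0 g0 = 0 := by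
        apply S.hs.symm_zero
        rw [hg0, S.hs.add_left, S.hs.smul_left, hxv, hti v0 hv0 b hb]; ring
      have hbg : f b g0 ≠ 0 := by
        rw [hg0, S.hs.add_right, S.hs.smul_right, hbb, mul_zero, add_zero]; exact S.hs.symm_ne hxb
      obtain ⟨τ, hτ0, hτ⟩ := S.hs.exists_tr0
      obtain ⟨t, ht, htr⟩ := S.exists_R1 hg0V V1.zero_mem hα (S.hs.zero_left g0) (c := τ) (by
        rw [S.hs.zero_left, add_zero, hτ])
      have htv : t v0 = v0 := by rw [htr, rho, hg0v, S.hs.zero_right]; simp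
      have h7 := (ann S.hs ψ V1 W).sub_mem (hst v0 hv0 hv00 t ht htv b hb) hb
      have h8 := hti _ h7 b hb
      have h9 : t b - b = (τ * f b g0) • g0 := by rw [htr, rho, S.hs.zero_right]; module
      rw [h9, S.hs.smul_right] at h8
      exact mul_ne_zero (S.hs.sigma_ne (mul_ne_zero hτ0 hbg)) hbg h8
    have hcard : Nat.card (ann S.hs ψ V1 W) ≤ Nat.card F := by
      choose! g hg using (fun v (hv : v ∈ ann S.hs ψ V1 W) => Submodule.mem_span_singleton.1 (hspan v hv))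
      refine Nat.card_le_card_of_injective (fun v : ann S.hs ψ V1 W => g v) ?_
      intro v v' hvv
      have h2 : g v = g v' := hvv
      apply Subtype.ext
      rw [← hg v v.2, ← hg v' v'.2, h2]
    rw [hk1, one_mul] at hd0
    rw [← hn2] at hcard ⊢
    set N := Nat.card (orb S.GG W)
    obtain ⟨m, hm⟩ : ∃ m, Nat.card F = m + 1 := ⟨Nat.card F - 1, by
      have : 0 < Nat.card F := Nat.card_pos
      omega⟩
    rw [hm] at hcard ⊢
    rw [hd0, Nat.add_sub_cancel]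
    have h5 : n ≤ m := by omega
    calc (m + 1) * (N * n) = m * (N * n) + N * n := by ring
      _ ≤ m * (N * n) + N * m := by
        have := Nat.mul_le_mul_left N h5
        omega
      _ = m * (N * (n + 1)) := by ring

end C3

end Cfsg.Agent.Lib.MinU
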