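import Mathlib
import Cfsg.Agent.Lib.MinVG

/-!
# Minimal index of `SU_5(q)`: the main theorem (helper98)
-/

set_option autoImplicit false
set_option linter.unusedSectionVars false

namespace Cfsg.Agent.Lib.MinU

open Cfsg.Agent.Lib Cfsg.Agent.Lib.UnTrans Cfsg.Agent.Lib.SubfUn
open Cfsg.Agent.Lib.SpTrans (isom mem_isom)

variable {F V : Type*} [Field F] [Finite F] [AddCommGroup V] [Module F V]
variable {σ : F →+* F} {f : V → V → F}

theorem Glob5.relIndex_stL (G : Glob5 σ f) {e : V} (he0 : e ≠ 0) (hee : f e e = 0) :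
    (stL e).relIndex (tgrp G.hs ⊤) = Nat.card (IPt (F := F) f) := by
  have := G.fd
  have := G.finite_G
  symm
  apply le_antisymm
  · refine G.le_of_fix he0 hee fun m hm => ?_
    have h1 := mem_stL.1 hm
    rw [← h1]
    exact Submodule.mem_span_singleton_self _
  · have : Finite V := G.finite_V
    have : Finite (IPt (F := F) f) := by
      have h : Finite (Submodule F V) := Finite.of_injective (fun U : Submodule F V => (U : Set V)) SetLike.coe_injective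
      infer_instance
    refine Nat.card_le_card_of_injective (Quotient.lift (s := QuotientGroup.leftRel ((stL e).subgroupOf (tgrp G.hs ⊤)))
      (fun g => (⟨Submodule.span F {(g : V ≃ₗ[F] V) e}, (g : V ≃ₗ[F] V) e, by simpa using he0, by
        rw [tgrp_le_isom G.hs ⊤ g.2]; exact hee, rfl⟩ : IPt (F := F) f)) ?_) ?_
    · intro a b hab
      have h1 : a⁻¹ * b ∈ (stL e).subgroupOf (tgrp G.hs ⊤) := QuotientGroup.leftRel_apply.1 hab
      have h2 : Submodule.span F {((a : V ≃ₗ[F] V)⁻¹ * (b : V ≃ₗ[F] V)) e} = Submodule.span F {e} := h1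
      apply Subtype.ext
      show Submodule.span F {(a : V ≃ₗ[F] V) e} = Submodule.span F {(b : V ≃ₗ[F] V) e}
      have h3 := congrArg (Submodule.map ((a : V ≃ₗ[F] V) : V →ₗ[F] V)) h2
      rw [Submodule.map_span, Submodule.map_span, Set.image_singleton, Set.image_singleton] at h3
      have h4 : ((a : V ≃ₗ[F] V) : V →ₗ[F] V) (((a : V ≃ₗ[F] V)⁻¹ * (b : V ≃ₗ[F] V)) e) = (b : V ≃ₗ[F] V) e := by
        rw [LinearEquiv.mul_apply]; exact apply_inv _ _
      rw [h4] at h3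
      exact h3.symm
    · rintro ⟨a⟩ ⟨b⟩ hab
      have h1 : Submodule.span F {(a : V ≃ₗ[F] V) e} = Submodule.span F {(b : V ≃ₗ[F] V) e} := congrArg Subtype.val hab
      apply QuotientGroup.eq.2
      show (a : V ≃ₗ[F] V)⁻¹ * (b : V ≃ₗ[F] V) ∈ stL e
      rw [mem_stL]
      have h3 := congrArg (Submodule.map (((a : V ≃ₗ[F] V)⁻¹ : V ≃ₗ[F] V) : V →ₗ[F] V)) h1
      rw [Submodule.map_span, Submodule.map_span, Set.image_singleton, Set.image_singleton] at h3
      have h4 : (((a : V ≃ₗ[F] V)⁻¹ : V ≃ₗ[F] V) : V →ₗ[F] V) ((a : V ≃ₗ[F] V) e) = e := inv_apply_self' _ _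
      rw [h4] at h3
      exact h3.symm

/-- exclusion of the index one less than the number of isotropic points -/
theorem Glob5.ne_pred (G : Glob5 σ f) {M : Subgroup (V ≃ₗ[F] V)} (hM : M ≤ tgrp G.hs ⊤) {e0 e2 : V} (he0 : e0 ≠ 0)
    (he00 : f e0 e0 = 0) (hZ : ZM σ f M e0) (he2 : e2 ≠ 0) (he22 : f e2 e2 = 0) (hQ : QM f M e2) :
    M.relIndex (tgrp G.hs ⊤) + 1 ≠ Nat.card (IPt (F := F) f) := by
  intro h
  have := G.fd
  have := G.finite_G
  have hiso : M ≤ isom f := hM.trans (tgrp_le_isom G.hs ⊤)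
  rw [← G.relIndex_stL he0 he00] at h
  have hcop : Nat.Coprime ((stL (F := F) e0).subgroupOf (tgrp G.hs ⊤)).index (M.subgroupOf (tgrp G.hs ⊤)).index := by
    have h1 : ((stL (F := F) e0).subgroupOf (tgrp G.hs ⊤)).index = (M.subgroupOf (tgrp G.hs ⊤)).index + 1 := h.symm
    rw [h1]
    simp
  obtain ⟨g, hg, hge⟩ := exists_move G.hs G.nd G.d4 (x := e2) (y := e0) trivial trivial he2 he0 (by rw [he22, he00])
  obtain ⟨a, ha, b, hb, hab⟩ := coprime_mul _ _ hcop ⟨g, hg⟩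
  have hab' : g = (a : V ≃ₗ[F] V) * (b : V ≃ₗ[F] V) := congrArg Subtype.val hab
  have hbM : (b : V ≃ₗ[F] V) ∈ M := hb
  have haS : (a : V ≃ₗ[F] V) ∈ stL e0 := ha
  have ha2 := mem_stL.1 (inv_mem haS)
  have h3 : (a : V ≃ₗ[F] V)⁻¹ e0 ∈ Submodule.span F {e0} := by
    rw [← ha2]; exact Submodule.mem_span_singleton_self _
  obtain ⟨c, hc⟩ := Submodule.mem_span_singleton.1 h3
  have hc0 : c ≠ 0 := by
    rintro rfl
    rw [zero_smul] at hc
    have := (LinearEquiv.map_eq_zero_iff ((a : V ≃ₗ[F] V)⁻¹)).1 hc.symm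
    exact he0 this
  -- b⁻¹ e0 is a multiple of e2
  have h4 : (b : V ≃ₗ[F] V)⁻¹ e0 = c⁻¹ • e2 := by
    have h5 : e2 = (b : V ≃ₗ[F] V)⁻¹ ((a : V ≃ₗ[F] V)⁻¹ e0) := by
      rw [← hge, hab', LinearEquiv.mul_apply, inv_apply_self', inv_apply_self']
    rw [h5, ← hc, map_smul, smul_smul, inv_mul_cancel₀ hc0, one_smul]
  have h5 := hZ.conj G.hs hiso (inv_mem hbM)
  rw [h4] at h5
  have h6 := h5.smul G.hs (inv_ne_zero hc0)
  obtain ⟨τ, hτ0, hτ⟩ := G.hs.exists_tr0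
  obtain ⟨t, ht, h7⟩ := h6 τ hτ
  have h8 := hQ t ht 0 τ (G.hs.zero_left e2) h7
  obtain ⟨y, -, hy⟩ := G.nd e2 trivial he2
  have hy' := G.hs.symm_ne hy
  have h9 := h7 y
  rw [h8, rho, G.hs.zero_right] at h9
  have h10 : (τ * f y e2) • e2 = 0 := by
    have h11 : y = y + (τ * f y e2) • e2 := by
      have h12 : (1 : V ≃ₗ[F] V) y = y := rfl
      rw [h12] at h9
      conv_lhs => rw [h9]
      module
    exact left_eq_add.1 h11
  rcases smul_eq_zero.1 h10 with h | h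
  · exact mul_ne_zero hτ0 hy' h
  · exact he2 h

/-- the counts for a hyperbolic pair -/
theorem C3.final {e e' : V} {V1 : Submodule F V} (S : C3 σ f e e' V1) {M : Subgroup (V ≃ₗ[F] V)}
    (hM : M ≤ tgrp S.hs ⊤) (hZ : ZM σ f M e) (hQQ : ¬ QQ σ f M e) {e2 : V} (he2 : e2 ≠ 0) (he22 : f e2 e2 = 0)
    (hQ : QM f M e2) : ∃ T N : ℕ, 1 ≤ N ∧ Nat.card V1 * Nat.card (EE σ) + T ≤ M.relIndex (tgrp S.hs ⊤) ∧
      ((Nat.card (ON f V1) + N ≤ T ∧ (Nat.card (EE σ) = 2 → 4 * Nat.card (ON f V1) ≤ 3 * T)) ∨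
        2 * Nat.card (Ocl f V1 0) + N ≤ T ∨
        Nat.card F * Nat.card (Ocl f V1 0) ≤ (Nat.card F - 1) * T) := by
  classical
  have := S.fd
  have := S.finite_V
  have := S.finite_G
  have := finite_addSubgroup (V := V)
  have hiso : M ≤ isom f := hM.trans (tgrp_le_isom S.hs ⊤)
  obtain ⟨η, hη0, hη⟩ := S.hs.exists_tr0
  have hC := (S.ZM_of_top hη0 hη).2 hZ
  have he0 : e ≠ 0 := by
    rintro h; have := S.ep; rw [h, S.hs.zero_left] at this; exact zero_ne_one this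
  obtain ⟨g2, hg2, hge⟩ := exists_move S.hs S.nd S.d4top (x := e2) (y := e) trivial trivial he2 he0 (by rw [he22, S.ee])
  have hgi : g2⁻¹ e = e2 := inv_apply_of hge
  have hg2i : g2 ∈ isom f := tgrp_le_isom S.hs ⊤ hg2
  have hI2 := S.I2 hη0 hη hC hg2 (by
    intro t ht u hu c htu
    have h1 := IsR.conj S.hs (inv_mem hg2i) htu
    rw [hgi] at h1
    have h2 : g2⁻¹ * (g2 * t * g2⁻¹) * g2⁻¹⁻¹ = t := by group
    rw [h2] at h1
    have h3 : f (g2⁻¹ u) e2 = 0 := by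
      rw [← hgi, inv_mem hg2i u e]
      exact S.perp_e hu
    rw [hQ t ht _ _ h3 h1]; group)
  obtain ⟨p, hp⟩ := CharP.exists F
  have : NeZero p := ⟨CharP.char_ne_zero_of_finite F p⟩
  have : Fact p.Prime := ⟨(CharP.char_is_prime_or_zero F p).resolve_right (NeZero.ne p)⟩
  obtain ⟨ψ, hψ, -⟩ := exists_phi (K := F) (p := p) (C := ⊥) (by
    intro h
    have h1 : (1 : F) ∈ (⊥ : AddSubgroup F) := by rw [h]; trivial
    exact one_ne_zero (AddSubgroup.mem_bot.1 h1))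
  have hann := card_ann S.hs ψ hψ V1 S.nd1 (S.WW M) (S.WW_le M)
  have hid := S.idW_mul M
  have hWpos : 0 < Nat.card (S.WW M) := Nat.card_pos
  have ha : S.idW M = Nat.card (ann S.hs ψ V1 (S.WW M)) := by
    rw [← hann, mul_comm] at hid
    exact Nat.eq_of_mul_eq_mul_left hWpos hid
  refine ⟨Nat.card (orb S.GG (S.WW M)) * S.idW M, Nat.card (orb S.GG (S.WW M)), ?_, hI2, ?_⟩
  · have : Nonempty (orb S.GG (S.WW M)) := ⟨⟨_, self_mem_orb _ _⟩⟩
    exact Nat.card_pos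
  -- W is proper
  have hWne : 1 < Nat.card (ann S.hs ψ V1 (S.WW M)) := by
    by_contra hle
    have h1 : Nat.card (ann S.hs ψ V1 (S.WW M)) = 1 := by
      have : 0 < Nat.card (ann S.hs ψ V1 (S.WW M)) := Nat.card_pos
      omega
    rw [h1, mul_one] at hann
    have hWtop : ∀ u ∈ V1, u ∈ S.WW M := by
      have h2 : (S.WW M : Set V) = (V1.toAddSubgroup : Set V) := by
        apply Set.eq_of_subset_of_ncard_le (S.WW_le M)
        have h3 : Nat.card (S.WW M) = (S.WW M : Set V).ncard := rfl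
        have h4 : Nat.card V1 = (V1.toAddSubgroup : Set V).ncard := rfl
        rw [← h3, ← h4, hann]
      intro u hu
      have : u ∈ (V1.toAddSubgroup : Set V) := hu
      rw [← h2] at this
      exact this
    apply hQQ
    intro u c hue hc
    obtain ⟨u1, hu1, hd⟩ := S.decomp u
    rw [hue, zero_smul, add_zero, add_comm] at hd
    obtain ⟨-, t, ht, c', htc⟩ := hWtop u1 hu1
    have h5 := S.isR_cond (hiso ht) hu1 htc
    -- correct the central part
    have h6 : f u u = f u1 u1 := by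
      rw [hd]
      simp only [S.hs.add_left, S.hs.add_right, S.hs.smul_left, S.hs.smul_right, S.ee, S.perp_e hu1, S.perp_e2 hu1]
      ring
    set α := f u e' with hα
    have h7 : (c + α - σ α - c') + σ (c + α - σ α - c') = 0 := by
      rw [map_sub, map_sub, map_add, S.hs.inv]
      rw [h6] at hc
      linear_combination hc - h5
    obtain ⟨t', ht', h8⟩ := hZ _ h7
    have h9 := S.isR_prod hu1 htc h8
    refine ⟨t * t', mul_mem ht ht', ?_⟩
    have e1 : c' + (c + α - σ α - c') = c + α - σ α := by ring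
    rw [e1] at h9
    intro x
    rw [h9, hd, rho, rho, S.hs.add_right, S.hs.smul_right]
    module
  rw [ha]
  by_cases hnon : ∃ v ∈ ann S.hs ψ V1 (S.WW M), f v v ≠ 0
  · obtain ⟨v, hv, hvv⟩ := hnon
    exact Or.inl (S.alpha ψ hv hvv)
  · push Not at hnon
    obtain ⟨v, hv, hv0⟩ : ∃ v ∈ ann S.hs ψ V1 (S.WW M), v ≠ 0 := by
      by_contra h
      push Not at h
      have h2 := (AddSubgroup.eq_bot_iff_forall _).2 h
      rw [h2] at hWne
      simp at hWne
    rcases S.beta ψ hv hv0 hnon with h | h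
    · exact Or.inr (Or.inl h)
    · exact Or.inr (Or.inr h)


theorem Glob5.card_IPt (G : Glob5 σ f) :
    Nat.card (IPt (F := F) f) = Nat.card (EE σ) ^ 7 + Nat.card (EE σ) ^ 5 + Nat.card (EE σ) ^ 2 + 1 := by
  have H := G.hs
  have := G.fd
  have := G.finite_V
  have h1 := MinU.card_IPt (F := F) H
  have h2 := card_Ocl_zero H (⊤ : Submodule F V)
  have h3 := (cnt_formula H 5 ⊤ G.nd (by rw [finrank_top, G.d5])).1
  have hcF : (Nat.card F : ℤ) = (Nat.card (EE σ) : ℤ) ^ 2 := by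
    rw [card_F H]; push_cast; rfl
  have h4 : (Nat.card (IPt (F := F) f) : ℤ) * ((Nat.card F : ℤ) - 1) = Nat.card (Ocl f (⊤ : Submodule F V) 0) := by
    have h5 : ((Nat.card F - 1 : ℕ) : ℤ) = (Nat.card F : ℤ) - 1 := by
      have : 0 < Nat.card F := Nat.card_pos
      push_cast [Nat.cast_sub this]; ring
    rw [← h5, ← h1]; push_cast; ring
  have h6 : (Nat.card (Ocl f (⊤ : Submodule F V) 0) : ℤ) + 1 = cnt f (⊤ : Submodule F V) 0 := by exact_mod_cast h2
  rw [hcF] at h4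
  have hq := one_lt_q H
  set q := Nat.card (EE σ)
  have hqZ : (2 : ℤ) ≤ q := by exact_mod_cast hq
  have h7 : (0 : ℤ) < (q : ℤ) * ((q : ℤ) ^ 2 - 1) := by
    have : (0 : ℤ) < (q : ℤ) ^ 2 - 1 := by nlinarith
    positivity
  zify
  apply mul_left_cancel₀ h7.ne'
  linear_combination (q : ℤ) * h4 + (q : ℤ) * h6 + h3

theorem Glob5.main (G : Glob5 σ f) {M : Subgroup (V ≃ₗ[F] V)} (hM : M ≤ tgrp G.hs ⊤) (hne : ¬ tgrp G.hs ⊤ ≤ M) :
    Nat.card (IPt (F := F) f) ≤ M.relIndex (tgrp G.hs ⊤) := by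
  classical
  by_contra hcon
  push Not at hcon
  have H := G.hs
  have := G.fd
  have := G.finite_V
  have := G.finite_G
  have hiso : M ≤ isom f := hM.trans (tgrp_le_isom G.hs ⊤)
  have hp := G.card_IPt
  have hq2 : 2 ≤ Nat.card (EE σ) := one_lt_q H
  have hsm : Small5 G M := ⟨hM, by omega⟩
  -- no full `Q(e)`
  have hnoQQ : ∀ e, e ≠ 0 → f e e = 0 → ¬ QQ σ f M e := by
    intro e he0 hee hQ
    have h1 := G.le_of_fix he0 hee (M := M) fun m hm => G.fix_of_QQ hsm hne he0 hee hQ hm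
    omega
  obtain ⟨η, hη0, hη⟩ := H.exists_tr0
  obtain ⟨e1, -, -, he11, y1, -, -, hey1⟩ := H.exists_hyp G.nd G.d4 (Submodule.zero_mem _)
  have he10 : e1 ≠ 0 := by rintro rfl; rw [H.zero_left] at hey1; exact hey1 rfl
  have hpow : Nat.card (EE σ) ^ 5 + Nat.card (EE σ) ^ 2 < Nat.card (EE σ) ^ 7 := by
    set q := Nat.card (EE σ)
    have h1 : 4 * q ^ 5 ≤ q ^ 7 := by
      calc 4 * q ^ 5 = 2 ^ 2 * q ^ 5 := by ring
        _ ≤ q ^ 2 * q ^ 5 := Nat.mul_le_mul_right _ (Nat.pow_le_pow_left hq2 2)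
        _ = q ^ 7 := by ring
    have h2 : q ^ 2 < q ^ 5 := Nat.pow_lt_pow_right (by omega) (by norm_num)
    omega
  -- some `Z(e)` in `M`
  obtain ⟨e, he0, hee, hZ⟩ : ∃ e, e ≠ 0 ∧ f e e = 0 ∧ ZM σ f M e := by
    by_contra hno
    push Not at hno
    have hall : ∀ e, e ≠ 0 → f e e = 0 → QM f M e := fun e he0 hee =>
      (G.dich hsm he0 hee).resolve_left (hno e he0 hee)
    obtain ⟨e', V1, S⟩ := G.ctx he10 he11
    refine S.lemN hη0 hη hiso hall ?_
    rw [S.card_V1]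
    have h1 : 2 * (Nat.card (EE σ) ^ 6 * Nat.card (EE σ)) = 2 * Nat.card (EE σ) ^ 7 := by ring
    rw [h1]
    omega
  obtain ⟨e2, he20, he22, hQ2⟩ : ∃ e, e ≠ 0 ∧ f e e = 0 ∧ QM f M e := by
    by_contra hno
    push Not at hno
    exact hne (G.top_of_all fun v hv0 hvv => (G.dich hsm hv0 hvv).resolve_right (hno v hv0 hvv))
  obtain ⟨e', V1, S⟩ := G.ctx he0 hee
  obtain ⟨T, N, hN, hT, hcases⟩ := S.final hM hZ (hnoQQ e he0 hee) he20 he22 hQ2
  have hON := card_ON H V1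
  have hO0 := card_Ocl_zero H V1
  have hO := S.card_O0
  rw [S.card_V1] at hT hON
  rw [card_F H] at hcases
  set q := Nat.card (EE σ) with hqdef
  set X := M.relIndex (tgrp G.hs ⊤) with hX
  have e1 : q ^ 6 * q = q ^ 7 := by ring
  rw [e1] at hT
  have hT2 : T ≤ q ^ 5 + q ^ 2 := by omega
  have p5 : 4 * q ^ 3 ≤ q ^ 5 := by
    calc 4 * q ^ 3 = 2 ^ 2 * q ^ 3 := by ring
      _ ≤ q ^ 2 * q ^ 3 := Nat.mul_le_mul_right _ (Nat.pow_le_pow_left hq2 2)
      _ = q ^ 5 := by ring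
  have p6 : 2 * q ^ 5 ≤ q ^ 6 := by
    calc 2 * q ^ 5 ≤ q * q ^ 5 := Nat.mul_le_mul_right _ hq2
      _ = q ^ 6 := by ring
  have p3 : 2 * q ^ 2 ≤ q ^ 3 := by
    calc 2 * q ^ 2 ≤ q * q ^ 2 := Nat.mul_le_mul_right _ hq2
      _ = q ^ 3 := by ring
  have p2 : 4 ≤ q ^ 2 := by
    calc 4 = 2 ^ 2 := by norm_num
      _ ≤ q ^ 2 := Nat.pow_le_pow_left hq2 2
  rcases hcases with ⟨h1, h2⟩ | h1 | h1
  · omega
  · omega
  · have h2 : q ^ 5 + q ^ 2 ≤ T := by
      have e2 : Nat.card (Ocl f V1 0) = (q ^ 3 + 1) * (q ^ 2 - 1) := by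
        rw [hO]
        have h3 : q ^ 3 + 1 ≤ q ^ 5 + q ^ 2 := by omega
        have h4 : 1 ≤ q ^ 2 := by omega
        zify [h3, h4]; ring
      rw [e2] at h1
      have h3 : (q ^ 5 + q ^ 2) * (q ^ 2 - 1) ≤ T * (q ^ 2 - 1) := by
        calc (q ^ 5 + q ^ 2) * (q ^ 2 - 1) = q ^ 2 * ((q ^ 3 + 1) * (q ^ 2 - 1)) := by ring
          _ ≤ (q ^ 2 - 1) * T := h1
          _ = T * (q ^ 2 - 1) := by ring
      exact Nat.le_of_mul_le_mul_right h3 (by omega)
    have h7 : X + 1 = Nat.card (IPt (F := F) f) := by omega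
    exact G.ne_pred hM he0 hee hZ he20 he22 hQ2 h7

end Cfsg.Agent.Lib.MinU
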