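import Mathlib
import Cfsg.Agent.Lib.MinVC

/-!
# Minimal index of `SU_4(q)`: set-up (helper98)
-/

set_option autoImplicit false
set_option linter.unusedSectionVars false

namespace Cfsg.Agent.Lib.MinU

open Cfsg.Agent.Lib Cfsg.Agent.Lib.UnTrans Cfsg.Agent.Lib.SubfUn
open Cfsg.Agent.Lib.SpTrans (isom mem_isom)

variable {F V : Type*} [Field F] [Finite F] [AddCommGroup V] [Module F V]
variable {σ : F →+* F} {f : V → V → F}

/-- a hyperbolic pair with its perpendicular space of dimension 2 in a space of dimension 4 -/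
structure C2 (σ : F →+* F) (f : V → V → F) (e e' : V) (V1 : Submodule F V) : Prop where
  hs : HS σ f
  nd : Nd f (⊤ : Submodule F V)
  fd : FiniteDimensional F V
  ee : f e e = 0
  ee' : f e' e' = 0
  ep : f e e' = 1
  mem : ∀ x, x ∈ V1 ↔ f x e = 0 ∧ f x e' = 0
  d2 : Module.finrank F V1 = 2
  d4 : Module.finrank F V = 4

namespace C2
variable {e e' : V} {V1 : Submodule F V} (S : C2 σ f e e' V1)
include S

theorem ep' : f e' e = 1 := by rw [S.hs.herm, S.ep, map_one]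

theorem perp_e {u : V} (hu : u ∈ V1) : f u e = 0 := ((S.mem u).1 hu).1
theorem perp_e' {u : V} (hu : u ∈ V1) : f u e' = 0 := ((S.mem u).1 hu).2
theorem perp_e2 {u : V} (hu : u ∈ V1) : f e u = 0 := S.hs.symm_zero (S.perp_e hu)
theorem perp_e'2 {u : V} (hu : u ∈ V1) : f e' u = 0 := S.hs.symm_zero (S.perp_e' hu)

theorem decomp (x : V) : ∃ u ∈ V1, x = f x e' • e + f x e • e' + u := by
  refine ⟨x - f x e' • e - f x e • e', (S.mem _).2 ⟨?_, ?_⟩, by abel⟩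
  · rw [S.hs.sub_left, S.hs.sub_left, S.hs.smul_left, S.hs.smul_left, S.ee, S.ep']; ring
  · rw [S.hs.sub_left, S.hs.sub_left, S.hs.smul_left, S.hs.smul_left, S.ee', S.ep]; ring

theorem nd1 : Nd f V1 := by
  intro x hx hx0
  obtain ⟨y, -, hy⟩ := S.nd x trivial hx0
  obtain ⟨u, hu, hyu⟩ := S.decomp y
  refine ⟨u, hu, ?_⟩
  rw [hyu, S.hs.add_right, S.hs.add_right, S.hs.smul_right, S.hs.smul_right, S.perp_e hx, S.perp_e' hx] at hy
  simpa using hy

theorem finite_V : Finite V := by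
  have := S.fd
  exact Module.finite_of_finite F

theorem finite_G : Finite (V ≃ₗ[F] V) := by
  have := S.finite_V
  exact Finite.of_injective (fun g : V ≃ₗ[F] V => (g : V → V)) DFunLike.coe_injective

theorem d4top : 4 ≤ Module.finrank F (⊤ : Submodule F V) := by
  rw [finrank_top, S.d4]

/-- all Eichler elements exist in `SU(V)` -/
theorem exists_R {a u : V} (haa : f a a = 0) (hua : f u a = 0) {c : F} (hc : c + σ c + f u u = 0) :
    ∃ t ∈ tgrp S.hs ⊤, IsR f t a u c := by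
  have := S.fd
  exact rhoIn_all S.hs (le_refl _) S.nd S.d4top (Submodule.mem_top) haa Submodule.mem_top hua c hc

theorem exists_c (u : V) : ∃ c, c + σ c + f u u = 0 := by
  obtain ⟨x, hx⟩ := S.hs.exists_trace (-f u u) (by rw [map_neg, S.hs.self_fixed])
  exact ⟨x, by rw [hx]; ring⟩

theorem isR_apply_e' {t : V ≃ₗ[F] V} {u : V} {c : F} (hu : u ∈ V1) (h : IsR f t e u c) :
    t e' = e' + u + c • e := by
  rw [h, rho, S.ep', S.perp_e'2 hu]; module

theorem isR_apply_e {t : V ≃ₗ[F] V} {u : V} {c : F} (hu : u ∈ V1) (h : IsR f t e u c) : t e = e := by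
  rw [h, rho, S.ee, S.perp_e2 hu]; module

theorem isR_cond {t : V ≃ₗ[F] V} {u : V} {c : F} (ht : t ∈ isom f) (hu : u ∈ V1) (h : IsR f t e u c) :
    c + σ c + f u u = 0 := by
  have h1 := ht e' e'
  rw [S.isR_apply_e' hu h, S.ee'] at h1
  simp only [S.hs.add_left, S.hs.add_right, S.hs.smul_left, S.hs.smul_right, S.ee, S.ee', S.ep, S.ep', S.perp_e hu,
    S.perp_e' hu, S.perp_e2 hu, S.perp_e'2 hu] at h1
  linear_combination h1

/-- torus elements -/
theorem exists_T {l : F} (hl : l ≠ 0) : ∃ t ∈ tgrp S.hs ⊤, t e = l • e ∧ t e' = (σ l)⁻¹ • e' := by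
  have := S.fd
  have he0 : e ≠ 0 := by
    rintro h; have := S.ep; rw [h, S.hs.zero_left] at this; exact zero_ne_one this
  have hsl : σ l ≠ 0 := S.hs.sigma_ne hl
  have h1 : f (l • e) (l • e) = 0 := by rw [S.hs.smul_left, S.hs.smul_right, S.ee]; ring
  obtain ⟨t, ht, hte⟩ := exists_move S.hs S.nd S.d4top (x := e) (y := l • e) trivial trivial he0
    (smul_ne_zero hl he0) (by rw [S.ee, h1])
  have hti : t ∈ isom f := tgrp_le_isom S.hs ⊤ ht
  set w := t e' with hw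
  have hww : f w w = 0 := by rw [hw, hti, S.ee']
  have hwe : f w (l • e) = 1 := by rw [← hte, hw, hti, S.ep']
  set w' := (σ l)⁻¹ • e' with hw'
  have hw'w' : f w' w' = 0 := by rw [hw', S.hs.smul_left, S.hs.smul_right, S.ee']; ring
  have hw'e : f w' (l • e) = 1 := by
    rw [hw', S.hs.smul_left, S.hs.smul_right, S.ep', mul_one, inv_mul_cancel₀ hsl]
  have hd : f (w' - w) (l • e) = 0 := by rw [S.hs.sub_left, hw'e, hwe, sub_self]
  obtain ⟨r, hr, hrr⟩ := S.exists_R (a := l • e) (u := w' - w) h1 hd (c := f w (w' - w)) (by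
    rw [← S.hs.herm (w' - w) w]
    simp only [S.hs.sub_left, S.hs.sub_right]
    linear_combination hw'w' - hww)
  refine ⟨r * t, mul_mem hr ht, ?_, ?_⟩
  · rw [LinearEquiv.mul_apply, hte, hrr, rho]
    have h2 : f (l • e) (w' - w) = 0 := S.hs.symm_zero hd
    rw [h2, h1]; module
  · rw [LinearEquiv.mul_apply, ← hw, hrr, rho, hwe]
    module

/-- elements with `k e = l e`, `k e' = (σ l)⁻¹ e'` preserve `V1` -/
theorem map_V1 {k : V ≃ₗ[F] V} (hk : k ∈ isom f) {l : F} (hl : l ≠ 0) (hke : k e = l • e)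
    (hke' : k e' = (σ l)⁻¹ • e') {u : V} : k u ∈ V1 ↔ u ∈ V1 := by
  have hsl : σ l ≠ 0 := S.hs.sigma_ne hl
  have h1 : f (k u) e = (σ l)⁻¹ * f u e := by
    have := hk u e
    rw [hke, S.hs.smul_right] at this
    rw [← this, ← mul_assoc, inv_mul_cancel₀ hsl, one_mul]
  have h2 : f (k u) e' = l * f u e' := by
    have := hk u e'
    rw [hke', S.hs.smul_right, map_inv₀, S.hs.inv] at this
    rw [← this, ← mul_assoc, mul_inv_cancel₀ hl, one_mul]
  rw [S.mem, S.mem, h1, h2]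
  simp [hl, hsl]

/-- the pointwise stabiliser of the pair in `SU(V)` -/
def L : Subgroup (V ≃ₗ[F] V) where
  carrier := {g | g ∈ tgrp S.hs ⊤ ∧ g e = e ∧ g e' = e'}
  one_mem' := ⟨one_mem _, rfl, rfl⟩
  mul_mem' := by
    rintro a b ⟨h1, h2, h3⟩ ⟨h4, h5, h6⟩
    exact ⟨mul_mem h1 h4, by rw [LinearEquiv.mul_apply, h5, h2], by rw [LinearEquiv.mul_apply, h6, h3]⟩
  inv_mem' := by
    rintro a ⟨h1, h2, h3⟩
    exact ⟨inv_mem h1, inv_apply_of h2, inv_apply_of h3⟩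

theorem mem_L {g : V ≃ₗ[F] V} : g ∈ S.L ↔ g ∈ tgrp S.hs ⊤ ∧ g e = e ∧ g e' = e' := Iff.rfl

theorem L_e {k : V ≃ₗ[F] V} (hk : k ∈ S.L) : k e = e := hk.2.1

theorem L_e' {k : V ≃ₗ[F] V} (hk : k ∈ S.L) : k e' = e' := hk.2.2

theorem L_le : S.L ≤ tgrp S.hs ⊤ := fun _ h => h.1

theorem L_iso {k : V ≃ₗ[F] V} (hk : k ∈ S.L) : k ∈ isom f := tgrp_le_isom S.hs ⊤ hk.1

theorem L_mem {k : V ≃ₗ[F] V} (hk : k ∈ S.L) {u : V} (hu : u ∈ V1) : k u ∈ V1 := by
  have := S.map_V1 (l := 1) (S.L_iso hk) one_ne_zero (by rw [S.L_e hk, one_smul])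
    (by rw [S.L_e' hk, map_one, inv_one, one_smul]) (u := u)
  exact this.2 hu

/-- all Eichler elements of `V1` exist in `L` -/
theorem exists_R1 {a u : V} (ha : a ∈ V1) (hu : u ∈ V1) (haa : f a a = 0) (hua : f u a = 0) {c : F}
    (hc : c + σ c + f u u = 0) : ∃ t ∈ S.L, IsR f t a u c := by
  obtain ⟨t, ht, h⟩ := S.exists_R haa hua hc
  refine ⟨t, ⟨ht, ?_, ?_⟩, h⟩
  · rw [h, rho, S.perp_e2 ha, S.perp_e2 hu]; module
  · rw [h, rho, S.perp_e'2 ha, S.perp_e'2 hu]; module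

/-- a nonisotropic vector of `V1` perpendicular to a given nonisotropic vector of `V1` -/
theorem exists_aniso_perp {y : V} (hy : y ∈ V1) (hyy : f y y ≠ 0) : ∃ w ∈ V1, f w y = 0 ∧ f w w ≠ 0 := by
  have := S.fd
  set U' := V1 ⊓ LinearMap.ker (S.hs.fl y) with hU'
  have mem' : ∀ x, x ∈ U' ↔ x ∈ V1 ∧ f x y = 0 := by intro x; rw [hU']; simp
  have hnd : Nd f U' := by
    intro x hx hx0
    obtain ⟨h1, h2⟩ := (mem' x).1 hx
    obtain ⟨z, hz, hxz⟩ := S.nd1 x h1 hx0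
    refine ⟨z - (f z y / f y y) • y, (mem' _).2 ⟨V1.sub_mem hz (V1.smul_mem _ hy), ?_⟩, ?_⟩
    · rw [S.hs.sub_left, S.hs.smul_left, div_mul_cancel₀ _ hyy, sub_self]
    · rw [S.hs.sub_right, S.hs.smul_right, h2, mul_zero, sub_zero]; exact hxz
  have h1 := HS.finrank_inf_ker V1 (S.hs.fl y)
  rw [← hU', S.d2] at h1
  obtain ⟨x, hx, hx0⟩ : ∃ x ∈ U', x ≠ 0 := by
    rw [← Submodule.ne_bot_iff]
    intro h
    rw [h, finrank_bot] at h1
    omega
  by_contra hcon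
  push Not at hcon
  obtain ⟨z, hz, hxz⟩ := hnd x hx hx0
  exact hxz (S.hs.eq_zero_of_iso (fun w hw => hcon w ((mem' w).1 hw).1 ((mem' w).1 hw).2) hx hz)

theorem el_V1 {w : V} (hw : w ∈ V1) (a : F) (h : a + σ a + a * σ a * f w w = 0) :
    el S.hs w a h e = e ∧ el S.hs w a h e' = e' := by
  constructor
  · rw [el_apply, S.perp_e2 hw, mul_zero, zero_smul, add_zero]
  · rw [el_apply, S.perp_e'2 hw, mul_zero, zero_smul, add_zero]

/-- correction of the determinant -/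
theorem correct {g : V ≃ₗ[F] V} (hg : g ∈ isom f) (hge : g e = e) (hge' : g e' = e')
    (hDn : LinearMap.det ((g : V ≃ₗ[F] V) : V →ₗ[F] V) * σ (LinearMap.det ((g : V ≃ₗ[F] V) : V →ₗ[F] V)) = 1)
    {y : V} (hy : y ∈ V1) (hyy : f y y ≠ 0) : ∃ k : V ≃ₗ[F] V, k * g ∈ S.L ∧ k y = y := by
  have := S.fd
  obtain ⟨w, hw, hwy, hww⟩ := S.exists_aniso_perp hy hyy
  set D := LinearMap.det ((g : V ≃ₗ[F] V) : V →ₗ[F] V) with hD
  have hD0 : D ≠ 0 := left_ne_zero_of_mul_eq_one hDn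
  have hσD0 : σ D ≠ 0 := S.hs.sigma_ne hD0
  have hcond : (D⁻¹ - 1) / f w w + σ ((D⁻¹ - 1) / f w w) + (D⁻¹ - 1) / f w w * σ ((D⁻¹ - 1) / f w w) * f w w = 0 := by
    rw [map_div₀, map_sub, map_one, map_inv₀, S.hs.self_fixed]
    field_simp
    linear_combination (- 1 : F) * hDn
  refine ⟨el S.hs w _ hcond, ⟨?_, ?_, ?_⟩, ?_⟩
  · refine su_le S.hs S.nd (by rw [S.d4]) (mul_mem (el_mem S.hs _ _ _) hg) ?_
    have e1 : ((el S.hs w _ hcond * g : V ≃ₗ[F] V) : V →ₗ[F] V) =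
        ((el S.hs w _ hcond : V ≃ₗ[F] V) : V →ₗ[F] V) ∘ₗ (g : V →ₗ[F] V) := rfl
    rw [e1, LinearMap.det_comp, el_det, div_mul_cancel₀ _ hww, ← hD]
    field_simp
    ring
  · rw [LinearEquiv.mul_apply, hge, (S.el_V1 hw _ hcond).1]
  · rw [LinearEquiv.mul_apply, hge', (S.el_V1 hw _ hcond).2]
  · rw [el_apply, S.hs.symm_zero hwy, mul_zero, zero_smul, add_zero]

theorem el_detn {w : V} (a : F) (h : a + σ a + a * σ a * f w w = 0) :
    LinearMap.det ((el S.hs w a h : V ≃ₗ[F] V) : V →ₗ[F] V) *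
      σ (LinearMap.det ((el S.hs w a h : V ≃ₗ[F] V) : V →ₗ[F] V)) = 1 := by
  have := S.fd
  rw [el_det, map_add, map_one, map_mul, S.hs.self_fixed]
  linear_combination (f w w) * h

/-- transitivity of `L` on vectors of the same nonzero norm -/
theorem L_move {x y : V} (hx : x ∈ V1) (hy : y ∈ V1) (hn : f x x ≠ 0) (hxy : f x x = f y y) :
    ∃ g ∈ S.L, g x = y := by
  have := S.fd
  -- one quasi-reflection
  have one : ∀ x ∈ V1, ∀ y ∈ V1, f x x = f y y → f x (y - x) ≠ 0 → ∃ g ∈ isom f, g e = e ∧ g e' = e' ∧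
      LinearMap.det ((g : V ≃ₗ[F] V) : V →ₗ[F] V) * σ (LinearMap.det ((g : V ≃ₗ[F] V) : V →ₗ[F] V)) = 1 ∧ g x = y := by
    intro x hx y hy hxy h
    obtain ⟨a, ha, h1, -⟩ := exists_el S.hs hxy h
    exact ⟨el S.hs (y - x) a ha, el_mem S.hs _ _ _, (S.el_V1 (V1.sub_mem hy hx) a ha).1,
      (S.el_V1 (V1.sub_mem hy hx) a ha).2, S.el_detn a ha, h1⟩
  have two : ∃ g ∈ isom f, g e = e ∧ g e' = e' ∧
      LinearMap.det ((g : V ≃ₗ[F] V) : V →ₗ[F] V) * σ (LinearMap.det ((g : V ≃ₗ[F] V) : V →ₗ[F] V)) = 1 ∧ g x = y := by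
    by_cases h : f x (y - x) ≠ 0
    · exact one x hx y hy hxy h
    push Not at h
    rw [S.hs.sub_right, sub_eq_zero] at h
    obtain ⟨z, hz, hzz, hxz, hzy⟩ : ∃ z ∈ V1, f x x = f z z ∧ f x (z - x) ≠ 0 ∧ f z (y - z) ≠ 0 := by
      obtain ⟨ξ, hξ⟩ := S.hs.ne
      have hξ0 : ξ ≠ 0 := by rintro rfl; exact hξ (map_zero σ)
      have hσξ0 := S.hs.sigma_ne hξ0
      have h1 : ξ / σ ξ ≠ 1 := by
        intro h1
        rw [div_eq_one_iff_eq hσξ0] at h1
        exact hξ h1.symm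
      have h2 : ξ / σ ξ * σ (ξ / σ ξ) = 1 := by
        rw [map_div₀, S.hs.inv]; field_simp
      have h3 : σ (ξ / σ ξ) ≠ 1 := by
        intro h3; rw [h3, mul_one] at h2; exact h1 h2
      refine ⟨(ξ / σ ξ) • x, V1.smul_mem _ hx, ?_, ?_, ?_⟩
      · rw [S.hs.smul_left, S.hs.smul_right, ← mul_assoc, h2, one_mul]
      · rw [S.hs.sub_right, S.hs.smul_right]
        intro h4
        have h5 : (σ (ξ / σ ξ) - 1) * f x x = 0 := by linear_combination h4
        rcases mul_eq_zero.1 h5 with h6 | h6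
        · exact h3 (sub_eq_zero.1 h6)
        · exact hn h6
      · rw [S.hs.sub_right, S.hs.smul_left, S.hs.smul_left, S.hs.smul_right, h]
        intro h4
        have h5 : (ξ / σ ξ - 1) * f x x = 0 := by linear_combination h4 + (f x x) * h2
        rcases mul_eq_zero.1 h5 with h6 | h6
        · exact h1 (sub_eq_zero.1 h6)
        · exact hn h6
    obtain ⟨g1, hg1, h1, h2, h3, h4⟩ := one x hx z hz hzz hxz
    obtain ⟨g2, hg2, h1', h2', h3', h4'⟩ := one z hz y hy (by rw [← hzz, hxy]) hzy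
    refine ⟨g2 * g1, mul_mem hg2 hg1, by rw [LinearEquiv.mul_apply, h1, h1'], by rw [LinearEquiv.mul_apply, h2, h2'],
      ?_, by rw [LinearEquiv.mul_apply, h4, h4']⟩
    have e1 : ((g2 * g1 : V ≃ₗ[F] V) : V →ₗ[F] V) = (g2 : V →ₗ[F] V) ∘ₗ (g1 : V →ₗ[F] V) := rfl
    rw [e1, LinearMap.det_comp, map_mul]
    calc _ = (LinearMap.det (g2 : V →ₗ[F] V) * σ (LinearMap.det (g2 : V →ₗ[F] V))) *
          (LinearMap.det (g1 : V →ₗ[F] V) * σ (LinearMap.det (g1 : V →ₗ[F] V))) := by ring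
      _ = 1 := by rw [h3, h3', one_mul]
  obtain ⟨g, hg, h1, h2, h3, h4⟩ := two
  obtain ⟨k, hk, hky⟩ := S.correct hg h1 h2 h3 hy (by rw [← hxy]; exact hn)
  exact ⟨k * g, hk, by rw [LinearEquiv.mul_apply, h4, hky]⟩

end C2

end Cfsg.Agent.Lib.MinU
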