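import Mathlib
import Cfsg.Agent.Lib.MinWB

/-!
# Minimal index of `SU_4(q)`: counting in a parabolic subgroup (helper98)
-/

set_option autoImplicit false
set_option linter.unusedSectionVars false

namespace Cfsg.Agent.Lib.MinU

open Cfsg.Agent.Lib Cfsg.Agent.Lib.UnTrans Cfsg.Agent.Lib.SubfUn
open Cfsg.Agent.Lib.SpTrans (isom mem_isom)

variable {F V : Type*} [Field F] [Finite F] [AddCommGroup V] [Module F V]
variable {σ : F →+* F} {f : V → V → F}

namespace C2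
variable {e e' : V} {V1 : Submodule F V} (S : C2 σ f e e' V1)
include S

theorem br_mem_C {η : F} (hη : η + σ η = 0) (hη0 : η ≠ 0) {M : Subgroup (V ≃ₗ[F] V)} {u v : V}
    (hu : u ∈ S.WW M) (hv : v ∈ S.WW M) : br S.hs hη u v ∈ S.CC η M := by
  obtain ⟨hu1, t, ht, c, htu⟩ := hu
  obtain ⟨hv1, t', ht', c', htv⟩ := hv
  have h1 := IsR.conjR S.hs S.ee (S.perp_e hv1) (S.perp_e hu1) htu htv
  have h2 := IsR.mul S.hs S.ee (S.perp_e hv1) (by rw [S.hs.neg_left, S.perp_e hv1, neg_zero]) h1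
    (IsR.inv S.hs S.ee (S.perp_e hv1) htv)
  rw [add_neg_cancel] at h2
  refine ⟨_, mul_mem (mul_mem (mul_mem ht ht') (inv_mem ht)) (inv_mem ht'), ?_⟩
  convert h2 using 1
  rw [br_coe, mul_div_cancel₀ _ hη0, S.hs.neg_left]; ring

/-- the size of `W` -/
theorem W_sq {η : F} (hη : η + σ η = 0) (hη0 : η ≠ 0) {M : Subgroup (V ≃ₗ[F] V)} (hC : S.CC η M ≠ ⊤) :
    Nat.card (S.WW M) ^ 2 ≤ Nat.card V1 := by
  have := S.finite_V
  obtain ⟨p, hp⟩ := CharP.exists F
  have : NeZero p := ⟨CharP.char_ne_zero_of_finite F p⟩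
  have : Fact p.Prime := ⟨(CharP.char_is_prime_or_zero F p).resolve_right (NeZero.ne p)⟩
  have : CharP (EE σ) p := inferInstance
  obtain ⟨φ, h1, h2⟩ := exists_phi (p := p) hC
  exact iso_small S.hs hη hη0 φ h1 V1 S.nd1 (S.WW M) (fun w hw => hw.1)
    (fun x hx y hy => h2 _ (S.br_mem_C hη hη0 hx hy))

theorem card_V1 : Nat.card V1 = Nat.card (EE σ) ^ 4 := by
  have := S.fd
  rw [Module.natCard_eq_pow_finrank (K := F), card_F S.hs, S.d2, ← pow_mul]

theorem isR_cond' {a u : V} {c : F} {t : V ≃ₗ[F] V} (ha : a ∈ V1) (ha0 : a ≠ 0) (haa : f a a = 0) (hua : f u a = 0)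
    (ht : t ∈ isom f) (h : IsR f t a u c) : c + σ c + f u u = 0 := by
  obtain ⟨y, hy, hay⟩ := S.nd1 a ha ha0
  have hya : f y a ≠ 0 := S.hs.symm_ne hay
  have hau : f a u = 0 := S.hs.symm_zero hua
  have h1 := ht y y
  rw [h, rho] at h1
  simp only [S.hs.add_left, S.hs.add_right, S.hs.smul_left, S.hs.smul_right, S.hs.sub_left, S.hs.sub_right,
    haa, hua, hau, map_mul] at h1
  rw [← S.hs.herm a y, ← S.hs.herm u y] at h1
  have h2 : (f y a * f a y) * (c + σ c + f u u) = 0 := by linear_combination h1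
  rcases mul_eq_zero.1 h2 with h3 | h3
  · exact absurd h3 (mul_ne_zero hya hay)
  · exact h3

theorem kk_pos (M : Subgroup (V ≃ₗ[F] V)) {a : V} (ha : a ∈ S.WW M) : 1 ≤ kk S.L (S.WW M) a := by
  have := S.finite_V
  have := finite_addSubgroup (V := V)
  have : Nonempty {Y' : orb S.L (S.WW M) // a ∈ (Y' : AddSubgroup V)} :=
    ⟨⟨⟨S.WW M, self_mem_orb _ _⟩, ha⟩⟩
  exact Nat.card_pos

/-- number of vectors of norm `c` in `W` -/
noncomputable def mm (S : C2 σ f e e' V1) (M : Subgroup (V ≃ₗ[F] V)) (c : F) : ℕ :=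
  Nat.card {x : Ocl f V1 c // (x : V) ∈ S.WW M}

theorem dc (M : Subgroup (V ≃ₗ[F] V)) {a : V} (ha : a ∈ V1) (haa : f a a ≠ 0) :
    kk S.L (S.WW M) a * Nat.card (Ocl f V1 (f a a)) = Nat.card (orb S.L (S.WW M)) * S.mm M (f a a) := by
  have := S.finite_V
  exact dcount S.L (S.WW M) (Ocl f V1 (f a a)) (by
    rintro g hg x ⟨hx, hx0, hxx⟩
    exact ⟨S.L_mem hg hx, by simpa using hx0, by rw [S.L_iso hg, hxx]⟩) (by
    rintro x ⟨hx, hx0, hxx⟩ y ⟨hy, hy0, hyy⟩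
    exact S.L_move hx hy (by rw [hxx]; exact haa) (by rw [hxx, hyy])) (a := a)
      ⟨ha, by rintro rfl; exact haa (S.hs.zero_left _), rfl⟩

theorem mm_sum (M : Subgroup (V ≃ₗ[F] V)) [Fintype (EE σ)] :
    (∑ c : EE σ, S.mm M (c : F)) + 1 = Nat.card (S.WW M) := by
  classical
  have := S.finite_V
  have h1 : Nat.card (S.WW M) = Nat.card {x : S.WW M // (x : V) = 0} + Nat.card {x : S.WW M // (x : V) ≠ 0} := by
    rw [← Nat.card_sum]
    exact (Nat.card_congr (Equiv.sumCompl (fun x : S.WW M => (x : V) = 0))).symm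
  have h2 : Nat.card {x : S.WW M // (x : V) = 0} = 1 := by
    have : Unique {x : S.WW M // (x : V) = 0} :=
      { default := ⟨0, rfl⟩
        uniq := fun x => Subtype.ext (Subtype.ext x.2) }
    exact Nat.card_unique
  have h3 : Nat.card {x : S.WW M // (x : V) ≠ 0} = ∑ c : EE σ, S.mm M (c : F) := by
    have h4 : ∑ c : EE σ, S.mm M (c : F) = Nat.card (Σ c : EE σ, {x : Ocl f V1 (c : F) // (x : V) ∈ S.WW M}) := by
      rw [Nat.card_sigma]; rfl
    rw [h4]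
    refine Nat.card_congr
      { toFun := fun x => ⟨⟨f x.1 x.1, S.hs.self_fixed _⟩, ⟨⟨x.1, x.1.2.1, x.2, rfl⟩, x.1.2⟩⟩
        invFun := fun p => ⟨⟨p.2.1, p.2.2⟩, p.2.1.2.2.1⟩
        left_inv := fun x => rfl
        right_inv := ?_ }
    rintro ⟨⟨c, hc⟩, ⟨⟨x, hx1, hx2, hx3⟩, hx4⟩⟩
    simp only at hx3
    subst hx3
    rfl
  omega

theorem mm_zero_le (M : Subgroup (V ≃ₗ[F] V)) : S.mm M 0 + 1 ≤ Nat.card (S.WW M) := by
  classical
  have := S.finite_V
  have : Fintype (EE σ) := Fintype.ofFinite _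
  rw [← S.mm_sum M]
  have h1 : S.mm M (((0 : EE σ)) : F) ≤ ∑ c : EE σ, S.mm M (c : F) :=
    Finset.single_le_sum (f := fun c : EE σ => S.mm M (c : F)) (fun _ _ => Nat.zero_le _) (Finset.mem_univ _)
  have h2 : (((0 : EE σ)) : F) = 0 := rfl
  rw [h2] at h1
  omega

theorem mm_two_le (M : Subgroup (V ≃ₗ[F] V)) {c : F} (hc : σ c = c) (hc0 : c ≠ 0) :
    S.mm M 0 + S.mm M c + 1 ≤ Nat.card (S.WW M) := by
  classical
  have := S.finite_V
  have : Fintype (EE σ) := Fintype.ofFinite _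
  rw [← S.mm_sum M]
  have hne : (0 : EE σ) ≠ ⟨c, hc⟩ := fun h => hc0 (congrArg Subtype.val h).symm
  have h1 : ∑ c ∈ ({0, ⟨c, hc⟩} : Finset (EE σ)), S.mm M (c : F) ≤ ∑ c : EE σ, S.mm M (c : F) :=
    Finset.sum_le_sum_of_subset (Finset.subset_univ _)
  rw [Finset.sum_pair hne] at h1
  have h2 : S.mm M (((0 : EE σ)) : F) = S.mm M 0 := rfl
  have h3 : S.mm M (((⟨c, hc⟩ : EE σ)) : F) = S.mm M c := rfl
  omega

theorem card_Oc {c : F} (hc : σ c = c) (hc0 : c ≠ 0) :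
    Nat.card (Ocl f V1 c) = Nat.card (EE σ) * (Nat.card (EE σ) ^ 2 - 1) := by
  have := S.finite_V
  have := S.fd
  have h1 := (cnt_formula S.hs 2 V1 S.nd1 S.d2).2 c hc hc0
  rw [card_Ocl_ne S.hs V1 hc0]
  have hq := one_lt_q S.hs
  set q := Nat.card (EE σ)
  have h2 : 1 ≤ q ^ 2 := Nat.one_le_pow _ _ (by omega)
  zify [h2]
  have hq0 : (q : ℤ) ≠ 0 := by omega
  apply mul_left_cancel₀ hq0
  linear_combination h1

theorem card_O0 : Nat.card (Ocl f V1 0) = (Nat.card (EE σ) + 1) * (Nat.card (EE σ) ^ 2 - 1) := by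
  have := S.finite_V
  have := S.fd
  have h1 := (cnt_formula S.hs 2 V1 S.nd1 S.d2).1
  have h2 := card_Ocl_zero S.hs V1
  have hq := one_lt_q S.hs
  set q := Nat.card (EE σ)
  have h3 : 1 ≤ q ^ 2 := Nat.one_le_pow _ _ (by omega)
  zify [h3]
  have h4 : (Nat.card (Ocl f V1 0) : ℤ) + 1 = cnt f V1 0 := by exact_mod_cast h2
  have hq0 : (q : ℤ) ≠ 0 := by omega
  apply mul_left_cancel₀ hq0
  linear_combination q * h4 + h1

/-- totally isotropic subspaces of `V1` are lines -/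
theorem ti1 {a v : V} (ha : a ∈ V1) (ha0 : a ≠ 0) (haa : f a a = 0) (hv : v ∈ V1) (hva : f v a = 0) :
    v ∈ Submodule.span F {a} := by
  have := S.fd
  obtain ⟨y, hy, hay⟩ := S.nd1 a ha ha0
  obtain ⟨b, hb, hab, hbb, -⟩ := exists_partner S.hs (U := V1) (a := a) ha hy haa hay
  have h1 := finrank_perp (H := S.hs) (U := V1) (e := a) (e' := b) ha hb haa hbb hab
  rw [S.d2] at h1
  set U := V1 ⊓ LinearMap.ker (S.hs.fl a) ⊓ LinearMap.ker (S.hs.fl b) with hUdef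
  have hU0 : U = ⊥ := Submodule.finrank_eq_zero.1 (by omega)
  have memU : ∀ x, x ∈ U ↔ x ∈ V1 ∧ f x a = 0 ∧ f x b = 0 := by
    intro x; rw [hUdef]; simp [and_assoc]
  have huU : v - f v b • a ∈ U := by
    rw [memU]
    refine ⟨V1.sub_mem hv (V1.smul_mem _ ha), ?_, ?_⟩
    · rw [S.hs.sub_left, S.hs.smul_left, haa, hva]; ring
    · rw [S.hs.sub_left, S.hs.smul_left, hab]; ring
  rw [hU0, Submodule.mem_bot, sub_eq_zero] at huU
  rw [huU]
  exact Submodule.smul_mem _ _ (Submodule.mem_span_singleton_self a)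

/-- a basis of `V1` -/
theorem basis1 {a b : V} (ha : a ∈ V1) (hb : b ∈ V1) (haa : f a a = 0) (hbb : f b b = 0) (hab : f a b = 1) {v : V}
    (hv : v ∈ V1) : v = f v b • a + f v a • b := by
  have := S.fd
  have h1 := finrank_perp (H := S.hs) (U := V1) (e := a) (e' := b) ha hb haa hbb hab
  rw [S.d2] at h1
  set U := V1 ⊓ LinearMap.ker (S.hs.fl a) ⊓ LinearMap.ker (S.hs.fl b) with hUdef
  have hU0 : U = ⊥ := Submodule.finrank_eq_zero.1 (by omega)
  have memU : ∀ x, x ∈ U ↔ x ∈ V1 ∧ f x a = 0 ∧ f x b = 0 := by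
    intro x; rw [hUdef]; simp [and_assoc]
  have hba : f b a = 1 := by rw [S.hs.herm, hab, map_one]
  have huU : v - f v b • a - f v a • b ∈ U := by
    rw [memU]
    refine ⟨V1.sub_mem (V1.sub_mem hv (V1.smul_mem _ ha)) (V1.smul_mem _ hb), ?_, ?_⟩
    · rw [S.hs.sub_left, S.hs.sub_left, S.hs.smul_left, S.hs.smul_left, haa, hba]; ring
    · rw [S.hs.sub_left, S.hs.sub_left, S.hs.smul_left, S.hs.smul_left, hab, hbb]; ring
  rw [hU0, Submodule.mem_bot] at huU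
  have h2 : v - (f v b • a + f v a • b) = 0 := by rw [← huU]; abel
  exact sub_eq_zero.1 h2

theorem card_line {W : AddSubgroup V} {a : V} (h : ∀ v ∈ W, v ∈ Submodule.span F {a}) :
    Nat.card W ≤ Nat.card (EE σ) ^ 2 := by
  rw [← card_F S.hs]
  choose! g hg using (fun v (hv : v ∈ W) => Submodule.mem_span_singleton.1 (h v hv))
  refine Nat.card_le_card_of_injective (fun v : W => g v) ?_
  intro v v' hvv
  have h2 : g v = g v' := hvv
  apply Subtype.ext
  rw [← hg v v.2, ← hg v' v'.2, h2]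

end C2

end Cfsg.Agent.Lib.MinU
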