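import Mathlib
import Cfsg.Agent.Lib.MinWC

/-!
# Minimal index of `SU_4(q)`: the local analysis, first part (helper98)
-/

set_option autoImplicit false
set_option linter.unusedSectionVars false

namespace Cfsg.Agent.Lib.MinU

open Cfsg.Agent.Lib Cfsg.Agent.Lib.UnTrans Cfsg.Agent.Lib.SubfUn
open Cfsg.Agent.Lib.SpTrans (isom mem_isom)

variable {F V : Type*} [Field F] [Finite F] [AddCommGroup V] [Module F V]
variable {σ : F →+* F} {f : V → V → F}

/-- an additive subgroup whose nonzero vectors all have the same nonzero norm is small -/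
theorem same_norm (H : HS σ f) [Finite V] {W : AddSubgroup V} {c : F} (hc : c ≠ 0) (h5 : 5 ≤ Nat.card W)
    (h : ∀ u ∈ W, u ≠ 0 → f u u = c) : False := by
  classical
  have hW : (W : Set V).ncard = Nat.card W := rfl
  obtain ⟨u, hu, hu0⟩ : ∃ u ∈ W, u ≠ 0 := by
    have := Set.exists_mem_notMem_of_ncard_lt_ncard (s := ({0} : Set V)) (t := (W : Set V)) (by
      rw [Set.ncard_singleton, hW]; omega) (Set.toFinite _)
    obtain ⟨u, hu, hu'⟩ := this
    exact ⟨u, hu, by simpa using hu'⟩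
  obtain ⟨v, hv, hv'⟩ := Set.exists_mem_notMem_of_ncard_lt_ncard (s := ({0, -u} : Set V)) (t := (W : Set V)) (by
      have := Set.ncard_insert_le (0 : V) {-u}
      rw [Set.ncard_singleton] at this
      rw [hW]; omega) (Set.toFinite _)
  obtain ⟨v', hv1, hv1'⟩ := Set.exists_mem_notMem_of_ncard_lt_ncard (s := ({0, -u, -v, -(u + v)} : Set V))
    (t := (W : Set V)) (by
      have h1 := Set.ncard_insert_le (0 : V) {-u, -v, -(u + v)}
      have h2 := Set.ncard_insert_le (-u : V) {-v, -(u + v)}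
      have h3 := Set.ncard_insert_le (-v : V) {-(u + v)}
      rw [Set.ncard_singleton] at h3
      rw [hW]; omega) (Set.toFinite _)
  have hvW : v ∈ W := hv
  have hv'W : v' ∈ W := hv1
  simp only [Set.mem_insert_iff, Set.mem_singleton_iff, not_or] at hv' hv1'
  have n0 := h u hu hu0
  have n1 := h v hvW hv'.1
  have n2 := h v' hv'W hv1'.1
  have n3 := h (u + v) (W.add_mem hu hvW) (fun h0 => hv'.2 (by rw [← sub_eq_zero]; rw [← h0]; abel))
  have n4 := h (u + v') (W.add_mem hu hv'W) (fun h0 => hv1'.2.1 (by rw [← sub_eq_zero]; rw [← h0]; abel))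
  have n5 := h (v + v') (W.add_mem hvW hv'W) (fun h0 => hv1'.2.2.1 (by rw [← sub_eq_zero]; rw [← h0]; abel))
  have n6 := h (u + v + v') (W.add_mem (W.add_mem hu hvW) hv'W)
    (fun h0 => hv1'.2.2.2 (by rw [← sub_eq_zero]; rw [← h0]; abel))
  simp only [H.add_left, H.add_right] at n3 n4 n5 n6
  apply hc
  linear_combination n3 + n4 + n5 - n6 - n0 - n1 - n2

namespace C2
variable {e e' : V} {V1 : Submodule F V} (S : C2 σ f e e' V1)
include S

theorem facts {η : F} (hη0 : η ≠ 0) (hη : η + σ η = 0) {M : Subgroup (V ≃ₗ[F] V)} (hC : S.CC η M ≠ ⊤)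
    (hX : M.relIndex S.PP ≤ Nat.card (EE σ) ^ 4 + Nat.card (EE σ) ^ 3 + Nat.card (EE σ)) :
    Nat.card (S.WW M) ≤ Nat.card (EE σ) ^ 2 ∧ Nat.card (EE σ) ^ 2 ≤ S.idW M ∧
    S.idW M * Nat.card (S.WW M) = Nat.card (EE σ) ^ 4 ∧
    S.idW M * (Nat.card (EE σ) * Nat.card (orb S.L (S.WW M))) ≤ M.relIndex S.PP ∧
    (S.CC η M ≠ ⊥ → S.idW M * ((Nat.card (EE σ) + 1) * Nat.card (orb S.L (S.WW M))) ≤ M.relIndex S.PP) ∧
    Nat.card (orb S.L (S.WW M)) ≤ Nat.card (EE σ) + 1 ∧ 1 ≤ Nat.card (orb S.L (S.WW M)) := by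
  have := S.finite_V
  have := finite_addSubgroup (V := V)
  have hI := S.I1 hη0 hη M
  have hmu := mult_bound (S.CC η M) hC
  have hid := S.idW_mul M
  have hsq := S.W_sq hη hη0 hC
  rw [S.card_V1] at hid hsq
  have hq := one_lt_q S.hs
  have hYpos : 0 < Nat.card (orb S.L (S.WW M)) := by
    have : Nonempty (orb S.L (S.WW M)) := ⟨⟨_, self_mem_orb _ _⟩⟩
    exact Nat.card_pos
  set q := Nat.card (EE σ) with hqdef
  set X := M.relIndex S.PP
  set w := Nat.card (S.WW M) with hwdef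
  set Y := Nat.card (orb S.L (S.WW M))
  set i := S.idW M
  set A := Nat.card (EE σ ⧸ S.CC η M)
  set B := Nat.card (Set.range fun δ : (EE σ)ˣ => ml (S.CC η M) δ)
  have hw2 : w ≤ q ^ 2 := by
    by_contra hlt
    push Not at hlt
    have h1 := Nat.pow_lt_pow_left hlt (n := 2) (by norm_num)
    have h2 : (q ^ 2) ^ 2 = q ^ 4 := by ring
    omega
  have hi2 : q ^ 2 ≤ i := by
    have h2 : q ^ 2 * q ^ 2 ≤ i * q ^ 2 := by
      calc q ^ 2 * q ^ 2 = q ^ 4 := by ring
        _ = i * w := hid.symm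
        _ ≤ i * q ^ 2 := Nat.mul_le_mul_left _ hw2
    exact Nat.le_of_mul_le_mul_right h2 (by positivity)
  have h1 : i * (q * Y) ≤ X := by
    calc i * (q * Y) ≤ i * (A * B * Y) := Nat.mul_le_mul_left _ (Nat.mul_le_mul_right _ hmu.1)
      _ = i * (A * (Y * B)) := by ring
      _ ≤ X := hI
  refine ⟨hw2, hi2, hid, h1, ?_, ?_, hYpos⟩
  · intro hb
    have h2 : q + 1 ≤ A * B := hmu.2 hb
    calc i * ((q + 1) * Y) ≤ i * (A * B * Y) := Nat.mul_le_mul_left _ (Nat.mul_le_mul_right _ h2)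
      _ = i * (A * (Y * B)) := by ring
      _ ≤ X := hI
  · by_contra hlt
    push Not at hlt
    have h2 : q ^ 2 * (q * (q + 2)) ≤ X := (Nat.mul_le_mul hi2 (Nat.mul_le_mul_left _ hlt)).trans h1
    have h3 : q ^ 2 * (q * (q + 2)) = q ^ 4 + 2 * q ^ 3 := by ring
    have h4 : q < q ^ 3 := by
      calc q = q ^ 1 := (pow_one q).symm
        _ < q ^ 3 := Nat.pow_lt_pow_right (by omega) (by norm_num)
    omega

theorem w_dvd (M : Subgroup (V ≃ₗ[F] V)) : ∃ p k j : ℕ, p.Prime ∧ Nat.card (EE σ) = p ^ k ∧ Nat.card (S.WW M) = p ^ j := by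
  have := S.finite_V
  have hid := S.idW_mul M
  rw [S.card_V1] at hid
  obtain ⟨p, hp⟩ := CharP.exists F
  have : NeZero p := ⟨CharP.char_ne_zero_of_finite F p⟩
  have hpf : Fact p.Prime := ⟨(CharP.char_is_prime_or_zero F p).resolve_right (NeZero.ne p)⟩
  have : CharP (EE σ) p := inferInstance
  have hpp : p.Prime := hpf.out
  have : Fintype (EE σ) := Fintype.ofFinite _
  obtain ⟨k, -, hk⟩ := FiniteField.card (EE σ) p
  have hk' : Nat.card (EE σ) = p ^ (k : ℕ) := by rw [Nat.card_eq_fintype_card, hk]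
  have h5 : Nat.card (S.WW M) ∣ p ^ ((k : ℕ) * 4) := by
    rw [pow_mul, ← hk', ← hid]
    exact Dvd.intro_left _ rfl
  obtain ⟨j, -, hj⟩ := (Nat.dvd_prime_pow hpp).1 h5
  exact ⟨p, k, j, hpp, hk', hj⟩

theorem w_half (M : Subgroup (V ≃ₗ[F] V)) {n : ℕ} (h : Nat.card (S.WW M) < Nat.card (EE σ) ^ n) :
    2 * Nat.card (S.WW M) ≤ Nat.card (EE σ) ^ n := by
  obtain ⟨p, k, j, hp, hk, hj⟩ := S.w_dvd M
  rw [hk, hj, ← pow_mul] at h ⊢
  have h1 : j < k * n := (Nat.pow_lt_pow_iff_right hp.one_lt).1 h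
  calc 2 * p ^ j ≤ p * p ^ j := Nat.mul_le_mul_right _ hp.two_le
    _ = p ^ (j + 1) := by ring
    _ ≤ p ^ (k * n) := Nat.pow_le_pow_right hp.pos h1

theorem mm_pair_le (M : Subgroup (V ≃ₗ[F] V)) {c c' : F} (hc : σ c = c) (hc' : σ c' = c') (hne : c ≠ c') :
    S.mm M c + S.mm M c' + 1 ≤ Nat.card (S.WW M) := by
  classical
  have := S.finite_V
  have : Fintype (EE σ) := Fintype.ofFinite _
  rw [← S.mm_sum M]
  have hne : (⟨c, hc⟩ : EE σ) ≠ ⟨c', hc'⟩ := fun h => hne (congrArg Subtype.val h)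
  have h1 : ∑ c ∈ ({⟨c, hc⟩, ⟨c', hc'⟩} : Finset (EE σ)), S.mm M (c : F) ≤ ∑ c : EE σ, S.mm M (c : F) :=
    Finset.sum_le_sum_of_subset (Finset.subset_univ _)
  rw [Finset.sum_pair hne] at h1
  have h3 : S.mm M (((⟨c, hc⟩ : EE σ)) : F) = S.mm M c := rfl
  have h4 : S.mm M (((⟨c', hc'⟩ : EE σ)) : F) = S.mm M c' := rfl
  omega

theorem mm_pos (M : Subgroup (V ≃ₗ[F] V)) {u : V} (hu : u ∈ S.WW M) (hu0 : u ≠ 0) : 1 ≤ S.mm M (f u u) := by
  have := S.finite_V
  have : Nonempty {x : Ocl f V1 (f u u) // (x : V) ∈ S.WW M} := ⟨⟨⟨u, hu.1, hu0, rfl⟩, hu⟩⟩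
  exact Nat.card_pos

/-- in characteristic 2 squares of elements of `M ∩ Q(e)` -/
theorem sq_mem_C {η : F} (hη0 : η ≠ 0) (hη : η + σ η = 0) {M : Subgroup (V ≃ₗ[F] V)} (h2 : (2 : F) = 0) {x : V}
    (hx : x ∈ S.WW M) (hxx : f x x ≠ 0) : S.CC η M ≠ ⊥ := by
  intro hC
  obtain ⟨hx1, t, ht, c, htx⟩ := hx
  have h1 := IsR.mul S.hs S.ee (S.perp_e hx1) (S.perp_e hx1) htx htx
  have h3 : x + x = 0 := by
    rw [← two_smul F x, h2, zero_smul]
  have h4 : c + c = 0 := by
    have : c + c = 2 * c := by ring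
    rw [this, h2, zero_mul]
  rw [h3, h4, zero_sub] at h1
  have hση : σ η = -η := eq_neg_of_add_eq_zero_right hη
  have hneg : ∀ y : F, -y = y := by
    intro y
    have : y + y = 0 := by
      have : y + y = 2 * y := by ring
      rw [this, h2, zero_mul]
    exact neg_eq_of_add_eq_zero_left this
  have h5 : σ (-f x x / η) = -f x x / η := by
    rw [map_div₀, map_neg, S.hs.self_fixed, hση, hneg η]
  have h6 : (⟨-f x x / η, h5⟩ : EE σ) ∈ S.CC η M := ⟨_, mul_mem ht ht, by
    show IsR f (t * t) e 0 (η * (-f x x / η))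
    rw [mul_div_cancel₀ _ hη0]
    exact h1⟩
  rw [hC] at h6
  have h7 : (⟨-f x x / η, h5⟩ : EE σ) = 0 := h6
  have h8 : -f x x / η = 0 := congrArg Subtype.val h7
  rcases div_eq_zero_iff.1 h8 with h | h
  · exact hxx (neg_eq_zero.1 h)
  · exact hη0 h

/-- all vectors of `W` are isotropic -/
theorem all_iso {η : F} (hη0 : η ≠ 0) (hη : η + σ η = 0) {M : Subgroup (V ≃ₗ[F] V)} (hC : S.CC η M ≠ ⊤)
    (hX : M.relIndex S.PP ≤ Nat.card (EE σ) ^ 4 + Nat.card (EE σ) ^ 3 + Nat.card (EE σ)) :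
    ∀ x ∈ S.WW M, f x x = 0 := by
  classical
  have := S.finite_V
  have := S.finite_G
  have := S.fd
  have := finite_addSubgroup (V := V)
  by_contra hcon
  push Not at hcon
  obtain ⟨x, hx, hxx⟩ := hcon
  obtain ⟨hw2, hi2, hid, h1, h1', hY, hY1⟩ := S.facts hη0 hη hC hX
  have hq := one_lt_q S.hs
  have hhalf := fun h => S.w_half M (n := 2) h
  have hdc : ∀ a ∈ S.WW M, f a a ≠ 0 → kk S.L (S.WW M) a * (Nat.card (EE σ) * (Nat.card (EE σ) ^ 2 - 1)) =
      Nat.card (orb S.L (S.WW M)) * S.mm M (f a a) := by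
    intro a ha haa
    have := S.dc M ha.1 haa
    rwa [S.card_Oc (S.hs.self_fixed a) haa] at this
  have hpair : ∀ a ∈ S.WW M, ∀ b ∈ S.WW M, f a a ≠ f b b → S.mm M (f a a) + S.mm M (f b b) + 1 ≤ Nat.card (S.WW M) :=
    fun a _ b _ h => S.mm_pair_le M (S.hs.self_fixed a) (S.hs.self_fixed b) h
  have hmle : S.mm M (f x x) + 1 ≤ Nat.card (S.WW M) := by
    have h2 := S.mm_two_le M (S.hs.self_fixed x) hxx
    omega
  have hpos := fun a ha => S.kk_pos M (a := a) ha
  set q := Nat.card (EE σ) with hqdef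
  set X := M.relIndex S.PP
  set w := Nat.card (S.WW M) with hwdef
  set Y := Nat.card (orb S.L (S.WW M))
  set i := S.idW M
  obtain ⟨r, hr⟩ : ∃ r, q = r + 2 := ⟨q - 2, by omega⟩
  have e1 : q ^ 2 - 1 = (q + 1) * (q - 1) := by
    rw [hr]
    have : (r + 2) ^ 2 = (r + 2 + 1) * (r + 2 - 1) + 1 := by
      have e : r + 2 - 1 = r + 1 := rfl
      rw [e]; ring
    omega
  -- lower bound for the number of vectors of a given norm
  have hmge : ∀ a ∈ S.WW M, f a a ≠ 0 → q * (q - 1) ≤ S.mm M (f a a) := by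
    intro a ha haa
    have h2 := hdc a ha haa
    have h3 : (q + 1) * (q * (q - 1)) ≤ (q + 1) * S.mm M (f a a) := by
      calc (q + 1) * (q * (q - 1)) = 1 * (q * (q ^ 2 - 1)) := by rw [e1]; ring
        _ ≤ kk S.L (S.WW M) a * (q * (q ^ 2 - 1)) := Nat.mul_le_mul_right _ (hpos a ha)
        _ = Y * S.mm M (f a a) := h2
        _ ≤ (q + 1) * S.mm M (f a a) := Nat.mul_le_mul_right _ hY
    exact Nat.le_of_mul_le_mul_left h3 (by omega)
  have e2 : q * (q - 1) + q = q ^ 2 := by
    rw [hr]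
    have e : r + 2 - 1 = r + 1 := rfl
    rw [e]; ring
  have e3 : 2 * q ≤ q ^ 2 := by
    rw [sq]; exact Nat.mul_le_mul_right _ hq
  have hwq : w = q ^ 2 := by
    by_contra hne
    have h2 := hhalf (lt_of_le_of_ne hw2 hne)
    have h3 := hmge x hx hxx
    omega
  have hYq : q ≤ Y := by
    have h2 := hdc x hx hxx
    have h3 : q * (q ^ 2 - 1) ≤ Y * (q ^ 2 - 1) := by
      calc q * (q ^ 2 - 1) = 1 * (q * (q ^ 2 - 1)) := (one_mul _).symm
        _ ≤ kk S.L (S.WW M) x * (q * (q ^ 2 - 1)) := Nat.mul_le_mul_right _ (hpos x hx)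
        _ = Y * S.mm M (f x x) := h2
        _ ≤ Y * (q ^ 2 - 1) := Nat.mul_le_mul_left _ (by omega)
    exact Nat.le_of_mul_le_mul_right h3 (by omega)
  -- norms of elements of W
  have hnorm : ∀ a ∈ S.WW M, f a a = 0 ∨ f a a = f x x := by
    intro a ha
    by_contra hcon
    push Not at hcon
    have h2 := hmge a ha hcon.1
    have h3 := hmge x hx hxx
    have h4 := hpair a ha x hx hcon.2
    omega
  by_cases hY2 : Y = q
  · -- all nonzero vectors have the same norm
    have h2 := hdc x hx hxx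
    rw [hY2] at h2
    have h3 : kk S.L (S.WW M) x * (q ^ 2 - 1) = S.mm M (f x x) := by
      apply Nat.eq_of_mul_eq_mul_left (show 0 < q by omega)
      rw [← h2]; ring
    have h4 : q ^ 2 - 1 ≤ S.mm M (f x x) := by
      rw [← h3]
      calc q ^ 2 - 1 = 1 * (q ^ 2 - 1) := (one_mul _).symm
        _ ≤ _ := Nat.mul_le_mul_right _ (hpos x hx)
    have hall : ∀ u ∈ S.WW M, u ≠ 0 → f u u = f x x := by
      intro u hu hu0
      by_contra hne
      have h5 := hpair u hu x hx hne
      have h6 := S.mm_pos M hu hu0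
      omega
    by_cases hq3 : 3 ≤ q
    · refine same_norm S.hs hxx ?_ hall
      have : 3 ^ 2 ≤ q ^ 2 := Nat.pow_le_pow_left hq3 2
      omega
    · have hq2 : q = 2 := by omega
      have h20 : (2 : F) = 0 := by
        have h3 : (((2 : ℕ) : EE σ)) = 0 := by
          have := card_nsmul_eq_zero' (x := (1 : EE σ))
          rw [← hqdef, hq2, nsmul_eq_mul, mul_one] at this
          exact this
        have := congrArg (fun z : EE σ => (z : F)) h3
        push_cast at this
        exact this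
      have hC0 := S.sq_mem_C hη0 hη h20 hx hxx
      apply hC
      have h5 := AddSubgroup.card_addSubgroup_dvd_card (S.CC η M)
      rw [← hqdef, hq2] at h5
      have h6 := (Nat.dvd_prime Nat.prime_two).1 h5
      rcases h6 with h6 | h6
      · exact absurd (AddSubgroup.card_eq_one.1 h6) hC0
      · apply AddSubgroup.eq_top_of_card_eq
        rw [h6, ← hqdef, hq2]
  · have hY3 : Y = q + 1 := by omega
    have hCbot : S.CC η M = ⊥ := by
      by_contra hb
      have h2 := h1' hb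
      have h3 : q ^ 2 * ((q + 1) * (q + 1)) ≤ q ^ 4 + q ^ 3 + q := by
        refine le_trans (Nat.mul_le_mul hi2 (Nat.mul_le_mul_left _ ?_)) (h2.trans hX)
        omega
      have h4 : q ^ 2 * ((q + 1) * (q + 1)) = q ^ 4 + 2 * q ^ 3 + q ^ 2 := by ring
      have h5 : q ≤ q ^ 3 := Nat.le_self_pow (by norm_num) q
      have h6 : 0 < q ^ 2 := by positivity
      omega
    by_cases h20 : (2 : F) = 0
    · exact S.sq_mem_C hη0 hη h20 hx hxx hCbot
    · -- there is an isotropic vector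
      obtain ⟨a, ha, ha0, haa⟩ : ∃ a ∈ S.WW M, a ≠ 0 ∧ f a a = 0 := by
        by_contra hno
        push Not at hno
        have hall : ∀ u ∈ S.WW M, u ≠ 0 → f u u = f x x := fun u hu hu0 =>
          (hnorm u hu).resolve_left (hno u hu hu0)
        refine same_norm S.hs hxx ?_ hall
        have hq3 : 3 ≤ q := by
          by_contra hlt
          have hq2 : q = 2 := by omega
          apply h20
          have h3 : (((2 : ℕ) : EE σ)) = 0 := by
            have := card_nsmul_eq_zero' (x := (1 : EE σ))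
            rw [← hqdef, hq2, nsmul_eq_mul, mul_one] at this
            exact this
          have := congrArg (fun z : EE σ => (z : F)) h3
          push_cast at this
          exact this
        have : 3 ^ 2 ≤ q ^ 2 := Nat.pow_le_pow_left hq3 2
        omega
      have hsym : f x a = f a x := by
        have h2 := S.br_mem_C hη hη0 hx ha
        rw [hCbot] at h2
        have h3 : br S.hs hη x a = 0 := h2
        have h4 : (f x a - f a x) / η = 0 := congrArg Subtype.val h3
        rcases div_eq_zero_iff.1 h4 with h | h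
        · exact sub_eq_zero.1 h
        · exact absurd h hη0
      have hs0 : f x a ≠ 0 := by
        intro h0
        obtain ⟨m, rfl⟩ := Submodule.mem_span_singleton.1 (S.ti1 ha.1 ha0 haa hx.1 h0)
        apply hxx
        rw [S.hs.smul_left, S.hs.smul_right, haa]; ring
      have n1 := hnorm (x + a) ((S.WW M).add_mem hx ha)
      have n2 := hnorm (x - a) ((S.WW M).sub_mem hx ha)
      simp only [S.hs.add_left, S.hs.add_right, S.hs.sub_left, S.hs.sub_right, haa, ← hsym] at n1 n2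
      have hts : (2 : F) * f x a ≠ 0 := mul_ne_zero h20 hs0
      have m1 : f x x + 2 * f x a = 0 := by
        rcases n1 with h | h
        · linear_combination h
        · exfalso; apply hts; linear_combination h
      have m2 : f x x - 2 * f x a = 0 := by
        rcases n2 with h | h
        · linear_combination h
        · exfalso; apply hts; linear_combination -h
      have m3 : (2 : F) * f x x = 0 := by linear_combination m1 + m2
      exact mul_ne_zero h20 hxx m3

end C2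

end Cfsg.Agent.Lib.MinU
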