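import Mathlib
import Cfsg.Agent.Lib.MinWD

/-!
# Minimal index of `SU_4(q)`: the local analysis, second part (helper98)
-/

set_option autoImplicit false
set_option linter.unusedSectionVars false

namespace Cfsg.Agent.Lib.MinU

open Cfsg.Agent.Lib Cfsg.Agent.Lib.UnTrans Cfsg.Agent.Lib.SubfUn
open Cfsg.Agent.Lib.SpTrans (isom mem_isom)

variable {F V : Type*} [Field F] [Finite F] [AddCommGroup V] [Module F V]
variable {σ : F →+* F} {f : V → V → F}

/-- if `a ∣ Y b` then `a ≤ Y gcd a b` -/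
theorem le_mul_gcd {a b Y : ℕ} (ha : 0 < a) (hY : 0 < Y) (h : a ∣ Y * b) : a ≤ Y * Nat.gcd a b := by
  have h1 : a ∣ Nat.gcd (Y * a) (Y * b) := Nat.dvd_gcd (Dvd.intro_left _ rfl) h
  rw [Nat.gcd_mul_left] at h1
  exact Nat.le_of_dvd (Nat.mul_pos hY (Nat.gcd_pos_of_pos_left _ ha)) h1

theorem gcd_bound {p k j Y q w : ℕ} (hp : p.Prime) (hq : q = p ^ k) (hw : w = p ^ j) (hwq : w < q ^ 2) (hw1 : 1 < w)
    (hY : 0 < Y) (h : q ^ 2 - 1 ∣ Y * (w - 1)) : q + 1 ≤ Y := by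
  have hk : k ≠ 0 := by
    rintro rfl
    rw [hq, pow_zero] at hwq
    omega
  have hq2 : 2 ≤ q := by
    rw [hq]
    calc 2 ≤ p := hp.two_le
      _ = p ^ 1 := (pow_one p).symm
      _ ≤ p ^ k := Nat.pow_le_pow_right hp.pos (by omega)
  have hj : j < 2 * k := by
    rw [hq, hw, ← pow_mul, mul_comm] at hwq
    exact (Nat.pow_lt_pow_iff_right hp.one_lt).1 hwq
  have hj0 : 0 < j := by
    by_contra h0
    have : j = 0 := by omega
    rw [hw, this, pow_zero] at hw1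
    omega
  have hqpos : 0 < q ^ 2 - 1 := by
    have : 2 ^ 2 ≤ q ^ 2 := Nat.pow_le_pow_left hq2 2
    omega
  have h1 := le_mul_gcd hqpos hY h
  have h2 : Nat.gcd (q ^ 2 - 1) (w - 1) = p ^ Nat.gcd (2 * k) j - 1 := by
    rw [hq, hw, ← pow_mul, mul_comm k 2]
    exact Nat.pow_sub_one_gcd_pow_sub_one p (2 * k) j
  have hg : Nat.gcd (2 * k) j ≤ k := by
    have h3 : Nat.gcd (2 * k) j ∣ 2 * k := Nat.gcd_dvd_left _ _
    have h4 : Nat.gcd (2 * k) j ≤ j := Nat.gcd_le_right _ hj0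
    obtain ⟨m, hm⟩ := h3
    have h5 : 2 ≤ m := by
      by_contra hlt
      have : m = 0 ∨ m = 1 := by omega
      rcases this with rfl | rfl
      · omega
      · omega
    have h6 : Nat.gcd (2 * k) j * 2 ≤ Nat.gcd (2 * k) j * m := Nat.mul_le_mul_left _ h5
    omega
  have h3 : p ^ Nat.gcd (2 * k) j ≤ q := by
    rw [hq]; exact Nat.pow_le_pow_right hp.pos hg
  rw [h2] at h1
  have h4 : (q + 1) * (q - 1) ≤ Y * (q - 1) := by
    have e1 : (q + 1) * (q - 1) = q ^ 2 - 1 := by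
      obtain ⟨r, hr⟩ : ∃ r, q = r + 1 := ⟨q - 1, by omega⟩
      rw [hr, Nat.add_sub_cancel]
      have : (r + 1) ^ 2 = (r + 1 + 1) * r + 1 := by ring
      omega
    rw [e1]
    exact h1.trans (Nat.mul_le_mul_left _ (by omega))
  exact Nat.le_of_mul_le_mul_right h4 (by omega)

namespace C2
variable {e e' : V} {V1 : Submodule F V} (S : C2 σ f e e' V1)
include S

theorem W_ne_bot {η : F} (hη0 : η ≠ 0) (hη : η + σ η = 0) {M : Subgroup (V ≃ₗ[F] V)} (hC : S.CC η M ≠ ⊤)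
    (hX : M.relIndex S.PP ≤ Nat.card (EE σ) ^ 4 + Nat.card (EE σ) ^ 3 + Nat.card (EE σ)) :
    ∃ a ∈ S.WW M, a ≠ 0 := by
  by_contra hcon
  push Not at hcon
  have h0 : S.WW M = ⊥ := (AddSubgroup.eq_bot_iff_forall _).2 hcon
  obtain ⟨hw2, hi2, hid, h1, h1', hY, hY1⟩ := S.facts hη0 hη hC hX
  have hw : Nat.card (S.WW M) = 1 := by rw [h0]; simp
  rw [hw, mul_one] at hid
  rw [hid] at h1
  have hq := one_lt_q S.hs
  set q := Nat.card (EE σ)
  have h2 : q ^ 4 * (q * 1) ≤ q ^ 4 + q ^ 3 + q :=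
    (Nat.mul_le_mul_left _ (Nat.mul_le_mul_left _ hY1)).trans (h1.trans hX)
  have h3 : q ^ 4 * (q * 1) = q ^ 4 * q := by ring
  have h4 : q ^ 4 * 2 ≤ q ^ 4 * q := Nat.mul_le_mul_left _ hq
  have h5 : 2 * q ^ 3 ≤ q ^ 4 := by
    calc 2 * q ^ 3 ≤ q * q ^ 3 := Nat.mul_le_mul_right _ hq
      _ = q ^ 4 := by ring
  have h6 : q < q ^ 3 := by
    calc q = q ^ 1 := (pow_one q).symm
      _ < q ^ 3 := Nat.pow_lt_pow_right (by omega) (by norm_num)
  omega

/-- the orbit of a subgroup of an isotropic line -/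
theorem orb_line {η : F} (hη0 : η ≠ 0) (hη : η + σ η = 0) {W : AddSubgroup V} {a : V} (ha : a ∈ V1) (haW : a ∈ W)
    (ha0 : a ≠ 0) (haa : f a a = 0) (hW : ∀ u ∈ W, u ∈ Submodule.span F {a}) :
    Nat.card (EE σ) + 1 ≤ Nat.card (orb S.L W) := by
  classical
  have := S.finite_V
  have := finite_addSubgroup (V := V)
  obtain ⟨y, hy, hay⟩ := S.nd1 a ha ha0
  obtain ⟨b, hb, hab, hbb, -⟩ := exists_partner S.hs (U := V1) (a := a) ha hy haa hay
  have hba : f b a = 1 := by rw [S.hs.herm, hab, map_one]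
  have hση : σ η = -η := eq_neg_of_add_eq_zero_right hη
  have hg : ∀ c : EE σ, ∃ t ∈ S.L, IsR f t b 0 (η * c) := fun c => by
    refine S.exists_R1 hb V1.zero_mem hbb (S.hs.zero_left b) ?_
    rw [S.hs.zero_left, add_zero, S.eta_cond hη]
  choose g hgm hg using hg
  have hga : ∀ c : EE σ, g c a = a + (η * c) • b := fun c => by
    rw [hg, rho, hab, S.hs.zero_right]; simp
  obtain ⟨h, hhm, hh⟩ := S.exists_R1 ha V1.zero_mem haa (S.hs.zero_left a) (c := -η⁻¹) (by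
    rw [S.hs.zero_left, map_neg, map_inv₀, hση, inv_neg]; ring)
  have hha : h (g 1 a) = η • b := by
    rw [hga, hh, rho, S.hs.add_left, S.hs.smul_left, haa, hba, S.hs.zero_right]
    have h1 : (((1 : EE σ) : F)) = 1 := rfl
    rw [h1]
    have h2 : -η⁻¹ * (0 + η * 1 * 1) = -1 := by field_simp; ring
    rw [h2]; module
  let K : Option (EE σ) → V ≃ₗ[F] V := fun o => o.elim (h * g 1) g
  have hKm : ∀ o, K o ∈ S.L := by
    rintro (_ | c)
    · exact mul_mem hhm (hgm 1)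
    · exact hgm c
  have hKa : ∀ o, f (K o a) (K o a) = 0 := fun o => by rw [S.L_iso (hKm o), haa]
  have key : ∀ o o', mp (K o) W = mp (K o') W → f (K o a) (K o' a) = 0 := by
    intro o o' hoo
    have h1 : K o a ∈ mp (K o') W := by rw [← hoo]; exact mp_mem haW
    obtain ⟨u, hu, hue⟩ := h1
    obtain ⟨m, rfl⟩ := Submodule.mem_span_singleton.1 (hW u hu)
    have h2 : K o' (m • a) = K o a := hue
    rw [← h2, map_smul, S.hs.smul_left, hKa, mul_zero]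
  have h1 : Nat.card (Option (EE σ)) = Nat.card (EE σ) + 1 := by
    have : Fintype (EE σ) := Fintype.ofFinite _
    rw [Nat.card_eq_fintype_card, Nat.card_eq_fintype_card, Fintype.card_option]
  rw [← h1]
  refine Nat.card_le_card_of_injective (fun o => (⟨mp (K o) W, K o, hKm o, rfl⟩ : orb S.L W)) ?_
  intro o o' hoo
  have h2 : mp (K o) W = mp (K o') W := congrArg Subtype.val hoo
  have h3 := key o o' h2
  rcases o with _ | c <;> rcases o' with _ | c'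
  · rfl
  · exfalso
    have h4 : f (h (g 1 a)) (g c' a) = 0 := h3
    rw [hha, hga, S.hs.smul_left, S.hs.add_right, S.hs.smul_right, hba, hbb, mul_zero, add_zero, mul_one] at h4
    exact hη0 h4
  · exfalso
    have h4 : f (g c a) (h (g 1 a)) = 0 := h3
    rw [hha, hga, S.hs.smul_right, S.hs.add_left, S.hs.smul_left, hab, hbb, mul_zero, add_zero, mul_one] at h4
    exact S.hs.sigma_ne hη0 h4
  · have h4 : f (g c a) (g c' a) = 0 := h3
    have hc : σ (c' : F) = c' := c'.2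
    rw [hga, hga] at h4
    simp only [S.hs.add_left, S.hs.add_right, S.hs.smul_left, S.hs.smul_right, haa, hab, hba, hbb, map_mul, hc, hση] at h4
    have h7 : η * ((c : F) - c') = 0 := by linear_combination h4
    rw [Subtype.ext (sub_eq_zero.1 ((mul_eq_zero.1 h7).resolve_left hη0))]

/-- type `L` -/
theorem typeL {η : F} (hη0 : η ≠ 0) (hη : η + σ η = 0) {M : Subgroup (V ≃ₗ[F] V)} (hC : S.CC η M ≠ ⊤)
    (hX : M.relIndex S.PP ≤ Nat.card (EE σ) ^ 4 + Nat.card (EE σ) ^ 3 + Nat.card (EE σ))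
    (hti : ∀ u ∈ S.WW M, ∀ v ∈ S.WW M, f u v = 0) :
    S.CC η M = ⊥ ∧ Nat.card (EE σ) ^ 4 + Nat.card (EE σ) ^ 3 ≤ M.relIndex S.PP ∧
      ∃ a ∈ V1, a ≠ 0 ∧ f a a = 0 ∧ ∀ u, u ∈ S.WW M ↔ u ∈ Submodule.span F {a} := by
  classical
  have := S.finite_V
  have := S.fd
  obtain ⟨a, ha, ha0⟩ := S.W_ne_bot hη0 hη hC hX
  have haa := hti a ha a ha
  have hsp : ∀ u ∈ S.WW M, u ∈ Submodule.span F {a} := fun u hu => S.ti1 ha.1 ha0 haa hu.1 (hti u hu a ha)
  have hYq := S.orb_line hη0 hη ha.1 ha ha0 haa hsp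
  obtain ⟨hw2, hi2, hid, h1, h1', hY, hY1⟩ := S.facts hη0 hη hC hX
  have hq := one_lt_q S.hs
  have hspc : Nat.card (Submodule.span F {a}) = Nat.card (EE σ) ^ 2 := by
    rw [← card_F S.hs]
    exact (Nat.card_congr (LinearEquiv.toSpanNonzeroSingleton F V a ha0).toEquiv).symm
  have hYe : Nat.card (orb S.L (S.WW M)) = Nat.card (EE σ) + 1 := le_antisymm hY hYq
  rw [hYe] at h1 h1'
  set q := Nat.card (EE σ) with hqdef
  set X := M.relIndex S.PP
  set w := Nat.card (S.WW M) with hwdef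
  set i := S.idW M
  have hi : i ≤ q ^ 2 := by
    by_contra hlt
    push Not at hlt
    have h2 : (q ^ 2 + 1) * (q * (q + 1)) ≤ q ^ 4 + q ^ 3 + q := (Nat.mul_le_mul_right _ hlt).trans (h1.trans hX)
    have h3 : (q ^ 2 + 1) * (q * (q + 1)) = q ^ 4 + q ^ 3 + q ^ 2 + q := by ring
    have h4 : 0 < q ^ 2 := by positivity
    omega
  have hie : i = q ^ 2 := le_antisymm hi hi2
  have hwe : w = q ^ 2 := by
    rw [hie] at hid
    have h2 : q ^ 2 * w = q ^ 2 * q ^ 2 := by rw [hid]; ring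
    exact Nat.eq_of_mul_eq_mul_left (by positivity) h2
  refine ⟨?_, ?_, a, ha.1, ha0, haa, ?_⟩
  · by_contra hb
    have h2 := (h1' hb).trans hX
    rw [hie] at h2
    have h4 : q ^ 2 * ((q + 1) * (q + 1)) = q ^ 4 + 2 * q ^ 3 + q ^ 2 := by ring
    have h5 : q ≤ q ^ 3 := Nat.le_self_pow (by norm_num) q
    have h6 : 0 < q ^ 2 := by positivity
    omega
  · rw [hie] at h1
    calc q ^ 4 + q ^ 3 = q ^ 2 * (q * (q + 1)) := by ring
      _ ≤ X := h1
  · have h2 : (S.WW M : Set V) = (Submodule.span F {a} : Submodule F V) := by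
      apply Set.eq_of_subset_of_ncard_le (fun u hu => hsp u hu)
      have h3 : Nat.card (S.WW M) = (S.WW M : Set V).ncard := rfl
      have h4 : Nat.card (Submodule.span F {a}) = ((Submodule.span F {a} : Submodule F V) : Set V).ncard := rfl
      rw [← h3, ← h4, hspc, ← hwe]
    intro u
    have h3 : u ∈ (S.WW M : Set V) ↔ u ∈ ((Submodule.span F {a} : Submodule F V) : Set V) := by rw [h2]
    exact h3

/-- the real form spanned by two isotropic vectors -/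
def RF (w1 w2 : V) : AddSubgroup V where
  carrier := {u | u ∈ V1 ∧ f u w1 + σ (f u w1) = 0 ∧ f u w2 + σ (f u w2) = 0}
  zero_mem' := ⟨V1.zero_mem, by rw [S.hs.zero_left, map_zero, add_zero], by rw [S.hs.zero_left, map_zero, add_zero]⟩
  add_mem' := by
    rintro u v ⟨hu, h1, h2⟩ ⟨hv, h3, h4⟩
    refine ⟨V1.add_mem hu hv, ?_, ?_⟩
    · rw [S.hs.add_left, map_add]; linear_combination h1 + h3
    · rw [S.hs.add_left, map_add]; linear_combination h2 + h4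
  neg_mem' := by
    rintro u ⟨hu, h1, h2⟩
    refine ⟨V1.neg_mem hu, ?_, ?_⟩
    · rw [S.hs.neg_left, map_neg]; linear_combination -h1
    · rw [S.hs.neg_left, map_neg]; linear_combination -h2

theorem mem_RF {w1 w2 u : V} : u ∈ S.RF w1 w2 ↔ u ∈ V1 ∧ f u w1 + σ (f u w1) = 0 ∧ f u w2 + σ (f u w2) = 0 := Iff.rfl

variable {w1 w2 : V}

theorem RF_coord (h1 : w1 ∈ V1) (h2 : w2 ∈ V1) (h11 : f w1 w1 = 0) (h22 : f w2 w2 = 0) (hτ : f w1 w2 ≠ 0) {u : V}
    (hu : u ∈ V1) : u = (f u w2 / f w1 w2) • w1 + (f u w1 / f w2 w1) • w2 := by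
  have hστ := S.hs.sigma_ne hτ
  have h21 : f w2 w1 = σ (f w1 w2) := S.hs.herm _ _
  have h3 := S.basis1 (a := w1) (b := (f w2 w1)⁻¹ • w2) h1 (V1.smul_mem _ h2) h11
    (by rw [S.hs.smul_left, S.hs.smul_right, h22]; ring)
    (by rw [S.hs.smul_right, map_inv₀, h21, S.hs.inv, inv_mul_cancel₀ hτ]) hu
  rw [S.hs.smul_right, map_inv₀, h21, S.hs.inv, smul_smul] at h3
  rw [h21]
  conv_lhs => rw [h3]
  rw [div_eq_mul_inv, div_eq_mul_inv, mul_comm (f u w2)]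

theorem RF_smul {l : F} (hl : σ l = l) {u : V} (hu : u ∈ S.RF w1 w2) : l • u ∈ S.RF w1 w2 := by
  obtain ⟨h0, h1, h2⟩ := hu
  refine ⟨V1.smul_mem _ h0, ?_, ?_⟩
  · rw [S.hs.smul_left, map_mul, hl]; linear_combination l * h1
  · rw [S.hs.smul_left, map_mul, hl]; linear_combination l * h2

theorem RF_form (h1 : w1 ∈ V1) (h2 : w2 ∈ V1) (h11 : f w1 w1 = 0) (h22 : f w2 w2 = 0) (hτ : f w1 w2 ≠ 0)
    (hsk : f w1 w2 + σ (f w1 w2) = 0) {u v : V} (hu : u ∈ S.RF w1 w2) (hv : v ∈ S.RF w1 w2) :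
    f u v + σ (f u v) = 0 := by
  obtain ⟨hu0, hu1, hu2⟩ := hu
  obtain ⟨hv0, hv1, hv2⟩ := hv
  have h21 : f w2 w1 = σ (f w1 w2) := S.hs.herm _ _
  have hs : σ (f w1 w2) = -f w1 w2 := eq_neg_of_add_eq_zero_right hsk
  have k1 : σ (f u w1) = -f u w1 := eq_neg_of_add_eq_zero_right hu1
  have k2 : σ (f u w2) = -f u w2 := eq_neg_of_add_eq_zero_right hu2
  have k3 : σ (f v w1) = -f v w1 := eq_neg_of_add_eq_zero_right hv1
  have k4 : σ (f v w2) = -f v w2 := eq_neg_of_add_eq_zero_right hv2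
  have e1 := S.RF_coord h1 h2 h11 h22 hτ hu0
  have h3 : f u v = f u w2 / f w1 w2 * f w1 v + f u w1 / f w2 w1 * f w2 v := by
    conv_lhs => rw [e1]
    rw [S.hs.add_left, S.hs.smul_left, S.hs.smul_left]
  have k5 : f w1 v = -f v w1 := by rw [S.hs.herm, k3]
  have k6 : f w2 v = -f v w2 := by rw [S.hs.herm, k4]
  rw [h3, k5, k6, h21, hs]
  simp only [map_add, map_mul, map_div₀, map_neg, k1, k2, k3, k4, hs]
  field_simp
  ring

theorem RF_iso (h1 : w1 ∈ V1) (h2 : w2 ∈ V1) (h11 : f w1 w1 = 0) (h22 : f w2 w2 = 0) (hτ : f w1 w2 ≠ 0)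
    (hsk : f w1 w2 + σ (f w1 w2) = 0) {u : V} (hu : u ∈ S.RF w1 w2) : f u u = 0 := by
  obtain ⟨hu0, hu1, hu2⟩ := hu
  have h21 : f w2 w1 = σ (f w1 w2) := S.hs.herm _ _
  have hs : σ (f w1 w2) = -f w1 w2 := eq_neg_of_add_eq_zero_right hsk
  have k1 : σ (f u w1) = -f u w1 := eq_neg_of_add_eq_zero_right hu1
  have k2 : σ (f u w2) = -f u w2 := eq_neg_of_add_eq_zero_right hu2
  have e1 := S.RF_coord h1 h2 h11 h22 hτ hu0
  have h3 : f u u = f u w2 / f w1 w2 * f w1 u + f u w1 / f w2 w1 * f w2 u := by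
    conv_lhs => rw [e1]
    rw [S.hs.add_left, S.hs.smul_left, S.hs.smul_left, ← e1]
  have k5 : f w1 u = -f u w1 := by rw [S.hs.herm, k1]
  have k6 : f w2 u = -f u w2 := by rw [S.hs.herm, k2]
  rw [h3, k5, k6, h21, hs]
  field_simp
  ring

theorem RF_card (h1 : w1 ∈ V1) (h2 : w2 ∈ V1) (h11 : f w1 w1 = 0) (h22 : f w2 w2 = 0) (hτ : f w1 w2 ≠ 0)
    (hsk : f w1 w2 + σ (f w1 w2) = 0) : Nat.card (S.RF w1 w2) = Nat.card (EE σ) ^ 2 := by
  have := S.finite_V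
  have h21 : f w2 w1 = σ (f w1 w2) := S.hs.herm _ _
  have hs : σ (f w1 w2) = -f w1 w2 := eq_neg_of_add_eq_zero_right hsk
  have hτ2 : f w2 w1 ≠ 0 := by rw [h21]; exact S.hs.sigma_ne hτ
  have hw1 : w1 ∈ S.RF w1 w2 := ⟨h1, by rw [h11, map_zero, add_zero], hsk⟩
  have hw2 : w2 ∈ S.RF w1 w2 := ⟨h2, by rw [h21, S.hs.inv, add_comm]; exact hsk, by rw [h22, map_zero, add_zero]⟩
  rw [sq, ← Nat.card_prod]
  refine (Nat.card_congr (Equiv.ofBijective (fun p : EE σ × EE σ => (⟨(p.1 : F) • w1 + (p.2 : F) • w2,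
    (S.RF w1 w2).add_mem (S.RF_smul p.1.2 hw1) (S.RF_smul p.2.2 hw2)⟩ : S.RF w1 w2)) ⟨?_, ?_⟩)).symm
  · rintro ⟨α, β⟩ ⟨α', β'⟩ h
    have h3 : (α : F) • w1 + (β : F) • w2 = (α' : F) • w1 + (β' : F) • w2 := congrArg Subtype.val h
    have h4 := congrArg (fun x => f x w2) h3
    have h5 := congrArg (fun x => f x w1) h3
    simp only [S.hs.add_left, S.hs.smul_left, h11, h22, mul_zero, add_zero, zero_add] at h4 h5
    have h6 := mul_right_cancel₀ hτ h4
    have h7 := mul_right_cancel₀ hτ2 h5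
    rw [Subtype.ext h6, Subtype.ext h7]
  · rintro ⟨u, hu0, hu1, hu2⟩
    have k1 : σ (f u w1) = -f u w1 := eq_neg_of_add_eq_zero_right hu1
    have k2 : σ (f u w2) = -f u w2 := eq_neg_of_add_eq_zero_right hu2
    refine ⟨(⟨f u w2 / f w1 w2, ?_⟩, ⟨f u w1 / f w2 w1, ?_⟩), ?_⟩
    · rw [mem_EE, map_div₀, k2, hs, neg_div_neg_eq]
    · rw [mem_EE, map_div₀, k1, h21, S.hs.inv, hs, neg_div, div_neg]
    · exact Subtype.ext (S.RF_coord h1 h2 h11 h22 hτ hu0).symm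

end C2

end Cfsg.Agent.Lib.MinU
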