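import Mathlib
import Cfsg.Agent.Lib.MinWE

/-!
# Minimal index of `SU_4(q)`: the local analysis, third part (helper98)
-/

set_option autoImplicit false
set_option linter.unusedSectionVars false

namespace Cfsg.Agent.Lib.MinU

open Cfsg.Agent.Lib Cfsg.Agent.Lib.UnTrans Cfsg.Agent.Lib.SubfUn
open Cfsg.Agent.Lib.SpTrans (isom mem_isom)

variable {F V : Type*} [Field F] [Finite F] [AddCommGroup V] [Module F V]
variable {σ : F →+* F} {f : V → V → F}

namespace C2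
variable {e e' : V} {V1 : Submodule F V} (S : C2 σ f e e' V1)
include S

variable {w1 w2 : V}

/-- transvections preserve the real form -/
theorem RF_trans (h1 : w1 ∈ V1) (h2 : w2 ∈ V1) (h11 : f w1 w1 = 0) (h22 : f w2 w2 = 0) (hτ : f w1 w2 ≠ 0)
    (hsk : f w1 w2 + σ (f w1 w2) = 0) {x : V} (hx : x ∈ S.RF w1 w2) {c : F} (hc : c + σ c = 0) :
    ∃ t ∈ S.L ⊓ stW (S.RF w1 w2), IsR f t x 0 c := by
  have := S.finite_V
  have hxx := S.RF_iso h1 h2 h11 h22 hτ hsk hx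
  obtain ⟨t, ht, htx⟩ := S.exists_R1 hx.1 V1.zero_mem hxx (S.hs.zero_left x) (c := c) (by
    rw [S.hs.zero_left, add_zero, hc])
  refine ⟨t, ⟨ht, ?_⟩, htx⟩
  show mp t _ = _
  apply mp_eq_of_le
  rintro _ ⟨u, hu, rfl⟩
  have hux := S.RF_form h1 h2 h11 h22 hτ hsk hu hx
  have hsc : σ c = -c := eq_neg_of_add_eq_zero_right hc
  have hsu : σ (f u x) = -f u x := eq_neg_of_add_eq_zero_right hux
  have e1 : t u = u + (c * f u x) • x := by rw [htx, rho, S.hs.zero_right]; simp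
  show t u ∈ S.RF w1 w2
  rw [e1]
  apply (S.RF w1 w2).add_mem hu
  apply S.RF_smul _ hx
  rw [map_mul, hsc, hsu]; ring

theorem RF_move (h1 : w1 ∈ V1) (h2 : w2 ∈ V1) (h11 : f w1 w1 = 0) (h22 : f w2 w2 = 0) (hτ : f w1 w2 ≠ 0)
    (hsk : f w1 w2 + σ (f w1 w2) = 0) {x y : V} (hx : x ∈ S.RF w1 w2) (hy : y ∈ S.RF w1 w2) (hx0 : x ≠ 0) (hy0 : y ≠ 0) :
    ∃ g ∈ S.L ⊓ stW (S.RF w1 w2), g x = y := by
  have one : ∀ x ∈ S.RF w1 w2, ∀ y ∈ S.RF w1 w2, f x y ≠ 0 → ∃ g ∈ S.L ⊓ stW (S.RF w1 w2), g x = y := by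
    intro x hx y hy hxy
    have hxx := S.RF_iso h1 h2 h11 h22 hτ hsk hx
    have hsxy : σ (f x y) = -f x y := eq_neg_of_add_eq_zero_right (S.RF_form h1 h2 h11 h22 hτ hsk hx hy)
    obtain ⟨t, ht, htx⟩ := S.RF_trans h1 h2 h11 h22 hτ hsk ((S.RF w1 w2).sub_mem hy hx) (c := (f x y)⁻¹) (by
      rw [map_inv₀, hsxy, inv_neg]; ring)
    refine ⟨t, ht, ?_⟩
    rw [htx, rho, S.hs.zero_right, S.hs.sub_right, hxx, sub_zero, inv_mul_cancel₀ hxy]
    module
  by_cases hxy : f x y = 0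
  · obtain ⟨z, hz, hxz⟩ : ∃ z ∈ S.RF w1 w2, f x z ≠ 0 := by
      have h21 : f w2 w1 = σ (f w1 w2) := S.hs.herm _ _
      have hw1 : w1 ∈ S.RF w1 w2 := ⟨h1, by rw [h11, map_zero, add_zero], hsk⟩
      have hw2 : w2 ∈ S.RF w1 w2 := ⟨h2, by rw [h21, S.hs.inv, add_comm]; exact hsk, by rw [h22, map_zero, add_zero]⟩
      by_contra hcon
      push Not at hcon
      apply hx0
      rw [S.RF_coord h1 h2 h11 h22 hτ hx.1, hcon w1 hw1, hcon w2 hw2, zero_div, zero_div, zero_smul, zero_smul, add_zero]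
    have hxx := S.RF_iso h1 h2 h11 h22 hτ hsk hx
    obtain ⟨m, rfl⟩ := Submodule.mem_span_singleton.1 (S.ti1 hx.1 hx0 hxx hy.1 (S.hs.symm_zero hxy))
    have hm0 : m ≠ 0 := by rintro rfl; rw [zero_smul] at hy0; exact hy0 rfl
    obtain ⟨g1, hg1, e1⟩ := one x hx z hz hxz
    obtain ⟨g2, hg2, e2⟩ := one z hz (m • x) hy (by
      rw [S.hs.smul_right]
      exact mul_ne_zero (S.hs.sigma_ne hm0) (S.hs.symm_ne hxz))
    exact ⟨g2 * g1, mul_mem hg2 hg1, by rw [LinearEquiv.mul_apply, e1, e2]⟩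
  · exact one x hx y hy hxy

/-- `W` is a real form -/
theorem typeR {η : F} (hη0 : η ≠ 0) (hη : η + σ η = 0) {M : Subgroup (V ≃ₗ[F] V)} (hC : S.CC η M ≠ ⊤)
    (hX : M.relIndex S.PP ≤ Nat.card (EE σ) ^ 4 + Nat.card (EE σ) ^ 3 + Nat.card (EE σ))
    (hw1 : w1 ∈ S.WW M) (hw2 : w2 ∈ S.WW M) (hτ : f w1 w2 ≠ 0) :
    (2 : F) = 0 ∧ f w1 w1 = 0 ∧ f w2 w2 = 0 ∧ f w1 w2 + σ (f w1 w2) = 0 ∧ S.WW M = S.RF w1 w2 ∧
      S.idW M = Nat.card (EE σ) ^ 2 := by
  classical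
  have := S.finite_V
  have := S.fd
  have := finite_addSubgroup (V := V)
  have hiso := S.all_iso hη0 hη hC hX
  have hskew : ∀ u ∈ S.WW M, ∀ v ∈ S.WW M, f u v + σ (f u v) = 0 := by
    intro u hu v hv
    have h3 := hiso (u + v) ((S.WW M).add_mem hu hv)
    simp only [S.hs.add_left, S.hs.add_right, hiso u hu, hiso v hv] at h3
    rw [← S.hs.herm v u]
    linear_combination h3
  have h1 := hw1.1
  have h2 := hw2.1
  have h11 := hiso w1 hw1
  have h22 := hiso w2 hw2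
  have hsk := hskew w1 hw1 w2 hw2
  have hle : S.WW M ≤ S.RF w1 w2 := fun u hu => ⟨hu.1, hskew u hu w1 hw1, hskew u hu w2 hw2⟩
  have hcR := S.RF_card h1 h2 h11 h22 hτ hsk
  obtain ⟨hw2', hi2, hid, hb1, hb1', hY, hY1⟩ := S.facts hη0 hη hC hX
  have hq := one_lt_q S.hs
  -- the case of a proper subgroup
  have hwq : Nat.card (S.WW M) = Nat.card (EE σ) ^ 2 := by
    by_contra hne
    have hlt : Nat.card (S.WW M) < Nat.card (EE σ) ^ 2 := lt_of_le_of_ne hw2' hne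
    have hhalf := S.w_half M hlt
    obtain ⟨p, k, j, hp, hk, hj⟩ := S.w_dvd M
    set Γ := S.L ⊓ stW (S.RF w1 w2) with hΓ
    have hw10 : w1 ≠ 0 := by rintro rfl; exact hτ (S.hs.zero_left _)
    have hdc := dcount Γ (S.WW M) {x | x ∈ S.RF w1 w2 ∧ x ≠ 0} (by
      rintro g hg x ⟨hx, hx0⟩
      exact ⟨stW_mem hg.2 hx, by simpa using hx0⟩) (by
      rintro x ⟨hx, hx0⟩ y ⟨hy, hy0⟩
      exact S.RF_move h1 h2 h11 h22 hτ hsk hx hy hx0 hy0) (a := w1) ⟨hle hw1, hw10⟩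
    have hsub : ∀ A : AddSubgroup V, Nat.card {x : A // (x : V) ≠ 0} = Nat.card A - 1 := by
      intro A
      have h3 : Nat.card A = Nat.card {x : A // (x : V) = 0} + Nat.card {x : A // (x : V) ≠ 0} := by
        rw [← Nat.card_sum]
        exact (Nat.card_congr (Equiv.sumCompl (fun x : A => (x : V) = 0))).symm
      have h4 : Nat.card {x : A // (x : V) = 0} = 1 := by
        have : Unique {x : A // (x : V) = 0} :=
          { default := ⟨0, rfl⟩
            uniq := fun x => Subtype.ext (Subtype.ext x.2) }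
        exact Nat.card_unique
      omega
    have hO : Nat.card ({x | x ∈ S.RF w1 w2 ∧ x ≠ 0} : Set V) = Nat.card (EE σ) ^ 2 - 1 := by
      rw [← hcR, ← hsub]
      exact Nat.card_congr
        { toFun := fun x => ⟨⟨x.1, x.2.1⟩, x.2.2⟩
          invFun := fun x => ⟨x.1, x.1.2, x.2⟩
          left_inv := fun _ => rfl
          right_inv := fun _ => rfl }
    have hOW : Nat.card {x : ({x | x ∈ S.RF w1 w2 ∧ x ≠ 0} : Set V) // (x : V) ∈ S.WW M} = Nat.card (S.WW M) - 1 := by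
      rw [← hsub]
      exact Nat.card_congr
        { toFun := fun x => ⟨⟨x.1.1, x.2⟩, x.1.2.2⟩
          invFun := fun x => ⟨⟨x.1, hle x.1.2, x.2⟩, x.1.2⟩
          left_inv := fun _ => rfl
          right_inv := fun _ => rfl }
    rw [hO, hOW] at hdc
    have hYΓ : Nat.card (orb Γ (S.WW M)) ≤ Nat.card (orb S.L (S.WW M)) := by
      refine Nat.card_le_card_of_injective (fun Y => (⟨Y.1, ?_⟩ : orb S.L (S.WW M))) ?_
      · obtain ⟨g, hg, hgY⟩ := Y.2
        exact ⟨g, hg.1, hgY⟩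
      · intro Y Y' h
        exact Subtype.ext (congrArg (fun z : orb S.L (S.WW M) => (z : AddSubgroup V)) h)
    have hYΓ1 : 0 < Nat.card (orb Γ (S.WW M)) := by
      have : Nonempty (orb Γ (S.WW M)) := ⟨⟨_, self_mem_orb _ _⟩⟩
      exact Nat.card_pos
    have hw1' : 1 < Nat.card (S.WW M) := by
      have hmem : ({0, w1} : Set V).ncard ≤ (S.WW M : Set V).ncard := by
        apply Set.ncard_le_ncard _ (Set.toFinite _)
        rintro x (rfl | rfl)
        · exact (S.WW M).zero_mem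
        · exact hw1
      rw [Set.ncard_pair hw10.symm] at hmem
      have h4 : Nat.card (S.WW M) = (S.WW M : Set V).ncard := rfl
      omega
    have hYge := gcd_bound hp hk hj hlt hw1' hYΓ1 (by rw [← hdc]; exact Dvd.intro_left _ rfl)
    have hYge' := hYge.trans hYΓ
    set q := Nat.card (EE σ)
    have hi4 : 2 * q ^ 2 ≤ S.idW M := by
      have h3 : 2 * q ^ 2 * Nat.card (S.WW M) ≤ S.idW M * Nat.card (S.WW M) := by
        calc 2 * q ^ 2 * Nat.card (S.WW M) = q ^ 2 * (2 * Nat.card (S.WW M)) := by ring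
          _ ≤ q ^ 2 * q ^ 2 := Nat.mul_le_mul_left _ hhalf
          _ = q ^ 4 := by ring
          _ = _ := hid.symm
      exact Nat.le_of_mul_le_mul_right h3 (by omega)
    have h5 : 2 * q ^ 2 * (q * (q + 1)) ≤ q ^ 4 + q ^ 3 + q :=
      (Nat.mul_le_mul hi4 (Nat.mul_le_mul_left _ hYge')).trans (hb1.trans hX)
    have h6 : 2 * q ^ 2 * (q * (q + 1)) = 2 * q ^ 4 + 2 * q ^ 3 := by ring
    have h7 : q ≤ q ^ 3 := Nat.le_self_pow (by norm_num) q
    have h8 : 0 < q ^ 4 := by positivity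
    omega
  have hWR : S.WW M = S.RF w1 w2 := by
    apply SetLike.coe_injective
    apply Set.eq_of_subset_of_ncard_le hle
    have h3 : Nat.card (S.WW M) = (S.WW M : Set V).ncard := rfl
    have h4 : Nat.card (S.RF w1 w2) = (S.RF w1 w2 : Set V).ncard := rfl
    rw [← h3, ← h4, hcR, hwq]
  have hiq : S.idW M = Nat.card (EE σ) ^ 2 := by
    rw [hwq] at hid
    have h3 : S.idW M * Nat.card (EE σ) ^ 2 = Nat.card (EE σ) ^ 2 * Nat.card (EE σ) ^ 2 := by rw [hid]; ring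
    exact Nat.eq_of_mul_eq_mul_right (by positivity) h3
  refine ⟨?_, h11, h22, hsk, hWR, hiq⟩
  -- the characteristic
  by_contra h20
  apply hC
  rw [eq_top_iff]
  intro x _
  have hs : σ (f w1 w2) = -f w1 w2 := eq_neg_of_add_eq_zero_right hsk
  have hση : σ η = -η := eq_neg_of_add_eq_zero_right hη
  have h21 : f w2 w1 = σ (f w1 w2) := S.hs.herm _ _
  have hl : σ ((x : F) * η / (2 * f w1 w2)) = (x : F) * η / (2 * f w1 w2) := by
    have hx : σ (x : F) = x := x.2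
    rw [map_div₀, map_mul, map_mul, hx, hση, hs, map_ofNat]
    rw [mul_neg, mul_neg, neg_div_neg_eq]
  have h3 : ((x : F) * η / (2 * f w1 w2)) • w2 ∈ S.WW M := by
    rw [hWR] at hw2 ⊢
    exact S.RF_smul hl hw2
  have h4 := S.br_mem_C hη hη0 hw1 h3
  convert h4 using 1
  apply Subtype.ext
  rw [br_coe, S.hs.smul_right, S.hs.smul_left, h21, hs, hl]
  field_simp
  ring

end C2

end Cfsg.Agent.Lib.MinU
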