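import Mathlib
import Cfsg.Agent.Lib.MinWF

/-!
# Minimal index of `SU_4(q)`: torus elements, the family for real forms (helper98)
-/

set_option autoImplicit false
set_option linter.unusedSectionVars false

namespace Cfsg.Agent.Lib.MinU

open Cfsg.Agent.Lib Cfsg.Agent.Lib.UnTrans Cfsg.Agent.Lib.SubfUn
open Cfsg.Agent.Lib.SpTrans (isom mem_isom)

variable {F V : Type*} [Field F] [Finite F] [AddCommGroup V] [Module F V]
variable {σ : F →+* F} {f : V → V → F}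

/-- diagonal elements for a hyperbolic pair -/
theorem exists_dd (H : HS σ f) [FiniteDimensional F V] {e e' : V} (hee : f e e = 0) (hee' : f e' e' = 0)
    (hep : f e e' = 1) {l : F} (hl : l ≠ 0) : ∃ g : V ≃ₗ[F] V,
      (∀ x, g x = x + ((l - 1) * f x e') • e + (((σ l)⁻¹ - 1) * f x e) • e') ∧ g ∈ isom f ∧
      LinearMap.det ((g : V ≃ₗ[F] V) : V →ₗ[F] V) = l * (σ l)⁻¹ := by
  have hep' : f e' e = 1 := by rw [H.herm, hep, map_one]
  have hsl := H.sigma_ne hl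
  have u1 : IsUnit (1 + ((l - 1) • H.fl e') e) := by
    show IsUnit (1 + (l - 1) * f e e')
    rw [hep, mul_one, add_sub_cancel]
    exact IsUnit.mk0 l hl
  have u2 : IsUnit (1 + (((σ l)⁻¹ - 1) • H.fl e) e') := by
    show IsUnit (1 + ((σ l)⁻¹ - 1) * f e' e)
    rw [hep', mul_one, add_sub_cancel]
    exact IsUnit.mk0 _ (inv_ne_zero hsl)
  set A := LinearEquiv.dilatransvection (f := (l - 1) • H.fl e') (v := e) u1 with hA
  set B := LinearEquiv.dilatransvection (f := ((σ l)⁻¹ - 1) • H.fl e) (v := e') u2 with hB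
  have hAx : ∀ x, A x = x + ((l - 1) * f x e') • e := by
    intro x
    rw [hA, LinearEquiv.dilatransvection.apply]; rfl
  have hBx : ∀ x, B x = x + (((σ l)⁻¹ - 1) * f x e) • e' := by
    intro x
    rw [hB, LinearEquiv.dilatransvection.apply]; rfl
  have hx : ∀ x, (A * B) x = x + ((l - 1) * f x e') • e + (((σ l)⁻¹ - 1) * f x e) • e' := by
    intro x
    rw [LinearEquiv.mul_apply, hAx, hBx, H.add_left, H.smul_left, hee', mul_zero, add_zero]
    abel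
  refine ⟨A * B, hx, ?_, ?_⟩
  · intro x y
    rw [hx, hx]
    simp only [H.add_left, H.add_right, H.smul_left, H.smul_right, hee, hee', hep, hep', map_mul, map_sub, map_inv₀,
      map_one, H.inv]
    rw [← H.herm e y, ← H.herm e' y]
    field_simp
    ring
  · have e1 : ((A * B : V ≃ₗ[F] V) : V →ₗ[F] V) = (A : V →ₗ[F] V) ∘ₗ (B : V →ₗ[F] V) := rfl
    rw [e1, LinearMap.det_comp, hA, hB, LinearEquiv.dilatransvection.coe_toLinearMap,
      LinearEquiv.dilatransvection.coe_toLinearMap, LinearMap.transvection.det, LinearMap.transvection.det]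
    show (1 + (l - 1) * f e e') * (1 + ((σ l)⁻¹ - 1) * f e' e) = _
    rw [hep, hep']; ring

namespace C2
variable {e e' : V} {V1 : Submodule F V} (S : C2 σ f e e' V1)
include S

/-- torus elements acting trivially on `V1` -/
theorem exists_T0 {l : F} (hl : l ≠ 0) (hσ : σ l = l) :
    ∃ t ∈ tgrp S.hs ⊤, t e = l • e ∧ t e' = l⁻¹ • e' ∧ ∀ u ∈ V1, t u = u := by
  have := S.fd
  obtain ⟨g, hg, hgi, hgd⟩ := exists_dd S.hs S.ee S.ee' S.ep hl
  refine ⟨g, su_le S.hs S.nd (by rw [S.d4]) hgi (by rw [hgd, hσ, mul_inv_cancel₀ hl]), ?_, ?_, ?_⟩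
  · rw [hg, S.ee, S.ep]; module
  · rw [hg, S.ee', S.ep', hσ]; module
  · intro u hu
    rw [hg, S.perp_e hu, S.perp_e' hu]; module

/-- torus elements acting as scalars on `V1` -/
theorem exists_K0 {ν : F} (hν : ν * σ ν = 1) :
    ∃ t ∈ tgrp S.hs ⊤, t e = ν • e ∧ t e' = ν • e' ∧ ∀ u ∈ V1, t u = σ ν • u := by
  have := S.fd
  have hν0 : ν ≠ 0 := left_ne_zero_of_mul_eq_one hν
  have hν1 : σ ν ≠ 0 := S.hs.sigma_ne hν0
  have hinv : (σ ν)⁻¹ = ν := (eq_inv_of_mul_eq_one_left hν).symm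
  have hinv' : ν⁻¹ = σ ν := (eq_inv_of_mul_eq_one_left (by rw [mul_comm]; exact hν)).symm
  obtain ⟨a, ha, ha0, haa⟩ : ∃ a ∈ V1, a ≠ 0 ∧ f a a = 0 := by
    have := S.finite_V
    have h1 := S.card_O0
    have hq := one_lt_q S.hs
    have h2 : 0 < Nat.card (Ocl f V1 0) := by
      rw [h1]
      have : 2 ^ 2 ≤ Nat.card (EE σ) ^ 2 := Nat.pow_le_pow_left hq 2
      exact Nat.mul_pos (by omega) (by omega)
    obtain ⟨⟨b, hb, hb0, hbb⟩⟩ := (Nat.card_pos_iff.1 h2).1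
    exact ⟨b, hb, hb0, hbb⟩
  obtain ⟨y, hy, hay⟩ := S.nd1 a ha ha0
  obtain ⟨b, hb, hab, hbb, -⟩ := exists_partner S.hs (U := V1) (a := a) ha hy haa hay
  obtain ⟨g, hg, hgi, hgd⟩ := exists_dd S.hs S.ee S.ee' S.ep hν0
  obtain ⟨h, hh, hhi, hhd⟩ := exists_dd S.hs haa hbb hab hν1
  have hE : ∀ x, h x = x + ((σ ν - 1) * f x b) • a + ((σ ν - 1) * f x a) • b := by
    intro x
    rw [hh, S.hs.inv, hinv']
  refine ⟨g * h, su_le S.hs S.nd (by rw [S.d4]) (mul_mem hgi hhi) ?_, ?_, ?_, ?_⟩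
  · have e1 : ((g * h : V ≃ₗ[F] V) : V →ₗ[F] V) = (g : V →ₗ[F] V) ∘ₗ (h : V →ₗ[F] V) := rfl
    rw [e1, LinearMap.det_comp, hgd, hhd, S.hs.inv]
    field_simp
  · have h1 : h e = e := by rw [hE, S.perp_e2 ha, S.perp_e2 hb]; simp
    rw [LinearEquiv.mul_apply, h1, hg, S.ee, S.ep]
    module
  · have h1 : h e' = e' := by rw [hE, S.perp_e'2 ha, S.perp_e'2 hb]; simp
    rw [LinearEquiv.mul_apply, h1, hg, S.ee', S.ep', hinv]
    module
  · intro u hu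
    have h1 : h u = σ ν • u := by
      have h2 := S.basis1 ha hb haa hbb hab hu
      have h3 : ((σ ν - 1) * f u b) • a + ((σ ν - 1) * f u a) • b = (σ ν - 1) • u := by
        conv_rhs => rw [h2]
        module
      rw [hE, add_assoc, h3]
      module
    rw [LinearEquiv.mul_apply, h1, hg, S.perp_e (V1.smul_mem _ hu), S.perp_e' (V1.smul_mem _ hu)]
    module

/-- the family for real forms -/
theorem I4 {η : F} (hη0 : η ≠ 0) (hη : η + σ η = 0) {M : Subgroup (V ≃ₗ[F] V)} (h2 : (2 : F) = 0) {w1 w2 : V}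
    (hτ : f w1 w2 ≠ 0) (hsk : f w1 w2 + σ (f w1 w2) = 0) (h1V : w1 ∈ V1) (h11 : f w1 w1 = 0)
    (hW : S.WW M = S.RF w1 w2) :
    S.idW M * (Nat.card (EE σ ⧸ S.CC η M) * ((Nat.card (EE σ) + 1) *
      Nat.card (Set.range fun δ : (EE σ)ˣ => ml (S.CC η M) δ))) ≤ M.relIndex S.PP := by
  classical
  have := S.finite_V
  have := S.finite_G
  have hchar : CharP F 2 := by
    refine CharTwo.of_one_ne_zero_of_two_eq_zero one_ne_zero h2
  have hcharE : CharP (EE σ) 2 := inferInstance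
  have hR : ∀ q : V1.toAddSubgroup ⧸ (S.WW M).addSubgroupOf V1.toAddSubgroup, ∃ t ∈ tgrp S.hs ⊤, ∃ c,
      IsR f t e (q.out : V) c := fun q => by
    obtain ⟨t, ht, c, -, h⟩ := S.exists_R' q.out.2
    exact ⟨t, ht, c, h⟩
  have hZ : ∀ z : EE σ ⧸ S.CC η M, ∃ t ∈ tgrp S.hs ⊤, IsR f t e 0 (η * z.out) := fun z => S.exists_Z hη _
  have hT : ∀ D : Set.range fun δ : (EE σ)ˣ => ml (S.CC η M) δ, ∃ t ∈ tgrp S.hs ⊤, ∃ l : F, ∃ δ : (EE σ)ˣ,
      l ≠ 0 ∧ σ l = l ∧ l * l = δ ∧ t e = l • e ∧ t e' = l⁻¹ • e' ∧ (∀ u ∈ V1, t u = u) ∧ ml (S.CC η M) δ = D := by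
    rintro ⟨_, δ, rfl⟩
    have : Fintype (EE σ) := Fintype.ofFinite _
    obtain ⟨l, hl⟩ := FiniteField.isSquare_of_char_two (F := EE σ) (by
      have := ringChar.eq (EE σ) 2
      exact this) (δ : EE σ)
    have hl0 : (l : F) ≠ 0 := by
      intro h
      have h3 : l = 0 := Subtype.ext h
      rw [h3, zero_mul] at hl
      exact δ.ne_zero hl
    obtain ⟨t, ht, h1, h2, h3⟩ := S.exists_T0 hl0 l.2
    exact ⟨t, ht, l, δ, hl0, l.2, by rw [hl]; rfl, h1, h2, h3, rfl⟩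
  have hK : ∀ ν : {l : F // l * σ l = 1}, ∃ t ∈ tgrp S.hs ⊤, t e = (ν : F) • e ∧ t e' = (ν : F) • e' ∧
      ∀ u ∈ V1, t u = σ (ν : F) • u := fun ν => S.exists_K0 ν.2
  choose R hRm cR hR using hR
  choose Z hZm hZ using hZ
  choose T hTm lT δT hl0 hlσ hlδ hTe hTe' hTV hTD using hT
  choose K hKm hKe hKe' hKV using hK
  have hν0 : ∀ ν : {l : F // l * σ l = 1}, (ν : F) ≠ 0 := fun ν => left_ne_zero_of_mul_eq_one ν.2
  have hνi : ∀ ν : {l : F // l * σ l = 1}, σ (ν : F) = (ν : F)⁻¹ := fun ν =>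
    eq_inv_of_mul_eq_one_left (by rw [mul_comm]; exact ν.2)
  have key := card_le_relIndex (ι := (V1.toAddSubgroup ⧸ (S.WW M).addSubgroupOf V1.toAddSubgroup) ×
    ((EE σ ⧸ S.CC η M) × ({l : F // l * σ l = 1} × (Set.range fun δ : (EE σ)ˣ => ml (S.CC η M) δ))))
    M S.PP (fun i => K i.2.2.1 * T i.2.2.2 * (R i.1 * Z i.2.1))
    (fun i => mul_mem (mul_mem (S.mem_PP_T (hKm _) (hν0 _) (hKe _)) (S.mem_PP_T (hTm _) (hl0 _) (hTe _)))
      (mul_mem (S.mem_PP_R (Submodule.coe_mem _) (hRm _) (hR _)) (S.mem_PP_R V1.zero_mem (hZm _) (hZ _)))) ?_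
  · rw [Nat.card_prod, Nat.card_prod, Nat.card_prod, norm_fiber S.hs (map_one σ) one_ne_zero] at key
    exact key
  rintro ⟨q, z, ν, D⟩ ⟨q', z', ν', D'⟩ h
  simp only at h
  have hq : (q.out : V) ∈ V1 := q.out.2
  have hq' : (q'.out : V) ∈ V1 := q'.out.2
  have hRZ := S.isR_prod hq (hR q) (hZ z)
  have hRZ' := S.isR_prod hq' (hR q') (hZ z')
  have hRZi := IsR.inv S.hs S.ee (S.perp_e hq) hRZ
  have hm : (R q * Z z)⁻¹ * ((T D)⁻¹ * ((K ν)⁻¹ * K ν') * T D') * (R q' * Z z') ∈ M := by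
    convert h using 1; group
  -- data of κ
  have hκ : (T D)⁻¹ * ((K ν)⁻¹ * K ν') * T D' ∈ isom f :=
    mul_mem (mul_mem (inv_mem (tgrp_le_isom S.hs ⊤ (hTm D))) (mul_mem (inv_mem (tgrp_le_isom S.hs ⊤ (hKm ν)))
      (tgrp_le_isom S.hs ⊤ (hKm ν')))) (tgrp_le_isom S.hs ⊤ (hTm D'))
  have hTi : ∀ D, (T D)⁻¹ e = (lT D)⁻¹ • e := fun D => by
    apply inv_apply_of
    rw [map_smul, hTe, smul_smul, inv_mul_cancel₀ (hl0 D), one_smul]
  have hKi : ∀ ν, (K ν)⁻¹ e = (ν : F)⁻¹ • e := fun ν => by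
    apply inv_apply_of
    rw [map_smul, hKe, smul_smul, inv_mul_cancel₀ (hν0 ν), one_smul]
  have hTVi : ∀ D, ∀ u ∈ V1, (T D)⁻¹ u = u := fun D u hu => by
    apply inv_apply_of
    exact hTV D u hu
  have hKVi : ∀ ν : {l : F // l * σ l = 1}, ∀ u ∈ V1, (K ν)⁻¹ u = (ν : F) • u := fun ν u hu => by
    apply inv_apply_of
    rw [map_smul, hKV ν u hu, smul_smul, ν.2, one_smul]
  have hκe : ((T D)⁻¹ * ((K ν)⁻¹ * K ν') * T D') e = ((lT D)⁻¹ * lT D' * ((ν : F)⁻¹ * ν')) • e := by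
    rw [LinearEquiv.mul_apply, hTe, map_smul, LinearEquiv.mul_apply, LinearEquiv.mul_apply, hKe, map_smul, map_smul,
      hKi, map_smul, hTi, smul_smul, smul_smul, smul_smul]
    congr 1; ring
  have hκV0 : ∀ u ∈ V1, ((T D)⁻¹ * ((K ν)⁻¹ * K ν') * T D') u = ((ν : F) * (ν' : F)⁻¹) • u := by
    intro u hu
    rw [LinearEquiv.mul_apply, hTV D' u hu, LinearEquiv.mul_apply, LinearEquiv.mul_apply, hKV ν' u hu, map_smul,
      hKVi ν u hu, map_smul, map_smul, hTVi D u hu, hνi, smul_smul, mul_comm]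
  have hκV : ∀ u ∈ V1, ((T D)⁻¹ * ((K ν)⁻¹ * K ν') * T D') u ∈ V1 := fun u hu => by
    rw [hκV0 u hu]; exact V1.smul_mem _ hu
  -- step 1: ν = ν'
  have hw1 : w1 ∈ S.WW M := by
    rw [hW]
    exact ⟨h1V, by rw [h11, map_zero, add_zero], hsk⟩
  have hνν : ν = ν' := by
    obtain ⟨-, t, ht, c, htu⟩ := hw1
    obtain ⟨t', ht', c', h3, -⟩ := S.core hκ hκe (V1.neg_mem hq) hq' hRZi hRZ' hκV hm ht h1V htu
    rw [hκV0 w1 h1V, smul_smul] at h3
    have h4 : (σ ((lT D)⁻¹ * lT D' * ((ν : F)⁻¹ * ν')) * ((ν : F) * (ν' : F)⁻¹)) • w1 ∈ S.WW M :=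
      ⟨V1.smul_mem _ h1V, t', ht', c', h3⟩
    rw [hW] at h4
    obtain ⟨-, -, h5⟩ := h4
    rw [S.hs.smul_left] at h5
    have hs : σ (f w1 w2) = -f w1 w2 := eq_neg_of_add_eq_zero_right hsk
    have hneg : ∀ y : F, -y = y := fun y => CharTwo.neg_eq y
    simp only [map_mul, map_inv₀, hlσ, hνi, hs, inv_inv, hneg] at h5
    have hn1 := hν0 ν
    have hn2 := hν0 ν'
    have hl1 := hl0 D
    have hl2 := hl0 D'
    -- (ν/ν')^2 + (ν'/ν)^2 = 0
    have h6 : (ν : F) ^ 4 + (ν' : F) ^ 4 = 0 := by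
      field_simp at h5
      have h7 : lT D' * f w1 w2 * ((ν : F) ^ 4 + (ν' : F) ^ 4) = 0 := by
        linear_combination h5
      rcases mul_eq_zero.1 h7 with h | h
      · exact absurd h (mul_ne_zero hl2 hτ)
      · exact h
    have h7 : ((ν : F) + ν') ^ 4 = 0 := by
      have e1 : ((ν : F) + ν') ^ 4 = (ν : F) ^ 4 + (ν' : F) ^ 4 +
          2 * (2 * (ν : F) ^ 3 * ν' + 3 * (ν : F) ^ 2 * (ν' : F) ^ 2 + 2 * (ν : F) * (ν' : F) ^ 3) := by ring
      rw [e1, h6, h2]; ring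
    have h8 : (ν : F) + ν' = 0 := by
      exact pow_eq_zero_iff (n := 4) (by norm_num) |>.1 h7
    apply Subtype.ext
    have h9 : (ν : F) = -ν' := eq_neg_of_add_eq_zero_left h8
    rw [h9, hneg]
  subst hνν
  have e0 : (T D)⁻¹ * ((K ν)⁻¹ * K ν) * T D' = (T D)⁻¹ * T D' := by group
  rw [e0] at hm hκ hκe hκV hκV0
  rw [inv_mul_cancel₀ (hν0 ν), mul_one] at hκe
  -- step 2
  have hD : D = D' := by
    have h1 : ml (S.CC η M) (((δT D)⁻¹ * δT D' : (EE σ)ˣ) : EE σ) ≤ S.CC η M := by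
      rintro _ ⟨x, ⟨t, ht, htx⟩, rfl⟩
      obtain ⟨t', ht', c', h2, h3⟩ := S.core hκ hκe (V1.neg_mem hq) hq' hRZi hRZ' hκV hm ht V1.zero_mem htx
      rw [map_zero, smul_zero, h3 rfl] at h2
      refine ⟨t', ht', ?_⟩
      convert h2 using 1
      show η * ((((δT D)⁻¹ * δT D' : (EE σ)ˣ) : EE σ) * x : EE σ) = _
      push_cast
      rw [← hlδ D, ← hlδ D', map_mul, map_inv₀, hlσ, hlσ, mul_inv]; ring
    have h2 := ml_eq_of_le (Units.ne_zero _) h1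
    apply Subtype.ext
    rw [← hTD D, ← hTD D']
    conv_lhs => rw [← h2, ml_ml]
    rw [Units.val_mul, ← mul_assoc, Units.mul_inv, one_mul]
  subst hD
  rw [inv_mul_cancel, mul_one] at hm
  -- step 3
  have hqq : q = q' := by
    obtain ⟨d, hd⟩ := S.isR_inv_mul hq hq' hRZ hRZ'
    rw [← QuotientAddGroup.out_eq' q, ← QuotientAddGroup.out_eq' q', QuotientAddGroup.eq]
    exact ⟨V1.add_mem (V1.neg_mem hq) hq', _, hm, d, hd⟩
  subst hqq
  have hm2 : (Z z)⁻¹ * Z z' ∈ M := by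
    convert hm using 1; group
  have hzz : z = z' := by
    have h1 := S.isZ_inv_mul (hZ z) (hZ z')
    rw [← QuotientAddGroup.out_eq' z, ← QuotientAddGroup.out_eq' z', QuotientAddGroup.eq]
    refine ⟨_, hm2, ?_⟩
    convert h1 using 1
    push_cast; ring
  subst hzz
  rfl

end C2

end Cfsg.Agent.Lib.MinU
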