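import Mathlib
import Cfsg.Agent.Lib.MinWG

/-!
# Minimal index of `SU_4(q)`: the local theorem and intrinsic types (helper98)
-/

set_option autoImplicit false
set_option linter.unusedSectionVars false

namespace Cfsg.Agent.Lib.MinU

open Cfsg.Agent.Lib Cfsg.Agent.Lib.UnTrans Cfsg.Agent.Lib.SubfUn
open Cfsg.Agent.Lib.SpTrans (isom mem_isom)

variable {F V : Type*} [Field F] [Finite F] [AddCommGroup V] [Module F V]
variable {σ : F →+* F} {f : V → V → F}

/-- `u` occurs in `M ∩ Q(b)` -/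
def RI (f : V → V → F) (M : Subgroup (V ≃ₗ[F] V)) (b u : V) : Prop := ∃ t ∈ M, ∃ c, IsR f t b u c

/-- `M ∩ Z(b) = 1` -/
def Ctr (f : V → V → F) (M : Subgroup (V ≃ₗ[F] V)) (b : V) : Prop := ∀ t ∈ M, ∀ c, IsR f t b 0 c → c = 0

/-- the first type -/
def TL (f : V → V → F) (M : Subgroup (V ≃ₗ[F] V)) (b : V) : Prop :=
  Ctr f M b ∧ (∃ a, f a a = 0 ∧ f a b = 0 ∧ a ∉ Submodule.span F {b} ∧ ∀ l : F, RI f M b (l • a)) ∧
    ∀ a, f a a = 0 → f a b = 0 → a ∉ Submodule.span F {b} → (∃ l : F, l ≠ 0 ∧ RI f M b (l • a)) →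
      ∀ l : F, RI f M b (l • a)

/-- the second type -/
def TR (q : ℕ) (f : V → V → F) (M : Subgroup (V ≃ₗ[F] V)) (b : V) : Prop :=
  Ctr f M b ∧ ∀ a, f a a = 0 → f a b = 0 → a ∉ Submodule.span F {b} → Nat.card {l : F // RI f M b (l • a)} = q

theorem RI.conj (H : HS σ f) {M : Subgroup (V ≃ₗ[F] V)} (hM : M ≤ isom f) {b u : V} (h : RI f M b u)
    {m : V ≃ₗ[F] V} (hm : m ∈ M) : RI f M (m b) (m u) := by
  obtain ⟨t, ht, c, h1⟩ := h
  exact ⟨_, mul_mem (mul_mem hm ht) (inv_mem hm), c, IsR.conj H (hM hm) h1⟩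

theorem RI.conj_iff (H : HS σ f) {M : Subgroup (V ≃ₗ[F] V)} (hM : M ≤ isom f) {b u : V}
    {m : V ≃ₗ[F] V} (hm : m ∈ M) : RI f M (m b) u ↔ RI f M b (m⁻¹ u) := by
  constructor
  · intro h
    have := h.conj H hM (inv_mem hm)
    rwa [inv_apply_self'] at this
  · intro h
    have := h.conj H hM hm
    rwa [apply_inv] at this

theorem isR_smul_iff (H : HS σ f) {e u : V} {c l : F} {t : V ≃ₗ[F] V} :
    IsR f t (l • e) u c ↔ IsR f t e (σ l • u) (c * (l * σ l)) := by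
  constructor
  · intro h x; rw [h, rho_smul H]
  · intro h x; rw [h, rho_smul H]

theorem RI.smul_iff (H : HS σ f) {M : Subgroup (V ≃ₗ[F] V)} {b u : V} {l : F} (hl : l ≠ 0) :
    RI f M (l • b) u ↔ RI f M b (σ l • u) := by
  have hσ := H.sigma_ne hl
  constructor
  · rintro ⟨t, ht, c, h1⟩
    exact ⟨t, ht, _, (isR_smul_iff H).1 h1⟩
  · rintro ⟨t, ht, c, h1⟩
    refine ⟨t, ht, c / (l * σ l), (isR_smul_iff H).2 ?_⟩
    rwa [div_mul_cancel₀ _ (mul_ne_zero hl hσ)]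

theorem Ctr.smul (H : HS σ f) {M : Subgroup (V ≃ₗ[F] V)} {b : V} {l : F} (hl : l ≠ 0) (h : Ctr f M b) :
    Ctr f M (l • b) := by
  have hσ := H.sigma_ne hl
  intro t ht c hc
  have h1 := (isR_smul_iff H).1 hc
  rw [smul_zero] at h1
  exact (mul_eq_zero.1 (h t ht _ h1)).resolve_right (mul_ne_zero hl hσ)

theorem Ctr.conj (H : HS σ f) {M : Subgroup (V ≃ₗ[F] V)} (hM : M ≤ isom f) {b : V} (h : Ctr f M b)
    {m : V ≃ₗ[F] V} (hm : m ∈ M) : Ctr f M (m b) := by
  intro t ht c hc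
  have h1 := IsR.conj H (hM (inv_mem hm)) hc
  rw [inv_apply_self', map_zero] at h1
  exact h _ (mul_mem (mul_mem (inv_mem hm) ht) (inv_mem (inv_mem hm))) c h1

theorem span_smul' {b : V} {l : F} (hl : l ≠ 0) : Submodule.span F {l • b} = Submodule.span F {b} :=
  Submodule.span_singleton_smul_eq (IsUnit.mk0 l hl) b

theorem TL.smul (H : HS σ f) {M : Subgroup (V ≃ₗ[F] V)} {b : V} {l : F} (hl : l ≠ 0) (h : TL f M b) :
    TL f M (l • b) := by
  have hσ := H.sigma_ne hl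
  obtain ⟨h1, ⟨a, h2, h3, h4, h5⟩, h6⟩ := h
  refine ⟨h1.smul H hl, ⟨a, h2, ?_, ?_, fun m => ?_⟩, ?_⟩
  · rw [H.smul_right, h3, mul_zero]
  · rw [span_smul' hl]; exact h4
  · rw [RI.smul_iff H hl, smul_smul]; exact h5 _
  · intro a ha hab hns hex m
    rw [span_smul' hl] at hns
    rw [H.smul_right] at hab
    have hab' := (mul_eq_zero.1 hab).resolve_left hσ
    obtain ⟨k, hk, hk'⟩ := hex
    rw [RI.smul_iff H hl, smul_smul] at hk' ⊢
    exact h6 a ha hab' hns ⟨_, mul_ne_zero hσ hk, hk'⟩ _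

theorem not_mem_span_conj {b a : V} {m : V ≃ₗ[F] V} : a ∈ Submodule.span F {m b} ↔ m⁻¹ a ∈ Submodule.span F {b} := by
  rw [Submodule.mem_span_singleton, Submodule.mem_span_singleton]
  constructor
  · rintro ⟨k, rfl⟩
    exact ⟨k, by rw [map_smul, inv_apply_self']⟩
  · rintro ⟨k, hk⟩
    exact ⟨k, by rw [← map_smul, hk, apply_inv]⟩

theorem TL.conj (H : HS σ f) {M : Subgroup (V ≃ₗ[F] V)} (hM : M ≤ isom f) {b : V} (h : TL f M b)
    {m : V ≃ₗ[F] V} (hm : m ∈ M) : TL f M (m b) := by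
  obtain ⟨h1, ⟨a, h2, h3, h4, h5⟩, h6⟩ := h
  have hmi := hM (inv_mem hm)
  refine ⟨h1.conj H hM hm, ⟨m a, ?_, ?_, ?_, fun l => ?_⟩, ?_⟩
  · rw [hM hm]; exact h2
  · rw [hM hm]; exact h3
  · rw [not_mem_span_conj, inv_apply_self']; exact h4
  · rw [← map_smul]; exact (h5 l).conj H hM hm
  · intro a ha hab hns hex l
    rw [not_mem_span_conj] at hns
    rw [RI.conj_iff H hM hm, map_smul]
    refine h6 (m⁻¹ a) ?_ ?_ hns ?_ l
    · rw [hmi]; exact ha
    · have := hmi a (m b)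
      rw [inv_apply_self'] at this
      rw [this]; exact hab
    · obtain ⟨k, hk, hk'⟩ := hex
      rw [RI.conj_iff H hM hm, map_smul] at hk'
      exact ⟨k, hk, hk'⟩

theorem TR.smul (H : HS σ f) {q : ℕ} {M : Subgroup (V ≃ₗ[F] V)} {b : V} {l : F} (hl : l ≠ 0) (h : TR q f M b) :
    TR q f M (l • b) := by
  have hσ := H.sigma_ne hl
  refine ⟨h.1.smul H hl, ?_⟩
  intro a ha hab hns
  rw [span_smul' hl] at hns
  rw [H.smul_right] at hab
  have hab' := (mul_eq_zero.1 hab).resolve_left hσ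
  rw [← h.2 a ha hab' hns]
  refine Nat.card_congr
    { toFun := fun k => ⟨σ l * k.1, ?_⟩
      invFun := fun k => ⟨(σ l)⁻¹ * k.1, ?_⟩
      left_inv := fun k => Subtype.ext (inv_mul_cancel_left₀ hσ _)
      right_inv := fun k => Subtype.ext (mul_inv_cancel_left₀ hσ _) }
  · have := (RI.smul_iff H hl).1 k.2
    rwa [smul_smul] at this
  · rw [RI.smul_iff H hl, smul_smul, mul_inv_cancel_left₀ hσ]
    exact k.2

theorem TR.conj (H : HS σ f) {q : ℕ} {M : Subgroup (V ≃ₗ[F] V)} (hM : M ≤ isom f) {b : V} (h : TR q f M b)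
    {m : V ≃ₗ[F] V} (hm : m ∈ M) : TR q f M (m b) := by
  have hmi := hM (inv_mem hm)
  refine ⟨h.1.conj H hM hm, ?_⟩
  intro a ha hab hns
  rw [not_mem_span_conj] at hns
  rw [← h.2 (m⁻¹ a) (by rw [hmi]; exact ha) (by
    have := hmi a (m b)
    rw [inv_apply_self'] at this
    rw [this]; exact hab) hns]
  refine Nat.card_congr (Equiv.subtypeEquivRight fun k => ?_)
  rw [RI.conj_iff H hM hm, map_smul]

namespace C2
variable {e e' : V} {V1 : Submodule F V} (S : C2 σ f e e' V1)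
include S

theorem local4 {η : F} (hη0 : η ≠ 0) (hη : η + σ η = 0) {M : Subgroup (V ≃ₗ[F] V)} (hC : S.CC η M ≠ ⊤)
    (hX : M.relIndex S.PP ≤ Nat.card (EE σ) ^ 4 + Nat.card (EE σ) ^ 3 + Nat.card (EE σ)) :
    S.CC η M = ⊥ ∧ Nat.card (EE σ) ^ 4 + Nat.card (EE σ) ^ 3 ≤ M.relIndex S.PP ∧
      ((∃ a ∈ V1, a ≠ 0 ∧ f a a = 0 ∧ ∀ u, u ∈ S.WW M ↔ u ∈ Submodule.span F {a}) ∨
      ((2 : F) = 0 ∧ ∃ w1 ∈ V1, ∃ w2 ∈ V1, f w1 w1 = 0 ∧ f w2 w2 = 0 ∧ f w1 w2 ≠ 0 ∧ f w1 w2 + σ (f w1 w2) = 0 ∧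
        S.WW M = S.RF w1 w2)) := by
  by_cases hti : ∀ u ∈ S.WW M, ∀ v ∈ S.WW M, f u v = 0
  · obtain ⟨h1, h2, h3⟩ := S.typeL hη0 hη hC hX hti
    exact ⟨h1, h2, Or.inl h3⟩
  · push Not at hti
    obtain ⟨w1, hw1, w2, hw2, hτ⟩ := hti
    obtain ⟨h20, h11, h22, hsk, hW, hi⟩ := S.typeR hη0 hη hC hX hw1 hw2 hτ
    have hI := S.I4 hη0 hη h20 hτ hsk hw1.1 h11 hW
    have hmu := mult_bound (S.CC η M) hC
    have hq := one_lt_q S.hs
    rw [hi] at hI
    set q := Nat.card (EE σ)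
    set X := M.relIndex S.PP
    set A := Nat.card (EE σ ⧸ S.CC η M)
    set B := Nat.card (Set.range fun δ : (EE σ)ˣ => ml (S.CC η M) δ)
    have e1 : q ^ 2 * (A * ((q + 1) * B)) = q ^ 2 * (q + 1) * (A * B) := by ring
    rw [e1] at hI
    refine ⟨?_, ?_, Or.inr ⟨h20, w1, hw1.1, w2, hw2.1, h11, h22, hτ, hsk, hW⟩⟩
    · by_contra hb
      have h2 : q ^ 2 * (q + 1) * (q + 1) ≤ q ^ 4 + q ^ 3 + q :=
        (Nat.mul_le_mul_left _ (hmu.2 hb)).trans (hI.trans hX)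
      have h4 : q ^ 2 * (q + 1) * (q + 1) = q ^ 4 + 2 * q ^ 3 + q ^ 2 := by ring
      have h5 : q ≤ q ^ 3 := Nat.le_self_pow (by norm_num) q
      have h6 : 0 < q ^ 2 := by positivity
      omega
    · calc q ^ 4 + q ^ 3 = q ^ 2 * (q + 1) * q := by ring
        _ ≤ q ^ 2 * (q + 1) * (A * B) := Nat.mul_le_mul_left _ hmu.1
        _ ≤ X := hI

theorem ctr_of_bot {η : F} (hη0 : η ≠ 0) (hη : η + σ η = 0) {M : Subgroup (V ≃ₗ[F] V)} (hM : M ≤ isom f)
    (h2 : S.CC η M = ⊥) : Ctr f M e := by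
  have hση : σ η = -η := eq_neg_of_add_eq_zero_right hη
  intro t ht c htu
  have h5 := S.isR_cond (hM ht) V1.zero_mem htu
  rw [S.hs.zero_left, add_zero] at h5
  have h6 : σ (c / η) = c / η := by
    rw [map_div₀, hση, eq_neg_of_add_eq_zero_right h5, neg_div_neg_eq]
  have h7 : (⟨c / η, h6⟩ : EE σ) ∈ S.CC η M := ⟨t, ht, by
    show IsR f t e 0 (η * (c / η))
    rw [mul_div_cancel₀ _ hη0]; exact htu⟩
  rw [h2] at h7
  have h8 : (⟨c / η, h6⟩ : EE σ) = 0 := h7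
  have h9 : c / η = 0 := congrArg Subtype.val h8
  rcases div_eq_zero_iff.1 h9 with h | h
  · exact h
  · exact absurd h hη0

/-- reduction to `V1` -/
theorem RI_iff {M : Subgroup (V ≃ₗ[F] V)} {a : V} (hae : f a e = 0) {u : V} (hu : u ∈ V1) (hd : a = f a e' • e + u) (l : F) :
    RI f M e (l • a) ↔ l • u ∈ S.WW M := by
  have e1 : l • a = l • u + (l * f a e') • e := by
    conv_lhs => rw [hd]
    module
  constructor
  · rintro ⟨t, ht, c, h⟩
    rw [e1] at h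
    exact ⟨V1.smul_mem _ hu, t, ht, _, isR_add_smul S.hs h⟩
  · rintro ⟨-, t, ht, c, h⟩
    refine ⟨t, ht, c - l * f a e' + σ (l * f a e'), ?_⟩
    intro x
    have e2 : f x ((l * f a e') • e) = σ (l * f a e') * f x e := S.hs.smul_right _ _ _
    rw [h, e1, rho, rho, S.hs.add_right, e2]
    module

theorem types {η : F} (hη0 : η ≠ 0) (hη : η + σ η = 0) {M : Subgroup (V ≃ₗ[F] V)} (hM : M ≤ isom f)
    (hC : S.CC η M ≠ ⊤)
    (hX : M.relIndex S.PP ≤ Nat.card (EE σ) ^ 4 + Nat.card (EE σ) ^ 3 + Nat.card (EE σ)) :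
    Nat.card (EE σ) ^ 4 + Nat.card (EE σ) ^ 3 ≤ M.relIndex S.PP ∧
      (TL f M e ∨ ((2 : F) = 0 ∧ TR (Nat.card (EE σ)) f M e)) := by
  have := S.finite_V
  have := S.fd
  obtain ⟨hC0, hX', h⟩ := S.local4 hη0 hη hC hX
  have hctr := S.ctr_of_bot hη0 hη hM hC0
  have hdec : ∀ a : V, f a e = 0 → ∃ u ∈ V1, a = f a e' • e + u := by
    intro a ha
    obtain ⟨u, hu, hd⟩ := S.decomp a
    exact ⟨u, hu, by conv_lhs => rw [hd, ha, zero_smul, add_zero]⟩
  have hns : ∀ a : V, a ∉ Submodule.span F {e} → ∀ u, a = f a e' • e + u → u ≠ 0 := by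
    rintro a ha u hu rfl
    apply ha
    rw [hu, add_zero]
    exact Submodule.smul_mem _ _ (Submodule.mem_span_singleton_self e)
  have hnorm : ∀ a : V, f a a = 0 → ∀ u ∈ V1, a = f a e' • e + u → f u u = 0 := by
    intro a haa u hu hd
    rw [hd] at haa
    simp only [S.hs.add_left, S.hs.add_right, S.hs.smul_left, S.hs.smul_right, S.ee, S.perp_e hu, S.perp_e2 hu] at haa
    linear_combination haa
  refine ⟨hX', ?_⟩
  rcases h with ⟨a0, ha0V, ha00, ha0a0, hW⟩ | ⟨h20, w1, h1, w2, h2, h11, h22, hτ, hsk, hW⟩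
  · left
    refine ⟨hctr, ⟨a0, ha0a0, S.perp_e ha0V, ?_, ?_⟩, ?_⟩
    · intro h
      obtain ⟨k, hk⟩ := Submodule.mem_span_singleton.1 h
      have h3 := congrArg (fun x => f x e') hk
      simp only [S.hs.smul_left, S.ep, S.perp_e' ha0V, mul_one] at h3
      rw [h3, zero_smul] at hk
      exact ha00 hk.symm
    · intro l
      rw [S.RI_iff (S.perp_e ha0V) ha0V (by rw [S.perp_e' ha0V, zero_smul, zero_add]), hW]
      exact Submodule.smul_mem _ _ (Submodule.mem_span_singleton_self a0)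
    · intro a haa hae hnsp hex l
      obtain ⟨u, hu, hd⟩ := hdec a hae
      obtain ⟨k, hk, hk'⟩ := hex
      rw [S.RI_iff hae hu hd, hW] at hk' ⊢
      have h3 := Submodule.smul_mem _ k⁻¹ hk'
      rw [smul_smul, inv_mul_cancel₀ hk, one_smul] at h3
      exact Submodule.smul_mem _ l h3
  · right
    refine ⟨h20, hctr, ?_⟩
    intro a haa hae hnsp
    obtain ⟨u, hu, hd⟩ := hdec a hae
    have hu0 := hns a hnsp u hd
    have huu := hnorm a haa u hu hd
    have e1 : Nat.card {l : F // RI f M e (l • a)} = Nat.card {l : F // l • u ∈ S.RF w1 w2} := by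
      refine Nat.card_congr (Equiv.subtypeEquivRight fun l => ?_)
      rw [S.RI_iff hae hu hd, hW]
    rw [e1]
    -- a multiple of `u` lies in the real form
    have hs : σ (f w1 w2) = -f w1 w2 := eq_neg_of_add_eq_zero_right hsk
    have h21 : f w2 w1 = σ (f w1 w2) := S.hs.herm _ _
    have hchar : CharP F 2 := CharTwo.of_one_ne_zero_of_two_eq_zero one_ne_zero h20
    have hneg : ∀ y : F, -y = y := fun y => CharTwo.neg_eq y
    have hcoord := S.RF_coord h1 h2 h11 h22 hτ hu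
    have hmem : ∀ l : F, l • u ∈ S.RF w1 w2 ↔ σ (l * f u w1) = l * f u w1 ∧ σ (l * f u w2) = l * f u w2 := by
      intro l
      rw [S.mem_RF, S.hs.smul_left, S.hs.smul_left]
      constructor
      · rintro ⟨-, h3, h4⟩
        refine ⟨?_, ?_⟩
        · rw [eq_neg_of_add_eq_zero_right h3, hneg]
        · rw [eq_neg_of_add_eq_zero_right h4, hneg]
      · rintro ⟨h3, h4⟩
        refine ⟨V1.smul_mem _ hu, ?_, ?_⟩
        · rw [h3, ← two_mul, h20, zero_mul]
        · rw [h4, ← two_mul, h20, zero_mul]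
    have hcross : f u w2 * σ (f u w1) = σ (f u w2) * f u w1 := by
      -- from `f u u = 0`
      have h3 : f u u = f u w2 / f w1 w2 * f w1 u + f u w1 / f w2 w1 * f w2 u := by
        conv_lhs => rw [hcoord]
        rw [S.hs.add_left, S.hs.smul_left, S.hs.smul_left, ← hcoord]
      rw [huu, S.hs.herm w1 u, S.hs.herm w2 u, h21, hs, hneg] at h3
      field_simp at h3
      have h4 : f u w2 * σ (f u w1) = -(σ (f u w2) * f u w1) := by linear_combination -h3
      rw [h4, hneg]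
    by_cases hz : f u w1 = 0
    · have hz2 : f u w2 ≠ 0 := by
        intro h
        apply hu0
        rw [hcoord, h, hz, zero_div, zero_div, zero_smul, zero_smul, add_zero]
      refine Nat.card_congr
        { toFun := fun l => ⟨l.1 * f u w2, ((hmem l.1).1 l.2).2⟩
          invFun := fun x => ⟨(x : F) / f u w2, (hmem _).2 ⟨by rw [hz, mul_zero, map_zero], by
            rw [div_mul_cancel₀ _ hz2]; exact x.2⟩⟩
          left_inv := fun l => Subtype.ext (mul_div_cancel_right₀ _ hz2)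
          right_inv := fun x => Subtype.ext (div_mul_cancel₀ _ hz2) }
    · have hσz := S.hs.sigma_ne hz
      have hr : σ (f u w2 / f u w1) = f u w2 / f u w1 := by
        rw [map_div₀, div_eq_div_iff hσz hz]
        exact hcross.symm
      refine Nat.card_congr
        { toFun := fun l => ⟨l.1 * f u w1, ((hmem l.1).1 l.2).1⟩
          invFun := fun x => ⟨(x : F) / f u w1, (hmem _).2 ⟨by
            rw [div_mul_cancel₀ _ hz]; exact x.2, by
            have e2 : (x : F) / f u w1 * f u w2 = x * (f u w2 / f u w1) := by ring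
            have hx : σ (x : F) = x := x.2
            rw [e2, map_mul, hr, hx]⟩⟩
          left_inv := fun l => Subtype.ext (mul_div_cancel_right₀ _ hz)
          right_inv := fun x => Subtype.ext (div_mul_cancel₀ _ hz) }

end C2

end Cfsg.Agent.Lib.MinU
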