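import Mathlib
import Cfsg.Agent.Lib.MinWH

/-!
# Minimal index of `SU_4(q)`: counting on a totally isotropic line (helper98)
-/

set_option autoImplicit false
set_option linter.unusedSectionVars false

namespace Cfsg.Agent.Lib.MinU

open Cfsg.Agent.Lib Cfsg.Agent.Lib.UnTrans Cfsg.Agent.Lib.SubfUn
open Cfsg.Agent.Lib.SpTrans (isom mem_isom)

variable {F V : Type*} [Field F] [Finite F] [AddCommGroup V] [Module F V]
variable {σ : F →+* F} {f : V → V → F}

/-- the condition on the parameters of an Eichler element -/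
theorem isR_cond_gen (H : HS σ f) (nd : Nd f (⊤ : Submodule F V)) {t : V ≃ₗ[F] V} (ht : t ∈ isom f) {b u : V} {c : F}
    (hb0 : b ≠ 0) (hbb : f b b = 0) (hub : f u b = 0) (h : IsR f t b u c) : c + σ c + f u u = 0 := by
  obtain ⟨x, -, hbx⟩ := nd b trivial hb0
  have hxb : f x b ≠ 0 := H.symm_ne hbx
  have hσ := H.sigma_ne hxb
  have h1 := ht x x
  rw [h, rho] at h1
  simp only [H.add_left, H.sub_left, H.smul_left, H.add_right, H.sub_right, H.smul_right, hbb, hub,
    H.symm_zero hub] at h1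
  rw [H.herm b x, H.herm u x] at h1
  simp only [map_mul] at h1
  have h2 : (f x b * σ (f x b)) * (c + σ c + f u u) = 0 := by
    linear_combination h1
  exact (mul_eq_zero.1 h2).resolve_left (mul_ne_zero hxb hσ)

/-- two elements with the same `u` -/
theorem Ctr.uniq (H : HS σ f) {M : Subgroup (V ≃ₗ[F] V)} {b : V} (hC : Ctr f M b) (hbb : f b b = 0) {u : V}
    (hub : f u b = 0) {m m' : V ≃ₗ[F] V} (hm : m ∈ M) (hm' : m' ∈ M) {c c' : F} (h : IsR f m b u c)
    (h' : IsR f m' b u c') : c = c' := by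
  have h1 := IsR.inv H hbb hub h
  have h2 := IsR.mul H hbb (by rw [H.neg_left, hub, neg_zero]) hub h1 h'
  rw [neg_add_cancel] at h2
  have h3 := hC _ (mul_mem (inv_mem hm) hm') _ h2
  rw [H.neg_right] at h3
  linear_combination -h3

/-- the elements of the unipotent radical of the stabiliser of the line `⟨e, a⟩` -/
def tau (σ : F →+* F) (f : V → V → F) (e a : V) (g : F × F × F) (x : V) : V :=
  x + f x e • (g.1 • e + g.2.1 • a) + f x a • (g.2.2 • a - σ g.2.1 • e)

/-- a basis of a totally isotropic line -/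
structure TI2 (σ : F →+* F) (f : V → V → F) (e a : V) : Prop where
  hs : HS σ f
  nd : Nd f (⊤ : Submodule F V)
  ee : f e e = 0
  aa : f a a = 0
  ea : f e a = 0
  e0 : e ≠ 0
  ns : a ∉ Submodule.span F {e}

/-- the defect at the point `e + t a` or `a` -/
def hh (σ : F →+* F) : Option F → F × F × F → F
  | none, g => g.1
  | some t, g => g.2.2 - (g.2.1 * σ t - t * σ g.2.1 - g.1 * (t * σ t))

theorem hh_add (p : Option F) (g g' : F × F × F) : hh σ p (g + g') = hh σ p g + hh σ p g' := by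
  cases p with
  | none => rfl
  | some t =>
    show (g + g').2.2 - ((g + g').2.1 * σ t - t * σ (g + g').2.1 - (g + g').1 * (t * σ t)) = _
    simp only [hh, Prod.fst_add, Prod.snd_add, map_add]
    ring

namespace TI2
variable {e a : V} (T : TI2 σ f e a)
include T

theorem ae : f a e = 0 := T.hs.symm_zero T.ea

theorem a0 : a ≠ 0 := by
  rintro rfl
  exact T.ns (Submodule.zero_mem _)

theorem tau_add (g g' : F × F × F) (x : V) :
    tau σ f e a g (tau σ f e a g' x) = tau σ f e a (g + g') x := by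
  simp only [tau, T.hs.add_left, T.hs.sub_left, T.hs.smul_left, T.ee, T.aa, T.ea, T.ae, Prod.fst_add, Prod.snd_add,
    map_add]
  module

/-- the parameters of the elements of `M` in the unipotent radical -/
def DD (M : Subgroup (V ≃ₗ[F] V)) : AddSubgroup (F × F × F) where
  carrier := {g | g.1 + σ g.1 = 0 ∧ g.2.2 + σ g.2.2 = 0 ∧ ∃ m ∈ M, ∀ x, m x = tau σ f e a g x}
  zero_mem' := by
    refine ⟨by simp, by simp, 1, one_mem _, fun x => ?_⟩
    show x = _
    simp [tau]
  add_mem' := by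
    rintro g g' ⟨h1, h2, m, hm, h3⟩ ⟨h1', h2', m', hm', h3'⟩
    refine ⟨?_, ?_, m * m', mul_mem hm hm', fun x => ?_⟩
    · rw [Prod.fst_add, map_add]; linear_combination h1 + h1'
    · rw [Prod.snd_add, Prod.snd_add, map_add]; linear_combination h2 + h2'
    · rw [LinearEquiv.mul_apply, h3, h3', T.tau_add]
  neg_mem' := by
    rintro g ⟨h1, h2, m, hm, h3⟩
    refine ⟨?_, ?_, m⁻¹, inv_mem hm, fun x => ?_⟩
    · rw [Prod.fst_neg, map_neg]; linear_combination -h1
    · rw [Prod.snd_neg, Prod.snd_neg, map_neg]; linear_combination -h2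
    · apply inv_apply_of
      rw [h3, T.tau_add, add_neg_cancel]
      simp [tau]

theorem mem_DD {M : Subgroup (V ≃ₗ[F] V)} {g : F × F × F} : g ∈ T.DD M ↔
    g.1 + σ g.1 = 0 ∧ g.2.2 + σ g.2.2 = 0 ∧ ∃ m ∈ M, ∀ x, m x = tau σ f e a g x := Iff.rfl

theorem pt0 (t : F) : e + t • a ≠ 0 := by
  intro h
  by_cases ht : t = 0
  · subst ht
    rw [zero_smul, add_zero] at h
    exact T.e0 h
  · apply T.ns
    rw [Submodule.mem_span_singleton]
    refine ⟨-t⁻¹, ?_⟩
    rw [eq_neg_of_add_eq_zero_left h, smul_neg, neg_smul, neg_neg, smul_smul, inv_mul_cancel₀ ht, one_smul]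

theorem ptiso (t : F) : f (e + t • a) (e + t • a) = 0 := by
  simp only [T.hs.add_left, T.hs.add_right, T.hs.smul_left, T.hs.smul_right, T.ee, T.aa, T.ea, T.ae]; ring

theorem ptperp (t l : F) : f (l • a) (e + t • a) = 0 := by
  simp only [T.hs.add_right, T.hs.smul_left, T.hs.smul_right, T.aa, T.ae]; ring

/-- elements of `U_l` in `Q(e + t a)` -/
theorem tau_isR {g : F × F × F} (h1 : g.1 + σ g.1 = 0) {t : F} (ht : hh σ (some t) g = 0) {m : V ≃ₗ[F] V}
    (hm : ∀ x, m x = tau σ f e a g x) : IsR f m (e + t • a) ((g.2.1 - g.1 * t) • a) g.1 := by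
  have hσc : σ g.1 = -g.1 := eq_neg_of_add_eq_zero_right h1
  have ht' : g.2.2 = g.2.1 * σ t - t * σ g.2.1 - g.1 * (t * σ t) := sub_eq_zero.1 ht
  intro x
  rw [hm, tau, rho, T.hs.add_right, T.hs.smul_right, T.hs.smul_right, map_sub, map_mul, hσc]
  conv_lhs => rw [ht']
  module

/-- conversely -/
theorem isR_tau {M : Subgroup (V ≃ₗ[F] V)} (hM : M ≤ isom f) {t l c : F} {m : V ≃ₗ[F] V} (hm : m ∈ M)
    (h : IsR f m (e + t • a) (l • a) c) :
    ((c, l + c * t, l * σ t - t * σ l + c * (t * σ t)) : F × F × F) ∈ T.DD M ∧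
      hh σ (some t) (c, l + c * t, l * σ t - t * σ l + c * (t * σ t)) = 0 := by
  have h1 := isR_cond_gen T.hs T.nd (hM hm) (T.pt0 t) (T.ptiso t) (T.ptperp t l) h
  rw [T.hs.smul_left, T.hs.smul_right, T.aa, mul_zero, mul_zero, add_zero] at h1
  have hσc : σ c = -c := eq_neg_of_add_eq_zero_right h1
  have hσt : σ (σ t) = t := T.hs.inv t
  have hσl : σ (σ l) = l := T.hs.inv l
  refine ⟨T.mem_DD.2 ⟨h1, ?_, m, hm, fun x => ?_⟩, ?_⟩
  · simp only [map_add, map_sub, map_mul, hσt, hσl, hσc]; ring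
  · rw [h, rho, tau, T.hs.add_right, T.hs.smul_right, T.hs.smul_right]
    simp only [map_add, map_mul, hσc]
    module
  · show l * σ t - t * σ l + c * (t * σ t) - ((l + c * t) * σ t - t * σ (l + c * t) - c * (t * σ t)) = 0
    simp only [map_add, map_mul, hσc]; ring

/-- at the point `a` -/
theorem tau_isR' {g : F × F × F} (h1 : g.1 = 0) {m : V ≃ₗ[F] V}
    (hm : ∀ x, m x = tau σ f e a g x) : IsR f m a ((-σ g.2.1) • e) g.2.2 := by
  intro x
  rw [hm, tau, rho, T.hs.smul_right, map_neg, T.hs.inv, h1]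
  module

theorem isR_tau' {M : Subgroup (V ≃ₗ[F] V)} (hM : M ≤ isom f) {l c : F} {m : V ≃ₗ[F] V} (hm : m ∈ M)
    (h : IsR f m a (l • e) c) : ((0, -σ l, c) : F × F × F) ∈ T.DD M := by
  have h1 := isR_cond_gen T.hs T.nd (hM hm) T.a0 T.aa (by rw [T.hs.smul_left, T.ea, mul_zero]) h
  rw [T.hs.smul_left, T.hs.smul_right, T.ee, mul_zero, mul_zero, add_zero] at h1
  refine T.mem_DD.2 ⟨by simp, h1, m, hm, fun x => ?_⟩
  rw [h, rho, tau, T.hs.smul_right]
  simp only [map_neg, T.hs.inv]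
  module

theorem delta_some {M : Subgroup (V ≃ₗ[F] V)} (hM : M ≤ isom f) {t : F} (hC : Ctr f M (e + t • a)) :
    Nat.card {g : T.DD M // hh σ (some t) g = 0} = Nat.card {l : F // RI f M (e + t • a) (l • a)} := by
  refine Nat.card_congr (Equiv.ofBijective (fun g => ⟨(g.1 : F × F × F).2.1 - (g.1 : F × F × F).1 * t, ?_⟩) ⟨?_, ?_⟩)
  · obtain ⟨h1, h2, m, hm, h3⟩ := T.mem_DD.1 g.1.2
    exact ⟨m, hm, _, T.tau_isR h1 g.2 h3⟩
  · rintro ⟨⟨⟨c, α, y⟩, hg⟩, hg'⟩ ⟨⟨⟨c', α', y'⟩, hk⟩, hk'⟩ h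
    have h4 : α - c * t = α' - c' * t := congrArg Subtype.val h
    obtain ⟨h1, h2, m, hm, h3⟩ := T.mem_DD.1 hg
    obtain ⟨h1', h2', m', hm', h3'⟩ := T.mem_DD.1 hk
    have h5 := T.tau_isR h1 hg' h3
    have h6 := T.tau_isR h1' hk' h3'
    simp only at h5 h6
    rw [← h4] at h6
    have h7 := hC.uniq T.hs (T.ptiso t) (T.ptperp t _) hm hm' h5 h6
    subst h7
    have h8 : α = α' := sub_left_injective h4
    subst h8
    have h9 : y = y' := (sub_eq_zero.1 hg').trans (sub_eq_zero.1 hk').symm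
    subst h9
    rfl
  · rintro ⟨l, m, hm, c, h⟩
    obtain ⟨h1, h2⟩ := T.isR_tau hM hm h
    exact ⟨⟨⟨_, h1⟩, h2⟩, Subtype.ext (by simp)⟩

theorem delta_none {M : Subgroup (V ≃ₗ[F] V)} (hM : M ≤ isom f) (hC : Ctr f M a) :
    Nat.card {g : T.DD M // hh σ none g = 0} = Nat.card {l : F // RI f M a (l • e)} := by
  refine Nat.card_congr (Equiv.ofBijective (fun g => ⟨-σ (g.1 : F × F × F).2.1, ?_⟩) ⟨?_, ?_⟩)
  · obtain ⟨h1, h2, m, hm, h3⟩ := T.mem_DD.1 g.1.2
    exact ⟨m, hm, _, T.tau_isR' g.2 h3⟩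
  · rintro ⟨⟨⟨c, α, y⟩, hg⟩, hg'⟩ ⟨⟨⟨c', α', y'⟩, hk⟩, hk'⟩ h
    have h4 : -σ α = -σ α' := congrArg Subtype.val h
    obtain ⟨h1, h2, m, hm, h3⟩ := T.mem_DD.1 hg
    obtain ⟨h1', h2', m', hm', h3'⟩ := T.mem_DD.1 hk
    have h5 := T.tau_isR' hg' h3
    have h6 := T.tau_isR' hk' h3'
    simp only at h5 h6
    rw [← h4] at h6
    have h7 := hC.uniq T.hs T.aa (by rw [T.hs.smul_left, T.ea, mul_zero]) hm hm' h5 h6
    subst h7
    have h8 : α = α' := σ.injective (neg_injective h4)
    subst h8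
    have h9 : c = 0 := hg'
    have h10 : c' = 0 := hk'
    subst h9; subst h10
    rfl
  · rintro ⟨l, m, hm, c, h⟩
    exact ⟨⟨⟨_, T.isR_tau' hM hm h⟩, rfl⟩, Subtype.ext (by simp [T.hs.inv])⟩

end TI2

/-- solutions of `α σt - t σα = y` -/
theorem alt_fiber (H : HS σ f) {α y : F} (hα : α ≠ 0) (hy : y + σ y = 0) :
    Nat.card {t : F // α * σ t - t * σ α = y} = Nat.card (EE σ) := by
  have hσα := H.sigma_ne hα
  have hσσ : σ (σ α) = α := H.inv α
  obtain ⟨η, hη0, hη⟩ := H.exists_tr0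
  have hση : σ η = -η := eq_neg_of_add_eq_zero_right hη
  have hσy : σ y = -y := eq_neg_of_add_eq_zero_right hy
  obtain ⟨x, hx⟩ := H.exists_trace (-(y / (α * σ α)) / η) (by
    rw [map_div₀, map_neg, map_div₀, map_mul, hσσ, hση, hσy]; field_simp)
  have ht0 : α * σ (α * (x * η)) - α * (x * η) * σ α = y := by
    rw [map_mul, map_mul, hση]
    have h1 : α * (σ α * (σ x * -η)) - α * (x * η) * σ α = -(α * σ α * η) * (x + σ x) := by ring
    rw [h1, hx]; field_simp
  generalize α * (x * η) = t0 at ht0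
  have hto : ∀ r : EE σ, α * σ (t0 + r * α) - (t0 + r * α) * σ α = y := by
    intro r
    have hr : σ (r : F) = r := r.2
    rw [map_add, map_mul, hr]
    linear_combination ht0
  have hinv : ∀ t : {t : F // α * σ t - t * σ α = y}, (t.1 - t0) / α ∈ EE σ := by
    intro t
    rw [mem_EE, map_div₀, map_sub, div_eq_div_iff hσα hα]
    linear_combination t.2 - ht0
  exact (Nat.card_congr
    { toFun := fun r : EE σ => (⟨t0 + r * α, hto r⟩ : {t : F // α * σ t - t * σ α = y})
      invFun := fun t => ⟨(t.1 - t0) / α, hinv t⟩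
      left_inv := fun r => Subtype.ext (by
        show (t0 + r * α - t0) / α = r
        rw [add_sub_cancel_left, mul_div_cancel_right₀ _ hα])
      right_inv := fun t => Subtype.ext (by
        show t0 + (t.1 - t0) / α * α = t.1
        rw [div_mul_cancel₀ _ hα, add_sub_cancel]) }).symm

/-- solutions of the quadratic condition -/
theorem quad_fiber (H : HS σ f) {α y c : F} (hc : c + σ c = 0) (hc0 : c ≠ 0) (hy : y + σ y = 0)
    (h0 : c * y + α * σ α ≠ 0) :
    Nat.card {t : F // y - (α * σ t - t * σ α - c * (t * σ t)) = 0} = Nat.card (EE σ) + 1 := by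
  have hσσ : σ (σ α) = α := H.inv α
  have hσc : σ c = -c := eq_neg_of_add_eq_zero_right hc
  have hσy : σ y = -y := eq_neg_of_add_eq_zero_right hy
  have hs : σ (-(c * y + α * σ α) / c ^ 2) = -(c * y + α * σ α) / c ^ 2 := by
    rw [map_div₀, map_neg, map_add, map_mul, map_mul, map_pow, hσσ, hσc, hσy]
    congr 1 <;> ring
  have hs0 : -(c * y + α * σ α) / c ^ 2 ≠ 0 := div_ne_zero (neg_ne_zero.2 h0) (pow_ne_zero _ hc0)
  rw [← norm_fiber H hs hs0]
  refine Nat.card_congr
    { toFun := fun t => ⟨t.1 - α / c, ?_⟩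
      invFun := fun s => ⟨s.1 + α / c, ?_⟩
      left_inv := fun t => Subtype.ext (sub_add_cancel _ _)
      right_inv := fun s => Subtype.ext (add_sub_cancel_right _ _) }
  · have h1 := t.2
    rw [map_sub, map_div₀, hσc]
    field_simp
    linear_combination c * h1
  · have h1 := s.2
    rw [map_add, map_div₀, hσc]
    field_simp at h1 ⊢
    linear_combination h1

namespace TI2
variable {e a : V} (T : TI2 σ f e a)
include T

/-- the number of points of the line at which a nonzero element of `D` vanishes -/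
theorem nn {M : Subgroup (V ≃ₗ[F] V)} (hC : ∀ b, b ≠ 0 → f b b = 0 → Ctr f M b) {g : F × F × F}
    (hg : g ∈ T.DD M) (hg0 : g ≠ 0) : Nat.card {p : Option F // hh σ p g = 0} = Nat.card (EE σ) + 1 := by
  obtain ⟨h1, h2, m, hm, h3⟩ := T.mem_DD.1 hg
  obtain ⟨c, α, y⟩ := g
  simp only at h1 h2
  have hσc : σ c = -c := eq_neg_of_add_eq_zero_right h1
  have hσy : σ y = -y := eq_neg_of_add_eq_zero_right h2
  by_cases hc : c = 0
  · subst hc
    have hα : α ≠ 0 := by
      rintro rfl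
      apply hg0
      have h4 := T.tau_isR' (g := (0, 0, y)) rfl h3
      simp only [map_zero, neg_zero, zero_smul] at h4
      have h5 := hC a T.a0 T.aa m hm _ h4
      rw [h5]; rfl
    have e1 : Nat.card {p : Option F // hh σ p (0, α, y) = 0} =
        Nat.card (Option {t : F // α * σ t - t * σ α = y}) := by
      refine Nat.card_congr
        { toFun := fun p => match p with
            | ⟨none, _⟩ => none
            | ⟨some t, h⟩ => some ⟨t, by
                have h' : y - (α * σ t - t * σ α - 0 * (t * σ t)) = 0 := h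
                linear_combination -h'⟩
          invFun := fun p => match p with
            | none => ⟨none, rfl⟩
            | some ⟨t, h⟩ => ⟨some t, by
                show y - (α * σ t - t * σ α - 0 * (t * σ t)) = 0
                linear_combination -h⟩
          left_inv := ?_
          right_inv := ?_ }
      · rintro ⟨(_ | t), h⟩ <;> rfl
      · rintro (_ | ⟨t, h⟩) <;> rfl
    rw [e1, Finite.card_option, alt_fiber T.hs hα h2]
  · have h0 : c * y + α * σ α ≠ 0 := by
      intro h0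
      have ht : hh σ (some (α / c)) (c, α, y) = 0 := by
        show y - (α * σ (α / c) - α / c * σ α - c * (α / c * σ (α / c))) = 0
        rw [map_div₀, hσc]
        field_simp
        linear_combination h0
      have h4 := T.tau_isR (g := (c, α, y)) h1 ht h3
      simp only at h4
      rw [mul_div_cancel₀ _ hc, sub_self, zero_smul] at h4
      exact hc (hC _ (T.pt0 _) (T.ptiso _) m hm _ h4)
    rw [← quad_fiber T.hs h1 hc h2 h0]
    refine Nat.card_congr
      { toFun := fun p => match p with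
          | ⟨none, h⟩ => (hc h).elim
          | ⟨some t, h⟩ => ⟨t, h⟩
        invFun := fun t => ⟨some t.1, t.2⟩
        left_inv := ?_
        right_inv := fun t => rfl }
    rintro ⟨(_ | t), h⟩
    · exact (hc h).elim
    · rfl

/-- the additive map `g ↦ hh p g` on `D` -/
def hhD (M : Subgroup (V ≃ₗ[F] V)) (p : Option F) : T.DD M →+ F where
  toFun g := hh σ p g
  map_zero' := by
    cases p with
    | none => rfl
    | some t => simp [hh]
  map_add' g g' := hh_add p _ _

theorem hhD_cond {M : Subgroup (V ≃ₗ[F] V)} (p : Option F) (g : T.DD M) : T.hhD M p g + σ (T.hhD M p g) = 0 := by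
  obtain ⟨h1, h2, m, hm, h3⟩ := T.mem_DD.1 g.2
  cases p with
  | none => exact h1
  | some t =>
    show (g : F × F × F).2.2 - ((g : F × F × F).2.1 * σ t - t * σ (g : F × F × F).2.1 - (g : F × F × F).1 * (t * σ t)) +
      σ ((g : F × F × F).2.2 - ((g : F × F × F).2.1 * σ t - t * σ (g : F × F × F).2.1 - (g : F × F × F).1 * (t * σ t))) = 0
    simp only [map_sub, map_mul, T.hs.inv]
    linear_combination h2 + (t * σ t) * h1

theorem card_ker {M : Subgroup (V ≃ₗ[F] V)} (p : Option F) :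
    Nat.card {g : T.DD M // hh σ p g = 0} ∣ Nat.card (T.DD M) ∧
      Nat.card (T.DD M) ≤ Nat.card (EE σ) * Nat.card {g : T.DD M // hh σ p g = 0} := by
  have hk : Nat.card {g : T.DD M // hh σ p g = 0} = Nat.card (T.hhD M p).ker := rfl
  rw [hk]
  refine ⟨AddSubgroup.card_addSubgroup_dvd_card _, ?_⟩
  have h1 := (T.hhD M p).ker.card_mul_index
  rw [AddSubgroup.index_ker] at h1
  rw [← h1, mul_comm]
  refine Nat.mul_le_mul_right _ ?_
  obtain ⟨η, hη0, hη⟩ := T.hs.exists_tr0
  have hση : σ η = -η := eq_neg_of_add_eq_zero_right hη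
  refine Nat.card_le_card_of_injective (fun y : (T.hhD M p).range => (⟨(y : F) / η, ?_⟩ : EE σ)) ?_
  · obtain ⟨g, hg⟩ := y.2
    have h2 := T.hhD_cond p g
    rw [hg] at h2
    rw [mem_EE, map_div₀, hση, eq_neg_of_add_eq_zero_right h2, neg_div_neg_eq]
  · intro y y' h
    have h2 : (y : F) / η = (y' : F) / η := congrArg Subtype.val h
    exact Subtype.ext ((div_left_inj' hη0).1 h2)

theorem line_count {M : Subgroup (V ≃ₗ[F] V)} (hM : M ≤ isom f) (hC : ∀ b, b ≠ 0 → f b b = 0 → Ctr f M b) {δ : ℕ}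
    (h1 : ∀ t : F, Nat.card {l : F // RI f M (e + t • a) (l • a)} = δ)
    (h2 : Nat.card {l : F // RI f M a (l • e)} = δ) :
    (δ - 1) * (Nat.card (EE σ) ^ 2 + 1) = (Nat.card (T.DD M) - 1) * (Nat.card (EE σ) + 1) ∧ δ ∣ Nat.card (T.DD M) := by
  classical
  have hsub : ∀ (A : Type _) [Finite A] (a0 : A), Nat.card {x : A // x ≠ a0} = Nat.card A - 1 := by
    intro A _ a0
    have : Fintype A := Fintype.ofFinite A
    rw [Nat.card_eq_fintype_card, Nat.card_eq_fintype_card, Fintype.card_subtype_compl]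
    simp
  have hδ : ∀ p : Option F, Nat.card {g : T.DD M // hh σ p g = 0} = δ := by
    rintro (_ | t)
    · rw [T.delta_none hM (hC a T.a0 T.aa), h2]
    · rw [T.delta_some hM (hC _ (T.pt0 t) (T.ptiso t)), h1]
  constructor
  · have h3 := double_count (A := {g : T.DD M // g ≠ 0}) (B := Option F)
      (fun g p => hh σ p (g.1 : F × F × F) = 0) (δ - 1) (Nat.card (EE σ) + 1) ?_ ?_
    · rw [Finite.card_option, card_F T.hs, hsub] at h3
      exact h3
    · intro p
      have h00 : hh σ p ((0 : T.DD M) : F × F × F) = 0 := (T.hhD M p).map_zero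
      rw [← hδ p, ← hsub _ (⟨0, h00⟩ : {g : T.DD M // hh σ p g = 0})]
      refine Nat.card_congr
        { toFun := fun g => ⟨⟨g.1.1, g.2⟩, fun h => g.1.2 (congrArg (fun z => z.1) h)⟩
          invFun := fun g => ⟨⟨g.1.1, fun h => g.2 (Subtype.ext h)⟩, g.1.2⟩
          left_inv := fun g => rfl
          right_inv := fun g => rfl }
    · intro g
      exact T.nn hC g.1.2 (fun h => g.2 (Subtype.ext h))
  · rw [← hδ none]
    exact (T.card_ker none).1

theorem swap_ns (t : F) : a ∉ Submodule.span F {e + t • a} := by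
  intro h
  obtain ⟨k, hk⟩ := Submodule.mem_span_singleton.1 h
  have h1 : k • e = (1 - k * t) • a := by
    have h2 : k • e = k • (e + t • a) - (k * t) • a := by module
    rw [h2, hk]; module
  by_cases hk0 : k = 0
  · subst hk0
    rw [zero_smul] at hk
    exact T.a0 hk.symm
  · by_cases h3 : 1 - k * t = 0
    · rw [h3, zero_smul] at h1
      exact (smul_ne_zero hk0 T.e0) h1
    · apply T.ns
      rw [Submodule.mem_span_singleton]
      exact ⟨(1 - k * t)⁻¹ * k, by rw [mul_smul, h1, smul_smul, inv_mul_cancel₀ h3, one_smul]⟩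

theorem swap_ns' : e ∉ Submodule.span F {a} := by
  intro h
  obtain ⟨k, hk⟩ := Submodule.mem_span_singleton.1 h
  have hk0 : k ≠ 0 := by rintro rfl; rw [zero_smul] at hk; exact T.e0 hk.symm
  apply T.ns
  rw [Submodule.mem_span_singleton]
  exact ⟨k⁻¹, by rw [← hk, smul_smul, inv_mul_cancel₀ hk0, one_smul]⟩

end TI2

theorem no_TL (H : HS σ f) (nd : Nd f (⊤ : Submodule F V)) {M : Subgroup (V ≃ₗ[F] V)} (hM : M ≤ isom f)
    (hT : ∀ b, b ≠ 0 → f b b = 0 → TL f M b) {e : V} (he0 : e ≠ 0) (hee : f e e = 0) : False := by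
  obtain ⟨-, ⟨a, haa, hae, hns, hall⟩, -⟩ := hT e he0 hee
  have T : TI2 σ f e a := ⟨H, nd, hee, haa, H.symm_zero hae, he0, hns⟩
  have hC : ∀ b, b ≠ 0 → f b b = 0 → Ctr f M b := fun b hb hbb => (hT b hb hbb).1
  have hq := one_lt_q H
  have hcF := card_F H
  have hall0 : ∀ b u : V, (∀ l : F, RI f M b (l • u)) →
      Nat.card {l : F // RI f M b (l • u)} = Nat.card (EE σ) ^ 2 := by
    intro b u h
    rw [← hcF]; exact Nat.card_congr (Equiv.subtypeUnivEquiv h)
  have hD : Nat.card (EE σ) ^ 2 ≤ Nat.card (T.DD M) := by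
    have h4 := T.delta_some hM (t := 0) (hC _ (T.pt0 0) (T.ptiso 0))
    rw [hall0 (e + (0 : F) • a) a (by simpa using hall)] at h4
    have h5 := (T.card_ker (M := M) (some 0)).1
    rw [h4] at h5
    exact Nat.le_of_dvd Nat.card_pos h5
  have key : ∀ b u : V, b ≠ 0 → f b b = 0 → f u u = 0 → f u b = 0 → u ∉ Submodule.span F {b} →
      Nat.card (EE σ) ≤ Nat.card {l : F // RI f M b (l • u)} →
      Nat.card {l : F // RI f M b (l • u)} = Nat.card (EE σ) ^ 2 := by
    intro b u hb0 hbb huu hub hn hc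
    apply hall0
    apply (hT b hb0 hbb).2.2 u huu hub hn
    by_contra hcon
    push Not at hcon
    have h6 : Nat.card {l : F // RI f M b (l • u)} ≤ 1 := by
      rw [Finite.card_le_one_iff_subsingleton]
      constructor
      rintro ⟨l, hl⟩ ⟨l', hl'⟩
      have h7 : l = 0 := by
        by_contra h; exact hcon l h hl
      have h8 : l' = 0 := by
        by_contra h; exact hcon l' h hl'
      exact Subtype.ext (h7.trans h8.symm)
    omega
  have hge : ∀ p : Option F, Nat.card (EE σ) ≤ Nat.card {g : T.DD M // hh σ p g = 0} := by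
    intro p
    have h4 := (T.card_ker (M := M) p).2
    have h5 := hD.trans h4
    rw [sq] at h5
    exact Nat.le_of_mul_le_mul_left h5 (by omega)
  obtain ⟨h6, h7⟩ := T.line_count hM hC (δ := Nat.card (EE σ) ^ 2)
    (fun t => key _ _ (T.pt0 t) (T.ptiso t) T.aa (by simpa using T.ptperp t 1) (T.swap_ns t) (by
      rw [← T.delta_some hM (hC _ (T.pt0 t) (T.ptiso t))]; exact hge _))
    (key _ _ T.a0 T.aa T.ee T.ea T.swap_ns' (by
      rw [← T.delta_none hM (hC _ T.a0 T.aa)]; exact hge _))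
  set q := Nat.card (EE σ)
  have hDp : 0 < Nat.card (T.DD M) := Nat.card_pos
  obtain ⟨k, hk⟩ := h7
  rw [hk] at h6 hDp
  have hq2 : 1 ≤ q ^ 2 := Nat.one_le_pow _ _ (by omega)
  have e1 : (q ^ 2 - 1) * (q ^ 2 + 1) + (q ^ 2 + 1) = q ^ 2 * (q ^ 2 + 1) := by
    rw [← Nat.succ_mul, Nat.succ_eq_add_one, Nat.sub_add_cancel hq2]
  have e2 : (q ^ 2 * k - 1) * (q + 1) + (q + 1) = q ^ 2 * k * (q + 1) := by
    rw [← Nat.succ_mul, Nat.succ_eq_add_one, Nat.sub_add_cancel hDp]
  have e3 : q ^ 2 * (k * (q + 1)) + q ^ 2 = q ^ 2 * (q ^ 2 + 1) + q := by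
    have e4 : q ^ 2 * k * (q + 1) = q ^ 2 * (k * (q + 1)) := by ring
    omega
  have h8 : q ^ 2 ∣ q := by
    have h9 : q ^ 2 ∣ q ^ 2 * (q ^ 2 + 1) + q := by
      rw [← e3, ← Nat.mul_succ]; exact Dvd.intro _ rfl
    exact (Nat.dvd_add_right (Dvd.intro _ rfl)).1 h9
  have h9 := Nat.le_of_dvd (by omega) h8
  nlinarith

theorem TI2.no_TR {e a : V} (T : TI2 σ f e a) {M : Subgroup (V ≃ₗ[F] V)} (hM : M ≤ isom f) (h20 : (2 : F) = 0)
    (hT : ∀ b, b ≠ 0 → f b b = 0 → TR (Nat.card (EE σ)) f M b) : False := by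
  have H := T.hs
  have hq := one_lt_q H
  have hC : ∀ b, b ≠ 0 → f b b = 0 → Ctr f M b := fun b hb hbb => (hT b hb hbb).1
  obtain ⟨h6, h7⟩ := T.line_count hM hC (δ := Nat.card (EE σ))
    (fun t => (hT _ (T.pt0 t) (T.ptiso t)).2 _ T.aa (by simpa using T.ptperp t 1) (T.swap_ns t))
    ((hT _ T.a0 T.aa).2 _ T.ee T.ea T.swap_ns')
  have h3 : Nat.card (EE σ) ≠ 3 := by
    intro h3
    have h4 : Nat.card (EE σ) • (1 : EE σ) = 0 := by
      exact card_nsmul_eq_zero'
    rw [h3] at h4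
    have h5 : (3 : F) = 0 := by
      have h6 : (3 : EE σ) = 0 := by simpa using h4
      exact congrArg (Subtype.val : EE σ → F) h6
    have h6 : (1 : F) = 0 := by linear_combination h5 - h20
    exact one_ne_zero h6
  set q := Nat.card (EE σ)
  have hDp : 0 < Nat.card (T.DD M) := Nat.card_pos
  obtain ⟨k, hk⟩ := h7
  rw [hk] at h6 hDp
  have e1 : (q - 1) * (q ^ 2 + 1) + (q ^ 2 + 1) = q * (q ^ 2 + 1) := by
    rw [← Nat.succ_mul, Nat.succ_eq_add_one, Nat.sub_add_cancel (by omega)]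
  have e2 : (q * k - 1) * (q + 1) + (q + 1) = q * k * (q + 1) := by
    rw [← Nat.succ_mul, Nat.succ_eq_add_one, Nat.sub_add_cancel hDp]
  have e3 : q * (k * (q + 1) + q) = q * (q ^ 2 + 2) := by
    have e4 : q * (k * (q + 1) + q) = q * k * (q + 1) + q ^ 2 := by ring
    have e5 : q * (q ^ 2 + 2) = q * (q ^ 2 + 1) + q := by ring
    omega
  have e4 : k * (q + 1) + q = q ^ 2 + 2 := Nat.eq_of_mul_eq_mul_left (by omega) e3
  have h8 : (q + 1) ∣ 4 := by
    obtain ⟨r, hr⟩ : ∃ r, q = r + 1 := ⟨q - 1, by omega⟩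
    have e5 : (k + 1) * (q + 1) = (q + 1) * r + 4 := by
      have : (k + 1) * (q + 1) = k * (q + 1) + q + 1 := by ring
      rw [this, e4, hr]; ring
    have h9 : (q + 1) ∣ (q + 1) * r + 4 := by rw [← e5]; exact Dvd.intro_left _ rfl
    exact (Nat.dvd_add_right (Dvd.intro _ rfl)).1 h9
  have h9 := Nat.le_of_dvd (by norm_num) h8
  have h10 : q = 2 ∨ q = 3 := by omega
  rcases h10 with h | h
  · rw [h] at h8; norm_num at h8
  · exact h3 h

end Cfsg.Agent.Lib.MinU
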