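import Mathlib
import Cfsg.Agent.Lib.MinWI
import Cfsg.Agent.Lib.MinVE
import Cfsg.Agent.Lib.MinUL

/-!
# Minimal index of `SU_4(q)`: the global argument (helper98)
-/

set_option autoImplicit false
set_option linter.unusedSectionVars false

namespace Cfsg.Agent.Lib.MinU

open Cfsg.Agent.Lib Cfsg.Agent.Lib.UnTrans Cfsg.Agent.Lib.SubfUn
open Cfsg.Agent.Lib.SpTrans (isom mem_isom)

variable {F V : Type*} [Field F] [Finite F] [AddCommGroup V] [Module F V]
variable {σ : F →+* F} {f : V → V → F}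

/-- two different double cosets -/
theorem relIndex_add_le {G : Type*} [Group G] [Finite G] (M P1 P2 S : Subgroup G) (h1 : P1 ≤ S) (h2 : P2 ≤ S)
    (g : G) (hg : g ∈ S) (hd : ∀ x ∈ P1, ∀ y ∈ P2, x⁻¹ * (g * y) ∉ M) :
    M.relIndex P1 + M.relIndex P2 ≤ M.relIndex S := by
  have key := card_le_relIndex (ι := (P1 ⧸ M.subgroupOf P1) ⊕ (P2 ⧸ M.subgroupOf P2)) M S
    (Sum.elim (fun x => (x.out : G)) (fun y => g * (y.out : G))) ?_ ?_
  · rw [Nat.card_sum] at key
    exact key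
  · rintro (x | y)
    · exact h1 x.out.2
    · exact mul_mem hg (h2 y.out.2)
  · rintro (x | x) (y | y) h
    · simp only [Sum.elim_inl] at h
      have h3 : (x.out : P1)⁻¹ * y.out ∈ M.subgroupOf P1 := h
      have h4 := QuotientGroup.eq.2 h3
      rw [QuotientGroup.out_eq', QuotientGroup.out_eq'] at h4
      rw [h4]
    · exact absurd h (hd _ x.out.2 _ y.out.2)
    · have h3 := inv_mem h
      simp only [Sum.elim_inl, Sum.elim_inr] at h3
      refine absurd ?_ (hd _ y.out.2 _ x.out.2)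
      convert h3 using 1; group
    · simp only [Sum.elim_inr] at h
      have h3 : (x.out : P2)⁻¹ * y.out ∈ M.subgroupOf P2 := by
        show (x.out : G)⁻¹ * (y.out : G) ∈ M
        convert h using 1; group
      have h4 := QuotientGroup.eq.2 h3
      rw [QuotientGroup.out_eq', QuotientGroup.out_eq'] at h4
      rw [h4]

/-- global hypotheses in dimension 4 -/
structure Glob4 (σ : F →+* F) (f : V → V → F) : Prop where
  hs : HS σ f
  nd : Nd f (⊤ : Submodule F V)
  fd : FiniteDimensional F V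
  d4 : Module.finrank F V = 4

theorem Glob4.ctx (G : Glob4 σ f) {e : V} (he0 : e ≠ 0) (hee : f e e = 0) :
    ∃ (e' : V) (V1 : Submodule F V), C2 σ f e e' V1 := by
  have := G.fd
  obtain ⟨y, hy, hey⟩ := G.nd e trivial he0
  obtain ⟨e', -, hep, hee', -⟩ := exists_partner G.hs (U := ⊤) (a := e) trivial hy hee hey
  have h1 := finrank_perp (H := G.hs) (U := ⊤) (e := e) (e' := e') trivial trivial hee hee' hep
  rw [finrank_top, G.d4] at h1
  refine ⟨e', ⊤ ⊓ LinearMap.ker (G.hs.fl e) ⊓ LinearMap.ker (G.hs.fl e'),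
    ⟨G.hs, G.nd, G.fd, hee, hee', hep, ?_, by omega, G.d4⟩⟩
  intro x
  simp

theorem Glob4.finite_V (G : Glob4 σ f) : Finite V := by
  have := G.fd
  exact Module.finite_of_finite F

theorem Glob4.finite_G (G : Glob4 σ f) : Finite (V ≃ₗ[F] V) := by
  have := G.finite_V
  exact Finite.of_injective (fun g : V ≃ₗ[F] V => (g : V → V)) DFunLike.coe_injective

theorem Glob4.d4' (G : Glob4 σ f) : 4 ≤ Module.finrank F (⊤ : Submodule F V) := by
  rw [finrank_top, G.d4]

/-- the index of `M` is small -/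
structure Small4 (G : Glob4 σ f) (M : Subgroup (V ≃ₗ[F] V)) : Prop where
  le : M ≤ tgrp G.hs ⊤
  s1 : M.relIndex (tgrp G.hs ⊤) ≤ Nat.card (EE σ) ^ 4 + Nat.card (EE σ) ^ 3 + Nat.card (EE σ)

/-- all long root groups in `M` -/
theorem Glob4.top_of_all (G : Glob4 σ f) {M : Subgroup (V ≃ₗ[F] V)} (h : ∀ v, v ≠ 0 → f v v = 0 → ZM σ f M v) :
    tgrp G.hs ⊤ ≤ M := by
  rw [tgrp, Subgroup.closure_le]
  rintro t ⟨w, -, hww, a, ha, rfl⟩
  by_cases hw0 : w = 0
  · subst hw0
    rw [tv_zero_left G.hs hww a ha]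
    exact one_mem M
  · obtain ⟨t, ht, h1⟩ := h w hw0 hww a ha
    have : tv G.hs w hww a ha = t := by
      ext x
      rw [h1, tv_apply, rho, G.hs.zero_right]; simp
    rw [this]; exact ht

theorem Glob4.top_of_QQ (G : Glob4 σ f) {M : Subgroup (V ≃ₗ[F] V)} (hM : M ≤ isom f) {e g : V} (he0 : e ≠ 0)
    (hee : f e e = 0) (hQ : QQ σ f M e) (hgg : f g g = 0) (hg : ZM σ f M g) (hge : f g e ≠ 0) : tgrp G.hs ⊤ ≤ M := by
  have H := G.hs
  have step1 : ∀ v, f v v = 0 → f v e ≠ 0 → ZM σ f M v := by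
    intro v hvv hve
    have hs : f g e / f v e ≠ 0 := div_ne_zero hge hve
    obtain ⟨t, ht, h1⟩ := exists_Q H (v := (f g e / f v e) • v) hQ hgg (by
      rw [H.smul_left, H.smul_right, hvv]; ring) hge (by rw [H.smul_left, div_mul_cancel₀ _ hve]) hee
    have h2 := hg.conj H hM ht
    rw [h1] at h2
    exact h2.smul H hs
  apply G.top_of_all
  intro v hv0 hvv
  by_cases hve : f v e = 0
  · obtain ⟨y, -, hey, hvy⟩ := H.exists_common G.nd (u := e) (v := v) trivial trivial he0 hv0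
    obtain ⟨a, ha⟩ := H.exists_add_norm (u := y) hee hey (map_zero σ)
    set w := y + a • e with hw
    have hwe : f w e ≠ 0 := by
      rw [hw, H.add_left, H.smul_left, hee, mul_zero, add_zero]; exact H.symm_ne hey
    have hvw : f v w ≠ 0 := by
      rw [hw, H.add_right, H.smul_right, hve, mul_zero, add_zero]; exact hvy
    have hZw := step1 w ha hwe
    obtain ⟨τ, hτ0, hτ⟩ := H.exists_tr0
    obtain ⟨t, ht, h1⟩ := hZw τ hτ
    have h2 : t v = v + (τ * f v w) • w := by rw [h1, rho, H.zero_right]; simp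
    have h3 : ZM σ f M (t v) := by
      apply step1
      · rw [hM ht]; exact hvv
      · rw [h2, H.add_left, H.smul_left, hve, zero_add]
        exact mul_ne_zero (mul_ne_zero hτ0 hvw) hwe
    have h4 := h3.conj H hM (inv_mem ht)
    rwa [inv_apply_self'] at h4
  · exact step1 v hvv hve

theorem Glob4.le_of_fix (G : Glob4 σ f) {M : Subgroup (V ≃ₗ[F] V)} {e : V}
    (he0 : e ≠ 0) (hee : f e e = 0) (hfix : ∀ m ∈ M, m e ∈ Submodule.span F {e}) :
    Nat.card (IPt (F := F) f) ≤ M.relIndex (tgrp G.hs ⊤) := by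
  have := G.fd
  have := G.finite_G
  have h1 : ∀ L : IPt (F := F) f, ∃ g ∈ tgrp G.hs ⊤, (L : Submodule F V) = Submodule.span F {g e} := by
    rintro ⟨_, v, hv0, hvv, rfl⟩
    obtain ⟨g, hg, hge⟩ := exists_move G.hs G.nd G.d4' (x := e) (y := v) trivial trivial he0 hv0 (by rw [hee, hvv])
    exact ⟨g, hg, by rw [hge]⟩
  choose g hg hgL using h1
  refine card_le_relIndex M _ g hg ?_
  intro L L' h
  apply Subtype.ext
  rw [hgL L, hgL L']
  obtain ⟨c, hc⟩ := Submodule.mem_span_singleton.1 (hfix _ h)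
  have h2 : g L' e = c • g L e := by
    have := congrArg (g L) hc
    rw [map_smul, LinearEquiv.mul_apply, apply_inv] at this
    exact this.symm
  have hc0 : c ≠ 0 := by
    rintro rfl
    rw [zero_smul] at h2
    exact he0 ((g L').map_eq_zero_iff.1 h2)
  rw [h2]
  exact (Submodule.span_singleton_smul_eq (IsUnit.mk0 c hc0) _).symm

/-- the local dichotomy -/
theorem Glob4.dich (G : Glob4 σ f) {M : Subgroup (V ≃ₗ[F] V)} (hS : Small4 G M) {e : V} (he0 : e ≠ 0) (hee : f e e = 0) :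
    ZM σ f M e ∨ (Nat.card (EE σ) ^ 4 + Nat.card (EE σ) ^ 3 ≤ M.relIndex (tgrp G.hs ⊤ ⊓ stL e) ∧
      (TL f M e ∨ ((2 : F) = 0 ∧ TR (Nat.card (EE σ)) f M e))) := by
  have := G.finite_G
  obtain ⟨e', V1, S⟩ := G.ctx he0 hee
  obtain ⟨η, hη0, hη⟩ := G.hs.exists_tr0
  have hση : σ η = -η := eq_neg_of_add_eq_zero_right hη
  by_cases hC : S.CC η M = ⊤
  · left
    intro c hc
    have h1 : σ (c / η) = c / η := by
      rw [map_div₀, hση, eq_neg_of_add_eq_zero_right hc, neg_div_neg_eq]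
    obtain ⟨t, ht, h2⟩ : (⟨c / η, h1⟩ : EE σ) ∈ S.CC η M := by rw [hC]; trivial
    refine ⟨t, ht, ?_⟩
    convert h2 using 1
    show c = η * (c / η)
    rw [mul_div_cancel₀ _ hη0]
  · right
    have hle : S.PP ≤ tgrp G.hs ⊤ := inf_le_left
    have h0 : M.relIndex S.PP ≤ M.relIndex (tgrp G.hs ⊤) :=
      Subgroup.relIndex_le_of_le_right hle (by rw [Subgroup.relIndex]; exact Subgroup.index_ne_zero_of_finite)
    exact S.types hη0 hη (hS.le.trans (tgrp_le_isom G.hs ⊤)) hC (h0.trans hS.s1)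

/-- points in different orbits of `M` -/
theorem Glob4.sep (G : Glob4 σ f) {M : Subgroup (V ≃ₗ[F] V)} {e1 e2 : V} (h10 : e1 ≠ 0) (h11 : f e1 e1 = 0)
    (h20 : e2 ≠ 0) (h22 : f e2 e2 = 0) (hne : ∀ m ∈ M, m e2 ∉ Submodule.span F {e1}) :
    M.relIndex (tgrp G.hs ⊤ ⊓ stL e1) + M.relIndex (tgrp G.hs ⊤ ⊓ stL e2) ≤ M.relIndex (tgrp G.hs ⊤) := by
  have := G.fd
  have := G.finite_G
  obtain ⟨g, hg, hge⟩ := exists_move G.hs G.nd G.d4' (x := e2) (y := e1) trivial trivial h20 h10 (by rw [h11, h22])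
  refine relIndex_add_le M _ _ _ inf_le_left inf_le_left g hg ?_
  rintro x ⟨-, hx⟩ y ⟨-, hy⟩ hm
  apply hne _ hm
  have hy1 : y e2 ∈ Submodule.span F {e2} := by
    rw [← mem_stL.1 hy]; exact Submodule.mem_span_singleton_self _
  obtain ⟨k, hk⟩ := Submodule.mem_span_singleton.1 hy1
  have hx1 : x⁻¹ e1 ∈ Submodule.span F {e1} := by
    rw [← mem_stL.1 (inv_mem hx)]; exact Submodule.mem_span_singleton_self _
  rw [LinearEquiv.mul_apply, LinearEquiv.mul_apply, ← hk, map_smul, hge, map_smul]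
  exact Submodule.smul_mem _ _ hx1

/-- there is a point with `Z(e) ≤ M` -/
theorem Glob4.exists_ZM (G : Glob4 σ f) {M : Subgroup (V ≃ₗ[F] V)} (hS : Small4 G M) :
    ∃ e, e ≠ 0 ∧ f e e = 0 ∧ ZM σ f M e := by
  have := G.fd
  have H := G.hs
  have hM : M ≤ isom f := hS.le.trans (tgrp_le_isom G.hs ⊤)
  by_contra hcon
  push Not at hcon
  have hd : ∀ e, e ≠ 0 → f e e = 0 → Nat.card (EE σ) ^ 4 + Nat.card (EE σ) ^ 3 ≤ M.relIndex (tgrp G.hs ⊤ ⊓ stL e) ∧
      (TL f M e ∨ ((2 : F) = 0 ∧ TR (Nat.card (EE σ)) f M e)) := by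
    intro e he hee
    rcases G.dich hS he hee with h | h
    · exact absurd h (hcon e he hee)
    · exact h
  have horb : ∀ e1 e2, e1 ≠ 0 → f e1 e1 = 0 → e2 ≠ 0 → f e2 e2 = 0 → ∃ m ∈ M, ∃ l : F, l ≠ 0 ∧ m e2 = l • e1 := by
    intro e1 e2 h10 h11 h20 h22
    by_contra hno
    push Not at hno
    have h1 := G.sep (M := M) h10 h11 h20 h22 (by
      intro m hm h
      obtain ⟨l, hl⟩ := Submodule.mem_span_singleton.1 h
      have hl0 : l ≠ 0 := by
        rintro rfl
        rw [zero_smul] at hl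
        exact h20 (m.map_eq_zero_iff.1 hl.symm)
      exact hno m hm l hl0 hl.symm)
    have h2 := (hd e1 h10 h11).1
    have h3 := (hd e2 h20 h22).1
    have h4 := hS.s1
    have hq := one_lt_q H
    set q := Nat.card (EE σ)
    have h5 : q ≤ q ^ 3 := Nat.le_self_pow (by norm_num) q
    have h6 : 0 < q ^ 4 := by positivity
    omega
  obtain ⟨e, -, -, hee, y, -, -, hey⟩ := H.exists_hyp G.nd G.d4' (Submodule.zero_mem _)
  have he0 : e ≠ 0 := by rintro rfl; rw [H.zero_left] at hey; exact hey rfl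
  rcases (hd e he0 hee).2 with hT | ⟨h20, hT⟩
  · refine no_TL H G.nd hM (fun b hb hbb => ?_) he0 hee
    obtain ⟨m, hm, l, hl, hml⟩ := horb b e hb hbb he0 hee
    have h1 := hT.conj H hM hm
    rw [hml] at h1
    have h2 := h1.smul H (inv_ne_zero hl)
    rwa [smul_smul, inv_mul_cancel₀ hl, one_smul] at h2
  · -- a line through `e`
    obtain ⟨e', V1, S⟩ := G.ctx he0 hee
    have hq := one_lt_q H
    have h1 := S.card_O0
    have hpos : 0 < Nat.card (Ocl f V1 0) := by
      rw [h1]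
      have h2 : 1 < Nat.card (EE σ) ^ 2 := Nat.one_lt_pow (by norm_num) (by omega)
      have h3 : 0 < Nat.card (EE σ) ^ 2 - 1 := by omega
      positivity
    obtain ⟨⟨a, ha, ha0, haa⟩⟩ := (Nat.card_pos_iff.1 hpos).1
    have hns : a ∉ Submodule.span F {e} := by
      intro h
      obtain ⟨k, hk⟩ := Submodule.mem_span_singleton.1 h
      have h3 := congrArg (fun x => f x e') hk
      simp only [H.smul_left, S.ep, S.perp_e' ha, mul_one] at h3
      rw [h3, zero_smul] at hk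
      exact ha0 hk.symm
    have T : TI2 σ f e a := ⟨H, G.nd, hee, haa, S.perp_e2 ha, he0, hns⟩
    refine T.no_TR hM h20 (fun b hb hbb => ?_)
    obtain ⟨m, hm, l, hl, hml⟩ := horb b e hb hbb he0 hee
    have h1 := hT.conj H hM hm
    rw [hml] at h1
    have h2 := h1.smul H (inv_ne_zero hl)
    rwa [smul_smul, inv_mul_cancel₀ hl, one_smul] at h2

end Cfsg.Agent.Lib.MinU
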