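import Mathlib
import Cfsg.Agent.Lib.MinWJ

/-!
# Minimal index of `SU_4(q)`: lines and the main theorem (helper98)
-/

set_option autoImplicit false
set_option linter.unusedSectionVars false

namespace Cfsg.Agent.Lib.MinU

open Cfsg.Agent.Lib Cfsg.Agent.Lib.UnTrans Cfsg.Agent.Lib.SubfUn
open Cfsg.Agent.Lib.SpTrans (isom mem_isom)

variable {F V : Type*} [Field F] [Finite F] [AddCommGroup V] [Module F V]
variable {σ : F →+* F} {f : V → V → F}

namespace C2
variable {e e' : V} {V1 : Submodule F V} (S : C2 σ f e e' V1)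
include S

/-- a hyperbolic basis of `V1` -/
theorem exists_pair : ∃ a ∈ V1, ∃ b ∈ V1, a ≠ 0 ∧ b ≠ 0 ∧ f a a = 0 ∧ f b b = 0 ∧ f a b = 1 := by
  have := S.finite_V
  have hq := one_lt_q S.hs
  have h1 := S.card_O0
  have hpos : 0 < Nat.card (Ocl f V1 0) := by
    rw [h1]
    have h2 : 1 < Nat.card (EE σ) ^ 2 := Nat.one_lt_pow (by norm_num) (by omega)
    have h3 : 0 < Nat.card (EE σ) ^ 2 - 1 := by omega
    positivity
  obtain ⟨⟨a, ha, ha0, haa⟩⟩ := (Nat.card_pos_iff.1 hpos).1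
  obtain ⟨y, hy, hay⟩ := S.nd1 a ha ha0
  obtain ⟨b, hb, hab, hbb, -⟩ := exists_partner S.hs (U := V1) (a := a) ha hy haa hay
  refine ⟨a, ha, b, hb, ha0, ?_, haa, hbb, hab⟩
  rintro rfl
  rw [S.hs.zero_right] at hab
  exact zero_ne_one hab

theorem W_top {η : F} (hη0 : η ≠ 0) (hη : η + σ η = 0) {M : Subgroup (V ≃ₗ[F] V)} (hC : S.CC η M = ⊤)
    (hX : M.relIndex S.PP ≤ Nat.card (EE σ)) : ∀ u ∈ V1, u ∈ S.WW M := by
  classical
  have := S.fd
  have := S.finite_V
  have := S.finite_G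
  have := finite_addSubgroup (V := V)
  obtain ⟨p, hp⟩ := CharP.exists F
  have : NeZero p := ⟨CharP.char_ne_zero_of_finite F p⟩
  have : Fact p.Prime := ⟨(CharP.char_is_prime_or_zero F p).resolve_right (NeZero.ne p)⟩
  obtain ⟨ψ, hψ, -⟩ := exists_phi (K := F) (p := p) (C := ⊥) (by
    intro h
    have h1 : (1 : F) ∈ (⊥ : AddSubgroup F) := by rw [h]; trivial
    exact one_ne_zero (AddSubgroup.mem_bot.1 h1))
  have hann := card_ann S.hs ψ hψ V1 S.nd1 (S.WW M) (S.WW_le M)
  have hid := S.idW_mul M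
  have hWpos : 0 < Nat.card (S.WW M) := Nat.card_pos
  have ha : S.idW M = Nat.card (ann S.hs ψ V1 (S.WW M)) := by
    rw [← hann, mul_comm] at hid
    exact Nat.eq_of_mul_eq_mul_left hWpos hid
  by_cases hne : Nat.card (ann S.hs ψ V1 (S.WW M)) = 1
  · rw [hne, mul_one] at hann
    have h2 : (S.WW M : Set V) = (V1.toAddSubgroup : Set V) := by
      apply Set.eq_of_subset_of_ncard_le (S.WW_le M)
      have h3 : Nat.card (S.WW M) = (S.WW M : Set V).ncard := rfl
      have h4 : Nat.card V1 = (V1.toAddSubgroup : Set V).ncard := rfl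
      rw [← h3, ← h4, hann]
    intro u hu
    have : u ∈ (V1.toAddSubgroup : Set V) := hu
    rw [← h2] at this
    exact this
  · exfalso
    have hapos : 0 < Nat.card (ann S.hs ψ V1 (S.WW M)) := Nat.card_pos
    have hnb : ann S.hs ψ V1 (S.WW M) ≠ ⊥ := by
      intro h
      rw [h] at hne
      exact hne (by simp)
    obtain ⟨v0, hv0, hv00⟩ : ∃ v ∈ ann S.hs ψ V1 (S.WW M), v ≠ 0 := by
      by_contra hcon
      push Not at hcon
      exact hnb (by rw [eq_bot_iff]; intro v hv; exact hcon v hv)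
    obtain ⟨b, hb, hb0, hbb, hvb⟩ : ∃ b ∈ V1, b ≠ 0 ∧ f b b = 0 ∧ f v0 b ≠ 0 := by
      obtain ⟨a, ha, b, hb, ha0, hb0, haa, hbb, hab⟩ := S.exists_pair
      by_cases h : f v0 a = 0
      · refine ⟨b, hb, hb0, hbb, fun h' => hv00 ?_⟩
        rw [S.basis1 ha hb haa hbb hab hv0.1, h, h', zero_smul, zero_smul, add_zero]
      · exact ⟨a, ha, ha0, haa, h⟩
    have hg : ∀ x : EE σ, ∃ g ∈ S.L, IsR f g b 0 (η * x) := by
      intro x
      exact S.exists_R1 hb V1.zero_mem hbb (S.hs.zero_left b) (by rw [S.hs.zero_left, add_zero, S.eta_cond hη])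
    choose g hgL hg using hg
    have hgv : ∀ x, g x v0 = v0 + (η * x * f v0 b) • b := by
      intro x
      rw [hg, rho, S.hs.zero_right]; simp
    have hYV : ∀ Y : orb S.L (S.WW M), (Y : AddSubgroup V) ≤ V1.toAddSubgroup := by
      rintro ⟨Y, k, hk, rfl⟩ y hy
      obtain ⟨w, hw, rfl⟩ := mem_mp.1 hy
      exact S.L_mem hk hw.1
    have hcard : ∀ Y : orb S.L (S.WW M), Nat.card {v : ann S.hs ψ V1 (Y : AddSubgroup V) // v ≠ 0} =
        Nat.card (ann S.hs ψ V1 (S.WW M)) - 1 := by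
      intro Y
      have h1 := card_ann S.hs ψ hψ V1 S.nd1 (Y : AddSubgroup V) (hYV Y)
      have h2 : Nat.card (Y : AddSubgroup V) = Nat.card (S.WW M) := by
        obtain ⟨Y, k, hk, rfl⟩ := Y
        exact card_mp k _
      rw [h2, ← hann] at h1
      rw [← Nat.eq_of_mul_eq_mul_left hWpos h1]
      have : Fintype (ann S.hs ψ V1 (Y : AddSubgroup V)) := Fintype.ofFinite _
      rw [Nat.card_eq_fintype_card, Nat.card_eq_fintype_card, Fintype.card_subtype_compl]
      simp
    have hsum : Nat.card (Σ Y : orb S.L (S.WW M), {v : ann S.hs ψ V1 (Y : AddSubgroup V) // v ≠ 0}) =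
        Nat.card (orb S.L (S.WW M)) * (Nat.card (ann S.hs ψ V1 (S.WW M)) - 1) := by
      have : Fintype (orb S.L (S.WW M)) := Fintype.ofFinite _
      rw [Nat.card_sigma]
      simp only [hcard, Finset.sum_const, Finset.card_univ, smul_eq_mul, Nat.card_eq_fintype_card]
    have hinj : Nat.card (EE σ) ≤ Nat.card (orb S.L (S.WW M)) * (Nat.card (ann S.hs ψ V1 (S.WW M)) - 1) := by
      rw [← hsum]
      refine Nat.card_le_card_of_injective (fun x : EE σ =>
        (⟨⟨mp (g x) (S.WW M), g x, hgL x, rfl⟩, ⟨⟨g x v0, S.L_mem (hgL x) hv0.1, ?_⟩, ?_⟩⟩ :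
          Σ Y : orb S.L (S.WW M), {v : ann S.hs ψ V1 (Y : AddSubgroup V) // v ≠ 0})) ?_
      · intro w hw
        obtain ⟨w', hw', rfl⟩ := mem_mp.1 hw
        rw [S.L_iso (hgL x)]
        exact hv0.2 w' hw'
      · intro h
        have h3 : g x v0 = 0 := congrArg Subtype.val h
        exact hv00 ((g x).map_eq_zero_iff.1 h3)
      · intro x y hxy
        have h3 : g x v0 = g y v0 :=
          congrArg (fun z : (Σ Y : orb S.L (S.WW M), {v : ann S.hs ψ V1 (Y : AddSubgroup V) // v ≠ 0}) =>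
            ((z.2.1 : ann S.hs ψ V1 (z.1 : AddSubgroup V)) : V)) hxy
        rw [hgv, hgv, add_right_inj, ← sub_eq_zero, ← sub_smul] at h3
        rcases smul_eq_zero.1 h3 with h4 | h4
        · have h5 : (η * f v0 b) * ((x : F) - y) = 0 := by linear_combination h4
          exact Subtype.ext (sub_eq_zero.1 ((mul_eq_zero.1 h5).resolve_left (mul_ne_zero hη0 hvb)))
        · exact absurd h4 hb0
    have hI1 := S.I1 hη0 hη M
    rw [ha] at hI1
    have h1 : 1 ≤ Nat.card (EE σ ⧸ S.CC η M) := Nat.card_pos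
    have h2 : 1 ≤ Nat.card (Set.range fun δ : (EE σ)ˣ => ml (S.CC η M) δ) := by
      have : Nonempty (Set.range fun δ : (EE σ)ˣ => ml (S.CC η M) δ) := ⟨⟨_, ⟨1, rfl⟩⟩⟩
      have : Finite (Set.range fun δ : (EE σ)ˣ => ml (S.CC η M) δ) := Set.finite_range _
      exact Nat.card_pos
    have h3 : 1 ≤ Nat.card (orb S.L (S.WW M)) := by
      have : Nonempty (orb S.L (S.WW M)) := ⟨⟨_, self_mem_orb _ _⟩⟩
      exact Nat.card_pos
    have h4 : Nat.card (ann S.hs ψ V1 (S.WW M)) * Nat.card (orb S.L (S.WW M)) ≤ Nat.card (EE σ) := by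
      refine le_trans (Nat.mul_le_mul_left _ ?_) (hI1.trans hX)
      calc Nat.card (orb S.L (S.WW M)) = 1 * (Nat.card (orb S.L (S.WW M)) * 1) := by ring
        _ ≤ _ := Nat.mul_le_mul h1 (Nat.mul_le_mul_left _ h2)
    set A := Nat.card (ann S.hs ψ V1 (S.WW M))
    set O := Nat.card (orb S.L (S.WW M))
    obtain ⟨r, hr⟩ : ∃ r, A = r + 1 := ⟨A - 1, by omega⟩
    rw [hr, Nat.add_sub_cancel] at hinj
    rw [hr] at h4
    have h5 : (r + 1) * O = O * r + O := by ring
    omega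

theorem QQ_of {M : Subgroup (V ≃ₗ[F] V)} (hM : M ≤ isom f) (hZ : ZM σ f M e) (hW : ∀ u ∈ V1, u ∈ S.WW M) :
    QQ σ f M e := by
  intro u c hue hc
  obtain ⟨u1, hu1, hd⟩ := S.decomp u
  rw [hue, zero_smul, add_zero, add_comm] at hd
  obtain ⟨-, t, ht, c', htc⟩ := hW u1 hu1
  have h5 := S.isR_cond (hM ht) hu1 htc
  have h6 : f u u = f u1 u1 := by
    rw [hd]
    simp only [S.hs.add_left, S.hs.add_right, S.hs.smul_left, S.hs.smul_right, S.ee, S.perp_e hu1, S.perp_e2 hu1]
    ring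
  set α := f u e' with hα
  have h7 : (c + α - σ α - c') + σ (c + α - σ α - c') = 0 := by
    rw [map_sub, map_sub, map_add, S.hs.inv]
    rw [h6] at hc
    linear_combination hc - h5
  obtain ⟨t', ht', h8⟩ := hZ _ h7
  have h9 := S.isR_prod hu1 htc h8
  refine ⟨t * t', mul_mem ht ht', ?_⟩
  have e1 : c' + (c + α - σ α - c') = c + α - σ α := by ring
  rw [e1] at h9
  intro x
  rw [h9, hd, rho, rho, S.hs.add_right, S.hs.smul_right]
  module

end C2

/-- totally isotropic lines are their own perps -/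
theorem Glob4.perp_line (G : Glob4 σ f) {e a : V} (T : TI2 σ f e a) {x : V} (hxe : f x e = 0) (hxa : f x a = 0) :
    x ∈ Submodule.span F {e, a} := by
  have H := G.hs
  obtain ⟨e', V1, S⟩ := G.ctx T.e0 T.ee
  obtain ⟨x1, hx1, hdx⟩ := S.decomp x
  obtain ⟨a1, ha1, hda⟩ := S.decomp a
  rw [hxe, zero_smul, add_zero] at hdx
  rw [T.ae, zero_smul, add_zero] at hda
  have ha10 : a1 ≠ 0 := by
    rintro rfl
    apply T.ns
    rw [hda, add_zero]
    exact Submodule.smul_mem _ _ (Submodule.mem_span_singleton_self e)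
  have h1 : f a1 a1 = 0 := by
    have h2 := T.aa
    rw [hda] at h2
    simp only [H.add_left, H.add_right, H.smul_left, H.smul_right, S.ee, S.perp_e ha1, S.perp_e2 ha1] at h2
    linear_combination h2
  have h2 : f x1 a1 = 0 := by
    have h3 := hxa
    rw [hda, hdx] at h3
    simp only [H.add_left, H.add_right, H.smul_left, H.smul_right, S.ee, S.perp_e hx1, S.perp_e2 ha1] at h3
    linear_combination h3
  obtain ⟨k, hk⟩ := Submodule.mem_span_singleton.1 (S.ti1 ha1 ha10 h1 hx1 h2)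
  rw [Submodule.mem_span_pair]
  refine ⟨f x e' - k * f a e', k, ?_⟩
  have h4 : a1 = a - f a e' • e := by
    conv_rhs => rw [hda]
    have h5 : f (f a e' • e + a1) e' = f a e' := by rw [← hda]
    rw [h5]; module
  have h6 : x = f x e' • e + k • (a - f a e' • e) := by
    rw [← h4, hk]; exact hdx
  conv_rhs => rw [h6]
  module

theorem TI2.map {e a : V} (T : TI2 σ f e a) {g : V ≃ₗ[F] V} (hg : g ∈ isom f) : TI2 σ f (g e) (g a) :=
  ⟨T.hs, T.nd, by rw [hg, T.ee], by rw [hg, T.aa], by rw [hg, T.ea], fun h => T.e0 (g.map_eq_zero_iff.1 h), by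
    rw [not_mem_span_conj, inv_apply_self']; exact T.ns⟩

theorem TI2.perp_span {e a : V} (T : TI2 σ f e a) {x y : V} (hx : x ∈ Submodule.span F {e, a})
    (hy : y ∈ Submodule.span F {e, a}) : f x y = 0 := by
  obtain ⟨α, β, rfl⟩ := Submodule.mem_span_pair.1 hx
  obtain ⟨γ, δ, rfl⟩ := Submodule.mem_span_pair.1 hy
  simp only [T.hs.add_left, T.hs.add_right, T.hs.smul_left, T.hs.smul_right, T.ee, T.aa, T.ea, T.ae]
  ring

theorem Glob4.eq_line (G : Glob4 σ f) {e a x y : V} (T : TI2 σ f e a) (T' : TI2 σ f x y) (h1 : f x e = 0)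
    (h2 : f x a = 0) (h3 : f y e = 0) (h4 : f y a = 0) : Submodule.span F {e, a} = Submodule.span F {x, y} := by
  have H := G.hs
  apply le_antisymm
  · rw [Submodule.span_le]
    rintro z (rfl | rfl)
    · exact G.perp_line T' (H.symm_zero h1) (H.symm_zero h3)
    · exact G.perp_line T' (H.symm_zero h2) (H.symm_zero h4)
  · rw [Submodule.span_le]
    rintro z (rfl | rfl)
    · exact G.perp_line T h1 h2
    · exact G.perp_line T h3 h4

/-- the set of totally isotropic lines -/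
def LN (σ : F →+* F) (f : V → V → F) : Set (Submodule F V) := {U | ∃ e a, TI2 σ f e a ∧ U = Submodule.span F {e, a}}

theorem map_pair (g : V ≃ₗ[F] V) (e a : V) :
    Submodule.map (g : V →ₗ[F] V) (Submodule.span F {e, a}) = Submodule.span F {g e, g a} := by
  rw [Submodule.map_span, Set.image_pair]; rfl

theorem Glob4.line_move (G : Glob4 σ f) {e a e2 a2 : V} (T : TI2 σ f e a) (T2 : TI2 σ f e2 a2) :
    ∃ g ∈ tgrp G.hs ⊤, Submodule.map (g : V →ₗ[F] V) (Submodule.span F {e, a}) = Submodule.span F {e2, a2} := by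
  have := G.fd
  have H := G.hs
  obtain ⟨g, hg, hge⟩ := exists_move G.hs G.nd G.d4' (x := e) (y := e2) trivial trivial T.e0 T2.e0 (by rw [T.ee, T2.ee])
  have hgi := tgrp_le_isom G.hs ⊤ hg
  have T3 := T.map hgi
  rw [hge] at T3
  set a3 := g a with ha3
  by_cases h : f a2 a3 = 0
  · refine ⟨g, hg, ?_⟩
    rw [map_pair, hge]
    exact G.eq_line T3 T2 T2.ee T3.ea T2.ae h
  · have hβ := H.symm_ne h
    obtain ⟨η, hη0, hη⟩ := H.exists_tr0
    have hση : σ η = -η := eq_neg_of_add_eq_zero_right hη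
    obtain ⟨k1, hk1, h1⟩ := rhoIn_all G.hs (le_refl _) G.nd G.d4' (Submodule.mem_top (x := a2)) T2.aa
      (Submodule.mem_top (x := (0 : V))) (H.zero_left a2) η (by rw [H.zero_left, add_zero, hη])
    have hσβ := H.sigma_ne hβ
    have hc : -1 / (η * (f a3 a2 * σ (f a3 a2))) + σ (-1 / (η * (f a3 a2 * σ (f a3 a2)))) + f (0 : V) 0 = 0 := by
      rw [H.zero_left, map_div₀, map_neg, map_one, map_mul, map_mul, H.inv, hση]
      field_simp
      ring
    obtain ⟨k2, hk2, h2⟩ := rhoIn_all G.hs (le_refl _) G.nd G.d4' (Submodule.mem_top (x := a3)) T3.aa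
      (Submodule.mem_top (x := (0 : V))) (H.zero_left a3) _ hc
    refine ⟨k2 * k1 * g, mul_mem (mul_mem hk2 hk1) hg, ?_⟩
    have e1 : k1 e2 = e2 := by
      rw [h1, rho, T2.ea, H.zero_right]; simp
    have e2' : k2 e2 = e2 := by
      rw [h2, rho, T3.ea, H.zero_right]; simp
    have e3 : (k2 * k1 * g) e = e2 := by
      rw [LinearEquiv.mul_apply, LinearEquiv.mul_apply, hge, e1, e2']
    have e4 : (k2 * k1 * g) a = (η * f a3 a2) • a2 := by
      rw [LinearEquiv.mul_apply, LinearEquiv.mul_apply, ← ha3, h1, rho, H.zero_right, h2, rho, H.zero_right]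
      simp only [H.add_left, H.sub_left, H.smul_left, H.zero_left, T3.aa]
      have e5 : f a2 a3 = σ (f a3 a2) := H.herm _ _
      rw [e5]
      have e6 : -1 / (η * (f a3 a2 * σ (f a3 a2))) * (η * f a3 a2 * σ (f a3 a2)) = -1 := by field_simp
      match_scalars
      · simp
        linear_combination e6
      · simp
    rw [map_pair]
    have T4 := T.map (tgrp_le_isom G.hs ⊤ (mul_mem (mul_mem hk2 hk1) hg))
    rw [e3, e4] at T4 ⊢
    refine G.eq_line T4 T2 T2.ee ?_ T2.ae ?_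
    · rw [H.smul_right, T2.ea, mul_zero]
    · rw [H.smul_right, T2.aa, mul_zero]

end Cfsg.Agent.Lib.MinU
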