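import Mathlib
import Cfsg.Agent.Lib.MinWK

/-!
# Minimal index of `SU_4(q)`: the main theorem (helper98)
-/

set_option autoImplicit false
set_option linter.unusedSectionVars false

namespace Cfsg.Agent.Lib.MinU

open Cfsg.Agent.Lib Cfsg.Agent.Lib.UnTrans Cfsg.Agent.Lib.SubfUn
open Cfsg.Agent.Lib.SpTrans (isom mem_isom)

variable {F V : Type*} [Field F] [Finite F] [AddCommGroup V] [Module F V]
variable {σ : F →+* F} {f : V → V → F}

/-- the stabiliser of a subspace -/
def stU (U : Submodule F V) : Subgroup (V ≃ₗ[F] V) where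
  carrier := {g | Submodule.map (g : V →ₗ[F] V) U = U}
  one_mem' := by
    show Submodule.map _ U = U
    exact Submodule.map_id U
  mul_mem' := by
    intro a b ha hb
    have ha' : Submodule.map (a : V →ₗ[F] V) U = U := ha
    have hb' : Submodule.map (b : V →ₗ[F] V) U = U := hb
    show Submodule.map ((a : V →ₗ[F] V) ∘ₗ (b : V →ₗ[F] V)) U = U
    rw [Submodule.map_comp, hb', ha']
  inv_mem' := by
    intro a ha
    show Submodule.map ((a⁻¹ : V ≃ₗ[F] V) : V →ₗ[F] V) U = U
    have ha' : Submodule.map (a : V →ₗ[F] V) U = U := ha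
    conv_lhs => rw [← ha']
    rw [← Submodule.map_comp]
    have : ((a⁻¹ : V ≃ₗ[F] V) : V →ₗ[F] V) ∘ₗ (a : V →ₗ[F] V) = LinearMap.id := by
      ext x; exact inv_apply_self' a x
    rw [this, Submodule.map_id]

theorem mem_stU {U : Submodule F V} {g : V ≃ₗ[F] V} : g ∈ stU U ↔ Submodule.map (g : V →ₗ[F] V) U = U := Iff.rfl

theorem map_mul' (g h : V ≃ₗ[F] V) (U : Submodule F V) :
    Submodule.map ((g * h : V ≃ₗ[F] V) : V →ₗ[F] V) U = Submodule.map (g : V →ₗ[F] V) (Submodule.map (h : V →ₗ[F] V) U) := by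
  rw [← Submodule.map_comp]; rfl

theorem map_inv_map (g : V ≃ₗ[F] V) (U : Submodule F V) :
    Submodule.map ((g⁻¹ : V ≃ₗ[F] V) : V →ₗ[F] V) (Submodule.map (g : V →ₗ[F] V) U) = U := by
  rw [← map_mul', inv_mul_cancel]
  exact Submodule.map_id U

theorem map_map_inv (g : V ≃ₗ[F] V) (U : Submodule F V) :
    Submodule.map (g : V →ₗ[F] V) (Submodule.map ((g⁻¹ : V ≃ₗ[F] V) : V →ₗ[F] V) U) = U := by
  rw [← map_mul', mul_inv_cancel]
  exact Submodule.map_id U

theorem Glob4.le_of_fixU (G : Glob4 σ f) {M : Subgroup (V ≃ₗ[F] V)} {e a : V} (T : TI2 σ f e a)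
    (hfix : M ≤ stU (Submodule.span F {e, a})) : Nat.card (LN σ f) ≤ M.relIndex (tgrp G.hs ⊤) := by
  have := G.finite_G
  have h1 : ∀ L : LN σ f, ∃ g ∈ tgrp G.hs ⊤, (L : Submodule F V) =
      Submodule.map (g : V →ₗ[F] V) (Submodule.span F {e, a}) := by
    rintro ⟨_, e2, a2, T2, rfl⟩
    obtain ⟨g, hg, h⟩ := G.line_move T T2
    exact ⟨g, hg, h.symm⟩
  choose g hg hgL using h1
  refine card_le_relIndex M _ g hg ?_
  intro L L' h
  apply Subtype.ext
  rw [hgL L, hgL L']
  have h2 := mem_stU.1 (hfix h)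
  rw [map_mul'] at h2
  have h3 := congrArg (Submodule.map ((g L : V ≃ₗ[F] V) : V →ₗ[F] V)) h2
  rw [map_map_inv] at h3
  exact h3.symm

theorem Glob4.relIndex_stU (G : Glob4 σ f) {e a : V} (T : TI2 σ f e a) :
    (stU (Submodule.span F {e, a})).relIndex (tgrp G.hs ⊤) = Nat.card (LN σ f) := by
  have := G.finite_G
  symm
  apply le_antisymm
  · exact G.le_of_fixU T (le_refl _)
  · have : Finite V := G.finite_V
    have : Finite (LN σ f) := by
      have h : Finite (Submodule F V) := Finite.of_injective (fun U : Submodule F V => (U : Set V)) SetLike.coe_injective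
      infer_instance
    refine Nat.card_le_card_of_injective (Quotient.lift
      (s := QuotientGroup.leftRel ((stU (Submodule.span F {e, a})).subgroupOf (tgrp G.hs ⊤)))
      (fun g => (⟨Submodule.map ((g : V ≃ₗ[F] V) : V →ₗ[F] V) (Submodule.span F {e, a}), _, _,
        T.map (tgrp_le_isom G.hs ⊤ g.2), map_pair _ _ _⟩ : LN σ f)) ?_) ?_
    · intro x y hxy
      have h1 : x⁻¹ * y ∈ (stU (Submodule.span F {e, a})).subgroupOf (tgrp G.hs ⊤) := QuotientGroup.leftRel_apply.1 hxy
      have h2 : Submodule.map (((x : V ≃ₗ[F] V)⁻¹ * (y : V ≃ₗ[F] V) : V ≃ₗ[F] V) : V →ₗ[F] V)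
        (Submodule.span F {e, a}) = Submodule.span F {e, a} := h1
      apply Subtype.ext
      show Submodule.map ((x : V ≃ₗ[F] V) : V →ₗ[F] V) (Submodule.span F {e, a}) =
        Submodule.map ((y : V ≃ₗ[F] V) : V →ₗ[F] V) (Submodule.span F {e, a})
      rw [map_mul'] at h2
      have h3 := congrArg (Submodule.map ((x : V ≃ₗ[F] V) : V →ₗ[F] V)) h2
      rw [map_map_inv] at h3
      exact h3.symm
    · rintro ⟨x⟩ ⟨y⟩ hxy
      have h1 : Submodule.map ((x : V ≃ₗ[F] V) : V →ₗ[F] V) (Submodule.span F {e, a}) =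
        Submodule.map ((y : V ≃ₗ[F] V) : V →ₗ[F] V) (Submodule.span F {e, a}) := congrArg Subtype.val hxy
      apply QuotientGroup.eq.2
      show (x : V ≃ₗ[F] V)⁻¹ * (y : V ≃ₗ[F] V) ∈ stU (Submodule.span F {e, a})
      rw [mem_stU, map_mul', ← h1, map_inv_map]

theorem Glob4.main (G : Glob4 σ f)
    (hI : Nat.card (IPt (F := F) f) = (Nat.card (EE σ) ^ 2 + 1) * (Nat.card (EE σ) ^ 3 + 1))
    (hL : Nat.card (LN σ f) = (Nat.card (EE σ) + 1) * (Nat.card (EE σ) ^ 3 + 1)) {M : Subgroup (V ≃ₗ[F] V)}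
    (hM : M ≤ tgrp G.hs ⊤) (hne : ¬ tgrp G.hs ⊤ ≤ M) :
    (Nat.card (EE σ) + 1) * (Nat.card (EE σ) ^ 3 + 1) ≤ M.relIndex (tgrp G.hs ⊤) := by
  have H := G.hs
  have hq := one_lt_q H
  by_contra hlt
  push Not at hlt
  have e0 : (Nat.card (EE σ) + 1) * (Nat.card (EE σ) ^ 3 + 1) =
      Nat.card (EE σ) ^ 4 + Nat.card (EE σ) ^ 3 + Nat.card (EE σ) + 1 := by ring
  have hS : Small4 G M := ⟨hM, by rw [e0] at hlt; omega⟩
  have hiso : M ≤ isom f := hM.trans (tgrp_le_isom G.hs ⊤)
  obtain ⟨e2, he20, he22, hZ2⟩ := G.exists_ZM hS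
  obtain ⟨e1, he10, he11, hn1⟩ : ∃ e1, e1 ≠ 0 ∧ f e1 e1 = 0 ∧ ¬ ZM σ f M e1 := by
    by_contra hcon
    push Not at hcon
    exact hne (G.top_of_all hcon)
  have h1 := ((G.dich hS he10 he11).resolve_left hn1).1
  have hsep := G.sep (M := M) he10 he11 he20 he22 (by
    intro m hm h
    obtain ⟨l, hl⟩ := Submodule.mem_span_singleton.1 h
    have hl0 : l ≠ 0 := by
      rintro rfl
      rw [zero_smul] at hl
      exact he20 (m.map_eq_zero_iff.1 hl.symm)
    have h2 := hZ2.conj H hiso hm
    rw [← hl] at h2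
    exact hn1 (h2.smul H hl0))
  have hX2 : M.relIndex (tgrp G.hs ⊤ ⊓ stL e2) ≤ Nat.card (EE σ) := by
    have := hS.s1
    omega
  obtain ⟨e', V1, S⟩ := G.ctx he20 he22
  obtain ⟨η, hη0, hη⟩ := H.exists_tr0
  have hC : S.CC η M = ⊤ := by
    rw [eq_top_iff]
    intro x _
    exact hZ2 _ (S.eta_cond hη x)
  have hQ : QQ σ f M e2 := S.QQ_of hiso hZ2 (S.W_top hη0 hη hC hX2)
  have hno : ∀ g e : V, e ≠ 0 → f e e = 0 → QQ σ f M e → f g g = 0 → ZM σ f M g → f g e = 0 := by
    intro g e he0 hee hQe hgg hg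
    by_contra hge
    exact hne (G.top_of_QQ hiso he0 hee hQe hgg hg hge)
  by_cases hfix : ∀ m ∈ M, m e2 ∈ Submodule.span F {e2}
  · have h2 := G.le_of_fix he20 he22 hfix
    rw [hI] at h2
    have h3 : (Nat.card (EE σ) + 1) * (Nat.card (EE σ) ^ 3 + 1) ≤
        (Nat.card (EE σ) ^ 2 + 1) * (Nat.card (EE σ) ^ 3 + 1) := by
      refine Nat.mul_le_mul_right _ ?_
      nlinarith
    omega
  · push Not at hfix
    obtain ⟨m0, hm0, hns⟩ := hfix
    have hiso' : ∀ m ∈ M, f (m e2) (m e2) = 0 ∧ m e2 ≠ 0 := fun m hm =>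
      ⟨by rw [hiso hm]; exact he22, fun h => he20 (m.map_eq_zero_iff.1 h)⟩
    have hpp : ∀ m ∈ M, ∀ m' ∈ M, f (m e2) (m' e2) = 0 := by
      intro m hm m' hm'
      exact hno _ _ (hiso' m' hm').2 (hiso' m' hm').1 (hQ.conj H hiso hm') (hiso' m hm).1
        (ZM.of_QQ H (hQ.conj H hiso hm))
    have hpp1 : ∀ m ∈ M, f (m e2) e2 = 0 := fun m hm => hpp m hm 1 (one_mem _)
    have T : TI2 σ f e2 (m0 e2) := ⟨H, G.nd, he22, (hiso' m0 hm0).1, H.symm_zero (hpp1 m0 hm0), he20, hns⟩
    have h2 := G.le_of_fixU T (M := M) (by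
      intro m hm
      rw [mem_stU, map_pair]
      have h3 : m (m0 e2) = (m * m0) e2 := rfl
      refine G.eq_line (T.map (hiso hm)) T ?_ ?_ ?_ ?_
      · exact H.symm_zero (hpp1 m hm)
      · rw [h3]; exact H.symm_zero (hpp1 _ (mul_mem hm hm0))
      · exact hpp _ hm0 _ hm
      · rw [h3]; exact hpp _ hm0 _ (mul_mem hm hm0))
    rw [hL] at h2
    omega

/-- points of a line -/
theorem TI2.card_pts {e a : V} (T : TI2 σ f e a) :
    Nat.card {P : IPt (F := F) f // (P : Submodule F V) ≤ Submodule.span F {e, a}} = Nat.card F + 1 := by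
  have H := T.hs
  rw [← Finite.card_option]
  have he : e ∈ Submodule.span F {e, a} := Submodule.subset_span (by simp)
  have ha : a ∈ Submodule.span F {e, a} := Submodule.subset_span (by simp)
  have hma : Submodule.span F {a} ≤ Submodule.span F {e, a} := (Submodule.span_singleton_le_iff_mem _ _).2 ha
  have hmt : ∀ t : F, Submodule.span F {e + t • a} ≤ Submodule.span F {e, a} := fun t =>
    (Submodule.span_singleton_le_iff_mem _ _).2 (Submodule.add_mem _ he (Submodule.smul_mem _ _ ha))
  refine (Nat.card_congr (Equiv.ofBijective (fun p : Option F => match p with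
    | none => (⟨⟨Submodule.span F {a}, a, T.a0, T.aa, rfl⟩, hma⟩ :
        {P : IPt (F := F) f // (P : Submodule F V) ≤ Submodule.span F {e, a}})
    | some t => ⟨⟨Submodule.span F {e + t • a}, _, T.pt0 t, T.ptiso t, rfl⟩, hmt t⟩) ⟨?_, ?_⟩)).symm
  · have key : ∀ t : F, Submodule.span F {a} ≠ Submodule.span F {e + t • a} := by
      intro t h
      apply T.swap_ns t
      rw [← h]
      exact Submodule.mem_span_singleton_self a
    rintro (_ | t) (_ | s) h
    · rfl
    · exact absurd (congrArg (fun z : {P : IPt (F := F) f // (P : Submodule F V) ≤ Submodule.span F {e, a}} =>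
        (z.1 : Submodule F V)) h) (key s)
    · exact absurd (congrArg (fun z : {P : IPt (F := F) f // (P : Submodule F V) ≤ Submodule.span F {e, a}} =>
        (z.1 : Submodule F V)) h).symm (key t)
    · have h1 : Submodule.span F {e + t • a} = Submodule.span F {e + s • a} :=
        congrArg (fun z : {P : IPt (F := F) f // (P : Submodule F V) ≤ Submodule.span F {e, a}} =>
        (z.1 : Submodule F V)) h
      have h2 : e + t • a ∈ Submodule.span F {e + s • a} := by
        rw [← h1]; exact Submodule.mem_span_singleton_self _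
      by_contra hne
      have hts : t - s ≠ 0 := fun h => hne (by rw [sub_eq_zero.1 h])
      apply T.swap_ns s
      have h3 : a = (t - s)⁻¹ • ((e + t • a) - (e + s • a)) := by
        have : (e + t • a) - (e + s • a) = (t - s) • a := by module
        rw [this, smul_smul, inv_mul_cancel₀ hts, one_smul]
      have h4 := Submodule.smul_mem _ (t - s)⁻¹ (Submodule.sub_mem _ h2 (Submodule.mem_span_singleton_self (e + s • a)))
      rwa [← h3] at h4
  · rintro ⟨⟨_, v, hv0, hvv, rfl⟩, hv⟩
    have hv1 : v ∈ Submodule.span F {e, a} := hv (Submodule.mem_span_singleton_self v)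
    obtain ⟨α, β, rfl⟩ := Submodule.mem_span_pair.1 hv1
    by_cases hα : α = 0
    · subst hα
      refine ⟨none, ?_⟩
      apply Subtype.ext
      apply Subtype.ext
      show Submodule.span F {a} = Submodule.span F {(0 : F) • e + β • a}
      rw [zero_smul, zero_add] at hv0 ⊢
      have hβ : β ≠ 0 := by rintro rfl; exact hv0 (zero_smul _ _)
      exact (span_smul' hβ).symm
    · refine ⟨some (β / α), ?_⟩
      apply Subtype.ext
      apply Subtype.ext
      show Submodule.span F {e + (β / α) • a} = Submodule.span F {α • e + β • a}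
      have h3 : α • e + β • a = α • (e + (β / α) • a) := by
        rw [smul_add, smul_smul, mul_div_cancel₀ _ hα]
      rw [h3]
      exact (span_smul' hα).symm

/-- lines through a point -/
theorem Glob4.card_lines (G : Glob4 σ f) {e : V} (he0 : e ≠ 0) (hee : f e e = 0) :
    Nat.card {L : LN σ f // Submodule.span F {e} ≤ (L : Submodule F V)} = Nat.card (EE σ) + 1 := by
  have H := G.hs
  obtain ⟨e', V1, S⟩ := G.ctx he0 hee
  obtain ⟨η, hη0, hη⟩ := H.exists_tr0
  have hση : σ η = -η := eq_neg_of_add_eq_zero_right hη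
  obtain ⟨a, ha, b, hb, ha0, hb0, haa, hbb, hab⟩ := S.exists_pair
  have hba : f b a = 1 := by rw [H.herm, hab, map_one]
  have hns : ∀ u ∈ V1, u ≠ 0 → u ∉ Submodule.span F {e} := by
    intro u hu hu0 h
    obtain ⟨k, hk⟩ := Submodule.mem_span_singleton.1 h
    have h3 := congrArg (fun x => f x e') hk
    simp only [H.smul_left, S.ep, S.perp_e' hu, mul_one] at h3
    rw [h3, zero_smul] at hk
    exact hu0 hk.symm
  have T0 : TI2 σ f e a := ⟨H, G.nd, hee, haa, S.perp_e2 ha, he0, hns a ha ha0⟩
  have hbc : ∀ c : F, c + σ c = 0 → TI2 σ f e (b + c • a) := by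
    intro c hc
    refine ⟨H, G.nd, hee, ?_, S.perp_e2 (V1.add_mem hb (V1.smul_mem _ ha)), he0,
      hns _ (V1.add_mem hb (V1.smul_mem _ ha)) ?_⟩
    · simp only [H.add_left, H.add_right, H.smul_left, H.smul_right, haa, hbb, hab, hba]
      linear_combination hc
    · intro h
      have h4 : f (b + c • a) a = 0 := by rw [h, H.zero_left]
      rw [H.add_left, H.smul_left, hba, haa] at h4
      simp at h4
  have hηx : ∀ x : EE σ, η * (x : F) + σ (η * x) = 0 := fun x => S.eta_cond hη x
  rw [← Finite.card_option]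
  have hmem : ∀ u : V, Submodule.span F {e} ≤ Submodule.span F {e, u} := fun u =>
    (Submodule.span_singleton_le_iff_mem _ _).2 (Submodule.subset_span (by simp))
  refine (Nat.card_congr (Equiv.ofBijective (fun p : Option (EE σ) => match p with
    | none => (⟨⟨Submodule.span F {e, a}, e, a, T0, rfl⟩, hmem a⟩ :
        {L : LN σ f // Submodule.span F {e} ≤ (L : Submodule F V)})
    | some x => ⟨⟨Submodule.span F {e, b + (η * x) • a}, e, _, hbc _ (hηx x), rfl⟩, hmem _⟩) ⟨?_, ?_⟩)).symm
  · have key : ∀ c, c + σ c = 0 → Submodule.span F {e, a} ≠ Submodule.span F {e, b + c • a} := by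
      intro c hc h
      have h1 : a ∈ Submodule.span F {e, b + c • a} := by
        rw [← h]; exact Submodule.subset_span (by simp)
      have h2 := (hbc c hc).perp_span h1 (Submodule.subset_span (show b + c • a ∈ ({e, b + c • a} : Set V) by simp))
      rw [H.add_right, H.smul_right, hab, haa] at h2
      simp at h2
    rintro (_ | x) (_ | y) h
    · rfl
    · exact absurd (congrArg (fun z : {L : LN σ f // Submodule.span F {e} ≤ (L : Submodule F V)} =>
        (z.1 : Submodule F V)) h) (key _ (hηx y))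
    · exact absurd (congrArg (fun z : {L : LN σ f // Submodule.span F {e} ≤ (L : Submodule F V)} =>
        (z.1 : Submodule F V)) h).symm (key _ (hηx x))
    · have h1 : Submodule.span F {e, b + (η * x) • a} = Submodule.span F {e, b + (η * y) • a} :=
        congrArg (fun z : {L : LN σ f // Submodule.span F {e} ≤ (L : Submodule F V)} =>
          (z.1 : Submodule F V)) h
      have h2 : b + (η * x) • a ∈ Submodule.span F {e, b + (η * y) • a} := by
        rw [← h1]; exact Submodule.subset_span (by simp)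
      have h3 := (hbc _ (hηx y)).perp_span h2
        (Submodule.subset_span (show b + (η * y) • a ∈ ({e, b + (η * y) • a} : Set V) by simp))
      have hy : σ (y : F) = y := y.2
      simp only [H.add_left, H.add_right, H.smul_left, H.smul_right, haa, hbb, hab, hba, map_mul, hση, hy] at h3
      have h4 : η * ((x : F) - y) = 0 := by linear_combination h3
      rw [Subtype.ext (sub_eq_zero.1 ((mul_eq_zero.1 h4).resolve_left hη0))]
  · rintro ⟨⟨_, x, y, T, rfl⟩, hex⟩
    have heL : e ∈ Submodule.span F {x, y} := hex (Submodule.mem_span_singleton_self e)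
    have hxL : x ∈ Submodule.span F {x, y} := Submodule.subset_span (by simp)
    have hyL : y ∈ Submodule.span F {x, y} := Submodule.subset_span (by simp)
    obtain ⟨z, hzL, hz⟩ : ∃ z ∈ Submodule.span F {x, y}, z ∉ Submodule.span F {e} := by
      by_contra hcon
      push Not at hcon
      obtain ⟨k, hk⟩ := Submodule.mem_span_singleton.1 (hcon x hxL)
      obtain ⟨l, hl⟩ := Submodule.mem_span_singleton.1 (hcon y hyL)
      have hk0 : k ≠ 0 := by
        rintro rfl
        rw [zero_smul] at hk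
        exact T.e0 hk.symm
      apply T.ns
      rw [Submodule.mem_span_singleton]
      exact ⟨l / k, by rw [← hk, smul_smul, div_mul_cancel₀ _ hk0, hl]⟩
    obtain ⟨z1, hz1, hd⟩ := S.decomp z
    rw [T.perp_span hzL heL, zero_smul, add_zero] at hd
    have hz1L : z1 ∈ Submodule.span F {x, y} := by
      have : z1 = z - f z e' • e := by rw [eq_sub_iff_add_eq, add_comm]; exact hd.symm
      rw [this]
      exact Submodule.sub_mem _ hzL (Submodule.smul_mem _ _ heL)
    have hz10 : z1 ≠ 0 := by
      rintro rfl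
      apply hz
      rw [hd, add_zero]
      exact Submodule.smul_mem _ _ (Submodule.mem_span_singleton_self e)
    have hzz := T.perp_span hz1L hz1L
    by_cases h1 : f z1 a = 0
    · refine ⟨none, ?_⟩
      apply Subtype.ext
      apply Subtype.ext
      show Submodule.span F {e, a} = Submodule.span F {x, y}
      obtain ⟨k, hk⟩ := Submodule.mem_span_singleton.1 (S.ti1 ha ha0 haa hz1 h1)
      have hk0 : k ≠ 0 := by
        rintro rfl
        rw [zero_smul] at hk
        exact hz10 hk.symm
      have haL : a ∈ Submodule.span F {x, y} := by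
        have : a = k⁻¹ • z1 := by rw [← hk, smul_smul, inv_mul_cancel₀ hk0, one_smul]
        rw [this]
        exact Submodule.smul_mem _ _ hz1L
      exact G.eq_line T0 T (T.perp_span hxL heL) (T.perp_span hxL haL) (T.perp_span hyL heL) (T.perp_span hyL haL)
    · have hσ1 := H.sigma_ne h1
      have hbas := S.basis1 ha hb haa hbb hab hz1
      have hcc : f z1 b / f z1 a + σ (f z1 b / f z1 a) = 0 := by
        have h2 : f z1 z1 = f z1 b * σ (f z1 a) + f z1 a * σ (f z1 b) := by
          conv_lhs => rw [hbas]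
          simp only [H.add_left, H.add_right, H.smul_left, H.smul_right, haa, hbb, hab, hba]
          ring
        rw [hzz] at h2
        rw [map_div₀]
        field_simp
        linear_combination -h2
      set c := f z1 b / f z1 a with hc
      have hcx : σ (c / η) = c / η := by
        rw [map_div₀, hση, eq_neg_of_add_eq_zero_right hcc, neg_div_neg_eq]
      refine ⟨some ⟨c / η, hcx⟩, ?_⟩
      apply Subtype.ext
      apply Subtype.ext
      show Submodule.span F {e, b + (η * (c / η)) • a} = Submodule.span F {x, y}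
      rw [mul_div_cancel₀ _ hη0]
      have hL : b + c • a ∈ Submodule.span F {x, y} := by
        have h3 : (f z1 a)⁻¹ • z1 = (f z1 a)⁻¹ • (f z1 b • a + f z1 a • b) := congrArg _ hbas
        have : b + c • a = (f z1 a)⁻¹ • z1 := by
          rw [h3, smul_add, smul_smul, smul_smul, inv_mul_cancel₀ h1, one_smul, hc, add_comm, div_eq_inv_mul]
        rw [this]
        exact Submodule.smul_mem _ _ hz1L
      exact G.eq_line (hbc c hcc) T (T.perp_span hxL heL) (T.perp_span hxL hL) (T.perp_span hyL heL) (T.perp_span hyL hL)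

theorem Glob4.card_LN (G : Glob4 σ f)
    (hI : Nat.card (IPt (F := F) f) = (Nat.card (EE σ) ^ 2 + 1) * (Nat.card (EE σ) ^ 3 + 1)) :
    Nat.card (LN σ f) = (Nat.card (EE σ) + 1) * (Nat.card (EE σ) ^ 3 + 1) := by
  have := G.finite_V
  have hfin : Finite (Submodule F V) := Finite.of_injective (fun U : Submodule F V => (U : Set V)) SetLike.coe_injective
  have : Finite (LN σ f) := inferInstance
  have : Finite (IPt (F := F) f) := inferInstance
  have h1 := double_count (A := IPt (F := F) f) (B := LN σ f) (fun P L => (P : Submodule F V) ≤ (L : Submodule F V))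
    (Nat.card (EE σ) ^ 2 + 1) (Nat.card (EE σ) + 1) ?_ ?_
  · rw [hI] at h1
    have h2 : 0 < Nat.card (EE σ) ^ 2 + 1 := by positivity
    apply Nat.eq_of_mul_eq_mul_left h2
    rw [h1]; ring
  · rintro ⟨_, e, a, T, rfl⟩
    rw [← card_F G.hs]
    exact T.card_pts
  · rintro ⟨_, v, hv0, hvv, rfl⟩
    exact G.card_lines hv0 hvv

end Cfsg.Agent.Lib.MinU
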