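import Cfsg.Agent.Lib.MulSpTwo
import Cfsg.Agent.Lib.ClOmega

/-! The defining characteristic part of the multiplier of orthogonal groups: equivariant lifts of root elements
(helper35). -/

set_option autoImplicit false

namespace Cfsg.Agent.Lib.MulOrth

open Cfsg.Agent.Lib.Quad Cfsg.Agent.Lib.ClOrthSiegel Cfsg.Agent.Lib.UCEBase QuadraticMap Module
open Cfsg.Agent.Lib.PresBC (Zs ng ng_ng ng_ne ng_inj)
open scoped commutatorElement

section basic
variable {F V : Type*} [Field F] [AddCommGroup V] [Module F V] [FiniteDimensional F V] {Q : QuadraticForm F V}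

/-- signed hyperbolic frames -/
structure SF (Q : QuadraticForm F V) {m : ℕ} (v : Zs m → V) : Prop where
  q0 : ∀ a, Q (v a) = 0
  pl : ∀ a b, polar Q (v a) (v b) = if b = ng a then 1 else 0

/-- the hypotheses on the group -/
structure OH (hQ : Nd Q) : Prop where
  hR : R Q = O Q
  hT : T hQ = Om Q
  rr : ∀ u v : V, Q u ≠ 0 → Q u = Q v → refl Q u * refl Q v ∈ Om Q

variable {hQ : Nd Q} (hO : OH hQ) {m : ℕ} {v : Zs m → V} (hv : SF Q v)

omit [FiniteDimensional F V] in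
theorem SF.pn (hv : SF Q v) (a : Zs m) : polar Q (v a) (v (ng a)) = 1 := by rw [hv.pl, if_pos rfl]
omit [FiniteDimensional F V] in
theorem SF.pn' (hv : SF Q v) (a : Zs m) : polar Q (v (ng a)) (v a) = 1 := by rw [hv.pl, ng_ng, if_pos rfl]
omit [FiniteDimensional F V] in
theorem SF.p0 (hv : SF Q v) {a b : Zs m} (h : b ≠ ng a) : polar Q (v a) (v b) = 0 := by rw [hv.pl, if_neg h]
omit [FiniteDimensional F V] in
theorem SF.self (hv : SF Q v) (a : Zs m) : polar Q (v a) (v a) = 0 := hv.p0 (ng_ne a).symm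

/-- Siegel elements in `Om` -/
noncomputable def Eo (hO : OH hQ) (z y : V) : Om Q := ⟨E hQ z y, by rw [← hO.hT]; exact E_mem_T hQ z y⟩

theorem Om_ext {g h : Om Q} (hgh : ∀ x, (g : V ≃ₗ[F] V) x = (h : V ≃ₗ[F] V) x) : g = h :=
  Subtype.ext (LinearEquiv.ext hgh)

theorem Om_mul (g h : Om Q) (x : V) : ((g * h : Om Q) : V ≃ₗ[F] V) x = (g : V ≃ₗ[F] V) ((h : V ≃ₗ[F] V) x) := rfl
theorem Om_inv (g : Om Q) (x : V) : ((g⁻¹ : Om Q) : V ≃ₗ[F] V) ((g : V ≃ₗ[F] V) x) = x := (g : V ≃ₗ[F] V).symm_apply_apply x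
theorem Om_inv' (g : Om Q) (x : V) : (g : V ≃ₗ[F] V) (((g⁻¹ : Om Q) : V ≃ₗ[F] V) x) = x := (g : V ≃ₗ[F] V).apply_symm_apply x
theorem Om_inv_of {g : Om Q} {x y : V} (h : (g : V ≃ₗ[F] V) x = y) : ((g⁻¹ : Om Q) : V ≃ₗ[F] V) y = x := by
  rw [← h, Om_inv]

omit [FiniteDimensional F V] in
theorem Om_le_O : Om Q ≤ O Q := Subgroup.commutator_le_self _
theorem OmQ (g : Om Q) (x : V) : Q ((g : V ≃ₗ[F] V) x) = Q x := Om_le_O g.2 x
theorem OmP (g : Om Q) (x y : V) : polar Q ((g : V ≃ₗ[F] V) x) ((g : V ≃ₗ[F] V) y) = polar Q x y := O_polar (Om_le_O g.2) x y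

theorem Eo_apply {z y : V} (hz : Q z = 0) (hzy : polar Q z y = 0) (x : V) :
    (Eo hO z y : V ≃ₗ[F] V) x = x + polar Q z x • y - polar Q y x • z - (Q y * polar Q z x) • z := E_apply hQ hz hzy x

/-- fixed vectors -/
theorem Eo_fix {z y : V} (hz : Q z = 0) (hzy : polar Q z y = 0) {x : V} (h1 : polar Q z x = 0) (h2 : polar Q y x = 0) :
    (Eo hO z y : V ≃ₗ[F] V) x = x := by
  rw [Eo_apply hO hz hzy, h1, h2]; simp

/-- vectors orthogonal to the centre -/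
theorem Eo_perp {z y : V} (hz : Q z = 0) (hzy : polar Q z y = 0) {x : V} (h1 : polar Q z x = 0) :
    (Eo hO z y : V ≃ₗ[F] V) x = x - polar Q y x • z := by
  rw [Eo_apply hO hz hzy, h1]; simp

theorem Eo_conj (g : Om Q) (z y : V) : g * Eo hO z y * g⁻¹ = Eo hO ((g : V ≃ₗ[F] V) z) ((g : V ≃ₗ[F] V) y) :=
  Subtype.ext (E_conj hQ (Om_le_O g.2) z y)

theorem Eo_add {z y y' : V} (hzy : polar Q z y = 0) (hzy' : polar Q z y' = 0) : Eo hO z y * Eo hO z y' = Eo hO z (y + y') :=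
  Subtype.ext (E_add hQ hzy hzy')
theorem Eo_zero (z : V) : Eo hO z 0 = 1 := Subtype.ext (E_zero hQ z)
theorem Eo_inv {z y : V} (hzy : polar Q z y = 0) : (Eo hO z y)⁻¹ = Eo hO z (-y) := Subtype.ext (E_inv hQ hzy)
theorem Eo_swap {z y : V} (hz : Q z = 0) (hy : Q y = 0) (hzy : polar Q z y = 0) : Eo hO z y = Eo hO y (-z) := Subtype.ext (E_swap hQ hz hy hzy)
theorem Eo_smul {c : F} (hc : c ≠ 0) (z y : V) : Eo hO (c • z) y = Eo hO z (c • y) := Subtype.ext (E_smul hQ hc z y)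
theorem Eo_add_smul {z y : V} (hz : Q z = 0) (hzy : polar Q z y = 0) (c : F) : Eo hO z (y + c • z) = Eo hO z y :=
  Subtype.ext (E_add_smul hQ hz hzy c)
theorem Eo_smul_self (z : V) (c : F) : Eo hO z (c • z) = 1 := Subtype.ext (E_smul_self hQ z c)

/-- an element fixing `z` and `y` commutes with `Eo z y` -/
theorem Eo_comm {g : Om Q} {z y : V} (h1 : (g : V ≃ₗ[F] V) z = z) (h2 : (g : V ≃ₗ[F] V) y = y) : Eo hO z y * g = g * Eo hO z y := by
  have := Eo_conj hO g z y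
  rw [h1, h2] at this
  exact (mul_inv_eq_iff_eq_mul.1 this).symm

/-- the basic commutator -/
theorem Eo_cm {z w x x' : V} (hz : Q z = 0) (hw : Q w = 0) (hzw : polar Q z w = 0) (hzx : polar Q z x = 0) (hzx' : polar Q z x' = 0)
    (hwx : polar Q w x = 0) (hwx' : polar Q w x' = 0) (hxx : polar Q x x' = 1) (b : F) :
    Eo hO z (b • x) * Eo hO w x' * (Eo hO z (b • x))⁻¹ * (Eo hO w x')⁻¹ = Eo hO z (b • w) := by
  have hzb : polar Q z (b • x) = 0 := by rw [polar_smul_right, hzx, smul_zero]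
  have e1 : (Eo hO z (b • x) : V ≃ₗ[F] V) w = w := by
    rw [Eo_fix hO hz hzb hzw]
    rw [polar_smul_left, polar_comm, hwx, smul_zero]
  have e2 : (Eo hO z (b • x) : V ≃ₗ[F] V) x' = x' + (-b) • z := by
    rw [Eo_perp hO hz hzb hzx', polar_smul_left, hxx, smul_eq_mul, mul_one, sub_eq_add_neg, neg_smul]
  have hwz : polar Q w z = 0 := by rw [polar_comm, hzw]
  rw [Eo_conj, e1, e2, ← Eo_add hO hwx' (by rw [polar_smul_right, hwz, smul_zero])]
  have e3 : Eo hO w ((-b) • z) = Eo hO z (b • w) := by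
    by_cases hb : b = 0
    · rw [hb, neg_zero, zero_smul, zero_smul, Eo_zero, Eo_zero]
    · rw [neg_smul, ← Eo_swap hO (by rw [Q_smul, hz, mul_zero]) hw (by rw [polar_smul_left, hzw, smul_zero]), Eo_smul hO hb]
  rw [e3]
  have e4 := Eo_comm hO (g := Eo hO w x') (z := z) (y := b • w) (by rw [Eo_fix hO hw hwx' hwz (by rw [polar_comm, hzx'])])
    (by rw [map_smul, Eo_perp hO hw hwx' (by rw [polar_self', hw, mul_zero]), polar_comm, hwx', zero_smul, sub_zero])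
  rw [← e4, mul_inv_cancel_right]

/-! ### explicit elements -/

omit [FiniteDimensional F V] in
include hv in
theorem Q_pm (a : Zs m) (c : F) : Q (v a - c • v (ng a)) = -c := by
  rw [Q_sub, hv.q0, Q_smul, hv.q0, polar_smul_right, hv.pn]; simp

omit [FiniteDimensional F V] in
include hv in
theorem refl_pl (a : Zs m) {c : F} (hc : c ≠ 0) : refl Q (v a - c • v (ng a)) (v a) = c • v (ng a) := by
  have h1 : Q (v a - c • v (ng a)) ≠ 0 := by rw [Q_pm hv]; exact neg_ne_zero.2 hc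
  rw [refl_apply h1, Q_pm hv, polar_sub_left, polar_smul_left, hv.self, hv.pn', smul_eq_mul, mul_one, zero_sub,
    inv_mul_cancel₀ (neg_ne_zero.2 hc), one_smul]
  abel

omit [FiniteDimensional F V] in
include hv in
theorem refl_pl' (a : Zs m) {c : F} (hc : c ≠ 0) : refl Q (v a - c • v (ng a)) (v (ng a)) = c⁻¹ • v a := by
  have h1 := refl_pl hv a hc
  have h2 := refl_refl (Q := Q) (v a - c • v (ng a)) (v a)
  rw [h1, map_smul] at h2
  exact (eq_inv_smul_iff₀ hc).2 h2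

omit [FiniteDimensional F V] in
theorem refl_pl0 (a : Zs m) (c : F) {x : V} (h1 : polar Q (v a) x = 0) (h2 : polar Q (v (ng a)) x = 0) :
    refl Q (v a - c • v (ng a)) x = x := by
  apply refl_of_perp
  rw [polar_sub_left, polar_smul_left, h1, h2, smul_zero, sub_zero]

/-- torus element of a hyperbolic plane -/
noncomputable def tr (Q : QuadraticForm F V) (v : Zs m → V) (a : Zs m) (c : F) : V ≃ₗ[F] V :=
  refl Q (v a - (1 : F) • v (ng a)) * refl Q (v a - c • v (ng a))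

omit [FiniteDimensional F V] in
include hv in
theorem tr_a (a : Zs m) {c : F} (hc : c ≠ 0) : tr Q v a c (v a) = c • v a := by
  show refl Q (v a - (1 : F) • v (ng a)) (refl Q (v a - c • v (ng a)) (v a)) = _
  rw [refl_pl hv a hc, map_smul, refl_pl' hv a one_ne_zero, inv_one, one_smul]

omit [FiniteDimensional F V] in
include hv in
theorem tr_na (a : Zs m) {c : F} (hc : c ≠ 0) : tr Q v a c (v (ng a)) = c⁻¹ • v (ng a) := by
  show refl Q (v a - (1 : F) • v (ng a)) (refl Q (v a - c • v (ng a)) (v (ng a))) = _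
  rw [refl_pl' hv a hc, map_smul, refl_pl hv a one_ne_zero, one_smul]

omit [FiniteDimensional F V] in
theorem tr_0 (a : Zs m) (c : F) {x : V} (h1 : polar Q (v a) x = 0) (h2 : polar Q (v (ng a)) x = 0) : tr Q v a c x = x := by
  show refl Q (v a - (1 : F) • v (ng a)) (refl Q (v a - c • v (ng a)) x) = _
  rw [refl_pl0 a c h1 h2, refl_pl0 a 1 h1 h2]

omit [FiniteDimensional F V] in
theorem tr_mem_O (a : Zs m) (c : F) : tr Q v a c ∈ O Q := mul_mem (refl_mem _) (refl_mem _)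

include hO hv in
theorem th_mem (a b : Zs m) {c : F} (hc : c ≠ 0) : tr Q v a c * (tr Q v b c)⁻¹ ∈ Om Q := by
  have e1 : tr Q v a c * (tr Q v b c)⁻¹ = (refl Q (v a - (1 : F) • v (ng a)) * (refl Q (v a - c • v (ng a)) * refl Q (v b - c • v (ng b))) * (refl Q (v a - (1 : F) • v (ng a)))⁻¹) *
      (refl Q (v a - (1 : F) • v (ng a)) * refl Q (v b - (1 : F) • v (ng b))) := by
    rw [tr, tr, mul_inv_rev, refl_inv, refl_inv, refl_inv]
    have h1 := refl_mul_self (Q := Q) (v a - (1 : F) • v (ng a))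
    calc refl Q (v a - (1 : F) • v (ng a)) * refl Q (v a - c • v (ng a)) * (refl Q (v b - c • v (ng b)) * refl Q (v b - (1 : F) • v (ng b)))
        = refl Q (v a - (1 : F) • v (ng a)) * (refl Q (v a - c • v (ng a)) * refl Q (v b - c • v (ng b))) * 1 * refl Q (v b - (1 : F) • v (ng b)) := by group
      _ = _ := by rw [← h1]; group
  rw [e1]
  refine mul_mem ?_ ?_
  · rw [← hO.hT]
    apply T_conj hQ (refl_mem _)
    rw [hO.hT]
    apply hO.rr
    · rw [Q_pm hv]; exact neg_ne_zero.2 hc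
    · rw [Q_pm hv, Q_pm hv]
  · apply hO.rr
    · rw [Q_pm hv]; exact neg_ne_zero.2 one_ne_zero
    · rw [Q_pm hv, Q_pm hv]

/-- double torus elements -/
noncomputable def th (hO : OH hQ) (hv : SF Q v) (a b : Zs m) {c : F} (hc : c ≠ 0) : Om Q := ⟨_, th_mem hO hv a b hc⟩

theorem th_apply (a b : Zs m) {c : F} (hc : c ≠ 0) (x : V) :
    (th hO hv a b hc : V ≃ₗ[F] V) x = tr Q v a c ((tr Q v b c)⁻¹ x) := rfl

omit [FiniteDimensional F V] in
theorem le_inv_of {g : V ≃ₗ[F] V} {x y : V} (h : g x = y) : g⁻¹ y = x := by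
  rw [← h]; exact g.symm_apply_apply x

theorem th_a {a b : Zs m} (hba : b ≠ a) (hbn : b ≠ ng a) {c : F} (hc : c ≠ 0) : (th hO hv a b hc : V ≃ₗ[F] V) (v a) = c • v a := by
  have hab : a ≠ ng b := by rw [← ng_ng a, Ne, ng_inj]; exact fun h => hbn h.symm
  rw [th_apply, le_inv_of (tr_0 b c (hv.p0 (a := b) (b := a) hab) (hv.p0 (by rw [ng_ng]; exact hba.symm))), tr_a hv a hc]

theorem th_na {a b : Zs m} (hba : b ≠ a) (hbn : b ≠ ng a) {c : F} (hc : c ≠ 0) : (th hO hv a b hc : V ≃ₗ[F] V) (v (ng a)) = c⁻¹ • v (ng a) := by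
  rw [th_apply, le_inv_of (tr_0 b c (hv.p0 (a := b) (b := ng a) (by rw [Ne, ng_inj]; exact hba.symm)) (hv.p0 (by rw [ng_ng]; exact hbn.symm))), tr_na hv a hc]

theorem th_b {a b : Zs m} (hba : b ≠ a) (hbn : b ≠ ng a) {c : F} (hc : c ≠ 0) : (th hO hv a b hc : V ≃ₗ[F] V) (v b) = c⁻¹ • v b := by
  have h1 : (tr Q v b c)⁻¹ (v b) = c⁻¹ • v b := by
    apply le_inv_of
    rw [map_smul, tr_a hv b hc, inv_smul_smul₀ hc]
  rw [th_apply, h1, map_smul, tr_0 a c (hv.p0 hbn) (hv.p0 (by rw [ng_ng]; exact hba))]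

theorem th_nb {a b : Zs m} (hba : b ≠ a) (hbn : b ≠ ng a) {c : F} (hc : c ≠ 0) : (th hO hv a b hc : V ≃ₗ[F] V) (v (ng b)) = c • v (ng b) := by
  have h1 : (tr Q v b c)⁻¹ (v (ng b)) = c • v (ng b) := by
    apply le_inv_of
    rw [map_smul, tr_na hv b hc, smul_inv_smul₀ hc]
  have hnb : ng b ≠ a := fun h => hbn (by rw [← h, ng_ng])
  rw [th_apply, h1, map_smul, tr_0 a c (hv.p0 (by rw [Ne, ng_inj]; exact hba)) (hv.p0 (by rw [ng_ng]; exact hnb))]

theorem th_0 (a b : Zs m) {c : F} (hc : c ≠ 0) {x : V} (h1 : polar Q (v a) x = 0) (h2 : polar Q (v (ng a)) x = 0)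
    (h3 : polar Q (v b) x = 0) (h4 : polar Q (v (ng b)) x = 0) : (th hO hv a b hc : V ≃ₗ[F] V) x = x := by
  rw [th_apply, le_inv_of (tr_0 b c h3 h4), tr_0 a c h1 h2]

/-- double swap -/
noncomputable def sw (hO : OH hQ) (hv : SF Q v) (a b : Zs m) : Om Q :=
  ⟨refl Q (v a - (1 : F) • v (ng a)) * refl Q (v b - (1 : F) • v (ng b)), by
    apply hO.rr
    · rw [Q_pm hv]; exact neg_ne_zero.2 one_ne_zero
    · rw [Q_pm hv, Q_pm hv]⟩

theorem sw_a {a b : Zs m} (hba : b ≠ a) (hbn : b ≠ ng a) : (sw hO hv a b : V ≃ₗ[F] V) (v a) = v (ng a) := by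
  have hab : a ≠ ng b := by rw [← ng_ng a, Ne, ng_inj]; exact fun h => hbn h.symm
  show refl Q (v a - (1 : F) • v (ng a)) (refl Q (v b - (1 : F) • v (ng b)) (v a)) = _
  rw [refl_pl0 b 1 (hv.p0 hab) (hv.p0 (by rw [ng_ng]; exact hba.symm)), refl_pl hv a one_ne_zero, one_smul]

theorem sw_na {a b : Zs m} (hba : b ≠ a) (hbn : b ≠ ng a) : (sw hO hv a b : V ≃ₗ[F] V) (v (ng a)) = v a := by
  show refl Q (v a - (1 : F) • v (ng a)) (refl Q (v b - (1 : F) • v (ng b)) (v (ng a))) = _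
  rw [refl_pl0 b 1 (hv.p0 (by rw [Ne, ng_inj]; exact hba.symm)) (hv.p0 (by rw [ng_ng]; exact hbn.symm)), refl_pl' hv a one_ne_zero, inv_one, one_smul]

theorem sw_0 (a b : Zs m) {x : V} (h1 : polar Q (v a) x = 0) (h2 : polar Q (v (ng a)) x = 0)
    (h3 : polar Q (v b) x = 0) (h4 : polar Q (v (ng b)) x = 0) : (sw hO hv a b : V ≃ₗ[F] V) x = x := by
  show refl Q (v a - (1 : F) • v (ng a)) (refl Q (v b - (1 : F) • v (ng b)) x) = _
  rw [refl_pl0 b 1 h3 h4, refl_pl0 a 1 h1 h2]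

end basic

section cl
variable {Γ G : Type*} [Group Γ] [Group G] {σ : Γ →* G} (hσ : CE σ)

theorem cl_cmm {g p q : G} (h1 : g * p = p * g) (h2 : g * q = q * g) : cl hσ g (p * q * p⁻¹ * q⁻¹) = 1 := by
  have h3 := cl_cm_eq_one hσ (g := g) (p := p⁻¹) (q := q⁻¹) (by
    rw [eq_inv_mul_iff_mul_eq, ← mul_assoc, ← h1, mul_inv_cancel_right]) (by
    rw [eq_inv_mul_iff_mul_eq, ← mul_assoc, ← h2, mul_inv_cancel_right])
  have h4 : cm p⁻¹ q⁻¹ = p * q * p⁻¹ * q⁻¹ := by rw [cm, inv_inv, inv_inv]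
  rwa [h4] at h3

theorem cl_mulc {g p q : G} (h1 : g * p = p * g) : cl hσ g (p * q) = cl hσ g p * cl hσ g q := by
  rw [cl_mul_right hσ (by rw [cm_eq_one_iff.2 h1, cl_one_right])]
  exact Subgroup.mem_center_iff.1 (cl_mem_center hσ h1) _

theorem cl_invc {g p : G} (h1 : g * p = p * g) : cl hσ g p⁻¹ = (cl hσ g p)⁻¹ := by
  have h2 := cl_mulc hσ (g := g) (p := p) (q := p⁻¹) h1
  rw [mul_inv_cancel, cl_one_right] at h2
  exact eq_inv_of_mul_eq_one_right h2.symm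

theorem cl_mem_ker {g p : G} (h1 : g * p = p * g) : cl hσ g p ∈ σ.ker := by
  rw [MonoidHom.mem_ker, map_cl, cm_eq_one_iff.2 h1]

/-- elements of order prime to `p` -/
theorem cl_coprime {g h : G} {p : ℕ} (hp : IsPGroup p σ.ker) (hc : g * h = h * g) {n : ℕ} (hn : h ^ n = 1) (hpn : n.Coprime p) :
    cl hσ g h = 1 := by
  have h1 : ∀ k : ℕ, cl hσ g (h ^ k) = cl hσ g h ^ k ∧ g * h ^ k = h ^ k * g := by
    intro k
    induction k with
    | zero => rw [pow_zero, pow_zero, cl_one_right, mul_one, one_mul]; exact ⟨rfl, rfl⟩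
    | succ k ih =>
      refine ⟨?_, ?_⟩
      · rw [pow_succ, cl_mulc hσ ih.2, ih.1, pow_succ]
      · rw [pow_succ, ← mul_assoc, ih.2, mul_assoc, hc, mul_assoc]
  have h2 := (h1 n).1
  rw [hn, cl_one_right] at h2
  obtain ⟨k, hk⟩ := hp ⟨_, cl_mem_ker hσ hc⟩
  have h3 : cl hσ g h ^ p ^ k = 1 := by simpa using congrArg Subtype.val hk
  have h4 := Nat.dvd_gcd (orderOf_dvd_of_pow_eq_one h2.symm) (orderOf_dvd_of_pow_eq_one h3)
  rw [(hpn.pow_right k).gcd_eq_one, Nat.dvd_one, orderOf_eq_one_iff] at h4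
  exact h4

end cl

section fix
variable {F V : Type*} [Field F] [AddCommGroup V] [Module F V] [FiniteDimensional F V] {Q : QuadraticForm F V}
  {hQ : Nd Q} (hO : OH hQ) {m : ℕ} {v : Zs m → V} (hv : SF Q v) {Γ : Type*} [Group Γ] {σ : Γ →* Om Q} (hσ : CE σ)

/-- orthogonal to the planes of `a` and `b` -/
def W4 (Q : QuadraticForm F V) (v : Zs m → V) (a b : Zs m) : Submodule F V where
  carrier := {x | polar Q (v a) x = 0 ∧ polar Q (v (ng a)) x = 0 ∧ polar Q (v b) x = 0 ∧ polar Q (v (ng b)) x = 0}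
  add_mem' := by
    rintro x y ⟨h1, h2, h3, h4⟩ ⟨k1, k2, k3, k4⟩
    exact ⟨by rw [polar_add_right, h1, k1, add_zero], by rw [polar_add_right, h2, k2, add_zero],
      by rw [polar_add_right, h3, k3, add_zero], by rw [polar_add_right, h4, k4, add_zero]⟩
  zero_mem' := by simp
  smul_mem' := by
    rintro c x ⟨h1, h2, h3, h4⟩
    exact ⟨by rw [polar_smul_right, h1, smul_zero], by rw [polar_smul_right, h2, smul_zero],
      by rw [polar_smul_right, h3, smul_zero], by rw [polar_smul_right, h4, smul_zero]⟩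

omit [FiniteDimensional F V] in
include hv in
theorem mem_W4 {a b c : Zs m} (h1 : c ≠ a) (h2 : c ≠ ng a) (h3 : c ≠ b) (h4 : c ≠ ng b) : v c ∈ W4 Q v a b :=
  ⟨hv.p0 h2, hv.p0 (by rw [ng_ng]; exact h1), hv.p0 h4, hv.p0 (by rw [ng_ng]; exact h3)⟩

/-- the root element -/
noncomputable abbrev xr (hO : OH hQ) (v : Zs m → V) (a b : Zs m) : Om Q := Eo hO (v a) (v b)

include hv in
theorem xr_comm_of_fix {a b : Zs m} {g : Om Q} (h1 : (g : V ≃ₗ[F] V) (v a) = v a) (h2 : (g : V ≃ₗ[F] V) (v b) = v b) :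
    xr hO v a b * g = g * xr hO v a b := Eo_comm hO h1 h2

include hv in
theorem xr_comm_Eo {a b : Zs m} (hab : b ≠ ng a) {x : V} (h1 : polar Q (v a) x = 0) (h2 : polar Q (v b) x = 0) :
    xr hO v a b * Eo hO (v a) x = Eo hO (v a) x * xr hO v a b := by
  apply xr_comm_of_fix hO hv
  · rw [Eo_perp hO (hv.q0 a) h1 (hv.self a), polar_comm, h1, zero_smul, sub_zero]
  · rw [Eo_perp hO (hv.q0 a) h1 (hv.p0 hab), polar_comm, h2, zero_smul, sub_zero]

include hv in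
/-- differences -/
theorem N1_diff {a b : Zs m} (hab : b ≠ ng a) {h : Om Q} (h1 : (h : V ≃ₗ[F] V) (v a) = v a) (h2 : (h : V ≃ₗ[F] V) (v b) = v b) {x : V}
    (hx1 : polar Q (v a) x = 0) (hx2 : polar Q (v b) x = 0) : cl hσ (xr hO v a b) (Eo hO (v a) (x - (h : V ≃ₗ[F] V) x)) = 1 := by
  have hhx : polar Q (v a) ((h : V ≃ₗ[F] V) x) = 0 := by
    have := OmP h (v a) x
    rw [h1, hx1] at this
    exact this
  have e1 : Eo hO (v a) (x - (h : V ≃ₗ[F] V) x) = Eo hO (v a) x * h * (Eo hO (v a) x)⁻¹ * h⁻¹ := by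
    rw [mul_assoc, mul_assoc, Eo_inv hO hx1]
    have := Eo_conj hO h (v a) (-x)
    rw [h1, map_neg] at this
    rw [← mul_assoc h, this, Eo_add hO hx1 (by rw [polar_neg_right, hhx, neg_zero]), sub_eq_add_neg]
  rw [e1]
  exact cl_cmm hσ (xr_comm_Eo hO hv hab hx1 hx2) (xr_comm_of_fix hO hv h1 h2)

include hv in
theorem N1_add {a b : Zs m} (hab : b ≠ ng a) {x y : V} (hx1 : polar Q (v a) x = 0) (hx2 : polar Q (v b) x = 0) (hy1 : polar Q (v a) y = 0)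
    (h1 : cl hσ (xr hO v a b) (Eo hO (v a) x) = 1) (h2 : cl hσ (xr hO v a b) (Eo hO (v a) y) = 1) :
    cl hσ (xr hO v a b) (Eo hO (v a) (x + y)) = 1 := by
  rw [← Eo_add hO hx1 hy1, cl_mulc hσ (xr_comm_Eo hO hv hab hx1 hx2), h1, h2, one_mul]

include hv in
theorem N1_all {a b c : Zs m} (hba : b ≠ a) (hab : b ≠ ng a) (h1 : c ≠ a) (h2 : c ≠ ng a) (h3 : c ≠ b) (h4 : c ≠ ng b)
    {y₁ x₁ : V} (hy₁ : y₁ ∈ W4 Q v a b) (hx₁ : x₁ ∈ W4 Q v a b) (hy : y₁ ∈ W4 Q v c c) (hx : x₁ ∈ W4 Q v c c) (hyx : polar Q y₁ x₁ = 1)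
    {y : V} (hyW : y ∈ W4 Q v a b) : cl hσ (xr hO v a b) (Eo hO (v a) y) = 1 := by
  -- multiples of `v c`
  have k1 : ∀ c, c ≠ a → c ≠ ng a → c ≠ b → c ≠ ng b → y₁ ∈ W4 Q v c c → x₁ ∈ W4 Q v c c → ∀ t : F, cl hσ (xr hO v a b) (Eo hO (v a) (t • v c)) = 1 := by
    intro c h1 h2 h3 h4 hy hx t
    have hc := mem_W4 hv h1 h2 h3 h4
    have g1 : (Eo hO (v c) y₁ : V ≃ₗ[F] V) (v a) = v a := Eo_fix hO (hv.q0 c) hy.1 (by rw [polar_comm]; exact hc.1) (by rw [polar_comm]; exact hy₁.1)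
    have g2 : (Eo hO (v c) y₁ : V ≃ₗ[F] V) (v b) = v b := Eo_fix hO (hv.q0 c) hy.1 (by rw [polar_comm]; exact hc.2.2.1) (by rw [polar_comm]; exact hy₁.2.2.1)
    have := N1_diff hO hv hσ hab g1 g2 (x := t • x₁) (by rw [polar_smul_right, hx₁.1, smul_zero]) (by rw [polar_smul_right, hx₁.2.2.1, smul_zero])
    rw [map_smul, Eo_perp hO (hv.q0 c) hy.1 hx.1, hyx, one_smul, smul_sub, sub_sub_cancel] at this
    exact this
  -- vectors orthogonal to `v c`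
  have k2 : ∀ y ∈ W4 Q v a b, polar Q (v c) y = 0 → cl hσ (xr hO v a b) (Eo hO (v a) y) = 1 := by
    intro y hy' hcy
    have hc := mem_W4 hv h1 h2 h3 h4
    have hnc := mem_W4 hv (a := a) (b := b) (c := ng c) (by rw [← ng_ng a, Ne, ng_inj]; exact h2) (by rw [Ne, ng_inj]; exact h1)
      (by rw [← ng_ng b, Ne, ng_inj]; exact h4) (by rw [Ne, ng_inj]; exact h3)
    have g1 : (Eo hO (v c) y : V ≃ₗ[F] V) (v a) = v a := Eo_fix hO (hv.q0 c) hcy (by rw [polar_comm]; exact hc.1) (by rw [polar_comm]; exact hy'.1)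
    have g2 : (Eo hO (v c) y : V ≃ₗ[F] V) (v b) = v b := Eo_fix hO (hv.q0 c) hcy (by rw [polar_comm]; exact hc.2.2.1) (by rw [polar_comm]; exact hy'.2.2.1)
    have h5 := N1_diff hO hv hσ hab g1 g2 (x := v (ng c)) hnc.1 hnc.2.2.1
    have e1 : v (ng c) - (Eo hO (v c) y : V ≃ₗ[F] V) (v (ng c)) = -y + (polar Q y (v (ng c)) + Q y) • v c := by
      rw [Eo_apply hO (hv.q0 c) hcy, hv.pn, one_smul, mul_one, add_smul]; abel
    rw [e1] at h5
    have h6 := k1 c h1 h2 h3 h4 hy hx (-(polar Q y (v (ng c)) + Q y))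
    have hyn : -y + (polar Q y (v (ng c)) + Q y) • v c ∈ W4 Q v a b := (W4 Q v a b).add_mem ((W4 Q v a b).neg_mem hy') ((W4 Q v a b).smul_mem _ hc)
    have h7 := N1_add hO hv hσ hab hyn.1 hyn.2.2.1 (y := (-(polar Q y (v (ng c)) + Q y)) • v c) (by rw [polar_smul_right, hc.1, smul_zero]) h5 h6
    rw [neg_smul, add_neg_cancel_right] at h7
    have h8 : cl hσ (xr hO v a b) (Eo hO (v a) (-y))⁻¹ = 1 := by
      rw [cl_invc hσ (xr_comm_Eo hO hv hab (by rw [polar_neg_right, hy'.1, neg_zero]) (by rw [polar_neg_right, hy'.2.2.1, neg_zero])), h7, inv_one]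
    rwa [Eo_inv hO (by rw [polar_neg_right, hy'.1, neg_zero]), neg_neg] at h8
  have hnc := mem_W4 hv (a := a) (b := b) (c := ng c) (by rw [← ng_ng a, Ne, ng_inj]; exact h2) (by rw [Ne, ng_inj]; exact h1)
      (by rw [← ng_ng b, Ne, ng_inj]; exact h4) (by rw [Ne, ng_inj]; exact h3)
  have e2 : y = (y - polar Q (v c) y • v (ng c)) + polar Q (v c) y • v (ng c) := by abel
  rw [e2]
  have hy2 : y - polar Q (v c) y • v (ng c) ∈ W4 Q v a b := (W4 Q v a b).sub_mem hyW ((W4 Q v a b).smul_mem _ hnc)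
  refine N1_add hO hv hσ hab hy2.1 hy2.2.2.1 (by rw [polar_smul_right, hnc.1, smul_zero]) (k2 _ hy2 ?_) (k1 (ng c) ?_ ?_ ?_ ?_ ?_ ?_ _)
  · rw [polar_sub_right, polar_smul_right, hv.pn, smul_eq_mul, mul_one, sub_self]
  · rw [← ng_ng a, Ne, ng_inj]; exact h2
  · rw [Ne, ng_inj]; exact h1
  · rw [← ng_ng b, Ne, ng_inj]; exact h4
  · rw [Ne, ng_inj]; exact h3
  · exact ⟨hy.2.1, by rw [ng_ng]; exact hy.1, hy.2.1, by rw [ng_ng]; exact hy.1⟩
  · exact ⟨hx.2.1, by rw [ng_ng]; exact hx.1, hx.2.1, by rw [ng_ng]; exact hx.1⟩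

include hv in
/-- one step of the decomposition of the stabiliser -/
theorem exists_y {a : Zs m} {g : Om Q} (h1 : (g : V ≃ₗ[F] V) (v a) = v a) : ∃ y, polar Q (v a) y = 0 ∧ polar Q (v (ng a)) y = 0 ∧
    (Eo hO (v a) y : V ≃ₗ[F] V) (v (ng a)) = (g : V ≃ₗ[F] V) (v (ng a)) ∧
    ∀ x, polar Q (v a) x = 0 → polar Q (v (ng a)) x = 0 → polar Q x y = polar Q x ((g : V ≃ₗ[F] V) (v (ng a))) := by
  obtain ⟨x, hx⟩ : ∃ x, x = (g : V ≃ₗ[F] V) (v (ng a)) := ⟨_, rfl⟩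
  have hxq : Q x = 0 := by rw [hx, OmQ, hv.q0]
  have hax : polar Q (v a) x = 1 := by
    have := OmP g (v a) (v (ng a))
    rw [h1, hv.pn, ← hx] at this
    exact this
  obtain ⟨y, hy⟩ : ∃ y, y = x - v (ng a) - polar Q (v (ng a)) x • v a := ⟨_, rfl⟩
  have hy1 : polar Q (v a) y = 0 := by
    rw [hy, polar_sub_right, polar_sub_right, hax, hv.pn, polar_smul_right, hv.self, smul_zero]; ring
  have hy2 : polar Q (v (ng a)) y = 0 := by
    rw [hy, polar_sub_right, polar_sub_right, hv.self, polar_smul_right, hv.pn', smul_eq_mul]; ring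
  have hxy : x = v (ng a) + y + polar Q (v (ng a)) x • v a := by rw [hy]; abel
  have hq : polar Q (v (ng a)) x = - Q y := by
    have h2 := hxq
    rw [hxy, Q_add, Q_add, Q_smul, hv.q0, hv.q0, hy2, polar_smul_right, polar_add_left, hv.pn', polar_comm Q y, hy1, smul_eq_mul] at h2
    linear_combination h2
  refine ⟨y, hy1, hy2, ?_, ?_⟩
  · rw [Eo_apply hO (hv.q0 a) hy1, hv.pn, one_smul, mul_one, polar_comm, hy2, zero_smul, sub_zero, ← hx]
    conv_rhs => rw [hxy, hq]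
    rw [neg_smul]; abel
  · intro z hz1 hz2
    rw [hy, ← hx, polar_sub_right, polar_sub_right, polar_smul_right, polar_comm Q z (v (ng a)), hz2, polar_comm Q z (v a), hz1]; simp

include hv in
/-- **the root element has trivial pairing with the pointwise stabiliser of its line** -/
theorem cl_fix {a b c : Zs m} (hba : b ≠ a) (hab : b ≠ ng a) (h1 : c ≠ a) (h2 : c ≠ ng a) (h3 : c ≠ b) (h4 : c ≠ ng b)
    {y₁ x₁ : V} (hy₁ : y₁ ∈ W4 Q v a b) (hx₁ : x₁ ∈ W4 Q v a b) (hy : y₁ ∈ W4 Q v c c) (hx : x₁ ∈ W4 Q v c c) (hyx : polar Q y₁ x₁ = 1)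
    (hL : ∀ g : Om Q, (g : V ≃ₗ[F] V) (v a) = v a → (g : V ≃ₗ[F] V) (v (ng a)) = v (ng a) → (g : V ≃ₗ[F] V) (v b) = v b →
      (g : V ≃ₗ[F] V) (v (ng b)) = v (ng b) → cl hσ (xr hO v a b) g = 1)
    {g : Om Q} (hga : (g : V ≃ₗ[F] V) (v a) = v a) (hgb : (g : V ≃ₗ[F] V) (v b) = v b) : cl hσ (xr hO v a b) g = 1 := by
  have hnba : b ≠ ng a := hab
  have hab' : a ≠ ng b := by rw [← ng_ng a, Ne, ng_inj]; exact fun h => hab h.symm
  have hxrb : xr hO v a b = (xr hO v b a)⁻¹ := by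
    show Eo hO (v a) (v b) = (Eo hO (v b) (v a))⁻¹
    rw [Eo_inv hO (hv.p0 hab'), Eo_swap hO (hv.q0 a) (hv.q0 b) (hv.p0 hab)]
  obtain ⟨y, e1, e2, e3, e4⟩ := exists_y hO hv hga
  have hby : polar Q (v b) y = 0 := by
    rw [e4 (v b) (hv.p0 hab) (hv.p0 (by rw [ng_ng]; exact hba))]
    have := OmP g (v b) (v (ng a))
    rw [hgb, hv.p0 (by rw [Ne, ng_inj]; exact hba.symm)] at this
    exact this
  -- the first factor
  have c1 : cl hσ (xr hO v a b) (Eo hO (v a) y) = 1 := by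
    have hyd : y = (y - polar Q (v (ng b)) y • v b) + polar Q (v (ng b)) y • v b := by abel
    rw [hyd]
    have hyW : y - polar Q (v (ng b)) y • v b ∈ W4 Q v a b := by
      refine ⟨?_, ?_, ?_, ?_⟩
      · rw [polar_sub_right, polar_smul_right, e1, hv.p0 hab]; simp
      · rw [polar_sub_right, polar_smul_right, e2, hv.p0 (by rw [ng_ng]; exact hba)]; simp
      · rw [polar_sub_right, polar_smul_right, hby, hv.self]; simp
      · rw [polar_sub_right, polar_smul_right, hv.pn']; simp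
    refine N1_add hO hv hσ hab hyW.1 hyW.2.2.1 (by rw [polar_smul_right, hv.p0 hab, smul_zero]) (N1_all hO hv hσ hba hab h1 h2 h3 h4 hy₁ hx₁ hy hx hyx hyW) ?_
    have hcW := mem_W4 hv h1 h2 h3 h4
    have hnW := mem_W4 hv (a := a) (b := b) (c := ng c) (by rw [← ng_ng a, Ne, ng_inj]; exact h2) (by rw [Ne, ng_inj]; exact h1)
      (by rw [← ng_ng b, Ne, ng_inj]; exact h4) (by rw [Ne, ng_inj]; exact h3)
    rw [← Eo_cm hO (hv.q0 a) (hv.q0 b) (hv.p0 hab) hcW.1 hnW.1 hcW.2.2.1 hnW.2.2.1 (hv.pn c) (polar Q (v (ng b)) y)]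
    refine cl_cmm hσ (xr_comm_Eo hO hv hab (by rw [polar_smul_right, hcW.1, smul_zero]) (by rw [polar_smul_right, hcW.2.2.1, smul_zero])) ?_
    apply xr_comm_of_fix hO hv
    · exact Eo_fix hO (hv.q0 b) hnW.2.2.1 (hv.p0 hab') (by rw [polar_comm]; exact hnW.1)
    · exact Eo_fix hO (hv.q0 b) hnW.2.2.1 (hv.self b) (by rw [polar_comm]; exact hnW.2.2.1)
  -- remove it
  obtain ⟨g1, hg1⟩ : ∃ g1, g1 = (Eo hO (v a) y)⁻¹ * g := ⟨_, rfl⟩
  have d1 : (g1 : V ≃ₗ[F] V) (v a) = v a := by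
    rw [hg1, Om_mul, hga]
    exact Om_inv_of (Eo_fix hO (hv.q0 a) e1 (hv.self a) (by rw [polar_comm]; exact e1))
  have d2 : (g1 : V ≃ₗ[F] V) (v (ng a)) = v (ng a) := by
    rw [hg1, Om_mul]
    exact Om_inv_of e3
  have d3 : (g1 : V ≃ₗ[F] V) (v b) = v b := by
    rw [hg1, Om_mul, hgb]
    exact Om_inv_of (Eo_fix hO (hv.q0 a) e1 (hv.p0 hab) (by rw [polar_comm]; exact hby))
  obtain ⟨y', f1, f2, f3, f4⟩ := exists_y hO hv d3
  have hy'W : y' ∈ W4 Q v b a := by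
    refine ⟨f1, f2, ?_, ?_⟩
    · rw [f4 (v a) (hv.p0 hab') (hv.p0 (by rw [ng_ng]; exact hba.symm))]
      have := OmP g1 (v a) (v (ng b))
      rw [d1, hv.p0 (by rw [Ne, ng_inj]; exact hba)] at this
      exact this
    · rw [f4 (v (ng a)) (hv.p0 (by rw [Ne, ng_inj]; exact hba.symm)) (hv.p0 (by rw [Ne, ng_ng]; exact hab.symm))]
      have := OmP g1 (v (ng a)) (v (ng b))
      rw [d2, hv.p0 (by rw [ng_ng]; exact fun h => hab' h.symm)] at this
      exact this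
  have c2 : cl hσ (xr hO v a b) (Eo hO (v b) y') = 1 := by
    have h5 := N1_all hO hv hσ hba.symm hab' h3 h4 h1 h2 (y₁ := y₁) (x₁ := x₁) ⟨hy₁.2.2.1, hy₁.2.2.2, hy₁.1, hy₁.2.1⟩ ⟨hx₁.2.2.1, hx₁.2.2.2, hx₁.1, hx₁.2.1⟩ hy hx hyx hy'W
    rw [hxrb, ← cl_inv, inv_eq_one, cl_invc hσ, inv_eq_one, ← cl_inv, inv_eq_one]
    · exact h5
    · exact (xr_comm_Eo hO hv hab' hy'W.1 hy'W.2.2.1).symm
  obtain ⟨g2, hg2⟩ : ∃ g2, g2 = (Eo hO (v b) y')⁻¹ * g1 := ⟨_, rfl⟩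
  have hy'c : ∀ x, polar Q (v b) x = 0 → polar Q y' x = 0 → ((Eo hO (v b) y')⁻¹ : Om Q).1 x = x := fun x k1 k2 =>
    Om_inv_of (Eo_fix hO (hv.q0 b) hy'W.1 k1 k2)
  have k1 : (g2 : V ≃ₗ[F] V) (v a) = v a := by
    rw [hg2, Om_mul, d1]
    exact hy'c _ (hv.p0 hab') (by rw [polar_comm]; exact hy'W.2.2.1)
  have k2 : (g2 : V ≃ₗ[F] V) (v (ng a)) = v (ng a) := by
    rw [hg2, Om_mul, d2]
    exact hy'c _ (hv.p0 (by rw [Ne, ng_inj]; exact hba.symm)) (by rw [polar_comm]; exact hy'W.2.2.2)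
  have k3 : (g2 : V ≃ₗ[F] V) (v b) = v b := by
    rw [hg2, Om_mul, d3]
    exact hy'c _ (hv.self b) (by rw [polar_comm]; exact hy'W.1)
  have k4 : (g2 : V ≃ₗ[F] V) (v (ng b)) = v (ng b) := by
    rw [hg2, Om_mul]
    exact Om_inv_of f3
  have c3 := hL g2 k1 k2 k3 k4
  have e5 : g = Eo hO (v a) y * (Eo hO (v b) y' * g2) := by rw [hg2, hg1]; group
  rw [e5, cl_mulc hσ (xr_comm_Eo hO hv hab e1 hby), cl_mulc hσ, c1, c2, c3, one_mul, one_mul]
  apply xr_comm_of_fix hO hv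
  · exact Eo_fix hO (hv.q0 b) hy'W.1 (hv.p0 hab') (by rw [polar_comm]; exact hy'W.2.2.1)
  · exact Eo_fix hO (hv.q0 b) hy'W.1 (hv.self b) (by rw [polar_comm]; exact hy'W.1)

/-! ### orthogonal roots of the same plane -/

variable (CF : ∀ a b : Zs m, b ≠ a → b ≠ ng a → ∀ g : Om Q, (g : V ≃ₗ[F] V) (v a) = v a → (g : V ≃ₗ[F] V) (v b) = v b → cl hσ (xr hO v a b) g = 1)

theorem Eo_commz {z s t : V} (hs : polar Q z s = 0) (ht : polar Q z t = 0) : Eo hO z s * Eo hO z t = Eo hO z t * Eo hO z s := by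
  rw [Eo_add hO hs ht, Eo_add hO ht hs, add_comm]

include hv in
theorem ph_add {a b : Zs m} (hab : b ≠ ng a) (hnab : ng b ≠ ng a) (x y y' : F) :
    cl hσ (Eo hO (v a) (x • v b)) (Eo hO (v a) ((y + y') • v (ng b))) =
      cl hσ (Eo hO (v a) (x • v b)) (Eo hO (v a) (y • v (ng b))) * cl hσ (Eo hO (v a) (x • v b)) (Eo hO (v a) (y' • v (ng b))) := by
  have h1 : ∀ t : F, polar Q (v a) (t • v (ng b)) = 0 := fun t => by rw [polar_smul_right, hv.p0 hnab, smul_zero]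
  have h2 : polar Q (v a) (x • v b) = 0 := by rw [polar_smul_right, hv.p0 hab, smul_zero]
  rw [add_smul, ← Eo_add hO (h1 y) (h1 y'), cl_mulc hσ (Eo_commz hO h2 (h1 y))]

include hv in
theorem ph_conj {a b : Zs m} (hab : b ≠ ng a) (hnab : ng b ≠ ng a) (x y : F) (g : Om Q) :
    cl hσ (Eo hO ((g : V ≃ₗ[F] V) (v a)) (x • (g : V ≃ₗ[F] V) (v b))) (Eo hO ((g : V ≃ₗ[F] V) (v a)) (y • (g : V ≃ₗ[F] V) (v (ng b)))) =
      cl hσ (Eo hO (v a) (x • v b)) (Eo hO (v a) (y • v (ng b))) := by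
  have h1 : polar Q (v a) (y • v (ng b)) = 0 := by rw [polar_smul_right, hv.p0 hnab, smul_zero]
  have h2 : polar Q (v a) (x • v b) = 0 := by rw [polar_smul_right, hv.p0 hab, smul_zero]
  rw [← cl_conj_of_commute hσ g _ _ (Eo_commz hO h2 h1), Eo_conj, Eo_conj, map_smul, map_smul]

include hv in
theorem ph_scale {a b c : Zs m} (hba : b ≠ a) (hab : b ≠ ng a) (h1 : c ≠ a) (h2 : c ≠ ng a) (h3 : c ≠ b) (h4 : c ≠ ng b) {s : F} (hs : s ≠ 0) (x y : F) :
    cl hσ (Eo hO (v a) ((x * s) • v b)) (Eo hO (v a) ((y * s⁻¹) • v (ng b))) = cl hσ (Eo hO (v a) (x • v b)) (Eo hO (v a) (y • v (ng b))) := by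
  have hnab : ng b ≠ ng a := by rw [Ne, ng_inj]; exact hba
  have hg := ph_conj hO hv hσ hab hnab x y (th hO hv b c hs)
  have hab' : a ≠ ng b := by rw [← ng_ng a, Ne, ng_inj]; exact fun h => hab h.symm
  have hac' : a ≠ ng c := by rw [← ng_ng a, Ne, ng_inj]; exact fun h => h2 h.symm
  rw [th_a hO hv h3 h4 hs, th_na hO hv h3 h4 hs, th_0 hO hv b c hs (hv.p0 hab') (hv.p0 (by rw [ng_ng]; exact hba.symm))
    (hv.p0 hac') (hv.p0 (by rw [ng_ng]; exact h1.symm)), smul_smul, smul_smul] at hg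
  exact hg

include hv in
theorem ph_scale2 {a b c : Zs m} (hba : b ≠ a) (hab : b ≠ ng a) (h1 : c ≠ a) (h2 : c ≠ ng a) (h3 : c ≠ b) (h4 : c ≠ ng b) {s : F} (hs : s ≠ 0) (x y : F) :
    cl hσ (Eo hO (v a) ((s * x) • v b)) (Eo hO (v a) ((s * y) • v (ng b))) = cl hσ (Eo hO (v a) (x • v b)) (Eo hO (v a) (y • v (ng b))) := by
  have hnab : ng b ≠ ng a := by rw [Ne, ng_inj]; exact hba
  have hg := ph_conj hO hv hσ hab hnab x y (th hO hv a c hs)
  have hcb : b ≠ ng c := by rw [← ng_ng b, Ne, ng_inj]; exact fun h => h4 h.symm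
  rw [th_a hO hv h1 h2 hs, th_0 hO hv a c hs (hv.p0 hab) (hv.p0 (by rw [ng_ng]; exact hba))
    (hv.p0 hcb) (hv.p0 (by rw [ng_ng]; exact h3.symm)), th_0 hO hv a c hs (hv.p0 hnab) (hv.p0 (by rw [ng_ng]; intro h; exact hab (by rw [← h, ng_ng])))
    (hv.p0 (by rw [Ne, ng_inj]; exact h3.symm)) (hv.p0 (by rw [ng_ng]; exact h4.symm)), Eo_smul hO hs, Eo_smul hO hs, smul_smul, smul_smul] at hg
  exact hg

include hv in
theorem ph_swap {a b c : Zs m} (hba : b ≠ a) (hab : b ≠ ng a) (h1 : c ≠ a) (h2 : c ≠ ng a) (h3 : c ≠ b) (h4 : c ≠ ng b) (x y : F) :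
    cl hσ (Eo hO (v a) (x • v (ng b))) (Eo hO (v a) (y • v b)) = cl hσ (Eo hO (v a) (x • v b)) (Eo hO (v a) (y • v (ng b))) := by
  have hnab : ng b ≠ ng a := by rw [Ne, ng_inj]; exact hba
  have hg := ph_conj hO hv hσ hab hnab x y (sw hO hv b c)
  have hab' : a ≠ ng b := by rw [← ng_ng a, Ne, ng_inj]; exact fun h => hab h.symm
  have hac' : a ≠ ng c := by rw [← ng_ng a, Ne, ng_inj]; exact fun h => h2 h.symm
  rw [sw_a hO hv h3 h4, sw_na hO hv h3 h4, sw_0 hO hv b c (hv.p0 hab') (hv.p0 (by rw [ng_ng]; exact hba.symm))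
    (hv.p0 hac') (hv.p0 (by rw [ng_ng]; exact h1.symm))] at hg
  exact hg

include hv in
/-- `q` odd -/
theorem ph_odd (hsq : ∀ a ∈ σ.ker, a * a = 1 → a = 1) {a b c : Zs m} (hba : b ≠ a) (hab : b ≠ ng a) (h1 : c ≠ a) (h2 : c ≠ ng a) (h3 : c ≠ b) (h4 : c ≠ ng b) (x y : F) :
    cl hσ (Eo hO (v a) (x • v b)) (Eo hO (v a) (y • v (ng b))) = 1 := by
  have hnab : ng b ≠ ng a := by rw [Ne, ng_inj]; exact hba
  by_cases hx : x = 0
  · rw [hx, zero_smul, Eo_zero, cl_one_left]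
  by_cases hy : y = 0
  · rw [hy, zero_smul, Eo_zero, cl_one_right]
  have k1 := ph_scale hO hv hσ hba hab h1 h2 h3 h4 (s := x⁻¹ * y) (mul_ne_zero (inv_ne_zero hx) hy) x y
  have e1 : x * (x⁻¹ * y) = y := by field_simp
  have e2 : y * (x⁻¹ * y)⁻¹ = x := by field_simp
  rw [e1, e2] at k1
  have k2 := ph_swap hO hv hσ hba hab h1 h2 h3 h4 x y
  rw [← cl_inv hσ] at k2
  have h5 : polar Q (v a) (x • v (ng b)) = 0 := by rw [polar_smul_right, hv.p0 hnab, smul_zero]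
  have h6 : polar Q (v a) (y • v b) = 0 := by rw [polar_smul_right, hv.p0 hab, smul_zero]
  rw [k1] at k2
  refine hsq _ (cl_mem_ker hσ (Eo_commz hO (by rw [polar_smul_right, hv.p0 hab, smul_zero]) (by rw [polar_smul_right, hv.p0 hnab, smul_zero]))) ?_
  nth_rw 1 [← k2]
  exact inv_mul_cancel _

include hv in
/-- `q` even, `q > 2` -/
theorem ph_even {s : F} (hs0 : s ≠ 0) (hs1 : s ^ 2 ≠ 1) {a b c : Zs m} (hba : b ≠ a) (hab : b ≠ ng a) (h1 : c ≠ a) (h2 : c ≠ ng a) (h3 : c ≠ b) (h4 : c ≠ ng b) (x y : F) :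
    cl hσ (Eo hO (v a) (x • v b)) (Eo hO (v a) (y • v (ng b))) = 1 := by
  have hnab : ng b ≠ ng a := by rw [Ne, ng_inj]; exact hba
  have key : ∀ y, cl hσ (Eo hO (v a) (x • v b)) (Eo hO (v a) ((s ^ 2 * y) • v (ng b))) = cl hσ (Eo hO (v a) (x • v b)) (Eo hO (v a) (y • v (ng b))) := by
    intro y
    have k1 := ph_scale hO hv hσ hba hab h1 h2 h3 h4 (s := s⁻¹) (inv_ne_zero hs0) (s * x) (s * y)
    have k2 := ph_scale2 hO hv hσ hba hab h1 h2 h3 h4 hs0 x y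
    have e1 : s * x * s⁻¹ = x := by field_simp
    have e2 : s * y * s⁻¹⁻¹ = s ^ 2 * y := by rw [inv_inv]; ring
    rw [e1, e2] at k1
    rw [k1, k2]
  obtain ⟨y', hy'⟩ : ∃ y', y = s ^ 2 * y' - y' := ⟨(s ^ 2 - 1)⁻¹ * y, by
    have : s ^ 2 - 1 ≠ 0 := sub_ne_zero.2 hs1
    field_simp⟩
  have k3 := ph_add hO hv hσ hab hnab x y y'
  rw [hy', sub_add_cancel, key y'] at k3
  rw [hy']
  exact mul_eq_right.1 k3.symm

include hv CF in
/-- `q = 2` -/
theorem ph_two (two : ∀ x : F, x = 0 ∨ x = 1) {a b c : Zs m} (hba : b ≠ a) (hab : b ≠ ng a) (h1 : c ≠ a) (h2 : c ≠ ng a) (h3 : c ≠ b) (h4 : c ≠ ng b)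
    {s : Om Q} (hsa : (s : V ≃ₗ[F] V) (v a) = v a) (hsb : (s : V ≃ₗ[F] V) (v b) = v b) (hsc : (s : V ≃ₗ[F] V) (v c) = v (ng c))
    (hsc' : (s : V ≃ₗ[F] V) (v (ng c)) = v c) : cl hσ (xr hO v a c) (xr hO v a (ng c)) = 1 := by
  have vadd : ∀ x : V, x + x = 0 := fun x => by rw [← two_smul F x, MulSpTwo.two0 two, zero_smul]
  have vneg : ∀ x : V, -x = x := fun x => by rw [neg_eq_iff_add_eq_zero]; exact vadd x
  have hnab : ng b ≠ ng a := by rw [Ne, ng_inj]; exact hba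
  have hab' : a ≠ ng b := by rw [← ng_ng a, Ne, ng_inj]; exact fun h => hab h.symm
  have hca' : ng c ≠ ng a := by rw [Ne, ng_inj]; exact h1
  have hcb' : ng c ≠ ng b := by rw [Ne, ng_inj]; exact h3
  have hac' : a ≠ ng c := by rw [← ng_ng a, Ne, ng_inj]; exact fun h => h2 h.symm
  have hbc' : b ≠ ng c := by rw [← ng_ng b, Ne, ng_inj]; exact fun h => h4 h.symm
  have hinv : ∀ z y : V, polar Q z y = 0 → (Eo hO z y)⁻¹ = Eo hO z y := fun z y h => by rw [Eo_inv hO h, vneg]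
  -- the four elements
  obtain ⟨α, hα⟩ := hσ.surj (xr hO v a c)
  obtain ⟨β, hβ⟩ := hσ.surj (xr hO v b c)
  obtain ⟨γ, hγ⟩ := hσ.surj (xr hO v a (ng c))
  obtain ⟨δ, hδ⟩ := hσ.surj (xr hO v b (ng c))
  have hcom : ∀ {u g : Γ}, σ u = xr hO v a b → (σ g : V ≃ₗ[F] V) (v a) = v a → (σ g : V ≃ₗ[F] V) (v b) = v b → u * g = g * u := by
    intro u g hu hga hgb
    exact commute_of_cl hσ (CF a b hba hab (σ g) hga hgb) hu rfl
  have hfixab : ∀ d : Zs m, d ≠ ng a → d ≠ ng b → ∀ z : Zs m, z ≠ ng a → z ≠ ng b → z ≠ ng d →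
      (xr hO v z d : V ≃ₗ[F] V) (v a) = v a ∧ (xr hO v z d : V ≃ₗ[F] V) (v b) = v b := by
    intro d hd1 hd2 z hz1 hz2 hzd
    have k1 : polar Q (v z) (v d) = 0 := hv.p0 (by rw [← ng_ng d, Ne, ng_inj]; exact fun h => hzd h.symm)
    refine ⟨Eo_fix hO (hv.q0 z) k1 ?_ ?_, Eo_fix hO (hv.q0 z) k1 ?_ ?_⟩
    · exact hv.p0 (by rw [← ng_ng a, Ne, ng_inj]; exact fun h => hz1 h.symm)
    · exact hv.p0 (by rw [← ng_ng a, Ne, ng_inj]; exact fun h => hd1 h.symm)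
    · exact hv.p0 (by rw [← ng_ng b, Ne, ng_inj]; exact fun h => hz2 h.symm)
    · exact hv.p0 (by rw [← ng_ng b, Ne, ng_inj]; exact fun h => hd2 h.symm)
  have hu : σ (cm α δ) = xr hO v a b := by
    rw [map_cm, hα, hδ, cm, hinv _ _ (hv.p0 h2), hinv _ _ (hv.p0 hcb')]
    have := Eo_cm hO (z := v a) (w := v b) (x := v c) (x' := v (ng c)) (hv.q0 a) (hv.q0 b) (hv.p0 hab) (hv.p0 h2) (hv.p0 hca') (hv.p0 h4) (hv.p0 hcb') (hv.pn c) 1
    rw [one_smul, one_smul, hinv _ _ (hv.p0 h2), hinv _ _ (hv.p0 hcb')] at this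
    exact this
  have hw : σ (cm β γ) = xr hO v a b := by
    rw [map_cm, hβ, hγ, cm, hinv _ _ (hv.p0 h4), hinv _ _ (hv.p0 hca')]
    have := Eo_cm hO (z := v b) (w := v a) (x := v c) (x' := v (ng c)) (hv.q0 b) (hv.q0 a) (hv.p0 hab') (hv.p0 h4) (hv.p0 hcb') (hv.p0 h2) (hv.p0 hca') (hv.pn c) 1
    rw [one_smul, one_smul, hinv _ _ (hv.p0 h4), hinv _ _ (hv.p0 hca')] at this
    refine this.trans ?_
    rw [Eo_swap hO (hv.q0 b) (hv.q0 a) (hv.p0 hab'), vneg]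
  obtain ⟨u, hu'⟩ : ∃ u, u = cm α δ := ⟨_, rfl⟩
  obtain ⟨w, hw'⟩ : ∃ w, w = cm β γ := ⟨_, rfl⟩
  rw [← hu'] at hu
  rw [← hw'] at hw
  obtain ⟨φ, hφ⟩ : ∃ φ, φ = cm α γ := ⟨_, rfl⟩
  obtain ⟨φ', hφ'⟩ : ∃ φ', φ' = cm β δ := ⟨_, rfl⟩
  have hφc : φ = cl hσ (xr hO v a c) (xr hO v a (ng c)) := by rw [hφ, cl_eq hσ hα hγ]
  have hφc' : φ' = cl hσ (xr hO v b c) (xr hO v b (ng c)) := by rw [hφ', cl_eq hσ hβ hδ]
  have cac : xr hO v a c * xr hO v a (ng c) = xr hO v a (ng c) * xr hO v a c := Eo_commz hO (hv.p0 h2) (hv.p0 hca')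
  have cbc : xr hO v b c * xr hO v b (ng c) = xr hO v b (ng c) * xr hO v b c := Eo_commz hO (hv.p0 h4) (hv.p0 hcb')
  have hφz : φ ∈ Subgroup.center Γ := by rw [hφc]; exact cl_mem_center hσ cac
  have hφz' : φ' ∈ Subgroup.center Γ := by rw [hφc']; exact cl_mem_center hσ cbc
  -- `φ = φ'`
  have hφφ : φ = φ' := by
    obtain ⟨n, hn⟩ : ∃ n : Om Q, n = Eo hO (v (ng a)) (v b) * Eo hO (v (ng b)) (v a) := ⟨_, rfl⟩
    have p1 : polar Q (v (ng b)) (v a) = 0 := hv.p0 (by rw [ng_ng]; exact hba.symm)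
    have p2 : polar Q (v (ng a)) (v b) = 0 := hv.p0 (by rw [ng_ng]; exact hba)
    have n1 : (n : V ≃ₗ[F] V) (v b) = v a := by
      rw [hn, Om_mul, Eo_apply hO (hv.q0 _) p1, hv.pn', hv.p0 hab, hv.q0]
      simp only [one_smul, zero_smul, sub_zero, zero_mul]
      rw [map_add, Eo_fix hO (hv.q0 _) p2 p2 (hv.self b), Eo_apply hO (hv.q0 _) p2, hv.pn', hv.p0 hab', hv.q0]
      simp only [one_smul, zero_smul, sub_zero, zero_mul]
      rw [add_comm (v a) (v b), ← add_assoc, vadd, zero_add]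
    have n2 : ∀ d : Zs m, d ≠ a → d ≠ b → d ≠ ng a → d ≠ ng b → (n : V ≃ₗ[F] V) (v d) = v d := by
      intro d k1 k2 k3 k4
      rw [hn, Om_mul, Eo_fix hO (hv.q0 _) p1 (hv.p0 (by rw [ng_ng]; exact k2)) (hv.p0 k3), Eo_fix hO (hv.q0 _) p2 (hv.p0 (by rw [ng_ng]; exact k1)) (hv.p0 k4)]
    have := cl_conj_of_commute hσ n (xr hO v b c) (xr hO v b (ng c)) cbc
    rw [Eo_conj, Eo_conj, n1, n2 c h1 h3 h2 h4, n2 (ng c) (Ne.symm hac') (Ne.symm hbc') hca' hcb'] at this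
    rw [hφc, hφc']; exact this
  -- the product
  have hprod : cl hσ (xr hO v a c * xr hO v b c) (xr hO v a (ng c) * xr hO v b (ng c)) = φ := by
    obtain ⟨g, hg⟩ : ∃ g : Om Q, g = Eo hO (v (ng a)) (v b) := ⟨_, rfl⟩
    have p2 : polar Q (v (ng a)) (v b) = 0 := hv.p0 (by rw [ng_ng]; exact hba)
    have g1 : (g : V ≃ₗ[F] V) (v a) = v a + v b := by
      rw [hg, Eo_apply hO (hv.q0 _) p2, hv.pn', hv.p0 hab', hv.q0]
      simp only [one_smul, zero_smul, sub_zero, zero_mul]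
    have g2 : ∀ d : Zs m, d ≠ a → d ≠ ng b → (g : V ≃ₗ[F] V) (v d) = v d := by
      intro d k1 k4
      rw [hg, Eo_fix hO (hv.q0 _) p2 (hv.p0 (by rw [ng_ng]; exact k1)) (hv.p0 k4)]
    have e1 : ∀ d : Zs m, d ≠ ng a → d ≠ ng b → Eo hO (v a + v b) (v d) = xr hO v a d * xr hO v b d := by
      intro d k1 k2
      have q1 : polar Q (v d) (v a) = 0 := by rw [polar_comm]; exact hv.p0 k1
      have q2 : polar Q (v d) (v b) = 0 := by rw [polar_comm]; exact hv.p0 k2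
      show _ = Eo hO (v a) (v d) * Eo hO (v b) (v d)
      rw [Eo_swap hO (z := v a + v b) (by rw [Q_add, hv.q0, hv.q0, hv.p0 hab]; simp) (hv.q0 d) (by rw [polar_add_left, polar_comm, q1, polar_comm, q2, add_zero]),
        Eo_swap hO (hv.q0 a) (hv.q0 d) (hv.p0 k1), Eo_swap hO (hv.q0 b) (hv.q0 d) (hv.p0 k2),
        Eo_add hO (by rw [polar_neg_right, q1, neg_zero]) (by rw [polar_neg_right, q2, neg_zero]), neg_add]
    have := cl_conj_of_commute hσ g (xr hO v a c) (xr hO v a (ng c)) cac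
    rw [Eo_conj, Eo_conj, g1, g2 c h1 h4, g2 (ng c) (Ne.symm hac') hcb', e1 c h2 h4, e1 (ng c) hca' hcb'] at this
    rw [this, hφc]
  have hcalc : cm (α * β) (γ * δ) = u * w * (φ * φ') := by
    have z1 : ∀ x, x * φ = φ * x := fun x => Subgroup.mem_center_iff.1 hφz x
    have z2 : ∀ x, x * φ' = φ' * x := fun x => Subgroup.mem_center_iff.1 hφz' x
    have c1 : w * δ = δ * w := hcom hw (by rw [hδ]; exact (hfixab (ng c) hca' hcb' b hab (Ne.symm (fun h => (PresBC.ng_ne b) h)) (by rw [ng_ng]; exact h3.symm)).1)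
      (by rw [hδ]; exact (hfixab (ng c) hca' hcb' b hab (Ne.symm (PresBC.ng_ne b)) (by rw [ng_ng]; exact h3.symm)).2)
    have c2 : u * β = β * u := hcom hu (by rw [hβ]; exact (hfixab c h2 h4 b hab (Ne.symm (PresBC.ng_ne b)) hbc').1)
      (by rw [hβ]; exact (hfixab c h2 h4 b hab (Ne.symm (PresBC.ng_ne b)) hbc').2)
    have m1 : β * γ = γ * β * w := by rw [hw']; exact mul_eq β γ
    have m2 : α * γ = γ * α * φ := by rw [hφ]; exact mul_eq α γ
    have m3 : β * δ = δ * β * φ' := by rw [hφ']; exact mul_eq β δ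
    have m4 : α * δ = δ * α * u := by rw [hu']; exact mul_eq α δ
    have key : (α * β) * (γ * δ) = (γ * δ) * (α * β) * (u * w * (φ * φ')) := by
      calc (α * β) * (γ * δ) = α * (β * γ) * δ := by group
        _ = (α * γ) * β * (w * δ) := by rw [m1]; group
        _ = (γ * α * φ) * (β * δ) * w := by rw [m2, c1]; group
        _ = γ * α * (φ * (δ * β * φ')) * w := by rw [m3]; group
        _ = γ * (α * δ) * β * φ' * φ * w := by rw [← z1]; group
        _ = γ * δ * α * (u * β) * φ' * φ * w := by rw [m4]; group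
        _ = γ * δ * α * β * (u * (φ' * φ * w)) := by rw [c2]; group
        _ = _ := by
          have : φ' * φ * w = w * (φ * φ') := by rw [mul_assoc, ← z1 w, ← z2, mul_assoc]
          rw [this]; group
    have : (α * β)⁻¹ * (γ * δ)⁻¹ * ((α * β) * (γ * δ)) = u * w * (φ * φ') := by rw [key]; group
    rw [← this, cm]
    group
  -- the swap
  have hws : w = u⁻¹ := by
    obtain ⟨t, ht⟩ := hσ.surj s
    have k1 := cl_conj hσ s (xr hO v a c) (xr hO v b (ng c)) ht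
    rw [Eo_conj, Eo_conj, hsa, hsb, hsc, hsc', cl_eq hσ hα hδ, ← hu'] at k1
    have k2 : u * t = t * u := hcom hu (by rw [ht, hsa]) (by rw [ht, hsb])
    rw [← k2, mul_inv_cancel_right] at k1
    rw [hw', ← cl_eq hσ hβ hγ, ← cl_inv hσ, k1]
  have hφ2 : φ * φ = 1 := by
    rw [hφc, ← cl_mulc hσ cac, Eo_add hO (hv.p0 hca') (hv.p0 hca'), vadd, Eo_zero, cl_one_right]
  rw [← hφc, ← hprod, cl_eq hσ (a := α * β) (b := γ * δ) (by rw [map_mul, hα, hβ]) (by rw [map_mul, hγ, hδ]), hcalc, hws, mul_inv_cancel, one_mul, ← hφφ, hφ2]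

end fix

end Cfsg.Agent.Lib.MulOrth
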