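import Cfsg.Agent.Lib.MulOrth

/-! Lifts of the unipotent radicals of the stabilisers of singular points of orthogonal groups (helper35). -/

set_option autoImplicit false

namespace Cfsg.Agent.Lib.MulOrth

open Cfsg.Agent.Lib.Quad Cfsg.Agent.Lib.ClOrthSiegel Cfsg.Agent.Lib.UCEBase QuadraticMap Module
open Cfsg.Agent.Lib.PresBC (Zs ng ng_ng ng_ne ng_inj)

section comm
variable {F V : Type*} [Field F] [AddCommGroup V] [Module F V] [FiniteDimensional F V] {Q : QuadraticForm F V}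
  {hQ : Nd Q} (hO : OH hQ) {m : ℕ} {v : Zs m → V} (hv : SF Q v) {Γ : Type*} [Group Γ] {σ : Γ →* Om Q} (hσ : CE σ)

/-- the anisotropic part -/
def V0 (Q : QuadraticForm F V) (v : Zs m → V) : Submodule F V where
  carrier := {x | ∀ a, polar Q (v a) x = 0}
  add_mem' := fun h1 h2 a => by rw [polar_add_right, h1 a, h2 a, add_zero]
  zero_mem' := by simp
  smul_mem' := fun c x h a => by rw [polar_smul_right, h a, smul_zero]

omit [FiniteDimensional F V] in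
include hv in
theorem dec (x : V) : x - ∑ a, polar Q (v (ng a)) x • v a ∈ V0 Q v := by
  intro b
  rw [polar_sub_right]
  have h1 : polar Q (v b) (∑ a, polar Q (v (ng a)) x • v a) = ∑ a, polar Q (v (ng a)) x * polar Q (v b) (v a) := by
    have := map_sum (polarBilin Q (v b)) (fun a => polar Q (v (ng a)) x • v a) Finset.univ
    simpa using this
  rw [h1, Finset.sum_eq_single (ng b)]
  · rw [ng_ng, hv.pn, mul_one, sub_self]
  · intro a _ ha
    rw [hv.p0 ha, mul_zero]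
  · intro h; exact absurd (Finset.mem_univ _) h

/-- enough room -/
def Room (Q : QuadraticForm F V) (v : Zs m → V) : Prop := ∀ a b, b ≠ a → b ≠ ng a → ∃ c, c ≠ a ∧ c ≠ ng a ∧ c ≠ b ∧ c ≠ ng b ∧
  ∃ y x, y ∈ W4 Q v a b ∧ x ∈ W4 Q v a b ∧ y ∈ W4 Q v c c ∧ x ∈ W4 Q v c c ∧ polar Q y x = 1

/-- orthogonal roots of the same plane commute -/
def PH (hO : OH hQ) (v : Zs m → V) {Γ : Type*} [Group Γ] {σ : Γ →* Om Q} (hσ : CE σ) : Prop := ∀ a b, b ≠ a → b ≠ ng a → ∀ x y : F,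
  cl hσ (Eo hO (v a) (x • v b)) (Eo hO (v a) (y • v (ng b))) = 1

theorem B_add {z s y y' : V} (hs : polar Q z s = 0) (hy : polar Q z y = 0) (hy' : polar Q z y' = 0) :
    cl hσ (Eo hO z s) (Eo hO z (y + y')) = cl hσ (Eo hO z s) (Eo hO z y) * cl hσ (Eo hO z s) (Eo hO z y') := by
  rw [← Eo_add hO hy hy', cl_mulc hσ (Eo_commz hO hs hy)]

theorem B_conj {z s y : V} (hs : polar Q z s = 0) (hy : polar Q z y = 0) {g : Om Q} (hg : (g : V ≃ₗ[F] V) z = z) :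
    cl hσ (Eo hO z ((g : V ≃ₗ[F] V) s)) (Eo hO z ((g : V ≃ₗ[F] V) y)) = cl hσ (Eo hO z s) (Eo hO z y) := by
  have := cl_conj_of_commute hσ g _ _ (Eo_commz hO hs hy)
  rwa [Eo_conj, Eo_conj, hg] at this

theorem B_symm {z s y : V} (h : cl hσ (Eo hO z s) (Eo hO z y) = 1) : cl hσ (Eo hO z y) (Eo hO z s) = 1 := by
  rw [← cl_inv, h, inv_one]

variable (hroom : Room Q v) (hPH : PH hO v hσ)

include hv hroom hPH in
theorem B_frame1 {a b : Zs m} (hba : b ≠ a) (hab : b ≠ ng a) {y : V} (hy : polar Q (v a) y = 0) :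
    cl hσ (Eo hO (v a) (v b)) (Eo hO (v a) y) = 1 := by
  obtain ⟨c, h1, h2, h3, h4, y₁, x₁, w1, w2, w3, w4, w5⟩ := hroom a b hba hab
  have hab' : a ≠ ng b := by rw [← ng_ng a, Ne, ng_inj]; exact fun h => hab h.symm
  have hnba : ng b ≠ ng a := by rw [Ne, ng_inj]; exact hba
  obtain ⟨y', hy'⟩ : ∃ y', y' = y - polar Q (v b) y • v (ng b) - polar Q (v (ng b)) y • v b - polar Q (v (ng a)) y • v a := ⟨_, rfl⟩
  have e1 : y = y' + (polar Q (v b) y • v (ng b) + (polar Q (v (ng b)) y • v b + polar Q (v (ng a)) y • v a)) := by rw [hy']; abel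
  have hs : ∀ (r : F) (d : Zs m), d ≠ ng a → polar Q (v a) (r • v d) = 0 := fun r d h => by rw [polar_smul_right, hv.p0 h, smul_zero]
  have hW : y' ∈ W4 Q v a b := by
    refine ⟨?_, ?_, ?_, ?_⟩
    · rw [hy', polar_sub_right, polar_sub_right, polar_sub_right, hs _ _ hnba, hs _ _ hab, hs _ _ (ng_ne a).symm, hy]; simp
    · rw [hy']
      simp only [polar_sub_right, polar_smul_right, smul_eq_mul]
      rw [hv.p0 (a := ng a) (b := ng b) (by rw [ng_ng]; exact fun h => hab' h.symm), hv.p0 (a := ng a) (b := b) (by rw [ng_ng]; exact hba), hv.pn']; ring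
    · rw [hy']
      simp only [polar_sub_right, polar_smul_right, smul_eq_mul]
      rw [hv.pn, hv.self, hv.p0 hab']; ring
    · rw [hy']
      simp only [polar_sub_right, polar_smul_right, smul_eq_mul]
      rw [hv.pn', hv.self, hv.p0 (a := ng b) (b := a) (by rw [ng_ng]; exact hba.symm)]; ring
  have hb0 : polar Q (v a) (v b) = 0 := hv.p0 hab
  have s3 : polar Q (v a) (polar Q (v (ng b)) y • v b + polar Q (v (ng a)) y • v a) = 0 := by
    rw [polar_add_right, hs _ _ hab, hs _ _ (ng_ne a).symm, add_zero]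
  have s2 : polar Q (v a) (polar Q (v b) y • v (ng b) + (polar Q (v (ng b)) y • v b + polar Q (v (ng a)) y • v a)) = 0 := by
    rw [polar_add_right, s3, hs _ _ hnba, add_zero]
  have hcW := mem_W4 hv h1 h2 h3 h4
  have hnW := mem_W4 hv (a := a) (b := b) (c := ng c) (by rw [← ng_ng a, Ne, ng_inj]; exact h2) (by rw [Ne, ng_inj]; exact h1)
      (by rw [← ng_ng b, Ne, ng_inj]; exact h4) (by rw [Ne, ng_inj]; exact h3)
  have e2 : cl hσ (Eo hO (v a) (v b)) (Eo hO (v a) (polar Q (v (ng b)) y • v b)) = 1 := by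
    rw [← Eo_cm hO (hv.q0 a) (hv.q0 b) (hv.p0 hab) hcW.1 hnW.1 hcW.2.2.1 hnW.2.2.1 (hv.pn c) (polar Q (v (ng b)) y)]
    refine cl_cmm hσ (xr_comm_Eo hO hv hab (by rw [polar_smul_right, hcW.1, smul_zero]) (by rw [polar_smul_right, hcW.2.2.1, smul_zero])) ?_
    apply xr_comm_of_fix hO hv
    · exact Eo_fix hO (hv.q0 b) hnW.2.2.1 (hv.p0 hab') (by rw [polar_comm]; exact hnW.1)
    · exact Eo_fix hO (hv.q0 b) hnW.2.2.1 (hv.self b) (by rw [polar_comm]; exact hnW.2.2.1)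
  have e3 := hPH a b hba hab 1 (polar Q (v b) y)
  rw [one_smul] at e3
  rw [e1, B_add hO hσ hb0 hW.1 s2, B_add hO hσ hb0 (hs _ _ hnba) s3, B_add hO hσ hb0 (hs _ _ hab) (hs _ _ (ng_ne a).symm),
    Eo_smul_self, cl_one_right, mul_one]
  have e4 := N1_all hO hv hσ hba hab h1 h2 h3 h4 w1 w2 w3 w4 w5 hW
  unfold xr at e4
  rw [e4, e3, e2, one_mul, one_mul]

include hv hroom hPH in
theorem B_frame {a b : Zs m} (hba : b ≠ a) (hab : b ≠ ng a) {y : V} (hy : polar Q (v a) y = 0) (s : F) :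
    cl hσ (Eo hO (v a) (s • v b)) (Eo hO (v a) y) = 1 := by
  by_cases hs : s = 0
  · rw [hs, zero_smul, Eo_zero, cl_one_left]
  obtain ⟨c, h1, h2, h3, h4, -⟩ := hroom a b hba hab
  have hab' : a ≠ ng b := by rw [← ng_ng a, Ne, ng_inj]; exact fun h => hab h.symm
  have hac' : a ≠ ng c := by rw [← ng_ng a, Ne, ng_inj]; exact fun h => h2 h.symm
  have g1 : (th hO hv b c hs : V ≃ₗ[F] V) (v a) = v a := th_0 hO hv b c hs (hv.p0 hab') (hv.p0 (by rw [ng_ng]; exact hba.symm))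
    (hv.p0 hac') (hv.p0 (by rw [ng_ng]; exact h1.symm))
  obtain ⟨y', hy'⟩ : ∃ y', y' = (((th hO hv b c hs)⁻¹ : Om Q) : V ≃ₗ[F] V) y := ⟨_, rfl⟩
  have hyy : (th hO hv b c hs : V ≃ₗ[F] V) y' = y := by rw [hy', Om_inv']
  have h5 : polar Q (v a) y' = 0 := by
    have := OmP (th hO hv b c hs) (v a) y'
    rw [g1, hyy, hy] at this
    exact this.symm
  have h6 := B_conj hO hσ (hv.p0 hab) h5 g1
  rw [hyy, th_a hO hv h3 h4 hs] at h6
  rw [h6]
  exact B_frame1 hO hv hσ hroom hPH hba hab h5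

include hv hroom hPH in
/-- **the preimage of the unipotent radical is abelian** -/
theorem B_all {a b₀ : Zs m} (hb₀ : b₀ ≠ a) (hb₀' : b₀ ≠ ng a) {y y' : V} (hy : polar Q (v a) y = 0) (hy' : polar Q (v a) y' = 0) :
    cl hσ (Eo hO (v a) y) (Eo hO (v a) y') = 1 := by
  let S : AddSubgroup V :=
    { carrier := {y | polar Q (v a) y = 0 ∧ ∀ y', polar Q (v a) y' = 0 → cl hσ (Eo hO (v a) y') (Eo hO (v a) y) = 1}
      zero_mem' := ⟨by simp, fun y' h => by rw [Eo_zero, cl_one_right]⟩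
      add_mem' := by
        rintro x x' ⟨h1, h2⟩ ⟨h1', h2'⟩
        refine ⟨by rw [polar_add_right, h1, h1', add_zero], fun y' h => ?_⟩
        rw [B_add hO hσ h h1 h1', h2 y' h, h2' y' h, one_mul]
      neg_mem' := by
        rintro x ⟨h1, h2⟩
        refine ⟨by rw [polar_neg_right, h1, neg_zero], fun y' h => ?_⟩
        rw [← Eo_inv hO h1, cl_invc hσ (Eo_commz hO h h1), h2 y' h, inv_one] }
  have hf : ∀ b ≠ ng a, ∀ s : F, s • v b ∈ S := by
    intro b hb s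
    refine ⟨by rw [polar_smul_right, hv.p0 hb, smul_zero], fun y' h => ?_⟩
    by_cases hba : b = a
    · rw [hba, Eo_smul_self, cl_one_right]
    · exact B_symm hO hσ (B_frame hO hv hσ hroom hPH hba hb h s)
  have hnb₀ : ng b₀ ≠ ng a := by rw [Ne, ng_inj]; exact hb₀
  have hb₀2 : a ≠ ng b₀ := by rw [← ng_ng a, Ne, ng_inj]; exact fun h => hb₀' h.symm
  have h0 : ∀ u ∈ V0 Q v, u ∈ S := by
    intro u hu
    have hua : polar Q (v (ng b₀)) u = 0 := hu _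
    have g1 : (Eo hO (v (ng b₀)) u : V ≃ₗ[F] V) (v a) = v a := Eo_fix hO (hv.q0 _) hua (hv.p0 (by rw [ng_ng]; exact hb₀.symm)) (by rw [polar_comm]; exact hu a)
    have g2 : (Eo hO (v (ng b₀)) u : V ≃ₗ[F] V) (v b₀) = v b₀ + u - Q u • v (ng b₀) := by
      rw [Eo_apply hO (hv.q0 _) hua, hv.pn', polar_comm Q u, hu b₀]; simp
    have hw : v b₀ + u - Q u • v (ng b₀) ∈ S := by
      have hp : polar Q (v a) (v b₀ + u - Q u • v (ng b₀)) = 0 := by
        rw [polar_sub_right, polar_add_right, polar_smul_right, hv.p0 hb₀', hu a, hv.p0 hnb₀]; simp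
      refine ⟨hp, fun y' h => ?_⟩
      obtain ⟨y'', hy''⟩ : ∃ y'', y'' = (((Eo hO (v (ng b₀)) u)⁻¹ : Om Q) : V ≃ₗ[F] V) y' := ⟨_, rfl⟩
      have hyy : (Eo hO (v (ng b₀)) u : V ≃ₗ[F] V) y'' = y' := by rw [hy'', Om_inv']
      have h5 : polar Q (v a) y'' = 0 := by
        have := OmP (Eo hO (v (ng b₀)) u) (v a) y''
        rw [g1, hyy, h] at this
        exact this.symm
      have h6 := B_conj hO hσ h5 (hv.p0 hb₀') g1
      rw [hyy, g2] at h6
      rw [h6]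
      exact B_symm hO hσ (B_frame1 hO hv hσ hroom hPH hb₀ hb₀' h5)
    have e : u = (v b₀ + u - Q u • v (ng b₀)) - (1 : F) • v b₀ + Q u • v (ng b₀) := by rw [one_smul]; abel
    rw [e]
    exact S.add_mem (S.sub_mem hw (hf _ hb₀' 1)) (hf _ hnb₀ _)
  have hall : ∀ y, polar Q (v a) y = 0 → y ∈ S := by
    intro y hy
    have e : y = (y - ∑ b, polar Q (v (ng b)) y • v b) + ∑ b, polar Q (v (ng b)) y • v b := by abel
    rw [e]
    refine S.add_mem (h0 _ (dec hv y)) (S.sum_mem fun b _ => ?_)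
    by_cases hb : b = ng a
    · rw [hb, ng_ng, hy, zero_smul]; exact S.zero_mem
    · exact hf b hb _
  exact (hall y' hy').2 y hy

/-- a complement to the kernel in the preimage of the unipotent radical, invariant under the stabiliser -/
structure DZ (hO : OH hQ) (σ : Γ →* Om Q) (z : V) (D : Subgroup Γ) : Prop where
  inf : D ⊓ σ.ker = ⊥
  sur : ∀ y, polar Q z y = 0 → ∃ d ∈ D, σ d = Eo hO z y
  mem : ∀ d ∈ D, ∃ y, polar Q z y = 0 ∧ σ d = Eo hO z y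
  nor : ∀ g : Γ, (σ g : V ≃ₗ[F] V) z = z → ∀ d ∈ D, g * d * g⁻¹ ∈ D

include hv in
theorem Eo_eq_one {a : Zs m} {y : V} (hy : polar Q (v a) y = 0) (h : Eo hO (v a) y = 1) : ∃ c : F, y = c • v a := by
  have h1 : (Eo hO (v a) y : V ≃ₗ[F] V) (v (ng a)) = v (ng a) := by rw [h]; rfl
  rw [Eo_apply hO (hv.q0 a) hy, hv.pn, one_smul, mul_one] at h1
  refine ⟨polar Q y (v (ng a)) + Q y, ?_⟩
  rw [add_smul]
  have h2 : v (ng a) + y - polar Q y (v (ng a)) • v a - Q y • v a - v (ng a) = 0 := by rw [h1, sub_self]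
  rw [← sub_eq_zero]
  rw [← h2]; abel

include hO hv in
/-- square torus elements -/
theorem tr_sq_mem (a : Zs m) {s : F} (hs : s ≠ 0) : tr Q v a (s ^ 2) ∈ Om Q := by
  have e1 : refl Q (v a - s ^ 2 • v (ng a)) = refl Q (s⁻¹ • (v a - s ^ 2 • v (ng a))) := (refl_smul (inv_ne_zero hs) _).symm
  rw [tr, e1]
  apply hO.rr
  · rw [Q_pm hv]; exact neg_ne_zero.2 one_ne_zero
  · rw [Q_smul, Q_pm hv, Q_pm hv]; field_simp

include hv hroom hPH in
/-- **complement from a torus element** -/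
theorem DZ_torus {s : F} (hs0 : s ≠ 0) (hs1 : s ^ 2 ≠ 1) {a b₀ : Zs m} (hb₀ : b₀ ≠ a) (hb₀' : b₀ ≠ ng a) : ∃ D, DZ hO σ (v a) D := by
  have hc0 : s ^ 2 ≠ 0 := pow_ne_zero 2 hs0
  obtain ⟨tt, htt⟩ : ∃ tt : Om Q, (tt : V ≃ₗ[F] V) = tr Q v a (s ^ 2) := ⟨⟨_, tr_sq_mem hO hv a hs0⟩, rfl⟩
  have t1 : (tt : V ≃ₗ[F] V) (v a) = s ^ 2 • v a := by rw [htt, tr_a hv a hc0]
  have t2 : ∀ y, polar Q (v a) y = 0 → ∃ ν : F, (tt : V ≃ₗ[F] V) y = y + ν • v a := by
    intro y hy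
    refine ⟨(s ^ 2 - 1) * polar Q (v (ng a)) y, ?_⟩
    have e : y = (y - polar Q (v (ng a)) y • v a) + polar Q (v (ng a)) y • v a := by abel
    conv_lhs => rw [e]
    rw [map_add, map_smul, t1, htt, tr_0 a _ (by rw [polar_sub_right, polar_smul_right, hy, hv.self]; simp)
      (by rw [polar_sub_right, polar_smul_right, hv.pn']; simp), smul_smul, sub_mul, one_mul, sub_smul, mul_comm]
    abel
  obtain ⟨t, ht⟩ := hσ.surj tt
  -- the preimage
  have hcomm : ∀ {u u' : Γ} {y y' : V}, polar Q (v a) y = 0 → polar Q (v a) y' = 0 → σ u = Eo hO (v a) y → σ u' = Eo hO (v a) y' → u * u' = u' * u := by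
    intro u u' y y' h1 h2 h3 h4
    exact commute_of_cl hσ (B_all hO hv hσ hroom hPH hb₀ hb₀' h1 h2) h3 h4
  have hty : ∀ y, polar Q (v a) y = 0 → tt * Eo hO (v a) y * tt⁻¹ = Eo hO (v a) (s ^ 2 • y) := by
    intro y hy
    obtain ⟨ν, hν⟩ := t2 y hy
    rw [Eo_conj, t1, hν, Eo_smul hO hc0, smul_add, smul_smul, Eo_add_smul hO (hv.q0 a) (by rw [polar_smul_right, hy, smul_zero])]
  have hstab : ∀ {g : Γ} {y : V}, (σ g : V ≃ₗ[F] V) (v a) = v a → polar Q (v a) y = 0 → polar Q (v a) ((σ g : V ≃ₗ[F] V) y) = 0 := by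
    intro g y hg hy
    have := OmP (σ g) (v a) y
    rw [hg, hy] at this
    exact this
  let D : Subgroup Γ :=
    { carrier := {d | ∃ u y, polar Q (v a) y = 0 ∧ σ u = Eo hO (v a) y ∧ d = t * u * t⁻¹ * u⁻¹}
      one_mem' := ⟨1, 0, by simp, by rw [map_one, Eo_zero], by group⟩
      mul_mem' := by
        rintro _ _ ⟨u, y, h1, h2, rfl⟩ ⟨u', y', h1', h2', rfl⟩
        refine ⟨u * u', y + y', by rw [polar_add_right, h1, h1', add_zero], by rw [map_mul, h2, h2', Eo_add hO h1 h1'], ?_⟩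
        have k1 : u⁻¹ * (t * u' * t⁻¹) = (t * u' * t⁻¹) * u⁻¹ := hcomm (y := -y) (y' := s ^ 2 • y') (by rw [polar_neg_right, h1, neg_zero]) (by rw [polar_smul_right, h1', smul_zero])
          (by rw [map_inv, h2, Eo_inv hO h1]) (by rw [map_mul, map_mul, map_inv, ht, h2', hty y' h1'])
        have k2 : u⁻¹ * u'⁻¹ = u'⁻¹ * u⁻¹ := hcomm (y := -y) (y' := -y') (by rw [polar_neg_right, h1, neg_zero]) (by rw [polar_neg_right, h1', neg_zero])
          (by rw [map_inv, h2, Eo_inv hO h1]) (by rw [map_inv, h2', Eo_inv hO h1'])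
        calc t * u * t⁻¹ * u⁻¹ * (t * u' * t⁻¹ * u'⁻¹) = t * u * t⁻¹ * (u⁻¹ * (t * u' * t⁻¹)) * u'⁻¹ := by group
          _ = t * u * u' * t⁻¹ * (u⁻¹ * u'⁻¹) := by rw [k1]; group
          _ = _ := by rw [k2]; group
      inv_mem' := by
        rintro _ ⟨u, y, h1, h2, rfl⟩
        have k1 : u * (t * u⁻¹ * t⁻¹) = (t * u⁻¹ * t⁻¹) * u := hcomm (y := y) (y' := s ^ 2 • (-y)) h1 (by rw [polar_smul_right, polar_neg_right, h1, neg_zero, smul_zero])
          h2 (by rw [map_mul, map_mul, map_inv, map_inv, ht, h2, Eo_inv hO h1, hty _ (by rw [polar_neg_right, h1, neg_zero])])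
        refine ⟨u⁻¹, -y, by rw [polar_neg_right, h1, neg_zero], by rw [map_inv, h2, Eo_inv hO h1], ?_⟩
        calc (t * u * t⁻¹ * u⁻¹)⁻¹ = u * (t * u⁻¹ * t⁻¹) := by group
          _ = _ := by rw [k1]; group }
  have hval : ∀ {u : Γ} {y : V}, polar Q (v a) y = 0 → σ u = Eo hO (v a) y → σ (t * u * t⁻¹ * u⁻¹) = Eo hO (v a) ((s ^ 2 - 1) • y) := by
    intro u y h1 h2
    rw [map_mul, map_mul, map_mul, map_inv, map_inv, ht, h2, hty y h1, Eo_inv hO h1, Eo_add hO (by rw [polar_smul_right, h1, smul_zero]) (by rw [polar_neg_right, h1, neg_zero]),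
      sub_smul, one_smul, sub_eq_add_neg]
  have hs1' : s ^ 2 - 1 ≠ 0 := sub_ne_zero.2 hs1
  refine ⟨D, ?_, ?_, ?_, ?_⟩
  · rw [eq_bot_iff]
    rintro _ ⟨⟨u, y, h1, h2, rfl⟩, h3⟩
    have h4 : σ (t * u * t⁻¹ * u⁻¹) = 1 := h3
    rw [hval h1 h2] at h4
    obtain ⟨c, hc⟩ := Eo_eq_one hO hv (by rw [polar_smul_right, h1, smul_zero]) h4
    have h5 : y = ((s ^ 2 - 1)⁻¹ * c) • v a := by rw [mul_smul, ← hc, inv_smul_smul₀ hs1']
    have h6 : u ∈ σ.ker := by rw [MonoidHom.mem_ker, h2, h5, Eo_smul_self]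
    have h7 := Subgroup.mem_center_iff.1 (hσ.central h6) t
    rw [Subgroup.mem_bot, h7]; group
  · intro y hy
    obtain ⟨u, hu⟩ := hσ.surj (Eo hO (v a) ((s ^ 2 - 1)⁻¹ • y))
    have h1 : polar Q (v a) ((s ^ 2 - 1)⁻¹ • y) = 0 := by rw [polar_smul_right, hy, smul_zero]
    exact ⟨t * u * t⁻¹ * u⁻¹, ⟨u, _, h1, hu, rfl⟩, by rw [hval h1 hu, smul_inv_smul₀ hs1']⟩
  · rintro _ ⟨u, y, h1, h2, rfl⟩
    exact ⟨(s ^ 2 - 1) • y, by rw [polar_smul_right, h1, smul_zero], hval h1 h2⟩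
  · rintro g hg _ ⟨u, y, h1, h2, rfl⟩
    -- the torus elements of the two hyperbolic pairs
    obtain ⟨x, e1, e2, e3, -⟩ := exists_y hO hv hg
    have hcomt : ∀ k : Om Q, (k : V ≃ₗ[F] V) (v a) = v a → (k : V ≃ₗ[F] V) (v (ng a)) = v (ng a) → k * tt * k⁻¹ = tt := by
      intro k k1 k2
      apply Subtype.ext
      show (k : V ≃ₗ[F] V) * (tt : V ≃ₗ[F] V) * ((k⁻¹ : Om Q) : V ≃ₗ[F] V) = tt
      rw [htt, tr]
      have r1 : ∀ c : F, (k : V ≃ₗ[F] V) * refl Q (v a - c • v (ng a)) * (k : V ≃ₗ[F] V)⁻¹ = refl Q (v a - c • v (ng a)) := by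
        intro c
        rw [refl_conj (Om_le_O k.2), map_sub, map_smul, k1, k2]
      calc (k : V ≃ₗ[F] V) * (refl Q (v a - (1 : F) • v (ng a)) * refl Q (v a - s ^ 2 • v (ng a))) * ((k⁻¹ : Om Q) : V ≃ₗ[F] V)
          = ((k : V ≃ₗ[F] V) * refl Q (v a - (1 : F) • v (ng a)) * (k : V ≃ₗ[F] V)⁻¹) * ((k : V ≃ₗ[F] V) * refl Q (v a - s ^ 2 • v (ng a)) * (k : V ≃ₗ[F] V)⁻¹) := by
            rw [InvMemClass.coe_inv]; group
        _ = _ := by rw [r1, r1]
    obtain ⟨ee, hee⟩ := hσ.surj (Eo hO (v a) x)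
    have q1 : (((Eo hO (v a) x)⁻¹ * σ g : Om Q) : V ≃ₗ[F] V) (v a) = v a := by
      rw [Om_mul, hg]
      exact Om_inv_of (Eo_fix hO (hv.q0 a) e1 (hv.self a) (by rw [polar_comm]; exact e1))
    have q2 : (((Eo hO (v a) x)⁻¹ * σ g : Om Q) : V ≃ₗ[F] V) (v (ng a)) = v (ng a) := by
      rw [Om_mul]
      exact Om_inv_of e3
    have q3 := hcomt _ q1 q2
    have q4 : σ (g * t * g⁻¹) = σ (ee * t * ee⁻¹) := by
      rw [map_mul, map_mul, map_inv, map_mul, map_mul, map_inv, ht, hee]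
      conv_rhs => rw [← q3]
      group
    obtain ⟨k, hk, hk'⟩ := exists_central hσ q4
    obtain ⟨w, hw⟩ : ∃ w, w = g * u * g⁻¹ := ⟨_, rfl⟩
    have hwσ : σ w = Eo hO (v a) ((σ g : V ≃ₗ[F] V) y) := by
      rw [hw, map_mul, map_mul, map_inv, h2, Eo_conj, hg]
    have hwy := hstab hg h1
    refine ⟨w, _, hwy, hwσ, ?_⟩
    have kc : ∀ x, k * x = x * k := fun x => (Subgroup.mem_center_iff.1 hk x).symm
    have c1 : ee⁻¹ * w = w * ee⁻¹ := hcomm (y := -x) (by rw [polar_neg_right, e1, neg_zero]) hwy (by rw [map_inv, hee, Eo_inv hO e1]) hwσ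
    have c2 : ee * (t * w * t⁻¹) = (t * w * t⁻¹) * ee := hcomm (y := x) (y' := s ^ 2 • ((σ g : V ≃ₗ[F] V) y)) e1 (by rw [polar_smul_right, hwy, smul_zero]) hee
      (by rw [map_mul, map_mul, map_inv, ht, hwσ, hty _ hwy])
    calc g * (t * u * t⁻¹ * u⁻¹) * g⁻¹ = (g * t * g⁻¹) * (g * u * g⁻¹) * (g * t * g⁻¹)⁻¹ * (g * u * g⁻¹)⁻¹ := by group
      _ = (ee * t * ee⁻¹ * k) * w * (ee * t * ee⁻¹ * k)⁻¹ * w⁻¹ := by rw [hk', hw]
      _ = (ee * t * ee⁻¹) * (k * w) * k⁻¹ * (ee * t * ee⁻¹)⁻¹ * w⁻¹ := by group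
      _ = ee * t * (ee⁻¹ * w) * (ee * t⁻¹ * ee⁻¹) * w⁻¹ := by rw [kc w]; group
      _ = ee * (t * w * t⁻¹) * ee⁻¹ * w⁻¹ := by rw [c1]; group
      _ = _ := by rw [c2]; group

end comm

end Cfsg.Agent.Lib.MulOrth
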