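import Cfsg.Agent.Lib.MulOrthB
import Cfsg.Agent.Lib.QuadSiegel

/-! The pointwise stabiliser of two hyperbolic planes pairs trivially with the root element (helper35). -/

set_option autoImplicit false

namespace Cfsg.Agent.Lib.MulOrth

open Cfsg.Agent.Lib.Quad Cfsg.Agent.Lib.ClOrthSiegel Cfsg.Agent.Lib.UCEBase QuadraticMap Module
open Cfsg.Agent.Lib.PresBC (Zs ng ng_ng ng_ne ng_inj)

section restrict
variable {F V : Type*} [Field F] [AddCommGroup V] [Module F V] {Q : QuadraticForm F V} {m : ℕ} {v : Zs m → V} (hv : SF Q v)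

/-- fixing two planes pointwise -/
def Fix4 (v : Zs m → V) (a b : Zs m) (g : V ≃ₗ[F] V) : Prop := g (v a) = v a ∧ g (v (ng a)) = v (ng a) ∧ g (v b) = v b ∧ g (v (ng b)) = v (ng b)

include hv in
theorem W4_dec {a b : Zs m} (hba : b ≠ a) (hab : b ≠ ng a) (x : V) : ∃ w ∈ W4 Q v a b, ∃ c1 c2 c3 c4 : F,
    x = w + (c1 • v a + c2 • v (ng a) + c3 • v b + c4 • v (ng b)) := by
  have hab' : a ≠ ng b := by rw [← ng_ng a, Ne, ng_inj]; exact fun h => hab h.symm
  have hnba : ng b ≠ ng a := by rw [Ne, ng_inj]; exact hba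
  refine ⟨x - (polar Q (v (ng a)) x • v a + polar Q (v a) x • v (ng a) + polar Q (v (ng b)) x • v b + polar Q (v b) x • v (ng b)), ?_,
    polar Q (v (ng a)) x, polar Q (v a) x, polar Q (v (ng b)) x, polar Q (v b) x, by abel⟩
  have k1 : polar Q (v (ng a)) (v b) = 0 := hv.p0 (by rw [ng_ng]; exact hba)
  have k2 : polar Q (v (ng a)) (v (ng b)) = 0 := hv.p0 (by rw [ng_ng]; exact fun h => hab' h.symm)
  have k3 : polar Q (v (ng b)) (v a) = 0 := hv.p0 (by rw [ng_ng]; exact hba.symm)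
  have k4 : polar Q (v (ng b)) (v (ng a)) = 0 := hv.p0 (by rw [ng_ng]; exact hab.symm)
  refine ⟨?_, ?_, ?_, ?_⟩
  · simp only [polar_sub_right, polar_add_right, polar_smul_right, smul_eq_mul]
    rw [hv.self, hv.pn, hv.p0 hab, hv.p0 hnba]; ring
  · simp only [polar_sub_right, polar_add_right, polar_smul_right, smul_eq_mul]
    rw [hv.self, hv.pn', k1, k2]; ring
  · simp only [polar_sub_right, polar_add_right, polar_smul_right, smul_eq_mul]
    rw [hv.self, hv.pn, hv.p0 hab', hv.p0 hnba.symm]; ring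
  · simp only [polar_sub_right, polar_add_right, polar_smul_right, smul_eq_mul]
    rw [hv.self, hv.pn', k3, k4]; ring

include hv in
theorem ext4 {a b : Zs m} (hba : b ≠ a) (hab : b ≠ ng a) {g g' : V ≃ₗ[F] V} (hg : Fix4 v a b g) (hg' : Fix4 v a b g')
    (h : ∀ w ∈ W4 Q v a b, g w = g' w) : g = g' := by
  apply LinearEquiv.ext
  intro x
  obtain ⟨w, hw, c1, c2, c3, c4, rfl⟩ := W4_dec hv hba hab x
  simp only [map_add, map_smul]
  rw [h w hw, hg.1, hg.2.1, hg.2.2.1, hg.2.2.2, hg'.1, hg'.2.1, hg'.2.2.1, hg'.2.2.2]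

include hv in
theorem nd_W4 (hQ : Nd Q) {a b : Zs m} (hba : b ≠ a) (hab : b ≠ ng a) : Nd (res Q (W4 Q v a b)) := by
  apply nd_of
  rintro ⟨x, hx⟩ h
  apply Subtype.ext
  apply hQ.eq_zero
  intro y
  obtain ⟨w, hw, c1, c2, c3, c4, rfl⟩ := W4_dec hv hba hab y
  have := h ⟨w, hw⟩
  rw [polar_res] at this
  simp only [polar_add_right, polar_smul_right, smul_eq_mul]
  rw [this, polar_comm Q x (v a), polar_comm Q x (v (ng a)), polar_comm Q x (v b), polar_comm Q x (v (ng b)), hx.1, hx.2.1, hx.2.2.1, hx.2.2.2]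
  ring

theorem map_W4 {a b : Zs m} {g : V ≃ₗ[F] V} (hg : g ∈ O Q) (h4 : Fix4 v a b g) {w : V} (hw : w ∈ W4 Q v a b) : g w ∈ W4 Q v a b := by
  refine ⟨?_, ?_, ?_, ?_⟩
  · have := O_polar hg (v a) w; rwa [h4.1, hw.1] at this
  · have := O_polar hg (v (ng a)) w; rwa [h4.2.1, hw.2.1] at this
  · have := O_polar hg (v b) w; rwa [h4.2.2.1, hw.2.2.1] at this
  · have := O_polar hg (v (ng b)) w; rwa [h4.2.2.2, hw.2.2.2] at this

variable [FiniteDimensional F V]

theorem exists_rst {a b : Zs m} (hnd : Nd (res Q (W4 Q v a b))) {g : V ≃ₗ[F] V} (hg : g ∈ O Q) (h4 : Fix4 v a b g) :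
    ∃ k ∈ O (res Q (W4 Q v a b)), ∀ w : W4 Q v a b, ((k w : W4 Q v a b) : V) = g w :=
  ⟨ofMap hnd ((g : V →ₗ[F] V).restrict (fun _ hw => map_W4 hg h4 hw)) (fun w => hg w), ofMap_mem _ _ _, fun _ => rfl⟩

omit [FiniteDimensional F V] in
theorem list_res {W : Submodule F V} (vs : List W) (hvs : ∀ u ∈ vs, Q (u : V) ≠ 0) (w : W) :
    (((vs.map (refl (res Q W))).prod w : W) : V) = ((vs.map (Subtype.val)).map (refl Q)).prod (w : V) := by
  induction vs generalizing w with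
  | nil => rfl
  | cons u vs ih =>
    simp only [List.map_cons, List.prod_cons]
    show ((refl (res Q W) u ((vs.map (refl (res Q W))).prod w) : W) : V) = refl Q (u : V) (((vs.map (Subtype.val)).map (refl Q)).prod (w : V))
    rw [← ih (fun x hx => hvs x (List.mem_cons_of_mem _ hx)) w]
    have hu : Q (u : V) ≠ 0 := hvs u List.mem_cons_self
    rw [refl_apply hu, refl_apply (Q := res Q W) (v := u) hu]
    rfl

omit [FiniteDimensional F V] in
theorem list_fix (vs : List V) {x : V} (hvs : ∀ u ∈ vs, polar Q u x = 0) : (vs.map (refl Q)).prod x = x := by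
  induction vs with
  | nil => rfl
  | cons u vs ih =>
    simp only [List.map_cons, List.prod_cons]
    show refl Q u ((vs.map (refl Q)).prod x) = x
    rw [ih (fun w hw => hvs w (List.mem_cons_of_mem _ hw)), refl_of_perp (hvs u List.mem_cons_self)]

include hv in
theorem rst_Sg [Finite F] (hQ : Nd Q) (hgen : GenHyp Q) {a b : Zs m} (hba : b ≠ a) (hab : b ≠ ng a) (hnd : Nd (res Q (W4 Q v a b)))
    (hgenW : GenHyp (res Q (W4 Q v a b))) (hdim : 4 ≤ finrank F (W4 Q v a b)) {g : V ≃ₗ[F] V} (hg : g ∈ Om Q) (h4 : Fix4 v a b g) :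
    ∃ k ∈ Sg hnd, ∀ w : W4 Q v a b, ((k w : W4 Q v a b) : V) = g w := by
  obtain ⟨k, hk, hkg⟩ := exists_rst hnd (Om_le_O hg) h4
  refine ⟨k, ?_, hkg⟩
  rw [← hnd.Om_eq_Sg hgenW hdim]
  have hkR : k ∈ R (res Q (W4 Q v a b)) := by rw [hnd.R_eq_O hgenW]; exact hk
  obtain ⟨vs, hvs, hkl⟩ := exists_list_of_mem_R hkR
  have hfix : ∀ x, (∀ u ∈ W4 Q v a b, polar Q u x = 0) → ((vs.map (Subtype.val)).map (refl Q)).prod x = x := by
    intro x hx
    apply list_fix
    intro u hu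
    obtain ⟨w, -, rfl⟩ := List.mem_map.1 hu
    exact hx _ w.2
  have hgl : g = ((vs.map (Subtype.val)).map (refl Q)).prod := by
    apply ext4 hv hba hab h4
    · refine ⟨hfix _ ?_, hfix _ ?_, hfix _ ?_, hfix _ ?_⟩
      · intro u hu; rw [polar_comm]; exact hu.1
      · intro u hu; rw [polar_comm]; exact hu.2.1
      · intro u hu; rw [polar_comm]; exact hu.2.2.1
      · intro u hu; rw [polar_comm]; exact hu.2.2.2
    · intro w hw
      have := hkg ⟨w, hw⟩
      rw [← this, hkl, list_res vs (fun u hu => hvs u hu)]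
  rw [hkl, hnd.list_mem_Om_iff hgenW vs hvs]
  have h5 : ∀ u ∈ vs.map (Subtype.val : W4 Q v a b → V), Q u ≠ 0 := by
    intro u hu
    obtain ⟨w, hw, rfl⟩ := List.mem_map.1 hu
    exact hvs w hw
  rw [hgl, hQ.list_mem_Om_iff hgen _ h5, List.length_map, List.map_map] at hg
  exact hg

end restrict

section main
variable {F V : Type*} [Field F] [AddCommGroup V] [Module F V] [FiniteDimensional F V] {Q : QuadraticForm F V}
  {hQ : Nd Q} (hO : OH hQ) {m : ℕ} {v : Zs m → V} (hv : SF Q v) {Γ : Type*} [Group Γ] {σ : Γ →* Om Q} (hσ : CE σ)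

include hv in
/-- reduction to Siegel elements -/
theorem cl_W4 [Finite F] (hgen : GenHyp Q) {a b : Zs m} (hba : b ≠ a) (hab : b ≠ ng a) 
    (hgenW : GenHyp (res Q (W4 Q v a b))) (hdim : 4 ≤ finrank F (W4 Q v a b))
    (E1 : ∀ z ∈ W4 Q v a b, ∀ y ∈ W4 Q v a b, Q z = 0 → polar Q z y = 0 → cl hσ (xr hO v a b) (Eo hO z y) = 1)
    {g : Om Q} (h4 : Fix4 v a b (g : V ≃ₗ[F] V)) : cl hσ (xr hO v a b) g = 1 := by
  have hnd := nd_W4 hv hQ hba hab
  obtain ⟨k, hk, hkg⟩ := rst_Sg hv hQ hgen hba hab hnd hgenW hdim g.2 h4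
  have key : ∀ k ∈ Sg hnd, ∃ g' : Om Q, Fix4 v a b (g' : V ≃ₗ[F] V) ∧ (∀ w : W4 Q v a b, ((k w : W4 Q v a b) : V) = (g' : V ≃ₗ[F] V) w) ∧
      cl hσ (xr hO v a b) g' = 1 := by
    intro k hk
    induction hk using Subgroup.closure_induction with
    | mem k hk =>
      obtain ⟨z, y, hz, hzy, rfl⟩ := hk
      have hz' : Q (z : V) = 0 := hz
      have hzy' : polar Q (z : V) (y : V) = 0 := hzy
      refine ⟨Eo hO z y, ⟨?_, ?_, ?_, ?_⟩, ?_, E1 z z.2 y y.2 hz hzy⟩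
      · exact Eo_fix hO hz' hzy' (by rw [polar_comm]; exact z.2.1) (by rw [polar_comm]; exact y.2.1)
      · exact Eo_fix hO hz' hzy' (by rw [polar_comm]; exact z.2.2.1) (by rw [polar_comm]; exact y.2.2.1)
      · exact Eo_fix hO hz' hzy' (by rw [polar_comm]; exact z.2.2.2.1) (by rw [polar_comm]; exact y.2.2.2.1)
      · exact Eo_fix hO hz' hzy' (by rw [polar_comm]; exact z.2.2.2.2) (by rw [polar_comm]; exact y.2.2.2.2)
      · intro w
        rw [Eo_apply hO hz' hzy', sieg_apply]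
        rfl
    | one => exact ⟨1, ⟨rfl, rfl, rfl, rfl⟩, fun w => rfl, cl_one_right hσ _⟩
    | mul k k' hk hk' h1 h2 =>
      obtain ⟨g, a1, a2, a3⟩ := h1
      obtain ⟨g', b1, b2, b3⟩ := h2
      refine ⟨g * g', ⟨?_, ?_, ?_, ?_⟩, ?_, ?_⟩
      · rw [Om_mul, b1.1, a1.1]
      · rw [Om_mul, b1.2.1, a1.2.1]
      · rw [Om_mul, b1.2.2.1, a1.2.2.1]
      · rw [Om_mul, b1.2.2.2, a1.2.2.2]
      · intro w
        rw [Om_mul, ← b2 w, ← a2 (k' w)]; rfl
      · rw [cl_mulc hσ (xr_comm_of_fix hO hv a1.1 a1.2.2.1), a3, b3, one_mul]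
    | inv k hk h1 =>
      obtain ⟨g, a1, a2, a3⟩ := h1
      refine ⟨g⁻¹, ⟨Om_inv_of a1.1, Om_inv_of a1.2.1, Om_inv_of a1.2.2.1, Om_inv_of a1.2.2.2⟩, ?_, ?_⟩
      · intro w
        symm
        apply Om_inv_of
        rw [← a2]
        congr 1
        exact k.apply_symm_apply w
      · rw [cl_invc hσ (xr_comm_of_fix hO hv a1.1 a1.2.2.1), a3, inv_one]
  obtain ⟨g', h1, h2, h3⟩ := key k hk
  have : g = g' := Subtype.ext (ext4 hv hba hab h4 h1 (fun w hw => by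
    rw [← h2 ⟨w, hw⟩, hkg ⟨w, hw⟩]))
  rw [this]; exact h3

include hv in
/-- conjugation by elements commuting with the root element -/
theorem cl_conj_fix {a b : Zs m} {e k : Om Q} (he1 : (e : V ≃ₗ[F] V) (v a) = v a) (he2 : (e : V ≃ₗ[F] V) (v b) = v b)
    (hk : xr hO v a b * k = k * xr hO v a b) : cl hσ (xr hO v a b) (e * k * e⁻¹) = cl hσ (xr hO v a b) k := by
  have := cl_conj_of_commute hσ e (xr hO v a b) k hk
  unfold xr at this ⊢
  rwa [Eo_conj, he1, he2] at this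

include hv in
/-- all Siegel elements of the complement -/
theorem E1_of (han : ∀ x ∈ V0 Q v, Q x = 0 → x = 0) {a b : Zs m} (hba : b ≠ a) (hab : b ≠ ng a)
    (T3 : ∀ d e, d ≠ a → d ≠ ng a → d ≠ b → d ≠ ng b → e ≠ a → e ≠ ng a → e ≠ b → e ≠ ng b → e ≠ d → e ≠ ng d → ∀ s : F,
      cl hσ (xr hO v a b) (Eo hO (v d) (s • v e)) = 1)
    (U3 : ∀ d, d ≠ a → d ≠ ng a → d ≠ b → d ≠ ng b → ∀ u ∈ V0 Q v, cl hσ (xr hO v a b) (Eo hO (v d) u) = 1)
    {z y : V} (hz : z ∈ W4 Q v a b) (hy : y ∈ W4 Q v a b) (hQz : Q z = 0) (hzy : polar Q z y = 0) :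
    cl hσ (xr hO v a b) (Eo hO z y) = 1 := by
  by_cases hz0 : z = 0
  · have : Eo hO z y = 1 := by
      apply Om_ext
      intro x
      rw [Eo_apply hO hQz hzy, hz0]
      show _ = x
      simp
    rw [this, cl_one_right]
  -- frame vectors
  have hfr : ∀ d, d ≠ a → d ≠ ng a → d ≠ b → d ≠ ng b → ∀ y ∈ W4 Q v a b, polar Q (v d) y = 0 → cl hσ (xr hO v a b) (Eo hO (v d) y) = 1 := by
    intro d d1 d2 d3 d4 y hy hdy
    have hdW := mem_W4 hv d1 d2 d3 d4
    let S : AddSubgroup V :=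
      { carrier := {y | y ∈ W4 Q v a b ∧ polar Q (v d) y = 0 ∧ cl hσ (xr hO v a b) (Eo hO (v d) y) = 1}
        zero_mem' := ⟨zero_mem _, by simp, by rw [Eo_zero, cl_one_right]⟩
        add_mem' := by
          rintro x x' ⟨h1, h2, h3⟩ ⟨h1', h2', h3'⟩
          refine ⟨add_mem h1 h1', by rw [polar_add_right, h2, h2', add_zero], ?_⟩
          rw [← Eo_add hO h2 h2', cl_mulc hσ, h3, h3', one_mul]
          exact xr_comm_of_fix hO hv (Eo_fix hO (hv.q0 d) h2 (by rw [polar_comm]; exact hdW.1) (by rw [polar_comm]; exact h1.1))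
            (Eo_fix hO (hv.q0 d) h2 (by rw [polar_comm]; exact hdW.2.2.1) (by rw [polar_comm]; exact h1.2.2.1))
        neg_mem' := by
          rintro x ⟨h1, h2, h3⟩
          refine ⟨neg_mem h1, by rw [polar_neg_right, h2, neg_zero], ?_⟩
          rw [← Eo_inv hO h2, cl_invc hσ, h3, inv_one]
          exact xr_comm_of_fix hO hv (Eo_fix hO (hv.q0 d) h2 (by rw [polar_comm]; exact hdW.1) (by rw [polar_comm]; exact h1.1))
            (Eo_fix hO (hv.q0 d) h2 (by rw [polar_comm]; exact hdW.2.2.1) (by rw [polar_comm]; exact h1.2.2.1)) }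
    have hf : ∀ e, e ≠ a → e ≠ ng a → e ≠ b → e ≠ ng b → e ≠ ng d → ∀ s : F, s • v e ∈ S := by
      intro e e1 e2 e3 e4 e5 s
      refine ⟨(W4 Q v a b).smul_mem _ (mem_W4 hv e1 e2 e3 e4), by rw [polar_smul_right, hv.p0 e5, smul_zero], ?_⟩
      by_cases hed : e = d
      · rw [hed, Eo_smul_self, cl_one_right]
      · exact T3 d e d1 d2 d3 d4 e1 e2 e3 e4 hed e5 s
    have hall : y ∈ S := by
      have e : y = (y - ∑ c, polar Q (v (ng c)) y • v c) + ∑ c, polar Q (v (ng c)) y • v c := by abel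
      rw [e]
      refine S.add_mem ?_ (S.sum_mem fun c _ => ?_)
      · have hu := dec hv y
        exact ⟨⟨hu _, hu _, hu _, hu _⟩, hu _, U3 d d1 d2 d3 d4 _ hu⟩
      · by_cases c1 : c = a
        · rw [c1, hy.2.1, zero_smul]; exact S.zero_mem
        by_cases c2 : c = ng a
        · rw [c2, ng_ng, hy.1, zero_smul]; exact S.zero_mem
        by_cases c3 : c = b
        · rw [c3, hy.2.2.2, zero_smul]; exact S.zero_mem
        by_cases c4 : c = ng b
        · rw [c4, ng_ng, hy.2.2.1, zero_smul]; exact S.zero_mem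
        by_cases c5 : c = ng d
        · rw [c5, ng_ng, hdy, zero_smul]; exact S.zero_mem
        exact hf c c1 c2 c3 c4 c5 _
    exact hall.2.2
  -- a frame vector not orthogonal to `z`
  obtain ⟨c, hc⟩ : ∃ c, polar Q (v c) z ≠ 0 := by
    by_contra hcon
    push Not at hcon
    exact hz0 (han z hcon hQz)
  have c1 : c ≠ a := by rintro rfl; exact hc hz.1
  have c2 : c ≠ ng a := by rintro rfl; exact hc hz.2.1
  have c3 : c ≠ b := by rintro rfl; exact hc hz.2.2.1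
  have c4 : c ≠ ng b := by rintro rfl; exact hc hz.2.2.2
  have n1 : ng c ≠ a := by rw [← ng_ng a, Ne, ng_inj]; exact c2
  have n2 : ng c ≠ ng a := by rw [Ne, ng_inj]; exact c1
  have n3 : ng c ≠ b := by rw [← ng_ng b, Ne, ng_inj]; exact c4
  have n4 : ng c ≠ ng b := by rw [Ne, ng_inj]; exact c3
  have hcW := mem_W4 hv c1 c2 c3 c4
  have hnW := mem_W4 hv n1 n2 n3 n4
  obtain ⟨r, hr⟩ : ∃ r, r = polar Q (v c) z := ⟨_, rfl⟩
  have hr0 : r ≠ 0 := by rw [hr]; exact hc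
  obtain ⟨z', hz'⟩ : ∃ z', z' = r⁻¹ • z := ⟨_, rfl⟩
  have hzz : z = r • z' := by rw [hz', smul_inv_smul₀ hr0]
  have hz'W : z' ∈ W4 Q v a b := by rw [hz']; exact (W4 Q v a b).smul_mem _ hz
  have hcz' : polar Q (v c) z' = 1 := by rw [hz', polar_smul_right, ← hr, smul_eq_mul, inv_mul_cancel₀ hr0]
  have hQz' : Q z' = 0 := by rw [hz', Q_smul, hQz, mul_zero]
  obtain ⟨y', hy'⟩ : ∃ y', y' = z' - v (ng c) - polar Q (v (ng c)) z' • v c := ⟨_, rfl⟩
  have hy'W : y' ∈ W4 Q v a b := by rw [hy']; exact sub_mem (sub_mem hz'W hnW) ((W4 Q v a b).smul_mem _ hcW)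
  have hy1 : polar Q (v c) y' = 0 := by
    rw [hy', polar_sub_right, polar_sub_right, hcz', hv.pn, polar_smul_right, hv.self, smul_zero]; ring
  have hy2 : polar Q (v (ng c)) y' = 0 := by
    rw [hy', polar_sub_right, polar_sub_right, hv.self, polar_smul_right, hv.pn', smul_eq_mul]; ring
  have hxy : z' = v (ng c) + y' + polar Q (v (ng c)) z' • v c := by rw [hy']; abel
  have hq : polar Q (v (ng c)) z' = - Q y' := by
    have h2 := hQz'
    rw [hxy, Q_add, Q_add, Q_smul, hv.q0, hv.q0, hy2, polar_smul_right, polar_add_left, hv.pn', polar_comm Q y', hy1, smul_eq_mul] at h2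
    linear_combination h2
  have hee : (Eo hO (v c) y' : V ≃ₗ[F] V) (v (ng c)) = z' := by
    rw [Eo_apply hO (hv.q0 c) hy1, hv.pn, one_smul, mul_one, polar_comm Q y', hy2, zero_smul, sub_zero]
    conv_rhs => rw [hxy, hq]
    rw [neg_smul]; abel
  obtain ⟨y'', hy''⟩ : ∃ y'', y'' = (((Eo hO (v c) y')⁻¹ : Om Q) : V ≃ₗ[F] V) (r • y) := ⟨_, rfl⟩
  have hyy : (Eo hO (v c) y' : V ≃ₗ[F] V) y'' = r • y := by rw [hy'', Om_inv']
  have f1 : (Eo hO (v c) y' : V ≃ₗ[F] V) (v a) = v a := Eo_fix hO (hv.q0 c) hy1 (by rw [polar_comm]; exact hcW.1) (by rw [polar_comm]; exact hy'W.1)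
  have f2 : (Eo hO (v c) y' : V ≃ₗ[F] V) (v (ng a)) = v (ng a) := Eo_fix hO (hv.q0 c) hy1 (by rw [polar_comm]; exact hcW.2.1) (by rw [polar_comm]; exact hy'W.2.1)
  have f3 : (Eo hO (v c) y' : V ≃ₗ[F] V) (v b) = v b := Eo_fix hO (hv.q0 c) hy1 (by rw [polar_comm]; exact hcW.2.2.1) (by rw [polar_comm]; exact hy'W.2.2.1)
  have f4 : (Eo hO (v c) y' : V ≃ₗ[F] V) (v (ng b)) = v (ng b) := Eo_fix hO (hv.q0 c) hy1 (by rw [polar_comm]; exact hcW.2.2.2) (by rw [polar_comm]; exact hy'W.2.2.2)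
  have hry : r • y ∈ W4 Q v a b := (W4 Q v a b).smul_mem _ hy
  have hy''W : y'' ∈ W4 Q v a b := by
    rw [hy'']
    exact map_W4 (Om_le_O ((Eo hO (v c) y')⁻¹).2) ⟨Om_inv_of f1, Om_inv_of f2, Om_inv_of f3, Om_inv_of f4⟩ hry
  have hp : polar Q (v (ng c)) y'' = 0 := by
    have h1 := OmP (Eo hO (v c) y') (v (ng c)) y''
    rw [hee, hyy] at h1
    rw [← h1, polar_smul_right, hz', polar_smul_left, hzy, smul_zero, smul_zero]
  have hEq : Eo hO z y = Eo hO (v c) y' * Eo hO (v (ng c)) y'' * (Eo hO (v c) y')⁻¹ := by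
    rw [Eo_conj, hee, hyy, hzz, Eo_smul hO hr0]
  rw [hEq, cl_conj_fix hO hv hσ f1 f3, hfr (ng c) n1 n2 n3 n4 y'' hy''W hp]
  apply xr_comm_of_fix hO hv
  · exact Eo_fix hO (hv.q0 _) hp (by rw [polar_comm]; exact hnW.1) (by rw [polar_comm]; exact hy''W.1)
  · exact Eo_fix hO (hv.q0 _) hp (by rw [polar_comm]; exact hnW.2.2.1) (by rw [polar_comm]; exact hy''W.2.2.1)

end main

end Cfsg.Agent.Lib.MulOrth
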