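import Cfsg.Agent.Lib.MulOrthC

/-! Root elements of orthogonal groups pair trivially with their stabilisers (helper35). -/

set_option autoImplicit false

namespace Cfsg.Agent.Lib.MulOrth

open Cfsg.Agent.Lib.Quad Cfsg.Agent.Lib.ClOrthSiegel Cfsg.Agent.Lib.UCEBase QuadraticMap Module
open Cfsg.Agent.Lib.PresBC (Zs ng ng_ng ng_ne ng_inj)

section idx
variable {m : ℕ}
theorem ng_ne_of {a b : Zs m} (h : b ≠ ng a) : a ≠ ng b := by rw [← ng_ng a, Ne, ng_inj]; exact fun h' => h h'.symm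
theorem ng_ne_of' {a b : Zs m} (h : b ≠ ng a) : ng b ≠ a := fun h' => h (by rw [← h', ng_ng])
theorem ng_ng_ne {a b : Zs m} (h : b ≠ a) : ng b ≠ ng a := by rw [Ne, ng_inj]; exact h
end idx

section main
variable {F V : Type*} [Field F] [AddCommGroup V] [Module F V] [FiniteDimensional F V] {Q : QuadraticForm F V}
  {hQ : Nd Q} (hO : OH hQ) {m : ℕ} {v : Zs m → V} (hv : SF Q v)

/-- quarter turns -/
noncomputable def wy (hO : OH hQ) (v : Zs m → V) (a d : Zs m) : Om Q := Eo hO (v (ng a)) (v d) * Eo hO (v (ng d)) (-v a) * Eo hO (v (ng a)) (v d)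

section wyl
variable {a d : Zs m} (h1 : d ≠ a) (h2 : d ≠ ng a)
include hv h1 h2

theorem xp_apply (x : V) : (Eo hO (v (ng a)) (v d) : V ≃ₗ[F] V) x = x + polar Q (v (ng a)) x • v d - polar Q (v d) x • v (ng a) := by
  rw [Eo_apply hO (hv.q0 _) (hv.p0 (by rw [ng_ng]; exact h1)), hv.q0, zero_mul, zero_smul, sub_zero]

theorem xm_apply (x : V) : (Eo hO (v (ng d)) (-v a) : V ≃ₗ[F] V) x = x - polar Q (v (ng d)) x • v a + polar Q (v a) x • v (ng d) := by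
  rw [Eo_apply hO (hv.q0 _) (by rw [polar_neg_right, hv.p0 (by rw [ng_ng]; exact h1.symm), neg_zero]), QuadraticMap.map_neg, hv.q0, zero_mul, zero_smul, sub_zero,
    smul_neg, polar_neg_left, neg_smul]; abel

theorem xp_a : (Eo hO (v (ng a)) (v d) : V ≃ₗ[F] V) (v a) = v a + v d := by
  rw [xp_apply hO hv h1 h2, hv.pn', hv.p0 (ng_ne_of h2)]; simp
theorem xp_d : (Eo hO (v (ng a)) (v d) : V ≃ₗ[F] V) (v d) = v d := by
  rw [xp_apply hO hv h1 h2, hv.self, hv.p0 (by rw [ng_ng]; exact h1)]; simp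
theorem xp_na : (Eo hO (v (ng a)) (v d) : V ≃ₗ[F] V) (v (ng a)) = v (ng a) := by
  rw [xp_apply hO hv h1 h2, hv.self, hv.p0 (a := d) (b := ng a) (ng_ng_ne h1).symm]; simp
theorem xp_nd : (Eo hO (v (ng a)) (v d) : V ≃ₗ[F] V) (v (ng d)) = v (ng d) - v (ng a) := by
  rw [xp_apply hO hv h1 h2, hv.pn, hv.p0 (a := ng a) (b := ng d) (by rw [ng_ng]; exact ng_ne_of' h2)]; simp
theorem xm_a : (Eo hO (v (ng d)) (-v a) : V ≃ₗ[F] V) (v a) = v a := by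
  rw [xm_apply hO hv h1 h2, hv.self, hv.p0 (a := ng d) (b := a) (by rw [ng_ng]; exact h1.symm)]; simp
theorem xm_d : (Eo hO (v (ng d)) (-v a) : V ≃ₗ[F] V) (v d) = v d - v a := by
  rw [xm_apply hO hv h1 h2, hv.pn', hv.p0 h2]; simp
theorem xm_na : (Eo hO (v (ng d)) (-v a) : V ≃ₗ[F] V) (v (ng a)) = v (ng a) + v (ng d) := by
  rw [xm_apply hO hv h1 h2, hv.pn, hv.p0 (a := ng d) (b := ng a) (by rw [ng_ng]; exact h2.symm)]; simp
theorem xm_nd : (Eo hO (v (ng d)) (-v a) : V ≃ₗ[F] V) (v (ng d)) = v (ng d) := by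
  rw [xm_apply hO hv h1 h2, hv.self, hv.p0 (a := a) (b := ng d) (ng_ng_ne h1)]; simp

theorem wy_a : (wy hO v a d : V ≃ₗ[F] V) (v a) = v d := by
  rw [wy, Om_mul, Om_mul, xp_a hO hv h1 h2, map_add, xm_a hO hv h1 h2, xm_d hO hv h1 h2, add_sub_cancel, xp_d hO hv h1 h2]

theorem wy_d : (wy hO v a d : V ≃ₗ[F] V) (v d) = -v a := by
  rw [wy, Om_mul, Om_mul, xp_d hO hv h1 h2, xm_d hO hv h1 h2, map_sub, xp_a hO hv h1 h2, xp_d hO hv h1 h2]; abel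

theorem wy_na : (wy hO v a d : V ≃ₗ[F] V) (v (ng a)) = v (ng d) := by
  rw [wy, Om_mul, Om_mul, xp_na hO hv h1 h2, xm_na hO hv h1 h2, map_add, xp_na hO hv h1 h2, xp_nd hO hv h1 h2]; abel

theorem wy_nd : (wy hO v a d : V ≃ₗ[F] V) (v (ng d)) = -v (ng a) := by
  rw [wy, Om_mul, Om_mul, xp_nd hO hv h1 h2, map_sub, xm_na hO hv h1 h2, xm_nd hO hv h1 h2, sub_add_cancel_right, map_neg, xp_na hO hv h1 h2]

theorem wy_0 {x : V} (k1 : polar Q (v a) x = 0) (k2 : polar Q (v (ng a)) x = 0) (k3 : polar Q (v d) x = 0) (k4 : polar Q (v (ng d)) x = 0) :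
    (wy hO v a d : V ≃ₗ[F] V) x = x := by
  have e1 : (Eo hO (v (ng a)) (v d) : V ≃ₗ[F] V) x = x := by rw [xp_apply hO hv h1 h2, k2, k3]; simp
  have e2 : (Eo hO (v (ng d)) (-v a) : V ≃ₗ[F] V) x = x := by rw [xm_apply hO hv h1 h2, k1, k4]; simp
  rw [wy, Om_mul, Om_mul, e1, e2, e1]

end wyl

variable {Γ : Type*} [Group Γ] {σ : Γ →* Om Q} (hσ : CE σ)

include hv in
/-- orthogonal root elements of different planes, odd case -/
theorem T3_odd (hsq : ∀ a ∈ σ.ker, a * a = 1 → a = 1) (small : ∀ x : F, x ≠ 0 → x * x = 1) {a b d e : Zs m} (hba : b ≠ a) (hab : b ≠ ng a)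
    (d1 : d ≠ a) (d2 : d ≠ ng a) (d3 : d ≠ b) (d4 : d ≠ ng b) (e1 : e ≠ a) (e2 : e ≠ ng a) (e3 : e ≠ b) (e4 : e ≠ ng b) (e5 : e ≠ d) (e6 : e ≠ ng d) (s : F) :
    cl hσ (xr hO v a b) (Eo hO (v d) (s • v e)) = 1 := by
  have hp : polar Q (v d) (v e) = 0 := hv.p0 e6
  have hdW := mem_W4 hv d1 d2 d3 d4
  have heW := mem_W4 hv e1 e2 e3 e4
  have hc : xr hO v a b * Eo hO (v d) (v e) = Eo hO (v d) (v e) * xr hO v a b := by
    apply xr_comm_of_fix hO hv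
    · exact Eo_fix hO (hv.q0 d) hp (by rw [polar_comm]; exact hdW.1) (by rw [polar_comm]; exact heW.1)
    · exact Eo_fix hO (hv.q0 d) hp (by rw [polar_comm]; exact hdW.2.2.1) (by rw [polar_comm]; exact heW.2.2.1)
  have key : cl hσ (xr hO v a b) (Eo hO (v d) (v e)) = 1 := by
    obtain ⟨n, hn⟩ : ∃ n, n = wy hO v a d * wy hO v b e := ⟨_, rfl⟩
    have f1 : (wy hO v b e : V ≃ₗ[F] V) (v a) = v a := wy_0 hO hv e3 e4 (hv.p0 (ng_ne_of hab)) (hv.p0 (by rw [ng_ng]; exact hba.symm)) (hv.p0 (ng_ne_of e2)) (hv.p0 (by rw [ng_ng]; exact e1.symm))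
    have f2 : (wy hO v b e : V ≃ₗ[F] V) (v d) = v d := wy_0 hO hv e3 e4 (hv.p0 d4) (hv.p0 (by rw [ng_ng]; exact d3)) (hv.p0 (ng_ne_of e6)) (hv.p0 (by rw [ng_ng]; exact e5.symm))
    have f3 : (wy hO v a d : V ≃ₗ[F] V) (v e) = v e := wy_0 hO hv d1 d2 (hv.p0 e2) (hv.p0 (by rw [ng_ng]; exact e1)) (hv.p0 e6) (hv.p0 (by rw [ng_ng]; exact e5))
    have f4 : (wy hO v a d : V ≃ₗ[F] V) (v b) = v b := wy_0 hO hv d1 d2 (hv.p0 hab) (hv.p0 (by rw [ng_ng]; exact hba)) (hv.p0 (ng_ne_of d4)) (hv.p0 (by rw [ng_ng]; exact d3.symm))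
    have n1 : (n : V ≃ₗ[F] V) (v a) = v d := by rw [hn, Om_mul, f1, wy_a hO hv d1 d2]
    have n2 : (n : V ≃ₗ[F] V) (v d) = -v a := by rw [hn, Om_mul, f2, wy_d hO hv d1 d2]
    have n3 : (n : V ≃ₗ[F] V) (v b) = v e := by rw [hn, Om_mul, wy_a hO hv e3 e4, f3]
    have n4 : (n : V ≃ₗ[F] V) (v e) = -v b := by rw [hn, Om_mul, wy_d hO hv e3 e4, map_neg, f4]
    have h1 := cl_conj_of_commute hσ n _ _ hc
    unfold xr at h1
    rw [Eo_conj, Eo_conj, n1, n2, n3, n4, ← neg_one_smul F (v a), ← neg_one_smul F (v b), Eo_smul hO (neg_ne_zero.2 one_ne_zero), smul_smul, neg_mul_neg, one_mul, one_smul, ← cl_inv] at h1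
    exact hsq _ (cl_mem_ker hσ hc) (by nth_rw 1 [show cl hσ (xr hO v a b) (Eo hO (v d) (v e)) = (cl hσ (Eo hO (v a) (v b)) (Eo hO (v d) (v e)))⁻¹ from h1.symm]; exact inv_mul_cancel _)
  by_cases hs : s = 0
  · rw [hs, zero_smul, Eo_zero, cl_one_right]
  have hs2 := small s hs
  rcases mul_self_eq_one_iff.1 hs2 with rfl | rfl
  · rw [one_smul]; exact key
  · rw [neg_one_smul, ← Eo_inv hO hp, cl_invc hσ hc, key, inv_one]

include hv in
/-- orthogonal root elements, with additional room -/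
theorem T3_room {a b d e : Zs m} (hab : b ≠ ng a)
    (d1 : d ≠ a) (d2 : d ≠ ng a) (d3 : d ≠ b) (d4 : d ≠ ng b) (e1 : e ≠ a) (e2 : e ≠ ng a) (e3 : e ≠ b) (e4 : e ≠ ng b) (e6 : e ≠ ng d)
    {x x' : V} (hx : x ∈ W4 Q v a b) (hx' : x' ∈ W4 Q v a b) (hxd : x ∈ W4 Q v d e) (hxd' : x' ∈ W4 Q v d e) (hxx : polar Q x x' = 1) (s : F) :
    cl hσ (xr hO v a b) (Eo hO (v d) (s • v e)) = 1 := by
  have hdW := mem_W4 hv d1 d2 d3 d4
  have heW := mem_W4 hv e1 e2 e3 e4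
  rw [← Eo_cm hO (hv.q0 d) (hv.q0 e) (hv.p0 e6) hxd.1 hxd'.1 hxd.2.2.1 hxd'.2.2.1 hxx s]
  apply cl_cmm hσ
  · apply xr_comm_of_fix hO hv
    · exact Eo_fix hO (hv.q0 d) (by rw [polar_smul_right, hxd.1, smul_zero]) (by rw [polar_comm]; exact hdW.1) (by rw [polar_comm, polar_smul_right, hx.1, smul_zero])
    · exact Eo_fix hO (hv.q0 d) (by rw [polar_smul_right, hxd.1, smul_zero]) (by rw [polar_comm]; exact hdW.2.2.1) (by rw [polar_comm, polar_smul_right, hx.2.2.1, smul_zero])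
  · apply xr_comm_of_fix hO hv
    · exact Eo_fix hO (hv.q0 e) hxd'.2.2.1 (by rw [polar_comm]; exact heW.1) (by rw [polar_comm]; exact hx'.1)
    · exact Eo_fix hO (hv.q0 e) hxd'.2.2.1 (by rw [polar_comm]; exact heW.2.2.1) (by rw [polar_comm]; exact hx'.2.2.1)

/-- Siegel elements of a sum -/
theorem Eo_addz {z1 z2 y : V} (h1 : Q z1 = 0) (h2 : Q z2 = 0) (h12 : polar Q z1 z2 = 0) (h1y : polar Q z1 y = 0) (h2y : polar Q z2 y = 0) :
    Eo hO (z1 + z2) y = Eo hO z1 ((-Q y) • z2) * (Eo hO z1 y * Eo hO z2 y) := by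
  apply Om_ext
  intro x
  rw [Om_mul, Om_mul, Eo_apply hO (by rw [Q_add, h1, h2, h12]; simp) (by rw [polar_add_left, h1y, h2y, add_zero]),
    Eo_apply hO h1 (by rw [polar_smul_right, h12, smul_zero]), Eo_apply hO h1 h1y, Eo_apply hO h2 h2y]
  have h21 : polar Q z2 z1 = 0 := by rw [polar_comm, h12]
  have hy1 : polar Q y z1 = 0 := by rw [polar_comm, h1y]
  have hy2 : polar Q y z2 = 0 := by rw [polar_comm, h2y]
  have s1 : polar Q z1 z1 = 0 := by rw [polar_self', h1, mul_zero]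
  have s2 : polar Q z2 z2 = 0 := by rw [polar_self', h2, mul_zero]
  simp only [polar_add_right, polar_sub_right, polar_smul_right, polar_smul_left, polar_add_left, smul_eq_mul, h12, h21, hy1, hy2, s1, s2, h1y, h2y, polar_self' Q y, Q_smul, h2]
  simp only [mul_zero, sub_zero, add_zero, zero_mul, zero_smul]
  module

include hv in
/-- short root elements, with additional room -/
theorem U3_room {a b d e : Zs m} (hab : b ≠ ng a)
    (d1 : d ≠ a) (d2 : d ≠ ng a) (d3 : d ≠ b) (d4 : d ≠ ng b) (e1 : e ≠ a) (e2 : e ≠ ng a) (e3 : e ≠ b) (e4 : e ≠ ng b) (e5 : e ≠ d) (e6 : e ≠ ng d)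
    (hT : ∀ s : F, cl hσ (xr hO v a b) (Eo hO (v (ng e)) (s • v d)) = 1) {u : V} (hu : u ∈ V0 Q v) : cl hσ (xr hO v a b) (Eo hO (v d) u) = 1 := by
  have hdW := mem_W4 hv d1 d2 d3 d4
  have heW := mem_W4 hv e1 e2 e3 e4
  have hnW := mem_W4 hv (a := a) (b := b) (c := ng e) (ng_ne_of' e2) (ng_ng_ne e1) (ng_ne_of' e4) (ng_ng_ne e3)
  have hde : polar Q (v d) (v e) = 0 := hv.p0 e6
  have hcu : ∀ c : Zs m, c ≠ a → c ≠ ng a → c ≠ b → c ≠ ng b → ∀ u ∈ V0 Q v, xr hO v a b * Eo hO (v c) u = Eo hO (v c) u * xr hO v a b := by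
    intro c c1 c2 c3 c4 u hu
    have hcW := mem_W4 hv c1 c2 c3 c4
    apply xr_comm_of_fix hO hv
    · exact Eo_fix hO (hv.q0 c) (hu c) (by rw [polar_comm]; exact hcW.1) (by rw [polar_comm]; exact hu a)
    · exact Eo_fix hO (hv.q0 c) (hu c) (by rw [polar_comm]; exact hcW.2.2.1) (by rw [polar_comm]; exact hu b)
  have g1 : (Eo hO (v d) (v e) : V ≃ₗ[F] V) (v a) = v a := Eo_fix hO (hv.q0 d) hde (by rw [polar_comm]; exact hdW.1) (by rw [polar_comm]; exact heW.1)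
  have g2 : (Eo hO (v d) (v e) : V ≃ₗ[F] V) (v b) = v b := Eo_fix hO (hv.q0 d) hde (by rw [polar_comm]; exact hdW.2.2.1) (by rw [polar_comm]; exact heW.2.2.1)
  have g3 : (Eo hO (v d) (v e) : V ≃ₗ[F] V) (v (ng e)) = v (ng e) + -v d := by
    rw [Eo_perp hO (hv.q0 d) hde (hv.p0 (ng_ng_ne e5)), hv.pn, one_smul, sub_eq_add_neg]
  have g4 : (Eo hO (v d) (v e) : V ≃ₗ[F] V) u = u := Eo_fix hO (hv.q0 d) hde (hu d) (hu e)
  have n1 := ng_ne_of' e2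
  have n2 := ng_ng_ne e1
  have n3 := ng_ne_of' e4
  have n4 := ng_ng_ne e3
  have h1 := cl_conj_fix hO hv hσ g1 g2 (hcu (ng e) n1 n2 n3 n4 u hu)
  have hnd : polar Q (v (ng e)) (v d) = 0 := hv.p0 (by rw [ng_ng]; exact e5.symm)
  have hEd : Eo hO (-v d) u = Eo hO (v d) (-u) := by
    rw [← neg_one_smul F (v d), Eo_smul hO (neg_ne_zero.2 one_ne_zero), neg_one_smul]
  have hcl : xr hO v a b * Eo hO (v (ng e)) (Q u • v d) = Eo hO (v (ng e)) (Q u • v d) * xr hO v a b := by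
    apply xr_comm_of_fix hO hv
    · exact Eo_fix hO (hv.q0 _) (by rw [polar_smul_right, hnd, smul_zero]) (by rw [polar_comm]; exact hnW.1) (by rw [polar_comm, polar_smul_right, hdW.1, smul_zero])
    · exact Eo_fix hO (hv.q0 _) (by rw [polar_smul_right, hnd, smul_zero]) (by rw [polar_comm]; exact hnW.2.2.1) (by rw [polar_comm, polar_smul_right, hdW.2.2.1, smul_zero])
  rw [Eo_conj, g3, g4, Eo_addz hO (hv.q0 _) (by rw [QuadraticMap.map_neg, hv.q0]) (by rw [polar_neg_right, hnd, neg_zero]) (hu _) (by rw [polar_neg_left, hu d, neg_zero]),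
    smul_neg, neg_smul, neg_neg, cl_mulc hσ hcl, hT, one_mul, cl_mulc hσ (hcu (ng e) n1 n2 n3 n4 u hu), mul_eq_left, hEd, ← Eo_inv hO (hu d),
    cl_invc hσ (hcu d d1 d2 d3 d4 u hu), inv_eq_one] at h1
  exact h1

/-- a rotation of the anisotropic part without eigenvalue one -/
def Rot (Q : QuadraticForm F V) (v : Zs m → V) : Prop := ∃ ρ : Om Q, (∀ a, (ρ : V ≃ₗ[F] V) (v a) = v a) ∧ ∀ u ∈ V0 Q v, ∃ u' ∈ V0 Q v, u = u' - (ρ : V ≃ₗ[F] V) u'

include hv in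
theorem U3_rot (hR : Rot Q v) {a b d : Zs m} (d1 : d ≠ a) (d2 : d ≠ ng a) (d3 : d ≠ b) (d4 : d ≠ ng b) {u : V} (hu : u ∈ V0 Q v) : cl hσ (xr hO v a b) (Eo hO (v d) u) = 1 := by
  obtain ⟨ρ, h1, h2⟩ := hR
  obtain ⟨u', hu', rfl⟩ := h2 u hu
  have hdW := mem_W4 hv d1 d2 d3 d4
  have hcu : ∀ u ∈ V0 Q v, xr hO v a b * Eo hO (v d) u = Eo hO (v d) u * xr hO v a b := by
    intro u hu
    apply xr_comm_of_fix hO hv
    · exact Eo_fix hO (hv.q0 d) (hu d) (by rw [polar_comm]; exact hdW.1) (by rw [polar_comm]; exact hu a)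
    · exact Eo_fix hO (hv.q0 d) (hu d) (by rw [polar_comm]; exact hdW.2.2.1) (by rw [polar_comm]; exact hu b)
  have hρu : (ρ : V ≃ₗ[F] V) u' ∈ V0 Q v := by
    intro c
    have := OmP ρ (v c) u'
    rwa [h1, hu' c] at this
  have h3 := cl_conj_fix hO hv hσ (h1 a) (h1 b) (hcu u' hu')
  rw [Eo_conj, h1] at h3
  rw [sub_eq_add_neg, ← Eo_add hO (hu' d) (by rw [polar_neg_right, hρu d, neg_zero]), cl_mulc hσ (hcu u' hu'), ← Eo_inv hO (hρu d), cl_invc hσ (hcu _ hρu), h3, mul_inv_cancel]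

include hv in
/-- **the root element pairs trivially with the pointwise stabiliser of its line** -/
theorem CF_of [Finite F] (hgen : GenHyp Q) (hroom : Room Q v) (han : ∀ x ∈ V0 Q v, Q x = 0 → x = 0)
    (hW : ∀ a b : Zs m, b ≠ a → b ≠ ng a → GenHyp (res Q (W4 Q v a b)) ∧ 4 ≤ finrank F (W4 Q v a b))
    (T3 : ∀ a b, b ≠ a → b ≠ ng a → ∀ d e, d ≠ a → d ≠ ng a → d ≠ b → d ≠ ng b → e ≠ a → e ≠ ng a → e ≠ b → e ≠ ng b → e ≠ d → e ≠ ng d → ∀ s : F,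
      cl hσ (xr hO v a b) (Eo hO (v d) (s • v e)) = 1)
    (U3 : ∀ a b, b ≠ a → b ≠ ng a → ∀ d, d ≠ a → d ≠ ng a → d ≠ b → d ≠ ng b → ∀ u ∈ V0 Q v, cl hσ (xr hO v a b) (Eo hO (v d) u) = 1) :
    ∀ a b : Zs m, b ≠ a → b ≠ ng a → ∀ g : Om Q, (g : V ≃ₗ[F] V) (v a) = v a → (g : V ≃ₗ[F] V) (v b) = v b → cl hσ (xr hO v a b) g = 1 := by
  intro a b hba hab g h1 h2
  obtain ⟨c, c1, c2, c3, c4, y₁, x₁, w1, w2, w3, w4, w5⟩ := hroom a b hba hab
  refine cl_fix hO hv hσ hba hab c1 c2 c3 c4 w1 w2 w3 w4 w5 ?_ h1 h2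
  intro g k1 k2 k3 k4
  refine cl_W4 hO hv hσ hgen hba hab (hW a b hba hab).1 (hW a b hba hab).2 ?_ ⟨k1, k2, k3, k4⟩
  intro z hz y hy hQz hzy
  exact E1_of hO hv hσ han hba hab (T3 a b hba hab) (U3 a b hba hab) hz hy hQz hzy

end main

end Cfsg.Agent.Lib.MulOrth
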