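import Cfsg.Agent.Lib.MulOrthF

/-! Multipliers of the simple orthogonal groups of plus type (helper35). -/

set_option autoImplicit false

namespace Cfsg.Agent.Lib.MulOrthG

open Cfsg.Agent.Lib.Quad Cfsg.Agent.Lib.ClOrthSiegel Cfsg.Agent.Lib.ClOmega Cfsg.Agent.Lib.MulOrth Cfsg.Agent.Lib.MulSpin Cfsg.Agent.Lib.MulOrthF QuadraticMap Module
open Cfsg.Agent.Lib.SchurSylow
open Cfsg.Agent.Lib.PresBC (Zs ng ng_ng ng_ne ng_inj)

universe u

section plus
variable {F : Type u} [Field F] [Fintype F] (m : ℕ)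

/-- the frame of the split form -/
noncomputable def vP (F : Type u) [Field F] (m : ℕ) : Zs m → (Fin m ⊕ Fin m → F) := Sum.elim (hpPlus (F := F) m).e (hpPlus (F := F) m).f

omit [Fintype F] in
theorem sfP : SF (quadPlus m F) (vP F m) := sf_of_frame (frame_of_HP (hpPlus m))

omit [Fintype F] in
theorem v0P : ∀ u ∈ V0 (quadPlus m F) (vP F m), u = 0 := by
  intro u hu
  funext i
  rcases i with i | i
  · have := hu (Sum.inr i)
    rwa [show vP F m (Sum.inr i) = Pi.single ((hpPlus (F := F) m).p' i) 1 from rfl, (hpPlus (F := F) m).pol'] at this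
  · have := hu (Sum.inl i)
    rwa [show vP F m (Sum.inl i) = Pi.single ((hpPlus (F := F) m).p i) 1 from rfl, (hpPlus (F := F) m).pol] at this

omit [Fintype F] in
theorem odP (hm : 3 ≤ m) [Finite F] : OD (quadPlus m F) (vP F m) (Fin.elim0 : Fin 0 → _) where
  nd := nd_quadPlus
  gen := by
    haveI := Fintype.ofFinite F
    exact genHyp_plus m hm
  sf := sfP m
  he i := i.elim0
  span u hu := by rw [v0P m u hu]; exact zero_mem _
  an u hu _ := v0P m u hu
  dim := by rw [finrank_plus]; omega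

theorem cardOmP (hm : 3 ≤ m) : Nat.card (Om (quadPlus m F)) * Nat.gcd 4 (Fintype.card F ^ m - 1) = Nat.card F ^ (m * (m - 1) + m * 0) *
    (Nat.card (Subgroup.center (Om (quadPlus m F))) * (Fintype.card F ^ m - 1) * ∏ i ∈ Finset.range (m - 1), (Fintype.card F ^ (2 * (i + 1)) - 1)) := by
  have h1 := card_POmega_plus (F := F) m hm
  have h2 : Nat.card (Om (quadPlus m F)) = Nat.card (Cfsg.POmega F (Cfsg.quadFormPlus m F)) * Nat.card (Subgroup.center (Om (quadPlus m F))) := by
    rw [← coe_quadPlus, Nat.card_congr (pomEquiv (quadPlus m F)).toEquiv]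
    exact Subgroup.card_eq_card_quotient_mul_card_subgroup _
  rw [h2, Nat.card_eq_fintype_card (α := F), mul_zero, add_zero]
  calc Nat.card (Cfsg.POmega F (Cfsg.quadFormPlus m F)) * Nat.card (Subgroup.center (Om (quadPlus m F))) * Nat.gcd 4 (Fintype.card F ^ m - 1)
      = (Nat.gcd 4 (Fintype.card F ^ m - 1) * Nat.card (Cfsg.POmega F (Cfsg.quadFormPlus m F))) * Nat.card (Subgroup.center (Om (quadPlus m F))) := by ring
    _ = _ := by rw [h1]; ring

theorem cardOmP' {p : ℕ} [hp : Fact p.Prime] [CharP F p] (hm : 3 ≤ m) : ∃ A B : ℕ, ¬ p ∣ B ∧ Nat.card (Om (quadPlus m F)) * A = Nat.card F ^ (m * (m - 1) + m * 0) * B := by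
  have hod := odP (F := F) m hm
  refine ⟨_, _, ?_, cardOmP m hm⟩
  rw [hp.out.dvd_mul, hp.out.dvd_mul]
  rintro ((h | h) | h)
  · exact not_dvd_center hod.nd (hod.nd.R_eq_O hod.gen) hod.frame (by omega) h
  · exact not_dvd_pow_sub (by omega) h
  · exact not_dvd_prod _ h

theorem stemP (hm : 4 ≤ m) (hexc : ¬ (m = 4 ∧ Fintype.card F = 2)) : StemDvd (Om (quadPlus m F)) (Nat.gcd 2 (Fintype.card F - 1)) := by
  apply StemDvd.of_forall
  intro r hr
  haveI : Fact r.Prime := ⟨hr⟩
  obtain ⟨p, hpc⟩ := CharP.exists F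
  haveI := hpc
  haveI hp : Fact p.Prime := ⟨CharP.char_is_prime F p⟩
  have hod := odP (F := F) m (by omega)
  by_cases hrp : r = p
  · subst hrp
    have h1 : PStemDvd r (Om (quadPlus m F)) 1 := by
      apply hod.pstem (by omega) (Or.inl hm)
      · intro _
        refine ⟨by omega, fun h2 => ⟨Or.inl (by omega), Or.inl (by omega)⟩, Or.inl (v0P m)⟩
      · intro P hP hle
        obtain ⟨A, B, hB, hc⟩ := cardOmP' (F := F) (p := r) m (by omega)
        exact idx_of hc hB P hP hle
    exact h1.mono (one_dvd _)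
  · exact crossD (hod.oh (by omega)) (sfP m) (v0P m) (k := ⟨m - 2, by omega⟩) (l := ⟨m - 1, by omega⟩) (by simp; omega) (by simp; omega) hrp

/-- multipliers, plus type -/
theorem multP {q : ℕ} (hF : Fintype.card F = q) (hm : 4 ≤ m) (hexc : ¬ (m = 4 ∧ q = 2)) :
    (Odd m → Cfsg.HasSchurMultiplier (Cfsg.POmega F (Cfsg.quadFormPlus m F)) (Multiplicative (ZMod (Nat.gcd 4 (q ^ m - 1))))) ∧
    (Even m → Cfsg.HasSchurMultiplier (Cfsg.POmega F (Cfsg.quadFormPlus m F)) (Multiplicative (ZMod (Nat.gcd 2 (q ^ m - 1)) × ZMod (Nat.gcd 2 (q ^ m - 1))))) := by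
  subst hF
  have hod := odP (F := F) m (by omega)
  have hst := stemP (F := F) m hm hexc
  have hR := hod.nd.R_eq_O hod.gen
  have hfr := hod.frame
  have hO := hod.oh (by omega)
  have e := (pomEquiv (quadPlus m F)).symm
  have hq1 : 1 < Fintype.card F := Fintype.one_lt_card
  have hpow : 1 ≤ Fintype.card F ^ m := Nat.one_le_pow _ _ (by omega)
  have hcong : ∀ {A : Type} [CommGroup A], Cfsg.HasSchurMultiplier (Om (quadPlus m F) ⧸ Subgroup.center (Om (quadPlus m F))) A →
      Cfsg.HasSchurMultiplier (Cfsg.POmega F (Cfsg.quadFormPlus m F)) A := fun h => hasSchurMultiplier_congr e h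
  by_cases h2 : (2 : F) = 0
  · have hev : Even (Fintype.card F) := even_card_of_two h2
    have h4 : Odd (Fintype.card F ^ m - 1) := Nat.Even.sub_odd hpow (Nat.even_pow.2 ⟨hev, by omega⟩) odd_one
    have h5 : Odd (Fintype.card F - 1) := Nat.Even.sub_odd hq1.le hev odd_one
    have g1 : Nat.gcd 4 (Fintype.card F ^ m - 1) = 1 := by
      have : Nat.Coprime (2 ^ 2) (Fintype.card F ^ m - 1) := Nat.Coprime.pow_left 2 (Nat.coprime_two_left.2 h4)
      exact this
    have g2 : Nat.gcd 2 (Fintype.card F ^ m - 1) = 1 := Nat.coprime_two_left.2 h4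
    have g3 : Nat.gcd 2 (Fintype.card F - 1) = 1 := Nat.coprime_two_left.2 h5
    rw [g3] at hst
    rw [g1, g2]
    refine ⟨fun _ => hcong ?_, fun _ => hcong ?_⟩
    · exact mult_even hod.nd hR hfr (by omega) h2 hst (Nat.card_zmod 1)
    · refine mult_even hod.nd hR hfr (by omega) h2 hst ?_
      show Nat.card (ZMod 1 × ZMod 1) = 1
      rw [Nat.card_prod, Nat.card_zmod]
  · have hodd : Odd (Fintype.card F) := odd_card_of_two h2
    have g3 : Nat.gcd 2 (Fintype.card F - 1) = 2 := by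
      apply Nat.gcd_eq_left
      obtain ⟨k, hk⟩ := hodd
      omega
    rw [g3] at hst
    have g2 : Nat.gcd 2 (Fintype.card F ^ m - 1) = 2 := by
      apply Nat.gcd_eq_left
      obtain ⟨k, hk⟩ := (hodd.pow : Odd (Fintype.card F ^ m))
      omega
    have key := hod.nd.neg_mem_Om_iff h2 (Pi.basisFun F (Fin m ⊕ Fin m))
    rw [finrank_plus, det_gram_plus, isSquare_neg_one_pow_iff rfl hodd] at key
    have hdim : finrank F (Fin m ⊕ Fin m → F) = 2 * m := by rw [finrank_plus]
    have hcases : (Nat.gcd 4 (Fintype.card F ^ m - 1) = 4 ∧ Nat.card (Subgroup.center (Om (quadPlus m F))) = 2) ∨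
        (Nat.gcd 4 (Fintype.card F ^ m - 1) = 2 ∧ Nat.card (Subgroup.center (Om (quadPlus m F))) = 1 ∧ Fintype.card F ^ m % 4 ≠ 1) := by
      rcases mod_four_cases hodd m with h4 | h4
      · left
        refine ⟨Nat.gcd_eq_left (by omega), ?_⟩
        exact card_center_of_mem hod.nd hR hfr (by omega) h2 (key.2 ⟨⟨m, by ring⟩, h4⟩)
      · right
        refine ⟨?_, card_center_of_not_mem hod.nd hR hfr (by omega) (fun _ h => by have := (key.1 h).2; omega), by omega⟩
        obtain ⟨k, hk⟩ : ∃ k, Fintype.card F ^ m - 1 = 4 * k + 2 := ⟨(Fintype.card F ^ m - 1) / 4, by omega⟩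
        rw [hk, Nat.gcd_rec]
        simp [Nat.add_mod, Nat.mul_mod]
    refine ⟨fun hm1 => hcong ?_, fun hm1 => hcong ?_⟩
    · refine mult_odd_cyc hO (sfP m) hfr (by omega) h2 hst (Or.inr ⟨m, hdim, hm1⟩) ?_
      rcases hcases with ⟨h3, h4⟩ | ⟨h3, h4, -⟩ <;> rw [h3, h4]
    · rw [g2]
      have hsq : Fintype.card F ^ m % 4 = 1 := by
        obtain ⟨k, hk⟩ := hm1
        obtain ⟨j, hj⟩ := hodd
        rw [hk, ← two_mul, pow_mul, hj, Nat.pow_mod]
        have : (2 * j + 1) ^ 2 % 4 = 1 := by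
          have : (2 * j + 1) ^ 2 = 4 * (j * j + j) + 1 := by ring
          rw [this]; omega
        rw [this, one_pow]
        norm_num
      have hc : Nat.card (Subgroup.center (Om (quadPlus m F))) = 2 := by
        rcases hcases with ⟨h3, h4⟩ | ⟨h3, h4, h5⟩
        · exact h4
        · exact absurd hsq h5
      exact mult_odd_four hO (sfP m) hfr (by omega) h2 hst hc hdim hm1

end plus

end Cfsg.Agent.Lib.MulOrthG
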