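import Cfsg.Agent.Lib.MulOrthRI
import Cfsg.Agent.Lib.MulOrthF
import Cfsg.Agent.Lib.QuadNorm

/-! Multipliers of the simple orthogonal groups of odd dimension (helper35). -/

set_option autoImplicit false

namespace Cfsg.Agent.Lib.MulOrthH

open Cfsg.Agent.Lib.Quad Cfsg.Agent.Lib.ClOrthSiegel Cfsg.Agent.Lib.ClOmega Cfsg.Agent.Lib.MulOrth Cfsg.Agent.Lib.MulSpin Cfsg.Agent.Lib.MulOrthF QuadraticMap Module
open Cfsg.Agent.Lib.SchurSylow
open Cfsg.Agent.Lib.PresBC (Zs ng ng_ng ng_ne ng_inj)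

universe u

section odd
variable {F : Type u} [Field F] (m : ℕ)

/-- the frame -/
noncomputable def vO (F : Type u) [Field F] (m : ℕ) : Zs m → (Unit ⊕ (Fin m ⊕ Fin m) → F) := Sum.elim (hpOdd (F := F) m).e (hpOdd (F := F) m).f

theorem sfO : SF (quadOdd m F) (vO F m) := sf_of_frame (frame_of_HP (hpOdd m))

/-- the remaining basis vector -/
def eO (F : Type u) [Field F] (m : ℕ) : Unit ⊕ (Fin m ⊕ Fin m) → F := Pi.single (Sum.inl ()) 1

theorem v0O_zero {u : Unit ⊕ (Fin m ⊕ Fin m) → F} (hu : u ∈ V0 (quadOdd m F) (vO F m)) (j : Fin m ⊕ Fin m) : u (Sum.inr j) = 0 := by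
  rcases j with i | i
  · have := hu (Sum.inr i)
    rwa [show vO F m (Sum.inr i) = Pi.single ((hpOdd (F := F) m).p' i) 1 from rfl, (hpOdd (F := F) m).pol'] at this
  · have := hu (Sum.inl i)
    rwa [show vO F m (Sum.inl i) = Pi.single ((hpOdd (F := F) m).p i) 1 from rfl, (hpOdd (F := F) m).pol] at this

theorem v0O_mem {u : Unit ⊕ (Fin m ⊕ Fin m) → F} (hu : ∀ j, u (Sum.inr j) = 0) : u ∈ V0 (quadOdd m F) (vO F m) := by
  rintro (i | i)
  · rw [show vO F m (Sum.inl i) = Pi.single ((hpOdd (F := F) m).p i) 1 from rfl, (hpOdd (F := F) m).pol]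
    exact hu _
  · rw [show vO F m (Sum.inr i) = Pi.single ((hpOdd (F := F) m).p' i) 1 from rfl, (hpOdd (F := F) m).pol']
    exact hu _

theorem v0O_eq {u : Unit ⊕ (Fin m ⊕ Fin m) → F} (hu : u ∈ V0 (quadOdd m F) (vO F m)) : u = u (Sum.inl ()) • eO F m := by
  funext j
  rcases j with j | j
  · simp [eO]
  · rw [v0O_zero m hu]; simp [eO]

theorem eO_mem : eO F m ∈ V0 (quadOdd m F) (vO F m) := v0O_mem m (fun j => by simp [eO])

theorem qO_eq {u : Unit ⊕ (Fin m ⊕ Fin m) → F} (hu : u ∈ V0 (quadOdd m F) (vO F m)) : quadOdd m F u = u (Sum.inl ()) * u (Sum.inl ()) := by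
  show Cfsg.quadFormOdd m F u = _
  simp only [Cfsg.quadFormOdd, v0O_zero m hu, mul_zero, Finset.sum_const_zero, add_zero, pow_two]

theorem polO (u w : Unit ⊕ (Fin m ⊕ Fin m) → F) (hu : u ∈ V0 (quadOdd m F) (vO F m)) : polar (quadOdd m F) u w = 2 * u (Sum.inl ()) * w (Sum.inl ()) := by
  show polar (Cfsg.quadFormOdd m F) u w = _
  rw [polar_quadOdd]
  simp only [v0O_zero m hu, zero_mul, add_zero, Finset.sum_const_zero]

theorem anO {u : Unit ⊕ (Fin m ⊕ Fin m) → F} (hu : u ∈ V0 (quadOdd m F) (vO F m)) (h : quadOdd m F u = 0) : u = 0 := by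
  rw [qO_eq m hu] at h
  rw [v0O_eq m hu, mul_self_eq_zero.1 h, zero_smul]

theorem odO (hm : 3 ≤ m) (h2 : (2 : F) ≠ 0) [Finite F] : OD (quadOdd m F) (vO F m) (fun _ : Fin 1 => eO F m) where
  nd := nd_quadOdd h2
  gen := by
    haveI := Fintype.ofFinite F
    exact genHyp_odd m hm
  sf := sfO m
  he _ := eO_mem m
  span u hu := by
    rw [v0O_eq m hu]
    exact Submodule.smul_mem _ _ (Submodule.subset_span ⟨0, rfl⟩)
  an u hu h := anO m hu h
  dim := by rw [finrank_odd]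

theorem kdO : KD (K := F) (quadOdd m F) (vO F m) (fun x => x) (LinearMap.proj (Sum.inl ())) 1 where
  sa _ _ := rfl
  sm _ _ := rfl
  ss _ := rfl
  sF _ := rfl
  θv a := by
    rcases a with i | i
    · show (Pi.single ((hpOdd (F := F) m).p i) 1 : Unit ⊕ (Fin m ⊕ Fin m) → F) (Sum.inl ()) = 0
      simp [hpOdd]
    · show (Pi.single ((hpOdd (F := F) m).p' i) 1 : Unit ⊕ (Fin m ⊕ Fin m) → F) (Sum.inl ()) = 0
      simp [hpOdd]
  κ0 := one_ne_zero
  hq u hu := by
    show quadOdd m F u = 1 * (u (Sum.inl ()) * u (Sum.inl ()))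
    rw [one_mul, qO_eq m hu]
  inj u hu h := by
    have h' : u (Sum.inl ()) = 0 := h
    rw [v0O_eq m hu, h', zero_smul]
  surj z := ⟨z • eO F m, Submodule.smul_mem _ _ (eO_mem m), by show z * _ = z; simp [eO]⟩

theorem vpO (h2 : (2 : F) ≠ 0) : VP (quadOdd m F) (vO F m) := by
  refine ⟨eO F m, eO_mem m, (2 : F)⁻¹ • eO F m, Submodule.smul_mem _ _ (eO_mem m), ?_⟩
  rw [polO m _ _ (eO_mem m)]
  simp [eO, h2]

theorem ndO (h2 : (2 : F) ≠ 0) : ∀ u ∈ V0 (quadOdd m F) (vO F m), (∀ u' ∈ V0 (quadOdd m F) (vO F m), polar (quadOdd m F) u' u = 0) → u = 0 := by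
  intro u hu h
  have h1 := h _ (eO_mem m)
  rw [polO m _ _ (eO_mem m)] at h1
  have h3 : u (Sum.inl ()) = 0 := by
    simpa [eO, h2] using h1
  rw [v0O_eq m hu, h3, zero_smul]

variable [Fintype F]

theorem centerO (hm : 3 ≤ m) (h2 : (2 : F) ≠ 0) : Nat.card (Subgroup.center (Om (quadOdd m F))) = 1 := by
  have hod := odO (F := F) m hm h2
  apply card_center_of_not_mem hod.nd (hod.nd.R_eq_O hod.gen) hod.frame (by omega)
  intro _
  rw [hod.nd.neg_mem_Om_iff h2 (Pi.basisFun F _), finrank_odd]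
  rintro ⟨h, -⟩
  rw [Nat.even_add_one] at h
  exact h ⟨m, by ring⟩

theorem cardOmO {p : ℕ} [hp : Fact p.Prime] [CharP F p] (hm : 3 ≤ m) (h2 : (2 : F) ≠ 0) : ∃ A B : ℕ, ¬ p ∣ B ∧ Nat.card (Om (quadOdd m F)) * A = Nat.card F ^ (m * (m - 1) + m * 1) * B := by
  refine ⟨2, _, not_dvd_prod (F := F) m, ?_⟩
  have h1 := card_POmega_odd (F := F) h2 m hm
  have h3 : Nat.card (Om (quadOdd m F)) = Nat.card (Cfsg.POmega F (Cfsg.quadFormOdd m F)) * Nat.card (Subgroup.center (Om (quadOdd m F))) := by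
    rw [← coe_quadOdd, Nat.card_congr (pomEquiv (quadOdd m F)).toEquiv]
    exact Subgroup.card_eq_card_quotient_mul_card_subgroup _
  rw [h3, centerO m hm h2, mul_one, mul_comm, h1, Nat.card_eq_fintype_card (α := F)]
  congr 2
  obtain ⟨k, rfl⟩ : ∃ k, m = k + 1 := ⟨m - 1, by omega⟩
  rw [Nat.add_sub_cancel]; ring

theorem stemO (hm : 3 ≤ m) (h2 : (2 : F) ≠ 0) (hexc : ¬ (m = 3 ∧ Fintype.card F = 3)) : StemDvd (Om (quadOdd m F)) (Nat.gcd 2 (Fintype.card F - 1)) := by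
  apply StemDvd.of_forall
  intro r hr
  haveI : Fact r.Prime := ⟨hr⟩
  obtain ⟨p, hpc⟩ := CharP.exists F
  haveI := hpc
  haveI hp : Fact p.Prime := ⟨CharP.char_is_prime F p⟩
  have hod := odO (F := F) m hm h2
  have hodd : Odd (Fintype.card F) := odd_card_of_two h2
  by_cases hrp : r = p
  · subst hrp
    have h1 : PStemDvd r (Om (quadOdd m F)) 1 := by
      apply hod.pstem hm (Or.inr (vpO m h2))
      · intro h4
        have hq1 : 1 < Fintype.card F := Fintype.one_lt_card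
        have hq3 : Fintype.card F = 3 := by
          obtain ⟨k, hk⟩ := hodd
          omega
        have hm4 : 4 ≤ m := by
          by_contra hcon
          exact hexc ⟨by omega, hq3⟩
        exact ⟨by omega, fun h => by omega, Or.inr (Or.inl hm4)⟩
      · intro P hP hle
        obtain ⟨A, B, hB, hc⟩ := cardOmO (F := F) (p := r) m hm h2
        exact idx_of hc hB P hP hle
    exact h1.mono (one_dvd _)
  · exact crossB (hod.oh hm) (sfO m) (kdO m) hrp (by omega) (ndO m h2)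

/-- multipliers, odd dimension -/
theorem multO {q : ℕ} (hF : Fintype.card F = q) (hq : Odd q) (hm : 3 ≤ m) (hexc : ¬ (m = 3 ∧ q = 3)) :
    Cfsg.HasSchurMultiplier (Cfsg.POmega F (Cfsg.quadFormOdd m F)) (Multiplicative (ZMod 2)) := by
  subst hF
  have h2 : (2 : F) ≠ 0 := two_ne_zero_of_odd rfl hq
  have hod := odO (F := F) m hm h2
  have hst := stemO (F := F) m hm h2 hexc
  have hO := hod.oh hm
  have e := (pomEquiv (quadOdd m F)).symm
  have g3 : Nat.gcd 2 (Fintype.card F - 1) = 2 := by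
    apply Nat.gcd_eq_left
    obtain ⟨k, hk⟩ := hq
    omega
  rw [g3] at hst
  have hc := centerO (F := F) m hm h2
  exact hasSchurMultiplier_congr e (mult_odd_cyc hO (sfO m) hod.frame hm h2 hst (Or.inl hc) (by rw [hc]))

end odd

end Cfsg.Agent.Lib.MulOrthH
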