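import Cfsg.Agent.Lib.MulOrthRI
import Cfsg.Agent.Lib.MulOrthF
import Cfsg.Agent.Lib.QuadNorm

/-! Multipliers of the simple orthogonal groups of minus type (helper35). -/

set_option autoImplicit false

namespace Cfsg.Agent.Lib.MulOrthI

open Cfsg.Agent.Lib.Quad Cfsg.Agent.Lib.ClOrthSiegel Cfsg.Agent.Lib.ClOmega Cfsg.Agent.Lib.MulOrth Cfsg.Agent.Lib.MulSpin Cfsg.Agent.Lib.MulOrthF QuadraticMap Module
open Cfsg.Agent.Lib.SchurSylow
open Cfsg.Agent.Lib.QuadExt (L norm_eq fact_irred)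
open Cfsg.Agent.Lib.PresBC (Zs ng ng_ng ng_ne ng_inj)

universe u

section rot
variable {F V K : Type u} [Field F] [AddCommGroup V] [Module F V] [FiniteDimensional F V] [Field K] [Algebra F K] {Q : QuadraticForm F V}
  {hQ : Nd Q} (hO : OH hQ) {m : ℕ} {v : Zs m → V} (hv : SF Q v) {st : K → K} {θ : V →ₗ[F] K} {κ : F} (hk : KD Q v st θ κ)

include hO hv hk in
/-- rotations from elements of norm one -/
theorem rot_of {ζ : K} (h1 : ζ * st ζ = 1) (h2 : st ζ ≠ ζ) : Rot Q v := by
  obtain ⟨u, hu, hu1⟩ := hk.surj 1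
  obtain ⟨w, hw, hw1⟩ := hk.surj ζ
  have hκ : algebraMap F K κ ≠ 0 := by rw [Ne, map_eq_zero]; exact hk.κ0
  have qu : Q u = κ := (algebraMap F K).injective (by rw [hk.hq u hu, hu1, hk.s1, mul_one, mul_one])
  have qw : Q w = κ := (algebraMap F K).injective (by rw [hk.hq w hw, hw1, h1, mul_one])
  have hu0 : Q u ≠ 0 := by rw [qu]; exact hk.κ0
  have hw0 : Q w ≠ 0 := by rw [qw]; exact hk.κ0
  have key : ∀ x y : V, x ∈ V0 Q v → y ∈ V0 Q v → Q x = κ → θ (refl Q x y) = θ y - (θ x * st (θ y) + θ y * st (θ x)) * θ x ∧ refl Q x y ∈ V0 Q v := by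
    intro x y hx hy hqx
    have hx0 : Q x ≠ 0 := by rw [hqx]; exact hk.κ0
    refine ⟨?_, ?_⟩
    · rw [refl_apply hx0, map_sub, map_smul, Algebra.smul_def, map_mul, map_inv₀, hqx, hk.polar hv hx y]
      field_simp
    · rw [refl_apply hx0]
      exact sub_mem hy ((V0 Q v).smul_mem _ hx)
  refine ⟨⟨refl Q u * refl Q w, hO.rr u w hu0 (by rw [qu, qw])⟩, fun a => ?_, fun x hx => ?_⟩
  · show refl Q u (refl Q w (v a)) = v a
    rw [refl_apply hw0, polar_comm Q w, hw a, mul_zero, zero_smul, sub_zero, refl_apply hu0, polar_comm Q u, hu a, mul_zero, zero_smul, sub_zero]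
  · have hc : 1 - st ζ * st ζ ≠ 0 := by
      intro h
      have h3 : st ζ * st ζ = 1 := (sub_eq_zero.1 h).symm
      rcases mul_self_eq_one_iff.1 h3 with h4 | h4
      · apply h2
        have := congrArg st h4
        rw [hk.ss, hk.s1] at this
        rw [h4, this]
      · apply h2
        have := congrArg st h4
        rw [hk.ss, hk.sn, hk.s1] at this
        rw [h4, this]
    obtain ⟨y, hy, hy1⟩ := hk.surj ((1 - st ζ * st ζ)⁻¹ * θ x)
    refine ⟨y, hy, ?_⟩
    show x = y - refl Q u (refl Q w y)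
    obtain ⟨e1, e2⟩ := key w y hw hy qw
    obtain ⟨e3, e4⟩ := key u _ hu e2 qu
    rw [← sub_eq_zero]
    apply hk.inj
    · exact sub_mem hx (sub_mem hy e4)
    · have e5 : θ (refl Q w y) = -(ζ * ζ * st (θ y)) := by
        rw [e1, hw1]
        linear_combination (-θ y) * h1
      have e6 : θ (refl Q u (refl Q w y)) = st ζ * st ζ * θ y := by
        rw [e3, hu1, hk.s1, e5, hk.sn, hk.sm, hk.sm, hk.ss]; ring
      have e7 : (1 - st ζ * st ζ) * ((1 - st ζ * st ζ)⁻¹ * θ x) = θ x := mul_inv_cancel_left₀ hc _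
      rw [map_sub, map_sub, e6, hy1]
      linear_combination (-1 : K) * e7

end rot

section minus
variable {F : Type u} [Field F] (n : ℕ) (a b : F)

/-- the frame -/
noncomputable def vM (F : Type u) [Field F] (n : ℕ) (a b : F) : Zs n → ((Fin n ⊕ Fin n) ⊕ Fin 2 → F) := Sum.elim (hpMinus n a b).e (hpMinus n a b).f

theorem sfM : SF (quadMinus n F a b) (vM F n a b) := sf_of_frame (frame_of_HP (hpMinus n a b))

/-- the remaining basis vectors -/
def eM (F : Type u) [Field F] (n : ℕ) (j : Fin 2) : (Fin n ⊕ Fin n) ⊕ Fin 2 → F := Pi.single (Sum.inr j) 1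

variable {a b}

theorem v0M_zero {u : (Fin n ⊕ Fin n) ⊕ Fin 2 → F} (hu : u ∈ V0 (quadMinus n F a b) (vM F n a b)) (j : Fin n ⊕ Fin n) : u (Sum.inl j) = 0 := by
  rcases j with i | i
  · have := hu (Sum.inr i)
    rwa [show vM F n a b (Sum.inr i) = Pi.single ((hpMinus n a b).p' i) 1 from rfl, (hpMinus n a b).pol'] at this
  · have := hu (Sum.inl i)
    rwa [show vM F n a b (Sum.inl i) = Pi.single ((hpMinus n a b).p i) 1 from rfl, (hpMinus n a b).pol] at this

theorem v0M_mem {u : (Fin n ⊕ Fin n) ⊕ Fin 2 → F} (hu : ∀ j, u (Sum.inl j) = 0) : u ∈ V0 (quadMinus n F a b) (vM F n a b) := by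
  rintro (i | i)
  · rw [show vM F n a b (Sum.inl i) = Pi.single ((hpMinus n a b).p i) 1 from rfl, (hpMinus n a b).pol]
    exact hu _
  · rw [show vM F n a b (Sum.inr i) = Pi.single ((hpMinus n a b).p' i) 1 from rfl, (hpMinus n a b).pol']
    exact hu _

theorem v0M_ext {u : (Fin n ⊕ Fin n) ⊕ Fin 2 → F} (hu : u ∈ V0 (quadMinus n F a b) (vM F n a b)) (h0 : u (Sum.inr 0) = 0) (h1 : u (Sum.inr 1) = 0) : u = 0 := by
  funext j
  rcases j with j | j
  · rw [v0M_zero n hu]; rfl
  · fin_cases j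
    · exact h0
    · exact h1

theorem v0M_eq {u : (Fin n ⊕ Fin n) ⊕ Fin 2 → F} (hu : u ∈ V0 (quadMinus n F a b) (vM F n a b)) : u = u (Sum.inr 0) • eM F n 0 + u (Sum.inr 1) • eM F n 1 := by
  funext j
  rcases j with j | j
  · rw [v0M_zero n hu]; simp [eM]
  · fin_cases j <;> simp [eM]

theorem eM_mem (j : Fin 2) : eM F n j ∈ V0 (quadMinus n F a b) (vM F n a b) := v0M_mem n (fun j => by simp [eM])

theorem qM_eq {u : (Fin n ⊕ Fin n) ⊕ Fin 2 → F} (hu : u ∈ V0 (quadMinus n F a b) (vM F n a b)) :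
    quadMinus n F a b u = u (Sum.inr 0) ^ 2 + a * u (Sum.inr 0) * u (Sum.inr 1) + b * u (Sum.inr 1) ^ 2 := by
  show Cfsg.quadFormMinus n F a b u = _
  simp only [Cfsg.quadFormMinus, v0M_zero n hu, mul_zero, Finset.sum_const_zero, zero_add]

theorem polM (u w : (Fin n ⊕ Fin n) ⊕ Fin 2 → F) (hu : u ∈ V0 (quadMinus n F a b) (vM F n a b)) : polar (quadMinus n F a b) u w =
    2 * u (.inr 0) * w (.inr 0) + a * (u (.inr 0) * w (.inr 1) + u (.inr 1) * w (.inr 0)) + 2 * b * u (.inr 1) * w (.inr 1) := by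
  show polar (Cfsg.quadFormMinus n F a b) u w = _
  rw [polar_quadMinus]
  simp only [v0M_zero n hu, zero_mul, add_zero, Finset.sum_const_zero, zero_add]

variable (hab : ∀ z₁ z₂ : F, z₁ ^ 2 + a * z₁ * z₂ + b * z₂ ^ 2 = 0 → z₁ = 0 ∧ z₂ = 0)

include hab in
theorem anM {u : (Fin n ⊕ Fin n) ⊕ Fin 2 → F} (hu : u ∈ V0 (quadMinus n F a b) (vM F n a b)) (h : quadMinus n F a b u = 0) : u = 0 := by
  rw [qM_eq n hu] at h
  obtain ⟨h0, h1⟩ := hab _ _ h
  exact v0M_ext n hu h0 h1

include hab in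
theorem odM (hn : 3 ≤ n) [Finite F] : OD (quadMinus n F a b) (vM F n a b) (eM F n) where
  nd := nd_quadMinus (disc_ne_zero_of_anisotropic hab)
  gen := by
    haveI := Fintype.ofFinite F
    exact genHyp_minus n (by omega) a b
  sf := sfM n a b
  he j := eM_mem n j
  span u hu := by
    rw [v0M_eq n hu]
    exact add_mem (Submodule.smul_mem _ _ (Submodule.subset_span ⟨0, rfl⟩)) (Submodule.smul_mem _ _ (Submodule.subset_span ⟨1, rfl⟩))
  an u hu h := anM n hab hu h
  dim := by rw [finrank_minus]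

/-- coordinates -/
def thM (F : Type u) [Field F] (n : ℕ) (a b : F) : ((Fin n ⊕ Fin n) ⊕ Fin 2 → F) →ₗ[F] L F a b where
  toFun v := ⟨v (.inr 0), v (.inr 1)⟩
  map_add' v w := rfl
  map_smul' c v := rfl

theorem kdM [Fact (∀ r : F, r ^ 2 ≠ -b + a * r)] : KD (K := L F a b) (quadMinus n F a b) (vM F n a b) star (thM F n a b) 1 where
  sa x y := star_add x y
  sm x y := by rw [star_mul, mul_comm]
  ss x := star_star x
  sF t := by
    ext
    · simp
    · simp
  θv c := by
    rcases c with i | i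
    · show (⟨(Pi.single ((hpMinus n a b).p i) 1 : (Fin n ⊕ Fin n) ⊕ Fin 2 → F) (.inr 0), (Pi.single ((hpMinus n a b).p i) 1 : (Fin n ⊕ Fin n) ⊕ Fin 2 → F) (.inr 1)⟩ : L F a b) = 0
      ext <;> simp [hpMinus]
    · show (⟨(Pi.single ((hpMinus n a b).p' i) 1 : (Fin n ⊕ Fin n) ⊕ Fin 2 → F) (.inr 0), (Pi.single ((hpMinus n a b).p' i) 1 : (Fin n ⊕ Fin n) ⊕ Fin 2 → F) (.inr 1)⟩ : L F a b) = 0
      ext <;> simp [hpMinus]
  κ0 := one_ne_zero
  hq u hu := by
    rw [map_one, one_mul, ← QuadraticAlgebra.algebraMap_norm_eq_mul_star, norm_eq, qM_eq n hu]; rfl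
  inj u hu h := v0M_ext n hu (congrArg QuadraticAlgebra.re h) (congrArg QuadraticAlgebra.im h)
  surj z := ⟨z.re • eM F n 0 + z.im • eM F n 1, add_mem (Submodule.smul_mem _ _ (eM_mem n 0)) (Submodule.smul_mem _ _ (eM_mem n 1)), by
    show (⟨_, _⟩ : L F a b) = z
    ext <;> simp [eM]⟩

include hab in
theorem ndM [Finite F] : ∀ u ∈ V0 (quadMinus n F a b) (vM F n a b), (∀ u' ∈ V0 (quadMinus n F a b) (vM F n a b), polar (quadMinus n F a b) u' u = 0) → u = 0 := by
  intro u hu h
  have hd := disc_ne_zero_of_anisotropic hab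
  have h1 := h _ (eM_mem n 0)
  have h2 := h _ (eM_mem n 1)
  rw [polM n _ _ (eM_mem n _)] at h1 h2
  have f0 : eM F n 0 (.inr 0) = 1 := by simp [eM]
  have f1 : eM F n 0 (.inr 1) = 0 := by simp [eM]
  have f2 : eM F n 1 (.inr 0) = 0 := by simp [eM]
  have f3 : eM F n 1 (.inr 1) = 1 := by simp [eM]
  rw [f0, f1] at h1
  rw [f2, f3] at h2
  apply v0M_ext n hu
  · have h3 : (a ^ 2 - 4 * b) * u (.inr 0) = 0 := by linear_combination a * h2 - 2 * b * h1
    exact (mul_eq_zero.1 h3).resolve_left hd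
  · have h3 : (a ^ 2 - 4 * b) * u (.inr 1) = 0 := by linear_combination a * h1 - 2 * h2
    exact (mul_eq_zero.1 h3).resolve_left hd

include hab in
theorem vpM [Finite F] : VP (quadMinus n F a b) (vM F n a b) := by
  have hne : eM F n 0 ≠ 0 := by
    intro h
    have := congrFun h (.inr 0)
    simp [eM] at this
  by_contra hcon
  apply hne
  apply ndM n hab _ (eM_mem n 0)
  intro u hu
  by_contra hp
  apply hcon
  refine ⟨(polar (quadMinus n F a b) u (eM F n 0))⁻¹ • u, Submodule.smul_mem _ _ hu, eM F n 0, eM_mem n 0, ?_⟩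
  rw [polar_smul_left, smul_eq_mul, inv_mul_cancel₀ hp]

include hab in
theorem rotM [Finite F] (hn : 3 ≤ n) : Rot (quadMinus n F a b) (vM F n a b) := by
  haveI := fact_irred hab
  have hd := disc_ne_zero_of_anisotropic hab
  obtain ⟨z, hz1, hz2⟩ : ∃ z : L F a b, star z ≠ z ∧ star z ≠ -z := by
    by_cases ha : a = 0
    · have h2 : (2 : F) ≠ 0 := by
        intro h
        apply hd
        rw [ha]
        linear_combination (-2 * b) * h
      refine ⟨⟨1, 1⟩, fun h => ?_, fun h => ?_⟩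
      · have := congrArg QuadraticAlgebra.im h
        simp at this
        apply h2
        linear_combination (-1 : F) * this
      · have := congrArg QuadraticAlgebra.re h
        simp [ha] at this
        apply h2
        linear_combination this
    · refine ⟨⟨0, 1⟩, fun h => ?_, fun h => ?_⟩
      · have := congrArg QuadraticAlgebra.re h
        simp at this
        exact ha this
      · have := congrArg QuadraticAlgebra.re h
        simp at this
        exact ha this
  have hz0 : z ≠ 0 := by rintro rfl; exact hz1 (star_zero _)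
  have hs0 : star z ≠ 0 := by
    intro h
    apply hz0
    rw [← star_star z, h, star_zero]
  have hsi : star (star z * z⁻¹) = z * (star z)⁻¹ := by
    have h1 : star (star z * z⁻¹) * star z = z := by
      rw [← star_mul', mul_assoc, inv_mul_cancel₀ hz0, mul_one, star_star]
    rw [eq_mul_inv_iff_mul_eq₀ hs0]; exact h1
  apply rot_of ((odM n hab hn).oh hn) (sfM n a b) (kdM n) (ζ := star z * z⁻¹)
  · show star z * z⁻¹ * star (star z * z⁻¹) = 1
    rw [hsi]; field_simp
  · show star (star z * z⁻¹) ≠ star z * z⁻¹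
    rw [hsi]
    intro h
    have h1 : z * z = star z * star z := by
      field_simp at h
      linear_combination h
    rcases mul_self_eq_mul_self_iff.1 h1 with h2 | h2
    · exact hz1 h2.symm
    · exact hz2 (eq_neg_iff_add_eq_zero.2 (by rw [add_comm]; exact eq_neg_iff_add_eq_zero.1 h2))

variable [Fintype F]

include hab in
theorem cardOmM {p : ℕ} [hp : Fact p.Prime] [CharP F p] (hn : 3 ≤ n) : ∃ A B : ℕ, ¬ p ∣ B ∧ Nat.card (Om (quadMinus n F a b)) * A = Nat.card F ^ (n * (n - 1) + n * 2) * B := by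
  have hod := odM n hab hn
  refine ⟨Nat.gcd 4 (Fintype.card F ^ (n + 1) + 1), Nat.card (Subgroup.center (Om (quadMinus n F a b))) * (Fintype.card F ^ (n + 1) + 1) *
    ∏ i ∈ Finset.range n, (Fintype.card F ^ (2 * (i + 1)) - 1), ?_, ?_⟩
  · rw [hp.out.dvd_mul, hp.out.dvd_mul]
    rintro ((h | h) | h)
    · exact not_dvd_center hod.nd (hod.nd.R_eq_O hod.gen) hod.frame (by omega) h
    · obtain ⟨k, -, hk⟩ := FiniteField.card F p
      have h1 : p ∣ Fintype.card F ^ (n + 1) := by
        rw [hk, ← pow_mul]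
        exact dvd_pow_self p (Nat.mul_ne_zero k.pos.ne' (by omega))
      exact hp.out.one_lt.ne' (Nat.dvd_one.1 ((Nat.dvd_add_right h1).1 h))
    · exact not_dvd_prod _ h
  · have h1 := card_POmega_minus (F := F) hab n hn
    have h2 : Nat.card (Om (quadMinus n F a b)) = Nat.card (Cfsg.POmega F (Cfsg.quadFormMinus n F a b)) * Nat.card (Subgroup.center (Om (quadMinus n F a b))) := by
      rw [← coe_quadMinus, Nat.card_congr (pomEquiv (quadMinus n F a b)).toEquiv]
      exact Subgroup.card_eq_card_quotient_mul_card_subgroup _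
    have h3 : n * (n - 1) + n * 2 = (n + 1) * n := by
      obtain ⟨k, rfl⟩ : ∃ k, n = k + 1 := ⟨n - 1, by omega⟩
      rw [Nat.add_sub_cancel]; ring
    rw [h2, h3, Nat.card_eq_fintype_card (α := F)]
    calc Nat.card (Cfsg.POmega F (Cfsg.quadFormMinus n F a b)) * Nat.card (Subgroup.center (Om (quadMinus n F a b))) * Nat.gcd 4 (Fintype.card F ^ (n + 1) + 1)
        = (Nat.gcd 4 (Fintype.card F ^ (n + 1) + 1) * Nat.card (Cfsg.POmega F (Cfsg.quadFormMinus n F a b))) * Nat.card (Subgroup.center (Om (quadMinus n F a b))) := by ring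
      _ = _ := by rw [h1]; ring

include hab in
theorem stemM (hn : 3 ≤ n) : StemDvd (Om (quadMinus n F a b)) (Nat.gcd 2 (Fintype.card F - 1)) := by
  apply StemDvd.of_forall
  intro r hr
  haveI : Fact r.Prime := ⟨hr⟩
  obtain ⟨p, hpc⟩ := CharP.exists F
  haveI := hpc
  haveI hp : Fact p.Prime := ⟨CharP.char_is_prime F p⟩
  have hod := odM n hab hn
  by_cases hrp : r = p
  · subst hrp
    have h1 : PStemDvd r (Om (quadMinus n F a b)) 1 := by
      apply hod.pstem hn (Or.inr (vpM n hab))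
      · intro _
        exact ⟨by omega, fun _ => ⟨Or.inr (vpM n hab), by omega⟩, Or.inr (Or.inr (rotM n hab hn))⟩
      · intro P hP hle
        obtain ⟨A, B, hB, hc⟩ := cardOmM (p := r) n hab hn
        exact idx_of hc hB P hP hle
    exact h1.mono (one_dvd _)
  · haveI := fact_irred hab
    exact crossB (hod.oh hn) (sfM n a b) (kdM n) hrp (by omega) (ndM n hab)

include hab in
/-- multipliers, minus type -/
theorem multM {q : ℕ} (hF : Fintype.card F = q) (hn : 3 ≤ n) :
    Cfsg.HasSchurMultiplier (Cfsg.POmega F (Cfsg.quadFormMinus n F a b)) (Multiplicative (ZMod (Nat.gcd 4 (q ^ (n + 1) + 1)))) := by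
  subst hF
  have hod := odM n hab hn
  have hst := stemM n hab hn
  have hR := hod.nd.R_eq_O hod.gen
  have hfr := hod.frame
  have hO := hod.oh hn
  have e := (pomEquiv (quadMinus n F a b)).symm
  have hq1 : 1 < Fintype.card F := Fintype.one_lt_card
  by_cases h2 : (2 : F) = 0
  · have hev : Even (Fintype.card F) := even_card_of_two h2
    have h4 : Odd (Fintype.card F ^ (n + 1) + 1) := (Nat.even_pow.2 ⟨hev, by omega⟩ : Even (Fintype.card F ^ (n + 1))).add_one
    have h5 : Odd (Fintype.card F - 1) := Nat.Even.sub_odd hq1.le hev odd_one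
    have g1 : Nat.gcd 4 (Fintype.card F ^ (n + 1) + 1) = 1 := by
      have : Nat.Coprime (2 ^ 2) (Fintype.card F ^ (n + 1) + 1) := Nat.Coprime.pow_left 2 (Nat.coprime_two_left.2 h4)
      exact this
    have g3 : Nat.gcd 2 (Fintype.card F - 1) = 1 := Nat.coprime_two_left.2 h5
    rw [g3] at hst
    rw [g1]
    exact hasSchurMultiplier_congr e (mult_even hod.nd hR hfr hn h2 hst (Nat.card_zmod 1))
  · have hodd : Odd (Fintype.card F) := odd_card_of_two h2
    have g3 : Nat.gcd 2 (Fintype.card F - 1) = 2 := by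
      apply Nat.gcd_eq_left
      obtain ⟨k, hk⟩ := hodd
      omega
    rw [g3] at hst
    have hns := not_isSquare_disc h2 hab
    have key := hod.nd.neg_mem_Om_iff h2 (Pi.basisFun F ((Fin n ⊕ Fin n) ⊕ Fin 2))
    have hne : (-1 : F) ^ (n + 1) ≠ 0 := pow_ne_zero _ (neg_ne_zero.2 one_ne_zero)
    have h3 : IsSquare ((-1 : F) ^ (n + 1) * (a ^ 2 - 4 * b)) ↔ ¬ IsSquare ((-1 : F) ^ (n + 1)) := by
      constructor
      · intro h h'
        exact hns (isSquare_of_mul_left hne h' h)
      · intro h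
        exact isSquare_mul_of_not_isSquare h hns
    rw [finrank_minus, det_gram_minus, h3, isSquare_neg_one_pow_iff rfl hodd] at key
    rcases mod_four_cases hodd (n + 1) with h4 | h4
    · have hc : Nat.card (Subgroup.center (Om (quadMinus n F a b))) = 1 :=
        card_center_of_not_mem hod.nd hR hfr hn (fun _ h => (key.1 h).2 h4)
      have hg : Nat.gcd 4 (Fintype.card F ^ (n + 1) + 1) = 2 := by
        obtain ⟨k, hk⟩ : ∃ k, Fintype.card F ^ (n + 1) + 1 = 4 * k + 2 := ⟨(Fintype.card F ^ (n + 1) + 1) / 4, by omega⟩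
        rw [hk, Nat.gcd_rec]
        simp [Nat.add_mod, Nat.mul_mod]
      rw [hg]
      exact hasSchurMultiplier_congr e (mult_odd_cyc hO (sfM n a b) hfr hn h2 hst (Or.inl hc) (by rw [hc]))
    · have hc : Nat.card (Subgroup.center (Om (quadMinus n F a b))) = 2 :=
        card_center_of_mem hod.nd hR hfr hn h2 (key.2 ⟨⟨n + 1, by ring⟩, by omega⟩)
      have hg : Nat.gcd 4 (Fintype.card F ^ (n + 1) + 1) = 4 := Nat.gcd_eq_left (by omega)
      have hno : Odd (n + 1) := by
        rw [← Nat.not_even_iff_odd]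
        rintro ⟨k, hk⟩
        obtain ⟨j, hj⟩ := hodd
        have : (2 * j + 1) ^ 2 % 4 = 1 := by
          have : (2 * j + 1) ^ 2 = 4 * (j * j + j) + 1 := by ring
          rw [this]; omega
        rw [hk, ← two_mul, pow_mul, hj, Nat.pow_mod, this, one_pow] at h4
        norm_num at h4
      rw [hg]
      exact hasSchurMultiplier_congr e (mult_odd_cyc hO (sfM n a b) hfr hn h2 hst (Or.inr ⟨n + 1, by rw [finrank_minus]; ring, hno⟩) (by rw [hc]))

end minus

end Cfsg.Agent.Lib.MulOrthI
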