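import Cfsg.Agent.Lib.MulOrthU

/-! The defining characteristic part of the multiplier of `Ω(V)`: assembly (helper35). -/

set_option autoImplicit false

namespace Cfsg.Agent.Lib.MulOrth

open Cfsg.Agent.Lib.Quad Cfsg.Agent.Lib.ClOrthSiegel Cfsg.Agent.Lib.UCEBase QuadraticMap Module
open Cfsg.Agent.Lib.PresBC (Zs ng ng_ng ng_ne ng_inj)

universe u

/-- the plane of an index -/
def pl {m : ℕ} : Zs m → Fin m := Sum.elim id id

theorem exists_pl {m : ℕ} (S : Finset (Fin m)) (h : S.card < m) : ∃ c : Zs m, pl c ∉ S := by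
  obtain ⟨i, hi⟩ : ∃ i : Fin m, i ∉ S := by
    by_contra hcon
    push Not at hcon
    have : S = Finset.univ := Finset.eq_univ_of_forall hcon
    rw [this, Finset.card_univ, Fintype.card_fin] at h
    exact lt_irrefl _ h
  exact ⟨Sum.inl i, hi⟩

theorem pl_ng {m : ℕ} (a : Zs m) : pl (ng a) = pl a := by rcases a with i | i <;> rfl

theorem ne_of_pl {m : ℕ} {c a : Zs m} (h : pl c ≠ pl a) : c ≠ a ∧ c ≠ ng a :=
  ⟨fun h' => h (by rw [h']), fun h' => h (by rw [h', pl_ng])⟩

theorem exists_ix {m : ℕ} (L : List (Zs m)) (h : L.length < m) : ∃ c : Zs m, ∀ a ∈ L, c ≠ a ∧ c ≠ ng a := by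
  classical
  obtain ⟨c, hc⟩ := exists_pl (L.map pl).toFinset (lt_of_le_of_lt (List.toFinset_card_le _) (by rw [List.length_map]; exact h))
  refine ⟨c, fun a ha => ne_of_pl (fun h' => hc ?_)⟩
  rw [h', List.mem_toFinset]
  exact List.mem_map_of_mem ha

section OD
variable {F V : Type u} [Field F] [AddCommGroup V] [Module F V] [FiniteDimensional F V]

/-- orthogonal data -/
structure OD (Q : QuadraticForm F V) {m : ℕ} (v : Zs m → V) {d₀ : ℕ} (e : Fin d₀ → V) : Prop where
  nd : Nd Q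
  gen : GenHyp Q
  sf : SF Q v
  he : ∀ i, e i ∈ V0 Q v
  span : V0 Q v ≤ Submodule.span F (Set.range e)
  an : ∀ x ∈ V0 Q v, Q x = 0 → x = 0
  dim : 2 * m + d₀ ≤ finrank F V

variable {Q : QuadraticForm F V} {m : ℕ} {v : Zs m → V} {d₀ : ℕ} {e : Fin d₀ → V} (h : OD Q v e)
include h

theorem OD.frame : Frame Q m (fun i => v (Sum.inl i)) (fun i => v (Sum.inr i)) where
  e0 _ := h.sf.q0 _
  f0 _ := h.sf.q0 _
  ee _ _ := h.sf.p0 (by simp [ng])
  ff _ _ := h.sf.p0 (by simp [ng])
  ef i j := by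
    rw [h.sf.pl]
    by_cases hij : i = j
    · subst hij; simp [ng]
    · rw [if_neg (by simp [ng]; exact fun h => hij h.symm), if_neg hij]

theorem OD.oh (hm : 3 ≤ m) : OH h.nd where
  hR := h.nd.R_eq_O h.gen
  hT := T_eq_Om h.nd (h.nd.R_eq_O h.gen) h.frame (i := ⟨0, by omega⟩) (j := ⟨1, by omega⟩) (l := ⟨2, by omega⟩) (by simp) (by simp) (by simp)
  rr u w hu huw := by
    rw [← T_eq_Om h.nd (h.nd.R_eq_O h.gen) h.frame (i := ⟨0, by omega⟩) (j := ⟨1, by omega⟩) (l := ⟨2, by omega⟩) (by simp) (by simp) (by simp)]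
    exact refl_mul_refl_mem h.nd h.frame (i := ⟨0, by omega⟩) (j := ⟨1, by omega⟩) (by simp) hu huw

omit h in
/-- a pair in the anisotropic part -/
def VP (Q : QuadraticForm F V) (v : Zs m → V) : Prop := ∃ y ∈ V0 Q v, ∃ x ∈ V0 Q v, polar Q y x = 1

omit [FiniteDimensional F V] h in
theorem V0_W4 {x : V} (hx : x ∈ V0 Q v) (a b : Zs m) : x ∈ W4 Q v a b := ⟨hx _, hx _, hx _, hx _⟩

omit [FiniteDimensional F V] h in
theorem room_of (hv : SF Q v) (hm : 3 ≤ m) (hB : 4 ≤ m ∨ VP Q v) : Room Q v := by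
  intro a b hba hab
  rcases hB with h4 | ⟨y, hy, x, hx, hyx⟩
  · obtain ⟨c, hc⟩ := exists_ix [a, b] (by simp; omega)
    obtain ⟨d, hd⟩ := exists_ix [a, b, c] (by simp; omega)
    simp only [List.mem_cons, List.not_mem_nil, or_false, forall_eq_or_imp, forall_eq] at hc hd
    obtain ⟨⟨c1, c2⟩, c3, c4⟩ := hc
    obtain ⟨⟨d1, d2⟩, ⟨d3, d4⟩, d5, d6⟩ := hd
    refine ⟨c, c1, c2, c3, c4, v d, v (ng d), mem_W4 hv d1 d2 d3 d4, mem_W4 hv (ng_ne_of' d2) (ng_ng_ne d1) (ng_ne_of' d4) (ng_ng_ne d3),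
      mem_W4 hv d5 d6 d5 d6, mem_W4 hv (ng_ne_of' d6) (ng_ng_ne d5) (ng_ne_of' d6) (ng_ng_ne d5), hv.pn d⟩
  · obtain ⟨c, hc⟩ := exists_ix [a, b] (by simp; omega)
    simp only [List.mem_cons, List.not_mem_nil, or_false, forall_eq_or_imp, forall_eq] at hc
    obtain ⟨⟨c1, c2⟩, c3, c4⟩ := hc
    exact ⟨c, c1, c2, c3, c4, y, x, V0_W4 hy _ _, V0_W4 hx _ _, V0_W4 hy _ _, V0_W4 hx _ _, hyx⟩

/-- a nonsingular vector orthogonal to three planes -/
theorem OD.x0 (hB : 4 ≤ m ∨ VP Q v) (a b d : Zs m) : ∃ x₀ : V, Q x₀ ≠ 0 ∧ polar Q x₀ (v a) = 0 ∧ polar Q x₀ (v b) = 0 ∧ polar Q x₀ (v d) = 0 := by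
  rcases hB with h4 | ⟨y, hy, x, hx, hyx⟩
  · obtain ⟨c, hc⟩ := exists_ix [a, b, d] (by simp; omega)
    simp only [List.mem_cons, List.not_mem_nil, or_false, forall_eq_or_imp, forall_eq] at hc
    obtain ⟨⟨c1, c2⟩, ⟨c3, c4⟩, c5, c6⟩ := hc
    have key : ∀ a : Zs m, c ≠ a → c ≠ ng a → polar Q (v c + v (ng c)) (v a) = 0 := by
      intro a c1 c2
      rw [polar_add_left, h.sf.p0 (ng_ne_of c2), h.sf.p0 (by rw [ng_ng]; exact c1.symm), add_zero]
    refine ⟨v c + v (ng c), ?_, key a c1 c2, key b c3 c4, key d c5 c6⟩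
    rw [Q_add, h.sf.q0, h.sf.q0, h.sf.pn]; simp
  · refine ⟨y, ?_, by rw [polar_comm]; exact hy a, by rw [polar_comm]; exact hy b, by rw [polar_comm]; exact hy d⟩
    intro h0
    rw [h.an y hy h0, polar_zero_left] at hyx
    exact zero_ne_one hyx

omit h in
/-- dimension of the complement of two planes -/
theorem finrank_W4 (a b : Zs m) : finrank F V ≤ finrank F (W4 Q v a b) + 4 := by
  let L : V →ₗ[F] (F × F) × (F × F) := LinearMap.prod (LinearMap.prod (polarBilin Q (v a)) (polarBilin Q (v (ng a))))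
    (LinearMap.prod (polarBilin Q (v b)) (polarBilin Q (v (ng b))))
  have h1 : LinearMap.ker L ≤ W4 Q v a b := by
    intro x hx
    have h2 := LinearMap.mem_ker.1 hx
    exact ⟨congrArg (fun z => z.1.1) h2, congrArg (fun z => z.1.2) h2, congrArg (fun z => z.2.1) h2, congrArg (fun z => z.2.2) h2⟩
  have h2 := LinearMap.finrank_range_add_finrank_ker L
  have h3 := Submodule.finrank_le (LinearMap.range L)
  have h4 := Submodule.finrank_mono h1
  have h5 : finrank F ((F × F) × (F × F)) = 4 := by simp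
  omega

/-- generation by reflections of the complement of two planes -/
theorem OD.genW (hm : 3 ≤ m) (h8 : 8 ≤ 2 * m + d₀) (hq : (∃ a : F, a ≠ 0 ∧ a ≠ 1) ∨ 9 ≤ 2 * m + d₀ ∨ m = 3) {a b : Zs m} (hba : b ≠ a) (hab : b ≠ ng a) :
    GenHyp (res Q (W4 Q v a b)) ∧ 4 ≤ finrank F (W4 Q v a b) := by
  have h1 := finrank_W4 (Q := Q) (v := v) a b
  have h2 := h.dim
  refine ⟨?_, by omega⟩
  rcases hq with h3 | h3 | h3
  · exact Or.inl h3
  · exact Or.inr (Or.inl (by omega))
  · right; right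
    obtain ⟨c, hc⟩ := exists_ix [a, b] (by simp; omega)
    simp only [List.mem_cons, List.not_mem_nil, or_false, forall_eq_or_imp, forall_eq] at hc
    obtain ⟨⟨c1, c2⟩, c3, c4⟩ := hc
    have hpl : ∀ d : Zs m, d ≠ a → d ≠ ng a → d ≠ b → d ≠ ng b → d ≠ c → d ≠ ng c → False := by
      intro d d1 d2 d3 d4 d5 d6
      have hinj : ∀ {x y : Zs m}, x ≠ y → x ≠ ng y → pl x ≠ pl y := by
        rintro (i | i) (j | j) k1 k2 hp <;> simp only [pl, Sum.elim_inl, Sum.elim_inr, id] at hp <;> subst hp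
        · exact k1 rfl
        · exact k2 rfl
        · exact k2 rfl
        · exact k1 rfl
      have e1 := hinj d1 d2
      have e2 := hinj d3 d4
      have e3 := hinj d5 d6
      have e4 := hinj hba hab
      have e5 := hinj c1 c2
      have e6 := hinj c3 c4
      have g1 := (pl a).2
      have g2 := (pl b).2
      have g3 := (pl c).2
      have g4 := (pl d).2
      rw [Ne, Fin.ext_iff] at e1 e2 e3 e4 e5 e6
      omega
    have hdec : ∀ x ∈ W4 Q v a b, x - (polar Q (v (ng c)) x • v c + polar Q (v c) x • v (ng c)) ∈ V0 Q v := by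
      intro x hx d
      rw [polar_sub_right, polar_add_right, polar_smul_right, polar_smul_right]
      by_cases d5 : d = c
      · rw [d5, h.sf.self, h.sf.pn]; simp
      by_cases d6 : d = ng c
      · rw [d6, h.sf.self, h.sf.pn']; simp
      obtain ⟨l1, l2, -, -⟩ := cross h.sf d5 d6
      rw [l1, l2]
      by_cases d1 : d = a
      · rw [d1, hx.1]; simp
      by_cases d2 : d = ng a
      · rw [d2, hx.2.1]; simp
      by_cases d3 : d = b
      · rw [d3, hx.2.2.1]; simp
      by_cases d4 : d = ng b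
      · rw [d4, hx.2.2.2]; simp
      exact absurd (hpl d d1 d2 d3 d4 d5 d6) id
    -- singular vectors orthogonal to `v c`
    have hsc : ∀ x ∈ W4 Q v a b, Q x = 0 → polar Q (v c) x = 0 → x = polar Q (v (ng c)) x • v c := by
      intro x hx hQx hcx
      have h1 := hdec x hx
      rw [hcx, zero_smul, add_zero] at h1
      have h2 : x - polar Q (v (ng c)) x • v c = 0 := by
        apply h.an _ h1
        rw [Q_sub, hQx, Q_smul, h.sf.q0, polar_smul_right, polar_comm Q x (v c), hcx]; simp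
      exact sub_eq_zero.1 h2
    rintro ⟨x, hx⟩ ⟨y, hy⟩ hQx hQy hxy hx0
    have hx0' : x ≠ 0 := fun h => hx0 (Subtype.ext h)
    have hQx' : Q x = 0 := hQx
    have hQy' : Q y = 0 := hQy
    have hxy' : polar Q x y = 0 := hxy
    by_cases hcx : polar Q (v c) x = 0
    · have e1 := hsc x hx hQx' hcx
      obtain ⟨r, hr⟩ : ∃ r, r = polar Q (v (ng c)) x := ⟨_, rfl⟩
      rw [← hr] at e1
      have hr0 : r ≠ 0 := by rintro rfl; rw [zero_smul] at e1; exact hx0' e1
      have hcy : polar Q (v c) y = 0 := by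
        rw [e1, polar_smul_left] at hxy'
        exact (smul_eq_zero.1 hxy').resolve_left hr0
      have e2 := hsc y hy hQy' hcy
      refine ⟨polar Q (v (ng c)) y * r⁻¹, Subtype.ext ?_⟩
      show y = (polar Q (v (ng c)) y * r⁻¹) • x
      conv_rhs => rw [e1]
      rw [smul_smul, inv_mul_cancel_right₀ hr0]
      exact e2
    · obtain ⟨t, ht⟩ : ∃ t, t = polar Q (v c) y * (polar Q (v c) x)⁻¹ := ⟨_, rfl⟩
      have hw := hsc (y - t • x) (sub_mem hy ((W4 Q v a b).smul_mem _ hx))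
        (by rw [Q_sub, Q_smul, hQx', hQy', polar_smul_right, polar_comm, hxy']; simp)
        (by rw [polar_sub_right, polar_smul_right, ht, smul_eq_mul, inv_mul_cancel_right₀ hcx, sub_self])
      obtain ⟨r, hr⟩ : ∃ r, r = polar Q (v (ng c)) (y - t • x) := ⟨_, rfl⟩
      rw [← hr] at hw
      have hr0 : r = 0 := by
        have h1 : polar Q x (y - t • x) = 0 := by rw [polar_sub_right, hxy', polar_smul_right, polar_self', hQx']; simp
        rw [hw, polar_smul_right, polar_comm] at h1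
        exact (smul_eq_zero.1 h1).resolve_right hcx
      rw [hr0, zero_smul, sub_eq_zero] at hw
      exact ⟨t, Subtype.ext hw⟩

/-- **the defining characteristic part of the multiplier of `Ω(V)` is trivial** -/
theorem OD.pstem [Fintype F] {p : ℕ} [hpf : Fact p.Prime] [hcF : CharP F p] (hm : 3 ≤ m) (hB : 4 ≤ m ∨ VP Q v)
    (hs : Fintype.card F < 4 → 8 ≤ 2 * m + d₀ ∧ (Fintype.card F = 2 → (5 ≤ m ∨ VP Q v) ∧ (9 ≤ 2 * m + d₀ ∨ m = 3)) ∧ ((∀ u ∈ V0 Q v, u = 0) ∨ 4 ≤ m ∨ Rot Q v))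
    (hidx : ∀ P : Subgroup (Om Q), IsPGroup p P → Nat.card F ^ (m * (m - 1) + m * d₀) ≤ Nat.card P → ¬ p ∣ P.index) : SchurSylow.PStemDvd p (Om Q) 1 := by
  intro Γ _ _ σ hσ hp
  have hce : CE σ := ⟨hσ.1, hσ.2.1⟩
  have hO := h.oh hm
  have hv := h.sf
  have hroom := room_of hv hm hB
  have hV : Nat.card F ^ (2 * m + d₀) ≤ Nat.card V := by
    rw [Module.natCard_eq_pow_finrank (K := F) (V := V)]
    exact Nat.pow_le_pow_right Nat.card_pos h.dim
  have hDZ : ∀ i : Fin m, ∃ D, DZ hO σ (v (Sum.inl i)) D := by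
    intro i
    obtain ⟨b₀, hb₀⟩ := exists_ix [(Sum.inl i : Zs m)] (by simp; omega)
    simp only [List.mem_cons, List.not_mem_nil, or_false, forall_eq] at hb₀
    by_cases h4 : 4 ≤ Fintype.card F
    · obtain ⟨s, hs0, hs1⟩ := ClSymp3.exists_sq_ne_one_of_four_le h4
      have hPH : PH hO v hce := by
        intro a b hba hab x y
        obtain ⟨c, c1, c2, c3, c4, -⟩ := hroom a b hba hab
        by_cases hp2 : p = 2
        · subst hp2
          exact ph_even hO hv hce hs0 hs1 hba hab c1 c2 c3 c4 x y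
        · exact ph_odd hO hv hce (MulSp.sq_of_pgroup hpf.out hp2 hp).1 hba hab c1 c2 c3 c4 x y
      exact DZ_torus hO hv hce hroom hPH hs0 hs1 hb₀.1 hb₀.2
    · obtain ⟨h8, hs2, hs3⟩ := hs (by omega)
      have hcard1 : 1 < Fintype.card F := Fintype.one_lt_card
      have small : ∀ x : F, x ≠ 0 → x * x = 1 := by
        intro x hx
        have h1 := FiniteField.pow_card_sub_one_eq_one x hx
        have h2 : Fintype.card F = 2 ∨ Fintype.card F = 3 := by omega
        rcases h2 with h2 | h2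
        · rw [h2] at h1
          have h3 : x = 1 := by simpa using h1
          rw [h3, mul_one]
        · rw [h2] at h1
          have h3 : x ^ 2 = 1 := by simpa using h1
          rw [← pow_two]; exact h3
      have hFp : Nat.card F = p := by
        rw [Nat.card_eq_fintype_card]
        have h2 : Fintype.card F = 2 ∨ Fintype.card F = 3 := by omega
        rcases h2 with h2 | h2
        · haveI : Fact (Nat.Prime 2) := ⟨Nat.prime_two⟩
          rw [h2]; exact CharP.eq F (charP_of_card_eq_prime h2) hcF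
        · haveI : Fact (Nat.Prime 3) := ⟨Nat.prime_three⟩
          rw [h2]; exact CharP.eq F (charP_of_card_eq_prime h2) hcF
      have hcp : p = Fintype.card F := by rw [← hFp, Nat.card_eq_fintype_card]
      have T3 : ∀ a b, b ≠ a → b ≠ ng a → ∀ d e, d ≠ a → d ≠ ng a → d ≠ b → d ≠ ng b → e ≠ a → e ≠ ng a → e ≠ b → e ≠ ng b → e ≠ d → e ≠ ng d → ∀ s : F,
          cl hce (xr hO v a b) (Eo hO (v d) (s • v e)) = 1 := by
        intro a b hba hab d e d1 d2 d3 d4 e1 e2 e3 e4 e5 e6 s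
        by_cases hp2 : p = 2
        · rcases (hs2 (by omega)).1 with h5 | ⟨y, hy, x, hx, hyx⟩
          · obtain ⟨c, hc⟩ := exists_ix [a, b, d, e] (by simp; omega)
            simp only [List.mem_cons, List.not_mem_nil, or_false, forall_eq_or_imp, forall_eq] at hc
            obtain ⟨⟨c1, c2⟩, ⟨c3, c4⟩, ⟨c5, c6⟩, c7, c8⟩ := hc
            exact T3_room hO hv hce hab d1 d2 d3 d4 e1 e2 e3 e4 e6 (mem_W4 hv c1 c2 c3 c4) (mem_W4 hv (ng_ne_of' c2) (ng_ng_ne c1) (ng_ne_of' c4) (ng_ng_ne c3))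
              (mem_W4 hv c5 c6 c7 c8) (mem_W4 hv (ng_ne_of' c6) (ng_ng_ne c5) (ng_ne_of' c8) (ng_ng_ne c7)) (hv.pn c) s
          · exact T3_room hO hv hce hab d1 d2 d3 d4 e1 e2 e3 e4 e6 (V0_W4 hy _ _) (V0_W4 hx _ _) (V0_W4 hy _ _) (V0_W4 hx _ _) hyx s
        · exact T3_odd hO hv hce (MulSp.sq_of_pgroup hpf.out hp2 hp).1 small hba hab d1 d2 d3 d4 e1 e2 e3 e4 e5 e6 s
      have U3 : ∀ a b, b ≠ a → b ≠ ng a → ∀ d, d ≠ a → d ≠ ng a → d ≠ b → d ≠ ng b → ∀ u ∈ V0 Q v, cl hce (xr hO v a b) (Eo hO (v d) u) = 1 := by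
        intro a b hba hab d d1 d2 d3 d4 u hu
        rcases hs3 with h0 | h0 | h0
        · rw [h0 u hu, Eo_zero, cl_one_right]
        · obtain ⟨c, hc⟩ := exists_ix [a, b, d] (by simp; omega)
          simp only [List.mem_cons, List.not_mem_nil, or_false, forall_eq_or_imp, forall_eq] at hc
          obtain ⟨⟨c1, c2⟩, ⟨c3, c4⟩, c5, c6⟩ := hc
          refine U3_room hO hv hce hab d1 d2 d3 d4 c1 c2 c3 c4 c5 c6 (fun s => ?_) hu
          exact T3 a b hba hab (ng c) d (ng_ne_of' c2) (ng_ng_ne c1) (ng_ne_of' c4) (ng_ng_ne c3) d1 d2 d3 d4 (fun h => (ng_ne_of' c6) h.symm)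
            (by rw [ng_ng]; exact c5.symm) s
        · exact U3_rot hO hv hce h0 d1 d2 d3 d4 hu
      have hgW : ∀ a b : Zs m, b ≠ a → b ≠ ng a → GenHyp (res Q (W4 Q v a b)) ∧ 4 ≤ finrank F (W4 Q v a b) := by
        intro a b hba hab
        apply h.genW hm h8 _ hba hab
        by_cases hq2 : Fintype.card F = 2
        · exact Or.inr (hs2 hq2).2
        · left
          have h3 : Fintype.card F = 3 := by omega
          refine ⟨2, ?_, ?_⟩
          · intro h20
            have : p = 2 := by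
              exact CharP.eq F hcF (CharTwo.of_one_ne_zero_of_two_eq_zero one_ne_zero h20)
            omega
          · intro h21
            exact one_ne_zero (α := F) (by linear_combination h21)
      have CF := CF_of hO hv hce h.gen hroom h.an hgW T3 U3
      have hPH : PH hO v hce := by
        intro a b hba hab x y
        obtain ⟨c, c1, c2, c3, c4, -⟩ := hroom a b hba hab
        by_cases hp2 : p = 2
        · have two : ∀ x : F, x = 0 ∨ x = 1 := by
            intro x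
            by_cases hx : x = 0
            · exact Or.inl hx
            · right
              have h1 := FiniteField.pow_card_sub_one_eq_one x hx
              rw [← hcp, hp2] at h1
              simpa using h1
          obtain ⟨s, s1, s2, s3, s4⟩ : ∃ s : Om Q, (s : V ≃ₗ[F] V) (v a) = v a ∧ (s : V ≃ₗ[F] V) (v c) = v c ∧ (s : V ≃ₗ[F] V) (v b) = v (ng b) ∧ (s : V ≃ₗ[F] V) (v (ng b)) = v b := by
            rcases hB with h4 | ⟨y, hy, x, hx, hyx⟩
            · obtain ⟨d, hd⟩ := exists_ix [a, b, c] (by simp; omega)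
              simp only [List.mem_cons, List.not_mem_nil, or_false, forall_eq_or_imp, forall_eq] at hd
              obtain ⟨⟨d1, d2⟩, ⟨d3, d4⟩, d5, d6⟩ := hd
              exact ⟨sw hO hv b d, sw_0 hO hv b d (hv.p0 (ng_ne_of hab)) (hv.p0 (by rw [ng_ng]; exact hba.symm)) (hv.p0 (ng_ne_of d2)) (hv.p0 (by rw [ng_ng]; exact d1.symm)),
                sw_0 hO hv b d (hv.p0 c4) (hv.p0 (by rw [ng_ng]; exact c3)) (hv.p0 (ng_ne_of d6)) (hv.p0 (by rw [ng_ng]; exact d5.symm)), sw_a hO hv d3 d4, sw_na hO hv d3 d4⟩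
            · have hQy : Q y ≠ 0 := fun h0 => by rw [h.an y hy h0, polar_zero_left] at hyx; exact zero_ne_one hyx
              have hQy1 : Q (v b - (1 : F) • v (ng b)) = Q y := by
                rw [Q_pm hv]
                rcases two (Q y) with h1 | h1
                · exact absurd h1 hQy
                · rw [h1]; exact MulSpTwo.negself two 1
              have hyr : ∀ d, refl Q y (v d) = v d := fun d => refl_of_perp (by rw [polar_comm]; exact hy d)
              refine ⟨⟨_, hO.rr (v b - (1 : F) • v (ng b)) y (by rw [hQy1]; exact hQy) hQy1⟩, ?_, ?_, ?_, ?_⟩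
              · show refl Q (v b - (1 : F) • v (ng b)) (refl Q y (v a)) = v a
                rw [hyr, refl_pl0 b 1 (hv.p0 (ng_ne_of hab)) (hv.p0 (by rw [ng_ng]; exact hba.symm))]
              · show refl Q (v b - (1 : F) • v (ng b)) (refl Q y (v c)) = v c
                rw [hyr, refl_pl0 b 1 (hv.p0 c4) (hv.p0 (by rw [ng_ng]; exact c3))]
              · show refl Q (v b - (1 : F) • v (ng b)) (refl Q y (v b)) = _
                rw [hyr, refl_pl hv b one_ne_zero, one_smul]
              · show refl Q (v b - (1 : F) • v (ng b)) (refl Q y (v (ng b))) = _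
                rw [hyr, refl_pl' hv b one_ne_zero, inv_one, one_smul]
          have key := ph_two hO hv hce CF two (a := a) (b := c) (c := b) c1 c2 hba hab c3.symm (ng_ne_of c4) s1 s2 s3 s4
          rcases two x with rfl | rfl
          · rw [zero_smul, Eo_zero, cl_one_left]
          rcases two y with rfl | rfl
          · rw [zero_smul, Eo_zero, cl_one_right]
          rw [one_smul, one_smul]; exact key
        · exact ph_odd hO hv hce (MulSp.sq_of_pgroup hpf.out hp2 hp).1 hba hab c1 c2 c3 c4 x y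
      -- the canonical lifts
      have i01 : ∀ {i j : Fin m}, i ≠ j → (Sum.inl i : Zs m) ≠ Sum.inl j ∧ (Sum.inl i : Zs m) ≠ ng (Sum.inl j) := by
        intro i j hij
        exact ⟨fun h => hij (Sum.inl_injective h), by simp [ng]⟩
      obtain ⟨b1, b2⟩ := i01 (i := ⟨1, by omega⟩) (j := ⟨0, by omega⟩) (by simp)
      obtain ⟨d1, d2⟩ := i01 (i := ⟨2, by omega⟩) (j := ⟨0, by omega⟩) (by simp)
      obtain ⟨d3, d4⟩ := i01 (i := ⟨2, by omega⟩) (j := ⟨1, by omega⟩) (by simp)
      obtain ⟨x₀, hx0, xa, xb, xd⟩ := h.x0 hB (Sum.inl ⟨0, by omega⟩) (Sum.inl ⟨1, by omega⟩) (Sum.inl ⟨2, by omega⟩)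
      have htr2 := fun z w (hP : P2 Q z w) => tr2 hv h.nd h.gen b1 b2 d1 d2 d3 d4 hx0 xa xb hP
      have htr3 := fun z w w' (hP : P3 Q z w w') => tr3 hv h.nd h.gen b1 b2 d1 d2 d3 d4 hx0 xa xb xd hP
      have hf := P3_frame hv b1 b2 d1 d2 d3 d4
      obtain ⟨T, hT⟩ := exists_GT hO hv hce hp small b1 b2 d1 d2 d3 d4 (CF _ _ b1 b2) (fun y => by
        have := hPH _ _ b1 b2 1 y
        rwa [one_smul] at this) htr2 htr3
      have ex3 : ∀ z w, P2 Q z w → ∃ w', P3 Q z w w' := by
        intro z w hP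
        obtain ⟨g, rfl, rfl⟩ := htr2 z w hP
        exact ⟨_, hf.map g⟩
      obtain ⟨c₀, hc₀⟩ := exists_ix [(Sum.inl i : Zs m), b₀] (by simp; omega)
      simp only [List.mem_cons, List.not_mem_nil, or_false, forall_eq_or_imp, forall_eq] at hc₀
      exact DZ_of_GT hO hv hce hT hFp small ex3 hf.p2 htr2 hroom hPH h.an h.he h.span hV hb₀.1 hb₀.2 hc₀.1.1 hc₀.1.2 hc₀.2.1.symm (ng_ne_of hc₀.2.2)
  have hker := ker_bot hO hv hσ hp hDZ hV hidx
  rw [hker, Subgroup.card_bot]

end OD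

end Cfsg.Agent.Lib.MulOrth
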