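import Cfsg.Agent.Lib.MulOrthP
import Cfsg.Agent.Lib.RootLiftSp

/-! Root data of the groups `Ω(V)` (helper35). -/

set_option autoImplicit false

namespace Cfsg.Agent.Lib.MulOrth

open Cfsg.Agent.Lib.Quad Cfsg.Agent.Lib.ClOrthSiegel Cfsg.Agent.Lib.UCEBase QuadraticMap Module
open Cfsg.Agent.Lib.PresBC (Zs ng ng_ng ng_ne ng_inj lam lam_ng lam_ne lam_inj lam_eq eq_ng Rt Pos)

section rt
variable {F V : Type*} [Field F] [AddCommGroup V] [Module F V] [FiniteDimensional F V] {Q : QuadraticForm F V}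
  {hQ : Nd Q} (hO : OH hQ) {m : ℕ} {v : Zs m → V} (hv : SF Q v)

/-- parameters of the root groups -/
noncomputable def Sy (Q : QuadraticForm F V) (v : Zs m → V) (a b : Zs m) : Submodule F V := if b = a then V0 Q v else if b = ng a then ⊥ else F ∙ v b

omit [FiniteDimensional F V] in
include hv in
theorem Sy_polar {a b : Zs m} {y : V} (hy : y ∈ Sy Q v a b) : polar Q (v a) y = 0 := by
  unfold Sy at hy
  split_ifs at hy with h1 h2
  · exact hy a
  · rw [(Submodule.mem_bot F).1 hy, polar_zero_right]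
  · obtain ⟨c, rfl⟩ := Submodule.mem_span_singleton.1 hy
    rw [polar_smul_right, hv.p0 h2, smul_zero]

/-- root groups -/
noncomputable def XO (hO : OH hQ) (hv : SF Q v) (a b : Zs m) : Subgroup (Om Q) where
  carrier := {g | ∃ y ∈ Sy Q v a b, g = Eo hO (v a) y}
  one_mem' := ⟨0, zero_mem _, by rw [Eo_zero]⟩
  mul_mem' := by
    rintro _ _ ⟨y, hy, rfl⟩ ⟨y', hy', rfl⟩
    exact ⟨y + y', add_mem hy hy', Eo_add hO (Sy_polar hv hy) (Sy_polar hv hy')⟩
  inv_mem' := by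
    rintro _ ⟨y, hy, rfl⟩
    exact ⟨-y, neg_mem hy, Eo_inv hO (Sy_polar hv hy)⟩

theorem mem_XO_ne {a b : Zs m} (h1 : b ≠ a) (h2 : b ≠ ng a) {g : Om Q} : g ∈ XO hO hv a b ↔ ∃ t : F, g = Eo hO (v a) (t • v b) := by
  constructor
  · rintro ⟨y, hy, rfl⟩
    unfold Sy at hy
    rw [if_neg h1, if_neg h2] at hy
    obtain ⟨c, rfl⟩ := Submodule.mem_span_singleton.1 hy
    exact ⟨c, rfl⟩
  · rintro ⟨t, rfl⟩
    refine ⟨t • v b, ?_, rfl⟩
    unfold Sy
    rw [if_neg h1, if_neg h2]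
    exact Submodule.smul_mem _ _ (Submodule.mem_span_singleton_self _)

theorem mem_XO_self {a : Zs m} {g : Om Q} : g ∈ XO hO hv a a ↔ ∃ u ∈ V0 Q v, g = Eo hO (v a) u := by
  constructor
  · rintro ⟨y, hy, rfl⟩
    unfold Sy at hy
    rw [if_pos rfl] at hy
    exact ⟨y, hy, rfl⟩
  · rintro ⟨t, ht, rfl⟩
    refine ⟨t, ?_, rfl⟩
    unfold Sy
    rw [if_pos rfl]; exact ht

theorem XO_ng (a : Zs m) : XO hO hv a (ng a) = ⊥ := by
  rw [eq_bot_iff]
  rintro _ ⟨y, hy, rfl⟩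
  unfold Sy at hy
  rw [if_neg (ng_ne a), if_pos rfl, Submodule.mem_bot] at hy
  rw [hy, Eo_zero]; exact one_mem _

include hv in
/-- transposed long root elements -/
theorem Eo_tr {a b : Zs m} (h2 : b ≠ ng a) (t : F) : Eo hO (v a) (t • v b) = Eo hO (v b) (-t • v a) := by
  by_cases ht : t = 0
  · rw [ht, neg_zero, zero_smul, zero_smul, Eo_zero, Eo_zero]
  rw [← Eo_smul hO ht, Eo_swap hO (by rw [Q_smul, hv.q0, mul_zero]) (hv.q0 b) (by rw [polar_smul_left, hv.p0 h2, smul_zero]), neg_smul]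

theorem XO_symm_le (a b : Zs m) : XO hO hv a b ≤ XO hO hv b a := by
  by_cases h1 : b = a
  · rw [h1]
  by_cases h2 : b = ng a
  · rw [h2, XO_ng]; exact bot_le
  intro g hg
  obtain ⟨t, rfl⟩ := (mem_XO_ne hO hv h1 h2).1 hg
  rw [mem_XO_ne hO hv (Ne.symm h1) (ng_ne_of h2)]
  exact ⟨-t, Eo_tr hO hv h2 t⟩

include hO hv in
theorem rtO : Rt (XO hO hv) := by
  refine ⟨fun a b => le_antisymm (XO_symm_le hO hv a b) (XO_symm_le hO hv b a), ?_, ?_, ?_, ?_⟩
  · -- c1
    intro a b c h1 h2 h3 h4 h5 x hx y hy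
    obtain ⟨t, rfl⟩ := (mem_XO_ne hO hv h1.symm h2).1 hx
    have hca : c ≠ ng (ng a) := by rw [ng_ng]; exact h3
    obtain ⟨s, rfl⟩ := (mem_XO_ne hO hv h4 hca).1 hy
    have hab : a ≠ ng b := ng_ne_of h2
    have hnc : ng a ≠ ng c := ng_ng_ne h3.symm
    rw [Eo_tr hO hv h2 t, Eo_tr hO hv hca s]
    by_cases hcb : c = b
    · subst hcb
      rw [Eo_commz hO (by rw [polar_smul_right, hv.p0 hab, smul_zero]) (by rw [polar_smul_right, hv.p0 hnc, smul_zero]), mul_inv_cancel_right, mul_inv_cancel]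
      exact one_mem _
    · by_cases hs : s = 0
      · rw [hs, neg_zero, zero_smul, Eo_zero, mul_one, mul_inv_cancel, one_mul, inv_one]; exact one_mem _
      have e1 : Eo hO (v c) (-s • v (ng a)) = Eo hO (-s • v c) (v (ng a)) := (Eo_smul hO (neg_ne_zero.2 hs) _ _).symm
      have := Eo_cm hO (z := v b) (w := -s • v c) (x := v a) (x' := v (ng a)) (hv.q0 b) (by rw [Q_smul, hv.q0, mul_zero]) (by rw [polar_smul_right, hv.p0 h5, smul_zero])
        (hv.p0 hab) (hv.p0 (ng_ng_ne h1)) (by rw [polar_smul_left, hv.p0 (ng_ne_of h4), smul_zero]) (by rw [polar_smul_left, hv.p0 hnc, smul_zero]) (hv.pn a) (-t)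
      rw [e1, this, smul_smul]
      exact (mem_XO_ne hO hv hcb h5).2 ⟨_, rfl⟩
  · -- c2
    intro a c h3 h4 x hx y hy
    obtain ⟨u, hu, rfl⟩ := (mem_XO_self hO hv).1 hx
    have hca : c ≠ ng (ng a) := by rw [ng_ng]; exact h3
    obtain ⟨s, rfl⟩ := (mem_XO_ne hO hv h4 hca).1 hy
    have hac : a ≠ ng c := ng_ne_of h4
    have hnc : ng a ≠ ng c := ng_ng_ne h3.symm
    have hua := hu a
    have hcn : polar Q (v c) (v (ng a)) = 0 := hv.p0 hnc
    have f1 : (Eo hO (v a) u : V ≃ₗ[F] V) (v c) = v c := Eo_fix hO (hv.q0 a) hua (hv.p0 h4) (by rw [polar_comm]; exact hu c)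
    have f2 : (Eo hO (v a) u : V ≃ₗ[F] V) (v (ng a)) = v (ng a) + u - Q u • v a := by
      rw [Eo_apply hO (hv.q0 a) hua, hv.pn, polar_comm Q u, hu (ng a)]; simp
    rw [Eo_tr hO hv hca s, Eo_conj, f1, map_smul, f2, Eo_inv hO (by rw [polar_smul_right, hcn, smul_zero]),
      Eo_add hO (by rw [polar_smul_right, polar_sub_right, polar_add_right, polar_smul_right, hcn, hu c, hv.p0 hac]; simp) (by rw [polar_neg_right, polar_smul_right, hcn, smul_zero, neg_zero])]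
    have e : -s • (v (ng a) + u - Q u • v a) + -(-s • v (ng a)) = (s * Q u) • v a + -s • u := by module
    rw [e, ← Eo_add hO (by rw [polar_smul_right, hv.p0 hac, smul_zero]) (by rw [polar_smul_right, hu c, smul_zero])]
    refine mul_mem (le_sup_left (a := XO hO hv a c) ?_) (le_sup_right (a := XO hO hv a c) ?_)
    · apply XO_symm_le hO hv c a
      exact (mem_XO_ne hO hv h3.symm hac).2 ⟨_, rfl⟩
    · exact (mem_XO_self hO hv).2 ⟨_, (V0 Q v).smul_mem _ hu, rfl⟩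
  · -- c3
    intro a b h1 h2 x hx y hy
    obtain ⟨u, hu, rfl⟩ := (mem_XO_self hO hv).1 hx
    obtain ⟨w, hw, rfl⟩ := (mem_XO_self hO hv).1 hy
    have hab : a ≠ ng b := ng_ne_of h2
    have f1 : (Eo hO (v a) u : V ≃ₗ[F] V) (v b) = v b := Eo_fix hO (hv.q0 a) (hu a) (hv.p0 h2) (by rw [polar_comm]; exact hu b)
    have f2 : (Eo hO (v a) u : V ≃ₗ[F] V) w = w - polar Q u w • v a := Eo_perp hO (hv.q0 a) (hu a) (hw a)
    rw [Eo_conj, f1, f2, Eo_inv hO (hw b), Eo_add hO (by rw [polar_sub_right, polar_smul_right, hw b, hv.p0 hab]; simp) (by rw [polar_neg_right, hw b, neg_zero])]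
    have e : w - polar Q u w • v a + -w = (-polar Q u w) • v a := by module
    rw [e]
    apply XO_symm_le hO hv b a
    exact (mem_XO_ne hO hv (Ne.symm h1) hab).2 ⟨_, rfl⟩
  · -- c4
    intro a b c d h1 h2 h3 h4 h5 h6 h7 x hx y hy
    obtain ⟨y1, k1, rfl⟩ := hx
    obtain ⟨y2, k2, rfl⟩ := hy
    have p1 := Sy_polar hv k1
    -- the first fixes `v c` and `y2`
    have e1 : polar Q y1 (v c) = 0 := by
      unfold Sy at k1
      split_ifs at k1 with l1
      · rw [polar_comm]; exact k1 c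
      · obtain ⟨r, rfl⟩ := Submodule.mem_span_singleton.1 k1
        rw [polar_smul_left, hv.p0 h4, smul_zero]
    have e2 : polar Q (v a) y2 = 0 := by
      unfold Sy at k2
      split_ifs at k2 with l1
      · exact k2 a
      · obtain ⟨r, rfl⟩ := Submodule.mem_span_singleton.1 k2
        rw [polar_smul_right, hv.p0 h5, smul_zero]
    have e3 : polar Q y1 y2 = 0 := by
      unfold Sy at k1 k2
      split_ifs at k1 with l1
      · split_ifs at k2 with m1
        · exact absurd ⟨l1.symm, m1.symm⟩ h7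
        · obtain ⟨r, rfl⟩ := Submodule.mem_span_singleton.1 k2
          rw [polar_smul_right, polar_comm, k1 d, smul_zero]
      · obtain ⟨r, rfl⟩ := Submodule.mem_span_singleton.1 k1
        split_ifs at k2 with m1
        · rw [polar_smul_left, k2 b, smul_zero]
        · obtain ⟨r', rfl⟩ := Submodule.mem_span_singleton.1 k2
          rw [polar_smul_left, polar_smul_right, hv.p0 h6, smul_zero, smul_zero]
    have g1 : (Eo hO (v a) y1 : V ≃ₗ[F] V) (v c) = v c := Eo_fix hO (hv.q0 a) p1 (hv.p0 h3) e1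
    have g2 : (Eo hO (v a) y1 : V ≃ₗ[F] V) y2 = y2 := Eo_fix hO (hv.q0 a) p1 e2 e3
    exact (Eo_comm hO g1 g2).symm

theorem XO_pg {p : ℕ} [Fact p.Prime] [CharP F p] (a b : Zs m) : IsPGroup p (XO hO hv a b) := by
  rintro ⟨g, y, hy, rfl⟩
  refine ⟨1, Subtype.ext ?_⟩
  show Eo hO (v a) y ^ p ^ 1 = 1
  rw [pow_one, Eo_pow hO (Sy_polar hv hy), ← Nat.cast_smul_eq_nsmul F, CharP.cast_eq_zero, zero_smul, Eo_zero]

/-! ### monomial elements -/

omit [FiniteDimensional F V] in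
include hv in
theorem smul_v_inj {a b : Zs m} {c c' : F} (hc : c ≠ 0) (h : c • v a = c' • v b) : a = b ∧ c = c' := by
  have h1 := congrArg (polar Q (v (ng a))) h
  rw [polar_smul_right, hv.pn', polar_smul_right] at h1
  by_cases hab : a = b
  · subst hab
    rw [hv.pn'] at h1
    simpa using h1
  · rw [hv.p0 (a := ng a) (b := b) (by rw [ng_ng]; exact Ne.symm hab)] at h1
    simp at h1
    exact absurd h1 hc

theorem ext_frame {g h : Om Q} (h1 : ∀ a, (g : V ≃ₗ[F] V) (v a) = (h : V ≃ₗ[F] V) (v a)) (h2 : ∀ u ∈ V0 Q v, (g : V ≃ₗ[F] V) u = (h : V ≃ₗ[F] V) u)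
    (hv : SF Q v) : g = h := by
  apply Om_ext
  intro x
  have hu := dec hv x
  have e : x = (x - ∑ a, polar Q (v (ng a)) x • v a) + ∑ a, polar Q (v (ng a)) x • v a := by abel
  rw [e, map_add, map_add, h2 _ hu, map_sum, map_sum]
  congr 1
  apply Finset.sum_congr rfl
  intro a _
  rw [map_smul, map_smul, h1]

/-- monomial elements -/
def Mon (v : Zs m → V) (g : Om Q) : Prop := ∀ a, ∃ b, ∃ c : F, c ≠ 0 ∧ (g : V ≃ₗ[F] V) (v a) = c • v b

open Classical in
noncomputable def rhO (v : Zs m → V) (g : Om Q) (a : Zs m) : Zs m := if h : ∃ b, ∃ c : F, c ≠ 0 ∧ (g : V ≃ₗ[F] V) (v a) = c • v b then h.choose else a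

include hv in
theorem rhO_eq {g : Om Q} {a b : Zs m} {c : F} (hc : c ≠ 0) (h : (g : V ≃ₗ[F] V) (v a) = c • v b) : rhO v g a = b := by
  have hex : ∃ b, ∃ c : F, c ≠ 0 ∧ (g : V ≃ₗ[F] V) (v a) = c • v b := ⟨b, c, hc, h⟩
  unfold rhO
  rw [dif_pos hex]
  obtain ⟨c', hc', h'⟩ := hex.choose_spec
  exact (smul_v_inj hv hc (h.symm.trans h')).1.symm

include hv in
theorem rhO_spec {g : Om Q} (hg : Mon v g) (a : Zs m) : ∃ c : F, c ≠ 0 ∧ (g : V ≃ₗ[F] V) (v a) = c • v (rhO v g a) := by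
  obtain ⟨b, c, hc, h⟩ := hg a
  rw [rhO_eq hv hc h]
  exact ⟨c, hc, h⟩

include hv in
theorem rhO_mul {g h : Om Q} (hg : Mon v g) (hh : Mon v h) (a : Zs m) : rhO v (g * h) a = rhO v g (rhO v h a) := by
  obtain ⟨c, hc, h1⟩ := rhO_spec hv hh a
  obtain ⟨d, hd, h2⟩ := rhO_spec hv hg (rhO v h a)
  apply rhO_eq hv (mul_ne_zero hc hd)
  rw [Om_mul, h1, map_smul, h2, smul_smul]

end rt

end Cfsg.Agent.Lib.MulOrth
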