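import Cfsg.Agent.Lib.MulOrthR

/-! Root data of the groups `Ω(V)`: monomial and unipotent elements, long rank one groups (helper35). -/

set_option autoImplicit false

namespace Cfsg.Agent.Lib.MulOrth

open Cfsg.Agent.Lib.Quad Cfsg.Agent.Lib.ClOrthSiegel Cfsg.Agent.Lib.UCEBase QuadraticMap Module
open Cfsg.Agent.Lib.PresBC (Zs ng ng_ng ng_ne ng_inj lam lam_ng lam_ne lam_inj lam_eq eq_ng Rt Pos G)
open Cfsg.Agent.Lib.RootLift (rf rf_left rf_right rf_ngleft rf_ngright rf_other)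

section mono
variable {F V : Type*} [Field F] [AddCommGroup V] [Module F V] [FiniteDimensional F V] {Q : QuadraticForm F V}
  {hQ : Nd Q} (hO : OH hQ) {m : ℕ} {v : Zs m → V} (hv : SF Q v)

include hv in
theorem rhO_inj {g : Om Q} (hg : Mon v g) {a b : Zs m} (h : rhO v g a = rhO v g b) : a = b := by
  obtain ⟨c, hc, h1⟩ := rhO_spec hv hg a
  obtain ⟨d, hd, h2⟩ := rhO_spec hv hg b
  rw [h] at h1
  have h3 : (g : V ≃ₗ[F] V) (d • v a) = (g : V ≃ₗ[F] V) (c • v b) := by rw [map_smul, map_smul, h1, h2, smul_smul, smul_smul, mul_comm]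
  exact (smul_v_inj hv hd ((g : V ≃ₗ[F] V).injective h3)).1

include hv in
theorem rhO_surj {g : Om Q} (hg : Mon v g) (b : Zs m) : ∃ a, rhO v g a = b :=
  (Finite.injective_iff_surjective.1 (fun _ _ h => rhO_inj hv hg h : Function.Injective (rhO v g))) b

include hv in
theorem rhO_cd {g : Om Q} {a b : Zs m} {c d : F} (hc : (g : V ≃ₗ[F] V) (v a) = c • v b) (hd : (g : V ≃ₗ[F] V) (v (ng a)) = d • v (ng b)) : c * d = 1 := by
  have h3 := OmP g (v a) (v (ng a))
  rw [hc, hd, polar_smul_left, polar_smul_right, hv.pn, hv.pn] at h3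
  simpa using h3

include hv in
theorem rhO_ng {g : Om Q} (hg : Mon v g) (a : Zs m) : rhO v g (ng a) = ng (rhO v g a) := by
  obtain ⟨c, hc, h1⟩ := rhO_spec hv hg a
  obtain ⟨d, hd, h2⟩ := rhO_spec hv hg (ng a)
  have h3 := OmP g (v a) (v (ng a))
  rw [h1, h2, polar_smul_left, polar_smul_right, hv.pn, hv.pl] at h3
  by_contra hne
  rw [if_neg hne] at h3
  simp at h3

include hv in
theorem Mon.V0 {g : Om Q} (hg : Mon v g) {u : V} (hu : u ∈ V0 Q v) : (g : V ≃ₗ[F] V) u ∈ MulOrth.V0 Q v := by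
  intro b
  obtain ⟨a, rfl⟩ := rhO_surj hv hg b
  obtain ⟨c, hc, h1⟩ := rhO_spec hv hg a
  have h2 := OmP g (v a) u
  rw [h1, polar_smul_left, hu a] at h2
  exact (smul_eq_zero.1 h2).resolve_left hc

omit [FiniteDimensional F V] in
theorem Mon.one : Mon v (1 : Om Q) := fun a => ⟨a, 1, one_ne_zero, by rw [one_smul]; rfl⟩

omit [FiniteDimensional F V] in
theorem Mon.mul {g h : Om Q} (hg : Mon v g) (hh : Mon v h) : Mon v (g * h) := by
  intro a
  obtain ⟨b, c, hc, h1⟩ := hh a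
  obtain ⟨b', d, hd, h2⟩ := hg b
  exact ⟨b', c * d, mul_ne_zero hc hd, by rw [← smul_smul, ← h2, ← map_smul, ← h1]; rfl⟩

include hv in
theorem Mon.inv {g : Om Q} (hg : Mon v g) : Mon v g⁻¹ := by
  intro b
  obtain ⟨a, rfl⟩ := rhO_surj hv hg b
  obtain ⟨c, hc, h1⟩ := rhO_spec hv hg a
  refine ⟨a, c⁻¹, inv_ne_zero hc, ?_⟩
  apply Om_inv_of
  rw [map_smul, h1, inv_smul_smul₀ hc]

/-- the monomial group -/
def NO (hv : SF Q v) : Subgroup (Om Q) where
  carrier := {g | Mon v g}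
  one_mem' := Mon.one
  mul_mem' := fun h1 h2 => h1.mul h2
  inv_mem' := fun h => h.inv hv

theorem mem_NO {g : Om Q} : g ∈ NO hv ↔ Mon v g := Iff.rfl

theorem XO_act {g : Om Q} (hg : Mon v g) {a b : Zs m} (hab : b ≠ ng a) {x : Om Q} (hx : x ∈ XO hO hv a b) :
    g * x * g⁻¹ ∈ XO hO hv (rhO v g a) (rhO v g b) := by
  obtain ⟨y, hy, rfl⟩ := hx
  obtain ⟨c, hc, h1⟩ := rhO_spec hv hg a
  rw [Eo_conj, h1, Eo_smul hO hc]
  by_cases hba : b = a
  · subst hba
    unfold Sy at hy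
    rw [if_pos rfl] at hy
    exact (mem_XO_self hO hv).2 ⟨_, (V0 Q v).smul_mem _ (hg.V0 hv hy), rfl⟩
  · unfold Sy at hy
    rw [if_neg hba, if_neg hab] at hy
    obtain ⟨t, rfl⟩ := Submodule.mem_span_singleton.1 hy
    obtain ⟨d, hd, h2⟩ := rhO_spec hv hg b
    have h3 : rhO v g b ≠ rhO v g a := fun h => hba (rhO_inj hv hg h)
    have h4 : rhO v g b ≠ ng (rhO v g a) := by
      rw [← rhO_ng hv hg]
      exact fun h => hab (rhO_inj hv hg h)
    rw [mem_XO_ne hO hv h3 h4]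
    exact ⟨c * t * d, by rw [map_smul, h2, smul_smul, smul_smul]⟩

theorem rhO_one (a : Zs m) (hv : SF Q v) : rhO v (1 : Om Q) a = a := rhO_eq hv one_ne_zero (by rw [one_smul]; rfl)

/-! ### unipotent elements -/

/-- filtration -/
def Fl (Q : QuadraticForm F V) (v : Zs m → V) (k : ℤ) (x : V) : Prop := (∀ b, lam b ≤ k → polar Q (v (ng b)) x = 0) ∧ (0 ≤ k → ∀ u ∈ V0 Q v, polar Q u x = 0)

omit [FiniteDimensional F V] in
theorem Fl.mono {k l : ℤ} (h : k ≤ l) {x : V} (hx : Fl Q v l x) : Fl Q v k x :=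
  ⟨fun b hb => hx.1 b (hb.trans h), fun hk => hx.2 (hk.trans h)⟩

omit [FiniteDimensional F V] in
theorem Fl.add {k : ℤ} {x y : V} (hx : Fl Q v k x) (hy : Fl Q v k y) : Fl Q v k (x + y) :=
  ⟨fun b hb => by rw [polar_add_right, hx.1 b hb, hy.1 b hb, add_zero], fun hk u hu => by rw [polar_add_right, hx.2 hk u hu, hy.2 hk u hu, add_zero]⟩

omit [FiniteDimensional F V] in
theorem Fl.smul {k : ℤ} {x : V} (hx : Fl Q v k x) (c : F) : Fl Q v k (c • x) :=
  ⟨fun b hb => by rw [polar_smul_right, hx.1 b hb, smul_zero], fun hk u hu => by rw [polar_smul_right, hx.2 hk u hu, smul_zero]⟩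

omit [FiniteDimensional F V] in
include hv in
theorem Fl.vv {k : ℤ} {a : Zs m} (h : k < lam a) (c : F) : Fl Q v k (c • v a) := by
  refine Fl.smul ⟨fun b hb => ?_, fun _ u hu => ?_⟩ c
  · apply hv.p0
    rw [ng_ng, Ne, lam_eq]; omega
  · rw [polar_comm]; exact hu a

omit [FiniteDimensional F V] in
theorem Fl.u {k : ℤ} (h : k < 0) {u : V} (hu : u ∈ V0 Q v) : Fl Q v k u := by
  exact ⟨fun b _ => hu _, fun hk => by omega⟩

omit [FiniteDimensional F V] in
theorem Fl.zero {k : ℤ} : Fl Q v k (0 : V) := ⟨fun b _ => by rw [polar_zero_right], fun _ u _ => by rw [polar_zero_right]⟩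

include hv in
theorem uni_gen {a b : Zs m} (hpos : Pos a b) {g : Om Q} (hg : g ∈ XO hO hv a b) {k : ℤ} {x : V} (hx : Fl Q v k x) :
    Fl Q v (k + 1) ((g : V ≃ₗ[F] V) x - x) := by
  unfold Pos at hpos
  obtain ⟨y, hy, rfl⟩ := hg
  have hp := Sy_polar hv hy
  rw [Eo_apply hO (hv.q0 a) hp]
  have e : x + polar Q (v a) x • y - polar Q y x • v a - (Q y * polar Q (v a) x) • v a - x =
      polar Q (v a) x • y + ((-polar Q y x) • v a + (-(Q y * polar Q (v a) x)) • v a) := by module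
  rw [e]
  have ha0 : -lam a ≤ k → polar Q (v a) x = 0 := fun h => by
    have := hx.1 (ng a) (by rw [lam_ng]; exact h)
    rwa [ng_ng] at this
  unfold Sy at hy
  split_ifs at hy with h1 h2
  · subst h1
    have hb : 0 < lam b := by omega
    have hn := lam_ne b
    by_cases hk : -lam b ≤ k
    · rw [ha0 hk, zero_smul, mul_zero, neg_zero, zero_smul, add_zero, zero_add]
      by_cases hk0 : 0 ≤ k
      · rw [hx.2 hk0 y hy, neg_zero, zero_smul]; exact Fl.zero
      · exact Fl.vv hv (by omega) _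
    · refine ((Fl.u (by omega) hy).smul _).add ((Fl.vv hv (by omega) _).add (Fl.vv hv (by omega) _))
  · rw [h2, lam_ng] at hpos; omega
  · obtain ⟨t, rfl⟩ := Submodule.mem_span_singleton.1 hy
    have hb0 : -lam b ≤ k → polar Q (t • v b) x = 0 := fun h => by
      have := hx.1 (ng b) (by rw [lam_ng]; exact h)
      rw [ng_ng] at this
      rw [polar_smul_left, this, smul_zero]
    rw [Q_smul, hv.q0, mul_zero, zero_mul, neg_zero, zero_smul, add_zero, smul_smul]
    refine Fl.add ?_ ?_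
    · by_cases hk : -lam a ≤ k
      · rw [ha0 hk, zero_mul, zero_smul]; exact Fl.zero
      · exact Fl.vv hv (by omega) _
    · by_cases hk : -lam b ≤ k
      · rw [hb0 hk, neg_zero, zero_smul]; exact Fl.zero
      · exact Fl.vv hv (by omega) _

include hv in
theorem uni {g : Om Q} (hg : g ∈ G (XO hO hv) Pos) : ∀ {k : ℤ} {x : V}, Fl Q v k x → Fl Q v (k + 1) ((g : V ≃ₗ[F] V) x - x) := by
  have key : ∀ (y : Om Q) (_ : ∃ a b, Pos a b ∧ y ∈ XO hO hv a b) (h : Om Q), (∀ {k : ℤ} {x : V}, Fl Q v k x → Fl Q v (k + 1) ((h : V ≃ₗ[F] V) x - x)) →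
      ∀ {k : ℤ} {x : V}, Fl Q v k x → Fl Q v (k + 1) (((y * h : Om Q) : V ≃ₗ[F] V) x - x) := by
    rintro y ⟨a, b, hab, hy⟩ h hh k x hx
    have e : ((y * h : Om Q) : V ≃ₗ[F] V) x - x = (((y : V ≃ₗ[F] V) ((h : V ≃ₗ[F] V) x - x) - ((h : V ≃ₗ[F] V) x - x)) + ((h : V ≃ₗ[F] V) x - x)) +
        ((y : V ≃ₗ[F] V) x - x) := by
      rw [Om_mul, map_sub]; abel
    rw [e]
    exact (((uni_gen hO hv hab hy (hh hx)).mono (by omega)).add (hh hx)).add (uni_gen hO hv hab hy hx)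
  induction hg using Subgroup.closure_induction_left with
  | one =>
    intro k x _
    have : ((1 : Om Q) : V ≃ₗ[F] V) x - x = 0 := sub_self x
    rw [this]; exact Fl.zero
  | mul_left y hy h _ ih => exact key y hy h ih
  | inv_mul_cancel y hy h _ ih =>
    obtain ⟨a, b, hab, hy⟩ := hy
    intro k x
    exact key y⁻¹ ⟨a, b, hab, inv_mem hy⟩ h ih

/-- a monomial unipotent element is trivial -/
theorem NU_O {g : Om Q} (hg : Mon v g) (hu : g ∈ G (XO hO hv) Pos) (nd0 : ∀ u ∈ V0 Q v, (∀ u' ∈ V0 Q v, polar Q u' u = 0) → u = 0) : g = 1 := by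
  apply ext_frame (hv := hv)
  · intro a
    show _ = v a
    obtain ⟨c, hc, h1⟩ := rhO_spec hv hg a
    have h2 : Fl Q v (lam a - 1) (v a) := by
      have := Fl.vv hv (k := lam a - 1) (a := a) (by omega) (1 : F)
      rwa [one_smul] at this
    have h3 := (uni hO hv hu h2).1 a (by omega)
    rw [polar_sub_right, hv.pn', h1, polar_smul_right] at h3
    by_cases h4 : rhO v g a = a
    · rw [h4, hv.pn', smul_eq_mul, mul_one, sub_eq_zero] at h3
      rw [h1, h4, h3, one_smul]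
    · rw [hv.p0 (a := ng a) (by rw [ng_ng]; exact h4), smul_zero, zero_sub] at h3
      exact absurd h3 (neg_ne_zero.2 one_ne_zero)
  · intro u hu0
    show _ = u
    have h3 := (uni hO hv hu (Fl.u (k := -1) (by omega) hu0)).2 (by omega)
    rw [← sub_eq_zero]
    exact nd0 _ (sub_mem (hg.V0 hv hu0) hu0) h3

end mono

end Cfsg.Agent.Lib.MulOrth
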