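import Cfsg.Agent.Lib.MulOrthRB

/-! Root data of the groups `Ω(V)`: long rank one groups (helper35). -/

set_option autoImplicit false

namespace Cfsg.Agent.Lib.MulOrth

open Matrix Cfsg.Agent.Lib.Quad Cfsg.Agent.Lib.ClOrthSiegel Cfsg.Agent.Lib.UCEBase QuadraticMap Module
open Cfsg.Agent.Lib.PresBC (Zs ng ng_ng ng_ne ng_inj lam lam_ng lam_ne lam_inj lam_eq eq_ng Rt Pos G)
open Cfsg.Agent.Lib.RootLift (rf rf_left rf_right rf_ngleft rf_ngright rf_other)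
open Cfsg.Agent.Lib.PresSpMod (S2 Dg Ag)
open Cfsg.Agent.Lib.PresSpCore (up lo)

section long
variable {F V : Type*} [Field F] [AddCommGroup V] [Module F V] [FiniteDimensional F V] {Q : QuadraticForm F V}
  {hQ : Nd Q} (hO : OH hQ) {m : ℕ} {v : Zs m → V} (hv : SF Q v)

/-- `g` acts as the matrix `A` on the planes `⟨v a, v (-b)⟩`, `⟨v (-a), v b⟩` -/
structure Ac (Q : QuadraticForm F V) (v : Zs m → V) (a b : Zs m) (A : S2 F) (g : Om Q) : Prop where
  e1 : (g : V ≃ₗ[F] V) (v a) = A.1 0 0 • v a + A.1 1 0 • v (ng b)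
  e2 : (g : V ≃ₗ[F] V) (v (ng b)) = A.1 0 1 • v a + A.1 1 1 • v (ng b)
  e3 : (g : V ≃ₗ[F] V) (v (ng a)) = A.1 1 1 • v (ng a) - A.1 0 1 • v b
  e4 : (g : V ≃ₗ[F] V) (v b) = A.1 0 0 • v b - A.1 1 0 • v (ng a)
  e5 : ∀ x ∈ W4 Q v a b, (g : V ≃ₗ[F] V) x = x

variable {a b : Zs m}

omit [FiniteDimensional F V] in
theorem Ac.one : Ac Q v a b 1 1 := by
  refine ⟨?_, ?_, ?_, ?_, fun _ _ => rfl⟩
  · show v a = _; simp
  · show v (ng b) = _; simp
  · show v (ng a) = _; simp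
  · show v b = _; simp

theorem Ac.mul {A B : S2 F} {g h : Om Q} (hg : Ac Q v a b A g) (hh : Ac Q v a b B h) : Ac Q v a b (A * B) (g * h) := by
  have m00 : (A * B).1 0 0 = A.1 0 0 * B.1 0 0 + A.1 0 1 * B.1 1 0 := by
    show (A.1 * B.1) 0 0 = _; rw [Matrix.mul_apply, Fin.sum_univ_two]
  have m01 : (A * B).1 0 1 = A.1 0 0 * B.1 0 1 + A.1 0 1 * B.1 1 1 := by
    show (A.1 * B.1) 0 1 = _; rw [Matrix.mul_apply, Fin.sum_univ_two]
  have m10 : (A * B).1 1 0 = A.1 1 0 * B.1 0 0 + A.1 1 1 * B.1 1 0 := by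
    show (A.1 * B.1) 1 0 = _; rw [Matrix.mul_apply, Fin.sum_univ_two]
  have m11 : (A * B).1 1 1 = A.1 1 0 * B.1 0 1 + A.1 1 1 * B.1 1 1 := by
    show (A.1 * B.1) 1 1 = _; rw [Matrix.mul_apply, Fin.sum_univ_two]
  refine ⟨?_, ?_, ?_, ?_, fun x hx => ?_⟩
  · rw [Om_mul, hh.e1, map_add, map_smul, map_smul, hg.e1, hg.e2, m00, m10]; module
  · rw [Om_mul, hh.e2, map_add, map_smul, map_smul, hg.e1, hg.e2, m01, m11]; module
  · rw [Om_mul, hh.e3, map_sub, map_smul, map_smul, hg.e3, hg.e4, m01, m11]; module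
  · rw [Om_mul, hh.e4, map_sub, map_smul, map_smul, hg.e3, hg.e4, m00, m10]; module
  · rw [Om_mul, hh.e5 x hx, hg.e5 x hx]

include hv in
theorem Ac.uniq (hba : b ≠ a) (hab : b ≠ ng a) {A : S2 F} {g h : Om Q} (hg : Ac Q v a b A g) (hh : Ac Q v a b A h) : g = h := by
  apply Om_ext
  intro x
  obtain ⟨w, hw, c1, c2, c3, c4, rfl⟩ := W4_dec hv hba hab x
  simp only [map_add, map_smul]
  rw [hg.e5 w hw, hh.e5 w hw, hg.e1, hg.e2, hg.e3, hg.e4, hh.e1, hh.e2, hh.e3, hh.e4]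

omit [FiniteDimensional F V] in
include hv in
theorem ind2 {c d : Zs m} (hcd : d ≠ c) {x y x' y' : F} (h : x • v c + y • v d = x' • v c + y' • v d) : x = x' ∧ y = y' := by
  constructor
  · have h1 := congrArg (polar Q (v (ng c))) h
    rw [polar_add_right, polar_add_right, polar_smul_right, polar_smul_right, polar_smul_right, polar_smul_right, hv.pn',
      hv.p0 (a := ng c) (b := d) (by rw [ng_ng]; exact hcd)] at h1
    simpa using h1
  · have h1 := congrArg (polar Q (v (ng d))) h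
    rw [polar_add_right, polar_add_right, polar_smul_right, polar_smul_right, polar_smul_right, polar_smul_right, hv.pn',
      hv.p0 (a := ng d) (b := c) (by rw [ng_ng]; exact hcd.symm)] at h1
    simpa using h1

include hv in
theorem Ac.inj (hab : b ≠ ng a) {A B : S2 F} {g : Om Q} (hg : Ac Q v a b A g) (hh : Ac Q v a b B g) : A = B := by
  have h1 := ind2 hv (ng_ne_of' hab) (hg.e1.symm.trans hh.e1)
  have h2 := ind2 hv (ng_ne_of' hab) (hg.e2.symm.trans hh.e2)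
  apply Subtype.ext
  ext i j
  fin_cases i <;> fin_cases j
  · exact h1.1
  · exact h2.1
  · exact h1.2
  · exact h2.2

theorem Ac.inv {A : S2 F} {g : Om Q} (hg : Ac Q v a b A g) : Ac Q v a b A⁻¹ g⁻¹ := by
  have hdet : A.1 0 0 * A.1 1 1 - A.1 0 1 * A.1 1 0 = 1 := by rw [← Matrix.det_fin_two]; exact A.2
  have hA : (A⁻¹).1 = !![A.1 1 1, -A.1 0 1; -A.1 1 0, A.1 0 0] := by
    rw [Matrix.SpecialLinearGroup.SL2_inv_expl]; rfl
  have m00 : (A⁻¹).1 0 0 = A.1 1 1 := by rw [hA]; rfl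
  have m01 : (A⁻¹).1 0 1 = -A.1 0 1 := by rw [hA]; rfl
  have m10 : (A⁻¹).1 1 0 = -A.1 1 0 := by rw [hA]; rfl
  have m11 : (A⁻¹).1 1 1 = A.1 0 0 := by rw [hA]; rfl
  refine ⟨?_, ?_, ?_, ?_, fun x hx => ?_⟩
  · apply Om_inv_of
    rw [m00, m10, map_add, map_smul, map_smul, hg.e1, hg.e2]
    have : A.1 1 1 • (A.1 0 0 • v a + A.1 1 0 • v (ng b)) + -A.1 1 0 • (A.1 0 1 • v a + A.1 1 1 • v (ng b)) = (A.1 0 0 * A.1 1 1 - A.1 0 1 * A.1 1 0) • v a := by module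
    rw [this, hdet, one_smul]
  · apply Om_inv_of
    rw [m01, m11, map_add, map_smul, map_smul, hg.e1, hg.e2]
    have : -A.1 0 1 • (A.1 0 0 • v a + A.1 1 0 • v (ng b)) + A.1 0 0 • (A.1 0 1 • v a + A.1 1 1 • v (ng b)) = (A.1 0 0 * A.1 1 1 - A.1 0 1 * A.1 1 0) • v (ng b) := by module
    rw [this, hdet, one_smul]
  · apply Om_inv_of
    rw [m01, m11, map_sub, map_smul, map_smul, hg.e3, hg.e4]
    have : A.1 0 0 • (A.1 1 1 • v (ng a) - A.1 0 1 • v b) - -A.1 0 1 • (A.1 0 0 • v b - A.1 1 0 • v (ng a)) = (A.1 0 0 * A.1 1 1 - A.1 0 1 * A.1 1 0) • v (ng a) := by module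
    rw [this, hdet, one_smul]
  · apply Om_inv_of
    rw [m00, m10, map_sub, map_smul, map_smul, hg.e3, hg.e4]
    have : A.1 1 1 • (A.1 0 0 • v b - A.1 1 0 • v (ng a)) - -A.1 1 0 • (A.1 1 1 • v (ng a) - A.1 0 1 • v b) = (A.1 0 0 * A.1 1 1 - A.1 0 1 * A.1 1 0) • v b := by module
    rw [this, hdet, one_smul]
  · exact Om_inv_of (hg.e5 x hx)

include hv in
theorem Ac_up (hba : b ≠ a) (hab : b ≠ ng a) (t : F) : Ac Q v a b (up (-t)) (Eo hO (v a) (t • v b)) := by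
  have h1 := ng_ne_of hab
  have hp : polar Q (v a) (t • v b) = 0 := by rw [polar_smul_right, hv.p0 hab, smul_zero]
  have hnb : polar Q (v b) (v a) = 0 := hv.p0 h1
  have hnab : ng a ≠ ng b := fun h => hba (ng_inj.1 h).symm
  refine ⟨?_, ?_, ?_, ?_, fun x hx => ?_⟩ <;> rw [Eo_apply hO (hv.q0 a) hp, Q_smul, hv.q0 b, polar_smul_left]
  · rw [hv.self, hnb]
    show _ = (1 : F) • v a + (0 : F) • v (ng b)
    simp
  · rw [hv.p0 (a := a) (b := ng b) (fun h => hba (ng_inj.1 h)), hv.pn]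
    show _ = (-t) • v a + (1 : F) • v (ng b)
    simp only [smul_eq_mul]; module
  · rw [hv.pn, hv.p0 (a := b) (b := ng a) hnab]
    show _ = (1 : F) • v (ng a) - (-t) • v b
    simp only [smul_eq_mul]; module
  · rw [hv.p0 hab, hv.self]
    show _ = (1 : F) • v b - (0 : F) • v (ng a)
    simp
  · rw [hx.1, hx.2.2.1]; simp

include hv in
theorem Ac_lo (hba : b ≠ a) (hab : b ≠ ng a) (t : F) : Ac Q v a b (lo t) (Eo hO (v (ng a)) (t • v (ng b))) := by
  have h1 := ng_ne_of hab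
  have hnb : polar Q (v b) (v a) = 0 := hv.p0 h1
  have hnab : ng a ≠ ng b := fun h => hba (ng_inj.1 h).symm
  have k1 : polar Q (v (ng a)) (v (ng b)) = 0 := hv.p0 (by rw [ng_ng]; exact h1.symm)
  have hp : polar Q (v (ng a)) (t • v (ng b)) = 0 := by rw [polar_smul_right, k1, smul_zero]
  have k2 : polar Q (v (ng b)) (v (ng a)) = 0 := by rw [polar_comm]; exact k1
  refine ⟨?_, ?_, ?_, ?_, fun x hx => ?_⟩ <;> rw [Eo_apply hO (hv.q0 (ng a)) hp, Q_smul, hv.q0 (ng b), polar_smul_left]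
  · rw [hv.pn', hv.p0 (a := ng b) (b := a) (by rw [ng_ng]; exact hba.symm)]
    show _ = (1 : F) • v a + t • v (ng b)
    simp only [smul_eq_mul]; module
  · rw [k1, hv.self]
    show _ = (0 : F) • v a + (1 : F) • v (ng b)
    simp
  · rw [hv.self, k2]
    show _ = (1 : F) • v (ng a) - (0 : F) • v b
    simp
  · rw [hv.pn', hv.p0 (a := ng a) (b := b) (by rw [ng_ng]; exact hba)]
    show _ = (1 : F) • v b - t • v (ng a)
    simp only [smul_eq_mul]; module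
  · rw [hx.2.1, hx.2.2.2]; simp

/-- rank one groups -/
noncomputable def LO (hO : OH hQ) (hv : SF Q v) (a b : Zs m) : Subgroup (Om Q) := XO hO hv a b ⊔ XO hO hv (ng a) (ng b)

theorem exists_Ac (hba : b ≠ a) (hab : b ≠ ng a) (A : S2 F) : ∃ g ∈ LO hO hv a b, Ac Q v a b A g := by
  let K : Subgroup (S2 F) :=
    { carrier := {A | ∃ g ∈ LO hO hv a b, Ac Q v a b A g}
      one_mem' := ⟨1, one_mem _, Ac.one⟩
      mul_mem' := by
        rintro A B ⟨g, hg, hA⟩ ⟨h, hh, hB⟩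
        exact ⟨g * h, mul_mem hg hh, hA.mul hB⟩
      inv_mem' := by
        rintro A ⟨g, hg, hA⟩
        exact ⟨g⁻¹, inv_mem hg, hA.inv⟩ }
  refine PresSpCore.sl2_gen K (fun t => ?_) (fun t => ?_) A
  · refine ⟨Eo hO (v a) ((-t) • v b), (le_sup_left : _ ≤ LO hO hv a b) ((mem_XO_ne hO hv hba hab).2 ⟨_, rfl⟩), ?_⟩
    have := Ac_up hO hv hba hab (-t)
    rwa [neg_neg] at this
  · exact ⟨Eo hO (v (ng a)) (t • v (ng b)), (le_sup_right : _ ≤ LO hO hv a b) ((mem_XO_ne hO hv (ng_ng_ne hba) (by rw [ng_ng]; exact ng_ne_of' hab)).2 ⟨_, rfl⟩),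
      Ac_lo hO hv hba hab t⟩

/-- the hom from `SL₂` -/
noncomputable def PhO (hba : b ≠ a) (hab : b ≠ ng a) : S2 F →* Om Q where
  toFun A := (exists_Ac hO hv hba hab A).choose
  map_one' := (exists_Ac hO hv hba hab 1).choose_spec.2.uniq hv hba hab Ac.one
  map_mul' A B := (exists_Ac hO hv hba hab (A * B)).choose_spec.2.uniq hv hba hab
    ((exists_Ac hO hv hba hab A).choose_spec.2.mul (exists_Ac hO hv hba hab B).choose_spec.2)

theorem PhO_Ac (hba : b ≠ a) (hab : b ≠ ng a) (A : S2 F) : Ac Q v a b A (PhO hO hv hba hab A) := (exists_Ac hO hv hba hab A).choose_spec.2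
theorem PhO_mem (hba : b ≠ a) (hab : b ≠ ng a) (A : S2 F) : PhO hO hv hba hab A ∈ LO hO hv a b := (exists_Ac hO hv hba hab A).choose_spec.1

theorem PhO_inj (hba : b ≠ a) (hab : b ≠ ng a) : Function.Injective (PhO hO hv hba hab) := by
  intro A B h
  have h1 := PhO_Ac hO hv hba hab A
  rw [h] at h1
  exact h1.inj hv hab (PhO_Ac hO hv hba hab B)

theorem PhO_up (hba : b ≠ a) (hab : b ≠ ng a) (t : F) : PhO hO hv hba hab (up (-t)) = Eo hO (v a) (t • v b) :=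
  (PhO_Ac hO hv hba hab _).uniq hv hba hab (Ac_up hO hv hba hab t)
theorem PhO_lo (hba : b ≠ a) (hab : b ≠ ng a) (t : F) : PhO hO hv hba hab (lo t) = Eo hO (v (ng a)) (t • v (ng b)) :=
  (PhO_Ac hO hv hba hab _).uniq hv hba hab (Ac_lo hO hv hba hab t)

theorem PhO_range (hba : b ≠ a) (hab : b ≠ ng a) : (PhO hO hv hba hab).range = LO hO hv a b := by
  apply le_antisymm
  · rintro _ ⟨A, rfl⟩; exact PhO_mem hO hv hba hab A
  · refine sup_le (fun g hg => ?_) (fun g hg => ?_)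
    · obtain ⟨t, rfl⟩ := (mem_XO_ne hO hv hba hab).1 hg
      exact ⟨_, PhO_up hO hv hba hab t⟩
    · obtain ⟨t, rfl⟩ := (mem_XO_ne hO hv (ng_ng_ne hba) (by rw [ng_ng]; exact ng_ne_of' hab)).1 hg
      exact ⟨_, PhO_lo hO hv hba hab t⟩

noncomputable def PhO_equiv (hba : b ≠ a) (hab : b ≠ ng a) : S2 F ≃* LO hO hv a b :=
  (MonoidHom.ofInjective (PhO_inj hO hv hba hab)).trans (MulEquiv.subgroupCongr (PhO_range hO hv hba hab))

/-- monomial elements of the rank one groups -/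
theorem Ac_mono (hab : b ≠ ng a) (hba : b ≠ a) {A : S2 F} {g : Om Q} (hg : Ac Q v a b A g) (hm : Mon v g) (hv : SF Q v) :
    (A.1 1 0 = 0 ∧ A.1 0 1 = 0 ∧ ∀ c, rhO v g c = c) ∨ (A.1 0 0 = 0 ∧ A.1 1 1 = 0 ∧ ∀ c, rhO v g c = rf a b c) := by
  have hdet : A.1 0 0 * A.1 1 1 - A.1 0 1 * A.1 1 0 = 1 := by rw [← Matrix.det_fin_two]; exact A.2
  have key : ∀ (c d : Zs m) (hcd : d ≠ c) (x y : F) (e : Zs m), (g : V ≃ₗ[F] V) (v e) = x • v c + y • v d → x = 0 ∨ y = 0 := by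
    intro c d hcd x y e he
    obtain ⟨f, z, hz, hf⟩ := hm e
    rw [he] at hf
    by_cases hfc : f = c
    · subst hfc
      right
      exact (ind2 hv hcd (x' := z) (y' := 0) (by rw [hf, zero_smul, add_zero])).2
    · left
      have h1 := congrArg (polar Q (v (ng c))) hf
      rw [polar_add_right, polar_smul_right, polar_smul_right, polar_smul_right, hv.pn',
        hv.p0 (a := ng c) (b := d) (by rw [ng_ng]; exact hcd), hv.p0 (a := ng c) (b := f) (by rw [ng_ng]; exact hfc)] at h1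
      simpa using h1
  have hW : ∀ c, c ≠ a → c ≠ b → c ≠ ng a → c ≠ ng b → rhO v g c = c := by
    intro c h1 h2 h3 h4
    exact rhO_eq hv one_ne_zero (by rw [one_smul]; exact hg.e5 _ (mem_W4 hv h1 h3 h2 h4))
  rcases key a (ng b) (ng_ne_of' hab) _ _ a hg.e1 with h1 | h1
  · right
    have hx1 : A.1 1 0 ≠ 0 := by rintro h2; rw [h1, h2] at hdet; simp at hdet
    have hx2 : A.1 0 1 ≠ 0 := by rintro h2; rw [h1, h2] at hdet; simp at hdet
    have h2 : A.1 1 1 = 0 := by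
      rcases key a (ng b) (ng_ne_of' hab) _ _ (ng b) hg.e2 with h3 | h3
      · exact absurd h3 hx2
      · exact h3
    refine ⟨h1, h2, fun c => ?_⟩
    by_cases c1 : c = a
    · rw [c1, rf_left hab]
      exact rhO_eq hv hx1 (by rw [hg.e1, h1, zero_smul, zero_add])
    by_cases c2 : c = b
    · rw [c2, rf_right hab]
      exact rhO_eq hv (neg_ne_zero.2 hx1) (by rw [hg.e4, h1, zero_smul, zero_sub, neg_smul])
    by_cases c3 : c = ng a
    · rw [c3, rf_ngleft hab]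
      exact rhO_eq hv (neg_ne_zero.2 hx2) (by rw [hg.e3, h2, zero_smul, zero_sub, neg_smul])
    by_cases c4 : c = ng b
    · rw [c4, rf_ngright hab]
      exact rhO_eq hv hx2 (by rw [hg.e2, h2, zero_smul, add_zero])
    rw [hW c c1 c2 c3 c4, rf_other hab c1 c2 c3 c4]
  · left
    have hx1 : A.1 0 0 ≠ 0 := by rintro h2; rw [h1, h2] at hdet; simp at hdet
    have hx2 : A.1 1 1 ≠ 0 := by rintro h2; rw [h1, h2] at hdet; simp at hdet
    have h2 : A.1 0 1 = 0 := by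
      rcases key a (ng b) (ng_ne_of' hab) _ _ (ng b) hg.e2 with h3 | h3
      · exact h3
      · exact absurd h3 hx2
    refine ⟨h1, h2, fun c => ?_⟩
    by_cases c1 : c = a
    · rw [c1]
      exact rhO_eq hv hx1 (by rw [hg.e1, h1, zero_smul, add_zero])
    by_cases c2 : c = b
    · rw [c2]
      exact rhO_eq hv hx1 (by rw [hg.e4, h1, zero_smul, sub_zero])
    by_cases c3 : c = ng a
    · rw [c3]
      exact rhO_eq hv hx2 (by rw [hg.e3, h2, zero_smul, sub_zero])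
    by_cases c4 : c = ng b
    · rw [c4]
      exact rhO_eq hv hx2 (by rw [hg.e2, h2, zero_smul, zero_add])
    exact hW c c1 c2 c3 c4

/-- diagonal and antidiagonal matrices act monomially -/
theorem Ac_mon_of (hv : SF Q v) (hba : b ≠ a) (hab : b ≠ ng a) {A : S2 F} {g : Om Q} (hg : Ac Q v a b A g)
    (h : (A.1 1 0 = 0 ∧ A.1 0 1 = 0) ∨ (A.1 0 0 = 0 ∧ A.1 1 1 = 0)) : Mon v g := by
  have hdet : A.1 0 0 * A.1 1 1 - A.1 0 1 * A.1 1 0 = 1 := by rw [← Matrix.det_fin_two]; exact A.2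
  intro c
  rcases h with ⟨h1, h2⟩ | ⟨h1, h2⟩
  · have hx1 : A.1 0 0 ≠ 0 := by rintro h2; rw [h1, h2] at hdet; simp at hdet
    have hx2 : A.1 1 1 ≠ 0 := by rintro h2; rw [h1, h2] at hdet; simp at hdet
    by_cases c1 : c = a
    · rw [c1]; exact ⟨a, _, hx1, by rw [hg.e1, h1, zero_smul, add_zero]⟩
    by_cases c2 : c = b
    · rw [c2]; exact ⟨b, _, hx1, by rw [hg.e4, h1, zero_smul, sub_zero]⟩
    by_cases c3 : c = ng a
    · rw [c3]; exact ⟨ng a, _, hx2, by rw [hg.e3, h2, zero_smul, sub_zero]⟩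
    by_cases c4 : c = ng b
    · rw [c4]; exact ⟨ng b, _, hx2, by rw [hg.e2, h2, zero_smul, zero_add]⟩
    exact ⟨c, 1, one_ne_zero, by rw [one_smul]; exact hg.e5 _ (mem_W4 hv c1 c3 c2 c4)⟩
  · have hx1 : A.1 1 0 ≠ 0 := by rintro h2; rw [h1, h2] at hdet; simp at hdet
    have hx2 : A.1 0 1 ≠ 0 := by rintro h2; rw [h1, h2] at hdet; simp at hdet
    by_cases c1 : c = a
    · rw [c1]; exact ⟨ng b, _, hx1, by rw [hg.e1, h1, zero_smul, zero_add]⟩
    by_cases c2 : c = b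
    · rw [c2]; exact ⟨ng a, _, neg_ne_zero.2 hx1, by rw [hg.e4, h1, zero_smul, zero_sub, neg_smul]⟩
    by_cases c3 : c = ng a
    · rw [c3]; exact ⟨b, _, neg_ne_zero.2 hx2, by rw [hg.e3, h2, zero_smul, zero_sub, neg_smul]⟩
    by_cases c4 : c = ng b
    · rw [c4]; exact ⟨a, _, hx2, by rw [hg.e2, h2, zero_smul, add_zero]⟩
    exact ⟨c, 1, one_ne_zero, by rw [one_smul]; exact hg.e5 _ (mem_W4 hv c1 c3 c2 c4)⟩

/-- Weyl elements of long roots -/
theorem exists_wO (hba : b ≠ a) (hab : b ≠ ng a) : ∃ w, Mon v w ∧ w ∈ LO hO hv a b ∧ ∀ c, rhO v w c = rf a b c := by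
  obtain ⟨g, hg, hA⟩ := exists_Ac hO hv hba hab (Ag 1)
  have hm := Ac_mon_of hv hba hab hA (Or.inr ⟨rfl, rfl⟩)
  refine ⟨g, hm, hg, ?_⟩
  rcases Ac_mono hab hba hA hm hv with h | h
  · exfalso
    have := h.1
    exact one_ne_zero this
  · exact h.2.2

theorem one_long (hba : b ≠ a) (hab : b ≠ ng a) {y : Om Q} (hy : y ∈ XO hO hv (ng a) (ng b)) (hy1 : y ≠ 1) :
    ∃ x₁ ∈ XO hO hv a b, ∃ g ∈ NO hv, ∃ x₂ ∈ XO hO hv a b, y = x₁ * g * x₂ := by
  obtain ⟨t, rfl⟩ := (mem_XO_ne hO hv (ng_ng_ne hba) (by rw [ng_ng]; exact ng_ne_of' hab)).1 hy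
  have ht : t ≠ 0 := by rintro rfl; rw [zero_smul, Eo_zero] at hy1; exact hy1 rfl
  have hup : ∀ s : F, PhO hO hv hba hab (up s) ∈ XO hO hv a b := by
    intro s
    have := PhO_up hO hv hba hab (-s)
    rw [neg_neg] at this
    rw [this, mem_XO_ne hO hv hba hab]
    exact ⟨_, rfl⟩
  refine ⟨_, hup t⁻¹, PhO hO hv hba hab (Ag (Units.mk0 t ht)), ?_, _, hup t⁻¹, ?_⟩
  · exact Ac_mon_of hv hba hab (PhO_Ac hO hv hba hab _) (Or.inr ⟨rfl, rfl⟩)
  · rw [← PhO_lo hO hv hba hab, ← map_mul, ← map_mul]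
    congr 1
    apply Subtype.ext
    show !![1, 0; t, 1] = !![1, t⁻¹; 0, 1] * !![0, -(((Units.mk0 t ht)⁻¹ : Fˣ) : F); ((Units.mk0 t ht : Fˣ) : F), 0] * !![1, t⁻¹; 0, 1]
    ext i j
    fin_cases i <;> fin_cases j <;> simp [Matrix.mul_apply, Fin.sum_univ_two, ht]

end long

end Cfsg.Agent.Lib.MulOrth
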