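import Cfsg.Agent.Lib.RootLift

/-! Lifting root groups: the count with one exceptional rank one group (helper35). -/

set_option autoImplicit false

namespace Cfsg.Agent.Lib.RootLift

open Subgroup Cfsg.Agent.Lib.PresBC Cfsg.Agent.Lib.SchurSylow

universe u

section RD
variable {Q : Type u} [Group Q] {n : ℕ} {p : ℕ} {X : Zs n → Zs n → Subgroup Q} {N : Subgroup Q} {ρ : Q → Zs n → Zs n} {ι : Type} {α β : ι → Zs n} {w : ι → Q}
variable {Γ : Type u} [Group Γ] [Finite Γ] [Fact p.Prime] {σ : Γ →* Q}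

theorem RD.Lh_inf_card (h : RD p X N ρ α β w) {r : ℕ} (hr : r.Prime) (hrp : r ≠ p) (hσ : IsStemExtension σ) (hk : IsPGroup r σ.ker)
    (a b : Zs n) {M : ℕ} (hL : PStemDvd r (X a b ⊔ X (ng a) (ng b) : Subgroup Q) M) : Nat.card (Lh p σ X a b ⊓ σ.ker : Subgroup Γ) ∣ M := by
  have hc := cov_of_stem (p := p) hr hrp hσ hk
  haveI : Fact r.Prime := ⟨hr⟩
  set L := Lh p σ X a b with hLdef
  have hmap : L.map σ = X a b ⊔ X (ng a) (ng b) := h.map_Lh hc a b
  let τ : L →* (X a b ⊔ X (ng a) (ng b) : Subgroup Q) := (σ.comp L.subtype).codRestrict _ (fun y => by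
    rw [← hmap]; exact ⟨y, y.2, rfl⟩)
  have hτ : ∀ y : L, ((τ y : (X a b ⊔ X (ng a) (ng b) : Subgroup Q)) : Q) = σ y := fun y => rfl
  have hker : ∀ y : L, τ y = 1 ↔ σ (y : Γ) = 1 := by
    intro y
    rw [← hτ, ← OneMemClass.coe_eq_one]
  -- the abelianization is a `p`-group
  have hab : ∀ y : L, PE p (Abelianization.of y) := by
    have : ∀ y ∈ L, ∀ hy : y ∈ L, PE p (Abelianization.of (⟨y, hy⟩ : L)) := by
      have hgen : L = closure ({x | x ∈ Xh p σ X a b} ∪ {x | x ∈ Xh p σ X (ng a) (ng b)}) := by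
        rw [Subgroup.closure_union]
        show L = closure (Xh p σ X a b : Set Γ) ⊔ closure (Xh p σ X (ng a) (ng b) : Set Γ)
        rw [closure_eq, closure_eq]; rfl
      intro y hy0
      rw [hgen] at hy0
      induction hy0 using Subgroup.closure_induction with
      | mem y hy =>
        intro hyL
        have hpe : PE p y := by
          rcases hy with hy | hy
          · exact ((hc.mem_hX (h.xp _ _)).1 hy).1
          · exact ((hc.mem_hX (h.xp _ _)).1 hy).1
        have : PE p (⟨y, hyL⟩ : L) := by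
          obtain ⟨k, hk⟩ := hpe
          exact ⟨k, Subtype.ext hk⟩
        exact this.map _
      | one => intro hyL; exact PE.one.map (Abelianization.of (G := L))
      | mul y z hy hz ihy ihz =>
        intro hyL
        rw [← hgen] at hy hz
        have : (⟨y * z, hyL⟩ : L) = ⟨y, hy⟩ * ⟨z, hz⟩ := rfl
        rw [this, map_mul]
        exact PE.mul (Commute.all _ _) (ihy hy) (ihz hz)
      | inv y hy ihy =>
        intro hyL
        rw [← hgen] at hy
        have : (⟨y⁻¹, hyL⟩ : L) = (⟨y, hy⟩)⁻¹ := rfl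
        rw [this, map_inv]
        exact (ihy hy).inv
    exact fun y => this y.1 y.2 y.2
  have hst : IsStemExtension τ := by
    refine ⟨?_, ?_, ?_⟩
    · rintro ⟨y, hy⟩
      rw [← hmap] at hy
      obtain ⟨z, hz, rfl⟩ := hy
      exact ⟨⟨z, hz⟩, Subtype.ext rfl⟩
    · intro y hy
      rw [mem_center_iff]
      intro z
      exact Subtype.ext (hc.cen ((hker y).1 hy) z)
    · intro y hy
      have h1 := (hker y).1 hy
      obtain ⟨k, hk'⟩ := hab y
      obtain ⟨l, hl⟩ := hk ⟨y, h1⟩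
      have hl' : y ^ r ^ l = 1 := by
        apply Subtype.ext
        simpa using congrArg Subtype.val hl
      have h2 : orderOf (Abelianization.of y) ∣ p ^ k := orderOf_dvd_of_pow_eq_one hk'
      have h3 : orderOf (Abelianization.of y) ∣ r ^ l := orderOf_dvd_of_pow_eq_one (by rw [← map_pow, hl', map_one])
      have h4 : orderOf (Abelianization.of y) ∣ 1 := by
        have hcop : Nat.Coprime (r ^ l) (p ^ k) := (((Nat.coprime_primes hr (Fact.out : p.Prime)).2 hrp).pow_left l).pow_right k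
        rw [← hcop.gcd_eq_one]
        exact Nat.dvd_gcd h3 h2
      have h5 := orderOf_eq_one_iff.1 (Nat.dvd_one.1 h4)
      rw [← Abelianization.ker_of L]
      exact h5
  have hpk : IsPGroup r τ.ker := by
    intro y
    obtain ⟨l, hl⟩ := hk ⟨((y : L) : Γ), (hker y).1 y.2⟩
    refine ⟨l, ?_⟩
    apply Subtype.ext
    apply Subtype.ext
    simpa using congrArg Subtype.val hl
  have h6 := hL L τ hst hpk
  have h7 : Nat.card (L ⊓ σ.ker : Subgroup Γ) = Nat.card τ.ker := by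
    refine Nat.card_congr ⟨fun x => ⟨⟨x.1, x.2.1⟩, (hker _).2 x.2.2⟩, fun y => ⟨y.1.1, y.1.2, (hker _).1 y.2⟩, fun _ => rfl, fun _ => rfl⟩
  rw [h7]; exact h6

/-- the pieces of the torus commute -/
theorem RD.dcomm' (h : RD p X N ρ α β w) : Pairwise fun i j => ∀ x y : Q, x ∈ ((X (α i) (β i) ⊔ X (ng (α i)) (ng (β i))) ⊓ h.Dk : Subgroup Q) →
    y ∈ ((X (α j) (β j) ⊔ X (ng (α j)) (ng (β j))) ⊓ h.Dk : Subgroup Q) → Commute x y :=
  fun _ _ _ x y hx hy => h.dcomm x hx.2.1 y hy.2.1 hx.2.2 hy.2.2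

/-- **Main theorem of this file.** -/
theorem RD.card_ker_le2 [Fintype ι] (h : RD p X N ρ α β w) {r : ℕ} (hr : r.Prime) (hrp : r ≠ p) (hσ : IsStemExtension σ) (hk : IsPGroup r σ.ker)
    (i₀ : ι) {M : ℕ} (hM : M ≠ 0)
    (hL : ∀ i, i ≠ i₀ → PStemDvd r (X (α i) (β i) ⊔ X (ng (α i)) (ng (β i)) : Subgroup Q) 1)
    (hL0 : PStemDvd r (X (α i₀) (β i₀) ⊔ X (ng (α i₀)) (ng (β i₀)) : Subgroup Q) M) :
    Nat.card σ.ker ≤ M * Nat.card (Subgroup.noncommPiCoprod h.dcomm').ker := by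
  classical
  have hc := cov_of_stem (p := p) hr hrp hσ hk
  haveI : Finite Q := Finite.of_surjective σ hσ.1
  choose m hm1 hm2 using h.exists_m hc
  have hm : Mh h σ m := ⟨hm1, hm2⟩
  have hker := hm.ker_le hc hσ.2.2
  let M' : ι → ℕ := fun i => if i = i₀ then M else 1
  have hM' : ∀ i, Nat.card (Lh p σ X (α i) (β i) ⊓ σ.ker : Subgroup Γ) ≤ M' i := by
    intro i
    by_cases hi : i = i₀
    · subst hi
      simp only [M', if_true]
      exact Nat.le_of_dvd (Nat.pos_of_ne_zero hM) (h.Lh_inf_card hr hrp hσ hk _ _ hL0)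
    · simp only [M', if_neg hi]
      exact Nat.le_of_dvd Nat.one_pos (h.Lh_inf_card hr hrp hσ hk _ _ (hL i hi))
  have hinj : ∀ i, i ≠ i₀ → ∀ x ∈ Lh p σ X (α i) (β i), σ x = 1 → x = 1 := fun i hi x hx hx1 => h.Lh_inf_ker hr hrp hσ hk _ _ (hL i hi) hx hx1
  -- the pieces commute
  have hcomm0 : ∀ i j, i ≠ i₀ → ∀ x y : Γ, x ∈ h.Th σ i → y ∈ h.Th σ j → Commute x y := by
    intro i j hi x y hx hy
    rw [h.mem_Th] at hx hy
    have h1 : y * x⁻¹ * y⁻¹ ∈ Lh p σ X (α i) (β i) := by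
      have := h.conjL hc hy.2.1 (h.valid i) (inv_mem hx.1)
      rwa [hy.2.2, hy.2.2] at this
    have h2 := hinj i hi (x * (y * x⁻¹ * y⁻¹)) (mul_mem hx.1 h1) (by
      simp only [map_mul, map_inv]
      have := h.dcomm _ hx.2.1 _ hy.2.1 hx.2.2 hy.2.2
      have e : σ x * (σ y * (σ x)⁻¹ * (σ y)⁻¹) = (σ x * σ y) * (σ x)⁻¹ * (σ y)⁻¹ := by group
      rw [e, this]; group)
    have h3 : x * y * x⁻¹ * y⁻¹ = 1 := by rw [← h2]; group
    exact mul_inv_eq_one.1 (by rw [mul_inv_rev, ← mul_assoc]; exact h3)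
  have hcomm : Pairwise fun i j => ∀ x y : Γ, x ∈ h.Th σ i → y ∈ h.Th σ j → Commute x y := by
    intro i j hij x y hx hy
    by_cases hi : i = i₀
    · exact (hcomm0 j i (fun e => hij (by rw [hi, e])) y x hy hx).symm
    · exact hcomm0 i j hi x y hx hy
  have h1 : Nat.card (h.Tt σ) ≤ ∏ i, Nat.card (h.Th σ i) := by
    have hr1 := Subgroup.noncommPiCoprod_range (H := h.Th σ) (hcomm := hcomm)
    have hs : Function.Surjective (Subgroup.noncommPiCoprod hcomm).rangeRestrict := MonoidHom.rangeRestrict_surjective _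
    have h2 := Nat.card_le_card_of_surjective _ hs
    rw [Nat.card_pi, hr1] at h2
    exact h2
  have h2 : ∀ i, Nat.card (h.Th σ i) ≤ M' i * Nat.card ((X (α i) (β i) ⊔ X (ng (α i)) (ng (β i))) ⊓ h.Dk : Subgroup Q) := by
    intro i
    have hmem : ∀ x : h.Th σ i, σ x ∈ ((X (α i) (β i) ⊔ X (ng (α i)) (ng (β i))) ⊓ h.Dk : Subgroup Q) := by
      intro x
      refine ⟨?_, (x.2).2⟩
      rw [← h.map_Lh hc]
      exact ⟨x, x.2.1, rfl⟩
    let f : h.Th σ i →* ((X (α i) (β i) ⊔ X (ng (α i)) (ng (β i))) ⊓ h.Dk : Subgroup Q) := (σ.comp (h.Th σ i).subtype).codRestrict _ hmem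
    have h4 := card_mul_index f.ker
    rw [index_ker] at h4
    rw [← h4]
    refine Nat.mul_le_mul ?_ (Nat.card_le_card_of_injective _ (subtype_injective _))
    refine le_trans ?_ (hM' i)
    refine Nat.card_le_card_of_injective (fun x => (⟨x.1.1, x.1.2.1, ?_⟩ : (Lh p σ X (α i) (β i) ⊓ σ.ker : Subgroup Γ))) ?_
    · exact congrArg Subtype.val x.2
    · intro x y hxy
      apply Subtype.ext
      apply Subtype.ext
      have h9 := congrArg (Subtype.val (p := fun g => g ∈ (Lh p σ X (α i) (β i) ⊓ σ.ker : Subgroup Γ))) hxy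
      exact h9
  have h3 : Nat.card σ.ker * Nat.card ((h.Tt σ).map σ) = Nat.card (h.Tt σ) := by
    have h4 := card_mul_index (σ.comp (h.Tt σ).subtype).ker
    rw [index_ker] at h4
    rw [← h4]
    congr 1
    · have : (σ.comp (h.Tt σ).subtype).ker.map (h.Tt σ).subtype = σ.ker := by
        rw [← MonoidHom.comap_ker, map_comap_eq, range_subtype]
        exact inf_eq_right.2 hker
      have h5 := Nat.card_congr (equivMapOfInjective ((σ.comp (h.Tt σ).subtype).ker) _ (subtype_injective (h.Tt σ))).toEquiv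
      rw [this] at h5
      exact h5.symm
    · rw [MonoidHom.range_comp, range_subtype]
  have h4 : (⨆ i, (X (α i) (β i) ⊔ X (ng (α i)) (ng (β i))) ⊓ h.Dk : Subgroup Q) ≤ (h.Tt σ).map σ := by
    refine iSup_le (fun i y hy => ?_)
    have hy1 := hy.1
    rw [← h.map_Lh hc] at hy1
    obtain ⟨x, hx, rfl⟩ := hy1
    exact ⟨x, h.Th_le i ⟨hx, hy.2⟩, rfl⟩
  have h5 : Nat.card σ.ker * Nat.card (⨆ i, (X (α i) (β i) ⊔ X (ng (α i)) (ng (β i))) ⊓ h.Dk : Subgroup Q) ≤
      M * ∏ i, Nat.card ((X (α i) (β i) ⊔ X (ng (α i)) (ng (β i))) ⊓ h.Dk : Subgroup Q) := by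
    calc Nat.card σ.ker * Nat.card (⨆ i, (X (α i) (β i) ⊔ X (ng (α i)) (ng (β i))) ⊓ h.Dk : Subgroup Q)
        ≤ Nat.card σ.ker * Nat.card ((h.Tt σ).map σ) := Nat.mul_le_mul_left _ (Nat.card_le_card_of_injective _ (inclusion_injective h4))
      _ = Nat.card (h.Tt σ) := h3
      _ ≤ ∏ i, Nat.card (h.Th σ i) := h1
      _ ≤ ∏ i, (M' i * Nat.card ((X (α i) (β i) ⊔ X (ng (α i)) (ng (β i))) ⊓ h.Dk : Subgroup Q)) := Finset.prod_le_prod (fun i _ => Nat.zero_le _) (fun i _ => h2 i)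
      _ = _ := by
        rw [Finset.prod_mul_distrib]
        congr 1
        simp only [M', Finset.prod_ite_eq', Finset.mem_univ, if_true]
  have h6 : ∏ i, Nat.card ((X (α i) (β i) ⊔ X (ng (α i)) (ng (β i))) ⊓ h.Dk : Subgroup Q) =
      Nat.card (Subgroup.noncommPiCoprod h.dcomm').ker * Nat.card (⨆ i, (X (α i) (β i) ⊔ X (ng (α i)) (ng (β i))) ⊓ h.Dk : Subgroup Q) := by
    have h7 := card_mul_index (Subgroup.noncommPiCoprod h.dcomm').ker
    rw [index_ker, Subgroup.noncommPiCoprod_range, Nat.card_pi] at h7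
    exact h7.symm
  rw [h6, ← mul_assoc] at h5
  exact Nat.le_of_mul_le_mul_right h5 Nat.card_pos

end RD

end Cfsg.Agent.Lib.RootLift
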