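import Cfsg.Agent.Lib.MulOrthRC
import Cfsg.Agent.Lib.RootLiftB
import Cfsg.Agent.Lib.MulPSp

/-! Root data of the split groups `Ω⁺(V)` (helper35). -/

set_option autoImplicit false

namespace Cfsg.Agent.Lib.MulOrth

open Matrix Cfsg.Agent.Lib.Quad Cfsg.Agent.Lib.ClOrthSiegel Cfsg.Agent.Lib.UCEBase QuadraticMap Module
open Cfsg.Agent.Lib.PresBC (Zs ng ng_ng ng_ne ng_inj lam lam_ng lam_ne lam_inj lam_eq eq_ng Rt Pos G PosE)
open Cfsg.Agent.Lib.RootLift (rf rf_left rf_right rf_ngleft rf_ngright rf_other RD)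
open Cfsg.Agent.Lib.PresSpMod (S2 Dg Ag)
open Cfsg.Agent.Lib.PresSpCore (up lo lam_inl lam_inr nxt nxt_ne sf sw_lam sw_pos al be)

section gen
variable {F V : Type*} [Field F] [AddCommGroup V] [Module F V] [FiniteDimensional F V] {Q : QuadraticForm F V}
  {hQ : Nd Q} (hO : OH hQ) {m : ℕ} {v : Zs m → V} (hv : SF Q v)

theorem gen_all (K : Subgroup (Om Q)) (hK : ∀ a b, b ≠ ng a → XO hO hv a b ≤ K) (han : ∀ x ∈ V0 Q v, Q x = 0 → x = 0) : K = ⊤ := by
  -- Siegel elements with frame centres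
  have s1 : ∀ c, ∀ y, polar Q (v c) y = 0 → Eo hO (v c) y ∈ K := by
    intro c y hy
    have hsum : polar Q (v c) (∑ a, polar Q (v (ng a)) y • v a) = 0 ∧ Eo hO (v c) (∑ a, polar Q (v (ng a)) y • v a) ∈ K := by
      refine Finset.sum_induction (fun a => polar Q (v (ng a)) y • v a) (fun z => polar Q (v c) z = 0 ∧ Eo hO (v c) z ∈ K) ?_ ?_ ?_
      · rintro a b ⟨h1, h2⟩ ⟨h3, h4⟩
        exact ⟨by rw [polar_add_right, h1, h3, add_zero], by rw [← Eo_add hO h1 h3]; exact mul_mem h2 h4⟩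
      · exact ⟨polar_zero_right _ _, by rw [Eo_zero]; exact one_mem _⟩
      · intro b _
        by_cases h1 : b = ng c
        · subst h1
          rw [ng_ng, hy, zero_smul]
          exact ⟨polar_zero_right _ _, by rw [Eo_zero]; exact one_mem _⟩
        refine ⟨by rw [polar_smul_right, hv.p0 h1, smul_zero], ?_⟩
        by_cases h2 : b = c
        · rw [h2, Eo_smul_self]; exact one_mem _
        · exact hK c b h1 ((mem_XO_ne hO hv h2 h1).2 ⟨_, rfl⟩)
    have hu := dec hv y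
    have e : y = (y - ∑ a, polar Q (v (ng a)) y • v a) + ∑ a, polar Q (v (ng a)) y • v a := by abel
    rw [e, ← Eo_add hO (hu c) hsum.1]
    exact mul_mem (hK c c (ng_ne c).symm ((mem_XO_self hO hv).2 ⟨_, hu, rfl⟩)) hsum.2
  -- all Siegel elements
  have s2 : ∀ z y, Q z = 0 → polar Q z y = 0 → Eo hO z y ∈ K := by
    intro z y hQz hzy
    by_cases hz0 : z = 0
    · have : Eo hO z y = 1 := by
        apply Om_ext
        intro x
        rw [Eo_apply hO hQz hzy, hz0]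
        show _ = x
        simp
      rw [this]; exact one_mem _
    obtain ⟨c, hc⟩ : ∃ c, polar Q (v c) z ≠ 0 := by
      by_contra hcon
      push Not at hcon
      exact hz0 (han z hcon hQz)
    obtain ⟨r, hr⟩ : ∃ r, r = polar Q (v c) z := ⟨_, rfl⟩
    have hr0 : r ≠ 0 := by rw [hr]; exact hc
    obtain ⟨z', hz'⟩ : ∃ z', z' = r⁻¹ • z := ⟨_, rfl⟩
    have hzz : z = r • z' := by rw [hz', smul_inv_smul₀ hr0]
    have hcz' : polar Q (v c) z' = 1 := by rw [hz', polar_smul_right, ← hr, smul_eq_mul, inv_mul_cancel₀ hr0]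
    have hQz' : Q z' = 0 := by rw [hz', Q_smul, hQz, mul_zero]
    obtain ⟨y', hy'⟩ : ∃ y', y' = z' - v (ng c) - polar Q (v (ng c)) z' • v c := ⟨_, rfl⟩
    have hy1 : polar Q (v c) y' = 0 := by
      rw [hy', polar_sub_right, polar_sub_right, hcz', hv.pn, polar_smul_right, hv.self, smul_zero]; ring
    have hy2 : polar Q (v (ng c)) y' = 0 := by
      rw [hy', polar_sub_right, polar_sub_right, hv.self, polar_smul_right, hv.pn', smul_eq_mul]; ring
    have hxy : z' = v (ng c) + y' + polar Q (v (ng c)) z' • v c := by rw [hy']; abel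
    have hq : polar Q (v (ng c)) z' = - Q y' := by
      have h2 := hQz'
      rw [hxy, Q_add, Q_add, Q_smul, hv.q0, hv.q0, hy2, polar_smul_right, polar_add_left, hv.pn', polar_comm Q y', hy1, smul_eq_mul] at h2
      linear_combination h2
    have hee : (Eo hO (v c) y' : V ≃ₗ[F] V) (v (ng c)) = z' := by
      rw [Eo_apply hO (hv.q0 c) hy1, hv.pn, one_smul, mul_one, polar_comm Q y', hy2, zero_smul, sub_zero]
      conv_rhs => rw [hxy, hq]
      rw [neg_smul]; abel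
    obtain ⟨y'', hy''⟩ : ∃ y'', y'' = (((Eo hO (v c) y')⁻¹ : Om Q) : V ≃ₗ[F] V) (r • y) := ⟨_, rfl⟩
    have hyy : (Eo hO (v c) y' : V ≃ₗ[F] V) y'' = r • y := by rw [hy'', Om_inv']
    have hp : polar Q (v (ng c)) y'' = 0 := by
      have h1 := OmP (Eo hO (v c) y') (v (ng c)) y''
      rw [hee, hyy] at h1
      rw [← h1, polar_smul_right, hz', polar_smul_left, hzy, smul_zero, smul_zero]
    have hEq : Eo hO z y = Eo hO (v c) y' * Eo hO (v (ng c)) y'' * (Eo hO (v c) y')⁻¹ := by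
      rw [Eo_conj, hee, hyy, hzz, Eo_smul hO hr0]
    rw [hEq]
    exact mul_mem (mul_mem (s1 c y' hy1) (s1 _ y'' hp)) (inv_mem (s1 c y' hy1))
  have h1 : T hQ ≤ K.map (Om Q).subtype := by
    rw [T, Subgroup.closure_le]
    rintro _ ⟨z, y, rfl⟩
    by_cases h : Q z = 0 ∧ polar Q z y = 0
    · exact ⟨Eo hO z y, s2 z y h.1 h.2, rfl⟩
    · rw [E_of_ne hQ h]; exact one_mem _
  rw [eq_top_iff]
  intro g _
  have h2 : (g : V ≃ₗ[F] V) ∈ T hQ := by rw [hO.hT]; exact g.2
  obtain ⟨g', hg', he⟩ := h1 h2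
  rw [← Subtype.ext (a1 := g') (a2 := g) he]; exact hg'

theorem XO_symm (a b : Zs m) : XO hO hv a b = XO hO hv b a := (rtO hO hv).symm a b

/-- generation by positive root groups and Weyl elements -/
theorem top_of {ι : Type} (α β : ι → Zs m) (w : ι → Om Q) (hw : ∀ i, Mon v (w i)) (hrw : ∀ i c, rhO v (w i) c = rf (α i) (β i) c)
    (han : ∀ x ∈ V0 Q v, Q x = 0 → x = 0)
    (hraise : ∀ a b, b ≠ ng a → ¬ Pos a b → XO hO hv a b = ⊥ ∨ ∃ i, lam a + lam b < lam (rf (α i) (β i) a) + lam (rf (α i) (β i) b)) :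
    Subgroup.closure ({x | ∃ a b, Pos a b ∧ x ∈ XO hO hv a b} ∪ Set.range w) = ⊤ := by
  set K := Subgroup.closure ({x | ∃ a b, Pos a b ∧ x ∈ XO hO hv a b} ∪ Set.range w) with hK
  have hwK : ∀ i, w i ∈ K := fun i => Subgroup.subset_closure (Or.inr ⟨i, rfl⟩)
  have hX : ∀ (N : ℕ) (a b : Zs m), b ≠ ng a → (2 * (m : ℤ) + 1 - (lam a + lam b)).toNat ≤ N → XO hO hv a b ≤ K := by
    intro N
    have hb1 : ∀ c : Zs m, -(m : ℤ) ≤ lam c ∧ lam c ≤ m := by
      rintro (j | j)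
      · rw [lam_inl]; have := j.2; omega
      · rw [lam_inr]; have := j.2; omega
    induction N with
    | zero =>
      intro a b _ hN
      have h1 := hb1 a
      have h2 := hb1 b
      omega
    | succ N ih =>
      intro a b hab hN
      by_cases hpos : Pos a b
      · intro x hx
        exact Subgroup.subset_closure (Or.inl ⟨a, b, hpos, hx⟩)
      · rcases hraise a b hab hpos with h0 | ⟨i, hi⟩
        · rw [h0]; exact bot_le
        have h1 := hb1 (rf (α i) (β i) a)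
        have h2 := hb1 (rf (α i) (β i) b)
        have hab' : rf (α i) (β i) b ≠ ng (rf (α i) (β i) a) := by
          rw [← hrw, ← hrw, ← rhO_ng hv (hw i)]
          exact fun e => hab (rhO_inj hv (hw i) e)
        have h3 := ih (rf (α i) (β i) a) (rf (α i) (β i) b) hab' (by omega)
        intro x hx
        have h4 := XO_act hO hv (hw i) hab hx
        rw [hrw, hrw] at h4
        have h5 := mul_mem (mul_mem (inv_mem (hwK i)) (h3 h4)) (hwK i)
        have e : (w i)⁻¹ * (w i * x * (w i)⁻¹) * w i = x := by group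
        rwa [e] at h5
  exact gen_all hO hv K (fun a b hab => hX _ a b hab le_rfl) han

end gen

/-! ### the simple roots of type `D` -/

section comb
variable {m : ℕ}

def alD (k : Fin m) : Option {i : Fin m // i.1 + 1 < m} → Zs m
  | none => Sum.inl k
  | some i => Sum.inl i.1
def beD (l : Fin m) : Option {i : Fin m // i.1 + 1 < m} → Zs m
  | none => Sum.inl l
  | some i => Sum.inr (nxt i)

variable {k l : Fin m} (hk : k.1 + 2 = m) (hl : l.1 + 1 = m)

include hk hl in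
theorem D_ne (i : Option {i : Fin m // i.1 + 1 < m}) : beD l i ≠ alD k i ∧ beD l i ≠ ng (alD k i) := by
  rcases i with _ | i
  · show (Sum.inl l : Zs m) ≠ Sum.inl k ∧ (Sum.inl l : Zs m) ≠ ng (Sum.inl k)
    rw [Ne, Ne, eq_ng, lam_eq, lam_inl, lam_inl]
    have := l.2; have := k.2
    omega
  · show (Sum.inr (nxt i) : Zs m) ≠ Sum.inl i.1 ∧ (Sum.inr (nxt i) : Zs m) ≠ ng (Sum.inl i.1)
    rw [Ne, Ne, eq_ng, lam_eq, lam_inl, lam_inr]
    have := (nxt i).2; have := i.2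
    have : (nxt i).1 = i.1.1 + 1 := rfl
    omega

include hk hl in
theorem rn_lam (c : Zs m) : (lam c = 2 ∧ lam (rf (Sum.inl k) (Sum.inl l) c) = -1) ∨ (lam c = 1 ∧ lam (rf (Sum.inl k) (Sum.inl l) c) = -2) ∨
    (lam c = -2 ∧ lam (rf (Sum.inl k) (Sum.inl l) c) = 1) ∨ (lam c = -1 ∧ lam (rf (Sum.inl k) (Sum.inl l) c) = 2) ∨
    (lam c ≠ 2 ∧ lam c ≠ 1 ∧ lam c ≠ -2 ∧ lam c ≠ -1 ∧ lam (rf (Sum.inl k) (Sum.inl l) c) = lam c) := by
  have hkl : lam (Sum.inl k : Zs m) = 2 := by rw [lam_inl]; omega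
  have hll : lam (Sum.inl l : Zs m) = 1 := by rw [lam_inl]; omega
  have hab : (Sum.inl l : Zs m) ≠ ng (Sum.inl k) := by rw [Ne, eq_ng]; omega
  by_cases h1 : c = Sum.inl k
  · left; rw [h1, rf_left hab, lam_ng]; omega
  by_cases h2 : c = Sum.inl l
  · right; left; rw [h2, rf_right hab, lam_ng]; omega
  by_cases h3 : c = ng (Sum.inl k)
  · right; right; left; rw [h3, rf_ngleft hab, lam_ng]; omega
  by_cases h4 : c = ng (Sum.inl l)
  · right; right; right; left; rw [h4, rf_ngright hab, lam_ng]; omega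
  right; right; right; right
  rw [rf_other hab h1 h2 h3 h4]
  rw [lam_eq] at h1 h2
  rw [eq_ng] at h3 h4
  omega

theorem rf_some (i : {i : Fin m // i.1 + 1 < m}) (c : Zs m) : rf (Sum.inl i.1) (Sum.inr (nxt i)) c = PresSpCore.sw i c :=
  RootLiftSp.rf_sf (l := i.1) (some i) c

include hk hl in
theorem hs1_D (i : Option {i : Fin m // i.1 + 1 < m}) (a b : Zs m) (hne : a ≠ b) (h : PosE (alD k i) (beD l i) a b) :
    Pos (rf (alD k i) (beD l i) a) (rf (alD k i) (beD l i) b) := by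
  rcases i with _ | i
  · change PosE (Sum.inl k) (Sum.inl l) a b at h
    show Pos (rf (Sum.inl k) (Sum.inl l) a) (rf (Sum.inl k) (Sum.inl l) b)
    obtain ⟨h1, h2⟩ := h
    unfold Pos at h1 ⊢
    have hkl : lam (Sum.inl k : Zs m) = 2 := by rw [lam_inl]; omega
    have hll : lam (Sum.inl l : Zs m) = 1 := by rw [lam_inl]; omega
    simp only [lam_eq, hkl, hll] at h2
    rw [Ne, lam_eq] at hne
    have ha := lam_ne a
    have hb := lam_ne b
    rcases rn_lam hk hl a with h3 | h3 | h3 | h3 | h3 <;> rcases rn_lam hk hl b with h4 | h4 | h4 | h4 | h4 <;> omega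
  · change PosE (Sum.inl i.1) (Sum.inr (nxt i)) a b at h
    show Pos (rf (Sum.inl i.1) (Sum.inr (nxt i)) a) (rf (Sum.inl i.1) (Sum.inr (nxt i)) b)
    rw [rf_some, rf_some]
    exact sw_pos i a b h

theorem sw_lam' (i : ℕ) (hi : i + 1 < m) (a : Zs m) :
    (lam a = (m : ℤ) - i ∧ lam (PresSpCore.sw ⟨⟨i, Nat.lt_of_succ_lt hi⟩, hi⟩ a) = (m : ℤ) - i - 1) ∨
    (lam a = (m : ℤ) - i - 1 ∧ lam (PresSpCore.sw ⟨⟨i, Nat.lt_of_succ_lt hi⟩, hi⟩ a) = (m : ℤ) - i) ∨
    (lam a = -((m : ℤ) - i) ∧ lam (PresSpCore.sw ⟨⟨i, Nat.lt_of_succ_lt hi⟩, hi⟩ a) = -((m : ℤ) - i - 1)) ∨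
    (lam a = -((m : ℤ) - i - 1) ∧ lam (PresSpCore.sw ⟨⟨i, Nat.lt_of_succ_lt hi⟩, hi⟩ a) = -((m : ℤ) - i)) ∨
    (lam a ≠ (m : ℤ) - i ∧ lam a ≠ (m : ℤ) - i - 1 ∧ lam a ≠ -((m : ℤ) - i) ∧ lam a ≠ -((m : ℤ) - i - 1) ∧ lam (PresSpCore.sw ⟨⟨i, Nat.lt_of_succ_lt hi⟩, hi⟩ a) = lam a) :=
  sw_lam ⟨⟨i, Nat.lt_of_succ_lt hi⟩, hi⟩ a

include hk hl in
theorem raise_D (a b : Zs m) (hne : a ≠ b) (hab : b ≠ ng a) (hneg : ¬ Pos a b) :
    ∃ i, lam a + lam b < lam (rf (alD k i) (beD l i) a) + lam (rf (alD k i) (beD l i) b) := by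
  have hb1 : ∀ c : Zs m, -(m : ℤ) ≤ lam c ∧ lam c ≤ m := by
    rintro (j | j)
    · rw [lam_inl]; have := j.2; omega
    · rw [lam_inr]; have := j.2; omega
  have main : ∀ a b : Zs m, a ≠ b → b ≠ ng a → ¬ Pos a b → lam a < lam b →
      ∃ i, lam a + lam b < lam (rf (alD k i) (beD l i) a) + lam (rf (alD k i) (beD l i) b) := by
    intro a b hne hab hneg hle
    rw [Ne, eq_ng] at hab
    unfold Pos at hneg
    have ha := lam_ne a
    have hb := lam_ne b
    have hba := hb1 a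
    obtain ⟨K, hK⟩ : ∃ K : ℕ, (K : ℤ) = -lam a := ⟨(-lam a).toNat, by omega⟩
    have hK2 : 2 ≤ K := by omega
    by_cases h2 : lam b = lam a + 1
    · by_cases h3 : K = 2
      · refine ⟨none, ?_⟩
        show _ < lam (rf (Sum.inl k) (Sum.inl l) a) + lam (rf (Sum.inl k) (Sum.inl l) b)
        rcases rn_lam hk hl a with h3 | h3 | h3 | h3 | h3 <;> rcases rn_lam hk hl b with h4 | h4 | h4 | h4 | h4 <;> omega
      · have hi : (m - (K - 1)) + 1 < m := by omega
        refine ⟨some ⟨⟨m - (K - 1), by omega⟩, hi⟩, ?_⟩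
        show _ < lam (rf (Sum.inl _) (Sum.inr (nxt _)) a) + lam (rf (Sum.inl _) (Sum.inr (nxt _)) b)
        rw [rf_some, rf_some]
        have e : ((m - (K - 1) : ℕ) : ℤ) = m - (K - 1) := by omega
        have h4 := sw_lam' (m - (K - 1)) hi a
        have h5 := sw_lam' (m - (K - 1)) hi b
        rw [e] at h4 h5
        omega
    · have hi : (m - K) + 1 < m := by omega
      refine ⟨some ⟨⟨m - K, by omega⟩, hi⟩, ?_⟩
      show _ < lam (rf (Sum.inl _) (Sum.inr (nxt _)) a) + lam (rf (Sum.inl _) (Sum.inr (nxt _)) b)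
      rw [rf_some, rf_some]
      have e : ((m - K : ℕ) : ℤ) = m - K := by omega
      have h4 := sw_lam' (m - K) hi a
      have h5 := sw_lam' (m - K) hi b
      rw [e] at h4 h5
      omega
  rcases lt_trichotomy (lam a) (lam b) with h | h | h
  · exact main a b hne hab hneg h
  · exact absurd (lam_inj h) hne
  · obtain ⟨i, hi⟩ := main b a hne.symm (ng_ne_of hab) (by unfold Pos at *; omega) h
    exact ⟨i, by omega⟩

theorem pos_D (i : Option {i : Fin m // i.1 + 1 < m}) : Pos (alD k i) (beD l i) := by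
  rcases i with _ | i
  · show Pos (Sum.inl k) (Sum.inl l)
    unfold Pos; rw [lam_inl, lam_inl]
    have := k.2; have := l.2; omega
  · show Pos (Sum.inl i.1) (Sum.inr (nxt i))
    unfold Pos; rw [lam_inl, lam_inr]
    have := (nxt i).2; have := i.2
    have : (nxt i).1 = i.1.1 + 1 := rfl
    omega

end comb

end Cfsg.Agent.Lib.MulOrth
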