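import Cfsg.Agent.Lib.MulOrthRD

/-! The prime-to-`p` part of the multiplier of the split groups `Ω⁺(V)` (helper35). -/

set_option autoImplicit false

namespace Cfsg.Agent.Lib.MulOrth

open Matrix Cfsg.Agent.Lib.Quad Cfsg.Agent.Lib.ClOrthSiegel Cfsg.Agent.Lib.UCEBase QuadraticMap Module
open Cfsg.Agent.Lib.PresBC (Zs ng ng_ng ng_ne ng_inj lam lam_ng lam_ne lam_inj lam_eq eq_ng Rt Pos G PosE)
open Cfsg.Agent.Lib.RootLift (rf rf_left rf_right rf_ngleft rf_ngright rf_other RD)
open Cfsg.Agent.Lib.PresSpMod (S2 Dg Ag)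
open Cfsg.Agent.Lib.PresSpCore (up lo lam_inl lam_inr nxt nxt_ne sf sw_lam sw_pos al be)

universe u

section torus
variable {F V : Type*} [Field F] [AddCommGroup V] [Module F V] [FiniteDimensional F V] {Q : QuadraticForm F V}
  {hQ : Nd Q} (hO : OH hQ) {m : ℕ} {v : Zs m → V} (hv : SF Q v)

/-- eigenvalues -/
def cf (v : Zs m → V) (g : Om Q) (a : Zs m) : F := polar Q (v (ng a)) ((g : V ≃ₗ[F] V) (v a))

include hv in
theorem cf_eq {g : Om Q} {a : Zs m} {c : F} (h : (g : V ≃ₗ[F] V) (v a) = c • v a) : cf v g a = c := by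
  rw [cf, h, polar_smul_right, hv.pn', smul_eq_mul, mul_one]

include hv in
theorem cf_one (a : Zs m) : cf v (1 : Om Q) a = 1 := cf_eq hv (by rw [one_smul]; rfl)

include hv in
theorem cf_spec {g : Om Q} (hg : Mon v g) (h : ∀ a, rhO v g a = a) (a : Zs m) : (g : V ≃ₗ[F] V) (v a) = cf v g a • v a := by
  obtain ⟨c, hc, h1⟩ := rhO_spec hv hg a
  rw [h] at h1
  rw [cf_eq hv h1]; exact h1

include hv in
theorem ncp_act {ι : Type*} [Fintype ι] {D : ι → Subgroup (Om Q)} (hcomm : Pairwise fun i j => ∀ x y : Om Q, x ∈ D i → y ∈ D j → Commute x y)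
    (hD : ∀ i, ∀ g ∈ D i, Mon v g ∧ ∀ a, rhO v g a = a) (a : Zs m) (d : ∀ i, D i) :
    ((Subgroup.noncommPiCoprod hcomm d : Om Q) : V ≃ₗ[F] V) (v a) = (∏ i, cf v (d i : Om Q) a) • v a := by
  classical
  have hs : ∀ (i : ι) (g : D i), ((g : Om Q) : V ≃ₗ[F] V) (v a) = cf v (g : Om Q) a • v a := fun i g => cf_spec hv (hD i g g.2).1 (hD i g g.2).2 a
  have hmul : ∀ (i : ι) (g h : D i), cf v ((g * h : D i) : Om Q) a = cf v (g : Om Q) a * cf v (h : Om Q) a := by
    intro i g h
    apply cf_eq hv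
    rw [Subgroup.coe_mul, Om_mul, hs, map_smul, hs, smul_smul, mul_comm]
  let S : Subgroup (∀ i, D i) :=
    { carrier := {d | ((Subgroup.noncommPiCoprod hcomm d : Om Q) : V ≃ₗ[F] V) (v a) = (∏ i, cf v (d i : Om Q) a) • v a}
      one_mem' := by
        show ((Subgroup.noncommPiCoprod hcomm 1 : Om Q) : V ≃ₗ[F] V) (v a) = (∏ i, cf v (((1 : ∀ i, D i) i : D i) : Om Q) a) • v a
        rw [map_one]
        have : ∀ i, cf v (((1 : ∀ i, D i) i : D i) : Om Q) a = 1 := fun i => cf_one hv a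
        simp only [this, Finset.prod_const_one, one_smul]; rfl
      mul_mem' := by
        intro d e hd he
        change ((Subgroup.noncommPiCoprod hcomm d : Om Q) : V ≃ₗ[F] V) (v a) = (∏ i, cf v (d i : Om Q) a) • v a at hd
        change ((Subgroup.noncommPiCoprod hcomm e : Om Q) : V ≃ₗ[F] V) (v a) = (∏ i, cf v (e i : Om Q) a) • v a at he
        show ((Subgroup.noncommPiCoprod hcomm (d * e) : Om Q) : V ≃ₗ[F] V) (v a) = (∏ i, cf v (((d * e) i : D i) : Om Q) a) • v a
        rw [map_mul, Om_mul, he, map_smul, hd, smul_smul, mul_comm, ← Finset.prod_mul_distrib]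
        congr 1
        apply Finset.prod_congr rfl
        intro i _
        exact (hmul i _ _).symm
      inv_mem' := by
        intro d hd
        change ((Subgroup.noncommPiCoprod hcomm d : Om Q) : V ≃ₗ[F] V) (v a) = (∏ i, cf v (d i : Om Q) a) • v a at hd
        show ((Subgroup.noncommPiCoprod hcomm d⁻¹ : Om Q) : V ≃ₗ[F] V) (v a) = (∏ i, cf v (((d⁻¹) i : D i) : Om Q) a) • v a
        have h1 : (∏ i, cf v (((d⁻¹) i : D i) : Om Q) a) * (∏ i, cf v (d i : Om Q) a) = 1 := by
          rw [← Finset.prod_mul_distrib]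
          apply Finset.prod_eq_one
          intro i _
          rw [← hmul, Pi.inv_apply, inv_mul_cancel]
          exact cf_one hv a
        rw [map_inv]
        apply Om_inv_of
        rw [map_smul, hd, smul_smul, h1, one_smul] }
  have hS : d ∈ S := by
    apply Subgroup.pi_mem_of_mulSingle_mem
    intro i
    show ((Subgroup.noncommPiCoprod hcomm (Pi.mulSingle i (d i)) : Om Q) : V ≃ₗ[F] V) (v a) = (∏ j, cf v ((Pi.mulSingle (M := fun i => D i) i (d i) j : D j) : Om Q) a) • v a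
    rw [Subgroup.noncommPiCoprod_mulSingle, Finset.prod_eq_single i]
    · rw [Pi.mulSingle_eq_same]; exact hs i (d i)
    · intro j _ hj
      rw [Pi.mulSingle_eq_of_ne hj]
      exact cf_one hv a
    · intro h; exact absurd (Finset.mem_univ _) h
  exact hS

include hv in
/-- eigenvalues of torus elements of long roots -/
theorem long_cf {a b : Zs m} (hba : b ≠ a) (hab : b ≠ ng a) {g : Om Q} (hg : g ∈ LO hO hv a b) (hm : Mon v g) (hr : ∀ c, rhO v g c = c) :
    ∃ t : F, t ≠ 0 ∧ cf v g a = t ∧ cf v g b = t ∧ cf v g (ng b) = t⁻¹ ∧ cf v g (ng a) = t⁻¹ ∧ (∀ c, c ≠ a → c ≠ ng a → c ≠ b → c ≠ ng b → cf v g c = 1) ∧ (t = 1 → g = 1) := by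
  rw [← PhO_range hO hv hba hab] at hg
  obtain ⟨A, rfl⟩ := hg
  have hA := PhO_Ac hO hv hba hab A
  rcases Ac_mono hab hba hA hm hv with ⟨h1, h2, -⟩ | ⟨h1, h2, h3⟩
  · have hdet : A.1 0 0 * A.1 1 1 - A.1 0 1 * A.1 1 0 = 1 := by rw [← Matrix.det_fin_two]; exact A.2
    rw [h1, mul_zero, sub_zero] at hdet
    have h0 : A.1 0 0 ≠ 0 := by intro h; rw [h, zero_mul] at hdet; exact zero_ne_one hdet
    have hi : A.1 1 1 = (A.1 0 0)⁻¹ := eq_inv_of_mul_eq_one_right hdet
    refine ⟨A.1 0 0, h0, cf_eq hv (by rw [hA.e1, h1, zero_smul, add_zero]), cf_eq hv (by rw [hA.e4, h1, zero_smul, sub_zero]),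
      cf_eq hv (by rw [hA.e2, h2, zero_smul, zero_add, hi]), cf_eq hv (by rw [hA.e3, h2, zero_smul, sub_zero, hi]), ?_, ?_⟩
    · intro c c1 c2 c3 c4
      exact cf_eq hv (by rw [one_smul]; exact hA.e5 _ (mem_W4 hv c1 c2 c3 c4))
    · intro ht
      have : A = 1 := by
        apply Subtype.ext
        ext i j
        fin_cases i <;> fin_cases j
        · simpa using ht
        · simpa using h2
        · simpa using h1
        · simp [hi, ht]
      rw [this, map_one]
  · exfalso
    have := h3 a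
    rw [hr, rf_left hab] at this
    exact ng_ne_of' hab this.symm

include hv in
theorem cf_inj_long {a b : Zs m} (hba : b ≠ a) (hab : b ≠ ng a) {g h : Om Q} (hg : g ∈ LO hO hv a b) (hm : Mon v g) (hr : ∀ c, rhO v g c = c)
    (hg' : h ∈ LO hO hv a b) (hm' : Mon v h) (hr' : ∀ c, rhO v h c = c) (e : cf v g a = cf v h a) : g = h := by
  have hi : ∀ c, rhO v h⁻¹ c = c := by
    intro c
    have := rhO_mul hv (hm'.inv hv) hm' c
    rw [inv_mul_cancel, rhO_one c hv, hr'] at this
    exact this.symm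
  obtain ⟨t, ht, h1, -, -, -, -, h2⟩ := long_cf hO hv hba hab (mul_mem (inv_mem hg') hg) ((hm'.inv hv).mul hm) (by
    intro c; rw [rhO_mul hv (hm'.inv hv) hm, hr, hi])
  have h3 : cf v (h⁻¹ * g) a = 1 := by
    apply cf_eq hv
    rw [Om_mul, cf_spec hv hm hr, e, one_smul, ← cf_spec hv hm' hr', Om_inv]
  exact (inv_mul_eq_one.1 (h2 (by rw [← h1, h3]))).symm

theorem XO_ne_bot {a b : Zs m} (hba : b ≠ a) (hab : b ≠ ng a) : XO hO hv a b ≠ ⊥ := by
  intro h
  have h1 : Eo hO (v a) ((1 : F) • v b) ∈ XO hO hv a b := (mem_XO_ne hO hv hba hab).2 ⟨1, rfl⟩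
  rw [h, Subgroup.mem_bot, ← PhO_up hO hv hba hab, ← map_one (PhO hO hv hba hab)] at h1
  have h2 := congrFun (congrFun (congrArg Subtype.val (PhO_inj hO hv hba hab h1)) 0) 1
  have h3 : (-1 : F) = 0 := h2.trans (by simp)
  exact one_ne_zero (neg_eq_zero.1 h3)

end torus

section D
variable {F V : Type u} [Field F] [AddCommGroup V] [Module F V] [FiniteDimensional F V] {Q : QuadraticForm F V}
  {hQ : Nd Q} (hO : OH hQ) {m : ℕ} {v : Zs m → V} (hv : SF Q v) (h0 : ∀ u ∈ V0 Q v, u = 0)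
  {k l : Fin m} (hk : k.1 + 2 = m) (hl : l.1 + 1 = m)

/-- Weyl elements -/
noncomputable def wD (hO : OH hQ) (hv : SF Q v) {k l : Fin m} (hk : k.1 + 2 = m) (hl : l.1 + 1 = m) (i : Option {i : Fin m // i.1 + 1 < m}) : Om Q :=
  (exists_wO hO hv (D_ne hk hl i).1 (D_ne hk hl i).2).choose

theorem wD_mon (i) : Mon v (wD hO hv hk hl i) := (exists_wO hO hv (D_ne hk hl i).1 (D_ne hk hl i).2).choose_spec.1
theorem wD_L (i) : wD hO hv hk hl i ∈ LO hO hv (alD k i) (beD l i) := (exists_wO hO hv (D_ne hk hl i).1 (D_ne hk hl i).2).choose_spec.2.1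
theorem wD_rho (i) (c) : rhO v (wD hO hv hk hl i) c = rf (alD k i) (beD l i) c := (exists_wO hO hv (D_ne hk hl i).1 (D_ne hk hl i).2).choose_spec.2.2 c

include h0 in
theorem XO_self_bot (a : Zs m) : XO hO hv a a = ⊥ := by
  rw [eq_bot_iff]
  intro g hg
  obtain ⟨u, hu, rfl⟩ := (mem_XO_self hO hv).1 hg
  rw [h0 u hu, Eo_zero]; exact one_mem _

include h0 in
/-- the root datum of type `D` -/
theorem rdD {p : ℕ} [Fact p.Prime] [CharP F p] : RD p (XO hO hv) (NO hv) (rhO v) (alD k) (beD l) (wD hO hv hk hl) := by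
  refine ⟨rtO hO hv, fun a b => XO_pg hO hv a b, fun a => rhO_one a hv, fun g hg h hh a => rhO_mul hv hg hh a, fun g hg a => rhO_ng hv hg a,
    fun g hg a b hab x hx => XO_act hO hv hg hab hx, ?_, pos_D, ?_, fun i => wD_mon hO hv hk hl i, fun i => wD_L hO hv hk hl i, fun i c => wD_rho hO hv hk hl i c, ?_, ?_, ?_, ?_, ?_⟩
  · intro g hg h hh h1 h2
    apply ext_frame (hv := hv)
    · intro a
      rw [Om_mul, Om_mul, cf_spec hv hg h1, cf_spec hv hh h2, map_smul, map_smul, cf_spec hv hg h1, cf_spec hv hh h2, smul_smul, smul_smul, mul_comm]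
    · intro u hu
      rw [h0 u hu, map_zero, map_zero]
  · intro i
    exact XO_ne_bot hO hv (D_ne hk hl i).1 (D_ne hk hl i).2
  · intro i a b h
    by_cases hab : a = b
    · left; rw [hab]; exact XO_self_bot hO hv h0 b
    · right; exact hs1_D hk hl i a b hab h
  · intro i y hy hy1
    exact one_long hO hv (D_ne hk hl i).1 (D_ne hk hl i).2 hy hy1
  · intro i g hg hgL
    change g ∈ LO hO hv (alD k i) (beD l i) at hgL
    rw [← PhO_range hO hv (D_ne hk hl i).1 (D_ne hk hl i).2] at hgL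
    obtain ⟨A, rfl⟩ := hgL
    rcases Ac_mono (D_ne hk hl i).2 (D_ne hk hl i).1 (PhO_Ac hO hv (D_ne hk hl i).1 (D_ne hk hl i).2 A) hg hv with h | h
    · exact Or.inl h.2.2
    · exact Or.inr h.2.2
  · intro g hg hgU
    exact NU_O hO hv hg hgU (fun u hu _ => h0 u hu)
  · apply top_of hO hv _ _ _ (fun i => wD_mon hO hv hk hl i) (fun i c => wD_rho hO hv hk hl i c) (fun u hu _ => h0 u hu)
    intro a b hab hneg
    by_cases h : a = b
    · left; rw [h]; exact XO_self_bot hO hv h0 b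
    · right; exact raise_D hk hl a b h hab hneg

include hO hv h0 hk hl in
/-- the prime-to-`p` part -/
theorem crossD [Fintype F] {p r : ℕ} [hp : Fact p.Prime] [CharP F p] [hr : Fact r.Prime] (hrp : r ≠ p) :
    SchurSylow.PStemDvd r (Om Q) (Nat.gcd 2 (Fintype.card F - 1)) := by
  classical
  have R := rdD hO hv h0 hk hl (p := p)
  intro Γ _ _ σ hσ hσk
  have hL : ∀ i, SchurSylow.PStemDvd r (XO hO hv (alD k i) (beD l i) ⊔ XO hO hv (ng (alD k i)) (ng (beD l i)) : Subgroup (Om Q)) 1 := fun i =>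
    (MulPSp.sl2_cross hrp).congr (PhO_equiv hO hv (D_ne hk hl i).1 (D_ne hk hl i).2)
  have hb := R.card_ker_le2 hr.out hrp hσ hσk none one_ne_zero (fun i _ => hL i) (hL none)
  rw [one_mul] at hb
  -- the kernel
  set D : Option {i : Fin m // i.1 + 1 < m} → Subgroup (Om Q) := fun i => ((XO hO hv (alD k i) (beD l i) ⊔ XO hO hv (ng (alD k i)) (ng (beD l i))) ⊓ R.Dk : Subgroup (Om Q)) with hDdef
  have hDm : ∀ i, ∀ g ∈ D i, g ∈ LO hO hv (alD k i) (beD l i) ∧ Mon v g ∧ ∀ a, rhO v g a = a := fun i g hg => ⟨hg.1, hg.2.1, hg.2.2⟩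
  have hk' : k.1 + 1 < m := by omega
  have hnk : nxt ⟨k, hk'⟩ = l := Fin.ext (by show k.1 + 1 = l.1; omega)
  have hker : ∀ d : ∀ i, D i, Subgroup.noncommPiCoprod R.dcomm' d = 1 → (∀ j : {i : Fin m // i.1 + 1 < m}, j.1.1 < k.1 → (d (some j) : Om Q) = 1) ∧
      cf v (d none : Om Q) (Sum.inl k) * cf v (d none : Om Q) (Sum.inl k) = 1 ∧ cf v (d (some ⟨k, hk'⟩) : Om Q) (Sum.inl k) = cf v (d none : Om Q) (Sum.inl k) := by
    intro d hd
    have hprod : ∀ a, ∏ i, cf v (d i : Om Q) a = 1 := by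
      intro a
      have h1 := ncp_act hv R.dcomm' (fun i g hg => (hDm i g hg).2) a d
      rw [hd] at h1
      have h2 := smul_v_inj hv (a := a) (b := a) (c := 1) one_ne_zero ((one_smul F (v a)).trans h1)
      exact h2.2.symm
    have hc := fun i => long_cf hO hv (D_ne hk hl i).1 (D_ne hk hl i).2 (hDm i _ (d i).2).1 (hDm i _ (d i).2).2.1 (hDm i _ (d i).2).2.2
    -- factors from far away
    have hfar : ∀ (j : Fin m) (i : {i : Fin m // i.1 + 1 < m}), j ≠ i.1 → j.1 ≠ i.1.1 + 1 → cf v (d (some i) : Om Q) (Sum.inl j) = 1 := by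
      intro j i h1 h2
      obtain ⟨t, -, -, -, -, -, h3, -⟩ := hc (some i)
      apply h3
      · intro h; exact h1 (Sum.inl.inj h)
      · exact Sum.inl_ne_inr
      · exact Sum.inl_ne_inr
      · intro h
        have h' : (Sum.inl j : Zs m) = Sum.inl (nxt i) := h
        exact h2 (congrArg Fin.val (Sum.inl.inj h'))
    have hfar0 : ∀ j : Fin m, j.1 < k.1 → cf v (d none : Om Q) (Sum.inl j) = 1 := by
      intro j hj
      obtain ⟨t, -, -, -, -, -, h3, -⟩ := hc none
      apply h3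
      · intro h; have := congrArg Fin.val (Sum.inl.inj h : j = k); omega
      · exact Sum.inl_ne_inr
      · intro h; have := congrArg Fin.val (Sum.inl.inj h : j = l); omega
      · exact Sum.inl_ne_inr
    have hsmall : ∀ (N : ℕ) (j : {i : Fin m // i.1 + 1 < m}), j.1.1 = N → j.1.1 < k.1 → (d (some j) : Om Q) = 1 := by
      intro N
      induction N using Nat.strong_induction_on with
      | _ N ih =>
        intro j hjN hjk
        have h1 := hprod (Sum.inl j.1)
        rw [Finset.prod_eq_single (some j)] at h1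
        · obtain ⟨t, -, h2, -, -, -, -, h3⟩ := hc (some j)
          exact h3 (h2.symm.trans h1)
        · rintro (_ | i) _ hi
          · exact hfar0 j.1 hjk
          · have hne : i.1.1 ≠ j.1.1 := fun h => hi (by rw [Subtype.ext (Fin.ext h) (a1 := i) (a2 := j)])
            by_cases hlt : i.1.1 < j.1.1
            · rw [ih i.1.1 (by omega) i rfl (by omega)]; exact cf_one hv _
            · exact hfar _ _ (fun h => hne (by rw [h])) (by omega)
        · intro h; exact absurd (Finset.mem_univ _) h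
    have hsmall' : ∀ j : {i : Fin m // i.1 + 1 < m}, j.1.1 < k.1 → (d (some j) : Om Q) = 1 := fun j hj => hsmall _ j rfl hj
    have hlt : ∀ i : {i : Fin m // i.1 + 1 < m}, i ≠ ⟨k, hk'⟩ → i.1.1 < k.1 := by
      intro i hi
      have h1 : i.1.1 ≠ k.1 := fun h => hi (Subtype.ext (Fin.ext h))
      have := i.2
      omega
    obtain ⟨t, ht0, t1, t2, -, -, -, -⟩ := hc none
    obtain ⟨s, hs0, s1, -, s3, -, -, -⟩ := hc (some ⟨k, hk'⟩)
    change cf v (d none : Om Q) (Sum.inl k) = t at t1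
    change cf v (d none : Om Q) (Sum.inl l) = t at t2
    change cf v (d (some ⟨k, hk'⟩) : Om Q) (Sum.inl k) = s at s1
    change cf v (d (some ⟨k, hk'⟩) : Om Q) (Sum.inl (nxt ⟨k, hk'⟩)) = s⁻¹ at s3
    rw [hnk] at s3
    have hpk := hprod (Sum.inl k)
    have hpl := hprod (Sum.inl l)
    rw [Finset.prod_eq_mul (some ⟨k, hk'⟩) none (by simp)] at hpk hpl
    · rw [s1, t1] at hpk
      rw [s3, t2] at hpl
      have h1 : t = s := (inv_mul_eq_one₀ hs0).1 hpl |>.symm
      rw [s1, t1, h1]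
      exact ⟨hsmall', by rw [← h1, h1, ← hpk, h1], rfl⟩
    · rintro (_ | i) _ ⟨h1, h2⟩
      · exact absurd rfl h2
      · rw [hsmall' i (hlt i (fun h => h1 (by rw [h])))]; exact cf_one hv _
    · intro h; exact absurd (Finset.mem_univ _) h
    · intro h; exact absurd (Finset.mem_univ _) h
    · rintro (_ | i) _ ⟨h1, h2⟩
      · exact absurd rfl h2
      · rw [hsmall' i (hlt i (fun h => h1 (by rw [h])))]; exact cf_one hv _
    · intro h; exact absurd (Finset.mem_univ _) h
    · intro h; exact absurd (Finset.mem_univ _) h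
  have hc2 : Nat.card (Subgroup.noncommPiCoprod R.dcomm').ker ≤ Nat.card {x : F // x * x = 1} := by
    refine Nat.card_le_card_of_injective (fun d => ⟨cf v (d.1 none : Om Q) (Sum.inl k), (hker d.1 d.2).2.1⟩) ?_
    intro d e hde
    have h1 : cf v (d.1 none : Om Q) (Sum.inl k) = cf v (e.1 none : Om Q) (Sum.inl k) := congrArg Subtype.val hde
    obtain ⟨d1, d2, d3⟩ := hker d.1 d.2
    obtain ⟨e1, e2, e3⟩ := hker e.1 e.2
    apply Subtype.ext
    funext i
    apply Subtype.ext
    rcases i with _ | i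
    · exact cf_inj_long hO hv (D_ne hk hl none).1 (D_ne hk hl none).2 (hDm _ _ (d.1 none).2).1 (hDm _ _ (d.1 none).2).2.1 (hDm _ _ (d.1 none).2).2.2
        (hDm _ _ (e.1 none).2).1 (hDm _ _ (e.1 none).2).2.1 (hDm _ _ (e.1 none).2).2.2 h1
    · by_cases hi : i = ⟨k, hk'⟩
      · subst hi
        exact cf_inj_long hO hv (D_ne hk hl _).1 (D_ne hk hl _).2 (hDm _ _ (d.1 _).2).1 (hDm _ _ (d.1 _).2).2.1 (hDm _ _ (d.1 _).2).2.2
          (hDm _ _ (e.1 _).2).1 (hDm _ _ (e.1 _).2).2.1 (hDm _ _ (e.1 _).2).2.2 (d3.trans (h1.trans e3.symm))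
      · have h1 : i.1.1 ≠ k.1 := fun h => hi (Subtype.ext (Fin.ext h))
        have := i.2
        rw [d1 i (by omega), e1 i (by omega)]
  have hc3 : Nat.card {x : F // x * x = 1} ≤ Nat.gcd 2 (Fintype.card F - 1) := by
    by_cases h2 : (2 : F) = 0
    · have hs : Nat.card {x : F // x * x = 1} ≤ 1 := by
        haveI : Subsingleton {x : F // x * x = 1} := by
          refine ⟨fun x y => ?_⟩
          have key : ∀ z : F, z * z = 1 → z = 1 := by
            intro z hz
            have : (z - 1) * (z - 1) = 0 := by linear_combination hz - (z - 1) * h2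
            exact sub_eq_zero.1 (mul_self_eq_zero.1 this)
          exact Subtype.ext ((key _ x.2).trans (key _ y.2).symm)
        exact Finite.card_le_one_iff_subsingleton.2 this
      exact hs.trans (Nat.gcd_pos_of_pos_left _ (by norm_num))
    · have hq : Fintype.card F % 2 = 1 := FiniteField.odd_card_of_char_ne_two (by
        intro hch
        haveI := ringChar.of_eq hch
        exact h2 (CharP.cast_eq_zero F 2))
      have hg : Nat.gcd 2 (Fintype.card F - 1) = 2 := by
        apply Nat.gcd_eq_left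
        omega
      rw [hg]
      have hinj : Function.Injective (fun x : {x : F // x * x = 1} => decide (x.1 = 1)) := by
        intro x y hxy
        have hx : x.1 = 1 ∨ x.1 = -1 := mul_self_eq_one_iff.1 x.2
        have hy : y.1 = 1 ∨ y.1 = -1 := mul_self_eq_one_iff.1 y.2
        simp only [decide_eq_decide] at hxy
        apply Subtype.ext
        by_cases hx1 : x.1 = 1
        · rw [hx1, hxy.1 hx1]
        · have hy1 : y.1 ≠ 1 := fun h => hx1 (hxy.2 h)
          rw [hx.resolve_left hx1, hy.resolve_left hy1]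
      have := Nat.card_le_card_of_injective _ hinj
      rwa [Nat.card_eq_fintype_card (α := Bool), Fintype.card_bool] at this
  have hle := hb.trans (hc2.trans hc3)
  have hpos : 0 < Nat.card σ.ker := Nat.card_pos
  rcases (Nat.dvd_prime Nat.prime_two).1 (Nat.gcd_dvd_left 2 (Fintype.card F - 1)) with h | h
  · rw [h] at hle ⊢
    rw [show Nat.card σ.ker = 1 by omega]
  · rw [h] at hle ⊢
    have : Nat.card σ.ker = 1 ∨ Nat.card σ.ker = 2 := by omega
    rcases this with h | h <;> rw [h]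
    exact one_dvd _

end D

end Cfsg.Agent.Lib.MulOrth
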