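import Cfsg.Agent.Lib.MulOrthRE

/-! Short rank one groups of the groups `Ω(V)` (helper35). -/

set_option autoImplicit false

namespace Cfsg.Agent.Lib.MulOrth

open Matrix Cfsg.Agent.Lib.Quad Cfsg.Agent.Lib.ClOrthSiegel Cfsg.Agent.Lib.UCEBase QuadraticMap Module
open Cfsg.Agent.Lib.PresBC (Zs ng ng_ng ng_ne ng_inj lam lam_ng lam_ne lam_inj lam_eq eq_ng Rt Pos G PosE)
open Cfsg.Agent.Lib.RootLift (rf rf_left rf_right rf_ngleft rf_ngright rf_other RD PE)
open Cfsg.Agent.Lib.PresSpMod (S2 Dg Ag)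
open Cfsg.Agent.Lib.PresSpCore (up lo)

section short
variable {F V K : Type*} [Field F] [AddCommGroup V] [Module F V] [FiniteDimensional F V] [Field K] [Algebra F K] {Q : QuadraticForm F V}
  {hQ : Nd Q} (hO : OH hQ) {m : ℕ} {v : Zs m → V} (hv : SF Q v)

/-- models of the anisotropic kernel -/
structure KD (Q : QuadraticForm F V) (v : Zs m → V) (st : K → K) (θ : V →ₗ[F] K) (κ : F) : Prop where
  sa : ∀ x y, st (x + y) = st x + st y
  sm : ∀ x y, st (x * y) = st x * st y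
  ss : ∀ x, st (st x) = x
  sF : ∀ t : F, st (algebraMap F K t) = algebraMap F K t
  θv : ∀ a, θ (v a) = 0
  κ0 : κ ≠ 0
  hq : ∀ u ∈ V0 Q v, algebraMap F K (Q u) = algebraMap F K κ * (θ u * st (θ u))
  inj : ∀ u ∈ V0 Q v, θ u = 0 → u = 0
  surj : ∀ z : K, ∃ u ∈ V0 Q v, θ u = z

variable {st : K → K} {θ : V →ₗ[F] K} {κ : F} (hk : KD Q v st θ κ)

omit [FiniteDimensional F V] in
include hk in
theorem KD.s0 : st 0 = 0 := by have := hk.sF 0; rwa [map_zero] at this
omit [FiniteDimensional F V] in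
include hk in
theorem KD.s1 : st 1 = 1 := by have := hk.sF 1; rwa [map_one] at this
omit [FiniteDimensional F V] in
include hk in
theorem KD.sn (x : K) : st (-x) = -st x := by
  have := hk.sm (-1) x
  have h1 : st (-1) = -1 := by have := hk.sF (-1); rwa [map_neg, map_one] at this
  rwa [neg_one_mul, h1, neg_one_mul] at this
omit [FiniteDimensional F V] in
include hk in
theorem KD.an {u : V} (hu : u ∈ V0 Q v) (h : Q u = 0) : u = 0 := by
  apply hk.inj u hu
  have h1 := hk.hq u hu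
  rw [h, map_zero] at h1
  have hκ : algebraMap F K κ ≠ 0 := by rw [Ne, map_eq_zero]; exact hk.κ0
  rcases mul_eq_zero.1 ((mul_eq_zero.1 h1.symm).resolve_left hκ) with h2 | h2
  · exact h2
  · have := congrArg st h2
    rwa [hk.ss, hk.s0] at this

omit [FiniteDimensional F V] in
include hv hk in
theorem V0_part (x : V) : ∃ u ∈ V0 Q v, θ u = θ x ∧ (∀ w ∈ V0 Q v, polar Q w x = polar Q w u) ∧ x = u + ∑ a, polar Q (v (ng a)) x • v a := by
  refine ⟨_, dec hv x, ?_, ?_, by abel⟩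
  · rw [map_sub, map_sum, Finset.sum_eq_zero, sub_zero]
    intro a _
    rw [map_smul, hk.θv, smul_zero]
  · intro w hw
    rw [polar_sub_right]
    have h1 : polar Q w (∑ a, polar Q (v (ng a)) x • v a) = ∑ a, polar Q (v (ng a)) x * polar Q w (v a) := by
      have := map_sum (polarBilin Q w) (fun a => polar Q (v (ng a)) x • v a) Finset.univ
      simpa using this
    rw [h1, Finset.sum_eq_zero, sub_zero]
    intro a _
    rw [polar_comm Q w, hw a, mul_zero]

omit [FiniteDimensional F V] in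
include hv hk in
theorem KD.polar {w : V} (hw : w ∈ V0 Q v) (x : V) : algebraMap F K (polar Q w x) = algebraMap F K κ * (θ w * st (θ x) + θ x * st (θ w)) := by
  obtain ⟨u, hu, h1, h2, -⟩ := V0_part hv hk x
  rw [h2 w hw, ← h1]
  have h3 := hk.hq _ (add_mem hw hu)
  rw [Q_add, map_add, map_add, hk.hq w hw, hk.hq u hu, map_add, hk.sa] at h3
  linear_combination h3

/-- Hermitian matrices -/
def Mx (Q : QuadraticForm F V) (v : Zs m → V) (st : K → K) (θ : V →ₗ[F] K) (κ : F) (a : Zs m) (x : V) : Matrix (Fin 2) (Fin 2) K :=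
  !![algebraMap F K (QuadraticMap.polar Q (v (ng a)) x), θ x; st (θ x), -algebraMap F K (κ⁻¹ * QuadraticMap.polar Q (v a) x)]

def Ast (st : K → K) (A : Matrix (Fin 2) (Fin 2) K) : Matrix (Fin 2) (Fin 2) K := !![st (A 0 0), st (A 1 0); st (A 0 1), st (A 1 1)]

omit [FiniteDimensional F V] in
include hk in
theorem Ast_mul (A B : Matrix (Fin 2) (Fin 2) K) : Ast st (A * B) = Ast st B * Ast st A := by
  ext i j; fin_cases i <;> fin_cases j <;> simp [Ast, Matrix.mul_apply, Fin.sum_univ_two, hk.sa, hk.sm, mul_comm]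

omit [FiniteDimensional F V] in
include hk in
theorem Ast_one : Ast st (1 : Matrix (Fin 2) (Fin 2) K) = 1 := by
  ext i j; fin_cases i <;> fin_cases j <;> simp [Ast, hk.s0, hk.s1]

/-- `g` acts as `A` on the short rank one space -/
structure As (Q : QuadraticForm F V) (v : Zs m → V) (st : K → K) (θ : V →ₗ[F] K) (κ : F) (a : Zs m) (A : S2 K) (g : Om Q) : Prop where
  e1 : ∀ b, b ≠ a → b ≠ ng a → (g : V ≃ₗ[F] V) (v b) = v b
  e2 : ∀ x, Mx Q v st θ κ a ((g : V ≃ₗ[F] V) x) = A.1 * Mx Q v st θ κ a x * Ast st A.1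

variable {a : Zs m}

omit [FiniteDimensional F V] in
include hk in
theorem As.one : As Q v st θ κ a 1 1 := by
  refine ⟨fun _ _ _ => rfl, fun x => ?_⟩
  show Mx Q v st θ κ a x = 1 * Mx Q v st θ κ a x * Ast st 1
  rw [Ast_one hk, one_mul, mul_one]

include hk in
theorem As.mul {A B : S2 K} {g h : Om Q} (hg : As Q v st θ κ a A g) (hh : As Q v st θ κ a B h) : As Q v st θ κ a (A * B) (g * h) := by
  refine ⟨fun b h1 h2 => ?_, fun x => ?_⟩
  · rw [Om_mul, hh.e1 b h1 h2, hg.e1 b h1 h2]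
  · rw [Om_mul, hg.e2, hh.e2]
    show _ = (A.1 * B.1) * Mx Q v st θ κ a x * Ast st (A.1 * B.1)
    rw [Ast_mul hk]
    simp only [mul_assoc]

include hk in
theorem As.inv {A : S2 K} {g : Om Q} (hg : As Q v st θ κ a A g) : As Q v st θ κ a A⁻¹ g⁻¹ := by
  refine ⟨fun b h1 h2 => Om_inv_of (hg.e1 b h1 h2), fun x => ?_⟩
  have h1 := hg.e2 (((g⁻¹ : Om Q) : V ≃ₗ[F] V) x)
  rw [Om_inv'] at h1
  have hA : (A⁻¹).1 * A.1 = 1 := congrArg Subtype.val (inv_mul_cancel A)
  rw [h1]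
  have e : (A⁻¹).1 * (A.1 * Mx Q v st θ κ a (((g⁻¹ : Om Q) : V ≃ₗ[F] V) x) * Ast st A.1) * Ast st (A⁻¹).1 =
      ((A⁻¹).1 * A.1) * Mx Q v st θ κ a (((g⁻¹ : Om Q) : V ≃ₗ[F] V) x) * (Ast st A.1 * Ast st (A⁻¹).1) := by simp only [mul_assoc]
  rw [e, hA, ← Ast_mul hk, hA, Ast_one hk, one_mul, mul_one]

omit [FiniteDimensional F V] in
include hk hv in
theorem Mx_inj {x y : V} (h1 : Mx Q v st θ κ a x = Mx Q v st θ κ a y) (h2 : ∀ b, b ≠ a → b ≠ ng a → QuadraticMap.polar Q (v b) x = QuadraticMap.polar Q (v b) y) : x = y := by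
  have e1 : QuadraticMap.polar Q (v (ng a)) x = QuadraticMap.polar Q (v (ng a)) y := (algebraMap F K).injective (congrFun (congrFun h1 0) 0)
  have e2 : θ x = θ y := congrFun (congrFun h1 0) 1
  have e3 : QuadraticMap.polar Q (v a) x = QuadraticMap.polar Q (v a) y := by
    have h3 : -algebraMap F K (κ⁻¹ * QuadraticMap.polar Q (v a) x) = -algebraMap F K (κ⁻¹ * QuadraticMap.polar Q (v a) y) := congrFun (congrFun h1 1) 1
    exact mul_left_cancel₀ (inv_ne_zero hk.κ0) ((algebraMap F K).injective (neg_injective h3))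
  have hV : x - y ∈ V0 Q v := by
    intro b
    rw [polar_sub_right, sub_eq_zero]
    by_cases h3 : b = a
    · rw [h3, e3]
    by_cases h4 : b = ng a
    · rw [h4, e1]
    exact h2 b h3 h4
  rw [← sub_eq_zero]
  apply hk.inj _ hV
  rw [map_sub, e2, sub_self]

include hk hv in
theorem As.uniq {A : S2 K} {g h : Om Q} (hg : As Q v st θ κ a A g) (hh : As Q v st θ κ a A h) : g = h := by
  apply Om_ext
  intro x
  apply Mx_inj hv hk (a := a)
  · rw [hg.e2, hh.e2]
  · intro b h1 h2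
    have e1 := OmP g (v b) x
    have e2 := OmP h (v b) x
    rw [hg.e1 b h1 h2] at e1
    rw [hh.e1 b h1 h2] at e2
    rw [e1, e2]

include hk hv in
theorem As_up {w : V} (hw : w ∈ V0 Q v) : As Q v st θ κ a (up (-(algebraMap F K κ * θ w))) (Eo hO (v a) w) := by
  have hκ : algebraMap F K κ ≠ 0 := by rw [Ne, map_eq_zero]; exact hk.κ0
  refine ⟨fun b h1 h2 => Eo_fix hO (hv.q0 a) (hw a) (hv.p0 h2) (by rw [polar_comm]; exact hw b), fun x => ?_⟩
  have p1 : QuadraticMap.polar Q (v (ng a)) ((Eo hO (v a) w : V ≃ₗ[F] V) x) = QuadraticMap.polar Q (v (ng a)) x - QuadraticMap.polar Q w x - Q w * QuadraticMap.polar Q (v a) x := by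
    rw [Eo_apply hO (hv.q0 a) (hw a), polar_sub_right, polar_sub_right, polar_add_right, polar_smul_right, polar_smul_right, polar_smul_right, hw (ng a), hv.pn']
    simp
  have p2 : QuadraticMap.polar Q (v a) ((Eo hO (v a) w : V ≃ₗ[F] V) x) = QuadraticMap.polar Q (v a) x := by
    rw [Eo_apply hO (hv.q0 a) (hw a), polar_sub_right, polar_sub_right, polar_add_right, polar_smul_right, polar_smul_right, polar_smul_right, hw a, hv.self]
    simp
  have p3 : θ ((Eo hO (v a) w : V ≃ₗ[F] V) x) = θ x + algebraMap F K (QuadraticMap.polar Q (v a) x) * θ w := by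
    rw [Eo_apply hO (hv.q0 a) (hw a), map_sub, map_sub, map_add, map_smul, map_smul, map_smul, hk.θv, Algebra.smul_def]
    simp
  have p4 : st (θ x + algebraMap F K (QuadraticMap.polar Q (v a) x) * θ w) = st (θ x) + algebraMap F K (QuadraticMap.polar Q (v a) x) * st (θ w) := by
    rw [hk.sa, hk.sm, hk.sF]
  have p5 := hk.polar hv hw x
  have p6 := hk.hq w hw
  have p7 : st (-(algebraMap F K κ * θ w)) = -(algebraMap F K κ * st (θ w)) := by rw [hk.sn, hk.sm, hk.sF]
  have p8 : algebraMap F K (κ⁻¹ * QuadraticMap.polar Q (v a) x) = (algebraMap F K κ)⁻¹ * algebraMap F K (QuadraticMap.polar Q (v a) x) := by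
    rw [map_mul, map_inv₀]
  show !![algebraMap F K (QuadraticMap.polar Q (v (ng a)) ((Eo hO (v a) w : V ≃ₗ[F] V) x)), θ ((Eo hO (v a) w : V ≃ₗ[F] V) x); st (θ ((Eo hO (v a) w : V ≃ₗ[F] V) x)), -algebraMap F K (κ⁻¹ * QuadraticMap.polar Q (v a) ((Eo hO (v a) w : V ≃ₗ[F] V) x))] =
    !![1, -(algebraMap F K κ * θ w); 0, 1] * !![algebraMap F K (QuadraticMap.polar Q (v (ng a)) x), θ x; st (θ x), -algebraMap F K (κ⁻¹ * QuadraticMap.polar Q (v a) x)] *
    !![st 1, st 0; st (-(algebraMap F K κ * θ w)), st 1]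
  rw [p1, p2, p3, p4, p7, p8, hk.s0, hk.s1, map_sub, map_sub, map_mul, p5, p6]
  ext i j
  fin_cases i <;> fin_cases j <;> simp [Matrix.mul_apply, Fin.sum_univ_two] <;> field_simp <;> ring

include hk hv in
theorem As_lo {w : V} (hw : w ∈ V0 Q v) : As Q v st θ κ a (lo (st (θ w))) (Eo hO (v (ng a)) w) := by
  have hκ : algebraMap F K κ ≠ 0 := by rw [Ne, map_eq_zero]; exact hk.κ0
  refine ⟨fun b h1 h2 => Eo_fix hO (hv.q0 _) (hw _) (hv.p0 (by rw [ng_ng]; exact h1)) (by rw [polar_comm]; exact hw b), fun x => ?_⟩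
  have p1 : QuadraticMap.polar Q (v a) ((Eo hO (v (ng a)) w : V ≃ₗ[F] V) x) = QuadraticMap.polar Q (v a) x - QuadraticMap.polar Q w x - Q w * QuadraticMap.polar Q (v (ng a)) x := by
    rw [Eo_apply hO (hv.q0 _) (hw _), polar_sub_right, polar_sub_right, polar_add_right, polar_smul_right, polar_smul_right, polar_smul_right, hw a, hv.pn]
    simp
  have p2 : QuadraticMap.polar Q (v (ng a)) ((Eo hO (v (ng a)) w : V ≃ₗ[F] V) x) = QuadraticMap.polar Q (v (ng a)) x := by
    rw [Eo_apply hO (hv.q0 _) (hw _), polar_sub_right, polar_sub_right, polar_add_right, polar_smul_right, polar_smul_right, polar_smul_right, hw (ng a), hv.self]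
    simp
  have p3 : θ ((Eo hO (v (ng a)) w : V ≃ₗ[F] V) x) = θ x + algebraMap F K (QuadraticMap.polar Q (v (ng a)) x) * θ w := by
    rw [Eo_apply hO (hv.q0 _) (hw _), map_sub, map_sub, map_add, map_smul, map_smul, map_smul, hk.θv, Algebra.smul_def]
    simp
  have p4 : st (θ x + algebraMap F K (QuadraticMap.polar Q (v (ng a)) x) * θ w) = st (θ x) + algebraMap F K (QuadraticMap.polar Q (v (ng a)) x) * st (θ w) := by
    rw [hk.sa, hk.sm, hk.sF]
  have p5 := hk.polar hv hw x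
  have p6 := hk.hq w hw
  have p8 : algebraMap F K (κ⁻¹ * QuadraticMap.polar Q (v a) x) = (algebraMap F K κ)⁻¹ * algebraMap F K (QuadraticMap.polar Q (v a) x) := by
    rw [map_mul, map_inv₀]
  have p9 : algebraMap F K (κ⁻¹ * (QuadraticMap.polar Q (v a) x - QuadraticMap.polar Q w x - Q w * QuadraticMap.polar Q (v (ng a)) x)) =
      (algebraMap F K κ)⁻¹ * (algebraMap F K (QuadraticMap.polar Q (v a) x) - algebraMap F K (QuadraticMap.polar Q w x) - algebraMap F K (Q w) * algebraMap F K (QuadraticMap.polar Q (v (ng a)) x)) := by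
    rw [map_mul, map_inv₀, map_sub, map_sub, map_mul]
  show !![algebraMap F K (QuadraticMap.polar Q (v (ng a)) ((Eo hO (v (ng a)) w : V ≃ₗ[F] V) x)), θ ((Eo hO (v (ng a)) w : V ≃ₗ[F] V) x); st (θ ((Eo hO (v (ng a)) w : V ≃ₗ[F] V) x)), -algebraMap F K (κ⁻¹ * QuadraticMap.polar Q (v a) ((Eo hO (v (ng a)) w : V ≃ₗ[F] V) x))] =
    !![1, 0; st (θ w), 1] * !![algebraMap F K (QuadraticMap.polar Q (v (ng a)) x), θ x; st (θ x), -algebraMap F K (κ⁻¹ * QuadraticMap.polar Q (v a) x)] *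
    !![st 1, st (st (θ w)); st 0, st 1]
  rw [p1, p2, p3, p4, p9, p8, hk.s0, hk.s1, hk.ss, p5, p6]
  ext i j
  fin_cases i <;> fin_cases j <;> simp [Matrix.mul_apply, Fin.sum_univ_two] <;> field_simp <;> ring

include hk in
theorem exists_As (A : S2 K) : ∃ g ∈ LO hO hv a a, As Q v st θ κ a A g := by
  have hκ : algebraMap F K κ ≠ 0 := by rw [Ne, map_eq_zero]; exact hk.κ0
  let S : Subgroup (S2 K) :=
    { carrier := {A | ∃ g ∈ LO hO hv a a, As Q v st θ κ a A g}
      one_mem' := ⟨1, one_mem _, As.one hk⟩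
      mul_mem' := by
        rintro A B ⟨g, hg, hA⟩ ⟨h, hh, hB⟩
        exact ⟨g * h, mul_mem hg hh, hA.mul hk hB⟩
      inv_mem' := by
        rintro A ⟨g, hg, hA⟩
        exact ⟨g⁻¹, inv_mem hg, hA.inv hk⟩ }
  refine PresSpCore.sl2_gen S (fun t => ?_) (fun t => ?_) A
  · obtain ⟨w, hw, hwt⟩ := hk.surj (-((algebraMap F K κ)⁻¹ * t))
    refine ⟨Eo hO (v a) w, (le_sup_left : _ ≤ LO hO hv a a) ((mem_XO_self hO hv).2 ⟨w, hw, rfl⟩), ?_⟩
    have := As_up hO hv hk (a := a) hw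
    rwa [hwt, mul_neg, neg_neg, mul_inv_cancel_left₀ hκ] at this
  · obtain ⟨w, hw, hwt⟩ := hk.surj (st t)
    refine ⟨Eo hO (v (ng a)) w, (le_sup_right : _ ≤ LO hO hv a a) ((mem_XO_self hO hv).2 ⟨w, hw, rfl⟩), ?_⟩
    have := As_lo hO hv hk (a := a) hw
    rwa [hwt, hk.ss] at this

/-- the homomorphism from `SL₂(K)` -/
noncomputable def PsO (a : Zs m) : S2 K →* Om Q where
  toFun A := (exists_As hO hv hk (a := a) A).choose
  map_one' := (exists_As hO hv hk (a := a) 1).choose_spec.2.uniq hv hk (As.one hk)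
  map_mul' A B := (exists_As hO hv hk (a := a) (A * B)).choose_spec.2.uniq hv hk
    ((exists_As hO hv hk (a := a) A).choose_spec.2.mul hk (exists_As hO hv hk (a := a) B).choose_spec.2)

theorem PsO_As (A : S2 K) : As Q v st θ κ a A (PsO hO hv hk a A) := (exists_As hO hv hk A).choose_spec.2
theorem PsO_mem (A : S2 K) : PsO hO hv hk a A ∈ LO hO hv a a := (exists_As hO hv hk A).choose_spec.1

theorem PsO_range : (PsO hO hv hk a).range = LO hO hv a a := by
  apply le_antisymm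
  · rintro _ ⟨A, rfl⟩; exact PsO_mem hO hv hk A
  · refine sup_le (fun g hg => ?_) (fun g hg => ?_)
    · obtain ⟨w, hw, rfl⟩ := (mem_XO_self hO hv).1 hg
      exact ⟨_, (PsO_As hO hv hk _).uniq hv hk (As_up hO hv hk hw)⟩
    · obtain ⟨w, hw, rfl⟩ := (mem_XO_self hO hv).1 hg
      exact ⟨_, (PsO_As hO hv hk _).uniq hv hk (As_lo hO hv hk hw)⟩

theorem PsO_ker {A : S2 K} (h : PsO hO hv hk a A = 1) : A.1 0 1 = 0 ∧ A.1 1 0 = 0 ∧ A.1 0 0 = A.1 1 1 ∧ (A.1 1 1 = 1 ∨ A.1 1 1 = -1) := by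
  have hκ : algebraMap F K κ ≠ 0 := by rw [Ne, map_eq_zero]; exact hk.κ0
  have hA := PsO_As hO hv hk (a := a) A
  rw [h] at hA
  have hdet : A.1 0 0 * A.1 1 1 - A.1 0 1 * A.1 1 0 = 1 := by rw [← Matrix.det_fin_two]; exact A.2
  have st0 : ∀ x, st x = 0 → x = 0 := fun x hx => by rw [← hk.ss x, hx, hk.s0]
  have q1 := hA.e2 (v a)
  have q2 := hA.e2 (v (ng a))
  change Mx Q v st θ κ a (v a) = _ at q1
  change Mx Q v st θ κ a (v (ng a)) = _ at q2
  have M1 : Mx Q v st θ κ a (v a) = !![1, 0; 0, 0] := by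
    rw [Mx, hv.pn', hk.θv, hv.self, hk.s0]; simp
  have M2 : Mx Q v st θ κ a (v (ng a)) = !![0, 0; 0, -(algebraMap F K κ)⁻¹] := by
    rw [Mx, hv.self, hk.θv, hv.pn, hk.s0]; simp
  rw [M1] at q1
  rw [M2] at q2
  have e10 : A.1 1 0 = 0 := by
    have := congrFun (congrFun q1 1) 1
    simp [Ast, Matrix.mul_apply, Fin.sum_univ_two] at this
    rcases this with h1 | h1
    · exact h1
    · exact st0 _ h1
  have e01 : A.1 0 1 = 0 := by
    have := congrFun (congrFun q2 0) 0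
    simp [Ast, Matrix.mul_apply, Fin.sum_univ_two] at this
    rcases this with (h1 | h1) | h1
    · exact h1
    · exact absurd (by rw [h1, map_zero]) hκ
    · exact st0 _ h1
  have e11 : A.1 1 1 * st (A.1 1 1) = 1 := by
    have := congrFun (congrFun q2 1) 1
    simp [Ast, Matrix.mul_apply, Fin.sum_univ_two] at this
    field_simp at this
    exact this.symm
  rw [e10, mul_zero, sub_zero] at hdet
  obtain ⟨u, hu, hu1⟩ := hk.surj 1
  have q3 := hA.e2 u
  change Mx Q v st θ κ a u = _ at q3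
  have M3 : Mx Q v st θ κ a u = !![0, 1; 1, 0] := by
    rw [Mx, hu1, hk.s1, hu a, hu (ng a)]; simp
  rw [M3] at q3
  have e3 : A.1 0 0 * st (A.1 1 1) = 1 := by
    have := congrFun (congrFun q3 0) 1
    simp [Ast, Matrix.mul_apply, Fin.sum_univ_two, e01, hk.s0] at this
    exact this.symm
  have h11 : A.1 1 1 ≠ 0 := by intro h0; rw [h0, mul_zero] at hdet; exact zero_ne_one hdet
  have hst : st (A.1 1 1) ≠ 0 := fun h0 => h11 (st0 _ h0)
  have e4 : A.1 0 0 = A.1 1 1 := mul_right_cancel₀ hst (e3.trans e11.symm)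
  refine ⟨e01, e10, e4, ?_⟩
  rw [e4] at hdet
  exact mul_self_eq_one_iff.1 hdet

end short

end Cfsg.Agent.Lib.MulOrth
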