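import Cfsg.Agent.Lib.MulSpinC
import Cfsg.Agent.Lib.ClOrthSimple

/-! The centre of the spin group and the multiplier of `PΩ(V)` (helper35). -/

set_option autoImplicit false

namespace Cfsg.Agent.Lib.MulSpin

open Cfsg.Agent.Lib.Quad Cfsg.Agent.Lib.ClOrthSiegel Cfsg.Agent.Lib.MulOrth QuadraticMap Module
open Cfsg.Agent.Lib.SchurSylow

universe u

section om
variable {F V : Type u} [Field F] [AddCommGroup V] [Module F V] {Q : QuadraticForm F V}
  {R : Type u} [Ring R] [Algebra F R] {c : V →ₗ[F] R} {τ : R → R} (h : CM Q c τ)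

/-- products of vectors and reversed products -/
def PP (c : V →ₗ[F] R) : List V → R
  | [] => 1
  | v :: l => c v * PP c l
def PR (c : V →ₗ[F] R) : List V → R
  | [] => 1
  | v :: l => PR c l * c v
/-- signs -/
def ep (F : Type u) [Field F] : ℕ → F
  | 0 => 1
  | k + 1 => ep F k * (-1) ^ k

theorem ep_two (n : ℕ) : ep F (2 * n) = (-1) ^ n := by
  induction n with
  | zero => simp [ep]
  | succ n ih =>
    show ep F (2 * n) * (-1) ^ (2 * n) * (-1) ^ (2 * n + 1) = _
    rw [ih, pow_mul, neg_one_sq, one_pow, mul_one, pow_succ, pow_mul, neg_one_sq, one_pow, one_mul, pow_succ]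

include h

theorem anti {x y : V} (hxy : polar Q x y = 0) : c x * c y = -(c y * c x) := by
  have := h.rel x y; rw [hxy, map_zero] at this; exact eq_neg_of_add_eq_zero_left this

theorem PP_x {l : List V} {x : V} (hx : ∀ v ∈ l, polar Q v x = 0) : PP c l * c x = (-1 : F) ^ l.length • (c x * PP c l) := by
  induction l with
  | nil => show 1 * c x = (-1 : F) ^ 0 • (c x * 1); simp
  | cons v l ih =>
    show c v * PP c l * c x = (-1 : F) ^ (l.length + 1) • (c x * (c v * PP c l))
    rw [mul_assoc, ih (fun w hw => hx w (List.mem_cons_of_mem _ hw)), mul_smul_comm, ← mul_assoc, anti h (hx v (List.mem_cons_self)), neg_mul,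
      pow_succ, mul_smul, neg_one_smul, mul_assoc]

omit h in
theorem PP_f {l : List V} {f : R} (hf : ∀ x, f * c x = -(c x * f)) : PP c l * f = (-1 : F) ^ l.length • (f * PP c l) := by
  induction l with
  | nil => show 1 * f = (-1 : F) ^ 0 • (f * 1); simp
  | cons v l ih =>
    show c v * PP c l * f = (-1 : F) ^ (l.length + 1) • (f * (c v * PP c l))
    rw [mul_assoc, ih, mul_smul_comm, ← mul_assoc, ← mul_assoc, hf, neg_mul, pow_succ, mul_smul, neg_one_smul, neg_neg]

theorem PP_mem {l : List V} (hl : l.Pairwise fun x y => polar Q x y = 0) {x : V} (hx : x ∈ l) :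
    PP c l * c x = (-1 : F) ^ (l.length + 1) • (c x * PP c l) := by
  induction l with
  | nil => exact absurd hx List.not_mem_nil
  | cons v l ih =>
    rw [List.pairwise_cons] at hl
    show c v * PP c l * c x = (-1 : F) ^ (l.length + 1 + 1) • (c x * (c v * PP c l))
    rcases List.mem_cons.1 hx with rfl | hx
    · rw [mul_assoc, PP_x h (fun w hw => by rw [polar_comm]; exact hl.1 w hw), mul_smul_comm, pow_succ, pow_succ, mul_assoc, neg_one_mul, neg_neg, mul_one]
    · rw [mul_assoc, ih hl.2 hx, mul_smul_comm, ← mul_assoc, anti h (hl.1 x hx), neg_mul, pow_succ _ (l.length + 1), mul_smul, neg_one_smul, mul_assoc]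

theorem PR_eq {l : List V} (hl : l.Pairwise fun x y => polar Q x y = 0) : PR c l = ep F l.length • PP c l := by
  induction l with
  | nil => show (1 : R) = (1 : F) • 1; simp
  | cons v l ih =>
    rw [List.pairwise_cons] at hl
    show PR c l * c v = (ep F l.length * (-1) ^ l.length) • (c v * PP c l)
    rw [ih hl.2, smul_mul_assoc, PP_x h (fun w hw => by rw [polar_comm]; exact hl.1 w hw), smul_smul]

theorem PP_PR (l : List V) : PP c l * PR c l = algebraMap F R ((l.map Q).prod) := by
  induction l with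
  | nil => show (1 : R) * 1 = algebraMap F R 1; simp
  | cons v l ih =>
    show c v * PP c l * (PR c l * c v) = algebraMap F R (Q v * (l.map Q).prod)
    have : c v * PP c l * (PR c l * c v) = c v * (PP c l * PR c l) * c v := by simp only [mul_assoc]
    rw [this, ih, ← Algebra.commutes, mul_assoc, h.sq, map_mul, ← Algebra.commutes]

theorem PR_PP (l : List V) : PR c l * PP c l = algebraMap F R ((l.map Q).prod) := by
  induction l with
  | nil => show (1 : R) * 1 = algebraMap F R 1; simp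
  | cons v l ih =>
    show PR c l * c v * (c v * PP c l) = algebraMap F R (Q v * (l.map Q).prod)
    have : PR c l * c v * (c v * PP c l) = PR c l * (c v * c v) * PP c l := by simp only [mul_assoc]
    rw [this, h.sq, ← Algebra.commutes, mul_assoc, ih, map_mul]

theorem tau_PR (l : List V) : τ (PR c l) = PP c l := by
  induction l with
  | nil =>
    show τ 1 = 1
    have := h.τs 1
    rwa [map_one] at this
  | cons v l ih =>
    show τ (PR c l * c v) = c v * PP c l
    rw [h.τm, h.τc, ih]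

/-- lifts of `-1` -/
theorem sq_of_neg [FiniteDimensional F V] [Nontrivial R] (hQ : Nd Q) (h2 : (2 : F) ≠ 0) {n : ℕ} (hdim : finrank F V = 2 * n) {s : R}
    (hs : ∀ x, s * c x = -(c x * s)) (hs1 : s * τ s = 1) (hs2 : ∀ f, (∀ x, f * c x = -(c x * f)) → s * f = f * s) : s * s = (-1 : F) ^ n • 1 := by
  obtain ⟨b, hb, hb0⟩ := hQ.exists_orth_basis h2
  obtain ⟨l, hl⟩ : ∃ l, l = List.ofFn b := ⟨_, rfl⟩
  have hlp : l.Pairwise fun x y => polar Q x y = 0 := by
    rw [hl, List.pairwise_ofFn]
    intro i j hij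
    exact hb i j hij.ne
  have hlen : l.length = 2 * n := by rw [hl, List.length_ofFn, hdim]
  have hmem : ∀ i, b i ∈ l := fun i => by rw [hl]; exact (List.mem_ofFn' b _).2 ⟨i, rfl⟩
  have e1 : (-1 : F) ^ (2 * n) = 1 := by rw [pow_mul, neg_one_sq, one_pow]
  have e2 : (-1 : F) ^ (2 * n + 1) = -1 := by rw [pow_succ, e1, one_mul]
  have hq0 : (l.map Q).prod ≠ 0 := by
    rw [Ne, List.prod_eq_zero_iff]
    intro hm
    rw [List.mem_map] at hm
    obtain ⟨v, hv, hv0⟩ := hm
    rw [hl] at hv
    obtain ⟨i, rfl⟩ := (List.mem_ofFn' b v).1 hv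
    exact hb0 i hv0
  obtain ⟨q, hq⟩ : ∃ q, q = (l.map Q).prod := ⟨_, rfl⟩
  rw [← hq] at hq0
  -- `P` anticommutes with all vectors
  have hP : ∀ x, PP c l * c x = -(c x * PP c l) := by
    intro x
    have hx : x ∈ Submodule.span F (Set.range b) := by rw [b.span_eq]; trivial
    induction hx using Submodule.span_induction with
    | mem x hx =>
      obtain ⟨i, rfl⟩ := hx
      rw [PP_mem h hlp (hmem i), hlen, e2, neg_one_smul]
    | zero => simp
    | add x y _ _ hx hy => rw [map_add, mul_add, add_mul, hx, hy]; abel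
    | smul t x _ hx => rw [map_smul, mul_smul_comm, hx, smul_mul_assoc, smul_neg]
  obtain ⟨t, ht⟩ := h.Z (s * PP c l) (fun x => by
      rw [mul_assoc, hP, mul_neg, ← mul_assoc, hs, neg_mul, neg_neg, mul_assoc]) (fun f hf => by
      rw [mul_assoc, PP_f (F := F) hf, hlen, e1, one_smul, ← mul_assoc, hs2 f hf, mul_assoc])
  have hs' : q • s = t • PR c l := by
    have h3 : s * PP c l * PR c l = q • s := by rw [mul_assoc, PP_PR h, ← hq, ← Algebra.commutes, ← Algebra.smul_def]
    rw [← h3, ht, ← Algebra.smul_def]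
  have hs3 : s = (q⁻¹ * t) • PR c l := by
    rw [mul_smul, ← hs', smul_smul, inv_mul_cancel₀ hq0, one_smul]
  obtain ⟨w, hw⟩ : ∃ w, w = q⁻¹ * t := ⟨_, rfl⟩
  rw [← hw] at hs3
  have hτs : τ s = w • PP c l := by
    rw [hs3, Algebra.smul_def, h.τm, h.τs, tau_PR h, ← Algebra.commutes, ← Algebra.smul_def]
  have h4 : algebraMap F R (w * w * q) = 1 := by
    rw [← hs1, hτs, hs3, smul_mul_assoc, mul_smul_comm, PR_PP h, ← hq, smul_smul, Algebra.smul_def, ← map_mul]
  have h5 : w * w * q = 1 := (algebraMap F R).injective (h4.trans (map_one _).symm)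
  have h6 : PR c l * PR c l = ((-1) ^ n * q) • (1 : R) := by
    nth_rewrite 1 [PR_eq h hlp]
    rw [hlen, ep_two, smul_mul_assoc, PP_PR h, ← hq, mul_smul, ← Algebra.algebraMap_eq_smul_one]
  rw [hs3, smul_mul_assoc, mul_smul_comm, h6, smul_smul, smul_smul]
  congr 1
  linear_combination (-1) ^ n * h5

end om

theorem card_ker_mul {G H : Type*} [Group G] [Group H] (f : G →* H) (hf : Function.Surjective f) : Nat.card f.ker * Nat.card H = Nat.card G := by
  have := Subgroup.card_mul_index f.ker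
  rw [Subgroup.index_ker, MonoidHom.range_eq_top.2 hf, Subgroup.card_top] at this
  exact this

section final
variable {F V : Type u} [Field F] [Finite F] [AddCommGroup V] [Module F V] [FiniteDimensional F V] {Q : QuadraticForm F V}
  {R : Type u} [Ring R] [Finite R] [Nontrivial R] [Algebra F R] {c : V →ₗ[F] R} {τ : R → R} (h : CM Q c τ)

instance finite_Om : Finite (Om Q) := by
  haveI : Finite V := Module.finite_of_finite F
  haveI : Finite (V ≃ₗ[F] V) := Finite.of_injective (fun g => (g : V → V)) (fun _ _ h => LinearEquiv.ext (congrFun h))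
  infer_instance

theorem stem_Sp {hQ : Nd Q} (hO : OH hQ) (h2 : (2 : F) ≠ 0) (hperf : commutator (Sp h) = ⊤) (hst : StemDvd (Om Q) 2) : StemDvd (Sp h) 1 := by
  haveI : Finite (Om Q) := finite_Om
  intro Γ _ _ σ hσ
  have hp := pr_stem h hO hperf
  obtain ⟨h3, h4⟩ := central_comp hσ hperf hp.2.1
  have hcomp : Cfsg.IsStemExtension ((pr h).comp σ) := ⟨hp.1.comp hσ.1, h4, by rw [h3]; exact le_top⟩
  have h5 := hst Γ _ hcomp
  have e1 := card_ker_mul _ hcomp.1
  have e2 := card_ker_mul _ hσ.1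
  have e3 := card_ker_mul _ hp.1
  rw [card_ker_pr h hQ h2] at e3
  rw [← e2, ← e3, ← mul_assoc] at e1
  have hpos : 0 < Nat.card (Om Q) := Nat.card_pos
  have e4 := Nat.eq_of_mul_eq_mul_right hpos e1
  rw [e4] at h5
  have h6 : 0 < Nat.card σ.ker := Nat.card_pos
  have h7 := Nat.le_of_dvd (by norm_num) h5
  have h8 : Nat.card σ.ker = 1 := by omega
  rw [h8]

/-- the kernel of the spin group on `PΩ(V)` -/
noncomputable def KK (h : CM Q c τ) : Subgroup (Sp h) := ((QuotientGroup.mk' (Subgroup.center (Om Q))).comp (pr h)).ker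

theorem mem_KK {p : Sp h} : p ∈ KK h ↔ pr h p ∈ Subgroup.center (Om Q) := by
  rw [KK, MonoidHom.mem_ker, MonoidHom.comp_apply, ← MonoidHom.mem_ker, QuotientGroup.ker_mk']

theorem KK_center {hQ : Nd Q} (hO : OH hQ) (hperf : commutator (Sp h) = ⊤) (hperf0 : commutator (Om Q) = ⊤) : KK h ≤ Subgroup.center (Sp h) :=
  (central_comp (pr_stem h hO hperf) hperf0 (QuotientGroup.ker_mk' _).le).2

theorem card_KK {hQ : Nd Q} (hO : OH hQ) (h2 : (2 : F) ≠ 0) : Nat.card (KK h) = 2 * Nat.card (Subgroup.center (Om Q)) := by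
  haveI : Finite (Om Q) := finite_Om
  have e1 := card_ker_mul ((QuotientGroup.mk' (Subgroup.center (Om Q))).comp (pr h)) ((QuotientGroup.mk'_surjective (Subgroup.center (Om Q))).comp (pr_surj h hO))
  have e2 := card_ker_mul _ (pr_surj h hO)
  have e3 := card_ker_mul _ (QuotientGroup.mk'_surjective (Subgroup.center (Om Q)))
  rw [QuotientGroup.ker_mk'] at e3
  rw [card_ker_pr h hQ h2] at e2
  have hpos : 0 < Nat.card (Om Q ⧸ Subgroup.center (Om Q)) := Nat.card_pos
  apply Nat.eq_of_mul_eq_mul_right hpos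
  show Nat.card ((QuotientGroup.mk' (Subgroup.center (Om Q))).comp (pr h)).ker * _ = _
  rw [e1, ← e2, ← e3, mul_assoc]

/-- **the multiplier of `PΩ(V)`**, odd characteristic -/
theorem mult_of {hQ : Nd Q} (hO : OH hQ) (h2 : (2 : F) ≠ 0) (hperf : commutator (Sp h) = ⊤) (hperf0 : commutator (Om Q) = ⊤) (hst : StemDvd (Om Q) 2)
    {A : Type*} [CommGroup A] (e : A ≃* KK h) : Cfsg.HasSchurMultiplier (Om Q ⧸ Subgroup.center (Om Q)) A := by
  haveI : Finite (Om Q) := finite_Om
  exact MulCover.hasMult_of_trivial ⟨hperf⟩ ((QuotientGroup.mk' (Subgroup.center (Om Q))).comp (pr h))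
    ((QuotientGroup.mk'_surjective _).comp (pr_surj h hO)) (KK_center h hO hperf hperf0) (hasTrivial_of_stemDvd (stem_Sp h hO h2 hperf hst)) e

/-- squares in the kernel -/
theorem KK_sq {hQ : Nd Q} (hO : OH hQ) (h2 : (2 : F) ≠ 0) {n : ℕ} (hdim : finrank F V = 2 * n)
    (hcen : ∀ g ∈ Subgroup.center (Om Q), (∀ x, (g : V ≃ₗ[F] V) x = x) ∨ (∀ x, (g : V ≃ₗ[F] V) x = -x)) {p : Sp h} (hp : p ∈ KK h) :
    (p = 1 ∨ p = zz h) ∨ p * p = (if Even n then 1 else zz h) := by
  rcases hcen _ ((mem_KK h).1 hp) with h3 | h3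
  · left
    rw [← mem_ker_pr h hQ, MonoidHom.mem_ker]
    exact Om_ext h3
  · right
    have h4 := sq_of_neg h hQ h2 hdim (s := (p.1.1 : R)) (fun x => by
      rw [p.2.1 x]
      have : (p.1.2 : V ≃ₗ[F] V) x = -x := h3 x
      rw [this, map_neg, neg_mul]) p.2.2.1 p.2.2.2
    apply Sp_fst_inj h hQ
    have e : (((p * p).1.1 : Rˣ) : R) = (p.1.1 : R) * p.1.1 := rfl
    rw [e, h4]
    by_cases hn : Even n
    · rw [if_pos hn, hn.neg_one_pow, one_smul]; rfl
    · rw [if_neg hn, (Nat.not_even_iff_odd.1 hn).neg_one_pow, zz_val]; simp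

end final

end Cfsg.Agent.Lib.MulSpin
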