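import Cfsg.Agent.Lib.MulOrthRF
import Cfsg.Agent.Lib.MulSpinD

/-! The prime-to-`p` part of the multiplier of the non-split groups `Ω(V)`: rank one groups, the monomial group (helper35). -/

set_option autoImplicit false

namespace Cfsg.Agent.Lib.MulOrth

open Matrix Cfsg.Agent.Lib.Quad Cfsg.Agent.Lib.ClOrthSiegel Cfsg.Agent.Lib.UCEBase QuadraticMap Module
open Cfsg.Agent.Lib.PresBC (Zs ng ng_ng ng_ne ng_inj lam lam_ng lam_ne lam_inj lam_eq eq_ng Rt Pos G PosE)
open Cfsg.Agent.Lib.RootLift (rf rf_left rf_right rf_ngleft rf_ngright rf_other RD PE hX cov_of_stem Cov)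
open Cfsg.Agent.Lib.PresSpMod (S2 Dg Ag)
open Cfsg.Agent.Lib.PresSpCore (up lo)
open Cfsg.Agent.Lib.SchurSylow

universe u

/-! ### quotients -/

theorem comm_of_pgen {T : Type*} [Group T] {p r : ℕ} (hr : r.Prime) (hp : p.Prime) (hne : r ≠ p) (hgen : Subgroup.closure {x : T | PE p x} = ⊤) {y : T} {l : ℕ}
    (hy : y ^ r ^ l = 1) : y ∈ commutator T := by
  have hab : PE p (Abelianization.of y) := by
    have hy' : y ∈ Subgroup.closure {x : T | PE p x} := by rw [hgen]; trivial
    clear hy
    induction hy' using Subgroup.closure_induction with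
    | mem y hy => exact RootLift.PE.map hy _
    | one => exact RootLift.PE.one.map (Abelianization.of (G := T))
    | mul y z _ _ ihy ihz =>
      rw [map_mul]
      exact RootLift.PE.mul (Commute.all _ _) ihy ihz
    | inv y _ ihy =>
      rw [map_inv]
      exact ihy.inv
  obtain ⟨k, hk'⟩ := hab
  have h2 : orderOf (Abelianization.of y) ∣ p ^ k := orderOf_dvd_of_pow_eq_one hk'
  have h3 : orderOf (Abelianization.of y) ∣ r ^ l := orderOf_dvd_of_pow_eq_one (by rw [← map_pow, hy, map_one])
  have h4 : orderOf (Abelianization.of y) ∣ 1 := by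
    have hcop : Nat.Coprime (r ^ l) (p ^ k) := (((Nat.coprime_primes hr hp).2 hne).pow_left l).pow_right k
    rw [← hcop.gcd_eq_one]
    exact Nat.dvd_gcd h3 h2
  have h5 := orderOf_eq_one_iff.1 (Nat.dvd_one.1 h4)
  rw [← Abelianization.ker_of T]
  exact h5

theorem pstem_quot {G L : Type u} [Group G] [Group L] [Finite G] {p r : ℕ} [hp : Fact p.Prime] (hr : r.Prime) (hrp : r ≠ p) (π : G →* L)
    (hπ : Function.Surjective π) (hgen : Subgroup.closure {g : G | PE p g} = ⊤) (h1 : PStemDvd r G 1) : PStemDvd r L (Nat.card π.ker) := by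
  intro Γ _ _ σ hσ hk
  have hc := cov_of_stem (p := p) hr hrp hσ hk
  haveI : Fact r.Prime := ⟨hr⟩
  let T : Subgroup (G × Γ) := Subgroup.closure {x | PE p x ∧ π x.1 = σ x.2}
  have hTE : ∀ x ∈ T, π x.1 = σ x.2 := by
    intro x hx
    induction hx using Subgroup.closure_induction with
    | mem y hy => exact hy.2
    | one => simp
    | mul y z _ _ hy hz => simp [hy, hz]
    | inv y _ hy => simp [hy]
  let f1 : T →* G := (MonoidHom.fst G Γ).comp T.subtype
  let f2 : T →* Γ := (MonoidHom.snd G Γ).comp T.subtype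
  have h12 : ∀ x : T, π (f1 x) = σ (f2 x) := fun x => hTE x.1 x.2
  have hf1 : Function.Surjective f1 := by
    rw [← MonoidHom.range_eq_top, eq_top_iff, ← hgen, Subgroup.closure_le]
    intro g hg
    obtain ⟨a, ha⟩ := id hg
    have hP : IsPGroup p (Subgroup.zpowers (π g)) := by
      rintro ⟨z, n, rfl⟩
      refine ⟨a, Subtype.ext ?_⟩
      show ((π g) ^ n) ^ p ^ a = 1
      rw [← zpow_natCast, ← _root_.zpow_mul, mul_comm, _root_.zpow_mul, zpow_natCast, ← map_pow, ha, map_one, _root_.one_zpow]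
    obtain ⟨x, hx, hxe⟩ := hc.exists_hX hP (Subgroup.mem_zpowers (π g))
    obtain ⟨b, hb⟩ := ((hc.mem_hX hP).1 hx).1
    have hpe : PE p ((g, x) : G × Γ) := by
      refine ⟨a + b, ?_⟩
      show ((g, x) : G × Γ) ^ p ^ (a + b) = 1
      rw [Prod.pow_mk, pow_add, pow_mul, ha, one_pow, mul_comm, pow_mul, hb, one_pow]; rfl
    exact ⟨⟨(g, x), Subgroup.subset_closure ⟨hpe, hxe.symm⟩⟩, rfl⟩
  have hgT : Subgroup.closure {x : T | PE p x} = ⊤ := by
    rw [eq_top_iff, ← Subgroup.closure_closure_coe_preimage (k := {x : G × Γ | PE p x ∧ π x.1 = σ x.2})]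
    apply Subgroup.closure_mono
    intro x hx
    obtain ⟨a, ha⟩ := hx.1
    exact ⟨a, Subtype.ext ha⟩
  have hk1 : ∀ x : T, f1 x = 1 → f2 x ∈ σ.ker := fun x hx => by rw [MonoidHom.mem_ker, ← h12, hx, map_one]
  have hpow : ∀ x : T, f1 x = 1 → ∃ l, x ^ r ^ l = 1 := by
    intro x hx
    obtain ⟨l, hl⟩ := hk ⟨f2 x, hk1 x hx⟩
    refine ⟨l, Subtype.ext ?_⟩
    have e1 : x.1.1 = 1 := hx
    have e2 : f2 x ^ r ^ l = 1 := by simpa using congrArg Subtype.val hl
    show x.1 ^ r ^ l = 1
    apply Prod.ext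
    · show x.1.1 ^ r ^ l = 1
      rw [e1, one_pow]
    · exact e2
  have hst : Cfsg.IsStemExtension f1 := by
    refine ⟨hf1, ?_, ?_⟩
    · intro x hx
      rw [Subgroup.mem_center_iff]
      intro y
      apply Subtype.ext
      have e1 : x.1.1 = 1 := hx
      apply Prod.ext
      · show y.1.1 * x.1.1 = x.1.1 * y.1.1
        rw [e1, mul_one, one_mul]
      · exact Subgroup.mem_center_iff.1 (hσ.2.1 (hk1 x hx)) y.1.2
    · intro x hx
      obtain ⟨l, hl⟩ := hpow x hx
      exact comm_of_pgen hr hp.out hrp hgT hl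
  have hpk : IsPGroup r f1.ker := by
    intro x
    obtain ⟨l, hl⟩ := hpow x.1 x.2
    exact ⟨l, Subtype.ext hl⟩
  have h6 := h1 T f1 hst hpk
  have e1 := MulSpin.card_ker_mul f1 hf1
  rw [Nat.dvd_one.1 h6, one_mul] at e1
  have hf2 : Function.Surjective f2 := by
    rw [← MonoidHom.range_eq_top]
    apply MulCover.eq_top_of_map_top hσ
    rw [eq_top_iff]
    intro y _
    obtain ⟨g, rfl⟩ := hπ y
    obtain ⟨t, rfl⟩ := hf1 g
    exact ⟨f2 t, ⟨t, rfl⟩, (h12 t).symm⟩
  have e2 := MulSpin.card_ker_mul f2 hf2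
  have e3 := MulSpin.card_ker_mul σ hσ.1
  have e4 := MulSpin.card_ker_mul π hπ
  haveI : Finite L := Finite.of_surjective π hπ
  have hL : 0 < Nat.card L := Nat.card_pos
  have h7 : Nat.card σ.ker * Nat.card L ∣ Nat.card π.ker * Nat.card L := by
    rw [e3, e4, e1, ← e2]
    exact Dvd.intro_left _ rfl
  exact Nat.dvd_of_mul_dvd_mul_right hL h7

/-! ### the short rank one groups -/

section sh
variable {F V K : Type u} [Field F] [AddCommGroup V] [Module F V] [FiniteDimensional F V] [Field K] [Algebra F K] {Q : QuadraticForm F V}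
  {hQ : Nd Q} (hO : OH hQ) {m : ℕ} {v : Zs m → V} (hv : SF Q v) {st : K → K} {θ : V →ₗ[F] K} {κ : F} (hk : KD Q v st θ κ)

include hk in
theorem pstem_short [Fintype F] [Finite K] {p r : ℕ} [hp : Fact p.Prime] [hpc : CharP F p] (hr : r.Prime) (hrp : r ≠ p) (a : Zs m) :
    PStemDvd r (LO hO hv a a) (Nat.gcd 2 (Fintype.card F - 1)) := by
  classical
  haveI := Fintype.ofFinite K
  haveI : CharP K p := charP_of_injective_algebraMap (algebraMap F K).injective p
  haveI : Fact r.Prime := ⟨hr⟩
  let π : S2 K →* LO hO hv a a := (PsO hO hv hk a).codRestrict _ (fun A => PsO_mem hO hv hk A)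
  have hπ : Function.Surjective π := by
    rintro ⟨g, hg⟩
    rw [← PsO_range hO hv hk] at hg
    obtain ⟨A, hA⟩ := hg
    exact ⟨A, Subtype.ext hA⟩
  have hgen : Subgroup.closure {g : S2 K | PE p g} = ⊤ := by
    rw [eq_top_iff]
    intro g _
    refine PresSpCore.sl2_gen _ (fun t => Subgroup.subset_closure ?_) (fun t => Subgroup.subset_closure ?_) g
    · refine ⟨1, ?_⟩
      have key : ∀ n : ℕ, (up t) ^ n = up ((n : K) * t) := by
        intro n
        induction n with
        | zero =>
          rw [pow_zero]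
          apply Subtype.ext
          show (1 : Matrix (Fin 2) (Fin 2) K) = !![1, ((0 : ℕ) : K) * t; 0, 1]
          ext i j; fin_cases i <;> fin_cases j <;> simp
        | succ n ih =>
          rw [pow_succ, ih]
          apply Subtype.ext
          show !![1, (n : K) * t; 0, 1] * !![1, t; 0, 1] = !![1, ((n + 1 : ℕ) : K) * t; 0, 1]
          ext i j; fin_cases i <;> fin_cases j <;> simp [Matrix.mul_apply, Fin.sum_univ_two] <;> ring
      rw [pow_one, key, CharP.cast_eq_zero, zero_mul]
      apply Subtype.ext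
      show !![1, (0 : K); 0, 1] = 1
      ext i j; fin_cases i <;> fin_cases j <;> simp
    · refine ⟨1, ?_⟩
      have key : ∀ n : ℕ, (lo t) ^ n = lo ((n : K) * t) := by
        intro n
        induction n with
        | zero =>
          rw [pow_zero]
          apply Subtype.ext
          show (1 : Matrix (Fin 2) (Fin 2) K) = !![1, 0; ((0 : ℕ) : K) * t, 1]
          ext i j; fin_cases i <;> fin_cases j <;> simp
        | succ n ih =>
          rw [pow_succ, ih]
          apply Subtype.ext
          show !![1, 0; (n : K) * t, 1] * !![1, 0; t, 1] = !![1, 0; ((n + 1 : ℕ) : K) * t, 1]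
          ext i j; fin_cases i <;> fin_cases j <;> simp [Matrix.mul_apply, Fin.sum_univ_two] <;> ring
      rw [pow_one, key, CharP.cast_eq_zero, zero_mul]
      apply Subtype.ext
      show !![1, 0; (0 : K), 1] = 1
      ext i j; fin_cases i <;> fin_cases j <;> simp
  have h1 := pstem_quot hr hrp π hπ hgen (MulPSp.sl2_cross hrp)
  refine h1.mono ?_
  have hker : ∀ A : π.ker, A.1.1 = 1 ∨ A.1.1 = -1 := by
    intro A
    have h2 : PsO hO hv hk a A.1 = 1 := congrArg Subtype.val A.2
    obtain ⟨e1, e2, e3, e4⟩ := PsO_ker hO hv hk h2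
    rcases e4 with e4 | e4
    · left
      ext i j; fin_cases i <;> fin_cases j
      · simp [e3, e4]
      · simp [e1]
      · simp [e2]
      · simp [e4]
    · right
      ext i j; fin_cases i <;> fin_cases j
      · simp [e3, e4]
      · simp [e1]
      · simp [e2]
      · simp [e4]
  have hinj : Function.Injective (fun A : π.ker => decide (A.1.1 = 1)) := by
    intro A B hAB
    simp only [decide_eq_decide] at hAB
    apply Subtype.ext
    apply Subtype.ext
    by_cases h3 : A.1.1 = 1
    · rw [h3, hAB.1 h3]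
    · have h4 : B.1.1 ≠ 1 := fun h => h3 (hAB.2 h)
      rw [(hker A).resolve_left h3, (hker B).resolve_left h4]
  have hle : Nat.card π.ker ≤ 2 := by
    have := Nat.card_le_card_of_injective _ hinj
    rwa [Nat.card_eq_fintype_card (α := Bool), Fintype.card_bool] at this
  have hpos : 0 < Nat.card π.ker := Nat.card_pos
  by_cases h2 : (2 : F) = 0
  · have h2K : (2 : K) = 0 := by
      have := congrArg (algebraMap F K) h2
      rwa [map_ofNat, map_zero] at this
    have hneg : (-1 : Matrix (Fin 2) (Fin 2) K) = 1 := by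
      ext i j; fin_cases i <;> fin_cases j <;> simp <;> linear_combination -h2K
    have : Nat.card π.ker = 1 := by
      rw [Nat.card_eq_one_iff_unique]
      refine ⟨⟨fun A B => ?_⟩, ⟨1⟩⟩
      have key : ∀ A : π.ker, A.1.1 = 1 := fun A => (hker A).elim id (fun h => h.trans hneg)
      exact Subtype.ext (Subtype.ext ((key A).trans (key B).symm))
    rw [this]; exact one_dvd _
  · have hq : Fintype.card F % 2 = 1 := FiniteField.odd_card_of_char_ne_two (by
      intro hch
      haveI := ringChar.of_eq hch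
      exact h2 (CharP.cast_eq_zero F 2))
    have hg : Nat.gcd 2 (Fintype.card F - 1) = 2 := by
      apply Nat.gcd_eq_left
      omega
    rw [hg]
    have : Nat.card π.ker = 1 ∨ Nat.card π.ker = 2 := by omega
    rcases this with h | h <;> rw [h]
    exact one_dvd _

end sh

end Cfsg.Agent.Lib.MulOrth
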