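import Cfsg.Agent.Lib.MulOrthRG

/-! The prime-to-`p` part of the multiplier of the non-split groups `Ω(V)`: the root datum (helper35). -/

set_option autoImplicit false

namespace Cfsg.Agent.Lib.MulOrth

open Cfsg.Agent.Lib.Quad Cfsg.Agent.Lib.ClOrthSiegel Cfsg.Agent.Lib.UCEBase QuadraticMap Module
open Cfsg.Agent.Lib.PresBC (Zs ng ng_ng ng_ne ng_inj lam lam_ng lam_ne lam_inj lam_eq eq_ng Rt Pos G PosE)
open Cfsg.Agent.Lib.RootLift (rf rf_left rf_right rf_ngleft rf_ngright rf_other RD PE)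
open Cfsg.Agent.Lib.PresSpMod (S2 Dg Ag)
open Cfsg.Agent.Lib.PresSpCore (up lo lam_inl lam_inr nxt nxt_ne sf sw_lam sw_pos sn_pos al be)
open Cfsg.Agent.Lib.SchurSylow

universe u

section perm
variable {F V : Type*} [Field F] [AddCommGroup V] [Module F V] [FiniteDimensional F V] {Q : QuadraticForm F V} {m : ℕ} {v : Zs m → V} (hv : SF Q v)

/-- the permutation of a monomial element -/
noncomputable def pmO : NO hv →* Equiv.Perm (Zs m) where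
  toFun g := Equiv.ofBijective (rhO v g.1) ⟨fun _ _ h => rhO_inj hv g.2 h, fun b => rhO_surj hv g.2 b⟩
  map_one' := Equiv.ext fun a => rhO_one a hv
  map_mul' g h := Equiv.ext fun a => rhO_mul hv g.2 h.2 a

theorem pmO_apply (g : NO hv) (a : Zs m) : pmO hv g a = rhO v g.1 a := rfl

/-- its sign -/
noncomputable def sgO : NO hv →* ℤˣ := Equiv.Perm.sign.comp (pmO hv)

theorem sgO_of {g : NO hv} {π : Equiv.Perm (Zs m)} (h : ∀ a, rhO v g.1 a = π a) : sgO hv g = Equiv.Perm.sign π := by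
  show Equiv.Perm.sign (pmO hv g) = _
  congr 1
  exact Equiv.ext h

end perm

section nb
variable {F V K : Type*} [Field F] [AddCommGroup V] [Module F V] [FiniteDimensional F V] [Field K] [Algebra F K] {Q : QuadraticForm F V}
  {m : ℕ} {v : Zs m → V} (hv : SF Q v) {st : K → K} {θ : V →ₗ[F] K} {κ : F} (hk : KD Q v st θ κ)

/-- the identity or the conjugation -/
def Fe (st : K → K) (e : ℤˣ) (z : K) : K := if e = 1 then z else st z

include hk in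
omit [FiniteDimensional F V] in
theorem Fe_mul (e : ℤˣ) (x y : K) : Fe st e (x * y) = Fe st e x * Fe st e y := by
  unfold Fe
  split_ifs
  · rfl
  · exact hk.sm x y

include hk in
omit [FiniteDimensional F V] in
theorem Fe_comp (e e' : ℤˣ) (x : K) : Fe st e (Fe st e' x) = Fe st (e * e') x := by
  unfold Fe
  rcases Int.units_eq_one_or e with rfl | rfl <;> rcases Int.units_eq_one_or e' with rfl | rfl <;> simp [hk.ss]

include hk in
omit [FiniteDimensional F V] in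
theorem Fe_ne {e : ℤˣ} {x : K} (hx : x ≠ 0) : Fe st e x ≠ 0 := by
  unfold Fe
  split_ifs
  · exact hx
  · intro h
    apply hx
    rw [← hk.ss x, h, hk.s0]

include hk in
omit [FiniteDimensional F V] in
theorem Fe_one_one (e : ℤˣ) : Fe st e 1 = 1 := by
  unfold Fe
  split_ifs
  · rfl
  · exact hk.s1

/-- the monomial group -/
def NB (hv : SF Q v) (hk : KD Q v st θ κ) : Subgroup (Om Q) where
  carrier := {g | ∃ hg : g ∈ NO hv, ∃ t : K, t ≠ 0 ∧ ∀ u ∈ V0 Q v, θ ((g : V ≃ₗ[F] V) u) = t * Fe st (sgO hv ⟨g, hg⟩) (θ u)}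
  one_mem' := by
    refine ⟨one_mem _, 1, one_ne_zero, fun u _ => ?_⟩
    have : sgO hv ⟨1, one_mem _⟩ = 1 := map_one _
    rw [this, one_mul, Fe, if_pos rfl]; rfl
  mul_mem' := by
    rintro g h ⟨hg, t, ht, h1⟩ ⟨hh, s, hs, h2⟩
    refine ⟨mul_mem hg hh, t * Fe st (sgO hv ⟨g, hg⟩) s, mul_ne_zero ht (Fe_ne hk hs), fun u hu => ?_⟩
    have e : sgO hv ⟨g * h, mul_mem hg hh⟩ = sgO hv ⟨g, hg⟩ * sgO hv ⟨h, hh⟩ := map_mul (sgO hv) ⟨g, hg⟩ ⟨h, hh⟩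
    rw [Om_mul, h1 _ (Mon.V0 hv hh hu), h2 u hu, Fe_mul hk, Fe_comp hk, e, mul_assoc]
  inv_mem' := by
    rintro g ⟨hg, t, ht, h1⟩
    refine ⟨inv_mem hg, Fe st (sgO hv ⟨g, hg⟩) t⁻¹, Fe_ne hk (inv_ne_zero ht), fun u hu => ?_⟩
    have e : sgO hv ⟨g⁻¹, inv_mem hg⟩ = sgO hv ⟨g, hg⟩ := by
      have := map_inv (sgO hv) ⟨g, hg⟩
      rw [Int.units_inv_eq_self] at this
      exact this
    have h2 := h1 _ (Mon.V0 hv (inv_mem hg : g⁻¹ ∈ NO hv) hu)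
    rw [Om_inv'] at h2
    rw [e, ← Fe_mul hk, h2, inv_mul_cancel_left₀ ht, Fe_comp hk]
    have : sgO hv ⟨g, hg⟩ * sgO hv ⟨g, hg⟩ = 1 := Int.units_mul_self _
    rw [this, Fe, if_pos rfl]

theorem NB_le : NB hv hk ≤ NO hv := fun _ h => h.1

/-- torus elements act linearly -/
theorem NB_lin {g : Om Q} (hg : g ∈ NB hv hk) (h : ∀ a, rhO v g a = a) : ∃ t : K, t ≠ 0 ∧ ∀ u ∈ V0 Q v, θ ((g : V ≃ₗ[F] V) u) = t * θ u := by
  obtain ⟨hg, t, ht, h1⟩ := hg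
  refine ⟨t, ht, fun u hu => ?_⟩
  have e : sgO hv ⟨g, hg⟩ = 1 := by
    rw [sgO_of hv (π := 1) h, Equiv.Perm.sign_one]
  rw [h1 u hu, e, Fe, if_pos rfl]

variable {hQ : Nd Q} (hO : OH hQ)

/-- long monomial elements -/
theorem Ac_NB {a b : Zs m} (hba : b ≠ a) (hab : b ≠ ng a) {A : S2 F} {g : Om Q} (hg : Ac Q v a b A g)
    (h : (A.1 1 0 = 0 ∧ A.1 0 1 = 0) ∨ (A.1 0 0 = 0 ∧ A.1 1 1 = 0)) : g ∈ NB hv hk := by
  have hm := Ac_mon_of hv hba hab hg h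
  refine ⟨hm, 1, one_ne_zero, fun u hu => ?_⟩
  have e : sgO hv ⟨g, hm⟩ = 1 := by
    rcases Ac_mono hab hba hg hm hv with h1 | h1
    · rw [sgO_of hv (π := 1) h1.2.2, Equiv.Perm.sign_one]
    · rw [sgO_of hv h1.2.2, rf, if_neg (Ne.symm hba), Equiv.Perm.sign_mul, Equiv.Perm.sign_swap (ng_ne_of hab), Equiv.Perm.sign_swap hab]; rfl
  rw [e, hg.e5 u ⟨hu a, hu (ng a), hu b, hu (ng b)⟩, one_mul, Fe, if_pos rfl]

/-! ### short Weyl elements -/

/-- the short Weyl element -/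
noncomputable def ws (hO : OH hQ) (v : Zs m → V) (a : Zs m) (u : V) : Om Q := Eo hO (v a) ((Q u)⁻¹ • u) * Eo hO (v (ng a)) u * Eo hO (v a) ((Q u)⁻¹ • u)

variable {a : Zs m} {u : V} (hu : u ∈ V0 Q v) (hu0 : Q u ≠ 0)
include hv hu hu0

theorem ws_a : (ws hO v a u : V ≃ₗ[F] V) (v a) = -Q u • v (ng a) := by
  have w0 : (Q u)⁻¹ • u ∈ V0 Q v := (V0 Q v).smul_mem _ hu
  have h1 : (Eo hO (v a) ((Q u)⁻¹ • u) : V ≃ₗ[F] V) (v a) = v a := Eo_fix hO (hv.q0 a) (w0 a) (hv.self a) (by rw [polar_comm]; exact w0 a)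
  have h2 : (Eo hO (v (ng a)) u : V ≃ₗ[F] V) (v a) = v a + u - Q u • v (ng a) := by
    rw [Eo_apply hO (hv.q0 _) (hu _), hv.pn', polar_comm Q u, hu a]; simp
  rw [ws, Om_mul, Om_mul, h1, h2, Eo_apply hO (hv.q0 a) (w0 a)]
  have p1 : polar Q (v a) (v a + u - Q u • v (ng a)) = -Q u := by
    rw [polar_sub_right, polar_add_right, polar_smul_right, hv.self, hu a, hv.pn]; simp
  have p2 : polar Q ((Q u)⁻¹ • u) (v a + u - Q u • v (ng a)) = 2 := by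
    rw [polar_smul_left, polar_sub_right, polar_add_right, polar_smul_right, polar_comm Q u (v a), polar_comm Q u (v (ng a)), hu a, hu (ng a), polar_self']
    simp only [smul_eq_mul, mul_zero, sub_zero, zero_add]
    field_simp
  have p3 : Q ((Q u)⁻¹ • u) = (Q u)⁻¹ := by rw [Q_smul]; field_simp
  rw [p1, p2, p3, smul_smul, neg_mul, mul_inv_cancel₀ hu0, mul_neg, inv_mul_cancel₀ hu0]
  module

theorem ws_na : (ws hO v a u : V ≃ₗ[F] V) (v (ng a)) = -(Q u)⁻¹ • v a := by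
  have w0 : (Q u)⁻¹ • u ∈ V0 Q v := (V0 Q v).smul_mem _ hu
  have p3 : Q ((Q u)⁻¹ • u) = (Q u)⁻¹ := by rw [Q_smul]; field_simp
  have h1 : (Eo hO (v a) ((Q u)⁻¹ • u) : V ≃ₗ[F] V) (v (ng a)) = v (ng a) + (Q u)⁻¹ • u - (Q u)⁻¹ • v a := by
    rw [Eo_apply hO (hv.q0 _) (w0 _), hv.pn, polar_comm Q _ (v (ng a)), w0 (ng a), p3]; simp
  have h2 : (Eo hO (v (ng a)) u : V ≃ₗ[F] V) (v (ng a) + (Q u)⁻¹ • u - (Q u)⁻¹ • v a) = -(Q u)⁻¹ • v a := by
    rw [Eo_apply hO (hv.q0 _) (hu _)]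
    have q1 : polar Q (v (ng a)) (v (ng a) + (Q u)⁻¹ • u - (Q u)⁻¹ • v a) = -(Q u)⁻¹ := by
      rw [polar_sub_right, polar_add_right, polar_smul_right, polar_smul_right, hv.self, hu (ng a), hv.pn']; simp
    have q2 : polar Q u (v (ng a) + (Q u)⁻¹ • u - (Q u)⁻¹ • v a) = 2 := by
      rw [polar_sub_right, polar_add_right, polar_smul_right, polar_smul_right, polar_comm Q u (v a), polar_comm Q u (v (ng a)), hu a, hu (ng a), polar_self']
      simp only [smul_eq_mul, mul_zero, sub_zero, zero_add]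
      field_simp
    rw [q1, q2, mul_neg, mul_inv_cancel₀ hu0]
    module
  rw [ws, Om_mul, Om_mul, h1, h2, map_smul, Eo_fix hO (hv.q0 a) (w0 a) (hv.self a) (by rw [polar_comm]; exact w0 a)]

omit hu0 in
theorem ws_b {b : Zs m} (h1 : b ≠ a) (h2 : b ≠ ng a) : (ws hO v a u : V ≃ₗ[F] V) (v b) = v b := by
  have w0 : (Q u)⁻¹ • u ∈ V0 Q v := (V0 Q v).smul_mem _ hu
  have e1 : (Eo hO (v a) ((Q u)⁻¹ • u) : V ≃ₗ[F] V) (v b) = v b := Eo_fix hO (hv.q0 a) (w0 a) (hv.p0 h2) (by rw [polar_comm]; exact w0 b)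
  have e2 : (Eo hO (v (ng a)) u : V ≃ₗ[F] V) (v b) = v b := Eo_fix hO (hv.q0 _) (hu _) (hv.p0 (by rw [ng_ng]; exact h1)) (by rw [polar_comm]; exact hu b)
  rw [ws, Om_mul, Om_mul, e1, e2, e1]

theorem ws_u {x : V} (hx : x ∈ V0 Q v) : (ws hO v a u : V ≃ₗ[F] V) x = x - ((Q u)⁻¹ * polar Q u x) • u := by
  have w0 : (Q u)⁻¹ • u ∈ V0 Q v := (V0 Q v).smul_mem _ hu
  have p3 : Q ((Q u)⁻¹ • u) = (Q u)⁻¹ := by rw [Q_smul]; field_simp
  obtain ⟨β, hβ⟩ : ∃ β, β = polar Q u x := ⟨_, rfl⟩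
  have h1 : (Eo hO (v a) ((Q u)⁻¹ • u) : V ≃ₗ[F] V) x = x - ((Q u)⁻¹ * β) • v a := by
    rw [Eo_perp hO (hv.q0 a) (w0 a) (hx a), polar_smul_left, smul_eq_mul, hβ]
  have h2 : (Eo hO (v (ng a)) u : V ≃ₗ[F] V) (x - ((Q u)⁻¹ * β) • v a) = x - ((Q u)⁻¹ * β) • u - ((Q u)⁻¹ * β) • v a := by
    rw [Eo_apply hO (hv.q0 _) (hu _)]
    have q1 : polar Q (v (ng a)) (x - ((Q u)⁻¹ * β) • v a) = -((Q u)⁻¹ * β) := by
      rw [polar_sub_right, polar_smul_right, hx (ng a), hv.pn']; simp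
    have q2 : polar Q u (x - ((Q u)⁻¹ * β) • v a) = β := by
      rw [polar_sub_right, polar_smul_right, polar_comm Q u (v a), hu a, ← hβ]; simp
    rw [q1, q2]
    have : Q u * -((Q u)⁻¹ * β) = -β := by field_simp
    rw [this]
    module
  rw [ws, Om_mul, Om_mul, h1, h2, Eo_apply hO (hv.q0 a) (w0 a)]
  have q1 : polar Q (v a) (x - ((Q u)⁻¹ * β) • u - ((Q u)⁻¹ * β) • v a) = 0 := by
    rw [polar_sub_right, polar_sub_right, polar_smul_right, polar_smul_right, hx a, hu a, hv.self]; simp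
  have q2 : polar Q ((Q u)⁻¹ • u) (x - ((Q u)⁻¹ * β) • u - ((Q u)⁻¹ * β) • v a) = -((Q u)⁻¹ * β) := by
    rw [polar_smul_left, polar_sub_right, polar_sub_right, polar_smul_right, polar_smul_right, polar_comm Q u (v a), hu a, polar_self', ← hβ]
    simp only [smul_eq_mul, mul_zero, sub_zero]
    field_simp
    ring
  rw [q1, q2, ← hβ]
  module

theorem ws_mon : Mon v (ws hO v a u) := by
  intro c
  by_cases h1 : c = a
  · rw [h1]; exact ⟨ng a, -Q u, neg_ne_zero.2 hu0, ws_a hv hO hu hu0⟩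
  by_cases h2 : c = ng a
  · rw [h2]; exact ⟨a, -(Q u)⁻¹, neg_ne_zero.2 (inv_ne_zero hu0), ws_na hv hO hu hu0⟩
  exact ⟨c, 1, one_ne_zero, by rw [one_smul]; exact ws_b hv hO hu h1 h2⟩

theorem ws_rho (c : Zs m) : rhO v (ws hO v a u) c = rf a a c := by
  by_cases h1 : c = a
  · rw [h1, rf_left (ng_ne a).symm]; exact rhO_eq hv (neg_ne_zero.2 hu0) (ws_a hv hO hu hu0)
  by_cases h2 : c = ng a
  · rw [h2, rf_ngleft (ng_ne a).symm]; exact rhO_eq hv (neg_ne_zero.2 (inv_ne_zero hu0)) (ws_na hv hO hu hu0)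
  rw [rf_other (ng_ne a).symm h1 h1 h2 h2]
  exact rhO_eq hv one_ne_zero (by rw [one_smul]; exact ws_b hv hO hu h1 h2)

omit hu0 in
theorem ws_mem : ws hO v a u ∈ LO hO hv a a := by
  have w0 : (Q u)⁻¹ • u ∈ V0 Q v := (V0 Q v).smul_mem _ hu
  have h1 : Eo hO (v a) ((Q u)⁻¹ • u) ∈ LO hO hv a a := (le_sup_left : _ ≤ LO hO hv a a) ((mem_XO_self hO hv).2 ⟨_, w0, rfl⟩)
  have h2 : Eo hO (v (ng a)) u ∈ LO hO hv a a := (le_sup_right : _ ≤ LO hO hv a a) ((mem_XO_self hO hv).2 ⟨_, hu, rfl⟩)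
  exact mul_mem (mul_mem h1 h2) h1

theorem ws_NB : ws hO v a u ∈ NB hv hk := by
  have hm := ws_mon hv hO hu hu0 (a := a)
  have hκ : algebraMap F K κ ≠ 0 := by rw [Ne, map_eq_zero]; exact hk.κ0
  have hθ : θ u ≠ 0 := fun h => hu0 (by rw [hk.inj u hu h]; exact QuadraticMap.map_zero Q)
  have hsθ : st (θ u) ≠ 0 := by
    intro h
    apply hθ
    rw [← hk.ss (θ u), h, hk.s0]
  refine ⟨hm, -(θ u * (st (θ u))⁻¹), neg_ne_zero.2 (mul_ne_zero hθ (inv_ne_zero hsθ)), fun x hx => ?_⟩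
  have e : sgO hv ⟨ws hO v a u, hm⟩ = -1 := by
    rw [sgO_of hv (ws_rho hv hO hu hu0), rf, if_pos rfl, Equiv.Perm.sign_swap (ng_ne a).symm]
  rw [e, Fe, if_neg (by decide), ws_u hv hO hu hu0 hx, map_sub, map_smul, Algebra.smul_def, map_mul, map_inv₀, hk.hq u hu, hk.polar hv hu x]
  field_simp
  ring

end nb

end Cfsg.Agent.Lib.MulOrth
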