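import Cfsg.Agent.Lib.MulOrthRH

/-! The prime-to-`p` part of the multiplier of the non-split groups `Ω(V)` (helper35). -/

set_option autoImplicit false

namespace Cfsg.Agent.Lib.MulOrth

open Cfsg.Agent.Lib.Quad Cfsg.Agent.Lib.ClOrthSiegel Cfsg.Agent.Lib.UCEBase QuadraticMap Module
open Cfsg.Agent.Lib.PresBC (Zs ng ng_ng ng_ne ng_inj lam lam_ng lam_ne lam_inj lam_eq eq_ng Rt Pos G PosE)
open Cfsg.Agent.Lib.RootLift (rf rf_left rf_right rf_ngleft rf_ngright rf_other RD PE)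
open Cfsg.Agent.Lib.RootLiftSp (rf_sf exists_raise al_be)
open Cfsg.Agent.Lib.PresSpMod (S2 Dg Ag)
open Cfsg.Agent.Lib.PresSpCore (up lo lam_inl lam_inr nxt nxt_ne sf sn sw sw_lam sw_pos sn_pos al be)
open Cfsg.Agent.Lib.SchurSylow

universe u

theorem B_ne {m : ℕ} (i : {i : Fin m // i.1 + 1 < m}) : (Sum.inr (nxt i) : Zs m) ≠ Sum.inl i.1 ∧ (Sum.inr (nxt i) : Zs m) ≠ ng (Sum.inl i.1) := by
  rw [Ne, Ne, eq_ng, lam_eq, lam_inl, lam_inr]
  have := (nxt i).2; have := i.2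
  have : (nxt i).1 = i.1.1 + 1 := rfl
  omega

section rdb
variable {F V K : Type*} [Field F] [AddCommGroup V] [Module F V] [FiniteDimensional F V] [Field K] [Algebra F K] {Q : QuadraticForm F V}
  {hQ : Nd Q} (hO : OH hQ) {m : ℕ} {v : Zs m → V} (hv : SF Q v) {st : K → K} {θ : V →ₗ[F] K} {κ : F} (hk : KD Q v st θ κ)

include hk in
/-- the short rank one groups fix the other vectors -/
theorem LO_fix {a : Zs m} {g : Om Q} (hg : g ∈ LO hO hv a a) {b : Zs m} (h1 : b ≠ a) (h2 : b ≠ ng a) : (g : V ≃ₗ[F] V) (v b) = v b := by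
  rw [← PsO_range hO hv hk] at hg
  obtain ⟨A, rfl⟩ := hg
  exact (PsO_As hO hv hk A).e1 b h1 h2

theorem one_short {a : Zs m} {y : Om Q} (hy : y ∈ XO hO hv (ng a) (ng a)) (hy1 : y ≠ 1) :
    ∃ x₁ ∈ XO hO hv a a, ∃ g ∈ NB hv hk, ∃ x₂ ∈ XO hO hv a a, y = x₁ * g * x₂ := by
  obtain ⟨u, hu, rfl⟩ := (mem_XO_self hO hv).1 hy
  have hu0 : Q u ≠ 0 := by
    intro h
    rw [hk.an hu h, Eo_zero] at hy1
    exact hy1 rfl
  have hw : Eo hO (v a) ((Q u)⁻¹ • u) ∈ XO hO hv a a := (mem_XO_self hO hv).2 ⟨_, (V0 Q v).smul_mem _ hu, rfl⟩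
  refine ⟨_, inv_mem hw, ws hO v a u, ws_NB hv hk hO hu hu0, _, inv_mem hw, ?_⟩
  rw [ws]; group

theorem one_long' {a b : Zs m} (hba : b ≠ a) (hab : b ≠ ng a) {y : Om Q} (hy : y ∈ XO hO hv (ng a) (ng b)) (hy1 : y ≠ 1) :
    ∃ x₁ ∈ XO hO hv a b, ∃ g ∈ NB hv hk, ∃ x₂ ∈ XO hO hv a b, y = x₁ * g * x₂ := by
  obtain ⟨t, rfl⟩ := (mem_XO_ne hO hv (ng_ng_ne hba) (by rw [ng_ng]; exact ng_ne_of' hab)).1 hy
  have ht : t ≠ 0 := by rintro rfl; rw [zero_smul, Eo_zero] at hy1; exact hy1 rfl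
  have hup : ∀ s : F, PhO hO hv hba hab (up s) ∈ XO hO hv a b := by
    intro s
    have := PhO_up hO hv hba hab (-s)
    rw [neg_neg] at this
    rw [this, mem_XO_ne hO hv hba hab]
    exact ⟨_, rfl⟩
  refine ⟨_, hup t⁻¹, PhO hO hv hba hab (Ag (Units.mk0 t ht)), ?_, _, hup t⁻¹, ?_⟩
  · exact Ac_NB hv hk hba hab (PhO_Ac hO hv hba hab _) (Or.inr ⟨rfl, rfl⟩)
  · rw [← PhO_lo hO hv hba hab, ← map_mul, ← map_mul]
    congr 1
    apply Subtype.ext
    show !![1, 0; t, 1] = !![1, t⁻¹; 0, 1] * !![0, -(((Units.mk0 t ht)⁻¹ : Fˣ) : F); ((Units.mk0 t ht : Fˣ) : F), 0] * !![1, t⁻¹; 0, 1]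
    ext i j
    fin_cases i <;> fin_cases j <;> simp [Matrix.mul_apply, Fin.sum_univ_two, ht]

include hk in
theorem NL_short {a : Zs m} {g : Om Q} (hg : Mon v g) (hgL : g ∈ LO hO hv a a) : (∀ c, rhO v g c = c) ∨ (∀ c, rhO v g c = rf a a c) := by
  have hne := (ng_ne a).symm
  have hoth : ∀ c, c ≠ a → c ≠ ng a → rhO v g c = c := fun c h1 h2 =>
    rhO_eq hv one_ne_zero (by rw [one_smul]; exact LO_fix hO hv hk hgL h1 h2)
  have ha : rhO v g a = a ∨ rhO v g a = ng a := by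
    by_contra hcon
    push Not at hcon
    exact hcon.1 (rhO_inj hv hg (hoth _ hcon.1 hcon.2))
  have hn := rhO_ng hv hg a
  rcases ha with h | h
  · left
    intro c
    by_cases h1 : c = a
    · rw [h1, h]
    by_cases h2 : c = ng a
    · rw [h2, hn, h]
    exact hoth c h1 h2
  · right
    intro c
    by_cases h1 : c = a
    · rw [h1, h, rf_left hne]
    by_cases h2 : c = ng a
    · rw [h2, hn, h, rf_ngleft hne, ng_ng]
    rw [hoth c h1 h2, rf_other hne h1 h1 h2 h2]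

/-- the Weyl elements -/
noncomputable def wB (hO : OH hQ) (hv : SF Q v) (l : Fin m) (u : V) : Option {i : Fin m // i.1 + 1 < m} → Om Q
  | none => ws hO v (Sum.inl l) u
  | some i => (exists_Ac hO hv (B_ne i).1 (B_ne i).2 (Ag 1)).choose

theorem wB_some (l : Fin m) (u : V) (i : {i : Fin m // i.1 + 1 < m}) :
    wB hO hv l u (some i) ∈ LO hO hv (Sum.inl i.1) (Sum.inr (nxt i)) ∧ Ac Q v (Sum.inl i.1) (Sum.inr (nxt i)) (Ag 1) (wB hO hv l u (some i)) :=
  (exists_Ac hO hv (B_ne i).1 (B_ne i).2 (Ag 1)).choose_spec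

variable {l : Fin m} (hl : l.1 + 1 = m) {u : V} (hu : u ∈ V0 Q v) (hu0 : Q u ≠ 0)

theorem wB_NB (hu : u ∈ V0 Q v) (hu0 : Q u ≠ 0) (i) : wB hO hv l u i ∈ NB hv hk := by
  rcases i with _ | i
  · exact ws_NB hv hk hO hu hu0
  · exact Ac_NB hv hk (B_ne i).1 (B_ne i).2 (wB_some hO hv l u i).2 (Or.inr ⟨rfl, rfl⟩)

include hv in
theorem wB_rho (hu : u ∈ V0 Q v) (hu0 : Q u ≠ 0) (hmon : ∀ i, Mon v (wB hO hv l u i)) (i) (c : Zs m) : rhO v (wB hO hv l u i) c = rf (al l i) (be l i) c := by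
  rcases i with _ | i
  · exact ws_rho hv hO hu hu0 c
  · rcases Ac_mono (B_ne i).2 (B_ne i).1 (wB_some hO hv l u i).2 (hmon (some i)) hv with h | h
    · exfalso
      have := h.1
      exact one_ne_zero this
    · exact h.2.2 c

include hl hu hu0 in
/-- the root datum of type `B` -/
theorem rdB {p : ℕ} [Fact p.Prime] [CharP F p] (nd0 : ∀ u ∈ V0 Q v, (∀ u' ∈ V0 Q v, polar Q u' u = 0) → u = 0) :
    RD p (XO hO hv) (NB hv hk) (rhO v) (al l) (be l) (wB hO hv l u) := by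
  have hmon : ∀ i, Mon v (wB hO hv l u i) := fun i => NB_le hv hk (wB_NB hO hv hk hu hu0 i)
  refine ⟨rtO hO hv, fun a b => XO_pg hO hv a b, fun a => rhO_one a hv, fun g hg h hh a => rhO_mul hv (NB_le hv hk hg) (NB_le hv hk hh) a,
    fun g hg a => rhO_ng hv (NB_le hv hk hg) a, fun g hg a b hab x hx => XO_act hO hv (NB_le hv hk hg) hab hx, ?_, ?_, ?_,
    fun i => wB_NB hO hv hk hu hu0 i, ?_, fun i c => wB_rho hO hv hu hu0 hmon i c, ?_, ?_, ?_, ?_, ?_⟩
  · intro g hg h hh h1 h2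
    have hgm := NB_le hv hk hg
    have hhm := NB_le hv hk hh
    apply ext_frame (hv := hv)
    · intro a
      rw [Om_mul, Om_mul, cf_spec hv hgm h1, cf_spec hv hhm h2, map_smul, map_smul, cf_spec hv hgm h1, cf_spec hv hhm h2, smul_smul, smul_smul, mul_comm]
    · intro x hx
      obtain ⟨t, -, ht⟩ := NB_lin hv hk hg h1
      obtain ⟨s, -, hs⟩ := NB_lin hv hk hh h2
      rw [Om_mul, Om_mul, ← sub_eq_zero]
      apply hk.inj
      · exact sub_mem (Mon.V0 hv hgm (Mon.V0 hv hhm hx)) (Mon.V0 hv hhm (Mon.V0 hv hgm hx))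
      · rw [map_sub, ht _ (Mon.V0 hv hhm hx), hs _ hx, hs _ (Mon.V0 hv hgm hx), ht _ hx]; ring
  · rintro (_ | i)
    · show Pos (Sum.inl l) (Sum.inl l)
      unfold Pos; rw [lam_inl]
      have := l.2
      omega
    · show Pos (Sum.inl i.1) (Sum.inr (nxt i))
      unfold Pos; rw [lam_inl, lam_inr]
      have := (nxt i).2; have := i.2
      have : (nxt i).1 = i.1.1 + 1 := rfl
      omega
  · rintro (_ | i)
    · show XO hO hv (Sum.inl l) (Sum.inl l) ≠ ⊥
      intro h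
      have h1 : Eo hO (v (Sum.inl l)) u ∈ XO hO hv (Sum.inl l) (Sum.inl l) := (mem_XO_self hO hv).2 ⟨u, hu, rfl⟩
      rw [h, Subgroup.mem_bot] at h1
      have h2 : (Eo hO (v (Sum.inl l)) u : V ≃ₗ[F] V) (v (ng (Sum.inl l))) = v (ng (Sum.inl l)) := by rw [h1]; rfl
      rw [Eo_apply hO (hv.q0 _) (hu _), hv.pn, polar_comm Q u, hu] at h2
      have h3 : u = Q u • v (Sum.inl l) := by
        have e : u - Q u • v (Sum.inl l) = 0 := by
          have := sub_eq_zero.2 h2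
          rw [← this]; module
        exact sub_eq_zero.1 e
      have h4 := hu (ng (Sum.inl l))
      rw [h3, polar_smul_right, hv.pn', smul_eq_mul, mul_one] at h4
      exact hu0 h4
    · exact XO_ne_bot hO hv (B_ne i).1 (B_ne i).2
  · rintro (_ | i)
    · exact ws_mem hv hO hu
    · exact (wB_some hO hv l u i).1
  · intro i a b h
    right
    rw [rf_sf, rf_sf]
    rcases i with _ | i
    · exact sn_pos l hl a b h
    · exact sw_pos i a b h
  · rintro (_ | i) y hy hy1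
    · exact one_short hO hv hk hy hy1
    · exact one_long' hO hv hk (B_ne i).1 (B_ne i).2 hy hy1
  · rintro (_ | i) g hg hgL
    · exact NL_short hO hv hk (NB_le hv hk hg) hgL
    · change g ∈ LO hO hv (Sum.inl i.1) (Sum.inr (nxt i)) at hgL
      rw [← PhO_range hO hv (B_ne i).1 (B_ne i).2] at hgL
      obtain ⟨A, rfl⟩ := hgL
      rcases Ac_mono (B_ne i).2 (B_ne i).1 (PhO_Ac hO hv (B_ne i).1 (B_ne i).2 A) (NB_le hv hk hg) hv with h | h
      · exact Or.inl h.2.2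
      · exact Or.inr h.2.2
  · intro g hg hgU
    exact NU_O hO hv (NB_le hv hk hg) hgU nd0
  · apply top_of hO hv _ _ _ hmon (fun i c => wB_rho hO hv hu hu0 hmon i c) (fun x hx h => hk.an hx h)
    intro a b hab hneg
    right
    obtain ⟨i, hi⟩ := exists_raise l hl a b hab hneg
    exact ⟨i, by rw [rf_sf, rf_sf]; exact hi⟩

end rdb

section cross
variable {F V K : Type u} [Field F] [AddCommGroup V] [Module F V] [FiniteDimensional F V] [Field K] [Algebra F K] {Q : QuadraticForm F V}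
  {hQ : Nd Q} (hO : OH hQ) {m : ℕ} {v : Zs m → V} (hv : SF Q v) {st : K → K} {θ : V →ₗ[F] K} {κ : F} (hk : KD Q v st θ κ)

include hO hv hk in
/-- the prime-to-`p` part -/
theorem crossB [Fintype F] [Finite K] {p r : ℕ} [hp : Fact p.Prime] [CharP F p] [hr : Fact r.Prime] (hrp : r ≠ p) (hm : 0 < m)
    (nd0 : ∀ u ∈ V0 Q v, (∀ u' ∈ V0 Q v, polar Q u' u = 0) → u = 0) :
    PStemDvd r (Om Q) (Nat.gcd 2 (Fintype.card F - 1)) := by
  classical
  obtain ⟨l, hl⟩ : ∃ l : Fin m, l.1 + 1 = m := ⟨⟨m - 1, by omega⟩, by simp; omega⟩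
  obtain ⟨u, hu, hu1⟩ := hk.surj 1
  have hu0 : Q u ≠ 0 := by
    intro h
    have := hk.an hu h
    rw [this, map_zero] at hu1
    exact zero_ne_one hu1
  have R := rdB hO hv hk hl hu hu0 nd0 (p := p)
  intro Γ _ _ σ hσ hσk
  have hM : Nat.gcd 2 (Fintype.card F - 1) ≠ 0 := (Nat.gcd_pos_of_pos_left _ (by norm_num)).ne'
  have hL : ∀ i, i ≠ none → PStemDvd r (XO hO hv (al l i) (be l i) ⊔ XO hO hv (ng (al l i)) (ng (be l i)) : Subgroup (Om Q)) 1 := by
    rintro (_ | i) hi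
    · exact absurd rfl hi
    · exact (MulPSp.sl2_cross hrp).congr (PhO_equiv hO hv (B_ne i).1 (B_ne i).2)
  have hb := R.card_ker_le2 hr.out hrp hσ hσk none hM hL (pstem_short hO hv hk hr.out hrp (Sum.inl l))
  -- the kernel
  set D : Option {i : Fin m // i.1 + 1 < m} → Subgroup (Om Q) := fun i => ((XO hO hv (al l i) (be l i) ⊔ XO hO hv (ng (al l i)) (ng (be l i))) ⊓ R.Dk : Subgroup (Om Q)) with hDdef
  have hDm : ∀ i, ∀ g ∈ D i, g ∈ LO hO hv (al l i) (be l i) ∧ Mon v g ∧ ∀ a, rhO v g a = a := fun i g hg => ⟨hg.1, NB_le hv hk hg.2.1, hg.2.2⟩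
  have hker : ∀ d : ∀ i, D i, Subgroup.noncommPiCoprod R.dcomm' d = 1 → d = 1 := by
    intro d hd
    have hprod : ∀ a, ∏ i, cf v (d i : Om Q) a = 1 := by
      intro a
      have h1 := ncp_act hv R.dcomm' (fun i g hg => (hDm i g hg).2) a d
      rw [hd] at h1
      have h2 := smul_v_inj hv (a := a) (b := a) (c := 1) one_ne_zero ((one_smul F (v a)).trans h1)
      exact h2.2.symm
    have hc := fun i : {i : Fin m // i.1 + 1 < m} => long_cf hO hv (B_ne i).1 (B_ne i).2 (hDm (some i) _ (d (some i)).2).1 (hDm (some i) _ (d (some i)).2).2.1 (hDm (some i) _ (d (some i)).2).2.2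
    -- factors from far away
    have hfar : ∀ (j : Fin m) (i : {i : Fin m // i.1 + 1 < m}), j ≠ i.1 → j.1 ≠ i.1.1 + 1 → cf v (d (some i) : Om Q) (Sum.inl j) = 1 := by
      intro j i h1 h2
      obtain ⟨t, -, -, -, -, -, h3, -⟩ := hc i
      apply h3
      · intro h; exact h1 (Sum.inl.inj h)
      · exact Sum.inl_ne_inr
      · exact Sum.inl_ne_inr
      · intro h
        have h' : (Sum.inl j : Zs m) = Sum.inl (nxt i) := h
        exact h2 (congrArg Fin.val (Sum.inl.inj h'))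
    have hfar0 : ∀ j : Fin m, j ≠ l → cf v (d none : Om Q) (Sum.inl j) = 1 := by
      intro j hj
      apply cf_eq hv
      rw [one_smul]
      exact LO_fix hO hv hk (hDm none _ (d none).2).1 (fun h => hj (Sum.inl.inj h)) Sum.inl_ne_inr
    have hsmall : ∀ (N : ℕ) (j : {i : Fin m // i.1 + 1 < m}), j.1.1 = N → (d (some j) : Om Q) = 1 := by
      intro N
      induction N using Nat.strong_induction_on with
      | _ N ih =>
        intro j hjN
        have h1 := hprod (Sum.inl j.1)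
        rw [Finset.prod_eq_single (some j)] at h1
        · obtain ⟨t, -, h2, -, -, -, -, h3⟩ := hc j
          exact h3 (h2.symm.trans h1)
        · rintro (_ | i) _ hi
          · exact hfar0 j.1 (fun h => by have := j.2; rw [h] at this; omega)
          · have hne : i.1.1 ≠ j.1.1 := fun h => hi (by rw [Subtype.ext (Fin.ext h) (a1 := i) (a2 := j)])
            by_cases hlt : i.1.1 < j.1.1
            · rw [ih i.1.1 (by omega) i rfl]; exact cf_one hv _
            · exact hfar _ _ (fun h => hne (by rw [h])) (by omega)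
        · intro h; exact absurd (Finset.mem_univ _) h
    have e : d = Pi.mulSingle none (d none) := by
      funext i
      rcases i with _ | i
      · rw [Pi.mulSingle_eq_same]
      · rw [Pi.mulSingle_eq_of_ne (by simp)]
        exact Subtype.ext (hsmall _ i rfl)
    rw [e, Subgroup.noncommPiCoprod_mulSingle] at hd
    have h0 : d none = 1 := Subtype.ext hd
    rw [e, h0, Pi.mulSingle_one]
  have hbot : Nat.card (Subgroup.noncommPiCoprod R.dcomm').ker = 1 := by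
    rw [Subgroup.card_eq_one, eq_bot_iff]
    intro d hd
    exact Subgroup.mem_bot.2 (hker d hd)
  rw [hbot, mul_one] at hb
  have hpos : 0 < Nat.card σ.ker := Nat.card_pos
  rcases (Nat.dvd_prime Nat.prime_two).1 (Nat.gcd_dvd_left 2 (Fintype.card F - 1)) with h | h
  · rw [h] at hb ⊢
    rw [show Nat.card σ.ker = 1 by omega]
  · rw [h] at hb ⊢
    have : Nat.card σ.ker = 1 ∨ Nat.card σ.ker = 2 := by omega
    rcases this with h | h <;> rw [h]
    exact one_dvd _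

end cross

end Cfsg.Agent.Lib.MulOrth
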