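import Cfsg.Agent.Lib.MulOrthB

/-! Lifting a Sylow subgroup in the defining characteristic of an orthogonal group (helper35). -/

set_option autoImplicit false

namespace Cfsg.Agent.Lib.MulOrth

open Cfsg.Agent.Lib.Quad Cfsg.Agent.Lib.ClOrthSiegel Cfsg.Agent.Lib.UCEBase QuadraticMap Module
open Cfsg.Agent.Lib.PresBC (Zs ng ng_ng ng_ne ng_inj)

universe u

section gen
variable {Γ G : Type*} [Group Γ] [Group G] {σ : Γ →* G}

theorem sup_gen [Finite Γ] {p : ℕ} [Fact p.Prime] {D S : Subgroup Γ}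
    (hD : D ⊓ σ.ker = ⊥) (hDp : IsPGroup p D) (hDn : ∀ g ∈ S, ∀ d ∈ D, g * d * g⁻¹ ∈ D)
    (hS : S ⊓ σ.ker = ⊥) (hSp : IsPGroup p S) (htr : ∀ s ∈ S, ∀ d ∈ D, σ s = σ d → σ s = 1) :
    IsPGroup p (S ⊔ D : Subgroup Γ) ∧ (S ⊔ D) ⊓ σ.ker = ⊥ ∧ Nat.card D * Nat.card S ≤ Nat.card (S ⊔ D : Subgroup Γ) := by
  have hcp : IsPGroup p (S ⊔ D : Subgroup Γ) := RootLift.pg_sup hSp hDp hDn
  -- elements of the product
  have hmem : ∀ x ∈ S ⊔ D, ∃ s ∈ S, ∃ d ∈ D, x = s * d := by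
    intro x hx
    let T : Subgroup Γ :=
      { carrier := {x | ∃ s ∈ S, ∃ d ∈ D, x = s * d}
        one_mem' := ⟨1, one_mem _, 1, one_mem _, by rw [mul_one]⟩
        mul_mem' := by
          rintro _ _ ⟨s, hs, d, hd, rfl⟩ ⟨s', hs', d', hd', rfl⟩
          refine ⟨s * s', mul_mem hs hs', s'⁻¹ * d * s'⁻¹⁻¹ * d', mul_mem (hDn s'⁻¹ (inv_mem hs') d hd) hd', by group⟩
        inv_mem' := by
          rintro _ ⟨s, hs, d, hd, rfl⟩
          exact ⟨s⁻¹, inv_mem hs, s * d⁻¹ * s⁻¹, hDn s hs _ (inv_mem hd), by group⟩ }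
    have hle : S ⊔ D ≤ T := sup_le (fun s hs => ⟨s, hs, 1, one_mem _, by rw [mul_one]⟩) (fun d hd => ⟨1, one_mem _, d, hd, by rw [one_mul]⟩)
    exact hle hx
  have htriv : ∀ s ∈ S, ∀ d ∈ D, σ s = σ d → s = 1 ∧ d = 1 := by
    intro s hs d hd h
    have h1 : σ s = 1 := htr s hs d hd h
    have h2 : s ∈ S ⊓ σ.ker := ⟨hs, h1⟩
    have h3 : d ∈ D ⊓ σ.ker := ⟨hd, h.symm.trans h1⟩
    rw [hS] at h2
    rw [hD] at h3
    exact ⟨h2, h3⟩
  refine ⟨hcp, ?_, ?_⟩
  · rw [eq_bot_iff]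
    rintro x ⟨hx, hx1⟩
    obtain ⟨s, hs, d, hd, rfl⟩ := hmem x hx
    have h1 : σ s = σ d⁻¹ := by
      have : σ (s * d) = 1 := hx1
      rw [map_mul] at this
      rw [map_inv]; exact mul_eq_one_iff_eq_inv.1 this
    obtain ⟨h2, h3⟩ := htriv s hs d⁻¹ (inv_mem hd) h1
    rw [Subgroup.mem_bot, h2, inv_eq_one.1 h3, mul_one]
  · rw [← Nat.card_prod]
    refine Nat.card_le_card_of_injective (fun q => (⟨q.2 * q.1, mul_mem (Subgroup.mem_sup_left q.2.2) (Subgroup.mem_sup_right q.1.2)⟩ : (S ⊔ D : Subgroup Γ))) ?_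
    rintro ⟨⟨d, hd⟩, ⟨s, hs⟩⟩ ⟨⟨d', hd'⟩, ⟨s', hs'⟩⟩ h
    have h1 : s * d = s' * d' := congrArg Subtype.val h
    have h2 : s'⁻¹ * s = d' * d⁻¹ := by
      calc s'⁻¹ * s = s'⁻¹ * (s * d) * d⁻¹ := by group
        _ = _ := by rw [h1]; group
    obtain ⟨h3, h4⟩ := htriv _ (mul_mem (inv_mem hs') hs) _ (mul_mem hd' (inv_mem hd)) (congrArg σ h2)
    have h5 : s' = s := inv_mul_eq_one.1 h3
    have h6 : d' = d := mul_inv_eq_one.1 h4
    subst h5; subst h6; rfl

end gen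

section syl
variable {F V : Type*} [Field F] [AddCommGroup V] [Module F V] [FiniteDimensional F V] {Q : QuadraticForm F V}
  {hQ : Nd Q} (hO : OH hQ) {m : ℕ} {v : Zs m → V} (hv : SF Q v) {Γ : Type*} [Group Γ] {σ : Γ →* Om Q}

theorem Eo_pow {z y : V} (hy : polar Q z y = 0) (n : ℕ) : Eo hO z y ^ n = Eo hO z (n • y) := by
  have : ∀ n : ℕ, Eo hO z y ^ n = Eo hO z (n • y) ∧ polar Q z (n • y) = 0 := by
    intro n
    induction n with
    | zero => rw [pow_zero, zero_smul, Eo_zero]; exact ⟨rfl, by simp⟩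
    | succ n ih =>
      refine ⟨?_, ?_⟩
      · rw [pow_succ, ih.1, Eo_add hO ih.2 hy, succ_nsmul]
      · rw [succ_nsmul, polar_add_right, ih.2, hy, add_zero]
  exact (this n).1

theorem DZ.pgroup {p : ℕ} [Fact p.Prime] [CharP F p] {z : V} {D : Subgroup Γ} (hD : DZ hO σ z D) : IsPGroup p D := by
  rintro ⟨d, hd⟩
  refine ⟨1, ?_⟩
  apply Subtype.ext
  show d ^ p ^ 1 = 1
  rw [pow_one]
  obtain ⟨y, h1, h2⟩ := hD.mem d hd
  have h3 : d ^ p ∈ D ⊓ σ.ker := by
    refine ⟨pow_mem hd p, ?_⟩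
    show σ (d ^ p) = 1
    rw [map_pow, h2, Eo_pow hO h1, ← Nat.cast_smul_eq_nsmul F, CharP.cast_eq_zero, zero_smul, Eo_zero]
  rw [hD.inf] at h3
  exact h3

/-- orthogonal to the first `j` planes -/
def Uj (Q : QuadraticForm F V) (v : Zs m → V) (j : ℕ) : Submodule F V where
  carrier := {x | ∀ i : Fin m, i.val < j → polar Q (v (Sum.inl i)) x = 0 ∧ polar Q (v (Sum.inr i)) x = 0}
  add_mem' := fun h1 h2 i hi => ⟨by rw [polar_add_right, (h1 i hi).1, (h2 i hi).1, add_zero], by rw [polar_add_right, (h1 i hi).2, (h2 i hi).2, add_zero]⟩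
  zero_mem' := by simp
  smul_mem' := fun c x h i hi => ⟨by rw [polar_smul_right, (h i hi).1, smul_zero], by rw [polar_smul_right, (h i hi).2, smul_zero]⟩

theorem card_Uj [Finite F] (j : ℕ) : Nat.card V ≤ Nat.card (Uj Q v j) * Nat.card F ^ (2 * j) := by
  haveI : Finite V := Module.finite_of_finite F
  let L : V →ₗ[F] (Fin j → F × F) := LinearMap.pi (fun i => if h : i.val < m then
    LinearMap.prod (polarBilin Q (v (Sum.inl ⟨i.val, h⟩))) (polarBilin Q (v (Sum.inr ⟨i.val, h⟩))) else 0)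
  have h1 : LinearMap.ker L ≤ Uj Q v j := by
    intro x hx i hi
    have h2 := congrFun (LinearMap.mem_ker.1 hx) ⟨i.val, hi⟩
    simp only [L, LinearMap.pi_apply, i.2, dif_pos] at h2
    exact ⟨congrArg Prod.fst h2, congrArg Prod.snd h2⟩
  have h2 : Nat.card V = Nat.card (LinearMap.ker L) * Nat.card (LinearMap.range L) := by
    have := Submodule.card_eq_card_quotient_mul_card (LinearMap.ker L)
    rw [this]
    congr 1
    exact Nat.card_congr (LinearMap.quotKerEquivRange L).toEquiv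
  have h3 : Nat.card (LinearMap.range L) ≤ Nat.card F ^ (2 * j) := by
    have h4 : Nat.card (Fin j → F × F) = Nat.card F ^ (2 * j) := by
      rw [Nat.card_fun, Nat.card_prod, Nat.card_fin, ← pow_two, ← pow_mul]
    rw [← h4]
    exact Nat.card_le_card_of_injective _ Subtype.val_injective
  rw [h2]
  exact Nat.mul_le_mul (Nat.card_le_card_of_injective _ (Submodule.inclusion_injective h1)) h3

include hv in
theorem exists_syl [Finite Γ] [Finite F] {p : ℕ} [Fact p.Prime] [CharP F p] (hD : ∀ i : Fin m, ∃ D, DZ hO σ (v (Sum.inl i)) D) {d₀ : ℕ}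
    (hV : Nat.card F ^ (2 * m + d₀) ≤ Nat.card V) (k : ℕ) (hk : k ≤ m) :
    ∃ S : Subgroup Γ, S ⊓ σ.ker = ⊥ ∧ IsPGroup p S ∧
      (∀ s ∈ S, ∀ i : Fin m, i.val < m - k → (σ s : V ≃ₗ[F] V) (v (Sum.inl i)) = v (Sum.inl i) ∧ (σ s : V ≃ₗ[F] V) (v (Sum.inr i)) = v (Sum.inr i)) ∧
      Nat.card F ^ (k * (k - 1) + k * d₀) ≤ Nat.card S := by
  haveI : Finite V := Module.finite_of_finite F
  induction k with
  | zero =>
    refine ⟨⊥, by simp, IsPGroup.of_bot, ?_, by simp⟩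
    intro s hs i hi
    rw [Subgroup.mem_bot.1 hs, map_one]; exact ⟨rfl, rfl⟩
  | succ k ih =>
    obtain ⟨S, hS1, hS2, hS3, hS4⟩ := ih (by omega)
    obtain ⟨j, hj⟩ : ∃ j : Fin m, j.val = m - (k + 1) := ⟨⟨m - (k + 1), by omega⟩, rfl⟩
    obtain ⟨D, hDZ⟩ := hD j
    obtain ⟨a, ha⟩ : ∃ a : Zs m, a = Sum.inl j := ⟨_, rfl⟩
    have hna : ng a = Sum.inr j := by rw [ha]; rfl
    have hU : ∀ y ∈ Uj Q v (m - k), polar Q (v a) y = 0 ∧ polar Q (v (ng a)) y = 0 := by
      intro y hy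
      have := hy j (by omega)
      rw [hna, ha]; exact this
    rw [← ha] at hDZ
    let D' : Subgroup Γ :=
      { carrier := {d | d ∈ D ∧ ∃ y ∈ Uj Q v (m - k), σ d = Eo hO (v a) y}
        one_mem' := ⟨one_mem _, 0, zero_mem _, by rw [map_one, Eo_zero]⟩
        mul_mem' := by
          rintro d d' ⟨h1, y, h2, h3⟩ ⟨h1', y', h2', h3'⟩
          exact ⟨mul_mem h1 h1', y + y', add_mem h2 h2', by rw [map_mul, h3, h3', Eo_add hO (hU y h2).1 (hU y' h2').1]⟩
        inv_mem' := by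
          rintro d ⟨h1, y, h2, h3⟩
          exact ⟨inv_mem h1, -y, neg_mem h2, by rw [map_inv, h3, Eo_inv hO (hU y h2).1]⟩ }
    have hle : D' ≤ D := fun d hd => hd.1
    have hDinf : D' ⊓ σ.ker = ⊥ := by
      rw [eq_bot_iff, ← hDZ.inf]; exact inf_le_inf_right _ hle
    have hDp : IsPGroup p D' := (hDZ.pgroup hO (p := p)).to_le hle
    have hSfix : ∀ s ∈ S, (σ s : V ≃ₗ[F] V) (v a) = v a ∧ (σ s : V ≃ₗ[F] V) (v (ng a)) = v (ng a) := by
      intro s hs
      have := hS3 s hs j (by omega)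
      rw [hna, ha]; exact this
    have hDn : ∀ g ∈ S, ∀ d ∈ D', g * d * g⁻¹ ∈ D' := by
      rintro g hg d ⟨h1, y, h2, h3⟩
      refine ⟨hDZ.nor g (hSfix g hg).1 d h1, (σ g : V ≃ₗ[F] V) y, ?_, ?_⟩
      · intro i hi
        obtain ⟨k1, k2⟩ := hS3 g hg i hi
        obtain ⟨l1, l2⟩ := h2 i hi
        refine ⟨?_, ?_⟩
        · have := OmP (σ g) (v (Sum.inl i)) y
          rwa [k1, l1] at this
        · have := OmP (σ g) (v (Sum.inr i)) y
          rwa [k2, l2] at this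
      · rw [map_mul, map_mul, map_inv, h3, Eo_conj, (hSfix g hg).1]
    have hinj : ∀ y ∈ Uj Q v (m - k), (Eo hO (v a) y : V ≃ₗ[F] V) (v (ng a)) = v (ng a) → y = 0 := by
      intro y hy h
      rw [Eo_apply hO (hv.q0 a) (hU y hy).1, hv.pn, one_smul, mul_one, polar_comm Q y, (hU y hy).2, zero_smul, sub_zero] at h
      have h5 : y = Q y • v a := by
        rw [← sub_eq_zero]
        have h6 : v (ng a) + y - Q y • v a - v (ng a) = 0 := by rw [h, sub_self]
        rw [← h6]; abel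
      have h7 : Q y = 0 := by
        have := (hU y hy).2
        rw [h5, polar_smul_right, hv.pn'] at this
        simpa using this
      rw [h5, h7, zero_smul]
    have htr : ∀ s ∈ S, ∀ d ∈ D', σ s = σ d → σ s = 1 := by
      rintro s hs d ⟨h1, y, h2, h3⟩ h
      rw [h, h3]
      rw [hinj y h2 (by rw [← h3, ← h]; exact (hSfix s hs).2), Eo_zero]
    obtain ⟨c1, c2, c3⟩ := sup_gen hDinf hDp hDn hS1 hS2 htr
    refine ⟨S ⊔ D', c2, c1, ?_, ?_⟩
    · -- fixed vectors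
      intro s hs
      let X : Subgroup Γ :=
        { carrier := {s | ∀ i : Fin m, i.val < m - (k + 1) → (σ s : V ≃ₗ[F] V) (v (Sum.inl i)) = v (Sum.inl i) ∧ (σ s : V ≃ₗ[F] V) (v (Sum.inr i)) = v (Sum.inr i)}
          one_mem' := fun i _ => by rw [map_one]; exact ⟨rfl, rfl⟩
          mul_mem' := by
            intro s s' h h' i hi
            rw [map_mul, Om_mul, Om_mul, (h' i hi).1, (h' i hi).2, (h i hi).1, (h i hi).2]
            exact ⟨rfl, rfl⟩
          inv_mem' := by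
            intro s h i hi
            rw [map_inv]
            exact ⟨Om_inv_of (h i hi).1, Om_inv_of (h i hi).2⟩ }
      have hX : S ⊔ D' ≤ X := by
        refine sup_le ?_ ?_
        · intro s hs i hi
          exact hS3 s hs i (by omega)
        · rintro d ⟨h1, y, h2, h3⟩ i hi
          have hij : i ≠ j := by rintro rfl; omega
          rw [h3]
          have l := h2 i (by omega)
          refine ⟨Eo_fix hO (hv.q0 a) (hU y h2).1 (hv.p0 ?_) (by rw [polar_comm]; exact l.1), Eo_fix hO (hv.q0 a) (hU y h2).1 (hv.p0 ?_) (by rw [polar_comm]; exact l.2)⟩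
          · rw [hna]; exact Sum.inl_ne_inr
          · rw [hna]; intro h; exact hij (Sum.inr_injective h)
      exact hX hs
    · -- cardinality
      have hcD : Nat.card F ^ (2 * k + d₀) ≤ Nat.card D' := by
        have h1 : Nat.card (Uj Q v (m - k)) ≤ Nat.card D' := by
          have hch : ∀ y : Uj Q v (m - k), ∃ d : D', σ d = Eo hO (v a) y := by
            intro y
            obtain ⟨d, hd, hd'⟩ := hDZ.sur y (hU y y.2).1
            exact ⟨⟨d, hd, y, y.2, hd'⟩, hd'⟩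
          choose fd hfd using hch
          refine Nat.card_le_card_of_injective fd ?_
          intro y y' h
          have h2 : Eo hO (v a) y = Eo hO (v a) y' := by rw [← hfd, ← hfd, h]
          have h3 : Eo hO (v a) ((y : V) - y') = 1 := by
            rw [sub_eq_add_neg, ← Eo_add hO (hU y y.2).1 (by rw [polar_neg_right, (hU y' y'.2).1, neg_zero]), h2, ← Eo_inv hO (hU y' y'.2).1, mul_inv_cancel]
          apply Subtype.ext
          rw [← sub_eq_zero]
          apply hinj _ (sub_mem y.2 y'.2)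
          rw [h3]; rfl
        refine le_trans ?_ h1
        have h2 := card_Uj (Q := Q) (v := v) (m - k)
        have h3 := hV.trans h2
        have h4 : 2 * m + d₀ = (2 * k + d₀) + 2 * (m - k) := by omega
        rw [h4, pow_add] at h3
        exact Nat.le_of_mul_le_mul_right h3 (pow_pos Nat.card_pos _)
      refine le_trans ?_ c3
      refine le_trans ?_ (Nat.mul_le_mul hcD hS4)
      rw [← pow_add]
      apply le_of_eq
      congr 1
      rcases k with _ | k
      · simp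
      · simp only [Nat.add_sub_cancel]; ring

end syl

/-- **the defining characteristic part of the multiplier is trivial** -/
theorem ker_bot {F V : Type u} [Field F] [AddCommGroup V] [Module F V] [FiniteDimensional F V] {Q : QuadraticForm F V}
    {hQ : Nd Q} (hO : OH hQ) {m : ℕ} {v : Zs m → V} (hv : SF Q v) {Γ : Type u} [Group Γ] {σ : Γ →* Om Q} [Finite Γ] [Finite F] {p : ℕ} [Fact p.Prime] [CharP F p]
    (hσ : IsStemExtension σ) (hp : IsPGroup p σ.ker) (hD : ∀ i : Fin m, ∃ D, DZ hO σ (v (Sum.inl i)) D) {d₀ : ℕ}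
    (hV : Nat.card F ^ (2 * m + d₀) ≤ Nat.card V)
    (hidx : ∀ P : Subgroup (Om Q), IsPGroup p P → Nat.card F ^ (m * (m - 1) + m * d₀) ≤ Nat.card P → ¬ p ∣ P.index) : σ.ker = ⊥ := by
  obtain ⟨S, h1, h2, -, h4⟩ := exists_syl hO hv (p := p) hD hV m le_rfl
  apply MulSp.ker_eq_bot_of_lift hσ hp h1
  apply hidx
  · exact h2.map σ
  · rw [MulSp.card_map_of_inf h1]; exact h4

end Cfsg.Agent.Lib.MulOrth
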