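import Cfsg.Agent.Lib.MulOrthD
import Cfsg.Agent.Lib.MulOrthS

/-! Canonical lifts of the long root elements of orthogonal groups over small fields (helper35). -/

set_option autoImplicit false

namespace Cfsg.Agent.Lib.MulOrth

open Cfsg.Agent.Lib.Quad Cfsg.Agent.Lib.ClOrthSiegel Cfsg.Agent.Lib.UCEBase QuadraticMap Module
open Cfsg.Agent.Lib.PresBC (Zs ng ng_ng ng_ne ng_inj)

section P
variable {F V : Type*} [Field F] [AddCommGroup V] [Module F V]

/-- bases of totally singular lines -/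
structure P2 (Q : QuadraticForm F V) (z w : V) : Prop where
  qz : Q z = 0
  qw : Q w = 0
  zw : polar Q z w = 0
  li : ∀ α β : F, α • z + β • w = 0 → α = 0 ∧ β = 0

/-- bases of totally singular planes -/
structure P3 (Q : QuadraticForm F V) (z w w' : V) : Prop where
  qz : Q z = 0
  qw : Q w = 0
  qw' : Q w' = 0
  zw : polar Q z w = 0
  zw' : polar Q z w' = 0
  ww' : polar Q w w' = 0
  li : ∀ α β γ : F, α • z + β • w + γ • w' = 0 → α = 0 ∧ β = 0 ∧ γ = 0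

variable {Q : QuadraticForm F V} {z w w' : V}

theorem P3.p2 (h : P3 Q z w w') : P2 Q z w := ⟨h.qz, h.qw, h.zw, fun α β e => by
  have := h.li α β 0 (by rw [e, zero_smul, add_zero]); exact ⟨this.1, this.2.1⟩⟩
theorem P3.p2' (h : P3 Q z w w') : P2 Q z w' := ⟨h.qz, h.qw', h.zw', fun α β e => by
  have := h.li α 0 β (by rw [zero_smul, add_zero, e]); exact ⟨this.1, this.2.2⟩⟩
theorem P3.p2a (h : P3 Q z w w') : P2 Q z (w + w') := ⟨h.qz, by rw [Q_add, h.qw, h.qw', h.ww']; simp, by rw [polar_add_right, h.zw, h.zw', add_zero], fun α β e => by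
  have := h.li α β β (by rw [← e, smul_add, add_assoc]); exact ⟨this.1, this.2.1⟩⟩
theorem P3.swap (h : P3 Q z w w') : P3 Q z w' w := ⟨h.qz, h.qw', h.qw, h.zw', h.zw, by rw [polar_comm, h.ww'], fun α β γ e => by
  have := h.li α γ β (by rw [← e]; abel); exact ⟨this.1, this.2.2, this.2.1⟩⟩

theorem P2.smul_left (h : P2 Q z w) {c : F} (hc : c ≠ 0) : P2 Q (c • z) w := ⟨by rw [Q_smul, h.qz, mul_zero], h.qw, by rw [polar_smul_left, h.zw, smul_zero], fun α β e => by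
  have := h.li (α * c) β (by rw [mul_smul, e]); exact ⟨(mul_eq_zero.1 this.1).resolve_right hc, this.2⟩⟩
theorem P2.smul_right (h : P2 Q z w) {c : F} (hc : c ≠ 0) : P2 Q z (c • w) := ⟨h.qz, by rw [Q_smul, h.qw, mul_zero], by rw [polar_smul_right, h.zw, smul_zero], fun α β e => by
  have := h.li α (β * c) (by rw [mul_smul, e]); exact ⟨this.1, (mul_eq_zero.1 this.2).resolve_right hc⟩⟩
theorem P2.shift (h : P2 Q z w) (c : F) : P2 Q z (w + c • z) := ⟨h.qz, by rw [Q_add, Q_smul, h.qz, h.qw, polar_smul_right, polar_comm, h.zw]; simp,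
  by rw [polar_add_right, polar_smul_right, polar_self', h.zw, h.qz]; simp, fun α β e => by
  have := h.li (α + β * c) β (by rw [← e, smul_add, smul_smul, add_smul]; abel)
  exact ⟨by have h1 := this.1; rw [this.2, zero_mul, add_zero] at h1; exact h1, this.2⟩⟩

theorem P2.map (h : P2 Q z w) (g : Om Q) : P2 Q ((g : V ≃ₗ[F] V) z) ((g : V ≃ₗ[F] V) w) :=
  ⟨by rw [Om_le_O g.2, h.qz], by rw [Om_le_O g.2, h.qw], by rw [O_polar (Om_le_O g.2), h.zw], fun α β e => by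
    apply h.li
    rw [← map_smul, ← map_smul, ← map_add] at e
    exact (LinearEquiv.map_eq_zero_iff _).1 e⟩

theorem P3.map (h : P3 Q z w w') (g : Om Q) : P3 Q ((g : V ≃ₗ[F] V) z) ((g : V ≃ₗ[F] V) w) ((g : V ≃ₗ[F] V) w') :=
  ⟨by rw [Om_le_O g.2, h.qz], by rw [Om_le_O g.2, h.qw], by rw [Om_le_O g.2, h.qw'], by rw [O_polar (Om_le_O g.2), h.zw], by rw [O_polar (Om_le_O g.2), h.zw'],
    by rw [O_polar (Om_le_O g.2), h.ww'], fun α β γ e => by
    apply h.li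
    rw [← map_smul, ← map_smul, ← map_smul, ← map_add, ← map_add] at e
    exact (LinearEquiv.map_eq_zero_iff _).1 e⟩

/-- in the third vector, modulo the others -/
theorem P3.smul (h : P3 Q z w w') {c d : F} (hc : c ≠ 0) (hd : d ≠ 0) : P3 Q z (c • w) (d • w') :=
  ⟨h.qz, by rw [Q_smul, h.qw, mul_zero], by rw [Q_smul, h.qw', mul_zero], by rw [polar_smul_right, h.zw, smul_zero], by rw [polar_smul_right, h.zw', smul_zero],
    by rw [polar_smul_left, polar_smul_right, h.ww', smul_zero, smul_zero], fun α β γ e => by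
    have := h.li α (β * c) (γ * d) (by rw [← e, smul_smul, smul_smul])
    exact ⟨this.1, (mul_eq_zero.1 this.2.1).resolve_right hc, (mul_eq_zero.1 this.2.2).resolve_right hd⟩⟩

variable {m : ℕ} {v : Zs m → V} (hv : SF Q v)

include hv in
theorem P3_frame {a b d : Zs m} (hba : b ≠ a) (hab : b ≠ ng a) (d1 : d ≠ a) (d2 : d ≠ ng a) (d3 : d ≠ b) (d4 : d ≠ ng b) : P3 Q (v a) (v b) (v d) := by
  refine ⟨hv.q0 _, hv.q0 _, hv.q0 _, hv.p0 hab, hv.p0 d2, hv.p0 d4, fun α β γ e => ?_⟩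
  have h1 := congrArg (polar Q (v (ng a))) e
  have h2 := congrArg (polar Q (v (ng b))) e
  have h3 := congrArg (polar Q (v (ng d))) e
  simp only [polar_add_right, polar_smul_right, smul_eq_mul, hv.pn'] at h1 h2 h3
  rw [hv.p0 (a := ng a) (b := b) (by rw [ng_ng]; exact hba), hv.p0 (a := ng a) (b := d) (by rw [ng_ng]; exact d1)] at h1
  rw [hv.p0 (a := ng b) (b := a) (by rw [ng_ng]; exact hba.symm), hv.p0 (a := ng b) (b := d) (by rw [ng_ng]; exact d3)] at h2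
  rw [hv.p0 (a := ng d) (b := a) (by rw [ng_ng]; exact d1.symm), hv.p0 (a := ng d) (b := b) (by rw [ng_ng]; exact d3.symm)] at h3
  simp at h1 h2 h3
  exact ⟨h1, h2, h3⟩

end P

section tr
variable {F V : Type*} [Field F] [AddCommGroup V] [Module F V] [FiniteDimensional F V] {Q : QuadraticForm F V} {m : ℕ} {v : Zs m → V} (hv : SF Q v)

include hv in
theorem fixup [Finite F] (hQ : Nd Q) (hgen : GenHyp Q) {h : V ≃ₗ[F] V} (hh : h ∈ O Q) (d : Zs m) {x₀ : V} (hx₀ : Q x₀ ≠ 0) :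
    ∃ g : Om Q, ∃ c : F, c ≠ 0 ∧ ∀ x, polar Q x₀ x = 0 → polar Q x₀ (tr Q v d c x) = 0 → (g : V ≃ₗ[F] V) x = h (tr Q v d c x) := by
  rw [← hQ.R_eq_O hgen] at hh
  obtain ⟨vs, hvs, hvh⟩ := exists_list_of_mem_R hh
  obtain ⟨vs', hvs', heven, hvh'⟩ : ∃ vs' : List V, (∀ u ∈ vs', Q u ≠ 0) ∧ Even vs'.length ∧ ∀ x, polar Q x₀ x = 0 → (vs'.map (refl Q)).prod x = h x := by
    by_cases he : Even vs.length
    · exact ⟨vs, hvs, he, fun x _ => by rw [hvh]⟩
    · refine ⟨vs ++ [x₀], ?_, ?_, ?_⟩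
      · intro u hu
        rcases List.mem_append.1 hu with hu | hu
        · exact hvs u hu
        · rw [List.mem_singleton.1 hu]; exact hx₀
      · rw [List.length_append, List.length_singleton]
        exact (Nat.not_even_iff_odd.1 he).add_odd odd_one
      · intro x hx
        rw [List.map_append, List.prod_append, hvh]
        show (vs.map (refl Q)).prod ((([x₀].map (refl Q)).prod) x) = _
        rw [List.map_singleton, List.prod_singleton, refl_of_perp hx]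
  obtain ⟨P, hP⟩ : ∃ P, P = (vs'.map Q).prod := ⟨_, rfl⟩
  have hP0 : P ≠ 0 := by
    rw [hP, Ne, List.prod_eq_zero_iff]
    intro h
    obtain ⟨u, hu, hu0⟩ := List.mem_map.1 h
    exact hvs' u hu hu0
  have hmem : ((vs' ++ [v d - (1 : F) • v (ng d), v d - P • v (ng d)]).map (refl Q)).prod ∈ Om Q := by
    rw [hQ.list_mem_Om_iff hgen]
    · refine ⟨?_, ?_⟩
      · rw [List.length_append]
        exact heven.add (show Even 2 from even_two)
      · refine ⟨P, ?_⟩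
        rw [List.map_append, List.prod_append, ← hP, List.map_cons, List.map_singleton, List.prod_cons, List.prod_singleton, Q_pm hv, Q_pm hv]
        ring
    · intro u hu
      rcases List.mem_append.1 hu with hu | hu
      · exact hvs' u hu
      · rcases List.mem_cons.1 hu with rfl | hu
        · rw [Q_pm hv]; exact neg_ne_zero.2 one_ne_zero
        · rw [List.mem_singleton.1 hu, Q_pm hv]; exact neg_ne_zero.2 hP0
  refine ⟨⟨_, hmem⟩, P, hP0, fun x hx hx' => ?_⟩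
  show ((vs' ++ [v d - (1 : F) • v (ng d), v d - P • v (ng d)]).map (refl Q)).prod x = _
  rw [List.map_append, List.prod_append, List.map_cons, List.map_singleton, List.prod_cons, List.prod_singleton]
  show (vs'.map (refl Q)).prod (tr Q v d P x) = _
  rw [hvh' _ hx']

include hv in
theorem tr3 [Finite F] (hQ : Nd Q) (hgen : GenHyp Q) {a b d : Zs m} (hba : b ≠ a) (hab : b ≠ ng a) (d1 : d ≠ a) (d2 : d ≠ ng a) (d3 : d ≠ b) (d4 : d ≠ ng b)
    {x₀ : V} (hx₀ : Q x₀ ≠ 0) (xa : polar Q x₀ (v a) = 0) (xb : polar Q x₀ (v b) = 0) (xd : polar Q x₀ (v d) = 0) {z w w' : V} (h : P3 Q z w w') :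
    ∃ g : Om Q, ∃ c : F, c ≠ 0 ∧ (g : V ≃ₗ[F] V) (v a) = z ∧ (g : V ≃ₗ[F] V) (v b) = w ∧ (g : V ≃ₗ[F] V) (c • v d) = w' := by
  have hf := P3_frame hv hba hab d1 d2 d3 d4
  have hli : ∀ {z w w' : V}, P3 Q z w w' → LinearIndependent F ![z, w, w'] := by
    intro z w w' h
    rw [Fintype.linearIndependent_iff]
    intro g hg i
    rw [Fin.sum_univ_three] at hg
    have := h.li (g 0) (g 1) (g 2) hg
    fin_cases i
    · exact this.1
    · exact this.2.1
    · exact this.2.2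
  obtain ⟨k, hk, hk'⟩ := hQ.witt_family ![v a, v b, v d] ![z, w, w'] (hli hf) (hli h) (by
    intro i
    fin_cases i
    · exact hf.qz.trans h.qz.symm
    · exact hf.qw.trans h.qw.symm
    · exact hf.qw'.trans h.qw'.symm) (by
    have s1 : ∀ x : V, Q x = 0 → polar Q x x = 0 := fun x hx => by rw [polar_self', hx, mul_zero]
    intro i j
    fin_cases i <;> fin_cases j
    · exact (s1 _ hf.qz).trans (s1 _ h.qz).symm
    · exact hf.zw.trans h.zw.symm
    · exact hf.zw'.trans h.zw'.symm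
    · exact ((polar_comm Q _ _).trans hf.zw).trans ((polar_comm Q _ _).trans h.zw).symm
    · exact (s1 _ hf.qw).trans (s1 _ h.qw).symm
    · exact hf.ww'.trans h.ww'.symm
    · exact ((polar_comm Q _ _).trans hf.zw').trans ((polar_comm Q _ _).trans h.zw').symm
    · exact ((polar_comm Q _ _).trans hf.ww').trans ((polar_comm Q _ _).trans h.ww').symm
    · exact (s1 _ hf.qw').trans (s1 _ h.qw').symm)
  obtain ⟨g, c, hc, hg⟩ := fixup hv hQ hgen hk d hx₀
  have ta : tr Q v d c (v a) = v a := tr_0 d c (hv.p0 (ng_ne_of d2)) (hv.p0 (by rw [ng_ng]; exact d1.symm))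
  have tb : tr Q v d c (v b) = v b := tr_0 d c (hv.p0 (ng_ne_of d4)) (hv.p0 (by rw [ng_ng]; exact d3.symm))
  refine ⟨g, c⁻¹, inv_ne_zero hc, ?_, ?_, ?_⟩
  · rw [hg _ xa (by rw [ta]; exact xa), ta]; exact hk' 0
  · rw [hg _ xb (by rw [tb]; exact xb), tb]; exact hk' 1
  · rw [map_smul, hg _ xd (by rw [tr_a hv d hc, polar_smul_right, xd, smul_zero]), tr_a hv d hc, map_smul, inv_smul_smul₀ hc]; exact hk' 2

include hv in
theorem tr2 [Finite F] (hQ : Nd Q) (hgen : GenHyp Q) {a b d : Zs m} (hba : b ≠ a) (hab : b ≠ ng a) (d1 : d ≠ a) (d2 : d ≠ ng a) (d3 : d ≠ b) (d4 : d ≠ ng b)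
    {x₀ : V} (hx₀ : Q x₀ ≠ 0) (xa : polar Q x₀ (v a) = 0) (xb : polar Q x₀ (v b) = 0) {z w : V} (h : P2 Q z w) :
    ∃ g : Om Q, (g : V ≃ₗ[F] V) (v a) = z ∧ (g : V ≃ₗ[F] V) (v b) = w := by
  have hf := (P3_frame hv hba hab d1 d2 d3 d4).p2
  have hli : ∀ {z w : V}, P2 Q z w → LinearIndependent F ![z, w] := by
    intro z w h
    rw [Fintype.linearIndependent_iff]
    intro g hg i
    rw [Fin.sum_univ_two] at hg
    have := h.li (g 0) (g 1) hg
    fin_cases i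
    · exact this.1
    · exact this.2
  obtain ⟨k, hk, hk'⟩ := hQ.witt_family ![v a, v b] ![z, w] (hli hf) (hli h) (by
    intro i
    fin_cases i
    · exact hf.qz.trans h.qz.symm
    · exact hf.qw.trans h.qw.symm) (by
    have s1 : ∀ x : V, Q x = 0 → polar Q x x = 0 := fun x hx => by rw [polar_self', hx, mul_zero]
    intro i j
    fin_cases i <;> fin_cases j
    · exact (s1 _ hf.qz).trans (s1 _ h.qz).symm
    · exact hf.zw.trans h.zw.symm
    · exact ((polar_comm Q _ _).trans hf.zw).trans ((polar_comm Q _ _).trans h.zw).symm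
    · exact (s1 _ hf.qw).trans (s1 _ h.qw).symm)
  obtain ⟨g, c, hc, hg⟩ := fixup hv hQ hgen hk d hx₀
  have ta : tr Q v d c (v a) = v a := tr_0 d c (hv.p0 (ng_ne_of d2)) (hv.p0 (by rw [ng_ng]; exact d1.symm))
  have tb : tr Q v d c (v b) = v b := tr_0 d c (hv.p0 (ng_ne_of d4)) (hv.p0 (by rw [ng_ng]; exact d3.symm))
  refine ⟨g, ?_, ?_⟩
  · rw [hg _ xa (by rw [ta]; exact xa), ta]; exact hk' 0
  · rw [hg _ xb (by rw [tb]; exact xb), tb]; exact hk' 1

end tr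

section GT
variable {F V : Type*} [Field F] [AddCommGroup V] [Module F V] [FiniteDimensional F V] {Q : QuadraticForm F V}
  {hQ : Nd Q} (hO : OH hQ) {m : ℕ} {v : Zs m → V} (hv : SF Q v) {Γ : Type*} [Group Γ] {σ : Γ →* Om Q} (hσ : CE σ)

/-- coherent lifts of long root elements -/
structure GT (hO : OH hQ) (σ : Γ →* Om Q) (T : V → V → Γ) : Prop where
  map : ∀ z w, P2 Q z w → σ (T z w) = Eo hO z w
  conj : ∀ (g : Γ) z w, P2 Q z w → g * T z w * g⁻¹ = T ((σ g : V ≃ₗ[F] V) z) ((σ g : V ≃ₗ[F] V) w)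
  smul : ∀ z w (c : F), c ≠ 0 → P2 Q z w → T (c • z) w = T z (c • w)
  shift : ∀ z w (c : F), P2 Q z w → T z (w + c • z) = T z w
  add : ∀ z w w', P3 Q z w w' → T z w * T z w' = T z (w + w')

include hv in
theorem th_sq {a b : Zs m} (hba : b ≠ a) (hab : b ≠ ng a) {c : F} (hc : c ≠ 0) (hc2 : c * c = 1) : th hO hv a b hc ^ 2 = 1 := by
  have hci : c⁻¹ = c := inv_eq_of_mul_eq_one_left hc2
  apply Om_ext
  intro x
  obtain ⟨w, hw, c1, c2, c3, c4, rfl⟩ := W4_dec hv hba hab x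
  rw [pow_two, Om_mul]
  simp only [map_add, map_smul, th_a hO hv hba hab hc, th_na hO hv hba hab hc, th_b hO hv hba hab hc, th_nb hO hv hba hab hc, hci, smul_smul, hc2,
    th_0 hO hv a b hc hw.1 hw.2.1 hw.2.2.1 hw.2.2.2, mul_assoc, mul_one]
  rfl

include hv in
theorem exists_GT {p : ℕ} [Fact p.Prime] [CharP F p] (hp : IsPGroup p σ.ker) (small : ∀ x : F, x ≠ 0 → x * x = 1)
    {a b d : Zs m} (hba : b ≠ a) (hab : b ≠ ng a) (d1 : d ≠ a) (d2 : d ≠ ng a) (d3 : d ≠ b) (d4 : d ≠ ng b)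
    (CF : ∀ g : Om Q, (g : V ≃ₗ[F] V) (v a) = v a → (g : V ≃ₗ[F] V) (v b) = v b → cl hσ (xr hO v a b) g = 1)
    (PHab : ∀ y : F, cl hσ (xr hO v a b) (Eo hO (v a) (y • v (ng b))) = 1)
    (tr2 : ∀ z w, P2 Q z w → ∃ g : Om Q, (g : V ≃ₗ[F] V) (v a) = z ∧ (g : V ≃ₗ[F] V) (v b) = w)
    (tr3 : ∀ z w w', P3 Q z w w' → ∃ g : Om Q, ∃ c : F, c ≠ 0 ∧ (g : V ≃ₗ[F] V) (v a) = z ∧ (g : V ≃ₗ[F] V) (v b) = w ∧ (g : V ≃ₗ[F] V) (c • v d) = w') :
    ∃ T, GT hO σ T := by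
  classical
  have hf := P3_frame hv hba hab d1 d2 d3 d4
  obtain ⟨ε, hε⟩ := hσ.surj (xr hO v a b)
  obtain ⟨T, hT⟩ : ∃ T : V → V → Γ, ∀ x : Γ, T ((σ x : V ≃ₗ[F] V) (v a)) ((σ x : V ≃ₗ[F] V) (v b)) = x * ε * x⁻¹ := by
    refine ⟨fun z w => if h : ∃ x : Γ, (σ x : V ≃ₗ[F] V) (v a) = z ∧ (σ x : V ≃ₗ[F] V) (v b) = w then h.choose * ε * h.choose⁻¹ else 1, ?_⟩
    intro x
    have hex : ∃ x' : Γ, (σ x' : V ≃ₗ[F] V) (v a) = (σ x : V ≃ₗ[F] V) (v a) ∧ (σ x' : V ≃ₗ[F] V) (v b) = (σ x : V ≃ₗ[F] V) (v b) := ⟨x, rfl, rfl⟩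
    beta_reduce
    rw [dif_pos hex]
    obtain ⟨y, hy⟩ : ∃ y, y = hex.choose := ⟨_, rfl⟩
    have hy1 := hex.choose_spec
    rw [← hy] at hy1 ⊢
    have k1 : (σ (x⁻¹ * y) : V ≃ₗ[F] V) (v a) = v a := by rw [map_mul, Om_mul, hy1.1, map_inv, Om_inv]
    have k2 : (σ (x⁻¹ * y) : V ≃ₗ[F] V) (v b) = v b := by rw [map_mul, Om_mul, hy1.2, map_inv, Om_inv]
    have k3 : ε * (x⁻¹ * y) = (x⁻¹ * y) * ε := commute_of_cl hσ (CF _ k1 k2) hε rfl
    calc y * ε * y⁻¹ = x * ((x⁻¹ * y) * ε) * (x⁻¹ * y)⁻¹ * x⁻¹ := by group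
      _ = _ := by rw [← k3]; group
  have hex : ∀ z w, P2 Q z w → ∃ x : Γ, (σ x : V ≃ₗ[F] V) (v a) = z ∧ (σ x : V ≃ₗ[F] V) (v b) = w := by
    intro z w h
    obtain ⟨g, h1, h2⟩ := tr2 z w h
    obtain ⟨x, rfl⟩ := hσ.surj g
    exact ⟨x, h1, h2⟩
  have Tmap : ∀ z w, P2 Q z w → σ (T z w) = Eo hO z w := by
    intro z w h
    obtain ⟨x, rfl, rfl⟩ := hex z w h
    rw [hT, map_mul, map_mul, map_inv, hε, Eo_conj]
  have Tconj : ∀ (g : Γ) z w, P2 Q z w → g * T z w * g⁻¹ = T ((σ g : V ≃ₗ[F] V) z) ((σ g : V ≃ₗ[F] V) w) := by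
    intro g z w h
    obtain ⟨x, rfl, rfl⟩ := hex z w h
    have := hT (g * x)
    rw [map_mul, Om_mul, Om_mul] at this
    rw [hT, this]; group
  have Tsmul : ∀ z w (c : F), c ≠ 0 → P2 Q z w → T (c • z) w = T z (c • w) := by
    intro z w c hc h
    by_cases hc1 : c = 1
    · rw [hc1, one_smul, one_smul]
    have hcc := small c hc
    have hci : c⁻¹ = c := inv_eq_of_mul_eq_one_left hcc
    have h2 : p ≠ 2 := by
      rintro rfl
      have h20 : (2 : F) = 0 := CharP.cast_eq_zero F 2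
      rcases mul_self_eq_one_iff.1 hcc with h | h
      · exact hc1 h
      · exact hc1 (by rw [h]; linear_combination -h20)
    obtain ⟨x, rfl, rfl⟩ := hex z w h
    obtain ⟨τ, hτ⟩ := hσ.surj (th hO hv a b hc)
    have k1 : xr hO v a b * th hO hv a b hc = th hO hv a b hc * xr hO v a b := by
      have := Eo_conj hO (th hO hv a b hc) (v a) (v b)
      rw [th_a hO hv hba hab, th_b hO hv hba hab, Eo_smul hO hc, smul_inv_smul₀ hc] at this
      exact (mul_inv_eq_iff_eq_mul.1 this).symm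
    have k2 : cl hσ (xr hO v a b) (th hO hv a b hc) = 1 :=
      cl_coprime hσ hp k1 (th_sq hO hv hba hab hc hcc) ((Nat.coprime_primes Nat.prime_two Fact.out).2 h2.symm)
    have k3 : ε * τ = τ * ε := commute_of_cl hσ k2 hε hτ
    have k4 : T (c • v a) (c⁻¹ • v b) = ε := by
      have := hT τ
      rw [hτ, th_a hO hv hba hab, th_b hO hv hba hab, ← k3, mul_inv_cancel_right] at this
      exact this
    -- the pair `(v a, c v b)`
    have hP : P2 Q (v a) (c • v b) := hf.p2.smul_right hc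
    obtain ⟨y, hy1, hy2⟩ := hex _ _ hP
    have k5 := hT y
    rw [hy1, hy2] at k5
    have k6 := Tconj τ _ _ hP
    rw [hτ, map_smul, th_a hO hv hba hab, th_b hO hv hba hab, smul_inv_smul₀ hc] at k6
    have k7 : T (v a) (c • v b) * τ = τ * T (v a) (c • v b) := by
      have e1 : σ (T (v a) (c • v b)) = σ ε⁻¹ := by
        rw [Tmap _ _ hP, map_inv, hε]
        rcases mul_self_eq_one_iff.1 hcc with h | h
        · exact absurd h hc1
        · rw [h, neg_one_smul, ← Eo_inv hO (hv.p0 hab)]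
      obtain ⟨k, hk, hk'⟩ := exists_central hσ e1
      have kc : ∀ x, k * x = x * k := fun x => (Subgroup.mem_center_iff.1 hk x).symm
      rw [hk', mul_assoc, kc τ, ← mul_assoc, ← mul_assoc]
      congr 1
      rw [inv_mul_eq_iff_eq_mul, ← mul_assoc, k3, mul_inv_cancel_right]
    rw [← k7, mul_inv_cancel_right] at k6
    have k8 := Tconj x _ _ (hf.p2.smul_left hc)
    rw [← k6, map_smul] at k8
    rw [← k8, Tconj x _ _ hP, map_smul]
  have Tshift : ∀ z w (c : F), P2 Q z w → T z (w + c • z) = T z w := by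
    intro z w c h
    obtain ⟨x, rfl, rfl⟩ := hex z w h
    by_cases hc : c = 0
    · rw [hc, zero_smul, add_zero]
    have hnb : polar Q (v (ng b)) (v a) = 0 := hv.p0 (by rw [ng_ng]; exact hba.symm)
    have hna : polar Q (v (ng b)) (c • v a) = 0 := by rw [polar_smul_right, hnb, smul_zero]
    obtain ⟨τ, hτ⟩ := hσ.surj (Eo hO (v (ng b)) (c • v a))
    have k1 : Eo hO (v (ng b)) (c • v a) = Eo hO (v a) ((-c) • v (ng b)) := by
      rw [← Eo_smul hO hc, Eo_swap hO (by rw [Q_smul, hv.q0, mul_zero]) (hv.q0 a) (by rw [polar_smul_left, hnb, smul_zero]), neg_smul]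
    have k2 : cl hσ (xr hO v a b) (Eo hO (v (ng b)) (c • v a)) = 1 := by rw [k1]; exact PHab _
    have k3 : ε * τ = τ * ε := commute_of_cl hσ k2 hε hτ
    have k4 := hT (x * τ)
    have k5 : (σ τ : V ≃ₗ[F] V) (v a) = v a := by
      rw [hτ, Eo_perp hO (hv.q0 _) hna hnb, polar_smul_left, hv.self, smul_zero, zero_smul, sub_zero]
    have k6 : (σ τ : V ≃ₗ[F] V) (v b) = v b + c • v a := by
      rw [hτ, Eo_apply hO (hv.q0 _) hna, hv.pn', polar_smul_left, hv.p0 hab, Q_smul, hv.q0]; simp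
    rw [map_mul, Om_mul, Om_mul, k5, k6, map_add, map_smul] at k4
    rw [k4, hT, mul_assoc x τ ε, ← k3]; group
  -- the constant
  obtain ⟨κ, hκ⟩ : ∃ κ : V → V → V → Γ, ∀ z w w', κ z w w' = T z w * T z w' * (T z (w + w'))⁻¹ := ⟨_, fun _ _ _ => rfl⟩
  have κker : ∀ z w w', P3 Q z w w' → κ z w w' ∈ Subgroup.center Γ := by
    intro z w w' h
    apply hσ.central
    rw [MonoidHom.mem_ker, hκ, map_mul, map_mul, map_inv, Tmap _ _ h.p2, Tmap _ _ h.p2', Tmap _ _ h.p2a, Eo_add hO h.zw h.zw', mul_inv_cancel]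
  have κconj : ∀ (g : Γ) z w w', P3 Q z w w' → κ ((σ g : V ≃ₗ[F] V) z) ((σ g : V ≃ₗ[F] V) w) ((σ g : V ≃ₗ[F] V) w') = κ z w w' := by
    intro g z w w' h
    have h1 : κ ((σ g : V ≃ₗ[F] V) z) ((σ g : V ≃ₗ[F] V) w) ((σ g : V ≃ₗ[F] V) w') = g * κ z w w' * g⁻¹ := by
      rw [hκ, hκ, ← map_add, ← Tconj g _ _ h.p2, ← Tconj g _ _ h.p2', ← Tconj g _ _ h.p2a]; group
    rw [h1, Subgroup.mem_center_iff.1 (κker z w w' h) g, mul_inv_cancel_right]
  have κsmul : ∀ z w w' (c : F), c ≠ 0 → P3 Q z w w' → κ (c • z) w w' = κ z (c • w) (c • w') := by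
    intro z w w' c hc h
    rw [hκ, hκ, Tsmul z w c hc h.p2, Tsmul z w' c hc h.p2', Tsmul z (w + w') c hc h.p2a, smul_add]
  have κconst : ∀ z w w', P3 Q z w w' → κ z w w' = κ (v a) (v b) (v d) := by
    intro z w w' h
    obtain ⟨g, c, hc, h1, h2, h3⟩ := tr3 z w w' h
    obtain ⟨x, rfl⟩ := hσ.surj g
    have hcc := small c hc
    have hbd : P3 Q (v a) (v b) (c • v d) := by
      have := hf.smul one_ne_zero hc; rwa [one_smul] at this
    have e1 := κconj x _ _ _ hbd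
    rw [h1, h2, h3] at e1
    rw [e1]
    -- first torus element
    have dn1 : ng d ≠ a := ng_ne_of' d2
    have dn2 : ng d ≠ ng a := ng_ng_ne d1
    have dn3 : ng d ≠ b := ng_ne_of' d4
    have dn4 : ng d ≠ ng b := ng_ng_ne d3
    obtain ⟨t, ht⟩ := hσ.surj (th hO hv a (ng d) hc)
    have e2 := κconj t _ _ _ hbd
    have t1 : (th hO hv a (ng d) hc : V ≃ₗ[F] V) (v d) = c • v d := by
      have := th_nb hO hv dn1 dn2 hc; rwa [ng_ng] at this
    have t2 : (th hO hv a (ng d) hc : V ≃ₗ[F] V) (v b) = v b :=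
      th_0 hO hv a (ng d) hc (hv.p0 hab) (hv.p0 (by rw [ng_ng]; exact hba)) (hv.p0 (by rw [ng_ng]; exact d3.symm)) (hv.p0 (by rw [ng_ng]; exact ng_ne_of d4))
    rw [ht, map_smul, t1, t2, th_a hO hv dn1 dn2 hc, smul_smul, hcc, one_smul] at e2
    rw [← e2, κsmul _ _ _ c hc hf]
    -- second torus element
    obtain ⟨t', ht'⟩ := hσ.surj (th hO hv b (ng d) hc)
    have e3 := κconj t' _ _ _ hf
    have t3 : (th hO hv b (ng d) hc : V ≃ₗ[F] V) (v d) = c • v d := by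
      have := th_nb hO hv dn3 dn4 hc; rwa [ng_ng] at this
    have t4 : (th hO hv b (ng d) hc : V ≃ₗ[F] V) (v a) = v a :=
      th_0 hO hv b (ng d) hc (hv.p0 (ng_ne_of hab)) (hv.p0 (by rw [ng_ng]; exact hba.symm)) (hv.p0 (by rw [ng_ng]; exact d1.symm)) (hv.p0 (by rw [ng_ng]; exact ng_ne_of d2))
    rw [ht', t3, t4, th_a hO hv dn3 dn4 hc] at e3
    exact e3
  obtain ⟨κ₀, hκ₀⟩ : ∃ κ₀, κ₀ = κ (v a) (v b) (v d) := ⟨_, rfl⟩
  have κ₀c : ∀ x, κ₀ * x = x * κ₀ := fun x => by rw [hκ₀]; exact (Subgroup.mem_center_iff.1 (κker _ _ _ hf) x).symm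
  have κ₀k : σ κ₀ = 1 := by
    rw [hκ₀, hκ, map_mul, map_mul, map_inv, Tmap _ _ hf.p2, Tmap _ _ hf.p2', Tmap _ _ hf.p2a, Eo_add hO hf.zw hf.zw', mul_inv_cancel]
  have κ₀ci : ∀ x, κ₀⁻¹ * x = x * κ₀⁻¹ := fun x => by rw [inv_mul_eq_iff_eq_mul, ← mul_assoc, κ₀c, mul_inv_cancel_right]
  refine ⟨fun z w => T z w * κ₀⁻¹, ⟨?_, ?_, ?_, ?_, ?_⟩⟩
  · intro z w h
    rw [map_mul, map_inv, κ₀k, inv_one, mul_one, Tmap z w h]
  · intro g z w h
    show g * (T z w * κ₀⁻¹) * g⁻¹ = T _ _ * κ₀⁻¹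
    rw [← Tconj g z w h, mul_assoc g (T z w * κ₀⁻¹), mul_assoc (T z w), κ₀ci]; group
  · intro z w c hc h
    show T _ _ * κ₀⁻¹ = T _ _ * κ₀⁻¹
    rw [Tsmul z w c hc h]
  · intro z w c h
    show T _ _ * κ₀⁻¹ = T _ _ * κ₀⁻¹
    rw [Tshift z w c h]
  · intro z w w' h
    show T z w * κ₀⁻¹ * (T z w' * κ₀⁻¹) = T z (w + w') * κ₀⁻¹
    have e1 := κconst z w w' h
    rw [hκ, ← hκ₀] at e1
    have e2 : T z w * T z w' = κ₀ * T z (w + w') := by rw [← e1, inv_mul_cancel_right]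
    calc T z w * κ₀⁻¹ * (T z w' * κ₀⁻¹) = T z w * (κ₀⁻¹ * T z w') * κ₀⁻¹ := by group
      _ = (T z w * T z w') * κ₀⁻¹ * κ₀⁻¹ := by rw [κ₀ci]; group
      _ = _ := by rw [e2, κ₀c]; group

end GT

end Cfsg.Agent.Lib.MulOrth
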