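import Cfsg.Agent.Lib.MulOrthB

/-! The polar spaces of quadratic forms are generated by a frame and a few more points (helper35). -/

set_option autoImplicit false

namespace Cfsg.Agent.Lib.MulOrth

open Cfsg.Agent.Lib.Quad QuadraticMap Module
open Cfsg.Agent.Lib.PresBC (Zs ng ng_ng ng_ne ng_inj)

/-- closed sets of singular vectors -/
structure Cls {F V : Type*} [Field F] [AddCommGroup V] [Module F V] (Q : QuadraticForm F V) (I : V → Prop) : Prop where
  smul : ∀ w (c : F), I w → I (c • w)
  add : ∀ w w', I w → I w' → polar Q w w' = 0 → I (w + w')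

section
variable {F V : Type*} [Field F] [AddCommGroup V] [Module F V] {Q : QuadraticForm F V} {m : ℕ} {v : Zs m → V} (hv : SF Q v)
  {I : V → Prop} (hI : Cls Q I)

include hv in
theorem cross {b c : Zs m} (h1 : b ≠ c) (h2 : b ≠ ng c) : polar Q (v b) (v c) = 0 ∧ polar Q (v b) (v (ng c)) = 0 ∧ polar Q (v (ng b)) (v c) = 0 ∧ polar Q (v (ng b)) (v (ng c)) = 0 := by
  refine ⟨hv.p0 ?_, hv.p0 ?_, hv.p0 ?_, hv.p0 ?_⟩
  · rw [← ng_ng c, Ne, ng_inj]; exact fun h => h2 h.symm
  · rw [Ne, ng_inj]; exact h1.symm
  · rw [ng_ng]; exact h1.symm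
  · rw [ng_ng]; exact h2.symm

include hv hI in
theorem exch {b c : Zs m} (h1 : b ≠ c) (h2 : b ≠ ng c) (ib : I (v b)) (inb : I (v (ng b))) (ic : I (v c)) (inc : I (v (ng c))) {u : V} (hu : u ∈ V0 Q v)
    {r ρ : F} (hr : r ≠ 0) (hρ : ρ ≠ 0) (hx : I (ρ • v c + u - (ρ⁻¹ * Q u) • v (ng c))) : I (r • v b + u - (r⁻¹ * Q u) • v (ng b)) := by
  obtain ⟨k1, k2, k3, k4⟩ := cross hv h1 h2
  have hub : ∀ d, polar Q u (v d) = 0 := fun d => by rw [polar_comm]; exact hu d
  have kb := hv.pn b
  have kb' := hv.pn' b
  have kc := hv.pn c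
  have kc' := hv.pn' c
  have x1 := hI.add _ _ hx (hI.smul _ r ib) (by
    simp only [polar_add_left, polar_sub_left, polar_smul_left, polar_smul_right, smul_eq_mul, hub]
    rw [polar_comm Q (v c), k1, polar_comm Q (v (ng c)), k2]; ring)
  have s := hI.add _ _ (hI.smul _ (-(r⁻¹ * Q u)) inb) (hI.smul _ (ρ⁻¹ * Q u) inc) (by rw [polar_smul_left, polar_smul_right, k4, smul_zero, smul_zero])
  have x2 := hI.add _ _ x1 s (by
    simp only [polar_add_left, polar_sub_left, polar_smul_left, polar_add_right, polar_smul_right, smul_eq_mul, hub]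
    rw [polar_comm Q (v c) (v (ng b)), k3, kc, polar_comm Q (v (ng c)) (v (ng b)), k4, hv.self, kb, k2]
    field_simp
    ring)
  have x3 := hI.add _ _ x2 (hI.smul _ (-ρ) ic) (by
    simp only [polar_add_left, polar_sub_left, polar_smul_left, polar_smul_right, smul_eq_mul, hub]
    rw [hv.self, kc', k1, k3]; ring)
  have e : ρ • v c + u - (ρ⁻¹ * Q u) • v (ng c) + r • v b + (-(r⁻¹ * Q u) • v (ng b) + (ρ⁻¹ * Q u) • v (ng c)) + -ρ • v c =
      r • v b + u - (r⁻¹ * Q u) • v (ng b) := by module
  rw [e] at x3
  exact x3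

include hv hI in
theorem exch_smul {b c : Zs m} (h1 : b ≠ c) (h2 : b ≠ ng c) (ib : I (v b)) (inb : I (v (ng b))) (ic : I (v c)) (inc : I (v (ng c))) {u : V} (hu : u ∈ V0 Q v)
    (hx : I (v c + u - Q u • v (ng c))) (α : F) : I (v c + α • u - Q (α • u) • v (ng c)) := by
  by_cases hα : α = 0
  · rw [hα, zero_smul, QuadraticMap.map_zero, zero_smul, add_zero, sub_zero]; exact ic
  have h3 : c ≠ ng b := fun h => h2 (by rw [h, ng_ng])
  have x1 := exch hv hI h1 h2 ib inb ic inc hu one_ne_zero one_ne_zero (by rw [one_smul, inv_one, one_mul]; exact hx)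
  have x2 := exch hv hI h1.symm h3 ic inc ib inb hu (inv_ne_zero hα) one_ne_zero x1
  have x3 := hI.smul _ α x2
  have e : α • (α⁻¹ • v c + u - (α⁻¹⁻¹ * Q u) • v (ng c)) = v c + α • u - Q (α • u) • v (ng c) := by
    rw [smul_sub, smul_add, smul_inv_smul₀ hα, inv_inv, Q_smul, smul_smul, mul_assoc]
  rw [e] at x3
  exact x3

include hv hI in
theorem exch_add {b c : Zs m} (h1 : b ≠ c) (h2 : b ≠ ng c) (ib : I (v b)) (inb : I (v (ng b))) (ic : I (v c)) (inc : I (v (ng c))) {u u' : V} (hu : u ∈ V0 Q v) (hu' : u' ∈ V0 Q v)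
    (hx : I (v c + u - Q u • v (ng c))) (hx' : I (v c + u' - Q u' • v (ng c))) (hQ0 : Q u = 0 → u = 0) : I (v c + (u + u') - Q (u + u') • v (ng c)) := by
  by_cases hu0 : u = 0
  · rw [hu0, zero_add]; exact hx'
  have hq : Q u ≠ 0 := fun h => hu0 (hQ0 h)
  obtain ⟨k1, k2, k3, k4⟩ := cross hv h1 h2
  have hub : ∀ d, polar Q u (v d) = 0 := fun d => by rw [polar_comm]; exact hu d
  have hub' : ∀ d, polar Q u' (v d) = 0 := fun d => by rw [polar_comm]; exact hu' d
  have kb := hv.pn b
  have kb' := hv.pn' b
  have kc := hv.pn c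
  have kc' := hv.pn' c
  have x1 := exch hv hI h1 h2 ib inb ic inc hu one_ne_zero one_ne_zero (by rw [one_smul, inv_one, one_mul]; exact hx)
  rw [one_smul, inv_one, one_mul] at x1
  obtain ⟨l, hl⟩ : ∃ l, l = (Q u)⁻¹ * polar Q u u' := ⟨_, rfl⟩
  have hl' : Q u * l = polar Q u u' := by rw [hl, mul_inv_cancel_left₀ hq]
  have x2 := hI.add _ _ hx' (hI.smul _ l ib) (by
    simp only [polar_add_left, polar_sub_left, polar_smul_left, polar_smul_right, smul_eq_mul, hub']
    rw [polar_comm Q (v c), k1, polar_comm Q (v (ng c)), k2]; ring)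
  have x3 := hI.add _ _ x1 x2 (by
    simp only [polar_add_left, polar_sub_left, polar_smul_left, polar_add_right, polar_sub_right, polar_smul_right, smul_eq_mul, hub]
    rw [k1, hu' b, k2, hv.self, k3, hu' (ng b), k4, kb', ← hl']
    ring)
  have s := hI.add _ _ (hI.smul _ (-(1 + l)) ib) (hI.smul _ (-((1 + l) * Q u)) inc) (by rw [polar_smul_left, polar_smul_right, k2, smul_zero, smul_zero])
  have x4 := hI.add _ _ x3 s (by
    simp only [polar_add_left, polar_sub_left, polar_smul_left, polar_add_right, polar_sub_right, polar_smul_right, smul_eq_mul, hub, hub']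
    rw [hv.self, k2, kb', k4, polar_comm Q (v c) (v b), k1, kc, polar_comm Q (v (ng c)) (v b), k2, hv.self]
    ring)
  have x5 := hI.add _ _ x4 (hI.smul _ (Q u) inb) (by
    simp only [polar_add_left, polar_sub_left, polar_smul_left, polar_add_right, polar_sub_right, polar_smul_right, smul_eq_mul, hub, hub']
    rw [kb, hv.self, polar_comm Q (v c) (v (ng b)), k3, polar_comm Q (v (ng c)) (v (ng b)), k4]
    ring)
  have e : v b + u - Q u • v (ng b) + (v c + u' - Q u' • v (ng c) + l • v b) + (-(1 + l) • v b + -((1 + l) * Q u) • v (ng c)) + Q u • v (ng b) =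
      v c + (u + u') - Q (u + u') • v (ng c) := by
    rw [Q_add, ← hl']; module
  rw [e] at x5
  exact x5

include hv hI in
theorem exch_all {b c : Zs m} (h1 : b ≠ c) (h2 : b ≠ ng c) (ib : I (v b)) (inb : I (v (ng b))) (ic : I (v c)) (inc : I (v (ng c)))
    (han : ∀ x ∈ V0 Q v, Q x = 0 → x = 0) {ι : Type*} {e : ι → V} (he : ∀ i, e i ∈ V0 Q v) (hspan : V0 Q v ≤ Submodule.span F (Set.range e))
    (hx : ∀ i, I (v c + e i - Q (e i) • v (ng c))) : ∀ u ∈ V0 Q v, I (v c + u - Q u • v (ng c)) := by
  let M : Submodule F V :=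
    { carrier := {u | u ∈ V0 Q v ∧ I (v c + u - Q u • v (ng c))}
      zero_mem' := ⟨zero_mem _, by rw [QuadraticMap.map_zero, zero_smul, add_zero, sub_zero]; exact ic⟩
      add_mem' := by
        rintro u u' ⟨k1, k2⟩ ⟨k1', k2'⟩
        exact ⟨add_mem k1 k1', exch_add hv hI h1 h2 ib inb ic inc k1 k1' k2 k2' (han u k1)⟩
      smul_mem' := by
        rintro α u ⟨k1, k2⟩
        exact ⟨(V0 Q v).smul_mem α k1, exch_smul hv hI h1 h2 ib inb ic inc k1 k2 α⟩ }
  have hle : Submodule.span F (Set.range e) ≤ M := by
    rw [Submodule.span_le]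
    rintro _ ⟨i, rfl⟩
    exact ⟨he i, hx i⟩
  intro u hu
  exact (hle (hspan hu)).2

include hv hI in
theorem all_sing (hQ : Nd Q) {a c : Zs m} (hca : c ≠ a) (hca' : c ≠ ng a) (iv : ∀ d, d ≠ a → d ≠ ng a → I (v d))
    (han : ∀ x ∈ V0 Q v, Q x = 0 → x = 0) (hall : ∀ u ∈ V0 Q v, I (v c + u - Q u • v (ng c))) (i0 : I 0) :
    ∀ x, Q x = 0 → polar Q (v a) x = 0 → polar Q (v (ng a)) x = 0 → I x := by
  classical
  have hnc : ng c ≠ a := fun h => hca' (by rw [← h, ng_ng])
  have hnc' : ng c ≠ ng a := by rw [Ne, ng_inj]; exact hca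
  have kc := hv.pn c
  have kc' := hv.pn' c
  let N : V → Finset (Zs m) := fun x => Finset.univ.filter (fun d => d ≠ c ∧ d ≠ ng c ∧ (polar Q (v d) x ≠ 0 ∨ polar Q (v (ng d)) x ≠ 0))
  have hN : ∀ x d, d ∈ N x ↔ d ≠ c ∧ d ≠ ng c ∧ (polar Q (v d) x ≠ 0 ∨ polar Q (v (ng d)) x ≠ 0) := fun x d => by simp [N]
  have key : ∀ n, ∀ x, (N x).card = n → Q x = 0 → polar Q (v a) x = 0 → polar Q (v (ng a)) x = 0 → I x := by
    intro n
    induction n using Nat.strong_induction_on with
    | _ n ih =>
      intro x hn hQx hax hax'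
      by_cases hemp : N x = ∅
      · -- supported on the plane of `c`
        obtain ⟨α, hα⟩ : ∃ α, α = polar Q (v (ng c)) x := ⟨_, rfl⟩
        obtain ⟨β, hβ⟩ : ∃ β, β = polar Q (v c) x := ⟨_, rfl⟩
        obtain ⟨u, hu⟩ : ∃ u, u = x - α • v c - β • v (ng c) := ⟨_, rfl⟩
        have hxe : x = α • v c + β • v (ng c) + u := by rw [hu]; abel
        have hu0 : u ∈ V0 Q v := by
          intro d
          rw [hu, polar_sub_right, polar_sub_right, polar_smul_right, polar_smul_right]
          by_cases d1 : d = c
          · rw [d1, hv.self, kc, ← hβ]; simp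
          by_cases d2 : d = ng c
          · rw [d2, hv.self, kc', ← hα]; simp
          obtain ⟨l1, l2, -, -⟩ := cross hv d1 d2
          have : polar Q (v d) x = 0 := by
            by_contra h
            have : d ∈ N x := (hN x d).2 ⟨d1, d2, Or.inl h⟩
            rw [hemp] at this
            exact absurd this (Finset.notMem_empty d)
          rw [this, l1, l2]; simp
        have hQe : α * β + Q u = 0 := by
          have h1 := hQx
          rw [hxe, Q_add, Q_add, Q_smul, Q_smul, hv.q0, hv.q0, polar_smul_left, polar_smul_right, kc, polar_add_left, polar_smul_left, polar_smul_left, hu0, hu0] at h1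
          simpa using h1
        by_cases hα0 : α = 0
        · have hu1 : u = 0 := han u hu0 (by rw [hα0, zero_mul, zero_add] at hQe; exact hQe)
          rw [hxe, hα0, hu1, zero_smul, zero_add, add_zero]
          exact hI.smul _ _ (iv _ hnc hnc')
        · have h2 := hI.smul _ α (hall (α⁻¹ • u) ((V0 Q v).smul_mem _ hu0))
          have e : α • (v c + α⁻¹ • u - Q (α⁻¹ • u) • v (ng c)) = x := by
            have hb : β = -(α⁻¹ * Q u) := by
              field_simp
              linear_combination hQe
            rw [hxe, hb, smul_sub, smul_add, smul_inv_smul₀ hα0, Q_smul, smul_smul]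
            have : α * (α⁻¹ * α⁻¹ * Q u) = α⁻¹ * Q u := by field_simp
            rw [this, neg_smul]; abel
          rw [e] at h2
          exact h2
      · -- remove a plane
        obtain ⟨i, hi⟩ := Finset.nonempty_iff_ne_empty.2 hemp
        obtain ⟨i1, i2, i3⟩ := (hN x i).1 hi
        have hia : i ≠ a := by
          rintro rfl
          rcases i3 with h | h
          · exact h hax
          · exact h hax'
        have hia' : i ≠ ng a := by
          rintro rfl
          rcases i3 with h | h
          · exact h hax'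
          · rw [ng_ng] at h; exact h hax
        have hnia : ng i ≠ a := fun h => hia' (by rw [← h, ng_ng])
        have hnia' : ng i ≠ ng a := by rw [Ne, ng_inj]; exact hia
        have ki := hv.pn i
        have ki' := hv.pn' i
        obtain ⟨α, hα⟩ : ∃ α, α = polar Q (v (ng i)) x := ⟨_, rfl⟩
        obtain ⟨β, hβ⟩ : ∃ β, β = polar Q (v i) x := ⟨_, rfl⟩
        obtain ⟨y, hy⟩ : ∃ y, y = x - α • v i - β • v (ng i) := ⟨_, rfl⟩
        have hxe : x = α • v i + β • v (ng i) + y := by rw [hy]; abel
        have hyi : polar Q (v i) y = 0 := by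
          rw [hy, polar_sub_right, polar_sub_right, polar_smul_right, polar_smul_right, hv.self, ki, ← hβ]; simp
        have hyi' : polar Q (v (ng i)) y = 0 := by
          rw [hy, polar_sub_right, polar_sub_right, polar_smul_right, polar_smul_right, hv.self, ki', ← hα]; simp
        have hyd : ∀ d, d ≠ i → d ≠ ng i → polar Q (v d) y = polar Q (v d) x := by
          intro d d1 d2
          obtain ⟨l1, l2, -, -⟩ := cross hv d1 d2
          rw [hy, polar_sub_right, polar_sub_right, polar_smul_right, polar_smul_right, l1, l2]; simp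
        have hya : polar Q (v a) y = 0 := by rw [hyd a hia.symm (fun h => hia' (by rw [h, ng_ng])), hax]
        have hya' : polar Q (v (ng a)) y = 0 := by rw [hyd (ng a) hia'.symm (fun h => hia (by rw [← ng_ng i, ← h, ng_ng])), hax']
        -- vectors supported on `y`
        have hsub : ∀ w, (∀ d, d ≠ c → d ≠ ng c → polar Q (v d) y = 0 → polar Q (v (ng d)) y = 0 → polar Q (v d) w = 0) → (N w).card < n := by
          intro w hw
          rw [← hn]
          apply Finset.card_lt_card
          refine ⟨?_, ?_⟩
          · intro d hd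
            obtain ⟨d1, d2, d3⟩ := (hN w d).1 hd
            rw [hN]
            refine ⟨d1, d2, ?_⟩
            have d1' : ng d ≠ c := fun h => d2 (by rw [← h, ng_ng])
            have d2' : ng d ≠ ng c := by rw [Ne, ng_inj]; exact d1
            have hor : polar Q (v d) y ≠ 0 ∨ polar Q (v (ng d)) y ≠ 0 := by
              by_contra hcon
              push Not at hcon
              rcases d3 with h | h
              · exact h (hw d d1 d2 hcon.1 hcon.2)
              · exact h (hw (ng d) d1' d2' hcon.2 (by rw [ng_ng]; exact hcon.1))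
            have di : d ≠ i := by
              rintro rfl
              rcases hor with h | h
              · exact h hyi
              · exact h hyi'
            have dni : d ≠ ng i := by
              rintro rfl
              rcases hor with h | h
              · exact h hyi'
              · rw [ng_ng] at h; exact h hyi
            have ndi : ng d ≠ i := fun h => dni (by rw [← h, ng_ng])
            have ndni : ng d ≠ ng i := by rw [Ne, ng_inj]; exact di
            rcases hor with h | h
            · left; rwa [hyd d di dni] at h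
            · right; rwa [hyd (ng d) ndi ndni] at h
          · intro hle
            obtain ⟨-, -, d3⟩ := (hN w i).1 (hle hi)
            rcases d3 with h | h
            · exact h (hw i i1 i2 hyi hyi')
            · exact h (hw (ng i) (fun h => i2 (by rw [← h, ng_ng])) (by rw [Ne, ng_inj]; exact i1) hyi' (by rw [ng_ng]; exact hyi))
        have hQe : α * β + Q y = 0 := by
          have h1 := hQx
          rw [hxe, Q_add, Q_add, Q_smul, Q_smul, hv.q0, hv.q0, polar_smul_left, polar_smul_right, ki, polar_add_left, polar_smul_left, polar_smul_left, hyi, hyi'] at h1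
          simpa using h1
        by_cases hy0 : Q y = 0
        · have h1 := ih _ (hsub y (fun d _ _ h _ => h)) y rfl hy0 hya hya'
          have h2 := hI.add _ _ (hI.smul _ α (iv i hia hia')) (hI.smul _ β (iv (ng i) hnia hnia')) (by
            rw [polar_smul_left, polar_smul_right, ki]
            rw [hy0, add_zero] at hQe
            simpa using hQe)
          rw [hxe]
          exact hI.add _ _ h2 h1 (by rw [polar_add_left, polar_smul_left, polar_smul_left, hyi, hyi']; simp)
        · -- a singular vector in the support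
          obtain ⟨y₀, z1, z2, z3, z4, z5⟩ : ∃ y₀, Q y₀ = 0 ∧ polar Q y₀ y ≠ 0 ∧ (∀ d, d ≠ c → d ≠ ng c → polar Q (v d) y = 0 → polar Q (v (ng d)) y = 0 → polar Q (v d) y₀ = 0) ∧
              polar Q (v a) y₀ = 0 ∧ polar Q (v (ng a)) y₀ = 0 := by
            by_cases hex : ∃ j, polar Q (v j) y ≠ 0
            · obtain ⟨j, hj⟩ := hex
              have hja : j ≠ a := by rintro rfl; exact hj hya
              have hja' : j ≠ ng a := by rintro rfl; exact hj hya'
              refine ⟨v j, hv.q0 j, hj, ?_, hv.p0 hja', hv.p0 (by rw [ng_ng]; exact hja)⟩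
              intro d d1 d2 d3 d4
              apply hv.p0
              rintro rfl
              exact hj d4
            · push Not at hex
              have hyne : y ≠ 0 := fun h => hy0 (by rw [h, QuadraticMap.map_zero])
              obtain ⟨t, ht⟩ : ∃ t, polar Q y t ≠ 0 := by
                by_contra hcon
                push Not at hcon
                exact hyne (hQ.eq_zero hcon)
              have hdec := dec hv t
              obtain ⟨u', hu'⟩ : ∃ u', u' = t - ∑ b, polar Q (v (ng b)) t • v b := ⟨_, rfl⟩
              rw [← hu'] at hdec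
              have hpu : polar Q u' y ≠ 0 := by
                have e1 : polar Q y u' = polar Q y t := by
                  rw [hu', polar_sub_right]
                  have h1 : polar Q y (∑ b, polar Q (v (ng b)) t • v b) = ∑ b, polar Q (v (ng b)) t * polar Q y (v b) := by
                    have := map_sum (polarBilin Q y) (fun b => polar Q (v (ng b)) t • v b) Finset.univ
                    simpa using this
                  rw [h1, Finset.sum_eq_zero, sub_zero]
                  intro b _
                  rw [polar_comm Q y (v b), hex b, mul_zero]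
                rw [polar_comm, e1]; exact ht
              have hud : ∀ d, polar Q u' (v d) = 0 := fun d => by rw [polar_comm]; exact hdec d
              refine ⟨v c + u' - Q u' • v (ng c), ?_, ?_, ?_, ?_, ?_⟩
              · rw [Q_sub, Q_add, Q_smul, hv.q0, hv.q0, hdec, polar_add_left, polar_smul_right, polar_smul_right, kc, hud]; simp
              · rw [polar_sub_left, polar_add_left, polar_smul_left, hex c, hex (ng c)]; simpa using hpu
              · intro d d1 d2 _ _
                obtain ⟨l1, l2, -, -⟩ := cross hv d1 d2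
                rw [polar_sub_right, polar_add_right, polar_smul_right, l1, l2, hdec d]; simp
              · rw [polar_sub_right, polar_add_right, polar_smul_right, hdec, hv.p0 hca', hv.p0 hnc']; simp
              · rw [polar_sub_right, polar_add_right, polar_smul_right, hdec, hv.p0 (a := ng a) (b := c) (by rw [ng_ng]; exact hca), hv.p0 (a := ng a) (b := ng c) (by rw [ng_ng]; exact hnc)]; simp
          obtain ⟨y₁, hy₁⟩ : ∃ y₁, y₁ = (Q y * (polar Q y₀ y)⁻¹) • y₀ := ⟨_, rfl⟩
          have w1 : Q y₁ = 0 := by rw [hy₁, Q_smul, z1, mul_zero]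
          have w2 : polar Q y₁ y = Q y := by rw [hy₁, polar_smul_left, smul_eq_mul, inv_mul_cancel_right₀ z2]
          have w3 : ∀ d, d ≠ c → d ≠ ng c → polar Q (v d) y = 0 → polar Q (v (ng d)) y = 0 → polar Q (v d) y₁ = 0 := by
            intro d d1 d2 d3 d4
            rw [hy₁, polar_smul_right, z3 d d1 d2 d3 d4, smul_zero]
          have w4 : polar Q (v a) y₁ = 0 := by rw [hy₁, polar_smul_right, z4, smul_zero]
          have w5 : polar Q (v (ng a)) y₁ = 0 := by rw [hy₁, polar_smul_right, z5, smul_zero]
          have h1 := ih _ (hsub y₁ w3) y₁ rfl w1 w4 w5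
          have h2 := ih _ (hsub (y - y₁) (fun d d1 d2 d3 d4 => by rw [polar_sub_right, d3, w3 d d1 d2 d3 d4, sub_zero])) (y - y₁) rfl
            (by rw [Q_sub, w1, polar_comm, w2]; ring) (by rw [polar_sub_right, hya, w4, sub_zero]) (by rw [polar_sub_right, hya', w5, sub_zero])
          have hi1 : polar Q (v i) y₁ = 0 := w3 i i1 i2 hyi hyi'
          have hi2 : polar Q (v (ng i)) y₁ = 0 := w3 (ng i) (fun h => i2 (by rw [← h, ng_ng])) (by rw [Ne, ng_inj]; exact i1) hyi' (by rw [ng_ng]; exact hyi)
          have h3 := hI.add _ _ (hI.smul _ α (iv i hia hia')) h1 (by rw [polar_smul_left, hi1, smul_zero])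
          have h4 := hI.add _ _ (hI.smul _ β (iv (ng i) hnia hnia')) h2 (by rw [polar_smul_left, polar_sub_right, hyi', hi2, sub_zero, smul_zero])
          have h5 := hI.add _ _ h3 h4 (by
            rw [polar_add_left, polar_add_right, polar_add_right, polar_smul_left, polar_smul_left, polar_smul_right, ki, polar_sub_right, hyi, hi1, polar_smul_right,
              polar_comm Q y₁ (v (ng i)), hi2, polar_sub_right, w2, polar_self', w1]
            simp only [smul_eq_mul]
            linear_combination hQe)
          have e : α • v i + y₁ + (β • v (ng i) + (y - y₁)) = x := by rw [hxe]; abel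
          rw [e] at h5
          exact h5
  intro x h1 h2 h3
  exact key _ x rfl h1 h2 h3

end

end Cfsg.Agent.Lib.MulOrth
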