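import Cfsg.Agent.Lib.MulOrthT
import Cfsg.Agent.Lib.MulOrthV
import Mathlib.GroupTheory.NoncommPiCoprod

/-! Lifts of unipotent radicals of orthogonal groups over prime fields from coherent lifts (helper35). -/

set_option autoImplicit false

namespace Cfsg.Agent.Lib.MulOrth

open Cfsg.Agent.Lib.Quad Cfsg.Agent.Lib.ClOrthSiegel Cfsg.Agent.Lib.UCEBase QuadraticMap Module
open Cfsg.Agent.Lib.PresBC (Zs ng ng_ng ng_ne ng_inj)

/-- the order of a subgroup generated by commuting elements of order `p` -/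
theorem card_iSup_zpowers {Γ ι : Type*} [Group Γ] [Fintype ι] {p : ℕ} (hp : 0 < p) (g : ι → Γ) (hg : ∀ i, g i ^ p = 1) (hc : ∀ i j, g i * g j = g j * g i) :
    Nat.card (⨆ i, Subgroup.zpowers (g i) : Subgroup Γ) ≤ p ^ Fintype.card ι := by
  classical
  have hcomm : Pairwise fun i j => ∀ x y : Γ, x ∈ Subgroup.zpowers (g i) → y ∈ Subgroup.zpowers (g j) → Commute x y := by
    rintro i j - x y ⟨k, rfl⟩ ⟨l, rfl⟩
    exact (show Commute (g i) (g j) from hc i j).zpow_zpow k l
  rw [← Subgroup.noncommPiCoprod_range (hcomm := hcomm)]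
  have hcard : ∀ i, Nat.card (Subgroup.zpowers (g i)) ≤ p := by
    intro i
    rw [Nat.card_zpowers]
    exact Nat.le_of_dvd hp (orderOf_dvd_of_pow_eq_one (hg i))
  have hfin : ∀ i, Finite (Subgroup.zpowers (g i)) := by
    intro i
    have : IsOfFinOrder (g i) := isOfFinOrder_iff_pow_eq_one.2 ⟨p, hp, hg i⟩
    exact this.finite_zpowers
  have h1 : Nat.card (Subgroup.noncommPiCoprod hcomm).range ≤ Nat.card (∀ i, Subgroup.zpowers (g i)) :=
    Nat.card_le_card_of_surjective _ (Subgroup.noncommPiCoprod hcomm).rangeRestrict_surjective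
  refine h1.trans ?_
  rw [Nat.card_pi]
  refine (Finset.prod_le_prod' (fun i _ => hcard i)).trans ?_
  rw [Finset.prod_const, Finset.card_univ]

section GT
variable {F V : Type*} [Field F] [AddCommGroup V] [Module F V] [FiniteDimensional F V] {Q : QuadraticForm F V}
  {hQ : Nd Q} (hO : OH hQ) {m : ℕ} {v : Zs m → V} (hv : SF Q v) {Γ : Type*} [Group Γ] {σ : Γ →* Om Q} (hσ : CE σ)
  {T : V → V → Γ} (hT : GT hO σ T)

omit [FiniteDimensional F V] in
theorem P3.neg' {z w w' : V} (h : P3 Q z w w') : P3 Q z (w + w') (-w') :=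
  ⟨h.qz, by rw [Q_add, h.qw, h.qw', h.ww']; simp, by rw [QuadraticMap.map_neg, h.qw'], by rw [polar_add_right, h.zw, h.zw', add_zero], by rw [polar_neg_right, h.zw', neg_zero],
    by rw [polar_neg_right, polar_add_left, h.ww', polar_self', h.qw']; simp, fun α β γ e => by
      have := h.li α β (β - γ) (by rw [← e]; module)
      exact ⟨this.1, this.2.1, by have h1 := this.2.2; rw [this.2.1, zero_sub, neg_eq_zero] at h1; exact h1⟩⟩

include hT in
theorem GT.neg (ex3 : ∀ z w, P2 Q z w → ∃ w', P3 Q z w w') {z w : V} (h : P2 Q z w) : T z (-w) = (T z w)⁻¹ := by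
  obtain ⟨w', h3⟩ := ex3 z w h
  have h4 := h3.swap
  have e1 := hT.add _ _ _ h4
  have e2 := hT.add _ _ _ h4.neg'
  rw [add_neg_cancel_right, ← e1, mul_assoc, mul_eq_left] at e2
  exact eq_inv_of_mul_eq_one_right e2

include hT in
theorem GT.comm3 {z w w' : V} (h : P3 Q z w w') : T z w * T z w' = T z w' * T z w := by
  rw [hT.add _ _ _ h, hT.add _ _ _ h.swap, add_comm]

include hσ hT in
theorem GT.pow {p : ℕ} [CharP F p] {z₀ w₀ : V} (h0 : P2 Q z₀ w₀) (tr2 : ∀ z w, P2 Q z w → ∃ g : Om Q, (g : V ≃ₗ[F] V) z₀ = z ∧ (g : V ≃ₗ[F] V) w₀ = w)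
    (ex3 : ∀ z w, P2 Q z w → ∃ w', P3 Q z w w') {z w : V} (h : P2 Q z w) : T z w ^ p = 1 := by
  have hk : ∀ z w, P2 Q z w → T z w ^ p ∈ Subgroup.center Γ := by
    intro z w h
    apply hσ.central
    rw [MonoidHom.mem_ker, map_pow, hT.map z w h, Eo_pow hO h.zw, ← Nat.cast_smul_eq_nsmul F, CharP.cast_eq_zero, zero_smul, Eo_zero]
  have hconst : ∀ z w, P2 Q z w → T z w ^ p = T z₀ w₀ ^ p := by
    intro z w h
    obtain ⟨g, rfl, rfl⟩ := tr2 z w h
    obtain ⟨x, rfl⟩ := hσ.surj g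
    rw [← hT.conj x z₀ w₀ h0, conj_pow, Subgroup.mem_center_iff.1 (hk _ _ h0) x, mul_inv_cancel_right]
  obtain ⟨w', h3⟩ := ex3 z w h
  have e := hconst _ _ h3.p2a
  rw [← hT.add _ _ _ h3, (show Commute (T z w) (T z w') from hT.comm3 hO h3).mul_pow, hconst _ _ h3.p2, hconst _ _ h3.p2', mul_eq_left] at e
  rw [hconst z w h, e]

/-- membership of the canonical lift -/
def In (Q : QuadraticForm F V) (T : V → V → Γ) (D : Subgroup Γ) (z w : V) : Prop := Q w = 0 ∧ polar Q z w = 0 ∧ ((∃ c : F, w = c • z) ∨ T z w ∈ D)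

variable {D : Subgroup Γ} {z : V} (hz : Q z = 0) (hz0 : z ≠ 0)

omit [FiniteDimensional F V] in
include hz hz0 in
theorem P2_of {w : V} (h1 : Q w = 0) (h2 : polar Q z w = 0) (h3 : ¬ ∃ c : F, w = c • z) : P2 Q z w := by
  refine ⟨hz, h1, h2, fun α β e => ?_⟩
  have hβ : β = 0 := by
    by_contra hβ
    apply h3
    refine ⟨-(β⁻¹ * α), ?_⟩
    have : β • w = -(α • z) := by rw [eq_neg_iff_add_eq_zero, add_comm]; exact e
    rw [neg_smul, mul_smul, ← smul_neg, ← this, inv_smul_smul₀ hβ]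
  rw [hβ, zero_smul, add_zero] at e
  exact ⟨(smul_eq_zero.1 e).resolve_right hz0, hβ⟩

include hT hz hz0 in
theorem In_shift {w : V} (h : In Q T D z w) (c : F) : In Q T D z (w + c • z) := by
  obtain ⟨h1, h2, h3⟩ := h
  refine ⟨by rw [Q_add, Q_smul, hz, h1, polar_smul_right, polar_comm, h2]; simp, by rw [polar_add_right, polar_smul_right, polar_self', h2, hz]; simp, ?_⟩
  by_cases hw : ∃ c : F, w = c • z
  · obtain ⟨d, rfl⟩ := hw
    exact Or.inl ⟨d + c, by rw [add_smul]⟩
  · right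
    rw [hT.shift z w c (P2_of hz hz0 h1 h2 hw)]
    exact h3.resolve_left hw

include hT hz hz0 in
theorem In_smul (small : ∀ x : F, x ≠ 0 → x * x = 1) (ex3 : ∀ z w, P2 Q z w → ∃ w', P3 Q z w w') {w : V} (h : In Q T D z w) (c : F) : In Q T D z (c • w) := by
  obtain ⟨h1, h2, h3⟩ := h
  refine ⟨by rw [Q_smul, h1, mul_zero], by rw [polar_smul_right, h2, smul_zero], ?_⟩
  by_cases hw : ∃ c : F, w = c • z
  · obtain ⟨d, rfl⟩ := hw
    exact Or.inl ⟨c * d, by rw [mul_smul]⟩
  by_cases hc : c = 0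
  · exact Or.inl ⟨0, by rw [hc, zero_smul, zero_smul]⟩
  right
  rcases mul_self_eq_one_iff.1 (small c hc) with rfl | rfl
  · rw [one_smul]; exact h3.resolve_left hw
  · rw [neg_one_smul, hT.neg hO ex3 (P2_of hz hz0 h1 h2 hw)]
    exact inv_mem (h3.resolve_left hw)

include hT hz hz0 in
theorem In_add (small : ∀ x : F, x ≠ 0 → x * x = 1) (ex3 : ∀ z w, P2 Q z w → ∃ w', P3 Q z w w') {w w' : V} (h : In Q T D z w) (h' : In Q T D z w')
    (hww : polar Q w w' = 0) : In Q T D z (w + w') := by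
  by_cases hw' : ∃ c : F, w' = c • z
  · obtain ⟨c, rfl⟩ := hw'
    exact In_shift hO hT hz hz0 h c
  by_cases hw : ∃ c : F, w = c • z
  · obtain ⟨c, rfl⟩ := hw
    rw [add_comm]
    exact In_shift hO hT hz hz0 h' c
  have p1 := P2_of hz hz0 h.1 h.2.1 hw
  have p2 := P2_of hz hz0 h'.1 h'.2.1 hw'
  by_cases hli : ∀ α β γ : F, α • z + β • w + γ • w' = 0 → α = 0 ∧ β = 0 ∧ γ = 0
  · have p3 : P3 Q z w w' := ⟨hz, h.1, h'.1, h.2.1, h'.2.1, hww, hli⟩
    refine ⟨p3.p2a.qw, p3.p2a.zw, Or.inr ?_⟩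
    rw [← hT.add _ _ _ p3]
    exact mul_mem (h.2.2.resolve_left hw) (h'.2.2.resolve_left hw')
  · push Not at hli
    obtain ⟨α, β, γ, e, hne⟩ := hli
    have hγ : γ ≠ 0 := by
      rintro rfl
      rw [zero_smul, add_zero] at e
      obtain ⟨k1, k2⟩ := p1.li α β e
      exact hne k1 k2 rfl
    have hw2 : w + w' = (1 + -(γ⁻¹ * β)) • w + (-(γ⁻¹ * α)) • z := by
      have e2 : γ • w' = -(α • z + β • w) := by rw [eq_neg_iff_add_eq_zero, add_comm]; exact e
      have e3 : w' = γ⁻¹ • (-(α • z + β • w)) := by rw [← e2, inv_smul_smul₀ hγ]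
      rw [e3]; module
    rw [hw2]
    exact In_shift hO hT hz hz0 (In_smul hO hT hz hz0 small ex3 h _) _

include hT hz hz0 in
theorem In_cls (small : ∀ x : F, x ≠ 0 → x * x = 1) (ex3 : ∀ z w, P2 Q z w → ∃ w', P3 Q z w w') : Cls Q (In Q T D z) :=
  ⟨fun _ c h => In_smul hO hT hz hz0 small ex3 h c, fun _ _ h h' hp => In_add hO hT hz hz0 small ex3 h h' hp⟩

omit [FiniteDimensional F V] in
include hv in
theorem v_ne (a : Zs m) : v a ≠ 0 := by
  intro h
  have := hv.pn a
  rw [h, polar_zero_left] at this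
  exact zero_ne_one this

include hv hT hσ in
/-- **lifts of the unipotent radicals over a prime field** -/
theorem DZ_of_GT [Finite F] {p : ℕ} [Fact p.Prime] [CharP F p] (hFp : Nat.card F = p) (small : ∀ x : F, x ≠ 0 → x * x = 1)
    (ex3 : ∀ z w, P2 Q z w → ∃ w', P3 Q z w w') {z₀ w₀ : V} (h0 : P2 Q z₀ w₀) (tr2 : ∀ z w, P2 Q z w → ∃ g : Om Q, (g : V ≃ₗ[F] V) z₀ = z ∧ (g : V ≃ₗ[F] V) w₀ = w)
    (hroom : Room Q v) (hPH : PH hO v hσ) (han : ∀ x ∈ V0 Q v, Q x = 0 → x = 0)
    {d₀ : ℕ} {e : Fin d₀ → V} (he : ∀ i, e i ∈ V0 Q v) (hspan : V0 Q v ≤ Submodule.span F (Set.range e)) (hV : Nat.card F ^ (2 * m + d₀) ≤ Nat.card V)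
    {a b c : Zs m} (hba : b ≠ a) (hba' : b ≠ ng a) (hca : c ≠ a) (hca' : c ≠ ng a) (hbc : b ≠ c) (hbc' : b ≠ ng c) [Finite Γ] :
    ∃ D, DZ hO σ (v a) D := by
  classical
  haveI : Finite V := Module.finite_of_finite F
  have hp0 : 0 < p := (Fact.out : p.Prime).pos
  have hB := fun {y y' : V} (h1 : polar Q (v a) y = 0) (h2 : polar Q (v a) y' = 0) => B_all hO hv hσ hroom hPH hba hba' h1 h2
  -- the generators
  have hnc : ng c ≠ a := ng_ne_of' hca'
  have hnc' : ng c ≠ ng a := ng_ng_ne hca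
  obtain ⟨ws, hws⟩ : ∃ ws : Fin d₀ → V, ∀ i, ws i = v c + e i - Q (e i) • v (ng c) := ⟨_, fun _ => rfl⟩
  have hwsQ : ∀ i, Q (ws i) = 0 := by
    intro i
    have hud : ∀ d, polar Q (e i) (v d) = 0 := fun d => by rw [polar_comm]; exact he i d
    rw [hws, Q_sub, Q_add, Q_smul, hv.q0, hv.q0, he i, polar_add_left, polar_smul_right, polar_smul_right, hv.pn, hud]; simp
  have hwsp : ∀ i, polar Q (v a) (ws i) = 0 := by
    intro i
    rw [hws, polar_sub_right, polar_add_right, polar_smul_right, he i, hv.p0 hca', hv.p0 hnc']; simp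
  have hwsp' : ∀ i, polar Q (v (ng a)) (ws i) = 0 := by
    intro i
    rw [hws, polar_sub_right, polar_add_right, polar_smul_right, he i, hv.p0 (a := ng a) (b := c) (by rw [ng_ng]; exact hca), hv.p0 (a := ng a) (b := ng c) (by rw [ng_ng]; exact hnc)]; simp
  have P2of : ∀ w, Q w = 0 → polar Q (v a) w = 0 → polar Q (v (ng a)) w = 0 → w ≠ 0 → P2 Q (v a) w := by
    intro w h1 h2 h3 h4
    apply P2_of (hv.q0 a) (v_ne hv a) h1 h2
    rintro ⟨r, rfl⟩
    rw [polar_smul_right, hv.pn', smul_eq_mul, mul_one] at h3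
    rw [h3, zero_smul] at h4
    exact h4 rfl
  have hwsne : ∀ i, ws i ≠ 0 := by
    intro i h
    have h1 : polar Q (v (ng c)) (ws i) = 1 := by
      rw [hws, polar_sub_right, polar_add_right, polar_smul_right, he i, hv.pn', hv.self]; simp
    rw [h, polar_zero_right] at h1
    exact zero_ne_one h1
  obtain ⟨gen, hgen1, hgen2⟩ : ∃ gen : ({d : Zs m // d ≠ a ∧ d ≠ ng a} ⊕ Fin d₀) → V, (∀ d, gen (Sum.inl d) = v d) ∧ (∀ i, gen (Sum.inr i) = ws i) :=
    ⟨Sum.elim (fun d => v d) ws, fun _ => rfl, fun _ => rfl⟩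
  have hgP : ∀ j, P2 Q (v a) (gen j) := by
    rintro (⟨d, d1, d2⟩ | i)
    · rw [hgen1]; exact P2of _ (hv.q0 d) (hv.p0 d2) (hv.p0 (by rw [ng_ng]; exact d1)) (v_ne hv d)
    · rw [hgen2]; exact P2of _ (hwsQ i) (hwsp i) (hwsp' i) (hwsne i)
  obtain ⟨D, hD⟩ : ∃ D : Subgroup Γ, D = ⨆ j, Subgroup.zpowers (T (v a) (gen j)) := ⟨_, rfl⟩
  have hgD : ∀ j, T (v a) (gen j) ∈ D := by
    intro j
    rw [hD]
    exact Subgroup.mem_iSup_of_mem j (Subgroup.mem_zpowers _)
  have hcls : Cls Q (In Q T D (v a)) := In_cls hO hT (hv.q0 a) (v_ne hv a) small ex3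
  have iv : ∀ d, d ≠ a → d ≠ ng a → In Q T D (v a) (v d) := by
    intro d d1 d2
    refine ⟨hv.q0 d, hv.p0 d2, Or.inr ?_⟩
    have := hgD (Sum.inl ⟨d, d1, d2⟩)
    rwa [hgen1] at this
  have i0 : In Q T D (v a) 0 := ⟨by simp, by simp, Or.inl ⟨0, by rw [zero_smul]⟩⟩
  have hx : ∀ i, In Q T D (v a) (v c + e i - Q (e i) • v (ng c)) := by
    intro i
    rw [← hws]
    refine ⟨hwsQ i, hwsp i, Or.inr ?_⟩
    have := hgD (Sum.inr i)
    rwa [hgen2] at this
  have hall := exch_all hv hcls hbc hbc' (iv b hba hba') (iv (ng b) (ng_ne_of' hba') (ng_ng_ne hba)) (iv c hca hca') (iv (ng c) hnc hnc') han he hspan hx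
  have hsing := all_sing hv hcls hQ hca hca' iv han hall i0
  have hsing' : ∀ x, Q x = 0 → polar Q (v a) x = 0 → In Q T D (v a) x := by
    intro x h1 h2
    have e1 : x = (x - polar Q (v (ng a)) x • v a) + polar Q (v (ng a)) x • v a := by abel
    rw [e1]
    apply In_shift hO hT (hv.q0 a) (v_ne hv a)
    apply hsing
    · rw [Q_sub, Q_smul, hv.q0, h1, polar_smul_right, polar_comm Q x (v a), h2]; simp
    · rw [polar_sub_right, polar_smul_right, hv.self, h2]; simp
    · rw [polar_sub_right, polar_smul_right, hv.pn']; simp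
  have hTD : ∀ w, P2 Q (v a) w → T (v a) w ∈ D := by
    intro w h
    rcases (hsing' w h.qw h.zw).2.2 with ⟨r, hr⟩ | h1
    · exfalso
      have := (h.li (-r) 1 (by rw [hr]; module)).2
      exact one_ne_zero this
    · exact h1
  -- the properties
  have hmem : ∀ d ∈ D, ∃ y, polar Q (v a) y = 0 ∧ σ d = Eo hO (v a) y := by
    let U : Subgroup Γ :=
      { carrier := {d | ∃ y, polar Q (v a) y = 0 ∧ σ d = Eo hO (v a) y}
        one_mem' := ⟨0, by simp, by rw [map_one, Eo_zero]⟩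
        mul_mem' := by
          rintro d d' ⟨y, h1, h2⟩ ⟨y', h1', h2'⟩
          exact ⟨y + y', by rw [polar_add_right, h1, h1', add_zero], by rw [map_mul, h2, h2', Eo_add hO h1 h1']⟩
        inv_mem' := by
          rintro d ⟨y, h1, h2⟩
          exact ⟨-y, by rw [polar_neg_right, h1, neg_zero], by rw [map_inv, h2, Eo_inv hO h1]⟩ }
    have hle : D ≤ U := by
      rw [hD, iSup_le_iff]
      intro j
      rw [Subgroup.zpowers_le]
      exact ⟨gen j, (hgP j).zw, hT.map _ _ (hgP j)⟩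
    exact hle
  have hsur : ∀ y, polar Q (v a) y = 0 → ∃ d ∈ D, σ d = Eo hO (v a) y := by
    let S : AddSubgroup V :=
      { carrier := {y | polar Q (v a) y = 0 ∧ ∃ d ∈ D, σ d = Eo hO (v a) y}
        zero_mem' := ⟨by simp, 1, one_mem _, by rw [map_one, Eo_zero]⟩
        add_mem' := by
          rintro y y' ⟨h1, d, h2, h3⟩ ⟨h1', d', h2', h3'⟩
          exact ⟨by rw [polar_add_right, h1, h1', add_zero], d * d', mul_mem h2 h2', by rw [map_mul, h3, h3', Eo_add hO h1 h1']⟩
        neg_mem' := by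
          rintro y ⟨h1, d, h2, h3⟩
          exact ⟨by rw [polar_neg_right, h1, neg_zero], d⁻¹, inv_mem h2, by rw [map_inv, h3, Eo_inv hO h1]⟩ }
    have hSs : ∀ w, Q w = 0 → polar Q (v a) w = 0 → w ∈ S := by
      intro w h1 h2
      refine ⟨h2, ?_⟩
      by_cases hw : ∃ r : F, w = r • v a
      · obtain ⟨r, rfl⟩ := hw
        exact ⟨1, one_mem _, by rw [map_one, Eo_smul_self]⟩
      · have hP := P2_of (hv.q0 a) (v_ne hv a) h1 h2 hw
        exact ⟨_, hTD w hP, hT.map _ _ hP⟩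
    intro y hy
    have hyS : y ∈ S := by
      have e1 : y = (y - ∑ d, polar Q (v (ng d)) y • v d) + ∑ d, polar Q (v (ng d)) y • v d := by abel
      rw [e1]
      have hu := dec hv y
      obtain ⟨u, hu'⟩ : ∃ u, u = y - ∑ d, polar Q (v (ng d)) y • v d := ⟨_, rfl⟩
      rw [← hu'] at hu ⊢
      refine S.add_mem ?_ (S.sum_mem fun d _ => ?_)
      · have hud : ∀ d, polar Q u (v d) = 0 := fun d => by rw [polar_comm]; exact hu d
        have e2 : u = (v c + u - Q u • v (ng c)) + (-(1 : F) • v c + Q u • v (ng c)) := by module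
        rw [e2]
        refine S.add_mem (hSs _ ?_ ?_) (S.add_mem (hSs _ ?_ ?_) (hSs _ ?_ ?_))
        · rw [Q_sub, Q_add, Q_smul, hv.q0, hv.q0, hu, polar_add_left, polar_smul_right, polar_smul_right, hv.pn, hud]; simp
        · rw [polar_sub_right, polar_add_right, polar_smul_right, hu, hv.p0 hca', hv.p0 hnc']; simp
        · rw [Q_smul, hv.q0, mul_zero]
        · rw [polar_smul_right, hv.p0 hca', smul_zero]
        · rw [Q_smul, hv.q0, mul_zero]
        · rw [polar_smul_right, hv.p0 hnc', smul_zero]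
      · by_cases hd : d = ng a
        · rw [hd, ng_ng, hy, zero_smul]; exact S.zero_mem
        · exact hSs _ (by rw [Q_smul, hv.q0, mul_zero]) (by rw [polar_smul_right, hv.p0 hd, smul_zero])
    exact hyS.2
  refine ⟨D, ?_, hsur, hmem, ?_⟩
  · -- counting
    have hcD : Nat.card D ≤ p ^ (2 * m + d₀ - 2) := by
      have h1 := card_iSup_zpowers hp0 (fun j => T (v a) (gen j)) (fun j => hT.pow hO hσ h0 tr2 ex3 (hgP j)) (fun i j =>
        commute_of_cl hσ (hB (hgP i).zw (hgP j).zw) (hT.map _ _ (hgP i)) (hT.map _ _ (hgP j)))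
      rw [← hD, Fintype.card_sum, Fintype.card_fin] at h1
      have h2 : Fintype.card {d : Zs m // d ≠ a ∧ d ≠ ng a} = 2 * m - 2 := by
        have h3 : Fintype.card {d : Zs m // ¬ (d = a ∨ d = ng a)} = Fintype.card (Zs m) - Fintype.card {d : Zs m // d = a ∨ d = ng a} := Fintype.card_subtype_compl _
        have h4 : Fintype.card {d : Zs m // d = a ∨ d = ng a} = 2 := by
          rw [Fintype.card_subtype]
          have : (Finset.univ.filter fun d : Zs m => d = a ∨ d = ng a) = {a, ng a} := by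
            ext d; simp
          rw [this, Finset.card_pair (ng_ne a).symm]
        have h5 : Fintype.card (Zs m) = 2 * m := by
          rw [Fintype.card_sum, Fintype.card_fin]; ring
        rw [h4, h5] at h3
        rw [← h3]
        apply Fintype.card_congr
        exact Equiv.subtypeEquivRight (fun d => by push Not; rfl)
      rw [h2] at h1
      have hm : 1 ≤ m := by
        rcases a with i | i <;> exact Nat.one_le_of_lt i.2
      have h6 : 2 * m - 2 + d₀ = 2 * m + d₀ - 2 := by omega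
      rwa [h6] at h1
    -- the image
    have hm : 1 ≤ m := by
      rcases a with i | i <;> exact Nat.one_le_of_lt i.2
    obtain ⟨W, hW⟩ : ∃ W : Submodule F V, ∀ x, x ∈ W ↔ polar Q (v a) x = 0 ∧ polar Q (v (ng a)) x = 0 :=
      ⟨⟨⟨⟨{x | polar Q (v a) x = 0 ∧ polar Q (v (ng a)) x = 0}, by
        rintro x y ⟨h1, h2⟩ ⟨h3, h4⟩; exact ⟨by rw [polar_add_right, h1, h3, add_zero], by rw [polar_add_right, h2, h4, add_zero]⟩⟩, by simp⟩, by
        rintro r x ⟨h1, h2⟩; exact ⟨by rw [polar_smul_right, h1, smul_zero], by rw [polar_smul_right, h2, smul_zero]⟩⟩, fun x => Iff.rfl⟩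
    have hcW : Nat.card V ≤ Nat.card W * Nat.card F ^ 2 := by
      let L : V →ₗ[F] F × F := LinearMap.prod (polarBilin Q (v a)) (polarBilin Q (v (ng a)))
      have h1 : LinearMap.ker L ≤ W := by
        intro x hx
        have h2 := LinearMap.mem_ker.1 hx
        exact (hW x).2 ⟨congrArg Prod.fst h2, congrArg Prod.snd h2⟩
      have h2 : Nat.card V = Nat.card (LinearMap.ker L) * Nat.card (LinearMap.range L) := by
        have := Submodule.card_eq_card_quotient_mul_card (LinearMap.ker L)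
        rw [this]
        congr 1
        exact Nat.card_congr (LinearMap.quotKerEquivRange L).toEquiv
      have h3 : Nat.card (LinearMap.range L) ≤ Nat.card F ^ 2 := by
        have h4 : Nat.card (F × F) = Nat.card F ^ 2 := by rw [Nat.card_prod, pow_two]
        rw [← h4]
        exact Nat.card_le_card_of_injective _ Subtype.val_injective
      rw [h2]
      exact Nat.mul_le_mul (Nat.card_le_card_of_injective _ (Submodule.inclusion_injective h1)) h3
    have hcW2 : p ^ (2 * m + d₀ - 2) ≤ Nat.card W := by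
      have h1 := hV.trans hcW
      have h2 : 2 * m + d₀ = (2 * m + d₀ - 2) + 2 := by omega
      rw [h2, pow_add, hFp] at h1
      exact Nat.le_of_mul_le_mul_right h1 (pow_pos hp0 _)
    haveI : Finite (D.map σ) := Set.Finite.to_subtype ((Set.toFinite (D : Set Γ)).image σ)
    have hWinj : Nat.card W ≤ Nat.card (D.map σ) := by
      have hch : ∀ y : W, ∃ d : D.map σ, (d : Om Q) = Eo hO (v a) y := by
        intro y
        obtain ⟨d, hd, hd'⟩ := hsur y ((hW y).1 y.2).1
        exact ⟨⟨σ d, d, hd, rfl⟩, hd'⟩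
      choose fd hfd using hch
      refine Nat.card_le_card_of_injective fd ?_
      intro y y' h
      have h2 : Eo hO (v a) y = Eo hO (v a) y' := by rw [← hfd, ← hfd, h]
      have h3 : Eo hO (v a) ((y : V) - y') = 1 := by
        rw [sub_eq_add_neg, ← Eo_add hO ((hW y).1 y.2).1 (by rw [polar_neg_right, ((hW y').1 y'.2).1, neg_zero]), h2, ← Eo_inv hO ((hW y').1 y'.2).1, mul_inv_cancel]
      obtain ⟨r, hr⟩ := Eo_eq_one hO hv (by rw [polar_sub_right, ((hW y).1 y.2).1, ((hW y').1 y'.2).1, sub_zero]) h3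
      have h4 : polar Q (v (ng a)) ((y : V) - y') = 0 := by rw [polar_sub_right, ((hW y).1 y.2).2, ((hW y').1 y'.2).2, sub_zero]
      rw [hr, polar_smul_right, hv.pn', smul_eq_mul, mul_one] at h4
      rw [h4, zero_smul] at hr
      exact Subtype.ext (sub_eq_zero.1 hr)
    have hle : Nat.card D ≤ Nat.card (D.map σ) := hcD.trans (hcW2.trans hWinj)
    -- injectivity
    have hinj : Function.Injective (fun d : D => (⟨σ d, d, d.2, rfl⟩ : D.map σ)) := by
      have hsurj : Function.Surjective (fun d : D => (⟨σ d, d, d.2, rfl⟩ : D.map σ)) := by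
        rintro ⟨_, d, hd, rfl⟩
        exact ⟨⟨d, hd⟩, rfl⟩
      have hcard : Nat.card D = Nat.card (D.map σ) := le_antisymm hle (Nat.card_le_card_of_surjective _ hsurj)
      exact ((Nat.bijective_iff_surjective_and_card _).2 ⟨hsurj, hcard⟩).1
    rw [eq_bot_iff]
    rintro x ⟨hx1, hx2⟩
    have h1 : σ x = 1 := hx2
    have h2 : (⟨x, hx1⟩ : D) = 1 := hinj (Subtype.ext (by
      show σ x = σ ((1 : D) : Γ)
      rw [h1, OneMemClass.coe_one, map_one]))
    exact congrArg Subtype.val h2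
  · intro g hg
    have hle : D ≤ D.comap (MulAut.conj g).toMonoidHom := by
      conv_lhs => rw [hD]
      rw [iSup_le_iff]
      intro j
      rw [Subgroup.zpowers_le]
      show g * T (v a) (gen j) * g⁻¹ ∈ D
      rw [hT.conj g _ _ (hgP j), hg]
      have := (hgP j).map (σ g)
      rw [hg] at this
      exact hTD _ this
    intro d hd
    exact hle hd

end GT

end Cfsg.Agent.Lib.MulOrth
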