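import Cfsg.Agent.Lib.MulOrthB
import Cfsg.Agent.Lib.QuadNeg

/-! Clifford modules over fields of odd characteristic and the spin cover of `Ω(V)` (helper35). -/

set_option autoImplicit false

namespace Cfsg.Agent.Lib.MulSpin

open Matrix Cfsg.Agent.Lib.Quad Cfsg.Agent.Lib.ClOrthSiegel QuadraticMap Module
open Cfsg.Agent.Lib.PresBC (Zs ng ng_ng ng_ne ng_inj)

universe u

/-! ### the matrix algebras -/

/-- Clifford systems -/
structure CS (F : Type u) [Field F] (n : ℕ) (R : Type u) [Ring R] [Algebra F R] (C : Zs n → R) (tp tm : R → R) : Prop where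
  rel : ∀ a b, C a * C b + C b * C a = if b = ng a then 1 else 0
  pa : ∀ x y, tp (x + y) = tp x + tp y
  pm : ∀ x y, tp (x * y) = tp y * tp x
  pC : ∀ a, tp (C a) = C a
  ps : ∀ t : F, tp (algebraMap F R t) = algebraMap F R t
  ma : ∀ x y, tm (x + y) = tm x + tm y
  mm : ∀ x y, tm (x * y) = tm y * tm x
  mC : ∀ a, tm (C a) = - C a
  ms : ∀ t : F, tm (algebraMap F R t) = algebraMap F R t
  Z : ∀ s, (∀ a, s * C a = C a * s) → ∃ t : F, s = algebraMap F R t

section rec
variable {R : Type u} [Ring R]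

/-- block diagonal elements -/
def Dm (x : R) : Matrix (Fin 2) (Fin 2) R := !![x, 0; 0, -x]
def Up (R : Type u) [Ring R] : Matrix (Fin 2) (Fin 2) R := !![0, 1; 0, 0]
def Lw (R : Type u) [Ring R] : Matrix (Fin 2) (Fin 2) R := !![0, 0; 1, 0]

def nC {n : ℕ} (C : Zs n → R) : Zs (n + 1) → Matrix (Fin 2) (Fin 2) R :=
  Sum.elim (Fin.cases (Up R) (fun i => Dm (C (Sum.inl i)))) (Fin.cases (Lw R) (fun i => Dm (C (Sum.inr i))))

theorem Dm_rel {x y : R} {e : Prop} [Decidable e] (h : x * y + y * x = if e then 1 else 0) : Dm x * Dm y + Dm y * Dm x = if e then 1 else 0 := by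
  by_cases he : e
  · rw [if_pos he] at h ⊢
    ext i j; fin_cases i <;> fin_cases j <;> simp [Dm, Matrix.mul_apply, Fin.sum_univ_two, h]
  · rw [if_neg he] at h ⊢
    ext i j; fin_cases i <;> fin_cases j <;> simp [Dm, Matrix.mul_apply, Fin.sum_univ_two, h]

theorem Up_Dm (x : R) : Up R * Dm x + Dm x * Up R = 0 := by
  ext i j; fin_cases i <;> fin_cases j <;> simp [Dm, Up, Matrix.mul_apply, Fin.sum_univ_two]
theorem Lw_Dm (x : R) : Lw R * Dm x + Dm x * Lw R = 0 := by
  ext i j; fin_cases i <;> fin_cases j <;> simp [Dm, Lw, Matrix.mul_apply, Fin.sum_univ_two]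
theorem Up_Up : Up R * Up R + Up R * Up R = 0 := by
  ext i j; fin_cases i <;> fin_cases j <;> simp [Up, Matrix.mul_apply, Fin.sum_univ_two]
theorem Lw_Lw : Lw R * Lw R + Lw R * Lw R = 0 := by
  ext i j; fin_cases i <;> fin_cases j <;> simp [Lw, Matrix.mul_apply, Fin.sum_univ_two]
theorem Up_Lw : Up R * Lw R + Lw R * Up R = 1 := by
  ext i j; fin_cases i <;> fin_cases j <;> simp [Lw, Up, Matrix.mul_apply, Fin.sum_univ_two]
theorem Lw_Up : Lw R * Up R + Up R * Lw R = 1 := by rw [add_comm, Up_Lw]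

theorem Dm_rel0 {x y : R} (h : x * y + y * x = 0) : Dm x * Dm y + Dm y * Dm x = 0 := by
  have := Dm_rel (e := False) (x := x) (y := y) (by rw [if_neg id]; exact h)
  rwa [if_neg id] at this
theorem Dm_rel1 {x y : R} (h : x * y + y * x = 1) : Dm x * Dm y + Dm y * Dm x = 1 := by
  have := Dm_rel (e := True) (x := x) (y := y) (by rw [if_pos trivial]; exact h)
  rwa [if_pos trivial] at this

theorem zn1 {n : ℕ} {i j : Fin n} : ¬ ((Sum.inl j : Zs n) = ng (Sum.inl i)) := fun e => Sum.inl_ne_inr e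
theorem zn2 {n : ℕ} {i j : Fin n} : ¬ ((Sum.inr j : Zs n) = ng (Sum.inr i)) := fun e => Sum.inr_ne_inl e
theorem zn3 {n : ℕ} {i j : Fin n} (h : j ≠ i) : ¬ ((Sum.inr j : Zs n) = ng (Sum.inl i)) := fun e => h (Sum.inr.inj e)
theorem zn4 {n : ℕ} {i j : Fin n} (h : j ≠ i) : ¬ ((Sum.inl j : Zs n) = ng (Sum.inr i)) := fun e => h (Sum.inl.inj e)
theorem zp1 {n : ℕ} {i : Fin n} : (Sum.inr i : Zs n) = ng (Sum.inl i) := rfl
theorem zp2 {n : ℕ} {i : Fin n} : (Sum.inl i : Zs n) = ng (Sum.inr i) := rfl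

theorem nC_rel {n : ℕ} {C : Zs n → R} (h : ∀ a b, C a * C b + C b * C a = if b = ng a then 1 else 0) (a b : Zs (n + 1)) :
    nC C a * nC C b + nC C b * nC C a = if b = ng a then 1 else 0 := by
  rcases a with i | i <;> rcases b with j | j
  · rw [if_neg zn1]
    refine Fin.cases ?_ (fun i => ?_) i <;> refine Fin.cases ?_ (fun j => ?_) j
    · exact Up_Up
    · exact Up_Dm _
    · rw [add_comm]; exact Up_Dm _
    · have h1 := h (Sum.inl i) (Sum.inl j)
      rw [if_neg zn1] at h1
      exact Dm_rel0 h1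
  · refine Fin.cases ?_ (fun i => ?_) i <;> refine Fin.cases ?_ (fun j => ?_) j
    · rw [if_pos zp1]; exact Up_Lw
    · rw [if_neg (zn3 (Fin.succ_ne_zero _))]; exact Up_Dm _
    · rw [if_neg (zn3 (Fin.succ_ne_zero _).symm), add_comm]; exact Lw_Dm _
    · have h1 := h (Sum.inl i) (Sum.inr j)
      by_cases hij : j = i
      · subst hij
        rw [if_pos zp1] at h1 ⊢
        exact Dm_rel1 h1
      · rw [if_neg (zn3 hij)] at h1
        rw [if_neg (zn3 (fun e => hij (Fin.succ_injective _ e)))]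
        exact Dm_rel0 h1
  · refine Fin.cases ?_ (fun i => ?_) i <;> refine Fin.cases ?_ (fun j => ?_) j
    · rw [if_pos zp2]; exact Lw_Up
    · rw [if_neg (zn4 (Fin.succ_ne_zero _))]; exact Lw_Dm _
    · rw [if_neg (zn4 (Fin.succ_ne_zero _).symm), add_comm]; exact Up_Dm _
    · have h1 := h (Sum.inr i) (Sum.inl j)
      by_cases hij : j = i
      · subst hij
        rw [if_pos zp2] at h1 ⊢
        exact Dm_rel1 h1
      · rw [if_neg (zn4 hij)] at h1
        rw [if_neg (zn4 (fun e => hij (Fin.succ_injective _ e)))]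
        exact Dm_rel0 h1
  · rw [if_neg zn2]
    refine Fin.cases ?_ (fun i => ?_) i <;> refine Fin.cases ?_ (fun j => ?_) j
    · exact Lw_Lw
    · exact Lw_Dm _
    · rw [add_comm]; exact Lw_Dm _
    · have h1 := h (Sum.inr i) (Sum.inr j)
      rw [if_neg zn2] at h1
      exact Dm_rel0 h1

def np (tm : R → R) (M : Matrix (Fin 2) (Fin 2) R) : Matrix (Fin 2) (Fin 2) R := !![tm (M 1 1), tm (M 0 1); tm (M 1 0), tm (M 0 0)]
def nm (tp : R → R) (M : Matrix (Fin 2) (Fin 2) R) : Matrix (Fin 2) (Fin 2) R := !![tp (M 1 1), -tp (M 0 1); -tp (M 1 0), tp (M 0 0)]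

variable {F : Type u} [Field F] [Algebra F R]

theorem algM (t : F) : algebraMap F (Matrix (Fin 2) (Fin 2) R) t = !![algebraMap F R t, 0; 0, algebraMap F R t] := by
  ext i j; fin_cases i <;> fin_cases j <;> simp [Matrix.algebraMap_matrix_apply]

theorem CS.neg_p {n : ℕ} {C : Zs n → R} {tp tm : R → R} (h : CS F n R C tp tm) (x : R) : tp (-x) = -tp x := by
  have h0 : tp 0 = 0 := by
    have := h.ps 0
    rwa [map_zero] at this
  have := h.pa x (-x)
  rw [add_neg_cancel, h0] at this
  exact (neg_eq_of_add_eq_zero_right this.symm).symm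
theorem CS.neg_m {n : ℕ} {C : Zs n → R} {tp tm : R → R} (h : CS F n R C tp tm) (x : R) : tm (-x) = -tm x := by
  have h0 : tm 0 = 0 := by
    have := h.ms 0
    rwa [map_zero] at this
  have := h.ma x (-x)
  rw [add_neg_cancel, h0] at this
  exact (neg_eq_of_add_eq_zero_right this.symm).symm

theorem CS.succ {n : ℕ} {C : Zs n → R} {tp tm : R → R} (h : CS F n R C tp tm) :
    CS F (n + 1) (Matrix (Fin 2) (Fin 2) R) (nC C) (np tm) (nm tp) := by
  have p0 : tp 0 = 0 := by have := h.ps 0; rwa [map_zero] at this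
  have m0 : tm 0 = 0 := by have := h.ms 0; rwa [map_zero] at this
  have p1 : tp 1 = 1 := by have := h.ps 1; rwa [map_one] at this
  have m1 : tm 1 = 1 := by have := h.ms 1; rwa [map_one] at this
  refine ⟨nC_rel h.rel, ?_, ?_, ?_, ?_, ?_, ?_, ?_, ?_, ?_⟩
  · intro x y
    ext i j; fin_cases i <;> fin_cases j <;> simp [np, h.ma]
  · intro x y
    ext i j; fin_cases i <;> fin_cases j <;> simp [np, Matrix.mul_apply, Fin.sum_univ_two, h.ma, h.mm, add_comm]
  · rintro (i | i) <;> induction i using Fin.cases with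
    | zero =>
      ext a b; fin_cases a <;> fin_cases b <;> simp [np, nC, Up, Lw, m0, m1]
    | succ i =>
      ext a b; fin_cases a <;> fin_cases b <;> simp [np, nC, Dm, m0, h.mC, h.neg_m]
  · intro t
    rw [algM]
    ext a b; fin_cases a <;> fin_cases b <;> simp [np, m0, h.ms]
  · intro x y
    ext i j; fin_cases i <;> fin_cases j <;> simp [nm, h.pa, add_comm]
  · intro x y
    ext i j; fin_cases i <;> fin_cases j <;> simp [nm, Matrix.mul_apply, Fin.sum_univ_two, h.pa, h.pm, add_comm]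
  · rintro (i | i) <;> induction i using Fin.cases with
    | zero =>
      ext a b; fin_cases a <;> fin_cases b <;> simp [nm, nC, Up, Lw, p0, p1]
    | succ i =>
      ext a b; fin_cases a <;> fin_cases b <;> simp [nm, nC, Dm, p0, h.pC, h.neg_p]
  · intro t
    rw [algM]
    ext a b; fin_cases a <;> fin_cases b <;> simp [nm, p0, h.ps]
  · intro s hs
    have h1 := hs (Sum.inl 0)
    have h2 := hs (Sum.inr 0)
    have e1 : s 1 0 = 0 := by
      have := congrFun (congrFun h1 0) 0
      simpa [nC, Up, Matrix.mul_apply, Fin.sum_univ_two] using this.symm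
    have e2 : s 0 0 = s 1 1 := by
      have := congrFun (congrFun h1 0) 1
      simpa [nC, Up, Matrix.mul_apply, Fin.sum_univ_two] using this
    have e3 : s 0 1 = 0 := by
      have := congrFun (congrFun h2 0) 0
      simpa [nC, Lw, Matrix.mul_apply, Fin.sum_univ_two] using this
    obtain ⟨t, ht⟩ := h.Z (s 0 0) (by
      rintro (i | i)
      · have := congrFun (congrFun (hs (Sum.inl i.succ)) 0) 0
        simpa [nC, Dm, Matrix.mul_apply, Fin.sum_univ_two] using this
      · have := congrFun (congrFun (hs (Sum.inr i.succ)) 0) 0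
        simpa [nC, Dm, Matrix.mul_apply, Fin.sum_univ_two] using this)
    refine ⟨t, ?_⟩
    rw [algM]
    ext a b; fin_cases a <;> fin_cases b
    · simpa using ht
    · simpa using e3
    · simpa using e1
    · simpa [← e2] using ht

end rec

theorem exists_CS (F : Type u) [Field F] [Finite F] (n : ℕ) : ∃ (R : Type u) (_ : Ring R) (_ : Algebra F R) (C : Zs n → R) (tp tm : R → R),
    Finite R ∧ Nontrivial R ∧ CS F n R C tp tm := by
  induction n with
  | zero =>
    refine ⟨F, inferInstance, inferInstance, fun _ => 0, id, id, inferInstance, inferInstance, ?_⟩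
    refine ⟨?_, fun _ _ => rfl, fun x y => mul_comm x y, fun _ => rfl, fun _ => rfl, fun _ _ => rfl, fun x y => mul_comm x y, ?_, fun _ => rfl, fun s _ => ⟨s, rfl⟩⟩
    · rintro (i | i) <;> exact i.elim0
    · rintro (i | i) <;> exact i.elim0
  | succ n ih =>
    obtain ⟨R, hR, hA, C, tp, tm, hfin, hnt, h⟩ := ih
    exact ⟨Matrix (Fin 2) (Fin 2) R, inferInstance, inferInstance, _, _, _, inferInstance, inferInstance, h.succ⟩

end Cfsg.Agent.Lib.MulSpin
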