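import Cfsg.Agent.Lib.MulSpin

/-! Clifford maps of nondegenerate quadratic spaces over finite fields of odd characteristic (helper35). -/

set_option autoImplicit false

namespace Cfsg.Agent.Lib.MulSpin

open Matrix Cfsg.Agent.Lib.Quad Cfsg.Agent.Lib.ClOrthSiegel QuadraticMap Module
open Cfsg.Agent.Lib.PresBC (Zs ng ng_ng ng_ne ng_inj)

universe u

/-- Clifford maps -/
structure CM {F V : Type u} [Field F] [AddCommGroup V] [Module F V] (Q : QuadraticForm F V) {R : Type u} [Ring R] [Algebra F R]
    (c : V →ₗ[F] R) (τ : R → R) : Prop where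
  rel : ∀ x y, c x * c y + c y * c x = algebraMap F R (polar Q x y)
  sq : ∀ x, c x * c x = algebraMap F R (Q x)
  τa : ∀ x y, τ (x + y) = τ x + τ y
  τm : ∀ x y, τ (x * y) = τ y * τ x
  τc : ∀ x, τ (c x) = c x
  τs : ∀ t : F, τ (algebraMap F R t) = algebraMap F R t
  Z : ∀ s, (∀ x, s * c x = c x * s) → (∀ f, (∀ x, f * c x = -(c x * f)) → s * f = f * s) → ∃ t : F, s = algebraMap F R t

section
variable {F V : Type u} [Field F] [AddCommGroup V] [Module F V] [FiniteDimensional F V] {Q : QuadraticForm F V}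

theorem exists_CM [Finite F] (hQ : Nd Q) (h2 : (2 : F) ≠ 0) : ∃ (R : Type u) (_ : Ring R) (_ : Algebra F R) (c : V →ₗ[F] R) (τ : R → R),
    Finite R ∧ Nontrivial R ∧ CM Q c τ := by
  obtain ⟨b, hb, hb0⟩ := hQ.exists_orth_basis h2
  obtain ⟨R, hR, hA, C, tp, tm, hfin, hnt, h⟩ := exists_CS F (finrank F V)
  have two : ∀ x y : R, (2 : F) • x = (2 : F) • y → x = y := by
    intro x y hxy
    have := congrArg (fun z => (2 : F)⁻¹ • z) hxy
    simpa [smul_smul, inv_mul_cancel₀ h2] using this
  have Csq : ∀ a, C a * C a = 0 := by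
    intro a
    have h1 := h.rel a a
    rw [if_neg (ng_ne a).symm] at h1
    apply two
    rw [smul_zero, two_smul]; exact h1
  obtain ⟨g, hg⟩ : ∃ g : Fin (finrank F V) → R, ∀ i, g i = C (Sum.inl i) + Q (b i) • C (Sum.inr i) := ⟨_, fun _ => rfl⟩
  obtain ⟨f, hf⟩ : ∃ f : Fin (finrank F V) → R, ∀ i, f i = C (Sum.inl i) - Q (b i) • C (Sum.inr i) := ⟨_, fun _ => rfl⟩
  have r1 : ∀ i j, C (Sum.inl i) * C (Sum.inl j) + C (Sum.inl j) * C (Sum.inl i) = 0 := fun i j => by
    have := h.rel (Sum.inl i) (Sum.inl j); rwa [if_neg zn1] at this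
  have r2 : ∀ i j, C (Sum.inr i) * C (Sum.inr j) + C (Sum.inr j) * C (Sum.inr i) = 0 := fun i j => by
    have := h.rel (Sum.inr i) (Sum.inr j); rwa [if_neg zn2] at this
  have r3 : ∀ i j, j ≠ i → C (Sum.inl i) * C (Sum.inr j) + C (Sum.inr j) * C (Sum.inl i) = 0 := fun i j hij => by
    have := h.rel (Sum.inl i) (Sum.inr j); rwa [if_neg (zn3 hij)] at this
  have r4 : ∀ i, C (Sum.inl i) * C (Sum.inr i) + C (Sum.inr i) * C (Sum.inl i) = 1 := fun i => by
    have := h.rel (Sum.inl i) (Sum.inr i); rwa [if_pos zp1] at this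
  have gg : ∀ i j, g i * g j + g j * g i = algebraMap F R (polar Q (b i) (b j)) := by
    intro i j
    by_cases hij : i = j
    · subst hij
      rw [hg, polar_self', map_mul]
      have e : (C (Sum.inl i) + Q (b i) • C (Sum.inr i)) * (C (Sum.inl i) + Q (b i) • C (Sum.inr i)) =
          C (Sum.inl i) * C (Sum.inl i) + Q (b i) • (C (Sum.inl i) * C (Sum.inr i) + C (Sum.inr i) * C (Sum.inl i)) + (Q (b i) * Q (b i)) • (C (Sum.inr i) * C (Sum.inr i)) := by
        simp only [mul_add, add_mul, mul_smul_comm, smul_mul_assoc, smul_add, smul_smul]; abel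
      rw [e, Csq, Csq, r4, smul_zero, zero_add, add_zero, ← Algebra.algebraMap_eq_smul_one, ← map_mul, ← map_add]
      congr 1; ring
    · rw [hb i j hij, map_zero, hg, hg]
      have e : (C (Sum.inl i) + Q (b i) • C (Sum.inr i)) * (C (Sum.inl j) + Q (b j) • C (Sum.inr j)) + (C (Sum.inl j) + Q (b j) • C (Sum.inr j)) * (C (Sum.inl i) + Q (b i) • C (Sum.inr i)) =
          (C (Sum.inl i) * C (Sum.inl j) + C (Sum.inl j) * C (Sum.inl i)) + Q (b j) • (C (Sum.inl i) * C (Sum.inr j) + C (Sum.inr j) * C (Sum.inl i)) +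
          Q (b i) • (C (Sum.inl j) * C (Sum.inr i) + C (Sum.inr i) * C (Sum.inl j)) + (Q (b i) * Q (b j)) • (C (Sum.inr i) * C (Sum.inr j) + C (Sum.inr j) * C (Sum.inr i)) := by
        simp only [mul_add, add_mul, mul_smul_comm, smul_mul_assoc, smul_add, smul_smul, mul_comm (Q (b j)) (Q (b i))]; abel
      rw [e, r1, r2, r3 i j (Ne.symm hij), r3 j i hij]; simp
  have fg : ∀ i j, f i * g j = -(g j * f i) := by
    intro i j
    rw [eq_neg_iff_add_eq_zero]
    by_cases hij : i = j
    · subst hij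
      rw [hf, hg]
      have e : (C (Sum.inl i) - Q (b i) • C (Sum.inr i)) * (C (Sum.inl i) + Q (b i) • C (Sum.inr i)) + (C (Sum.inl i) + Q (b i) • C (Sum.inr i)) * (C (Sum.inl i) - Q (b i) • C (Sum.inr i)) =
          (C (Sum.inl i) * C (Sum.inl i) + C (Sum.inl i) * C (Sum.inl i)) - (Q (b i) * Q (b i)) • (C (Sum.inr i) * C (Sum.inr i) + C (Sum.inr i) * C (Sum.inr i)) := by
        simp only [mul_add, add_mul, mul_sub, sub_mul, mul_smul_comm, smul_mul_assoc, smul_add, smul_sub, smul_smul]; abel
      rw [e, r1, r2]; simp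
    · rw [hf, hg]
      have e : (C (Sum.inl i) - Q (b i) • C (Sum.inr i)) * (C (Sum.inl j) + Q (b j) • C (Sum.inr j)) + (C (Sum.inl j) + Q (b j) • C (Sum.inr j)) * (C (Sum.inl i) - Q (b i) • C (Sum.inr i)) =
          (C (Sum.inl i) * C (Sum.inl j) + C (Sum.inl j) * C (Sum.inl i)) + Q (b j) • (C (Sum.inl i) * C (Sum.inr j) + C (Sum.inr j) * C (Sum.inl i)) -
          Q (b i) • (C (Sum.inl j) * C (Sum.inr i) + C (Sum.inr i) * C (Sum.inl j)) - (Q (b i) * Q (b j)) • (C (Sum.inr i) * C (Sum.inr j) + C (Sum.inr j) * C (Sum.inr i)) := by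
        simp only [mul_add, add_mul, mul_sub, sub_mul, mul_smul_comm, smul_mul_assoc, smul_add, smul_sub, smul_smul, mul_comm (Q (b j)) (Q (b i))]; abel
      rw [e, r1, r2, r3 i j (Ne.symm hij), r3 j i hij]; simp
  let c : V →ₗ[F] R := b.constr F g
  have hc : ∀ i, c (b i) = g i := fun i => b.constr_basis F g i
  have ind : ∀ (P : V → Prop), (∀ i, P (b i)) → P 0 → (∀ x y, P x → P y → P (x + y)) → (∀ (t : F) x, P x → P (t • x)) → ∀ x, P x := by
    intro P h1 h2 h3 h4 x
    have hx : x ∈ Submodule.span F (Set.range b) := by rw [b.span_eq]; trivial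
    induction hx using Submodule.span_induction with
    | mem x hx => obtain ⟨i, rfl⟩ := hx; exact h1 i
    | zero => exact h2
    | add x y _ _ hx hy => exact h3 x y hx hy
    | smul t x _ hx => exact h4 t x hx
  have relc : ∀ x y, c x * c y + c y * c x = algebraMap F R (polar Q x y) := by
    intro x y
    refine ind (fun x => c x * c y + c y * c x = algebraMap F R (polar Q x y)) (fun i => ?_) ?_ ?_ ?_ x
    · refine ind (fun y => c (b i) * c y + c y * c (b i) = algebraMap F R (polar Q (b i) y)) (fun j => ?_) ?_ ?_ ?_ y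
      · show c (b i) * c (b j) + c (b j) * c (b i) = _
        rw [hc, hc]; exact gg i j
      · show c (b i) * c 0 + c 0 * c (b i) = _
        simp
      · intro x y hx hy
        show c (b i) * c (x + y) + c (x + y) * c (b i) = _
        rw [polar_add_right, map_add, map_add, ← hx, ← hy, mul_add, add_mul]; abel
      · intro t x hx
        show c (b i) * c (t • x) + c (t • x) * c (b i) = _
        rw [polar_smul_right, map_smul, smul_eq_mul, map_mul, ← hx, mul_smul_comm, smul_mul_assoc, ← smul_add, Algebra.smul_def]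
    · show c 0 * c y + c y * c 0 = _
      simp
    · intro x x' hx hy
      show c (x + x') * c y + c y * c (x + x') = _
      rw [polar_add_left, map_add, map_add, ← hx, ← hy, mul_add, add_mul]; abel
    · intro t x hx
      show c (t • x) * c y + c y * c (t • x) = _
      rw [polar_smul_left, map_smul, smul_eq_mul, map_mul, ← hx, mul_smul_comm, smul_mul_assoc, ← smul_add, Algebra.smul_def]
  have p0 : tp 0 = 0 := by have := h.ps 0; rwa [map_zero] at this
  refine ⟨R, hR, hA, c, tp, hfin, hnt, relc, ?_, h.pa, h.pm, ?_, h.ps, ?_⟩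
  · intro x
    apply two
    have := relc x x
    rw [polar_self', map_mul] at this
    rw [two_smul, this, Algebra.smul_def]
  · have hsm : ∀ (t : F) (x : R), tp (t • x) = t • tp x := by
      intro t x
      rw [Algebra.smul_def, h.pm, h.ps, ← Algebra.commutes, ← Algebra.smul_def]
    refine ind (fun x => tp (c x) = c x) (fun i => ?_) ?_ ?_ ?_
    · show tp (c (b i)) = c (b i)
      rw [hc, hg, h.pa, h.pC, hsm, h.pC]
    · show tp (c 0) = c 0
      rw [map_zero, p0]
    · intro x y hx hy
      show tp (c (x + y)) = c (x + y)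
      rw [map_add, h.pa, hx, hy]
    · intro t x hx
      show tp (c (t • x)) = c (t • x)
      rw [map_smul, hsm, hx]
  · intro s h1 h3
    have hsg : ∀ i, s * g i = g i * s := fun i => by have := h1 (b i); rwa [hc] at this
    have hsf : ∀ i, s * f i = f i * s := by
      intro i
      apply h3
      refine ind (fun x => f i * c x = -(c x * f i)) (fun j => ?_) ?_ ?_ ?_
      · show f i * c (b j) = -(c (b j) * f i)
        rw [hc]; exact fg i j
      · show f i * c 0 = -(c 0 * f i)
        simp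
      · intro x y hx hy
        show f i * c (x + y) = -(c (x + y) * f i)
        rw [map_add, mul_add, add_mul, hx, hy]; abel
      · intro t x hx
        show f i * c (t • x) = -(c (t • x) * f i)
        rw [map_smul, mul_smul_comm, hx, smul_mul_assoc, smul_neg]
    apply h.Z
    rintro (i | i)
    · apply two
      have e : (2 : F) • C (Sum.inl i) = g i + f i := by rw [hg, hf, two_smul]; abel
      rw [← mul_smul_comm, ← smul_mul_assoc, e, mul_add, add_mul, hsg, hsf]
    · apply two
      have e : (2 * Q (b i)) • C (Sum.inr i) = g i - f i := by rw [hg, hf, mul_smul, two_smul]; abel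
      have e2 : C (Sum.inr i) = (2 * Q (b i))⁻¹ • (g i - f i) := by
        rw [← e, smul_smul, inv_mul_cancel₀ (mul_ne_zero h2 (hb0 i)), one_smul]
      rw [e2, mul_smul_comm, smul_mul_assoc, mul_sub, sub_mul, hsg, hsf]

end

end Cfsg.Agent.Lib.MulSpin
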