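import Cfsg.Agent.Lib.MulSpinB
import Cfsg.Agent.Lib.MulCover

/-! The spin cover of `Ω(V)` over fields of odd characteristic (helper35). -/

set_option autoImplicit false

namespace Cfsg.Agent.Lib.MulSpin

open Cfsg.Agent.Lib.Quad Cfsg.Agent.Lib.ClOrthSiegel Cfsg.Agent.Lib.MulOrth QuadraticMap Module
open Cfsg.Agent.Lib.SchurSylow
open scoped commutatorElement

universe u

section grp
variable {F V : Type u} [Field F] [AddCommGroup V] [Module F V] [FiniteDimensional F V] {Q : QuadraticForm F V}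
  {R : Type u} [Ring R] [Algebra F R] {c : V →ₗ[F] R} {τ : R → R} (h : CM Q c τ)

theorem CM.t1 (h : CM Q c τ) : τ 1 = 1 := by have := h.τs 1; rwa [map_one] at this
theorem CM.tn (h : CM Q c τ) : τ (-1) = -1 := by
  have := h.τs (-1); rwa [map_neg, map_one] at this

/-- the spin group -/
def Sp (h : CM Q c τ) : Subgroup (Rˣ × Om Q) where
  carrier := {p | (∀ x, (p.1 : R) * c x = c ((p.2 : V ≃ₗ[F] V) x) * p.1) ∧ (p.1 : R) * τ p.1 = 1 ∧
    ∀ f, (∀ x, f * c x = -(c x * f)) → (p.1 : R) * f = f * p.1}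
  one_mem' := by
    refine ⟨fun x => ?_, ?_, fun f _ => ?_⟩
    · show (1 : R) * c x = c x * 1
      rw [one_mul, mul_one]
    · show (1 : R) * τ 1 = 1
      rw [h.t1, one_mul]
    · show (1 : R) * f = f * 1
      rw [one_mul, mul_one]
  mul_mem' := by
    rintro ⟨s, g⟩ ⟨s', g'⟩ ⟨h1, h2, h3⟩ ⟨h1', h2', h3'⟩
    refine ⟨fun x => ?_, ?_, fun f hf => ?_⟩
    · show ((s : R) * s') * c x = c ((g : V ≃ₗ[F] V) ((g' : V ≃ₗ[F] V) x)) * ((s : R) * s')
      rw [mul_assoc, h1' x, ← mul_assoc, h1 _, mul_assoc]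
    · show ((s : R) * s') * τ ((s : R) * s') = 1
      rw [h.τm, mul_assoc, ← mul_assoc (s' : R), h2', one_mul, h2]
    · show ((s : R) * s') * f = f * ((s : R) * s')
      rw [mul_assoc, h3' f hf, ← mul_assoc, h3 f hf, mul_assoc]
  inv_mem' := by
    rintro ⟨s, g⟩ ⟨h1, h2, h3⟩
    simp only at h1 h2 h3
    refine ⟨fun x => ?_, ?_, fun f hf => ?_⟩
    · show ((s⁻¹ : Rˣ) : R) * c x = c (((g⁻¹ : Om Q) : V ≃ₗ[F] V) x) * ((s⁻¹ : Rˣ) : R)
      have := h1 (((g⁻¹ : Om Q) : V ≃ₗ[F] V) x)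
      rw [Om_inv'] at this
      rw [Units.inv_mul_eq_iff_eq_mul, ← mul_assoc, this, mul_assoc, Units.mul_inv, mul_one]
    · show ((s⁻¹ : Rˣ) : R) * τ ((s⁻¹ : Rˣ) : R) = 1
      have e1 : τ (s : R) = ((s⁻¹ : Rˣ) : R) := by
        rw [Units.inv_eq_of_mul_eq_one_right h2]
      have e2 : τ ((s⁻¹ : Rˣ) : R) * τ (s : R) = 1 := by rw [← h.τm, Units.mul_inv, h.t1]
      rw [e1] at e2
      have e3 : τ ((s⁻¹ : Rˣ) : R) = s := by
        rw [← mul_one (τ _), ← Units.inv_mul s, ← mul_assoc, e2, one_mul]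
      rw [e3, Units.inv_mul]
    · show ((s⁻¹ : Rˣ) : R) * f = f * ((s⁻¹ : Rˣ) : R)
      rw [Units.inv_mul_eq_iff_eq_mul, ← mul_assoc, h3 f hf, mul_assoc, Units.mul_inv, mul_one]

/-- the projection -/
def pr (h : CM Q c τ) : Sp h →* Om Q := (MonoidHom.snd _ _).comp (Sp h).subtype

theorem mem_Sp {p : Rˣ × Om Q} : p ∈ Sp h ↔ (∀ x, (p.1 : R) * c x = c ((p.2 : V ≃ₗ[F] V) x) * p.1) ∧ (p.1 : R) * τ p.1 = 1 ∧
    ∀ f, (∀ x, f * c x = -(c x * f)) → (p.1 : R) * f = f * p.1 := Iff.rfl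

include h in
theorem c_inj [Nontrivial R] (hQ : Nd Q) {x y : V} (hxy : c x = c y) : x = y := by
  rw [← sub_eq_zero]
  apply hQ.eq_zero
  intro z
  have h1 := h.rel (x - y) z
  rw [map_sub, hxy, sub_self, zero_mul, mul_zero, add_zero] at h1
  have h2 : algebraMap F R (polar Q (x - y) z) = algebraMap F R 0 := by rw [← h1, map_zero]
  exact (algebraMap F R).injective h2

/-- the group element is determined by the unit -/
theorem Sp_fst_inj [Nontrivial R] (hQ : Nd Q) {p q : Sp h} (hpq : (p.1.1 : R) = q.1.1) : p = q := by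
  have h1 : p.1.1 = q.1.1 := Units.ext hpq
  apply Subtype.ext
  refine Prod.ext h1 ?_
  apply Om_ext
  intro x
  apply c_inj h hQ
  have e1 := p.2.1 x
  have e2 := q.2.1 x
  rw [h1] at e1
  have e3 := e1.symm.trans e2
  have := congrArg (fun z => z * ((q.1.1⁻¹ : Rˣ) : R)) e3
  simpa [mul_assoc] using this

/-- the central element `-1` -/
def zz (h : CM Q c τ) : Sp h := ⟨(-1, 1), by
  refine ⟨fun x => ?_, ?_, fun f _ => ?_⟩
  · show ((-1 : Rˣ) : R) * c x = c x * ((-1 : Rˣ) : R)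
    simp
  · show ((-1 : Rˣ) : R) * τ ((-1 : Rˣ) : R) = 1
    rw [Units.val_neg, Units.val_one, h.tn]; simp
  · show ((-1 : Rˣ) : R) * f = f * ((-1 : Rˣ) : R)
    simp⟩

theorem zz_val : (((zz h).1.1 : Rˣ) : R) = -1 := by
  show ((-1 : Rˣ) : R) = -1
  simp

theorem zz_sq [Nontrivial R] (hQ : Nd Q) : zz h * zz h = 1 := by
  apply Sp_fst_inj h hQ
  show (((zz h).1.1 : Rˣ) : R) * (((zz h).1.1 : Rˣ) : R) = 1
  rw [zz_val]; simp

theorem zz_ne [Nontrivial R] (h2 : (2 : F) ≠ 0) : zz h ≠ 1 := by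
  intro he
  have h1 : (-1 : R) = 1 := by
    rw [← zz_val h, he]; rfl
  have h3 : algebraMap F R 2 = algebraMap F R 0 := by
    rw [map_zero, map_ofNat]
    have : (2 : R) = 1 + 1 := by norm_num
    rw [this]
    nth_rewrite 1 [← h1]
    exact neg_add_cancel 1
  exact h2 ((algebraMap F R).injective h3)

theorem mem_ker_pr [Nontrivial R] (hQ : Nd Q) {p : Sp h} : p ∈ (pr h).ker ↔ p = 1 ∨ p = zz h := by
  constructor
  · intro hp
    have hp2 : p.1.2 = 1 := hp
    obtain ⟨t, ht⟩ := h.Z (p.1.1 : R) (fun x => by have := p.2.1 x; rw [hp2] at this; exact this) p.2.2.2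
    have h1 := p.2.2.1
    rw [ht, h.τs, ← map_mul] at h1
    have h2 : t * t = 1 := (algebraMap F R).injective (h1.trans (map_one _).symm)
    rcases mul_self_eq_one_iff.1 h2 with h3 | h3
    · left
      apply Sp_fst_inj h hQ
      rw [ht, h3, map_one]; rfl
    · right
      apply Sp_fst_inj h hQ
      rw [ht, h3, map_neg, map_one, zz_val]
  · rintro (rfl | rfl)
    · exact one_mem _
    · rfl

theorem zz_comm (p : Sp h) : p * zz h = zz h * p := by
  apply Subtype.ext
  refine Prod.ext ?_ ?_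
  · show p.1.1 * (-1) = (-1) * p.1.1
    rw [mul_neg, mul_one, neg_mul, one_mul]
  · show p.1.2 * 1 = 1 * p.1.2
    rw [mul_one, one_mul]

theorem ker_central [Nontrivial R] (hQ : Nd Q) : (pr h).ker ≤ Subgroup.center (Sp h) := by
  intro p hp
  rw [Subgroup.mem_center_iff]
  intro g
  rcases (mem_ker_pr h hQ).1 hp with rfl | rfl
  · rw [mul_one, one_mul]
  · exact zz_comm h g

theorem card_ker_pr [Nontrivial R] (hQ : Nd Q) (h2 : (2 : F) ≠ 0) : Nat.card (pr h).ker = 2 := by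
  have e : (pr h).ker ≃ Bool := by
    classical
    refine ⟨fun p => decide (p.1 = 1), fun b => if b then 1 else ⟨zz h, (mem_ker_pr h hQ).2 (Or.inr rfl)⟩, ?_, ?_⟩
    · intro p
      apply Subtype.ext
      by_cases h1 : p.1 = 1
      · simp [h1]
      · have h3 := ((mem_ker_pr h hQ).1 p.2).resolve_left h1
        simp [h3, zz_ne h h2]
    · intro b
      cases b
      · simp [zz_ne h h2]
      · simp
  rw [Nat.card_congr e, Nat.card_eq_fintype_card, Fintype.card_bool]

/-- Siegel elements in the spin group -/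
theorem siegel_mem {hQ : Nd Q} (hO : OH hQ) {z y : V} (hz : Q z = 0) (hzy : polar Q z y = 0) : ∃ p : Sp h, pr h p = Eo hO z y := by
  have zy : c z * c y = -(c y * c z) := by
    have := h.rel z y
    rw [hzy, map_zero] at this
    exact eq_neg_of_add_eq_zero_left this
  have zz0 : c z * c z = 0 := by rw [h.sq, hz, map_zero]
  have n0 : c y * c z * (c y * c z) = 0 := by
    have : c y * c z * (c y * c z) = c y * (c z * c y) * c z := by simp only [mul_assoc]
    rw [this, zy, mul_neg, neg_mul]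
    have : c y * (c y * c z) * c z = c y * c y * (c z * c z) := by simp only [mul_assoc]
    rw [this, zz0, mul_zero, neg_zero]
  have u1 : (1 + c y * c z) * (1 - c y * c z) = 1 := by
    rw [mul_sub, mul_one, add_mul, one_mul, n0]; abel
  have u2 : (1 - c y * c z) * (1 + c y * c z) = 1 := by
    rw [mul_add, mul_one, sub_mul, one_mul, n0]; abel
  let s : Rˣ := ⟨1 + c y * c z, 1 - c y * c z, u1, u2⟩
  refine ⟨⟨(s, Eo hO z y), ?_, ?_, ?_⟩, rfl⟩
  · intro x
    show (1 + c y * c z) * c x = c ((Eo hO z y : V ≃ₗ[F] V) x) * (1 + c y * c z)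
    rw [Eo_apply hO hz hzy]
    have hzx : c z * c x = algebraMap F R (polar Q z x) - c x * c z := eq_sub_of_add_eq (h.rel z x)
    have hyx : c y * c x = algebraMap F R (polar Q y x) - c x * c y := eq_sub_of_add_eq (h.rel y x)
    obtain ⟨α, hα⟩ : ∃ α, α = polar Q z x := ⟨_, rfl⟩
    obtain ⟨β, hβ⟩ : ∃ β, β = polar Q y x := ⟨_, rfl⟩
    rw [← hα] at hzx ⊢
    rw [← hβ] at hyx ⊢
    have L : (1 + c y * c z) * c x = c x + α • c y - β • c z + c x * (c y * c z) := by
      rw [add_mul, one_mul, mul_assoc, hzx, mul_sub, ← mul_assoc (c y) (c x), hyx, sub_mul, ← Algebra.commutes α, ← Algebra.smul_def, ← Algebra.smul_def, mul_assoc]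
      abel
    have R' : c (x + α • y - β • z - (Q y * α) • z) * (1 + c y * c z) = c x + α • c y - β • c z + c x * (c y * c z) := by
      have hz2 : c z * (c y * c z) = 0 := by
        rw [← mul_assoc, zy, neg_mul, mul_assoc, zz0, mul_zero, neg_zero]
      have hy2 : c y * (c y * c z) = Q y • c z := by rw [← mul_assoc, h.sq, Algebra.smul_def]
      simp only [map_sub, map_add, map_smul, mul_add, mul_one, sub_mul, add_mul, smul_mul_assoc, hz2, hy2, smul_zero, smul_smul]
      rw [mul_comm α (Q y)]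
      abel
    rw [L, R']
  · show (1 + c y * c z) * τ (1 + c y * c z) = 1
    rw [h.τa, h.t1, h.τm, h.τc, h.τc, zy, ← sub_eq_add_neg]; exact u1
  · intro f hf
    show (1 + c y * c z) * f = f * (1 + c y * c z)
    have hz' : c z * f = -(f * c z) := by rw [hf z, neg_neg]
    rw [add_mul, mul_add, one_mul, mul_one, mul_assoc, hz', mul_neg, ← mul_assoc, ← mul_assoc, hf y, neg_mul]

theorem Om_gen {hQ : Nd Q} (hO : OH hQ) (K : Subgroup (Om Q)) (hK : ∀ z y, Q z = 0 → polar Q z y = 0 → Eo hO z y ∈ K) : K = ⊤ := by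
  have h1 : T hQ ≤ K.map (Om Q).subtype := by
    rw [T, Subgroup.closure_le]
    rintro _ ⟨z, y, rfl⟩
    by_cases h : Q z = 0 ∧ polar Q z y = 0
    · exact ⟨Eo hO z y, hK z y h.1 h.2, rfl⟩
    · rw [E_of_ne hQ h]; exact one_mem _
  rw [eq_top_iff]
  intro g _
  have h2 : (g : V ≃ₗ[F] V) ∈ T hQ := by rw [hO.hT]; exact g.2
  obtain ⟨g', hg', he⟩ := h1 h2
  rw [← Subtype.ext (a1 := g') (a2 := g) he]; exact hg'

theorem pr_surj {hQ : Nd Q} (hO : OH hQ) : Function.Surjective (pr h) := by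
  rw [← MonoidHom.range_eq_top]
  exact Om_gen hO _ (fun z y h1 h2 => siegel_mem h hO h1 h2)

/-- products of two vectors -/
theorem two_mem {hQ : Nd Q} (hO : OH hQ) {u v : V} (hu : Q u = 1) (hv : Q v = 1) : ∃ p : Sp h, (p.1.1 : R) = c u * c v := by
  have u1 : c u * c v * (c v * c u) = 1 := by
    have : c u * c v * (c v * c u) = c u * (c v * c v) * c u := by simp only [mul_assoc]
    rw [this, h.sq, hv, map_one, mul_one, h.sq, hu, map_one]
  have u2 : c v * c u * (c u * c v) = 1 := by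
    have : c v * c u * (c u * c v) = c v * (c u * c u) * c v := by simp only [mul_assoc]
    rw [this, h.sq, hu, map_one, mul_one, h.sq, hv, map_one]
  let s : Rˣ := ⟨c u * c v, c v * c u, u1, u2⟩
  have hr := hO.rr u v (by rw [hu]; exact one_ne_zero) (by rw [hu, hv])
  have key : ∀ w x : V, Q w = 1 → c w * c x = -(c (refl Q w x) * c w) := by
    intro w x hw
    have h1 : c w * c x = algebraMap F R (polar Q w x) - c x * c w := eq_sub_of_add_eq (h.rel w x)
    have hw0 : Q w ≠ 0 := by rw [hw]; exact one_ne_zero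
    rw [h1, refl_apply hw0, hw, inv_one, one_mul, map_sub, map_smul, sub_mul, smul_mul_assoc, h.sq, hw, map_one,
      Algebra.algebraMap_eq_smul_one]
    abel
  refine ⟨⟨(s, ⟨_, hr⟩), ?_, ?_, ?_⟩, rfl⟩
  · intro x
    show c u * c v * c x = c (refl Q u (refl Q v x)) * (c u * c v)
    rw [mul_assoc, key v x hv, mul_neg, ← mul_assoc, key u _ hu, neg_mul, neg_neg, mul_assoc]
  · show c u * c v * τ (c u * c v) = 1
    rw [h.τm, h.τc, h.τc]; exact u1
  · intro f hf
    show c u * c v * f = f * (c u * c v)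
    have hv' : c v * f = -(f * c v) := by rw [hf v, neg_neg]
    rw [mul_assoc, hv', mul_neg, ← mul_assoc, ← mul_assoc, hf u, neg_mul]

/-- `-1` is a commutator -/
theorem zz_mem_comm [Nontrivial R] {hQ : Nd Q} (hO : OH hQ) {u1 u2 u3 : V} (h1 : Q u1 = 1) (h2 : Q u2 = 1) (h3 : Q u3 = 1)
    (h12 : polar Q u1 u2 = 0) (h13 : polar Q u1 u3 = 0) (h23 : polar Q u2 u3 = 0) : zz h ∈ commutator (Sp h) := by
  obtain ⟨p, hp⟩ := two_mem h hO h1 h2
  obtain ⟨q, hq⟩ := two_mem h hO h2 h3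
  have r12 : c u1 * c u2 = -(c u2 * c u1) := by
    have := h.rel u1 u2; rw [h12, map_zero] at this; exact eq_neg_of_add_eq_zero_left this
  have r31 : c u3 * c u1 = -(c u1 * c u3) := by
    have := h.rel u3 u1; rw [polar_comm, h13, map_zero] at this; exact eq_neg_of_add_eq_zero_left this
  have r32 : c u3 * c u2 = -(c u2 * c u3) := by
    have := h.rel u3 u2; rw [polar_comm, h23, map_zero] at this; exact eq_neg_of_add_eq_zero_left this
  have s2 : c u2 * c u2 = 1 := by rw [h.sq, h2, map_one]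
  have e1 : c u1 * c u2 * (c u2 * c u3) = c u1 * c u3 := by
    have : c u1 * c u2 * (c u2 * c u3) = c u1 * (c u2 * c u2) * c u3 := by simp only [mul_assoc]
    rw [this, s2, mul_one]
  have e2 : c u2 * c u3 * (c u1 * c u2) = -(c u1 * c u3) := by
    have : c u2 * c u3 * (c u1 * c u2) = c u2 * (c u3 * c u1) * c u2 := by simp only [mul_assoc]
    rw [this, r31, mul_neg, neg_mul]
    have : c u2 * (c u1 * c u3) * c u2 = c u2 * c u1 * (c u3 * c u2) := by simp only [mul_assoc]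
    rw [this, r32, mul_neg, neg_neg]
    have r21 : c u2 * c u1 = -(c u1 * c u2) := by rw [r12, neg_neg]
    rw [r21, neg_mul, e1]
  have e3 : p * q = zz h * (q * p) := by
    apply Sp_fst_inj h hQ
    show (p.1.1 : R) * q.1.1 = (((zz h).1.1 : Rˣ) : R) * ((q.1.1 : R) * p.1.1)
    rw [zz_val, hp, hq, e1, e2]; simp
  have e4 : ⁅p, q⁆ = zz h := by
    rw [commutatorElement_def, e3]; group
  rw [← e4]
  exact Subgroup.commutator_mem_commutator (Subgroup.mem_top _) (Subgroup.mem_top _)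

theorem Sp_perfect [Nontrivial R] {hQ : Nd Q} (hO : OH hQ) (hperf : commutator (Om Q) = ⊤) {u1 u2 u3 : V} (h1 : Q u1 = 1) (h2 : Q u2 = 1) (h3 : Q u3 = 1)
    (h12 : polar Q u1 u2 = 0) (h13 : polar Q u1 u3 = 0) (h23 : polar Q u2 u3 = 0) : commutator (Sp h) = ⊤ := by
  have hz := zz_mem_comm h hO h1 h2 h3 h12 h13 h23
  have hmap : (commutator (Sp h)).map (pr h) = ⊤ := by
    rw [commutator_def, Subgroup.map_commutator, ← MonoidHom.range_eq_map, MonoidHom.range_eq_top.2 (pr_surj h hO), ← commutator_def]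
    exact hperf
  rw [eq_top_iff]
  intro p _
  have hp : pr h p ∈ (commutator (Sp h)).map (pr h) := by rw [hmap]; trivial
  obtain ⟨q, hq, hqp⟩ := hp
  have h4 : q⁻¹ * p ∈ (pr h).ker := by rw [MonoidHom.mem_ker, map_mul, map_inv, hqp, inv_mul_cancel]
  have h5 : q⁻¹ * p ∈ commutator (Sp h) := by
    rcases (mem_ker_pr h hQ).1 h4 with h5 | h5
    · rw [h5]; exact one_mem _
    · rw [h5]; exact hz
  have := mul_mem hq h5
  rwa [mul_inv_cancel_left] at this

theorem pr_stem [Nontrivial R] {hQ : Nd Q} (hO : OH hQ) (hp : commutator (Sp h) = ⊤) : Cfsg.IsStemExtension (pr h) :=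
  ⟨pr_surj h hO, ker_central h hQ, by rw [hp]; exact le_top⟩

end grp

/-! ### covers of covers -/

theorem central_comp {Γ S Q : Type*} [Group Γ] [Group S] [Group Q] {σ : Γ →* S} {π : S →* Q} (hσ : Cfsg.IsStemExtension σ)
    (hS : commutator S = ⊤) (hπ : π.ker ≤ Subgroup.center S) : commutator Γ = ⊤ ∧ (π.comp σ).ker ≤ Subgroup.center Γ := by
  have hΓ : commutator Γ = ⊤ := by
    apply MulCover.eq_top_of_map_top hσ
    rw [commutator_def, Subgroup.map_commutator, ← MonoidHom.range_eq_map, MonoidHom.range_eq_top.2 hσ.1, ← commutator_def]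
    exact hS
  refine ⟨hΓ, fun x hx => ?_⟩
  have hx' : σ x ∈ Subgroup.center S := hπ hx
  rw [Subgroup.mem_center_iff] at hx' ⊢
  have hk : ∀ g : Γ, g * x * g⁻¹ * x⁻¹ ∈ σ.ker := by
    intro g
    rw [MonoidHom.mem_ker]
    simp only [map_mul, map_inv]
    rw [hx' (σ g)]; group
  have hcen : ∀ g y : Γ, (g * x * g⁻¹ * x⁻¹) * y = y * (g * x * g⁻¹ * x⁻¹) := fun g y => (Subgroup.mem_center_iff.1 (hσ.2.1 (hk g)) y).symm
  let f : Γ →* Subgroup.center Γ :=
    { toFun := fun g => ⟨g * x * g⁻¹ * x⁻¹, hσ.2.1 (hk g)⟩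
      map_one' := by apply Subtype.ext; simp
      map_mul' := by
        intro a b
        apply Subtype.ext
        show (a * b) * x * (a * b)⁻¹ * x⁻¹ = (a * x * a⁻¹ * x⁻¹) * (b * x * b⁻¹ * x⁻¹)
        have e : (a * b) * x * (a * b)⁻¹ * x⁻¹ = a * (b * x * b⁻¹ * x⁻¹) * (x * a⁻¹ * x⁻¹) := by group
        rw [e, ← hcen b a, mul_assoc (b * x * b⁻¹ * x⁻¹), hcen b]
        group }
  have hker : commutator Γ ≤ f.ker := by
    rw [commutator_def, Subgroup.commutator_le]
    intro a _ b _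
    rw [MonoidHom.mem_ker, map_commutatorElement, commutatorElement_eq_one_iff_mul_comm]
    exact Subtype.ext (Subgroup.mem_center_iff.1 (f b).2 (f a).1)
  intro g
  have hg : g ∈ f.ker := hker (by rw [hΓ]; trivial)
  have h1 : g * x * g⁻¹ * x⁻¹ = 1 := congrArg Subtype.val hg
  rw [mul_inv_eq_one, mul_inv_eq_iff_eq_mul] at h1
  exact h1

end Cfsg.Agent.Lib.MulSpin
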