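import Mathlib.GroupTheory.GroupAction.MultipleTransitivity
import Mathlib.GroupTheory.Sylow
import Mathlib.GroupTheory.PGroup
import Mathlib.GroupTheory.Nilpotent
import Mathlib.Tactic

set_option autoImplicit false
set_option linter.unusedSectionVars false
set_option linter.unusedVariables false

/-!
# Two-transitive groups with nilpotent normal transitive subgroups of point stabilisers, I (helper71)
-/

namespace Cfsg.Agent.Lib.NBN1

open MulAction

/-- the system -/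
structure Sys {G Ω : Type*} [Group G] [MulAction G Ω] (U Z : Ω → Subgroup G) : Prop where
  fix : ∀ c, ∀ u ∈ U c, u • c = c
  conjU : ∀ (g : G) (c : Ω) (u : G), u ∈ U c → g * u * g⁻¹ ∈ U (g • c)
  conjZ : ∀ (g : G) (c : Ω) (u : G), u ∈ Z c → g * u * g⁻¹ ∈ Z (g • c)
  nil : ∀ c, Group.IsNilpotent (U c)
  trans : ∀ c x y : Ω, x ≠ c → y ≠ c → ∃ u ∈ U c, u • x = y
  two : ∀ (c : Ω) (g : G), g • c = c → (∃ k : ℕ, g ^ 2 ^ k = 1) → g ∈ U c
  ZU : ∀ c, Z c ≤ U c
  Zcen : ∀ c, ∀ z ∈ Z c, ∀ u ∈ U c, z * u = u * z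
  Zsq : ∀ c, ∀ z ∈ Z c, z * z = 1
  Zfix : ∀ c, ∀ z ∈ Z c, z ≠ 1 → ∀ x : Ω, z • x = x → x = c
  card : ∀ c, 4 ≤ Nat.card (Z c)
  ne : ∃ a b : Ω, a ≠ b

/-! ## dihedral computations -/

section dihedral

variable {G : Type*} [Group G]

theorem conj_pow_aux {x y : G} (hx : x * x = 1) (hy : y * y = 1) (j : ℕ) :
    x * (x * y) ^ j = ((x * y) ^ j)⁻¹ * x := by
  have h0 : x⁻¹ = x := inv_eq_of_mul_eq_one_left hx
  have h1 : y⁻¹ = y := inv_eq_of_mul_eq_one_left hy
  have h2 : x * (x * y) * x⁻¹ = (x * y)⁻¹ := by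
    rw [mul_inv_rev, h0, h1]
    calc x * (x * y) * x = (x * x) * (y * x) := by group
      _ = y * x := by rw [hx, one_mul]
  have h3 : x * (x * y) ^ j * x⁻¹ = ((x * y) ^ j)⁻¹ := by
    rw [← conj_pow, h2, inv_pow]
  rw [← h3]; group

/-- `x ρ^{2j}` is a conjugate of `x` -/
theorem conj_even {x y : G} (hx : x * x = 1) (hy : y * y = 1) (j : ℕ) :
    x * (x * y) ^ (2 * j) = ((x * y) ^ j)⁻¹ * x * ((x * y) ^ j) := by
  rw [two_mul, pow_add, ← mul_assoc, conj_pow_aux hx hy]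

/-- `x ρ^{2j+1}` is a conjugate of `y` -/
theorem conj_odd {x y : G} (hx : x * x = 1) (hy : y * y = 1) (j : ℕ) :
    x * (x * y) ^ (2 * j + 1) = ((x * y) ^ j)⁻¹ * y * ((x * y) ^ j) := by
  have h1 : (x * y) ^ (2 * j + 1) = (x * y) ^ j * (x * y) * (x * y) ^ j := by
    rw [← pow_succ, ← pow_add]; congr 1; ring
  rw [h1]
  calc x * ((x * y) ^ j * (x * y) * (x * y) ^ j) = (x * (x * y) ^ j) * (x * y) * (x * y) ^ j := by group
    _ = (((x * y) ^ j)⁻¹ * x) * (x * y) * (x * y) ^ j := by rw [conj_pow_aux hx hy]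
    _ = ((x * y) ^ j)⁻¹ * (x * x) * y * (x * y) ^ j := by group
    _ = _ := by rw [hx, mul_one]

/-- the central involution of a dihedral group of order `4m` -/
theorem central {x y : G} (hx : x * x = 1) (hy : y * y = 1) {m : ℕ} (hm : orderOf (x * y) = 2 * m) (hm0 : m ≠ 0) :
    (x * y) ^ m ≠ 1 ∧ (x * y) ^ m * (x * y) ^ m = 1 ∧ x * (x * y) ^ m = (x * y) ^ m * x ∧
      y * (x * y) ^ m = (x * y) ^ m * y := by
  have h1 : (x * y) ^ m * (x * y) ^ m = 1 := by
    rw [← pow_add, ← two_mul, ← hm, pow_orderOf_eq_one]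
  have h2 : ((x * y) ^ m)⁻¹ = (x * y) ^ m := inv_eq_of_mul_eq_one_left h1
  have h3 : x * (x * y) ^ m = (x * y) ^ m * x := by
    rw [conj_pow_aux hx hy, h2]
  refine ⟨?_, h1, h3, ?_⟩
  · intro h
    have := orderOf_dvd_of_pow_eq_one h
    rw [hm] at this
    have := Nat.le_of_dvd (Nat.pos_of_ne_zero hm0) this
    omega
  · have h4 : (x * y) * (x * y) ^ m = (x * y) ^ m * (x * y) := by rw [← pow_succ, ← pow_succ']
    have h5 : x * (y * (x * y) ^ m) = x * ((x * y) ^ m * y) := by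
      calc x * (y * (x * y) ^ m) = (x * y) * (x * y) ^ m := by group
        _ = (x * y) ^ m * (x * y) := h4
        _ = ((x * y) ^ m * x) * y := by group
        _ = (x * (x * y) ^ m) * y := by rw [h3]
        _ = _ := by group
    exact mul_left_cancel h5

/-- odd case: a conjugating involution -/
theorem odd_link {x y : G} (hx : x * x = 1) (hy : y * y = 1) (ho : Odd (orderOf (x * y))) :
    ∃ i g : G, i * i = 1 ∧ i * x * i = y ∧ i = g * x * g⁻¹ ∧ i ∈ Subgroup.closure {x, y} ∧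
      g ∈ Subgroup.closure {x, y} := by
  obtain ⟨j, hj⟩ := ho
  set ρ := x * y with hρ
  have h1 : ρ ^ (2 * j + 1) = 1 := by rw [← hj, pow_orderOf_eq_one]
  have hρc : ρ ∈ Subgroup.closure {x, y} :=
    Subgroup.mul_mem _ (Subgroup.subset_closure (by simp)) (Subgroup.subset_closure (by simp))
  have hxc : x ∈ Subgroup.closure {x, y} := Subgroup.subset_closure (by simp)
  have h2 : ρ ^ (j + 1) = ρ ^ (2 * ((j + 1) * (j + 1))) := by
    have : 2 * ((j + 1) * (j + 1)) = (2 * j + 1) * (j + 1) + (j + 1) := by ring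
    rw [this, pow_add ρ ((2 * j + 1) * (j + 1)) (j + 1), pow_mul, h1, one_pow, one_mul]
  refine ⟨x * ρ ^ (j + 1), (ρ ^ ((j + 1) * (j + 1)))⁻¹, ?_, ?_, ?_, ?_, ?_⟩
  · have h3 : x * ρ ^ (j + 1) * (x * ρ ^ (j + 1)) = (x * ρ ^ (j + 1)) * x * ρ ^ (j + 1) := by group
    rw [h3, conj_pow_aux hx hy]
    calc (ρ ^ (j + 1))⁻¹ * x * x * ρ ^ (j + 1) = (ρ ^ (j + 1))⁻¹ * (x * x) * ρ ^ (j + 1) := by group
      _ = 1 := by rw [hx]; group
  · calc x * ρ ^ (j + 1) * x * (x * ρ ^ (j + 1)) = x * ρ ^ (j + 1) * (x * x) * ρ ^ (j + 1) := by group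
      _ = x * (ρ ^ (j + 1) * ρ ^ (j + 1)) := by rw [hx]; group
      _ = x * (ρ ^ (2 * j + 1) * ρ) := by
          congr 1
          rw [← pow_add, ← pow_succ]; congr 1; ring
      _ = x * (x * y) := by rw [h1, one_mul]
      _ = (x * x) * y := by group
      _ = y := by rw [hx, one_mul]
  · rw [h2, hρ, conj_even hx hy, inv_inv]
  · exact Subgroup.mul_mem _ hxc (Subgroup.pow_mem _ hρc _)
  · exact Subgroup.inv_mem _ (Subgroup.pow_mem _ hρc _)

theorem comm_closure {x y w g : G} (hx : w * x = x * w) (hy : w * y = y * w) (hg : g ∈ Subgroup.closure {x, y}) :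
    w * g = g * w := by
  have h1 : Subgroup.closure {x, y} ≤ Subgroup.centralizer {w} := by
    rw [Subgroup.closure_le]
    intro t ht
    simp only [Set.mem_insert_iff, Set.mem_singleton_iff] at ht
    rw [SetLike.mem_coe, Subgroup.mem_centralizer_singleton_iff]
    rcases ht with ht | ht
    · rw [ht]; exact hx.symm
    · rw [ht]; exact hy.symm
  have := Subgroup.mem_centralizer_singleton_iff.1 (h1 hg)
  exact this.symm

end dihedral

variable {G Ω : Type*} [Group G] [MulAction G Ω] {U Z : Ω → Subgroup G}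

namespace Sys

variable (S : Sys U Z)
include S

theorem Zne (c : Ω) : ∃ z ∈ Z c, z ≠ 1 := by
  have h := S.card c
  by_contra hcon
  push Not at hcon
  have h1 : Z c = ⊥ := by rw [eq_bot_iff]; intro z hz; exact Subgroup.mem_bot.2 (hcon z hz)
  rw [h1, Subgroup.card_bot] at h
  omega

theorem Zfix' {c : Ω} {z : G} (hz : z ∈ Z c) : z • c = c := S.fix c z (S.ZU c hz)

theorem third (x y : Ω) : ∃ c : Ω, c ≠ x ∧ c ≠ y := by
  by_cases hxy : x = y
  · obtain ⟨a, b, hab⟩ := S.ne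
    by_cases h : a = x
    · exact ⟨b, fun h' => hab (h.trans h'.symm), fun h' => hab (h.trans (hxy.trans h'.symm))⟩
    · exact ⟨a, h, fun h' => h (h'.trans hxy.symm)⟩
  · obtain ⟨z, hz, hz1⟩ := S.Zne x
    refine ⟨z • y, ?_, ?_⟩
    · intro h
      have h1 : z • y = z • x := by rw [h, S.Zfix' hz]
      exact hxy (smul_left_cancel z h1).symm
    · intro h
      exact hxy (S.Zfix x z hz hz1 y h).symm

theorem tr1 (x y : Ω) : ∃ g : G, g • x = y := by
  obtain ⟨c, h1, h2⟩ := S.third x y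
  obtain ⟨u, -, hu⟩ := S.trans c x y h1.symm h2.symm
  exact ⟨u, hu⟩

theorem tr2 {a b c d : Ω} (hab : a ≠ b) (hcd : c ≠ d) : ∃ g : G, g • a = c ∧ g • b = d := by
  obtain ⟨g, hg⟩ := S.tr1 a c
  have h1 : g • b ≠ c := by
    intro h; rw [← hg] at h; exact hab (smul_left_cancel g h).symm
  obtain ⟨u, hu, hu2⟩ := S.trans c (g • b) d h1 hcd.symm
  exact ⟨u * g, by rw [mul_smul, hg, S.fix c u hu], by rw [mul_smul, hu2]⟩

/-- elements of `Z c`, `c ≠ a`, fixing `a` -/
theorem Zeq {c a : Ω} {z : G} (hz : z ∈ Z c) (h1 : z ≠ 1) (ha : z • a = a) : a = c := S.Zfix c z hz h1 a ha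

theorem comm_fix {c : Ω} {z w : G} (hz : z ∈ Z c) (h1 : z ≠ 1) (hw : w * z = z * w) : w • c = c := by
  apply S.Zfix c z hz h1
  rw [← mul_smul, ← hw, mul_smul, S.Zfix' hz]

theorem odd_of {a b : Ω} (hab : a ≠ b) {z z' : G} (hz : z ∈ Z a) (hz1 : z ≠ 1) (hz' : z' ∈ Z b) (hz1' : z' ≠ 1)
    [Finite G] : Odd (orderOf (z * z')) := by
  by_contra hodd
  rw [Nat.not_odd_iff_even, even_iff_two_dvd] at hodd
  obtain ⟨m, hm⟩ := hodd
  have hm0 : m ≠ 0 := by
    rintro rfl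
    exact (orderOf_pos (z * z')).ne' (by simpa using hm)
  have hzz := S.Zsq a z hz
  have hzz' := S.Zsq b z' hz'
  obtain ⟨h1, h2, h3, h4⟩ := central hzz hzz' hm hm0
  set v := (z * z') ^ m with hv
  have hva : v • a = a := S.comm_fix hz hz1 h3.symm
  have hvb : v • b = b := S.comm_fix hz' hz1' h4.symm
  have hzv : z * v ≠ 1 := by
    intro h
    have : v = z := by
      have h5 : z * v = z * z := by rw [h, hzz]
      exact mul_left_cancel h5
    rw [this] at hvb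
    exact hab (S.Zfix a z hz hz1 b hvb).symm
  have hzva : (z * v) • a = a := by rw [mul_smul, hva, S.Zfix' hz]
  have key : z * v ∈ Z a := by
    rcases Nat.even_or_odd' m with ⟨j, hj | hj⟩
    · have h5 : z * v = ((z * z') ^ j)⁻¹ * z * (((z * z') ^ j)⁻¹)⁻¹ := by
        rw [hv, hj, conj_even hzz hzz', inv_inv]
      have h6 := S.conjZ (((z * z') ^ j)⁻¹) a z hz
      rw [← h5] at h6
      have h7 := S.Zeq h6 hzv hzva
      rw [← h7] at h6
      exact h6
    · have h5 : z * v = ((z * z') ^ j)⁻¹ * z' * (((z * z') ^ j)⁻¹)⁻¹ := by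
        rw [hv, hj, conj_odd hzz hzz', inv_inv]
      have h6 := S.conjZ (((z * z') ^ j)⁻¹) b z' hz'
      rw [← h5] at h6
      have h7 := S.Zeq h6 hzv hzva
      rw [← h7] at h6
      exact h6
  have hvZ : v ∈ Z a := by
    have := (Z a).mul_mem ((Z a).inv_mem hz) key
    rwa [inv_mul_cancel_left] at this
  exact hab (S.Zfix a v hvZ h1 b hvb).symm

/-- the linking involution -/
theorem link {a b : Ω} (hab : a ≠ b) {z z' : G} (hz : z ∈ Z a) (hz1 : z ≠ 1) (hz' : z' ∈ Z b) (hz1' : z' ≠ 1)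
    [Finite G] : ∃ (i : G) (d : Ω), i ∈ Z d ∧ i ≠ 1 ∧ i * z * i⁻¹ = z' ∧ i • a = b ∧ i • b = a ∧ d ≠ a ∧ d ≠ b ∧
      (∀ x : G, x * z = z * x → x * z' = z' * x → x * i = i * x) := by
  have hzz := S.Zsq a z hz
  have hzz' := S.Zsq b z' hz'
  obtain ⟨i, g, h1, h2, h3, h4, h5⟩ := odd_link hzz hzz' (S.odd_of hab hz hz1 hz' hz1')
  have hi : i⁻¹ = i := inv_eq_of_mul_eq_one_left h1
  have h6 : i ∈ Z (g • a) := by rw [h3]; exact S.conjZ g a z hz
  have h7 : i ≠ 1 := by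
    rintro rfl
    rw [one_mul, mul_one] at h2
    rw [← h2] at hz'
    exact hab (S.Zfix a z hz hz1 b (S.Zfix' hz')).symm
  have h8 : i * z * i⁻¹ = z' := by rw [hi]; exact h2
  have h9 : i • a = b := by
    have := S.conjZ i a z hz
    rw [h8] at this
    exact (S.Zfix _ z' this hz1' b (S.Zfix' hz')).symm
  have h10 : i • b = a := by
    rw [← h9, ← mul_smul, h1, one_smul]
  refine ⟨i, g • a, h6, h7, h8, h9, h10, ?_, ?_, fun x hx hx' => comm_closure hx hx' h4⟩
  · intro h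
    have := S.Zfix' h6
    rw [h, h9] at this
    exact hab this.symm
  · intro h
    have := S.Zfix' h6
    rw [h, h10] at this
    exact hab this

end Sys

end Cfsg.Agent.Lib.NBN1
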