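import Cfsg.Agent.Lib.NBN9

set_option autoImplicit false
set_option linter.unusedSectionVars false
set_option linter.unusedVariables false
set_option linter.style.haveILetI false

/-!
# Two-transitive groups with nilpotent normal transitive subgroups of point stabilisers, X (helper71)

The count showing that two-point stabilisers in `U a` have order two.
-/

namespace Cfsg.Agent.Lib.NBN10

open MulAction Cfsg.Agent.Lib.NBN1 Cfsg.Agent.Lib.NBN2 Cfsg.Agent.Lib.NBN3 Cfsg.Agent.Lib.NBN6 Cfsg.Agent.Lib.NBN7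
open Cfsg.Agent.Lib.NBN8 Cfsg.Agent.Lib.NBN9 Finset
open scoped Classical

universe u v

section
variable {G : Type u} {Ω : Type v} [Group G] [MulAction G Ω] {U Z : Ω → Subgroup G} [Fintype G] [Fintype Ω]
variable {q : ℕ}

/-- non-identity elements of the two-point stabiliser -/
noncomputable def Ts (U : Ω → Subgroup G) (e d : Ω) : Finset G := univ.filter (fun x => x ∈ U e ∧ x • d = d ∧ x ≠ 1)

theorem mem_Ts {e d : Ω} {x : G} : x ∈ Ts U e d ↔ x ∈ U e ∧ x • d = d ∧ x ≠ 1 := by simp [Ts]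

variable (S : Thr U Z q)
include S

theorem Ts_card {a b e d : Ω} (hab : a ≠ b) (hed : e ≠ d) : (Ts U e d).card = (Ts U a b).card := by
  obtain ⟨g, rfl, rfl⟩ := S.tr2 hab hed
  have h1 : Ts U (g • a) (g • b) = (Ts U a b).map (MulAut.conj g).toEquiv.toEmbedding := by
    ext x
    simp only [mem_map, mem_Ts]
    constructor
    · rintro ⟨h1, h2, h3⟩
      refine ⟨g⁻¹ * x * g, ⟨?_, ?_, ?_⟩, ?_⟩
      · have := S.conjU g⁻¹ (g • a) x h1
        rwa [inv_smul_smul, inv_inv] at this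
      · rw [mul_smul, mul_smul, h2, inv_smul_smul]
      · intro h; apply h3
        have : x = g * (g⁻¹ * x * g) * g⁻¹ := by group
        rw [this, h]; group
      · show g * (g⁻¹ * x * g) * g⁻¹ = x; group
    · rintro ⟨y, ⟨h1, h2, h3⟩, rfl⟩
      show g * y * g⁻¹ ∈ U (g • a) ∧ (g * y * g⁻¹) • g • b = g • b ∧ g * y * g⁻¹ ≠ 1
      refine ⟨S.conjU g a y h1, ?_, ?_⟩
      · rw [mul_smul, mul_smul, inv_smul_smul, h2]
      · intro h; apply h3
        have : y = g⁻¹ * (g * y * g⁻¹) * g := by group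
        rw [this, h]; group
  rw [h1, card_map]

theorem card_fix {w : G} (hw : TT Ω w) : (univ.filter (fun c : Ω => w • c = c)).card = q + 1 := by
  have h1 := S.hφ w hw
  rw [fx, Nat.card_eq_fintype_card, Fintype.card_subtype] at h1
  exact h1

/-- involutions of type `TT` fixing `e` -/
noncomputable def TTe (e : Ω) : Finset G := univ.filter (fun x => TT Ω x ∧ x • e = e)

omit S in
theorem mem_TTe {e : Ω} {x : G} : x ∈ TTe (G := G) e ↔ TT Ω x ∧ x • e = e := by simp [TTe]

theorem card_TTe {a b : Ω} (hab : a ≠ b) (e : Ω) : (TTe (G := G) e).card * q = q ^ 3 * (Ts U a b).card := by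
  have h1 := card_mul_eq_card_mul (s := univ.erase e) (t := TTe (G := G) e) (fun (x : Ω) (w : G) => w • x = x)
    (m := (Ts U a b).card) (n := q) ?_ ?_
  · rw [card_erase_of_mem (mem_univ _), card_univ, ← Nat.card_eq_fintype_card, S.hn, Nat.add_sub_cancel] at h1
    exact h1.symm
  · intro x hx
    have hxe : x ≠ e := (mem_erase.1 hx).1
    rw [← Ts_card S hab hxe.symm]
    congr 1
    ext w
    simp only [bipartiteAbove, mem_filter, mem_TTe, mem_Ts]
    constructor
    · rintro ⟨⟨h1, h2⟩, h3⟩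
      exact ⟨two' S.toTwo h1.1 h2, h3, h1.2.1⟩
    · rintro ⟨h1, h2, h3⟩
      exact ⟨⟨TT_of S hxe h1 h2 h3, S.fix e w h1⟩, h2⟩
  · intro w hw
    rw [mem_TTe] at hw
    have h2 : bipartiteBelow (fun (x : Ω) (w : G) => w • x = x) (univ.erase e) w =
        (univ.filter (fun c : Ω => w • c = c)).erase e := by
      ext x; simp [bipartiteBelow, and_comm]
    rw [h2, card_erase_of_mem (by simp [hw.2]), card_fix S hw.1]; rfl

/-- the involutions whose fixed points avoid those of `w` -/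
noncomputable def DD (Ω : Type v) [MulAction G Ω] (w : G) : Finset G :=
  univ.filter (fun x => TT Ω x ∧ ∀ f : Ω, w • f = f → x • f ≠ f)

omit S [Fintype Ω] in
theorem mem_DD {w x : G} : x ∈ DD Ω w ↔ TT Ω x ∧ ∀ f : Ω, w • f = f → x • f ≠ f := by simp [DD]

/-- upper bound -/
theorem DDe_card {a b : Ω} (hab : a ≠ b) {w : G} (hw : TT Ω w) (hwa : w • a = a) (hwb : w • b = b) {e : Ω}
    (he : w • e ≠ e) : ((DD Ω w).filter (fun x => x • e = e)).card + (q + 1) * (Ts U a b).card =
      (TTe (G := G) e).card := by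
  have h1 : (DD Ω w).filter (fun x => x • e = e) =
      (TTe (G := G) e).filter (fun x => ∀ f : Ω, w • f = f → x • f ≠ f) := by
    ext x
    simp only [mem_filter, mem_DD, mem_TTe]
    constructor
    · rintro ⟨⟨h1, h2⟩, h3⟩; exact ⟨⟨h1, h3⟩, h2⟩
    · rintro ⟨⟨h1, h3⟩, h2⟩; exact ⟨⟨h1, h2⟩, h3⟩
  have h2 := card_filter_add_card_filter_not (s := TTe (G := G) e) (fun x => ∀ f : Ω, w • f = f → x • f ≠ f)
  rw [← h2, h1]
  congr 1
  have h3 := card_mul_eq_card_mul (s := univ.filter (fun c : Ω => w • c = c))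
    (t := (TTe (G := G) e).filter (fun x => ¬ ∀ f : Ω, w • f = f → x • f ≠ f)) (fun (f : Ω) (x : G) => x • f = f)
    (m := (Ts U a b).card) (n := 1) ?_ ?_
  · rw [card_fix S hw, mul_one] at h3
    exact h3
  · intro f hf
    have hf' : w • f = f := by simpa using hf
    have hfe : f ≠ e := by rintro rfl; exact he hf'
    rw [← Ts_card S hab hfe.symm]
    congr 1
    ext x
    simp only [bipartiteAbove, mem_filter, mem_TTe, mem_Ts]
    constructor
    · rintro ⟨⟨⟨h1, h2⟩, h3⟩, h4⟩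
      exact ⟨two' S.toTwo h1.1 h2, h4, h1.2.1⟩
    · rintro ⟨h1, h2, h3⟩
      exact ⟨⟨⟨TT_of S hfe h1 h2 h3, S.fix e x h1⟩, fun h => h f hf' h2⟩, h2⟩
  · intro x hx
    simp only [mem_filter, mem_TTe, not_forall] at hx
    obtain ⟨⟨hx1, hx2⟩, f, hf, hxf⟩ := hx
    rw [not_not] at hxf
    rw [card_eq_one]
    refine ⟨f, ?_⟩
    ext g
    simp only [bipartiteBelow, mem_filter, mem_univ, true_and, mem_singleton]
    constructor
    · rintro ⟨h1, h2⟩
      by_contra hgf
      have h3 := (line_iff S hgf (two' S.toTwo hx1.1 hxf) hx1.2.1 h2 e).1 hx2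
      exact he ((line_iff S hgf (two' S.toTwo hw.1 hf) hw.2.1 h1 e).2 h3)
    · rintro rfl; exact ⟨hf, hxf⟩

/-- lower bound for the number of marked elements -/
theorem R_card {a b : Ω} (hab : a ≠ b) {w : G} (hw : TT Ω w) {e : Ω} (he : w • e ≠ e) :
    (q - 1) * (Ts U a b).card ≤ ((DD Ω w).filter (fun x => R U Z w e x)).card := by
  obtain ⟨c, d, hc, hc1, hd, hce⟩ := lemA S.toTwo hw he
  have hed : e ≠ d := by rintro rfl; exact he hd
  have h0 : (univ.filter (fun x : G => x ∈ Z e ∧ x ≠ 1)).card = q - 1 := by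
    have : (univ.filter (fun x : G => x ∈ Z e ∧ x ≠ 1)) = (univ.filter (fun x : G => x ∈ Z e)).erase 1 := by
      ext x; simp [and_comm]
    rw [this, card_erase_of_mem (by simp [(Z e).one_mem]), ← S.hq e, Nat.card_eq_fintype_card,
      ← Fintype.card_subtype]
  rw [← Ts_card S hab hed, ← h0, ← card_product]
  apply card_le_card_of_injOn (fun p : G × G => p.1 * p.2)
  · rintro ⟨c', v⟩ hp
    simp only [coe_product, Set.mem_prod, mem_coe, mem_filter, mem_univ, true_and, mem_Ts] at hp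
    obtain ⟨⟨h1, h2⟩, h3, h4, h5⟩ := hp
    have hR : R U Z w e (c' * v) := ⟨c, d, c', v, hc, hc1, hd, hce, he, h1, h2, h3, h4, h5, rfl⟩
    have h6 := R_TT S hw hR
    simp only [coe_filter, Set.mem_setOf_eq, mem_DD]
    exact ⟨⟨h6.1, h6.2.2.2⟩, hR⟩
  · rintro ⟨c', v⟩ hp ⟨c'', v'⟩ hp' heq
    simp only [coe_product, Set.mem_prod, mem_coe, mem_filter, mem_univ, true_and, mem_Ts] at hp hp' heq
    obtain ⟨⟨h1, h2⟩, h3, h4, h5⟩ := hp
    obtain ⟨⟨h1', h2'⟩, h3', h4', h5'⟩ := hp'
    have h6 : c''⁻¹ * c' = v' * v⁻¹ := by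
      calc c''⁻¹ * c' = c''⁻¹ * (c' * v) * v⁻¹ := by group
        _ = c''⁻¹ * (c'' * v') * v⁻¹ := by rw [heq]
        _ = _ := by group
    have h7 : c''⁻¹ * c' = 1 := by
      by_contra h8
      have h9 := S.Zfix e _ ((Z e).mul_mem ((Z e).inv_mem h1') h1) h8 d (by
        rw [h6, mul_smul]
        have : v⁻¹ • d = d := by rw [inv_smul_eq_iff, h4]
        rw [this, h4'])
      exact hed h9.symm
    have h8 : c' = c'' := (inv_mul_eq_one.1 h7).symm
    have h9 : v = v' := by
      rw [h7] at h6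
      exact (mul_inv_eq_one.1 h6.symm).symm
    rw [h8, h9]

/-- **two-point stabilisers in `U a` have order two** -/
theorem tau_two {a b : Ω} (hab : b ≠ a) {w t : G} (hw : w ∈ U a) (hwb : w • b = b) (hw1 : w ≠ 1) (ht : t ∈ U a)
    (htb : t • b = b) (ht1 : t ≠ 1) : t = w := by
  by_contra htw
  have hwTT := TT_of S hab hw hwb hw1
  have hwa := S.fix a w hw
  have hq4 := S.q4
  obtain ⟨m, hm⟩ : ∃ m, m = (Ts U a b).card := ⟨_, rfl⟩
  obtain ⟨L, hL⟩ : ∃ L : Finset Ω, L = univ.filter (fun c : Ω => w • c ≠ c) := ⟨_, rfl⟩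
  have hm0 : 0 < m := by
    rw [hm, card_pos]
    exact ⟨w, mem_Ts.2 ⟨hw, hwb, hw1⟩⟩
  have hL0 : 0 < L.card := by
    rw [card_pos]
    by_contra h
    rw [not_nonempty_iff_eq_empty] at h
    apply hw1
    apply S.faith w
    intro x
    by_contra hx
    have : x ∈ L := by rw [hL]; simp [hx]
    rw [h] at this
    exact notMem_empty _ this
  have e1 : L.card * ((q - 1) * m) ≤ (DD Ω w).card * 1 := by
    apply card_mul_le_card_mul (fun (e : Ω) (x : G) => R U Z w e x)
    · intro e he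
      rw [hL, mem_filter] at he
      rw [hm]
      exact R_card S hab.symm hwTT he.2
    · intro x hx
      rw [card_le_one]
      intro e he e' he'
      simp only [bipartiteBelow, mem_filter] at he he'
      exact R_unique S hwTT hab hwa hwb ht htb ht1 htw he.2 he'.2
  have e2 : (DD Ω w).card * (q + 1) ≤ L.card * ((q ^ 2 - q - 1) * m) := by
    apply card_mul_le_card_mul (fun (x : G) (e : Ω) => x • e = e)
    · intro x hx
      rw [mem_DD] at hx
      rw [← card_fix S hx.1]
      apply card_le_card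
      intro e he
      rw [mem_filter] at he
      simp only [bipartiteAbove, mem_filter, hL, mem_univ, true_and]
      exact ⟨fun h => hx.2 e h he.2, he.2⟩
    · intro e he
      rw [hL, mem_filter] at he
      have h1 := DDe_card S hab.symm hwTT hwa hwb he.2
      have h2 := card_TTe S hab.symm e
      rw [← h1, ← hm] at h2
      have h3 : bipartiteBelow (fun (x : G) (e : Ω) => x • e = e) (DD Ω w) e =
          (DD Ω w).filter (fun x => x • e = e) := rfl
      rw [h3]
      obtain ⟨x, hx⟩ : ∃ x, x = ((DD Ω w).filter (fun x => x • e = e)).card := ⟨_, rfl⟩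
      rw [← hx] at h2 ⊢
      obtain ⟨r, rfl⟩ : ∃ r, q = r + 4 := ⟨q - 4, by omega⟩
      have h4 : (x + (r + 4 + 1) * m) * (r + 4) = ((r + 4) ^ 2 * m) * (r + 4) := by rw [h2]; ring
      have h5 : x + (r + 4 + 1) * m = (r + 4) ^ 2 * m := Nat.eq_of_mul_eq_mul_right (by omega) h4
      have h6 : (r + 4) ^ 2 - (r + 4) - 1 = (r + 4) * (r + 3) - 1 := by
        have : (r + 4) ^ 2 = (r + 4) * (r + 3) + (r + 4) := by ring
        rw [this, Nat.add_sub_cancel]
      rw [h6]
      have h7 : (r + 4) * (r + 3) = (r ^ 2 + 7 * r + 11) + 1 := by ring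
      rw [h7, Nat.add_sub_cancel]
      nlinarith
  -- contradiction
  obtain ⟨r, rfl⟩ : ∃ r, q = r + 4 := ⟨q - 4, by omega⟩
  have e3 : L.card * ((r + 4 - 1) * m) * (r + 4 + 1) ≤ L.card * (((r + 4) ^ 2 - (r + 4) - 1) * m) := by
    calc L.card * ((r + 4 - 1) * m) * (r + 4 + 1) ≤ (DD Ω w).card * 1 * (r + 4 + 1) := Nat.mul_le_mul_right _ e1
      _ = (DD Ω w).card * (r + 4 + 1) := by rw [mul_one]
      _ ≤ _ := e2
  have h6 : (r + 4) ^ 2 - (r + 4) - 1 = r ^ 2 + 7 * r + 11 := by
    have : (r + 4) ^ 2 = (r ^ 2 + 7 * r + 11) + 1 + (r + 4) := by ring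
    rw [this, Nat.add_sub_cancel, Nat.add_sub_cancel]
  have h7 : r + 4 - 1 = r + 3 := by omega
  rw [h6, h7] at e3
  have h8 : 0 < L.card * m := Nat.mul_pos hL0 hm0
  have h9 : (L.card * m) * ((r + 3) * (r + 5)) ≤ (L.card * m) * (r ^ 2 + 7 * r + 11) := by
    calc (L.card * m) * ((r + 3) * (r + 5)) = L.card * ((r + 3) * m) * (r + 4 + 1) := by ring
      _ ≤ _ := e3
      _ = _ := by ring
  have h10 := Nat.le_of_mul_le_mul_left h9 h8
  nlinarith

end

end Cfsg.Agent.Lib.NBN10
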