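import Mathlib

/-!
# A splitting lemma for 2-groups
-/

set_option autoImplicit false

namespace Cfsg.Agent.Lib.NBN11

universe u

variable {S : Type u} [Group S]

/-- commutator with `w` -/
def k (w s : S) : S := s * w * s⁻¹ * w⁻¹

theorem k_one_iff {w s : S} : k w s = 1 ↔ s * w = w * s := by
  unfold k
  rw [mul_inv_eq_one, mul_inv_eq_iff_eq_mul]

theorem k_mul {w s t : S} (ht : ∀ x, x * k w t = k w t * x) : k w (s * t) = k w t * k w s := by
  have h1 : k w (s * t) = s * k w t * w * s⁻¹ * w⁻¹ := by unfold k; group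
  rw [h1, ht s]; unfold k; group

theorem k_inv {w t : S} (ht : ∀ x, x * k w t = k w t * x) : k w t⁻¹ = (k w t)⁻¹ := by
  have h := k_mul (w := w) (s := t⁻¹) (t := t) ht
  rw [inv_mul_cancel] at h
  have h1 : k w (1 : S) = 1 := by unfold k; group
  rw [h1] at h
  exact (inv_eq_of_mul_eq_one_right h.symm).symm

theorem k_map {w s : S} (e : S ≃* S) (he : e w = w) : k w (e s) = e (k w s) := by
  unfold k; simp [he]

theorem mk_comm {w s : S} (Y : Subgroup S) [Y.Normal] :
    ((s : S ⧸ Y) * (w : S ⧸ Y) = (w : S ⧸ Y) * (s : S ⧸ Y)) ↔ k w s ∈ Y := by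
  rw [← QuotientGroup.eq_one_iff]
  have : ((k w s : S) : S ⧸ Y) = k (w : S ⧸ Y) (s : S ⧸ Y) := by unfold k; rfl
  rw [this, k_one_iff]

/-- exponent two modulo `Y` gives an index two subgroup missing `w` -/
theorem elem_case [Finite S] (w : S) (Y : Subgroup S) (hw : w * w = 1) (hwY : w ∉ Y)
    (hYn : Y.Normal) (hsq : ∀ u : S, u * u ∈ Y) : ∃ M : Subgroup S, M.index = 2 ∧ w ∉ M := by
  classical
  have hex : ∃ M : {M : Subgroup S // Y ≤ M ∧ w ∉ M}, ∀ M' : {M : Subgroup S // Y ≤ M ∧ w ∉ M},
      Nat.card M'.1 ≤ Nat.card M.1 := by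
    haveI : Nonempty {M : Subgroup S // Y ≤ M ∧ w ∉ M} := ⟨⟨Y, le_refl _, hwY⟩⟩
    exact Finite.exists_max (fun M : {M : Subgroup S // Y ≤ M ∧ w ∉ M} => Nat.card M.1)
  obtain ⟨⟨M, hYM, hwM⟩, hmax⟩ := hex
  have hcomm : ∀ a b : S, a * b * a⁻¹ * b⁻¹ ∈ Y := by
    intro a b
    have h : a * b * a⁻¹ * b⁻¹ = (a * b) * (a * b) * ((b⁻¹ * (a⁻¹ * a⁻¹) * b⁻¹⁻¹)) * (b⁻¹ * b⁻¹) := by group
    rw [h]
    exact mul_mem (mul_mem (hsq _) (hYn.conj_mem _ (hsq _) _)) (hsq _)
  have hMn : ∀ x ∈ M, ∀ g : S, g * x * g⁻¹ ∈ M := by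
    intro x hx g
    have h : g * x * g⁻¹ = (g * x * g⁻¹ * x⁻¹) * x := by group
    rw [h]; exact mul_mem (hYM (hcomm _ _)) hx
  refine ⟨M, ?_, hwM⟩
  rw [Subgroup.index_eq_two_iff]
  refine ⟨w, fun b => ?_⟩
  by_cases hb : b ∈ M
  · refine Or.inr ⟨hb, fun h => hwM ?_⟩
    have := mul_mem (inv_mem hb) h
    simpa using this
  refine Or.inl ⟨?_, hb⟩
  -- the subgroup M ∪ M b
  have hbb : b * b ∈ M := hYM (hsq b)
  let M' : Subgroup S :=
    { carrier := {x | x ∈ M ∨ x * b ∈ M}
      one_mem' := Or.inl (one_mem M)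
      mul_mem' := by
        rintro x y (hx | hx) (hy | hy)
        · exact Or.inl (mul_mem hx hy)
        · right
          show x * y * b ∈ M
          rw [mul_assoc]; exact mul_mem hx hy
        · right
          show x * y * b ∈ M
          have h : x * y * b = (x * b) * (b⁻¹ * y * b⁻¹⁻¹) := by group
          rw [h]; exact mul_mem hx (hMn _ hy _)
        · left
          show x * y ∈ M
          have h : x * y = (x * b) * (b⁻¹ * (y * b) * b⁻¹⁻¹) * (b * b)⁻¹ := by group
          rw [h]; exact mul_mem (mul_mem hx (hMn _ hy _)) (inv_mem hbb)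
      inv_mem' := by
        rintro x (hx | hx)
        · exact Or.inl (inv_mem hx)
        · right
          show x⁻¹ * b ∈ M
          have h : x⁻¹ * b = (b * (x * b)⁻¹ * b⁻¹) * (b * b) := by group
          rw [h]; exact mul_mem (hMn _ (inv_mem hx) _) hbb }
  have hMM' : M ≤ M' := fun x hx => Or.inl hx
  have hbM' : b ∈ M' := Or.inr hbb
  by_cases hwM' : w ∈ M'
  · rcases hwM' with h | h
    · exact absurd h hwM
    · -- w b ∈ M, conj by w : b w
      have h2 := hMn _ h w
      have h3 : w * (w * b) * w⁻¹ = b * w := by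
        have hwi : w⁻¹ = w := inv_eq_of_mul_eq_one_right hw
        rw [hwi]
        calc w * (w * b) * w = (w * w) * b * w := by group
          _ = b * w := by rw [hw, one_mul]
      rwa [h3] at h2
  · exfalso
    have h1 := hmax ⟨M', hYM.trans hMM', hwM'⟩
    have h2 : M = M' := by
      apply Subgroup.eq_of_le_of_card_ge hMM'
      exact h1
    exact hb (h2 ▸ hbM')

theorem lemW : ∀ (n : ℕ) (S : Type u) [Group S] [Finite S] (w : S) (Y : Subgroup S), Nat.card S = n →
    IsPGroup 2 S → w * w = 1 → w ∉ Y → (∀ y ∈ Y, ∀ s, s * y = y * s) → (∀ y ∈ Y, y * y = 1) →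
    (∀ s, s * w = w * s → s ∈ Y ∨ s * w ∈ Y) →
    (∀ y ∈ Y, ∀ z ∈ Y, y ≠ 1 → z ≠ 1 → ∃ e : S ≃* S, e w = w ∧ (∀ x ∈ Y, e x ∈ Y) ∧ e y = z) →
    ∃ M : Subgroup S, M.index = 2 ∧ w ∉ M := by
  intro n
  induction n using Nat.strong_induction_on with
  | _ n ih =>
  intro S _ _ w Y hn hS hww hwY hYc hYsq hC htr
  classical
  have hYn : Y.Normal := ⟨fun y hy s => by rw [hYc y hy s]; simpa using hy⟩
  have hwi : w⁻¹ = w := inv_eq_of_mul_eq_one_right hww
  -- nontrivial centre of the quotient
  have hS' : IsPGroup 2 (S ⧸ Y) := hS.to_quotient Y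
  haveI : Nontrivial (S ⧸ Y) := ⟨⟨(w : S ⧸ Y), 1, fun h => hwY ((QuotientGroup.eq_one_iff w).mp h)⟩⟩
  haveI : Fact (Nat.Prime 2) := ⟨Nat.prime_two⟩
  obtain ⟨z0', hz0', hz01'⟩ : ∃ z ∈ Subgroup.center (S ⧸ Y), z ≠ 1 := by
    haveI := hS'.center_nontrivial
    obtain ⟨z, hz⟩ := exists_ne (1 : Subgroup.center (S ⧸ Y))
    exact ⟨z.1, z.2, fun h => hz (Subtype.ext h)⟩
  obtain ⟨z0, rfl⟩ := QuotientGroup.mk_surjective z0'
  have hz0Y : z0 ∉ Y := fun h => hz01' ((QuotientGroup.eq_one_iff z0).mpr h)
  have hk0 : k w z0 ∈ Y := (mk_comm Y).mp ((Subgroup.mem_center_iff.mp hz0' _).symm)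
  -- dichotomy
  by_cases hA : ∀ s, k w s ∈ Y → k w s = 1
  · -- image trivial
    have h1 := hC z0 (k_one_iff.mp (hA _ hk0))
    have h2 : z0 * w ∈ Y := h1.resolve_left hz0Y
    have hwc : (w : S ⧸ Y) ∈ Subgroup.center (S ⧸ Y) := by
      have h3 : (z0 : S ⧸ Y) * (w : S ⧸ Y) = 1 := by
        rw [← QuotientGroup.mk_mul]; exact (QuotientGroup.eq_one_iff _).mpr h2
      have h4 : (w : S ⧸ Y) = (z0 : S ⧸ Y)⁻¹ := (inv_eq_of_mul_eq_one_right h3).symm
      rw [h4]; exact inv_mem hz0'
    refine ⟨Y, ?_, hwY⟩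
    rw [Subgroup.index_eq_two_iff]
    refine ⟨w, fun b => ?_⟩
    have hkb : k w b ∈ Y := (mk_comm Y).mp (Subgroup.mem_center_iff.mp hwc _)
    rcases hC b (k_one_iff.mp (hA _ hkb)) with h | h
    · refine Or.inr ⟨h, fun h' => hwY ?_⟩
      have := mul_mem (inv_mem h) h'
      simpa using this
    · refine Or.inl ⟨h, fun h' => hwY ?_⟩
      have := mul_mem (inv_mem h') h
      simpa using this
  · push Not at hA
    obtain ⟨s0, hs0, hs01⟩ := hA
    have himg : ∀ y ∈ Y, ∃ s, k w s = y := by
      intro y hy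
      by_cases hy1 : y = 1
      · exact ⟨1, by rw [hy1]; unfold k; group⟩
      · obtain ⟨e, he, -, hey⟩ := htr _ hs0 _ hy hs01 hy1
        exact ⟨e s0, by rw [k_map e he, hey]⟩
    by_cases hB : ∀ s, k w s ∈ Y
    · -- everything squares into Y
      apply elem_case w Y hww hwY hYn
      intro u
      have hku : k w (u * u) = 1 := by
        rw [k_mul (fun x => hYc _ (hB u) x)]; exact hYsq _ (hB u)
      rcases hC _ (k_one_iff.mp hku) with h | h
      · exact h
      exfalso
      obtain ⟨s, hs⟩ := himg _ h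
      -- u u = s w s⁻¹
      have h1 : u * u = s * w * s⁻¹ := by
        have h2 : u * u * w = s * w * s⁻¹ * w⁻¹ := hs.symm
        rw [hwi] at h2
        exact mul_right_cancel h2
      set v := s⁻¹ * u * s with hv
      have hvv : v * v = w := by
        have : v * v = s⁻¹ * (u * u) * s := by rw [hv]; group
        rw [this, h1]; group
      have hvw : v * w = w * v := by rw [← hvv]; group
      rcases hC _ hvw with h3 | h3
      · apply hwY
        rw [← hvv]; exact mul_mem h3 h3
      · apply hwY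
        have h4 := hYsq _ h3
        have h5 : v * w * (v * w) = w := by
          calc v * w * (v * w) = v * (w * v) * w := by group
            _ = v * (v * w) * w := by rw [hvw]
            _ = (v * v) * (w * w) := by group
            _ = w := by rw [hww, mul_one, hvv]
        rw [h5] at h4
        rw [h4]; exact one_mem Y
    · push Not at hB
      obtain ⟨s1, hs1⟩ := hB
      have hwc : (w : S ⧸ Y) ∉ Subgroup.center (S ⧸ Y) := by
        intro h
        exact hs1 ((mk_comm Y).mp (Subgroup.mem_center_iff.mp h _))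
      -- central elements of the quotient
      have hcen : ∀ s : S, (s : S ⧸ Y) ∈ Subgroup.center (S ⧸ Y) → s ∉ Y → k w s ∈ Y ∧ k w s ≠ 1 := by
        intro s hs hsY
        refine ⟨(mk_comm Y).mp ((Subgroup.mem_center_iff.mp hs _).symm), fun h => ?_⟩
        rcases hC _ (k_one_iff.mp h) with h1 | h1
        · exact hsY h1
        · apply hwc
          have h3 : (s : S ⧸ Y) * (w : S ⧸ Y) = 1 := by
            rw [← QuotientGroup.mk_mul]; exact (QuotientGroup.eq_one_iff _).mpr h1
          have h4 : (w : S ⧸ Y) = (s : S ⧸ Y)⁻¹ := (inv_eq_of_mul_eq_one_right h3).symm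
          rw [h4]; exact inv_mem hs
      have hmapY : ∀ e : S ≃* S, (∀ x ∈ Y, e x ∈ Y) → Y.map e.toMonoidHom = Y := by
        intro e he
        have hle : Y.map e.toMonoidHom ≤ Y := by
          rintro _ ⟨x, hx, rfl⟩; exact he x hx
        apply Subgroup.eq_of_le_of_card_ge hle
        rw [Subgroup.card_map_of_injective e.injective]
      have hcmap : ∀ (e' : (S ⧸ Y) ≃* (S ⧸ Y)), ∀ x ∈ Subgroup.center (S ⧸ Y), e' x ∈ Subgroup.center (S ⧸ Y) := by
        intro e' x hx
        rw [Subgroup.mem_center_iff] at hx ⊢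
        intro g
        obtain ⟨g', rfl⟩ := e'.surjective g
        rw [← map_mul, ← map_mul, hx]
      have hcard : Nat.card (S ⧸ Y) < n := by
        have h1 : Nat.card S = Nat.card (S ⧸ Y) * Nat.card Y := Subgroup.card_eq_card_quotient_mul_card_subgroup Y
        have h2 : 1 < Nat.card Y := by
          rw [Finite.one_lt_card_iff_nontrivial]
          exact ⟨⟨⟨_, hs0⟩, 1, fun h => hs01 (congrArg Subtype.val h)⟩⟩
        have h3 : 0 < Nat.card (S ⧸ Y) := Nat.card_pos
        rw [← hn, h1]
        nlinarith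
      obtain ⟨M', hM', hwM'⟩ := ih _ hcard (S ⧸ Y) (w : S ⧸ Y) (Subgroup.center (S ⧸ Y)) rfl hS'
        (by rw [← QuotientGroup.mk_mul, hww]; rfl) hwc (fun y hy s => Subgroup.mem_center_iff.mp hy s)
        (by
          intro y hy
          obtain ⟨s, rfl⟩ := QuotientGroup.mk_surjective y
          have hks : k w s ∈ Y := (mk_comm Y).mp ((Subgroup.mem_center_iff.mp hy _).symm)
          have hkss : k w (s * s) = 1 := by
            rw [k_mul (fun x => hYc _ hks x)]; exact hYsq _ hks
          rcases hC _ (k_one_iff.mp hkss) with h | h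
          · rw [← QuotientGroup.mk_mul]; exact (QuotientGroup.eq_one_iff _).mpr h
          · exfalso
            apply hwc
            have h3 : ((s * s : S) : S ⧸ Y) * (w : S ⧸ Y) = 1 := by
              rw [← QuotientGroup.mk_mul]; exact (QuotientGroup.eq_one_iff _).mpr h
            have h4 : (w : S ⧸ Y) = ((s * s : S) : S ⧸ Y)⁻¹ := (inv_eq_of_mul_eq_one_right h3).symm
            rw [h4, QuotientGroup.mk_mul]; exact inv_mem (mul_mem hy hy))
        (by
          intro s' hs'
          obtain ⟨s, rfl⟩ := QuotientGroup.mk_surjective s'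
          have hks : k w s ∈ Y := (mk_comm Y).mp hs'
          by_cases hks1 : k w s = 1
          · rcases hC _ (k_one_iff.mp hks1) with h | h
            · left
              rw [(QuotientGroup.eq_one_iff _).mpr h]; exact one_mem _
            · right
              rw [← QuotientGroup.mk_mul, (QuotientGroup.eq_one_iff _).mpr h]; exact one_mem _
          · obtain ⟨hk0Y, hk01⟩ := hcen z0 hz0' hz0Y
            obtain ⟨e, hew, heY, hek⟩ := htr _ hk0Y _ hks hk01 hks1
            have hz1 : ((e z0 : S) : S ⧸ Y) ∈ Subgroup.center (S ⧸ Y) :=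
              hcmap (QuotientGroup.congr Y Y e (hmapY e heY)) _ hz0'
            have hk1 : k w (e z0) = k w s := by rw [k_map e hew, hek]
            have hk1Y : k w (e z0) ∈ Y := by rw [hk1]; exact hks
            have hkq : k w (s * (e z0)⁻¹) = 1 := by
              have h5 := k_inv (w := w) (t := e z0) (fun x => hYc _ hk1Y x)
              rw [k_mul (fun x => by rw [h5]; exact hYc _ (inv_mem hk1Y) x), h5, hk1, inv_mul_cancel]
            rcases hC _ (k_one_iff.mp hkq) with h | h
            · left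
              have h6 : (s : S ⧸ Y) = ((e z0 : S) : S ⧸ Y) := by
                have := (QuotientGroup.eq_one_iff (s * (e z0)⁻¹)).mpr h
                rw [QuotientGroup.mk_mul, QuotientGroup.mk_inv, mul_inv_eq_one] at this
                exact this
              rw [h6]; exact hz1
            · right
              have h6 : (s : S ⧸ Y) * (w : S ⧸ Y) = ((e z0 : S) : S ⧸ Y) := by
                have := (QuotientGroup.eq_one_iff (s * (e z0)⁻¹ * w)).mpr h
                rw [QuotientGroup.mk_mul, QuotientGroup.mk_mul, QuotientGroup.mk_inv, mul_assoc,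
                  Subgroup.mem_center_iff.mp (inv_mem hz1) _ |>.symm, ← mul_assoc, mul_inv_eq_one] at this
                exact this
              rw [h6]; exact hz1)
        (by
          intro y hy z hz hy1 hz1
          obtain ⟨y, rfl⟩ := QuotientGroup.mk_surjective y
          obtain ⟨z, rfl⟩ := QuotientGroup.mk_surjective z
          have hyY : y ∉ Y := fun h => hy1 ((QuotientGroup.eq_one_iff y).mpr h)
          have hzY : z ∉ Y := fun h => hz1 ((QuotientGroup.eq_one_iff z).mpr h)
          obtain ⟨hky, hky1⟩ := hcen y hy hyY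
          obtain ⟨hkz, hkz1⟩ := hcen z hz hzY
          obtain ⟨e, hew, heY, hek⟩ := htr _ hky _ hkz hky1 hkz1
          refine ⟨QuotientGroup.congr Y Y e (hmapY e heY), ?_, hcmap _, ?_⟩
          · show ((e w : S) : S ⧸ Y) = (w : S ⧸ Y)
            rw [hew]
          · show ((e y : S) : S ⧸ Y) = (z : S ⧸ Y)
            have hk1 : k w (e y) = k w z := by rw [k_map e hew, hek]
            have hkq : k w (e y * z⁻¹) = 1 := by
              have h5 := k_inv (w := w) (t := z) (fun x => hYc _ hkz x)
              rw [k_mul (fun x => by rw [h5]; exact hYc _ (inv_mem hkz) x), h5, hk1, inv_mul_cancel]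
            rcases hC _ (k_one_iff.mp hkq) with h | h
            · have := (QuotientGroup.eq_one_iff (e y * z⁻¹)).mpr h
              rw [QuotientGroup.mk_mul, QuotientGroup.mk_inv, mul_inv_eq_one] at this
              exact this
            · exfalso
              apply hwc
              have hey : ((e y : S) : S ⧸ Y) ∈ Subgroup.center (S ⧸ Y) :=
                hcmap (QuotientGroup.congr Y Y e (hmapY e heY)) _ hy
              have h3 : ((e y * z⁻¹ : S) : S ⧸ Y) * (w : S ⧸ Y) = 1 := by
                rw [← QuotientGroup.mk_mul]; exact (QuotientGroup.eq_one_iff _).mpr h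
              have h4 : (w : S ⧸ Y) = ((e y * z⁻¹ : S) : S ⧸ Y)⁻¹ := (inv_eq_of_mul_eq_one_right h3).symm
              rw [h4, QuotientGroup.mk_mul, QuotientGroup.mk_inv]
              exact inv_mem (mul_mem hey (inv_mem hz)))
      refine ⟨M'.comap (QuotientGroup.mk' Y), ?_, fun h => hwM' h⟩
      rw [Subgroup.index_comap_of_surjective _ (QuotientGroup.mk'_surjective Y), hM']

end Cfsg.Agent.Lib.NBN11
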