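import Cfsg.Agent.Lib.NBN10
import Cfsg.Agent.Lib.NBN11
import Cfsg.Agent.Lib.ThompsonTransfer
import Mathlib.GroupTheory.Index

set_option autoImplicit false
set_option linter.unusedSectionVars false
set_option linter.unusedVariables false
set_option linter.style.haveILetI false

/-!
# Two-transitive groups with nilpotent normal transitive subgroups of point stabilisers, XII (helper71)

In a simple group the two-point stabilisers meet `U a` trivially.
-/

namespace Cfsg.Agent.Lib.NBN12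

open MulAction Cfsg.Agent.Lib.NBN1 Cfsg.Agent.Lib.NBN2 Cfsg.Agent.Lib.NBN3 Cfsg.Agent.Lib.NBN6 Cfsg.Agent.Lib.NBN7
  Cfsg.Agent.Lib.NBN8

universe u v

section
variable {G : Type u} {Ω : Type v} [Group G] [MulAction G Ω] {U Z : Ω → Subgroup G} [Finite G]

theorem thr_of (S : Two U Z) {N : ℕ} (hN : Nat.card Ω = 2 ^ N + 1) {a b : Ω} (hab : a ≠ b) {x : G} (hx : x ∈ U a)
    (hxb : x • b = b) (hx1 : x ≠ 1) : ∃ q : ℕ, Thr U Z q := by
  -- an involution
  obtain ⟨w, hw⟩ : ∃ w : G, TT Ω w := by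
    obtain ⟨k, hk⟩ := S.pg a ⟨x, hx⟩
    have hk' : x ^ 2 ^ k = 1 := congrArg Subtype.val hk
    obtain ⟨j, hj, hj'⟩ := (Nat.dvd_prime_pow Nat.prime_two).1 (orderOf_dvd_of_pow_eq_one hk')
    obtain ⟨i, rfl⟩ : ∃ i, j = i + 1 := by
      rcases j with _ | i
      · rw [pow_zero, orderOf_eq_one_iff] at hj'; exact absurd hj' hx1
      · exact ⟨i, rfl⟩
    have hfix : ∀ (m : ℕ) (c : Ω), x • c = c → x ^ m • c = c := by
      intro m c hc
      induction m with
      | zero => rw [pow_zero, one_smul]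
      | succ n ih => rw [pow_succ, mul_smul, hc, ih]
    refine ⟨x ^ 2 ^ i, ?_, ?_, a, b, hab, hfix _ _ (S.fix a x hx), hfix _ _ hxb⟩
    · rw [← pow_add, ← two_mul, ← pow_succ', ← hj', pow_orderOf_eq_one]
    · intro h
      have h1 := orderOf_dvd_of_pow_eq_one h
      rw [hj'] at h1
      have h2 := Nat.le_of_dvd (by positivity) h1
      rw [pow_succ] at h2
      have h3 : 0 < 2 ^ i := by positivity
      omega
  have hq : ∀ c : Ω, Nat.card (Z c) = Nat.card (Z a) := fun c => cardZ S c a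
  refine ⟨Nat.card (Z a), ?_⟩
  exact
    { toTwo := S
      hq := hq
      q4 := S.card a
      hφ := fun w hw => (main_count S hN hq hw).1
      hc := fun w hw => (main_count S hN hq hw).2.2
      hn := (main_count S hN hq hw).2.1
      hT := by
        intro c d hcd
        obtain ⟨g, rfl, rfl⟩ := S.tr2 hab hcd
        refine ⟨g * x * g⁻¹, S.conjU g a x hx, ?_, fun h => hx1 ?_⟩
        · rw [mul_smul, mul_smul, inv_smul_smul, hxb]
        · exact conj_eq_one_iff.1 h }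

end

section
variable {G : Type u} {Ω : Type v} [Group G] [MulAction G Ω] {U Z : Ω → Subgroup G} [Finite G] {q : ℕ}

/-- tau_two with `Finite` -/
theorem tau_two' (S : Thr U Z q) {a b : Ω} (hab : b ≠ a) {w t : G} (hw : w ∈ U a) (hwb : w • b = b) (hw1 : w ≠ 1)
    (ht : t ∈ U a) (htb : t • b = b) (ht1 : t ≠ 1) : t = w := by
  haveI := finΩ S.toSys
  haveI := Fintype.ofFinite Ω
  haveI := Fintype.ofFinite G
  exact NBN10.tau_two S hab hw hwb hw1 ht htb ht1

/-- conjugation by an element of the stabiliser -/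
noncomputable def cj (S : Thr U Z q) {a : Ω} (g : G) (hg : g • a = a) : U a ≃* U a where
  toFun u := ⟨g * u * g⁻¹, by have := S.conjU g a u u.2; rwa [hg] at this⟩
  invFun u := ⟨g⁻¹ * u * g, by
    have := S.conjU g⁻¹ a u u.2
    rwa [inv_smul_eq_iff.2 hg.symm, inv_inv] at this⟩
  left_inv u := Subtype.ext (by show g⁻¹ * (g * u * g⁻¹) * g = u; group)
  right_inv u := Subtype.ext (by show g * (g⁻¹ * u * g) * g⁻¹ = u; group)
  map_mul' u v := Subtype.ext (by show g * (u * v) * g⁻¹ = (g * u * g⁻¹) * (g * v * g⁻¹); group)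

theorem exists_M (S : Thr U Z q) {a b : Ω} (hab : b ≠ a) {w : G} (hw : w ∈ U a) (hwb : w • b = b) (hw1 : w ≠ 1) :
    ∃ M : Subgroup (U a), M.index = 2 ∧ (⟨w, hw⟩ : U a) ∉ M := by
  have hTT := TT_of S hab hw hwb hw1
  have hwa := S.fix a w hw
  refine NBN11.lemW _ (U a) ⟨w, hw⟩ ((Z a).subgroupOf (U a)) rfl (S.pg a) (Subtype.ext hTT.1) ?_ ?_ ?_ ?_ ?_
  · intro h
    have h1 : w ∈ Z a := Subgroup.mem_subgroupOf.1 h
    exact hab (S.Zfix a w h1 hw1 b hwb)
  · intro y hy s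
    exact Subtype.ext (S.Zcen a y (Subgroup.mem_subgroupOf.1 hy) s s.2).symm
  · intro y hy
    exact Subtype.ext (S.Zsq a y (Subgroup.mem_subgroupOf.1 hy))
  · rintro ⟨s, hs⟩ hsw
    have hsw' : s * w = w * s := congrArg Subtype.val hsw
    have h1 : w • (s • b) = s • b := by rw [← mul_smul, ← hsw', mul_smul, hwb]
    have hsa := S.fix a s hs
    have h2 : s • b ≠ a := fun h => hab (smul_left_cancel s (h.trans hsa.symm))
    obtain ⟨z, hz, hzb⟩ := R1 S hTT hwa hwb h1 hab h2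
    by_cases h3 : z⁻¹ * s = 1
    · left
      rw [Subgroup.mem_subgroupOf]
      show s ∈ Z a
      rw [← inv_mul_eq_one.1 h3]; exact hz
    · right
      have h4 : z⁻¹ * s = w := tau_two' S hab hw hwb hw1 ((U a).mul_mem ((U a).inv_mem (S.ZU a hz)) hs)
        (by rw [mul_smul, ← hzb, inv_smul_smul]) h3
      rw [Subgroup.mem_subgroupOf]
      show s * w ∈ Z a
      have h5 : s * w = z := by
        have h6 : s = z * w := by rw [← h4]; group
        rw [h6, mul_assoc, hTT.1, mul_one]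
      rw [h5]; exact hz
  · rintro ⟨y, hy⟩ hyZ ⟨z, hz⟩ hzZ hy1 hz1
    have hyZ' : y ∈ Z a := Subgroup.mem_subgroupOf.1 hyZ
    have hzZ' : z ∈ Z a := Subgroup.mem_subgroupOf.1 hzZ
    have hy1' : y ≠ 1 := fun h => hy1 (Subtype.ext h)
    have hz1' : z ≠ 1 := fun h => hz1 (Subtype.ext h)
    obtain ⟨g, hg, hgy⟩ := conjW S.toTwo hTT hyZ' hy1' hwa hzZ' hz1' hwa
    have hga : g • a = a := by
      apply S.Zfix a z hzZ' hz1'
      rw [← hgy, mul_smul, mul_smul, inv_smul_smul, S.Zfix' hyZ']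
    refine ⟨cj S g hga, Subtype.ext ?_, ?_, Subtype.ext hgy⟩
    · show g * w * g⁻¹ = w
      rw [← hg]; group
    · rintro ⟨x, hx⟩ hxZ
      rw [Subgroup.mem_subgroupOf] at hxZ ⊢
      have := S.conjZ g a x hxZ
      rwa [hga] at this

/-- `U a` is a Sylow subgroup -/
theorem exists_syl (S : Two U Z) {N : ℕ} (hN : Nat.card Ω = 2 ^ N + 1) (hN0 : N ≠ 0) (a : Ω) :
    ∃ P : Sylow 2 G, (P : Subgroup G) = U a := by
  haveI := finΩ S.toSys
  haveI : Fact (Nat.Prime 2) := ⟨Nat.prime_two⟩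
  obtain ⟨P, hP⟩ := (S.pg a).exists_le_sylow
  refine ⟨P, le_antisymm ?_ hP⟩
  have h1 := P.isPGroup'.card_modEq_card_fixedPoints Ω
  have h2 : (fixedPoints P Ω).Nonempty := by
    by_contra h
    rw [Set.not_nonempty_iff_eq_empty] at h
    rw [h, hN] at h1
    have h3 : Nat.card (∅ : Set Ω) = 0 := by simp
    rw [h3] at h1
    have h4 : 2 ∣ 2 ^ N + 1 := (Nat.modEq_zero_iff_dvd).1 h1
    have h5 : 2 ∣ 2 ^ N := dvd_pow_self 2 hN0
    have h6 := (Nat.dvd_add_right h5).1 h4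
    omega
  obtain ⟨c, hc⟩ := h2
  have hPc : (P : Subgroup G) ≤ U c := by
    intro g hg
    apply S.two c g (hc ⟨g, hg⟩)
    obtain ⟨k, hk⟩ := P.isPGroup' ⟨g, hg⟩
    exact ⟨k, congrArg Subtype.val hk⟩
  obtain ⟨z, hz, hz1⟩ := S.Zne a
  have h3 : z • c = c := S.fix c z (hPc (hP (S.ZU a hz)))
  have h4 := S.Zfix a z hz hz1 c h3
  rw [← h4]; exact hPc

theorem final (S : Two U Z) [IsSimpleGroup G] {N : ℕ} (hN : Nat.card Ω = 2 ^ N + 1) {a b : Ω} (hab : a ≠ b) :
    U a ⊓ stabilizer G b = ⊥ := by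
  haveI := finΩ S.toSys
  rw [eq_bot_iff]
  intro x hx0
  obtain ⟨hx, hxb⟩ := Subgroup.mem_inf.1 hx0
  rw [mem_stabilizer_iff] at hxb
  rw [Subgroup.mem_bot]
  by_contra hx1
  obtain ⟨q, T⟩ := thr_of S hN hab hx hxb hx1
  have hN0 : N ≠ 0 := by
    rintro rfl
    obtain ⟨c, hc1, hc2⟩ := S.third a b
    have h1 : Nat.card Ω = 2 := by rw [hN]; norm_num
    rw [Nat.card_eq_two_iff] at h1
    obtain ⟨u, v, huv, hall⟩ := h1
    have m : ∀ y : Ω, y = u ∨ y = v := fun y => by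
      have : y ∈ ({u, v} : Set Ω) := by rw [hall]; trivial
      simpa using this
    rcases m a with h | h <;> rcases m b with h' | h' <;> rcases m c with h'' | h'' <;> simp_all
  obtain ⟨M, hM, hwM⟩ := exists_M T hab.symm hx hxb hx1
  have hTT := TT_of T hab.symm hx hxb hx1
  obtain ⟨P, hP⟩ := exists_syl S hN hN0 a
  haveI hMn : M.Normal := Subgroup.normal_of_index_eq_two hM
  obtain ⟨Q, hQ⟩ : ∃ Q, Q = M.map (U a).subtype := ⟨_, rfl⟩
  have hQU : Q ≤ U a := by rw [hQ]; exact Subgroup.map_subtype_le M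
  have hQi : Q.relIndex (P : Subgroup G) = 2 := by
    rw [hP, Subgroup.relIndex, Subgroup.subgroupOf, hQ,
      Subgroup.comap_map_eq_self_of_injective (Subgroup.subtype_injective _), hM]
  have hmem : ∀ y : G, y ∈ Q ↔ ∃ h : y ∈ U a, (⟨y, h⟩ : U a) ∈ M := by
    intro y; rw [hQ, Subgroup.mem_map]
    constructor
    · rintro ⟨z, hz, rfl⟩; exact ⟨z.2, hz⟩
    · rintro ⟨h, hz⟩; exact ⟨_, hz, rfl⟩
  have hxQ : x ∉ Q := fun h => by
    obtain ⟨h1, h2⟩ := (hmem x).1 h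
    exact hwM h2
  have ho : orderOf x = 2 := orderOf_eq_prime (by rw [pow_two]; exact hTT.1) hx1
  have hnc : ∀ g : G, g * x * g⁻¹ ∉ Q := by
    intro g hg
    obtain ⟨hyU, hyM⟩ := (hmem _).1 hg
    set y := g * x * g⁻¹ with hy
    have hy1 : y ≠ 1 := fun h => hx1 (conj_eq_one_iff.1 h)
    have hya := S.fix a y hyU
    have f1 : y • (g • a) = g • a := by rw [hy, mul_smul, mul_smul, inv_smul_smul, S.fix a x hx]
    have f2 : y • (g • b) = g • b := by rw [hy, mul_smul, mul_smul, inv_smul_smul, hxb]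
    obtain ⟨b', hb', hyb'⟩ : ∃ b' : Ω, b' ≠ a ∧ y • b' = b' := by
      by_cases h : g • a = a
      · refine ⟨g • b, fun h' => hab ?_, f2⟩
        exact smul_left_cancel g (h.trans h'.symm)
      · exact ⟨g • a, h, f1⟩
    obtain ⟨u, hu, hub⟩ := S.trans a b b' hab.symm hb'
    have h1 : u * x * u⁻¹ ∈ U a := (U a).mul_mem ((U a).mul_mem hu hx) ((U a).inv_mem hu)
    have h2 : (u * x * u⁻¹) • b' = b' := by
      rw [← hub, mul_smul, mul_smul, inv_smul_smul, hxb]
    have h3 : u * x * u⁻¹ = y := tau_two' T hb' hyU hyb' hy1 h1 h2 (fun h => hx1 (conj_eq_one_iff.1 h))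
    apply hwM
    have h4 := hMn.conj_mem _ hyM (⟨u, hu⟩ : U a)⁻¹
    have h5 : (⟨u, hu⟩ : U a)⁻¹ * ⟨y, hyU⟩ * (⟨u, hu⟩ : U a)⁻¹⁻¹ = ⟨x, hx⟩ := by
      apply Subtype.ext
      show u⁻¹ * y * u⁻¹⁻¹ = x
      rw [← h3]; group
    rwa [h5] at h4
  obtain ⟨K, hKn, hK2, -⟩ := ThompsonTransfer.thompson_transfer P Q hQi x ho (by rw [hP]; exact hx) hnc
  have hcard : 4 ≤ Nat.card G := le_trans (S.card a) (Nat.le_of_dvd Nat.card_pos (Subgroup.card_subgroup_dvd_card _))
  rcases hKn.eq_bot_or_eq_top with h | h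
  · rw [h, Subgroup.index_bot] at hK2; omega
  · rw [h, Subgroup.index_top] at hK2; omega

end

end Cfsg.Agent.Lib.NBN12
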