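import Cfsg.Agent.Lib.NBN12
import Cfsg.Agent.Lib.Cores3
import Cfsg.Prelude.Def_LieExceptional

set_option autoImplicit false
set_option linter.unusedSectionVars false
set_option linter.unusedVariables false
set_option linter.style.haveILetI false

/-!
# Two-transitive groups with nilpotent normal transitive subgroups of point stabilisers, XIII (helper71)

The coset action of a strongly split BN-pair of rank one.
-/

namespace Cfsg.Agent.Lib.NBN13

open MulAction Cfsg.Agent.Lib.NBN1 Cfsg.Agent.Lib.NBN2 Cfsg.Agent.Lib.NBN3 Cfsg.Agent.Lib.NBN6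

open scoped Pointwise

universe u v

section cosets
variable {G : Type u} [Group G] {B : Subgroup G}

/-- the family of conjugates -/
noncomputable def cf (V : Subgroup G) (c : G ⧸ B) : Subgroup G := V.map (MulAut.conj c.out).toMonoidHom

theorem mem_cf {V : Subgroup G} (hV : ∀ b ∈ B, ∀ x ∈ V, b * x * b⁻¹ ∈ V) (g x : G) :
    x ∈ cf V (g : G ⧸ B) ↔ g⁻¹ * x * g ∈ V := by
  obtain ⟨b, hb⟩ := QuotientGroup.mk_out_eq_mul B g
  unfold cf
  rw [hb, Subgroup.mem_map]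
  constructor
  · rintro ⟨v, hv, rfl⟩
    have h := hV b b.2 v hv
    have e : g⁻¹ * ((MulAut.conj (g * (b : G))).toMonoidHom v) * g = b * v * (b : G)⁻¹ := by
      show g⁻¹ * (g * b * v * (g * b)⁻¹) * g = _
      group
    rw [e]; exact h
  · intro h
    refine ⟨(b : G)⁻¹ * (g⁻¹ * x * g) * (b : G)⁻¹⁻¹, hV _ (B.inv_mem b.2) _ h, ?_⟩
    show g * b * ((b : G)⁻¹ * (g⁻¹ * x * g) * (b : G)⁻¹⁻¹) * (g * b)⁻¹ = x
    group

theorem smul_eq_iff (u x y : G) : u • (x : G ⧸ B) = (y : G ⧸ B) ↔ y⁻¹ * (u * x) ∈ B := by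
  rw [eq_comm]; exact QuotientGroup.eq

theorem nil_cf {V : Subgroup G} (h : Group.IsNilpotent V) (c : G ⧸ B) : Group.IsNilpotent (cf V c) := by
  unfold cf
  exact Group.nilpotent_of_mulEquiv (V.equivMapOfInjective _ (MulAut.conj c.out).injective)

theorem card_cf {V : Subgroup G} (c : G ⧸ B) : Nat.card (cf V c) = Nat.card V :=
  Subgroup.card_map_of_injective (MulAut.conj c.out).injective

theorem mkSys [Finite G] {U Z : Subgroup G} (hUB : U ≤ B) (hUn : ∀ b ∈ B, ∀ x ∈ U, b * x * b⁻¹ ∈ U)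
    (hZn : ∀ b ∈ B, ∀ x ∈ Z, b * x * b⁻¹ ∈ Z) (hnil : Group.IsNilpotent U)
    (htr : ∀ x y : G, x ∉ B → y ∉ B → ∃ u ∈ U, y⁻¹ * (u * x) ∈ B)
    (htwo : ∀ g ∈ B, (∃ k : ℕ, g ^ 2 ^ k = 1) → g ∈ U) (hZU : Z ≤ U) (hZc : ∀ z ∈ Z, ∀ u ∈ U, z * u = u * z)
    (hZs : ∀ z ∈ Z, z * z = 1) (hZf : ∀ z ∈ Z, z ≠ 1 → ∀ g, g⁻¹ * z * g ∈ B → g ∈ B)
    (hcard : 4 ≤ Nat.card Z) (hB : B ≠ ⊤) : Sys (cf (B := B) U) (cf (B := B) Z) where
  fix := by
    intro c u hu
    obtain ⟨g, rfl⟩ := QuotientGroup.mk_surjective c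
    rw [mem_cf hUn] at hu
    rw [smul_eq_iff, ← mul_assoc]
    exact hUB hu
  conjU := by
    intro h c u hu
    obtain ⟨g, rfl⟩ := QuotientGroup.mk_surjective c
    rw [mem_cf hUn] at hu
    have : h • (g : G ⧸ B) = ((h * g : G) : G ⧸ B) := rfl
    rw [this, mem_cf hUn]
    convert hu using 1; group
  conjZ := by
    intro h c u hu
    obtain ⟨g, rfl⟩ := QuotientGroup.mk_surjective c
    rw [mem_cf hZn] at hu
    have : h • (g : G ⧸ B) = ((h * g : G) : G ⧸ B) := rfl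
    rw [this, mem_cf hZn]
    convert hu using 1; group
  nil := nil_cf hnil
  trans := by
    intro c x y hx hy
    obtain ⟨g, rfl⟩ := QuotientGroup.mk_surjective c
    obtain ⟨x, rfl⟩ := QuotientGroup.mk_surjective x
    obtain ⟨y, rfl⟩ := QuotientGroup.mk_surjective y
    have hx' : g⁻¹ * x ∉ B := fun h => hx (QuotientGroup.eq.2 h).symm
    have hy' : g⁻¹ * y ∉ B := fun h => hy (QuotientGroup.eq.2 h).symm
    obtain ⟨u, hu, h⟩ := htr _ _ hx' hy'
    refine ⟨g * u * g⁻¹, ?_, ?_⟩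
    · rw [mem_cf hUn]
      convert hu using 1; group
    · show (g * u * g⁻¹) • (x : G ⧸ B) = (y : G ⧸ B)
      rw [smul_eq_iff]
      convert h using 1; group
  two := by
    intro c x hx hk
    obtain ⟨g, rfl⟩ := QuotientGroup.mk_surjective c
    rw [mem_cf hUn]
    have hx' : x • (g : G ⧸ B) = (g : G ⧸ B) := hx
    rw [smul_eq_iff] at hx'
    apply htwo
    · rw [mul_assoc]; exact hx'
    · obtain ⟨k, hk⟩ := hk
      refine ⟨k, ?_⟩
      have h1 : g⁻¹ * x * g = g⁻¹ * x * g⁻¹⁻¹ := by rw [inv_inv]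
      rw [h1, conj_pow, hk]; group
  ZU := by
    intro c x hx
    obtain ⟨g, rfl⟩ := QuotientGroup.mk_surjective c
    rw [mem_cf hZn] at hx
    rw [mem_cf hUn]; exact hZU hx
  Zcen := by
    intro c z hz u hu
    obtain ⟨g, rfl⟩ := QuotientGroup.mk_surjective c
    rw [mem_cf hZn] at hz
    rw [mem_cf hUn] at hu
    have h := hZc _ hz _ hu
    have h1 : z * u = g * ((g⁻¹ * z * g) * (g⁻¹ * u * g)) * g⁻¹ := by group
    rw [h1, h]; group
  Zsq := by
    intro c z hz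
    obtain ⟨g, rfl⟩ := QuotientGroup.mk_surjective c
    rw [mem_cf hZn] at hz
    have h := hZs _ hz
    have h1 : z * z = g * ((g⁻¹ * z * g) * (g⁻¹ * z * g)) * g⁻¹ := by group
    rw [h1, h]; group
  Zfix := by
    intro c z hz hz1 x hx
    obtain ⟨g, rfl⟩ := QuotientGroup.mk_surjective c
    obtain ⟨x, rfl⟩ := QuotientGroup.mk_surjective x
    rw [mem_cf hZn] at hz
    have hx' : z • (x : G ⧸ B) = (x : G ⧸ B) := hx
    rw [smul_eq_iff] at hx'
    have h := hZf _ hz (fun h => hz1 (by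
      have h1 : z = g * (g⁻¹ * z * g) * g⁻¹ := by group
      rw [h1, h]; group)) (g⁻¹ * x) (by convert hx' using 1; group)
    exact (QuotientGroup.eq.2 h).symm
  card := by intro c; rw [card_cf]; exact hcard
  ne := by
    obtain ⟨g, hg⟩ : ∃ g : G, g ∉ B := by
      by_contra h
      push Not at h
      exact hB (eq_top_iff.2 fun g _ => h g)
    exact ⟨((1 : G) : G ⧸ B), (g : G ⧸ B), fun h => hg (by
      have := QuotientGroup.eq.1 h
      simpa using this)⟩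

end cosets

section bn
variable {G : Type u} [Group G] [Finite G] (P : Cfsg.BNPair G)

/-- rank one: the cosets outside `B` -/
theorem bn_tr (hrank : P.rank = 1) {U : Subgroup G} (hUB : U ≤ P.B)
    (hUn : ∀ b ∈ P.B, ∀ x ∈ U, b * x * b⁻¹ ∈ U) (hsplit : U ⊔ (P.B ⊓ P.N) = P.B) :
    P.B ≠ ⊤ ∧ ∀ x y : G, x ∉ P.B → y ∉ P.B → ∃ u ∈ U, y⁻¹ * (u * x) ∈ P.B := by
  obtain ⟨s, hs⟩ : ∃ s, P.S = {s} := by
    have h1 : Nat.card P.S = 1 := hrank
    rw [Nat.card_eq_one_iff_unique] at h1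
    obtain ⟨h1, ⟨s, hs⟩⟩ := h1
    refine ⟨s, Set.eq_singleton_iff_unique_mem.2 ⟨hs, fun x hx => ?_⟩⟩
    exact congrArg Subtype.val (h1.elim ⟨x, hx⟩ ⟨s, hs⟩)
  have hsS : s ∈ P.S := by rw [hs]; rfl
  have hsN : s ∈ P.N := P.subset hsS
  have hss : s * s ∈ P.B := P.sq_mem s hsS
  have hsB : s ∉ P.B := by
    intro h
    apply P.conj_ne s hsS
    ext x
    constructor
    · rintro ⟨b, hb, rfl⟩
      exact P.B.mul_mem (P.B.mul_mem h hb) h
    · intro hx
      refine ⟨s⁻¹ * x * s⁻¹, P.B.mul_mem (P.B.mul_mem (P.B.inv_mem h) hx) (P.B.inv_mem h), ?_⟩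
      show s * (s⁻¹ * x * s⁻¹) * s = x
      group
  have key : ∀ b ∈ P.B, s * b * s ∈ P.B ∨ ∃ b1 ∈ P.B, ∃ b2 ∈ P.B, s * b * s = b1 * s * b2 := by
    intro b hb
    rcases P.mul_mem_union s hsS s hsN b hb with h | h
    · rw [DoubleCoset.mem_doubleCoset] at h
      obtain ⟨b1, h1, b2, h2, h⟩ := h
      left
      rw [h]; exact P.B.mul_mem (P.B.mul_mem h1 hss) h2
    · rw [DoubleCoset.mem_doubleCoset] at h
      obtain ⟨b1, h1, b2, h2, h⟩ := h
      exact Or.inr ⟨b1, h1, b2, h2, h⟩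
  let K : Subgroup G :=
    { carrier := {x | x ∈ P.B ∨ ∃ b1 ∈ P.B, ∃ b2 ∈ P.B, x = b1 * s * b2}
      one_mem' := Or.inl (one_mem _)
      mul_mem' := by
        rintro x y (hx | ⟨b1, h1, b2, h2, rfl⟩) (hy | ⟨b3, h3, b4, h4, rfl⟩)
        · exact Or.inl (mul_mem hx hy)
        · exact Or.inr ⟨x * b3, mul_mem hx h3, b4, h4, by group⟩
        · exact Or.inr ⟨b1, h1, b2 * y, mul_mem h2 hy, by group⟩
        · have e : b1 * s * b2 * (b3 * s * b4) = b1 * (s * (b2 * b3) * s) * b4 := by group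
          show (b1 * s * b2 * (b3 * s * b4)) ∈ P.B ∨ ∃ c1 ∈ P.B, ∃ c2 ∈ P.B, b1 * s * b2 * (b3 * s * b4) = c1 * s * c2
          rw [e]
          rcases key _ (mul_mem h2 h3) with h | ⟨c1, hc1, c2, hc2, h⟩
          · exact Or.inl (mul_mem (mul_mem h1 h) h4)
          · right
            refine ⟨b1 * c1, mul_mem h1 hc1, c2 * b4, mul_mem hc2 h4, ?_⟩
            rw [h]; group
      inv_mem' := by
        rintro x (hx | ⟨b1, h1, b2, h2, rfl⟩)
        · exact Or.inl (inv_mem hx)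
        · right
          refine ⟨b2⁻¹ * (s * s)⁻¹, mul_mem (inv_mem h2) (inv_mem hss), b1⁻¹, inv_mem h1, ?_⟩
          group }
  have hBK : P.B ≤ K := fun x hx => Or.inl hx
  have hsK : s ∈ K := Or.inr ⟨1, one_mem _, 1, one_mem _, by group⟩
  have hNK : P.N ≤ K := by
    rw [← P.closure_sup, sup_le_iff]
    refine ⟨?_, inf_le_left.trans hBK⟩
    rw [Subgroup.closure_le, hs]
    rintro x rfl
    exact hsK
  have hK : ∀ g : G, g ∈ K := by
    have : (⊤ : Subgroup G) ≤ K := by rw [← P.sup_eq_top]; exact sup_le hBK hNK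
    exact fun g => this trivial
  have hstd : ∀ g : G, g ∉ P.B → ∃ u ∈ U, ∃ b ∈ P.B, g = u * s * b := by
    intro g hg
    rcases hK g with h | ⟨b1, h1, b2, h2, rfl⟩
    · exact absurd h hg
    -- decompose b1
    have hN : P.B ⊓ P.N ≤ Subgroup.normalizer (U : Set G) := by
      intro d hd
      rw [Subgroup.mem_normalizer_iff]
      intro x
      refine ⟨fun hx => hUn d hd.1 x hx, fun hx => ?_⟩
      have h3 := hUn d⁻¹ (P.B.inv_mem hd.1) _ hx
      have h4 : d⁻¹ * (d * x * d⁻¹) * d⁻¹⁻¹ = x := by group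
      rwa [h4] at h3
    rw [← hsplit] at h1
    obtain ⟨u, hu, h, hh, rfl⟩ : ∃ u ∈ U, ∃ h ∈ P.B ⊓ P.N, u * h = b1 := by
      have h3 : b1 ∈ ((U ⊔ (P.B ⊓ P.N) : Subgroup G) : Set G) := h1
      rw [Subgroup.sup_eq_closure_mul] at h3
      have h4 : ∀ x ∈ Subgroup.closure ((U : Set G) * ((P.B ⊓ P.N : Subgroup G) : Set G)),
          ∃ u ∈ U, ∃ h ∈ P.B ⊓ P.N, u * h = x := by
        intro x hx
        induction hx using Subgroup.closure_induction with
        | mem x hx =>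
          obtain ⟨u, hu, h, hh, rfl⟩ := hx
          exact ⟨u, hu, h, hh, rfl⟩
        | one => exact ⟨1, one_mem _, 1, one_mem _, by group⟩
        | mul x y _ _ hx hy =>
          obtain ⟨u, hu, h, hh, rfl⟩ := hx
          obtain ⟨u', hu', h', hh', rfl⟩ := hy
          refine ⟨u * (h * u' * h⁻¹), mul_mem hu (hUn h hh.1 _ hu'), h * h', mul_mem hh hh', by group⟩
        | inv x _ hx =>
          obtain ⟨u, hu, h, hh, rfl⟩ := hx
          refine ⟨h⁻¹ * u⁻¹ * h⁻¹⁻¹, hUn _ (P.B.inv_mem hh.1) _ (inv_mem hu), h⁻¹, inv_mem hh, by group⟩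
      exact h4 b1 h3
    refine ⟨u, hu, (s⁻¹ * h * s⁻¹⁻¹) * b2, mul_mem (P.conj_mem s⁻¹ (inv_mem hsN) h hh) h2, by group⟩
  refine ⟨fun h => hsB (h ▸ Subgroup.mem_top s), fun x y hx hy => ?_⟩
  obtain ⟨u, hu, b, hb, rfl⟩ := hstd x hx
  obtain ⟨u', hu', b', hb', rfl⟩ := hstd y hy
  refine ⟨u' * u⁻¹, mul_mem hu' (inv_mem hu), ?_⟩
  have e : (u' * s * b')⁻¹ * (u' * u⁻¹ * (u * s * b)) = b'⁻¹ * b := by group
  rw [e]
  exact mul_mem (inv_mem hb') hb

/-- 2-elements of `B` lie in `U` -/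
theorem two_mem {B U H : Subgroup G} (hUn : ∀ b ∈ B, ∀ x ∈ U, b * x * b⁻¹ ∈ U) (hUB : U ≤ B) (hHB : H ≤ B)
    (hsplit : U ⊔ H = B) (hodd : Odd (Nat.card H)) {g : G} (hg : g ∈ B) (hk : ∃ k : ℕ, g ^ 2 ^ k = 1) : g ∈ U := by
  have h4 : ∀ x ∈ Subgroup.closure ((U : Set G) * (H : Set G)), ∃ u ∈ U, ∃ h ∈ H, u * h = x := by
    intro x hx
    induction hx using Subgroup.closure_induction with
    | mem x hx =>
      obtain ⟨u, hu, h, hh, rfl⟩ := hx
      exact ⟨u, hu, h, hh, rfl⟩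
    | one => exact ⟨1, one_mem _, 1, one_mem _, by group⟩
    | mul x y _ _ hx hy =>
      obtain ⟨u, hu, h, hh, rfl⟩ := hx
      obtain ⟨u', hu', h', hh', rfl⟩ := hy
      refine ⟨u * (h * u' * h⁻¹), mul_mem hu (hUn h (hHB hh) _ hu'), h * h', mul_mem hh hh', by group⟩
    | inv x _ hx =>
      obtain ⟨u, hu, h, hh, rfl⟩ := hx
      refine ⟨h⁻¹ * u⁻¹ * h⁻¹⁻¹, hUn _ (B.inv_mem (hHB hh)) _ (inv_mem hu), h⁻¹, inv_mem hh, by group⟩
  have hg' : g ∈ Subgroup.closure ((U : Set G) * (H : Set G)) := by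
    rw [← Subgroup.sup_eq_closure_mul, hsplit]; exact hg
  obtain ⟨u, hu, h, hh, rfl⟩ := h4 g hg'
  have h5 : ∀ j : ℕ, ∃ u' ∈ U, (u * h) ^ j = u' * h ^ j := by
    intro j
    induction j with
    | zero => exact ⟨1, one_mem _, by simp⟩
    | succ n ih =>
      obtain ⟨u', hu', e⟩ := ih
      refine ⟨u' * (h ^ n * u * (h ^ n)⁻¹), mul_mem hu' (hUn _ (B.pow_mem (hHB hh) n) _ hu), ?_⟩
      rw [pow_succ, e, pow_succ]; group
  obtain ⟨u', hu', e⟩ := h5 (Nat.card H)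
  have h6 : h ^ Nat.card H = 1 := by
    have := pow_card_eq_one' (x := (⟨h, hh⟩ : H))
    exact congrArg Subtype.val this
  rw [h6, mul_one] at e
  obtain ⟨k, hk⟩ := hk
  have h7 : (Nat.card H).Coprime (orderOf (u * h)) := by
    apply Nat.Coprime.coprime_dvd_right (orderOf_dvd_of_pow_eq_one hk)
    exact Nat.Coprime.pow_right k (Nat.coprime_two_right.2 hodd)
  obtain ⟨m, hm⟩ := exists_pow_eq_self_of_coprime h7
  rw [← hm, e]
  exact U.pow_mem hu' m

/-- central elements of `U` with square one -/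
def Z0 (U : Subgroup G) : Subgroup G where
  carrier := {z | z ∈ U ∧ (∀ u ∈ U, z * u = u * z) ∧ z * z = 1}
  one_mem' := ⟨one_mem _, fun u _ => by simp, by simp⟩
  mul_mem' := by
    rintro x y ⟨hx, hx', hx2⟩ ⟨hy, hy', hy2⟩
    refine ⟨mul_mem hx hy, fun u hu => ?_, ?_⟩
    · rw [mul_assoc, hy' u hu, ← mul_assoc, hx' u hu, mul_assoc]
    · calc x * y * (x * y) = x * (y * x) * y := by group
        _ = x * (x * y) * y := by rw [hx' y hy]
        _ = (x * x) * (y * y) := by group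
        _ = 1 := by rw [hx2, hy2, one_mul]
  inv_mem' := by
    rintro x ⟨hx, hx', hx2⟩
    have h : x⁻¹ = x := inv_eq_of_mul_eq_one_right hx2
    rw [h]; exact ⟨hx, hx', hx2⟩

theorem mem_Z0 {U : Subgroup G} {z : G} : z ∈ Z0 U ↔ z ∈ U ∧ (∀ u ∈ U, z * u = u * z) ∧ z * z = 1 := Iff.rfl

theorem Z0_ne {U : Subgroup G} (hnil : Group.IsNilpotent U) (heven : 2 ∣ Nat.card U) : ∃ z ∈ Z0 U, z ≠ 1 := by
  haveI : Fact (Nat.Prime 2) := ⟨Nat.prime_two⟩
  -- the Sylow 2-subgroup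
  let P : Sylow 2 U := default
  have hPn : (P : Subgroup U).Normal := sylow_normal hnil 2 P
  have hPne : (P : Subgroup U) ≠ ⊥ := P.ne_bot_of_dvd_card heven
  haveI := hnil
  obtain ⟨x, hxP, hxc, hx1⟩ := Cores.exists_mem_center_of_normal hPn hPne
  obtain ⟨k, hk⟩ := P.isPGroup' ⟨x, hxP⟩
  have hk' : x ^ 2 ^ k = 1 := congrArg Subtype.val hk
  obtain ⟨j, hj, hj'⟩ := (Nat.dvd_prime_pow Nat.prime_two).1 (orderOf_dvd_of_pow_eq_one hk')
  obtain ⟨i, rfl⟩ : ∃ i, j = i + 1 := by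
    rcases j with _ | i
    · rw [pow_zero, orderOf_eq_one_iff] at hj'; exact absurd hj' hx1
    · exact ⟨i, rfl⟩
  have h1 : x ^ 2 ^ i * x ^ 2 ^ i = 1 := by
    rw [← pow_add, ← two_mul, ← pow_succ', ← hj', pow_orderOf_eq_one]
  have h2 : x ^ 2 ^ i ≠ 1 := by
    intro h
    have h1 := orderOf_dvd_of_pow_eq_one h
    rw [hj'] at h1
    have h2 := Nat.le_of_dvd (by positivity) h1
    rw [pow_succ] at h2
    have h3 : 0 < 2 ^ i := by positivity
    omega
  have h3 : x ^ 2 ^ i ∈ Subgroup.center U := Subgroup.pow_mem _ hxc _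
  refine ⟨((x ^ 2 ^ i : U) : G), ⟨(x ^ 2 ^ i : U).2, fun u hu => ?_, congrArg Subtype.val h1⟩,
    fun h => h2 (Subtype.ext h)⟩
  exact (congrArg Subtype.val (Subgroup.mem_center_iff.1 h3 ⟨u, hu⟩)).symm

/-- the whole reduction: the system of a strongly split BN-pair of rank one in a simple group -/
theorem sys_of [IsSimpleGroup G] (hrank : P.rank = 1) {U : Subgroup G} (hUB : U ≤ P.B)
    (hUn : ∀ b ∈ P.B, ∀ x ∈ U, b * x * b⁻¹ ∈ U) (hnil : Group.IsNilpotent U) (hsplit : U ⊔ (P.B ⊓ P.N) = P.B)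
    (hind : Odd P.B.index) (hH : Odd (Nat.card ↥(P.B ⊓ P.N)))
    (hstar : ∀ (Q : Sylow 2 G) (u : G), orderOf u = 2 → u ∈ Q → (∀ g : G, g * u * g⁻¹ ∈ Q → g * u * g⁻¹ = u) →
      ∃ N : Subgroup G, N.Normal ∧ Odd (Nat.card N) ∧ ∀ g : G, (u * g * u⁻¹ * g⁻¹) ∈ N) :
    FaithfulSMul G (G ⧸ P.B) ∧ Sys (cf (B := P.B) U) (cf (B := P.B) (Z0 U)) := by
  obtain ⟨hBt, htr⟩ := bn_tr P hrank hUB hUn hsplit
  haveI : Fact (Nat.Prime 2) := ⟨Nat.prime_two⟩
  -- the action is faithful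
  have hcore : P.B.normalCore = ⊥ := by
    rcases (inferInstance : P.B.normalCore.Normal).eq_bot_or_eq_top with h | h
    · exact h
    · exact absurd (top_le_iff.1 (h ▸ P.B.normalCore_le)) hBt
  have hf1 : ∀ g : G, (∀ x : G ⧸ P.B, g • x = x) → g = 1 := by
    intro g h
    have h2 : g ∈ P.B.normalCore := by
      rw [Subgroup.normalCore_eq_ker, MonoidHom.mem_ker]
      ext x
      exact h x
    rwa [hcore, Subgroup.mem_bot] at h2
  have hf : FaithfulSMul G (G ⧸ P.B) := by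
    constructor
    intro g g' h
    exact inv_mul_eq_one.1 (hf1 _ fun x => by rw [mul_smul, ← h x, inv_smul_smul])
  obtain ⟨s, hs⟩ : ∃ s : G, s ∉ P.B := by
    by_contra h
    push Not at h
    exact hBt (eq_top_iff.2 fun g _ => h g)
  have hZn : ∀ b ∈ P.B, ∀ x ∈ Z0 U, b * x * b⁻¹ ∈ Z0 U := by
    rintro b hb x ⟨h1, h2, h3⟩
    refine ⟨hUn b hb x h1, fun u hu => ?_, ?_⟩
    · have h4 := h2 _ (hUn b⁻¹ (P.B.inv_mem hb) u hu)
      have e1 : b * x * b⁻¹ * u = b * (x * (b⁻¹ * u * b⁻¹⁻¹)) * b⁻¹ := by group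
      rw [e1, h4]; group
    · have e1 : b * x * b⁻¹ * (b * x * b⁻¹) = b * (x * x) * b⁻¹ := by group
      rw [e1, h3]; group
  have htwo : ∀ g ∈ P.B, (∃ k : ℕ, g ^ 2 ^ k = 1) → g ∈ U := fun g hg hk =>
    two_mem hUn hUB inf_le_left hsplit hH hg hk
  have hZf : ∀ z ∈ Z0 U, z ≠ 1 → ∀ g, g⁻¹ * z * g ∈ P.B → g ∈ P.B := by
    rintro z ⟨hz, hzc, hzz⟩ hz1 g hg
    by_contra hgB
    apply hz1
    apply hf1
    intro x
    obtain ⟨x, rfl⟩ := QuotientGroup.mk_surjective x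
    rw [smul_eq_iff]
    by_cases hx : x ∈ P.B
    · exact mul_mem (inv_mem hx) (mul_mem (hUB hz) hx)
    · obtain ⟨u, hu, h⟩ := htr g x hgB hx
      have e : x⁻¹ * (z * x) = (x⁻¹ * (u * g)) * (g⁻¹ * (u⁻¹ * (z * u)) * g) * (x⁻¹ * (u * g))⁻¹ := by
        have h5 := hzc u hu
        calc x⁻¹ * (z * x) = (x⁻¹ * (u * g)) * (g⁻¹ * u⁻¹ * z * u * g) * (x⁻¹ * (u * g))⁻¹ := by group
          _ = _ := by group
      rw [e]
      refine mul_mem (mul_mem h ?_) (inv_mem h)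
      rw [hzc u hu, inv_mul_cancel_left]
      exact hg
  -- |U| is even
  have hcardO : 3 ≤ Nat.card (G ⧸ P.B) := by
    have h1 : Nat.card (G ⧸ P.B) = P.B.index := rfl
    rw [h1]
    obtain ⟨k, hk⟩ := hind
    have h2 : P.B.index ≠ 1 := fun h => hBt (Subgroup.index_eq_one.1 h)
    omega
  have heven : 2 ∣ Nat.card U := by
    -- orbit of sB under U
    haveI : Finite (G ⧸ P.B) := inferInstance
    have h1 : Nat.card (orbit U (s : G ⧸ P.B)) ∣ Nat.card U := by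
      rw [Nat.card_congr (MulAction.orbitEquivQuotientStabilizer U (s : G ⧸ P.B))]
      exact Subgroup.card_quotient_dvd_card _
    have h2 : orbit U (s : G ⧸ P.B) = {x | x ≠ ((1 : G) : G ⧸ P.B)} := by
      ext x
      obtain ⟨x, rfl⟩ := QuotientGroup.mk_surjective x
      constructor
      · rintro ⟨⟨u, hu⟩, h⟩ hx
        have h' : u • (s : G ⧸ P.B) = ((1 : G) : G ⧸ P.B) := h.trans hx
        rw [smul_eq_iff] at h'
        apply hs
        have h3 := mul_mem (inv_mem (hUB hu)) (by simpa using h' : u * s ∈ P.B)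
        simpa using h3
      · intro hx
        have hx' : x ∉ P.B := by
          intro h; apply hx
          rw [QuotientGroup.eq]; simpa using h
        obtain ⟨u, hu, h⟩ := htr s x hs hx'
        exact ⟨⟨u, hu⟩, (smul_eq_iff u s x).2 h⟩
    have h3 : Nat.card (G ⧸ P.B) = Nat.card (orbit U (s : G ⧸ P.B)) + 1 := by
      rw [h2]
      have := card_succ (Ω := G ⧸ P.B) ((1 : G) : G ⧸ P.B) {x | x ≠ ((1 : G) : G ⧸ P.B)} rfl
      rw [this]; rfl
    have h4 : 2 ∣ Nat.card (orbit U (s : G ⧸ P.B)) := by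
      have h5 : Nat.card (G ⧸ P.B) = P.B.index := rfl
      rw [h5] at h3
      obtain ⟨k, hk⟩ := hind
      omega
    exact h4.trans h1
  obtain ⟨z, hz, hz1⟩ := Z0_ne hnil heven
  have hcard : 4 ≤ Nat.card (Z0 U) := by
    have hpg : IsPGroup 2 (Z0 U) := fun z => ⟨1, Subtype.ext (by
      rw [pow_one, pow_two]; exact z.2.2.2)⟩
    obtain ⟨j, hj⟩ := IsPGroup.iff_card.1 hpg
    have hj0 : j ≠ 0 := by
      rintro rfl
      rw [pow_zero, Subgroup.card_eq_one] at hj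
      rw [hj] at hz
      exact hz1 hz
    by_cases hj1 : j = 1
    swap
    · rw [hj]
      calc 4 = 2 ^ 2 := by norm_num
        _ ≤ 2 ^ j := Nat.pow_le_pow_right (by norm_num) (by omega)
    exfalso
    -- z is isolated
    have hone : ∀ y ∈ Z0 U, y ≠ 1 → y = z := by
      intro y hy hy1
      rw [hj1, pow_one, Nat.card_eq_two_iff' (⟨1, one_mem _⟩ : Z0 U)] at hj
      obtain ⟨w, -, hw⟩ := hj
      have h1 := hw ⟨y, hy⟩ (fun h => hy1 (congrArg Subtype.val h))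
      have h2 := hw ⟨z, hz⟩ (fun h => hz1 (congrArg Subtype.val h))
      exact congrArg Subtype.val (h1.trans h2.symm)
    have hord : orderOf z = 2 := orderOf_eq_prime (by rw [pow_two]; exact hz.2.2) hz1
    -- conjugates commuting with z
    have hcm : ∀ g : G, z * (g * z * g⁻¹) = g * z * g⁻¹ * z → g * z * g⁻¹ = z := by
      intro g hg
      have h1 : g⁻¹ * z * g * z = z * (g⁻¹ * z * g) := by
        calc g⁻¹ * z * g * z = g⁻¹ * (z * (g * z * g⁻¹)) * g := by group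
          _ = g⁻¹ * (g * z * g⁻¹ * z) * g := by rw [hg]
          _ = _ := by group
      -- z fixes g B since it commutes with g z g⁻¹, whose only fixed point is g B
      have h2 : g ∈ P.B := by
        have h3 : z * g ∈ {x : G | x⁻¹ * (g * z * g⁻¹) * x ∈ P.B} := by
          show (z * g)⁻¹ * (g * z * g⁻¹) * (z * g) ∈ P.B
          have e : (z * g)⁻¹ * (g * z * g⁻¹) * (z * g) = g⁻¹ * (z⁻¹ * (g * z * g⁻¹ * z)) * g := by group
          rw [e, ← hg]
          have e2 : g⁻¹ * (z⁻¹ * (z * (g * z * g⁻¹))) * g = z := by group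
          rw [e2]; exact hUB hz.1
        have h4 : g⁻¹ * (z * g) ∈ P.B := by
          apply hZf z hz hz1
          have h3' : (z * g)⁻¹ * (g * z * g⁻¹) * (z * g) ∈ P.B := h3
          convert h3' using 1; group
        exact hZf z hz hz1 g (by rw [mul_assoc]; exact h4)
      exact hone _ (hZn g h2 z hz) (fun h => hz1 (conj_eq_one_iff.1 h))
    obtain ⟨N, hNn, hNo, hN⟩ : ∃ N : Subgroup G, N.Normal ∧ Odd (Nat.card N) ∧ ∀ g : G, (z * g * z⁻¹ * g⁻¹) ∈ N := by
      have hpz : IsPGroup 2 (Subgroup.zpowers z) := by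
        apply IsPGroup.of_card (n := 1)
        rw [Nat.card_zpowers, hord, pow_one]
      obtain ⟨Q0, hQ0⟩ := hpz.exists_le_sylow
      -- choose a Sylow subgroup in which z is central
      have hUP : ∃ Q : Sylow 2 G, z ∈ Q ∧ ∀ y ∈ Q, z * y = y * z := by
        -- Q0 fixes a point
        have h1 := Q0.isPGroup'.card_modEq_card_fixedPoints (G ⧸ P.B)
        have h2 : (fixedPoints Q0 (G ⧸ P.B)).Nonempty := by
          by_contra h
          rw [Set.not_nonempty_iff_eq_empty] at h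
          rw [h] at h1
          have h3 : Nat.card (∅ : Set (G ⧸ P.B)) = 0 := by simp
          rw [h3] at h1
          have h4 : 2 ∣ Nat.card (G ⧸ P.B) := (Nat.modEq_zero_iff_dvd).1 h1
          obtain ⟨k, hk⟩ := hind
          have h5 : Nat.card (G ⧸ P.B) = P.B.index := rfl
          omega
        obtain ⟨c, hc⟩ := h2
        obtain ⟨g, rfl⟩ := QuotientGroup.mk_surjective c
        have hall : ∀ y ∈ Q0, g⁻¹ * y * g ∈ U := by
          intro y hy
          apply htwo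
          · have h3 : y • (g : G ⧸ P.B) = (g : G ⧸ P.B) := hc ⟨y, hy⟩
            rw [smul_eq_iff] at h3
            rw [mul_assoc]; exact h3
          · obtain ⟨k, hk⟩ := Q0.isPGroup' ⟨y, hy⟩
            refine ⟨k, ?_⟩
            have hk' : y ^ 2 ^ k = 1 := congrArg Subtype.val hk
            have h1 : g⁻¹ * y * g = g⁻¹ * y * g⁻¹⁻¹ := by rw [inv_inv]
            rw [h1, conj_pow, hk']; group
        have hzQ : z ∈ Q0 := hQ0 (Subgroup.mem_zpowers z)
        have hzg : g⁻¹ * z * g ∈ U := hall z hzQ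
        have hgB : g ∈ P.B := hZf z hz hz1 g (hUB hzg)
        refine ⟨Q0, hzQ, fun y hy => hz.2.1 y ?_⟩
        have h3 := hUn g hgB _ (hall y hy)
        have e : g * (g⁻¹ * y * g) * g⁻¹ = y := by group
        rwa [e] at h3
      obtain ⟨Q, hzQ, hQc⟩ := hUP
      exact hstar Q z hord hzQ (fun g hg => hcm g (hQc _ hg))
    have hNbot : N = ⊥ := by
      rcases hNn.eq_bot_or_eq_top with h | h
      · exact h
      · exfalso
        rw [h, Subgroup.card_top] at hNo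
        have h1 : 2 ∣ Nat.card G := by rw [← hord]; exact orderOf_dvd_natCard z
        exact (Nat.not_even_iff_odd.2 hNo) (even_iff_two_dvd.2 h1)
    -- z is central
    apply hs
    apply hZf z hz hz1
    have h1 := hN s
    rw [hNbot, Subgroup.mem_bot] at h1
    have h2 : s⁻¹ * z * s = z := by
      have h3 : z * s * z⁻¹ = s := mul_inv_eq_one.1 h1
      have h4 : z * s = s * z := by rw [mul_inv_eq_iff_eq_mul] at h3; exact h3
      rw [mul_assoc, h4]; group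
    rw [h2]; exact hUB hz.1
  exact ⟨hf, mkSys hUB hUn hZn hnil htr htwo (fun z hz => hz.1) (fun z hz => hz.2.1) (fun z hz => hz.2.2) hZf hcard hBt⟩

end bn

end Cfsg.Agent.Lib.NBN13
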