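import Cfsg.Agent.Lib.NBN13

set_option autoImplicit false
set_option linter.unusedSectionVars false
set_option linter.unusedVariables false
set_option linter.style.haveILetI false

/-!
# Two-transitive groups with nilpotent normal transitive subgroups of point stabilisers, XIV (helper71)

A strongly split BN-pair of rank one in a simple group gives a rank one set-up.
-/

namespace Cfsg.Agent.Lib.NBN14

open MulAction Cfsg.Agent.Lib.NBN1 Cfsg.Agent.Lib.NBN2 Cfsg.Agent.Lib.NBN3 Cfsg.Agent.Lib.NBN6 Cfsg.Agent.Lib.NBN13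

universe u v

/-- the general reduction for a simple group -/
theorem red (hB : NBN4.Base.{u, v}) {G : Type u} {Ω : Type v} [Group G] [Finite G] [MulAction G Ω] [IsSimpleGroup G]
    [FaithfulSMul G Ω] {U Z : Ω → Subgroup G} (S : Sys U Z) :
    ∃ (a : Ω) (t : G), Cfsg.IsRankOneSetup G Ω a t (U a) := by
  obtain ⟨N, hN⟩ := NBN4.main hB _ G Ω U Z rfl S
  have hfaith : ∀ g : G, (∀ x : Ω, g • x = x) → g = 1 := by
    intro g h
    apply FaithfulSMul.eq_of_smul_eq_smul (M := G) (α := Ω)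
    intro x
    rw [h x, one_smul]
  have hpg : ∀ c, IsPGroup 2 (U c) := by
    intro c
    apply two_group_of (S.nil c)
    intro r hr hr2
    rw [eq_bot_iff]
    intro x hx
    rw [Subgroup.mem_bot]
    exact hfaith x fun b => fix_all S hN hr2 hx b
  have T : Two U Z := { toSys := S, faith := hfaith, pg := hpg }
  obtain ⟨a, -, -⟩ := S.ne
  obtain ⟨t, ht⟩ := NBN4.setup S (fun a b hab => NBN12.final T hN hab) a
  exact ⟨a, t, ht⟩

theorem bn (hB : NBN4.Base.{u, u}) {G : Type u} [Group G] [Finite G] [IsSimpleGroup G] (P : Cfsg.BNPair G)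
    (hrank : P.rank = 1) {U : Subgroup G} (hUB : U ≤ P.B)
    (hUn : ∀ b ∈ P.B, ∀ x ∈ U, b * x * b⁻¹ ∈ U) (hnil : Group.IsNilpotent U) (hsplit : U ⊔ (P.B ⊓ P.N) = P.B)
    (hind : Odd P.B.index) (hH : Odd (Nat.card ↥(P.B ⊓ P.N)))
    (hstar : ∀ (Q : Sylow 2 G) (u : G), orderOf u = 2 → u ∈ Q → (∀ g : G, g * u * g⁻¹ ∈ Q → g * u * g⁻¹ = u) →
      ∃ N : Subgroup G, N.Normal ∧ Odd (Nat.card N) ∧ ∀ g : G, (u * g * u⁻¹ * g⁻¹) ∈ N) :
    FaithfulSMul G (G ⧸ P.B) ∧ (∃ (a : G ⧸ P.B) (t : G) (Q : Subgroup G), Cfsg.IsRankOneSetup G (G ⧸ P.B) a t Q) ∧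
      (∃ x y : G, x ≠ 1 ∧ y ≠ 1 ∧ x ≠ y ∧ x * x = 1 ∧ y * y = 1 ∧ x * y = y * x) := by
  obtain ⟨hf, S⟩ := sys_of P hrank hUB hUn hnil hsplit hind hH hstar
  haveI := hf
  obtain ⟨a, t, ht⟩ := red hB S
  exact ⟨hf, ⟨a, t, _, ht⟩, NBN4.two_comm S⟩

end Cfsg.Agent.Lib.NBN14
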