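import Cfsg.Agent.Lib.NBN1

set_option autoImplicit false
set_option linter.unusedSectionVars false
set_option linter.unusedVariables false

/-!
# Two-transitive groups with nilpotent normal transitive subgroups of point stabilisers, II (helper71)
-/

namespace Cfsg.Agent.Lib.NBN2

open MulAction Cfsg.Agent.Lib.NBN1

section grp

variable {G : Type*} [Group G] [Finite G]

/-- the `p`-part of a subgroup (used for nilpotent subgroups) -/
noncomputable def pp (p : ℕ) [Fact p.Prime] (H : Subgroup G) : Subgroup G :=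
  ((default : Sylow p H) : Subgroup H).map H.subtype

theorem sylow_normal {N : Type*} [Group N] [Finite N] (h : Group.IsNilpotent N) (p : ℕ) [hp : Fact p.Prime]
    (P : Sylow p N) : (P : Subgroup N).Normal := by
  have h1 := (Group.isNilpotent_of_finite_tfae (G := N)).out 0 3
  exact h1.1 h p hp P

theorem mem_pp {p : ℕ} [hp : Fact p.Prime] {H : Subgroup G} (hH : Group.IsNilpotent H) {x : G} :
    x ∈ pp p H ↔ x ∈ H ∧ ∃ k : ℕ, x ^ p ^ k = 1 := by
  constructor
  · rintro ⟨y, hy, rfl⟩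
    refine ⟨y.2, ?_⟩
    obtain ⟨k, hk⟩ := (default : Sylow p H).isPGroup' ⟨y, hy⟩
    refine ⟨k, ?_⟩
    have := congrArg (fun t : (default : Sylow p H) => ((t : H) : G)) hk
    simpa using this
  · rintro ⟨hx, k, hk⟩
    have h1 : IsPGroup p (Subgroup.zpowers (⟨x, hx⟩ : H)) := by
      intro y
      obtain ⟨y, hy⟩ := y
      obtain ⟨m, rfl⟩ := Subgroup.mem_zpowers_iff.1 hy
      refine ⟨k, ?_⟩
      apply Subtype.ext
      apply Subtype.ext
      simp only [Subgroup.coe_pow, Subgroup.coe_zpow, Subgroup.coe_one]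
      rw [← zpow_natCast, ← zpow_mul, mul_comm, zpow_mul, zpow_natCast]
      push_cast
      rw [hk, one_zpow]
    obtain ⟨Q, hQ⟩ := h1.exists_le_sylow
    have h2 : Q = (default : Sylow p H) := by
      haveI := (default : Sylow p H).unique_of_normal (sylow_normal hH p _)
      exact Subsingleton.elim _ _
    rw [h2] at hQ
    exact ⟨⟨x, hx⟩, hQ (Subgroup.mem_zpowers _), rfl⟩

theorem pp_le {p : ℕ} [hp : Fact p.Prime] (H : Subgroup G) : pp p H ≤ H := by
  rintro x ⟨y, -, rfl⟩; exact y.2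

theorem isPGroup_pp {p : ℕ} [hp : Fact p.Prime] (H : Subgroup G) : IsPGroup p (pp p H) :=
  (default : Sylow p H).isPGroup'.map _

theorem nil_comm {p r : ℕ} [hp : Fact p.Prime] [hr : Fact r.Prime] (hpr : p ≠ r) {H : Subgroup G}
    (hH : Group.IsNilpotent H) {x y : G} (hx : x ∈ pp p H) (hy : y ∈ pp r H) : x * y = y * x := by
  obtain ⟨x, hx, rfl⟩ := hx
  obtain ⟨y, hy, rfl⟩ := hy
  have h1 := sylow_normal hH p default
  have h2 := sylow_normal hH r default
  have h3 : Disjoint ((default : Sylow p H) : Subgroup H) ((default : Sylow r H) : Subgroup H) :=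
    IsPGroup.disjoint_of_ne p r hpr _ _ (default : Sylow p H).isPGroup' (default : Sylow r H).isPGroup'
  have := Subgroup.commute_of_normal_of_disjoint _ _ h1 h2 h3 x y hx hy
  exact congrArg Subtype.val this.eq

/-- a `p`-element normalising a non-trivial `p`-group centralises a non-trivial element -/
theorem exists_comm {p : ℕ} [hp : Fact p.Prime] {P : Subgroup G} (hP : IsPGroup p P) (hne : P ≠ ⊥) {x : G}
    (hx : ∃ k : ℕ, x ^ p ^ k = 1) (hn : ∀ y ∈ P, x * y * x⁻¹ ∈ P) : ∃ y ∈ P, y ≠ 1 ∧ x * y = y * x := by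
  classical
  have hn' : x ∈ Subgroup.normalizer (P : Set G) := by
    have h1 : P.map (MulAut.conj x).toMonoidHom ≤ P := by
      rintro _ ⟨y, hy, rfl⟩
      exact hn y hy
    have h2 : P.map (MulAut.conj x).toMonoidHom = P := by
      apply Subgroup.eq_of_le_of_card_ge h1
      rw [Subgroup.card_map_of_injective (MulAut.conj x).injective]
    rw [Subgroup.mem_normalizer_iff]
    intro h
    constructor
    · exact hn h
    · intro hh
      rw [← h2] at hh
      obtain ⟨y, hy, hy2⟩ := hh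
      have : y = h := by
        have h3 : x * y * x⁻¹ = x * h * x⁻¹ := hy2
        simpa using h3
      rwa [← this]
  -- the `p`-group `P ⊔ ⟨x⟩`
  have hZ : IsPGroup p (Subgroup.zpowers x) := by
    obtain ⟨k, hk⟩ := hx
    intro y
    obtain ⟨y, hy⟩ := y
    obtain ⟨m, rfl⟩ := Subgroup.mem_zpowers_iff.1 hy
    refine ⟨k, ?_⟩
    apply Subtype.ext
    simp only [Subgroup.coe_pow, Subgroup.coe_one]
    rw [← zpow_natCast, ← zpow_mul, mul_comm, zpow_mul, zpow_natCast, hk, one_zpow]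
  let Q : Subgroup G := Subgroup.zpowers x
  have hQn : Q ≤ Subgroup.normalizer (P : Set G) := by
    rw [Subgroup.zpowers_le]; exact hn'
  letI act : MulAction Q P :=
    { smul := fun g y => ⟨(g : G) * y * (g : G)⁻¹, (Subgroup.mem_normalizer_iff.1 (hQn g.2) y).1 y.2⟩
      one_smul := fun y => Subtype.ext (by show ((1 : Q) : G) * y * ((1 : Q) : G)⁻¹ = y; simp)
      mul_smul := fun g h y => Subtype.ext (by
        show ((g * h : Q) : G) * y * ((g * h : Q) : G)⁻¹ = (g : G) * ((h : G) * y * (h : G)⁻¹) * (g : G)⁻¹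
        push_cast; group) }
  have h1 : p ∣ Nat.card P := by
    obtain ⟨n, hn⟩ := IsPGroup.iff_card.1 hP
    rcases Nat.eq_zero_or_pos n with h0 | h0
    · exfalso
      rw [h0, pow_zero] at hn
      exact hne (Subgroup.card_eq_one.1 hn)
    · rw [hn]; exact dvd_pow_self p h0.ne'
  have h2 : (1 : P) ∈ MulAction.fixedPoints Q P := by
    intro g
    exact Subtype.ext (by show (g : G) * ((1 : P) : G) * (g : G)⁻¹ = 1; simp)
  obtain ⟨b, hb, hb2⟩ := IsPGroup.exists_fixed_point_of_prime_dvd_card_of_fixed_point (G := Q) hZ P h1 h2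
  refine ⟨b, b.2, ?_, ?_⟩
  · intro h; exact hb2 (Subtype.ext h.symm)
  · have h3 := hb ⟨x, Subgroup.mem_zpowers x⟩
    have h4 : x * (b : G) * x⁻¹ = b := congrArg Subtype.val h3
    calc x * (b : G) = (x * b * x⁻¹) * x := by group
      _ = b * x := by rw [h4]

/-- a nilpotent group all of whose odd parts are trivial is a 2-group -/
theorem two_group_of {H : Subgroup G} (hH : Group.IsNilpotent H)
    (h : ∀ (r : ℕ) (hr : Fact r.Prime), r ≠ 2 → pp r H = ⊥) : IsPGroup 2 H := by
  have hpos : Nat.card H ≠ 0 := Nat.card_pos.ne'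
  have h1 : ∀ {d : ℕ}, d.Prime → d ∣ Nat.card H → d = 2 := by
    intro d hd hdvd
    by_contra h2
    haveI : Fact d.Prime := ⟨hd⟩
    obtain ⟨x, hx⟩ := exists_prime_orderOf_dvd_card' (G := H) d hdvd
    have h3 : (x : G) ∈ pp d H := (mem_pp hH).2 ⟨x.2, 1, by
      rw [pow_one, ← Subgroup.coe_pow, ← hx, pow_orderOf_eq_one]; rfl⟩
    rw [h d this h2, Subgroup.mem_bot] at h3
    have h4 : x = 1 := Subtype.ext h3
    rw [h4, orderOf_one] at hx
    exact hd.one_lt.ne hx
  have h2 := Nat.eq_prime_pow_of_unique_prime_dvd hpos h1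
  exact IsPGroup.of_card h2

end grp

variable {G Ω : Type*} [Group G] [MulAction G Ω] {U Z : Ω → Subgroup G} [Finite G]

section
variable (S : Sys U Z)
include S

theorem pp_conj {p : ℕ} [hp : Fact p.Prime] (g : G) (a : Ω) {x : G} (hx : x ∈ pp p (U a)) :
    g * x * g⁻¹ ∈ pp p (U (g • a)) := by
  rw [mem_pp (S.nil _)] at hx ⊢
  obtain ⟨h1, k, hk⟩ := hx
  refine ⟨S.conjU g a x h1, k, ?_⟩
  rw [conj_pow, hk]; group

theorem pp_conj_iff {p : ℕ} [hp : Fact p.Prime] (g : G) (a : Ω) {x : G} :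
    g * x * g⁻¹ ∈ pp p (U (g • a)) ↔ x ∈ pp p (U a) := by
  refine ⟨fun h => ?_, pp_conj S g a⟩
  have := pp_conj S g⁻¹ (g • a) h
  rw [inv_smul_smul] at this
  convert this using 1
  group

/-- if distinct `p`-parts are disjoint then `p`-parts are semiregular -/
theorem semireg {p : ℕ} [hp : Fact p.Prime] (h0 : ∀ a b : Ω, a ≠ b → pp p (U a) ⊓ pp p (U b) = ⊥) {a b : Ω}
    (hab : a ≠ b) {x : G} (hx : x ∈ pp p (U a)) (hxb : x • b = b) : x = 1 := by
  by_contra hx1
  have dis : ∀ c d : Ω, c ≠ d → ∀ y : G, y ∈ pp p (U c) → y ∈ pp p (U d) → y = 1 := by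
    intro c d hcd y h1 h2
    have : y ∈ pp p (U c) ⊓ pp p (U d) := ⟨h1, h2⟩
    rw [h0 c d hcd] at this
    exact Subgroup.mem_bot.1 this
  set P : Subgroup G := pp p (U a) ⊓ stabilizer G b with hP
  have hPne : P ≠ ⊥ := by
    intro h
    have : x ∈ P := ⟨hx, mem_stabilizer_iff.2 hxb⟩
    rw [h, Subgroup.mem_bot] at this
    exact hx1 this
  obtain ⟨z, hz, hz1⟩ := S.Zne a
  obtain ⟨z', hz', hz1'⟩ := S.Zne b
  obtain ⟨i, d, hi, hi1, hizi, hia, hib, hda, hdb, hic⟩ := S.link hab hz hz1 hz' hz1'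
  obtain ⟨g, hga, hgb⟩ := S.tr2 hab hda
  -- `x'`
  set x' := g * x * g⁻¹ with hx'
  have hx'd : x' ∈ pp p (U d) := by rw [← hga]; exact pp_conj S g a hx
  have hx'a : x' • a = a := by
    rw [hx', mul_smul, mul_smul, ← hgb, inv_smul_smul, hxb]
  have hx'1 : x' ≠ 1 := by
    intro h; apply hx1
    have : x = g⁻¹ * x' * g := by rw [hx']; group
    rw [this, h]; group
  have hx'i : x' * i = i * x' := (S.Zcen d i hi x' (pp_le _ hx'd)).symm
  have hx'b : x' • b = b := by
    rw [← hia, ← mul_smul, hx'i, mul_smul, hx'a]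
  have hx'P : ∀ y ∈ P, x' * y * x'⁻¹ ∈ P := by
    rintro y ⟨hy1, hy2⟩
    refine ⟨?_, ?_⟩
    · have := pp_conj S x' a hy1
      rwa [hx'a] at this
    · have hy2 : y • b = b := hy2
      show (x' * y * x'⁻¹) • b = b
      have h5 : x'⁻¹ • b = b := by rw [inv_smul_eq_iff, hx'b]
      rw [mul_smul, mul_smul, h5, hy2, hx'b]
  obtain ⟨x1, hx1P, hx11, hx1c⟩ := exists_comm ((isPGroup_pp (U a)).to_le inf_le_left) hPne
    ((mem_pp (S.nil d)).1 hx'd).2 hx'P
  obtain ⟨hx1a, hx1b⟩ := hx1P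
  replace hx1b : x1 • b = b := hx1b
  replace hx1a : x1 ∈ pp p (U a) := hx1a
  -- points at which `x'` centralises an element of `Z`
  have hpt : ∀ (c : Ω) (w : G), w ∈ Z c → w ≠ 1 → x' * w = w * x' → c = d := by
    intro c w hw hw1 hcw
    by_contra hcd
    obtain ⟨j, e, -, -, -, hjd, -, -, -, hjc⟩ := S.link (Ne.symm hcd) hi hi1 hw hw1
    have h5 : x' * j = j * x' := hjc x' hx'i hcw
    have h6 := pp_conj S j d hx'd
    rw [hjd, ← h5, mul_inv_cancel_right] at h6
    exact hx'1 (dis c d hcd x' h6 hx'd)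
  have hx1d : x1 • d = d := by
    apply hpt (x1 • d) (x1 * i * x1⁻¹) (S.conjZ x1 d i hi)
    · intro h; apply hi1
      have : i = x1⁻¹ * (x1 * i * x1⁻¹) * x1 := by group
      rw [this, h]; group
    · calc x' * (x1 * i * x1⁻¹) = (x' * x1) * i * x1⁻¹ := by group
        _ = x1 * (x' * i) * x1⁻¹ := by rw [hx1c]; group
        _ = x1 * i * (x' * x1⁻¹) := by rw [hx'i]; group
        _ = x1 * i * (x1⁻¹ * x') := by
            congr 1
            calc x' * x1⁻¹ = x1⁻¹ * (x1 * x') * x1⁻¹ := by group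
              _ = x1⁻¹ * (x' * x1) * x1⁻¹ := by rw [hx1c]
              _ = _ := by group
        _ = _ := by group
  have hx1a' : x1 • a = a := S.fix a x1 (pp_le _ hx1a)
  have hi' : x1 * i * x1⁻¹ ∈ Z d := by
    have := S.conjZ x1 d i hi
    rwa [hx1d] at this
  have h7 : (x1 * i * x1⁻¹) • a = b := by
    have h8 : x1⁻¹ • a = a := by rw [inv_smul_eq_iff, hx1a']
    rw [mul_smul, mul_smul, h8, hia, hx1b]
  have h9 : i * (x1 * i * x1⁻¹) = 1 := by
    by_contra h10
    have := S.Zfix d _ ((Z d).mul_mem hi hi') h10 a (by rw [mul_smul, h7, hib])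
    exact hda this.symm
  have h11 : x1 * i * x1⁻¹ = i := by
    have h12 := S.Zsq d i hi
    have : i * (x1 * i * x1⁻¹) = i * i := by rw [h9, h12]
    exact mul_left_cancel this
  have h12 : x1 ∈ pp p (U b) := by
    have := pp_conj S i a hx1a
    rw [hia] at this
    convert this using 1
    calc x1 = i * (i⁻¹ * x1 * i) * i⁻¹ := by group
      _ = i * x1 * i⁻¹ := by
        congr 2
        have h13 : x1 * i = i * x1 := by
          calc x1 * i = (x1 * i * x1⁻¹) * x1 := by group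
            _ = i * x1 := by rw [h11]
        calc i⁻¹ * x1 * i = i⁻¹ * (x1 * i) := by group
          _ = x1 := by rw [h13]; group
  exact hx11 (dis a b hab x1 hx1a h12)

end

end Cfsg.Agent.Lib.NBN2
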