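import Cfsg.Agent.Lib.NBN2
import Cfsg.Prelude.Def_LieRecognition

set_option autoImplicit false
set_option linter.unusedSectionVars false
set_option linter.unusedVariables false
set_option linter.style.haveILetI false

/-!
# Two-transitive groups with nilpotent normal transitive subgroups of point stabilisers, III (helper71)

The number of points is one more than a power of two.
-/

namespace Cfsg.Agent.Lib.NBN3

open MulAction Cfsg.Agent.Lib.NBN1 Cfsg.Agent.Lib.NBN2

universe u v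

section
variable {G : Type u} {Ω : Type v} [Group G] [MulAction G Ω] {U Z : Ω → Subgroup G} [Finite G]

theorem finΩ (S : Sys U Z) : Finite Ω := by
  obtain ⟨a, -, -⟩ := S.ne
  exact Finite.of_surjective (fun g : G => g • a) (fun x => S.tr1 a x)

theorem card_succ [Finite Ω] (a : Ω) (s : Set Ω) (hs : s = {x | x ≠ a}) : Nat.card Ω = s.ncard + 1 := by
  classical
  haveI := Fintype.ofFinite Ω
  have h1 : s = (({a} : Set Ω))ᶜ := by rw [hs]; rfl
  have h2 := Set.ncard_add_ncard_compl ({a} : Set Ω)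
  rw [Set.ncard_singleton] at h2
  rw [h1]; omega

/-- if `U a` is a 2-group then `|Ω| = 2^N + 1` -/
theorem card_of_two (S : Sys U Z) {a : Ω} (h : IsPGroup 2 (U a)) : ∃ N : ℕ, Nat.card Ω = 2 ^ N + 1 := by
  haveI := finΩ S
  obtain ⟨b, hb, -⟩ := S.third a a
  have h1 : orbit (U a) b = {x | x ≠ a} := by
    ext x
    constructor
    · rintro ⟨u, rfl⟩ hx
      have hx' : (u : G) • b = (u : G) • a := by
        rw [S.fix a u u.2]; exact hx
      exact hb (smul_left_cancel _ hx')
    · intro hx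
      obtain ⟨u, hu, hux⟩ := S.trans a b x hb hx
      exact ⟨⟨u, hu⟩, hux⟩
  have h2 := card_succ a _ h1
  have h3 : (orbit (U a) b).ncard ∣ Nat.card (U a) := by
    rw [← MulAction.index_stabilizer (U a) b]
    exact Subgroup.index_dvd_card _
  obtain ⟨n, hn⟩ := IsPGroup.iff_card.1 h
  rw [hn] at h3
  obtain ⟨N, -, hN⟩ := (Nat.dvd_prime_pow Nat.prime_two).1 h3
  exact ⟨N, by rw [h2, hN]⟩

/-- an `r`-group fixing a point of a set of size `2^M+1` fixes another one -/
theorem exists_fix [Finite Ω] {r : ℕ} [hr : Fact r.Prime] (hr2 : r ≠ 2) {M : ℕ} (hc : Nat.card Ω = 2 ^ M + 1)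
    {B : Subgroup G} (hB : IsPGroup r B) {a : Ω} (ha : ∀ g ∈ B, g • a = a) : ∃ b, b ≠ a ∧ ∀ g ∈ B, g • b = b := by
  by_contra hcon
  push Not at hcon
  have h1 := hB.card_modEq_card_fixedPoints Ω
  have h2 : fixedPoints B Ω = {a} := by
    ext x
    constructor
    · intro hx
      by_contra hxa
      obtain ⟨g, hg, hg2⟩ := hcon x hxa
      exact hg2 (hx ⟨g, hg⟩)
    · intro hx
      rw [Set.mem_singleton_iff.1 hx]
      intro g
      exact ha g g.2
  rw [h2, hc] at h1
  have h3 : Nat.card (({a} : Set Ω)) = 1 := by simp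
  rw [h3] at h1
  have h4 : r ∣ 2 ^ M := by
    have := (Nat.modEq_iff_dvd' (Nat.le_add_left 1 (2 ^ M))).1 h1.symm
    simpa using this
  exact hr2 ((Nat.prime_dvd_prime_iff_eq hr.out Nat.prime_two).1 (hr.out.dvd_of_dvd_pow h4))

/-- odd parts act trivially when `|Ω| = 2^M + 1` -/
theorem fix_all (S : Sys U Z) {M : ℕ} (hc : Nat.card Ω = 2 ^ M + 1) {r : ℕ} [hr : Fact r.Prime] (hr2 : r ≠ 2) {a : Ω}
    {x : G} (hx : x ∈ pp r (U a)) (b : Ω) : x • b = b := by
  haveI := finΩ S
  obtain ⟨b0, hb0, hfix⟩ := exists_fix (G := G) hr2 hc (isPGroup_pp (U a)) (a := a)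
    (fun g hg => S.fix a g (pp_le _ hg))
  by_cases hba : b = a
  · rw [hba]; exact S.fix a x (pp_le _ hx)
  · obtain ⟨u, hu, hub⟩ := S.trans a b0 b hb0 hba
    have h1 : u⁻¹ * x * u ∈ pp r (U a) := by
      have := pp_conj S u⁻¹ a hx
      rw [inv_inv] at this
      have h2 : u⁻¹ • a = a := by rw [inv_smul_eq_iff, S.fix a u hu]
      rwa [h2] at this
    have h2 := hfix _ h1
    rw [mul_smul, mul_smul, hub, inv_smul_eq_iff, hub] at h2
    exact h2

end

/-! ## the quotient by the kernel -/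

section quot
variable (G : Type u) (Ω : Type v) [Group G] [MulAction G Ω]

/-- the kernel of the action -/
def K : Subgroup G := (toPermHom G Ω).ker

instance : (K G Ω).Normal := by unfold K; infer_instance

/-- the action of the quotient -/
@[instance_reducible] noncomputable def qact : MulAction (G ⧸ K G Ω) Ω := MulAction.compHom Ω (QuotientGroup.kerLift (toPermHom G Ω))

variable {G Ω}

theorem mem_K {g : G} : g ∈ K G Ω ↔ ∀ x : Ω, g • x = x := by
  unfold K
  rw [MonoidHom.mem_ker]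
  constructor
  · intro h x
    have := congrArg (fun e : Equiv.Perm Ω => e x) h
    exact this
  · intro h
    ext x
    exact h x

theorem qact_smul (g : G) (x : Ω) :
    letI := qact G Ω
    ((QuotientGroup.mk g : G ⧸ K G Ω)) • x = g • x := rfl

end quot

section quot2
variable {G : Type u} {Ω : Type v} [Group G] [MulAction G Ω] {U Z : Ω → Subgroup G} [Finite G]

theorem ZK (S : Sys U Z) {c : Ω} {z : G} (hz : z ∈ Z c) (hK : z ∈ K G Ω) : z = 1 := by
  by_contra h
  obtain ⟨x, hx, -⟩ := S.third c c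
  exact hx (S.Zfix c z hz h x (mem_K.1 hK x))

theorem quot_sys (S : Sys U Z) :
    letI := qact G Ω
    Sys (fun c => (U c).map (QuotientGroup.mk' (K G Ω))) (fun c => (Z c).map (QuotientGroup.mk' (K G Ω))) := by
  letI := qact G Ω
  have sm : ∀ (g : G) (x : Ω), ((QuotientGroup.mk' (K G Ω)) g) • x = g • x := fun g x => rfl
  refine
    { fix := ?_, conjU := ?_, conjZ := ?_, nil := ?_, trans := ?_, two := ?_, ZU := ?_, Zcen := ?_, Zsq := ?_, Zfix := ?_,
      card := ?_, ne := S.ne }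
  · rintro c _ ⟨u, hu, rfl⟩
    rw [sm]; exact S.fix c u hu
  · rintro g c _ ⟨u, hu, rfl⟩
    obtain ⟨g, rfl⟩ := QuotientGroup.mk'_surjective (K G Ω) g
    rw [sm]
    exact ⟨g * u * g⁻¹, S.conjU g c u hu, by simp⟩
  · rintro g c _ ⟨u, hu, rfl⟩
    obtain ⟨g, rfl⟩ := QuotientGroup.mk'_surjective (K G Ω) g
    rw [sm]
    exact ⟨g * u * g⁻¹, S.conjZ g c u hu, by simp⟩
  · intro c
    haveI := S.nil c
    exact Group.nilpotent_of_surjective ((QuotientGroup.mk' (K G Ω)).subgroupMap (U c))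
      (MonoidHom.subgroupMap_surjective _ _)
  · intro c x y hx hy
    obtain ⟨u, hu, h⟩ := S.trans c x y hx hy
    exact ⟨_, ⟨u, hu, rfl⟩, by rw [sm]; exact h⟩
  · rintro c g hg ⟨k, hk⟩
    obtain ⟨g, rfl⟩ := QuotientGroup.mk'_surjective (K G Ω) g
    rw [sm] at hg
    obtain ⟨s, m, hm, hsm⟩ := Nat.exists_eq_two_pow_mul_odd (orderOf_pos g).ne'
    have h1 : m.Coprime (orderOf ((QuotientGroup.mk' (K G Ω)) g)) := by
      have h2 : orderOf ((QuotientGroup.mk' (K G Ω)) g) ∣ 2 ^ k := orderOf_dvd_of_pow_eq_one hk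
      exact Nat.Coprime.coprime_dvd_right h2 (Nat.Coprime.pow_right k (Nat.coprime_two_right.2 hm))
    obtain ⟨m', hm'⟩ := exists_pow_eq_self_of_coprime h1
    refine ⟨(g ^ m) ^ m', ?_, ?_⟩
    · apply S.two c
      · have h3 : (g ^ m) ^ m' ∈ stabilizer G c :=
          Subgroup.pow_mem _ (Subgroup.pow_mem _ (mem_stabilizer_iff.2 hg) _) _
        exact mem_stabilizer_iff.1 h3
      · refine ⟨s, ?_⟩
        rw [← pow_mul, ← pow_mul, mul_comm m' , ← mul_assoc, mul_comm m, ← hsm, pow_mul, pow_orderOf_eq_one, one_pow]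
    · rw [map_pow, map_pow]; exact hm'
  · rintro c _ ⟨z, hz, rfl⟩
    exact ⟨z, S.ZU c hz, rfl⟩
  · rintro c _ ⟨z, hz, rfl⟩ _ ⟨u, hu, rfl⟩
    rw [← map_mul, ← map_mul, S.Zcen c z hz u hu]
  · rintro c _ ⟨z, hz, rfl⟩
    rw [← map_mul, S.Zsq c z hz, map_one]
  · rintro c _ ⟨z, hz, rfl⟩ h1 x hx
    rw [sm] at hx
    apply S.Zfix c z hz _ x hx
    rintro rfl
    exact h1 (map_one _)
  · intro c
    have h1 : Nat.card ((Z c).map (QuotientGroup.mk' (K G Ω))) = Nat.card (Z c) := by
      have h2 : Function.Injective ((QuotientGroup.mk' (K G Ω)).subgroupMap (Z c)) := by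
        rw [injective_iff_map_eq_one]
        intro z hz
        have h3 : (QuotientGroup.mk' (K G Ω)) (z : G) = 1 := congrArg Subtype.val hz
        rw [← MonoidHom.mem_ker, QuotientGroup.ker_mk'] at h3
        exact Subtype.ext (ZK S z.2 h3)
      exact (Nat.card_congr (Equiv.ofBijective _ ⟨h2, MonoidHom.subgroupMap_surjective _ _⟩)).symm
    rw [h1]; exact S.card c

end quot2

end Cfsg.Agent.Lib.NBN3
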