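import Cfsg.Agent.Lib.NBN3

set_option autoImplicit false
set_option linter.unusedSectionVars false
set_option linter.unusedVariables false
set_option linter.style.haveILetI false

/-!
# Two-transitive groups with nilpotent normal transitive subgroups of point stabilisers, IV (helper71)

The local subgroup attached to the intersection of two `p`-parts, and the theorem `|Ω| = 2^N + 1`.
-/

namespace Cfsg.Agent.Lib.NBN4

open MulAction Cfsg.Agent.Lib.NBN1 Cfsg.Agent.Lib.NBN2 Cfsg.Agent.Lib.NBN3

universe u v

theorem normalizer_of {G : Type*} [Group G] [Finite G] {P : Subgroup G} {g : G} (h : ∀ x ∈ P, g * x * g⁻¹ ∈ P) :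
    g ∈ Subgroup.normalizer (P : Set G) := by
  have h1 : P.map (MulAut.conj g).toMonoidHom ≤ P := by
    rintro _ ⟨y, hy, rfl⟩
    exact h y hy
  have h2 : P.map (MulAut.conj g).toMonoidHom = P := by
    apply Subgroup.eq_of_le_of_card_ge h1
    rw [Subgroup.card_map_of_injective (MulAut.conj g).injective]
  rw [Subgroup.mem_normalizer_iff]
  intro x
  constructor
  · exact h x
  · intro hh
    have hh : g * x * g⁻¹ ∈ P := hh
    rw [← h2] at hh
    obtain ⟨y, hy, hy2⟩ := hh
    have : y = x := by
      have h3 : g * y * g⁻¹ = g * x * g⁻¹ := hy2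
      simpa using h3
    rw [← this]; exact hy

section
variable {G : Type u} {Ω : Type v} [Group G] [MulAction G Ω] {U Z : Ω → Subgroup G} [Finite G]

/-- the points whose `p`-part contains `P` -/
def ZZ (U : Ω → Subgroup G) (p : ℕ) [Fact p.Prime] (P : Subgroup G) : Set Ω := {c | P ≤ pp p (U c)}

variable (S : Sys U Z) {p : ℕ} [hp : Fact p.Prime]
include S

theorem inter_conj (g : G) (a b : Ω) :
    (pp p (U a) ⊓ pp p (U b)).map (MulAut.conj g).toMonoidHom = pp p (U (g • a)) ⊓ pp p (U (g • b)) := by
  ext x
  constructor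
  · rintro ⟨y, ⟨h1, h2⟩, rfl⟩
    exact ⟨pp_conj S g a h1, pp_conj S g b h2⟩
  · rintro ⟨h1, h2⟩
    refine ⟨g⁻¹ * x * g, ⟨?_, ?_⟩, by show g * (g⁻¹ * x * g) * g⁻¹ = x; group⟩
    · have := pp_conj S g⁻¹ (g • a) h1
      rwa [inv_smul_smul, inv_inv] at this
    · have := pp_conj S g⁻¹ (g • b) h2
      rwa [inv_smul_smul, inv_inv] at this

theorem inter_card {a b c d : Ω} (hab : a ≠ b) (hcd : c ≠ d) :
    Nat.card ↥(pp p (U a) ⊓ pp p (U b)) = Nat.card ↥(pp p (U c) ⊓ pp p (U d)) := by
  obtain ⟨g, rfl, rfl⟩ := S.tr2 hab hcd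
  rw [← inter_conj S, Subgroup.card_map_of_injective (MulAut.conj g).injective]

variable {a b : Ω} (hab : a ≠ b) {P : Subgroup G} (hP : P = pp p (U a) ⊓ pp p (U b))
include hab hP

theorem P_eq {c d : Ω} (hc : c ∈ ZZ U p P) (hd : d ∈ ZZ U p P) (hcd : c ≠ d) : P = pp p (U c) ⊓ pp p (U d) := by
  apply Subgroup.eq_of_le_of_card_ge (le_inf hc hd)
  rw [hP, inter_card S hab hcd]

theorem a_mem : a ∈ ZZ U p P := by show P ≤ _; rw [hP]; exact inf_le_left

theorem b_mem : b ∈ ZZ U p P := by show P ≤ _; rw [hP]; exact inf_le_right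

theorem mem_N {g : G} : g ∈ Subgroup.normalizer (P : Set G) ↔ ∀ x : G, x ∈ P ↔ g * x * g⁻¹ ∈ P := by
  rw [Subgroup.mem_normalizer_iff]

theorem N_smul {g : G} (hg : g ∈ Subgroup.normalizer (P : Set G)) {c : Ω} (hc : c ∈ ZZ U p P) : g • c ∈ ZZ U p P := by
  intro x hx
  have h1 : g⁻¹ * x * g ∈ P := by
    rw [(mem_N S hab hP).1 hg]
    have h2 : g * (g⁻¹ * x * g) * g⁻¹ = x := by group
    rw [h2]; exact hx
  have := pp_conj S g c (hc h1)
  have h2 : g * (g⁻¹ * x * g) * g⁻¹ = x := by group
  rwa [h2] at this

/-- the action of the normaliser -/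
@[instance_reducible] def nact : MulAction (Subgroup.normalizer (P : Set G)) (ZZ U p P) where
  smul g c := ⟨(g : G) • (c : Ω), N_smul S hab hP g.2 c.2⟩
  one_smul c := Subtype.ext (one_smul G (c : Ω))
  mul_smul g h c := Subtype.ext (mul_smul (g : G) (h : G) (c : Ω))

theorem Z_le_N {c : Ω} (hc : c ∈ ZZ U p P) : Z c ≤ Subgroup.normalizer (P : Set G) := by
  intro z hz
  apply normalizer_of
  intro x hx
  rw [S.Zcen c z hz x (pp_le _ (hc hx)), mul_inv_cancel_right]; exact hx

/-- the system of the normaliser -/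
theorem N_sys : letI := nact S hab hP
    Sys (G := Subgroup.normalizer (P : Set G)) (Ω := ZZ U p P)
      (fun c => (U c).subgroupOf (Subgroup.normalizer (P : Set G)))
      (fun c => (Z c).subgroupOf (Subgroup.normalizer (P : Set G))) := by
  letI := nact S hab hP
  have sm : ∀ (g : Subgroup.normalizer (P : Set G)) (x : ZZ U p P), ((g • x : ZZ U p P) : Ω) = (g : G) • (x : Ω) :=
    fun g x => rfl
  refine
    { fix := ?_, conjU := ?_, conjZ := ?_, nil := ?_, trans := ?_, two := ?_, ZU := ?_, Zcen := ?_, Zsq := ?_, Zfix := ?_,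
      card := ?_, ne := ⟨⟨a, a_mem S hab hP⟩, ⟨b, b_mem S hab hP⟩, fun h => hab (congrArg Subtype.val h)⟩ }
  · intro c u hu
    apply Subtype.ext
    rw [sm]; exact S.fix c u hu
  · intro g c u hu
    exact S.conjU g c u hu
  · intro g c u hu
    exact S.conjZ g c u hu
  · intro c
    haveI := S.nil c
    let f : ((U (c : Ω)).subgroupOf (Subgroup.normalizer (P : Set G))) →* U (c : Ω) :=
      { toFun := fun x => ⟨((x : Subgroup.normalizer (P : Set G)) : G), x.2⟩
        map_one' := rfl
        map_mul' := fun x y => rfl }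
    have hf : Function.Injective f := by
      intro x y hxy
      have : (((x : Subgroup.normalizer (P : Set G)) : G)) = ((y : Subgroup.normalizer (P : Set G)) : G) :=
        congrArg (fun t : U (c : Ω) => (t : G)) hxy
      exact Subtype.ext (Subtype.ext this)
    exact Group.nilpotent_of_mulEquiv (MonoidHom.ofInjective hf).symm
  · rintro ⟨c, hc⟩ ⟨x, hx⟩ ⟨y, hy⟩ hxc hyc
    have hxc' : x ≠ c := fun h => hxc (Subtype.ext h)
    have hyc' : y ≠ c := fun h => hyc (Subtype.ext h)
    obtain ⟨u, hu, hux⟩ := S.trans c x y hxc' hyc'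
    have hN : u ∈ Subgroup.normalizer (P : Set G) := by
      apply normalizer_of
      intro w hw
      have h1 := P_eq S hab hP hc hx hxc'.symm
      have h2 := P_eq S hab hP hc hy hyc'.symm
      rw [h1] at hw
      rw [h2]
      refine ⟨?_, ?_⟩
      · have := pp_conj S u c hw.1
        rwa [S.fix c u hu] at this
      · have := pp_conj S u x hw.2
        rwa [hux] at this
    exact ⟨⟨u, hN⟩, hu, Subtype.ext hux⟩
  · rintro c g hg ⟨k, hk⟩
    refine S.two c g (congrArg Subtype.val hg) ⟨k, ?_⟩
    exact congrArg Subtype.val hk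
  · intro c z hz
    exact S.ZU c hz
  · intro c z hz u hu
    exact Subtype.ext (S.Zcen c z hz u hu)
  · intro c z hz
    exact Subtype.ext (S.Zsq c z hz)
  · intro c z hz h1 x hx
    exact Subtype.ext (S.Zfix c z hz (fun h => h1 (Subtype.ext h)) x (congrArg Subtype.val hx))
  · intro c
    rw [Nat.card_congr (Subgroup.subgroupOfEquivOfLe (Z_le_N S hab hP c.2)).toEquiv]
    exact S.card c

/-- from `|ZZ| = 2^M + 1`: the parts of odd order in the normaliser act trivially on `ZZ` -/
theorem N_fix {M : ℕ} (hM : Nat.card (ZZ U p P) = 2 ^ M + 1) {r : ℕ} [hr : Fact r.Prime] (hr2 : r ≠ 2) {c : Ω}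
    (hc : c ∈ ZZ U p P) {x : G} (hx : x ∈ pp r (U c)) (hxN : x ∈ Subgroup.normalizer (P : Set G)) {d : Ω}
    (hd : d ∈ ZZ U p P) : x • d = d := by
  letI := nact S hab hP
  have T := N_sys S hab hP
  have h1 := fix_all T hM hr2 (a := (⟨c, hc⟩ : ZZ U p P)) (x := ⟨x, hxN⟩) (by
    rw [mem_pp (T.nil _)]
    obtain ⟨h1, k, hk⟩ := (mem_pp (S.nil c)).1 hx
    exact ⟨h1, k, Subtype.ext hk⟩) ⟨d, hd⟩
  exact congrArg Subtype.val h1

end

/-- the base case -/
def Base : Prop := ∀ (G : Type u) (Ω : Type v) [Group G] [Finite G] [MulAction G Ω] [FaithfulSMul G Ω] (a : Ω) (t : G)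
  (Q : Subgroup G), Cfsg.IsRankOneSetup G Ω a t Q →
    (∃ x y : G, x ≠ 1 ∧ y ≠ 1 ∧ x ≠ y ∧ x * x = 1 ∧ y * y = 1 ∧ x * y = y * x) → IsPGroup 2 Q

section
variable {G : Type u} {Ω : Type v} [Group G] [MulAction G Ω] {U Z : Ω → Subgroup G} [Finite G]

theorem two_comm (S : Sys U Z) : ∃ x y : G, x ≠ 1 ∧ y ≠ 1 ∧ x ≠ y ∧ x * x = 1 ∧ y * y = 1 ∧ x * y = y * x := by
  obtain ⟨a, -, -⟩ := S.ne
  obtain ⟨x, hx, hx1⟩ := S.Zne a
  by_contra hcon
  push Not at hcon
  have h1 : (Z a : Set G) ⊆ {1, x} := by
    intro y hy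
    by_contra hy2
    simp only [Set.mem_insert_iff, Set.mem_singleton_iff, not_or] at hy2
    exact hcon x y hx1 hy2.1 (fun h => hy2.2 h.symm) (S.Zsq a x hx) (S.Zsq a y hy) (S.Zcen a x hx y (S.ZU a hy))
  have h2 := Set.ncard_le_ncard h1 (Set.toFinite _)
  have h3 : (({1, x} : Set G)).ncard ≤ 2 := Set.ncard_insert_le _ _ |>.trans (by rw [Set.ncard_singleton])
  have h4 := S.card a
  have h5 : Nat.card (Z a) = (Z a : Set G).ncard := rfl
  omega

theorem setup (S : Sys U Z) (h : ∀ a b : Ω, a ≠ b → U a ⊓ stabilizer G b = ⊥) (a : Ω) :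
    ∃ t : G, Cfsg.IsRankOneSetup G Ω a t (U a) := by
  obtain ⟨b, hb, -⟩ := S.third a a
  obtain ⟨z, hz, hz1⟩ := S.Zne a
  obtain ⟨z', hz', hz1'⟩ := S.Zne b
  obtain ⟨i, d, hi, hi1, hizi, hia, hib, hda, hdb, hic⟩ := S.link hb.symm hz hz1 hz' hz1'
  refine ⟨i, ?_, S.Zsq d i hi, hi1, ?_, ?_, ?_, ?_, ?_, ?_, ?_⟩
  · rw [MulAction.is_two_pretransitive_iff]
    intro x y x' y' h1 h2
    exact S.tr2 h1 h2
  · intro h1
    have : i • a = a := h1
    rw [hia] at this
    exact hb this
  · intro u hu
    exact S.fix a u hu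
  · intro g hg x hx
    have := S.conjU g a x hx
    have h1 : g • a = a := hg
    rwa [h1] at this
  · rw [hia]; exact h a b hb.symm
  · rw [hia]
    apply le_antisymm
    · exact sup_le (fun u hu => S.fix a u hu) inf_le_left
    · intro g hg
      have hg : g • a = a := hg
      have h1 : g • b ≠ a := by
        intro h1; rw [← hg] at h1
        exact hb (smul_left_cancel g h1)
      obtain ⟨u, hu, hub⟩ := S.trans a b (g • b) hb h1
      have h2 : g = u * (u⁻¹ * g) := by group
      rw [h2]
      refine Subgroup.mul_mem_sup hu ⟨?_, ?_⟩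
      · show (u⁻¹ * g) • a = a
        rw [mul_smul, hg, inv_smul_eq_iff, S.fix a u hu]
      · show (u⁻¹ * g) • b = b
        rw [mul_smul, inv_smul_eq_iff, hub]
  · have h1 : 2 ∣ Nat.card (U a) := by
      have h2 : orderOf z ∣ Nat.card (U a) := by
        have := orderOf_dvd_natCard (⟨z, S.ZU a hz⟩ : U a)
        rwa [Subgroup.orderOf_mk] at this
      have h3 : orderOf z = 2 := by
        apply orderOf_eq_prime
        · rw [pow_two]; exact S.Zsq a z hz
        · exact hz1
      rwa [h3] at h2
    exact even_iff_two_dvd.2 h1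
  · rw [hia]
    by_contra hodd
    rw [Nat.not_odd_iff_even, even_iff_two_dvd] at hodd
    haveI : Fact (Nat.Prime 2) := ⟨Nat.prime_two⟩
    obtain ⟨x, hx⟩ := exists_prime_orderOf_dvd_card' (G := ↥(stabilizer G a ⊓ stabilizer G b)) 2 hodd
    have h1 : (x : G) ^ 2 = 1 := by
      rw [← Subgroup.coe_pow, ← hx, pow_orderOf_eq_one]; rfl
    have h2 : (x : G) ∈ U a := S.two a x x.2.1 ⟨1, by rw [pow_one]; exact h1⟩
    have h3 : (x : G) ∈ U a ⊓ stabilizer G b := ⟨h2, x.2.2⟩
    rw [h a b hb.symm, Subgroup.mem_bot] at h3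
    have h4 : x = 1 := Subtype.ext h3
    rw [h4, orderOf_one] at hx
    omega

end

/-- **the main counting theorem** -/
theorem main (hB : Base.{u, v}) : ∀ (n : ℕ) (G : Type u) (Ω : Type v) [Group G] [Finite G] [MulAction G Ω]
    (U Z : Ω → Subgroup G), Nat.card G = n → Sys U Z → ∃ N : ℕ, Nat.card Ω = 2 ^ N + 1 := by
  intro n
  induction n using Nat.strong_induction_on with
  | _ n ih =>
    intro G Ω _ _ _ U Z hn S
    by_cases hK : K G Ω = ⊥
    swap
    · -- pass to the quotient
      letI := qact G Ω
      refine ih (Nat.card (G ⧸ K G Ω)) ?_ (G ⧸ K G Ω) Ω _ _ rfl (quot_sys S)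
      rw [← hn, Subgroup.card_eq_card_quotient_mul_card_subgroup (K G Ω)]
      have h1 : 1 < Nat.card (K G Ω) := by
        by_contra h
        have h2 : Nat.card (K G Ω) = 1 := by
          have := Nat.card_pos (α := K G Ω); omega
        exact hK (Subgroup.card_eq_one.1 h2)
      have h2 : 0 < Nat.card (G ⧸ K G Ω) := Nat.card_pos
      nlinarith
    haveI hfaith : FaithfulSMul G Ω := by
      constructor
      intro g g' h
      have h1 : g⁻¹ * g' ∈ K G Ω := by
        rw [mem_K]; intro x
        rw [mul_smul, ← h x, inv_smul_smul]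
      rw [hK, Subgroup.mem_bot] at h1
      exact inv_mul_eq_one.1 h1
    by_cases hX : ∀ a b : Ω, a ≠ b → U a ⊓ stabilizer G b = ⊥
    · obtain ⟨a, -, -⟩ := S.ne
      obtain ⟨t, ht⟩ := setup S hX a
      exact card_of_two S (hB G Ω a t (U a) ht (two_comm S))
    · push Not at hX
      obtain ⟨a, b, hab, hX⟩ := hX
      -- a prime
      have h1 : ∃ p : ℕ, ∃ hp : Fact p.Prime, ∃ x ∈ pp p (U a), x • b = b ∧ x ≠ 1 := by
        have h2 : 1 < Nat.card ↥(U a ⊓ stabilizer G b) := by
          by_contra h
          apply hX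
          have h2 : Nat.card ↥(U a ⊓ stabilizer G b) = 1 := by
            have := Nat.card_pos (α := ↥(U a ⊓ stabilizer G b)); omega
          exact Subgroup.card_eq_one.1 h2
        obtain ⟨p, hp, hdvd⟩ := Nat.exists_prime_and_dvd h2.ne'
        haveI : Fact p.Prime := ⟨hp⟩
        obtain ⟨x, hx⟩ := exists_prime_orderOf_dvd_card' (G := ↥(U a ⊓ stabilizer G b)) p hdvd
        refine ⟨p, ⟨hp⟩, x, (mem_pp (S.nil a)).2 ⟨x.2.1, 1, ?_⟩, x.2.2, ?_⟩
        · rw [pow_one, ← Subgroup.coe_pow, ← hx, pow_orderOf_eq_one]; rfl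
        · intro h
          have : x = 1 := Subtype.ext h
          rw [this, orderOf_one] at hx
          exact hp.one_lt.ne hx
      obtain ⟨p, hp, x, hx, hxb, hx1⟩ := h1
      -- the intersection is non-trivial
      have h2 : pp p (U a) ⊓ pp p (U b) ≠ ⊥ := by
        intro h
        apply hx1
        apply semireg S (p := p) _ hab hx hxb
        intro c d hcd
        rw [← Subgroup.card_eq_one, ← inter_card S hab hcd, h, Subgroup.card_bot]
      obtain ⟨P, hP⟩ : ∃ P : Subgroup G, P = pp p (U a) ⊓ pp p (U b) := ⟨_, rfl⟩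
      rw [← hP] at h2
      have hNlt : Nat.card (Subgroup.normalizer (P : Set G)) < n := by
        rw [← hn]
        by_contra hge
        have h3 : Subgroup.normalizer (P : Set G) = ⊤ := Subgroup.eq_top_of_le_card _ (not_lt.1 hge)
        apply h2
        rw [eq_bot_iff]
        intro y hy
        have h4 : y ∈ K G Ω := by
          rw [mem_K]
          intro c
          obtain ⟨g, hg⟩ := S.tr1 a c
          have h5 : g⁻¹ * y * g ∈ P := by
            have h6 : g ∈ Subgroup.normalizer (P : Set G) := by rw [h3]; exact Subgroup.mem_top _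
            rw [(mem_N S hab hP).1 h6]
            convert hy using 1; group
          rw [hP] at h5
          have h7 := S.fix a _ (pp_le _ h5.1)
          rw [mul_smul, mul_smul, hg, inv_smul_eq_iff, hg] at h7
          exact h7
        rw [hK] at h4
        exact h4
      obtain ⟨M, hM⟩ := by
        letI := nact S hab hP
        exact ih _ hNlt (Subgroup.normalizer (P : Set G)) (ZZ U p P) _ _ rfl (N_sys S hab hP)
      have ham := a_mem S hab hP
      have hbm := b_mem S hab hP
      by_cases hp2 : p = 2
      · subst hp2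
        -- odd parts of `U a` centralise `P`
        refine card_of_two S (a := a) (two_group_of (S.nil a) ?_)
        intro r hr hr2
        rw [eq_bot_iff]
        intro y hy
        -- fixes everything
        have h3 : ∀ y ∈ pp r (U a), y • b = b := by
          intro y hy
          apply N_fix S hab hP hM hr2 ham hy _ hbm
          apply normalizer_of
          intro w hw
          have h4 : w ∈ pp 2 (U a) := ham hw
          rw [nil_comm hr2 (S.nil a) hy h4, mul_inv_cancel_right]; exact hw
        have h4 : y ∈ K G Ω := by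
          rw [mem_K]
          intro c
          by_cases hca : c = a
          · rw [hca]; exact S.fix a y (pp_le _ hy)
          · obtain ⟨u, hu, hub⟩ := S.trans a b c hab.symm hca
            have h5 : u⁻¹ * y * u ∈ pp r (U a) := by
              have := pp_conj S u⁻¹ a hy
              rw [inv_inv] at this
              have h2 : u⁻¹ • a = a := by rw [inv_smul_eq_iff, S.fix a u hu]
              rwa [h2] at this
            have h6 := h3 _ h5
            rw [mul_smul, mul_smul, hub, inv_smul_eq_iff, hub] at h6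
            exact h6
        rw [hK] at h4
        exact h4
      · exfalso
        -- `N_{A}(P) = P` with `A = pp p (U a)`
        have h3 : ∀ y ∈ pp p (U a), y ∈ Subgroup.normalizer (P : Set G) → y ∈ P := by
          intro y hy hyN
          have hfix : ∀ c ∈ ZZ U p P, y • c = c := fun c hc => N_fix S hab hP hM hp2 ham hy hyN hc
          have hyb := hfix b hbm
          obtain ⟨z, hz, hz1⟩ := S.Zne a
          obtain ⟨z', hz', hz1'⟩ := S.Zne b
          obtain ⟨i, d, hi, hi1, hizi, hia, hib, hda, hdb, hic⟩ := S.link hab hz hz1 hz' hz1'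
          have h4 : y * z' * y⁻¹ ∈ Z b := by
            have := S.conjZ y b z' hz'
            rwa [hyb] at this
          have h5 : z'⁻¹ • a ∈ ZZ U p P := N_smul S hab hP
            (Subgroup.inv_mem _ (Z_le_N S hab hP hbm hz')) ham
          have h6 : (y * z' * y⁻¹) * z'⁻¹ = 1 := by
            by_contra h7
            have h8 := S.Zfix b _ ((Z b).mul_mem h4 ((Z b).inv_mem hz')) h7 a (by
              rw [mul_smul, mul_smul, mul_smul]
              have h9 : y⁻¹ • z'⁻¹ • a = z'⁻¹ • a := by rw [inv_smul_eq_iff, hfix _ h5]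
              rw [h9, smul_inv_smul, hfix a ham])
            exact hab h8
          have h7 : y * z' = z' * y := by
            have h8 : y * z' * y⁻¹ = z' := mul_inv_eq_one.1 h6
            calc y * z' = (y * z' * y⁻¹) * y := by group
              _ = z' * y := by rw [h8]
          have h8 : y * i = i * y := hic y (S.Zcen a z hz y (pp_le _ hy)).symm h7
          rw [hP]
          refine ⟨hy, ?_⟩
          have h9 := pp_conj S i a hy
          rw [hia, ← h8, mul_inv_cancel_right] at h9
          exact h9
        -- normaliser condition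
        have h4 : pp p (U a) ≤ P := by
          haveI : Group.IsNilpotent (pp p (U a)) := (isPGroup_pp (U a)).isNilpotent
          have h5 := (normalizerCondition_iff_only_full_group_self_normalizing.1
            (Group.normalizerCondition_of_isNilpotent (G := pp p (U a)))) (P.subgroupOf (pp p (U a))) (by
              apply le_antisymm
              · intro y hy
                rw [Subgroup.mem_subgroupOf]
                apply h3 y y.2
                apply normalizer_of
                intro w hw
                have hwA : w ∈ pp p (U a) := ham hw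
                have h6 := (Subgroup.mem_normalizer_iff.1 hy ⟨w, hwA⟩).1 (Subgroup.mem_subgroupOf.2 hw)
                exact Subgroup.mem_subgroupOf.1 h6
              · exact Subgroup.le_normalizer)
          rw [Subgroup.subgroupOf_eq_top] at h5
          exact h5
        apply h2
        rw [eq_bot_iff]
        intro y hy
        have h5 : ∀ y ∈ pp p (U a), y • b = b := by
          intro y hy
          have := h4 hy
          rw [hP] at this
          exact S.fix b y (pp_le _ this.2)
        have h4' : y ∈ K G Ω := by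
          rw [mem_K]
          intro c
          have hy' : y ∈ pp p (U a) := ham hy
          by_cases hca : c = a
          · rw [hca]; exact S.fix a y (pp_le _ hy')
          · obtain ⟨u, hu, hub⟩ := S.trans a b c hab.symm hca
            have h5' : u⁻¹ * y * u ∈ pp p (U a) := by
              have := pp_conj S u⁻¹ a hy'
              rw [inv_inv] at this
              have h2 : u⁻¹ • a = a := by rw [inv_smul_eq_iff, S.fix a u hu]
              rwa [h2] at this
            have h6 := h5 _ h5'
            rw [mul_smul, mul_smul, hub, inv_smul_eq_iff, hub] at h6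
            exact h6
        rw [hK] at h4'
        exact h4'

end Cfsg.Agent.Lib.NBN4
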