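import Cfsg.Agent.Lib.NBN4

set_option autoImplicit false
set_option linter.unusedSectionVars false
set_option linter.unusedVariables false
set_option linter.style.haveILetI false

/-!
# Two-transitive groups with nilpotent normal transitive subgroups of point stabilisers, VI (helper71)

Involutions fixing at least two points: fixed point counts.
-/

namespace Cfsg.Agent.Lib.NBN6

open MulAction Cfsg.Agent.Lib.NBN1 Cfsg.Agent.Lib.NBN2 Cfsg.Agent.Lib.NBN3

universe u v

section
variable {G : Type u} {Ω : Type v} [Group G] [MulAction G Ω] {U Z : Ω → Subgroup G} [Finite G]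

/-- number of fixed points -/
noncomputable def fx (Ω : Type v) [MulAction G Ω] (x : G) : ℕ := Nat.card {c : Ω // x • c = c}

/-- involutions fixing at least two points -/
def TT (Ω : Type v) [MulAction G Ω] (w : G) : Prop :=
  w * w = 1 ∧ w ≠ 1 ∧ ∃ a b : Ω, a ≠ b ∧ w • a = a ∧ w • b = b

theorem fx_conj (g x : G) : fx Ω (g * x * g⁻¹) = fx Ω x := by
  refine Nat.card_congr ⟨fun c => ⟨g⁻¹ • c.1, ?_⟩, fun c => ⟨g • c.1, ?_⟩, fun c => ?_, fun c => ?_⟩
  · have h := c.2
    rw [mul_smul, mul_smul] at h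
    rw [eq_inv_smul_iff]; exact h
  · rw [mul_smul, mul_smul, inv_smul_smul, c.2]
  · exact Subtype.ext (smul_inv_smul g c.1)
  · exact Subtype.ext (inv_smul_smul g c.1)

/-- the data of the 2-group case -/
structure Two (U Z : Ω → Subgroup G) : Prop extends Sys U Z where
  faith : ∀ g : G, (∀ x : Ω, g • x = x) → g = 1
  pg : ∀ c, IsPGroup 2 (U c)

variable (S : Two U Z)
include S

theorem two' {c : Ω} {w : G} (hw : w * w = 1) (hc : w • c = c) : w ∈ U c :=
  S.two c w hc ⟨1, by rw [pow_one, pow_two]; exact hw⟩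

theorem U_of {a b : Ω} {x : G} (hx : x ∈ U a) (hb : x • b = b) : x ∈ U b := by
  obtain ⟨k, hk⟩ := S.pg a ⟨x, hx⟩
  exact S.two b x hb ⟨k, congrArg Subtype.val hk⟩

theorem odd_eq_one {c : Ω} {x : G} (hx : x ∈ U c) (ho : Odd (orderOf x)) : x = 1 := by
  obtain ⟨k, hk⟩ := S.pg c ⟨x, hx⟩
  have h1 : x ^ 2 ^ k = 1 := congrArg Subtype.val hk
  have h2 : orderOf x ∣ 2 ^ k := orderOf_dvd_of_pow_eq_one h1
  have h3 : orderOf x = 1 := Nat.Coprime.eq_one_of_dvd (Nat.Coprime.pow_right k (Nat.coprime_two_right.2 ho)) h2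
  exact orderOf_eq_one_iff.1 h3

theorem lemA {w : G} (hw : TT Ω w) {b : Ω} (hb : w • b ≠ b) :
    ∃ (c : G) (d : Ω), c ∈ Z d ∧ c ≠ 1 ∧ w • d = d ∧ c • b = w • b := by
  obtain ⟨hww, hw1, a0, b0, hab, ha0, hb0⟩ := hw
  obtain ⟨z, hz, hz1⟩ := S.Zne b
  have hzz := S.Zsq b z hz
  rcases Nat.even_or_odd (orderOf (w * z)) with he | ho
  · obtain ⟨m, hm⟩ := even_iff_two_dvd.1 he
    have hm0 : m ≠ 0 := by
      rintro rfl
      exact (orderOf_pos (w * z)).ne' (by simpa using hm)
    obtain ⟨h1, h2, h3, h4⟩ := central hww hzz hm hm0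
    obtain ⟨v, hv⟩ : ∃ v : G, v = (w * z) ^ m := ⟨_, rfl⟩
    rw [← hv] at h1 h2 h3 h4
    have hvb : v • b = b := S.comm_fix hz hz1 h4.symm
    rcases Nat.even_or_odd' m with ⟨j, hj | hj⟩
    · exfalso
      have h5 : v = (z * w) ^ m := by
        have h6 : v⁻¹ = v := inv_eq_of_mul_eq_one_left h2
        rw [← h6, hv, ← inv_pow, mul_inv_rev, inv_eq_of_mul_eq_one_left hzz, inv_eq_of_mul_eq_one_left hww]
      have h6 : z * v = ((z * w) ^ j)⁻¹ * z * (((z * w) ^ j)⁻¹)⁻¹ := by
        rw [h5, hj, conj_even hzz hww, inv_inv]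
      have h7 := S.conjZ (((z * w) ^ j)⁻¹) b z hz
      rw [← h6] at h7
      have h8 : v ∈ Z b := by
        by_cases hzv : z * v = 1
        · have : v = z⁻¹ := (inv_eq_of_mul_eq_one_right hzv).symm
          rw [this]; exact (Z b).inv_mem hz
        · have h9 := S.Zeq h7 hzv (a := b) (by rw [mul_smul, hvb, S.Zfix' hz])
          rw [← h9] at h7
          have := (Z b).mul_mem ((Z b).inv_mem hz) h7
          rwa [inv_mul_cancel_left] at this
      exact hb (S.comm_fix h8 h1 h3)
    · have h6 : w * v = ((w * z) ^ j)⁻¹ * z * (((w * z) ^ j)⁻¹)⁻¹ := by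
        rw [hv, hj, conj_odd hww hzz, inv_inv]
      have h7 := S.conjZ (((w * z) ^ j)⁻¹) b z hz
      rw [← h6] at h7
      have h8 : w * v ≠ 1 := by
        intro h
        have : v = w := by
          have : w * v = w * w := by rw [h, hww]
          exact mul_left_cancel this
        rw [this] at hvb
        exact hb hvb
      refine ⟨w * v, _, h7, h8, ?_, ?_⟩
      · apply S.comm_fix h7 h8
        rw [mul_assoc, ← h3]
      · rw [mul_smul, hvb]
  · exfalso
    obtain ⟨i, g, h1, h2, -, -, -⟩ := odd_link hww hzz ho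
    have hi : i⁻¹ = i := inv_eq_of_mul_eq_one_left h1
    have h3 : w = i * z * i⁻¹ := by
      rw [← h2, hi]
      calc w = (i * i) * w * (i * i) := by rw [h1]; group
        _ = _ := by group
    have h4 := S.conjZ i b z hz
    rw [← h3] at h4
    exact hab ((S.Zfix _ w h4 hw1 a0 ha0).trans (S.Zfix _ w h4 hw1 b0 hb0).symm)

theorem wc_comm {w : G} (hww : w * w = 1) {c : G} {d : Ω} (hc : c ∈ Z d) (hd : w • d = d) : c * w = w * c :=
  S.Zcen d c hc w (two' S hww hd)

theorem lemB {w : G} (hww : w * w = 1) {b d d' : Ω} (hb : w • b ≠ b) {c c' : G} (hc : c ∈ Z d) (hc1 : c ≠ 1)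
    (hd : w • d = d) (hcb : c • b = w • b) (hc' : c' ∈ Z d') (hc1' : c' ≠ 1) (hd' : w • d' = d')
    (hcb' : c' • b = w • b) : c = c' := by
  have hcc := S.Zsq d c hc
  by_cases hdd : d = d'
  · subst hdd
    by_contra hne
    have h1 : c * c' ≠ 1 := by
      intro h
      apply hne
      have : c * c' = c * c := by rw [h, hcc]
      exact (mul_left_cancel this).symm
    have h2 := S.Zfix d _ ((Z d).mul_mem hc hc') h1 b (by
      rw [mul_smul, hcb', ← hcb, ← mul_smul, hcc, one_smul])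
    rw [h2] at hb
    exact hb hd
  · exfalso
    have k1 := wc_comm S hww hc hd
    have k2 := wc_comm S hww hc' hd'
    have hcw : c * w ∈ U b := by
      apply two' S
      · calc c * w * (c * w) = c * (w * c) * w := by group
          _ = (c * c) * (w * w) := by rw [← k1]; group
          _ = 1 := by rw [hcc, hww, one_mul]
      · rw [k1, mul_smul, hcb, ← mul_smul, hww, one_smul]
    have hcw' : c' * w ∈ U b := by
      apply two' S
      · calc c' * w * (c' * w) = c' * (w * c') * w := by group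
          _ = (c' * c') * (w * w) := by rw [← k2]; group
          _ = 1 := by rw [S.Zsq d' c' hc', hww, one_mul]
      · rw [k2, mul_smul, hcb', ← mul_smul, hww, one_smul]
    have h3 : c * c' ∈ U b := by
      have := (U b).mul_mem hcw hcw'
      have h4 : c * w * (c' * w) = c * c' := by
        calc c * w * (c' * w) = c * (w * c') * w := by group
          _ = c * c' * (w * w) := by rw [← k2]; group
          _ = _ := by rw [hww, mul_one]
      rwa [h4] at this
    have h5 := odd_eq_one S h3 (S.odd_of hdd hc hc1 hc' hc1')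
    have h6 : c' = c := by
      have : c * c' = c * c := by rw [h5, hcc]
      exact mul_left_cancel this
    rw [h6] at hc'
    exact hdd (S.Zfix d' c hc' hc1 d (S.Zfix' hc))

/-- the elements `c w` are conjugate -/
theorem conjW {w : G} (hw : TT Ω w) {c c' : G} {d d' : Ω} (hc : c ∈ Z d) (hc1 : c ≠ 1) (hd : w • d = d)
    (hc' : c' ∈ Z d') (hc1' : c' ≠ 1) (hd' : w • d' = d') : ∃ g : G, w * g = g * w ∧ g * c * g⁻¹ = c' := by
  obtain ⟨hww, hw1, a0, b0, hab, ha0, hb0⟩ := hw
  have key : ∀ {c c' : G} {d d' : Ω}, d ≠ d' → c ∈ Z d → c ≠ 1 → w • d = d → c' ∈ Z d' → c' ≠ 1 → w • d' = d' →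
      ∃ g : G, w * g = g * w ∧ g * c * g⁻¹ = c' := by
    intro c c' d d' hdd hc hc1 hd hc' hc1' hd'
    obtain ⟨i, e, -, -, h1, -, -, -, -, h2⟩ := S.link hdd hc hc1 hc' hc1'
    exact ⟨i, h2 w (wc_comm S hww hc hd).symm (wc_comm S hww hc' hd').symm, h1⟩
  by_cases hdd : d = d'
  · obtain ⟨e, he, hed⟩ : ∃ e : Ω, w • e = e ∧ e ≠ d := by
      by_cases h : a0 = d
      · exact ⟨b0, hb0, fun h' => hab (h.trans h'.symm)⟩
      · exact ⟨a0, ha0, h⟩
    obtain ⟨z, hz, hz1⟩ := S.Zne e
    obtain ⟨g1, h1, h2⟩ := key hed.symm hc hc1 hd hz hz1 he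
    obtain ⟨g2, h3, h4⟩ := key (hdd ▸ hed) hz hz1 he hc' hc1' hd'
    refine ⟨g2 * g1, ?_, ?_⟩
    · calc w * (g2 * g1) = (w * g2) * g1 := by group
        _ = g2 * (w * g1) := by rw [h3]; group
        _ = g2 * g1 * w := by rw [h1]; group
    · rw [← h4, ← h2]; group
  · exact key hdd hc hc1 hd hc' hc1' hd'

theorem fx_const {w : G} (hw : TT Ω w) {c c' : G} {d d' : Ω} (hc : c ∈ Z d) (hc1 : c ≠ 1) (hd : w • d = d)
    (hc' : c' ∈ Z d') (hc1' : c' ≠ 1) (hd' : w • d' = d') : fx Ω (c * w) = fx Ω (c' * w) := by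
  obtain ⟨g, h1, h2⟩ := conjW S hw hc hc1 hd hc' hc1' hd'
  rw [← fx_conj g (c * w)]
  congr 1
  rw [← h2]
  calc g * (c * w) * g⁻¹ = g * c * (w * g⁻¹) := by group
    _ = g * c * (g⁻¹ * w) := by
        congr 1
        calc w * g⁻¹ = g⁻¹ * (g * w) * g⁻¹ := by group
          _ = g⁻¹ * (w * g) * g⁻¹ := by rw [h1]
          _ = _ := by group
    _ = _ := by group

theorem cardZ (a b : Ω) : Nat.card (Z a) = Nat.card (Z b) := by
  obtain ⟨g, rfl⟩ := S.tr1 a b
  refine Nat.card_congr ⟨fun z => ⟨g * z * g⁻¹, S.conjZ g a z z.2⟩, fun z => ⟨g⁻¹ * z * g, ?_⟩, fun z => ?_, fun z => ?_⟩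
  · have := S.conjZ g⁻¹ (g • a) z z.2
    rwa [inv_smul_smul, inv_inv] at this
  · apply Subtype.ext; show g⁻¹ * (g * z * g⁻¹) * g = z; group
  · apply Subtype.ext; show g * (g⁻¹ * z * g) * g⁻¹ = z; group

open Finset in
/-- the count -/
theorem count {w : G} (hw : TT Ω w) {q f : ℕ} (hq : ∀ c : Ω, Nat.card (Z c) = q)
    (hf : ∀ (c : G) (d : Ω), c ∈ Z d → c ≠ 1 → w • d = d → fx Ω (c * w) = f) :
    Nat.card Ω = fx Ω w + fx Ω w * (q - 1) * (f - 1) := by
  classical
  haveI := finΩ S.toSys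
  haveI := Fintype.ofFinite Ω
  haveI := Fintype.ofFinite G
  obtain ⟨W, hW⟩ : ∃ W : Finset G, W = univ.filter (fun c => c ≠ 1 ∧ ∃ d : Ω, w • d = d ∧ c ∈ Z d) := ⟨_, rfl⟩
  have memW : ∀ c : G, c ∈ W ↔ (c ≠ 1 ∧ ∃ d : Ω, w • d = d ∧ c ∈ Z d) := by intro c; rw [hW]; simp
  obtain ⟨F, hF⟩ : ∃ F : Finset Ω, F = univ.filter (fun c => w • c = c) := ⟨_, rfl⟩
  have memF : ∀ c : Ω, c ∈ F ↔ w • c = c := by intro c; rw [hF]; simp
  have hFc : fx Ω w = F.card := by
    rw [fx, Nat.card_eq_fintype_card, Fintype.card_subtype, hF]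
  -- size of `W`
  have h1 : F.card * (q - 1) = W.card := by
    have h2 := sum_card_bipartiteAbove_eq_sum_card_bipartiteBelow (s := F) (t := W) (fun (d : Ω) (c : G) => c ∈ Z d)
    have h3 : ∀ d ∈ F, (bipartiteAbove (fun (d : Ω) (c : G) => c ∈ Z d) W d).card = q - 1 := by
      intro d hd
      have h4 : bipartiteAbove (fun (d : Ω) (c : G) => c ∈ Z d) W d = (univ.filter (fun c => c ∈ Z d)).erase 1 := by
        ext c
        simp only [bipartiteAbove, mem_filter, mem_erase, mem_univ, true_and, memW]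
        constructor
        · rintro ⟨⟨h1, -⟩, h2⟩; exact ⟨h1, h2⟩
        · rintro ⟨h1, h2⟩; exact ⟨⟨h1, d, (memF d).1 hd, h2⟩, h2⟩
      rw [h4, card_erase_of_mem (by simp [(Z d).one_mem]), ← hq d, Nat.card_eq_fintype_card, ← Fintype.card_subtype]
    have h5 : ∀ c ∈ W, (bipartiteBelow (fun (d : Ω) (c : G) => c ∈ Z d) F c).card = 1 := by
      intro c hc
      obtain ⟨hc1, d, hd, hcd⟩ := (memW c).1 hc
      rw [card_eq_one]
      refine ⟨d, ?_⟩
      ext e
      simp only [bipartiteBelow, mem_filter, mem_singleton, memF]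
      constructor
      · rintro ⟨-, h⟩
        exact S.Zfix d c hcd hc1 e (S.Zfix' h)
      · rintro rfl; exact ⟨hd, hcd⟩
    rw [sum_congr rfl h3, sum_congr rfl h5, sum_const, sum_const, smul_eq_mul, smul_eq_mul, mul_one] at h2
    exact h2
  -- the partition
  obtain ⟨A, hA⟩ : ∃ A : Finset Ω, A = univ.filter (fun c => w • c ≠ c) := ⟨_, rfl⟩
  have memA : ∀ c : Ω, c ∈ A ↔ w • c ≠ c := by intro c; rw [hA]; simp
  have h6 : A.card = W.card * (f - 1) := by
    have h2 := sum_card_bipartiteAbove_eq_sum_card_bipartiteBelow (s := A) (t := W)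
      (fun (b : Ω) (c : G) => c • b = w • b)
    have h3 : ∀ b ∈ A, (bipartiteAbove (fun (b : Ω) (c : G) => c • b = w • b) W b).card = 1 := by
      intro b hb
      rw [memA] at hb
      obtain ⟨c, d, hc, hc1, hd, hcb⟩ := lemA S hw hb
      rw [card_eq_one]
      refine ⟨c, ?_⟩
      ext c'
      simp only [bipartiteAbove, mem_filter, mem_singleton, memW]
      constructor
      · rintro ⟨⟨h1, d', hd', hc'⟩, h⟩
        exact (lemB S hw.1 hb hc hc1 hd hcb hc' h1 hd' h).symm
      · rintro rfl; exact ⟨⟨hc1, d, hd, hc⟩, hcb⟩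
    have h5 : ∀ c ∈ W, (bipartiteBelow (fun (b : Ω) (c : G) => c • b = w • b) A c).card = f - 1 := by
      intro c hc
      obtain ⟨hc1, d, hd, hcd⟩ := (memW c).1 hc
      have k1 := wc_comm S hw.1 hcd hd
      have h4 : bipartiteBelow (fun (b : Ω) (c : G) => c • b = w • b) A c =
          (univ.filter (fun b : Ω => (c * w) • b = b)).erase d := by
        ext b
        simp only [bipartiteBelow, mem_filter, mem_erase, mem_univ, true_and, memA]
        constructor
        · rintro ⟨h1, h2⟩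
          refine ⟨?_, ?_⟩
          · rintro rfl; exact h1 hd
          · rw [mul_smul, ← h2, ← mul_smul, S.Zsq d c hcd, one_smul]
        · rintro ⟨h1, h2⟩
          have h2' : c • w • b = b := by rw [← mul_smul]; exact h2
          have h3 : c • b = w • b := by
            calc c • b = c • (c • w • b) := by rw [h2']
              _ = w • b := by rw [← mul_smul, S.Zsq d c hcd, one_smul]
          refine ⟨?_, h3⟩
          intro h4
          rw [h4] at h3
          exact h1 (S.Zfix d c hcd hc1 b h3)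
      rw [h4, card_erase_of_mem (by simp [mul_smul, hd, S.Zfix' hcd]), ← hf c d hcd hc1 hd, fx,
        Nat.card_eq_fintype_card, ← Fintype.card_subtype]
    rw [sum_congr rfl h3, sum_congr rfl h5, sum_const, sum_const, smul_eq_mul, smul_eq_mul, mul_one] at h2
    exact h2
  have h7 : Nat.card Ω = F.card + A.card := by
    rw [Nat.card_eq_fintype_card, ← card_univ, hF, hA]
    exact (card_filter_add_card_filter_not (s := univ) (fun c : Ω => w • c = c)).symm
  rw [h7, h6, ← h1, hFc]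

end

end Cfsg.Agent.Lib.NBN6
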