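import Cfsg.Agent.Lib.NBN6

set_option autoImplicit false
set_option linter.unusedSectionVars false
set_option linter.unusedVariables false
set_option linter.style.haveILetI false

/-!
# Two-transitive groups with nilpotent normal transitive subgroups of point stabilisers, VII (helper71)
-/

namespace Cfsg.Agent.Lib.NBN7

open MulAction Cfsg.Agent.Lib.NBN1 Cfsg.Agent.Lib.NBN2 Cfsg.Agent.Lib.NBN3 Cfsg.Agent.Lib.NBN6

universe u v

theorem arith1 {φ f q n : ℕ} (hq : 4 ≤ q) (hφ : 2 ≤ φ) (hf : 2 ≤ f) (h1 : n = φ + φ * (q - 1) * (f - 1))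
    (h2 : n = f + f * (q - 1) * (φ - 1)) : φ = f := by
  obtain ⟨q', rfl⟩ := Nat.exists_eq_add_of_le' hq
  obtain ⟨x, rfl⟩ := Nat.exists_eq_add_of_le' hφ
  obtain ⟨y, rfl⟩ := Nat.exists_eq_add_of_le' hf
  have e1 : q' + 4 - 1 = q' + 3 := by omega
  have e2 : x + 2 - 1 = x + 1 := by omega
  have e3 : y + 2 - 1 = y + 1 := by omega
  rw [e1, e3] at h1
  rw [e1, e2] at h2
  have h3 : (x + 2) + (x + 2) * (q' + 3) * (y + 1) = (y + 2) + (y + 2) * (q' + 3) * (x + 1) := by rw [← h1, ← h2]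
  have h4 : ((q' : ℤ) + 2) * ((x : ℤ) - y) = 0 := by
    have h5 : ((x : ℤ) + 2) + (x + 2) * (q' + 3) * (y + 1) = (y + 2) + (y + 2) * (q' + 3) * (x + 1) := by
      exact_mod_cast h3
    linear_combination -h5
  rcases mul_eq_zero.1 h4 with h | h
  · omega
  · omega

theorem odd_dvd {o k : ℕ} (ho : Odd o) (h : o ∣ 2 ^ k) : o = 1 :=
  Nat.Coprime.eq_one_of_dvd (Nat.Coprime.pow_right k (Nat.coprime_two_right.2 ho)) h

theorem arith2 {φ q N j : ℕ} (hq : q = 2 ^ j) (hj : 2 ≤ j) (hφ : 2 ≤ φ) (h1 : 2 ^ N + 1 = φ + φ * (q - 1) * (φ - 1)) :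
    φ = q + 1 ∧ 2 ^ N + 1 = q ^ 3 + 1 := by
  have hq4 : 4 ≤ q := by
    rw [hq]
    calc 4 = 2 ^ 2 := by norm_num
      _ ≤ 2 ^ j := Nat.pow_le_pow_right (by norm_num) hj
  obtain ⟨p, rfl⟩ : ∃ p, φ = p + 1 := ⟨φ - 1, by omega⟩
  have e2 : p + 1 - 1 = p := by omega
  rw [e2] at h1
  obtain ⟨r, hr⟩ : ∃ r, q = r + 1 := ⟨q - 1, by omega⟩
  have e1 : q - 1 = r := by omega
  rw [e1] at h1
  have h2 : 2 ^ N = p * (q + r * p) := by
    have : 2 ^ N + 1 = p * (q + r * p) + 1 := by rw [h1, hr]; ring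
    omega
  obtain ⟨i, -, hi⟩ := (Nat.dvd_prime_pow Nat.prime_two).1 (Dvd.intro _ h2.symm)
  have h3 : (q + r * p) ∣ 2 ^ N := Dvd.intro_left _ h2.symm
  have key : i = j := by
    rcases lt_trichotomy i j with h | h | h
    · exfalso
      obtain ⟨e, rfl⟩ := Nat.exists_eq_add_of_lt h
      have h4 : q + r * p = 2 ^ i * (2 ^ (e + 1) + r) := by
        rw [hi, hq, add_assoc, pow_add]; ring
      have h5 : (2 ^ (e + 1) + r) ∣ 2 ^ N := (Dvd.intro_left _ h4.symm).trans h3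
      have h6 : Odd (2 ^ (e + 1) + r) := by
        have h7 : Even (2 ^ (e + 1)) := Nat.even_pow.2 ⟨even_two, by omega⟩
        have h8 : Odd r := by
          have h9 : Even q := by rw [hq]; exact Nat.even_pow.2 ⟨even_two, by omega⟩
          rw [hr] at h9
          exact Nat.even_add_one.1 h9 |> Nat.not_even_iff_odd.1
        exact h7.add_odd h8
      have := odd_dvd h6 h5
      have h9 : 1 ≤ 2 ^ (e + 1) := Nat.one_le_two_pow
      omega
    · exact h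
    · exfalso
      obtain ⟨e, rfl⟩ := Nat.exists_eq_add_of_lt h
      have h4 : q + r * p = 2 ^ j * (1 + r * 2 ^ (e + 1)) := by
        rw [hi, hq, add_assoc, pow_add]; ring
      have h5 : (1 + r * 2 ^ (e + 1)) ∣ 2 ^ N := (Dvd.intro_left _ h4.symm).trans h3
      have h6 : Odd (1 + r * 2 ^ (e + 1)) := by
        have h7 : Even (r * 2 ^ (e + 1)) := (Nat.even_pow.2 ⟨even_two, by omega⟩).mul_left _
        exact odd_one.add_even h7
      have := odd_dvd h6 h5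
      have h9 : 1 ≤ 2 ^ (e + 1) := Nat.one_le_two_pow
      have h10 : 3 ≤ r := by omega
      nlinarith
  have hpq : p = q := by rw [hi, hq, key]
  refine ⟨by omega, ?_⟩
  rw [h1, hpq, hr]; ring

section
variable {G : Type u} {Ω : Type v} [Group G] [MulAction G Ω] {U Z : Ω → Subgroup G} [Finite G]
variable (S : Two U Z)
include S

theorem card_q (a : Ω) : ∃ j : ℕ, 2 ≤ j ∧ Nat.card (Z a) = 2 ^ j := by
  have h1 : IsPGroup 2 (Z a) := fun z => ⟨1, Subtype.ext (by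
    rw [pow_one, pow_two]; exact S.Zsq a z z.2)⟩
  obtain ⟨j, hj⟩ := IsPGroup.iff_card.1 h1
  refine ⟨j, ?_, hj⟩
  have h2 := S.card a
  rw [hj] at h2
  by_contra h3
  have h4 : j = 0 ∨ j = 1 := by omega
  rcases h4 with rfl | rfl <;> norm_num at h2

theorem fx_ge {x : G} {a b : Ω} (hab : a ≠ b) (ha : x • a = a) (hb : x • b = b) : 2 ≤ fx Ω x := by
  haveI := finΩ S.toSys
  have : Nontrivial {c : Ω // x • c = c} := ⟨⟨a, ha⟩, ⟨b, hb⟩, fun h => hab (congrArg Subtype.val h)⟩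
  exact Finite.one_lt_card

theorem of_fx {x : G} (h : 2 ≤ fx Ω x) : ∃ a b : Ω, a ≠ b ∧ x • a = a ∧ x • b = b := by
  haveI := finΩ S.toSys
  have h1 : 1 < Nat.card {c : Ω // x • c = c} := h
  obtain ⟨⟨a, ha⟩, ⟨b, hb⟩, hab⟩ := Finite.one_lt_card_iff_nontrivial.1 h1
  exact ⟨a, b, fun h => hab (Subtype.ext h), ha, hb⟩

theorem inv_cw {w : G} (hw : TT Ω w) {c : G} {d : Ω} (hc : c ∈ Z d) (hd : w • d = d) :
    (c * w) * (c * w) = 1 ∧ c * w ≠ 1 ∧ (c * w) • d = d := by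
  have k1 := wc_comm S hw.1 hc hd
  refine ⟨?_, ?_, by rw [mul_smul, hd, S.Zfix' hc]⟩
  · calc c * w * (c * w) = c * (w * c) * w := by group
      _ = (c * c) * (w * w) := by rw [← k1]; group
      _ = 1 := by rw [S.Zsq d c hc, hw.1, one_mul]
  · intro h
    have h1 : w = c := by
      have : c * w = c * c := by rw [h, S.Zsq d c hc]
      exact mul_left_cancel this
    obtain ⟨-, hw1, a0, b0, hab, ha0, hb0⟩ := hw
    rw [h1] at hw1 ha0 hb0
    exact hab ((S.Zfix d c hc hw1 a0 ha0).trans (S.Zfix d c hc hw1 b0 hb0).symm)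

theorem main_count {N q : ℕ} (hN : Nat.card Ω = 2 ^ N + 1) (hq : ∀ c : Ω, Nat.card (Z c) = q) {w : G} (hw : TT Ω w) :
    fx Ω w = q + 1 ∧ Nat.card Ω = q ^ 3 + 1 ∧
      ∀ (c : G) (d : Ω), c ∈ Z d → c ≠ 1 → w • d = d → TT Ω (c * w) := by
  obtain ⟨hww, hw1, a0, b0, hab, ha0, hb0⟩ := id hw
  obtain ⟨c0, hc0, hc01⟩ := S.Zne a0
  have hf : ∀ (c : G) (d : Ω), c ∈ Z d → c ≠ 1 → w • d = d → fx Ω (c * w) = fx Ω (c0 * w) := fun c d h1 h2 h3 =>
    fx_const S hw h1 h2 h3 hc0 hc01 ha0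
  have h1 := count S hw hq hf
  obtain ⟨j, hj, hqj⟩ := card_q S a0
  rw [hq] at hqj
  have hq4 : 4 ≤ q := by rw [← hq a0]; exact S.card a0
  have hφ : 2 ≤ fx Ω w := fx_ge S hab ha0 hb0
  -- a moved point
  have hmv : ∃ b : Ω, w • b ≠ b := by
    by_contra h
    push Not at h
    exact hw1 (S.faith w h)
  obtain ⟨b, hb⟩ := hmv
  obtain ⟨c, d, hc, hc1, hd, hcb⟩ := lemA S hw hb
  have k1 := wc_comm S hw.1 hc hd
  have hbd : b ≠ d := by rintro rfl; exact hb hd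
  have hf2 : 2 ≤ fx Ω (c0 * w) := by
    rw [← hf c d hc hc1 hd]
    refine fx_ge S hbd ?_ (by rw [mul_smul, hd, S.Zfix' hc])
    rw [mul_smul, ← hcb, ← mul_smul, S.Zsq d c hc, one_smul]
  have hTT : ∀ (c : G) (d : Ω), c ∈ Z d → c ≠ 1 → w • d = d → TT Ω (c * w) := by
    intro c d h1 h2 h3
    obtain ⟨h4, h5, -⟩ := inv_cw S hw h1 h3
    exact ⟨h4, h5, of_fx S (by rw [hf c d h1 h2 h3]; exact hf2)⟩
  have hw' := hTT c0 a0 hc0 hc01 ha0
  have ha0' : (c0 * w) • a0 = a0 := by rw [mul_smul, ha0, S.Zfix' hc0]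
  have hf' : ∀ (c : G) (d : Ω), c ∈ Z d → c ≠ 1 → (c0 * w) • d = d → fx Ω (c * (c0 * w)) = fx Ω w := by
    intro c d h1 h2 h3
    rw [fx_const S hw' h1 h2 h3 hc0 hc01 ha0', ← mul_assoc, S.Zsq a0 c0 hc0, one_mul]
  have h2 := count S hw' hq hf'
  have h3 := arith1 hq4 hφ hf2 h1 h2
  rw [← h3, hN] at h1
  obtain ⟨h4, h5⟩ := arith2 hqj hj hφ h1
  exact ⟨h4, by rw [hN, h5], hTT⟩

end

end Cfsg.Agent.Lib.NBN7
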