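import Cfsg.Agent.Lib.NBN7

set_option autoImplicit false
set_option linter.unusedSectionVars false
set_option linter.unusedVariables false
set_option linter.style.haveILetI false

/-!
# Two-transitive groups with nilpotent normal transitive subgroups of point stabilisers, VIII (helper71)

The linear space of fixed point sets.
-/

namespace Cfsg.Agent.Lib.NBN8

open MulAction Cfsg.Agent.Lib.NBN1 Cfsg.Agent.Lib.NBN2 Cfsg.Agent.Lib.NBN3 Cfsg.Agent.Lib.NBN6 Cfsg.Agent.Lib.NBN7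

universe u v

section
variable {G : Type u} {Ω : Type v} [Group G] [MulAction G Ω] {U Z : Ω → Subgroup G} [Finite G]

/-- the data after the counting -/
structure Thr (U Z : Ω → Subgroup G) (q : ℕ) : Prop extends Two U Z where
  hq : ∀ c : Ω, Nat.card (Z c) = q
  q4 : 4 ≤ q
  hφ : ∀ w : G, TT Ω w → fx Ω w = q + 1
  hc : ∀ w : G, TT Ω w → ∀ (c : G) (d : Ω), c ∈ Z d → c ≠ 1 → w • d = d → TT Ω (c * w)
  hn : Nat.card Ω = q ^ 3 + 1
  hT : ∀ a b : Ω, a ≠ b → ∃ x ∈ U a, x • b = b ∧ x ≠ 1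

variable {q : ℕ} (S : Thr U Z q)
include S

/-- regularity of `Z a` on the fixed points of `w` other than `a` -/
theorem R1 {w : G} (hw : TT Ω w) {a b b' : Ω} (ha : w • a = a) (hb : w • b = b) (hb' : w • b' = b') (hba : b ≠ a)
    (hba' : b' ≠ a) : ∃ z ∈ Z a, z • b = b' := by
  classical
  haveI := finΩ S.toSys
  haveI := Fintype.ofFinite Ω
  let β := {c : Ω // w • c = c ∧ c ≠ a}
  have hβ : Nat.card β = q := by
    have h1 := S.hφ w hw
    rw [fx, Nat.card_eq_fintype_card, Fintype.card_subtype] at h1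
    rw [Nat.card_eq_fintype_card, Fintype.card_subtype]
    have h2 : (Finset.univ.filter (fun c : Ω => w • c = c ∧ c ≠ a)) =
        (Finset.univ.filter (fun c : Ω => w • c = c)).erase a := by
      ext c; simp [and_comm]
    rw [h2, Finset.card_erase_of_mem (by simp [ha]), h1]; rfl
  let f : Z a → β := fun z => ⟨(z : G) • b, by
    have h1 := wc_comm S.toTwo hw.1 z.2 ha
    rw [← mul_smul, ← h1, mul_smul, hb], by
    intro h
    have h2 : (z : G) • b = (z : G) • a := by rw [S.Zfix' z.2]; exact h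
    exact hba (smul_left_cancel _ h2)⟩
  have hf : Function.Injective f := by
    intro z z' h
    have h1 : (z : G) • b = (z' : G) • b := congrArg Subtype.val h
    by_contra hne
    have h2 : (z : G)⁻¹ * z' ≠ 1 := by
      intro h3; exact hne (Subtype.ext (inv_mul_eq_one.1 h3))
    have h3 := S.Zfix a _ ((Z a).mul_mem ((Z a).inv_mem z.2) z'.2) h2 b (by
      rw [mul_smul, ← h1, inv_smul_smul])
    exact hba h3
  have hsurj := (Function.Injective.bijective_of_nat_card_le hf (by rw [hβ, S.hq a])).2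
  obtain ⟨z, hz⟩ := hsurj ⟨b', hb', hba'⟩
  exact ⟨z, z.2, congrArg Subtype.val hz⟩

theorem invol_pow {a : Ω} {x : G} (hx : x ∈ U a) (hx1 : x ≠ 1) : ∃ k : ℕ, (x ^ k) * (x ^ k) = 1 ∧ x ^ k ≠ 1 := by
  obtain ⟨k, hk⟩ := S.pg a ⟨x, hx⟩
  have h1 : x ^ 2 ^ k = 1 := congrArg Subtype.val hk
  have hex : ∃ k : ℕ, x ^ 2 ^ k = 1 := ⟨k, h1⟩
  classical
  have h2 := Nat.find_spec hex
  have h3 : Nat.find hex ≠ 0 := by
    intro h; rw [h, pow_zero, pow_one] at h2; exact hx1 h2
  obtain ⟨m, hm⟩ := Nat.exists_eq_succ_of_ne_zero h3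
  refine ⟨2 ^ m, ?_, ?_⟩
  · rw [← pow_add, ← two_mul, ← pow_succ', ← Nat.succ_eq_add_one, ← hm]; exact h2
  · have := Nat.find_min hex (m := m) (by omega)
    exact this

/-- points fixed by an element of `U a` fixing `b ≠ a` -/
theorem line_iff {a b : Ω} (hab : b ≠ a) {x : G} (hx : x ∈ U a) (hx1 : x ≠ 1) (hxb : x • b = b) (c : Ω) :
    x • c = c ↔ (c = a ∨ ∃ z ∈ Z a, z • b = c) := by
  constructor
  · intro hc
    obtain ⟨k, h1, h2⟩ := invol_pow S hx hx1
    have hst : ∀ e : Ω, x • e = e → (x ^ k) • e = e := by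
      intro e he
      have : x ^ k ∈ stabilizer G e := Subgroup.pow_mem _ (mem_stabilizer_iff.2 he) _
      exact mem_stabilizer_iff.1 this
    have hxa := S.fix a x hx
    have hT : TT Ω (x ^ k) := ⟨h1, h2, a, b, hab.symm, hst a hxa, hst b hxb⟩
    by_cases hca : c = a
    · exact Or.inl hca
    · exact Or.inr (R1 S hT (hst a hxa) (hst b hxb) (hst c hc) hab hca)
  · rintro (rfl | ⟨z, hz, rfl⟩)
    · exact S.fix _ x hx
    · rw [← mul_smul, ← S.Zcen a z hz x hx, mul_smul, hxb]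

/-- two-point stabilisers in `U a` have exponent two -/
theorem sq_one {a b : Ω} (hab : b ≠ a) {t : G} (ht : t ∈ U a) (htb : t • b = b) : t * t = 1 := by
  classical
  -- a central involution
  obtain ⟨T, hTdef⟩ : ∃ T : Subgroup G, T = U a ⊓ stabilizer G b := ⟨_, rfl⟩
  have memT : ∀ x : G, x ∈ T ↔ x ∈ U a ∧ x • b = b := by
    intro x; rw [hTdef]; exact Iff.rfl
  have hTp : IsPGroup 2 T := (S.pg a).to_le (by rw [hTdef]; exact inf_le_left)
  have hTn : Nontrivial T := by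
    obtain ⟨x, hx, hxb, hx1⟩ := S.hT a b hab.symm
    exact ⟨⟨x, (memT x).2 ⟨hx, hxb⟩⟩, 1, fun h => hx1 (congrArg Subtype.val h)⟩
  haveI : Fact (Nat.Prime 2) := ⟨Nat.prime_two⟩
  haveI := hTp.center_nontrivial
  obtain ⟨y, hy⟩ := exists_ne (1 : Subgroup.center T)
  have hyT := (memT ((y : T) : G)).1 (y : T).2
  have hy1 : ((y : T) : G) ≠ 1 := fun h => hy (Subtype.ext (Subtype.ext h))
  obtain ⟨k, h1, h2⟩ := invol_pow S hyT.1 hy1
  obtain ⟨w, hw⟩ : ∃ w : G, w = ((y : T) : G) ^ k := ⟨_, rfl⟩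
  rw [← hw] at h1 h2
  have hwT : w ∈ T := by rw [hw]; exact T.pow_mem (y : T).2 k
  have hwc : ∀ t ∈ T, t * w = w * t := by
    intro t ht
    have h3 := Subgroup.mem_center_iff.1 y.2 ⟨t, ht⟩
    have h4 : t * ((y : T) : G) = ((y : T) : G) * t := congrArg Subtype.val h3
    rw [hw]
    exact (Commute.pow_right (show Commute t ((y : T) : G) from h4) k).eq
  have hwa := S.fix a w ((memT w).1 hwT).1
  have hwb := ((memT w).1 hwT).2
  have hwTT : TT Ω w := ⟨h1, h2, a, b, hab.symm, hwa, hwb⟩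
  obtain ⟨c, hc, hc1⟩ := S.Zne a
  have hv := S.hc w hwTT c a hc hc1 hwa
  have hva : (c * w) • a = a := by rw [mul_smul, hwa, S.Zfix' hc]
  obtain ⟨b', hb'a, hb'⟩ : ∃ b' : Ω, b' ≠ a ∧ (c * w) • b' = b' := by
    obtain ⟨-, -, x, y, hxy, hx, hy⟩ := hv
    by_cases h : x = a
    · exact ⟨y, fun h' => hxy (h.trans h'.symm), hy⟩
    · exact ⟨x, h, hx⟩
  have htc : t * (c * w) = (c * w) * t := by
    calc t * (c * w) = (t * c) * w := by group
      _ = c * (t * w) := by rw [← S.Zcen a c hc t ht]; group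
      _ = c * w * t := by rw [hwc t ((memT t).2 ⟨ht, htb⟩)]; group
  have h3 : (c * w) • t • b' = t • b' := by rw [← mul_smul, ← htc, mul_smul, hb']
  have h4 : t • b' ≠ a := by
    intro h
    have : t • b' = t • a := by rw [h, S.fix a t ht]
    exact hb'a (smul_left_cancel t this)
  obtain ⟨δ, hδ, hδb⟩ := R1 S hv hva hb' h3 hb'a h4
  have hδt := S.Zcen a δ hδ t ht
  have h5 : (δ * t) • b' = b' := by
    rw [mul_smul, ← hδb, ← mul_smul, S.Zsq a δ hδ, one_smul]
  have h6 : (t * t) • b' = b' := by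
    have h7 : (δ * t) * (δ * t) = t * t := by
      calc (δ * t) * (δ * t) = δ * (t * δ) * t := by group
        _ = (δ * δ) * (t * t) := by rw [← hδt]; group
        _ = t * t := by rw [S.Zsq a δ hδ, one_mul]
    rw [← h7, mul_smul, h5, h5]
  by_contra hne
  have h7 := (line_iff S hab ((U a).mul_mem ht ht) hne (by rw [mul_smul, htb, htb]) b').1 h6
  have h8 := (line_iff S hab ((memT w).1 hwT).1 h2 hwb b').2 h7
  rw [mul_smul, h8] at hb'
  exact hb'a (S.Zfix a c hc hc1 b' hb')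

theorem TT_of {a b : Ω} (hab : b ≠ a) {t : G} (ht : t ∈ U a) (htb : t • b = b) (ht1 : t ≠ 1) : TT Ω t :=
  ⟨sq_one S hab ht htb, ht1, a, b, hab.symm, S.fix a t ht, htb⟩

theorem comm_T {a b : Ω} (hab : b ≠ a) {s t : G} (hs : s ∈ U a) (hsb : s • b = b) (ht : t ∈ U a) (htb : t • b = b) :
    s * t = t * s := by
  have h1 := sq_one S hab hs hsb
  have h2 := sq_one S hab ht htb
  have h3 := sq_one S hab ((U a).mul_mem hs ht) (by rw [mul_smul, htb, hsb])
  have e1 : s⁻¹ = s := inv_eq_of_mul_eq_one_left h1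
  have e2 : t⁻¹ = t := inv_eq_of_mul_eq_one_left h2
  have e3 : (s * t)⁻¹ = s * t := inv_eq_of_mul_eq_one_left h3
  rw [mul_inv_rev, e1, e2] at e3
  exact e3.symm

/-- decomposition -/
theorem dec {w : G} (hw : TT Ω w) {d e : Ω} (hde : e ≠ d) (hwd : w • d = d) (hwe : w • e = e) {c : G} (hc : c ∈ Z d)
    (hc1 : c ≠ 1) {t : G} (ht : t ∈ U d) (hte : t • e = e) :
    ∃ δ ∈ Z d, δ * t ∈ U d ∧ ∀ x : Ω, (c * w) • x = x → (δ * t) • x = x := by
  have hv := S.hc w hw c d hc hc1 hwd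
  have hwU := two' S.toTwo hw.1 hwd
  have hvd : (c * w) • d = d := by rw [mul_smul, hwd, S.Zfix' hc]
  obtain ⟨b', hb'd, hb'⟩ : ∃ b' : Ω, b' ≠ d ∧ (c * w) • b' = b' := by
    obtain ⟨-, -, x, y, hxy, hx, hy⟩ := hv
    by_cases h : x = d
    · exact ⟨y, fun h' => hxy (h.trans h'.symm), hy⟩
    · exact ⟨x, h, hx⟩
  have htw := comm_T S hde ht hte hwU hwe
  have htc : t * (c * w) = (c * w) * t := by
    calc t * (c * w) = (t * c) * w := by group
      _ = c * (t * w) := by rw [← S.Zcen d c hc t ht]; group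
      _ = c * w * t := by rw [htw]; group
  have h3 : (c * w) • t • b' = t • b' := by rw [← mul_smul, ← htc, mul_smul, hb']
  have h4 : t • b' ≠ d := by
    intro h
    have : t • b' = t • d := by rw [h, S.fix d t ht]
    exact hb'd (smul_left_cancel t this)
  obtain ⟨δ, hδ, hδb⟩ := R1 S hv hvd hb' h3 hb'd h4
  refine ⟨δ, hδ, (U d).mul_mem (S.ZU d hδ) ht, ?_⟩
  intro x hx
  have h5 : (δ * t) • b' = b' := by
    rw [mul_smul, ← hδb, ← mul_smul, S.Zsq d δ hδ, one_smul]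
  by_cases hxd : x = d
  · rw [hxd, mul_smul, S.fix d t ht, S.Zfix' hδ]
  · obtain ⟨z, hz, hzx⟩ := R1 S hv hvd hb' hx hb'd hxd
    have h6 := S.Zcen d z hz (δ * t) ((U d).mul_mem (S.ZU d hδ) ht)
    rw [← hzx, ← mul_smul, ← h6, mul_smul, h5]

end

end Cfsg.Agent.Lib.NBN8
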