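import Cfsg.Agent.Lib.NBN8

set_option autoImplicit false
set_option linter.unusedSectionVars false
set_option linter.unusedVariables false
set_option linter.style.haveILetI false

/-!
# Two-transitive groups with nilpotent normal transitive subgroups of point stabilisers, IX (helper71)

The two-point stabilisers in `U a` have order two.
-/

namespace Cfsg.Agent.Lib.NBN9

open MulAction Cfsg.Agent.Lib.NBN1 Cfsg.Agent.Lib.NBN2 Cfsg.Agent.Lib.NBN3 Cfsg.Agent.Lib.NBN6 Cfsg.Agent.Lib.NBN7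
open Cfsg.Agent.Lib.NBN8

universe u v

theorem odd_pow_mul {G : Type*} [Group G] {x y : G} (hxy : x * y = y * x) (hy : y * y = 1) {N : ℕ} (hN : Odd N)
    (hx : orderOf x ∣ N) : (x * y) ^ N = y := by
  rw [(show Commute x y from hxy).mul_pow, orderOf_dvd_iff_pow_eq_one.1 hx, one_mul]
  obtain ⟨k, rfl⟩ := hN
  rw [pow_succ, pow_mul, pow_two, hy, one_pow, one_mul]

section
variable {G : Type u} {Ω : Type v} [Group G] [MulAction G Ω] {U Z : Ω → Subgroup G} [Finite G]
variable {q : ℕ}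

/-- the relation used in the count -/
def R (U Z : Ω → Subgroup G) (w : G) (e : Ω) (w' : G) : Prop :=
  ∃ (c : G) (d : Ω) (c' v : G), c ∈ Z d ∧ c ≠ 1 ∧ w • d = d ∧ c • e = w • e ∧ w • e ≠ e ∧ c' ∈ Z e ∧ c' ≠ 1 ∧
    v ∈ U e ∧ v • d = d ∧ v ≠ 1 ∧ w' = c' * v

variable (S : Thr U Z q)
include S

/-- first facts about `R` -/
theorem R_fact {w : G} (hw : TT Ω w) {e : Ω} {c : G} {d : Ω} {c' v : G} (hc : c ∈ Z d) (hc1 : c ≠ 1) (hd : w • d = d)
    (hce : c • e = w • e) (hwe : w • e ≠ e) (hc' : c' ∈ Z e) (hc1' : c' ≠ 1) (hv : v ∈ U e) (hvd : v • d = d)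
    (hv1 : v ≠ 1) : e ≠ d ∧ (c * w) • e = e ∧ c * w ∈ U d ∧ c * w ∈ U e ∧ v ∈ U d ∧ Odd (orderOf (c * c')) ∧
      c * c' ≠ 1 := by
  have hed : e ≠ d := by rintro rfl; exact hwe hd
  have hww := hw.1
  have k1 := wc_comm S.toTwo hww hc hd
  have h1 : (c * w) • e = e := by
    rw [mul_smul, ← hce, ← mul_smul, S.Zsq d c hc, one_smul]
  obtain ⟨h2, -, h3⟩ := inv_cw S.toTwo hw hc hd
  refine ⟨hed, h1, two' S.toTwo h2 h3, two' S.toTwo h2 h1, U_of S.toTwo hv hvd, S.odd_of hed.symm hc hc1 hc' hc1', ?_⟩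
  intro h
  have h4 : c' = c⁻¹ := (inv_eq_of_mul_eq_one_right h).symm
  have h5 : c' ∈ Z d := by rw [h4]; exact (Z d).inv_mem hc
  exact hed.symm (S.Zfix e c' hc' hc1' d (S.Zfix' h5))

theorem R_TT {w : G} (hw : TT Ω w) {e : Ω} {w' : G} (h : R U Z w e w') :
    TT Ω w' ∧ w' • e = e ∧ w • e ≠ e ∧ ∀ f : Ω, w • f = f → w' • f ≠ f := by
  obtain ⟨c, d, c', v, hc, hc1, hd, hce, hwe, hc', hc1', hv, hvd, hv1, rfl⟩ := h
  obtain ⟨hed, h1, h2, h3, h4, h5, h6⟩ := R_fact S hw hc hc1 hd hce hwe hc' hc1' hv hvd hv1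
  have hvTT : TT Ω v := TT_of S hed.symm hv hvd hv1
  have hve := S.fix e v hv
  refine ⟨S.hc v hvTT c' e hc' hc1' hve, by rw [mul_smul, hve, S.Zfix' hc'], hwe, ?_⟩
  intro f hf hf'
  have hw'U : c' * v ∈ U f := two' S.toTwo (S.hc v hvTT c' e hc' hc1' hve).1 hf'
  have hwU : w ∈ U f := two' S.toTwo hw.1 hf
  have h7 := (U f).mul_mem hwU hw'U
  have hcc := S.Zsq d c hc
  -- `w (c' v) = (c c') (v₀ v)` with `v₀ = c w`
  have hy : (c * w * v) * (c * w * v) = 1 :=
    sq_one S hed.symm ((U e).mul_mem h3 hv) (by rw [mul_smul, hvd, S.fix d _ h2])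
  have e1 : c' * (c * w) = (c * w) * c' := S.Zcen e c' hc' _ h3
  have e2 : c * (c * w) = (c * w) * c := S.Zcen d c hc _ h2
  have e3 : c' * (c * w * v) = (c * w * v) * c' := S.Zcen e c' hc' _ ((U e).mul_mem h3 hv)
  have e4 : c * (c * w * v) = (c * w * v) * c := S.Zcen d c hc _ ((U d).mul_mem h2 h4)
  have e5 : w * (c' * v) = (c * c') * (c * w * v) := by
    calc w * (c' * v) = (c * c) * w * c' * v := by rw [hcc]; group
      _ = c * ((c * w) * c') * v := by group
      _ = c * (c' * (c * w)) * v := by rw [e1]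
      _ = _ := by group
  have e6 : (c * c') * (c * w * v) = (c * w * v) * (c * c') := by
    calc (c * c') * (c * w * v) = c * (c' * (c * w * v)) := by group
      _ = (c * (c * w * v)) * c' := by rw [e3]; group
      _ = _ := by rw [e4]; group
  have e7 : (w * (c' * v)) ^ 2 = (c * c') ^ 2 := by
    rw [e5, (show Commute (c * c') (c * w * v) from e6).mul_pow, pow_two (c * w * v), hy, mul_one]
  have e8 : (c * c') ^ 2 ∈ U f := by rw [← e7]; exact (U f).pow_mem h7 2
  have e9 : Odd (orderOf ((c * c') ^ 2)) := Odd.of_dvd_nat h5 (orderOf_pow_dvd 2)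
  have e10 := odd_eq_one S.toTwo e8 e9
  have e11 : orderOf (c * c') ∣ 2 := orderOf_dvd_of_pow_eq_one e10
  have e12 : orderOf (c * c') = 1 := by
    rcases (Nat.dvd_prime Nat.prime_two).1 e11 with h | h
    · exact h
    · rw [h] at h5; exact absurd h5 (by decide)
  exact h6 (orderOf_eq_one_iff.1 e12)

/-- uniqueness when there is a further element -/
theorem R_unique {w : G} (hw : TT Ω w) {a b : Ω} (hab : b ≠ a) (ha : w • a = a) (hb : w • b = b) {t : G} (ht : t ∈ U a)
    (htb : t • b = b) (ht1 : t ≠ 1) (htw : t ≠ w) {e e' : Ω} {w' : G} (h : R U Z w e w') (h' : R U Z w e' w') :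
    e = e' := by
  have hwTT' := R_TT S hw h
  have hwTT'' := R_TT S hw h'
  have hwU := two' S.toTwo hw.1 ha
  -- `t` fixes the points fixed by `w`, and conversely
  have htl : ∀ x : Ω, t • x = x ↔ w • x = x := fun x =>
    (line_iff S hab ht ht1 htb x).trans (line_iff S hab hwU hw.2.1 hb x).symm
  have htt := sq_one S hab ht htb
  have htcw := comm_T S hab ht htb hwU hb
  -- the key construction
  have key : ∀ {e : Ω}, R U Z w e w' → ∃ (d : Ω) (y z : G) (N : ℕ), Odd N ∧ w • d = d ∧ e ≠ d ∧ w' • d ≠ d ∧ y ≠ z ∧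
      y ∈ U d ∧ y • e = e ∧ z ∈ U d ∧ z • e = e ∧ (∀ M : ℕ, Odd M → N ∣ M → (w * w') ^ M = y ∧ (t * w') ^ M = z) := by
    intro e h
    obtain ⟨c, d, c', v, hc, hc1, hd, hce, hwe, hc', hc1', hv, hvd, hv1, hww'⟩ := h
    obtain ⟨hed, h1, h2, h3, h4, h5, h6⟩ := R_fact S hw hc hc1 hd hce hwe hc' hc1' hv hvd hv1
    have htd : t • d = d := (htl d).2 hd
    have htUd : t ∈ U d := two' S.toTwo htt htd
    obtain ⟨g, hg, hgd⟩ : ∃ g : Ω, w • g = g ∧ g ≠ d := by
      by_cases hh : a = d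
      · exact ⟨b, hb, fun h' => hab (h'.trans hh.symm)⟩
      · exact ⟨a, ha, hh⟩
    obtain ⟨δ, hδ, hδU, hδf⟩ := dec S hw hgd hd hg hc hc1 htUd ((htl g).2 hg)
    have hue : (δ * t) • e = e := hδf e h1
    have hδδ := S.Zsq d δ hδ
    have hδ1 : δ ≠ 1 := by
      rintro rfl
      rw [one_mul] at hue
      exact hwe ((htl e).1 hue)
    have hUe : δ * t ∈ U e := U_of S.toTwo hδU hue
    have hδt := S.Zcen d δ hδ t htUd
    have hwUd := two' S.toTwo hw.1 hd
    have hcw := S.Zcen d c hc w hwUd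
    have hcδ := S.Zcen d c hc δ (S.ZU d hδ)
    have ho2 := S.odd_of hed.symm hδ hδ1 hc' hc1'
    refine ⟨d, c * w * v, δ * t * v, orderOf (c * c') * orderOf (δ * c'), h5.mul ho2, hd, hed, hwTT'.2.2.2 d hd, ?_,
      (U d).mul_mem h2 h4, by rw [mul_smul, S.fix e v hv, h1], (U d).mul_mem hδU h4,
      by rw [mul_smul, S.fix e v hv, hue], ?_⟩
    · intro hyz
      have h8 : c * w = δ * t := mul_right_cancel hyz
      -- `t w = δ c`
      have h9 : t * w = δ * c := by
        calc t * w = (δ * δ) * t * w := by rw [hδδ, one_mul]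
          _ = δ * (δ * t) * w := by group
          _ = δ * (c * w) * w := by rw [h8]
          _ = δ * c * (w * w) := by group
          _ = δ * c := by rw [hw.1, mul_one]
      by_cases h10 : δ * c = 1
      · rw [h10] at h9
        apply htw
        have : t = w⁻¹ := eq_inv_of_mul_eq_one_left h9
        rw [this]; exact inv_eq_of_mul_eq_one_left hw.1
      · have h11 := S.Zfix d _ ((Z d).mul_mem hδ hc) h10 g (by
          rw [← h9, mul_smul, hg, (htl g).2 hg])
        exact hgd h11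
    · intro M hM hNM
      have e1 : c' * (c * w) = (c * w) * c' := S.Zcen e c' hc' _ h3
      have e1' : c' * (δ * t) = (δ * t) * c' := S.Zcen e c' hc' _ hUe
      have e3 : c' * (c * w * v) = (c * w * v) * c' := S.Zcen e c' hc' _ ((U e).mul_mem h3 hv)
      have e3' : c' * (δ * t * v) = (δ * t * v) * c' := S.Zcen e c' hc' _ ((U e).mul_mem hUe hv)
      have e4 : c * (c * w * v) = (c * w * v) * c := S.Zcen d c hc _ ((U d).mul_mem h2 h4)
      have e4' : δ * (δ * t * v) = (δ * t * v) * δ := S.Zcen d δ hδ _ ((U d).mul_mem hδU h4)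
      have e5 : w * w' = (c * c') * (c * w * v) := by
        rw [hww']
        calc w * (c' * v) = (c * c) * w * c' * v := by rw [S.Zsq d c hc]; group
          _ = c * ((c * w) * c') * v := by group
          _ = c * (c' * (c * w)) * v := by rw [e1]
          _ = _ := by group
      have e5' : t * w' = (δ * c') * (δ * t * v) := by
        rw [hww']
        calc t * (c' * v) = (δ * δ) * t * c' * v := by rw [hδδ]; group
          _ = δ * ((δ * t) * c') * v := by group
          _ = δ * (c' * (δ * t)) * v := by rw [e1']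
          _ = _ := by group
      have e6 : (c * c') * (c * w * v) = (c * w * v) * (c * c') := by
        calc (c * c') * (c * w * v) = c * (c' * (c * w * v)) := by group
          _ = (c * (c * w * v)) * c' := by rw [e3]; group
          _ = _ := by rw [e4]; group
      have e6' : (δ * c') * (δ * t * v) = (δ * t * v) * (δ * c') := by
        calc (δ * c') * (δ * t * v) = δ * (c' * (δ * t * v)) := by group
          _ = (δ * (δ * t * v)) * c' := by rw [e3']; group
          _ = _ := by rw [e4']; group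
      have hy : (c * w * v) * (c * w * v) = 1 :=
        sq_one S hed.symm ((U e).mul_mem h3 hv) (by rw [mul_smul, hvd, S.fix d _ h2])
      have hy' : (δ * t * v) * (δ * t * v) = 1 :=
        sq_one S hed.symm ((U e).mul_mem hUe hv) (by rw [mul_smul, hvd, S.fix d _ hδU])
      refine ⟨?_, ?_⟩
      · rw [e5]; exact odd_pow_mul e6 hy hM ((dvd_mul_right _ _).trans hNM)
      · rw [e5']; exact odd_pow_mul e6' hy' hM ((dvd_mul_left _ _).trans hNM)
  obtain ⟨d, y, z, N, hN, hd, hed, hw'd, hyz, hy, hye, hz, hze, hM⟩ := key h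
  obtain ⟨d', y', z', N', hN', hd', hed', hw'd', hyz', hy', hye', hz', hze', hM'⟩ := key h'
  obtain ⟨h1, h2⟩ := hM (N * N') (hN.mul hN') (dvd_mul_right _ _)
  obtain ⟨h3, h4⟩ := hM' (N * N') (hN.mul hN') (dvd_mul_left _ _)
  have h5 : y = y' := h1.symm.trans h3
  have h6 : z = z' := h2.symm.trans h4
  by_contra hee
  -- a non-trivial common element
  obtain ⟨x, hx1, hxd, hxe, hxd', hxe'⟩ : ∃ x : G, x ≠ 1 ∧ x ∈ U d ∧ x • e = e ∧ x ∈ U d' ∧ x • e' = e' := by
    by_cases hy1 : y = 1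
    · exact ⟨z, fun hz1 => hyz (hy1.trans hz1.symm), hz, hze, h6 ▸ hz', h6 ▸ hze'⟩
    · exact ⟨y, hy1, hy, hye, h5 ▸ hy', h5 ▸ hye'⟩
  have hxU : x ∈ U e := U_of S.toTwo hxd hxe
  have h7 := (line_iff S (Ne.symm hee) hxU hx1 hxe' d).1 (S.fix d x hxd)
  have h8 : w' ∈ U e := two' S.toTwo hwTT'.1.1 hwTT'.2.1
  have h9 := (line_iff S (Ne.symm hee) h8 hwTT'.1.2.1 hwTT''.2.1 d).2 h7
  exact hw'd h9

end

end Cfsg.Agent.Lib.NBN9
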