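import Mathlib
import Cfsg.Agent.Lib.AbDefect
import Cfsg.Agent.Lib.InducedPair
import Cfsg.Agent.Lib.BlkTransport
import Cfsg.Agent.Lib.BlockTransfer
import Cfsg.Agent.Lib.BlockSecond2
import Cfsg.Agent.Lib.BrCorr
import Cfsg.Agent.Lib.BlkSat

set_option autoImplicit false
set_option linter.all false

/-!
# Nested defect groups of induced blocks
-/

namespace Cfsg.Agent.Lib.NestDef

open Cfsg Cfsg.Agent.Lib.BlockRing Cfsg.Agent.Lib.BlockGA Cfsg.Agent.Lib.BlockIdem
open Cfsg.Agent.Lib.BlockAlg Cfsg.Agent.Lib.BlkIdem Cfsg.Agent.Lib.BrauerPairs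
open Cfsg.Agent.Lib.PairAlg Cfsg.Agent.Lib.PairMax Cfsg.Agent.Lib.InducedPair Cfsg.Agent.Lib.BlkTransport
open Cfsg.Agent.Lib.BlockTransfer (trB trI subE)

universe u

variable {G : Type u} [Group G] [Finite G] {p : ℕ} [hp : Fact p.Prime] {M : Ideal AlgInt} [hMm : M.IsMaximal]
  [hchar : CharP (Kf M) p]

theorem isInducedBlock_of_trans {H K : Subgroup G} (hHK : H ≤ K) {b : Set (IrrCharacter H)}
    {β : Set (IrrCharacter K)} {B : Set (IrrCharacter G)} (hb : IsPBlock M b)
    (h1 : IsInducedBlock M (H.subgroupOf K) (trB (subE hHK) b) β) (h2 : IsInducedBlock M H b B) :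
    IsInducedBlock M K β B := by
  have := hMm.isPrime
  obtain ⟨ξ, hξ⟩ := isPBlock_nonempty hb
  obtain ⟨ζ, hζ⟩ := isPBlock_nonempty h1.2.1
  obtain ⟨χ, hχ⟩ := isPBlock_nonempty h2.2.1
  apply BlockInd.isInducedBlock_of_omega h1.2.1 h2.2.1 hζ hχ
  intro g
  have h3 := BlockInd.induced_omega h1 (BlockTransfer.trI_mem_trB.2 hξ) hζ (BlockRes.resH_center (classSum_mem_center g))
    (BlockRes.locA_resH (locA_classSum g))
  have h4 := BlockInd.induced_omega h2 hξ hχ (classSum_mem_center g) (locA_classSum g)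
  rw [BlockTransfer.coe_trI, BlockTransfer.omega_resH_resH] at h3
  exact idl_sub_trans (idl_sub_symm h3) h4

theorem exists_pair {b : MonoidAlgebra (Kf M) G} (hb : IsBlk ⊤ b) {D : Subgroup G} (hD : IsPGroup p D)
    (hne : BrauerMap.br D b ≠ 0) :
    ∃ e, BPair p D e ∧ BrauerMap.br D b * e = e := by
  classical
  obtain ⟨s, hs, hsum⟩ := hasBlocks (M := M) (G := G) (Subgroup.centralizer (D : Set G))
  by_contra hcon
  push Not at hcon
  apply hne
  have hmem : BrauerMap.br D b ∈ BrauerMap.ZAlg (Kf M) (Subgroup.centralizer (D : Set G)) := by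
    refine ⟨BrauerMap.br_mem_suppAlg D b, ?_⟩
    exact BrauerMap.br_mem_fixAlg (centralizer_le_normalizer D) (BrauerMap.fixAlg_anti le_top hb.mem.2)
  have hid : BrauerMap.br D b * BrauerMap.br D b = BrauerMap.br D b := by
    rw [← BrauerMap.br_mul hD (BrauerMap.fixAlg_anti le_top hb.mem.2) (BrauerMap.fixAlg_anti le_top hb.mem.2), hb.idem]
  calc BrauerMap.br D b = BrauerMap.br D b * ∑ e ∈ s, e := by rw [hsum, mul_one]
    _ = ∑ e ∈ s, BrauerMap.br D b * e := Finset.mul_sum _ _ _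
    _ = 0 := by
      apply Finset.sum_eq_zero
      intro e he
      rcases (hs e he).mul_idem hmem hid with h | h
      · exact absurd h (hcon e ⟨hD, hs e he⟩)
      · exact h

theorem main (hM : IsPModular p M) (H : Subgroup G) {b : Set (IrrCharacter H)}
    (hb : IsPBlock M b) {D₀ : Subgroup H} (hD₀ : IsDefectGroup p M b D₀)
    (hC : Subgroup.centralizer ((D₀.map H.subtype : Subgroup G) : Set G) ≤ H) :
    ∃ B : Set (IrrCharacter G), IsInducedBlock M H b B ∧ ∃ D : Subgroup G, IsDefectGroup p M B D ∧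
      (Subgroup.center D).map D.subtype ≤ D₀.map H.subtype ∧ D₀.map H.subtype ≤ D := by
  classical
  have := hMm.isPrime
  have hb' := hasBlocks (M := M) (G := G)
  set D₁ : Subgroup G := D₀.map H.subtype with hD₁
  have hD₁H : D₁ ≤ H := BlkSat.map_subtype_le D₀
  have hsub : D₁.subgroupOf H = D₀ := BlkSat.subgroupOf_map_subtype D₀
  set C₁ : Subgroup G := Subgroup.centralizer (D₁ : Set G) with hC₁
  -- a pair of `b`
  have hDG := (isDefectGroup_iff hb).1 hD₀
  obtain ⟨e', he', hbe'⟩ := exists_pair (isBlk_bidG hb) hDG.pg hDG.ne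
  have hmax' : MaxPair p D₀ e' := AbDefect.maxPair_of_defectGroup hb hD₀ hbe'
  -- the pair in `G`
  have he : BPair p D₁ (inc H e') := by
    rw [bpair_inc_iff hD₁H hC, hsub]
    exact he'
  obtain ⟨D, f, hPLE, hDf, hmax⟩ := exists_maxPair hb' he
  obtain ⟨B', hB', hBf⟩ := exists_blk_of_pair hb' hDf
  obtain ⟨B, hB, rfl⟩ := exists_bidG hB'
  have hBe : BrauerMap.br D₁ (bidG M B) * inc H e' = inc H e' := ple_blk_down' hb' hB' hPLE he hBf
  -- the blocks
  obtain ⟨e₁, he₁, he₁'⟩ := exists_bid he.2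
  have hind1 : IsInducedBlock M C₁ e₁ B := by
    rw [isInducedBlock_iff_br (P := D₁) rfl he.1 he₁ hB, he₁']
    exact hBe
  have hind2 : IsInducedBlock M (C₁.subgroupOf H) (trB (subE hC) e₁) b := by
    rw [isInducedBlock_iff_br (P := D₀) (by rw [← hsub]; exact (centralizer_subgroupOf hD₁H).symm) he'.1
      (BlockTransfer.isPBlock_tr he₁) hb]
    have h1 : bid M (C₁.subgroupOf H) (trB (subE hC) e₁) = e' := by
      apply inc_injective (M := M) H
      rw [← BrCorr.irrMap_eq_trB, inc_bid hC, he₁']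
    rw [h1, hbe']
  have hind := isInducedBlock_of_trans hC he₁ hind2 hind1
  refine ⟨B, hind, D, ?_, ?_, hPLE.le⟩
  · rw [isDefectGroup_iff hB]
    refine ⟨hDf.1, le_top, ?_, hmax.defIn hb' hB' hDf hBf⟩
    intro h
    rw [h, zero_mul] at hBf
    exact hDf.2.ne_zero hBf.symm
  · set Z : Subgroup G := (Subgroup.center D).map D.subtype with hZ
    have hD₁D : D₁ ≤ D := hPLE.le
    have hZD : Z ≤ D := BlkSat.map_subtype_le _
    have hZC : Z ≤ C₁ := by
      rintro _ ⟨z, hz, rfl⟩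
      rw [hC₁, Subgroup.mem_centralizer_iff]
      intro x hx
      exact congrArg Subtype.val (Subgroup.mem_center_iff.1 hz ⟨x, hD₁D hx⟩)
    set S : Subgroup G := D₁ ⊔ Z with hS
    have hSD : S ≤ D := sup_le hD₁D hZD
    have hSH : S ≤ H := sup_le hD₁H (hZC.trans hC)
    obtain ⟨s, hs⟩ := exists_sub hb' hDf hSD
    have h1 : PLE p (D₁, inc H e') (S, s) := PLE.of_le hb' hDf hPLE hs le_sup_left
    have hSp : BPair p S s := hs.pair hDf
    have h2 : NLE p D₁ (inc H e') S s := h1.nle hb' hSp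
      (sup_le Subgroup.le_normalizer (hZC.trans (centralizer_le_normalizer D₁)))
    have hCS : Subgroup.centralizer (S : Set G) ≤ H := by
      have h : (D₁ : Set G) ⊆ (S : Set G) := fun x hx => (le_sup_left : D₁ ≤ S) hx
      exact (Subgroup.centralizer_le h).trans hC
    obtain ⟨s', rfl⟩ := exists_inc (M := M) hCS hSp.2.mem.1
    have h3 := (nle_inc_iff hD₁H hSH hC hCS).1 h2
    rw [hsub] at h3
    have h4 := hmax' _ _ h3
    intro z hz
    have hzS : z ∈ S := (le_sup_right : Z ≤ S) hz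
    have h5 : (⟨z, hSH hzS⟩ : H) ∈ S.subgroupOf H := hzS
    rw [h4] at h5
    exact ⟨_, h5, rfl⟩

theorem result (hM : IsPModular p M) (H : Subgroup G) {b : Set (IrrCharacter H)}
    (hb : IsPBlock M b) {D₀ : Subgroup H} (hD₀ : IsDefectGroup p M b D₀)
    (hC : Subgroup.centralizer ((D₀.map H.subtype : Subgroup G) : Set G) ≤ H) :
    InducedBlockDefined M H b ∧ ∀ B : Set (IrrCharacter G), IsInducedBlock M H b B →
      (∃ D : Subgroup G, IsDefectGroup p M B D ∧
        (Subgroup.center D).map D.subtype ≤ ((Subgroup.center D₀).map D₀.subtype).map H.subtype ∧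
        ((Subgroup.center D₀).map D₀.subtype).map H.subtype ≤ D₀.map H.subtype ∧ D₀.map H.subtype ≤ D) ∧
      (∀ D : Subgroup G, IsDefectGroup p M B D → IsMulCommutative D → IsDefectGroup p M B (D₀.map H.subtype)) := by
  have := hMm.isPrime
  obtain ⟨B, hB, D, hD, h1, h2⟩ := main hM H hb hD₀ hC
  refine ⟨⟨B, hB⟩, ?_⟩
  intro B' hB'
  have hBB : B' = B := BlockInd.induced_unique hB' hB
  subst hBB
  refine ⟨⟨D, hD, ?_, ?_, h2⟩, ?_⟩
  · rintro _ ⟨z, hz, rfl⟩
    obtain ⟨y, hy, hyz⟩ := h1 ⟨z, hz, rfl⟩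
    refine ⟨y, ⟨⟨y, hy⟩, ?_, rfl⟩, hyz⟩
    rw [SetLike.mem_coe, Subgroup.mem_center_iff]
    intro x
    apply Subtype.ext
    apply Subtype.ext
    have h3 := Subgroup.mem_center_iff.1 hz ⟨((x : H) : G), h2 ⟨x, x.2, rfl⟩⟩
    have h4 := congrArg Subtype.val h3
    change ((x : H) : G) * ((z : D) : G) = (z : G) * ((x : H) : G) at h4
    have h5 : ((y : H) : G) = z := hyz
    change ((x : H) : G) * (y : G) = (y : G) * ((x : H) : G)
    rw [h5, h4]
  · apply Subgroup.map_mono
    exact BlkSat.map_subtype_le _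
  · intro D' hD' hab
    obtain ⟨x, hx⟩ := BlockDefect.defectGroup_conj hM hB.2.1 hD' hD
    have hDD : D ≤ D₀.map H.subtype := by
      refine le_trans ?_ h1
      intro d hd
      refine ⟨⟨d, hd⟩, ?_, rfl⟩
      rw [SetLike.mem_coe, Subgroup.mem_center_iff]
      intro y
      apply Subtype.ext
      change (y : G) * d = d * y
      obtain ⟨y, hy⟩ := y
      change y * d = d * y
      rw [hx] at hd hy
      obtain ⟨d', hd', rfl⟩ := hd
      obtain ⟨y', hy', hyy⟩ := hy
      rw [← hyy, ← map_mul, ← map_mul]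
      congr 1
      exact congrArg Subtype.val (hab.is_comm.comm (⟨y', hy'⟩ : D') ⟨d', hd'⟩)
    rw [le_antisymm h2 hDD]
    exact hD

end Cfsg.Agent.Lib.NestDef
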