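import Mathlib

/-!
# Norms in finite rings with involution (helper44)

* `exists_sq_sub`: in a finite commutative ring with `2` invertible, `x² - d y²` represents every unit (`d` a unit);
* `exists_norm_odd`, `exists_norm_two`: in a finite star ring every self-adjoint unit `h` commuting with a skew unit
  `δ` (resp. with `λ`, `λ + λ* = 1`, in characteristic two) has the form `star c * c`, with `c` in the commutative
  ring generated by `h` and `δ` (resp. `λ`).
-/

set_option autoImplicit false

namespace Cfsg.Agent.Lib.NormRing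

section comm

variable {R : Type*} [CommRing R]

theorem sq_of_nilpotent (h2 : IsUnit (2 : R)) (n : ℕ) : ∀ j : R, j ^ (2 ^ n) = 0 → ∃ w, w ^ 2 = 1 + j := by
  obtain ⟨t, ht⟩ := h2.exists_right_inv
  induction n with
  | zero => intro j hj; exact ⟨1, by simpa using hj⟩
  | succ n ih =>
    intro j hj
    have hnil : IsNilpotent (t * j) := ⟨2 ^ (n + 1), by rw [mul_pow, hj, mul_zero]⟩
    obtain ⟨u, hu⟩ := (IsNilpotent.isUnit_one_add hnil).exists_right_inv
    obtain ⟨w, hw⟩ := ih (- (t ^ 2 * j ^ 2 * u ^ 2)) (by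
      rw [neg_eq_neg_one_mul, mul_pow, mul_pow, mul_pow, ← pow_mul, ← pow_mul, mul_comm 2 (2 ^ n), ← pow_succ, hj]
      ring)
    refine ⟨(1 + t * j) * w, ?_⟩
    rw [mul_pow, hw]
    linear_combination (j) * ht - (t ^ 2 * j ^ 2) * ((1 + t * j) * u + 1) * hu

theorem field_case {L : Type*} [Field L] [Finite L] (h2 : (2 : L) ≠ 0) {d h : L} (hd : d ≠ 0) :
    ∃ x y, x ^ 2 - d * y ^ 2 = h := by
  classical
  letI := Fintype.ofFinite L
  have hodd : Fintype.card L % 2 = 1 := by
    apply FiniteField.odd_card_of_char_ne_two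
    intro hc
    apply h2
    have : CharP L 2 := by rw [← hc]; exact ringChar.charP L
    exact CharTwo.two_eq_zero
  obtain ⟨a, b, hab⟩ := FiniteField.exists_root_sum_quadratic (R := L) (f := Polynomial.X ^ 2 - Polynomial.C h)
    (g := Polynomial.C (-d) * Polynomial.X ^ 2) (by compute_degree!) (by compute_degree!) hodd
  refine ⟨a, b, ?_⟩
  simp at hab
  linear_combination hab

theorem reduced_case [Finite R] [IsReduced R] (h2 : IsUnit (2 : R)) {d h : R} (hd : IsUnit d) :
    ∃ x y, x ^ 2 - d * y ^ 2 = h := by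
  have key : ∀ I : MaximalSpectrum R, ∃ x y : R ⧸ I.asIdeal, x ^ 2 - Ideal.Quotient.mk _ d * y ^ 2 =
      Ideal.Quotient.mk _ h := by
    intro I
    haveI := I.isMaximal
    letI : Field (R ⧸ I.asIdeal) := Ideal.Quotient.field _
    haveI : Finite (R ⧸ I.asIdeal) := Finite.of_surjective _ Ideal.Quotient.mk_surjective
    apply field_case
    · have := (h2.map (Ideal.Quotient.mk I.asIdeal)).ne_zero
      rwa [map_ofNat] at this
    · exact (hd.map (Ideal.Quotient.mk I.asIdeal)).ne_zero
  choose x y hxy using key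
  refine ⟨(IsArtinianRing.equivPi R).symm x, (IsArtinianRing.equivPi R).symm y, ?_⟩
  apply (IsArtinianRing.equivPi R).injective
  rw [map_sub, map_mul, map_pow, map_pow, AlgEquiv.apply_symm_apply, AlgEquiv.apply_symm_apply]
  funext I
  have := hxy I
  simp only [Pi.sub_apply, Pi.mul_apply, Pi.pow_apply, IsArtinianRing.equivPi_apply]
  exact this

/-- in a finite commutative ring with `2` invertible, `x² - d y²` represents every unit. -/
theorem exists_sq_sub [Finite R] (h2 : IsUnit (2 : R)) {d h : R} (hd : IsUnit d) (hh : IsUnit h) :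
    ∃ x y, x ^ 2 - d * y ^ 2 = h := by
  let N := nilradical R
  haveI : IsReduced (R ⧸ N) := by
    rw [← Ideal.isRadical_iff_quotient_reduced]
    exact (Ideal.radical_isRadical _)
  haveI : Finite (R ⧸ N) := Finite.of_surjective _ Ideal.Quotient.mk_surjective
  obtain ⟨x, y, hxy⟩ := reduced_case (R := R ⧸ N) (by
    have := h2.map (Ideal.Quotient.mk N)
    rwa [map_ofNat] at this) (d := Ideal.Quotient.mk N d) (h := Ideal.Quotient.mk N h) (hd.map _)
  obtain ⟨x, rfl⟩ := Ideal.Quotient.mk_surjective x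
  obtain ⟨y, rfl⟩ := Ideal.Quotient.mk_surjective y
  have h1 : x ^ 2 - d * y ^ 2 - h ∈ N := by
    rw [← Ideal.Quotient.eq_zero_iff_mem, map_sub, map_sub, map_mul, map_pow, map_pow, hxy, sub_self]
  obtain ⟨u, hu⟩ := hh.exists_right_inv
  have hnil : IsNilpotent (u * (x ^ 2 - d * y ^ 2 - h)) := by
    have : IsNilpotent (x ^ 2 - d * y ^ 2 - h) := h1
    obtain ⟨n, hn⟩ := this
    exact ⟨n, by rw [mul_pow, hn, mul_zero]⟩
  obtain ⟨n, hn⟩ := hnil
  obtain ⟨w, hw⟩ := sq_of_nilpotent h2 n _ (pow_eq_zero_of_le (Nat.lt_two_pow_self).le hn)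
  have hwu : IsUnit (w ^ 2) := by
    rw [hw]
    exact IsNilpotent.isUnit_one_add ⟨n, hn⟩
  obtain ⟨v, hv⟩ := (isUnit_pow_iff two_ne_zero |>.1 hwu).exists_right_inv
  refine ⟨x * v, y * v, ?_⟩
  have e1 : x ^ 2 - d * y ^ 2 = h * w ^ 2 := by
    rw [hw]
    linear_combination (-(x ^ 2 - d * y ^ 2 - h)) * hu
  have e2 : (w * v) ^ 2 = 1 := by rw [hv, one_pow]
  linear_combination v ^ 2 * e1 + h * e2

end comm

section star

variable {R : Type*} [CommRing R] [StarRing R]

theorem norm_of_nilpotent {l : R} (hl : l + star l = 1) (n : ℕ) : ∀ j : R, star j = j → j ^ (2 ^ n) = 0 →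
    ∃ c, star c * c = 1 + j := by
  induction n with
  | zero => intro j _ hj; exact ⟨1, by simpa using hj⟩
  | succ n ih =>
    intro j hsj hj
    have hnil : IsNilpotent (j * (1 + star l * l * j)) := ⟨2 ^ (n + 1), by rw [mul_pow, hj, zero_mul]⟩
    obtain ⟨u, hu⟩ := (IsNilpotent.isUnit_one_add hnil).exists_right_inv
    have hsu : star u = u := by
      have h1 : (1 + j * (1 + star l * l * j)) * star u = 1 := by
        have := congrArg star hu
        simp only [star_mul', star_add, star_one, star_star, hsj] at this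
        linear_combination this
      have h3 : star u = (u * (1 + j * (1 + star l * l * j))) * star u := by rw [mul_comm u, hu, one_mul]
      rw [h3, mul_assoc, h1, mul_one]
    obtain ⟨c, hc⟩ := ih (- (star l * l * j ^ 2 * u)) (by
      simp only [star_neg, star_mul', star_pow, star_star, hsj, hsu]; ring) (by
      rw [neg_eq_neg_one_mul, mul_pow, mul_pow, mul_pow, ← pow_mul, mul_comm 2 (2 ^ n), ← pow_succ, hj]
      ring)
    refine ⟨(1 + l * j) * c, ?_⟩
    have e : star ((1 + l * j) * c) * ((1 + l * j) * c) = (1 + star l * j) * (1 + l * j) * (star c * c) := by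
      simp only [star_mul', star_add, star_one, hsj]; ring
    rw [e, hc]
    linear_combination (j - star l * l * j ^ 3 * u) * hl - (star l * l * j ^ 2) * hu

/-- norms in characteristic two -/
theorem exists_norm_two_comm [Finite R] (h2 : (2 : R) = 0) {l : R} (hl : l + star l = 1) {h : R} (hh : IsUnit h)
    (hs : star h = h) : ∃ c, star c * c = h := by
  rcases subsingleton_or_nontrivial R with hR | hR
  · exact ⟨0, Subsingleton.elim _ _⟩
  haveI : CharP R 2 := CharTwo.of_one_ne_zero_of_two_eq_zero one_ne_zero h2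
  obtain ⟨k, l', hkl, hpow⟩ : ∃ k m : ℕ, 0 < m ∧ h ^ (2 ^ k) = h ^ (2 ^ (k + m)) := by
    obtain ⟨a, b, hab, he⟩ := Finite.exists_ne_map_eq_of_infinite (fun n : ℕ => h ^ (2 ^ n))
    rcases lt_or_gt_of_ne hab with hlt | hlt
    · exact ⟨a, b - a, by omega, by rw [Nat.add_sub_cancel' hlt.le]; exact he⟩
    · exact ⟨b, a - b, by omega, by rw [Nat.add_sub_cancel' hlt.le]; exact he.symm⟩
  obtain ⟨m, rfl⟩ : ∃ m, l' = m + 1 := ⟨l' - 1, by omega⟩
  have hn : (h - (h ^ (2 ^ m)) ^ 2) ^ (2 ^ k) = 0 := by
    rw [sub_pow_char_pow, hpow, ← pow_mul, ← pow_mul, sub_eq_zero]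
    congr 1
    ring
  obtain ⟨v, hv⟩ := ((hh.pow (2 ^ m)).pow 2).exists_right_inv
  have hsv : star v = v := by
    have h1 : (h ^ (2 ^ m)) ^ 2 * star v = 1 := by
      have := congrArg star hv
      simp only [star_mul', star_pow, star_one, hs] at this
      exact this
    have h3 : star v = (v * (h ^ (2 ^ m)) ^ 2) * star v := by rw [mul_comm v, hv, one_mul]
    rw [h3, mul_assoc, h1, mul_one]
  obtain ⟨c, hc⟩ := norm_of_nilpotent hl k (v * (h - (h ^ (2 ^ m)) ^ 2)) (by
    simp only [star_mul', star_sub, star_pow, hs, hsv]) (by rw [mul_pow, hn, mul_zero])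
  refine ⟨h ^ (2 ^ m) * c, ?_⟩
  have e : star (h ^ (2 ^ m) * c) * (h ^ (2 ^ m) * c) = (h ^ (2 ^ m)) ^ 2 * (star c * c) := by
    simp only [star_mul', star_pow, hs]; ring
  rw [e, hc]
  linear_combination (h - (h ^ (2 ^ m)) ^ 2) * hv

/-- the subring of self-adjoint elements -/
def fixedSub (R : Type*) [CommRing R] [StarRing R] : Subring R where
  carrier := {a | star a = a}
  mul_mem' {a b} ha hb := by simp only [Set.mem_setOf_eq] at *; rw [star_mul', ha, hb]
  one_mem' := star_one _
  add_mem' {a b} ha hb := by simp only [Set.mem_setOf_eq] at *; rw [star_add, ha, hb]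
  zero_mem' := star_zero _
  neg_mem' {a} ha := by simp only [Set.mem_setOf_eq] at *; rw [star_neg, ha]

theorem isUnit_fixed {a : R} (ha : star a = a) (hu : IsUnit a) : IsUnit (⟨a, ha⟩ : fixedSub R) := by
  obtain ⟨v, hv⟩ := hu.exists_right_inv
  have hsv : star v = v := by
    have h1 : a * star v = 1 := by
      have := congrArg star hv
      simp only [star_mul', star_one, ha] at this
      exact this
    have h3 : star v = (v * a) * star v := by rw [mul_comm v, hv, one_mul]
    rw [h3, mul_assoc, h1, mul_one]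
  exact IsUnit.of_mul_eq_one ⟨v, hsv⟩ (Subtype.ext hv)

/-- norms, `2` invertible -/
theorem exists_norm_odd_comm [Finite R] (h2 : IsUnit (2 : R)) {δ : R} (hδ : IsUnit δ) (hδs : star δ = - δ)
    {h : R} (hh : IsUnit h) (hs : star h = h) : ∃ c, star c * c = h := by
  have h2s : star (2 : R) = 2 := by
    have : (2 : R) = 1 + 1 := by norm_num
    rw [this, star_add, star_one]
  have hd : star (δ ^ 2) = δ ^ 2 := by rw [star_pow, hδs]; ring
  obtain ⟨x, y, hxy⟩ := exists_sq_sub (R := fixedSub R) (isUnit_fixed h2s h2) (isUnit_fixed hd (hδ.pow 2))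
    (isUnit_fixed hs hh)
  have hxy' := congrArg Subtype.val hxy
  have hx : star (x : R) = x := x.2
  have hy : star (y : R) = y := y.2
  refine ⟨x + δ * y, ?_⟩
  have e : star ((x : R) + δ * y) * (x + δ * y) = (x : R) ^ 2 - δ ^ 2 * (y : R) ^ 2 := by
    simp only [star_add, star_mul', hx, hy, hδs]; ring
  rw [e]
  exact hxy'

end star

section noncomm

universe u

variable {M : Type u} [Ring M] [Finite M]

theorem isUnit_of_mem (A : Subring M) {a : M} (ha : a ∈ A) (hu : IsUnit a) : IsUnit (⟨a, ha⟩ : A) := by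
  obtain ⟨u, rfl⟩ := hu
  obtain ⟨n, hn, h⟩ := (isOfFinOrder_iff_pow_eq_one.1 (isOfFinOrder_of_finite u))
  have h1 : (u : M) ^ n = 1 := by rw [← Units.val_pow_eq_pow_val, h, Units.val_one]
  obtain ⟨m, rfl⟩ : ∃ m, n = m + 1 := ⟨n - 1, by omega⟩
  have e1 : (⟨u, ha⟩ : A) * ⟨u, ha⟩ ^ m = 1 := by
    apply Subtype.ext
    change (u : M) * (u : M) ^ m = 1
    rw [← pow_succ', h1]
  have e2 : (⟨u, ha⟩ : A) ^ m * ⟨u, ha⟩ = 1 := by
    apply Subtype.ext
    change (u : M) ^ m * (u : M) = 1
    rw [← pow_succ, h1]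
  exact ⟨⟨⟨u, ha⟩, ⟨u, ha⟩ ^ m, e1, e2⟩, rfl⟩

variable [StarRing M]

theorem closure_comm {a b : M} (hab : Commute a b) {x y : M} (hx : x ∈ Subring.closure ({a, b} : Set M))
    (hy : y ∈ Subring.closure ({a, b} : Set M)) : x * y = y * x := by
  have hcomm : ∀ u ∈ ({a, b} : Set M), ∀ v ∈ ({a, b} : Set M), u * v = v * u := by
    rintro u (rfl | rfl) v (rfl | rfl)
    · rfl
    · exact hab
    · exact hab.symm
    · rfl
  have := Subring.closureCommRingOfComm hcomm
  have h := (Subring.closureCommRingOfComm hcomm).mul_comm ⟨x, hx⟩ ⟨y, hy⟩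
  exact congrArg Subtype.val h

/-- a commutative star-closed subring -/
theorem exists_of_comm (A : Subring M) (hcomm : ∀ x ∈ A, ∀ y ∈ A, x * y = y * x) (hstar : ∀ x ∈ A, star x ∈ A)
    {P : M → M → Prop}
    (main : ∀ (R : Type u) [CommRing R] [StarRing R] [Finite R] (f : R →+* M), (∀ r, f (star r) = star (f r)) →
      Function.Injective f → (∀ x ∈ A, ∃ r, f r = x) → (∀ r, f r ∈ A) → (∀ r, IsUnit (f r) → IsUnit r) →
      ∃ c : R, P (f c) (star (f c) * f c)) : ∃ c ∈ A, P c (star c * c) := by
  letI : CommRing A := { (inferInstance : Ring A) with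
    mul_comm := fun a b => Subtype.ext (hcomm a.1 a.2 b.1 b.2) }
  letI : StarRing A :=
    { star := fun a => ⟨star a.1, hstar a.1 a.2⟩
      star_involutive := fun a => Subtype.ext (star_star a.1)
      star_mul := fun a b => Subtype.ext (star_mul a.1 b.1)
      star_add := fun a b => Subtype.ext (star_add a.1 b.1) }
  obtain ⟨c, hc⟩ := main A A.subtype (fun _ => rfl) Subtype.val_injective (fun x hx => ⟨⟨x, hx⟩, rfl⟩)
    (fun r => r.2) (fun r hr => isUnit_of_mem A r.2 hr)
  exact ⟨c, c.2, hc⟩

theorem star_mem_closure {a b : M} (ha : star a ∈ Subring.closure ({a, b} : Set M))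
    (hb : star b ∈ Subring.closure ({a, b} : Set M)) {x : M}
    (hx : x ∈ Subring.closure ({a, b} : Set M)) : star x ∈ Subring.closure ({a, b} : Set M) := by
  induction hx using Subring.closure_induction with
  | mem x hx =>
    rcases hx with rfl | rfl
    · exact ha
    · exact hb
  | zero => rw [star_zero]; exact Subring.zero_mem _
  | one => rw [star_one]; exact Subring.one_mem _
  | add x y _ _ hx hy => rw [star_add]; exact Subring.add_mem _ hx hy
  | neg x _ hx => rw [star_neg]; exact Subring.neg_mem _ hx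
  | mul x y _ _ hx hy => rw [star_mul]; exact Subring.mul_mem _ hy hx

/-- self-adjoint units are norms: `2` invertible, a skew unit `δ` commuting with `h` -/
theorem exists_norm_odd (h2 : IsUnit (2 : M)) {δ h : M} (hδ : IsUnit δ) (hδs : star δ = - δ) (hh : IsUnit h)
    (hs : star h = h) (hc : Commute h δ) : ∃ c ∈ Subring.closure ({h, δ} : Set M), star c * c = h := by
  have hmh : h ∈ Subring.closure ({h, δ} : Set M) := Subring.subset_closure (by simp)
  have hmδ : δ ∈ Subring.closure ({h, δ} : Set M) := Subring.subset_closure (by simp)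
  apply exists_of_comm (Subring.closure ({h, δ} : Set M)) (fun x hx y hy => closure_comm hc hx hy)
    (fun x hx => star_mem_closure (by rw [hs]; exact hmh) (by rw [hδs]; exact Subring.neg_mem _ hmδ) hx)
    (P := fun _ n => n = h)
  intro R _ _ _ f hf hinj hsurj hmem hunit
  obtain ⟨h', hh'⟩ := hsurj h hmh
  obtain ⟨δ', hδ'⟩ := hsurj δ hmδ
  obtain ⟨c, hc⟩ := exists_norm_odd_comm (R := R) (hunit 2 (by rw [map_ofNat]; exact h2)) (δ := δ')
    (hunit _ (by rw [hδ']; exact hδ)) (hinj (by rw [hf, hδ', hδs, map_neg, hδ'])) (h := h')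
    (hunit _ (by rw [hh']; exact hh)) (hinj (by rw [hf, hh', hs]))
  exact ⟨c, by rw [← hf, ← map_mul, hc, hh']⟩

/-- self-adjoint units are norms: characteristic two, `l + l* = 1` -/
theorem exists_norm_two (h2 : (2 : M) = 0) {l h : M} (hl : l + star l = 1) (hh : IsUnit h)
    (hs : star h = h) (hc : Commute h l) : ∃ c ∈ Subring.closure ({h, l} : Set M), star c * c = h := by
  have hmh : h ∈ Subring.closure ({h, l} : Set M) := Subring.subset_closure (by simp)
  have hml : l ∈ Subring.closure ({h, l} : Set M) := Subring.subset_closure (by simp)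
  have hls : star l = 1 - l := by rw [eq_sub_iff_add_eq, add_comm]; exact hl
  apply exists_of_comm (Subring.closure ({h, l} : Set M)) (fun x hx y hy => closure_comm hc hx hy)
    (fun x hx => star_mem_closure (by rw [hs]; exact hmh)
      (by rw [hls]; exact Subring.sub_mem _ (Subring.one_mem _) hml) hx)
    (P := fun _ n => n = h)
  intro R _ _ _ f hf hinj hsurj hmem hunit
  obtain ⟨h', hh'⟩ := hsurj h hmh
  obtain ⟨l', hl'⟩ := hsurj l hml
  obtain ⟨c, hc⟩ := exists_norm_two_comm (R := R) (hinj (by rw [map_ofNat, map_zero, h2])) (l := l')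
    (hinj (by rw [map_add, hf, hl', map_one, hl])) (h := h')
    (hunit _ (by rw [hh']; exact hh)) (hinj (by rw [hf, hh', hs]))
  exact ⟨c, by rw [← hf, ← map_mul, hc, hh']⟩

/-- elements of the closure commute with whatever commutes with the generators -/
theorem commute_of_mem {a b c x : M} (hc : c ∈ Subring.closure ({a, b} : Set M)) (ha : Commute a x)
    (hb : Commute b x) : Commute c x := by
  induction hc using Subring.closure_induction with
  | mem y hy =>
    rcases hy with rfl | rfl
    · exact ha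
    · exact hb
  | zero => exact Commute.zero_left _
  | one => exact Commute.one_left _
  | add y z _ _ hy hz => exact hy.add_left hz
  | neg y _ hy => exact hy.neg_left
  | mul y z _ _ hy hz => exact hy.mul_left hz

end noncomm

end Cfsg.Agent.Lib.NormRing
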