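import Mathlib

/-!
Normalisers of subgroups of order 7 (group theory for `S5604`).
-/

set_option autoImplicit false

namespace Cfsg.Agent.Lib.NormSeven

theorem mem_centralizer_zpowers {G : Type*} [Group G] {x g : G} :
    g ∈ Subgroup.centralizer ((Subgroup.zpowers x : Subgroup G) : Set G) ↔ g * x = x * g := by
  rw [Subgroup.mem_centralizer_iff]
  constructor
  · intro h
    exact (h x (Subgroup.mem_zpowers x)).symm
  · rintro h y ⟨k, rfl⟩
    have : Commute g (x ^ k) := Commute.zpow_right h k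
    exact this.symm

theorem card_normalizer {G : Type*} [Group G] [Finite G] {x n : G} (h7 : orderOf x = 7) (hn : n * x * n⁻¹ = x ^ 2)
    (hinv : ∀ g : G, g * x * g⁻¹ ≠ x⁻¹) :
    Nat.card ↥(Subgroup.normalizer ((Subgroup.zpowers x : Subgroup G) : Set G)) =
      3 * Nat.card ↥(Subgroup.centralizer ((Subgroup.zpowers x : Subgroup G) : Set G)) := by
  have hx7 : x ^ 7 = 1 := by rw [← h7]; exact pow_orderOf_eq_one x
  have hfin : ∀ y ∈ Subgroup.zpowers x, ∃ k < 7, y = x ^ k := by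
    intro y hy
    obtain ⟨k, hk⟩ := (isOfFinOrder_of_finite x).mem_powers_iff_mem_zpowers.mpr hy
    refine ⟨k % 7, Nat.mod_lt _ (by norm_num), ?_⟩
    rw [← hk]
    show x ^ k = _
    rw [← h7, pow_mod_orderOf]
  have conjpow : ∀ (g : G) (a b : ℕ), g * x * g⁻¹ = x ^ a → g * x ^ b * g⁻¹ = x ^ (a * b) := by
    intro g a b h
    rw [← conj_pow, h, ← pow_mul]
  have conjmul : ∀ (g h : G) (a b : ℕ), g * x * g⁻¹ = x ^ a → h * x * h⁻¹ = x ^ b → (g * h) * x * (g * h)⁻¹ = x ^ (a * b) := by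
    intro g h a b h1 h2
    have : (g * h) * x * (g * h)⁻¹ = g * (h * x * h⁻¹) * g⁻¹ := by group
    rw [this, h2, conjpow g a b h1]
  have hn2 : (n * n) * x * (n * n)⁻¹ = x ^ 4 := conjmul n n 2 2 hn hn
  have hinv6 : ∀ g : G, g * x * g⁻¹ ≠ x ^ 6 := by
    intro g h
    apply hinv g
    rw [h, eq_inv_iff_mul_eq_one, ← pow_succ, hx7]
  have hinv3 : ∀ g : G, g * x * g⁻¹ ≠ x ^ 3 := by
    intro g h
    exact hinv6 (n * g) (conjmul n g 2 3 hn h)
  have hpm : ∀ a : ℕ, x ^ a = x ^ (a % 7) := fun a => by rw [← h7, pow_mod_orderOf]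
  have hinv5 : ∀ g : G, g * x * g⁻¹ ≠ x ^ 5 := by
    intro g h
    apply hinv3 (n * g)
    rw [conjmul n g 2 5 hn h, hpm]
  have hN : ∀ g : G, (∃ k, g * x * g⁻¹ = x ^ k) → g ∈ Subgroup.normalizer ((Subgroup.zpowers x : Subgroup G) : Set G) := by
    rintro g ⟨k, hk⟩
    have hle : (Subgroup.zpowers x).map (MulAut.conj g).toMonoidHom ≤ Subgroup.zpowers x := by
      rw [Subgroup.map_le_iff_le_comap, Subgroup.zpowers_le]
      show g * x * g⁻¹ ∈ Subgroup.zpowers x
      rw [hk]; exact Subgroup.pow_mem _ (Subgroup.mem_zpowers x) _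
    have heq : (Subgroup.zpowers x).map (MulAut.conj g).toMonoidHom = Subgroup.zpowers x := by
      apply Subgroup.eq_of_le_of_card_ge hle
      rw [Subgroup.card_map_of_injective (MulAut.conj g).injective]
    rw [Subgroup.mem_normalizer_iff]
    intro y
    constructor
    · intro hy
      exact hle ⟨y, hy, rfl⟩
    · intro hy
      rw [← heq] at hy
      obtain ⟨z, hz, hzy⟩ := hy
      have : z = y := (MulAut.conj g).injective hzy
      rw [← this]; exact hz
  have hNinv : ∀ g ∈ Subgroup.normalizer ((Subgroup.zpowers x : Subgroup G) : Set G), ∃ k < 7, g * x * g⁻¹ = x ^ k := by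
    intro g hg
    rw [Subgroup.mem_normalizer_iff] at hg
    exact hfin _ ((hg x).mp (Subgroup.mem_zpowers x))
  let F : Fin 3 × ↥(Subgroup.centralizer ((Subgroup.zpowers x : Subgroup G) : Set G)) →
      ↥(Subgroup.normalizer ((Subgroup.zpowers x : Subgroup G) : Set G)) := fun p =>
    ⟨n ^ (p.1 : ℕ) * p.2, hN _ (by
      have hc : (p.2 : G) * x = x * p.2 := mem_centralizer_zpowers.mp p.2.2
      have h1 : (p.2 : G) * x * (p.2 : G)⁻¹ = x ^ 1 := by rw [hc]; group
      obtain ⟨i, c⟩ := p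
      fin_cases i
      · exact ⟨1 * 1, conjmul (n ^ 0) _ 1 1 (by group) h1⟩
      · exact ⟨2 * 1, conjmul (n ^ 1) _ 2 1 (by rw [pow_one]; exact hn) h1⟩
      · exact ⟨4 * 1, conjmul (n ^ 2) _ 4 1 (by rw [pow_two]; exact hn2) h1⟩)⟩
  have hF : Function.Bijective F := by
    constructor
    · rintro ⟨i, c⟩ ⟨j, d⟩ h
      have h' : n ^ (i : ℕ) * (c : G) = n ^ (j : ℕ) * (d : G) := congrArg Subtype.val h
      have cx : ∀ c : ↥(Subgroup.centralizer ((Subgroup.zpowers x : Subgroup G) : Set G)), (c : G) * x * (c : G)⁻¹ = x ^ 1 := by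
        intro c
        rw [mem_centralizer_zpowers.mp c.2]; group
      have k0 : ∀ i : Fin 3, (n ^ (i : ℕ)) * x * (n ^ (i : ℕ))⁻¹ = x ^ (![1, 2, 4] i : ℕ) := by
        intro i
        fin_cases i
        · show n ^ 0 * x * (n ^ 0)⁻¹ = x ^ 1
          group
        · show n ^ 1 * x * (n ^ 1)⁻¹ = x ^ 2
          rw [pow_one]; exact hn
        · show n ^ 2 * x * (n ^ 2)⁻¹ = x ^ 4
          rw [pow_two n]; exact hn2
      have e1 := conjmul _ _ _ _ (k0 i) (cx c)
      have e2 := conjmul _ _ _ _ (k0 j) (cx d)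
      rw [h', e2] at e1
      have hij : i = j := by
        have h3 := (pow_inj_mod (x := x)).mp e1
        rw [h7] at h3
        revert h3
        fin_cases i <;> fin_cases j <;> simp
      subst hij
      have : (c : G) = d := mul_left_cancel h'
      rw [Subtype.ext this]
    · rintro ⟨g, hg⟩
      obtain ⟨k, hk, e⟩ := hNinv g hg
      have key : ∀ (i : Fin 3), (n ^ (i : ℕ)) * x * (n ^ (i : ℕ))⁻¹ = x ^ k → ∃ p, F p = ⟨g, hg⟩ := by
        intro i hi
        refine ⟨⟨i, ⟨(n ^ (i : ℕ))⁻¹ * g, ?_⟩⟩, ?_⟩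
        · rw [mem_centralizer_zpowers]
          have h1 : g * x * g⁻¹ = (n ^ (i : ℕ)) * x * (n ^ (i : ℕ))⁻¹ := by rw [e, hi]
          have h2 : g * x = (n ^ (i : ℕ)) * x * (n ^ (i : ℕ))⁻¹ * g := by rw [← h1]; group
          rw [mul_assoc, h2]; group
        · apply Subtype.ext
          show n ^ (i : ℕ) * ((n ^ (i : ℕ))⁻¹ * g) = g
          group
      interval_cases k
      · exfalso
        have : x = 1 := by
          rw [pow_zero] at e
          have : x = g⁻¹ * (g * x * g⁻¹) * g := by group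
          rw [this, e]; group
        rw [this, orderOf_one] at h7
        exact absurd h7 (by norm_num)
      · exact key 0 (by show n ^ 0 * x * (n ^ 0)⁻¹ = x ^ 1; group)
      · exact key 1 (by show n ^ 1 * x * (n ^ 1)⁻¹ = x ^ 2; rw [pow_one]; exact hn)
      · exact absurd e (hinv3 g)
      · exact key 2 (by show n ^ 2 * x * (n ^ 2)⁻¹ = x ^ 4; rw [pow_two n]; exact hn2)
      · exact absurd e (hinv5 g)
      · exact absurd e (hinv6 g)
  rw [← Nat.card_congr (Equiv.ofBijective F hF), Nat.card_prod]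
  simp

end Cfsg.Agent.Lib.NormSeven
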