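import Mathlib
import Cfsg.Prelude.Def_Balance
import Cfsg.Agent.Lib.AlperinLemma
import Cfsg.Agent.Lib.PGroupOdd

/-!
# 3-groups with a maximal elementary abelian subgroup of order 9 have rank at most 3 (helper23)
-/

set_option autoImplicit false

namespace Cfsg.Agent.Lib.ThreeConn

open Cfsg Subgroup

universe u

theorem card_eq_ker_mul {A B : Type*} [Group A] [Group B] [Finite A] (f : A →* B) :
    Nat.card A = Nat.card f.ker * Nat.card f.range := by
  rw [← Nat.card_congr (QuotientGroup.quotientKerEquivRange f).toEquiv, mul_comm]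
  exact card_eq_card_quotient_mul_card_subgroup f.ker

theorem card_le_map {A B : Type*} [Group A] [Group B] [Finite A] (f : A →* B) (X : Subgroup A) :
    Nat.card X ≤ Nat.card f.ker * Nat.card (X.map f) := by
  rw [card_eq_ker_mul (f.domRestrict X), MonoidHom.domRestrict_range]
  apply Nat.mul_le_mul_right
  have h : ∀ x : ↥(f.domRestrict X).ker, ((x : ↥X) : A) ∈ f.ker := fun x => x.2
  exact Nat.card_le_card_of_injective (fun x : ↥(f.domRestrict X).ker => (⟨((x : ↥X) : A), h x⟩ : f.ker))
    (fun x y hxy => Subtype.ext (Subtype.ext (congrArg (fun z : f.ker => (z : A)) hxy)))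

section

variable {P : Type u} [Group P] [Finite P]

theorem card_le_delta (A V : Subgroup P) (u : P)
    (hV : ∀ x ∈ V, ∀ y ∈ V, x * y = y * x) (h1 : ∀ x ∈ A, ∀ v ∈ V, x * v = v * x)
    (h2 : ∀ x ∈ A, x * u * x⁻¹ * u⁻¹ ∈ V) :
    Nat.card A ≤ Nat.card V * Nat.card ↥(A ⊓ centralizer {u}) := by
  let f : ↥A →* ↥V :=
    { toFun := fun x => ⟨x * u * (x : P)⁻¹ * u⁻¹, h2 x x.2⟩
      map_one' := by apply Subtype.ext; simp
      map_mul' := by
        intro x y
        apply Subtype.ext
        change (x * y : P) * u * (x * y : P)⁻¹ * u⁻¹ =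
          (x * u * (x : P)⁻¹ * u⁻¹) * (y * u * (y : P)⁻¹ * u⁻¹)
        rw [hV _ (h2 x x.2) _ (h2 y y.2)]
        have h3 := h1 x x.2 _ (h2 y y.2)
        calc (x * y : P) * u * (x * y : P)⁻¹ * u⁻¹
            = (x * (y * u * (y : P)⁻¹ * u⁻¹)) * (u * (x : P)⁻¹ * u⁻¹) := by group
          _ = _ := by rw [h3]; group }
  rw [card_eq_ker_mul f, mul_comm]
  apply Nat.mul_le_mul
  · exact Subgroup.card_le_card_group f.range
  · have h : ∀ x : ↥f.ker, ((x : ↥A) : P) ∈ A ⊓ centralizer {u} := by
      intro x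
      refine ⟨(x : ↥A).2, mem_centralizer_singleton_iff.2 ?_⟩
      have h3 := congrArg (fun z : ↥V => (z : P)) x.2
      change ((x : ↥A) : P) * u * ((x : ↥A) : P)⁻¹ * u⁻¹ = 1 at h3
      have h4 : ((x : ↥A) : P) * u * ((x : ↥A) : P)⁻¹ = u := by rwa [mul_inv_eq_one] at h3
      rwa [mul_inv_eq_iff_eq_mul] at h4
    exact Nat.card_le_card_of_injective (fun x : ↥f.ker => (⟨((x : ↥A) : P), h x⟩ : ↥(A ⊓ centralizer {u})))
      (fun x y hxy => Subtype.ext (Subtype.ext
        (congrArg (fun z : ↥(A ⊓ centralizer ({u} : Set P)) => (z : P)) hxy)))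

theorem aux {V : Type*} [CommGroup V] (a0 a1 a2 : V) (h1 : a1 ^ 3 = 1) (h2 : a2 ^ 3 = 1) :
    (a0 * a2⁻¹ * (a2 * a1⁻¹)⁻¹) * ((a2 * a1⁻¹) * (a1 * a0⁻¹)⁻¹)⁻¹ = 1 := by
  have h : (a0 * a2⁻¹ * (a2 * a1⁻¹)⁻¹) * ((a2 * a1⁻¹) * (a1 * a0⁻¹)⁻¹)⁻¹ = a1 ^ 3 * (a2 ^ 3)⁻¹ := by
    apply Additive.ofMul.injective
    simp only [ofMul_mul, ofMul_inv, ofMul_pow]
    abel
  rw [h, h1, h2]; simp

theorem card_le_27 (V : Subgroup P) (hV : IsElementaryAbelian 3 V) (e : P) (he : e ^ 3 = 1)
    (hn : ∀ v ∈ V, e * v * e⁻¹ ∈ V) (hc : Nat.card ↥(V ⊓ centralizer {e}) ≤ 3) :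
    Nat.card V ≤ 27 := by
  letI : CommGroup ↥V := { (inferInstance : Group ↥V) with
    mul_comm := fun a b => hV.1.is_comm.comm a b }
  let φ : ↥V →* ↥V :=
    { toFun := fun v => ⟨e * v * e⁻¹, hn v v.2⟩
      map_one' := by apply Subtype.ext; simp
      map_mul' := by intro x y; apply Subtype.ext; simp }
  let f : ↥V →* ↥V :=
    { toFun := fun v => φ v * v⁻¹
      map_one' := by simp
      map_mul' := by
        intro x y
        apply Additive.ofMul.injective
        simp only [ofMul_mul, ofMul_inv, map_mul, mul_inv]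
        abel }
  have hf : ∀ v, f v = φ v * v⁻¹ := fun v => rfl
  have hφ3 : ∀ v, φ (φ (φ v)) = v := by
    intro v
    apply Subtype.ext
    change e * (e * (e * v * e⁻¹) * e⁻¹) * e⁻¹ = v
    have h3 : e * (e * (e * (v : P) * e⁻¹) * e⁻¹) * e⁻¹ = e ^ 3 * v * (e ^ 3)⁻¹ := by
      simp only [pow_succ, pow_zero, one_mul]; group
    rw [h3, he]; simp
  have h3 : ∀ v : ↥V, v ^ 3 = 1 := fun v => Subtype.ext (hV.2 v v.2)
  have hf3 : ∀ v, f (f (f v)) = 1 := by
    intro v
    have := aux v (φ v) (φ (φ v)) (h3 _) (h3 _)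
    rw [← this]
    simp only [hf, map_mul, map_inv, hφ3]
  have hk : Nat.card f.ker ≤ 3 := by
    refine le_trans ?_ hc
    have h : ∀ x : ↥f.ker, ((x : ↥V) : P) ∈ V ⊓ centralizer {e} := by
      intro x
      refine ⟨(x : ↥V).2, mem_centralizer_singleton_iff.2 ?_⟩
      have h3 := congrArg (fun z : ↥V => (z : P)) x.2
      change e * ((x : ↥V) : P) * e⁻¹ * ((x : ↥V) : P)⁻¹ = 1 at h3
      have h4 : e * ((x : ↥V) : P) * e⁻¹ = ((x : ↥V) : P) := by rwa [mul_inv_eq_one] at h3
      rw [mul_inv_eq_iff_eq_mul] at h4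
      exact h4.symm
    exact Nat.card_le_card_of_injective (fun x : ↥f.ker => (⟨((x : ↥V) : P), h x⟩ : ↥(V ⊓ centralizer {e})))
      (fun x y hxy => Subtype.ext (Subtype.ext
        (congrArg (fun z : ↥(V ⊓ centralizer ({e} : Set P)) => (z : P)) hxy)))
  have h4 := card_le_map f ⊤
  have h5 := card_le_map f ((⊤ : Subgroup ↥V).map f)
  have h6 := card_le_map f (((⊤ : Subgroup ↥V).map f).map f)
  have h7 : (((⊤ : Subgroup ↥V).map f).map f).map f = ⊥ := by
    rw [eq_bot_iff]
    rintro _ ⟨_, ⟨_, ⟨v, -, rfl⟩, rfl⟩, rfl⟩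
    exact hf3 v
  rw [h7, Subgroup.card_bot] at h6
  rw [Subgroup.card_top] at h4
  calc Nat.card V ≤ _ := h4
    _ ≤ Nat.card f.ker * (Nat.card f.ker * (Nat.card f.ker * 1)) :=
      Nat.mul_le_mul_left _ (h5.trans (Nat.mul_le_mul_left _ h6))
    _ ≤ 3 * (3 * (3 * 1)) := by gcongr
    _ = 27 := by norm_num

theorem card_inf_mul_relIndex (H K : Subgroup P) :
    Nat.card ↥(H ⊓ K) * H.relIndex K = Nat.card K := by
  have h := Subgroup.card_mul_index (H.subgroupOf K)
  have h1 : Nat.card ↥(H.subgroupOf K) = Nat.card ↥(H ⊓ K) := by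
    rw [← Subgroup.subgroupOf_map_subtype]
    exact (Subgroup.card_map_of_injective K.subtype_injective).symm
  rw [h1] at h
  exact h

theorem dvd9 {n : ℕ} (h : n ∣ 9) : n = 1 ∨ n = 3 ∨ n = 9 := by
  have := (Nat.dvd_prime_pow Nat.prime_three (i := n) (m := 2)).1 (by simpa using h)
  obtain ⟨k, hk, rfl⟩ := this
  interval_cases k <;> simp

theorem dvd27 {n : ℕ} (h : n ∣ 27) : n = 1 ∨ n = 3 ∨ n = 9 ∨ n = 27 := by
  have := (Nat.dvd_prime_pow Nat.prime_three (i := n) (m := 3)).1 (by simpa using h)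
  obtain ⟨k, hk, rfl⟩ := this
  interval_cases k <;> simp

/-- A `3`-group with a maximal elementary abelian subgroup `E` of order `9` has no elementary
abelian subgroup of order `81`. -/
theorem main (hP : IsPGroup 3 P) {E A : Subgroup P} (hE : IsElementaryAbelian 3 E)
    (hE9 : Nat.card E = 9) (hmax : ∀ x : P, (∀ y ∈ E, x * y = y * x) → x ^ 3 = 1 → x ∈ E)
    (hA : IsElementaryAbelian 3 A) (hA81 : Nat.card A = 81) : False := by
  have hp : Fact (Nat.Prime 3) := ⟨Nat.prime_three⟩
  have hEc : ∀ x ∈ E, ∀ y ∈ E, x * y = y * x := fun x hx y hy =>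
    congrArg Subtype.val (hE.1.is_comm.comm ⟨x, hx⟩ ⟨y, hy⟩)
  have hAc : ∀ x ∈ A, ∀ y ∈ A, x * y = y * x := fun x hx y hy =>
    congrArg Subtype.val (hA.1.is_comm.comm ⟨x, hx⟩ ⟨y, hy⟩)
  -- Step 1
  have hPtop : (⊤ : Subgroup P) ≠ ⊥ := by
    intro h
    have h1 : E = ⊥ := le_bot_iff.1 (h ▸ le_top)
    rw [h1, Subgroup.card_bot] at hE9
    omega
  obtain ⟨z, -, hzc, hzo⟩ := PGroupOdd.exists_central_mem hP (N := ⊤) inferInstance hPtop
  have hz3 : z ^ 3 = 1 := by rw [← hzo]; exact pow_orderOf_eq_one z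
  have hzE : z ∈ E := hmax z (fun y _ => (mem_center_iff.1 hzc y).symm) hz3
  obtain ⟨e, heE, hez⟩ : ∃ e ∈ E, e ∉ zpowers z := by
    by_contra hcon
    push Not at hcon
    have h1 : E ≤ zpowers z := hcon
    have h2 := Subgroup.card_le_of_le h1
    rw [Nat.card_zpowers, hzo, hE9] at h2
    omega
  have he3 : e ^ 3 = 1 := hE.2 e heE
  have hcent : ∀ x : P, x * e = e * x → x ^ 3 = 1 → x ∈ E := by
    intro x hx hx3
    apply hmax x _ hx3
    have h1 : zpowers z ≤ E ⊓ centralizer {x} := by
      rw [zpowers_le]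
      exact ⟨hzE, mem_centralizer_singleton_iff.2 (mem_center_iff.1 hzc x).symm⟩
    have h2 : e ∈ E ⊓ centralizer {x} := ⟨heE, mem_centralizer_singleton_iff.2 hx.symm⟩
    have h3 : Nat.card ↥(E ⊓ centralizer {x}) ∣ 9 := hE9 ▸ Subgroup.card_dvd_of_le inf_le_left
    have h4 : 3 ∣ Nat.card ↥(E ⊓ centralizer {x}) := by
      have := Subgroup.card_dvd_of_le h1
      rwa [Nat.card_zpowers, hzo] at this
    have h5 : E ⊓ centralizer {x} = E := by
      apply Subgroup.eq_of_le_of_card_ge inf_le_left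
      rw [hE9]
      rcases dvd9 h3 with h | h | h
      · omega
      · exfalso
        have h6 : zpowers z = E ⊓ centralizer {x} := by
          apply Subgroup.eq_of_le_of_card_ge h1
          rw [h, Nat.card_zpowers, hzo]
        exact hez (h6 ▸ h2)
      · omega
    intro y hy
    rw [← h5] at hy
    exact (mem_centralizer_singleton_iff.1 hy.2).symm
  -- Step 2
  have key27 : ∀ V : Subgroup P, IsElementaryAbelian 3 V → (∀ v ∈ V, e * v * e⁻¹ ∈ V) →
      Nat.card V ≤ 27 := by
    intro V hV hn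
    have h1 : V ⊓ centralizer {e} ≤ E := by
      rintro v ⟨hv1, hv2⟩
      exact hcent v (mem_centralizer_singleton_iff.1 hv2) (hV.2 v hv1)
    by_cases heV : e ∈ V
    · have h2 : V ≤ E := fun v hv => hcent v
        (congrArg Subtype.val (hV.1.is_comm.comm ⟨v, hv⟩ ⟨e, heV⟩)) (hV.2 v hv)
      have := Subgroup.card_le_of_le h2
      omega
    · apply card_le_27 V hV e he3 hn
      have h3 : Nat.card ↥(V ⊓ centralizer {e}) ∣ 9 := hE9 ▸ Subgroup.card_dvd_of_le h1
      rcases dvd9 h3 with h | h | h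
      · omega
      · omega
      · exfalso
        apply heV
        have h4 : V ⊓ centralizer {e} = E := Subgroup.eq_of_le_of_card_ge h1 (by rw [h, hE9])
        exact (h4 ▸ heE : e ∈ V ⊓ centralizer {e}).1
  -- Step 3
  obtain ⟨W, -, hWmax⟩ := Finite.exists_le_maximal (a := (⊥ : Subgroup P))
    (p := fun N : Subgroup P => N.Normal ∧ IsElementaryAbelian 3 N)
    ⟨inferInstance, ⟨⟨fun a b => Subsingleton.elim _ _⟩⟩, fun a ha => by
      rw [mem_bot.1 ha]; exact one_pow 3⟩
  obtain ⟨hWn, hWe⟩ := hWmax.prop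
  have hWc : ∀ x ∈ W, ∀ y ∈ W, x * y = y * x := fun x hx y hy =>
    congrArg Subtype.val (hWe.1.is_comm.comm ⟨x, hx⟩ ⟨y, hy⟩)
  have hWC : ∀ x : P, x ∈ centralizer (W : Set P) → x ^ 3 = 1 → x ∈ W := by
    intro x hx hx3
    refine AlperinLemma.mem_of_mem_centralizer hP 1 (by norm_num) W hWn hWe.1
      (by simpa using hWe.2) ?_ x hx (by simpa using hx3)
    intro B hB hBc hBe hWB
    exact le_antisymm (hWmax.le_of_ge ⟨hB, hBc, by simpa using hBe⟩ hWB) hWB
  have hW27 : Nat.card W ≤ 27 := key27 W hWe (fun v hv => hWn.conj_mem v hv e)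
  -- Step 4
  have hAW : ¬ A ≤ W := by
    intro h
    have := Subgroup.card_le_of_le h
    omega
  have hAnotC : ¬ A ≤ centralizer (W : Set P) := fun h => hAW fun a ha => hWC a (h ha) (hA.2 a ha)
  have hW1 : (⊥ : Subgroup P) < W := by
    rw [bot_lt_iff_ne_bot]
    rintro rfl
    apply hAnotC
    intro a _
    rw [mem_centralizer_iff]
    intro y hy
    rw [mem_bot.1 hy]; simp
  obtain ⟨L1, hL1n, -, hL1W, hL1c, w1, hw1L, hw1M, -, hw1g, hL1e⟩ :=
    PGroupOdd.exists_normal_step hP inferInstance hWn hW1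
  rw [Subgroup.card_bot, mul_one] at hL1c
  have hL1cen : ∀ v ∈ L1, ∀ g : P, g * v = v * g := by
    have h1 : L1 ≤ center P := by
      rw [hL1e, bot_sup_eq, zpowers_le, mem_center_iff]
      intro g
      have := hw1g g
      rw [mem_bot, commutatorElement_def, mul_inv_eq_one, mul_inv_eq_iff_eq_mul] at this
      exact this
    intro v hv g
    exact mem_center_iff.1 (h1 hv) g
  have hL1W' : L1 < W := by
    refine lt_of_le_of_ne hL1W ?_
    rintro rfl
    apply hAnotC
    intro a _
    rw [mem_centralizer_iff]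
    intro y hy
    exact (hL1cen y hy a).symm
  obtain ⟨L2, hL2n, hL12, hL2W, hL2c, w2, hw2L, hw2M, -, hw2g, hL2e⟩ :=
    PGroupOdd.exists_normal_step hP hL1n hWn hL1W'
  rw [hL1c] at hL2c
  have hVcomm : ∀ V : Subgroup P, V ≤ W → ∀ x ∈ V, ∀ y ∈ V, x * y = y * x :=
    fun V hV x hx y hy => hWc x (hV hx) y (hV hy)
  have hA2 : Nat.card A ≤ 3 * Nat.card ↥(A ⊓ centralizer {w2}) := by
    have := card_le_delta A L1 w2 (hVcomm L1 hL1W) (fun x _ v hv => hL1cen v hv x)
      (fun x _ => hw2g x)
    rwa [hL1c] at this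
  have hPw2 : Nat.card P ≤ 3 * Nat.card ↥(centralizer ({w2} : Set P)) := by
    have := card_le_delta ⊤ L1 w2 (hVcomm L1 hL1W) (fun x _ v hv => hL1cen v hv x)
      (fun x _ => hw2g x)
    rwa [hL1c, top_inf_eq, Subgroup.card_top] at this
  have hCL2 : ∀ x : P, x * w2 = w2 * x → ∀ v ∈ L2, x * v = v * x := by
    intro x hx v hv
    have h1 : L2 ≤ centralizer {x} := by
      rw [hL2e]
      refine sup_le (fun u hu => mem_centralizer_singleton_iff.2 (hL1cen u hu x).symm) ?_
      rw [zpowers_le]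
      exact mem_centralizer_singleton_iff.2 hx.symm
    exact (mem_centralizer_singleton_iff.1 (h1 hv)).symm
  have hL2W' : L2 < W := by
    refine lt_of_le_of_ne hL2W ?_
    intro h
    have h1 : A ⊓ centralizer {w2} ≤ W := by
      rintro a ⟨ha, ha2⟩
      apply hWC a _ (hA.2 a ha)
      rw [mem_centralizer_iff]
      intro y hy
      rw [← h] at hy
      exact (hCL2 a (mem_centralizer_singleton_iff.1 ha2) y hy).symm
    have h2 := Subgroup.card_le_of_le h1
    rw [← h] at h2
    omega
  obtain ⟨L3, hL3n, hL23, hL3W, hL3c, w3, hw3L, hw3M, -, hw3g, hL3e⟩ :=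
    PGroupOdd.exists_normal_step hP hL2n hWn hL2W'
  rw [hL2c] at hL3c
  have hL3 : L3 = W := Subgroup.eq_of_le_of_card_ge hL3W (by omega)
  have hWcard : Nat.card W = 27 := by rw [← hL3, hL3c]
  have hCW : ∀ x : P, x * w2 = w2 * x → x * w3 = w3 * x → x ∈ centralizer (W : Set P) := by
    intro x hx2 hx3
    rw [mem_centralizer_iff]
    intro v hv
    have h1 : W ≤ centralizer {x} := by
      rw [← hL3, hL3e]
      refine sup_le (fun u hu => mem_centralizer_singleton_iff.2 (hCL2 x hx2 u hu).symm) ?_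
      rw [zpowers_le]
      exact mem_centralizer_singleton_iff.2 hx3.symm
    exact (mem_centralizer_singleton_iff.1 (h1 hv))
  set C := centralizer (W : Set P) with hC
  have hPC : Nat.card P ≤ 27 * Nat.card C := by
    have h1 := card_le_delta (centralizer {w2}) L2 w3 (hVcomm L2 hL2W)
      (fun x hx v hv => hCL2 x (mem_centralizer_singleton_iff.1 hx) v hv) (fun x _ => hw3g x)
    have h2 : Nat.card ↥(centralizer {w2} ⊓ centralizer {w3}) ≤ Nat.card C :=
      Subgroup.card_le_of_le (fun x hx => hCW x (mem_centralizer_singleton_iff.1 hx.1)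
        (mem_centralizer_singleton_iff.1 hx.2))
    rw [hL2c] at h1
    omega
  have hAC9 : 9 ≤ Nat.card ↥(A ⊓ C) := by
    have h2 : Nat.card ↥(A ⊓ centralizer {w2} ⊓ centralizer {w3}) ≤ Nat.card ↥(A ⊓ C) :=
      Subgroup.card_le_of_le (fun x hx => ⟨hx.1.1, hCW x (mem_centralizer_singleton_iff.1 hx.1.2)
        (mem_centralizer_singleton_iff.1 hx.2)⟩)
    by_cases hAle : A ≤ centralizer {w2}
    · have h1 := card_le_delta (A ⊓ centralizer {w2}) L2 w3 (hVcomm L2 hL2W)
        (fun x hx v hv => hCL2 x (mem_centralizer_singleton_iff.1 hx.2) v hv) (fun x _ => hw3g x)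
      rw [hL2c] at h1
      have h3 : A ⊓ centralizer {w2} = A := inf_eq_left.2 hAle
      rw [h3] at h1 h2
      omega
    · obtain ⟨x, hxA, hx2⟩ := Set.not_subset.1 hAle
      have hD : L2 ⊓ centralizer {x} = L1 := by
        symm
        apply Subgroup.eq_of_le_of_card_ge
        · exact le_inf hL12 (fun u hu => mem_centralizer_singleton_iff.2 (hL1cen u hu x).symm)
        · rw [hL1c]
          have h3 : Nat.card ↥(L2 ⊓ centralizer {x}) ∣ 9 := by
            rw [← show 3 * 3 = 9 from rfl, ← hL2c]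
            exact Subgroup.card_dvd_of_le inf_le_left
          rcases dvd9 h3 with h | h | h
          · omega
          · omega
          · exfalso
            apply hx2
            have h4 : L2 ⊓ centralizer {x} = L2 :=
              Subgroup.eq_of_le_of_card_ge inf_le_left (by rw [h, hL2c])
            have h5 : w2 ∈ L2 ⊓ centralizer {x} := by rw [h4]; exact hw2L
            exact mem_centralizer_singleton_iff.2 (mem_centralizer_singleton_iff.1 h5.2).symm
      have h1 := card_le_delta (A ⊓ centralizer {w2}) L1 w3 (hVcomm L1 hL1W)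
        (fun x hx v hv => hL1cen v hv x) (by
          rintro y ⟨hyA, hy2⟩
          rw [← hD]
          have hy : y * w3 * y⁻¹ * w3⁻¹ ∈ L2 := hw3g y
          have hx : x * w3 * x⁻¹ * w3⁻¹ ∈ L2 := hw3g x
          refine ⟨hy, mem_centralizer_singleton_iff.2 ?_⟩
          -- y fixes L2, x y = y x
          have hxy := hAc x hxA y hyA
          have hyu := hCL2 y (mem_centralizer_singleton_iff.1 hy2) _ hx
          set u := x * w3 * x⁻¹ * w3⁻¹ with hu
          set v := y * w3 * y⁻¹ * w3⁻¹ with hv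
          have hxw : x * w3 * x⁻¹ = u * w3 := by rw [hu]; group
          have hyw : y * w3 * y⁻¹ = v * w3 := by rw [hv]; group
          have e1 : (x * y) * w3 * (x * y)⁻¹ = (x * v * x⁻¹) * (u * w3) := by
            rw [← hxw]
            calc (x * y) * w3 * (x * y)⁻¹ = x * (y * w3 * y⁻¹) * x⁻¹ := by group
              _ = _ := by rw [hyw]; group
          have e2 : (y * x) * w3 * (y * x)⁻¹ = u * (v * w3) := by
            rw [← hyw]
            calc (y * x) * w3 * (y * x)⁻¹ = y * (x * w3 * x⁻¹) * y⁻¹ := by group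
              _ = y * u * w3 * y⁻¹ := by rw [hxw]; group
              _ = _ := by rw [hyu]; group
          rw [hxy, e2] at e1
          have huv : u * v = v * u := hVcomm L2 hL2W u hx v hy
          have e3 : v * (u * w3) = x * v * x⁻¹ * (u * w3) := by
            calc v * (u * w3) = (v * u) * w3 := by group
              _ = (u * v) * w3 := by rw [huv]
              _ = u * (v * w3) := by group
              _ = _ := e1
          have e4 := mul_right_cancel e3
          calc v * x = x * v * x⁻¹ * x := by rw [← e4]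
            _ = x * v := by group)
      rw [hL1c] at h1
      omega
  have hACW : A ⊓ C = A ⊓ W := by
    apply le_antisymm
    · rintro a ⟨ha, haC⟩
      exact ⟨ha, hWC a haC (hA.2 a ha)⟩
    · rintro a ⟨ha, haW⟩
      refine ⟨ha, mem_centralizer_iff.2 fun y hy => hWc y hy a haW⟩
  rw [hACW] at hAC9
  have hAW9 : Nat.card ↥(A ⊓ W) = 9 := by
    have h1 : Nat.card ↥(A ⊓ W) ∣ 27 := hWcard ▸ Subgroup.card_dvd_of_le inf_le_right
    rcases dvd27 h1 with h | h | h | h
    · omega
    · omega
    · exact h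
    · exfalso
      have h2 : A ⊓ W = W := Subgroup.eq_of_le_of_card_ge inf_le_right (by rw [h, hWcard])
      apply hAnotC
      intro a ha
      rw [mem_centralizer_iff]
      intro y hy
      have hyAW : y ∈ A ⊓ W := by rw [h2]; exact hy
      have hyA : y ∈ A := hyAW.1
      exact hAc y hyA a ha
  -- `A C` is normal
  have hCn : C.Normal := inferInstance
  have hACn : (A ⊔ C).Normal := by
    have h1 := card_inf_mul_relIndex C A
    have h2 : C.relIndex (A ⊔ C) = C.relIndex A := relIndex_sup_right _ _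
    have h3 := card_inf_mul_relIndex C (A ⊔ C)
    rw [inf_eq_left.2 le_sup_right, h2] at h3
    rw [inf_comm, hACW, hAW9, hA81] at h1
    have h4 : C.relIndex A = 9 := by omega
    rw [h4] at h3
    have h5 := Subgroup.card_mul_index (A ⊔ C)
    rw [← h3] at h5
    have hCpos : 0 < Nat.card C := Nat.card_pos
    have h6 : (A ⊔ C).index ≤ 3 := by
      have h7 : Nat.card C * (9 * (A ⊔ C).index) ≤ Nat.card C * 27 := by
        rw [← mul_assoc, h5, mul_comm]; exact hPC
      have h8 := Nat.le_of_mul_le_mul_left h7 hCpos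
      omega
    obtain ⟨k, hk⟩ := hP.index (A ⊔ C)
    by_cases hk0 : k = 0
    · rw [hk0, pow_zero, Subgroup.index_eq_one] at hk
      rw [hk]; infer_instance
    · have h7 : (A ⊔ C).index = 3 := by
        have h8 : 3 ∣ (A ⊔ C).index := by rw [hk]; exact dvd_pow_self 3 hk0
        have h9 : (A ⊔ C).index ≠ 0 := Subgroup.index_ne_zero_of_finite
        omega
      apply Subgroup.normal_of_index_eq_minFac_card
      rw [h7]
      obtain ⟨n, hn⟩ := IsPGroup.iff_card.1 hP
      have hn0 : n ≠ 0 := by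
        rintro rfl
        rw [pow_zero] at hn
        have := Subgroup.card_le_card_group A
        omega
      rw [hn, Nat.pow_minFac hn0]
      exact (Nat.Prime.minFac_eq Nat.prime_three).symm
  -- Step 5
  have hAn : A.Normal := by
    rw [← Subgroup.normalizer_eq_top_iff]
    by_contra hne
    have hnil : Group.IsNilpotent P := hP.isNilpotent
    set H := normalizer (A : Set P) with hH
    have hAH : A ≤ H := le_normalizer
    have hlt : H < normalizer (H : Set P) :=
      Group.normalizerCondition_of_isNilpotent H (lt_top_iff_ne_top.2 hne)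
    obtain ⟨r, hrN, hrH⟩ := Set.exists_of_ssubset hlt
    have hrN' := mem_normalizer_iff.1 hrN
    -- B = r A r⁻¹
    set B := A.map (MulAut.conj r).toMonoidHom with hB
    have hBA : B ≠ A := by
      intro h
      apply hrH
      change r ∈ H
      rw [hH, Subgroup.mem_normalizer_iff_conj_image_eq]
      have := congrArg (fun X : Subgroup P => (X : Set P)) h
      simpa [hB] using this
    have hBcard : Nat.card B = 81 := by
      rw [← hA81]
      exact Subgroup.card_map_of_injective (MulAut.conj r).injective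
    have hBc : ∀ x ∈ B, ∀ y ∈ B, x * y = y * x := by
      rintro _ ⟨x, hx, rfl⟩ _ ⟨y, hy, rfl⟩
      change r * x * r⁻¹ * (r * y * r⁻¹) = r * y * r⁻¹ * (r * x * r⁻¹)
      calc r * x * r⁻¹ * (r * y * r⁻¹) = r * (x * y) * r⁻¹ := by group
        _ = r * (y * x) * r⁻¹ := by rw [hAc x hx y hy]
        _ = _ := by group
    have hBe : ∀ x ∈ B, x ^ 3 = 1 := by
      rintro _ ⟨x, hx, rfl⟩
      change (r * x * r⁻¹) ^ 3 = 1
      rw [conj_pow, hA.2 x hx]; group
    have hBH : ∀ b ∈ B, b ∈ H := by
      rintro _ ⟨x, hx, rfl⟩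
      exact (hrN' x).1 (hAH hx)
    -- A normalizes B
    have hABn : ∀ a ∈ A, ∀ b ∈ B, a * b * a⁻¹ ∈ B := by
      rintro a ha _ ⟨x, hx, rfl⟩
      have h1 : r⁻¹ * a * r ∈ H := by
        rw [hrN']
        have : r * (r⁻¹ * a * r) * r⁻¹ = a := by group
        rw [this]; exact hAH ha
      have h2 : (r⁻¹ * a * r) * x * (r⁻¹ * a * r)⁻¹ ∈ A := (mem_normalizer_iff.1 h1 x).1 hx
      refine ⟨_, h2, ?_⟩
      change r * ((r⁻¹ * a * r) * x * (r⁻¹ * a * r)⁻¹) * r⁻¹ = a * (r * x * r⁻¹) * a⁻¹
      group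
    -- cubes
    have hcube : ∀ a ∈ A, ∀ b ∈ B, (a * b) ^ 3 = 1 := by
      intro a ha b hb
      have hcA : b * a * b⁻¹ * a⁻¹ ∈ A :=
        mul_mem ((mem_normalizer_iff.1 (hBH b hb) a).1 ha) (inv_mem ha)
      have hcB : b * a * b⁻¹ * a⁻¹ ∈ B := by
        have h1 := hABn a ha b⁻¹ (inv_mem hb)
        have h2 := mul_mem hb h1
        have h3 : b * (a * b⁻¹ * a⁻¹) = b * a * b⁻¹ * a⁻¹ := by group
        rwa [h3] at h2
      set c := b * a * b⁻¹ * a⁻¹ with hc
      have hca : c * a = a * c := hAc c hcA a ha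
      have hcb : c * b = b * c := hBc c hcB b hb
      have hba : b * a = c * (a * b) := by rw [hc]; group
      have hc3 : c ^ 3 = 1 := hA.2 c hcA
      have hca' : Commute c a := hca
      have hcb' : Commute c b := hcb
      have h1 : a * b * (a * b) = c * (a * a) * (b * b) := by
        calc a * b * (a * b) = a * (b * a) * b := by group
          _ = a * (c * (a * b)) * b := by rw [hba]
          _ = (a * c) * a * b * b := by group
          _ = (c * a) * a * b * b := by rw [hca]
          _ = c * (a * a) * (b * b) := by group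
      have hbba : b * b * a = c * c * (a * (b * b)) := by
        calc b * b * a = b * (b * a) := by group
          _ = b * (c * (a * b)) := by rw [hba]
          _ = (b * c) * a * b := by group
          _ = (c * b) * a * b := by rw [hcb]
          _ = c * (b * a) * b := by group
          _ = c * (c * (a * b)) * b := by rw [hba]
          _ = _ := by group
      calc (a * b) ^ 3 = (a * b * (a * b)) * (a * b) := by rw [pow_succ, pow_two]
        _ = c * (a * a) * (b * b) * (a * b) := by rw [h1]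
        _ = c * (a * a) * (b * b * a) * b := by group
        _ = c * (a * a) * (c * c * (a * (b * b))) * b := by rw [hbba]
        _ = c * ((a * a) * (c * c)) * (a * (b * b)) * b := by group
        _ = c * ((c * c) * (a * a)) * (a * (b * b)) * b := by
          rw [((hca'.mul_left hca').mul_right (hca'.mul_left hca')).eq]
        _ = c ^ 3 * (a ^ 3) * (b ^ 3) := by simp only [pow_succ, pow_zero, one_mul]; group
        _ = 1 := by rw [hc3, hA.2 a ha, hBe b hb]; simp
    -- B ≤ A W
    have hBAW : B ≤ A ⊔ W := by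
      intro b hb
      have h1 : b ∈ A ⊔ C := by
        obtain ⟨x, hx, rfl⟩ := hb
        exact hACn.conj_mem x (mem_sup_left hx) r
      rw [mem_sup_of_normal_right] at h1
      obtain ⟨a, ha, c, hc, rfl⟩ := h1
      have h2 : c ^ 3 = 1 := by
        have h3 := hcube a⁻¹ (inv_mem ha) (a * c) hb
        rwa [inv_mul_cancel_left] at h3
      exact mul_mem (mem_sup_left ha) (mem_sup_right (hWC c hc h2))
    have hW1 := card_inf_mul_relIndex W A
    rw [inf_comm, hAW9, hA81] at hW1
    have hW2 : W.relIndex (A ⊔ W) = W.relIndex A := relIndex_sup_right _ _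
    have hW3 := card_inf_mul_relIndex W (A ⊔ W)
    rw [inf_eq_left.2 le_sup_right, hW2, hWcard] at hW3
    have hW4 := card_inf_mul_relIndex A (A ⊔ W)
    rw [inf_eq_left.2 le_sup_left, hA81] at hW4
    have hW5 : A.relIndex B ≤ A.relIndex (A ⊔ W) :=
      relIndex_le_of_le_right hBAW (by
        intro h; rw [h] at hW4; omega)
    have hW6 := card_inf_mul_relIndex A B
    rw [hBcard] at hW6
    have hW7 : A.relIndex (A ⊔ W) = 3 := by omega
    rw [hW7] at hW5
    have hAB27 : 27 ≤ Nat.card ↥(A ⊓ B) := by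
      by_contra hlt
      push Not at hlt
      have : Nat.card ↥(A ⊓ B) * A.relIndex B ≤ 26 * 3 := Nat.mul_le_mul (by omega) hW5
      omega
    -- b ∈ B \ A
    obtain ⟨b, hb, hbA⟩ : ∃ b ∈ B, b ∉ A := by
      by_contra hcon
      push Not at hcon
      exact hBA (Subgroup.eq_of_le_of_card_ge hcon (by rw [hA81, hBcard]))
    have hb' := hBAW hb
    rw [mem_sup_of_normal_right] at hb'
    obtain ⟨a, ha, w, hw, hawb⟩ := hb'
    have hwA : w ∉ A := fun h => hbA (hawb ▸ mul_mem ha h)
    -- A ⊓ B centralises W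
    have hle : A ⊓ B ≤ A ⊓ W := by
      rintro x ⟨hxA, hxB⟩
      rw [← hACW]
      refine ⟨hxA, mem_centralizer_iff.2 ?_⟩
      have hxw : x * w = w * x := by
        have h1 : w = a⁻¹ * b := by rw [← hawb]; group
        have h2 : Commute x a⁻¹ := (show Commute x a from hAc x hxA a ha).inv_right
        have h3 : Commute x b := hBc x hxB b hb
        rw [h1]
        exact (h2.mul_right h3).eq
      have h4 : W ⊓ centralizer {x} = W := by
        apply Subgroup.eq_of_le_of_card_ge inf_le_left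
        have h5 : Nat.card ↥(W ⊓ centralizer {x}) ∣ 27 := hWcard ▸ Subgroup.card_dvd_of_le inf_le_left
        have h6 : A ⊓ W ≤ W ⊓ centralizer {x} := by
          rintro y ⟨hyA, hyW⟩
          exact ⟨hyW, mem_centralizer_singleton_iff.2 (hAc y hyA x hxA)⟩
        have h7 := Subgroup.card_le_of_le h6
        rw [hWcard]
        rcases dvd27 h5 with h | h | h | h
        · omega
        · omega
        · exfalso
          have h8 : A ⊓ W = W ⊓ centralizer {x} :=
            Subgroup.eq_of_le_of_card_ge h6 (by rw [h, hAW9])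
          have h9 : w ∈ W ⊓ centralizer {x} := ⟨hw, mem_centralizer_singleton_iff.2 hxw.symm⟩
          rw [← h8] at h9
          exact hwA h9.1
        · omega
      intro y hy
      have hy' : y ∈ W ⊓ centralizer {x} := by rw [h4]; exact hy
      exact mem_centralizer_singleton_iff.1 hy'.2
    have := Subgroup.card_le_of_le hle
    omega
  have := key27 A hA (fun v hv => hAn.conj_mem v hv e)
  omega

end

end Cfsg.Agent.Lib.ThreeConn
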