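import Mathlib
import Cfsg.Agent.Lib.ThreeConn

/-!
# Normal elementary abelian subgroups of order `p ^ 4` (helper23)
-/

set_option autoImplicit false

namespace Cfsg.Agent.Lib.NormalE4

open Cfsg Subgroup Lib.ThreeConn

universe u

theorem dvd_le {p n k : ℕ} (hp : p.Prime) (h : n ∣ p ^ (k + 1)) (hne : n ≠ p ^ (k + 1)) : n ≤ p ^ k := by
  obtain ⟨j, hj, rfl⟩ := (Nat.dvd_prime_pow hp).1 h
  apply Nat.pow_le_pow_right hp.pos
  have : j ≠ k + 1 := fun h => hne (by rw [h])
  omega

theorem dvd_ge {p n k j : ℕ} (hp : p.Prime) (h : n ∣ p ^ k) (hlt : p ^ j < n) : p ^ (j + 1) ≤ n := by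
  obtain ⟨i, hi, rfl⟩ := (Nat.dvd_prime_pow hp).1 h
  apply Nat.pow_le_pow_right hp.pos
  exact (Nat.pow_lt_pow_iff_right hp.one_lt).1 hlt

variable {P : Type u} [Group P] [Finite P]

/-- An elementary abelian subgroup of order `p ^ 4` is normal if all normal elementary abelian
subgroups have order at most `p ^ 3`. -/
theorem normal_of_no_big {p : ℕ} [hp : Fact p.Prime] (hp2 : p ≠ 2) (hP : IsPGroup p P)
    {A : Subgroup P} (hA : IsElementaryAbelian p A) (hA81 : Nat.card A = p ^ 4)
    (hno : ∀ V : Subgroup P, V.Normal → IsElementaryAbelian p V → Nat.card V ≤ p ^ 3) :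
    A.Normal := by
  have hpp := hp.out
  have hp1 := hpp.one_lt
  have hp0 := hpp.pos
  have hAc : ∀ x ∈ A, ∀ y ∈ A, x * y = y * x := fun x hx y hy =>
    congrArg Subtype.val (hA.1.is_comm.comm ⟨x, hx⟩ ⟨y, hy⟩)
  -- Step 3
  obtain ⟨W, -, hWmax⟩ := Finite.exists_le_maximal (a := (⊥ : Subgroup P))
    (p := fun N : Subgroup P => N.Normal ∧ IsElementaryAbelian p N)
    ⟨inferInstance, ⟨⟨fun a b => Subsingleton.elim _ _⟩⟩, fun a ha => by
      rw [mem_bot.1 ha]; exact one_pow p⟩
  obtain ⟨hWn, hWe⟩ := hWmax.prop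
  have hWc : ∀ x ∈ W, ∀ y ∈ W, x * y = y * x := fun x hx y hy =>
    congrArg Subtype.val (hWe.1.is_comm.comm ⟨x, hx⟩ ⟨y, hy⟩)
  have hWC : ∀ x : P, x ∈ centralizer (W : Set P) → x ^ p = 1 → x ∈ W := by
    intro x hx hx3
    refine AlperinLemma.mem_of_mem_centralizer hP 1 (by rwa [pow_one]) W hWn hWe.1
      (by simpa using hWe.2) ?_ x hx (by simpa using hx3)
    intro B hB hBc hBe hWB
    exact le_antisymm (hWmax.le_of_ge ⟨hB, hBc, by simpa using hBe⟩ hWB) hWB
  have hW27 : Nat.card W ≤ p ^ 3 := hno W hWn hWe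
  -- Step 4
  have hAW : ¬ A ≤ W := by
    intro h
    have := Subgroup.card_le_of_le h
    rw [hA81] at this
    exact absurd (this.trans hW27) (not_le.2 (Nat.pow_lt_pow_right hp1 (by norm_num)))
  have hAnotC : ¬ A ≤ centralizer (W : Set P) := fun h => hAW fun a ha => hWC a (h ha) (hA.2 a ha)
  have hW1 : (⊥ : Subgroup P) < W := by
    rw [bot_lt_iff_ne_bot]
    rintro rfl
    apply hAnotC
    intro a _
    rw [mem_centralizer_iff]
    intro y hy
    rw [mem_bot.1 hy]; simp
  obtain ⟨L1, hL1n, -, hL1W, hL1c, w1, hw1L, hw1M, -, hw1g, hL1e⟩ :=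
    PGroupOdd.exists_normal_step hP inferInstance hWn hW1
  rw [Subgroup.card_bot, mul_one] at hL1c
  have hL1cen : ∀ v ∈ L1, ∀ g : P, g * v = v * g := by
    have h1 : L1 ≤ center P := by
      rw [hL1e, bot_sup_eq, zpowers_le, mem_center_iff]
      intro g
      have := hw1g g
      rw [mem_bot, commutatorElement_def, mul_inv_eq_one, mul_inv_eq_iff_eq_mul] at this
      exact this
    intro v hv g
    exact mem_center_iff.1 (h1 hv) g
  have hL1W' : L1 < W := by
    refine lt_of_le_of_ne hL1W ?_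
    rintro rfl
    apply hAnotC
    intro a _
    rw [mem_centralizer_iff]
    intro y hy
    exact (hL1cen y hy a).symm
  obtain ⟨L2, hL2n, hL12, hL2W, hL2c, w2, hw2L, hw2M, -, hw2g, hL2e⟩ :=
    PGroupOdd.exists_normal_step hP hL1n hWn hL1W'
  rw [hL1c] at hL2c
  have hVcomm : ∀ V : Subgroup P, V ≤ W → ∀ x ∈ V, ∀ y ∈ V, x * y = y * x :=
    fun V hV x hx y hy => hWc x (hV hx) y (hV hy)
  have hA2 : p ^ 3 ≤ Nat.card ↥(A ⊓ centralizer {w2}) := by
    have := card_le_delta A L1 w2 (hVcomm L1 hL1W) (fun x _ v hv => hL1cen v hv x)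
      (fun x _ => hw2g x)
    rw [hL1c, hA81, pow_succ', ] at this
    exact Nat.le_of_mul_le_mul_left this hp0
  have hPw2 : Nat.card P ≤ p * Nat.card ↥(centralizer ({w2} : Set P)) := by
    have := card_le_delta ⊤ L1 w2 (hVcomm L1 hL1W) (fun x _ v hv => hL1cen v hv x)
      (fun x _ => hw2g x)
    rwa [hL1c, top_inf_eq, Subgroup.card_top] at this
  have hCL2 : ∀ x : P, x * w2 = w2 * x → ∀ v ∈ L2, x * v = v * x := by
    intro x hx v hv
    have h1 : L2 ≤ centralizer {x} := by
      rw [hL2e]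
      refine sup_le (fun u hu => mem_centralizer_singleton_iff.2 (hL1cen u hu x).symm) ?_
      rw [zpowers_le]
      exact mem_centralizer_singleton_iff.2 hx.symm
    exact (mem_centralizer_singleton_iff.1 (h1 hv)).symm
  have hL2W' : L2 < W := by
    refine lt_of_le_of_ne hL2W ?_
    intro h
    have h1 : A ⊓ centralizer {w2} ≤ W := by
      rintro a ⟨ha, ha2⟩
      apply hWC a _ (hA.2 a ha)
      rw [mem_centralizer_iff]
      intro y hy
      rw [← h] at hy
      exact (hCL2 a (mem_centralizer_singleton_iff.1 ha2) y hy).symm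
    have h2 := Subgroup.card_le_of_le h1
    rw [← h, hL2c, ← pow_two] at h2
    exact absurd (hA2.trans h2) (not_le.2 (Nat.pow_lt_pow_right hp1 (by norm_num)))
  obtain ⟨L3, hL3n, hL23, hL3W, hL3c, w3, hw3L, hw3M, -, hw3g, hL3e⟩ :=
    PGroupOdd.exists_normal_step hP hL2n hWn hL2W'
  rw [hL2c] at hL3c
  have hL3c' : Nat.card L3 = p ^ 3 := by rw [hL3c]; ring
  have hL3 : L3 = W := Subgroup.eq_of_le_of_card_ge hL3W (by rw [hL3c']; exact hW27)
  have hWcard : Nat.card W = p ^ 3 := by rw [← hL3, hL3c']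
  have hCW : ∀ x : P, x * w2 = w2 * x → x * w3 = w3 * x → x ∈ centralizer (W : Set P) := by
    intro x hx2 hx3
    rw [mem_centralizer_iff]
    intro v hv
    have h1 : W ≤ centralizer {x} := by
      rw [← hL3, hL3e]
      refine sup_le (fun u hu => mem_centralizer_singleton_iff.2 (hCL2 x hx2 u hu).symm) ?_
      rw [zpowers_le]
      exact mem_centralizer_singleton_iff.2 hx3.symm
    exact (mem_centralizer_singleton_iff.1 (h1 hv))
  set C := centralizer (W : Set P) with hC
  have hPC : Nat.card P ≤ p ^ 3 * Nat.card C := by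
    have h1 := card_le_delta (centralizer {w2}) L2 w3 (hVcomm L2 hL2W)
      (fun x hx v hv => hCL2 x (mem_centralizer_singleton_iff.1 hx) v hv) (fun x _ => hw3g x)
    have h2 : Nat.card ↥(centralizer {w2} ⊓ centralizer {w3}) ≤ Nat.card C :=
      Subgroup.card_le_of_le (fun x hx => hCW x (mem_centralizer_singleton_iff.1 hx.1)
        (mem_centralizer_singleton_iff.1 hx.2))
    rw [hL2c] at h1
    calc Nat.card P ≤ p * Nat.card ↥(centralizer ({w2} : Set P)) := hPw2
      _ ≤ p * (p * p * Nat.card C) := Nat.mul_le_mul_left _ (h1.trans (Nat.mul_le_mul_left _ h2))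
      _ = _ := by ring
  have hAC9 : p ^ 2 ≤ Nat.card ↥(A ⊓ C) := by
    have h2 : Nat.card ↥(A ⊓ centralizer {w2} ⊓ centralizer {w3}) ≤ Nat.card ↥(A ⊓ C) :=
      Subgroup.card_le_of_le (fun x hx => ⟨hx.1.1, hCW x (mem_centralizer_singleton_iff.1 hx.1.2)
        (mem_centralizer_singleton_iff.1 hx.2)⟩)
    by_cases hAle : A ≤ centralizer {w2}
    · have h1 := card_le_delta (A ⊓ centralizer {w2}) L2 w3 (hVcomm L2 hL2W)
        (fun x hx v hv => hCL2 x (mem_centralizer_singleton_iff.1 hx.2) v hv) (fun x _ => hw3g x)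
      rw [hL2c] at h1
      have h3 : A ⊓ centralizer {w2} = A := inf_eq_left.2 hAle
      rw [h3] at h1 h2
      have h4 : p ^ 2 * p ^ 2 ≤ p ^ 2 * Nat.card ↥(A ⊓ C) := by
        calc p ^ 2 * p ^ 2 = Nat.card A := by rw [hA81]; ring
          _ ≤ p * p * Nat.card ↥(A ⊓ centralizer {w3}) := h1
          _ ≤ p * p * Nat.card ↥(A ⊓ C) := Nat.mul_le_mul_left _ h2
          _ = _ := by ring
      exact Nat.le_of_mul_le_mul_left h4 (pow_pos hp0 2)
    · obtain ⟨x, hxA, hx2⟩ := Set.not_subset.1 hAle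
      have hD : L2 ⊓ centralizer {x} = L1 := by
        symm
        apply Subgroup.eq_of_le_of_card_ge
        · exact le_inf hL12 (fun u hu => mem_centralizer_singleton_iff.2 (hL1cen u hu x).symm)
        · rw [hL1c]
          have h3 : Nat.card ↥(L2 ⊓ centralizer {x}) ∣ p ^ (1 + 1) := by
            rw [show p ^ (1 + 1) = p * p by ring, ← hL2c]
            exact Subgroup.card_dvd_of_le inf_le_left
          by_cases h : Nat.card ↥(L2 ⊓ centralizer {x}) = p ^ (1 + 1)
          swap
          · simpa using dvd_le hpp h3 h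
          · exfalso
            apply hx2
            have h4 : L2 ⊓ centralizer {x} = L2 :=
              Subgroup.eq_of_le_of_card_ge inf_le_left (by rw [h, hL2c]; exact le_of_eq (by ring))
            have h5 : w2 ∈ L2 ⊓ centralizer {x} := by rw [h4]; exact hw2L
            exact mem_centralizer_singleton_iff.2 (mem_centralizer_singleton_iff.1 h5.2).symm
      have h1 := card_le_delta (A ⊓ centralizer {w2}) L1 w3 (hVcomm L1 hL1W)
        (fun x hx v hv => hL1cen v hv x) (by
          rintro y ⟨hyA, hy2⟩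
          rw [← hD]
          have hy : y * w3 * y⁻¹ * w3⁻¹ ∈ L2 := hw3g y
          have hx : x * w3 * x⁻¹ * w3⁻¹ ∈ L2 := hw3g x
          refine ⟨hy, mem_centralizer_singleton_iff.2 ?_⟩
          -- y fixes L2, x y = y x
          have hxy := hAc x hxA y hyA
          have hyu := hCL2 y (mem_centralizer_singleton_iff.1 hy2) _ hx
          set u := x * w3 * x⁻¹ * w3⁻¹ with hu
          set v := y * w3 * y⁻¹ * w3⁻¹ with hv
          have hxw : x * w3 * x⁻¹ = u * w3 := by rw [hu]; group
          have hyw : y * w3 * y⁻¹ = v * w3 := by rw [hv]; group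
          have e1 : (x * y) * w3 * (x * y)⁻¹ = (x * v * x⁻¹) * (u * w3) := by
            rw [← hxw]
            calc (x * y) * w3 * (x * y)⁻¹ = x * (y * w3 * y⁻¹) * x⁻¹ := by group
              _ = _ := by rw [hyw]; group
          have e2 : (y * x) * w3 * (y * x)⁻¹ = u * (v * w3) := by
            rw [← hyw]
            calc (y * x) * w3 * (y * x)⁻¹ = y * (x * w3 * x⁻¹) * y⁻¹ := by group
              _ = y * u * w3 * y⁻¹ := by rw [hxw]; group
              _ = _ := by rw [hyu]; group
          rw [hxy, e2] at e1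
          have huv : u * v = v * u := hVcomm L2 hL2W u hx v hy
          have e3 : v * (u * w3) = x * v * x⁻¹ * (u * w3) := by
            calc v * (u * w3) = (v * u) * w3 := by group
              _ = (u * v) * w3 := by rw [huv]
              _ = u * (v * w3) := by group
              _ = _ := e1
          have e4 := mul_right_cancel e3
          calc v * x = x * v * x⁻¹ * x := by rw [← e4]
            _ = x * v := by group)
      rw [hL1c] at h1
      have h4 : p * p ^ 2 ≤ p * Nat.card ↥(A ⊓ C) := by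
        calc p * p ^ 2 = p ^ 3 := by ring
          _ ≤ _ := hA2
          _ ≤ _ := h1
          _ ≤ _ := Nat.mul_le_mul_left _ h2
      exact Nat.le_of_mul_le_mul_left h4 hp0
  have hACW : A ⊓ C = A ⊓ W := by
    apply le_antisymm
    · rintro a ⟨ha, haC⟩
      exact ⟨ha, hWC a haC (hA.2 a ha)⟩
    · rintro a ⟨ha, haW⟩
      refine ⟨ha, mem_centralizer_iff.2 fun y hy => hWc y hy a haW⟩
  rw [hACW] at hAC9
  have hAW9 : Nat.card ↥(A ⊓ W) = p ^ 2 := by
    have h1 : Nat.card ↥(A ⊓ W) ∣ p ^ (2 + 1) := hWcard ▸ Subgroup.card_dvd_of_le inf_le_right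
    by_cases h : Nat.card ↥(A ⊓ W) = p ^ (2 + 1)
    swap
    · exact le_antisymm (dvd_le hpp h1 h) hAC9
    · exfalso
      have h2 : A ⊓ W = W := Subgroup.eq_of_le_of_card_ge inf_le_right (by rw [h, hWcard])
      apply hAnotC
      intro a ha
      rw [mem_centralizer_iff]
      intro y hy
      have hyAW : y ∈ A ⊓ W := by rw [h2]; exact hy
      have hyA : y ∈ A := hyAW.1
      exact hAc y hyA a ha
  -- `A C` is normal
  have hCn : C.Normal := inferInstance
  have hACn : (A ⊔ C).Normal := by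
    have h1 := card_inf_mul_relIndex C A
    have h2 : C.relIndex (A ⊔ C) = C.relIndex A := relIndex_sup_right _ _
    have h3 := card_inf_mul_relIndex C (A ⊔ C)
    rw [inf_eq_left.2 le_sup_right, h2] at h3
    rw [inf_comm, hACW, hAW9, hA81] at h1
    have h4 : C.relIndex A = p ^ 2 := by
      have : p ^ 2 * C.relIndex A = p ^ 2 * p ^ 2 := by rw [h1]; ring
      exact Nat.eq_of_mul_eq_mul_left (pow_pos hp0 2) this
    rw [h4] at h3
    have h5 := Subgroup.card_mul_index (A ⊔ C)
    rw [← h3] at h5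
    have hCpos : 0 < Nat.card C := Nat.card_pos
    have h6 : (A ⊔ C).index ≤ p := by
      have h7 : Nat.card C * (p ^ 2 * (A ⊔ C).index) ≤ Nat.card C * (p ^ 2 * p) := by
        rw [← mul_assoc, h5, mul_comm, show p ^ 2 * p = p ^ 3 by ring]
        exact hPC
      exact Nat.le_of_mul_le_mul_left (Nat.le_of_mul_le_mul_left h7 hCpos) (pow_pos hp0 2)
    obtain ⟨k, hk⟩ := hP.index (A ⊔ C)
    by_cases hk0 : k = 0
    · rw [hk0, pow_zero, Subgroup.index_eq_one] at hk
      rw [hk]; infer_instance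
    · have h7 : (A ⊔ C).index = p := by
        have h8 : p ∣ (A ⊔ C).index := by rw [hk]; exact dvd_pow_self p hk0
        have h9 : (A ⊔ C).index ≠ 0 := Subgroup.index_ne_zero_of_finite
        exact le_antisymm h6 (Nat.le_of_dvd (Nat.pos_of_ne_zero h9) h8)
      apply Subgroup.normal_of_index_eq_minFac_card
      rw [h7]
      obtain ⟨n, hn⟩ := IsPGroup.iff_card.1 hP
      have hn0 : n ≠ 0 := by
        rintro rfl
        rw [pow_zero] at hn
        have := Subgroup.card_le_card_group A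
        rw [hA81, hn] at this
        exact absurd this (not_le.2 (Nat.one_lt_pow (by norm_num) hp1))
      rw [hn, Nat.pow_minFac hn0]
      exact (Nat.Prime.minFac_eq hpp).symm
  -- Step 5
  have hAn : A.Normal := by
    rw [← Subgroup.normalizer_eq_top_iff]
    by_contra hne
    have hnil : Group.IsNilpotent P := hP.isNilpotent
    set H := normalizer (A : Set P) with hH
    have hAH : A ≤ H := le_normalizer
    have hlt : H < normalizer (H : Set P) :=
      Group.normalizerCondition_of_isNilpotent H (lt_top_iff_ne_top.2 hne)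
    obtain ⟨r, hrN, hrH⟩ := Set.exists_of_ssubset hlt
    have hrN' := mem_normalizer_iff.1 hrN
    -- B = r A r⁻¹
    set B := A.map (MulAut.conj r).toMonoidHom with hB
    have hBA : B ≠ A := by
      intro h
      apply hrH
      change r ∈ H
      rw [hH, Subgroup.mem_normalizer_iff_conj_image_eq]
      have := congrArg (fun X : Subgroup P => (X : Set P)) h
      simpa [hB] using this
    have hBcard : Nat.card B = p ^ 4 := by
      rw [← hA81]
      exact Subgroup.card_map_of_injective (MulAut.conj r).injective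
    have hBc : ∀ x ∈ B, ∀ y ∈ B, x * y = y * x := by
      rintro _ ⟨x, hx, rfl⟩ _ ⟨y, hy, rfl⟩
      change r * x * r⁻¹ * (r * y * r⁻¹) = r * y * r⁻¹ * (r * x * r⁻¹)
      calc r * x * r⁻¹ * (r * y * r⁻¹) = r * (x * y) * r⁻¹ := by group
        _ = r * (y * x) * r⁻¹ := by rw [hAc x hx y hy]
        _ = _ := by group
    have hBe : ∀ x ∈ B, x ^ p = 1 := by
      rintro _ ⟨x, hx, rfl⟩
      change (r * x * r⁻¹) ^ p = 1
      rw [conj_pow, hA.2 x hx]; group
    have hBH : ∀ b ∈ B, b ∈ H := by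
      rintro _ ⟨x, hx, rfl⟩
      exact (hrN' x).1 (hAH hx)
    -- A normalizes B
    have hABn : ∀ a ∈ A, ∀ b ∈ B, a * b * a⁻¹ ∈ B := by
      rintro a ha _ ⟨x, hx, rfl⟩
      have h1 : r⁻¹ * a * r ∈ H := by
        rw [hrN']
        have : r * (r⁻¹ * a * r) * r⁻¹ = a := by group
        rw [this]; exact hAH ha
      have h2 : (r⁻¹ * a * r) * x * (r⁻¹ * a * r)⁻¹ ∈ A := (mem_normalizer_iff.1 h1 x).1 hx
      refine ⟨_, h2, ?_⟩
      change r * ((r⁻¹ * a * r) * x * (r⁻¹ * a * r)⁻¹) * r⁻¹ = a * (r * x * r⁻¹) * a⁻¹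
      group
    -- cubes
    have hcube : ∀ a ∈ A, ∀ b ∈ B, (a * b) ^ p = 1 := by
      intro a ha b hb
      have hcA : b⁻¹ * a⁻¹ * b * a ∈ A := by
        have h1 := (mem_normalizer_iff.1 (hBH b⁻¹ (inv_mem hb)) a⁻¹).1 (inv_mem ha)
        rw [inv_inv] at h1
        exact mul_mem h1 ha
      have hcB : b⁻¹ * a⁻¹ * b * a ∈ B := by
        have h1 := hABn a⁻¹ (inv_mem ha) b hb
        have h2 := mul_mem (inv_mem hb) h1
        have h3 : b⁻¹ * (a⁻¹ * b * a⁻¹⁻¹) = b⁻¹ * a⁻¹ * b * a := by group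
        rwa [h3] at h2
      have hba : b * a = a * b * (b⁻¹ * a⁻¹ * b * a) := by group
      rw [PGroupOdd.mul_pow_of_comm hba (hAc _ hcA a ha) (hBc _ hcB b hb), hA.2 a ha, hBe b hb]
      have hodd : p ∣ p.choose 2 := by
        have := PGroupOdd.dvd_choose_two (n := 1) hpp one_ne_zero (by rwa [pow_one])
        rwa [pow_one] at this
      obtain ⟨k, hk⟩ := hodd
      rw [hk, pow_mul, hA.2 _ hcA]; simp
    -- B ≤ A W
    have hBAW : B ≤ A ⊔ W := by
      intro b hb
      have h1 : b ∈ A ⊔ C := by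
        obtain ⟨x, hx, rfl⟩ := hb
        exact hACn.conj_mem x (mem_sup_left hx) r
      rw [mem_sup_of_normal_right] at h1
      obtain ⟨a, ha, c, hc, rfl⟩ := h1
      have h2 : c ^ p = 1 := by
        have h3 := hcube a⁻¹ (inv_mem ha) (a * c) hb
        rwa [inv_mul_cancel_left] at h3
      exact mul_mem (mem_sup_left ha) (mem_sup_right (hWC c hc h2))
    have hW1 := card_inf_mul_relIndex W A
    rw [inf_comm, hAW9, hA81] at hW1
    have hW2 : W.relIndex (A ⊔ W) = W.relIndex A := relIndex_sup_right _ _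
    have hW3 := card_inf_mul_relIndex W (A ⊔ W)
    rw [inf_eq_left.2 le_sup_right, hW2, hWcard] at hW3
    have hW4 := card_inf_mul_relIndex A (A ⊔ W)
    rw [inf_eq_left.2 le_sup_left, hA81] at hW4
    have hW5 : A.relIndex B ≤ A.relIndex (A ⊔ W) :=
      relIndex_le_of_le_right hBAW (by
        intro h; rw [h, mul_zero] at hW4; exact Nat.card_pos.ne hW4)
    have hW6 := card_inf_mul_relIndex A B
    rw [hBcard] at hW6
    have hWA : W.relIndex A = p ^ 2 := by
      have : p ^ 2 * W.relIndex A = p ^ 2 * p ^ 2 := by rw [hW1]; ring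
      exact Nat.eq_of_mul_eq_mul_left (pow_pos hp0 2) this
    have hW7 : A.relIndex (A ⊔ W) = p := by
      have : p ^ 4 * A.relIndex (A ⊔ W) = p ^ 4 * p := by rw [hW4, ← hW3, hWA]; ring
      exact Nat.eq_of_mul_eq_mul_left (pow_pos hp0 4) this
    rw [hW7] at hW5
    have hAB27 : p ^ 3 ≤ Nat.card ↥(A ⊓ B) := by
      have : p * p ^ 3 ≤ p * Nat.card ↥(A ⊓ B) := by
        calc p * p ^ 3 = p ^ 4 := by ring
          _ = Nat.card ↥(A ⊓ B) * A.relIndex B := hW6.symm
          _ ≤ Nat.card ↥(A ⊓ B) * p := Nat.mul_le_mul_left _ hW5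
          _ = _ := mul_comm _ _
      exact Nat.le_of_mul_le_mul_left this hp0
    -- b ∈ B \ A
    obtain ⟨b, hb, hbA⟩ : ∃ b ∈ B, b ∉ A := by
      by_contra hcon
      push Not at hcon
      exact hBA (Subgroup.eq_of_le_of_card_ge hcon (by rw [hA81, hBcard]))
    have hb' := hBAW hb
    rw [mem_sup_of_normal_right] at hb'
    obtain ⟨a, ha, w, hw, hawb⟩ := hb'
    have hwA : w ∉ A := fun h => hbA (hawb ▸ mul_mem ha h)
    -- A ⊓ B centralises W
    have hle : A ⊓ B ≤ A ⊓ W := by
      rintro x ⟨hxA, hxB⟩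
      rw [← hACW]
      refine ⟨hxA, mem_centralizer_iff.2 ?_⟩
      have hxw : x * w = w * x := by
        have h1 : w = a⁻¹ * b := by rw [← hawb]; group
        have h2 : Commute x a⁻¹ := (show Commute x a from hAc x hxA a ha).inv_right
        have h3 : Commute x b := hBc x hxB b hb
        rw [h1]
        exact (h2.mul_right h3).eq
      have h4 : W ⊓ centralizer {x} = W := by
        apply Subgroup.eq_of_le_of_card_ge inf_le_left
        have h5 : Nat.card ↥(W ⊓ centralizer {x}) ∣ p ^ 3 := hWcard ▸ Subgroup.card_dvd_of_le inf_le_left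
        have h6 : A ⊓ W ≤ W ⊓ centralizer {x} := by
          rintro y ⟨hyA, hyW⟩
          exact ⟨hyW, mem_centralizer_singleton_iff.2 (hAc y hyA x hxA)⟩
        have h7 := Subgroup.card_le_of_le h6
        rw [hWcard]
        apply dvd_ge (j := 2) hpp h5
        by_contra hle
        push Not at hle
        have h8 : A ⊓ W = W ⊓ centralizer {x} :=
          Subgroup.eq_of_le_of_card_ge h6 (by rw [hAW9]; exact hle)
        have h9 : w ∈ W ⊓ centralizer {x} := ⟨hw, mem_centralizer_singleton_iff.2 hxw.symm⟩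
        rw [← h8] at h9
        exact hwA h9.1
      intro y hy
      have hy' : y ∈ W ⊓ centralizer {x} := by rw [h4]; exact hy
      exact mem_centralizer_singleton_iff.1 hy'.2
    have := Subgroup.card_le_of_le hle
    rw [hAW9] at this
    exact absurd (hAB27.trans this) (not_le.2 (Nat.pow_lt_pow_right hp1 (by norm_num)))
  exact hAn

end Cfsg.Agent.Lib.NormalE4
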