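import Mathlib
import Cfsg.Agent.Lib.FrobDiv
import Cfsg.Agent.Lib.Burnside

set_option autoImplicit false

/-!
The numbers `nu G m` of elements of order `m` in a finite group, with divisibility properties.
-/

namespace Cfsg.Agent.Lib.NuCount

universe u

/-- the number of elements of order `m` -/
noncomputable def nu (G : Type u) [Group G] (m : ℕ) : ℕ := Nat.card {g : G // orderOf g = m}

variable {G : Type u} [Group G] [Finite G]

theorem nu_pos_of {g : G} {m : ℕ} (h : orderOf g = m) : 0 < nu G m := by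
  have : Nonempty {g : G // orderOf g = m} := ⟨⟨g, h⟩⟩
  exact Nat.card_pos

theorem exists_of_nu_ne {m : ℕ} (h : nu G m ≠ 0) : ∃ g : G, orderOf g = m := by
  by_contra hc
  push Not at hc
  apply h
  have : IsEmpty {g : G // orderOf g = m} := ⟨fun x => hc x.1 x.2⟩
  exact Nat.card_of_isEmpty

theorem nu_one : nu G 1 = 1 := by
  unfold nu
  rw [Nat.card_eq_one_iff_unique]
  refine ⟨⟨fun a b => ?_⟩, ⟨⟨1, orderOf_one⟩⟩⟩
  exact Subtype.ext ((orderOf_eq_one_iff.1 a.2).trans (orderOf_eq_one_iff.1 b.2).symm)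

theorem nu_prime_pos {p : ℕ} (hp : p.Prime) (hpG : p ∣ Nat.card G) : 0 < nu G p := by
  have := Fact.mk hp
  obtain ⟨x, hx⟩ := exists_prime_orderOf_dvd_card' p hpG
  exact nu_pos_of hx

theorem totient_dvd (m : ℕ) : Nat.totient m ∣ nu G m := by
  classical
  unfold nu
  refine FrobDiv.dvd_card_of_fibers (fun x => Subgroup.zpowers x.1) _ ?_
  rintro ⟨x, hx⟩
  have e : {a' : {g : G // orderOf g = m} // Subgroup.zpowers a'.1 = Subgroup.zpowers x} ≃
      {y : Subgroup.zpowers x // orderOf y = m} :=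
    { toFun := fun a => ⟨⟨a.1.1, a.2.le (Subgroup.mem_zpowers _)⟩, by
        rw [← Subgroup.orderOf_coe]; exact a.1.2⟩
      invFun := fun y => ⟨⟨y.1.1, by rw [Subgroup.orderOf_coe]; exact y.2⟩, by
        refine Subgroup.eq_of_le_of_card_ge ?_ ?_
        · rw [Subgroup.zpowers_le]; exact y.1.2
        · rw [Nat.card_zpowers, Nat.card_zpowers, hx]
          show m ≤ orderOf (y.1 : G)
          rw [Subgroup.orderOf_coe, y.2]⟩
      left_inv := fun a => rfl
      right_inv := fun y => rfl }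
  have h1 : Nat.card {y : Subgroup.zpowers x // orderOf y = m} = Nat.totient m := by
    have := Fintype.ofFinite (Subgroup.zpowers x)
    have h2 := IsCyclic.card_orderOf_eq_totient (α := Subgroup.zpowers x) (d := m) (by
      rw [← Nat.card_eq_fintype_card, Nat.card_zpowers, hx])
    rw [← h2, Nat.card_eq_fintype_card, Fintype.card_subtype]
  show Nat.totient m ∣ Nat.card {a' : {g : G // orderOf g = m} // Subgroup.zpowers a'.1 = Subgroup.zpowers x}
  rw [Nat.card_congr e, h1]

theorem sum_nu (n : ℕ) (hn : n ≠ 0) : ∑ d ∈ n.divisors, nu G d = Nat.card {g : G // g ^ n = 1} := by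
  classical
  have := Fintype.ofFinite G
  have h := sum_card_orderOf_eq_card_pow_eq_one (G := G) hn
  have h1 : ∀ d, nu G d = (Finset.univ.filter (fun x : G => orderOf x = d)).card := by
    intro d
    unfold nu
    rw [Nat.card_eq_fintype_card, Fintype.card_subtype]
  simp only [h1]
  rw [h, Nat.card_eq_fintype_card, Fintype.card_subtype]

theorem dvd_sum {n : ℕ} (hn : n ∣ Nat.card G) : n ∣ ∑ d ∈ n.divisors, nu G d := by
  have hn0 : n ≠ 0 := fun h => by rw [h, zero_dvd_iff] at hn; exact Nat.card_pos.ne' hn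
  rw [sum_nu n hn0]
  exact FrobDiv.frobenius n hn

/-- only finitely many orders; everything at once -/
theorem two_dvd_nu {m : ℕ} (hm : 2 < m) : 2 ∣ nu G m :=
  (even_iff_two_dvd.1 (Nat.totient_even hm)).trans (totient_dvd m)

theorem four_dvd_nu {p q : ℕ} (hp : p.Prime) (hq : q.Prime) (hp2 : p ≠ 2) (hq2 : q ≠ 2) (hpq : p ≠ q) :
    4 ∣ nu G (p * q) := by
  refine dvd_trans ?_ (totient_dvd (p * q))
  rw [Nat.totient_mul ((Nat.coprime_primes hp hq).2 hpq)]
  have h1 := even_iff_two_dvd.1 (Nat.totient_even (n := p) (lt_of_le_of_ne hp.two_le hp2.symm))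
  have h2 := even_iff_two_dvd.1 (Nat.totient_even (n := q) (lt_of_le_of_ne hq.two_le hq2.symm))
  have := Nat.mul_dvd_mul h1 h2
  simpa using this

theorem four_dvd_nu' {p : ℕ} (hp : p.Prime) (hp2 : p ≠ 2) :
    4 ∣ nu G (4 * p) := by
  refine dvd_trans ?_ (totient_dvd (4 * p))
  have hc : Nat.Coprime 4 p := by
    have : Nat.Coprime 2 p := (Nat.coprime_primes Nat.prime_two hp).2 hp2.symm
    exact Nat.Coprime.pow_left 2 this
  rw [Nat.totient_mul hc]
  have h1 := even_iff_two_dvd.1 (Nat.totient_even (n := p) (lt_of_le_of_ne hp.two_le hp2.symm))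
  have h2 : 2 ∣ Nat.totient 4 := even_iff_two_dvd.1 (Nat.totient_even (n := 4) (by norm_num))
  have := Nat.mul_dvd_mul h2 h1
  simpa using this

theorem four_dvd_nu'' {p q : ℕ} (hp : p.Prime) (hq : q.Prime) (hp2 : p ≠ 2) (hq2 : q ≠ 2) (hpq : p ≠ q) :
    4 ∣ nu G (4 * (p * q)) := by
  refine dvd_trans ?_ (totient_dvd (4 * (p * q)))
  have hc : Nat.Coprime 4 (p * q) := by
    have h1 : Nat.Coprime 2 p := (Nat.coprime_primes Nat.prime_two hp).2 hp2.symm
    have h2 : Nat.Coprime 2 q := (Nat.coprime_primes Nat.prime_two hq).2 hq2.symm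
    exact Nat.Coprime.pow_left 2 (h1.mul_right h2)
  rw [Nat.totient_mul hc, Nat.totient_mul ((Nat.coprime_primes hp hq).2 hpq)]
  have h1 := even_iff_two_dvd.1 (Nat.totient_even (n := p) (lt_of_le_of_ne hp.two_le hp2.symm))
  have h2 := even_iff_two_dvd.1 (Nat.totient_even (n := q) (lt_of_le_of_ne hq.two_le hq2.symm))
  exact Dvd.dvd.mul_left (by have := Nat.mul_dvd_mul h1 h2; simpa using this) _

theorem prime_dvd_one_add {p : ℕ} (hp : p.Prime) (hpG : p ∣ Nat.card G) : p ∣ 1 + nu G p := by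
  have h := dvd_sum hpG
  rw [Nat.Prime.sum_divisors hp, nu_one] at h
  rwa [add_comm]

theorem sum_divisors_coprime {a b : ℕ} (h : a.Coprime b) (f : ℕ → ℕ) :
    ∑ d ∈ (a * b).divisors, f d = ∑ x ∈ a.divisors, ∑ y ∈ b.divisors, f (x * y) := by
  rw [Nat.divisors_mul, Finset.mul_def, Finset.sum_image (by
    intro x hx y hy hxy
    exact h.mul_injOn_divisors hx hy hxy), Finset.sum_product]

theorem sum_two {p q : ℕ} (hp : p.Prime) (hq : q.Prime) (hpq : p ≠ q) (f : ℕ → ℕ) :
    ∑ d ∈ (p * q).divisors, f d = f 1 + f p + f q + f (p * q) := by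
  have hc := (Nat.coprime_primes hp hq).2 hpq
  rw [sum_divisors_coprime hc]
  simp only [Nat.Prime.sum_divisors hp, Nat.Prime.sum_divisors hq, mul_one, one_mul]
  ring

theorem sum_three {p q r : ℕ} (hp : p.Prime) (hq : q.Prime) (hr : r.Prime) (hpq : p ≠ q) (hpr : p ≠ r)
    (hqr : q ≠ r) (f : ℕ → ℕ) :
    ∑ d ∈ (p * q * r).divisors, f d =
      f 1 + f p + f q + f r + f (p * q) + f (p * r) + f (q * r) + f (p * q * r) := by
  have hc : (p * q).Coprime r :=
    Nat.Coprime.mul_left ((Nat.coprime_primes hp hr).2 hpr) ((Nat.coprime_primes hq hr).2 hqr)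
  rw [sum_divisors_coprime hc]
  simp only [Nat.Prime.sum_divisors hr, mul_one]
  rw [sum_two hp hq hpq]
  simp only [one_mul]
  ring

theorem divisors_four : (4 : ℕ).divisors = {1, 2, 4} := by decide

theorem sum_four {p : ℕ} (hp : p.Prime) (hp2 : p ≠ 2) (f : ℕ → ℕ) :
    ∑ d ∈ (4 * p).divisors, f d = f 1 + f 2 + f 4 + f p + f (2 * p) + f (4 * p) := by
  have hc : Nat.Coprime 4 p := Nat.Coprime.pow_left 2 ((Nat.coprime_primes Nat.prime_two hp).2 hp2.symm)
  rw [sum_divisors_coprime hc]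
  simp only [Nat.Prime.sum_divisors hp, mul_one]
  rw [divisors_four]
  simp
  ring

theorem sum_four' {p q : ℕ} (hp : p.Prime) (hq : q.Prime) (hp2 : p ≠ 2) (hq2 : q ≠ 2) (hpq : p ≠ q) (f : ℕ → ℕ) :
    ∑ d ∈ (4 * (p * q)).divisors, f d = f 1 + f 2 + f 4 + (f p + f (2 * p) + f (4 * p)) +
      (f q + f (2 * q) + f (4 * q)) + (f (p * q) + f (2 * (p * q)) + f (4 * (p * q))) := by
  have hc : Nat.Coprime 4 (p * q) := Nat.Coprime.pow_left 2
    (((Nat.coprime_primes Nat.prime_two hp).2 hp2.symm).mul_right ((Nat.coprime_primes Nat.prime_two hq).2 hq2.symm))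
  rw [sum_divisors_coprime hc, divisors_four]
  simp only [sum_two hp hq hpq, mul_one]
  simp
  ring

theorem sum_two' {p q : ℕ} (hp : p.Prime) (hq : q.Prime) (hp2 : p ≠ 2) (hq2 : q ≠ 2) (hpq : p ≠ q) (f : ℕ → ℕ) :
    ∑ d ∈ (2 * (p * q)).divisors, f d = f 1 + f 2 + (f p + f (2 * p)) +
      (f q + f (2 * q)) + (f (p * q) + f (2 * (p * q))) := by
  have hc : Nat.Coprime 2 (p * q) :=
    (((Nat.coprime_primes Nat.prime_two hp).2 hp2.symm).mul_right ((Nat.coprime_primes Nat.prime_two hq).2 hq2.symm))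
  rw [sum_divisors_coprime hc]
  simp only [sum_two hp hq hpq, mul_one, Nat.Prime.sum_divisors Nat.prime_two]
  simp
  ring

/-- unique involution: doubling -/
theorem nu_two_mul (h2 : nu G 2 = 1) {m : ℕ} (hm : Odd m) : nu G (2 * m) = nu G m := by
  classical
  obtain ⟨z, hz⟩ : ∃ z : G, orderOf z = 2 := exists_of_nu_ne (by rw [h2]; norm_num)
  have huniq : ∀ w : G, orderOf w = 2 → w = z := by
    intro w hw
    unfold nu at h2
    rw [Nat.card_eq_one_iff_unique] at h2
    have := h2.1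
    exact congrArg Subtype.val (Subsingleton.elim (⟨w, hw⟩ : {g : G // orderOf g = 2}) ⟨z, hz⟩)
  have hzc : ∀ g : G, Commute g z := by
    intro g
    have h1 : orderOf (g * z * g⁻¹) = 2 := by
      have : orderOf ((MulAut.conj g) z) = orderOf z := MulEquiv.orderOf_eq (MulAut.conj g) z
      rw [← hz, ← this]; rfl
    have h3 := huniq _ h1
    exact mul_inv_eq_iff_eq_mul.1 h3
  have hzz : z * z = 1 := by
    have := pow_orderOf_eq_one z
    rwa [hz, pow_two] at this
  have hord : ∀ g : G, Odd (orderOf g) → orderOf (g * z) = 2 * orderOf g := by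
    intro g hg
    rw [(hzc g).orderOf_mul_eq_mul_orderOf_of_coprime (by rw [hz]; exact (Nat.coprime_two_right.2 hg)), hz, mul_comm]
  symm
  unfold nu
  refine Nat.card_congr (Equiv.ofBijective (fun g => ⟨g.1 * z, by rw [hord g.1 (by rw [g.2]; exact hm), g.2]⟩) ⟨?_, ?_⟩)
  · intro a b hab
    exact Subtype.ext (mul_right_cancel (congrArg Subtype.val hab))
  · rintro ⟨h, hh⟩
    have hm0 : 0 < m := hm.pos
    have h1 : orderOf (h ^ m) = 2 := by
      rw [orderOf_pow_of_dvd hm0.ne' (by rw [hh]; exact Dvd.intro_left _ rfl), hh, Nat.mul_div_cancel _ hm0]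
    have h3 := huniq _ h1
    have h4 : (h * z) ^ m = 1 := by
      rw [(hzc h).mul_pow, h3]
      obtain ⟨k, rfl⟩ := hm
      rw [pow_succ, pow_mul, pow_two, hzz, one_pow, one_mul, hzz]
    have h5 : orderOf (h * z) ∣ m := orderOf_dvd_of_pow_eq_one h4
    have h6 : Odd (orderOf (h * z)) := Odd.of_dvd_nat hm h5
    have h7 := hord _ h6
    rw [mul_assoc, hzz, mul_one, hh] at h7
    exact ⟨⟨h * z, by omega⟩, Subtype.ext (by show h * z * z = h; rw [mul_assoc, hzz, mul_one])⟩

end Cfsg.Agent.Lib.NuCount
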