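import Cfsg.Agent.Lib.NuCount
import Cfsg.Agent.Lib.BrauerFowler

set_option autoImplicit false

/-!
A finite group in which the numbers of elements of given order take exactly three values is solvable.
-/

namespace Cfsg.Agent.Lib.NuCount

universe u

variable {G : Type u} [Group G] [Finite G]

/-- the values are in `{1, a, b}` -/
structure Vals (G : Type u) [Group G] (a b : ℕ) : Prop where
  ha : a ≠ 1
  hb : b ≠ 1
  hab : a ≠ b
  h : ∀ m, nu G m ≠ 0 → nu G m = 1 ∨ nu G m = a ∨ nu G m = b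

theorem Vals.symm {a b : ℕ} (h : Vals G a b) : Vals G b a :=
  ⟨h.hb, h.ha, h.hab.symm, fun m hm => by rcases h.h m hm with h | h | h <;> tauto⟩

theorem Vals.big {a b : ℕ} (h : Vals G a b) {m : ℕ} (hm : 2 < m) (h0 : nu G m ≠ 0) : nu G m = a ∨ nu G m = b := by
  rcases h.h m h0 with h1 | h1
  · exfalso
    have := two_dvd_nu (G := G) hm
    rw [h1] at this
    omega
  · exact h1

theorem cast_zero {n p : ℕ} (h : p ∣ n) : (n : ZMod p) = 0 := (ZMod.natCast_eq_zero_iff n p).2 h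

theorem two_ne {p : ℕ} (hp : p.Prime) (hp2 : p ≠ 2) : (2 : ZMod p) ≠ 0 := by
  intro h
  have h1 : ((2 : ℕ) : ZMod p) = 0 := by exact_mod_cast h
  rw [ZMod.natCast_eq_zero_iff] at h1
  exact hp2 ((Nat.prime_dvd_prime_iff_eq hp Nat.prime_two).1 h1)

/-- mod `p` classification, `a = -1` -/
theorem Vals.one {a b : ℕ} (h : Vals G a b) {p : ℕ} (hp : p.Prime) (hp2 : p ≠ 2) (ha : (a : ZMod p) = -1)
    {m : ℕ} (hm : 2 < m) (h1 : (nu G m : ZMod p) = 1) : nu G m = b := by
  have := Fact.mk hp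
  have h0 : nu G m ≠ 0 := by
    intro h
    rw [h, Nat.cast_zero] at h1
    exact zero_ne_one h1
  rcases h.big hm h0 with h2 | h2
  · exfalso
    rw [h2, ha] at h1
    exact two_ne hp hp2 (by linear_combination -h1)
  · exact h2

theorem Vals.neg_one {a b : ℕ} (h : Vals G a b) {p : ℕ} (hp : p.Prime) (hp2 : p ≠ 2) (hb : (b : ZMod p) = 1)
    {m : ℕ} (hm : 2 < m) (h1 : (nu G m : ZMod p) = -1) : nu G m = a := by
  have := Fact.mk hp
  have h0 : nu G m ≠ 0 := by
    intro h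
    rw [h, Nat.cast_zero] at h1
    have : (1 : ZMod p) = 0 := by linear_combination h1
    exact one_ne_zero this
  rcases h.big hm h0 with h2 | h2
  · exact h2
  · exfalso
    rw [h2, hb] at h1
    exact two_ne hp hp2 (by linear_combination h1)

theorem Vals.four {a b : ℕ} (h : Vals G a b) (h2 : nu G 2 = 1) (h4 : 4 ∣ Nat.card G) :
    (nu G 4 = a ∨ nu G 4 = b) ∧ nu G 4 % 4 = 2 := by
  have h1 := dvd_sum (G := G) h4
  rw [divisors_four, Finset.sum_insert (by decide), Finset.sum_insert (by decide), Finset.sum_singleton, nu_one, h2] at h1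
  have h3 : nu G 4 % 4 = 2 := by omega
  refine ⟨h.big (by norm_num) (by omega), h3⟩

theorem cast_prime {p : ℕ} (hp : p.Prime) (hpG : p ∣ Nat.card G) : (nu G p : ZMod p) = -1 := by
  have h := cast_zero (prime_dvd_one_add hp hpG)
  push_cast at h
  linear_combination h

theorem dvd_card_mul {p q : ℕ} (hp : p.Prime) (hq : q.Prime) (hpq : p ≠ q) (hpG : p ∣ Nat.card G)
    (hqG : q ∣ Nat.card G) : p * q ∣ Nat.card G :=
  Nat.Coprime.mul_dvd_of_dvd_of_dvd ((Nat.coprime_primes hp hq).2 hpq) hpG hqG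

theorem cast_pair {p q : ℕ} (hp : p.Prime) (hq : q.Prime) (hpq : p ≠ q) (hpG : p ∣ Nat.card G)
    (hqG : q ∣ Nat.card G) : ((1 + nu G p + nu G q + nu G (p * q) : ℕ) : ZMod p) = 0 := by
  refine cast_zero ?_
  have h := dvd_sum (dvd_card_mul hp hq hpq hpG hqG)
  rw [sum_two hp hq hpq, nu_one] at h
  exact (Dvd.intro _ rfl).trans h

theorem two_lt_mul {p q : ℕ} (hp : p.Prime) (hq : q.Prime) : 2 < p * q := by
  have := hp.two_le
  have := hq.two_le
  nlinarith

/-- the pair lemma -/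
theorem Vals.pair {a b : ℕ} (h : Vals G a b) {p q : ℕ} (hp : p.Prime) (hq : q.Prime) (hpq : p ≠ q)
    (hp2 : p ≠ 2) (hpG : p ∣ Nat.card G) (hqG : q ∣ Nat.card G) (hpa : nu G p = a)
    (hqa : nu G q = a) (haq : (a : ZMod p) = -1) : nu G (p * q) = b ∧ (b : ZMod p) = 1 := by
  have h1 := cast_pair hp hq hpq hpG hqG
  rw [hpa, hqa] at h1
  push_cast at h1
  have h2 : (nu G (p * q) : ZMod p) = 1 := by linear_combination h1 - 2 * haq
  have h3 := h.one hp hp2 haq (two_lt_mul hp hq) h2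
  exact ⟨h3, by rw [← h3]; exact h2⟩

/-- Case `ν(2) ≠ 1`. -/
theorem caseA {a b : ℕ} (h : Vals G a b) (h2 : nu G 2 = a) (h2G : 2 ∣ Nat.card G) {p q : ℕ} (hp : p.Prime) (hq : q.Prime)
    (hpq : p ≠ q) (hp2 : p ≠ 2) (hq2 : q ≠ 2) (hpG : p ∣ Nat.card G) (hqG : q ∣ Nat.card G) : False := by
  have := Fact.mk hp
  have hodd : ¬ 2 ∣ a := by
    have := prime_dvd_one_add Nat.prime_two h2G
    rw [h2] at this
    omega
  have hbig : ∀ m, 2 < m → nu G m ≠ 0 → nu G m = b := by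
    intro m hm h0
    rcases h.big hm h0 with h1 | h1
    · exact absurd (h1 ▸ two_dvd_nu (G := G) hm) hodd
    · exact h1
  have hplt : 2 < p := lt_of_le_of_ne hp.two_le hp2.symm
  have hqlt : 2 < q := lt_of_le_of_ne hq.two_le hq2.symm
  have hpb := hbig p hplt (nu_prime_pos hp hpG).ne'
  have hqb := hbig q hqlt (nu_prime_pos hq hqG).ne'
  have hb1 := cast_prime hp hpG
  rw [hpb] at hb1
  have h1 := h.symm.pair hp hq hpq hp2 hpG hqG hpb hqb hb1
  have h3 := hbig (p * q) (two_lt_mul hp hq) (by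
    intro h0
    have h4 := h1.2
    rw [← h1.1, h0, Nat.cast_zero] at h4
    exact zero_ne_one h4)
  exact h.hab (h1.1.symm.trans h3)

/-- Case B1.1: two primes with value `a`, no third one with value `b`. -/
theorem caseB11 {a b : ℕ} (h : Vals G a b) {p q r : ℕ} (hp : p.Prime) (hq : q.Prime) (hr : r.Prime)
    (hpq : p ≠ q) (hp2 : p ≠ 2) (hq2 : q ≠ 2) (hr2 : r ≠ 2) (hpG : p ∣ Nat.card G) (hqG : q ∣ Nat.card G) (hrG : r ∣ Nat.card G)
    (hpa : nu G p = a) (hqa : nu G q = a) : nu G r ≠ b := by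
  intro hrb
  have := Fact.mk hp
  have := Fact.mk hq
  have := Fact.mk hr
  have hpr : p ≠ r := by rintro rfl; exact h.hab (hpa.symm.trans hrb)
  have hqr : q ≠ r := by rintro rfl; exact h.hab (hqa.symm.trans hrb)
  have hap : (a : ZMod p) = -1 := by rw [← hpa]; exact cast_prime hp hpG
  have haq : (a : ZMod q) = -1 := by rw [← hqa]; exact cast_prime hq hqG
  have hbr : (b : ZMod r) = -1 := by rw [← hrb]; exact cast_prime hr hrG
  obtain ⟨hpqb, hbp⟩ := h.pair hp hq hpq hp2 hpG hqG hpa hqa hap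
  obtain ⟨hqpb, hbq⟩ := h.pair hq hp hpq.symm hq2 hqG hpG hqa hpa haq
  -- `ν(pr) = a`
  have h1 := cast_pair hp hr hpr hpG hrG
  rw [hpa, hrb] at h1
  push_cast at h1
  have hpra : nu G (p * r) = a := h.neg_one hp hp2 hbp (two_lt_mul hp hr) (by linear_combination h1 - hap - hbp)
  have h2 := cast_pair hq hr hqr hqG hrG
  rw [hqa, hrb] at h2
  push_cast at h2
  have hqra : nu G (q * r) = a := h.neg_one hq hq2 hbq (two_lt_mul hq hr) (by linear_combination h2 - haq - hbq)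
  -- `a = 0` mod `r`
  have h3 := cast_pair hr hp hpr.symm hrG hpG
  rw [mul_comm r p, hpa, hrb, hpra] at h3
  push_cast at h3
  have h4 : (2 : ZMod r) * a = 0 := by linear_combination h3 - hbr
  have har : (a : ZMod r) = 0 := (mul_eq_zero.1 h4).resolve_left (two_ne hr hr2)
  -- `pqr`
  have h5 := dvd_sum (G := G) (n := p * q * r) (by
    refine Nat.Coprime.mul_dvd_of_dvd_of_dvd ?_ (dvd_card_mul hp hq hpq hpG hqG) hrG
    exact Nat.Coprime.mul_left ((Nat.coprime_primes hp hr).2 hpr) ((Nat.coprime_primes hq hr).2 hqr))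
  rw [sum_three hp hq hr hpq hpr hqr, nu_one, hpa, hqa, hrb, hpqb, hpra, hqra] at h5
  have h6 : ((1 + a + a + b + b + a + a + nu G (p * q * r) : ℕ) : ZMod p) = 0 :=
    cast_zero ((Dvd.intro (q * r) (by ring)).trans h5)
  have h7 : ((1 + a + a + b + b + a + a + nu G (p * q * r) : ℕ) : ZMod r) = 0 :=
    cast_zero ((Dvd.intro (p * q) (by ring)).trans h5)
  push_cast at h6 h7
  have hbig : 2 < p * q * r := by
    have := two_lt_mul hp hq
    have := hr.two_le
    nlinarith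
  have h8 : nu G (p * q * r) = b := h.one hp hp2 hap hbig (by linear_combination h6 - 4 * hap - 2 * hbp)
  rw [h8] at h7
  exact two_ne hr hr2 (by linear_combination -h7 + 4 * har + 3 * hbr)

theorem odd_prime {p : ℕ} (hp : p.Prime) (hp2 : p ≠ 2) : Odd p := hp.odd_of_ne_two hp2

theorem four_mul_dvd {m : ℕ} (hm : Odd m) (h4 : 4 ∣ Nat.card G) (hmG : m ∣ Nat.card G) : 4 * m ∣ Nat.card G := by
  refine Nat.Coprime.mul_dvd_of_dvd_of_dvd ?_ h4 hmG
  exact Nat.Coprime.pow_left 2 (Nat.coprime_two_left.2 hm)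

theorem cast_four {p : ℕ} (hp : p.Prime) (hp2 : p ≠ 2) (h2 : nu G 2 = 1) (h4 : 4 ∣ Nat.card G) (hpG : p ∣ Nat.card G) :
    (nu G (4 * p) : ZMod p) = - (nu G 4 : ZMod p) := by
  have h := dvd_sum (four_mul_dvd (odd_prime hp hp2) h4 hpG)
  rw [sum_four hp hp2, nu_one, h2, nu_two_mul h2 (odd_prime hp hp2)] at h
  have h1 : ((1 + 1 + nu G 4 + nu G p + nu G p + nu G (4 * p) : ℕ) : ZMod p) = 0 :=
    cast_zero ((Dvd.intro_left _ rfl).trans h)
  push_cast at h1
  linear_combination h1 - 2 * cast_prime hp hpG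

theorem cast_four' {p q : ℕ} (hp : p.Prime) (hq : q.Prime) (hpq : p ≠ q) (hp2 : p ≠ 2) (hq2 : q ≠ 2) (h2 : nu G 2 = 1)
    (h4 : 4 ∣ Nat.card G) (hpG : p ∣ Nat.card G) (hqG : q ∣ Nat.card G) :
    (nu G (4 * (p * q)) : ZMod p) = - (nu G (4 * q) : ZMod p) := by
  have hodd : Odd (p * q) := (odd_prime hp hp2).mul (odd_prime hq hq2)
  have h := dvd_sum (four_mul_dvd hodd h4 (dvd_card_mul hp hq hpq hpG hqG))
  rw [sum_four' hp hq hp2 hq2 hpq, nu_one, h2, nu_two_mul h2 (odd_prime hp hp2), nu_two_mul h2 (odd_prime hq hq2),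
    nu_two_mul h2 hodd] at h
  have h1 : ((1 + 1 + nu G 4 + (nu G p + nu G p + nu G (4 * p)) + (nu G q + nu G q + nu G (4 * q)) +
      (nu G (p * q) + nu G (p * q) + nu G (4 * (p * q))) : ℕ) : ZMod p) = 0 :=
    cast_zero ((Dvd.intro (4 * q) (by ring)).trans h)
  have h3 := cast_pair hp hq hpq hpG hqG
  have h5 := cast_four hp hp2 h2 h4 hpG
  push_cast at h1 h3
  linear_combination h1 - 2 * h3 - h5

/-- Case B1.2. -/
theorem caseB12 {a b : ℕ} (h : Vals G a b) {p q : ℕ} (hp : p.Prime) (hq : q.Prime)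
    (hpq : p ≠ q) (hp2 : p ≠ 2) (hq2 : q ≠ 2) (hpG : p ∣ Nat.card G) (hqG : q ∣ Nat.card G)
    (hpa : nu G p = a) (hqa : nu G q = a) (h2 : nu G 2 = 1) (h4 : 4 ∣ Nat.card G) : False := by
  have := Fact.mk hp
  have := Fact.mk hq
  have hap : (a : ZMod p) = -1 := by rw [← hpa]; exact cast_prime hp hpG
  have haq : (a : ZMod q) = -1 := by rw [← hqa]; exact cast_prime hq hqG
  obtain ⟨hpqb, hbp⟩ := h.pair hp hq hpq hp2 hpG hqG hpa hqa hap
  obtain ⟨hqpb, hbq⟩ := h.pair hq hp hpq.symm hq2 hqG hpG hqa hpa haq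
  obtain ⟨h5, h6⟩ := h.four h2 h4
  have h7 := four_dvd_nu'' (G := G) hp hq hp2 hq2 hpq
  have h8 := cast_four' hp hq hpq hp2 hq2 h2 h4 hpG hqG
  have h9 := cast_four hq hq2 h2 h4 hqG
  have hbig : 2 < 4 * (p * q) := by have := two_lt_mul hp hq; omega
  have hbig' : 2 < 4 * q := by have := hq.two_le; omega
  rcases h5 with h5 | h5
  · have h10 : nu G (4 * q) = b := h.one hq hq2 haq hbig' (by rw [h9, h5, haq]; ring)
    have h11 : nu G (4 * (p * q)) = a := h.neg_one hp hp2 hbp hbig (by rw [h8, h10, hbp])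
    rw [h11] at h7
    rw [h5] at h6
    omega
  · have h10 : nu G (4 * q) = a := h.neg_one hq hq2 hbq hbig' (by rw [h9, h5, hbq])
    have h11 : nu G (4 * (p * q)) = b := h.one hp hp2 hap hbig (by rw [h8, h10, hap]; ring)
    rw [h11] at h7
    rw [h5] at h6
    omega

/-- no elements of order `r²` -/
theorem caseB13_aux {a b : ℕ} (h : Vals G a b) {r s : ℕ} (hr : r.Prime) (hs : s.Prime) (hrs : r ≠ s)
    (hr2 : r ≠ 2) (hrG : r ∣ Nat.card G) (hsG : s ∣ Nat.card G)
    (hra : nu G r = a) (hsa : nu G s = a) {k : ℕ} (hk : r ^ k ∣ Nat.card G) : r ^ k ∣ 1 + a := by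
  have := Fact.mk hr
  have har : (a : ZMod r) = -1 := by rw [← hra]; exact cast_prime hr hrG
  obtain ⟨-, hbr⟩ := h.pair hr hs hrs hr2 hrG hsG hra hsa har
  have hrlt : 2 < r := lt_of_le_of_ne hr.two_le hr2.symm
  have h0 : nu G (r ^ 2) = 0 := by
    by_contra hne
    have h1 := totient_dvd (G := G) (r ^ 2)
    rw [Nat.totient_prime_pow hr (by norm_num)] at h1
    have h2 : (nu G (r ^ 2) : ZMod r) = 0 := cast_zero ((Dvd.intro (r - 1) (by simp)).trans h1)
    rcases h.big (m := r ^ 2) (by nlinarith) hne with h3 | h3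
    · rw [h3, har] at h2
      exact one_ne_zero (neg_eq_zero.1 h2)
    · rw [h3, hbr] at h2
      exact one_ne_zero h2
  have h1 : ∀ j : ℕ, 2 ≤ j → nu G (r ^ j) = 0 := by
    intro j hj
    by_contra hne
    obtain ⟨g, hg⟩ := exists_of_nu_ne hne
    have h2 : orderOf (g ^ (r ^ (j - 2))) = r ^ 2 := by
      rw [orderOf_pow_of_dvd (pow_pos hr.pos _).ne' (by rw [hg]; exact pow_dvd_pow _ (by omega)), hg]
      rw [Nat.pow_div (by omega) hr.pos]
      congr 1
      omega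
    exact (nu_pos_of h2).ne' h0
  rcases Nat.eq_zero_or_pos k with rfl | hk0
  · simp
  have h2 := dvd_sum hk
  rw [Nat.divisors_prime_pow hr, Finset.sum_map] at h2
  simp only [Function.Embedding.coeFn_mk] at h2
  have h3 : ∑ x ∈ Finset.range (k + 1), nu G (r ^ x) = 1 + a := by
    obtain ⟨j, rfl⟩ : ∃ j, k = j + 1 := ⟨k - 1, by omega⟩
    rw [Finset.sum_range_succ', Finset.sum_range_succ']
    have h4 : ∑ x ∈ Finset.range j, nu G (r ^ (x + 1 + 1)) = 0 :=
      Finset.sum_eq_zero (fun x _ => h1 _ (by omega))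
    rw [h4]
    simp only [zero_add, pow_one, pow_zero, nu_one, hra]
    ring
  rwa [h3] at h2

/-- Case B1.3. -/
theorem caseB13 {a b : ℕ} (h : Vals G a b) {p q : ℕ} (hp : p.Prime) (hq : q.Prime)
    (hpq : p ≠ q) (hp2 : p ≠ 2) (hq2 : q ≠ 2) (hpG : p ∣ Nat.card G) (hqG : q ∣ Nat.card G)
    (hpa : nu G p = a) (hqa : nu G q = a) (h2 : 2 ∣ Nat.card G → nu G 2 = 1) (h4 : ¬ 4 ∣ Nat.card G) : False := by
  have hall : ∀ r : ℕ, r.Prime → r ≠ 2 → r ∣ Nat.card G → nu G r = a := by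
    intro r hr hr2 hrG
    rcases h.big (lt_of_le_of_ne hr.two_le hr2.symm) (nu_prime_pos hr hrG).ne' with h1 | h1
    · exact h1
    · exact absurd h1 (caseB11 h hp hq hr hpq hp2 hq2 hr2 hpG hqG hrG hpa hqa)
  have ha0 : 0 < a := by rw [← hpa]; exact nu_prime_pos hp hpG
  have key : ∀ M : ℕ, Odd M → M ∣ Nat.card G → M ∣ 1 + a := by
    intro M hM hMG
    rw [Nat.dvd_iff_prime_pow_dvd_dvd]
    intro r k hr hrk
    rcases Nat.eq_zero_or_pos k with rfl | hk
    · simp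
    have hrM : r ∣ M := (dvd_pow_self r hk.ne').trans hrk
    have hr2 : r ≠ 2 := by
      rintro rfl
      exact (Nat.not_odd_iff_even.2 (even_iff_two_dvd.2 hrM)) hM
    have hrG := hrM.trans hMG
    have hra := hall r hr hr2 hrG
    by_cases hrp : r = p
    · subst hrp
      exact caseB13_aux h hr hq hpq hr2 hrG hqG hra hqa (hrk.trans hMG)
    · exact caseB13_aux h hr hp hrp hr2 hrG hpG hra hpa (hrk.trans hMG)
  have hcard : 0 < Nat.card G := Nat.card_pos
  by_cases hev : 2 ∣ Nat.card G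
  · obtain ⟨M, hM⟩ := hev
    have hodd : Odd M := by
      rw [← Nat.not_even_iff_odd, even_iff_two_dvd]
      rintro ⟨c, rfl⟩
      exact h4 ⟨c, by rw [hM]; ring⟩
    have h5 := Nat.le_of_dvd (by omega) (key M hodd ⟨2, by rw [hM]; ring⟩)
    have h6 : ∑ d ∈ (2 * (p * q)).divisors, nu G d ≤ Nat.card G := by
      rw [sum_nu _ (by have := two_lt_mul hp hq; omega)]
      exact Nat.card_le_card_of_injective _ Subtype.val_injective
    have h2' := h2 ⟨M, hM⟩
    rw [sum_two' hp hq hp2 hq2 hpq, nu_one, h2', nu_two_mul h2' (odd_prime hp hp2), nu_two_mul h2' (odd_prime hq hq2),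
      hpa, hqa] at h6
    omega
  · have hodd : Odd (Nat.card G) := by rw [← Nat.not_even_iff_odd, even_iff_two_dvd]; exact hev
    have h5 := Nat.le_of_dvd (by omega) (key _ hodd dvd_rfl)
    have h6 : ∑ d ∈ (p * q).divisors, nu G d ≤ Nat.card G := by
      rw [sum_nu _ (by have := two_lt_mul hp hq; omega)]
      exact Nat.card_le_card_of_injective _ Subtype.val_injective
    rw [sum_two hp hq hpq, nu_one, hpa, hqa] at h6
    omega

/-- Two odd primes have different values. -/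
theorem caseB1 {a b : ℕ} (h : Vals G a b) {p q : ℕ} (hp : p.Prime) (hq : q.Prime)
    (hpq : p ≠ q) (hp2 : p ≠ 2) (hq2 : q ≠ 2) (hpG : p ∣ Nat.card G) (hqG : q ∣ Nat.card G)
    (hpa : nu G p = a) (hqa : nu G q = a) (h2 : 2 ∣ Nat.card G → nu G 2 = 1) : False := by
  by_cases h4 : 4 ∣ Nat.card G
  · exact caseB12 h hp hq hpq hp2 hq2 hpG hqG hpa hqa (h2 ((by norm_num : (2 : ℕ) ∣ 4).trans h4)) h4
  · exact caseB13 h hp hq hpq hp2 hq2 hpG hqG hpa hqa h2 h4

theorem caseB2_aux {a b : ℕ} (h : Vals G a b) {p r : ℕ} (hp : p.Prime) (hr : r.Prime)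
    (hpr : p ≠ r) (hp2 : p ≠ 2) (hr2 : r ≠ 2) (hpG : p ∣ Nat.card G) (hrG : r ∣ Nat.card G)
    (hpa : nu G p = a) (hrb : nu G r = b) (h2 : nu G 2 = 1) (h4 : 4 ∣ Nat.card G) (h5 : nu G 4 = a) : False := by
  have := Fact.mk hp
  have hap : (a : ZMod p) = -1 := by rw [← hpa]; exact cast_prime hp hpG
  obtain ⟨-, h6⟩ := h.four h2 h4
  have h7 := cast_four hp hp2 h2 h4 hpG
  have hbig : 2 < 4 * p := by have := hp.two_le; omega
  have h8 : nu G (4 * p) = b := h.one hp hp2 hap hbig (by rw [h7, h5, hap]; ring)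
  have hbp : (b : ZMod p) = 1 := by rw [← h8, h7, h5, hap]; ring
  have h9 := cast_pair hp hr hpr hpG hrG
  rw [hpa, hrb] at h9
  push_cast at h9
  have h10 : nu G (p * r) = a := h.neg_one hp hp2 hbp (two_lt_mul hp hr) (by linear_combination h9 - hap - hbp)
  have h11 := four_dvd_nu (G := G) hp hr hp2 hr2 hpr
  rw [h10] at h11
  rw [h5] at h6
  omega

theorem caseB2 {a b : ℕ} (h : Vals G a b) {p r : ℕ} (hp : p.Prime) (hr : r.Prime)
    (hpr : p ≠ r) (hp2 : p ≠ 2) (hr2 : r ≠ 2) (hpG : p ∣ Nat.card G) (hrG : r ∣ Nat.card G)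
    (hpa : nu G p = a) (hrb : nu G r = b) (h2 : nu G 2 = 1) : ¬ 4 ∣ Nat.card G := by
  intro h4
  rcases (h.four h2 h4).1 with h5 | h5
  · exact caseB2_aux h hp hr hpr hp2 hr2 hpG hrG hpa hrb h2 h4 h5
  · exact caseB2_aux h.symm hr hp hpr.symm hr2 hp2 hrG hpG hrb hpa h2 h4 h5

omit [Group G] [Finite G] in
theorem card_eq_of_primes {n p q : ℕ} (hn : n ≠ 0) (hp : p.Prime)
    (h : ∀ r : ℕ, r.Prime → r ∣ n → r = p ∨ r = q) : ∃ a b : ℕ, n = p ^ a * q ^ b := by
  obtain ⟨e, n', hn', hnn⟩ := Nat.exists_eq_pow_mul_and_not_dvd hn p hp.ne_one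
  have hn'0 : n' ≠ 0 := by
    rintro rfl
    exact hn' (dvd_zero p)
  have h1 := Nat.eq_prime_pow_of_unique_prime_dvd (n := n') (p := q) hn'0 (by
    intro d hd hdm
    rcases h d hd (by rw [hnn]; exact hdm.mul_left _) with h1 | h1
    · rw [h1] at hdm; exact absurd hdm hn'
    · exact h1)
  exact ⟨e, _, by rw [hnn]; congr 1⟩

theorem isSolvable_of_primes {p q : ℕ} (hp : p.Prime) (hq : q.Prime)
    (h : ∀ r : ℕ, r.Prime → r ∣ Nat.card G → r = p ∨ r = q) : Group.IsSolvable G := by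
  obtain ⟨a, b, hab⟩ := card_eq_of_primes Nat.card_pos.ne' hp h
  exact Burnside.isSolvable_of_card_eq _ p q a b hp hq hab rfl

theorem main_aux {a b : ℕ} (h : Vals G a b) {p q : ℕ} (hp : p.Prime) (hq : q.Prime)
    (hpq : p ≠ q) (hp2 : p ≠ 2) (hq2 : q ≠ 2) (hpG : p ∣ Nat.card G) (hqG : q ∣ Nat.card G)
    (hpa : nu G p = a) (hqb : nu G q = b) (h2 : 2 ∣ Nat.card G → nu G 2 = 1) : Group.IsSolvable G := by
  have hall : ∀ r : ℕ, r.Prime → r ≠ 2 → r ∣ Nat.card G → r = p ∨ r = q := by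
    intro r hr hr2 hrG
    by_contra hcon
    push Not at hcon
    rcases h.big (lt_of_le_of_ne hr.two_le hr2.symm) (nu_prime_pos hr hrG).ne' with h1 | h1
    · exact caseB1 h hp hr hcon.1.symm hp2 hr2 hpG hrG hpa h1 h2
    · exact caseB1 h.symm hq hr hcon.2.symm hq2 hr2 hqG hrG hqb h1 h2
  by_cases hev : 2 ∣ Nat.card G
  · have h4 := caseB2 h hp hq hpq hp2 hq2 hpG hqG hpa hqb (h2 hev)
    obtain ⟨H, hH⟩ := BrauerFowler.exists_index_two_of_two_mod_four (G := G) (by omega)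
    have hHn : H.Normal := Subgroup.normal_of_index_eq_two hH
    have hc := H.card_mul_index
    rw [hH] at hc
    have h5 : Group.IsSolvable H := by
      refine isSolvable_of_primes hp hq ?_
      intro r hr hrH
      refine hall r hr ?_ (hrH.trans (Subgroup.card_subgroup_dvd_card H))
      rintro rfl
      obtain ⟨c, hc'⟩ := hrH
      exact h4 ⟨c, by rw [← hc, hc']; ring⟩
    have h6 : Group.IsSolvable (G ⧸ H) := by
      refine isSolvable_of_primes Nat.prime_two Nat.prime_two ?_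
      intro r hr hrH
      rw [← Subgroup.index_eq_card, hH] at hrH
      exact Or.inl ((Nat.prime_dvd_prime_iff_eq hr Nat.prime_two).1 hrH)
    exact Group.isSolvable_of_ker_le_range H.subtype (QuotientGroup.mk' H) (by simp)
  · refine isSolvable_of_primes hp hq (fun r hr hrG => hall r hr ?_ hrG)
    rintro rfl
    exact hev hrG

theorem main {a b : ℕ} (h : Vals G a b) : Group.IsSolvable G := by
  by_contra hns
  have hns' : ∀ p q : ℕ, p.Prime → q.Prime → ∃ r : ℕ, r.Prime ∧ r ∣ Nat.card G ∧ r ≠ p ∧ r ≠ q := by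
    intro p q hp hq
    by_contra hcon
    push Not at hcon
    exact hns (isSolvable_of_primes hp hq (fun r hr hrG => by
      by_contra h1
      push Not at h1
      exact h1.2 (hcon r hr hrG h1.1)))
  obtain ⟨p, hp, hpG, hp2, -⟩ := hns' 2 2 Nat.prime_two Nat.prime_two
  obtain ⟨q, hq, hqG, hq2, hqp⟩ := hns' 2 p Nat.prime_two hp
  have hpv := h.big (lt_of_le_of_ne hp.two_le hp2.symm) (nu_prime_pos hp hpG).ne'
  have hqv := h.big (lt_of_le_of_ne hq.two_le hq2.symm) (nu_prime_pos hq hqG).ne'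
  have h2 : 2 ∣ Nat.card G → nu G 2 = 1 := by
    intro h2G
    rcases h.h 2 (nu_prime_pos Nat.prime_two h2G).ne' with h1 | h1 | h1
    · exact h1
    · exact (caseA h h1 h2G hp hq hqp.symm hp2 hq2 hpG hqG).elim
    · exact (caseA h.symm h1 h2G hp hq hqp.symm hp2 hq2 hpG hqG).elim
  rcases hpv with h3 | h3 <;> rcases hqv with h4 | h4
  · exact caseB1 h hp hq hqp.symm hp2 hq2 hpG hqG h3 h4 h2
  · exact hns (main_aux h hp hq hqp.symm hp2 hq2 hpG hqG h3 h4 h2)
  · exact hns (main_aux h hq hp hqp hq2 hp2 hqG hpG h4 h3 h2)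
  · exact caseB1 h.symm hp hq hqp.symm hp2 hq2 hpG hqG h3 h4 h2

end Cfsg.Agent.Lib.NuCount
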