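import Cfsg.Agent.Lib.TrForm
import Cfsg.Agent.Lib.QuadTrans
import Mathlib.FieldTheory.KummerPolynomial

/-! # Quadratic forms which are traces of forms over the quadratic extension: discriminants (helper99) -/

set_option autoImplicit false

namespace Cfsg.Agent.Lib.OFa

open Cfsg.Agent.Lib.TrForm Cfsg.Agent.Lib.Quad QuadraticMap Module Matrix

section norm

variable {F L : Type*} [Field F] [Fintype F] [Field L] [Fintype L] [Algebra F L]

/-- squares and norms -/
theorem isSquare_of_norm (h2 : (2 : F) ≠ 0) (hL : finrank F L = 2) {c : L} (hc : c ≠ 0)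
    (h : IsSquare (Algebra.norm F c)) : IsSquare c := by
  have hfL : FiniteDimensional F L := Module.Finite.of_finite
  have h2L : (2 : L) ≠ 0 := by
    intro h
    apply h2
    apply (algebraMap F L).injective
    rw [map_ofNat, map_zero]; exact h
  have hcF : ringChar F ≠ 2 := by
    intro h
    apply h2
    have := (ringChar.spec F 2).2 (by rw [h])
    exact_mod_cast this
  have hcL : ringChar L ≠ 2 := by
    intro h
    apply h2L
    have := (ringChar.spec L 2).2 (by rw [h])
    exact_mod_cast this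
  have hn : Algebra.norm F c ≠ 0 := Algebra.norm_ne_zero_iff.2 hc
  have h1 := (FiniteField.isSquare_iff hcF hn).1 h
  have h3 : algebraMap F L (Algebra.norm F c) = c ^ (Fintype.card F + 1) := by
    rw [FiniteField.algebraMap_norm_eq_pow_sum, hL, Finset.sum_range_succ, Finset.sum_range_one, pow_zero, pow_one, Nat.card_eq_fintype_card]
    congr 1
    omega
  have h4 := congrArg (algebraMap F L) h1
  rw [map_pow, h3, map_one, ← pow_mul] at h4
  rw [FiniteField.isSquare_iff hcL hc]
  have hcard : Fintype.card L = Fintype.card F ^ 2 := by rw [← hL]; exact Module.card_eq_pow_finrank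
  have hodd : Odd (Fintype.card F) := FiniteField.odd_card_of_char_ne_two hcF |> Nat.odd_iff.2
  obtain ⟨k, hk⟩ := hodd
  have h5 : (Fintype.card F + 1) * (Fintype.card F / 2) = Fintype.card L / 2 := by
    rw [hcard, hk]
    have e1 : (2 * k + 1) / 2 = k := by omega
    have e2 : (2 * k + 1) ^ 2 / 2 = 2 * k * (k + 1) := by
      have : (2 * k + 1) ^ 2 = 2 * (2 * k * (k + 1)) + 1 := by ring
      omega
    rw [e1, e2]; ring
  rw [← h5]; exact h4

end norm

section disc

variable {F L V : Type*} [Field F] [Fintype F] [Field L] [Fintype L] [Algebra F L] [AddCommGroup V] [Module F V] [Module L V]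
  [IsScalarTower F L V] {B : V →ₗ[F] V →ₗ[F] F} {BL : V →ₗ[L] V →ₗ[L] L}

/-- trace forms scaled by an element -/
lemma det_trace_scaled {κ : Type*} [Fintype κ] [DecidableEq κ] (e : Basis κ F L) (c : L) :
    (Matrix.of fun i j => Algebra.trace F L (e i * e j * c)).det = Algebra.discr F e * Algebra.norm F c := by
  have h1 : (Matrix.of fun i j => Algebra.trace F L (e i * e j * c)) = Algebra.traceMatrix F e * Algebra.leftMulMatrix e c := by
    ext i j
    rw [Matrix.mul_apply, Matrix.of_apply]
    have h2 : c * e j = ∑ k, Algebra.leftMulMatrix e c k j • e k := by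
      simp only [Algebra.leftMulMatrix_eq_repr_mul]
      rw [Basis.sum_repr]
    rw [show e i * e j * c = e i * (c * e j) by ring, h2, Finset.mul_sum, map_sum]
    apply Finset.sum_congr rfl
    intro k _
    rw [mul_smul_comm, map_smul, Algebra.traceMatrix_apply, Algebra.traceForm_apply, smul_eq_mul, mul_comm]
  rw [h1, Matrix.det_mul, ← Algebra.discr_def, Algebra.norm_eq_matrix_det e]

/-- the discriminant of the trace form -/
theorem det_gram (h : ∀ (a : L) (u v : V), Algebra.trace F L (a * BL u v) = B (a • u) v)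
    (hadj : ∀ (a : L) (u v : V), B (a • u) v = B u (a • v))
    {κ : Type*} [Fintype κ] [DecidableEq κ] (e : Basis κ F L) {n : ℕ} (b : Basis (Fin n) L V)
    (hb : ∀ i j, i ≠ j → BL (b i) (b j) = 0) :
    (LinearMap.BilinForm.toMatrix (e.smulTower b) B).det = Algebra.discr F e ^ n * Algebra.norm F (∏ i, BL (b i) (b i)) := by
  have h1 : LinearMap.BilinForm.toMatrix (e.smulTower b) B =
      Matrix.blockDiagonal fun k : Fin n => (Matrix.of fun i j => Algebra.trace F L (e i * e j * BL (b k) (b k))) := by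
    ext ⟨i, k⟩ ⟨j, l⟩
    rw [LinearMap.BilinForm.toMatrix_apply, Basis.smulTower_apply, Basis.smulTower_apply, Matrix.blockDiagonal_apply]
    simp only
    rw [← hadj, smul_smul, ← h]
    split_ifs with hkl
    · subst hkl
      rw [Matrix.of_apply, mul_comm (e j)]
    · rw [hb k l hkl, mul_zero, map_zero]
  rw [h1, Matrix.det_blockDiagonal]
  simp only [det_trace_scaled]
  rw [Finset.prod_mul_distrib, Finset.prod_const, Finset.card_univ, Fintype.card_fin, map_prod]

/-- the quadratic form over `L` -/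
noncomputable def QL (BL : V →ₗ[L] V →ₗ[L] L) : QuadraticForm L V := LinearMap.BilinMap.toQuadraticMap BL

lemma QL_apply (v : V) : QL BL v = BL v v := rfl

lemma symm_of (h : ∀ (a : L) (u v : V), Algebra.trace F L (a * BL u v) = B (a • u) v)
    (hadj : ∀ (a : L) (u v : V), B (a • u) v = B u (a • v)) (hsym : ∀ u v, B u v = B v u) (u v : V) : BL u v = BL v u := by
  apply trace_ext (F := F)
  intro a
  rw [h, h, hadj, hsym]

lemma polar_QL (hs : ∀ u v, BL u v = BL v u) (u v : V) : polar (QL BL) u v = 2 * BL u v := by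
  unfold polar
  simp only [QL_apply, map_add, LinearMap.add_apply]
  rw [hs v u]; ring

lemma nd_QL (h2 : (2 : F) ≠ 0) (h : ∀ (a : L) (u v : V), Algebra.trace F L (a * BL u v) = B (a • u) v)
    (hs : ∀ u v, BL u v = BL v u) (hnd : ∀ u, (∀ v, B u v = 0) → u = 0) : Nd (QL BL) := by
  have h2L : (2 : L) ≠ 0 := by
    intro h
    apply h2
    apply (algebraMap F L).injective
    rw [map_ofNat, map_zero]; exact h
  rw [nd_iff]
  intro x hx
  apply hnd
  intro v
  have h1 := hx v
  rw [polar_QL hs, mul_eq_zero] at h1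
  have h3 := h 1 x v
  rw [one_smul, h1.resolve_left h2L, mul_zero, map_zero] at h3
  exact h3.symm

/-- Isometric spaces over `F` with compatible structures over `L` are isometric over `L`. -/
theorem isometry_over [FiniteDimensional L V] {V' : Type*} [AddCommGroup V'] [Module F V'] [Module L V'] [IsScalarTower F L V'] [FiniteDimensional L V']
    (h2 : (2 : F) ≠ 0) (hL : finrank F L = 2)
    (h : ∀ (a : L) (u v : V), Algebra.trace F L (a * BL u v) = B (a • u) v)
    (hadj : ∀ (a : L) (u v : V), B (a • u) v = B u (a • v)) (hsym : ∀ u v, B u v = B v u) (hnd : ∀ u, (∀ v, B u v = 0) → u = 0)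
    {B' : V' →ₗ[F] V' →ₗ[F] F} {BL' : V' →ₗ[L] V' →ₗ[L] L}
    (h' : ∀ (a : L) (u v : V'), Algebra.trace F L (a * BL' u v) = B' (a • u) v)
    (hadj' : ∀ (a : L) (u v : V'), B' (a • u) v = B' u (a • v)) (hsym' : ∀ u v, B' u v = B' v u) (hnd' : ∀ u, (∀ v, B' u v = 0) → u = 0)
    (f : V ≃ₗ[F] V') (hf : ∀ u v, B' (f u) (f v) = B u v) :
    ∃ g : V ≃ₗ[L] V', ∀ u v, B' (g u) (g v) = B u v := by
  classical
  have hfL : FiniteDimensional F L := Module.Finite.of_finite
  have h2L : (2 : L) ≠ 0 := by
    intro h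
    apply h2
    apply (algebraMap F L).injective
    rw [map_ofNat, map_zero]; exact h
  have hs := symm_of h hadj hsym
  have hs' := symm_of h' hadj' hsym'
  have hN := nd_QL h2 h hs hnd
  have hN' := nd_QL h2 h' hs' hnd'
  have hfr : finrank L V = finrank L V' := by
    have h3 := Module.finrank_mul_finrank F L V
    have h4 := Module.finrank_mul_finrank F L V'
    rw [f.finrank_eq] at h3
    rw [hL] at h3 h4
    omega
  obtain ⟨b, hb, hb0⟩ := hN.exists_orth_basis h2L
  obtain ⟨b', hb', hb0'⟩ := hN'.exists_orth_basis h2L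
  have horth : ∀ i j, i ≠ j → BL (b i) (b j) = 0 := by
    intro i j hij
    have := hb i j hij
    rw [polar_QL hs] at this
    exact (mul_eq_zero.1 this).resolve_left h2L
  have horth' : ∀ i j, i ≠ j → BL' (b' i) (b' j) = 0 := by
    intro i j hij
    have := hb' i j hij
    rw [polar_QL hs'] at this
    exact (mul_eq_zero.1 this).resolve_left h2L
  let e : Basis (Fin (finrank F L)) F L := Module.finBasis F L
  have hd := det_gram h hadj e b horth
  have hd' := det_gram h' hadj' e b' horth'
  -- the F-discriminants agree up to squares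
  have hsq := isSquare_det_mul_det (e.smulTower b') ((e.smulTower b).map f) B'
  have hmap : LinearMap.BilinForm.toMatrix ((e.smulTower b).map f) B' = LinearMap.BilinForm.toMatrix (e.smulTower b) B := by
    ext i j
    rw [LinearMap.BilinForm.toMatrix_apply, LinearMap.BilinForm.toMatrix_apply, Basis.map_apply, Basis.map_apply, hf]
  have e0 : Algebra.discr F e ^ finrank L V' = Algebra.discr F e ^ finrank L V := by rw [hfr]
  rw [hmap, hd, hd', e0] at hsq
  have hc0 : ∏ i, BL (b i) (b i) ≠ 0 := Finset.prod_ne_zero_iff.2 (fun i _ => hb0 i)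
  have hc0' : ∏ i, BL' (b' i) (b' i) ≠ 0 := Finset.prod_ne_zero_iff.2 (fun i _ => hb0' i)
  have hD : Algebra.discr F e ≠ 0 := by
    have : Algebra.IsSeparable F L := inferInstance
    exact Algebra.discr_not_zero_of_basis F e
  have h5 : IsSquare (Algebra.norm F ((∏ i, BL (b i) (b i)) * ∏ i, BL' (b' i) (b' i))) := by
    rw [map_mul]
    rw [← isSquare_mul_sq_iff (pow_ne_zero (finrank L V) hD)]
    convert hsq using 1
    ring
  have h6 : IsSquare ((∏ i, BL (b i) (b i)) * ∏ i, BL' (b' i) (b' i)) := isSquare_of_norm h2 hL (mul_ne_zero hc0 hc0') h5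
  obtain ⟨g, hg⟩ := exists_isometry_of_disc h2L hN hN' hfr b b' (by
    have e2 : (2 : L) ^ finrank L V' = 2 ^ finrank L V := by rw [hfr]
    rw [gram_orth b hb, gram_orth b' hb', e2]
    have e1 : (2 ^ finrank L V * ∏ i, (QL BL) (b i)) * (2 ^ finrank L V * ∏ i, (QL BL') (b' i)) =
      ((∏ i, BL (b i) (b i)) * ∏ i, BL' (b' i) (b' i)) * (2 ^ finrank L V * 2 ^ finrank L V) := by
      simp only [QL_apply]; ring
    rw [e1, isSquare_mul_sq_iff (pow_ne_zero _ h2L)]
    exact h6)
  refine ⟨g, fun u v => ?_⟩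
  have h7 := polar_map (Q := QL BL) (Q' := QL BL') g.toLinearMap hg u v
  rw [polar_QL hs, polar_QL hs'] at h7
  have h8 : BL' (g u) (g v) = BL u v := mul_left_cancel₀ h2L h7
  have h9 := h' 1 (g u) (g v)
  have h10 := h 1 u v
  rw [one_smul] at h9 h10
  rw [← h9, h8, h10]

end disc

section conj

variable {F L V : Type*} [Field F] [Field L] [Algebra F L] [AddCommGroup V] [Module F V]

/-- a copy of `V` with a structure over `L` -/
def Syn (_ : L →ₐ[F] Module.End F V) : Type _ := V

instance (φ : L →ₐ[F] Module.End F V) : AddCommGroup (Syn φ) := inferInstanceAs (AddCommGroup V)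
instance (φ : L →ₐ[F] Module.End F V) : Module F (Syn φ) := inferInstanceAs (Module F V)
instance (φ : L →ₐ[F] Module.End F V) : Module L (Syn φ) := Module.compHom V φ.toRingHom
instance (φ : L →ₐ[F] Module.End F V) : IsScalarTower F L (Syn φ) := ⟨fun c a v => by
  show φ (c • a) v = c • φ a v
  rw [map_smul]; rfl⟩

lemma syn_smul (φ : L →ₐ[F] Module.End F V) (a : L) (v : Syn φ) : a • v = (φ a v : V) := rfl

end conj

/-- all self-adjoint operators with square a nonsquare are conjugate in the isometry group -/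
theorem conj_of_sq {F V : Type*} [Field F] [Fintype F] [AddCommGroup V] [Module F V] [FiniteDimensional F V] (h2 : (2 : F) ≠ 0)
    {B : V →ₗ[F] V →ₗ[F] F} (hsym : ∀ u v, B u v = B v u) (hnd : ∀ u, (∀ v, B u v = 0) → u = 0)
    {ν : F} (hν : ¬ IsSquare ν) {y y' : Module.End F V} (hy : y * y = ν • (1 : Module.End F V)) (hy' : y' * y' = ν • (1 : Module.End F V))
    (hya : ∀ u v, B (y u) v = B u (y v)) (hya' : ∀ u v, B (y' u) v = B u (y' v)) :
    ∃ g : V ≃ₗ[F] V, (∀ u v, B (g u) (g v) = B u v) ∧ ∀ v, g (y v) = y' (g v) := by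
  classical
  let P : Polynomial F := Polynomial.X ^ 2 - Polynomial.C ν
  have hP : P.natDegree = 2 := Polynomial.natDegree_X_pow_sub_C
  have hmonic : P.Monic := Polynomial.monic_X_pow_sub_C ν (by norm_num)
  have hirr : Irreducible P := by
    apply X_pow_sub_C_irreducible_of_prime Nat.prime_two
    intro b hb
    exact hν ⟨b, by rw [← hb]; ring⟩
  haveI : Fact (Irreducible P) := ⟨hirr⟩
  let L := AdjoinRoot P
  have hfd : FiniteDimensional F L := (AdjoinRoot.powerBasis' hmonic).finite
  have hfinL : Finite L := Module.finite_of_finite F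
  letI : Fintype L := Fintype.ofFinite L
  have hL : finrank F L = 2 := by
    rw [(AdjoinRoot.powerBasis' hmonic).finrank, AdjoinRoot.powerBasis'_dim, hP]
  have hex : ∀ z : Module.End F V, z * z = ν • (1 : Module.End F V) → ∃ φ : L →ₐ[F] Module.End F V, φ (AdjoinRoot.root P) = z := by
    intro z hz
    have h0 : Polynomial.aeval z P = 0 := by
      simp only [P, map_sub, map_pow, Polynomial.aeval_X, Polynomial.aeval_C]
      rw [pow_two, hz, Algebra.algebraMap_eq_smul_one, sub_self]
    refine ⟨Ideal.Quotient.liftₐ (Ideal.span {P}) (Polynomial.aeval z) ?_, ?_⟩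
    · intro a ha
      obtain ⟨c, rfl⟩ := Ideal.mem_span_singleton'.1 ha
      rw [map_mul, h0, mul_zero]
    · show Polynomial.aeval z Polynomial.X = z
      exact Polynomial.aeval_X z
  have hadj : ∀ (φ : L →ₐ[F] Module.End F V) , (∀ u v, B (φ (AdjoinRoot.root P) u) v = B u (φ (AdjoinRoot.root P) v)) →
      ∀ (a : L) u v, B (φ a u) v = B u (φ a v) := by
    intro φ hφ a
    obtain ⟨f, rfl⟩ := AdjoinRoot.mk_surjective a
    induction f using Polynomial.induction_on' with
    | add f g hf hg =>
      intro u v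
      rw [map_add, map_add, LinearMap.add_apply, map_add, LinearMap.add_apply, hf, hg, LinearMap.add_apply, map_add]
    | monomial n c =>
      have h1 : ∀ n u v, B ((φ (AdjoinRoot.root P) ^ n) u) v = B u ((φ (AdjoinRoot.root P) ^ n) v) := by
        intro n
        induction n with
        | zero => intro u v; rfl
        | succ n ih => intro u v; rw [pow_succ', Module.End.mul_apply, hφ, ih, ← Module.End.mul_apply, ← pow_succ, ← pow_succ', pow_succ', Module.End.mul_apply]
      intro u v
      rw [← Polynomial.C_mul_X_pow_eq_monomial, map_mul, AdjoinRoot.mk_C, map_pow, AdjoinRoot.mk_X, map_mul, map_pow]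
      have h3 : φ (AdjoinRoot.of P c) = c • (1 : Module.End F V) := by
        have : AdjoinRoot.of P c = algebraMap F L c := rfl
        rw [this, AlgHom.commutes, Algebra.algebraMap_eq_smul_one]
      rw [h3, smul_mul_assoc, one_mul, LinearMap.smul_apply, LinearMap.smul_apply, map_smul, map_smul, LinearMap.smul_apply, h1]
  obtain ⟨φ, hφ⟩ := hex y hy
  obtain ⟨φ', hφ'⟩ := hex y' hy'
  have ha := hadj φ (by rw [hφ]; exact hya)
  have ha' := hadj φ' (by rw [hφ']; exact hya')
  have hfV : Finite V := Module.finite_of_finite F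
  haveI : FiniteDimensional L (Syn φ) := by
    haveI : Finite (Syn φ) := hfV
    exact Module.Finite.of_finite
  haveI : FiniteDimensional L (Syn φ') := by
    haveI : Finite (Syn φ') := hfV
    exact Module.Finite.of_finite
  let B1 : Syn φ →ₗ[F] Syn φ →ₗ[F] F := B
  let B2 : Syn φ' →ₗ[F] Syn φ' →ₗ[F] F := B
  have ha1 : ∀ (a : L) (u v : Syn φ), B1 (a • u) v = B1 u (a • v) := ha
  have ha2 : ∀ (a : L) (u v : Syn φ'), B2 (a • u) v = B2 u (a • v) := ha'
  obtain ⟨BL1, hBL1⟩ := exists_form (AlgHom.id F L) (fun a => rfl) B1 ha1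
  obtain ⟨BL2, hBL2⟩ := exists_form (AlgHom.id F L) (fun a => rfl) B2 ha2
  let C1 : Syn φ →ₗ[L] Syn φ →ₗ[L] L := BL1
  let C2 : Syn φ' →ₗ[L] Syn φ' →ₗ[L] L := BL2
  obtain ⟨g, hg⟩ := isometry_over (BL := C1) (BL' := C2) h2 hL hBL1 ha1 hsym hnd hBL2 ha2 hsym hnd
    (LinearEquiv.refl F V : Syn φ ≃ₗ[F] Syn φ') (fun u v => rfl)
  have hgs : ∀ (a : L) (v : Syn φ), g (a • v) = a • g v := fun a v => map_smul g a v
  let g' : V ≃ₗ[F] V := g.restrictScalars F
  refine ⟨g', hg, fun v => ?_⟩
  have h3 : g (φ (AdjoinRoot.root P) v : V) = φ' (AdjoinRoot.root P) (g v) := hgs (AdjoinRoot.root P) v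
  rw [hφ, hφ'] at h3
  exact h3

end Cfsg.Agent.Lib.OFa
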