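import Cfsg.Agent.Lib.OFa
import Cfsg.Agent.Lib.QuadIndex3

/-! # Involutions and elements of square `-1` normalize a conjugate of a quadratic field (helper99) -/

set_option autoImplicit false

namespace Cfsg.Agent.Lib.OFb

open Cfsg.Agent.Lib.Quad Cfsg.Agent.Lib.OFa QuadraticMap Module

variable {F V : Type*} [Field F] [AddCommGroup V] [Module F V] {Q : QuadraticForm F V} {κ : Type*}

/-- the operator on pairs of basis vectors -/
noncomputable def Yop (b : Basis (κ ⊕ κ) F V) (α β γ : κ → F) : V →ₗ[F] V :=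
  b.constr F (Sum.elim (fun j => α j • b (Sum.inl j) + β j • b (Sum.inr j)) (fun j => γ j • b (Sum.inl j) - α j • b (Sum.inr j)))

variable {b : Basis (κ ⊕ κ) F V} {α β γ : κ → F}

lemma Yop_inl (j : κ) : Yop b α β γ (b (Sum.inl j)) = α j • b (Sum.inl j) + β j • b (Sum.inr j) := by
  rw [Yop, Basis.constr_basis]; rfl

lemma Yop_inr (j : κ) : Yop b α β γ (b (Sum.inr j)) = γ j • b (Sum.inl j) - α j • b (Sum.inr j) := by
  rw [Yop, Basis.constr_basis]; rfl

lemma Yop_sq {ν : F} (h : ∀ j, α j * α j + β j * γ j = ν) : (Yop b α β γ : Module.End F V) * Yop b α β γ = ν • (1 : Module.End F V) := by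
  apply b.ext
  rintro (j | j)
  · rw [Module.End.mul_apply, Yop_inl, map_add, map_smul, map_smul, Yop_inl, Yop_inr, LinearMap.smul_apply, Module.End.one_apply, ← h j]
    module
  · rw [Module.End.mul_apply, Yop_inr, map_sub, map_smul, map_smul, Yop_inl, Yop_inr, LinearMap.smul_apply, Module.End.one_apply, ← h j]
    module

lemma ext_bilin {ι : Type*} (b : Basis ι F V) {B B' : V →ₗ[F] V →ₗ[F] F} (h : ∀ i j, B (b i) (b j) = B' (b i) (b j)) : B = B' := by
  apply b.ext
  intro i
  apply b.ext
  intro j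
  exact h i j

lemma Yop_adj (horth : ∀ i j, i ≠ j → polar Q (b i) (b j) = 0)
    (h : ∀ j, β j * Q (b (Sum.inr j)) = γ j * Q (b (Sum.inl j))) (u v : V) :
    polar Q (Yop b α β γ u) v = polar Q u (Yop b α β γ v) := by
  have h1 : (polarBilin Q).compl₁₂ (Yop b α β γ) LinearMap.id = (polarBilin Q).compl₁₂ LinearMap.id (Yop b α β γ) := by
    apply ext_bilin b
    intro i j
    simp only [LinearMap.compl₁₂_apply, LinearMap.id_apply]
    have hll : ∀ j k, j ≠ k → polar Q (b (Sum.inl j)) (b (Sum.inl k)) = 0 := fun j k hjk => horth _ _ (fun h => hjk (Sum.inl.inj h))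
    have hrr : ∀ j k, j ≠ k → polar Q (b (Sum.inr j)) (b (Sum.inr k)) = 0 := fun j k hjk => horth _ _ (fun h => hjk (Sum.inr.inj h))
    have hlr : ∀ j k, polar Q (b (Sum.inl j)) (b (Sum.inr k)) = 0 := fun j k => horth _ _ (fun h => by cases h)
    have hrl : ∀ j k, polar Q (b (Sum.inr j)) (b (Sum.inl k)) = 0 := fun j k => horth _ _ (fun h => by cases h)
    rcases i with i | i <;> rcases j with j | j
    · rw [Yop_inl, Yop_inl, map_add, LinearMap.add_apply, map_add, map_smul, map_smul, LinearMap.smul_apply, LinearMap.smul_apply,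
        map_smul, map_smul]
      simp only [polarBilin_apply_apply, hlr, hrl, smul_zero, add_zero]
      by_cases hij : i = j
      · subst hij; rfl
      · rw [hll i j hij, smul_zero, smul_zero]
    · rw [Yop_inl, Yop_inr, map_add, LinearMap.add_apply, map_sub, map_smul, map_smul, LinearMap.smul_apply, LinearMap.smul_apply,
        map_smul, map_smul]
      simp only [polarBilin_apply_apply, hlr, hrl, smul_zero, zero_add, sub_zero]
      by_cases hij : i = j
      · subst hij
        rw [polar_self', polar_self', smul_eq_mul, smul_eq_mul]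
        linear_combination 2 * h i
      · rw [hll i j hij, hrr i j hij, smul_zero, smul_zero]
    · rw [Yop_inl, Yop_inr, map_sub, LinearMap.sub_apply, map_add, map_smul, map_smul, LinearMap.smul_apply, LinearMap.smul_apply,
        map_smul, map_smul]
      simp only [polarBilin_apply_apply, hlr, hrl, smul_zero, zero_add, sub_zero]
      by_cases hij : i = j
      · subst hij
        rw [polar_self', polar_self', smul_eq_mul, smul_eq_mul]
        linear_combination -2 * h i
      · rw [hll i j hij, hrr i j hij, smul_zero, smul_zero]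
    · rw [Yop_inr, Yop_inr, map_sub, LinearMap.sub_apply, map_sub, map_smul, map_smul, LinearMap.smul_apply, LinearMap.smul_apply,
        map_smul, map_smul]
      simp only [polarBilin_apply_apply, hlr, hrl, smul_zero, zero_sub]
      by_cases hij : i = j
      · subst hij; rfl
      · rw [hrr i j hij, smul_zero, smul_zero]
  exact congrArg (fun f => f u v) h1

/-- the action on the paired basis -/
def Act (b : Basis (κ ⊕ κ) F V) (x : V ≃ₗ[F] V) (ε : F) (Q : QuadraticForm F V) : Prop :=
  ((∃ η : κ → F, ∀ j, η j ≠ 0 ∧ x (b (Sum.inl j)) = η j • b (Sum.inl j) ∧ x (b (Sum.inr j)) = η j • b (Sum.inr j)) ∧ ε = 1) ∨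
  ((∀ j, x (b (Sum.inl j)) = b (Sum.inr j) ∧ x (b (Sum.inr j)) = -b (Sum.inl j) ∧ Q (b (Sum.inr j)) = Q (b (Sum.inl j))) ∧ ε = -1)

lemma Yop_comm {x : V ≃ₗ[F] V} {ε : F} (hact : Act b x ε Q) (hns : ∀ i, Q (b i) ≠ 0)
    (h : ∀ j, β j * Q (b (Sum.inr j)) = γ j * Q (b (Sum.inl j))) (v : V) :
    x (Yop b α β γ v) = ε • Yop b α β γ (x v) := by
  have h1 : (x.toLinearMap ∘ₗ Yop b α β γ) = ε • (Yop b α β γ ∘ₗ x.toLinearMap) := by
    apply b.ext
    rcases hact with ⟨⟨η, hη⟩, rfl⟩ | ⟨hx, rfl⟩
    · rintro (j | j)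
      · simp only [LinearMap.comp_apply, LinearMap.smul_apply, LinearEquiv.coe_coe, one_smul]
        rw [(hη j).2.1, Yop_inl, map_add, map_smul, map_smul, map_smul, (hη j).2.1, (hη j).2.2, Yop_inl]
        module
      · simp only [LinearMap.comp_apply, LinearMap.smul_apply, LinearEquiv.coe_coe, one_smul]
        rw [(hη j).2.2, Yop_inr, map_sub, map_smul, map_smul, map_smul, (hη j).2.1, (hη j).2.2, Yop_inr]
        module
    · have hg : ∀ j, γ j = β j := by
        intro j
        have := h j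
        rw [(hx j).2.2] at this
        exact (mul_right_cancel₀ (hns _) this).symm
      rintro (j | j)
      · simp only [LinearMap.comp_apply, LinearMap.smul_apply, LinearEquiv.coe_coe]
        rw [(hx j).1, Yop_inl, map_add, map_smul, map_smul, (hx j).1, (hx j).2.1, Yop_inr, hg]
        module
      · simp only [LinearMap.comp_apply, LinearMap.smul_apply, LinearEquiv.coe_coe]
        rw [(hx j).2.1, Yop_inr, map_sub, map_smul, map_smul, map_neg, (hx j).1, (hx j).2.1, Yop_inl, hg]
        module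
  exact congrArg (fun f => f v) h1

/-- the product of two reflections commuting with `x` -/
lemma refl_comm {x : V ≃ₗ[F] V} {ε : F} (hx : x ∈ O Q) (hact : Act b x ε Q) (hns : ∀ i, Q (b i) ≠ 0)
    (horth : ∀ i j, i ≠ j → polar Q (b i) (b j) = 0) (j : κ) {a c : F} (hw : Q (a • b (Sum.inl j) + c • b (Sum.inr j)) ≠ 0) :
    x * (refl Q (b (Sum.inl j)) * refl Q (a • b (Sum.inl j) + c • b (Sum.inr j))) =
      (refl Q (b (Sum.inl j)) * refl Q (a • b (Sum.inl j) + c • b (Sum.inr j))) * x := by
  have h1 : ∀ v w : V, x * (refl Q v * refl Q w) = (refl Q (x v) * refl Q (x w)) * x := by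
    intro v w
    rw [← refl_conj hx, ← refl_conj hx]
    group
  rw [h1]
  congr 1
  rcases hact with ⟨⟨η, hη⟩, rfl⟩ | ⟨hx', rfl⟩
  · rw [map_add, map_smul, map_smul, (hη j).2.1, (hη j).2.2, refl_smul (hη j).1]
    have : a • η j • b (Sum.inl j) + c • η j • b (Sum.inr j) = η j • (a • b (Sum.inl j) + c • b (Sum.inr j)) := by module
    rw [this, refl_smul (hη j).1]
  · rw [map_add, map_smul, map_smul, (hx' j).1, (hx' j).2.1]
    set u := b (Sum.inl j) with hu
    set w := b (Sum.inr j) with hw'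
    have huw : polar Q u w = 0 := horth _ _ (fun h => by cases h)
    have hwu : polar Q w u = 0 := horth _ _ (fun h => by cases h)
    have hQw : Q w = Q u := (hx' j).2.2
    have hQ1 : Q (a • u + c • w) = (a * a + c * c) * Q u := by
      rw [Q_add, Q_smul, Q_smul, polar_smul_left, polar_smul_right, huw, smul_zero, smul_zero, hQw]; ring
    have hQ2 : Q (a • w + c • -u) = (a * a + c * c) * Q u := by
      rw [Q_add, Q_smul, Q_smul, polar_smul_left, polar_smul_right, polar_neg_right, hwu, QuadraticMap.map_neg, hQw]; simp; ring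
    have hac : a * a + c * c ≠ 0 := by
      intro h; apply hw; rw [hQ1, h, zero_mul]
    have hQu : Q u ≠ 0 := hns _
    have hac' : a ^ 2 + c ^ 2 ≠ 0 := by rw [pow_two, pow_two]; exact hac
    have hac'' : c ^ 2 + a ^ 2 ≠ 0 := by rw [add_comm]; exact hac'
    apply LinearEquiv.ext
    intro v
    rw [LinearEquiv.mul_apply, LinearEquiv.mul_apply, refl_apply (Q := Q) (v := a • w + c • -u) (by rw [hQ2]; exact mul_ne_zero hac hQu),
      refl_apply (Q := Q) (v := a • u + c • w) (by rw [hQ1]; exact mul_ne_zero hac hQu),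
      refl_apply (Q := Q) (v := w) (by rw [hQw]; exact hQu), refl_apply (Q := Q) (v := u) hQu, hQ1, hQ2, hQw]
    simp only [polar_add_left, polar_add_right, polar_sub_right, polar_smul_left, polar_smul_right, polar_neg_left, polar_neg_right,
      huw, hwu, polar_self', hQw, smul_eq_mul]
    match_scalars <;> field_simp <;> ring

/-- changing a sign by a reflection -/
lemma Yop_refl [DecidableEq κ] (hns : ∀ i, Q (b i) ≠ 0) (horth : ∀ i j, i ≠ j → polar Q (b i) (b j) = 0) (j₀ : κ) (v : V) :
    refl Q (b (Sum.inl j₀)) (Yop b α β γ v) =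
      Yop b α (Function.update β j₀ (-β j₀)) (Function.update γ j₀ (-γ j₀)) (refl Q (b (Sum.inl j₀)) v) := by
  have h1 : ((refl Q (b (Sum.inl j₀))).toLinearMap ∘ₗ Yop b α β γ) =
      (Yop b α (Function.update β j₀ (-β j₀)) (Function.update γ j₀ (-γ j₀)) ∘ₗ (refl Q (b (Sum.inl j₀))).toLinearMap) := by
    have hR : ∀ i, i ≠ Sum.inl j₀ → refl Q (b (Sum.inl j₀)) (b i) = b i := fun i hi => refl_of_perp (horth _ _ hi.symm)
    have hR0 : refl Q (b (Sum.inl j₀)) (b (Sum.inl j₀)) = -b (Sum.inl j₀) := refl_self (hns _)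
    apply b.ext
    rintro (j | j)
    · simp only [LinearMap.comp_apply, LinearEquiv.coe_coe]
      by_cases hj : j = j₀
      · subst hj
        rw [hR0, Yop_inl, map_add, map_smul, map_smul, hR0, hR _ (by simp), map_neg, Yop_inl, Function.update_self]
        module
      · rw [hR (Sum.inl j) (fun h => hj (Sum.inl.inj h)), Yop_inl, Yop_inl, Function.update_of_ne hj, map_add, map_smul, map_smul,
          hR (Sum.inl j) (fun h => hj (Sum.inl.inj h)), hR (Sum.inr j) (by simp)]
    · simp only [LinearMap.comp_apply, LinearEquiv.coe_coe]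
      rw [hR (Sum.inr j) (by simp), Yop_inr, Yop_inr, map_sub, map_smul, map_smul, hR (Sum.inr j) (by simp)]
      by_cases hj : j = j₀
      · subst hj
        rw [hR0, Function.update_self]
        module
      · rw [hR (Sum.inl j) (fun h => hj (Sum.inl.inj h)), Function.update_of_ne hj]
  exact congrArg (fun f => f v) h1

/-- the binary form `x² + c y²` is universal -/
lemma exists_rep [Finite F] (h2 : (2 : F) ≠ 0) {c : F} (hc : c ≠ 0) (ν : F) : ∃ x y : F, x * x + y * (c * y) = ν := by
  classical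
  letI : Fintype F := Fintype.ofFinite F
  have hcF : ringChar F ≠ 2 := by
    intro h
    apply h2
    have := (ringChar.spec F 2).2 (by rw [h])
    exact_mod_cast this
  have hodd : Fintype.card F % 2 = 1 := FiniteField.odd_card_of_char_ne_two hcF
  obtain ⟨a, b, hab⟩ := FiniteField.exists_root_sum_quadratic (R := F)
    (f := Polynomial.X ^ 2) (g := Polynomial.C c * Polynomial.X ^ 2 - Polynomial.C ν)
    (by simp) (by
      have : Polynomial.C c * Polynomial.X ^ 2 - Polynomial.C ν = Polynomial.C c * Polynomial.X ^ 2 + Polynomial.C 0 * Polynomial.X + Polynomial.C (-ν) := by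
        simp [sub_eq_add_neg]
      rw [this]
      exact Polynomial.degree_quadratic hc) hodd
  refine ⟨a, b, ?_⟩
  simp at hab
  linear_combination hab

variable [Fintype F] [FiniteDimensional F V]

theorem yes_core (hQ : Nd Q) (h2 : (2 : F) ≠ 0) {x : V ≃ₗ[F] V} {ε : F} (hx : x ∈ O Q) (hact : Act b x ε Q) (hns : ∀ i, Q (b i) ≠ 0)
    (horth : ∀ i j, i ≠ j → polar Q (b i) (b j) = 0) (j₀ : κ) {ν : F} (hν : ¬ IsSquare ν) {y : Module.End F V}
    (hy : y * y = ν • (1 : Module.End F V)) (hya : ∀ u v, polar Q (y u) v = polar Q u (y v)) :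
    ∃ g ∈ Om Q, ∀ v, (g⁻¹ * x * g) (y v) = ε • y ((g⁻¹ * x * g) v) := by
  classical
  have hgen : GenHyp Q := genHyp_of_two_ne_zero h2
  have hR := hQ.R_eq_O hgen
  -- parameters
  have hpar : ∀ j : κ, ∃ s t : F, s * s + t * (Q (b (Sum.inr j)) / Q (b (Sum.inl j)) * t) = ν := fun j =>
    exists_rep h2 (div_ne_zero (hns _) (hns _)) ν
  choose α β hαβ using hpar
  -- conjugating operator, with trivial parity
  have step1 : ∃ g, ∃ hg : g ∈ O Q, ∃ β' γ' : κ → F, (∀ j, α j * α j + β' j * γ' j = ν) ∧ (∀ j, β' j * Q (b (Sum.inr j)) = γ' j * Q (b (Sum.inl j))) ∧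
      (∀ v, g (y v) = Yop b α β' γ' (g v)) ∧ parHom hQ hR ⟨g, hg⟩ = 1 := by
    let γ : κ → F := fun j => Q (b (Sum.inr j)) / Q (b (Sum.inl j)) * β j
    have h3 : ∀ j, β j * Q (b (Sum.inr j)) = γ j * Q (b (Sum.inl j)) := by
      intro j
      simp only [γ]
      field_simp [hns (Sum.inl j)]
    obtain ⟨g, hg1, hg2⟩ := conj_of_sq h2 (B := polarBilin Q) (fun u v => polar_comm _ _ _) (fun u hu => hQ.eq_zero hu) hν hy (Yop_sq (b := b) (α := α) (β := β) (γ := γ) hαβ)
      hya (Yop_adj horth h3)
    have hgO : g ∈ O Q := by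
      intro v
      have := hg1 v v
      simp only [polarBilin_apply_apply, polar_self'] at this
      exact mul_left_cancel₀ h2 this
    rcases Int.units_eq_one_or (parHom hQ hR ⟨g, hgO⟩) with h4 | h4
    · exact ⟨g, hgO, β, γ, hαβ, h3, hg2, h4⟩
    · refine ⟨refl Q (b (Sum.inl j₀)) * g, mul_mem (refl_mem _) hgO, Function.update β j₀ (-β j₀), Function.update γ j₀ (-γ j₀), ?_, ?_, ?_, ?_⟩
      · intro j
        by_cases hj : j = j₀
        · subst hj
          rw [Function.update_self, Function.update_self, neg_mul_neg]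
          exact hαβ j
        · rw [Function.update_of_ne hj, Function.update_of_ne hj]
          exact hαβ j
      · intro j
        by_cases hj : j = j₀
        · subst hj
          rw [Function.update_self, Function.update_self, neg_mul, neg_mul, h3]
        · rw [Function.update_of_ne hj, Function.update_of_ne hj, h3]
      · intro v
        rw [LinearEquiv.mul_apply, hg2, Yop_refl hns horth, LinearEquiv.mul_apply]
      · have h5 : (⟨refl Q (b (Sum.inl j₀)) * g, mul_mem (refl_mem _) hgO⟩ : O Q) = ⟨refl Q (b (Sum.inl j₀)), refl_mem _⟩ * ⟨g, hgO⟩ := rfl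
        rw [h5, map_mul, parHom_refl hQ hR (hns _), h4]; rfl
  obtain ⟨g, hg, β', γ', hν', h3, hgy, hpar⟩ := step1
  have hcomm := Yop_comm (α := α) hact hns h3
  -- a general computation
  have key : ∀ h : V ≃ₗ[F] V, (∀ v, x (h v) = h (x v)) → ∀ v, ((h * g)⁻¹ * x * (h * g)) (y v) = ε • y (((h * g)⁻¹ * x * (h * g)) v) := by
    intro h hh v
    have e1 : ∀ w, ((h * g)⁻¹ * x * (h * g)) w = g.symm (x (g w)) := by
      intro w
      rw [mul_inv_rev]
      show g.symm (h.symm (x (h (g w)))) = _
      rw [hh, LinearEquiv.symm_apply_apply]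
    rw [e1, e1, hgy, hcomm, LinearEquiv.symm_apply_eq, map_smul, hgy, LinearEquiv.apply_symm_apply]
  rcases Int.units_eq_one_or (spinHom hQ hR ⟨g, hg⟩) with h4 | h4
  · refine ⟨g, (mem_Om_iff_homs hQ hgen ⟨g, hg⟩).2 ⟨hpar, h4⟩, ?_⟩
    have := key 1 (fun v => rfl)
    rwa [one_mul] at this
  · -- adjust the spinor norm
    set w : V := α j₀ • b (Sum.inl j₀) + β' j₀ • b (Sum.inr j₀) with hw
    have hlr : polar Q (b (Sum.inl j₀)) (b (Sum.inr j₀)) = 0 := horth _ _ (by simp)
    have hQw : Q w = ν * Q (b (Sum.inl j₀)) := by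
      rw [hw, Q_add, Q_smul, Q_smul, polar_smul_left, polar_smul_right, hlr, smul_zero, smul_zero, ← hν' j₀]
      linear_combination β' j₀ * h3 j₀
    have hν0 : ν ≠ 0 := by rintro rfl; exact hν ⟨0, by ring⟩
    have hw0 : Q w ≠ 0 := by rw [hQw]; exact mul_ne_zero hν0 (hns _)
    have hh := refl_comm hx hact hns horth j₀ (a := α j₀) (c := β' j₀) hw0
    refine ⟨refl Q (b (Sum.inl j₀)) * refl Q w * g, ?_, key _ (fun v => ?_)⟩
    · have h5 : (⟨refl Q (b (Sum.inl j₀)) * refl Q w * g, mul_mem (mul_mem (refl_mem _) (refl_mem _)) hg⟩ : O Q) =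
        ⟨refl Q (b (Sum.inl j₀)), refl_mem _⟩ * ⟨refl Q w, refl_mem _⟩ * ⟨g, hg⟩ := rfl
      apply (mem_Om_iff_homs hQ hgen ⟨refl Q (b (Sum.inl j₀)) * refl Q w * g, mul_mem (mul_mem (refl_mem _) (refl_mem _)) hg⟩).2
      rw [h5, map_mul, map_mul, map_mul, map_mul, parHom_refl hQ hR (hns _), parHom_refl hQ hR hw0, hpar, h4, spinHom_refl hQ hR (hns _),
        spinHom_refl hQ hR hw0]
      refine ⟨by decide, ?_⟩
      have h6 : IsSquare (Q w) ↔ ¬ IsSquare (Q (b (Sum.inl j₀))) := by
        rw [hQw, isSquare_mul_iff hν0 (hns _)]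
        simp [hν]
      by_cases h7 : IsSquare (Q (b (Sum.inl j₀)))
      · rw [sgn_true h7, sgn_false (fun h => (h6.1 h) h7)]; decide
      · rw [sgn_false h7, sgn_true (h6.2 h7)]; decide
    · exact congrArg (fun f => f v) hh

end Cfsg.Agent.Lib.OFb
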