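import Cfsg.Agent.Lib.OFb

/-! # Paired orthogonal bases for involutions and elements of square `-1` (helper99) -/

set_option autoImplicit false

namespace Cfsg.Agent.Lib.OFc

open Cfsg.Agent.Lib.Quad Cfsg.Agent.Lib.OFa Cfsg.Agent.Lib.OFb QuadraticMap Module

variable {F V : Type*} [Field F] [AddCommGroup V] [Module F V] [FiniteDimensional F V] {Q : QuadraticForm F V}

/-- extending an orthogonal family -/
lemma exists_extend (hQ : Nd Q) (h2 : (2 : F) ≠ 0) {ι : Type*} [Fintype ι] {c : ι → V} (hns : ∀ i, Q (c i) ≠ 0)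
    (horth : ∀ i j, i ≠ j → polar Q (c i) (c j) = 0) (hcard : Fintype.card ι < finrank F V) :
    ∃ v, Q v ≠ 0 ∧ ∀ i, polar Q (c i) v = 0 := by
  classical
  -- projections
  let pr : V → V := fun y => y - ∑ i, ((2 * Q (c i))⁻¹ * polar Q (c i) y) • c i
  have hpr : ∀ y j, polar Q (c j) (pr y) = 0 := by
    intro y j
    simp only [pr]
    rw [polar_sub_right, sub_eq_zero]
    have h1 : polar Q (c j) (∑ i, ((2 * Q (c i))⁻¹ * polar Q (c i) y) • c i) = polarBilin Q (c j) (∑ i, ((2 * Q (c i))⁻¹ * polar Q (c i) y) • c i) := rfl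
    rw [h1, map_sum, Finset.sum_eq_single j]
    · rw [map_smul, polarBilin_apply_apply, polar_self', smul_eq_mul]
      field_simp [hns j]
    · intro i _ hij
      rw [map_smul, polarBilin_apply_apply, horth j i hij.symm, smul_zero]
    · intro h; exact absurd (Finset.mem_univ _) h
  have hpr' : ∀ u y, (∀ i, polar Q (c i) u = 0) → polar Q u (pr y) = polar Q u y := by
    intro u y hu
    simp only [pr]
    rw [polar_sub_right]
    have h1 : polar Q u (∑ i, ((2 * Q (c i))⁻¹ * polar Q (c i) y) • c i) = polarBilin Q u (∑ i, ((2 * Q (c i))⁻¹ * polar Q (c i) y) • c i) := rfl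
    rw [h1, map_sum, Finset.sum_eq_zero, sub_zero]
    intro i _
    rw [map_smul, polarBilin_apply_apply, polar_comm (⇑Q) u (c i), hu, smul_zero]
  -- a nonzero vector orthogonal to the family
  obtain ⟨u, hu0, hu⟩ : ∃ u : V, u ≠ 0 ∧ ∀ i, polar Q (c i) u = 0 := by
    let f : V →ₗ[F] (ι → F) := LinearMap.pi fun i => polarBilin Q (c i)
    have hker : LinearMap.ker f ≠ ⊥ := by
      intro h
      have h1 := LinearMap.finrank_le_finrank_of_injective (LinearMap.ker_eq_bot.1 h)
      rw [finrank_fintype_fun_eq_card] at h1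
      omega
    obtain ⟨u, hu, hu0⟩ := Submodule.exists_mem_ne_zero_of_ne_bot hker
    refine ⟨u, hu0, fun i => ?_⟩
    exact congrFun (LinearMap.mem_ker.1 hu) i
  by_contra hcon
  push Not at hcon
  have hiso : ∀ v, (∀ i, polar Q (c i) v = 0) → Q v = 0 := by
    intro v hv
    by_contra h
    obtain ⟨i, hi⟩ := hcon v h
    exact hi (hv i)
  apply hu0
  apply hQ.eq_zero
  intro y
  rw [← hpr' u y hu]
  have h3 := Q_add Q u (pr y)
  rw [hiso u hu, hiso (pr y) (hpr y), hiso (u + pr y) (fun i => by rw [polar_add_right, hu, hpr, add_zero])] at h3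
  simpa using h3.symm

/-- paired bases for elements of square `-1` -/
theorem exists_pair_neg [Finite F] (hQ : Nd Q) (h2 : (2 : F) ≠ 0) {d : ℕ} (hdim : finrank F V = 2 * d) {x : V ≃ₗ[F] V} (hx : x ∈ O Q)
    (hxx : ∀ v, x (x v) = -v) : ∃ b : Basis (Fin d ⊕ Fin d) F V, (∀ i, Q (b i) ≠ 0) ∧ (∀ i j, i ≠ j → polar Q (b i) (b j) = 0) ∧
      Act b x (-1) Q := by
  classical
  have hskew : ∀ u v, polar Q u (x v) = - polar Q (x u) v := by
    intro u v
    have h1 := O_polar hx u (x v)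
    rw [hxx, polar_neg_right] at h1
    rw [← h1]
  have hself : ∀ v, polar Q v (x v) = 0 := by
    intro v
    have h1 := hskew v v
    rw [polar_comm Q (x v) v] at h1
    have h3 : 2 * polar Q v (x v) = 0 := by linear_combination h1
    exact (mul_eq_zero.1 h3).resolve_left h2
  have hfam : ∀ k ≤ d, ∃ u : Fin k → V, (∀ i, Q (u i) ≠ 0) ∧ (∀ i j, i ≠ j → polar Q (u i) (u j) = 0) ∧ ∀ i j, polar Q (u i) (x (u j)) = 0 := by
    intro k
    induction k with
    | zero => intro _; exact ⟨Fin.elim0, fun i => i.elim0, fun i => i.elim0, fun i => i.elim0⟩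
    | succ k ih =>
      intro hk
      obtain ⟨u, hu1, hu2, hu3⟩ := ih (by omega)
      obtain ⟨v, hv0, hv⟩ := exists_extend hQ h2 (c := (Sum.elim u (fun i => x (u i)) : Fin k ⊕ Fin k → V))
        (by
          rintro (i | i)
          · exact hu1 i
          · show Q (x (u i)) ≠ 0
            rw [hx]; exact hu1 i)
        (by
          rintro (i | i) (j | j) hij
          · exact hu2 i j (fun h => hij (by rw [h]))
          · exact hu3 i j
          · show polar Q (x (u i)) (u j) = 0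
            rw [polar_comm]; exact hu3 j i
          · show polar Q (x (u i)) (x (u j)) = 0
            rw [O_polar hx]; exact hu2 i j (fun h => hij (by rw [h])))
        (by simp; omega)
      have hv1 : ∀ i, polar Q (u i) v = 0 := fun i => hv (Sum.inl i)
      have hv2 : ∀ i, polar Q (x (u i)) v = 0 := fun i => hv (Sum.inr i)
      refine ⟨Fin.cons v u, ?_, ?_, ?_⟩
      · intro i
        refine Fin.cases hv0 (fun i => ?_) i
        exact hu1 i
      · intro i j
        refine Fin.cases ?_ (fun i => ?_) i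
        · refine Fin.cases ?_ (fun j => ?_) j
          · intro h; exact absurd rfl h
          · intro _
            show polar Q v (u j) = 0
            rw [polar_comm]; exact hv1 j
        · refine Fin.cases ?_ (fun j => ?_) j
          · intro _; exact hv1 i
          · intro h
            exact hu2 i j (fun h' => h (by rw [h']))
      · intro i j
        refine Fin.cases ?_ (fun i => ?_) i
        · refine Fin.cases ?_ (fun j => ?_) j
          · exact hself v
          · show polar Q v (x (u j)) = 0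
            rw [polar_comm]; exact hv2 j
        · refine Fin.cases ?_ (fun j => ?_) j
          · show polar Q (u i) (x v) = 0
            rw [hskew, hv2, neg_zero]
          · exact hu3 i j
  obtain ⟨u, hu1, hu2, hu3⟩ := hfam d le_rfl
  have hns : ∀ i, Q ((Sum.elim u (fun i => x (u i)) : Fin d ⊕ Fin d → V) i) ≠ 0 := by
    rintro (i | i)
    · exact hu1 i
    · show Q (x (u i)) ≠ 0
      rw [hx]; exact hu1 i
  have horth : ∀ i j, i ≠ j → polar Q ((Sum.elim u (fun i => x (u i)) : Fin d ⊕ Fin d → V) i) ((Sum.elim u (fun i => x (u i)) : Fin d ⊕ Fin d → V) j) = 0 := by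
    rintro (i | i) (j | j) hij
    · exact hu2 i j (fun h => hij (by rw [h]))
    · exact hu3 i j
    · show polar Q (x (u i)) (u j) = 0
      rw [polar_comm]; exact hu3 j i
    · show polar Q (x (u i)) (x (u j)) = 0
      rw [O_polar hx]; exact hu2 i j (fun h => hij (by rw [h]))
  have hli := linearIndependent_of_orth h2 _ horth hns
  by_cases hd0 : d = 0
  · subst hd0
    have : Subsingleton V := Module.finrank_zero_iff.1 (by omega)
    refine ⟨Basis.empty V, fun i => isEmptyElim i, fun i => isEmptyElim i, Or.inr ⟨fun j => isEmptyElim j, rfl⟩⟩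
  have hne : Nonempty (Fin d ⊕ Fin d) := ⟨Sum.inl ⟨0, by omega⟩⟩
  let b := basisOfLinearIndependentOfCardEqFinrank hli (by simp; omega)
  have hb : ∀ i, b i = (Sum.elim u (fun i => x (u i)) : Fin d ⊕ Fin d → V) i := fun i => by
    simp only [b, coe_basisOfLinearIndependentOfCardEqFinrank]
  refine ⟨b, fun i => by rw [hb]; exact hns i, fun i j hij => by rw [hb, hb]; exact horth i j hij, Or.inr ⟨fun j => ?_, rfl⟩⟩
  rw [hb, hb]
  exact ⟨rfl, hxx _, hx _⟩

/-- paired bases for involutions -/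
theorem exists_pair_invol (hQ : Nd Q) (h2 : (2 : F) ≠ 0) {x : V ≃ₗ[F] V} (hx : x ∈ O Q)
    (hxx : ∀ v, x (x v) = v) (hev : Even (finrank F (mov x))) (hevV : Even (finrank F V)) :
    ∃ (k l : ℕ) (b : Basis ((Fin k ⊕ Fin l) ⊕ (Fin k ⊕ Fin l)) F V), (∀ i, Q (b i) ≠ 0) ∧ (∀ i j, i ≠ j → polar Q (b i) (b j) = 0) ∧
      Act b x 1 Q := by
  classical
  have hfix := finrank_mov_add_fixS x
  obtain ⟨k, hk⟩ := hev
  obtain ⟨l, hl⟩ : Even (finrank F (fixS x)) := by
    obtain ⟨m, hm⟩ := hevV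
    exact ⟨m - k, by omega⟩
  have hmov : ∀ v, v ∈ mov x ↔ x v = -v := by
    intro v
    rw [mem_mov]
    constructor
    · rintro ⟨w, rfl⟩
      rw [map_sub, hxx]; abel
    · intro h
      refine ⟨(-(2 : F)⁻¹) • v, ?_⟩
      rw [map_smul, h]
      have : (-(2:F)⁻¹) • -v - (-(2:F)⁻¹) • v = ((2:F)⁻¹ * 2) • v := by module
      rw [this, inv_mul_cancel₀ h2, one_smul]
  have hcross : ∀ u ∈ mov x, ∀ w ∈ fixS x, polar Q u w = 0 := by
    intro u hu w hw
    have h1 := O_polar hx u w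
    rw [(hmov u).1 hu, mem_fixS.1 hw, polar_neg_left] at h1
    have h3 : 2 * polar Q u w = 0 := by linear_combination -h1
    exact (mul_eq_zero.1 h3).resolve_left h2
  have hdec : ∀ v : V, ∃ a ∈ mov x, ∃ c ∈ fixS x, a + c = v := by
    intro v
    refine ⟨(2 : F)⁻¹ • (v - x v), ?_, (2 : F)⁻¹ • (v + x v), ?_, ?_⟩
    · rw [hmov, map_smul, map_sub, hxx]; module
    · rw [mem_fixS, map_smul, map_add, hxx]; module
    · have : (2 : F)⁻¹ • (v - x v) + (2 : F)⁻¹ • (v + x v) = ((2:F)⁻¹ * 2) • v := by module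
      rw [this, inv_mul_cancel₀ h2, one_smul]
  have hcompl : IsCompl (mov x) (fixS x) := by
    constructor
    · rw [disjoint_iff, eq_bot_iff]
      intro v hv
      have h3 := (hmov v).1 hv.1
      have h4 := mem_fixS.1 hv.2
      rw [h4] at h3
      have h5 : (2 : F) • v = 0 := by
        rw [two_smul]
        nth_rewrite 1 [h3]
        exact neg_add_cancel v
      rw [Submodule.mem_bot]
      exact (smul_eq_zero.1 h5).resolve_left h2
    · rw [codisjoint_iff, eq_top_iff]
      intro v _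
      obtain ⟨a, ha, c, hc, rfl⟩ := hdec v
      exact Submodule.add_mem_sup ha hc
  have hnd1 : mov x ⊓ Quad.perp Q (mov x) = ⊥ := by
    rw [eq_bot_iff]
    intro v hv
    rw [Submodule.mem_bot]
    apply hQ.eq_zero
    intro w
    obtain ⟨a, ha, c, hc, rfl⟩ := hdec w
    rw [polar_add_right, hcross v hv.1 c hc, mem_perp'.1 hv.2 a ha, add_zero]
  have hnd2 : fixS x ⊓ Quad.perp Q (fixS x) = ⊥ := by
    rw [eq_bot_iff]
    intro v hv
    rw [Submodule.mem_bot]
    apply hQ.eq_zero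
    intro w
    obtain ⟨a, ha, c, hc, rfl⟩ := hdec w
    rw [polar_add_right, polar_comm, hcross a ha v hv.1, mem_perp'.1 hv.2 c hc, add_zero]
  obtain ⟨b₁, hb₁, hb₁'⟩ := (nd_res_of_inf hnd1).exists_orth_basis h2
  obtain ⟨b₂, hb₂, hb₂'⟩ := (nd_res_of_inf hnd2).exists_orth_basis h2
  let e₁ : Fin (finrank F (mov x)) ≃ Fin k ⊕ Fin k := (finCongr hk).trans finSumFinEquiv.symm
  let e₂ : Fin (finrank F (fixS x)) ≃ Fin l ⊕ Fin l := (finCongr hl).trans finSumFinEquiv.symm
  let σ := Equiv.sumSumSumComm (Fin k) (Fin k) (Fin l) (Fin l)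
  let B' := ((b₁.reindex e₁).prod (b₂.reindex e₂)).map (Submodule.prodEquivOfIsCompl _ _ hcompl)
  have hB1 : ∀ i, B' (Sum.inl i) = (b₁ (e₁.symm i) : V) := fun i => by
    simp only [B', Basis.map_apply, Basis.prod_apply_inl_fst]
    rw [Submodule.coe_prodEquivOfIsCompl', Basis.prod_apply_inl_fst, Basis.prod_apply_inl_snd]
    simp
  have hB2 : ∀ i, B' (Sum.inr i) = (b₂ (e₂.symm i) : V) := fun i => by
    simp only [B', Basis.map_apply]
    rw [Submodule.coe_prodEquivOfIsCompl', Basis.prod_apply_inr_fst, Basis.prod_apply_inr_snd]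
    simp
  have horth' : ∀ i j, i ≠ j → polar Q (B' i) (B' j) = 0 := by
    rintro (i | i) (j | j) hij
    · rw [hB1, hB1, ← polar_res]
      exact hb₁ _ _ (fun h => hij (by rw [e₁.symm.injective h]))
    · rw [hB1, hB2]
      exact hcross _ (b₁ _).2 _ (b₂ _).2
    · rw [hB2, hB1, polar_comm]
      exact hcross _ (b₁ _).2 _ (b₂ _).2
    · rw [hB2, hB2, ← polar_res]
      exact hb₂ _ _ (fun h => hij (by rw [e₂.symm.injective h]))
  have hns' : ∀ i, Q (B' i) ≠ 0 := by
    rintro (i | i)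
    · rw [hB1]; exact hb₁' _
    · rw [hB2]; exact hb₂' _
  have hBr : ∀ i, (B'.reindex σ) i = B' (σ.symm i) := fun i => Basis.reindex_apply _ _ _
  refine ⟨k, l, B'.reindex σ, ?_, ?_, Or.inl ⟨⟨Sum.elim (fun _ => -1) (fun _ => 1), ?_⟩, rfl⟩⟩
  · intro i; rw [hBr]; exact hns' _
  · intro i j hij
    rw [hBr, hBr]
    exact horth' _ _ (fun h => hij (σ.symm.injective h))
  · rintro (j | j)
    · refine ⟨neg_ne_zero.2 one_ne_zero, ?_, ?_⟩
      · rw [hBr, Sum.elim_inl, neg_smul, one_smul]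
        show x (B' (Sum.inl (Sum.inl j))) = -B' (Sum.inl (Sum.inl j))
        rw [hB1]; exact (hmov _).1 (b₁ _).2
      · rw [hBr, Sum.elim_inl, neg_smul, one_smul]
        show x (B' (Sum.inl (Sum.inr j))) = -B' (Sum.inl (Sum.inr j))
        rw [hB1]; exact (hmov _).1 (b₁ _).2
    · refine ⟨one_ne_zero, ?_, ?_⟩
      · rw [hBr, Sum.elim_inr, one_smul]
        show x (B' (Sum.inr (Sum.inl j))) = B' (Sum.inr (Sum.inl j))
        rw [hB2]; exact mem_fixS.1 (b₂ _).2
      · rw [hBr, Sum.elim_inr, one_smul]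
        show x (B' (Sum.inr (Sum.inr j))) = B' (Sum.inr (Sum.inr j))
        rw [hB2]; exact mem_fixS.1 (b₂ _).2

/-- the main theorem for `r = 2` -/
theorem yes_main [Fintype F] (hQ : Nd Q) (h2 : (2 : F) ≠ 0) {d : ℕ} (hd : 0 < d) (hdim : finrank F V = 2 * d) {x : V ≃ₗ[F] V}
    (hx : x ∈ Om Q) {z : F} (hz : ∀ v, x (x v) = z • v) {ν : F} (hν : ¬ IsSquare ν) {y : Module.End F V}
    (hy : y * y = ν • (1 : Module.End F V)) (hya : ∀ u v, polar Q (y u) v = polar Q u (y v)) :
    ∃ g ∈ Om Q, ∃ ε : F, (ε = 1 ∨ ε = -1) ∧ ∀ v, (g⁻¹ * x * g) (y v) = ε • y ((g⁻¹ * x * g) v) := by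
  have hxO : x ∈ O Q := Om_le hx
  have hz2 : z = 1 ∨ z = -1 := by
    obtain ⟨v, hv⟩ := Nd.exists_Q_ne_zero hQ (by omega)
    have h1 : Q (x (x v)) = Q v := by rw [hxO, hxO]
    rw [hz, Q_smul] at h1
    have h3 : (z * z) * Q v = 1 * Q v := by rw [h1, one_mul]
    exact mul_self_eq_one_iff.1 (mul_right_cancel₀ hv h3)
  have hgen : GenHyp Q := genHyp_of_two_ne_zero h2
  rcases hz2 with rfl | rfl
  · have h1 := ((mem_Om_iff_homs hQ hgen ⟨x, hxO⟩).1 hx).1
    have hev : Even (finrank F (mov x)) := sgn_eq_one_iff.1 h1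
    obtain ⟨k, l, b, hb1, hb2, hb3⟩ := exists_pair_invol hQ h2 hxO (fun v => by rw [hz, one_smul]) hev (by rw [hdim]; exact even_two_mul d)
    have hcard : Fintype.card ((Fin k ⊕ Fin l) ⊕ (Fin k ⊕ Fin l)) = 2 * d := by rw [← hdim, Module.finrank_eq_card_basis b]
    simp at hcard
    have hj : Nonempty (Fin k ⊕ Fin l) := by
      by_cases hk : 0 < k
      · exact ⟨Sum.inl ⟨0, hk⟩⟩
      · exact ⟨Sum.inr ⟨0, by omega⟩⟩
    obtain ⟨j₀⟩ := hj
    obtain ⟨g, hg, h3⟩ := yes_core hQ h2 hxO hb3 hb1 hb2 j₀ hν hy hya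
    exact ⟨g, hg, 1, Or.inl rfl, h3⟩
  · obtain ⟨b, hb1, hb2, hb3⟩ := exists_pair_neg hQ h2 hdim hxO (fun v => by rw [hz, neg_smul, one_smul])
    obtain ⟨g, hg, h3⟩ := yes_core hQ h2 hxO hb3 hb1 hb2 ⟨0, hd⟩ hν hy hya
    exact ⟨g, hg, -1, Or.inr rfl, h3⟩

end Cfsg.Agent.Lib.OFc
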