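import Cfsg.Agent.Lib.OFc
import Cfsg.Agent.Lib.OrthBridge
import Cfsg.Agent.Lib.OrthRF67

/-! # Quadratic field subalgebras and their normalizers (helper99) -/

set_option autoImplicit false

namespace Cfsg.Agent.Lib.OFd

open Cfsg Cfsg.Geo Cfsg.Agent.Lib.GeoBridge Cfsg.Agent.Lib.OrthBridge
open Cfsg.Agent.Lib.Quad Cfsg.Agent.Lib.OFa Cfsg.Agent.Lib.OFb Cfsg.Agent.Lib.OFc QuadraticMap Module Matrix

variable {ι : Type} [Fintype ι] [DecidableEq ι] {F : Type*} [Field F]

/-- a square root of a nonsquare generating the algebra -/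
theorem exists_gen (h2 : (2 : F) ≠ 0) {K : Subalgebra F (Matrix ι ι F)} (hK : IsFieldSubalgebra 2 K) :
    ∃ (Y : Matrix ι ι F) (ν : F), Y ∈ K ∧ ¬ IsSquare ν ∧ Y * Y = ν • (1 : Matrix ι ι F) ∧ ∀ κ ∈ K, ∃ a b : F, κ = a • (1 : Matrix ι ι F) + b • Y := by
  have hfr := hK.finrank_eq
  have hfd : FiniteDimensional F K := Module.finite_of_finrank_pos (by rw [hfr]; norm_num)
  have hnt : Nontrivial K := by
    apply Module.nontrivial_of_finrank_pos (R := F)
    rw [hfr]; norm_num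
  have h1ne : (1 : Matrix ι ι F) ≠ 0 := by
    intro h
    obtain ⟨a, b, hab⟩ := hnt
    apply hab
    apply Subtype.ext
    have h1 : ∀ x : Matrix ι ι F, x = 0 := fun x => by rw [← mul_one x, h, mul_zero]
    rw [h1 a.1, h1 b.1]
  -- a non-scalar element
  obtain ⟨k, hk, hkn⟩ : ∃ k ∈ K, ∀ c : F, k ≠ c • (1 : Matrix ι ι F) := by
    by_contra hcon
    push Not at hcon
    have h1 : finrank F K ≤ 1 := by
      apply finrank_le_one (⟨1, one_mem K⟩ : K)
      intro w
      obtain ⟨c, hc⟩ := hcon w.1 w.2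
      exact ⟨c, Subtype.ext hc.symm⟩
    omega
  have hspan : ∀ Y ∈ K, (∀ c : F, Y ≠ c • (1 : Matrix ι ι F)) → ∀ κ ∈ K, ∃ a b : F, κ = a • (1 : Matrix ι ι F) + b • Y := by
    intro Y hY hYn κ hκ
    let v : Fin 2 → K := ![1, ⟨Y, hY⟩]
    have hli : LinearIndependent F v := by
      rw [LinearIndependent.pair_iff]
      intro s t hst
      have hst' : s • (1 : Matrix ι ι F) + t • Y = 0 := congrArg Subtype.val hst
      by_cases ht : t = 0
      · subst ht
        rw [zero_smul, add_zero] at hst'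
        exact ⟨(smul_eq_zero.1 hst').resolve_right h1ne, rfl⟩
      · exfalso
        apply hYn (-(t⁻¹ * s))
        have h3 : t • Y = -(s • (1 : Matrix ι ι F)) := by rw [eq_neg_iff_add_eq_zero, add_comm]; exact hst'
        calc Y = t⁻¹ • (t • Y) := by rw [smul_smul, inv_mul_cancel₀ ht, one_smul]
          _ = _ := by rw [h3]; module
    have hb := hli.span_eq_top_of_card_eq_finrank' (by rw [hfr]; simp)
    have hmem : (⟨κ, hκ⟩ : K) ∈ Submodule.span F (Set.range v) := by rw [hb]; trivial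
    rw [show Set.range v = {1, ⟨Y, hY⟩} by simp only [v, Matrix.range_cons, Matrix.range_empty, Set.union_empty]; rfl] at hmem
    obtain ⟨a, b, hab⟩ := Submodule.mem_span_pair.1 hmem
    exact ⟨a, b, (congrArg Subtype.val hab).symm⟩
  obtain ⟨β, α, hαβ⟩ := hspan k hk hkn (k * k) (mul_mem hk hk)
  set Y : Matrix ι ι F := k - (α / 2) • (1 : Matrix ι ι F) with hY
  have hYK : Y ∈ K := sub_mem hk (Subalgebra.smul_mem _ (one_mem K) _)
  have hYn : ∀ c : F, Y ≠ c • (1 : Matrix ι ι F) := by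
    intro c hc
    apply hkn (c + α / 2)
    rw [hY, sub_eq_iff_eq_add] at hc
    rw [hc, add_smul]
  have hYY : Y * Y = (β + α * α / 4) • (1 : Matrix ι ι F) := by
    rw [hY, sub_mul, mul_sub, mul_sub, smul_mul_assoc, mul_smul_comm, smul_mul_assoc, mul_smul_comm, one_mul, mul_one, hαβ, one_mul]
    have h4 : (4 : F) ≠ 0 := by
      have : (4 : F) = 2 * 2 := by norm_num
      rw [this]; exact mul_ne_zero h2 h2
    match_scalars <;> field_simp <;> ring
  refine ⟨Y, β + α * α / 4, hYK, ?_, hYY, hspan Y hYK hYn⟩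
  rintro ⟨c, hc⟩
  rw [hc] at hYY
  have h3 : (Y - c • (1 : Matrix ι ι F)) * (Y + c • (1 : Matrix ι ι F)) = 0 := by
    rw [sub_mul, mul_add, mul_add, smul_mul_assoc, mul_smul_comm, smul_mul_assoc, mul_smul_comm, one_mul, mul_one, hYY, one_mul]
    module
  have h4 : Y - c • (1 : Matrix ι ι F) ≠ 0 := fun h => hYn c (sub_eq_zero.1 h)
  have h5 : Y - c • (1 : Matrix ι ι F) ∈ K := sub_mem hYK (Subalgebra.smul_mem _ (one_mem K) _)
  obtain ⟨w, hw, hw'⟩ := hK.inv _ h5 h4
  have h6 : w * (Y - c • (1 : Matrix ι ι F)) = 1 := by rw [hK.comm _ hw _ h5]; exact hw'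
  have h7 : Y + c • (1 : Matrix ι ι F) = 0 := by
    calc Y + c • (1 : Matrix ι ι F) = w * (Y - c • (1 : Matrix ι ι F)) * (Y + c • (1 : Matrix ι ι F)) := by rw [h6, one_mul]
      _ = 0 := by rw [mul_assoc, h3, mul_zero]
  apply hYn (-c)
  rw [neg_smul]
  exact eq_neg_of_add_eq_zero_left h7

variable {K : Subalgebra F (Matrix ι ι F)} {Y : Matrix ι ι F} {ν : F}

theorem mem_norm_iff (hY : Y ∈ K) (hν : ¬ IsSquare ν) (hYY : Y * Y = ν • (1 : Matrix ι ι F))
    (hspan : ∀ κ ∈ K, ∃ a b : F, κ = a • (1 : Matrix ι ι F) + b • Y) (h2 : (2 : F) ≠ 0) (g : GL ι F) :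
    g ∈ subalgebraNormalizer K ↔ ∃ ε : F, (ε = 1 ∨ ε = -1) ∧ ∀ v, le g (Matrix.toLin' Y v) = ε • Matrix.toLin' Y (le g v) := by
  have hgi : g.1 * (g⁻¹).1 = 1 := by rw [← Units.val_mul, mul_inv_cancel]; rfl
  have hig : (g⁻¹).1 * g.1 = 1 := by rw [← Units.val_mul, inv_mul_cancel]; rfl
  have hν0 : ν ≠ 0 := by rintro rfl; exact hν ⟨0, by ring⟩
  constructor
  · intro hg
    by_cases h1 : (1 : Matrix ι ι F) = 0
    · -- degenerate case
      refine ⟨1, Or.inl rfl, fun v => ?_⟩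
      have h3 : ∀ x : Matrix ι ι F, x = 0 := fun x => by rw [← mul_one x, h1, mul_zero]
      rw [h3 Y, map_zero, LinearMap.zero_apply, map_zero, LinearMap.zero_apply, smul_zero]
    obtain ⟨a, b, hab⟩ := hspan _ ((hg Y).1 hY)
    have hsq : (g.1 * Y * (g⁻¹).1) * (g.1 * Y * (g⁻¹).1) = ν • (1 : Matrix ι ι F) := by
      calc (g.1 * Y * (g⁻¹).1) * (g.1 * Y * (g⁻¹).1) = g.1 * Y * ((g⁻¹).1 * g.1) * Y * (g⁻¹).1 := by simp only [mul_assoc]
        _ = g.1 * (Y * Y) * (g⁻¹).1 := by rw [hig, mul_one]; simp only [mul_assoc]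
        _ = _ := by rw [hYY, mul_smul_comm, smul_mul_assoc, mul_one, hgi]
    rw [hab] at hsq
    have hsq' : (a * a + b * b * ν - ν) • (1 : Matrix ι ι F) + (2 * a * b) • Y = 0 := by
      have h5 : (a • (1 : Matrix ι ι F) + b • Y) * (a • (1 : Matrix ι ι F) + b • Y) = (a * a) • (1 : Matrix ι ι F) + (2 * a * b) • Y + (b * b) • (Y * Y) := by
        rw [add_mul, mul_add, mul_add, smul_mul_assoc, mul_smul_comm, smul_mul_assoc, mul_smul_comm, smul_mul_assoc, mul_smul_comm, one_mul, mul_one,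
          smul_mul_assoc, mul_smul_comm, one_mul]
        module
      rw [h5, hYY] at hsq
      rw [← sub_eq_zero] at hsq
      rw [← hsq]; module
    have hab0 : 2 * a * b = 0 := by
      by_contra hne
      apply hν
      have h6 : Y = (-((2 * a * b)⁻¹ * (a * a + b * b * ν - ν))) • (1 : Matrix ι ι F) := by
        have h7 : (2 * a * b) • Y = -((a * a + b * b * ν - ν) • (1 : Matrix ι ι F)) := by
          rw [eq_neg_iff_add_eq_zero, add_comm]; exact hsq'
        calc Y = (2 * a * b)⁻¹ • ((2 * a * b) • Y) := by rw [smul_smul, inv_mul_cancel₀ hne, one_smul]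
          _ = _ := by rw [h7]; module
      generalize (-((2 * a * b)⁻¹ * (a * a + b * b * ν - ν))) = c at h6
      rw [h6, smul_mul_assoc, mul_smul_comm, one_mul, smul_smul] at hYY
      have h8 : (c * c - ν) • (1 : Matrix ι ι F) = 0 := by rw [sub_smul, hYY, sub_self]
      have h9 := (smul_eq_zero.1 h8).resolve_right h1
      exact ⟨c, (sub_eq_zero.1 h9).symm⟩
    rw [hab0, zero_smul, add_zero] at hsq'
    have h10 := (smul_eq_zero.1 hsq').resolve_right h1
    rcases mul_eq_zero.1 hab0 with h11 | h11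
    · have ha : a = 0 := (mul_eq_zero.1 h11).resolve_left h2
      subst ha
      have hb : b * b = 1 := by
        have : (b * b - 1) * ν = 0 := by linear_combination h10
        exact sub_eq_zero.1 ((mul_eq_zero.1 this).resolve_right hν0)
      refine ⟨b, mul_self_eq_one_iff.1 hb, fun v => ?_⟩
      rw [zero_smul, zero_add] at hab
      have h12 : g.1 * Y = b • (Y * g.1) := by
        calc g.1 * Y = (g.1 * Y * (g⁻¹).1) * g.1 := by rw [mul_assoc _ _ g.1, hig, mul_one]
          _ = _ := by rw [hab, smul_mul_assoc]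
      rw [le_apply, le_apply, Matrix.toLin'_apply, Matrix.toLin'_apply, Matrix.mulVec_mulVec, Matrix.mulVec_mulVec, h12, Matrix.smul_mulVec]
    · subst h11
      exfalso
      exact hν ⟨a, by linear_combination -h10⟩
  · rintro ⟨ε, hε, h⟩
    have hεε : ε * ε = 1 := by rcases hε with rfl | rfl <;> ring
    have h1 : g.1 * Y = ε • (Y * g.1) := by
      apply Matrix.toLin'.injective
      apply LinearMap.ext
      intro v
      have := h v
      rw [le_apply, le_apply, Matrix.toLin'_apply, Matrix.toLin'_apply, Matrix.mulVec_mulVec, Matrix.mulVec_mulVec] at this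
      rw [Matrix.toLin'_apply, Matrix.toLin'_apply, this, Matrix.smul_mulVec]
    have h3 : (g⁻¹).1 * Y = ε • (Y * (g⁻¹).1) := by
      have h4 : Y * g.1 = ε • (g.1 * Y) := by rw [h1, smul_smul, hεε, one_smul]
      calc (g⁻¹).1 * Y = (g⁻¹).1 * (Y * g.1) * (g⁻¹).1 := by rw [mul_assoc, mul_assoc Y, hgi, mul_one]
        _ = _ := by rw [h4, mul_smul_comm, smul_mul_assoc, ← mul_assoc, hig, one_mul]
    intro κ
    constructor
    · intro hκ
      obtain ⟨a, b, rfl⟩ := hspan κ hκ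
      have : g.1 * (a • (1 : Matrix ι ι F) + b • Y) * (g⁻¹).1 = a • (1 : Matrix ι ι F) + (b * ε) • Y := by
        rw [mul_add, add_mul, mul_smul_comm, mul_smul_comm, smul_mul_assoc, smul_mul_assoc, mul_one, hgi, h1, smul_mul_assoc, mul_assoc Y, hgi,
          mul_one, smul_smul]
      rw [this]
      exact add_mem (Subalgebra.smul_mem _ (one_mem K) _) (Subalgebra.smul_mem _ hY _)
    · intro hκ
      obtain ⟨a, b, hab⟩ := hspan _ hκ
      have : κ = a • (1 : Matrix ι ι F) + (b * ε) • Y := by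
        calc κ = ((g⁻¹).1 * g.1) * κ * ((g⁻¹).1 * g.1) := by rw [hig, one_mul, mul_one]
          _ = (g⁻¹).1 * (g.1 * κ * (g⁻¹).1) * g.1 := by simp only [mul_assoc]
          _ = _ := by
            rw [hab, mul_add, add_mul, mul_smul_comm, mul_smul_comm, smul_mul_assoc, smul_mul_assoc, mul_one, hig, h3, smul_mul_assoc, mul_assoc Y, hig,
              mul_one, smul_smul]
      rw [this]
      exact add_mem (Subalgebra.smul_mem _ (one_mem K) _) (Subalgebra.smul_mem _ hY _)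

/-- the case `r = 2` -/
theorem yes_mat [Fintype F] (h2 : (2 : F) ≠ 0) {Q : QuadraticForm F (ι → F)} (hQ : Nd Q) {d : ℕ} (hd : 0 < d) (hdim : finrank F (ι → F) = 2 * d)
    (hK : IsFieldSubalgebra 2 K) (hKf : IsSelfAdjointFor (polar Q) K) {x : GL ι F} (hx : x ∈ omegaGL ⇑Q)
    {z : F} (hz : ((x ^ 2 : GL ι F) : Matrix ι ι F) = z • (1 : Matrix ι ι F)) :
    ∃ g ∈ omegaGL ⇑Q, g⁻¹ * x * g ∈ subalgebraNormalizer K := by
  obtain ⟨Y, ν, hY, hν, hYY, hspan⟩ := exists_gen h2 hK
  have hy : (Matrix.toLin' Y : Module.End F (ι → F)) * Matrix.toLin' Y = ν • (1 : Module.End F (ι → F)) := by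
    rw [Module.End.mul_eq_comp, ← Matrix.toLin'_mul, hYY, map_smul, Matrix.toLin'_one]; rfl
  have hya : ∀ u v, polar Q (Matrix.toLin' Y u) v = polar Q u (Matrix.toLin' Y v) := fun u v => hKf Y hY u v
  have hxx : ∀ v, le x (le x v) = z • v := by
    intro v
    rw [le_apply, le_apply, Matrix.mulVec_mulVec, ← Units.val_mul, ← pow_two, hz, Matrix.smul_mulVec, Matrix.one_mulVec]
  obtain ⟨g, hg, ε, hε, h⟩ := yes_main hQ h2 hd hdim ((mem_omegaGL_iff x).1 hx) hxx hν hy hya
  refine ⟨le.symm g, (mem_omegaGL_iff _).2 (by rw [MulEquiv.apply_symm_apply]; exact hg), ?_⟩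
  rw [mem_norm_iff hY hν hYY hspan h2]
  refine ⟨ε, hε, ?_⟩
  rw [map_mul, map_mul, map_inv, MulEquiv.apply_symm_apply]
  exact h

end Cfsg.Agent.Lib.OFd
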