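import Cfsg.Agent.Lib.SpConj3

/-! # Elements with scalar square in symplectic groups, odd characteristic -/

set_option autoImplicit false

namespace Cfsg.Agent.Lib.SpConj

open Cfsg.Agent.Lib.InvSub Cfsg.Agent.Lib.PrimeOrd Cfsg.Agent.Lib.Sesq Cfsg.Agent.Lib.ElusiveTool Module Matrix

variable {F : Type*} [Field F]

theorem nonscalar_of {V : Type*} [AddCommGroup V] [Module F V] [FiniteDimensional F V] {T : Module.End F V} {y : F}
    (h1 : 0 < finrank F (E T y)) (h2 : finrank F (E T y) < finrank F V) (z : F) : T ≠ z • (1 : Module.End F V) := by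
  intro hz
  have hz' : ∀ w, T w = z • w := fun w => by rw [hz]; rfl
  by_cases hzy : z = y
  · have : E T y = ⊤ := by
      rw [eq_top_iff]; intro w _
      rw [Module.End.mem_eigenspace_iff, hz', hzy]
    rw [this, finrank_top] at h2
    omega
  · have : E T y = ⊥ := by
      rw [eq_bot_iff]; intro w hw
      rw [Module.End.mem_eigenspace_iff, hz'] at hw
      have h2 : (z - y) • w = 0 := by rw [sub_smul, hw, sub_self]
      exact (smul_eq_zero.1 h2).resolve_left (fun h => hzy (sub_eq_zero.1 h))
    rw [this, finrank_bot] at h1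
    omega

theorem finrank_E_conj {V W : Type*} [AddCommGroup V] [Module F V] [AddCommGroup W] [Module F W] {T : Module.End F V}
    {S : Module.End F W} (g : V ≃ₗ[F] W) (hg : ∀ v, g (T v) = S (g v)) (y : F) : finrank F (E T y) = finrank F (E S y) := by
  have h : (E T y).map (g : V →ₗ[F] W) = E S y := by
    ext w
    constructor
    · rintro ⟨v, hv, rfl⟩
      have hv' := Module.End.mem_eigenspace_iff.1 hv
      rw [Module.End.mem_eigenspace_iff]
      show S (g v) = y • g v
      rw [← hg, hv', map_smul]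
    · intro hw
      have hw' := Module.End.mem_eigenspace_iff.1 hw
      refine ⟨g.symm w, ?_, g.apply_symm_apply w⟩
      rw [SetLike.mem_coe, Module.End.mem_eigenspace_iff]
      apply g.injective
      rw [hg, map_smul, LinearEquiv.apply_symm_apply, hw']
  rw [← h]
  exact (LinearEquiv.finrank_map_eq g _).symm

variable {V : Type*} [AddCommGroup V] [Module F V] [FiniteDimensional F V] {B : V →ₗ[F] V →ₗ[F] F}

/-- dimension of the eigenspaces of an isometry with square `-1` -/
theorem finrank_eig [Finite F]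
    (hnd : ND (σ := RingHom.id F) B ⊤) (h2 : (2 : F) ≠ 0) {T : Module.End F V} (hT : Iso (σ := RingHom.id F) B T) {y : F}
    (hy : y ^ 2 = -1) (hTT : T ^ 2 = (y ^ 2) • (1 : Module.End F V)) : 2 * finrank F (E T (-y)) = finrank F V := by
  have hy0 : y ≠ 0 := by rintro rfl; simp at hy
  have hti : ∀ t : F, t ^ 2 = -1 → 2 * finrank F (E T t) ≤ finrank F V := by
    intro t ht
    have h1 : E T t ≤ perp (σ := RingHom.id F) B (E T t) := by
      intro v hv w hw
      have hv' := Module.End.mem_eigenspace_iff.1 hv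
      have hw' := Module.End.mem_eigenspace_iff.1 hw
      have h3 := hT w v
      rw [hv', hw'] at h3
      simp only [map_smul, LinearMap.smul_apply, smul_eq_mul, LinearMap.map_smulₛₗ, RingHom.id_apply] at h3
      have h4 : (2 : F) * B w v = 0 := by linear_combination (-1 : F) * h3 + (B w v) * ht
      exact (mul_eq_zero.1 h4).resolve_left h2
    have h2 := Submodule.finrank_mono h1
    have h3 := finrank_add_perp hnd (E T t)
    omega
  have h1 := hti y hy
  have h2' := hti (-y) (by rw [neg_pow, hy]; norm_num)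
  have h3 := Submodule.finrank_add_eq_of_isCompl (Cfsg.Agent.Lib.AltSim.isCompl_inv h2 hy0 hTT)
  omega

/-- the eigenspace `-1` of an involutory isometry is even-dimensional -/
theorem even_neg [Finite F] (hB : Alt B) (hnd : ND (σ := RingHom.id F) B ⊤) (h2 : (2 : F) ≠ 0) {T : Module.End F V} (hT : Iso (σ := RingHom.id F) B T)
    (hTT : T ^ 2 = ((1 : F) ^ 2) • (1 : Module.End F V)) : Even (finrank F (E T (-1))) := by
  apply even_of_nd hB
  intro w hw hw'
  apply hnd w Submodule.mem_top
  intro v _
  have hc := Cfsg.Agent.Lib.AltSim.isCompl_inv h2 (one_ne_zero (α := F)) hTT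
  have hv : v ∈ E T 1 ⊔ E T (-1) := by rw [hc.sup_eq_top]; trivial
  obtain ⟨a, ha, b, hb, rfl⟩ := Submodule.mem_sup.1 hv
  rw [map_add, hw' b hb, add_zero]
  have ha' := Module.End.mem_eigenspace_iff.1 ha
  have hw'' := Module.End.mem_eigenspace_iff.1 hw
  have h3 := hT w a
  rw [ha', hw''] at h3
  simp only [map_smul, LinearMap.smul_apply, smul_eq_mul, LinearMap.map_smulₛₗ, RingHom.id_apply] at h3
  have h4 : (2 : F) * B w a = 0 := by linear_combination (-1 : F) * h3
  exact (mul_eq_zero.1 h4).resolve_left h2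

/-- isometries with square `-1` are conjugate in the general linear group -/
theorem conj_neg_one [Finite F] (hnd : ND (σ := RingHom.id F) B ⊤) (h2 : (2 : F) ≠ 0)
    {T S : Module.End F V} (hT : Iso (σ := RingHom.id F) B T) (hS : Iso (σ := RingHom.id F) B S)
    (hTT : T ^ 2 = (-1 : F) • (1 : Module.End F V)) (hSS : S ^ 2 = (-1 : F) • (1 : Module.End F V)) :
    ∃ g : V ≃ₗ[F] V, ∀ v, g (T v) = S (g v) := by
  by_cases hsq : ∃ y : F, y ^ 2 = -1
  · obtain ⟨y, hy⟩ := hsq
    have hy0 : y ≠ 0 := by rintro rfl; simp at hy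
    apply conj_of_sq h2 hy0 (by rw [hTT, hy]) (by rw [hSS, hy]) rfl
    have h1 := finrank_eig hnd h2 hT hy (by rw [hTT, hy])
    have h2 := finrank_eig hnd h2 hS hy (by rw [hSS, hy])
    omega
  · push Not at hsq
    have hirr := Cfsg.Agent.Lib.ExtField.irred_sq hsq
    apply Cfsg.Agent.Lib.ExtField.exists_conj_irred hirr.1
    · rw [map_sub, map_pow, Polynomial.aeval_X, Polynomial.aeval_C, hTT, Algebra.algebraMap_eq_smul_one, sub_self]
    · rw [map_sub, map_pow, Polynomial.aeval_X, Polynomial.aeval_C, hSS, Algebra.algebraMap_eq_smul_one, sub_self]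
    · rfl

/-- maps with scalar square are semisimple -/
theorem compl_of_sq [Finite F] (h2 : (2 : F) ≠ 0) {T : Module.End F V} {z : F} (hz : z ≠ 0)
    (hTT : T ^ 2 = z • (1 : Module.End F V)) (W : Submodule F V) (hW : Inv T W) : ∃ W', Inv T W' ∧ IsCompl W W' := by
  have hFf : Fintype F := Fintype.ofFinite F
  obtain ⟨p, hp⟩ := CharP.exists F
  haveI : Fact p.Prime := ⟨CharP.char_is_prime F p⟩
  have hp2 : (2 : ℕ) ≠ p := by
    rintro rfl
    exact h2 CharTwo.two_eq_zero
  by_cases hsq : ∃ y : F, y ^ 2 = z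
  · obtain ⟨y, hy⟩ := hsq
    have hy0 : y ≠ 0 := by rintro rfl; rw [zero_pow (by norm_num)] at hy; exact hz hy.symm
    haveI : Fact (Nat.Prime 2) := ⟨Nat.prime_two⟩
    exact (ssB (p := p) (r := 2) hp2 hy0 (by rw [hTT, hy])).compl W hW
  · push Not at hsq
    exact (ssC Nat.prime_two hsq hTT).1.compl W hW

end Cfsg.Agent.Lib.SpConj
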