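import Cfsg.Agent.Lib.TrForm2
import Cfsg.Agent.Lib.SpConj4

/-! # Index of the field extension subgroups of symplectic groups -/

set_option autoImplicit false

namespace Cfsg.Agent.Lib.TrForm

open Cfsg.Agent.Lib.InvSub Cfsg.Agent.Lib.PrimeOrd Cfsg.Agent.Lib.Sesq Cfsg.Agent.Lib.SpConj Module Matrix
open Cfsg.Agent.Lib.AltSim (JB)

section arith

/-- the cofactor -/
theorem spc_split {q k : ℕ} (hk : 0 < k) (m : ℕ) : spc q (k * m) = spc (q ^ k) m *
    (q ^ ((k * m) ^ 2 - k * m ^ 2) * ∏ i ∈ (Finset.range (k * m)).filter (fun i => ¬ k ∣ i + 1), (q ^ (2 * (i + 1)) - 1)) := by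
  have h1 : ∏ i ∈ (Finset.range (k * m)).filter (fun i => k ∣ i + 1), (q ^ (2 * (i + 1)) - 1) =
      ∏ j ∈ Finset.range m, ((q ^ k) ^ (2 * (j + 1)) - 1) := by
    have h2 : (Finset.range (k * m)).filter (fun i => k ∣ i + 1) = (Finset.range m).image (fun j => k * (j + 1) - 1) := by
      ext i
      simp only [Finset.mem_filter, Finset.mem_range, Finset.mem_image]
      constructor
      · rintro ⟨hi, t, ht⟩
        have ht0 : t ≠ 0 := by rintro rfl; rw [mul_zero] at ht; omega
        refine ⟨t - 1, ?_, ?_⟩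
        · have h3 : k * t ≤ k * m := by omega
          have := Nat.le_of_mul_le_mul_left h3 hk
          omega
        · rw [show t - 1 + 1 = t by omega, ← ht]; omega
      · rintro ⟨j, hj, rfl⟩
        have h3 : k * (j + 1) ≤ k * m := Nat.mul_le_mul_left k (by omega)
        have h4 : 0 < k * (j + 1) := by positivity
        refine ⟨by omega, ?_⟩
        rw [show k * (j + 1) - 1 + 1 = k * (j + 1) by omega]
        exact dvd_mul_right _ _
    rw [h2, Finset.prod_image]
    · apply Finset.prod_congr rfl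
      intro j _
      have h4 : 0 < k * (j + 1) := by positivity
      rw [show k * (j + 1) - 1 + 1 = k * (j + 1) by omega, ← pow_mul]
      congr 2
      ring
    · intro a _ b _ hab
      have h4 : 0 < k * (a + 1) := by positivity
      have h5 : 0 < k * (b + 1) := by positivity
      simp only at hab
      have h6 : k * (a + 1) = k * (b + 1) := by omega
      have := Nat.eq_of_mul_eq_mul_left hk h6
      omega
  have h3 : k * m ^ 2 ≤ (k * m) ^ 2 := by
    rw [mul_pow]
    apply Nat.mul_le_mul_right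
    nlinarith
  rw [spc, spc, ← Finset.prod_filter_mul_prod_filter_not (Finset.range (k * m)) (fun i => k ∣ i + 1), h1, ← pow_mul]
  have h4 : q ^ (k * m) ^ 2 = q ^ (k * m ^ 2) * q ^ ((k * m) ^ 2 - k * m ^ 2) := by
    rw [← pow_add]; congr 1; omega
  rw [h4]
  ring

lemma spc_pos {q : ℕ} (hq : 2 ≤ q) (m : ℕ) : 0 < spc q m := by
  unfold spc
  apply Nat.mul_pos (pow_pos (by omega) _)
  apply Finset.prod_pos
  intro i _
  have : 1 < q ^ (2 * (i + 1)) := Nat.one_lt_pow (by omega) (by omega)
  omega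

/-- relation of the sizes -/
lemma csz_rel {F L : Type*} [Field F] [Fintype F] [Field L] [Fintype L] [Algebra F L] {r : ℕ} :
    csz F r ∣ finrank F L * csz L r := by
  obtain ⟨c, hc⟩ := csz_even (F := L) (r := r)
  have h1 : finrank F L * csz L r = 2 * (finrank F L * c) := by rw [hc]; ring
  rw [h1, csz_dvd_iff, ← h1]
  apply orderOf_dvd_of_pow_eq_one
  have h2 : Fintype.card L = Fintype.card F ^ finrank F L := Module.card_eq_pow_finrank
  have h3 : ((Fintype.card L : ℕ) : ZMod r) ^ (csz L r) = 1 := orderOf_dvd_iff_pow_eq_one.1 order_dvd_csz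
  rw [h2] at h3
  push_cast at h3
  rw [← pow_mul] at h3
  exact h3

end arith

section mats

variable {F : Type*} [Field F] [Fintype F] {d : ℕ} {K : Subalgebra F (Matrix (Fin d ⊕ Fin d) (Fin d ⊕ Fin d) F)}
  {L : Type*} [Field L] [Fintype L] [Algebra F L] [Module L (Fin d ⊕ Fin d → F)] [IsScalarTower F L (Fin d ⊕ Fin d → F)]

theorem index_prime {p : ℕ} [Fact p.Prime] [CharP F p] (hKL : KL K L) {BL : (Fin d ⊕ Fin d → F) →ₗ[L] (Fin d ⊕ Fin d → F) →ₗ[L] L}
    (h : ∀ (a : L) (u v : Fin d ⊕ Fin d → F), Algebra.trace F L (a * BL u v) = JB (F := F) d (a • u) v)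
    (halt : ∀ (a : L) (v : Fin d ⊕ Fin d → F), JB (F := F) d (a • v) v = 0)
    {r : ℕ} (hr : r.Prime) (hrp : r ≠ p)
    (hΩ : r ∣ (Cfsg.Geo.subalgebraNormalizer K).relIndex (Cfsg.spGL d F)) : csz F r ≠ finrank F L * csz L r := by
  intro heq
  have hfL : FiniteDimensional F L := Module.Finite.of_finite
  have hfV : FiniteDimensional L (Fin d ⊕ Fin d → F) := by
    have : Finite (Fin d ⊕ Fin d → F) := inferInstance
    exact Module.Finite.of_finite
  have hk : 0 < finrank F L := Module.finrank_pos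
  have hBalt := alt_of (F := F) h halt
  have hBnd : ND (σ := RingHom.id L) BL ⊤ := by
    apply nd_of (F := F) (σ := AlgHom.id F L) (B := JB (F := F) d) h
    intro w hw hw'
    exact jb_nd d w trivial (fun v _ => hw' v trivial)
  obtain ⟨m, hm⟩ := even_of_nd (B := BL) hBalt (U := ⊤) hBnd
  rw [finrank_top] at hm
  have hm' : finrank L (Fin d ⊕ Fin d → F) = 2 * m := by omega
  have hd : d = finrank F L * m := by
    have h1 := Module.finrank_mul_finrank F L (Fin d ⊕ Fin d → F)
    rw [hm', finrank_jb] at h1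
    have h2 : 2 * (finrank F L * m) = 2 * d := by rw [← h1]; ring
    omega
  have hcard : Nat.card (ClIso.isoGrp L (fun u v => BL u v)) = spc (Fintype.card L) m := Sesq.card_iso hBalt hBnd hm'
  have hCK : Nat.card (CK K) = Nat.card (ClIso.isoGrp L (fun u v => BL u v)) := card_CK (σ := AlgHom.id F L) (BL := BL) hKL h
  obtain ⟨t, ht⟩ := index_rel K
  rw [hCK, hcard, card_spGL, Module.card_eq_pow_finrank (K := F) (V := L)] at ht
  have hs := spc_split (q := Fintype.card F) hk m
  rw [← hd] at hs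
  rw [hs] at ht
  have hq2 : 2 ≤ Fintype.card F := Fintype.one_lt_card
  have hpos : 0 < spc (Fintype.card F ^ finrank F L) m := spc_pos (hq2.trans (Nat.le_self_pow hk.ne' _)) m
  have h5 : (Cfsg.Geo.subalgebraNormalizer K).relIndex (Cfsg.spGL d F) * t =
      Fintype.card F ^ (d ^ 2 - finrank F L * m ^ 2) *
        ∏ i ∈ (Finset.range d).filter (fun i => ¬ finrank F L ∣ i + 1), (Fintype.card F ^ (2 * (i + 1)) - 1) := by
    apply Nat.eq_of_mul_eq_mul_left hpos
    rw [← ht]; ring
  have h6 := Dvd.dvd.mul_right hΩ t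
  rw [h5] at h6
  have hpq : ¬ r ∣ Fintype.card F := by
    obtain ⟨k, -, hk⟩ := FiniteField.card F p
    intro h
    rw [hk] at h
    exact hrp ((Nat.prime_dvd_prime_iff_eq hr Fact.out).mp (hr.dvd_of_dvd_pow h))
  rcases hr.dvd_mul.1 h6 with h7 | h7
  · exact hpq (hr.dvd_of_dvd_pow h7)
  · rw [hr.prime.dvd_finset_prod_iff] at h7
    obtain ⟨i, hi, h8⟩ := h7
    rw [Finset.mem_filter] at hi
    apply hi.2
    have h9 := SubspaceCount.orderOf_dvd_of_dvd Fintype.card_pos h8
    rw [← csz_dvd_iff, heq] at h9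
    obtain ⟨c, hc⟩ := csz_even (F := L) (r := r)
    rw [hc, ← two_mul, show finrank F L * (2 * c) = 2 * (finrank F L * c) by ring] at h9
    exact (dvd_mul_right _ _).trans (Nat.dvd_of_mul_dvd_mul_left (by norm_num) h9)

end mats

end Cfsg.Agent.Lib.TrForm
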