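import Cfsg.Agent.Lib.OFd
import Cfsg.Agent.Lib.TrForm3

/-! # Elements of odd prime order and quadratic fields (helper99) -/

set_option autoImplicit false

namespace Cfsg.Agent.Lib.OFe

open Cfsg.Agent.Lib.Quad Cfsg.Agent.Lib.OFa QuadraticMap Module Cfsg.Agent.Lib.TrForm Cfsg.Agent.Lib.SpConj
open Cfsg.Agent.Lib.InvSub Cfsg.Agent.Lib.PrimeOrd Cfsg.Agent.Lib.OrthR67
open Cfsg.Agent.Lib.Sesq (csz)

universe u v

section unip

variable {F : Type u} [Field F] {V : Type v} [AddCommGroup V] [Module F V] [FiniteDimensional F V] {Q : QuadraticForm F V}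

/-- unipotent elements with a block of size 3 -/
theorem exists_unip [Finite F] (hQ : Nd Q) (h2 : (2 : F) ≠ 0) (hn : 3 ≤ finrank F V) (p : ℕ) [CharP F p] :
    ∃ T ∈ O Q, T ^ p = 1 ∧ ∃ w : V, w ≠ 0 ∧ (∀ v, ∃ c : F, T (T v) - T v - (T v - v) = c • w) ∧ ∃ v, T (T v) - T v - (T v - v) ≠ 0 := by
  obtain ⟨z, hz0, hz⟩ := Nd.exists_singular hQ hn
  obtain ⟨y, hy, hQy⟩ := exists_nonsing_perp hQ (U := F ∙ z) (by
    have := finrank_span_singleton (K := F) hz0
    omega)
  have hzy : polar Q z y = 0 := mem_perp_singleton.1 hy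
  have hyz : polar Q y z = 0 := by rw [polar_comm]; exact hzy
  have hzz : polar Q z z = 0 := by rw [polar_self', hz, mul_zero]
  set T := sieg hQ hz hzy with hT
  have hpow : ∀ k : ℕ, ∃ h : polar Q z (k • y) = 0, T ^ k = sieg hQ hz h := by
    intro k
    induction k with
    | zero =>
      refine ⟨by rw [zero_smul, polar_zero_right], ?_⟩
      ext x
      rw [sieg_apply, pow_zero]
      simp
    | succ k ih =>
      obtain ⟨h, hk⟩ := ih
      refine ⟨by rw [succ_nsmul, polar_add_right, h, hzy, add_zero], ?_⟩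
      rw [pow_succ, hk, hT, sieg_mul]
      congr 1
      rw [succ_nsmul]
  have hTv : ∀ v, T v - v = polar Q z v • y - polar Q y v • z - (Q y * polar Q z v) • z := by
    intro v
    rw [hT, sieg_apply]; abel
  have hN : ∀ v, T (T v) - T v - (T v - v) = (-(polar Q z v * (2 * Q y))) • z := by
    intro v
    rw [hTv (T v)]
    have h3 : T v = v + (polar Q z v • y - polar Q y v • z - (Q y * polar Q z v) • z) := by rw [← hTv]; abel
    have h4 : polar Q z (T v) = polar Q z v := by
      rw [h3]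
      simp only [polar_add_right, polar_sub_right, polar_smul_right, hzy, hzz, smul_zero, sub_zero, add_zero]
    have h5 : polar Q y (T v) = polar Q y v + polar Q z v * (2 * Q y) := by
      rw [h3]
      simp only [polar_add_right, polar_sub_right, polar_smul_right, hyz, polar_self', smul_eq_mul]
      ring
    rw [h4, h5, hTv]
    module
  refine ⟨T, sieg_mem hQ hz hzy, ?_, z, hz0, fun v => ⟨_, hN v⟩, ?_⟩
  · obtain ⟨h, hk⟩ := hpow p
    rw [hk]
    have h0 : (p : ℕ) • y = 0 := by
      rw [← Nat.cast_smul_eq_nsmul F, CharP.cast_eq_zero, zero_smul]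
    ext x
    rw [sieg_apply]
    simp [h0]
  · obtain ⟨v, hv⟩ := hQ.exists_polar_one' hz0
    refine ⟨v, ?_⟩
    rw [hN, hv]
    exact smul_ne_zero (neg_ne_zero.2 (mul_ne_zero one_ne_zero (mul_ne_zero h2 hQy))) hz0

theorem unip_contra {T g : V ≃ₗ[F] V} {w : V} (hw : w ≠ 0) (hT : ∀ v, ∃ c : F, T (T v) - T v - (T v - v) = c • w)
    (hT' : ∃ v, T (T v) - T v - (T v - v) ≠ 0) {ν : F} (hν : ¬ IsSquare ν) {y : Module.End F V} (hy : y * y = ν • (1 : Module.End F V))
    (hc : ∀ v, (g⁻¹ * T * g) (y v) = y ((g⁻¹ * T * g) v)) : False := by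
  obtain ⟨v0, hv0⟩ := hT'
  obtain ⟨c0, hc0⟩ := hT v0
  have hc00 : c0 ≠ 0 := by rintro rfl; rw [zero_smul] at hc0; exact hv0 hc0
  -- the operator `N = (S - 1)²`
  have hS : ∀ v, (g⁻¹ * T * g) v = g.symm (T (g v)) := fun v => rfl
  have hN : ∀ v, g.symm (T (T (g v)) - T (g v) - (T (g v) - g v)) =
      (g⁻¹ * T * g) ((g⁻¹ * T * g) v) - (g⁻¹ * T * g) v - ((g⁻¹ * T * g) v - v) := by
    intro v
    rw [hS, hS, LinearEquiv.apply_symm_apply]
    simp only [map_sub, LinearEquiv.symm_apply_apply]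
  have hNy : ∀ v, (g⁻¹ * T * g) ((g⁻¹ * T * g) (y v)) - (g⁻¹ * T * g) (y v) - ((g⁻¹ * T * g) (y v) - y v) =
      y ((g⁻¹ * T * g) ((g⁻¹ * T * g) v) - (g⁻¹ * T * g) v - ((g⁻¹ * T * g) v - v)) := by
    intro v
    rw [hc, hc]
    simp only [map_sub]
  set v1 := g.symm v0 with hv1
  have hgv1 : g v1 = v0 := by rw [hv1, LinearEquiv.apply_symm_apply]
  have h1 := hN v1
  rw [hgv1, hc0, map_smul] at h1
  obtain ⟨c1, hc1⟩ := hT (g (y v1))
  have h3 := hN (y v1)
  rw [hc1, map_smul, hNy, ← h1, map_smul] at h3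
  -- `y w' = λ w'`
  have hw' : g.symm w ≠ 0 := fun h => hw (by
    have := congrArg g h
    rwa [LinearEquiv.apply_symm_apply, map_zero] at this)
  have h4 : y (g.symm w) = (c0⁻¹ * c1) • g.symm w := by
    rw [← smul_smul, h3, smul_smul, inv_mul_cancel₀ hc00, one_smul]
  have h5 : (y * y) (g.symm w) = ((c0⁻¹ * c1) * (c0⁻¹ * c1)) • g.symm w := by
    rw [Module.End.mul_apply, h4, map_smul, h4, smul_smul]
  rw [hy, LinearMap.smul_apply, Module.End.one_apply] at h5
  have h6 : (ν - (c0⁻¹ * c1) * (c0⁻¹ * c1)) • g.symm w = 0 := by rw [sub_smul, h5, sub_self]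
  exact hν ⟨c0⁻¹ * c1, sub_eq_zero.1 ((smul_eq_zero.1 h6).resolve_right hw')⟩

end unip

section atom

variable {F : Type u} [Field F] [Fintype F] {V : Type v} [AddCommGroup V] [Module F V] [FiniteDimensional F V] {Q : QuadraticForm F V} {r : ℕ}

lemma csz_eq : csz F r = 2 * hF F r := csize_eq _

/-- isometries with a single atom -/
theorem exists_one (hQ : Nd Q) (hr : r.Prime) (ho : Odd r) (hne : (r : F) ≠ 0) (hd : r ∣ Nat.card (O Q)) :
    ∃ T : Module.End F V, PR r Q T ∧ finrank F (E T (1 : F)) + csz F r = finrank F V := by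
  obtain ⟨T, hT, hT1⟩ := exists_of_dvd hQ hr ho hne hd
  obtain ⟨h1, h2, h3, h4⟩ := hT.pp_E
  have hne' : pp Q (E T 1) ≠ ⊥ := by
    intro h
    apply hT1
    rw [h, finrank_bot, add_zero] at h4
    have h5 : E T (1 : F) = ⊤ := Submodule.eq_top_of_finrank_eq h4
    apply LinearMap.ext
    intro v
    have : v ∈ E T (1 : F) := by rw [h5]; trivial
    exact mem_E.1 this
  obtain ⟨U, hU1, hU2, hU3, hU4⟩ := hT.exists_atom h2 h1 hne' h3
  obtain ⟨g1, g2, g3⟩ := perp_data hQ hU3
  obtain ⟨J, hJ1, hJ2, hJ3⟩ := glue g2 (fun u hu w hw => mem_pp.1 hw u hu) (T.restrict hU2) (1 : Module.End F (pp Q U))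
    (fun x => hT.iso x) (fun x => rfl)
  have hres : ∀ (k : ℕ) (x : U), (((T.restrict hU2) ^ k) x : V) = (T ^ k) x := by
    intro k
    induction k with
    | zero => intro x; rfl
    | succ k ih =>
      intro x
      rw [pow_succ, pow_succ, Module.End.mul_apply, Module.End.mul_apply, ih]
      rfl
  have hJr : J ^ r = 1 := by
    apply glue_pow g2 (hJ2 r)
    · apply LinearMap.ext
      intro x
      apply Subtype.ext
      rw [hres, hT.pow]; rfl
    · exact one_pow r
  refine ⟨J, ⟨hr, ho, hne, hQ, hJ1, hJr⟩, ?_⟩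
  have hE : E J (1 : F) = pp Q U := by
    apply le_antisymm
    · intro v hv
      obtain ⟨a, b, hab, hiff⟩ := hJ3 v
      have h5 := (hiff.1 (mem_E.1 hv)).1
      have h6 : (a : V) ∈ pp Q (E T 1) ⊓ E T 1 := ⟨hU1 a.2, mem_E.2 (congrArg Subtype.val h5)⟩
      rw [h3, Submodule.mem_bot] at h6
      rw [hab, h6, zero_add]
      exact b.2
    · intro v hv
      rw [mem_E]
      have := (hJ2 1).2 ⟨v, hv⟩
      rw [pow_one, pow_one] at this
      exact this
  rw [hE, csz_eq, ← hU4, add_comm]
  exact g3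

end atom

section field

/-- the field generated by a square root of a nonsquare -/
theorem exists_field {F : Type u} {V : Type v} [Field F] [Fintype F] [AddCommGroup V] [Module F V]
    {B : V →ₗ[F] V →ₗ[F] F} {ν : F} (hν : ¬ IsSquare ν) {y : Module.End F V} (hy : y * y = ν • (1 : Module.End F V))
    (hya : ∀ u v, B (y u) v = B u (y v)) :
    ∃ (L : Type u) (_ : Field L) (_ : Fintype L) (_ : Algebra F L) (φ : L →ₐ[F] Module.End F V),
      finrank F L = 2 ∧ (∀ (a : L) u v, B (φ a u) v = B u (φ a v)) ∧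
      (∀ T : Module.End F V, (∀ v, T (y v) = y (T v)) → ∀ (a : L) v, T (φ a v) = φ a (T v)) ∧ ∃ θ, φ θ = y := by
  classical
  let P : Polynomial F := Polynomial.X ^ 2 - Polynomial.C ν
  have hP : P.natDegree = 2 := Polynomial.natDegree_X_pow_sub_C
  have hmonic : P.Monic := Polynomial.monic_X_pow_sub_C ν (by norm_num)
  have hirr : Irreducible P := by
    apply X_pow_sub_C_irreducible_of_prime Nat.prime_two
    intro b hb
    exact hν ⟨b, by rw [← hb]; ring⟩
  haveI : Fact (Irreducible P) := ⟨hirr⟩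
  let L := AdjoinRoot P
  have hfd : FiniteDimensional F L := (AdjoinRoot.powerBasis' hmonic).finite
  have hfinL : Finite L := Module.finite_of_finite F
  letI : Fintype L := Fintype.ofFinite L
  have hL : finrank F L = 2 := by
    rw [(AdjoinRoot.powerBasis' hmonic).finrank, AdjoinRoot.powerBasis'_dim, hP]
  obtain ⟨φ, hφ⟩ : ∃ φ : L →ₐ[F] Module.End F V, ∀ f, φ (AdjoinRoot.mk P f) = Polynomial.aeval y f := by
    have h0 : Polynomial.aeval y P = 0 := by
      simp only [P, map_sub, map_pow, Polynomial.aeval_X, Polynomial.aeval_C]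
      rw [pow_two, hy, Algebra.algebraMap_eq_smul_one, sub_self]
    refine ⟨Ideal.Quotient.liftₐ (Ideal.span {P}) (Polynomial.aeval y) ?_, ?_⟩
    · intro a ha
      obtain ⟨c, rfl⟩ := Ideal.mem_span_singleton'.1 ha
      rw [map_mul, h0, mul_zero]
    · intro f; rfl
  have hpow : ∀ n u v, B ((y ^ n) u) v = B u ((y ^ n) v) := by
    intro n
    induction n with
    | zero => intro u v; rfl
    | succ n ih => intro u v; rw [pow_succ', Module.End.mul_apply, hya, ih, ← Module.End.mul_apply, ← pow_succ, ← pow_succ', pow_succ', Module.End.mul_apply]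
  refine ⟨L, inferInstance, inferInstance, inferInstance, φ, hL, ?_, ?_, AdjoinRoot.mk P Polynomial.X, ?_⟩
  · intro a
    obtain ⟨f, rfl⟩ := AdjoinRoot.mk_surjective a
    rw [hφ]
    induction f using Polynomial.induction_on' with
    | add f g hf hg =>
      intro u v
      rw [map_add, LinearMap.add_apply, map_add, LinearMap.add_apply, hf, hg, LinearMap.add_apply, map_add]
    | monomial n c =>
      intro u v
      rw [Polynomial.aeval_monomial, Algebra.algebraMap_eq_smul_one, smul_mul_assoc, one_mul, LinearMap.smul_apply, LinearMap.smul_apply, map_smul,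
        map_smul, LinearMap.smul_apply, hpow]
  · intro T hT a
    obtain ⟨f, rfl⟩ := AdjoinRoot.mk_surjective a
    rw [hφ]
    have hTn : ∀ n v, T ((y ^ n) v) = (y ^ n) (T v) := by
      intro n
      induction n with
      | zero => intro v; rfl
      | succ n ih => intro v; rw [pow_succ, Module.End.mul_apply, ih, hT, Module.End.mul_apply]
    induction f using Polynomial.induction_on' with
    | add f g hf hg =>
      intro v
      rw [map_add, LinearMap.add_apply, map_add, hf, hg, LinearMap.add_apply]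
    | monomial n c =>
      intro v
      rw [Polynomial.aeval_monomial, Algebra.algebraMap_eq_smul_one, smul_mul_assoc, one_mul, LinearMap.smul_apply, LinearMap.smul_apply, map_smul, hTn]
  · rw [hφ, Polynomial.aeval_X]

end field

section lin

variable {F L V : Type*} [Field F] [Fintype F] [Field L] [Fintype L] [Algebra F L] [AddCommGroup V] [Module F V] [Module L V]
  [IsScalarTower F L V] {B : V →ₗ[F] V →ₗ[F] F} {BL : V →ₗ[L] V →ₗ[L] L}

/-- dimensions for linear isometries -/
theorem lin_dim [FiniteDimensional F V] [FiniteDimensional L V] {p r : ℕ} (hp : p.Prime) (hc : CharP F p) (hr : r.Prime) (hrp : r ≠ p) (ho : Odd r)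
    (h : ∀ (a : L) (u v : V), Algebra.trace F L (a * BL u v) = B (a • u) v)
    (hadj : ∀ (a : L) (u v : V), B (a • u) v = B u (a • v)) (hsym : ∀ u v, B u v = B v u) (hnd : ∀ u, (∀ v, B u v = 0) → u = 0)
    {S : Module.End F V} (hS : ∀ (a : L) v, S (a • v) = a • S v) (hiso : ∀ u v, B (S u) (S v) = B u v) (hSr : S ^ r = 1) :
    ∃ s, finrank F V = finrank F (E S 1) + s * (finrank F L * csz L r) := by
  have hcL : CharP L p := charP_of_injective_algebraMap (algebraMap F L).injective p
  have hs := symm_of h hadj hsym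
  have hndL : ∀ u, (∀ v, BL u v = 0) → u = 0 := by
    intro u hu
    apply hnd
    intro v
    have h1 := h 1 u v
    rw [one_smul, hu, mul_zero, map_zero] at h1
    exact h1.symm
  obtain ⟨s, hs'⟩ := Cfsg.Agent.Lib.SpConj.csz_dvd_symm (F := L) hp hcL hr hrp ho hs hndL (T := toL (L := L) S hS)
    (iso_of (F := F) (σ := AlgHom.id F L) (B := B) (BL := BL) h (T := toL (L := L) S hS) hiso)
    (by
      apply LinearMap.ext
      intro v
      rw [toL_pow, hSr]; rfl)
  refine ⟨s, ?_⟩
  rw [finrank_E_toL_one (L := L) S hS, ← Module.finrank_mul_finrank F L V, hs']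
  ring

end lin

end Cfsg.Agent.Lib.OFe
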