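import Cfsg.Agent.Lib.OFe
import Cfsg.Agent.Lib.ClOrthOrd2
import Cfsg.Agent.Lib.QuadNorm

/-! # Orders of orthogonal groups over a quadratic extension (helper99) -/

set_option autoImplicit false

namespace Cfsg.Agent.Lib.OFf

open Cfsg.Agent.Lib.Quad Cfsg.Agent.Lib.OFa QuadraticMap Module Cfsg.Agent.Lib.ClOrthOrd

universe u v

section cards

variable {F : Type u} [Field F] [Fintype F] {V : Type v} [AddCommGroup V] [Module F V] [FiniteDimensional F V] {Q : QuadraticForm F V}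

lemma card_O_congr {W : Type*} [AddCommGroup W] [Module F W] {Q' : QuadraticForm F W} (e : V ≃ₗ[F] W) (he : ∀ v, Q' (e v) = Q v) :
    Nat.card (O Q) = Nat.card (O Q') := Nat.card_congr (Cfsg.Agent.Lib.QuadNorm.Ocongr e he).toEquiv

lemma polar_smul_form (c : F) (u v : V) : polar (c • Q) u v = c * polar Q u v := by
  unfold polar
  simp only [smul_apply, smul_eq_mul]
  ring

theorem card_odd' (h2 : (2 : F) ≠ 0) (hQ : Nd Q) {m : ℕ} (hn : finrank F V = 2 * m + 1) :
    Nat.card (O Q) = 2 * (Fintype.card F) ^ (m ^ 2) * ∏ i ∈ Finset.range m, ((Fintype.card F) ^ (2 * (i + 1)) - 1) := by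
  classical
  let b := Module.finBasis F V
  set δ := (LinearMap.BilinForm.toMatrix b (polarBilin Q)).det with hδ
  have hδ0 : δ ≠ 0 := hQ.gram_ne_zero b
  set c : F := δ * (2 * (-1) ^ m) with hc
  have hc0 : c ≠ 0 := mul_ne_zero hδ0 (mul_ne_zero h2 (pow_ne_zero _ (neg_ne_zero.2 one_ne_zero)))
  have hcQ : Nd (c • Q) := by
    rw [nd_iff]
    intro x hx
    apply hQ.eq_zero
    intro y
    have := hx y
    rw [polar_smul_form] at this
    exact (mul_eq_zero.1 this).resolve_left hc0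
  have hdet : (LinearMap.BilinForm.toMatrix b (polarBilin (c • Q))).det = c ^ (2 * m + 1) * δ := by
    have h1 : LinearMap.BilinForm.toMatrix b (polarBilin (c • Q)) = c • LinearMap.BilinForm.toMatrix b (polarBilin Q) := by
      ext i j
      rw [LinearMap.BilinForm.toMatrix_apply, Matrix.smul_apply, LinearMap.BilinForm.toMatrix_apply, polarBilin_apply_apply,
        polarBilin_apply_apply, polar_smul_form, smul_eq_mul]
    have h5 : c ^ finrank F V = c ^ (2 * m + 1) := by rw [hn]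
    rw [h1, Matrix.det_smul, Fintype.card_fin, h5]
  obtain ⟨g, hg⟩ := exists_isometry_of_disc h2 hcQ (nd_quadOdd (m := m) h2) (by rw [hn, finrank_odd]) b
    (Pi.basisFun F (Unit ⊕ (Fin m ⊕ Fin m))) (by
      rw [hdet, det_gram_odd]
      refine ⟨c ^ (m + 1), ?_⟩
      have h3 : c ^ (2 * m + 1) * δ * (2 * (-1) ^ m) = c ^ (2 * m + 1) * c := by rw [hc]; ring
      rw [h3]; ring)
  rw [← card_O_odd h2 m, ← card_O_congr g hg]
  have h4 : O Q = O (c • Q) := by
    ext g
    rw [mem_O, mem_O]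
    constructor
    · intro h v; rw [smul_apply, smul_apply, h]
    · intro h v
      have := h v
      rw [smul_apply, smul_apply, smul_eq_mul, smul_eq_mul] at this
      exact mul_left_cancel₀ hc0 this
  rw [h4]

theorem card_even' (h2 : (2 : F) ≠ 0) (hQ : Nd Q) {m : ℕ} (hn : finrank F V = 2 * (m + 1)) {κ : Type*} [Fintype κ] [DecidableEq κ]
    (b : Basis κ F V) :
    (IsSquare ((-1) ^ (m + 1) * (LinearMap.BilinForm.toMatrix b (polarBilin Q)).det) →
      Nat.card (O Q) = 2 * (Fintype.card F) ^ ((m + 1) * m) * ((Fintype.card F) ^ (m + 1) - 1) *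
        ∏ i ∈ Finset.range m, ((Fintype.card F) ^ (2 * (i + 1)) - 1)) ∧
    (¬ IsSquare ((-1) ^ (m + 1) * (LinearMap.BilinForm.toMatrix b (polarBilin Q)).det) →
      Nat.card (O Q) = 2 * (Fintype.card F) ^ ((m + 1) * m) * ((Fintype.card F) ^ (m + 1) + 1) *
        ∏ i ∈ Finset.range m, ((Fintype.card F) ^ (2 * (i + 1)) - 1)) := by
  classical
  set δ := (LinearMap.BilinForm.toMatrix b (polarBilin Q)).det with hδ
  have hδ0 : δ ≠ 0 := hQ.gram_ne_zero b
  constructor
  · intro hs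
    obtain ⟨g, hg⟩ := exists_isometry_of_disc h2 hQ (nd_quadPlus (m := m + 1)) (by rw [hn, finrank_plus]) b
      (Pi.basisFun F (Fin (m + 1) ⊕ Fin (m + 1))) (by
        rw [det_gram_plus, mul_comm]; exact hs)
    rw [card_O_congr g hg, card_O_plus]
  · intro hs
    have hp : ((-1 : F)) ^ (m + 1) ≠ 0 := pow_ne_zero _ (neg_ne_zero.2 one_ne_zero)
    obtain ⟨ν, hν⟩ : ∃ ν : F, ¬ IsSquare ν := ⟨_, hs⟩
    have hν0 : ν ≠ 0 := by rintro rfl; exact hν ⟨0, by ring⟩
    have hab : ∀ z₁ z₂ : F, z₁ ^ 2 + 0 * z₁ * z₂ + (-ν) * z₂ ^ 2 = 0 → z₁ = 0 ∧ z₂ = 0 := by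
      intro z₁ z₂ h
      by_cases hz : z₂ = 0
      · subst hz
        refine ⟨?_, rfl⟩
        have h3 : z₁ ^ 2 = 0 := by linear_combination h
        exact pow_eq_zero_iff (two_ne_zero) |>.1 h3
      · exfalso
        apply hν
        refine ⟨z₁ / z₂, ?_⟩
        field_simp
        linear_combination -h
    have hdisc : (0 : F) ^ 2 - 4 * (-ν) ≠ 0 := disc_ne_zero_of_anisotropic hab
    obtain ⟨g, hg⟩ := exists_isometry_of_disc h2 hQ (nd_quadMinus (m := m) hdisc) (by rw [hn, finrank_minus]; ring) b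
      (Pi.basisFun F ((Fin m ⊕ Fin m) ⊕ Fin 2)) (by
        rw [det_gram_minus]
        have h3 : δ * ((-1) ^ (m + 1) * ((0 : F) ^ 2 - 4 * (-ν))) = ((-1) ^ (m + 1) * δ * ν) * (2 * 2) := by ring
        rw [h3, isSquare_mul_sq_iff h2]
        exact isSquare_mul_of_not_isSquare hs hν)
    rw [card_O_congr g hg, card_O_minus hab]

end cards

section arith

variable (q : ℕ)

def Pr (n : ℕ) : ℕ := ∏ i ∈ Finset.range n, (q ^ (2 * (i + 1)) - 1)
def Ar (m : ℕ) : ℕ := ∏ i ∈ Finset.range m, ((q ^ 2) ^ (2 * (i + 1)) - 1)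
def Br (m : ℕ) : ℕ := ∏ i ∈ Finset.range m, (q ^ (2 * (2 * i + 1)) - 1)

lemma Pr_split (m : ℕ) : Pr q (2 * m) = Ar q m * Br q m ∧ Pr q (2 * m + 1) = Ar q m * Br q (m + 1) := by
  have h2 : ∀ m, Pr q (2 * m) = Ar q m * Br q m → Pr q (2 * m + 1) = Ar q m * Br q (m + 1) := by
    intro m h
    rw [Pr, Finset.prod_range_succ, ← Pr, h, Br, Br, Finset.prod_range_succ]
    ring
  induction m with
  | zero => exact ⟨by simp [Pr, Ar, Br], h2 0 (by simp [Pr, Ar, Br])⟩
  | succ m ih =>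
    have h3 : Pr q (2 * (m + 1)) = Ar q (m + 1) * Br q (m + 1) := by
      rw [show 2 * (m + 1) = 2 * m + 1 + 1 by ring, Pr, Finset.prod_range_succ, ← Pr, ih.2, Ar, Ar, Finset.prod_range_succ, ← pow_mul]
      have : 2 * (2 * m + 1 + 1) = 2 * (2 * (m + 1)) := by ring
      rw [this]
      ring
    exact ⟨h3, h2 _ h3⟩

variable {q} {r : ℕ}

lemma not_dvd_pow_sub (hq : 0 < q) (h4 : 4 ∣ orderOf (q : ZMod r)) {k : ℕ} (hk : ¬ 4 ∣ k) : ¬ r ∣ q ^ k - 1 := fun h =>
  hk (h4.trans (Cfsg.Agent.Lib.SubspaceCount.orderOf_dvd_of_dvd hq h))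

lemma not_dvd_Br (hr : r.Prime) (hq : 0 < q) (h4 : 4 ∣ orderOf (q : ZMod r)) (m : ℕ) : ¬ r ∣ Br q m := by
  intro h
  rw [Br, hr.prime.dvd_finset_prod_iff] at h
  obtain ⟨i, -, hi⟩ := h
  exact not_dvd_pow_sub hq h4 (k := 2 * (2 * i + 1)) (by omega) hi

lemma not_dvd_pm (hq : 0 < q) (h4 : 4 ∣ orderOf (q : ZMod r)) {d : ℕ} (hd : Odd d) : ¬ r ∣ q ^ d - 1 ∧ ¬ r ∣ q ^ d + 1 := by
  obtain ⟨k, hk⟩ := hd
  have h1 : q ^ (2 * d) - 1 = (q ^ d + 1) * (q ^ d - 1) := by
    have := Nat.sq_sub_sq (q ^ d) 1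
    rw [← this, ← pow_mul, mul_comm d 2, one_pow]
  have h3 := not_dvd_pow_sub (r := r) hq h4 (k := 2 * d) (by omega)
  rw [h1] at h3
  exact ⟨fun h => h3 (h.mul_left _), fun h => h3 (h.mul_right _)⟩

end arith

section ratio

variable {F L : Type u} [Field F] [Fintype F] [Field L] [Fintype L] [Algebra F L] {V : Type v} [AddCommGroup V] [Module F V] [Module L V]
  [IsScalarTower F L V] [FiniteDimensional F V] [FiniteDimensional L V] {Q : QuadraticForm F V} {BL : V →ₗ[L] V →ₗ[L] L}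

/-- the quotient of the orders is prime to `r` -/
theorem ratio (h2 : (2 : F) ≠ 0) (hL : finrank F L = 2) (hQ : Nd Q)
    (h : ∀ (a : L) (u v : V), Algebra.trace F L (a * BL u v) = polarBilin Q (a • u) v)
    (hadj : ∀ (a : L) (u v : V), polarBilin Q (a • u) v = polarBilin Q u (a • v)) {d : ℕ} (hd : 2 ≤ d) (hdim : finrank F V = 2 * d)
    {r : ℕ} (hr : r.Prime) (hrq : ¬ r ∣ Fintype.card F) (h4 : 4 ∣ orderOf ((Fintype.card F : ℕ) : ZMod r)) :
    ∃ X : ℕ, Nat.card (O Q) = X * Nat.card (O (QL BL)) ∧ ¬ r ∣ X := by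
  classical
  have hfL : FiniteDimensional F L := Module.Finite.of_finite
  have h2L : (2 : L) ≠ 0 := by
    intro h
    apply h2
    apply (algebraMap F L).injective
    rw [map_ofNat, map_zero]; exact h
  have hsym : ∀ u v, polarBilin Q u v = polarBilin Q v u := fun u v => polar_comm _ _ _
  have hnd : ∀ u, (∀ v, polarBilin Q u v = 0) → u = 0 := fun u hu => hQ.eq_zero hu
  have hs := symm_of h hadj hsym
  have hN := nd_QL h2 h hs hnd
  have hfr : finrank L V = d := by
    have h3 := Module.finrank_mul_finrank F L V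
    rw [hL] at h3
    omega
  have hcard : Fintype.card L = Fintype.card F ^ 2 := by rw [← hL]; exact Module.card_eq_pow_finrank
  have hq0 : 0 < Fintype.card F := Fintype.card_pos
  set q := Fintype.card F with hqdef
  have hrpow : ∀ k, ¬ r ∣ q ^ k := fun k hk => hrq (hr.dvd_of_dvd_pow hk)
  obtain ⟨b, hb, hb0⟩ := hN.exists_orth_basis h2L
  have horth : ∀ i j, i ≠ j → BL (b i) (b j) = 0 := by
    intro i j hij
    have := hb i j hij
    rw [polar_QL hs] at this
    exact (mul_eq_zero.1 this).resolve_left h2L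
  let e : Basis (Fin (finrank F L)) F L := Module.finBasis F L
  have hdF := det_gram h hadj e b horth
  have hdL : (LinearMap.BilinForm.toMatrix b (polarBilin (QL BL))).det = 2 ^ finrank L V * ∏ i, BL (b i) (b i) := gram_orth b hb
  have hc0 : ∏ i, BL (b i) (b i) ≠ 0 := Finset.prod_ne_zero_iff.2 (fun i _ => hb0 i)
  set c := ∏ i, BL (b i) (b i) with hc
  have hD : Algebra.discr F e ≠ 0 := by
    have : Algebra.IsSeparable F L := inferInstance
    exact Algebra.discr_not_zero_of_basis F e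
  obtain ⟨m', rfl⟩ : ∃ m', d = m' + 1 := ⟨d - 1, by omega⟩
  have hF := card_even' h2 hQ hdim (e.smulTower b)
  rw [hdF, hfr] at hF
  rcases Nat.even_or_odd (m' + 1) with ⟨k, hk⟩ | ⟨k, hk⟩
  · -- even dimension over `L`
    obtain ⟨k', rfl⟩ : ∃ k', k = k' + 1 := ⟨k - 1, by omega⟩
    have hm' : m' = 2 * k' + 1 := by omega
    have hL' := card_even' h2L hN (m := k') (by rw [hfr]; omega) b
    rw [hdL, hfr] at hL'
    have hneg : IsSquare (-1 : L) := by
      apply isSquare_of_norm (F := F) h2 hL (neg_ne_zero.2 one_ne_zero)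
      have h5 : (-1 : L) = algebraMap F L (-1) := by rw [map_neg, map_one]
      rw [h5, Algebra.norm_algebraMap, hL]
      exact ⟨-1, by ring⟩
    have hsF : IsSquare ((-1) ^ (m' + 1) * (Algebra.discr F e ^ (m' + 1) * Algebra.norm F c)) ↔ IsSquare c := by
      have h5 : (-1 : F) ^ (m' + 1) * (Algebra.discr F e ^ (m' + 1) * Algebra.norm F c) =
          Algebra.norm F c * ((Algebra.discr F e) ^ (k' + 1) * (Algebra.discr F e) ^ (k' + 1)) := by
        have h6 : (-1 : F) ^ (m' + 1) = 1 := by rw [hk, ← two_mul, pow_mul]; simp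
        rw [h6, hk, pow_add, one_mul]; ring
      rw [h5, isSquare_mul_sq_iff (pow_ne_zero _ hD)]
      constructor
      · exact isSquare_of_norm h2 hL hc0
      · rintro ⟨t, ht⟩
        exact ⟨Algebra.norm F t, by rw [ht, map_mul]⟩
    have hsL : IsSquare ((-1) ^ (k' + 1) * (2 ^ (m' + 1) * c)) ↔ IsSquare c := by
      have h5 : (-1 : L) ^ (k' + 1) * (2 ^ (m' + 1) * c) = ((-1) ^ (k' + 1) * c) * (2 ^ (k' + 1) * 2 ^ (k' + 1)) := by
        rw [hk, pow_add]; ring
      rw [h5, isSquare_mul_sq_iff (pow_ne_zero _ h2L)]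
      have h6 : IsSquare ((-1 : L) ^ (k' + 1)) := hneg.pow _
      constructor
      · intro h7
        exact isSquare_of_mul_left (pow_ne_zero _ (neg_ne_zero.2 one_ne_zero)) h6 h7
      · intro h7; exact h6.mul h7
    rw [hsF] at hF
    rw [hsL] at hL'
    have hsplit := (Pr_split q k').2
    have hle : 2 * ((k' + 1) * k') ≤ (m' + 1) * m' := by
      rw [hm']; nlinarith
    have hpow2 : q ^ ((m' + 1) * m') = (q ^ 2) ^ ((k' + 1) * k') * q ^ ((m' + 1) * m' - 2 * ((k' + 1) * k')) := by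
      rw [← pow_mul, ← pow_add]; congr 1; omega
    have hQd : (q ^ 2) ^ (k' + 1) = q ^ (m' + 1) := by rw [← pow_mul]; congr 1; omega
    have hPA : ∏ i ∈ Finset.range m', (q ^ (2 * (i + 1)) - 1) = Ar q k' * Br q (k' + 1) := by
      rw [← hsplit, ← hm']; rfl
    refine ⟨q ^ ((m' + 1) * m' - 2 * ((k' + 1) * k')) * Br q (k' + 1), ?_, ?_⟩
    · rw [hcard] at hL'
      by_cases hcs : IsSquare c
      · rw [hF.1 hcs, hL'.1 hcs, hPA, hpow2, hQd, Ar]; ring
      · rw [hF.2 hcs, hL'.2 hcs, hPA, hpow2, hQd, Ar]; ring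
    · intro h5
      rcases hr.dvd_mul.1 h5 with h6 | h6
      · exact hrpow _ h6
      · exact not_dvd_Br hr hq0 h4 _ h6
  · -- odd dimension over `L`
    have hm' : m' = 2 * k := by omega
    have hL' := card_odd' h2L hN (m := k) (by rw [hfr]; omega)
    have hsplit := (Pr_split q k).1
    have hle : 2 * k ^ 2 ≤ (m' + 1) * m' := by
      rw [hm']; nlinarith
    have hpow2 : q ^ ((m' + 1) * m') = (q ^ 2) ^ (k ^ 2) * q ^ ((m' + 1) * m' - 2 * k ^ 2) := by
      rw [← pow_mul, ← pow_add]; congr 1; omega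
    have hPA : ∏ i ∈ Finset.range m', (q ^ (2 * (i + 1)) - 1) = Ar q k * Br q k := by
      rw [← hsplit, ← hm']; rfl
    have hpm := not_dvd_pm (r := r) hq0 h4 (d := m' + 1) ⟨k, hk⟩
    rw [hcard] at hL'
    by_cases hcs : IsSquare ((-1) ^ (m' + 1) * (Algebra.discr F e ^ (m' + 1) * Algebra.norm F c))
    · refine ⟨q ^ ((m' + 1) * m' - 2 * k ^ 2) * (q ^ (m' + 1) - 1) * Br q k, ?_, ?_⟩
      · rw [hF.1 hcs, hL', hPA, hpow2, Ar]; ring
      · intro h5
        rcases hr.dvd_mul.1 h5 with h6 | h6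
        · rcases hr.dvd_mul.1 h6 with h7 | h7
          · exact hrpow _ h7
          · exact hpm.1 h7
        · exact not_dvd_Br hr hq0 h4 _ h6
    · refine ⟨q ^ ((m' + 1) * m' - 2 * k ^ 2) * (q ^ (m' + 1) + 1) * Br q k, ?_, ?_⟩
      · rw [hF.2 hcs, hL', hPA, hpow2, Ar]; ring
      · intro h5
        rcases hr.dvd_mul.1 h5 with h6 | h6
        · rcases hr.dvd_mul.1 h6 with h7 | h7
          · exact hrpow _ h7
          · exact hpm.2 h7
        · exact not_dvd_Br hr hq0 h4 _ h6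

/-- linear isometries -/
theorem card_lin (h2 : (2 : F) ≠ 0)
    (h : ∀ (a : L) (u v : V), Algebra.trace F L (a * BL u v) = polarBilin Q (a • u) v)
    (hadj : ∀ (a : L) (u v : V), polarBilin Q (a • u) v = polarBilin Q u (a • v)) :
    Nat.card {g : V ≃ₗ[F] V // g ∈ O Q ∧ ∀ (a : L) v, g (a • v) = a • g v} = Nat.card (O (QL BL)) := by
  have h2L : (2 : L) ≠ 0 := by
    intro h
    apply h2
    apply (algebraMap F L).injective
    rw [map_ofNat, map_zero]; exact h
  have hsym : ∀ u v, polarBilin Q u v = polarBilin Q v u := fun u v => polar_comm _ _ _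
  have hs := symm_of h hadj hsym
  let f : {g : V ≃ₗ[F] V // g ∈ O Q ∧ ∀ (a : L) v, g (a • v) = a • g v} → O (QL BL) := fun g =>
    ⟨{ toFun := g.1
       map_add' := fun u v => map_add g.1 u v
       map_smul' := fun a v => g.2.2 a v
       invFun := g.1.symm
       left_inv := g.1.left_inv
       right_inv := g.1.right_inv }, by
      intro v
      have hiso : ∀ u v, polarBilin Q (g.1 u) (g.1 v) = polarBilin Q u v := fun u v => O_polar g.2.1 u v
      have h3 := Cfsg.Agent.Lib.TrForm.iso_of (F := F) (σ := AlgHom.id F L) (B := polarBilin Q) (BL := BL) h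
        (T := ({ toFun := g.1, map_add' := fun u v => map_add g.1 u v, map_smul' := fun a v => g.2.2 a v } : V →ₗ[L] V)) hiso
      exact h3 v v⟩
  apply Nat.card_congr
  refine Equiv.ofBijective f ⟨?_, ?_⟩
  · intro g g' hgg
    apply Subtype.ext
    apply LinearEquiv.ext
    intro v
    exact congrArg (fun x : O (QL BL) => x.1 v) hgg
  · intro g
    refine ⟨⟨g.1.restrictScalars F, ?_, fun a v => map_smul g.1 a v⟩, ?_⟩
    · intro v
      have h3 := polar_map (Q := QL BL) (Q' := QL BL) g.1.toLinearMap g.2 v v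
      rw [polar_QL hs, polar_QL hs] at h3
      have h4 : BL (g.1 v) (g.1 v) = BL v v := mul_left_cancel₀ h2L h3
      have h5 := h 1 (g.1 v) (g.1 v)
      have h6 := h 1 v v
      rw [one_smul] at h5 h6
      rw [h4, h6, polarBilin_apply_apply, polarBilin_apply_apply, polar_self', polar_self'] at h5
      exact (mul_left_cancel₀ h2 h5).symm
    · apply Subtype.ext
      apply LinearEquiv.ext
      intro v
      rfl

end ratio

end Cfsg.Agent.Lib.OFf
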