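import Cfsg.Agent.Lib.OFf
import Cfsg.Agent.Lib.SpConj4

/-! # Fixed points of elements of prime order: orthogonal groups and quadratic extensions (helper99) -/

set_option autoImplicit false

namespace Cfsg.Agent.Lib.OFg

open Cfsg Cfsg.Geo Cfsg.Agent.Lib.GeoBridge Cfsg.Agent.Lib.OrthBridge
open Cfsg.Agent.Lib.Quad Cfsg.Agent.Lib.OFa Cfsg.Agent.Lib.OFd Cfsg.Agent.Lib.OFe Cfsg.Agent.Lib.OFf QuadraticMap Module
open Cfsg.Agent.Lib.InvSub Cfsg.Agent.Lib.PrimeOrd Cfsg.Agent.Lib.OrthR67 Cfsg.Agent.Lib.TrForm
open Cfsg.Agent.Lib.Sesq (csz csz_even)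

universe u

variable {ι : Type} [Fintype ι] [DecidableEq ι] {F : Type u} [Field F] [Fintype F]

/-- the counting argument -/
theorem index_arith {G : Type*} [Group G] [Finite G] {Om N C : Subgroup G} [Om.Normal] (h4 : Om.index = 4) (hCN : C ≤ N) {X r : ℕ} (hr : r.Prime)
    (hr2 : r ≠ 2) (hX : ¬ r ∣ X) (hcard : Nat.card G = X * Nat.card C) : ¬ r ∣ N.relIndex Om := by
  intro hd
  have h1 : Nat.card ↥(N ⊓ Om) * N.relIndex Om = Nat.card Om := by
    have := Subgroup.relIndex_mul_relIndex (⊥ : Subgroup G) (N ⊓ Om) Om bot_le inf_le_right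
    rwa [Subgroup.relIndex_bot_left, Subgroup.relIndex_bot_left, Subgroup.inf_relIndex_right] at this
  have h2 : Nat.card ↥(Om ⊓ C) * Om.relIndex C = Nat.card C := by
    have := Subgroup.relIndex_mul_relIndex (⊥ : Subgroup G) (Om ⊓ C) C bot_le inf_le_right
    rwa [Subgroup.relIndex_bot_left, Subgroup.relIndex_bot_left, Subgroup.inf_relIndex_right] at this
  have h3 : Om.relIndex C ∣ 4 := by rw [← h4]; exact Subgroup.relIndex_dvd_index_of_normal Om C
  have h5 : Nat.card Om * 4 = Nat.card G := by rw [← h4]; exact Subgroup.card_mul_index Om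
  obtain ⟨m, hm⟩ : Nat.card ↥(Om ⊓ C) ∣ Nat.card ↥(N ⊓ Om) := Subgroup.card_dvd_of_le (le_inf (inf_le_right.trans hCN) inf_le_left)
  have hpos : 0 < Nat.card ↥(Om ⊓ C) := Nat.card_pos
  have h6 : X * Om.relIndex C = 4 * m * N.relIndex Om := by
    apply Nat.eq_of_mul_eq_mul_left hpos
    calc Nat.card ↥(Om ⊓ C) * (X * Om.relIndex C) = X * (Nat.card ↥(Om ⊓ C) * Om.relIndex C) := by ring
      _ = Nat.card Om * 4 := by rw [h2, ← hcard, h5]
      _ = _ := by rw [← h1, hm]; ring
  have h7 : r ∣ X * Om.relIndex C := by rw [h6]; exact hd.mul_left _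
  rcases hr.dvd_mul.1 h7 with h8 | h8
  · exact hX h8
  · have h9 : r ∣ 2 ^ 2 := by norm_num; exact h8.trans h3
    exact hr2 ((Nat.prime_dvd_prime_iff_eq hr Nat.prime_two).1 (hr.dvd_of_dvd_pow h9))

theorem main {p : ℕ} [Fact p.Prime] [CharP F p] (h2 : (2 : F) ≠ 0) {Q : QuadraticForm F (ι → F)} (hQ : Nd Q) {d : ℕ} (hd : 4 ≤ d)
    (hdim : finrank F (ι → F) = 2 * d) {K : Subalgebra F (Matrix ι ι F)} (hK : IsFieldSubalgebra 2 K) (hKf : IsSelfAdjointFor (polar Q) K)
    {r : ℕ} [Fact r.Prime] (hΩ : r ∣ (subalgebraNormalizer K).relIndex (omegaGL ⇑Q)) :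
    (∀ x ∈ omegaGL ⇑Q, (∃ z : F, ((x ^ r : GL ι F) : Matrix ι ι F) = z • (1 : Matrix ι ι F)) →
      (∀ z : F, (x : Matrix ι ι F) ≠ z • (1 : Matrix ι ι F)) →
      ∃ g ∈ omegaGL ⇑Q, g⁻¹ * x * g ∈ subalgebraNormalizer K) ↔ r = 2 := by
  classical
  constructor
  · intro hall
    by_contra hr2
    have hr : r.Prime := Fact.out
    have hp : p.Prime := Fact.out
    have ho : Odd r := hr.odd_of_ne_two hr2
    have hgen : GenHyp Q := genHyp_of_two_ne_zero h2
    obtain ⟨Y, ν, hY, hν, hYY, hspan⟩ := exists_gen h2 hK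
    have hν0 : ν ≠ 0 := by rintro rfl; exact hν ⟨0, by ring⟩
    set y : Module.End F (ι → F) := Matrix.toLin' Y with hydef
    have hy : y * y = ν • (1 : Module.End F (ι → F)) := by
      rw [hydef, Module.End.mul_eq_comp, ← Matrix.toLin'_mul, hYY, map_smul, Matrix.toLin'_one]; rfl
    have hya : ∀ u v, polar Q (y u) v = polar Q u (y v) := fun u v => hKf Y hY u v
    have hnt : ∃ v : ι → F, v ≠ 0 := by
      obtain ⟨v, hv⟩ := Nd.exists_Q_ne_zero hQ (by omega)
      exact ⟨v, fun h => hv (by rw [h, QuadraticMap.map_zero])⟩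
    obtain ⟨v0, hv0⟩ := hnt
    -- elements of order `r` commute with a conjugate
    have hall' : ∀ T ∈ O Q, T ^ r = 1 → T ≠ 1 → ∃ g : (ι → F) ≃ₗ[F] (ι → F), g ∈ O Q ∧ ∀ v, (g⁻¹ * T * g) (y v) = y ((g⁻¹ * T * g) v) := by
      intro T hT hTr hT1
      have hTO := mem_Om_odd hQ hgen hT ho hTr
      obtain ⟨g, hg, hmem⟩ := hall (le.symm T) ((mem_omegaGL_iff _).2 (by rw [MulEquiv.apply_symm_apply]; exact hTO))
        ⟨1, by
          have : (le.symm T : GL ι F) ^ r = 1 := by rw [← map_pow, hTr, map_one]
          rw [this, one_smul]; rfl⟩ (by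
          intro z hz
          apply hT1
          have h3 : ∀ v, T v = z • v := by
            intro v
            rw [← le_symm_mulVec, hz, Matrix.smul_mulVec, Matrix.one_mulVec]
          have h4 := scal_sq hQ (by omega) hT h3
          have h5 : ∀ (k : ℕ) v, (T ^ k) v = z ^ k • v := by
            intro k
            induction k with
            | zero => intro v; rw [pow_zero, pow_zero, one_smul]; rfl
            | succ k ih => intro v; rw [pow_succ, LinearEquiv.mul_apply, ih, h3, smul_smul, ← pow_succ]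
          have h6 := h5 r v0
          rw [hTr] at h6
          have h7 : (z ^ r - 1) • v0 = 0 := by rw [sub_smul, ← h6, one_smul]; exact sub_self _
          have h8 : z ^ r = 1 := sub_eq_zero.1 ((smul_eq_zero.1 h7).resolve_right hv0)
          have h9 : z = 1 := by
            rcases mul_self_eq_one_iff.1 h4 with h | h
            · exact h
            · rw [h, ho.neg_one_pow] at h8
              rw [h, h8]
          apply LinearEquiv.ext
          intro v
          rw [h3, h9, one_smul]; rfl)
      rw [mem_norm_iff hY hν hYY hspan h2] at hmem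
      obtain ⟨ε, hε, h3⟩ := hmem
      rw [map_mul, map_mul, map_inv, MulEquiv.apply_symm_apply] at h3
      have hgO : le g ∈ O Q := Om_le ((mem_omegaGL_iff g).1 hg)
      refine ⟨le g, hgO, ?_⟩
      set S := (le g)⁻¹ * T * le g with hS
      have hSr : S ^ r = 1 := by
        have : ∀ k : ℕ, S ^ k = (le g)⁻¹ * T ^ k * le g := by
          intro k
          have := conj_pow (i := k) (a := (le g)⁻¹) (b := T)
          rwa [inv_inv] at this
        rw [this, hTr, mul_one, inv_mul_cancel]
      have h4 : ∀ (k : ℕ) v, (S ^ k) (y v) = ε ^ k • y ((S ^ k) v) := by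
        intro k
        induction k with
        | zero => intro v; rw [pow_zero, pow_zero, one_smul]; rfl
        | succ k ih =>
          intro v
          rw [pow_succ, LinearEquiv.mul_apply, h3, map_smul, ih, smul_smul, LinearEquiv.mul_apply, ← pow_succ']
          rfl
      have h5 : ε ^ r = 1 := by
        have h6 := h4 r v0
        rw [hSr] at h6
        have h7 : (ε ^ r - 1) • y v0 = 0 := by
          rw [sub_smul, one_smul, sub_eq_zero]; exact h6.symm
        have h8 : y v0 ≠ 0 := by
          intro h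
          have h9 : (y * y) v0 = 0 := by rw [Module.End.mul_apply, h, map_zero]
          rw [hy, LinearMap.smul_apply, Module.End.one_apply] at h9
          exact hv0 ((smul_eq_zero.1 h9).resolve_left hν0)
        exact sub_eq_zero.1 ((smul_eq_zero.1 h7).resolve_right h8)
      have h6 : ε = 1 := by
        rcases hε with h | h
        · exact h
        · rw [h, ho.neg_one_pow] at h5
          rw [h, h5]
      intro v
      have := h3 v
      rwa [h6, one_smul] at this
    by_cases hrp : r = p
    · subst hrp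
      obtain ⟨T, hT, hTr, w, hw, hN, hN'⟩ := exists_unip hQ h2 (by omega) r
      have hT1 : T ≠ 1 := by
        rintro rfl
        obtain ⟨v, hv⟩ := hN'
        apply hv
        simp
      obtain ⟨g, -, hg⟩ := hall' T hT hTr hT1
      exact unip_contra hw hN hN' hν hy hg
    -- the semisimple case
    have hne : (r : F) ≠ 0 := by
      intro h
      have := (CharP.cast_eq_zero_iff F p r).1 h
      exact hrp ((Nat.prime_dvd_prime_iff_eq hp hr).1 this).symm
    have hrq : ¬ r ∣ Fintype.card F := by
      obtain ⟨k, -, hk⟩ := FiniteField.card F p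
      intro h
      rw [hk] at h
      exact hrp ((Nat.prime_dvd_prime_iff_eq hr hp).mp (hr.dvd_of_dvd_pow h))
    have hfinV : Finite (ι → F) := inferInstance
    have hfinG : Finite (isometryGroup F ⇑Q) := by
      have h3 : Nat.card (isometryGroup F ⇑Q) = Nat.card (O Q) := ClOrthOrd.card_isometryGroup Q
      have h5 : Finite ↥(O Q) := finite_O Q
      apply Nat.finite_of_card_ne_zero
      rw [h3]
      exact Nat.card_pos.ne'
    have hrel : (subalgebraNormalizer K).relIndex (omegaGL ⇑Q) =
        ((subalgebraNormalizer K).comap (isometryGroup F ⇑Q).subtype).relIndex (Omega F ⇑Q) := by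
      rw [Subgroup.relIndex_comap]; rfl
    rw [hrel] at hΩ
    have hdO : r ∣ Nat.card (O Q) := by
      rw [← ClOrthOrd.card_isometryGroup Q]
      exact (hΩ.trans (Subgroup.relIndex_dvd_card _ _)).trans (Subgroup.card_subgroup_dvd_card _)
    obtain ⟨T0, hT0, hT0E⟩ := exists_one hQ hr ho hne hdO
    obtain ⟨L, iL1, iL2, iL3, φ, hL, hφa, hφc, θ, hθ⟩ := exists_field hν hy (B := polarBilin Q) hya
    have hfL : FiniteDimensional F L := Module.Finite.of_finite
    haveI : FiniteDimensional L (Syn φ) := by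
      haveI : Finite (Syn φ) := hfinV
      exact Module.Finite.of_finite
    haveI : FiniteDimensional F (Syn φ) := inferInstanceAs (FiniteDimensional F (ι → F))
    let B1 : Syn φ →ₗ[F] Syn φ →ₗ[F] F := polarBilin Q
    obtain ⟨BL0, hBL0⟩ := exists_form (AlgHom.id F L) (fun a => rfl) B1 hφa
    let BL : Syn φ →ₗ[L] Syn φ →ₗ[L] L := BL0
    let Q1 : QuadraticForm F (Syn φ) := Q
    have hBL : ∀ (a : L) (u v : Syn φ), Algebra.trace F L (a * BL u v) = polarBilin Q1 (a • u) v := hBL0
    have hadj : ∀ (a : L) (u v : Syn φ), polarBilin Q1 (a • u) v = polarBilin Q1 u (a • v) := hφa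
    -- the isometry with one atom
    let T : (ι → F) ≃ₗ[F] (ι → F) := ofMap hQ T0 hT0.iso
    have hTv : ∀ v, T v = T0 v := fun v => ofMap_apply hQ T0 hT0.iso v
    have hTO : T ∈ O Q := ofMap_mem hQ T0 hT0.iso
    have hTk : ∀ (k : ℕ) v, (T ^ k) v = (T0 ^ k) v := by
      intro k
      induction k with
      | zero => intro v; rfl
      | succ k ih => intro v; rw [pow_succ, LinearEquiv.mul_apply, ih, hTv, pow_succ, Module.End.mul_apply]
    have hcpos : 0 < csz F r := by
      rw [csz_eq]
      have := hT0.pos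
      omega
    have hT1 : T ≠ 1 := by
      intro h
      have h3 : E T0 (1 : F) = ⊤ := by
        rw [eq_top_iff]
        intro v _
        rw [mem_E, ← hTv, h]; rfl
      rw [h3, finrank_top] at hT0E
      omega
    obtain ⟨g, hgO, hg⟩ := hall' T hTO (by
      apply LinearEquiv.ext
      intro v
      rw [hTk, hT0.pow]; rfl) hT1
    set S : (ι → F) ≃ₗ[F] (ι → F) := g⁻¹ * T * g with hS
    have hSO : S ∈ O Q := mul_mem (mul_mem (inv_mem hgO) hTO) hgO
    have hSE : finrank F (E S.toLinearMap (1 : F)) = finrank F (E T0 (1 : F)) := by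
      apply Cfsg.Agent.Lib.SpConj.finrank_E_conj g
      intro v
      show g (g.symm (T (g v))) = _
      rw [LinearEquiv.apply_symm_apply, hTv]
    have hSr : S.toLinearMap ^ r = 1 := by
      apply LinearMap.ext
      intro v
      rw [toEnd_pow]
      have : S ^ r = g⁻¹ * T ^ r * g := by
        have := conj_pow (i := r) (a := g⁻¹) (b := T)
        rwa [inv_inv] at this
      rw [this]
      show g.symm ((T ^ r) (g v)) = v
      rw [hTk, hT0.pow, Module.End.one_apply, LinearEquiv.symm_apply_apply]
    obtain ⟨s, hs⟩ := lin_dim (F := F) (L := L) (V := Syn φ) (B := polarBilin Q1) (BL := BL) hp inferInstance hr hrp ho hBL hadj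
      (fun u v => polar_comm _ _ _) (fun u hu => hQ.eq_zero hu) (S := (S.toLinearMap : Module.End F (ι → F)))
      (fun a v => hφc S.toLinearMap hg a v) (fun u v => O_polar hSO u v) hSr
    have hs' : finrank F (ι → F) = finrank F (E S.toLinearMap (1 : F)) + s * (finrank F L * csz L r) := hs
    rw [hSE, hL] at hs'
    have h10 : csz F r = s * (2 * csz L r) := by omega
    have h11 : csz F r ∣ 2 * csz L r := by
      have := csz_rel (F := F) (L := L) (r := r)
      rwa [hL] at this
    have h12 : csz F r = 2 * csz L r := by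
      apply Nat.dvd_antisymm h11
      rw [h10]; exact dvd_mul_left _ _
    have h13 : 4 ∣ csz F r := by
      obtain ⟨c, hc⟩ := csz_even (F := L) (r := r)
      rw [h12, hc]; exact ⟨c, by ring⟩
    have h14 : 4 ∣ orderOf ((Fintype.card F : ℕ) : ZMod r) := by
      have h15 : csz F r = if Even (orderOf ((Fintype.card F : ℕ) : ZMod r)) then orderOf ((Fintype.card F : ℕ) : ZMod r) else
        2 * orderOf ((Fintype.card F : ℕ) : ZMod r) := rfl
      split_ifs at h15 with h16
      · rw [← h15]; exact h13
      · exfalso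
        rw [h15] at h13
        apply h16
        obtain ⟨c, hc⟩ := h13
        exact ⟨c, by omega⟩
    obtain ⟨X, hX1, hX2⟩ := ratio (F := F) (L := L) (V := Syn φ) (Q := Q1) (BL := BL) h2 hL hQ hBL hadj (d := d) (by omega) hdim hr hrq h14
    -- the centralizer
    let C : Subgroup (isometryGroup F ⇑Q) :=
      { carrier := {x | ∀ v, le (x : GL ι F) (y v) = y (le (x : GL ι F) v)}
        mul_mem' := fun {a b} ha hb v => by
          show le ((a : GL ι F) * (b : GL ι F)) (y v) = y (le ((a : GL ι F) * (b : GL ι F)) v)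
          rw [map_mul, LinearEquiv.mul_apply, LinearEquiv.mul_apply, hb, ha]
        one_mem' := fun v => by
          show le (1 : GL ι F) (y v) = y (le (1 : GL ι F) v)
          rw [map_one]; rfl
        inv_mem' := fun {a} ha v => by
          show le ((a : GL ι F)⁻¹) (y v) = y (le ((a : GL ι F)⁻¹) v)
          rw [map_inv]
          show (le (a : GL ι F)).symm (y v) = y ((le (a : GL ι F)).symm v)
          rw [LinearEquiv.symm_apply_eq, ha, LinearEquiv.apply_symm_apply] }
    have hCN : C ≤ (subalgebraNormalizer K).comap (isometryGroup F ⇑Q).subtype := by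
      intro x hx
      rw [Subgroup.mem_comap, mem_norm_iff hY hν hYY hspan h2]
      exact ⟨1, Or.inl rfl, fun v => by rw [one_smul]; exact hx v⟩
    have hcardC : Nat.card C = Nat.card (O (QL BL)) := by
      rw [← card_lin (F := F) (L := L) (V := Syn φ) (Q := Q1) (BL := BL) h2 hBL hadj]
      let f : C → {g : Syn φ ≃ₗ[F] Syn φ // g ∈ O Q1 ∧ ∀ (a : L) v, g (a • v) = a • g v} := fun x =>
        ⟨le (x.1 : GL ι F), mem_isometryGroup_iff_toLE.1 x.1.2, fun a v => hφc (le (x.1 : GL ι F)).toLinearMap x.2 a v⟩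
      apply Nat.card_congr
      refine Equiv.ofBijective f ⟨?_, ?_⟩
      · intro x x' hxx
        apply Subtype.ext
        apply Subtype.ext
        exact le.injective (congrArg Subtype.val hxx)
      · intro g
        let g' : (ι → F) ≃ₗ[F] (ι → F) := g.1
        refine ⟨⟨⟨le.symm g', mem_isometryGroup_iff_toLE.2 ?_⟩, ?_⟩, ?_⟩
        · rw [toLE_eq, MulEquiv.apply_symm_apply]; exact g.2.1
        · intro v
          show le (le.symm g') (y v) = y (le (le.symm g') v)
          rw [MulEquiv.apply_symm_apply, ← hθ]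
          exact g.2.2 θ v
        · apply Subtype.ext
          show le (le.symm g') = g'
          rw [MulEquiv.apply_symm_apply]
    have hnorm : (Omega F ⇑Q).Normal := by unfold Omega; infer_instance
    refine index_arith (index_Omega_odd hQ h2 (by omega)) hCN hr hr2 hX2 ?_ hΩ
    rw [ClOrthOrd.card_isometryGroup, hcardC]
    exact hX1
  · rintro rfl x hx ⟨z, hz⟩ -
    exact yes_mat h2 hQ (by omega) hdim hK hKf hx hz

end Cfsg.Agent.Lib.OFg
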