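import Cfsg.Agent.Lib.OFldU
import Cfsg.Agent.Lib.PSLField2

set_option autoImplicit false
set_option linter.unusedSectionVars false

/-!
# Field automorphisms of the minus type groups (helper21)
-/

namespace Cfsg.Agent.Lib.OFld

open Matrix QuadraticMap Module
open Cfsg.Agent.Lib.Quad Cfsg.Agent.Lib.ClOrthSiegel Cfsg.Agent.Lib.ClOmega Cfsg.Agent.Lib.POmAut
open Cfsg.Agent.Lib.Descent Cfsg.Agent.Lib.SplitCount
open Cfsg (IsConjUnder splitClassCount)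

variable {F : Type*} [Field F] [Fintype F] {m : ℕ}

theorem minus_main {p f : ℕ} [Fact p.Prime] (hF : Fintype.card F = p ^ f) (hf : 1 ≤ f) (hm : 3 ≤ m) {a b a' b' : F}
    (hab : ∀ z₁ z₂ : F, z₁ ^ 2 + a * z₁ * z₂ + b * z₂ ^ 2 = 0 → z₁ = 0 ∧ z₂ = 0)
    (hab' : ∀ z₁ z₂ : F, z₁ ^ 2 + a' * z₁ * z₂ + b' * z₂ ^ 2 = 0 → z₁ = 0 ∧ z₂ = 0)
    (ψ : Cfsg.POmega F ⇑(quadMinus m F a b) ≃* Cfsg.POmega F ⇑(quadMinus m F a' b'))
    {σ : F ≃+* F} (hσ : σ ≠ 1) (ha' : σ a' = a') (hb' : σ b' = b') (x : MulAut (Cfsg.POmega F ⇑(quadMinus m F a b)))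
    (hφ' : MulAut.congr ψ x = (sg_minus (m := m) ha' hb').fd) {r : ℕ} (hr : r.Prime) (hxr : orderOf x = r)
    (F₀ : Type*) [Field F₀] [Fintype F₀] (hF₀ : Fintype.card F₀ = p ^ (f / r)) :
    Odd r ∧ r ∣ f ∧ (∃ (a₀ b₀ : F₀) (hab0 : ∀ z₁ z₂ : F₀, z₁ ^ 2 + a₀ * z₁ * z₂ + b₀ * z₂ ^ 2 = 0 → z₁ = 0 ∧ z₂ = 0),
      Nonempty (↥(((ev_minus hab hm).eps.ker).map (dg (Q := quadMinus m F a b)) ⊓ Subgroup.centralizer {x}) ≃*
        ↥(((ev_minus hab0 hm).eps.ker).map (dg (Q := quadMinus m F₀ a₀ b₀))))) ∧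
      splitClassCount (((ev_minus hab hm).eps.ker).map (dg (Q := quadMinus m F a b)))
        (Cfsg.Inn (Cfsg.POmega F ⇑(quadMinus m F a b))) x = 1 := by
  have hσr : orderOf σ = r := by
    have hox : orderOf (MulAut.congr ψ x) = r := ((MulAut.congr ψ).orderOf_eq x).trans hxr
    refine (fm_minus hab' hm).order_of_class (sg_minus (m := m) ha' hb') hr hσ (x := MulAut.congr ψ x) (α := 1)
      ?_ hox
    rw [one_mul, inv_one, mul_one, hφ']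
  have hodd := odd_of_fix hab' ha' hb' hr hσr
  obtain ⟨hrf, ι₀, hι⟩ := Lib.FFAut.exists_embedding hF hf hσr hr.pos F₀ hF₀
  obtain ⟨a₀, rfl⟩ := (hι a').1 ha'
  obtain ⟨b₀, rfl⟩ := (hι b').1 hb'
  have hab0 : ∀ z₁ z₂ : F₀, z₁ ^ 2 + a₀ * z₁ * z₂ + b₀ * z₂ ^ 2 = 0 → z₁ = 0 ∧ z₂ = 0 := by
    intro z₁ z₂ h
    have h1 : (ι₀ z₁) ^ 2 + ι₀ a₀ * ι₀ z₁ * ι₀ z₂ + ι₀ b₀ * (ι₀ z₂) ^ 2 = 0 := by
      simp only [← map_pow, ← map_mul, ← map_add, h, map_zero]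
    obtain ⟨h3, h4⟩ := hab' _ _ h1
    exact ⟨(map_eq_zero ι₀).1 h3, (map_eq_zero ι₀).1 h4⟩
  have D := ds_minus (m := m) hι a₀ b₀
  have hx1 : MulAut.congr ψ x = D.toSg.fd := hφ'
  have hn := (fm_minus hab' hm).normal (surj_minus hab' hm)
  refine ⟨hodd, hrf, ⟨a₀, b₀, hab0, ?_⟩, ?_⟩
  · obtain ⟨e⟩ := D.centralizer_fd (ev_minus hab' hm).gd (ev_minus hab0 hm).gd hσr hr.pos
      (P := (ev_minus hab' hm).eps.ker) (P₀ := (ev_minus hab0 hm).eps.ker) (fm_minus hab' hm).sc (fun g => by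
        rw [MonoidHom.mem_ker, MonoidHom.mem_ker, (ev_minus hab' hm).eps_miG D (ev_minus hab0 hm)])
    refine ⟨(centMap (MulAut.congr ψ) _ x).trans ((MulEquiv.subgroupCongr ?_).trans e)⟩
    rw [hx1, minus_psi_map hab hab' hm ψ]
  · rw [← splitClassCount_map (MulAut.congr ψ), minus_psi_map hab hab' hm ψ, inn_map, hx1]
    exact (ev_minus hab' hm).split_of_odd D (ev_minus hab0 hm) (muS_minus hab0 hm) hσr hr.pos hodd

end Cfsg.Agent.Lib.OFld
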