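import Cfsg.Agent.Lib.ON3D
import Cfsg.Agent.Lib.ONOrd
import Cfsg.Agent.Lib.ProjSL

/-!
The triple cover of the O'Nan group as a group of matrices of degree 45 over the field with seven elements (helper57).
-/

set_option autoImplicit false
set_option linter.all false
set_option maxRecDepth 100000

namespace Cfsg.Agent.Lib.ON3

open Subgroup Cfsg.Spor Cfsg.Agent.Lib.H58SM Cfsg.Agent.Lib.ProjCov Cfsg.Agent.Lib.BenesWord
open Cfsg.Agent.Lib.VecP Cfsg.Agent.Lib.ON3D Cfsg.Agent.Lib.CosetGroup Cfsg.Agent.Lib.CoxBridge Cfsg.Agent.Lib.ProjSL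

instance : Fact (Nat.Prime 7) := ⟨by norm_num⟩

/-- the matrix group -/
abbrev GM : Type := (Matrix (Fin 45) (Fin 45) (ZMod 7))ˣ

theorem tab : ∀ c < 8, tabOk P (TB c) = true := fun c hc => alln_iff.1 tab_ok c hc

theorem iv_lt : ∀ c < 8, iv c < 8 := by decide

theorem iv_fix : ∀ i < 6, iv i = i := by decide

theorem iv_ge (c : ℕ) (h : 8 ≤ c) : iv c = c := by
  obtain ⟨d, rfl⟩ : ∃ d, c = d + 8 := ⟨c - 8, by omega⟩
  rfl

theorem iv_iv (c : ℕ) : iv (iv c) = c := by
  by_cases h : c < 8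
  · revert c; decide
  · rw [iv_ge c (by omega), iv_ge c (by omega)]

/-- the matrices -/
def MT (c : ℕ) : Matrix (Fin 45) (Fin 45) (ZMod 7) := Mt P (TB c)

theorem inv_ok (c : ℕ) (hc : c < 8) : Mt P (TB c) * Mt P (TB (iv c)) = 1 := by
  have h := scOk_spec good (by decide) tab (l := [c, iv c]) (z := 1) (by
    intro d hd
    rcases List.mem_cons.1 hd with rfl | hd
    · exact hc
    · rw [List.mem_singleton.1 hd]; exact iv_lt c hc) (alln_iff.1 sq_ok c hc)
  rw [List.map_cons, List.map_cons, List.map_nil, List.prod_cons, List.prod_cons, List.prod_nil, mul_one] at h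
  rw [h, Nat.cast_one, map_one]

theorem lets_ok : (ONRel.coxW ++ ONRel.extraW).all (CoxBridge.lets 7) = true := by decide +kernel

theorem lets_of {W : Wd} (h : W ∈ ONRel.coxW ++ ONRel.extraW) : ∀ c ∈ W.flat iv, c < 8 :=
  letters_flat' (by norm_num) iv_lt (List.all_eq_true.1 lets_ok W h)

theorem off_ok : MT 3 0 1 ≠ 0 ∨ MT 3 0 2 ≠ 0 ∨ MT 3 0 3 ≠ 0 ∨ MT 3 0 4 ≠ 0 := by decide +kernel

/-- the presented group -/
abbrev Go : Type := CoxPresented ON.Gen ON.edges ON.extra

theorem card_Go : Nat.card Go = 460815505920 := ONOrd.main.2.1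

instance finGo : Finite Go := Nat.finite_of_card_ne_zero (by rw [card_Go]; norm_num)

theorem nonab : ¬ ∀ a b : Go, a * b = b * a := by
  intro h3
  haveI := ONOrd.main.1
  letI : CommGroup Go := { (inferInstance : Group Go) with mul_comm := h3 }
  have h5 : (Nat.card Go).Prime := IsSimpleGroup.prime_card
  rw [card_Go] at h5
  revert h5
  norm_num

theorem perfect_Go : commutator Go = ⊤ := StemDbl.perfect_of_simple ONOrd.main.1 nonab

theorem center_Go : center Go = ⊥ := by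
  haveI := ONOrd.main.1
  rcases IsSimpleGroup.eq_bot_or_eq_top_of_normal (center Go) inferInstance with h | h
  · exact h
  · exfalso
    apply nonab
    intro a b
    have : b ∈ center Go := by rw [h]; trivial
    exact mem_center_iff.1 this a

theorem two_cube : ((2 : ℕ) : ZMod 7) ^ 3 = 1 := by decide
theorem two_ne : ((2 : ℕ) : ZMod 7) ≠ 0 := by decide
theorem two_ne1 : ((2 : ℕ) : ZMod 7) ≠ 1 := by decide

/-- the value of a word in units -/
theorem val_of {x : ℕ → GM} (hx8 : ∀ c < 8, (x c : Matrix (Fin 45) (Fin 45) (ZMod 7)) = MT c) {l : List ℕ}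
    (hl : ∀ c ∈ l, c < 8) {z : ℕ} (h : scOk P TB z l = true) :
    (((l.map x).prod : GM) : Matrix (Fin 45) (Fin 45) (ZMod 7)) = Matrix.scalar (Fin 45) ((z : ℕ) : ZMod 7) := by
  have h1 := VecP.prod_val (P := P) (TB := TB) (k := 8) (x := x) hx8 hl
  rw [scOk_spec good (by decide) tab hl h] at h1
  exact h1

/-- the projective representation -/
theorem exists_phi : ∃ (x : ℕ → GM) (φ : Go →* GM ⧸ SE (ZMod 7) 45 3),
    (∀ c < 8, (x c : Matrix (Fin 45) (Fin 45) (ZMod 7)) = MT c) ∧ (∀ c, 8 ≤ c → x c = 1) ∧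
    (∀ c, x (iv c) = (x c)⁻¹) ∧ (∀ c < 7, φ (PresentedGroup.of (ONRel.C.gen c)) = QuotientGroup.mk' _ (x c)) ∧
    Function.Injective φ := by
  obtain ⟨x, hx8', hx1, hinv⟩ : ∃ x : ℕ → GM, (∀ c < 8, (x c : Matrix (Fin 45) (Fin 45) (ZMod 7)) = MT c) ∧
      (∀ c, 8 ≤ c → x c = 1) ∧ ∀ c, x (iv c) = (x c)⁻¹ := VecP.exists_units (P := P) (TB := TB) (k := 8) (iv := iv) iv_lt
    (fun c hc => by rw [iv_ge c hc]; exact hc) iv_iv inv_ok
  have one_mem' : ∀ {l : List ℕ}, (∀ c ∈ l, c < 8) → scOk P TB 1 l = true → (l.map x).prod ∈ SE (ZMod 7) 45 3 := by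
    intro l hl h
    have h1 := val_of hx8' hl h
    rw [Nat.cast_one] at h1
    exact mem_SE (by rw [one_pow]) one_ne_zero h1
  have two_mem' : ∀ {l : List ℕ}, (∀ c ∈ l, c < 8) → scOk P TB 2 l = true → (l.map x).prod ∈ SE (ZMod 7) 45 3 := by
    intro l hl h
    exact mem_SE two_cube two_ne (val_of hx8' hl h)
  have hcox : ∀ W ∈ ONRel.coxW, ((W.flat iv).map x).prod ∈ SE (ZMod 7) 45 3 := fun W hW =>
    one_mem' (lets_of (List.mem_append_left _ hW)) (List.all_eq_true.1 cox_ok W hW)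
  have hext : ∀ W ∈ ONRel.extraW, ((W.flat iv).map x).prod ∈ SE (ZMod 7) 45 3 := by
    intro W hW
    have hl := lets_of (List.mem_append_right _ hW)
    rw [← List.take_append_drop 4 ONRel.extraW] at hW
    rcases List.mem_append.1 hW with h | h
    · exact one_mem' hl (List.all_eq_true.1 ext4_ok W h)
    · exact two_mem' hl (List.all_eq_true.1 ext3_ok W h)
  have hsq : ∀ i < 6, x i * x i = 1 := by
    intro i hi
    have h1 := hinv i
    have h2 : iv i = i := iv_fix i hi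
    rw [h2] at h1
    nth_rw 1 [h1]
    exact inv_mul_cancel _
  obtain ⟨φ, hφ⟩ := ONRel.C.hom (fun c => QuotientGroup.mk' (SE (ZMod 7) 45 3) (x c))
    (by
      intro i hi
      show QuotientGroup.mk' (SE (ZMod 7) 45 3) (x i) * QuotientGroup.mk' (SE (ZMod 7) 45 3) (x i) = 1
      have h1 := (map_mul (QuotientGroup.mk' (SE (ZMod 7) 45 3)) (x i) (x i)).symm
      rw [h1, hsq i hi, map_one])
    (by intro W hW; exact eval_mem' hinv (hcox W hW))
    (by intro W hW; exact eval_mem' hinv (hext W hW))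
  refine ⟨x, φ, hx8', hx1, hinv, hφ, ?_⟩
  rw [← MonoidHom.ker_eq_bot_iff]
  rcases ONOrd.main.1.eq_bot_or_eq_top_of_normal φ.ker inferInstance with h | h
  · exact h
  exfalso
  have h3 : PresentedGroup.of (ONRel.C.gen 3) ∈ φ.ker := by rw [h]; trivial
  rw [MonoidHom.mem_ker, hφ 3 (by decide)] at h3
  have h4 : x 3 ∈ SE (ZMod 7) 45 3 := (QuotientGroup.eq_one_iff _).1 h3
  obtain ⟨z, hz, h5⟩ := mem_SC.1 (SE_le 3 h4)
  rw [hx8' 3 (by norm_num)] at h5
  have h6 : ∀ j : Fin 45, (0 : Fin 45) ≠ j → MT 3 0 j = 0 := by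
    intro j hj
    rw [h5, Matrix.scalar_apply, Matrix.diagonal_apply_ne _ hj]
  rcases off_ok with h | h | h | h
  · exact h (h6 1 (by decide))
  · exact h (h6 2 (by decide))
  · exact h (h6 3 (by decide))
  · exact h (h6 4 (by decide))

theorem card_pow3 : Nat.card (powMonoidHom 3 : (ZMod 7)ˣ →* (ZMod 7)ˣ).ker = 3 := by
  rw [Nat.card_eq_fintype_card]
  decide

/-- the extension -/
theorem exists_ext : ∃ (Q : Subgroup GM) (σ : commutator Q →* Go), Function.Surjective σ ∧ σ.ker ≤ center _ ∧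
    Nat.card σ.ker = 3 := by
  obtain ⟨x, φ, hx8, hx1, hinv, hφ, hinj⟩ := exists_phi
  haveI : Finite GM := inferInstance
  have hxm : ∀ c, x c ∈ PG φ := by
    intro c
    by_cases hc : c < 7
    · exact ⟨_, hφ c hc⟩
    by_cases h7 : c = 7
    · subst h7
      have h1 : x 7 = (x 6)⁻¹ := hinv 6
      rw [h1]
      exact inv_mem ⟨_, hφ 6 (by norm_num)⟩
    · rw [hx1 c (by omega)]; exact one_mem _
  let y : ℕ → PG φ := fun c => ⟨x c, hxm c⟩
  refine ⟨PG φ, sK φ hinj, sK_surj φ hinj perfect_Go, sK_central φ hinj (SE_center 3), ?_⟩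
  have hle : Nat.card (sK φ hinj).ker ≤ 3 :=
    (sK_card φ hinj).trans ((SE_card 3).trans card_pow3.le)
  have hall : ∀ t : PG φ, t ∈ TT (PG φ) 3 := TT_all φ hinj perfect_Go fun s hs => SE_pow hs
  have hyi : ∀ c, y (iv c) = (y c)⁻¹ := fun c => Subtype.ext (hinv c)
  have hsq : ∀ i < 6, y i * y i = 1 := by
    intro i hi
    have h1 := hyi i
    have h2 : iv i = i := iv_fix i hi
    rw [h2] at h1
    nth_rw 1 [h1]
    exact inv_mul_cancel _
  have hy6 : ∀ c < 6, y c ∈ commutator (PG φ) := by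
    intro c hc
    have h5 : y c ∈ TT (PG φ) (Nat.gcd 2 3) := TT_gcd (TT_pow (by rw [pow_two, hsq c hc])) (hall (y c))
    have e : Nat.gcd 2 3 = 1 := by norm_num
    rw [e] at h5
    rw [← TT_one]
    exact h5
  -- the relation a f = g ^ 2
  have hg2 : y 6 * y 6 ∈ commutator (PG φ) := by
    have hW : (Wd.mul (Wd.mul (Wd.g 0) (Wd.g 5)) (Wd.inv (Wd.pow (Wd.g 6) 2))) ∈ ONRel.extraW := by
      rw [ONRel.extraW]; exact List.mem_cons_self
    have h1 := val_of hx8 (lets_of (List.mem_append_right _ hW)) (List.all_eq_true.1 ext4_ok _ (by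
      rw [ONRel.extraW]; exact List.mem_cons_self))
    rw [Nat.cast_one, map_one] at h1
    have h2 : (((Wd.mul (Wd.mul (Wd.g 0) (Wd.g 5)) (Wd.inv (Wd.pow (Wd.g 6) 2))).flat iv).map x).prod = (1 : GM) :=
      Units.ext h1
    rw [Wd.eval_flat x iv hinv] at h2
    have h3 : x 0 * x 5 * (x 6 ^ 2)⁻¹ = 1 := h2
    have h4 : y 6 * y 6 = y 0 * y 5 := by
      apply Subtype.ext
      show x 6 * x 6 = x 0 * x 5
      rw [← pow_two]
      exact (mul_inv_eq_one.1 h3).symm
    rw [h4]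
    exact mul_mem (hy6 0 (by norm_num)) (hy6 5 (by norm_num))
  have hy7 : ∀ c < 7, y c ∈ commutator (PG φ) := by
    intro c hc
    by_cases h6 : c < 6
    · exact hy6 c h6
    obtain rfl : c = 6 := by omega
    have h5 : y 6 ∈ TT (PG φ) 2 := by
      rw [mem_TT, pow_two, ← map_mul]
      have := hg2
      rw [← Abelianization.ker_of, MonoidHom.mem_ker] at this
      exact this
    have h6 := TT_gcd h5 (hall (y 6))
    have e : Nat.gcd 2 3 = 1 := by norm_num
    rw [e] at h6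
    rw [← TT_one]
    exact h6
  have hyc : ∀ c < 8, y c ∈ commutator (PG φ) := by
    intro c hc
    by_cases h7 : c < 7
    · exact hy7 c h7
    obtain rfl : c = 7 := by omega
    have : y 7 = (y 6)⁻¹ := hyi 6
    rw [this]
    exact inv_mem (hy7 6 (by norm_num))
  -- the central element
  have hWm : (Wd.pow (Wd.mul (Wd.mul (Wd.mul (Wd.g 1) (Wd.g 2)) (Wd.g 3)) (Wd.g 6)) 5) ∈ ONRel.extraW.drop 4 := by
    rw [ONRel.extraW]; exact List.mem_cons_self
  have hWm' : (Wd.pow (Wd.mul (Wd.mul (Wd.mul (Wd.g 1) (Wd.g 2)) (Wd.g 3)) (Wd.g 6)) 5) ∈ ONRel.extraW := List.mem_of_mem_drop hWm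
  generalize (Wd.pow (Wd.mul (Wd.mul (Wd.mul (Wd.g 1) (Wd.g 2)) (Wd.g 3)) (Wd.g 6)) 5) = W0 at hWm hWm'
  have hwl : ∀ c ∈ W0.flat iv, c < 8 := lets_of (List.mem_append_right _ hWm')
  have hwv := val_of hx8 hwl (List.all_eq_true.1 ext3_ok W0 hWm)
  have hval : ((((W0.flat iv).map y).prod : PG φ) : GM) = ((W0.flat iv).map x).prod := by
    have := map_list_prod (PG φ).subtype ((W0.flat iv).map y)
    rw [List.map_map] at this
    exact this
  have hzS : ((((W0.flat iv).map y).prod : PG φ) : GM) ∈ SE (ZMod 7) 45 3 := by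
    rw [hval]
    exact mem_SE two_cube two_ne hwv
  have hc3 : ((W0.flat iv).map y).prod ∈ commutator (PG φ) := by
    apply Subgroup.list_prod_mem
    intro t ht
    obtain ⟨c, hc, rfl⟩ := List.mem_map.1 ht
    exact hyc c (hwl c hc)
  have hker : (⟨_, hc3⟩ : commutator (PG φ)) ∈ (sK φ hinj).ker := (sK_eq_one φ hinj _).2 hzS
  have hne : (⟨⟨_, hc3⟩, hker⟩ : (sK φ hinj).ker) ≠ 1 := by
    intro h
    have h1 : ((W0.flat iv).map y).prod = 1 := congrArg Subtype.val (congrArg Subtype.val h)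
    have h5 : (((W0.flat iv).map x).prod : GM) = 1 := by rw [← hval, h1]; rfl
    rw [h5, Units.val_one] at hwv
    have h6 := congrFun (congrFun hwv 0) 0
    rw [Matrix.scalar_apply, Matrix.diagonal_apply_eq, Matrix.one_apply_eq] at h6
    exact two_ne1 h6.symm
  have hcube : (⟨⟨_, hc3⟩, hker⟩ : (sK φ hinj).ker) ^ 3 = 1 := by
    apply Subtype.ext
    apply Subtype.ext
    apply Subtype.ext
    exact SE_pow hzS
  have ho : orderOf (⟨⟨_, hc3⟩, hker⟩ : (sK φ hinj).ker) = 3 := orderOf_eq_prime hcube hne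
  have hd : 3 ∣ Nat.card (sK φ hinj).ker := by
    have h8 := orderOf_dvd_natCard (⟨⟨_, hc3⟩, hker⟩ : (sK φ hinj).ker)
    rwa [ho] at h8
  have hpos : 0 < Nat.card (sK φ hinj).ker := Nat.card_pos
  exact le_antisymm hle (Nat.le_of_dvd hpos hd)

/-- the triple cover inside the special linear group -/
theorem main : ∃ H : Subgroup (Matrix.SpecialLinearGroup (Fin 45) (ZMod 7)), Nat.card (Subgroup.center H) = 3 ∧
    IsSimpleGroup (H ⧸ Subgroup.center H) ∧ Nat.card (H ⧸ Subgroup.center H) = 460815505920 := by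
  obtain ⟨Q, σ, hs, hk, hc⟩ := exists_ext
  obtain ⟨H, ⟨e⟩⟩ := exists_SL Q
  have hs' : Function.Surjective (σ.comp e.toMonoidHom) := hs.comp e.surjective
  have hk' : (σ.comp e.toMonoidHom).ker ≤ center H := by
    intro h hh
    have h1 : e h ∈ center _ := hk hh
    rw [mem_center_iff]
    intro g
    apply e.injective
    rw [map_mul, map_mul]
    exact mem_center_iff.1 h1 (e g)
  have hcard : Nat.card (σ.comp e.toMonoidHom).ker = 3 := by
    rw [← hc]
    refine Nat.card_congr ⟨fun x => ⟨e x, x.2⟩, fun y => ⟨e.symm y, ?_⟩, ?_, ?_⟩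
    · show σ (e (e.symm y)) = 1
      rw [e.apply_symm_apply]
      exact y.2
    · intro x
      exact Subtype.ext (e.symm_apply_apply _)
    · intro y
      exact Subtype.ext (e.apply_symm_apply _)
  refine ⟨H, ?_, ?_⟩
  · rw [center_of _ hs' hk' center_Go, hcard]
  · obtain ⟨f⟩ := quot_of _ hs' hk' center_Go
    refine ⟨?_, ?_⟩
    · haveI := ONOrd.main.1
      exact f.isSimpleGroup
    · rw [Nat.card_congr f.toEquiv]
      exact card_Go

end Cfsg.Agent.Lib.ON3
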