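import Cfsg.Agent.Lib.ONScott

/-!
The core of the O'Nan-Scott theorem, abstract form (helper12).
-/

set_option autoImplicit false

namespace Cfsg.Agent.Lib.ONCore

open Cfsg.Agent.Lib.ONScott

variable {ι : Type*} [Finite ι] {T : Type*} [Group T] [Finite T] [IsSimpleGroup T]

/-- sets of coordinates invariant under all the permutations are trivial. -/
theorem invariant_set (hT : ¬ ∀ a b : T, a * b = b * a) (S : Set (MulAut (ι → T)))
    (hmin : ∀ X : Subgroup (ι → T), X.Normal → (∀ φ ∈ S, ∀ x ∈ X, φ x ∈ X) → X = ⊥ ∨ X = ⊤)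
    (J : Set ι) (hJ : J.Nonempty)
    (hinv : ∀ φ ∈ S, ∀ (τ : Equiv.Perm ι) (θ : ι → MulAut T), (∀ x j, φ x j = θ j (x (τ j))) →
      ∀ j, j ∈ J → τ j ∈ J) : J = Set.univ := by
  classical
  let X : Subgroup (ι → T) :=
    { carrier := {x | ∀ j ∈ J, x j = 1}
      one_mem' := fun j _ => rfl
      mul_mem' := fun {x y} hx hy j hj => by rw [Pi.mul_apply, hx j hj, hy j hj, mul_one]
      inv_mem' := fun {x} hx j hj => by rw [Pi.inv_apply, hx j hj, inv_one] }
  have hXn : X.Normal := by
    constructor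
    intro x hx g j hj
    rw [Pi.mul_apply, Pi.mul_apply, hx j hj, mul_one, Pi.inv_apply, mul_inv_cancel]
  have hX := hmin X hXn (fun φ hφ x hx => by
      obtain ⟨τ, θ, h⟩ := aut_form hT φ
      intro j hj
      rw [h, hx _ (hinv φ hφ τ θ h j hj), map_one])
  obtain ⟨t, ht⟩ := exists_ne (1 : T)
  rcases hX with h | h
  · rw [Set.eq_univ_iff_forall]
    intro i
    by_contra hi
    have h1 : (Pi.mulSingle i t : ι → T) ∈ X := by
      intro j hj
      have hji : j ≠ i := by rintro rfl; exact hi hj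
      rw [Pi.mulSingle_eq_of_ne hji]
    rw [h, Subgroup.mem_bot] at h1
    have h2 := congrFun h1 i
    rw [Pi.mulSingle_eq_same] at h2
    exact ht h2
  · exfalso
    obtain ⟨j, hj⟩ := hJ
    have h1 : (Pi.mulSingle j t : ι → T) ∈ X := h ▸ Subgroup.mem_top _
    have h2 := h1 j hj
    rw [Pi.mulSingle_eq_same] at h2
    exact ht h2

theorem core [Nonempty ι] (hT : ¬ ∀ a b : T, a * b = b * a) (S : Set (MulAut (ι → T)))
    (hmin : ∀ X : Subgroup (ι → T), X.Normal → (∀ φ ∈ S, ∀ x ∈ X, φ x ∈ X) → X = ⊥ ∨ X = ⊤)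
    (M : Subgroup (ι → T)) (hM : M ≠ ⊤) (hMinv : ∀ φ ∈ S, ∀ x ∈ M, φ x ∈ M)
    (hmax : ∀ X : Subgroup (ι → T), M ≤ X → (∀ φ ∈ S, ∀ x ∈ X, φ x ∈ X) → X = M ∨ X = ⊤) :
    (∃ K : ι → Subgroup T, (∀ i, K i ≠ ⊤) ∧ ∀ x, x ∈ M ↔ ∀ i, x i ∈ K i) ∨
    (∃ (β : ι → MulAut T) (k : ℕ) (c : ι → ι), 2 ≤ k ∧
      (∀ j, Nat.card {i // c i = j} = k ∨ Nat.card {i // c i = j} = 0) ∧
      ∀ x, x ∈ M ↔ ∀ i j, c i = c j → β i (x i) = β j (x j)) := by
  classical
  have hMsurj : ∀ φ ∈ S, ∀ y ∈ M, ∃ x ∈ M, φ x = y := by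
    intro φ hφ y hy
    let f : M → M := fun x => ⟨φ x, hMinv φ hφ x x.2⟩
    have hf : Function.Injective f := fun a b hab =>
      Subtype.ext (φ.injective (congrArg Subtype.val hab))
    obtain ⟨x, hx⟩ := Finite.injective_iff_surjective.mp hf ⟨y, hy⟩
    exact ⟨x, x.2, congrArg Subtype.val hx⟩
  let K : ι → Subgroup T := fun i => M.map (Pi.evalMonoidHom (fun _ : ι => T) i)
  have hK : ∀ i t, t ∈ K i ↔ ∃ x ∈ M, x i = t := fun i t => Iff.rfl
  let R : Subgroup (ι → T) := Subgroup.pi Set.univ K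
  have hR : ∀ x, x ∈ R ↔ ∀ i, x i ∈ K i := by
    intro x
    rw [Subgroup.mem_pi]
    exact ⟨fun h i => h i (Set.mem_univ i), fun h i _ => h i⟩
  have hMR : M ≤ R := fun x hx => (hR x).mpr (fun i => (hK i _).mpr ⟨x, hx, rfl⟩)
  have hRinv : ∀ φ ∈ S, ∀ x ∈ R, φ x ∈ R := by
    intro φ hφ x hx
    obtain ⟨τ, θ, h⟩ := aut_form hT φ
    rw [hR] at hx ⊢
    intro j
    obtain ⟨y, hy, hyx⟩ := (hK _ _).mp (hx (τ j))
    rw [hK]
    exact ⟨φ y, hMinv φ hφ y hy, by rw [h, h, hyx]⟩
  rcases hmax R hMR hRinv with hcase | hcase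
  · left
    refine ⟨K, ?_, fun x => by rw [← hR, hcase]⟩
    have hJ := invariant_set hT S hmin {j | K j ≠ ⊤} (by
      by_contra hemp
      rw [Set.not_nonempty_iff_eq_empty] at hemp
      apply hM
      rw [← hcase, eq_top_iff]
      intro x _
      rw [hR]
      intro i
      have : K i = ⊤ := by
        by_contra hne
        have : i ∈ {j | K j ≠ ⊤} := hne
        rw [hemp] at this
        exact this
      rw [this]; exact Subgroup.mem_top _) (by
      intro φ hφ τ θ h j hj htop
      apply hj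
      rw [eq_top_iff]
      intro t _
      have h1 : (θ j)⁻¹ t ∈ K (τ j) := by rw [htop]; exact Subgroup.mem_top _
      obtain ⟨y, hy, hyt⟩ := (hK _ _).mp h1
      rw [hK]
      exact ⟨φ y, hMinv φ hφ y hy, by rw [h, hyt]; exact (θ j).apply_symm_apply t⟩)
    intro i
    have : i ∈ {j | K j ≠ ⊤} := by rw [hJ]; exact Set.mem_univ i
    exact this
  · right
    have hsub : ∀ (i : ι) (t : T), ∃ x ∈ M, x i = t := by
      intro i t
      rw [← hK]
      have h1 : (Pi.mulSingle i t : ι → T) ∈ R := by rw [hcase]; exact Subgroup.mem_top _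
      have h2 := (hR _).mp h1 i
      rwa [Pi.mulSingle_eq_same] at h2
    obtain ⟨r, β, hrr, hr2, hβ1, hmem⟩ := scott hT hsub
    obtain ⟨i0⟩ : Nonempty ι := inferInstance
    have hJ := invariant_set hT S hmin {j | Nat.card {i // r i = r j} = Nat.card {i // r i = r i0}}
      ⟨i0, rfl⟩ (by
      intro φ hφ τ θ h j hj
      have hiff : ∀ i i' : ι, r i = r i' ↔ r (τ i) = r (τ i') := by
        intro i i'
        rw [hr2, hr2]
        constructor
        · intro h1 x hx hxi
          have h2 := h1 (φ x) (hMinv φ hφ x hx) (by rw [h, hxi, map_one])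
          rw [h] at h2
          exact (map_eq_one_iff _ (θ i').injective).mp h2
        · intro h1 x hx hxi
          obtain ⟨y, hy, rfl⟩ := hMsurj φ hφ x hx
          rw [h] at hxi ⊢
          rw [h1 y hy ((map_eq_one_iff _ (θ i).injective).mp hxi), map_one]
      show Nat.card {i // r i = r (τ j)} = Nat.card {i // r i = r i0}
      have hj' : Nat.card {i // r i = r j} = Nat.card {i // r i = r i0} := hj
      rw [← hj']
      symm
      exact Nat.card_congr (Equiv.subtypeEquiv τ (fun i => hiff i j)))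
    have hJ' : ∀ j, Nat.card {i // r i = r j} = Nat.card {i // r i = r i0} := by
      intro j
      have : j ∈ {j | Nat.card {i // r i = r j} = Nat.card {i // r i = r i0}} := by
        rw [hJ]; exact Set.mem_univ j
      exact this
    refine ⟨β, Nat.card {i // r i = r i0}, r, ?_, ?_, ?_⟩
    · by_contra hlt
      apply hM
      have hri : ∀ i, r i = i := by
        intro i
        have h1 : Nat.card {l // r l = r i} ≤ 1 := by rw [hJ']; omega
        rw [Finite.card_le_one_iff_subsingleton] at h1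
        exact congrArg Subtype.val (h1.elim (⟨r i, hrr i⟩ : {l // r l = r i}) ⟨i, rfl⟩)
      rw [eq_top_iff]
      intro x _
      rw [hmem]
      intro i
      rw [hri i, hβ1 i (hri i)]; rfl
    · intro j
      by_cases hj : ∃ i, r i = j
      · left
        obtain ⟨i, rfl⟩ := hj
        exact hJ' i
      · right
        push Not at hj
        have : IsEmpty {i // r i = j} := ⟨fun i => hj i.1 i.2⟩
        exact Nat.card_of_isEmpty
    · intro x
      rw [hmem]
      constructor
      · intro h i j hij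
        rw [← h i, ← h j, hij]
      · intro h i
        have h1 := h i (r i) (hrr i).symm
        rw [hβ1 (r i) (hrr i)] at h1
        exact h1.symm

end Cfsg.Agent.Lib.ONCore
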