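import Cfsg.Agent.Lib.ONJB

set_option autoImplicit false
set_option linter.all false
set_option maxRecDepth 100000
set_option Elab.async false

namespace Cfsg.Agent.Lib.ONJP3
open Cfsg.Spor Cfsg.Agent.Lib.BenesPerm Cfsg.Agent.Lib.BenesAct Cfsg.Agent.Lib.BenesWord
open Cfsg.Agent.Lib.BenesPlane Cfsg.Agent.Lib.CosetClosure Cfsg.Agent.Lib.CosetFacts
open Cfsg.Agent.Lib.CosetMain Cfsg.Agent.Lib.CoxBridge Cfsg.Agent.Lib.CosetGroup Cfsg.Agent.Lib.CosetInst Cfsg.Agent.Lib.CosetInj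
open Cfsg.Agent.Lib.BenesPack Cfsg.Agent.Lib.CosetPack Cfsg.Agent.Lib.CosetChain Cfsg.Agent.Lib.CosetWide Cfsg.Agent.Lib.CosetWide2
open Cfsg.Agent.Lib.ONRel Cfsg.Agent.Lib.ONWN0 Cfsg.Agent.Lib.ONWN1 Cfsg.Agent.Lib.ONWB Cfsg.Agent.Lib.ONJN Cfsg.Agent.Lib.ONJB

theorem plj15 : plK netsJ 17 15 eqsJ = true := by decide +kernel
theorem plj16 : plK netsJ 17 16 eqsJ = true := by decide +kernel

end Cfsg.Agent.Lib.ONJP3
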