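import Cfsg.Agent.Lib.ONJP0
import Cfsg.Agent.Lib.ONJP1
import Cfsg.Agent.Lib.ONJP2
import Cfsg.Agent.Lib.ONJP3
import Cfsg.Agent.Lib.ONOrd
import Cfsg.Agent.Lib.J1POrd
import Cfsg.Agent.Lib.M11POrd

set_option autoImplicit false
set_option linter.all false
set_option maxRecDepth 100000
set_option Elab.async false

namespace Cfsg.Agent.Lib.ONJ
open Cfsg.Spor Cfsg.Agent.Lib.BenesPerm Cfsg.Agent.Lib.BenesAct Cfsg.Agent.Lib.BenesWord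
open Cfsg.Agent.Lib.CoxBridge Cfsg.Agent.Lib.CosetGroup Cfsg.Agent.Lib.CosetInst
open Cfsg.Agent.Lib.CosetChain Cfsg.Agent.Lib.CosetWide Cfsg.Agent.Lib.CosetWide2 Cfsg.Agent.Lib.CosetOrder
open Cfsg.Agent.Lib.ONRel Cfsg.Agent.Lib.ONWB Cfsg.Agent.Lib.ONW Cfsg.Agent.Lib.ONJN Cfsg.Agent.Lib.ONJB Cfsg.Agent.Lib.ONJP0 Cfsg.Agent.Lib.ONJP1 Cfsg.Agent.Lib.ONJP2 Cfsg.Agent.Lib.ONJP3

/-- the presented group -/
abbrev G : Type := CoxPresented ON.Gen ON.edges ON.extra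

/-- its letters -/
noncomputable abbrev xx (c : ℕ) : G := C.x L0 c

theorem j_nets : netsCheck (2 ^ 17) netsJ = true := by decide +kernel
theorem c_plj : ∀ b, b < 17 → plK netsJ 17 b eqsJ = true := by
  intro b hb
  interval_cases b
  · exact plj0
  · exact plj1
  · exact plj2
  · exact plj3
  · exact plj4
  · exact plj5
  · exact plj6
  · exact plj7
  · exact plj8
  · exact plj9
  · exact plj10
  · exact plj11
  · exact plj12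
  · exact plj13
  · exact plj14
  · exact plj15
  · exact plj16

theorem lane_invJ : ∀ c, sperm netsJ (ivj c) = (sperm netsJ c)⁻¹ :=
  lane_iv (nc := 16) j_nets rfl (fun c hc => ivOf_ge _ hc) c_plj j_inv_sub

theorem lane_j : ∀ W ∈ jrels, W.eval (sperm netsJ) = 1 := lane_rel j_nets lane_invJ c_plj j_rel_sub

theorem sperm_low {c : ℕ} (hc : c < 8) : sperm netsJ c = sperm nets c := by
  have hj : ∀ c, (netOf netsJ c).OK := fun c => Net.ok_of_check (check_netOf j_nets c)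
  have hn : ∀ c, (netOf nets c).OK := fun c => Net.ok_of_check (check_netOf ONWS.c_nets c)
  ext i
  rw [sperm_apply hj, sperm_apply hn]
  interval_cases c <;> rfl

/-- first involution -/
noncomputable def a1 : G := xx 3 * xx 2 * xx 6 * xx 3 * xx 4 * xx 1 * xx 2 * xx 3 * xx 2 * xx 1 * xx 2 * xx 3 * xx 2 * xx 1 * xx 4 * xx 3 * xx 7 * xx 2 * xx 3
/-- element of order 3 -/
noncomputable def b1 : G := xx 1 * xx 2
/-- second involution -/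
noncomputable def c1 : G := b1 * a1 * b1⁻¹
/-- third involution -/
noncomputable def h1 : G := b1⁻¹ * a1 * b1 * a1 * b1⁻¹ * a1 * b1 * a1 * b1⁻¹ * a1 * b1⁻¹ * a1 * b1 * a1 * b1 * a1 * b1⁻¹ * a1 * b1⁻¹ * a1 * b1 * a1 * b1 * a1 * b1⁻¹ * a1 * b1 * a1 * b1⁻¹ * a1 * b1
/-- first involution of M11 -/
noncomputable def a2 : G := xx 4 * xx 2 * xx 3 * xx 1 * xx 2 * xx 3 * xx 1 * xx 7 * xx 4 * xx 1 * xx 2 * xx 3 * xx 2 * xx 1 * xx 0 * xx 1 * xx 2 * xx 3 * xx 2 * xx 1 * xx 4 * xx 6 * xx 1 * xx 3 * xx 2 * xx 1 * xx 3 * xx 2 * xx 4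
/-- second involution of M11 -/
noncomputable def c2 : G := xx 6 * a2 * (xx 6)⁻¹
/-- third involution of M11 -/
noncomputable def h2 : G := xx 6 * a2 * (xx 6)⁻¹ * a2 * (xx 6)⁻¹ * a2 * xx 6 * a2 * xx 6 * a2 * (xx 6)⁻¹

section
variable {φ : G →* Equiv.Perm ℕ} (hφ : ∀ c, φ (C.x L0 c) = sperm nets c)
include hφ

theorem phi_low {c : ℕ} (hc : c < 8) : φ (xx c) = sperm netsJ c := by
  rw [sperm_low hc]; exact hφ c


theorem phi_a1 : φ a1 = sperm netsJ 8 := by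
  have h : (Wd.g 8).eval (sperm netsJ) = ((Wd.mul (Wd.mul (Wd.mul (Wd.mul (Wd.mul (Wd.mul (Wd.mul (Wd.mul (Wd.mul (Wd.mul (Wd.mul (Wd.mul (Wd.mul (Wd.mul (Wd.mul (Wd.mul (Wd.mul (Wd.mul (Wd.g 3) (Wd.g 2)) (Wd.g 6)) (Wd.g 3)) (Wd.g 4)) (Wd.g 1)) (Wd.g 2)) (Wd.g 3)) (Wd.g 2)) (Wd.g 1)) (Wd.g 2)) (Wd.g 3)) (Wd.g 2)) (Wd.g 1)) (Wd.g 4)) (Wd.g 3)) (Wd.g 7)) (Wd.g 2)) (Wd.g 3))).eval (sperm netsJ) :=
    inv_mul_eq_one.mp (lane_j ((Wd.mul (Wd.inv (Wd.g 8)) (Wd.mul (Wd.mul (Wd.mul (Wd.mul (Wd.mul (Wd.mul (Wd.mul (Wd.mul (Wd.mul (Wd.mul (Wd.mul (Wd.mul (Wd.mul (Wd.mul (Wd.mul (Wd.mul (Wd.mul (Wd.mul (Wd.g 3) (Wd.g 2)) (Wd.g 6)) (Wd.g 3)) (Wd.g 4)) (Wd.g 1)) (Wd.g 2)) (Wd.g 3)) (Wd.g 2)) (Wd.g 1)) (Wd.g 2)) (Wd.g 3)) (Wd.g 2)) (Wd.g 1)) (Wd.g 4)) (Wd.g 3)) (Wd.g 7)) (Wd.g 2)) (Wd.g 3)))) (by decide))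
  simp only [Wd.eval] at h
  rw [h]
  simp only [a1, map_mul, map_inv, phi_low hφ (c := 1) (by norm_num), phi_low hφ (c := 2) (by norm_num), phi_low hφ (c := 3) (by norm_num), phi_low hφ (c := 4) (by norm_num), phi_low hφ (c := 6) (by norm_num), phi_low hφ (c := 7) (by norm_num)]

theorem phi_b1 : φ b1 = sperm netsJ 11 := by
  have h : (Wd.g 11).eval (sperm netsJ) = ((Wd.mul (Wd.g 1) (Wd.g 2))).eval (sperm netsJ) :=
    inv_mul_eq_one.mp (lane_j ((Wd.mul (Wd.inv (Wd.g 11)) (Wd.mul (Wd.g 1) (Wd.g 2)))) (by decide))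
  simp only [Wd.eval] at h
  rw [h]
  simp only [b1, map_mul, map_inv, phi_low hφ (c := 1) (by norm_num), phi_low hφ (c := 2) (by norm_num)]

theorem phi_b1i : φ b1⁻¹ = sperm netsJ 12 := by
  rw [map_inv, phi_b1 hφ]; exact (lane_invJ 11).symm

theorem phi_b1i' : (sperm netsJ 11)⁻¹ = sperm netsJ 12 := (lane_invJ 11).symm
theorem phi_g' : (sperm netsJ 6)⁻¹ = sperm netsJ 7 := (lane_invJ 6).symm

theorem phi_c1 : φ c1 = sperm netsJ 9 := by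
  have h : (Wd.g 9).eval (sperm netsJ) = ((Wd.mul (Wd.mul (Wd.g 11) (Wd.g 8)) (Wd.g 12))).eval (sperm netsJ) :=
    inv_mul_eq_one.mp (lane_j ((Wd.mul (Wd.inv (Wd.g 9)) (Wd.mul (Wd.mul (Wd.g 11) (Wd.g 8)) (Wd.g 12)))) (by decide))
  simp only [Wd.eval] at h
  rw [h]
  simp only [c1, map_mul, map_inv, phi_a1 hφ, phi_b1 hφ, phi_b1i' hφ]

theorem phi_h1 : φ h1 = sperm netsJ 10 := by
  have h : (Wd.g 10).eval (sperm netsJ) = ((Wd.mul (Wd.mul (Wd.mul (Wd.mul (Wd.mul (Wd.mul (Wd.mul (Wd.mul (Wd.mul (Wd.mul (Wd.mul (Wd.mul (Wd.mul (Wd.mul (Wd.mul (Wd.mul (Wd.mul (Wd.mul (Wd.mul (Wd.mul (Wd.mul (Wd.mul (Wd.mul (Wd.mul (Wd.mul (Wd.mul (Wd.mul (Wd.mul (Wd.mul (Wd.mul (Wd.g 12) (Wd.g 8)) (Wd.g 11)) (Wd.g 8)) (Wd.g 12)) (Wd.g 8)) (Wd.g 11)) (Wd.g 8)) (Wd.g 12)) (Wd.g 8)) (Wd.g 12)) (Wd.g 8)) (Wd.g 11)) (Wd.g 8)) (Wd.g 11)) (Wd.g 8)) (Wd.g 12))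 (Wd.g 8)) (Wd.g 12)) (Wd.g 8)) (Wd.g 11)) (Wd.g 8)) (Wd.g 11)) (Wd.g 8)) (Wd.g 12)) (Wd.g 8)) (Wd.g 11)) (Wd.g 8)) (Wd.g 12)) (Wd.g 8)) (Wd.g 11))).eval (sperm netsJ) :=
    inv_mul_eq_one.mp (lane_j ((Wd.mul (Wd.inv (Wd.g 10)) (Wd.mul (Wd.mul (Wd.mul (Wd.mul (Wd.mul (Wd.mul (Wd.mul (Wd.mul (Wd.mul (Wd.mul (Wd.mul (Wd.mul (Wd.mul (Wd.mul (Wd.mul (Wd.mul (Wd.mul (Wd.mul (Wd.mul (Wd.mul (Wd.mul (Wd.mul (Wd.mul (Wd.mul (Wd.mul (Wd.mul (Wd.mul (Wd.mul (Wd.mul (Wd.mul (Wd.g 12) (Wd.g 8)) (Wd.g 11)) (Wd.g 8)) (Wd.g 12)) (Wd.g 8)) (Wd.g 11)) (Wd.g 8)) (Wd.g 12)) (Wd.g 8)) (Wd.g 12)) (Wd.g 8)) (Wd.g 11)) (Wd.g 8)) (Wd.g 11)) (Wd.g 8)) (Wd.g 12)) (Wd.g 8)) (Wd.g 12)) (Wd.g 8)) (Wd.g 11)) (Wd.g 8)) (Wd.g 11)) (Wd.g 8)) (Wd.g 12)) (Wd.g 8)) (Wd.g 11)) (Wd.g 8)) (Wd.g 12)) (Wd.g 8)) (Wd.g 11)))) (by decide))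
  simp only [Wd.eval] at h
  rw [h]
  simp only [h1, map_mul, map_inv, phi_a1 hφ, phi_b1 hφ, phi_b1i' hφ]

theorem phi_a2 : φ a2 = sperm netsJ 13 := by
  have h : (Wd.g 13).eval (sperm netsJ) = ((Wd.mul (Wd.mul (Wd.mul (Wd.mul (Wd.mul (Wd.mul (Wd.mul (Wd.mul (Wd.mul (Wd.mul (Wd.mul (Wd.mul (Wd.mul (Wd.mul (Wd.mul (Wd.mul (Wd.mul (Wd.mul (Wd.mul (Wd.mul (Wd.mul (Wd.mul (Wd.mul (Wd.mul (Wd.mul (Wd.mul (Wd.mul (Wd.mul (Wd.g 4) (Wd.g 2)) (Wd.g 3)) (Wd.g 1)) (Wd.g 2)) (Wd.g 3)) (Wd.g 1)) (Wd.g 7)) (Wd.g 4)) (Wd.g 1)) (Wd.g 2)) (Wd.g 3)) (Wd.g 2)) (Wd.g 1)) (Wd.g 0)) (Wd.g 1)) (Wd.g 2)) (Wd.g 3)) (Wd.g 2)) (Wd.g 1)) (Wd.g 4)) (Wd.g 6)) (Wd.g 1)) (Wd.g 3)) (Wd.g 2)) (Wd.g 1)) (Wd.g 3)) (Wd.g 2)) (Wd.g 4))).eval (sperm netsJ) :=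
    inv_mul_eq_one.mp (lane_j ((Wd.mul (Wd.inv (Wd.g 13)) (Wd.mul (Wd.mul (Wd.mul (Wd.mul (Wd.mul (Wd.mul (Wd.mul (Wd.mul (Wd.mul (Wd.mul (Wd.mul (Wd.mul (Wd.mul (Wd.mul (Wd.mul (Wd.mul (Wd.mul (Wd.mul (Wd.mul (Wd.mul (Wd.mul (Wd.mul (Wd.mul (Wd.mul (Wd.mul (Wd.mul (Wd.mul (Wd.mul (Wd.g 4) (Wd.g 2)) (Wd.g 3)) (Wd.g 1)) (Wd.g 2)) (Wd.g 3)) (Wd.g 1)) (Wd.g 7)) (Wd.g 4)) (Wd.g 1)) (Wd.g 2)) (Wd.g 3)) (Wd.g 2)) (Wd.g 1)) (Wd.g 0)) (Wd.g 1)) (Wd.g 2)) (Wd.g 3)) (Wd.g 2)) (Wd.g 1)) (Wd.g 4)) (Wd.g 6)) (Wd.g 1)) (Wd.g 3)) (Wd.g 2)) (Wd.g 1)) (Wd.g 3)) (Wd.g 2)) (Wd.g 4)))) (by decide))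
  simp only [Wd.eval] at h
  rw [h]
  simp only [a2, map_mul, map_inv, phi_low hφ (c := 0) (by norm_num), phi_low hφ (c := 1) (by norm_num), phi_low hφ (c := 2) (by norm_num), phi_low hφ (c := 3) (by norm_num), phi_low hφ (c := 4) (by norm_num), phi_low hφ (c := 6) (by norm_num), phi_low hφ (c := 7) (by norm_num)]

theorem phi_c2 : φ c2 = sperm netsJ 14 := by
  have h : (Wd.g 14).eval (sperm netsJ) = ((Wd.mul (Wd.mul (Wd.g 6) (Wd.g 13)) (Wd.g 7))).eval (sperm netsJ) :=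
    inv_mul_eq_one.mp (lane_j ((Wd.mul (Wd.inv (Wd.g 14)) (Wd.mul (Wd.mul (Wd.g 6) (Wd.g 13)) (Wd.g 7)))) (by decide))
  simp only [Wd.eval] at h
  rw [h]
  simp only [c2, map_mul, map_inv, phi_a2 hφ, phi_low hφ (c := 6) (by norm_num), phi_g' hφ]

theorem phi_h2 : φ h2 = sperm netsJ 15 := by
  have h : (Wd.g 15).eval (sperm netsJ) = ((Wd.mul (Wd.mul (Wd.mul (Wd.mul (Wd.mul (Wd.mul (Wd.mul (Wd.mul (Wd.mul (Wd.mul (Wd.g 6) (Wd.g 13)) (Wd.g 7)) (Wd.g 13)) (Wd.g 7)) (Wd.g 13)) (Wd.g 6)) (Wd.g 13)) (Wd.g 6)) (Wd.g 13)) (Wd.g 7))).eval (sperm netsJ) :=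
    inv_mul_eq_one.mp (lane_j ((Wd.mul (Wd.inv (Wd.g 15)) (Wd.mul (Wd.mul (Wd.mul (Wd.mul (Wd.mul (Wd.mul (Wd.mul (Wd.mul (Wd.mul (Wd.mul (Wd.g 6) (Wd.g 13)) (Wd.g 7)) (Wd.g 13)) (Wd.g 7)) (Wd.g 13)) (Wd.g 6)) (Wd.g 13)) (Wd.g 6)) (Wd.g 13)) (Wd.g 7)))) (by decide))
  simp only [Wd.eval] at h
  rw [h]
  simp only [h2, map_mul, map_inv, phi_a2 hφ, phi_low hφ (c := 6) (by norm_num), phi_g' hφ]

end

/-- images of the letters -/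
noncomputable def yJ (c : ℕ) : G := match c with
  | 0 => a1
  | 1 => c1
  | 2 => h1
  | 3 => b1
  | _ => 1

theorem okJ : relOK jrels J1PRel.rels [8, 9, 10, 11] = true := by decide +kernel
theorem letsJ : ∀ W ∈ J1PRel.rels, lets 4 W = true := by decide +kernel

theorem relJ : ∀ W ∈ J1PRel.rels, W.eval yJ = 1 := by
  obtain ⟨_, _, φ, hφ, hinj, _⟩ := ONOrd.main
  have h1 : ∀ W ∈ J1PRel.rels, W.eval (loc (sperm netsJ) [8, 9, 10, 11]) = 1 := loc_eval lane_j okJ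
  intro W hW
  apply hinj
  rw [map_one, Wd.map_eval, ← h1 W hW]
  refine eval_congr (n := 4) ?_ W (letsJ W hW)
  intro c hc
  interval_cases c
  · exact phi_a1 hφ
  · exact phi_c1 hφ
  · exact phi_h1 hφ
  · exact phi_b1 hφ

theorem sqJ : ∀ c, c < 3 → yJ c * yJ c = 1 := by
  obtain ⟨_, _, φ, hφ, hinj, _⟩ := ONOrd.main
  have hsq : ∀ c, ivj c = c → sperm netsJ c * sperm netsJ c = 1 := fun c hc => by
    have h := lane_invJ c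
    rw [hc] at h
    exact mul_eq_one_iff_eq_inv.mpr h
  intro c hc
  apply hinj
  rw [map_one, map_mul]
  interval_cases c
  · change φ a1 * φ a1 = 1
    rw [phi_a1 hφ]; exact hsq 8 rfl
  · change φ c1 * φ c1 = 1
    rw [phi_c1 hφ]; exact hsq 9 rfl
  · change φ h1 * φ h1 = 1
    rw [phi_h1 hφ]; exact hsq 10 rfl

/-- the homomorphism -/
theorem homJ : ∃ ψ : CoxPresented J1P.Gen J1P.edges J1P.extra →* G, Function.Injective ψ := by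
  obtain ⟨ψ, hψ⟩ := J1PRel.C.hom yJ sqJ (by
    intro W hW
    apply relJ
    rw [show coxWds J1P.edges J1PRel.C.gen J1PRel.C.nn = J1PRel.coxW from J1PRel.coxW_eq] at hW
    exact List.mem_append_left _ hW) (fun W hW => relJ W (List.mem_append_right _ hW))
  refine ⟨ψ, ?_⟩
  rcases J1POrd.main.1.eq_bot_or_eq_top_of_normal ψ.ker inferInstance with h | h
  · exact (MonoidHom.ker_eq_bot_iff ψ).mp h
  · exfalso
    obtain ⟨_, _, φ, hφ, hinj, _⟩ := ONOrd.main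
    have h1 : yJ 0 = 1 := by
      rw [← hψ 0 (by decide), ← MonoidHom.mem_ker, h]; trivial
    have h2 : sperm netsJ 8 = 1 := by
      rw [← phi_a1 hφ, show a1 = yJ 0 from rfl, h1, map_one]
    have hj : ∀ c, (netOf netsJ c).OK := fun c => Net.ok_of_check (check_netOf j_nets c)
    have h3 : sig netsJ 8 0 ≠ 0 := by decide +kernel
    apply h3
    rw [← sperm_apply hj, h2]; rfl

/-- images of the letters -/
noncomputable def yM (c : ℕ) : G := match c with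
  | 0 => a2
  | 1 => c2
  | 2 => h2
  | 3 => (xx 6)
  | _ => 1

theorem okM : relOK jrels M11PRel.rels [13, 14, 15, 6] = true := by decide +kernel
theorem letsM : ∀ W ∈ M11PRel.rels, lets 4 W = true := by decide +kernel

theorem relM : ∀ W ∈ M11PRel.rels, W.eval yM = 1 := by
  obtain ⟨_, _, φ, hφ, hinj, _⟩ := ONOrd.main
  have h1 : ∀ W ∈ M11PRel.rels, W.eval (loc (sperm netsJ) [13, 14, 15, 6]) = 1 := loc_eval lane_j okM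
  intro W hW
  apply hinj
  rw [map_one, Wd.map_eval, ← h1 W hW]
  refine eval_congr (n := 4) ?_ W (letsM W hW)
  intro c hc
  interval_cases c
  · exact phi_a2 hφ
  · exact phi_c2 hφ
  · exact phi_h2 hφ
  · exact phi_low hφ (c := 6) (by norm_num)

theorem sqM : ∀ c, c < 3 → yM c * yM c = 1 := by
  obtain ⟨_, _, φ, hφ, hinj, _⟩ := ONOrd.main
  have hsq : ∀ c, ivj c = c → sperm netsJ c * sperm netsJ c = 1 := fun c hc => by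
    have h := lane_invJ c
    rw [hc] at h
    exact mul_eq_one_iff_eq_inv.mpr h
  intro c hc
  apply hinj
  rw [map_one, map_mul]
  interval_cases c
  · change φ a2 * φ a2 = 1
    rw [phi_a2 hφ]; exact hsq 13 rfl
  · change φ c2 * φ c2 = 1
    rw [phi_c2 hφ]; exact hsq 14 rfl
  · change φ h2 * φ h2 = 1
    rw [phi_h2 hφ]; exact hsq 15 rfl

/-- the homomorphism -/
theorem homM : ∃ ψ : CoxPresented M11P.Gen M11P.edges M11P.extra →* G, Function.Injective ψ := by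
  obtain ⟨ψ, hψ⟩ := M11PRel.C.hom yM sqM (by
    intro W hW
    apply relM
    rw [show coxWds M11P.edges M11PRel.C.gen M11PRel.C.nn = M11PRel.coxW from M11PRel.coxW_eq] at hW
    exact List.mem_append_left _ hW) (fun W hW => relM W (List.mem_append_right _ hW))
  refine ⟨ψ, ?_⟩
  rcases M11POrd.main.1.eq_bot_or_eq_top_of_normal ψ.ker inferInstance with h | h
  · exact (MonoidHom.ker_eq_bot_iff ψ).mp h
  · exfalso
    obtain ⟨_, _, φ, hφ, hinj, _⟩ := ONOrd.main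
    have h1 : yM 0 = 1 := by
      rw [← hψ 0 (by decide), ← MonoidHom.mem_ker, h]; trivial
    have h2 : sperm netsJ 13 = 1 := by
      rw [← phi_a2 hφ, show a2 = yM 0 from rfl, h1, map_one]
    have hj : ∀ c, (netOf netsJ c).OK := fun c => Net.ok_of_check (check_netOf j_nets c)
    have h3 : sig netsJ 13 0 ≠ 0 := by decide +kernel
    apply h3
    rw [← sperm_apply hj, h2]; rfl


end Cfsg.Agent.Lib.ONJ
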