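import Mathlib

/-!
Automorphisms and subdirect subgroups of powers of a non-abelian simple group (helper12).
-/

set_option autoImplicit false

namespace Cfsg.Agent.Lib.ONScott

section Simple

variable {T : Type*} [Group T] [IsSimpleGroup T]

/-- the centre of a non-abelian simple group is trivial, elementwise. -/
theorem exists_not_commute (hT : ¬ ∀ a b : T, a * b = b * a) {t : T} (ht : t ≠ 1) :
    ∃ s : T, t * s ≠ s * t := by
  by_contra hcon
  push Not at hcon
  rcases IsSimpleGroup.eq_bot_or_eq_top_of_normal (Subgroup.center T) inferInstance with h | h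
  · apply ht
    have h1 : t ∈ Subgroup.center T := Subgroup.mem_center_iff.mpr (fun s => (hcon s).symm)
    rw [h, Subgroup.mem_bot] at h1
    exact h1
  · apply hT
    intro a b
    have h1 : b ∈ Subgroup.center T := h ▸ Subgroup.mem_top b
    exact Subgroup.mem_center_iff.mp h1 a

end Simple

section Power

variable {ι : Type*} [Finite ι] {T : Type*} [Group T] [Finite T] [IsSimpleGroup T]

omit [Finite ι] [IsSimpleGroup T] in
/-- from a kernel inclusion we get an automorphism. -/
theorem exists_aut {M : Subgroup (ι → T)} (hsub : ∀ (i : ι) (t : T), ∃ x ∈ M, x i = t) {i j : ι}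
    (h : ∀ x ∈ M, x i = 1 → x j = 1) : ∃ β : MulAut T, ∀ x ∈ M, x j = β (x i) := by
  classical
  choose f hfM hf using hsub i
  have key : ∀ x ∈ M, ∀ y ∈ M, x i = y i → x j = y j := by
    intro x hx y hy hxy
    have h1 := h (x * y⁻¹) (M.mul_mem hx (M.inv_mem hy)) (by
      rw [Pi.mul_apply, Pi.inv_apply, hxy, mul_inv_cancel])
    rw [Pi.mul_apply, Pi.inv_apply, mul_inv_eq_one] at h1
    exact h1
  let g : T →* T :=
    { toFun := fun t => f t j
      map_one' := h (f 1) (hfM 1) (hf 1)
      map_mul' := fun s t => by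
        show f (s * t) j = (f s * f t) j
        apply key _ (hfM _) _ (M.mul_mem (hfM s) (hfM t))
        rw [hf, Pi.mul_apply, hf, hf] }
  have hg : ∀ x ∈ M, g (x i) = x j := fun x hx => key _ (hfM _) _ hx (hf _)
  have hsurj : Function.Surjective g := by
    intro s
    obtain ⟨x, hx, hxs⟩ := hsub j s
    exact ⟨x i, by rw [hg x hx, hxs]⟩
  have hbij : Function.Bijective g := ⟨Finite.injective_iff_surjective.mpr hsurj, hsurj⟩
  exact ⟨MulEquiv.ofBijective g hbij, fun x hx => (hg x hx).symm⟩

omit [Finite ι] [Finite T] in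
/-- a set of values closed under the relevant operations is everything. -/
theorem values_top {M : Subgroup (ι → T)} (hsub : ∀ (i : ι) (t : T), ∃ x ∈ M, x i = t) {i : ι}
    (S : Set ι) (hne : ∃ x ∈ M, (∀ l ∈ S, x l = 1) ∧ x i ≠ 1) (t : T) :
    ∃ x ∈ M, (∀ l ∈ S, x l = 1) ∧ x i = t := by
  let K : Subgroup T :=
    { carrier := {t | ∃ x ∈ M, (∀ l ∈ S, x l = 1) ∧ x i = t}
      one_mem' := ⟨1, M.one_mem, fun l _ => rfl, rfl⟩
      mul_mem' := by
        rintro s t ⟨x, hx, hxS, rfl⟩ ⟨y, hy, hyS, rfl⟩
        refine ⟨x * y, M.mul_mem hx hy, fun l hl => ?_, rfl⟩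
        rw [Pi.mul_apply, hxS l hl, hyS l hl, mul_one]
      inv_mem' := by
        rintro s ⟨x, hx, hxS, rfl⟩
        refine ⟨x⁻¹, M.inv_mem hx, fun l hl => ?_, rfl⟩
        rw [Pi.inv_apply, hxS l hl, inv_one] }
  have hKn : K.Normal := by
    constructor
    rintro s ⟨x, hx, hxS, rfl⟩ g
    obtain ⟨y, hy, hyg⟩ := hsub i g
    refine ⟨y * x * y⁻¹, M.mul_mem (M.mul_mem hy hx) (M.inv_mem hy), fun l hl => ?_, ?_⟩
    · rw [Pi.mul_apply, Pi.mul_apply, Pi.inv_apply, hxS l hl, mul_one, mul_inv_cancel]
    · rw [Pi.mul_apply, Pi.mul_apply, Pi.inv_apply, hyg]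
  rcases IsSimpleGroup.eq_bot_or_eq_top_of_normal K hKn with h | h
  · exfalso
    obtain ⟨x, hx, hxS, hx1⟩ := hne
    have : x i ∈ K := ⟨x, hx, hxS, rfl⟩
    rw [h, Subgroup.mem_bot] at this
    exact hx1 this
  · have : t ∈ K := h ▸ Subgroup.mem_top t
    exact this

omit [Finite ι] [Finite T] in
/-- separation of a coordinate from finitely many inequivalent ones. -/
theorem separate (hT : ¬ ∀ a b : T, a * b = b * a) {M : Subgroup (ι → T)}
    (hsub : ∀ (i : ι) (t : T), ∃ x ∈ M, x i = t) (i : ι) (S : Finset ι)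
    (hS : ∀ l ∈ S, ∃ x ∈ M, x l = 1 ∧ x i ≠ 1) : ∃ y ∈ M, (∀ l ∈ S, y l = 1) ∧ y i ≠ 1 := by
  classical
  induction S using Finset.induction_on with
  | empty =>
    obtain ⟨t, ht⟩ := exists_ne (1 : T)
    obtain ⟨y, hy, hyt⟩ := hsub i t
    exact ⟨y, hy, fun l hl => absurd hl (Finset.notMem_empty l), by rw [hyt]; exact ht⟩
  | insert l S hl ih =>
    obtain ⟨y, hy, hyS, hyi⟩ := ih (fun k hk => hS k (Finset.mem_insert_of_mem hk))
    obtain ⟨s, hs⟩ := exists_not_commute hT hyi
    obtain ⟨z, hz, hzl, hzi⟩ := values_top hsub (i := i) {l}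
      (by
        obtain ⟨x, hx, hxl, hxi⟩ := hS l (Finset.mem_insert_self l S)
        exact ⟨x, hx, fun k hk => by rw [Set.mem_singleton_iff.mp hk]; exact hxl, hxi⟩) s
    refine ⟨y * z * y⁻¹ * z⁻¹, M.mul_mem (M.mul_mem (M.mul_mem hy hz) (M.inv_mem hy)) (M.inv_mem hz),
      ?_, ?_⟩
    · intro k hk
      show y k * z k * (y k)⁻¹ * (z k)⁻¹ = 1
      rcases Finset.mem_insert.mp hk with h | h
      · rw [h, hzl l (Set.mem_singleton l)]; group
      · rw [hyS k h]; group
    · show y i * z i * (y i)⁻¹ * (z i)⁻¹ ≠ 1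
      intro h
      apply hs
      rw [hzi] at h
      rw [mul_inv_eq_one, mul_inv_eq_iff_eq_mul] at h
      exact h

/-- **Scott's lemma** on subdirect subgroups of a power of a non-abelian simple group. -/
theorem scott (hT : ¬ ∀ a b : T, a * b = b * a) {M : Subgroup (ι → T)}
    (hsub : ∀ (i : ι) (t : T), ∃ x ∈ M, x i = t) :
    ∃ (r : ι → ι) (β : ι → MulAut T), (∀ i, r (r i) = r i) ∧
      (∀ i j, r i = r j ↔ ∀ x ∈ M, x i = 1 → x j = 1) ∧
      (∀ i, r i = i → β i = 1) ∧
      (∀ x : ι → T, x ∈ M ↔ ∀ i, x (r i) = β i (x i)) := by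
  classical
  have := Fintype.ofFinite ι
  have hsymm : ∀ i j, (∀ x ∈ M, x i = 1 → x j = 1) → ∀ x ∈ M, x j = 1 → x i = 1 := by
    intro i j h x hx hxj
    obtain ⟨β, hβ⟩ := exists_aut hsub h
    have h1 := hβ x hx
    rw [hxj] at h1
    exact (map_eq_one_iff β β.injective).mp h1.symm
  let s : Setoid ι :=
    { r := fun i j => ∀ x ∈ M, x i = 1 → x j = 1
      iseqv := ⟨fun i x _ h => h, fun {i j} h => hsymm i j h, fun {i j k} h1 h2 x hx h =>
        h2 x hx (h1 x hx h)⟩ }
  let r : ι → ι := fun i => (Quotient.mk s i).out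
  have hr1 : ∀ i, s (r i) i := fun i => Quotient.exact (Quotient.out_eq (Quotient.mk s i))
  have hr2 : ∀ i j, r i = r j ↔ ∀ x ∈ M, x i = 1 → x j = 1 := by
    intro i j
    constructor
    · intro h
      have h1 := hr1 i
      have h2 := hr1 j
      rw [h] at h1
      exact s.trans (s.symm h1) h2
    · intro h
      show (Quotient.mk s i).out = (Quotient.mk s j).out
      rw [Quotient.sound (a := i) (b := j) h]
  have hex : ∀ i, ∃ β : MulAut T, (∀ x ∈ M, x (r i) = β (x i)) ∧ (r i = i → β = 1) := by
    intro i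
    by_cases h : r i = i
    · exact ⟨1, fun x _ => by rw [h]; rfl, fun _ => rfl⟩
    · obtain ⟨β, hβ⟩ := exists_aut hsub (i := i) (j := r i) (s.symm (hr1 i))
      exact ⟨β, hβ, fun h' => absurd h' h⟩
  choose β hβ hβ1 using hex
  have hrr : ∀ i, r (r i) = r i := fun i => (hr2 (r i) i).mpr (hr1 i)
  refine ⟨r, β, hrr, hr2, hβ1, ?_⟩
  intro x
  refine ⟨fun hx i => hβ i x hx, ?_⟩
  -- induction on the support
  have key : ∀ n : ℕ, ∀ x : ι → T, (Finset.univ.filter (fun i => x i ≠ 1)).card ≤ n →
      (∀ i, x (r i) = β i (x i)) → x ∈ M := by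
    intro n
    induction n with
    | zero =>
      intro x hx _
      have h0 := Finset.card_eq_zero.mp (Nat.le_zero.mp hx)
      have : x = 1 := by
        funext i
        by_contra hi
        have : i ∈ Finset.univ.filter (fun i => x i ≠ 1) := Finset.mem_filter.mpr ⟨Finset.mem_univ i, hi⟩
        rw [h0] at this
        exact absurd this (Finset.notMem_empty i)
      rw [this]; exact M.one_mem
    | succ n ih =>
      intro x hx hrel
      by_cases hx1 : ∀ i, x i = 1
      · have : x = 1 := funext hx1
        rw [this]; exact M.one_mem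
      · push Not at hx1
        obtain ⟨i, hi⟩ := hx1
        have hri : x (r i) ≠ 1 := by
          rw [hrel i]
          exact fun h => hi ((map_eq_one_iff (β i) (β i).injective).mp h)
        -- element of M supported on the class
        obtain ⟨y, hy, hyS, hyi⟩ := values_top hsub (i := r i) {l | r l ≠ r i}
          (by
            obtain ⟨y, hy, hyS, hyi⟩ := separate hT hsub (r i)
              (Finset.univ.filter (fun l => r l ≠ r i)) (by
                intro l hl
                have hl' : r l ≠ r i := (Finset.mem_filter.mp hl).2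
                by_contra hcon
                push Not at hcon
                apply hl'
                rw [← hrr i]
                exact (hr2 l (r i)).mpr hcon)
            exact ⟨y, hy, fun l hl => hyS l (Finset.mem_filter.mpr ⟨Finset.mem_univ l, hl⟩), hyi⟩)
          (x (r i))
        have hyrel : ∀ j, y (r j) = β j (y j) := fun j => hβ j y hy
        have heq : ∀ j, r j = r i → y j = x j := by
          intro j hj
          apply (β j).injective
          rw [← hyrel j, ← hrel j, hj, hyi]
        have h1 : x * y⁻¹ ∈ M := by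
          apply ih
          · have hsubset : Finset.univ.filter (fun j => (x * y⁻¹) j ≠ 1) ⊆
                (Finset.univ.filter (fun j => x j ≠ 1)).erase i := by
              intro j hj
              have hj' : x j * (y j)⁻¹ ≠ 1 := (Finset.mem_filter.mp hj).2
              rw [Finset.mem_erase, Finset.mem_filter]
              have hrj : r j ≠ r i := by
                intro h
                apply hj'
                rw [heq j h, mul_inv_cancel]
              refine ⟨fun h => hrj (by rw [h]), Finset.mem_univ j, ?_⟩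
              intro hxj
              apply hj'
              rw [hxj, hyS j hrj, inv_one, mul_one]
            have h2 := Finset.card_le_card hsubset
            have h3 : i ∈ Finset.univ.filter (fun j => x j ≠ 1) :=
              Finset.mem_filter.mpr ⟨Finset.mem_univ i, hi⟩
            rw [Finset.card_erase_of_mem h3] at h2
            omega
          · intro j
            show x (r j) * (y (r j))⁻¹ = β j (x j * (y j)⁻¹)
            rw [map_mul, map_inv, hrel j, hyrel j]
        have h2 := M.mul_mem h1 hy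
        rwa [inv_mul_cancel_right] at h2
  exact key _ x le_rfl

/-- automorphisms of a power of a non-abelian simple group. -/
theorem aut_form [DecidableEq ι] (hT : ¬ ∀ a b : T, a * b = b * a) (φ : MulAut (ι → T)) :
    ∃ (τ : Equiv.Perm ι) (θ : ι → MulAut T), ∀ x j, φ x j = θ j (x (τ j)) := by
  classical
  have := Fintype.ofFinite ι
  -- the projection of the image of a factor
  have hfac : ∀ (i j : ι), (∀ t : T, φ (Pi.mulSingle i t) j = 1) ∨
      (∀ s : T, ∃ t : T, φ (Pi.mulSingle i t) j = s) := by
    intro i j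
    let K : Subgroup T := ((Pi.evalMonoidHom (fun _ : ι => T) j).comp
      (φ.toMonoidHom.comp (MonoidHom.mulSingle (fun _ : ι => T) i))).range
    have hKn : K.Normal := by
      constructor
      rintro _ ⟨t, rfl⟩ g
      obtain ⟨y, hy⟩ := φ.surjective (Pi.mulSingle j g)
      refine ⟨y i * t * (y i)⁻¹, ?_⟩
      show φ (Pi.mulSingle i (y i * t * (y i)⁻¹)) j = g * φ (Pi.mulSingle i t) j * g⁻¹
      have h1 : Pi.mulSingle i (y i * t * (y i)⁻¹) = y * Pi.mulSingle i t * y⁻¹ := by
        funext k
        by_cases hk : k = i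
        · subst hk; simp
        · simp [Pi.mulSingle_eq_of_ne hk]
      rw [h1, map_mul, map_mul, map_inv, hy]
      simp
    rcases IsSimpleGroup.eq_bot_or_eq_top_of_normal K hKn with h | h
    · left
      intro t
      have : φ (Pi.mulSingle i t) j ∈ K := ⟨t, rfl⟩
      rwa [h, Subgroup.mem_bot] at this
    · right
      intro s
      have : s ∈ K := h ▸ Subgroup.mem_top s
      obtain ⟨t, ht⟩ := this
      exact ⟨t, ht⟩
  have hcommfac : ∀ (i i' j : ι), i ≠ i' → ∀ s t : T,
      φ (Pi.mulSingle i s) j * φ (Pi.mulSingle i' t) j = φ (Pi.mulSingle i' t) j * φ (Pi.mulSingle i s) j := by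
    intro i i' j hii s t
    have h1 : (Pi.mulSingle i s : ι → T) * Pi.mulSingle i' t = Pi.mulSingle i' t * Pi.mulSingle i s :=
      (Pi.mulSingle_commute (f := fun _ : ι => T) hii s t).eq
    have h2 := congrArg (fun x => φ x j) h1
    simpa only [map_mul, Pi.mul_apply] using h2
  -- for each j at least one i
  have hex : ∀ j : ι, ∃ i : ι, ∀ s : T, ∃ t : T, φ (Pi.mulSingle i t) j = s := by
    intro j
    by_contra hcon
    push Not at hcon
    have h1 : ∀ i t, φ (Pi.mulSingle i t) j = 1 := by
      intro i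
      rcases hfac i j with h | h
      · exact h
      · obtain ⟨s, hs⟩ := hcon i
        obtain ⟨t, ht⟩ := h s
        exact absurd ht (hs t)
    have h2 : ∀ x : ι → T, φ x j = 1 := by
      intro x
      let f : (ι → T) →* T := (Pi.evalMonoidHom (fun _ : ι => T) j).comp φ.toMonoidHom
      have h3 : f = 1 := by
        apply MonoidHom.pi_ext
        intro i t
        exact h1 i t
      exact congrArg (fun g : (ι → T) →* T => g x) h3
    obtain ⟨s, hs⟩ := exists_ne (1 : T)
    obtain ⟨x, hx⟩ := φ.surjective (Pi.mulSingle j s)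
    have h4 := h2 x
    rw [hx, Pi.mulSingle_eq_same] at h4
    exact hs h4
  choose τ hτ using hex
  have huniq : ∀ i j : ι, i ≠ τ j → ∀ t : T, φ (Pi.mulSingle i t) j = 1 := by
    intro i j hij
    rcases hfac i j with h | h
    · exact h
    · exfalso
      apply hT
      intro a b
      obtain ⟨s, hs⟩ := h a
      obtain ⟨t, ht⟩ := hτ j b
      rw [← hs, ← ht]
      exact hcommfac i (τ j) j hij s t
  have hform : ∀ (x : ι → T) (j : ι), φ x j = φ (Pi.mulSingle (τ j) (x (τ j))) j := by
    intro x j
    let f : (ι → T) →* T := (Pi.evalMonoidHom (fun _ : ι => T) j).comp φ.toMonoidHom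
    let g : (ι → T) →* T := (Pi.evalMonoidHom (fun _ : ι => T) j).comp (φ.toMonoidHom.comp
      ((MonoidHom.mulSingle (fun _ : ι => T) (τ j)).comp (Pi.evalMonoidHom (fun _ : ι => T) (τ j))))
    have h3 : f = g := by
      apply MonoidHom.pi_ext
      intro i t
      show φ (Pi.mulSingle i t) j = φ (Pi.mulSingle (τ j) ((Pi.mulSingle i t : ι → T) (τ j))) j
      by_cases hi : i = τ j
      · subst hi; rw [Pi.mulSingle_eq_same]
      · rw [huniq i j hi t, Pi.mulSingle_eq_of_ne (Ne.symm hi), Pi.mulSingle_one, map_one]; rfl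
    exact congrArg (fun g : (ι → T) →* T => g x) h3
  have hτsurj : Function.Surjective τ := by
    intro i
    by_contra hcon
    push Not at hcon
    obtain ⟨s, hs⟩ := exists_ne (1 : T)
    apply hs
    have h1 : φ (Pi.mulSingle i s) = 1 := by
      funext j
      rw [hform, Pi.mulSingle_eq_of_ne (hcon j), Pi.mulSingle_one, map_one]
    have h2 := (map_eq_one_iff φ φ.injective).mp h1
    have h3 := congrFun h2 i
    rwa [Pi.mulSingle_eq_same] at h3
  have hτbij : Function.Bijective τ := ⟨Finite.injective_iff_surjective.mpr hτsurj, hτsurj⟩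
  have hθ : ∀ j, ∃ θ : MulAut T, ∀ t, θ t = φ (Pi.mulSingle (τ j) t) j := by
    intro j
    let f : T →* T := (Pi.evalMonoidHom (fun _ : ι => T) j).comp
      (φ.toMonoidHom.comp (MonoidHom.mulSingle (fun _ : ι => T) (τ j)))
    have hs : Function.Surjective f := fun s => hτ j s
    exact ⟨MulEquiv.ofBijective f ⟨Finite.injective_iff_surjective.mpr hs, hs⟩, fun t => rfl⟩
  choose θ hθ using hθ
  exact ⟨Equiv.ofBijective τ hτbij, θ, fun x j => by rw [hform, hθ]; rfl⟩

end Power

end Cfsg.Agent.Lib.ONScott
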