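import Cfsg.Agent.Lib.UnNot
set_option autoImplicit false
set_option linter.style.haveILetI false
set_option linter.unusedVariables false
set_option linter.unusedSectionVars false

/-!
A transvection preserves no tensor power decomposition with factors of dimension at least three.
-/

namespace Cfsg.Agent.Lib.UnNot

open Cfsg Cfsg.Geo Cfsg.Agent.Lib.AschMU Cfsg.Agent.Lib.AschCore Cfsg.Agent.Lib.AschField Cfsg.Agent.Lib.AschAlg
  Cfsg.Agent.Lib.AschGroup Cfsg.Agent.Lib.AschGood Cfsg.Agent.Lib.AschNonab Cfsg.Agent.Lib.AschTensor Cfsg.Agent.Lib.AschComp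
  Cfsg.Agent.Lib.AschAdj Cfsg.Agent.Lib.SLGeom
open scoped Matrix MatrixGroups Kronecker commutatorElement
open Matrix (vecMulVec)

section wreath
variable {F : Type*} [Field F] {t d : ℕ}

/-- pure tensors -/
def pv (u : Fin t → Fin d → F) : (Fin t → Fin d) → F := fun a => ∏ i, u i (a i)

lemma tp_pv (g : Fin t → Matrix (Fin d) (Fin d) F) (u : Fin t → Fin d → F) : tp g *ᵥ pv u = pv (fun i => g i *ᵥ u i) := by
  funext a
  simp only [pv, Matrix.mulVec, dotProduct, tp]
  rw [Finset.prod_univ_sum, Fintype.piFinset_univ]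
  refine Finset.sum_congr rfl fun b _ => ?_
  rw [← Finset.prod_mul_distrib]

lemma pv_prop {u u' : Fin t → Fin d → F} (hu : ∀ i, u i ≠ 0) (h : pv u = pv u') (i : Fin t) : ∃ c : F, u i = c • u' i := by
  have hex : ∀ j, ∃ s, u j s ≠ 0 := fun j => by
    obtain ⟨s, hs⟩ := Function.ne_iff.1 (hu j)
    exact ⟨s, hs⟩
  choose b hb using hex
  have hA : ∏ j ∈ Finset.univ.erase i, u j (b j) ≠ 0 := Finset.prod_ne_zero_iff.2 fun j _ => hb j
  refine ⟨(∏ j ∈ Finset.univ.erase i, u j (b j))⁻¹ * ∏ j ∈ Finset.univ.erase i, u' j (b j), ?_⟩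
  funext s
  have h1 := congrFun h (Function.update b i s)
  simp only [pv] at h1
  rw [← Finset.mul_prod_erase _ _ (Finset.mem_univ i), ← Finset.mul_prod_erase _ _ (Finset.mem_univ i), Function.update_self] at h1
  have h2 : ∀ w : Fin t → Fin d → F, ∏ j ∈ Finset.univ.erase i, w j (Function.update b i s j) = ∏ j ∈ Finset.univ.erase i, w j (b j) := by
    intro w
    refine Finset.prod_congr rfl fun j hj => ?_
    rw [Function.update_of_ne (Finset.ne_of_mem_erase hj)]
  rw [h2, h2] at h1
  rw [Pi.smul_apply, smul_eq_mul]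
  field_simp
  linear_combination h1

/-- the elements of the standard tensor wreath group act on pure tensors by permuting and transforming the factors -/
lemma standard_pv {k : GL (Fin t → Fin d) F} (hk : k ∈ tensorWreathStandard d t F) :
    ∃ (π : Equiv.Perm (Fin t)) (g : Fin t → GL (Fin d) F), ∀ u : Fin t → Fin d → F,
      (k : Matrix (Fin t → Fin d) (Fin t → Fin d) F) *ᵥ pv u = pv (fun i => (g i : Matrix (Fin d) (Fin d) F) *ᵥ u (π i)) := by
  unfold tensorWreathStandard at hk
  refine Subgroup.closure_induction (p := fun (k : GL (Fin t → Fin d) F) _ => ∃ (π : Equiv.Perm (Fin t)) (g : Fin t → GL (Fin d) F), ∀ u : Fin t → Fin d → F,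
      (k : Matrix (Fin t → Fin d) (Fin t → Fin d) F) *ᵥ pv u = pv (fun i => (g i : Matrix (Fin d) (Fin d) F) *ᵥ u (π i)))
    ?_ ?_ ?_ ?_ hk
  · rintro k (⟨gs, hgs⟩ | ⟨σ, hσ⟩)
    · refine ⟨1, gs, fun u => ?_⟩
      have : (k : Matrix (Fin t → Fin d) (Fin t → Fin d) F) = tp (fun i => (gs i : Matrix (Fin d) (Fin d) F)) := by
        ext x y
        rw [hgs]; rfl
      rw [this, tp_pv]
      rfl
    · refine ⟨σ.symm, fun _ => 1, fun u => ?_⟩
      funext x
      rw [Matrix.mulVec, dotProduct, Finset.sum_eq_single (x ∘ σ)]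
      · rw [hσ, if_pos rfl, one_mul]
        simp only [pv, Units.val_one, Matrix.one_mulVec, Function.comp_apply]
        rw [← Equiv.prod_comp σ (fun i => u (σ.symm i) (x i))]
        refine Finset.prod_congr rfl fun i _ => ?_
        rw [Equiv.symm_apply_apply]
      · intro y _ hy
        rw [hσ, if_neg hy, zero_mul]
      · intro h; exact absurd (Finset.mem_univ _) h
  · refine ⟨1, fun _ => 1, fun u => ?_⟩
    simp
  · rintro x y _ _ ⟨π, g, hx⟩ ⟨π', g', hy⟩
    refine ⟨π.trans π', fun i => g i * g' (π i), fun u => ?_⟩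
    rw [Units.val_mul, ← Matrix.mulVec_mulVec, hy, hx]
    congr 1
    funext i
    rw [Units.val_mul, ← Matrix.mulVec_mulVec]
    rfl
  · rintro x _ ⟨π, g, hx⟩
    refine ⟨π.symm, fun i => (g (π.symm i))⁻¹, fun u => ?_⟩
    have h1 := hx (fun i => (((g (π.symm i))⁻¹ : GL (Fin d) F) : Matrix (Fin d) (Fin d) F) *ᵥ u (π.symm i))
    have h2 : (fun i => (g i : Matrix (Fin d) (Fin d) F) *ᵥ ((((g (π.symm (π i)))⁻¹ : GL (Fin d) F) : Matrix (Fin d) (Fin d) F) *ᵥ u (π.symm (π i)))) = u := by
      funext i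
      rw [Equiv.symm_apply_apply, Matrix.mulVec_mulVec, gl_mul_inv, Matrix.one_mulVec]
    rw [h2] at h1
    have h3 := congrArg (fun z => ((x⁻¹ : GL (Fin t → Fin d) F) : Matrix (Fin t → Fin d) (Fin t → Fin d) F) *ᵥ z) h1
    simp only [Matrix.mulVec_mulVec, gl_inv_mul, Matrix.one_mulVec] at h3
    exact h3.symm

variable {ι : Type} [Fintype ι] [DecidableEq ι]

/-- A transvection does not preserve a tensor power decomposition. -/
theorem tv_not_wreath (hd : 3 ≤ d) (ht : 2 ≤ t) (σ : ι ≃ (Fin t → Fin d)) (P : GL ι F) {v w : ι → F} (hv : v ≠ 0) (hw : w ≠ 0)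
    (h : w ⬝ᵥ v = 0) : tv v w h ∉ tensorWreathSubgroup d t σ P := by
  intro hmem
  obtain ⟨k, hk, hk'⟩ := mem_tensorWreathSubgroup.1 hmem
  obtain ⟨π, g, hg⟩ := standard_pv hk
  have hre : ∀ (M : Matrix (Fin t → Fin d) (Fin t → Fin d) F) (z : (Fin t → Fin d) → F),
      Matrix.reindex σ.symm σ.symm M *ᵥ (z ∘ σ) = (M *ᵥ z) ∘ σ := by
    intro M z
    funext i
    simp only [Matrix.mulVec, dotProduct, Matrix.reindex_apply, Equiv.symm_symm, Matrix.submatrix_apply, Function.comp_apply]
    rw [← Equiv.sum_comp σ]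
  have key : ∀ u : Fin t → Fin d → F, (P : Matrix ι ι F) *ᵥ (pv (fun i => (g i : Matrix (Fin d) (Fin d) F) *ᵥ u (π i)) ∘ σ) =
      (P : Matrix ι ι F) *ᵥ (pv u ∘ σ) + (w ⬝ᵥ ((P : Matrix ι ι F) *ᵥ (pv u ∘ σ))) • v := by
    intro u
    rw [← tv_mulVec v w h, hk', psi_apply, Matrix.mulVec_mulVec, mul_assoc, gl_inv_mul, mul_one, ← Matrix.mulVec_mulVec, hre, hg]
  have hPinj : ∀ x y : (Fin t → Fin d) → F, (P : Matrix ι ι F) *ᵥ (x ∘ σ) = (P : Matrix ι ι F) *ᵥ (y ∘ σ) → x = y := by
    intro x y hxy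
    have h1 := congrArg (fun z => ((P⁻¹ : GL ι F) : Matrix ι ι F) *ᵥ z) hxy
    simp only [Matrix.mulVec_mulVec, gl_inv_mul, Matrix.one_mulVec] at h1
    funext a
    have := congrFun h1 (σ.symm a)
    simpa using this
  -- linearity in one factor
  have hlin : ∀ (u : Fin t → Fin d → F) (i : Fin t), ∃ f : Fin d → F, ∀ x,
      w ⬝ᵥ ((P : Matrix ι ι F) *ᵥ (pv (Function.update u i x) ∘ σ)) = f ⬝ᵥ x := by
    intro u i
    refine ⟨fun s => ∑ a : Fin t → Fin d, if a i = s then (w ᵥ* (P : Matrix ι ι F)) (σ.symm a) * ∏ j ∈ Finset.univ.erase i, u j (a j) else 0, fun x => ?_⟩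
    rw [Matrix.dotProduct_mulVec]
    simp only [dotProduct, Function.comp_apply]
    rw [← Equiv.sum_comp σ.symm]
    simp only [Finset.sum_mul]
    rw [Finset.sum_comm]
    refine Finset.sum_congr rfl fun a _ => ?_
    simp only [ite_mul, zero_mul, Finset.sum_ite_eq, Finset.mem_univ, if_true, Equiv.apply_symm_apply, pv]
    rw [← Finset.mul_prod_erase _ _ (Finset.mem_univ i), Function.update_self]
    have h2 : ∏ j ∈ Finset.univ.erase i, Function.update u i x j (a j) = ∏ j ∈ Finset.univ.erase i, u j (a j) := by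
      refine Finset.prod_congr rfl fun j hj => ?_
      rw [Function.update_of_ne (Finset.ne_of_mem_erase hj)]
    rw [h2]; ring
  have ginj : ∀ (b : GL (Fin d) F) (y : Fin d → F), y ≠ 0 → (b : Matrix (Fin d) (Fin d) F) *ᵥ y ≠ 0 := by
    intro b y hy h0
    apply hy
    have := congrArg (fun z => ((b⁻¹ : GL (Fin d) F) : Matrix (Fin d) (Fin d) F) *ᵥ z) h0
    simpa only [Matrix.mulVec_mulVec, gl_inv_mul, Matrix.one_mulVec, Matrix.mulVec_zero] using this
  let e0 : Fin d → F := Pi.single ⟨0, by omega⟩ 1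
  have he0 : e0 ≠ 0 := by
    intro h0
    have := congrFun h0 ⟨0, by omega⟩
    simp [e0] at this
  have hπ : π = 1 := by
    by_contra hne
    obtain ⟨i, hi⟩ : ∃ i, π i ≠ i := by
      by_contra hcon
      push Not at hcon
      exact hne (Equiv.ext hcon)
    let u : Fin t → Fin d → F := fun _ => e0
    set z : Fin d → F := (g i : Matrix (Fin d) (Fin d) F) *ᵥ e0 with hz
    have hz0 : z ≠ 0 := ginj _ _ he0
    obtain ⟨s, hs⟩ := Function.ne_iff.1 hz0
    rw [Pi.zero_apply] at hs
    obtain ⟨f, hf⟩ := hlin u i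
    obtain ⟨x, hx, h1, h2⟩ := exists_ne_dot₂ (by rw [Fintype.card_fin]; exact hd) f (Pi.single s 1)
    have h3 := key (Function.update u i x)
    rw [hf, h1, zero_smul, add_zero] at h3
    have h4 := hPinj _ _ h3
    have hne0 : ∀ j, Function.update u i x j ≠ 0 := by
      intro j
      by_cases hj : j = i
      · subst hj; rw [Function.update_self]; exact hx
      · rw [Function.update_of_ne hj]; exact he0
    obtain ⟨c, hc⟩ := pv_prop (u := Function.update u i x) hne0 h4.symm i
    rw [Function.update_self, Function.update_of_ne hi] at hc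
    -- hc : x = c • z
    have h5 : x s = c * z s := by rw [hc]; rfl
    rw [single_one_dotProduct] at h2
    rw [h2] at h5
    rcases mul_eq_zero.1 h5.symm with h | h
    · apply hx; rw [hc, h, zero_smul]
    · exact hs h
  subst hπ
  have hscal : ∀ i, ∃ c : F, (g i : Matrix (Fin d) (Fin d) F) = c • 1 := by
    intro i
    by_contra hcon
    push Not at hcon
    obtain ⟨x, hx⟩ := exists_not_eigen' hcon
    have hx0 : x ≠ 0 := by
      rintro rfl
      apply hx 0
      rw [Matrix.mulVec_zero, smul_zero]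
    obtain ⟨j, hj⟩ : ∃ j : Fin t, j ≠ i := by
      haveI : Nontrivial (Fin t) := Fin.nontrivial_iff_two_le.2 ht
      exact exists_ne i
    let u : Fin t → Fin d → F := Function.update (fun _ => e0) i x
    have hu0 : ∀ l, u l ≠ 0 := by
      intro l
      by_cases hl : l = i
      · subst hl; simp only [u, Function.update_self]; exact hx0
      · simp only [u, Function.update_of_ne hl]; exact he0
    obtain ⟨f, hf⟩ := hlin u j
    obtain ⟨y, hy, hfy⟩ := exists_ne_dot (by rw [Fintype.card_fin]; omega) f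
    have h3 := key (Function.update u j y)
    rw [hf, hfy, zero_smul, add_zero] at h3
    have h4 := hPinj _ _ h3
    have hne0 : ∀ l, (g l : Matrix (Fin d) (Fin d) F) *ᵥ Function.update u j y ((1 : Equiv.Perm (Fin t)) l) ≠ 0 := by
      intro l
      apply ginj
      rw [Equiv.Perm.one_apply]
      by_cases hl : l = j
      · subst hl; rw [Function.update_self]; exact hy
      · rw [Function.update_of_ne hl]; exact hu0 l
    obtain ⟨c, hc⟩ := pv_prop hne0 h4 i
    rw [Equiv.Perm.one_apply, Function.update_of_ne (Ne.symm hj)] at hc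
    simp only [u, Function.update_self] at hc
    exact hx c hc
  choose c hc using hscal
  -- everything is scalar on pure tensors
  have hall : ∀ u : Fin t → Fin d → F, ((∏ i, c i) - 1) • ((P : Matrix ι ι F) *ᵥ (pv u ∘ σ)) = (w ⬝ᵥ ((P : Matrix ι ι F) *ᵥ (pv u ∘ σ))) • v := by
    intro u
    have h1 := key u
    have h2 : pv (fun i => (g i : Matrix (Fin d) (Fin d) F) *ᵥ u ((1 : Equiv.Perm (Fin t)) i)) = (∏ i, c i) • pv u := by
      funext a
      simp only [pv, hc, Matrix.smul_mulVec, Matrix.one_mulVec, Pi.smul_apply, smul_eq_mul, Equiv.Perm.one_apply]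
      rw [Finset.prod_mul_distrib]
    rw [h2] at h1
    have h3 : ((∏ i, c i) • pv u) ∘ σ = (∏ i, c i) • (pv u ∘ σ) := rfl
    rw [h3, Matrix.mulVec_smul] at h1
    rw [sub_smul, one_smul, h1]
    abel
  -- choose a pure tensor killed by w
  obtain ⟨f, hf⟩ := hlin (fun _ => e0) ⟨0, by omega⟩
  obtain ⟨y, hy, hfy⟩ := exists_ne_dot (by rw [Fintype.card_fin]; omega) f
  have h1 := hall (Function.update (fun _ => e0) ⟨0, by omega⟩ y)
  rw [hf, hfy, zero_smul] at h1
  have hc1 : (∏ i, c i) - 1 = 0 := by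
    rcases smul_eq_zero.1 h1 with h | h
    · exact h
    · exfalso
      have h2 : pv (Function.update (fun _ => e0) (⟨0, by omega⟩ : Fin t) y) = 0 := by
        apply hPinj
        rw [h]
        have : (0 : (Fin t → Fin d) → F) ∘ σ = 0 := rfl
        rw [this, Matrix.mulVec_zero]
      have hne0 : ∀ l, Function.update (fun _ => e0) (⟨0, by omega⟩ : Fin t) y l ≠ 0 := by
        intro l
        by_cases hl : l = ⟨0, by omega⟩
        · subst hl; rw [Function.update_self]; exact hy
        · rw [Function.update_of_ne hl]; exact he0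
      have hex : ∀ j, ∃ s, Function.update (fun _ => e0) (⟨0, by omega⟩ : Fin t) y j s ≠ 0 := fun j => by
        obtain ⟨s, hs⟩ := Function.ne_iff.1 (hne0 j)
        exact ⟨s, hs⟩
      choose b hb using hex
      have := congrFun h2 b
      simp only [pv, Pi.zero_apply] at this
      exact (Finset.prod_ne_zero_iff.2 fun j _ => hb j) this
  have hall' : ∀ u : Fin t → Fin d → F, w ⬝ᵥ ((P : Matrix ι ι F) *ᵥ (pv u ∘ σ)) = 0 := by
    intro u
    have h2 := hall u
    rw [hc1, zero_smul] at h2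
    rcases smul_eq_zero.1 h2.symm with h | h
    · exact h
    · exact absurd h hv
  -- so w P = 0
  have hwP : w ᵥ* (P : Matrix ι ι F) = 0 := by
    funext i
    have h2 := hall' (fun j => Pi.single (σ i j) 1)
    have h3 : pv (fun j => (Pi.single (σ i j) 1 : Fin d → F)) ∘ σ = Pi.single i 1 := by
      funext l
      simp only [pv, Function.comp_apply]
      by_cases hl : l = i
      · subst hl
        simp
      · rw [Pi.single_eq_of_ne hl]
        have : σ l ≠ σ i := fun h => hl (σ.injective h)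
        obtain ⟨j, hj⟩ := Function.ne_iff.1 this
        exact Finset.prod_eq_zero (Finset.mem_univ j) (Pi.single_eq_of_ne hj _)
    rw [h3, Matrix.dotProduct_mulVec] at h2
    simpa using h2
  apply hw
  have := congrArg (fun z => z ᵥ* ((P⁻¹ : GL ι F) : Matrix ι ι F)) hwP
  simpa only [Matrix.vecMul_vecMul, gl_mul_inv, Matrix.vecMul_one, Matrix.zero_vecMul] using this

end wreath

end Cfsg.Agent.Lib.UnNot
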