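import Cfsg.Agent.Lib.AschO6
import Cfsg.Agent.Lib.OrthNot
import Cfsg.Agent.Lib.OrthNd
import Cfsg.Agent.Lib.SLNot
import Cfsg.Agent.Lib.UnNot2

/-!
The groups `Ω` of a quadratic form are not contained in the geometric subgroups.
-/

set_option autoImplicit false
set_option linter.style.haveILetI false
set_option linter.unusedVariables false
set_option linter.unusedSectionVars false

namespace Cfsg.Agent.Lib.ONot

open Cfsg Cfsg.Geo Module QuadraticMap Cfsg.Agent.Lib.Quad Cfsg.Agent.Lib.OrthMax Cfsg.Agent.Lib.OrthNd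
  Cfsg.Agent.Lib.OrthNot Cfsg.Agent.Lib.OrthBridge
open Cfsg.Agent.Lib.GeoBridge (le)
open Cfsg.Agent.Lib.AschCore Cfsg.Agent.Lib.AschField Cfsg.Agent.Lib.AschAlg Cfsg.Agent.Lib.AschGroup Cfsg.Agent.Lib.AschMU Cfsg.Agent.Lib.AschGood Cfsg.Agent.Lib.AschNonab
open Cfsg.Agent.Lib.SLNot (kLeft kRight exists_not_eigen)
open scoped Matrix MatrixGroups Kronecker

section sing
variable {F V : Type*} [Field F] [Finite F] [AddCommGroup V] [Module F V] [FiniteDimensional F V] {Q : QuadraticForm F V}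

lemma nds_top (hQ : Nd Q) : NDs Q (⊤ : Submodule F V) := by
  rw [NDs, top_inf_eq, eq_bot_iff]
  intro x hx
  rw [Submodule.mem_bot]
  exact hQ.eq_zero fun y => by rw [polar_comm]; exact mem_perp.1 hx y trivial

lemma exists_sing (hQ : Nd Q) (h3 : 3 ≤ finrank F V) : ∃ z : V, z ≠ 0 ∧ Q z = 0 := by
  obtain ⟨z, -, hz0, hz⟩ := exists_sing_in (Q := Q) (⊤ : Submodule F V) (by rwa [finrank_top])
  exact ⟨z, hz0, hz⟩

/-- In dimension at least five every singular vector is orthogonal to a hyperbolic pair. -/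
lemma exists_two (hQ : Nd Q) (h5 : 5 ≤ finrank F V) {z : V} (hz : Q z = 0) (hz0 : z ≠ 0) :
    ∃ y y', Q y = 0 ∧ Q y' = 0 ∧ polar Q z y = 0 ∧ polar Q z y' = 0 ∧ polar Q y y' = 1 := by
  obtain ⟨w, -, hw, hzw⟩ := exists_partner hQ (nds_top hQ) (z := z) trivial hz0 hz
  have h1 := nds_cut hQ (nds_top hQ) (e := z) (f := w) trivial trivial hz hw hzw
  have h2 := finrank_cut hQ (⊤ : Submodule F V) z w
  rw [finrank_top] at h2
  obtain ⟨e, he, f, hf, hQe, hQf, hef⟩ := exists_pair_in hQ h1 (by omega)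
  exact ⟨e, f, hQe, hQf, (mem_cut.1 he).2.1, (mem_cut.1 hf).2.1, hef⟩

end sing

variable {ι : Type} [Fintype ι] [DecidableEq ι] {F : Type*} [Field F] [Fintype F] {Q : QuadraticForm F (ι → F)}

/-- the nilpotent part of a root element -/
def nz (Q : QuadraticForm F (ι → F)) (z y x : ι → F) : ι → F := polar Q z x • y - polar Q y x • z

/-- Root elements. -/
lemma root (hQ : Nd Q) (hgen : GenHyp Q) {z y : ι → F} (hz : Q z = 0) (hy : Q y = 0) (hzy : polar Q z y = 0) :
    ∃ g ∈ omegaGL ⇑Q, ∀ x, (g : Matrix ι ι F) *ᵥ x = x + nz Q z y x := by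
  obtain ⟨g, hg, hgx⟩ := stab_of_sieg hQ hgen hz hzy
  refine ⟨le.symm g, ?_, fun x => ?_⟩
  · rw [mem_omegaGL_iff, MulEquiv.apply_symm_apply]; exact hg
  · rw [Cfsg.Agent.Lib.GeoBridge.le_symm_mulVec, hgx, siegMap_apply, hy, nz]
    simp only [zero_mul, zero_smul, sub_zero]
    abel

lemma nz_add (z y x x' : ι → F) : nz Q z y (x + x') = nz Q z y x + nz Q z y x' := by
  unfold nz
  rw [polar_add_right, polar_add_right, add_smul, add_smul]
  abel

lemma nz_smul (z y : ι → F) (c : F) (x : ι → F) : nz Q z y (c • x) = c • nz Q z y x := by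
  unfold nz
  rw [polar_smul_right, polar_smul_right, smul_sub, smul_smul, smul_smul, smul_eq_mul, smul_eq_mul]

lemma nz_sub (z y x x' : ι → F) : nz Q z y (x - x') = nz Q z y x - nz Q z y x' := by
  unfold nz
  rw [polar_sub_right, polar_sub_right, sub_smul, sub_smul]
  abel

lemma nz_smul_left (c : F) (z y x : ι → F) : nz Q (c • z) y x = c • nz Q z y x := by
  unfold nz
  rw [polar_smul_left, smul_sub, smul_smul, smul_eq_mul, smul_smul, smul_smul, mul_comm (polar Q y x) c]

/-- A matrix commuting with all root elements has all singular vectors as eigenvectors. -/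
lemma eig_of_comm (hQ : Nd Q) (h5 : 5 ≤ Fintype.card ι) {X : Matrix ι ι F}
    (hX : ∀ z y, Q z = 0 → Q y = 0 → polar Q z y = 0 → ∀ x, X *ᵥ (nz Q z y x) = nz Q z y (X *ᵥ x))
    {z : ι → F} (hz : Q z = 0) : ∃ c : F, X *ᵥ z = c • z := by
  by_cases hz0 : z = 0
  · exact ⟨0, by rw [hz0, Matrix.mulVec_zero, smul_zero]⟩
  obtain ⟨y, y', hy, hy', hzy, hzy', hyy'⟩ := exists_two hQ (by rw [Module.finrank_fintype_fun_eq_card]; exact h5) hz hz0
  have hyy : polar Q y' y = 1 := by rw [polar_comm]; exact hyy'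
  have h1 := hX z y hz hy hzy y'
  have h2 := hX z y' hz hy' hzy' y
  have e1 : nz Q z y y' = -z := by
    unfold nz; rw [hzy', hyy', zero_smul, one_smul, zero_sub]
  have e2 : nz Q z y' y = -z := by
    unfold nz; rw [hzy, hyy, zero_smul, one_smul, zero_sub]
  rw [e1] at h1
  rw [e2] at h2
  unfold nz at h1 h2
  -- compare the two expressions
  have h3 := congrArg (fun v => polar Q y' v) (h1.symm.trans h2)
  simp only [polar_sub_right, polar_smul_right, hyy, polar_self', hy', mul_zero, smul_eq_mul, mul_one] at h3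
  have hy'z : polar Q y' z = 0 := by rw [polar_comm]; exact hzy'
  rw [hy'z, mul_zero, mul_zero, sub_zero, sub_zero] at h3
  rw [h3, zero_smul, zero_sub, Matrix.mulVec_neg] at h1
  exact ⟨polar Q y (X *ᵥ y'), neg_injective h1⟩

/-- a common zero of few linear forms -/
lemma exists_common_zero {V : Type*} [AddCommGroup V] [Module F V] [FiniteDimensional F V] {m : ℕ} (h : m < finrank F V)
    (φ : Fin m → V →ₗ[F] F) : ∃ x : V, x ≠ 0 ∧ ∀ i, φ i x = 0 := by
  have h1 : LinearMap.ker (LinearMap.pi φ) ≠ ⊥ := LinearMap.ker_ne_bot_of_finrank_lt (by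
    rw [Module.finrank_fin_fun]; exact h)
  obtain ⟨x, hx, hx0⟩ := Submodule.exists_mem_ne_zero_of_ne_bot h1
  exact ⟨x, hx0, fun i => congrFun (LinearMap.mem_ker.1 hx) i⟩



/-- A field subalgebra of dimension at least two contains an element without eigenvector `z`. -/
lemma field_eig {r : ℕ} (hr : 2 ≤ r) {K : Subalgebra F (Matrix ι ι F)} (hK : IsFieldSubalgebra r K) {z : ι → F} (hz0 : z ≠ 0)
    (h : ∀ k ∈ K, ∃ c : F, k *ᵥ z = c • z) : False := by
  have h1 : K = ⊥ := by
    apply eq_bot_of_scalar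
    intro k hk
    obtain ⟨c, hc⟩ := h k hk
    refine ⟨c, ?_⟩
    by_contra hne
    have hmem : k - c • (1 : Matrix ι ι F) ∈ K := K.sub_mem hk (K.smul_mem K.one_mem c)
    obtain ⟨w, hw, hw1⟩ := hK.inv _ hmem (sub_ne_zero.2 hne)
    rw [hK.comm _ hmem _ hw] at hw1
    apply hz0
    have h3 : w *ᵥ ((k - c • (1 : Matrix ι ι F)) *ᵥ z) = z := by
      rw [Matrix.mulVec_mulVec, hw1, Matrix.one_mulVec]
    rw [← h3, Matrix.sub_mulVec, hc, Matrix.smul_mulVec, Matrix.one_mulVec, sub_self, Matrix.mulVec_zero]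
  have h2 := hK.finrank_eq
  have hne : Nonempty ι := by
    by_contra hcon
    apply hz0
    funext i
    exact absurd ⟨i⟩ hcon
  rw [h1, Subalgebra.finrank_bot] at h2
  omega

/-- `Ω` does not normalise field subalgebras. -/
theorem not_le_field (hQ : Nd Q) (hgen : GenHyp Q) (h5 : 5 ≤ Fintype.card ι) {r : ℕ} (hr : 2 ≤ r) {K : Subalgebra F (Matrix ι ι F)}
    (hK : IsFieldSubalgebra r K) : ¬ omegaGL ⇑Q ≤ subalgebraNormalizer K := by
  intro hle
  have hcomm : ∀ k ∈ K, ∀ z y, Q z = 0 → Q y = 0 → polar Q z y = 0 → ∀ x, k *ᵥ (nz Q z y x) = nz Q z y (k *ᵥ x) := by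
    intro k hk z y hz hy hzy
    obtain ⟨g, hg, hgx⟩ := root hQ hgen hz hy hzy
    have hk' : cj g k ∈ K := cj_mem_of_le hle hg hk
    have hrel : ∀ x, cj g k *ᵥ (x + nz Q z y x) = k *ᵥ x + nz Q z y (k *ᵥ x) := by
      intro x
      rw [← hgx, ← hgx, Matrix.mulVec_mulVec, Matrix.mulVec_mulVec, cj_apply, Matrix.mul_assoc, gl_inv_mul, mul_one]
    have heq : cj g k = k := by
      by_contra hne
      have hmem : cj g k - k ∈ K := K.sub_mem hk' hk
      obtain ⟨w, hw, hw1⟩ := hK.inv _ hmem (sub_ne_zero.2 hne)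
      rw [hK.comm _ hmem _ hw] at hw1
      obtain ⟨x, hx0, hx⟩ := exists_common_zero (F := F) (V := ι → F) (m := 4)
        (by rw [Module.finrank_fintype_fun_eq_card]; omega)
        ![polarBilin Q z, polarBilin Q y, (polarBilin Q z) ∘ₗ Matrix.toLin' k, (polarBilin Q y) ∘ₗ Matrix.toLin' k]
      have hx1 : polar Q z x = 0 := hx 0
      have hx2 : polar Q y x = 0 := hx 1
      have hx3 : polar Q z (k *ᵥ x) = 0 := hx 2
      have hx4 : polar Q y (k *ᵥ x) = 0 := hx 3
      have h1 := hrel x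
      unfold nz at h1
      simp only [hx1, hx2, hx3, hx4, zero_smul, sub_zero, add_zero] at h1
      apply hx0
      have h3 : w *ᵥ ((cj g k - k) *ᵥ x) = x := by
        rw [Matrix.mulVec_mulVec, hw1, Matrix.one_mulVec]
      rw [← h3, Matrix.sub_mulVec, h1, sub_self, Matrix.mulVec_zero]
    intro x
    have h1 := hrel x
    rw [heq, Matrix.mulVec_add] at h1
    exact add_left_cancel h1
  obtain ⟨z, hz0, hz⟩ := exists_sing hQ (by rw [Module.finrank_fintype_fun_eq_card]; omega)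
  exact field_eig hr hK hz0 fun k hk => eig_of_comm hQ h5 (hcomm k hk) hz


/-! ### Tensor products -/
open Cfsg.Agent.Lib.TensorGeo (tp tpB tpB_apply tp_smul_left tp_smul_right tp_add_left tp_add_right tp_zero_left tp_zero_right mem_tensor_iff)


/-- No common eigenvector for a matrix algebra of degree at least two. -/
theorem no_common_eig {k : ℕ} (hk : 2 ≤ k) (ψ : Matrix (Fin k) (Fin k) F →ₐ[F] Matrix ι ι F) {w : ι → F} (hw : w ≠ 0)
    (h1 : ∀ y, ∃ c : F, ψ y *ᵥ w = c • w) : False := by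
  choose c hc using h1
  have hoff : ∀ a b : Fin k, a ≠ b → ψ (Matrix.single a b 1) *ᵥ w = 0 := by
    intro a b hab
    have h2 : ψ (Matrix.single a b 1) *ᵥ (ψ (Matrix.single a b 1) *ᵥ w) = 0 := by
      rw [Matrix.mulVec_mulVec, ← map_mul, Matrix.single_mul_single_of_ne _ _ _ _ hab.symm, map_zero, Matrix.zero_mulVec]
    rw [hc, Matrix.mulVec_smul, hc, smul_smul] at h2
    rcases smul_eq_zero.1 h2 with h3 | h3
    · rw [hc, mul_self_eq_zero.1 h3, zero_smul]
    · exact absurd h3 hw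
  have hdiag : ∀ a : Fin k, ψ (Matrix.single a a 1) *ᵥ w = 0 := by
    intro a
    obtain ⟨b, hb⟩ : ∃ b : Fin k, b ≠ a := by
      by_cases ha : a = ⟨0, by omega⟩
      · exact ⟨⟨1, by omega⟩, by rw [ha]; intro h; simpa using congrArg Fin.val h⟩
      · exact ⟨⟨0, by omega⟩, Ne.symm ha⟩
    have h2 : (Matrix.single a a 1 : Matrix (Fin k) (Fin k) F) = Matrix.single a b 1 * Matrix.single b a 1 := by
      rw [Matrix.single_mul_single_same, mul_one]
    rw [h2, map_mul, ← Matrix.mulVec_mulVec, hoff b a hb, Matrix.mulVec_zero]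
  apply hw
  have h3 : ψ (∑ a, Matrix.single a a 1) *ᵥ w = 0 := by
    rw [map_sum, Matrix.sum_mulVec]
    exact Finset.sum_eq_zero fun a _ => hdiag a
  rwa [(isMatrixUnits_single (Fin k) F).one, map_one, Matrix.one_mulVec] at h3

/-- `X ⊗ 1` -/
lemma kron_left_mulVec {d e : ℕ} (ρ : ι ≃ Fin d × Fin e) (P : GL ι F) (X : Matrix (Fin d) (Fin d) F) (x₁ : Fin d → F) (x₂ : Fin e → F) :
    kLeft ρ P X *ᵥ (tp ρ P x₁ x₂) = tp ρ P (X *ᵥ x₁) x₂ := by
  show cj P (kronL ρ X 1) *ᵥ _ = _
  rw [tp, cj_apply, Matrix.mulVec_mulVec, Matrix.mul_assoc _ _ (P : Matrix ι ι F), gl_inv_mul, mul_one, ← Matrix.mulVec_mulVec,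
    AschO.kron_pure, Matrix.one_mulVec, tp]

lemma tp_ne_zero {d e : ℕ} {ρ : ι ≃ Fin d × Fin e} {P : GL ι F} {x₁ : Fin d → F} {x₂ : Fin e → F} (h1 : x₁ ≠ 0) (h2 : x₂ ≠ 0) :
    tp ρ P x₁ x₂ ≠ 0 := by
  intro h0
  obtain ⟨a, ha⟩ := Function.ne_iff.1 h1
  obtain ⟨b, hb⟩ := Function.ne_iff.1 h2
  have h3 := congrArg (fun v => ((P⁻¹ : GL ι F) : Matrix ι ι F) *ᵥ v) h0
  simp only [tp, Matrix.mulVec_mulVec, gl_inv_mul, Matrix.one_mulVec, Matrix.mulVec_zero] at h3
  have h4 := congrFun h3 (ρ.symm (a, b))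
  simp only [Function.comp_apply, Equiv.apply_symm_apply, Pi.zero_apply] at h4
  rcases mul_eq_zero.1 h4 with h | h
  · exact ha h
  · exact hb h

lemma tp_prop {d e : ℕ} {ρ : ι ≃ Fin d × Fin e} {P : GL ι F} {x₁ y₁ : Fin d → F} {x₂ y₂ : Fin e → F} (h1 : x₁ ≠ 0) (h2 : x₂ ≠ 0)
    (h : tp ρ P y₁ y₂ = tp ρ P x₁ x₂) : ∃ c : F, y₁ = c • x₁ := by
  have h3 := congrArg (fun v => ((P⁻¹ : GL ι F) : Matrix ι ι F) *ᵥ v) h
  simp only [tp, Matrix.mulVec_mulVec, gl_inv_mul, Matrix.one_mulVec] at h3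
  have h4 : ∀ a b, y₁ a * y₂ b = x₁ a * x₂ b := fun a b => by
    have := congrFun h3 (ρ.symm (a, b))
    simpa using this
  obtain ⟨a, ha⟩ := Function.ne_iff.1 h1
  obtain ⟨b, hb⟩ := Function.ne_iff.1 h2
  rw [Pi.zero_apply] at ha hb
  have hy2 : y₂ b ≠ 0 := by
    intro h0
    have := h4 a b
    rw [h0, mul_zero] at this
    exact mul_ne_zero ha hb this.symm
  refine ⟨x₂ b / y₂ b, ?_⟩
  funext a'
  rw [Pi.smul_apply, smul_eq_mul]
  field_simp
  rw [h4, mul_comm]

/-- If all root elements preserve a tensor decomposition we get a contradiction. -/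
theorem tensor_false (hQ : Nd Q) (h5 : 5 ≤ Fintype.card ι) {d e : ℕ} (hd : 2 ≤ d) (he : 3 ≤ e)
    (ρ : ι ≃ Fin d × Fin e) (P : GL ι F)
    (h : ∀ z y, Q z = 0 → Q y = 0 → polar Q z y = 0 → ∃ g ∈ tensorProductSubgroup d e ρ P, ∀ x, (g : Matrix ι ι F) *ᵥ x = x + nz Q z y x) :
    False := by
  obtain ⟨z, hz0, hz⟩ := exists_sing hQ (by rw [Module.finrank_fintype_fun_eq_card]; omega)
  refine no_common_eig hd (kLeft ρ P) hz0 fun X => eig_of_comm hQ h5 ?_ hz
  clear hz0 hz z
  intro z y hz hy hzy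
  obtain ⟨g, hg, hgx⟩ := h z y hz hy hzy
  obtain ⟨A, B, hAB⟩ := (mem_tensor_iff g).1 hg
  have hAB' : ∀ x₁ x₂, (g : Matrix ι ι F) *ᵥ (tp ρ P x₁ x₂) = tp ρ P (A.1 *ᵥ x₁) (B.1 *ᵥ x₂) := hAB
  -- `A` is scalar
  obtain ⟨c, hc⟩ : ∃ c : F, (A : Matrix (Fin d) (Fin d) F) = c • (1 : Matrix (Fin d) (Fin d) F) := by
    by_contra hcon
    push Not at hcon
    obtain ⟨v, hv⟩ := exists_not_eigen hcon
    have hv0 : v ≠ 0 := by
      rintro rfl
      exact hv (by rw [Matrix.mulVec_zero]; exact Submodule.zero_mem _)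
    obtain ⟨w, hw0, hw⟩ := exists_common_zero (F := F) (V := Fin e → F) (m := 2)
      (by rw [Module.finrank_fin_fun]; omega)
      ![(polarBilin Q z) ∘ₗ tpB ρ P v, (polarBilin Q y) ∘ₗ tpB ρ P v]
    have hw1 : polar Q z (tp ρ P v w) = 0 := hw 0
    have hw2 : polar Q y (tp ρ P v w) = 0 := hw 1
    have h1 := hAB' v w
    rw [hgx, nz, hw1, hw2, zero_smul, zero_smul, sub_zero, add_zero] at h1
    obtain ⟨c, hc⟩ := tp_prop hv0 hw0 h1.symm
    exact hv (Submodule.mem_span_singleton.2 ⟨c, hc.symm⟩)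
  have hcomm : ∀ x, kLeft ρ P X *ᵥ ((g : Matrix ι ι F) *ᵥ x) = (g : Matrix ι ι F) *ᵥ (kLeft ρ P X *ᵥ x) := by
    intro x
    have hx : x ∈ Submodule.span F {v | ∃ x₁ x₂, v = tp ρ P x₁ x₂} := by
      rw [Cfsg.Agent.Lib.TensorGeo.span_tp]; trivial
    induction hx using Submodule.span_induction with
    | mem x hx =>
      obtain ⟨x₁, x₂, rfl⟩ := hx
      rw [hAB', kron_left_mulVec, kron_left_mulVec, hAB', hc]
      simp only [Matrix.smul_mulVec, Matrix.one_mulVec, Matrix.mulVec_smul]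
    | zero => simp only [Matrix.mulVec_zero]
    | add x x' _ _ ih ih' => simp only [Matrix.mulVec_add, ih, ih']
    | smul a x _ ih => simp only [Matrix.mulVec_smul, ih]
  intro x
  have h1 := hcomm x
  rw [hgx, hgx, Matrix.mulVec_add] at h1
  exact add_left_cancel h1

theorem not_le_tensor (hQ : Nd Q) (hgen : GenHyp Q) (h5 : 5 ≤ Fintype.card ι) {d e : ℕ} (hd : 2 ≤ d) (he : 3 ≤ e)
    (ρ : ι ≃ Fin d × Fin e) (P : GL ι F) : ¬ omegaGL ⇑Q ≤ tensorProductSubgroup d e ρ P := by
  intro hle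
  refine tensor_false hQ h5 hd he ρ P fun z y hz hy hzy => ?_
  obtain ⟨g, hg, hgx⟩ := root hQ hgen hz hy hzy
  exact ⟨g, hle hg, hgx⟩


lemma nz_nz {z y : ι → F} (hz : Q z = 0) (hy : Q y = 0) (hzy : polar Q z y = 0) (x : ι → F) : nz Q z y (nz Q z y x) = 0 := by
  have hyz : polar Q y z = 0 := by rw [polar_comm]; exact hzy
  have h1 : polar Q z (nz Q z y x) = 0 := by
    unfold nz
    rw [polar_sub_right, polar_smul_right, polar_smul_right, hzy, polar_self', hz, smul_zero, mul_zero, smul_zero, sub_zero]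
  have h2 : polar Q y (nz Q z y x) = 0 := by
    unfold nz
    rw [polar_sub_right, polar_smul_right, polar_smul_right, hyz, polar_self', hy, smul_zero, mul_zero, smul_zero, sub_zero]
  rw [nz, h1, h2, zero_smul, zero_smul, sub_zero]

/-! ### Tensor squares -/
lemma wreath_sq {d : ℕ} {σ : ι ≃ (Fin 2 → Fin d)} {P : GL ι F} {g : GL ι F} (hg : g ∈ tensorWreathSubgroup d 2 σ P) :
    g * g ∈ tensorProductSubgroup d d (σ.trans (finTwoArrowEquiv (Fin d))) P := by
  obtain ⟨k, hk, hk'⟩ := AschTensor.mem_tensorWreathSubgroup.1 hg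
  obtain ⟨π, A, hA⟩ := UnNot.standard_pv hk
  rw [mem_tensor_iff]
  refine ⟨A 0 * A (π 0), A 1 * A (π 1), fun x₁ x₂ => ?_⟩
  have hre : ∀ (M : Matrix (Fin 2 → Fin d) (Fin 2 → Fin d) F) (z : (Fin 2 → Fin d) → F),
      Matrix.reindex σ.symm σ.symm M *ᵥ (z ∘ σ) = (M *ᵥ z) ∘ σ := by
    intro M z
    funext i
    simp only [Matrix.mulVec, dotProduct, Matrix.reindex_apply, Equiv.symm_symm, Matrix.submatrix_apply, Function.comp_apply]
    rw [← Equiv.sum_comp σ]
  have hgv : ∀ u : Fin 2 → Fin d → F, (g : Matrix ι ι F) *ᵥ ((P : Matrix ι ι F) *ᵥ (UnNot.pv u ∘ σ)) =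
      (P : Matrix ι ι F) *ᵥ (UnNot.pv (fun i => (A i : Matrix (Fin d) (Fin d) F) *ᵥ u (π i)) ∘ σ) := by
    intro u
    rw [hk', AschTensor.psi_apply, Matrix.mulVec_mulVec, mul_assoc, gl_inv_mul, mul_one, ← Matrix.mulVec_mulVec, hre, hA]
  have htp : ∀ u : Fin 2 → Fin d → F, tp (σ.trans (finTwoArrowEquiv (Fin d))) P (u 0) (u 1) = (P : Matrix ι ι F) *ᵥ (UnNot.pv u ∘ σ) := by
    intro u
    rw [tp]
    congr 1
    funext i
    simp only [Function.comp_apply, Equiv.trans_apply, UnNot.pv, Fin.prod_univ_two]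
    rfl
  have h1 : tp (σ.trans (finTwoArrowEquiv (Fin d))) P x₁ x₂ = (P : Matrix ι ι F) *ᵥ (UnNot.pv ![x₁, x₂] ∘ σ) := htp ![x₁, x₂]
  show ((g * g : GL ι F) : Matrix ι ι F) *ᵥ _ = _
  rw [Units.val_mul, ← Matrix.mulVec_mulVec, h1, hgv, hgv, ← htp]
  have hππ : ∀ i, π (π i) = i := by
    intro i
    have : ∀ (π : Equiv.Perm (Fin 2)) (i : Fin 2), π (π i) = i := by decide
    exact this π i
  simp only [Matrix.mulVec_mulVec, hππ, Units.val_mul]
  rfl

/-- `Ω` does not preserve a tensor square (odd characteristic). -/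
theorem not_le_wreath (hQ : Nd Q) (hgen : GenHyp Q) (h2 : (2 : F) ≠ 0) (h5 : 5 ≤ Fintype.card ι) {d : ℕ} (hd : 3 ≤ d)
    (σ : ι ≃ (Fin 2 → Fin d)) (P : GL ι F) : ¬ omegaGL ⇑Q ≤ tensorWreathSubgroup d 2 σ P := by
  intro hle
  refine tensor_false hQ h5 (by omega : 2 ≤ d) hd (σ.trans (finTwoArrowEquiv (Fin d))) P fun z y hz hy hzy => ?_
  have hz2 : Q ((2 : F)⁻¹ • z) = 0 := by rw [Q_smul, hz, mul_zero]
  have hzy2 : polar Q ((2 : F)⁻¹ • z) y = 0 := by rw [polar_smul_left, hzy, smul_zero]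
  obtain ⟨g, hg, hgx⟩ := root hQ hgen hz2 hy hzy2
  refine ⟨g * g, wreath_sq (hle hg), fun x => ?_⟩
  rw [Units.val_mul, ← Matrix.mulVec_mulVec, hgx, hgx, nz_add, nz_nz hz2 hy hzy2, nz_smul_left, add_zero, add_assoc, ← add_smul]
  have : (2 : F)⁻¹ + 2⁻¹ = 1 := by field_simp; norm_num
  rw [this, one_smul]

/-! ### Subfields -/

/-- `Ω` is not contained in a subfield subgroup. -/
theorem not_le_subfield (hQ : Nd Q) (hgen : GenHyp Q) (h5 : 5 ≤ Fintype.card ι) {F₀ : Subfield F} (hF₀ : F₀ ≠ ⊤) (P : GL ι F) :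
    ¬ omegaGL ⇑Q ≤ subfieldSubgroup F₀ P := by
  classical
  intro hle
  obtain ⟨p, hp⟩ := CharP.exists F
  have hpp : p.Prime := CharP.char_is_prime F p
  haveI := Fact.mk hpp
  have hp0 : (p : F) = 0 := CharP.cast_eq_zero F p
  obtain ⟨z, hz0, hz⟩ := exists_sing hQ (by rw [Module.finrank_fintype_fun_eq_card]; omega)
  obtain ⟨y, y', hy, hy', hzy, hzy', hyy'⟩ := exists_two hQ (by rw [Module.finrank_fintype_fun_eq_card]; exact h5) hz hz0
  -- rationality of the root elements
  have hrat : ∀ l : F, ∃ M : Matrix ι ι F, (∀ i j, M i j ∈ F₀) ∧ ∀ x, (P : Matrix ι ι F) *ᵥ (M *ᵥ x) = l • nz Q z y ((P : Matrix ι ι F) *ᵥ x) := by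
    intro l
    have hlz : Q (l • z) = 0 := by rw [Q_smul, hz, mul_zero]
    have hlzy : polar Q (l • z) y = 0 := by rw [polar_smul_left, hzy, smul_zero]
    obtain ⟨g, hg, hgx⟩ := root hQ hgen hlz hy hlzy
    obtain ⟨c, a, hca⟩ := AschDescent.mem_subfieldSubgroup.1 (hle hg)
    have hpow : ∀ m : ℕ, ∀ x, ((g ^ m : GL ι F) : Matrix ι ι F) *ᵥ x = x + (m : F) • nz Q (l • z) y x := by
      intro m
      induction m with
      | zero => intro x; simp
      | succ m ih =>
        intro x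
        rw [pow_succ, Units.val_mul, ← Matrix.mulVec_mulVec, hgx, ih, nz_add, nz_nz hlz hy hlzy, add_zero, add_assoc]
        congr 1
        push_cast
        rw [add_smul, one_smul, add_comm]
    have hgp : g ^ p = 1 := by
      apply Units.ext
      apply Matrix.toLin'.injective
      apply LinearMap.ext
      intro x
      rw [Matrix.toLin'_apply, hpow, hp0, zero_smul, add_zero, Units.val_one, Matrix.toLin'_one, LinearMap.id_apply]
    have hconj : ((P⁻¹ * g * P : GL ι F) : Matrix ι ι F) = (c : F) • ((a : Matrix ι ι F₀).map F₀.subtype) := by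
      rw [Units.val_mul, Units.val_mul, hca]
      simp only [Matrix.mul_smul, Matrix.smul_mul, ← Matrix.mul_assoc]
      rw [gl_inv_mul, Matrix.one_mul, Matrix.mul_assoc, gl_inv_mul, Matrix.mul_one]
    have hconjp : (P⁻¹ * g * P) ^ p = 1 := by
      have : P⁻¹ * g * P = P⁻¹ * g * (P⁻¹)⁻¹ := by rw [inv_inv]
      rw [this, conj_pow, hgp, mul_one, mul_inv_cancel]
    obtain ⟨i₀⟩ : Nonempty ι := Fintype.card_pos_iff.1 (by omega)
    have hcp : (c : F) ^ p ∈ F₀ := by
      have h1 := congrArg (fun x : GL ι F => (x : Matrix ι ι F)) hconjp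
      simp only [Units.val_pow_eq_pow_val, Units.val_one] at h1
      rw [hconj, smul_pow, ← Matrix.map_pow] at h1
      have h3 := congrFun (congrFun h1 i₀) i₀
      rw [Matrix.smul_apply, Matrix.map_apply, Matrix.one_apply_eq, smul_eq_mul] at h3
      have h4 : F₀.subtype (((a : Matrix ι ι F₀) ^ p) i₀ i₀) ≠ 0 := by
        intro h0
        rw [h0, mul_zero] at h3
        exact zero_ne_one h3
      have h5 : (c : F) ^ p = (F₀.subtype (((a : Matrix ι ι F₀) ^ p) i₀ i₀))⁻¹ := by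
        field_simp
        exact h3
      rw [h5]
      exact F₀.inv_mem (Subtype.mem _)
    have hc : (c : F) ∈ F₀ := by
      obtain ⟨b, hb⟩ := (Finite.injective_iff_surjective.1 (frobenius_inj F₀ p)) ⟨(c : F) ^ p, hcp⟩
      have h1 : ((b : F₀) : F) ^ p = (c : F) ^ p := by
        have := congrArg Subtype.val hb
        rw [frobenius_def] at this
        exact this
      have h2 : ((b : F₀) : F) = (c : F) := frobenius_inj F p (by rw [frobenius_def, frobenius_def]; exact h1)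
      rw [← h2]; exact b.2
    refine ⟨(c : F) • ((a : Matrix ι ι F₀).map F₀.subtype) - 1, fun i j => ?_, fun x => ?_⟩
    · rw [Matrix.sub_apply, Matrix.smul_apply, Matrix.map_apply, smul_eq_mul]
      refine F₀.sub_mem (F₀.mul_mem hc (Subtype.mem _)) ?_
      by_cases hij : i = j
      · rw [hij, Matrix.one_apply_eq]; exact F₀.one_mem
      · rw [Matrix.one_apply_ne hij]; exact F₀.zero_mem
    · rw [← hconj, Units.val_mul, Units.val_mul, Matrix.sub_mulVec, Matrix.one_mulVec, Matrix.mulVec_sub, Matrix.mulVec_mulVec,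
        ← Matrix.mul_assoc, ← Matrix.mul_assoc, gl_mul_inv, one_mul, ← Matrix.mulVec_mulVec, hgx, add_sub_cancel_left, nz_smul_left]
  have hPinj : ∀ u v : ι → F, (P : Matrix ι ι F) *ᵥ u = (P : Matrix ι ι F) *ᵥ v → u = v := by
    intro u v h
    have h1 := congrArg (fun z => ((P⁻¹ : GL ι F) : Matrix ι ι F) *ᵥ z) h
    simpa only [Matrix.mulVec_mulVec, gl_inv_mul, Matrix.one_mulVec] using h1
  obtain ⟨M₁, hM₁, hM₁x⟩ := hrat 1
  have hne : ∃ i j, M₁ i j ≠ 0 := by
    by_contra hcon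
    push Not at hcon
    have h0 : M₁ = 0 := by ext i j; exact hcon i j
    have h1 := hM₁x (((P⁻¹ : GL ι F) : Matrix ι ι F) *ᵥ y')
    rw [h0, Matrix.zero_mulVec, Matrix.mulVec_zero, one_smul, Matrix.mulVec_mulVec, gl_mul_inv, Matrix.one_mulVec, nz, hzy', hyy',
      zero_smul, one_smul, zero_sub] at h1
    exact hz0 (neg_eq_zero.1 h1.symm)
  obtain ⟨i, j, hij⟩ := hne
  apply hF₀
  rw [eq_top_iff]
  intro l _
  obtain ⟨M, hM, hMx⟩ := hrat l
  have h1 : M = l • M₁ := by
    apply Matrix.toLin'.injective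
    apply LinearMap.ext
    intro x
    rw [Matrix.toLin'_apply, Matrix.toLin'_apply, Matrix.smul_mulVec]
    apply hPinj
    rw [hMx, Matrix.mulVec_smul, hM₁x, one_smul]
  have h2 : l = M i j * (M₁ i j)⁻¹ := by
    rw [h1, Matrix.smul_apply, smul_eq_mul]
    field_simp
  rw [h2]
  exact F₀.mul_mem (hM i j) (F₀.inv_mem (hM₁ i j))


/-! ### Decompositions -/

/-- The singular vectors span. -/
lemma exists_sing_polar {F V : Type*} [Field F] [Finite F] [AddCommGroup V] [Module F V] [FiniteDimensional F V]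
    {Q : QuadraticForm F V} (hQ : Nd Q) (h3 : 3 ≤ finrank F V) {x : V} (hx : x ≠ 0) : ∃ z, Q z = 0 ∧ polar Q x z ≠ 0 := by
  obtain ⟨e, -, f, -, he, hf, hef⟩ := exists_pair_in hQ (nds_top hQ) (by rwa [finrank_top])
  by_cases h1 : polar Q x e = 0
  · by_cases h2 : polar Q x f = 0
    · have hnd := nds_cut hQ (nds_top hQ) (e := e) (f := f) trivial trivial he hf hef
      have hxm : x ∈ (⊤ : Submodule F V) ⊓ perp Q (Submodule.span F {e, f}) :=
        mem_cut.2 ⟨trivial, by rw [polar_comm]; exact h1, by rw [polar_comm]; exact h2⟩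
      obtain ⟨v, hv, -, hxv⟩ := exists_one_in hQ hnd bot_le hxm (by simpa using hx)
      obtain ⟨-, hev, hfv⟩ := mem_cut.1 hv
      refine ⟨v + (e - Q v • f), ?_, ?_⟩
      · have hfe : polar Q f e = 1 := by rw [polar_comm]; exact hef
        have h3 : Q (e - Q v • f) = - Q v := by
          rw [Q_sub, he, Q_smul, hf, polar_smul_right, hef, smul_eq_mul]; ring
        have h4 : polar Q v (e - Q v • f) = 0 := by
          rw [polar_sub_right, polar_smul_right, polar_comm Q v e, hev, polar_comm Q v f, hfv, smul_zero, sub_zero]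
        rw [Q_add, h3, h4]; ring
      · rw [polar_add_right, polar_sub_right, polar_smul_right, h1, h2, hxv]; simp
    · exact ⟨f, hf, h2⟩
  · exact ⟨e, he, h1⟩

/-- No proper nonzero subspace is invariant under all root elements. -/
theorem inv_false (hQ : Nd Q) (h5 : 5 ≤ Fintype.card ι) {W : Submodule F (ι → F)} (h0 : W ≠ ⊥) (h1 : W ≠ ⊤)
    (h : ∀ z y, Q z = 0 → Q y = 0 → polar Q z y = 0 → ∀ w ∈ W, nz Q z y w ∈ W) : False := by
  have h5' : 5 ≤ finrank F (ι → F) := by rw [Module.finrank_fintype_fun_eq_card]; exact h5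
  have key : ∀ z, Q z = 0 → z ∈ W ∨ ∀ w ∈ W, polar Q z w = 0 := by
    intro z hz
    by_cases hz0 : z = 0
    · left; rw [hz0]; exact W.zero_mem
    by_contra hcon
    rw [not_or] at hcon
    obtain ⟨hzW, hcon⟩ := hcon
    push Not at hcon
    obtain ⟨w, hw, hzw⟩ := hcon
    obtain ⟨y, y', hy, hy', hzy, hzy', hyy'⟩ := exists_two hQ h5' hz hz0
    have h2 := h z y' hz hy' hzy' _ (h z y hz hy hzy w hw)
    have e1 : nz Q z y' (nz Q z y w) = -(polar Q z w) • z := by
      have hy'y : polar Q y' y = 1 := by rw [polar_comm]; exact hyy'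
      have hy'z : polar Q y' z = 0 := by rw [polar_comm]; exact hzy'
      unfold nz
      rw [polar_sub_right, polar_smul_right, polar_smul_right, hzy, polar_self', hz, polar_sub_right, polar_smul_right,
        polar_smul_right, hy'y, hy'z]
      simp
    rw [e1] at h2
    apply hzW
    have := W.smul_mem (-(polar Q z w))⁻¹ h2
    rwa [smul_smul, inv_mul_cancel₀ (neg_ne_zero.2 hzw), one_smul] at this
  -- a singular vector outside `W`
  obtain ⟨z, hz, hzW⟩ : ∃ z, Q z = 0 ∧ z ∉ W := by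
    have hne : perp Q W ≠ ⊥ := by
      intro hb
      apply h1
      rw [← hQ.perp_perp W, hb]
      rw [eq_top_iff]
      intro v _
      rw [mem_perp]
      intro u hu
      rw [Submodule.mem_bot] at hu
      rw [hu, polar_zero_left]
    obtain ⟨x, hx, hx0⟩ := Submodule.exists_mem_ne_zero_of_ne_bot hne
    obtain ⟨z, hz, hxz⟩ := exists_sing_polar hQ (by omega) hx0
    exact ⟨z, hz, fun hzW => hxz (by rw [polar_comm]; exact mem_perp.1 hx z hzW)⟩
  obtain ⟨x, hx, hx0⟩ := Submodule.exists_mem_ne_zero_of_ne_bot h0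
  obtain ⟨z', hz', hxz'⟩ := exists_sing_polar hQ (by omega) hx0
  have hzp := (key z hz).resolve_left hzW
  have hz'W : z' ∈ W := (key z' hz').resolve_right fun hcon => hxz' (by rw [polar_comm]; exact hcon x hx)
  rcases key (z + z') (by rw [Q_add, hz, hz', hzp z' hz'W]; ring) with h3 | h3
  · apply hzW
    have := W.sub_mem h3 hz'W
    rwa [add_sub_cancel_right] at this
  · apply hxz'
    have h4 := h3 x hx
    rw [polar_add_left, hzp x hx, zero_add] at h4
    rw [polar_comm]; exact h4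

lemma dec_disj {t k : ℕ} {D : Fin t → Submodule F (ι → F)} (hD : IsMDecomposition k D) {i j : Fin t} (hij : i ≠ j) {x : ι → F}
    (hi : x ∈ D i) (hj : x ∈ D j) : x = 0 := by
  have h1 : Disjoint (D i) (D j) := hD.indep.pairwiseDisjoint hij
  exact (Submodule.disjoint_def.1 h1) x hi hj

/-- A root element preserving a decomposition fixes its members, under mild hypotheses. -/
lemma fix_of_root {z y : ι → F} (hz : Q z = 0) (hy : Q y = 0) (hzy : polar Q z y = 0) {g : GL ι F}
    (hgx : ∀ x, (g : Matrix ι ι F) *ᵥ x = x + nz Q z y x) {t k : ℕ} {D : Fin t → Submodule F (ι → F)} (hD : IsMDecomposition k D)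
    (hk : (2 : F) ≠ 0 ∨ 3 ≤ k) (hg : g ∈ decompositionStabilizer D) : ∀ i, ∀ w ∈ D i, nz Q z y w ∈ D i := by
  obtain ⟨σ, hσ⟩ := hg
  have hmem : ∀ i, ∀ x ∈ D i, (g : Matrix ι ι F) *ᵥ x ∈ D (σ i) := by
    intro i x hx
    rw [← hσ i]
    exact ⟨x, hx, Matrix.toLin'_apply _ _⟩
  have hfix : ∀ i, σ i = i := by
    intro i
    by_contra hne
    have hD0 : D i ≠ ⊥ := by
      intro h
      have h1 := hD.finrank_eq i
      rw [h, finrank_bot] at h1
      exact hD.pos.ne h1
    rcases hk with h2 | h3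
    · obtain ⟨x, hx, hx0⟩ := Submodule.exists_mem_ne_zero_of_ne_bot hD0
      have e1 := hmem i x hx
      have e2 := hmem _ _ e1
      have e3 : (g : Matrix ι ι F) *ᵥ ((g : Matrix ι ι F) *ᵥ x) = (2 : F) • ((g : Matrix ι ι F) *ᵥ x) - x := by
        rw [hgx x, hgx, nz_add, nz_nz hz hy hzy, two_smul]; abel
      have hne2 : σ (σ i) ≠ σ i := fun h => hne (σ.injective h)
      rw [e3] at e2
      by_cases hl : σ (σ i) = i
      · rw [hl] at e2
        have e4 : (2 : F) • ((g : Matrix ι ι F) *ᵥ x) ∈ D i := by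
          have := (D i).add_mem e2 hx
          rwa [sub_add_cancel] at this
        have e5 : (g : Matrix ι ι F) *ᵥ x ∈ D i := by
          have := (D i).smul_mem (2 : F)⁻¹ e4
          rwa [smul_smul, inv_mul_cancel₀ h2, one_smul] at this
        have e6 := dec_disj hD hne e1 e5
        apply hx0
        have := congrArg (fun v => ((g⁻¹ : GL ι F) : Matrix ι ι F) *ᵥ v) e6
        simpa only [Matrix.mulVec_mulVec, gl_inv_mul, Matrix.one_mulVec, Matrix.mulVec_zero] using this
      · have e4 : x ∈ ⨆ (j) (_ : j ≠ i), D j := by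
          have : x = (2 : F) • ((g : Matrix ι ι F) *ᵥ x) - ((2 : F) • ((g : Matrix ι ι F) *ᵥ x) - x) := by abel
          rw [this]
          apply Submodule.sub_mem
          · exact (le_iSup₂_of_le (f := fun j (_ : j ≠ i) => D j) (σ i) hne le_rfl) ((D (σ i)).smul_mem _ e1)
          · exact (le_iSup₂_of_le (f := fun j (_ : j ≠ i) => D j) (σ (σ i)) hl le_rfl) e2
        exact hx0 ((Submodule.disjoint_def.1 (hD.indep i)) _ hx e4)
    · obtain ⟨x, hx0, hx⟩ := exists_common_zero (F := F) (V := D i) (m := 2) (by rw [hD.finrank_eq]; omega)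
        ![(polarBilin Q z) ∘ₗ (D i).subtype, (polarBilin Q y) ∘ₗ (D i).subtype]
      have hx1 : polar Q z x = 0 := hx 0
      have hx2 : polar Q y x = 0 := hx 1
      have e1 := hmem i x x.2
      rw [hgx, nz, hx1, hx2, zero_smul, zero_smul, sub_zero, add_zero] at e1
      exact hx0 (Subtype.ext (dec_disj hD hne e1 x.2))
  intro i w hw
  have h1 := hmem i w hw
  rw [hfix, hgx] at h1
  have := (D i).sub_mem h1 hw
  rwa [add_sub_cancel_left] at this

/-- `Ω` does not preserve a decomposition. -/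
theorem not_le_dec (hQ : Nd Q) (hgen : GenHyp Q) (h5 : 5 ≤ Fintype.card ι) {t k : ℕ} {D : Fin t → Submodule F (ι → F)}
    (hD : IsMDecomposition k D) (hk : (2 : F) ≠ 0 ∨ 3 ≤ k) : ¬ omegaGL ⇑Q ≤ decompositionStabilizer D := by
  intro hle
  have ht := hD.two_le
  let i₀ : Fin t := ⟨0, by omega⟩
  let i₁ : Fin t := ⟨1, by omega⟩
  have h01 : i₁ ≠ i₀ := by
    intro h
    have := congrArg Fin.val h
    simp [i₀, i₁] at this
  have hne : ∀ i, D i ≠ ⊥ := by
    intro i h
    have h1 := hD.finrank_eq i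
    rw [h, finrank_bot] at h1
    exact hD.pos.ne h1
  refine inv_false hQ h5 (hne i₀) ?_ fun z y hz hy hzy => ?_
  · intro htop
    obtain ⟨x, hx, hx0⟩ := Submodule.exists_mem_ne_zero_of_ne_bot (hne i₁)
    exact hx0 (dec_disj hD h01 hx (by rw [htop]; trivial))
  · obtain ⟨g, hg, hgx⟩ := root hQ hgen hz hy hzy
    exact fix_of_root hz hy hzy hgx hD hk (hle hg) i₀


/-- `Ω` does not stabilise a subspace. -/
theorem not_le_subspace (hQ : Nd Q) (hgen : GenHyp Q) (h5 : 5 ≤ Fintype.card ι) {W : Submodule F (ι → F)} (h0 : W ≠ ⊥) (h1 : W ≠ ⊤) :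
    ¬ omegaGL ⇑Q ≤ subspaceStabilizer W := by
  intro hle
  refine inv_false hQ h5 h0 h1 fun z y hz hy hzy w hw => ?_
  obtain ⟨g, hg, hgx⟩ := root hQ hgen hz hy hzy
  have h2 := (Cfsg.Agent.Lib.GeoBridge.mem_subspaceStabilizer_iff' W g).1 (hle hg) w hw
  have h3 : le g w = w + nz Q z y w := hgx w
  rw [h3] at h2
  have := W.sub_mem h2 hw
  rwa [add_sub_cancel_left] at this

/-- `Ω` does not preserve a decomposition into planes in characteristic two. -/
theorem not_le_dec_two (hQ : Nd Q) (hgen : GenHyp Q) (h2 : (2 : F) = 0) (h5 : 5 ≤ Fintype.card ι) {t : ℕ} (ht : 4 ≤ t)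
    {D : Fin t → Submodule F (ι → F)} (hD : IsOrthogonalMDecomposition ⇑Q 2 D) : ¬ omegaGL ⇑Q ≤ decompositionStabilizer D := by
  classical
  intro hle
  have h5' : 5 ≤ finrank F (ι → F) := by rw [Module.finrank_fintype_fun_eq_card]; exact h5
  have hdec : IsMDecomposition 2 D := hD.decomp.decomp
  have hor : ∀ i j, i ≠ j → ∀ x ∈ D i, ∀ y ∈ D j, polar Q x y = 0 := fun i j hij x hx y hy => hD.decomp.orthogonal i j hij x hx y hy
  let f : Fin 4 → Fin t := fun i => ⟨i.1, by omega⟩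
  have hf : Function.Injective f := fun i j h => by
    have := congrArg Fin.val h
    exact Fin.ext this
  have hD0 : D (f 0) ≠ ⊥ := by
    intro h
    have h1 := hdec.finrank_eq (f 0)
    rw [h, finrank_bot] at h1
    omega
  obtain ⟨v, hv, hv0⟩ := Submodule.exists_mem_ne_zero_of_ne_bot hD0
  -- isometric vectors
  have hiso : ∀ i : Fin 4, ∃ w ∈ D (f i), w ≠ 0 ∧ Q w = Q v := by
    intro i
    obtain ⟨φ, hφ⟩ := hD.isometric (f 0) (f i)
    refine ⟨φ ⟨v, hv⟩, (φ ⟨v, hv⟩).2, ?_, hφ ⟨v, hv⟩⟩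
    intro h0
    have h1 : φ ⟨v, hv⟩ = 0 := Subtype.ext h0
    rw [LinearEquiv.map_eq_zero_iff] at h1
    exact hv0 (congrArg Subtype.val h1)
  choose w hwD hw0 hwQ using hiso
  set z : ι → F := ∑ i, w i with hz_def
  have hww : ∀ i j, i ≠ j → polar Q (w i) (w j) = 0 := fun i j hij => hor _ _ (fun h => hij (hf h)) _ (hwD i) _ (hwD j)
  have hz : Q z = 0 := by
    rw [hz_def, Fin.sum_univ_four, Q_add, Q_add, Q_add, hwQ, hwQ, hwQ, hwQ, polar_add_left, polar_add_left, polar_add_left,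
      hww 0 1 (by decide), hww 0 2 (by decide), hww 1 2 (by decide), hww 0 3 (by decide), hww 1 3 (by decide), hww 2 3 (by decide)]
    linear_combination 2 * Q v * h2
  have hzx : ∀ i, ∃ x ∈ D (f i), polar Q z x = 1 := by
    intro i
    obtain ⟨-, u, huD, hu⟩ := hD.decomp.nondegenerate (f i) (w i) (hwD i) (hw0 i)
    have h1 : polar Q z u = polar Q (w i) u := by
      rw [hz_def]
      have : ∀ s : Finset (Fin 4), polar Q (∑ j ∈ s, w j) u = ∑ j ∈ s, polar Q (w j) u := by
        intro s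
        induction s using Finset.induction_on with
        | empty => rw [Finset.sum_empty, Finset.sum_empty, polar_zero_left]
        | insert a s ha ih => rw [Finset.sum_insert ha, Finset.sum_insert ha, polar_add_left, ih]
      rw [this, Finset.sum_eq_single i]
      · intro j _ hj
        exact hor _ _ (fun h => hj (hf h)) _ (hwD j) _ huD
      · intro h; exact absurd (Finset.mem_univ i) h
    refine ⟨(polar Q (w i) u)⁻¹ • u, (D (f i)).smul_mem _ huD, ?_⟩
    rw [polar_smul_right, h1, smul_eq_mul, inv_mul_cancel₀ hu]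
  choose x hxD hxz using hzx
  have hz0 : z ≠ 0 := by
    intro h
    have := hxz 0
    rw [h, polar_zero_left] at this
    exact zero_ne_one this
  obtain ⟨y, y', hy, hy', hzy, hzy', hyy'⟩ := exists_two hQ h5' hz hz0
  obtain ⟨g, hg, hgx⟩ := root hQ hgen hz hy hzy
  obtain ⟨σ, hσ⟩ := hle hg
  have hmem : ∀ i, ∀ x ∈ D i, (g : Matrix ι ι F) *ᵥ x ∈ D (σ i) := by
    intro i x hx
    rw [← hσ i]
    exact ⟨x, hx, Matrix.toLin'_apply _ _⟩
  have hfix : ∀ i, σ i = i := by
    intro i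
    by_contra hne
    -- the map `x ↦ g x - x` is injective on `D i`
    let T : D i →ₗ[F] (ι → F) := Matrix.toLin' ((g : Matrix ι ι F) - 1) ∘ₗ (D i).subtype
    have hT : ∀ u : D i, T u = nz Q z y u := by
      intro u
      show ((g : Matrix ι ι F) - 1) *ᵥ (u : ι → F) = _
      rw [Matrix.sub_mulVec, Matrix.one_mulVec, hgx, add_sub_cancel_left]
    have hTinj : Function.Injective T := by
      rw [← LinearMap.ker_eq_bot, LinearMap.ker_eq_bot']
      intro u hu
      rw [hT] at hu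
      have h1 := hmem i u u.2
      rw [hgx, hu, add_zero] at h1
      exact Subtype.ext (dec_disj hdec hne h1 u.2)
    have hr : LinearMap.range T = Submodule.span F {z, y} := by
      apply Submodule.eq_of_le_of_finrank_le
      · rintro _ ⟨u, rfl⟩
        rw [hT, nz]
        exact Submodule.sub_mem _ (Submodule.smul_mem _ _ (Submodule.subset_span (by simp)))
          (Submodule.smul_mem _ _ (Submodule.subset_span (by simp)))
      · rw [LinearMap.finrank_range_of_inj hTinj, hdec.finrank_eq]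
        have h3 := finrank_span_finset_le_card (R := F) ({z, y} : Finset (ι → F))
        rw [Finset.coe_pair] at h3
        exact h3.trans (Finset.card_le_two (a := z) (b := y))
    have hzr : z ∈ LinearMap.range T := by rw [hr]; exact Submodule.subset_span (by simp)
    obtain ⟨u, hu⟩ := hzr
    rw [hT] at hu
    have hzz : z = (g : Matrix ι ι F) *ᵥ (u : ι → F) - u := by rw [hgx, add_sub_cancel_left, hu]
    obtain ⟨m, hm1, hm2⟩ : ∃ m : Fin 4, f m ≠ i ∧ f m ≠ σ i := by
      by_contra hcon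
      push Not at hcon
      have h1 : (Finset.univ : Finset (Fin 4)).card ≤ 2 := by
        have : Finset.univ.image f ⊆ {i, σ i} := by
          intro a ha
          obtain ⟨m, -, rfl⟩ := Finset.mem_image.1 ha
          rw [Finset.mem_insert, Finset.mem_singleton]
          by_cases h : f m = i
          · exact Or.inl h
          · exact Or.inr (hcon m h)
        have h2 := Finset.card_le_card this
        rw [Finset.card_image_of_injective _ hf] at h2
        exact h2.trans Finset.card_le_two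
      simp at h1
    have h4 := hxz m
    rw [hzz, polar_sub_left, hor _ _ hm2.symm _ (hmem i u u.2) _ (hxD m), hor _ _ hm1.symm _ u.2 _ (hxD m), sub_zero] at h4
    exact zero_ne_one h4
  -- now every member is invariant
  have hN : ∀ i : Fin 4, y - polar Q y (x i) • z ∈ D (f i) := by
    intro i
    have h1 := hmem (f i) (x i) (hxD i)
    rw [hfix, hgx, nz, hxz, one_smul] at h1
    have := (D (f i)).sub_mem h1 (hxD i)
    rwa [add_sub_cancel_left] at this
  have hc : ∀ i j m : Fin 4, i ≠ m → polar Q y (x m) = polar Q y (x i) := by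
    intro i j m him
    have h1 := hor _ _ (fun h => him (hf h)) _ (hN i) _ (hxD m)
    rw [polar_sub_left, polar_smul_left, hxz, smul_eq_mul, mul_one] at h1
    exact sub_eq_zero.1 h1
  have h01 : polar Q y (x 0) = polar Q y (x 1) := hc 1 0 0 (by decide)
  have h3 := hN 0
  rw [h01] at h3
  have h4 := dec_disj hdec (fun h => absurd (hf h) (by decide)) h3 (hN 1)
  have h5 := congrArg (fun v => polar Q v y') h4
  simp only [polar_sub_left, polar_smul_left, hyy', hzy', smul_zero, sub_zero, polar_zero_left] at h5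
  exact one_ne_zero h5

end Cfsg.Agent.Lib.ONot
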