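import Cfsg.Agent.Lib.ONot9
import Cfsg.Agent.Lib.AschSmall

/-!
Maximal subgroups of `Ω₁₂⁺`.
-/

set_option autoImplicit false
set_option linter.style.haveILetI false
set_option linter.unusedVariables false
set_option linter.unusedSectionVars false

namespace Cfsg.Agent.Lib.ONot

open Cfsg Cfsg.Geo Module QuadraticMap Cfsg.Agent.Lib.Quad Cfsg.Agent.Lib.OrthMax Cfsg.Agent.Lib.OrthNd
  Cfsg.Agent.Lib.OrthNot Cfsg.Agent.Lib.OrthBridge Cfsg.Agent.Lib.OrthNdBridge Cfsg.Agent.Lib.UniRes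
open Cfsg.Agent.Lib.GeoBridge (le)
open Cfsg.Agent.Lib.AschCore Cfsg.Agent.Lib.AschField Cfsg.Agent.Lib.AschAlg Cfsg.Agent.Lib.AschGroup Cfsg.Agent.Lib.AschMU Cfsg.Agent.Lib.AschGood Cfsg.Agent.Lib.AschNonab
open Cfsg.Agent.Lib.SLNot (eq_inf_of_maximal ne_top_of_card kLeft)
open scoped Matrix MatrixGroups Kronecker

variable {ι : Type} [Fintype ι] [DecidableEq ι] {F : Type*} [Field F] [Fintype F] {Q : QuadraticForm F (ι → F)}

/-- Over the field with two elements a tensor decomposition with a two-dimensional factor gives a quadratic subfield. -/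
theorem tensor_two_le [Nonempty ι] (hq : Fintype.card F = 2) {H : Subgroup (GL ι F)}
    {n₂ : ℕ} {e : ι ≃ Fin 2 × Fin n₂} {P : GL ι F} (h : H ≤ tensorProductSubgroup 2 n₂ e P) :
    ∃ K : Subalgebra F (Matrix ι ι F), IsFieldSubalgebra 2 K ∧ H ≤ subalgebraNormalizer K := by
  classical
  have h2 : (2 : F) = 0 := by
    have := FiniteField.cast_card_eq_zero F
    rw [hq] at this
    exact_mod_cast this
  have h01 : ∀ x : F, x = 0 ∨ x = 1 := by
    intro x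
    have h1 : x ^ 2 = x := by rw [← hq]; exact FiniteField.pow_card x
    have : x * (x - 1) = 0 := by linear_combination h1
    rcases mul_eq_zero.1 this with h | h
    · exact Or.inl h
    · exact Or.inr (sub_eq_zero.1 h)
  set ω : Matrix (Fin 2) (Fin 2) F := !![0, 1; 1, 1] with hω
  have hωω : ω * ω = ω + 1 := by
    ext i j
    fin_cases i <;> fin_cases j <;> simp [hω, Matrix.mul_apply, Fin.sum_univ_two]
  set Ω : Matrix ι ι F := kLeft e P ω with hΩ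
  have hΩΩ : Ω * Ω = Ω + 1 := by
    rw [hΩ, ← map_mul, hωω, map_add, map_one]
  -- matrices with the same minimal polynomial
  have hclass : ∀ M : Matrix (Fin 2) (Fin 2) F, M * M = M + 1 → ∃ x : F, M = ω + x • (1 : Matrix (Fin 2) (Fin 2) F) := by
    intro M hM
    have e00 := congrFun (congrFun hM 0) 0
    have e11 := congrFun (congrFun hM 1) 1
    have e01 := congrFun (congrFun hM 0) 1
    have e10 := congrFun (congrFun hM 1) 0
    simp [Matrix.mul_apply, Fin.sum_univ_two] at e00 e11 e01 e10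
    refine ⟨M 0 0, ?_⟩
    have hb : M 0 1 = 1 ∧ M 1 0 = 1 := by
      rcases h01 (M 0 0) with h | h <;> rcases h01 (M 0 1) with h' | h' <;> rcases h01 (M 1 0) with h'' | h'' <;>
        rw [h, h', h''] at e00 <;> simp [h', h''] at e00 ⊢ 
    have hd : M 1 1 = M 0 0 + 1 := by
      have h5 : M 0 1 * (M 0 0 + M 1 1 - 1) = 0 := by linear_combination e01
      rw [hb.1, one_mul] at h5
      linear_combination h5 - (M 0 0) * h2
    ext i j
    fin_cases i <;> fin_cases j <;> simp [hω, hb.1, hb.2, hd]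
    ring
  let K : Subalgebra F (Matrix ι ι F) :=
    { carrier := {M | ∃ x y : F, M = x • (1 : Matrix ι ι F) + y • Ω}
      mul_mem' := by
        rintro _ _ ⟨x, y, rfl⟩ ⟨z, w, rfl⟩
        refine ⟨x * z + y * w, x * w + y * z + y * w, ?_⟩
        have : (x • (1 : Matrix ι ι F) + y • Ω) * (z • (1 : Matrix ι ι F) + w • Ω) =
            (x * z) • (1 : Matrix ι ι F) + (x * w + y * z) • Ω + (y * w) • (Ω * Ω) := by
          simp only [add_mul, mul_add, Matrix.smul_mul, Matrix.mul_smul, one_mul, mul_one, smul_smul, add_smul]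
          rw [mul_comm z x, mul_comm w x, mul_comm z y, mul_comm w y]
          abel
        rw [this, hΩΩ]
        simp only [add_smul, smul_add]
        abel
      one_mem' := ⟨1, 0, by simp⟩
      add_mem' := by
        rintro _ _ ⟨x, y, rfl⟩ ⟨z, w, rfl⟩
        exact ⟨x + z, y + w, by simp only [add_smul]; abel⟩
      zero_mem' := ⟨0, 0, by simp⟩
      algebraMap_mem' := fun c => ⟨c, 0, by rw [Algebra.algebraMap_eq_smul_one]; simp⟩ }
  have hmemK : ∀ M, M ∈ K ↔ ∃ x y : F, M = x • (1 : Matrix ι ι F) + y • Ω := fun M => Iff.rfl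
  have hΩns : ∀ x y : F, x • (1 : Matrix ι ι F) + y • Ω = 0 → x = 0 ∧ y = 0 := by
    intro x y hxy
    have hy : y = 0 := by
      by_contra hy0
      have h4 : Ω = (-(y⁻¹ * x)) • (1 : Matrix ι ι F) := by
        have h5 := congrArg (fun z => y⁻¹ • z) hxy
        simp only [smul_add, smul_smul, inv_mul_cancel₀ hy0, one_smul, smul_zero] at h5
        rw [neg_smul]
        exact eq_neg_of_add_eq_zero_right h5
      set c := -(y⁻¹ * x)
      have h6 : (c * c - c - 1) • (1 : Matrix ι ι F) = 0 := by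
        have h7 := hΩΩ
        rw [h4, Matrix.smul_mul, one_mul, smul_smul] at h7
        rw [sub_smul, sub_smul, h7, one_smul]
        abel
      rw [smul_eq_zero] at h6
      have h8 := h6.resolve_right one_ne_zero
      rcases h01 c with h9 | h9
      · rw [h9] at h8; norm_num at h8
      · rw [h9] at h8; norm_num at h8
    rw [hy, zero_smul, add_zero, smul_eq_zero] at hxy
    exact ⟨hxy.resolve_right one_ne_zero, hy⟩
  have hKf : IsFieldSubalgebra 2 K := by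
    refine ⟨?_, ?_, ?_⟩
    · rintro _ ⟨x, y, rfl⟩ _ ⟨z, w, rfl⟩
      simp only [add_mul, mul_add, Matrix.smul_mul, Matrix.mul_smul, one_mul, mul_one, smul_smul]
      rw [mul_comm z x, mul_comm w x, mul_comm z y, mul_comm w y]
      abel
    · rintro _ ⟨x, y, rfl⟩ hne0
      rcases h01 x with hx | hx <;> rcases h01 y with hy | hy
      · exact absurd (by rw [hx, hy]; simp) hne0
      · refine ⟨(1 : F) • (1 : Matrix ι ι F) + (1 : F) • Ω, ⟨1, 1, rfl⟩, ?_⟩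
        rw [hx, hy]
        simp only [zero_smul, one_smul, zero_add, mul_add, mul_one, hΩΩ]
        have h5 : Ω + Ω = 0 := by rw [← two_smul F Ω, h2, zero_smul]
        rw [← add_assoc, h5, zero_add]
      · refine ⟨1, ⟨1, 0, by simp⟩, ?_⟩
        rw [hx, hy]; simp
      · refine ⟨(0 : F) • (1 : Matrix ι ι F) + (1 : F) • Ω, ⟨0, 1, rfl⟩, ?_⟩
        rw [hx, hy]
        simp only [zero_smul, one_smul, zero_add, add_mul, one_mul, hΩΩ]
        have h5 : Ω + Ω = 0 := by rw [← two_smul F Ω, h2, zero_smul]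
        rw [← add_assoc, h5, zero_add]
    · have hb : Module.Basis (Fin 2) F K := by
        refine Module.Basis.mk (v := ![⟨1, 1, 0, by simp⟩, ⟨Ω, 0, 1, by simp⟩]) ?_ ?_
        · rw [Fintype.linearIndependent_iff]
          intro g hg
          rw [Fin.sum_univ_two] at hg
          have h5 := congrArg Subtype.val hg
          have h6 := hΩns (g 0) (g 1) h5
          intro i
          fin_cases i
          · exact h6.1
          · exact h6.2
        · rintro ⟨_, x, y, rfl⟩ -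
          have h5 : (⟨x • (1 : Matrix ι ι F) + y • Ω, ⟨x, y, rfl⟩⟩ : K) = x • (⟨1, 1, 0, by simp⟩ : K) + y • (⟨Ω, 0, 1, by simp⟩ : K) := rfl
          rw [h5]
          apply Submodule.add_mem
          · exact Submodule.smul_mem _ _ (Submodule.subset_span ⟨0, rfl⟩)
          · exact Submodule.smul_mem _ _ (Submodule.subset_span ⟨1, rfl⟩)
      rw [Module.finrank_eq_card_basis hb]; simp
  refine ⟨K, hKf, ?_⟩
  apply le_subalgebraNormalizer
  intro g hg k hk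
  obtain ⟨x, y, rfl⟩ := hk
  obtain ⟨a, c, hac⟩ := mem_tensorProductSubgroup.1 (h hg)
  obtain ⟨z, hz⟩ := hclass ((a : Matrix (Fin 2) (Fin 2) F) * ω * ((a⁻¹ : GL (Fin 2) F) : Matrix (Fin 2) (Fin 2) F)) (by
    have h5 : (a : Matrix (Fin 2) (Fin 2) F) * ω * ((a⁻¹ : GL (Fin 2) F) : Matrix (Fin 2) (Fin 2) F) *
        ((a : Matrix (Fin 2) (Fin 2) F) * ω * ((a⁻¹ : GL (Fin 2) F) : Matrix (Fin 2) (Fin 2) F)) =
        (a : Matrix (Fin 2) (Fin 2) F) * (ω * ω) * ((a⁻¹ : GL (Fin 2) F) : Matrix (Fin 2) (Fin 2) F) := by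
      calc _ = (a : Matrix (Fin 2) (Fin 2) F) * ω * (((a⁻¹ : GL (Fin 2) F) : Matrix (Fin 2) (Fin 2) F) *
        (a : Matrix (Fin 2) (Fin 2) F)) * ω * ((a⁻¹ : GL (Fin 2) F) : Matrix (Fin 2) (Fin 2) F) := by simp only [Matrix.mul_assoc]
        _ = _ := by rw [gl_inv_mul, mul_one]; simp only [Matrix.mul_assoc]
    rw [h5, hωω, mul_add, mul_one, add_mul, gl_mul_inv])
  have hΩg : cj g Ω = z • (1 : Matrix ι ι F) + Ω := by
    have h5 : (g : Matrix ι ι F) = cj P (kronL e (a : Matrix (Fin 2) (Fin 2) F) (c : Matrix (Fin n₂) (Fin n₂) F)) := by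
      rw [hac, cj_apply]
    have h6 : (g : Matrix ι ι F) * Ω = (kLeft e P (ω + z • (1 : Matrix (Fin 2) (Fin 2) F))) * (g : Matrix ι ι F) := by
      rw [← hz, h5, hΩ]
      show cj P (kronL e (a : Matrix (Fin 2) (Fin 2) F) (c : Matrix (Fin n₂) (Fin n₂) F)) * cj P (kronL e ω 1) =
        cj P (kronL e _ 1) * cj P (kronL e (a : Matrix (Fin 2) (Fin 2) F) (c : Matrix (Fin n₂) (Fin n₂) F))
      rw [← map_mul, ← map_mul, kronL_mul, kronL_mul, mul_one, one_mul, Matrix.mul_assoc _ _ (a : Matrix (Fin 2) (Fin 2) F),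
        gl_inv_mul, mul_one]
    rw [cj_apply, h6, Matrix.mul_assoc, gl_mul_inv, mul_one, map_add, map_smul, map_one, add_comm]
  rw [map_add, map_smul, map_smul, map_one, hΩg, hmemK]
  exact ⟨x + y * z, y, by rw [smul_add, smul_smul, add_smul]; abel⟩


/-- In characteristic two the members of a decomposition into three isometric subspaces of a plus type space are of plus type. -/
theorem three_plus (hnd : Nd Q) (h2 : (2 : F) = 0) {k c : ℕ} (hk : k = 2 * c) {D : Fin 3 → Submodule F (ι → F)}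
    (hD : IsOrthogonalMDecomposition ⇑Q k D) (hpl : IsPlusTypeOn ⇑Q ⊤) : IsPlusTypeOn ⇑Q (D 2) := by
  obtain ⟨U, -, hU, hUd⟩ := hpl
  have hcard : Fintype.card ι = 3 * k := by
    rw [← finrank_fun (F := F)]; exact Cfsg.Agent.Lib.OrthFrameH94.card_decomp hD.decomp.decomp
  rw [finrank_top, finrank_fun] at hUd
  obtain ⟨φ, hφ⟩ := hD.isometric 0 1
  have hfr0 := hD.decomp.decomp.finrank_eq 0
  have hfr2 := hD.decomp.decomp.finrank_eq 2
  have hs2 := nds_of_nondeg (hD.decomp.nondegenerate 2)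
  let ψ : D 0 →ₗ[F] (ι → F) := (D 0).subtype + (D 1).subtype ∘ₗ φ.toLinearMap
  have hψ : ∀ x : D 0, ψ x = (x : ι → F) + (φ x : ι → F) := fun x => rfl
  have hQψ : ∀ x, Q (ψ x) = 0 := by
    intro x
    rw [hψ, Q_add, hφ, hD.decomp.orthogonal 0 1 (by decide) _ x.2 _ (φ x).2, add_zero, ← two_mul, h2, zero_mul]
  have hψp : ∀ x, ψ x ∈ perp Q (D 2) := by
    intro x
    rw [mem_perp]
    intro w hw
    rw [hψ, polar_add_right, hD.decomp.orthogonal 2 0 (by decide) _ hw _ x.2, hD.decomp.orthogonal 2 1 (by decide) _ hw _ (φ x).2, add_zero]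
  have hinj : Function.Injective ψ := by
    rw [← LinearMap.ker_eq_bot, LinearMap.ker_eq_bot']
    intro x hx
    rw [hψ] at hx
    apply Subtype.ext
    have h3 : (x : ι → F) = -(φ x : ι → F) := eq_neg_of_add_eq_zero_left hx
    exact dec_disj hD.decomp.decomp (show (0 : Fin 3) ≠ 1 by decide) x.2 (by rw [h3]; exact (D 1).neg_mem (φ x).2)
  have hdp := hnd.finrank_add_finrank_perp (D 2)
  rw [finrank_fun] at hdp
  obtain ⟨U₂, hU₂, hU₂s, hU₂d⟩ := plus_cancel hnd (m := 3 * c) (a := k) (by rw [finrank_fun]; omega) (U := U) ⟨by omega, hU⟩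
    (A := perp Q (D 2)) (nds_perp hnd hs2) (by omega) (U₁ := LinearMap.range ψ) (by rintro _ ⟨x, rfl⟩; exact hψp x)
    (by rintro _ ⟨x, rfl⟩; exact hQψ x) (by rw [LinearMap.finrank_range_of_inj hinj, hfr0])
  exact ⟨U₂, by rwa [hnd.perp_perp] at hU₂, hU₂s, by omega⟩

/-- A pair of isometric subspaces. -/
lemma iso_pair {A B : Submodule F (ι → F)} (h : AreIsometricFor ⇑Q A B) : ∀ i j, AreIsometricFor ⇑Q (![A, B] i) (![A, B] j) := by
  obtain ⟨e, he⟩ := h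
  have h5 : ∀ v : B, Q (e.symm v : ι → F) = Q (v : ι → F) := by
    intro v
    obtain ⟨w, rfl⟩ := e.surjective v
    rw [LinearEquiv.symm_apply_apply, he]
  intro i j
  fin_cases i <;> fin_cases j
  · exact ⟨LinearEquiv.refl F _, fun v => rfl⟩
  · exact ⟨e, he⟩
  · exact ⟨e.symm, h5⟩
  · exact ⟨LinearEquiv.refl F _, fun v => rfl⟩

/-- The list for `Ω₁₂⁺`. -/
theorem twelve_plus_list (Q : (Fin 12 → F) → F) (hQ : Cfsg.Geo.IsNondegenerateQuadraticForm Q) (hplus : Cfsg.Geo.IsPlusTypeOn Q ⊤) (H : Subgroup (Matrix.GeneralLinearGroup (Fin 12) F)) (hH : Cfsg.Geo.IsMaximalIn (Cfsg.Geo.omegaGL Q) H) :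
    (∃ W : Submodule F (Fin 12 → F), W ≠ ⊥ ∧ Cfsg.Geo.IsTotallySingularQuad Q W ∧ Module.finrank F W ≠ 5 ∧ H = Cfsg.Geo.subspaceStabilizer W ⊓ Cfsg.Geo.omegaGL Q) ∨
    (Odd (Fintype.card F) ∧ ∃ W : Submodule F (Fin 12 → F), W ≠ ⊥ ∧ W ≠ ⊤ ∧ Odd (Module.finrank F W) ∧ 2 * Module.finrank F W ≠ 12 ∧ Cfsg.Geo.IsNondegenerateOn (QuadraticMap.polar Q) W ∧ H = Cfsg.Geo.subspaceStabilizer W ⊓ Cfsg.Geo.omegaGL Q) ∨
    (∃ W : Submodule F (Fin 12 → F), Module.finrank F W = 2 ∧ Cfsg.Geo.IsNondegenerateOn (QuadraticMap.polar Q) W ∧ ¬ Cfsg.Geo.IsPlusTypeOn Q W ∧ H = Cfsg.Geo.subspaceStabilizer W ⊓ Cfsg.Geo.omegaGL Q) ∨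
    (4 ≤ Fintype.card F ∧ ∃ W : Submodule F (Fin 12 → F), Module.finrank F W = 2 ∧ Cfsg.Geo.IsNondegenerateOn (QuadraticMap.polar Q) W ∧ Cfsg.Geo.IsPlusTypeOn Q W ∧ H = Cfsg.Geo.subspaceStabilizer W ⊓ Cfsg.Geo.omegaGL Q) ∨
    (∃ W : Submodule F (Fin 12 → F), Module.finrank F W = 4 ∧ Cfsg.Geo.IsNondegenerateOn (QuadraticMap.polar Q) W ∧ H = Cfsg.Geo.subspaceStabilizer W ⊓ Cfsg.Geo.omegaGL Q) ∨
    (¬ Odd (Fintype.card F) ∧ ∃ v : (Fin 12 → F), Q v ≠ 0 ∧ H = Cfsg.Geo.subspaceStabilizer (Submodule.span F {v}) ⊓ Cfsg.Geo.omegaGL Q) ∨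
    ((∃ p : ℕ, p.Prime ∧ Odd p ∧ Fintype.card F = p) ∧ ∃ D : Fin 12 → Submodule F (Fin 12 → F), Cfsg.Geo.IsOrthogonalMDecomposition Q 1 D ∧ H = Cfsg.Geo.decompositionStabilizer D ⊓ Cfsg.Geo.omegaGL Q) ∨
    (7 ≤ Fintype.card F ∧ ∃ D : Fin 6 → Submodule F (Fin 12 → F), Cfsg.Geo.IsOrthogonalMDecomposition Q 2 D ∧ (∀ i, Cfsg.Geo.IsPlusTypeOn Q (D i)) ∧ H = Cfsg.Geo.decompositionStabilizer D ⊓ Cfsg.Geo.omegaGL Q) ∨
    (Fintype.card F ≠ 3 ∧ ∃ D : Fin 6 → Submodule F (Fin 12 → F), Cfsg.Geo.IsOrthogonalMDecomposition Q 2 D ∧ (∀ i, ¬ Cfsg.Geo.IsPlusTypeOn Q (D i)) ∧ H = Cfsg.Geo.decompositionStabilizer D ⊓ Cfsg.Geo.omegaGL Q) ∨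
    (Odd (Fintype.card F) ∧ 5 ≤ Fintype.card F ∧ ∃ D : Fin 4 → Submodule F (Fin 12 → F), Cfsg.Geo.IsOrthogonalMDecomposition Q 3 D ∧ H = Cfsg.Geo.decompositionStabilizer D ⊓ Cfsg.Geo.omegaGL Q) ∨
    (3 ≤ Fintype.card F ∧ ∃ D : Fin 3 → Submodule F (Fin 12 → F), Cfsg.Geo.IsOrthogonalMDecomposition Q 4 D ∧ H = Cfsg.Geo.decompositionStabilizer D ⊓ Cfsg.Geo.omegaGL Q) ∨
    (∃ D : Fin 2 → Submodule F (Fin 12 → F), Cfsg.Geo.IsOrthogonalMDecomposition Q 6 D ∧ H = Cfsg.Geo.decompositionStabilizer D ⊓ Cfsg.Geo.omegaGL Q) ∨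
    (∃ D : Fin 2 → Submodule F (Fin 12 → F), Cfsg.Geo.IsMDecomposition 6 D ∧ (∀ i, Cfsg.Geo.IsTotallySingularQuad Q (D i)) ∧ H = Cfsg.Geo.decompositionStabilizer D ⊓ Cfsg.Geo.omegaGL Q) ∨
    (∃ K : Subalgebra F (Matrix (Fin 12) (Fin 12) F), Cfsg.Geo.IsFieldSubalgebra 2 K ∧ H = Cfsg.Geo.subalgebraNormalizer K ⊓ Cfsg.Geo.omegaGL Q) ∨
    (∃ K : Subalgebra F (Matrix (Fin 12) (Fin 12) F), Cfsg.Geo.IsFieldSubalgebra 3 K ∧ H = Cfsg.Geo.subalgebraNormalizer K ⊓ Cfsg.Geo.omegaGL Q) ∨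
    (∃ K : Subalgebra F (Matrix (Fin 12) (Fin 12) F), Cfsg.Geo.IsFieldSubalgebra 2 K ∧ Cfsg.Geo.IsAdjointClosedFor (QuadraticMap.polar Q) K ∧ ¬ Cfsg.Geo.IsSelfAdjointFor (QuadraticMap.polar Q) K ∧ (∀ k ∈ K, ∃ c : F, ∀ v : (Fin 12 → F), Q (Matrix.mulVec k v) = c * Q v) ∧ H = Cfsg.Geo.subalgebraNormalizer K ⊓ Cfsg.Geo.omegaGL Q) ∨
    (3 ≤ Fintype.card F ∧ ∃ (e : Fin 12 ≃ Fin 2 × Fin 6) (P : Matrix.GeneralLinearGroup (Fin 12) F) (f₁ : (Fin 2 → F) → (Fin 2 → F) → F) (f₂ : (Fin 6 → F) → (Fin 6 → F) → F), Cfsg.Geo.IsSymplecticForm f₁ ∧ Cfsg.Geo.IsSymplecticForm f₂ ∧ Cfsg.Geo.IsTensorFormStructure id (QuadraticMap.polar Q) f₁ f₂ e P ∧ (∀ (x₁ : Fin 2 → F) (x₂ : Fin 6 → F), Q (Matrix.mulVec (P : Matrix (Fin 12) (Fin 12) F) ((fun a : Fin 2 × Fin 6 => x₁ a.1 * x₂ a.2) ∘ e)) = 0) ∧ H = Cfsg.Geo.tensorProductSubgroup 2 6 e P ⊓ Cfsg.Geo.omegaGL Q) ∨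
    (∃ (F₀ : Subfield F) (r : ℕ) (P : Matrix.GeneralLinearGroup (Fin 12) F) (ζ : F), r.Prime ∧ Fintype.card F = Nat.card F₀ ^ r ∧ ζ ≠ 0 ∧ Cfsg.Geo.IsQuadFormRationalStructure (fun v : Fin 12 → F => ζ * Q v) F₀ P ∧ H = Cfsg.Geo.subfieldSubgroup F₀ P ⊓ Cfsg.Geo.omegaGL Q) ∨
    Cfsg.Geo.InOrthogonalResidualClass H := by
  classical
  let q : QuadraticForm F (Fin 12 → F) := qf hQ
  have hcard : Fintype.card (Fin 12) = 12 := Fintype.card_fin 12
  have hnd : Nd q := nd_qf hQ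
  have hgen : GenHyp q := Or.inr (Or.inl (by rw [finrank_fun]; omega))
  have hHi : H ≤ isometryGroup F Q := hH.1.le.trans AschO.omega_le
  have hpl : IsPlusTypeOn ⇑q ⊤ := hplus
  have hMTS : ∃ U, MTS q 6 U := by
    obtain ⟨U, -, hU, hUd⟩ := hpl
    rw [finrank_top, finrank_fun, hcard] at hUd
    exact ⟨U, by omega, hU⟩
  have h3q : Odd (Fintype.card F) → 3 ≤ Fintype.card F := by
    intro h
    have := Fintype.one_lt_card (α := F)
    obtain ⟨c, hc⟩ := h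
    omega
  rcases omax (Q := q) hQ (by omega) (by omega) hH with ⟨W, h0, hs, heq⟩ | ⟨W, h0, h1, hs, heq⟩ | ⟨v, h2', hv, heq⟩ | ⟨t, k, D, ht, htk, hD, heq⟩ |
    ⟨k, D, htk, hD, hs, heq⟩ | ⟨r, K, hr, hrn, hne, hK, hsa, heq⟩ | ⟨K, hrn, hK, hac, hns, hsim, heq⟩ |
    ⟨d, e, ρ, P, f₁, f₂, ho, hd, hde, hf₁, hf₂, hst, heq⟩ | ⟨d, e, ρ, P, f₁, f₂, hd, hde, hf₁, hf₂, hst, hpure, heq⟩ |
    ⟨F₀, r, P, ζ, hr, hc, hζ, hrs, heq⟩ | ⟨R, k, ho, hR, habs, hcomm, hk⟩ | ⟨k, e, P, f₁, ho, hk, hne, hc, hf₁, hst, heq⟩ |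
    ⟨k, t, hk, ht, hc, hev, hplus⟩ | h
  · exact Or.inl ⟨W, h0, hs, fun hd => submax_false hnd (by omega) (m := 6) (by omega) hpl hH h0 hs (by omega) heq, heq⟩
  · right
    obtain ⟨W, h0, h1, hs, heq, hpos, hle⟩ := nd_wlog hnd (by omega) hH h0 h1 hs heq
    rcases Nat.even_or_odd (finrank F W) with hev | hod
    · obtain hd | hd | hd : finrank F W = 2 ∨ finrank F W = 4 ∨ finrank F W = 6 := by
        obtain ⟨c, hc⟩ := hev
        omega
      · by_cases hpl : IsPlusTypeOn Q W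
        · exact Or.inr (Or.inr (Or.inl ⟨plane_cases hnd (by omega) hH hs hd heq hpl, W, hd, hs, hpl, heq⟩))
        · exact Or.inr (Or.inl ⟨W, hd, hs, hpl, heq⟩)
      · exact Or.inr (Or.inr (Or.inr (Or.inl ⟨W, hd, hs, heq⟩)))
      · obtain ⟨U, hU⟩ := hMTS
        obtain ⟨e, he⟩ := half_iso hnd (m := 6) (by rw [finrank_fun, hcard]) hU (nds_of_nondeg hs) hd (by decide)
        obtain ⟨hdec, heq'⟩ := dec_of_iso hnd (by omega) hH (m := 6) (by omega) hd hs heq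
        refine Or.inr (Or.inr (Or.inr (Or.inr (Or.inr (Or.inr (Or.inr (Or.inr (Or.inr (Or.inr (Or.inl ⟨_, ⟨hdec, ?_⟩, heq'⟩))))))))))
        exact iso_pair ⟨e, he⟩
    · exact Or.inl ⟨odd_of_nd_odd (Q := q) hs hod, W, h0, h1, hod, by obtain ⟨c, hc⟩ := hod; omega, hs, heq⟩
  · exact Or.inr (Or.inr (Or.inr (Or.inr (Or.inr (Or.inl ⟨not_odd_of_two h2', v, hv, heq⟩)))))
  · have hframe : ∀ D : Fin 12 → Submodule F (Fin 12 → F), IsOrthogonalMDecomposition Q 1 D → (Fintype.card F).Prime →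
        H = decompositionStabilizer D ⊓ omegaGL Q → ((∃ p : ℕ, p.Prime ∧ Odd p ∧ Fintype.card F = p) ∧
          ∃ D : Fin 12 → Submodule F (Fin 12 → F), Cfsg.Geo.IsOrthogonalMDecomposition Q 1 D ∧ H = Cfsg.Geo.decompositionStabilizer D ⊓ Cfsg.Geo.omegaGL Q) := by
      intro D hD hp heq
      refine ⟨⟨_, hp, ?_, rfl⟩, D, hD, heq⟩
      rcases odd_or_two (F := F) with h | h
      · exact h
      · exact absurd h (two_ne_of_dec_one (Q := q) hD)
    obtain ⟨rfl, rfl⟩ | ⟨rfl, rfl⟩ | ⟨rfl, rfl⟩ | ⟨rfl, rfl⟩ | ⟨rfl, rfl⟩ : (t = 2 ∧ k = 6) ∨ (t = 3 ∧ k = 4) ∨ (t = 4 ∧ k = 3) ∨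
        (t = 6 ∧ k = 2) ∨ (t = 12 ∧ k = 1) := by
      have hdvd : t ∣ 12 := Dvd.intro _ (by rw [htk, hcard])
      have hle := Nat.le_of_dvd (by norm_num) hdvd
      rw [hcard] at htk
      interval_cases t <;> omega
    · exact Or.inr (Or.inr (Or.inr (Or.inr (Or.inr (Or.inr (Or.inr (Or.inr (Or.inr (Or.inr (Or.inr (Or.inl ⟨D, hD, heq⟩)))))))))))
    · by_cases hq : Fintype.card F = 2
      · have h2 : (2 : F) = 0 := by
          have := FiniteField.cast_card_eq_zero F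
          rw [hq] at this
          exact_mod_cast this
        have hp2 := three_plus hnd h2 (c := 2) rfl hD hpl
        obtain ⟨D', hD', hm, hle'⟩ := four_refine (Q := q) hQ hq hD (fun i => plus_of_isom (hD.isometric 2 i) hp2) hHi (by rw [heq]; exact inf_le_left)
        exact Or.inr (Or.inr (Or.inr (Or.inr (Or.inr (Or.inr (Or.inr (Or.inr (Or.inl ⟨by omega, D', hD', hm,
          eq_inf_of_maximal hH hle' (not_le_dec_two hnd hgen h2 (by omega) (by omega) hD')⟩))))))))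
      · have := Fintype.one_lt_card (α := F)
        exact Or.inr (Or.inr (Or.inr (Or.inr (Or.inr (Or.inr (Or.inr (Or.inr (Or.inr (Or.inr (Or.inl ⟨by omega, D, hD, heq⟩))))))))))
    · have hodd : Odd (Fintype.card F) := odd_of_nd_odd (Q := q) (hD.decomp.nondegenerate 0) (by rw [hD.decomp.decomp.finrank_eq]; decide)
      by_cases hq : Fintype.card F = 3
      · obtain ⟨D', hD', hle'⟩ := frame_of_three (Q := q) hQ hq hD hHi (by rw [heq]; exact inf_le_left)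
        exact Or.inr (Or.inr (Or.inr (Or.inr (Or.inr (Or.inr (Or.inl (hframe D' hD' (by rw [hq]; exact Nat.prime_three)
          (eq_inf_of_maximal hH hle' (not_le_dec hnd hgen (by omega) hD'.decomp.decomp (Or.inl (AschSp.two_ne_of_odd hodd)))))))))))
      · exact Or.inr (Or.inr (Or.inr (Or.inr (Or.inr (Or.inr (Or.inr (Or.inr (Or.inr (Or.inl ⟨hodd, card_ge_five hodd hq, D, hD, heq⟩)))))))))
    · by_cases hp0 : IsPlusTypeOn Q (D 0)
      · have hp : ∀ i, IsPlusTypeOn ⇑q (D i) := fun i => plus_of_isom (hD.isometric 0 i) hp0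
        exact Or.inr (Or.inr (Or.inr (Or.inr (Or.inr (Or.inr (Or.inr (Or.inl ⟨planes_plus_ge hnd (by omega) hH (by omega) hD heq hp, D, hD, hp, heq⟩)))))))
      · have hp : ∀ i, ¬ IsPlusTypeOn ⇑q (D i) := fun i hi => hp0 (plus_of_isom (hD.isometric i 0) hi)
        exact Or.inr (Or.inr (Or.inr (Or.inr (Or.inr (Or.inr (Or.inr (Or.inr (Or.inl ⟨planes_ne_three hnd (by omega) hH (by omega) hD heq, D, hD, hp, heq⟩))))))))
    · rcases frame_case (Q := q) hQ (by omega) hH htk hD heq with hp | ⟨F₀, r, P, ζ, hr, hc, hζ, hrs, heq⟩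
      · exact Or.inr (Or.inr (Or.inr (Or.inr (Or.inr (Or.inr (Or.inl (hframe D hD hp heq)))))))
      · exact Or.inr (Or.inr (Or.inr (Or.inr (Or.inr (Or.inr (Or.inr (Or.inr (Or.inr (Or.inr (Or.inr (Or.inr (Or.inr (Or.inr (Or.inr (Or.inr (Or.inr (Or.inl
          ⟨F₀, r, P, ζ, hr, hc, hζ, hrs, heq⟩)))))))))))))))))
  · have hk6 : k = 6 := by omega
    subst hk6
    exact Or.inr (Or.inr (Or.inr (Or.inr (Or.inr (Or.inr (Or.inr (Or.inr (Or.inr (Or.inr (Or.inr (Or.inr (Or.inl ⟨D, hD, hs, heq⟩))))))))))))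
  · have hr23 : r = 2 ∨ r = 3 := by
      have h1 : r ∣ 2 ^ 2 * 3 := by rw [hcard] at hrn; exact hrn
      rcases (Nat.Prime.dvd_mul hr).1 h1 with h | h
      · exact Or.inl ((Nat.prime_dvd_prime_iff_eq hr Nat.prime_two).1 (hr.dvd_of_dvd_pow h))
      · exact Or.inr ((Nat.prime_dvd_prime_iff_eq hr Nat.prime_three).1 h)
    rcases hr23 with rfl | rfl
    · exact Or.inr (Or.inr (Or.inr (Or.inr (Or.inr (Or.inr (Or.inr (Or.inr (Or.inr (Or.inr (Or.inr (Or.inr (Or.inr (Or.inl ⟨K, hK, heq⟩)))))))))))))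
    · exact Or.inr (Or.inr (Or.inr (Or.inr (Or.inr (Or.inr (Or.inr (Or.inr (Or.inr (Or.inr (Or.inr (Or.inr (Or.inr (Or.inr (Or.inl ⟨K, hK, heq⟩))))))))))))))
  · exact Or.inr (Or.inr (Or.inr (Or.inr (Or.inr (Or.inr (Or.inr (Or.inr (Or.inr (Or.inr (Or.inr (Or.inr (Or.inr (Or.inr (Or.inr (Or.inl
      ⟨K, hK, hac, hns, hsim, heq⟩)))))))))))))))
  · have h3 := Fintype.card_congr ρ
    rw [Fintype.card_prod, Fintype.card_fin, Fintype.card_fin, Fintype.card_fin] at h3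
    have hd3 : d = 3 := by
      by_contra hcon
      have : 4 * 4 ≤ d * e := Nat.mul_le_mul (by omega) (by omega)
      omega
    subst hd3
    have he4 : e = 4 := by omega
    subst he4
    obtain ⟨e', P', g₁, g₂, hg₁, hg₂, hst', hpure', hle'⟩ := tsym_regroup (Q := q) hQ (AschSp.two_ne_of_odd ho) hf₁ hf₂ hst hpl hH.1.le
      (by rw [heq]; exact inf_le_left)
    exact Or.inr (Or.inr (Or.inr (Or.inr (Or.inr (Or.inr (Or.inr (Or.inr (Or.inr (Or.inr (Or.inr (Or.inr (Or.inr (Or.inr (Or.inr (Or.inr (Or.inl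
      ⟨h3q ho, e', P', g₁, g₂, hg₁, hg₂, hst', hpure', eq_inf_of_maximal hH hle' (not_le_tensor hnd hgen (by omega) (by omega) (by omega) e' P')⟩))))))))))))))))
  · have h3 := Fintype.card_congr ρ
    rw [Fintype.card_prod, Fintype.card_fin, Fintype.card_fin, Fintype.card_fin] at h3
    have hd2 : d = 2 := by
      by_contra hcon
      obtain ⟨c, hc⟩ := AschO.even_of_symp hf₁
      have : 4 * 4 ≤ d * e := Nat.mul_le_mul (by omega) (by omega)
      omega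
    subst hd2
    have he6 : e = 6 := by omega
    subst he6
    by_cases hq : Fintype.card F = 2
    · obtain ⟨K, hK, hle'⟩ := tensor_two_le hq (H := H) (e := ρ) (P := P) (by rw [heq]; exact inf_le_left)
      exact Or.inr (Or.inr (Or.inr (Or.inr (Or.inr (Or.inr (Or.inr (Or.inr (Or.inr (Or.inr (Or.inr (Or.inr (Or.inr (Or.inl
        ⟨K, hK, eq_inf_of_maximal hH hle' (not_le_field hnd hgen (by omega) le_rfl hK)⟩)))))))))))))
    · have := Fintype.one_lt_card (α := F)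
      exact Or.inr (Or.inr (Or.inr (Or.inr (Or.inr (Or.inr (Or.inr (Or.inr (Or.inr (Or.inr (Or.inr (Or.inr (Or.inr (Or.inr (Or.inr (Or.inr (Or.inl
        ⟨by omega, ρ, P, f₁, f₂, hf₁, hf₂, hst, hpure, heq⟩))))))))))))))))
  · exact Or.inr (Or.inr (Or.inr (Or.inr (Or.inr (Or.inr (Or.inr (Or.inr (Or.inr (Or.inr (Or.inr (Or.inr (Or.inr (Or.inr (Or.inr (Or.inr (Or.inr (Or.inl
      ⟨F₀, r, P, ζ, hr, hc, hζ, hrs, heq⟩)))))))))))))))))
  · exfalso
    rw [hcard] at hk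
    have h1 : 3 ∣ 2 ^ k := by rw [← hk]; decide
    have := (Nat.prime_dvd_prime_iff_eq Nat.prime_three Nat.prime_two).1 (Nat.prime_three.dvd_of_dvd_pow h1)
    omega
  · exfalso
    rw [hcard] at hc
    have h1 : k < 4 := by
      by_contra hcon
      have : 4 ^ 2 ≤ k ^ 2 := Nat.pow_le_pow_left (by omega) 2
      omega
    have h2 : k = 3 := by omega
    subst h2
    omega
  · exfalso
    rw [hcard] at hc
    have h1 : k < 4 := by
      by_contra hcon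
      have : 4 ^ 2 ≤ k ^ t := (Nat.pow_le_pow_left (by omega) 2).trans (Nat.pow_le_pow_right (by omega) ht)
      omega
    have h2 : k = 2 := by
      obtain ⟨c, hc⟩ := hev
      omega
    subst h2
    have h1 : 3 ∣ 2 ^ t := by rw [← hc]; decide
    have := (Nat.prime_dvd_prime_iff_eq Nat.prime_three Nat.prime_two).1 (Nat.prime_three.dvd_of_dvd_pow h1)
    omega
  · exact Or.inr (Or.inr (Or.inr (Or.inr (Or.inr (Or.inr (Or.inr (Or.inr (Or.inr (Or.inr (Or.inr (Or.inr (Or.inr (Or.inr (Or.inr (Or.inr (Or.inr (Or.inr h)))))))))))))))))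

end Cfsg.Agent.Lib.ONot
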