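import Cfsg.Agent.Lib.ONot10

/-!
Discriminants and decompositions.
-/

set_option autoImplicit false
set_option linter.style.haveILetI false
set_option linter.unusedVariables false
set_option linter.unusedSectionVars false

namespace Cfsg.Agent.Lib.ONot

open Cfsg Cfsg.Geo Module QuadraticMap Cfsg.Agent.Lib.Quad Cfsg.Agent.Lib.OrthMax Cfsg.Agent.Lib.OrthNd
  Cfsg.Agent.Lib.OrthNot Cfsg.Agent.Lib.OrthBridge Cfsg.Agent.Lib.OrthNdBridge Cfsg.Agent.Lib.UniRes
open Cfsg.Agent.Lib.GeoBridge (le)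
open Cfsg.Agent.Lib.AschCore Cfsg.Agent.Lib.AschField Cfsg.Agent.Lib.AschAlg Cfsg.Agent.Lib.AschGroup Cfsg.Agent.Lib.AschMU Cfsg.Agent.Lib.AschGood Cfsg.Agent.Lib.AschNonab
open Cfsg.Agent.Lib.SLNot (eq_inf_of_maximal ne_top_of_card kLeft)
open scoped Matrix MatrixGroups Kronecker

variable {ι : Type} [Fintype ι] [DecidableEq ι] {F : Type*} [Field F] [Fintype F] {Q : QuadraticForm F (ι → F)}

lemma det_gm_ne_zero (hQ : Nd Q) : (AschO.gm ⇑Q).det ≠ 0 := by
  rw [gm_eq]
  exact hQ.gram_ne_zero _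

/-- The discriminant detects plus type in odd characteristic. -/
lemma plus_of_disc (hQ : Nd Q) (h2 : (2 : F) ≠ 0) {m : ℕ} (hm : Fintype.card ι = 2 * m) (h : IsSquare ((-1) ^ m * (AschO.gm ⇑Q).det)) :
    IsPlusTypeOn ⇑Q ⊤ := by
  obtain ⟨g, hg⟩ := exists_isometry_of_disc h2 (nd_quadPlus (F := F) (m := m)) hQ (by rw [finrank_plus, finrank_fun, hm])
    (Pi.basisFun F (Fin m ⊕ Fin m)) (Pi.basisFun F ι) (by rw [det_gram_plus, ← gm_eq]; exact h)
  have h1 := mts_std (F := F) (m := m)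
  set U₀ := LinearMap.ker (LinearMap.funLeft F F (Sum.inr : Fin m → Fin m ⊕ Fin m)) with hU₀
  refine ⟨U₀.map g.toLinearMap, le_top, ?_, ?_⟩
  · rintro _ ⟨u, hu, rfl⟩
    show Q (g u) = 0
    rw [hg]
    exact h1.2 u hu
  · rw [LinearEquiv.finrank_map_eq, finrank_top, finrank_fun, hm]
    congr 1
    exact h1.1

/-- An even number of isometric members: the discriminant is a square. -/
lemma disc_dec (hQ : Nd Q) {t k : ℕ} {D : Fin t → Submodule F (ι → F)} (hD : IsOrthogonalMDecomposition ⇑Q k D) (ht : Even t) :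
    IsSquare (AschO.gm ⇑Q).det := by
  classical
  obtain ⟨c, hc1, hc2, hc3, hc4⟩ := dec_basis hD
  obtain ⟨s, hs⟩ := ht
  have h0 : 0 < t := by have := hD.decomp.decomp.two_le; omega
  let i₀ : Fin t := ⟨0, h0⟩
  let g : Matrix (Fin k) (Fin k) F := Matrix.of fun x y => polar Q (c (i₀, x)) (c (i₀, y))
  have h1 : LinearMap.BilinForm.toMatrix c (polarBilin Q) = (1 : Matrix (Fin t) (Fin t) F) ⊗ₖ g := by
    ext ⟨i, x⟩ ⟨j, y⟩
    rw [LinearMap.BilinForm.toMatrix_apply, Matrix.kroneckerMap_apply]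
    show polar Q (c (i, x)) (c (j, y)) = _
    by_cases hij : i = j
    · subst hij
      rw [Matrix.one_apply_eq, one_mul, hc3 i i₀]
      rfl
    · rw [Matrix.one_apply_ne hij, zero_mul, hc4 _ _ hij]
  rw [gm_eq, isSquare_gram_iff hQ _ c, h1, Matrix.det_kronecker, Matrix.det_one, one_pow, one_mul, Fintype.card_fin, hs]
  exact ⟨g.det ^ s, by rw [pow_add]⟩

/-- Discriminant of an orthogonal splitting. -/
lemma disc_split (hQ : Nd Q) {W : Submodule F (ι → F)} (hW : NDs Q W) {κ κ' : Type*} [Fintype κ] [DecidableEq κ] [Fintype κ'] [DecidableEq κ']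
    (c : Basis κ F W) (c' : Basis κ' F (perp Q W)) : IsSquare (AschO.gm ⇑Q).det ↔
      IsSquare ((LinearMap.BilinForm.toMatrix c (polarBilin (res Q W))).det * (LinearMap.BilinForm.toMatrix c' (polarBilin (res Q (perp Q W)))).det) := by
  have hcompl : IsCompl W (perp Q W) := by
    refine ⟨disjoint_iff.2 hW, codisjoint_iff.2 ?_⟩
    rw [eq_top_iff]
    intro v _
    obtain ⟨w, hw, x, hx, rfl⟩ := nds_sup hQ hW v
    exact Submodule.add_mem_sup hw hx
  let b : Basis (κ ⊕ κ') F (ι → F) := (c.prod c').map (Submodule.prodEquivOfIsCompl _ _ hcompl)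
  have h1 : LinearMap.BilinForm.toMatrix b (polarBilin Q) = Matrix.fromBlocks (LinearMap.BilinForm.toMatrix c (polarBilin (res Q W))) 0 0
      (LinearMap.BilinForm.toMatrix c' (polarBilin (res Q (perp Q W)))) := by
    have hbl : ∀ i, b (Sum.inl i) = (c i : ι → F) := by
      intro i
      simp [b]
    have hbr : ∀ i, b (Sum.inr i) = (c' i : ι → F) := by
      intro i
      simp [b]
    ext i j
    rw [LinearMap.BilinForm.toMatrix_apply]
    rcases i with i | i <;> rcases j with j | j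
    · rw [Matrix.fromBlocks_apply₁₁, LinearMap.BilinForm.toMatrix_apply, hbl, hbl]; rfl
    · rw [Matrix.fromBlocks_apply₁₂, hbl, hbr]
      exact mem_perp.1 (c' j).2 _ (c i).2
    · rw [Matrix.fromBlocks_apply₂₁, hbl, hbr]
      show polar Q _ _ = 0
      rw [polar_comm]
      exact mem_perp.1 (c' i).2 _ (c j).2
    · rw [Matrix.fromBlocks_apply₂₂, LinearMap.BilinForm.toMatrix_apply, hbr, hbr]; rfl
  rw [gm_eq, isSquare_gram_iff hQ _ b, h1, Matrix.det_fromBlocks_zero₂₁]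

/-- Half-dimensional subspaces in odd characteristic: isometric to the complement iff the discriminant is a square. -/
theorem half_iso_iff (hQ : Nd Q) (h2 : (2 : F) ≠ 0) {m : ℕ} (hm : Fintype.card ι = 2 * m) {W : Submodule F (ι → F)} (hW : NDs Q W)
    (hd : finrank F W = m) : AreIsometricFor ⇑Q W (perp Q W) ↔ IsSquare (AschO.gm ⇑Q).det := by
  have hdp := hQ.finrank_add_finrank_perp W
  rw [finrank_fun] at hdp
  constructor
  · rintro ⟨e, he⟩
    let c := finBasis F W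
    rw [disc_split hQ hW c (c.map e)]
    have h1 : LinearMap.BilinForm.toMatrix (c.map e) (polarBilin (res Q (perp Q W))) = LinearMap.BilinForm.toMatrix c (polarBilin (res Q W)) := by
      ext i j
      rw [LinearMap.BilinForm.toMatrix_apply, LinearMap.BilinForm.toMatrix_apply, Basis.map_apply, Basis.map_apply]
      show polar Q (e (c i) : ι → F) (e (c j) : ι → F) = polar Q (c i : ι → F) (c j : ι → F)
      unfold polar
      have h2 : ((e (c i) : perp Q W) : ι → F) + ((e (c j) : perp Q W) : ι → F) = ((e (c i + c j) : perp Q W) : ι → F) := by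
        rw [map_add]; rfl
      rw [h2, he, he, he]
      rfl
    rw [h1]
    exact ⟨_, rfl⟩
  · intro h
    rw [disc_split hQ hW (finBasis F W) (finBasis F (perp Q W))] at h
    obtain ⟨g, hg⟩ := exists_isometry_of_disc h2 (nd_res_of_inf hW) (nd_res_of_inf (nds_perp hQ hW)) (by omega) _ _ h
    exact ⟨g, hg⟩

/-- The members of a decomposition of a plus type space into five isometric subspaces of even dimension are of plus type. -/
theorem five_plus (hnd : Nd Q) {k c : ℕ} (hk : k = 2 * c) {D : Fin 5 → Submodule F (ι → F)}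
    (hD : IsOrthogonalMDecomposition ⇑Q k D) (hpl : IsPlusTypeOn ⇑Q ⊤) : IsPlusTypeOn ⇑Q (D 4) := by
  obtain ⟨U, -, hU, hUd⟩ := hpl
  have hcard : Fintype.card ι = 5 * k := by
    rw [← finrank_fun (F := F)]; exact Cfsg.Agent.Lib.OrthFrameH94.card_decomp hD.decomp.decomp
  rw [finrank_top, finrank_fun] at hUd
  obtain ⟨φ₁, hφ₁⟩ := hD.isometric 0 1
  obtain ⟨φ₂, hφ₂⟩ := hD.isometric 0 2
  obtain ⟨φ₃, hφ₃⟩ := hD.isometric 0 3
  have hfr0 := hD.decomp.decomp.finrank_eq 0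
  have hfr4 := hD.decomp.decomp.finrank_eq 4
  have hs0 := nds_of_nondeg (hD.decomp.nondegenerate 0)
  have hs4 := nds_of_nondeg (hD.decomp.nondegenerate 4)
  obtain ⟨T, hT⟩ := exists_neg_isometry (nd_res_of_inf hs0) (by rw [hfr0, hk]; exact even_two_mul c)
  have hT' : ∀ x : D 0, Q (T x : ι → F) = - Q (x : ι → F) := hT
  let ψ : (D 0 × D 0) →ₗ[F] (ι → F) := LinearMap.coprod ((D 0).subtype + (D 1).subtype ∘ₗ φ₁.toLinearMap ∘ₗ T.toLinearMap)
    ((D 2).subtype ∘ₗ φ₂.toLinearMap + (D 3).subtype ∘ₗ φ₃.toLinearMap ∘ₗ T.toLinearMap)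
  have hψ : ∀ x : D 0 × D 0, ψ x = ((x.1 : ι → F) + (φ₁ (T x.1) : ι → F)) + ((φ₂ x.2 : ι → F) + (φ₃ (T x.2) : ι → F)) := fun x => rfl
  have hor : ∀ i j : Fin 5, i ≠ j → ∀ x ∈ D i, ∀ y ∈ D j, polar Q x y = 0 := fun i j hij x hx y hy => hD.decomp.orthogonal i j hij x hx y hy
  have hQψ : ∀ x, Q (ψ x) = 0 := by
    intro x
    rw [hψ, Q_add, Q_add, Q_add Q (φ₂ x.2 : ι → F), polar_add_left, polar_add_right, polar_add_right,
      hor 0 1 (by decide) _ x.1.2 _ (φ₁ (T x.1)).2, hor 2 3 (by decide) _ (φ₂ x.2).2 _ (φ₃ (T x.2)).2,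
      hor 0 2 (by decide) _ x.1.2 _ (φ₂ x.2).2, hor 0 3 (by decide) _ x.1.2 _ (φ₃ (T x.2)).2,
      hor 1 2 (by decide) _ (φ₁ (T x.1)).2 _ (φ₂ x.2).2, hor 1 3 (by decide) _ (φ₁ (T x.1)).2 _ (φ₃ (T x.2)).2,
      hφ₁, hφ₂, hφ₃, hT', hT']
    ring
  have hψp : ∀ x, ψ x ∈ perp Q (D 4) := by
    intro x
    rw [mem_perp]
    intro w hw
    rw [hψ, polar_add_right, polar_add_right, polar_add_right, hor 4 0 (by decide) _ hw _ x.1.2, hor 4 1 (by decide) _ hw _ (φ₁ (T x.1)).2,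
      hor 4 2 (by decide) _ hw _ (φ₂ x.2).2, hor 4 3 (by decide) _ hw _ (φ₃ (T x.2)).2]
    ring
  have hinj : Function.Injective ψ := by
    rw [← LinearMap.ker_eq_bot, LinearMap.ker_eq_bot']
    intro x hx
    rw [hψ] at hx
    have h0 : x.1 = 0 := by
      apply (nd_res_of_inf hs0).eq_zero
      intro y
      show polar Q (x.1 : ι → F) (y : ι → F) = 0
      have h3 := congrArg (fun z => polar Q z (y : ι → F)) hx
      simp only [polar_add_left, polar_zero_left] at h3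
      rw [hor 1 0 (by decide) _ (φ₁ (T x.1)).2 _ y.2, hor 2 0 (by decide) _ (φ₂ x.2).2 _ y.2, hor 3 0 (by decide) _ (φ₃ (T x.2)).2 _ y.2] at h3
      simpa using h3
    have h1 : x.2 = 0 := by
      rw [← LinearEquiv.map_eq_zero_iff φ₂]
      apply (nd_res_of_inf (nds_of_nondeg (hD.decomp.nondegenerate 2))).eq_zero
      intro y
      show polar Q (φ₂ x.2 : ι → F) (y : ι → F) = 0
      have h3 := congrArg (fun z => polar Q z (y : ι → F)) hx
      simp only [polar_add_left, polar_zero_left] at h3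
      rw [hor 0 2 (by decide) _ x.1.2 _ y.2, hor 1 2 (by decide) _ (φ₁ (T x.1)).2 _ y.2, hor 3 2 (by decide) _ (φ₃ (T x.2)).2 _ y.2] at h3
      simpa using h3
    exact Prod.ext h0 h1
  have hdp := hnd.finrank_add_finrank_perp (D 4)
  rw [finrank_fun] at hdp
  obtain ⟨U₂, hU₂, hU₂s, hU₂d⟩ := plus_cancel hnd (m := 5 * c) (a := 2 * k) (by rw [finrank_fun]; omega) (U := U) ⟨by omega, hU⟩
    (A := perp Q (D 4)) (nds_perp hnd hs4) (by omega) (U₁ := LinearMap.range ψ) (by rintro _ ⟨x, rfl⟩; exact hψp x)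
    (by rintro _ ⟨x, rfl⟩; exact hQψ x) (by rw [LinearMap.finrank_range_of_inj hinj, finrank_prod, hfr0]; omega)
  exact ⟨U₂, by rwa [hnd.perp_perp] at hU₂, hU₂s, by omega⟩

end Cfsg.Agent.Lib.ONot
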