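import Cfsg.Agent.Lib.ONot11
import Cfsg.Agent.Lib.POmCls
import Cfsg.Agent.Lib.AschSp2

/-!
Field extension subgroups in twice odd dimension.
-/

set_option autoImplicit false
set_option linter.style.haveILetI false
set_option linter.unusedVariables false
set_option linter.unusedSectionVars false

namespace Cfsg.Agent.Lib.ONot

open Cfsg Cfsg.Geo Module QuadraticMap Cfsg.Agent.Lib.Quad Cfsg.Agent.Lib.OrthMax Cfsg.Agent.Lib.OrthNd
  Cfsg.Agent.Lib.OrthNot Cfsg.Agent.Lib.OrthBridge Cfsg.Agent.Lib.OrthNdBridge Cfsg.Agent.Lib.UniRes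
open Cfsg.Agent.Lib.GeoBridge (le)
open Cfsg.Agent.Lib.AschCore Cfsg.Agent.Lib.AschField Cfsg.Agent.Lib.AschAlg Cfsg.Agent.Lib.AschGroup Cfsg.Agent.Lib.AschMU Cfsg.Agent.Lib.AschGood Cfsg.Agent.Lib.AschNonab
open Cfsg.Agent.Lib.SLNot (eq_inf_of_maximal ne_top_of_card kLeft)
open scoped Matrix MatrixGroups Kronecker

variable {ι : Type} [Fintype ι] [DecidableEq ι] {F : Type*} [Field F] [Fintype F] {Q : QuadraticForm F (ι → F)}

/-- `K v` -/
def kv (K : Subalgebra F (Matrix ι ι F)) (v : ι → F) : Submodule F (ι → F) :=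
  (Subalgebra.toSubmodule K).map ((Matrix.mulVecBilin F F).flip v)

lemma mem_kv {K : Subalgebra F (Matrix ι ι F)} {v u : ι → F} : u ∈ kv K v ↔ ∃ k ∈ K, k *ᵥ v = u := by
  simp only [kv, Submodule.mem_map, Subalgebra.mem_toSubmodule]
  rfl

lemma self_mem_kv (K : Subalgebra F (Matrix ι ι F)) (v : ι → F) : v ∈ kv K v := mem_kv.2 ⟨1, K.one_mem, Matrix.one_mulVec v⟩

lemma kv_inj {r : ℕ} {K : Subalgebra F (Matrix ι ι F)} (hK : IsFieldSubalgebra r K) {v : ι → F} (hv : v ≠ 0) {k : Matrix ι ι F} (hk : k ∈ K)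
    (h : k *ᵥ v = 0) : k = 0 := by
  by_contra h0
  obtain ⟨y, hy, hxy⟩ := hK.inv k hk h0
  apply hv
  rw [← Matrix.one_mulVec v, ← hxy, hK.comm k hk y hy, ← Matrix.mulVec_mulVec, h, Matrix.mulVec_zero]

lemma finrank_kv {r : ℕ} {K : Subalgebra F (Matrix ι ι F)} (hK : IsFieldSubalgebra r K) {v : ι → F} (hv : v ≠ 0) :
    finrank F (kv K v) = r := by
  rw [← hK.finrank_eq]
  have h1 : kv K v = LinearMap.range (((Matrix.mulVecBilin F F).flip v).domRestrict (Subalgebra.toSubmodule K)) := by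
    rw [LinearMap.range_domRestrict]; rfl
  rw [h1, LinearMap.finrank_range_of_inj]
  · rfl
  · rw [← LinearMap.ker_eq_bot, LinearMap.ker_eq_bot']
    rintro ⟨k, hk⟩ h
    exact Subtype.ext (kv_inj hK hv hk h)

lemma kv_inv {K : Subalgebra F (Matrix ι ι F)} {v : ι → F} : ∀ k ∈ K, ∀ w ∈ kv K v, k *ᵥ w ∈ kv K v := by
  intro k hk w hw
  obtain ⟨l, hl, rfl⟩ := mem_kv.1 hw
  rw [Matrix.mulVec_mulVec]
  exact mem_kv.2 ⟨k * l, K.mul_mem hk hl, rfl⟩

/-- Squares in a field of matrices in characteristic two. -/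
lemma sq_bij {r : ℕ} (h2 : (2 : F) = 0) {K : Subalgebra F (Matrix ι ι F)} (hK : IsFieldSubalgebra r K) :
    Function.Bijective (fun k : K => k * k) := by
  have : Finite K := inferInstance
  refine Finite.injective_iff_bijective.1 ?_
  intro a b hab
  have h3 : (a : Matrix ι ι F) * a = b * b := congrArg Subtype.val hab
  have h4 : ((a : Matrix ι ι F) - b) * ((a : Matrix ι ι F) - b) = 0 := by
    have h5 : (2 : F) • ((b : Matrix ι ι F) * b - (a : Matrix ι ι F) * b) = 0 := by rw [h2, zero_smul]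
    rw [two_smul] at h5
    rw [sub_mul, mul_sub, mul_sub, h3, hK.comm b b.2 a a.2]
    rw [← h5]
    abel
  by_contra hne
  have h5 : (a : Matrix ι ι F) - b ≠ 0 := fun h => hne (Subtype.ext (sub_eq_zero.1 h))
  obtain ⟨y, hy, hxy⟩ := hK.inv _ (K.sub_mem a.2 b.2) h5
  apply h5
  calc (a : Matrix ι ι F) - b = ((a : Matrix ι ι F) - b) * (((a : Matrix ι ι F) - b) * y) := by rw [hxy, mul_one]
    _ = 0 := by rw [← mul_assoc, h4, zero_mul]

lemma sa_zero {r : ℕ} (h2 : (2 : F) = 0) {K : Subalgebra F (Matrix ι ι F)} (hK : IsFieldSubalgebra r K)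
    (hsa : IsSelfAdjointFor (QuadraticMap.polar ⇑Q) K) : ∀ k ∈ K, ∀ v, polar Q (k *ᵥ v) v = 0 := by
  intro k hk v
  obtain ⟨l, hl⟩ := (sq_bij h2 hK).2 ⟨k, hk⟩
  have hl' : (l : Matrix ι ι F) * l = k := congrArg Subtype.val hl
  rw [← hl', ← Matrix.mulVec_mulVec, hsa l l.2, polar_self', h2, zero_mul]

/-- The degree of a self-adjoint field divides half the dimension in characteristic two. -/
lemma sa_even (hnd : Nd Q) (h2 : (2 : F) = 0) {m r : ℕ} (hm : Fintype.card ι = 2 * m) (hm0 : 0 < m) {K : Subalgebra F (Matrix ι ι F)}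
    (hK : IsFieldSubalgebra r K) (hsa : IsSelfAdjointFor (QuadraticMap.polar ⇑Q) K) : r ∣ m := by
  classical
  haveI : Nonempty ι := Fintype.card_pos_iff.1 (by omega)
  have hz := sa_zero (Q := Q) h2 hK hsa
  let S : Set (Submodule F (ι → F)) :=
    {W | (∀ k ∈ K, ∀ w ∈ W, k *ᵥ w ∈ W) ∧ ∀ u ∈ W, ∀ v ∈ W, polar Q u v = 0}
  have hS : S.Nonempty := ⟨⊥, fun k _ w hw => by rw [(Submodule.mem_bot F).1 hw, Matrix.mulVec_zero]; exact Submodule.zero_mem _,
    fun u hu v _ => by rw [(Submodule.mem_bot F).1 hu, polar_zero_left]⟩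
  obtain ⟨W, hW⟩ := (Set.toFinite S).exists_maximal hS
  obtain ⟨hWK, hWs⟩ := hW.prop
  have hperp : ∀ v, (∀ w ∈ W, polar Q w v = 0) → v ∈ W := by
    intro v hv
    have h1 : W ⊔ kv K v ∈ S := by
      constructor
      · intro k hk w hw
        obtain ⟨a, ha, b, hb, rfl⟩ := Submodule.mem_sup.1 hw
        rw [Matrix.mulVec_add]
        exact Submodule.add_mem_sup (hWK k hk a ha) (kv_inv k hk b hb)
      · intro x hx y hy
        obtain ⟨a, ha, b, hb, rfl⟩ := Submodule.mem_sup.1 hx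
        obtain ⟨c, hc, d, hd, rfl⟩ := Submodule.mem_sup.1 hy
        obtain ⟨k, hk, rfl⟩ := mem_kv.1 hb
        obtain ⟨l, hl, rfl⟩ := mem_kv.1 hd
        have e1 : polar Q a (l *ᵥ v) = 0 := by rw [← hsa l hl]; exact hv _ (hWK l hl a ha)
        have e2 : polar Q (k *ᵥ v) c = 0 := by
          rw [polar_comm, ← hsa k hk]; exact hv _ (hWK k hk c hc)
        have e3 : polar Q (k *ᵥ v) (l *ᵥ v) = 0 := by
          rw [← hsa l hl, Matrix.mulVec_mulVec]; exact hz _ (K.mul_mem hl hk) v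
        rw [polar_add_left, polar_add_right, polar_add_right, hWs a ha c hc, e1, e2, e3]
        ring
    have h2 : W ⊔ kv K v ≤ W := hW.le_of_ge h1 le_sup_left
    exact h2 (Submodule.mem_sup_right (self_mem_kv K v))
  have horth : perp Q W = W := by
    ext v
    rw [mem_perp]
    exact ⟨fun h => hperp v h, fun hv w hw => hWs w hw v hv⟩
  have hfr := hnd.finrank_add_finrank_perp W
  rw [horth, finrank_fun] at hfr
  have hdim : finrank F W = m := by omega
  rw [← hdim, ← hK.finrank_eq]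
  exact AschSp.dvd_finrank_of_field hK.comm hK.inv hWK

/-- A quadratic field acting by similarities: in plus type half the dimension is even. -/
lemma her_plus_even (hnd : Nd Q) {m : ℕ} (hm : Fintype.card ι = 2 * m) (hm0 : 0 < m) {K : Subalgebra F (Matrix ι ι F)}
    (hK : IsFieldSubalgebra 2 K) (hac : IsAdjointClosedFor (QuadraticMap.polar ⇑Q) K)
    (hsim : ∀ k ∈ K, ∃ c : F, ∀ v : ι → F, Q (k *ᵥ v) = c * Q v) (hpl : IsPlusTypeOn ⇑Q ⊤) : Even m := by
  classical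
  haveI : Nonempty ι := Fintype.card_pos_iff.1 (by omega)
  obtain ⟨U₀, -, hU₀, hU₀d⟩ := hpl
  rw [finrank_top, finrank_fun, hm] at hU₀d
  have hMTS : MTS Q m U₀ := ⟨by omega, hU₀⟩
  let S : Set (Submodule F (ι → F)) := {W | (∀ k ∈ K, ∀ w ∈ W, k *ᵥ w ∈ W) ∧ ∀ u ∈ W, Q u = 0}
  have hS : S.Nonempty := ⟨⊥, fun k _ w hw => by rw [(Submodule.mem_bot F).1 hw, Matrix.mulVec_zero]; exact Submodule.zero_mem _,
    fun u hu => by rw [(Submodule.mem_bot F).1 hu, map_zero]⟩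
  obtain ⟨W, hW⟩ := (Set.toFinite S).exists_maximal hS
  obtain ⟨hWK, hWs⟩ := hW.prop
  obtain ⟨g, hg, hgW⟩ := Cfsg.Agent.Lib.POmCls.ts_extend hnd (by rw [finrank_fun, hm]) hMTS hWs
  have hU := map_ts hMTS hg
  have hle : U₀.map (g : (ι → F) ≃ₗ[F] (ι → F)).toLinearMap ≤ W := by
    intro u hu
    have h1 : W ⊔ kv K u ∈ S := by
      constructor
      · intro k hk w hw
        obtain ⟨a, ha, b, hb, rfl⟩ := Submodule.mem_sup.1 hw
        rw [Matrix.mulVec_add]
        exact Submodule.add_mem_sup (hWK k hk a ha) (kv_inv k hk b hb)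
      · intro x hx
        obtain ⟨a, ha, b, hb, rfl⟩ := Submodule.mem_sup.1 hx
        obtain ⟨k, hk, rfl⟩ := mem_kv.1 hb
        obtain ⟨c, hc⟩ := hsim k hk
        obtain ⟨k', hk', hkk⟩ := hac k hk
        rw [Q_add, hWs a ha, hc, hU.2 u hu, polar_comm, hkk u a, polar_of_ts hU.2 hu (hgW (hWK k' hk' a ha))]
        ring
    have h2 : W ⊔ kv K u ≤ W := hW.le_of_ge h1 le_sup_left
    exact h2 (Submodule.mem_sup_right (self_mem_kv K u))
  have heq : U₀.map (g : (ι → F) ≃ₗ[F] (ι → F)).toLinearMap = W := le_antisymm hle hgW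
  have hdim : finrank F W = m := by rw [← heq]; exact hU.1
  rw [even_iff_two_dvd, ← hdim, ← hK.finrank_eq]
  exact AschSp.dvd_finrank_of_field hK.comm hK.inv hWK

end Cfsg.Agent.Lib.ONot
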