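import Cfsg.Agent.Lib.ONot12

/-!
Self-adjoint fields over which the space is two-dimensional.
-/

set_option autoImplicit false
set_option linter.style.haveILetI false
set_option linter.unusedVariables false
set_option linter.unusedSectionVars false

namespace Cfsg.Agent.Lib.ONot

open Cfsg Cfsg.Geo Module QuadraticMap Cfsg.Agent.Lib.Quad Cfsg.Agent.Lib.OrthMax Cfsg.Agent.Lib.OrthNd
  Cfsg.Agent.Lib.OrthNot Cfsg.Agent.Lib.OrthBridge Cfsg.Agent.Lib.OrthNdBridge Cfsg.Agent.Lib.UniRes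
open Cfsg.Agent.Lib.GeoBridge (le)
open Cfsg.Agent.Lib.AschCore Cfsg.Agent.Lib.AschField Cfsg.Agent.Lib.AschAlg Cfsg.Agent.Lib.AschGroup Cfsg.Agent.Lib.AschMU Cfsg.Agent.Lib.AschGood Cfsg.Agent.Lib.AschNonab
open Cfsg.Agent.Lib.SLNot (eq_inf_of_maximal ne_top_of_card kLeft)
open scoped Matrix MatrixGroups Kronecker

variable {ι : Type} [Fintype ι] [DecidableEq ι] {F : Type*} [Field F] [Fintype F] {Q : QuadraticForm F (ι → F)}

/-- Two-dimensional spaces over a self-adjoint field. -/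
structure Hf (Q : QuadraticForm F (ι → F)) (r : ℕ) (K : Subalgebra F (Matrix ι ι F)) (x₀ y₀ : ι → F) (α β : Matrix ι ι F) : Prop where
  nd : Nd Q
  hK : IsFieldSubalgebra r K
  sa : ∀ k ∈ K, ∀ u v, polar Q (k *ᵥ u) v = polar Q u (k *ᵥ v)
  span : ∀ v, ∃ a ∈ K, ∃ b ∈ K, v = a *ᵥ x₀ + b *ᵥ y₀
  indep : ∀ a ∈ K, ∀ b ∈ K, a *ᵥ x₀ + b *ᵥ y₀ = 0 → a = 0 ∧ b = 0
  hα : α ∈ K
  hβ : β ∈ K
  one : polar Q x₀ y₀ ≠ 0
  qx : ∀ a ∈ K, Q (a *ᵥ x₀) = polar Q ((a * a * α) *ᵥ x₀) y₀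
  qy : ∀ a ∈ K, Q (a *ᵥ y₀) = polar Q ((a * a * β) *ᵥ x₀) y₀

section Hf
variable {r : ℕ} {K : Subalgebra F (Matrix ι ι F)} {x₀ y₀ : ι → F} {α β : Matrix ι ι F} 

/-- commutative ring structure -/
abbrev cring (hK : IsFieldSubalgebra r K) : CommRing K :=
  { (inferInstance : Ring K) with mul_comm := fun a b => Subtype.ext (hK.comm a a.2 b b.2) }

/-- duality -/
lemma dual_zero (hK : IsFieldSubalgebra r K) (hone : polar Q x₀ y₀ ≠ 0) {c : Matrix ι ι F} (hc : c ∈ K)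
    (h : ∀ l ∈ K, polar Q ((l * c) *ᵥ x₀) y₀ = 0) : c = 0 := by
  by_contra h0
  obtain ⟨y, hy, hxy⟩ := hK.inv c hc h0
  have := h y hy
  rw [hK.comm y hy c hc, hxy, Matrix.one_mulVec] at this
  exact hone this

lemma dual_exists (hK : IsFieldSubalgebra r K) (hone : polar Q x₀ y₀ ≠ 0) (φ : K →ₗ[F] F) :
    ∃ c ∈ K, ∀ k : K, φ k = polar Q (((k : Matrix ι ι F) * c) *ᵥ x₀) y₀ := by
  let B : K →ₗ[F] (K →ₗ[F] F) := LinearMap.mk₂ F (fun (c k : K) => polar Q (((k : Matrix ι ι F) * (c : Matrix ι ι F)) *ᵥ x₀) y₀)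
    (by intro c c' k; simp only [Subalgebra.coe_add, mul_add, Matrix.add_mulVec, polar_add_left])
    (by intro a c k; simp only [Subalgebra.coe_smul, Matrix.mul_smul, Matrix.smul_mulVec, polar_smul_left])
    (by intro c k k'; simp only [Subalgebra.coe_add, add_mul, Matrix.add_mulVec, polar_add_left])
    (by intro a c k; simp only [Subalgebra.coe_smul, Matrix.smul_mul, Matrix.smul_mulVec, polar_smul_left])
  have hinj : Function.Injective B := by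
    rw [← LinearMap.ker_eq_bot, LinearMap.ker_eq_bot']
    rintro ⟨c, hc⟩ h
    exact Subtype.ext (dual_zero hK hone hc fun l hl => LinearMap.congr_fun h ⟨l, hl⟩)
  have hsurj : Function.Surjective B := by
    rw [← LinearMap.injective_iff_surjective_of_finrank_eq_finrank]
    · exact hinj
    · exact (Subspace.dual_finrank_eq (K := F) (V := K)).symm
  obtain ⟨c, hc⟩ := hsurj φ
  exact ⟨c, c.2, fun k => by rw [← hc]; rfl⟩

/-- Every vector has a coefficient. -/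
lemma exists_coef (hK : IsFieldSubalgebra r K) (hsa : IsSelfAdjointFor (QuadraticMap.polar ⇑Q) K) (hone : polar Q x₀ y₀ ≠ 0) (v : ι → F) :
    ∃ c ∈ K, ∀ a ∈ K, Q (a *ᵥ v) = polar Q ((a * a * c) *ᵥ x₀) y₀ := by
  by_cases h2 : (2 : F) = 0
  · have hz := sa_zero (Q := Q) h2 hK hsa
    let e : K ≃ K := Equiv.ofBijective _ (sq_bij h2 hK)
    have he : ∀ k : K, ((e.symm k : K) : Matrix ι ι F) * (e.symm k : K) = k := fun k => congrArg Subtype.val (e.apply_symm_apply k)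
    have hee : ∀ k l : K, (l : Matrix ι ι F) * l = k → e.symm k = l := by
      intro k l h
      rw [Equiv.symm_apply_eq]
      exact Subtype.ext h.symm
    let φ : K →ₗ[F] F :=
      { toFun := fun k => Q (((e.symm k : K) : Matrix ι ι F) *ᵥ v)
        map_add' := by
          intro k l
          have h1 : e.symm (k + l) = e.symm k + e.symm l := by
            apply hee
            have h3 : (2 : F) • (((e.symm k : K) : Matrix ι ι F) * (e.symm l : K)) = 0 := by rw [h2, zero_smul]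
            rw [two_smul] at h3
            rw [Subalgebra.coe_add, add_mul, mul_add, mul_add, he, he, hK.comm _ (e.symm l).2 _ (e.symm k).2, Subalgebra.coe_add]
            calc _ = (k : Matrix ι ι F) + l + (((e.symm k : K) : Matrix ι ι F) * (e.symm l : K) + ((e.symm k : K) : Matrix ι ι F) * (e.symm l : K)) := by abel
              _ = _ := by rw [h3, add_zero]
          rw [h1, Subalgebra.coe_add, Matrix.add_mulVec, Q_add, polar_comm, hsa _ (e.symm l).2, polar_comm, Matrix.mulVec_mulVec,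
            hz _ (K.mul_mem (e.symm l).2 (e.symm k).2), add_zero]
        map_smul' := by
          intro c k
          obtain ⟨d, hd⟩ := AschSp.exists_sqrt h2 c
          have h1 : e.symm (c • k) = d • e.symm k := by
            apply hee
            rw [Subalgebra.coe_smul, Subalgebra.coe_smul, Matrix.smul_mul, Matrix.mul_smul, smul_smul, he, hd]
          rw [h1, Subalgebra.coe_smul, Matrix.smul_mulVec, Q_smul, ← hd]
          simp [pow_two] }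
    obtain ⟨c, hc, hcφ⟩ := dual_exists hK hone φ
    refine ⟨c, hc, fun a ha => ?_⟩
    have h1 := hcφ ⟨a * a, K.mul_mem ha ha⟩
    have h3 : e.symm ⟨a * a, K.mul_mem ha ha⟩ = ⟨a, ha⟩ := hee _ ⟨a, ha⟩ rfl
    have h4 : φ ⟨a * a, K.mul_mem ha ha⟩ = Q (a *ᵥ v) := by
      show Q (((e.symm _ : K) : Matrix ι ι F) *ᵥ v) = _
      rw [h3]
    rw [← h4, h1]
  · let φ : K →ₗ[F] F :=
      { toFun := fun k => 2⁻¹ * polar Q ((k : Matrix ι ι F) *ᵥ v) v
        map_add' := by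
          intro k l
          rw [Subalgebra.coe_add, Matrix.add_mulVec, polar_add_left]; ring
        map_smul' := by
          intro c k
          rw [Subalgebra.coe_smul, Matrix.smul_mulVec, polar_smul_left]
          simp only [smul_eq_mul, RingHom.id_apply]; ring }
    obtain ⟨c, hc, hcφ⟩ := dual_exists hK hone φ
    refine ⟨c, hc, fun a ha => ?_⟩
    have h1 := hcφ ⟨a * a, K.mul_mem ha ha⟩
    have h4 : φ ⟨a * a, K.mul_mem ha ha⟩ = Q (a *ᵥ v) := by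
      show 2⁻¹ * polar Q ((a * a) *ᵥ v) v = _
      rw [← Matrix.mulVec_mulVec, hsa a ha, polar_self']
      field_simp
    rw [← h4, h1]

/-- Existence of adapted data. -/
theorem exists_Hf (hnd : Nd Q) (hr : 0 < r) (hn : Fintype.card ι = 2 * r) (hK : IsFieldSubalgebra r K)
    (hsa : IsSelfAdjointFor (QuadraticMap.polar ⇑Q) K) : ∃ (x₀ y₀ : ι → F) (α β : Matrix ι ι F), Hf Q r K x₀ y₀ α β := by
  classical
  haveI : Nonempty ι := Fintype.card_pos_iff.1 (by omega)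
  obtain ⟨x₀, hx₀⟩ : ∃ x₀ : ι → F, x₀ ≠ 0 := exists_ne 0
  have hkx := finrank_kv hK hx₀
  obtain ⟨y₀, hy₀, hone⟩ : ∃ y₀, y₀ ∉ kv K x₀ ∧ polar Q x₀ y₀ ≠ 0 := by
    by_contra hcon
    push Not at hcon
    obtain ⟨y₁, hy₁⟩ := hnd.exists_polar_one' hx₀
    have hy₁k : y₁ ∈ kv K x₀ := by
      by_contra h
      rw [hcon y₁ h] at hy₁
      exact zero_ne_one hy₁
    obtain ⟨z, hz⟩ : ∃ z, z ∉ kv K x₀ := by
      by_contra h
      push Not at h
      have h1 : kv K x₀ = ⊤ := by rw [eq_top_iff]; exact fun z _ => h z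
      rw [h1, finrank_top, finrank_fun] at hkx
      omega
    have h1 : y₁ + z ∉ kv K x₀ := fun h => hz (by have := (kv K x₀).sub_mem h hy₁k; simpa using this)
    have h3 := hcon _ h1
    rw [polar_add_right, hcon z hz, hy₁, add_zero] at h3
    exact one_ne_zero h3
  have hy₀0 : y₀ ≠ 0 := by rintro rfl; exact hy₀ (Submodule.zero_mem _)
  have hindep : ∀ a ∈ K, ∀ b ∈ K, a *ᵥ x₀ + b *ᵥ y₀ = 0 → a = 0 ∧ b = 0 := by
    intro a ha b hb h
    have hb0 : b = 0 := by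
      by_contra hb0
      obtain ⟨c, hc, hbc⟩ := hK.inv b hb hb0
      apply hy₀
      rw [mem_kv]
      refine ⟨-(c * a), K.neg_mem (K.mul_mem hc ha), ?_⟩
      have h1 : c *ᵥ (a *ᵥ x₀ + b *ᵥ y₀) = 0 := by rw [h, Matrix.mulVec_zero]
      rw [Matrix.mulVec_add, Matrix.mulVec_mulVec, Matrix.mulVec_mulVec, hK.comm c hc b hb, hbc, Matrix.one_mulVec] at h1
      rw [Matrix.neg_mulVec]
      exact neg_eq_of_add_eq_zero_right h1
    rw [hb0, Matrix.zero_mulVec, add_zero] at h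
    exact ⟨kv_inj hK hx₀ ha h, hb0⟩
  have hsup : kv K x₀ ⊔ kv K y₀ = ⊤ := by
    apply Submodule.eq_top_of_finrank_eq
    have h1 := Submodule.finrank_sup_add_finrank_inf_eq (kv K x₀) (kv K y₀)
    have h3 : kv K x₀ ⊓ kv K y₀ = ⊥ := by
      rw [eq_bot_iff]
      rintro z ⟨hz1, hz2⟩
      obtain ⟨a, ha, rfl⟩ := mem_kv.1 hz1
      obtain ⟨b, hb, hab⟩ := mem_kv.1 hz2
      have h4 := (hindep a ha (-b) (K.neg_mem hb) (by rw [Matrix.neg_mulVec, hab, add_neg_cancel])).1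
      rw [h4, Matrix.zero_mulVec]
      exact Submodule.zero_mem _
    rw [h3, finrank_bot, hkx, finrank_kv hK hy₀0] at h1
    rw [finrank_fun]
    omega
  obtain ⟨α, hα, hqx⟩ := exists_coef hK hsa hone x₀
  obtain ⟨β, hβ, hqy⟩ := exists_coef hK hsa hone y₀
  refine ⟨x₀, y₀, α, β, hnd, hK, hsa, ?_, hindep, hα, hβ, hone, hqx, hqy⟩
  intro v
  have hv : v ∈ kv K x₀ ⊔ kv K y₀ := by rw [hsup]; trivial
  obtain ⟨u, hu, w, hw, rfl⟩ := Submodule.mem_sup.1 hv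
  obtain ⟨a, ha, rfl⟩ := mem_kv.1 hu
  obtain ⟨b, hb, rfl⟩ := mem_kv.1 hw
  exact ⟨a, ha, b, hb, rfl⟩

variable (D : Hf Q r K x₀ y₀ α β)
include D

/-- the functional -/
local notation "τ" => fun k => polar Q (k *ᵥ x₀) y₀

lemma Hf.xy {a b : Matrix ι ι F} (ha : a ∈ K) (hb : b ∈ K) : polar Q (a *ᵥ x₀) (b *ᵥ y₀) = polar Q ((a * b) *ᵥ x₀) y₀ := by
  rw [← D.sa b hb, Matrix.mulVec_mulVec, D.hK.comm b hb a ha]

lemma Hf.yx {a b : Matrix ι ι F} (ha : a ∈ K) (hb : b ∈ K) : polar Q (a *ᵥ y₀) (b *ᵥ x₀) = polar Q ((a * b) *ᵥ x₀) y₀ := by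
  rw [polar_comm, D.xy hb ha, D.hK.comm b hb a ha]

lemma Hf.xx {a b : Matrix ι ι F} (ha : a ∈ K) (hb : b ∈ K) :
    polar Q (a *ᵥ x₀) (b *ᵥ x₀) = polar Q ((2 * (a * b * α)) *ᵥ x₀) y₀ := by
  have h1 := D.qx _ (K.add_mem ha hb)
  rw [Matrix.add_mulVec, Q_add, D.qx a ha, D.qx b hb] at h1
  have h2 : (a + b) * (a + b) * α = a * a * α + b * b * α + 2 * (a * b * α) := by
    rw [add_mul, mul_add, mul_add, D.hK.comm b hb a ha]
    noncomm_ring
  rw [h2, Matrix.add_mulVec, Matrix.add_mulVec, polar_add_left, polar_add_left] at h1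
  linear_combination h1

lemma Hf.yy {a b : Matrix ι ι F} (ha : a ∈ K) (hb : b ∈ K) :
    polar Q (a *ᵥ y₀) (b *ᵥ y₀) = polar Q ((2 * (a * b * β)) *ᵥ x₀) y₀ := by
  have h1 := D.qy _ (K.add_mem ha hb)
  rw [Matrix.add_mulVec, Q_add, D.qy a ha, D.qy b hb] at h1
  have h2 : (a + b) * (a + b) * β = a * a * β + b * b * β + 2 * (a * b * β) := by
    rw [add_mul, mul_add, mul_add, D.hK.comm b hb a ha]
    noncomm_ring
  rw [h2, Matrix.add_mulVec, Matrix.add_mulVec, polar_add_left, polar_add_left] at h1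
  linear_combination h1

/-- The endomorphism `θ`. -/
lemma Hf.exists_theta : ∃ θ : Matrix ι ι F, ∀ a ∈ K, ∀ b ∈ K,
    θ *ᵥ (a *ᵥ x₀ + b *ᵥ y₀) = (-(b * β)) *ᵥ x₀ + (a * α + b) *ᵥ y₀ := by
  let kx : (ι → F) → (K →ₗ[F] (ι → F)) := fun v => ((Matrix.mulVecBilin F F).flip v) ∘ₗ K.val.toLinearMap
  have hkx : ∀ v (k : K), kx v k = (k : Matrix ι ι F) *ᵥ v := fun v k => rfl
  let Φ : (K × K) →ₗ[F] (ι → F) := LinearMap.coprod (kx x₀) (kx y₀)
  have hΦ : ∀ p : K × K, Φ p = (p.1 : Matrix ι ι F) *ᵥ x₀ + (p.2 : Matrix ι ι F) *ᵥ y₀ := fun p => rfl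
  have hinj : Function.Injective Φ := by
    rw [← LinearMap.ker_eq_bot, LinearMap.ker_eq_bot']
    rintro ⟨⟨a, ha⟩, ⟨b, hb⟩⟩ h
    obtain ⟨h1, h2⟩ := D.indep a ha b hb h
    exact Prod.ext (Subtype.ext h1) (Subtype.ext h2)
  have hsurj : Function.Surjective Φ := by
    intro v
    obtain ⟨a, ha, b, hb, rfl⟩ := D.span v
    exact ⟨(⟨a, ha⟩, ⟨b, hb⟩), rfl⟩
  let e : (K × K) ≃ₗ[F] (ι → F) := LinearEquiv.ofBijective Φ ⟨hinj, hsurj⟩
  let M : (K × K) →ₗ[F] (K × K) := LinearMap.prod (-(LinearMap.mulRight F (⟨β, D.hβ⟩ : K)) ∘ₗ LinearMap.snd F K K)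
    ((LinearMap.mulRight F (⟨α, D.hα⟩ : K)) ∘ₗ LinearMap.fst F K K + LinearMap.snd F K K)
  refine ⟨LinearMap.toMatrix' (Φ ∘ₗ M ∘ₗ e.symm.toLinearMap), fun a ha b hb => ?_⟩
  rw [← Matrix.toLin'_apply, Matrix.toLin'_toMatrix']
  have h1 : a *ᵥ x₀ + b *ᵥ y₀ = e (⟨a, ha⟩, ⟨b, hb⟩) := rfl
  rw [h1, LinearMap.comp_apply, LinearMap.comp_apply, LinearEquiv.coe_coe, LinearEquiv.symm_apply_apply, hΦ]
  rfl

lemma Hf.sq_dual {c : Matrix ι ι F} (hc : c ∈ K) (h : ∀ a ∈ K, polar Q ((a * a * c) *ᵥ x₀) y₀ = 0) : c = 0 := by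
  by_cases h2 : (2 : F) = 0
  · apply dual_zero D.hK D.one hc
    intro l hl
    obtain ⟨a, ha⟩ := (sq_bij h2 D.hK).2 ⟨l, hl⟩
    have ha' : (a : Matrix ι ι F) * a = l := congrArg Subtype.val ha
    rw [← ha']
    exact h a a.2
  · apply dual_zero D.hK D.one hc
    intro l hl
    have h1 := h _ (K.add_mem hl K.one_mem)
    have h3 := h l hl
    have h4 := h 1 K.one_mem
    have h5 : (l + 1) * (l + 1) * c = l * l * c + 1 * 1 * c + (2 : F) • (l * c) := by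
      rw [two_smul]; noncomm_ring
    rw [h5, Matrix.add_mulVec, Matrix.add_mulVec, polar_add_left, polar_add_left, h3, h4, zero_add, zero_add, Matrix.smul_mulVec,
      polar_smul_left] at h1
    exact (mul_eq_zero.1 h1).resolve_left h2

lemma Hf.disc_ne : 1 - 4 * (α * β) ≠ 0 := by
  intro h0
  have hw : x₀ - (2 * α) *ᵥ y₀ = 0 := by
    apply D.nd.eq_zero
    intro v
    obtain ⟨a, ha, b, hb, rfl⟩ := D.span v
    have h2α : 2 * α ∈ K := by rw [two_mul]; exact K.add_mem D.hα D.hα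
    have hx : x₀ = (1 : Matrix ι ι F) *ᵥ x₀ := (Matrix.one_mulVec x₀).symm
    have e1 : polar Q x₀ (a *ᵥ x₀) = polar Q ((2 * (1 * a * α)) *ᵥ x₀) y₀ := by
      conv_lhs => rw [hx]
      rw [Matrix.mulVec_mulVec, mul_one]
      exact D.xx K.one_mem ha
    have e2 : polar Q x₀ (b *ᵥ y₀) = polar Q ((1 * b) *ᵥ x₀) y₀ := by
      conv_lhs => rw [hx]
      exact D.xy K.one_mem hb
    rw [polar_sub_left, polar_add_right, polar_add_right, e1, e2, D.yx h2α ha, D.yy h2α hb]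
    have h4 : polar Q ((2 * (1 * a * α)) *ᵥ x₀) y₀ + polar Q ((1 * b) *ᵥ x₀) y₀ -
        (polar Q ((2 * α * a) *ᵥ x₀) y₀ + polar Q ((2 * (2 * α * b * β)) *ᵥ x₀) y₀) = polar Q ((b * (1 - 4 * (α * β))) *ᵥ x₀) y₀ := by
      rw [← polar_add_left, ← Matrix.add_mulVec, ← polar_add_left, ← Matrix.add_mulVec, ← polar_sub_left, ← Matrix.sub_mulVec]
      congr 2
      letI := cring D.hK
      have h : ∀ a b α β : K, 2 * (1 * a * α) + 1 * b - (2 * α * a + 2 * (2 * α * b * β)) = b * (1 - 4 * (α * β)) := by intros; ring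
      exact congrArg Subtype.val (h ⟨a, ha⟩ ⟨b, hb⟩ ⟨α, D.hα⟩ ⟨β, D.hβ⟩)
    rw [h4, h0, mul_zero, Matrix.zero_mulVec, polar_zero_left]
  have h1 := D.indep 1 K.one_mem (-(2 * α)) (K.neg_mem (by rw [two_mul]; exact K.add_mem D.hα D.hα)) (by
    rw [Matrix.one_mulVec, Matrix.neg_mulVec, ← sub_eq_add_neg, hw])
  have h3 : (1 : Matrix ι ι F) = 0 := h1.1
  apply D.one
  rw [← Matrix.one_mulVec x₀, h3, Matrix.zero_mulVec, polar_zero_left]

variable {θ : Matrix ι ι F} (hθ : ∀ a ∈ K, ∀ b ∈ K, θ *ᵥ (a *ᵥ x₀ + b *ᵥ y₀) = (-(b * β)) *ᵥ x₀ + (a * α + b) *ᵥ y₀)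
include hθ

lemma Hf.ext_of {A B : Matrix ι ι F} (h : ∀ a ∈ K, ∀ b ∈ K, A *ᵥ (a *ᵥ x₀ + b *ᵥ y₀) = B *ᵥ (a *ᵥ x₀ + b *ᵥ y₀)) : A = B := by
  apply matrix_ext_of_mulVec
  intro v
  obtain ⟨a, ha, b, hb, rfl⟩ := D.span v
  exact h a ha b hb

lemma Hf.theta_comm : ∀ k ∈ K, θ * k = k * θ := by
  intro k hk
  apply D.ext_of hθ
  intro a ha b hb
  rw [← Matrix.mulVec_mulVec, ← Matrix.mulVec_mulVec, hθ a ha b hb, Matrix.mulVec_add, Matrix.mulVec_mulVec, Matrix.mulVec_mulVec,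
    hθ _ (K.mul_mem hk ha) _ (K.mul_mem hk hb), Matrix.mulVec_add, Matrix.mulVec_mulVec, Matrix.mulVec_mulVec]
  congr 2
  · noncomm_ring
  · noncomm_ring

lemma Hf.theta_sq : θ * θ = θ - α * β := by
  apply D.ext_of hθ
  intro a ha b hb
  rw [← Matrix.mulVec_mulVec, hθ a ha b hb, hθ _ (K.neg_mem (K.mul_mem hb D.hβ)) _ (K.add_mem (K.mul_mem ha D.hα) hb), Matrix.sub_mulVec,
    hθ a ha b hb, Matrix.mulVec_add, Matrix.mulVec_mulVec, Matrix.mulVec_mulVec]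
  have e1 : -((a * α + b) * β) = -(b * β) - α * β * a := by
    rw [D.hK.comm _ (K.mul_mem D.hα D.hβ) a ha]; noncomm_ring
  have e2 : -(b * β) * α + (a * α + b) = (a * α + b) - α * β * b := by
    rw [D.hK.comm _ (K.mul_mem D.hα D.hβ) b hb, D.hK.comm α D.hα β D.hβ]; noncomm_ring
  rw [e1, e2, Matrix.sub_mulVec, Matrix.sub_mulVec]
  abel

lemma Hf.theta_Q : ∀ v, polar Q (θ *ᵥ v) v = Q v := by
  intro v
  obtain ⟨a, ha, b, hb, rfl⟩ := D.span v
  have hbβ := K.neg_mem (K.mul_mem hb D.hβ)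
  have haαb := K.add_mem (K.mul_mem ha D.hα) hb
  rw [hθ a ha b hb, polar_add_left, polar_add_right, polar_add_right, D.xx hbβ ha, D.xy hbβ hb, D.yx haαb ha, D.yy haαb hb,
    Q_add, D.qx a ha, D.qy b hb, D.xy ha hb, ← polar_add_left, ← Matrix.add_mulVec, ← polar_add_left, ← Matrix.add_mulVec,
    ← polar_add_left, ← Matrix.add_mulVec, ← polar_add_left, ← Matrix.add_mulVec, ← polar_add_left, ← Matrix.add_mulVec]
  congr 2
  letI := cring D.hK
  have h : ∀ a b α β : K, 2 * (-(b * β) * a * α) + -(b * β) * b + ((a * α + b) * a + 2 * ((a * α + b) * b * β)) =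
      a * a * α + b * b * β + a * b := by intros; ring
  exact congrArg Subtype.val (h ⟨a, ha⟩ ⟨b, hb⟩ ⟨α, D.hα⟩ ⟨β, D.hβ⟩)

/-- Uniqueness of `θ` up to the obvious changes. -/
lemma Hf.unique {x : Matrix ι ι F} (hxK : ∀ k ∈ K, x * k = k * x) (hx : ∀ v, polar Q (x *ᵥ v) v = 0) :
    ∃ p ∈ K, x = p * (1 - 2 * θ) := by
  obtain ⟨p, hp, r', hr, hxx⟩ := D.span (x *ᵥ x₀)
  obtain ⟨s, hs, t, ht, hxy⟩ := D.span (x *ᵥ y₀)
  have hxa : ∀ a ∈ K, x *ᵥ (a *ᵥ x₀) = (a * p) *ᵥ x₀ + (a * r') *ᵥ y₀ := by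
    intro a ha
    rw [Matrix.mulVec_mulVec, hxK a ha, ← Matrix.mulVec_mulVec, hxx, Matrix.mulVec_add, Matrix.mulVec_mulVec, Matrix.mulVec_mulVec]
  have hxb : ∀ b ∈ K, x *ᵥ (b *ᵥ y₀) = (b * s) *ᵥ x₀ + (b * t) *ᵥ y₀ := by
    intro b hb
    rw [Matrix.mulVec_mulVec, hxK b hb, ← Matrix.mulVec_mulVec, hxy, Matrix.mulVec_add, Matrix.mulVec_mulVec, Matrix.mulVec_mulVec]
  have h2K : ∀ {k : Matrix ι ι F}, k ∈ K → 2 * k ∈ K := fun hk => by rw [two_mul]; exact K.add_mem hk hk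
  letI := cring D.hK
  have e1 : 2 * (p * α) + r' = 0 := by
    apply D.sq_dual (K.add_mem (h2K (K.mul_mem hp D.hα)) hr)
    intro a ha
    have h3 := hx (a *ᵥ x₀)
    rw [hxa a ha, polar_add_left, D.xx (K.mul_mem ha hp) ha, D.yx (K.mul_mem ha hr) ha, ← polar_add_left, ← Matrix.add_mulVec] at h3
    rw [← h3]
    congr 2
    have h : ∀ a p α r : K, a * a * (2 * (p * α) + r) = 2 * (a * p * a * α) + a * r * a := by intros; ring
    exact congrArg Subtype.val (h ⟨a, ha⟩ ⟨p, hp⟩ ⟨α, D.hα⟩ ⟨r', hr⟩)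
  have e2 : s + 2 * (t * β) = 0 := by
    apply D.sq_dual (K.add_mem hs (h2K (K.mul_mem ht D.hβ)))
    intro a ha
    have h3 := hx (a *ᵥ y₀)
    rw [hxb a ha, polar_add_left, D.xy (K.mul_mem ha hs) ha, D.yy (K.mul_mem ha ht) ha, ← polar_add_left, ← Matrix.add_mulVec] at h3
    rw [← h3]
    congr 2
    have h : ∀ a s t β : K, a * a * (s + 2 * (t * β)) = a * s * a + 2 * (a * t * a * β) := by intros; ring
    exact congrArg Subtype.val (h ⟨a, ha⟩ ⟨s, hs⟩ ⟨t, ht⟩ ⟨β, D.hβ⟩)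
  have e3 : p + 2 * (r' * β) + (2 * (s * α) + t) = 0 := by
    apply dual_zero D.hK D.one (K.add_mem (K.add_mem hp (h2K (K.mul_mem hr D.hβ))) (K.add_mem (h2K (K.mul_mem hs D.hα)) ht))
    intro a ha
    have h3 := hx (a *ᵥ x₀ + (1 : Matrix ι ι F) *ᵥ y₀)
    rw [Matrix.mulVec_add, polar_add_left, polar_add_right, polar_add_right, hx, hx, zero_add, add_zero, hxa a ha, hxb 1 K.one_mem,
      polar_add_left, polar_add_left, D.xy (K.mul_mem ha hp) K.one_mem, D.yy (K.mul_mem ha hr) K.one_mem,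
      D.xx (K.mul_mem K.one_mem hs) ha, D.yx (K.mul_mem K.one_mem ht) ha, ← polar_add_left, ← Matrix.add_mulVec, ← polar_add_left,
      ← Matrix.add_mulVec, ← polar_add_left, ← Matrix.add_mulVec] at h3
    rw [← h3]
    congr 2
    have h : ∀ a p r s t α β : K, a * (p + 2 * (r * β) + (2 * (s * α) + t)) =
      a * p * 1 + 2 * (a * r * 1 * β) + (2 * (1 * s * a * α) + 1 * t * a) := by intros; ring
    exact congrArg Subtype.val (h ⟨a, ha⟩ ⟨p, hp⟩ ⟨r', hr⟩ ⟨s, hs⟩ ⟨t, ht⟩ ⟨α, D.hα⟩ ⟨β, D.hβ⟩)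
  have e4 : (p + t) * (1 - 4 * (α * β)) = 0 := by
    have h : ∀ p r s t α β : K, (p + t) * (1 - 4 * (α * β)) =
      (p + 2 * (r * β) + (2 * (s * α) + t)) - 2 * β * (2 * (p * α) + r) - 2 * α * (s + 2 * (t * β)) := by intros; ring
    have h3 : (p + t) * (1 - 4 * (α * β)) =
      (p + 2 * (r' * β) + (2 * (s * α) + t)) - 2 * β * (2 * (p * α) + r') - 2 * α * (s + 2 * (t * β)) :=
      congrArg Subtype.val (h ⟨p, hp⟩ ⟨r', hr⟩ ⟨s, hs⟩ ⟨t, ht⟩ ⟨α, D.hα⟩ ⟨β, D.hβ⟩)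
    rw [h3, e1, e2, e3]
    simp
  have h4K : 1 - 4 * (α * β) ∈ K := by
    have : (4 : Matrix ι ι F) * (α * β) = 2 * (2 * (α * β)) := by noncomm_ring
    rw [this]
    exact K.sub_mem K.one_mem (h2K (h2K (K.mul_mem D.hα D.hβ)))
  have e5 : p + t = 0 := (AschO.field_mul_eq_zero D.hK (K.add_mem hp ht) h4K e4).resolve_right D.disc_ne
  refine ⟨p, hp, D.ext_of hθ fun a ha b hb => ?_⟩
  have ht' : t = -p := (neg_eq_of_add_eq_zero_right e5).symm
  have hr' : r' = -(2 * (p * α)) := (neg_eq_of_add_eq_zero_right e1).symm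
  have hs' : s = 2 * (p * β) := by
    rw [ht'] at e2
    have := eq_neg_of_add_eq_zero_left e2
    rw [this]; noncomm_ring
  have h2v : ∀ v, (2 * θ) *ᵥ v = (2 : Matrix ι ι F) *ᵥ (θ *ᵥ v) := fun v => (Matrix.mulVec_mulVec _ _ _).symm
  rw [← Matrix.mulVec_mulVec, Matrix.sub_mulVec, Matrix.one_mulVec, h2v, hθ a ha b hb, Matrix.mulVec_add, hxa a ha, hxb b hb,
    Matrix.mulVec_sub, Matrix.mulVec_add, Matrix.mulVec_add, Matrix.mulVec_add, Matrix.mulVec_mulVec, Matrix.mulVec_mulVec,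
    Matrix.mulVec_mulVec, Matrix.mulVec_mulVec, Matrix.mulVec_mulVec, Matrix.mulVec_mulVec, ht', hr', hs']
  have f1 : a * p + b * (2 * (p * β)) = p * a - p * (2 * -(b * β)) := by
    have h : ∀ a b p β : K, a * p + b * (2 * (p * β)) = p * a - p * (2 * -(b * β)) := by intros; ring
    exact congrArg Subtype.val (h ⟨a, ha⟩ ⟨b, hb⟩ ⟨p, hp⟩ ⟨β, D.hβ⟩)
  have f2 : a * -(2 * (p * α)) + b * -p = p * b - p * (2 * (a * α + b)) := by
    have h : ∀ a b p α : K, a * -(2 * (p * α)) + b * -p = p * b - p * (2 * (a * α + b)) := by intros; ring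
    exact congrArg Subtype.val (h ⟨a, ha⟩ ⟨b, hb⟩ ⟨p, hp⟩ ⟨α, D.hα⟩)
  calc _ = (a * p + b * (2 * (p * β))) *ᵥ x₀ + (a * -(2 * (p * α)) + b * -p) *ᵥ y₀ := by
        rw [Matrix.add_mulVec, Matrix.add_mulVec]; abel
    _ = _ := by
        rw [f1, f2, Matrix.sub_mulVec, Matrix.sub_mulVec, ← mul_assoc p 2, ← mul_assoc p 2]; abel

end Hf

end Cfsg.Agent.Lib.ONot
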