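import Cfsg.Agent.Lib.ONot13

/-!
Self-adjoint fields over which the space is two-dimensional, part two.
-/

set_option autoImplicit false
set_option linter.style.haveILetI false
set_option linter.unusedVariables false
set_option linter.unusedSectionVars false

namespace Cfsg.Agent.Lib.ONot

open Cfsg Cfsg.Geo Module QuadraticMap Cfsg.Agent.Lib.Quad Cfsg.Agent.Lib.OrthMax Cfsg.Agent.Lib.OrthNd
  Cfsg.Agent.Lib.OrthNot Cfsg.Agent.Lib.OrthBridge Cfsg.Agent.Lib.OrthNdBridge Cfsg.Agent.Lib.UniRes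
open Cfsg.Agent.Lib.GeoBridge (le)
open Cfsg.Agent.Lib.AschCore Cfsg.Agent.Lib.AschField Cfsg.Agent.Lib.AschAlg Cfsg.Agent.Lib.AschGroup Cfsg.Agent.Lib.AschMU Cfsg.Agent.Lib.AschGood Cfsg.Agent.Lib.AschNonab
open Cfsg.Agent.Lib.SLNot (eq_inf_of_maximal ne_top_of_card kLeft)
open scoped Matrix MatrixGroups Kronecker

variable {ι : Type} [Fintype ι] [DecidableEq ι] {F : Type*} [Field F] [Fintype F] {Q : QuadraticForm F (ι → F)}

section Hf
variable {r : ℕ} {K : Subalgebra F (Matrix ι ι F)} {x₀ y₀ : ι → F} {α β : Matrix ι ι F} 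
variable (D : Hf Q r K x₀ y₀ α β)
variable {θ : Matrix ι ι F} (hθ : ∀ a ∈ K, ∀ b ∈ K, θ *ᵥ (a *ᵥ x₀ + b *ᵥ y₀) = (-(b * β)) *ᵥ x₀ + (a * α + b) *ᵥ y₀)

include D in
lemma Hf.Q_eq {a b : Matrix ι ι F} (ha : a ∈ K) (hb : b ∈ K) :
    Q (a *ᵥ x₀ + b *ᵥ y₀) = polar Q ((a * a * α + b * b * β + a * b) *ᵥ x₀) y₀ := by
  rw [Q_add, D.qx a ha, D.qy b hb, D.xy ha hb, ← polar_add_left, ← Matrix.add_mulVec, ← polar_add_left, ← Matrix.add_mulVec]

include D in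
lemma Hf.norm_ne (hani : ∀ v, v ≠ 0 → ∃ k ∈ K, Q (k *ᵥ v) ≠ 0) {a b : Matrix ι ι F} (ha : a ∈ K) (hb : b ∈ K)
    (hab : ¬ (a = 0 ∧ b = 0)) : a * a + a * b + α * β * (b * b) ≠ 0 := by
  intro h0
  letI := cring D.hK
  have hx₀ : x₀ ≠ 0 := by
    rintro rfl
    exact D.one (by rw [polar_zero_left])
  by_cases hα : α = 0
  · obtain ⟨k, hk, hkQ⟩ := hani x₀ hx₀
    apply hkQ
    rw [D.qx k hk, hα, mul_zero, Matrix.zero_mulVec, polar_zero_left]
  · have hb0 : b ≠ 0 := by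
      rintro rfl
      apply hab
      rw [mul_zero, mul_zero, mul_zero, add_zero, add_zero] at h0
      exact ⟨(AschO.field_mul_eq_zero D.hK ha ha h0).elim id id, rfl⟩
    have hbα : b * α ≠ 0 := fun h => (AschO.field_mul_eq_zero D.hK hb D.hα h).elim hb0 hα
    have hv : a *ᵥ x₀ + (b * α) *ᵥ y₀ ≠ 0 := fun h => hbα (D.indep a ha _ (K.mul_mem hb D.hα) h).2
    obtain ⟨k, hk, hkQ⟩ := hani _ hv
    apply hkQ
    rw [Matrix.mulVec_add, Matrix.mulVec_mulVec, Matrix.mulVec_mulVec, D.Q_eq (K.mul_mem hk ha) (K.mul_mem hk (K.mul_mem hb D.hα))]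
    have h : ∀ a b k α β : K, k * a * (k * a) * α + k * (b * α) * (k * (b * α)) * β + k * a * (k * (b * α)) =
      k * k * α * (a * a + a * b + α * β * (b * b)) := by intros; ring
    have h1 : k * a * (k * a) * α + k * (b * α) * (k * (b * α)) * β + k * a * (k * (b * α)) =
      k * k * α * (a * a + a * b + α * β * (b * b)) := congrArg Subtype.val (h ⟨a, ha⟩ ⟨b, hb⟩ ⟨k, hk⟩ ⟨α, D.hα⟩ ⟨β, D.hβ⟩)
    rw [h1, h0, mul_zero, Matrix.zero_mulVec, polar_zero_left]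

include D hθ in
lemma Hf.mul_form {a b c d : Matrix ι ι F} (ha : a ∈ K) (hb : b ∈ K) (hc : c ∈ K) (hd : d ∈ K) :
    (a + b * θ) * (c + d * θ) = (a * c - b * d * (α * β)) + (a * d + b * c + b * d) * θ := by
  have h1 := D.theta_sq hθ
  have h2 := D.theta_comm hθ c hc
  have h3 := D.theta_comm hθ d hd
  calc (a + b * θ) * (c + d * θ) = a * c + a * d * θ + b * (θ * c) + b * (θ * d) * θ := by noncomm_ring
    _ = a * c + a * d * θ + b * (c * θ) + b * d * (θ * θ) := by rw [h2, h3]; noncomm_ring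
    _ = _ := by rw [h1]; noncomm_ring

/-- the algebra `K[θ]` -/
def Hf.E : Subalgebra F (Matrix ι ι F) where
  carrier := {x | ∃ a ∈ K, ∃ b ∈ K, x = a + b * θ}
  mul_mem' := by
    rintro _ _ ⟨a, ha, b, hb, rfl⟩ ⟨c, hc, d, hd, rfl⟩
    exact ⟨_, K.sub_mem (K.mul_mem ha hc) (K.mul_mem (K.mul_mem hb hd) (K.mul_mem D.hα D.hβ)), _,
      K.add_mem (K.add_mem (K.mul_mem ha hd) (K.mul_mem hb hc)) (K.mul_mem hb hd), D.mul_form hθ ha hb hc hd⟩
  one_mem' := ⟨1, K.one_mem, 0, K.zero_mem, by simp⟩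
  add_mem' := by
    rintro _ _ ⟨a, ha, b, hb, rfl⟩ ⟨c, hc, d, hd, rfl⟩
    exact ⟨_, K.add_mem ha hc, _, K.add_mem hb hd, by noncomm_ring⟩
  zero_mem' := ⟨0, K.zero_mem, 0, K.zero_mem, by simp⟩
  algebraMap_mem' := fun c => ⟨_, K.algebraMap_mem c, 0, K.zero_mem, by simp⟩

lemma Hf.mem_E {x : Matrix ι ι F} : x ∈ D.E hθ ↔ ∃ a ∈ K, ∃ b ∈ K, x = a + b * θ := Iff.rfl

lemma Hf.E_comm : ∀ x ∈ D.E hθ, ∀ y ∈ D.E hθ, x * y = y * x := by
  rintro _ ⟨a, ha, b, hb, rfl⟩ _ ⟨c, hc, d, hd, rfl⟩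
  rw [D.mul_form hθ ha hb hc hd, D.mul_form hθ hc hd ha hb, D.hK.comm a ha c hc, D.hK.comm b hb d hd, D.hK.comm a ha d hd,
    D.hK.comm b hb c hc]
  congr 2
  abel

lemma Hf.E_inv (hani : ∀ v, v ≠ 0 → ∃ k ∈ K, Q (k *ᵥ v) ≠ 0) {a b : Matrix ι ι F} (ha : a ∈ K) (hb : b ∈ K)
    (hab : ¬ (a = 0 ∧ b = 0)) : ∃ y ∈ D.E hθ, (a + b * θ) * y = 1 := by
  have hN := D.norm_ne hani ha hb hab
  have hNK : a * a + a * b + α * β * (b * b) ∈ K :=
    K.add_mem (K.add_mem (K.mul_mem ha ha) (K.mul_mem ha hb)) (K.mul_mem (K.mul_mem D.hα D.hβ) (K.mul_mem hb hb))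
  obtain ⟨z, hz, hNz⟩ := D.hK.inv _ hNK hN
  have hy : (a + b) + (-b) * θ ∈ D.E hθ := ⟨_, K.add_mem ha hb, _, K.neg_mem hb, rfl⟩
  have hzE : z ∈ D.E hθ := ⟨z, hz, 0, K.zero_mem, by simp⟩
  refine ⟨((a + b) + (-b) * θ) * z, (D.E hθ).mul_mem hy hzE, ?_⟩
  rw [← mul_assoc, D.mul_form hθ ha hb (K.add_mem ha hb) (K.neg_mem hb)]
  have h1 : a * (a + b) - b * -b * (α * β) = a * a + a * b + α * β * (b * b) := by
    letI := cring D.hK
    have h : ∀ a b α β : K, a * (a + b) - b * -b * (α * β) = a * a + a * b + α * β * (b * b) := by intros; ring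
    exact congrArg Subtype.val (h ⟨a, ha⟩ ⟨b, hb⟩ ⟨α, D.hα⟩ ⟨β, D.hβ⟩)
  have h2 : a * -b + b * (a + b) + b * -b = 0 := by
    letI := cring D.hK
    have h : ∀ a b : K, a * -b + b * (a + b) + b * -b = 0 := by intros; ring
    exact congrArg Subtype.val (h ⟨a, ha⟩ ⟨b, hb⟩)
  rw [h1, h2, zero_mul, add_zero, hNz]

include D hθ in
lemma Hf.theta_adj (u v : ι → F) : polar Q (θ *ᵥ u) v = polar Q u v - polar Q u (θ *ᵥ v) := by
  have h := D.theta_Q hθ (u + v)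
  rw [Matrix.mulVec_add, polar_add_left, polar_add_right, polar_add_right, D.theta_Q hθ u, D.theta_Q hθ v, Q_add,
    polar_comm Q (θ *ᵥ v) u] at h
  linear_combination h

include D hθ in
lemma Hf.E_adj {a b : Matrix ι ι F} (ha : a ∈ K) (hb : b ∈ K) (u v : ι → F) :
    polar Q ((a + b * θ) *ᵥ u) v = polar Q u (((a + b) + (-b) * θ) *ᵥ v) := by
  rw [Matrix.add_mulVec, polar_add_left, ← Matrix.mulVec_mulVec, D.sa b hb, D.theta_adj hθ, D.sa a ha, neg_mul, Matrix.add_mulVec,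
    Matrix.add_mulVec, Matrix.neg_mulVec, polar_add_right, polar_add_right, polar_neg_right, Matrix.mulVec_mulVec, D.theta_comm hθ b hb]
  ring

/-- **Self-adjoint fields over which the space is two-dimensional and anisotropic.** -/
theorem sa_half (hnd : Nd Q) (hr : 0 < r) (hodd : Odd r) (hn : Fintype.card ι = 2 * r) (hK : IsFieldSubalgebra r K)
    (hsa : IsSelfAdjointFor (QuadraticMap.polar ⇑Q) K) (hani : ∀ v, v ≠ 0 → ∃ k ∈ K, Q (k *ᵥ v) ≠ 0) :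
    ∃ K₂ : Subalgebra F (Matrix ι ι F), IsFieldSubalgebra 2 K₂ ∧ IsAdjointClosedFor (QuadraticMap.polar ⇑Q) K₂ ∧
      ¬ IsSelfAdjointFor (QuadraticMap.polar ⇑Q) K₂ ∧ (∀ k ∈ K₂, ∃ c : F, ∀ v : ι → F, Q (k *ᵥ v) = c * Q v) ∧
      subalgebraNormalizer K ⊓ isometryGroup F ⇑Q ≤ subalgebraNormalizer K₂ := by
  classical
  haveI : Nonempty ι := Fintype.card_pos_iff.1 (by omega)
  obtain ⟨x₀, y₀, α, β, D⟩ := exists_Hf hnd hr hn hK hsa
  obtain ⟨θ, hθ⟩ := D.exists_theta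
  -- pairs
  have hne : ∀ a ∈ K, ∀ b ∈ K, ¬ (a = 0 ∧ b = 0) → a + b * θ ≠ 0 := by
    intro a ha b hb hab h
    obtain ⟨y, hy, hxy⟩ := D.E_inv hθ hani ha hb hab
    rw [h, zero_mul] at hxy
    exact zero_ne_one hxy
  have huniq : ∀ a ∈ K, ∀ b ∈ K, ∀ c ∈ K, ∀ d ∈ K, a + b * θ = c + d * θ → a = c ∧ b = d := by
    intro a ha b hb c hc d hd h
    by_contra hcon
    apply hne (a - c) (K.sub_mem ha hc) (b - d) (K.sub_mem hb hd)
    · rintro ⟨h1, h2⟩
      exact hcon ⟨sub_eq_zero.1 h1, sub_eq_zero.1 h2⟩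
    · calc a - c + (b - d) * θ = (a + b * θ) - (c + d * θ) := by noncomm_ring
        _ = 0 := by rw [h, sub_self]
  have hEinv : ∀ x ∈ D.E hθ, x ≠ 0 → ∃ y ∈ D.E hθ, x * y = 1 := by
    rintro _ ⟨a, ha, b, hb, rfl⟩ hx
    exact D.E_inv hθ hani ha hb (by rintro ⟨rfl, rfl⟩; simp at hx)
  have hEfr : finrank F (D.E hθ) = 2 * r := by
    let φ : (K × K) →ₗ[F] Matrix ι ι F := LinearMap.coprod K.val.toLinearMap ((LinearMap.mulRight F θ) ∘ₗ K.val.toLinearMap)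
    have hφ : ∀ p : K × K, φ p = (p.1 : Matrix ι ι F) + (p.2 : Matrix ι ι F) * θ := fun p => rfl
    have hinj : Function.Injective φ := by
      rintro ⟨a, b⟩ ⟨c, d⟩ h
      obtain ⟨h1, h2⟩ := huniq a a.2 b b.2 c c.2 d d.2 h
      exact Prod.ext (Subtype.ext h1) (Subtype.ext h2)
    have hrange : LinearMap.range φ = Subalgebra.toSubmodule (D.E hθ) := by
      ext x
      constructor
      · rintro ⟨p, rfl⟩
        exact ⟨p.1, p.1.2, p.2, p.2.2, rfl⟩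
      · rintro ⟨a, ha, b, hb, rfl⟩
        exact ⟨(⟨a, ha⟩, ⟨b, hb⟩), rfl⟩
    have h1 : finrank F (LinearMap.range φ) = finrank F (Subalgebra.toSubmodule (D.E hθ)) := by rw [hrange]
    rw [LinearMap.finrank_range_of_inj hinj, finrank_prod, hK.finrank_eq] at h1
    have h2 : finrank F (D.E hθ) = finrank F (Subalgebra.toSubmodule (D.E hθ)) := rfl
    omega
  obtain ⟨K₂, hK₂, hmem⟩ := exists_prime_subfield (D.E_comm hθ) hEinv 2 (by norm_num) (by rw [hEfr]; exact Dvd.intro _ rfl)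
  -- adjoints of elements of `K₂`
  have hadj : ∀ a ∈ K, ∀ b ∈ K, a + b * θ ∈ K₂ → (a + b) + (-b) * θ ∈ K₂ := by
    intro a ha b hb hx
    rw [hmem] at hx ⊢
    refine ⟨⟨_, K.add_mem ha hb, _, K.neg_mem hb, rfl⟩, ?_⟩
    have hpow : ∀ n : ℕ, ∀ u v, polar Q ((a + b * θ) ^ n *ᵥ u) v = polar Q u (((a + b) + (-b) * θ) ^ n *ᵥ v) := by
      intro n
      induction n with
      | zero => intro u v; simp
      | succ n ih =>
        intro u v
        rw [pow_succ, ← Matrix.mulVec_mulVec, ih, D.E_adj hθ ha hb, Matrix.mulVec_mulVec, ← pow_succ']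
    apply matrix_ext_of_mulVec
    intro v
    have h1 : ∀ u, polar Q u (((a + b) + (-b) * θ) ^ (Fintype.card F ^ 2) *ᵥ v - ((a + b) + (-b) * θ) *ᵥ v) = 0 := by
      intro u
      rw [polar_sub_right, ← hpow, hx.2, D.E_adj hθ ha hb, sub_self]
    have h2 := hnd.eq_zero (fun y => by rw [polar_comm]; exact h1 y)
    exact sub_eq_zero.1 h2
  have hsaK : ∀ x ∈ K₂, (∀ u v, polar Q (x *ᵥ u) v = polar Q u (x *ᵥ v)) → x ∈ K := by
    intro x hx hxa
    obtain ⟨a, ha, b, hb, rfl⟩ := ((hmem x).1 hx).1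
    have h1 : a + b * θ = (a + b) + (-b) * θ := by
      apply matrix_ext_of_mulVec
      intro v
      have h2 := hnd.eq_zero (x := (a + b * θ) *ᵥ v - ((a + b) + (-b) * θ) *ᵥ v) (fun y => by
        rw [polar_comm, polar_sub_right, ← hxa, D.E_adj hθ ha hb, sub_self])
      exact sub_eq_zero.1 h2
    obtain ⟨h2, h3⟩ := huniq _ ha _ hb _ (K.add_mem ha hb) _ (K.neg_mem hb) h1
    have h4 : b = 0 := by
      have := congrArg (fun z => z - a) h2
      simpa using this.symm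
    rw [h4, zero_mul, add_zero]
    exact ha
  have hnle : ¬ K₂ ≤ K := by
    intro hle
    have hx₀ : x₀ ≠ 0 := by
      rintro rfl
      exact D.one (by rw [polar_zero_left])
    have h1 := AschSp.dvd_finrank_of_field hK₂.comm hK₂.inv (W := kv K x₀) (fun k hk w hw => kv_inv k (hle hk) w hw)
    rw [hK₂.finrank_eq, finrank_kv hK hx₀] at h1
    exact (Nat.not_even_iff_odd.2 hodd) (even_iff_two_dvd.2 h1)
  refine ⟨K₂, hK₂, ?_, ?_, ?_, ?_⟩
  · intro x hx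
    obtain ⟨a, ha, b, hb, rfl⟩ := ((hmem x).1 hx).1
    exact ⟨_, hadj a ha b hb hx, fun u v => D.E_adj hθ ha hb u v⟩
  · intro h
    exact hnle fun x hx => hsaK x hx (h x hx)
  · intro x hx
    obtain ⟨a, ha, b, hb, rfl⟩ := ((hmem x).1 hx).1
    have hx' := hadj a ha b hb hx
    have hxx := K₂.mul_mem hx' hx
    have hcomm := hK₂.comm _ hx' _ hx
    have h1 : ((a + b) + (-b) * θ) * (a + b * θ) ∈ K := by
      apply hsaK _ hxx
      intro u v
      have h2 : ∀ u v, polar Q (((a + b) + (-b) * θ) *ᵥ u) v = polar Q u ((a + b * θ) *ᵥ v) := by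
        intro u v
        rw [polar_comm, ← D.E_adj hθ ha hb, polar_comm]
      rw [← Matrix.mulVec_mulVec, h2, D.E_adj hθ ha hb, Matrix.mulVec_mulVec]
    rcases AschSp.eq_bot_or_eq Nat.prime_two hK₂ (E := K₂ ⊓ K) inf_le_left with h2 | h2
    · have h3 : ((a + b) + (-b) * θ) * (a + b * θ) ∈ (⊥ : Subalgebra F (Matrix ι ι F)) := by rw [← h2]; exact ⟨hxx, h1⟩
      obtain ⟨c, hc⟩ := Algebra.mem_bot.1 h3
      refine ⟨c, fun v => ?_⟩
      rw [← D.theta_Q hθ, Matrix.mulVec_mulVec, D.E_comm hθ θ ⟨0, K.zero_mem, 1, K.one_mem, by simp⟩ _ ⟨a, ha, b, hb, rfl⟩, ← Matrix.mulVec_mulVec,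
        D.E_adj hθ ha hb, Matrix.mulVec_mulVec, ← hc, Algebra.algebraMap_eq_smul_one, Matrix.smul_mulVec, Matrix.one_mulVec, polar_smul_right,
        D.theta_Q hθ]
      rfl
    · exact absurd (by rw [← h2]; exact inf_le_right) hnle
  · apply le_subalgebraNormalizer
    rintro g ⟨hgK', hgQ'⟩ x hx
    have hgK : ∀ k, k ∈ K ↔ cj g k ∈ K := hgK'
    have hgQ : ∀ v, Q ((g : Matrix ι ι F) *ᵥ v) = Q v := fun v => AschO.isQ (show g ∈ isometryGroup F ⇑Q from hgQ') v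
    rw [hmem] at hx ⊢
    have hcjθ : cj g θ ∈ D.E hθ := by
      obtain ⟨p, hp, hpθ⟩ := D.unique hθ (x := cj g θ - θ) (by
        intro k hk
        have h1 : cj g⁻¹ k ∈ K := (hgK _).2 (by rw [cj_cj_inv]; exact hk)
        have h2 : cj g θ * k = k * cj g θ := by
          have h3 : k = cj g (cj g⁻¹ k) := (cj_cj_inv g k).symm
          rw [h3, ← map_mul, ← map_mul, D.theta_comm hθ _ h1]
        rw [sub_mul, mul_sub, h2, D.theta_comm hθ k hk]) (by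
        intro v
        obtain ⟨w, rfl⟩ : ∃ w, v = (g : Matrix ι ι F) *ᵥ w := ⟨((g⁻¹ : GL ι F) : Matrix ι ι F) *ᵥ v, by
          rw [Matrix.mulVec_mulVec, gl_mul_inv, Matrix.one_mulVec]⟩
        have hpol : ∀ u v, polar Q ((g : Matrix ι ι F) *ᵥ u) ((g : Matrix ι ι F) *ᵥ v) = polar Q u v := by
          intro u v
          unfold polar
          rw [← Matrix.mulVec_add, hgQ, hgQ, hgQ]
        rw [Matrix.sub_mulVec, polar_sub_left, D.theta_Q hθ, cj_mulVec, hpol, D.theta_Q hθ, hgQ, sub_self])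
      have h3 : cj g θ = p + (1 - 2 * p) * θ := by
        have h4 : cj g θ = p * (1 - 2 * θ) + θ := by rw [← hpθ]; abel
        rw [h4]
        noncomm_ring
      rw [h3]
      exact ⟨p, hp, _, K.sub_mem K.one_mem (by rw [two_mul]; exact K.add_mem hp hp), rfl⟩
    have hKE : ∀ k ∈ K, k ∈ D.E hθ := fun k hk => ⟨k, hk, 0, K.zero_mem, by simp⟩
    constructor
    · obtain ⟨a, ha, b, hb, rfl⟩ := hx.1
      rw [map_add, map_mul]
      exact (D.E hθ).add_mem (hKE _ ((hgK a).1 ha)) ((D.E hθ).mul_mem (hKE _ ((hgK b).1 hb)) hcjθ)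
    · rw [← map_pow, hx.2]

end Hf

end Cfsg.Agent.Lib.ONot
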