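import Cfsg.Agent.Lib.ONot14

/-!
Maximal subgroups of `Ω₁₀`.
-/

set_option autoImplicit false
set_option linter.style.haveILetI false
set_option linter.unusedVariables false
set_option linter.unusedSectionVars false

namespace Cfsg.Agent.Lib.ONot

open Cfsg Cfsg.Geo Module QuadraticMap Cfsg.Agent.Lib.Quad Cfsg.Agent.Lib.OrthMax Cfsg.Agent.Lib.OrthNd
  Cfsg.Agent.Lib.OrthNot Cfsg.Agent.Lib.OrthBridge Cfsg.Agent.Lib.OrthNdBridge Cfsg.Agent.Lib.UniRes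
open Cfsg.Agent.Lib.GeoBridge (le)
open Cfsg.Agent.Lib.AschCore Cfsg.Agent.Lib.AschField Cfsg.Agent.Lib.AschAlg Cfsg.Agent.Lib.AschGroup Cfsg.Agent.Lib.AschMU Cfsg.Agent.Lib.AschGood Cfsg.Agent.Lib.AschNonab
open Cfsg.Agent.Lib.SLNot (eq_inf_of_maximal ne_top_of_card kLeft)
open scoped Matrix MatrixGroups Kronecker

variable {ι : Type} [Fintype ι] [DecidableEq ι] {F : Type*} [Field F] [Fintype F] {Q : QuadraticForm F (ι → F)}

lemma stab_of_map {W : Submodule F (ι → F)} {H : Subgroup (GL ι F)}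
    (h : ∀ g ∈ H, W.map (le g).toLinearMap = W) : H ≤ subspaceStabilizer W := by
  intro g hg
  rw [Cfsg.Agent.Lib.GeoBridge.mem_subspaceStabilizer_iff']
  intro v hv
  rw [← h g hg]
  exact ⟨v, hv, rfl⟩

/-- Singular vectors over a self-adjoint field. -/
theorem sa_sing (hnd : Nd Q) (hgen : GenHyp Q) {r : ℕ} (hr : Odd r) (hr2 : 2 ≤ r) (hn : Fintype.card ι = 2 * r)
    {K : Subalgebra F (Matrix ι ι F)} (hK : IsFieldSubalgebra r K) {v : ι → F} (hv : v ≠ 0) (hs : ∀ k ∈ K, Q (k *ᵥ v) = 0)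
    {H : Subgroup (GL ι F)} (hH : H ≤ omegaGL ⇑Q) (hle : H ≤ subalgebraNormalizer K) :
    IsTotallySingularQuad ⇑Q (kv K v) ∧ H ≤ subspaceStabilizer (kv K v) := by
  have hts : ∀ u ∈ kv K v, Q u = 0 := by
    intro u hu
    obtain ⟨k, hk, rfl⟩ := mem_kv.1 hu
    exact hs k hk
  have hMTS : MTS Q r (kv K v) := ⟨finrank_kv hK hv, hts⟩
  refine ⟨hts, stab_of_map fun g hg => ?_⟩
  have h1 := even_codim hnd hgen (by rw [finrank_fun, hn]) hMTS ((mem_omegaGL_iff g).1 (hH hg))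
  have hmap : (kv K v).map (le g).toLinearMap = kv K ((g : Matrix ι ι F) *ᵥ v) := by
    have hN : ∀ k, k ∈ K ↔ cj g k ∈ K := hle hg
    ext u
    constructor
    · rintro ⟨_, hw, rfl⟩
      obtain ⟨k, hk, rfl⟩ := mem_kv.1 hw
      exact mem_kv.2 ⟨cj g k, (hN k).1 hk, cj_mulVec g k v⟩
    · intro hu
      obtain ⟨k, hk, rfl⟩ := mem_kv.1 hu
      refine ⟨cj g⁻¹ k *ᵥ v, mem_kv.2 ⟨_, (hN _).2 (by rw [cj_cj_inv]; exact hk), rfl⟩, ?_⟩
      show (g : Matrix ι ι F) *ᵥ (cj g⁻¹ k *ᵥ v) = _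
      rw [← cj_mulVec, cj_cj_inv]
  have hgv : (g : Matrix ι ι F) *ᵥ v ≠ 0 := by
    intro h
    apply hv
    rw [← Matrix.one_mulVec v, ← gl_inv_mul g, ← Matrix.mulVec_mulVec, h, Matrix.mulVec_zero]
  by_cases h0 : kv K v ⊓ kv K ((g : Matrix ι ι F) *ᵥ v) = ⊥
  · rw [hmap, h0, finrank_bot, Nat.sub_zero] at h1
    exact absurd h1 (Nat.not_even_iff_odd.2 hr)
  · obtain ⟨w, ⟨hw1, hw2⟩, hw0⟩ := Submodule.exists_mem_ne_zero_of_ne_bot h0
    have hle' : ∀ u : ι → F, u ≠ 0 → w ∈ kv K u → kv K w = kv K u := by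
      intro u hu hwu
      apply Submodule.eq_of_le_of_finrank_eq
      · intro x hx
        obtain ⟨k, hk, rfl⟩ := mem_kv.1 hx
        exact kv_inv k hk w hwu
      · rw [finrank_kv hK hw0, finrank_kv hK hu]
    rw [hmap, ← hle' _ hgv hw2, hle' _ hv hw1]

/-- Pairs of complementary maximal totally singular subspaces of odd dimension. -/
theorem sing_ts (hnd : Nd Q) (hgen : GenHyp Q) {k : ℕ} (hk : Odd k) (hn : 2 * k = Fintype.card ι)
    {D : Fin 2 → Submodule F (ι → F)} (hD : IsMDecomposition k D) (hs : ∀ i, IsTotallySingularQuad ⇑Q (D i))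
    {H : Subgroup (GL ι F)} (hH : H ≤ omegaGL ⇑Q) (hle : H ≤ decompositionStabilizer D) : H ≤ subspaceStabilizer (D 0) := by
  refine stab_of_map fun g hg => ?_
  obtain ⟨σ, hσ⟩ := (Cfsg.Agent.Lib.GeoBridge.mem_decompositionStabilizer_iff D g).1 (hle hg)
  have hMTS : MTS Q k (D 0) := ⟨hD.finrank_eq 0, hs 0⟩
  have h1 := even_codim hnd hgen (by rw [finrank_fun, hn]) hMTS ((mem_omegaGL_iff g).1 (hH hg))
  have h2 := hσ 0
  rcases (show ∀ i : Fin 2, i = 0 ∨ i = 1 by decide) (σ 0) with h | h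
  · rw [h] at h2; exact h2
  · rw [h] at h2
    have h3 : D 0 ⊓ D 1 = ⊥ := by
      rw [eq_bot_iff]
      rintro x ⟨hx0, hx1⟩
      rw [Submodule.mem_bot]
      exact dec_disj hD (show (0 : Fin 2) ≠ 1 by decide) hx0 hx1
    have h4 : (D 0).map (le g).toLinearMap = D 1 := h2
    rw [h4, h3, finrank_bot, Nat.sub_zero] at h1
    exact absurd h1 (Nat.not_even_iff_odd.2 hk)

lemma mod_four_of_odd (hodd : Odd (Fintype.card F)) : Fintype.card F % 4 = 1 ∨ Fintype.card F % 4 = 3 := by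
  obtain ⟨c, hc⟩ := hodd
  omega

/-- The discriminant condition, plus type. -/
lemma disc_plus_five (hnd : Nd Q) (hodd : Odd (Fintype.card F)) (hm : Fintype.card ι = 2 * 5) (hpl : IsPlusTypeOn ⇑Q ⊤) :
    IsSquare (AschO.gm ⇑Q).det ↔ Fintype.card F % 4 = 1 := by
  have h1 := disc_plus hnd hm hpl
  have h2 : (-1 : F) ^ 5 = -1 := by norm_num
  have h3 := det_gm_ne_zero hnd
  rw [h2, Cfsg.Agent.Lib.Quad.isSquare_mul_iff (neg_ne_zero.2 one_ne_zero) h3, FiniteField.isSquare_neg_one_iff] at h1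
  rcases mod_four_of_odd hodd with h | h
  · simp [h] at h1 ⊢; exact h1
  · simp [h] at h1 ⊢; exact h1

/-- The discriminant condition, minus type. -/
lemma disc_minus_five (hnd : Nd Q) (hodd : Odd (Fintype.card F)) (hm : Fintype.card ι = 2 * 5) (hmi : ¬ IsPlusTypeOn ⇑Q ⊤) :
    IsSquare (AschO.gm ⇑Q).det ↔ Fintype.card F % 4 = 3 := by
  have h1 : ¬ IsSquare ((-1) ^ 5 * (AschO.gm ⇑Q).det) := fun h => hmi (plus_of_disc hnd (AschSp.two_ne_of_odd hodd) hm h)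
  have h2 : (-1 : F) ^ 5 = -1 := by norm_num
  have h3 := det_gm_ne_zero hnd
  rw [h2, Cfsg.Agent.Lib.Quad.isSquare_mul_iff (neg_ne_zero.2 one_ne_zero) h3, FiniteField.isSquare_neg_one_iff] at h1
  rcases mod_four_of_odd hodd with h | h
  · simp [h] at h1 ⊢; exact h1
  · simp [h] at h1 ⊢; exact h1

/-- Self-adjoint fields in dimension ten. -/
lemma sa_ten (hnd : Nd Q) (hgen : GenHyp Q) (hn : Fintype.card ι = 10) {r : ℕ} (hr : r.Prime) (hrn : r ∣ Fintype.card ι)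
    {K : Subalgebra F (Matrix ι ι F)} (hK : IsFieldSubalgebra r K) (hsa : IsSelfAdjointFor (QuadraticMap.polar ⇑Q) K)
    {H : Subgroup (GL ι F)} (hH : IsMaximalIn (omegaGL ⇑Q) H) (heq : H = subalgebraNormalizer K ⊓ omegaGL ⇑Q) :
    (Odd (Fintype.card F) ∧ r = 2) ∨
    (∃ W : Submodule F (ι → F), W ≠ ⊥ ∧ finrank F W = 5 ∧ IsTotallySingularQuad ⇑Q W ∧ H = subspaceStabilizer W ⊓ omegaGL ⇑Q) ∨
    (∃ K : Subalgebra F (Matrix ι ι F), IsFieldSubalgebra 2 K ∧ IsAdjointClosedFor (QuadraticMap.polar ⇑Q) K ∧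
      ¬ IsSelfAdjointFor (QuadraticMap.polar ⇑Q) K ∧ (∀ k ∈ K, ∃ c : F, ∀ v : ι → F, Q (Matrix.mulVec k v) = c * Q v) ∧
      H = subalgebraNormalizer K ⊓ omegaGL ⇑Q) := by
  have hr25 : r = 2 ∨ r = 5 := by
    have h1 : r ∣ 2 * 5 := by rw [hn] at hrn; exact hrn
    rcases (Nat.Prime.dvd_mul hr).1 h1 with h | h
    · exact Or.inl ((Nat.prime_dvd_prime_iff_eq hr Nat.prime_two).1 h)
    · exact Or.inr ((Nat.prime_dvd_prime_iff_eq hr Nat.prime_five).1 h)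
  rcases hr25 with rfl | rfl
  · left
    refine ⟨?_, rfl⟩
    rcases odd_or_two (F := F) with h | h
    · exact h
    · have := sa_even hnd h (m := 5) (by omega) (by norm_num) hK hsa
      omega
  · right
    by_cases hani : ∀ v, v ≠ 0 → ∃ k ∈ K, Q (k *ᵥ v) ≠ 0
    · right
      obtain ⟨K₂, hK₂, hac, hns, hsim, hle⟩ := sa_half hnd (by norm_num) (by decide) (by omega) hK hsa hani
      refine ⟨K₂, hK₂, hac, hns, hsim, eq_inf_of_maximal hH ?_ (not_le_field hnd hgen (by omega) le_rfl hK₂)⟩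
      refine le_trans ?_ hle
      rw [heq]
      exact inf_le_inf le_rfl AschO.omega_le
    · left
      push Not at hani
      obtain ⟨v, hv, hv0⟩ := hani
      obtain ⟨h1, h2⟩ := sa_sing hnd hgen (by decide) (by norm_num) (by omega) hK hv hv0 hH.1.le (by rw [heq]; exact inf_le_left)
      have hfr := finrank_kv hK hv
      have hbot : kv K v ≠ ⊥ := by
        intro h
        rw [h, finrank_bot] at hfr
        omega
      refine ⟨kv K v, hbot, hfr, h1, eq_inf_of_maximal hH h2 (not_le_subspace hnd hgen (by omega) hbot ?_)⟩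
      intro h
      rw [h, finrank_top, finrank_fun] at hfr
      omega

/-- The list for `Ω₁₀⁺`. -/
theorem ten_plus_list (Q : (Fin 10 → F) → F) (hQ : Cfsg.Geo.IsNondegenerateQuadraticForm Q) (hplus : Cfsg.Geo.IsPlusTypeOn Q ⊤) (H : Subgroup (Matrix.GeneralLinearGroup (Fin 10) F)) (hH : Cfsg.Geo.IsMaximalIn (Cfsg.Geo.omegaGL Q) H) :
    (∃ W : Submodule F (Fin 10 → F), W ≠ ⊥ ∧ Cfsg.Geo.IsTotallySingularQuad Q W ∧ Module.finrank F W ≠ 4 ∧ H = Cfsg.Geo.subspaceStabilizer W ⊓ Cfsg.Geo.omegaGL Q) ∨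
    (Odd (Fintype.card F) ∧ ∃ W : Submodule F (Fin 10 → F), W ≠ ⊥ ∧ W ≠ ⊤ ∧ Odd (Module.finrank F W) ∧ 2 * Module.finrank F W ≠ 10 ∧ Cfsg.Geo.IsNondegenerateOn (QuadraticMap.polar Q) W ∧ H = Cfsg.Geo.subspaceStabilizer W ⊓ Cfsg.Geo.omegaGL Q) ∨
    (∃ W : Submodule F (Fin 10 → F), Module.finrank F W = 2 ∧ Cfsg.Geo.IsNondegenerateOn (QuadraticMap.polar Q) W ∧ ¬ Cfsg.Geo.IsPlusTypeOn Q W ∧ H = Cfsg.Geo.subspaceStabilizer W ⊓ Cfsg.Geo.omegaGL Q) ∨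
    (4 ≤ Fintype.card F ∧ ∃ W : Submodule F (Fin 10 → F), Module.finrank F W = 2 ∧ Cfsg.Geo.IsNondegenerateOn (QuadraticMap.polar Q) W ∧ Cfsg.Geo.IsPlusTypeOn Q W ∧ H = Cfsg.Geo.subspaceStabilizer W ⊓ Cfsg.Geo.omegaGL Q) ∨
    (∃ W : Submodule F (Fin 10 → F), Module.finrank F W = 4 ∧ Cfsg.Geo.IsNondegenerateOn (QuadraticMap.polar Q) W ∧ H = Cfsg.Geo.subspaceStabilizer W ⊓ Cfsg.Geo.omegaGL Q) ∨
    (¬ Odd (Fintype.card F) ∧ ∃ v : (Fin 10 → F), Q v ≠ 0 ∧ H = Cfsg.Geo.subspaceStabilizer (Submodule.span F {v}) ⊓ Cfsg.Geo.omegaGL Q) ∨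
    ((∃ p : ℕ, p.Prime ∧ Fintype.card F = p ∧ (p % 4 = 1)) ∧ ∃ D : Fin 10 → Submodule F (Fin 10 → F), Cfsg.Geo.IsOrthogonalMDecomposition Q 1 D ∧ H = Cfsg.Geo.decompositionStabilizer D ⊓ Cfsg.Geo.omegaGL Q) ∨
    (7 ≤ Fintype.card F ∧ ∃ D : Fin 5 → Submodule F (Fin 10 → F), Cfsg.Geo.IsOrthogonalMDecomposition Q 2 D ∧ H = Cfsg.Geo.decompositionStabilizer D ⊓ Cfsg.Geo.omegaGL Q) ∨
    (Fintype.card F % 4 = 1 ∧ ∃ D : Fin 2 → Submodule F (Fin 10 → F), Cfsg.Geo.IsOrthogonalMDecomposition Q 5 D ∧ H = Cfsg.Geo.decompositionStabilizer D ⊓ Cfsg.Geo.omegaGL Q) ∨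
    (Fintype.card F % 4 = 3 ∧ ∃ D : Fin 2 → Submodule F (Fin 10 → F), Cfsg.Geo.IsNondegenerateMDecomposition (QuadraticMap.polar Q) 5 D ∧ ¬ Cfsg.Geo.AreIsometricFor Q (D 0) (D 1) ∧ H = Cfsg.Geo.decompositionStabilizer D ⊓ Cfsg.Geo.omegaGL Q) ∨
    (Odd (Fintype.card F) ∧ ∃ K : Subalgebra F (Matrix (Fin 10) (Fin 10) F), Cfsg.Geo.IsFieldSubalgebra 2 K ∧ Cfsg.Geo.IsSelfAdjointFor (QuadraticMap.polar Q) K ∧ H = Cfsg.Geo.subalgebraNormalizer K ⊓ Cfsg.Geo.omegaGL Q) ∨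
    (∃ (F₀ : Subfield F) (r : ℕ) (P : Matrix.GeneralLinearGroup (Fin 10) F) (ζ : F), r.Prime ∧ Fintype.card F = Nat.card F₀ ^ r ∧ ζ ≠ 0 ∧ Cfsg.Geo.IsQuadFormRationalStructure (fun v : Fin 10 → F => ζ * Q v) F₀ P ∧ H = Cfsg.Geo.subfieldSubgroup F₀ P ⊓ Cfsg.Geo.omegaGL Q) ∨
    Cfsg.Geo.InOrthogonalResidualClass H := by
  classical
  let q : QuadraticForm F (Fin 10 → F) := qf hQ
  have hcard : Fintype.card (Fin 10) = 10 := Fintype.card_fin 10
  have hnd : Nd q := nd_qf hQ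
  have hgen : GenHyp q := Or.inr (Or.inl (by rw [finrank_fun]; omega))
  have hHi : H ≤ isometryGroup F Q := hH.1.le.trans AschO.omega_le
  have hpl : IsPlusTypeOn ⇑q ⊤ := hplus
  have hher : ∀ K : Subalgebra F (Matrix (Fin 10) (Fin 10) F), IsFieldSubalgebra 2 K → IsAdjointClosedFor (QuadraticMap.polar ⇑q) K →
      (∀ k ∈ K, ∃ c : F, ∀ v : Fin 10 → F, q (k *ᵥ v) = c * q v) → False := by
    intro K hK hac hsim
    have h1 := her_plus_even hnd (m := 5) (by omega) (by norm_num) hK hac hsim hpl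
    exact absurd h1 (by decide)
  rcases omax (Q := q) hQ (by omega) (by omega) hH with ⟨W, h0, hs, heq⟩ | ⟨W, h0, h1, hs, heq⟩ | ⟨v, h2', hv, heq⟩ | ⟨t, k, D, ht, htk, hD, heq⟩ |
    ⟨k, D, htk, hD, hs, heq⟩ | ⟨r, K, hr, hrn, hne, hK, hsa, heq⟩ | ⟨K, hrn, hK, hac, hns, hsim, heq⟩ |
    ⟨d, e, ρ, P, f₁, f₂, ho, hd, hde, hf₁, hf₂, hst, heq⟩ | ⟨d, e, ρ, P, f₁, f₂, hd, hde, hf₁, hf₂, hst, hpure, heq⟩ |
    ⟨F₀, r, P, ζ, hr, hc, hζ, hrs, heq⟩ | ⟨R, k, ho, hR, habs, hcomm, hk⟩ | ⟨k, e, P, f₁, ho, hk, hne, hc, hf₁, hst, heq⟩ |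
    ⟨k, t, hk, ht, hc, hev, hplus⟩ | h
  · exact Or.inl ⟨W, h0, hs, fun hd => submax_false hnd (by omega) (m := 5) (by omega) hpl hH h0 hs (by omega) heq, heq⟩
  · obtain ⟨W, h0, h1, hs, heq, hpos, hle⟩ := nd_wlog hnd (by omega) hH h0 h1 hs heq
    rcases Nat.even_or_odd (finrank F W) with hev | hod
    · obtain hd | hd : finrank F W = 2 ∨ finrank F W = 4 := by
        obtain ⟨c, hc⟩ := hev
        omega
      · by_cases hpl : IsPlusTypeOn Q W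
        · exact Or.inr (Or.inr (Or.inr (Or.inl ⟨plane_cases hnd (by omega) hH hs hd heq hpl, W, hd, hs, hpl, heq⟩)))
        · exact Or.inr (Or.inr (Or.inl ⟨W, hd, hs, hpl, heq⟩))
      · exact Or.inr (Or.inr (Or.inr (Or.inr (Or.inl ⟨W, hd, hs, heq⟩))))
    · have hodd := odd_of_nd_odd (Q := q) hs hod
      by_cases hd : finrank F W = 5
      · obtain ⟨hdec, heq'⟩ := dec_of_iso hnd (by omega) hH (m := 5) (by omega) hd hs heq
        have hiff := half_iso_iff hnd (AschSp.two_ne_of_odd hodd) (m := 5) (by omega) (nds_of_nondeg hs) hd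
        rw [disc_plus_five hnd hodd (by omega) hpl] at hiff
        rcases mod_four_of_odd hodd with h4 | h4
        · exact Or.inr (Or.inr (Or.inr (Or.inr (Or.inr (Or.inr (Or.inr (Or.inr (Or.inl ⟨h4, _, ⟨hdec, iso_pair (hiff.2 h4)⟩, heq'⟩))))))))
        · exact Or.inr (Or.inr (Or.inr (Or.inr (Or.inr (Or.inr (Or.inr (Or.inr (Or.inr (Or.inl ⟨h4, _, hdec, fun h => by have := hiff.1 h; omega, heq'⟩)))))))))
      · exact Or.inr (Or.inl ⟨hodd, W, h0, h1, hod, by omega, hs, heq⟩)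
  · exact Or.inr (Or.inr (Or.inr (Or.inr (Or.inr (Or.inl ⟨not_odd_of_two h2', v, hv, heq⟩)))))
  · obtain ⟨rfl, rfl⟩ | ⟨rfl, rfl⟩ | ⟨rfl, rfl⟩ : (t = 2 ∧ k = 5) ∨ (t = 5 ∧ k = 2) ∨ (t = 10 ∧ k = 1) := by
      have hdvd : t ∣ 10 := Dvd.intro _ (by rw [htk, hcard])
      have hle := Nat.le_of_dvd (by norm_num) hdvd
      rw [hcard] at htk
      interval_cases t <;> omega
    · have hodd : Odd (Fintype.card F) := odd_of_nd_odd (Q := q) (hD.decomp.nondegenerate 0) (by rw [hD.decomp.decomp.finrank_eq]; decide)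
      exact Or.inr (Or.inr (Or.inr (Or.inr (Or.inr (Or.inr (Or.inr (Or.inr (Or.inl ⟨(disc_plus_five hnd hodd (by omega) hpl).1 (disc_dec hnd hD (by decide)), D, hD, heq⟩))))))))
    · have hp4 := five_plus hnd (c := 1) rfl hD hpl
      exact Or.inr (Or.inr (Or.inr (Or.inr (Or.inr (Or.inr (Or.inr (Or.inl ⟨planes_plus_ge hnd (by omega) hH (by omega) hD heq (fun i => plus_of_isom (hD.isometric 4 i) hp4), D, hD, heq⟩)))))))
    · rcases frame_case (Q := q) hQ (by omega) hH htk hD heq with hp | ⟨F₀, r, P, ζ, hr, hc, hζ, hrs, heq⟩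
      · have hodd : Odd (Fintype.card F) := by
          rcases odd_or_two (F := F) with h | h
          · exact h
          · exact absurd h (two_ne_of_dec_one (Q := q) hD)
        exact Or.inr (Or.inr (Or.inr (Or.inr (Or.inr (Or.inr (Or.inl ⟨⟨_, hp, rfl, (disc_plus_five hnd hodd (by omega) hpl).1 (disc_dec hnd hD (by decide))⟩, D, hD, heq⟩))))))
      · exact Or.inr (Or.inr (Or.inr (Or.inr (Or.inr (Or.inr (Or.inr (Or.inr (Or.inr (Or.inr (Or.inr (Or.inl ⟨F₀, r, P, ζ, hr, hc, hζ, hrs, heq⟩)))))))))))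
  · have hk5 : k = 5 := by omega
    subst hk5
    have hle := sing_ts hnd hgen (by decide) htk hD hs hH.1.le (by rw [heq]; exact inf_le_left)
    have hfr := hD.finrank_eq 0
    have hbot : D 0 ≠ ⊥ := by
      intro h
      rw [h, finrank_bot] at hfr
      omega
    have htop : D 0 ≠ ⊤ := by
      intro h
      rw [h, finrank_top, finrank_fun] at hfr
      omega
    exact Or.inl ⟨D 0, hbot, hs 0, by omega, eq_inf_of_maximal hH hle (not_le_subspace hnd hgen (by omega) hbot htop)⟩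
  · rcases sa_ten hnd hgen (by omega) hr hrn hK hsa hH heq with ⟨ho, rfl⟩ | ⟨W, hW0, hWd, hWs, heq⟩ | ⟨K, hK, hac, hns, hsim, heq⟩
    · exact Or.inr (Or.inr (Or.inr (Or.inr (Or.inr (Or.inr (Or.inr (Or.inr (Or.inr (Or.inr (Or.inl ⟨ho, K, hK, hsa, heq⟩))))))))))
    · exact Or.inl ⟨W, hW0, hWs, by omega, heq⟩
    · exact (hher K hK hac hsim).elim
  · exact (hher K hK hac hsim).elim
  · exfalso
    have h3 := Fintype.card_congr ρ
    rw [Fintype.card_prod, Fintype.card_fin, Fintype.card_fin, Fintype.card_fin] at h3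
    have : d < 4 := by
      by_contra hcon
      have : 4 * 4 ≤ d * e := Nat.mul_le_mul (by omega) (by omega)
      omega
    have hd3 : d = 3 := by omega
    subst hd3
    omega
  · exfalso
    have h3 := Fintype.card_congr ρ
    rw [Fintype.card_prod, Fintype.card_fin, Fintype.card_fin, Fintype.card_fin] at h3
    obtain ⟨c, hc⟩ := AschO.even_of_symp hf₁
    obtain ⟨c', hc'⟩ := AschO.even_of_symp hf₂
    rw [hc, hc'] at h3
    have h4 : (c + c) * (c' + c') = 4 * (c * c') := by ring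
    omega
  · exact Or.inr (Or.inr (Or.inr (Or.inr (Or.inr (Or.inr (Or.inr (Or.inr (Or.inr (Or.inr (Or.inr (Or.inl ⟨F₀, r, P, ζ, hr, hc, hζ, hrs, heq⟩)))))))))))
  · exfalso
    rw [hcard] at hk
    have h1 : 5 ∣ 2 ^ k := by rw [← hk]; decide
    have := (Nat.prime_dvd_prime_iff_eq Nat.prime_five Nat.prime_two).1 (Nat.prime_five.dvd_of_dvd_pow h1)
    omega
  · exfalso
    rw [hcard] at hc
    have h1 : k < 4 := by
      by_contra hcon
      have : 4 ^ 2 ≤ k ^ 2 := Nat.pow_le_pow_left (by omega) 2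
      omega
    have h2 : k = 3 := by omega
    subst h2
    omega
  · exfalso
    rw [hcard] at hc
    have h1 : k < 4 := by
      by_contra hcon
      have : 4 ^ 2 ≤ k ^ t := (Nat.pow_le_pow_left (by omega) 2).trans (Nat.pow_le_pow_right (by omega) ht)
      omega
    have h2 : k = 2 := by
      obtain ⟨c, hc⟩ := hev
      omega
    subst h2
    have h1 : 5 ∣ 2 ^ t := by rw [← hc]; decide
    have := (Nat.prime_dvd_prime_iff_eq Nat.prime_five Nat.prime_two).1 (Nat.prime_five.dvd_of_dvd_pow h1)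
    omega
  · exact Or.inr (Or.inr (Or.inr (Or.inr (Or.inr (Or.inr (Or.inr (Or.inr (Or.inr (Or.inr (Or.inr (Or.inr (h))))))))))))

/-- The list for `Ω₁₀⁻`. -/
theorem ten_minus_list (Q : (Fin 10 → F) → F) (hQ : Cfsg.Geo.IsNondegenerateQuadraticForm Q) (hminus : ¬ Cfsg.Geo.IsPlusTypeOn Q ⊤) (H : Subgroup (Matrix.GeneralLinearGroup (Fin 10) F)) (hH : Cfsg.Geo.IsMaximalIn (Cfsg.Geo.omegaGL Q) H) :
    (∃ W : Submodule F (Fin 10 → F), W ≠ ⊥ ∧ Cfsg.Geo.IsTotallySingularQuad Q W ∧ H = Cfsg.Geo.subspaceStabilizer W ⊓ Cfsg.Geo.omegaGL Q) ∨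
    (Odd (Fintype.card F) ∧ ∃ W : Submodule F (Fin 10 → F), W ≠ ⊥ ∧ W ≠ ⊤ ∧ Odd (Module.finrank F W) ∧ 2 * Module.finrank F W ≠ 10 ∧ Cfsg.Geo.IsNondegenerateOn (QuadraticMap.polar Q) W ∧ H = Cfsg.Geo.subspaceStabilizer W ⊓ Cfsg.Geo.omegaGL Q) ∨
    (∃ W : Submodule F (Fin 10 → F), Module.finrank F W = 2 ∧ Cfsg.Geo.IsNondegenerateOn (QuadraticMap.polar Q) W ∧ ¬ Cfsg.Geo.IsPlusTypeOn Q W ∧ H = Cfsg.Geo.subspaceStabilizer W ⊓ Cfsg.Geo.omegaGL Q) ∨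
    (4 ≤ Fintype.card F ∧ ∃ W : Submodule F (Fin 10 → F), Module.finrank F W = 2 ∧ Cfsg.Geo.IsNondegenerateOn (QuadraticMap.polar Q) W ∧ Cfsg.Geo.IsPlusTypeOn Q W ∧ H = Cfsg.Geo.subspaceStabilizer W ⊓ Cfsg.Geo.omegaGL Q) ∨
    (∃ W : Submodule F (Fin 10 → F), Module.finrank F W = 4 ∧ Cfsg.Geo.IsNondegenerateOn (QuadraticMap.polar Q) W ∧ H = Cfsg.Geo.subspaceStabilizer W ⊓ Cfsg.Geo.omegaGL Q) ∨
    (¬ Odd (Fintype.card F) ∧ ∃ v : (Fin 10 → F), Q v ≠ 0 ∧ H = Cfsg.Geo.subspaceStabilizer (Submodule.span F {v}) ⊓ Cfsg.Geo.omegaGL Q) ∨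
    ((∃ p : ℕ, p.Prime ∧ Fintype.card F = p ∧ (p % 4 = 3)) ∧ ∃ D : Fin 10 → Submodule F (Fin 10 → F), Cfsg.Geo.IsOrthogonalMDecomposition Q 1 D ∧ H = Cfsg.Geo.decompositionStabilizer D ⊓ Cfsg.Geo.omegaGL Q) ∨
    (Fintype.card F ≠ 3 ∧ ∃ D : Fin 5 → Submodule F (Fin 10 → F), Cfsg.Geo.IsOrthogonalMDecomposition Q 2 D ∧ H = Cfsg.Geo.decompositionStabilizer D ⊓ Cfsg.Geo.omegaGL Q) ∨
    (Fintype.card F % 4 = 3 ∧ ∃ D : Fin 2 → Submodule F (Fin 10 → F), Cfsg.Geo.IsOrthogonalMDecomposition Q 5 D ∧ H = Cfsg.Geo.decompositionStabilizer D ⊓ Cfsg.Geo.omegaGL Q) ∨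
    (Fintype.card F % 4 = 1 ∧ ∃ D : Fin 2 → Submodule F (Fin 10 → F), Cfsg.Geo.IsNondegenerateMDecomposition (QuadraticMap.polar Q) 5 D ∧ ¬ Cfsg.Geo.AreIsometricFor Q (D 0) (D 1) ∧ H = Cfsg.Geo.decompositionStabilizer D ⊓ Cfsg.Geo.omegaGL Q) ∨
    (Odd (Fintype.card F) ∧ ∃ K : Subalgebra F (Matrix (Fin 10) (Fin 10) F), Cfsg.Geo.IsFieldSubalgebra 2 K ∧ Cfsg.Geo.IsSelfAdjointFor (QuadraticMap.polar Q) K ∧ H = Cfsg.Geo.subalgebraNormalizer K ⊓ Cfsg.Geo.omegaGL Q) ∨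
    (∃ K : Subalgebra F (Matrix (Fin 10) (Fin 10) F), Cfsg.Geo.IsFieldSubalgebra 2 K ∧ Cfsg.Geo.IsAdjointClosedFor (QuadraticMap.polar Q) K ∧ ¬ Cfsg.Geo.IsSelfAdjointFor (QuadraticMap.polar Q) K ∧ (∀ k ∈ K, ∃ c : F, ∀ v : (Fin 10 → F), Q (Matrix.mulVec k v) = c * Q v) ∧ H = Cfsg.Geo.subalgebraNormalizer K ⊓ Cfsg.Geo.omegaGL Q) ∨
    (∃ (F₀ : Subfield F) (r : ℕ) (P : Matrix.GeneralLinearGroup (Fin 10) F) (ζ : F), r.Prime ∧ Odd r ∧ Fintype.card F = Nat.card F₀ ^ r ∧ ζ ≠ 0 ∧ Cfsg.Geo.IsQuadFormRationalStructure (fun v : Fin 10 → F => ζ * Q v) F₀ P ∧ H = Cfsg.Geo.subfieldSubgroup F₀ P ⊓ Cfsg.Geo.omegaGL Q) ∨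
    Cfsg.Geo.InOrthogonalResidualClass H := by
  classical
  let q : QuadraticForm F (Fin 10 → F) := qf hQ
  have hcard : Fintype.card (Fin 10) = 10 := Fintype.card_fin 10
  have hnd : Nd q := nd_qf hQ
  have hgen : GenHyp q := Or.inr (Or.inl (by rw [finrank_fun]; omega))
  have hHi : H ≤ isometryGroup F Q := hH.1.le.trans AschO.omega_le
  have hmi : ¬ IsPlusTypeOn ⇑q ⊤ := hminus
  rcases omax (Q := q) hQ (by omega) (by omega) hH with ⟨W, h0, hs, heq⟩ | ⟨W, h0, h1, hs, heq⟩ | ⟨v, h2', hv, heq⟩ | ⟨t, k, D, ht, htk, hD, heq⟩ |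
    ⟨k, D, htk, hD, hs, heq⟩ | ⟨r, K, hr, hrn, hne, hK, hsa, heq⟩ | ⟨K, hrn, hK, hac, hns, hsim, heq⟩ |
    ⟨d, e, ρ, P, f₁, f₂, ho, hd, hde, hf₁, hf₂, hst, heq⟩ | ⟨d, e, ρ, P, f₁, f₂, hd, hde, hf₁, hf₂, hst, hpure, heq⟩ |
    ⟨F₀, r, P, ζ, hr, hc, hζ, hrs, heq⟩ | ⟨R, k, ho, hR, habs, hcomm, hk⟩ | ⟨k, e, P, f₁, ho, hk, hne, hc, hf₁, hst, heq⟩ |
    ⟨k, t, hk, ht, hc, hev, hplus⟩ | h
  · exact Or.inl ⟨W, h0, hs, heq⟩
  · obtain ⟨W, h0, h1, hs, heq, hpos, hle⟩ := nd_wlog hnd (by omega) hH h0 h1 hs heq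
    rcases Nat.even_or_odd (finrank F W) with hev | hod
    · obtain hd | hd : finrank F W = 2 ∨ finrank F W = 4 := by
        obtain ⟨c, hc⟩ := hev
        omega
      · by_cases hpl : IsPlusTypeOn Q W
        · exact Or.inr (Or.inr (Or.inr (Or.inl ⟨plane_cases hnd (by omega) hH hs hd heq hpl, W, hd, hs, hpl, heq⟩)))
        · exact Or.inr (Or.inr (Or.inl ⟨W, hd, hs, hpl, heq⟩))
      · exact Or.inr (Or.inr (Or.inr (Or.inr (Or.inl ⟨W, hd, hs, heq⟩))))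
    · have hodd := odd_of_nd_odd (Q := q) hs hod
      by_cases hd : finrank F W = 5
      · obtain ⟨hdec, heq'⟩ := dec_of_iso hnd (by omega) hH (m := 5) (by omega) hd hs heq
        have hiff := half_iso_iff hnd (AschSp.two_ne_of_odd hodd) (m := 5) (by omega) (nds_of_nondeg hs) hd
        rw [disc_minus_five hnd hodd (by omega) hmi] at hiff
        rcases mod_four_of_odd hodd with h4 | h4
        · exact Or.inr (Or.inr (Or.inr (Or.inr (Or.inr (Or.inr (Or.inr (Or.inr (Or.inr (Or.inl ⟨h4, _, hdec, fun h => by have := hiff.1 h; omega, heq'⟩)))))))))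
        · exact Or.inr (Or.inr (Or.inr (Or.inr (Or.inr (Or.inr (Or.inr (Or.inr (Or.inl ⟨h4, _, ⟨hdec, iso_pair (hiff.2 h4)⟩, heq'⟩))))))))
      · exact Or.inr (Or.inl ⟨hodd, W, h0, h1, hod, by omega, hs, heq⟩)
  · exact Or.inr (Or.inr (Or.inr (Or.inr (Or.inr (Or.inl ⟨not_odd_of_two h2', v, hv, heq⟩)))))
  · obtain ⟨rfl, rfl⟩ | ⟨rfl, rfl⟩ | ⟨rfl, rfl⟩ : (t = 2 ∧ k = 5) ∨ (t = 5 ∧ k = 2) ∨ (t = 10 ∧ k = 1) := by
      have hdvd : t ∣ 10 := Dvd.intro _ (by rw [htk, hcard])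
      have hle := Nat.le_of_dvd (by norm_num) hdvd
      rw [hcard] at htk
      interval_cases t <;> omega
    · have hodd : Odd (Fintype.card F) := odd_of_nd_odd (Q := q) (hD.decomp.nondegenerate 0) (by rw [hD.decomp.decomp.finrank_eq]; decide)
      exact Or.inr (Or.inr (Or.inr (Or.inr (Or.inr (Or.inr (Or.inr (Or.inr (Or.inl ⟨(disc_minus_five hnd hodd (by omega) hmi).1 (disc_dec hnd hD (by decide)), D, hD, heq⟩))))))))
    · exact Or.inr (Or.inr (Or.inr (Or.inr (Or.inr (Or.inr (Or.inr (Or.inl ⟨planes_ne_three hnd (by omega) hH (by omega) hD heq, D, hD, heq⟩)))))))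
    · rcases frame_case (Q := q) hQ (by omega) hH htk hD heq with hp | ⟨F₀, r, P, ζ, hr, hc, hζ, hrs, heq⟩
      · have hodd : Odd (Fintype.card F) := by
          rcases odd_or_two (F := F) with h | h
          · exact h
          · exact absurd h (two_ne_of_dec_one (Q := q) hD)
        exact Or.inr (Or.inr (Or.inr (Or.inr (Or.inr (Or.inr (Or.inl ⟨⟨_, hp, rfl, (disc_minus_five hnd hodd (by omega) hmi).1 (disc_dec hnd hD (by decide))⟩, D, hD, heq⟩))))))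
      · rcases hr.eq_two_or_odd' with rfl | hodd
        · exact absurd (rat_plus hnd (by rw [hcard]; decide) hc hζ hrs) hminus
        · exact Or.inr (Or.inr (Or.inr (Or.inr (Or.inr (Or.inr (Or.inr (Or.inr (Or.inr (Or.inr (Or.inr (Or.inr (Or.inl ⟨F₀, r, P, ζ, hr, hodd, hc, hζ, hrs, heq⟩))))))))))))
  · exact absurd (sing_plus htk hD hs) hminus
  · rcases sa_ten hnd hgen (by omega) hr hrn hK hsa hH heq with ⟨ho, rfl⟩ | ⟨W, hW0, hWd, hWs, heq⟩ | ⟨K, hK, hac, hns, hsim, heq⟩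
    · exact Or.inr (Or.inr (Or.inr (Or.inr (Or.inr (Or.inr (Or.inr (Or.inr (Or.inr (Or.inr (Or.inl ⟨ho, K, hK, hsa, heq⟩))))))))))
    · exact absurd (show IsPlusTypeOn ⇑q ⊤ from ⟨W, le_top, hWs, by rw [hWd, finrank_top, finrank_fun, hcard]⟩) hminus
    · exact Or.inr (Or.inr (Or.inr (Or.inr (Or.inr (Or.inr (Or.inr (Or.inr (Or.inr (Or.inr (Or.inr (Or.inl ⟨K, hK, hac, hns, hsim, heq⟩)))))))))))
  · exact Or.inr (Or.inr (Or.inr (Or.inr (Or.inr (Or.inr (Or.inr (Or.inr (Or.inr (Or.inr (Or.inr (Or.inl ⟨K, hK, hac, hns, hsim, heq⟩)))))))))))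
  · exfalso
    have h3 := Fintype.card_congr ρ
    rw [Fintype.card_prod, Fintype.card_fin, Fintype.card_fin, Fintype.card_fin] at h3
    have : d < 4 := by
      by_contra hcon
      have : 4 * 4 ≤ d * e := Nat.mul_le_mul (by omega) (by omega)
      omega
    have hd3 : d = 3 := by omega
    subst hd3
    omega
  · exfalso
    have h3 := Fintype.card_congr ρ
    rw [Fintype.card_prod, Fintype.card_fin, Fintype.card_fin, Fintype.card_fin] at h3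
    obtain ⟨c, hc⟩ := AschO.even_of_symp hf₁
    obtain ⟨c', hc'⟩ := AschO.even_of_symp hf₂
    rw [hc, hc'] at h3
    have h4 : (c + c) * (c' + c') = 4 * (c * c') := by ring
    omega
  · rcases hr.eq_two_or_odd' with rfl | hodd
    · exact absurd (rat_plus hnd (by rw [hcard]; decide) hc hζ hrs) hminus
    · exact Or.inr (Or.inr (Or.inr (Or.inr (Or.inr (Or.inr (Or.inr (Or.inr (Or.inr (Or.inr (Or.inr (Or.inr (Or.inl ⟨F₀, r, P, ζ, hr, hodd, hc, hζ, hrs, heq⟩))))))))))))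
  · exfalso
    rw [hcard] at hk
    have h1 : 5 ∣ 2 ^ k := by rw [← hk]; decide
    have := (Nat.prime_dvd_prime_iff_eq Nat.prime_five Nat.prime_two).1 (Nat.prime_five.dvd_of_dvd_pow h1)
    omega
  · exfalso
    rw [hcard] at hc
    have h1 : k < 4 := by
      by_contra hcon
      have : 4 ^ 2 ≤ k ^ 2 := Nat.pow_le_pow_left (by omega) 2
      omega
    have h2 : k = 3 := by omega
    subst h2
    omega
  · exfalso
    rw [hcard] at hc
    have h1 : k < 4 := by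
      by_contra hcon
      have : 4 ^ 2 ≤ k ^ t := (Nat.pow_le_pow_left (by omega) 2).trans (Nat.pow_le_pow_right (by omega) ht)
      omega
    have h2 : k = 2 := by
      obtain ⟨c, hc⟩ := hev
      omega
    subst h2
    have h1 : 5 ∣ 2 ^ t := by rw [← hc]; decide
    have := (Nat.prime_dvd_prime_iff_eq Nat.prime_five Nat.prime_two).1 (Nat.prime_five.dvd_of_dvd_pow h1)
    omega
  · exact Or.inr (Or.inr (Or.inr (Or.inr (Or.inr (Or.inr (Or.inr (Or.inr (Or.inr (Or.inr (Or.inr (Or.inr (Or.inr (h)))))))))))))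

end Cfsg.Agent.Lib.ONot
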