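import Cfsg.Agent.Lib.ONot1
import Cfsg.Agent.Lib.OrthNdBridge

/-!
Maximal subgroups of `Ω`: the list of cases with equalities.
-/

set_option autoImplicit false
set_option linter.style.haveILetI false
set_option linter.unusedVariables false
set_option linter.unusedSectionVars false

namespace Cfsg.Agent.Lib.ONot

open Cfsg Cfsg.Geo Module QuadraticMap Cfsg.Agent.Lib.Quad Cfsg.Agent.Lib.OrthMax Cfsg.Agent.Lib.OrthNd
  Cfsg.Agent.Lib.OrthNot Cfsg.Agent.Lib.OrthBridge Cfsg.Agent.Lib.OrthNdBridge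
open Cfsg.Agent.Lib.GeoBridge (le)
open Cfsg.Agent.Lib.AschCore Cfsg.Agent.Lib.AschField Cfsg.Agent.Lib.AschAlg Cfsg.Agent.Lib.AschGroup Cfsg.Agent.Lib.AschMU Cfsg.Agent.Lib.AschGood Cfsg.Agent.Lib.AschNonab
open Cfsg.Agent.Lib.SLNot (eq_inf_of_maximal ne_top_of_card)
open Cfsg.Agent.Lib.AschO (OCase ocase)
open scoped Matrix MatrixGroups Kronecker

variable {ι : Type} [Fintype ι] [DecidableEq ι] {F : Type*} [Field F] [Fintype F] {Q : QuadraticForm F (ι → F)}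

/-- The list of cases for a maximal subgroup of `Ω`. -/
inductive OMax {ι : Type} [Fintype ι] [DecidableEq ι] {F : Type*} [Field F] [Fintype F] (Q : QuadraticForm F (ι → F))
    (H : Subgroup (GL ι F)) : Prop
  | ts (W : Submodule F (ι → F)) (h0 : W ≠ ⊥) (hs : IsTotallySingularQuad ⇑Q W) (heq : H = subspaceStabilizer W ⊓ omegaGL ⇑Q)
  | nd (W : Submodule F (ι → F)) (h0 : W ≠ ⊥) (h1 : W ≠ ⊤) (hs : IsNondegenerateOn (QuadraticMap.polar ⇑Q) W)
      (heq : H = subspaceStabilizer W ⊓ omegaGL ⇑Q)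
  | ns (v : ι → F) (h2 : (2 : F) = 0) (hv : Q v ≠ 0) (heq : H = subspaceStabilizer (Submodule.span F {v}) ⊓ omegaGL ⇑Q)
  | dec (t k : ℕ) (D : Fin t → Submodule F (ι → F)) (ht : 2 ≤ t) (htk : t * k = Fintype.card ι)
      (hD : IsOrthogonalMDecomposition ⇑Q k D) (heq : H = decompositionStabilizer D ⊓ omegaGL ⇑Q)
  | sing (k : ℕ) (D : Fin 2 → Submodule F (ι → F)) (htk : 2 * k = Fintype.card ι) (hD : IsMDecomposition k D)
      (hs : ∀ i, IsTotallySingularQuad ⇑Q (D i)) (heq : H = decompositionStabilizer D ⊓ omegaGL ⇑Q)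
  | sa (r : ℕ) (K : Subalgebra F (Matrix ι ι F)) (hr : r.Prime) (hrn : r ∣ Fintype.card ι) (hne : r = 2 ∨ r ≠ Fintype.card ι)
      (hK : IsFieldSubalgebra r K) (hsa : IsSelfAdjointFor (QuadraticMap.polar ⇑Q) K) (heq : H = subalgebraNormalizer K ⊓ omegaGL ⇑Q)
  | her (K : Subalgebra F (Matrix ι ι F)) (hrn : 2 ∣ Fintype.card ι) (hK : IsFieldSubalgebra 2 K)
      (hac : IsAdjointClosedFor (QuadraticMap.polar ⇑Q) K) (hns : ¬ IsSelfAdjointFor (QuadraticMap.polar ⇑Q) K)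
      (hsim : ∀ k ∈ K, ∃ c : F, ∀ v : ι → F, Q (k *ᵥ v) = c * Q v) (heq : H = subalgebraNormalizer K ⊓ omegaGL ⇑Q)
  | tsym (d e : ℕ) (ρ : ι ≃ Fin d × Fin e) (P : GL ι F) (f₁ : (Fin d → F) → (Fin d → F) → F) (f₂ : (Fin e → F) → (Fin e → F) → F)
      (hodd : Odd (Fintype.card F)) (hd : 3 ≤ d) (hde : d ≤ e) (hf₁ : IsSymmetricForm f₁) (hf₂ : IsSymmetricForm f₂)
      (hst : IsTensorFormStructure id (QuadraticMap.polar ⇑Q) f₁ f₂ ρ P) (heq : H = tensorProductSubgroup d e ρ P ⊓ omegaGL ⇑Q)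
  | talt (d e : ℕ) (ρ : ι ≃ Fin d × Fin e) (P : GL ι F) (f₁ : (Fin d → F) → (Fin d → F) → F) (f₂ : (Fin e → F) → (Fin e → F) → F)
      (hd : 2 ≤ d) (hde : d ≤ e) (hf₁ : IsSymplecticForm f₁) (hf₂ : IsSymplecticForm f₂)
      (hst : IsTensorFormStructure id (QuadraticMap.polar ⇑Q) f₁ f₂ ρ P)
      (hpure : ∀ (x₁ : Fin d → F) (x₂ : Fin e → F), Q ((P : Matrix ι ι F) *ᵥ ((fun a : Fin d × Fin e => x₁ a.1 * x₂ a.2) ∘ ρ)) = 0)
      (heq : H = tensorProductSubgroup d e ρ P ⊓ omegaGL ⇑Q)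
  | rat (F₀ : Subfield F) (r : ℕ) (P : GL ι F) (ζ : F) (hr : r.Prime) (hc : Fintype.card F = Nat.card F₀ ^ r) (hζ : ζ ≠ 0)
      (hrs : IsQuadFormRationalStructure (fun v : ι → F => ζ * Q v) F₀ P) (heq : H = subfieldSubgroup F₀ P ⊓ omegaGL ⇑Q)
  | symp (R : Subgroup (GL ι F)) (k : ℕ) (hodd : Odd (Fintype.card F)) (hR : R ≤ isometryGroup F ⇑Q)
      (habs : ActsAbsolutelyIrreducibly (matrixSet R)) (hcomm : ∀ x ∈ R, ∀ y ∈ R, x * y * x⁻¹ * y⁻¹ ∈ scalars ι F)
      (hk : Fintype.card ι = 2 ^ k)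
  | psym (k : ℕ) (e : ι ≃ (Fin 2 → Fin k)) (P : GL ι F) (f₁ : (Fin k → F) → (Fin k → F) → F) (hodd : Odd (Fintype.card F))
      (hk : 3 ≤ k) (hne : ¬ (Fintype.card F = 3 ∧ k = 3)) (hcard : Fintype.card ι = k ^ 2) (hf₁ : IsSymmetricForm f₁)
      (hst : IsTensorPowerFormStructure id (QuadraticMap.polar ⇑Q) f₁ e P) (heq : H = tensorWreathSubgroup k 2 e P ⊓ omegaGL ⇑Q)
  | palt (k t : ℕ) (hk : 2 ≤ k) (ht : 2 ≤ t) (hcard : Fintype.card ι = k ^ t) (hev : Even k) (hplus : k = 2 → IsPlusTypeOn ⇑Q ⊤)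
  | res (h : InOrthogonalResidualClass H)

lemma two_ne_of_dec_one {Q : QuadraticForm F (ι → F)} {t : ℕ} {D : Fin t → Submodule F (ι → F)} (hD : IsOrthogonalMDecomposition ⇑Q 1 D) :
    (2 : F) ≠ 0 := by
  intro h2
  have ht := hD.decomp.decomp.two_le
  let i₀ : Fin t := ⟨0, by omega⟩
  have h1 := hD.decomp.decomp.finrank_eq i₀
  obtain ⟨v, hv0, hv⟩ := finrank_eq_one_iff'.1 h1
  obtain ⟨-, x, hx, hvx⟩ := hD.decomp.nondegenerate i₀ v v.2 (fun h => hv0 (Subtype.ext h))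
  obtain ⟨c, hc⟩ := hv ⟨x, hx⟩
  apply hvx
  have : x = c • (v : ι → F) := (congrArg Subtype.val hc).symm
  rw [this, polar_smul_right, polar_self', h2, zero_mul, smul_zero]

/-- **The maximal subgroups of `Ω`** (dimension between 7 and 26). -/
theorem omax (hQ : IsNondegenerateQuadraticForm ⇑Q) (h7 : 7 ≤ Fintype.card ι) (h27 : Fintype.card ι < 27) {H : Subgroup (GL ι F)}
    (hH : IsMaximalIn (omegaGL ⇑Q) H) : OMax Q H := by
  have hnd : Nd Q := nd_qf hQ
  have hfr : finrank F (ι → F) = Fintype.card ι := Module.finrank_fintype_fun_eq_card F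
  have hgen : GenHyp Q := Or.inr (Or.inl (by omega))
  have h5 : 5 ≤ Fintype.card ι := by omega
  have hHi : H ≤ isometryGroup F ⇑Q := hH.1.le.trans AschO.omega_le
  rcases ocase hQ (by omega) hHi with ⟨W, h0, hs, hle⟩ | ⟨W, h0, h1, hs, hle⟩ | ⟨v, h2', hv, hle⟩ | ⟨t, k, D, ht, htk, hD, hle⟩ |
    ⟨k, D, htk, hD, hs, hle⟩ | ⟨r, K, hr, hrn, hne, hK, hsa, hle⟩ | ⟨K, hrn, hK, hac, hns, hsim, hle⟩ |
    ⟨d, e, ρ, P, f₁, f₂, ho, hd, hde, hf₁, hf₂, hst, hle⟩ | ⟨d, e, ρ, P, f₁, f₂, hd, hde, hf₁, hf₂, hst, hpure, hle⟩ |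
    ⟨F₀, r, P, ζ, hr, hc, hζ, hrs, hle⟩ | ⟨R, k, ho, hR, habs, hcomm, hk⟩ | ⟨k, t, e, P, f₁, ho, hk, ht, hne, hc, hf₁, hst, hle⟩ |
    ⟨k, t, hk, ht, hc, hev, hplus⟩ | h
  · refine .ts W h0 hs (eq_inf_of_maximal hH hle (not_le_subspace hnd hgen h5 h0 ?_))
    rintro rfl
    obtain ⟨x, hx⟩ := Submodule.exists_mem_ne_zero_of_ne_bot h0
    obtain ⟨y, hy⟩ := hnd.exists_polar_one' hx.2
    have h3 : ∀ v, Q v = 0 := fun v => hs v trivial
    rw [polar, h3, h3, h3] at hy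
    simp at hy
  · exact .nd W h0 h1 hs (eq_inf_of_maximal hH hle (not_le_subspace hnd hgen h5 h0 h1))
  · refine .ns v h2' hv (eq_inf_of_maximal hH hle (not_le_subspace hnd hgen h5 ?_ ?_))
    · rw [Ne, Submodule.span_singleton_eq_bot]
      rintro rfl
      exact hv (map_zero Q)
    · intro htop
      have h1 := finrank_span_singleton (K := F) (v := v) (by rintro rfl; exact hv (map_zero Q))
      rw [htop, finrank_top] at h1
      omega
  · refine .dec t k D ht htk hD (eq_inf_of_maximal hH hle ?_)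
    by_cases h2 : (2 : F) = 0
    · have hkne : k ≠ 1 := by
        rintro rfl
        exact two_ne_of_dec_one hD h2
      have hk0 := hD.decomp.decomp.pos
      by_cases hk2 : k = 2
      · subst hk2
        exact not_le_dec_two hnd hgen h2 h5 (by omega) hD
      · exact not_le_dec hnd hgen h5 hD.decomp.decomp (Or.inr (by omega))
    · exact not_le_dec hnd hgen h5 hD.decomp.decomp (Or.inl h2)
  · exact .sing k D htk hD hs (eq_inf_of_maximal hH hle (not_le_dec hnd hgen h5 hD (Or.inr (by omega))))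
  · exact .sa r K hr hrn hne hK hsa (eq_inf_of_maximal hH hle (not_le_field hnd hgen h5 hr.two_le hK))
  · exact .her K hrn hK hac hns hsim (eq_inf_of_maximal hH hle (not_le_field hnd hgen h5 le_rfl hK))
  · exact .tsym d e ρ P f₁ f₂ ho hd hde hf₁ hf₂ hst (eq_inf_of_maximal hH hle (not_le_tensor hnd hgen h5 (by omega) (by omega) ρ P))
  · have hde' := Fintype.card_congr ρ
    rw [Fintype.card_prod, Fintype.card_fin, Fintype.card_fin] at hde'
    have he : 3 ≤ e := by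
      by_contra hcon
      have h1 : d * e ≤ 2 * 2 := Nat.mul_le_mul (by omega) (by omega)
      omega
    exact .talt d e ρ P f₁ f₂ hd hde hf₁ hf₂ hst hpure (eq_inf_of_maximal hH hle (not_le_tensor hnd hgen h5 hd he ρ P))
  · exact .rat F₀ r P ζ hr hc hζ hrs (eq_inf_of_maximal hH hle (not_le_subfield hnd hgen h5 (ne_top_of_card hr hc) P))
  · exact .symp R k ho hR habs hcomm hk
  · have ht2 : t = 2 := by
      by_contra hcon
      have h1 : 3 ^ 3 ≤ k ^ t := (Nat.pow_le_pow_left hk 3).trans (Nat.pow_le_pow_right (by omega) (by omega))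
      omega
    subst ht2
    exact .psym k e P f₁ ho hk hne hc hf₁ hst
      (eq_inf_of_maximal hH hle (not_le_wreath hnd hgen (AschSp.two_ne_of_odd ho) h5 hk e P))
  · exact .palt k t hk ht hc hev hplus
  · exact .res h


/-! ### Refinements -/

lemma mem_om {g : GL ι F} (hg : g ∈ omegaGL ⇑Q) : le g ∈ O Q := Om_le ((mem_omegaGL_iff g).1 hg)

lemma finrank_fun : finrank F (ι → F) = Fintype.card ι := Module.finrank_fintype_fun_eq_card F

lemma ne_top_perp {W : Submodule F (ι → F)} (hQ : Nd Q) (h0 : W ≠ ⊥) : perp Q W ≠ ⊤ := by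
  intro h
  apply h0
  rw [← hQ.perp_perp W, h, eq_bot_iff]
  intro x hx
  rw [Submodule.mem_bot]
  exact hQ.eq_zero fun y => by rw [polar_comm]; exact mem_perp.1 hx y trivial

lemma ne_bot_perp {W : Submodule F (ι → F)} (hQ : Nd Q) (h1 : W ≠ ⊤) : perp Q W ≠ ⊥ := by
  intro h
  apply h1
  rw [← hQ.perp_perp W, h, eq_top_iff]
  intro x _
  rw [mem_perp]
  intro w hw
  rw [(Submodule.mem_bot F).1 hw, polar_zero_left]

/-- Passing to the orthogonal complement. -/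
lemma perp_case (hnd : Nd Q) (h7 : 7 ≤ Fintype.card ι) {H : Subgroup (GL ι F)} (hH : IsMaximalIn (omegaGL ⇑Q) H)
    {W : Submodule F (ι → F)} (h0 : W ≠ ⊥) (h1 : W ≠ ⊤) (hs : IsNondegenerateOn (QuadraticMap.polar ⇑Q) W)
    (heq : H = subspaceStabilizer W ⊓ omegaGL ⇑Q) :
    perp Q W ≠ ⊥ ∧ perp Q W ≠ ⊤ ∧ IsNondegenerateOn (QuadraticMap.polar ⇑Q) (perp Q W) ∧
      H = subspaceStabilizer (perp Q W) ⊓ omegaGL ⇑Q := by
  have hgen : GenHyp Q := Or.inr (Or.inl (by rw [finrank_fun]; omega))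
  refine ⟨ne_bot_perp hnd h1, ne_top_perp hnd h0, nondeg_of_nds (nds_perp hnd (nds_of_nondeg hs)) hnd, ?_⟩
  refine eq_inf_of_maximal hH ?_ (not_le_subspace hnd hgen (by omega) (ne_bot_perp hnd h1) (ne_top_perp hnd h0))
  intro g hg
  have hg' := hg
  rw [heq] at hg'
  rw [Cfsg.Agent.Lib.GeoBridge.mem_subspaceStabilizer_iff']
  exact stab_perp (mem_om hg'.2) ((Cfsg.Agent.Lib.GeoBridge.mem_subspaceStabilizer_iff' W g).1 hg'.1)

/-- Hyperbolic planes over small fields do not give maximal subgroups. -/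
lemma plus_plane_false (hnd : Nd Q) (h7 : 7 ≤ Fintype.card ι) {H : Subgroup (GL ι F)} (hH : IsMaximalIn (omegaGL ⇑Q) H)
    {W : Submodule F (ι → F)} (hs : IsNondegenerateOn (QuadraticMap.polar ⇑Q) W) (h2 : finrank F W = 2)
    (heq : H = subspaceStabilizer W ⊓ omegaGL ⇑Q) (hq : Fintype.card F ≤ 3) (hpl : IsPlusTypeOn ⇑Q W) : False := by
  have hgen : GenHyp Q := Or.inr (Or.inl (by rw [finrank_fun]; omega))
  obtain ⟨U, hUW, hU, hUd⟩ := hpl
  have hU0 : U ≠ ⊥ := by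
    rintro rfl
    rw [finrank_bot, h2] at hUd
    omega
  obtain ⟨e, he, he0⟩ := Submodule.exists_mem_ne_zero_of_ne_bot hU0
  obtain ⟨v, hv0, hv, g, hg, hgv, w, hw, hgw⟩ := plus_plane hnd hgen (by rw [finrank_fun]; omega) (pm_of_card hq) (nds_of_nondeg hs) h2
    (hUW he) he0 (hU e he)
  have hmem : ∀ x : GL ι F, x ∈ subspaceStabilizer (Submodule.span F {v}) ↔ le x v ∈ Submodule.span F {v} := by
    intro x
    rw [Cfsg.Agent.Lib.GeoBridge.mem_subspaceStabilizer_iff']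
    constructor
    · intro h; exact h v (Submodule.mem_span_singleton_self v)
    · rintro h u hu
      obtain ⟨c, rfl⟩ := Submodule.mem_span_singleton.1 hu
      rw [map_smul]; exact Submodule.smul_mem _ _ h
  have h3 : H = subspaceStabilizer (Submodule.span F {v}) ⊓ omegaGL ⇑Q := by
    refine eq_inf_of_maximal hH ?_ (not_le_subspace hnd hgen (by omega) ?_ ?_)
    · intro x hx
      rw [heq] at hx
      rw [hmem]
      exact hv _ (mem_om hx.2) ((Cfsg.Agent.Lib.GeoBridge.mem_subspaceStabilizer_iff' W x).1 hx.1)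
    · rw [Ne, Submodule.span_singleton_eq_bot]; exact hv0
    · intro htop
      have h1 := finrank_span_singleton (K := F) hv0
      rw [htop, finrank_top, finrank_fun] at h1
      omega
  have h4 : le.symm g ∈ H := by
    rw [h3]
    refine ⟨(hmem _).2 ?_, (mem_omegaGL_iff _).2 ?_⟩
    · rw [MulEquiv.apply_symm_apply, hgv]
      exact Submodule.mem_span_singleton_self v
    · rw [MulEquiv.apply_symm_apply]; exact hg
  rw [heq] at h4
  have h5 := (Cfsg.Agent.Lib.GeoBridge.mem_subspaceStabilizer_iff' W _).1 h4.1 w hw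
  rw [MulEquiv.apply_symm_apply] at h5
  exact hgw h5

/-- A frame over a field of prime order, or a subfield group. -/
lemma frame_case (hQ : IsNondegenerateQuadraticForm ⇑Q) (h7 : 7 ≤ Fintype.card ι) {H : Subgroup (GL ι F)} (hH : IsMaximalIn (omegaGL ⇑Q) H)
    {t : ℕ} {D : Fin t → Submodule F (ι → F)} (htk : t * 1 = Fintype.card ι)
    (hD : IsOrthogonalMDecomposition ⇑Q 1 D) (heq : H = decompositionStabilizer D ⊓ omegaGL ⇑Q) :
    (Fintype.card F).Prime ∨ ∃ (F₀ : Subfield F) (r : ℕ) (P : GL ι F) (ζ : F), r.Prime ∧ Fintype.card F = Nat.card F₀ ^ r ∧ ζ ≠ 0 ∧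
      IsQuadFormRationalStructure (fun v : ι → F => ζ * Q v) F₀ P ∧ H = subfieldSubgroup F₀ P ⊓ omegaGL ⇑Q := by
  have hnd : Nd Q := nd_qf hQ
  have hgen : GenHyp Q := Or.inr (Or.inl (by rw [finrank_fun]; omega))
  by_cases hp : (Fintype.card F).Prime
  · exact Or.inl hp
  · right
    obtain ⟨F₀, r, P, ζ, hr, hc, hζ, hrs, hle'⟩ := AschO.frame_rat hQ (two_ne_of_dec_one hD) (hH.1.le.trans AschO.omega_le) hp
      (by rw [← htk, mul_one]) (by omega) hD (by rw [heq]; exact inf_le_left)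
    exact ⟨F₀, r, P, ζ, hr, hc, hζ, hrs,
      eq_inf_of_maximal hH hle' (not_le_subfield hnd hgen (by omega) (ne_top_of_card hr hc) P)⟩

end Cfsg.Agent.Lib.ONot
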