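import Cfsg.Agent.Lib.ONot2

/-!
Maximal subgroups of `Ω`, odd dimension.
-/

set_option autoImplicit false
set_option linter.style.haveILetI false
set_option linter.unusedVariables false
set_option linter.unusedSectionVars false

namespace Cfsg.Agent.Lib.ONot

open Cfsg Cfsg.Geo Module QuadraticMap Cfsg.Agent.Lib.Quad Cfsg.Agent.Lib.OrthMax Cfsg.Agent.Lib.OrthNd
  Cfsg.Agent.Lib.OrthNot Cfsg.Agent.Lib.OrthBridge Cfsg.Agent.Lib.OrthNdBridge
open Cfsg.Agent.Lib.GeoBridge (le)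
open Cfsg.Agent.Lib.AschCore Cfsg.Agent.Lib.AschField Cfsg.Agent.Lib.AschAlg Cfsg.Agent.Lib.AschGroup Cfsg.Agent.Lib.AschMU Cfsg.Agent.Lib.AschGood Cfsg.Agent.Lib.AschNonab
open Cfsg.Agent.Lib.SLNot (eq_inf_of_maximal ne_top_of_card)
open Cfsg.Agent.Lib.AschO (OCase ocase)
open scoped Matrix MatrixGroups Kronecker

variable {F : Type*} [Field F] [Fintype F]

/-- The odd-dimensional list. -/
theorem odd_list (hodd : Odd (Fintype.card F)) {m : ℕ} (hm : 3 ≤ m) (hm' : m < 13) {H : Subgroup (GL (Unit ⊕ (Fin m ⊕ Fin m)) F)}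
    (hH : IsMaximalIn (omegaGL (quadFormOdd m F)) H) :
    (∃ W : Submodule F (Unit ⊕ (Fin m ⊕ Fin m) → F), W ≠ ⊥ ∧ IsTotallySingularQuad (quadFormOdd m F) W ∧
      H = subspaceStabilizer W ⊓ omegaGL (quadFormOdd m F)) ∨
    (∃ W : Submodule F (Unit ⊕ (Fin m ⊕ Fin m) → F), W ≠ ⊥ ∧ Even (finrank F W) ∧ IsNondegenerateOn (QuadraticMap.polar (quadFormOdd m F)) W ∧
      ¬ (Fintype.card F = 3 ∧ finrank F W = 2 ∧ IsPlusTypeOn (quadFormOdd m F) W) ∧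
      H = subspaceStabilizer W ⊓ omegaGL (quadFormOdd m F)) ∨
    ((Fintype.card F).Prime ∧ ∃ D : Fin (2 * m + 1) → Submodule F (Unit ⊕ (Fin m ⊕ Fin m) → F),
      IsOrthogonalMDecomposition (quadFormOdd m F) 1 D ∧ H = decompositionStabilizer D ⊓ omegaGL (quadFormOdd m F)) ∨
    (∃ (F₀ : Subfield F) (r : ℕ) (P : GL (Unit ⊕ (Fin m ⊕ Fin m)) F), r.Prime ∧ Fintype.card F = Nat.card F₀ ^ r ∧
      IsQuadFormRationalStructure (quadFormOdd m F) F₀ P ∧ H = subfieldSubgroup F₀ P ⊓ omegaGL (quadFormOdd m F)) ∨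
    InOrthogonalResidualClass H ∨
    (∃ (t k : ℕ) (D : Fin t → Submodule F (Unit ⊕ (Fin m ⊕ Fin m) → F)), 2 ≤ t ∧ 2 ≤ k ∧ t * k = 2 * m + 1 ∧
      IsOrthogonalMDecomposition (quadFormOdd m F) k D ∧ H = decompositionStabilizer D ⊓ omegaGL (quadFormOdd m F)) ∨
    (∃ (r : ℕ) (K : Subalgebra F (Matrix (Unit ⊕ (Fin m ⊕ Fin m)) (Unit ⊕ (Fin m ⊕ Fin m)) F)), r.Prime ∧ r ∣ 2 * m + 1 ∧ r ≠ 2 * m + 1 ∧
      IsFieldSubalgebra r K ∧ IsSelfAdjointFor (QuadraticMap.polar (quadFormOdd m F)) K ∧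
      H = subalgebraNormalizer K ⊓ omegaGL (quadFormOdd m F)) ∨
    (∃ (d e : ℕ) (ρ : (Unit ⊕ (Fin m ⊕ Fin m)) ≃ Fin d × Fin e) (P : GL (Unit ⊕ (Fin m ⊕ Fin m)) F)
      (f₁ : (Fin d → F) → (Fin d → F) → F) (f₂ : (Fin e → F) → (Fin e → F) → F), 3 ≤ d ∧ d ≤ e ∧ d * e = 2 * m + 1 ∧
      IsSymmetricForm f₁ ∧ IsSymmetricForm f₂ ∧ IsTensorFormStructure id (QuadraticMap.polar (quadFormOdd m F)) f₁ f₂ ρ P ∧
      H = tensorProductSubgroup d e ρ P ⊓ omegaGL (quadFormOdd m F)) ∨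
    (∃ (k : ℕ) (e : (Unit ⊕ (Fin m ⊕ Fin m)) ≃ (Fin 2 → Fin k)) (P : GL (Unit ⊕ (Fin m ⊕ Fin m)) F)
      (f₁ : (Fin k → F) → (Fin k → F) → F), 3 ≤ k ∧ k ^ 2 = 2 * m + 1 ∧ ¬ (Fintype.card F = 3 ∧ k = 3) ∧ IsSymmetricForm f₁ ∧
      IsTensorPowerFormStructure id (QuadraticMap.polar (quadFormOdd m F)) f₁ e P ∧
      H = tensorWreathSubgroup k 2 e P ⊓ omegaGL (quadFormOdd m F)) := by
  classical
  have h2 := AschSp.two_ne_of_odd hodd
  have hQ : IsNondegenerateQuadraticForm ⇑(quadOdd m F) := AschO.nd_odd (m := m) h2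
  have hcard : Fintype.card (Unit ⊕ (Fin m ⊕ Fin m)) = 2 * m + 1 := by
    rw [Fintype.card_sum, Fintype.card_sum, Fintype.card_fin, Fintype.card_unit]; ring
  have hnodd : Odd (Fintype.card (Unit ⊕ (Fin m ⊕ Fin m))) := ⟨m, hcard⟩
  have hnd : Nd (quadOdd m F) := nd_qf hQ
  have hgen : GenHyp (quadOdd m F) := Or.inr (Or.inl (by rw [finrank_fun]; omega))
  have hrat : ∀ (F₀ : Subfield F) (r : ℕ) (P : GL (Unit ⊕ (Fin m ⊕ Fin m)) F) (ζ : F), r.Prime → Fintype.card F = Nat.card F₀ ^ r → ζ ≠ 0 →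
      IsQuadFormRationalStructure (fun v => ζ * quadFormOdd m F v) F₀ P → H ≤ subfieldSubgroup F₀ P →
      ∃ (F₀ : Subfield F) (r : ℕ) (P : GL (Unit ⊕ (Fin m ⊕ Fin m)) F), r.Prime ∧ Fintype.card F = Nat.card F₀ ^ r ∧
        IsQuadFormRationalStructure (quadFormOdd m F) F₀ P ∧ H = subfieldSubgroup F₀ P ⊓ omegaGL (quadFormOdd m F) := by
    intro F₀ r P ζ hr hc hζ hrs hle
    obtain ⟨P', hP', hle'⟩ := AschO.rat_one hQ hnodd (AschO.det_odd_mem F₀) hζ hrs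
    exact ⟨F₀, r, P', hr, hc, hP', eq_inf_of_maximal hH (hle.trans hle') (not_le_subfield hnd hgen (by omega) (ne_top_of_card hr hc) P')⟩
  rcases omax (Q := quadOdd m F) hQ (by omega) (by omega) hH with ⟨W, h0, hs, heq⟩ | ⟨W, h0, h1, hs, heq⟩ | ⟨v, h2', hv, heq⟩ | ⟨t, k, D, ht, htk, hD, heq⟩ |
    ⟨k, D, htk, hD, hs, heq⟩ | ⟨r, K, hr, hrn, hne, hK, hsa, heq⟩ | ⟨K, hrn, hK, hac, hns, hsim, heq⟩ |
    ⟨d, e, ρ, P, f₁, f₂, ho, hd, hde, hf₁, hf₂, hst, heq⟩ | ⟨d, e, ρ, P, f₁, f₂, hd, hde, hf₁, hf₂, hst, hpure, heq⟩ |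
    ⟨F₀, r, P, ζ, hr, hc, hζ, hrs, heq⟩ | ⟨R, k, ho, hR, habs, hcomm, hk⟩ | ⟨k, e, P, f₁, ho, hk, hne, hc, hf₁, hst, heq⟩ |
    ⟨k, t, hk, ht, hc, hev, hplus⟩ | h
  · exact Or.inl ⟨W, h0, hs, heq⟩
  · right; left
    -- normalise to even dimension
    have key : ∀ W : Submodule F (Unit ⊕ (Fin m ⊕ Fin m) → F), W ≠ ⊥ → IsNondegenerateOn (QuadraticMap.polar ⇑(quadOdd m F)) W →
        Even (finrank F W) → H = subspaceStabilizer W ⊓ omegaGL ⇑(quadOdd m F) →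
        ∃ W : Submodule F (Unit ⊕ (Fin m ⊕ Fin m) → F), W ≠ ⊥ ∧ Even (finrank F W) ∧
          IsNondegenerateOn (QuadraticMap.polar (quadFormOdd m F)) W ∧
          ¬ (Fintype.card F = 3 ∧ finrank F W = 2 ∧ IsPlusTypeOn (quadFormOdd m F) W) ∧
          H = subspaceStabilizer W ⊓ omegaGL (quadFormOdd m F) := by
      intro W h0 hs hev heq
      refine ⟨W, h0, hev, hs, ?_, heq⟩
      rintro ⟨hq, hd, hpl⟩
      exact plus_plane_false hnd (by omega) hH hs hd heq (by omega) hpl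
    by_cases hev : Even (finrank F W)
    · exact key W h0 hs hev heq
    · obtain ⟨h0', h1', hs', heq'⟩ := perp_case hnd (by omega) hH h0 h1 hs heq
      refine key _ h0' hs' ?_ heq'
      have h3 := hnd.finrank_add_finrank_perp W
      rw [finrank_fun, hcard] at h3
      rw [Nat.not_even_iff_odd] at hev
      by_contra hcon
      rw [Nat.not_even_iff_odd] at hcon
      have := hev.add_odd hcon
      rw [h3] at this
      exact absurd this (by rw [Nat.not_even_iff_odd]; exact ⟨m, rfl⟩)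
  · exact absurd h2' h2
  · rcases Nat.lt_or_ge 1 k with hk | hk
    · exact Or.inr (Or.inr (Or.inr (Or.inr (Or.inr (Or.inl ⟨t, k, D, ht, hk, by rw [htk, hcard], hD, heq⟩)))))
    · have hk1 : k = 1 := le_antisymm hk hD.decomp.decomp.pos
      subst hk1
      rcases frame_case hQ (by omega) hH htk hD heq with hp | ⟨F₀, r, P, ζ, hr, hc, hζ, hrs, heq'⟩
      · have ht' : t = 2 * m + 1 := by rw [← hcard, ← htk, mul_one]
        subst ht'
        exact Or.inr (Or.inr (Or.inl ⟨hp, D, hD, heq⟩))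
      · exact Or.inr (Or.inr (Or.inr (Or.inl (hrat F₀ r P ζ hr hc hζ hrs (by rw [heq']; exact inf_le_left)))))
  · omega
  · rcases hne with rfl | hne
    · omega
    · exact Or.inr (Or.inr (Or.inr (Or.inr (Or.inr (Or.inr (Or.inl ⟨r, K, hr, by rw [← hcard]; exact hrn,
        by rw [← hcard]; exact hne, hK, hsa, heq⟩))))))
  · omega
  · have h3 := Fintype.card_congr ρ
    rw [Fintype.card_prod, Fintype.card_fin, Fintype.card_fin, hcard] at h3
    exact Or.inr (Or.inr (Or.inr (Or.inr (Or.inr (Or.inr (Or.inr (Or.inl ⟨d, e, ρ, P, f₁, f₂, hd, hde, h3.symm, hf₁, hf₂, hst, heq⟩)))))))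
  · exfalso
    have h3 := Fintype.card_congr ρ
    rw [Fintype.card_prod, Fintype.card_fin, Fintype.card_fin, hcard] at h3
    have h4 : Even (2 * m + 1) := by rw [h3]; exact (AschO.even_of_symp hf₁).mul_right e
    exact absurd h4 (by rw [Nat.not_even_iff_odd]; exact ⟨m, rfl⟩)
  · exact Or.inr (Or.inr (Or.inr (Or.inl (hrat F₀ r P ζ hr hc hζ hrs (by rw [heq]; exact inf_le_left)))))
  · exfalso
    rw [hcard] at hk
    rcases Nat.eq_zero_or_pos k with rfl | hk0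
    · omega
    · have h4 : Even (2 * m + 1) := by rw [hk]; exact (even_two).pow_of_ne_zero (by omega)
      exact absurd h4 (by rw [Nat.not_even_iff_odd]; exact ⟨m, rfl⟩)
  · exact Or.inr (Or.inr (Or.inr (Or.inr (Or.inr (Or.inr (Or.inr (Or.inr ⟨k, e, P, f₁, hk, by rw [← hc, hcard], hne, hf₁, hst, heq⟩)))))))
  · exfalso
    have h4 : Even (2 * m + 1) := by rw [← hcard, hc]; exact hev.pow_of_ne_zero (by omega)
    exact absurd h4 (by rw [Nat.not_even_iff_odd]; exact ⟨m, rfl⟩)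
  · exact Or.inr (Or.inr (Or.inr (Or.inr (Or.inl h))))

/-- Prime dimension. -/
theorem odd_list_prime (hodd : Odd (Fintype.card F)) {m : ℕ} (hm : 3 ≤ m) (hm' : m < 13) (hp : (2 * m + 1).Prime)
    {H : Subgroup (GL (Unit ⊕ (Fin m ⊕ Fin m)) F)} (hH : IsMaximalIn (omegaGL (quadFormOdd m F)) H) :
    (∃ W : Submodule F (Unit ⊕ (Fin m ⊕ Fin m) → F), W ≠ ⊥ ∧ IsTotallySingularQuad (quadFormOdd m F) W ∧
      H = subspaceStabilizer W ⊓ omegaGL (quadFormOdd m F)) ∨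
    (∃ W : Submodule F (Unit ⊕ (Fin m ⊕ Fin m) → F), W ≠ ⊥ ∧ Even (finrank F W) ∧ IsNondegenerateOn (QuadraticMap.polar (quadFormOdd m F)) W ∧
      ¬ (Fintype.card F = 3 ∧ finrank F W = 2 ∧ IsPlusTypeOn (quadFormOdd m F) W) ∧
      H = subspaceStabilizer W ⊓ omegaGL (quadFormOdd m F)) ∨
    ((Fintype.card F).Prime ∧ ∃ D : Fin (2 * m + 1) → Submodule F (Unit ⊕ (Fin m ⊕ Fin m) → F),
      IsOrthogonalMDecomposition (quadFormOdd m F) 1 D ∧ H = decompositionStabilizer D ⊓ omegaGL (quadFormOdd m F)) ∨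
    (∃ (F₀ : Subfield F) (r : ℕ) (P : GL (Unit ⊕ (Fin m ⊕ Fin m)) F), r.Prime ∧ Fintype.card F = Nat.card F₀ ^ r ∧
      IsQuadFormRationalStructure (quadFormOdd m F) F₀ P ∧ H = subfieldSubgroup F₀ P ⊓ omegaGL (quadFormOdd m F)) ∨
    InOrthogonalResidualClass H := by
  have hdiv : ∀ a b : ℕ, a * b = 2 * m + 1 → 2 ≤ a → 2 ≤ b → False := by
    intro a b hab ha hb
    rcases (Nat.dvd_prime hp).1 (Dvd.intro _ hab : a ∣ 2 * m + 1) with h | h
    · omega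
    · rw [h] at hab
      have : b = 1 := Nat.eq_of_mul_eq_mul_left (by omega : 0 < 2 * m + 1) (by rw [hab, mul_one])
      omega
  rcases odd_list hodd hm hm' hH with h | h | h | h | h | ⟨t, k, D, ht, hk, htk, -⟩ | ⟨r, K, hr, hrn, hne, -⟩ |
    ⟨d, e, ρ, P, f₁, f₂, hd, hde, hc, -⟩ | ⟨k, e, P, f₁, hk, hc, -⟩
  · exact Or.inl h
  · exact Or.inr (Or.inl h)
  · exact Or.inr (Or.inr (Or.inl h))
  · exact Or.inr (Or.inr (Or.inr (Or.inl h)))
  · exact Or.inr (Or.inr (Or.inr (Or.inr h)))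
  · exact (hdiv t k htk ht hk).elim
  · rcases (Nat.dvd_prime hp).1 hrn with h | h
    · exact absurd h hr.one_lt.ne'
    · exact absurd h hne
  · exact (hdiv d e hc (by omega) (by omega)).elim
  · exact (hdiv k k (by rw [← hc, _root_.sq]) (by omega) (by omega)).elim

end Cfsg.Agent.Lib.ONot
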