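import Cfsg.Agent.Lib.ONot3
import Cfsg.Agent.Lib.OrthFrameH94

/-!
Refining an orthogonal decomposition into three-spaces over `F₃` to a frame.
-/

set_option autoImplicit false
set_option linter.style.haveILetI false
set_option linter.unusedVariables false
set_option linter.unusedSectionVars false

namespace Cfsg.Agent.Lib.ONot

open Cfsg Cfsg.Geo Module QuadraticMap Cfsg.Agent.Lib.Quad Cfsg.Agent.Lib.OrthMax Cfsg.Agent.Lib.OrthNd
  Cfsg.Agent.Lib.OrthNot Cfsg.Agent.Lib.OrthBridge Cfsg.Agent.Lib.OrthNdBridge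
open Cfsg.Agent.Lib.GeoBridge (le)
open Cfsg.Agent.Lib.AschCore Cfsg.Agent.Lib.AschField Cfsg.Agent.Lib.AschAlg Cfsg.Agent.Lib.AschGroup Cfsg.Agent.Lib.AschMU Cfsg.Agent.Lib.AschGood Cfsg.Agent.Lib.AschNonab
open Cfsg.Agent.Lib.SLNot (eq_inf_of_maximal ne_top_of_card)
open scoped Matrix MatrixGroups Kronecker

variable {ι : Type} [Fintype ι] [DecidableEq ι] {F : Type*} [Field F] [Fintype F] {Q : QuadraticForm F (ι → F)}

/-- Refining a decomposition to a frame. -/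
theorem frame_refine (hQ : IsNondegenerateQuadraticForm ⇑Q) (h2 : (2 : F) ≠ 0) {t k : ℕ} {D : Fin t → Submodule F (ι → F)} (i₀ : Fin t)
    (hD : IsOrthogonalMDecomposition ⇑Q k D) {ε : F} (hε : ε ≠ 0) {E₀ : Fin k → ι → F} (hE₀ : ∀ j, E₀ j ∈ D i₀)
    (hg : ∀ i j, polar Q (E₀ i) (E₀ j) = if i = j then ε else 0)
    (hnorm : ∀ x ∈ D i₀, polar Q x x = ε → ∃ j, ∃ a : F, a ≠ 0 ∧ x = a • E₀ j)
    {H : Subgroup (GL ι F)} (hH : H ≤ isometryGroup F ⇑Q) (hle : H ≤ decompositionStabilizer D) :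
    ∃ D' : Fin (t * k) → Submodule F (ι → F), IsOrthogonalMDecomposition ⇑Q 1 D' ∧ H ≤ decompositionStabilizer D' := by
  classical
  have ht := hD.decomp.decomp.two_le
  have hk := hD.decomp.decomp.pos
  have htk : t * k = Fintype.card ι := by
    have := Cfsg.Agent.Lib.OrthFrameH94.card_decomp hD.decomp.decomp
    rw [finrank_fun] at this
    exact this.symm
  choose φ hφ using fun i => hD.isometric i₀ i
  have hφp : ∀ i (x y : D i₀), polar Q ((φ i x : D i) : ι → F) ((φ i y : D i) : ι → F) = polar Q (x : ι → F) (y : ι → F) := by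
    intro i x y
    unfold polar
    have h1 : ((φ i x : D i) : ι → F) + ((φ i y : D i) : ι → F) = ((φ i (x + y) : D i) : ι → F) := by rw [map_add]; rfl
    rw [h1, hφ, hφ, hφ]
    rfl
  let E : Fin t × Fin k → ι → F := fun p => ((φ p.1 ⟨E₀ p.2, hE₀ p.2⟩ : D p.1) : ι → F)
  have hED : ∀ p, E p ∈ D p.1 := fun p => (φ p.1 ⟨E₀ p.2, hE₀ p.2⟩).2
  have hEE : ∀ p p', polar Q (E p) (E p') = if p = p' then ε else 0 := by
    rintro ⟨i, j⟩ ⟨i', j'⟩
    by_cases hii : i = i'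
    · subst hii
      show polar Q ((φ i ⟨E₀ j, hE₀ j⟩ : D i) : ι → F) ((φ i ⟨E₀ j', hE₀ j'⟩ : D i) : ι → F) = _
      rw [hφp, hg]
      by_cases hjj : j = j'
      · rw [if_pos hjj, if_pos (by rw [hjj])]
      · rw [if_neg hjj, if_neg (by intro h; exact hjj (congrArg Prod.snd h))]
    · rw [if_neg (by intro h; exact hii (congrArg Prod.fst h))]
      exact hD.decomp.orthogonal i i' hii _ (hED (i, j)) _ (hED (i', j'))
  have hEn : ∀ i, ∀ x ∈ D i, polar Q x x = ε → ∃ j, ∃ a : F, a ≠ 0 ∧ x = a • E (i, j) := by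
    intro i x hx hxx
    obtain ⟨⟨y, hy⟩, hyx⟩ := (φ i).surjective ⟨x, hx⟩
    have h1 : polar Q y y = ε := by
      have := hφp i ⟨y, hy⟩ ⟨y, hy⟩
      rw [hyx] at this
      rw [← this]; exact hxx
    obtain ⟨j, a, ha, hya⟩ := hnorm y hy h1
    refine ⟨j, a, ha, ?_⟩
    have h2 : (⟨y, hy⟩ : D i₀) = a • ⟨E₀ j, hE₀ j⟩ := Subtype.ext hya
    rw [h2, map_smul] at hyx
    exact (congrArg Subtype.val hyx).symm
  have hE0 : ∀ p, E p ≠ 0 := by
    intro p h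
    have := hEE p p
    rw [h, polar_zero_left, if_pos rfl] at this
    exact hε this.symm
  have hQE : ∀ p, 2 * Q (E p) = ε := by
    intro p
    rw [← polar_self', hEE, if_pos rfl]
  let e : Fin t × Fin k ≃ Fin (t * k) := finProdFinEquiv
  let D' : Fin (t * k) → Submodule F (ι → F) := fun a => Submodule.span F {E (e.symm a)}
  have htk2 : 2 ≤ t * k := le_trans ht (Nat.le_mul_of_pos_right t hk)
  have hnd' : ∀ a, IsNondegenerateOn (QuadraticMap.polar ⇑Q) (D' a) := by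
    intro a w hw hw0
    obtain ⟨c, rfl⟩ := Submodule.mem_span_singleton.1 hw
    have hc : c ≠ 0 := by rintro rfl; exact hw0 (zero_smul _ _)
    have h3 : polar Q (c • E (e.symm a)) (E (e.symm a)) ≠ 0 := by
      rw [polar_smul_left, hEE, if_pos rfl]; exact mul_ne_zero hc hε
    exact ⟨⟨_, Submodule.mem_span_singleton_self _, by rw [polar_comm]; exact h3⟩, ⟨_, Submodule.mem_span_singleton_self _, h3⟩⟩
  have hor' : ∀ a b, a ≠ b → AreOrthogonalFor (QuadraticMap.polar ⇑Q) (D' a) (D' b) := by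
    intro a b hab u hu v hv
    obtain ⟨c, rfl⟩ := Submodule.mem_span_singleton.1 hu
    obtain ⟨c', rfl⟩ := Submodule.mem_span_singleton.1 hv
    rw [polar_smul_left, polar_smul_right, hEE, if_neg (fun h => hab (e.symm.injective h)), smul_zero, smul_zero]
  have hiso' : ∀ a b, AreIsometricFor ⇑Q (D' a) (D' b) := by
    intro a b
    let ψa := LinearEquiv.toSpanNonzeroSingleton F (ι → F) (E (e.symm a)) (hE0 _)
    let ψb := LinearEquiv.toSpanNonzeroSingleton F (ι → F) (E (e.symm b)) (hE0 _)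
    refine ⟨ψa.symm.trans ψb, fun w => ?_⟩
    obtain ⟨c, rfl⟩ := ψa.surjective w
    rw [LinearEquiv.trans_apply, LinearEquiv.symm_apply_apply]
    have e1 : ((ψa c : D' a) : ι → F) = c • E (e.symm a) := rfl
    have e2 : ((ψb c : D' b) : ι → F) = c • E (e.symm b) := rfl
    rw [e1, e2, Q_smul, Q_smul]
    apply mul_left_cancel₀ h2
    linear_combination c * c * hQE (e.symm b) - c * c * hQE (e.symm a)
  refine ⟨D', ⟨AschO.o_decomp hQ htk2 (by norm_num) (by rw [mul_one, htk]) (fun a => finrank_span_singleton (hE0 _)) hnd' hor', hiso'⟩, ?_⟩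
  intro g hgH
  obtain ⟨σ, hσ⟩ := hle hgH
  have hgO : le g ∈ O Q := mem_isometryGroup_iff_toLE.1 (hH hgH)
  have hgE : ∀ p, ∃ p', ∃ a : F, a ≠ 0 ∧ (g : Matrix ι ι F) *ᵥ (E p) = a • E p' := by
    intro p
    have h3 : (g : Matrix ι ι F) *ᵥ (E p) ∈ D (σ p.1) := by
      rw [← hσ]
      exact ⟨E p, hED p, Matrix.toLin'_apply _ _⟩
    obtain ⟨j, a, ha, h4⟩ := hEn _ _ h3 (by
      have h5 := O_polar hgO (E p) (E p)
      rw [hEE, if_pos rfl] at h5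
      exact h5)
    exact ⟨_, a, ha, h4⟩
  choose π a ha hπ using hgE
  have hπi : Function.Injective π := by
    intro p p' hpp
    by_contra hne
    have h5 : polar Q ((g : Matrix ι ι F) *ᵥ (E p)) ((g : Matrix ι ι F) *ᵥ (E p')) = polar Q (E p) (E p') := O_polar hgO (E p) (E p')
    rw [hEE, if_neg hne, hπ, hπ, polar_smul_left, polar_smul_right, hEE, if_pos hpp] at h5
    exact mul_ne_zero (ha p) (mul_ne_zero (ha p') hε) h5
  let π' : Equiv.Perm (Fin t × Fin k) := Equiv.ofBijective π (Finite.injective_iff_bijective.1 hπi)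
  refine ⟨(e.symm.trans π').trans e, fun b => ?_⟩
  show (Submodule.span F {E (e.symm b)}).map (Matrix.toLin' (g : Matrix ι ι F)) = Submodule.span F {E (e.symm (e (π (e.symm b))))}
  rw [Submodule.map_span, Set.image_singleton, Matrix.toLin'_apply, hπ, Equiv.symm_apply_apply]
  exact Submodule.span_singleton_smul_eq (IsUnit.mk0 _ (ha _)) _

/-- Over `F₃` a decomposition into three-spaces gives a frame. -/
theorem frame_of_three (hQ : IsNondegenerateQuadraticForm ⇑Q) (hq : Fintype.card F = 3) {t : ℕ} {D : Fin t → Submodule F (ι → F)}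
    (hD : IsOrthogonalMDecomposition ⇑Q 3 D) {H : Subgroup (GL ι F)} (hH : H ≤ isometryGroup F ⇑Q) (hle : H ≤ decompositionStabilizer D) :
    ∃ D' : Fin (t * 3) → Submodule F (ι → F), IsOrthogonalMDecomposition ⇑Q 1 D' ∧ H ≤ decompositionStabilizer D' := by
  have ht := hD.decomp.decomp.two_le
  have hSB : O33.SB (polar Q) := ⟨fun x y z => polar_add_left Q x y z, fun c x y => by rw [polar_smul_left, smul_eq_mul],
    fun x y => polar_comm Q x y⟩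
  have hfr := hD.decomp.decomp.finrank_eq ⟨0, by omega⟩
  obtain ⟨ε, hε, E, hEm, hE⟩ := O33.exists_frame hq hSB hfr (fun x hx hx0 => by
    obtain ⟨-, y, hy, hxy⟩ := hD.decomp.nondegenerate ⟨0, by omega⟩ x hx hx0
    exact ⟨y, hy, hxy⟩)
  exact frame_refine hQ (O33.two_ne_zero' hq) ⟨0, by omega⟩ hD hε hEm hE
    (fun x hx hxx => O33.eq_of_norm hq hSB hfr hε hEm hE hx hxx) hH hle


lemma card_ge_five (hodd : Odd (Fintype.card F)) (h3 : Fintype.card F ≠ 3) : 5 ≤ Fintype.card F := by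
  obtain ⟨k, hk⟩ := hodd
  have := Fintype.one_lt_card (α := F)
  omega

/-- The nine-dimensional list. -/
theorem nine_list (hodd : Odd (Fintype.card F)) {H : Subgroup (GL (Unit ⊕ (Fin 4 ⊕ Fin 4)) F)}
    (hH : IsMaximalIn (omegaGL (quadFormOdd 4 F)) H) :
    (∃ W : Submodule F (Unit ⊕ (Fin 4 ⊕ Fin 4) → F), W ≠ ⊥ ∧ Cfsg.Geo.IsTotallySingularQuad (Cfsg.quadFormOdd 4 F) W ∧ H = Cfsg.Geo.subspaceStabilizer W ⊓ Cfsg.Geo.omegaGL (Cfsg.quadFormOdd 4 F)) ∨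
    (∃ W : Submodule F (Unit ⊕ (Fin 4 ⊕ Fin 4) → F), W ≠ ⊥ ∧ Even (Module.finrank F W) ∧ Cfsg.Geo.IsNondegenerateOn (QuadraticMap.polar (Cfsg.quadFormOdd 4 F)) W ∧ ¬ (Fintype.card F = 3 ∧ Module.finrank F W = 2 ∧ Cfsg.Geo.IsPlusTypeOn (Cfsg.quadFormOdd 4 F) W) ∧ H = Cfsg.Geo.subspaceStabilizer W ⊓ Cfsg.Geo.omegaGL (Cfsg.quadFormOdd 4 F)) ∨
    ((Fintype.card F).Prime ∧ ∃ D : Fin 9 → Submodule F (Unit ⊕ (Fin 4 ⊕ Fin 4) → F), Cfsg.Geo.IsOrthogonalMDecomposition (Cfsg.quadFormOdd 4 F) 1 D ∧ H = Cfsg.Geo.decompositionStabilizer D ⊓ Cfsg.Geo.omegaGL (Cfsg.quadFormOdd 4 F)) ∨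
    (5 ≤ Fintype.card F ∧ ∃ D : Fin 3 → Submodule F (Unit ⊕ (Fin 4 ⊕ Fin 4) → F), Cfsg.Geo.IsOrthogonalMDecomposition (Cfsg.quadFormOdd 4 F) 3 D ∧ H = Cfsg.Geo.decompositionStabilizer D ⊓ Cfsg.Geo.omegaGL (Cfsg.quadFormOdd 4 F)) ∨
    (∃ K : Subalgebra F (Matrix (Unit ⊕ (Fin 4 ⊕ Fin 4)) (Unit ⊕ (Fin 4 ⊕ Fin 4)) F), Cfsg.Geo.IsFieldSubalgebra 3 K ∧ Cfsg.Geo.IsSelfAdjointFor (QuadraticMap.polar (Cfsg.quadFormOdd 4 F)) K ∧ H = Cfsg.Geo.subalgebraNormalizer K ⊓ Cfsg.Geo.omegaGL (Cfsg.quadFormOdd 4 F)) ∨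
    (∃ (F₀ : Subfield F) (r : ℕ) (P : Matrix.GeneralLinearGroup (Unit ⊕ (Fin 4 ⊕ Fin 4)) F), r.Prime ∧ Fintype.card F = Nat.card F₀ ^ r ∧ Cfsg.Geo.IsQuadFormRationalStructure (Cfsg.quadFormOdd 4 F) F₀ P ∧ H = Cfsg.Geo.subfieldSubgroup F₀ P ⊓ Cfsg.Geo.omegaGL (Cfsg.quadFormOdd 4 F)) ∨
    (5 ≤ Fintype.card F ∧ ∃ (e : (Unit ⊕ (Fin 4 ⊕ Fin 4)) ≃ (Fin 2 → Fin 3)) (P : Matrix.GeneralLinearGroup (Unit ⊕ (Fin 4 ⊕ Fin 4)) F) (f₁ : (Fin 3 → F) → (Fin 3 → F) → F), Cfsg.Geo.IsSymmetricForm f₁ ∧ Cfsg.Geo.IsTensorPowerFormStructure id (QuadraticMap.polar (Cfsg.quadFormOdd 4 F)) f₁ e P ∧ H = Cfsg.Geo.tensorWreathSubgroup 3 2 e P ⊓ Cfsg.Geo.omegaGL (Cfsg.quadFormOdd 4 F)) ∨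
    Cfsg.Geo.InOrthogonalResidualClass H := by
  classical
  have h2 := AschSp.two_ne_of_odd hodd
  have hQ : IsNondegenerateQuadraticForm ⇑(quadOdd 4 F) := AschO.nd_odd (m := 4) h2
  have hcard : Fintype.card (Unit ⊕ (Fin 4 ⊕ Fin 4)) = 9 := by
    rw [Fintype.card_sum, Fintype.card_sum, Fintype.card_fin, Fintype.card_unit]
  have hnd : Nd (quadOdd 4 F) := nd_qf hQ
  have hgen : GenHyp (quadOdd 4 F) := Or.inr (Or.inl (by rw [finrank_fun]; omega))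
  have hHi : H ≤ isometryGroup F (quadFormOdd 4 F) := hH.1.le.trans AschO.omega_le
  -- decompositions into three-spaces
  have hthree : ∀ D : Fin 3 → Submodule F (Unit ⊕ (Fin 4 ⊕ Fin 4) → F), IsOrthogonalMDecomposition (quadFormOdd 4 F) 3 D →
      H ≤ decompositionStabilizer D →
      ((Fintype.card F).Prime ∧ ∃ D : Fin 9 → Submodule F (Unit ⊕ (Fin 4 ⊕ Fin 4) → F), Cfsg.Geo.IsOrthogonalMDecomposition (Cfsg.quadFormOdd 4 F) 1 D ∧ H = Cfsg.Geo.decompositionStabilizer D ⊓ Cfsg.Geo.omegaGL (Cfsg.quadFormOdd 4 F)) ∨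
      (5 ≤ Fintype.card F ∧ ∃ D : Fin 3 → Submodule F (Unit ⊕ (Fin 4 ⊕ Fin 4) → F), Cfsg.Geo.IsOrthogonalMDecomposition (Cfsg.quadFormOdd 4 F) 3 D ∧ H = Cfsg.Geo.decompositionStabilizer D ⊓ Cfsg.Geo.omegaGL (Cfsg.quadFormOdd 4 F)) := by
    intro D hD hle
    by_cases hq : Fintype.card F = 3
    · left
      obtain ⟨D', hD', hle'⟩ := frame_of_three (Q := quadOdd 4 F) hQ hq hD hHi hle
      exact ⟨by rw [hq]; norm_num, D', hD', eq_inf_of_maximal hH hle' (not_le_dec hnd hgen (by omega) hD'.decomp.decomp (Or.inl h2))⟩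
    · right
      exact ⟨card_ge_five hodd hq, D, hD, eq_inf_of_maximal hH hle (not_le_dec hnd hgen (by omega) hD.decomp.decomp (Or.inl h2))⟩
  have hwr : ∀ (k : ℕ) (e : (Unit ⊕ (Fin 4 ⊕ Fin 4)) ≃ (Fin 2 → Fin k)) (P : GL (Unit ⊕ (Fin 4 ⊕ Fin 4)) F)
      (f₁ : (Fin k → F) → (Fin k → F) → F), k = 3 → Fintype.card F ≠ 3 → IsSymmetricForm f₁ →
      IsTensorPowerFormStructure id (QuadraticMap.polar (quadFormOdd 4 F)) f₁ e P → H ≤ tensorWreathSubgroup k 2 e P →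
      (5 ≤ Fintype.card F ∧ ∃ (e : (Unit ⊕ (Fin 4 ⊕ Fin 4)) ≃ (Fin 2 → Fin 3)) (P : Matrix.GeneralLinearGroup (Unit ⊕ (Fin 4 ⊕ Fin 4)) F) (f₁ : (Fin 3 → F) → (Fin 3 → F) → F), Cfsg.Geo.IsSymmetricForm f₁ ∧ Cfsg.Geo.IsTensorPowerFormStructure id (QuadraticMap.polar (Cfsg.quadFormOdd 4 F)) f₁ e P ∧ H = Cfsg.Geo.tensorWreathSubgroup 3 2 e P ⊓ Cfsg.Geo.omegaGL (Cfsg.quadFormOdd 4 F)) := by
    intro k e P f₁ hk hq hf₁ hst hle
    subst hk
    exact ⟨card_ge_five hodd hq, e, P, f₁, hf₁, hst, eq_inf_of_maximal hH hle (not_le_wreath hnd hgen h2 (by omega) (by omega) e P)⟩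
  rcases odd_list hodd (by norm_num) (by norm_num) hH with h | h | h | h | h | ⟨t, k, D, ht, hk, htk, hD, heq⟩ | ⟨r, K, hr, hrn, hne, hK, hsa, heq⟩ |
    ⟨d, e, ρ, P, f₁, f₂, hd, hde, hc, hf₁, hf₂, hst, heq⟩ | ⟨k, e, P, f₁, hk, hc, hne, hf₁, hst, heq⟩
  · exact Or.inl h
  · exact Or.inr (Or.inl h)
  · exact Or.inr (Or.inr (Or.inl h))
  · exact Or.inr (Or.inr (Or.inr (Or.inr (Or.inr (Or.inl h)))))
  · exact Or.inr (Or.inr (Or.inr (Or.inr (Or.inr (Or.inr (Or.inr h))))))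
  · obtain ⟨rfl, rfl⟩ : t = 3 ∧ k = 3 := by
      have h1 : t ∣ 9 := Dvd.intro _ htk
      have h2 : t ≤ 9 := Nat.le_of_dvd (by norm_num) h1
      interval_cases t <;> omega
    rcases hthree D hD (by rw [heq]; exact inf_le_left) with h | h
    · exact Or.inr (Or.inr (Or.inl h))
    · exact Or.inr (Or.inr (Or.inr (Or.inl h)))
  · obtain rfl : r = 3 := by
      have h1 : r ∣ 3 ^ 2 := hrn
      exact (Nat.prime_dvd_prime_iff_eq hr Nat.prime_three).1 (hr.dvd_of_dvd_pow h1)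
    exact Or.inr (Or.inr (Or.inr (Or.inr (Or.inl ⟨K, hK, hsa, heq⟩))))
  · obtain ⟨rfl, rfl⟩ : d = 3 ∧ e = 3 := by
      have h1 : d ∣ 9 := Dvd.intro _ hc
      have h2 : d ≤ 9 := Nat.le_of_dvd (by norm_num) h1
      interval_cases d <;> omega
    by_cases hq : Fintype.card F = 3
    · obtain ⟨D, hD, hle'⟩ := AschO.tsym3_dec hq hQ hHi (by omega) hf₁ hf₂ hst (by rw [heq]; exact inf_le_left)
      rcases hthree D hD hle' with h | h
      · exact Or.inr (Or.inr (Or.inl h))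
      · exact Or.inr (Or.inr (Or.inr (Or.inl h)))
    · obtain ⟨e, P', hst', hle'⟩ := AschO.tsym_sq hQ h2 (by decide) hf₁ hf₂ hst
      exact Or.inr (Or.inr (Or.inr (Or.inr (Or.inr (Or.inr (Or.inl
        (hwr 3 e P' f₁ rfl hq hf₁ hst' ((heq.le.trans inf_le_left).trans hle'))))))))
  · have hk3 : k = 3 := by
      have : k < 4 := by
        by_contra hcon
        have : 4 ^ 2 ≤ k ^ 2 := Nat.pow_le_pow_left (by omega) 2
        omega
      omega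
    exact Or.inr (Or.inr (Or.inr (Or.inr (Or.inr (Or.inr (Or.inl
      (hwr k e P f₁ hk3 (fun h => hne ⟨h, hk3⟩) hf₁ hst (heq.le.trans inf_le_left))))))))

end Cfsg.Agent.Lib.ONot
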