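import Cfsg.Agent.Lib.ONot4
import Cfsg.Agent.Lib.UniRes2

/-!
Criteria for plus type.
-/

set_option autoImplicit false
set_option linter.style.haveILetI false
set_option linter.unusedVariables false
set_option linter.unusedSectionVars false

namespace Cfsg.Agent.Lib.ONot

open Cfsg Cfsg.Geo Module QuadraticMap Cfsg.Agent.Lib.Quad Cfsg.Agent.Lib.OrthMax Cfsg.Agent.Lib.OrthNd
  Cfsg.Agent.Lib.OrthNot Cfsg.Agent.Lib.OrthBridge Cfsg.Agent.Lib.OrthNdBridge
open Cfsg.Agent.Lib.GeoBridge (le)
open Cfsg.Agent.Lib.AschCore Cfsg.Agent.Lib.AschField Cfsg.Agent.Lib.AschAlg Cfsg.Agent.Lib.AschGroup Cfsg.Agent.Lib.AschMU Cfsg.Agent.Lib.AschGood Cfsg.Agent.Lib.AschNonab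
open Cfsg.Agent.Lib.SLNot (eq_inf_of_maximal ne_top_of_card)
open scoped Matrix MatrixGroups Kronecker

variable {ι : Type} [Fintype ι] [DecidableEq ι] {F : Type*} [Field F] [Fintype F] {Q : QuadraticForm F (ι → F)}

/-- An adapted basis of an isometric decomposition. -/
lemma dec_basis {t k : ℕ} {D : Fin t → Submodule F (ι → F)} (hD : IsOrthogonalMDecomposition ⇑Q k D) :
    ∃ c : Basis (Fin t × Fin k) F (ι → F), (∀ p, c p ∈ D p.1) ∧ (∀ i j x, Q (c (i, x)) = Q (c (j, x))) ∧
      (∀ i j x y, polar Q (c (i, x)) (c (i, y)) = polar Q (c (j, x)) (c (j, y))) ∧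
      (∀ p q, p.1 ≠ q.1 → polar Q (c p) (c q) = 0) := by
  classical
  have ht := hD.decomp.decomp.two_le
  let i₀ : Fin t := ⟨0, by omega⟩
  choose φ hφ using fun i => hD.isometric i₀ i
  have hφp : ∀ i (x y : D i₀), polar Q ((φ i x : D i) : ι → F) ((φ i y : D i) : ι → F) = polar Q (x : ι → F) (y : ι → F) := by
    intro i x y
    unfold polar
    have h1 : ((φ i x : D i) : ι → F) + ((φ i y : D i) : ι → F) = ((φ i (x + y) : D i) : ι → F) := by rw [map_add]; rfl
    rw [h1, hφ, hφ, hφ]
    rfl
  let b₀ : Basis (Fin k) F (D i₀) := finBasisOfFinrankEq F (D i₀) (hD.decomp.decomp.finrank_eq i₀)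
  let b : ∀ i, Basis (Fin k) F (D i) := fun i => b₀.map (φ i)
  have hI : DirectSum.IsInternal D :=
    DirectSum.isInternal_submodule_of_iSupIndep_of_iSup_eq_top hD.decomp.decomp.indep hD.decomp.decomp.iSup_eq_top
  let c : Basis (Fin t × Fin k) F (ι → F) := (hI.collectedBasis b).reindex (Equiv.sigmaEquivProd _ _)
  have hc : ∀ p, c p = (φ p.1 (b₀ p.2) : ι → F) := by
    intro p
    obtain ⟨i, x⟩ := p
    simp [c, b, Equiv.sigmaEquivProd]
  refine ⟨c, fun p => ?_, fun i j x => ?_, fun i j x y => ?_, fun p q hpq => ?_⟩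
  · rw [hc]; exact (φ p.1 (b₀ p.2)).2
  · rw [hc, hc, hφ, hφ]
  · rw [hc, hc, hc, hc, hφp, hφp]
  · rw [hc, hc]; exact hD.decomp.orthogonal _ _ hpq _ (φ p.1 (b₀ p.2)).2 _ (φ q.1 (b₀ q.2)).2

/-- Isometries permuting the members of an isometric decomposition. -/
lemma perm_isom (hQ : Nd Q) {t k : ℕ} {c : Basis (Fin t × Fin k) F (ι → F)} (h1 : ∀ i j x, Q (c (i, x)) = Q (c (j, x)))
    (h2 : ∀ i j x y, polar Q (c (i, x)) (c (i, y)) = polar Q (c (j, x)) (c (j, y)))
    (h3 : ∀ p q, p.1 ≠ q.1 → polar Q (c p) (c q) = 0) (π : Equiv.Perm (Fin t)) :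
    ∃ g ∈ O Q, ∀ p, g (c p) = c (π p.1, p.2) := by
  let e : Fin t × Fin k ≃ Fin t × Fin k := π.prodCongr (Equiv.refl _)
  let c' : Basis (Fin t × Fin k) F (ι → F) := c.reindex e.symm
  have hc' : ∀ p, c' p = c (π p.1, p.2) := by
    intro p
    simp only [c', e, Basis.reindex_apply, Equiv.symm_symm]
    rfl
  refine ⟨c.equiv c' (Equiv.refl _), exists_isometry_of_basis c c' ?_ ?_, fun p => ?_⟩
  · rintro ⟨i, x⟩
    rw [hc']; exact h1 _ _ _
  · rintro ⟨i, x⟩ ⟨j, y⟩ hne
    rw [hc', hc']
    by_cases hij : i = j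
    · subst hij
      exact h2 _ _ _ _
    · rw [h3 _ _ hij, h3 _ _ (fun h => hij (π.injective h))]
  · rw [Basis.equiv_apply]
    exact hc' p

/-- An even isometric decomposition gives plus type. -/
theorem dec_plus (hQ : Nd Q) {s k : ℕ} {D : Fin (2 * s) → Submodule F (ι → F)} (hD : IsOrthogonalMDecomposition ⇑Q k D)
    (hev : Even (s * k)) : IsPlusTypeOn ⇑Q ⊤ := by
  classical
  obtain ⟨c, hcD, h1, h2, h3⟩ := dec_basis hD
  let e : Fin (2 * s) ≃ Fin 2 × Fin s := finProdFinEquiv.symm
  let π : Equiv.Perm (Fin (2 * s)) := (e.trans ((Equiv.swap 0 1).prodCongr (Equiv.refl _))).trans e.symm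
  have hπ : ∀ i, (e (π i)).1 = Equiv.swap 0 1 (e i).1 := by
    intro i
    simp [π]
  obtain ⟨g, hg, hgc⟩ := perm_isom hQ h1 h2 h3 π
  let S : Fin 2 → Set (Fin (2 * s) × Fin k) := fun a => {p | (e p.1).1 = a}
  let W : Fin 2 → Submodule F (ι → F) := fun a => Submodule.span F (c '' S a)
  have hmap : ∀ a, (W a).map g.toLinearMap = W (Equiv.swap 0 1 a) := by
    intro a
    show (Submodule.span F (c '' S a)).map g.toLinearMap = Submodule.span F (c '' S _)
    rw [Submodule.map_span]
    congr 1
    ext v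
    constructor
    · rintro ⟨_, ⟨p, hp, rfl⟩, rfl⟩
      refine ⟨(π p.1, p.2), ?_, (hgc p).symm⟩
      show (e (π p.1)).1 = _
      rw [hπ, hp]
    · rintro ⟨p, hp, rfl⟩
      refine ⟨_, ⟨(π.symm p.1, p.2), ?_, rfl⟩, ?_⟩
      · show (e (π.symm p.1)).1 = a
        have h4 := hπ (π.symm p.1)
        rw [Equiv.apply_symm_apply] at h4
        have h5 : (e p.1).1 = Equiv.swap 0 1 a := hp
        rw [h5] at h4
        exact ((Equiv.swap (0 : Fin 2) 1).injective h4).symm
      · show g (c (π.symm p.1, p.2)) = c p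
        rw [hgc]
        simp
  have hperp : W 1 ≤ perp Q (W 0) := by
    rw [Submodule.span_le]
    rintro _ ⟨p, hp, rfl⟩
    rw [SetLike.mem_coe, mem_perp_span]
    rintro _ ⟨q, hq, rfl⟩
    apply h3
    intro h
    have hp' : (e p.1).1 = 1 := hp
    have hq' : (e q.1).1 = 0 := hq
    rw [h, hp'] at hq'
    exact absurd hq' (by decide)
  have hsup : W 0 ⊔ W 1 = ⊤ := by
    rw [eq_top_iff, ← c.span_eq, Submodule.span_le]
    rintro _ ⟨p, rfl⟩
    have : ∀ a : Fin 2, a = 0 ∨ a = 1 := by decide
    rcases this (e p.1).1 with h | h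
    · exact Submodule.mem_sup_left (Submodule.subset_span ⟨p, h, rfl⟩)
    · exact Submodule.mem_sup_right (Submodule.subset_span ⟨p, h, rfl⟩)
  have hfr : finrank F (W 0) = finrank F (W 1) := by
    have h4 : finrank F ((W 0).map g.toLinearMap) = finrank F (W 0) := LinearEquiv.finrank_map_eq g _
    rw [hmap] at h4
    exact h4.symm
  have hdim := hQ.finrank_add_finrank_perp (W 0)
  have hle := Submodule.finrank_mono hperp
  have hsi := Submodule.finrank_sup_add_finrank_inf_eq (W 0) (W 1)
  rw [hsup, finrank_top] at hsi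
  have hinf : finrank F ↥(W 0 ⊓ W 1) = 0 := by omega
  have hfp : finrank F (W 1) = finrank F (perp Q (W 0)) := by omega
  have heq : W 1 = perp Q (W 0) := Submodule.eq_of_le_of_finrank_eq hperp hfp
  have hn : finrank F (ι → F) = 2 * s * k := Cfsg.Agent.Lib.OrthFrameH94.card_decomp hD.decomp.decomp
  have hW0 : finrank F (W 0) = s * k := by
    have h5 : 2 * s * k = 2 * (s * k) := by ring
    omega
  obtain ⟨U, hU, hUd⟩ := plus_of_swap hQ (W := W 0) (by
    rw [NDs, ← heq]
    exact Submodule.finrank_eq_zero.1 hinf) (by rw [hW0]; exact hev) hg (by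
    rw [hmap, ← heq]
    rfl)
  exact ⟨U, le_top, hU, by rw [hUd, finrank_top]⟩

/-- A pair of complementary totally singular subspaces gives plus type. -/
lemma sing_plus {k : ℕ} {D : Fin 2 → Submodule F (ι → F)} (htk : 2 * k = Fintype.card ι) (hD : IsMDecomposition k D)
    (hs : ∀ i, IsTotallySingularQuad ⇑Q (D i)) : IsPlusTypeOn ⇑Q ⊤ :=
  ⟨D 0, le_top, hs 0, by rw [hD.finrank_eq, htk, finrank_top, finrank_fun]⟩


/-- The symplectic type case in dimension eight is of plus type. -/
theorem symp_plus (hQ : IsNondegenerateQuadraticForm ⇑Q) (hodd : Odd (Fintype.card F)) (h8 : Fintype.card ι = 8) {R : Subgroup (GL ι F)}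
    (hR : R ≤ isometryGroup F ⇑Q) (habs : ActsAbsolutelyIrreducibly (matrixSet R))
    (hcomm : ∀ x ∈ R, ∀ y ∈ R, x * y * x⁻¹ * y⁻¹ ∈ scalars ι F) : IsPlusTypeOn ⇑Q ⊤ := by
  classical
  have hnd : Nd Q := nd_qf hQ
  have h2 := AschSp.two_ne_of_odd hodd
  haveI : Nonempty ι := Fintype.card_pos_iff.1 (by omega)
  have h11 : (1 : GL ι F) ≠ -1 := by
    intro h
    have h1 := congrFun (congrFun (congrArg (fun x : GL ι F => (x : Matrix ι ι F)) h) (Classical.arbitrary ι)) (Classical.arbitrary ι)
    simp only [Units.val_one, Matrix.one_apply_eq, Units.val_neg, Matrix.neg_apply] at h1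
    apply h2
    linear_combination h1
  -- scalar elements are `± 1`
  have hsc : ∀ g ∈ R, ∀ c : F, (g : Matrix ι ι F) = c • 1 → g = 1 ∨ g = -1 := by
    intro g hg c hc
    have h3 := AschO.scalar_sq hQ (hR hg) hc
    rcases mul_self_eq_one_iff.1 h3 with h | h
    · left; apply Units.ext; rw [hc, h, one_smul, Units.val_one]
    · right; apply Units.ext; rw [hc, h, neg_smul, one_smul, Units.val_neg, Units.val_one]
  have hanti : ∀ x ∈ R, ∀ y ∈ R, x * y = y * x ∨ x * y = -(y * x) := by
    intro x hx y hy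
    obtain ⟨c, hc⟩ := (mem_scalars_iff _).1 (hcomm x hx y hy)
    rcases hsc _ (R.mul_mem (R.mul_mem (R.mul_mem hx hy) (R.inv_mem hx)) (R.inv_mem hy)) c hc with h | h
    · left
      have : x * y * x⁻¹ * y⁻¹ * (y * x) = x * y := by group
      rw [← this, h, one_mul]
    · right
      have : x * y * x⁻¹ * y⁻¹ * (y * x) = x * y := by group
      rw [← this, h, neg_mul, one_mul]
  have hcent : ∀ x ∈ R, (∀ y ∈ R, x * y = y * x) → x = 1 ∨ x = -1 := by
    intro x hx h
    obtain ⟨c, hc⟩ := habs.2 (x : Matrix ι ι F) (by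
      rintro _ ⟨y, hy, rfl⟩
      have := congrArg (fun z : GL ι F => (z : Matrix ι ι F)) (h y hy)
      simpa only [Units.val_mul] using this)
    exact hsc x hx c hc
  have hsq : ∀ x ∈ R, x * x = 1 ∨ x * x = -1 := by
    intro x hx
    apply hcent _ (R.mul_mem hx hx)
    intro y hy
    rcases hanti x hx y hy with h | h
    · rw [mul_assoc, h, ← mul_assoc, h, mul_assoc]
    · rw [mul_assoc, h, mul_neg, ← mul_assoc, h, neg_mul, neg_neg, mul_assoc]
  -- a non-central involution
  obtain ⟨x, hx, hxx, hx1, hx2⟩ : ∃ x ∈ R, x * x = 1 ∧ x ≠ 1 ∧ x ≠ -1 := by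
    by_contra hcon
    push Not at hcon
    have hcon' : ∀ x ∈ R, x * x = 1 → x = 1 ∨ x = -1 := by
      intro x hx hxx
      by_cases h : x = 1
      · exact Or.inl h
      · exact Or.inr (hcon x hx hxx h)
    obtain ⟨x, hx, hxne⟩ : ∃ x ∈ R, ¬ (x = 1 ∨ x = -1) := by
      by_contra hcon2
      push Not at hcon2
      have h3 : Submodule.span F (matrixSet R : Set (Matrix ι ι F)) ≤ Submodule.span F {(1 : Matrix ι ι F)} := by
        rw [Submodule.span_le]
        rintro _ ⟨y, hy, rfl⟩
        change (y : Matrix ι ι F) ∈ Submodule.span F {(1 : Matrix ι ι F)}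
        rcases hcon2 y hy with h | h
        · rw [h]; exact Submodule.subset_span rfl
        · rw [h, Units.val_neg]; exact Submodule.neg_mem _ (Submodule.subset_span rfl)
      rw [AschForms.span_eq_top R habs, top_le_iff] at h3
      have h4 := finrank_span_le_card (R := F) ({(1 : Matrix ι ι F)} : Set (Matrix ι ι F))
      rw [h3, finrank_top, Module.finrank_matrix, Module.finrank_self, h8] at h4
      simp at h4
    have hC : ∀ y ∈ R, x * y = y * x → y = 1 ∨ y = -1 ∨ y = x ∨ y = -x := by
      intro y hy hxy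
      by_cases hy1 : y = 1 ∨ y = -1
      · rcases hy1 with h | h
        · exact Or.inl h
        · exact Or.inr (Or.inl h)
      · have hx2 : x * x = -1 := (hsq x hx).resolve_left fun h => hxne (hcon' x hx h)
        have hy2 : y * y = -1 := (hsq y hy).resolve_left fun h => hy1 (hcon' y hy h)
        have h3 : (x * y) * (x * y) = 1 := by
          have e1 : (x * y) * (x * y) = (y * x) * (x * y) := by rw [hxy]
          rw [e1, mul_assoc, ← mul_assoc x x y, hx2, neg_mul, one_mul, mul_neg, hy2, neg_neg]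
        have hyx : ∀ z : GL ι F, x * y = z → y = -(x * z) := by
          intro z hz
          rw [← hz, ← mul_assoc, hx2, neg_mul, one_mul, neg_neg]
        rcases hcon' _ (R.mul_mem hx hy) h3 with h | h
        · right; right; right
          rw [hyx _ h, mul_one]
        · right; right; left
          rw [hyx _ h, mul_neg, mul_one, neg_neg]
    obtain ⟨y₀, hy₀, hxy₀⟩ : ∃ y ∈ R, ¬ x * y = y * x := by
      by_contra hcon2
      push Not at hcon2
      exact hxne (hcent x hx hcon2)
    have hxy₀' := (hanti x hx y₀ hy₀).resolve_left hxy₀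
    have h3 : Submodule.span F (matrixSet R : Set (Matrix ι ι F)) ≤
        Submodule.span F (({1, (x : Matrix ι ι F), (y₀ : Matrix ι ι F), (x : Matrix ι ι F) * y₀} : Finset (Matrix ι ι F)) : Set (Matrix ι ι F)) := by
      rw [Submodule.span_le]
      rintro _ ⟨y, hy, rfl⟩
      have m1 : (1 : Matrix ι ι F) ∈ Submodule.span F (({1, (x : Matrix ι ι F), (y₀ : Matrix ι ι F), (x : Matrix ι ι F) * y₀} : Finset (Matrix ι ι F)) : Set (Matrix ι ι F)) :=
        Submodule.subset_span (by simp)
      have m2 : (x : Matrix ι ι F) ∈ Submodule.span F (({1, (x : Matrix ι ι F), (y₀ : Matrix ι ι F), (x : Matrix ι ι F) * y₀} : Finset (Matrix ι ι F)) : Set (Matrix ι ι F)) :=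
        Submodule.subset_span (by simp)
      have m3 : (y₀ : Matrix ι ι F) ∈ Submodule.span F (({1, (x : Matrix ι ι F), (y₀ : Matrix ι ι F), (x : Matrix ι ι F) * y₀} : Finset (Matrix ι ι F)) : Set (Matrix ι ι F)) :=
        Submodule.subset_span (by simp)
      have m4 : (x : Matrix ι ι F) * y₀ ∈ Submodule.span F (({1, (x : Matrix ι ι F), (y₀ : Matrix ι ι F), (x : Matrix ι ι F) * y₀} : Finset (Matrix ι ι F)) : Set (Matrix ι ι F)) :=
        Submodule.subset_span (by simp)
      change (y : Matrix ι ι F) ∈ Submodule.span F (({1, (x : Matrix ι ι F), (y₀ : Matrix ι ι F), (x : Matrix ι ι F) * y₀} : Finset (Matrix ι ι F)) : Set (Matrix ι ι F))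
      by_cases hxy : x * y = y * x
      · rcases hC y hy hxy with h | h | h | h
        · rw [h]; exact m1
        · rw [h, Units.val_neg]; exact Submodule.neg_mem _ m1
        · rw [h]; exact m2
        · rw [h, Units.val_neg]; exact Submodule.neg_mem _ m2
      · have hxy' := (hanti x hx y hy).resolve_left hxy
        have h4 : x * (y * y₀⁻¹) = (y * y₀⁻¹) * x := by
          have e1 : x * y₀⁻¹ = -(y₀⁻¹ * x) := by
            have h5 : y₀⁻¹ * (x * y₀) * y₀⁻¹ = y₀⁻¹ * (-(y₀ * x)) * y₀⁻¹ := by rw [hxy₀']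
            have h6 : y₀⁻¹ * (x * y₀) * y₀⁻¹ = y₀⁻¹ * x := by group
            have h7 : y₀⁻¹ * (-(y₀ * x)) * y₀⁻¹ = -(x * y₀⁻¹) := by
              rw [mul_neg, neg_mul]
              congr 1
              group
            rw [h6, h7] at h5
            rw [h5, neg_neg]
          rw [← mul_assoc, hxy', neg_mul, mul_assoc, e1, mul_neg, neg_neg, mul_assoc]
        have hyy : y = (y * y₀⁻¹) * y₀ := by group
        rcases hC _ (R.mul_mem hy (R.inv_mem hy₀)) h4 with h | h | h | h
        · rw [hyy, h, one_mul]; exact m3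
        · rw [hyy, h, neg_mul, one_mul, Units.val_neg]; exact Submodule.neg_mem _ m3
        · rw [hyy, h, Units.val_mul]; exact m4
        · rw [hyy, h, neg_mul, Units.val_neg, Units.val_mul]; exact Submodule.neg_mem _ m4
    rw [AschForms.span_eq_top R habs, top_le_iff] at h3
    have h4 := finrank_span_finset_le_card (R := F) ({1, (x : Matrix ι ι F), (y₀ : Matrix ι ι F), (x : Matrix ι ι F) * y₀} : Finset (Matrix ι ι F))
    rw [Set.finrank, h3, finrank_top, Module.finrank_matrix, Module.finrank_self, h8] at h4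
    have h5 := Finset.card_le_four (a := (1 : Matrix ι ι F)) (b := (x : Matrix ι ι F)) (c := (y₀ : Matrix ι ι F)) (d := (x : Matrix ι ι F) * y₀)
    omega
  obtain ⟨y, hy, hxy⟩ : ∃ y ∈ R, ¬ x * y = y * x := by
    by_contra hcon
    push Not at hcon
    rcases hcent x hx hcon with h | h
    · exact hx1 h
    · exact hx2 h
  have hxy' := (hanti x hx y hy).resolve_left hxy
  have hxO : le x ∈ O Q := mem_isometryGroup_iff_toLE.1 (hR hx)
  have hyO : le y ∈ O Q := mem_isometryGroup_iff_toLE.1 (hR hy)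
  have hxx' : ∀ v, le x (le x v) = v := by
    intro v
    have : le (x * x) v = v := by rw [hxx, map_one]; rfl
    rw [map_mul] at this
    exact this
  have hxy2 : ∀ v, le x (le y v) = -(le y (le x v)) := by
    intro v
    have h3 : (((x * y : GL ι F)) : Matrix ι ι F) *ᵥ v = ((-(y * x) : GL ι F) : Matrix ι ι F) *ᵥ v := by rw [hxy']
    rw [Units.val_neg, Units.val_mul, Units.val_mul, Matrix.neg_mulVec, ← Matrix.mulVec_mulVec, ← Matrix.mulVec_mulVec] at h3
    exact h3
  let W : Submodule F (ι → F) := LinearMap.ker ((le x).toLinearMap - LinearMap.id)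
  let W' : Submodule F (ι → F) := LinearMap.ker ((le x).toLinearMap + LinearMap.id)
  have hW : ∀ v, v ∈ W ↔ le x v = v := by
    intro v
    rw [LinearMap.mem_ker, LinearMap.sub_apply, LinearMap.id_apply, sub_eq_zero]
    rfl
  have hW' : ∀ v, v ∈ W' ↔ le x v = -v := by
    intro v
    rw [LinearMap.mem_ker, LinearMap.add_apply, LinearMap.id_apply, ← eq_neg_iff_add_eq_zero]
    rfl
  have hmap : W.map (le y).toLinearMap = W' := by
    ext v
    constructor
    · rintro ⟨w, hw, rfl⟩
      rw [hW']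
      show le x (le y w) = -(le y w)
      rw [hxy2, (hW w).1 hw]
    · intro hv
      refine ⟨(le y).symm v, ?_, (le y).apply_symm_apply v⟩
      rw [SetLike.mem_coe, hW]
      have h3 := hxy2 ((le y).symm v)
      rw [LinearEquiv.apply_symm_apply, (hW' v).1 hv] at h3
      apply (le y).injective
      rw [LinearEquiv.apply_symm_apply]
      exact (neg_injective h3).symm
  have hperp : W' ≤ perp Q W := by
    intro v hv
    rw [mem_perp]
    intro w hw
    have h3 := O_polar hxO w v
    rw [(hW w).1 hw, (hW' v).1 hv, polar_neg_right] at h3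
    have h4 : 2 * polar Q w v = 0 := by linear_combination -h3
    exact (mul_eq_zero.1 h4).resolve_left h2
  have hsup : W ⊔ W' = ⊤ := by
    rw [eq_top_iff]
    intro v _
    have e1 : v = (2 : F)⁻¹ • (v + le x v) + (2 : F)⁻¹ • (v - le x v) := by
      rw [← smul_add, add_add_sub_cancel, ← two_smul F v, smul_smul, inv_mul_cancel₀ h2, one_smul]
    rw [e1]
    refine Submodule.add_mem_sup (W.smul_mem _ ?_) (W'.smul_mem _ ?_)
    · rw [hW, map_add, hxx', add_comm]
    · rw [hW', map_sub, hxx', neg_sub]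
  have hfr : finrank F W = finrank F W' := by
    have h4 : finrank F (W.map (le y).toLinearMap) = finrank F W := LinearEquiv.finrank_map_eq (le y) _
    rw [hmap] at h4
    exact h4.symm
  have hdim := hnd.finrank_add_finrank_perp W
  have hle := Submodule.finrank_mono hperp
  have hsi := Submodule.finrank_sup_add_finrank_inf_eq W W'
  rw [hsup, finrank_top, finrank_fun, h8] at hsi
  rw [finrank_fun, h8] at hdim
  have hinf : finrank F ↥(W ⊓ W') = 0 := by omega
  have hfp : finrank F W' = finrank F (perp Q W) := by omega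
  have heq : W' = perp Q W := Submodule.eq_of_le_of_finrank_eq hperp hfp
  obtain ⟨U, hU, hUd⟩ := plus_of_swap hnd (W := W) (by
    rw [NDs, ← heq]
    exact Submodule.finrank_eq_zero.1 hinf) (by rw [show finrank F W = 4 by omega]; decide) hyO (by rw [hmap, ← heq])
  exact ⟨U, le_top, hU, by rw [hUd, finrank_top]⟩

/-- Quadratic polynomials over a subfield of index two have a root. -/
lemma quad_root {F₀ : Subfield F} (hc : Fintype.card F = Nat.card F₀ ^ 2) (a : F₀) : ∃ t : F, t ^ 2 + t + (a : F) = 0 := by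
  classical
  let f : Polynomial F₀ := Polynomial.X ^ 2 + Polynomial.X + Polynomial.C a
  have hf2 : f.natDegree = 2 := by
    show (Polynomial.X ^ 2 + Polynomial.X + Polynomial.C a : Polynomial F₀).natDegree = 2
    compute_degree!
  have hmon : f.Monic := by
    show (Polynomial.X ^ 2 + Polynomial.X + Polynomial.C a : Polynomial F₀).Monic
    monicity!
  by_cases hirr : Irreducible f
  · haveI := Fact.mk hirr
    have h1 : Module.finrank F₀ (AdjoinRoot f) = 2 := by
      rw [← hf2]; exact finrank_quotient_span_eq_natDegree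
    have h2 : Module.finrank F₀ F = 2 := by
      have h3 : Fintype.card F = Nat.card F₀ ^ Module.finrank F₀ F := by
        rw [← Nat.card_eq_fintype_card]; exact Module.natCard_eq_pow_finrank
      rw [hc] at h3
      have h4 : 1 < Nat.card F₀ := Finite.one_lt_card
      exact (Nat.pow_right_injective h4 h3).symm
    obtain ⟨φ⟩ := FiniteField.nonempty_algHom_of_finrank_dvd (F := F₀) (K := AdjoinRoot f) (L := F) (by rw [h1, h2])
    refine ⟨φ (AdjoinRoot.root f), ?_⟩
    have h3 := congrArg φ (AdjoinRoot.eval₂_root f)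
    simp only [f, Polynomial.eval₂_add, Polynomial.eval₂_pow, Polynomial.eval₂_X, Polynomial.eval₂_C, map_add, map_pow, map_zero] at h3
    have h4 : φ (AdjoinRoot.of f a) = (a : F) := φ.commutes a
    rw [h4] at h3
    exact h3
  · rw [Polynomial.Monic.irreducible_iff_roots_eq_zero_of_degree_le_three hmon (by omega) (by omega)] at hirr
    obtain ⟨t, ht⟩ := Multiset.exists_mem_of_ne_zero hirr
    have h3 := (Polynomial.mem_roots'.1 ht).2
    rw [Polynomial.IsRoot.def] at h3
    simp only [f, Polynomial.eval_add, Polynomial.eval_pow, Polynomial.eval_X, Polynomial.eval_C] at h3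
    refine ⟨t, ?_⟩
    have := congrArg (Subtype.val) h3
    simpa using this

/-- Totally singular spans. -/
lemma ts_span {V κ : Type*} [AddCommGroup V] [Module F V] {Q : QuadraticForm F V} {w : κ → V} (h0 : ∀ i, Q (w i) = 0)
    (h1 : ∀ i j, polar Q (w i) (w j) = 0) : ∀ x ∈ Submodule.span F (Set.range w), Q x = 0 := by
  have h2 : ∀ x ∈ Submodule.span F (Set.range w), ∀ j, polar Q x (w j) = 0 := by
    intro x hx
    induction hx using Submodule.span_induction with
    | mem x hx => obtain ⟨i, rfl⟩ := hx; exact h1 i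
    | zero => intro j; rw [polar_zero_left]
    | add x y _ _ hx hy => intro j; rw [polar_add_left, hx, hy, add_zero]
    | smul c x _ hx => intro j; rw [polar_smul_left, hx, smul_zero]
  have h3 : ∀ x ∈ Submodule.span F (Set.range w), ∀ y ∈ Submodule.span F (Set.range w), polar Q x y = 0 := by
    intro x hx y hy
    induction hy using Submodule.span_induction with
    | mem y hy => obtain ⟨i, rfl⟩ := hy; exact h2 x hx i
    | zero => rw [polar_zero_right]
    | add y z _ _ hy hz => rw [polar_add_right, hy, hz, add_zero]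
    | smul c y _ hy => rw [polar_smul_right, hy, smul_zero]
  intro x hx
  induction hx using Submodule.span_induction with
  | mem x hx => obtain ⟨i, rfl⟩ := hx; exact h0 i
  | zero => exact map_zero Q
  | add x y hx hy ihx ihy => rw [Q_add, ihx, ihy, h3 x hx y hy]; ring
  | smul c x _ hx => rw [Q_smul, hx, mul_zero]

/-- Rational structures over a subfield of index two: plus type. -/
theorem rat_plus (hQ : Nd Q) (hev : Even (Fintype.card ι)) {F₀ : Subfield F} (hc : Fintype.card F = Nat.card F₀ ^ 2) {P : GL ι F} {ζ : F}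
    (hζ : ζ ≠ 0) (hrs : IsQuadFormRationalStructure (fun v : ι → F => ζ * Q v) F₀ P) : IsPlusTypeOn ⇑Q ⊤ := by
  classical
  let ψ : (ι → F₀) → (ι → F) := fun u => (P : Matrix ι ι F) *ᵥ (fun i => (u i : F))
  have hψ_add : ∀ u v, ψ (u + v) = ψ u + ψ v := by
    intro u v
    show (P : Matrix ι ι F) *ᵥ _ = _ + _
    rw [← Matrix.mulVec_add]
    rfl
  have hψ_smul : ∀ (c : F₀) u, ψ (c • u) = (c : F) • ψ u := by
    intro c u
    show (P : Matrix ι ι F) *ᵥ _ = _
    rw [← Matrix.mulVec_smul]
    rfl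
  let q₀ : (ι → F₀) → F₀ := fun u => ⟨ζ * Q (ψ u), hrs (fun i => (u i : F)) (fun i => (u i).2)⟩
  have hq₀ : ∀ u, ((q₀ u : F₀) : F) = ζ * Q (ψ u) := fun u => rfl
  have hpol : ∀ u v, ((polar q₀ u v : F₀) : F) = ζ * polar Q (ψ u) (ψ v) := by
    intro u v
    unfold polar
    push_cast
    rw [hq₀, hq₀, hq₀, hψ_add]
    ring
  let Q₀ : QuadraticForm F₀ (ι → F₀) := QuadraticMap.ofPolar q₀
    (fun c u => by
      apply Subtype.ext
      rw [hq₀, hψ_smul, Q_smul, smul_eq_mul]
      push_cast
      rw [hq₀]; ring)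
    (fun u v w => by
      apply Subtype.ext
      push_cast
      rw [hpol, hpol, hpol, hψ_add, polar_add_left]; ring)
    (fun c u v => by
      apply Subtype.ext
      rw [smul_eq_mul]
      push_cast
      rw [hpol, hpol, hψ_smul, polar_smul_left, smul_eq_mul]; ring)
  have hQ₀ : ∀ u, ((Q₀ u : F₀) : F) = ζ * Q (ψ u) := hq₀
  have hP₀ : ∀ u v, ((polar Q₀ u v : F₀) : F) = ζ * polar Q (ψ u) (ψ v) := hpol
  have hψinj : ∀ u, ψ u = 0 → u = 0 := by
    intro u hu
    have h1 := congrArg (fun z => ((P⁻¹ : GL ι F) : Matrix ι ι F) *ᵥ z) hu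
    simp only [ψ, Matrix.mulVec_mulVec, gl_inv_mul, Matrix.one_mulVec, Matrix.mulVec_zero] at h1
    funext i
    exact Subtype.ext (congrFun h1 i)
  have hnd₀ : Nd Q₀ := by
    apply nd_of
    intro u hu
    apply hψinj
    apply hQ.eq_zero
    intro y
    -- expand `y` in the rational basis
    have h1 : y = ∑ i, (((P⁻¹ : GL ι F) : Matrix ι ι F) *ᵥ y) i • ψ (Pi.single i 1) := by
      have h2 : ∀ i, ψ (Pi.single i 1) = (P : Matrix ι ι F) *ᵥ (Pi.single i 1) := by
        intro i
        show (P : Matrix ι ι F) *ᵥ _ = _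
        congr 1
        funext j
        by_cases hj : j = i
        · subst hj; simp
        · simp [Pi.single_eq_of_ne hj]
      simp only [h2, ← Matrix.mulVec_smul]
      rw [← Matrix.mulVec_sum]
      have h3 : ∑ i, (((P⁻¹ : GL ι F) : Matrix ι ι F) *ᵥ y) i • (Pi.single i 1 : ι → F) = ((P⁻¹ : GL ι F) : Matrix ι ι F) *ᵥ y := by
        ext j
        simp [Finset.sum_apply, Pi.single_apply]
      rw [h3, Matrix.mulVec_mulVec, gl_mul_inv, Matrix.one_mulVec]
    have h4 : ∀ (s : Finset ι) (c : ι → F), polar Q (ψ u) (∑ i ∈ s, c i • ψ (Pi.single i 1)) = 0 := by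
      intro s c
      induction s using Finset.induction_on with
      | empty => rw [Finset.sum_empty, polar_zero_right]
      | insert a s ha ih =>
        rw [Finset.sum_insert ha, polar_add_right, ih, polar_smul_right, add_zero]
        have h5 := congrArg Subtype.val (hu (Pi.single a 1))
        have h6 := hP₀ u (Pi.single a 1)
        rw [h5] at h6
        have h7 : polar Q (ψ u) (ψ (Pi.single a 1)) = 0 := (mul_eq_zero.1 h6.symm).resolve_left hζ
        rw [h7, smul_zero]
    rw [h1]; exact h4 _ _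
  obtain ⟨k, h, hmax⟩ := HF.exists_anisotropic hnd₀
  have hdim := h.finrank_perp_sp hnd₀
  have hle2 := h.finrank_le_two hnd₀ hmax
  rw [Module.finrank_fintype_fun_eq_card] at hdim
  obtain ⟨m, hm⟩ := hev
  -- the hyperbolic family over `F`
  have hQψ : ∀ u, Q₀ u = 0 → Q (ψ u) = 0 := by
    intro u hu
    have h1 := hQ₀ u
    rw [hu] at h1
    exact (mul_eq_zero.1 h1.symm).resolve_left hζ
  have hPψ : ∀ u v, polar Q (ψ u) (ψ v) = ζ⁻¹ * ((polar Q₀ u v : F₀) : F) := by
    intro u v
    rw [hP₀]; field_simp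
  let h' : HF Q k :=
    { e := fun i => ψ (h.e i)
      f := fun i => ζ • ψ (h.f i)
      qe := fun i => hQψ _ (h.qe i)
      qf := fun i => by rw [Q_smul, hQψ _ (h.qf i), mul_zero]
      ef := fun i j => by
        rw [polar_smul_right, hPψ, h.ef, smul_eq_mul, ← mul_assoc, mul_inv_cancel₀ hζ, one_mul]
        split_ifs <;> simp
      ee := fun i j => by rw [hPψ, h.ee]; simp
      ff := fun i j => by rw [polar_smul_left, polar_smul_right, hPψ, h.ff]; simp }
  obtain hk | hk : k = m ∨ k + 1 = m := by omega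
  · refine ⟨Submodule.span F (Set.range h'.e), le_top, ts_span h'.qe h'.ee, ?_⟩
    have hli : LinearIndependent F h'.e := h'.li'.comp Sum.inl Sum.inl_injective
    rw [finrank_span_eq_card hli, Fintype.card_fin, finrank_top, finrank_fun]
    omega
  · obtain ⟨w, hw, hw0, hw01, hroot⟩ := exists_elliptic_basis (h.nd_res hnd₀) (by omega : finrank F₀ (perp Q₀ h.sp) = 2)
      (fun x hx => Subtype.ext (hmax x (h.mem_perp_sp.1 x.2) hx))
    obtain ⟨t, ht⟩ := quad_root hc (res Q₀ (perp Q₀ h.sp) (w 1))
    have e0 : ζ * Q (ψ (w 0)) = 1 := by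
      rw [← hQ₀]; exact congrArg Subtype.val hw0
    have e1 : ζ * Q (ψ (w 1)) = ((res Q₀ (perp Q₀ h.sp) (w 1) : F₀) : F) := by
      rw [← hQ₀]; rfl
    have e01 : ζ * polar Q (ψ (w 0)) (ψ (w 1)) = 1 := by
      rw [← hP₀]; exact congrArg Subtype.val hw01
    set v : ι → F := t • ψ (w 0) + ψ (w 1) with hv
    have hQv : Q v = 0 := by
      apply mul_left_cancel₀ hζ
      rw [hv, Q_add, Q_smul, polar_smul_left, smul_eq_mul, mul_zero]
      linear_combination ht + t * t * e0 + e1 + t * e01
    have hv0 : v ≠ 0 := by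
      intro h0
      have h1 : ζ * polar Q v (ψ (w 0)) = 2 * t + 1 := by
        rw [hv, polar_add_left, polar_smul_left, polar_self', polar_comm Q (ψ (w 1)), smul_eq_mul]
        linear_combination 2 * t * e0 + e01
      rw [h0, polar_zero_left, mul_zero] at h1
      have h2 : (2 : F) ≠ 0 := by
        intro h2
        rw [h2, zero_mul, zero_add] at h1
        exact zero_ne_one h1
      have h20 : (2 : F₀) ≠ 0 := by
        intro h3
        exact h2 (congrArg Subtype.val h3)
      apply hroot (-(2 : F₀)⁻¹)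
      apply Subtype.ext
      have h3 : t = ((-(2 : F₀)⁻¹ : F₀) : F) := by
        have h22 : ((2 : F₀) : F) = 2 := rfl
        rw [Subfield.coe_neg, Subfield.coe_inv, h22]
        field_simp
        linear_combination -h1
      rw [h3] at ht
      simpa using ht
    have ho : h'.Orth v := by
      constructor
      · intro i
        show polar Q (ψ (h.e i)) v = 0
        rw [hv, polar_add_right, polar_smul_right, hPψ, hPψ, (h.mem_perp_sp.1 (w 0).2).1 i, (h.mem_perp_sp.1 (w 1).2).1 i]
        simp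
      · intro i
        show polar Q (ζ • ψ (h.f i)) v = 0
        rw [hv, polar_smul_left, polar_add_right, polar_smul_right, hPψ, hPψ, (h.mem_perp_sp.1 (w 0).2).2 i, (h.mem_perp_sp.1 (w 1).2).2 i]
        simp
    have hli := h'.li (fun _ : Unit => v) (LinearIndependent.of_subsingleton () hv0) (fun _ => ho)
    have hli2 : LinearIndependent F (Sum.elim h'.e (fun _ : Unit => v)) := by
      have : Sum.elim h'.e (fun _ : Unit => v) = (Sum.elim (Sum.elim h'.e h'.f) (fun _ : Unit => v)) ∘ (Sum.map Sum.inl id) := by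
        funext x
        rcases x with x | x <;> rfl
      rw [this]
      exact hli.comp _ (Sum.map_injective.2 ⟨Sum.inl_injective, Function.injective_id⟩)
    refine ⟨Submodule.span F (Set.range (Sum.elim h'.e (fun _ : Unit => v))), le_top, ts_span ?_ ?_, ?_⟩
    · rintro (i | i)
      · exact h'.qe i
      · exact hQv
    · rintro (i | i) (j | j)
      · exact h'.ee i j
      · exact ho.1 i
      · show polar Q v (h'.e j) = 0
        rw [polar_comm]; exact ho.1 j
      · show polar Q v v = 0
        rw [polar_self', hQv, mul_zero]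
    · rw [finrank_span_eq_card hli2, Fintype.card_sum, Fintype.card_fin, Fintype.card_unit, finrank_top, finrank_fun]
      omega


end Cfsg.Agent.Lib.ONot
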