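import Cfsg.Agent.Lib.ONot5

/-!
Maximal subgroups of `Ω₈⁻`.
-/

set_option autoImplicit false
set_option linter.style.haveILetI false
set_option linter.unusedVariables false
set_option linter.unusedSectionVars false

namespace Cfsg.Agent.Lib.ONot

open Cfsg Cfsg.Geo Module QuadraticMap Cfsg.Agent.Lib.Quad Cfsg.Agent.Lib.OrthMax Cfsg.Agent.Lib.OrthNd
  Cfsg.Agent.Lib.OrthNot Cfsg.Agent.Lib.OrthBridge Cfsg.Agent.Lib.OrthNdBridge
open Cfsg.Agent.Lib.GeoBridge (le)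
open Cfsg.Agent.Lib.AschCore Cfsg.Agent.Lib.AschField Cfsg.Agent.Lib.AschAlg Cfsg.Agent.Lib.AschGroup Cfsg.Agent.Lib.AschMU Cfsg.Agent.Lib.AschGood Cfsg.Agent.Lib.AschNonab
open Cfsg.Agent.Lib.SLNot (eq_inf_of_maximal ne_top_of_card)
open scoped Matrix MatrixGroups Kronecker

/-- In characteristic two nondegenerate spaces have even dimension. -/
lemma even_of_two {F V : Type*} [Field F] [AddCommGroup V] [Module F V] [FiniteDimensional F V] {Q : QuadraticForm F V}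
    (h2 : (2 : F) = 0) (hQ : Nd Q) : Even (finrank F V) := by
  classical
  let b := finBasis F V
  have h1 : (LinearMap.BilinForm.toMatrix b (polarBilin Q)).det ≠ 0 :=
    (LinearMap.BilinForm.nondegenerate_iff_det_ne_zero b).1 hQ
  have h3 := AschAdj.even_of_alt (A := LinearMap.BilinForm.toMatrix b (polarBilin Q))
    ((Matrix.isUnit_iff_isUnit_det _).2 (isUnit_iff_ne_zero.2 h1)) (by
      ext i j
      rw [Matrix.transpose_apply, Matrix.neg_apply, LinearMap.BilinForm.toMatrix_apply, LinearMap.BilinForm.toMatrix_apply]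
      show polar Q (b j) (b i) = -polar Q (b i) (b j)
      rw [polar_comm]
      have : polar Q (b i) (b j) + polar Q (b i) (b j) = 0 := by rw [← two_mul, h2, zero_mul]
      exact eq_neg_of_add_eq_zero_left this) (by
      intro i
      rw [LinearMap.BilinForm.toMatrix_apply]
      show polar Q (b i) (b i) = 0
      rw [polar_self', h2, zero_mul])
  rwa [Fintype.card_fin] at h3

variable {ι : Type} [Fintype ι] [DecidableEq ι] {F : Type*} [Field F] [Fintype F] {Q : QuadraticForm F (ι → F)}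

lemma not_odd_of_two (h2 : (2 : F) = 0) : ¬ Odd (Fintype.card F) := fun h => AschSp.two_ne_of_odd h h2

lemma odd_or_two : Odd (Fintype.card F) ∨ (2 : F) = 0 := by
  by_cases h2 : (2 : F) = 0
  · exact Or.inr h2
  left
  have : ringChar F ≠ 2 := by
    intro h
    apply h2
    have := ringChar.spec F 2
    exact_mod_cast this.2 (by rw [h])
  exact Nat.odd_iff.2 (FiniteField.odd_card_of_char_ne_two this)

lemma odd_of_nd_odd {W : Submodule F (ι → F)} (hs : IsNondegenerateOn (QuadraticMap.polar ⇑Q) W) (ho : Odd (finrank F W)) :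
    Odd (Fintype.card F) := by
  rcases odd_or_two (F := F) with h | h
  · exact h
  · exact absurd (even_of_two h (nd_res_of_inf (nds_of_nondeg hs))) (by rw [Nat.not_even_iff_odd]; exact ho)

/-- Reduction to dimension at most one half. -/
lemma nd_wlog (hnd : Nd Q) (h7 : 7 ≤ Fintype.card ι) {H : Subgroup (GL ι F)} (hH : IsMaximalIn (omegaGL ⇑Q) H)
    {W : Submodule F (ι → F)} (h0 : W ≠ ⊥) (h1 : W ≠ ⊤) (hs : IsNondegenerateOn (QuadraticMap.polar ⇑Q) W)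
    (heq : H = subspaceStabilizer W ⊓ omegaGL ⇑Q) :
    ∃ W : Submodule F (ι → F), W ≠ ⊥ ∧ W ≠ ⊤ ∧ IsNondegenerateOn (QuadraticMap.polar ⇑Q) W ∧
      H = subspaceStabilizer W ⊓ omegaGL ⇑Q ∧ 0 < finrank F W ∧ 2 * finrank F W ≤ Fintype.card ι := by
  have hdim := hnd.finrank_add_finrank_perp W
  rw [finrank_fun] at hdim
  by_cases h : 2 * finrank F W ≤ Fintype.card ι
  · refine ⟨W, h0, h1, hs, heq, ?_, h⟩
    by_contra hcon
    exact h0 (Submodule.finrank_eq_zero.1 (by omega))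
  · obtain ⟨h0', h1', hs', heq'⟩ := perp_case hnd h7 hH h0 h1 hs heq
    refine ⟨perp Q W, h0', h1', hs', heq', ?_, by omega⟩
    by_contra hcon
    exact h0' (Submodule.finrank_eq_zero.1 (by omega))

/-- Hyperbolic planes need a field with at least four elements. -/
lemma plane_cases (hnd : Nd Q) (h7 : 7 ≤ Fintype.card ι) {H : Subgroup (GL ι F)} (hH : IsMaximalIn (omegaGL ⇑Q) H)
    {W : Submodule F (ι → F)} (hs : IsNondegenerateOn (QuadraticMap.polar ⇑Q) W) (h2 : finrank F W = 2)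
    (heq : H = subspaceStabilizer W ⊓ omegaGL ⇑Q) (hpl : IsPlusTypeOn ⇑Q W) : 4 ≤ Fintype.card F := by
  by_contra hq
  exact plus_plane_false hnd h7 hH hs h2 heq (by omega) hpl

/-- The list for `Ω₈⁻`. -/
theorem eight_list (Q : (Fin 8 → F) → F) (hQ : Cfsg.Geo.IsNondegenerateQuadraticForm Q) (hminus : ¬ Cfsg.Geo.IsPlusTypeOn Q ⊤) (H : Subgroup (Matrix.GeneralLinearGroup (Fin 8) F)) (hH : Cfsg.Geo.IsMaximalIn (Cfsg.Geo.omegaGL Q) H) :
    (∃ W : Submodule F (Fin 8 → F), W ≠ ⊥ ∧ Cfsg.Geo.IsTotallySingularQuad Q W ∧ H = Cfsg.Geo.subspaceStabilizer W ⊓ Cfsg.Geo.omegaGL Q) ∨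
    (Odd (Fintype.card F) ∧ ∃ W : Submodule F (Fin 8 → F), W ≠ ⊥ ∧ W ≠ ⊤ ∧ Odd (Module.finrank F W) ∧ Cfsg.Geo.IsNondegenerateOn (QuadraticMap.polar Q) W ∧ H = Cfsg.Geo.subspaceStabilizer W ⊓ Cfsg.Geo.omegaGL Q) ∨
    (∃ W : Submodule F (Fin 8 → F), Module.finrank F W = 2 ∧ Cfsg.Geo.IsNondegenerateOn (QuadraticMap.polar Q) W ∧ ¬ Cfsg.Geo.IsPlusTypeOn Q W ∧ H = Cfsg.Geo.subspaceStabilizer W ⊓ Cfsg.Geo.omegaGL Q) ∨
    (4 ≤ Fintype.card F ∧ ∃ W : Submodule F (Fin 8 → F), Module.finrank F W = 2 ∧ Cfsg.Geo.IsNondegenerateOn (QuadraticMap.polar Q) W ∧ Cfsg.Geo.IsPlusTypeOn Q W ∧ H = Cfsg.Geo.subspaceStabilizer W ⊓ Cfsg.Geo.omegaGL Q) ∨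
    (∃ W : Submodule F (Fin 8 → F), Module.finrank F W = 4 ∧ Cfsg.Geo.IsNondegenerateOn (QuadraticMap.polar Q) W ∧ H = Cfsg.Geo.subspaceStabilizer W ⊓ Cfsg.Geo.omegaGL Q) ∨
    (¬ Odd (Fintype.card F) ∧ ∃ v : (Fin 8 → F), Q v ≠ 0 ∧ H = Cfsg.Geo.subspaceStabilizer (Submodule.span F {v}) ⊓ Cfsg.Geo.omegaGL Q) ∨
    (∃ K : Subalgebra F (Matrix (Fin 8) (Fin 8) F), Cfsg.Geo.IsFieldSubalgebra 2 K ∧ H = Cfsg.Geo.subalgebraNormalizer K ⊓ Cfsg.Geo.omegaGL Q) ∨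
    (∃ (F₀ : Subfield F) (r : ℕ) (P : Matrix.GeneralLinearGroup (Fin 8) F) (ζ : F), r.Prime ∧ Odd r ∧ Fintype.card F = Nat.card F₀ ^ r ∧ ζ ≠ 0 ∧ Cfsg.Geo.IsQuadFormRationalStructure (fun v : Fin 8 → F => ζ * Q v) F₀ P ∧ H = Cfsg.Geo.subfieldSubgroup F₀ P ⊓ Cfsg.Geo.omegaGL Q) ∨
    Cfsg.Geo.InOrthogonalResidualClass H := by
  classical
  let q : QuadraticForm F (Fin 8 → F) := qf hQ
  have hcard : Fintype.card (Fin 8) = 8 := Fintype.card_fin 8
  have hnd : Nd q := nd_qf hQ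
  rcases omax (Q := q) hQ (by omega) (by omega) hH with ⟨W, h0, hs, heq⟩ | ⟨W, h0, h1, hs, heq⟩ | ⟨v, h2', hv, heq⟩ | ⟨t, k, D, ht, htk, hD, heq⟩ |
    ⟨k, D, htk, hD, hs, heq⟩ | ⟨r, K, hr, hrn, hne, hK, hsa, heq⟩ | ⟨K, hrn, hK, hac, hns, hsim, heq⟩ |
    ⟨d, e, ρ, P, f₁, f₂, ho, hd, hde, hf₁, hf₂, hst, heq⟩ | ⟨d, e, ρ, P, f₁, f₂, hd, hde, hf₁, hf₂, hst, hpure, heq⟩ |
    ⟨F₀, r, P, ζ, hr, hc, hζ, hrs, heq⟩ | ⟨R, k, ho, hR, habs, hcomm, hk⟩ | ⟨k, e, P, f₁, ho, hk, hne, hc, hf₁, hst, heq⟩ |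
    ⟨k, t, hk, ht, hc, hev, hplus⟩ | h
  · exact Or.inl ⟨W, h0, hs, heq⟩
  · obtain ⟨W, h0, h1, hs, heq, hpos, hle⟩ := nd_wlog hnd (by omega) hH h0 h1 hs heq
    rcases Nat.even_or_odd (finrank F W) with hev | hod
    · obtain hd | hd : finrank F W = 2 ∨ finrank F W = 4 := by
        obtain ⟨c, hc⟩ := hev
        omega
      · by_cases hpl : IsPlusTypeOn Q W
        · exact Or.inr (Or.inr (Or.inr (Or.inl ⟨plane_cases hnd (by omega) hH hs hd heq hpl, W, hd, hs, hpl, heq⟩)))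
        · exact Or.inr (Or.inr (Or.inl ⟨W, hd, hs, hpl, heq⟩))
      · exact Or.inr (Or.inr (Or.inr (Or.inr (Or.inl ⟨W, hd, hs, heq⟩))))
    · exact Or.inr (Or.inl ⟨odd_of_nd_odd (Q := q) hs hod, W, h0, h1, hod, hs, heq⟩)
  · exact Or.inr (Or.inr (Or.inr (Or.inr (Or.inr (Or.inl ⟨not_odd_of_two h2', v, hv, heq⟩)))))
  · exfalso
    have hdvd : t ∣ 8 := Dvd.intro _ (by rw [htk, hcard])
    have hle := Nat.le_of_dvd (by norm_num) hdvd
    have hkpos := hD.decomp.decomp.pos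
    obtain ⟨s, rfl⟩ : ∃ s, t = 2 * s := by
      obtain ⟨m, -, hm⟩ := (Nat.dvd_prime_pow Nat.prime_two).1 (show t ∣ 2 ^ 3 from hdvd)
      rcases Nat.eq_zero_or_pos m with rfl | hm0
      · omega
      · refine ⟨2 ^ (m - 1), ?_⟩
        rw [hm, ← pow_succ']
        congr 1
        omega
    apply hminus
    refine dec_plus hnd hD ⟨2, ?_⟩
    have : 2 * s * k = 2 * (s * k) := by ring
    omega
  · exact absurd (sing_plus htk hD hs) hminus
  · have hr2 : r = 2 := by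
      have h1 : r ∣ 2 ^ 3 := by rw [hcard] at hrn; exact hrn
      exact (Nat.prime_dvd_prime_iff_eq hr Nat.prime_two).1 (hr.dvd_of_dvd_pow h1)
    subst hr2
    exact Or.inr (Or.inr (Or.inr (Or.inr (Or.inr (Or.inr (Or.inl ⟨K, hK, heq⟩))))))
  · exact Or.inr (Or.inr (Or.inr (Or.inr (Or.inr (Or.inr (Or.inl ⟨K, hK, heq⟩))))))
  · exfalso
    have h3 := Fintype.card_congr ρ
    rw [Fintype.card_prod, Fintype.card_fin, Fintype.card_fin, Fintype.card_fin] at h3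
    have : 3 * 3 ≤ d * e := Nat.mul_le_mul hd (hd.trans hde)
    omega
  · exfalso
    have h3 := Fintype.card_congr ρ
    rw [Fintype.card_prod, Fintype.card_fin, Fintype.card_fin, Fintype.card_fin] at h3
    have hd2 : d = 2 := by
      by_contra hcon
      have : 3 * 3 ≤ d * e := Nat.mul_le_mul (by omega) (by omega)
      omega
    subst hd2
    exact hminus (AschO.plus_of_pure hQ ρ P hpure)
  · rcases hr.eq_two_or_odd' with rfl | hodd
    · exact absurd (rat_plus hnd (by rw [hcard]; decide) hc hζ hrs) hminus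
    · exact Or.inr (Or.inr (Or.inr (Or.inr (Or.inr (Or.inr (Or.inr (Or.inl ⟨F₀, r, P, ζ, hr, hodd, hc, hζ, hrs, heq⟩)))))))
  · exact absurd (symp_plus hQ ho hcard hR habs hcomm) hminus
  · exfalso
    rw [hcard] at hc
    have : 3 ^ 2 ≤ k ^ 2 := Nat.pow_le_pow_left hk 2
    omega
  · exfalso
    rw [hcard] at hc
    by_cases hk2 : k = 2
    · exact hminus (hplus hk2)
    · have h4 : 3 ^ 2 ≤ k ^ t := (Nat.pow_le_pow_left (by omega) 2).trans (Nat.pow_le_pow_right (by omega) ht)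
      omega
  · exact Or.inr (Or.inr (Or.inr (Or.inr (Or.inr (Or.inr (Or.inr (Or.inr h)))))))

end Cfsg.Agent.Lib.ONot
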