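import Cfsg.Agent.Lib.ONot6

/-!
Maximal subgroups of `Ω₁₂⁻`.
-/

set_option autoImplicit false
set_option linter.style.haveILetI false
set_option linter.unusedVariables false
set_option linter.unusedSectionVars false

namespace Cfsg.Agent.Lib.ONot

open Cfsg Cfsg.Geo Module QuadraticMap Cfsg.Agent.Lib.Quad Cfsg.Agent.Lib.OrthMax Cfsg.Agent.Lib.OrthNd
  Cfsg.Agent.Lib.OrthNot Cfsg.Agent.Lib.OrthBridge Cfsg.Agent.Lib.OrthNdBridge
open Cfsg.Agent.Lib.GeoBridge (le)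
open Cfsg.Agent.Lib.AschCore Cfsg.Agent.Lib.AschField Cfsg.Agent.Lib.AschAlg Cfsg.Agent.Lib.AschGroup Cfsg.Agent.Lib.AschMU Cfsg.Agent.Lib.AschGood Cfsg.Agent.Lib.AschNonab
open Cfsg.Agent.Lib.SLNot (eq_inf_of_maximal ne_top_of_card)
open Cfsg.Agent.Lib.TensorGeo (tp tpB tpB_apply form_tp eq_formOfGram tp_smul_left tp_smul_right tp_add_left tp_add_right mem_tensor_iff)
open scoped Matrix MatrixGroups Kronecker

variable {ι : Type} [Fintype ι] [DecidableEq ι] {F : Type*} [Field F] [Fintype F] {Q : QuadraticForm F (ι → F)}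

/-- Members of plus type give a space of plus type. -/
theorem dec_plus_members (hQ : Nd Q) {t k : ℕ} {D : Fin t → Submodule F (ι → F)} (hD : IsOrthogonalMDecomposition ⇑Q k D)
    (hk : Even k) (i₀ : Fin t) (hpl : IsPlusTypeOn ⇑Q (D i₀)) : IsPlusTypeOn ⇑Q ⊤ := by
  classical
  obtain ⟨U, hUD, hU, hUd⟩ := hpl
  have hfr := hD.decomp.decomp.finrank_eq i₀
  obtain ⟨m, hm⟩ := hk
  have hUm : finrank F U = m := by omega
  choose φ hφ using fun i => hD.isometric i₀ i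
  have hφp : ∀ i (x y : D i₀), polar Q ((φ i x : D i) : ι → F) ((φ i y : D i) : ι → F) = polar Q (x : ι → F) (y : ι → F) := by
    intro i x y
    unfold polar
    have h1 : ((φ i x : D i) : ι → F) + ((φ i y : D i) : ι → F) = ((φ i (x + y) : D i) : ι → F) := by rw [map_add]; rfl
    rw [h1, hφ, hφ, hφ]
    rfl
  let b : Basis (Fin m) F U := finBasisOfFinrankEq F U hUm
  let u : Fin m → D i₀ := fun j => ⟨b j, hUD (b j).2⟩
  have hu : LinearIndependent F u := by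
    have h1 : LinearIndependent F (fun j => ((D i₀).subtype (u j))) := by
      exact b.linearIndependent.map' U.subtype (Submodule.ker_subtype U)
    exact h1.of_comp (D i₀).subtype
  let w : Fin t × Fin m → ι → F := fun p => (φ p.1 (u p.2) : ι → F)
  have hli : LinearIndependent F w := by
    rw [Fintype.linearIndependent_iff]
    intro c hc
    rw [Fintype.sum_prod_type] at hc
    have h1 := (iSupIndep_iff_finsetSum_eq_zero_imp_eq_zero D).1 hD.decomp.decomp.indep Finset.univ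
      (fun i => ∑ j, c (i, j) • w (i, j)) (fun i _ => Submodule.sum_mem _ fun j _ => Submodule.smul_mem _ _ (φ i (u j)).2) hc
    rintro ⟨i, j⟩
    have h2 := h1 i (Finset.mem_univ i)
    have h3 : (φ i) (∑ j, c (i, j) • u j) = 0 := by
      apply Subtype.ext
      rw [map_sum]
      simp only [map_smul, Submodule.coe_sum, Submodule.coe_smul, Submodule.coe_zero]
      exact h2
    rw [LinearEquiv.map_eq_zero_iff] at h3
    exact Fintype.linearIndependent_iff.1 hu (fun j => c (i, j)) h3 j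
  refine ⟨Submodule.span F (Set.range w), le_top, ts_span ?_ ?_, ?_⟩
  · rintro ⟨i, j⟩
    show Q ((φ i (u j) : D i) : ι → F) = 0
    rw [hφ]
    exact hU _ (b j).2
  · rintro ⟨i, j⟩ ⟨i', j'⟩
    show polar Q ((φ i (u j) : D i) : ι → F) ((φ i' (u j') : D i') : ι → F) = 0
    by_cases h : i = i'
    · subst h
      rw [hφp]
      exact polar_of_ts (Q := Q) (U := U) hU (b j).2 (b j').2
    · exact hD.decomp.orthogonal _ _ h _ (φ i (u j)).2 _ (φ i' (u j')).2
  · rw [finrank_span_eq_card hli, Fintype.card_prod, Fintype.card_fin, Fintype.card_fin, finrank_top,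
      Cfsg.Agent.Lib.OrthFrameH94.card_decomp hD.decomp.decomp, hm]
    ring


/-- A tensor product with a plus type factor is of plus type. -/
theorem tensor_plus (hQ : IsNondegenerateQuadraticForm ⇑Q) (h2 : (2 : F) ≠ 0) {d e : ℕ} {ρ : ι ≃ Fin d × Fin e} {P : GL ι F}
    {f₁ : (Fin d → F) → (Fin d → F) → F} {f₂ : (Fin e → F) → (Fin e → F) → F} (hf₁ : IsSymmetricForm f₁) (hf₂ : IsSymmetricForm f₂)
    (hst : IsTensorFormStructure id (QuadraticMap.polar ⇑Q) f₁ f₂ ρ P) (hpl : IsPlusTypeOn (fun v : Fin e → F => f₂ v v) ⊤) :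
    IsPlusTypeOn ⇑Q ⊤ := by
  classical
  obtain ⟨U, -, hU, hUd⟩ := hpl
  rw [finrank_top, Module.finrank_fin_fun] at hUd
  obtain ⟨c, hc0, hc⟩ := hst
  have hform : ∀ x₁ y₁ x₂ y₂, QuadraticMap.polar ⇑Q (tp ρ P x₁ x₂) (tp ρ P y₁ y₂) = c * (f₁ x₁ y₁ * f₂ x₂ y₂) := by
    refine form_tp (σ := id) (fun a b => rfl) ?_ ?_ hc
    · exact eq_formOfGram hf₁.bilinear.add_left hf₁.bilinear.smul_left hf₁.bilinear.add_right
        hf₁.bilinear.smul_right
    · exact eq_formOfGram hf₂.bilinear.add_left hf₂.bilinear.smul_left hf₂.bilinear.add_right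
        hf₂.bilinear.smul_right
  have hUU : ∀ x ∈ U, ∀ y ∈ U, f₂ x y = 0 := by
    intro x hx y hy
    have h3 : f₂ (x + y) (x + y) = 0 := hU _ (U.add_mem hx hy)
    rw [hf₂.bilinear.add_left, hf₂.bilinear.add_right, hf₂.bilinear.add_right, hf₂.symm y x,
      show f₂ x x = 0 from hU x hx, show f₂ y y = 0 from hU y hy] at h3
    have h4 : 2 * f₂ x y = 0 := by linear_combination h3
    exact (mul_eq_zero.1 h4).resolve_left h2
  let b : Basis (Fin (finrank F U)) F U := finBasis F U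
  let w : Fin d × Fin (finrank F U) → ι → F := fun p => tp ρ P (Pi.single p.1 1) (b p.2)
  have hww : ∀ p p', polar Q (w p) (w p') = 0 := by
    intro p p'
    show polar ⇑Q (tp ρ P _ _) (tp ρ P _ _) = 0
    rw [hform, hUU _ (b p.2).2 _ (b p'.2).2]; ring
  have hli : LinearIndependent F w := by
    rw [Fintype.linearIndependent_iff]
    intro a ha
    rw [Fintype.sum_prod_type] at ha
    have h3 : ∑ i, tp ρ P (Pi.single i 1) (∑ j, a (i, j) • (b j : Fin e → F)) = 0 := by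
      rw [← ha]
      refine Finset.sum_congr rfl fun i _ => ?_
      have : tp ρ P (Pi.single i 1) (∑ j, a (i, j) • (b j : Fin e → F)) = tpB ρ P (Pi.single i 1) (∑ j, a (i, j) • (b j : Fin e → F)) := rfl
      rw [this, map_sum]
      refine Finset.sum_congr rfl fun j _ => ?_
      rw [map_smul, tpB_apply]
    have h4 : ∀ i, (∑ j, a (i, j) • (b j : Fin e → F)) = 0 := by
      intro i
      have h5 := congrArg (fun z => ((P⁻¹ : GL ι F) : Matrix ι ι F) *ᵥ z) h3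
      simp only [tp, ← Matrix.mulVec_sum, Matrix.mulVec_mulVec, gl_inv_mul, Matrix.one_mulVec, Matrix.mulVec_zero] at h5
      funext l
      have h6 := congrFun h5 (ρ.symm (i, l))
      simp only [Finset.sum_apply, Function.comp_apply, Equiv.apply_symm_apply, Pi.zero_apply] at h6
      rw [Finset.sum_eq_single i] at h6
      · simpa using h6
      · intro i' _ hi'
        rw [Pi.single_eq_of_ne hi'.symm, zero_mul]
      · intro h; exact absurd (Finset.mem_univ i) h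
    rintro ⟨i, j⟩
    have h7 : ∑ j, a (i, j) • b j = 0 := by
      apply Subtype.ext
      simpa using h4 i
    exact Fintype.linearIndependent_iff.1 b.linearIndependent (fun j => a (i, j)) h7 j
  refine ⟨Submodule.span F (Set.range w), le_top, ts_span (Q := Q) ?_ hww, ?_⟩
  · intro p
    have h3 := hww p p
    rw [polar_self'] at h3
    exact (mul_eq_zero.1 h3).resolve_left h2
  · rw [finrank_span_eq_card hli, Fintype.card_prod, Fintype.card_fin, Fintype.card_fin, finrank_top, finrank_fun,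
      Fintype.card_congr ρ, Fintype.card_prod, Fintype.card_fin, Fintype.card_fin]
    calc 2 * (d * finrank F U) = d * (2 * finrank F U) := by ring
      _ = d * e := by rw [hUd]

/-- The list for `Ω₁₂⁻`. -/
theorem twelve_minus_list (Q : (Fin 12 → F) → F) (hQ : Cfsg.Geo.IsNondegenerateQuadraticForm Q) (hminus : ¬ Cfsg.Geo.IsPlusTypeOn Q ⊤) (H : Subgroup (Matrix.GeneralLinearGroup (Fin 12) F)) (hH : Cfsg.Geo.IsMaximalIn (Cfsg.Geo.omegaGL Q) H) :
    (∃ W : Submodule F (Fin 12 → F), W ≠ ⊥ ∧ Cfsg.Geo.IsTotallySingularQuad Q W ∧ H = Cfsg.Geo.subspaceStabilizer W ⊓ Cfsg.Geo.omegaGL Q) ∨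
    (Odd (Fintype.card F) ∧ ∃ W : Submodule F (Fin 12 → F), W ≠ ⊥ ∧ W ≠ ⊤ ∧ Odd (Module.finrank F W) ∧ 2 * Module.finrank F W ≠ 12 ∧ Cfsg.Geo.IsNondegenerateOn (QuadraticMap.polar Q) W ∧ H = Cfsg.Geo.subspaceStabilizer W ⊓ Cfsg.Geo.omegaGL Q) ∨
    (∃ W : Submodule F (Fin 12 → F), Module.finrank F W = 2 ∧ Cfsg.Geo.IsNondegenerateOn (QuadraticMap.polar Q) W ∧ ¬ Cfsg.Geo.IsPlusTypeOn Q W ∧ H = Cfsg.Geo.subspaceStabilizer W ⊓ Cfsg.Geo.omegaGL Q) ∨
    (4 ≤ Fintype.card F ∧ ∃ W : Submodule F (Fin 12 → F), Module.finrank F W = 2 ∧ Cfsg.Geo.IsNondegenerateOn (QuadraticMap.polar Q) W ∧ Cfsg.Geo.IsPlusTypeOn Q W ∧ H = Cfsg.Geo.subspaceStabilizer W ⊓ Cfsg.Geo.omegaGL Q) ∨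
    (∃ W : Submodule F (Fin 12 → F), Module.finrank F W = 4 ∧ Cfsg.Geo.IsNondegenerateOn (QuadraticMap.polar Q) W ∧ H = Cfsg.Geo.subspaceStabilizer W ⊓ Cfsg.Geo.omegaGL Q) ∨
    (∃ W : Submodule F (Fin 12 → F), Module.finrank F W = 6 ∧ Cfsg.Geo.IsNondegenerateOn (QuadraticMap.polar Q) W ∧ H = Cfsg.Geo.subspaceStabilizer W ⊓ Cfsg.Geo.omegaGL Q) ∨
    (¬ Odd (Fintype.card F) ∧ ∃ v : (Fin 12 → F), Q v ≠ 0 ∧ H = Cfsg.Geo.subspaceStabilizer (Submodule.span F {v}) ⊓ Cfsg.Geo.omegaGL Q) ∨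
    (∃ D : Fin 3 → Submodule F (Fin 12 → F), Cfsg.Geo.IsOrthogonalMDecomposition Q 4 D ∧ (∀ i, ¬ Cfsg.Geo.IsPlusTypeOn Q (D i)) ∧ H = Cfsg.Geo.decompositionStabilizer D ⊓ Cfsg.Geo.omegaGL Q) ∨
    (∃ K : Subalgebra F (Matrix (Fin 12) (Fin 12) F), Cfsg.Geo.IsFieldSubalgebra 2 K ∧ H = Cfsg.Geo.subalgebraNormalizer K ⊓ Cfsg.Geo.omegaGL Q) ∨
    (∃ K : Subalgebra F (Matrix (Fin 12) (Fin 12) F), Cfsg.Geo.IsFieldSubalgebra 3 K ∧ H = Cfsg.Geo.subalgebraNormalizer K ⊓ Cfsg.Geo.omegaGL Q) ∨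
    (Odd (Fintype.card F) ∧ 5 ≤ Fintype.card F ∧ ∃ (e : Fin 12 ≃ Fin 3 × Fin 4) (P : Matrix.GeneralLinearGroup (Fin 12) F) (f₁ : (Fin 3 → F) → (Fin 3 → F) → F) (f₂ : (Fin 4 → F) → (Fin 4 → F) → F), Cfsg.Geo.IsSymmetricForm f₁ ∧ Cfsg.Geo.IsSymmetricForm f₂ ∧ ¬ Cfsg.Geo.IsPlusTypeOn (fun v : Fin 4 → F => f₂ v v) ⊤ ∧ Cfsg.Geo.IsTensorFormStructure id (QuadraticMap.polar Q) f₁ f₂ e P ∧ H = Cfsg.Geo.tensorProductSubgroup 3 4 e P ⊓ Cfsg.Geo.omegaGL Q) ∨
    (∃ (F₀ : Subfield F) (r : ℕ) (P : Matrix.GeneralLinearGroup (Fin 12) F) (ζ : F), r.Prime ∧ Odd r ∧ Fintype.card F = Nat.card F₀ ^ r ∧ ζ ≠ 0 ∧ Cfsg.Geo.IsQuadFormRationalStructure (fun v : Fin 12 → F => ζ * Q v) F₀ P ∧ H = Cfsg.Geo.subfieldSubgroup F₀ P ⊓ Cfsg.Geo.omegaGL Q) ∨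
    Cfsg.Geo.InOrthogonalResidualClass H := by
  classical
  let q : QuadraticForm F (Fin 12 → F) := qf hQ
  have hcard : Fintype.card (Fin 12) = 12 := Fintype.card_fin 12
  have hnd : Nd q := nd_qf hQ
  have hgen : GenHyp q := Or.inr (Or.inl (by rw [finrank_fun]; omega))
  have hHi : H ≤ isometryGroup F Q := hH.1.le.trans AschO.omega_le
  have hdec3 : ∀ D : Fin 3 → Submodule F (Fin 12 → F), IsOrthogonalMDecomposition Q 4 D → H ≤ decompositionStabilizer D →
      ∃ D : Fin 3 → Submodule F (Fin 12 → F), Cfsg.Geo.IsOrthogonalMDecomposition Q 4 D ∧ (∀ i, ¬ Cfsg.Geo.IsPlusTypeOn Q (D i)) ∧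
        H = Cfsg.Geo.decompositionStabilizer D ⊓ Cfsg.Geo.omegaGL Q := by
    intro D hD hle
    exact ⟨D, hD, fun i hpl => hminus (dec_plus_members (Q := q) hnd hD (by decide) i hpl),
      eq_inf_of_maximal hH hle (not_le_dec hnd hgen (by omega) hD.decomp.decomp (Or.inr (by omega)))⟩
  rcases omax (Q := q) hQ (by omega) (by omega) hH with ⟨W, h0, hs, heq⟩ | ⟨W, h0, h1, hs, heq⟩ | ⟨v, h2', hv, heq⟩ | ⟨t, k, D, ht, htk, hD, heq⟩ |
    ⟨k, D, htk, hD, hs, heq⟩ | ⟨r, K, hr, hrn, hne, hK, hsa, heq⟩ | ⟨K, hrn, hK, hac, hns, hsim, heq⟩ |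
    ⟨d, e, ρ, P, f₁, f₂, ho, hd, hde, hf₁, hf₂, hst, heq⟩ | ⟨d, e, ρ, P, f₁, f₂, hd, hde, hf₁, hf₂, hst, hpure, heq⟩ |
    ⟨F₀, r, P, ζ, hr, hc, hζ, hrs, heq⟩ | ⟨R, k, ho, hR, habs, hcomm, hk⟩ | ⟨k, e, P, f₁, ho, hk, hne, hc, hf₁, hst, heq⟩ |
    ⟨k, t, hk, ht, hc, hev, hplus⟩ | h
  · exact Or.inl ⟨W, h0, hs, heq⟩
  · obtain ⟨W, h0, h1, hs, heq, hpos, hle⟩ := nd_wlog hnd (by omega) hH h0 h1 hs heq
    rcases Nat.even_or_odd (finrank F W) with hev | hod
    · obtain hd | hd | hd : finrank F W = 2 ∨ finrank F W = 4 ∨ finrank F W = 6 := by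
        obtain ⟨c, hc⟩ := hev
        omega
      · by_cases hpl : IsPlusTypeOn Q W
        · exact Or.inr (Or.inr (Or.inr (Or.inl ⟨plane_cases hnd (by omega) hH hs hd heq hpl, W, hd, hs, hpl, heq⟩)))
        · exact Or.inr (Or.inr (Or.inl ⟨W, hd, hs, hpl, heq⟩))
      · exact Or.inr (Or.inr (Or.inr (Or.inr (Or.inl ⟨W, hd, hs, heq⟩))))
      · exact Or.inr (Or.inr (Or.inr (Or.inr (Or.inr (Or.inl ⟨W, hd, hs, heq⟩)))))
    · exact Or.inr (Or.inl ⟨odd_of_nd_odd (Q := q) hs hod, W, h0, h1, hod, by obtain ⟨c, hc⟩ := hod; omega, hs, heq⟩)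
  · exact Or.inr (Or.inr (Or.inr (Or.inr (Or.inr (Or.inr (Or.inl ⟨not_odd_of_two h2', v, hv, heq⟩))))))
  · have hdvd : t ∣ 12 := Dvd.intro _ (by rw [htk, hcard])
    have hle := Nat.le_of_dvd (by norm_num) hdvd
    rcases Nat.even_or_odd t with hev | hod
    · exfalso
      obtain ⟨s, hs⟩ := hev
      have hs' : t = 2 * s := by omega
      subst hs'
      apply hminus
      refine dec_plus hnd hD ⟨3, ?_⟩
      have : 2 * s * k = 2 * (s * k) := by ring
      omega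
    · have ht3 : t = 3 := by
        obtain ⟨c, hc⟩ := hod
        have hdvd' : t ∣ 3 := by
          have hco : Nat.Coprime t 4 := by
            have h4 : Nat.Coprime t (2 ^ 2) := Nat.Coprime.pow_right 2 (Nat.coprime_two_right.2 ⟨c, hc⟩)
            exact h4
          exact hco.dvd_of_dvd_mul_right (show t ∣ 3 * 4 from hdvd)
        have := Nat.le_of_dvd (by norm_num) hdvd'
        omega
      subst ht3
      have hk4 : k = 4 := by omega
      subst hk4
      exact Or.inr (Or.inr (Or.inr (Or.inr (Or.inr (Or.inr (Or.inr (Or.inl (hdec3 D hD (by rw [heq]; exact inf_le_left)))))))))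
  · exact absurd (sing_plus htk hD hs) hminus
  · have hr23 : r = 2 ∨ r = 3 := by
      have h1 : r ∣ 2 ^ 2 * 3 := by rw [hcard] at hrn; exact hrn
      rcases (Nat.Prime.dvd_mul hr).1 h1 with h | h
      · exact Or.inl ((Nat.prime_dvd_prime_iff_eq hr Nat.prime_two).1 (hr.dvd_of_dvd_pow h))
      · exact Or.inr ((Nat.prime_dvd_prime_iff_eq hr Nat.prime_three).1 h)
    rcases hr23 with rfl | rfl
    · exact Or.inr (Or.inr (Or.inr (Or.inr (Or.inr (Or.inr (Or.inr (Or.inr (Or.inl ⟨K, hK, heq⟩))))))))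
    · exact Or.inr (Or.inr (Or.inr (Or.inr (Or.inr (Or.inr (Or.inr (Or.inr (Or.inr (Or.inl ⟨K, hK, heq⟩)))))))))
  · exact Or.inr (Or.inr (Or.inr (Or.inr (Or.inr (Or.inr (Or.inr (Or.inr (Or.inl ⟨K, hK, heq⟩))))))))
  · have h3 := Fintype.card_congr ρ
    rw [Fintype.card_prod, Fintype.card_fin, Fintype.card_fin, Fintype.card_fin] at h3
    have hd3 : d = 3 := by
      by_contra hcon
      have : 4 * 4 ≤ d * e := Nat.mul_le_mul (by omega) (by omega)
      omega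
    subst hd3
    have he4 : e = 4 := by omega
    subst he4
    by_cases hq : Fintype.card F = 3
    · obtain ⟨D, hD, hle'⟩ := AschO.tsym3_dec hq hQ hHi (by omega) hf₁ hf₂ hst (by rw [heq]; exact inf_le_left)
      exact Or.inr (Or.inr (Or.inr (Or.inr (Or.inr (Or.inr (Or.inr (Or.inl (hdec3 D hD hle'))))))))
    · exact Or.inr (Or.inr (Or.inr (Or.inr (Or.inr (Or.inr (Or.inr (Or.inr (Or.inr (Or.inr (Or.inl
        ⟨ho, card_ge_five ho hq, ρ, P, f₁, f₂, hf₁, hf₂,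
          fun hpl => hminus (tensor_plus (Q := q) hQ (AschSp.two_ne_of_odd ho) hf₁ hf₂ hst hpl), hst, heq⟩))))))))))
  · exfalso
    have h3 := Fintype.card_congr ρ
    rw [Fintype.card_prod, Fintype.card_fin, Fintype.card_fin, Fintype.card_fin] at h3
    have hd2 : d = 2 := by
      by_contra hcon
      obtain ⟨c, hc⟩ := AschO.even_of_symp hf₁
      have : 4 * 4 ≤ d * e := Nat.mul_le_mul (by omega) (by omega)
      omega
    subst hd2
    exact hminus (AschO.plus_of_pure hQ ρ P hpure)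
  · rcases hr.eq_two_or_odd' with rfl | hodd
    · exact absurd (rat_plus hnd (by rw [hcard]; decide) hc hζ hrs) hminus
    · exact Or.inr (Or.inr (Or.inr (Or.inr (Or.inr (Or.inr (Or.inr (Or.inr (Or.inr (Or.inr (Or.inr (Or.inl
        ⟨F₀, r, P, ζ, hr, hodd, hc, hζ, hrs, heq⟩)))))))))))
  · exfalso
    rw [hcard] at hk
    have h1 : 3 ∣ 2 ^ k := by rw [← hk]; decide
    have := (Nat.prime_dvd_prime_iff_eq Nat.prime_three Nat.prime_two).1 (Nat.prime_three.dvd_of_dvd_pow h1)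
    omega
  · exfalso
    rw [hcard] at hc
    have h1 : k < 4 := by
      by_contra hcon
      have : 4 ^ 2 ≤ k ^ 2 := Nat.pow_le_pow_left (by omega) 2
      omega
    have h2 : k = 3 := by omega
    subst h2
    omega
  · exfalso
    rw [hcard] at hc
    have h1 : k < 4 := by
      by_contra hcon
      have : 4 ^ 2 ≤ k ^ t := (Nat.pow_le_pow_left (by omega) 2).trans (Nat.pow_le_pow_right (by omega) ht)
      omega
    have h2 : k = 2 := by
      obtain ⟨c, hc⟩ := hev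
      omega
    subst h2
    have h1 : 3 ∣ 2 ^ t := by rw [← hc]; decide
    have := (Nat.prime_dvd_prime_iff_eq Nat.prime_three Nat.prime_two).1 (Nat.prime_three.dvd_of_dvd_pow h1)
    omega
  · exact Or.inr (Or.inr (Or.inr (Or.inr (Or.inr (Or.inr (Or.inr (Or.inr (Or.inr (Or.inr (Or.inr (Or.inr h)))))))))))

end Cfsg.Agent.Lib.ONot
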