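import Cfsg.Agent.Lib.ONot7
import Cfsg.Agent.Lib.OrthFrame2H94

/-!
Cancellation for plus type spaces; exclusions.
-/

set_option autoImplicit false
set_option linter.style.haveILetI false
set_option linter.unusedVariables false
set_option linter.unusedSectionVars false

namespace Cfsg.Agent.Lib.ONot

open Cfsg Cfsg.Geo Module QuadraticMap Cfsg.Agent.Lib.Quad Cfsg.Agent.Lib.OrthMax Cfsg.Agent.Lib.OrthNd
  Cfsg.Agent.Lib.OrthNot Cfsg.Agent.Lib.OrthBridge Cfsg.Agent.Lib.OrthNdBridge Cfsg.Agent.Lib.UniRes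
open Cfsg.Agent.Lib.GeoBridge (le)
open Cfsg.Agent.Lib.AschCore Cfsg.Agent.Lib.AschField Cfsg.Agent.Lib.AschAlg Cfsg.Agent.Lib.AschGroup Cfsg.Agent.Lib.AschMU Cfsg.Agent.Lib.AschGood Cfsg.Agent.Lib.AschNonab
open Cfsg.Agent.Lib.SLNot (eq_inf_of_maximal ne_top_of_card)
open scoped Matrix MatrixGroups Kronecker

section cancel
variable {F V : Type*} [Field F] [Finite F] [AddCommGroup V] [Module F V] [FiniteDimensional F V] {Q : QuadraticForm F V}

/-- Cancellation for plus type spaces. -/
theorem cancel (hQ : Nd Q) {m : ℕ} (hm : finrank F V = 2 * m) {U : Submodule F V} (hU : MTS Q m U) {A : Submodule F V} (hA : NDs Q A)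
    {B : Type*} [AddCommGroup B] [Module F B] [FiniteDimensional F B] {QB : QuadraticForm F B} (hB : Nd QB)
    (hd : finrank F A + finrank F B = 2 * m) {U' : Submodule F (A × B)} (hU' : MTS ((res Q A).prod QB) m U') :
    ∃ e : B ≃ₗ[F] perp Q A, ∀ b, Q (e b : V) = QB b := by
  have hA' : Nd (res Q A) := nd_res_of_inf hA
  have hpr : Nd ((res Q A).prod QB) := by
    apply nd_of
    intro x hx
    have h1 : x.1 = 0 := hA'.eq_zero fun y => by
      have := hx (y, 0)
      rwa [polar_prod, polar_zero_right, add_zero] at this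
    have h2 : x.2 = 0 := hB.eq_zero fun y => by
      have := hx (0, y)
      rwa [polar_prod, polar_zero_right, zero_add] at this
    exact Prod.ext h1 h2
  obtain ⟨e₁, he₁⟩ := exists_isometry_plus hQ hm hU
  obtain ⟨e₂, he₂⟩ := exists_isometry_plus hpr (by rw [finrank_prod, hd]) hU'
  let ψ : (A × B) ≃ₗ[F] V := e₂.trans e₁.symm
  have hψ : ∀ x, Q (ψ x) = (res Q A).prod QB x := by
    intro x
    show Q (e₁.symm (e₂ x)) = _
    rw [← he₁, LinearEquiv.apply_symm_apply, he₂]
  have hψp : ∀ x y, polar Q (ψ x) (ψ y) = polar ((res Q A).prod QB) x y := by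
    intro x y
    unfold polar
    rw [← map_add, hψ, hψ, hψ]
  let α : A →ₗ[F] V := ψ.toLinearMap ∘ₗ LinearMap.inl F A B
  have hα : Function.Injective α := ψ.injective.comp LinearMap.inl_injective
  obtain ⟨g, hg, hgα⟩ := hQ.witt A α hα (fun u => by
    show Q (ψ (u, 0)) = _
    rw [hψ, prod_apply, map_zero, add_zero]; rfl)
  let β : B →ₗ[F] V := (g.symm.toLinearMap ∘ₗ ψ.toLinearMap) ∘ₗ LinearMap.inr F A B
  have hβ : ∀ b, g (β b) = ψ (0, b) := fun b => g.apply_symm_apply _
  have hβQ : ∀ b, Q (β b) = QB b := by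
    intro b
    rw [← hg (β b), hβ, hψ, prod_apply, map_zero, zero_add]
  have hβp : ∀ b, β b ∈ perp Q A := by
    intro b
    rw [mem_perp]
    intro w hw
    rw [← O_polar hg, hβ, hgα ⟨w, hw⟩]
    show polar Q (ψ (⟨w, hw⟩, 0)) (ψ (0, b)) = 0
    rw [hψp, polar_prod, polar_zero_right, polar_zero_left, add_zero]
  have hβi : Function.Injective β := by
    intro b b' hbb
    have h1 : ψ (0, b) = ψ (0, b') := by rw [← hβ, ← hβ, hbb]
    exact congrArg Prod.snd (ψ.injective h1)
  have hdp := hQ.finrank_add_finrank_perp A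
  refine ⟨LinearMap.linearEquivOfInjective (β.codRestrict (perp Q A) hβp)
    (fun a b h => hβi (congrArg Subtype.val h)) (by omega), fun b => ?_⟩
  show Q ((β.codRestrict (perp Q A) hβp b : perp Q A) : V) = QB b
  exact hβQ b

/-- Half-dimensional subspaces of a plus type space are isometric to their complements. -/
theorem half_iso (hQ : Nd Q) {m : ℕ} (hm : finrank F V = 2 * m) {U : Submodule F V} (hU : MTS Q m U) {W : Submodule F V} (hW : NDs Q W)
    (hWd : finrank F W = m) (hev : Even m) : ∃ e : W ≃ₗ[F] perp Q W, ∀ w : W, Q (e w : V) = Q (w : V) := by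
  have hW' : Nd (res Q W) := nd_res_of_inf hW
  obtain ⟨T, hT⟩ := exists_neg_isometry hW' (by rw [hWd]; exact hev)
  let φ : W →ₗ[F] W × W := LinearMap.prod LinearMap.id T.toLinearMap
  have hφ : Function.Injective φ := fun a b h => congrArg Prod.fst h
  exact cancel hQ hm hU hW (QB := res Q W) hW' (by omega) (U' := LinearMap.range φ)
    ⟨by rw [LinearMap.finrank_range_of_inj hφ, hWd], by
      rintro _ ⟨w, rfl⟩
      show (res Q W).prod (res Q W) (w, T w) = 0
      rw [prod_apply, hT, add_neg_cancel]⟩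

/-- The complement of a plus type subspace in a plus type space is of plus type. -/
theorem plus_cancel (hQ : Nd Q) {m a : ℕ} (hm : finrank F V = 2 * m) {U : Submodule F V} (hU : MTS Q m U) {A : Submodule F V} (hA : NDs Q A)
    (ha : finrank F A = 2 * a) {U₁ : Submodule F V} (hU₁A : U₁ ≤ A) (hU₁ : ∀ u ∈ U₁, Q u = 0) (hU₁d : finrank F U₁ = a) :
    ∃ U₂ ≤ perp Q A, (∀ u ∈ U₂, Q u = 0) ∧ finrank F U₂ + a = m := by
  have hle := Submodule.finrank_le A
  have h1 := mts_std (F := F) (m := m - a)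
  let S : Submodule F A := U₁.comap A.subtype
  have hS : finrank F S = a := by
    rw [← hU₁d]
    exact (Submodule.comapSubtypeEquivOfLe hU₁A).finrank_eq
  set U₀ := LinearMap.ker (LinearMap.funLeft F F (Sum.inr : Fin (m - a) → Fin (m - a) ⊕ Fin (m - a))) with hU₀
  let j₁ : (S × U₀) →ₗ[F] A × (Fin (m - a) ⊕ Fin (m - a) → F) := LinearMap.prodMap S.subtype U₀.subtype
  have hj₁ : Function.Injective j₁ := by
    intro x y hxy
    have h2 : ((x.1 : S) : A) = y.1 := congrArg Prod.fst hxy
    have h3 : ((x.2 : U₀) : Fin (m - a) ⊕ Fin (m - a) → F) = y.2 := congrArg Prod.snd hxy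
    exact Prod.ext (Subtype.ext h2) (Subtype.ext h3)
  obtain ⟨e, he⟩ := cancel hQ hm hU hA (QB := quadPlus (m - a) F) nd_quadPlus (by rw [finrank_plus]; omega)
    (U' := LinearMap.range j₁) ⟨by
      rw [LinearMap.finrank_range_of_inj hj₁, finrank_prod, hS, h1.1]; omega, by
      rintro _ ⟨x, rfl⟩
      show (res Q A).prod (quadPlus (m - a) F) ((x.1 : S), ((x.2 : U₀) : Fin (m - a) ⊕ Fin (m - a) → F)) = 0
      rw [prod_apply, h1.2 _ x.2.2, add_zero]
      exact hU₁ _ x.1.2⟩
  let γ : U₀ →ₗ[F] V := (perp Q A).subtype ∘ₗ e.toLinearMap ∘ₗ U₀.subtype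
  have hγ : Function.Injective γ := (Submodule.subtype_injective _).comp (e.injective.comp (Submodule.subtype_injective _))
  refine ⟨LinearMap.range γ, ?_, ?_, ?_⟩
  · rintro _ ⟨x, rfl⟩
    exact (e x).2
  · rintro _ ⟨u, rfl⟩
    show Q (e u : V) = 0
    rw [he]
    exact h1.2 u u.2
  · rw [LinearMap.finrank_range_of_inj hγ, h1.1]
    omega

end cancel


variable {ι : Type} [Fintype ι] [DecidableEq ι] {F : Type*} [Field F] [Fintype F] {Q : QuadraticForm F (ι → F)}

lemma not_between {H : Subgroup (GL ι F)} (hH : IsMaximalIn (omegaGL ⇑Q) H) {S : Subgroup (GL ι F)} (heq : H = S ⊓ omegaGL ⇑Q)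
    (h : ∃ K : Subgroup (GL ι F), S ⊓ omegaGL ⇑Q < K ∧ K < omegaGL ⇑Q) : False := by
  obtain ⟨K, h1, h2⟩ := h
  rcases hH.2 K (heq.le.trans h1.le) h2.le with h | h
  · rw [← heq, h] at h1; exact lt_irrefl _ h1
  · rw [h] at h2; exact lt_irrefl _ h2

/-- Totally singular subspaces of dimension one less than the maximum do not give maximal subgroups. -/
lemma submax_false (hnd : Nd Q) (h7 : 7 ≤ Fintype.card ι) {m : ℕ} (hm : Fintype.card ι = 2 * m) (hpl : IsPlusTypeOn ⇑Q ⊤)
    {H : Subgroup (GL ι F)} (hH : IsMaximalIn (omegaGL ⇑Q) H) {W : Submodule F (ι → F)} (h0 : W ≠ ⊥) (hs : IsTotallySingularQuad ⇑Q W)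
    (hd : finrank F W + 1 = m) (heq : H = subspaceStabilizer W ⊓ omegaGL ⇑Q) : False := by
  have hgen : GenHyp Q := Or.inr (Or.inl (by rw [finrank_fun]; omega))
  obtain ⟨U₀, -, hU₀, hU₀d⟩ := hpl
  rw [finrank_top, finrank_fun, hm] at hU₀d
  obtain ⟨U, hU, hstab, g, hg, hgU, w, hw, hgw⟩ := submax hnd hgen (by rw [finrank_fun, hm]) h0 hs hd (U₀ := U₀) ⟨by omega, hU₀⟩
  have hU0 : U ≠ ⊥ := by
    rintro rfl
    have := hU.1
    rw [finrank_bot] at this
    omega
  have hU1 : U ≠ ⊤ := by
    rintro rfl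
    have := hU.1
    rw [finrank_top, finrank_fun] at this
    omega
  have h3 : H = subspaceStabilizer U ⊓ omegaGL ⇑Q := by
    refine eq_inf_of_maximal hH ?_ (not_le_subspace hnd hgen (by omega) hU0 hU1)
    intro x hx
    rw [heq] at hx
    rw [Cfsg.Agent.Lib.GeoBridge.mem_subspaceStabilizer_iff']
    exact hstab _ ((mem_omegaGL_iff x).1 hx.2) ((Cfsg.Agent.Lib.GeoBridge.mem_subspaceStabilizer_iff' W x).1 hx.1)
  have h4 : le.symm g ∈ H := by
    rw [h3]
    refine ⟨(Cfsg.Agent.Lib.GeoBridge.mem_subspaceStabilizer_iff' U _).2 ?_, (mem_omegaGL_iff _).2 ?_⟩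
    · rw [MulEquiv.apply_symm_apply]; exact hgU
    · rw [MulEquiv.apply_symm_apply]; exact hg
  rw [heq] at h4
  have h5 := (Cfsg.Agent.Lib.GeoBridge.mem_subspaceStabilizer_iff' W _).1 h4.1 w hw
  rw [MulEquiv.apply_symm_apply] at h5
  exact hgw h5

/-- A stabiliser of a subspace isometric to its complement preserves the decomposition. -/
lemma dec_of_iso (hnd : Nd Q) (h7 : 7 ≤ Fintype.card ι) {H : Subgroup (GL ι F)} (hH : IsMaximalIn (omegaGL ⇑Q) H)
    {W : Submodule F (ι → F)} {m : ℕ} (hm : Fintype.card ι = 2 * m) (hd : finrank F W = m)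
    (hs : IsNondegenerateOn (QuadraticMap.polar ⇑Q) W) (heq : H = subspaceStabilizer W ⊓ omegaGL ⇑Q) :
    IsNondegenerateMDecomposition (QuadraticMap.polar ⇑Q) m ![W, perp Q W] ∧
      H = decompositionStabilizer ![W, perp Q W] ⊓ omegaGL ⇑Q := by
  have hgen : GenHyp Q := Or.inr (Or.inl (by rw [finrank_fun]; omega))
  have hQ : IsNondegenerateQuadraticForm ⇑Q := by
    refine ⟨fun c v => ?_, ⟨?_, ?_, ?_, ?_⟩, ?_⟩
    · rw [Q_smul]; ring
    · intro x y v; exact polar_add_left Q x y v
    · intro c x v; exact polar_smul_left Q c x v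
    · intro v x y; exact polar_add_right Q v x y
    · intro c v x; exact polar_smul_right Q c v x
    · intro v hv
      by_contra hcon
      apply hv
      rw [not_and_or] at hcon
      rcases hcon with h0 | h0
      · push Not at h0
        exact hnd.eq_zero (fun x => by rw [polar_comm]; exact h0 x)
      · push Not at h0
        exact hnd.eq_zero h0
  have hdp := hnd.finrank_add_finrank_perp W
  rw [finrank_fun] at hdp
  have hD : IsNondegenerateMDecomposition (QuadraticMap.polar ⇑Q) m ![W, perp Q W] := by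
    refine AschO.o_decomp hQ (by norm_num) (by omega) (by rw [hm]) ?_ ?_ ?_
    · intro i; fin_cases i
      · exact hd
      · show finrank F (perp Q W) = m
        omega
    · intro i; fin_cases i
      · exact hs
      · exact nondeg_of_nds (nds_perp hnd (nds_of_nondeg hs)) hnd
    · intro i j hij
      fin_cases i <;> fin_cases j
      · exact absurd rfl hij
      · intro u hu v hv; exact mem_perp.1 hv u hu
      · intro u hu v hv
        show polar Q u v = 0
        rw [polar_comm]; exact mem_perp.1 hu v hv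
      · exact absurd rfl hij
  refine ⟨hD, eq_inf_of_maximal hH ?_ (not_le_dec hnd hgen (by omega) hD.decomp (Or.inr (by omega)))⟩
  intro g hg
  have hg' := hg
  rw [heq] at hg'
  have h1 := (Cfsg.Agent.Lib.GeoBridge.mem_subspaceStabilizer_iff' W g).1 hg'.1
  refine ⟨1, fun i => ?_⟩
  fin_cases i
  · exact map_eq_of_stab (g := le g) h1
  · exact map_eq_of_stab (g := le g) (stab_perp (mem_om hg'.2) h1)


open Cfsg.Agent.Lib.OrthFrameH94 Cfsg.Agent.Lib.OrthFrame2H94 in
lemma planes_ne_three (hnd : Nd Q) (h7 : 7 ≤ Fintype.card ι) {H : Subgroup (GL ι F)} (hH : IsMaximalIn (omegaGL ⇑Q) H)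
    {t : ℕ} (ht : 5 ≤ t) {D : Fin t → Submodule F (ι → F)} (hD : IsOrthogonalMDecomposition ⇑Q 2 D)
    (heq : H = decompositionStabilizer D ⊓ omegaGL ⇑Q) : Fintype.card F ≠ 3 := by
  intro hq
  have hnds := nds_of_nondeg (hD.decomp.nondegenerate ⟨0, by omega⟩)
  obtain ⟨c, hc, hfr⟩ := frp_three_two hq hnd hnds (hD.decomp.decomp.finrank_eq _)
  exact not_between hH heq (frame_not_max hnd (by rw [finrank_fun]; omega) le_rfl hD ht (O33.two_ne_zero' hq) hc hfr)

lemma card_ne_six : Fintype.card F ≠ 6 := by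
  intro h
  obtain ⟨p, _, n, hp, hcard⟩ := FiniteField.card' F
  rw [h] at hcard
  have h2 : 2 ∣ p ^ (n : ℕ) := by rw [← hcard]; decide
  have h3 : 3 ∣ p ^ (n : ℕ) := by rw [← hcard]; decide
  have e2 := (Nat.prime_dvd_prime_iff_eq Nat.prime_two hp).1 (Nat.prime_two.dvd_of_dvd_pow h2)
  have e3 := (Nat.prime_dvd_prime_iff_eq Nat.prime_three hp).1 (Nat.prime_three.dvd_of_dvd_pow h3)
  omega

open Cfsg.Agent.Lib.OrthFrameH94 Cfsg.Agent.Lib.OrthFrame2H94 in
lemma planes_plus_ge (hnd : Nd Q) (h7 : 7 ≤ Fintype.card ι) {H : Subgroup (GL ι F)} (hH : IsMaximalIn (omegaGL ⇑Q) H)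
    {t : ℕ} (ht : 5 ≤ t) {D : Fin t → Submodule F (ι → F)} (hD : IsOrthogonalMDecomposition ⇑Q 2 D)
    (heq : H = decompositionStabilizer D ⊓ omegaGL ⇑Q) (hpl : ∀ i, IsPlusTypeOn ⇑Q (D i)) : 7 ≤ Fintype.card F := by
  have h5 : 5 ≤ finrank F (ι → F) := by rw [finrank_fun]; omega
  by_contra hcon
  have h1 := Fintype.one_lt_card (α := F)
  have h6 := card_ne_six (F := F)
  have h3 := planes_ne_three hnd h7 hH ht hD heq
  obtain hq | hq | hq : Fintype.card F = 2 ∨ Fintype.card F = 4 ∨ Fintype.card F = 5 := by omega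
  · exact not_between hH heq (case_two_two hq hnd h5 hD (by omega) hpl)
  · exact not_between hH heq (case_four_two hq hnd h5 hD (by omega) hpl)
  · have hnds := nds_of_nondeg (hD.decomp.nondegenerate ⟨0, by omega⟩)
    obtain ⟨U, hUW, hU, hUd⟩ := hpl ⟨0, by omega⟩
    rw [hD.decomp.decomp.finrank_eq] at hUd
    have hU0 : U ≠ ⊥ := by
      rintro rfl
      rw [finrank_bot] at hUd
      omega
    obtain ⟨e, he, he0⟩ := Submodule.exists_mem_ne_zero_of_ne_bot hU0
    have hfr := frp_five_two hq hnd hnds (hD.decomp.decomp.finrank_eq _) (hUW he) he0 (hU e he)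
    have h2 : (2 : F) ≠ 0 := AschSp.two_ne_of_odd (by rw [hq]; decide)
    exact not_between hH heq (frame_not_max hnd h5 le_rfl hD ht h2 one_ne_zero hfr)

/-- Isometric members have the same type. -/
lemma plus_of_isom {A B : Submodule F (ι → F)} (h : AreIsometricFor ⇑Q A B) (hA : IsPlusTypeOn ⇑Q A) : IsPlusTypeOn ⇑Q B := by
  obtain ⟨φ, hφ⟩ := h
  obtain ⟨U, hUA, hU, hUd⟩ := hA
  let γ : U →ₗ[F] (ι → F) := B.subtype ∘ₗ φ.toLinearMap ∘ₗ Submodule.inclusion hUA
  have hγ : Function.Injective γ := (Submodule.subtype_injective _).comp (φ.injective.comp (Submodule.inclusion_injective hUA))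
  refine ⟨LinearMap.range γ, ?_, ?_, ?_⟩
  · rintro _ ⟨x, rfl⟩
    exact (φ (Submodule.inclusion hUA x)).2
  · rintro _ ⟨x, rfl⟩
    show Q (φ (Submodule.inclusion hUA x) : ι → F) = 0
    rw [hφ]
    exact hU x x.2
  · rw [LinearMap.finrank_range_of_inj hγ, hUd, φ.finrank_eq]


/-- A criterion for preserving a decomposition. -/
lemma le_dec_of {s k : ℕ} {D : Fin s → Submodule F (ι → F)} (hD : IsMDecomposition k D) {H : Subgroup (GL ι F)}
    (h : ∀ g ∈ H, ∀ a, ∃ b, ∀ x ∈ D a, (g : Matrix ι ι F) *ᵥ x ∈ D b) : H ≤ decompositionStabilizer D := by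
  intro g hg
  choose π hπ using h g hg
  have hmap : ∀ a, (D a).map (Matrix.toLin' (g : Matrix ι ι F)) = D (π a) := by
    intro a
    apply Submodule.eq_of_le_of_finrank_eq
    · rintro _ ⟨x, hx, rfl⟩
      exact hπ a x hx
    · rw [AschCore.finrank_map_gl, hD.finrank_eq, hD.finrank_eq]
  have hinj : Function.Injective π := by
    intro a a' haa
    by_contra hne
    have h1 : (D a).map (Matrix.toLin' (g : Matrix ι ι F)) = (D a').map (Matrix.toLin' (g : Matrix ι ι F)) := by
      rw [hmap, hmap, haa]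
    have hgi : Function.Injective (Matrix.toLin' (g : Matrix ι ι F)) := by
      intro x y hxy
      have := congrArg (fun v => ((g⁻¹ : GL ι F) : Matrix ι ι F) *ᵥ v) hxy
      simpa only [Matrix.toLin'_apply, Matrix.mulVec_mulVec, gl_inv_mul, Matrix.one_mulVec] using this
    have h2 := Submodule.map_injective_of_injective hgi h1
    have hD0 : D a ≠ ⊥ := by
      intro h
      have h1 := hD.finrank_eq a
      rw [h, finrank_bot] at h1
      exact hD.pos.ne h1
    obtain ⟨x, hx, hx0⟩ := Submodule.exists_mem_ne_zero_of_ne_bot hD0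
    exact hx0 (dec_disj hD hne hx (by rw [← h2]; exact hx))
  exact ⟨Equiv.ofBijective π (Finite.injective_iff_bijective.1 hinj), hmap⟩

lemma finrank_pair {V : Type*} [AddCommGroup V] [Module F V] {u v : V} (h : LinearIndependent F ![u, v]) :
    finrank F (Submodule.span F {u, v}) = 2 := by
  have h1 : Set.range ![u, v] = {u, v} := by
    ext x
    constructor
    · rintro ⟨j, rfl⟩
      fin_cases j <;> simp
    · rintro (rfl | h)
      · exact ⟨0, rfl⟩
      · exact ⟨1, h.symm⟩
  have h2 := finrank_span_eq_card h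
  rwa [h1, Fintype.card_fin] at h2

open Cfsg.Agent.Lib.OrthFrame2H94 (plus_four) in
/-- Over `F₂` a decomposition into plus type four-spaces refines to one into minus type planes. -/
theorem four_refine (hQ : IsNondegenerateQuadraticForm ⇑Q) (hq : Fintype.card F = 2) {t : ℕ} {D : Fin t → Submodule F (ι → F)}
    (hD : IsOrthogonalMDecomposition ⇑Q 4 D) (hpl : ∀ i, IsPlusTypeOn ⇑Q (D i))
    {H : Subgroup (GL ι F)} (hH : H ≤ isometryGroup F ⇑Q) (hle : H ≤ decompositionStabilizer D) :
    ∃ D' : Fin (t * 2) → Submodule F (ι → F), IsOrthogonalMDecomposition ⇑Q 2 D' ∧ (∀ i, ¬ IsPlusTypeOn ⇑Q (D' i)) ∧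
      H ≤ decompositionStabilizer D' := by
  classical
  have hnd : Nd Q := nd_qf hQ
  have ht := hD.decomp.decomp.two_le
  have h2 : (2 : F) = 0 := by
    have := FiniteField.cast_card_eq_zero F
    rw [hq] at this
    exact_mod_cast this
  have hF : ∀ a : F, a = 0 ∨ a = 1 := by
    intro a
    by_contra hcon
    rw [not_or] at hcon
    have h3 : ({0, 1, a} : Finset F).card = 3 := by
      rw [Finset.card_insert_of_notMem, Finset.card_insert_of_notMem, Finset.card_singleton]
      · rw [Finset.mem_singleton]; exact fun h => hcon.2 h.symm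
      · rw [Finset.mem_insert, Finset.mem_singleton]; push Not; exact ⟨zero_ne_one, fun h => hcon.1 h.symm⟩
    have h4 := Finset.card_le_univ ({0, 1, a} : Finset F)
    omega
  have hpf := fun i => plus_four hnd h2 hF (nds_of_nondeg (hD.decomp.nondegenerate i)) (hD.decomp.decomp.finrank_eq i) (hpl i)
  choose a a' c haD ha'D hcD hc0 hQa hQa' haa' hac ha'c hdich using hpf
  let P : Fin t × Fin 2 → Submodule F (ι → F) := fun p =>
    if p.2 = 0 then Submodule.span F {a p.1, a' p.1} else D p.1 ⊓ perp Q (Submodule.span F {a p.1, a' p.1})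
  have hP0 : ∀ i, P (i, 0) = Submodule.span F {a i, a' i} := fun i => if_pos rfl
  have hP1 : ∀ i, P (i, 1) = D i ⊓ perp Q (Submodule.span F {a i, a' i}) := fun i => if_neg (show ¬ (1 : Fin 2) = 0 by decide)
  have h01 : ∀ j : Fin 2, j = 0 ∨ j = 1 := by decide
  have hPD : ∀ p, P p ≤ D p.1 := by
    rintro ⟨i, j⟩
    rcases h01 j with rfl | rfl
    · rw [hP0, Submodule.span_le]
      rintro x hx
      rcases hx with rfl | hx
      · exact haD i
      · rw [Set.mem_singleton_iff.1 hx]; exact ha'D i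
    · rw [hP1]; exact inf_le_left
  have ha'a : ∀ i, polar Q (a' i) (a i) = 1 := fun i => by rw [polar_comm]; exact haa' i
  have hPQ : ∀ p, ∀ x ∈ P p, x ≠ 0 → Q x = 1 := by
    rintro ⟨i, j⟩ x hx hx0
    rcases h01 j with rfl | rfl
    · rw [hP0, Submodule.mem_span_pair] at hx
      obtain ⟨s, r, rfl⟩ := hx
      rw [Q_add, Q_smul, Q_smul, polar_smul_left, polar_smul_right, hQa, hQa', haa']
      rcases hF s with rfl | rfl <;> rcases hF r with rfl | rfl
      · exact absurd (by simp) hx0
      · simp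
      · simp
      · simp only [smul_eq_mul]; linear_combination h2
    · rw [hP1] at hx
      obtain ⟨hxD, hax, ha'x⟩ := mem_cut.1 hx
      rcases hF (Q x) with h | h
      · exfalso
        have h3 : Q (a i + x) = 1 := by rw [Q_add, hQa, h, hax]; ring
        rcases hdich i (a i + x) ((D i).add_mem (haD i) hxD) h3 with h4 | h4
        · have h5 := h4.2
          rw [polar_add_right, ha'a, ha'x, add_zero] at h5
          exact one_ne_zero h5
        · rw [polar_add_right, polar_add_right, ha'a, ha'x, polar_self', hQa, hax, h2] at h4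
          simp at h4
          exact hx0 h4
      · exact h
  have hPor0 : ∀ i, ∀ x ∈ P (i, 0), ∀ y ∈ P (i, 1), polar Q x y = 0 := by
    intro i x hx y hy
    rw [hP0] at hx
    rw [hP1] at hy
    exact mem_perp.1 hy.2 x hx
  have hPor : ∀ p p', p ≠ p' → ∀ x ∈ P p, ∀ y ∈ P p', polar Q x y = 0 := by
    rintro ⟨i, j⟩ ⟨i', j'⟩ hne x hx y hy
    by_cases hii : i = i'
    · subst hii
      rcases h01 j with rfl | rfl <;> rcases h01 j' with rfl | rfl
      · exact absurd rfl hne
      · exact hPor0 i x hx y hy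
      · rw [polar_comm]; exact hPor0 i y hy x hx
      · exact absurd rfl hne
    · exact hD.decomp.orthogonal i i' hii x (hPD (i, j) hx) y (hPD (i', j') hy)
  have hdi : ∀ i, P (i, 0) ⊓ P (i, 1) = ⊥ := by
    intro i
    rw [eq_bot_iff]
    rintro x ⟨hx0, hx1⟩
    rw [SetLike.mem_coe] at hx0 hx1
    rw [Submodule.mem_bot]
    by_contra hne
    have e0 : a i ∈ P (i, 0) := by rw [hP0]; exact Submodule.subset_span (by simp)
    have e1 : a' i ∈ P (i, 0) := by rw [hP0]; exact Submodule.subset_span (by simp)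
    have h4 := hPor0 i _ e0 x hx1
    have h5 := hPor0 i _ e1 x hx1
    rw [hP0, Submodule.mem_span_pair] at hx0
    obtain ⟨s, r, rfl⟩ := hx0
    rw [polar_add_right, polar_smul_right, polar_smul_right, polar_self', haa', h2] at h4
    rw [polar_add_right, polar_smul_right, polar_smul_right, polar_self', ha'a, h2] at h5
    simp at h4 h5
    exact hne (by rw [h4, h5]; simp)
  have hli : ∀ i, LinearIndependent F ![a i, a' i] := by
    intro i
    rw [LinearIndependent.pair_iff]
    intro s r hsr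
    have h3 := congrArg (fun v => polar Q (a i) v) hsr
    have h4 := congrArg (fun v => polar Q (a' i) v) hsr
    simp only [polar_add_right, polar_smul_right, polar_self', haa', ha'a, h2, zero_mul, smul_zero, zero_add, add_zero,
      smul_eq_mul, mul_one] at h3 h4
    rw [polar_zero_right, mul_zero] at h3 h4
    rw [zero_add] at h3
    rw [add_zero] at h4
    exact ⟨h4, h3⟩
  have hfr0 : ∀ i, finrank F (P (i, 0)) = 2 := by
    intro i
    rw [hP0]
    exact finrank_pair (hli i)
  have hfr : ∀ p, finrank F (P p) = 2 := by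
    rintro ⟨i, j⟩
    rcases h01 j with rfl | rfl
    · exact hfr0 i
    · have h3 := finrank_cut hnd (D i) (a i) (a' i)
      rw [← hP1, hD.decomp.decomp.finrank_eq] at h3
      have h4 := Submodule.finrank_sup_add_finrank_inf_eq (P (i, 0)) (P (i, 1))
      rw [hdi, finrank_bot, hfr0] at h4
      have h5 := Submodule.finrank_mono (sup_le (hPD (i, 0)) (hPD (i, 1)))
      have h6 := hD.decomp.decomp.finrank_eq i
      simp only at h5
      omega
  -- non-degeneracy
  have hpair : ∀ p, ∀ w ∈ P p, w ≠ 0 → ∃ x ∈ P p, polar Q w x ≠ 0 ∧ x ≠ 0 ∧ x ≠ w ∧ ∀ y ∈ P p, ∃ s r : F, y = s • w + r • x := by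
    intro p w hw hw0
    obtain ⟨x, hx, hxw⟩ : ∃ x ∈ P p, x ∉ Submodule.span F {w} := by
      by_contra hcon
      push Not at hcon
      have h3 := Submodule.finrank_mono (show P p ≤ Submodule.span F {w} from hcon)
      rw [hfr, finrank_span_singleton hw0] at h3
      omega
    have hx0 : x ≠ 0 := by rintro rfl; exact hxw (Submodule.zero_mem _)
    have hxne : x ≠ w := by rintro rfl; exact hxw (Submodule.mem_span_singleton_self _)
    have hwx : w + x ≠ 0 := by
      intro h
      apply hxw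
      rw [eq_neg_of_add_eq_zero_right h]
      exact Submodule.neg_mem _ (Submodule.mem_span_singleton_self _)
    refine ⟨x, hx, ?_, hx0, hxne, ?_⟩
    · intro h
      have h3 := hPQ p _ ((P p).add_mem hw hx) hwx
      rw [Q_add, hPQ p w hw hw0, hPQ p x hx hx0, h, add_zero] at h3
      have : (1 : F) = 0 := by linear_combination h3
      exact one_ne_zero this
    · have hli2 : LinearIndependent F ![w, x] := by
        rw [LinearIndependent.pair_iff' hw0]
        intro s hs
        exact hxw (Submodule.mem_span_singleton.2 ⟨s, hs⟩)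
      have h3 : Submodule.span F {w, x} = P p := by
        apply Submodule.eq_of_le_of_finrank_eq
        · rw [Submodule.span_le]
          rintro y (rfl | hy)
          · exact hw
          · rw [Set.mem_singleton_iff.1 hy]; exact hx
        · rw [hfr]
          exact finrank_pair hli2
      intro y hy
      rw [← h3, Submodule.mem_span_pair] at hy
      obtain ⟨s, r, h⟩ := hy
      exact ⟨s, r, h.symm⟩
  let e : Fin t × Fin 2 ≃ Fin (t * 2) := finProdFinEquiv
  let D' : Fin (t * 2) → Submodule F (ι → F) := fun b => P (e.symm b)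
  have hdec : IsNondegenerateMDecomposition (QuadraticMap.polar ⇑Q) 2 D' := by
    refine AschO.o_decomp hQ (by omega) (by norm_num) ?_ (fun b => hfr _) ?_ ?_
    · have := Cfsg.Agent.Lib.OrthFrameH94.card_decomp hD.decomp.decomp
      rw [finrank_fun] at this
      rw [this]; ring
    · intro b w hw hw0
      obtain ⟨x, hx, hwx, -⟩ := hpair _ w hw hw0
      exact ⟨⟨x, hx, by rw [polar_comm]; exact hwx⟩, ⟨x, hx, hwx⟩⟩
    · intro b b' hne x hx y hy
      exact hPor _ _ (fun h => hne (e.symm.injective h)) x hx y hy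
  refine ⟨D', ⟨hdec, fun b b' => ?_⟩, fun b hpl' => ?_, le_dec_of hdec.decomp ?_⟩
  · let φ : D' b ≃ₗ[F] D' b' := LinearEquiv.ofFinrankEq _ _ ((hfr _).trans (hfr _).symm)
    refine ⟨φ, fun w => ?_⟩
    by_cases hw : w = 0
    · rw [hw, map_zero]; simp
    · rw [hPQ _ _ w.2 (fun h => hw (Subtype.ext h)), hPQ _ _ (φ w).2 (fun h => hw (by
        have : φ w = 0 := Subtype.ext h
        rwa [LinearEquiv.map_eq_zero_iff] at this))]
  · obtain ⟨U, hUP, hU, hUd⟩ := hpl'
    rw [show finrank F (D' b) = 2 from hfr _] at hUd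
    have hU0 : U ≠ ⊥ := by
      rintro rfl
      rw [finrank_bot] at hUd
      omega
    obtain ⟨x, hx, hx0⟩ := Submodule.exists_mem_ne_zero_of_ne_bot hU0
    have h3 := hPQ _ x (hUP hx) hx0
    rw [hU x hx] at h3
    exact zero_ne_one h3
  · intro g hg b
    obtain ⟨σ, hσ⟩ := hle hg
    have hgO : le g ∈ O Q := mem_isometryGroup_iff_toLE.1 (hH hg)
    -- vectors of norm one go to members
    have hvec : ∀ p, ∀ x ∈ P p, x ≠ 0 → ∃ j, (g : Matrix ι ι F) *ᵥ x ∈ P (σ p.1, j) := by
      intro p x hx hx0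
      have h3 : (g : Matrix ι ι F) *ᵥ x ∈ D (σ p.1) := by
        rw [← hσ]
        exact ⟨x, hPD p hx, Matrix.toLin'_apply _ _⟩
      have h4 : Q ((g : Matrix ι ι F) *ᵥ x) = 1 := by
        rw [← hPQ p x hx hx0]
        exact hgO x
      rcases hdich _ _ h3 h4 with h5 | h5
      · exact ⟨1, by rw [hP1]; exact mem_cut.2 ⟨h3, h5.1, h5.2⟩⟩
      · refine ⟨0, ?_⟩
        rw [hP0, Submodule.mem_span_pair]
        exact ⟨_, _, h5.symm⟩
    have hPb : P (e.symm b) ≠ ⊥ := by
      intro h
      have := hfr (e.symm b)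
      rw [h, finrank_bot] at this
      omega
    obtain ⟨w, hw, hw0⟩ := Submodule.exists_mem_ne_zero_of_ne_bot hPb
    obtain ⟨x, hx, hwx, hx0, -, hspan⟩ := hpair _ w hw hw0
    obtain ⟨j, hj⟩ := hvec _ w hw hw0
    obtain ⟨j', hj'⟩ := hvec _ x hx hx0
    have hjj : j = j' := by
      by_contra hne
      have h3 := hPor (σ (e.symm b).1, j) (σ (e.symm b).1, j') (fun h => hne (congrArg Prod.snd h)) _ hj _ hj'
      have h4 : polar Q ((g : Matrix ι ι F) *ᵥ w) ((g : Matrix ι ι F) *ᵥ x) = polar Q w x := O_polar hgO w x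
      rw [h3] at h4
      exact hwx h4.symm
    subst hjj
    refine ⟨e (σ (e.symm b).1, j), fun y hy => ?_⟩
    obtain ⟨s, r, rfl⟩ := hspan y hy
    show _ ∈ P (e.symm (e (σ (e.symm b).1, j)))
    rw [Equiv.symm_apply_apply, Matrix.mulVec_add, Matrix.mulVec_smul, Matrix.mulVec_smul]
    exact Submodule.add_mem _ (Submodule.smul_mem _ _ hj) (Submodule.smul_mem _ _ hj')

end Cfsg.Agent.Lib.ONot
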