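import Cfsg.Agent.Lib.ONot8

/-!
Orthogonal groups of plus type in dimension four and tensor products.
-/

set_option autoImplicit false
set_option linter.style.haveILetI false
set_option linter.unusedVariables false
set_option linter.unusedSectionVars false

namespace Cfsg.Agent.Lib.ONot

open Cfsg Cfsg.Geo Module QuadraticMap Cfsg.Agent.Lib.Quad Cfsg.Agent.Lib.OrthMax Cfsg.Agent.Lib.OrthNd
  Cfsg.Agent.Lib.OrthNot Cfsg.Agent.Lib.OrthBridge Cfsg.Agent.Lib.OrthNdBridge Cfsg.Agent.Lib.UniRes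
open Cfsg.Agent.Lib.GeoBridge (le)
open Cfsg.Agent.Lib.AschCore Cfsg.Agent.Lib.AschField Cfsg.Agent.Lib.AschAlg Cfsg.Agent.Lib.AschGroup Cfsg.Agent.Lib.AschMU Cfsg.Agent.Lib.AschGood Cfsg.Agent.Lib.AschNonab
open Cfsg.Agent.Lib.AschAdj Cfsg.Agent.Lib.AschSp
open Cfsg.Agent.Lib.SLNot (eq_inf_of_maximal ne_top_of_card)
open Cfsg.Agent.Lib.TensorGeo (tp tpB tpB_apply form_tp eq_formOfGram tp_smul_left tp_smul_right tp_add_left tp_add_right mem_tensor_iff)
open scoped Matrix MatrixGroups Kronecker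

section so4
variable {F : Type*} [Field F]

/-- the determinant form -/
def dq (F : Type*) [Field F] : QuadraticForm F (Fin 2 × Fin 2 → F) :=
  QuadraticMap.linMulLin (LinearMap.proj (0,0)) (LinearMap.proj (1,1)) - QuadraticMap.linMulLin (LinearMap.proj (0,1)) (LinearMap.proj (1,0))

lemma dq_apply (x : Fin 2 × Fin 2 → F) : dq F x = x (0,0) * x (1,1) - x (0,1) * x (1,0) := by
  simp [dq]

lemma polar_dq (x y : Fin 2 × Fin 2 → F) :
    polar (dq F) x y = x (0,0) * y (1,1) + y (0,0) * x (1,1) - x (0,1) * y (1,0) - y (0,1) * x (1,0) := by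
  unfold polar
  simp only [dq_apply, Pi.add_apply]
  ring

lemma nd_dq : Nd (dq F) := nd_of fun x hx => by
  have h00 := hx (Pi.single (0,0) 1)
  have h01 := hx (Pi.single (0,1) 1)
  have h10 := hx (Pi.single (1,0) 1)
  have h11 := hx (Pi.single (1,1) 1)
  rw [polar_dq] at h00 h01 h10 h11
  simp at h00 h01 h10 h11
  funext ⟨i, j⟩
  fin_cases i <;> fin_cases j <;> simp [h00, h01, h10, h11]

/-- the standard alternating matrix -/
def jj (F : Type*) [Field F] : Matrix (Fin 2) (Fin 2) F := !![0, 1; -1, 0]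

/-- the swap matrix -/
def sw (F : Type*) [Field F] : Matrix (Fin 2 × Fin 2) (Fin 2 × Fin 2) F := Matrix.of fun p r => if p = r.swap then 1 else 0

lemma sw_mul (a b : Matrix (Fin 2) (Fin 2) F) : sw F * (a ⊗ₖ b) = (b ⊗ₖ a) * sw F := by
  ext ⟨i, j⟩ ⟨k, l⟩
  simp only [Matrix.mul_apply, sw, Matrix.of_apply, Matrix.kroneckerMap_apply]
  rw [Finset.sum_eq_single (j, i), Finset.sum_eq_single (l, k)]
  · simp [mul_comm]
  · intro p _ hp
    rw [if_neg (fun h => hp (by rw [h]; rfl)), mul_zero]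
  · simp
  · intro p _ hp
    rw [if_neg (fun h => hp (by rw [← Prod.swap_swap p, ← h]; rfl)), zero_mul]
  · simp

lemma sw_sq : sw F * sw F = 1 := by
  ext ⟨i, j⟩ ⟨k, l⟩
  simp only [Matrix.mul_apply, sw, Matrix.of_apply]
  rw [Finset.sum_eq_single (j, i)]
  · simp only [Prod.swap_prod_mk, Matrix.one_apply, Prod.mk.injEq]
    fin_cases i <;> fin_cases j <;> fin_cases k <;> fin_cases l <;> simp
  · intro p _ hp
    rw [if_neg (fun h => hp (by rw [← Prod.swap_swap p, ← h]; rfl)), zero_mul]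
  · simp

lemma refl_dq {v : Fin 2 × Fin 2 → F} (hv : dq F v ≠ 0) : ∃ a b : Matrix (Fin 2) (Fin 2) F,
    Cfsg.reflectionMatrix ⇑(dq F) v = (a ⊗ₖ b) * sw F := by
  refine ⟨-((dq F v)⁻¹) • ((Matrix.of fun i j => v (i, j)) * jj F), (Matrix.of fun i j => v (j, i)) * jj F, ?_⟩
  apply matrix_ext_of_mulVec
  intro x
  rw [reflectionMatrix_mulVec, refl_apply hv]
  rw [dq_apply] at hv
  funext ⟨i, j⟩
  rw [polar_dq, dq_apply]
  fin_cases i <;> fin_cases j <;>
  · simp [jj, sw, Matrix.mulVec, dotProduct, Matrix.mul_apply, Fintype.sum_prod_type, Fin.sum_univ_two, Matrix.kroneckerMap_apply, Prod.ext_iff]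
    field_simp
    ring

lemma list_dq (vs : List (Fin 2 × Fin 2 → F)) (hvs : ∀ v ∈ vs, dq F v ≠ 0) :
    (Even vs.length → ∃ a b : Matrix (Fin 2) (Fin 2) F, (vs.map (fun v => Cfsg.reflectionMatrix ⇑(dq F) v)).prod = a ⊗ₖ b) ∧
    (¬ Even vs.length → ∃ a b : Matrix (Fin 2) (Fin 2) F, (vs.map (fun v => Cfsg.reflectionMatrix ⇑(dq F) v)).prod = (a ⊗ₖ b) * sw F) := by
  induction vs with
  | nil => exact ⟨fun _ => ⟨1, 1, by simp⟩, fun h => absurd (by simp) h⟩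
  | cons v vs ih =>
    obtain ⟨ih1, ih2⟩ := ih fun w hw => hvs w (by simp [hw])
    obtain ⟨a₀, b₀, h0⟩ := refl_dq (hvs v (by simp))
    rw [List.map_cons, List.prod_cons, List.length_cons, h0]
    constructor
    · intro h
      obtain ⟨a, b, h1⟩ := ih2 (fun h' => by rw [Nat.even_add_one] at h; exact h h')
      refine ⟨a₀ * b, b₀ * a, ?_⟩
      rw [h1, Matrix.mul_assoc, ← Matrix.mul_assoc (sw F), sw_mul, Matrix.mul_assoc, sw_sq, Matrix.mul_one, Matrix.mul_kronecker_mul]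
    · intro h
      obtain ⟨a, b, h1⟩ := ih1 (by rw [Nat.even_add_one, not_not] at h; exact h)
      refine ⟨a₀ * b, b₀ * a, ?_⟩
      rw [h1, Matrix.mul_assoc, sw_mul, ← Matrix.mul_assoc, Matrix.mul_kronecker_mul]

/-- Isometries of determinant one of the determinant form are tensor products. -/
theorem so_four (h2 : (2 : F) ≠ 0) {g : GL (Fin 2 × Fin 2) F} (hg : g ∈ isometryGroup F ⇑(dq F))
    (hdet : (g : Matrix (Fin 2 × Fin 2) (Fin 2 × Fin 2) F).det = 1) : ∃ a b : Matrix (Fin 2) (Fin 2) F,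
    (g : Matrix (Fin 2 × Fin 2) (Fin 2 × Fin 2) F) = a ⊗ₖ b := by
  obtain ⟨vs, hvs, -, h3⟩ := exists_list_matrix nd_dq (genHyp_of_two_ne_zero h2) ⟨g, hg⟩
  have h3' : (g : Matrix (Fin 2 × Fin 2) (Fin 2 × Fin 2) F) = _ := h3
  have hd := det_list (Q := dq F) vs hvs
  rw [← h3', hdet] at hd
  have hev : Even vs.length := by
    by_contra hcon
    rw [Nat.not_even_iff_odd] at hcon
    rw [hcon.neg_one_pow] at hd
    apply h2
    linear_combination hd
  obtain ⟨a, b, hab⟩ := (list_dq vs hvs).1 hev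
  exact ⟨a, b, by rw [h3', hab]⟩

lemma gram_dq : LinearMap.BilinForm.toMatrix (Pi.basisFun F (Fin 2 × Fin 2)) (polarBilin (dq F)) = jj F ⊗ₖ jj F := by
  ext ⟨i, j⟩ ⟨k, l⟩
  rw [LinearMap.BilinForm.toMatrix_apply, Pi.basisFun_apply, Pi.basisFun_apply]
  show polar (dq F) _ _ = _
  rw [polar_dq]
  fin_cases i <;> fin_cases j <;> fin_cases k <;> fin_cases l <;> simp [jj]

lemma polar_dq_dot (x y : Fin 2 × Fin 2 → F) : polar (dq F) x y = x ⬝ᵥ ((jj F ⊗ₖ jj F) *ᵥ y) := by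
  rw [polar_dq]
  simp [dotProduct, Matrix.mulVec, Fintype.sum_prod_type, Fin.sum_univ_two, jj]
  ring

lemma entry_form {κ : Type*} [Fintype κ] [DecidableEq κ] {κ' : Type*} [Fintype κ'] [DecidableEq κ'] (A : Matrix κ κ' F) (M : Matrix κ κ F) (i j : κ') :
    (Aᵀ * M * A) i j = (A *ᵥ Pi.single i 1) ⬝ᵥ (M *ᵥ (A *ᵥ Pi.single j 1)) := by
  rw [Matrix.mulVec_single_one, Matrix.mulVec_single_one, Matrix.mul_assoc, Matrix.mul_apply]
  rfl

end so4

section regroup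

variable {ι : Type} [Fintype ι] [DecidableEq ι] {F : Type*} [Field F] [Fintype F] {Q : QuadraticForm F (ι → F)}

/-- Elements of `Ω` have determinant one. -/
lemma det_one_omega {g : GL ι F} (hg : g ∈ omegaGL ⇑Q) : (g : Matrix ι ι F).det = 1 := by
  have h1 : omegaGL ⇑Q ≤ (Matrix.GeneralLinearGroup.det : GL ι F →* Fˣ).ker := by
    rw [omegaGL, Subgroup.map_le_iff_le_comap]
    unfold Omega
    rw [commutator_def, Subgroup.commutator_le]
    intro a _ b _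
    rw [Subgroup.mem_comap, MonoidHom.mem_ker, commutatorElement_def, map_mul, map_mul, map_mul, map_mul, map_mul, map_mul, map_inv, map_inv,
      map_inv, map_inv]
    exact commutatorElement_eq_one_iff_mul_comm.2 (mul_comm _ _)
  have h2 := h1 hg
  rw [MonoidHom.mem_ker] at h2
  exact congrArg Units.val h2

lemma gm_eq : AschO.gm ⇑Q = LinearMap.BilinForm.toMatrix (Pi.basisFun F ι) (polarBilin Q) := by
  ext i j
  rw [LinearMap.BilinForm.toMatrix_apply, Pi.basisFun_apply, Pi.basisFun_apply]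
  rfl

/-- The discriminant of a plus type form. -/
lemma disc_plus (hQ : Nd Q) {m : ℕ} (hm : Fintype.card ι = 2 * m) (hpl : IsPlusTypeOn ⇑Q ⊤) : IsSquare ((-1) ^ m * (AschO.gm ⇑Q).det) := by
  obtain ⟨U, -, hU, hUd⟩ := hpl
  rw [finrank_top, finrank_fun, hm] at hUd
  obtain ⟨e, he⟩ := exists_isometry_plus hQ (by rw [finrank_fun, hm]) ⟨by omega, hU⟩
  rw [gm_eq]
  have h1 := isSquare_det_mul_det (Pi.basisFun F ι) ((Pi.basisFun F (Fin m ⊕ Fin m)).map e.symm) (polarBilin Q)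
  have h2 : LinearMap.BilinForm.toMatrix ((Pi.basisFun F (Fin m ⊕ Fin m)).map e.symm) (polarBilin Q) =
      LinearMap.BilinForm.toMatrix (Pi.basisFun F (Fin m ⊕ Fin m)) (polarBilin (quadPlus m F)) := by
    ext i j
    rw [LinearMap.BilinForm.toMatrix_apply, LinearMap.BilinForm.toMatrix_apply, Basis.map_apply, Basis.map_apply]
    show polar Q _ _ = polar (quadPlus m F) _ _
    unfold polar
    rw [← he, ← he, ← he, map_add, LinearEquiv.apply_symm_apply, LinearEquiv.apply_symm_apply]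
  rw [h2, det_gram_plus] at h1
  exact h1

/-- the regrouped index equivalence -/
def rgp (ρ : ι ≃ Fin 3 × Fin 4) (ε : Fin 4 ≃ Fin 2 × Fin 2) (ε₆ : Fin 6 ≃ Fin 3 × Fin 2) : ι ≃ Fin 2 × Fin 6 where
  toFun i := ((ε (ρ i).2).1, ε₆.symm ((ρ i).1, (ε (ρ i).2).2))
  invFun p := ρ.symm ((ε₆ p.2).1, ε.symm (p.1, (ε₆ p.2).2))
  left_inv i := by simp
  right_inv p := by simp

lemma rgp_kron (ρ : ι ≃ Fin 3 × Fin 4) (ε : Fin 4 ≃ Fin 2 × Fin 2) (ε₆ : Fin 6 ≃ Fin 3 × Fin 2) (A : Matrix (Fin 3) (Fin 3) F)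
    (α β : Matrix (Fin 2) (Fin 2) F) : kronL ρ A ((α ⊗ₖ β).submatrix ε ε) = kronL (rgp ρ ε ε₆) α ((A ⊗ₖ β).submatrix ε₆ ε₆) := by
  ext i j
  simp only [kronL, rgp, Matrix.reindex_apply, Matrix.submatrix_apply, Matrix.kroneckerMap_apply, Equiv.symm_symm, Equiv.coe_fn_mk,
    Equiv.apply_symm_apply]
  ring

/-- `1 ⊗ T` -/
def oneK (ρ : ι ≃ Fin 3 × Fin 4) (T : GL (Fin 4) F) : GL ι F where
  val := kronL ρ 1 (T : Matrix (Fin 4) (Fin 4) F)
  inv := kronL ρ 1 ((T⁻¹ : GL (Fin 4) F) : Matrix (Fin 4) (Fin 4) F)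
  val_inv := by rw [kronL_mul, mul_one, gl_mul_inv, kronL_one]
  inv_val := by rw [kronL_mul, mul_one, gl_inv_mul, kronL_one]

/-- A tensor decomposition `3 ⊗ 4` of a plus type form refines to `2 ⊗ 6`. -/
theorem tsym_regroup (hQ : IsNondegenerateQuadraticForm ⇑Q) (h2 : (2 : F) ≠ 0) {ρ : ι ≃ Fin 3 × Fin 4} {P : GL ι F}
    {f₁ : (Fin 3 → F) → (Fin 3 → F) → F} {f₂ : (Fin 4 → F) → (Fin 4 → F) → F} (hf₁ : IsSymmetricForm f₁) (hf₂ : IsSymmetricForm f₂)
    (hst : IsTensorFormStructure id (QuadraticMap.polar ⇑Q) f₁ f₂ ρ P) (hpl : IsPlusTypeOn ⇑Q ⊤)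
    {H : Subgroup (GL ι F)} (hH : H ≤ omegaGL ⇑Q) (hle : H ≤ tensorProductSubgroup 3 4 ρ P) :
    ∃ (e : ι ≃ Fin 2 × Fin 6) (P' : GL ι F) (g₁ : (Fin 2 → F) → (Fin 2 → F) → F) (g₂ : (Fin 6 → F) → (Fin 6 → F) → F),
      IsSymplecticForm g₁ ∧ IsSymplecticForm g₂ ∧ IsTensorFormStructure id (QuadraticMap.polar ⇑Q) g₁ g₂ e P' ∧
      (∀ (x₁ : Fin 2 → F) (x₂ : Fin 6 → F), Q ((P' : Matrix ι ι F) *ᵥ ((fun a : Fin 2 × Fin 6 => x₁ a.1 * x₂ a.2) ∘ e)) = 0) ∧
      H ≤ tensorProductSubgroup 2 6 e P' := by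
  classical
  have hnd : Nd Q := nd_qf hQ
  have hcard : Fintype.card ι = 12 := by rw [Fintype.card_congr ρ]; simp
  haveI : Nonempty ι := Fintype.card_pos_iff.1 (by omega)
  obtain ⟨c, hc0, hgr⟩ := AschO.gr_of_structure hQ hst
  set G₁ := gramMatrix f₁ with hG₁
  set G₂ := gramMatrix f₂ with hG₂
  have hu₁ := (AschForms.isSesq_of_bilinear hf₁.bilinear).isUnit_gram hf₁.nondegenerate
  have hu₂ := (AschForms.isSesq_of_bilinear hf₂.bilinear).isUnit_gram hf₂.nondegenerate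
  have hdet₁ : G₁.det ≠ 0 := ((Matrix.isUnit_iff_isUnit_det _).1 hu₁).ne_zero
  have hdet₂ : G₂.det ≠ 0 := ((Matrix.isUnit_iff_isUnit_det _).1 hu₂).ne_zero
  -- the discriminant of the second factor
  have hsq : IsSquare G₂.det := by
    obtain ⟨s, hs⟩ := disc_plus hnd (m := 6) (by omega) hpl
    have h3 := congrArg Matrix.det hgr
    rw [gr, map_rf, Matrix.det_mul, Matrix.det_mul, Matrix.det_transpose, Matrix.det_smul, kronL, Matrix.det_reindex_self,
      Matrix.det_kronecker, Fintype.card_fin, Fintype.card_fin, hcard] at h3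
    refine ⟨(P : Matrix ι ι F).det * s / (c ^ 6 * G₁.det ^ 2 * G₂.det), ?_⟩
    have h4 : (AschO.gm ⇑Q).det = s * s := by linear_combination hs
    rw [h4] at h3
    field_simp
    linear_combination -h3
  -- the isometry of the second factor with the determinant form
  obtain ⟨hq₂, hp₂⟩ := AschO.quad_of_symm h2 hf₂ (one_ne_zero)
  have hq₂g : (LinearMap.BilinForm.toMatrix (Pi.basisFun F (Fin 4)) (QuadraticMap.polarBilin (OrthBridge.qf hq₂))) = (2 : F) • G₂ := by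
    ext i j
    rw [LinearMap.BilinForm.toMatrix_apply, Matrix.smul_apply, smul_eq_mul]
    show QuadraticMap.polar (fun v => 1 * f₂ v v) _ _ = _
    rw [hp₂, Pi.basisFun_apply, Pi.basisFun_apply, mul_one]
    rfl
  obtain ⟨e₂, he₂⟩ := exists_isometry_of_disc h2 (nd_qf hq₂) (nd_dq (F := F)) (by simp) (Pi.basisFun F (Fin 4))
    (Pi.basisFun F (Fin 2 × Fin 2)) (by
      rw [hq₂g, gram_dq, Matrix.det_smul, Matrix.det_kronecker]
      obtain ⟨s, hs⟩ := hsq
      refine ⟨4 * s, ?_⟩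
      simp [jj, Matrix.det_fin_two, hs]; ring)
  have he₂' : ∀ v, dq F (e₂ v) = f₂ v v := fun v => by rw [he₂]; show 1 * f₂ v v = _; rw [one_mul]
  have he₂p : ∀ u v, polar (dq F) (e₂ u) (e₂ v) = 2 * f₂ u v := by
    intro u v
    unfold polar
    rw [← map_add, he₂', he₂', he₂', hf₂.bilinear.add_left, hf₂.bilinear.add_right, hf₂.bilinear.add_right, hf₂.symm v u]
    ring
  let ε : Fin 4 ≃ Fin 2 × Fin 2 := Fintype.equivOfCardEq (by simp)
  let ε₆ : Fin 6 ≃ Fin 3 × Fin 2 := Fintype.equivOfCardEq (by simp)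
  let T : GL (Fin 4) F := GeoBridge.le.symm (e₂.trans (LinearEquiv.funCongrLeft F F ε))
  have hT : ∀ v, (T : Matrix (Fin 4) (Fin 4) F) *ᵥ v = (e₂ v) ∘ ε := by
    intro v
    show ((GeoBridge.le.symm _ : GL (Fin 4) F) : Matrix (Fin 4) (Fin 4) F) *ᵥ v = _
    rw [GeoBridge.le_symm_mulVec]
    rfl
  have hTG : (T : Matrix (Fin 4) (Fin 4) F)ᵀ * ((jj F ⊗ₖ jj F).submatrix ε ε) * (T : Matrix (Fin 4) (Fin 4) F) = (2 : F) • G₂ := by
    ext i j
    have h3 : ((T : Matrix (Fin 4) (Fin 4) F)ᵀ * ((jj F ⊗ₖ jj F).submatrix ε ε) * (T : Matrix (Fin 4) (Fin 4) F)) i j =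
        (e₂ (Pi.single i 1)) ⬝ᵥ ((jj F ⊗ₖ jj F) *ᵥ (e₂ (Pi.single j 1))) := by
      rw [entry_form, hT, hT, Matrix.submatrix_mulVec_equiv, Function.comp_assoc, Equiv.self_comp_symm, Function.comp_id,
        comp_equiv_dotProduct_comp_equiv]
    rw [h3, ← polar_dq_dot, he₂p]
    rfl
  have hTi : ∀ x : Matrix (Fin 4) (Fin 4) F, (T : Matrix (Fin 4) (Fin 4) F)ᵀ * x * (T : Matrix (Fin 4) (Fin 4) F) = (2 : F) • G₂ →
      (((T⁻¹ : GL (Fin 4) F)) : Matrix (Fin 4) (Fin 4) F)ᵀ * G₂ * ((T⁻¹ : GL (Fin 4) F) : Matrix (Fin 4) (Fin 4) F) = (2 : F)⁻¹ • x := by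
    intro x hx
    have h3 : G₂ = (2 : F)⁻¹ • ((T : Matrix (Fin 4) (Fin 4) F)ᵀ * x * (T : Matrix (Fin 4) (Fin 4) F)) := by
      rw [hx, smul_smul, inv_mul_cancel₀ h2, one_smul]
    rw [h3, Matrix.mul_smul, Matrix.smul_mul]
    congr 1
    have h4 : (((T⁻¹ : GL (Fin 4) F)) : Matrix (Fin 4) (Fin 4) F)ᵀ * (T : Matrix (Fin 4) (Fin 4) F)ᵀ = 1 := by
      rw [← Matrix.transpose_mul, gl_mul_inv, Matrix.transpose_one]
    calc _ = ((((T⁻¹ : GL (Fin 4) F)) : Matrix (Fin 4) (Fin 4) F)ᵀ * (T : Matrix (Fin 4) (Fin 4) F)ᵀ) * x *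
          ((T : Matrix (Fin 4) (Fin 4) F) * ((T⁻¹ : GL (Fin 4) F) : Matrix (Fin 4) (Fin 4) F)) := by simp only [Matrix.mul_assoc]
      _ = x := by rw [h4, gl_mul_inv, one_mul, mul_one]
  -- the new structure
  set K : GL ι F := oneK ρ T with hK
  set P' : GL ι F := P * K⁻¹ with hP'
  have hKi : ((K⁻¹ : GL ι F) : Matrix ι ι F) = kronL ρ 1 ((T⁻¹ : GL (Fin 4) F) : Matrix (Fin 4) (Fin 4) F) := rfl
  have hKv : (K : Matrix ι ι F) = kronL ρ 1 (T : Matrix (Fin 4) (Fin 4) F) := rfl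
  have htr : ∀ (A : Matrix (Fin 3) (Fin 3) F) (B : Matrix (Fin 4) (Fin 4) F), (kronL ρ A B)ᵀ = kronL ρ Aᵀ Bᵀ := by
    intro A B
    ext i j
    simp [kronL]
  have hgr' : gr (RingEquiv.refl F) (AschO.gm ⇑Q) P' = kronL (rgp ρ ε ε₆) (jj F) ((c * 2⁻¹) • (G₁ ⊗ₖ jj F).submatrix ε₆ ε₆) := by
    have h3 : gr (RingEquiv.refl F) (AschO.gm ⇑Q) P' =
        ((K⁻¹ : GL ι F) : Matrix ι ι F)ᵀ * gr (RingEquiv.refl F) (AschO.gm ⇑Q) P * ((K⁻¹ : GL ι F) : Matrix ι ι F) := by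
      rw [gr, gr, map_rf, map_rf, hP', Units.val_mul, Matrix.transpose_mul]
      simp only [Matrix.mul_assoc]
    rw [h3, hgr, hKi, htr, Matrix.transpose_one, Matrix.mul_smul, Matrix.smul_mul, kronL_mul, kronL_mul, one_mul, mul_one, hTi _ hTG,
      kronL_smul, smul_smul, rgp_kron ρ ε ε₆, ← kronL_smul]
  have hjT : (jj F)ᵀ = -jj F := by
    ext i j
    fin_cases i <;> fin_cases j <;> simp [jj]
  have hju : IsUnit (jj F) := by
    rw [Matrix.isUnit_iff_isUnit_det]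
    simp [jj, Matrix.det_fin_two]
  have hG₁T : G₁ᵀ = G₁ := by
    ext i j
    show f₁ _ _ = f₁ _ _
    rw [hf₁.symm]
  set G₆ : Matrix (Fin 6) (Fin 6) F := (c * 2⁻¹) • (G₁ ⊗ₖ jj F).submatrix ε₆ ε₆ with hG₆
  have hG₆T : G₆ᵀ = -G₆ := by
    rw [hG₆]
    ext i j
    have h3 : ∀ a b, (jj F) a b = -(jj F) b a := fun a b => congrFun (congrFun hjT b) a
    have h4 : ∀ a b, G₁ a b = G₁ b a := fun a b => congrFun (congrFun hG₁T b) a
    simp only [Matrix.transpose_apply, Matrix.smul_apply, Matrix.neg_apply, Matrix.submatrix_apply, Matrix.kroneckerMap_apply, smul_eq_mul]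
    rw [h3, h4]; ring
  have hskew : ∀ {k : ℕ} {X : Matrix (Fin k) (Fin k) F}, Xᵀ = -X → ∀ i, X i i = 0 := by
    intro k X hX i
    have h3 : X i i = - X i i := congrFun (congrFun hX i) i
    have h4 : (2 : F) * X i i = 0 := by linear_combination h3
    exact (mul_eq_zero.1 h4).resolve_left h2
  have hG₆u : IsUnit G₆ := by
    have h3 : IsUnit (gr (RingEquiv.refl F) (AschO.gm ⇑Q) P') := (((AschO.rfQ hQ).gr P').unit)
    rw [hgr'] at h3
    exact isUnit_kronL_right (by norm_num) _ h3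
  have hstr : IsTensorFormStructure id (QuadraticMap.polar ⇑Q) (bf (RingEquiv.refl F) (jj F)) (bf (RingEquiv.refl F) G₆) (rgp ρ ε ε₆) P' := by
    rw [AschO.polar_eq hQ]; exact tensor_structure hgr'
  refine ⟨rgp ρ ε ε₆, P', bf (RingEquiv.refl F) (jj F), bf (RingEquiv.refl F) G₆, symp_form hju hjT (hskew hjT), symp_form hG₆u hG₆T (hskew hG₆T),
    hstr, ?_, ?_⟩
  · intro x₁ x₂
    obtain ⟨c', hc', hc''⟩ := hstr
    have h3 := form_tp (σ := id) (fun a b => rfl) (f₁ := bf (RingEquiv.refl F) (jj F)) (f₂ := bf (RingEquiv.refl F) G₆)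
      (eq_formOfGram (symp_form hju hjT (hskew hjT)).bilinear.add_left (symp_form hju hjT (hskew hjT)).bilinear.smul_left
        (symp_form hju hjT (hskew hjT)).bilinear.add_right (symp_form hju hjT (hskew hjT)).bilinear.smul_right)
      (eq_formOfGram (symp_form hG₆u hG₆T (hskew hG₆T)).bilinear.add_left (symp_form hG₆u hG₆T (hskew hG₆T)).bilinear.smul_left
        (symp_form hG₆u hG₆T (hskew hG₆T)).bilinear.add_right (symp_form hG₆u hG₆T (hskew hG₆T)).bilinear.smul_right) hc'' x₁ x₁ x₂ x₂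
    rw [(symp_form hju hjT (hskew hjT)).alternating, zero_mul, mul_zero] at h3
    have h4 : polar Q (tp (rgp ρ ε ε₆) P' x₁ x₂) (tp (rgp ρ ε ε₆) P' x₁ x₂) = 0 := h3
    rw [polar_self'] at h4
    exact (mul_eq_zero.1 h4).resolve_left h2
  · intro h hh
    obtain ⟨a, b, hab⟩ := mem_tensorProductSubgroup.1 (hle hh)
    have hI : IsIso (RingEquiv.refl F) (AschO.gm ⇑Q) h := AschO.isoQ hQ (AschO.omega_le (hH hh))
    have hinv := gr_invariant (AschO.rfQ hQ) hI P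
    have hPh : ((P⁻¹ : GL ι F) : Matrix ι ι F) * (h : Matrix ι ι F) * (P : Matrix ι ι F) =
        kronL ρ (a : Matrix (Fin 3) (Fin 3) F) (b : Matrix (Fin 4) (Fin 4) F) := by
      rw [hab]
      calc _ = (((P⁻¹ : GL ι F) : Matrix ι ι F) * (P : Matrix ι ι F)) *
            kronL ρ (a : Matrix (Fin 3) (Fin 3) F) (b : Matrix (Fin 4) (Fin 4) F) *
            (((P⁻¹ : GL ι F) : Matrix ι ι F) * (P : Matrix ι ι F)) := by simp only [Matrix.mul_assoc]
        _ = _ := by rw [gl_inv_mul, one_mul, mul_one]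
    rw [hPh, map_rf, hgr, htr, Matrix.mul_smul, Matrix.smul_mul, kronL_mul, kronL_mul] at hinv
    generalize hAdef : (a : Matrix (Fin 3) (Fin 3) F) = A at *
    generalize hBdef : (b : Matrix (Fin 4) (Fin 4) F) = B at *
    have hinv' : kronL ρ G₁ G₂ = kronL ρ (Aᵀ * G₁ * A) (Bᵀ * G₂ * B) := by
      have h3 := congrArg (fun z => c⁻¹ • z) hinv
      simp only [smul_smul, inv_mul_cancel₀ hc0, one_smul] at h3
      exact h3.symm
    obtain ⟨μ, hμ, h3, h4⟩ := kronL_eq (by norm_num) (by norm_num) ρ hu₁ hu₂ hinv'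
    have hA : A.det ^ 2 = μ ^ 3 := by
      have h5 := congrArg Matrix.det h3
      rw [Matrix.det_mul, Matrix.det_mul, Matrix.det_transpose, Matrix.det_smul, Fintype.card_fin] at h5
      exact mul_right_cancel₀ hdet₁ (by linear_combination h5)
    have hB : B.det ^ 2 * μ ^ 4 = 1 := by
      have h5 := congrArg Matrix.det h4
      rw [Matrix.det_mul, Matrix.det_mul, Matrix.det_transpose, Matrix.det_smul, Fintype.card_fin] at h5
      refine mul_right_cancel₀ hdet₂ ?_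
      have h6 : (μ⁻¹) ^ 4 * μ ^ 4 = 1 := by rw [← mul_pow, inv_mul_cancel₀ hμ, one_pow]
      linear_combination μ ^ 4 * h5 + G₂.det * h6
    have hAB : A.det ^ 4 * B.det ^ 3 = 1 := by
      have h5 := det_one_omega (hH hh)
      have h6 := congrArg Matrix.det hPh
      rw [Matrix.det_mul, Matrix.det_mul, h5, kronL, Matrix.det_reindex_self, Matrix.det_kronecker, Fintype.card_fin, Fintype.card_fin, mul_one,
        ← Matrix.det_mul, gl_inv_mul, Matrix.det_one] at h6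
      exact h6.symm
    set s := A.det / μ with hs
    have hs2 : s ^ 2 = μ := by
      rw [hs, div_pow, hA]
      field_simp
    have hs0 : s ≠ 0 := by
      intro h0
      rw [h0] at hs2
      exact hμ (by rw [← hs2]; ring)
    have hkr : kronL ρ (s⁻¹ • A) (s • B) = kronL ρ A B := by
      rw [smul_kronL, kronL_smul, smul_smul, inv_mul_cancel₀ hs0, one_smul]
    have hBd : (s • B).det = 1 := by
      rw [Matrix.det_smul, Fintype.card_fin]
      have h5 : (s ^ 4 * B.det) ^ 2 = 1 := by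
        calc (s ^ 4 * B.det) ^ 2 = B.det ^ 2 * (s ^ 2) ^ 4 := by ring
          _ = 1 := by rw [hs2, hB]
      have h6 : (s ^ 4 * B.det) ^ 3 = 1 := by
        calc (s ^ 4 * B.det) ^ 3 = ((s ^ 2) ^ 3) ^ 2 * B.det ^ 3 := by ring
          _ = A.det ^ 4 * B.det ^ 3 := by rw [hs2, ← hA]; ring
          _ = 1 := hAB
      calc s ^ 4 * B.det = (s ^ 4 * B.det) ^ 2 * (s ^ 4 * B.det) := by rw [h5, one_mul]
        _ = (s ^ 4 * B.det) ^ 3 := by ring
        _ = 1 := h6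
    have hBf : (s • B)ᵀ * G₂ * (s • B) = G₂ := by
      rw [Matrix.transpose_smul, Matrix.smul_mul, Matrix.smul_mul, Matrix.mul_smul, smul_smul, h4, smul_smul, ← _root_.sq, hs2, mul_inv_cancel₀ hμ,
        one_smul]
    generalize hB' : s • B = B' at *
    generalize hA' : s⁻¹ • A = A' at *
    have hf₂B : ∀ x, f₂ (B' *ᵥ x) (B' *ᵥ x) = f₂ x x := by
      intro x
      have hf₂e : ∀ u v, f₂ u v = u ⬝ᵥ (G₂ *ᵥ v) := fun u v => (AschForms.isSesq_of_bilinear hf₂.bilinear).eq_gram u v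
      rw [hf₂e, hf₂e, AschForms.dot_mulVec_transpose, Matrix.mulVec_mulVec, Matrix.mulVec_mulVec, hBf]
    set M : Matrix (Fin 4) (Fin 4) F := (T : Matrix (Fin 4) (Fin 4) F) * B' * ((T⁻¹ : GL (Fin 4) F) : Matrix (Fin 4) (Fin 4) F) with hM
    have hMd : M.det = 1 := by
      rw [hM, Matrix.det_mul, Matrix.det_mul, hBd, mul_one, ← Matrix.det_mul, gl_mul_inv, Matrix.det_one]
    have hRd : (Matrix.reindex ε ε M).det = 1 := by rw [Matrix.det_reindex_self, hMd]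
    let g₂ : GL (Fin 2 × Fin 2) F := Matrix.GeneralLinearGroup.mkOfDetNeZero (Matrix.reindex ε ε M) (by rw [hRd]; exact one_ne_zero)
    have hg₂v : (g₂ : Matrix (Fin 2 × Fin 2) (Fin 2 × Fin 2) F) = Matrix.reindex ε ε M := rfl
    obtain ⟨α, β, hαβ⟩ := so_four h2 (g := g₂) (by
      rw [mem_isometryGroup]
      intro x
      obtain ⟨v, rfl⟩ := e₂.surjective x
      have h5 : (g₂ : Matrix (Fin 2 × Fin 2) (Fin 2 × Fin 2) F) *ᵥ (e₂ v) = e₂ (B' *ᵥ v) := by
        rw [hg₂v, Matrix.reindex_apply, Matrix.submatrix_mulVec_equiv, Equiv.symm_symm, ← hT, hM, Matrix.mulVec_mulVec, Matrix.mul_assoc,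
          gl_inv_mul, mul_one, ← Matrix.mulVec_mulVec, hT]
        funext k
        simp
      rw [h5, he₂', he₂', hf₂B]) hRd
    have hMαβ : M = (α ⊗ₖ β).submatrix ε ε := by
      rw [← hαβ, hg₂v]
      ext i j
      simp
    -- the decomposition
    have h5 : (h : Matrix ι ι F) = (P' : Matrix ι ι F) * kronL (rgp ρ ε ε₆) α ((A' ⊗ₖ β).submatrix ε₆ ε₆) * ((P'⁻¹ : GL ι F) : Matrix ι ι F) := by
      rw [← rgp_kron, ← hMαβ]
      have h6 : (h : Matrix ι ι F) = (P : Matrix ι ι F) * kronL ρ A' B' * ((P⁻¹ : GL ι F) : Matrix ι ι F) := by rw [hkr, hab]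
      have h7 : kronL ρ A' M = (K : Matrix ι ι F) * kronL ρ A' B' * ((K⁻¹ : GL ι F) : Matrix ι ι F) := by
        rw [hKi, hKv, kronL_mul, kronL_mul, one_mul, mul_one]
      have h8 : ((P'⁻¹ : GL ι F) : Matrix ι ι F) = (K : Matrix ι ι F) * ((P⁻¹ : GL ι F) : Matrix ι ι F) := by
        rw [hP', mul_inv_rev, inv_inv, Units.val_mul]
      have h9 : (P' : Matrix ι ι F) = (P : Matrix ι ι F) * ((K⁻¹ : GL ι F) : Matrix ι ι F) := by rw [hP', Units.val_mul]
      rw [h6, h7, h8, h9]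
      calc _ = (P : Matrix ι ι F) * kronL ρ A' B' * ((P⁻¹ : GL ι F) : Matrix ι ι F) := rfl
        _ = (P : Matrix ι ι F) * (((K⁻¹ : GL ι F) : Matrix ι ι F) * (K : Matrix ι ι F)) * kronL ρ A' B' *
            (((K⁻¹ : GL ι F) : Matrix ι ι F) * (K : Matrix ι ι F)) * ((P⁻¹ : GL ι F) : Matrix ι ι F) := by
          rw [gl_inv_mul, mul_one, mul_one]
        _ = _ := by simp only [Matrix.mul_assoc]
    have h6 : IsUnit (kronL (rgp ρ ε ε₆) α ((A' ⊗ₖ β).submatrix ε₆ ε₆)) := by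
      have h7 : kronL (rgp ρ ε ε₆) α ((A' ⊗ₖ β).submatrix ε₆ ε₆) = ((P'⁻¹ * h * P' : GL ι F) : Matrix ι ι F) := by
        rw [Units.val_mul, Units.val_mul, h5]
        calc _ = (((P'⁻¹ : GL ι F) : Matrix ι ι F) * (P' : Matrix ι ι F)) * kronL (rgp ρ ε ε₆) α ((A' ⊗ₖ β).submatrix ε₆ ε₆) *
              (((P'⁻¹ : GL ι F) : Matrix ι ι F) * (P' : Matrix ι ι F)) := by rw [gl_inv_mul, one_mul, mul_one]
          _ = _ := by simp only [Matrix.mul_assoc]
      rw [h7]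
      exact Units.isUnit _
    obtain ⟨uα, huα⟩ := isUnit_kronL_left (by norm_num) _ h6
    obtain ⟨uβ, huβ⟩ := isUnit_kronL_right (by norm_num) _ h6
    exact mem_tensorProductSubgroup.2 ⟨uα, uβ, by rw [huα, huβ, h5]⟩

end regroup

end Cfsg.Agent.Lib.ONot
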