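import Mathlib
import Cfsg.Agent.Lib.FormJordan4
import Cfsg.Agent.Lib.QuadStd
import Cfsg.Agent.Lib.QuadTrans
import Cfsg.Agent.Lib.OrthNd

set_option autoImplicit false
set_option linter.style.haveILetI false
set_option linter.unusedVariables false
set_option linter.unusedSectionVars false

/-!
(helper97) Unipotent isometries of a given quadratic space with a given Jordan type; restriction to invariant
non-degenerate subspaces.
-/

namespace Cfsg.Agent.Lib.OPart

open Module QuadraticMap Polynomial Cfsg.Agent.Lib.Quad Cfsg.Agent.Lib.OrthMax Cfsg.Agent.Lib.OrthNd Cfsg.Agent.Lib.FXType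
  Cfsg.Agent.Lib.FormJordan2 Cfsg.Agent.Lib.FormJordan3 Cfsg.Agent.Lib.FormJordan

universe u v

variable {F : Type u} [Field F]

/-- parity condition -/
def Par (μ : Multiset ℕ) : Prop := ∀ e : ℕ, Even e → Even (μ.count e)

theorem uni_inj {μ ν : Multiset ℕ} (h : uni F μ = uni F ν) : μ = ν := by
  have := congrArg (Multiset.map Prod.snd) h
  simpa [uni, Multiset.map_map] using this

theorem finrank_uni {V : Type v} [AddCommGroup V] [Module F V] {f : Module.End F V} {μ : Multiset ℕ}
    (h : HasType f (uni F μ)) : finrank F V = μ.sum := by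
  rw [h.finrank, uni, Multiset.map_map]
  congr 1
  conv_rhs => rw [← Multiset.map_id μ]
  apply Multiset.map_congr rfl
  intro k _
  show (X - 1 : F[X]).natDegree * k = k
  rw [JordanType.X1_natDegree, one_mul]

/-- splitting off one odd part: realisation on a given quadratic space -/
theorem realize [Finite F] (h2 : (2 : F) ≠ 0) {V : Type v} [AddCommGroup V] [Module F V] [FiniteDimensional F V]
    {Q : QuadraticForm F V} (hQ : Nd Q) {μ : Multiset ℕ} (hpos : ∀ j ∈ μ, 0 < j) (hpar : Par μ)
    (hsum : μ.sum = finrank F V) (hodd : ∃ j ∈ μ, Odd j) :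
    ∃ f : V ≃ₗ[F] V, f ∈ O Q ∧ HasType (f : V →ₗ[F] V) (uni F μ) := by
  obtain ⟨j, hj, hjo⟩ := hodd
  obtain ⟨μ', rfl⟩ := Multiset.exists_cons_of_mem hj
  have hpar' : ∀ e, Even e → Even (μ'.count e) := by
    intro e he
    have := hpar e he
    rwa [Multiset.count_cons_of_ne (by rintro rfl; exact (Nat.not_even_iff_odd.2 hjo) he)] at this
  obtain ⟨V1, _, _, Q1, f1, hn1, hi1, ht1⟩ := QReal_odd (F := F) h2 j hjo
  obtain ⟨V2, _, _, Q2, f2, hn2, hi2, ht2⟩ := QReal_of_parity (F := F) h2 μ' (fun k hk => hpos k (Multiset.mem_cons_of_mem hk)) hpar'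
  haveI := ht1.finiteDimensional
  haveI := ht2.finiteDimensional
  have hf1 : finrank F V1 = j := by rw [finrank_uni ht1]; simp
  have hf2 : finrank F V2 = μ'.sum := finrank_uni ht2
  let b1 := finBasis F V1
  let b2 := finBasis F V2
  let b := finBasis F V
  set d1 := (LinearMap.BilinForm.toMatrix b1 (polarBilin Q1)).det with hd1
  set d2 := (LinearMap.BilinForm.toMatrix b2 (polarBilin Q2)).det with hd2
  set d := (LinearMap.BilinForm.toMatrix b (polarBilin Q)).det with hd
  have hdne : ∀ {U : Type v} [AddCommGroup U] [Module F U] [FiniteDimensional F U] {q : QuadraticForm F U} (_ : Nd q) (c : Basis (Fin (finrank F U)) F U), (LinearMap.BilinForm.toMatrix c (polarBilin q)).det ≠ 0 := by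
    intro U _ _ _ q hq c
    exact (LinearMap.BilinForm.nondegenerate_iff_det_ne_zero c).1 hq
  have hdne' : ∀ {U : Type u} [AddCommGroup U] [Module F U] [FiniteDimensional F U] {q : QuadraticForm F U} (_ : Nd q) (c : Basis (Fin (finrank F U)) F U), (LinearMap.BilinForm.toMatrix c (polarBilin q)).det ≠ 0 := by
    intro U _ _ _ q hq c
    exact (LinearMap.BilinForm.nondegenerate_iff_det_ne_zero c).1 hq
  have h1' : Nd Q1 := nd_of hn1
  have h2' : Nd Q2 := nd_of hn2
  have hd10 : d1 ≠ 0 := hdne' h1' b1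
  have hd20 : d2 ≠ 0 := hdne' h2' b2
  have hd0 : d ≠ 0 := hdne hQ b
  set c := d * (d1 * d2) with hc
  have hc0 : c ≠ 0 := mul_ne_zero hd0 (mul_ne_zero hd10 hd20)
  let Qc : QuadraticForm F (V1 × V2) := (c • Q1).prod Q2
  have hpol : ∀ x y, polar Qc x y = c * polar Q1 x.1 y.1 + polar Q2 x.2 y.2 := by
    intro x y
    simp only [Qc, polar, QuadraticMap.prod_apply, QuadraticMap.smul_apply, Prod.fst_add, Prod.snd_add, smul_eq_mul]
    ring
  have hnc : Nd Qc := by
    apply nd_of
    intro x hx
    apply Prod.ext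
    · apply hn1
      intro y
      have := hx (y, 0)
      rw [hpol] at this
      simpa [hc0] using this
    · apply hn2
      intro y
      have := hx (0, y)
      rw [hpol] at this
      simpa using this
  have hfr : finrank F (V1 × V2) = finrank F V := by
    rw [Module.finrank_prod, hf1, hf2, ← hsum, Multiset.sum_cons]
  have hdet : (LinearMap.BilinForm.toMatrix (b1.prod b2) (polarBilin Qc)).det = c ^ j * (d1 * d2) := by
    have hM : LinearMap.BilinForm.toMatrix (b1.prod b2) (polarBilin Qc) =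
        Matrix.fromBlocks (c • LinearMap.BilinForm.toMatrix b1 (polarBilin Q1)) 0 0 (LinearMap.BilinForm.toMatrix b2 (polarBilin Q2)) := by
      ext x y
      rw [LinearMap.BilinForm.toMatrix_apply]
      rcases x with x | x <;> rcases y with y | y <;>
        simp [hpol, polarBilin_apply_apply, LinearMap.BilinForm.toMatrix_apply]
    have hcj : c ^ finrank F V1 = c ^ j := by rw [hf1]
    rw [hM, Matrix.det_fromBlocks_zero₂₁, Matrix.det_smul, Fintype.card_fin, hcj, mul_assoc]
  have hsq : IsSquare ((LinearMap.BilinForm.toMatrix b (polarBilin Q)).det * (LinearMap.BilinForm.toMatrix (b1.prod b2) (polarBilin Qc)).det) := by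
    rw [hdet]
    obtain ⟨k, hk⟩ := hjo
    refine ⟨c ^ (k + 1), ?_⟩
    rw [show d * (c ^ j * (d1 * d2)) = c ^ j * c by rw [hc]; ring, hk]
    ring
  obtain ⟨g, hg⟩ := exists_isometry_of_disc h2 hQ hnc hfr.symm b (b1.prod b2) hsq
  -- the isometry
  have hiso : ∀ x, Qc (LinearMap.prodMap f1 f2 x) = Qc x := by
    intro x
    simp only [Qc, QuadraticMap.prod_apply, QuadraticMap.smul_apply, LinearMap.prodMap_apply, hi1, hi2]
  have hty : HasType (LinearMap.prodMap f1 f2) (uni F (j ::ₘ μ')) := by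
    have := ht1.prod ht2
    rwa [← uni_add, Multiset.singleton_add] at this
  let f0 : Module.End F V := g.symm.toLinearMap ∘ₗ (LinearMap.prodMap f1 f2) ∘ₗ g.toLinearMap
  have hf0 : ∀ x, f0 x = g.symm (LinearMap.prodMap f1 f2 (g x)) := fun x => rfl
  have hQf : ∀ x, Q (f0 x) = Q x := by
    intro x
    rw [← hg, hf0, LinearEquiv.apply_symm_apply, hiso, hg]
  have hty0 : HasType f0 (uni F (j ::ₘ μ')) := by
    refine hty.ofEquiv g ?_
    intro x
    rw [hf0, LinearEquiv.apply_symm_apply]
  have hinj : Function.Injective f0 := by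
    rw [← LinearMap.ker_eq_bot]
    rw [eq_bot_iff]
    intro x hx
    rw [LinearMap.mem_ker] at hx
    rw [Submodule.mem_bot]
    apply hQ.eq_zero
    intro y
    rw [← polar_map f0 hQf x y, hx, polar_zero_left]
  refine ⟨LinearEquiv.ofInjectiveEndo f0 hinj, ?_, ?_⟩
  · intro x
    exact hQf x
  · have : ((LinearEquiv.ofInjectiveEndo f0 hinj : V ≃ₗ[F] V) : V →ₗ[F] V) = f0 := by
      ext x; rfl
    rw [this]; exact hty0


/-- restriction to an invariant non-degenerate subspace -/
theorem restrict (h2 : (2 : F) ≠ 0) {V : Type v} [AddCommGroup V] [Module F V] [FiniteDimensional F V]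
    {Q : QuadraticForm F V} (hQ : Nd Q) {μ : Multiset ℕ} {f : V ≃ₗ[F] V} (hf : f ∈ O Q)
    (ht : HasType (f : V →ₗ[F] V) (uni F μ)) {W : Submodule F V} (hW : NDs Q W)
    (hfW : W.map (f : V →ₗ[F] V) ≤ W) :
    ∃ ν ≤ μ, ν.sum = finrank F W ∧ Par ν ∧ ∃ fW : Module.End F W, (∀ w, (fW w : V) = f w) ∧ HasType fW (uni F ν) := by
  classical
  -- invariance
  have hinvW : ∀ w ∈ W, f w ∈ W := fun w hw => hfW ⟨w, hw, rfl⟩
  have heqW : W.map (f : V →ₗ[F] V) = W := by
    apply Submodule.eq_of_le_of_finrank_le hfW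
    rw [LinearEquiv.finrank_map_eq]
  have hinvP : ∀ w ∈ perp Q W, f w ∈ perp Q W := by
    intro x hx
    rw [mem_perp]
    intro w hw
    rw [← heqW] at hw
    obtain ⟨u, hu, rfl⟩ := hw
    show polar Q (f u) (f x) = 0
    rw [O_polar hf]
    exact mem_perp.1 hx u hu
  have hcompl : IsCompl W (perp Q W) := by
    refine ⟨disjoint_iff.2 hW, ?_⟩
    rw [codisjoint_iff]
    apply Submodule.eq_top_of_finrank_eq
    have h1 := Submodule.finrank_sup_add_finrank_inf_eq W (perp Q W)
    rw [hW, finrank_bot, add_zero, hQ.finrank_add_finrank_perp] at h1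
    exact h1
  let e := Submodule.prodEquivOfIsCompl W (perp Q W) hcompl
  let fW : Module.End F W := (f : V →ₗ[F] V).restrict hinvW
  let fP : Module.End F (perp Q W) := (f : V →ₗ[F] V).restrict hinvP
  obtain ⟨s, hs⟩ := exists_hasType fW
  obtain ⟨s', hs'⟩ := exists_hasType fP
  have h1 : HasType (LinearMap.prodMap fW fP) (uni F μ) := by
    refine ht.ofEquiv e ?_
    rintro ⟨x, y⟩
    show e (fW x, fP y) = f (e (x, y))
    rw [Submodule.coe_prodEquivOfIsCompl', Submodule.coe_prodEquivOfIsCompl', map_add]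
    rfl
  have hss : s + s' = uni F μ := (hs.prod hs').unique h1
  have hmem : ∀ d ∈ s, d.1 = (X - 1 : F[X]) := by
    intro d hd
    have : d ∈ uni F μ := by rw [← hss]; exact Multiset.mem_add.2 (Or.inl hd)
    rw [uni, Multiset.mem_map] at this
    obtain ⟨k, _, rfl⟩ := this
    rfl
  have hsu : s = uni F (s.map Prod.snd) := by
    rw [uni, Multiset.map_map]
    conv_lhs => rw [← Multiset.map_id s]
    apply Multiset.map_congr rfl
    intro d hd
    show d = (X - 1, d.2)
    rw [← hmem d hd]
  have hle : s.map Prod.snd ≤ μ := by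
    have h3 : (s + s').map Prod.snd = μ := by
      rw [hss, uni, Multiset.map_map]; simp
    rw [← h3, Multiset.map_add]
    exact Multiset.le_add_right _ _
  have hsW : HasType fW (uni F (s.map Prod.snd)) := by rw [← hsu]; exact hs
  refine ⟨s.map Prod.snd, hle, (finrank_uni hsW).symm, ?_, fW, fun w => rfl, hsW⟩
  intro e he
  rcases Nat.eq_zero_or_pos e with h0 | h0
  · subst h0
    have : 0 ∉ s.map Prod.snd := by
      intro hmem0
      rw [Multiset.mem_map] at hmem0
      obtain ⟨d, hd, hd0⟩ := hmem0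
      have := (hs.good d hd).2.2
      omega
    rw [Multiset.count_eq_zero_of_notMem this]
    exact Even.zero
  obtain ⟨a, rfl⟩ : ∃ a, e = a + 1 := ⟨e - 1, by omega⟩
  have ha : Odd a := by
    rcases Nat.even_or_odd a with h | h
    · exact absurd (h.add_one) (Nat.not_odd_iff_even.mpr he)
    · exact h
  have hnW : Nd (res Q W) := nd_res_of_inf hW
  have hinv : ∀ x y, polarBilin (res Q W) (fW x) (fW y) = polarBilin (res Q W) x y := by
    intro x y
    rw [polarBilin_apply_apply, polarBilin_apply_apply]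
    exact polar_map fW (fun v => hf v) x y
  rw [← FormJordan4.count_uni (F := F)]
  exact even_count (polarBilin (res Q W)) fW (fun x hx => hnW.eq_zero hx) hinv hsW a
    (fun x hx => FormJordan4.beta_symm (polarBilin (res Q W)) _ h2 (fun x y => polar_comm _ x y) hinv a ha x hx)

/-- nilpotency degree -/
theorem pow_sub_one {V : Type v} [AddCommGroup V] [Module F V] {f : Module.End F V} {μ : Multiset ℕ}
    (h : HasType f (uni F μ)) {k : ℕ} (hk : ∀ j ∈ μ, j ≤ k) : (f - 1) ^ k = 0 := by
  have h1 := (h.aeval_eq_zero_iff ((X - 1) ^ k)).2 (by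
    intro d hd
    rw [uni, Multiset.mem_map] at hd
    obtain ⟨j, hj, rfl⟩ := hd
    exact pow_dvd_pow _ (hk j hj))
  simpa using h1

theorem pow_p {p : ℕ} [Fact p.Prime] [CharP F p] {V : Type v} [AddCommGroup V] [Module F V] {f : Module.End F V} {μ : Multiset ℕ}
    (h : HasType f (uni F μ)) (hk : ∀ j ∈ μ, j ≤ p) : f ^ p = 1 := by
  have h1 := (h.aeval_eq_zero_iff ((X - 1) ^ p)).2 (by
    intro d hd
    rw [uni, Multiset.mem_map] at hd
    obtain ⟨j, hj, rfl⟩ := hd
    exact pow_dvd_pow _ (hk j hj))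
  have h3 : (X - 1 : F[X]) ^ p = X ^ p - 1 := by
    rw [sub_pow_char, one_pow]
  rw [h3] at h1
  simp only [map_sub, map_pow, aeval_X, map_one] at h1
  exact sub_eq_zero.1 h1

theorem eq_one_type {V : Type v} [AddCommGroup V] [Module F V] {f : Module.End F V} {μ : Multiset ℕ}
    (h : HasType f (uni F μ)) (h1 : f = 1) : ∀ j ∈ μ, j ≤ 1 := by
  intro j hj
  have h3 := (h.aeval_eq_zero_iff (X - 1)).1 (by rw [h1]; simp) ((X - 1 : F[X]), j) (by rw [uni]; exact Multiset.mem_map_of_mem _ hj)
  by_contra hlt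
  push Not at hlt
  have h4 : (X - 1 : F[X]) ^ 2 ∣ (X - 1) := (pow_dvd_pow _ hlt).trans h3
  have h5 := natDegree_le_of_dvd h4 (Polynomial.X_sub_C_ne_zero (1 : F))
  rw [natDegree_pow, JordanType.X1_natDegree] at h5
  omega

end Cfsg.Agent.Lib.OPart
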