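import Mathlib
import Cfsg.Agent.Lib.OPart1
import Cfsg.Agent.Lib.OrthEmb67
import Cfsg.Agent.Lib.OrthBridge

set_option autoImplicit false
set_option linter.style.haveILetI false
set_option linter.unusedVariables false
set_option linter.unusedSectionVars false

/-!
(helper97) Partitions and fixed non-degenerate subspaces of elements of order `p` of orthogonal groups.
-/

namespace Cfsg.Agent.Lib.OPart

open Module QuadraticMap Polynomial Cfsg.Agent.Lib.Quad Cfsg.Agent.Lib.OrthMax Cfsg.Agent.Lib.OrthNd Cfsg.Agent.Lib.FXType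
  Cfsg.Agent.Lib.FormJordan2 Cfsg.Agent.Lib.FormJordan3 Cfsg.Agent.Lib.FormJordan

universe u v

theorem Par.zero : Par 0 := fun e _ => by simp

theorem even_sum_of_even {s : Multiset ℕ} (h : ∀ j ∈ s, Even j) : Even s.sum := by
  induction s using Multiset.induction_on with
  | empty => simp
  | cons a s ih =>
    rw [Multiset.sum_cons]
    exact (h a (Multiset.mem_cons_self a s)).add (ih fun j hj => h j (Multiset.mem_cons_of_mem hj))

/-- the all even case reduces to the case with an odd part -/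
theorem cnd_of_odd {p n m : ℕ} (hp : Odd p) (hm : Even m) (hn : 0 < n)
    (h : ∀ μ : Multiset ℕ, (∀ e ∈ μ, 0 < e ∧ e ≤ p) → Par μ → μ.sum = n → (∃ j ∈ μ, Odd j) →
      ∃ ν ≤ μ, ν.sum = m ∧ Par ν) :
    ∀ μ : Multiset ℕ, (∀ e ∈ μ, 0 < e ∧ e ≤ p) → Par μ → μ.sum = n → ∃ ν ≤ μ, ν.sum = m ∧ Par ν := by
  intro μ hμ hpar hsum
  by_cases hodd : ∃ j ∈ μ, Odd j
  · exact h μ hμ hpar hsum hodd
  have hall : ∀ j ∈ μ, Even j := fun j hj => by
    by_contra hc
    exact hodd ⟨j, hj, Nat.not_even_iff_odd.1 hc⟩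
  have hne : μ ≠ 0 := by
    rintro rfl
    simp at hsum
    omega
  obtain ⟨e, he⟩ := Multiset.exists_mem_of_ne_zero hne
  have hee := hall e he
  have hcount : 2 ≤ μ.count e := by
    have h1 := Multiset.count_pos.2 he
    obtain ⟨k, hk⟩ := hpar e hee
    omega
  obtain ⟨μ1, hμ1⟩ := Multiset.exists_cons_of_mem he
  have he1 : e ∈ μ1 := by
    rw [← Multiset.count_pos]
    rw [hμ1, Multiset.count_cons_self] at hcount
    omega
  obtain ⟨μ2, hμ2⟩ := Multiset.exists_cons_of_mem he1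
  subst hμ2
  subst hμ1
  have hep := hμ e he
  obtain ⟨k, hk⟩ := hee
  obtain ⟨l, hl⟩ := hp
  have he2 : 2 ≤ e := by omega
  have hall2 : ∀ j ∈ μ2, Even j := fun j hj => hall j (Multiset.mem_cons_of_mem (Multiset.mem_cons_of_mem hj))
  have hpar2 : Par μ2 := by
    intro j hj
    have := hpar j hj
    by_cases hje : j = e
    · subst hje
      rw [Multiset.count_cons_self, Multiset.count_cons_self] at this
      have h1 := Nat.even_add_one.1 this
      rw [Nat.even_add_one] at h1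
      exact not_not.1 h1
    · rwa [Multiset.count_cons_of_ne hje, Multiset.count_cons_of_ne hje] at this
  have cnt : ∀ (j : ℕ) (s : Multiset ℕ), Even j → (Multiset.count j ((e + 1) ::ₘ s) = Multiset.count j s) := by
    intro j s hj
    exact Multiset.count_cons_of_ne (by rintro rfl; obtain ⟨t, ht⟩ := hj; omega) _
  have cnt' : ∀ (j : ℕ) (s : Multiset ℕ), Even j → (Multiset.count j ((e - 1) ::ₘ s) = Multiset.count j s) := by
    intro j s hj
    exact Multiset.count_cons_of_ne (by rintro rfl; obtain ⟨t, ht⟩ := hj; omega) _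
  obtain ⟨ν, hν, hνm, hνp⟩ := h ((e + 1) ::ₘ (e - 1) ::ₘ μ2) (by
      intro j hj
      rw [Multiset.mem_cons, Multiset.mem_cons] at hj
      rcases hj with rfl | rfl | hj
      · omega
      · omega
      · exact hμ j (Multiset.mem_cons_of_mem (Multiset.mem_cons_of_mem hj))) (by
      intro j hj
      rw [cnt j _ hj, cnt' j _ hj]
      exact hpar2 j hj) (by
      rw [Multiset.sum_cons, Multiset.sum_cons] at hsum ⊢
      omega) ⟨e + 1, Multiset.mem_cons_self _ _, k, by omega⟩
  by_cases h1 : e + 1 ∈ ν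
  · obtain ⟨ν1, rfl⟩ := Multiset.exists_cons_of_mem h1
    have hν1 : ν1 ≤ (e - 1) ::ₘ μ2 := (Multiset.cons_le_cons_iff _).1 hν
    by_cases h2 : e - 1 ∈ ν1
    · obtain ⟨ν2, rfl⟩ := Multiset.exists_cons_of_mem h2
      have hν2 : ν2 ≤ μ2 := (Multiset.cons_le_cons_iff _).1 hν1
      refine ⟨e ::ₘ e ::ₘ ν2, Multiset.cons_le_cons _ (Multiset.cons_le_cons _ hν2), ?_, ?_⟩
      · rw [Multiset.sum_cons, Multiset.sum_cons] at hνm ⊢
        omega
      · intro j hj
        have h3 := hνp j hj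
        rw [cnt j _ hj, cnt' j _ hj] at h3
        by_cases hje : j = e
        · subst hje
          rw [Multiset.count_cons_self, Multiset.count_cons_self]
          obtain ⟨t, ht⟩ := h3
          exact ⟨t + 1, by omega⟩
        · rwa [Multiset.count_cons_of_ne hje, Multiset.count_cons_of_ne hje]
    · have h3 : ν1 ≤ μ2 := (Multiset.le_cons_of_notMem h2).1 hν1
      have h4 : Even ν1.sum := even_sum_of_even fun j hj => hall2 j (Multiset.mem_of_le h3 hj)
      rw [Multiset.sum_cons] at hνm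
      obtain ⟨t, ht⟩ := h4
      obtain ⟨t', ht'⟩ := hm
      omega
  · have hν1 : ν ≤ (e - 1) ::ₘ μ2 := (Multiset.le_cons_of_notMem h1).1 hν
    by_cases h2 : e - 1 ∈ ν
    · obtain ⟨ν2, rfl⟩ := Multiset.exists_cons_of_mem h2
      have hν2 : ν2 ≤ μ2 := (Multiset.cons_le_cons_iff _).1 hν1
      have h4 : Even ν2.sum := even_sum_of_even fun j hj => hall2 j (Multiset.mem_of_le hν2 hj)
      rw [Multiset.sum_cons] at hνm
      obtain ⟨t, ht⟩ := h4
      obtain ⟨t', ht'⟩ := hm
      omega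
    · have h3 : ν ≤ μ2 := (Multiset.le_cons_of_notMem h2).1 hν1
      exact ⟨ν, h3.trans ((Multiset.le_cons_self _ _).trans (Multiset.le_cons_self _ _)), hνm, hνp⟩

variable {F : Type u} [Field F] [Finite F]

/-- the main lemma -/
theorem odd_main {V : Type v} [AddCommGroup V] [Module F V] [FiniteDimensional F V]
    {Q : QuadraticForm F V} (hQ : Nd Q) (h2 : (2 : F) ≠ 0) {p : ℕ} [Fact p.Prime] [CharP F p] {m : ℕ}
    (hm : m ≤ finrank F V)
    (hfix : ∀ f ∈ Om Q, f ^ p = 1 → f ≠ 1 → ∃ W : Submodule F V, finrank F W = m ∧ NDs Q W ∧ W.map (f : V →ₗ[F] V) ≤ W)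
    (μ : Multiset ℕ) (hμ : ∀ e ∈ μ, 0 < e ∧ e ≤ p) (hpar : Par μ) (hsum : μ.sum = finrank F V)
    (hodd : ∃ j ∈ μ, Odd j) : ∃ ν ≤ μ, ν.sum = m ∧ Par ν := by
  classical
  have hp2 : Odd p := by
    rcases (Fact.out : p.Prime).eq_two_or_odd' with h | h
    · subst h
      exact absurd (CharTwo.two_eq_zero (R := F)) h2
    · exact h
  obtain ⟨f, hfO, hft⟩ := realize h2 hQ (fun j hj => (hμ j hj).1) hpar hsum hodd
  have hfp : f ^ p = 1 := by
    have h1 := pow_p hft (fun j hj => (hμ j hj).2)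
    apply LinearEquiv.toLinearMap_injective
    have h3 : ∀ k : ℕ, ((f ^ k : V ≃ₗ[F] V) : V →ₗ[F] V) = (f : V →ₗ[F] V) ^ k := by
      intro k
      induction k with
      | zero => rfl
      | succ k ih => rw [pow_succ, pow_succ, ← ih]; rfl
    rw [h3, h1]; rfl
  by_cases hf1 : f = 1
  · subst hf1
    have h1 := eq_one_type hft rfl
    have h3 : μ = Multiset.replicate (Multiset.card μ) 1 := by
      rw [Multiset.eq_replicate]
      exact ⟨rfl, fun b hb => le_antisymm (h1 b hb) (hμ b hb).1⟩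
    have h4 : m ≤ Multiset.card μ := by
      rw [h3, Multiset.sum_replicate, smul_eq_mul, mul_one] at hsum
      omega
    refine ⟨Multiset.replicate m 1, ?_, ?_, ?_⟩
    · rw [h3]; exact (Multiset.replicate_le_replicate 1).2 h4
    · simp
    · intro e he
      rw [Multiset.count_replicate, if_neg (by rintro rfl; exact absurd he (by decide))]
      exact Even.zero
  · obtain ⟨W, hW1, hW2, hW3⟩ := hfix f (OrthEmb67.odd_mem_Om hQ h2 hfO (by
      have := orderOf_dvd_of_pow_eq_one hfp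
      exact Odd.of_dvd_nat hp2 this)) hfp hf1
    obtain ⟨ν, h3, h4, h5, -⟩ := restrict h2 hQ hfO hft hW2 hW3
    exact ⟨ν, h3, h4.trans hW1, h5⟩


open Cfsg Cfsg.Geo Cfsg.Agent.Lib.GeoBridge Cfsg.Agent.Lib.OrthBridge in
theorem nds_of_on {ι : Type} [Fintype ι] [DecidableEq ι] {Q : QuadraticForm F (ι → F)} {W : Submodule F (ι → F)}
    (h : IsNondegenerateOn (QuadraticMap.polar ⇑Q) W) : NDs Q W := by
  refine (eq_bot_iff).2 ?_
  rintro x ⟨hx1, hx2⟩
  rw [Submodule.mem_bot]
  by_contra hx0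
  obtain ⟨y, hy, hyx⟩ := (h x hx1 hx0).1
  exact hyx (mem_perp.1 hx2 y hy)

open Cfsg Cfsg.Geo Cfsg.Agent.Lib.GeoBridge Cfsg.Agent.Lib.OrthBridge in
/-- from matrices to linear maps -/
theorem conv {ι : Type} [Fintype ι] [DecidableEq ι] {Q : QuadraticForm F (ι → F)} {p : ℕ} [Fact p.Prime] [CharP F p]
    (hn : Nonempty ι) {P : Submodule F (ι → F) → Prop}
    (h : ∀ x : GL ι F, x ∈ omegaGL ⇑Q →
      (∃ z : F, ((x ^ p : GL ι F) : Matrix ι ι F) = z • (1 : Matrix ι ι F)) →
      (∀ z : F, (x : Matrix ι ι F) ≠ z • (1 : Matrix ι ι F)) →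
      ∃ W : Submodule F (ι → F), P W ∧ W.map (Matrix.toLin' (x : Matrix ι ι F)) ≤ W) :
    ∀ f ∈ Om Q, f ^ p = 1 → f ≠ 1 → ∃ W : Submodule F (ι → F), P W ∧ W.map (f : (ι → F) →ₗ[F] (ι → F)) ≤ W := by
  intro f hf hfp hf1
  have hx1 : (le.symm f) ^ p = 1 := by rw [← map_pow, hfp, map_one]
  obtain ⟨W, hW1, hW2⟩ := h (le.symm f) (by rw [mem_omegaGL_iff, MulEquiv.apply_symm_apply]; exact hf)
    ⟨1, by rw [hx1, one_smul]; rfl⟩ (by
      intro z hz
      apply hf1
      have h1 : ∀ v, f v = z • v := by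
        intro v
        rw [← le_symm_mulVec, hz, Matrix.smul_mulVec, Matrix.one_mulVec]
      have h2 : ∀ (k : ℕ) v, (f ^ k) v = z ^ k • v := by
        intro k
        induction k with
        | zero => intro v; simp
        | succ k ih => intro v; rw [pow_succ', LinearEquiv.mul_apply, ih, h1, smul_smul, pow_succ']
      obtain ⟨i⟩ := hn
      have h3 : z ^ p = 1 := by
        have h4 := h2 p (Pi.single i 1)
        rw [hfp] at h4
        have h5 := congrFun h4 i
        simp at h5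
        exact h5.symm
      have h6 : z = 1 := by
        have : (z - 1) ^ p = 0 := by rw [sub_pow_char, h3, one_pow, sub_self]
        exact sub_eq_zero.1 (pow_eq_zero_iff (Fact.out : p.Prime).ne_zero |>.1 this)
      apply LinearEquiv.ext
      intro v
      rw [h1, h6, one_smul]; rfl)
  refine ⟨W, hW1, ?_⟩
  have : (Matrix.toLin' ((le.symm f : GL ι F) : Matrix ι ι F)) = (f : (ι → F) →ₗ[F] (ι → F)) := by
    apply LinearMap.ext
    intro v
    rw [Matrix.toLin'_apply, le_symm_mulVec]; rfl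
  rwa [this] at hW2

end Cfsg.Agent.Lib.OPart
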