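import Mathlib
import Cfsg.Agent.Lib.OPart2

set_option autoImplicit false
set_option linter.style.haveILetI false
set_option linter.unusedVariables false
set_option linter.unusedSectionVars false

/-!
(helper97) Special partitions.
-/

namespace Cfsg.Agent.Lib.OPart

open Module QuadraticMap Polynomial Cfsg.Agent.Lib.Quad Cfsg.Agent.Lib.OrthMax Cfsg.Agent.Lib.OrthNd Cfsg.Agent.Lib.FXType
  Cfsg.Agent.Lib.FormJordan2 Cfsg.Agent.Lib.FormJordan3 Cfsg.Agent.Lib.FormJordan

universe u v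

theorem rep_two {ν : Multiset ℕ} {d : ℕ} (h : ν ≤ Multiset.replicate d 2) (hp : Par ν) :
    ∃ k, Even k ∧ ν = Multiset.replicate k 2 := by
  obtain ⟨k, -, rfl⟩ := Multiset.le_replicate_iff.1 h
  refine ⟨k, ?_, rfl⟩
  have := hp 2 (by decide)
  rwa [Multiset.count_replicate_self] at this

theorem par_cons {ν : Multiset ℕ} {a : ℕ} (ha : Odd a) (h : Par (a ::ₘ ν)) : Par ν := by
  intro e he
  have := h e he
  rwa [Multiset.count_cons_of_ne (by rintro rfl; exact (Nat.not_even_iff_odd.2 ha) he)] at this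

theorem par_cons' {ν : Multiset ℕ} {a : ℕ} (ha : Odd a) (h : Par ν) : Par (a ::ₘ ν) := by
  intro e he
  have := h e he
  rwa [Multiset.count_cons_of_ne (by rintro rfl; exact (Nat.not_even_iff_odd.2 ha) he)]

theorem par_rep {k : ℕ} (hk : Even k) : Par (Multiset.replicate k 2) := by
  intro e he
  rw [Multiset.count_replicate]
  split_ifs
  · exact hk
  · exact Even.zero

theorem one_odd {ν : Multiset ℕ} {a d : ℕ} (ha : Odd a) (h : ν ≤ a ::ₘ Multiset.replicate d 2) (hp : Par ν)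
    (hs : Even ν.sum) : ∃ k, Even k ∧ ν = Multiset.replicate k 2 := by
  by_cases h1 : a ∈ ν
  · obtain ⟨ν1, rfl⟩ := Multiset.exists_cons_of_mem h1
    obtain ⟨k, hk, rfl⟩ := rep_two ((Multiset.cons_le_cons_iff _).1 h) (par_cons ha hp)
    exfalso
    rw [Multiset.sum_cons, Multiset.sum_replicate, smul_eq_mul] at hs
    obtain ⟨t, ht⟩ := hs
    obtain ⟨s, hs⟩ := ha
    obtain ⟨l, hl⟩ := hk
    omega
  · exact rep_two ((Multiset.le_cons_of_notMem h1).1 h) hp

theorem two_odd {ν : Multiset ℕ} {a b d : ℕ} (ha : Odd a) (hb : Odd b) (h : ν ≤ a ::ₘ b ::ₘ Multiset.replicate d 2) (hp : Par ν)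
    (hs : Even ν.sum) : ∃ k, Even k ∧ (ν = Multiset.replicate k 2 ∨ ν = a ::ₘ b ::ₘ Multiset.replicate k 2) := by
  by_cases h1 : a ∈ ν
  · obtain ⟨ν1, rfl⟩ := Multiset.exists_cons_of_mem h1
    have h2 := (Multiset.cons_le_cons_iff _).1 h
    by_cases h3 : b ∈ ν1
    · obtain ⟨ν2, rfl⟩ := Multiset.exists_cons_of_mem h3
      obtain ⟨k, hk, rfl⟩ := rep_two ((Multiset.cons_le_cons_iff _).1 h2) (par_cons hb (par_cons ha hp))
      exact ⟨k, hk, Or.inr rfl⟩
    · obtain ⟨k, hk, rfl⟩ := rep_two ((Multiset.le_cons_of_notMem h3).1 h2) (par_cons ha hp)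
      exfalso
      rw [Multiset.sum_cons, Multiset.sum_replicate, smul_eq_mul] at hs
      obtain ⟨t, ht⟩ := hs
      obtain ⟨s, hs⟩ := ha
      obtain ⟨l, hl⟩ := hk
      omega
  · obtain ⟨k, hk, rfl⟩ := one_odd hb ((Multiset.le_cons_of_notMem h1).1 h) hp hs
    exact ⟨k, hk, Or.inl rfl⟩

variable {F : Type u} [Field F]

/-- blocks of size two only: plus type -/
theorem plus_of_two {V : Type v} [AddCommGroup V] [Module F V] [FiniteDimensional F V] (h2 : (2 : F) ≠ 0)
    {Q : QuadraticForm F V} {f : V ≃ₗ[F] V} (hf : f ∈ O Q) {W : Submodule F V} {fW : Module.End F W}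
    (hfW : ∀ w, (fW w : V) = f w) {k : ℕ} (ht : HasType fW (uni F (Multiset.replicate k 2))) :
    ∃ U : Submodule F V, U ≤ W ∧ (∀ u ∈ U, Q u = 0) ∧ 2 * finrank F U = finrank F W := by
  classical
  have hW := finrank_uni ht
  rw [Multiset.sum_replicate, smul_eq_mul] at hW
  have hN : (fW - 1) ^ 2 = 0 := pow_sub_one ht (by intro j hj; rw [Multiset.eq_of_mem_replicate hj])
  have hker := ht.finrank_ker ((X - 1 : F[X]) ^ 1)
  have hirr : Irreducible (X - 1 : F[X]) := by
    have := Polynomial.irreducible_X_sub_C (1 : F)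
    rwa [C_1] at this
  have hmon : (X - 1 : F[X]).Monic := by
    have := Polynomial.monic_X_sub_C (1 : F)
    rwa [C_1] at this
  rw [uni, Multiset.map_map, Multiset.map_replicate, Multiset.sum_replicate] at hker
  have hg : gdeg ((X - 1 : F[X]) ^ 1) ((X - 1 : F[X]) ^ 2) = 1 := by
    rw [natDegree_gcd_pow _ _ hmon hirr hmon hirr, if_pos rfl, JordanType.X1_natDegree]
    rfl
  have hker' : finrank F (LinearMap.ker (fW - 1)) = k := by
    have h3 : (aeval fW) ((X - 1 : F[X]) ^ 1) = fW - 1 := by simp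
    rw [h3] at hker
    rw [hker]
    show k • gdeg ((X - 1 : F[X]) ^ 1) ((X - 1 : F[X]) ^ 2) = k
    rw [hg, smul_eq_mul, mul_one]
  have hr := LinearMap.finrank_range_add_finrank_ker (fW - 1)
  refine ⟨(LinearMap.range (fW - 1)).map W.subtype, Submodule.map_subtype_le _ _, ?_, ?_⟩
  · rintro _ ⟨x, ⟨y, rfl⟩, rfl⟩
    have hNx : ∀ z : W, (fW - 1) ((fW - 1) z) = 0 := by
      intro z
      have := congrArg (fun g : Module.End F W => g z) hN
      simpa [pow_two] using this
    set u : V := (y : V) with hu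
    set n : V := (((fW - 1) y : W) : V) with hn
    have h4 : f u = u + n := by
      rw [hn, ← hfW]
      show (fW y : V) = u + ((fW y : V) - (y : V))
      rw [hu]
      abel
    have h5 : f n = n := by
      have := hNx y
      have h6 : fW ((fW - 1) y) = (fW - 1) y := by
        have h7 : (fW - 1) ((fW - 1) y) = fW ((fW - 1) y) - (fW - 1) y := rfl
        rw [h7] at this
        exact sub_eq_zero.1 this
      rw [hn, ← hfW, h6]
    show Q n = 0
    have h6 : polar Q u n = polar Q u n + polar Q n n := by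
      calc polar Q u n = polar Q (f u) (f n) := (O_polar hf u n).symm
        _ = polar Q (u + n) n := by rw [h4, h5]
        _ = polar Q u n + polar Q n n := polar_add_left _ _ _ _
    have h7 : polar Q n n = 0 := by
      have := h6
      linear_combination -this
    have h8 : (2 : F) * Q n = 0 := by
      rw [← h7, polar_self, ← Nat.cast_smul_eq_nsmul F, Nat.cast_ofNat, smul_eq_mul]
    exact (mul_eq_zero.1 h8).resolve_left h2
  · have h9 : finrank F ((LinearMap.range (fW - 1)).map W.subtype) = finrank F (LinearMap.range (fW - 1)) :=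
      Submodule.finrank_map_subtype_eq _ _
    rw [h9]
    omega

end Cfsg.Agent.Lib.OPart

namespace Cfsg.Agent.Lib.OPart

open Module QuadraticMap Polynomial Cfsg.Agent.Lib.Quad Cfsg.Agent.Lib.OrthMax Cfsg.Agent.Lib.OrthNd Cfsg.Agent.Lib.FXType
  Cfsg.Agent.Lib.FormJordan2 Cfsg.Agent.Lib.FormJordan3 Cfsg.Agent.Lib.FormJordan
open Cfsg Cfsg.Geo Cfsg.Agent.Lib.GeoBridge Cfsg.Agent.Lib.OrthBridge

universe u

variable {F : Type u} [Field F] [Finite F] {ι : Type} [Fintype ι] [DecidableEq ι]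

/-- partition condition from fixed subspaces -/
theorem part_main {Q : QuadraticForm F (ι → F)} (hQ : Nd Q) (h2 : (2 : F) ≠ 0) {p : ℕ} [Fact p.Prime] [CharP F p] {m : ℕ}
    (hn : 0 < Fintype.card ι) (hm : m ≤ Fintype.card ι) (hme : Even m) {P : Submodule F (ι → F) → Prop}
    (hP : ∀ W, P W → Module.finrank F W = m ∧ IsNondegenerateOn (QuadraticMap.polar ⇑Q) W)
    (h : ∀ f ∈ Om Q, f ^ p = 1 → f ≠ 1 → ∃ W : Submodule F (ι → F), P W ∧ W.map (f : (ι → F) →ₗ[F] (ι → F)) ≤ W)
    (μ : Multiset ℕ) (hμ : ∀ e ∈ μ, 0 < e ∧ e ≤ p) (hpar : ∀ e : ℕ, Even e → Even (μ.count e)) (hs : μ.sum = Fintype.card ι) :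
    ∃ ν : Multiset ℕ, ν ≤ μ ∧ ν.sum = m ∧ ∀ e : ℕ, Even e → Even (ν.count e) := by
  have hp2 : Odd p := by
    rcases (Fact.out : p.Prime).eq_two_or_odd' with h | h
    · subst h
      exact absurd (CharTwo.two_eq_zero (R := F)) h2
    · exact h
  have hfin : finrank F (ι → F) = Fintype.card ι := Module.finrank_fintype_fun_eq_card F
  exact cnd_of_odd hp2 hme hn (fun μ h1 h3 h4 h5 => odd_main hQ h2 (by rw [hfin]; exact hm) (fun f hf hfp hf1 => by
    obtain ⟨W, hW, hW'⟩ := h f hf hfp hf1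
    exact ⟨W, (hP W hW).1, nds_of_on (hP W hW).2, hW'⟩) μ h1 h3 (by rw [hfin]; exact h4) h5) μ hμ hpar hs

/-- the congruence from the special partitions: odd dimension -/
theorem mod_odd {p d m : ℕ} (hp : 3 ≤ p) (hd : 1 ≤ d) (hme : Even m)
    (h : ∀ μ : Multiset ℕ, (∀ e ∈ μ, 0 < e ∧ e ≤ p) → (∀ e : ℕ, Even e → Even (μ.count e)) → μ.sum = 2 * d + 1 →
      ∃ ν : Multiset ℕ, ν ≤ μ ∧ ν.sum = m ∧ ∀ e : ℕ, Even e → Even (ν.count e)) : m % 4 = 0 := by
  rcases Nat.even_or_odd d with hde | hdo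
  · obtain ⟨ν, h1, h3, h4⟩ := h (1 ::ₘ Multiset.replicate d 2) (by
      intro e he
      rw [Multiset.mem_cons] at he
      rcases he with rfl | he
      · omega
      · rw [Multiset.eq_of_mem_replicate he]; omega) (par_cons' (by decide) (par_rep hde)) (by
      rw [Multiset.sum_cons, Multiset.sum_replicate, smul_eq_mul]; omega)
    obtain ⟨k, hk, rfl⟩ := one_odd (by decide) h1 h4 (by rw [h3]; exact hme)
    rw [Multiset.sum_replicate, smul_eq_mul] at h3
    obtain ⟨t, ht⟩ := hk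
    omega
  · obtain ⟨ν, h1, h3, h4⟩ := h (3 ::ₘ Multiset.replicate (d - 1) 2) (by
      intro e he
      rw [Multiset.mem_cons] at he
      rcases he with rfl | he
      · omega
      · rw [Multiset.eq_of_mem_replicate he]; omega) (par_cons' (by decide) (par_rep (by
        obtain ⟨t, ht⟩ := hdo
        exact ⟨t, by omega⟩))) (by
      rw [Multiset.sum_cons, Multiset.sum_replicate, smul_eq_mul]; omega)
    obtain ⟨k, hk, rfl⟩ := one_odd (by decide) h1 h4 (by rw [h3]; exact hme)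
    rw [Multiset.sum_replicate, smul_eq_mul] at h3
    obtain ⟨t, ht⟩ := hk
    omega

/-- the congruence: minus type -/
theorem mod_minus {Q : QuadraticForm F (ι → F)} (hQ : Nd Q) (h2 : (2 : F) ≠ 0) {p : ℕ} [Fact p.Prime] [CharP F p] {d m : ℕ}
    (hd : 2 ≤ d) (hn : Fintype.card ι = 2 * d) (hme : Even m)
    (h : ∀ f ∈ Om Q, f ^ p = 1 → f ≠ 1 → ∃ W : Submodule F (ι → F), (Module.finrank F W = m ∧
      IsNondegenerateOn (QuadraticMap.polar ⇑Q) W ∧ ¬ IsPlusTypeOn ⇑Q W) ∧ W.map (f : (ι → F) →ₗ[F] (ι → F)) ≤ W)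
    (h' : ∀ μ : Multiset ℕ, (∀ e ∈ μ, 0 < e ∧ e ≤ p) → (∀ e : ℕ, Even e → Even (μ.count e)) → μ.sum = 2 * d →
      ∃ ν : Multiset ℕ, ν ≤ μ ∧ ν.sum = m ∧ ∀ e : ℕ, Even e → Even (ν.count e)) : (2 * d) % 4 = m % 4 := by
  classical
  have hp2 : Odd p := by
    rcases (Fact.out : p.Prime).eq_two_or_odd' with h | h
    · subst h
      exact absurd (CharTwo.two_eq_zero (R := F)) h2
    · exact h
  have hp3 : 3 ≤ p := by
    have := (Fact.out : p.Prime).two_le
    obtain ⟨t, ht⟩ := hp2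
    omega
  have hfin : finrank F (ι → F) = Fintype.card ι := Module.finrank_fintype_fun_eq_card F
  rcases Nat.even_or_odd d with hde | hdo
  · obtain ⟨ν, h1, h3, h4⟩ := h' (3 ::ₘ 1 ::ₘ Multiset.replicate (d - 2) 2) (by
      intro e he
      rw [Multiset.mem_cons, Multiset.mem_cons] at he
      rcases he with rfl | rfl | he
      · omega
      · omega
      · rw [Multiset.eq_of_mem_replicate he]; omega) (par_cons' (by decide) (par_cons' (by decide) (par_rep (by
        obtain ⟨t, ht⟩ := hde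
        exact ⟨t - 1, by omega⟩)))) (by
      rw [Multiset.sum_cons, Multiset.sum_cons, Multiset.sum_replicate, smul_eq_mul]; omega)
    obtain ⟨k, hk, hk'⟩ := two_odd (by decide) (by decide) h1 h4 (by rw [h3]; exact hme)
    obtain ⟨t, ht⟩ := hk
    obtain ⟨s, hs⟩ := hde
    rcases hk' with rfl | rfl
    · rw [Multiset.sum_replicate, smul_eq_mul] at h3
      omega
    · rw [Multiset.sum_cons, Multiset.sum_cons, Multiset.sum_replicate, smul_eq_mul] at h3
      omega
  · obtain ⟨s, hs⟩ := hdo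
    have hpos : ∀ e ∈ (1 ::ₘ 1 ::ₘ Multiset.replicate (d - 1) 2), 0 < e ∧ e ≤ p := by
      intro e he
      rw [Multiset.mem_cons, Multiset.mem_cons] at he
      rcases he with rfl | rfl | he
      · omega
      · omega
      · rw [Multiset.eq_of_mem_replicate he]; omega
    have hsum : (1 ::ₘ 1 ::ₘ Multiset.replicate (d - 1) 2).sum = finrank F (ι → F) := by
      rw [Multiset.sum_cons, Multiset.sum_cons, Multiset.sum_replicate, smul_eq_mul, hfin, hn]; omega
    obtain ⟨f, hfO, hft⟩ := realize (μ := 1 ::ₘ 1 ::ₘ Multiset.replicate (d - 1) 2) h2 hQ (fun j hj => (hpos j hj).1)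
      (par_cons' (by decide) (par_cons' (by decide) (par_rep ⟨s, by omega⟩))) hsum ⟨1, by simp, by decide⟩
    have hfp : f ^ p = 1 := by
      have h1 := pow_p hft (fun j hj => (hpos j hj).2)
      apply LinearEquiv.toLinearMap_injective
      have h3 : ∀ k : ℕ, ((f ^ k : (ι → F) ≃ₗ[F] (ι → F)) : (ι → F) →ₗ[F] (ι → F)) = (f : (ι → F) →ₗ[F] (ι → F)) ^ k := by
        intro k
        induction k with
        | zero => rfl
        | succ k ih => rw [pow_succ, pow_succ, ← ih]; rfl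
      rw [h3, h1]; rfl
    have hf1 : f ≠ 1 := by
      rintro rfl
      have := eq_one_type hft rfl 2 (by
        rw [Multiset.mem_cons, Multiset.mem_cons]
        exact Or.inr (Or.inr (Multiset.mem_replicate.2 ⟨by omega, rfl⟩)))
      omega
    obtain ⟨W, ⟨hW1, hW2, hW3⟩, hW4⟩ := h f (OrthEmb67.odd_mem_Om hQ h2 hfO (by
      have := orderOf_dvd_of_pow_eq_one hfp
      exact Odd.of_dvd_nat hp2 this)) hfp hf1
    obtain ⟨ν, h3, h4, h5, fW, hfW, htW⟩ := restrict h2 hQ hfO hft (nds_of_on hW2) hW4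
    rw [hW1] at h4
    obtain ⟨k, hk, hk'⟩ := two_odd (by decide) (by decide) h3 h5 (by rw [h4]; exact hme)
    rcases hk' with rfl | rfl
    · exfalso
      obtain ⟨U, hU1, hU2, hU3⟩ := plus_of_two h2 hfO hfW htW
      exact hW3 ⟨U, hU1, hU2, hU3⟩
    · rw [Multiset.sum_cons, Multiset.sum_cons, Multiset.sum_replicate, smul_eq_mul] at h4
      obtain ⟨t, ht⟩ := hk
      omega

end Cfsg.Agent.Lib.OPart
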