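import Mathlib
import Cfsg.Agent.Lib.SpTrans

/-!
# Square zero elements in overgroups of symplectic type (helper21)
-/

set_option autoImplicit false
set_option linter.unusedSectionVars false
set_option linter.unusedVariables false

namespace Cfsg.Agent.Lib.TenSpO

open Cfsg.Agent.Lib.SpTrans Module

theorem ring_G {R : Type*} [Ring R] (a b : R) (ha : a * a = 0) (hb : b * b = 0) (hab : a * (b * (a * b)) = 0)
    (hba : b * (a * (b * a)) = 0) :
    (1 + a) * (1 + b) * (1 - a) * (1 - (b + b)) * ((1 - a) * (1 + b) * (1 + a)) =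
      1 - (a * b * a + a * b * a) + (b * a * b + b * a * b) := by
  have ha' : ∀ z : R, a * (a * z) = 0 := fun z => by rw [← mul_assoc, ha, zero_mul]
  have hb' : ∀ z : R, b * (b * z) = 0 := fun z => by rw [← mul_assoc, hb, zero_mul]
  have hab' : ∀ z : R, a * (b * (a * (b * z))) = 0 := fun z => by
    have : a * (b * (a * (b * z))) = a * (b * (a * b)) * z := by simp only [mul_assoc]
    rw [this, hab, zero_mul]
  have hba' : ∀ z : R, b * (a * (b * (a * z))) = 0 := fun z => by
    have : b * (a * (b * (a * z))) = b * (a * (b * a)) * z := by simp only [mul_assoc]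
    rw [this, hba, zero_mul]
  have e1 : (1 + a) * (1 + b) * (1 - a) = 1 + b + a * b - b * a - a * b * a := by
    simp only [mul_add, add_mul, mul_sub, sub_mul, one_mul, mul_one, mul_assoc, ha, hb, hab, hba, ha', hb', hab', hba']
    abel
  have e2 : (1 - a) * (1 + b) * (1 + a) = 1 + b - a * b + b * a - a * b * a := by
    simp only [mul_add, add_mul, mul_sub, sub_mul, one_mul, mul_one, mul_assoc, ha, hb, hab, hba, ha', hb', hab', hba']
    abel
  rw [e1, e2]
  simp only [mul_add, add_mul, mul_sub, sub_mul, one_mul, mul_one, mul_assoc, ha, hb, hab, hba, ha', hb', hab', hba',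
    mul_zero, zero_mul, add_zero, zero_add, sub_zero, neg_zero, zero_sub]
  abel

theorem ring_H {R : Type*} [Ring R] (X Y : R) (h1 : X * X = 0) (h2 : X * Y = 0) (h3 : Y * X = 0) (h4 : Y * Y = 0) :
    (1 - (X + X) + (Y + Y)) * (1 - (X + X) - (Y + Y)) = 1 - (X + X + X + X) := by
  simp only [mul_add, add_mul, mul_sub, sub_mul, one_mul, mul_one, h1, h2, h3, h4, add_zero, sub_zero]
  abel

section gen

variable {F V : Type*} [Field F] [AddCommGroup V] [Module F V] {B : V →ₗ[F] V →ₗ[F] F}
  {M : Subgroup (V ≃ₗ[F] V)}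

/-- an endomorphism is an element of `M` -/
def Me (M : Subgroup (V ≃ₗ[F] V)) (f : Module.End F V) : Prop := ∃ t ∈ M, ∀ x, t x = f x

theorem Me.mul {f g : Module.End F V} (h : Me M f) (h' : Me M g) : Me M (f * g) := by
  obtain ⟨t, ht, h1⟩ := h
  obtain ⟨s, hs, h2⟩ := h'
  exact ⟨t * s, mul_mem ht hs, fun x => by rw [LinearEquiv.mul_apply, h2, h1]; rfl⟩

theorem Me.inv {f g : Module.End F V} (h : Me M f) (hfg : f * g = 1) : Me M g := by
  obtain ⟨t, ht, h1⟩ := h
  refine ⟨t⁻¹, inv_mem ht, fun x => ?_⟩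
  have h2 : f (g x) = x := by
    have := LinearMap.congr_fun hfg x
    exact this
  rw [← h1] at h2
  have h3 : t⁻¹ (t (g x)) = g x := by
    rw [← LinearEquiv.mul_apply, inv_mul_cancel]; rfl
  rw [← h3, h2]

theorem Me.form (hM : M ≤ isom (fun x y => B x y)) {f : Module.End F V} (h : Me M f) (x y : V) :
    B (f x) (f y) = B x y := by
  obtain ⟨t, ht, h1⟩ := h
  rw [← h1, ← h1]
  exact hM ht x y

/-- square zero root subgroups -/
structure Qd (B : V →ₗ[F] V →ₗ[F] F) (M : Subgroup (V ≃ₗ[F] V)) (ν : Module.End F V) : Prop where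
  sk : ∀ x y, B (ν x) y = - B x (ν y)
  sq : ν * ν = 0
  me : ∀ c : F, Me M (1 + c • ν)

theorem Qd.smul {ν : Module.End F V} (h : Qd B M ν) (c : F) : Qd B M (c • ν) where
  sk x y := by
    rw [LinearMap.smul_apply, map_smul, LinearMap.smul_apply, h.sk, LinearMap.smul_apply, map_smul, smul_neg]
  sq := by rw [smul_mul_smul_comm, h.sq, smul_zero]
  me d := by
    have := h.me (d * c)
    rwa [mul_smul] at this

theorem Qd.L2 (h4 : (4 : F) ≠ 0) {ν μ : Module.End F V} (h : Qd B M ν) (h' : Qd B M μ) (h1 : ν * (μ * (ν * μ)) = 0)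
    (h2 : μ * (ν * (μ * ν)) = 0) : Qd B M (ν * μ * ν) where
  sk x y := by
    change B (ν (μ (ν x))) y = - B x (ν (μ (ν y)))
    rw [h.sk, h'.sk, h.sk]; ring
  sq := by
    have : ν * μ * ν * (ν * μ * ν) = ν * μ * (ν * ν) * (μ * ν) := by simp only [mul_assoc]
    rw [this, h.sq, mul_zero, zero_mul]
  me c := by
    set d : F := - (c / 4) with hd
    have hk : ∀ ε : F, Me M (1 + ε • ν) := h.me
    have hl : ∀ ε : F, Me M (1 + ε • μ) := h'.me
    set a := ν with ha
    set b := d • μ with hb
    have haa : a * a = 0 := h.sq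
    have hbb : b * b = 0 := (h'.smul d).sq
    have hab : a * (b * (a * b)) = 0 := by
      rw [hb, smul_mul_assoc, mul_smul_comm, mul_smul_comm, mul_smul_comm, mul_smul_comm, h1, smul_zero, smul_zero]
    have hba : b * (a * (b * a)) = 0 := by
      rw [hb]
      simp only [smul_mul_assoc, mul_smul_comm, h2, smul_zero]
    have G1 := ring_G a b haa hbb hab hba
    have G2 := ring_G (-a) b (by rw [neg_mul_neg, haa]) hbb (by simp only [neg_mul, mul_neg, hab, neg_zero])
      (by simp only [neg_mul, mul_neg, hba, neg_zero])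
    have m1 : Me M (1 + a) := by have := hk 1; rwa [one_smul] at this
    have m2 : Me M (1 - a) := by
      have := hk (-1); rwa [neg_smul, one_smul, ← sub_eq_add_neg] at this
    have m3 : Me M (1 + b) := hl d
    have m4 : Me M (1 - (b + b)) := by
      have := hl (-(d + d))
      rwa [neg_smul, ← sub_eq_add_neg, add_smul] at this
    have k1 : Me M ((1 + a) * (1 + b) * (1 - a) * (1 - (b + b)) * ((1 - a) * (1 + b) * (1 + a))) :=
      (((m1.mul m3).mul m2).mul m4).mul ((m2.mul m3).mul m1)
    have k2 : Me M ((1 + -a) * (1 + b) * (1 - -a) * (1 - (b + b)) * ((1 - -a) * (1 + b) * (1 + -a))) := by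
      rw [sub_neg_eq_add, ← sub_eq_add_neg]
      exact (((m2.mul m3).mul m1).mul m4).mul ((m1.mul m3).mul m2)
    rw [G1] at k1
    rw [G2] at k2
    have k3 := k1.mul k2
    have haa' : ∀ z : Module.End F V, a * (a * z) = 0 := fun z => by rw [← mul_assoc, haa, zero_mul]
    have hbb' : ∀ z : Module.End F V, b * (b * z) = 0 := fun z => by rw [← mul_assoc, hbb, zero_mul]
    have hab' : ∀ z : Module.End F V, a * (b * (a * (b * z))) = 0 := fun z => by
      have : a * (b * (a * (b * z))) = a * (b * (a * b)) * z := by simp only [mul_assoc]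
      rw [this, hab, zero_mul]
    have hba' : ∀ z : Module.End F V, b * (a * (b * (a * z))) = 0 := fun z => by
      have : b * (a * (b * (a * z))) = b * (a * (b * a)) * z := by simp only [mul_assoc]
      rw [this, hba, zero_mul]
    have e1 : -a * b * -a = a * b * a := by simp only [neg_mul, mul_neg, neg_neg]
    have e2 : b * -a * b = - (b * a * b) := by simp only [neg_mul, mul_neg]
    have e3 : (1 - (-a * b * -a + -a * b * -a) + (b * -a * b + b * -a * b) : Module.End F V) =
        1 - (a * b * a + a * b * a) - (b * a * b + b * a * b) := by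
      rw [e1, e2]; abel
    rw [e3, ring_H _ _ (by simp only [mul_assoc, haa']; simp only [mul_zero])
      (by simp only [mul_assoc, hab']; try simp only [hab, mul_zero])
      (by simp only [mul_assoc, hba']; try simp only [hba, mul_zero])
      (by simp only [mul_assoc, hbb']; simp only [mul_zero])] at k3
    have e4 : (1 - (a * b * a + a * b * a + a * b * a + a * b * a) : Module.End F V) = 1 + c • (ν * μ * ν) := by
      rw [hb, ha]
      simp only [smul_mul_assoc, mul_smul_comm]
      rw [← add_smul, ← add_smul, ← add_smul, sub_eq_add_neg, ← neg_smul]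
      congr 2
      rw [hd]; field_simp; ring
    rwa [e4] at k3

theorem Qd.conj (hM : M ≤ isom (fun x y => B x y)) {ν : Module.End F V} (h : Qd B M ν) {f g : Module.End F V} (hf : Me M f)
    (hfg : f * g = 1) (hgf : g * f = 1) : Qd B M (f * ν * g) where
  sk x y := by
    have e1 : f (g x) = x := LinearMap.congr_fun hfg x
    have e2 : f (g y) = y := LinearMap.congr_fun hfg y
    change B (f (ν (g x))) y = - B x (f (ν (g y)))
    calc B (f (ν (g x))) y = B (f (ν (g x))) (f (g y)) := by rw [e2]
      _ = - B (g x) (ν (g y)) := by rw [hf.form hM, h.sk]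
      _ = - B (f (g x)) (f (ν (g y))) := by rw [hf.form hM]
      _ = _ := by rw [e1]
  sq := by
    have : f * ν * g * (f * ν * g) = f * ν * (g * f) * ν * g := by simp only [mul_assoc]
    rw [this, hgf, mul_one, mul_assoc f ν ν, h.sq, mul_zero, zero_mul]
  me c := by
    have := (hf.mul (h.me c)).mul (hf.inv hfg)
    have e : f * (1 + c • ν) * g = 1 + c • (f * ν * g) := by
      rw [mul_add, mul_one, add_mul, hfg, mul_smul_comm, smul_mul_assoc]
    rwa [e] at this

/-- projection to a hyperbolic plane -/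
def pj (B : V →ₗ[F] V →ₗ[F] F) (x y : V) : Module.End F V := (B.flip y).smulRight x - (B.flip x).smulRight y

theorem pj_apply (x y v : V) : pj B x y v = B v y • x - B v x • y := rfl

/-- the reflection in a hyperbolic plane -/
def ip (B : V →ₗ[F] V →ₗ[F] F) (x y : V) : Module.End F V := 1 - (pj B x y + pj B x y)

theorem ip_apply (x y v : V) : ip B x y v = v - ((2 * B v y) • x - (2 * B v x) • y) := by
  change v - (pj B x y v + pj B x y v) = _
  rw [pj_apply]
  module

section pl

variable (hB : B.IsAlt) {x y : V} (hxy : B x y = 1)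

include hB hxy

theorem yx1 : B y x = -1 := by rw [alt_neg hB, hxy]

theorem pj_mul : pj B x y * pj B x y = pj B x y := by
  ext v
  change pj B x y (pj B x y v) = _
  rw [pj_apply x y (pj B x y v), pj_apply]
  simp only [map_sub, map_smul, LinearMap.sub_apply, LinearMap.smul_apply, smul_eq_mul, hxy, yx1 hB hxy, hB x, hB y,
    show B x x = 0 from hB x, show B y y = 0 from hB y]
  module

theorem ip_mul : ip B x y * ip B x y = 1 := by
  have h := pj_mul hB hxy
  unfold ip
  simp only [mul_sub, sub_mul, mul_add, add_mul, h, one_mul, mul_one]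
  abel

/-- conjugating a projection -/
theorem conj_pj {f g : Module.End F V} (hf : ∀ x y, B (f x) (f y) = B x y) (hfg : f * g = 1) :
    f * pj B x y * g = pj B (f x) (f y) := by
  ext v
  have e1 : f (g v) = v := LinearMap.congr_fun hfg v
  change f (pj B x y (g v)) = _
  rw [pj_apply, pj_apply, map_sub, map_smul, map_smul, ← hf (g v) y, ← hf (g v) x, e1]

theorem conj_ip {f g : Module.End F V} (hf : ∀ x y, B (f x) (f y) = B x y) (hfg : f * g = 1) :
    f * ip B x y * g = ip B (f x) (f y) := by
  unfold ip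
  rw [← conj_pj hB hxy hf hfg, mul_sub, sub_mul, mul_one, hfg, mul_add, add_mul]

/-- **Second lemma.** -/
theorem Qd.ii (hM : M ≤ isom (fun x y => B x y)) (h4 : (4 : F) ≠ 0) (h8 : (8 : F) ≠ 0) {ν : Module.End F V} (h : Qd B M ν)
    (hi : Me M (ip B x y)) {α β γ : F} (hα : B (ν x) y = α) (hβ : B (ν x) x = β) (hγ : B (ν y) y = γ)
    (hδ : α * α = β * γ) {η s t : F} (h1 : α = η * s * t) (h2 : β = - (η * t * t))
    (h3 : γ = - (η * s * s)) (hη : η ≠ 0) : ∀ a, tv B hB (ν (s • x + t • y)) a ∈ M := by
  have hpp := pj_mul hB hxy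
  have hii := ip_mul hB hxy
  set π := pj B x y with hπ
  set i := ip B x y with hi0
  have hidef : i = 1 - (π + π) := rfl
  have hμ : Qd B M (i * ν * i) := h.conj hM hi hii hii
  have hyx := yx1 hB hxy
  have hα' : B (ν y) x = α := by
    rw [h.sk, alt_neg hB, neg_neg, hα]
  have px : π (ν x) = α • x - β • y := by rw [hπ, pj_apply, hα, hβ]
  have py : π (ν y) = γ • x - α • y := by rw [hπ, pj_apply, hγ, hα']
  -- `π ν π ν π = 0`
  have hT : π * (ν * (π * (ν * π))) = 0 := by
    ext v
    change π (ν (π (ν (π v)))) = 0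
    rw [hπ, pj_apply x y v, ← hπ]
    simp only [map_sub, map_smul, px, py]
    match_scalars
    · linear_combination (B v y) * hδ
    · linear_combination (-(B v x)) * hδ
  have hsq' : ∀ z : Module.End F V, ν * (ν * z) = 0 := fun z => by rw [← mul_assoc, h.sq, zero_mul]
  have hpp' : ∀ z : Module.End F V, π * (π * z) = π * z := fun z => by rw [← mul_assoc, hpp]
  have e1 : ν * i * ν = - (ν * π * ν + ν * π * ν) := by
    rw [hidef]
    simp only [mul_sub, sub_mul, mul_add, add_mul, mul_one, mul_assoc, h.sq]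
    abel
  have e2 : ν * i * ν * i * ν = (ν * π * ν * π * ν + ν * π * ν * π * ν) + (ν * π * ν * π * ν + ν * π * ν * π * ν) := by
    rw [e1]
    have : -(ν * π * ν + ν * π * ν) * i * ν = - (ν * π * (ν * i * ν) + ν * π * (ν * i * ν)) := by
      simp only [mul_assoc, add_mul, neg_mul]
    rw [this, e1]
    simp only [mul_assoc, mul_neg, mul_add, neg_add, neg_neg]
  have e3 : ν * i * ν * i * ν * i * ν = 0 := by
    have hT' : ∀ z : Module.End F V, π * (ν * (π * (ν * (π * z)))) = 0 := fun z => by
      have : π * (ν * (π * (ν * (π * z)))) = π * (ν * (π * (ν * π))) * z := by simp only [mul_assoc]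
      rw [this, hT, zero_mul]
    have : ν * i * ν * i * ν * i * ν = (ν * i * ν * i * ν) * (i * ν) := by simp only [mul_assoc]
    rw [this, e2, hidef]
    simp only [mul_sub, sub_mul, mul_add, add_mul, mul_one, one_mul, mul_assoc, h.sq, hT', mul_zero, add_zero, sub_zero]
  have hK := h.L2 h4 hμ (by
      have : ν * (i * ν * i * (ν * (i * ν * i))) = ν * i * ν * i * ν * i * ν * i := by simp only [mul_assoc]
      rw [this, e3, zero_mul])
    (by
      have : i * ν * i * (ν * (i * ν * i * ν)) = i * (ν * i * ν * i * ν * i * ν) := by simp only [mul_assoc]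
      rw [this, e3, mul_zero])
  intro a
  obtain ⟨τ, hτ, h5⟩ := hK.me (- (a / (4 * η)))
  have : τ = tv B hB (ν (s • x + t • y)) a := by
    ext v
    rw [h5, tv_apply]
    change v + (-(a / (4 * η))) • (ν * (i * ν * i) * ν) v = _
    have : ν * (i * ν * i) * ν = ν * i * ν * i * ν := by simp only [mul_assoc]
    rw [this, e2]
    change v + (-(a / (4 * η))) • ((ν (π (ν (π (ν v)))) + ν (π (ν (π (ν v))))) + (ν (π (ν (π (ν v)))) + ν (π (ν (π (ν v)))))) = _
    have e4 : π (ν v) = B (ν v) y • x - B (ν v) x • y := by rw [hπ, pj_apply]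
    have e5 : B v (ν (s • x + t • y)) = - (s * B (ν v) x + t * B (ν v) y) := by
      have := h.sk v (s • x + t • y)
      rw [map_add, map_smul, map_smul, smul_eq_mul, smul_eq_mul] at this
      linear_combination this
    rw [e5, e4]
    simp only [map_sub, map_smul, map_add, px, py, h1, h2, h3]
    match_scalars
    · rfl
    all_goals field_simp
    all_goals ring
  rw [← this]
  exact hτ

/-- **Adjacency.** -/
theorem Qd.adj (hM : M ≤ isom (fun x y => B x y)) (h2 : (2 : F) ≠ 0) {ν : Module.End F V} (h : Qd B M ν)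
    (hi : Me M (ip B x y)) {s : F} (hs : s ≠ 0) (hα : B (ν x) y = s) (hβ : B (ν x) x = 0) (hγ : B (ν y) y = 0) :
    ∃ r, r ≠ 0 ∧ B r x = 0 ∧ B r y = 0 ∧ ∃ t ∈ M, ∀ v, t v = v + B v r • x + B v x • r := by
  have hii := ip_mul hB hxy
  have hyx := yx1 hB hxy
  set i := ip B x y with hi0
  have hμ : Qd B M (i * ν * i) := h.conj hM hi hii hii
  have hsq : ∀ v, ν (ν v) = 0 := fun v => LinearMap.congr_fun h.sq v
  set r := ν y + s • y with hr
  set r₁ := ν x - s • x with hr₁
  have hα' : B (ν y) x = s := by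
    rw [h.sk, alt_neg hB, neg_neg, hα]
  have hxx : B x x = 0 := hB x
  have hyy : B y y = 0 := hB y
  have hrx : B r x = 0 := by rw [hr, map_add, LinearMap.add_apply, map_smul, LinearMap.smul_apply, hα', hyx, smul_eq_mul]; ring
  have hry : B r y = 0 := by rw [hr, map_add, LinearMap.add_apply, map_smul, LinearMap.smul_apply, hγ, hyy, smul_eq_mul]; ring
  have hr1x : B r₁ x = 0 := by rw [hr₁, map_sub, LinearMap.sub_apply, map_smul, LinearMap.smul_apply, hβ, hxx, smul_eq_mul]; ring
  have hr1y : B r₁ y = 0 := by rw [hr₁, map_sub, LinearMap.sub_apply, map_smul, LinearMap.smul_apply, hα, hxy, smul_eq_mul]; ring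
  have hr0 : r ≠ 0 := by
    intro h0
    have e1 : ν y = - (s • y) := by rw [hr] at h0; exact eq_neg_of_add_eq_zero_left h0
    have e2 : ν (ν y) = (s * s) • y := by rw [e1, map_neg, map_smul, e1]; module
    rw [hsq] at e2
    have : y = 0 := by
      rcases smul_eq_zero.mp e2.symm with h | h
      · exact absurd h (mul_ne_zero hs hs)
      · exact h
    rw [this, map_zero] at hxy
    exact zero_ne_one hxy
  have h4 : (4 : F) ≠ 0 := by
    have : (4 : F) = 2 * 2 := by norm_num
    rw [this]; exact mul_ne_zero h2 h2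
  -- the element `h`
  set c : F := -1 / (4 * s) with hc
  set c' : F := -1 / (2 * s) with hc'
  have hh := (hμ.me c').mul (h.me c)
  set f := (1 + c' • (i * ν * i)) * (1 + c • ν) with hf
  have fv : ∀ v, f v = v + c • ν v + c' • i (ν (i (v + c • ν v))) := fun v => rfl
  have ix : i x = -x := by rw [hi0, ip_apply, hxy, hxx]; module
  have iy : i y = -y := by rw [hi0, ip_apply, hyy, hyx]; module
  have ir : i r = r := by rw [hi0, ip_apply, hrx, hry]; module
  have ir1 : i r₁ = r₁ := by rw [hi0, ip_apply, hr1x, hr1y]; module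
  have nx : ν x = s • x + r₁ := by rw [hr₁]; abel
  have ny : ν y = r - s • y := by rw [hr]; abel
  have nr1 : ν r₁ = - (s * s) • x - s • r₁ := by
    rw [hr₁, map_sub, hsq, map_smul, nx]; module
  have nr : ν r = s • r - (s * s) • y := by
    rw [hr, map_add, hsq, map_smul, ny]; module
  have fx : f x = (1 / 2 : F) • x := by
    rw [fv]
    simp only [map_add, map_smul, map_sub, nx, ix, ir1, nr1, map_neg, hc, hc']
    match_scalars <;> field_simp <;> ring
  have fy : f y = (2 : F) • y + (1 / (2 * s)) • r := by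
    rw [fv]
    simp only [map_add, map_smul, map_sub, ny, iy, ir, nr, map_neg, hc, hc']
    match_scalars <;> field_simp <;> ring
  -- inverse of `f`
  obtain ⟨τ, hτ, h5⟩ := hh
  have hτf := hM hτ
  let g : Module.End F V := ((τ⁻¹ : V ≃ₗ[F] V) : V →ₗ[F] V)
  have hfg : f * g = 1 := by
    ext v
    change f (τ⁻¹ v) = v
    rw [← h5, ← LinearEquiv.mul_apply, mul_inv_cancel]; rfl
  have hg : Me M g := ⟨τ⁻¹, inv_mem hτ, fun x => rfl⟩
  have hfB : ∀ x y, B (f x) (f y) = B x y := fun x y => by rw [← h5, ← h5]; exact hτf x y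
  have k1 := conj_ip hB hxy hfB hfg
  have k2 : Me M (f * i * g) := by
    refine Me.mul (Me.mul ⟨τ, hτ, h5⟩ hi) hg
  rw [← hi0] at k1
  rw [k1, fx, fy] at k2
  obtain ⟨w, hw, h6⟩ := hi.mul k2
  refine ⟨(1 / (2 * s)) • r, ?_, by rw [map_smul, LinearMap.smul_apply, hrx, smul_zero],
    by rw [map_smul, LinearMap.smul_apply, hry, smul_zero], w, hw, fun v => ?_⟩
  · exact smul_ne_zero (one_div_ne_zero (mul_ne_zero h2 hs)) hr0
  · rw [h6]
    change i (ip B ((1 / 2 : F) • x) ((2 : F) • y + (1 / (2 * s)) • r) v) = _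
    rw [ip_apply ((1 / 2 : F) • x)]
    simp only [map_sub, map_add, map_smul, ix, iy, ir, smul_eq_mul, map_neg]
    rw [hi0, ip_apply]
    match_scalars <;> field_simp <;> ring

end pl

end gen

end Cfsg.Agent.Lib.TenSpO
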