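import Mathlib
import Cfsg.Agent.Lib.TenSpO1
import Cfsg.Agent.Lib.OrthDec2H94
import Cfsg.Agent.Lib.QuadSpinor

/-!
# Overgroups of `SL₂ ∘ O(W)` in `Sp(W × W)`: finishing (helper21)
-/

set_option autoImplicit false
set_option linter.unusedSectionVars false
set_option linter.unusedVariables false
set_option linter.unusedSimpArgs false

namespace Cfsg.Agent.Lib.TenSpO

open QuadraticMap Module Cfsg.Agent.Lib.Quad Cfsg.Agent.Lib.OrthNd Cfsg.Agent.Lib.OrthDecH94
open Cfsg.Agent.Lib.SpTrans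

variable {F W : Type*} [Field F] [AddCommGroup W] [Module F W] [FiniteDimensional F W] {Q : QuadraticForm F W}

/-- the alternating form on `W × W` -/
def BB (Q : QuadraticForm F W) : (W × W) →ₗ[F] (W × W) →ₗ[F] F :=
  LinearMap.mk₂ F (fun v v' => polar Q v.1 v'.2 - polar Q v.2 v'.1)
    (fun a b c => by simp only [Prod.fst_add, Prod.snd_add, polar_add_left]; ring)
    (fun c a b => by simp only [Prod.smul_fst, Prod.smul_snd, polar_smul_left, smul_eq_mul]; ring)
    (fun a b c => by simp only [Prod.fst_add, Prod.snd_add, polar_add_right]; ring)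
    (fun c a b => by simp only [Prod.smul_fst, Prod.smul_snd, polar_smul_right, smul_eq_mul]; ring)

theorem BB_apply (v v' : W × W) : BB Q v v' = polar Q v.1 v'.2 - polar Q v.2 v'.1 := rfl

theorem BB_alt : (BB Q).IsAlt := by
  intro v
  rw [BB_apply, polar_comm, sub_self]

theorem BB_nd (hQ : Nd Q) : NdOn (BB Q) ⊤ := by
  intro x _ hx
  by_contra hcon
  push Not at hcon
  apply hx
  apply Prod.ext
  · apply hQ.eq_zero
    intro y
    have := hcon (0, y) trivial
    rw [BB_apply] at this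
    simpa using this
  · apply hQ.eq_zero
    intro y
    have := hcon (y, 0) trivial
    rw [BB_apply] at this
    simpa using this

/-- the situation -/
structure TO (Q : QuadraticForm F W) (M : Subgroup ((W × W) ≃ₗ[F] (W × W))) : Prop where
  nd : Nd Q
  two : (2 : F) ≠ 0
  dim : 5 ≤ finrank F W
  le : M ≤ isom (fun x y => BB Q x y)
  sl : ∀ a b c d : F, a * d - b * c = 1 → ∃ t ∈ M, ∀ x y : W, t (x, y) = (a • x + b • y, c • x + d • y)
  o : ∀ ρ ∈ O Q, ∃ t ∈ M, ∀ x y, t (x, y) = (ρ x, ρ y)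

/-- elements of the unipotent radical -/
def S0 (M : Subgroup ((W × W) ≃ₗ[F] (W × W))) (A : W →ₗ[F] W) : Prop := ∃ t ∈ M, ∀ x y, t (x, y) = (x + A y, y)

/-- symmetric products -/
def dm (Q : QuadraticForm F W) (w y : W) : W →ₗ[F] W := (polarBilin Q w).smulRight y + (polarBilin Q y).smulRight w

theorem dm_apply (w y x : W) : dm Q w y x = polar Q w x • y + polar Q y x • w := rfl

theorem dm_comm (w y : W) : dm Q w y = dm Q y w := by
  ext x; rw [dm_apply, dm_apply, add_comm]

variable {M : Subgroup ((W × W) ≃ₗ[F] (W × W))}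

theorem S0.add {A A' : W →ₗ[F] W} (h : S0 M A) (h' : S0 M A') : S0 M (A + A') := by
  obtain ⟨t, ht, h1⟩ := h
  obtain ⟨s, hs, h2⟩ := h'
  refine ⟨t * s, mul_mem ht hs, fun x y => ?_⟩
  rw [LinearEquiv.mul_apply, h2, h1, LinearMap.add_apply]
  congr 1; abel

theorem exists_inv {t : (W × W) ≃ₗ[F] (W × W)} (ht : t ∈ M) {g f : (W × W) → (W × W)} (h1 : ∀ v, t v = f v)
    (h2 : ∀ v, f (g v) = v) : ∃ s ∈ M, ∀ v, s v = g v := by
  refine ⟨t⁻¹, inv_mem ht, fun v => ?_⟩
  have h3 : t (g v) = v := by rw [h1, h2]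
  have h4 : t⁻¹ (t (g v)) = g v := by rw [← LinearEquiv.mul_apply, inv_mul_cancel]; rfl
  rw [← h4, h3]

theorem S0.neg {A : W →ₗ[F] W} (h : S0 M A) : S0 M (-A) := by
  obtain ⟨t, ht, h1⟩ := h
  obtain ⟨s, hs, h2⟩ := exists_inv ht (g := fun v => (v.1 - A v.2, v.2)) (f := fun v => (v.1 + A v.2, v.2))
    (fun v => h1 v.1 v.2) (fun v => by simp)
  exact ⟨s, hs, fun x y => by rw [h2, LinearMap.neg_apply, ← sub_eq_add_neg]⟩

theorem S0.sub {A A' : W →ₗ[F] W} (h : S0 M A) (h' : S0 M A') : S0 M (A - A') := by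
  rw [sub_eq_add_neg]; exact h.add h'.neg

namespace TO

variable (T : TO Q M)

include T

theorem smul [Finite F] {A : W →ₗ[F] W} (h : S0 M A) (c : F) : S0 M (c • A) := by
  have key : ∀ l : F, l ≠ 0 → S0 M ((l * l) • A) := by
    intro l hl
    obtain ⟨t, ht, h1⟩ := h
    obtain ⟨d, hd, h2⟩ := T.sl l 0 0 l⁻¹ (by rw [mul_inv_cancel₀ hl]; ring)
    obtain ⟨e, he, h3⟩ := T.sl l⁻¹ 0 0 l (by rw [inv_mul_cancel₀ hl]; ring)
    refine ⟨d * t * e, mul_mem (mul_mem hd ht) he, fun x y => ?_⟩
    rw [LinearEquiv.mul_apply, LinearEquiv.mul_apply, h3, h1, h2]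
    apply Prod.ext
    · change l • (l⁻¹ • x + (0 : F) • y + A ((0 : F) • x + l • y)) + (0 : F) • ((0 : F) • x + l • y) = x + (l * l) • A y
      rw [zero_smul, zero_smul, zero_smul, add_zero, zero_add, add_zero, map_smul, smul_add, smul_smul, smul_smul,
        mul_inv_cancel₀ hl, one_smul]
    · change (0 : F) • (l⁻¹ • x + (0 : F) • y + A ((0 : F) • x + l • y)) + l⁻¹ • ((0 : F) • x + l • y) = y
      rw [zero_smul, zero_smul, zero_add, zero_add, smul_smul, inv_mul_cancel₀ hl, one_smul]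
  have key' : ∀ l : F, S0 M ((l * l) • A) := by
    intro l
    by_cases hl : l = 0
    · rw [hl, zero_mul, zero_smul]
      exact ⟨1, one_mem _, fun x y => by simp⟩
    · exact key l hl
  obtain ⟨a, b, hab⟩ := exists_sum_sq T.two (one_ne_zero (α := F)) (one_ne_zero (α := F)) c
  rw [one_mul, one_mul] at hab
  rw [← hab, add_smul]
  exact (key' a).add (key' b)

theorem of_smul [Finite F] {A : W →ₗ[F] W} {c : F} (hc : c ≠ 0) (h : S0 M (c • A)) : S0 M A := by
  have := T.smul h c⁻¹
  rwa [smul_smul, inv_mul_cancel₀ hc, one_smul] at this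

theorem map {A A' : W →ₗ[F] W} (h : S0 M A) {ρ : W ≃ₗ[F] W} (hρ : ρ ∈ O Q) (hA : ∀ x, A' (ρ x) = ρ (A x)) :
    S0 M A' := by
  obtain ⟨t, ht, h1⟩ := h
  obtain ⟨d, hd, h2⟩ := T.o ρ hρ
  obtain ⟨e, he, h3⟩ := T.o ρ⁻¹ (inv_mem hρ)
  refine ⟨d * t * e, mul_mem (mul_mem hd ht) he, fun x y => ?_⟩
  have e1 : ∀ z, ρ (ρ⁻¹ z) = z := fun z => ρ.apply_symm_apply z
  rw [LinearEquiv.mul_apply, LinearEquiv.mul_apply, h3, h1, h2, map_add, ← hA, e1, e1]

theorem dmap {w y : W} (h : S0 M (dm Q w y)) {ρ : W ≃ₗ[F] W} (hρ : ρ ∈ O Q) : S0 M (dm Q (ρ w) (ρ y)) :=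
  T.map h hρ fun x => by
    rw [dm_apply, dm_apply, O_polar hρ, O_polar hρ, map_add, map_smul, map_smul]

theorem dim3 : 3 ≤ finrank F (⊤ : Submodule F W) := by rw [finrank_top]; have := T.dim; omega

omit T in
theorem nds_top' (hQ : Nd Q) : NDs Q (⊤ : Submodule F W) := by
  rw [NDs, eq_bot_iff]
  rintro x ⟨-, hx⟩
  rw [Submodule.mem_bot]
  apply hQ.eq_zero
  intro y
  rw [polar_comm]
  exact mem_perp.1 hx y trivial

/-- **Finishing, first case.** -/
theorem fin1 [Finite F] {w y : W} (h : S0 M (dm Q w y)) (hw : Q w ≠ 0) (hy : y ≠ 0) (hwy : polar Q w y = 0) :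
    ∃ u, u ≠ 0 ∧ Q u = 0 ∧ S0 M (dm Q u u) := by
  have hA := nds_cut1 T.nd T.two (nds_top' T.nd) (a := w) trivial hw
  have hd := finrank_cut1 T.nd (A := (⊤ : Submodule F W)) (a := w)
  rw [finrank_top] at hd
  have hd5 := T.dim
  set A : Submodule F W := ⊤ ⊓ perp Q (F ∙ w) with hAdef
  have hyA : y ∈ A := mem_cut1.2 ⟨trivial, hwy⟩
  obtain ⟨u, huA, hu, hyu⟩ := exists_sing_polar T.nd hA (by omega) hyA hy
  have hu0 : u ≠ 0 := by rintro rfl; rw [polar_zero_right] at hyu; exact zero_ne_one hyu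
  obtain ⟨s, hsA, hus, hs⟩ := exists_nonsing_perp' T.nd hA (by omega) huA hu0 hu
  have hwu := (mem_cut1.1 huA).2
  have hws := (mem_cut1.1 hsA).2
  have huw : polar Q u w = 0 := by rw [polar_comm]; exact hwu
  have huy : polar Q u y = 1 := by rw [polar_comm]; exact hyu
  -- Siegel transformations
  have hus' : polar Q u (-s) = 0 := by rw [polar_neg_right, hus, neg_zero]
  have m1 := ofMap_mem T.nd (siegMap Q u s) (siegMap_Q hu hus)
  have m2 := ofMap_mem T.nd (siegMap Q u (-s)) (siegMap_Q hu hus')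
  have m3 := ofMap_mem T.nd (siegMap Q u w) (siegMap_Q hu huw)
  have k1 := T.dmap h m1
  have k2 := T.dmap h m2
  rw [ofMap_apply, ofMap_apply, siegMap_apply, siegMap_apply] at k1 k2
  have hsw : polar Q s w = 0 := by rw [polar_comm]; exact hws
  have hk : S0 M (dm Q w u) := by
    have e : (dm Q (w + polar Q u w • s - polar Q s w • u - (Q s * polar Q u w) • u)
        (y + polar Q u y • s - polar Q s y • u - (Q s * polar Q u y) • u)) +
        (dm Q (w + polar Q u w • (-s) - polar Q (-s) w • u - (Q (-s) * polar Q u w) • u)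
        (y + polar Q u y • (-s) - polar Q (-s) y • u - (Q (-s) * polar Q u y) • u)) - dm Q w y - dm Q w y =
        (-(2 * Q s)) • dm Q w u := by
      ext x
      simp only [LinearMap.add_apply, LinearMap.sub_apply, LinearMap.smul_apply, dm_apply, huw, hsw, huy,
        polar_neg_left, QuadraticMap.map_neg, neg_zero, zero_smul, mul_zero, add_zero, sub_zero, polar_add_left, polar_sub_left,
        polar_smul_left, smul_eq_mul]
      module
    have := ((k1.add k2).sub h).sub h
    rw [e] at this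
    exact T.of_smul (neg_ne_zero.mpr (mul_ne_zero T.two hs)) this
  have k3 := T.dmap hk m3
  rw [ofMap_apply, ofMap_apply, siegMap_apply, siegMap_apply] at k3
  have huu : polar Q u u = 0 := by rw [polar_self', hu, mul_zero]
  have hk' : S0 M (dm Q u u) := by
    have e : (dm Q (w + polar Q u w • w - polar Q w w • u - (Q w * polar Q u w) • u)
        (u + polar Q u u • w - polar Q w u • u - (Q w * polar Q u u) • u)) - dm Q w u = (-(2 * Q w)) • dm Q u u := by
      ext x
      simp only [LinearMap.add_apply, LinearMap.sub_apply, LinearMap.smul_apply, dm_apply, huw, hwu, huu,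
        zero_smul, mul_zero, add_zero, sub_zero, polar_add_left, polar_sub_left,
        polar_smul_left, smul_eq_mul, polar_self']
      module
    have := k3.sub hk
    rw [e] at this
    exact T.of_smul (neg_ne_zero.mpr (mul_ne_zero T.two hw)) this
  exact ⟨u, hu0, hu, hk'⟩

/-- **Finishing, second case.** -/
theorem fin2 [Finite F] {w : W} (h : S0 M (dm Q w w)) (hw : Q w ≠ 0) :
    ∃ u, u ≠ 0 ∧ Q u = 0 ∧ S0 M (dm Q u u) := by
  have hd5 := T.dim
  have hw0 : w ≠ 0 := by rintro rfl; exact hw (by simp)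
  obtain ⟨u, -, hu, hwu⟩ := exists_sing_polar T.nd (nds_top' T.nd) T.dim3 (x := w) trivial hw0
  have huw : polar Q u w = 1 := by rw [polar_comm]; exact hwu
  obtain ⟨h1, h2⟩ := adjust_singular hu huw
  have hA := nds_cut T.nd (nds_top' T.nd) (e := u) (f := w - Q w • u) trivial trivial hu h1 h2
  have hd := finrank_cut T.nd (⊤ : Submodule F W) u (w - Q w • u)
  rw [finrank_top] at hd
  obtain ⟨s, hsA, hs⟩ := exists_nonsing hA (by omega)
  obtain ⟨-, hus, h3⟩ := mem_cut.1 hsA
  have hws : polar Q w s = 0 := by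
    rw [polar_sub_left, polar_smul_left, hus, smul_zero, sub_zero] at h3; exact h3
  have hsw : polar Q s w = 0 := by rw [polar_comm]; exact hws
  have hus' : polar Q u (-s) = 0 := by rw [polar_neg_right, hus, neg_zero]
  have m1 := ofMap_mem T.nd (siegMap Q u s) (siegMap_Q hu hus)
  have m2 := ofMap_mem T.nd (siegMap Q u (-s)) (siegMap_Q hu hus')
  have k1 := T.dmap h m1
  have k2 := T.dmap h m2
  rw [ofMap_apply, siegMap_apply] at k1 k2
  have e : (dm Q (w + polar Q u w • s - polar Q s w • u - (Q s * polar Q u w) • u)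
        (w + polar Q u w • s - polar Q s w • u - (Q s * polar Q u w) • u)) -
        (dm Q (w + polar Q u w • (-s) - polar Q (-s) w • u - (Q (-s) * polar Q u w) • u)
        (w + polar Q u w • (-s) - polar Q (-s) w • u - (Q (-s) * polar Q u w) • u)) =
        (4 : F) • dm Q s (w - Q s • u) := by
    ext x
    simp only [LinearMap.add_apply, LinearMap.sub_apply, LinearMap.smul_apply, dm_apply, huw, hsw,
        polar_neg_left, QuadraticMap.map_neg, neg_zero, zero_smul, mul_zero, add_zero, sub_zero, polar_add_left, polar_sub_left,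
        polar_smul_left, smul_eq_mul, mul_one, one_smul]
    module
  have := k1.sub k2
  rw [e] at this
  have h4 : (4 : F) ≠ 0 := by
    have : (4 : F) = 2 * 2 := by norm_num
    rw [this]; exact mul_ne_zero T.two T.two
  refine T.fin1 (T.of_smul h4 this) hs ?_ ?_
  · intro h0
    have : polar Q u (w - Q s • u) = 0 := by rw [h0, polar_zero_right]
    rw [polar_sub_right, polar_smul_right, huw, polar_self', hu] at this
    simp at this
  · rw [polar_sub_right, polar_smul_right, hsw, polar_comm Q s u, hus]; simp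

/-- transvections -/
theorem cen_of {u : W} (h : S0 M (dm Q u u)) [Finite F] : (u, (0 : W)) ∈ centres (BB_alt (Q := Q)) M := by
  intro a
  obtain ⟨t, ht, h1⟩ := T.smul h (-(a / 2))
  have : tv (BB Q) (BB_alt (Q := Q)) (u, 0) a = t := by
    ext1 v
    rw [tv_apply, show v = (v.1, v.2) from rfl, h1, BB_apply]
    apply Prod.ext
    · change v.1 + (a * (polar Q v.1 0 - polar Q v.2 u)) • u = v.1 + (-(a / 2)) • (polar Q u v.2 • u + polar Q u v.2 • u)
      rw [polar_zero_right, polar_comm Q u v.2]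
      have := T.two
      match_scalars
      · ring
      · field_simp; ring
    · change v.2 + (a * (polar Q v.1 0 - polar Q v.2 u)) • (0 : W) = v.2
      rw [smul_zero, add_zero]
  rw [this]; exact ht

/-- **Finishing.** -/
theorem fin3 [Finite F] {u : W} (hu0 : u ≠ 0) (hu : Q u = 0) (h : (u, (0 : W)) ∈ centres (BB_alt (Q := Q)) M) :
    isom (fun x y => BB Q x y) ≤ M := by
  refine isom_le_of_tv_mem (BB_alt (Q := Q)) (BB_nd T.nd) ?_
  suffices key : ∀ v, v ∈ centres (BB_alt (Q := Q)) M from fun v a => key v a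
  -- singular vectors
  have h1 : ∀ z : W, Q z = 0 → ∀ a c : F, (a • z, c • z) ∈ centres (BB_alt (Q := Q)) M := by
    intro z hz a c
    by_cases hz0 : z = 0
    · rw [hz0, smul_zero, smul_zero]; exact centres_zero _ _
    obtain ⟨ρ, hρ, hρu⟩ : ∃ ρ ∈ O Q, ρ u = z := T.nd.exists_map_eq hu0 hz0 (by rw [hu, hz])
    obtain ⟨t, ht, h2⟩ := T.o ρ hρ
    have h3 := centres_map _ T.le h ht
    rw [h2, hρu, map_zero] at h3
    by_cases ha : a = 0
    · obtain ⟨s, hs, h4⟩ := T.sl 0 (-1) 1 0 (by ring)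
      have h5 := centres_smul _ (centres_map _ T.le h3 hs) c
      rw [h4] at h5
      simpa [ha] using h5
    · obtain ⟨s, hs, h4⟩ := T.sl 1 0 (c / a) 1 (by ring)
      have h5 := centres_smul _ (centres_map _ T.le h3 hs) a
      rw [h4] at h5
      have e : a • ((1 : F) • z + (0 : F) • (0 : W), (c / a) • z + (1 : F) • (0 : W)) = (a • z, c • z) := by
        rw [smul_zero, smul_zero, add_zero, add_zero, one_smul, Prod.smul_mk, smul_smul, mul_div_cancel₀ _ ha]
      rwa [e] at h5
  have add' : ∀ v v' : W × W, v ∈ centres (BB_alt (Q := Q)) M → v' ∈ centres (BB_alt (Q := Q)) M → BB Q v v' ≠ 0 →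
      v + v' ∈ centres (BB_alt (Q := Q)) M := by
    intro v v' hv hv' hne
    have := centres_add _ T.le hv hv' hne 1
    rwa [one_smul] at this
  -- all pure vectors
  have h2 : ∀ z : W, (z, (0 : W)) ∈ centres (BB_alt (Q := Q)) M := by
    intro z
    by_cases hz0 : z = 0
    · rw [hz0]; exact centres_zero _ _
    by_cases hz : Q z = 0
    · have := h1 z hz 1 0
      rwa [one_smul, zero_smul] at this
    obtain ⟨e, -, he, hze⟩ := exists_sing_polar T.nd (nds_top' T.nd) T.dim3 (x := z) trivial hz0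
    have hez : polar Q e z = 1 := by rw [polar_comm]; exact hze
    obtain ⟨h3, h4⟩ := adjust_singular he hez
    set f := z - Q z • e with hf
    have hfz : z = f + Q z • e := by rw [hf]; abel
    have k1 := h1 f h3 1 0
    rw [one_smul, zero_smul] at k1
    have k2 := h1 e he (Q z) 1
    rw [one_smul] at k2
    have k3 := add' _ _ k1 k2 (by
      rw [BB_apply]
      change polar Q f e - polar Q 0 (Q z • e) ≠ 0
      rw [polar_zero_left, polar_comm, h4]; simp)
    have e3 : ((f, (0 : W)) : W × W) + (Q z • e, e) = (z, e) := by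
      rw [Prod.mk_add_mk, zero_add, ← hfz]
    rw [e3] at k3
    have k4 := h1 e he 0 (-1)
    rw [zero_smul, neg_smul, one_smul] at k4
    have k5 := add' _ _ k3 k4 (by
      rw [BB_apply]
      change polar Q z (-e) - polar Q e 0 ≠ 0
      rw [polar_zero_right, polar_neg_right, hze]; simp)
    have e5 : ((z, e) : W × W) + (0, -e) = (z, 0) := by
      rw [Prod.mk_add_mk, add_zero, add_neg_cancel]
    rwa [e5] at k5
  have h2' : ∀ z : W, ((0 : W), z) ∈ centres (BB_alt (Q := Q)) M := by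
    intro z
    obtain ⟨s, hs, h4⟩ := T.sl 0 (-1) 1 0 (by ring)
    have h5 := centres_map _ T.le (h2 z) hs
    rw [h4] at h5
    simpa using h5
  have h5 : ∀ x y : W, polar Q x y ≠ 0 → (x, y) ∈ centres (BB_alt (Q := Q)) M := by
    intro x y hxy
    have := add' _ _ (h2 x) (h2' y) (by
      rw [BB_apply]
      change polar Q x y - polar Q 0 0 ≠ 0
      rw [polar_zero_left, sub_zero]; exact hxy)
    simpa using this
  rintro ⟨x, y⟩
  by_cases hxy : polar Q x y = 0
  · by_cases hx : x = 0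
    · rw [hx]; exact h2' y
    obtain ⟨z, hz⟩ := T.nd.exists_polar_one' hx
    have k1 := h5 x (y + z) (by rw [polar_add_right, hxy, hz, zero_add]; exact one_ne_zero)
    have k2 := h2' (-z)
    have k3 := add' _ _ k1 k2 (by
      rw [BB_apply]
      change polar Q x (-z) - polar Q (y + z) 0 ≠ 0
      rw [polar_zero_right, polar_neg_right, hz]; simp)
    have e3 : ((x, y + z) : W × W) + (0, -z) = (x, y) := by
      rw [Prod.mk_add_mk, add_zero, add_neg_cancel_right]
    rwa [e3] at k3
  · exact h5 x y hxy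

theorem fin1' [Finite F] {w y : W} (h : S0 M (dm Q w y)) (hw : Q w ≠ 0) (hy : y ≠ 0) (hwy : polar Q w y = 0) :
    isom (fun x y => BB Q x y) ≤ M := by
  obtain ⟨u, hu0, hu, h1⟩ := T.fin1 h hw hy hwy
  exact T.fin3 hu0 hu (T.cen_of h1)

theorem fin2' [Finite F] {w : W} (h : S0 M (dm Q w w)) (hw : Q w ≠ 0) : isom (fun x y => BB Q x y) ≤ M := by
  obtain ⟨u, hu0, hu, h1⟩ := T.fin2 h hw
  exact T.fin3 hu0 hu (T.cen_of h1)

end TO

end Cfsg.Agent.Lib.TenSpO
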