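import Mathlib
import Cfsg.Agent.Lib.TenSpO2

/-!
# Overgroups of `SL₂ ∘ O(W)` in `Sp(W × W)`: main part (helper21)
-/

set_option autoImplicit false
set_option linter.unusedSectionVars false
set_option linter.unusedVariables false
set_option linter.unusedSimpArgs false

namespace Cfsg.Agent.Lib.TenSpO

open QuadraticMap Module Cfsg.Agent.Lib.Quad Cfsg.Agent.Lib.OrthNd Cfsg.Agent.Lib.OrthDecH94
open Cfsg.Agent.Lib.SpTrans

variable {F W : Type*} [Field F] [AddCommGroup W] [Module F W] [FiniteDimensional F W] {Q : QuadraticForm F W}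

variable {M : Subgroup ((W × W) ≃ₗ[F] (W × W))}

/-- long root elements -/
def EE (Q : QuadraticForm F W) (M : Subgroup ((W × W) ≃ₗ[F] (W × W))) (x r : W × W) : Prop :=
  ∃ t ∈ M, ∀ v, t v = v + BB Q v r • x + BB Q v x • r

namespace TO

variable (T : TO Q M)

include T

theorem EE_map {x r : W × W} (h : EE Q M x r) {t : (W × W) ≃ₗ[F] (W × W)} (ht : t ∈ M) : EE Q M (t x) (t r) := by
  obtain ⟨s, hs, h1⟩ := h
  refine ⟨t * s * t⁻¹, mul_mem (mul_mem ht hs) (inv_mem ht), fun v => ?_⟩
  have e1 : t (t⁻¹ v) = v := t.apply_symm_apply v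
  have e2 : ∀ z, BB Q (t⁻¹ v) z = BB Q v (t z) := fun z => by
    have := T.le ht (t⁻¹ v) z
    simp only [e1] at this
    exact this.symm
  rw [LinearEquiv.mul_apply, LinearEquiv.mul_apply, h1, map_add, map_add, map_smul, map_smul, e1, e2, e2]

theorem fin4 [Finite F] {w r₁ r₂ : W} (hw : Q w ≠ 0) (h1 : polar Q w r₁ = 0) (h2 : polar Q w r₂ = 0)
    (hr : (r₁, r₂) ≠ (0 : W × W)) (h : EE Q M (w, 0) (r₁, r₂)) : isom (fun x y => BB Q x y) ≤ M := by
  by_cases hr2 : r₂ = 0
  · subst hr2
    have hr1 : r₁ ≠ 0 := by rintro rfl; exact hr rfl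
    obtain ⟨t, ht, h3⟩ := h
    have : S0 M (-(dm Q w r₁)) := by
      refine ⟨t, ht, fun x y => ?_⟩
      rw [h3, BB_apply, BB_apply, LinearMap.neg_apply, dm_apply]
      apply Prod.ext
      · change x + (polar Q x 0 - polar Q y r₁) • w + (polar Q x 0 - polar Q y w) • r₁ = x + -(polar Q w y • r₁ + polar Q r₁ y • w)
        rw [polar_zero_right, polar_comm Q y, polar_comm Q y]
        module
      · change y + (polar Q x 0 - polar Q y r₁) • (0 : W) + (polar Q x 0 - polar Q y w) • (0 : W) = y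
        simp
    have h4 := this.neg
    rw [neg_neg] at h4
    exact T.fin1' h4 hw hr1 h1
  · -- an element of `O` fixing `w`
    obtain ⟨ρ, hρ, hρw, hρr⟩ : ∃ ρ ∈ O Q, ρ w = w ∧ polar Q r₂ (ρ r₂) ≠ 0 := by
      by_cases hQ : Q r₂ = 0
      · have hA := nds_cut1 T.nd T.two (nds_top' T.nd) (a := w) trivial hw
        obtain ⟨f, hf, hQf, hrf⟩ := exists_partner T.nd hA (mem_cut1.2 ⟨trivial, h2⟩) hr2 hQ
        have hwf := (mem_cut1.1 hf).2
        have hz : Q (r₂ + f) ≠ 0 := by rw [Q_add, hQ, hQf, hrf]; simp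
        refine ⟨refl Q (r₂ + f), refl_mem _, refl_of_perp (by rw [polar_add_left, polar_comm, h2, polar_comm, hwf, add_zero]), ?_⟩
        rw [refl_apply hz, polar_sub_right, polar_smul_right, polar_self', hQ, mul_zero, polar_add_left, polar_self', hQ,
          mul_zero, polar_comm Q f, hrf, polar_add_right, polar_self', hQ, hrf, Q_add, hQ, hQf, hrf]
        simp
      · refine ⟨1, one_mem _, rfl, ?_⟩
        change polar Q r₂ r₂ ≠ 0
        rw [polar_self']; exact mul_ne_zero T.two hQ
    obtain ⟨o, ho, h3⟩ := T.o ρ hρ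
    obtain ⟨c, hc⟩ : ∃ c : F, polar Q r₁ (ρ r₂) - polar Q r₂ (ρ (r₁ + c • r₂)) ≠ 0 := by
      by_contra hcon
      push Not at hcon
      have e0 := hcon 0
      have e1 := hcon 1
      rw [zero_smul, add_zero] at e0
      rw [one_smul, map_add, polar_add_right] at e1
      apply hρr
      linear_combination e0 - e1
    obtain ⟨a, ha, h4⟩ := T.sl 1 c 0 1 (by ring)
    have k1 := T.EE_map h (mul_mem ho ha)
    rw [LinearEquiv.mul_apply, LinearEquiv.mul_apply, h4, h4, h3, h3] at k1
    simp only [one_smul, smul_zero, add_zero, zero_smul, zero_add, map_zero, hρw] at k1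
    set x : W × W := (w, 0) with hx
    set r : W × W := (r₁, r₂) with hrdef
    set r' : W × W := (ρ (r₁ + c • r₂), ρ r₂) with hr'def
    have hxx : BB Q x x = 0 := BB_alt x
    have hxr : BB Q x r = 0 := by rw [hx, hrdef, BB_apply]; change polar Q w r₂ - polar Q 0 r₁ = 0; rw [h2, polar_zero_left, sub_zero]
    have hrx : BB Q r x = 0 := by rw [alt_neg BB_alt, hxr, neg_zero]
    have hxr' : BB Q x r' = 0 := by
      rw [hx, hr'def, BB_apply]; change polar Q w (ρ r₂) - polar Q 0 _ = 0
      have := O_polar hρ w r₂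
      rw [hρw, h2] at this
      rw [this, polar_zero_left, sub_zero]
    have hrx' : BB Q r' x = 0 := by rw [alt_neg BB_alt, hxr', neg_zero]
    have hrr : BB Q r r = 0 := BB_alt r
    have hrr' : BB Q r' r' = 0 := BB_alt r'
    set b := BB Q r r' with hb
    have hb' : BB Q r' r = -b := by rw [alt_neg BB_alt]
    have hb0 : b ≠ 0 := hc
    obtain ⟨e, he, h5⟩ := h
    obtain ⟨e', he', h6⟩ := k1
    have h7 : e' * e = tv (BB Q) BB_alt x (2 * b) * (e * e') := by
      ext1 v
      rw [LinearEquiv.mul_apply, LinearEquiv.mul_apply, LinearEquiv.mul_apply, tv_apply]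
      simp only [h5, h6, map_add, map_smul, LinearMap.add_apply, LinearMap.smul_apply, smul_eq_mul, hxx, hxr, hrx, hxr', hrx', hrr, hrr',
        hb', ← hb]
      module
    have h8 : tv (BB Q) BB_alt x (2 * b) ∈ M := by
      have : tv (BB Q) BB_alt x (2 * b) = e' * e * (e * e')⁻¹ := by rw [h7, mul_inv_cancel_right]
      rw [this]
      exact mul_mem (mul_mem he' he) (inv_mem (mul_mem he he'))
    have h9 : S0 M ((-b) • dm Q w w) := by
      refine ⟨_, h8, fun y z => ?_⟩
      rw [tv_apply, BB_apply]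
      apply Prod.ext
      · change y + (2 * b * (polar Q y 0 - polar Q z w)) • w = y + (-b) • (polar Q w z • w + polar Q w z • w)
        rw [polar_zero_right, polar_comm Q z w]
        module
      · change z + (2 * b * (polar Q y 0 - polar Q z w)) • (0 : W) = z
        rw [smul_zero, add_zero]
    exact T.fin2' (T.of_smul (neg_ne_zero.mpr hb0) h9) hw

theorem fin5 [Finite F] {w : W} {c₁ c₂ : F} {r : W × W} (hw : Q w ≠ 0) (hc : c₁ ≠ 0 ∨ c₂ ≠ 0) (h1 : BB Q r (w, 0) = 0)
    (h2 : BB Q r (0, w) = 0) (hr : r ≠ 0) (h : EE Q M (c₁ • w, c₂ • w) r) : isom (fun x y => BB Q x y) ≤ M := by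
  have h1' : polar Q w r.2 = 0 := by
    rw [BB_apply] at h1
    change polar Q r.1 0 - polar Q r.2 w = 0 at h1
    rw [polar_zero_right, zero_sub, neg_eq_zero] at h1
    rw [polar_comm]; exact h1
  have h2' : polar Q w r.1 = 0 := by
    rw [BB_apply] at h2
    change polar Q r.1 w - polar Q r.2 0 = 0 at h2
    rw [polar_zero_right, sub_zero] at h2
    rw [polar_comm]; exact h2
  obtain ⟨a, b, c, d, hdet, e1, e2⟩ : ∃ a b c d : F, a * d - b * c = 1 ∧ a * c₁ + b * c₂ = 1 ∧ c * c₁ + d * c₂ = 0 := by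
    by_cases hc1 : c₁ = 0
    · have hc2 : c₂ ≠ 0 := by rcases hc with h | h; exact absurd hc1 h; exact h
      exact ⟨0, c₂⁻¹, -c₂, 0, by field_simp; ring, by rw [inv_mul_cancel₀ hc2]; ring, by rw [hc1]; ring⟩
    · exact ⟨c₁⁻¹, 0, -c₂, c₁, by rw [inv_mul_cancel₀ hc1]; ring, by rw [inv_mul_cancel₀ hc1]; ring, by ring⟩
  obtain ⟨σ, hσ, h3⟩ := T.sl a b c d hdet
  have k1 := T.EE_map h hσ
  have e3 : σ (c₁ • w, c₂ • w) = (w, 0) := by
    rw [h3]
    apply Prod.ext
    · change a • c₁ • w + b • c₂ • w = w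
      rw [smul_smul, smul_smul, ← add_smul, e1, one_smul]
    · change c • c₁ • w + d • c₂ • w = 0
      rw [smul_smul, smul_smul, ← add_smul, e2, zero_smul]
  rw [e3] at k1
  have e4 : σ r = (a • r.1 + b • r.2, c • r.1 + d • r.2) := h3 r.1 r.2
  have hr' : σ r ≠ 0 := fun h0 => hr (by simpa using h0)
  rw [e4] at k1 hr'
  refine T.fin4 hw ?_ ?_ hr' k1
  · rw [polar_add_right, polar_smul_right, polar_smul_right, h1', h2']; simp
  · rw [polar_add_right, polar_smul_right, polar_smul_right, h1', h2']; simp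

/-- the reflection in a vector -/
theorem me_ip {w : W} (hw : Q w ≠ 0) : Me M (ip (BB Q) (w, (0 : W)) ((0 : W), (1 / (2 * Q w)) • w)) := by
  obtain ⟨t, ht, h1⟩ := T.o _ (refl_mem (Q := Q) w)
  refine ⟨t, ht, fun v => ?_⟩
  rw [show t v = t (v.1, v.2) from rfl, h1, ip_apply, BB_apply, BB_apply, refl_apply hw, refl_apply hw]
  have h2 := T.two
  apply Prod.ext
  · change v.1 - ((Q w)⁻¹ * polar Q w v.1) • w = v.1 - ((2 * (polar Q v.1 ((1 / (2 * Q w)) • w) - polar Q v.2 0)) • w -
      (2 * (polar Q v.1 0 - polar Q v.2 w)) • (0 : W))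
    rw [polar_zero_right, polar_zero_right, polar_smul_right, smul_eq_mul, polar_comm Q w]
    match_scalars
    · rfl
    · field_simp; ring
  · change v.2 - ((Q w)⁻¹ * polar Q w v.2) • w = v.2 - ((2 * (polar Q v.1 ((1 / (2 * Q w)) • w) - polar Q v.2 0)) • (0 : W) -
      (2 * (polar Q v.1 0 - polar Q v.2 w)) • (1 / (2 * Q w)) • w)
    rw [polar_zero_right, polar_zero_right, polar_smul_right, smul_eq_mul, polar_comm Q w v.2]
    match_scalars
    · rfl
    · field_simp; ring

omit T in
theorem xy1 {w : W} (h2 : (2 : F) ≠ 0) (hw : Q w ≠ 0) : BB Q (w, (0 : W)) ((0 : W), (1 / (2 * Q w)) • w) = 1 := by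
  rw [BB_apply]
  change polar Q w ((1 / (2 * Q w)) • w) - polar Q 0 0 = 1
  rw [polar_smul_right, polar_self', polar_zero_right, smul_eq_mul]
  field_simp
  ring

omit T in
theorem ip_congr {x y x' y' : W × W} {a b c d : F} (hx : x' = a • x + b • y) (hy : y' = c • x + d • y) (hdet : a * d - b * c = 1) :
    ip (BB Q) x' y' = ip (BB Q) x y := by
  have : pj (BB Q) x' y' = pj (BB Q) x y := by
    apply LinearMap.ext
    intro v
    rw [pj_apply, pj_apply, hx, hy]
    simp only [map_add, map_smul, smul_eq_mul]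
    match_scalars
    · linear_combination (BB Q v y) * hdet
    · linear_combination -(BB Q v x) * hdet
  unfold ip
  rw [this]

/-- the square zero element -/
def nu1 (F W : Type*) [Field F] [AddCommGroup W] [Module F W] : Module.End F (W × W) :=
  (LinearMap.inl F W W) ∘ₗ (LinearMap.snd F W W)

omit T in
theorem nu1_apply (v : W × W) : nu1 F W v = (v.2, 0) := rfl

omit T in
theorem BB_nu1 (v v' : W × W) : BB Q (nu1 F W v) v' = polar Q v.2 v'.2 := by
  rw [nu1_apply, BB_apply]
  change polar Q v.2 v'.2 - polar Q 0 v'.1 = _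
  rw [polar_zero_left, sub_zero]

theorem qd1 : Qd (BB Q) M (nu1 F W) where
  sk x y := by
    rw [BB_nu1, alt_neg BB_alt, BB_nu1, neg_neg, polar_comm]
  sq := by
    ext v <;> simp [nu1]
  me c := by
    obtain ⟨t, ht, h1⟩ := T.sl 1 c 0 1 (by ring)
    refine ⟨t, ht, fun v => ?_⟩
    rw [show t v = t (v.1, v.2) from rfl, h1]
    change _ = v + c • nu1 F W v
    rw [nu1_apply]
    apply Prod.ext
    · change (1 : F) • v.1 + c • v.2 = v.1 + c • v.2
      rw [one_smul]
    · change (0 : F) • v.1 + (1 : F) • v.2 = v.2 + c • 0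
      rw [zero_smul, one_smul, zero_add, smul_zero, add_zero]

/-- first step with a plane -/
theorem stepA [Finite F] {p q : W × W} (hpq : BB Q p q = 1) (hi : Me M (ip (BB Q) p q)) {w : W} (hw : Q w ≠ 0)
    (h1 : polar Q w p.2 = 0) (h2 : polar Q w q.2 = 0) :
    S0 M (dm Q w ((2 * polar Q q.1 w) • p.2 - (2 * polar Q p.1 w) • q.2)) := by
  have h2F := T.two
  set z := (2 * polar Q q.1 w) • p.2 - (2 * polar Q p.1 w) • q.2 with hz
  have hwz : polar Q w z = 0 := by
    rw [hz, polar_sub_right, polar_smul_right, polar_smul_right, h1, h2, smul_zero, smul_zero, sub_zero]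
  set κ : F := 1 / (2 * Q w) with hκ
  have hiw := T.me_ip hw
  rw [← hκ] at hiw
  have hxy := xy1 h2F hw
  rw [← hκ] at hxy
  have hii := ip_mul BB_alt hpq
  have hiB : ∀ x y, BB Q (ip (BB Q) p q x) (ip (BB Q) p q y) = BB Q x y := fun x y => hi.form T.le x y
  have hm : Me M (ip (BB Q) p q * ip (BB Q) (w, (0 : W)) ((0 : W), κ • w) * ip (BB Q) p q) := (hi.mul hiw).mul hi
  rw [conj_ip BB_alt hxy hiB hii] at hm
  have e1 : ip (BB Q) p q (w, (0 : W)) = (w, 0) := by
    rw [ip_apply, BB_apply, BB_apply]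
    change (w, (0 : W)) - ((2 * (polar Q w q.2 - polar Q 0 q.1)) • p - (2 * (polar Q w p.2 - polar Q 0 p.1)) • q) = (w, 0)
    rw [polar_zero_left, polar_zero_left, h1, h2]; simp
  set y' := ip (BB Q) p q ((0 : W), κ • w) with hy'
  have e2 : y'.2 = κ • (w + z) := by
    rw [hy', ip_apply, BB_apply, BB_apply]
    change κ • w - ((2 * (polar Q 0 q.2 - polar Q (κ • w) q.1)) • p.2 - (2 * (polar Q 0 p.2 - polar Q (κ • w) p.1)) • q.2) = _
    rw [polar_zero_left, polar_zero_left, polar_smul_left, polar_smul_left, polar_comm Q w, polar_comm Q w, hz]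
    simp only [smul_eq_mul]
    module
  rw [e1] at hm
  have hxy' : BB Q (w, (0 : W)) y' = 1 := by
    have := hiB (w, 0) (0, κ • w)
    rw [e1, ← hy'] at this
    rw [this, hxy]
  have hmm := ip_mul BB_alt hxy'
  -- `m`
  obtain ⟨t, ht, h3⟩ := hm
  obtain ⟨u, hu, h4⟩ := T.sl 1 1 0 1 (by ring)
  obtain ⟨u', hu', h5⟩ := T.sl 1 (-1) 0 1 (by ring)
  set k := κ • (w + z) with hk
  have mv : ∀ v : W × W, t v = v - ((2 * BB Q v y') • (w, (0 : W)) - (2 * BB Q v (w, (0 : W))) • y') := fun v => by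
    rw [h3, ip_apply]
  have mv2 : ∀ v : W × W, (t v).2 = v.2 - (2 * polar Q v.2 w) • k := fun v => by
    rw [mv, BB_apply v (w, 0)]
    change v.2 - ((2 * BB Q v y') • (0 : W) - (2 * (polar Q v.1 0 - polar Q v.2 w)) • y'.2) = _
    rw [e2, polar_zero_right]
    module
  have mx : ∀ x : W, t (x, 0) = (x - (2 * polar Q x k) • w, 0) := fun x => by
    apply Prod.ext
    · rw [mv, BB_apply, BB_apply]
      change x - ((2 * (polar Q x y'.2 - polar Q 0 y'.1)) • w - (2 * (polar Q x 0 - polar Q 0 w)) • y'.1) = _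
      rw [e2, polar_zero_left, polar_zero_left, polar_zero_right]
      module
    · rw [mv2]
      change (0 : W) - (2 * polar Q 0 w) • k = 0
      rw [polar_zero_left]; module
  have mm : ∀ v, t (t v) = v := fun v => by
    rw [h3, h3]
    exact LinearMap.congr_fun hmm v
  have hA : S0 M ((-2 : F) • dm Q w k + (2 * polar Q k k) • dm Q w w) := by
    refine ⟨u' * (t * u * t), mul_mem hu' (mul_mem (mul_mem ht hu) ht), fun x y => ?_⟩
    rw [LinearEquiv.mul_apply, LinearEquiv.mul_apply, LinearEquiv.mul_apply]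
    have e3 : u (t (x, y)) = t (x, y) + ((t (x, y)).2, 0) := by
      rw [show u (t (x, y)) = u ((t (x, y)).1, (t (x, y)).2) from rfl, h4]
      apply Prod.ext
      · change (1 : F) • (t (x, y)).1 + (1 : F) • (t (x, y)).2 = (t (x, y)).1 + (t (x, y)).2
        rw [one_smul, one_smul]
      · change (0 : F) • (t (x, y)).1 + (1 : F) • (t (x, y)).2 = (t (x, y)).2 + 0
        rw [zero_smul, one_smul, zero_add, add_zero]
    rw [e3, map_add, mm, mv2, mx]
    change u' (x + _, y + 0) = _
    rw [h5]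
    apply Prod.ext
    · change (1 : F) • (x + ((y - (2 * polar Q y w) • k) - (2 * polar Q (y - (2 * polar Q y w) • k) k) • w)) + (-1 : F) • (y + 0) =
        x + ((-2 : F) • dm Q w k y + (2 * polar Q k k) • dm Q w w y)
      rw [dm_apply, dm_apply, polar_sub_left, polar_smul_left, smul_eq_mul, polar_comm Q w y, polar_comm Q k y]
      module
    · change (0 : F) • _ + (1 : F) • (y + 0) = y
      rw [zero_smul, one_smul, zero_add, add_zero]
  have hB := T.map hA (refl_mem (Q := Q) w) (A' := (2 : F) • dm Q w (κ • (z - w)) + (2 * polar Q k k) • dm Q w w) (fun x => by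
    have r1 : refl Q w w = -w := refl_self hw
    have r2 : refl Q w z = z := refl_of_perp hwz
    have r3 : ∀ y, polar Q w (refl Q w y) = - polar Q w y := fun y => by
      have := O_polar (refl_mem (Q := Q) w) w y
      rw [r1, polar_neg_left] at this
      linear_combination -this
    have r4 : ∀ y, polar Q z (refl Q w y) = polar Q z y := fun y => by
      have := O_polar (refl_mem (Q := Q) w) z y
      rwa [r2] at this
    rw [hk]
    simp only [LinearMap.add_apply, LinearMap.smul_apply, dm_apply, map_add, map_smul, map_sub, polar_add_left, polar_sub_left,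
      polar_smul_left, r1, r2, r3, r4, smul_eq_mul]
    module)
  have hC := hB.sub hA
  have e5 : (2 : F) • dm Q w (κ • (z - w)) + (2 * polar Q k k) • dm Q w w - ((-2 : F) • dm Q w k + (2 * polar Q k k) • dm Q w w) =
      (4 * κ) • dm Q w z := by
    ext x
    rw [hk]
    simp only [LinearMap.add_apply, LinearMap.sub_apply, LinearMap.smul_apply, dm_apply, polar_add_left, polar_sub_left,
      polar_smul_left, smul_eq_mul]
    module
  rw [e5] at hC
  refine T.of_smul ?_ hC
  have h4 : (4 : F) ≠ 0 := by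
    have : (4 : F) = 2 * 2 := by norm_num
    rw [this]; exact mul_ne_zero T.two T.two
  exact mul_ne_zero h4 (one_div_ne_zero (mul_ne_zero T.two hw))

end TO

end Cfsg.Agent.Lib.TenSpO
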