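import Mathlib
import Cfsg.Agent.Lib.TenSpO3

/-!
# Overgroups of `SL₂ ∘ O(W)` in `Sp(W × W)`: planes (helper21)
-/

set_option autoImplicit false
set_option linter.unusedSectionVars false
set_option linter.unusedVariables false
set_option linter.unusedSimpArgs false

namespace Cfsg.Agent.Lib.TenSpO

open QuadraticMap Module Cfsg.Agent.Lib.Quad Cfsg.Agent.Lib.OrthNd Cfsg.Agent.Lib.OrthDecH94
open Cfsg.Agent.Lib.SpTrans

variable {F W : Type*} [Field F] [AddCommGroup W] [Module F W] [FiniteDimensional F W] {Q : QuadraticForm F W}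

variable {M : Subgroup ((W × W) ≃ₗ[F] (W × W))}

/-- parametrisation of degenerate binary forms -/
theorem nilp {α β γ : F} (h : α * α = β * γ) (hne : ¬(α = 0 ∧ β = 0 ∧ γ = 0)) :
    ∃ η s t : F, η ≠ 0 ∧ (s ≠ 0 ∨ t ≠ 0) ∧ α = η * s * t ∧ β = - (η * t * t) ∧ γ = - (η * s * s) := by
  by_cases hβ : β = 0
  · have hα : α = 0 := by
      rw [hβ, zero_mul] at h
      exact mul_self_eq_zero.mp h
    have hγ : γ ≠ 0 := fun h0 => hne ⟨hα, hβ, h0⟩
    exact ⟨-γ, 1, 0, neg_ne_zero.mpr hγ, Or.inl one_ne_zero, by rw [hα]; ring, by rw [hβ]; ring, by ring⟩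
  · refine ⟨-β, -α / β, 1, neg_ne_zero.mpr hβ, Or.inr one_ne_zero, by field_simp, by ring, ?_⟩
    field_simp
    linear_combination -h

namespace TO

variable (T : TO Q M)

include T

theorem four : (4 : F) ≠ 0 := by
  have : (4 : F) = 2 * 2 := by norm_num
  rw [this]; exact mul_ne_zero T.two T.two

theorem eight : (8 : F) ≠ 0 := by
  have : (8 : F) = 2 * (2 * 2) := by norm_num
  rw [this]; exact mul_ne_zero T.two (mul_ne_zero T.two T.two)

/-- planes -/
theorem stepB [Finite F] {p q : W × W} (hpq : BB Q p q = 1) (hi : Me M (ip (BB Q) p q))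
    (hind : ∀ a c : F, a • p.2 + c • q.2 = 0 → a = 0 ∧ c = 0) : isom (fun x y => BB Q x y) ≤ M := by
  by_contra hcon
  have h2F := T.two
  have hd5 := T.dim
  -- the perp of the plane
  set D : Submodule F W := ⊤ ⊓ perp Q (Submodule.span F {p.2, q.2}) with hD
  have hdD := finrank_cut T.nd (⊤ : Submodule F W) p.2 q.2
  rw [finrank_top, ← hD] at hdD
  have key1 : ∀ w ∈ D, Q w ≠ 0 → polar Q w p.1 = 0 ∧ polar Q w q.1 = 0 := by
    intro w hwD hw
    obtain ⟨-, h1, h2⟩ := mem_cut.1 hwD
    rw [polar_comm] at h1 h2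
    have h3 := T.stepA hpq hi hw h1 h2
    by_cases hz : (2 * polar Q q.1 w) • p.2 - (2 * polar Q p.1 w) • q.2 = 0
    · have h4 := hind (2 * polar Q q.1 w) (-(2 * polar Q p.1 w)) (by rw [neg_smul, ← sub_eq_add_neg]; exact hz)
      constructor
      · rw [polar_comm]
        exact (mul_eq_zero.mp (neg_eq_zero.mp h4.2)).resolve_left h2F
      · rw [polar_comm]
        exact (mul_eq_zero.mp h4.1).resolve_left h2F
    · exfalso
      refine hcon (T.fin1' h3 hw hz ?_)
      rw [polar_sub_right, polar_smul_right, polar_smul_right, h1, h2]; simp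
  -- a nonsingular vector in `D`
  obtain ⟨w₀, hw₀D, hw₀⟩ : ∃ w ∈ D, Q w ≠ 0 := by
    by_contra hc
    push Not at hc
    have h1 : D ≤ perp Q D := by
      intro x hx
      rw [mem_perp]
      intro y hy
      have := hc _ (D.add_mem hy hx)
      rw [Q_add, hc _ hx, hc _ hy] at this
      simpa using this
    have h2 := Submodule.finrank_mono h1
    have h3 := T.nd.finrank_add_finrank_perp D
    omega
  have key2 : ∀ w ∈ D, polar Q w p.1 = 0 ∧ polar Q w q.1 = 0 := by
    intro w hw
    by_cases hQ : Q w = 0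
    · obtain ⟨h1, h2⟩ := key1 w₀ hw₀D hw₀
      by_cases h3 : Q (w₀ + w) = 0
      · have h4 : Q (w₀ - w) ≠ 0 := by
          rw [Q_sub, hQ]
          rw [Q_add, hQ] at h3
          intro h5
          apply hw₀
          have : 2 * Q w₀ = 0 := by linear_combination h3 + h5
          exact (mul_eq_zero.mp this).resolve_left h2F
        obtain ⟨h5, h6⟩ := key1 _ (D.sub_mem hw₀D hw) h4
        rw [polar_sub_left, h1, zero_sub, neg_eq_zero] at h5
        rw [polar_sub_left, h2, zero_sub, neg_eq_zero] at h6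
        exact ⟨h5, h6⟩
      · obtain ⟨h5, h6⟩ := key1 _ (D.add_mem hw₀D hw) h3
        rw [polar_add_left, h1, zero_add] at h5
        rw [polar_add_left, h2, zero_add] at h6
        exact ⟨h5, h6⟩
    · exact key1 w hw hQ
  -- the plane `W₂`
  set P₂ : Submodule F W := Submodule.span F {p.2, q.2} with hP₂
  have hDP : D = perp Q P₂ := by rw [hD, top_inf_eq]
  have hPD : perp Q D = P₂ := by rw [hDP, T.nd.perp_perp]
  have hp2 : p.2 ∈ P₂ := Submodule.subset_span (by simp)
  have hq2 : q.2 ∈ P₂ := Submodule.subset_span (by simp)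
  have hp1 : p.1 ∈ P₂ := by
    rw [← hPD, mem_perp]
    intro w hw
    exact (key2 w hw).1
  have hq1 : q.1 ∈ P₂ := by
    rw [← hPD, mem_perp]
    intro w hw
    exact (key2 w hw).2
  set α := polar Q p.2 q.2 with hα
  set β := polar Q p.2 p.2 with hβ
  set γ := polar Q q.2 q.2 with hγ
  have hαs : polar Q q.2 p.2 = α := by rw [polar_comm]
  have hne : ¬(α = 0 ∧ β = 0 ∧ γ = 0) := by
    rintro ⟨h1, h2, h3⟩
    have h4 : ∀ x ∈ P₂, ∀ y ∈ P₂, polar Q x y = 0 := by
      intro x hx y hy
      obtain ⟨a, b, rfl⟩ := Submodule.mem_span_pair.1 hx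
      obtain ⟨c, d, rfl⟩ := Submodule.mem_span_pair.1 hy
      simp only [polar_add_left, polar_add_right, polar_smul_left, polar_smul_right, smul_eq_mul, ← hα, ← hβ, ← hγ, hαs, h1, h2, h3]
      ring
    rw [BB_apply, h4 _ hp1 _ hq2, h4 _ hp2 _ hq1] at hpq
    simp at hpq
  have hν := T.qd1
  have cν : ∀ u : W × W, (∀ a, tv (BB Q) BB_alt (nu1 F W u) a ∈ M) → u.2 ≠ 0 → Q u.2 = 0 → False := by
    intro u h1 h2 h3
    exact hcon (T.fin3 h2 h3 (fun a => h1 a))
  by_cases hδ : α * α = β * γ
  · obtain ⟨η, s, t, hη, hst, e1, e2, e3⟩ := nilp hδ hne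
    have h1 := hν.ii BB_alt hpq T.le T.four T.eight hi (α := α) (β := β) (γ := γ) (BB_nu1 _ _) (BB_nu1 _ _) (BB_nu1 _ _) hδ e1 e2 e3 hη
    refine cν _ h1 ?_ ?_
    · intro h0
      have := hind s t h0
      rcases hst with h | h
      · exact h this.1
      · exact h this.2
    · have : 2 * Q (s • p + t • q).2 = 0 := by
        rw [← polar_self']
        change polar Q (s • p.2 + t • q.2) (s • p.2 + t • q.2) = 0
        simp only [polar_add_left, polar_add_right, polar_smul_left, polar_smul_right, smul_eq_mul, ← hα, ← hβ, ← hγ, hαs]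
        rw [e1, e2, e3]; ring
      exact (mul_eq_zero.mp this).resolve_left h2F
  -- nondegenerate plane
  have hδ0 : α * α - β * γ ≠ 0 := sub_ne_zero.mpr hδ
  have hPnd : NDs Q P₂ := by
    rw [NDs, eq_bot_iff]
    rintro x ⟨hx, hx'⟩
    obtain ⟨a, b, rfl⟩ := Submodule.mem_span_pair.1 hx
    have e1 := mem_perp.1 hx' _ hp2
    have e2 := mem_perp.1 hx' _ hq2
    rw [polar_add_right, polar_smul_right, polar_smul_right, smul_eq_mul, smul_eq_mul, ← hα, ← hβ] at e1
    rw [polar_add_right, polar_smul_right, polar_smul_right, smul_eq_mul, smul_eq_mul, hαs, ← hγ] at e2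
    have ha : a = 0 := by
      have : (α * α - β * γ) * a = 0 := by linear_combination α * e2 - γ * e1
      exact (mul_eq_zero.mp this).resolve_left hδ0
    have hb : b = 0 := by
      have : (α * α - β * γ) * b = 0 := by linear_combination α * e1 - β * e2
      exact (mul_eq_zero.mp this).resolve_left hδ0
    rw [Submodule.mem_bot, ha, hb]; simp
  have hDnd : NDs Q D := by rw [hDP]; exact nds_perp T.nd hPnd
  obtain ⟨w₂, hw₂P, hw₂⟩ : ∃ w ∈ P₂, Q w ≠ 0 := by
    refine exists_nonsing hPnd ?_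
    by_contra hc
    have h0 : finrank F P₂ = 0 := by omega
    rw [Submodule.finrank_eq_zero] at h0
    rw [h0, Submodule.mem_bot] at hp2
    have := (hind 1 0 (by rw [hp2]; simp)).1
    exact one_ne_zero this
  set X := (2 * polar Q w₂ p.2) • q.2 - (2 * polar Q w₂ q.2) • p.2 with hX
  set Y := w₂ + (2 * polar Q w₂ q.1) • p.2 - (2 * polar Q w₂ p.1) • q.2 with hY
  set g := polar Q X X with hg
  set n₂ := polar Q w₂ w₂ with hn₂
  have hn20 : n₂ ≠ 0 := by rw [hn₂, polar_self']; exact mul_ne_zero h2F hw₂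
  have hg0 : g ≠ 0 := by
    have : g = - (4 * (α * α - β * γ) * n₂) := by
      obtain ⟨a, b, hab⟩ := Submodule.mem_span_pair.1 hw₂P
      rw [hg, hX, hn₂, ← hab]
      simp only [polar_add_left, polar_add_right, polar_sub_left, polar_sub_right, polar_smul_left, polar_smul_right, smul_eq_mul,
        ← hα, ← hβ, ← hγ, hαs]
      ring
    rw [this]
    exact neg_ne_zero.mpr (mul_ne_zero (mul_ne_zero T.four hδ0) hn20)
  set d₀ := polar Q X Y * polar Q X Y - g * polar Q Y Y with hd₀
  -- a vector of `D` of given value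
  have huni : ∀ t : F, ∃ w ∈ D, w ≠ 0 ∧ polar Q w w = t := by
    intro t
    by_cases ht : t = 0
    · obtain ⟨w, hw, hw0, hQw⟩ := exists_sing_in D (by omega)
      exact ⟨w, hw, hw0, by rw [polar_self', hQw, ht, mul_zero]⟩
    · obtain ⟨w, hw, hQw⟩ := universal T.nd h2F hDnd (by omega) (t / 2)
      refine ⟨w, hw, ?_, by rw [polar_self', hQw]; field_simp⟩
      rintro rfl
      rw [QuadraticMap.map_zero] at hQw
      rcases div_eq_zero_iff.mp hQw.symm with h | h
      · exact ht h
      · exact h2F h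
  have hXP : X ∈ P₂ := P₂.sub_mem (P₂.smul_mem _ hq2) (P₂.smul_mem _ hp2)
  have hYP : Y ∈ P₂ := P₂.sub_mem (P₂.add_mem hw₂P (P₂.smul_mem _ hp2)) (P₂.smul_mem _ hq2)
  -- the common computation
  have hii := ip_mul BB_alt hpq
  have hiB : ∀ x y, BB Q (ip (BB Q) p q x) (ip (BB Q) p q y) = BB Q x y := fun x y => hi.form T.le x y
  set i := ip (BB Q) p q with hi0
  have hν' : Qd (BB Q) M (i * nu1 F W * i) := hν.conj T.le hi hii hii
  have hX0 : X ≠ 0 := by
    intro h0
    apply hg0
    rw [hg, h0, polar_zero_left]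
  have comp : ∀ t : F, t ≠ -n₂ → ∃ w₁ ∈ D, ∃ w κ, w₁ ≠ 0 ∧ Q w ≠ 0 ∧ κ ≠ 0 ∧ κ = 1 / (2 * Q w) ∧
      (i (w, 0)).2 = X ∧ (i (0, κ • w)).2 = κ • (w₁ + Y) ∧
      BB Q ((i * nu1 F W * i) (w, 0)) (0, κ • w) = κ * polar Q X Y ∧
      BB Q ((i * nu1 F W * i) (w, 0)) (w, 0) = g ∧
      BB Q ((i * nu1 F W * i) (0, κ • w)) (0, κ • w) = κ * κ * (t + polar Q Y Y) ∧
      κ = κ := by
    intro t ht
    obtain ⟨w₁, hw₁D, hw₁0, hw₁⟩ := huni t
    have hw₁P : ∀ x ∈ P₂, polar Q w₁ x = 0 := by
      intro x hx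
      rw [hDP] at hw₁D
      rw [polar_comm]
      exact mem_perp.1 hw₁D x hx
    have hw₁P' : ∀ x ∈ P₂, polar Q x w₁ = 0 := fun x hx => by rw [polar_comm]; exact hw₁P x hx
    have hww : polar Q (w₁ + w₂) (w₁ + w₂) = t + n₂ := by
      rw [polar_add_left, polar_add_right, polar_add_right, hw₁P _ hw₂P, hw₁P' _ hw₂P, hw₁, ← hn₂]; ring
    have hw : Q (w₁ + w₂) ≠ 0 := by
      intro h0
      rw [polar_self', h0, mul_zero] at hww
      apply ht
      linear_combination -hww
    have hκ0 : (1 / (2 * Q (w₁ + w₂)) : F) ≠ 0 := one_div_ne_zero (mul_ne_zero h2F hw)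
    set w := w₁ + w₂ with hwdef
    set κ := 1 / (2 * Q w) with hκ
    have c1 : (i (w, 0)).2 = X := by
      rw [hi0, ip_apply, BB_apply, BB_apply]
      change (0 : W) - ((2 * (polar Q w q.2 - polar Q 0 q.1)) • p.2 - (2 * (polar Q w p.2 - polar Q 0 p.1)) • q.2) = X
      rw [polar_zero_left, polar_zero_left, hwdef, polar_add_left, polar_add_left, hw₁P _ hq2, hw₁P _ hp2, hX]
      module
    have c2 : (i (0, κ • w)).2 = κ • (w₁ + Y) := by
      rw [hi0, ip_apply, BB_apply, BB_apply]
      change κ • w - ((2 * (polar Q 0 q.2 - polar Q (κ • w) q.1)) • p.2 - (2 * (polar Q 0 p.2 - polar Q (κ • w) p.1)) • q.2) = _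
      rw [polar_zero_left, polar_zero_left, polar_smul_left, polar_smul_left, hwdef, polar_add_left, polar_add_left,
        hw₁P _ hq1, hw₁P _ hp1, hY]
      simp only [smul_eq_mul]
      module
    have c3 : ∀ u u' : W × W, BB Q ((i * nu1 F W * i) u) u' = polar Q (i u).2 (i u').2 := by
      intro u u'
      have : u' = i (i u') := (LinearMap.congr_fun hii u').symm
      rw [this]
      change BB Q (i (nu1 F W (i u))) (i (i u')) = _
      rw [hiB, BB_nu1, ← this]
    refine ⟨w₁, hw₁D, w, κ, hw₁0, hw, hκ0, hκ, c1, c2, ?_, ?_, ?_, rfl⟩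
    · rw [c3, c1, c2, polar_smul_right, polar_add_right, hw₁P' _ hXP, zero_add, smul_eq_mul]
    · rw [c3, c1]
    · rw [c3, c2, polar_smul_left, polar_smul_right, polar_add_left, polar_add_right, polar_add_right, hw₁P' _ hYP, hw₁P _ hYP, hw₁,
        smul_eq_mul, smul_eq_mul]
      ring
  by_cases ht : d₀ / g = - n₂
  · -- adjacency
    obtain ⟨w₁, hw₁D, w, κ, hw₁0, hw, hκ0, hκ, c1, c2, c3, c4, c5, -⟩ := comp ((d₀ - 1) / g) (by
      intro h0
      rw [← ht] at h0
      field_simp at h0
      have : (1 : F) = 0 := by linear_combination -h0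
      exact one_ne_zero this)
    have hiw := T.me_ip hw
    have hxy := xy1 (Q := Q) h2F hw
    rw [← hκ] at hiw hxy
    set x : W × W := (w, 0) with hx
    set y : W × W := (0, κ • w) with hy
    have hyx : BB Q y x = -1 := by rw [alt_neg BB_alt, hxy]
    have hxx : BB Q x x = 0 := BB_alt x
    have hyy : BB Q y y = 0 := BB_alt y
    set ν := i * nu1 F W * i with hνdef
    set α' := κ * polar Q X Y with hα'
    set γ' := κ * κ * ((d₀ - 1) / g + polar Q Y Y) with hγ'
    have hα's : BB Q (ν y) x = α' := by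
      rw [hν'.sk, alt_neg BB_alt, neg_neg, c3]
    have hdet : α' * α' - g * γ' = κ * κ := by
      rw [hα', hγ', hd₀]; field_simp; ring
    set x' := (-α' + κ) • x + g • y with hx'
    set y' := ((-α' - κ) / (2 * κ * g)) • x + (1 / (2 * κ)) • y with hy'
    have hdet1 : (-α' + κ) * (1 / (2 * κ)) - g * ((-α' - κ) / (2 * κ * g)) = 1 := by field_simp; ring
    have hip := ip_congr (Q := Q) hx' hy' hdet1
    have hx'y' : BB Q x' y' = 1 := by
      rw [hx', hy']
      simp only [map_add, map_smul, LinearMap.add_apply, LinearMap.smul_apply, smul_eq_mul, hxx, hyy, hxy, hyx]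
      linear_combination hdet1
    have hiw' : Me M (ip (BB Q) x' y') := by rw [hip]; exact hiw
    obtain ⟨r, hr0, hrx, hry, hE⟩ := hν'.adj BB_alt hx'y' T.le h2F hiw' (s := -κ) (neg_ne_zero.mpr hκ0)
      (by
        rw [hx', hy']
        simp only [map_add, map_smul, LinearMap.add_apply, LinearMap.smul_apply, smul_eq_mul, c3, c4, c5, hα's]
        field_simp
        linear_combination -hdet)
      (by
        rw [hx']
        simp only [map_add, map_smul, LinearMap.add_apply, LinearMap.smul_apply, smul_eq_mul, c3, c4, c5, hα's]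
        linear_combination -g * hdet)
      (by
        rw [hy']
        simp only [map_add, map_smul, LinearMap.add_apply, LinearMap.smul_apply, smul_eq_mul, c3, c4, c5, hα's]
        field_simp
        linear_combination -hdet)
    have hr1 : BB Q r x = 0 := by
      have : x = (1 / (2 * κ)) • x' - g • y' := by
        rw [hx', hy']
        match_scalars
        · field_simp; ring
        · field_simp; ring
      rw [this, map_sub, map_smul, map_smul, hrx, hry]; simp
    have hr2 : BB Q r y = 0 := by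
      have : y = (-((-α' - κ) / (2 * κ * g))) • x' + (-α' + κ) • y' := by
        rw [hx', hy']
        match_scalars
        · field_simp; ring
        · field_simp; ring
      rw [this, map_add, map_smul, map_smul, hrx, hry]; simp
    have e6 : x' = ((-α' + κ) • w, (g * κ) • w) := by
      rw [hx', hx, hy]
      apply Prod.ext
      · change (-α' + κ) • w + g • (0 : W) = _
        rw [smul_zero, add_zero]
      · change (-α' + κ) • (0 : W) + g • κ • w = _
        rw [smul_zero, zero_add, smul_smul]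
    obtain ⟨t, ht', h7⟩ := hE
    refine hcon (T.fin5 (w := w) (c₁ := -α' + κ) (c₂ := g * κ) (r := r) hw (Or.inr (mul_ne_zero hg0 hκ0)) hr1 ?_ hr0 ?_)
    · have : ((0 : W), w) = κ⁻¹ • y := by
        rw [hy, Prod.smul_mk, smul_zero, smul_smul, inv_mul_cancel₀ hκ0, one_smul]
      rw [this, map_smul, hr2, smul_zero]
    · rw [← e6]
      refine ⟨t, ht', fun v => ?_⟩
      rw [h7]
  · -- second lemma
    obtain ⟨w₁, hw₁D, w, κ, hw₁0, hw, hκ0, hκ, c1, c2, c3, c4, c5, -⟩ := comp (d₀ / g) ht
    have hiw := T.me_ip hw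
    have hxy := xy1 (Q := Q) h2F hw
    rw [← hκ] at hiw hxy
    have hδ' : (κ * polar Q X Y) * (κ * polar Q X Y) = g * (κ * κ * (d₀ / g + polar Q Y Y)) := by
      rw [hd₀]; field_simp; ring
    obtain ⟨η, s, t, hη, hst, e1, e2, e3⟩ := nilp hδ' (fun h => hg0 h.2.1)
    have h1 := hν'.ii BB_alt hxy T.le T.four T.eight hiw c3 c4 c5 hδ' e1 e2 e3 hη
    obtain ⟨τ, hτ, h2⟩ := hi
    set v : W × W := s • (w, (0 : W)) + t • ((0 : W), κ • w) with hv
    have h3 : nu1 F W (i v) ∈ centres (BB_alt (Q := Q)) M := by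
      have h4 := centres_map (BB_alt (Q := Q)) T.le (v := (i * nu1 F W * i) v) (fun a => h1 a) hτ
      rw [h2] at h4
      have h5 : i ((i * nu1 F W * i) v) = nu1 F W (i v) := by
        change i (i (nu1 F W (i v))) = _
        exact LinearMap.congr_fun hii _
      rwa [h5] at h4
    have h5 : (i v).2 = s • X + (t * κ) • (w₁ + Y) := by
      rw [hv, map_add, map_smul, map_smul]
      change s • (i (w, 0)).2 + t • (i (0, κ • w)).2 = _
      rw [c1, c2, smul_smul]
    have hw₁P : ∀ x ∈ P₂, polar Q w₁ x = 0 := by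
      intro x hx
      rw [hDP] at hw₁D
      rw [polar_comm]
      exact mem_perp.1 hw₁D x hx
    refine cν _ (fun a => h3 a) ?_ ?_
    · rw [h5]
      intro h0
      by_cases ht0 : t = 0
      · have hs : s ≠ 0 := by rcases hst with h | h; exact h; exact absurd ht0 h
        rw [ht0, zero_mul, zero_smul, add_zero] at h0
        exact hX0 ((smul_eq_zero.mp h0).resolve_left hs)
      · have htκ := mul_ne_zero ht0 hκ0
        have h6 : w₁ = - ((t * κ)⁻¹ • s • X) - Y := by
          have h7 : (t * κ)⁻¹ • (s • X + (t * κ) • (w₁ + Y)) = 0 := by rw [h0, smul_zero]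
          rw [smul_add, smul_smul (t * κ)⁻¹ (t * κ), inv_mul_cancel₀ htκ, one_smul] at h7
          have h8 : w₁ = ((t * κ)⁻¹ • s • X + (w₁ + Y)) + (- ((t * κ)⁻¹ • s • X) - Y) := by abel
          rw [h8, h7, zero_add]
        have h7 : w₁ ∈ P₂ := by
          rw [h6]
          exact P₂.sub_mem (P₂.neg_mem (P₂.smul_mem _ (P₂.smul_mem _ hXP))) hYP
        have h8 : w₁ ∈ D ⊓ perp Q D := ⟨hw₁D, by rw [hPD]; exact h7⟩
        rw [show D ⊓ perp Q D = ⊥ from hDnd, Submodule.mem_bot] at h8
        exact hw₁0 h8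
    · have hvv : polar Q (i v).2 (i v).2 = 0 := by
        have c6 : BB Q ((i * nu1 F W * i) v) v = polar Q (i v).2 (i v).2 := by
          have : v = i (i v) := (LinearMap.congr_fun hii v).symm
          conv_lhs => rw [this]
          change BB Q (i (nu1 F W (i (i (i v))))) (i (i v)) = _
          rw [hiB, BB_nu1, ← this]
        have c7 : BB Q ((i * nu1 F W * i) ((0 : W), κ • w)) (w, 0) = κ * polar Q X Y := by
          rw [hν'.sk, alt_neg BB_alt, neg_neg, c3]
        rw [← c6, hv]
        simp only [map_add, map_smul, LinearMap.add_apply, LinearMap.smul_apply, smul_eq_mul]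
        rw [c3, c4, c5, c7, e3, e1, e2]
        ring
      rw [polar_self'] at hvv
      exact (mul_eq_zero.mp hvv).resolve_left h2F

end TO

end Cfsg.Agent.Lib.TenSpO
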