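import Mathlib
import Cfsg.Agent.Lib.TenSpO4

/-!
# Overgroups of `SL₂ ∘ O(W)` in `Sp(W × W)`: main result (helper21)
-/

set_option autoImplicit false
set_option linter.unusedSectionVars false
set_option linter.unusedVariables false
set_option linter.unusedSimpArgs false

namespace Cfsg.Agent.Lib.TenSpO

open QuadraticMap Module Cfsg.Agent.Lib.Quad Cfsg.Agent.Lib.OrthNd Cfsg.Agent.Lib.OrthDecH94
open Cfsg.Agent.Lib.SpTrans

variable {F W : Type*} [Field F] [AddCommGroup W] [Module F W] [FiniteDimensional F W] {Q : QuadraticForm F W}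

variable {M : Subgroup ((W × W) ≃ₗ[F] (W × W))}

namespace TO

variable (T : TO Q M)

include T

theorem sub1 [Finite F] (hcon : ¬ isom (fun x y => BB Q x y) ≤ M) {h : (W × W) ≃ₗ[F] (W × W)} (hh : h ∈ M) {w : W}
    (hw : Q w ≠ 0) : ∃ a c : F, (a ≠ 0 ∨ c ≠ 0) ∧ (h (a • w, c • w)).2 = 0 := by
  by_contra hc
  push Not at hc
  apply hcon
  have hκ : (1 / (2 * Q w) : F) ≠ 0 := one_div_ne_zero (mul_ne_zero T.two hw)
  have hiw := T.me_ip hw
  have hxy := xy1 (Q := Q) T.two hw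
  have hf : ∀ x y, BB Q (h x) (h y) = BB Q x y := fun x y => T.le hh x y
  have hfg : (h : Module.End F (W × W)) * ((h⁻¹ : (W × W) ≃ₗ[F] (W × W)) : Module.End F (W × W)) = 1 := by
    apply LinearMap.ext
    intro v
    exact h.apply_symm_apply v
  have hi := (Me.mul (Me.mul (f := (h : Module.End F (W × W))) ⟨h, hh, fun x => rfl⟩ hiw)
    (⟨h⁻¹, inv_mem hh, fun x => rfl⟩ : Me M ((h⁻¹ : (W × W) ≃ₗ[F] (W × W)) : Module.End F (W × W))))
  rw [conj_ip BB_alt hxy (f := (h : Module.End F (W × W))) hf hfg] at hi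
  refine T.stepB (p := h (w, 0)) (q := h (0, (1 / (2 * Q w)) • w)) ?_ hi ?_
  · rw [hf, hxy]
  · intro a c h0
    have e1 : (h (a • w, (c * (1 / (2 * Q w))) • w)).2 = 0 := by
      have : ((a • w, (c * (1 / (2 * Q w))) • w) : W × W) = a • (w, (0 : W)) + c • ((0 : W), (1 / (2 * Q w)) • w) := by
        rw [Prod.smul_mk, Prod.smul_mk, Prod.mk_add_mk, smul_zero, smul_zero, add_zero, zero_add, smul_smul]
      rw [this, map_add, map_smul, map_smul]
      exact h0
    by_contra hne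
    have h2 : a ≠ 0 ∨ c * (1 / (2 * Q w)) ≠ 0 := by
      by_cases ha : a = 0
      · right
        exact mul_ne_zero (fun hc0 => hne ⟨ha, hc0⟩) hκ
      · left; exact ha
    exact hc a _ h2 e1

theorem sub2 [Finite F] (hcon : ¬ isom (fun x y => BB Q x y) ≤ M) {h : (W × W) ≃ₗ[F] (W × W)} (hh : h ∈ M) :
    ∃ a c : F, (a ≠ 0 ∨ c ≠ 0) ∧ ∀ x, (h (a • x, c • x)).2 = 0 := by
  have h2F := T.two
  have hd5 := T.dim
  obtain ⟨w₀, -, hw₀⟩ := exists_nonsing (nds_top' T.nd) (by have := T.dim3; omega)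
  obtain ⟨a, c, hac, h0⟩ := T.sub1 hcon hh hw₀
  refine ⟨a, c, hac, ?_⟩
  let K : Submodule F W := LinearMap.ker ((LinearMap.snd F W W) ∘ₗ (h : (W × W) →ₗ[F] (W × W)) ∘ₗ
    (a • LinearMap.inl F W W + c • LinearMap.inr F W W))
  have memK : ∀ x, x ∈ K ↔ (h (a • x, c • x)).2 = 0 := by
    intro x
    rw [LinearMap.mem_ker]
    change (h (a • (x, (0 : W)) + c • ((0 : W), x))).2 = 0 ↔ _
    rw [Prod.smul_mk, Prod.smul_mk, Prod.mk_add_mk, smul_zero, smul_zero, add_zero, zero_add]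
  have k0 : w₀ ∈ K := (memK _).2 h0
  have k1 : ∀ w, Q w ≠ 0 → polar Q w₀ w ≠ 0 → w ∈ K := by
    intro w hw hww
    obtain ⟨a', c', hac', h1⟩ := T.sub1 hcon hh hw
    have e1 : BB Q (h (a • w₀, c • w₀)) (h (a' • w, c' • w)) = 0 := by
      rw [BB_apply, h0, h1, polar_zero_left, polar_zero_right, sub_zero]
    have e2 : BB Q (h (a • w₀, c • w₀)) (h (a' • w, c' • w)) = BB Q (a • w₀, c • w₀) (a' • w, c' • w) := T.le hh _ _
    rw [e2, BB_apply] at e1
    change polar Q (a • w₀) (c' • w) - polar Q (c • w₀) (a' • w) = 0 at e1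
    rw [polar_smul_left, polar_smul_left, polar_smul_right, polar_smul_right] at e1
    simp only [smul_eq_mul] at e1
    have e3 : a * c' - c * a' = 0 := by
      have : (a * c' - c * a') * polar Q w₀ w = 0 := by linear_combination e1
      exact (mul_eq_zero.mp this).resolve_right hww
    obtain ⟨l, hl1, hl2⟩ : ∃ l, a = l * a' ∧ c = l * c' := by
      by_cases ha' : a' = 0
      · have hc' : c' ≠ 0 := by rcases hac' with h | h; exact absurd ha' h; exact h
        refine ⟨c / c', ?_, by rw [div_mul_cancel₀ _ hc']⟩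
        rw [ha', mul_zero, sub_zero] at e3
        rw [ha', mul_zero]
        exact (mul_eq_zero.mp e3).resolve_right hc'
      · refine ⟨a / a', by rw [div_mul_cancel₀ _ ha'], ?_⟩
        field_simp
        linear_combination -e3
    rw [memK]
    have : ((a • w, c • w) : W × W) = l • (a' • w, c' • w) := by
      rw [Prod.smul_mk, smul_smul, smul_smul, hl1, hl2]
    rw [this, map_smul, Prod.smul_snd, h1, smul_zero]
  -- the perp of `w₀`
  have hA := nds_cut1 T.nd T.two (nds_top' T.nd) (a := w₀) trivial hw₀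
  have hd := finrank_cut1 T.nd (A := (⊤ : Submodule F W)) (a := w₀)
  rw [finrank_top] at hd
  set A : Submodule F W := ⊤ ⊓ perp Q (F ∙ w₀) with hAdef
  have hp : polar Q w₀ w₀ ≠ 0 := by rw [polar_self']; exact mul_ne_zero h2F hw₀
  have k2 : ∀ y ∈ A, Q y = 0 → y ∈ K := by
    intro y hy hQ
    have h1 := (mem_cut1.1 hy).2
    have h2 : y + w₀ ∈ K := by
      refine k1 _ ?_ ?_
      · rw [Q_add, hQ, polar_comm, h1, zero_add, add_zero]; exact hw₀
      · rw [polar_add_right, h1, zero_add]; exact hp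
    have := K.sub_mem h2 k0
    rwa [add_sub_cancel_right] at this
  have k3 : ∀ y ∈ A, y ∈ K := by
    intro y hy
    by_cases hy0 : y = 0
    · rw [hy0]; exact K.zero_mem
    obtain ⟨e, heA, he, hye⟩ := exists_sing_polar T.nd hA (by omega) hy hy0
    have h1 : y - Q y • e ∈ K := by
      refine k2 _ (A.sub_mem hy (A.smul_mem _ heA)) ?_
      rw [Q_sub, Q_smul, he, polar_smul_right, hye]; simp
    have := K.add_mem h1 (K.smul_mem (Q y) (k2 e heA he))
    rwa [sub_add_cancel] at this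
  intro x
  rw [← memK]
  have h1 : x - (polar Q w₀ x / polar Q w₀ w₀) • w₀ ∈ A := by
    refine mem_cut1.2 ⟨trivial, ?_⟩
    rw [polar_sub_right, polar_smul_right, smul_eq_mul, div_mul_cancel₀ _ hp, sub_self]
  have := K.add_mem (k3 _ h1) (K.smul_mem (polar Q w₀ x / polar Q w₀ w₀) k0)
  rwa [sub_add_cancel] at this

/-- **Main result.** -/
theorem main [Finite F] : isom (fun x y => BB Q x y) ≤ M ∨
    ∀ g ∈ M, ∃ (a b c d : F) (C : W ≃ₗ[F] W), ∀ x y, g (x, y) = (a • C x + b • C y, c • C x + d • C y) := by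
  by_cases hcon : isom (fun x y => BB Q x y) ≤ M
  · exact Or.inl hcon
  right
  intro g hg
  obtain ⟨σ, hσ, h1⟩ := T.sl 0 1 (-1) 0 (by ring)
  obtain ⟨τ, hτ, h2⟩ := T.sl 1 0 (-1) 1 (by ring)
  obtain ⟨a₁, c₁, h3, h4⟩ := T.sub2 hcon hg
  obtain ⟨a₂, c₂, h5, h6⟩ := T.sub2 hcon (mul_mem hσ hg)
  obtain ⟨a₃, c₃, h7, h8⟩ := T.sub2 hcon (mul_mem hτ hg)
  have h6' : ∀ x, (g (a₂ • x, c₂ • x)).1 = 0 := by
    intro x
    have := h6 x
    rw [LinearEquiv.mul_apply, show σ (g (a₂ • x, c₂ • x)) = σ ((g (a₂ • x, c₂ • x)).1, (g (a₂ • x, c₂ • x)).2) from rfl, h1] at this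
    change (-1 : F) • (g (a₂ • x, c₂ • x)).1 + (0 : F) • (g (a₂ • x, c₂ • x)).2 = 0 at this
    rwa [zero_smul, add_zero, neg_smul, one_smul, neg_eq_zero] at this
  have h8' : ∀ x, (g (a₃ • x, c₃ • x)).1 = (g (a₃ • x, c₃ • x)).2 := by
    intro x
    have := h8 x
    rw [LinearEquiv.mul_apply, show τ (g (a₃ • x, c₃ • x)) = τ ((g (a₃ • x, c₃ • x)).1, (g (a₃ • x, c₃ • x)).2) from rfl, h2] at this
    change (-1 : F) • (g (a₃ • x, c₃ • x)).1 + (1 : F) • (g (a₃ • x, c₃ • x)).2 = 0 at this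
    rw [neg_smul, one_smul, one_smul, neg_add_eq_zero] at this
    exact this
  obtain ⟨x₀, hx₀⟩ : ∃ x : W, x ≠ 0 := by
    obtain ⟨w, -, hw⟩ := exists_nonsing (nds_top' T.nd) (by have := T.dim3; omega)
    exact ⟨w, by rintro rfl; exact hw (by simp)⟩
  -- the maps
  let C₁ : W →ₗ[F] W := (LinearMap.fst F W W) ∘ₗ (g : (W × W) →ₗ[F] (W × W)) ∘ₗ
    (a₁ • LinearMap.inl F W W + c₁ • LinearMap.inr F W W)
  have hC₁ : ∀ x, C₁ x = (g (a₁ • x, c₁ • x)).1 := by
    intro x
    change (g (a₁ • (x, (0 : W)) + c₁ • ((0 : W), x))).1 = _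
    rw [Prod.smul_mk, Prod.smul_mk, Prod.mk_add_mk, smul_zero, smul_zero, add_zero, zero_add]
  have hinj : Function.Injective C₁ := by
    rw [injective_iff_map_eq_zero]
    intro x hx
    rw [hC₁] at hx
    have h9 : g (a₁ • x, c₁ • x) = 0 := Prod.ext hx (h4 x)
    rw [LinearEquiv.map_eq_zero_iff, Prod.mk_eq_zero] at h9
    rcases h3 with h | h
    · exact (smul_eq_zero.mp h9.1).resolve_left h
    · exact (smul_eq_zero.mp h9.2).resolve_left h
  let C : W ≃ₗ[F] W := LinearEquiv.ofInjectiveEndo C₁ hinj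
  have hC : ∀ x, C x = (g (a₁ • x, c₁ • x)).1 := hC₁
  set D := a₁ * c₂ - a₂ * c₁ with hD
  have hD0 : D ≠ 0 := by
    intro h0
    have hz : ∀ (x : W), x ≠ 0 → ∀ (p r : F), (p ≠ 0 ∨ r ≠ 0) → (p • x, r • x) ≠ (0 : W × W) := by
      intro x hx p r hpr h
      rw [Prod.mk_eq_zero] at h
      rcases hpr with h' | h'
      · exact hx ((smul_eq_zero.mp h.1).resolve_left h')
      · exact hx ((smul_eq_zero.mp h.2).resolve_left h')
    -- `e¹` is a multiple of `e²`
    obtain ⟨l, hl1, hl2⟩ : ∃ l, a₁ = l * a₂ ∧ c₁ = l * c₂ := by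
      by_cases ha' : a₂ = 0
      · have hc' : c₂ ≠ 0 := by rcases h5 with h | h; exact absurd ha' h; exact h
        refine ⟨c₁ / c₂, ?_, by rw [div_mul_cancel₀ _ hc']⟩
        rw [hD, ha', zero_mul, sub_zero] at h0
        rw [ha', mul_zero]
        exact (mul_eq_zero.mp h0).resolve_right hc'
      · refine ⟨a₁ / a₂, by rw [div_mul_cancel₀ _ ha'], ?_⟩
        field_simp
        linear_combination -h0
    have h9 : g (a₁ • x₀, c₁ • x₀) = 0 := by
      apply Prod.ext
      · have : ((a₁ • x₀, c₁ • x₀) : W × W) = l • (a₂ • x₀, c₂ • x₀) := by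
          rw [Prod.smul_mk, smul_smul, smul_smul, hl1, hl2]
        rw [this, map_smul, Prod.smul_fst, h6', smul_zero]; rfl
      · exact h4 x₀
    rw [LinearEquiv.map_eq_zero_iff] at h9
    exact hz x₀ hx₀ _ _ h3 h9
  set lam := (a₃ * c₂ - a₂ * c₃) / D with hlam
  set mu := (a₁ * c₃ - a₃ * c₁) / D with hmu
  have hsplit : ∀ x y : W, g (x, y) = (C ((c₂ / D) • x - (a₂ / D) • y),
      (g (a₂ • ((a₁ / D) • y - (c₁ / D) • x), c₂ • ((a₁ / D) • y - (c₁ / D) • x))).2) := by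
    intro x y
    have e1 : ((x, y) : W × W) = (a₁ • ((c₂ / D) • x - (a₂ / D) • y), c₁ • ((c₂ / D) • x - (a₂ / D) • y)) +
        (a₂ • ((a₁ / D) • y - (c₁ / D) • x), c₂ • ((a₁ / D) • y - (c₁ / D) • x)) := by
      rw [Prod.mk_add_mk]
      apply Prod.ext
      · change x = a₁ • ((c₂ / D) • x - (a₂ / D) • y) + a₂ • ((a₁ / D) • y - (c₁ / D) • x)
        match_scalars
        · field_simp; rw [hD]; ring
        · field_simp; ring
      · change y = c₁ • ((c₂ / D) • x - (a₂ / D) • y) + c₂ • ((a₁ / D) • y - (c₁ / D) • x)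
        match_scalars
        · field_simp; rw [hD]; ring
        · field_simp; ring
    conv_lhs => rw [e1, map_add]
    apply Prod.ext
    · rw [Prod.fst_add, h6', add_zero, hC]
    · rw [Prod.snd_add, h4, zero_add]
  have hrel : ∀ x, lam • C x = mu • (g (a₂ • x, c₂ • x)).2 := by
    intro x
    have e1 : ((a₃ • x, c₃ • x) : W × W) = lam • (a₁ • x, c₁ • x) + mu • (a₂ • x, c₂ • x) := by
      rw [Prod.smul_mk, Prod.smul_mk, Prod.mk_add_mk, hlam, hmu]
      apply Prod.ext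
      · change a₃ • x = ((a₃ * c₂ - a₂ * c₃) / D) • a₁ • x + ((a₁ * c₃ - a₃ * c₁) / D) • a₂ • x
        match_scalars
        field_simp; rw [hD]; ring
      · change c₃ • x = ((a₃ * c₂ - a₂ * c₃) / D) • c₁ • x + ((a₁ * c₃ - a₃ * c₁) / D) • c₂ • x
        match_scalars
        field_simp; rw [hD]; ring
    have e2 := h8' x
    rw [e1, map_add, map_smul, map_smul, Prod.fst_add, Prod.snd_add, Prod.smul_fst, Prod.smul_fst, Prod.smul_snd, Prod.smul_snd,
      h6', h4, smul_zero, smul_zero, add_zero, zero_add, ← hC] at e2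
    exact e2
  have hmu0 : mu ≠ 0 := by
    intro h0
    have h9 := hrel x₀
    rw [h0, zero_smul] at h9
    have hCx : C x₀ ≠ 0 := fun h => hx₀ (by simpa using h)
    have hl0 : lam = 0 := (smul_eq_zero.mp h9).resolve_right hCx
    rw [hlam, div_eq_zero_iff] at hl0
    rw [hmu, div_eq_zero_iff] at h0
    have e1 := hl0.resolve_right hD0
    have e2 := h0.resolve_right hD0
    have e3 : D * a₃ = 0 := by rw [hD]; linear_combination a₁ * e1 + a₂ * e2
    have e4 : D * c₃ = 0 := by rw [hD]; linear_combination c₁ * e1 + c₂ * e2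
    rcases h7 with h | h
    · exact h ((mul_eq_zero.mp e3).resolve_left hD0)
    · exact h ((mul_eq_zero.mp e4).resolve_left hD0)
  have hrel' : ∀ x, (g (a₂ • x, c₂ • x)).2 = (lam / mu) • C x := by
    intro x
    rw [div_eq_inv_mul, mul_smul, hrel, smul_smul, inv_mul_cancel₀ hmu0, one_smul]
  refine ⟨c₂ / D, -(a₂ / D), -(lam / mu * (c₁ / D)), lam / mu * (a₁ / D), C, fun x y => ?_⟩
  rw [hsplit, hrel']
  simp only [map_sub, map_smul]
  apply Prod.ext
  · change (c₂ / D) • C x - (a₂ / D) • C y = (c₂ / D) • C x + (-(a₂ / D)) • C y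
    module
  · change (lam / mu) • ((a₁ / D) • C y - (c₁ / D) • C x) = (-(lam / mu * (c₁ / D))) • C x + (lam / mu * (a₁ / D)) • C y
    module

end TO

end Cfsg.Agent.Lib.TenSpO
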