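import Mathlib
import Cfsg.Prelude.Def_GeometricClasses
import Cfsg.Agent.Lib.GeoBridge
import Cfsg.Agent.Lib.TensorGeo
import Cfsg.Agent.Lib.QuadNorm
import Cfsg.Agent.Lib.TenSpO5

/-!
# Stabilisers of tensor decompositions `2 ⊗ k` in symplectic groups: the bridge (helper21)
-/

set_option autoImplicit false
set_option linter.unusedSectionVars false
set_option linter.unusedVariables false
set_option linter.unusedSimpArgs false

namespace Cfsg.Agent.Lib.TenSpO

open QuadraticMap Module Cfsg.Agent.Lib.Quad Cfsg.Agent.Lib.SpTrans Cfsg Cfsg.Geo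
open Cfsg.Agent.Lib.GeoBridge Cfsg.Agent.Lib.TensorGeo Cfsg.Agent.Lib.QuadNorm
open scoped MatrixGroups Matrix

variable {F : Type*} [Field F] {m k : ℕ}

/-- decomposable elements -/
def PP {W : Type*} [AddCommGroup W] [Module F W] (g : (W × W) ≃ₗ[F] (W × W)) : Prop :=
  ∃ (a b c d : F) (C : W ≃ₗ[F] W), ∀ x y, g (x, y) = (a • C x + b • C y, c • C x + d • C y)

/-- not every isometry is decomposable -/
theorem exists_not_PP {W : Type*} [AddCommGroup W] [Module F W] [FiniteDimensional F W] {Q : QuadraticForm F W} (hQ : Nd Q)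
    (h2 : 2 ≤ finrank F W) : ∃ t ∈ isom (fun x y => BB Q x y), ¬ PP (F := F) t := by
  obtain ⟨w, hw⟩ : ∃ w : W, w ≠ 0 := by
    haveI : Nontrivial W := Module.nontrivial_of_finrank_pos (R := F) (by omega)
    exact exists_ne 0
  refine ⟨tv (BB Q) BB_alt (w, 0) 1, tv_mem_isom _ _ _, ?_⟩
  rintro ⟨a, b, c, d, C, h⟩
  have h1 : ∀ x, tv (BB Q) (BB_alt (Q := Q)) (w, (0 : W)) 1 (x, 0) = (x, 0) := by
    intro x
    rw [tv_apply, BB_apply]
    change (x, (0 : W)) + (1 * (polar Q x 0 - polar Q 0 w)) • (w, (0 : W)) = (x, 0)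
    rw [polar_zero_left, polar_zero_right]; simp
  have h3 : ∀ y, tv (BB Q) (BB_alt (Q := Q)) (w, (0 : W)) 1 (0, y) = (-(polar Q y w) • w, y) := by
    intro y
    rw [tv_apply, BB_apply]
    change ((0 : W), y) + (1 * (polar Q (0 : W) 0 - polar Q y w)) • (w, (0 : W)) = _
    rw [polar_zero_left]; simp
  have h4 : ∀ x, a • C x = x := by
    intro x
    have := h x 0
    rw [h1, map_zero, smul_zero, smul_zero, add_zero, add_zero, Prod.mk.injEq] at this
    exact this.1.symm
  have h5 : ∀ y, b • C y = -(polar Q y w) • w := by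
    intro y
    have := h 0 y
    rw [h3, map_zero, smul_zero, smul_zero, zero_add, zero_add, Prod.mk.injEq] at this
    exact this.1.symm
  have ha : a ≠ 0 := by
    rintro rfl
    have := h4 w
    rw [zero_smul] at this
    exact hw this.symm
  have hperp := hQ.finrank_add_finrank_perp (F ∙ w)
  rw [finrank_span_singleton hw] at hperp
  obtain ⟨y, hy, hy0⟩ := Submodule.exists_mem_ne_zero_of_ne_bot (show perp Q (F ∙ w) ≠ ⊥ by
    intro h6; rw [h6, finrank_bot] at hperp; omega)
  have hwy : polar Q y w = 0 := by rw [polar_comm]; exact mem_perp_singleton.1 hy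
  have h6 := h5 y
  rw [hwy, neg_zero, zero_smul] at h6
  have hCy : C y ≠ 0 := fun h0 => hy0 (by simpa using h0)
  have hb : b = 0 := (smul_eq_zero.mp h6).resolve_right hCy
  obtain ⟨z, hz⟩ := hQ.exists_polar_one' hw
  have h7 := h5 z
  rw [hb, zero_smul, polar_comm, hz] at h7
  apply hw
  have : -(1 : F) ≠ 0 := by simp
  exact (smul_eq_zero.mp h7.symm).resolve_left this

section br

variable (e : (Fin m ⊕ Fin m) ≃ Fin 2 × Fin k) (P : GL (Fin m ⊕ Fin m) F)

/-- the space as a square -/
def th0 : ((Fin k → F) × (Fin k → F)) →ₗ[F] ((Fin m ⊕ Fin m) → F) :=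
  (tpB e P (Pi.single 0 1)) ∘ₗ (LinearMap.fst F _ _) + (tpB e P (Pi.single 1 1)) ∘ₗ (LinearMap.snd F _ _)

theorem th0_apply (v : (Fin k → F) × (Fin k → F)) :
    th0 e P v = tp e P (Pi.single 0 1) v.1 + tp e P (Pi.single 1 1) v.2 := rfl

theorem tp_eq (x₁ : Fin 2 → F) (x₂ : Fin k → F) : tp e P x₁ x₂ = th0 e P (x₁ 0 • x₂, x₁ 1 • x₂) := by
  rw [th0_apply]
  change _ = tp e P (Pi.single 0 1) (x₁ 0 • x₂) + tp e P (Pi.single 1 1) (x₁ 1 • x₂)
  rw [tp_smul_right, tp_smul_right, ← tp_smul_left, ← tp_smul_left, ← tp_add_left]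
  congr 1
  ext i
  fin_cases i <;> simp

theorem th0_surj : Function.Surjective (th0 e P) := by
  intro v
  obtain ⟨w, hw⟩ := exists_sum_left e P v
  refine ⟨(w 0, w 1), ?_⟩
  rw [th0_apply, hw, Fin.sum_univ_two]

end br

/-- **The bridge.** -/
theorem tensor2_max [Fintype F] (hk : 5 ≤ k) (hodd : Odd (Fintype.card F)) (e : (Fin m ⊕ Fin m) ≃ Fin 2 × Fin k)
    (P : GL (Fin m ⊕ Fin m) F) (f₁ : (Fin 2 → F) → (Fin 2 → F) → F) (f₂ : (Fin k → F) → (Fin k → F) → F)
    (hf₁ : IsSymplecticForm f₁) (hf₂ : IsSymmetricForm f₂) (hT : IsTensorFormStructure id (sympForm m F) f₁ f₂ e P) :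
    IsMaximalIn (spGL m F) (tensorProductSubgroup 2 k e P ⊓ spGL m F) := by
  obtain ⟨c, hc, hT⟩ := hT
  have h2F : (2 : F) ≠ 0 := by
    intro h0
    have hchar : ringChar F = 2 := by
      have h1 : ringChar F ∣ 2 := (ringChar.spec F 2).mp (by exact_mod_cast h0)
      have h2 : ringChar F ≠ 1 := CharP.ringChar_ne_one
      rcases (Nat.dvd_prime Nat.prime_two).mp h1 with h | h
      · exact absurd h h2
      · exact h
    rw [FiniteField.even_card_iff_char_two] at hchar
    rw [Nat.odd_iff] at hodd
    omega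
  have hpol : ∀ x₁ y₁ x₂ y₂, sympForm m F (tp e P x₁ x₂) (tp e P y₁ y₂) = c * (f₁ x₁ y₁ * f₂ x₂ y₂) := by
    intro x₁ y₁ x₂ y₂
    exact form_tp (σ := id) (fun a b => rfl)
      (eq_formOfGram (σ := id) hf₁.bilinear.add_left hf₁.bilinear.smul_left (fun x y z => hf₁.bilinear.add_right x y z)
        (fun c x y => hf₁.bilinear.smul_right c x y))
      (eq_formOfGram (σ := id) hf₂.bilinear.add_left hf₂.bilinear.smul_left (fun x y z => hf₂.bilinear.add_right x y z)
        (fun c x y => hf₂.bilinear.smul_right c x y)) hT x₁ y₁ x₂ y₂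
  -- the constant
  set e0 : Fin 2 → F := Pi.single 0 1 with he0
  set e1 : Fin 2 → F := Pi.single 1 1 with he1
  set l := f₁ e0 e1 with hl
  have hl10 : f₁ e1 e0 = -l := by rw [hf₁.skew]
  have hl0 : l ≠ 0 := by
    intro h0
    have hne : e0 ≠ 0 := by
      intro h; have := congrFun h 0; rw [he0] at this; simp at this
    obtain ⟨-, x, hx⟩ := hf₁.nondegenerate e0 hne
    apply hx
    have : x = x 0 • e0 + x 1 • e1 := by
      ext i; fin_cases i <;> simp [he0, he1]
    rw [this, hf₁.bilinear.add_right, hf₁.bilinear.smul_right, hf₁.bilinear.smul_right, hf₁.alternating, ← hl, h0]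
    ring
  set c' := c * l with hc'
  have hc'0 : c' ≠ 0 := mul_ne_zero hc hl0
  -- the quadratic form
  let B₀ : (Fin k → F) →ₗ[F] (Fin k → F) →ₗ[F] F :=
    LinearMap.mk₂ F (fun x y => c' / 2 * f₂ x y)
      (fun x y z => by rw [hf₂.bilinear.add_left]; ring)
      (fun a x y => by rw [hf₂.bilinear.smul_left, smul_eq_mul]; ring)
      (fun x y z => by rw [hf₂.bilinear.add_right]; ring)
      (fun a x y => by rw [hf₂.bilinear.smul_right, smul_eq_mul]; ring)
  obtain ⟨Q, hQ⟩ : ∃ Q : QuadraticForm F (Fin k → F), Q = LinearMap.BilinMap.toQuadraticMap B₀ := ⟨_, rfl⟩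
  have hQp : ∀ x y, polar Q x y = c' * f₂ x y := by
    intro x y
    have h0 : ∀ z, Q z = c' / 2 * f₂ z z := fun z => by rw [hQ]; rfl
    rw [polar, h0, h0, h0, hf₂.bilinear.add_left, hf₂.bilinear.add_right, hf₂.bilinear.add_right, hf₂.symm y x]
    field_simp
    ring
  have hnd : Nd Q := by
    apply nd_of
    intro x hx
    by_contra hne
    obtain ⟨-, y, hy⟩ := hf₂.nondegenerate x hne
    have := hx y
    rw [hQp] at this
    exact hy ((mul_eq_zero.mp this).resolve_left hc'0)
  have hB : ∀ v v' : (Fin k → F) × (Fin k → F), sympB m F (th0 e P v) (th0 e P v') = BB Q v v' := by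
    intro v v'
    rw [th0_apply, th0_apply, map_add, map_add, LinearMap.add_apply, LinearMap.add_apply, sympB_apply, sympB_apply, sympB_apply,
      sympB_apply, ← he0, ← he1, hpol, hpol, hpol, hpol, hf₁.alternating, hf₁.alternating, hl10, ← hl, BB_apply, hQp, hQp, hc']
    ring
  have hinj : Function.Injective (th0 e P) := by
    rw [injective_iff_map_eq_zero]
    intro v hv
    by_contra hne
    obtain ⟨y, -, hy⟩ := BB_nd hnd v trivial hne
    apply hy
    rw [← hB, hv, map_zero]; rfl
  let θ : ((Fin k → F) × (Fin k → F)) ≃ₗ[F] ((Fin m ⊕ Fin m) → F) := LinearEquiv.ofBijective (th0 e P) ⟨hinj, th0_surj e P⟩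
  have hθ : ∀ v, θ v = th0 e P v := fun v => rfl
  have hθB : ∀ v v', sympB m F (θ v) (θ v') = BB Q v v' := hB
  have hmemi : ∀ t, conjLE θ t ∈ isom (fun x y => sympB m F x y) ↔ t ∈ isom (fun x y => BB Q x y) := by
    intro t
    constructor
    · intro h x y
      have := h (θ x) (θ y)
      simp only [conjLE_apply, LinearEquiv.symm_apply_apply, hθB] at this
      exact this
    · intro h x y
      have := h (θ.symm x) (θ.symm y)
      simp only at this
      rw [← hθB, ← hθB, LinearEquiv.apply_symm_apply, LinearEquiv.apply_symm_apply] at this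
      exact this
  -- decomposable elements
  have hPP : ∀ g : GL (Fin m ⊕ Fin m) F, ∀ t, le g = conjLE θ t → PP (F := F) t → g ∈ tensorProductSubgroup 2 k e P := by
    rintro g t hgt ⟨a, b, c₁, d, C, ht⟩
    have hdet : a * d - b * c₁ ≠ 0 := by
      intro h0
      obtain ⟨x, hx⟩ : ∃ x : Fin k → F, x ≠ 0 := by
        refine ⟨Pi.single ⟨0, by omega⟩ 1, fun h => ?_⟩
        have := congrFun h ⟨0, by omega⟩
        simp at this
      have e1 : t (d • x, -(c₁ • x)) = 0 := by
        rw [ht]
        apply Prod.ext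
        · change a • C (d • x) + b • C (-(c₁ • x)) = 0
          rw [map_neg, map_smul, map_smul]
          match_scalars
          linear_combination h0
        · change c₁ • C (d • x) + d • C (-(c₁ • x)) = 0
          rw [map_neg, map_smul, map_smul]
          module
      have e2 : t (-(b • x), a • x) = 0 := by
        rw [ht]
        apply Prod.ext
        · change a • C (-(b • x)) + b • C (a • x) = 0
          rw [map_neg, map_smul, map_smul]
          module
        · change c₁ • C (-(b • x)) + d • C (a • x) = 0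
          rw [map_neg, map_smul, map_smul]
          match_scalars
          linear_combination h0
      rw [LinearEquiv.map_eq_zero_iff, Prod.mk_eq_zero, neg_eq_zero] at e1 e2
      have hd : d = 0 := (smul_eq_zero.mp e1.1).resolve_right hx
      have hc1 : c₁ = 0 := (smul_eq_zero.mp e1.2).resolve_right hx
      have hb : b = 0 := (smul_eq_zero.mp e2.1).resolve_right hx
      have ha : a = 0 := (smul_eq_zero.mp e2.2).resolve_right hx
      have h3 : t (x, x) = 0 := by rw [ht, ha, hb, hc1, hd]; simp
      rw [LinearEquiv.map_eq_zero_iff, Prod.mk_eq_zero] at h3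
      exact hx h3.1
    rw [mem_tensor_iff]
    refine ⟨Matrix.GeneralLinearGroup.mkOfDetNeZero !![a, b; c₁, d] (by rwa [Matrix.det_fin_two_of]), le.symm C, fun x₁ x₂ => ?_⟩
    rw [hgt, conjLE_apply]
    have h3 : θ.symm (tp e P x₁ x₂) = (x₁ 0 • x₂, x₁ 1 • x₂) := by
      rw [LinearEquiv.symm_apply_eq, hθ, tp_eq]
    have h4 : ((le.symm C : GL (Fin k) F) : Matrix (Fin k) (Fin k) F) *ᵥ x₂ = C x₂ := le_symm_mulVec C x₂
    rw [h3, ht, h4, hθ, tp_eq]
    congr 1
    apply Prod.ext
    · change a • C (x₁ 0 • x₂) + b • C (x₁ 1 • x₂) = ((!![a, b; c₁, d] : Matrix (Fin 2) (Fin 2) F) *ᵥ x₁) 0 • C x₂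
      rw [map_smul, map_smul]
      simp only [Matrix.mulVec, dotProduct, Fin.sum_univ_two, Matrix.of_apply, Matrix.cons_val', Matrix.cons_val_zero,
        Matrix.cons_val_one, Matrix.cons_val_fin_one]
      module
    · change c₁ • C (x₁ 0 • x₂) + d • C (x₁ 1 • x₂) = ((!![a, b; c₁, d] : Matrix (Fin 2) (Fin 2) F) *ᵥ x₁) 1 • C x₂
      rw [map_smul, map_smul]
      simp only [Matrix.mulVec, dotProduct, Fin.sum_univ_two, Matrix.of_apply, Matrix.cons_val', Matrix.cons_val_zero,
        Matrix.cons_val_one, Matrix.cons_val_fin_one]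
      module
  have hPP' : ∀ g : GL (Fin m ⊕ Fin m) F, ∀ t, le g = conjLE θ t → g ∈ tensorProductSubgroup 2 k e P → PP (F := F) t := by
    intro g t hgt hg
    rw [mem_tensor_iff] at hg
    obtain ⟨A, C, h⟩ := hg
    refine ⟨(A : Matrix (Fin 2) (Fin 2) F) 0 0, (A : Matrix (Fin 2) (Fin 2) F) 0 1, (A : Matrix (Fin 2) (Fin 2) F) 1 0,
      (A : Matrix (Fin 2) (Fin 2) F) 1 1, le C, fun x y => ?_⟩
    apply θ.injective
    have h3 : θ (t (x, y)) = conjLE θ t (θ (x, y)) := by rw [conjLE_apply, LinearEquiv.symm_apply_apply]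
    rw [h3, ← hgt, hθ, th0_apply, map_add, h, h, tp_eq, tp_eq, ← map_add, ← hθ]
    congr 1
    apply Prod.ext
    · change ((A : Matrix (Fin 2) (Fin 2) F) *ᵥ (Pi.single 0 1 : Fin 2 → F)) 0 • ((C : Matrix (Fin k) (Fin k) F) *ᵥ x) +
        ((A : Matrix (Fin 2) (Fin 2) F) *ᵥ (Pi.single 1 1 : Fin 2 → F)) 0 • ((C : Matrix (Fin k) (Fin k) F) *ᵥ y) = _
      rw [Matrix.mulVec_single_one, Matrix.mulVec_single_one]; rfl
    · change ((A : Matrix (Fin 2) (Fin 2) F) *ᵥ (Pi.single 0 1 : Fin 2 → F)) 1 • ((C : Matrix (Fin k) (Fin k) F) *ᵥ x) +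
        ((A : Matrix (Fin 2) (Fin 2) F) *ᵥ (Pi.single 1 1 : Fin 2 → F)) 1 • ((C : Matrix (Fin k) (Fin k) F) *ᵥ y) = _
      rw [Matrix.mulVec_single_one, Matrix.mulVec_single_one]; rfl
  have hfr : finrank F (Fin k → F) = k := by rw [finrank_fintype_fun_eq_card, Fintype.card_fin]
  refine isMaximalIn_of ?_ ?_
  · refine lt_of_le_of_ne inf_le_right ?_
    intro heq
    obtain ⟨t, ht, htn⟩ := exists_not_PP hnd (by rw [hfr]; omega)
    apply htn
    have h1 : le.symm (conjLE θ t) ∈ spGL m F := by
      rw [mem_spGL_iff, MulEquiv.apply_symm_apply]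
      exact (hmemi t).2 ht
    rw [← heq] at h1
    exact hPP' _ t (MulEquiv.apply_symm_apply _ _) h1.1
  · intro M hHM hMK hMex g hg
    have hmem : ∀ t, t ∈ M.comap (conjLE θ).toMonoidHom ↔ conjLE θ t ∈ M := fun t => Iff.rfl
    have hin : ∀ t, t ∈ isom (fun x y => BB Q x y) → PP (F := F) t → t ∈ M.comap (conjLE θ).toMonoidHom := by
      intro t ht hP
      rw [hmem]
      have h0 : le.symm (conjLE θ t) ∈ spGL m F := by
        rw [mem_spGL_iff, MulEquiv.apply_symm_apply]
        exact (hmemi t).2 ht
      have := hHM (le.symm (conjLE θ t)) ⟨hPP _ t (MulEquiv.apply_symm_apply _ _) hP, h0⟩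
      rwa [MulEquiv.apply_symm_apply] at this
    have T : TO Q (M.comap (conjLE θ).toMonoidHom) :=
      { nd := hnd
        two := h2F
        dim := by rw [hfr]; exact hk
        le := by
          intro t ht
          rw [← hmemi]
          rw [hmem] at ht
          have h1 : le (le.symm (conjLE θ t)) ∈ M := by rwa [MulEquiv.apply_symm_apply]
          have h2 := hMK _ h1
          rw [mem_spGL_iff, MulEquiv.apply_symm_apply] at h2
          exact h2
        sl := by
          intro a b c d hdet
          let t : ((Fin k → F) × (Fin k → F)) ≃ₗ[F] ((Fin k → F) × (Fin k → F)) :=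
            { toFun := fun v => (a • v.1 + b • v.2, c • v.1 + d • v.2)
              invFun := fun v => (d • v.1 - b • v.2, a • v.2 - c • v.1)
              map_add' := fun v v' => by
                apply Prod.ext
                · change a • (v.1 + v'.1) + b • (v.2 + v'.2) = (a • v.1 + b • v.2) + (a • v'.1 + b • v'.2)
                  module
                · change c • (v.1 + v'.1) + d • (v.2 + v'.2) = (c • v.1 + d • v.2) + (c • v'.1 + d • v'.2)
                  module
              map_smul' := fun s v => by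
                apply Prod.ext
                · change a • (s • v.1) + b • (s • v.2) = s • (a • v.1 + b • v.2)
                  module
                · change c • (s • v.1) + d • (s • v.2) = s • (c • v.1 + d • v.2)
                  module
              left_inv := fun v => by
                apply Prod.ext
                · change d • (a • v.1 + b • v.2) - b • (c • v.1 + d • v.2) = v.1
                  match_scalars
                  · linear_combination hdet
                  · ring
                · change a • (c • v.1 + d • v.2) - c • (a • v.1 + b • v.2) = v.2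
                  match_scalars
                  · ring
                  · linear_combination hdet
              right_inv := fun v => by
                apply Prod.ext
                · change a • (d • v.1 - b • v.2) + b • (a • v.2 - c • v.1) = v.1
                  match_scalars
                  · linear_combination hdet
                  · ring
                · change c • (d • v.1 - b • v.2) + d • (a • v.2 - c • v.1) = v.2
                  match_scalars
                  · ring
                  · linear_combination hdet }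
          have ht : ∀ x y, t (x, y) = (a • x + b • y, c • x + d • y) := fun x y => rfl
          refine ⟨t, hin t ?_ ⟨a, b, c, d, LinearEquiv.refl F _, fun x y => ht x y⟩, ht⟩
          intro v v'
          change BB Q (a • v.1 + b • v.2, c • v.1 + d • v.2) (a • v'.1 + b • v'.2, c • v'.1 + d • v'.2) = BB Q v v'
          rw [BB_apply, BB_apply]
          simp only [polar_add_left, polar_add_right, polar_smul_left, polar_smul_right, smul_eq_mul]
          linear_combination (polar Q v.1 v'.2 - polar Q v.2 v'.1) * hdet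
        o := by
          intro ρ hρ
          have ht : ∀ x y, (LinearEquiv.prodCongr ρ ρ) (x, y) = (ρ x, ρ y) := fun x y => rfl
          refine ⟨LinearEquiv.prodCongr ρ ρ, hin _ ?_ ⟨1, 0, 0, 1, ρ, fun x y => by rw [ht]; simp⟩, ht⟩
          intro v v'
          change BB Q (ρ v.1, ρ v.2) (ρ v'.1, ρ v'.2) = BB Q v v'
          rw [BB_apply, BB_apply]
          change polar Q (ρ v.1) (ρ v'.2) - polar Q (ρ v.2) (ρ v'.1) = _
          rw [O_polar hρ, O_polar hρ] }
    rcases T.main with h | h
    · rw [mem_spGL_iff] at hg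
      have h1 : conjLE θ ((conjLE θ).symm (le g)) = le g := MulEquiv.apply_symm_apply _ _
      have h2 := (hmemi ((conjLE θ).symm (le g))).1 (by rw [h1]; exact hg)
      have h3 := (hmem _).1 (h h2)
      rwa [h1] at h3
    · exfalso
      obtain ⟨g₁, hg₁, hg₁H⟩ := hMex
      apply hg₁H
      have h1 : conjLE θ ((conjLE θ).symm (le g₁)) = le g₁ := MulEquiv.apply_symm_apply _ _
      have h2 : (conjLE θ).symm (le g₁) ∈ M.comap (conjLE θ).toMonoidHom := by rw [hmem, h1]; exact hg₁
      exact ⟨hPP g₁ _ h1.symm (h _ h2), hMK _ hg₁⟩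

end Cfsg.Agent.Lib.TenSpO
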