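import Mathlib
import Cfsg.Agent.Lib.TenSpO2

/-!
# Overgroups of `Sp(E) ∘ O(W)` in `Sp(E ⊗ W)`: set up (helper21)
-/

set_option autoImplicit false
set_option linter.unusedSectionVars false
set_option linter.unusedVariables false
set_option linter.unusedSimpArgs false

namespace Cfsg.Agent.Lib.TenSpT

open QuadraticMap Module Cfsg.Agent.Lib.Quad Cfsg.Agent.Lib.OrthNd Cfsg.Agent.Lib.OrthDecH94
open Cfsg.Agent.Lib.SpTrans Cfsg.Agent.Lib.TenSpO

variable {F E W V : Type*} [Field F] [AddCommGroup E] [Module F E] [FiniteDimensional F E]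
  [AddCommGroup W] [Module F W] [FiniteDimensional F W] [AddCommGroup V] [Module F V] [FiniteDimensional F V]

/-- avoiding three hyperplanes -/
theorem three (h2F : (2 : F) ≠ 0) {X : Type*} [AddCommGroup X] [Module F X] (p₁ p₂ p₃ : X →ₗ[F] F) (h1 : p₁ ≠ 0)
    (h2 : p₂ ≠ 0) (h3 : p₃ ≠ 0) : ∃ x, p₁ x ≠ 0 ∧ p₂ x ≠ 0 ∧ p₃ x ≠ 0 := by
    have ex : ∀ p : X →ₗ[F] F, p ≠ 0 → ∃ x, p x ≠ 0 := fun p hp => by
      by_contra hcon
      push Not at hcon
      exact hp (LinearMap.ext hcon)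
    obtain ⟨x, hx1, hx2⟩ : ∃ x, p₁ x ≠ 0 ∧ p₂ x ≠ 0 := by
      obtain ⟨a, ha⟩ := ex _ h1
      obtain ⟨b, hb⟩ := ex _ h2
      by_cases h4 : p₂ a = 0
      · by_cases h5 : p₁ b = 0
        · exact ⟨a + b, by rw [map_add, h5, add_zero]; exact ha, by rw [map_add, h4, zero_add]; exact hb⟩
        · exact ⟨b, h5, hb⟩
      · exact ⟨a, ha, h4⟩
    obtain ⟨y, hy⟩ := ex _ h3
    by_cases h4 : p₃ x = 0
    · -- `x + y`, `x - y` or `x + c y`
      by_contra hcon
      push Not at hcon
      have hA : ∀ c : F, c ≠ 0 → p₁ (x + c • y) = 0 ∨ p₂ (x + c • y) = 0 := by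
        intro c hc
        by_contra h5
        push Not at h5
        have := hcon _ h5.1 h5.2
        rw [map_add, h4, map_smul, zero_add, smul_eq_mul] at this
        exact (mul_ne_zero hc hy) this
      have hne1 : (-1 : F) ≠ 1 := by
        intro h; apply h2F; linear_combination -h
      have h5 := hA 1 one_ne_zero
      have h6 := hA (-1) (by simp)
      rw [one_smul] at h5
      rw [neg_smul, one_smul, ← sub_eq_add_neg] at h6
      rw [map_add, map_add] at h5
      rw [map_sub, map_sub] at h6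
      -- try `y + 2 x` type vectors : `y + c x`
      have h7 : ∀ c : F, p₁ (y + c • x) = 0 ∨ p₂ (y + c • x) = 0 := by
        intro c
        by_contra h8
        push Not at h8
        have := hcon _ h8.1 h8.2
        rw [map_add, map_smul, h4, smul_zero, add_zero] at this
        exact hy this
      have h8 := h7 0
      rw [zero_smul, add_zero] at h8
      rcases h8 with h8 | h8
      · rw [h8, add_zero] at h5
        rw [h8, sub_zero] at h6
        have h9 := h5.resolve_left hx1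
        have h10 := h6.resolve_left hx1
        have : 2 * p₂ x = 0 := by linear_combination h9 + h10
        exact hx2 ((mul_eq_zero.mp this).resolve_left h2F)
      · rw [h8, add_zero] at h5
        rw [h8, sub_zero] at h6
        have h9 := h5.resolve_right hx2
        have h10 := h6.resolve_right hx2
        have : 2 * p₁ x = 0 := by linear_combination h9 + h10
        exact hx1 ((mul_eq_zero.mp this).resolve_left h2F)
    · exact ⟨x, hx1, hx2, h4⟩

/-- the situation -/
structure TT (α : E →ₗ[F] E →ₗ[F] F) (Q : QuadraticForm F W) (B : V →ₗ[F] V →ₗ[F] F) (τ : E →ₗ[F] W →ₗ[F] V)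
    (M : Subgroup (V ≃ₗ[F] V)) : Prop where
  hα : α.IsAlt
  hαn : ∀ x, (∀ y, α x y = 0) → x = 0
  hE : 0 < finrank F E
  nd : Nd Q
  two : (2 : F) ≠ 0
  hB : B.IsAlt
  hBn : NdOn B ⊤
  Bτ : ∀ e w e' w', B (τ e w) (τ e' w') = α e e' * polar Q w w'
  span : ∀ N : Submodule F V, (∀ e w, τ e w ∈ N) → N = ⊤
  le : M ≤ isom (fun x y => B x y)
  tE : ∀ σ ∈ isom (fun x y => α x y), ∃ t ∈ M, ∀ e w, t (τ e w) = τ (σ e) w
  tW : ∀ ρ ∈ O Q, ∃ t ∈ M, ∀ e w, t (τ e w) = τ e (ρ w)

variable {α : E →ₗ[F] E →ₗ[F] F} {Q : QuadraticForm F W} {B : V →ₗ[F] V →ₗ[F] F} {τ : E →ₗ[F] W →ₗ[F] V}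
  {M : Subgroup (V ≃ₗ[F] V)}

namespace TT

theorem αnd (T : TT α Q B τ M) : LinearMap.BilinForm.Nondegenerate α := by
  refine ⟨fun x hx => T.hαn x hx, fun y hy => T.hαn y fun x => ?_⟩
  rw [alt_neg T.hα, hy x, neg_zero]

/-- contraction with a vector of `E` -/
noncomputable def cc (T : TT α Q B τ M) (f : E) : V →ₗ[F] W :=
  (LinearMap.BilinForm.toDual (polarBilin Q) T.nd).symm.toLinearMap ∘ₗ (B.compl₂ (τ f))

/-- contraction with a vector of `W` -/
noncomputable def dd (T : TT α Q B τ M) (z : W) : V →ₗ[F] E :=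
  (LinearMap.BilinForm.toDual α T.αnd).symm.toLinearMap ∘ₗ (B.compl₂ (τ.flip z))

variable (T : TT α Q B τ M)

include T

theorem cc_spec (f : E) (v : V) (w : W) : polar Q (T.cc f v) w = B v (τ f w) := by
  have h : LinearMap.BilinForm.toDual (polarBilin Q) T.nd (T.cc f v) = (B.compl₂ (τ f)) v :=
    LinearEquiv.apply_symm_apply _ _
  have h2 := LinearMap.congr_fun h w
  rw [LinearMap.BilinForm.toDual_def] at h2
  exact h2

theorem cc_spec' (f : E) (v : V) (w : W) : polar Q w (T.cc f v) = B v (τ f w) := by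
  rw [polar_comm, T.cc_spec]

theorem eqW {x y : W} (h : ∀ w, polar Q x w = polar Q y w) : x = y := by
  rw [← sub_eq_zero]
  apply T.nd.eq_zero
  intro w
  rw [polar_sub_left, h, sub_self]

theorem eqE {x y : E} (h : ∀ w, α x w = α y w) : x = y := by
  rw [← sub_eq_zero]
  apply T.hαn
  intro w
  rw [map_sub, LinearMap.sub_apply, h, sub_self]

theorem cc_τ (f e : E) (w : W) : T.cc f (τ e w) = α e f • w := by
  apply T.eqW
  intro w'
  rw [T.cc_spec, T.Bτ, polar_smul_left, smul_eq_mul]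

theorem dd_spec (z : W) (v : V) (e : E) : α (T.dd z v) e = B v (τ e z) := by
  have h : LinearMap.BilinForm.toDual α T.αnd (T.dd z v) = (B.compl₂ (τ.flip z)) v :=
    LinearEquiv.apply_symm_apply _ _
  have h2 := LinearMap.congr_fun h e
  rw [LinearMap.BilinForm.toDual_def] at h2
  exact h2

theorem dd_τ (z w : W) (e : E) : T.dd z (τ e w) = polar Q w z • e := by
  apply T.eqE
  intro e'
  rw [T.dd_spec, T.Bτ, map_smul, LinearMap.smul_apply, smul_eq_mul, mul_comm]

theorem extτ {f g : Module.End F V} (h : ∀ e w, f (τ e w) = g (τ e w)) : f = g := by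
  have h1 := T.span (LinearMap.eqLocus f g) (fun e w => h e w)
  ext v
  have h2 : v ∈ LinearMap.eqLocus f g := by rw [h1]; trivial
  exact h2

theorem totτ {v : V} (h : ∀ e w, B v (τ e w) = 0) : v = 0 := by
  by_contra hne
  obtain ⟨y, -, hy⟩ := T.hBn v trivial hne
  apply hy
  have h1 := T.span (LinearMap.ker (B v)) (fun e w => h e w)
  have h2 : y ∈ LinearMap.ker (B v) := by rw [h1]; trivial
  exact h2

theorem eqV {v v' : V} (h : ∀ e w, B v (τ e w) = B v' (τ e w)) : v = v' := by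
  rw [← sub_eq_zero]
  apply T.totτ
  intro e w
  rw [map_sub, LinearMap.sub_apply, h, sub_self]

theorem Bsw (v v' : V) : B v v' = - B v' v := alt_neg T.hB v v'

theorem αsw (v v' : E) : α v v' = - α v' v := alt_neg T.hα v v'

theorem Bτl (e : E) (w : W) (v : V) : B (τ e w) v = - polar Q (T.cc e v) w := by
  rw [T.Bsw, T.cc_spec]

end TT

/-- elements attached to a self-adjoint map -/
noncomputable def chi (T : TT α Q B τ M) (f : E) (A : W →ₗ[F] W) : Module.End F V := (τ f) ∘ₗ A ∘ₗ (T.cc f)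

theorem chi_apply (T : TT α Q B τ M) (f : E) (A : W →ₗ[F] W) (v : V) : chi T f A v = τ f (A (T.cc f v)) := rfl

/-- the set of self-adjoint maps realised in `M` -/
def SS (T : TT α Q B τ M) (f : E) (A : W →ₗ[F] W) : Prop :=
  (∀ x y, polar Q (A x) y = polar Q x (A y)) ∧ ∀ c : F, Me M (1 + c • chi T f A)

namespace TT

variable (T : TT α Q B τ M)

include T

theorem nu_sk (f : E) (A : W →ₗ[F] W) (hA : ∀ x y, polar Q (A x) y = polar Q x (A y)) (x y : V) :
    B (chi T f A x) y = - B x (chi T f A y) := by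
  rw [chi_apply, chi_apply, T.Bτl, ← T.cc_spec, polar_comm, hA]

theorem nu_sq (f : E) (A A' : W →ₗ[F] W) : chi T f A * chi T f A' = 0 := by
  ext v
  change chi T f A (chi T f A' v) = 0
  rw [chi_apply, chi_apply, T.cc_τ, T.hα f, zero_smul, map_zero, map_zero]

theorem ss_add {f : E} {A A' : W →ₗ[F] W} (h : SS T f A) (h' : SS T f A') : SS T f (A + A') := by
  refine ⟨fun x y => ?_, fun c => ?_⟩
  · rw [LinearMap.add_apply, LinearMap.add_apply, polar_add_left, polar_add_right, h.1, h'.1]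
  · have := (h.2 c).mul (h'.2 c)
    have e : (1 + c • chi T f A) * (1 + c • chi T f A') = 1 + c • chi T f (A + A') := by
      have e1 : chi T f (A + A') = chi T f A + chi T f A' := by
        ext v
        rw [LinearMap.add_apply, chi_apply, chi_apply, chi_apply, LinearMap.add_apply, map_add]
      rw [e1, mul_add, mul_one, add_mul, one_mul, smul_mul_smul_comm, T.nu_sq, smul_zero, add_zero, smul_add, add_assoc]
    rwa [e] at this

theorem ss_smul {f : E} {A : W →ₗ[F] W} (h : SS T f A) (d : F) : SS T f (d • A) := by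
  refine ⟨fun x y => ?_, fun c => ?_⟩
  · rw [LinearMap.smul_apply, LinearMap.smul_apply, polar_smul_left, polar_smul_right, h.1]
  · have := h.2 (c * d)
    have e1 : chi T f (d • A) = d • chi T f A := by
      ext v
      rw [LinearMap.smul_apply, chi_apply, chi_apply, LinearMap.smul_apply, map_smul]
    rwa [e1, smul_smul]

theorem ss_sub {f : E} {A A' : W →ₗ[F] W} (h : SS T f A) (h' : SS T f A') : SS T f (A - A') := by
  have := T.ss_add h (T.ss_smul h' (-1))
  rwa [neg_smul, one_smul, ← sub_eq_add_neg] at this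

theorem ss_of {f : E} {A : W →ₗ[F] W} {c : F} (hc : c ≠ 0) (h : SS T f (c • A)) : SS T f A := by
  have := T.ss_smul h c⁻¹
  rwa [smul_smul, inv_mul_cancel₀ hc, one_smul] at this

/-- the standard root groups -/
theorem qd_nu (f : E) : Qd B M (chi T f LinearMap.id) where
  sk := T.nu_sk f _ fun x y => rfl
  sq := T.nu_sq f _ _
  me c := by
    obtain ⟨t, ht, h1⟩ := T.tE (tv α T.hα f c) (tv_mem_isom T.hα f c)
    refine ⟨t, ht, fun v => ?_⟩
    have : (t : V →ₗ[F] V) = 1 + c • chi T f LinearMap.id := by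
      apply T.extτ
      intro e w
      change t (τ e w) = τ e w + c • τ f (T.cc f (τ e w))
      rw [h1, tv_apply, T.cc_τ, map_add, LinearMap.add_apply, map_smul, LinearMap.smul_apply, map_smul, smul_smul]
    exact LinearMap.congr_fun this v

theorem ss_one (f : E) : SS T f LinearMap.id := ⟨fun x y => rfl, (T.qd_nu f).me⟩

/-- elements normalising `f ⊗ W` -/
theorem ss_norm {f : E} {h : V ≃ₗ[F] V} (hh : h ∈ M) {R R' : W →ₗ[F] W} (hR : ∀ w, h (τ f w) = τ f (R w))
    (hR' : ∀ x y, polar Q (R x) y = polar Q x (R' y)) : SS T f (R ∘ₗ R') := by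
  refine ⟨fun x y => ?_, fun c => ?_⟩
  · rw [LinearMap.comp_apply, hR', LinearMap.comp_apply, polar_comm, ← hR', polar_comm]
  · obtain ⟨t, ht, h1⟩ := (T.qd_nu f).me c
    refine ⟨h * t * h⁻¹, mul_mem (mul_mem hh ht) (inv_mem hh), fun v => ?_⟩
    have e1 : h (h⁻¹ v) = v := h.apply_symm_apply v
    have e2 : T.cc f (h⁻¹ v) = R' (T.cc f v) := by
      apply T.eqW
      intro w
      rw [T.cc_spec]
      have := T.le hh (h⁻¹ v) (τ f w)
      simp only [e1] at this
      rw [← this, hR, ← T.cc_spec, polar_comm, hR', polar_comm]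
    rw [LinearEquiv.mul_apply, LinearEquiv.mul_apply, h1]
    change h (h⁻¹ v + c • τ f (T.cc f (h⁻¹ v))) = v + c • τ f (R (R' (T.cc f v)))
    rw [map_add, e1, map_smul, hR, e2]

theorem ss_map {f : E} {A A' : W →ₗ[F] W} (h : SS T f A) {ρ : W ≃ₗ[F] W} (hρ : ρ ∈ O Q) (hA : ∀ x, A' (ρ x) = ρ (A x)) :
    SS T f A' := by
  have e1 : ∀ x, ρ (ρ.symm x) = x := fun x => ρ.apply_symm_apply x
  refine ⟨fun x y => ?_, fun c => ?_⟩
  · have : polar Q (A' (ρ (ρ.symm x))) (ρ (ρ.symm y)) = polar Q (ρ (ρ.symm x)) (A' (ρ (ρ.symm y))) := by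
      rw [hA, hA, O_polar hρ, O_polar hρ, h.1]
    rwa [e1, e1] at this
  · obtain ⟨t, ht, h1⟩ := h.2 c
    obtain ⟨s, hs, h2⟩ := T.tW ρ hρ
    refine ⟨s * t * s⁻¹, mul_mem (mul_mem hs ht) (inv_mem hs), fun v => ?_⟩
    have e2 : s (s⁻¹ v) = v := s.apply_symm_apply v
    have e3 : ρ (T.cc f (s⁻¹ v)) = T.cc f v := by
      apply T.eqW
      intro w
      have h3 := T.le hs (s⁻¹ v) (τ f (ρ.symm w))
      simp only [e2] at h3
      rw [h2, e1] at h3
      rw [T.cc_spec f v w, h3, ← T.cc_spec, ← O_polar hρ (T.cc f (s⁻¹ v)) (ρ.symm w), e1]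
    rw [LinearEquiv.mul_apply, LinearEquiv.mul_apply, h1]
    change s (s⁻¹ v + c • τ f (A (T.cc f (s⁻¹ v)))) = v + c • τ f (A' (T.cc f v))
    rw [map_add, e2, map_smul, h2, ← hA, e3]

theorem ss_dmap {f : E} {w y : W} (h : SS T f (dm Q w y)) {ρ : W ≃ₗ[F] W} (hρ : ρ ∈ O Q) :
    SS T f (dm Q (ρ w) (ρ y)) :=
  T.ss_map h hρ fun x => by
    rw [dm_apply, dm_apply, O_polar hρ, O_polar hρ, map_add, map_smul, map_smul]

/-- transvections -/
theorem cen_of {f : E} {u : W} (h : SS T f (dm Q u u)) : τ f u ∈ centres T.hB M := by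
  intro a
  obtain ⟨t, ht, h1⟩ := h.2 (a / 2)
  have : tv B T.hB (τ f u) a = t := by
    ext1 v
    rw [tv_apply, h1]
    change v + (a * B v (τ f u)) • τ f u = v + (a / 2) • τ f (dm Q u u (T.cc f v))
    rw [dm_apply, T.cc_spec', map_add, map_smul]
    have := T.two
    match_scalars
    · rfl
    · field_simp; ring
  rw [this]; exact ht

/-- a pure isotropic centre -/
theorem fin3 [Finite F] (h3 : 3 ≤ finrank F W) {f : E} {u : W} (hf : f ≠ 0) (hu0 : u ≠ 0) (hu : Q u = 0)
    (h : τ f u ∈ centres T.hB M) : isom (fun x y => B x y) ≤ M := by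
  refine isom_le_of_tv_mem T.hB T.hBn ?_
  suffices key : ∀ v, v ∈ centres T.hB M from fun v a => key v a
  have hndE : NdOn α ⊤ := by
    intro x _ hx
    by_contra hcon
    push Not at hcon
    exact hx (T.hαn x fun y => hcon y trivial)
  have htop3 : 3 ≤ finrank F (⊤ : Submodule F W) := by rw [finrank_top]; exact h3
  -- pure isotropic tensors
  have h1 : ∀ (e : E) (z : W), Q z = 0 → τ e z ∈ centres T.hB M := by
    intro e z hz
    by_cases hz0 : z = 0
    · rw [hz0, map_zero]; exact centres_zero _ _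
    by_cases he : e = 0
    · rw [he, map_zero]; exact centres_zero _ _
    obtain ⟨ρ, hρ, hρu⟩ : ∃ ρ ∈ O Q, ρ u = z := T.nd.exists_map_eq hu0 hz0 (by rw [hu, hz])
    obtain ⟨t, ht, h2⟩ := T.tW ρ hρ
    obtain ⟨σ, hσ, h4⟩ := exists_move T.hα hndE (u := f) (v := e) trivial trivial hf he
    obtain ⟨s, hs, h5⟩ := T.tE σ (tgrp_le_isom T.hα _ hσ)
    have h6 := centres_map T.hB T.le (centres_map T.hB T.le h ht) hs
    rwa [h2, h5, h4, hρu] at h6
  have add' : ∀ v v' : V, v ∈ centres T.hB M → v' ∈ centres T.hB M → B v v' ≠ 0 → v + v' ∈ centres T.hB M := by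
    intro v v' hv hv' hne
    have := centres_add T.hB T.le hv hv' hne 1
    rwa [one_smul] at this
  -- pure tensors
  have h2 : ∀ (e : E) (z : W), τ e z ∈ centres T.hB M := by
    intro e z
    by_cases hz0 : z = 0
    · rw [hz0, map_zero]; exact centres_zero _ _
    by_cases he0 : e = 0
    · rw [he0, map_zero]; exact centres_zero _ _
    by_cases hz : Q z = 0
    · exact h1 e z hz
    obtain ⟨e', -, he'⟩ := hndE e trivial he0
    obtain ⟨u', -, hu', hzu⟩ := exists_sing_polar T.nd (TO.nds_top' T.nd) htop3 (x := z) trivial hz0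
    have huz : polar Q u' z = 1 := by rw [polar_comm]; exact hzu
    obtain ⟨h3, h4⟩ := adjust_singular hu' huz
    set x := z - Q z • u' with hx
    have hxz : z = x + Q z • u' := by rw [hx]; abel
    have k1 := h1 e x h3
    have k2 := h1 (Q z • e + e') u' hu'
    have k3 := add' _ _ k1 k2 (by
      rw [T.Bτ, map_add, map_smul, T.hα e, smul_zero, zero_add, polar_comm, h4, mul_one]; exact he')
    have e3 : τ e x + τ (Q z • e + e') u' = τ e z + τ e' u' := by
      conv_rhs => rw [hxz]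
      rw [map_add τ, LinearMap.add_apply, map_smul τ, LinearMap.smul_apply, map_add (τ e), map_smul (τ e)]
      abel
    rw [e3] at k3
    have k4 := h1 (-e') u' hu'
    have k5 := add' _ _ k3 k4 (by
      rw [map_add, LinearMap.add_apply, T.Bτ, T.Bτ, map_neg, map_neg, T.hα e', hzu, neg_zero, zero_mul, add_zero, mul_one]
      exact neg_ne_zero.mpr he')
    rwa [map_neg, LinearMap.neg_apply, add_neg_cancel_right] at k5
  have pureav : ∀ v₁ v₂ v₃ : V, v₁ ≠ 0 → v₂ ≠ 0 → v₃ ≠ 0 → ∃ (e : E) (w : W), B v₁ (τ e w) ≠ 0 ∧ B v₂ (τ e w) ≠ 0 ∧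
      B v₃ (τ e w) ≠ 0 := by
    intro v₁ v₂ v₃ hv₁ hv₂ hv₃
    have ex : ∀ v : V, v ≠ 0 → ∃ e w, B v (τ e w) ≠ 0 := fun v hv => by
      by_contra hcon
      push Not at hcon
      exact hv (T.totτ hcon)
    -- first choose `e`
    have key1 : ∀ v : V, v ≠ 0 → ∃ L : E →ₗ[F] F, L ≠ 0 ∧ ∀ e, L e ≠ 0 → ∃ w, B v (τ e w) ≠ 0 := fun v hv => by
      obtain ⟨e, w, hew⟩ := ex v hv
      exact ⟨(B v) ∘ₗ (τ.flip w), fun h0 => hew (LinearMap.congr_fun h0 e), fun e' he' => ⟨w, he'⟩⟩
    obtain ⟨L₁, hL₁, hL₁'⟩ := key1 v₁ hv₁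
    obtain ⟨L₂, hL₂, hL₂'⟩ := key1 v₂ hv₂
    obtain ⟨L₃, hL₃, hL₃'⟩ := key1 v₃ hv₃
    obtain ⟨e, he1, he2, he3⟩ := three T.two L₁ L₂ L₃ hL₁ hL₂ hL₃
    obtain ⟨w₁, hw₁⟩ := hL₁' e he1
    obtain ⟨w₂, hw₂⟩ := hL₂' e he2
    obtain ⟨w₃, hw₃⟩ := hL₃' e he3
    obtain ⟨w, h1, h2, h3⟩ := three T.two ((B v₁) ∘ₗ (τ e)) ((B v₂) ∘ₗ (τ e)) ((B v₃) ∘ₗ (τ e))
      (fun h0 => hw₁ (LinearMap.congr_fun h0 w₁)) (fun h0 => hw₂ (LinearMap.congr_fun h0 w₂))
      (fun h0 => hw₃ (LinearMap.congr_fun h0 w₃))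
    exact ⟨e, w, h1, h2, h3⟩
  have addp : ∀ v ∈ centres T.hB M, ∀ e w, v + τ e w ∈ centres T.hB M := by
    intro v hv e w
    by_cases hv0 : v = 0
    · rw [hv0, zero_add]; exact h2 e w
    by_cases hp0 : τ e w = 0
    · rw [hp0, add_zero]; exact hv
    by_cases hs0 : v + τ e w = 0
    · rw [hs0]; exact centres_zero _ _
    obtain ⟨e', w', h3, h4, h5⟩ := pureav v (τ e w) (v + τ e w) hv0 hp0 hs0
    have k1 := add' _ _ hv (h2 e' w') h3
    by_cases h6 : B (v + τ e' w') (τ e w) = 0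
    · -- scale
      have k1' := add' _ _ hv (h2 (-e') w') (by rw [map_neg, LinearMap.neg_apply, map_neg]; exact neg_ne_zero.mpr h3)
      have h7 : B (v + τ (-e') w') (τ e w) ≠ 0 := by
        rw [map_add, LinearMap.add_apply] at h6 ⊢
        intro h7
        apply h4
        rw [map_neg, LinearMap.neg_apply, map_neg, LinearMap.neg_apply] at h7
        have : 2 * B (τ e' w') (τ e w) = 0 := by linear_combination h6 - h7
        have h8 := (mul_eq_zero.mp this).resolve_left T.two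
        rw [T.Bsw, h8, neg_zero]
      have k2 := add' _ _ k1' (h2 e w) h7
      have k3 := add' _ _ k2 (h2 e' w') (by
        rw [map_neg, LinearMap.neg_apply]
        have e1 : B (v + -τ e' w' + τ e w) (τ e' w') = B (v + τ e w) (τ e' w') := by
          simp only [map_add, LinearMap.add_apply, map_neg, LinearMap.neg_apply, show B (τ e' w') (τ e' w') = 0 from T.hB _]
          ring
        rw [e1]; exact h5)
      have e2 : v + τ (-e') w' + τ e w + τ e' w' = v + τ e w := by
        rw [map_neg, LinearMap.neg_apply]; abel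
      rwa [e2] at k3
    · have k2 := add' _ _ k1 (h2 e w) h6
      have k3 := add' _ _ k2 (h2 (-e') w') (by
        have e1 : B (v + τ e' w' + τ e w) (τ (-e') w') = - B (v + τ e w) (τ e' w') := by
          simp only [map_add, LinearMap.add_apply, map_neg, LinearMap.neg_apply, show B (τ e' w') (τ e' w') = 0 from T.hB _]
          ring
        rw [e1]; exact neg_ne_zero.mpr h5)
      have e2 : v + τ e' w' + τ e w + τ (-e') w' = v + τ e w := by
        rw [map_neg, LinearMap.neg_apply]; abel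
      rwa [e2] at k3
  -- sums of pure tensors
  have hsum : ∀ v ∈ Submodule.span F {x | ∃ e w, x = τ e w}, ∀ v' ∈ centres T.hB M, v' + v ∈ centres T.hB M := by
    intro v hv
    refine Submodule.span_induction (p := fun v _ => ∀ v' ∈ centres T.hB M, v' + v ∈ centres T.hB M) ?_ ?_ ?_ ?_ hv
    · rintro x ⟨e, w, rfl⟩ v' hv'
      exact addp v' hv' e w
    · intro v' hv'; rw [add_zero]; exact hv'
    · intro x y _ _ hx hy v' hv'
      rw [← add_assoc]; exact hy _ (hx _ hv')
    · intro c x _ hx v' hv'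
      by_cases hc : c = 0
      · rw [hc, zero_smul, add_zero]; exact hv'
      have h3 := hx _ (centres_smul T.hB hv' c⁻¹)
      have h4 := centres_smul T.hB h3 c
      rwa [smul_add, smul_smul, mul_inv_cancel₀ hc, one_smul] at h4
  intro v
  have h3 := hsum v (by
    have := T.span (Submodule.span F {x | ∃ e w, x = τ e w}) (fun e w => Submodule.subset_span ⟨e, w, rfl⟩)
    rw [this]; trivial) 0 (centres_zero _ _)
  rwa [zero_add] at h3

end TT

end Cfsg.Agent.Lib.TenSpT
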