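import Mathlib
import Cfsg.Agent.Lib.TenSpT1

/-!
# Overgroups of `Sp(E) ∘ O₃(q)` : nonscalar elements (helper21)
-/

set_option autoImplicit false
set_option linter.unusedSectionVars false
set_option linter.unusedVariables false
set_option linter.unusedSimpArgs false

namespace Cfsg.Agent.Lib.TenSpT

open QuadraticMap Module Cfsg.Agent.Lib.Quad Cfsg.Agent.Lib.OrthNd Cfsg.Agent.Lib.OrthDecH94
open Cfsg.Agent.Lib.SpTrans Cfsg.Agent.Lib.TenSpO

variable {F E W V : Type*} [Field F] [AddCommGroup E] [Module F E] [FiniteDimensional F E]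
  [AddCommGroup W] [Module F W] [FiniteDimensional F W] [AddCommGroup V] [Module F V] [FiniteDimensional F V]

variable {α : E →ₗ[F] E →ₗ[F] F} {Q : QuadraticForm F W} {B : V →ₗ[F] V →ₗ[F] F} {τ : E →ₗ[F] W →ₗ[F] V}
  {M : Subgroup (V ≃ₗ[F] V)}

/-- a nonscalar map moves the line of a nonsingular vector -/
theorem exists_moved (h2 : (2 : F) ≠ 0) {l : F} (hl0 : l ≠ 0) (hl1 : l ≠ 1) (hl2 : l ≠ -1) (hQ : Nd Q)
    (h3 : 1 ≤ finrank F W) {A : W →ₗ[F] W} (hA : ∀ c : F, A ≠ c • LinearMap.id) : ∃ w, Q w ≠ 0 ∧ ∀ c : F, A w ≠ c • w := by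
  by_contra hcon
  push Not at hcon
  obtain ⟨w₀, -, hw₀⟩ := exists_nonsing (TO.nds_top' hQ) (by rw [finrank_top]; omega)
  obtain ⟨μ, hμ⟩ := hcon w₀ hw₀
  have hw₀0 : w₀ ≠ 0 := by rintro rfl; exact hw₀ (by simp)
  apply hA μ
  have key1 : ∀ v, Q v ≠ 0 → A v = μ • v := by
    intro v hv
    obtain ⟨ν, hν⟩ := hcon v hv
    by_cases hvw : v ∈ Submodule.span F {w₀}
    · obtain ⟨c, rfl⟩ := Submodule.mem_span_singleton.1 hvw
      rw [map_smul, hμ, smul_comm]
    -- a nonsingular combination
    obtain ⟨c, hc0, hc⟩ : ∃ c : F, c ≠ 0 ∧ Q (w₀ + c • v) ≠ 0 := by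
      by_contra hcc
      push Not at hcc
      have e1 := hcc 1 one_ne_zero
      have e2 := hcc (-1) (by simp)
      have e3 := hcc l hl0
      rw [Q_add, Q_smul, polar_smul_right, smul_eq_mul] at e1 e2 e3
      have e4 : polar Q w₀ v = 0 := by
        have : 2 * polar Q w₀ v = 0 := by linear_combination e1 - e2
        exact (mul_eq_zero.mp this).resolve_left h2
      rw [e4] at e1 e3
      have e5 : (l - 1) * (l + 1) * Q v = 0 := by linear_combination e3 - e1
      rcases mul_eq_zero.mp e5 with h | h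
      · rcases mul_eq_zero.mp h with h | h
        · exact hl1 (sub_eq_zero.mp h)
        · exact hl2 (eq_neg_of_add_eq_zero_left h)
      · exact hv h
    obtain ⟨κ, hκ⟩ := hcon _ hc
    rw [map_add, map_smul, hμ, hν] at hκ
    have h5 : (κ - μ) • w₀ = (c * (ν - κ)) • v := by
      rw [← sub_eq_zero] at hκ ⊢
      rw [← neg_eq_zero, ← hκ]
      module
    have h6 : c * (ν - κ) = 0 := by
      by_contra hne
      apply hvw
      rw [Submodule.mem_span_singleton]
      refine ⟨(c * (ν - κ))⁻¹ * (κ - μ), ?_⟩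
      rw [mul_smul, h5, smul_smul, inv_mul_cancel₀ hne, one_smul]
    rw [h6, zero_smul, smul_eq_zero, or_iff_left hw₀0] at h5
    have h7 := (mul_eq_zero.mp h6).resolve_left hc0
    rw [hν, show ν = μ by linear_combination h7 + h5]
  ext v
  rw [LinearMap.smul_apply, LinearMap.id_apply]
  by_cases hv : Q v = 0
  · obtain ⟨c, hc0, hc⟩ : ∃ c : F, c ≠ 0 ∧ Q (v + c • w₀) ≠ 0 := by
      by_contra hcc
      push Not at hcc
      have e1 := hcc 1 one_ne_zero
      have e2 := hcc (-1) (by simp)
      rw [Q_add, Q_smul, polar_smul_right, smul_eq_mul, hv] at e1 e2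
      apply hw₀
      have : 2 * Q w₀ = 0 := by linear_combination e1 + e2
      exact (mul_eq_zero.mp this).resolve_left h2
    have h4 := key1 _ hc
    rw [map_add, map_smul, hμ] at h4
    have h5 : A v = (A v + c • μ • w₀) - c • μ • w₀ := by abel
    rw [h5, h4]; module
  · exact key1 v hv

namespace TT

variable (T : TT α Q B τ M)

include T

/-- from a nonscalar map to a product -/
theorem ss_prod {l : F} (hl0 : l ≠ 0) (hl1 : l ≠ 1) (hl2 : l ≠ -1) (h3 : 1 ≤ finrank F W) {f : E} {A : W →ₗ[F] W}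
    (h : SS T f A) (hA : ∀ c : F, A ≠ c • LinearMap.id) :
    ∃ w y, Q w ≠ 0 ∧ y ≠ 0 ∧ polar Q w y = 0 ∧ SS T f (dm Q w y) := by
  have h2 := T.two
  obtain ⟨w, hw, hwA⟩ := exists_moved h2 hl0 hl1 hl2 T.nd h3 hA
  set κ : F := (Q w)⁻¹ with hκ
  have hκ0 : κ ≠ 0 := inv_ne_zero hw
  refine ⟨w, A w - (κ * polar Q w (A w) / 2) • w, hw, ?_, ?_, ?_⟩
  · intro h0
    exact hwA _ (sub_eq_zero.mp h0)
  · rw [polar_sub_right, polar_smul_right, polar_self', smul_eq_mul, hκ]
    field_simp
    ring
  · have hr := refl_mem (Q := Q) w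
    -- the conjugate
    have hB : SS T f (A - κ • dm Q w (A w) + (κ * κ * polar Q w (A w) / 2) • dm Q w w) := by
      refine T.ss_map h hr fun x => ?_
      have hx : ∀ y, refl Q w y = y - (κ * polar Q w y) • w := fun y => refl_apply hw y
      simp only [LinearMap.add_apply, LinearMap.sub_apply, LinearMap.smul_apply, dm_apply, hx, map_sub, map_smul, polar_sub_right,
        polar_smul_right, polar_self', smul_eq_mul]
      rw [h.1 w x, polar_comm Q (A w) w]
      have e1 : κ * Q w = 1 := by rw [hκ, inv_mul_cancel₀ hw]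
      match_scalars
      · ring
      · linear_combination (2 * κ * polar Q w x) * e1
      · field_simp
        linear_combination (-4 * κ * polar Q w x * polar Q w (A w)) * e1
    have hC := T.ss_sub h hB
    refine T.ss_of hκ0 ?_
    have e : A - (A - κ • dm Q w (A w) + (κ * κ * polar Q w (A w) / 2) • dm Q w w) =
        κ • dm Q w (A w - (κ * polar Q w (A w) / 2) • w) := by
      ext x
      simp only [LinearMap.add_apply, LinearMap.sub_apply, LinearMap.smul_apply, dm_apply, polar_sub_left, polar_smul_left,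
        smul_eq_mul]
      match_scalars
      · ring
      · ring
      · field_simp
        ring
    rwa [e] at hC

/-- an isotropic factor -/
theorem ss_iso {f : E} {w u : W} (hw : Q w ≠ 0) (hu : Q u = 0) (hwu : polar Q w u = 0) (h : SS T f (dm Q w u)) :
    SS T f (dm Q u u) := by
  have huw : polar Q u w = 0 := by rw [polar_comm]; exact hwu
  have m3 := ofMap_mem T.nd (siegMap Q u w) (siegMap_Q hu huw)
  have k3 := T.ss_dmap h m3
  rw [ofMap_apply, ofMap_apply, siegMap_apply, siegMap_apply] at k3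
  have huu : polar Q u u = 0 := by rw [polar_self', hu, mul_zero]
  have e : (dm Q (w + polar Q u w • w - polar Q w w • u - (Q w * polar Q u w) • u)
      (u + polar Q u u • w - polar Q w u • u - (Q w * polar Q u u) • u)) - dm Q w u = (-(2 * Q w)) • dm Q u u := by
    ext x
    simp only [LinearMap.add_apply, LinearMap.sub_apply, LinearMap.smul_apply, dm_apply, huw, hwu, huu,
      zero_smul, mul_zero, add_zero, sub_zero, polar_add_left, polar_sub_left,
      polar_smul_left, smul_eq_mul, polar_self']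
    module
  have := T.ss_sub k3 h
  rw [e] at this
  exact T.ss_of (neg_ne_zero.mpr (mul_ne_zero T.two hw)) this

theorem ss_add_right {f : E} {w y y' : W} (h : SS T f (dm Q w y)) (h' : SS T f (dm Q w y')) : SS T f (dm Q w (y + y')) := by
  have := T.ss_add h h'
  have e : dm Q w y + dm Q w y' = dm Q w (y + y') := by
    ext x
    simp only [LinearMap.add_apply, dm_apply, polar_add_left]
    module
  rwa [e] at this

theorem ss_smul_right {f : E} {w y : W} (h : SS T f (dm Q w y)) (c : F) : SS T f (dm Q w (c • y)) := by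
  have := T.ss_smul h c
  have e : c • dm Q w y = dm Q w (c • y) := by
    ext x
    simp only [LinearMap.smul_apply, dm_apply, polar_smul_left, smul_eq_mul]
    module
  rwa [e] at this

/-- all products with vectors of a plane, or we are done -/
theorem ss_plane [Finite F] {l : F} (hl0 : l ≠ 0) (hl1 : l ≠ 1) (hl2 : l ≠ -1) (h3 : finrank F W = 3) {f : E} (hf : f ≠ 0)
    (hcon : ¬ isom (fun x y => B x y) ≤ M) {w y : W} (hw : Q w ≠ 0) (hy : y ≠ 0) (hwy : polar Q w y = 0)
    (h : SS T f (dm Q w y)) : ∀ z, polar Q w z = 0 → SS T f (dm Q w z) := by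
  have h2 := T.two
  have hA := nds_cut1 T.nd h2 (TO.nds_top' T.nd) (a := w) trivial hw
  have hd := finrank_cut1 T.nd (A := (⊤ : Submodule F W)) (a := w)
  rw [finrank_top] at hd
  obtain ⟨A, hAdef⟩ : ∃ A, A = (⊤ ⊓ perp Q (F ∙ w) : Submodule F W) := ⟨_, rfl⟩
  rw [← hAdef] at hA hd
  have memA : ∀ z, z ∈ A ↔ polar Q w z = 0 := fun z => by
    rw [hAdef, mem_cut1]; exact ⟨fun h => h.2, fun h => ⟨trivial, h⟩⟩
  have hyA := (memA y).2 hwy
  obtain ⟨c, hcA, hc, hcy, hcs⟩ := exists_third T.nd h2 hl0 hl1 hl2 hA (by omega) hyA hy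
  have hwc := (memA c).1 hcA
  have k1 := T.ss_dmap h (refl_mem (Q := Q) c)
  rw [refl_of_perp (show polar Q c w = 0 by rw [polar_comm]; exact hwc), refl_apply hc] at k1
  have k2 : SS T f (dm Q w c) := by
    have := T.ss_add_right k1 (T.ss_smul_right h (-1))
    have e : y - ((Q c)⁻¹ * polar Q c y) • c + (-1 : F) • y = (-((Q c)⁻¹ * polar Q c y)) • c := by module
    rw [e] at this
    have h5 : -((Q c)⁻¹ * polar Q c y) ≠ 0 := neg_ne_zero.mpr (mul_ne_zero (inv_ne_zero hc) hcy)
    have := T.ss_smul_right this (-((Q c)⁻¹ * polar Q c y))⁻¹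
    rwa [smul_smul, inv_mul_cancel₀ h5, one_smul] at this
  have hdA : finrank F A ≤ 2 := by
    by_contra hc3
    have h5 : finrank F A = finrank F W := le_antisymm (Submodule.finrank_le _) (by omega)
    have h6 := Submodule.eq_top_of_finrank_eq h5
    have h7 : w ∈ A := by rw [h6]; trivial
    rw [memA, polar_self'] at h7
    exact mul_ne_zero h2 hw h7
  have hspan : Submodule.span F {y, c} = A := by
    apply Submodule.eq_of_le_of_finrank_le
    · rw [Submodule.span_le]
      rintro x (rfl | rfl)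
      · exact hyA
      · exact hcA
    · have hli : LinearIndependent F ![y, c] := by
        rw [LinearIndependent.pair_iff]
        intro s t hst
        have ht : t = 0 := by
          by_contra ht
          apply hcs
          rw [Submodule.mem_span_singleton]
          refine ⟨-(t⁻¹ * s), ?_⟩
          have h8 : t • c = -(s • y) := eq_neg_of_add_eq_zero_right hst
          have h9 : c = t⁻¹ • (t • c) := by rw [smul_smul, inv_mul_cancel₀ ht, one_smul]
          rw [h9, h8]; module
        rw [ht, zero_smul, add_zero, smul_eq_zero, or_iff_left hy] at hst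
        exact ⟨hst, ht⟩
      have h8 := finrank_span_eq_card hli
      rw [Fintype.card_fin] at h8
      have h9 : Set.range ![y, c] = {y, c} := by
        ext x; simp [eq_comm]; tauto
      rw [h9] at h8
      omega
  intro z hz
  rw [← memA, ← hspan] at hz
  obtain ⟨a, b, rfl⟩ := Submodule.mem_span_pair.1 hz
  exact T.ss_add_right (T.ss_smul_right h a) (T.ss_smul_right k2 b)

/-- **nonscalar elements** -/
theorem ss_fin [Finite F] {l : F} (hl0 : l ≠ 0) (hl1 : l ≠ 1) (hl2 : l ≠ -1) (h3 : finrank F W = 3) {f : E} (hf : f ≠ 0)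
    {A : W →ₗ[F] W} (h : SS T f A) (hA : ∀ c : F, A ≠ c • LinearMap.id) : isom (fun x y => B x y) ≤ M := by
  by_contra hcon
  have h2 := T.two
  obtain ⟨w, y, hw, hy, hwy, k1⟩ := T.ss_prod hl0 hl1 hl2 (by omega) h hA
  have iso : ∀ w u, Q w ≠ 0 → Q u = 0 → u ≠ 0 → polar Q w u = 0 → SS T f (dm Q w u) → False := by
    intro w u hw hu hu0 hwu h4
    exact hcon (T.fin3 (by omega) hf hu0 hu (T.cen_of (T.ss_iso hw hu hwu h4)))
  have Pw := T.ss_plane hl0 hl1 hl2 h3 hf hcon hw hy hwy k1
  -- an isotropic vector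
  have hw0 : w ≠ 0 := by rintro rfl; exact hw (by simp)
  obtain ⟨u, -, hu, hwu⟩ := exists_sing_polar T.nd (TO.nds_top' T.nd) (by rw [finrank_top]; omega) (x := w) trivial hw0
  set a := polar Q w u / (2 * Q w) with ha
  have h2w : 2 * Q w ≠ 0 := mul_ne_zero h2 hw
  set z := u - a • w with hz
  have hwz : polar Q w z = 0 := by
    rw [hz, polar_sub_right, polar_smul_right, polar_self', smul_eq_mul, ha, div_mul_cancel₀ _ h2w, sub_self]
  have hQz : Q z = - (a * a * Q w) := by
    rw [hz, Q_sub, Q_smul, hu, polar_smul_right, smul_eq_mul, polar_comm Q u w]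
    have : polar Q w u = a * (2 * Q w) := by rw [ha, div_mul_cancel₀ _ h2w]
    rw [this]; ring
  have ha0 : a ≠ 0 := by
    rw [ha, hwu]
    exact one_div_ne_zero h2w
  have hQz0 : Q z ≠ 0 := by
    rw [hQz]; exact neg_ne_zero.mpr (mul_ne_zero (mul_ne_zero ha0 ha0) hw)
  have hz0 : z ≠ 0 := by intro h0; rw [h0] at hQz0; exact hQz0 (by simp)
  have k2 := Pw z hwz
  rw [dm_comm] at k2
  have Pz := T.ss_plane hl0 hl1 hl2 h3 hf hcon hQz0 hw0 (by rw [polar_comm]; exact hwz) k2
  -- a vector orthogonal to `w` and `z`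
  have hp := finrank_cut T.nd (⊤ : Submodule F W) w z
  rw [finrank_top] at hp
  obtain ⟨z', hz', hz'0⟩ := Submodule.exists_mem_ne_zero_of_ne_bot (show (⊤ ⊓ perp Q (Submodule.span F {w, z}) : Submodule F W) ≠ ⊥ by
    intro h0; rw [h0, finrank_bot] at hp; omega)
  obtain ⟨-, hwz', hzz'⟩ := mem_cut.1 hz'
  have k3 := Pw z' hwz'
  by_cases hQz' : Q z' = 0
  · exact iso w z' hw hQz' hz'0 hwz' k3
  · rw [dm_comm] at k3
    have k4 := Pz z' hzz'
    rw [dm_comm] at k4
    have k5 := T.ss_add_right (T.ss_smul_right k3 a) k4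
    have e : a • w + z = u := by rw [hz]; abel
    rw [e] at k5
    refine iso z' u hQz' hu ?_ ?_ k5
    · rintro rfl; rw [polar_zero_right] at hwu; exact zero_ne_one hwu
    · rw [← e, polar_add_right, polar_smul_right, polar_comm, hwz', polar_comm, hzz']; simp

end TT

end Cfsg.Agent.Lib.TenSpT
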