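import Mathlib
import Cfsg.Agent.Lib.TenSpT2

/-!
# Overgroups of `Sp(E) ∘ O₃(q)` : special pairs (helper21)
-/

set_option autoImplicit false
set_option linter.unusedSectionVars false
set_option linter.unusedVariables false
set_option linter.unusedSimpArgs false

namespace Cfsg.Agent.Lib.TenSpT

open QuadraticMap Module Cfsg.Agent.Lib.Quad Cfsg.Agent.Lib.OrthNd Cfsg.Agent.Lib.OrthDecH94
open Cfsg.Agent.Lib.SpTrans Cfsg.Agent.Lib.TenSpO

variable {F E W V : Type*} [Field F] [AddCommGroup E] [Module F E] [FiniteDimensional F E]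
  [AddCommGroup W] [Module F W] [FiniteDimensional F W] [AddCommGroup V] [Module F V] [FiniteDimensional F V]

variable {α : E →ₗ[F] E →ₗ[F] F} {Q : QuadraticForm F W} {B : V →ₗ[F] V →ₗ[F] F} {τ : E →ₗ[F] W →ₗ[F] V}
  {M : Subgroup (V ≃ₗ[F] V)}

/-- commutators -/
theorem L3 {ν μ : Module.End F V} (h : Qd B M ν) (h' : Qd B M μ) (h1 : ν * (μ * ν) = 0) (h2 : μ * (ν * μ) = 0) (c : F) :
    Me M (1 + c • (ν * μ - μ * ν)) := by
  obtain ⟨a, ha⟩ : ∃ a, a = c • ν := ⟨_, rfl⟩
  have haa : a * a = 0 := by rw [ha]; exact (h.smul c).sq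
  have hmm : μ * μ = 0 := h'.sq
  have hama : a * (μ * a) = 0 := by rw [ha, mul_smul_comm, mul_smul_comm, smul_mul_assoc, h1, smul_zero, smul_zero]
  have hmam : μ * (a * μ) = 0 := by rw [ha, smul_mul_assoc, mul_smul_comm, h2, smul_zero]
  have hama' : ∀ z : Module.End F V, a * (μ * (a * z)) = 0 := fun z => by
    have : a * (μ * (a * z)) = a * (μ * a) * z := by simp only [mul_assoc]
    rw [this, hama, zero_mul]
  have hmam' : ∀ z : Module.End F V, μ * (a * (μ * z)) = 0 := fun z => by
    have : μ * (a * (μ * z)) = μ * (a * μ) * z := by simp only [mul_assoc]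
    rw [this, hmam, zero_mul]
  have haa' : ∀ z : Module.End F V, a * (a * z) = 0 := fun z => by rw [← mul_assoc, haa, zero_mul]
  have hmm' : ∀ z : Module.End F V, μ * (μ * z) = 0 := fun z => by rw [← mul_assoc, hmm, zero_mul]
  have m1 : Me M (1 + a) := by rw [ha]; exact h.me c
  have m2 : Me M (1 - a) := by
    have := h.me (-c); rwa [neg_smul, ← sub_eq_add_neg, ← ha] at this
  have m3 : Me M (1 + μ) := by have := h'.me 1; rwa [one_smul] at this
  have m4 : Me M (1 - μ) := by
    have := h'.me (-1); rwa [neg_smul, one_smul, ← sub_eq_add_neg] at this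
  have m5 := ((m1.mul m3).mul m2).mul m4
  have e : (1 + a) * (1 + μ) * (1 - a) * (1 - μ) = 1 + c • (ν * μ - μ * ν) := by
    have e1 : c • (ν * μ - μ * ν) = a * μ - μ * a := by rw [ha, smul_sub, smul_mul_assoc, mul_smul_comm]
    rw [e1]
    simp only [mul_add, add_mul, mul_sub, sub_mul, one_mul, mul_one, mul_assoc, haa, hmm, hama, hmam, haa', hmm', hama', hmam',
      mul_zero, zero_mul, add_zero, sub_zero, zero_sub, zero_add, neg_zero]
    abel
  rwa [e] at m5

/-- short root elements -/
def RR (B : V →ₗ[F] V →ₗ[F] F) (M : Subgroup (V ≃ₗ[F] V)) (u r : V) : Prop :=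
  B u r = 0 ∧ ∀ c : F, ∃ t ∈ M, ∀ v, t v = v + c • (B v r • u + B v u • r)

namespace TT

variable (T : TT α Q B τ M)

include T

theorem rr_map {u r : V} (h : RR B M u r) {n : V ≃ₗ[F] V} (hn : n ∈ M) (hu : n u = u) : RR B M u (n r) := by
  refine ⟨?_, fun c => ?_⟩
  · have := T.le hn u r
    simp only [hu] at this
    rw [this]; exact h.1
  · obtain ⟨t, ht, h1⟩ := h.2 c
    refine ⟨n * t * n⁻¹, mul_mem (mul_mem hn ht) (inv_mem hn), fun v => ?_⟩
    have e1 : n (n⁻¹ v) = v := n.apply_symm_apply v
    have e2 : ∀ z, B (n⁻¹ v) z = B v (n z) := fun z => by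
      have := T.le hn (n⁻¹ v) z
      simp only [e1] at this
      exact this.symm
    rw [LinearEquiv.mul_apply, LinearEquiv.mul_apply, h1, map_add, map_smul, map_add, map_smul, map_smul, e1, e2, e2, hu]

theorem rr_smul {u r : V} (h : RR B M u r) (d : F) : RR B M u (d • r) := by
  refine ⟨by rw [map_smul, h.1, smul_zero], fun c => ?_⟩
  obtain ⟨t, ht, h1⟩ := h.2 (c * d)
  refine ⟨t, ht, fun v => ?_⟩
  rw [h1, map_smul, smul_eq_mul]
  module

theorem rr_orth {u r r' : V} (hcen : u ∉ centres T.hB M) (h : RR B M u r) (h' : RR B M u r') : B r r' = 0 := by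
  by_contra hne
  apply hcen
  intro a
  obtain ⟨t, ht, h1⟩ := h.2 (a / (2 * B r r'))
  obtain ⟨s, hs, h2⟩ := h'.2 1
  have h3 : s * t = tv B T.hB u a * (t * s) → tv B T.hB u a ∈ M := by
    intro h4
    have : tv B T.hB u a = s * t * (t * s)⁻¹ := by rw [h4, mul_inv_cancel_right]
    rw [this]
    exact mul_mem (mul_mem hs ht) (inv_mem (mul_mem ht hs))
  apply h3
  have e1 : B u u = 0 := T.hB u
  have e2 : B r r = 0 := T.hB r
  have e3 : B r' r' = 0 := T.hB r'
  have e4 : B r u = 0 := by rw [T.Bsw, h.1, neg_zero]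
  have e5 : B r' u = 0 := by rw [T.Bsw, h'.1, neg_zero]
  have e6 : B r' r = - B r r' := T.Bsw _ _
  have h2F := T.two
  ext1 v
  rw [LinearEquiv.mul_apply, LinearEquiv.mul_apply, LinearEquiv.mul_apply, tv_apply]
  simp only [h1, h2, map_add, map_smul, LinearMap.add_apply, LinearMap.smul_apply, smul_eq_mul, e1, e2, e3, e4, e5, e6, h.1, h'.1]
  obtain ⟨b, hb⟩ : ∃ b, b = B r r' := ⟨_, rfl⟩
  rw [← hb] at hne ⊢
  match_scalars
  · rfl
  · field_simp
    ring
  · field_simp
    ring
  · field_simp
    ring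

theorem rr_add {u r r' : V} (hcen : u ∉ centres T.hB M) (h : RR B M u r) (h' : RR B M u r') : RR B M u (r + r') := by
  have ho := T.rr_orth hcen h h'
  refine ⟨by rw [map_add, h.1, h'.1, add_zero], fun c => ?_⟩
  obtain ⟨t, ht, h1⟩ := h.2 c
  obtain ⟨s, hs, h2⟩ := h'.2 c
  refine ⟨t * s, mul_mem ht hs, fun v => ?_⟩
  have e1 : B u u = 0 := T.hB u
  have e5 : B r' u = 0 := by rw [T.Bsw, h'.1, neg_zero]
  have e6 : B r' r = 0 := by rw [T.Bsw, ho, neg_zero]
  rw [LinearEquiv.mul_apply]
  simp only [h1, h2, map_add, map_smul, LinearMap.add_apply, LinearMap.smul_apply, smul_eq_mul, e1, e5, e6, h.1, h'.1]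
  module

theorem rr_sub {u r r' : V} (hcen : u ∉ centres T.hB M) (h : RR B M u r) (h' : RR B M u r') : RR B M u (r - r') := by
  have := T.rr_add hcen h (T.rr_smul h' (-1))
  rwa [neg_smul, one_smul, ← sub_eq_add_neg] at this

theorem rr_of {u r : V} {c : F} (hc : c ≠ 0) (h : RR B M u (c • r)) : RR B M u r := by
  have := T.rr_smul h c⁻¹
  rwa [smul_smul, inv_mul_cancel₀ hc, one_smul] at this

theorem rr_self {u : V} (h : RR B M u u) : u ∈ centres T.hB M := by
  intro a
  obtain ⟨t, ht, h1⟩ := h.2 (a / 2)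
  have : tv B T.hB u a = t := by
    ext1 v
    rw [tv_apply, h1]
    have := T.two
    match_scalars
    · rfl
    · field_simp; ring
  rw [this]; exact ht

/-- **Special elements.** -/
theorem rr_fin [Finite F] (h3 : 3 ≤ finrank F W) {f : E} {x : W} (hf : f ≠ 0) (hx0 : x ≠ 0) (hx : Q x = 0) {r : V} (hr0 : r ≠ 0)
    (h : RR B M (τ f x) r) : isom (fun x y => B x y) ≤ M := by
  by_contra hcon
  have hcen : τ f x ∉ centres T.hB M := fun h => hcon (T.fin3 h3 hf hx0 hx h)
  have h2F := T.two
  -- Siegel elements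
  have hn : ∀ s, polar Q x s = 0 → RR B M (τ f x) (τ (T.dd x r) s - τ (T.dd s r) x - Q s • τ (T.dd x r) x) := by
    intro s hs
    obtain ⟨n, hn, h1⟩ := T.tW _ (ofMap_mem T.nd (siegMap Q x s) (siegMap_Q hx hs))
    have hnv : ∀ v, n v = v + τ (T.dd x v) s - τ (T.dd s v) x - Q s • τ (T.dd x v) x := by
      intro v
      have : (n : V →ₗ[F] V) = LinearMap.id + (τ.flip s) ∘ₗ (T.dd x) - (τ.flip x) ∘ₗ (T.dd s) - Q s • ((τ.flip x) ∘ₗ (T.dd x)) := by
        apply T.extτ
        intro e w
        change n (τ e w) = τ e w + τ (T.dd x (τ e w)) s - τ (T.dd s (τ e w)) x - Q s • τ (T.dd x (τ e w)) x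
        rw [h1, ofMap_apply, siegMap_apply, T.dd_τ, T.dd_τ, polar_comm Q w x, polar_comm Q w s]
        simp only [map_add, map_sub, map_smul, LinearMap.smul_apply]
        module
      exact LinearMap.congr_fun this v
    have hu : n (τ f x) = τ f x := by
      rw [h1, ofMap_apply, siegMap_apply]
      have e1 : polar Q x x = 0 := by rw [polar_self', hx, mul_zero]
      have e2 : polar Q s x = 0 := by rw [polar_comm]; exact hs
      rw [e1, e2]; simp
    have h2 := T.rr_sub hcen (T.rr_map h hn hu) h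
    rw [hnv] at h2
    have e : r + τ (T.dd x r) s - τ (T.dd s r) x - Q s • τ (T.dd x r) x - r =
      τ (T.dd x r) s - τ (T.dd s r) x - Q s • τ (T.dd x r) x := by abel
    rwa [e] at h2
  -- a pure element
  obtain ⟨z, hz0, hz⟩ : ∃ z, z ≠ 0 ∧ RR B M (τ f x) (τ z x) := by
    by_cases hrx : T.dd x r = 0
    · by_cases hall : ∀ s, polar Q x s = 0 → T.dd s r = 0
      · obtain ⟨x', hx'⟩ := T.nd.exists_polar_one' hx0
        have hr : r = τ (T.dd x' r) x := by
          apply T.eqV
          intro e w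
          rw [T.Bτ, ← T.dd_spec w r e]
          have h1 := hall (w - polar Q x w • x') (by rw [polar_sub_right, polar_smul_right, hx', smul_eq_mul, mul_one, sub_self])
          have h2 : T.dd w r = polar Q x w • T.dd x' r := by
            apply T.eqE
            intro e'
            have h3 := T.dd_spec (w - polar Q x w • x') r e'
            rw [h1, map_zero, LinearMap.zero_apply, map_sub, map_sub, map_smul, map_smul, ← T.dd_spec, ← T.dd_spec] at h3
            rw [map_smul, LinearMap.smul_apply]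
            linear_combination -h3
          rw [h2, map_smul, LinearMap.smul_apply, smul_eq_mul, mul_comm]
        refine ⟨T.dd x' r, ?_, by rw [← hr]; exact h⟩
        intro h0
        rw [h0, map_zero, LinearMap.zero_apply] at hr
        exact hr0 hr
      · push Not at hall
        obtain ⟨s, hs, hs0⟩ := hall
        refine ⟨T.dd s r, hs0, ?_⟩
        have := hn s hs
        rw [hrx] at this
        simp only [map_zero, LinearMap.zero_apply, zero_sub, smul_zero, sub_zero] at this
        have := T.rr_smul this (-1)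
        rwa [neg_smul, one_smul, neg_neg] at this
    · obtain ⟨s, -, hs, hQs⟩ := exists_nonsing_perp' T.nd (TO.nds_top' T.nd) (by rw [finrank_top]; exact h3) (e := x) trivial hx0 hx
      refine ⟨T.dd x r, hrx, ?_⟩
      have h1 := hn s hs
      have h2 := hn (-s) (by rw [polar_neg_right, hs, neg_zero])
      have h4 := T.rr_add hcen h1 h2
      have e1 : T.dd (-s) r = - T.dd s r := by
        apply T.eqE
        intro e'
        rw [T.dd_spec, map_neg, map_neg, ← T.dd_spec, map_neg, LinearMap.neg_apply]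
      rw [e1, QuadraticMap.map_neg] at h4
      have e2 : τ (T.dd x r) s - τ (T.dd s r) x - Q s • τ (T.dd x r) x + (τ (T.dd x r) (-s) - τ (-T.dd s r) x - Q s • τ (T.dd x r) x) =
          (-(2 * Q s)) • τ (T.dd x r) x := by
        rw [map_neg (τ (T.dd x r)), map_neg τ, LinearMap.neg_apply]
        module
      rw [e2] at h4
      exact T.rr_of (neg_ne_zero.mpr (mul_ne_zero h2F hQs)) h4
  -- moving the pure element
  have hp : ∀ p, α f p = 0 → α z p ≠ 0 → RR B M (τ f x) (τ p x) := by
    intro p hfp hzp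
    obtain ⟨n, hn, h1⟩ := T.tE (tv α T.hα p 1) (tv_mem_isom T.hα p 1)
    have hu : n (τ f x) = τ f x := by
      rw [h1, tv_apply, hfp, mul_zero, zero_smul, add_zero]
    have h2 := T.rr_sub hcen (T.rr_map hz hn hu) hz
    rw [h1, tv_apply, one_mul, map_add, map_smul, LinearMap.add_apply, LinearMap.smul_apply, add_sub_cancel_left] at h2
    exact T.rr_of hzp h2
  have hself : RR B M (τ f x) (τ f x) := by
    by_cases hzf : α z f = 0
    · by_cases hmem : z ∈ Submodule.span F {f}
      · obtain ⟨c, rfl⟩ := Submodule.mem_span_singleton.1 hmem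
        have hc : c ≠ 0 := by rintro rfl; exact hz0 (zero_smul _ _)
        rw [map_smul, LinearMap.smul_apply] at hz
        exact T.rr_of hc hz
      · obtain ⟨p, hp1, hp2⟩ : ∃ p, α f p = 0 ∧ α z p ≠ 0 := by
          by_contra hcc
          push Not at hcc
          apply hmem
          -- a functional separating
          obtain ⟨g, hg, hg2⟩ := Submodule.exists_le_ker_of_notMem hmem
          have hgf : g f = 0 := hg2 (Submodule.mem_span_singleton_self f)
          obtain ⟨p, hp⟩ : ∃ p, ∀ e, α p e = g e := by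
            refine ⟨(LinearMap.BilinForm.toDual α T.αnd).symm g, fun e => ?_⟩
            have h5 : LinearMap.BilinForm.toDual α T.αnd ((LinearMap.BilinForm.toDual α T.αnd).symm g) = g :=
              LinearEquiv.apply_symm_apply _ _
            have h6 := LinearMap.congr_fun h5 e
            rwa [LinearMap.BilinForm.toDual_def] at h6
          exfalso
          apply hg
          have h5 := hcc p (by rw [T.αsw, hp, hgf, neg_zero])
          rw [← hp, T.αsw, h5, neg_zero]
        have k1 := hp p hp1 hp2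
        have k2 := hp (p + f) (by rw [map_add, hp1, T.hα f, add_zero]) (by rw [map_add, hzf, add_zero]; exact hp2)
        have k3 := T.rr_sub hcen k2 k1
        rwa [map_add, LinearMap.add_apply, add_sub_cancel_left] at k3
    · exact hp f (T.hα f) hzf
  exact hcen (T.rr_self hself)

end TT

end Cfsg.Agent.Lib.TenSpT
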