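import Mathlib
import Cfsg.Agent.Lib.TenSpT3

/-!
# Overgroups of `Sp(E) ∘ O₃(q)` : values (helper21)
-/

set_option autoImplicit false
set_option linter.unusedSectionVars false
set_option linter.unusedVariables false
set_option linter.unusedSimpArgs false

namespace Cfsg.Agent.Lib.TenSpT

open QuadraticMap Module Cfsg.Agent.Lib.Quad Cfsg.Agent.Lib.OrthNd Cfsg.Agent.Lib.OrthDecH94
open Cfsg.Agent.Lib.SpTrans Cfsg.Agent.Lib.TenSpO

variable {F E W V : Type*} [Field F] [AddCommGroup E] [Module F E] [FiniteDimensional F E]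
  [AddCommGroup W] [Module F W] [FiniteDimensional F W] [AddCommGroup V] [Module F V] [FiniteDimensional F V]

variable {α : E →ₗ[F] E →ₗ[F] F} {Q : QuadraticForm F W} {B : V →ₗ[F] V →ₗ[F] F} {τ : E →ₗ[F] W →ₗ[F] V}
  {M : Subgroup (V ≃ₗ[F] V)}

/-- values -/
def Val (T : TT α Q B τ M) (h : V ≃ₗ[F] V) (e f : E) (X : W →ₗ[F] W) : Prop := ∀ w, T.cc f (h (τ e w)) = X w

/-- adjoint maps -/
def Adj (Q : QuadraticForm F W) (X X' : W →ₗ[F] W) : Prop := ∀ x y, polar Q (X x) y = polar Q x (X' y)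

/-- the conjugate root element -/
noncomputable def mu (T : TT α Q B τ M) (h : V ≃ₗ[F] V) (e : E) : Module.End F V :=
  (h : V →ₗ[F] V) * chi T e LinearMap.id * ((h⁻¹ : V ≃ₗ[F] V) : V →ₗ[F] V)

namespace TT

variable (T : TT α Q B τ M)

theorem mu_apply (h : V ≃ₗ[F] V) (e : E) (v : V) : mu T h e v = h (τ e (T.cc e (h⁻¹ v))) := rfl

include T

theorem exists_adj (X : W →ₗ[F] W) : ∃ X', Adj Q X X' := by
  refine ⟨(LinearMap.BilinForm.toDual (polarBilin Q) T.nd).symm.toLinearMap ∘ₗ ((polarBilin Q).flip ∘ₗ LinearMap.id).compl₂ X,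
    fun x y => ?_⟩
  have h : LinearMap.BilinForm.toDual (polarBilin Q) T.nd
      (((LinearMap.BilinForm.toDual (polarBilin Q) T.nd).symm.toLinearMap ∘ₗ ((polarBilin Q).flip ∘ₗ LinearMap.id).compl₂ X) y) =
      (((polarBilin Q).flip ∘ₗ LinearMap.id).compl₂ X) y := LinearEquiv.apply_symm_apply _ _
  have h2 := LinearMap.congr_fun h x
  rw [LinearMap.BilinForm.toDual_def] at h2
  rw [polar_comm Q x]
  exact h2.symm

omit T in
theorem adj_symm {X X' : W →ₗ[F] W} (h : Adj Q X X') : Adj Q X' X := fun x y => by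
  rw [polar_comm, ← h, polar_comm]

theorem hinv (h : V ≃ₗ[F] V) (v : V) : h (h⁻¹ v) = v := h.apply_symm_apply v

theorem hinv' (h : V ≃ₗ[F] V) (v : V) : h⁻¹ (h v) = v := h.symm_apply_apply v

theorem Binv {h : V ≃ₗ[F] V} (hh : h ∈ M) (v v' : V) : B (h⁻¹ v) v' = B v (h v') := by
  have := T.le hh (h⁻¹ v) v'
  simp only [T.hinv] at this
  exact this.symm

theorem val_inv {h : V ≃ₗ[F] V} (hh : h ∈ M) {e f : E} {X X' : W →ₗ[F] W} (hX : Val T h e f X) (hA : Adj Q X X') :
    Val T h⁻¹ f e (-X') := by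
  intro w
  apply T.eqW
  intro w'
  rw [T.cc_spec, T.Binv hh, T.Bsw, ← T.cc_spec, hX, hA, LinearMap.neg_apply, polar_neg_left, polar_comm]

theorem qd_mu {h : V ≃ₗ[F] V} (hh : h ∈ M) (e : E) : Qd B M (mu T h e) := by
  have h1 : (h : Module.End F V) * ((h⁻¹ : V ≃ₗ[F] V) : Module.End F V) = 1 := by
    apply LinearMap.ext; intro v; exact T.hinv h v
  have h2 : ((h⁻¹ : V ≃ₗ[F] V) : Module.End F V) * (h : Module.End F V) = 1 := by
    apply LinearMap.ext; intro v; exact T.hinv' h v
  exact (T.qd_nu e).conj T.le (f := (h : Module.End F V)) ⟨h, hh, fun x => rfl⟩ h1 h2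

/-- the square of a value -/
theorem val_sq {h : V ≃ₗ[F] V} (hh : h ∈ M) {e f : E} {X X' : W →ₗ[F] W} (hX : Val T h e f X) (hA : Adj Q X X') :
    ∃ h' ∈ M, Val T h' f f (X ∘ₗ X') := by
  obtain ⟨t, ht, h1⟩ := (T.qd_mu hh e).me (-1)
  refine ⟨t, ht, fun w => ?_⟩
  have h2 := T.val_inv hh hX hA
  rw [h1]
  change T.cc f (τ f w + (-1 : F) • mu T h e (τ f w)) = X (X' w)
  rw [map_add, T.cc_τ, T.hα f, zero_smul, zero_add, map_smul, mu_apply, h2, hX, LinearMap.neg_apply, map_neg]
  simp

/-- the composition of the two root elements -/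
theorem nu_mu {h : V ≃ₗ[F] V} {e f : E} {X : W →ₗ[F] W} (hX : Val T h e f X) (v : V) :
    chi T f LinearMap.id (mu T h e v) = τ f (X (T.cc e (h⁻¹ v))) := by
  rw [chi_apply, mu_apply, hX]; rfl

theorem mu_nu {h : V ≃ₗ[F] V} (hh : h ∈ M) {e f : E} {X X' : W →ₗ[F] W} (hX : Val T h e f X) (hA : Adj Q X X') (v : V) :
    mu T h e (chi T f LinearMap.id v) = h (τ e (-(X' (T.cc f v)))) := by
  have h2 := T.val_inv hh hX hA
  rw [chi_apply, mu_apply, h2]; rfl

/-- **Special values.** -/
theorem v1 [Finite F] (h3 : finrank F W = 3) {h : V ≃ₗ[F] V} (hh : h ∈ M) {e f : E} {X X' : W →ₗ[F] W}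
    (hf : f ≠ 0) (he : e ≠ 0) (hX : Val T h e f X) (hA : Adj Q X X') (hX0 : X ≠ 0) (h1 : X ∘ₗ X' = 0) (h2 : X' ∘ₗ X = 0) :
    isom (fun x y => B x y) ≤ M := by
  obtain ⟨a₀, ha₀⟩ : ∃ a, X a ≠ 0 := by
    by_contra hcon
    push Not at hcon
    exact hX0 (LinearMap.ext hcon)
  obtain ⟨x, hx⟩ : ∃ x, x = X a₀ := ⟨_, rfl⟩
  rw [← hx] at ha₀
  have hti : ∀ a b, polar Q (X a) (X b) = 0 := by
    intro a b
    rw [hA, ← LinearMap.comp_apply, h2, LinearMap.zero_apply, polar_zero_right]
  have hti' : ∀ a b, polar Q (X' a) (X' b) = 0 := by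
    intro a b
    have := adj_symm hA a (X' b)
    rw [this, ← LinearMap.comp_apply, h1, LinearMap.zero_apply, polar_zero_right]
  have hQx : Q x = 0 := by
    have := hti a₀ a₀
    rw [← hx, polar_self'] at this
    exact (mul_eq_zero.mp this).resolve_left T.two
  -- rank one
  have hr1 : ∀ b, X b ∈ Submodule.span F {x} := by
    intro b
    by_contra hb
    have hli : LinearIndependent F ![x, X b] := by
      rw [LinearIndependent.pair_iff]
      intro s t hst
      have ht : t = 0 := by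
        by_contra ht
        apply hb
        rw [Submodule.mem_span_singleton]
        refine ⟨-(t⁻¹ * s), ?_⟩
        have h8 : t • X b = -(s • x) := eq_neg_of_add_eq_zero_right hst
        have h9 : X b = t⁻¹ • (t • X b) := by rw [smul_smul, inv_mul_cancel₀ ht, one_smul]
        rw [h9, h8]; module
      rw [ht, zero_smul, add_zero, smul_eq_zero, or_iff_left ha₀] at hst
      exact ⟨hst, ht⟩
    have h8 := finrank_span_eq_card hli
    rw [Fintype.card_fin] at h8
    have h9 : Submodule.span F (Set.range ![x, X b]) ≤ perp Q (Submodule.span F (Set.range ![x, X b])) := by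
      rw [Submodule.span_le]
      rintro y ⟨i, rfl⟩
      rw [SetLike.mem_coe, mem_perp_span]
      rintro z ⟨j, rfl⟩
      fin_cases i <;> fin_cases j
      · change polar Q x x = 0; rw [hx]; exact hti _ _
      · change polar Q (X b) x = 0; rw [hx]; exact hti _ _
      · change polar Q x (X b) = 0; rw [hx]; exact hti _ _
      · exact hti _ _
    have h10 := Submodule.finrank_mono h9
    have h11 := T.nd.finrank_add_finrank_perp (Submodule.span F (Set.range ![x, X b]))
    omega
  -- the functional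
  obtain ⟨x', hx'⟩ := T.nd.exists_polar_one' ha₀
  obtain ⟨y, hy⟩ : ∃ y, y = X' x' := ⟨_, rfl⟩
  have hXb : ∀ b, X b = polar Q b y • x := by
    intro b
    obtain ⟨c, hc⟩ := Submodule.mem_span_singleton.1 (hr1 b)
    have h4 : polar Q (X b) x' = c := by rw [← hc, polar_smul_left, hx', smul_eq_mul, mul_one]
    rw [hA, ← hy] at h4
    rw [h4, hc]
  have hX'b : ∀ b, X' b = polar Q x b • y := by
    intro b
    apply T.eqW
    intro w
    rw [polar_comm, ← hA, hXb, polar_smul_left, polar_smul_left, smul_eq_mul, smul_eq_mul, polar_comm Q w y]; ring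
  have hy0 : y ≠ 0 := by
    intro h0
    have := hXb a₀
    rw [h0, polar_zero_right, zero_smul, ← hx] at this
    exact ha₀ this
  have hQy : Q y = 0 := by
    have := hti' x' x'
    rw [← hy, polar_self'] at this
    exact (mul_eq_zero.mp this).resolve_left T.two
  -- the commutators
  have hq := L3 (T.qd_nu f) (T.qd_mu hh e) (by
      ext v
      change chi T f LinearMap.id (mu T h e (chi T f LinearMap.id v)) = 0
      rw [T.mu_nu hh hX hA, chi_apply, LinearMap.id_apply, hX, map_neg]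
      have := LinearMap.congr_fun h1 (T.cc f v)
      rw [LinearMap.comp_apply, LinearMap.zero_apply] at this
      rw [this]; simp)
    (by
      ext v
      change mu T h e (chi T f LinearMap.id (mu T h e v)) = 0
      rw [T.mu_nu hh hX hA, mu_apply, hX]
      have := LinearMap.congr_fun h2 (T.cc e (h⁻¹ v))
      rw [LinearMap.comp_apply, LinearMap.zero_apply] at this
      rw [this]; simp)
  refine T.rr_fin (by omega) hf ha₀ hQx (r := h (τ e y)) ?_ ⟨?_, fun c => ?_⟩
  · intro h0
    have h4 : τ e y = 0 := by simpa using h0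
    have h5 : ∀ e' w', B (τ e y) (τ e' w') = 0 := fun e' w' => by rw [h4]; simp
    obtain ⟨y', hy'⟩ := T.nd.exists_polar_one' hy0
    apply he
    apply T.hαn
    intro e'
    have := h5 e' y'
    rwa [T.Bτ, hy', mul_one] at this
  · rw [T.Bτl, hX, hXb]
    rw [polar_self', hQy]; simp
  · obtain ⟨t, ht, h4⟩ := hq c
    refine ⟨t, ht, fun v => ?_⟩
    rw [h4]
    change v + c • (chi T f LinearMap.id (mu T h e v) - mu T h e (chi T f LinearMap.id v)) = _
    rw [T.nu_mu hX, T.mu_nu hh hX hA, hXb, hX'b, T.cc_spec, T.cc_spec', T.Binv hh, map_smul, map_neg, map_smul, map_neg, map_smul]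
    module

end TT

end Cfsg.Agent.Lib.TenSpT
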