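import Mathlib
import Cfsg.Agent.Lib.TenSpT4

/-!
# Overgroups of `Sp(E) ∘ O₃(q)` : singular values (helper21)
-/

set_option autoImplicit false
set_option linter.unusedSectionVars false
set_option linter.unusedVariables false
set_option linter.unusedSimpArgs false

namespace Cfsg.Agent.Lib.TenSpT

open QuadraticMap Module Cfsg.Agent.Lib.Quad Cfsg.Agent.Lib.OrthNd Cfsg.Agent.Lib.OrthDecH94
open Cfsg.Agent.Lib.SpTrans Cfsg.Agent.Lib.TenSpO

variable {F E W V : Type*} [Field F] [AddCommGroup E] [Module F E] [FiniteDimensional F E]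
  [AddCommGroup W] [Module F W] [FiniteDimensional F W] [AddCommGroup V] [Module F V] [FiniteDimensional F V]

variable {α : E →ₗ[F] E →ₗ[F] F} {Q : QuadraticForm F W} {B : V →ₗ[F] V →ₗ[F] F} {τ : E →ₗ[F] W →ₗ[F] V}
  {M : Subgroup (V ≃ₗ[F] V)}

/-- the characteristic polynomial of a singular map of a three-dimensional space -/
theorem exists_cubic (h3 : finrank F W = 3) {X : W →ₗ[F] W} {w₀ : W} (hw₀ : w₀ ≠ 0) (hX : X w₀ = 0) :
    ∃ t d : F, ∀ w, X (X (X w)) = t • X (X w) - d • X w := by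
  have hdet : LinearMap.det X = 0 := by
    apply LinearMap.det_eq_zero_iff_ker_ne_bot.2
    intro h0
    apply hw₀
    have : w₀ ∈ LinearMap.ker X := hX
    rw [h0, Submodule.mem_bot] at this
    exact this
  have h0 := LinearMap.det_eq_sign_charpoly_coeff X
  rw [hdet, h3] at h0
  have hc0 : X.charpoly.coeff 0 = 0 := by
    have : (-1 : F) ^ 3 ≠ 0 := by norm_num
    exact (mul_eq_zero.mp h0.symm).resolve_left this
  have hdeg : X.charpoly.natDegree = 3 := by rw [LinearMap.charpoly_natDegree, h3]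
  have hc3 : X.charpoly.coeff 3 = 1 := by
    have := X.charpoly_monic
    rw [Polynomial.Monic, Polynomial.leadingCoeff, hdeg] at this
    exact this
  have hCH := LinearMap.aeval_self_charpoly X
  rw [Polynomial.aeval_eq_sum_range, hdeg] at hCH
  simp only [Finset.sum_range_succ, Finset.sum_range_zero, hc0, hc3, zero_smul, zero_add, one_smul, pow_one] at hCH
  refine ⟨-(X.charpoly.coeff 2), X.charpoly.coeff 1, fun w => ?_⟩
  have := LinearMap.congr_fun hCH w
  simp only [LinearMap.add_apply, LinearMap.smul_apply, LinearMap.zero_apply] at this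
  have e2 : (X ^ 2) w = X (X w) := by rw [pow_two]; rfl
  have e3 : (X ^ 3) w = X (X (X w)) := by rw [pow_succ, pow_two]; rfl
  rw [e2, e3] at this
  rw [← sub_eq_zero, ← this]
  module

namespace TT

variable (T : TT α Q B τ M)

include T

theorem step_mu {h : V ≃ₗ[F] V} (hh : h ∈ M) {f : E} {X : W →ₗ[F] W} (hX : Val T h f f X) (hA : Adj Q X X) (d : F) :
    ∃ t ∈ M, ∀ a b, t (τ f a + h (τ f b)) = τ f a + h (τ f (b - d • X a)) := by
  obtain ⟨t, ht, h1⟩ := (T.qd_mu hh f).me d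
  refine ⟨t, ht, fun a b => ?_⟩
  have h2 := T.val_inv hh hX hA
  rw [h1]
  change τ f a + h (τ f b) + d • mu T h f (τ f a + h (τ f b)) = _
  rw [mu_apply, map_add (h⁻¹ : V ≃ₗ[F] V), T.hinv', map_add (T.cc f), h2, T.cc_τ, T.hα f, zero_smul, add_zero]
  simp only [LinearMap.neg_apply, map_neg, map_sub, map_smul, smul_neg]
  abel

theorem step_nu {h : V ≃ₗ[F] V} {f : E} {X : W →ₗ[F] W} (hX : Val T h f f X) (c : F) :
    ∃ t ∈ M, ∀ a b, t (τ f a + h (τ f b)) = τ f (a + c • X b) + h (τ f b) := by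
  obtain ⟨t, ht, h1⟩ := (T.qd_nu f).me c
  refine ⟨t, ht, fun a b => ?_⟩
  rw [h1]
  change τ f a + h (τ f b) + c • τ f (T.cc f (τ f a + h (τ f b))) = _
  rw [map_add (T.cc f), T.cc_τ, T.hα f, zero_smul, zero_add, hX, map_add (τ f), map_smul (τ f)]
  abel

theorem lin_word [Finite F] {l : F} (hl0 : l ≠ 0) (hl1 : l ≠ 1) (hl2 : l ≠ -1) (h3 : finrank F W = 3)
    (hcon : ¬ isom (fun x y => B x y) ≤ M) {h : V ≃ₗ[F] V} (hh : h ∈ M) {f : E} (hf : f ≠ 0) {X : W →ₗ[F] W}
    (hX : Val T h f f X) (hA : Adj Q X X) (hX0 : X ≠ 0) {w₀ : W} (hw₀ : w₀ ≠ 0) (hXw : X w₀ = 0) {lam : F} (hlam : lam ≠ 0)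
    (hXX : ∀ w, X (X w) = lam • X w) : False := by
  obtain ⟨t₂, ht₂, e₂⟩ := T.step_mu hh hX hA l
  obtain ⟨s, hs, e⟩ := T.step_nu hX ((1 + l) / (l * lam * lam))
  obtain ⟨t₁, ht₁, e₁⟩ := T.step_mu hh hX hA 1
  obtain ⟨R, hR⟩ : ∃ R : W →ₗ[F] W, R = LinearMap.id - ((1 + l) / lam) • X := ⟨_, rfl⟩
  have hRA : ∀ x y, polar Q (R x) y = polar Q x (R y) := by
    intro x y
    rw [hR]
    simp only [LinearMap.sub_apply, LinearMap.smul_apply, LinearMap.id_apply, polar_sub_left, polar_sub_right, polar_smul_left,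
      polar_smul_right, hA x y]
  have hg : ∀ w, (t₁ * s * t₂) (τ f w) = τ f (R w) := by
    intro w
    have h0 : τ f w = τ f w + h (τ f 0) := by rw [map_zero, map_zero, add_zero]
    rw [LinearEquiv.mul_apply, LinearEquiv.mul_apply, h0, e₂, e, e₁]
    have h4 : (0 : W) - l • X w - (1 : F) • X (w + ((1 + l) / (l * lam * lam)) • X (0 - l • X w)) = 0 := by
      simp only [map_add, map_sub, map_smul, hXX, map_zero]
      match_scalars
      field_simp
      ring
    rw [h4, map_zero, map_zero, add_zero, hR]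
    congr 1
    simp only [map_sub, map_smul, hXX, map_zero, LinearMap.sub_apply, LinearMap.smul_apply, LinearMap.id_apply]
    match_scalars
    · rfl
    · field_simp
  have k1 := T.ss_norm (mul_mem (mul_mem ht₁ hs) ht₂) hg hRA
  have k2 := T.ss_sub k1 (T.ss_one f)
  have k3 : R ∘ₗ R - LinearMap.id = (((l - 1) * (l + 1)) / lam) • X := by
    ext w
    rw [hR]
    simp only [LinearMap.sub_apply, LinearMap.smul_apply, LinearMap.id_apply, LinearMap.comp_apply, map_sub, map_smul, hXX]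
    match_scalars
    · ring
    · field_simp; ring
  rw [k3] at k2
  have k4 := T.ss_of (div_ne_zero (mul_ne_zero (sub_ne_zero.mpr hl1) (fun h => hl2 (eq_neg_of_add_eq_zero_left h))) hlam) k2
  apply hcon
  refine T.ss_fin hl0 hl1 hl2 h3 hf k4 ?_
  intro c hc
  apply hX0
  have h5 := LinearMap.congr_fun hc w₀
  rw [hXw, LinearMap.smul_apply, LinearMap.id_apply, eq_comm, smul_eq_zero, or_iff_left hw₀] at h5
  rw [hc, h5, zero_smul]

theorem quad_word [Finite F] {l : F} (hl0 : l ≠ 0) (hl1 : l ≠ 1) (hl2 : l ≠ -1) (h3 : finrank F W = 3)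
    (hcon : ¬ isom (fun x y => B x y) ≤ M) {h : V ≃ₗ[F] V} (hh : h ∈ M) {f : E} (hf : f ≠ 0) {X : W →ₗ[F] W}
    (hX : Val T h f f X) (hA : Adj Q X X) (hX0 : X ≠ 0) {w₀ : W} (hw₀ : w₀ ≠ 0) (hXw : X w₀ = 0) {t d : F} (hd : d ≠ 0)
    (hC : ∀ w, X (X (X w)) = t • X (X w) - d • X w) : False := by
  obtain ⟨b, hb⟩ : ∃ b, b = t * t - 2 * d := ⟨_, rfl⟩
  have hC5 : ∀ w, X (X (X (X (X w)))) = b • X (X (X w)) - (d * d) • X w := by
    intro w
    rw [hC (X (X w)), hC (X w), hb]
    have h1 : X (X w) = X (X w) := rfl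
    simp only [smul_sub, smul_smul]
    -- use `t X² = X³ + d X`
    have h2 : (t * d) • X (X w) = d • X (X (X w)) + (d * d) • X w := by rw [hC w]; module
    have h4 : (t * t) • X (X (X w)) - (t * d) • X (X w) - d • X (X (X w)) =
        (t * t - 2 * d) • X (X (X w)) - (d * d) • X w := by rw [h2]; module
    rw [← h4]
  have key : ∀ s, s ≠ 0 → s ≠ b / (d * d) → ∀ w, X w = ((b / (d * d) - s) * (b / (d * d) - s)) • X (X (X (X (X w)))) := by
    intro s hs0 hsb
    obtain ⟨d₂, hd₂⟩ : ∃ d₂, d₂ = b / s - d * d := ⟨_, rfl⟩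
    have hdd : d * d ≠ 0 := mul_ne_zero hd hd
    have hd₂0 : d₂ ≠ 0 := by
      intro h0
      apply hsb
      rw [h0] at hd₂
      field_simp at hd₂ ⊢
      linear_combination hd₂
    have hsd : s * (d * d + d₂) = b := by rw [hd₂]; field_simp; ring
    obtain ⟨t₃, ht₃, e₃⟩ := T.step_mu hh hX hA (-d₂)
    obtain ⟨s₂, hs₂, f₂⟩ := T.step_nu hX (-s / d₂)
    obtain ⟨t₂, ht₂, e₂⟩ := T.step_mu hh hX hA d₂
    obtain ⟨s₁, hs₁, f₁⟩ := T.step_nu hX (1 / (d * d * d₂ * s))
    obtain ⟨t₁, ht₁, e₁⟩ := T.step_mu hh hX hA (d * d)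
    obtain ⟨P, hP⟩ : ∃ P : W →ₗ[F] W, P = LinearMap.id - s • (X ∘ₗ X) + (1 / (d * d)) • (X ∘ₗ X ∘ₗ X ∘ₗ X) := ⟨_, rfl⟩
    have hPw : ∀ w, P w = w - s • X (X w) + (1 / (d * d)) • X (X (X (X w))) := fun w => by rw [hP]; rfl
    have hPA : ∀ x y, polar Q (P x) y = polar Q x (P y) := by
      intro x y
      rw [hPw, hPw]
      have a2 : ∀ x y, polar Q (X (X x)) y = polar Q x (X (X y)) := fun x y => by rw [hA, hA]
      have a4 : ∀ x y, polar Q (X (X (X (X x)))) y = polar Q x (X (X (X (X y)))) := fun x y => by rw [a2, a2]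
      simp only [polar_sub_left, polar_sub_right, polar_add_left, polar_add_right, polar_smul_left, polar_smul_right, a2 x y, a4 x y]
    have hg : ∀ w, (t₁ * s₁ * t₂ * s₂ * t₃) (τ f w) = τ f (P w) := by
      intro w
      have h0 : τ f w = τ f w + h (τ f 0) := by rw [map_zero, map_zero, add_zero]
      rw [LinearEquiv.mul_apply, LinearEquiv.mul_apply, LinearEquiv.mul_apply, LinearEquiv.mul_apply, h0, e₃]
      have b1 : (0 : W) - -d₂ • X w = d₂ • X w := by module
      rw [b1, f₂]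
      have b2 : w + (-s / d₂) • X (d₂ • X w) = w - s • X (X w) := by
        rw [map_smul]; match_scalars
        · rfl
        · field_simp
      rw [b2, e₂]
      have b3 : d₂ • X w - d₂ • X (w - s • X (X w)) = (d₂ * s) • X (X (X w)) := by
        rw [map_sub, map_smul]; module
      rw [b3, f₁]
      have b4 : w - s • X (X w) + (1 / (d * d * d₂ * s)) • X ((d₂ * s) • X (X (X w))) = P w := by
        rw [hPw, map_smul]
        match_scalars
        · rfl
        · rfl
        · field_simp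
      rw [b4, e₁]
      have b5 : (d₂ * s) • X (X (X w)) - (d * d) • X (P w) = 0 := by
        rw [hPw, map_add, map_sub, map_smul, map_smul, hC5, ← hsd]
        match_scalars
        · field_simp; ring
        · field_simp; ring
      rw [b5, map_zero, map_zero, add_zero]
    have k1 := T.ss_norm (mul_mem (mul_mem (mul_mem (mul_mem ht₁ hs₁) ht₂) hs₂) ht₃) hg hPA
    -- `P²` is a scalar
    obtain ⟨c, hc⟩ : ∃ c : F, P ∘ₗ P = c • LinearMap.id := by
      by_contra hcc
      push Not at hcc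
      exact hcon (T.ss_fin hl0 hl1 hl2 h3 hf k1 hcc)
    have hPw₀ : P w₀ = w₀ := by rw [hPw]; simp [hXw]
    have hc1 : c = 1 := by
      have h5 := LinearMap.congr_fun hc w₀
      rw [LinearMap.comp_apply, hPw₀, hPw₀, LinearMap.smul_apply, LinearMap.id_apply] at h5
      have h6 : (1 - c) • w₀ = 0 := by rw [sub_smul, one_smul, ← h5, sub_self]
      rcases smul_eq_zero.mp h6 with h7 | h7
      · exact (sub_eq_zero.mp h7).symm
      · exact absurd h7 hw₀
    have hPP : ∀ w, P (P w) = w := fun w => by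
      have h5 := LinearMap.congr_fun hc w
      rwa [hc1, one_smul] at h5
    have hXP : ∀ w, X (P w) = (b / (d * d) - s) • X (X (X w)) := by
      intro w
      rw [hPw, map_add, map_sub, map_smul, map_smul, hC5]
      match_scalars
      · field_simp; ring
      · field_simp; ring
    intro w
    calc X w = X (P (P w)) := by rw [hPP]
      _ = (b / (d * d) - s) • X (X (X (P w))) := hXP _
      _ = (b / (d * d) - s) • X (X ((b / (d * d) - s) • X (X (X w)))) := by rw [hXP]
      _ = _ := by rw [map_smul, map_smul, smul_smul]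
  -- two values
  have key' : ∀ u, u ≠ 0 → u ≠ b / (d * d) → ∀ w, X w = (u * u) • X (X (X (X (X w)))) := by
    intro u hu0 hub w
    have := key (b / (d * d) - u) (fun h0 => hub (sub_eq_zero.mp h0).symm) (fun h0 => hu0 (by linear_combination -h0)) w
    rwa [sub_sub_cancel] at this
  have two1 : ∀ w, X w = ((1 : F) * 1) • X (X (X (X (X w)))) := by
    by_cases h1 : (1 : F) = b / (d * d)
    · intro w
      have := key' (-1) (by simp) (fun h0 => T.two (by linear_combination h1 - h0)) w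
      rw [neg_mul_neg] at this
      exact this
    · exact key' 1 one_ne_zero h1
  have two2 : ∀ w, X w = (l * l) • X (X (X (X (X w)))) := by
    by_cases h1 : l = b / (d * d)
    · intro w
      have := key' (-l) (neg_ne_zero.mpr hl0) (fun h0 => by
        have : 2 * l = 0 := by linear_combination h1 - h0
        exact (mul_ne_zero T.two hl0) this) w
      rw [neg_mul_neg] at this
      exact this
    · exact key' l hl0 h1
  apply hX0
  ext w
  have h5 : ((l - 1) * (l + 1)) • X (X (X (X (X w)))) = 0 := by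
    have e1 := two1 w
    have e2 := two2 w
    have : ((l - 1) * (l + 1)) • X (X (X (X (X w)))) = (l * l) • X (X (X (X (X w)))) - ((1 : F) * 1) • X (X (X (X (X w)))) := by module
    rw [this, ← e1, ← e2, sub_self]
  have h6 : X (X (X (X (X w)))) = 0 := by
    rcases smul_eq_zero.mp h5 with h7 | h7
    · rcases mul_eq_zero.mp h7 with h8 | h8
      · exact absurd (sub_eq_zero.mp h8) hl1
      · exact absurd (eq_neg_of_add_eq_zero_left h8) hl2
    · exact h7
  rw [two1 w, h6, smul_zero]; rfl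

/-- **Self-adjoint singular values vanish.** -/
theorem v2 [Finite F] {l : F} (hl0 : l ≠ 0) (hl1 : l ≠ 1) (hl2 : l ≠ -1) (h3 : finrank F W = 3)
    (hcon : ¬ isom (fun x y => B x y) ≤ M) {h : V ≃ₗ[F] V} (hh : h ∈ M) {f : E} (hf : f ≠ 0) {X : W →ₗ[F] W}
    (hX : Val T h f f X) (hA : Adj Q X X) (hX0 : X ≠ 0) {w₀ : W} (hw₀ : w₀ ≠ 0) (hXw : X w₀ = 0) : False := by
  obtain ⟨t, d, hC⟩ := exists_cubic h3 hw₀ hXw
  by_cases hd : d = 0
  · subst hd
    simp only [zero_smul, sub_zero] at hC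
    by_cases hXX : X ∘ₗ X = 0
    · exact hcon (T.v1 h3 hh hf hf hX hA hX0 hXX hXX)
    obtain ⟨h', hh', hX'⟩ := T.val_sq hh hX hA
    have hA' : Adj Q (X ∘ₗ X) (X ∘ₗ X) := fun x y => by
      rw [LinearMap.comp_apply, hA, hA]; rfl
    have h4 : ∀ w, (X ∘ₗ X) ((X ∘ₗ X) w) = (t * t) • (X ∘ₗ X) w := by
      intro w
      change X (X (X (X w))) = (t * t) • X (X w)
      rw [hC, hC, smul_smul]
    by_cases ht : t = 0
    · refine hcon (T.v1 h3 hh' hf hf hX' hA' hXX ?_ ?_)
      · ext w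
        rw [LinearMap.comp_apply, h4, ht]; simp
      · ext w
        rw [LinearMap.comp_apply, h4, ht]; simp
    · exact T.lin_word hl0 hl1 hl2 h3 hcon hh' hf hX' hA' hXX hw₀ (by rw [LinearMap.comp_apply, hXw, map_zero]) (mul_ne_zero ht ht) h4
  · exact T.quad_word hl0 hl1 hl2 h3 hcon hh hf hX hA hX0 hw₀ hXw hd hC

/-- **Singular values vanish.** -/
theorem v3 [Finite F] {l : F} (hl0 : l ≠ 0) (hl1 : l ≠ 1) (hl2 : l ≠ -1) (h3 : finrank F W = 3)
    (hcon : ¬ isom (fun x y => B x y) ≤ M) {h : V ≃ₗ[F] V} (hh : h ∈ M) {e f : E} (he : e ≠ 0) (hf : f ≠ 0) {X : W →ₗ[F] W}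
    (hX : Val T h e f X) {w₀ : W} (hw₀ : w₀ ≠ 0) (hXw : X w₀ = 0) : X = 0 := by
  by_contra hX0
  obtain ⟨X', hA⟩ := T.exists_adj X
  -- the adjoint is singular
  obtain ⟨y, hy0, hy⟩ : ∃ y, y ≠ 0 ∧ X' y = 0 := by
    have hns : ¬ Function.Surjective X := by
      intro hs
      have hi := LinearMap.injective_iff_surjective.2 hs
      exact hw₀ (hi (by rw [hXw, map_zero]))
    have hr : LinearMap.range X ≠ ⊤ := fun h => hns (LinearMap.range_eq_top.1 h)
    have h4 := T.nd.finrank_add_finrank_perp (LinearMap.range X)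
    have h5 := Submodule.finrank_lt hr
    obtain ⟨y, hy, hy0⟩ := Submodule.exists_mem_ne_zero_of_ne_bot (show perp Q (LinearMap.range X) ≠ ⊥ by
      intro h0; rw [h0, finrank_bot] at h4; omega)
    refine ⟨y, hy0, ?_⟩
    apply T.nd.eq_zero
    intro a
    rw [polar_comm, ← hA]
    exact mem_perp.1 hy _ ⟨a, rfl⟩
  have hA1 : Adj Q (X ∘ₗ X') (X ∘ₗ X') := fun a b => by
    rw [LinearMap.comp_apply, hA, LinearMap.comp_apply, adj_symm hA]
  have hA2 : Adj Q (X' ∘ₗ X) (X' ∘ₗ X) := fun a b => by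
    rw [LinearMap.comp_apply, adj_symm hA, LinearMap.comp_apply, hA]
  by_cases h4 : X ∘ₗ X' = 0
  · by_cases h5 : X' ∘ₗ X = 0
    · exact hcon (T.v1 h3 hh hf he hX hA hX0 h4 h5)
    · have hv := T.val_inv hh hX hA
      obtain ⟨h', hh', hv'⟩ := T.val_sq (inv_mem hh) hv (X' := -X) (fun a b => by
        rw [LinearMap.neg_apply, LinearMap.neg_apply, polar_neg_left, polar_neg_right, adj_symm hA])
      have e1 : (-X') ∘ₗ (-X) = X' ∘ₗ X := by ext w; simp
      rw [e1] at hv'
      exact T.v2 hl0 hl1 hl2 h3 hcon hh' he hv' hA2 h5 hw₀ (by rw [LinearMap.comp_apply, hXw, map_zero])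
  · obtain ⟨h', hh', hv'⟩ := T.val_sq hh hX hA
    exact T.v2 hl0 hl1 hl2 h3 hcon hh' hf hv' hA1 h4 hy0 (by rw [LinearMap.comp_apply, hy, map_zero])

end TT

end Cfsg.Agent.Lib.TenSpT
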