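import Mathlib
import Cfsg.Agent.Lib.TenSpT5

/-!
# Overgroups of `Sp(E) ∘ O₃(q)` : main result (helper21)
-/

set_option autoImplicit false
set_option linter.unusedSectionVars false
set_option linter.unusedVariables false
set_option linter.unusedSimpArgs false

namespace Cfsg.Agent.Lib.TenSpT

open QuadraticMap Module Cfsg.Agent.Lib.Quad Cfsg.Agent.Lib.OrthNd Cfsg.Agent.Lib.OrthDecH94
open Cfsg.Agent.Lib.SpTrans Cfsg.Agent.Lib.TenSpO

variable {F E W V : Type*} [Field F] [AddCommGroup E] [Module F E] [FiniteDimensional F E]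
  [AddCommGroup W] [Module F W] [FiniteDimensional F W] [AddCommGroup V] [Module F V] [FiniteDimensional F V]

variable {α : E →ₗ[F] E →ₗ[F] F} {Q : QuadraticForm F W} {B : V →ₗ[F] V →ₗ[F] F} {τ : E →ₗ[F] W →ₗ[F] V}
  {M : Subgroup (V ≃ₗ[F] V)}

namespace TT

variable (T : TT α Q B τ M)

include T

/-- a skew form on a three-dimensional space is degenerate -/
theorem skew_sing (h3 : finrank F W = 3) {X : W →ₗ[F] W} (hX : ∀ w, polar Q (X w) w = 0) : ∃ w₀, w₀ ≠ 0 ∧ X w₀ = 0 := by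
  have hsk : ∀ w w', polar Q (X w) w' = - polar Q (X w') w := by
    intro w w'
    have h1 := hX (w + w')
    rw [map_add, polar_add_left, polar_add_right, polar_add_right, hX, hX] at h1
    linear_combination h1
  let b := Module.finBasisOfFinrankEq F W h3
  let N : Matrix (Fin 3) (Fin 3) F := Matrix.of fun i j => polar Q (X (b i)) (b j)
  have hN : N.transpose = -N := by
    ext i j
    exact hsk _ _
  have hdet : N.det = 0 := by
    have h1 := Matrix.det_transpose N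
    rw [hN, Matrix.det_neg, Fintype.card_fin] at h1
    have h2 : (2 : F) * N.det = 0 := by linear_combination -h1
    exact (mul_eq_zero.mp h2).resolve_left T.two
  obtain ⟨v, hv0, hv⟩ := Matrix.exists_vecMul_eq_zero_iff.2 hdet
  refine ⟨∑ i, v i • b i, ?_, ?_⟩
  · intro h0
    apply hv0
    funext i
    exact Fintype.linearIndependent_iff.1 b.linearIndependent v h0 i
  · apply T.nd.eq_zero
    intro w
    have h1 : polarBilin Q (X (∑ i, v i • b i)) = 0 := by
      refine b.ext fun j => ?_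
      have h2 := congrFun hv j
      rw [map_sum, map_sum, LinearMap.sum_apply, LinearMap.zero_apply]
      rw [Pi.zero_apply] at h2
      rw [← h2, Matrix.vecMul, dotProduct]
      refine Finset.sum_congr rfl fun i _ => ?_
      rw [map_smul, map_smul, LinearMap.smul_apply, smul_eq_mul]
      rfl
    exact LinearMap.congr_fun h1 w

theorem B_ττ (f : E) (w w' : W) : B (τ f w) (τ f w') = 0 := by rw [T.Bτ, T.hα f, zero_mul]

/-- conjugates with skew values -/
theorem val_conj [Finite F] {l : F} (hl0 : l ≠ 0) (hl1 : l ≠ 1) (hl2 : l ≠ -1) (h3 : finrank F W = 3)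
    (hcon : ¬ isom (fun x y => B x y) ≤ M) {h n : V ≃ₗ[F] V} (hh : h ∈ M) (hn : n ∈ M) {f : E} (hf : f ≠ 0)
    (hsk : ∀ w, B (n (h (τ f w))) (h (τ f w)) = 0) (w w' : W) : B (n (h (τ f w))) (h (τ f w')) = 0 := by
  obtain ⟨X, hX⟩ : ∃ X : W →ₗ[F] W, X = (T.cc f) ∘ₗ (((h⁻¹ * n * h : V ≃ₗ[F] V)) : V →ₗ[F] V) ∘ₗ (τ f) := ⟨_, rfl⟩
  have hval : Val T (h⁻¹ * n * h) f f X := fun w => by rw [hX]; rfl
  have hpol : ∀ a b, polar Q (X a) b = B (n (h (τ f a))) (h (τ f b)) := by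
    intro a b
    rw [← hval, T.cc_spec, LinearEquiv.mul_apply, LinearEquiv.mul_apply, T.Binv hh]
  obtain ⟨w₀, hw₀, h0⟩ := T.skew_sing h3 (X := X) (fun a => by rw [hpol]; exact hsk a)
  have h1 := T.v3 hl0 hl1 hl2 h3 hcon (mul_mem (mul_mem (inv_mem hh) hn) hh) hf hf hval hw₀ h0
  rw [← hpol, h1, LinearMap.zero_apply, polar_zero_left]

/-- the reflections -/
theorem refl_lift {z : W} (hz : Q z ≠ 0) : ∃ t ∈ M, ∀ v, t v = v - (Q z)⁻¹ • τ (T.dd z v) z := by
  obtain ⟨t, ht, h1⟩ := T.tW (refl Q z) (refl_mem z)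
  refine ⟨t, ht, fun v => ?_⟩
  have h2 : (t : V →ₗ[F] V) = 1 - (Q z)⁻¹ • ((τ.flip z) ∘ₗ (T.dd z)) := by
    apply T.extτ
    intro e w
    change t (τ e w) = τ e w - (Q z)⁻¹ • τ (T.dd z (τ e w)) z
    rw [h1, T.dd_τ, refl_apply hz, map_sub, map_smul, map_smul, LinearMap.smul_apply, smul_smul, polar_comm]
  exact LinearMap.congr_fun h2 v

theorem B_τl (e : E) (z : W) (v : V) : B (τ e z) v = - α (T.dd z v) e := by
  rw [T.Bsw, T.dd_spec]

/-- **Reflections.** -/
theorem dd_orth [Finite F] {l : F} (hl0 : l ≠ 0) (hl1 : l ≠ 1) (hl2 : l ≠ -1) (h3 : finrank F W = 3)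
    (hcon : ¬ isom (fun x y => B x y) ≤ M) {h : V ≃ₗ[F] V} (hh : h ∈ M) {f : E} (hf : f ≠ 0) {z : W} (hz : Q z ≠ 0)
    (w w' : W) : α (T.dd z (h (τ f w))) (T.dd z (h (τ f w'))) = 0 := by
  obtain ⟨t, ht, h1⟩ := T.refl_lift hz
  have key : ∀ v v', B v v' = 0 → B (t v) v' = (Q z)⁻¹ * α (T.dd z v') (T.dd z v) := by
    intro v v' hv
    rw [h1, map_sub, LinearMap.sub_apply, map_smul, LinearMap.smul_apply, T.B_τl, hv, smul_eq_mul]
    ring
  have hB : ∀ w w', B (h (τ f w)) (h (τ f w')) = 0 := by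
    intro w w'
    have := T.le hh (τ f w) (τ f w')
    simp only at this
    rw [this, T.B_ττ]
  have h4 := T.val_conj hl0 hl1 hl2 h3 hcon hh ht hf (fun w => by
    rw [key _ _ (hB w w), T.hα (T.dd z (h (τ f w))), mul_zero]) w' w
  rw [key _ _ (hB w' w)] at h4
  exact (mul_eq_zero.mp h4).resolve_left (inv_ne_zero hz)

omit T in
/-- the involutions of `E` -/
theorem exists_iota (hα : α.IsAlt) {p q : E} (hpq : α p q = 1) :
    ∃ σ ∈ isom (fun x y => α x y), ∀ e, σ e = e - (2 : F) • (α e q • p - α e p • q) := by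
  have hqp : α q p = -1 := by rw [alt_neg hα, hpq]
  let π : E →ₗ[F] E := (α.flip q).smulRight p - (α.flip p).smulRight q
  have hπ : ∀ e, π e = α e q • p - α e p • q := fun e => rfl
  have hππ : ∀ e, π (π e) = π e := by
    intro e
    rw [hπ (π e), hπ e]
    simp only [map_sub, map_smul, LinearMap.sub_apply, LinearMap.smul_apply, hpq, hqp, hα p, hα q, smul_eq_mul]
    module
  have hadj : ∀ x y, α (π x) y = α x (π y) := by
    intro x y
    rw [hπ, hπ]
    simp only [map_sub, map_smul, LinearMap.sub_apply, LinearMap.smul_apply, smul_eq_mul]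
    rw [alt_neg hα p y, alt_neg hα q y]
    ring
  let g : E →ₗ[F] E := LinearMap.id - (2 : F) • π
  have hg : ∀ e, g e = e - (2 : F) • π e := fun e => rfl
  have hgg : Function.Involutive g := by
    intro e
    rw [hg (g e), hg e, map_sub, map_smul, hππ]
    module
  refine ⟨LinearEquiv.ofInvolutive g hgg, ?_, fun e => ?_⟩
  · intro x y
    change α (g x) (g y) = α x y
    rw [hg, hg]
    simp only [map_sub, map_smul, LinearMap.sub_apply, LinearMap.smul_apply, smul_eq_mul]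
    rw [hadj x (π y), hππ, hadj]
    ring
  · change g e = _
    rw [hg, hπ]

theorem iota_lift {p q : E} (hpq : α p q = 1) : ∃ t ∈ M, (∀ v, t v = v - (2 : F) • (τ p (T.cc q v) - τ q (T.cc p v))) ∧
    ∀ e w, t (τ e w) = τ (e - (2 : F) • (α e q • p - α e p • q)) w := by
  obtain ⟨σ, hσ, h0⟩ := exists_iota T.hα hpq
  obtain ⟨t, ht, h1⟩ := T.tE σ hσ
  refine ⟨t, ht, fun v => ?_, fun e w => by rw [h1, h0]⟩
  have h2 : (t : V →ₗ[F] V) = 1 - (2 : F) • ((τ p) ∘ₗ (T.cc q) - (τ q) ∘ₗ (T.cc p)) := by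
    apply T.extτ
    intro e w
    change t (τ e w) = τ e w - (2 : F) • (τ p (T.cc q (τ e w)) - τ q (T.cc p (τ e w)))
    rw [h1, h0, T.cc_τ, T.cc_τ]
    simp only [map_sub, map_smul, LinearMap.sub_apply, LinearMap.smul_apply]
  exact LinearMap.congr_fun h2 v

/-- **Planes.** -/
theorem dd_plane [Finite F] {l : F} (hl0 : l ≠ 0) (hl1 : l ≠ 1) (hl2 : l ≠ -1) (h3 : finrank F W = 3)
    (hcon : ¬ isom (fun x y => B x y) ≤ M) {h : V ≃ₗ[F] V} (hh : h ∈ M) {f : E} (hf : f ≠ 0) {z : W} (hz : Q z ≠ 0)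
    {p q : E} (hpq : α p q = 1) (w w' : W) :
    α (T.dd z (h (τ f w))) q * α (T.dd z (h (τ f w'))) p - α (T.dd z (h (τ f w))) p * α (T.dd z (h (τ f w'))) q = 0 := by
  obtain ⟨t, ht, h1⟩ := T.refl_lift hz
  obtain ⟨s, hs, h2, h2'⟩ := T.iota_lift hpq
  have hB : ∀ w w', B (h (τ f w)) (h (τ f w')) = 0 := by
    intro w w'
    have := T.le hh (τ f w) (τ f w')
    simp only at this
    rw [this, T.B_ττ]
  have keys : ∀ v v', B v v' = 0 → B (s v) v' = 2 * (polar Q (T.cc p v') (T.cc q v) - polar Q (T.cc q v') (T.cc p v)) := by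
    intro v v' hv
    rw [h2, map_sub, LinearMap.sub_apply, map_smul, LinearMap.smul_apply, map_sub, LinearMap.sub_apply, T.Bτl, T.Bτl, hv,
      smul_eq_mul]
    ring
  have h5 : ∀ w w', B (s (h (τ f w))) (h (τ f w')) = 0 := T.val_conj hl0 hl1 hl2 h3 hcon hh hs hf (fun w => by
    rw [keys _ _ (hB w w), polar_comm]; ring)
  have h6 := T.dd_orth hl0 hl1 hl2 h3 hcon hh hf hz
  have key : ∀ w w', B ((s * t) (h (τ f w))) (h (τ f w')) = -(Q z)⁻¹ * (2 * (α (T.dd z (h (τ f w))) q * α (T.dd z (h (τ f w'))) p -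
      α (T.dd z (h (τ f w))) p * α (T.dd z (h (τ f w'))) q)) := by
    intro w w'
    rw [LinearEquiv.mul_apply, h1, map_sub, map_smul, h2', map_sub, LinearMap.sub_apply, h5, map_smul, LinearMap.smul_apply,
      T.B_τl]
    simp only [map_sub, map_smul, smul_eq_mul]
    rw [h6 w' w]
    ring
  have h7 := T.val_conj hl0 hl1 hl2 h3 hcon hh (mul_mem hs ht) hf (fun w => by
    rw [key]; ring) w w'
  rw [key] at h7
  have h8 : (-(Q z)⁻¹ * 2) ≠ 0 := mul_ne_zero (neg_ne_zero.mpr (inv_ne_zero hz)) T.two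
  have h9 : (-(Q z)⁻¹ * 2) * (α (T.dd z (h (τ f w))) q * α (T.dd z (h (τ f w'))) p -
      α (T.dd z (h (τ f w))) p * α (T.dd z (h (τ f w'))) q) = 0 := by linear_combination h7
  exact (mul_eq_zero.mp h9).resolve_left h8

/-- two functionals -/
theorem exists_two {a b : E} (hab : LinearIndependent F ![a, b]) (x y : F) : ∃ e, α a e = x ∧ α b e = y := by
  have hb0 : b ≠ 0 := hab.ne_zero 1
  have ha0 : a ≠ 0 := hab.ne_zero 0
  have key : ∀ a b : E, LinearIndependent F ![a, b] → ∃ e, α a e = 1 ∧ α b e = 0 := by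
    intro a b hab
    by_contra hcon
    push Not at hcon
    -- `ker α b ≤ ker α a`
    have h1 : ∀ e, α b e = 0 → α a e = 0 := by
      intro e he
      by_contra hne
      refine hcon ((α a e)⁻¹ • e) ?_ ?_
      · rw [map_smul, smul_eq_mul, inv_mul_cancel₀ hne]
      · rw [map_smul, he, smul_zero]
    have hb0 : b ≠ 0 := hab.ne_zero 1
    obtain ⟨e₁, he₁⟩ : ∃ e, α b e ≠ 0 := by
      by_contra h2
      push Not at h2
      exact hb0 (T.hαn b h2)
    have h2 : a = (α a e₁ / α b e₁) • b := by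
      apply T.eqE
      intro e
      have h3 := h1 (e - (α b e / α b e₁) • e₁) (by
        rw [map_sub, map_smul, smul_eq_mul, div_mul_cancel₀ _ he₁, sub_self])
      rw [map_sub, map_smul, smul_eq_mul] at h3
      rw [map_smul, LinearMap.smul_apply, smul_eq_mul]
      rw [sub_eq_zero] at h3
      rw [h3]; ring
    rw [LinearIndependent.pair_iff] at hab
    have := (hab 1 (-(α a e₁ / α b e₁)) (by rw [one_smul, neg_smul, ← h2, add_neg_cancel])).1
    exact one_ne_zero this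
  obtain ⟨e₁, h1, h2⟩ := key a b hab
  obtain ⟨e₂, h3, h4⟩ := key b a (by
    have := hab
    rw [LinearIndependent.pair_iff] at this ⊢
    intro s t hst
    have := this t s (by rw [add_comm]; exact hst)
    exact ⟨this.2, this.1⟩)
  refine ⟨x • e₁ + y • e₂, ?_, ?_⟩
  · rw [map_add, map_smul, map_smul, h1, h4]; simp
  · rw [map_add, map_smul, map_smul, h2, h3]; simp

/-- the values lie on a line -/
theorem dd_line [Finite F] {l : F} (hl0 : l ≠ 0) (hl1 : l ≠ 1) (hl2 : l ≠ -1) (h3 : finrank F W = 3)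
    (hcon : ¬ isom (fun x y => B x y) ≤ M) {h : V ≃ₗ[F] V} (hh : h ∈ M) {f : E} (hf : f ≠ 0) {z : W} (hz : Q z ≠ 0) :
    ∃ ε : E, ∀ w, ∃ c : F, T.dd z (h (τ f w)) = c • ε := by
  by_cases h0 : ∀ w, T.dd z (h (τ f w)) = 0
  · exact ⟨0, fun w => ⟨0, by rw [h0, smul_zero]⟩⟩
  push Not at h0
  obtain ⟨w₁, hw₁⟩ := h0
  refine ⟨T.dd z (h (τ f w₁)), fun w => ?_⟩
  by_contra hne
  push Not at hne
  set ε₁ := T.dd z (h (τ f w₁)) with hε₁
  set ε₂ := T.dd z (h (τ f w)) with hε₂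
  have h12 : α ε₁ ε₂ = 0 := T.dd_orth hl0 hl1 hl2 h3 hcon hh hf hz _ _
  have h21 : α ε₂ ε₁ = 0 := T.dd_orth hl0 hl1 hl2 h3 hcon hh hf hz _ _
  have hli : LinearIndependent F ![ε₁, ε₂] := by
    rw [LinearIndependent.pair_iff]
    intro s t hst
    have ht : t = 0 := by
      by_contra ht
      apply hne (-(t⁻¹ * s))
      have h4 : t • ε₂ = -(s • ε₁) := eq_neg_of_add_eq_zero_right hst
      have h5 : ε₂ = t⁻¹ • (t • ε₂) := by rw [smul_smul, inv_mul_cancel₀ ht, one_smul]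
      rw [h5, h4]; module
    rw [ht, zero_smul, add_zero, smul_eq_zero, or_iff_left hw₁] at hst
    exact ⟨hst, ht⟩
  obtain ⟨p, hp1, hp2⟩ := T.exists_two hli 0 1
  have hli2 : LinearIndependent F ![ε₁, p] := by
    rw [LinearIndependent.pair_iff]
    intro s t hst
    have h4 : α ε₂ (s • ε₁ + t • p) = 0 := by rw [hst, map_zero]
    rw [map_add, map_smul, map_smul, h21, hp2, smul_zero, zero_add, smul_eq_mul, mul_one] at h4
    rw [h4, zero_smul, add_zero, smul_eq_zero, or_iff_left hw₁] at hst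
    exact ⟨hst, h4⟩
  obtain ⟨q, hq1, hq2⟩ := T.exists_two hli2 1 1
  have h5 := T.dd_plane hl0 hl1 hl2 h3 hcon hh hf hz hq2 w₁ w
  rw [← hε₁, ← hε₂, hq1, hp2, hp1] at h5
  simp at h5

/-- **Images of the subspaces `f ⊗ W`.** -/
theorem img [Finite F] {l : F} (hl0 : l ≠ 0) (hl1 : l ≠ 1) (hl2 : l ≠ -1) (h3 : finrank F W = 3)
    (hcon : ¬ isom (fun x y => B x y) ≤ M) {h : V ≃ₗ[F] V} (hh : h ∈ M) {f : E} (hf : f ≠ 0) :
    ∃ ε : E, ε ≠ 0 ∧ ∃ C : W →ₗ[F] W, ∀ w, h (τ f w) = τ ε (C w) := by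
  have htop : NDs Q (⊤ : Submodule F W) := TO.nds_top' T.nd
  obtain ⟨z, -, hz⟩ := exists_nonsing htop (by rw [finrank_top, h3]; omega)
  obtain ⟨ε, hε⟩ := T.dd_line hl0 hl1 hl2 h3 hcon hh hf hz
  have key : ∀ e, e ≠ 0 → α ε e = 0 → ∀ w, T.cc e (h (τ f w)) = 0 := by
    intro e he hεe
    obtain ⟨X, hX⟩ : ∃ X : W →ₗ[F] W, X = (T.cc e) ∘ₗ (h : V →ₗ[F] V) ∘ₗ (τ f) := ⟨_, rfl⟩
    have hval : Val T h f e X := fun w => by rw [hX]; rfl
    have hns : ¬ Function.Surjective X := by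
      intro hs
      obtain ⟨z', hz'⟩ : ∃ z', polar Q z' z ≠ 0 := ⟨z, by rw [polar_self']; exact mul_ne_zero T.two hz⟩
      obtain ⟨w, hw⟩ := hs z'
      apply hz'
      rw [← hw, ← hval, T.cc_spec, ← T.dd_spec]
      obtain ⟨c, hc⟩ := hε w
      rw [hc, map_smul, LinearMap.smul_apply, hεe, smul_zero]
    have hni : ¬ Function.Injective X := fun hi => hns (LinearMap.injective_iff_surjective.1 hi)
    obtain ⟨w₀, hw₀, h0⟩ : ∃ w₀, w₀ ≠ 0 ∧ X w₀ = 0 := by
      rw [injective_iff_map_eq_zero] at hni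
      push Not at hni
      obtain ⟨a, ha, ha0⟩ := hni
      exact ⟨a, ha0, ha⟩
    have h1 := T.v3 hl0 hl1 hl2 h3 hcon hh hf he hval hw₀ h0
    intro w
    rw [hval, h1, LinearMap.zero_apply]
  have key' : ∀ e, α ε e = 0 → ∀ w, T.cc e (h (τ f w)) = 0 := by
    intro e he w
    by_cases h0 : e = 0
    · apply T.eqW
      intro w'
      rw [T.cc_spec, h0, map_zero, LinearMap.zero_apply, map_zero, polar_zero_left]
    · exact key e h0 he w
  by_cases hε0 : ε = 0
  · exfalso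
    obtain ⟨z', hz'⟩ : ∃ z' : W, z' ≠ 0 := ⟨z, fun h0 => hz (by rw [h0, map_zero])⟩
    have h1 : h (τ f z') = 0 := by
      apply T.totτ
      intro e w
      rw [← T.cc_spec, key' e (by rw [hε0]; simp), polar_zero_left]
    have h2 : τ f z' = 0 := by simpa using h1
    obtain ⟨e, he⟩ : ∃ e, α f e ≠ 0 := by
      by_contra h4
      push Not at h4
      exact hf (T.hαn f h4)
    have h4 := T.cc_τ e f z'
    rw [h2, map_zero] at h4
    exact (smul_ne_zero he hz') h4.symm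
  · obtain ⟨e₁, he₁⟩ : ∃ e, α ε e = 1 := by
      obtain ⟨e, he⟩ : ∃ e, α ε e ≠ 0 := by
        by_contra h4
        push Not at h4
        exact hε0 (T.hαn ε h4)
      exact ⟨(α ε e)⁻¹ • e, by rw [map_smul, smul_eq_mul, inv_mul_cancel₀ he]⟩
    refine ⟨ε, hε0, (T.cc e₁) ∘ₗ (h : V →ₗ[F] V) ∘ₗ (τ f), fun w => ?_⟩
    apply T.eqV
    intro e w'
    change _ = B (τ ε (T.cc e₁ (h (τ f w)))) (τ e w')
    rw [T.Bτ]
    have h1 := key' (e - α ε e • e₁) (by rw [map_sub, map_smul, he₁, smul_eq_mul, mul_one, sub_self]) w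
    have h2 : polar Q (T.cc (e - α ε e • e₁) (h (τ f w))) w' = 0 := by rw [h1, polar_zero_left]
    rw [T.cc_spec, map_sub τ, LinearMap.sub_apply, map_smul τ, LinearMap.smul_apply, map_sub, map_smul, smul_eq_mul,
      ← T.cc_spec e₁] at h2
    linear_combination h2

theorem τ_inj {f : E} (hf : f ≠ 0) {w : W} (h : τ f w = 0) : w = 0 := by
  obtain ⟨e, he⟩ : ∃ e, α f e ≠ 0 := by
    by_contra h4
    push Not at h4
    exact hf (T.hαn f h4)
  have h4 := T.cc_τ e f w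
  rw [h, map_zero] at h4
  exact (smul_eq_zero.mp h4.symm).resolve_left he

theorem τ_inj' {w : W} (hw : w ≠ 0) {f : E} (h : τ f w = 0) : f = 0 := by
  by_contra hf
  exact hw (T.τ_inj hf h)

/-- **Main result.** -/
theorem main [Finite F] {l : F} (hl0 : l ≠ 0) (hl1 : l ≠ 1) (hl2 : l ≠ -1) (h3 : finrank F W = 3)
    (hcon : ¬ isom (fun x y => B x y) ≤ M) {h : V ≃ₗ[F] V} (hh : h ∈ M) :
    ∃ (s : E ≃ₗ[F] E) (C : W ≃ₗ[F] W), ∀ e w, h (τ e w) = τ (s e) (C w) := by
  have himg := fun f (hf : f ≠ 0) => T.img hl0 hl1 hl2 h3 hcon hh (f := f) hf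
  obtain ⟨f₀, hf₀⟩ : ∃ f₀ : E, f₀ ≠ 0 := by
    haveI : Nontrivial E := Module.nontrivial_of_finrank_pos (R := F) T.hE
    exact exists_ne 0
  obtain ⟨w₀, hw₀⟩ : ∃ w₀ : W, w₀ ≠ 0 := by
    haveI : Nontrivial W := Module.nontrivial_of_finrank_pos (R := F) (by omega)
    exact exists_ne 0
  obtain ⟨ε₀, hε₀, C, hC⟩ := himg f₀ hf₀
  have hCi : Function.Injective C := by
    rw [injective_iff_map_eq_zero]
    intro w hw
    have h1 := hC w
    rw [hw, map_zero] at h1
    have h2 : τ f₀ w = 0 := by simpa using h1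
    exact T.τ_inj hf₀ h2
  have key : ∀ f, ∃ ε, ∀ w, h (τ f w) = τ ε (C w) := by
    intro f
    by_cases hf : f = 0
    · exact ⟨0, fun w => by rw [hf]; simp⟩
    by_cases hdep : ∃ a : F, f = a • f₀
    · obtain ⟨a, rfl⟩ := hdep
      exact ⟨a • ε₀, fun w => by
        rw [map_smul τ, LinearMap.smul_apply, map_smul, hC, map_smul τ, LinearMap.smul_apply]⟩
    obtain ⟨ε', hε', C', hC'⟩ := himg f hf
    -- `ε₀`, `ε'` are independent
    have hli : LinearIndependent F ![ε₀, ε'] := by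
      rw [LinearIndependent.pair_iff]
      intro s t hst
      have ht : t = 0 := by
        by_contra ht
        have h5 : ε' = (-(t⁻¹ * s)) • ε₀ := by
          have h4 : t • ε' = -(s • ε₀) := eq_neg_of_add_eq_zero_right hst
          have h5 : ε' = t⁻¹ • (t • ε') := by rw [smul_smul, inv_mul_cancel₀ ht, one_smul]
          rw [h5, h4]; module
        obtain ⟨w₂, hw₂⟩ := (LinearMap.injective_iff_surjective.1 hCi) ((-(t⁻¹ * s)) • C' w₀)
        have h6 : h (τ f w₀) = h (τ f₀ w₂) := by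
          rw [hC', hC, hw₂, h5, map_smul τ, LinearMap.smul_apply, map_smul]
        have h7 : τ f w₀ = τ f₀ w₂ := h.injective h6
        -- then `f` is a multiple of `f₀`
        apply hdep
        obtain ⟨w₁, hw₁⟩ := T.nd.exists_polar_one' hw₀
        have h8 : T.dd w₁ (τ f w₀) = T.dd w₁ (τ f₀ w₂) := by rw [h7]
        rw [T.dd_τ, T.dd_τ, hw₁, one_smul] at h8
        exact ⟨_, h8⟩
      rw [ht, zero_smul, add_zero, smul_eq_zero, or_iff_left hε₀] at hst
      exact ⟨hst, ht⟩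
    obtain ⟨ε'', hε'', C'', hC''⟩ := himg (f₀ + f) (fun h0 => hdep ⟨-1, by
      rw [neg_smul, one_smul]; exact eq_neg_of_add_eq_zero_right h0⟩)
    obtain ⟨e₁, h1, h2⟩ := T.exists_two hli 1 0
    obtain ⟨e₂, h4, h5⟩ := T.exists_two hli 0 1
    have h6 : ∀ w, τ ε₀ (C w) + τ ε' (C' w) = τ ε'' (C'' w) := by
      intro w
      rw [← hC, ← hC', ← hC'', ← map_add, map_add τ, LinearMap.add_apply]
    have h7 : ∀ w, C w = α ε'' e₁ • C'' w := by
      intro w
      have := congrArg (T.cc e₁) (h6 w)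
      rw [map_add, T.cc_τ, T.cc_τ, T.cc_τ, h1, h2, one_smul, zero_smul, add_zero] at this
      exact this
    have h8 : ∀ w, C' w = α ε'' e₂ • C'' w := by
      intro w
      have := congrArg (T.cc e₂) (h6 w)
      rw [map_add, T.cc_τ, T.cc_τ, T.cc_τ, h4, h5, one_smul, zero_smul, zero_add] at this
      exact this
    have h9 : α ε'' e₁ ≠ 0 := by
      intro h0
      have := h7 w₀
      rw [h0, zero_smul] at this
      exact hw₀ (hCi (by rw [this, map_zero]))
    refine ⟨(α ε'' e₂ / α ε'' e₁) • ε', fun w => ?_⟩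
    rw [hC', h8, map_smul τ, LinearMap.smul_apply, h7, map_smul, map_smul, smul_smul, div_mul_cancel₀ _ h9]
  obtain ⟨w₁, hw₁⟩ := T.nd.exists_polar_one' (show C w₀ ≠ 0 from fun h0 => hw₀ (hCi (by rw [h0, map_zero])))
  obtain ⟨s, hs⟩ : ∃ s : E →ₗ[F] E, s = (T.dd w₁) ∘ₗ (h : V →ₗ[F] V) ∘ₗ (τ.flip w₀) := ⟨_, rfl⟩
  have hsw : ∀ f w, h (τ f w) = τ (s f) (C w) := by
    intro f w
    obtain ⟨ε, hε⟩ := key f
    have h1 : s f = ε := by
      rw [hs]
      change T.dd w₁ (h (τ f w₀)) = ε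
      rw [hε, T.dd_τ, hw₁, one_smul]
    rw [h1, hε]
  have hsi : Function.Injective s := by
    rw [injective_iff_map_eq_zero]
    intro f hf
    have h1 := hsw f w₀
    rw [hf, map_zero, LinearMap.zero_apply] at h1
    have h2 : τ f w₀ = 0 := by simpa using h1
    exact T.τ_inj' hw₀ h2
  exact ⟨LinearEquiv.ofInjectiveEndo s hsi, LinearEquiv.ofInjectiveEndo C hCi, fun e w => hsw e w⟩

end TT

end Cfsg.Agent.Lib.TenSpT
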