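import Mathlib
import Cfsg.Prelude.Def_GeometricClasses
import Cfsg.Agent.Lib.GeoBridge
import Cfsg.Agent.Lib.TensorGeo
import Cfsg.Agent.Lib.QuadNorm
import Cfsg.Agent.Lib.TenSpO6
import Cfsg.Agent.Lib.TenSpT6

/-!
# Stabilisers of tensor decompositions `n ⊗ 3` in symplectic groups: the bridge (helper21)
-/

set_option autoImplicit false
set_option linter.unusedSectionVars false
set_option linter.unusedVariables false
set_option linter.unusedSimpArgs false

namespace Cfsg.Agent.Lib.TenSpT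

open QuadraticMap Module Cfsg.Agent.Lib.Quad Cfsg.Agent.Lib.SpTrans Cfsg Cfsg.Geo
open Cfsg.Agent.Lib.GeoBridge Cfsg.Agent.Lib.TensorGeo Cfsg.Agent.Lib.QuadNorm
open scoped MatrixGroups Matrix Kronecker

section
variable {F E W V : Type*} [Field F] [AddCommGroup E] [Module F E] [FiniteDimensional F E]
  [AddCommGroup W] [Module F W] [FiniteDimensional F W] [AddCommGroup V] [Module F V] [FiniteDimensional F V]

variable {α : E →ₗ[F] E →ₗ[F] F} {Q : QuadraticForm F W} {B : V →ₗ[F] V →ₗ[F] F} {τ : E →ₗ[F] W →ₗ[F] V}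
  {M : Subgroup (V ≃ₗ[F] V)}

/-- not every isometry is decomposable -/
theorem TT.exists_not_pair (T : TT α Q B τ M) (h2 : 2 ≤ finrank F W) : ∃ t ∈ isom (fun x y => B x y),
    ¬ ∃ (s : E ≃ₗ[F] E) (C : W ≃ₗ[F] W), ∀ e w, t (τ e w) = τ (s e) (C w) := by
  obtain ⟨f, hf⟩ : ∃ f : E, f ≠ 0 := by
    have : Nontrivial E := Module.nontrivial_of_finrank_pos (R := F) T.hE
    exact exists_ne 0
  obtain ⟨w, hw⟩ : ∃ w : W, w ≠ 0 := by
    have : Nontrivial W := Module.nontrivial_of_finrank_pos (R := F) (by omega)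
    exact exists_ne 0
  refine ⟨tv B T.hB (τ f w) 1, tv_mem_isom _ _ _, ?_⟩
  rintro ⟨s, C, h⟩
  have h' : ∀ e w', τ e w' + (α e f * polar Q w' w) • τ f w = τ (s e) (C w') := by
    intro e w'
    rw [← h, tv_apply, T.Bτ, one_mul]
  obtain ⟨e₁, he₁⟩ : ∃ e₁, α f e₁ = 1 := by
    obtain ⟨e, he⟩ : ∃ e, α f e ≠ 0 := by
      by_contra h4
      push Not at h4
      exact hf (T.hαn f h4)
    exact ⟨(α f e)⁻¹ • e, by rw [map_smul, smul_eq_mul, inv_mul_cancel₀ he]⟩
  have h3 : ∀ w', w' = α (s f) e₁ • C w' := by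
    intro w'
    have := congrArg (T.cc e₁) (h' f w')
    rw [T.hα f, zero_mul, zero_smul, add_zero, T.cc_τ, T.cc_τ, he₁, one_smul] at this
    exact this
  obtain ⟨k, hk⟩ : ∃ k, k = α (s f) e₁ := ⟨_, rfl⟩
  rw [← hk] at h3
  have hk0 : k ≠ 0 := by
    rintro rfl
    apply hw
    rw [h3 w, zero_smul]
  have hperp := T.nd.finrank_add_finrank_perp (F ∙ w)
  rw [finrank_span_singleton hw] at hperp
  obtain ⟨y, hy, hy0⟩ := Submodule.exists_mem_ne_zero_of_ne_bot (show perp Q (F ∙ w) ≠ ⊥ by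
    intro h6; rw [h6, finrank_bot] at hperp; omega)
  have hwy : polar Q y w = 0 := by rw [polar_comm]; exact mem_perp_singleton.1 hy
  have hC : ∀ w', C w' = k⁻¹ • w' := by
    intro w'
    conv_rhs => rw [h3 w']
    rw [smul_smul, inv_mul_cancel₀ hk0, one_smul]
  obtain ⟨y', hy'⟩ := T.nd.exists_polar_one' hy0
  have h5 : ∀ e, s e = k • e := by
    intro e
    have := congrArg (T.dd y') (h' e y)
    rw [hwy, mul_zero, zero_smul, add_zero, hC, T.dd_τ, T.dd_τ, polar_smul_left, hy', one_smul, smul_eq_mul, mul_one] at this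
    conv_rhs => rw [this]
    rw [smul_smul, mul_inv_cancel₀ hk0, one_smul]
  obtain ⟨w₁, hw₁⟩ := T.nd.exists_polar_one' hw
  have h6 := h' e₁ w₁
  rw [h5, hC, map_smul τ, LinearMap.smul_apply, map_smul, smul_smul, mul_inv_cancel₀ hk0, one_smul, add_eq_left,
    polar_comm, hw₁, mul_one, T.αsw, he₁, smul_eq_zero] at h6
  rcases h6 with h6 | h6
  · exact one_ne_zero (neg_eq_zero.mp h6)
  · exact hw (T.τ_inj hf h6)

end

variable {F : Type*} [Field F] {m n₁ n₂ : ℕ}

theorem exists_kron {ι : Type} [Fintype ι] [DecidableEq ι] (e : ι ≃ Fin n₁ × Fin n₂) (P : GL ι F) (a : GL (Fin n₁) F)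
    (b : GL (Fin n₂) F) : ∃ g ∈ tensorProductSubgroup n₁ n₂ e P, ∀ x₁ x₂, le g (tp e P x₁ x₂) =
      tp e P ((a : Matrix (Fin n₁) (Fin n₁) F) *ᵥ x₁) ((b : Matrix (Fin n₂) (Fin n₂) F) *ᵥ x₂) := by
  have key : ∀ (k : GL (Fin n₁ × Fin n₂) F) (a : GL (Fin n₁) F) (b : GL (Fin n₂) F),
      (k : Matrix (Fin n₁ × Fin n₂) (Fin n₁ × Fin n₂) F) =
        (a : Matrix (Fin n₁) (Fin n₁) F) ⊗ₖ (b : Matrix (Fin n₂) (Fin n₂) F) → ∀ x₁ x₂,
      le (P * glReindex e.symm k * P⁻¹) (tp e P x₁ x₂) =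
      tp e P ((a : Matrix (Fin n₁) (Fin n₁) F) *ᵥ x₁) ((b : Matrix (Fin n₂) (Fin n₂) F) *ᵥ x₂) := by
    intro k a b hk x₁ x₂
    rw [le_apply, tp, Matrix.mulVec_mulVec, ← Units.val_mul, inv_mul_cancel_right, Units.val_mul,
      ← Matrix.mulVec_mulVec, reindex_mulVec, hk, kron_mulVec, tp]
  have h1 : ((a : Matrix (Fin n₁) (Fin n₁) F) ⊗ₖ (b : Matrix (Fin n₂) (Fin n₂) F)) *
      (((a⁻¹ : GL (Fin n₁) F) : Matrix (Fin n₁) (Fin n₁) F) ⊗ₖ ((b⁻¹ : GL (Fin n₂) F) : Matrix (Fin n₂) (Fin n₂) F)) = 1 := by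
    rw [← Matrix.mul_kronecker_mul, ← Units.val_mul, ← Units.val_mul, mul_inv_cancel, mul_inv_cancel,
      Units.val_one, Units.val_one, Matrix.one_kronecker_one]
  have h2 : (((a⁻¹ : GL (Fin n₁) F) : Matrix (Fin n₁) (Fin n₁) F) ⊗ₖ ((b⁻¹ : GL (Fin n₂) F) : Matrix (Fin n₂) (Fin n₂) F)) *
      ((a : Matrix (Fin n₁) (Fin n₁) F) ⊗ₖ (b : Matrix (Fin n₂) (Fin n₂) F)) = 1 := by
    rw [← Matrix.mul_kronecker_mul, ← Units.val_mul, ← Units.val_mul, inv_mul_cancel, inv_mul_cancel,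
      Units.val_one, Units.val_one, Matrix.one_kronecker_one]
  let k : GL (Fin n₁ × Fin n₂) F := ⟨_, _, h1, h2⟩
  exact ⟨P * glReindex e.symm k * P⁻¹, ⟨glReindex e.symm k, ⟨k, ⟨a, b, rfl⟩, rfl⟩, rfl⟩, key k a b rfl⟩

/-- **The bridge.** -/
theorem tensor3_max [Fintype F] (hodd : Odd (Fintype.card F)) (hq : 3 < Fintype.card F) (hn : 0 < n₁)
    (e : (Fin m ⊕ Fin m) ≃ Fin n₁ × Fin 3) (P : GL (Fin m ⊕ Fin m) F)
    (f₁ : (Fin n₁ → F) → (Fin n₁ → F) → F) (f₂ : (Fin 3 → F) → (Fin 3 → F) → F)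
    (hf₁ : IsSymplecticForm f₁) (hf₂ : IsSymmetricForm f₂) (hT : IsTensorFormStructure id (sympForm m F) f₁ f₂ e P) :
    IsMaximalIn (spGL m F) (tensorProductSubgroup n₁ 3 e P ⊓ spGL m F) := by
  obtain ⟨c, hc, hT⟩ := hT
  have h2F : (2 : F) ≠ 0 := by
    intro h0
    have hchar : ringChar F = 2 := by
      have h1 : ringChar F ∣ 2 := (ringChar.spec F 2).mp (by exact_mod_cast h0)
      have h2 : ringChar F ≠ 1 := CharP.ringChar_ne_one
      rcases (Nat.dvd_prime Nat.prime_two).mp h1 with h | h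
      · exact absurd h h2
      · exact h
    rw [FiniteField.even_card_iff_char_two] at hchar
    rw [Nat.odd_iff] at hodd
    omega
  obtain ⟨l, hl0, hl1, hl2⟩ : ∃ l : F, l ≠ 0 ∧ l ≠ 1 ∧ l ≠ -1 := by
    classical
    by_contra hcon
    push Not at hcon
    have h1 : (Finset.univ : Finset F) ⊆ {0, 1, -1} := by
      intro x _
      simp only [Finset.mem_insert, Finset.mem_singleton]
      by_cases h0 : x = 0
      · exact Or.inl h0
      by_cases h1 : x = 1
      · exact Or.inr (Or.inl h1)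
      exact Or.inr (Or.inr (hcon x h0 h1))
    have h2 := Finset.card_le_card h1
    have h3 := Finset.card_le_three (a := (0 : F)) (b := 1) (c := -1)
    rw [Finset.card_univ] at h2
    omega
  have hpol : ∀ x₁ y₁ x₂ y₂, sympForm m F (tp e P x₁ x₂) (tp e P y₁ y₂) = c * (f₁ x₁ y₁ * f₂ x₂ y₂) := by
    intro x₁ y₁ x₂ y₂
    exact form_tp (σ := id) (fun a b => rfl)
      (eq_formOfGram (σ := id) hf₁.bilinear.add_left hf₁.bilinear.smul_left (fun x y z => hf₁.bilinear.add_right x y z)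
        (fun c x y => hf₁.bilinear.smul_right c x y))
      (eq_formOfGram (σ := id) hf₂.bilinear.add_left hf₂.bilinear.smul_left (fun x y z => hf₂.bilinear.add_right x y z)
        (fun c x y => hf₂.bilinear.smul_right c x y)) hT x₁ y₁ x₂ y₂
  -- the quadratic form
  let B₀ : (Fin 3 → F) →ₗ[F] (Fin 3 → F) →ₗ[F] F :=
    LinearMap.mk₂ F (fun x y => c / 2 * f₂ x y)
      (fun x y z => by rw [hf₂.bilinear.add_left]; ring)
      (fun a x y => by rw [hf₂.bilinear.smul_left, smul_eq_mul]; ring)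
      (fun x y z => by rw [hf₂.bilinear.add_right]; ring)
      (fun a x y => by rw [hf₂.bilinear.smul_right, smul_eq_mul]; ring)
  obtain ⟨Q, hQ⟩ : ∃ Q : QuadraticForm F (Fin 3 → F), Q = LinearMap.BilinMap.toQuadraticMap B₀ := ⟨_, rfl⟩
  have hQp : ∀ x y, polar Q x y = c * f₂ x y := by
    intro x y
    have h0 : ∀ z, Q z = c / 2 * f₂ z z := fun z => by rw [hQ]; rfl
    rw [polar, h0, h0, h0, hf₂.bilinear.add_left, hf₂.bilinear.add_right, hf₂.bilinear.add_right, hf₂.symm y x]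
    field_simp
    ring
  have hnd : Nd Q := by
    apply nd_of
    intro x hx
    by_contra hne
    obtain ⟨-, y, hy⟩ := hf₂.nondegenerate x hne
    have := hx y
    rw [hQp] at this
    exact hy ((mul_eq_zero.mp this).resolve_left hc)
  -- the symplectic form
  obtain ⟨α, hαf⟩ : ∃ α : (Fin n₁ → F) →ₗ[F] (Fin n₁ → F) →ₗ[F] F, ∀ x y, α x y = f₁ x y :=
    ⟨LinearMap.mk₂ F (fun x y => f₁ x y)
      (fun x y z => by rw [hf₁.bilinear.add_left])
      (fun a x y => by rw [hf₁.bilinear.smul_left, smul_eq_mul])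
      (fun x y z => by rw [hf₁.bilinear.add_right])
      (fun a x y => by rw [hf₁.bilinear.smul_right, smul_eq_mul]), fun x y => rfl⟩
  have hfr : finrank F (Fin 3 → F) = 3 := by rw [finrank_fintype_fun_eq_card, Fintype.card_fin]
  have hTT : ∀ M : Subgroup ((Fin m ⊕ Fin m → F) ≃ₗ[F] (Fin m ⊕ Fin m → F)),
      (∀ g ∈ tensorProductSubgroup n₁ 3 e P ⊓ spGL m F, le g ∈ M) → (∀ g, le g ∈ M → g ∈ spGL m F) →
      TT α Q (sympB m F) (tpB e P) M := by
    intro M hHM hMK
    have hBτ : ∀ e₁ w₁ e₂ w₂, sympB m F (tpB e P e₁ w₁) (tpB e P e₂ w₂) = α e₁ e₂ * polar Q w₁ w₂ := by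
      intro e₁ w₁ e₂ w₂
      rw [sympB_apply, tpB_apply, tpB_apply, hpol, hαf, hQp]; ring
    have hspan : ∀ N : Submodule F (Fin m ⊕ Fin m → F), (∀ x y, tpB e P x y ∈ N) → N = ⊤ := by
      intro N hN
      rw [eq_top_iff, ← span_tp (e := e) (P := P), Submodule.span_le]
      rintro v ⟨x₁, x₂, rfl⟩
      exact hN x₁ x₂
    have hlift : ∀ (σ : (Fin n₁ → F) ≃ₗ[F] (Fin n₁ → F)) (ρ : (Fin 3 → F) ≃ₗ[F] (Fin 3 → F)),
        (∀ x y z w, α (σ x) (σ y) * polar Q (ρ z) (ρ w) = α x y * polar Q z w) →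
        ∃ t ∈ M, ∀ x z, t (tpB e P x z) = tpB e P (σ x) (ρ z) := by
      intro σ ρ hσρ
      obtain ⟨g, hg, h1⟩ := exists_kron e P (le.symm σ) (le.symm ρ)
      have h2 : ∀ x z, le g (tpB e P x z) = tpB e P (σ x) (ρ z) := by
        intro x z
        rw [tpB_apply, h1, tpB_apply, le_symm_mulVec, le_symm_mulVec]
      refine ⟨le g, hHM g ⟨hg, ?_⟩, h2⟩
      change g ∈ spGL m F
      rw [mem_spGL_iff]
      -- an isometry
      have h3 : ∀ v w, sympB m F (le g v) (le g w) = sympB m F v w := by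
        intro v w
        let L : (Fin m ⊕ Fin m → F) →ₗ[F] (Fin m ⊕ Fin m → F) →ₗ[F] F :=
          (sympB m F).compl₁₂ (le g : (Fin m ⊕ Fin m → F) →ₗ[F] _) (le g : (Fin m ⊕ Fin m → F) →ₗ[F] _) - sympB m F
        have hL : ∀ v w, L v w = sympB m F (le g v) (le g w) - sympB m F v w := fun v w => rfl
        have h4 : ∀ x z y w, L (tpB e P x z) (tpB e P y w) = 0 := by
          intro x z y w
          rw [hL, h2, h2, hBτ, hBτ, hσρ, sub_self]
        have h5 : ∀ x z, LinearMap.ker (L (tpB e P x z)) = ⊤ := fun x z => hspan _ fun y w => h4 x z y w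
        have h6 : LinearMap.ker (L.flip w) = ⊤ := hspan _ fun x z => by
          have : w ∈ LinearMap.ker (L (tpB e P x z)) := by rw [h5]; trivial
          exact this
        have h7 : v ∈ LinearMap.ker (L.flip w) := by rw [h6]; trivial
        exact sub_eq_zero.mp h7
      exact h3
    exact
      { hα := fun x => by rw [hαf]; exact hf₁.alternating x
        hαn := by
          intro x hx
          by_contra hne
          obtain ⟨-, y, hy⟩ := hf₁.nondegenerate x hne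
          apply hy
          rw [← hαf]; exact hx y
        hE := by rw [finrank_fintype_fun_eq_card, Fintype.card_fin]; exact hn
        nd := hnd
        two := h2F
        hB := sympB_isAlt m
        hBn := sympB_nd m
        Bτ := hBτ
        span := hspan
        le := by
          intro t ht
          have h1 : le (le.symm t) ∈ M := by rwa [MulEquiv.apply_symm_apply]
          have h2 := hMK _ h1
          rw [mem_spGL_iff, MulEquiv.apply_symm_apply] at h2
          exact h2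
        tE := by
          intro σ hσ
          obtain ⟨t, ht, h1⟩ := hlift σ (LinearEquiv.refl F _) (fun x y z w => by
            have := hσ x y
            simp only at this
            rw [this]; rfl)
          exact ⟨t, ht, fun x z => h1 x z⟩
        tW := by
          intro ρ hρ
          obtain ⟨t, ht, h1⟩ := hlift (LinearEquiv.refl F _) ρ (fun x y z w => by
            rw [O_polar hρ]; rfl)
          exact ⟨t, ht, fun x z => h1 x z⟩ }
  have hmem : ∀ g : GL (Fin m ⊕ Fin m) F, g ∈ tensorProductSubgroup n₁ 3 e P ↔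
      ∃ (s : (Fin n₁ → F) ≃ₗ[F] (Fin n₁ → F)) (C : (Fin 3 → F) ≃ₗ[F] (Fin 3 → F)),
        ∀ x z, le g (tpB e P x z) = tpB e P (s x) (C z) := by
    intro g
    rw [mem_tensor_iff]
    constructor
    · rintro ⟨a, b, h⟩
      exact ⟨le a, le b, fun x z => h x z⟩
    · rintro ⟨s, C, h⟩
      refine ⟨le.symm s, le.symm C, fun x z => ?_⟩
      rw [le_symm_mulVec, le_symm_mulVec]
      exact h x z
  refine isMaximalIn_of ?_ ?_
  · refine lt_of_le_of_ne inf_le_right ?_
    intro heq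
    have T := hTT ((spGL m F).map (le : GL (Fin m ⊕ Fin m) F ≃* _).toMonoidHom)
      (fun g hg => ⟨g, hg.2, rfl⟩) (fun g hg => by
        obtain ⟨y, hy, hyg⟩ := hg
        have : y = g := le.injective hyg
        exact this ▸ hy)
    obtain ⟨t, ht, htn⟩ := T.exists_not_pair (by rw [hfr]; omega)
    apply htn
    have h1 : le.symm t ∈ spGL m F := by
      rw [mem_spGL_iff, MulEquiv.apply_symm_apply]
      exact ht
    rw [← heq] at h1
    obtain ⟨s, C, h⟩ := (hmem _).1 h1.1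
    rw [MulEquiv.apply_symm_apply] at h
    exact ⟨s, C, h⟩
  · intro M hHM hMK hMex g hg
    have T := hTT M hHM hMK
    by_cases hcon : isom (fun x y => sympB m F x y) ≤ M
    · rw [mem_spGL_iff] at hg
      exact hcon hg
    · exfalso
      obtain ⟨g₁, hg₁, hg₁H⟩ := hMex
      apply hg₁H
      exact ⟨(hmem _).2 (T.main hl0 hl1 hl2 hfr hcon hg₁), hMK _ hg₁⟩

end Cfsg.Agent.Lib.TenSpT
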