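import Mathlib
import Cfsg.Agent.Lib.TenSpT7

/-!
# Overgroups of `Sp(E) ∘ O(W)`, `dim W ≥ 4`: nonscalar elements (helper21)
-/

set_option autoImplicit false
set_option linter.unusedSectionVars false
set_option linter.unusedVariables false
set_option linter.unusedSimpArgs false

namespace Cfsg.Agent.Lib.TenSpT

open QuadraticMap Module Cfsg.Agent.Lib.Quad Cfsg.Agent.Lib.OrthNd Cfsg.Agent.Lib.OrthDecH94
open Cfsg.Agent.Lib.SpTrans Cfsg.Agent.Lib.TenSpO

variable {F E W V : Type*} [Field F] [AddCommGroup E] [Module F E] [FiniteDimensional F E]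
  [AddCommGroup W] [Module F W] [FiniteDimensional F W] [AddCommGroup V] [Module F V] [FiniteDimensional F V]

variable {α : E →ₗ[F] E →ₗ[F] F} {Q : QuadraticForm F W} {B : V →ₗ[F] V →ₗ[F] F} {τ : E →ₗ[F] W →ₗ[F] V}
  {M : Subgroup (V ≃ₗ[F] V)}

/-- a nonscalar map moves the line of a nonsingular vector -/
theorem exists_moved4 (h2 : (2 : F) ≠ 0) (hQ : Nd Q)
    (h3 : 3 ≤ finrank F W) {A : W →ₗ[F] W} (hA : ∀ c : F, A ≠ c • LinearMap.id) : ∃ w, Q w ≠ 0 ∧ ∀ c : F, A w ≠ c • w := by
  by_contra hcon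
  push Not at hcon
  obtain ⟨w₀, -, hw₀⟩ := exists_nonsing (TO.nds_top' hQ) (by rw [finrank_top]; omega)
  obtain ⟨μ, hμ⟩ := hcon w₀ hw₀
  have hw₀0 : w₀ ≠ 0 := by rintro rfl; exact hw₀ (by simp)
  apply hA μ
  have key1 : ∀ v, Q v ≠ 0 → A v = μ • v := by
    intro v hv
    obtain ⟨ν, hν⟩ := hcon v hv
    by_cases hvw : v ∈ Submodule.span F {w₀}
    · obtain ⟨c, rfl⟩ := Submodule.mem_span_singleton.1 hvw
      rw [map_smul, hμ, smul_comm]
    by_cases hc' : ∃ c : F, c ≠ 0 ∧ Q (w₀ + c • v) ≠ 0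
    · obtain ⟨c, hc0, hc⟩ := hc'
      obtain ⟨κ, hκ⟩ := hcon _ hc
      rw [map_add, map_smul, hμ, hν] at hκ
      have h5 : (κ - μ) • w₀ = (c * (ν - κ)) • v := by
        rw [← sub_eq_zero] at hκ ⊢
        rw [← neg_eq_zero, ← hκ]
        module
      have h6 : c * (ν - κ) = 0 := by
        by_contra hne
        apply hvw
        rw [Submodule.mem_span_singleton]
        refine ⟨(c * (ν - κ))⁻¹ * (κ - μ), ?_⟩
        rw [mul_smul, h5, smul_smul, inv_mul_cancel₀ hne, one_smul]
      rw [h6, zero_smul, smul_eq_zero, or_iff_left hw₀0] at h5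
      have h7 := (mul_eq_zero.mp h6).resolve_left hc0
      rw [hν, show ν = μ by linear_combination h7 + h5]
    · push Not at hc'
      have e1 := hc' 1 one_ne_zero
      have e2 := hc' (-1) (by simp)
      rw [Q_add, Q_smul, polar_smul_right, smul_eq_mul] at e1 e2
      have e4 : polar Q w₀ v = 0 := by
        have : 2 * polar Q w₀ v = 0 := by linear_combination e1 - e2
        exact (mul_eq_zero.mp this).resolve_left h2
      have e4' : polar Q v w₀ = 0 := by rw [polar_comm]; exact e4
      rw [e4] at e1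
      have hA1 := nds_cut1 hQ h2 (TO.nds_top' hQ) (a := w₀) trivial hw₀
      have hd1 := finrank_cut1 hQ (A := (⊤ : Submodule F W)) (a := w₀)
      rw [finrank_top] at hd1
      set A₁ : Submodule F W := ⊤ ⊓ perp Q (F ∙ w₀) with hA₁
      have hvA : v ∈ A₁ := mem_cut1.2 ⟨trivial, e4⟩
      have hA2 := nds_cut1 hQ h2 hA1 (a := v) hvA hv
      have hd2 := finrank_cut1 hQ (A := A₁) (a := v)
      obtain ⟨z, hzA, hz⟩ := exists_nonsing hA2 (by omega)
      have hz1 := mem_cut1.1 hzA
      have hz2 := (mem_cut1.1 hz1.1).2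
      have hvz := hz1.2
      have hx : Q (w₀ + v + z) ≠ 0 := by
        rw [Q_add, Q_add, polar_add_left, hz2, hvz, e4]
        intro h0
        apply hz
        linear_combination h0 - e1
      obtain ⟨κ, hκ⟩ := hcon _ hx
      obtain ⟨ζ, hζ⟩ := hcon z hz
      rw [map_add, map_add, hμ, hν, hζ] at hκ
      have hzw : polar Q z w₀ = 0 := by rw [polar_comm]; exact hz2
      have hzv : polar Q z v = 0 := by rw [polar_comm]; exact hvz
      have f1 := congrArg (fun x => polar Q x w₀) hκ
      have f2 := congrArg (fun x => polar Q x v) hκ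
      simp only [polar_add_left, polar_smul_left, polar_self', smul_eq_mul, e4, e4', hzw, hzv, mul_zero, add_zero, zero_add] at f1 f2
      have g1 : μ = κ := mul_right_cancel₀ (mul_ne_zero h2 hw₀) f1
      have g2 : ν = κ := mul_right_cancel₀ (mul_ne_zero h2 hv) f2
      rw [hν, g2, g1]
  ext v
  rw [LinearMap.smul_apply, LinearMap.id_apply]
  by_cases hv : Q v = 0
  · obtain ⟨c, hc0, hc⟩ : ∃ c : F, c ≠ 0 ∧ Q (v + c • w₀) ≠ 0 := by
      by_contra hcc
      push Not at hcc
      have e1 := hcc 1 one_ne_zero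
      have e2 := hcc (-1) (by simp)
      rw [Q_add, Q_smul, polar_smul_right, smul_eq_mul, hv] at e1 e2
      apply hw₀
      have : 2 * Q w₀ = 0 := by linear_combination e1 + e2
      exact (mul_eq_zero.mp this).resolve_left h2
    have h4 := key1 _ hc
    rw [map_add, map_smul, hμ] at h4
    have h5 : A v = (A v + c • μ • w₀) - c • μ • w₀ := by abel
    rw [h5, h4]; module
  · exact key1 v hv

namespace TT

variable (T : TT α Q B τ M)

include T

/-- from a nonscalar map to a product -/
theorem ss_prod4 (h3 : 3 ≤ finrank F W) {f : E} {A : W →ₗ[F] W}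
    (h : SS T f A) (hA : ∀ c : F, A ≠ c • LinearMap.id) :
    ∃ w y, Q w ≠ 0 ∧ y ≠ 0 ∧ polar Q w y = 0 ∧ SS T f (dm Q w y) := by
  have h2 := T.two
  obtain ⟨w, hw, hwA⟩ := exists_moved4 h2 T.nd h3 hA
  set κ : F := (Q w)⁻¹ with hκ
  have hκ0 : κ ≠ 0 := inv_ne_zero hw
  refine ⟨w, A w - (κ * polar Q w (A w) / 2) • w, hw, ?_, ?_, ?_⟩
  · intro h0
    exact hwA _ (sub_eq_zero.mp h0)
  · rw [polar_sub_right, polar_smul_right, polar_self', smul_eq_mul, hκ]
    field_simp
    ring
  · have hr := refl_mem (Q := Q) w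
    -- the conjugate
    have hB : SS T f (A - κ • dm Q w (A w) + (κ * κ * polar Q w (A w) / 2) • dm Q w w) := by
      refine T.ss_map h hr fun x => ?_
      have hx : ∀ y, refl Q w y = y - (κ * polar Q w y) • w := fun y => refl_apply hw y
      simp only [LinearMap.add_apply, LinearMap.sub_apply, LinearMap.smul_apply, dm_apply, hx, map_sub, map_smul, polar_sub_right,
        polar_smul_right, polar_self', smul_eq_mul]
      rw [h.1 w x, polar_comm Q (A w) w]
      have e1 : κ * Q w = 1 := by rw [hκ, inv_mul_cancel₀ hw]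
      match_scalars
      · ring
      · linear_combination (2 * κ * polar Q w x) * e1
      · field_simp
        linear_combination (-4 * κ * polar Q w x * polar Q w (A w)) * e1
    have hC := T.ss_sub h hB
    refine T.ss_of hκ0 ?_
    have e : A - (A - κ • dm Q w (A w) + (κ * κ * polar Q w (A w) / 2) • dm Q w w) =
        κ • dm Q w (A w - (κ * polar Q w (A w) / 2) • w) := by
      ext x
      simp only [LinearMap.add_apply, LinearMap.sub_apply, LinearMap.smul_apply, dm_apply, polar_sub_left, polar_smul_left,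
        smul_eq_mul]
      match_scalars
      · ring
      · ring
      · field_simp
        ring
    rwa [e] at hC

/-- to an isotropic square -/
theorem ss_fin1 [Finite F] (h4 : 4 ≤ finrank F W) {f : E} {w y : W} (h : SS T f (dm Q w y)) (hw : Q w ≠ 0) (hy : y ≠ 0)
    (hwy : polar Q w y = 0) : ∃ u, u ≠ 0 ∧ Q u = 0 ∧ SS T f (dm Q u u) := by
  have hA := nds_cut1 T.nd T.two (TO.nds_top' T.nd) (a := w) trivial hw
  have hd := finrank_cut1 T.nd (A := (⊤ : Submodule F W)) (a := w)
  rw [finrank_top] at hd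
  set A : Submodule F W := ⊤ ⊓ perp Q (F ∙ w) with hAdef
  have hyA : y ∈ A := mem_cut1.2 ⟨trivial, hwy⟩
  obtain ⟨u, huA, hu, hyu⟩ := exists_sing_polar T.nd hA (by omega) hyA hy
  have hu0 : u ≠ 0 := by rintro rfl; rw [polar_zero_right] at hyu; exact zero_ne_one hyu
  obtain ⟨s, hsA, hus, hs⟩ := exists_nonsing_perp' T.nd hA (by omega) huA hu0 hu
  have hwu := (mem_cut1.1 huA).2
  have hws := (mem_cut1.1 hsA).2
  have huw : polar Q u w = 0 := by rw [polar_comm]; exact hwu
  have huy : polar Q u y = 1 := by rw [polar_comm]; exact hyu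
  -- Siegel transformations
  have hus' : polar Q u (-s) = 0 := by rw [polar_neg_right, hus, neg_zero]
  have m1 := ofMap_mem T.nd (siegMap Q u s) (siegMap_Q hu hus)
  have m2 := ofMap_mem T.nd (siegMap Q u (-s)) (siegMap_Q hu hus')
  have k1 := T.ss_dmap h m1
  have k2 := T.ss_dmap h m2
  rw [ofMap_apply, ofMap_apply, siegMap_apply, siegMap_apply] at k1 k2
  have hsw : polar Q s w = 0 := by rw [polar_comm]; exact hws
  have hk : SS T f (dm Q w u) := by
    have e : (dm Q (w + polar Q u w • s - polar Q s w • u - (Q s * polar Q u w) • u)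
        (y + polar Q u y • s - polar Q s y • u - (Q s * polar Q u y) • u)) +
        (dm Q (w + polar Q u w • (-s) - polar Q (-s) w • u - (Q (-s) * polar Q u w) • u)
        (y + polar Q u y • (-s) - polar Q (-s) y • u - (Q (-s) * polar Q u y) • u)) - dm Q w y - dm Q w y =
        (-(2 * Q s)) • dm Q w u := by
      ext x
      simp only [LinearMap.add_apply, LinearMap.sub_apply, LinearMap.smul_apply, dm_apply, huw, hsw, huy,
        polar_neg_left, QuadraticMap.map_neg, neg_zero, zero_smul, mul_zero, add_zero, sub_zero, polar_add_left, polar_sub_left,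
        polar_smul_left, smul_eq_mul]
      module
    have := T.ss_sub (T.ss_sub (T.ss_add k1 k2) h) h
    rw [e] at this
    exact T.ss_of (neg_ne_zero.mpr (mul_ne_zero T.two hs)) this
  exact ⟨u, hu0, hu, T.ss_iso hw hu hwu hk⟩

/-- **Nonscalar elements suffice.** -/
theorem ss_fin4 [Finite F] (h4 : 4 ≤ finrank F W) {f : E} (hf : f ≠ 0)
    {A : W →ₗ[F] W} (h : SS T f A) (hA : ∀ c : F, A ≠ c • LinearMap.id) : isom (fun x y => B x y) ≤ M := by
  obtain ⟨w, y, hw, hy, hwy, h1⟩ := T.ss_prod4 (by omega) h hA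
  obtain ⟨u, hu0, hu, h2⟩ := T.ss_fin1 h4 h1 hw hy hwy
  exact T.fin3 (by omega) hf hu0 hu (T.cen_of h2)

end TT

end Cfsg.Agent.Lib.TenSpT
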