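import Mathlib
import Cfsg.Agent.Lib.TenSpG1

/-!
# Overgroups of `Sp(E) ∘ O(W)`, `dim W ≥ 4`: the unipotent radical (helper21)
-/

set_option autoImplicit false
set_option linter.unusedSectionVars false
set_option linter.unusedVariables false
set_option linter.unusedSimpArgs false

namespace Cfsg.Agent.Lib.TenSpT

open QuadraticMap Module Cfsg.Agent.Lib.Quad Cfsg.Agent.Lib.OrthNd Cfsg.Agent.Lib.OrthDecH94
open Cfsg.Agent.Lib.SpTrans Cfsg.Agent.Lib.TenSpO

variable {F E W V : Type*} [Field F] [AddCommGroup E] [Module F E] [FiniteDimensional F E]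
  [AddCommGroup W] [Module F W] [FiniteDimensional F W] [AddCommGroup V] [Module F V] [FiniteDimensional F V]

variable {α : E →ₗ[F] E →ₗ[F] F} {Q : QuadraticForm F W} {B : V →ₗ[F] V →ₗ[F] F} {τ : E →ₗ[F] W →ₗ[F] V}
  {M : Subgroup (V ≃ₗ[F] V)}

theorem me_conj {t : V ≃ₗ[F] V} (ht : t ∈ M) {f g : Module.End F V} (hf : Me M f) (h : ∀ v, g (t v) = t (f v)) : Me M g := by
  obtain ⟨s, hs, h1⟩ := hf
  refine ⟨t * s * t⁻¹, mul_mem (mul_mem ht hs) (inv_mem ht), fun v => ?_⟩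
  have e1 : t (t⁻¹ v) = v := t.apply_symm_apply v
  rw [LinearEquiv.mul_apply, LinearEquiv.mul_apply, h1, ← h, e1]

theorem me_div {f g k : Module.End F V} (hf : Me M f) (hg : Me M g) (h : f = k * g) : Me M k := by
  obtain ⟨s, hs, h1⟩ := hf
  obtain ⟨t, ht, h2⟩ := hg
  refine ⟨s * t⁻¹, mul_mem hs (inv_mem ht), fun v => ?_⟩
  have e1 : t (t⁻¹ v) = v := t.apply_symm_apply v
  rw [LinearEquiv.mul_apply, h1, h]
  change k (g (t⁻¹ v)) = k v
  rw [← h2, e1]

namespace TT

variable (T : TT α Q B τ M)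

include T

theorem cc_add (f f' : E) (v : V) : T.cc (f + f') v = T.cc f v + T.cc f' v := by
  apply T.eqW
  intro w
  rw [T.cc_spec, polar_add_left, T.cc_spec, T.cc_spec, map_add, LinearMap.add_apply, map_add]

theorem cc_smul (c : F) (f : E) (v : V) : T.cc (c • f) v = c • T.cc f v := by
  apply T.eqW
  intro w
  rw [T.cc_spec, polar_smul_left, T.cc_spec, map_smul, LinearMap.smul_apply, map_smul]

theorem cc_neg (f : E) (v : V) : T.cc (-f) v = - T.cc f v := by
  rw [← neg_one_smul F f, T.cc_smul, neg_one_smul]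

theorem cc_sub (f f' : E) (v : V) : T.cc (f - f') v = T.cc f v - T.cc f' v := by
  rw [sub_eq_add_neg, T.cc_add, T.cc_neg, ← sub_eq_add_neg]

theorem cc_lift {t : V ≃ₗ[F] V} (ht : t ∈ M) {f f' : E} {R R' : W →ₗ[F] W} (hR : ∀ w, t (τ f w) = τ f' (R w))
    (hA : Adj Q R R') (v : V) : R' (T.cc f' (t v)) = T.cc f v := by
  apply T.eqW
  intro w
  rw [polar_comm, ← hA, T.cc_spec', ← hR, T.cc_spec]
  exact T.le ht _ _

theorem cc_liftE {t : V ≃ₗ[F] V} (ht : t ∈ M) {f f' : E} (hR : ∀ w, t (τ f w) = τ f' w)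
    (v : V) : T.cc f' (t v) = T.cc f v :=
  T.cc_lift ht (R := LinearMap.id) (R' := LinearMap.id) hR (fun x y => rfl) v

theorem cc_liftW {t : V ≃ₗ[F] V} (ht : t ∈ M) {ρ : W ≃ₗ[F] W} (hρ : ρ ∈ O Q) {f : E} (hR : ∀ w, t (τ f w) = τ f (ρ w))
    (v : V) : T.cc f (t v) = ρ (T.cc f v) := by
  have h := T.cc_lift ht (R := (ρ : W →ₗ[F] W)) (R' := (ρ.symm : W →ₗ[F] W)) hR (fun x y => by
    change polar Q (ρ x) y = polar Q x (ρ.symm y)
    rw [← O_polar hρ x, LinearEquiv.apply_symm_apply]) v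
  rw [← h]
  exact (ρ.apply_symm_apply _).symm

end TT

/-- elements of the unipotent radical -/
noncomputable def psi (T : TT α Q B τ M) (e a : E) (X X' : W →ₗ[F] W) : Module.End F V :=
  (τ a) ∘ₗ X' ∘ₗ (T.cc e) + (τ e) ∘ₗ X ∘ₗ (T.cc a)

theorem psi_apply (T : TT α Q B τ M) (e a : E) (X X' : W →ₗ[F] W) (v : V) :
    psi T e a X X' v = τ a (X' (T.cc e v)) + τ e (X (T.cc a v)) := rfl

/-- the maps realised, up to the centre -/
def DE (T : TT α Q B τ M) (e a : E) (X : W →ₗ[F] W) : Prop :=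
  ∃ X', Adj Q X X' ∧ ∀ c : F, ∃ S : W →ₗ[F] W, Me M (1 + c • psi T e a X X' + chi T e S)

namespace TT

variable (T : TT α Q B τ M)

include T

theorem adj_unique {X X' X'' : W →ₗ[F] W} (h : Adj Q X X') (h' : Adj Q X X'') : X' = X'' := by
  ext y
  apply T.eqW
  intro x
  rw [polar_comm, ← h, h', polar_comm]

theorem chi_add (e : E) (S S' : W →ₗ[F] W) : chi T e (S + S') = chi T e S + chi T e S' := by
  ext v
  rw [LinearMap.add_apply, chi_apply, chi_apply, chi_apply, LinearMap.add_apply, map_add]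

theorem chi_smul (e : E) (c : F) (S : W →ₗ[F] W) : chi T e (c • S) = c • chi T e S := by
  ext v
  rw [LinearMap.smul_apply, chi_apply, chi_apply, LinearMap.smul_apply, map_smul]

theorem psi_psi {e a b : E} (ha : α a e = 0) (hb : α b e = 0) (X X' Y Y' : W →ₗ[F] W) :
    psi T e a X X' * psi T e b Y Y' = α b a • chi T e (X ∘ₗ Y') := by
  ext v
  have h1 : α e a = 0 := by rw [T.αsw, ha, neg_zero]
  change psi T e a X X' (psi T e b Y Y' v) = α b a • τ e (X (Y' (T.cc e v)))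
  simp only [psi_apply, map_add, T.cc_τ, hb, T.hα e, h1, zero_smul, map_zero, add_zero, zero_add, map_smul]

theorem psi_chi {e a : E} (ha : α a e = 0) (X X' S : W →ₗ[F] W) : psi T e a X X' * chi T e S = 0 := by
  ext v
  have h1 : α e a = 0 := by rw [T.αsw, ha, neg_zero]
  change psi T e a X X' (chi T e S v) = 0
  rw [psi_apply, chi_apply, T.cc_τ, T.cc_τ, h1, T.hα e]
  simp only [zero_smul, map_zero, add_zero]

theorem chi_psi {e a : E} (ha : α a e = 0) (X X' S : W →ₗ[F] W) : chi T e S * psi T e a X X' = 0 := by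
  ext v
  change chi T e S (psi T e a X X' v) = 0
  rw [psi_apply, chi_apply, map_add, T.cc_τ, T.cc_τ, ha, T.hα e]
  simp only [zero_smul, map_zero, add_zero]

theorem g_mul {e a b : E} (ha : α a e = 0) (hb : α b e = 0) (c d : F) (X X' Y Y' S S' : W →ₗ[F] W) :
    (1 + c • psi T e a X X' + chi T e S) * (1 + d • psi T e b Y Y' + chi T e S') =
      1 + c • psi T e a X X' + d • psi T e b Y Y' + chi T e (S + S' + (c * d * α b a) • (X ∘ₗ Y')) := by
  simp only [mul_add, add_mul, one_mul, mul_one, smul_mul_smul_comm, mul_smul_comm, smul_mul_assoc, T.psi_psi ha hb,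
    T.psi_chi ha, T.chi_psi hb, T.nu_sq, T.chi_add, T.chi_smul, smul_zero]
  module

/-- commutators -/
theorem de_comm {e a b : E} (ha : α a e = 0) (hb : α b e = 0) (hab : α b a ≠ 0) {X X' Y Y' : W →ₗ[F] W}
    (hX : Adj Q X X') (hY : Adj Q Y Y') (h : DE T e a X) (h' : DE T e b Y) : SS T e (X ∘ₗ Y' + Y ∘ₗ X') := by
  refine ⟨fun x y => ?_, fun c => ?_⟩
  · simp only [LinearMap.add_apply, LinearMap.comp_apply, polar_add_left, polar_add_right]
    rw [hX, adj_symm hY, hY, adj_symm hX, add_comm]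
  · obtain ⟨X₁, hX₁, h1⟩ := h
    obtain ⟨Y₁, hY₁, h2⟩ := h'
    rw [T.adj_unique hX₁ hX] at h1
    rw [T.adj_unique hY₁ hY] at h2
    obtain ⟨S, h3⟩ := h1 (c / α b a)
    obtain ⟨S', h4⟩ := h2 1
    have h5 := h3.mul h4
    have h6 := h4.mul h3
    rw [T.g_mul ha hb] at h5
    rw [T.g_mul hb ha] at h6
    refine me_div h5 h6 ?_
    have e1 : α a b = - α b a := T.αsw a b
    have e2 : c / α b a * 1 * α b a = c := by field_simp
    have e3 : 1 * (c / α b a) * α a b = -c := by rw [e1]; field_simp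
    rw [e2, e3]
    simp only [mul_add, add_mul, one_mul, mul_one, smul_mul_smul_comm, mul_smul_comm, smul_mul_assoc,
      T.chi_psi hb, T.chi_psi ha, T.nu_sq, T.chi_add, T.chi_smul, smul_zero]
    module

/-- scalars are realised -/
theorem de_one {e a : E} (ha : α a e = 0) : DE T e a LinearMap.id := by
  refine ⟨LinearMap.id, fun x y => rfl, fun c => ⟨c • LinearMap.id, ?_⟩⟩
  have h1 := (T.qd_nu (e + a)).me c
  have h2 := (T.qd_nu a).me (-c)
  have h3 := h1.mul h2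
  have h4 : α e a = 0 := by rw [T.αsw, ha, neg_zero]
  have e1 : (1 + c • chi T (e + a) LinearMap.id) * (1 + (-c) • chi T a LinearMap.id) =
      1 + c • psi T e a LinearMap.id LinearMap.id + chi T e (c • LinearMap.id) := by
    ext v
    change (v + (-c) • τ a (T.cc a v)) + c • τ (e + a) (T.cc (e + a) (v + (-c) • τ a (T.cc a v))) =
      v + c • (τ a (T.cc e v) + τ e (T.cc a v)) + τ e (c • T.cc e v)
    simp only [T.cc_add, map_add, map_smul, T.cc_τ, ha, T.hα a, zero_smul, smul_zero, add_zero, LinearMap.add_apply]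
    module
  rwa [e1] at h3

theorem de_smul {e a : E} {X : W →ₗ[F] W} (h : DE T e a X) (d : F) : DE T e a (d • X) := by
  obtain ⟨X', hX, h1⟩ := h
  refine ⟨d • X', fun x y => ?_, fun c => ?_⟩
  · rw [LinearMap.smul_apply, LinearMap.smul_apply, polar_smul_left, polar_smul_right, hX]
  · obtain ⟨S, hS⟩ := h1 (c * d)
    refine ⟨S, ?_⟩
    have e1 : c • psi T e a (d • X) (d • X') = (c * d) • psi T e a X X' := by
      ext v
      simp only [LinearMap.smul_apply, psi_apply, map_smul]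
      module
    rwa [e1]

theorem de_add {e a : E} (ha : α a e = 0) {X Y : W →ₗ[F] W} (h : DE T e a X) (h' : DE T e a Y) : DE T e a (X + Y) := by
  obtain ⟨X', hX, h1⟩ := h
  obtain ⟨Y', hY, h2⟩ := h'
  refine ⟨X' + Y', fun x y => ?_, fun c => ?_⟩
  · rw [LinearMap.add_apply, LinearMap.add_apply, polar_add_left, polar_add_right, hX, hY]
  · obtain ⟨S, hS⟩ := h1 c
    obtain ⟨S', hS'⟩ := h2 c
    have h3 := hS.mul hS'
    rw [T.g_mul ha ha, T.hα a] at h3
    refine ⟨S + S', ?_⟩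
    have e1 : 1 + c • psi T e a X X' + c • psi T e a Y Y' + chi T e (S + S' + (c * c * 0) • X ∘ₗ Y') =
        1 + c • psi T e a (X + Y) (X' + Y') + chi T e (S + S') := by
      ext v
      simp only [LinearMap.smul_apply, LinearMap.add_apply, psi_apply, chi_apply, map_add, mul_zero, zero_smul, add_zero]
      module
    rwa [e1] at h3

theorem de_sub {e a : E} (ha : α a e = 0) {X Y : W →ₗ[F] W} (h : DE T e a X) (h' : DE T e a Y) : DE T e a (X - Y) := by
  have := T.de_add ha h (T.de_smul h' (-1))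
  rwa [neg_smul, one_smul, ← sub_eq_add_neg] at this

theorem de_of {e a : E} {X : W →ₗ[F] W} {c : F} (hc : c ≠ 0) (h : DE T e a (c • X)) : DE T e a X := by
  have := T.de_smul h c⁻¹
  rwa [smul_smul, inv_mul_cancel₀ hc, one_smul] at this

theorem de_map {e a : E} {X Y : W →ₗ[F] W} (h : DE T e a X) {ρ : W ≃ₗ[F] W} (hρ : ρ ∈ O Q) (hY : ∀ x, Y (ρ x) = ρ (X x)) :
    DE T e a Y := by
  obtain ⟨X', hX, h1⟩ := h
  obtain ⟨Y', hYY⟩ := T.exists_adj Y
  obtain ⟨t, ht, h2⟩ := T.tW ρ hρ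
  refine ⟨Y', hYY, fun c => ?_⟩
  obtain ⟨S, hS⟩ := h1 c
  have e1 : ∀ x, Y' (ρ x) = ρ (X' x) := by
    intro x
    apply T.eqW
    intro y
    obtain ⟨z, rfl⟩ := ρ.surjective y
    rw [polar_comm, ← hYY, hY, O_polar hρ, O_polar hρ, hX, polar_comm]
  refine ⟨(ρ : W →ₗ[F] W) ∘ₗ S ∘ₗ (ρ.symm : W →ₗ[F] W), me_conj ht hS fun v => ?_⟩
  have e2 : ∀ f, T.cc f (t v) = ρ (T.cc f v) := fun f => T.cc_liftW ht hρ (h2 f) v
  change t v + c • (τ a (Y' (T.cc e (t v))) + τ e (Y (T.cc a (t v)))) + τ e (ρ (S (ρ.symm (T.cc e (t v))))) =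
    t (v + c • (τ a (X' (T.cc e v)) + τ e (X (T.cc a v))) + τ e (S (T.cc e v)))
  rw [e2, e2, e1, hY, ρ.symm_apply_apply, map_add, map_add, map_smul, map_add, h2, h2, h2]

theorem de_move {e a b : E} {X : W →ₗ[F] W} (h : DE T e a X) {σ : E ≃ₗ[F] E} (hσ : σ ∈ isom (fun x y => α x y))
    (he : σ e = e) (hab : σ a = b) : DE T e b X := by
  obtain ⟨X', hX, h1⟩ := h
  obtain ⟨t, ht, h2⟩ := T.tE σ hσ
  refine ⟨X', hX, fun c => ?_⟩
  obtain ⟨S, hS⟩ := h1 c
  refine ⟨S, me_conj ht hS fun v => ?_⟩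
  have e2 : T.cc e (t v) = T.cc e v := T.cc_liftE ht (fun w => by rw [h2, he]) v
  have e3 : T.cc b (t v) = T.cc a v := T.cc_liftE ht (fun w => by rw [h2, hab]) v
  change t v + c • (τ b (X' (T.cc e (t v))) + τ e (X (T.cc b (t v)))) + τ e (S (T.cc e (t v))) =
    t (v + c • (τ a (X' (T.cc e v)) + τ e (X (T.cc a v))) + τ e (S (T.cc e v)))
  rw [e2, e3, map_add, map_add, map_smul, map_add, h2, h2, h2, he, hab]

/-- transport -/
theorem de_mv {e a b : E} {X : W →ₗ[F] W} (h : DE T e a X) (ha : α a e = 0) (hb : α b e = 0) (hab : α a b ≠ 0) :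
    DE T e b X := by
  have he : α e (a - b) = 0 := by
    rw [map_sub, T.αsw e a, T.αsw e b, ha, hb]; simp
  refine T.de_move h (tv_mem_isom T.hα (a - b) (1 / α a b)) ?_ ?_
  · rw [tv_apply, he, mul_zero, zero_smul, add_zero]
  · rw [tv_apply, map_sub, T.hα a, zero_sub]
    have : 1 / α a b * -α a b = -1 := by field_simp
    rw [this]
    module

end TT

end Cfsg.Agent.Lib.TenSpT
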