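import Mathlib
import Cfsg.Agent.Lib.TenSpG2

/-!
# Overgroups of `Sp(E) ∘ O(W)`, `dim W ≥ 4`: the unipotent radical is small (helper21)
-/

set_option autoImplicit false
set_option linter.unusedSectionVars false
set_option linter.unusedVariables false
set_option linter.unusedSimpArgs false

namespace Cfsg.Agent.Lib.TenSpT

open QuadraticMap Module Cfsg.Agent.Lib.Quad Cfsg.Agent.Lib.OrthNd Cfsg.Agent.Lib.OrthDecH94
open Cfsg.Agent.Lib.SpTrans Cfsg.Agent.Lib.TenSpO

variable {F E W V : Type*} [Field F] [AddCommGroup E] [Module F E] [FiniteDimensional F E]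
  [AddCommGroup W] [Module F W] [FiniteDimensional F W] [AddCommGroup V] [Module F V] [FiniteDimensional F V]

variable {α : E →ₗ[F] E →ₗ[F] F} {Q : QuadraticForm F W} {B : V →ₗ[F] V →ₗ[F] F} {τ : E →ₗ[F] W →ₗ[F] V}
  {M : Subgroup (V ≃ₗ[F] V)}

/-- wedge products -/
def wd (Q : QuadraticForm F W) (w y : W) : W →ₗ[F] W := (polarBilin Q w).smulRight y - (polarBilin Q y).smulRight w

theorem wd_apply (w y x : W) : wd Q w y x = polar Q w x • y - polar Q y x • w := rfl

theorem wd_adj (w y : W) : Adj Q (wd Q w y) (-(wd Q w y)) := by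
  intro x z
  rw [LinearMap.neg_apply, wd_apply, wd_apply, polar_neg_right, polar_sub_left, polar_sub_right, polar_smul_left,
    polar_smul_left, polar_smul_right, polar_smul_right, polar_comm Q x y, polar_comm Q x w]
  simp only [smul_eq_mul]
  ring

namespace TT

variable (T : TT α Q B τ M)

include T

/-- a vector orthogonal to three vectors -/
theorem exists_orth3 (h4 : 4 ≤ finrank F W) (x y z : W) : ∃ v, v ≠ 0 ∧ polar Q x v = 0 ∧ polar Q y v = 0 ∧ polar Q z v = 0 := by
  let L : W →ₗ[F] (Fin 3 → F) := LinearMap.pi ![polarBilin Q x, polarBilin Q y, polarBilin Q z]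
  have h1 : 0 < finrank F (LinearMap.ker L) := by
    have := LinearMap.finrank_range_add_finrank_ker L
    have h5 := Submodule.finrank_le (LinearMap.range L)
    rw [Module.finrank_fin_fun] at h5
    omega
  obtain ⟨v, hv⟩ := (Module.finrank_pos_iff_exists_ne_zero (R := F)).1 h1
  have h2 : L v = 0 := LinearMap.mem_ker.1 v.2
  refine ⟨v, fun h => hv (Subtype.ext h), ?_, ?_, ?_⟩
  · exact congrFun h2 0
  · exact congrFun h2 1
  · exact congrFun h2 2

theorem scal (h4 : 4 ≤ finrank F W) [Finite F] (hcon : ¬ isom (fun x y => B x y) ≤ M) {f : E} (hf : f ≠ 0)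
    {A : W →ₗ[F] W} (h : SS T f A) : ∃ c : F, A = c • LinearMap.id := by
  by_contra hc
  push Not at hc
  exact hcon (T.ss_fin4 h4 hf h hc)

/-- skew parts -/
theorem de_wd [Finite F] (h4 : 4 ≤ finrank F W) (hcon : ¬ isom (fun x y => B x y) ≤ M) {e a b : E} (he : e ≠ 0)
    (ha : α a e = 0) (hb : α b e = 0) (hab : α a b ≠ 0) {w u : W} (hw : Q w ≠ 0) (hwu : polar Q w u = 0)
    (h : DE T e a (wd Q w u)) : u = 0 := by
  have h2 := T.two
  have key : ∀ ρ ∈ O Q, ρ w = w → polar Q u (ρ u) = 0 := by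
    intro ρ hρ hρw
    have h5 : DE T e a (wd Q w (ρ u)) := T.de_map h hρ fun x => by
      rw [wd_apply, wd_apply, O_polar hρ, map_sub, map_smul, map_smul, hρw]
      congr 2
      rw [← O_polar hρ w x, hρw]
    have h6 : DE T e b (wd Q w (ρ u)) := T.de_mv h5 ha hb hab
    have hba : α b a ≠ 0 := by rw [T.αsw]; exact neg_ne_zero.mpr hab
    have h7 := T.de_comm ha hb hba (wd_adj w u) (wd_adj w (ρ u)) h h6
    obtain ⟨c, hc⟩ := T.scal h4 hcon he h7
    have hwρ : polar Q w (ρ u) = 0 := by rw [← hwu, ← O_polar hρ w u, hρw]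
    obtain ⟨z, hz0, hz1, hz2, hz3⟩ := T.exists_orth3 h4 w u (ρ u)
    have hc0 : c = 0 := by
      have := LinearMap.congr_fun hc z
      simp only [LinearMap.add_apply, LinearMap.comp_apply, LinearMap.neg_apply, LinearMap.smul_apply, LinearMap.id_apply,
        wd_apply, hz1, hz2, hz3, zero_smul, sub_zero, map_zero, neg_zero, add_zero, smul_zero] at this
      exact (smul_eq_zero.mp this.symm).resolve_right hz0
    have h8 := LinearMap.congr_fun hc w
    have huw : polar Q u w = 0 := by rw [polar_comm]; exact hwu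
    have hρuw : polar Q (ρ u) w = 0 := by rw [polar_comm]; exact hwρ
    have hw0 : w ≠ 0 := by rintro rfl; exact hw (by simp)
    rw [hc0, zero_smul, LinearMap.zero_apply] at h8
    simp only [LinearMap.add_apply, LinearMap.comp_apply, LinearMap.neg_apply, wd_apply, huw, hρuw, polar_self', zero_smul,
      sub_zero, map_smul, map_neg, hwρ, hwu, zero_sub] at h8
    rw [polar_comm Q (ρ u) u] at h8
    have h9 : (4 * Q w * polar Q u (ρ u)) • w = 0 := by
      rw [← h8]
      module
    have h10 := (smul_eq_zero.mp h9).resolve_right hw0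
    have h44 : (4 : F) ≠ 0 := by
      have : (4 : F) = 2 * 2 := by norm_num
      rw [this]; exact mul_ne_zero h2 h2
    exact (mul_eq_zero.mp h10).resolve_left (mul_ne_zero h44 hw)
  by_contra hu0
  have h5 : Q u = 0 := by
    have := key 1 (one_mem _) rfl
    change polar Q u u = 0 at this
    rw [polar_self'] at this
    exact (mul_eq_zero.mp this).resolve_left h2
  have hA := nds_cut1 T.nd T.two (TO.nds_top' T.nd) (a := w) trivial hw
  have hd := finrank_cut1 T.nd (A := (⊤ : Submodule F W)) (a := w)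
  rw [finrank_top] at hd
  set A : Submodule F W := ⊤ ⊓ perp Q (F ∙ w) with hAdef
  have huA : u ∈ A := mem_cut1.2 ⟨trivial, hwu⟩
  obtain ⟨u', huA', hu', huu'⟩ := exists_sing_polar T.nd hA (by omega) huA hu0
  have hwu' := (mem_cut1.1 huA').2
  have hQ : Q (u - u') = -1 := by
    rw [sub_eq_add_neg, Q_add, QuadraticMap.map_neg, h5, hu', polar_neg_right, huu']; ring
  have hQ0 : Q (u - u') ≠ 0 := by rw [hQ]; simp
  have h6 := key (refl Q (u - u')) (refl_mem _) (by
    rw [refl_apply hQ0, polar_sub_left, polar_comm Q u w, polar_comm Q u' w, hwu, hwu']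
    simp)
  have h7 : refl Q (u - u') u = u' := by
    rw [refl_apply hQ0, polar_sub_left, polar_self', h5, polar_comm Q u' u, huu', hQ]
    have : (-1 : F)⁻¹ * (2 * 0 - 1) = 1 := by rw [inv_neg, inv_one]; ring
    rw [this, one_smul]; abel
  rw [h7, huu'] at h6
  exact one_ne_zero h6

/-- **The maps realised are scalars.** -/
theorem de_scalar [Finite F] (h4 : 4 ≤ finrank F W) (hcon : ¬ isom (fun x y => B x y) ≤ M) {e a b : E} (he : e ≠ 0)
    (ha : α a e = 0) (hb : α b e = 0) (hab : α a b ≠ 0) {X : W →ₗ[F] W} (h : DE T e a X) :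
    ∃ c : F, X = c • LinearMap.id := by
  have h2 := T.two
  obtain ⟨X', hX⟩ := T.exists_adj X
  have hba : α b a ≠ 0 := by rw [T.αsw]; exact neg_ne_zero.mpr hab
  obtain ⟨c₀, hc₀⟩ := T.scal h4 hcon he (T.de_comm ha hb hba hX (Y := LinearMap.id) (Y' := LinearMap.id)
    (fun x y => rfl) h (T.de_one hb))
  obtain ⟨K, hK⟩ : ∃ K : W →ₗ[F] W, K = X - (c₀ / 2) • LinearMap.id := ⟨_, rfl⟩
  have hDK : DE T e a K := by
    rw [hK]
    exact T.de_sub ha h (T.de_smul (T.de_one ha) _)
  have hKs : ∀ x y, polar Q (K x) y = - polar Q x (K y) := by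
    intro x y
    have h5 := LinearMap.congr_fun hc₀ y
    simp only [LinearMap.add_apply, LinearMap.comp_apply, LinearMap.id_apply, LinearMap.smul_apply] at h5
    have h6 : polar Q x (X y) + polar Q x (X' y) = c₀ * polar Q x y := by
      rw [← polar_add_right, h5, polar_smul_right, smul_eq_mul]
    rw [hK]
    simp only [LinearMap.sub_apply, LinearMap.smul_apply, LinearMap.id_apply, polar_sub_left, polar_sub_right, polar_smul_left,
      polar_smul_right, smul_eq_mul]
    rw [hX]
    field_simp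
    linear_combination 2 * h6
  have hKw : ∀ w, polar Q w (K w) = 0 := by
    intro w
    have h5 := hKs w w
    rw [polar_comm] at h5
    have : 2 * polar Q w (K w) = 0 := by linear_combination h5
    exact (mul_eq_zero.mp this).resolve_left h2
  have hKz : ∀ w, Q w ≠ 0 → K w = 0 := by
    intro w hw
    refine T.de_wd h4 hcon he ha hb hab hw (hKw w) ?_
    have hr := refl_mem (Q := Q) w
    set κ : F := (Q w)⁻¹ with hκ
    have hκ0 : κ ≠ 0 := inv_ne_zero hw
    have h5 : DE T e a (K - κ • wd Q w (K w)) := by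
      refine T.de_map hDK hr fun x => ?_
      have hx : ∀ y, refl Q w y = y - (κ * polar Q w y) • w := fun y => refl_apply hw y
      have e0 : polar Q (K w) x = - polar Q w (K x) := hKs w x
      have e2 : polar Q (K w) w = 0 := by rw [polar_comm]; exact hKw w
      have e1 : κ * Q w = 1 := by rw [hκ, inv_mul_cancel₀ hw]
      simp only [LinearMap.sub_apply, LinearMap.smul_apply, wd_apply, hx, map_sub, map_smul, polar_sub_right,
        polar_smul_right, polar_self', smul_eq_mul, e0, e2]
      match_scalars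
      · ring
      · linear_combination (2 * κ * polar Q w x) * e1
      · ring
    have h6 := T.de_sub ha hDK h5
    rw [sub_sub_cancel] at h6
    exact T.de_of hκ0 h6
  have hK0 : K = 0 := by
    by_contra hne
    obtain ⟨w, hw, hwc⟩ := exists_moved4 h2 T.nd (by omega) (A := K) (fun c hc => by
      apply hne
      have h5 : ∀ w, Q w ≠ 0 → c = 0 := by
        intro w hw
        have := hKz w hw
        rw [hc, LinearMap.smul_apply, LinearMap.id_apply] at this
        have hw0 : w ≠ 0 := by rintro rfl; exact hw (by simp)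
        exact (smul_eq_zero.mp this).resolve_right hw0
      obtain ⟨w₀, -, hw₀⟩ := exists_nonsing (TO.nds_top' T.nd) (by rw [finrank_top]; omega)
      rw [hc, h5 w₀ hw₀, zero_smul])
    exact hwc 0 (by rw [hKz w hw, zero_smul])
  refine ⟨c₀ / 2, ?_⟩
  rw [← sub_eq_zero, ← hK, hK0]

/-- from an element moving `a ⊗ W` into `⟨e, a'⟩ ⊗ W` -/
theorem de_of_elt {g : V ≃ₗ[F] V} (hg : g ∈ M) {e f a : E} (ha : α a e = 0) {D : W →ₗ[F] W}
    (h : ∀ w, g (τ f w) = τ a w + τ e (D w)) : DE T e a D := by
  obtain ⟨D', hD⟩ := T.exists_adj D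
  refine ⟨D', hD, fun c => ⟨c • (D ∘ₗ D') , ?_⟩⟩
  have h1 := (T.qd_mu hg f).me c
  have h2 := (T.qd_nu a).me (-c)
  have h3 := h1.mul h2
  have h4 : α e a = 0 := by rw [T.αsw, ha, neg_zero]
  have hcc : ∀ v, T.cc f (g⁻¹ v) = T.cc a v + D' (T.cc e v) := by
    intro v
    apply T.eqW
    intro w
    rw [T.cc_spec, T.Binv hg, h, map_add, polar_add_left, T.cc_spec, ← T.cc_spec e, polar_comm Q (D' _), ← hD, polar_comm]
  have e1 : (1 + c • mu T g f) * (1 + (-c) • chi T a LinearMap.id) =
      1 + c • psi T e a D D' + chi T e (c • (D ∘ₗ D')) := by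
    ext v
    change (v + (-c) • τ a (T.cc a v)) + c • g (τ f (T.cc f (g⁻¹ (v + (-c) • τ a (T.cc a v))))) =
      v + c • (τ a (D' (T.cc e v)) + τ e (D (T.cc a v))) + τ e (c • D (D' (T.cc e v)))
    rw [h, hcc]
    simp only [map_add, map_smul, T.cc_τ, ha, T.hα a, zero_smul, smul_zero, map_zero, add_zero]
    module
  rwa [e1] at h3

end TT

end Cfsg.Agent.Lib.TenSpT
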