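import Mathlib
import Cfsg.Agent.Lib.TenSpG3

/-!
# Overgroups of `Sp(E) ∘ O(W)`, `dim W ≥ 4`: elements fixing `e ⊗ W` (helper21)
-/

set_option autoImplicit false
set_option linter.unusedSectionVars false
set_option linter.unusedVariables false
set_option linter.unusedSimpArgs false

namespace Cfsg.Agent.Lib.TenSpT

open QuadraticMap Module Cfsg.Agent.Lib.Quad Cfsg.Agent.Lib.OrthNd Cfsg.Agent.Lib.OrthDecH94
open Cfsg.Agent.Lib.SpTrans Cfsg.Agent.Lib.TenSpO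

variable {F E W V : Type*} [Field F] [AddCommGroup E] [Module F E] [FiniteDimensional F E]
  [AddCommGroup W] [Module F W] [FiniteDimensional F W] [AddCommGroup V] [Module F V] [FiniteDimensional F V]

variable {α : E →ₗ[F] E →ₗ[F] F} {Q : QuadraticForm F W} {B : V →ₗ[F] V →ₗ[F] F} {τ : E →ₗ[F] W →ₗ[F] V}
  {M : Subgroup (V ≃ₗ[F] V)}

namespace TT

variable (T : TT α Q B τ M)

include T

theorem perp2 {e q : E} (hq : α e q = 1) {v : V} (h : ∀ a, α e a = 0 → T.cc a v = 0) : v = τ e (T.cc q v) := by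
  apply T.eqV
  intro a w
  have h1 : α e (a - α e a • q) = 0 := by rw [map_sub, map_smul, hq, smul_eq_mul, mul_one, sub_self]
  have h2 := h _ h1
  rw [T.cc_sub, T.cc_smul, sub_eq_zero] at h2
  rw [← T.cc_spec, h2, T.Bτ, polar_smul_left, smul_eq_mul]

theorem span_of_τ {f e : E} {w₀ w₁ : W} (hw₀ : w₀ ≠ 0) (h : τ f w₀ = τ e w₁) : ∃ c : F, f = c • e := by
  obtain ⟨z, hz⟩ := T.nd.exists_polar_one' hw₀
  have h1 : T.dd z (τ f w₀) = T.dd z (τ e w₁) := by rw [h]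
  rw [T.dd_τ, T.dd_τ, hz, one_smul] at h1
  exact ⟨_, h1⟩

theorem exists_b {e a : E} (he : e ≠ 0) (ha : ∀ c : F, a ≠ c • e) : ∃ b, α b e = 0 ∧ α a b ≠ 0 := by
  have hli : LinearIndependent F ![e, a] := by
    rw [LinearIndependent.pair_iff]
    intro s t hst
    have ht : t = 0 := by
      by_contra ht
      apply ha (-(t⁻¹ * s))
      have h4 : t • a = -(s • e) := eq_neg_of_add_eq_zero_right hst
      have h5 : a = t⁻¹ • (t • a) := by rw [smul_smul, inv_mul_cancel₀ ht, one_smul]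
      rw [h5, h4]; module
    rw [ht, zero_smul, add_zero, smul_eq_zero, or_iff_left he] at hst
    exact ⟨hst, ht⟩
  obtain ⟨b, h1, h2⟩ := T.exists_two hli 0 1
  exact ⟨b, by rw [T.αsw, h1, neg_zero], by rw [h2]; exact one_ne_zero⟩

/-- an element fixing `e ⊗ W` respects `f ⊗ W` for `f ⟂ e` -/
theorem stepC1 [Finite F] (h4 : 4 ≤ finrank F W) (hcon : ¬ isom (fun x y => B x y) ≤ M) {m : V ≃ₗ[F] V} (hm : m ∈ M)
    {e : E} (he : e ≠ 0) (hfix : ∀ w, m (τ e w) = τ e w) {f : E} (hf : α f e = 0) : ∃ f', ∀ w, m (τ f w) = τ f' w := by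
  by_cases hfe : ∃ c : F, f = c • e
  · obtain ⟨c, rfl⟩ := hfe
    exact ⟨c • e, fun w => by rw [map_smul τ, LinearMap.smul_apply, map_smul, hfix]⟩
  push Not at hfe
  have hcce : ∀ v, T.cc e (m v) = T.cc e v := fun v => T.cc_liftE hm hfix v
  have hcce' : ∀ v, T.cc e (m⁻¹ v) = T.cc e v := fun v => by rw [← hcce, T.hinv]
  -- the conjugate of the short root element
  have key : ∀ a, α a e = 0 → ∃ μ : F, ∀ w, T.cc a (m (τ f w)) = μ • w := by
    intro a ha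
    by_cases hae : ∃ c : F, a = c • e
    · obtain ⟨c, rfl⟩ := hae
      exact ⟨0, fun w => by rw [T.cc_smul, hcce, T.cc_τ, hf, zero_smul, smul_zero]⟩
    push Not at hae
    obtain ⟨b, hb, hab⟩ := T.exists_b he hae
    obtain ⟨D, hD⟩ : ∃ D : W →ₗ[F] W, D = (T.cc f) ∘ₗ ((m⁻¹ : V ≃ₗ[F] V) : V →ₗ[F] V) ∘ₗ (τ a) := ⟨_, rfl⟩
    have hDw : ∀ w, T.cc f (m⁻¹ (τ a w)) = D w := fun w => by rw [hD]; rfl
    obtain ⟨X', hX', h1⟩ := T.de_one (e := e) (a := f) hf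
    obtain ⟨S, hS⟩ := h1 1
    obtain ⟨g, hg, h2⟩ := hS
    have hg2 : m * g * m⁻¹ ∈ M := mul_mem (mul_mem hm hg) (inv_mem hm)
    have h3 : ∀ w, (m * g * m⁻¹ : V ≃ₗ[F] V) (τ a w) = τ a w + τ e (D w) := by
      intro w
      rw [LinearEquiv.mul_apply, LinearEquiv.mul_apply, h2]
      change m (m⁻¹ (τ a w) + (1 : F) • (τ f (X' (T.cc e (m⁻¹ (τ a w)))) + τ e (T.cc f (m⁻¹ (τ a w)))) +
        τ e (S (T.cc e (m⁻¹ (τ a w))))) = τ a w + τ e (D w)
      rw [hcce', T.cc_τ, ha, zero_smul, map_zero, map_zero, map_zero, map_zero, add_zero, zero_add, one_smul, map_add,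
        T.hinv, hfix, hDw]
    have h5 := T.de_of_elt hg2 ha h3
    obtain ⟨c, hc⟩ := T.de_scalar h4 hcon he ha hb hab h5
    refine ⟨-c, fun w => ?_⟩
    apply T.eqW
    intro w'
    rw [T.cc_spec, T.Bsw, ← T.Binv hm, ← T.cc_spec, hDw, hc, LinearMap.smul_apply, LinearMap.id_apply, polar_smul_left,
      polar_smul_left, polar_comm]
    simp only [smul_eq_mul]; ring
  obtain ⟨w₀, hw₀⟩ : ∃ w₀ : W, w₀ ≠ 0 := by
    haveI : Nontrivial W := Module.nontrivial_of_finrank_pos (R := F) (by omega)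
    exact exists_ne 0
  obtain ⟨z, hz⟩ := T.nd.exists_polar_one' hw₀
  obtain ⟨f', hf'⟩ : ∃ f', f' = T.dd z (m (τ f w₀)) := ⟨_, rfl⟩
  have hμ : ∀ a, α a e = 0 → ∀ w, T.cc a (m (τ f w)) = α f' a • w := by
    intro a ha w
    obtain ⟨μ, hμ⟩ := key a ha
    have : α f' a = μ := by
      rw [hf', T.dd_spec, ← T.cc_spec, hμ, polar_smul_left, hz, smul_eq_mul, mul_one]
    rw [this, hμ]
  obtain ⟨q, hq⟩ : ∃ q, α e q = 1 := by
    obtain ⟨y, hy⟩ : ∃ y, α e y ≠ 0 := by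
      by_contra hc; push Not at hc; exact he (T.hαn e hc)
    exact ⟨(α e y)⁻¹ • y, by rw [map_smul, smul_eq_mul, inv_mul_cancel₀ hy]⟩
  obtain ⟨D, hD⟩ : ∃ D : W →ₗ[F] W, D = (T.cc q) ∘ₗ ((m : V →ₗ[F] V) ∘ₗ (τ f) - τ f') := ⟨_, rfl⟩
  have h1 : ∀ w, m (τ f w) = τ f' w + τ e (D w) := by
    intro w
    have h2 := T.perp2 hq (v := m (τ f w) - τ f' w) (fun a ha => by
      rw [map_sub, hμ a (by rw [T.αsw, ha, neg_zero]), T.cc_τ, sub_self])
    rw [hD]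
    change m (τ f w) = τ f' w + τ e (T.cc q (m (τ f w) - τ f' w))
    rw [← h2]; abel
  have hf'e : α f' e = 0 := by
    have h2 := hμ e (T.hα e) w₀
    rw [hcce, T.cc_τ, hf, zero_smul] at h2
    exact (smul_eq_zero.mp h2.symm).resolve_right hw₀
  have hf'n : ∀ c : F, f' ≠ c • e := by
    intro c hc
    have h2 := h1 w₀
    rw [hc, map_smul τ, LinearMap.smul_apply, ← map_smul, ← map_add, ← hfix] at h2
    obtain ⟨c', hc'⟩ := T.span_of_τ hw₀ (m.injective h2)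
    exact hfe c' hc'
  obtain ⟨b, hb, hab⟩ := T.exists_b he hf'n
  obtain ⟨δ, hδ⟩ := T.de_scalar h4 hcon he hf'e hb hab (T.de_of_elt hm hf'e h1)
  refine ⟨f' + δ • e, fun w => ?_⟩
  rw [h1, hδ, LinearMap.smul_apply, LinearMap.id_apply, map_add τ, LinearMap.add_apply, map_smul τ, LinearMap.smul_apply,
    map_smul]

theorem exists_orth2 (h4 : 3 ≤ finrank F E) (x y : E) : ∃ v, v ≠ 0 ∧ α v x = 0 ∧ α v y = 0 := by
  let L : E →ₗ[F] (Fin 2 → F) := LinearMap.pi ![α x, α y]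
  have h1 : 0 < finrank F (LinearMap.ker L) := by
    have := LinearMap.finrank_range_add_finrank_ker L
    have h5 := Submodule.finrank_le (LinearMap.range L)
    rw [Module.finrank_fin_fun] at h5
    omega
  obtain ⟨v, hv⟩ := (Module.finrank_pos_iff_exists_ne_zero (R := F)).1 h1
  have h2 : L v = 0 := LinearMap.mem_ker.1 v.2
  refine ⟨v, fun h => hv (Subtype.ext h), ?_, ?_⟩
  · rw [T.αsw]; exact neg_eq_zero.mpr (congrFun h2 0)
  · rw [T.αsw]; exact neg_eq_zero.mpr (congrFun h2 1)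

/-- **Elements fixing `e ⊗ W`.** -/
theorem stepC [Finite F] (h4 : 4 ≤ finrank F W) (hE : 3 ≤ finrank F E) (hcon : ¬ isom (fun x y => B x y) ≤ M)
    {m : V ≃ₗ[F] V} (hm : m ∈ M)
    {e : E} (he : e ≠ 0) (hfix : ∀ w, m (τ e w) = τ e w) : ∃ x : E →ₗ[F] E, ∀ a w, m (τ a w) = τ (x a) w := by
  have hndE : NdOn α ⊤ := by
    intro x _ hx
    by_contra hcon
    push Not at hcon
    exact hx (T.hαn x fun y => hcon y trivial)
  obtain ⟨w₀, hw₀⟩ : ∃ w₀ : W, w₀ ≠ 0 := by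
    haveI : Nontrivial W := Module.nontrivial_of_finrank_pos (R := F) (by omega)
    exact exists_ne 0
  obtain ⟨z, hz⟩ := T.nd.exists_polar_one' hw₀
  have key : ∀ a, ∃ a', ∀ w, m (τ a w) = τ a' w := by
    intro a
    obtain ⟨f, hf0, hfe, hfa⟩ := T.exists_orth2 hE e a
    obtain ⟨f', hf'⟩ := T.stepC1 h4 hcon hm he hfix hfe
    have hf'0 : f' ≠ 0 := by
      rintro rfl
      have := hf' w₀
      rw [map_zero, LinearMap.zero_apply] at this
      have h5 : τ f w₀ = 0 := by simpa using this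
      exact hf0 (T.τ_inj' hw₀ h5)
    obtain ⟨σ, hσ, h5⟩ := exists_move T.hα hndE (u := f') (v := f) trivial trivial hf'0 hf0
    obtain ⟨t, ht, h6⟩ := T.tE σ (tgrp_le_isom T.hα _ hσ)
    obtain ⟨a', ha'⟩ := T.stepC1 h4 hcon (mul_mem ht hm) hf0 (fun w => by
      rw [LinearEquiv.mul_apply, hf', h6, h5]) (f := a) (by rw [T.αsw, hfa, neg_zero])
    refine ⟨σ.symm a', fun w => ?_⟩
    have h7 := ha' w
    rw [LinearEquiv.mul_apply] at h7
    apply t.injective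
    rw [h7, h6, σ.apply_symm_apply]
  refine ⟨(T.dd z) ∘ₗ (m : V →ₗ[F] V) ∘ₗ (τ.flip w₀), fun a w => ?_⟩
  obtain ⟨a', ha'⟩ := key a
  change m (τ a w) = τ (T.dd z (m (τ a w₀))) w
  rw [ha', ha', T.dd_τ, hz, one_smul]

/-- **Purity.** -/
theorem pure_of [Finite F] (h4 : 4 ≤ finrank F W) (hE : 3 ≤ finrank F E) (hcon : ¬ isom (fun x y => B x y) ≤ M)
    {h : V ≃ₗ[F] V} (hh : h ∈ M) {f v : E} (hf : f ≠ 0) (hv : v ≠ 0) (h0 : ∀ w, T.cc v (h (τ f w)) = 0) :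
    ∃ ε : E, ε ≠ 0 ∧ ∃ C : W →ₗ[F] W, ∀ w, h (τ f w) = τ ε (C w) := by
  obtain ⟨g, hg, h1⟩ := (T.qd_mu hh f).me 1
  have h1' : ∀ u, g u = u + h (τ f (T.cc f (h⁻¹ u))) := fun u => by
    rw [h1]; change u + (1 : F) • h (τ f (T.cc f (h⁻¹ u))) = _; rw [one_smul]
  obtain ⟨x, hx⟩ := T.stepC h4 hE hcon hg hv (fun w => by
    rw [h1']
    have : T.cc f (h⁻¹ (τ v w)) = 0 := by
      apply T.eqW
      intro w'
      rw [T.cc_spec, T.Binv hh, T.Bsw, ← T.cc_spec, h0, polar_zero_left, neg_zero, polar_zero_left]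
    rw [this, map_zero, map_zero, add_zero])
  have hR : ∀ a w, h (τ f (T.cc f (h⁻¹ (τ a w)))) = τ (x a - a) w := by
    intro a w
    have h2 := hx a w
    rw [h1'] at h2
    rw [map_sub τ, LinearMap.sub_apply, ← h2]; abel
  obtain ⟨a, ha⟩ : ∃ a, x a - a ≠ 0 := by
    by_contra hc
    push Not at hc
    obtain ⟨w₀, hw₀⟩ : ∃ w₀ : W, w₀ ≠ 0 := by
      haveI : Nontrivial W := Module.nontrivial_of_finrank_pos (R := F) (by omega)
      exact exists_ne 0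
    have h2 : (h : Module.End F V) * ((chi T f LinearMap.id) * ((h⁻¹ : V ≃ₗ[F] V) : Module.End F V)) = 0 := by
      apply T.extτ
      intro a w
      change h (τ f (T.cc f (h⁻¹ (τ a w)))) = 0
      rw [hR, hc, map_zero, LinearMap.zero_apply]
    obtain ⟨y, hy⟩ : ∃ y, α f y ≠ 0 := by
      by_contra hc; push Not at hc; exact hf (T.hαn f hc)
    have h3 := LinearMap.congr_fun h2 (h (τ y w₀))
    change h (τ f (T.cc f (h⁻¹ (h (τ y w₀))))) = 0 at h3
    rw [T.hinv', T.cc_τ] at h3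
    have h5 : τ f (α y f • w₀) = 0 := by simpa using h3
    have h6 := T.τ_inj hf h5
    rw [smul_eq_zero, or_iff_left hw₀, T.αsw, neg_eq_zero] at h6
    exact hy h6
  obtain ⟨C', hC'⟩ : ∃ C' : W →ₗ[F] W, C' = (T.cc f) ∘ₗ ((h⁻¹ : V ≃ₗ[F] V) : V →ₗ[F] V) ∘ₗ (τ a) := ⟨_, rfl⟩
  have h2 : ∀ w, h (τ f (C' w)) = τ (x a - a) w := fun w => by rw [hC']; exact hR a w
  have hinj : Function.Injective C' := by
    rw [injective_iff_map_eq_zero]
    intro w hw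
    have h3 := h2 w
    rw [hw, map_zero, map_zero] at h3
    exact T.τ_inj ha h3.symm
  refine ⟨x a - a, ha, ((LinearEquiv.ofInjectiveEndo C' hinj).symm : W →ₗ[F] W), fun w => ?_⟩
  have h3 : C' ((LinearEquiv.ofInjectiveEndo C' hinj).symm w) = w := (LinearEquiv.ofInjectiveEndo C' hinj).apply_symm_apply w
  change h (τ f w) = τ (x a - a) ((LinearEquiv.ofInjectiveEndo C' hinj).symm w)
  rw [← h2, h3]

end TT

end Cfsg.Agent.Lib.TenSpT
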