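import Mathlib
import Cfsg.Agent.Lib.TenSpG4

/-!
# Two quadratic subgroups: the trace argument (helper21)
-/

set_option autoImplicit false
set_option linter.unusedSectionVars false
set_option linter.unusedVariables false
set_option linter.unusedSimpArgs false

namespace Cfsg.Agent.Lib.TenSpT

open QuadraticMap Module Cfsg.Agent.Lib.Quad Cfsg.Agent.Lib.OrthNd Cfsg.Agent.Lib.OrthDecH94
open Cfsg.Agent.Lib.SpTrans Cfsg.Agent.Lib.TenSpO

section Ring

variable {A : Type*} [Ring A]

theorem comm_u {J J' P : A} (h1 : J * J' = 1) (h2 : J' * J = 1) (hc : Commute (J + J') P) (n : ℕ) :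
    Commute (J ^ n + J' ^ n) P := by
  induction n using Nat.twoStepInduction with
  | zero => rw [pow_zero, pow_zero]; exact (Commute.one_left P).add_left (Commute.one_left P)
  | one => rw [pow_one, pow_one]; exact hc
  | more n ih1 ih2 =>
    have e : J ^ (n + 2) + J' ^ (n + 2) = (J + J') * (J ^ (n + 1) + J' ^ (n + 1)) - (J ^ n + J' ^ n) := by
      have e1 : J * J' ^ (n + 1) = J' ^ n := by rw [pow_succ', ← mul_assoc, h1, one_mul]
      have e2 : J' * J ^ (n + 1) = J ^ n := by rw [pow_succ', ← mul_assoc, h2, one_mul]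
      have e3 : J * J ^ (n + 1) = J ^ (n + 2) := (pow_succ' J (n + 1)).symm
      have e4 : J' * J' ^ (n + 1) = J' ^ (n + 2) := (pow_succ' J' (n + 1)).symm
      rw [mul_add, add_mul, add_mul, e1, e2, e3, e4]
      abel
    rw [e]
    exact (hc.mul_left ih2).sub_left ih1

variable {p r : A}

theorem ring_a (hp : p * p = 0) : (1 + p) * (1 - p) = 1 := by
  have : (1 + p) * (1 - p) = 1 - p * p := by noncomm_ring
  rw [this, hp, sub_zero]

theorem ring_b (hp : p * p = 0) : (1 - p) * (1 + p) = 1 := by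
  have : (1 - p) * (1 + p) = 1 - p * p := by noncomm_ring
  rw [this, hp, sub_zero]

theorem ring_c (hr : r * r = 0) : (1 + (r + r)) * (1 - (r + r)) = 1 := by
  have : (1 + (r + r)) * (1 - (r + r)) = 1 - (r * r + r * r + r * r + r * r) := by noncomm_ring
  rw [this, hr]; simp

theorem ring_c' (hr : r * r = 0) : (1 - (r + r)) * (1 + (r + r)) = 1 := by
  have : (1 - (r + r)) * (1 + (r + r)) = 1 - (r * r + r * r + r * r + r * r) := by noncomm_ring
  rw [this, hr]; simp

theorem ring_jj (hp : p * p = 0) (hr : r * r = 0) :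
    ((1 + p) * (1 + (r + r)) * (1 + p)) * ((1 - p) * (1 - (r + r)) * (1 - p)) = 1 := by
  calc ((1 + p) * (1 + (r + r)) * (1 + p)) * ((1 - p) * (1 - (r + r)) * (1 - p))
      = (1 + p) * (1 + (r + r)) * ((1 + p) * (1 - p)) * (1 - (r + r)) * (1 - p) := by simp only [mul_assoc]
    _ = (1 + p) * ((1 + (r + r)) * (1 - (r + r))) * (1 - p) := by rw [ring_a hp, mul_one]; simp only [mul_assoc]
    _ = 1 := by rw [ring_c hr, mul_one, ring_a hp]

theorem ring_sum (hp : p * p = 0) :
    (1 + p) * (1 + (r + r)) * (1 + p) + (1 - p) * (1 - (r + r)) * (1 - p) =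
      1 + 1 + ((p * r + r * p) + (p * r + r * p) + ((p * r + r * p) + (p * r + r * p))) := by
  have : (1 + p) * (1 + (r + r)) * (1 + p) + (1 - p) * (1 - (r + r)) * (1 - p) =
      1 + 1 + ((p * r + r * p) + (p * r + r * p) + ((p * r + r * p) + (p * r + r * p))) + (p * p + p * p) := by noncomm_ring
  rw [this, hp]; simp

theorem ring_d (hp : p * p = 0) (hr : r * r = 0) :
    (1 + p) * (1 + r) + ((1 - p) * (1 - (r + r)) * (1 - p)) * ((1 + p) * (1 + r)) = 1 + 1 + (p * r + p * r) := by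
  have e1 : ((1 - p) * (1 - (r + r)) * (1 - p)) * ((1 + p) * (1 + r)) =
      (1 - p) * (1 - (r + r)) * ((1 - p) * (1 + p)) * (1 + r) := by simp only [mul_assoc]
  have e2 : (1 - (r + r)) * (1 + r) = 1 - r := by
    have : (1 - (r + r)) * (1 + r) = 1 - r - (r * r + r * r) := by noncomm_ring
    rw [this, hr]; simp
  rw [e1, ring_b hp, mul_one, mul_assoc (1 - p), e2]
  noncomm_ring

end Ring

variable {F E W V : Type*} [Field F] [AddCommGroup E] [Module F E] [FiniteDimensional F E]
  [AddCommGroup W] [Module F W] [FiniteDimensional F W] [AddCommGroup V] [Module F V] [FiniteDimensional F V]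

variable {α : E →ₗ[F] E →ₗ[F] F} {Q : QuadraticForm F W} {B : V →ₗ[F] V →ₗ[F] F} {τ : E →ₗ[F] W →ₗ[F] V}
  {M : Subgroup (V ≃ₗ[F] V)}

/-- the element `a_c b_{2d} a_c` -/
structure JJ (M : Subgroup (V ≃ₗ[F] V)) (p r : Module.End F V) (a b j : V ≃ₗ[F] V) : Prop where
  pp : p * p = 0
  rr : r * r = 0
  ha : a ∈ M
  hb : b ∈ M
  a_eq : ∀ v, a v = (1 + p) v
  b_eq : ∀ v, b v = (1 + r) v
  hj : j = a * (b * b) * a

/-- the coercion as a homomorphism -/
abbrev ph (F V : Type*) [Field F] [AddCommGroup V] [Module F V] : (V ≃ₗ[F] V) →* Module.End F V :=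
  LinearEquiv.automorphismGroup.toLinearMapMonoidHom

theorem ph_apply (g : V ≃ₗ[F] V) (v : V) : ph F V g v = g v := rfl

namespace JJ

variable {p r : Module.End F V} {a b j : V ≃ₗ[F] V} (H : JJ M p r a b j)

include H

theorem pa : ph F V a = 1 + p := LinearMap.ext H.a_eq

theorem pb : ph F V b = 1 + r := LinearMap.ext H.b_eq

theorem pj' : ph F V j = (1 + p) * (1 + (r + r)) * (1 + p) := by
  rw [H.hj, map_mul, map_mul, map_mul, H.pa, H.pb]
  congr 2
  have : (1 + r) * (1 + r) = 1 + (r + r) + r * r := by noncomm_ring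
  rw [this, H.rr, add_zero]

theorem pji : ph F V j⁻¹ = (1 - p) * (1 - (r + r)) * (1 - p) := by
  have h1 : ph F V j⁻¹ * ph F V j = 1 := by rw [← map_mul, inv_mul_cancel, map_one]
  have h2 : ph F V j * ((1 - p) * (1 - (r + r)) * (1 - p)) = 1 := by rw [H.pj', ring_jj H.pp H.rr]
  calc ph F V j⁻¹ = ph F V j⁻¹ * (ph F V j * ((1 - p) * (1 - (r + r)) * (1 - p))) := by rw [h2, mul_one]
    _ = _ := by rw [← mul_assoc, h1, one_mul]

theorem mem : j ∈ M := by
  rw [H.hj]; exact mul_mem (mul_mem H.ha (mul_mem H.hb H.hb)) H.ha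

theorem j1 : ph F V j * ph F V j⁻¹ = 1 := by rw [← map_mul, mul_inv_cancel, map_one]

theorem j2 : ph F V j⁻¹ * ph F V j = 1 := by rw [← map_mul, inv_mul_cancel, map_one]

theorem jsum : ph F V j + ph F V j⁻¹ =
    1 + 1 + ((p * r + r * p) + (p * r + r * p) + ((p * r + r * p) + (p * r + r * p))) := by
  rw [H.pj', H.pji, ring_sum H.pp]

theorem com_p (n : ℕ) : Commute (ph F V (j ^ n) + ph F V (j ^ n)⁻¹) p := by
  rw [← inv_pow, map_pow, map_pow]
  refine comm_u H.j1 H.j2 ?_ n
  rw [H.jsum]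
  have hw : Commute (p * r + r * p) p := by
    change (p * r + r * p) * p = p * (p * r + r * p)
    rw [add_mul, mul_add, mul_assoc r p p, H.pp, mul_zero, add_zero, ← mul_assoc p p r, H.pp, zero_mul, zero_add, mul_assoc]
  exact ((Commute.one_left p).add_left (Commute.one_left p)).add_left ((hw.add_left hw).add_left (hw.add_left hw))

theorem com_r (n : ℕ) : Commute (ph F V (j ^ n) + ph F V (j ^ n)⁻¹) r := by
  rw [← inv_pow, map_pow, map_pow]
  refine comm_u H.j1 H.j2 ?_ n
  rw [H.jsum]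
  have hw : Commute (p * r + r * p) r := by
    change (p * r + r * p) * r = r * (p * r + r * p)
    rw [add_mul, mul_add, mul_assoc p r r, H.rr, mul_zero, zero_add, ← mul_assoc r r p, H.rr, zero_mul, add_zero, mul_assoc]
  exact ((Commute.one_left r).add_left (Commute.one_left r)).add_left ((hw.add_left hw).add_left (hw.add_left hw))

/-- the half trace -/
theorem odd_case (h2 : (2 : F) ≠ 0) {m : ℕ} (hm : Odd m) (hj : j ^ m = 1) :
    ∃ (t : Module.End F V) (c : V ≃ₗ[F] V), c ∈ M ∧ Commute t p ∧ t * t = 1 + (p * r + r * p) ∧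
      (∀ v, c (p v) = t (p v)) ∧ ∃ i ∈ M, t = (2 : F)⁻¹ • (ph F V i + ph F V i⁻¹) := by
  obtain ⟨n, hn⟩ : ∃ n, m + 1 = 2 * n := by
    obtain ⟨k, hk⟩ := hm
    exact ⟨k + 1, by omega⟩
  obtain ⟨i, hi⟩ : ∃ i, i = j ^ n := ⟨_, rfl⟩
  have hii : i * i = j := by
    rw [hi, ← pow_add, ← two_mul, ← hn, pow_succ, hj, one_mul]
  have hiM : i ∈ M := by rw [hi]; exact pow_mem H.mem n
  obtain ⟨t, ht⟩ : ∃ t : Module.End F V, t = (2 : F)⁻¹ • (ph F V i + ph F V i⁻¹) := ⟨_, rfl⟩
  have h2t : (2 : F) • t = ph F V i + ph F V i⁻¹ := by rw [ht, smul_smul, mul_inv_cancel₀ h2, one_smul]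
  have hpi : ph F V i * ph F V i = ph F V j := by rw [← map_mul, hii]
  have hpi' : ph F V i⁻¹ * ph F V i⁻¹ = ph F V j⁻¹ := by rw [← map_mul, ← mul_inv_rev, hii]
  have hp1 : ph F V i * ph F V i⁻¹ = 1 := by rw [← map_mul, mul_inv_cancel, map_one]
  have hp2 : ph F V i⁻¹ * ph F V i = 1 := by rw [← map_mul, inv_mul_cancel, map_one]
  have htp : Commute t p := by
    rw [ht, hi]; exact (H.com_p n).smul_left _
  have htt : t * t = 1 + (p * r + r * p) := by
    have e1 : (ph F V i + ph F V i⁻¹) * (ph F V i + ph F V i⁻¹) = ph F V j + ph F V j⁻¹ + (1 + 1) := by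
      rw [mul_add, add_mul, add_mul, hpi, hpi', hp1, hp2]; abel
    have e2 : (2 : F) • ((2 : F) • (t * t)) = ((2 : F) • t) * ((2 : F) • t) := by
      rw [smul_mul_smul_comm, smul_smul]
    rw [h2t, e1, H.jsum] at e2
    have e3 : 1 + 1 + ((p * r + r * p) + (p * r + r * p) + ((p * r + r * p) + (p * r + r * p))) + (1 + 1) =
        (2 : F) • ((2 : F) • (1 + (p * r + r * p))) := by
      simp only [two_smul]
      abel
    rw [e3] at e2
    have e4 := congrArg (fun x => (2 : F)⁻¹ • ((2 : F)⁻¹ • x)) e2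
    simp only [smul_smul] at e4
    rw [show (2 : F)⁻¹ * ((2 : F)⁻¹ * (2 * 2)) = 1 by field_simp, one_smul, one_smul] at e4
    exact e4
  have hinj : ∀ v, t v = 0 → v = 0 := by
    intro v hv
    have e1 : ph F V i v + ph F V i⁻¹ v = 0 := by
      have := LinearMap.congr_fun h2t v
      rw [LinearMap.smul_apply, hv, smul_zero] at this
      exact this.symm
    have e2 : i v = - i⁻¹ v := eq_neg_of_add_eq_zero_left e1
    have e3 : j v = -v := by
      rw [← hii, LinearEquiv.mul_apply, e2, map_neg]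
      congr 1
      exact i.apply_symm_apply v
    have e4 : ∀ k : ℕ, (j ^ k) v = (-1 : F) ^ k • v := by
      intro k
      induction k with
      | zero => simp
      | succ k ih => rw [pow_succ', LinearEquiv.mul_apply, ih, map_smul, e3, pow_succ]; module
    have e5 := e4 m
    rw [hj, hm.neg_one_pow] at e5
    have e6 : v = -v := by simpa using e5
    have e7 : (2 : F) • v = 0 := by rw [two_smul]; nth_rewrite 1 [e6]; abel
    exact (smul_eq_zero.mp e7).resolve_left h2
  refine ⟨t, i⁻¹ * (a * b), mul_mem (inv_mem hiM) (mul_mem H.ha H.hb), htp, htt, ?_, i, hiM, ht⟩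
  -- `t c = 1 + p r`
  have hc : t * ph F V (i⁻¹ * (a * b)) = 1 + p * r := by
    have e1 : (ph F V i + ph F V i⁻¹) * (ph F V i⁻¹ * (ph F V a * ph F V b)) =
        ph F V a * ph F V b + ph F V j⁻¹ * (ph F V a * ph F V b) := by
      rw [← mul_assoc, add_mul, hp1, hpi', add_mul, one_mul]
    have e2 : (2 : F) • (t * ph F V (i⁻¹ * (a * b))) = (2 : F) • (1 + p * r) := by
      rw [← smul_mul_assoc, h2t, map_mul, map_mul, e1, H.pa, H.pb, H.pji, ring_d H.pp H.rr, two_smul]
      abel
    have e4 := congrArg (fun x => (2 : F)⁻¹ • x) e2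
    simp only [smul_smul] at e4
    rwa [inv_mul_cancel₀ h2, one_smul, one_smul] at e4
  intro v
  have e1 : t ((i⁻¹ * (a * b)) (p v)) = t (t (p v)) := by
    have e2 := LinearMap.congr_fun hc (p v)
    have e3 := LinearMap.congr_fun htt (p v)
    change t ((i⁻¹ * (a * b)) (p v)) = p v + p (r (p v)) at e2
    change t (t (p v)) = p v + (p (r (p v)) + r (p (p v))) at e3
    have e4 : p (p v) = 0 := LinearMap.congr_fun H.pp v
    rw [e2, e3, e4, map_zero, add_zero]
  rw [← sub_eq_zero]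
  apply hinj
  rw [map_sub, e1, sub_self]

/-- the involution -/
theorem even_case (h2 : (2 : F) ≠ 0) {m : ℕ} (hj : j ^ (m + m) = 1) (hj' : j ^ m ≠ 1) :
    ∃ z ∈ M, z ≠ 1 ∧ (∀ v, z (z v) = v) ∧ (∀ v, z (p v) = p (z v)) ∧ (∀ v, z (r v) = r (z v)) ∧
      (∀ v, ∃ x y, z v - v = p x + r y) ∧ ∀ v, p v = 0 → r v = 0 → z v = v := by
  refine ⟨j ^ m, pow_mem H.mem m, hj', fun v => ?_, fun v => ?_, fun v => ?_, fun v => ?_, fun v hp hr => ?_⟩
  · rw [← LinearEquiv.mul_apply, ← pow_add, hj]; rfl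
  · have h1 := H.com_p m
    have h3 : (j ^ m)⁻¹ = j ^ m := by
      rw [inv_eq_iff_mul_eq_one, ← pow_add, hj]
    rw [h3] at h1
    have h4 := LinearMap.congr_fun h1 v
    change (j ^ m) (p v) + (j ^ m) (p v) = p ((j ^ m) v + (j ^ m) v) at h4
    rw [map_add, ← two_smul F, ← two_smul F (p _)] at h4
    have := congrArg (fun x => (2 : F)⁻¹ • x) h4
    simpa only [smul_smul, inv_mul_cancel₀ h2, one_smul] using this
  · have h1 := H.com_r m
    have h3 : (j ^ m)⁻¹ = j ^ m := by
      rw [inv_eq_iff_mul_eq_one, ← pow_add, hj]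
    rw [h3] at h1
    have h4 := LinearMap.congr_fun h1 v
    change (j ^ m) (r v) + (j ^ m) (r v) = r ((j ^ m) v + (j ^ m) v) at h4
    rw [map_add, ← two_smul F, ← two_smul F (r _)] at h4
    have := congrArg (fun x => (2 : F)⁻¹ • x) h4
    simpa only [smul_smul, inv_mul_cancel₀ h2, one_smul] using this
  · -- the image
    have ha : ∀ v, ∃ x y, a v - v = p x + r y := fun v => ⟨v, 0, by
      rw [H.a_eq]; change v + p v - v = _; rw [map_zero]; abel⟩
    have hb : ∀ v, ∃ x y, b v - v = p x + r y := fun v => ⟨0, v, by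
      rw [H.b_eq]; change v + r v - v = _; rw [map_zero]; abel⟩
    have hmul : ∀ g g' : V ≃ₗ[F] V, (∀ v, ∃ x y, g v - v = p x + r y) → (∀ v, ∃ x y, g' v - v = p x + r y) →
        ∀ v, ∃ x y, (g * g') v - v = p x + r y := by
      intro g g' hg hg' v
      obtain ⟨x, y, h1⟩ := hg (g' v)
      obtain ⟨x', y', h3⟩ := hg' v
      refine ⟨x + x', y + y', ?_⟩
      rw [LinearEquiv.mul_apply, map_add, map_add]
      calc g (g' v) - v = (g (g' v) - g' v) + (g' v - v) := by abel
        _ = _ := by rw [h1, h3]; abel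
    have hjj : ∀ v, ∃ x y, j v - v = p x + r y := by
      rw [H.hj]; exact hmul _ _ (hmul _ _ ha (hmul _ _ hb hb)) ha
    have : ∀ k : ℕ, ∀ v, ∃ x y, (j ^ k) v - v = p x + r y := by
      intro k
      induction k with
      | zero => intro v; exact ⟨0, 0, by simp⟩
      | succ k ih => rw [pow_succ]; exact hmul _ _ ih hjj
    exact this m v
  · have ha : a v = v := by rw [H.a_eq]; change v + p v = v; rw [hp, add_zero]
    have hb : b v = v := by rw [H.b_eq]; change v + r v = v; rw [hr, add_zero]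
    have hjv : j v = v := by
      rw [H.hj]; simp only [LinearEquiv.mul_apply, ha, hb]
    have : ∀ k : ℕ, (j ^ k) v = v := by
      intro k
      induction k with
      | zero => simp
      | succ k ih => rw [pow_succ, LinearEquiv.mul_apply, hjv, ih]
    exact this m

end JJ

end Cfsg.Agent.Lib.TenSpT
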