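import Mathlib
import Cfsg.Agent.Lib.TenSpG5

/-!
# Overgroups of `Ω(E) ∘ Ω(W)` in `Ω(E ⊗ W)`: set up (helper21)
-/

set_option autoImplicit false
set_option linter.unusedSectionVars false
set_option linter.unusedVariables false
set_option linter.unusedSimpArgs false

namespace Cfsg.Agent.Lib.OTen

open QuadraticMap Module Cfsg.Agent.Lib.Quad Cfsg.Agent.Lib.OrthNd Cfsg.Agent.Lib.OrthDecH94 Cfsg.Agent.Lib.OrthMax
open Cfsg.Agent.Lib.TenSpO

variable {F E W V : Type*} [Field F] [AddCommGroup E] [Module F E] [FiniteDimensional F E]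
  [AddCommGroup W] [Module F W] [FiniteDimensional F W] [AddCommGroup V] [Module F V] [FiniteDimensional F V]

/-- the situation -/
structure OO (R : QuadraticForm F E) (Q : QuadraticForm F W) (S : QuadraticForm F V) (τ : E →ₗ[F] W →ₗ[F] V)
    (M : Subgroup (V ≃ₗ[F] V)) : Prop where
  ndE : Nd R
  ndW : Nd Q
  ndV : Nd S
  two : (2 : F) ≠ 0
  E5 : 5 ≤ finrank F E
  W3 : 3 ≤ finrank F W
  W3q : finrank F W = 3 → ∃ s : F, s ≠ 0 ∧ s * s ≠ 1
  W4 : finrank F W = 4 → ∀ u x : W, u ≠ 0 → Q u = 0 → polar Q u x = 0 → Q x = 0 → ∃ c : F, x = c • u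
  pol : ∀ e w e' w', polar S (τ e w) (τ e' w') = polar R e e' * polar Q w w'
  span : ∀ N : Submodule F V, (∀ e w, τ e w ∈ N) → N = ⊤
  le : M ≤ O S
  tE : ∀ σ ∈ Om R, ∃ t ∈ M, ∀ e w, t (τ e w) = τ (σ e) w
  tW : ∀ ρ ∈ Om Q, ∃ t ∈ M, ∀ e w, t (τ e w) = τ e (ρ w)

variable {R : QuadraticForm F E} {Q : QuadraticForm F W} {S : QuadraticForm F V} {τ : E →ₗ[F] W →ₗ[F] V}
  {M : Subgroup (V ≃ₗ[F] V)}

/-- `x ∧ y` -/
noncomputable def wd (Q : QuadraticForm F W) (x y : W) : W →ₗ[F] W :=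
  (polarBilin Q y).smulRight x - (polarBilin Q x).smulRight y

theorem wd_apply (x y z : W) : wd Q x y z = polar Q y z • x - polar Q x z • y := rfl

namespace OO

/-- contraction with a vector of `E` -/
noncomputable def cc (T : OO R Q S τ M) (f : E) : V →ₗ[F] W :=
  (LinearMap.BilinForm.toDual (polarBilin Q) T.ndW).symm.toLinearMap ∘ₗ ((polarBilin S).compl₂ (τ f))

/-- contraction with a vector of `W` -/
noncomputable def dd (T : OO R Q S τ M) (z : W) : V →ₗ[F] E :=
  (LinearMap.BilinForm.toDual (polarBilin R) T.ndE).symm.toLinearMap ∘ₗ ((polarBilin S).compl₂ (τ.flip z))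

variable (T : OO R Q S τ M)

include T

theorem cc_spec (f : E) (v : V) (w : W) : polar Q (T.cc f v) w = polar S v (τ f w) := by
  have h : LinearMap.BilinForm.toDual (polarBilin Q) T.ndW (T.cc f v) = ((polarBilin S).compl₂ (τ f)) v :=
    LinearEquiv.apply_symm_apply _ _
  have h2 := LinearMap.congr_fun h w
  rw [LinearMap.BilinForm.toDual_def] at h2
  exact h2

theorem cc_spec' (f : E) (v : V) (w : W) : polar Q w (T.cc f v) = polar S v (τ f w) := by
  rw [polar_comm, T.cc_spec]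

theorem eqW {x y : W} (h : ∀ w, polar Q x w = polar Q y w) : x = y := by
  rw [← sub_eq_zero]
  apply T.ndW.eq_zero
  intro w
  rw [polar_sub_left, h, sub_self]

theorem eqE {x y : E} (h : ∀ w, polar R x w = polar R y w) : x = y := by
  rw [← sub_eq_zero]
  apply T.ndE.eq_zero
  intro w
  rw [polar_sub_left, h, sub_self]

theorem cc_τ (f e : E) (w : W) : T.cc f (τ e w) = polar R e f • w := by
  apply T.eqW
  intro w'
  rw [T.cc_spec, T.pol, polar_smul_left, smul_eq_mul]

theorem dd_spec (z : W) (v : V) (e : E) : polar R (T.dd z v) e = polar S v (τ e z) := by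
  have h : LinearMap.BilinForm.toDual (polarBilin R) T.ndE (T.dd z v) = ((polarBilin S).compl₂ (τ.flip z)) v :=
    LinearEquiv.apply_symm_apply _ _
  have h2 := LinearMap.congr_fun h e
  rw [LinearMap.BilinForm.toDual_def] at h2
  exact h2

theorem dd_τ (z w : W) (e : E) : T.dd z (τ e w) = polar Q w z • e := by
  apply T.eqE
  intro e'
  rw [T.dd_spec, T.pol, polar_smul_left, smul_eq_mul, mul_comm]

theorem extτ {f g : Module.End F V} (h : ∀ e w, f (τ e w) = g (τ e w)) : f = g := by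
  have h1 := T.span (LinearMap.eqLocus f g) (fun e w => h e w)
  ext v
  have h2 : v ∈ LinearMap.eqLocus f g := by rw [h1]; trivial
  exact h2

theorem extτ' {X : Type*} [AddCommGroup X] [Module F X] {f g : V →ₗ[F] X} (h : ∀ e w, f (τ e w) = g (τ e w)) : f = g := by
  have h1 := T.span (LinearMap.eqLocus f g) (fun e w => h e w)
  ext v
  have h2 : v ∈ LinearMap.eqLocus f g := by rw [h1]; trivial
  exact h2

theorem totτ {v : V} (h : ∀ e w, polar S v (τ e w) = 0) : v = 0 := by
  apply T.ndV.eq_zero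
  intro y
  have h1 := T.span (LinearMap.ker (polarBilin S v)) (fun e w => h e w)
  have h2 : y ∈ LinearMap.ker (polarBilin S v) := by rw [h1]; trivial
  exact h2

theorem eqV {v v' : V} (h : ∀ e w, polar S v (τ e w) = polar S v' (τ e w)) : v = v' := by
  rw [← sub_eq_zero]
  apply T.totτ
  intro e w
  rw [polar_sub_left, h, sub_self]

theorem τl (e : E) (w : W) (v : V) : polar S (τ e w) v = polar Q (T.cc e v) w := by
  rw [polar_comm, T.cc_spec]

theorem cc_add (a b : E) (v : V) : T.cc (a + b) v = T.cc a v + T.cc b v := by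
  apply T.eqW
  intro w
  rw [polar_add_left, T.cc_spec, T.cc_spec, T.cc_spec, map_add, LinearMap.add_apply, polar_add_right]

theorem cc_smul (a : F) (b : E) (v : V) : T.cc (a • b) v = a • T.cc b v := by
  apply T.eqW
  intro w
  rw [polar_smul_left, T.cc_spec, T.cc_spec, map_smul, LinearMap.smul_apply, polar_smul_right]

theorem cc_sub (a b : E) (v : V) : T.cc (a - b) v = T.cc a v - T.cc b v := by
  apply T.eqW
  intro w
  rw [polar_sub_left, T.cc_spec, T.cc_spec, T.cc_spec, map_sub, LinearMap.sub_apply, polar_sub_right]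

theorem cc_neg (b : E) (v : V) : T.cc (-b) v = -T.cc b v := by
  have := T.cc_smul (-1) b v
  rwa [neg_smul, one_smul, neg_smul, one_smul] at this

theorem cc_zero (v : V) : T.cc 0 v = 0 := by
  have := T.cc_smul 0 0 v
  rwa [zero_smul, zero_smul] at this

theorem hinv (h : V ≃ₗ[F] V) (v : V) : h (h⁻¹ v) = v := h.apply_symm_apply v

theorem hinv' (h : V ≃ₗ[F] V) (v : V) : h⁻¹ (h v) = v := h.symm_apply_apply v

theorem iso {h : V ≃ₗ[F] V} (hh : h ∈ M) (v v' : V) : polar S (h v) (h v') = polar S v v' := O_polar (T.le hh) v v'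

theorem isoi {h : V ≃ₗ[F] V} (hh : h ∈ M) (v v' : V) : polar S (h⁻¹ v) v' = polar S v (h v') := by
  rw [← T.iso hh, T.hinv]

theorem exists_w1 {w : W} (hw : w ≠ 0) : ∃ z, polar Q w z = 1 := T.ndW.exists_polar_one' hw

theorem exists_e1 {e : E} (he : e ≠ 0) : ∃ z, polar R e z = 1 := T.ndE.exists_polar_one' he

theorem τ_inj {e : E} (he : e ≠ 0) {w : W} (h : τ e w = 0) : w = 0 := by
  obtain ⟨q, hq⟩ := T.exists_e1 he
  have h1 := congrArg (T.cc q) h
  rwa [T.cc_τ, hq, one_smul, map_zero] at h1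

theorem τ_inj' {w : W} (hw : w ≠ 0) {e : E} (h : τ e w = 0) : e = 0 := by
  obtain ⟨z, hz⟩ := T.exists_w1 hw
  have h1 := congrArg (T.dd z) h
  rwa [T.dd_τ, hz, one_smul, map_zero] at h1

theorem exists_w0 : ∃ w₀ w₁ : W, w₀ ≠ 0 ∧ polar Q w₀ w₁ = 1 := by
  haveI : Nontrivial W := Module.nontrivial_of_finrank_pos (R := F) (by have := T.W3; omega)
  obtain ⟨w₀, hw₀⟩ := exists_ne (0 : W)
  obtain ⟨z, hz⟩ := T.exists_w1 hw₀
  exact ⟨w₀, z, hw₀, hz⟩

theorem Sτ {e : E} (he : R e = 0) (w : W) : S (τ e w) = 0 := by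
  have h1 := T.pol e w e w
  rw [polar_self', polar_self', he, mul_zero, zero_mul] at h1
  exact (mul_eq_zero.mp h1).resolve_left T.two

theorem Sτ' {e : E} {w : W} (hw : Q w = 0) : S (τ e w) = 0 := by
  have h1 := T.pol e w e w
  rw [polar_self', polar_self', polar_self', hw, mul_zero, mul_zero] at h1
  exact (mul_eq_zero.mp h1).resolve_left T.two

theorem sing_of {e : E} {w : W} (hw : Q w ≠ 0) (h : S (τ e w) = 0) : R e = 0 := by
  have h1 := T.pol e w e w
  rw [polar_self', polar_self', polar_self', h, mul_zero] at h1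
  rcases mul_eq_zero.mp h1.symm with h2 | h2
  · exact (mul_eq_zero.mp h2).resolve_left T.two
  · exact absurd ((mul_eq_zero.mp h2).resolve_left T.two) hw

theorem perp2 {e q : E} (hq : polar R e q = 1) {v : V} (h : ∀ a, polar R e a = 0 → T.cc a v = 0) : v = τ e (T.cc q v) := by
  apply T.eqV
  intro a w
  have h1 : polar R e (a - polar R e a • q) = 0 := by rw [polar_sub_right, polar_smul_right, hq, smul_eq_mul, mul_one, sub_self]
  have h2 := h _ h1
  rw [T.cc_sub, T.cc_smul, sub_eq_zero] at h2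
  rw [← T.cc_spec, h2, T.pol, polar_smul_left, smul_eq_mul]

theorem span_of_τ {f e : E} {w₀ w₁ : W} (hw₀ : w₀ ≠ 0) (h : τ f w₀ = τ e w₁) : ∃ c : F, f = c • e := by
  obtain ⟨z, hz⟩ := T.exists_w1 hw₀
  have h1 : T.dd z (τ f w₀) = T.dd z (τ e w₁) := by rw [h]
  rw [T.dd_τ, T.dd_τ, hz, one_smul] at h1
  exact ⟨_, h1⟩

theorem span_of_τ' {f e : E} {w₀ w₁ : W} (hf : f ≠ 0) (h : τ f w₀ = τ e w₁) : ∃ c : F, w₀ = c • w₁ := by
  obtain ⟨z, hz⟩ := T.exists_e1 hf
  have h1 : T.cc z (τ f w₀) = T.cc z (τ e w₁) := by rw [h]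
  rw [T.cc_τ, T.cc_τ, hz, one_smul] at h1
  exact ⟨_, h1⟩

theorem exists_adj (A : W →ₗ[F] W) : ∃ A' : W →ₗ[F] W, ∀ x y, polar Q (A x) y = polar Q x (A' y) := by
  refine ⟨(LinearMap.BilinForm.toDual (polarBilin Q) T.ndW).symm.toLinearMap ∘ₗ ((polarBilin Q).compl₂ A), fun x y => ?_⟩
  have h : LinearMap.BilinForm.toDual (polarBilin Q) T.ndW
      (((LinearMap.BilinForm.toDual (polarBilin Q) T.ndW).symm.toLinearMap ∘ₗ ((polarBilin Q).compl₂ A)) y) =
      ((polarBilin Q).compl₂ A) y := LinearEquiv.apply_symm_apply _ _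
  have h2 := LinearMap.congr_fun h x
  rw [LinearMap.BilinForm.toDual_def] at h2
  rw [polar_comm Q x, polar_comm Q (A x)]
  exact h2.symm

/-- Riesz -/
theorem riesz (φ : E →ₗ[F] F) : ∃ b, ∀ c, φ c = polar R b c := by
  refine ⟨(LinearMap.BilinForm.toDual (polarBilin R) T.ndE).symm φ, fun c => ?_⟩
  have h : LinearMap.BilinForm.toDual (polarBilin R) T.ndE ((LinearMap.BilinForm.toDual (polarBilin R) T.ndE).symm φ) = φ :=
    LinearEquiv.apply_symm_apply _ _
  have h2 := LinearMap.congr_fun h c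
  rw [LinearMap.BilinForm.toDual_def] at h2
  exact h2.symm

end OO

/-- elements attached to a map -/
noncomputable def chi (T : OO R Q S τ M) (f : E) (A : W →ₗ[F] W) : Module.End F V := (τ f) ∘ₗ A ∘ₗ (T.cc f)

theorem chi_apply (T : OO R Q S τ M) (f : E) (A : W →ₗ[F] W) (v : V) : chi T f A v = τ f (A (T.cc f v)) := rfl

/-- the operator of a Siegel element of `E` -/
noncomputable def sg (T : OO R Q S τ M) (z y : E) : Module.End F V :=
  (τ y) ∘ₗ (T.cc z) - (τ z) ∘ₗ (T.cc y) - R y • ((τ z) ∘ₗ (T.cc z))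

theorem sg_apply (T : OO R Q S τ M) (z y : E) (v : V) :
    sg T z y v = τ y (T.cc z v) - τ z (T.cc y v) - R y • τ z (T.cc z v) := rfl

/-- root operators -/
noncomputable def pp (T : OO R Q S τ M) (z y : E) : Module.End F V :=
  (τ y) ∘ₗ (T.cc z) - (τ z) ∘ₗ (T.cc y)

theorem pp_apply (T : OO R Q S τ M) (z y : E) (v : V) : pp T z y v = τ y (T.cc z v) - τ z (T.cc y v) := rfl

namespace OO

variable (T : OO R Q S τ M)

include T

theorem pp_τ (z y a : E) (w : W) : pp T z y (τ a w) = τ (polar R z a • y - polar R y a • z) w := by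
  rw [pp_apply, T.cc_τ, T.cc_τ, map_sub τ, LinearMap.sub_apply, map_smul τ, map_smul τ, LinearMap.smul_apply,
    LinearMap.smul_apply, map_smul, map_smul, polar_comm R a z, polar_comm R a y]

/-- Siegel elements -/
theorem sieg_me [Finite F] {z y : E} (hz : R z = 0) (hzy : polar R z y = 0) : Me M (1 + sg T z y) := by
  obtain ⟨t, ht, h1⟩ := T.tE _ (T.ndE.sieg_mem_Om (genHyp_of_two_ne_zero T.two) hz hzy)
  refine ⟨t, ht, fun v => ?_⟩
  have : (t : V →ₗ[F] V) = 1 + sg T z y := by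
    apply T.extτ
    intro e w
    change t (τ e w) = τ e w + sg T z y (τ e w)
    rw [h1, sieg_apply, sg_apply, T.cc_τ, T.cc_τ, polar_comm R e z, polar_comm R e y]
    simp only [map_add, map_sub, map_smul, LinearMap.add_apply, LinearMap.sub_apply, LinearMap.smul_apply]
    module
  exact LinearMap.congr_fun this v

theorem sg_smul_sing {z y : E} (hy : R y = 0) (c : F) : sg T z (c • y) = c • pp T z y := by
  ext v
  rw [sg_apply, LinearMap.smul_apply, pp_apply, Q_smul, hy, mul_zero, zero_smul, sub_zero, T.cc_smul, map_smul τ,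
    LinearMap.smul_apply, map_smul, smul_sub]

theorem qd_pp [Finite F] {z y : E} (hz : R z = 0) (hy : R y = 0) (hzy : polar R z y = 0) : Qd (polarBilin S) M (pp T z y) where
  sk x x' := by
    change polar S (pp T z y x) x' = - polar S x (pp T z y x')
    rw [pp_apply, pp_apply, polar_sub_left, polar_sub_right, T.τl, T.τl, ← T.cc_spec, ← T.cc_spec, polar_comm Q (T.cc y x') _,
      polar_comm Q (T.cc z x') _]
    ring
  sq := by
    apply T.extτ
    intro a w
    change pp T z y (pp T z y (τ a w)) = 0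
    rw [pp_τ, pp_τ]
    have hyz : polar R y z = 0 := by rw [polar_comm, hzy]
    simp only [polar_sub_right, polar_smul_right, polar_self', hz, hy, hzy, hyz, mul_zero, smul_zero, sub_zero, zero_smul,
      map_zero, LinearMap.zero_apply, sub_self]
  me c := by
    have := T.sieg_me hz (y := c • y) (by rw [polar_smul_right, hzy, smul_zero])
    rwa [T.sg_smul_sing hy] at this

/-- Siegel elements on `W` -/
theorem siegW_me [Finite F] {z y : W} (hz : Q z = 0) (hzy : polar Q z y = 0) :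
    ∃ t ∈ M, ∀ e w, t (τ e w) = τ e (siegMap Q z y w) := by
  obtain ⟨t, ht, h1⟩ := T.tW _ (T.ndW.sieg_mem_Om (genHyp_of_two_ne_zero T.two) hz hzy)
  exact ⟨t, ht, fun e w => by rw [h1, sieg_apply, siegMap_apply]⟩

/-- transitivity on singular vectors of `E` -/
theorem trans_E [Finite F] {e e' : E} (he : e ≠ 0) (he' : e' ≠ 0) (hQ : R e = 0) (hQ' : R e' = 0) : ∃ σ ∈ Om R, σ e = e' := by
  have hgen : GenHyp R := genHyp_of_two_ne_zero T.two
  have h5 := T.E5
  obtain ⟨g, hg, h1⟩ := T.ndE.Om_trans_ts hgen (U := F ∙ e) (W := F ∙ e') (fun u hu => by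
    obtain ⟨c, rfl⟩ := Submodule.mem_span_singleton.1 hu
    rw [Q_smul, hQ, mul_zero]) (fun u hu => by
    obtain ⟨c, rfl⟩ := Submodule.mem_span_singleton.1 hu
    rw [Q_smul, hQ', mul_zero]) (by rw [finrank_span_singleton he, finrank_span_singleton he'])
    (by rw [finrank_span_singleton he]; omega)
  have h2 : g e ∈ F ∙ e' := by rw [← h1]; exact ⟨e, Submodule.mem_span_singleton_self e, rfl⟩
  obtain ⟨c, hc⟩ := Submodule.mem_span_singleton.1 h2
  have hc0 : c ≠ 0 := by
    rintro rfl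
    rw [zero_smul] at hc
    exact he ((LinearEquiv.map_eq_zero_iff g).1 hc.symm)
  obtain ⟨g', hg', -, h3⟩ := exists_scale T.ndE (A := ⊤) (M := Om R) (by
      rw [NDs, top_inf_eq, eq_bot_iff]
      intro x hx
      rw [Submodule.mem_bot]
      apply T.ndE.eq_zero
      intro y
      rw [polar_comm]
      exact mem_perp.1 hx y trivial) (by rw [finrank_top]; exact h5)
    (fun z _ y _ hz hzy => ⟨_, T.ndE.sieg_mem_Om hgen hz hzy, fun x => by rw [sieg_apply, siegMap_apply]⟩) (z := e') trivial he' hQ'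
    (inv_ne_zero hc0)
  refine ⟨g' * g, mul_mem hg' hg, ?_⟩
  rw [LinearEquiv.mul_apply, ← hc, map_smul, h3, smul_smul, mul_inv_cancel₀ hc0, one_smul]

/-- transitivity on singular lines of `W` -/
theorem trans_W [Finite F] {e e' : W} (he : e ≠ 0) (he' : e' ≠ 0) (hQ : Q e = 0) (hQ' : Q e' = 0) :
    ∃ σ ∈ Om Q, ∃ c : F, c ≠ 0 ∧ σ e = c • e' := by
  have hgen : GenHyp Q := genHyp_of_two_ne_zero T.two
  have h5 := T.W3
  obtain ⟨g, hg, h1⟩ := T.ndW.Om_trans_ts hgen (U := F ∙ e) (W := F ∙ e') (fun u hu => by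
    obtain ⟨c, rfl⟩ := Submodule.mem_span_singleton.1 hu
    rw [Q_smul, hQ, mul_zero]) (fun u hu => by
    obtain ⟨c, rfl⟩ := Submodule.mem_span_singleton.1 hu
    rw [Q_smul, hQ', mul_zero]) (by rw [finrank_span_singleton he, finrank_span_singleton he'])
    (by rw [finrank_span_singleton he]; omega)
  have h2 : g e ∈ F ∙ e' := by rw [← h1]; exact ⟨e, Submodule.mem_span_singleton_self e, rfl⟩
  obtain ⟨c, hc⟩ := Submodule.mem_span_singleton.1 h2
  refine ⟨g, hg, c, ?_, hc.symm⟩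
  rintro rfl
  rw [zero_smul] at hc
  exact he ((LinearEquiv.map_eq_zero_iff g).1 hc.symm)

end OO

end Cfsg.Agent.Lib.OTen
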