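import Mathlib
import Cfsg.Agent.Lib.OTen1

/-!
# Overgroups of `Ω(E) ∘ Ω(W)`: geometry and skew elements (helper21)
-/

set_option autoImplicit false
set_option linter.unusedSectionVars false
set_option linter.unusedVariables false
set_option linter.unusedSimpArgs false

namespace Cfsg.Agent.Lib.OTen

open QuadraticMap Module Cfsg.Agent.Lib.Quad Cfsg.Agent.Lib.OrthNd Cfsg.Agent.Lib.OrthDecH94 Cfsg.Agent.Lib.OrthMax
open Cfsg.Agent.Lib.TenSpO

section geo

variable {F X : Type*} [Field F] [Finite F] [AddCommGroup X] [Module F X] [FiniteDimensional F X] {q : QuadraticForm F X}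

theorem nds_top (hq : Nd q) : NDs q ⊤ := by
  rw [NDs, top_inf_eq, eq_bot_iff]
  intro x hx
  rw [Submodule.mem_bot]
  apply hq.eq_zero
  intro y
  rw [polar_comm]
  exact mem_perp.1 hx y trivial

theorem dual_line (hq : Nd q) {u x : X} (h : ∀ a, polar q u a = 0 → polar q x a = 0) : ∃ c : F, x = c • u := by
  have h1 : x ∈ perp q (perp q (F ∙ u)) := by
    rw [mem_perp]
    intro w hw
    rw [polar_comm]
    exact h w (mem_perp_singleton.1 hw)
  rw [hq.perp_perp] at h1
  obtain ⟨c, hc⟩ := Submodule.mem_span_singleton.1 h1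
  exact ⟨c, hc.symm⟩

theorem sing_span (hq : Nd q) (h3 : 3 ≤ finrank F X) {N : Submodule F X} (h : ∀ x, q x = 0 → x ∈ N) : N = ⊤ := by
  have h1 : perp q N = ⊥ := by
    rw [eq_bot_iff]
    intro x hx
    rw [Submodule.mem_bot]
    by_contra hx0
    obtain ⟨u, -, hu, hxu⟩ := exists_sing_polar hq (nds_top hq) (by rw [finrank_top]; exact h3) (x := x) trivial hx0
    have := mem_perp.1 hx u (h u hu)
    rw [polar_comm, hxu] at this
    exact one_ne_zero this
  rw [← hq.perp_perp N, h1, eq_top_iff]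
  intro x _
  rw [mem_perp]
  intro w hw
  rw [(Submodule.mem_bot F).1 hw, polar_zero_left]

theorem exists_pair1 (hq : Nd q) {u : X} (hu : u ≠ 0) (hu' : q u = 0) : ∃ v, q v = 0 ∧ polar q u v = 1 := by
  obtain ⟨v, -, h1, h2⟩ := exists_partner hq (nds_top hq) (z := u) trivial hu hu'
  exact ⟨v, h1, h2⟩

theorem exists_a0 (hq : Nd q) (h3 : 3 ≤ finrank F X) {u v : X} (hu : q u = 0) (hv : q v = 0) (huv : polar q u v = 1) :
    ∃ a, q a ≠ 0 ∧ polar q u a = 0 ∧ polar q v a = 0 := by
  have h1 := nds_cut hq (nds_top hq) (e := u) (f := v) trivial trivial hu hv huv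
  have h2 := finrank_cut hq ⊤ u v
  rw [finrank_top] at h2
  obtain ⟨a, ha, ha'⟩ := exists_nonsing h1 (by omega)
  have h4 := mem_cut.1 ha
  exact ⟨a, ha', h4.2.1, h4.2.2⟩

theorem exists_a (hq : Nd q) (h3 : 3 ≤ finrank F X) {u : X} (hu : q u = 0) :
    ∃ a, q a ≠ 0 ∧ polar q u a = 0 := by
  by_cases hu0 : u = 0
  · obtain ⟨a, -, ha⟩ := exists_nonsing (nds_top hq) (by rw [finrank_top]; omega)
    exact ⟨a, ha, by rw [hu0, polar_zero_left]⟩
  obtain ⟨v, hv, huv⟩ := exists_pair1 hq hu0 hu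
  obtain ⟨a, h1, h2, -⟩ := exists_a0 hq h3 hu hv huv
  exact ⟨a, h1, h2⟩

/-- singular vectors in `e^⊥` -/
theorem perp_span (hq : Nd q) (h5 : 5 ≤ finrank F X) {e : X} (he : e ≠ 0) (he' : q e = 0) {N : Submodule F X}
    (h : ∀ x, q x = 0 → polar q e x = 0 → x ∈ N) {x : X} (hx : polar q e x = 0) : x ∈ N := by
  obtain ⟨f, hf, hef⟩ := exists_pair1 hq he he'
  have h1 := nds_cut hq (nds_top hq) (e := e) (f := f) trivial trivial he' hf hef
  have h2 := finrank_cut hq ⊤ e f
  rw [finrank_top] at h2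
  rw [← hq.perp_perp N, mem_perp]
  intro y hy
  have hye : polar q y e = 0 := by
    rw [polar_comm]; exact mem_perp.1 hy e (h e he' (by rw [polar_self', he', mul_zero]))
  obtain ⟨z, hz⟩ : ∃ z, z = y - polar q y f • e - polar q y e • f := ⟨_, rfl⟩
  have hze : polar q e z = 0 := by
    rw [hz, polar_sub_right, polar_sub_right, polar_smul_right, polar_smul_right, polar_self', he', hef, polar_comm q e y]
    simp [hye]
  have hzf : polar q f z = 0 := by
    rw [hz, polar_sub_right, polar_sub_right, polar_smul_right, polar_smul_right, polar_self', hf, polar_comm q f e, hef,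
      polar_comm q f y, smul_eq_mul, smul_eq_mul]
    ring
  by_cases hz0 : z = 0
  · rw [hye, zero_smul, sub_zero] at hz
    have h3 : y = polar q y f • e := sub_eq_zero.mp (by rw [← hz, hz0])
    rw [h3, polar_smul_left, hx, smul_zero]
  · exfalso
    obtain ⟨u, hu, hQu, hzu⟩ := exists_sing_polar hq h1 (by omega) (mem_cut.2 ⟨trivial, hze, hzf⟩) hz0
    have hu2 := mem_cut.1 hu
    have h3 := mem_perp.1 hy u (h u hQu hu2.2.1)
    have h4 : polar q z u = polar q y u := by
      rw [hz, polar_sub_left, polar_sub_left, polar_smul_left, polar_smul_left, hu2.2.1, hu2.2.2]; simp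
    rw [h4, polar_comm, h3] at hzu
    exact zero_ne_one hzu

/-- singular eigenvectors -/
theorem scalar_of_sing (hq : Nd q) (h2 : (2 : F) ≠ 0) (h3 : 3 ≤ finrank F X) {D : X →ₗ[F] X}
    (h : ∀ u, q u = 0 → ∃ μ : F, D u = μ • u) : ∃ δ : F, D = δ • LinearMap.id := by
  obtain ⟨u₀, -, hu₀0, hu₀⟩ := exists_sing_in (Q := q) (⊤ : Submodule F X) (by rw [finrank_top]; exact h3)
  obtain ⟨μ₀, hμ₀⟩ := h u₀ hu₀
  -- two non-orthogonal vectors
  have key : ∀ u v, q u = 0 → q v = 0 → polar q u v = 1 → ∀ μ : F, D u = μ • u → D v = μ • v := by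
    intro u v hu hv huv μ hμ
    obtain ⟨a, ha, hua, hva⟩ := exists_a0 hq h3 hu hv huv
    obtain ⟨ν, hν⟩ := h v hv
    have hau : polar q a u = 0 := by rw [polar_comm, hua]
    have hav : polar q a v = 0 := by rw [polar_comm, hva]
    have hvu : polar q v u = 1 := by rw [polar_comm, huv]
    have z1 : q (u + a - q a • v) = 0 := by
      rw [Q_sub, Q_add, Q_smul, hu, hv, hua, polar_add_left, polar_smul_right, polar_smul_right, huv, hav, smul_eq_mul,
        smul_eq_mul]; ring
    have z2 : q (u - a - q a • v) = 0 := by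
      rw [Q_sub, Q_sub, Q_smul, hu, hv, hua, polar_sub_left, polar_smul_right, polar_smul_right, huv, hav, smul_eq_mul,
        smul_eq_mul]; ring
    obtain ⟨κ, hκ⟩ := h _ z1
    obtain ⟨ι, hι⟩ := h _ z2
    rw [map_sub, map_add, map_smul, hμ, hν] at hκ
    rw [map_sub, map_sub, map_smul, hμ, hν] at hι
    have e1 : (μ + μ) • u - (q a * (ν + ν)) • v = (κ + ι) • u + (κ - ι) • a - (q a * (κ + ι)) • v := by
      have := congrArg₂ (· + ·) hκ hι
      have e2 : μ • u + D a - q a • ν • v + (μ • u - D a - q a • ν • v) = (μ + μ) • u - (q a * (ν + ν)) • v := by module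
      rw [← e2, this]; module
    have f1 := congrArg (fun x => polar q x v) e1
    have f2 := congrArg (fun x => polar q x u) e1
    simp only [polar_sub_left, polar_add_left, polar_smul_left, huv, hvu, hau, hav, polar_self', hu, hv, smul_eq_mul,
      mul_zero, mul_one, sub_zero, add_zero, zero_sub, zero_add] at f1 f2
    have g1 : 2 * μ = κ + ι := by linear_combination f1
    have g2 : 2 * ν = κ + ι := by
      have : q a * (2 * ν - (κ + ι)) = 0 := by linear_combination -f2
      have := (mul_eq_zero.mp this).resolve_left ha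
      linear_combination this
    have g3 : ν = μ := by
      have : 2 * (ν - μ) = 0 := by linear_combination g2 - g1
      exact sub_eq_zero.mp ((mul_eq_zero.mp this).resolve_left h2)
    rw [hν, g3]
  have key2 : ∀ u v, q u = 0 → q v = 0 → polar q u v ≠ 0 → ∀ μ : F, D u = μ • u → D v = μ • v := by
    intro u v hu hv huv μ hμ
    have := key u ((polar q u v)⁻¹ • v) hu (by rw [Q_smul, hv, mul_zero]) (by
      rw [polar_smul_right, smul_eq_mul, inv_mul_cancel₀ huv]) μ hμ
    rw [map_smul, smul_comm] at this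
    have h4 := congrArg (fun x => polar q u v • x) this
    simp only [smul_smul, mul_inv_cancel₀ huv, one_smul] at h4
    rw [h4]
    congr 1
    field_simp
  refine ⟨μ₀, ?_⟩
  have hall : ∀ v, q v = 0 → D v = μ₀ • v := by
    intro v hv
    by_cases h4 : polar q u₀ v = 0
    swap
    · exact key2 u₀ v hu₀ hv h4 μ₀ hμ₀
    by_cases hv0 : v = 0
    · rw [hv0, map_zero, smul_zero]
    -- a common singular neighbour
    obtain ⟨y, hy, h5, h6⟩ : ∃ y, q y = 0 ∧ polar q u₀ y ≠ 0 ∧ polar q v y ≠ 0 := by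
      by_contra hcon
      push Not at hcon
      obtain ⟨y₁, h7, h8⟩ := exists_pair1 hq hu₀0 hu₀
      obtain ⟨y₂, h9, h10⟩ := exists_pair1 hq hv0 hv
      have h11 := hcon y₁ h7 (by rw [h8]; exact one_ne_zero)
      have h12 : polar q u₀ y₂ = 0 := by
        by_contra h13
        have := hcon y₂ h9 h13
        rw [h10] at this
        exact one_ne_zero this
      -- `y₁ + y₂ + c v`
      have h13 := hcon (y₁ + y₂ - polar q y₁ y₂ • v) (by
        rw [Q_sub, Q_add, Q_smul, h7, h9, hv, polar_add_left, polar_smul_right, polar_smul_right, polar_comm q y₁ v, h11,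
          polar_comm q y₂ v, h10, smul_eq_mul, smul_eq_mul]; ring) (by
        rw [polar_sub_right, polar_add_right, polar_smul_right, h8, h12, h4]; simp)
      rw [polar_sub_right, polar_add_right, polar_smul_right, h11, h10, polar_self', hv] at h13
      simp at h13
    have h7 := key2 u₀ y hu₀ hy h5 μ₀ hμ₀
    exact key2 y v hy hv (by rw [polar_comm]; exact h6) μ₀ h7
  have h4 := sing_span hq h3 (N := LinearMap.ker (D - μ₀ • LinearMap.id)) (fun x hx => by
    rw [LinearMap.mem_ker, LinearMap.sub_apply, hall x hx]; simp)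
  ext v
  have h5 : v ∈ LinearMap.ker (D - μ₀ • LinearMap.id) := by rw [h4]; trivial
  rw [LinearMap.mem_ker, LinearMap.sub_apply, sub_eq_zero] at h5
  exact h5

/-- two skew maps agreeing on a hyperplane -/
theorem skew_ext (hq : Nd q) {A B : X →ₗ[F] X} (hA : ∀ z, polar q (A z) z = 0)
    (hB : ∀ z, polar q (B z) z = 0) {u : X} (h : ∀ z, polar q u z = 0 → A z = B z) (hu : u ≠ 0) : A = B := by
  obtain ⟨D, hD⟩ : ∃ D, D = A - B := ⟨_, rfl⟩
  have hD1 : ∀ z, polar q (D z) z = 0 := fun z => by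
    rw [hD, LinearMap.sub_apply, polar_sub_left, hA, hB, sub_zero]
  have hD2 : ∀ z w, polar q (D z) w = - polar q z (D w) := by
    intro z w
    have := hD1 (z + w)
    rw [map_add, polar_add_left, polar_add_right, polar_add_right, hD1, hD1, polar_comm q (D w) z] at this
    linear_combination this
  have hD3 : ∀ z, polar q u z = 0 → D z = 0 := fun z hz => by rw [hD, LinearMap.sub_apply, h z hz, sub_self]
  have hD4 : ∀ y, ∃ c : F, D y = c • u := fun y => dual_line hq fun a ha => by
    rw [hD2, hD3 a ha, polar_zero_right, neg_zero]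
  rw [← sub_eq_zero, ← hD]
  ext y
  rw [LinearMap.zero_apply]
  by_cases hy : polar q u y = 0
  · exact hD3 y hy
  · obtain ⟨c, hc⟩ := hD4 y
    have h1 := hD1 y
    rw [hc, polar_smul_left, smul_eq_mul] at h1
    rw [hc, (mul_eq_zero.mp h1).resolve_right hy, zero_smul]

end geo

variable {F E W V : Type*} [Field F] [AddCommGroup E] [Module F E] [FiniteDimensional F E]
  [AddCommGroup W] [Module F W] [FiniteDimensional F W] [AddCommGroup V] [Module F V] [FiniteDimensional F V]

variable {R : QuadraticForm F E} {Q : QuadraticForm F W} {S : QuadraticForm F V} {τ : E →ₗ[F] W →ₗ[F] V}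
  {M : Subgroup (V ≃ₗ[F] V)}

/-- skew elements -/
def KA (T : OO R Q S τ M) (A : W →ₗ[F] W) : Prop :=
  (∀ z, polar Q (A z) z = 0) ∧ ∀ e, R e = 0 → ∀ c : F, Me M (1 + c • chi T e A)

namespace OO

variable (T : OO R Q S τ M)

include T

theorem me_conj {N N' : Module.End F V} (h : Me M (1 + N)) {t : V ≃ₗ[F] V} (ht : t ∈ M) (hN : ∀ v, N' (t v) = t (N v)) :
    Me M (1 + N') := by
  obtain ⟨s, hs, h1⟩ := h
  refine ⟨t * s * t⁻¹, mul_mem (mul_mem ht hs) (inv_mem ht), fun v => ?_⟩
  rw [LinearEquiv.mul_apply, LinearEquiv.mul_apply, h1]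
  change t (t⁻¹ v + N (t⁻¹ v)) = v + N' v
  rw [map_add, ← hN, T.hinv]

theorem cc_E {t : V ≃ₗ[F] V} (ht : t ∈ M) {σ : E ≃ₗ[F] E} (h : ∀ e w, t (τ e w) = τ (σ e) w) (e : E) (v : V) :
    T.cc (σ e) (t v) = T.cc e v := by
  apply T.eqW
  intro w
  rw [T.cc_spec, ← h, T.iso ht, T.cc_spec]

theorem cc_W {t : V ≃ₗ[F] V} (ht : t ∈ M) {ρ : W ≃ₗ[F] W} (hρ : ρ ∈ O Q) (h : ∀ e w, t (τ e w) = τ e (ρ w)) (e : E) (v : V) :
    T.cc e (t v) = ρ (T.cc e v) := by
  apply T.eqW
  intro w
  obtain ⟨w, rfl⟩ := ρ.surjective w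
  rw [T.cc_spec, ← h, T.iso ht, ← T.cc_spec, O_polar hρ]

theorem chi_sq {e : E} (he : R e = 0) (A B : W →ₗ[F] W) : chi T e A * chi T e B = 0 := by
  ext v
  change chi T e A (chi T e B v) = 0
  rw [chi_apply, chi_apply, T.cc_τ, polar_self', he, mul_zero, zero_smul, map_zero, map_zero]

theorem ka_add {A B : W →ₗ[F] W} (h : KA T A) (h' : KA T B) : KA T (A + B) := by
  refine ⟨fun z => ?_, fun e he c => ?_⟩
  · rw [LinearMap.add_apply, polar_add_left, h.1, h'.1, add_zero]
  · have := (h.2 e he c).mul (h'.2 e he c)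
    have e1 : (1 + c • chi T e A) * (1 + c • chi T e B) = 1 + c • chi T e (A + B) := by
      have e2 : chi T e (A + B) = chi T e A + chi T e B := by
        ext v
        rw [LinearMap.add_apply, chi_apply, chi_apply, chi_apply, LinearMap.add_apply, map_add]
      rw [e2, mul_add, mul_one, add_mul, one_mul, smul_mul_smul_comm, T.chi_sq he, smul_zero, add_zero, smul_add, add_assoc]
    rwa [e1] at this

theorem ka_smul {A : W →ₗ[F] W} (h : KA T A) (d : F) : KA T (d • A) := by
  refine ⟨fun z => ?_, fun e he c => ?_⟩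
  · rw [LinearMap.smul_apply, polar_smul_left, h.1, smul_zero]
  · have := h.2 e he (c * d)
    have e1 : chi T e (d • A) = d • chi T e A := by
      ext v
      rw [LinearMap.smul_apply, chi_apply, chi_apply, LinearMap.smul_apply, map_smul]
    rwa [e1, smul_smul]

theorem ka_sub {A B : W →ₗ[F] W} (h : KA T A) (h' : KA T B) : KA T (A - B) := by
  have := T.ka_add h (T.ka_smul h' (-1))
  rwa [neg_smul, one_smul, ← sub_eq_add_neg] at this

theorem ka_of {A : W →ₗ[F] W} {c : F} (hc : c ≠ 0) (h : KA T (c • A)) : KA T A := by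
  have := T.ka_smul h c⁻¹
  rwa [smul_smul, inv_mul_cancel₀ hc, one_smul] at this

theorem ka_map {A B : W →ₗ[F] W} (h : KA T A) {ρ : W ≃ₗ[F] W} (hρ : ρ ∈ Om Q) (hA : ∀ x, B (ρ x) = ρ (A x)) : KA T B := by
  have hρ' := Om_le hρ
  obtain ⟨t, ht, h1⟩ := T.tW ρ hρ
  refine ⟨fun z => ?_, fun e he c => ?_⟩
  · obtain ⟨z, rfl⟩ := ρ.surjective z
    rw [hA, O_polar hρ', h.1]
  · refine T.me_conj (h.2 e he c) ht fun v => ?_
    change c • τ e (B (T.cc e (t v))) = t (c • τ e (A (T.cc e v)))
    rw [T.cc_W ht hρ' h1, hA, map_smul, h1]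

/-- from one element to all -/
theorem ka_of_one [Finite F] {A : W →ₗ[F] W} (hA : ∀ z, polar Q (A z) z = 0) {e₀ : E} (he₀ : e₀ ≠ 0) (he₀' : R e₀ = 0)
    (h : Me M (1 + chi T e₀ A)) : KA T A := by
  have s1 : ∀ e, R e = 0 → Me M (1 + chi T e A) := by
    intro e he
    by_cases he0 : e = 0
    · refine ⟨1, one_mem _, fun v => ?_⟩
      change v = v + τ e (A (T.cc e v))
      rw [he0, map_zero, LinearMap.zero_apply, add_zero]
    obtain ⟨σ, hσ, hσe⟩ := T.trans_E he₀ he0 he₀' he
    obtain ⟨t, ht, h1⟩ := T.tE σ hσ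
    refine T.me_conj h ht fun v => ?_
    rw [chi_apply, chi_apply, ← hσe, T.cc_E ht h1, h1]
  have s2 : ∀ e, R e = 0 → Me M (1 - chi T e A) := by
    intro e he
    refine (s1 e he).inv ?_
    rw [mul_sub, mul_one, add_mul, one_mul, T.chi_sq he, add_zero]
    abel
  have s3 : ∀ (e : E) (a : F), chi T (a • e) A = (a * a) • chi T e A := by
    intro e a
    ext v
    rw [LinearMap.smul_apply, chi_apply, chi_apply, T.cc_smul, map_smul τ, LinearMap.smul_apply, map_smul, map_smul, smul_smul]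
  refine ⟨hA, fun e he c => ?_⟩
  obtain ⟨a, ha⟩ : ∃ a, a = c / 2 := ⟨_, rfl⟩
  have h1 := ((s1 ((1 + a) • e) (by rw [Q_smul, he, mul_zero])).mul (s2 e he)).mul (s2 (a • e) (by rw [Q_smul, he, mul_zero]))
  rw [s3, s3] at h1
  have e1 : (1 + ((1 + a) * (1 + a)) • chi T e A) * (1 - chi T e A) * (1 - (a * a) • chi T e A) = 1 + c • chi T e A := by
    have h2 := T.chi_sq he A A
    simp only [mul_sub, sub_mul, mul_add, add_mul, one_mul, mul_one, smul_mul_assoc, mul_smul_comm, h2, smul_zero, sub_zero,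
      add_zero, zero_sub, sub_neg_eq_add, zero_mul, mul_zero]
    have h3 : c = 2 * a := by rw [ha]; field_simp [T.two]
    rw [h3]
    module
  rwa [e1] at h1

/-- a skew map with a singular eigenvector or not -/
theorem ka_red [Finite F] {A : W →ₗ[F] W} (h : KA T A) (h0 : A ≠ 0) :
    ∃ u x, u ≠ 0 ∧ Q u = 0 ∧ polar Q u x = 0 ∧ (∀ c : F, x ≠ c • u) ∧ KA T (wd Q u x) := by
  have h2 := T.two
  have h3 := T.W3
  have hgen : GenHyp Q := genHyp_of_two_ne_zero T.two
  have skew : ∀ {A : W →ₗ[F] W}, KA T A → ∀ z w, polar Q (A z) w = - polar Q z (A w) := by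
    intro A h z w
    have := h.1 (z + w)
    rw [map_add, polar_add_left, polar_add_right, polar_add_right, h.1, h.1, polar_comm Q (A w) z] at this
    linear_combination this
  -- a singular vector not in the kernel
  obtain ⟨u, hu, hAu⟩ : ∃ u, Q u = 0 ∧ A u ≠ 0 := by
    by_contra hcon
    push Not at hcon
    apply h0
    have := sing_span T.ndW h3 (N := LinearMap.ker A) (fun x hx => hcon x hx)
    ext x
    have hx : x ∈ LinearMap.ker A := by rw [this]; trivial
    exact hx
  have hu0 : u ≠ 0 := by rintro rfl; exact hAu (map_zero _)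
  have hsi : ∀ a, polar Q u a = 0 → ∀ B : W →ₗ[F] W, KA T B →
      ∃ B' : W →ₗ[F] W, KA T B' ∧ ∀ z, B' (siegMap Q u a z) = siegMap Q u a (B z) := by
    intro a ha B hB
    obtain ⟨ρ, hρ⟩ : ∃ ρ, ρ = sieg T.ndW hu ha := ⟨_, rfl⟩
    have hρm : ρ ∈ Om Q := by rw [hρ]; exact T.ndW.sieg_mem_Om hgen hu ha
    have hρa : ∀ x, ρ x = siegMap Q u a x := fun x => by rw [hρ, sieg_apply, siegMap_apply]
    refine ⟨(ρ : W →ₗ[F] W) ∘ₗ B ∘ₗ (ρ.symm : W →ₗ[F] W), T.ka_map hB hρm fun x => ?_, fun z => ?_⟩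
    · change ρ (B (ρ.symm (ρ x))) = ρ (B x)
      rw [LinearEquiv.symm_apply_apply]
    · change ρ (B (ρ.symm (siegMap Q u a z))) = _
      rw [← hρa, LinearEquiv.symm_apply_apply, hρa]
  have hsu : ∀ a, polar Q u a = 0 → siegMap Q u a u = u := by
    intro a ha
    rw [siegMap_apply, polar_self', hu, polar_comm Q a u, ha]
    simp
  -- an eigenvector
  obtain ⟨B, hB, c, hc, hBu⟩ : ∃ B : W →ₗ[F] W, KA T B ∧ ∃ c : F, c ≠ 0 ∧ B u = c • u := by
    by_cases hy : ∃ c : F, A u = c • u
    · obtain ⟨c, hc⟩ := hy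
      exact ⟨A, h, c, fun h0 => hAu (by rw [hc, h0, zero_smul]), hc⟩
    push Not at hy
    obtain ⟨a, ha, hya⟩ : ∃ a, polar Q u a = 0 ∧ polar Q (A u) a ≠ 0 := by
      by_contra hcon
      push Not at hcon
      obtain ⟨c, hc⟩ := dual_line T.ndW hcon
      exact hy c hc
    obtain ⟨B', hB', hB1⟩ := hsi a ha A h
    refine ⟨B' - A, T.ka_sub hB' h, - polar Q a (A u), by rw [polar_comm]; exact neg_ne_zero.mpr hya, ?_⟩
    have h5 := hB1 u
    have h6 : polar Q u (A u) = 0 := by rw [polar_comm]; exact h.1 u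
    rw [hsu a ha, siegMap_apply, h6] at h5
    rw [LinearMap.sub_apply, h5]
    simp only [zero_smul, mul_zero, add_zero, sub_zero]
    module
  obtain ⟨a, ha, hua⟩ := exists_a T.ndW h3 hu
  obtain ⟨B', hB', hB1⟩ := hsi a hua B hB
  have hBsk := skew hB
  have hux : polar Q u (c • a + B a) = 0 := by
    rw [polar_add_right, polar_smul_right, hua, smul_zero, zero_add, ← neg_eq_zero, ← hBsk, hBu, polar_smul_left, hua, smul_zero]
  refine ⟨u, c • a + B a, hu0, hu, hux, fun d hd => ?_, ?_⟩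
  · have h5 : polar Q (c • a + B a) a = 0 := by rw [hd, polar_smul_left, hua, smul_zero]
    rw [polar_add_left, polar_smul_left, hB.1, add_zero, polar_self', smul_eq_mul] at h5
    exact (mul_ne_zero hc (mul_ne_zero h2 ha)) h5
  · have e1 : wd Q u (c • a + B a) = B' - B := by
      refine skew_ext T.ndW (u := u) (fun z => ?_) (fun z => (T.ka_sub hB' hB).1 z) (fun z hz => ?_) hu0
      · rw [wd_apply, polar_sub_left, polar_smul_left, polar_smul_left, smul_eq_mul, smul_eq_mul]; ring
      · have h5 := hB1 (z + polar Q a z • u)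
        have h6 : siegMap Q u a (z + polar Q a z • u) = z := by
          rw [map_add, map_smul, hsu a hua, siegMap_apply, hz]
          simp
        rw [h6, map_add, map_smul, hBu, map_add, map_smul, map_smul, hsu a hua, siegMap_apply] at h5
        have h7 : polar Q u (B z) = 0 := by
          rw [← neg_eq_zero, ← hBsk, hBu, polar_smul_left, hz, smul_zero]
        have h8 : polar Q (B a) z = - polar Q a (B z) := hBsk a z
        rw [LinearMap.sub_apply, h5, wd_apply, hz, h7, polar_add_left, polar_smul_left, h8, smul_eq_mul]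
        module
    rw [e1]
    exact T.ka_sub hB' hB

theorem ka_wd_map [Finite F] {x y : W} (h : KA T (wd Q x y)) {ρ : W ≃ₗ[F] W} (hρ : ρ ∈ Om Q) : KA T (wd Q (ρ x) (ρ y)) :=
  T.ka_map h hρ fun z => by
    rw [wd_apply, wd_apply, O_polar (Om_le hρ), O_polar (Om_le hρ), map_sub, map_smul, map_smul]

theorem ka_wd_add {x y y' : W} (h : KA T (wd Q x y)) (h' : KA T (wd Q x y')) : KA T (wd Q x (y + y')) := by
  have := T.ka_add h h'
  have e : wd Q x y + wd Q x y' = wd Q x (y + y') := by
    ext z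
    rw [LinearMap.add_apply, wd_apply, wd_apply, wd_apply, polar_add_left]; module
  rwa [e] at this

theorem ka_wd_smul {x y : W} (h : KA T (wd Q x y)) (c : F) : KA T (wd Q x (c • y)) := by
  have := T.ka_smul h c
  have e : c • wd Q x y = wd Q x (c • y) := by
    ext z
    rw [LinearMap.smul_apply, wd_apply, wd_apply, polar_smul_left, smul_eq_mul]; module
  rwa [e] at this

theorem ka_wd_of {x y : W} {c : F} (hc : c ≠ 0) (h : KA T (wd Q x (c • y))) : KA T (wd Q x y) := by
  have := T.ka_wd_smul h c⁻¹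
  rwa [smul_smul, inv_mul_cancel₀ hc, one_smul] at this

theorem ka_wd_sub {x y y' : W} (h : KA T (wd Q x y)) (h' : KA T (wd Q x y')) : KA T (wd Q x (y - y')) := by
  have := T.ka_wd_add h (T.ka_wd_smul h' (-1))
  rwa [neg_smul, one_smul, ← sub_eq_add_neg] at this

theorem ka_wd_swap {x y : W} (h : KA T (wd Q x y)) : KA T (wd Q y x) := by
  have := T.ka_smul h (-1)
  have e : (-1 : F) • wd Q x y = wd Q y x := by
    ext z
    rw [LinearMap.smul_apply, wd_apply, wd_apply]; module
  rwa [e] at this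

theorem ka_wd_self (x : W) : KA T (wd Q x x) := by
  have e : wd Q x x = 0 := by ext z; rw [wd_apply, sub_self, LinearMap.zero_apply]
  rw [e]
  refine ⟨fun z => by rw [LinearMap.zero_apply, polar_zero_left], fun e he c => ⟨1, one_mem _, fun v => ?_⟩⟩
  change v = v + c • τ e ((0 : W →ₗ[F] W) (T.cc e v))
  rw [LinearMap.zero_apply, map_zero, smul_zero, add_zero]

/-- one step -/
theorem ka_step [Finite F] {u v x : W} (hv : Q v = 0) (huv : polar Q u v = 1)
    (hvx : polar Q v x = 0) (h : KA T (wd Q u x)) {b : W} (hub : polar Q u b = 0)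
    (hvb : polar Q v b = 0) : KA T (wd Q v (Q b • x - polar Q b x • b)) := by
  have hgen : GenHyp Q := genHyp_of_two_ne_zero T.two
  have hvb' : polar Q v (-b) = 0 := by rw [polar_neg_right, hvb, neg_zero]
  have hbu : polar Q b u = 0 := by rw [polar_comm, hub]
  have hvu : polar Q v u = 1 := by rw [polar_comm, huv]
  have h1 := T.ka_wd_map h (T.ndW.sieg_mem_Om hgen hv hvb)
  have h2 := T.ka_wd_map h (T.ndW.sieg_mem_Om hgen hv hvb')
  rw [sieg_apply, sieg_apply] at h1 h2
  simp only [hvu, hbu, hvx, polar_neg_left, QuadraticMap.map_neg, neg_zero, zero_smul, one_smul, mul_zero, mul_one,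
    add_zero, sub_zero, zero_add] at h1 h2
  have h3 := T.ka_sub (T.ka_sub (T.ka_add h1 h2) h) h
  apply T.ka_of (c := -2) (neg_ne_zero.mpr T.two)
  have e : wd Q (u + b - Q b • v) (x - polar Q b x • v) + wd Q (u + -b - Q b • v) (x - -polar Q b x • v) - wd Q u x - wd Q u x
      = (-2 : F) • wd Q v (Q b • x - polar Q b x • b) := by
    ext z
    simp only [LinearMap.add_apply, LinearMap.sub_apply, LinearMap.smul_apply, wd_apply, polar_add_left, polar_sub_left,
      polar_smul_left, polar_neg_left, smul_eq_mul]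
    module
  rwa [e] at h3

end OO

end Cfsg.Agent.Lib.OTen
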