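import Mathlib
import Cfsg.Agent.Lib.OTen2

/-!
# Overgroups of `Ω(E) ∘ Ω(W)`: skew elements generate (helper21)
-/

set_option autoImplicit false
set_option linter.unusedSectionVars false
set_option linter.unusedVariables false
set_option linter.unusedSimpArgs false

namespace Cfsg.Agent.Lib.OTen

open QuadraticMap Module Cfsg.Agent.Lib.Quad Cfsg.Agent.Lib.OrthNd Cfsg.Agent.Lib.OrthDecH94 Cfsg.Agent.Lib.OrthMax
open Cfsg.Agent.Lib.TenSpO

variable {F E W V : Type*} [Field F] [AddCommGroup E] [Module F E] [FiniteDimensional F E]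
  [AddCommGroup W] [Module F W] [FiniteDimensional F W] [AddCommGroup V] [Module F V] [FiniteDimensional F V]

variable {R : QuadraticForm F E} {Q : QuadraticForm F W} {S : QuadraticForm F V} {τ : E →ₗ[F] W →ₗ[F] V}
  {M : Subgroup (V ≃ₗ[F] V)}

namespace OO

variable (T : OO R Q S τ M)

include T

theorem ka_perp [Finite F] {u x : W} (hu0 : u ≠ 0) (hu : Q u = 0) (hux : polar Q u x = 0) (hx : ∀ c : F, x ≠ c • u)
    (h : KA T (wd Q u x)) {y : W} (hy : polar Q u y = 0) : KA T (wd Q u y) := by
  have h2 := T.two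
  have h3 := T.W3
  obtain ⟨v, hv, huv⟩ := exists_pair1 T.ndW hu0 hu
  have hvu : polar Q v u = 1 := by rw [polar_comm, huv]
  have hQuu : polar Q u u = 0 := by rw [polar_self', hu, mul_zero]
  have hW := nds_cut T.ndW (nds_top T.ndW) (e := u) (f := v) trivial trivial hu hv huv
  have hWd := finrank_cut T.ndW ⊤ u v
  rw [finrank_top] at hWd
  set A₀ : Submodule F W := ⊤ ⊓ perp Q (Submodule.span F {u, v}) with hA₀
  obtain ⟨x₀, hx₀⟩ : ∃ x₀, x₀ = x - polar Q v x • u := ⟨_, rfl⟩
  have hux₀ : polar Q u x₀ = 0 := by rw [hx₀, polar_sub_right, polar_smul_right, hux, hQuu, smul_zero, sub_zero]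
  have hvx₀ : polar Q v x₀ = 0 := by rw [hx₀, polar_sub_right, polar_smul_right, hvu, smul_eq_mul, mul_one, sub_self]
  have hx₀A : x₀ ∈ A₀ := mem_cut.2 ⟨trivial, hux₀, hvx₀⟩
  have hx₀0 : x₀ ≠ 0 := fun h0 => hx _ (sub_eq_zero.mp (by rw [← hx₀, h0]))
  have hk : KA T (wd Q u x₀) := by rw [hx₀]; exact T.ka_wd_sub h (T.ka_wd_smul (T.ka_wd_self u) _)
  obtain ⟨y₀, hy₀⟩ : ∃ y₀, y₀ = y - polar Q v y • u := ⟨_, rfl⟩
  have huy₀ : polar Q u y₀ = 0 := by rw [hy₀, polar_sub_right, polar_smul_right, hy, hQuu, smul_zero, sub_zero]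
  have hvy₀ : polar Q v y₀ = 0 := by rw [hy₀, polar_sub_right, polar_smul_right, hvu, smul_eq_mul, mul_one, sub_self]
  suffices hgoal : KA T (wd Q u y₀) by
    have e : y = y₀ + polar Q v y • u := by rw [hy₀]; abel
    rw [e]
    exact T.ka_wd_add hgoal (T.ka_wd_smul (T.ka_wd_self u) _)
  rcases Nat.eq_or_lt_of_le h3 with h3' | h4
  · -- dimension three
    have hp := T.ndW.finrank_add_finrank_perp (F ∙ u)
    rw [finrank_span_singleton hu0] at hp
    have hli : LinearIndependent F ![u, x₀] := by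
      rw [LinearIndependent.pair_iff]
      intro s t hst
      have h5 := congrArg (polar Q v) hst
      rw [polar_add_right, polar_smul_right, polar_smul_right, hvu, hvx₀, polar_zero_right, smul_eq_mul, mul_one, smul_zero,
        add_zero] at h5
      rw [h5, zero_smul, zero_add, smul_eq_zero, or_iff_left hx₀0] at hst
      exact ⟨h5, hst⟩
    have hle : Submodule.span F (Set.range ![u, x₀]) ≤ perp Q (F ∙ u) := by
      rw [Submodule.span_le]
      rintro _ ⟨i, rfl⟩
      fin_cases i
      · exact mem_perp_singleton.2 hQuu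
      · exact mem_perp_singleton.2 hux₀
    have heq := Submodule.eq_of_le_of_finrank_eq hle (by
      rw [finrank_span_eq_card hli, Fintype.card_fin]
      omega)
    have hyp : y₀ ∈ Submodule.span F (Set.range ![u, x₀]) := by rw [heq]; exact mem_perp_singleton.2 huy₀
    rw [Matrix.range_cons, Matrix.range_cons, Matrix.range_empty, Set.union_empty, Set.singleton_union,
      Submodule.mem_span_pair] at hyp
    obtain ⟨s, t, hst⟩ := hyp
    rw [← hst]
    exact T.ka_wd_add (T.ka_wd_smul (T.ka_wd_self u) _) (T.ka_wd_smul hk _)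
  · -- the general case
    obtain ⟨b, hbA, hbx, hb⟩ : ∃ b ∈ A₀, polar Q b x₀ = 0 ∧ Q b ≠ 0 := by
      by_cases hQ : Q x₀ = 0
      · have h5 : 5 ≤ finrank F W := by
          by_contra hcon
          obtain ⟨c, hc⟩ := T.W4 (by omega) u x₀ hu0 hu hux₀ hQ
          rw [hc, polar_smul_right, hvu, smul_eq_mul, mul_one] at hvx₀
          exact hx₀0 (by rw [hc, hvx₀, zero_smul])
        obtain ⟨b, h6, h7, h8⟩ := exists_nonsing_perp' T.ndW hW (by omega) hx₀A hx₀0 hQ
        exact ⟨b, h6, by rw [polar_comm, h7], h8⟩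
      · have h6 := OrthDecH94.nds_cut1 T.ndW h2 hW hx₀A hQ
        have h7 := OrthDecH94.finrank_cut1 T.ndW (A := A₀) (a := x₀)
        obtain ⟨b, hb, hb'⟩ := exists_nonsing h6 (by omega)
        have h8 := OrthDecH94.mem_cut1.1 hb
        exact ⟨b, h8.1, by rw [polar_comm, h8.2], hb'⟩
    have hb2 := mem_cut.1 hbA
    have hkv : KA T (wd Q v x₀) := by
      have := T.ka_step hv huv hvx₀ hk hb2.2.1 hb2.2.2
      rw [hbx, zero_smul, sub_zero] at this
      exact T.ka_wd_of hb this
    have key : ∀ b' ∈ A₀, polar Q b' x₀ ≠ 0 → KA T (wd Q u b') := by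
      intro b' hb' hne
      have hb3 := mem_cut.1 hb'
      have := T.ka_step hu hvu hux₀ hkv hb3.2.2 hb3.2.1
      have h5 := T.ka_wd_sub (T.ka_wd_smul hk (Q b')) this
      rw [sub_sub_cancel] at h5
      exact T.ka_wd_of hne h5
    have hy₀A : y₀ ∈ A₀ := mem_cut.2 ⟨trivial, huy₀, hvy₀⟩
    by_cases h5 : polar Q y₀ x₀ = 0
    · obtain ⟨b₁, hb₁, -, hb₁'⟩ := exists_one_in T.ndW hW bot_le hx₀A (by simpa using hx₀0)
      rw [polar_comm] at hb₁'
      have h6 := key (y₀ + b₁) (add_mem hy₀A hb₁) (by rw [polar_add_left, h5, hb₁', zero_add]; exact one_ne_zero)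
      have h7 := key b₁ hb₁ (by rw [hb₁']; exact one_ne_zero)
      have h8 := T.ka_wd_sub h6 h7
      rwa [add_sub_cancel_right] at h8
    · exact key y₀ hy₀A h5

theorem ka_all [Finite F] {A : W →ₗ[F] W} (h : KA T A) (h0 : A ≠ 0) (x y : W) : KA T (wd Q x y) := by
  have h2 := T.two
  have h3 := T.W3
  have hgen : GenHyp Q := genHyp_of_two_ne_zero T.two
  obtain ⟨u₀, x₀, hu₀0, hu₀, hux₀, hx₀, hk⟩ := T.ka_red h h0
  have s1 : ∀ u y, Q u = 0 → polar Q u y = 0 → KA T (wd Q u y) := by
    intro u y hu hy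
    by_cases hu0 : u = 0
    · have := T.ka_wd_smul (T.ka_wd_self y) 0
      rw [zero_smul] at this
      rw [hu0]; exact T.ka_wd_swap this
    obtain ⟨σ, hσ, c, hc, hσu⟩ := T.trans_W hu₀0 hu0 hu₀ hu
    obtain ⟨y', rfl⟩ := σ.surjective y
    have h5 : polar Q u₀ y' = 0 := by
      rw [← O_polar (Om_le hσ), hσu, polar_smul_left, hy, smul_zero]
    have h6 := T.ka_wd_map (T.ka_perp hu₀0 hu₀ hux₀ hx₀ hk h5) hσ
    rw [hσu] at h6
    exact T.ka_wd_swap (T.ka_wd_of hc (T.ka_wd_swap h6))
  have s2 : ∀ u v, Q u = 0 → Q v = 0 → polar Q u v = 1 → KA T (wd Q u v) := by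
    intro u v hu hv huv
    obtain ⟨a, ha, hua, hva⟩ := exists_a0 T.ndW h3 hu hv huv
    have hvu : polar Q v u = 1 := by rw [polar_comm, huv]
    have hau : polar Q a u = 0 := by rw [polar_comm, hua]
    have hav : polar Q a v = 0 := by rw [polar_comm, hva]
    have h5 := s1 (u + a - Q a • v) (a - (2 * Q a) • v) (by
      rw [Q_sub, Q_add, Q_smul, hu, hv, hua, polar_add_left, polar_smul_right, polar_smul_right, huv, hav, smul_eq_mul,
        smul_eq_mul]; ring) (by
      simp only [polar_sub_left, polar_add_left, polar_sub_right, polar_smul_left, polar_smul_right, smul_eq_mul, hua, huv, hav, hva,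
        polar_self', hv]; ring)
    have h6 := s1 u a hu hua
    have h7 := s1 v a hv hva
    have h8 := T.ka_sub (T.ka_add h6 (T.ka_smul h7 (Q a))) h5
    apply T.ka_of (c := 2 * Q a) (mul_ne_zero h2 ha)
    have e : wd Q u a + Q a • wd Q v a - wd Q (u + a - Q a • v) (a - (2 * Q a) • v) = (2 * Q a) • wd Q u v := by
      ext z
      simp only [LinearMap.add_apply, LinearMap.sub_apply, LinearMap.smul_apply, wd_apply, polar_add_left, polar_sub_left,
        polar_smul_left, smul_eq_mul]
      module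
    rwa [e] at h8
  have s3 : ∀ u y, Q u = 0 → KA T (wd Q u y) := by
    intro u y hu
    by_cases hu0 : u = 0
    · have := T.ka_wd_smul (T.ka_wd_self y) 0
      rw [zero_smul] at this
      rw [hu0]; exact T.ka_wd_swap this
    obtain ⟨v, hv, huv⟩ := exists_pair1 T.ndW hu0 hu
    have h5 := s1 u (y - polar Q u y • v) hu (by rw [polar_sub_right, polar_smul_right, huv, smul_eq_mul, mul_one, sub_self])
    have h6 := T.ka_wd_add h5 (T.ka_wd_smul (s2 u v hu hv huv) (polar Q u y))
    rwa [sub_add_cancel] at h6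
  let N : Submodule F W :=
    { carrier := {x | KA T (wd Q x y)}
      add_mem' := fun {a b} ha hb => T.ka_wd_swap (T.ka_wd_add (T.ka_wd_swap ha) (T.ka_wd_swap hb))
      zero_mem' := s3 0 y (QuadraticMap.map_zero Q)
      smul_mem' := fun c a ha => T.ka_wd_swap (T.ka_wd_smul (T.ka_wd_swap ha) c) }
  have hN : N = ⊤ := sing_span T.ndW h3 fun u hu => s3 u y hu
  have : x ∈ N := by rw [hN]; trivial
  exact this

/-- as Siegel elements -/
theorem sf_of_ka {x y : W} {e : E} (he : R e = 0) (h : KA T (wd Q x y)) : SF S M (τ e x) (τ e y) := by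
  refine ⟨T.Sτ he x, by rw [T.pol, polar_self', he, mul_zero, zero_mul], fun s => ?_⟩
  obtain ⟨t, ht, h1⟩ := h.2 e he (-s)
  refine ⟨t, ht, fun v => ?_⟩
  rw [h1, siegMap_apply]
  change v + (-s) • τ e (wd Q x y (T.cc e v)) = _
  rw [wd_apply, Q_smul, T.Sτ he y, polar_smul_left, polar_comm S (τ e x), polar_comm S (τ e y), ← T.cc_spec, ← T.cc_spec,
    map_sub, map_smul, map_smul, polar_comm Q y, polar_comm Q x, smul_eq_mul]
  module

/-- **Skew elements suffice.** -/
theorem skew_fin [Finite F] {A : W →ₗ[F] W} (h : KA T A) (h0 : A ≠ 0) : Om S ≤ M := by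
  have h2 := T.two
  have h3 := T.W3
  have h5 := T.E5
  have hall := T.ka_all h h0
  have hsf : ∀ (e : E) (x y : W), R e = 0 → SF S M (τ e x) (τ e y) := fun e x y he => T.sf_of_ka he (hall x y)
  -- elements of `M`
  have hchi : ∀ (e : E) (x y : W), R e = 0 → ∃ t ∈ M, ∀ a w, t (τ a w) = τ a w + polar R e a • τ e (wd Q x y w) := by
    intro e x y he
    obtain ⟨t, ht, h1⟩ := (hall x y).2 e he 1
    refine ⟨t, ht, fun a w => ?_⟩
    rw [h1]
    change τ a w + (1 : F) • τ e (wd Q x y (T.cc e (τ a w))) = _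
    rw [T.cc_τ, one_smul, map_smul, map_smul, polar_comm]
  have hmix : ∀ (e f : E) (x y : W), R e = 0 → R f = 0 → polar R e f = 0 → ∃ t ∈ M, ∀ a w, t (τ a w) =
      τ a w + (polar R f a • τ e (wd Q x y w) + polar R e a • τ f (wd Q x y w)) := by
    intro e f x y he hf hef
    have hfe : polar R f e = 0 := by rw [polar_comm, hef]
    have hee : polar R e e = 0 := by rw [polar_self', he, mul_zero]
    have hff : polar R f f = 0 := by rw [polar_self', hf, mul_zero]
    obtain ⟨t, ht, h1⟩ := hchi (e + f) x y (by rw [Q_add, he, hf, hef]; ring)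
    obtain ⟨s, hs, h4⟩ := (hall x y).2 e he (-1)
    obtain ⟨r, hr, h6⟩ := (hall x y).2 f hf (-1)
    have hs' : ∀ a w, s (τ a w) = τ a w - polar R e a • τ e (wd Q x y w) := fun a w => by
      rw [h4]
      change τ a w + (-1 : F) • τ e (wd Q x y (T.cc e (τ a w))) = _
      rw [T.cc_τ, map_smul, map_smul, polar_comm]; module
    have hr' : ∀ a w, r (τ a w) = τ a w - polar R f a • τ f (wd Q x y w) := fun a w => by
      rw [h6]
      change τ a w + (-1 : F) • τ f (wd Q x y (T.cc f (τ a w))) = _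
      rw [T.cc_τ, map_smul, map_smul, polar_comm]; module
    refine ⟨t * s * r, mul_mem (mul_mem ht hs) hr, fun a w => ?_⟩
    rw [LinearEquiv.mul_apply, LinearEquiv.mul_apply, hr', map_sub, map_smul, hs', hs', hef, map_sub, map_sub, map_smul, map_smul,
      map_sub, map_smul, h1, h1, h1, h1, polar_add_left, polar_add_left, polar_add_left, hee, hff, hef, hfe, map_add τ]
    simp only [LinearMap.add_apply]
    module
  -- `f ⊗ z`, `z ⊥ u`
  have k1 : ∀ (e f : E) (u z : W), e ≠ 0 → R e = 0 → R f = 0 → polar R e f = 0 → u ≠ 0 → polar Q u z = 0 →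
      SF S M (τ e u) (τ f z) := by
    intro e f u z he0 he hf hef hu0 huz
    by_cases hfe : ∃ c : F, f = c • e
    · obtain ⟨c, rfl⟩ := hfe
      rw [map_smul τ, LinearMap.smul_apply]
      exact (hsf e u z he).smul c
    push Not at hfe
    -- the partner of `e` orthogonal to `f`
    obtain ⟨g, hg, hef'⟩ : ∃ g, R g = 0 ∧ polar R e g = 1 ∧ polar R f g = 0 := by
      obtain ⟨g, hg1, hg2⟩ := T.ndE.exists_polar_one (F ∙ f) (v := e) (fun hmem => by
        obtain ⟨c, hc⟩ := Submodule.mem_span_singleton.1 hmem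
        have hc0 : c ≠ 0 := by rintro rfl; rw [zero_smul] at hc; exact he0 hc.symm
        exact hfe c⁻¹ (by rw [← hc, smul_smul, inv_mul_cancel₀ hc0, one_smul]))
      have hg1' := mem_perp_singleton.1 hg1
      obtain ⟨h7, h8⟩ := adjust_singular he hg2
      refine ⟨_, h7, h8, ?_⟩
      rw [polar_sub_right, polar_smul_right, hg1', polar_comm R f e, hef, smul_zero, sub_zero]
    obtain ⟨y', hy'z, hy'u⟩ : ∃ y', polar Q z y' = 0 ∧ ∀ c : F, y' ≠ c • u := by
      by_contra hcon
      push Not at hcon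
      have h7 : perp Q (F ∙ z) ≤ F ∙ u := by
        intro x hx
        obtain ⟨c, hc⟩ := hcon x (mem_perp_singleton.1 hx)
        exact Submodule.mem_span_singleton.2 ⟨c, hc.symm⟩
      have h8 := Submodule.finrank_mono h7
      have h9 := T.ndW.finrank_add_finrank_perp (F ∙ z)
      have h10 : finrank F (F ∙ u) ≤ 1 := by rw [finrank_span_singleton hu0]
      have h11 : finrank F (F ∙ z) ≤ 1 := by
        have := finrank_span_le_card (R := F) ({z} : Set W)
        simpa using this
      omega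
    obtain ⟨y, hyu, hy'y⟩ := T.ndW.exists_polar_one (F ∙ u) (v := y') (fun hmem => by
      obtain ⟨c, hc⟩ := Submodule.mem_span_singleton.1 hmem
      exact hy'u c hc.symm)
    have hyu' := mem_perp_singleton.1 hyu
    obtain ⟨t, ht, h7⟩ := hmix g f z y hg hf (by rw [polar_comm, hef'.2])
    have hge : polar R g e = 1 := by rw [polar_comm, hef'.1]
    have hfe' : polar R f e = 0 := by rw [polar_comm, hef]
    have h8 : t (τ e u) = τ e u := by
      rw [h7, hge, hfe', wd_apply, polar_comm Q y u, hyu', polar_comm Q z u, huz]; simp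
    have h9 : t (τ e y') = τ e y' + τ f z := by
      rw [h7, hge, hfe', wd_apply, polar_comm Q y y', hy'y, hy'z]; simp
    have h10 := (hsf e u y' he).map T.le ht
    rw [h8, h9] at h10
    have h11 := h10.sub (hsf e u y' he)
    rwa [add_sub_cancel_left] at h11
  -- `f ⊗ w`
  have k2 : ∀ (e f : E) (u w : W), e ≠ 0 → R e = 0 → R f = 0 → polar R e f = 0 → u ≠ 0 → SF S M (τ e u) (τ f w) := by
    intro e f u w he0 he hf hef hu0
    by_cases hfe : ∃ c : F, f = c • e
    · obtain ⟨c, rfl⟩ := hfe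
      rw [map_smul τ, LinearMap.smul_apply]
      exact (hsf e u w he).smul c
    push Not at hfe
    obtain ⟨g, hg, hg1, hg2⟩ : ∃ g, R g = 0 ∧ polar R e g = 0 ∧ polar R f g = 1 := by
      obtain ⟨g, hg1, hg2⟩ := T.ndE.exists_polar_one (F ∙ e) (v := f) (fun hmem => by
        obtain ⟨c, hc⟩ := Submodule.mem_span_singleton.1 hmem
        exact hfe c hc.symm)
      have hg1' := mem_perp_singleton.1 hg1
      obtain ⟨h7, h8⟩ := adjust_singular hf hg2
      refine ⟨_, h7, ?_, h8⟩
      rw [polar_sub_right, polar_smul_right, hg1', hef, smul_zero, sub_zero]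
    obtain ⟨z, hz0, hzu, hzw⟩ : ∃ z, z ≠ 0 ∧ polar Q u z = 0 ∧ polar Q w z = 0 := by
      have h7 := finrank_cut T.ndW ⊤ u w
      rw [finrank_top] at h7
      obtain ⟨z, hz⟩ := (Module.finrank_pos_iff_exists_ne_zero (R := F)).1 (by omega :
        0 < finrank F ↥((⊤ : Submodule F W) ⊓ perp Q (Submodule.span F {u, w})))
      have h8 := mem_cut.1 z.2
      exact ⟨z, fun h0 => hz (Subtype.ext h0), h8.2.1, h8.2.2⟩
    obtain ⟨y, hzy⟩ := T.exists_w1 hz0
    have h7 := k1 e g u z he0 he hg hg1 hu0 hzu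
    obtain ⟨t, ht, h8⟩ := hchi f w y hf
    have h9 : t (τ e u) = τ e u := by rw [h8, polar_comm R f e, hef, zero_smul, add_zero]
    have h10 : t (τ g z) = τ g z + τ f w := by
      rw [h8, hg2, wd_apply, polar_comm Q y z, hzy, hzw]; simp
    have h11 := h7.map T.le ht
    rw [h9, h10] at h11
    have h12 := h11.sub h7
    rwa [add_sub_cancel_left] at h12
  -- `a ⊗ z`, `z ⊥ u`
  have k3 : ∀ (e a : E) (u z : W), e ≠ 0 → R e = 0 → R a = 0 → u ≠ 0 → polar Q u z = 0 → SF S M (τ e u) (τ a z) := by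
    intro e a u z he0 he ha hu0 huz
    by_cases hea : polar R e a = 0
    · exact k2 e a u z he0 he ha hea hu0
    obtain ⟨a', ha'⟩ : ∃ a', a' = (polar R e a)⁻¹ • a := ⟨_, rfl⟩
    have hRa' : R a' = 0 := by rw [ha', Q_smul, ha, mul_zero]
    have hea' : polar R e a' = 1 := by rw [ha', polar_smul_right, smul_eq_mul, inv_mul_cancel₀ hea]
    have haa' : a = polar R e a • a' := by rw [ha', smul_smul, mul_inv_cancel₀ hea, one_smul]
    rw [haa', map_smul τ, LinearMap.smul_apply]
    refine SF.smul ?_ _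
    have hE := nds_cut T.ndE (nds_top T.ndE) (e := e) (f := a') trivial trivial he hRa' hea'
    have hEd := finrank_cut T.ndE ⊤ e a'
    rw [finrank_top] at hEd
    obtain ⟨b, hb, h', hh', hRb, hRh, hbh⟩ := exists_pair_in T.ndE hE (by omega)
    have hb2 := mem_cut.1 hb
    have hh2 := mem_cut.1 hh'
    obtain ⟨y', hy'z, hy'u⟩ : ∃ y', polar Q z y' = 0 ∧ ∀ c : F, y' ≠ c • u := by
      by_contra hcon
      push Not at hcon
      have h7 : perp Q (F ∙ z) ≤ F ∙ u := by
        intro x hx
        obtain ⟨c, hc⟩ := hcon x (mem_perp_singleton.1 hx)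
        exact Submodule.mem_span_singleton.2 ⟨c, hc.symm⟩
      have h8 := Submodule.finrank_mono h7
      have h9 := T.ndW.finrank_add_finrank_perp (F ∙ z)
      have h10 : finrank F (F ∙ u) ≤ 1 := by rw [finrank_span_singleton hu0]
      have h11 : finrank F (F ∙ z) ≤ 1 := by
        have := finrank_span_le_card (R := F) ({z} : Set W)
        simpa using this
      omega
    obtain ⟨y, hyu, hy'y⟩ := T.ndW.exists_polar_one (F ∙ u) (v := y') (fun hmem => by
      obtain ⟨c, hc⟩ := Submodule.mem_span_singleton.1 hmem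
      exact hy'u c hc.symm)
    have hyu' := mem_perp_singleton.1 hyu
    obtain ⟨t, ht, h7⟩ := hmix a' h' z y hRa' hRh (by exact hh2.2.2)
    have h8 : t (τ e u) = τ e u := by
      rw [h7, wd_apply, polar_comm Q y u, hyu', polar_comm Q z u, huz]; simp
    have h9 : t (τ b y') = τ b y' + τ a' z := by
      rw [h7, polar_comm R h' b, hbh, hb2.2.2, wd_apply, polar_comm Q y y', hy'y, hy'z]; simp
    have h10 := k2 e b u y' he0 he hRb hb2.2.1 hu0
    have h11 := h10.map T.le ht
    rw [h8, h9] at h11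
    have h12 := h11.sub h10
    rwa [add_sub_cancel_left] at h12
  -- the full centre
  have full : ∀ (e : E) (u : W), e ≠ 0 → R e = 0 → u ≠ 0 → Full S M (τ e u) := by
    intro e u he0 he hu0
    have hz := T.Sτ he u
    have hN : perp S (F ∙ τ e u) ≤ Us S M hz := by
      rw [← T.ndV.perp_perp (Us S M hz)]
      have h7 : perp S (Us S M hz) ≤ F ∙ τ e u := by
        intro x hx
        obtain ⟨q, hq⟩ := T.exists_e1 he0
        have h8 : ∀ b, polar R e b = 0 → T.cc b x = 0 := by
          intro b hb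
          have h9 : b ∈ (⨅ w : W, LinearMap.ker ((polarBilin S x) ∘ₗ (τ.flip w)) : Submodule F E) := by
            refine perp_span T.ndE h5 he0 he (fun f hf hef => ?_) hb
            rw [Submodule.mem_iInf]
            intro w
            rw [LinearMap.mem_ker]
            change polar S x (τ f w) = 0
            rw [polar_comm]
            exact mem_perp.1 hx _ (k2 e f u w he0 he hf hef hu0)
          apply T.eqW
          intro w
          have h10 := (Submodule.mem_iInf _).1 h9 w
          rw [LinearMap.mem_ker] at h10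
          rw [T.cc_spec, polar_zero_left]
          exact h10
        have h9 := T.perp2 hq h8
        obtain ⟨c, hc⟩ : ∃ c : F, T.cc q x = c • u := by
          refine dual_line T.ndW fun z hz => ?_
          have h11 : q ∈ LinearMap.ker ((polarBilin S x) ∘ₗ (τ.flip z)) := by
            have : LinearMap.ker ((polarBilin S x) ∘ₗ (τ.flip z)) = ⊤ := sing_span T.ndE (by omega) fun a ha => by
              rw [LinearMap.mem_ker]
              change polar S x (τ a z) = 0
              rw [polar_comm]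
              exact mem_perp.1 hx _ (k3 e a u z he0 he ha hu0 hz)
            rw [this]; trivial
          rw [T.cc_spec]
          exact h11
        rw [h9, hc, map_smul]
        exact Submodule.smul_mem _ _ (Submodule.mem_span_singleton_self _)
      intro x hx
      rw [mem_perp] at hx ⊢
      intro w hw
      exact hx w (h7 hw)
    refine ⟨hz, fun y hy => ?_⟩
    have h7 := hN (mem_perp_singleton.2 hy)
    have h8 := ((mem_Us hz).1 h7).2.2 1
    rwa [one_smul] at h8
  obtain ⟨e, -, he0, he⟩ := exists_sing_in (Q := R) (⊤ : Submodule F E) (by rw [finrank_top]; omega)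
  obtain ⟨g, hg, heg⟩ := exists_pair1 T.ndE he0 he
  obtain ⟨u, v, hu0, huv⟩ := T.exists_w0
  have hg0 : g ≠ 0 := by rintro rfl; rw [polar_zero_right] at heg; exact zero_ne_one heg
  have hv0 : v ≠ 0 := by rintro rfl; rw [polar_zero_right] at huv; exact zero_ne_one huv
  refine Om_le_of_two T.ndV (genHyp_of_two_ne_zero T.two) ?_ T.le (full e u he0 he hu0) (full g v hg0 hg hv0) (by
    rw [T.pol, heg, huv, mul_one]; exact one_ne_zero)
  -- the dimension
  have hinj : Function.Injective ((τ.flip u) : E →ₗ[F] V) := by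
    rw [injective_iff_map_eq_zero]
    intro a ha
    exact T.τ_inj' hu0 ha
  have := LinearMap.finrank_le_finrank_of_injective hinj
  omega

/-- **Central elements are trivial.** -/
theorem cen_zero [Finite F] (hcon : ¬ Om S ≤ M) {A : W →ₗ[F] W} (hA : ∀ z, polar Q (A z) z = 0) {e : E} (he0 : e ≠ 0)
    (he : R e = 0) (h : Me M (1 + chi T e A)) : A = 0 := by
  by_contra hne
  exact hcon (T.skew_fin (T.ka_of_one hA he0 he h) hne)

end OO

end Cfsg.Agent.Lib.OTen
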