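import Mathlib
import Cfsg.Agent.Lib.OTen3

/-!
# Commuting families of self-adjoint maps (helper21)
-/

set_option autoImplicit false
set_option linter.unusedSectionVars false
set_option linter.unusedVariables false
set_option linter.unusedSimpArgs false

namespace Cfsg.Agent.Lib.OTen

open QuadraticMap Module Cfsg.Agent.Lib.Quad Cfsg.Agent.Lib.OrthNd Cfsg.Agent.Lib.OrthDecH94 Cfsg.Agent.Lib.OrthMax
open Cfsg.Agent.Lib.TenSpO

section geo

variable {F X : Type*} [Field F] [Finite F] [AddCommGroup X] [Module F X] [FiniteDimensional F X] {q : QuadraticForm F X}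

theorem siegMap_polar (hq : Nd q) {u a : X} (hu : q u = 0) (hua : polar q u a = 0) (x y : X) :
    polar q (siegMap q u a x) (siegMap q u a y) = polar q x y := by
  have h := siegMap_Q (Q := q) hu hua
  rw [polar, polar, ← map_add, h, h, h]

theorem siegMap_self {u a : X} (hu : q u = 0) (hua : polar q u a = 0) : siegMap q u a u = u := by
  rw [siegMap_apply, polar_self', hu, polar_comm q a u, hua]; simp

theorem frame3 (hq : Nd q) (h3 : finrank F X = 3) {u v a : X} (hu : q u = 0) (hv : q v = 0) (huv : polar q u v = 1)
    (hua : polar q u a = 0) (hva : polar q v a = 0) (ha : a ≠ 0) :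
    q a ≠ 0 ∧ ∀ z, ∃ γ : F, z = polar q v z • u + polar q u z • v + γ • a := by
  have hvu : polar q v u = 1 := by rw [polar_comm, huv]
  have hli : LinearIndependent F ![u, v] := by
    rw [LinearIndependent.pair_iff]
    intro s t hst
    have h1 := congrArg (polar q u) hst
    have h2 := congrArg (polar q v) hst
    simp only [polar_add_right, polar_smul_right, polar_self', hu, hv, huv, hvu, polar_zero_right, smul_eq_mul, mul_zero,
      mul_one, zero_add, add_zero] at h1 h2
    exact ⟨h2, h1⟩
  have hfr : finrank F (Submodule.span F ({u, v} : Set X)) = 2 := by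
    have := finrank_span_eq_card hli
    rwa [Fintype.card_fin, Matrix.range_cons, Matrix.range_cons, Matrix.range_empty, Set.union_empty, Set.singleton_union] at this
  have h1 := hq.finrank_add_finrank_perp (Submodule.span F ({u, v} : Set X))
  have h2 : finrank F (perp q (Submodule.span F ({u, v} : Set X))) = 1 := by omega
  have haP : a ∈ perp q (Submodule.span F ({u, v} : Set X)) := by
    rw [mem_perp_span]
    rintro x (rfl | rfl)
    · exact hua
    · exact hva
  have hz : ∀ z, ∃ γ : F, z = polar q v z • u + polar q u z • v + γ • a := by
    intro z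
    have hz : z - polar q v z • u - polar q u z • v ∈ perp q (Submodule.span F ({u, v} : Set X)) := by
      rw [mem_perp_span]
      rintro x (rfl | rfl)
      · rw [polar_sub_right, polar_sub_right, polar_smul_right, polar_smul_right, polar_self', hu, huv, smul_eq_mul,
          smul_eq_mul]; ring
      · rw [polar_sub_right, polar_sub_right, polar_smul_right, polar_smul_right, polar_self', hv, hvu, smul_eq_mul,
          smul_eq_mul]; ring
    obtain ⟨γ, hγ⟩ := (finrank_eq_one_iff_of_nonzero' (⟨a, haP⟩ : perp q (Submodule.span F ({u, v} : Set X)))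
      (fun h0 => ha (congrArg Subtype.val h0))).1 h2 ⟨_, hz⟩
    have := congrArg Subtype.val hγ
    simp only [SetLike.val_smul] at this
    refine ⟨γ, ?_⟩
    rw [this]; abel
  refine ⟨fun h0 => ?_, hz⟩
  apply ha
  apply hq.eq_zero
  intro z
  obtain ⟨γ, hγ⟩ := hz z
  rw [hγ, polar_add_right, polar_add_right, polar_smul_right, polar_smul_right, polar_smul_right, polar_comm q a u, hua,
    polar_comm q a v, hva, polar_self', h0]
  simp

/-- polynomial identity -/
theorem poly3 (h2 : (2 : F) ≠ 0) {A B C s : F} (hs : s ≠ 0) (hs' : s * s ≠ 1) (h : ∀ t : F, t * A + t * t * B + t * t * t * C = 0) :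
    C = 0 := by
  have h1 := h 1
  have h3 := h (-1)
  have h4 := h s
  have h5 : B = 0 := by
    have : 2 * B = 0 := by linear_combination h1 + h3
    exact (mul_eq_zero.mp this).resolve_left h2
  have h6 : s * ((s * s - 1) * C) = 0 := by
    rw [h5] at h1 h4
    linear_combination h4 - s * h1
  rcases mul_eq_zero.mp ((mul_eq_zero.mp h6).resolve_left hs) with h7 | h7
  · exact absurd (sub_eq_zero.mp h7) hs'
  · exact h7

/-- **Commuting families consist of scalars.** -/
theorem comm_scalar (hq : Nd q) (h2 : (2 : F) ≠ 0) (h3 : 3 ≤ finrank F X) (h3q : finrank F X = 3 → ∃ s : F, s ≠ 0 ∧ s * s ≠ 1)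
    (P : (X →ₗ[F] X) → Prop) (hsa : ∀ C, P C → ∀ x y, polar q (C x) y = polar q x (C y))
    (hcomm : ∀ C C', P C → P C' → ∀ x, C (C' x) = C' (C x)) (hsub : ∀ C C', P C → P C' → P (C - C'))
    (hconj : ∀ C, P C → ∀ u a, q u = 0 → polar q u a = 0 → ∃ C', P C' ∧ ∀ z, C' (siegMap q u a z) = siegMap q u a (C z))
    {C : X →ₗ[F] X} (hC : P C) : ∃ δ : F, C = δ • LinearMap.id := by
  -- first step
  have step1 : ∀ C, P C → ∀ u, u ≠ 0 → q u = 0 → polar q u (C u) = 0 → ∃ c : F, C u = c • u := by
    intro C hC u hu0 hu hux
    by_contra hne
    push Not at hne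
    rcases Nat.eq_or_lt_of_le h3 with h3' | h4
    · -- dimension three
      obtain ⟨s, hs, hs'⟩ := h3q h3'.symm
      obtain ⟨v, hv, huv⟩ := exists_pair1 hq hu0 hu
      have hvu : polar q v u = 1 := by rw [polar_comm, huv]
      obtain ⟨μ, hμ⟩ : ∃ μ, μ = polar q v (C u) := ⟨_, rfl⟩
      obtain ⟨a, ha⟩ : ∃ a, a = C u - μ • u := ⟨_, rfl⟩
      have hCu : C u = μ • u + a := by rw [ha]; abel
      have hua : polar q u a = 0 := by rw [ha, polar_sub_right, polar_smul_right, hux, polar_self', hu]; simp
      have hva : polar q v a = 0 := by rw [ha, polar_sub_right, polar_smul_right, hvu, hμ, smul_eq_mul, mul_one, sub_self]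
      have ha0 : a ≠ 0 := fun h0 => hne μ (by rw [hCu, h0, add_zero])
      obtain ⟨hqa, hfr⟩ := frame3 hq h3'.symm hu hv huv hua hva ha0
      have hau : polar q a u = 0 := by rw [polar_comm, hua]
      have hav : polar q a v = 0 := by rw [polar_comm, hva]
      have hk : polar q a a = 2 * q a := polar_self' q a
      have hk0 : polar q a a ≠ 0 := by rw [hk]; exact mul_ne_zero h2 hqa
      have key : ∀ t : F, t * (-(2 * polar q v (C a))) + t * t * (polar q a (C a) - 2 * q a * μ) +
          t * t * t * (2 * q a * polar q a a) = 0 := by
        intro t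
        have huta : polar q u (t • a) = 0 := by rw [polar_smul_right, hua, smul_zero]
        obtain ⟨C', hC', hC1⟩ := hconj C hC u (t • a) hu huta
        have hsu := siegMap_self hu huta
        have hsa' : siegMap q u (t • a) a = a - (t * polar q a a) • u := by
          rw [siegMap_apply, hua, polar_smul_left, smul_eq_mul]; simp
        obtain ⟨D, hD⟩ : ∃ D : X →ₗ[F] X, D = C' - C + (t * polar q a a) • LinearMap.id := ⟨_, rfl⟩
        have hDa : ∀ z, D z = C' z - C z + (t * polar q a a) • z := fun z => by rw [hD]; rfl
        have hDC : ∀ z, D (C z) = C (D z) := by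
          intro z
          rw [hDa, hDa, map_add, map_sub, map_smul, hcomm C' C hC' hC]
        have hDsa : ∀ x y, polar q (D x) y = polar q x (D y) := by
          intro x y
          rw [hDa, hDa, polar_add_left, polar_sub_left, polar_smul_left, polar_add_right, polar_sub_right, polar_smul_right,
            hsa C hC, hsa C' hC']
        have hC'u : C' u = C u - (t * polar q a a) • u := by
          have h5 := hC1 u
          rw [hsu, hCu, map_add, map_smul, hsu, hsa'] at h5
          rw [h5, hCu]; abel
        have hDu : D u = 0 := by rw [hDa, hC'u]; abel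
        have hDa0 : D a = 0 := by
          have h5 := hDC u
          rw [hDu, map_zero, hCu, map_add, map_smul, hDu, smul_zero, zero_add] at h5
          exact h5
        obtain ⟨γ', hγ'⟩ := hfr (D v)
        have h5 : polar q u (D v) = 0 := by rw [← hDsa, hDu, polar_zero_left]
        have h6 : polar q a (D v) = 0 := by rw [← hDsa, hDa0, polar_zero_left]
        have h7 : γ' = 0 := by
          rw [hγ', polar_add_right, polar_add_right, polar_smul_right, polar_smul_right, polar_smul_right, hau, hav, smul_zero,
            smul_zero, zero_add, zero_add, smul_eq_mul] at h6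
          exact (mul_eq_zero.mp h6).resolve_right hk0
        rw [h5, h7, zero_smul, zero_smul, add_zero, add_zero] at hγ'
        have h8 : polar q v (D v) = 0 := by
          obtain ⟨ζ, hζ⟩ := hfr (C v)
          have h9 := hDC v
          rw [hζ, map_add, map_add, map_smul, map_smul, map_smul, hDu, hDa0, hγ', map_smul, hCu] at h9
          have h10 := congrArg (polar q a) h9
          simp only [polar_add_right, polar_smul_right, hau, smul_eq_mul, mul_zero, zero_add, add_zero, polar_zero_right] at h10
          exact (mul_eq_zero.mp h10.symm).resolve_right hk0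
        have hvv : polar q v v = 0 := by rw [polar_self', hv, mul_zero]
        rw [hDa, polar_add_right, polar_sub_right, polar_smul_right, hvv, smul_zero, add_zero] at h8
        -- the preimage of `v`
        obtain ⟨v', hv'⟩ : ∃ v', v' = v - t • a - (t * t * q a) • u := ⟨_, rfl⟩
        have hsv' : siegMap q u (t • a) v' = v := by
          rw [hv', map_sub, map_sub, map_smul, map_smul, hsa', hsu, siegMap_apply, huv, polar_smul_left, hav, Q_smul, hk,
            smul_eq_mul]
          module
        have h11 : C' v = siegMap q u (t • a) (C v') := by rw [← hC1, hsv']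
        have h12 : polar q v (C' v) = polar q v' (C v') := by
          rw [h11]
          nth_rewrite 1 [← hsv']
          exact siegMap_polar hq hu huta _ _
        rw [h12, hv'] at h8
        have e1 : polar q u (C v) = μ := by rw [← hsa C hC, hCu, polar_add_left, polar_smul_left, huv, hav]; simp
        have e2 : polar q u (C a) = polar q a a := by rw [← hsa C hC, hCu, polar_add_left, polar_smul_left, hua]; simp
        have e3 : polar q v (C u) = μ := hμ.symm
        have e4 : polar q a (C u) = polar q a a := by rw [hCu, polar_add_right, polar_smul_right, hau]; simp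
        have e5 : polar q a (C v) = polar q v (C a) := by rw [← hsa C hC, polar_comm]
        simp only [map_sub, map_smul, polar_sub_left, polar_sub_right, polar_smul_left, polar_smul_right, smul_eq_mul, e1, e2, e3, e4,
          e5, hux] at h8
        linear_combination h8
      have h5 := poly3 h2 hs hs' key
      exact (mul_ne_zero (mul_ne_zero h2 hqa) hk0) h5
    · -- dimension at least four
      obtain ⟨x, hx⟩ : ∃ x, x = C u := ⟨_, rfl⟩
      rw [← hx] at hux
      have key : ∀ a z, polar q u a = 0 → polar q u z = 0 → q x * polar q a z + polar q a x * polar q x z = 0 := by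
        intro a z hua huz
        obtain ⟨C', hC', hC1⟩ := hconj C hC u a hu hua
        have hsu := siegMap_self hu hua
        have h5 : C' u = x - polar q a x • u := by
          have := hC1 u
          rw [hsu, ← hx, siegMap_apply, hux] at this
          rw [this]; simp
        have h6 : siegMap q u a (x + polar q a x • u) = x := by
          rw [map_add, map_smul, hsu, siegMap_apply, hux]; simp
        have h7 : C' x = siegMap q u a (C x + polar q a x • x) := by
          have := hC1 (x + polar q a x • u)
          rw [h6, map_add, map_smul, ← hx] at this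
          exact this
        have h8 := hcomm C C' hC hC' u
        rw [← hx, h5, h7, map_sub, map_smul, ← hx] at h8
        have h9 := congrArg (fun v => polar q v z) h8
        have h10 : polar q u (C x) = 2 * q x := by rw [← hsa C hC, ← hx, polar_self']
        simp only [siegMap_apply, polar_sub_left, polar_add_left, polar_smul_left, polar_add_right, polar_smul_right, huz, hux, h10,
          smul_eq_mul, mul_zero, add_zero, sub_zero] at h9
        have : 2 * (q x * polar q a z + polar q a x * polar q x z) = 0 := by linear_combination -h9
        exact (mul_eq_zero.mp this).resolve_left h2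
      by_cases hqx : q x = 0
      · obtain ⟨c, hc⟩ := dual_line hq (u := u) (x := x) fun a ha => by
          have := key a a ha ha
          rw [hqx, zero_mul, zero_add, polar_comm q a x] at this
          exact mul_self_eq_zero.mp this
        exact hne c (by rw [← hx, hc])
      · have h5 := finrank_cut hq ⊤ u x
        rw [finrank_top] at h5
        have h6 : (⊤ : Submodule F X) ⊓ perp q (Submodule.span F {u, x}) ≤ F ∙ u := by
          intro a ha
          have ha2 := mem_cut.1 ha
          obtain ⟨c, hc⟩ := dual_line hq (u := u) (x := a) fun z hz => by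
            have := key a z ha2.2.1 hz
            rw [polar_comm q a x, ha2.2.2, zero_mul, add_zero] at this
            exact (mul_eq_zero.mp this).resolve_left hqx
          exact Submodule.mem_span_singleton.2 ⟨c, hc.symm⟩
        have h7 := Submodule.finrank_mono h6
        rw [finrank_span_singleton hu0] at h7
        omega
  -- all singular vectors are eigenvectors
  refine scalar_of_sing hq h2 h3 fun u hu => ?_
  by_cases hu0 : u = 0
  · exact ⟨0, by rw [hu0, map_zero, smul_zero]⟩
  refine step1 C hC u hu0 hu ?_
  obtain ⟨a, ha, hua⟩ := exists_a hq h3 hu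
  obtain ⟨C', hC', hC1⟩ := hconj C hC u a hu hua
  have hsu := siegMap_self hu hua
  have h5 : (C' - C) u = polar q u (C u) • a - (polar q a (C u) + q a * polar q u (C u)) • u := by
    have := hC1 u
    rw [hsu, siegMap_apply] at this
    rw [LinearMap.sub_apply, this]; module
  obtain ⟨c, hc⟩ := step1 _ (hsub _ _ hC' hC) u hu0 hu (by
    rw [h5, polar_sub_right, polar_smul_right, polar_smul_right, hua, polar_self', hu]; simp)
  rw [h5] at hc
  have h6 := congrArg (polar q a) hc
  have hau : polar q a u = 0 := by rw [polar_comm, hua]
  simp only [polar_sub_right, polar_smul_right, hau, polar_self', smul_eq_mul, mul_zero, sub_zero] at h6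
  exact (mul_eq_zero.mp h6).resolve_right (mul_ne_zero h2 ha)

/-- **Maps commuting with Siegel elements modulo scalars.** -/
theorem scalar_mod (hq : Nd q) (h2 : (2 : F) ≠ 0) (h3 : 3 ≤ finrank F X) (h3q : finrank F X = 3 → ∃ s : F, s ≠ 0 ∧ s * s ≠ 1)
    {D : X →ₗ[F] X} (hD : ∀ u a, q u = 0 → polar q u a = 0 → ∃ l : F, ∀ z, siegMap q u a (D z) = D (siegMap q u a z) +
      l • siegMap q u a z) : ∃ δ : F, D = δ • LinearMap.id := by
  refine scalar_of_sing hq h2 h3 fun u hu => ?_
  by_cases hu0 : u = 0
  · exact ⟨0, by rw [hu0, map_zero, smul_zero]⟩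
  have hux : polar q u (D u) = 0 := by
    obtain ⟨a, ha, hua⟩ := exists_a hq h3 hu
    obtain ⟨l, hl⟩ := hD u a hu hua
    have h5 := hl u
    rw [siegMap_self hu hua, siegMap_apply] at h5
    have h6 := congrArg (polar q a) h5
    have hau : polar q a u = 0 := by rw [polar_comm, hua]
    simp only [polar_add_right, polar_sub_right, polar_smul_right, hau, polar_self', smul_eq_mul, mul_zero, sub_zero,
      add_zero] at h6
    have h7 : polar q u (D u) * (2 * q a) = 0 := by linear_combination h6
    exact (mul_eq_zero.mp h7).resolve_right (mul_ne_zero h2 ha)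
  have hl' : ∀ a, polar q u a = 0 → ∀ l : F, (∀ z, siegMap q u a (D z) = D (siegMap q u a z) + l • siegMap q u a z) →
      l = - polar q a (D u) := by
    intro a hua l hl
    have h5 := hl u
    rw [siegMap_self hu hua, siegMap_apply, hux] at h5
    have h6 : (l + polar q a (D u)) • u = 0 := by
      have h7 : (l + polar q a (D u)) • u = (D u + l • u) - (D u + (0 : F) • a - polar q a (D u) • u - (q a * 0) • u) := by module
      rw [h7, h5, sub_self]
    have h7 := (smul_eq_zero.mp h6).resolve_right hu0
    linear_combination h7
  have key : ∀ a, polar q u a = 0 → q a ≠ 0 → polar q a (D u) = 0 := by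
    intro a hua hqa
    have hau : polar q a u = 0 := by rw [polar_comm, hua]
    rcases Nat.eq_or_lt_of_le h3 with h3' | h4
    · obtain ⟨s, hs, hs'⟩ := h3q h3'.symm
      obtain ⟨v, hv, huv, hav⟩ : ∃ v, q v = 0 ∧ polar q u v = 1 ∧ polar q a v = 0 := by
        obtain ⟨v, hv1, hv2⟩ := hq.exists_polar_one (F ∙ a) (v := u) (fun hmem => by
          obtain ⟨c, hc⟩ := Submodule.mem_span_singleton.1 hmem
          rw [← hc, Q_smul] at hu
          have hc0 : c ≠ 0 := by rintro rfl; rw [zero_smul] at hc; exact hu0 hc.symm
          exact (mul_ne_zero (mul_ne_zero hc0 hc0) hqa) hu)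
        have hv1' := mem_perp_singleton.1 hv1
        obtain ⟨h7, h8⟩ := adjust_singular hu hv2
        exact ⟨_, h7, h8, by rw [polar_sub_right, polar_smul_right, hv1', hau, smul_zero, sub_zero]⟩
      have hva : polar q v a = 0 := by rw [polar_comm, hav]
      have hk : polar q a a = 2 * q a := polar_self' q a
      have h5 : polar q u (D a) = - (2 * polar q a (D u)) := by
        obtain ⟨l, hl⟩ := hD u a hu hua
        have h6 := hl' a hua l hl
        have h7 := hl a
        have h8 : siegMap q u a a = a - polar q a a • u := by rw [siegMap_apply, hua]; simp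
        rw [h8, siegMap_apply, map_sub, map_smul, h6] at h7
        have h9 := congrArg (polar q a) h7
        simp only [polar_add_right, polar_sub_right, polar_smul_right, hau, smul_eq_mul, mul_zero, sub_zero] at h9
        have h10 : polar q a a * (polar q u (D a) + 2 * polar q a (D u)) = 0 := by linear_combination h9
        have h11 := (mul_eq_zero.mp h10).resolve_left (by rw [hk]; exact mul_ne_zero h2 hqa)
        linear_combination h11
      have key : ∀ t : F, t * (polar q (D v) a + polar q (D a) v) + t * t * (polar q (D a) a - q a * (polar q (D v) u +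
          polar q (D u) v)) + t * t * t * (q a * polar q a (D u)) = 0 := by
        intro t
        have huta : polar q u (t • a) = 0 := by rw [polar_smul_right, hua, smul_zero]
        obtain ⟨l, hl⟩ := hD u (t • a) hu huta
        obtain ⟨v', hv'⟩ : ∃ v', v' = siegMap q u (t • a) v := ⟨_, rfl⟩
        have h6 : polar q (D v) v = polar q (D v') v' := by
          have h7 := siegMap_polar hq hu huta (D v) v
          rw [hl, ← hv', polar_add_left, polar_smul_left, polar_self'] at h7
          have h8 : q v' = 0 := by rw [hv', siegMap_Q hu huta, hv]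
          rw [h8, mul_zero, smul_zero, add_zero] at h7
          exact h7.symm
        have h7 : v' = v + t • a - (t * t * q a) • u := by
          rw [hv', siegMap_apply, huv, polar_smul_left, hav, Q_smul]; simp
        have f1 : polar q (D a) u = - (2 * polar q a (D u)) := by rw [polar_comm, h5]
        have f2 : polar q (D u) a = polar q a (D u) := polar_comm _ _ _
        have f3 : polar q (D u) u = 0 := by rw [polar_comm, hux]
        rw [h7] at h6
        simp only [map_sub, map_add, map_smul, polar_sub_left, polar_add_left, polar_sub_right, polar_add_right, polar_smul_left,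
          polar_smul_right, smul_eq_mul, f1, f2, f3] at h6
        linear_combination -h6
      exact (mul_eq_zero.mp (poly3 h2 hs hs' key)).resolve_left hqa
    · have h6 := OrthDecH94.nds_cut1 hq h2 (nds_top hq) (a := a) trivial hqa
      have h7 := OrthDecH94.finrank_cut1 hq (A := ⊤) (a := a)
      rw [finrank_top] at h7
      obtain ⟨z, hz, huz, hqz⟩ := exists_nonsing_perp' hq h6 (by omega) (e := u) (OrthDecH94.mem_cut1.2 ⟨trivial, hau⟩) hu0 hu
      have haz := (OrthDecH94.mem_cut1.1 hz).2
      have hza : polar q z a = 0 := by rw [polar_comm, haz]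
      have hzu : polar q z u = 0 := by rw [polar_comm, huz]
      obtain ⟨l, hl⟩ := hD u a hu hua
      have h8 := hl' a hua l hl
      have h9 := hl z
      have h10 : siegMap q u a z = z := by rw [siegMap_apply, huz, haz]; simp
      rw [h10, siegMap_apply] at h9
      have h11 := congrArg (polar q z) h9
      simp only [polar_add_right, polar_sub_right, polar_smul_right, hza, hzu, smul_eq_mul, mul_zero, sub_zero, add_zero,
        polar_self'] at h11
      have h12 : l * (2 * q z) = 0 := by linear_combination -h11
      have h13 := (mul_eq_zero.mp h12).resolve_right (mul_ne_zero h2 hqz)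
      rw [h13] at h8
      linear_combination h8
  obtain ⟨c, hc⟩ := dual_line hq (u := u) (x := D u) fun a hua => by
    by_cases hqa : q a = 0
    · obtain ⟨b, hb, hub⟩ := exists_a hq h3 hu
      have k1 := key b hub hb
      by_cases h5 : q (a + b) = 0
      · have h6 : q (a - b) ≠ 0 := by
          intro h0
          rw [Q_add, hqa, zero_add] at h5
          rw [Q_sub, hqa, zero_add] at h0
          apply hb
          have : 2 * q b = 0 := by linear_combination h5 + h0
          exact (mul_eq_zero.mp this).resolve_left h2
        have k2 := key (a - b) (by rw [polar_sub_right, hua, hub, sub_zero]) h6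
        rw [polar_sub_left, k1, sub_zero] at k2
        rw [polar_comm]; exact k2
      · have k2 := key (a + b) (by rw [polar_add_right, hua, hub, add_zero]) h5
        rw [polar_add_left, k1, add_zero] at k2
        rw [polar_comm]; exact k2
    · rw [polar_comm]; exact key a hua hqa
  exact ⟨c, hc⟩

end geo

end Cfsg.Agent.Lib.OTen
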