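import Mathlib
import Cfsg.Agent.Lib.OTen4

/-!
# Overgroups of `Ω(E) ∘ Ω(W)`: the unipotent radical (helper21)
-/

set_option autoImplicit false
set_option linter.unusedSectionVars false
set_option linter.unusedVariables false
set_option linter.unusedSimpArgs false

namespace Cfsg.Agent.Lib.OTen

open QuadraticMap Module Cfsg.Agent.Lib.Quad Cfsg.Agent.Lib.OrthNd Cfsg.Agent.Lib.OrthDecH94 Cfsg.Agent.Lib.OrthMax
open Cfsg.Agent.Lib.TenSpO

variable {F E W V : Type*} [Field F] [AddCommGroup E] [Module F E] [FiniteDimensional F E]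
  [AddCommGroup W] [Module F W] [FiniteDimensional F W] [AddCommGroup V] [Module F V] [FiniteDimensional F V]

variable {R : QuadraticForm F E} {Q : QuadraticForm F W} {S : QuadraticForm F V} {τ : E →ₗ[F] W →ₗ[F] V}
  {M : Subgroup (V ≃ₗ[F] V)}

/-- elements of the unipotent radical -/
structure QG (R : QuadraticForm F E) (τ : E →ₗ[F] W →ₗ[F] V) (M : Subgroup (V ≃ₗ[F] V)) (e : E) (n : V ≃ₗ[F] V)
    (G : E →ₗ[F] W →ₗ[F] W) : Prop where
  mem : n ∈ M
  fix : ∀ w, n (τ e w) = τ e w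
  act : ∀ c, polar R e c = 0 → ∀ w, n (τ c w) = τ c w + τ e (G c w)

theorem QG.mul {e : E} {n n' : V ≃ₗ[F] V} {G G' : E →ₗ[F] W →ₗ[F] W} (h : QG R τ M e n G) (h' : QG R τ M e n' G') :
    QG R τ M e (n * n') (G + G') where
  mem := mul_mem h.mem h'.mem
  fix w := by rw [LinearEquiv.mul_apply, h'.fix, h.fix]
  act c hc w := by
    rw [LinearEquiv.mul_apply, h'.act c hc, map_add, h.act c hc, h.fix, LinearMap.add_apply, LinearMap.add_apply, map_add]
    abel

theorem QG.inv {e : E} {n : V ≃ₗ[F] V} {G : E →ₗ[F] W →ₗ[F] W} (h : QG R τ M e n G) : QG R τ M e n⁻¹ (-G) where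
  mem := inv_mem h.mem
  fix w := by
    apply n.injective
    rw [h.fix]; exact n.apply_symm_apply _
  act c hc w := by
    apply n.injective
    have h1 : n (n⁻¹ (τ c w)) = τ c w := n.apply_symm_apply _
    rw [h1, map_add, h.act c hc, h.fix, LinearMap.neg_apply, LinearMap.neg_apply, map_neg]
    abel

theorem QG.congr {e : E} {n : V ≃ₗ[F] V} {G G' : E →ₗ[F] W →ₗ[F] W} (h : QG R τ M e n G)
    (hG : ∀ c, polar R e c = 0 → G c = G' c) : QG R τ M e n G' :=
  ⟨h.mem, h.fix, fun c hc w => by rw [h.act c hc, hG c hc]⟩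

namespace OO

variable (T : OO R Q S τ M)

include T

theorem cc_fix {e : E} {n : V ≃ₗ[F] V} (hn : n ∈ M) (h : ∀ w, n (τ e w) = τ e w) (v : V) : T.cc e (n v) = T.cc e v := by
  apply T.eqW
  intro w
  rw [T.cc_spec, ← h, T.iso hn, T.cc_spec]

theorem cc_fixi {e : E} {n : V ≃ₗ[F] V} (hn : n ∈ M) (h : ∀ w, n (τ e w) = τ e w) (v : V) : T.cc e (n⁻¹ v) = T.cc e v := by
  rw [← T.cc_fix hn h, T.hinv]

/-- a central element -/
theorem cent {e : E} {m₁ m₂ : V ≃ₗ[F] V} (h₁ : m₁ ∈ M) (h₂ : m₂ ∈ M) {K : W →ₗ[F] W} (hc : ∀ v, T.cc e (m₂ v) = T.cc e v)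
    (h : ∀ v, m₁ v = m₂ v + τ e (K (T.cc e v))) : Me M (1 + chi T e K) := by
  refine ⟨m₁ * m₂⁻¹, mul_mem h₁ (inv_mem h₂), fun v => ?_⟩
  rw [LinearEquiv.mul_apply, h, T.hinv, ← hc, T.hinv]
  rfl

theorem qg_conjE {e : E} (he : R e = 0) {n : V ≃ₗ[F] V} {G : E →ₗ[F] W →ₗ[F] W} (h : QG R τ M e n G) {σ : E ≃ₗ[F] E}
    (hσ : σ ∈ Om R) (hσe : σ e = e) : ∃ n', QG R τ M e n' (G ∘ₗ (σ.symm : E →ₗ[F] E)) := by
  obtain ⟨t, ht, h1⟩ := T.tE σ hσ
  have h2 : ∀ a w, t⁻¹ (τ a w) = τ (σ.symm a) w := by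
    intro a w
    apply t.injective
    rw [T.hinv, h1, LinearEquiv.apply_symm_apply]
  have h3 : σ.symm e = e := by rw [LinearEquiv.symm_apply_eq]; exact hσe.symm
  refine ⟨t * n * t⁻¹, mul_mem (mul_mem ht h.mem) (inv_mem ht), fun w => ?_, fun c hc w => ?_⟩
  · rw [LinearEquiv.mul_apply, LinearEquiv.mul_apply, h2, h3, h.fix, h1, hσe]
  · rw [LinearEquiv.mul_apply, LinearEquiv.mul_apply, h2, h.act _ (by
      rw [← O_polar (Om_le hσ), hσe, LinearEquiv.apply_symm_apply, hc]), map_add, h1, h1, LinearEquiv.apply_symm_apply, hσe]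
    rfl

theorem qg_conjW {e : E} (he : R e = 0) {n : V ≃ₗ[F] V} {G : E →ₗ[F] W →ₗ[F] W} (h : QG R τ M e n G) {ρ : W ≃ₗ[F] W}
    (hρ : ρ ∈ Om Q) : ∃ n' G', QG R τ M e n' G' ∧ ∀ c w, G' c (ρ w) = ρ (G c w) := by
  obtain ⟨t, ht, h1⟩ := T.tW ρ hρ
  have h2 : ∀ a w, t⁻¹ (τ a w) = τ a (ρ.symm w) := by
    intro a w
    apply t.injective
    rw [T.hinv, h1, LinearEquiv.apply_symm_apply]
  refine ⟨t * n * t⁻¹, LinearMap.mk₂ F (fun c w => ρ (G c (ρ.symm w))) (fun a b w => by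
      rw [map_add G, LinearMap.add_apply, map_add]) (fun a b w => by rw [map_smul G, LinearMap.smul_apply, map_smul])
      (fun a w w' => by rw [map_add, map_add, map_add]) (fun a b w => by rw [map_smul, map_smul, map_smul]), ⟨?_, fun w => ?_,
      fun c hc w => ?_⟩, fun c w => ?_⟩
  · exact mul_mem (mul_mem ht h.mem) (inv_mem ht)
  · rw [LinearEquiv.mul_apply, LinearEquiv.mul_apply, h2, h.fix, h1, LinearEquiv.apply_symm_apply]
  · rw [LinearEquiv.mul_apply, LinearEquiv.mul_apply, h2, h.act c hc, map_add, h1, h1, LinearEquiv.apply_symm_apply]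
    rfl
  · rw [LinearMap.mk₂_apply, LinearEquiv.symm_apply_apply]

/-- contractions of the inverse -/
theorem cc_qg {e : E} {n : V ≃ₗ[F] V} {G : E →ₗ[F] W →ₗ[F] W} (h : QG R τ M e n G) {c : E} (hc : polar R e c = 0)
    {G' : W →ₗ[F] W} (hG' : ∀ x y, polar Q (G c x) y = polar Q x (G' y)) (v : V) :
    T.cc c (n⁻¹ v) = T.cc c v + G' (T.cc e v) := by
  apply T.eqW
  intro w
  rw [T.cc_spec, T.isoi h.mem, h.act c hc, polar_add_right, polar_add_left, T.cc_spec, polar_comm Q (G' _),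
    ← hG', polar_comm Q (G c w), T.cc_spec]

/-- **The components are self-adjoint.** -/
theorem qg_sa [Finite F] (hcon : ¬ Om S ≤ M) {e : E} (he0 : e ≠ 0) (he : R e = 0) {n : V ≃ₗ[F] V} {G : E →ₗ[F] W →ₗ[F] W}
    (h : QG R τ M e n G) {c : E} (hc : polar R e c = 0) (x y : W) : polar Q (G c x) y = polar Q x (G c y) := by
  obtain ⟨G', hG'⟩ := T.exists_adj (G c)
  obtain ⟨t, ht, h1⟩ := T.sieg_me he hc
  have h1' : ∀ v, t v = v + (τ c (T.cc e v) - τ e (T.cc c v) - R c • τ e (T.cc e v)) := fun v => h1 v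
  have hce : polar R c e = 0 := by rw [polar_comm, hc]
  have h2 := T.cent (e := e) (m₁ := n * t * n⁻¹) (m₂ := t) (mul_mem (mul_mem h.mem ht) (inv_mem h.mem)) ht (K := G c - G')
    (fun v => by
      rw [h1', map_add, map_sub, map_sub, map_smul, T.cc_τ, T.cc_τ, T.cc_τ, hce, polar_self', he]
      simp) (fun v => by
      rw [LinearEquiv.mul_apply, LinearEquiv.mul_apply, h1', h1', map_add, map_sub, map_sub, map_smul, T.hinv,
        T.cc_fixi h.mem h.fix, h.fix, h.fix, h.act c hc, T.cc_qg h hc hG', map_add, LinearMap.sub_apply, map_sub]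
      abel)
  have h3 : ∀ z, polar Q ((G c - G') z) z = 0 := fun z => by
    rw [LinearMap.sub_apply, polar_sub_left, hG', polar_comm Q z, sub_self]
  have h4 := T.cen_zero hcon h3 he0 he h2
  rw [hG', sub_eq_zero.mp h4]

/-- perpendicular decomposition -/
theorem to_τ {e q : E} (he : R e = 0) (hq : polar R e q = 1) {n : V ≃ₗ[F] V} {D : V →ₗ[F] V}
    (h1 : ∀ c, polar R e c = 0 → ∀ w, D (τ c w) = 0) (h2 : ∀ c, polar R e c = 0 → ∀ v w, polar S (D v) (τ c w) = 0) :
    ∃ K : W →ₗ[F] W, ∀ v, D v = τ e (K (T.cc e v)) := by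
  obtain ⟨K, hK⟩ : ∃ K : W →ₗ[F] W, K = (T.cc q) ∘ₗ D ∘ₗ (τ q) := ⟨_, rfl⟩
  refine ⟨K, fun v => ?_⟩
  have h3 : D = (τ e) ∘ₗ K ∘ₗ (T.cc e) := by
    apply T.extτ'
    intro a w
    change D (τ a w) = τ e (K (T.cc e (τ a w)))
    have h4 : D (τ (a - polar R e a • q) w) = 0 := h1 _ (by
      rw [polar_sub_right, polar_smul_right, hq, smul_eq_mul, mul_one, sub_self]) w
    rw [map_sub τ, LinearMap.sub_apply, map_sub, sub_eq_zero, map_smul τ, LinearMap.smul_apply, map_smul] at h4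
    rw [h4, T.cc_τ, map_smul, map_smul, polar_comm R a e]
    congr 1
    rw [hK]
    change D (τ q w) = τ e (T.cc q (D (τ q w)))
    refine T.perp2 hq fun b hb => T.eqW fun w' => ?_
    rw [T.cc_spec, h2 b hb, polar_zero_left]
  exact LinearMap.congr_fun h3 v

/-- **Commuting components.** -/
theorem qg_comm [Finite F] (hcon : ¬ Om S ≤ M) {e f : E} (he0 : e ≠ 0) (he : R e = 0) (hf : R f = 0) (hef : polar R e f = 0)
    {n n₂ : V ≃ₗ[F] V} {G G₂ : E →ₗ[F] W →ₗ[F] W} (h : QG R τ M e n G) (h₂ : QG R τ M e n₂ G₂) {A : W →ₗ[F] W}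
    (hA : ∀ c, G₂ c = polar R f c • A) (hAs : ∀ x y, polar Q (A x) y = polar Q x (A y)) (x : W) :
    A (G f x) = G f (A x) := by
  obtain ⟨q, hq, heq⟩ := exists_pair1 T.ndE he0 he
  have hfe : polar R f e = 0 := by rw [polar_comm, hef]
  -- the second element
  have h₂i : ∀ c, polar R e c = 0 → ∀ w, n₂⁻¹ (τ c w) = τ c w - polar R f c • τ e (A w) := by
    intro c hc w
    rw [h₂.inv.act c hc, LinearMap.neg_apply, LinearMap.neg_apply, hA, LinearMap.smul_apply, map_neg, map_smul]; abel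
  obtain ⟨K, hK⟩ := T.to_τ (n := n₂) he heq (D := (n₂ : V →ₗ[F] V) - LinearMap.id - ((τ e) ∘ₗ A ∘ₗ (T.cc f) - (τ f) ∘ₗ A ∘ₗ (T.cc e)))
    (fun c hc w => by
      change n₂ (τ c w) - τ c w - (τ e (A (T.cc f (τ c w))) - τ f (A (T.cc e (τ c w)))) = 0
      rw [h₂.act c hc, hA, LinearMap.smul_apply, T.cc_τ, T.cc_τ, polar_comm R c e, hc, polar_comm R c f, map_smul, map_smul, map_smul]
      simp) (fun c hc v w => by
      change polar S (n₂ v - v - (τ e (A (T.cc f v)) - τ f (A (T.cc e v)))) (τ c w) = 0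
      have h3 : polar S (n₂ v) (τ c w) = polar S v (n₂⁻¹ (τ c w)) := by
        rw [← T.iso h₂.mem v (n₂⁻¹ (τ c w)), T.hinv]
      rw [polar_sub_left, polar_sub_left, polar_sub_left, h3, h₂i c hc, polar_sub_right, polar_smul_right, T.pol, T.pol, hc,
        ← T.cc_spec e v (A w), ← hAs, smul_eq_mul]
      ring)
  have hn₂ : ∀ v, n₂ v = v + (τ e (A (T.cc f v)) - τ f (A (T.cc e v))) + τ e (K (T.cc e v)) := by
    intro v
    have : n₂ v - v - (τ e (A (T.cc f v)) - τ f (A (T.cc e v))) = τ e (K (T.cc e v)) := hK v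
    rw [← this]; abel
  have hsa := T.qg_sa hcon he0 he h (c := f) hef
  have h4 := T.cent (e := e) (m₁ := n * n₂ * n⁻¹) (m₂ := n₂) (mul_mem (mul_mem h.mem h₂.mem) (inv_mem h.mem)) h₂.mem
    (K := A ∘ₗ (G f) - (G f) ∘ₗ A) (T.cc_fix h₂.mem h₂.fix) (fun v => by
      rw [LinearEquiv.mul_apply, LinearEquiv.mul_apply, hn₂, hn₂ v, map_add, map_add, map_sub, T.hinv,
        T.cc_fixi h.mem h.fix, h.fix, h.fix, h.act f hef, T.cc_qg h hef hsa, map_add, LinearMap.sub_apply, map_sub,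
        LinearMap.comp_apply, LinearMap.comp_apply, map_add]
      abel)
  have h5 := T.cen_zero hcon (fun z => by
    rw [LinearMap.sub_apply, polar_sub_left, LinearMap.comp_apply, LinearMap.comp_apply, hAs, hsa (A z) z,
      polar_comm Q (A z), sub_self]) he0 he h4
  have := LinearMap.congr_fun h5 x
  rw [LinearMap.sub_apply, LinearMap.zero_apply, sub_eq_zero] at this
  exact this

/-- **The unipotent radical of `M`.** -/
theorem qg_scalar [Finite F] (hcon : ¬ Om S ≤ M) {e f : E} (he0 : e ≠ 0) (he : R e = 0) (hf : R f = 0) (hef : polar R e f = 0)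
    {n : V ≃ₗ[F] V} {G : E →ₗ[F] W →ₗ[F] W} (h : QG R τ M e n G) : ∃ δ : F, G f = δ • LinearMap.id := by
  have h2 := T.two
  have hgen : GenHyp R := genHyp_of_two_ne_zero T.two
  by_cases hfe : ∃ c : F, f = c • e
  · obtain ⟨c, rfl⟩ := hfe
    refine ⟨0, ?_⟩
    have h3 : ∀ w, G e w = 0 := by
      intro w
      have h4 := h.act e (by rw [polar_self', he, mul_zero]) w
      rw [h.fix, left_eq_add] at h4
      exact T.τ_inj he0 h4
    ext w
    rw [map_smul, LinearMap.smul_apply, h3]; simp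
  push Not at hfe
  have hfe' : polar R f e = 0 := by rw [polar_comm, hef]
  -- an auxiliary nonsingular vector
  obtain ⟨a, ha, hea, hfa⟩ : ∃ a, R a ≠ 0 ∧ polar R e a = 0 ∧ polar R f a = 0 := by
    obtain ⟨g, hg1, hg2⟩ := T.ndE.exists_polar_one (F ∙ f) (v := e) (fun hmem => by
      obtain ⟨c, hc⟩ := Submodule.mem_span_singleton.1 hmem
      have hc0 : c ≠ 0 := by rintro rfl; rw [zero_smul] at hc; exact he0 hc.symm
      exact hfe c⁻¹ (by rw [← hc, smul_smul, inv_mul_cancel₀ hc0, one_smul]))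
    have hg1' := mem_perp_singleton.1 hg1
    obtain ⟨h7, h8⟩ := adjust_singular he hg2
    obtain ⟨g', hg'⟩ : ∃ g', g' = g - R g • e := ⟨_, rfl⟩
    rw [← hg'] at h7 h8
    have h9 : polar R f g' = 0 := by rw [hg', polar_sub_right, polar_smul_right, hg1', hfe', smul_zero, sub_zero]
    have hE := nds_cut T.ndE (nds_top T.ndE) (e := e) (f := g') trivial trivial he h7 h8
    have hEd := finrank_cut T.ndE ⊤ e g'
    rw [finrank_top] at hEd
    have h5 := T.E5
    obtain ⟨d, hd, hd1, hd2⟩ := exists_nonsing_perp' T.ndE hE (by omega) (e := f) (mem_cut.2 ⟨trivial, hef, by rw [polar_comm, h9]⟩)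
      (fun h0 => hfe 0 (by rw [h0, zero_smul])) hf
    exact ⟨d, hd2, (mem_cut.1 hd).2.1, hd1⟩
  -- the special elements
  have spec : ∀ n G, QG R τ M e n G → ∃ n₂, QG R τ M e n₂ ((polarBilin R f).smulRight (-(2 * R a) • G f)) := by
    intro n G h
    have hfa' : polar R f (-a) = 0 := by rw [polar_neg_right, hfa, neg_zero]
    have hae : polar R a e = 0 := by rw [polar_comm, hea]
    obtain ⟨σ, hσ⟩ : ∃ σ, σ = sieg T.ndE hf hfa := ⟨_, rfl⟩
    obtain ⟨σ', hσ'⟩ : ∃ σ', σ' = sieg T.ndE hf hfa' := ⟨_, rfl⟩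
    have m1 : σ ∈ Om R := by rw [hσ]; exact T.ndE.sieg_mem_Om hgen hf hfa
    have m2 : σ' ∈ Om R := by rw [hσ']; exact T.ndE.sieg_mem_Om hgen hf hfa'
    have a1 : ∀ z, σ z = z + polar R f z • a - polar R a z • f - (R a * polar R f z) • f := fun z => by
      rw [hσ, sieg_apply]
    have a2 : ∀ z, σ' z = z - polar R f z • a + polar R a z • f - (R a * polar R f z) • f := fun z => by
      rw [hσ', sieg_apply, polar_neg_left, QuadraticMap.map_neg, smul_neg, neg_smul]; abel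
    have i1 : ∀ z, σ.symm z = σ' z := by
      intro z
      rw [LinearEquiv.symm_apply_eq, a1, a2]
      simp only [polar_add_right, polar_sub_right, polar_smul_right, hfa, polar_self', hf, polar_comm R a f, smul_eq_mul]
      module
    have i2 : ∀ z, σ'.symm z = σ z := by
      intro z
      rw [LinearEquiv.symm_apply_eq, ← i1, LinearEquiv.symm_apply_apply]
    obtain ⟨n₁, h₁⟩ := T.qg_conjE he h m1 (by rw [a1, hfe', hae]; simp)
    obtain ⟨n₂, h₂⟩ := T.qg_conjE he h m2 (by rw [a2, hfe', hae]; simp)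
    refine ⟨n₁ * n₂ * n⁻¹ * n⁻¹, (((h₁.mul h₂).mul h.inv).mul h.inv).congr fun c hc => ?_⟩
    ext w
    simp only [LinearMap.add_apply, LinearMap.neg_apply, LinearMap.comp_apply]
    change (G (σ.symm c)) w + (G (σ'.symm c)) w + -(G c) w + -(G c) w = (polar R f c • (-(2 * R a) • G f)) w
    rw [i1, i2, a1, a2]
    simp only [map_sub, map_add, map_smul, LinearMap.sub_apply, LinearMap.add_apply, LinearMap.smul_apply]
    module
  refine comm_scalar T.ndW T.two T.W3 T.W3q (P := fun C => ∃ n G, QG R τ M e n G ∧ G f = C) ?_ ?_ ?_ ?_ ⟨n, G, h, rfl⟩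
  · rintro _ ⟨n, G, h, rfl⟩ x y
    exact T.qg_sa hcon he0 he h hef x y
  · rintro _ _ ⟨n, G, h, rfl⟩ ⟨n', G', h', rfl⟩ x
    obtain ⟨n₂, h₂⟩ := spec n G h
    have hsa := T.qg_sa hcon he0 he h hef
    have h3 := T.qg_comm hcon he0 he hf hef h' h₂ (A := -(2 * R a) • G f) (fun c => rfl) (fun x y => by
      rw [LinearMap.smul_apply, LinearMap.smul_apply, polar_smul_left, polar_smul_right, hsa]) x
    rw [LinearMap.smul_apply, LinearMap.smul_apply, map_smul] at h3
    have h4 : -(2 * R a) ≠ 0 := neg_ne_zero.mpr (mul_ne_zero h2 ha)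
    have h5 := congrArg (fun z => (-(2 * R a))⁻¹ • z) h3
    simpa only [smul_smul, inv_mul_cancel₀ h4, one_smul] using h5
  · rintro _ _ ⟨n, G, h, rfl⟩ ⟨n', G', h', rfl⟩
    refine ⟨n * n'⁻¹, G + -G', h.mul h'.inv, ?_⟩
    rw [LinearMap.add_apply, LinearMap.neg_apply, sub_eq_add_neg]
  · rintro _ ⟨n, G, h, rfl⟩ u b hu hub
    obtain ⟨n', G', h', h3⟩ := T.qg_conjW he h (T.ndW.sieg_mem_Om (genHyp_of_two_ne_zero T.two) hu hub)
    refine ⟨G' f, ⟨n', G', h', rfl⟩, fun z => ?_⟩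
    have := h3 f z
    rw [sieg_apply, sieg_apply] at this
    rw [siegMap_apply, siegMap_apply]
    exact this

/-- **(B)** -/
theorem qg_main [Finite F] (hcon : ¬ Om S ≤ M) {e : E} (he0 : e ≠ 0) (he : R e = 0)
    {n : V ≃ₗ[F] V} {G : E →ₗ[F] W →ₗ[F] W} (h : QG R τ M e n G) : ∃ b, polar R e b = 0 ∧
      ∀ v, n v = v + τ b (T.cc e v) - τ e (T.cc b v) - R b • τ e (T.cc e v) := by
  have h5 := T.E5
  have hall : ∀ c, polar R e c = 0 → ∃ δ : F, G c = δ • LinearMap.id := by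
    intro c hc
    let N : Submodule F E :=
      { carrier := {c | ∃ δ : F, G c = δ • LinearMap.id}
        add_mem' := by
          rintro a b ⟨δ, hδ⟩ ⟨ε, hε⟩
          exact ⟨δ + ε, by rw [map_add, hδ, hε, add_smul]⟩
        zero_mem' := ⟨0, by rw [map_zero, zero_smul]⟩
        smul_mem' := by
          rintro s a ⟨δ, hδ⟩
          exact ⟨s * δ, by rw [map_smul, hδ, smul_smul]⟩ }
    exact perp_span T.ndE h5 he0 he (N := N) (fun f hf hef => T.qg_scalar hcon he0 he hf hef h) hc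
  obtain ⟨w₀, w₁, hw₀, hw₁⟩ := T.exists_w0
  obtain ⟨b₀, hb₀⟩ := T.riesz ((polarBilin Q w₁) ∘ₗ (G.flip w₀))
  have hb₁ : ∀ c, polar R e c = 0 → G c = polar R b₀ c • LinearMap.id := by
    intro c hc
    obtain ⟨δ, hδ⟩ := hall c hc
    have h6 := hb₀ c
    change polar Q w₁ (G c w₀) = _ at h6
    rw [hδ, LinearMap.smul_apply, LinearMap.id_apply, polar_smul_right, polar_comm Q w₁, hw₁, smul_eq_mul, mul_one] at h6
    rw [hδ, h6]
  have heb₀ : polar R e b₀ = 0 := by
    have h6 := h.act e (by rw [polar_self', he, mul_zero]) w₀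
    rw [h.fix, left_eq_add, hb₁ e (by rw [polar_self', he, mul_zero]), LinearMap.smul_apply, LinearMap.id_apply, map_smul,
      smul_eq_zero] at h6
    rw [polar_comm]
    exact h6.resolve_right fun h0 => hw₀ (T.τ_inj he0 h0)
  obtain ⟨b, hb⟩ : ∃ b, b = -b₀ := ⟨_, rfl⟩
  have heb : polar R e b = 0 := by rw [hb, polar_neg_right, heb₀, neg_zero]
  have hbe : polar R b e = 0 := by rw [polar_comm, heb]
  obtain ⟨t, ht, h1⟩ := T.sieg_me he heb
  have h1' : ∀ v, t v = v + (τ b (T.cc e v) - τ e (T.cc b v) - R b • τ e (T.cc e v)) := fun v => h1 v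
  have htq : QG R τ M e t G := by
    refine ⟨ht, fun w => ?_, fun c hc w => ?_⟩
    · rw [h1', T.cc_τ, T.cc_τ, polar_comm R e b, hbe, polar_self', he]; simp
    · rw [h1', T.cc_τ, T.cc_τ, polar_comm R c e, hc, hb₁ c hc, hb, polar_neg_right, polar_comm R c b₀]
      simp
  have h6 := h.mul htq.inv
  rw [add_neg_cancel] at h6
  obtain ⟨q, hq⟩ := T.exists_e1 he0
  obtain ⟨m, hm⟩ : ∃ m, m = n * t⁻¹ := ⟨_, rfl⟩
  rw [← hm] at h6
  have hfixm : ∀ c, polar R e c = 0 → ∀ w, m (τ c w) = τ c w := fun c hc w => by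
    rw [h6.act c hc, LinearMap.zero_apply, LinearMap.zero_apply, map_zero, add_zero]
  obtain ⟨K, hK⟩ := T.to_τ (n := m) he hq (D := (m : V →ₗ[F] V) - LinearMap.id) (fun c hc w => by
      change m (τ c w) - τ c w = 0
      rw [hfixm c hc, sub_self]) (fun c hc v w => by
      change polar S (m v - v) (τ c w) = 0
      rw [polar_sub_left]
      nth_rewrite 1 [← hfixm c hc w]
      rw [T.iso h6.mem, sub_self])
  have hK' : ∀ v, m v = v + τ e (K (T.cc e v)) := fun v => by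
    have : m v - v = τ e (K (T.cc e v)) := hK v
    rw [← this]; abel
  have hKs : ∀ z, polar Q (K z) z = 0 := by
    intro z
    have h7 := T.iso h6.mem (τ q z) (τ q z)
    rw [hK', T.cc_τ, polar_comm R q e, hq, one_smul, polar_add_left, polar_add_right, polar_add_right, T.pol e, T.pol q z e,
      T.pol e, hq, polar_self' R, he, polar_comm R q e, hq, polar_comm Q z] at h7
    have h8 : 2 * polar Q (K z) z = 0 := by linear_combination h7
    exact (mul_eq_zero.mp h8).resolve_left T.two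
  have hK0 := T.cen_zero hcon hKs he0 he ⟨m, h6.mem, fun v => by rw [hK']; rfl⟩
  refine ⟨b, heb, fun v => ?_⟩
  have h7 : n v = m (t v) := by rw [hm, LinearEquiv.mul_apply, T.hinv']
  rw [h7, hK', hK0, LinearMap.zero_apply, map_zero, add_zero, h1']
  abel

end OO

end Cfsg.Agent.Lib.OTen
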