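import Mathlib
import Cfsg.Agent.Lib.OTen5

/-!
# Overgroups of `Ω(E) ∘ Ω(W)`: elements preserving one block (helper21)
-/

set_option autoImplicit false
set_option linter.unusedSectionVars false
set_option linter.unusedVariables false
set_option linter.unusedSimpArgs false

namespace Cfsg.Agent.Lib.OTen

open QuadraticMap Module Cfsg.Agent.Lib.Quad Cfsg.Agent.Lib.OrthNd Cfsg.Agent.Lib.OrthDecH94 Cfsg.Agent.Lib.OrthMax
open Cfsg.Agent.Lib.TenSpO

variable {F E W V : Type*} [Field F] [AddCommGroup E] [Module F E] [FiniteDimensional F E]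
  [AddCommGroup W] [Module F W] [FiniteDimensional F W] [AddCommGroup V] [Module F V] [FiniteDimensional F V]

variable {R : QuadraticForm F E} {Q : QuadraticForm F W} {S : QuadraticForm F V} {τ : E →ₗ[F] W →ₗ[F] V}
  {M : Subgroup (V ≃ₗ[F] V)}

namespace OO

variable (T : OO R Q S τ M)

include T

theorem exists_nonsing_E [Finite F] {e : E} (he : R e = 0) : ∃ a, R a ≠ 0 ∧ polar R e a = 0 :=
  exists_a T.ndE (by have := T.E5; omega) he

/-- the conjugate of a Siegel element -/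
theorem blk0 [Finite F] (hcon : ¬ Om S ≤ M) {m : V ≃ₗ[F] V} (hm : m ∈ M) {e' e : E} (he'0 : e' ≠ 0) (he' : R e' = 0)
    (he0 : e ≠ 0) (he : R e = 0) {C : W ≃ₗ[F] W} (h : ∀ w, m (τ e' w) = τ e (C w)) {c : E} (hc : polar R e' c = 0) :
    ∃ c', polar R e c' = 0 ∧ (∀ f, polar R e' f = 0 → ∀ w, T.cc c' (m (τ f w)) = polar R c f • C w) ∧
      ∃ X : W →ₗ[F] W, ∀ q, polar R e q = 1 → ∀ w, ∃ x, m (τ c (T.cc e' (m⁻¹ (τ q w)))) = τ c' w + τ e x := by
  obtain ⟨t, ht, h1⟩ := T.sieg_me he' hc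
  have h1' : ∀ v, t v = v + (τ c (T.cc e' v) - τ e' (T.cc c v) - R c • τ e' (T.cc e' v)) := fun v => h1 v
  have hce' : polar R c e' = 0 := by rw [polar_comm, hc]
  have hmi : ∀ w, m⁻¹ (τ e w) = τ e' (C.symm w) := by
    intro w
    apply m.injective
    rw [T.hinv, h, LinearEquiv.apply_symm_apply]
  have hcc : ∀ b, polar R e b = 0 → ∀ w, T.cc e' (m⁻¹ (τ b w)) = 0 := by
    intro b hb w
    apply T.eqW
    intro w'
    rw [T.cc_spec, T.isoi hm, h, T.pol, polar_comm R b e, hb, zero_mul, polar_zero_left]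
  have hte : ∀ w, t (τ e' w) = τ e' w := by
    intro w
    rw [h1', T.cc_τ, T.cc_τ, polar_comm R e' c, hce', polar_self', he']; simp
  have hq : QG R τ M e (m * t * m⁻¹) (LinearMap.mk₂ F (fun b w => -(C (T.cc c (m⁻¹ (τ b w))))) (fun a b w => by
      rw [map_add τ, LinearMap.add_apply, map_add, map_add, map_add, neg_add]) (fun a b w => by
      rw [map_smul τ, LinearMap.smul_apply, map_smul, map_smul, map_smul, smul_neg])
      (fun a w w' => by rw [map_add, map_add, map_add, map_add, neg_add])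
      (fun a b w => by rw [map_smul, map_smul, map_smul, map_smul, smul_neg])) := by
    refine ⟨mul_mem (mul_mem hm ht) (inv_mem hm), fun w => ?_, fun b hb w => ?_⟩
    · rw [LinearEquiv.mul_apply, LinearEquiv.mul_apply, hmi, hte, h, LinearEquiv.apply_symm_apply]
    · rw [LinearEquiv.mul_apply, LinearEquiv.mul_apply, h1', hcc b hb, map_add, T.hinv, LinearMap.mk₂_apply, map_zero, map_zero,
        smul_zero, sub_zero, zero_sub, map_neg, h, map_neg]
  obtain ⟨c', hc', hn⟩ := T.qg_main hcon he0 he hq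
  have hn' : ∀ v, m (t (m⁻¹ v)) = v + τ c' (T.cc e v) - τ e (T.cc c' v) - R c' • τ e (T.cc e v) := hn
  refine ⟨c', hc', fun f hf w => ?_, 0, fun q hq w => ?_⟩
  · have h2 := hn' (m (τ f w))
    have h3 : T.cc e (m (τ f w)) = 0 := by
      apply T.eqW
      intro w'
      rw [T.cc_spec]
      have h4 : τ e w' = m (τ e' (C.symm w')) := by rw [h, LinearEquiv.apply_symm_apply]
      rw [h4, T.iso hm, T.pol, polar_comm R f e', hf, zero_mul, polar_zero_left]
    rw [T.hinv', h1', T.cc_τ, T.cc_τ, polar_comm R f e', hf, h3] at h2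
    have h4 : τ e (T.cc c' (m (τ f w)) - polar R f c • C w) = 0 := by
      rw [map_sub, map_smul, ← h]
      simp only [zero_smul, map_zero, smul_zero, sub_zero, add_zero, zero_sub, map_add, map_neg, map_smul] at h2
      have h5 : m (τ f w) + -(polar R f c • m (τ e' w)) = m (τ f w) - τ e (T.cc c' (m (τ f w))) := h2
      have h6 : τ e (T.cc c' (m (τ f w))) - polar R f c • m (τ e' w) =
        (m (τ f w) + -(polar R f c • m (τ e' w))) - (m (τ f w) - τ e (T.cc c' (m (τ f w)))) := by abel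
      rw [h6, h5, sub_self]
    rw [polar_comm R c f]
    exact sub_eq_zero.mp (T.τ_inj he0 h4)
  · have h2 := hn' (τ q w)
    rw [h1', map_add, T.hinv, map_sub, map_sub, map_smul, h, h, T.cc_τ, polar_comm R q e, hq, one_smul] at h2
    refine ⟨C (T.cc c (m⁻¹ (τ q w))) + R c • C (T.cc e' (m⁻¹ (τ q w))) - T.cc c' (τ q w) - R c' • w, ?_⟩
    rw [map_sub, map_sub, map_add, map_smul, map_smul]
    have h5 : m (τ c (T.cc e' (m⁻¹ (τ q w)))) = (τ q w + (m (τ c (T.cc e' (m⁻¹ (τ q w)))) - τ e (C (T.cc c (m⁻¹ (τ q w)))) -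
      R c • τ e (C (T.cc e' (m⁻¹ (τ q w)))))) - τ q w + τ e (C (T.cc c (m⁻¹ (τ q w)))) + R c • τ e (C (T.cc e' (m⁻¹ (τ q w)))) := by
      abel
    rw [h5, h2]; abel

/-- the similitude and the structure on `e'^⊥` -/
theorem blk1 [Finite F] (hcon : ¬ Om S ≤ M) {m : V ≃ₗ[F] V} (hm : m ∈ M) {e' e : E} (he'0 : e' ≠ 0) (he' : R e' = 0)
    (he0 : e ≠ 0) (he : R e = 0) {C : W ≃ₗ[F] W} (h : ∀ w, m (τ e' w) = τ e (C w)) :
    ∃ κ : F, κ ≠ 0 ∧ (∀ x y, polar Q (C x) (C y) = κ * polar Q x y) ∧ ∀ c, polar R e' c = 0 →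
      ∃ c₁, polar R e c₁ = 0 ∧ ∀ w, ∃ x, m (τ c w) = τ c₁ (C w) + τ e x := by
  obtain ⟨q, hq⟩ := T.exists_e1 he0
  obtain ⟨Y, hY⟩ : ∃ Y : W →ₗ[F] W, Y = (T.cc e') ∘ₗ ((m⁻¹ : V ≃ₗ[F] V) : V →ₗ[F] V) ∘ₗ (τ q) := ⟨_, rfl⟩
  have hYa : ∀ w w', polar Q (Y w) w' = polar Q w (C w') := by
    intro w w'
    rw [hY]
    change polar Q (T.cc e' (m⁻¹ (τ q w))) w' = _
    rw [T.cc_spec, T.isoi hm, h, T.pol, polar_comm R q e, hq, one_mul]
  obtain ⟨a, ha, hea⟩ := T.exists_nonsing_E he'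
  obtain ⟨a', ha', hA1, -, hA2⟩ := T.blk0 hcon hm he'0 he' he0 he h hea
  have hCY : ∀ w, polar R a a • C (Y w) = polar R a' a' • w := by
    intro w
    obtain ⟨x, hx⟩ := hA2 q hq w
    have h1 := hA1 a hea (Y w)
    have h2 : m (τ a (Y w)) = τ a' w + τ e x := by rw [← hx, hY]; rfl
    rw [h2, map_add, T.cc_τ, T.cc_τ, ha', zero_smul, add_zero] at h1
    exact h1.symm
  have haa : polar R a a ≠ 0 := by rw [polar_self']; exact mul_ne_zero T.two ha
  obtain ⟨κ, hκ⟩ : ∃ κ, κ = (polar R a a)⁻¹ * polar R a' a' := ⟨_, rfl⟩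
  have hCY' : ∀ w, C (Y w) = κ • w := by
    intro w
    have := congrArg (fun z => (polar R a a)⁻¹ • z) (hCY w)
    simpa only [smul_smul, inv_mul_cancel₀ haa, one_smul, ← hκ] using this
  have hYC : ∀ w, Y (C w) = κ • w := by
    intro w
    apply C.injective
    rw [hCY', map_smul]
  have hκ0 : κ ≠ 0 := by
    intro h0
    obtain ⟨w₀, w₁, hw₀, hw₁⟩ := T.exists_w0
    have h1 := hYC w₀
    rw [h0, zero_smul] at h1
    have h2 : C w₀ = 0 := by
      apply T.ndW.eq_zero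
      intro y
      obtain ⟨y, rfl⟩ := C.surjective y
      rw [← hYa, h1, polar_zero_left]
    exact hw₀ ((LinearEquiv.map_eq_zero_iff C).1 h2)
  refine ⟨κ, hκ0, fun x y => by rw [← hYa, hYC, polar_smul_left, smul_eq_mul], fun c hc => ?_⟩
  obtain ⟨c', hc', -, -, hB⟩ := T.blk0 hcon hm he'0 he' he0 he h hc
  refine ⟨κ⁻¹ • c', by rw [polar_smul_right, hc', smul_zero], fun w => ?_⟩
  obtain ⟨x, hx⟩ := hB q hq (C w)
  have h2 : m (τ c (Y (C w))) = τ c' (C w) + τ e x := by rw [← hx, hY]; rfl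
  rw [hYC, map_smul, map_smul] at h2
  refine ⟨κ⁻¹ • x, ?_⟩
  have := congrArg (fun z => κ⁻¹ • z) h2
  simp only [smul_smul, inv_mul_cancel₀ hκ0, one_smul, smul_add] at this
  rw [this, map_smul τ, LinearMap.smul_apply, map_smul]

/-- pure values on `e'^⊥` -/
theorem blk2 [Finite F] (hcon : ¬ Om S ≤ M) {m : V ≃ₗ[F] V} (hm : m ∈ M) {e' e : E} (he'0 : e' ≠ 0) (he' : R e' = 0)
    (he0 : e ≠ 0) (he : R e = 0) {C : W ≃ₗ[F] W} (h : ∀ w, m (τ e' w) = τ e (C w)) {c : E} (hc : polar R e' c = 0) :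
    ∃ c₂, ∀ w, m (τ c w) = τ c₂ (C w) := by
  have h2 := T.two
  obtain ⟨κ, hκ0, hκ, hst⟩ := T.blk1 hcon hm he'0 he' he0 he h
  have hmi : ∀ w, m⁻¹ (τ e w) = τ e' (C.symm w) := by
    intro w
    apply m.injective
    rw [T.hinv, h, LinearEquiv.apply_symm_apply]
  obtain ⟨-, -, -, hsti⟩ := T.blk1 hcon (inv_mem hm) he0 he he'0 he' hmi
  obtain ⟨q, hq⟩ := T.exists_e1 he0
  obtain ⟨c₁, hc₁, hcx⟩ := hst c hc
  -- the map
  obtain ⟨D, hD⟩ : ∃ D : W →ₗ[F] W, ∀ w, m (τ c w) = τ c₁ (C w) + τ e (D (C w)) := by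
    refine ⟨(T.cc q) ∘ₗ ((m : V →ₗ[F] V) ∘ₗ (τ c) ∘ₗ (C.symm : W →ₗ[F] W) - τ c₁), fun w => ?_⟩
    obtain ⟨x, hx⟩ := hcx w
    have h3 : ((T.cc q) ∘ₗ ((m : V →ₗ[F] V) ∘ₗ (τ c) ∘ₗ (C.symm : W →ₗ[F] W) - τ c₁)) (C w) = x := by
      change T.cc q (m (τ c (C.symm (C w))) - τ c₁ (C w)) = x
      rw [LinearEquiv.symm_apply_apply, hx, add_sub_cancel_left, T.cc_τ, hq, one_smul]
    rw [h3, hx]
  have hQC : ∀ x, Q (C x) = κ * Q x := by
    intro x
    have h3 := hκ x x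
    rw [polar_self', polar_self'] at h3
    apply mul_left_cancel₀ h2
    rw [h3]; ring
  obtain ⟨δ, hδ⟩ := scalar_mod T.ndW h2 T.W3 T.W3q (D := D) (fun u a hu hua => by
    obtain ⟨u', hu'⟩ : ∃ u', u' = C.symm u := ⟨_, rfl⟩
    obtain ⟨a₀, ha₀⟩ : ∃ a₀, a₀ = C.symm a := ⟨_, rfl⟩
    have hCu : C u' = u := by rw [hu', LinearEquiv.apply_symm_apply]
    have hCa : C a₀ = a := by rw [ha₀, LinearEquiv.apply_symm_apply]
    have hQu' : Q u' = 0 := by
      have := hQC u'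
      rw [hCu, hu] at this
      exact (mul_eq_zero.mp this.symm).resolve_left hκ0
    have hua' : polar Q u' (κ • a₀) = 0 := by
      rw [polar_smul_right, smul_eq_mul, ← hκ, hCu, hCa, hua]
    obtain ⟨t, ht, h3⟩ := T.siegW_me hu hua
    obtain ⟨t', ht', h4⟩ := T.siegW_me hQu' hua'
    have hcomp : ∀ z, C (siegMap Q u' (κ • a₀) z) = siegMap Q u a (C z) := by
      intro z
      rw [siegMap_apply, siegMap_apply, map_sub, map_sub, map_add, map_smul, map_smul, map_smul, map_smul, hCu, hCa, ← hCu, hκ,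
        ← hCa, hκ, hQC, Q_smul, polar_smul_left, smul_eq_mul]
      module
    have ht'i : ∀ b w, t'⁻¹ (τ b (siegMap Q u' (κ • a₀) w)) = τ b w := by
      intro b w
      rw [← h4, T.hinv']
    have hsurj : ∀ w, ∃ z, siegMap Q u' (κ • a₀) z = w := by
      intro w
      obtain ⟨z, hz⟩ := (sieg T.ndW hQu' hua').surjective w
      exact ⟨z, by rw [← hz, sieg_apply, siegMap_apply]⟩
    obtain ⟨m', hm'⟩ : ∃ m', m' = t * m * t'⁻¹ * m⁻¹ := ⟨_, rfl⟩
    have hm'a : ∀ v, m' v = t (m (t'⁻¹ (m⁻¹ v))) := fun v => by rw [hm']; rfl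
    have hm'M : m' ∈ M := by rw [hm']; exact mul_mem (mul_mem (mul_mem ht hm) (inv_mem ht')) (inv_mem hm)
    have hfix : ∀ w, m' (τ e w) = τ e w := by
      intro w
      rw [hm'a, hmi]
      obtain ⟨z, hz⟩ := hsurj (C.symm w)
      rw [← hz, ht'i, h, h3, ← hcomp, hz, LinearEquiv.apply_symm_apply]
    have hact : ∀ b, polar R e b = 0 → ∀ w, ∃ x, m' (τ b w) = τ b w + τ e x := by
      intro b hb w
      obtain ⟨b₁, hb₁, hbx⟩ := hsti b hb
      obtain ⟨x₁, hx₁⟩ := hbx w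
      obtain ⟨z, hz⟩ := hsurj (C.symm w)
      obtain ⟨z₁, hz₁⟩ := hsurj x₁
      obtain ⟨x₂, hx₂⟩ := hbx (C z)
      have h5 : m (τ b₁ z) = τ b (C z) - τ e (C x₂) := by
        have h6 := congrArg m hx₂
        rw [T.hinv, map_add, LinearEquiv.symm_apply_apply, h] at h6
        rw [h6]; abel
      rw [hm'a, hx₁, ← hz, map_add, ht'i, ← hz₁, ht'i, map_add, h5, h, map_add, map_sub, h3, h3, h3, ← hcomp, hz,
        LinearEquiv.apply_symm_apply]
      exact ⟨siegMap Q u a (C z₁) - siegMap Q u a (C x₂), by rw [map_sub]; abel⟩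
    have hqg : QG R τ M e m' (LinearMap.mk₂ F (fun b w => T.cc q (m' (τ b w) - τ b w)) (fun a b w => by
        simp only [map_add, LinearMap.add_apply, map_sub]; abel) (fun a b w => by
        rw [map_smul τ, LinearMap.smul_apply, map_smul, ← smul_sub, map_smul])
        (fun a w w' => by simp only [map_add, map_sub]; abel)
        (fun a b w => by rw [map_smul, map_smul, ← smul_sub, map_smul])) := by
      refine ⟨hm'M, hfix, fun b hb w => ?_⟩
      obtain ⟨x, hx⟩ := hact b hb w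
      rw [LinearMap.mk₂_apply, hx, add_sub_cancel_left, T.cc_τ, hq, one_smul]
    obtain ⟨b₀, hb₀, hb₁⟩ := T.qg_main hcon he0 he hqg
    refine ⟨-(polar R b₀ c₁), fun z => ?_⟩
    obtain ⟨w₂, rfl⟩ := C.surjective z
    have e1 : m' (m (τ c (siegMap Q u' (κ • a₀) w₂))) = τ c₁ (siegMap Q u a (C w₂)) + τ e (siegMap Q u a (D (C w₂))) := by
      rw [hm'a, T.hinv', ht'i, hD, map_add, h3, h3]
    rw [hD, hcomp, map_add, hfix, hb₁, T.cc_τ, T.cc_τ, polar_comm R c₁ e, hc₁, polar_comm R c₁ b₀] at e1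
    have e2 : τ e (siegMap Q u a (D (C w₂))) = τ e (D (siegMap Q u a (C w₂)) + -(polar R b₀ c₁) • siegMap Q u a (C w₂)) := by
      simp only [zero_smul, map_zero, smul_zero, sub_zero, add_zero, map_smul] at e1
      rw [map_add, map_smul]
      have e3 := congrArg (fun v => v - τ c₁ (siegMap Q u a (C w₂))) e1
      simp only [add_sub_cancel_left] at e3
      rw [← e3]; module
    have e4 := T.τ_inj he0 (w := siegMap Q u a (D (C w₂)) - (D (siegMap Q u a (C w₂)) +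
      -(polar R b₀ c₁) • siegMap Q u a (C w₂))) (by rw [map_sub, e2, sub_self])
    exact sub_eq_zero.mp e4)
  refine ⟨c₁ + δ • e, fun w => ?_⟩
  rw [hD, hδ, LinearMap.smul_apply, LinearMap.id_apply, map_add τ, LinearMap.add_apply, map_smul τ, LinearMap.smul_apply,
    map_smul]

/-- **Elements preserving one block.** -/
theorem blk [Finite F] (hcon : ¬ Om S ≤ M) {m : V ≃ₗ[F] V} (hm : m ∈ M) {e' e : E} (he'0 : e' ≠ 0) (he' : R e' = 0)
    (he0 : e ≠ 0) (he : R e = 0) {C : W ≃ₗ[F] W} (h : ∀ w, m (τ e' w) = τ e (C w)) :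
    ∃ s : E →ₗ[F] E, ∀ a w, m (τ a w) = τ (s a) (C w) := by
  have h5 := T.E5
  obtain ⟨w₀, w₁, hw₀, hw₁⟩ := T.exists_w0
  have hCw₀ : C w₀ ≠ 0 := fun h0 => hw₀ ((LinearEquiv.map_eq_zero_iff C).1 h0)
  -- a second singular vector
  obtain ⟨g, hg, heg⟩ := exists_pair1 T.ndE he'0 he'
  have hE := nds_cut T.ndE (nds_top T.ndE) (e := e') (f := g) trivial trivial he' hg heg
  have hEd := finrank_cut T.ndE ⊤ e' g
  rw [finrank_top] at hEd
  obtain ⟨f, hf, f', hf', hRf, -, hff⟩ := exists_pair_in T.ndE hE (by omega)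
  have hf2 := mem_cut.1 hf
  have hf0 : f ≠ 0 := by rintro rfl; rw [polar_zero_left] at hff; exact zero_ne_one hff
  obtain ⟨f₂, hf₂⟩ := T.blk2 hcon hm he'0 he' he0 he h hf2.2.1
  obtain ⟨w₂, -, hw₂⟩ := exists_nonsing (nds_top T.ndW) (by rw [finrank_top]; have := T.W3; omega)
  have hRf₂ : R f₂ = 0 := by
    apply T.sing_of hw₂
    obtain ⟨z, hz⟩ := C.surjective w₂
    rw [← hz, ← hf₂, T.le hm, T.Sτ hRf]
  have hf₂0 : f₂ ≠ 0 := by
    rintro rfl
    have h6 := hf₂ w₀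
    rw [map_zero, LinearMap.zero_apply, LinearEquiv.map_eq_zero_iff] at h6
    exact hw₀ (T.τ_inj hf0 h6)
  let N : Submodule F E :=
    { carrier := {a | ∃ a₂, ∀ w, m (τ a w) = τ a₂ (C w)}
      add_mem' := by
        rintro a b ⟨a₂, ha⟩ ⟨b₂, hb⟩
        exact ⟨a₂ + b₂, fun w => by rw [map_add τ, LinearMap.add_apply, map_add, ha, hb, map_add τ, LinearMap.add_apply]⟩
      zero_mem' := ⟨0, fun w => by rw [map_zero, LinearMap.zero_apply, LinearMap.zero_apply, map_zero]⟩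
      smul_mem' := by
        rintro s a ⟨a₂, ha⟩
        exact ⟨s • a₂, fun w => by rw [map_smul τ, LinearMap.smul_apply, map_smul, ha, map_smul τ, LinearMap.smul_apply]⟩ }
  have hN1 : ∀ c, polar R e' c = 0 → c ∈ N := fun c hc => T.blk2 hcon hm he'0 he' he0 he h hc
  have hN2 : ∀ c, polar R f c = 0 → c ∈ N := fun c hc => T.blk2 hcon hm hf0 hRf hf₂0 hRf₂ hf₂ hc
  have hNt : ∀ a, a ∈ N := by
    intro a
    have h6 : a - polar R e' a • g ∈ N := hN1 _ (by rw [polar_sub_right, polar_smul_right, heg, smul_eq_mul, mul_one, sub_self])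
    have h7 : g ∈ N := hN2 g (by rw [polar_comm]; exact hf2.2.2)
    have h8 := N.add_mem h6 (N.smul_mem (polar R e' a) h7)
    rwa [sub_add_cancel] at h8
  obtain ⟨z, hz⟩ := T.exists_w1 hCw₀
  obtain ⟨s, hs⟩ : ∃ s : E →ₗ[F] E, s = (T.dd z) ∘ₗ (m : V →ₗ[F] V) ∘ₗ (τ.flip w₀) := ⟨_, rfl⟩
  refine ⟨s, fun a w => ?_⟩
  obtain ⟨a₂, ha₂⟩ := hNt a
  have h9 : s a = a₂ := by
    rw [hs]
    change T.dd z (m (τ a w₀)) = a₂
    rw [ha₂, T.dd_τ, hz, one_smul]
  rw [h9, ha₂]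

/-- **Elements fixing a block.** -/
theorem fixb [Finite F] (hcon : ¬ Om S ≤ M) {m : V ≃ₗ[F] V} (hm : m ∈ M) {e : E} (he0 : e ≠ 0) (he : R e = 0)
    (h : ∀ w, m (τ e w) = τ e w) : ∃ s : E →ₗ[F] E, ∀ a w, m (τ a w) = τ (s a) w := by
  obtain ⟨s, hs⟩ := T.blk hcon hm he0 he he0 he (C := LinearEquiv.refl F W) (fun w => h w)
  exact ⟨s, fun a w => hs a w⟩

end OO

end Cfsg.Agent.Lib.OTen
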