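import Mathlib
import Cfsg.Agent.Lib.OTen6

/-!
# Overgroups of `Ω(E) ∘ Ω(W)`: conjugates of root elements (helper21)
-/

set_option autoImplicit false
set_option linter.unusedSectionVars false
set_option linter.unusedVariables false
set_option linter.unusedSimpArgs false

namespace Cfsg.Agent.Lib.OTen

open QuadraticMap Module Cfsg.Agent.Lib.Quad Cfsg.Agent.Lib.OrthNd Cfsg.Agent.Lib.OrthDecH94 Cfsg.Agent.Lib.OrthMax
open Cfsg.Agent.Lib.TenSpO Cfsg.Agent.Lib.SpTrans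

variable {F E W V : Type*} [Field F] [AddCommGroup E] [Module F E] [FiniteDimensional F E]
  [AddCommGroup W] [Module F W] [FiniteDimensional F W] [AddCommGroup V] [Module F V] [FiniteDimensional F V]

variable {R : QuadraticForm F E} {Q : QuadraticForm F W} {S : QuadraticForm F V} {τ : E →ₗ[F] W →ₗ[F] V}
  {M : Subgroup (V ≃ₗ[F] V)}

/-- conjugates of root operators -/
noncomputable def rr (T : OO R Q S τ M) (h : V ≃ₗ[F] V) (z y : E) : Module.End F V :=
  (h : Module.End F V) * pp T z y * ((h⁻¹ : V ≃ₗ[F] V) : Module.End F V)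

theorem rr_apply (T : OO R Q S τ M) (h : V ≃ₗ[F] V) (z y : E) (v : V) : rr T h z y v = h (pp T z y (h⁻¹ v)) := rfl

/-- independent totally singular pairs -/
structure LP (R : QuadraticForm F E) (e f : E) : Prop where
  e0 : e ≠ 0
  ne : ∀ c : F, f ≠ c • e
  qe : R e = 0
  qf : R f = 0
  ef : polar R e f = 0

theorem LP.f0 {e f : E} (h : LP R e f) : f ≠ 0 := fun h0 => h.ne 0 (by rw [h0, zero_smul])

theorem LP.fe {e f : E} (h : LP R e f) : polar R f e = 0 := by rw [polar_comm, h.ef]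

theorem LP.swap {e f : E} (h : LP R e f) : LP R f e :=
  ⟨h.f0, fun c hc => by
    have hc0 : c ≠ 0 := by rintro rfl; rw [zero_smul] at hc; exact h.e0 hc
    exact h.ne c⁻¹ (by rw [hc, smul_smul, inv_mul_cancel₀ hc0, one_smul]), h.qf, h.qe, h.fe⟩

namespace OO

variable (T : OO R Q S τ M)

include T

theorem leB : M ≤ isom (fun x y => polarBilin S x y) := fun g hg x y => T.iso hg x y

theorem qd_rr [Finite F] {h : V ≃ₗ[F] V} (hh : h ∈ M) {z y : E} (hL : LP R z y) : Qd (polarBilin S) M (rr T h z y) := by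
  have h1 : (h : Module.End F V) * ((h⁻¹ : V ≃ₗ[F] V) : Module.End F V) = 1 := by
    apply LinearMap.ext; intro v; exact T.hinv h v
  have h2 : ((h⁻¹ : V ≃ₗ[F] V) : Module.End F V) * (h : Module.End F V) = 1 := by
    apply LinearMap.ext; intro v; exact T.hinv' h v
  exact (T.qd_pp hL.qe hL.qf hL.ef).conj T.leB (f := (h : Module.End F V)) ⟨h, hh, fun x => rfl⟩ h1 h2

theorem duals [Finite F] {e f : E} (hL : LP R e f) : ∃ g g', polar R e g = 1 ∧ polar R f g = 0 ∧ polar R e g' = 0 ∧ polar R f g' = 1 := by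
  obtain ⟨g, hg1, hg2⟩ := T.ndE.exists_polar_one (F ∙ f) (v := e) (fun hmem => by
    obtain ⟨c, hc⟩ := Submodule.mem_span_singleton.1 hmem
    exact hL.swap.ne c hc.symm)
  obtain ⟨g', hg1', hg2'⟩ := T.ndE.exists_polar_one (F ∙ e) (v := f) (fun hmem => by
    obtain ⟨c, hc⟩ := Submodule.mem_span_singleton.1 hmem
    exact hL.ne c hc.symm)
  exact ⟨g, g', hg2, mem_perp_singleton.1 hg1, mem_perp_singleton.1 hg1', hg2'⟩

theorem aux [Finite F] {e f : E} (hL : LP R e f) : ∃ a, R a ≠ 0 ∧ polar R e a = 0 ∧ polar R f a = 0 := by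
  obtain ⟨g, -, hg2, hg1', -, -⟩ := T.duals hL
  obtain ⟨h7, h8⟩ := adjust_singular hL.qe hg2
  obtain ⟨g', hg'⟩ : ∃ g', g' = g - R g • e := ⟨_, rfl⟩
  rw [← hg'] at h7 h8
  have h9 : polar R f g' = 0 := by rw [hg', polar_sub_right, polar_smul_right, hg1', hL.fe, smul_zero, sub_zero]
  have hE := nds_cut T.ndE (nds_top T.ndE) (e := e) (f := g') trivial trivial hL.qe h7 h8
  have hEd := finrank_cut T.ndE ⊤ e g'
  rw [finrank_top] at hEd
  have h5 := T.E5
  obtain ⟨d, hd, hd1, hd2⟩ := exists_nonsing_perp' T.ndE hE (by omega) (e := f)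
    (mem_cut.2 ⟨trivial, hL.ef, by rw [polar_comm, h9]⟩) hL.f0 hL.qf
  exact ⟨d, hd2, (mem_cut.1 hd).2.1, hd1⟩

theorem pp_zero {e f : E} (hL : LP R e f) {v : V} (h : pp T e f v = 0) : T.cc e v = 0 ∧ T.cc f v = 0 := by
  rw [pp_apply, sub_eq_zero] at h
  have h1 : T.cc e v = 0 := by
    by_contra hne
    obtain ⟨c, hc⟩ := T.span_of_τ hne h
    exact hL.ne c hc
  rw [h1, map_zero] at h
  exact ⟨h1, T.τ_inj hL.e0 h.symm⟩

theorem pp_sing {e f : E} (hL : LP R e f) (v : V) : S (pp T e f v) = 0 := by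
  have hee : polar R e e = 0 := by rw [polar_self', hL.qe, mul_zero]
  have hff : polar R f f = 0 := by rw [polar_self', hL.qf, mul_zero]
  have h1 : polar S (pp T e f v) (pp T e f v) = 0 := by
    rw [pp_apply, polar_sub_left, polar_sub_right, polar_sub_right, T.pol, T.pol, T.pol, T.pol, hee, hff, hL.ef, hL.fe]
    ring
  rw [polar_self'] at h1
  exact (mul_eq_zero.mp h1).resolve_left T.two

/-- **Lines.** -/
theorem line [Finite F] (hcon : ¬ Om S ≤ M) {h : V ≃ₗ[F] V} (hh : h ∈ M) {e' f' : E} (hL : LP R e' f') {X : E →ₗ[F] E}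
    (hX : ∀ a w, rr T h e' f' (τ a w) = τ (X a) w) :
    ∃ (s : E →ₗ[F] E) (C : W ≃ₗ[F] W), ∀ a w, h (τ a w) = τ (s a) (C w) := by
  have h2 := T.two
  obtain ⟨w₀, w₁, hw₀, hw₁⟩ := T.exists_w0
  obtain ⟨g, g', hg1, hg2, hg3, hg4⟩ := T.duals hL
  obtain ⟨c, hc, hec, hfc⟩ := T.aux hL
  have hce : polar R c e' = 0 := by rw [polar_comm, hec]
  have hqd := T.qd_rr hh hL
  obtain ⟨w₂, -, hw₂⟩ := exists_nonsing (nds_top T.ndW) (by rw [finrank_top]; have := T.W3; omega)
  -- properties of `X`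
  have hXs : ∀ a b, polar R (X a) b = - polar R a (X b) := by
    intro a b
    have h3 := hqd.sk (τ a w₀) (τ b w₁)
    change polar S (rr T h e' f' (τ a w₀)) (τ b w₁) = - polar S (τ a w₀) (rr T h e' f' (τ b w₁)) at h3
    rw [hX, hX, T.pol, T.pol, hw₁, mul_one, mul_one] at h3
    exact h3
  have hXX : ∀ a, X (X a) = 0 := by
    intro a
    have h3 := LinearMap.congr_fun hqd.sq (τ a w₀)
    change rr T h e' f' (rr T h e' f' (τ a w₀)) = 0 at h3
    rw [hX, hX] at h3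
    exact T.τ_inj' hw₀ h3
  obtain ⟨t, ht, h1⟩ := T.sieg_me hL.qe hec
  have h1' : ∀ v, t v = v + (τ c (T.cc e' v) - τ e' (T.cc c v) - R c • τ e' (T.cc e' v)) := fun v => h1 v
  have htP : ∀ v, t (pp T e' f' v) = pp T e' f' v := by
    intro v
    have hee : polar R e' e' = 0 := by rw [polar_self', hL.qe, mul_zero]
    have hf'c : polar R f' c = 0 := hfc
    rw [h1', pp_apply, map_sub, map_sub (T.cc c), T.cc_τ, T.cc_τ, T.cc_τ, T.cc_τ, hL.fe, hee, hfc, hec]
    simp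
  -- a vector in the image
  obtain ⟨a₀, ha₀⟩ : ∃ a, X a ≠ 0 := by
    by_contra hcc
    push Not at hcc
    have h3 : rr T h e' f' = 0 := T.extτ fun a w => by rw [hX, hcc, map_zero]; rfl
    have h4 := LinearMap.congr_fun h3 (h (τ g w₀))
    rw [rr_apply, T.hinv', pp_τ, hg1, hg2, LinearMap.zero_apply, LinearEquiv.map_eq_zero_iff] at h4
    have h5 := T.τ_inj' hw₀ h4
    rw [one_smul, zero_smul, sub_zero] at h5
    exact hL.f0 h5
  have hsX : R (X a₀) = 0 := by
    apply T.sing_of hw₂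
    rw [← hX, rr_apply, T.le hh, T.pp_sing hL]
  have hT'M : h * t * h⁻¹ ∈ M := mul_mem (mul_mem hh ht) (inv_mem hh)
  obtain ⟨x', hx'⟩ := T.fixb hcon hT'M ha₀ hsX (fun w => by
    rw [← hX, rr_apply, LinearEquiv.mul_apply, LinearEquiv.mul_apply, T.hinv', htP])
  have hx'' : ∀ a w, h (t (h⁻¹ (τ a w))) = τ (x' a) w := hx'
  by_cases hcase : ∃ b, X b = 0 ∧ x' b ≠ b
  · obtain ⟨b, hXb, hxb⟩ := hcase
    obtain ⟨e₃, he₃⟩ : ∃ e₃, e₃ = x' b - b := ⟨_, rfl⟩
    have he₃0 : e₃ ≠ 0 := by rw [he₃]; exact sub_ne_zero.mpr hxb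
    obtain ⟨C', hC'⟩ : ∃ C' : W →ₗ[F] W, C' = -((T.cc c) ∘ₗ ((h⁻¹ : V ≃ₗ[F] V) : V →ₗ[F] V) ∘ₗ (τ b)) := ⟨_, rfl⟩
    have hC'a : ∀ w, C' w = -(T.cc c (h⁻¹ (τ b w))) := fun w => by rw [hC']; rfl
    have key : ∀ w, h (τ e' (C' w)) = τ e₃ w := by
      intro w
      have h3 : pp T e' f' (h⁻¹ (τ b w)) = 0 := by
        have h4 := hX b w
        rw [hXb, map_zero, LinearMap.zero_apply, rr_apply, LinearEquiv.map_eq_zero_iff] at h4
        exact h4
      obtain ⟨h4, h5⟩ := T.pp_zero hL h3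
      have h6 := hx'' b w
      rw [h1', h4, map_add, T.hinv, map_zero, map_zero, smul_zero, sub_zero, zero_sub, map_neg] at h6
      rw [he₃, map_sub, LinearMap.sub_apply, ← h6, hC'a, map_neg, map_neg]
      abel
    have hC'i : Function.Injective C' := by
      rw [injective_iff_map_eq_zero]
      intro w hw
      have h3 := key w
      rw [hw, map_zero, map_zero] at h3
      exact T.τ_inj he₃0 h3.symm
    obtain ⟨C, hCC⟩ : ∃ C : W ≃ₗ[F] W, ∀ w, C w = C' w := ⟨LinearEquiv.ofInjectiveEndo C' hC'i, fun w => rfl⟩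
    have hse₃ : R e₃ = 0 := by
      apply T.sing_of hw₂
      rw [← key, T.le hh, T.Sτ hL.qe]
    obtain ⟨s, hs⟩ := T.blk hcon hh hL.e0 hL.qe he₃0 hse₃ (C := C.symm) (fun w => by
      rw [← key, ← hCC, LinearEquiv.apply_symm_apply])
    exact ⟨s, C.symm, hs⟩
  · exfalso
    push Not at hcase
    have hx'i : ∀ a b, polar R (x' a) (x' b) = polar R a b := by
      intro a b
      have h3 := T.iso hT'M (τ a w₀) (τ b w₁)
      rw [hx', hx', T.pol, T.pol, hw₁, mul_one, mul_one] at h3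
      exact h3
    have hsq : ∀ a, x' (x' a - a) = x' a - a := by
      intro a
      apply hcase
      apply T.eqE
      intro z
      rw [hXs, polar_zero_left, neg_eq_zero, polar_sub_left]
      have h3 := hcase (X z) (hXX z)
      nth_rewrite 1 [← h3]
      rw [hx'i, sub_self]
    have h3 : ∀ v, h (t (t v - v) - (t v - v)) = 0 := by
      have h4 : ((h : Module.End F V) * (((t : Module.End F V) - 1) * ((t : Module.End F V) - 1)) *
          ((h⁻¹ : V ≃ₗ[F] V) : Module.End F V)) = 0 := by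
        apply T.extτ
        intro a w
        change h (t (t (h⁻¹ (τ a w)) - h⁻¹ (τ a w)) - (t (h⁻¹ (τ a w)) - h⁻¹ (τ a w))) = 0
        have h5 : t (h⁻¹ (τ a w)) - h⁻¹ (τ a w) = h⁻¹ (τ (x' a - a) w) := by
          apply h.injective
          rw [map_sub, hx'', T.hinv, T.hinv, map_sub τ, LinearMap.sub_apply]
        rw [h5, map_sub, hx'', T.hinv, hsq, sub_self]
      intro v
      have h5 := LinearMap.congr_fun h4 (h v)
      change h (t (t (h⁻¹ (h v)) - h⁻¹ (h v)) - (t (h⁻¹ (h v)) - h⁻¹ (h v))) = 0 at h5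
      rwa [T.hinv'] at h5
    have h4 := h3 (τ g w₀)
    rw [LinearEquiv.map_eq_zero_iff] at h4
    have h5 : t (τ g w₀) - τ g w₀ = τ c w₀ - polar R g c • τ e' w₀ - R c • τ e' w₀ := by
      rw [h1', T.cc_τ, T.cc_τ, polar_comm R g e', hg1, one_smul, map_smul]; abel
    have h6 : ∀ w, t (τ e' w) = τ e' w := by
      intro w
      rw [h1', T.cc_τ, T.cc_τ, polar_self', hL.qe, hec]; simp
    have h7 : t (τ c w₀) = τ c w₀ - polar R c c • τ e' w₀ := by
      rw [h1', T.cc_τ, T.cc_τ, hce, zero_smul, map_zero, map_zero, smul_zero, map_smul]; abel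
    rw [h5, map_sub, map_sub, map_smul, map_smul, h6, h7] at h4
    have h8 : -(polar R c c) • τ e' w₀ = 0 := by rw [← h4]; module
    rw [smul_eq_zero, neg_eq_zero, polar_self'] at h8
    rcases h8 with h8 | h8
    · exact (mul_ne_zero h2 hc) h8
    · exact hw₀ (T.τ_inj hL.e0 h8)

/-- a kernel block -/
theorem nk [Finite F] (hcon : ¬ Om S ≤ M) {h : V ≃ₗ[F] V} (hh : h ∈ M) {e' f' : E} (hL : LP R e' f')
    (hnd : ¬ ∃ (s : E →ₗ[F] E) (C : W ≃ₗ[F] W), ∀ a w, h (τ a w) = τ (s a) (C w)) {v : E} (hv : R v = 0)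
    (hk : ∀ w, rr T h e' f' (τ v w) = 0) : v = 0 := by
  by_contra hv0
  apply hnd
  obtain ⟨t, ht, h1⟩ := (T.qd_rr hh hL).me 1
  obtain ⟨s, hs⟩ := T.fixb hcon ht hv0 hv (fun w => by
    rw [h1]
    change τ v w + (1 : F) • rr T h e' f' (τ v w) = τ v w
    rw [hk, smul_zero, add_zero])
  refine T.line hcon hh hL (X := s - LinearMap.id) fun a w => ?_
  have h3 : t (τ a w) = τ a w + (1 : F) • rr T h e' f' (τ a w) := h1 _
  rw [hs, one_smul] at h3
  rw [LinearMap.sub_apply, LinearMap.id_apply, map_sub, LinearMap.sub_apply, h3]; abel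

end OO

end Cfsg.Agent.Lib.OTen
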