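import Mathlib
import Cfsg.Agent.Lib.OTen7
import Cfsg.Agent.Lib.TenSpT3

/-!
# Overgroups of `Ω(E) ∘ Ω(W)`: the trace argument (helper21)
-/

set_option autoImplicit false
set_option linter.unusedSectionVars false
set_option linter.unusedVariables false
set_option linter.unusedSimpArgs false

namespace Cfsg.Agent.Lib.OTen

open QuadraticMap Module Cfsg.Agent.Lib.Quad Cfsg.Agent.Lib.OrthNd Cfsg.Agent.Lib.OrthDecH94 Cfsg.Agent.Lib.OrthMax
open Cfsg.Agent.Lib.TenSpO Cfsg.Agent.Lib.SpTrans
open Cfsg.Agent.Lib.TenSpT (JJ ph ph_apply L3)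

/-- good pairs -/
def Good {F V : Type*} [Field F] [AddCommGroup V] [Module F V] (p r : Module.End F V) : Prop :=
  ∀ c d : F, c ≠ 0 → d ≠ 0 → ∀ a b : V ≃ₗ[F] V, (∀ v, a v = v + c • p v) → (∀ v, b v = v + d • r v) →
    Odd (orderOf (a * (b * b) * a))

section good

variable {F V : Type*} [Field F] [AddCommGroup V] [Module F V]

theorem ord_conj {G : Type*} [Group G] (a x : G) : orderOf (a * x * a⁻¹) = orderOf x :=
  orderOf_injective (MulAut.conj a).toMonoidHom (MulAut.conj a).injective x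

theorem Good.symm {p r : Module.End F V} (h : Good p r) : Good r p := by
  intro c d hc hd a b ha hb
  have h1 := h d c hd hc b a hb ha
  have e1 : orderOf (a * (b * b) * a) = orderOf (b * b * (a * a)) := by
    have : b * b * (a * a) = a⁻¹ * (a * (b * b) * a) * (a⁻¹)⁻¹ := by group
    rw [this, ord_conj]
  have e2 : orderOf (b * (a * a) * b) = orderOf (b * b * (a * a)) := by
    have : b * b * (a * a) = b * (b * (a * a) * b) * b⁻¹ := by group
    rw [this, ord_conj]
  rw [e1, ← e2]
  exact h1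

theorem Good.conj {p r p' r' : Module.End F V} (h : Good p r) (g : V ≃ₗ[F] V) (hp : ∀ v, p' (g v) = g (p v))
    (hr : ∀ v, r' (g v) = g (r v)) : Good p' r' := by
  intro c d hc hd a b ha hb
  have e : ∀ v, g (g⁻¹ v) = v := fun v => g.apply_symm_apply v
  have e' : ∀ v, g⁻¹ (g v) = v := fun v => g.symm_apply_apply v
  have h1 := h c d hc hd (g⁻¹ * a * g) (g⁻¹ * b * g) (fun v => by
    rw [LinearEquiv.mul_apply, LinearEquiv.mul_apply, ha, map_add, e', map_smul, hp, e']) (fun v => by
    rw [LinearEquiv.mul_apply, LinearEquiv.mul_apply, hb, map_add, e', map_smul, hr, e'])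
  have e1 : g⁻¹ * a * g * (g⁻¹ * b * g * (g⁻¹ * b * g)) * (g⁻¹ * a * g) = g⁻¹ * (a * (b * b) * a) * (g⁻¹)⁻¹ := by group
  rw [e1, ord_conj] at h1
  exact h1

end good

variable {F E W V : Type*} [Field F] [AddCommGroup E] [Module F E] [FiniteDimensional F E]
  [AddCommGroup W] [Module F W] [FiniteDimensional F W] [AddCommGroup V] [Module F V] [FiniteDimensional F V]

variable {R : QuadraticForm F E} {Q : QuadraticForm F W} {S : QuadraticForm F V} {τ : E →ₗ[F] W →ₗ[F] V}
  {M : Subgroup (V ≃ₗ[F] V)}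

namespace OO

variable (T : OO R Q S τ M)

include T

/-- a skew pure operator supported on a line -/
theorem pure_line [Finite F] {e f : E} (hL : LP R e f) {N : Module.End F V} (hsk : ∀ x y, polar S (N x) y = - polar S x (N y))
    {X : E →ₗ[F] E} (hX : ∀ a w, N (τ a w) = τ (X a) w) (h0 : ∀ v, pp T e f v = 0 → N v = 0)
    (him : ∀ v, ∃ x y, N v = τ f x - τ e y) : ∃ α : F, ∀ v, N v = α • pp T e f v := by
  have h2 := T.two
  obtain ⟨w₀, w₁, hw₀, hw₁⟩ := T.exists_w0
  obtain ⟨g, g', hg1, hg2, hg3, hg4⟩ := T.duals hL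
  have hXs : ∀ a b, polar R (X a) b = - polar R a (X b) := by
    intro a b
    have h3 := hsk (τ a w₀) (τ b w₁)
    rw [hX, hX, T.pol, T.pol, hw₁, mul_one, mul_one] at h3
    exact h3
  have hX0 : ∀ a, polar R e a = 0 → polar R f a = 0 → X a = 0 := by
    intro a h3 h4
    apply T.τ_inj' hw₀
    rw [← hX]
    apply h0
    rw [pp_τ, h3, h4, zero_smul, zero_smul, sub_zero, map_zero, LinearMap.zero_apply]
  have hXi : ∀ a, ∃ β γ : F, X a = β • f - γ • e := by
    intro a
    obtain ⟨x, y, hxy⟩ := him (τ a w₀)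
    rw [hX] at hxy
    have h3 := congrArg (T.dd w₁) hxy
    rw [map_sub, T.dd_τ, T.dd_τ, T.dd_τ, hw₁, one_smul] at h3
    exact ⟨_, _, h3⟩
  have hself : ∀ a, polar R (X a) a = 0 := by
    intro a
    have h3 := hXs a a
    rw [polar_comm R a] at h3
    have : 2 * polar R (X a) a = 0 := by linear_combination h3
    exact (mul_eq_zero.mp this).resolve_left h2
  obtain ⟨β, γ, h3⟩ := hXi g
  obtain ⟨β', γ', h4⟩ := hXi g'
  have h5 := hself g
  rw [h3, polar_sub_left, polar_smul_left, polar_smul_left, hg1, hg2, smul_zero, zero_sub, smul_eq_mul, mul_one, neg_eq_zero] at h5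
  have h6 := hself g'
  rw [h4, polar_sub_left, polar_smul_left, polar_smul_left, hg3, hg4, smul_zero, sub_zero, smul_eq_mul, mul_one] at h6
  rw [h5, zero_smul, sub_zero] at h3
  rw [h6, zero_smul, zero_sub] at h4
  have h7 := hXs g g'
  rw [h3, h4, polar_smul_left, hg4, polar_neg_right, polar_smul_right, polar_comm R g e, hg1, smul_eq_mul, smul_eq_mul, mul_one,
    mul_one, neg_neg] at h7
  refine ⟨β, fun v => ?_⟩
  have h8 : N = β • pp T e f := by
    apply T.extτ
    intro a w
    rw [hX, LinearMap.smul_apply, pp_τ]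
    have h9 := hX0 (a - polar R e a • g - polar R f a • g') (by
      rw [polar_sub_right, polar_sub_right, polar_smul_right, polar_smul_right, hg1, hg3]; simp) (by
      rw [polar_sub_right, polar_sub_right, polar_smul_right, polar_smul_right, hg2, hg4]; simp)
    rw [map_sub, map_sub, map_smul, map_smul, h3, h4, sub_sub, sub_eq_zero] at h9
    rw [h9, ← h7]
    simp only [map_add, map_sub, map_smul, map_neg, LinearMap.add_apply, LinearMap.sub_apply, LinearMap.smul_apply,
      LinearMap.neg_apply]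
    module
  rw [h8, LinearMap.smul_apply]

/-- **Good pairs: the product vanishes.** -/
theorem good_zero [Finite F] (hcon : ¬ Om S ≤ M) {h : V ≃ₗ[F] V} (hh : h ∈ M) {e f e' f' : E} (hL : LP R e f) (hL' : LP R e' f')
    (hG : Good (pp T e f) (rr T h e' f')) (v : V) : pp T e f (rr T h e' f' (pp T e f v)) = 0 := by
  have h2 := T.two
  obtain ⟨w₀, w₁, hw₀, hw₁⟩ := T.exists_w0
  obtain ⟨g, g', hg1, hg2, hg3, hg4⟩ := T.duals hL
  haveI : Finite V := Module.finite_of_finite F
  haveI : Finite (V ≃ₗ[F] V) := Finite.of_injective (fun g : V ≃ₗ[F] V => (g : V → V)) DFunLike.coe_injective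
  have hP := T.qd_pp hL.qe hL.qf hL.ef
  have hR := T.qd_rr hh hL'
  obtain ⟨p, hp⟩ : ∃ p, p = pp T e f := ⟨_, rfl⟩
  obtain ⟨r, hr⟩ : ∃ r, r = rr T h e' f' := ⟨_, rfl⟩
  rw [← hp, ← hr] at hG ⊢
  rw [← hp] at hP
  rw [← hr] at hR
  have hpp : ∀ v, p (p v) = 0 := fun v => LinearMap.congr_fun hP.sq v
  -- the main step
  have main : ∀ c d : F, c ≠ 0 → d ≠ 0 → Me M (1 + (p + (c * d) • (p * (r * p)))) ∧
      (∀ v, p v + (c * d) • p (r (p v)) = 0 → p v = 0) := by
    intro c d hc hd
    obtain ⟨a, ha, ha'⟩ := hP.me c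
    obtain ⟨b, hb, hb'⟩ := hR.me d
    have H : JJ M (c • p) (d • r) a b (a * (b * b) * a) :=
      ⟨(hP.smul c).sq, (hR.smul d).sq, ha, hb, ha', hb', rfl⟩
    have hodd := hG c d hc hd a b (fun v => ha' v) (fun v => hb' v)
    obtain ⟨t, c₁, hc₁, htp, htt, hct, i, hi, hti⟩ := H.odd_case h2 hodd (pow_orderOf_eq_one _)
    have htP : ∀ v, t (p v) = p (t v) := by
      intro v
      have h5 := LinearMap.congr_fun htp v
      change t (c • p v) = c • p (t v) at h5
      rw [map_smul] at h5
      have := congrArg (fun x => c⁻¹ • x) h5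
      simpa only [smul_smul, inv_mul_cancel₀ hc, one_smul] using this
    have hcP : ∀ v, c₁ (p v) = t (p v) := by
      intro v
      have h5 := hct v
      change c₁ (c • p v) = t (c • p v) at h5
      rw [map_smul, map_smul] at h5
      have := congrArg (fun x => c⁻¹ • x) h5
      simpa only [smul_smul, inv_mul_cancel₀ hc, one_smul] using this
    have hiv : ∀ v v', polar S (i v) v' = polar S v (i⁻¹ v') := by
      intro v v'
      rw [← T.iso hi v, T.hinv]
    have htB : ∀ v v', polar S (t v) v' = polar S v (t v') := by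
      intro v v'
      rw [hti]
      change polar S ((2 : F)⁻¹ • (i v + i⁻¹ v)) v' = polar S v ((2 : F)⁻¹ • (i v' + i⁻¹ v'))
      rw [polar_smul_left, polar_smul_right, polar_add_left, polar_add_right, hiv, T.isoi hi, add_comm]
    have htt' : ∀ v, t (t (p v)) = p v + (c * d) • p (r (p v)) := by
      intro v
      have h5 := LinearMap.congr_fun htt (p v)
      change t (t (p v)) = p v + (c • p (d • r (p v)) + d • r (c • p (p v))) at h5
      rw [h5, hpp, smul_zero, map_zero, smul_zero, add_zero, map_smul, smul_smul]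
    have hpc : ∀ v, p (c₁⁻¹ v) = p (t v) := by
      intro v
      rw [← sub_eq_zero]
      apply T.ndV.eq_zero
      intro y
      have k1 : polar S (p (c₁⁻¹ v)) y = - polar S (c₁⁻¹ v) (p y) := hP.sk _ _
      have k2 : polar S (p (t v)) y = - polar S (t v) (p y) := hP.sk _ _
      rw [polar_sub_left, k1, k2, T.isoi hc₁, hcP, htB, sub_self]
    constructor
    · obtain ⟨s, hs, hs'⟩ := hP.me 1
      refine ⟨c₁ * s * c₁⁻¹, mul_mem (mul_mem hc₁ hs) (inv_mem hc₁), fun v => ?_⟩
      rw [LinearEquiv.mul_apply, LinearEquiv.mul_apply, hs']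
      change c₁ (c₁⁻¹ v + (1 : F) • p (c₁⁻¹ v)) = v + (p v + (c * d) • p (r (p v)))
      rw [one_smul, map_add, T.hinv, hpc, hcP, ← htP, ← htt']
    · intro v hv
      rw [← htt', htP, ← hcP, ← htP, ← hcP, LinearEquiv.map_eq_zero_iff, LinearEquiv.map_eq_zero_iff] at hv
      exact hv
  -- the product is a multiple of `p`
  obtain ⟨α, hα⟩ : ∃ α : F, ∀ v, (p * (r * p)) v = α • p v := by
    obtain ⟨t, ht, ht'⟩ := (main 1 1 one_ne_zero one_ne_zero).1
    have hpe : ∀ w, p (τ e w) = 0 := by
      intro w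
      rw [hp, pp_τ, polar_self', hL.qe, hL.fe]; simp
    obtain ⟨s, hs⟩ := T.fixb hcon ht hL.e0 hL.qe (fun w => by
      rw [ht']
      change τ e w + (p (τ e w) + ((1 : F) * 1) • p (r (p (τ e w)))) = τ e w
      rw [hpe, map_zero, map_zero, smul_zero, add_zero, add_zero])
    have hN := T.pure_line hL (N := p * (r * p)) (fun x y => by
      change polar S (p (r (p x))) y = - polar S x (p (r (p y)))
      have k1 : polar S (p (r (p x))) y = - polar S (r (p x)) (p y) := hP.sk _ _
      have k2 : polar S (r (p x)) (p y) = - polar S (p x) (r (p y)) := hR.sk _ _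
      have k3 : polar S (p x) (r (p y)) = - polar S x (p (r (p y))) := hP.sk _ _
      rw [k1, k2, k3, neg_neg]) (X := s - LinearMap.id - ((polarBilin R e).smulRight f - (polarBilin R f).smulRight e))
      (fun a w => by
        have h3 : t (τ a w) = τ a w + (p (τ a w) + ((1 : F) * 1) • p (r (p (τ a w)))) := ht' _
        rw [hs, one_mul, one_smul] at h3
        have h4 : p (τ a w) = τ (polar R e a • f - polar R f a • e) w := by rw [hp, pp_τ]
        change p (r (p (τ a w))) = τ (s a - a - (polar R e a • f - polar R f a • e)) w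
        rw [map_sub τ, map_sub τ, LinearMap.sub_apply, LinearMap.sub_apply, h3, ← h4]; abel) (fun v hv => by
        change p (r (p v)) = 0
        rw [← hp] at hv
        rw [hv, map_zero, map_zero]) (fun v => ⟨T.cc e (r (p v)), T.cc f (r (p v)), by
        change p (r (p v)) = _
        rw [hp]; rfl⟩)
    obtain ⟨α, hα⟩ := hN
    exact ⟨α, fun v => by rw [hα, hp]⟩
  have hα' : ∀ v, p (r (p v)) = α • p v := hα
  rw [hα']
  by_cases h0 : α = 0
  · rw [h0, zero_smul]
  exfalso
  have h3 := (main 1 (-α⁻¹) one_ne_zero (neg_ne_zero.mpr (inv_ne_zero h0))).2 (τ g w₀) (by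
    rw [hα', smul_smul, one_mul, neg_mul, inv_mul_cancel₀ h0]; module)
  rw [hp, pp_τ, hg1, hg2, one_smul, zero_smul, sub_zero] at h3
  exact hL.f0 (T.τ_inj' hw₀ h3)

/-- **Good pairs commute.** -/
theorem good_comm [Finite F] (hcon : ¬ Om S ≤ M) {h : V ≃ₗ[F] V} (hh : h ∈ M) {e f e' f' : E} (hL : LP R e f) (hL' : LP R e' f')
    (hnd : ¬ ∃ (s : E →ₗ[F] E) (C : W ≃ₗ[F] W), ∀ a w, h (τ a w) = τ (s a) (C w))
    (hG : Good (pp T e f) (rr T h e' f')) (v : V) : pp T e f (rr T h e' f' v) = rr T h e' f' (pp T e f v) := by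
  have h2 := T.two
  obtain ⟨g, g', hg1, hg2, hg3, hg4⟩ := T.duals hL
  obtain ⟨w₂, -, hw₂⟩ := exists_nonsing (nds_top T.ndW) (by rw [finrank_top]; have := T.W3; omega)
  have hP := T.qd_pp hL.qe hL.qf hL.ef
  have hR := T.qd_rr hh hL'
  have k1 := T.good_zero hcon hh hL hL' hG
  have hG' : Good (pp T e' f') (rr T h⁻¹ e f) := by
    refine hG.symm.conj h⁻¹ (fun v => ?_) (fun v => ?_)
    · rw [rr_apply, T.hinv']
    · rw [rr_apply, inv_inv, T.hinv]
  have k2' := T.good_zero hcon (inv_mem hh) hL' hL hG'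
  have k2 : ∀ v, rr T h e' f' (pp T e f (rr T h e' f' v)) = 0 := by
    intro v
    have h3 := k2' (h⁻¹ v)
    rw [rr_apply, inv_inv] at h3
    rw [rr_apply, rr_apply, h3, map_zero]
  have hN := L3 hP hR (LinearMap.ext k1) (LinearMap.ext k2) 1
  obtain ⟨t, ht, ht'⟩ := hN
  have ht'' : ∀ v, t v = v + (pp T e f (rr T h e' f' v) - rr T h e' f' (pp T e f v)) := by
    intro v
    rw [ht']
    change v + (1 : F) • (pp T e f (rr T h e' f' v) - rr T h e' f' (pp T e f v)) = _
    rw [one_smul]
  have hpe : ∀ w, pp T e f (τ e w) = 0 := by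
    intro w
    rw [pp_τ, polar_self', hL.qe, hL.fe]; simp
  have hpe' : ∀ w, τ e w = pp T e f (τ (-g') w) := by
    intro w
    rw [pp_τ, polar_neg_right, polar_neg_right, hg3, hg4]; simp
  obtain ⟨s, hs⟩ := T.fixb hcon ht hL.e0 hL.qe (fun w => by
    rw [ht'', hpe, map_zero, sub_zero]
    nth_rewrite 2 [hpe']
    rw [k1, add_zero])
  have hX : ∀ a w, pp T e f (rr T h e' f' (τ a w)) - rr T h e' f' (pp T e f (τ a w)) = τ (s a - a) w := by
    intro a w
    have h3 := ht'' (τ a w)
    rw [hs] at h3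
    rw [map_sub τ, LinearMap.sub_apply, h3]; abel
  have hRR : ∀ v, rr T h e' f' (rr T h e' f' v) = 0 := fun v => LinearMap.congr_fun hR.sq v
  have hPP : ∀ v, pp T e f (pp T e f v) = 0 := fun v => LinearMap.congr_fun hP.sq v
  have hX0 : ∀ a, s a - a = 0 := by
    intro a
    refine T.nk hcon hh hL' hnd ?_ fun w => ?_
    · apply T.sing_of hw₂
      have h3 : polar S (τ (s a - a) w₂) (τ (s a - a) w₂) = 0 := by
        have psk : ∀ x y, polar S (pp T e f x) y = - polar S x (pp T e f y) := hP.sk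
        have rsk : ∀ x y, polar S (rr T h e' f' x) y = - polar S x (rr T h e' f' y) := hR.sk
        have e1 : ∀ x, polar S (pp T e f x) (pp T e f x) = 0 := fun x => by rw [psk, hPP, polar_zero_right, neg_zero]
        have e2 : ∀ x, polar S (rr T h e' f' x) (rr T h e' f' x) = 0 := fun x => by rw [rsk, hRR, polar_zero_right, neg_zero]
        have e3 : polar S (pp T e f (rr T h e' f' (τ a w₂))) (rr T h e' f' (pp T e f (τ a w₂))) = 0 := by
          rw [psk, k1, polar_zero_right, neg_zero]
        rw [← hX, polar_sub_left, polar_sub_right, polar_sub_right, e1, e2, e3,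
          polar_comm S (rr T h e' f' (pp T e f (τ a w₂))) (pp T e f (rr T h e' f' (τ a w₂))), e3]
        simp
      rw [polar_self'] at h3
      exact (mul_eq_zero.mp h3).resolve_left h2
    · rw [← hX, map_sub, k2, hRR, sub_zero]
  have hfin : (pp T e f * rr T h e' f' : Module.End F V) = rr T h e' f' * pp T e f := by
    apply T.extτ
    intro a w
    have h3 := hX a w
    rw [hX0, map_zero, LinearMap.zero_apply, sub_eq_zero] at h3
    exact h3
  exact LinearMap.congr_fun hfin v

end OO

end Cfsg.Agent.Lib.OTen
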