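import Mathlib
import Cfsg.Agent.Lib.OTen8

/-!
# Overgroups of `Ω(E) ∘ Ω(W)`: main theorem (helper21)
-/

set_option autoImplicit false
set_option linter.unusedSectionVars false
set_option linter.unusedVariables false
set_option linter.unusedSimpArgs false

namespace Cfsg.Agent.Lib.OTen

open QuadraticMap Module Cfsg.Agent.Lib.Quad Cfsg.Agent.Lib.OrthNd Cfsg.Agent.Lib.OrthDecH94 Cfsg.Agent.Lib.OrthMax
open Cfsg.Agent.Lib.TenSpO Cfsg.Agent.Lib.SpTrans
open Cfsg.Agent.Lib.TenSpT (JJ ph ph_apply L3)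

variable {F E W V : Type*} [Field F] [AddCommGroup E] [Module F E] [FiniteDimensional F E]
  [AddCommGroup W] [Module F W] [FiniteDimensional F W] [AddCommGroup V] [Module F V] [FiniteDimensional F V]

variable {R : QuadraticForm F E} {Q : QuadraticForm F W} {S : QuadraticForm F V} {τ : E →ₗ[F] W →ₗ[F] V}
  {M : Subgroup (V ≃ₗ[F] V)}

namespace OO

variable (T : OO R Q S τ M)

include T

/-- **Involutions.** -/
theorem inv1 [Finite F] (hcon : ¬ Om S ≤ M) {z : V ≃ₗ[F] V} (hz : z ∈ M) {e f : E} (hL : LP R e f) {r : Module.End F V}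
    (hrr : ∀ v, r (r v) = 0) (hz1 : z ≠ 1) (hzz : ∀ v, z (z v) = v) (hzp : ∀ v, z (pp T e f v) = pp T e f (z v))
    (him : ∀ v, ∃ x y, z v - v = pp T e f x + r y) (hfx : ∀ v, pp T e f v = 0 → r v = 0 → z v = v) :
    ∃ x : E →ₗ[F] E, (∀ a w, z (τ a w) = τ (x a) w) ∧ x e = -e ∧ x f = -f ∧
      ∀ a, polar R e a = 0 → polar R f a = 0 → x a = -a → ∃ α β : F, a = α • e + β • f := by
  have h2 := T.two
  obtain ⟨w₀, w₁, hw₀, hw₁⟩ := T.exists_w0
  obtain ⟨g, g', hg1, hg2, hg3, hg4⟩ := T.duals hL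
  obtain ⟨p, hp⟩ : ∃ p, p = pp T e f := ⟨_, rfl⟩
  have hpa : ∀ a w, p (τ a w) = τ (polar R e a • f - polar R f a • e) w := fun a w => by rw [hp, pp_τ]
  have hpp : ∀ v, p (p v) = 0 := fun v => by
    rw [hp]; exact LinearMap.congr_fun (T.qd_pp hL.qe hL.qf hL.ef).sq v
  rw [← hp] at hzp him hfx
  have hselfneg : ∀ v : F, v = -v → v = 0 := by
    intro v hv
    have h5 : (2 : F) • v = 0 := by rw [two_smul]; nth_rewrite 1 [hv]; abel
    exact (smul_eq_zero.mp h5).resolve_left h2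
  have hselfnegV : ∀ v : V, v = -v → v = 0 := by
    intro v hv
    have h5 : (2 : F) • v = 0 := by rw [two_smul]; nth_rewrite 1 [hv]; abel
    exact (smul_eq_zero.mp h5).resolve_left h2
  -- decomposability
  obtain ⟨s, C, hsC⟩ := T.line hcon hz hL (X := (polarBilin R e).smulRight f - (polarBilin R f).smulRight e) (fun a w => by
    rw [rr_apply, ← hp, hzp, T.hinv, hpa]; rfl)
  -- the key fact
  have key : ∀ v, p v = 0 → z v = -v → ∃ x, v = p x := by
    intro v hv hzv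
    obtain ⟨x, y, hxy⟩ := him v
    rw [hzv] at hxy
    obtain ⟨x₁, hx₁⟩ : ∃ x₁, x₁ = (-(2 : F)⁻¹) • x := ⟨_, rfl⟩
    obtain ⟨y₁, hy₁⟩ : ∃ y₁, y₁ = (-(2 : F)⁻¹) • y := ⟨_, rfl⟩
    have h3 : v = p x₁ + r y₁ := by
      rw [hx₁, hy₁, map_smul, map_smul, ← smul_add, ← hxy]
      have : (-(2 : F)⁻¹) • (-v - v) = ((2 : F)⁻¹ * 2) • v := by module
      rw [this, inv_mul_cancel₀ h2, one_smul]
    have h4 : z (r y₁) = r y₁ := by
      apply hfx _ _ (hrr _)
      have h5 := hv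
      rw [h3, map_add, hpp, zero_add] at h5
      exact h5
    have h5 : (2 : F) • r y₁ = p (-(x₁ + z x₁)) := by
      have h6 := hzv
      rw [h3, map_add, h4, hzp] at h6
      have h7 : r y₁ = -(p x₁ + r y₁) - p (z x₁) := by rw [← h6]; abel
      rw [two_smul, map_neg, map_add]
      nth_rewrite 1 [h7]
      abel
    refine ⟨x₁ + (2 : F)⁻¹ • (-(x₁ + z x₁)), ?_⟩
    rw [map_add, map_smul, ← h5, smul_smul, inv_mul_cancel₀ h2, one_smul]
    exact h3
  have key2 : ∀ v, p v = 0 → ∃ x, v - z v = p x := by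
    intro v hv
    apply key
    · rw [map_sub, ← hzp, hv, map_zero, sub_zero]
    · rw [map_sub, hzz]; abel
  -- `C` is scalar
  obtain ⟨b, hb, heb, hfb⟩ := T.aux hL
  have hbb : polar R b b ≠ 0 := by rw [polar_self']; exact mul_ne_zero h2 hb
  have hCw : ∀ w, polar R b b • w = polar R (s b) b • C w := by
    intro w
    obtain ⟨x, hx⟩ := key2 (τ b w) (by rw [hpa, heb, hfb]; simp)
    have h3 := congrArg (T.cc b) hx
    have h4 : T.cc b (p x) = 0 := by rw [hp, pp_apply, map_sub, T.cc_τ, T.cc_τ, hfb, heb]; simp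
    rw [h4, map_sub, hsC, T.cc_τ, T.cc_τ, sub_eq_zero] at h3
    exact h3
  have hsb : polar R (s b) b ≠ 0 := by
    intro h0
    have h3 := hCw w₀
    rw [h0, zero_smul, smul_eq_zero] at h3
    exact h3.elim hbb hw₀
  obtain ⟨γ, hγ⟩ : ∃ γ, γ = (polar R (s b) b)⁻¹ * polar R b b := ⟨_, rfl⟩
  have hC' : ∀ w, C w = γ • w := by
    intro w
    have h3 := congrArg (fun v => (polar R (s b) b)⁻¹ • v) (hCw w)
    simp only [smul_smul, inv_mul_cancel₀ hsb, one_smul] at h3
    rw [← h3, hγ]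
  obtain ⟨x, hx⟩ : ∃ x, x = γ • s := ⟨_, rfl⟩
  have hzx : ∀ a w, z (τ a w) = τ (x a) w := by
    intro a w
    rw [hsC, hC', hx, LinearMap.smul_apply, map_smul, map_smul τ, LinearMap.smul_apply]
  have hw₀' : ∀ {a a' : E}, τ a w₀ = τ a' w₀ → a = a' := by
    intro a a' haa
    rw [← sub_eq_zero]
    apply T.τ_inj' hw₀
    rw [map_sub, LinearMap.sub_apply, haa, sub_self]
  have hxx : ∀ a, x (x a) = a := by
    intro a
    apply hw₀'
    rw [← hzx, ← hzx, hzz]
  have hxi : ∀ a a', polar R (x a) (x a') = polar R a a' := by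
    intro a a'
    have h3 := T.iso hz (τ a w₀) (τ a' w₁)
    rw [hzx, hzx, T.pol, T.pol, hw₁, mul_one, mul_one] at h3
    exact h3
  have hxi' : ∀ a a', polar R a (x a') = polar R (x a) a' := by
    intro a a'
    rw [← hxi a (x a'), hxx]
  have hxX : ∀ a, x (polar R e a • f - polar R f a • e) = polar R e (x a) • f - polar R f (x a) • e := by
    intro a
    apply hw₀'
    rw [← hzx, ← hpa, hzp, hzx, hpa]
  have hxf := hxX g
  rw [hg1, hg2, one_smul, zero_smul, sub_zero, hxi', hxi'] at hxf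
  have hxe := hxX g'
  rw [hg3, hg4, one_smul, zero_smul, zero_sub, map_neg, hxi', hxi'] at hxe
  have hxe' : x e = polar R (x f) g' • e - polar R (x e) g' • f := by
    rw [← neg_inj, hxe]; abel
  have c1 : polar R (x f) g = 0 := by
    have h3 := congrArg (fun v => polar R v g) hxf
    simp only [polar_sub_left, polar_smul_left, hg1, hg2, smul_eq_mul, mul_zero, mul_one, zero_sub] at h3
    exact hselfneg _ h3
  have c2 : polar R (x e) g' = 0 := by
    have h3 := congrArg (fun v => polar R v g') hxe'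
    simp only [polar_sub_left, polar_smul_left, hg3, hg4, smul_eq_mul, mul_zero, mul_one, zero_sub] at h3
    exact hselfneg _ h3
  rw [c1, zero_smul, sub_zero] at hxf
  rw [c2, zero_smul, sub_zero] at hxe'
  obtain ⟨δ, hδ⟩ : ∃ δ, δ = polar R (x e) g := ⟨_, rfl⟩
  have hxf' : x f = δ • f := by rw [hδ]; exact hxf
  have hxe'' : x e = δ • e := by
    have h3 : polar R (x f) g' = δ := by rw [hxf', polar_smul_left, hg4, smul_eq_mul, mul_one]
    rw [hxe', h3]
  have hδδ : δ = 1 ∨ δ = -1 := by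
    have h3 := hxx e
    rw [hxe'', map_smul, hxe'', smul_smul] at h3
    have h4 := congrArg (fun v => polar R v g) h3
    simp only [polar_smul_left, hg1, smul_eq_mul, mul_one] at h4
    exact mul_self_eq_one_iff.mp h4
  rcases hδδ with h1 | h1
  · exfalso
    rw [h1, one_smul] at hxf' hxe''
    apply hz1
    ext v
    change z v = v
    have e1 : ∀ v, T.cc e (z v) = T.cc e v := fun v => T.cc_fix hz (fun w => by rw [hzx, hxe'']) v
    have f1 : ∀ v, T.cc f (z v) = T.cc f v := fun v => T.cc_fix hz (fun w => by rw [hzx, hxf']) v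
    obtain ⟨x₂, hx₂⟩ := key (v - z v) (by
      rw [hp, pp_apply, map_sub (T.cc e), map_sub (T.cc f), e1, f1, sub_self, sub_self, map_zero, map_zero, sub_zero]) (by
      rw [map_sub, hzz]; abel)
    have h3 : z (p x₂) = p x₂ := by
      rw [hzp, hp, pp_apply, pp_apply, e1, f1]
    rw [← hx₂, map_sub, hzz] at h3
    have h4 : v - z v = -(v - z v) := by nth_rewrite 1 [← h3]; abel
    exact (sub_eq_zero.mp (hselfnegV _ h4)).symm
  · rw [h1, neg_smul, one_smul] at hxf' hxe''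
    refine ⟨x, hzx, hxe'', hxf', fun a hea hfa hxa => ?_⟩
    obtain ⟨x₂, hx₂⟩ := key (τ a w₀) (by rw [hpa, hea, hfa]; simp) (by rw [hzx, hxa, map_neg, LinearMap.neg_apply])
    have h3 := congrArg (T.dd w₁) hx₂
    rw [hp, pp_apply, map_sub, T.dd_τ, T.dd_τ, T.dd_τ, hw₁, one_smul] at h3
    exact ⟨-(polar Q (T.cc f x₂) w₁), polar Q (T.cc e x₂) w₁, by rw [h3]; module⟩

/-- the kernel -/
def KR (T : OO R Q S τ M) (r : Module.End F V) : Submodule F E where
  carrier := {a | ∀ w, r (τ a w) = 0}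
  add_mem' := fun {a b} ha hb w => by rw [map_add τ, LinearMap.add_apply, map_add, ha, hb, add_zero]
  zero_mem' := fun w => by rw [map_zero, LinearMap.zero_apply, map_zero]
  smul_mem' := fun c a ha w => by rw [map_smul τ, LinearMap.smul_apply, map_smul, ha, smul_zero]

theorem mem_KR {r : Module.End F V} {a : E} : a ∈ KR T r ↔ ∀ w, r (τ a w) = 0 := Iff.rfl

/-- **Bad pairs.** -/
theorem bad [Finite F] (hcon : ¬ Om S ≤ M) {h : V ≃ₗ[F] V} (hh : h ∈ M) {e f e' f' : E} (hL : LP R e f) (hL' : LP R e' f')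
    (hG : ¬ Good (pp T e f) (rr T h e' f')) :
    ∃ x : E →ₗ[F] E, x e = -e ∧ x f = -f ∧ (∀ a, x (x a) = a) ∧ (∀ a b, polar R (x a) (x b) = polar R a b) ∧
      (∀ a, polar R e a = 0 → polar R f a = 0 → x a = -a → ∃ α β : F, a = α • e + β • f) ∧
      ∀ a, x a = a → a ∈ KR T (rr T h e' f') := by
  have h2 := T.two
  obtain ⟨w₀, w₁, hw₀, hw₁⟩ := T.exists_w0
  haveI : Finite V := Module.finite_of_finite F
  haveI : Finite (V ≃ₗ[F] V) := Finite.of_injective (fun g : V ≃ₗ[F] V => (g : V → V)) DFunLike.coe_injective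
  have hP := T.qd_pp hL.qe hL.qf hL.ef
  have hP' := T.qd_pp hL'.qe hL'.qf hL'.ef
  have hR := T.qd_rr hh hL'
  unfold Good at hG
  push Not at hG
  obtain ⟨c, d, hc, hd, a, b, ha, hb, hev⟩ := hG
  have haM : a ∈ M := by
    obtain ⟨a', ha', h3⟩ := hP.me c
    have : a = a' := LinearEquiv.ext fun v => by rw [ha, h3]; rfl
    rw [this]; exact ha'
  have hbM : b ∈ M := by
    obtain ⟨a', ha', h3⟩ := hR.me d
    have : b = a' := LinearEquiv.ext fun v => by rw [hb, h3]; rfl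
    rw [this]; exact ha'
  have H : JJ M (c • pp T e f) (d • rr T h e' f') a b (a * (b * b) * a) :=
    ⟨(hP.smul c).sq, (hR.smul d).sq, haM, hbM, fun v => ha v, fun v => hb v, rfl⟩
  obtain ⟨k, hk⟩ := Nat.not_odd_iff_even.1 hev
  have hpos := orderOf_pos (a * (b * b) * a)
  obtain ⟨z, hz, hz1, hzz, hzp', hzr', him', hfx'⟩ := H.even_case h2 (m := k) (by rw [← hk, pow_orderOf_eq_one]) (fun h5 => by
    have := Nat.le_of_dvd (by omega) (orderOf_dvd_of_pow_eq_one h5)
    omega)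
  have hzp : ∀ v, z (pp T e f v) = pp T e f (z v) := by
    intro v
    have h5 := hzp' v
    change z (c • pp T e f v) = c • pp T e f (z v) at h5
    rw [map_smul] at h5
    have := congrArg (fun x => c⁻¹ • x) h5
    simpa only [smul_smul, inv_mul_cancel₀ hc, one_smul] using this
  have hzr : ∀ v, z (rr T h e' f' v) = rr T h e' f' (z v) := by
    intro v
    have h5 := hzr' v
    change z (d • rr T h e' f' v) = d • rr T h e' f' (z v) at h5
    rw [map_smul] at h5
    have := congrArg (fun x => d⁻¹ • x) h5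
    simpa only [smul_smul, inv_mul_cancel₀ hd, one_smul] using this
  have him : ∀ v, ∃ x y, z v - v = pp T e f x + rr T h e' f' y := by
    intro v
    obtain ⟨x, y, h5⟩ := him' v
    exact ⟨c • x, d • y, by rw [h5, map_smul, map_smul]; rfl⟩
  have hfx : ∀ v, pp T e f v = 0 → rr T h e' f' v = 0 → z v = v := by
    intro v h5 h6
    apply hfx'
    · change c • pp T e f v = 0; rw [h5, smul_zero]
    · change d • rr T h e' f' v = 0; rw [h6, smul_zero]
  obtain ⟨x, hx1, hx2, hx3, hx4⟩ := T.inv1 hcon hz hL (r := rr T h e' f') (fun v => LinearMap.congr_fun hR.sq v) hz1 hzz hzp him hfx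
  -- the conjugate
  obtain ⟨z', hz'⟩ : ∃ z', z' = h⁻¹ * z * h := ⟨_, rfl⟩
  have hz'a : ∀ v, z' v = h⁻¹ (z (h v)) := fun v => by rw [hz']; rfl
  have hrh : ∀ v, rr T h e' f' (h v) = h (pp T e' f' v) := fun v => by rw [rr_apply, T.hinv']
  have hrh' : ∀ v, rr T h⁻¹ e f v = h⁻¹ (pp T e f (h v)) := fun v => by rw [rr_apply, inv_inv]
  obtain ⟨x', hx'1, hx'2, hx'3, -⟩ := T.inv1 hcon (z := z') (by rw [hz']; exact mul_mem (mul_mem (inv_mem hh) hz) hh) hL'
    (r := rr T h⁻¹ e f) (fun v => LinearMap.congr_fun (T.qd_rr (inv_mem hh) hL).sq v) (fun h0 => hz1 (by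
      have : z = h * z' * h⁻¹ := by rw [hz']; group
      rw [this, h0]; group)) (fun v => by rw [hz'a, hz'a, T.hinv, hzz, T.hinv']) (fun v => by
      rw [hz'a, hz'a, ← hrh, hzr]
      apply h.injective
      rw [T.hinv, ← hrh, T.hinv]) (fun v => by
      obtain ⟨x, y, hxy⟩ := him (h v)
      refine ⟨h⁻¹ y, h⁻¹ x, ?_⟩
      apply h.injective
      rw [hz'a, map_sub, T.hinv, hxy, hrh', T.hinv, map_add, T.hinv, ← hrh, T.hinv]; abel) (fun v h5 h6 => by
      rw [hz'a, hfx, T.hinv']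
      · rw [hrh', ← map_zero h⁻¹] at h6
        exact h⁻¹.injective h6
      · rw [hrh, h5, map_zero])
  have hneg : ∀ v, z (rr T h e' f' v) = - rr T h e' f' v := by
    intro v
    have h5 : z' (pp T e' f' (h⁻¹ v)) = - pp T e' f' (h⁻¹ v) := by
      rw [pp_apply, map_sub, hx'1, hx'1, hx'2, hx'3, map_neg, map_neg, LinearMap.neg_apply, LinearMap.neg_apply]; abel
    rw [hz'a, ← rr_apply] at h5
    apply h⁻¹.injective
    rw [h5, rr_apply, map_neg, T.hinv']
  have hw₀' : ∀ {a a' : E}, τ a w₀ = τ a' w₀ → a = a' := by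
    intro a a' haa
    rw [← sub_eq_zero]
    apply T.τ_inj' hw₀
    rw [map_sub, LinearMap.sub_apply, haa, sub_self]
  refine ⟨x, hx2, hx3, fun a => ?_, fun a b => ?_, hx4, fun a hxa w => ?_⟩
  · apply hw₀'
    rw [← hx1, ← hx1, hzz]
  · have h3 := T.iso hz (τ a w₀) (τ b w₁)
    rw [hx1, hx1, T.pol, T.pol, hw₁, mul_one, mul_one] at h3
    exact h3
  · apply T.ndV.eq_zero
    intro v
    have rsk : ∀ x y, polar S (rr T h e' f' x) y = - polar S x (rr T h e' f' y) := hR.sk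
    rw [rsk, neg_eq_zero]
    have h3 := T.iso hz (τ a w) (rr T h e' f' v)
    rw [hx1, hxa, hneg, polar_neg_right] at h3
    have : 2 * polar S (τ a w) (rr T h e' f' v) = 0 := by linear_combination -h3
    exact (mul_eq_zero.mp this).resolve_left h2

theorem finrank_V : finrank F V ≤ finrank F E * finrank F W := by
  rw [← Module.finrank_linearMap F F E W]
  refine LinearMap.finrank_le_finrank_of_injective (f := (LinearMap.mk₂ F (fun v a => T.cc a v) (fun a b c => map_add _ _ _)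
    (fun a b c => map_smul _ _ _) (fun v a b => T.cc_add a b v) (fun c v a => T.cc_smul c a v) : V →ₗ[F] E →ₗ[F] W)) ?_
  rw [injective_iff_map_eq_zero]
  intro v hv
  apply T.totτ
  intro e w
  rw [← T.cc_spec]
  have h1 := LinearMap.congr_fun hv e
  rw [LinearMap.mk₂_apply, LinearMap.zero_apply] at h1
  rw [h1, polar_zero_left]

/-- the size of the kernel -/
theorem finrank_KR [Finite F] (hcon : ¬ Om S ≤ M) {h : V ≃ₗ[F] V} (hh : h ∈ M) {e' f' : E} (hL' : LP R e' f')
    (hnd : ¬ ∃ (s : E →ₗ[F] E) (C : W ≃ₗ[F] W), ∀ a w, h (τ a w) = τ (s a) (C w)) :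
    finrank F (KR T (rr T h e' f')) + 4 ≤ finrank F E := by
  have h2 := T.two
  have h5 := T.E5
  have h3 := T.W3
  have hR := T.qd_rr hh hL'
  have hns : ∀ v ∈ KR T (rr T h e' f'), R v = 0 → v = 0 := fun v hv hv' => T.nk hcon hh hL' hnd hv' hv
  have hle2 : finrank F (KR T (rr T h e' f')) ≤ 2 := by
    by_contra hc
    obtain ⟨z, hz, hz0, hzs⟩ := exists_sing_in (Q := R) (KR T (rr T h e' f')) (by omega)
    exact hz0 (hns z hz hzs)
  by_cases h6 : 6 ≤ finrank F E
  · omega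
  have hE5 : finrank F E = 5 := by omega
  by_contra hc
  have hge2 : 2 ≤ finrank F (KR T (rr T h e' f')) := by omega
  obtain ⟨b₁, hb₁⟩ := (Module.finrank_pos_iff_exists_ne_zero (R := F)).1 (by omega : 0 < finrank F (KR T (rr T h e' f')))
  have hb₁0 : (b₁ : E) ≠ 0 := fun h0 => hb₁ (Subtype.ext h0)
  have hcut := OrthDecH94.finrank_cut1 T.ndE (A := KR T (rr T h e' f')) (a := (b₁ : E))
  obtain ⟨b₂, hb₂⟩ := (Module.finrank_pos_iff_exists_ne_zero (R := F)).1 (by omega :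
    0 < finrank F (KR T (rr T h e' f') ⊓ perp R (F ∙ (b₁ : E)) : Submodule F E))
  have hb₂0 : (b₂ : E) ≠ 0 := fun h0 => hb₂ (Subtype.ext h0)
  have hb₂' := OrthDecH94.mem_cut1.1 b₂.2
  have hk₁ : ∀ w, rr T h e' f' (τ (b₁ : E) w) = 0 := b₁.2
  have hk₂ : ∀ w, rr T h e' f' (τ (b₂ : E) w) = 0 := hb₂'.1
  have hq₁ : R (b₁ : E) ≠ 0 := fun h0 => hb₁0 (hns _ b₁.2 h0)
  have hq₂ : R (b₂ : E) ≠ 0 := fun h0 => hb₂0 (hns _ hb₂'.1 h0)
  have h12 : polar R (b₁ : E) (b₂ : E) = 0 := hb₂'.2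
  have h21 : polar R (b₂ : E) (b₁ : E) = 0 := by rw [polar_comm]; exact h12
  obtain ⟨g, g', hg1, hg2, hg3, hg4⟩ := T.duals hL'
  -- the image
  let Ψ : (W × W) →ₗ[F] V := (h : V →ₗ[F] V) ∘ₗ (LinearMap.coprod (τ f') (-(τ e')))
  have hΨ : ∀ x y, Ψ (x, y) = h (τ f' x + -(τ e' y)) := fun x y => rfl
  have hΨR : ∀ x y, ∃ v, Ψ (x, y) = rr T h e' f' v := by
    intro x y
    refine ⟨h (τ g x + τ g' y), ?_⟩
    rw [rr_apply, T.hinv', map_add, pp_τ, pp_τ, hg1, hg2, hg3, hg4, hΨ]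
    simp [sub_eq_add_neg]
  have hΨi : ∀ x y, Ψ (x, y) = 0 → x = 0 ∧ y = 0 := by
    intro x y hxy
    rw [hΨ, LinearEquiv.map_eq_zero_iff, ← sub_eq_add_neg, sub_eq_zero] at hxy
    have hx : x = 0 := by
      by_contra hne
      obtain ⟨c, hc⟩ := T.span_of_τ hne hxy
      exact hL'.ne c hc
    rw [hx, map_zero] at hxy
    exact ⟨hx, T.τ_inj hL'.e0 hxy.symm⟩
  have hΨinj : Function.Injective Ψ := by
    rw [injective_iff_map_eq_zero]
    rintro ⟨x, y⟩ hxy
    obtain ⟨h7, h8⟩ := hΨi x y hxy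
    rw [h7, h8]; rfl
  have hrg : LinearMap.range Ψ ≤ LinearMap.range (rr T h e' f') := by
    rintro _ ⟨⟨x, y⟩, rfl⟩
    obtain ⟨v, hv⟩ := hΨR x y
    exact ⟨v, hv.symm⟩
  let Φ : ((W × W) × (W × W)) →ₗ[F] V := LinearMap.coprod Ψ (LinearMap.coprod (τ (b₁ : E)) (τ (b₂ : E)))
  have hΦ : ∀ x y u v, Φ ((x, y), (u, v)) = Ψ (x, y) + (τ (b₁ : E) u + τ (b₂ : E) v) := fun x y u v => rfl
  have rsk : ∀ x y, polar S (rr T h e' f' x) y = - polar S x (rr T h e' f' y) := hR.sk
  have hΦinj : Function.Injective Φ := by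
    rw [injective_iff_map_eq_zero]
    rintro ⟨⟨x, y⟩, ⟨u, v⟩⟩ h7
    rw [hΦ] at h7
    obtain ⟨η, hη⟩ := hΨR x y
    have ku : u = 0 := by
      apply T.ndW.eq_zero
      intro w
      have h8 := congrArg (fun z => polar S z (τ (b₁ : E) w)) h7
      simp only [polar_add_left, polar_zero_left, hη, rsk, hk₁, polar_zero_right, neg_zero, zero_add, T.pol, h21, zero_mul,
        add_zero, polar_self' R] at h8
      exact (mul_eq_zero.mp h8).resolve_left (mul_ne_zero h2 hq₁)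
    have kv : v = 0 := by
      apply T.ndW.eq_zero
      intro w
      have h8 := congrArg (fun z => polar S z (τ (b₂ : E) w)) h7
      simp only [polar_add_left, polar_zero_left, hη, rsk, hk₂, polar_zero_right, neg_zero, zero_add, T.pol, h12, zero_mul,
        add_zero, polar_self' R] at h8
      exact (mul_eq_zero.mp h8).resolve_left (mul_ne_zero h2 hq₂)
    rw [ku, kv, map_zero, map_zero, add_zero, add_zero] at h7
    obtain ⟨h8, h9⟩ := hΨi x y h7
    rw [h8, h9, ku, kv]; rfl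
  have hker : LinearMap.range Φ ≤ LinearMap.ker (rr T h e' f') := by
    rintro _ ⟨⟨⟨x, y⟩, ⟨u, v⟩⟩, rfl⟩
    obtain ⟨η, hη⟩ := hΨR x y
    rw [LinearMap.mem_ker, hΦ, map_add, map_add, hk₁, hk₂, hη, add_zero, add_zero]
    exact LinearMap.congr_fun hR.sq η
  have d1 := LinearMap.finrank_range_of_inj hΨinj
  have d2 := LinearMap.finrank_range_of_inj hΦinj
  have d3 := Submodule.finrank_mono hrg
  have d4 := Submodule.finrank_mono hker
  have d5 := LinearMap.finrank_range_add_finrank_ker (rr T h e' f')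
  have d6 := T.finrank_V
  rw [hE5] at d6
  rw [Module.finrank_prod] at d1
  rw [Module.finrank_prod, Module.finrank_prod] at d2
  omega

end OO

end Cfsg.Agent.Lib.OTen
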