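import Mathlib
import Cfsg.Agent.Lib.OTen9

/-!
# Overgroups of `Ω(E) ∘ Ω(W)`: conclusion (helper21)
-/

set_option autoImplicit false
set_option linter.unusedSectionVars false
set_option linter.unusedVariables false
set_option linter.unusedSimpArgs false

namespace Cfsg.Agent.Lib.OTen

open QuadraticMap Module Cfsg.Agent.Lib.Quad Cfsg.Agent.Lib.OrthNd Cfsg.Agent.Lib.OrthDecH94 Cfsg.Agent.Lib.OrthMax
open Cfsg.Agent.Lib.TenSpO Cfsg.Agent.Lib.SpTrans

variable {F E W V : Type*} [Field F] [AddCommGroup E] [Module F E] [FiniteDimensional F E]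
  [AddCommGroup W] [Module F W] [FiniteDimensional F W] [AddCommGroup V] [Module F V] [FiniteDimensional F V]

variable {R : QuadraticForm F E} {Q : QuadraticForm F W} {S : QuadraticForm F V} {τ : E →ₗ[F] W →ₗ[F] V}
  {M : Subgroup (V ≃ₗ[F] V)}

namespace OO

variable (T : OO R Q S τ M)

include T

theorem exists_lp [Finite F] {e : E} (he : e ≠ 0) (he' : R e = 0) : ∃ f, LP R e f := by
  obtain ⟨f, hf, hef⟩ := exists_pair1 T.ndE he he'
  have h1 := nds_cut T.ndE (nds_top T.ndE) (e := e) (f := f) trivial trivial he' hf hef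
  have h2 := finrank_cut T.ndE ⊤ e f
  rw [finrank_top] at h2
  have h5 := T.E5
  obtain ⟨z, hz, hz0, hzs⟩ := exists_sing_in (Q := R) (⊤ ⊓ perp R (Submodule.span F {e, f})) (by omega)
  have h6 := mem_cut.1 hz
  refine ⟨z, he, fun c hc => ?_, he', hzs, h6.2.1⟩
  have h7 := h6.2.2
  rw [hc, polar_smul_right, polar_comm, hef, smul_eq_mul, mul_one] at h7
  rw [h7, zero_smul] at hc
  exact hz0 hc

theorem exists_sE [Finite F] : ∃ e : E, e ≠ 0 ∧ R e = 0 := by
  obtain ⟨z, hz, hz0, hzs⟩ := exists_sing_in (Q := R) (⊤ : Submodule F E) (by rw [finrank_top]; have := T.E5; omega)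
  exact ⟨z, hz0, hzs⟩

theorem bad_perp [Finite F] (hcon : ¬ Om S ≤ M) {h : V ≃ₗ[F] V} (hh : h ∈ M) {e f e' f' : E} (hL : LP R e f) (hL' : LP R e' f')
    (hnd : ¬ ∃ (s : E →ₗ[F] E) (C : W ≃ₗ[F] W), ∀ a w, h (τ a w) = τ (s a) (C w))
    (hG : ¬ Good (pp T e f) (rr T h e' f')) :
    (∀ b ∈ KR T (rr T h e' f'), polar R e b = 0 ∧ polar R f b = 0) ∧ ∃ b ∈ KR T (rr T h e' f'), b ≠ 0 := by
  have h2 := T.two
  have h5 := T.E5
  obtain ⟨x, hxe, hxf, hxx, hxi, hx1, hx2⟩ := T.bad hcon hh hL hL' hG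
  have hkr := T.finrank_KR hcon hh hL' hnd
  obtain ⟨Dp, hDp⟩ : ∃ Dp : Submodule F E, Dp = LinearMap.ker (x - LinearMap.id) := ⟨_, rfl⟩
  obtain ⟨Dm, hDm⟩ : ∃ Dm : Submodule F E, Dm = LinearMap.ker (x + LinearMap.id) := ⟨_, rfl⟩
  have mDp : ∀ a, a ∈ Dp ↔ x a = a := fun a => by
    rw [hDp, LinearMap.mem_ker, LinearMap.sub_apply, LinearMap.id_apply, sub_eq_zero]
  have mDm : ∀ a, a ∈ Dm ↔ x a = -a := fun a => by
    rw [hDm, LinearMap.mem_ker, LinearMap.add_apply, LinearMap.id_apply, add_eq_zero_iff_eq_neg]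
  -- the minus space
  have hm4 : finrank F Dm ≤ 4 := by
    let Λ : Dm →ₗ[F] F × F := LinearMap.prod ((polarBilin R e) ∘ₗ Dm.subtype) ((polarBilin R f) ∘ₗ Dm.subtype)
    have h6 := LinearMap.finrank_range_add_finrank_ker Λ
    have h7 : finrank F (LinearMap.range Λ) ≤ 2 := by
      refine (Submodule.finrank_le _).trans ?_
      rw [Module.finrank_prod, Module.finrank_self]
    have h8 : finrank F (LinearMap.ker Λ) ≤ 2 := by
      have h9 : (LinearMap.ker Λ).map Dm.subtype ≤ (F ∙ e) ⊔ (F ∙ f) := by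
        rintro _ ⟨a, ha, rfl⟩
        have h10 : Λ a = 0 := ha
        have h11 : polar R e (a : E) = 0 := congrArg Prod.fst h10
        have h12 : polar R f (a : E) = 0 := congrArg Prod.snd h10
        obtain ⟨α, β, h13⟩ := hx1 a h11 h12 ((mDm _).1 a.2)
        rw [Submodule.subtype_apply, h13]
        exact add_mem (Submodule.mem_sup_left (Submodule.smul_mem _ _ (Submodule.mem_span_singleton_self e)))
          (Submodule.mem_sup_right (Submodule.smul_mem _ _ (Submodule.mem_span_singleton_self f)))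
      have h10 := Submodule.finrank_mono h9
      have h11 : finrank F (LinearMap.ker Λ) = finrank F ((LinearMap.ker Λ).map Dm.subtype) :=
        (Submodule.equivMapOfInjective Dm.subtype (Submodule.subtype_injective _) _).finrank_eq
      have h12 := Submodule.finrank_add_le_finrank_add_finrank (F ∙ e) (F ∙ f)
      rw [finrank_span_singleton hL.e0, finrank_span_singleton hL.f0] at h12
      omega
    omega
  have hrk := LinearMap.finrank_range_add_finrank_ker (x - LinearMap.id)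
  have hr4 : finrank F (LinearMap.range (x - LinearMap.id)) ≤ finrank F Dm := by
    apply Submodule.finrank_mono
    rintro _ ⟨a, rfl⟩
    rw [mDm, LinearMap.sub_apply, LinearMap.id_apply, map_sub, hxx]; abel
  rw [← hDp] at hrk
  have hle : Dp ≤ KR T (rr T h e' f') := fun a ha => hx2 a ((mDp a).1 ha)
  have hEq : Dp = KR T (rr T h e' f') := Submodule.eq_of_le_of_finrank_le hle (by omega)
  constructor
  · intro b hb
    rw [← hEq, mDp] at hb
    constructor
    · have h6 := hxi e b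
      rw [hxe, hb, polar_neg_left] at h6
      have : 2 * polar R e b = 0 := by linear_combination -h6
      exact (mul_eq_zero.mp this).resolve_left h2
    · have h6 := hxi f b
      rw [hxf, hb, polar_neg_left] at h6
      have : 2 * polar R f b = 0 := by linear_combination -h6
      exact (mul_eq_zero.mp this).resolve_left h2
  · obtain ⟨b, hb⟩ := (Module.finrank_pos_iff_exists_ne_zero (R := F)).1 (by rw [← hEq]; omega :
      0 < finrank F (KR T (rr T h e' f')))
    exact ⟨b, b.2, fun h0 => hb (Subtype.ext h0)⟩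

theorem no_bad [Finite F] (hcon : ¬ Om S ≤ M) {h : V ≃ₗ[F] V} (hh : h ∈ M) {e f e' f' : E} (hL : LP R e f) (hL' : LP R e' f')
    (hnd : ¬ ∃ (s : E →ₗ[F] E) (C : W ≃ₗ[F] W), ∀ a w, h (τ a w) = τ (s a) (C w)) :
    Good (pp T e f) (rr T h e' f') := by
  by_contra hG
  have h2 := T.two
  have h5 := T.E5
  obtain ⟨hp, b, hb, hb0⟩ := T.bad_perp hcon hh hL hL' hnd hG
  have hbf := (hp b hb).2
  have hqb : R b ≠ 0 := fun h0 => hb0 (T.nk hcon hh hL' hnd h0 hb)
  obtain ⟨a, ha, hfa, hba⟩ : ∃ a, R a = 0 ∧ polar R f a = 0 ∧ polar R b a ≠ 0 := by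
    by_contra hc
    push Not at hc
    obtain ⟨c, hc'⟩ := dual_line T.ndE (u := f) (x := b) (fun a ha => by
      have := perp_span T.ndE h5 hL.f0 hL.qf (N := LinearMap.ker (polarBilin R b)) (fun x hx hx' => hc x hx hx') ha
      exact this)
    apply hqb
    rw [hc', Q_smul, hL.qf, mul_zero]
  have hLa : LP R f a := ⟨hL.f0, fun c hc => hba (by rw [hc, polar_smul_right, polar_comm, hbf, smul_zero]), hL.qf, ha, hfa⟩
  have hGa : Good (pp T f a) (rr T h e' f') := by
    by_contra hG'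
    obtain ⟨hp', -⟩ := T.bad_perp hcon hh hLa hL' hnd hG'
    apply hba
    rw [polar_comm]
    exact (hp' b hb).2
  have hcm := T.good_comm hcon hh hLa hL' hnd hGa
  have hR := T.qd_rr hh hL'
  have rsk : ∀ x y, polar S (rr T h e' f' x) y = - polar S x (rr T h e' f' y) := hR.sk
  have hcb : ∀ v, T.cc b (rr T h e' f' v) = 0 := by
    intro v
    apply T.eqW
    intro w
    rw [T.cc_spec, rsk, hb w, polar_zero_right, neg_zero, polar_zero_left]
  have hcf : ∀ v, T.cc f (rr T h e' f' v) = 0 := by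
    intro v
    have h6 := congrArg (T.cc b) (hcm v)
    rw [hcb, pp_apply, map_sub, T.cc_τ, T.cc_τ, hbf, zero_smul, sub_zero, smul_eq_zero] at h6
    exact h6.resolve_left (by rw [polar_comm]; exact hba)
  apply hL.f0
  apply T.nk hcon hh hL' hnd hL.qf
  intro w
  apply T.ndV.eq_zero
  intro v
  rw [rsk, polar_comm, ← T.cc_spec, hcf, polar_zero_left, neg_zero]

/-- operators commuting with root elements -/
theorem pure_of_comm [Finite F] {r : Module.End F V} (hr : ∀ e f, LP R e f → ∀ v, pp T e f (r v) = r (pp T e f v)) :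
    ∃ Y : W →ₗ[F] W, ∀ a w, r (τ a w) = τ a (Y w) := by
  have h2 := T.two
  have h5 := T.E5
  -- singular vectors
  have k1 : ∀ e, e ≠ 0 → R e = 0 → ∃ Y : W →ₗ[F] W, ∀ w, r (τ e w) = τ e (Y w) := by
    intro e he he'
    obtain ⟨q, hq⟩ := T.exists_e1 he
    refine ⟨(T.cc q) ∘ₗ r ∘ₗ (τ e), fun w => ?_⟩
    change r (τ e w) = τ e (T.cc q (r (τ e w)))
    have h6 : ∀ f, LP R e f → T.cc e (r (τ e w)) = 0 ∧ T.cc f (r (τ e w)) = 0 := by
      intro f hf
      apply T.pp_zero hf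
      rw [hr e f hf, pp_τ, polar_self', he', hf.fe]; simp
    obtain ⟨f₀, hf₀⟩ := T.exists_lp he he'
    let N : Submodule F E :=
      { carrier := {a | T.cc a (r (τ e w)) = 0}
        add_mem' := fun {a b} ha hb => by
          change T.cc (a + b) _ = 0
          rw [T.cc_add, show T.cc a _ = 0 from ha, show T.cc b _ = 0 from hb, add_zero]
        zero_mem' := T.cc_zero _
        smul_mem' := fun c a ha => by
          change T.cc (c • a) _ = 0
          rw [T.cc_smul, show T.cc a _ = 0 from ha, smul_zero] }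
    refine T.perp2 hq fun a ha => perp_span T.ndE h5 he he' (N := N) (fun x hx hx' => ?_) ha
    change T.cc x (r (τ e w)) = 0
    by_cases hc : ∃ c : F, x = c • e
    · obtain ⟨c, hc⟩ := hc
      rw [hc, T.cc_smul, (h6 f₀ hf₀).1, smul_zero]
    · push Not at hc
      exact (h6 x ⟨he, hc, he', hx, hx'⟩).2
  -- the same operator
  have k2 : ∀ e g, LP R e g → ∀ Y : W →ₗ[F] W, (∀ w, r (τ g w) = τ g (Y w)) → ∀ w, r (τ e w) = τ e (Y w) := by
    intro e g hL Y hY w
    obtain ⟨g₁, g', hg1, hg2, hg3, hg4⟩ := T.duals hL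
    obtain ⟨h7, h8⟩ := adjust_singular hL.qf hg4
    obtain ⟨f, hf⟩ : ∃ f, f = g' - R g' • g := ⟨_, rfl⟩
    rw [← hf] at h7 h8
    have h9 : polar R e f = 0 := by rw [hf, polar_sub_right, polar_smul_right, hg3, hL.ef, smul_zero, sub_zero]
    have hLf : LP R e f := ⟨hL.e0, fun c hc => by
      rw [hc, polar_smul_right, hL.fe, smul_zero] at h8
      exact zero_ne_one h8, hL.qe, h7, h9⟩
    have h10 : ∀ w, pp T e f (τ g w) = - τ e w := by
      intro w
      rw [pp_τ, hL.ef, polar_comm, h8]; simp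
    have h11 := hr e f hLf (τ g w)
    rw [hY, h10, h10, map_neg, neg_inj] at h11
    exact h11.symm
  obtain ⟨e₀, he₀, he₀'⟩ := T.exists_sE
  obtain ⟨Y, hY⟩ := k1 e₀ he₀ he₀'
  obtain ⟨g, hg⟩ := T.exists_lp he₀ he₀'
  have hYg : ∀ w, r (τ g w) = τ g (Y w) := k2 g e₀ hg.swap Y hY
  let N : Submodule F E :=
    { carrier := {a | ∀ w, r (τ a w) = τ a (Y w)}
      add_mem' := fun {a b} ha hb w => by
        rw [map_add τ, LinearMap.add_apply, LinearMap.add_apply, map_add, ha, hb]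
      zero_mem' := fun w => by
        rw [map_zero τ, LinearMap.zero_apply, LinearMap.zero_apply, map_zero]
      smul_mem' := fun c a ha w => by
        rw [map_smul τ, LinearMap.smul_apply, LinearMap.smul_apply, map_smul, ha] }
  have k3 : ∀ e, e ≠ 0 → R e = 0 → (∀ w, r (τ e w) = τ e (Y w)) → ∀ a, polar R e a = 0 → a ∈ N := by
    intro e he he' hYe a ha
    refine perp_span T.ndE h5 he he' (N := N) (fun x hx hx' => ?_) ha
    by_cases hc : ∃ c : F, x = c • e
    · obtain ⟨c, hc⟩ := hc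
      rw [hc]
      exact N.smul_mem c (fun w => hYe w)
    · push Not at hc
      exact k2 x e (LP.swap ⟨he, hc, he', hx, hx'⟩) Y hYe
  obtain ⟨g₁, g', hg1, hg2, hg3, hg4⟩ := T.duals hg
  refine ⟨Y, fun a w => ?_⟩
  have h6 : a ∈ N := by
    have h7 : a = (a - polar R e₀ a • g₁) + polar R e₀ a • g₁ := by abel
    rw [h7]
    apply N.add_mem
    · apply k3 e₀ he₀ he₀' hY
      rw [polar_sub_right, polar_smul_right, hg1, smul_eq_mul, mul_one, sub_self]
    · apply N.smul_mem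
      exact k3 g hg.f0 hg.qf hYg g₁ hg2
  exact h6 w

/-- **Main theorem.** -/
theorem dec [Finite F] (hcon : ¬ Om S ≤ M) (hnw : finrank F W < finrank F E) {h : V ≃ₗ[F] V} (hh : h ∈ M) :
    ∃ (s : E →ₗ[F] E) (C : W ≃ₗ[F] W), ∀ a w, h (τ a w) = τ (s a) (C w) := by
  by_contra hnd
  have h2 := T.two
  obtain ⟨w₀, w₁, hw₀, hw₁⟩ := T.exists_w0
  obtain ⟨e', he', he''⟩ := T.exists_sE
  obtain ⟨f', hL'⟩ := T.exists_lp he' he''
  obtain ⟨g, g', hg1, hg2, hg3, hg4⟩ := T.duals hL'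
  obtain ⟨r, hr⟩ : ∃ r, r = rr T h e' f' := ⟨_, rfl⟩
  have hcm : ∀ e f, LP R e f → ∀ v, pp T e f (r v) = r (pp T e f v) := by
    intro e f hL v
    rw [hr]
    exact T.good_comm hcon hh hL hL' hnd (T.no_bad hcon hh hL hL' hnd) v
  obtain ⟨Y, hY⟩ := T.pure_of_comm hcm
  have hR := T.qd_rr hh hL'
  rw [← hr] at hR
  have rsk : ∀ x y, polar S (r x) y = - polar S x (r y) := hR.sk
  have hYs : ∀ w, polar Q (Y w) w = 0 := by
    intro w
    obtain ⟨q, hq⟩ := T.exists_e1 he'
    have h3 := rsk (τ e' w) (τ q w)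
    rw [hY, hY, T.pol, T.pol, hq, one_mul, one_mul, polar_comm Q w] at h3
    have : 2 * polar Q (Y w) w = 0 := by linear_combination h3
    exact (mul_eq_zero.mp this).resolve_left h2
  -- `Y` is nonzero
  obtain ⟨w₂, hw₂⟩ : ∃ w, Y w ≠ 0 := by
    by_contra hc
    push Not at hc
    have h3 : r = 0 := T.extτ fun a w => by rw [hY, hc, map_zero]; rfl
    have h4 := LinearMap.congr_fun h3 (h (τ g w₀))
    rw [hr, rr_apply, T.hinv', pp_τ, hg1, hg2, LinearMap.zero_apply, LinearEquiv.map_eq_zero_iff] at h4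
    have h5 := T.τ_inj' hw₀ h4
    rw [one_smul, zero_smul, sub_zero] at h5
    exact hL'.f0 h5
  -- and has rank at least two
  obtain ⟨w₃, hw₃⟩ : ∃ w, ∀ c : F, Y w ≠ c • Y w₂ := by
    by_contra hc
    push Not at hc
    have h3 : ∀ w, polar Q (Y w₂) w ≠ 0 → Y w = 0 := by
      intro w hw
      obtain ⟨c, hc'⟩ := hc w
      have h4 := hYs w
      rw [hc', polar_smul_left, smul_eq_mul] at h4
      rw [hc', (mul_eq_zero.mp h4).resolve_right hw, zero_smul]
    obtain ⟨z, hz⟩ := T.exists_w1 hw₂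
    have h4 := h3 z (by rw [hz]; exact one_ne_zero)
    have h5 := h3 (w₂ + z) (by rw [polar_add_right, hYs, hz, zero_add]; exact one_ne_zero)
    rw [map_add, h4, add_zero] at h5
    exact hw₂ h5
  obtain ⟨z, hz1, hz2⟩ := T.ndW.exists_polar_one (F ∙ (Y w₃)) (v := Y w₂) (fun hmem => by
    obtain ⟨c, hc⟩ := Submodule.mem_span_singleton.1 hmem
    have hc0 : c ≠ 0 := by rintro rfl; rw [zero_smul] at hc; exact hw₂ hc.symm
    exact hw₃ c⁻¹ (by rw [← hc, smul_smul, inv_mul_cancel₀ hc0, one_smul]))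
  have hz1' := mem_perp_singleton.1 hz1
  obtain ⟨z', hz'⟩ := T.exists_w1 (w := Y w₃) (fun h0 => hw₃ 0 (by rw [h0, zero_smul]))
  -- dimensions
  let Φ : (E × E) →ₗ[F] V := LinearMap.coprod (τ.flip (Y w₂)) (τ.flip (Y w₃))
  have hΦ : ∀ x y, Φ (x, y) = τ x (Y w₂) + τ y (Y w₃) := fun x y => rfl
  have hΦi : Function.Injective Φ := by
    rw [injective_iff_map_eq_zero]
    rintro ⟨x, y⟩ hxy
    rw [hΦ] at hxy
    have h3 := congrArg (T.dd z) hxy
    rw [map_add, T.dd_τ, T.dd_τ, hz2, hz1', one_smul, zero_smul, add_zero, map_zero] at h3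
    rw [h3, map_zero, LinearMap.zero_apply, zero_add] at hxy
    have h4 := congrArg (T.dd z') hxy
    rw [T.dd_τ, hz', one_smul, map_zero] at h4
    rw [h3, h4]; rfl
  have hrg : LinearMap.range Φ ≤ LinearMap.range r := by
    rintro _ ⟨⟨x, y⟩, rfl⟩
    refine ⟨τ x w₂ + τ y w₃, ?_⟩
    rw [map_add, hY, hY, hΦ]
  let Ψ : (W × W) →ₗ[F] V := (h : V →ₗ[F] V) ∘ₗ (LinearMap.coprod (τ f') (-(τ e')))
  have hΨ : ∀ x y, Ψ (x, y) = h (τ f' x + -(τ e' y)) := fun x y => rfl
  have hrg' : LinearMap.range r ≤ LinearMap.range Ψ := by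
    rintro _ ⟨v, rfl⟩
    refine ⟨(T.cc e' (h⁻¹ v), T.cc f' (h⁻¹ v)), ?_⟩
    rw [hΨ, hr, rr_apply, pp_apply, sub_eq_add_neg]
  have d1 := LinearMap.finrank_range_of_inj hΦi
  have d2 := Submodule.finrank_mono hrg
  have d3 := Submodule.finrank_mono hrg'
  have d4 := LinearMap.finrank_range_le Ψ
  rw [Module.finrank_prod] at d1 d4
  omega

end OO

end Cfsg.Agent.Lib.OTen
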