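import Mathlib
import Cfsg.Prelude.Def_GeometricClasses
import Cfsg.Agent.Lib.GeoBridge
import Cfsg.Agent.Lib.TensorGeo
import Cfsg.Agent.Lib.OrthBridge
import Cfsg.Agent.Lib.LineCount
import Cfsg.Agent.Lib.TenSpT7
import Cfsg.Agent.Lib.OTen10

/-!
# Stabilisers of tensor decompositions in orthogonal groups: the bridge (helper21)
-/

set_option autoImplicit false
set_option linter.unusedSectionVars false
set_option linter.unusedVariables false
set_option linter.unusedSimpArgs false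

namespace Cfsg.Agent.Lib.OTen

open QuadraticMap Module Cfsg.Agent.Lib.Quad Cfsg.Agent.Lib.OrthNd Cfsg.Agent.Lib.OrthMax
open Cfsg.Agent.Lib.GeoBridge Cfsg.Agent.Lib.TensorGeo Cfsg.Agent.Lib.OrthBridge Cfsg Cfsg.Geo
open scoped MatrixGroups Matrix Kronecker

section abstract

variable {F E W V : Type*} [Field F] [AddCommGroup E] [Module F E] [FiniteDimensional F E]
  [AddCommGroup W] [Module F W] [FiniteDimensional F W] [AddCommGroup V] [Module F V] [FiniteDimensional F V]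

/-- tensor product data -/
structure OD (R : QuadraticForm F E) (Q : QuadraticForm F W) (S : QuadraticForm F V) (τ : E →ₗ[F] W →ₗ[F] V) : Prop where
  ndE : Nd R
  ndW : Nd Q
  ndV : Nd S
  two : (2 : F) ≠ 0
  E5 : 5 ≤ finrank F E
  W3 : 3 ≤ finrank F W
  W3q : finrank F W = 3 → ∃ s : F, s ≠ 0 ∧ s * s ≠ 1
  W4 : finrank F W = 4 → ∀ u x : W, u ≠ 0 → Q u = 0 → polar Q u x = 0 → Q x = 0 → ∃ c : F, x = c • u
  pol : ∀ e w e' w', polar S (τ e w) (τ e' w') = polar R e e' * polar Q w w'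
  span : ∀ N : Submodule F V, (∀ e w, τ e w ∈ N) → N = ⊤
  lift : ∀ (σ : E ≃ₗ[F] E) (ρ : W ≃ₗ[F] W), ∃ t : V ≃ₗ[F] V, ∀ e w, t (τ e w) = τ (σ e) (ρ w)
  nw : finrank F W < finrank F E

variable {R : QuadraticForm F E} {Q : QuadraticForm F W} {S : QuadraticForm F V} {τ : E →ₗ[F] W →ₗ[F] V}

namespace OD

variable (D : OD R Q S τ)

include D

theorem extV {f g : V ≃ₗ[F] V} (h : ∀ e w, f (τ e w) = g (τ e w)) : f = g := by
  have h1 := D.span (LinearMap.eqLocus (f : V →ₗ[F] V) (g : V →ₗ[F] V)) (fun e w => h e w)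
  ext v
  have h2 : v ∈ LinearMap.eqLocus (f : V →ₗ[F] V) (g : V →ₗ[F] V) := by rw [h1]; trivial
  exact h2

theorem isoV {g : V ≃ₗ[F] V} {σ : E ≃ₗ[F] E} {ρ : W ≃ₗ[F] W} (h : ∀ e w, g (τ e w) = τ (σ e) (ρ w)) (hσ : σ ∈ O R)
    (hρ : ρ ∈ O Q) : g ∈ O S := by
  have h3 : ∀ v w, polar S (g v) (g w) = polar S v w := by
    intro v w
    let L : V →ₗ[F] V →ₗ[F] F :=
      (polarBilin S).compl₁₂ (g : V →ₗ[F] V) (g : V →ₗ[F] V) - polarBilin S
    have hL : ∀ v w, L v w = polar S (g v) (g w) - polar S v w := fun v w => rfl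
    have h4 : ∀ x z y w, L (τ x z) (τ y w) = 0 := by
      intro x z y w
      rw [hL, h, h, D.pol, D.pol, O_polar hσ, O_polar hρ, sub_self]
    have h5 : ∀ x z, LinearMap.ker (L (τ x z)) = ⊤ := fun x z => D.span _ fun y w => h4 x z y w
    have h6 : LinearMap.ker (L.flip w) = ⊤ := D.span _ fun x z => by
      have : w ∈ LinearMap.ker (L (τ x z)) := by rw [h5]; trivial
      exact this
    have h7 : v ∈ LinearMap.ker (L.flip w) := by rw [h6]; trivial
    exact sub_eq_zero.mp h7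
  intro v
  have h4 := h3 v v
  rw [polar_self', polar_self'] at h4
  exact mul_left_cancel₀ D.two h4

theorem liftE {σ : E ≃ₗ[F] E} (hσ : σ ∈ Om R) : ∃ t ∈ Om S, ∀ e w, t (τ e w) = τ (σ e) w := by
  choose φ hφ using fun σ : E ≃ₗ[F] E => D.lift σ 1
  let Φ : (E ≃ₗ[F] E) →* (V ≃ₗ[F] V) := MonoidHom.mk' φ fun a b => D.extV fun e w => by
    rw [LinearEquiv.mul_apply, hφ, hφ, hφ]; rfl
  have h1 : (Om R).map Φ ≤ Om S := by
    rw [Om, Subgroup.map_commutator, Om]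
    have h2 : (O R).map Φ ≤ O S := by
      rintro _ ⟨g, hg, rfl⟩
      exact D.isoV (hφ g) hg (one_mem _)
    exact Subgroup.commutator_mono h2 h2
  exact ⟨φ σ, h1 ⟨σ, hσ, rfl⟩, fun e w => hφ σ e w⟩

theorem liftW {ρ : W ≃ₗ[F] W} (hρ : ρ ∈ Om Q) : ∃ t ∈ Om S, ∀ e w, t (τ e w) = τ e (ρ w) := by
  choose φ hφ using fun σ : W ≃ₗ[F] W => D.lift 1 σ
  let Φ : (W ≃ₗ[F] W) →* (V ≃ₗ[F] V) := MonoidHom.mk' φ fun a b => D.extV fun e w => by
    rw [LinearEquiv.mul_apply, hφ, hφ, hφ]; rfl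
  have h1 : (Om Q).map Φ ≤ Om S := by
    rw [Om, Subgroup.map_commutator, Om]
    have h2 : (O Q).map Φ ≤ O S := by
      rintro _ ⟨g, hg, rfl⟩
      exact D.isoV (hφ g) (one_mem _) hg
    exact Subgroup.commutator_mono h2 h2
  exact ⟨φ ρ, h1 ⟨ρ, hρ, rfl⟩, fun e w => hφ ρ e w⟩

/-- the situation -/
theorem toOO {M : Subgroup (V ≃ₗ[F] V)} (hM : M ≤ Om S)
    (hH : ∀ g ∈ Om S, (∃ (s : E ≃ₗ[F] E) (C : W ≃ₗ[F] W), ∀ a w, g (τ a w) = τ (s a) (C w)) → g ∈ M) : OO R Q S τ M :=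
  { ndE := D.ndE
    ndW := D.ndW
    ndV := D.ndV
    two := D.two
    E5 := D.E5
    W3 := D.W3
    W3q := D.W3q
    W4 := D.W4
    pol := D.pol
    span := D.span
    le := hM.trans Om_le
    tE := fun σ hσ => by
      obtain ⟨t, ht, h1⟩ := D.liftE hσ
      exact ⟨t, hH t ht ⟨σ, 1, h1⟩, h1⟩
    tW := fun ρ hρ => by
      obtain ⟨t, ht, h1⟩ := D.liftW hρ
      exact ⟨t, hH t ht ⟨1, ρ, h1⟩, h1⟩ }

theorem main [Finite F] {M : Subgroup (V ≃ₗ[F] V)} (hM : M ≤ Om S)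
    (hH : ∀ g ∈ Om S, (∃ (s : E ≃ₗ[F] E) (C : W ≃ₗ[F] W), ∀ a w, g (τ a w) = τ (s a) (C w)) → g ∈ M)
    (hex : ∃ g ∈ M, ¬ ∃ (s : E ≃ₗ[F] E) (C : W ≃ₗ[F] W), ∀ a w, g (τ a w) = τ (s a) (C w)) : Om S ≤ M := by
  by_contra hcon
  obtain ⟨g, hg, hgn⟩ := hex
  have T := D.toOO hM hH
  obtain ⟨s, C, h⟩ := T.dec hcon D.nw hg
  apply hgn
  obtain ⟨w₀, w₁, hw₀, -⟩ := T.exists_w0
  have hs : Function.Injective s := by
    rw [injective_iff_map_eq_zero]
    intro a ha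
    have h1 := h a w₀
    rw [ha, map_zero, LinearMap.zero_apply, LinearEquiv.map_eq_zero_iff] at h1
    exact T.τ_inj' hw₀ h1
  exact ⟨LinearEquiv.ofInjectiveEndo s hs, C, h⟩

/-- not every element of `Ω` is decomposable -/
theorem proper [Finite F] : ∃ t ∈ Om S, ¬ ∃ (s : E ≃ₗ[F] E) (C : W ≃ₗ[F] W), ∀ a w, t (τ a w) = τ (s a) (C w) := by
  have T : OO R Q S τ (Om S) := D.toOO le_rfl fun g hg _ => hg
  have h2 := D.two
  obtain ⟨e, he0, he⟩ := T.exists_sE
  obtain ⟨u, -, hu0, hu⟩ := exists_sing_in (Q := Q) (⊤ : Submodule F W) (by rw [finrank_top]; exact D.W3)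
  obtain ⟨x, hx, hux⟩ := exists_a D.ndW D.W3 hu
  obtain ⟨w, hw1, hw2⟩ := D.ndW.exists_polar_one (F ∙ x) (v := u) (fun hmem => by
    obtain ⟨c, hc⟩ := Submodule.mem_span_singleton.1 hmem
    have h3 := hu
    rw [← hc, Q_smul] at h3
    have hc0 : c = 0 := by
      rcases mul_eq_zero.mp h3 with h4 | h4
      · exact mul_self_eq_zero.mp h4
      · exact absurd h4 hx
    rw [hc0, zero_smul] at hc
    exact hu0 hc.symm)
  have hw1' : polar Q x w = 0 := mem_perp_singleton.1 hw1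
  have hwx : polar Q w x = 0 := by rw [polar_comm]; exact hw1'
  obtain ⟨q, hq⟩ := T.exists_e1 he0
  have hee : polar R e e = 0 := by rw [polar_self', he, mul_zero]
  have hz : S (τ e u) = 0 := T.Sτ he u
  have hy : S (τ e x) = 0 := T.Sτ he x
  have hzy : polar S (τ e u) (τ e x) = 0 := by rw [T.pol, hee, zero_mul]
  have hfV : finrank F E ≤ finrank F V := by
    refine LinearMap.finrank_le_finrank_of_injective (f := τ.flip u) ?_
    rw [injective_iff_map_eq_zero]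
    intro a ha
    exact T.τ_inj' hu0 ha
  refine ⟨_, D.ndV.sieg_mem_Om (genHyp_of_two_ne_zero h2) hz hzy, ?_⟩
  rintro ⟨s, C, h⟩
  have h' : ∀ a w, τ a w + polar R e a • τ e (polar Q u w • x - polar Q x w • u) = τ (s a) (C w) := by
    intro a w
    rw [← h, sieg_apply, T.pol, T.pol, hy, zero_mul, zero_smul, sub_zero, map_sub, map_smul, map_smul]
    module
  have h3 : ∀ w, w = polar R (s e) q • C w := by
    intro w
    have := congrArg (T.cc q) (h' e w)
    rw [hee, zero_smul, add_zero, T.cc_τ, T.cc_τ, hq, one_smul] at this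
    exact this
  obtain ⟨k, hk⟩ : ∃ k, k = polar R (s e) q := ⟨_, rfl⟩
  rw [← hk] at h3
  have hk0 : k ≠ 0 := by
    rintro rfl
    apply hu0
    rw [h3 u, zero_smul]
  have hC : C w = k⁻¹ • w := by
    conv_rhs => rw [h3 w]
    rw [smul_smul, inv_mul_cancel₀ hk0, one_smul]
  have h4 := congrArg (T.dd x) (h' q w)
  rw [hq, one_smul, map_add, T.dd_τ, T.dd_τ, T.dd_τ, hC, hwx, polar_smul_left, hwx, smul_zero, zero_smul, zero_smul, zero_add,
    hw2, hw1', one_smul, zero_smul, sub_zero, polar_self', smul_eq_zero] at h4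
  rcases h4 with h4 | h4
  · exact (mul_ne_zero h2 hx) h4
  · exact he0 h4

end OD

end abstract

variable {F : Type*} [Field F] {E W : Type*} [AddCommGroup E] [Module F E] [FiniteDimensional F E]
  [AddCommGroup W] [Module F W] [FiniteDimensional F W]

/-- the stabiliser is maximal -/
theorem OD.max [Finite F] {ι : Type} [Fintype ι] [DecidableEq ι] {R : QuadraticForm F E} {Q : QuadraticForm F W}
    {S : QuadraticForm F (ι → F)} {τ : E →ₗ[F] W →ₗ[F] (ι → F)} (D : OD R Q S τ) {K : Subgroup (GL ι F)}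
    (hK : ∀ g, g ∈ K ↔ ∃ (s : E ≃ₗ[F] E) (C : W ≃ₗ[F] W), ∀ a w, le g (τ a w) = τ (s a) (C w)) :
    IsMaximalIn (omegaGL ⇑S) (K ⊓ omegaGL ⇑S) :=
  Om_max_of (P := fun t => ∃ (s : E ≃ₗ[F] E) (C : W ≃ₗ[F] W), ∀ a w, t (τ a w) = τ (s a) (C w)) hK D.proper
    fun M hM hH hex => D.main hM hH hex

/-- the quadratic form of a symmetric form -/
theorem exists_quad {n : ℕ} {f : (Fin n → F) → (Fin n → F) → F} (hf : IsSymmetricForm f) (h2 : (2 : F) ≠ 0) {c : F} (hc : c ≠ 0) :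
    ∃ Q : QuadraticForm F (Fin n → F), (∀ x, Q x = c / 2 * f x x) ∧ (∀ x y, polar Q x y = c * f x y) ∧ Nd Q := by
  let B₀ : (Fin n → F) →ₗ[F] (Fin n → F) →ₗ[F] F :=
    LinearMap.mk₂ F (fun x y => c / 2 * f x y)
      (fun x y z => by rw [hf.bilinear.add_left]; ring)
      (fun a x y => by rw [hf.bilinear.smul_left, smul_eq_mul]; ring)
      (fun x y z => by rw [hf.bilinear.add_right]; ring)
      (fun a x y => by rw [hf.bilinear.smul_right, smul_eq_mul]; ring)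
  obtain ⟨Q, hQ⟩ : ∃ Q : QuadraticForm F (Fin n → F), Q = LinearMap.BilinMap.toQuadraticMap B₀ := ⟨_, rfl⟩
  have h0 : ∀ z, Q z = c / 2 * f z z := fun z => by rw [hQ]; rfl
  have hQp : ∀ x y, polar Q x y = c * f x y := by
    intro x y
    rw [polar, h0, h0, h0, hf.bilinear.add_left, hf.bilinear.add_right, hf.bilinear.add_right, hf.symm y x]
    field_simp
    ring
  refine ⟨Q, h0, hQp, ?_⟩
  apply nd_of
  intro x hx
  by_contra hne
  obtain ⟨-, y, hy⟩ := hf.nondegenerate x hne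
  have := hx y
  rw [hQp] at this
  exact hy ((mul_eq_zero.mp this).resolve_left hc)

theorem exists_s [Fintype F] (h : Odd (Fintype.card F)) (h3 : Fintype.card F ≠ 3) : ∃ s : F, s ≠ 0 ∧ s * s ≠ 1 := by
  classical
  by_contra hcon
  push Not at hcon
  have h1 : (Finset.univ : Finset F) ⊆ {0, 1, -1} := by
    intro x _
    simp only [Finset.mem_insert, Finset.mem_singleton]
    by_cases h0 : x = 0
    · exact Or.inl h0
    · exact Or.inr (mul_self_eq_one_iff.mp (hcon x h0))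
  have h2 := Finset.card_le_card h1
  have h4 := Finset.card_le_three (a := (0 : F)) (b := 1) (c := -1)
  rw [Finset.card_univ] at h2
  have h5 := Fintype.one_lt_card (α := F)
  obtain ⟨k, hk⟩ := h
  omega

variable {n₁ n₂ : ℕ}

section
variable {ι : Type} [Fintype ι] [DecidableEq ι]

theorem hK1 (e : ι ≃ Fin n₁ × Fin n₂) (P : GL ι F) (g : GL ι F) : g ∈ tensorProductSubgroup n₁ n₂ e P ↔
    ∃ (s : (Fin n₁ → F) ≃ₗ[F] (Fin n₁ → F)) (C : (Fin n₂ → F) ≃ₗ[F] (Fin n₂ → F)),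
      ∀ x z, le g (tpB e P x z) = tpB e P (s x) (C z) := by
  rw [mem_tensor_iff]
  constructor
  · rintro ⟨a, b, h⟩
    exact ⟨le a, le b, fun x z => h x z⟩
  · rintro ⟨s, C, h⟩
    refine ⟨le.symm s, le.symm C, fun x z => ?_⟩
    rw [le_symm_mulVec, le_symm_mulVec]
    exact h x z

theorem hK2 (e : ι ≃ Fin n₁ × Fin n₂) (P : GL ι F) (g : GL ι F) : g ∈ tensorProductSubgroup n₁ n₂ e P ↔
    ∃ (s : (Fin n₂ → F) ≃ₗ[F] (Fin n₂ → F)) (C : (Fin n₁ → F) ≃ₗ[F] (Fin n₁ → F)),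
      ∀ x z, le g ((tpB e P).flip x z) = (tpB e P).flip (s x) (C z) := by
  rw [hK1]
  constructor
  · rintro ⟨s, C, h⟩
    exact ⟨C, s, fun x z => h z x⟩
  · rintro ⟨s, C, h⟩
    exact ⟨C, s, fun x z => h z x⟩

theorem lift1 (e : ι ≃ Fin n₁ × Fin n₂) (P : GL ι F) (σ : (Fin n₁ → F) ≃ₗ[F] (Fin n₁ → F))
    (ρ : (Fin n₂ → F) ≃ₗ[F] (Fin n₂ → F)) : ∃ t : (ι → F) ≃ₗ[F] (ι → F), ∀ x z, t (tpB e P x z) = tpB e P (σ x) (ρ z) := by
  obtain ⟨g, hg, h1⟩ := TenSpT.exists_kron e P (le.symm σ) (le.symm ρ)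
  refine ⟨le g, fun x z => ?_⟩
  rw [tpB_apply, h1, tpB_apply, le_symm_mulVec, le_symm_mulVec]

theorem spanB (e : ι ≃ Fin n₁ × Fin n₂) (P : GL ι F) (N : Submodule F (ι → F)) (hN : ∀ x y, tpB e P x y ∈ N) : N = ⊤ := by
  rw [eq_top_iff, ← span_tp (e := e) (P := P), Submodule.span_le]
  rintro v ⟨x₁, x₂, rfl⟩
  exact hN x₁ x₂

theorem polB {S : QuadraticForm F (ι → F)} (e : ι ≃ Fin n₁ × Fin n₂) (P : GL ι F)
    (f₁ : (Fin n₁ → F) → (Fin n₁ → F) → F) (f₂ : (Fin n₂ → F) → (Fin n₂ → F) → F)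
    (hf₁ : IsSymmetricForm f₁) (hf₂ : IsSymmetricForm f₂) (hT : IsTensorFormStructure id (polar S) f₁ f₂ e P) :
    ∃ c : F, c ≠ 0 ∧ ∀ x₁ x₂ y₁ y₂, polar S (tpB e P x₁ x₂) (tpB e P y₁ y₂) = c * (f₁ x₁ y₁ * f₂ x₂ y₂) := by
  obtain ⟨c, hc, hT⟩ := hT
  refine ⟨c, hc, fun x₁ x₂ y₁ y₂ => ?_⟩
  exact form_tp (σ := id) (fun a b => rfl)
    (eq_formOfGram (σ := id) hf₁.bilinear.add_left hf₁.bilinear.smul_left (fun x y z => hf₁.bilinear.add_right x y z)
      (fun c x y => hf₁.bilinear.smul_right c x y))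
    (eq_formOfGram (σ := id) hf₂.bilinear.add_left hf₂.bilinear.smul_left (fun x y z => hf₂.bilinear.add_right x y z)
      (fun c x y => hf₂.bilinear.smul_right c x y)) hT x₁ y₁ x₂ y₂

/-- **second factor larger** -/
theorem tensor_max2 [Fintype F] (hodd : Odd (Fintype.card F)) {S : QuadraticForm F (ι → F)} (hS : Nd S) (h1 : 3 ≤ n₁)
    (h2 : 5 ≤ n₂) (h12 : n₁ < n₂) (hex : ¬ (Fintype.card F = 3 ∧ n₁ = 3)) (h4 : n₁ ≠ 4) (e : ι ≃ Fin n₁ × Fin n₂) (P : GL ι F)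
    (f₁ : (Fin n₁ → F) → (Fin n₁ → F) → F) (f₂ : (Fin n₂ → F) → (Fin n₂ → F) → F)
    (hf₁ : IsSymmetricForm f₁) (hf₂ : IsSymmetricForm f₂) (hT : IsTensorFormStructure id (polar S) f₁ f₂ e P) :
    IsMaximalIn (omegaGL ⇑S) (tensorProductSubgroup n₁ n₂ e P ⊓ omegaGL ⇑S) := by
  have h2F : (2 : F) ≠ 0 := two_ne_zero_of_odd rfl hodd
  obtain ⟨c, hc, hpol⟩ := polB e P f₁ f₂ hf₁ hf₂ hT
  obtain ⟨R, -, hR, ndR⟩ := exists_quad hf₂ h2F one_ne_zero
  obtain ⟨Q, -, hQ, ndQ⟩ := exists_quad hf₁ h2F hc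
  have D : OD R Q S (tpB e P).flip :=
    { ndE := ndR
      ndW := ndQ
      ndV := hS
      two := h2F
      E5 := by rw [finrank_fintype_fun_eq_card, Fintype.card_fin]; exact h2
      W3 := by rw [finrank_fintype_fun_eq_card, Fintype.card_fin]; exact h1
      W3q := by
        rw [finrank_fintype_fun_eq_card, Fintype.card_fin]
        intro h3
        exact exists_s hodd fun hc => hex ⟨hc, h3⟩
      W4 := by
        rw [finrank_fintype_fun_eq_card, Fintype.card_fin]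
        intro h5
        exact absurd h5 h4
      pol := by
        intro x z x' z'
        change polar S (tpB e P z x) (tpB e P z' x') = _
        rw [hpol, hR, hQ]; ring
      span := fun N hN => spanB e P N fun x y => hN y x
      lift := by
        intro σ ρ
        obtain ⟨t, ht⟩ := lift1 e P ρ σ
        exact ⟨t, fun x z => ht z x⟩
      nw := by
        rw [finrank_fintype_fun_eq_card, Fintype.card_fin, finrank_fintype_fun_eq_card, Fintype.card_fin]
        exact h12 }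
  exact D.max (hK2 e P)

/-- **first factor larger** -/
theorem tensor_max1 [Fintype F] (hodd : Odd (Fintype.card F)) {S : QuadraticForm F (ι → F)} (hS : Nd S) (h1 : 5 ≤ n₁)
    (h2 : 4 ≤ n₂) (h12 : n₂ < n₁) (e : ι ≃ Fin n₁ × Fin n₂) (P : GL ι F)
    (f₁ : (Fin n₁ → F) → (Fin n₁ → F) → F) (f₂ : (Fin n₂ → F) → (Fin n₂ → F) → F)
    (hf₁ : IsSymmetricForm f₁) (hf₂ : IsSymmetricForm f₂) (hm : ¬ IsPlusTypeOn (fun v : Fin n₂ → F => f₂ v v) ⊤)
    (hT : IsTensorFormStructure id (polar S) f₁ f₂ e P) :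
    IsMaximalIn (omegaGL ⇑S) (tensorProductSubgroup n₁ n₂ e P ⊓ omegaGL ⇑S) := by
  have h2F : (2 : F) ≠ 0 := two_ne_zero_of_odd rfl hodd
  obtain ⟨c, hc, hpol⟩ := polB e P f₁ f₂ hf₁ hf₂ hT
  obtain ⟨R, -, hR, ndR⟩ := exists_quad hf₁ h2F one_ne_zero
  obtain ⟨Q, hQ0, hQ, ndQ⟩ := exists_quad hf₂ h2F hc
  have D : OD R Q S (tpB e P) :=
    { ndE := ndR
      ndW := ndQ
      ndV := hS
      two := h2F
      E5 := by rw [finrank_fintype_fun_eq_card, Fintype.card_fin]; exact h1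
      W3 := by rw [finrank_fintype_fun_eq_card, Fintype.card_fin]; omega
      W3q := by
        rw [finrank_fintype_fun_eq_card, Fintype.card_fin]
        intro h3
        omega
      W4 := by
        rw [finrank_fintype_fun_eq_card, Fintype.card_fin]
        intro h5 u x hu0 hu hux hx
        by_contra hcon
        push Not at hcon
        apply hm
        have hns : x ∉ Submodule.span F {u} := by
          intro hmem
          obtain ⟨d, hd⟩ := Submodule.mem_span_singleton.1 hmem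
          exact hcon d hd.symm
        refine ⟨Submodule.span F {u, x}, le_top, ?_, ?_⟩
        · intro w hw
          obtain ⟨a, b, rfl⟩ := Submodule.mem_span_pair.1 hw
          have h6 : Q (a • u + b • x) = 0 := by
            rw [Q_add, Q_smul, Q_smul, hu, hx, polar_smul_left, polar_smul_right, hux]; simp
          rw [hQ0] at h6
          exact (mul_eq_zero.mp h6).resolve_left (div_ne_zero hc h2F)
        · rw [Cfsg.Agent.Lib.LineCount.finrank_pair hu0 hns, finrank_top, finrank_fintype_fun_eq_card, Fintype.card_fin, h5]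
      pol := by
        intro x z x' z'
        rw [hpol, hR, hQ]; ring
      span := fun N hN => spanB e P N hN
      lift := fun σ ρ => lift1 e P σ ρ
      nw := by
        rw [finrank_fintype_fun_eq_card, Fintype.card_fin, finrank_fintype_fun_eq_card, Fintype.card_fin]
        exact h12 }
  exact D.max (hK1 e P)

end

end Cfsg.Agent.Lib.OTen
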