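import Mathlib

/-! # Finite planes and collineations: basics -/

set_option autoImplicit false

namespace Cfsg.Agent.Lib.OW

open MulAction

universe u v

/-- A projective plane as an incidence relation. -/
structure Pl {P : Type u} {L : Type v} (I : P → L → Prop) : Prop where
  join : ∀ p q : P, p ≠ q → ∃ l, I p l ∧ I q l
  meet : ∀ l m : L, l ≠ m → ∃ p, I p l ∧ I p m
  uniq : ∀ {p q : P} {l m : L}, I p l → I q l → I p m → I q m → p = q ∨ l = m

/-- A projective plane of order `n`. -/
structure PlN {P : Type u} {L : Type v} (I : P → L → Prop) (n : ℕ) : Prop extends Pl I where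
  two_le : 2 ≤ n
  line_card : ∀ l : L, Nat.card {p // I p l} = n + 1
  pt_card : ∀ p : P, Nat.card {l // I p l} = n + 1
  cardP : Nat.card P = n ^ 2 + n + 1
  cardL : Nat.card L = n ^ 2 + n + 1

/-- four points no three of which are collinear -/
structure Quad {P : Type u} {L : Type v} (I : P → L → Prop) (a b c d : P) : Prop where
  ab : a ≠ b
  abc : ∀ l, ¬ (I a l ∧ I b l ∧ I c l)
  abd : ∀ l, ¬ (I a l ∧ I b l ∧ I d l)
  acd : ∀ l, ¬ (I a l ∧ I c l ∧ I d l)
  bcd : ∀ l, ¬ (I b l ∧ I c l ∧ I d l)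

variable {P : Type u} {L : Type v} {I : P → L → Prop}

/-- the dual relation -/
abbrev Du (I : P → L → Prop) : L → P → Prop := fun l p => I p l

theorem Pl.dual (h : Pl I) : Pl (Du I) where
  join := h.meet
  meet := h.join
  uniq := fun h1 h2 h3 h4 => (h.uniq h1 h3 h2 h4).symm

theorem PlN.dual {n : ℕ} (h : PlN I n) : PlN (Du I) n where
  toPl := h.toPl.dual
  two_le := h.two_le
  line_card := h.pt_card
  pt_card := h.line_card
  cardP := h.cardL
  cardL := h.cardP

theorem PlN.finP {n : ℕ} (h : PlN I n) : Finite P := by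
  apply Nat.finite_of_card_ne_zero; rw [h.cardP]; positivity

theorem PlN.finL {n : ℕ} (h : PlN I n) : Finite L := h.dual.finP

theorem PlN.eq {n m : ℕ} (h : PlN I n) (h' : PlN I m) : n = m := by
  have h1 := h.cardP
  rw [h'.cardP] at h1
  rcases lt_trichotomy n m with h2 | h2 | h2
  · nlinarith
  · exact h2
  · nlinarith

/-- a Mathlib plane is a plane -/
theorem ofMathlib [Membership P L] [Fintype P] [Fintype L] [Configuration.ProjectivePlane P L] :
    PlN (fun (p : P) (l : L) => p ∈ l) (Configuration.ProjectivePlane.order P L) where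
  join := fun p q h => ⟨_, Configuration.HasLines.mkLine_ax h⟩
  meet := fun l m h => ⟨_, Configuration.HasPoints.mkPoint_ax h⟩
  uniq := fun h1 h2 h3 h4 => Configuration.Nondegenerate.eq_or_eq h1 h2 h3 h4
  two_le := Configuration.ProjectivePlane.one_lt_order P L
  line_card := fun l => Configuration.ProjectivePlane.pointCount_eq (P := P) l
  pt_card := fun p => Configuration.ProjectivePlane.lineCount_eq (L := L) p
  cardP := by
    rw [Nat.card_eq_fintype_card]; exact Configuration.ProjectivePlane.card_points P L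
  cardL := by
    rw [Nat.card_eq_fintype_card]; exact Configuration.ProjectivePlane.card_lines P L

theorem Quad.ac (h : Pl I) {a b c d : P} (q : Quad I a b c d) : a ≠ c := by
  rintro rfl
  obtain ⟨l, h1, h2⟩ := h.join a b q.ab
  exact q.abc l ⟨h1, h2, h1⟩

theorem Quad.ad (h : Pl I) {a b c d : P} (q : Quad I a b c d) : a ≠ d := by
  rintro rfl
  obtain ⟨l, h1, h2⟩ := h.join a b q.ab
  exact q.abd l ⟨h1, h2, h1⟩

theorem Quad.bc (h : Pl I) {a b c d : P} (q : Quad I a b c d) : b ≠ c := by
  rintro rfl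
  obtain ⟨l, h1, h2⟩ := h.join a b q.ab
  exact q.abc l ⟨h1, h2, h2⟩

theorem Quad.bd (h : Pl I) {a b c d : P} (q : Quad I a b c d) : b ≠ d := by
  rintro rfl
  obtain ⟨l, h1, h2⟩ := h.join a b q.ab
  exact q.abd l ⟨h1, h2, h2⟩

theorem Quad.cd (h : Pl I) {a b c d : P} (q : Quad I a b c d) : c ≠ d := by
  rintro rfl
  obtain ⟨l, h1, h2⟩ := h.join a c (q.ac h)
  exact q.acd l ⟨h1, h2, h2⟩

/-- build a plane with order from a quadrangle -/
theorem Pl.toN [Finite P] [Finite L] (h : Pl I) {a b c d : P} (q : Quad I a b c d) :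
    ∃ n, PlN I n := by
  classical
  haveI := Fintype.ofFinite P
  haveI := Fintype.ofFinite L
  obtain ⟨ab, hab1, hab2⟩ := h.join a b q.ab
  obtain ⟨ac, hac1, hac2⟩ := h.join a c (q.ac h)
  obtain ⟨ad, had1, had2⟩ := h.join a d (q.ad h)
  obtain ⟨bc, hbc1, hbc2⟩ := h.join b c (q.bc h)
  obtain ⟨bd, hbd1, hbd2⟩ := h.join b d (q.bd h)
  letI : Membership P L := ⟨fun l p => I p l⟩
  letI : Configuration.ProjectivePlane P L :=
    { exists_point := fun l => by
        by_contra hc
        push Not at hc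
        exact q.abc l ⟨hc a, hc b, hc c⟩
      exists_line := fun p => by
        by_contra hc
        push Not at hc
        have h1 : I p ab := hc ab
        have h2 : I p ac := hc ac
        have h3 : I p bc := hc bc
        rcases h.uniq h1 hab1 h2 hac1 with h4 | h4
        · subst h4
          exact q.abc bc ⟨h3, hbc1, hbc2⟩
        · subst h4
          exact q.abc ab ⟨hab1, hab2, hac2⟩
      eq_or_eq := fun h1 h2 h3 h4 => h.uniq h1 h2 h3 h4
      mkPoint := fun {l m} hlm => (h.meet l m hlm).choose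
      mkPoint_ax := fun {l m} hlm => (h.meet l m hlm).choose_spec
      mkLine := fun {p r} hpr => (h.join p r hpr).choose
      mkLine_ax := fun {p r} hpr => (h.join p r hpr).choose_spec
      exists_config := by
        refine ⟨a, b, c, ad, bc, bd, ?_, ?_, ?_, ?_, ?_, ?_, ?_, ?_⟩
        · exact fun h1 => q.abc bc ⟨h1, hbc1, hbc2⟩
        · exact fun h1 => q.abd bd ⟨h1, hbd1, hbd2⟩
        · exact fun h1 => q.abd ad ⟨had1, h1, had2⟩
        · exact hbc1
        · exact hbd1
        · exact fun h1 => q.acd ad ⟨had1, h1, had2⟩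
        · exact hbc2
        · exact fun h1 => q.bcd bd ⟨hbd1, h1, hbd2⟩ }
  exact ⟨_, ofMathlib⟩

/-! ### Collineations -/

/-- The collineation group. -/
def Coll (I : P → L → Prop) : Subgroup (Equiv.Perm P × Equiv.Perm L) where
  carrier := {g | ∀ p l, I (g.1 p) (g.2 l) ↔ I p l}
  one_mem' := fun p l => Iff.rfl
  mul_mem' := by
    intro g h hg hh p l
    show I (g.1 (h.1 p)) (g.2 (h.2 l)) ↔ _
    rw [hg, hh]
  inv_mem' := by
    intro g hg p l
    have := hg (g⁻¹.1 p) (g⁻¹.2 l)
    have h1 : g.1 (g⁻¹.1 p) = p := by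
      show (g.1 * g.1⁻¹) p = p
      simp
    have h2 : g.2 (g⁻¹.2 l) = l := by
      show (g.2 * g.2⁻¹) l = l
      simp
    rw [h1, h2] at this
    exact this.symm

instance : MulAction (Coll I) P where
  smul g p := g.1.1 p
  one_smul p := rfl
  mul_smul g h p := rfl

instance actL : MulAction (Coll I) L where
  smul g l := g.1.2 l
  one_smul p := rfl
  mul_smul g h p := rfl

theorem inc (g : Coll I) {p : P} {l : L} : I (g • p) (g • l) ↔ I p l := g.2 p l

theorem inc_inv (g : Coll I) {p : P} {l : L} : I (g⁻¹ • p) l ↔ I p (g • l) := by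
  rw [← inc g (p := g⁻¹ • p), smul_inv_smul]

theorem inc_fix {g : Coll I} {l : L} (hl : g • l = l) {p : P} : I (g • p) l ↔ I p l := by
  constructor
  · intro h1
    exact (inc g).1 (by rw [hl]; exact h1)
  · intro h1
    have := (inc g).2 h1
    rw [hl] at this; exact this

theorem inc_fix' {g : Coll I} {p : P} (hp : g • p = p) {l : L} : I p (g • l) ↔ I p l := by
  constructor
  · intro h1
    exact (inc g).1 (by rw [hp]; exact h1)
  · intro h1
    have := (inc g).2 h1
    rw [hp] at this; exact this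

theorem smul_of_two (h : Pl I) {g : Coll I} {p q : P} {l : L} (hpq : p ≠ q) (hp : g • p = p)
    (hq : g • q = q) (h1 : I p l) (h2 : I q l) : g • l = l := by
  have h3 : I p (g • l) := by rw [← hp]; exact (inc g).2 h1
  have h4 : I q (g • l) := by rw [← hq]; exact (inc g).2 h2
  exact (h.uniq h3 h4 h1 h2).resolve_left hpq

/-- the duality isomorphism -/
def du : Coll I ≃* Coll (Du I) where
  toFun g := ⟨(g.1.2, g.1.1), fun l p => g.2 p l⟩
  invFun g := ⟨(g.1.2, g.1.1), fun l p => g.2 p l⟩
  left_inv g := rfl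
  right_inv g := rfl
  map_mul' g h := rfl

theorem du_smulL (g : Coll I) (l : L) : (du g • l : L) = g • l := rfl
theorem du_smulP (g : Coll I) (p : P) : (du g • p : P) = g • p := rfl

theorem smul_of_two' (h : Pl I) {g : Coll I} {l m : L} {p : P} (hlm : l ≠ m) (hl : g • l = l)
    (hm : g • m = m) (h1 : I p l) (h2 : I p m) : g • p = p :=
  smul_of_two (I := Du I) h.dual (g := du g) hlm hl hm h1 h2

theorem PlN.exists_pt {n : ℕ} (h : PlN I n) (l : L) : ∃ p, I p l := by
  have h1 := h.line_card l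
  have : Nonempty {p // I p l} := by
    rw [← not_isEmpty_iff]; intro h2
    rw [Nat.card_of_isEmpty] at h1; omega
  obtain ⟨p, hp⟩ := this
  exact ⟨p, hp⟩

/-- a point on `l` avoiding two given points -/
theorem PlN.exists_pt2 {n : ℕ} (h : PlN I n) (l : L) (a b : P) : ∃ p, I p l ∧ p ≠ a ∧ p ≠ b := by
  classical
  haveI := h.finP
  haveI := Fintype.ofFinite P
  by_contra hc
  push Not at hc
  have h1 := h.line_card l
  have h2 := h.two_le
  have h3 : Nat.card {p // I p l} ≤ 2 := by
    rw [Nat.card_eq_fintype_card, Fintype.card_subtype]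
    refine (Finset.card_le_card (t := {a, b}) ?_).trans Finset.card_le_two
    intro p hp
    simp only [Finset.mem_filter, Finset.mem_univ, true_and] at hp
    simp only [Finset.mem_insert, Finset.mem_singleton]
    by_contra hc2
    push Not at hc2
    exact hc2.2 (hc p hp hc2.1)
  omega

theorem PlN.exists_line2 {n : ℕ} (h : PlN I n) (p : P) (a b : L) : ∃ l, I p l ∧ l ≠ a ∧ l ≠ b :=
  h.dual.exists_pt2 p a b

/-- a point off `l` -/
theorem PlN.exists_off {n : ℕ} (h : PlN I n) (l : L) : ∃ p, ¬ I p l := by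
  obtain ⟨p, hp⟩ := h.exists_pt l
  obtain ⟨m, hm, hml, -⟩ := h.exists_line2 p l l
  obtain ⟨q, hq, hqp, -⟩ := h.exists_pt2 m p p
  refine ⟨q, fun hql => ?_⟩
  rcases h.uniq hql hp hq hm with h1 | h1
  · exact hqp h1
  · exact hml h1.symm

theorem ext_of_pts {n : ℕ} (h : PlN I n) {g : Coll I} (hg : ∀ p : P, g • p = p) : g = 1 := by
  have h2 : ∀ l : L, g • l = l := by
    intro l
    obtain ⟨p, hp⟩ := h.exists_pt l
    obtain ⟨q, hq, hqp, -⟩ := h.exists_pt2 l p p
    exact smul_of_two h.toPl hqp (hg q) (hg p) hq hp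
  apply Subtype.ext
  apply Prod.ext
  · ext p; exact hg p
  · ext l; exact h2 l

theorem PlN.finColl {n : ℕ} (h : PlN I n) : Finite (Coll I) := by
  haveI := h.finP
  haveI := h.finL
  infer_instance

/-! ### number of fixed points = number of fixed lines -/

theorem card_flag {n : ℕ} (hJ : PlN I n) (k : Coll I) [Fintype P] :
    ∑ p : P, Nat.card {l : L // I p l ∧ I (k • p) l} =
      Nat.card P + n * Nat.card {p : P // k • p = p} := by
  classical
  have h1 : ∀ p : P, Nat.card {l : L // I p l ∧ I (k • p) l} =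
      1 + n * (if k • p = p then 1 else 0) := by
    intro p
    split_ifs with hp
    · have : ∀ l, (I p l ∧ I (k • p) l) ↔ I p l := by
        intro l; rw [hp]; tauto
      rw [Nat.card_congr (Equiv.subtypeEquivRight this), hJ.pt_card p]; ring
    · rw [mul_zero, add_zero, Nat.card_eq_one_iff_unique]
      obtain ⟨l, h1, h2⟩ := hJ.join p (k • p) (Ne.symm hp)
      refine ⟨⟨fun a b => ?_⟩, ⟨⟨l, h1, h2⟩⟩⟩
      apply Subtype.ext
      exact (hJ.uniq a.2.1 a.2.2 b.2.1 b.2.2).resolve_left (Ne.symm hp)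
  rw [Finset.sum_congr rfl (fun p _ => h1 p), Finset.sum_add_distrib, ← Finset.mul_sum,
    Finset.sum_boole]
  simp [Fintype.card_subtype]

theorem card_fix {n : ℕ} (h : PlN I n) (g : Coll I) :
    Nat.card {p : P // g • p = p} = Nat.card {l : L // g • l = l} := by
  classical
  haveI := h.finP
  haveI := h.finL
  haveI := Fintype.ofFinite P
  haveI := Fintype.ofFinite L
  have h1 := card_flag h g
  have h2 := card_flag h.dual (du g)
  have h3 : ∑ p : P, Nat.card {l : L // I p l ∧ I (g • p) l} =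
      ∑ l : L, Nat.card {p : P // Du I l p ∧ Du I (du g • l) p} := by
    have e1 : Nat.card {x : P × L // I x.1 x.2 ∧ I (g • x.1) x.2} =
        ∑ p : P, Nat.card {l : L // I p l ∧ I (g • p) l} := by
      rw [Nat.card_congr (Equiv.subtypeProdEquivSigmaSubtype
        (fun (p : P) (l : L) => I p l ∧ I (g • p) l)), Nat.card_sigma]
    have e2 : Nat.card {x : L × P // Du I x.1 x.2 ∧ Du I (du g • x.1) x.2} =
        ∑ l : L, Nat.card {p : P // Du I l p ∧ Du I (du g • l) p} := by
      rw [Nat.card_congr (Equiv.subtypeProdEquivSigmaSubtype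
        (fun (l : L) (p : P) => Du I l p ∧ Du I (du g • l) p)), Nat.card_sigma]
    rw [← e1, ← e2]
    refine Nat.card_congr ⟨fun x => ⟨(x.1.2, g • x.1.1), x.2.2, (inc g).2 x.2.1⟩,
      fun x => ⟨(g⁻¹ • x.1.2, x.1.1), (inc_inv g).2 x.2.2, ?_⟩, ?_, ?_⟩
    · show I (g • g⁻¹ • x.1.2) x.1.1
      rw [smul_inv_smul]; exact x.2.1
    · rintro ⟨⟨p, l⟩, hl⟩
      simp
    · rintro ⟨⟨l, p⟩, hp⟩
      simp
  have h4 : Nat.card P = Nat.card L := by rw [h.cardP, h.cardL]
  have h5 : n * Nat.card {p : P // g • p = p} = n * Nat.card {l : L // g • l = l} := by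
    have := h1.symm.trans (h3.trans h2)
    rw [h4] at this
    exact Nat.add_left_cancel this
  exact Nat.eq_of_mul_eq_mul_left (by have := h.two_le; omega) h5

end Cfsg.Agent.Lib.OW
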