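import Cfsg.Agent.Lib.OW8

/-! # Gleason's theorem -/

set_option autoImplicit false

namespace Cfsg.Agent.Lib.OW

open MulAction

universe u v

variable {P : Type u} {L : Type v} {I : P → L → Prop} {n : ℕ}

theorem line_eq (h : PlN I n) {x y : P} {l m : L} (hxy : x ≠ y) (h1 : I x l) (h2 : I y l)
    (h3 : I x m) (h4 : I y m) : l = m := (h.uniq h1 h2 h3 h4).resolve_left hxy

theorem pt_eq (h : PlN I n) {x y : P} {l m : L} (hlm : l ≠ m) (h1 : I x l) (h2 : I y l)
    (h3 : I x m) (h4 : I y m) : x = y := (h.uniq h1 h2 h3 h4).resolve_right hlm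

theorem flag_conj (h : PlN I n) (t2 : T2 I) {c c' : P} {a a' : L} (hc : I c a) (hc' : I c' a') :
    ∃ g : Coll I, g • c = c' ∧ g • a = a' := by
  obtain ⟨q, hq, hqc, -⟩ := h.exists_pt2 a c c
  obtain ⟨q', hq', hqc', -⟩ := h.exists_pt2 a' c' c'
  obtain ⟨g, hg1, hg2⟩ := t2 c q c' q' (Ne.symm hqc) (Ne.symm hqc')
  refine ⟨g, hg1, line_eq h (Ne.symm hqc') ?_ ?_ hc' hq'⟩
  · rw [← hg1]; exact (inc g).2 hc
  · rw [← hg2]; exact (inc g).2 hq

theorem per_card_le (h : PlN I n) (t2 : T2 I) {c c' : P} {a a' : L} (hc : I c a)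
    (hc' : I c' a') : Nat.card (Per I c a) ≤ Nat.card (Per I c' a') := by
  haveI := h.finColl
  obtain ⟨g, hg1, hg2⟩ := flag_conj h t2 hc hc'
  apply Nat.card_le_card_of_injective (fun x : Per I c a => (⟨g * x.1 * g⁻¹, by
    have h1 := x.2.1.conj g
    have h2 := x.2.2.conj g
    rw [hg2] at h1
    rw [hg1] at h2
    exact ⟨h1, h2⟩⟩ : Per I c' a'))
  intro x y hxy
  have h1 : g * x.1 * g⁻¹ = g * y.1 * g⁻¹ := congrArg Subtype.val hxy
  exact Subtype.ext (mul_left_cancel (mul_right_cancel h1))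

/-- semiregular action -/
theorem semireg {G X : Type*} [Group G] [MulAction G X] [Finite X] [Finite G] (H : Subgroup G)
    (S : X → Prop) (hS : ∀ g ∈ H, ∀ x, S x → S (g • x))
    (hfree : ∀ g ∈ H, ∀ x, S x → g • x = x → g = 1) : Nat.card H ∣ Nat.card {x // S x} := by
  let Y : SubMulAction H X :=
    { carrier := {x | S x}
      smul_mem' := fun g x hx => hS g.1 g.2 x hx }
  haveI : Finite Y := Subtype.finite
  have h1 : Nat.card H ∣ Nat.card Y := by
    apply dvd_card_of_orbits (G := H)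
    intro y
    have h2 := Nat.card_congr (MulAction.orbitProdStabilizerEquivGroup H y)
    rw [Nat.card_prod] at h2
    have h3 : stabilizer H y = ⊥ := by
      rw [eq_bot_iff]
      intro g hg
      have h4 : g • y = y := hg
      have h5 : (g : G) • (y : X) = y := congrArg Subtype.val h4
      exact Subtype.ext (hfree g.1 g.2 y.1 y.2 h5)
    rw [h3, Subgroup.card_bot, mul_one] at h2
    rw [h2]
  exact h1

theorem semireg_trans {G X : Type*} [Group G] [MulAction G X] [Finite X] [Finite G]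
    (H : Subgroup G)
    (S : X → Prop) (hS : ∀ g ∈ H, ∀ x, S x → S (g • x))
    (hfree : ∀ g ∈ H, ∀ x, S x → g • x = x → g = 1) (hc : Nat.card H = Nat.card {x // S x})
    {x y : X} (hx : S x) (hy : S y) : ∃ g ∈ H, g • x = y := by
  have hinj : Function.Injective (fun g : H => (⟨g.1 • x, hS g.1 g.2 x hx⟩ : {x // S x})) := by
    intro a b hab
    have h1 : a.1 • x = b.1 • x := congrArg Subtype.val hab
    have h2 : (b.1⁻¹ * a.1) • x = x := by rw [mul_smul, h1, inv_smul_smul]
    have h3 := hfree _ (H.mul_mem (H.inv_mem b.2) a.2) x hx h2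
    rw [inv_mul_eq_one] at h3
    exact Subtype.ext h3.symm
  have hb := (Nat.bijective_iff_injective_and_card _).2 ⟨hinj, hc⟩
  obtain ⟨g, hg⟩ := hb.2 ⟨y, hy⟩
  exact ⟨g.1, g.2, congrArg Subtype.val hg⟩

theorem per_stab (h : PlN I n) {c : P} {a l : L} (hcl : I c l) {g : Coll I}
    (hg : g ∈ Per I c a) {x : P} (hx : I x l ∧ x ≠ c) : I (g • x) l ∧ g • x ≠ c := by
  refine ⟨hg.2.img h hx.1 hcl, fun h1 => hx.2 ?_⟩
  have h2 : g • c = c := hg.2.fixP h
  rw [← h2] at h1
  exact smul_left_cancel g h1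

theorem per_free (h : PlN I n) {c : P} {a l : L} (hca : I c a) (hcl : I c l) (hla : l ≠ a)
    {g : Coll I} (hg : g ∈ Per I c a) {x : P} (hx : I x l ∧ x ≠ c) (hgx : g • x = x) : g = 1 :=
  axce h hg.1 hg.2 hgx (fun h1 => hla (line_eq h hx.2 hx.1 hcl h1 hca)) hx.2

/-- all elation groups have order `n` -/
def Mf (I : P → L → Prop) (n : ℕ) : Prop := ∀ c a, I c a → Nat.card (Per I c a) = n

theorem card_punct {G : Type*} [Group G] [Finite G] (H : Subgroup G) :
    Nat.card {g : G // g ∈ H ∧ g ≠ 1} + 1 = Nat.card H := by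
  classical
  haveI := Fintype.ofFinite G
  rw [Nat.card_eq_fintype_card, Fintype.card_subtype]
  have h1 : Nat.card H = (Finset.univ.filter fun g : G => g ∈ H).card := by
    have : Nat.card H = Nat.card {g // g ∈ H} := rfl
    rw [this, Nat.card_eq_fintype_card, Fintype.card_subtype]
  rw [h1]
  have h2 : (Finset.univ.filter fun g : G => g ∈ H) =
      insert 1 (Finset.univ.filter fun g : G => g ∈ H ∧ g ≠ 1) := by
    ext g
    simp only [Finset.mem_filter, Finset.mem_univ, true_and, Finset.mem_insert]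
    constructor
    · intro h3
      by_cases h4 : g = 1
      · exact Or.inl h4
      · exact Or.inr ⟨h3, h4⟩
    · rintro (rfl | h3)
      · exact H.one_mem
      · exact h3.1
  rw [h2, Finset.card_insert_of_notMem (by simp)]

theorem gleason (h : PlN I n) (t2 : T2 I) (he : HasEl I) : Mf I n := by
  classical
  haveI := h.finP
  haveI := h.finL
  haveI := h.finColl
  haveI := Fintype.ofFinite P
  intro c a hca
  set k := Nat.card (Per I c a) with hk
  have hkall : ∀ c' a', I c' a' → Nat.card (Per I c' a') = k := fun c' a' h1 =>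
    le_antisymm (per_card_le h t2 h1 hca) (per_card_le h t2 hca h1)
  -- k > 1
  obtain ⟨g0, c0, a0, hg0, hca0, hg1, hg2⟩ := he
  have hk2 : 2 ≤ k := by
    rw [← hkall c0 a0 hca0]
    by_contra h1
    have h2 : Nat.card (Per I c0 a0) = 1 := by
      have : 0 < Nat.card (Per I c0 a0) := Nat.card_pos
      omega
    rw [Subgroup.card_eq_one] at h2
    have h3 : g0 ∈ Per I c0 a0 := ⟨hg1, hg2⟩
    rw [h2, Subgroup.mem_bot] at h3
    exact hg0 h3
  -- k divides n
  obtain ⟨l, hcl, hla, -⟩ := h.exists_line2 c a a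
  have hkn : k ∣ n := by
    have := semireg (Per I c a) (fun x => I x l ∧ x ≠ c) (fun g hg x hx => per_stab h hcl hg hx)
      (fun g hg x hx hgx => per_free h hca hcl hla hg hx hgx)
    rwa [line_card' h hcl] at this
  -- the elation group
  have hE : Nat.card (EA h a) ∣ n ^ 2 := by
    have := semireg (EA h a) (fun x => ¬ I x a)
      (fun g hg x hx h1 => hx ((inc_fix (hg.1.fixL h)).1 h1))
      (fun g hg x hx hgx => hg.2 x hx hgx)
    have h2 : Nat.card {x // ¬ I x a} = n ^ 2 := card_off (I := Du I) h.dual a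
    rwa [h2] at this
  have hEc : Nat.card (EA h a) = (n + 1) * (k - 1) + 1 := by
    rw [← card_punct (EA h a)]
    congr 1
    have h1 : Nat.card (Σ c : {c // I c a}, {g : Coll I // g ∈ Per I c.1 a ∧ g ≠ 1}) =
        (n + 1) * (k - 1) := by
      haveI : Fintype {c // I c a} := Fintype.ofFinite _
      rw [Nat.card_sigma]
      have h2 : ∀ c : {c // I c a}, Nat.card {g : Coll I // g ∈ Per I c.1 a ∧ g ≠ 1} = k - 1 := by
        intro c
        have := card_punct (Per I c.1 a)
        rw [hkall c.1 a c.2] at this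
        omega
      rw [Finset.sum_congr rfl (fun c _ => h2 c), Finset.sum_const, smul_eq_mul,
        Finset.card_univ, ← Nat.card_eq_fintype_card, h.line_card a]
    rw [← h1]
    symm
    apply Nat.card_congr
    refine Equiv.ofBijective (fun x => ⟨x.2.1, mem_EA.2 (isEA_of h x.2.2.1.1 x.2.2.1.2 x.1.2),
      x.2.2.2⟩) ⟨?_, ?_⟩
    · rintro ⟨⟨c, hc⟩, g, hg⟩ ⟨⟨d, hd⟩, k, hk⟩ hxy
      have h3 : g = k := congrArg Subtype.val hxy
      subst h3
      have h4 : c = d := by
        by_contra h5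
        exact hg.2 (ce_unique h hg.1.2 hk.1.2 h5)
      subst h4
      rfl
    · rintro ⟨g, hg, hg1⟩
      obtain ⟨d, hda, hd⟩ := IsEA.exists_ce h hg
      exact ⟨⟨⟨d, hda⟩, g, ⟨hg.1, hd⟩, hg1⟩, rfl⟩
  rw [hEc] at hE
  -- arithmetic
  obtain ⟨m, hm⟩ := hkn
  obtain ⟨j, hj⟩ : ∃ j, k = j + 1 := ⟨k - 1, by omega⟩
  have hj1 : 1 ≤ j := by omega
  have e1 : (n + 1) * (k - 1) + 1 = k * (m * j + 1) := by
    rw [hm, hj]
    simp only [Nat.add_sub_cancel]
    ring
  have e2 : n ^ 2 = k * (k * m * m) := by rw [hm]; ring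
  rw [e1, e2] at hE
  have h3 := Nat.dvd_of_mul_dvd_mul_left (by omega) hE
  have h4 : Nat.Coprime (m * j + 1) m := by
    rw [mul_comm m j, Nat.coprime_mul_right_add_left]
    exact Nat.coprime_one_left m
  have h5 : m * j + 1 ∣ k := h4.dvd_of_dvd_mul_right (h4.dvd_of_dvd_mul_right h3)
  have h6 := Nat.le_of_dvd (by omega) h5
  have hm0 : m ≠ 0 := by
    rintro rfl
    rw [mul_zero] at hm
    have := h.two_le
    omega
  have h7 : m = 1 := by
    by_contra h8
    have h9 : 2 ≤ m := by omega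
    nlinarith
  rw [h7, mul_one] at hm
  exact hm.symm

theorem mf_trans (h : PlN I n) (mf : Mf I n) {c x y : P} {a l : L} (hca : I c a) (hcl : I c l)
    (hla : l ≠ a) (hx : I x l) (hxc : x ≠ c) (hy : I y l) (hyc : y ≠ c) :
    ∃ g ∈ Per I c a, g • x = y := by
  haveI := h.finP
  haveI := h.finColl
  exact semireg_trans (Per I c a) (fun x => I x l ∧ x ≠ c) (fun g hg x hx => per_stab h hcl hg hx)
      (fun g hg x hx hgx => per_free h hca hcl hla hg hx hgx)
      (by rw [mf c a hca, line_card' h hcl]) ⟨hx, hxc⟩ ⟨hy, hyc⟩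

theorem mf_ne (h : PlN I n) (mf : Mf I n) {c : P} {a : L} (hca : I c a) :
    ∃ g ∈ Per I c a, g ≠ 1 := by
  haveI := h.finColl
  by_contra h1
  push Not at h1
  have h2 : Per I c a = ⊥ := by
    rw [eq_bot_iff]
    intro g hg
    exact Subgroup.mem_bot.2 (h1 g hg)
  have h3 := mf c a hca
  rw [h2, Subgroup.card_bot] at h3
  have := h.two_le
  omega

theorem el_comm' (h : PlN I n) {g k : Coll I} {c : P} (hg : IsEC g c) (hk : IsEC k c) {a b : L}
    (hC : Ax g a) (hD : Ax k b) (hab : a ≠ b) : g * k = k * g := by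
  have := el_comm (I := Du I) h.dual (isEC_iff.1 hg) (isEC_iff.1 hk) hC hD hab
  rw [← map_mul, ← map_mul] at this
  exact du.injective this

/-- the group of elations with a given axis is abelian -/
theorem EA_comm (h : PlN I n) (mf : Mf I n) {g k : Coll I} {a : L} (hg : IsEA g a)
    (hk : IsEA k a) : g * k = k * g := by
  by_cases hg1 : g = 1
  · rw [hg1, one_mul, mul_one]
  by_cases hk1 : k = 1
  · rw [hk1, one_mul, mul_one]
  obtain ⟨c, hca, hc⟩ := hg.exists_ce h
  obtain ⟨d, hda, hd⟩ := hk.exists_ce h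
  by_cases hcd : c = d
  · subst hcd
    obtain ⟨e, hea, hec, -⟩ := h.exists_pt2 a c c
    obtain ⟨f, hf, hf1⟩ := mf_ne h mf hea
    have hfE : IsEA f a := isEA_of h hf.1 hf.2 hea
    have e1 : g * f = f * g := el_comm h hg hfE hc hf.2 (Ne.symm hec)
    -- f * k has centre different from c
    have hfk : IsEA (f * k) a := hfE.mul h hk
    obtain ⟨m, hma, hm⟩ := hfk.exists_ce h
    have hmc : c ≠ m := by
      rintro rfl
      have h2 : Ce f c := by
        have := hm.mul hd.inv
        rwa [mul_inv_cancel_right] at this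
      exact hf1 (ce_unique h h2 hf.2 (Ne.symm hec))
    have e2 : g * (f * k) = f * k * g := el_comm h hg hfk hc hm hmc
    have e3 : f * (g * k) = f * (k * g) := by
      calc f * (g * k) = (f * g) * k := (mul_assoc _ _ _).symm
        _ = g * f * k := by rw [e1]
        _ = g * (f * k) := mul_assoc _ _ _
        _ = f * k * g := e2
        _ = f * (k * g) := mul_assoc _ _ _
    exact mul_left_cancel e3
  · exact el_comm h hg hk hc hd hcd

theorem EA_exp (h : PlN I n) (mf : Mf I n) (a : L) :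
    ∃ p : ℕ, p.Prime ∧ ∀ k : Coll I, IsEA k a → k ^ p = 1 := by
  obtain ⟨c, hc⟩ := h.exists_pt a
  obtain ⟨d, hd, hdc, -⟩ := h.exists_pt2 a c c
  obtain ⟨f, hf, hf1⟩ := mf_ne h mf hc
  obtain ⟨g, hg, hg1⟩ := mf_ne h mf hd
  exact el_exp h (isEA_of h hf.1 hf.2 hc) (isEA_of h hg.1 hg.2 hd) hf.2 hg.2 (Ne.symm hdc) hf1 hg1

end Cfsg.Agent.Lib.OW
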