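import Cfsg.Agent.Lib.OW11

/-! # Coordinates: commutator maps -/

set_option autoImplicit false

namespace Cfsg.Agent.Lib.OW

open MulAction

universe u v

variable {P : Type u} {L : Type v} {I : P → L → Prop} {n : ℕ}

/-- a coordinate frame -/
structure Frame (I : P → L → Prop) (O C D : P) (A lx ly : L) : Prop where
  CA : I C A
  DA : I D A
  CD : C ≠ D
  OA : ¬ I O A
  Ox : I O lx
  Cx : I C lx
  Oy : I O ly
  Dy : I D ly

section frame

variable {O C D : P} {A lx ly : L}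

theorem Frame.symm (fr : Frame I O C D A lx ly) : Frame I O D C A ly lx where
  CA := fr.DA
  DA := fr.CA
  CD := fr.CD.symm
  OA := fr.OA
  Ox := fr.Oy
  Cx := fr.Dy
  Oy := fr.Ox
  Dy := fr.Cx

theorem Frame.xA (fr : Frame I O C D A lx ly) : lx ≠ A := by
  rintro rfl; exact fr.OA fr.Ox

theorem Frame.yA (fr : Frame I O C D A lx ly) : ly ≠ A := fr.symm.xA

theorem Frame.Dx (fr : Frame I O C D A lx ly) (h : PlN I n) : ¬ I D lx := fun h1 =>
  fr.xA (line_eq h fr.CD fr.Cx h1 fr.CA fr.DA)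

theorem Frame.Cy (fr : Frame I O C D A lx ly) (h : PlN I n) : ¬ I C ly := fr.symm.Dx h

theorem Frame.xy (fr : Frame I O C D A lx ly) (h : PlN I n) : lx ≠ ly := by
  rintro rfl; exact fr.Dx h fr.Dy

theorem Frame.OC (fr : Frame I O C D A lx ly) : O ≠ C := by
  rintro rfl; exact fr.OA fr.CA

theorem Frame.OD (fr : Frame I O C D A lx ly) : O ≠ D := fr.symm.OC

theorem exists_frame (h : PlN I n) : ∃ (O C D : P) (A lx ly : L), Frame I O C D A lx ly := by
  have hne : Nonempty P := by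
    rw [← not_isEmpty_iff]; intro h1
    have := h.cardP
    rw [Nat.card_of_isEmpty] at this
    omega
  obtain ⟨C⟩ := hne
  obtain ⟨A, hA⟩ := h.dual.exists_pt C
  obtain ⟨D, hD, hDC, -⟩ := h.exists_pt2 A C C
  obtain ⟨O, hO⟩ := h.exists_off A
  obtain ⟨lx, h1, h2⟩ := h.join O C (by rintro rfl; exact hO hA)
  obtain ⟨ly, h3, h4⟩ := h.join O D (by rintro rfl; exact hO hD)
  exact ⟨O, C, D, A, lx, ly, hA, hD, hDC.symm, hO, h1, h2, h3, h4⟩

/-- the commutator map -/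
def Psi (e v : Coll I) : Coll I := v⁻¹ * (e * v * e⁻¹)

variable (h : PlN I n) (mf : Mf I n) (fr : Frame I O C D A lx ly)

theorem per_EA (h : PlN I n) {c : P} {a : L} (hca : I c a) {g : Coll I} (hg : g ∈ Per I c a) :
    IsEA g a := isEA_of h hg.1 hg.2 hca

theorem per_fix {c : P} {a : L} {g : Coll I} (hg : g ∈ Per I c a) {x : P}
    (hx : I x a) : g • x = x := hg.1 x hx

theorem per_eq_one (h : PlN I n) {c d : P} {a : L} {g : Coll I} (hg : g ∈ Per I c a)
    (hg' : g ∈ Per I d a) (hcd : c ≠ d) : g = 1 := ce_unique h hg.2 hg'.2 hcd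

include h fr

/-- `E` centralizes `W` -/
theorem cent {e w : Coll I} (he : e ∈ Per I D ly) (hw : w ∈ Per I D A) : e * w = w * e :=
  el_comm' h (isEC_of h he.1 he.2 fr.Dy) (isEC_of h hw.1 hw.2 fr.DA) he.1 hw.1 fr.yA

theorem conjEA {e v : Coll I} (he : e ∈ Per I D ly) (hv : IsEA v A) :
    IsEA (e * v * e⁻¹) A := by
  have h1 := hv.conj e
  rwa [he.2 A fr.DA] at h1

theorem psi_mem {e v : Coll I} (he : e ∈ Per I D ly) (hv : v ∈ Per I C A) :
    Psi e v ∈ Per I D A := by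
  have hvE := per_EA h fr.CA hv
  have h1 : IsEA (Psi e v) A := hvE.inv.mul h (conjEA h fr he hvE)
  refine ⟨h1.1, ?_⟩
  have h2 : Psi e v = (v⁻¹ * e * v⁻¹⁻¹) * e⁻¹ := by
    unfold Psi; group
  rw [h2]
  have h3 := he.2.conj v⁻¹
  have h4 : v⁻¹ • D = D := per_fix ((Per I C A).inv_mem hv) fr.DA
  rw [h4] at h3
  exact h3.mul he.2.inv

include mf

theorem psi_mul {e v v' : Coll I} (he : e ∈ Per I D ly) (hv : v ∈ Per I C A)
    (hv' : v' ∈ Per I C A) : Psi e (v * v') = Psi e v * Psi e v' := by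
  have h1 : Psi e (v * v') = v'⁻¹ * Psi e v * (e * v' * e⁻¹) := by
    unfold Psi; group
  have h2 : v'⁻¹ * Psi e v = Psi e v * v'⁻¹ :=
    EA_comm h mf (per_EA h fr.CA hv').inv (per_EA h fr.DA (psi_mem h fr he hv))
  rw [h1, h2, mul_assoc]
  rfl

omit mf in
theorem psi_mul' {e f v : Coll I} (he : e ∈ Per I D ly) (hf : f ∈ Per I D ly)
    (hv : v ∈ Per I C A) : Psi (e * f) v = Psi e v * Psi f v := by
  have h1 : Psi (e * f) v = Psi e v * (e * Psi f v * e⁻¹) := by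
    unfold Psi; group
  rw [h1, cent h fr he (psi_mem h fr hf hv), mul_inv_cancel_right]

omit mf fr h in
theorem psi_one (v : Coll I) : Psi 1 v = 1 := by unfold Psi; group

omit mf fr h in
theorem psi_one' (e : Coll I) : Psi e 1 = 1 := by unfold Psi; group

omit mf in
theorem psi_inj {e v : Coll I} (he : e ∈ Per I D ly) (hv : v ∈ Per I C A) (he1 : e ≠ 1)
    (hpsi : Psi e v = 1) : v = 1 := by
  have h1 : v * e * v⁻¹ = e := by
    unfold Psi at hpsi
    rw [inv_mul_eq_one] at hpsi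
    -- v = e v e⁻¹
    have : v * e = e * v := by
      calc v * e = (e * v * e⁻¹) * e := by rw [← hpsi]
        _ = e * v := by group
    rw [this, mul_inv_cancel_right]
  have h2 : Ax (v * e * v⁻¹) (v • ly) := he.1.conj v
  rw [h1] at h2
  have h3 : v • ly = ly := by
    by_contra h4
    exact he1 (ax_unique h he.1 h2 (Ne.symm h4))
  have h4 : v • lx = lx := hv.2 lx fr.Cx
  have h5 : v • O = O := smul_of_two' h.toPl (fr.xy h) h4 h3 fr.Ox fr.Oy
  exact (per_EA h fr.CA hv).2 O fr.OA h5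

omit mf in
/-- slopes: `e • C` determines `e` -/
theorem slope_inj {e f : Coll I} (he : e ∈ Per I D ly) (hf : f ∈ Per I D ly)
    (hef : e • C = f • C) : e = f := by
  have h1 : (f⁻¹ * e) • C = C := by rw [mul_smul, hef, inv_smul_smul]
  have h2 := (Per I D ly).mul_mem ((Per I D ly).inv_mem hf) he
  have h3 := axce h h2.1 h2.2 h1 (fr.Cy h) fr.CD
  rw [inv_mul_eq_one] at h3
  exact h3.symm

omit mf in
theorem slope_A {e : Coll I} (he : e ∈ Per I D ly) : I (e • C) A :=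
  (inc_fix (he.2 A fr.DA)).2 fr.CA

omit mf in
theorem slope_ne {e : Coll I} (he : e ∈ Per I D ly) : e • C ≠ D := by
  intro h1
  have h2 : e • D = D := he.2.fixP h
  rw [← h2] at h1
  exact fr.CD (smul_left_cancel e h1)

theorem slope_surj {c : P} (hc : I c A) (hcD : c ≠ D) : ∃ e ∈ Per I D ly, e • C = c :=
  mf_trans h mf fr.Dy fr.DA fr.yA.symm fr.CA fr.CD hc hcD

/-- the two commutator maps are inverse to each other -/
theorem psi_psi {e e' v : Coll I} (he : e ∈ Per I D ly) (he' : e' ∈ Per I C lx)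
    (hee : e • C = e' • D) (hne : e ≠ 1) (hv : v ∈ Per I C A) : Psi e' (Psi e v) = v := by
  have hw := psi_mem h fr he hv
  set w := Psi e v with hwd
  have hv' := psi_mem h fr.symm he' hw
  set v' := Psi e' w with hvd
  have e1 : v * w = e * v * e⁻¹ := by rw [hwd]; unfold Psi; group
  have e2 : w * v' = e' * w * e'⁻¹ := by rw [hvd]; unfold Psi; group
  have c1 : Ce (v * w) (e • C) := by rw [e1]; exact hv.2.conj e
  have c2 : Ce (w * v') (e • C) := by rw [e2, hee]; exact hw.2.conj e'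
  have hvw : v * w = w * v := EA_comm h mf (per_EA h fr.CA hv) (per_EA h fr.DA hw)
  have c3 : Ce (v'⁻¹ * v) (e • C) := by
    have h1 : v'⁻¹ * v = (w * v')⁻¹ * (v * w) := by rw [hvw]; group
    rw [h1]
    exact c2.inv.mul c1
  have c4 : Ce (v'⁻¹ * v) C := (hv'.2.inv).mul hv.2
  have h2 : e • C ≠ C := by
    intro h3
    exact hne (axce h he.1 he.2 h3 (fr.Cy h) fr.CD)
  have h3 := ce_unique h c3 c4 h2
  rw [inv_mul_eq_one] at h3
  exact h3

/-! ### incidence -/

omit mf in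
theorem trans_x {v : Coll I} (hv : v ∈ Per I C A) (hvx : I (v • O) ly) : v = 1 := by
  have h1 : I (v • O) lx := hv.2.img h fr.Ox fr.Cx
  have h2 : v • O = O := pt_eq h (fr.xy h) h1 fr.Ox hvx fr.Oy
  exact (per_EA h fr.CA hv).2 O fr.OA h2

omit mf in
theorem e_O {e : Coll I} (he : e ∈ Per I D ly) : e • O = O := he.1 O fr.Oy

theorem inc_pt_ln {v w b e : Coll I} (hv : v ∈ Per I C A) (hw : w ∈ Per I D A)
    (hb : b ∈ Per I D A) (he : e ∈ Per I D ly) :
    I ((v * w) • O) ((b * e) • lx) ↔ w = b * Psi e v := by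
  have e1 : I ((v * w) • O) ((b * e) • lx) ↔ I (((b * e)⁻¹ * (v * w) * e) • O) lx := by
    rw [mul_smul _ e O, e_O h fr he, mul_smul (b * e)⁻¹ (v * w) O, inc_inv (I := I)]
  have hbi := (Per I D A).inv_mem hb
  have hei := (Per I D ly).inv_mem he
  have hcm : ∀ g k : Coll I, IsEA g A → IsEA k A → g * k = k * g := fun g k => EA_comm h mf
  have hvE := per_EA h fr.CA hv
  have hwE := per_EA h fr.DA hw
  have hbE := per_EA h fr.DA hbi
  set z := (Psi e v)⁻¹ * (b⁻¹ * w) with hz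
  have hzm : z ∈ Per I D A := (Per I D A).mul_mem ((Per I D A).inv_mem (psi_mem h fr he hv))
    ((Per I D A).mul_mem hbi hw)
  have e2 : (b * e)⁻¹ * (v * w) * e = v * z := by
    have h1 : (b * e)⁻¹ * (v * w) * e = e⁻¹ * (b⁻¹ * v) * w * e := by group
    have h2 : b⁻¹ * v = v * b⁻¹ := hcm _ _ hbE hvE
    have h3 : e⁻¹ * (v * b⁻¹) * w * e = (e⁻¹ * v) * ((b⁻¹ * w) * e) := by group
    have h4 : (b⁻¹ * w) * e = e * (b⁻¹ * w) :=
      (cent h fr he ((Per I D A).mul_mem hbi hw)).symm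
    have h5 : (e⁻¹ * v) * (e * (b⁻¹ * w)) = v * Psi e⁻¹ v * (b⁻¹ * w) := by
      unfold Psi; group
    have h6 : Psi e⁻¹ v = (Psi e v)⁻¹ := by
      have := psi_mul' h fr he hei hv
      rw [mul_inv_cancel, psi_one] at this
      exact (inv_eq_of_mul_eq_one_right this.symm).symm
    rw [h1, h2, h3, h4, h5, h6, hz, mul_assoc]
  rw [e1, e2]
  constructor
  · intro h1
    have h2 : I (z • O) lx := by
      rw [mul_smul] at h1
      exact (inc_fix (hv.2 lx fr.Cx)).1 h1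
    have h3 : z = 1 := trans_x h fr.symm hzm h2
    rw [hz, inv_mul_eq_one] at h3
    have h4 : w = b * Psi e v := by
      rw [h3]; group
    exact h4
  · intro h1
    have h3 : z = 1 := by
      rw [hz, inv_mul_eq_one, h1]; group
    rw [h3, mul_one]
    exact hv.2.img h fr.Ox fr.Cx

theorem inc_pt_vl {v w a : Coll I} (hv : v ∈ Per I C A) (hw : w ∈ Per I D A)
    (ha : a ∈ Per I C A) : I ((v * w) • O) (a • ly) ↔ v = a := by
  have hcm : ∀ g k : Coll I, IsEA g A → IsEA k A → g * k = k * g := fun g k => EA_comm h mf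
  have hai := (Per I C A).inv_mem ha
  have e1 : I ((v * w) • O) (a • ly) ↔ I ((a⁻¹ * (v * w)) • O) ly := by
    rw [mul_smul a⁻¹ (v * w) O, inc_inv (I := I)]
  have e2 : a⁻¹ * (v * w) = w * (a⁻¹ * v) := by
    rw [← mul_assoc]
    exact hcm _ _ (per_EA h fr.CA ((Per I C A).mul_mem hai hv)) (per_EA h fr.DA hw)
  rw [e1, e2, mul_smul, inc_fix (hw.2 ly fr.Dy)]
  constructor
  · intro h1
    have h2 := trans_x h fr ((Per I C A).mul_mem hai hv) h1
    rw [inv_mul_eq_one] at h2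
    exact h2.symm
  · rintro rfl
    rw [inv_mul_cancel, one_smul]
    exact fr.Oy

theorem inc_pt_A {v w : Coll I} (hv : v ∈ Per I C A) (hw : w ∈ Per I D A) :
    ¬ I ((v * w) • O) A := by
  have h1 : IsEA (v * w) A := (per_EA h fr.CA hv).mul h (per_EA h fr.DA hw)
  rw [inc_fix (h1.1.fixL h)]
  exact fr.OA

omit mf in
theorem inc_cm_ln {e f b : Coll I} (he : e ∈ Per I D ly) (hf : f ∈ Per I D ly)
    (hb : b ∈ Per I D A) : I (e • C) ((b * f) • lx) ↔ e = f := by
  have hec : b⁻¹ • (e • C) = e • C := per_fix ((Per I D A).inv_mem hb) (slope_A h fr he)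
  have e1 : I (e • C) ((b * f) • lx) ↔ I ((f⁻¹ * e) • C) lx := by
    rw [mul_smul, mul_smul, ← inc_inv (I := I) b, hec, inc_inv (I := I)]
  rw [e1]
  constructor
  · intro h1
    have h2 := slope_A h fr ((Per I D ly).mul_mem ((Per I D ly).inv_mem hf) he)
    have h3 : (f⁻¹ * e) • C = C := pt_eq h fr.xA h1 fr.Cx h2 fr.CA
    apply slope_inj h fr he hf
    rw [mul_smul, inv_smul_eq_iff] at h3
    exact h3
  · rintro rfl
    rw [inv_mul_cancel, one_smul]
    exact fr.Cx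

omit mf in
theorem inc_cm_vl {e a : Coll I} (he : e ∈ Per I D ly) (ha : a ∈ Per I C A) :
    ¬ I (e • C) (a • ly) := by
  have hec : a⁻¹ • (e • C) = e • C := per_fix ((Per I C A).inv_mem ha) (slope_A h fr he)
  rw [← inc_inv (I := I) a, hec]
  intro h1
  have h2 : I C ly := (inc_fix (he.1.fixL h)).1 h1
  exact fr.Cy h h2

omit mf in
theorem inc_D_ln {e b : Coll I} (he : e ∈ Per I D ly) (hb : b ∈ Per I D A) :
    ¬ I D ((b * e) • lx) := by
  have h1 : (b * e)⁻¹ • D = D := by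
    rw [inv_smul_eq_iff, mul_smul, he.2.fixP h, hb.2.fixP h]
  rw [← inc_inv (I := I), h1]
  exact fr.Dx h

omit mf h in
theorem inc_D_vl {a : Coll I} (ha : a ∈ Per I C A) : I D (a • ly) := by
  rw [inc_fix' (per_fix ha fr.DA)]
  exact fr.Dy

theorem pt_surj {p : P} (hp : ¬ I p A) : ∃ v ∈ Per I C A, ∃ w ∈ Per I D A, p = (v * w) • O := by
  have hpD : p ≠ D := by rintro rfl; exact hp fr.DA
  obtain ⟨m, hm1, hm2⟩ := h.join p D hpD
  have hmx : m ≠ lx := by rintro rfl; exact fr.Dx h hm2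
  have hmA : m ≠ A := by rintro rfl; exact hp hm1
  obtain ⟨X, hX1, hX2⟩ := h.meet m lx hmx
  have hXC : X ≠ C := by
    rintro rfl
    exact hmA (line_eq h fr.CD hX1 hm2 fr.CA fr.DA)
  obtain ⟨v, hv, hvO⟩ := mf_trans h mf fr.CA fr.Cx fr.xA fr.Ox fr.OC hX2 hXC
  have hXD : X ≠ D := by rintro rfl; exact fr.Dx h hX2
  obtain ⟨w, hw, hwX⟩ := mf_trans h mf fr.DA hm2 hmA hX1 hXD hm1 hpD
  refine ⟨v, hv, w, hw, ?_⟩
  rw [EA_comm h mf (per_EA h fr.CA hv) (per_EA h fr.DA hw), mul_smul, hvO, hwX]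

theorem ln_surj {l : L} (hl : ¬ I D l) : ∃ b ∈ Per I D A, ∃ e ∈ Per I D ly,
    l = (b * e) • lx := by
  have hlA : l ≠ A := by rintro rfl; exact hl fr.DA
  obtain ⟨c, hc1, hc2⟩ := h.meet l A hlA
  have hcD : c ≠ D := by rintro rfl; exact hl hc1
  obtain ⟨e, he, heC⟩ := slope_surj h mf fr hc2 hcD
  have hly : l ≠ ly := by rintro rfl; exact hl fr.Dy
  obtain ⟨Y, hY1, hY2⟩ := h.meet l ly hly
  have hYD : Y ≠ D := by rintro rfl; exact hl hY1
  obtain ⟨b, hb, hbO⟩ := mf_trans h mf fr.DA fr.Dy fr.yA fr.Oy fr.OD hY2 hYD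
  refine ⟨b, hb, e, he, ?_⟩
  have hYc : Y ≠ c := by
    rintro rfl
    exact fr.yA (line_eq h hYD hY2 fr.Dy hc2 fr.DA)
  refine line_eq h hYc hY1 hc1 ?_ ?_
  · have : Y = (b * e) • O := by rw [mul_smul, e_O h fr he, hbO]
    rw [this]; exact (inc _).2 fr.Ox
  · have : c = (b * e) • C := by rw [mul_smul, heC, per_fix hb hc2]
    rw [this]; exact (inc _).2 fr.Cx

theorem vl_surj {l : L} (hl : I D l) (hlA : l ≠ A) : ∃ a ∈ Per I C A, l = a • ly := by
  have hlx : l ≠ lx := by rintro rfl; exact fr.Dx h hl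
  obtain ⟨X, hX1, hX2⟩ := h.meet l lx hlx
  have hXC : X ≠ C := by
    rintro rfl
    exact hlA (line_eq h fr.CD hX1 hl fr.CA fr.DA)
  obtain ⟨a, ha, haO⟩ := mf_trans h mf fr.CA fr.Cx fr.xA fr.Ox fr.OC hX2 hXC
  refine ⟨a, ha, ?_⟩
  have hXD : X ≠ D := by rintro rfl; exact fr.Dx h hX2
  refine line_eq h hXD hX1 hl ?_ (inc_D_vl fr ha)
  rw [← haO]; exact (inc _).2 fr.Oy

end frame

end Cfsg.Agent.Lib.OW
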