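import Cfsg.Agent.Lib.OW12
import Cfsg.Agent.Lib.OW13

/-! # Coordinates over a finite field -/

set_option autoImplicit false

namespace Cfsg.Agent.Lib.OW

open MulAction

universe u v

variable {P : Type u} {L : Type v} {I : P → L → Prop} {n : ℕ}

theorem coords (h : PlN I n) (mf : Mf I n) : ∃ (F : Type) (_ : Field F) (_ : Finite F)
    (vec : P → Fin 3 → F), Nat.card F = n ∧ (∀ p, vec p ≠ 0) ∧
    ∀ l : L, ∃ c : Fin 3 → F, c ≠ 0 ∧
      ∀ p, I p l ↔ c 0 * vec p 0 + c 1 * vec p 1 + c 2 * vec p 2 = 0 := by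
  classical
  haveI := h.finP
  haveI := h.finL
  haveI := h.finColl
  obtain ⟨O, C, D, A, lx, ly, fr⟩ := exists_frame h
  obtain ⟨p, hp, hpE⟩ := EA_exp h mf A
  letI : CommGroup ↥(Per I C A) := { (inferInstance : Group ↥(Per I C A)) with
    mul_comm := fun a b => Subtype.ext (EA_comm h mf (per_EA h fr.CA a.2) (per_EA h fr.CA b.2)) }
  let Ψ : ↥(Per I D ly) → ↥(Per I C A) →* ↥(Per I D A) := fun e =>
    { toFun := fun v => ⟨Psi e.1 v.1, psi_mem h fr e.2 v.2⟩
      map_one' := Subtype.ext (psi_one' _)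
      map_mul' := fun a b => Subtype.ext (psi_mul h mf fr e.2 a.2 b.2) }
  let Ψ' : ↥(Per I C lx) → ↥(Per I D A) →* ↥(Per I C A) := fun e =>
    { toFun := fun v => ⟨Psi e.1 v.1, psi_mem h fr.symm e.2 v.2⟩
      map_one' := Subtype.ext (psi_one' _)
      map_mul' := fun a b => Subtype.ext (psi_mul h mf fr.symm e.2 a.2 b.2) }
  have hΨ : ∀ e v, ((Ψ e v : ↥(Per I D A)) : Coll I) = Psi e.1 v.1 := fun e v => rfl
  have hΨ' : ∀ e v, ((Ψ' e v : ↥(Per I C A)) : Coll I) = Psi e.1 v.1 := fun e v => rfl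
  obtain ⟨e0, he0, he01⟩ := mf_ne h mf fr.Dy
  let e1 : ↥(Per I D ly) := ⟨e0, he0⟩
  have he1 : e1 ≠ 1 := fun h1 => he01 (congrArg Subtype.val h1)
  have hcV := mf C A fr.CA
  have hn2 := h.two_le
  haveI : Nontrivial ↥(Per I C A) := by
    obtain ⟨g, hg, hg1⟩ := mf_ne h mf fr.CA
    exact ⟨⟨⟨g, hg⟩, 1, fun h1 => hg1 (congrArg Subtype.val h1)⟩⟩
  have hinj : ∀ e v, e ≠ 1 → Ψ e v = 1 → v = 1 := by
    intro e v he hev
    apply Subtype.ext
    exact psi_inj h fr e.2 v.2 (fun h1 => he (Subtype.ext h1)) (congrArg Subtype.val hev)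
  have hl : ∀ e, e ≠ 1 → ∃ e', (∀ v, Ψ' e' (Ψ e v) = v) ∧ ∀ w, Ψ e (Ψ' e' w) = w := by
    intro e he
    have he2 : e.1 ≠ 1 := fun h1 => he (Subtype.ext h1)
    have h2 : e.1 • C ≠ C := by
      intro h3
      exact he2 (axce h e.2.1 e.2.2 h3 (fr.Cy h) fr.CD)
    obtain ⟨e', he', hee⟩ := slope_surj h mf fr.symm (slope_A h fr e.2) h2
    refine ⟨⟨e', he'⟩, fun v => Subtype.ext ?_, fun w => Subtype.ext ?_⟩
    · exact psi_psi h mf fr e.2 he' hee.symm he2 v.2
    · refine psi_psi h mf fr.symm he' e.2 hee ?_ w.2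
      rintro rfl
      rw [one_smul] at hee
      exact slope_ne h fr e.2 hee.symm
  have hr : ∀ e', e' ≠ 1 → ∃ e, (∀ v, Ψ' e' (Ψ e v) = v) ∧ ∀ w, Ψ e (Ψ' e' w) = w := by
    intro e he
    have he2 : e.1 ≠ 1 := fun h1 => he (Subtype.ext h1)
    have h2 : e.1 • D ≠ D := by
      intro h3
      exact he2 (axce h e.2.1 e.2.2 h3 (fr.Dx h) fr.CD.symm)
    obtain ⟨e', he', hee⟩ := slope_surj h mf fr (slope_A h fr.symm e.2) h2
    refine ⟨⟨e', he'⟩, fun v => Subtype.ext ?_, fun w => Subtype.ext ?_⟩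
    · refine psi_psi h mf fr he' e.2 hee ?_ v.2
      rintro rfl
      rw [one_smul] at hee
      exact slope_ne h fr.symm e.2 hee.symm
    · exact psi_psi h mf fr.symm e.2 he' hee.symm he2 w.2
  have hΨmul : ∀ e f v, Ψ (e * f) v = Ψ e v * Ψ f v := fun e f v =>
    Subtype.ext (psi_mul' h fr e.2 f.2 v.2)
  obtain ⟨K, hK, hKc, hKinj, hKtr, hKe, heK⟩ := abs_field Ψ Ψ'
    (fun v => Subtype.ext (psi_one _)) hΨmul
    (fun v => Subtype.ext (psi_one _)) (fun e f v => Subtype.ext (psi_mul' h fr.symm e.2 f.2 v.2))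
    hinj (by rw [hcV, mf D A fr.DA]) (by rw [hcV, mf D ly fr.Dy]) hl hr e1 he1 hp
    (fun v => Subtype.ext (hpE v.1 (per_EA h fr.CA v.2)))
  rw [hcV] at hKc
  haveI : Finite K := by
    apply Nat.finite_of_card_ne_zero
    omega
  letI : Field K := hK.toField
  let σ : Shrink.{0} K ≃+* K := (equivShrink.{0} K).symm.ringEquiv
  let F := Shrink.{0} K
  let act : F → ↥(Per I C A) → ↥(Per I C A) := fun x v => ev (σ x).1 v
  have aadd : ∀ x y v, act (x + y) v = act x v * act y v := by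
    intro x y v
    show ev (σ (x + y)).1 v = _
    rw [map_add]; rfl
  have amul : ∀ x y v, act (x * y) v = act x (act y v) := by
    intro x y v
    show ev (σ (x * y)).1 v = _
    rw [map_mul]; rfl
  have azero : ∀ x v, v ≠ 1 → act x v = 1 → x = 0 := by
    intro x v hv hx
    have h1 := hKinj _ (σ x).2 v hv hx
    have h2 : σ x = 0 := Subtype.ext h1
    exact (map_eq_zero_iff σ σ.injective).1 h2
  have ahom : ∀ x v w, act x (v * w) = act x v * act x w := fun x v w => ev_hom _ _ _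
  have asub : ∀ x y v, v ≠ 1 → act x v = act y v → x = y := by
    intro x y v hv hxy
    have h1 : act (x - y) v * act y v = act x v := by
      rw [← aadd, sub_add_cancel]
    rw [← hxy, mul_eq_right] at h1
    exact sub_eq_zero.1 (azero _ v hv h1)
  obtain ⟨v0, hv0⟩ := exists_ne (1 : ↥(Per I C A))
  have atr : ∀ v, ∃ x, act x v0 = v := by
    intro v
    obtain ⟨x, hx, hxv⟩ := hKtr v0 v hv0
    refine ⟨σ.symm ⟨x, hx⟩, ?_⟩
    show ev (σ (σ.symm ⟨x, hx⟩)).1 v0 = v
    rw [RingEquiv.apply_symm_apply]; exact hxv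
  have aslope : ∀ e, ∃ m, ∀ v, Ψ e1 (act m v) = Ψ e v := by
    intro e
    obtain ⟨x, hx, hxe⟩ := heK e
    refine ⟨σ.symm ⟨x, hx⟩, fun v => ?_⟩
    show Ψ e1 (ev (σ (σ.symm ⟨x, hx⟩)).1 v) = Ψ e v
    rw [RingEquiv.apply_symm_apply]; exact hxe v
  have hΨ1i : Function.Injective (Ψ e1) := by
    rw [injective_iff_map_eq_one]
    exact fun v hv => hinj e1 v he1 hv
  have hΨ1s : ∀ w, ∃ y, Ψ e1 (act y v0) = w := by
    intro w
    obtain ⟨e', -, h2⟩ := hl e1 he1
    obtain ⟨y, hy⟩ := atr (Ψ' e' w)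
    exact ⟨y, by rw [hy, h2]⟩
  -- e determined by m
  have hem : ∀ e f m m', (∀ v, Ψ e1 (act m v) = Ψ e v) → (∀ v, Ψ e1 (act m' v) = Ψ f v) →
      (e = f ↔ m' = m) := by
    intro e f m m' h1 h2
    constructor
    · rintro rfl
      apply asub _ _ v0 hv0
      apply hΨ1i
      rw [h2, h1]
    · rintro rfl
      by_contra hne
      have h3 : e * f⁻¹ ≠ 1 := fun h4 => hne (mul_inv_eq_one.1 h4)
      apply hv0
      apply hinj _ _ h3
      have h4 : Ψ (f * f⁻¹) v0 = 1 := by rw [mul_inv_cancel]; exact Subtype.ext (psi_one _)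
      rw [hΨmul] at h4 ⊢
      rw [← h1, h2, h4]
  let Q : P → (Fin 3 → F) → Prop := fun p u =>
    (∃ x y : F, u = ![1, x, y] ∧ p = ((act x v0).1 * (Ψ e1 (act y v0)).1) • O) ∨
    (∃ (m : F) (e : ↥(Per I D ly)), u = ![0, 1, m] ∧ p = e.1 • C ∧
      ∀ v, Ψ e1 (act m v) = Ψ e v) ∨ (u = ![0, 0, 1] ∧ p = D)
  have hQ : ∀ p, ∃ u, Q p u := by
    intro p
    by_cases hpA : I p A
    · by_cases hpD : p = D
      · exact ⟨_, Or.inr (Or.inr ⟨rfl, hpD⟩)⟩
      · obtain ⟨e, he, heC⟩ := slope_surj h mf fr hpA hpD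
        obtain ⟨m, hm⟩ := aslope ⟨e, he⟩
        exact ⟨_, Or.inr (Or.inl ⟨m, ⟨e, he⟩, rfl, heC.symm, hm⟩)⟩
    · obtain ⟨v, hv, w, hw, hpvw⟩ := pt_surj h mf fr hpA
      obtain ⟨x, hx⟩ := atr ⟨v, hv⟩
      obtain ⟨y, hy⟩ := hΨ1s ⟨w, hw⟩
      exact ⟨_, Or.inl ⟨x, y, rfl, by rw [hx, hy]; exact hpvw⟩⟩
  choose vec hvec using hQ
  have h10 : (1 : F) ≠ 0 := one_ne_zero
  refine ⟨F, inferInstance, inferInstance, vec, ?_, ?_, ?_⟩
  · rw [← hKc]
    exact Nat.card_congr σ.toEquiv
  · intro p hp0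
    rcases hvec p with ⟨x, y, hu, -⟩ | ⟨m, e, hu, -⟩ | ⟨hu, -⟩
    · rw [hu] at hp0
      have := congrFun hp0 0
      exact h10 this
    · rw [hu] at hp0
      have := congrFun hp0 1
      exact h10 this
    · rw [hu] at hp0
      have := congrFun hp0 2
      exact h10 this
  · have key : ∀ l : L, ∃ c : Fin 3 → F, c ≠ 0 ∧ ∀ p u, Q p u →
        (I p l ↔ c 0 * u 0 + c 1 * u 1 + c 2 * u 2 = 0) := by
      intro l
      by_cases hDl : I D l
      · by_cases hlA : l = A
        · subst hlA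
          refine ⟨![1, 0, 0], fun h1 => h10 (congrFun h1 0), ?_⟩
          rintro p u (⟨x, y, rfl, rfl⟩ | ⟨m, e, rfl, rfl, -⟩ | ⟨rfl, rfl⟩)
          · simp only [Matrix.cons_val_zero, Matrix.cons_val_one, Matrix.cons_val, mul_one,
              zero_mul, add_zero, h10, iff_false]
            exact inc_pt_A h mf fr (act x v0).2 (Ψ e1 (act y v0)).2
          · simp only [Matrix.cons_val_zero, Matrix.cons_val_one, Matrix.cons_val, mul_zero,
              zero_mul, add_zero, iff_true]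
            exact slope_A h fr e.2
          · simp only [Matrix.cons_val_zero, Matrix.cons_val_one, Matrix.cons_val, mul_zero,
              zero_mul, add_zero, iff_true]
            exact hDl
        · obtain ⟨a, ha, rfl⟩ := vl_surj h mf fr hDl hlA
          obtain ⟨x0, hx0⟩ := atr ⟨a, ha⟩
          refine ⟨![-x0, 1, 0], fun h1 => h10 (congrFun h1 1), ?_⟩
          rintro p u (⟨x, y, rfl, rfl⟩ | ⟨m, e, rfl, rfl, -⟩ | ⟨rfl, rfl⟩)
          · rw [inc_pt_vl h mf fr (act x v0).2 (Ψ e1 (act y v0)).2 ha]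
            simp only [Matrix.cons_val_zero, Matrix.cons_val_one, Matrix.cons_val, mul_one,
              zero_mul, add_zero, one_mul]
            constructor
            · intro h1
              have h2 : act x v0 = act x0 v0 := by rw [hx0]; exact Subtype.ext h1
              rw [asub _ _ v0 hv0 h2]; ring
            · intro h1
              have h2 : x = x0 := by linear_combination h1
              rw [h2, hx0]
          · simp only [Matrix.cons_val_zero, Matrix.cons_val_one, Matrix.cons_val, mul_zero,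
              zero_mul, add_zero, zero_add, mul_one, h10, iff_false]
            exact inc_cm_vl h fr e.2 ha
          · simp only [Matrix.cons_val_zero, Matrix.cons_val_one, Matrix.cons_val, mul_zero,
              zero_mul, add_zero, iff_true]
            exact inc_D_vl fr ha
      · obtain ⟨b, hb, e, he, rfl⟩ := ln_surj h mf fr hDl
        obtain ⟨y0, hy0⟩ := hΨ1s ⟨b, hb⟩
        obtain ⟨m, hm⟩ := aslope ⟨e, he⟩
        refine ⟨![-y0, -m, 1], fun h1 => h10 (congrFun h1 2), ?_⟩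
        rintro p u (⟨x, y, rfl, rfl⟩ | ⟨m', e', rfl, rfl, hm'⟩ | ⟨rfl, rfl⟩)
        · rw [inc_pt_ln h mf fr (act x v0).2 (Ψ e1 (act y v0)).2 hb he]
          simp only [Matrix.cons_val_zero, Matrix.cons_val_one, Matrix.cons_val, mul_one,
            one_mul]
          have e2 : (b * Psi e (act x v0).1 : Coll I) = (Ψ e1 (act (y0 + m * x) v0)).1 := by
            rw [aadd, amul, map_mul, hy0, hm]
            rfl
          rw [e2]
          constructor
          · intro h1
            have h2 : act y v0 = act (y0 + m * x) v0 := hΨ1i (Subtype.ext h1)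
            rw [asub _ _ v0 hv0 h2]; ring
          · intro h1
            have h2 : y = y0 + m * x := by linear_combination h1
            rw [h2]
        · rw [inc_cm_ln h fr e'.2 he hb]
          simp only [Matrix.cons_val_zero, Matrix.cons_val_one, Matrix.cons_val, mul_zero,
            mul_one, one_mul, zero_add]
          have h1 := hem e' ⟨e, he⟩ m' m hm' hm
          constructor
          · intro h2
            have h3 := h1.1 (Subtype.ext h2)
            rw [h3]; ring
          · intro h2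
            have h3 : m = m' := by linear_combination -h2
            exact congrArg Subtype.val (h1.2 h3)
        · simp only [Matrix.cons_val_zero, Matrix.cons_val_one, Matrix.cons_val, mul_zero,
            mul_one, zero_add, h10, iff_false]
          exact inc_D_ln h fr he hb
    intro l
    obtain ⟨c, hc0, hc⟩ := key l
    exact ⟨c, hc0, fun p => hc p _ (hvec p)⟩

end Cfsg.Agent.Lib.OW
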