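import Cfsg.Agent.Lib.OW1

/-! # Central collineations -/

set_option autoImplicit false

namespace Cfsg.Agent.Lib.OW

open MulAction

universe u v

variable {P : Type u} {L : Type v} {I : P → L → Prop}

/-- `a` is an axis of `g` -/
def Ax (g : Coll I) (a : L) : Prop := ∀ p, I p a → g • p = p
/-- `c` is a centre of `g` -/
def Ce (g : Coll I) (c : P) : Prop := ∀ l, I c l → g • l = l

theorem ax_du {g : Coll I} {c : P} : Ax (I := Du I) (du g) c ↔ Ce g c := Iff.rfl
theorem ce_du {g : Coll I} {a : L} : Ce (I := Du I) (du g) a ↔ Ax g a := Iff.rfl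

variable {n : ℕ}

theorem Ax.fixL (h : PlN I n) {g : Coll I} {a : L} (hA : Ax g a) : g • a = a := by
  obtain ⟨p, hp⟩ := h.exists_pt a
  obtain ⟨q, hq, hqp, -⟩ := h.exists_pt2 a p p
  exact smul_of_two h.toPl hqp (hA q hq) (hA p hp) hq hp

theorem Ce.fixP (h : PlN I n) {g : Coll I} {c : P} (hC : Ce g c) : g • c = c :=
  Ax.fixL (I := Du I) h.dual (g := du g) hC

theorem Ax.line (h : PlN I n) {g : Coll I} {a : L} (hA : Ax g a) {p : P} (hp : g • p = p)
    (hpa : ¬ I p a) {l : L} (hl : I p l) : g • l = l := by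
  have hla : l ≠ a := by rintro rfl; exact hpa hl
  obtain ⟨r, hr1, hr2⟩ := h.meet l a hla
  have hrp : r ≠ p := by rintro rfl; exact hpa hr2
  exact smul_of_two h.toPl hrp (hA r hr2) hp hr1 hl

theorem fix2 (h : PlN I n) {g : Coll I} {a : L} (hA : Ax g a) {p q : P} (hp : g • p = p)
    (hq : g • q = q) (hpa : ¬ I p a) (hqa : ¬ I q a) (hpq : p ≠ q) : g = 1 := by
  obtain ⟨m, hm1, hm2⟩ := h.join p q hpq
  have hm : g • m = m := smul_of_two h.toPl hpq hp hq hm1 hm2
  have off : ∀ x, ¬ I x m → g • x = x := by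
    intro x hx
    have hxp : x ≠ p := by rintro rfl; exact hx hm1
    have hxq : x ≠ q := by rintro rfl; exact hx hm2
    obtain ⟨k, hk1, hk2⟩ := h.join x p hxp
    obtain ⟨k', hk1', hk2'⟩ := h.join x q hxq
    have hkk : k ≠ k' := by
      rintro rfl
      rcases h.uniq hk2 hk2' hm1 hm2 with h1 | h1
      · exact hpq h1
      · subst h1; exact hx hk1
    exact smul_of_two' h.toPl hkk (hA.line h hp hpa hk2) (hA.line h hq hqa hk2') hk1 hk1'
  apply ext_of_pts h
  intro x
  by_cases hx : I x m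
  · obtain ⟨k, hk, hkm, -⟩ := h.exists_line2 x m m
    obtain ⟨y, hy, hyx, -⟩ := h.exists_pt2 k x x
    obtain ⟨z, hz, hzx, hzy⟩ := h.exists_pt2 k x y
    have hym : ¬ I y m := fun h1 => by
      rcases h.uniq h1 hx hy hk with h2 | h2
      · exact hyx h2
      · exact hkm h2.symm
    have hzm : ¬ I z m := fun h1 => by
      rcases h.uniq h1 hx hz hk with h2 | h2
      · exact hzx h2
      · exact hkm h2.symm
    have hk2 : g • k = k := smul_of_two h.toPl hzy (off z hzm) (off y hym) hz hy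
    exact smul_of_two' h.toPl hkm hk2 hm hk hx
  · exact off x hx

theorem ax_unique (h : PlN I n) {g : Coll I} {a b : L} (hA : Ax g a) (hB : Ax g b)
    (hab : a ≠ b) : g = 1 := by
  obtain ⟨x, hx1, hx2⟩ := h.meet a b hab
  obtain ⟨y, hy, hyx, -⟩ := h.exists_pt2 b x x
  obtain ⟨z, hz, hzx, hzy⟩ := h.exists_pt2 b x y
  have hya : ¬ I y a := fun h1 => by
    rcases h.uniq h1 hx1 hy hx2 with h2 | h2
    · exact hyx h2
    · exact hab h2
  have hza : ¬ I z a := fun h1 => by
    rcases h.uniq h1 hx1 hz hx2 with h2 | h2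
    · exact hzx h2
    · exact hab h2
  exact fix2 h hA (hB z hz) (hB y hy) hza hya hzy

theorem du_eq_one {g : Coll I} : du g = 1 ↔ g = 1 := by
  constructor
  · intro h1; apply du.injective; rw [h1, map_one]
  · rintro rfl; rw [map_one]

theorem ce_unique (h : PlN I n) {g : Coll I} {c d : P} (hC : Ce g c) (hD : Ce g d)
    (hcd : c ≠ d) : g = 1 :=
  du_eq_one.1 (ax_unique (I := Du I) h.dual (g := du g) hC hD hcd)

/-- the line joining a moved point to its image is fixed -/
theorem Ax.moved (h : PlN I n) {g : Coll I} {a : L} (hA : Ax g a) {x : P} (hx : ¬ I x a)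
    (hgx : g • x ≠ x) {l : L} (hl1 : I x l) (hl2 : I (g • x) l) : g • l = l := by
  have hla : l ≠ a := by rintro rfl; exact hx hl1
  obtain ⟨r, hr1, hr2⟩ := h.meet l a hla
  have hga : g • a = a := hA.fixL h
  have h1 : ¬ I (g • x) a := fun h2 => hx ((inc_fix hga).1 h2)
  have h2 : g • x ≠ r := by rintro h3; rw [h3] at h1; exact h1 hr2
  have h3 : I (g • x) (g • l) := (inc g).2 hl1
  have h4 : I r (g • l) := (inc_fix' (hA r hr2)).2 hr1
  exact (h.uniq h3 h4 hl2 hr1).resolve_left h2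

theorem Ax.exists_ce (h : PlN I n) {g : Coll I} {a : L} (hA : Ax g a) : ∃ c, Ce g c := by
  by_cases h1 : ∃ c, ¬ I c a ∧ g • c = c
  · obtain ⟨c, hc1, hc2⟩ := h1
    exact ⟨c, fun l hl => hA.line h hc2 hc1 hl⟩
  · push Not at h1
    obtain ⟨x, hx⟩ := h.exists_off a
    obtain ⟨l, hl1, hl2⟩ := h.join x (g • x) (Ne.symm (h1 x hx))
    have hla : l ≠ a := by rintro rfl; exact hx hl1
    obtain ⟨c, hc1, hc2⟩ := h.meet l a hla
    have hlf : g • l = l := hA.moved h hx (h1 x hx) hl1 hl2
    refine ⟨c, fun k hk => ?_⟩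
    by_cases hka : k = a
    · rw [hka]; exact hA.fixL h
    obtain ⟨y, hy, hyc, -⟩ := h.exists_pt2 k c c
    have hya : ¬ I y a := fun h2 => by
      rcases h.uniq h2 hc2 hy hk with h3 | h3
      · exact hyc h3
      · exact hka h3.symm
    obtain ⟨m, hm1, hm2⟩ := h.join y (g • y) (Ne.symm (h1 y hya))
    have hmf : g • m = m := hA.moved h hya (h1 y hya) hm1 hm2
    by_cases hml : m = l
    · subst hml
      have : k = m := (h.uniq hy hk hm1 hc1).resolve_left hyc
      rw [this]; exact hmf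
    · obtain ⟨z, hz1, hz2⟩ := h.meet m l hml
      have hzf : g • z = z := smul_of_two' h.toPl hml hmf hlf hz1 hz2
      have hza : I z a := by
        by_contra h2; exact h1 z h2 hzf
      have hzc : z = c := (h.uniq hz2 hc1 hza hc2).resolve_right hla
      subst hzc
      have : k = m := (h.uniq hy hk hm1 hz1).resolve_left hyc
      rw [this]; exact hmf

theorem Ce.exists_ax (h : PlN I n) {g : Coll I} {c : P} (hC : Ce g c) : ∃ a, Ax g a :=
  Ax.exists_ce (I := Du I) h.dual (g := du g) hC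

theorem axce (h : PlN I n) {g : Coll I} {a : L} {c p : P} (hA : Ax g a) (hC : Ce g c)
    (hp : g • p = p) (hpa : ¬ I p a) (hpc : p ≠ c) : g = 1 := by
  by_cases hca : I c a
  · obtain ⟨m, hm1, hm2⟩ := h.join p c hpc
    obtain ⟨k, hk, hka, hkm⟩ := h.exists_line2 c a m
    obtain ⟨q, hq, hqc, -⟩ := h.exists_pt2 k c c
    have hqa : ¬ I q a := fun h2 => by
      rcases h.uniq h2 hca hq hk with h3 | h3
      · exact hqc h3
      · exact hka h3.symm
    have hpq : p ≠ q := by
      rintro rfl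
      rcases h.uniq hm1 hm2 hq hk with h3 | h3
      · exact hpc h3
      · exact hkm h3.symm
    obtain ⟨l, hl1, hl2⟩ := h.join p q hpq
    have hlk : l ≠ k := by
      rintro rfl
      rcases h.uniq hm1 hm2 hl1 hk with h3 | h3
      · exact hpc h3
      · exact hkm h3.symm
    have hqf : g • q = q :=
      smul_of_two' h.toPl hlk (hA.line h hp hpa hl1) (hC k hk) hl2 hq
    exact fix2 h hA hp hqf hpa hqa hpq
  · exact fix2 h hA hp (hC.fixP h) hpa hca hpc

/-- if `x` is moved by a perspectivity with centre `c`, then `x, g x, c` are collinear -/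
theorem Ce.coll (h : PlN I n) {g : Coll I} {c : P} (hC : Ce g c) {x : P} {l : L}
    (hxc : g • x ≠ x) (hl1 : I x l) (hl2 : I (g • x) l) : I c l := by
  by_cases hxc2 : x = c
  · subst hxc2; exact hl1
  obtain ⟨k, hk1, hk2⟩ := h.join x c hxc2
  have h1 : g • k = k := hC k hk2
  have h2 : I (g • x) k := (inc_fix h1).2 hk1
  have : l = k := (h.uniq hl1 hl2 hk1 h2).resolve_left (Ne.symm hxc)
  rw [this]; exact hk2

theorem Ce.img (h : PlN I n) {g : Coll I} {c : P} (hC : Ce g c) {x : P} {l : L}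
    (hl1 : I x l) (hl2 : I c l) : I (g • x) l := (inc_fix (hC l hl2)).2 hl1

/-- perspectivities with given centre and axis -/
def Per (I : P → L → Prop) (c : P) (a : L) : Subgroup (Coll I) where
  carrier := {g | Ax g a ∧ Ce g c}
  one_mem' := ⟨fun p _ => one_smul _ p, fun l _ => one_smul _ l⟩
  mul_mem' := by
    rintro g k ⟨hg1, hg2⟩ ⟨hk1, hk2⟩
    exact ⟨fun p hp => by rw [mul_smul, hk1 p hp, hg1 p hp],
      fun l hl => by rw [mul_smul, hk2 l hl, hg2 l hl]⟩
  inv_mem' := by
    rintro g ⟨hg1, hg2⟩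
    exact ⟨fun p hp => by rw [inv_smul_eq_iff, hg1 p hp],
      fun l hl => by rw [inv_smul_eq_iff, hg2 l hl]⟩

theorem mem_Per {c : P} {a : L} {g : Coll I} : g ∈ Per I c a ↔ Ax g a ∧ Ce g c := Iff.rfl

/-- predicate: elation (or 1) with axis `a` -/
def IsEA (g : Coll I) (a : L) : Prop := Ax g a ∧ ∀ p, ¬ I p a → g • p = p → g = 1

theorem IsEA.exists_ce (h : PlN I n) {g : Coll I} {a : L} (hg : IsEA g a) :
    ∃ c, I c a ∧ Ce g c := by
  obtain ⟨c, hc⟩ := hg.1.exists_ce h
  by_cases h1 : I c a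
  · exact ⟨c, h1, hc⟩
  · have h2 := hg.2 c h1 (hc.fixP h)
    subst h2
    obtain ⟨d, hd⟩ := h.exists_pt a
    exact ⟨d, hd, fun l _ => one_smul _ l⟩

theorem isEA_of (h : PlN I n) {g : Coll I} {a : L} {c : P} (hA : Ax g a) (hC : Ce g c)
    (hca : I c a) : IsEA g a :=
  ⟨hA, fun _ hpa hp => axce h hA hC hp hpa (by rintro rfl; exact hpa hca)⟩

theorem IsEA.mul (h : PlN I n) {g k : Coll I} {a : L} (hg : IsEA g a) (hk : IsEA k a) :
    IsEA (g * k) a := by
  have hA : Ax (g * k) a := fun p hp => by rw [mul_smul, hk.1 p hp, hg.1 p hp]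
  refine ⟨hA, fun p hpa hp => ?_⟩
  obtain ⟨c, hca, hc⟩ := hg.exists_ce h
  obtain ⟨d, hda, hd⟩ := hk.exists_ce h
  by_cases hq : k • p = p
  · have hk1 := hk.2 p hpa hq
    rw [hk1, mul_one] at hp ⊢
    exact hg.2 p hpa hp
  · rw [mul_smul] at hp
    obtain ⟨m, hm1, hm2⟩ := h.join p (k • p) (Ne.symm hq)
    have hma : m ≠ a := by rintro rfl; exact hpa hm1
    have hdm : I d m := hd.coll h hq hm1 hm2
    have hcm : I c m := by
      apply hc.coll h (x := k • p) (l := m)
      · rw [hp]; exact Ne.symm hq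
      · exact hm2
      · rw [hp]; exact hm1
    have hcd : c = d := (h.uniq hcm hdm hca hda).resolve_right hma
    subst hcd
    have hCe : Ce (g * k) c := fun l hl => by rw [mul_smul, hd l hl, hc l hl]
    exact axce h hA hCe (by rw [mul_smul]; exact hp) hpa (by rintro rfl; exact hpa hca)

theorem IsEA.inv {g : Coll I} {a : L} (hg : IsEA g a) : IsEA g⁻¹ a :=
  ⟨fun p hp => by rw [inv_smul_eq_iff, hg.1 p hp], fun p hpa hp => by
    rw [inv_smul_eq_iff] at hp
    rw [hg.2 p hpa hp.symm, inv_one]⟩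

theorem isEA_one (a : L) : IsEA (1 : Coll I) a := ⟨fun p _ => one_smul _ p, fun _ _ _ => rfl⟩

theorem Ax.conj {g : Coll I} {a : L} (hg : Ax g a) (k : Coll I) :
    Ax (k * g * k⁻¹) (k • a) := fun p hp => by
  rw [mul_smul, mul_smul, hg (k⁻¹ • p) ((inc_inv k).2 hp), smul_inv_smul]

theorem Ce.conj {g : Coll I} {c : P} (hg : Ce g c) (k : Coll I) :
    Ce (k * g * k⁻¹) (k • c) := Ax.conj (I := Du I) (g := du g) hg (du k)

theorem IsEA.conj {g : Coll I} {a : L} (hg : IsEA g a) (k : Coll I) :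
    IsEA (k * g * k⁻¹) (k • a) := by
  refine ⟨hg.1.conj k, fun p hpa hp => ?_⟩
  have h1 : g • (k⁻¹ • p) = k⁻¹ • p := by
    rw [mul_smul, mul_smul, ← eq_inv_smul_iff] at hp
    exact hp
  have h2 : ¬ I (k⁻¹ • p) a := fun h3 => hpa ((inc_inv k).1 h3)
  rw [hg.2 _ h2 h1, mul_one, mul_inv_cancel]

/-- elations with axis `a` -/
def EA (h : PlN I n) (a : L) : Subgroup (Coll I) where
  carrier := {g | IsEA g a}
  one_mem' := isEA_one a
  mul_mem' := fun h1 h2 => h1.mul h h2
  inv_mem' := fun h1 => h1.inv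

theorem mem_EA {h : PlN I n} {a : L} {g : Coll I} : g ∈ EA h a ↔ IsEA g a := Iff.rfl

/-- elation with centre `c` (or 1) -/
def IsEC (g : Coll I) (c : P) : Prop := Ce g c ∧ ∀ l, ¬ I c l → g • l = l → g = 1

theorem isEC_iff {g : Coll I} {c : P} : IsEC g c ↔ IsEA (I := Du I) (du g) c := by
  unfold IsEC IsEA
  rw [du_eq_one]
  rfl

/-- elations with centre `c` -/
def EC (h : PlN I n) (c : P) : Subgroup (Coll I) := (EA (I := Du I) h.dual c).comap du.toMonoidHom

theorem mem_EC {h : PlN I n} {c : P} {g : Coll I} : g ∈ EC h c ↔ IsEC g c := isEC_iff.symm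

theorem isEC_of (h : PlN I n) {g : Coll I} {a : L} {c : P} (hA : Ax g a) (hC : Ce g c)
    (hca : I c a) : IsEC g c :=
  isEC_iff.2 (isEA_of (I := Du I) h.dual (g := du g) hC hA hca)

theorem IsEA.ce_mem (h : PlN I n) {g : Coll I} {a : L} (hg : IsEA g a) {c : P} (hC : Ce g c)
    (hg1 : g ≠ 1) : I c a := by
  by_contra hca
  exact hg1 (hg.2 c hca (hC.fixP h))

theorem IsEC.ax_mem (h : PlN I n) {g : Coll I} {c : P} (hg : IsEC g c) {a : L} (hA : Ax g a)
    (hg1 : g ≠ 1) : I c a :=
  IsEA.ce_mem (I := Du I) h.dual (g := du g) (isEC_iff.1 hg) hA (fun h1 => hg1 (du_eq_one.1 h1))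

/-! ### counting fixed points -/

theorem card_mod (h : PlN I n) {p : ℕ} [Fact p.Prime] (H : Subgroup (Coll I))
    (hH : IsPGroup p H) : n ^ 2 + n + 1 ≡ Nat.card {x : P // ∀ g ∈ H, g • x = x} [MOD p] := by
  haveI := h.finP
  have := IsPGroup.card_modEq_card_fixedPoints (p := p) (G := H) hH P
  rw [h.cardP] at this
  refine this.trans ?_
  have e : Nat.card (fixedPoints H P) = Nat.card {x : P // ∀ g ∈ H, g • x = x} := by
    apply Nat.card_congr
    apply Equiv.subtypeEquivRight
    intro x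
    constructor
    · intro h1 g hg
      exact h1 ⟨g, hg⟩
    · intro h1 g
      exact h1 g.1 g.2
  rw [e]

theorem card_mod' (h : PlN I n) {p : ℕ} [Fact p.Prime] {g : Coll I} {k : ℕ}
    (hg : g ^ (p ^ k) = 1) : n ^ 2 + n + 1 ≡ Nat.card {x : P // g • x = x} [MOD p] := by
  have hH : IsPGroup p (Subgroup.zpowers g) := by
    rintro ⟨y, hy⟩
    obtain ⟨i, rfl⟩ := Subgroup.mem_zpowers_iff.1 hy
    refine ⟨k, ?_⟩
    apply Subtype.ext
    show (g ^ i) ^ p ^ k = 1
    rw [← zpow_natCast, ← zpow_mul, mul_comm, zpow_mul, zpow_natCast, hg, one_zpow]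
  have := card_mod h _ hH
  refine this.trans ?_
  have e : Nat.card {x : P // ∀ k ∈ Subgroup.zpowers g, k • x = x} =
      Nat.card {x : P // g • x = x} := by
    apply Nat.card_congr
    apply Equiv.subtypeEquivRight
    intro x
    constructor
    · intro h1; exact h1 g (Subgroup.mem_zpowers g)
    · intro h1 k hk
      have h2 : Subgroup.zpowers g ≤ stabilizer (Coll I) x := by
        rw [Subgroup.zpowers_le]; exact h1
      exact h2 hk
  rw [e]

theorem card_fix_EA (h : PlN I n) {g : Coll I} {a : L} (hg : IsEA g a) (hg1 : g ≠ 1) :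
    Nat.card {x : P // g • x = x} = n + 1 := by
  rw [← h.line_card a]
  apply Nat.card_congr
  apply Equiv.subtypeEquivRight
  intro x
  constructor
  · intro h1
    by_contra h2
    exact hg1 (hg.2 x h2 h1)
  · exact hg.1 x

theorem card_fix_hom (h : PlN I n) {g : Coll I} {a : L} {c : P} (hA : Ax g a) (hC : Ce g c)
    (hca : ¬ I c a) (hg1 : g ≠ 1) : Nat.card {x : P // g • x = x} = n + 2 := by
  classical
  haveI := h.finP
  haveI := Fintype.ofFinite P
  have h1 : ∀ x, g • x = x ↔ (I x a ∨ x = c) := by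
    intro x
    constructor
    · intro h2
      by_contra h3
      push Not at h3
      exact hg1 (axce h hA hC h2 h3.1 h3.2)
    · rintro (h2 | rfl)
      · exact hA x h2
      · exact hC.fixP h
  rw [Nat.card_congr (Equiv.subtypeEquivRight h1)]
  have h2 := h.line_card a
  rw [Nat.card_eq_fintype_card, Fintype.card_subtype] at h2 ⊢
  have h3 : (Finset.univ.filter fun x => I x a ∨ x = c) =
      insert c (Finset.univ.filter fun x => I x a) := by
    ext x; simp [or_comm]
  rw [h3, Finset.card_insert_of_notMem (by simpa using hca), h2]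

/-- an involutory perspectivity of a plane of odd order is a homology -/
theorem inv_hom (h : PlN I n) (hn : Odd n) {t : Coll I} {a : L} {c : P} (ht : t * t = 1)
    (ht1 : t ≠ 1) (hA : Ax t a) (hC : Ce t c) : ¬ I c a := by
  intro hca
  have h1 := card_mod' h (p := 2) (g := t) (k := 1) (by rw [pow_one, pow_two, ht])
  rw [card_fix_EA h (isEA_of h hA hC hca) ht1] at h1
  obtain ⟨k, rfl⟩ := hn
  unfold Nat.ModEq at h1
  ring_nf at h1
  omega

/-- a `p`-element with `p ∣ n` which is a perspectivity is an elation -/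
theorem p_el (h : PlN I n) {p : ℕ} [Fact p.Prime] (hp : p ∣ n) {t : Coll I} {a : L} {c : P}
    {k : ℕ} (ht : t ^ (p ^ k) = 1) (ht1 : t ≠ 1) (hA : Ax t a) (hC : Ce t c) : I c a := by
  by_contra hca
  have h1 := card_mod' h (p := p) (g := t) (k := k) ht
  rw [card_fix_hom h hA hC hca ht1] at h1
  obtain ⟨m, rfl⟩ := hp
  have hp2 := (Fact.out : p.Prime).two_le
  have h2 : (p * m) ^ 2 + p * m + 1 ≡ 1 [MOD p] := by
    have : (p * m) ^ 2 + p * m + 1 = 1 + p * (p * m ^ 2 + m) := by ring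
    rw [this]
    exact (Nat.ModEq.refl _).add_right _ |>.trans (by simp [Nat.ModEq])
  have h3 : p * m + 2 ≡ 2 [MOD p] := by simp [Nat.ModEq]
  have h4 : 1 ≡ 2 [MOD p] := h2.symm.trans (h1.trans h3)
  have h5 : (0 : ℕ) ≡ 1 [MOD p] := Nat.ModEq.add_left_cancel' 1 h4
  rw [Nat.ModEq.comm, Nat.modEq_zero_iff_dvd] at h5
  have := Nat.le_of_dvd one_pos h5
  omega

/-! ### the dihedral lemma -/

theorem dih (h : PlN I n) (hn : Odd n) {t s : Coll I} {a : L} {c d : P} (ht : t * t = 1)
    (hs : s * s = 1) (hA : Ax t a) (hB : Ax s a) (hC : Ce t c) (hD : Ce s d) (ht1 : t ≠ 1)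
    (hs1 : s ≠ 1) (hcd : c ≠ d) : ∃ w ∈ Subgroup.closure {t, s}, IsEA w a ∧ w • c = d := by
  haveI := h.finColl
  have hca := inv_hom h hn ht ht1 hA hC
  have hda := inv_hom h hn hs hs1 hB hD
  have htc : t • c = c := hC.fixP h
  have hsd : s • d = d := hD.fixP h
  set w := t * s with hw
  have hAw : Ax w a := fun p hp => by rw [hw, mul_smul, hB p hp, hA p hp]
  have htinv : t⁻¹ = t := inv_eq_of_mul_eq_one_left ht
  have hsinv : s⁻¹ = s := inv_eq_of_mul_eq_one_left hs
  have hconj : t * w * t⁻¹ = w⁻¹ := by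
    rw [hw, mul_inv_rev, htinv, hsinv, ← mul_assoc, ht, one_mul]
  have hconjs : s * w * s⁻¹ = w⁻¹ := by
    rw [hw, mul_inv_rev, htinv, hsinv, mul_assoc, mul_assoc, hs, mul_one]
  have hfixt : ∀ p, ¬ I p a → t • p = p → p = c := by
    intro p hpa hp
    by_contra h1
    exact ht1 (axce h hA hC hp hpa h1)
  have hfixs : ∀ p, ¬ I p a → s • p = p → p = d := by
    intro p hpa hp
    by_contra h1
    exact hs1 (axce h hB hD hp hpa h1)
  have hta : t • a = a := hA.fixL h
  have hsa : s • a = a := hB.fixL h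
  -- an element z of <w>, z ≠ 1, with t z t⁻¹ = z⁻¹ etc. and a fixed point off a gives c = d
  have key : ∀ z : Coll I, Ax z a → z ≠ 1 → t * z * t⁻¹ = z⁻¹ → s * z * s⁻¹ = z⁻¹ →
      ∀ p, ¬ I p a → z • p ≠ p := by
    intro z hz hz1 hzt hzs p hpa hp
    have aux : ∀ r : Coll I, r * z * r⁻¹ = z⁻¹ → r • a = a → r • p = p := by
      intro r hr hra
      have h1 : z • (r • p) = r • p := by
        have h2 : z⁻¹ • (r • p) = r • p := by
          rw [← hr, mul_smul, mul_smul, inv_smul_smul, hp]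
        rw [inv_smul_eq_iff] at h2
        exact h2.symm
      by_contra h3
      exact hz1 (fix2 h hz h1 hp (fun h4 => hpa ((inc_fix hra).1 h4)) hpa h3)
    have h1 := hfixt p hpa (aux t hzt hta)
    have h2 := hfixs p hpa (aux s hzs hsa)
    exact hcd (h1.symm.trans h2)
  have hw1 : w ≠ 1 := by
    intro h1
    have : t = s := by
      have := eq_inv_of_mul_eq_one_left h1
      rw [this, hsinv]
    subst this
    exact hcd (hfixt d hda hsd).symm
  have hwEA : IsEA w a := ⟨hAw, fun p hpa hp => by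
    by_contra h1
    exact key w hAw h1 hconj hconjs p hpa hp⟩
  -- odd order
  have hodd : Odd (orderOf w) := by
    by_contra h1
    rw [Nat.not_odd_iff_even] at h1
    obtain ⟨r, hr⟩ := h1
    have hpos := orderOf_pos w
    have hr0 : 0 < r := by omega
    set z := w ^ r with hz
    have hz1 : z ≠ 1 := fun h2 => by
      have := orderOf_dvd_of_pow_eq_one h2
      have := Nat.le_of_dvd hr0 this
      omega
    have hzz : z * z = 1 := by rw [hz, ← pow_add, ← hr, pow_orderOf_eq_one]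
    have hzA : IsEA z a := by
      have : ∀ m, IsEA (w ^ m) a := by
        intro m
        induction m with
        | zero => rw [pow_zero]; exact isEA_one a
        | succ m ih => rw [pow_succ]; exact ih.mul h hwEA
      exact this r
    obtain ⟨e, hea, he⟩ := hzA.exists_ce h
    exact inv_hom h hn hzz hz1 hzA.1 he hea
  obtain ⟨j, hj⟩ := hodd
  refine ⟨w ^ j, ?_, ?_, ?_⟩
  · apply Subgroup.pow_mem
    exact Subgroup.mul_mem _ (Subgroup.subset_closure (by simp)) (Subgroup.subset_closure (by simp))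
  · clear_value w
    clear hj
    induction j with
    | zero => rw [pow_zero]; exact isEA_one a
    | succ m ih => rw [pow_succ]; exact ih.mul h hwEA
  · -- w^j t w^-j = s
    have h1 : ∀ m : ℕ, t * w ^ m * t⁻¹ = (w ^ m)⁻¹ := by
      intro m
      rw [← conj_pow, hconj, inv_pow]
    have h2 : w ^ j * t * (w ^ j)⁻¹ = s := by
      have h3 : t * (w ^ j)⁻¹ = w ^ j * t := by
        have := h1 j
        rw [← this, ← mul_assoc, ← mul_assoc, ht, one_mul, htinv]
      have h4 : w ^ (2 * j + 1) = 1 := by rw [← hj, pow_orderOf_eq_one]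
      have h5 : w ^ j * w ^ j * w = 1 := by rw [← pow_add, ← pow_succ, ← two_mul]; exact h4
      have h6 : w ^ j * w ^ j = w⁻¹ := eq_inv_of_mul_eq_one_left h5
      rw [mul_assoc, h3, ← mul_assoc, h6, hw, mul_inv_rev, hsinv, htinv, mul_assoc, ht, mul_one]
    have h3 : Ce s (w ^ j • c) := by
      rw [← h2]; exact hC.conj _
    by_contra h4
    exact hs1 (ce_unique h h3 hD h4)

end Cfsg.Agent.Lib.OW
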