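import Cfsg.Agent.Lib.OW2

/-! # Elation groups -/

set_option autoImplicit false

namespace Cfsg.Agent.Lib.OW

open MulAction

universe u v

variable {P : Type u} {L : Type v} {I : P → L → Prop} {n : ℕ}

theorem dih' (h : PlN I n) (hn : Odd n) {t s : Coll I} {a b : L} {c : P} (ht : t * t = 1)
    (hs : s * s = 1) (hA : Ax t a) (hB : Ax s b) (hC : Ce t c) (hD : Ce s c) (ht1 : t ≠ 1)
    (hs1 : s ≠ 1) (hab : a ≠ b) : ∃ w ∈ Subgroup.closure {t, s}, IsEC w c ∧ w • a = b := by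
  obtain ⟨w, hw, h1, h2⟩ := dih (I := Du I) h.dual hn (t := du t) (s := du s) (a := c) (c := a)
    (d := b) (by rw [← map_mul, ht, map_one]) (by rw [← map_mul, hs, map_one]) hC hD hA hB
    (fun h1 => ht1 (du_eq_one.1 h1)) (fun h1 => hs1 (du_eq_one.1 h1)) hab
  refine ⟨du.symm w, ?_, isEC_iff.2 ?_, ?_⟩
  · have h3 : (Subgroup.closure {t, s}).map (du (I := I)).toMonoidHom =
        Subgroup.closure {du t, du s} := by
      rw [MonoidHom.map_closure]
      congr 1
      simp [Set.image_pair]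
    rw [← h3] at hw
    obtain ⟨x, hx, rfl⟩ := hw
    simpa using hx
  · rw [MulEquiv.apply_symm_apply]; exact h1
  · have : du (du.symm w) • a = b := by rw [MulEquiv.apply_symm_apply]; exact h2
    exact this

theorem el_comm (h : PlN I n) {g k : Coll I} {a : L} (hg : IsEA g a) (hk : IsEA k a) {c d : P}
    (hC : Ce g c) (hD : Ce k d) (hcd : c ≠ d) : g * k = k * g := by
  by_cases hg1 : g = 1
  · rw [hg1, one_mul, mul_one]
  by_cases hk1 : k = 1
  · rw [hk1, one_mul, mul_one]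
  have hca := hg.ce_mem h hC hg1
  have hda := hk.ce_mem h hD hk1
  obtain ⟨x, hx⟩ := h.exists_off a
  have hxc : x ≠ c := by rintro rfl; exact hx hca
  have hxd : x ≠ d := by rintro rfl; exact hx hda
  obtain ⟨l1, h11, h12⟩ := h.join x c hxc
  obtain ⟨l2, h21, h22⟩ := h.join x d hxd
  have hga := hg.1.fixL h
  have hka := hk.1.fixL h
  have e1 : I (g • x) l1 := hC.img h h11 h12
  have e2 : I (k • x) l2 := hD.img h h21 h22
  have m1 : I (k • x) (k • l1) := (inc k).2 h11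
  have m1c : I c (k • l1) := (inc_fix' (hk.1 c hca)).2 h12
  have m2 : I (g • x) (g • l2) := (inc g).2 h21
  have m2d : I d (g • l2) := (inc_fix' (hg.1 d hda)).2 h22
  have f1 : I (g • k • x) (k • l1) := hC.img h m1 m1c
  have f2 : I (k • g • x) (k • l1) := (inc k).2 e1
  have f3 : I (k • g • x) (g • l2) := hD.img h m2 m2d
  have f4 : I (g • k • x) (g • l2) := (inc g).2 e2
  have hne : k • l1 ≠ g • l2 := by
    intro h1
    have h2 : I d (k • l1) := by rw [h1]; exact m2d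
    rcases h.uniq m1c h2 hca hda with h3 | h3
    · exact hcd h3
    · rw [h3] at m1
      exact hx ((inc_fix hka).1 m1)
  have hx2 : g • k • x = k • g • x := (h.uniq f1 f2 f4 f3).resolve_right hne
  have h3 : IsEA ((k * g)⁻¹ * (g * k)) a := ((hk.mul h hg).inv).mul h (hg.mul h hk)
  have h4 := h3.2 x hx (by
    rw [mul_smul, inv_smul_eq_iff, mul_smul, mul_smul]; exact hx2)
  rw [inv_mul_eq_one] at h4
  exact h4.symm

theorem Ce.mul {g k : Coll I} {c : P} (hg : Ce g c) (hk : Ce k c) : Ce (g * k) c :=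
  fun l hl => by rw [mul_smul, hk l hl, hg l hl]

theorem Ce.inv {g : Coll I} {c : P} (hg : Ce g c) : Ce g⁻¹ c :=
  fun l hl => by rw [inv_smul_eq_iff, hg l hl]

theorem Ce.pow {g : Coll I} {c : P} (hg : Ce g c) (m : ℕ) : Ce (g ^ m) c := by
  induction m with
  | zero => rw [pow_zero]; exact fun l _ => one_smul _ l
  | succ m ih => rw [pow_succ]; exact ih.mul hg

theorem IsEA.pow (h : PlN I n) {g : Coll I} {a : L} (hg : IsEA g a) (m : ℕ) :
    IsEA (g ^ m) a := by
  induction m with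
  | zero => rw [pow_zero]; exact isEA_one a
  | succ m ih => rw [pow_succ]; exact ih.mul h hg

theorem el_pow (h : PlN I n) {g k : Coll I} {a : L} (hg : IsEA g a) (hk : IsEA k a) {c d : P}
    (hC : Ce g c) (hD : Ce k d) (hcd : c ≠ d) {p : ℕ} (hgp : g ^ p = 1) (hg1 : g ≠ 1) :
    k ^ p = 1 := by
  by_contra hk1
  have hcomm := el_comm h hg hk hC hD hcd
  have h1 : (g * k) ^ p = k ^ p := by
    rw [(show Commute g k from hcomm).mul_pow, hgp, one_mul]
  obtain ⟨e, hea, he⟩ := (hg.mul h hk).exists_ce h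
  have hed : e ≠ d := by
    rintro rfl
    have h2 : Ce g e := by
      have := he.mul hD.inv
      rwa [mul_inv_cancel_right] at this
    exact hg1 (ce_unique h hC h2 hcd)
  have h3 : Ce (k ^ p) e := by rw [← h1]; exact he.pow p
  exact hk1 (ce_unique h h3 (hD.pow p) hed)

/-- a group of elations with common axis and two different centres has prime exponent -/
theorem el_exp (h : PlN I n) {g1 g2 : Coll I} {a : L} (hg1 : IsEA g1 a) (hg2 : IsEA g2 a)
    {c d : P} (hC : Ce g1 c) (hD : Ce g2 d) (hcd : c ≠ d) (h1 : g1 ≠ 1) (h2 : g2 ≠ 1) :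
    ∃ p : ℕ, p.Prime ∧ ∀ k : Coll I, IsEA k a → k ^ p = 1 := by
  haveI := h.finColl
  have hpos := orderOf_pos g1
  have hne : orderOf g1 ≠ 1 := by rwa [Ne, orderOf_eq_one_iff]
  obtain ⟨p, hp, hpd⟩ := Nat.exists_prime_and_dvd hne
  refine ⟨p, hp, ?_⟩
  obtain ⟨m, hm⟩ := hpd
  have hm0 : 0 < m := by
    rcases Nat.eq_zero_or_pos m with h3 | h3
    · rw [h3, mul_zero] at hm; omega
    · exact h3
  set g := g1 ^ m with hg
  have hgp : g ^ p = 1 := by rw [hg, ← pow_mul, mul_comm, ← hm, pow_orderOf_eq_one]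
  have hgn : g ≠ 1 := fun h3 => by
    have h4 := orderOf_dvd_of_pow_eq_one h3
    have h5 := Nat.le_of_dvd hm0 h4
    rw [hm] at h5
    have := hp.two_le
    nlinarith
  have hgE : IsEA g a := hg1.pow h m
  have hgC : Ce g c := hC.pow m
  have hg2p := el_pow h hgE hg2 hgC hD hcd hgp hgn
  intro k hk
  obtain ⟨e, -, he⟩ := hk.exists_ce h
  by_cases hec : c = e
  · subst hec
    exact el_pow h hg2 hk hD he (Ne.symm hcd) hg2p h2
  · exact el_pow h hgE hk hgC he hec hgp hgn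

theorem el_exp' (h : PlN I n) {g1 g2 : Coll I} {c : P} (hg1 : IsEC g1 c) (hg2 : IsEC g2 c)
    {a b : L} (hC : Ax g1 a) (hD : Ax g2 b) (hab : a ≠ b) (h1 : g1 ≠ 1) (h2 : g2 ≠ 1) :
    ∃ p : ℕ, p.Prime ∧ ∀ k : Coll I, IsEC k c → k ^ p = 1 := by
  obtain ⟨p, hp, h3⟩ := el_exp (I := Du I) h.dual (isEC_iff.1 hg1) (isEC_iff.1 hg2) hC hD hab
    (fun h3 => h1 (du_eq_one.1 h3)) (fun h3 => h2 (du_eq_one.1 h3))
  refine ⟨p, hp, fun k hk => ?_⟩
  have := h3 (du k) (isEC_iff.1 hk)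
  rw [← map_pow] at this
  exact du_eq_one.1 this

/-! ### orbit counting -/

theorem orb_card {G X : Type*} [Group G] [MulAction G X] (H : Subgroup G) (x : X) :
    Nat.card H = Nat.card ↥(H ⊓ stabilizer G x) * Nat.card {y // ∃ g ∈ H, g • x = y} := by
  have e := MulAction.orbitProdStabilizerEquivGroup H x
  have h1 := Nat.card_congr e
  rw [Nat.card_prod] at h1
  have h2 : Nat.card (orbit H x) = Nat.card {y // ∃ g ∈ H, g • x = y} := by
    apply Nat.card_congr
    apply Equiv.subtypeEquivRight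
    intro y
    constructor
    · rintro ⟨g, rfl⟩
      exact ⟨g.1, g.2, rfl⟩
    · rintro ⟨g, hg, rfl⟩
      exact ⟨⟨g, hg⟩, rfl⟩
  have h3 : Nat.card (stabilizer H x) = Nat.card ↥(H ⊓ stabilizer G x) := by
    refine Nat.card_congr ⟨fun g => ⟨g.1.1, g.1.2, ?_⟩, fun g => ⟨⟨g.1, g.2.1⟩, ?_⟩, ?_, ?_⟩
    · exact g.2
    · exact g.2.2
    · intro g; rfl
    · intro g; rfl
  rw [← h1, h2, h3, mul_comm]

end Cfsg.Agent.Lib.OW
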