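import Cfsg.Agent.Lib.OW3

/-! # Planes with many involutory homologies have prime power order -/

set_option autoImplicit false

namespace Cfsg.Agent.Lib.OW

open MulAction

universe u v

variable {P : Type u} {L : Type v} {I : P → L → Prop} {n : ℕ}

theorem line_card' (h : PlN I n) {x : P} {l : L} (hx : I x l) :
    Nat.card {y // I y l ∧ y ≠ x} = n := by
  classical
  haveI := h.finP
  haveI := Fintype.ofFinite P
  have h1 := h.line_card l
  rw [Nat.card_eq_fintype_card, Fintype.card_subtype] at h1 ⊢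
  have h2 : (Finset.univ.filter fun y => I y l) =
      insert x (Finset.univ.filter fun y => I y l ∧ y ≠ x) := by
    ext y
    simp only [Finset.mem_filter, Finset.mem_univ, true_and, Finset.mem_insert]
    constructor
    · intro h3
      by_cases h4 : y = x
      · exact Or.inl h4
      · exact Or.inr ⟨h3, h4⟩
    · rintro (rfl | h3)
      · exact hx
      · exact h3.1
  rw [h2, Finset.card_insert_of_notMem (by simp)] at h1
  omega

/-- `(c, a)` is centre and axis of an involutory perspectivity in `H` -/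
def HH (H : Subgroup (Coll I)) (c : P) (a : L) : Prop :=
  ∃ t ∈ H, t ≠ 1 ∧ t * t = 1 ∧ Ax t a ∧ Ce t c

/-- the hypothesis -/
def Hyp (H : Subgroup (Coll I)) : Prop :=
  ∀ (X Y : P) (l B : L), X ≠ Y → I X l → I Y l → I X B → B ≠ l →
    ∃ t ∈ H, t ≠ 1 ∧ t * t = 1 ∧ t • X = X ∧ t • Y = Y ∧ t • B = B ∧ ∃ a, Ax t a

theorem HH.off (h : PlN I n) (hn : Odd n) {H : Subgroup (Coll I)} {c : P} {a : L}
    (hh : HH H c a) : ¬ I c a := by
  obtain ⟨t, -, ht1, ht2, hA, hC⟩ := hh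
  exact inv_hom h hn ht2 ht1 hA hC

theorem fixline (h : PlN I n) {t : Coll I} {a B : L} {c : P} (hA : Ax t a) (hC : Ce t c)
    (ht1 : t ≠ 1) (hB : t • B = B) (hBa : B ≠ a) : I c B := by
  by_contra h1
  exact ht1 (du_eq_one.1 (axce (I := Du I) h.dual (g := du t) hC hA hB h1 hBa))

theorem tri (h : PlN I n) {H : Subgroup (Coll I)} (hyp : Hyp H)
    {X Y : P} {l B : L} (hXY : X ≠ Y) (hX : I X l) (hY : I Y l) (hXB : I X B) (hB : B ≠ l) :
    (∃ c, I c B ∧ HH H c l) ∨ (∃ a, I Y a ∧ HH H X a) ∨ HH H Y B := by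
  obtain ⟨t, htH, ht1, ht2, htX, htY, htB, a, hA⟩ := hyp X Y l B hXY hX hY hXB hB
  obtain ⟨c, hC⟩ := hA.exists_ce h
  by_cases hXa : I X a
  · by_cases hYa : I Y a
    · have hal : l = a := (h.uniq hX hY hXa hYa).resolve_left hXY
      subst hal
      exact Or.inl ⟨c, fixline h hA hC ht1 htB hB, t, htH, ht1, ht2, hA, hC⟩
    · have hYc : Y = c := by
        by_contra h1
        exact ht1 (axce h hA hC htY hYa h1)
      subst hYc
      by_cases hBa : B = a
      · subst hBa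
        exact Or.inr (Or.inr ⟨t, htH, ht1, ht2, hA, hC⟩)
      · have h1 := fixline h hA hC ht1 htB hBa
        exact absurd ((h.uniq hXB h1 hX hY).resolve_left hXY) hB
  · have hXc : X = c := by
      by_contra h1
      exact ht1 (axce h hA hC htX hXa h1)
    subst hXc
    have hYa : I Y a := by
      by_contra h1
      exact ht1 (axce h hA hC htY h1 (Ne.symm hXY))
    exact Or.inr (Or.inl ⟨a, hYa, t, htH, ht1, ht2, hA, hC⟩)

/-- relation: joined by an elation in `H` with centre `X` -/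
def RR (H : Subgroup (Coll I)) (X Y Z : P) : Prop := ∃ e ∈ H, IsEC e X ∧ e • Y = Z

theorem closure_le {H : Subgroup (Coll I)} {t s : Coll I} (ht : t ∈ H) (hs : s ∈ H) :
    Subgroup.closure {t, s} ≤ H := by
  rw [Subgroup.closure_le]
  rintro x (rfl | rfl)
  · exact ht
  · exact hs

theorem RR_axes (h : PlN I n) (hn : Odd n) {H : Subgroup (Coll I)} {X Y Z : P} {l a b : L}
    (hX : I X l) (hY : I Y l) (hZ : I Z l) (hYZ : Y ≠ Z)
    (ha : HH H X a) (hb : HH H X b) (hYa : I Y a) (hZb : I Z b) : RR H X Y Z := by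
  have hXa := ha.off h hn
  have hXb := hb.off h hn
  obtain ⟨t, htH, ht1, ht2, hA, hC⟩ := ha
  obtain ⟨s, hsH, hs1, hs2, hB, hD⟩ := hb
  have hab : a ≠ b := by
    rintro rfl
    have := (h.uniq hY hZ hYa hZb).resolve_left hYZ
    subst this
    exact hXa hX
  obtain ⟨w, hw, hw1, hw2⟩ := dih' h hn ht2 hs2 hA hB hC hD ht1 hs1 hab
  refine ⟨w, closure_le htH hsH hw, hw1, ?_⟩
  have h1 : I (w • Y) b := by rw [← hw2]; exact (inc w).2 hYa
  have h2 : I (w • Y) l := (inc_fix (hw1.1 l hX)).2 hY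
  rcases h.uniq h1 hZb h2 hZ with h3 | h3
  · exact h3
  · subst h3; exact absurd hX hXb

theorem RR_cent (h : PlN I n) (hn : Odd n) {H : Subgroup (Coll I)} {X Y Z : P} {l B : L}
    (hX : I X l) (hY : I Y l) (hZ : I Z l) (hYZ : Y ≠ Z) (hXB : I X B)
    (ha : HH H Y B) (hb : HH H Z B) : RR H X Y Z := by
  have hYB := ha.off h hn
  obtain ⟨t, htH, ht1, ht2, hA, hC⟩ := ha
  obtain ⟨s, hsH, hs1, hs2, hB, hD⟩ := hb
  obtain ⟨w, hw, hw1, hw2⟩ := dih h hn ht2 hs2 hA hB hC hD ht1 hs1 hYZ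
  obtain ⟨c, hcB, hc⟩ := hw1.exists_ce h
  have h1 : I c l := hc.coll h (by rw [hw2]; exact Ne.symm hYZ) hY (by rw [hw2]; exact hZ)
  have h2 : c = X := by
    rcases h.uniq h1 hX hcB hXB with h3 | h3
    · exact h3
    · subst h3; exact absurd hY hYB
  subst h2
  exact ⟨w, closure_le htH hsH hw, isEC_of h hw1.1 hc hcB, hw2⟩

theorem RR.symm {H : Subgroup (Coll I)} {X Y Z : P} (hr : RR H X Y Z)
    (h : PlN I n) : RR H X Z Y := by
  obtain ⟨e, he, h1, h2⟩ := hr
  refine ⟨e⁻¹, H.inv_mem he, ?_, ?_⟩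
  · exact mem_EC.1 ((EC h X).inv_mem (mem_EC.2 h1))
  · rw [inv_smul_eq_iff, h2]

theorem RR.trans {H : Subgroup (Coll I)} {X Y Z W : P} (hr : RR H X Y Z) (hs : RR H X Z W)
    (h : PlN I n) : RR H X Y W := by
  obtain ⟨e, he, h1, h2⟩ := hr
  obtain ⟨f, hf, h3, h4⟩ := hs
  refine ⟨f * e, H.mul_mem hf he, ?_, ?_⟩
  · exact mem_EC.1 ((EC h X).mul_mem (mem_EC.2 h3) (mem_EC.2 h1))
  · rw [mul_smul, h2, h4]

theorem RR_size (h : PlN I n) {H : Subgroup (Coll I)} {X Y Z : P} {l : L}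
    (hX : I X l) (hY : I Y l) (hZ : I Z l) (hYX : Y ≠ X) (hZX : Z ≠ X) :
    Nat.card {y // RR H X Y y} = Nat.card {y // RR H X Z y} := by
  haveI := h.finColl
  have key : ∀ Y Z : P, I Y l → I Z l → Y ≠ X → Z ≠ X → ∀ e : Coll I, IsEC e X → e • Y = Y →
      e • Z = Z := by
    intro Y Z hY hZ hYX hZX e he heY
    by_cases he1 : e = 1
    · rw [he1, one_smul]
    obtain ⟨b, hb⟩ := he.1.exists_ax h
    have hXb := he.ax_mem h hb he1
    have hYb : I Y b := by
      by_contra h1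
      exact he1 (axce h hb he.1 heY h1 hYX)
    have : l = b := (h.uniq hX hY hXb hYb).resolve_left (Ne.symm hYX)
    subst this
    exact hb Z hZ
  set E := H ⊓ EC h X with hE
  have e1 : ∀ Y, Nat.card {y // RR H X Y y} = Nat.card {y // ∃ g ∈ E, g • Y = y} := by
    intro Y
    apply Nat.card_congr
    apply Equiv.subtypeEquivRight
    intro y
    constructor
    · rintro ⟨e, he, h1, h2⟩
      exact ⟨e, ⟨he, mem_EC.2 h1⟩, h2⟩
    · rintro ⟨e, ⟨he, h1⟩, h2⟩
      exact ⟨e, he, mem_EC.1 h1, h2⟩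
  rw [e1, e1]
  have h1 := orb_card E Y
  have h2 := orb_card E Z
  have h3 : E ⊓ stabilizer (Coll I) Y = E ⊓ stabilizer (Coll I) Z := by
    ext e
    simp only [Subgroup.mem_inf, mem_stabilizer_iff]
    constructor
    · rintro ⟨h4, h5⟩
      exact ⟨h4, key Y Z hY hZ hYX hZX e (mem_EC.1 h4.2) h5⟩
    · rintro ⟨h4, h5⟩
      exact ⟨h4, key Z Y hZ hY hZX hYX e (mem_EC.1 h4.2) h5⟩
  rw [h3] at h1
  have h4 : 0 < Nat.card ↥(E ⊓ stabilizer (Coll I) Z) := Nat.card_pos
  exact Nat.eq_of_mul_eq_mul_left h4 (h1.symm.trans h2)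

/-- `(X, l)` is of type A: elations with centre `X` are transitive on `l ∖ X` -/
def TA (H : Subgroup (Coll I)) (X : P) (l : L) : Prop :=
  ∀ Y Z, I Y l → I Z l → Y ≠ X → Z ≠ X → RR H X Y Z

/-- type B -/
def TB (H : Subgroup (Coll I)) (X : P) (l : L) : Prop :=
  ∀ B C, I X B → I X C → B ≠ l → C ≠ l → ∃ e ∈ H, IsEA e l ∧ e • B = C

theorem RR_refl {H : Subgroup (Coll I)} (h : PlN I n) (X Y : P) : RR H X Y Y :=
  ⟨1, H.one_mem, mem_EC.1 (EC h X).one_mem, one_smul _ _⟩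

theorem dichot (h : PlN I n) (hn : Odd n) {H : Subgroup (Coll I)} (hyp : Hyp H)
    {X : P} {l : L} (hX : I X l) : TA H X l ∨ TB H X l := by
  by_cases hB : ∀ B, I X B → B ≠ l → ∃ c, I c B ∧ HH H c l
  · right
    intro B C hXB hXC hBl hCl
    by_cases hBC : B = C
    · subst hBC
      exact ⟨1, H.one_mem, isEA_one l, one_smul _ _⟩
    obtain ⟨c, hcB, hc⟩ := hB B hXB hBl
    obtain ⟨d, hdC, hd⟩ := hB C hXC hCl
    have hcl := hc.off h hn
    have hdl := hd.off h hn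
    have hcd : c ≠ d := by
      rintro rfl
      rcases h.uniq hcB hXB hdC hXC with h1 | h1
      · subst h1; exact hcl hX
      · exact hBC h1
    obtain ⟨t, htH, ht1, ht2, hA, hC⟩ := hc
    obtain ⟨s, hsH, hs1, hs2, hA', hD⟩ := hd
    obtain ⟨w, hw, hw1, hw2⟩ := dih h hn ht2 hs2 hA hA' hC hD ht1 hs1 hcd
    refine ⟨w, closure_le htH hsH hw, hw1, ?_⟩
    have h1 : I X (w • B) := (inc_fix' (hw1.1 X hX)).2 hXB
    have h2 : I d (w • B) := by rw [← hw2]; exact (inc w).2 hcB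
    refine (h.uniq h1 h2 hXC hdC).resolve_left ?_
    rintro rfl
    exact hdl hX
  · left
    push Not at hB
    obtain ⟨B, hXB, hBl, hB0⟩ := hB
    have hcase : ∀ Y, I Y l → Y ≠ X → (∃ a, I Y a ∧ HH H X a) ∨ HH H Y B := by
      intro Y hY hYX
      rcases tri h hyp (Ne.symm hYX) hX hY hXB hBl with ⟨c, hc1, hc2⟩ | h1
      · exact absurd hc2 (hB0 c hc1)
      · exact h1
    -- two classes
    have hA2 : ∀ Y Z, I Y l → Y ≠ X → I Z l → Z ≠ X → (∃ a, I Y a ∧ HH H X a) →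
        (∃ a, I Z a ∧ HH H X a) → RR H X Y Z := by
      rintro Y Z hY hYX hZ hZX ⟨a, ha1, ha2⟩ ⟨b, hb1, hb2⟩
      by_cases hYZ : Y = Z
      · subst hYZ; exact RR_refl h X Y
      · exact RR_axes h hn hX hY hZ hYZ ha2 hb2 ha1 hb1
    have hB2 : ∀ Y Z, I Y l → Y ≠ X → I Z l → Z ≠ X → HH H Y B → HH H Z B → RR H X Y Z := by
      intro Y Z hY hYX hZ hZX ha hb
      by_cases hYZ : Y = Z
      · subst hYZ; exact RR_refl h X Y
      · exact RR_cent h hn hX hY hZ hYZ hXB ha hb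
    -- main: if Y in class 1 and Z in class 2 then related
    have hAB : ∀ Y Z, I Y l → Y ≠ X → I Z l → Z ≠ X → (∃ a, I Y a ∧ HH H X a) →
        HH H Z B → RR H X Y Z := by
      intro Y Z hY hYX hZ hZX ha hb
      by_contra hcon
      have hsz := RR_size h (H := H) hX hY hZ hYX hZX
      classical
      haveI := h.finP
      haveI := Fintype.ofFinite P
      have h1 := line_card' h hX
      have hinv : ∀ W V, RR H X W V → I W l → W ≠ X → I V l ∧ V ≠ X := by
        rintro W V ⟨e, -, he1, rfl⟩ hW hWX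
        refine ⟨(inc_fix (he1.1 l hX)).2 hW, fun h2 => hWX ?_⟩
        have h3 : e • X = X := he1.1.fixP h
        rw [← h3] at h2
        exact smul_left_cancel e h2
      rw [Nat.card_eq_fintype_card, Fintype.card_subtype] at h1 hsz
      rw [Nat.card_eq_fintype_card, Fintype.card_subtype] at hsz
      have h2 : (Finset.univ.filter fun y => I y l ∧ y ≠ X) =
          (Finset.univ.filter fun y => RR H X Y y) ∪ (Finset.univ.filter fun y => RR H X Z y) := by
        ext y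
        simp only [Finset.mem_filter, Finset.mem_univ, true_and, Finset.mem_union]
        constructor
        · rintro ⟨h3, h4⟩
          rcases hcase y h3 h4 with h5 | h5
          · exact Or.inl (hA2 Y y hY hYX h3 h4 ha h5)
          · exact Or.inr (hB2 Z y hZ hZX h3 h4 hb h5)
        · rintro (h3 | h3)
          · exact hinv _ _ h3 hY hYX
          · exact hinv _ _ h3 hZ hZX
      have h3 : Disjoint (Finset.univ.filter fun y => RR H X Y y)
          (Finset.univ.filter fun y => RR H X Z y) := by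
        rw [Finset.disjoint_left]
        intro y hy1 hy2
        simp only [Finset.mem_filter, Finset.mem_univ, true_and] at hy1 hy2
        exact hcon (hy1.trans (hy2.symm h) h)
      rw [h2, Finset.card_union_of_disjoint h3, hsz] at h1
      obtain ⟨j, hj⟩ := hn
      omega
    intro Y Z hY hZ hYX hZX
    rcases hcase Y hY hYX with h1 | h1 <;> rcases hcase Z hZ hZX with h2 | h2
    · exact hA2 Y Z hY hYX hZ hZX h1 h2
    · exact hAB Y Z hY hYX hZ hZX h1 h2
    · exact (hAB Z Y hZ hZX hY hYX h2 h1).symm h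
    · exact hB2 Y Z hY hYX hZ hZX h1 h2

theorem TA_conc (h : PlN I n) (hpp : ¬ IsPrimePow n) {H : Subgroup (Coll I)} {X : P} {l : L}
    (hX : I X l) (hA : TA H X l) :
    ∃ a, a ≠ l ∧ I X a ∧ (∃ e ∈ H, e ≠ 1 ∧ IsEC e X ∧ Ax e a) ∧ ∀ e ∈ H, IsEC e X → Ax e a := by
  haveI := h.finColl
  haveI := h.finP
  obtain ⟨Y, hY, hYX, -⟩ := h.exists_pt2 l X X
  obtain ⟨Z, hZ, hZX, hZY⟩ := h.exists_pt2 l X Y
  obtain ⟨e, heH, he1, he2⟩ := hA Y Z hY hZ hYX hZX
  have hne : e ≠ 1 := by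
    rintro rfl
    rw [one_smul] at he2
    exact hZY he2.symm
  obtain ⟨a, ha⟩ := he1.1.exists_ax h
  have hXa := he1.ax_mem h ha hne
  refine ⟨a, ?_, hXa, ⟨e, heH, hne, he1, ha⟩, ?_⟩
  · rintro rfl
    have := ha Y hY
    rw [he2] at this
    exact hZY this
  · intro f hfH hf
    by_contra hfa
    obtain ⟨b, hb⟩ := hf.1.exists_ax h
    have hab : a ≠ b := by rintro rfl; exact hfa hb
    have hf1 : f ≠ 1 := by
      rintro rfl
      exact hfa (fun p _ => one_smul _ p)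
    obtain ⟨p, hp, hexp⟩ := el_exp' h he1 hf ha hb hab hne hf1
    haveI : Fact p.Prime := ⟨hp⟩
    set E := H ⊓ EC h X with hE
    have hEp : IsPGroup p E := by
      rintro ⟨g, hg⟩
      refine ⟨1, ?_⟩
      apply Subtype.ext
      show g ^ p ^ 1 = 1
      rw [pow_one]
      exact hexp g (mem_EC.1 hg.2)
    obtain ⟨m, hm⟩ := IsPGroup.iff_card.1 hEp
    have h1 := orb_card E Y
    have h2 : Nat.card {y // ∃ g ∈ E, g • Y = y} = n := by
      rw [← line_card' h hX]
      apply Nat.card_congr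
      apply Equiv.subtypeEquivRight
      intro y
      constructor
      · rintro ⟨g, hg, rfl⟩
        have hgC := mem_EC.1 hg.2
        refine ⟨(inc_fix (hgC.1 l hX)).2 hY, fun h2 => hYX ?_⟩
        have h3 : g • X = X := hgC.1.fixP h
        rw [← h3] at h2
        exact smul_left_cancel g h2
      · rintro ⟨h3, h4⟩
        obtain ⟨g, hg1, hg2, hg3⟩ := hA Y y hY h3 hYX h4
        exact ⟨g, ⟨hg1, mem_EC.2 hg2⟩, hg3⟩
    rw [h2, hm] at h1
    have h3 : n ∣ p ^ m := ⟨_, by rw [h1]; ring⟩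
    obtain ⟨j, -, hj⟩ := (Nat.dvd_prime_pow hp).1 h3
    apply hpp
    have hj0 : j ≠ 0 := by
      rintro rfl
      rw [pow_zero] at hj
      have := h.two_le
      omega
    rw [hj]
    exact hp.isPrimePow.pow hj0

theorem TB_conc (h : PlN I n) (hpp : ¬ IsPrimePow n) {H : Subgroup (Coll I)} {X : P} {l : L}
    (hX : I X l) (hB : TB H X l) :
    ∃ z, z ≠ X ∧ I z l ∧ (∃ e ∈ H, e ≠ 1 ∧ IsEA e l ∧ Ce e z) ∧ ∀ e ∈ H, IsEA e l → Ce e z := by
  have hec : ∀ e : Coll I, IsEC (I := Du I) (du e) l ↔ IsEA e l := by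
    intro e
    unfold IsEC IsEA
    rw [du_eq_one]
    rfl
  obtain ⟨z, h1, h2, ⟨e, he, he1, he2, he3⟩, h3⟩ := TA_conc (I := Du I) h.dual hpp
    (H := H.map du.toMonoidHom) (X := l) (l := X) hX (by
      intro B C hB1 hC1 hBl hCl
      obtain ⟨e, heH, he1, he2⟩ := hB B C hB1 hC1 hBl hCl
      exact ⟨du e, ⟨e, heH, rfl⟩, (hec e).2 he1, he2⟩)
  obtain ⟨f, hf, rfl⟩ := he
  refine ⟨z, h1, h2, ⟨f, hf, fun h4 => he1 ?_, (hec f).1 he2, he3⟩, fun g hg hg1 => ?_⟩
  · rw [h4]; exact map_one _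
  · exact h3 (du g) ⟨g, hg, rfl⟩ ((hec g).2 hg1)

theorem isPrimePow_of_hyp (h : PlN I n) (hn : Odd n) {H : Subgroup (Coll I)} (hyp : Hyp H) :
    IsPrimePow n := by
  by_contra hpp
  have hne : Nonempty P := by
    rw [← not_isEmpty_iff]; intro h1
    have := h.cardP
    rw [Nat.card_of_isEmpty] at this
    omega
  obtain ⟨X⟩ := hne
  obtain ⟨l, hX, -, -⟩ := h.dual.exists_pt2 X (h.dual.exists_pt X).choose (h.dual.exists_pt X).choose
  have hX : I X l := hX
  rcases dichot h hn hyp hX with hA | hB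
  · obtain ⟨a, hal, hXa, ⟨e, heH, he1, he2, he3⟩, -⟩ := TA_conc h hpp hX hA
    rcases dichot h hn hyp hXa with hA | hB
    · obtain ⟨b, hba, -, -, hb⟩ := TA_conc h hpp hXa hA
      exact he1 (ax_unique h he3 (hb e heH he2) (Ne.symm hba))
    · obtain ⟨z, hz, -, -, hb⟩ := TB_conc h hpp hXa hB
      exact he1 (ce_unique h he2.1 (hb e heH (isEA_of h he3 he2.1 hXa)) (Ne.symm hz))
  · obtain ⟨z, hz, hzl, ⟨e, heH, he1, he2, he3⟩, -⟩ := TB_conc h hpp hX hB
    rcases dichot h hn hyp hzl with hA | hB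
    · obtain ⟨b, hba, -, -, hb⟩ := TA_conc h hpp hzl hA
      exact he1 (ax_unique h he2.1 (hb e heH (isEC_of h he2.1 he3 hzl)) (Ne.symm hba))
    · obtain ⟨y, hy, -, -, hb⟩ := TB_conc h hpp hzl hB
      exact he1 (ce_unique h he3 (hb e heH he2) (Ne.symm hy))

end Cfsg.Agent.Lib.OW
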