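import Cfsg.Agent.Lib.OW4

/-! # Subplanes and involutions -/

set_option autoImplicit false

namespace Cfsg.Agent.Lib.OW

open MulAction

universe u v

variable {P : Type u} {L : Type v} {I : P → L → Prop} {n : ℕ}

/-- fixed points of a group of collineations -/
def FP (H : Subgroup (Coll I)) : Type u := {p : P // ∀ g ∈ H, g • p = p}
/-- fixed lines of a group of collineations -/
def FL (H : Subgroup (Coll I)) : Type v := {l : L // ∀ g ∈ H, g • l = l}
/-- incidence on fixed points and lines -/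
def SubI (H : Subgroup (Coll I)) : FP H → FL H → Prop := fun p l => I p.1 l.1

/-- the group fixes a quadrangle -/
def Planar (H : Subgroup (Coll I)) : Prop :=
  ∃ a b c d : P, (∀ g ∈ H, g • a = a) ∧ (∀ g ∈ H, g • b = b) ∧ (∀ g ∈ H, g • c = c) ∧
    (∀ g ∈ H, g • d = d) ∧ Quad I a b c d

theorem sub_pl (h : Pl I) (H : Subgroup (Coll I)) : Pl (SubI H) where
  join := by
    intro p q hpq
    have hpq' : p.1 ≠ q.1 := fun h1 => hpq (Subtype.ext h1)
    obtain ⟨l, h1, h2⟩ := h.join p.1 q.1 hpq'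
    exact ⟨⟨l, fun g hg => smul_of_two h hpq' (p.2 g hg) (q.2 g hg) h1 h2⟩, h1, h2⟩
  meet := by
    intro l m hlm
    have hlm' : l.1 ≠ m.1 := fun h1 => hlm (Subtype.ext h1)
    obtain ⟨p, h1, h2⟩ := h.meet l.1 m.1 hlm'
    exact ⟨⟨p, fun g hg => smul_of_two' h hlm' (l.2 g hg) (m.2 g hg) h1 h2⟩, h1, h2⟩
  uniq := by
    intro p q l m h1 h2 h3 h4
    rcases h.uniq h1 h2 h3 h4 with h5 | h5
    · exact Or.inl (Subtype.ext h5)
    · exact Or.inr (Subtype.ext h5)

theorem sub_plN (h : PlN I n) {H : Subgroup (Coll I)} (hH : Planar H) :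
    ∃ k, PlN (SubI H) k := by
  haveI := h.finP
  haveI := h.finL
  haveI : Finite (FP H) := Subtype.finite
  haveI : Finite (FL H) := Subtype.finite
  obtain ⟨a, b, c, d, ha, hb, hc, hd, q⟩ := hH
  exact (sub_pl h.toPl H).toN (a := ⟨a, ha⟩) (b := ⟨b, hb⟩) (c := ⟨c, hc⟩) (d := ⟨d, hd⟩)
    { ab := fun h1 => q.ab (congrArg Subtype.val h1)
      abc := fun l => q.abc l.1
      abd := fun l => q.abd l.1
      acd := fun l => q.acd l.1
      bcd := fun l => q.bcd l.1 }

/-- restriction of the normalizer to the substructure -/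
def res (H : Subgroup (Coll I)) : ↥(Subgroup.normalizer (H : Set (Coll I))) →* Coll (SubI H) where
  toFun g := ⟨(Equiv.Perm.subtypePerm (g.1.1.1) (p := fun p : P => ∀ k ∈ H, k • p = p) (by
      intro p
      constructor
      · intro h1 k hk
        have h2 := (Subgroup.mem_normalizer_iff.1 g.2 k).1 hk
        have h3 : (g.1 * k * g.1⁻¹) • (g.1 • p) = g.1 • p := h1 _ h2
        rw [mul_smul, mul_smul, inv_smul_smul] at h3
        exact smul_left_cancel g.1 h3
      · intro h1 k hk
        have h2 : g.1⁻¹ * k * g.1 ∈ H := by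
          rw [Subgroup.mem_normalizer_iff.1 g.2]
          simpa [mul_assoc] using hk
        have h3 := h1 _ h2
        show k • (g.1 • p) = g.1 • p
        rw [mul_smul, mul_smul, inv_smul_eq_iff] at h3
        exact h3),
    Equiv.Perm.subtypePerm (g.1.1.2) (p := fun p : L => ∀ k ∈ H, k • p = p) (by
      intro p
      constructor
      · intro h1 k hk
        have h2 := (Subgroup.mem_normalizer_iff.1 g.2 k).1 hk
        have h3 : (g.1 * k * g.1⁻¹) • (g.1 • p) = g.1 • p := h1 _ h2
        rw [mul_smul, mul_smul, inv_smul_smul] at h3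
        exact smul_left_cancel g.1 h3
      · intro h1 k hk
        have h2 : g.1⁻¹ * k * g.1 ∈ H := by
          rw [Subgroup.mem_normalizer_iff.1 g.2]
          simpa [mul_assoc] using hk
        have h3 := h1 _ h2
        show k • (g.1 • p) = g.1 • p
        rw [mul_smul, mul_smul, inv_smul_eq_iff] at h3
        exact h3)), fun p l => g.1.2 p.1 l.1⟩
  map_one' := rfl
  map_mul' g k := rfl

theorem res_P (H : Subgroup (Coll I)) (g : ↥(Subgroup.normalizer (H : Set (Coll I)))) (p : FP H) :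
    (res H g • p).1 = g.1 • p.1 := rfl

theorem res_L (H : Subgroup (Coll I)) (g : ↥(Subgroup.normalizer (H : Set (Coll I)))) (p : FL H) :
    (res H g • p).1 = g.1 • p.1 := rfl

/-! ### involutions -/

theorem zp_fix {g : Coll I} {x : P} (hx : g • x = x) : ∀ k ∈ Subgroup.zpowers g, k • x = x := by
  intro k hk
  have h2 : Subgroup.zpowers g ≤ stabilizer (Coll I) x := by
    rw [Subgroup.zpowers_le]; exact hx
  exact h2 hk

theorem zp_fixL {g : Coll I} {x : L} (hx : g • x = x) : ∀ k ∈ Subgroup.zpowers g, k • x = x := by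
  intro k hk
  have h2 : Subgroup.zpowers g ≤ stabilizer (Coll I) x := by
    rw [Subgroup.zpowers_le]; exact hx
  exact h2 hk

section inv
variable (h : PlN I n) {g : Coll I} (hg : g * g = 1)
include h hg

theorem inv_gg (x : P) : g • g • x = x := by rw [← mul_smul, hg, one_smul]

theorem inv_line {X : P} (hX : g • X ≠ X) {l : L} (h1 : I X l) (h2 : I (g • X) l) : g • l = l := by
  have h3 : I (g • X) (g • l) := (inc g).2 h1
  have h4 : I X (g • l) := by
    have := (inc g).2 h2
    rwa [inv_gg h hg] at this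
  exact (h.uniq h3 h4 h2 h1).resolve_left hX

theorem inv_off_card {X : P} {l : L} (hX : g • X ≠ X) (hXl : I X l) (hl : g • l = l) :
    Nat.card {Y : P // g • Y = Y ∧ ¬ I Y l} = n := by
  haveI := h.finP
  haveI := h.finL
  have h0 : Nat.card {m : L // I X m ∧ m ≠ l} = n := line_card' (I := Du I) h.dual hXl
  rw [← h0]
  have hgX : I (g • X) l := (inc_fix hl).2 hXl
  have huniq : ∀ m, I X m → g • m = m → m = l := by
    intro m hm1 hm2
    have : I (g • X) m := (inc_fix hm2).2 hm1
    exact (h.uniq hm1 this hXl hgX).resolve_left (Ne.symm hX)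
  have hex : ∀ Y : {Y : P // g • Y = Y ∧ ¬ I Y l}, ∃ m, I X m ∧ I Y.1 m := by
    rintro ⟨Y, hY1, hY2⟩
    exact h.join X Y (by rintro rfl; exact hX hY1)
  choose f hf1 hf2 using hex
  refine Nat.card_congr (Equiv.ofBijective (fun Y => ⟨f Y, hf1 Y, ?_⟩) ⟨?_, ?_⟩)
  · intro h1
    have h7 := hf2 Y
    rw [h1] at h7
    exact Y.2.2 h7
  · intro Y Z hYZ
    have h1 : f Y = f Z := congrArg Subtype.val hYZ
    by_contra h2
    have h3 : Y.1 ≠ Z.1 := fun h4 => h2 (Subtype.ext h4)
    have h4 : I Z.1 (f Y) := by rw [h1]; exact hf2 Z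
    have h5 := smul_of_two h.toPl h3 Y.2.1 Z.2.1 (hf2 Y) h4
    have h6 := huniq _ (hf1 Y) h5
    have h7 := hf2 Y
    rw [h6] at h7
    exact Y.2.2 h7
  · rintro ⟨m, hm1, hm2⟩
    have hgm : m ≠ g • m := fun h1 => hm2 (huniq m hm1 h1.symm)
    obtain ⟨Y, hY1, hY2⟩ := h.meet m (g • m) hgm
    have h3 : I (g • Y) (g • m) := (inc g).2 hY1
    have h4 : I (g • Y) m := by
      have := (inc g).2 hY2
      rwa [← mul_smul, hg, one_smul] at this
    have h5 : Y = g • Y := (h.uniq hY1 h4 hY2 h3).resolve_right hgm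
    have h6 : ¬ I Y l := by
      intro h7
      have : Y = X := (h.uniq hY1 hm1 h7 hXl).resolve_right hm2
      subst this
      exact hX h5.symm
    refine ⟨⟨Y, h5.symm, h6⟩, ?_⟩
    apply Subtype.ext
    show f ⟨Y, h5.symm, h6⟩ = m
    have hYX : X ≠ Y := by rintro rfl; exact h6 hXl
    exact (h.uniq (hf1 _) (hf2 ⟨Y, h5.symm, h6⟩) hm1 hY1).resolve_left hYX

theorem inv_dich (hg1 : g ≠ 1) (hA : ¬ ∃ a, Ax g a) :
    Planar (Subgroup.zpowers g) ∧ ∀ m, PlN (SubI (Subgroup.zpowers g)) m → n = m ^ 2 := by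
  classical
  haveI := h.finP
  haveI := h.finL
  haveI := Fintype.ofFinite P
  haveI := Fintype.ofFinite L
  -- total count
  have htot : ∀ l, g • l = l → Nat.card {Y : P // g • Y = Y} =
      Nat.card {Y : P // g • Y = Y ∧ I Y l} + n := by
    intro l hl
    have h1 : ∃ X, I X l ∧ g • X ≠ X := by
      by_contra h2
      push Not at h2
      exact hA ⟨l, h2⟩
    obtain ⟨X, hX1, hX2⟩ := h1
    rw [← inv_off_card h hg hX2 hX1 hl]
    simp only [Nat.card_eq_fintype_card, Fintype.card_subtype]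
    rw [← Finset.card_union_of_disjoint]
    · congr 1
      ext y
      simp only [Finset.mem_filter, Finset.mem_univ, true_and, Finset.mem_union]
      tauto
    · rw [Finset.disjoint_left]
      intro y hy1 hy2
      simp only [Finset.mem_filter, Finset.mem_univ, true_and] at hy1 hy2
      exact hy2.2 hy1.2
  -- a fixed line
  have hX0 : ∃ X : P, g • X ≠ X := by
    by_contra h1
    push Not at h1
    exact hg1 (ext_of_pts h h1)
  obtain ⟨X0, hX0⟩ := hX0
  obtain ⟨l0, h01, h02⟩ := h.join X0 (g • X0) (Ne.symm hX0)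
  have hl0 : g • l0 = l0 := inv_line h hg hX0 h01 h02
  have hoff := inv_off_card h hg hX0 h01 hl0
  -- two fixed points off l0
  have h2 := h.two_le
  have htwo : ∃ A B : P, A ≠ B ∧ g • A = A ∧ g • B = B ∧ ¬ I A l0 ∧ ¬ I B l0 := by
    rw [Nat.card_eq_fintype_card] at hoff
    have h3 : 1 < Fintype.card {Y : P // g • Y = Y ∧ ¬ I Y l0} := by omega
    obtain ⟨A, B, hAB⟩ := Fintype.one_lt_card_iff.1 h3
    exact ⟨A.1, B.1, fun h4 => hAB (Subtype.ext h4), A.2.1, B.2.1, A.2.2, B.2.2⟩
  obtain ⟨A, B, hAB, hgA, hgB, hAl, hBl⟩ := htwo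
  set f := Nat.card {Y : P // g • Y = Y ∧ I Y l0} with hf
  have hconst : ∀ l, g • l = l → Nat.card {Y : P // g • Y = Y ∧ I Y l} = f := by
    intro l hl
    have h3 := htot l hl
    have h4 := htot l0 hl0
    omega
  obtain ⟨m0, hm1, hm2⟩ := h.join A B hAB
  have hm0 := smul_of_two h.toPl hAB hgA hgB hm1 hm2
  have hf2 : 2 ≤ f := by
    rw [← hconst m0 hm0, Nat.card_eq_fintype_card]
    have : 1 < Fintype.card {Y : P // g • Y = Y ∧ I Y m0} := by
      rw [Fintype.one_lt_card_iff]
      exact ⟨⟨A, hgA, hm1⟩, ⟨B, hgB, hm2⟩, fun h3 => hAB (congrArg Subtype.val h3)⟩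
    omega
  have hthird : 3 ≤ f := by
    by_contra hlt
    have hf2' : f = 2 := by omega
    -- every fixed point is a centre
    have hcen : ∀ C : P, g • C = C → Ce g C := by
      intro C hC l hl
      have hex : ∀ Y : {Y : P // g • Y = Y ∧ Y ≠ C}, ∃ m, I C m ∧ I Y.1 m :=
        fun Y => h.join C Y.1 (Ne.symm Y.2.2)
      choose F hF1 hF2 using hex
      have hFfix : ∀ Y, g • F Y = F Y := fun Y =>
        smul_of_two h.toPl Y.2.2 Y.2.1 hC (hF2 Y) (hF1 Y)
      have hinj : Function.Injective (fun Y => (⟨F Y, hF1 Y⟩ : {m // I C m})) := by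
        intro Y Z hYZ
        have h3 : F Y = F Z := congrArg Subtype.val hYZ
        by_contra h4
        have h5 : Y.1 ≠ Z.1 := fun h6 => h4 (Subtype.ext h6)
        have h6 := hconst (F Y) (hFfix Y)
        rw [hf2', Nat.card_eq_fintype_card, Fintype.card_subtype] at h6
        have h7 : ({C, Y.1, Z.1} : Finset P) ⊆
            Finset.univ.filter fun W => g • W = W ∧ I W (F Y) := by
          intro W hW
          simp only [Finset.mem_insert, Finset.mem_singleton] at hW
          simp only [Finset.mem_filter, Finset.mem_univ, true_and]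
          rcases hW with rfl | rfl | rfl
          · exact ⟨hC, hF1 Y⟩
          · exact ⟨Y.2.1, hF2 Y⟩
          · exact ⟨Z.2.1, by rw [h3]; exact hF2 Z⟩
        have h8 := Finset.card_le_card h7
        rw [h6, Finset.card_eq_three.2 ⟨C, Y.1, Z.1, Ne.symm Y.2.2, Ne.symm Z.2.2, h5, rfl⟩] at h8
        omega
      have hcard : Nat.card {Y : P // g • Y = Y ∧ Y ≠ C} = n + 1 := by
        have h3 := htot l0 hl0
        rw [← hf, hf2'] at h3
        rw [Nat.card_eq_fintype_card, Fintype.card_subtype] at h3 ⊢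
        have h4 : (Finset.univ.filter fun Y : P => g • Y = Y) =
            insert C (Finset.univ.filter fun Y => g • Y = Y ∧ Y ≠ C) := by
          ext y
          simp only [Finset.mem_filter, Finset.mem_univ, true_and, Finset.mem_insert]
          constructor
          · intro h5
            by_cases h6 : y = C
            · exact Or.inl h6
            · exact Or.inr ⟨h5, h6⟩
          · rintro (rfl | h5)
            · exact hC
            · exact h5.1
        rw [h4, Finset.card_insert_of_notMem (by simp)] at h3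
        omega
      have hbij := (Nat.bijective_iff_injective_and_card
        (fun Y => (⟨F Y, hF1 Y⟩ : {m // I C m}))).2 ⟨hinj, by rw [hcard, h.pt_card C]⟩
      obtain ⟨Y, hY⟩ := hbij.2 ⟨l, hl⟩
      have : F Y = l := congrArg Subtype.val hY
      rw [← this]; exact hFfix Y
    exact hg1 (ce_unique h (hcen A hgA) (hcen B hgB) hAB)
  -- third fixed point on a fixed line
  have hthird' : ∀ l, g • l = l → ∀ x y : P, ∃ z, g • z = z ∧ I z l ∧ z ≠ x ∧ z ≠ y := by
    intro l hl x y
    by_contra hc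
    push Not at hc
    have h3 := hconst l hl
    have h4 : Nat.card {Y : P // g • Y = Y ∧ I Y l} ≤ 2 := by
      rw [Nat.card_eq_fintype_card, Fintype.card_subtype]
      refine (Finset.card_le_card (t := {x, y}) ?_).trans Finset.card_le_two
      intro p hp
      simp only [Finset.mem_filter, Finset.mem_univ, true_and] at hp
      simp only [Finset.mem_insert, Finset.mem_singleton]
      by_contra hc2
      push Not at hc2
      exact hc2.2 (hc p hp.1 hp.2 hc2.1)
    omega
  constructor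
  · obtain ⟨X1, hX1, hX1l, -, -⟩ := hthird' l0 hl0 A A
    obtain ⟨X2, hX2, hX2l, hX21, -⟩ := hthird' l0 hl0 X1 X1
    have hAX1 : A ≠ X1 := by rintro rfl; exact hAl hX1l
    have hAX2 : A ≠ X2 := by rintro rfl; exact hAl hX2l
    obtain ⟨k1, hk1, hk1'⟩ := h.join A X1 hAX1
    obtain ⟨k2, hk2, hk2'⟩ := h.join A X2 hAX2
    have hk1f := smul_of_two h.toPl hAX1 hgA hX1 hk1 hk1'
    have hk2f := smul_of_two h.toPl hAX2 hgA hX2 hk2 hk2'
    obtain ⟨Y1, hY1, hY1k, hY1A, hY1X⟩ := hthird' k1 hk1f A X1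
    obtain ⟨Y2, hY2, hY2k, hY2A, hY2X⟩ := hthird' k2 hk2f A X2
    have hk12 : k1 ≠ k2 := by
      rintro rfl
      have : k1 = l0 := (h.uniq hk1' hk2' hX1l hX2l).resolve_left (Ne.symm hX21)
      subst this
      exact hAl hk1
    have hno1 : ∀ Z, I Z k1 → Z ≠ A → ¬ I Z k2 := by
      intro Z hZ1 hZA hZ2
      rcases h.uniq hZ1 hk1 hZ2 hk2 with h3 | h3
      · exact hZA h3
      · exact hk12 h3
    refine ⟨X1, Y1, X2, Y2, zp_fix hX1, zp_fix hY1, zp_fix hX2, zp_fix hY2, ?_⟩
    refine ⟨Ne.symm hY1X, ?_, ?_, ?_, ?_⟩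
    · rintro l ⟨h3, h4, h5⟩
      have : l = k1 := (h.uniq h3 h4 hk1' hY1k).resolve_left (Ne.symm hY1X)
      subst this
      rcases h.uniq h5 hk1 hk2' hk2 with h6 | h6
      · exact hAX2 h6.symm
      · exact hk12 h6
    · rintro l ⟨h3, h4, h5⟩
      have : l = k1 := (h.uniq h3 h4 hk1' hY1k).resolve_left (Ne.symm hY1X)
      subst this
      exact hno1 Y2 h5 hY2A hY2k
    · rintro l ⟨h3, h4, h5⟩
      have : l = k2 := (h.uniq h4 h5 hk2' hY2k).resolve_left (Ne.symm hY2X)
      subst this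
      exact hno1 X1 hk1' (Ne.symm hAX1) h3
    · rintro l ⟨h3, h4, h5⟩
      have : l = k2 := (h.uniq h4 h5 hk2' hY2k).resolve_left (Ne.symm hY2X)
      subst this
      exact hno1 Y1 hY1k hY1A h3
  · intro m hm
    have h3 := hm.cardP
    have h4 : Nat.card (FP (Subgroup.zpowers g)) = Nat.card {Y : P // g • Y = Y} := by
      apply Nat.card_congr
      apply Equiv.subtypeEquivRight
      intro x
      exact ⟨fun h5 => h5 g (Subgroup.mem_zpowers g), zp_fix⟩
    have h5 := hm.line_card ⟨l0, zp_fixL hl0⟩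
    have h6 : Nat.card {p : FP (Subgroup.zpowers g) // SubI (Subgroup.zpowers g) p ⟨l0, zp_fixL hl0⟩}
        = Nat.card {Y : P // g • Y = Y ∧ I Y l0} := by
      refine Nat.card_congr ⟨fun p => ⟨p.1.1, p.1.2 g (Subgroup.mem_zpowers g), p.2⟩,
        fun p => ⟨⟨p.1, zp_fix p.2.1⟩, p.2.2⟩, ?_, ?_⟩
      · intro p; rfl
      · intro p; rfl
    have h7 := htot l0 hl0
    rw [h6] at h5
    rw [h4] at h3
    rw [h3, h5] at h7
    linarith

end inv

end Cfsg.Agent.Lib.OW
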