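import Cfsg.Agent.Lib.OW5

/-! # Planes with a 2-transitive group: counting -/

set_option autoImplicit false

namespace Cfsg.Agent.Lib.OW

open MulAction

universe u v

variable {P : Type u} {L : Type v} {I : P → L → Prop} {n : ℕ}

/-- 2-transitivity on points -/
def T2 (I : P → L → Prop) : Prop := ∀ p q p' q' : P, p ≠ q → p' ≠ q' →
  ∃ g : Coll I, g • p = p' ∧ g • q = q'

/-- existence of a nontrivial elation -/
def HasEl (I : P → L → Prop) : Prop := ∃ (g : Coll I) (c : P) (a : L), g ≠ 1 ∧ I c a ∧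
  Ax g a ∧ Ce g c

theorem orbits_eq (h : PlN I n) (H : Subgroup (Coll I)) :
    Nat.card (Quotient (orbitRel H P)) = Nat.card (Quotient (orbitRel H L)) := by
  classical
  haveI := h.finP
  haveI := h.finL
  haveI := h.finColl
  haveI := Fintype.ofFinite P
  haveI := Fintype.ofFinite L
  haveI := Fintype.ofFinite H
  haveI : Fintype (Quotient (orbitRel H P)) := Fintype.ofFinite _
  haveI : Fintype (Quotient (orbitRel H L)) := Fintype.ofFinite _
  have h1 := sum_card_fixedBy_eq_card_orbits_mul_card_group H P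
  have h2 := sum_card_fixedBy_eq_card_orbits_mul_card_group H L
  have h3 : ∑ a : H, Fintype.card (fixedBy P a) = ∑ a : H, Fintype.card (fixedBy L a) := by
    apply Finset.sum_congr rfl
    intro a _
    have := card_fix h a.1
    rw [← Nat.card_eq_fintype_card, ← Nat.card_eq_fintype_card]
    exact this
  rw [Nat.card_eq_fintype_card, Nat.card_eq_fintype_card]
  have h4 : 0 < Fintype.card H := Fintype.card_pos
  exact Nat.eq_of_mul_eq_mul_right h4 (h1.symm.trans (h3.trans h2))

theorem PlN.exists_ne (h : PlN I n) (p : P) : ∃ q, q ≠ p := by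
  obtain ⟨l, -⟩ := h.dual.exists_pt p
  obtain ⟨q, -, hq, -⟩ := h.exists_pt2 l p p
  exact ⟨q, hq⟩

theorem line_trans (h : PlN I n) (t2 : T2 I) {Q : P} {m1 m2 : L} (hm1 : ¬ I Q m1)
    (hm2 : ¬ I Q m2) : ∃ g : Coll I, g • Q = Q ∧ g • m1 = m2 := by
  classical
  haveI := h.finP
  haveI := h.finL
  set H := stabilizer (Coll I) Q with hH
  by_contra hc
  push Not at hc
  obtain ⟨Q', hQ'⟩ := h.exists_ne Q
  obtain ⟨l0, hl0⟩ := h.dual.exists_pt Q
  have hl0 : I Q l0 := hl0
  haveI : Finite (Quotient (orbitRel H P)) := inferInstance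
  haveI : Finite (Quotient (orbitRel H L)) := inferInstance
  have h1 : Nat.card (Quotient (orbitRel H P)) ≤ 2 := by
    have hs : Function.Surjective (fun b : Bool => (if b then Quotient.mk (orbitRel H P) Q else
        Quotient.mk (orbitRel H P) Q')) := by
      intro x
      induction x using Quotient.inductionOn with
      | h x =>
        by_cases hx : x = Q
        · subst hx
          exact ⟨true, by simp⟩
        · refine ⟨false, ?_⟩
          simp only [Bool.false_eq_true, if_false]
          apply Quotient.sound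
          obtain ⟨g, hg1, hg2⟩ := t2 Q x Q Q' (Ne.symm hx) (Ne.symm hQ')
          exact ⟨⟨g, hg1⟩, hg2⟩
    have := Nat.card_le_card_of_surjective _ hs
    simpa using this
  have h2 : 3 ≤ Nat.card (Quotient (orbitRel H L)) := by
    have hinv : ∀ (g : H) (l : L), I Q (g • l) ↔ I Q l := fun g l => inc_fix' g.2
    have hi : Function.Injective (fun b : Option Bool => match b with
      | none => Quotient.mk (orbitRel H L) l0
      | some true => Quotient.mk (orbitRel H L) m1
      | some false => Quotient.mk (orbitRel H L) m2) := by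
      have e1 : Quotient.mk (orbitRel H L) l0 ≠ Quotient.mk (orbitRel H L) m1 := by
        intro h3
        obtain ⟨g, hg⟩ := Quotient.exact h3
        have hg' : g • m1 = l0 := hg
        rw [← hg', hinv] at hl0
        exact hm1 hl0
      have e2 : Quotient.mk (orbitRel H L) l0 ≠ Quotient.mk (orbitRel H L) m2 := by
        intro h3
        obtain ⟨g, hg⟩ := Quotient.exact h3
        have hg' : g • m2 = l0 := hg
        rw [← hg', hinv] at hl0
        exact hm2 hl0
      have e3 : Quotient.mk (orbitRel H L) m2 ≠ Quotient.mk (orbitRel H L) m1 := by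
        intro h3
        obtain ⟨g, hg⟩ := Quotient.exact h3
        exact hc g.1 g.2 hg
      intro a b hab
      rcases a with _ | _ | _ <;> rcases b with _ | _ | _ <;> simp only at hab <;>
        first
          | rfl
          | exact absurd hab e1
          | exact absurd hab.symm e1
          | exact absurd hab e2
          | exact absurd hab.symm e2
          | exact absurd hab e3
          | exact absurd hab.symm e3
    have := Nat.card_le_card_of_injective _ hi
    simpa using this
  have h3 := orbits_eq h H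
  omega

/-! ### counting -/

theorem card_off (h : PlN I n) (Q : P) : Nat.card {l : L // ¬ I Q l} = n ^ 2 := by
  classical
  haveI := h.finL
  haveI := Fintype.ofFinite L
  have h1 := h.cardL
  have h2 := h.pt_card Q
  rw [Nat.card_eq_fintype_card] at h1 h2
  rw [Nat.card_eq_fintype_card]
  have h3 := Fintype.card_subtype_compl (fun l : L => I Q l)
  omega

theorem card_ne (h : PlN I n) (Q : P) : Nat.card {p : P // p ≠ Q} = n ^ 2 + n := by
  classical
  haveI := h.finP
  haveI := Fintype.ofFinite P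
  have h1 := h.cardP
  rw [Nat.card_eq_fintype_card] at h1
  rw [Nat.card_eq_fintype_card]
  have h3 := Fintype.card_subtype_compl (fun p : P => p = Q)
  rw [Fintype.card_subtype_eq] at h3
  have h4 : Fintype.card {p : P // ¬ p = Q} = Fintype.card {p : P // p ≠ Q} := rfl
  omega

theorem cardG1 (h : PlN I n) (t2 : T2 I) (Q : P) :
    Nat.card (Coll I) = Nat.card ↥(stabilizer (Coll I) Q) * (n ^ 2 + n + 1) := by
  have h1 := orb_card (⊤ : Subgroup (Coll I)) Q
  rw [top_inf_eq, Subgroup.card_top] at h1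
  rw [h1]
  congr 1
  rw [← h.cardP]
  apply Nat.card_congr
  refine (Equiv.subtypeEquivRight ?_).trans (Equiv.subtypeUnivEquiv (p := fun _ => True)
    (fun _ => trivial))
  intro y
  simp only [Subgroup.mem_top, true_and, iff_true]
  obtain ⟨Q', hQ'⟩ := h.exists_ne Q
  obtain ⟨y', hy'⟩ := h.exists_ne y
  obtain ⟨g, hg, -⟩ := t2 Q Q' y y' (Ne.symm hQ') (Ne.symm hy')
  exact ⟨g, hg⟩

theorem cardG2 (h : PlN I n) (t2 : T2 I) {Q X : P} (hXQ : X ≠ Q) :
    Nat.card ↥(stabilizer (Coll I) Q) =
      Nat.card ↥(stabilizer (Coll I) Q ⊓ stabilizer (Coll I) X) * (n ^ 2 + n) := by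
  have h1 := orb_card (stabilizer (Coll I) Q) X
  rw [h1]
  congr 1
  rw [← card_ne h Q]
  apply Nat.card_congr
  apply Equiv.subtypeEquivRight
  intro y
  constructor
  · rintro ⟨g, hg, rfl⟩ h2
    have hg' : g • Q = Q := hg
    rw [← hg'] at h2
    exact hXQ (smul_left_cancel g h2)
  · intro hy
    obtain ⟨g, hg1, hg2⟩ := t2 Q X Q y (Ne.symm hXQ) (Ne.symm hy)
    exact ⟨g, hg1, hg2⟩

theorem cardG3 (h : PlN I n) (t2 : T2 I) {Q : P} {B : L} (hQB : ¬ I Q B) :
    Nat.card ↥(stabilizer (Coll I) Q) =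
      Nat.card ↥(stabilizer (Coll I) Q ⊓ stabilizer (Coll I) B) * n ^ 2 := by
  have h1 := orb_card (stabilizer (Coll I) Q) B
  rw [h1]
  congr 1
  rw [← card_off h Q]
  apply Nat.card_congr
  apply Equiv.subtypeEquivRight
  intro y
  constructor
  · rintro ⟨g, hg, rfl⟩ h2
    exact hQB ((inc_fix' hg).1 h2)
  · intro hy
    obtain ⟨g, hg1, hg2⟩ := line_trans h t2 hQB hy
    exact ⟨g, hg1, hg2⟩

/-- transitivity of `G_{X,Q}` on the lines through `X` not through `Q` -/
theorem cardK (h : PlN I n) (t2 : T2 I) {Q X : P} {B : L} (hXB : I X B) (hQB : ¬ I Q B) :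
    Nat.card ↥(stabilizer (Coll I) Q ⊓ stabilizer (Coll I) X) =
      Nat.card ↥(stabilizer (Coll I) Q ⊓ stabilizer (Coll I) X ⊓ stabilizer (Coll I) B) * n ∧
    (∀ C, I X C → ¬ I Q C → ∃ g : Coll I, g • Q = Q ∧ g • X = X ∧ g • B = C) := by
  haveI := h.finColl
  haveI := h.finL
  haveI := h.finP
  have hXQ : X ≠ Q := by rintro rfl; exact hQB hXB
  obtain ⟨l, hXl, hQl⟩ := h.join X Q hXQ
  have e1 := cardG2 h t2 hXQ
  have e2 := cardG3 h t2 hQB
  have e3 := orb_card (stabilizer (Coll I) Q ⊓ stabilizer (Coll I) X) B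
  have e4 := orb_card (stabilizer (Coll I) Q ⊓ stabilizer (Coll I) B) X
  set J := stabilizer (Coll I) Q ⊓ stabilizer (Coll I) X ⊓ stabilizer (Coll I) B with hJ
  have hJ' : stabilizer (Coll I) Q ⊓ stabilizer (Coll I) B ⊓ stabilizer (Coll I) X = J := by
    rw [hJ]; ac_rfl
  rw [hJ'] at e4
  set s := Nat.card {y : L // ∃ g ∈ stabilizer (Coll I) Q ⊓ stabilizer (Coll I) X, g • B = y}
    with hs
  set r := Nat.card {y : P // ∃ g ∈ stabilizer (Coll I) Q ⊓ stabilizer (Coll I) B, g • X = y}
    with hr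
  have hJpos : 0 < Nat.card J := Nat.card_pos
  have hn := h.two_le
  rw [e3] at e1
  rw [e4, e1] at e2
  have e5 : s * (n + 1) = r * n := by
    have h1 : Nat.card J * n * (s * (n + 1)) = Nat.card J * n * (r * n) := by
      have h2 : Nat.card J * s * (n ^ 2 + n) = Nat.card J * n * (s * (n + 1)) := by ring
      have h3 : Nat.card J * r * n ^ 2 = Nat.card J * n * (r * n) := by ring
      rw [← h2, ← h3]; exact e2
    exact Nat.eq_of_mul_eq_mul_left (by positivity) h1
  have e6 : n ∣ s := by
    have h1 : n ∣ s * (n + 1) := ⟨r, by rw [e5]; ring⟩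
    exact (Nat.Coprime.dvd_mul_right (by simp)).1 h1
  have hsub : ∀ y : L, (∃ g ∈ stabilizer (Coll I) Q ⊓ stabilizer (Coll I) X, g • B = y) →
      (I X y ∧ y ≠ l) := by
    rintro y ⟨g, hg, rfl⟩
    have hgX : g • X = X := hg.2
    have hgQ : g • Q = Q := hg.1
    refine ⟨(inc_fix' hgX).2 hXB, fun h1 => hQB ?_⟩
    rw [← inc_fix' hgQ, h1]
    exact hQl
  have hn1 : Nat.card {y : L // I X y ∧ y ≠ l} = n := line_card' (I := Du I) h.dual hXl
  have hle : s ≤ n := by
    rw [← hn1, hs]
    apply Nat.card_le_card_of_injective (fun y => ⟨y.1, hsub y.1 y.2⟩)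
    intro a b hab
    exact Subtype.ext (congrArg (fun x => x.1) hab)
  have hspos : 0 < s := by
    rw [hs]
    haveI : Nonempty {y : L // ∃ g ∈ stabilizer (Coll I) Q ⊓ stabilizer (Coll I) X, g • B = y} :=
      ⟨⟨B, 1, Subgroup.one_mem _, one_smul _ _⟩⟩
    exact Nat.card_pos
  have hsn : s = n := le_antisymm hle (Nat.le_of_dvd hspos e6)
  refine ⟨by rw [e3, hsn], ?_⟩
  intro C hXC hQC
  have hinj : Function.Injective
      (fun y : {y : L // ∃ g ∈ stabilizer (Coll I) Q ⊓ stabilizer (Coll I) X, g • B = y} =>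
        (⟨y.1, hsub y.1 y.2⟩ : {y : L // I X y ∧ y ≠ l})) := by
    intro a b hab
    exact Subtype.ext (congrArg (fun x => x.1) hab)
  have hbij := (Nat.bijective_iff_injective_and_card _).2 ⟨hinj, by rw [hn1, ← hs, hsn]⟩
  obtain ⟨⟨y, g, hg, hgy⟩, hy⟩ := hbij.2 ⟨C, hXC, by rintro rfl; exact hQC hQl⟩
  have hyC : y = C := congrArg Subtype.val hy
  exact ⟨g, hg.1, hg.2, by rw [hgy, hyC]⟩

theorem cardG4 (h : PlN I n) (t2 : T2 I) {Q X : P} (hXQ : X ≠ Q) :
    Nat.card (Coll I) = Nat.card ↥(stabilizer (Coll I) Q ⊓ stabilizer (Coll I) X) *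
      (n ^ 2 + n) * (n ^ 2 + n + 1) := by
  rw [cardG1 h t2 Q, cardG2 h t2 hXQ]

end Cfsg.Agent.Lib.OW
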