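import Cfsg.Agent.Lib.OW6

/-! # Existence of elations: prime power order and even order -/

set_option autoImplicit false

namespace Cfsg.Agent.Lib.OW

open MulAction

universe u v

variable {P : Type u} {L : Type v} {I : P → L → Prop} {n : ℕ}

/-! ### p-groups -/

theorem ex_syl {G : Type*} [Group G] [Finite G] {p : ℕ} [Fact p.Prime] {M Q : Subgroup G}
    (hQM : Q ≤ M) (hQ : IsPGroup p Q) : ∃ (T : Subgroup G) (v : ℕ), Q ≤ T ∧ T ≤ M ∧
      Nat.card T = p ^ v ∧ p ^ v ∣ Nat.card M ∧ ¬ p ^ (v + 1) ∣ Nat.card M := by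
  have hQ' : IsPGroup p (Q.subgroupOf M) := by
    apply IsPGroup.of_injective hQ ((Subgroup.subgroupOfEquivOfLe hQM).toMonoidHom)
    exact (Subgroup.subgroupOfEquivOfLe hQM).injective
  obtain ⟨S, hS⟩ := hQ'.exists_le_sylow
  refine ⟨(S : Subgroup M).map M.subtype, (Nat.card M).factorization p, ?_, ?_, ?_, ?_, ?_⟩
  · intro x hx
    exact ⟨⟨x, hQM hx⟩, hS hx, rfl⟩
  · exact Subgroup.map_subtype_le _
  · rw [Subgroup.card_map_of_injective M.subtype_injective, S.card_eq_multiplicity]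
  · exact Nat.ordProj_dvd _ _
  · exact Nat.pow_succ_factorization_not_dvd Nat.card_pos.ne' Fact.out

theorem norm_grow {G : Type*} [Group G] [Finite G] {p : ℕ} [Fact p.Prime] {T Q : Subgroup G}
    (hQT : Q ≤ T) (hT : IsPGroup p T) (hne : Q ≠ T) :
    ∃ t ∈ T, t ∉ Q ∧ t ^ p ∈ Q ∧ t ∈ Subgroup.normalizer (Q : Set G) := by
  haveI := hT.isNilpotent
  have h1 : Q.subgroupOf T < ⊤ := by
    rw [lt_top_iff_ne_top]
    intro h2
    rw [Subgroup.subgroupOf_eq_top] at h2
    exact hne (le_antisymm hQT h2)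
  have h2 := Group.normalizerCondition_of_isNilpotent (G := T) _ h1
  obtain ⟨t, ht1, ht2⟩ := SetLike.exists_of_lt h2
  have hN : (t : G) ∈ Subgroup.normalizer (Q : Set G) := by
    rw [Subgroup.mem_normalizer_iff]
    intro x
    constructor
    · intro hx
      have := (Subgroup.mem_normalizer_iff.1 ht1 ⟨x, hQT hx⟩).1 hx
      exact this
    · intro hx
      have hxT : x ∈ T := by
        have h3 : (t : G) * x * (t : G)⁻¹ ∈ T := hQT hx
        have h4 := T.mul_mem (T.mul_mem (T.inv_mem t.2) h3) t.2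
        simpa [mul_assoc] using h4
      exact (Subgroup.mem_normalizer_iff.1 ht1 ⟨x, hxT⟩).2 hx
  have htQ : (t : G) ∉ Q := ht2
  obtain ⟨k, hk⟩ := hT t
  have hk' : (t : G) ^ p ^ k = 1 := congrArg Subtype.val hk
  have hex : ∃ j, (t : G) ^ p ^ j ∈ Q := ⟨k, by rw [hk']; exact Q.one_mem⟩
  classical
  obtain ⟨j, hj1, hj2⟩ : ∃ j, (t : G) ^ p ^ j ∉ Q ∧ (t : G) ^ p ^ (j + 1) ∈ Q := by
    have h3 := Nat.find_spec hex
    have h4 : Nat.find hex ≠ 0 := by
      intro h5
      rw [h5, pow_zero, pow_one] at h3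
      exact htQ h3
    obtain ⟨j, hj⟩ := Nat.exists_eq_succ_of_ne_zero h4
    refine ⟨j, Nat.find_min hex (by omega), ?_⟩
    rw [hj] at h3
    exact h3
  refine ⟨(t : G) ^ p ^ j, T.pow_mem t.2 _, hj1, ?_, ?_⟩
  · rw [← pow_mul, ← pow_succ]; exact hj2
  · exact Subgroup.pow_mem _ hN _

theorem ex_central {G : Type*} [Group G] [Finite G] {p : ℕ} [Fact p.Prime] {V : Subgroup G}
    (hV : IsPGroup p V) (hne : V ≠ ⊥) : ∃ z ∈ V, z ≠ 1 ∧ z ^ p = 1 ∧ ∀ v ∈ V, z * v = v * z := by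
  haveI : Nontrivial V := (Subgroup.nontrivial_iff_ne_bot V).2 hne
  haveI := hV.center_nontrivial
  obtain ⟨z, hz⟩ := exists_ne (1 : Subgroup.center V)
  have hcp : IsPGroup p (Subgroup.center V) := hV.to_subgroup _
  obtain ⟨m, hm⟩ := IsPGroup.iff_card.1 hcp
  have hm0 : m ≠ 0 := by
    rintro rfl
    rw [pow_zero] at hm
    have := Finite.one_lt_card (α := Subgroup.center V)
    omega
  have hd : p ∣ Nat.card (Subgroup.center V) := by
    rw [hm]; exact dvd_pow_self p hm0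
  obtain ⟨w, hw⟩ := exists_prime_orderOf_dvd_card' p hd
  refine ⟨w.1.1, w.1.2, ?_, ?_, ?_⟩
  · intro h1
    have : w = 1 := Subtype.ext (Subtype.ext h1)
    rw [this, orderOf_one] at hw
    exact (Fact.out : p.Prime).one_lt.ne hw
  · have := pow_orderOf_eq_one w
    rw [hw] at this
    exact congrArg (fun x => x.1.1) this
  · intro v hv
    have := Subgroup.mem_center_iff.1 w.2 ⟨v, hv⟩
    exact (congrArg Subtype.val this).symm

theorem pgroup_of_card {G : Type*} [Group G] {p v : ℕ} [Fact p.Prime] {T : Subgroup G}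
    (h : Nat.card T = p ^ v) : IsPGroup p T := IsPGroup.of_card h

/-- orbit sizes of Sylow subgroups -/
theorem orb_dvd {G X : Type*} [Group G] [Finite G] [MulAction G X] {p : ℕ} [Fact p.Prime]
    {V K M : Subgroup G} {v e : ℕ} (hV : Nat.card V = p ^ v) (hK : ¬ p ^ (v + 1) ∣ Nat.card K)
    {N : ℕ} (hM : Nat.card K = Nat.card M * N) (he : p ^ e ∣ N) (x : X)
    (hle : V ⊓ stabilizer G x ≤ M) : p ^ e ∣ Nat.card {y // ∃ g ∈ V, g • x = y} := by
  have h1 := orb_card V x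
  have hp : IsPGroup p V := IsPGroup.of_card hV
  have hp' : IsPGroup p ↥(V ⊓ stabilizer G x) := hp.to_le inf_le_left
  obtain ⟨b, hb⟩ := IsPGroup.iff_card.1 hp'
  have h2 : p ^ b ∣ Nat.card M := by
    rw [← hb]; exact Subgroup.card_dvd_of_le hle
  have h3 : p ^ (b + e) ∣ Nat.card K := by
    rw [hM, pow_add]; exact mul_dvd_mul h2 he
  have h4 : b + e ≤ v := by
    by_contra h5
    push Not at h5
    exact hK ((pow_dvd_pow p h5).trans h3)
  rw [hV, hb] at h1
  have hpp : 0 < p := (Fact.out : p.Prime).pos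
  have h5 : p ^ v = p ^ b * p ^ (v - b) := by rw [← pow_add]; congr 1; omega
  rw [h5] at h1
  have h6 := Nat.eq_of_mul_eq_mul_left (by positivity) h1
  rw [← h6]
  exact pow_dvd_pow p (by omega)

theorem dvd_card_of_orbits {G X : Type*} [Group G] [MulAction G X] [Finite X] (D : ℕ)
    (h : ∀ x : X, D ∣ Nat.card (orbit G x)) : D ∣ Nat.card X := by
  classical
  haveI : Finite (Quotient (orbitRel G X)) := inferInstance
  haveI := Fintype.ofFinite (Quotient (orbitRel G X))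
  rw [Nat.card_congr (selfEquivSigmaOrbits G X), Nat.card_sigma]
  apply Finset.dvd_sum
  intro x _
  exact h _

theorem join_fix (h : PlN I n) {x y : P} {l : L} (hxy : x ≠ y) (hx : I x l) (hy : I y l)
    {g : Coll I} (hgx : g • x = x) (hgy : g • y = y) : g • l = l :=
  smul_of_two h.toPl hxy hgx hgy hx hy

/-! ### prime power order -/

theorem el_of_pp (h : PlN I n) (t2 : T2 I) (hn : IsPrimePow n) : HasEl I := by
  classical
  haveI := h.finP
  haveI := h.finL
  haveI := h.finColl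
  haveI := Fintype.ofFinite P
  haveI := Fintype.ofFinite L
  obtain ⟨p, e, hp, he, hpe⟩ := hn
  have hp : p.Prime := Nat.prime_iff.2 hp
  haveI : Fact p.Prime := ⟨hp⟩
  have hne : Nonempty P := by
    rw [← not_isEmpty_iff]; intro h1
    have := h.cardP
    rw [Nat.card_of_isEmpty] at this
    omega
  obtain ⟨p1⟩ := hne
  obtain ⟨p2, hp2⟩ := h.exists_ne p1
  obtain ⟨A, hA1, hA2⟩ := h.join p1 p2 (Ne.symm hp2)
  set K := stabilizer (Coll I) p1 ⊓ stabilizer (Coll I) p2 with hK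
  obtain ⟨V, v, -, hVK, hVc, hvd, hvn⟩ := ex_syl (p := p) (M := K) (Q := ⊥) bot_le
    IsPGroup.of_bot
  have hVp : IsPGroup p V := IsPGroup.of_card hVc
  have hV1 : ∀ g ∈ V, g • p1 = p1 := fun g hg => (hVK hg).1
  have hV2 : ∀ g ∈ V, g • p2 = p2 := fun g hg => (hVK hg).2
  have hVA : ∀ g ∈ V, g • A = A := fun g hg =>
    join_fix h (Ne.symm hp2) hA1 hA2 (hV1 g hg) (hV2 g hg)
  -- transitivity
  have htr : ∀ Y, I Y A → (∀ g ∈ V, g • Y = Y) → ∀ B C, I Y B → I Y C → B ≠ A → C ≠ A →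
      ∃ g ∈ V, g • B = C := by
    intro Y hYA hYV B C hYB hYC hBA hCA
    obtain ⟨Y', hY'A, hY'Y, hY'V⟩ : ∃ Y', I Y' A ∧ Y' ≠ Y ∧ ∀ g ∈ V, g • Y' = Y' := by
      by_cases h1 : p1 = Y
      · subst h1
        exact ⟨p2, hA2, hp2, hV2⟩
      · exact ⟨p1, hA1, h1, hV1⟩
    have hY'B : ¬ I Y' B := fun h1 => by
      rcases h.uniq h1 hYB hY'A hYA with h2 | h2
      · exact hY'Y h2
      · exact hBA h2
    obtain ⟨hc1, -⟩ := cardK h t2 hYB hY'B
    have hc2 := cardG4 h t2 (Ne.symm hY'Y)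
    have hc3 := cardG4 h t2 hp2
    rw [hc3] at hc2
    have hpos : 0 < (n ^ 2 + n) * (n ^ 2 + n + 1) := by
      have := h.two_le
      positivity
    have hc4 : Nat.card K =
        Nat.card ↥(stabilizer (Coll I) Y' ⊓ stabilizer (Coll I) Y) := by
      rw [mul_assoc, mul_assoc] at hc2
      exact Nat.eq_of_mul_eq_mul_right hpos hc2
    rw [hc1] at hc4
    have hdv : p ^ e ∣ Nat.card {y : L // ∃ g ∈ V, g • B = y} :=
      orb_dvd hVc hvn hc4 (by rw [hpe]) B (by
        rintro g ⟨hg1, hg2⟩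
        exact ⟨⟨hY'V g hg1, hYV g hg1⟩, hg2⟩)
    rw [hpe] at hdv
    have hsub : ∀ y : L, (∃ g ∈ V, g • B = y) → (I Y y ∧ y ≠ A) := by
      rintro y ⟨g, hg, rfl⟩
      refine ⟨(inc_fix' (hYV g hg)).2 hYB, fun h1 => hBA ?_⟩
      have h2 := hVA g hg
      rw [← h2] at h1
      exact smul_left_cancel g h1
    have hn1 : Nat.card {y : L // I Y y ∧ y ≠ A} = n := line_card' (I := Du I) h.dual hYA
    have hinj : Function.Injective
        (fun y : {y : L // ∃ g ∈ V, g • B = y} => (⟨y.1, hsub y.1 y.2⟩ : {y : L // I Y y ∧ y ≠ A})) := by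
      intro a b hab
      exact Subtype.ext (congrArg (fun x => x.1) hab)
    haveI : Nonempty {y : L // ∃ g ∈ V, g • B = y} := ⟨⟨B, 1, V.one_mem, one_smul _ _⟩⟩
    have hle := Nat.card_le_card_of_injective _ hinj
    rw [hn1] at hle
    have hge := Nat.le_of_dvd Nat.card_pos hdv
    have hbij := (Nat.bijective_iff_injective_and_card _).2
      ⟨hinj, by rw [hn1]; exact le_antisymm hle hge⟩
    obtain ⟨⟨y, g, hg, hgy⟩, hy⟩ := hbij.2 ⟨C, hYC, hCA⟩
    have hyC : y = C := congrArg Subtype.val hy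
    exact ⟨g, hg, by rw [hgy, hyC]⟩
  -- central element
  have hVne : V ≠ ⊥ := by
    rintro rfl
    rw [Subgroup.card_bot] at hVc
    have hv0 : v = 0 := by
      by_contra hv
      have := Nat.one_lt_pow hv hp.one_lt
      omega
    subst hv0
    obtain ⟨B, hB, hBA, -⟩ := h.exists_line2 p2 A A
    have h1B : ¬ I p1 B := fun h1 => by
      rcases h.uniq h1 hB hA1 hA2 with h2 | h2
      · exact hp2 h2.symm
      · exact hBA h2
    obtain ⟨hc1, -⟩ := cardK h t2 hB h1B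
    apply hvn
    rw [zero_add, pow_one]
    rw [← hK] at hc1
    rw [hc1, ← hpe]
    exact Dvd.dvd.mul_left (dvd_pow_self p he.ne') _
  obtain ⟨z, hzV, hz1, hzp, hzc⟩ := ex_central hVp hVne
  have hpn : p ∣ n := by rw [← hpe]; exact dvd_pow_self p he.ne'
  have hcomm : ∀ g ∈ V, ∀ x : L, z • x = x → z • (g • x) = g • x := by
    intro g hg x hx
    rw [← mul_smul, hzc g hg, mul_smul, hx]
  -- a centre
  have hce : ∀ Y, I Y A → (∀ g ∈ V, g • Y = Y) → (∃ B, I Y B ∧ B ≠ A ∧ z • B = B) → Ce z Y := by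
    rintro Y hYA hYV ⟨B, hYB, hBA, hzB⟩ C hYC
    by_cases hCA : C = A
    · subst hCA; exact hVA z hzV
    · obtain ⟨g, hg, rfl⟩ := htr Y hYA hYV B C hYB hYC hBA hCA
      exact hcomm g hg B hzB
  obtain ⟨c, hc⟩ : ∃ c, Ce z c := by
    by_cases hX : ∃ X, ¬ I X A ∧ z • X = X
    · obtain ⟨X, hXA, hzX⟩ := hX
      have hX1 : X ≠ p1 := by rintro rfl; exact hXA hA1
      obtain ⟨B, hB1, hB2⟩ := h.join X p1 hX1
      refine ⟨p1, hce p1 hA1 hV1 ⟨B, hB2, ?_, ?_⟩⟩
      · rintro rfl; exact hXA hB1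
      · exact join_fix h hX1 hB1 hB2 hzX (hV1 z hzV)
    · push Not at hX
      -- two fixed lines
      have hcf := card_fix h z
      have h2 : 1 < Nat.card {l : L // z • l = l} := by
        rw [← hcf, Nat.card_eq_fintype_card, Fintype.one_lt_card_iff]
        exact ⟨⟨p1, hV1 z hzV⟩, ⟨p2, hV2 z hzV⟩, fun h1 => hp2 (congrArg Subtype.val h1).symm⟩
      rw [Nat.card_eq_fintype_card, Fintype.one_lt_card_iff] at h2
      obtain ⟨m, hmA, hzm⟩ : ∃ m : L, m ≠ A ∧ z • m = m := by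
        obtain ⟨a, b, hab⟩ := h2
        by_cases h3 : a.1 = A
        · refine ⟨b.1, fun h4 => hab (Subtype.ext (h3.trans h4.symm)), b.2⟩
        · exact ⟨a.1, h3, a.2⟩
      obtain ⟨Y, hYm, hYA⟩ := h.meet m A hmA
      refine ⟨Y, hce Y hYA ?_ ⟨m, hYm, hmA, hzm⟩⟩
      intro g hg
      have hzA := hVA z hzV
      have hgA := hVA g hg
      have hgYA : I (g • Y) A := (inc_fix hgA).2 hYA
      have hgYm : I (g • Y) (g • m) := (inc g).2 hYm
      have hgm : g • m ≠ A := fun h3 => hmA (by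
        rw [← hgA] at h3; exact smul_left_cancel g h3)
      have hzgm := hcomm g hg m hzm
      by_cases h3 : g • m = m
      · rw [h3] at hgYm
        exact (h.uniq hgYA hYA hgYm hYm).resolve_right (Ne.symm hmA)
      · obtain ⟨W, hW1, hW2⟩ := h.meet (g • m) m h3
        have hzW := smul_of_two' h.toPl h3 hzgm hzm hW1 hW2
        have hWA : I W A := by
          by_contra h4; exact hX W h4 hzW
        have e1 : W = Y := (h.uniq hWA hYA hW2 hYm).resolve_right (Ne.symm hmA)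
        have e2 : W = g • Y := (h.uniq hWA hgYA hW1 hgYm).resolve_right (Ne.symm hgm)
        rw [← e2, e1]
  obtain ⟨a, ha⟩ := hc.exists_ax h
  exact ⟨z, c, a, hz1, p_el h hpn (k := 1) (by rw [pow_one]; exact hzp) hz1 ha hc, ha, hc⟩

/-! ### even order -/

theorem el_of_even (h : PlN I n) (t2 : T2 I) (hn : Even n) : HasEl I := by
  classical
  haveI := h.finP
  haveI := h.finL
  haveI := h.finColl
  haveI := Fintype.ofFinite P
  haveI := Fintype.ofFinite L
  haveI : Fact (Nat.Prime 2) := ⟨Nat.prime_two⟩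
  have hn2 := h.two_le
  by_contra hno
  have hinv : ∀ g : Coll I, g * g = 1 → g ≠ 1 → ¬ ∃ a, Ax g a := by
    rintro g hg hg1 ⟨a, ha⟩
    obtain ⟨c, hc⟩ := ha.exists_ce h
    exact hno ⟨g, c, a, hg1, p_el h (even_iff_two_dvd.1 hn) (k := 1) (by
      rw [pow_one, pow_two]; exact hg) hg1 ha hc, ha, hc⟩
  obtain ⟨S, s, -, -, hSc, hsd, hsn⟩ := ex_syl (p := 2) (M := (⊤ : Subgroup (Coll I))) (Q := ⊥)
    bot_le IsPGroup.of_bot
  have hSp : IsPGroup 2 S := IsPGroup.of_card hSc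
  -- fixed point
  have hmod := card_mod h S hSp
  have hodd : Odd (n ^ 2 + n + 1) := by
    rw [Nat.odd_add_one, Nat.not_odd_iff_even]
    exact Even.add (by rw [pow_two]; exact hn.mul_left n) hn
  have hfp : ∃ P0 : P, ∀ g ∈ S, g • P0 = P0 := by
    by_contra h1
    push Not at h1
    haveI : IsEmpty {x : P // ∀ g ∈ S, g • x = x} := by
      refine ⟨fun x => ?_⟩
      obtain ⟨g, hg, hgx⟩ := h1 x.1
      exact hgx (x.2 g hg)
    rw [Nat.card_of_isEmpty] at hmod
    have h2 := (Nat.modEq_zero_iff_dvd.1 hmod)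
    rw [← even_iff_two_dvd] at h2
    exact (Nat.not_even_iff_odd.2 hodd) h2
  obtain ⟨P0, hP0⟩ := hfp
  obtain ⟨P1, hP1⟩ := h.exists_ne P0
  have hSne : S ≠ ⊥ := by
    rintro rfl
    rw [Subgroup.card_bot] at hSc
    have hv0 : s = 0 := by
      by_contra hv
      have := Nat.one_lt_pow hv one_lt_two
      omega
    subst hv0
    apply hsn
    rw [zero_add, pow_one, Subgroup.card_top, cardG4 h t2 hP1]
    have h1 : 2 ∣ n ^ 2 + n := by
      rw [← even_iff_two_dvd]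
      exact Even.add (by rw [pow_two]; exact hn.mul_left n) hn
    exact Dvd.dvd.mul_right (Dvd.dvd.mul_left h1 _) _
  obtain ⟨z, hzS, hz1, hzp, hzc⟩ := ex_central hSp hSne
  rw [pow_two] at hzp
  obtain ⟨hpl, hpm⟩ := inv_dich h hzp hz1 (hinv z hzp hz1)
  obtain ⟨m, hm⟩ := sub_plN h hpl
  have hnm := hpm m hm
  have hmev : Even m := by
    rw [hnm] at hn
    exact (Nat.even_pow.1 hn).1
  -- the 2-part of m
  have hm2 := hm.two_le
  set f := m.factorization 2 with hf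
  have hfd : 2 ^ f ∣ m := Nat.ordProj_dvd _ _
  have hfn : ¬ 2 ^ (f + 1) ∣ m :=
    Nat.pow_succ_factorization_not_dvd (by omega) Nat.prime_two
  have hf1 : 1 ≤ f := by
    by_contra h1
    have : f = 0 := by omega
    rw [this, zero_add, pow_one] at hfn
    exact hfn (even_iff_two_dvd.1 hmev)
  -- orbits
  let X : SubMulAction S P :=
    { carrier := {x | x ≠ P0 ∧ z • x = x}
      smul_mem' := by
        rintro ⟨g, hg⟩ x ⟨hx1, hx2⟩
        show g • x ≠ P0 ∧ z • (g • x) = g • x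
        refine ⟨fun h1 => hx1 ?_, ?_⟩
        · rw [← hP0 g hg] at h1
          exact smul_left_cancel g h1
        · rw [← mul_smul, hzc g hg, mul_smul, hx2] }
  haveI : Finite X := Subtype.finite
  have hdvd : 2 ^ (2 * f) ∣ Nat.card X := by
    apply dvd_card_of_orbits (G := S)
    rintro ⟨x, hx⟩
    have hx1 : x ≠ P0 := hx.1
    have hG := cardG4 h t2 hx1
    have h1 : 2 ^ (2 * f) ∣ Nat.card {y : P // ∃ g ∈ S, g • x = y} := by
      apply orb_dvd (p := 2) (K := (⊤ : Subgroup (Coll I)))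
        (M := stabilizer (Coll I) P0 ⊓ stabilizer (Coll I) x) hSc hsn
        (N := (n ^ 2 + n) * (n ^ 2 + n + 1))
      · rw [Subgroup.card_top, hG]; ring
      · apply Dvd.dvd.mul_right
        have h2 : 2 ^ (2 * f) ∣ n := by
          rw [hnm, mul_comm 2 f, pow_mul]
          exact pow_dvd_pow_of_dvd hfd 2
        exact (Nat.dvd_add_right (by rw [pow_two]; exact Dvd.dvd.mul_left h2 _)).2 h2
      · rintro g ⟨hg1, hg2⟩
        exact ⟨hP0 g hg1, hg2⟩
    have h2 : Nat.card (orbit S (⟨x, hx⟩ : X)) = Nat.card {y : P // ∃ g ∈ S, g • x = y} := by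
      refine Nat.card_congr ⟨fun y => ⟨y.1.1, ?_⟩, fun y => ⟨⟨y.1, ?_⟩, ?_⟩, ?_, ?_⟩
      · obtain ⟨g, hg⟩ := y.2
        exact ⟨g.1, g.2, congrArg Subtype.val hg⟩
      · obtain ⟨g, hg, hgy⟩ := y.2
        rw [← hgy]
        exact X.smul_mem ⟨g, hg⟩ hx
      · obtain ⟨g, hg, hgy⟩ := y.2
        exact ⟨⟨g, hg⟩, Subtype.ext hgy⟩
      · intro y; rfl
      · intro y; rfl
    rw [h2]; exact h1
  have hXc : Nat.card X = m ^ 2 + m := by
    have h1 := hm.cardP
    have h2 := card_ne hm ⟨P0, zp_fix (hP0 z hzS)⟩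
    rw [← h2]
    refine Nat.card_congr ⟨fun x => ⟨⟨x.1, zp_fix x.2.2⟩, fun h3 => x.2.1 (congrArg Subtype.val h3)⟩,
      fun x => ⟨x.1.1, fun h3 => x.2 (Subtype.ext h3), x.1.2 z (Subgroup.mem_zpowers z)⟩, ?_, ?_⟩
    · intro x; rfl
    · intro x; rfl
  rw [hXc] at hdvd
  have h1 : 2 ^ (2 * f) ∣ m * (m + 1) := by
    have : m ^ 2 + m = m * (m + 1) := by ring
    rwa [← this]
  have h2 : Nat.Coprime (2 ^ (2 * f)) (m + 1) := by
    apply Nat.Coprime.pow_left
    rw [Nat.coprime_two_left]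
    exact hmev.add_one
  have h3 := h2.dvd_of_dvd_mul_right h1
  exact hfn ((pow_dvd_pow 2 (by omega)).trans h3)

end Cfsg.Agent.Lib.OW
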