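import Cfsg.Agent.Lib.OW7

/-! # Existence of elations: odd order -/

set_option autoImplicit false

namespace Cfsg.Agent.Lib.OW

open MulAction

universe u v

variable {P : Type u} {L : Type v} {I : P → L → Prop} {n : ℕ}

/-- a nontrivial collineation with an axis does not fix a quadrangle -/
theorem ax_quad (h : PlN I n) {z : Coll I} {x : L} (hz : Ax z x) {a b c d : P}
    (ha : z • a = a) (hb : z • b = b) (hc : z • c = c) (hd : z • d = d)
    (q : Quad I a b c d) : z = 1 := by
  by_cases h1 : I a x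
  · by_cases h2 : I b x
    · have h3 : ¬ I c x := fun h4 => q.abc x ⟨h1, h2, h4⟩
      have h4 : ¬ I d x := fun h4 => q.abd x ⟨h1, h2, h4⟩
      exact fix2 h hz hc hd h3 h4 (q.cd h.toPl)
    · by_cases h3 : I c x
      · have h4 : ¬ I d x := fun h4 => q.acd x ⟨h1, h3, h4⟩
        exact fix2 h hz hb hd h2 h4 (q.bd h.toPl)
      · exact fix2 h hz hb hc h2 h3 (q.bc h.toPl)
  · by_cases h2 : I b x
    · by_cases h3 : I c x
      · have h4 : ¬ I d x := fun h4 => q.bcd x ⟨h2, h3, h4⟩
        exact fix2 h hz ha hd h1 h4 (q.ad h.toPl)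
      · exact fix2 h hz ha hc h1 h3 (q.ac h.toPl)
    · exact fix2 h hz ha hb h1 h2 q.ab

theorem sup_fix {Q : Subgroup (Coll I)} {t : Coll I} {X : Type*} [MulAction (Coll I) X] {x : X}
    (hQ : ∀ g ∈ Q, g • x = x) (ht : t • x = x) : ∀ g ∈ Q ⊔ Subgroup.zpowers t, g • x = x := by
  intro g hg
  have h1 : Q ⊔ Subgroup.zpowers t ≤ stabilizer (Coll I) x := by
    rw [sup_le_iff, Subgroup.zpowers_le]
    exact ⟨hQ, ht⟩
  exact h1 hg

theorem chain : ∀ (N : ℕ) {P : Type u} {L : Type v} {I : P → L → Prop} {n : ℕ}, PlN I n →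
    ∀ (Q : Subgroup (Coll I)), Nat.card Q ≤ N → IsPGroup 2 Q → Planar Q →
    ∀ k, PlN (SubI Q) k → ∃ j : ℕ, n = k ^ (2 ^ j) := by
  intro N
  induction N with
  | zero =>
    intro P L I n h Q hQ
    haveI := h.finColl
    have : 0 < Nat.card Q := Nat.card_pos
    omega
  | succ N ih =>
    intro P L I n h Q hQN hQ hpl k hk
    haveI := h.finColl
    haveI : Fact (Nat.Prime 2) := ⟨Nat.prime_two⟩
    by_cases hbot : Q = ⊥
    · subst hbot
      refine ⟨0, ?_⟩
      rw [pow_zero, pow_one]
      have h1 : Nat.card (FP (⊥ : Subgroup (Coll I))) = Nat.card P := by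
        apply Nat.card_congr
        apply Equiv.subtypeUnivEquiv
        intro p g hg
        rw [Subgroup.mem_bot] at hg
        rw [hg, one_smul]
      rw [hk.cardP, h.cardP] at h1
      rcases lt_trichotomy n k with h2 | h2 | h2
      · nlinarith
      · exact h2
      · nlinarith
    · obtain ⟨z, hzQ, hz1, hzp, hzc⟩ := ex_central hQ hbot
      rw [pow_two] at hzp
      have hpl0 := hpl
      obtain ⟨a, b, c, d, ha, hb, hc, hd, q⟩ := hpl
      have hnax : ¬ ∃ x, Ax z x := by
        rintro ⟨x, hx⟩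
        exact hz1 (ax_quad h hx (ha z hzQ) (hb z hzQ) (hc z hzQ) (hd z hzQ) q)
      obtain ⟨hzpl, hzm⟩ := inv_dich h hzp hz1 hnax
      obtain ⟨m, hm⟩ := sub_plN h hzpl
      have hnm := hzm m hm
      have hQN' : Q ≤ Subgroup.normalizer (Subgroup.zpowers z : Set (Coll I)) := by
        intro g hg
        rw [Subgroup.mem_normalizer_iff]
        have hcg := hzc g hg
        have h3 : ∀ w ∈ Subgroup.zpowers z, g * w * g⁻¹ = w := by
          intro w hw
          obtain ⟨i, rfl⟩ := Subgroup.mem_zpowers_iff.1 hw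
          have : Commute g (z ^ i) := (show Commute g z from hcg.symm).zpow_right i
          rw [this.eq, mul_inv_cancel_right]
        intro w
        constructor
        · intro hw; rw [h3 w hw]; exact hw
        · intro hw
          have h4 := h3 _ hw
          have h5 : g * w * g⁻¹ = w := by
            have h6 : g * (g * w * g⁻¹) * g⁻¹ = g * w * g⁻¹ := h4
            have h7 : g * w * g⁻¹ = w := by
              have := mul_left_cancel (mul_right_cancel h6)
              exact this
            exact h7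
          rw [← h5]; exact hw
      set R := res (Subgroup.zpowers z) with hR
      set φ : Q →* Coll (SubI (Subgroup.zpowers z)) := R.comp (Subgroup.inclusion hQN') with hφ
      set Q' := φ.range with hQ'
      have hQ'2 : IsPGroup 2 Q' := hQ.of_surjective φ.rangeRestrict φ.rangeRestrict_surjective
      have hφP : ∀ (g : Q) (x : FP (Subgroup.zpowers z)), (φ g • x).1 = g.1 • x.1 :=
        fun g x => rfl
      have hker : φ ⟨z, hzQ⟩ = 1 := by
        apply ext_of_pts hm
        intro x
        apply Subtype.ext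
        rw [hφP]
        exact x.2 z (Subgroup.mem_zpowers z)
      have hcard : Nat.card Q' < Nat.card Q := by
        have h1 : Nat.card Q' ∣ Nat.card Q := Subgroup.card_range_dvd φ
        have h2 : Nat.card Q' ≤ Nat.card Q := Nat.le_of_dvd Nat.card_pos h1
        refine lt_of_le_of_ne h2 (fun h3 => ?_)
        have hb := (Nat.bijective_iff_surjective_and_card φ.rangeRestrict).2
          ⟨φ.rangeRestrict_surjective, h3.symm⟩
        have h4 : (⟨z, hzQ⟩ : Q) = 1 := by
          apply hb.1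
          rw [map_one]
          apply Subtype.ext
          exact hker
        exact hz1 (congrArg Subtype.val h4)
      have hzfix : ∀ x : P, (∀ g ∈ Q, g • x = x) → ∀ g ∈ Subgroup.zpowers z, g • x = x :=
        fun x hx => zp_fix (hx z hzQ)
      have hQ'fix : ∀ (x : P) (hx : ∀ g ∈ Q, g • x = x), ∀ g ∈ Q',
          g • (show FP (Subgroup.zpowers z) from ⟨x, hzfix x hx⟩) = ⟨x, hzfix x hx⟩ := by
        rintro x hx _ ⟨g, rfl⟩
        apply Subtype.ext
        rw [hφP]
        exact hx g.1 g.2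
      have hpl' : Planar Q' := by
        refine ⟨⟨a, hzfix a ha⟩, ⟨b, hzfix b hb⟩, ⟨c, hzfix c hc⟩, ⟨d, hzfix d hd⟩,
          hQ'fix a ha, hQ'fix b hb, hQ'fix c hc, hQ'fix d hd, ?_⟩
        exact
          { ab := fun h1 => q.ab (congrArg Subtype.val h1)
            abc := fun l => q.abc l.1
            abd := fun l => q.abd l.1
            acd := fun l => q.acd l.1
            bcd := fun l => q.bcd l.1 }
      obtain ⟨k', hk'⟩ := sub_plN hm hpl'
      obtain ⟨j, hj⟩ := ih hm Q' (by omega) hQ'2 hpl' k' hk'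
      have hkk : k' = k := by
        have h1 : Nat.card (FP Q') = Nat.card (FP Q) := by
          refine Nat.card_congr ⟨fun x => ⟨x.1.1, fun g hg => ?_⟩,
            fun x => ⟨⟨x.1, hzfix x.1 x.2⟩, hQ'fix x.1 x.2⟩, ?_, ?_⟩
          · have := x.2 (φ ⟨g, hg⟩) ⟨⟨g, hg⟩, rfl⟩
            exact congrArg Subtype.val this
          · intro x; rfl
          · intro x; rfl
        rw [hk.cardP, hk'.cardP] at h1
        rcases lt_trichotomy k' k with h2 | h2 | h2
        · nlinarith
        · exact h2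
        · nlinarith
      refine ⟨j + 1, ?_⟩
      rw [hnm, hj, hkk, ← pow_mul, pow_succ]

/-! ### odd order -/

theorem el_of_odd (h : PlN I n) (t2 : T2 I) (hn : Odd n) : HasEl I := by
  classical
  haveI := h.finP
  haveI := h.finL
  haveI := h.finColl
  haveI := Fintype.ofFinite P
  haveI := Fintype.ofFinite L
  haveI : Fact (Nat.Prime 2) := ⟨Nat.prime_two⟩
  have hn2 := h.two_le
  have hne : Nonempty P := by
    rw [← not_isEmpty_iff]; intro h1
    have := h.cardP
    rw [Nat.card_of_isEmpty] at this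
    omega
  obtain ⟨P0⟩ := hne
  obtain ⟨P1, hP1⟩ := h.exists_ne P0
  by_cases hax : ∃ (g : Coll I) (a : L), g * g = 1 ∧ g ≠ 1 ∧ Ax g a
  · obtain ⟨t, a, ht, ht1, hA⟩ := hax
    obtain ⟨c, hc⟩ := hA.exists_ce h
    have hca := inv_hom h hn ht ht1 hA hc
    obtain ⟨X, hX⟩ := h.exists_pt a
    -- Y off a, different from c
    obtain ⟨Y, hYa, hYc⟩ : ∃ Y, ¬ I Y a ∧ Y ≠ c := by
      obtain ⟨m, hXm, hma, -⟩ := h.exists_line2 X a a
      obtain ⟨Y, hY, hYX, hYc⟩ := h.exists_pt2 m X c
      refine ⟨Y, fun h1 => ?_, hYc⟩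
      rcases h.uniq h1 hX hY hXm with h2 | h2
      · exact hYX h2
      · exact hma h2.symm
    have hcX : c ≠ X := by rintro rfl; exact hca hX
    obtain ⟨k, hk1, hk2⟩ := t2 c X c Y hcX (Ne.symm hYc)
    have hs : (k * t * k⁻¹) * (k * t * k⁻¹) = 1 := by
      have : (k * t * k⁻¹) * (k * t * k⁻¹) = k * (t * t) * k⁻¹ := by group
      rw [this, ht]; group
    have hs1 : k * t * k⁻¹ ≠ 1 := by
      intro h1
      apply ht1
      have : t = k⁻¹ * (k * t * k⁻¹) * k := by group
      rw [this, h1]; group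
    have hsC : Ce (k * t * k⁻¹) c := by
      have := hc.conj k
      rwa [hk1] at this
    have hab : a ≠ k • a := by
      intro h1
      have h2 : I (k • X) (k • a) := (inc k).2 hX
      rw [hk2, ← h1] at h2
      exact hYa h2
    obtain ⟨w, -, hw1, hw2⟩ := dih' h hn ht hs hA (hA.conj k) hc hsC ht1 hs1 hab
    have hwn : w ≠ 1 := by
      rintro rfl
      rw [one_smul] at hw2
      exact hab hw2
    obtain ⟨b, hb⟩ := hw1.1.exists_ax h
    exact ⟨w, c, b, hwn, hw1.ax_mem h hb hwn, hb, hw1.1⟩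
  · push Not at hax
    have hinv : ∀ g : Coll I, g * g = 1 → g ≠ 1 → ¬ ∃ a, Ax g a := by
      rintro g hg hg1 ⟨a, ha⟩
      exact hax g a hg hg1 ha
    have hn1 : 2 ∣ n ^ 2 + n := by
      rw [← even_iff_two_dvd]
      obtain ⟨j, rfl⟩ := hn
      exact ⟨2 * j ^ 2 + 3 * j + 1, by ring⟩
    -- an involution
    have h2G : 2 ∣ Nat.card (Coll I) := by
      rw [cardG4 h t2 hP1]
      exact Dvd.dvd.mul_right (Dvd.dvd.mul_left hn1 _) _
    obtain ⟨t0, ht0⟩ := exists_prime_orderOf_dvd_card' 2 h2G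
    have ht00 : t0 * t0 = 1 := by
      rw [← pow_two, ← ht0, pow_orderOf_eq_one]
    have ht01 : t0 ≠ 1 := by
      rintro rfl
      rw [orderOf_one] at ht0
      omega
    obtain ⟨hpl0, hpm0⟩ := inv_dich h ht00 ht01 (hinv t0 ht00 ht01)
    obtain ⟨m, hm⟩ := sub_plN h hpl0
    have hnm := hpm0 m hm
    have hn4 : ∃ j, n = 4 * j + 1 := by
      have hmo : Odd m := by
        rw [hnm] at hn
        exact Nat.Odd.of_mul_left (by rw [pow_two] at hn; exact hn)
      obtain ⟨i, rfl⟩ := hmo
      exact ⟨i ^ 2 + i, by rw [hnm]; ring⟩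
    -- maximal planar 2-subgroup
    haveI : Nonempty {Q : Subgroup (Coll I) // IsPGroup 2 Q ∧ Planar Q} := by
      refine ⟨⟨Subgroup.zpowers t0, ?_, hpl0⟩⟩
      apply IsPGroup.of_card (n := 1)
      rw [Nat.card_zpowers, ht0, pow_one]
    obtain ⟨⟨Q, hQ2, hQpl⟩, hQmax⟩ := Finite.exists_max
      (fun Q : {Q : Subgroup (Coll I) // IsPGroup 2 Q ∧ Planar Q} => Nat.card Q.1)
    have hQmax : ∀ R : Subgroup (Coll I), IsPGroup 2 R → Planar R → Nat.card R ≤ Nat.card Q :=
      fun R h1 h2 => hQmax ⟨R, h1, h2⟩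
    obtain ⟨k, hk⟩ := sub_plN h hQpl
    obtain ⟨j, hj⟩ := chain _ h Q le_rfl hQ2 hQpl k hk
    have hkodd : Odd k := by
      rw [hj] at hn
      by_contra h1
      rw [Nat.not_odd_iff_even] at h1
      have h2 : Even (k ^ 2 ^ j) := h1.pow_of_ne_zero (by positivity)
      exact (Nat.not_even_iff_odd.2 hn) h2
    -- growth lemma
    have hgrow : ∀ t : Coll I, t ∉ Q → IsPGroup 2 ↥(Q ⊔ Subgroup.zpowers t) →
        ¬ Planar (Q ⊔ Subgroup.zpowers t) := by
      intro t ht h1 h2
      have h3 := hQmax _ h1 h2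
      have h4 : Q ≤ Q ⊔ Subgroup.zpowers t := le_sup_left
      have h5 : Q = Q ⊔ Subgroup.zpowers t := by
        apply Subgroup.eq_of_le_of_card_ge h4 h3
      apply ht
      rw [h5]
      exact (le_sup_right : Subgroup.zpowers t ≤ _) (Subgroup.mem_zpowers t)
    -- restriction of t
    have hres : ∀ (t : Coll I) (htN : t ∈ Subgroup.normalizer (Q : Set (Coll I))), t ^ 2 ∈ Q →
        res Q ⟨t, htN⟩ * res Q ⟨t, htN⟩ = 1 := by
      intro t htN ht
      rw [← map_mul]
      apply ext_of_pts hk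
      intro x
      apply Subtype.ext
      rw [res_P]
      exact x.2 (t * t) (by rw [← pow_two]; exact ht)
    have hresP : ∀ (t : Coll I) (htN : t ∈ Subgroup.normalizer (Q : Set (Coll I))) (x : FP Q),
        res Q ⟨t, htN⟩ • x = x → t • x.1 = x.1 := by
      intro t htN x hx
      exact congrArg Subtype.val hx
    have hplan : ∀ (t : Coll I) (htN : t ∈ Subgroup.normalizer (Q : Set (Coll I))),
        Planar (Subgroup.zpowers (res Q ⟨t, htN⟩)) → Planar (Q ⊔ Subgroup.zpowers t) := by
      rintro t htN ⟨a, b, c, d, ha, hb, hc, hd, q⟩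
      have hmem := Subgroup.mem_zpowers (res Q ⟨t, htN⟩)
      refine ⟨a.1, b.1, c.1, d.1, sup_fix a.2 (hresP t htN a (ha _ hmem)),
        sup_fix b.2 (hresP t htN b (hb _ hmem)), sup_fix c.2 (hresP t htN c (hc _ hmem)),
        sup_fix d.2 (hresP t htN d (hd _ hmem)), ?_⟩
      have hlin : ∀ l : L, ∀ x y : FP Q, x ≠ y → I x.1 l → I y.1 l → ∀ g ∈ Q, g • l = l := by
        intro l x y hxy hx hy g hg
        exact smul_of_two h.toPl (fun h1 => hxy (Subtype.ext h1)) (x.2 g hg) (y.2 g hg) hx hy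
      exact
        { ab := fun h1 => q.ab (Subtype.ext h1)
          abc := fun l hl => q.abc ⟨l, hlin l a b q.ab hl.1 hl.2.1⟩ hl
          abd := fun l hl => q.abd ⟨l, hlin l a b q.ab hl.1 hl.2.1⟩ hl
          acd := fun l hl => q.acd ⟨l, hlin l a c (q.ac hk.toPl) hl.1 hl.2.1⟩ hl
          bcd := fun l hl => q.bcd ⟨l, hlin l b c (q.bc hk.toPl) hl.1 hl.2.1⟩ hl }
    have hplan1 : ∀ (t : Coll I) (htN : t ∈ Subgroup.normalizer (Q : Set (Coll I))),
        res Q ⟨t, htN⟩ = 1 → Planar (Q ⊔ Subgroup.zpowers t) := by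
      intro t htN h1
      obtain ⟨a, b, c, d, ha, hb, hc, hd, q⟩ := hQpl
      have h2 : ∀ (x : P) (hx : ∀ g ∈ Q, g • x = x), t • x = x := by
        intro x hx
        have h3 : ∀ y : FP Q, res Q ⟨t, htN⟩ • y = y := fun y => by rw [h1, one_smul]
        exact hresP t htN ⟨x, hx⟩ (h3 _)
      exact ⟨a, b, c, d, sup_fix ha (h2 a ha), sup_fix hb (h2 b hb), sup_fix hc (h2 c hc),
        sup_fix hd (h2 d hd), q⟩
    -- the hypothesis
    have hyp : Hyp (res Q).range := by
      intro X Y l B hXY hXl hYl hXB hBl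
      have hXY' : X.1 ≠ Y.1 := fun h1 => hXY (Subtype.ext h1)
      have hYB : ¬ I Y.1 B.1 := fun h1 => by
        rcases hk.uniq (show SubI Q Y B from h1) hXB hYl hXl with h2 | h2
        · exact hXY h2.symm
        · exact hBl h2
      obtain ⟨hcK, -⟩ := cardK h t2 (Q := Y.1) (X := X.1) (B := B.1) hXB hYB
      have hcG := cardG4 h t2 hXY'
      rw [hcK] at hcG
      set M := stabilizer (Coll I) Y.1 ⊓ stabilizer (Coll I) X.1 ⊓ stabilizer (Coll I) B.1 with hM
      have hQM : Q ≤ M := fun g hg => ⟨⟨Y.2 g hg, X.2 g hg⟩, B.2 g hg⟩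
      obtain ⟨T, v, hQT, hTM, hTc, hvd, hvn⟩ := ex_syl (p := 2) hQM hQ2
      have hT2 : IsPGroup 2 T := IsPGroup.of_card hTc
      have hTQ : Q ≠ T := by
        intro hQT'
        obtain ⟨S, s, hQS, -, hSc, hsd, hsn⟩ := ex_syl (p := 2)
          (M := (⊤ : Subgroup (Coll I))) (Q := Q) le_top hQ2
        rw [Subgroup.card_top] at hsd hsn
        have hS2 : IsPGroup 2 S := IsPGroup.of_card hSc
        -- S is not in the stabilizer of two points
        have hnot : ∀ U W : P, U ≠ W → ¬ S ≤ stabilizer (Coll I) W ⊓ stabilizer (Coll I) U := by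
          intro U W hUW h1
          have h2 := Subgroup.card_dvd_of_le h1
          rw [hSc] at h2
          apply hsn
          rw [cardG4 h t2 hUW, pow_succ]
          exact Dvd.dvd.mul_right (mul_dvd_mul h2 hn1) _
        have hQS' : Q ≠ S := by
          rintro rfl
          exact hnot X.1 Y.1 hXY' (hQM.trans inf_le_left)
        have hs1 : s ≤ v + 1 := by
          by_contra h1
          push Not at h1
          have h2 : 2 ^ (v + 1 + 1) ∣ Nat.card (Coll I) := (pow_dvd_pow 2 h1).trans hsd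
          rw [hcG] at h2
          obtain ⟨i, hi⟩ := hn4
          have h3 : Nat.card M * n * (n ^ 2 + n) * (n ^ 2 + n + 1) =
              2 * (Nat.card M * (n * (n * (2 * i + 1) * (n ^ 2 + n + 1)))) := by
            have : n ^ 2 + n = 2 * (n * (2 * i + 1)) := by
              rw [hi]; ring
            rw [this]; ring
          rw [h3, pow_succ 2 (v + 1), mul_comm (2 ^ (v + 1)) 2] at h2
          have h4 := Nat.dvd_of_mul_dvd_mul_left two_pos h2
          have h5 : Nat.Coprime (2 ^ (v + 1)) (n * (n * (2 * i + 1) * (n ^ 2 + n + 1))) := by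
            apply Nat.Coprime.pow_left
            rw [Nat.coprime_two_left]
            have e1 : Odd (2 * i + 1) := ⟨i, rfl⟩
            have e2 : Odd (n ^ 2 + n + 1) := by
              rw [Nat.odd_add_one, Nat.not_odd_iff_even, even_iff_two_dvd]
              exact hn1
            exact hn.mul ((hn.mul e1).mul e2)
          exact hvn (h5.dvd_of_dvd_mul_right h4)
        obtain ⟨t, htS, htQ, htp, htN⟩ := norm_grow hQS hS2 hQS'
        have hsup : Q ⊔ Subgroup.zpowers t = S := by
          have h1 : Q ⊔ Subgroup.zpowers t ≤ S := by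
            rw [sup_le_iff, Subgroup.zpowers_le]
            exact ⟨hQS, htS⟩
          apply Subgroup.eq_of_le_of_card_ge h1
          have h2 : Nat.card Q ∣ Nat.card ↥(Q ⊔ Subgroup.zpowers t) :=
            Subgroup.card_dvd_of_le le_sup_left
          have h3 : Nat.card Q ≠ Nat.card ↥(Q ⊔ Subgroup.zpowers t) := by
            intro h4
            have h5 : Q = Q ⊔ Subgroup.zpowers t :=
              Subgroup.eq_of_le_of_card_ge le_sup_left h4.ge
            apply htQ
            rw [h5]
            exact (le_sup_right : Subgroup.zpowers t ≤ _) (Subgroup.mem_zpowers t)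
          obtain ⟨c, hc⟩ := h2
          have hc0 : c ≠ 0 := by
            rintro rfl
            rw [mul_zero] at hc
            have : 0 < Nat.card ↥(Q ⊔ Subgroup.zpowers t) := Nat.card_pos
            omega
          have hc1 : c ≠ 1 := by
            rintro rfl
            rw [mul_one] at hc
            exact h3 hc.symm
          have hc2 : 2 ≤ c := by omega
          rw [hSc, hc]
          calc 2 ^ s ≤ 2 ^ (v + 1) := Nat.pow_le_pow_right two_pos hs1
            _ = Nat.card Q * 2 := by rw [hQT', hTc, pow_succ]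
            _ ≤ Nat.card Q * c := Nat.mul_le_mul_left _ hc2
        -- two fixed points
        obtain ⟨U, W, hUW, hU, hW⟩ : ∃ U W : FP Q, U ≠ W ∧ res Q ⟨t, htN⟩ • U = U ∧
            res Q ⟨t, htN⟩ • W = W := by
          by_cases h1 : res Q ⟨t, htN⟩ = 1
          · obtain ⟨Z, hZ⟩ := hk.exists_ne X
            exact ⟨Z, X, hZ, by rw [h1, one_smul], by rw [h1, one_smul]⟩
          by_cases h2 : ∃ a, Ax (res Q ⟨t, htN⟩) a
          · obtain ⟨a, ha⟩ := h2
            obtain ⟨U, hU⟩ := hk.exists_pt a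
            obtain ⟨W, hW, hWU, -⟩ := hk.exists_pt2 a U U
            exact ⟨W, U, hWU, ha W hW, ha U hU⟩
          · obtain ⟨⟨a, b, c, d, ha, hb, hc, hd, q⟩, -⟩ := inv_dich hk (hres t htN htp) h1 h2
            have hmem := Subgroup.mem_zpowers (res Q ⟨t, htN⟩)
            exact ⟨a, b, q.ab, ha _ hmem, hb _ hmem⟩
        apply hnot U.1 W.1 (fun h1 => hUW (Subtype.ext h1))
        rw [← hsup, sup_le_iff, Subgroup.zpowers_le]
        exact ⟨fun g hg => ⟨W.2 g hg, U.2 g hg⟩, hresP t htN W hW, hresP t htN U hU⟩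
      obtain ⟨t, htT, htQ, htp, htN⟩ := norm_grow hQT hT2 hTQ
      have h1 : Q ⊔ Subgroup.zpowers t ≤ T := by
        rw [sup_le_iff, Subgroup.zpowers_le]
        exact ⟨hQT, htT⟩
      have h2 : IsPGroup 2 ↥(Q ⊔ Subgroup.zpowers t) := hT2.to_le h1
      have htM := hTM htT
      refine ⟨res Q ⟨t, htN⟩, ⟨_, rfl⟩, fun h3 => hgrow t htQ h2 (hplan1 t htN h3),
        hres t htN htp, Subtype.ext htM.1.2, Subtype.ext htM.1.1, Subtype.ext htM.2, ?_⟩
      by_contra h3
      have h4 : res Q ⟨t, htN⟩ ≠ 1 := fun h5 => hgrow t htQ h2 (hplan1 t htN h5)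
      exact hgrow t htQ h2 (hplan t htN (inv_dich hk (hres t htN htp) h4 h3).1)
    have hkpp := isPrimePow_of_hyp hk hkodd hyp
    apply el_of_pp h t2
    rw [hj]
    exact hkpp.pow (by positivity)

theorem hasEl (h : PlN I n) (t2 : T2 I) : HasEl I := by
  rcases Nat.even_or_odd n with h1 | h1
  · exact el_of_even h t2 h1
  · exact el_of_odd h t2 h1

end Cfsg.Agent.Lib.OW
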