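import Cfsg.Agent.Lib.OddStable
import Cfsg.Agent.Lib.CoprimeAction2
import Cfsg.Agent.Lib.H70Frattini
import Cfsg.Agent.Lib.LocBase

/-!
Odd order solvable groups whose Sylow `p`-subgroups have cyclic commutator subgroup (helper48).
-/

set_option autoImplicit false

namespace Cfsg.Agent.Lib.OddCycComm

open Subgroup Cfsg.Agent.Lib
open scoped commutatorElement

universe u

/-- A `p`-element `s` normalizing a cyclic `p`-group `⟨c⟩` satisfies `[c, s] ∈ ⟨c ^ p⟩`. -/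
theorem comm_mem {G : Type*} [Group G] [Finite G] {p : ℕ} [hp : Fact p.Prime] {c s : G} {k m : ℕ}
    (hc : ∃ j, orderOf c = p ^ j) (hs : s ^ p ^ m = 1) (hk : s * c * s⁻¹ = c ^ k) : ⁅c, s⁆ ∈ zpowers (c ^ p) := by
  by_cases h1 : c = 1
  · rw [h1]; simp
  obtain ⟨j, hj⟩ := hc
  have hj0 : j ≠ 0 := by
    rintro rfl
    rw [pow_zero, orderOf_eq_one_iff] at hj
    exact h1 hj
  have hit : ∀ n : ℕ, s ^ n * c * (s ^ n)⁻¹ = c ^ k ^ n := by
    intro n
    induction n with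
    | zero => simp
    | succ n ih =>
      have : s ^ (n + 1) * c * (s ^ (n + 1))⁻¹ = s ^ n * (s * c * s⁻¹) * (s ^ n)⁻¹ := by
        rw [pow_succ]; group
      rw [this, hk, ← conj_pow, ih, ← pow_mul, pow_succ]
  have h2 := hit (p ^ m)
  rw [hs, one_mul, inv_one, mul_one] at h2
  have h3 : c ^ k ^ p ^ m = c ^ 1 := by rw [pow_one]; exact h2.symm
  rw [pow_eq_pow_iff_modEq, hj] at h3
  have h4 : k ^ p ^ m ≡ 1 [MOD p] := h3.of_dvd (dvd_pow_self p hj0)
  have h5 : (k : ZMod p) = 1 := by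
    have h6 := (ZMod.natCast_eq_natCast_iff _ _ _).mpr h4
    push_cast at h6
    rwa [ZMod.pow_card_pow] at h6
  have h7 : (p : ℤ) ∣ (1 - (k : ℤ)) := by
    rw [← ZMod.intCast_zmod_eq_zero_iff_dvd]
    push_cast
    rw [h5, sub_self]
  obtain ⟨t, ht⟩ := h7
  have h8 : ⁅c, s⁆ = c ^ (1 - (k : ℤ)) := by
    have h9 : s * c⁻¹ * s⁻¹ = (c ^ k)⁻¹ := by rw [← hk]; group
    rw [commutatorElement_def, mul_assoc, mul_assoc, ← mul_assoc s, h9, zpow_sub, zpow_one, zpow_natCast]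
  rw [h8, ht, zpow_mul, zpow_natCast]
  exact zpow_mem (mem_zpowers _) t

variable {Y : Type u} [Group Y] [Finite Y] {p : ℕ} [hp : Fact p.Prime]

theorem sylow_le [Group.IsSolvable Y] (hodd : Odd (Nat.card Y)) (hp2 : p ≠ 2) (hO : Cfsg.pPrimeCore p Y = ⊥)
    (S : Sylow p Y) (hS : IsCyclic (commutator (S : Subgroup Y))) : (S : Subgroup Y) ≤ Cfsg.pCore p Y := by
  set P : Subgroup Y := Cfsg.pCore p Y with hP
  have hPp : IsPGroup p P := Cores.isPGroup_pCore p Y
  have hPS : P ≤ (S : Subgroup Y) := Cores.pCore_le_sylow S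
  have hPn : P.Normal := inferInstance
  set Φ : Subgroup Y := (frattini ↥P).map P.subtype with hΦ
  have hΦP : Φ ≤ P := map_subtype_le _
  have hΦn : Φ.Normal := by
    rw [hΦ]
    infer_instance
  have hCP : centralizer (P : Set Y) ≤ P := Cores.centralizer_pCore_le hO
  -- the kernel of the action on `P/Φ` is a `p`-group
  let K : Subgroup Y := (centralizer ((P.map (QuotientGroup.mk' Φ) : Subgroup (Y ⧸ Φ)) : Set (Y ⧸ Φ))).comap (QuotientGroup.mk' Φ)
  have hKmem : ∀ y, y ∈ K → ∀ x ∈ P, y * x * y⁻¹ * x⁻¹ ∈ Φ := by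
    intro y hy x hx
    have h1 := (mem_centralizer_iff.mp (mem_comap.mp hy)) (QuotientGroup.mk' Φ x) (mem_map_of_mem _ hx)
    rw [← QuotientGroup.eq_one_iff]
    change QuotientGroup.mk' Φ (y * x * y⁻¹ * x⁻¹) = 1
    rw [map_mul, map_mul, map_mul, map_inv, map_inv, ← h1]
    group
  have hKp : IsPGroup p K := by
    rw [LocBase.isPGroup_iff_pRes_eq_bot]
    have h1 : ∀ y ∈ K, (orderOf y).Coprime p → y ∈ centralizer (P : Set Y) := by
      intro y hy hyo
      have h2 : zpowers y ≤ centralizer (P : Set Y) := by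
        apply CoprimeAction2.le_centralizer_of_frattini
        · exact le_top.trans (normalizer_eq_top_iff.mpr hPn).ge
        · rw [Nat.card_zpowers]
          have hF : IsPGroup p (frattini ↥P) := hPp.to_subgroup _
          obtain ⟨n, hn⟩ := IsPGroup.iff_card.mp hF
          rw [hn]
          exact Nat.Coprime.pow_right n hyo
        · intro a ha k hk
          exact hKmem a ((zpowers_le.mpr hy) ha) k hk
      exact h2 (mem_zpowers y)
    have h2 : LocBase.pRes p K ≤ P := (LocBase.pRes_le_iff.mpr h1).trans hCP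
    have h3 : IsPGroup p ↥(LocBase.pRes p K) := hPp.to_le h2
    rw [LocBase.isPGroup_iff_pRes_eq_bot, LocBase.pRes_pRes] at h3
    exact h3
  have hodd' : Odd (Nat.card (Y ⧸ Φ)) := Odd.of_dvd_nat hodd (Subgroup.card_quotient_dvd_card Φ)
  have hSn : ∀ x ∈ (S : Subgroup Y), ∀ y ∈ (S : Subgroup Y), ∃ c : ↥(S : Subgroup Y), c ∈ commutator ↥(S : Subgroup Y) ∧ (c : Y) = ⁅x, y⁆ := by
    intro x hx y hy
    refine ⟨⁅(⟨x, hx⟩ : ↥(S : Subgroup Y)), ⟨y, hy⟩⁆, commutator_mem_commutator (mem_top _) (mem_top _), ?_⟩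
    simp [commutatorElement_def]
  intro s hs
  have hsp : ∃ m, s ^ p ^ m = 1 := by
    obtain ⟨m, hm⟩ := S.isPGroup' ⟨s, hs⟩
    exact ⟨m, congrArg Subtype.val hm⟩
  obtain ⟨m, hm⟩ := hsp
  have hquad : QuadSection.Quad (P.map (QuotientGroup.mk' Φ)) (QuotientGroup.mk' Φ s) := by
    rintro _ ⟨x, hx, rfl⟩
    rw [← map_commutatorElement, ← map_commutatorElement]
    change ((⁅⁅x, s⁆, s⁆ : Y) : Y ⧸ Φ) = 1
    rw [QuotientGroup.eq_one_iff]
    obtain ⟨c, hc, hcx⟩ := hSn x (hPS hx) s hs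
    have hcP : (c : Y) ∈ P := by
      rw [hcx]
      rw [commutatorElement_def, mul_assoc, mul_assoc, ← mul_assoc s]
      exact P.mul_mem hx (hPn.conj_mem _ (P.inv_mem hx) s)
    -- `⟨c⟩` is normal in `S`
    obtain ⟨g, hg⟩ := hS.exists_generator
    have hcn : ∃ k : ℕ, s * (c : Y) * s⁻¹ = (c : Y) ^ k := by
      have h1 : (⟨s, hs⟩ : ↥(S : Subgroup Y)) * c * (⟨s, hs⟩ : ↥(S : Subgroup Y))⁻¹ ∈ zpowers c := by
        have hcm : (commutator ↥(S : Subgroup Y)).Normal := inferInstance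
        obtain ⟨m', hm'⟩ := MonoidHom.map_cyclic (MulAut.conjNormal (H := commutator ↥(S : Subgroup Y)) ⟨s, hs⟩).toMonoidHom
        have h2 := congrArg Subtype.val (hm' ⟨c, hc⟩)
        have h3 : (((MulAut.conjNormal (H := commutator ↥(S : Subgroup Y)) ⟨s, hs⟩).toMonoidHom ⟨c, hc⟩ : commutator ↥(S : Subgroup Y)) : ↥(S : Subgroup Y)) =
            (⟨s, hs⟩ : ↥(S : Subgroup Y)) * c * (⟨s, hs⟩ : ↥(S : Subgroup Y))⁻¹ := MulAut.conjNormal_apply _ _
        rw [h3] at h2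
        rw [h2]
        exact zpow_mem (mem_zpowers c) m'
      rw [← mem_powers_iff_mem_zpowers] at h1
      obtain ⟨k, hk⟩ := h1
      refine ⟨k, ?_⟩
      have := congrArg Subtype.val hk
      simpa using this.symm
    obtain ⟨k, hk⟩ := hcn
    have hco : ∃ j, orderOf (c : Y) = p ^ j := by
      obtain ⟨j, hj⟩ := (IsPGroup.iff_orderOf.mp hPp) ⟨(c : Y), hcP⟩
      rw [Subgroup.orderOf_mk] at hj
      exact ⟨j, hj⟩
    have h5 := comm_mem hco hm hk
    rw [hcx] at h5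
    have h6 : (⁅x, s⁆ : Y) ^ p ∈ Φ := by
      rw [← hcx]
      exact ⟨⟨(c : Y), hcP⟩ ^ p, H70Frattini.pow_mem_frattini hPp _, rfl⟩
    exact (zpowers_le.mpr h6) h5
  obtain ⟨D, -, hND, hD, haD⟩ := OddStable.exists_stable_odd (G := Y ⧸ Φ) (N := ⊤) hodd' hp2
    (hPp.map (QuotientGroup.mk' Φ)) (le_top.trans (normalizer_eq_top_iff.mpr (hPn.map _ (QuotientGroup.mk'_surjective Φ))).ge)
    (mem_top (QuotientGroup.mk' Φ s)) hquad
  have hDn : D.Normal := normalizer_eq_top_iff.1 (top_le_iff.1 hND)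
  have hDc : IsPGroup p (D.comap (QuotientGroup.mk' Φ)) := by
    rintro ⟨y, hy⟩
    obtain ⟨k, hk⟩ := hD _ hy
    have h1 : y ^ p ^ k ∈ K := by
      rw [mem_comap, map_pow]
      exact hk
    obtain ⟨l, hl⟩ := hKp ⟨_, h1⟩
    refine ⟨k + l, ?_⟩
    apply Subtype.ext
    have h2 := congrArg Subtype.val hl
    simp only [SubmonoidClass.coe_pow, OneMemClass.coe_one] at h2 ⊢
    rw [pow_add, pow_mul, h2]
  exact Cores.le_pCore (hDn.comap _) hDc haD

end Cfsg.Agent.Lib.OddCycComm
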