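import Cfsg.Agent.Lib.ClOmega
import Cfsg.Agent.Lib.ZsRot

/-! Root elements in orthogonal groups with a hyperbolic frame (helper38). -/

set_option autoImplicit false
set_option linter.unusedSectionVars false
set_option linter.unusedSimpArgs false

namespace Cfsg.Agent.Lib.OmTwo

open Cfsg.Agent.Lib.Quad QuadraticMap Module Cfsg.Agent.Lib.ClOrthSiegel Cfsg.Agent.Lib.PresBC Cfsg.Agent.Lib.PresSpMod Cfsg.Agent.Lib.ZsRot

variable {F V : Type*} [Field F] [AddCommGroup V] [Module F V] [FiniteDimensional F V] {Q : QuadraticForm F V} {k : ℕ} {e f : Fin k → V}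

/-- signed frame vectors -/
def vl (e f : Fin k → V) : Zs k → V := Sum.elim e f

section basic

omit [FiniteDimensional F V] in
theorem Q_vl (h : Frame Q k e f) (a : Zs k) : Q (vl e f a) = 0 := by
  rcases a with i | i
  · exact h.e0 i
  · exact h.f0 i

omit [FiniteDimensional F V] in
theorem polar_vl (h : Frame Q k e f) (a b : Zs k) : polar Q (vl e f a) (vl e f b) = if b = ng a then 1 else 0 := by
  rcases a with i | i <;> rcases b with j | j
  · show polar Q (e i) (e j) = _
    rw [h.ee, if_neg (by simp [ng])]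
  · show polar Q (e i) (f j) = _
    rw [h.ef]
    by_cases hij : i = j
    · rw [if_pos hij, if_pos (by simp [ng, hij])]
    · rw [if_neg hij, if_neg (by simpa [ng] using Ne.symm hij)]
  · show polar Q (f i) (e j) = _
    rw [h.fe]
    by_cases hij : i = j
    · rw [if_pos hij, if_pos (by simp [ng, hij])]
    · rw [if_neg hij, if_neg (by simpa [ng] using Ne.symm hij)]
  · show polar Q (f i) (f j) = _
    rw [h.ff, if_neg (by simp [ng])]

theorem ng_of_ix {a b : Zs k} (h : ix a ≠ ix b) : a ≠ b ∧ a ≠ ng b ∧ ng a ≠ b ∧ ng a ≠ ng b := by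
  refine ⟨?_, ?_, ?_, ?_⟩
  · rintro rfl; exact h rfl
  · rintro rfl; exact h (ix_ng b)
  · rintro rfl; exact h (ix_ng a).symm
  · intro h1; exact h (by rw [← ix_ng a, h1, ix_ng])

omit [FiniteDimensional F V] in
theorem polar_self0 (h : Frame Q k e f) (a : Zs k) : polar Q (vl e f a) (vl e f a) = 0 := by
  rw [polar_vl h, if_neg (ng_ne a).symm]

omit [FiniteDimensional F V] in
theorem polar_ng (h : Frame Q k e f) (a : Zs k) : polar Q (vl e f a) (vl e f (ng a)) = 1 := by
  rw [polar_vl h, if_pos rfl]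

omit [FiniteDimensional F V] in
theorem polar_ng' (h : Frame Q k e f) (a : Zs k) : polar Q (vl e f (ng a)) (vl e f a) = 1 := by
  rw [polar_vl h, if_pos (ng_ng a).symm]

omit [FiniteDimensional F V] in
theorem polar_ix (h : Frame Q k e f) {a b : Zs k} (hab : ix a ≠ ix b) : polar Q (vl e f a) (vl e f b) = 0 := by
  rw [polar_vl h, if_neg (fun h1 => (ng_of_ix hab).2.2.1 h1.symm)]

theorem vl_ne (h : Frame Q k e f) (a : Zs k) : vl e f a ≠ 0 := by
  intro h1
  have := polar_ng h a
  rw [h1, polar_zero_left] at this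
  exact zero_ne_one this

/-- the orthogonal complement of the frame -/
def Wp (Q : QuadraticForm F V) (e f : Fin k → V) (x : V) : Prop := ∀ a, polar Q (vl e f a) x = 0

omit [FiniteDimensional F V] in
theorem Wp.add {x y : V} (hx : Wp Q e f x) (hy : Wp Q e f y) : Wp Q e f (x + y) := fun a => by rw [polar_add_right, hx, hy, add_zero]
omit [FiniteDimensional F V] in
theorem Wp.smul {x : V} (c : F) (hx : Wp Q e f x) : Wp Q e f (c • x) := fun a => by rw [polar_smul_right, hx, smul_zero]
omit [FiniteDimensional F V] in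
theorem Wp.zero : Wp Q e f 0 := fun a => by rw [polar_zero_right]
omit [FiniteDimensional F V] in
theorem Wp.neg {x : V} (hx : Wp Q e f x) : Wp Q e f (-x) := fun a => by rw [polar_neg_right, hx, neg_zero]
omit [FiniteDimensional F V] in
theorem Wp.sub {x y : V} (hx : Wp Q e f x) (hy : Wp Q e f y) : Wp Q e f (x - y) := fun a => by rw [polar_sub_right, hx, hy, sub_zero]

omit [FiniteDimensional F V] in
theorem Wp.symm {x : V} (hx : Wp Q e f x) (a : Zs k) : polar Q x (vl e f a) = 0 := by rw [polar_comm]; exact hx a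

end basic

/-- long root elements -/
noncomputable def xx (hQ : Nd Q) (e f : Fin k → V) (a b : Zs k) (t : F) : V ≃ₗ[F] V := E hQ (vl e f a) ((-t) • vl e f (ng b))

/-- short root elements -/
noncomputable def yy (hQ : Nd Q) (e f : Fin k → V) (a : Zs k) (z : V) : V ≃ₗ[F] V := E hQ (vl e f a) z

/-- long Weyl elements -/
noncomputable def nn (hQ : Nd Q) (e f : Fin k → V) (a b : Zs k) (t : F) : V ≃ₗ[F] V := xx hQ e f a b t * xx hQ e f b a (-t⁻¹) * xx hQ e f a b t

/-- torus elements -/
noncomputable def hh (hQ : Nd Q) (e f : Fin k → V) (a b : Zs k) (t : F) : V ≃ₗ[F] V := nn hQ e f a b t * nn hQ e f a b (-1)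

/-- short Weyl elements -/
noncomputable def rr (hQ : Nd Q) (e f : Fin k → V) (a : Zs k) (z : V) : V ≃ₗ[F] V := yy hQ e f a z * yy hQ e f (ng a) ((Q z)⁻¹ • z) * yy hQ e f a z

variable (hQ : Nd Q) (h : Frame Q k e f)

section elements
include h

theorem xx_pol {a b : Zs k} (hab : ix a ≠ ix b) (t : F) : polar Q (vl e f a) ((-t) • vl e f (ng b)) = 0 := by
  rw [polar_smul_right, polar_ix h (by rw [ix_ng]; exact hab), smul_zero]

theorem xx_apply {a b : Zs k} (hab : ix a ≠ ix b) (t : F) (v : V) : xx hQ e f a b t v =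
    v - (t * polar Q (vl e f a) v) • vl e f (ng b) + (t * polar Q (vl e f (ng b)) v) • vl e f a := by
  unfold xx
  rw [E_apply hQ (Q_vl h a) (xx_pol h hab t), Q_smul, Q_vl h, polar_smul_left]
  simp only [smul_eq_mul, mul_zero, zero_mul, zero_smul, sub_zero]
  module

theorem xx_fix {a b : Zs k} (hab : ix a ≠ ix b) (t : F) {v : V} (h1 : polar Q (vl e f a) v = 0) (h2 : polar Q (vl e f (ng b)) v = 0) :
    xx hQ e f a b t v = v := by
  rw [xx_apply hQ h hab, h1, h2]; simp

theorem xx_add {a b : Zs k} (hab : ix a ≠ ix b) (s t : F) : xx hQ e f a b s * xx hQ e f a b t = xx hQ e f a b (s + t) := by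
  unfold xx
  rw [E_add hQ (xx_pol h hab s) (xx_pol h hab t)]
  congr 1
  module

omit h in
theorem xx_zero (a b : Zs k) : xx hQ e f a b 0 = 1 := by
  unfold xx
  rw [neg_zero, zero_smul, E_zero]

theorem xx_inv {a b : Zs k} (hab : ix a ≠ ix b) (t : F) : (xx hQ e f a b t)⁻¹ = xx hQ e f a b (-t) := by
  rw [inv_eq_iff_mul_eq_one, xx_add hQ h hab, add_neg_cancel, xx_zero]

theorem xx_symm {a b : Zs k} (hab : ix a ≠ ix b) (t : F) : xx hQ e f a b t = xx hQ e f (ng b) (ng a) (-t) := by
  have h1 : ix (ng b) ≠ ix (ng a) := by rw [ix_ng, ix_ng]; exact hab.symm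
  ext v
  rw [xx_apply hQ h hab, xx_apply hQ h h1, ng_ng]
  module

omit h in
/-- conjugation by monomial elements -/
theorem xx_conj {g : V ≃ₗ[F] V} (hg : g ∈ O Q) {a b a' b' : Zs k} {c d : F} (h1 : g (vl e f a) = c • vl e f a')
    (hc : c ≠ 0) (h2 : g (vl e f (ng b)) = d • vl e f (ng b')) (t : F) : g * xx hQ e f a b t * g⁻¹ = xx hQ e f a' b' (t * c * d) := by
  unfold xx
  rw [E_conj hQ hg, h1, E_smul hQ hc, map_smul, h2]
  congr 1
  module

omit h in
theorem yy_conj {g : V ≃ₗ[F] V} (hg : g ∈ O Q) {a a' : Zs k} {c : F} (h1 : g (vl e f a) = c • vl e f a')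
    (hc : c ≠ 0) (z : V) : g * yy hQ e f a z * g⁻¹ = yy hQ e f a' (c • g z) := by
  unfold yy
  rw [E_conj hQ hg, h1, E_smul hQ hc]

/-- the commutator of long root elements -/
theorem xx_comm {a b c : Zs k} (hab : ix a ≠ ix b) (hbc : ix b ≠ ix c) (hac : ix a ≠ ix c) (s t : F) :
    xx hQ e f a b s * xx hQ e f b c t * (xx hQ e f a b s)⁻¹ = xx hQ e f a c (s * t) * xx hQ e f b c t := by
  have hO : xx hQ e f a b s ∈ O Q := E_mem _ _ _
  have h0 : xx hQ e f b c t = E hQ (vl e f b) ((-t) • vl e f (ng c)) := rfl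
  rw [h0, E_conj hQ hO, map_smul, ← h0]
  have e1 : xx hQ e f a b s (vl e f b) = vl e f b + s • vl e f a := by
    rw [xx_apply hQ h hab, polar_ix h hab, polar_ng' h]; simp
  have e2 : xx hQ e f a b s (vl e f (ng c)) = vl e f (ng c) := xx_fix hQ h hab s (polar_ix h (by rwa [ix_ng]))
    (polar_ix h (by rwa [ix_ng, ix_ng]))
  rw [e1, e2]
  have hp1 : polar Q (vl e f b) (vl e f (ng c)) = 0 := polar_ix h (by rwa [ix_ng])
  have hp2 : polar Q (vl e f a) (vl e f (ng c)) = 0 := polar_ix h (by rwa [ix_ng])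
  have hp3 : polar Q (vl e f b + s • vl e f a) ((-t) • vl e f (ng c)) = 0 := by
    rw [polar_smul_right, polar_add_left, polar_smul_left, hp1, hp2]; simp
  have hQ1 : Q (vl e f b + s • vl e f a) = 0 := by
    rw [Q_add, Q_smul, Q_vl h, Q_vl h, polar_smul_right, polar_ix h hab.symm]; simp
  have hac' : ix a ≠ ix c := hac
  ext v
  rw [E_apply hQ hQ1 hp3]
  show _ = xx hQ e f a c (s * t) (xx hQ e f b c t v)
  rw [xx_apply hQ h hac, xx_apply hQ h hbc, Q_smul, Q_vl h]
  have p1 : polar Q (vl e f a) (vl e f b) = 0 := polar_ix h hab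
  have p2 : polar Q (vl e f (ng c)) (vl e f b) = 0 := polar_ix h (by rw [ix_ng]; exact hbc.symm)
  have p3 : polar Q (vl e f (ng c)) (vl e f (ng c)) = 0 := polar_self0 h _
  simp only [polar_add_left, polar_smul_left, polar_add_right, polar_sub_right, polar_smul_right, p1, p2, p3, hp1, hp2, smul_eq_mul, mul_zero,
    zero_mul, zero_smul, sub_zero, add_zero]
  module

theorem yy_apply {a : Zs k} {z : V} (hz : Wp Q e f z) (v : V) : yy hQ e f a z v =
    v + polar Q (vl e f a) v • z - polar Q z v • vl e f a - (Q z * polar Q (vl e f a) v) • vl e f a := by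
  unfold yy
  rw [E_apply hQ (Q_vl h a) (hz a)]

omit h in
theorem yy_add {a : Zs k} {z z' : V} (hz : Wp Q e f z) (hz' : Wp Q e f z') : yy hQ e f a z * yy hQ e f a z' = yy hQ e f a (z + z') :=
  E_add hQ (hz a) (hz' a)

omit h in
theorem yy_zero (a : Zs k) : yy hQ e f a 0 = 1 := E_zero hQ _

omit h in
theorem yy_inv {a : Zs k} {z : V} (hz : Wp Q e f z) : (yy hQ e f a z)⁻¹ = yy hQ e f a (-z) := E_inv hQ (hz a)

/-- the commutator of short root elements -/
theorem yy_comm {a b : Zs k} (hab : ix a ≠ ix b) {x y : V} (hx : Wp Q e f x) (hy : Wp Q e f y) :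
    yy hQ e f a x * yy hQ e f b y * (yy hQ e f a x)⁻¹ * (yy hQ e f b y)⁻¹ = E hQ (vl e f b) ((-polar Q x y) • vl e f a) := by
  have hO : yy hQ e f a x ∈ O Q := E_mem _ _ _
  have h1 : yy hQ e f a x (vl e f b) = vl e f b := by
    rw [yy_apply hQ h hx, polar_ix h hab, hx.symm b]; simp
  have h2 : yy hQ e f a x y = y + (-polar Q x y) • vl e f a := by
    rw [yy_apply hQ h hx, hy a]; module
  have h3 : yy hQ e f a x * yy hQ e f b y * (yy hQ e f a x)⁻¹ = yy hQ e f b y * E hQ (vl e f b) ((-polar Q x y) • vl e f a) := by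
    unfold yy at *
    rw [E_conj hQ hO, h1, h2, E_add hQ (hy b) (by rw [polar_smul_right, polar_ix h hab.symm, smul_zero])]
  have h4 : Commute (yy hQ e f b y) (E hQ (vl e f b) ((-polar Q x y) • vl e f a)) := by
    unfold yy
    show _ * _ = _ * _
    rw [E_add hQ (hy b) (by rw [polar_smul_right, polar_ix h hab.symm, smul_zero]),
      E_add hQ (by rw [polar_smul_right, polar_ix h hab.symm, smul_zero]) (hy b), add_comm]
  rw [h3, h4.eq, mul_inv_cancel_right]

end elements

section weyl
include h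

theorem nn_apply {a b : Zs k} (hab : ix a ≠ ix b) {t : F} (ht : t ≠ 0) (v : V) : nn hQ e f a b t v =
    v + (t * polar Q (vl e f (ng b)) v - polar Q (vl e f (ng a)) v) • vl e f a
      - (t⁻¹ * polar Q (vl e f (ng a)) v + polar Q (vl e f (ng b)) v) • vl e f b
      + (t⁻¹ * polar Q (vl e f b) v - polar Q (vl e f a) v) • vl e f (ng a)
      - (t * polar Q (vl e f a) v + polar Q (vl e f b) v) • vl e f (ng b) := by
  unfold nn
  rw [LinearEquiv.mul_apply, LinearEquiv.mul_apply, xx_apply hQ h hab, xx_apply hQ h hab.symm, xx_apply hQ h hab]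
  have hn := ng_of_ix hab
  have p1 : polar Q (vl e f a) (vl e f a) = 0 := polar_self0 h _
  have p2 : polar Q (vl e f b) (vl e f b) = 0 := polar_self0 h _
  have p3 : polar Q (vl e f a) (vl e f b) = 0 := polar_ix h hab
  have p4 : polar Q (vl e f b) (vl e f a) = 0 := polar_ix h hab.symm
  have p5 : polar Q (vl e f a) (vl e f (ng a)) = 1 := polar_ng h _
  have p6 : polar Q (vl e f b) (vl e f (ng b)) = 1 := polar_ng h _
  have p7 : polar Q (vl e f a) (vl e f (ng b)) = 0 := polar_ix h (by rwa [ix_ng])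
  have p8 : polar Q (vl e f b) (vl e f (ng a)) = 0 := polar_ix h (by rw [ix_ng]; exact hab.symm)
  have p9 : polar Q (vl e f (ng a)) (vl e f a) = 1 := polar_ng' h _
  have p10 : polar Q (vl e f (ng b)) (vl e f b) = 1 := polar_ng' h _
  have p11 : polar Q (vl e f (ng a)) (vl e f b) = 0 := polar_ix h (by rwa [ix_ng])
  have p12 : polar Q (vl e f (ng b)) (vl e f a) = 0 := polar_ix h (by rw [ix_ng]; exact hab.symm)
  have p13 : polar Q (vl e f (ng a)) (vl e f (ng a)) = 0 := polar_self0 h _
  have p14 : polar Q (vl e f (ng b)) (vl e f (ng b)) = 0 := polar_self0 h _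
  have p15 : polar Q (vl e f (ng a)) (vl e f (ng b)) = 0 := polar_ix h (by rwa [ix_ng, ix_ng])
  have p16 : polar Q (vl e f (ng b)) (vl e f (ng a)) = 0 := polar_ix h (by rw [ix_ng, ix_ng]; exact hab.symm)
  simp only [polar_add_right, polar_sub_right, polar_smul_right, p1, p2, p3, p4, p5, p6, p7, p8, p9, p10, p11, p12, p13, p14, p15, p16,
    smul_eq_mul, mul_zero, mul_one, sub_zero, add_zero, zero_add, zero_sub]
  have e1 : t * t⁻¹ = 1 := mul_inv_cancel₀ ht
  match_scalars
  all_goals (first | ring1 | (field_simp; ring1) | field_simp)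

/-- torus elements -/
theorem hh_apply {a b : Zs k} (hab : ix a ≠ ix b) {t : F} (ht : t ≠ 0) (v : V) : hh hQ e f a b t v =
    v + ((t - 1) * polar Q (vl e f (ng a)) v) • vl e f a + ((t⁻¹ - 1) * polar Q (vl e f (ng b)) v) • vl e f b
      + ((t⁻¹ - 1) * polar Q (vl e f a) v) • vl e f (ng a) + ((t - 1) * polar Q (vl e f b) v) • vl e f (ng b) := by
  unfold hh
  have hm1 : (-1 : F) ≠ 0 := neg_ne_zero.2 one_ne_zero
  rw [LinearEquiv.mul_apply, nn_apply hQ h hab ht, nn_apply hQ h hab hm1]
  have p1 : polar Q (vl e f a) (vl e f a) = 0 := polar_self0 h _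
  have p2 : polar Q (vl e f b) (vl e f b) = 0 := polar_self0 h _
  have p3 : polar Q (vl e f a) (vl e f b) = 0 := polar_ix h hab
  have p4 : polar Q (vl e f b) (vl e f a) = 0 := polar_ix h hab.symm
  have p5 : polar Q (vl e f a) (vl e f (ng a)) = 1 := polar_ng h _
  have p6 : polar Q (vl e f b) (vl e f (ng b)) = 1 := polar_ng h _
  have p7 : polar Q (vl e f a) (vl e f (ng b)) = 0 := polar_ix h (by rwa [ix_ng])
  have p8 : polar Q (vl e f b) (vl e f (ng a)) = 0 := polar_ix h (by rw [ix_ng]; exact hab.symm)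
  have p9 : polar Q (vl e f (ng a)) (vl e f a) = 1 := polar_ng' h _
  have p10 : polar Q (vl e f (ng b)) (vl e f b) = 1 := polar_ng' h _
  have p11 : polar Q (vl e f (ng a)) (vl e f b) = 0 := polar_ix h (by rwa [ix_ng])
  have p12 : polar Q (vl e f (ng b)) (vl e f a) = 0 := polar_ix h (by rw [ix_ng]; exact hab.symm)
  have p13 : polar Q (vl e f (ng a)) (vl e f (ng a)) = 0 := polar_self0 h _
  have p14 : polar Q (vl e f (ng b)) (vl e f (ng b)) = 0 := polar_self0 h _
  have p15 : polar Q (vl e f (ng a)) (vl e f (ng b)) = 0 := polar_ix h (by rwa [ix_ng, ix_ng])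
  have p16 : polar Q (vl e f (ng b)) (vl e f (ng a)) = 0 := polar_ix h (by rw [ix_ng, ix_ng]; exact hab.symm)
  simp only [polar_add_right, polar_sub_right, polar_smul_right, p1, p2, p3, p4, p5, p6, p7, p8, p9, p10, p11, p12, p13, p14, p15, p16,
    smul_eq_mul, mul_zero, mul_one, sub_zero, add_zero, zero_add, zero_sub, inv_neg, inv_one]
  match_scalars
  all_goals (first | ring1 | (field_simp; ring1) | field_simp)

/-- short Weyl elements -/
theorem rr_apply (a : Zs k) {z : V} (hz : Wp Q e f z) (hz0 : Q z ≠ 0) (v : V) : rr hQ e f a z v =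
    v - (polar Q (vl e f (ng a)) v) • vl e f a - (polar Q (vl e f a) v) • vl e f (ng a)
      - ((Q z)⁻¹ * polar Q (vl e f (ng a)) v) • vl e f (ng a) - (Q z * polar Q (vl e f a) v) • vl e f a - ((Q z)⁻¹ * polar Q z v) • z := by
  unfold rr
  have hz' : Wp Q e f ((Q z)⁻¹ • z) := hz.smul _
  rw [LinearEquiv.mul_apply, LinearEquiv.mul_apply, yy_apply hQ h hz, yy_apply hQ h hz', yy_apply hQ h hz]
  have p1 : polar Q (vl e f a) (vl e f a) = 0 := polar_self0 h _
  have p5 : polar Q (vl e f a) (vl e f (ng a)) = 1 := polar_ng h _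
  have p9 : polar Q (vl e f (ng a)) (vl e f a) = 1 := polar_ng' h _
  have p13 : polar Q (vl e f (ng a)) (vl e f (ng a)) = 0 := polar_self0 h _
  have q1 : polar Q (vl e f a) z = 0 := hz a
  have q2 : polar Q (vl e f (ng a)) z = 0 := hz _
  have q3 : polar Q z (vl e f a) = 0 := hz.symm a
  have q4 : polar Q z (vl e f (ng a)) = 0 := hz.symm _
  have q5 : polar Q z z = 2 * Q z := polar_self' Q z
  simp only [polar_add_right, polar_sub_right, polar_smul_right, polar_smul_left, Q_smul, p1, p5, p9, p13, q1, q2, q3, q4, q5,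
    smul_eq_mul, mul_zero, mul_one, sub_zero, add_zero, zero_add, zero_sub, smul_sub, smul_add, smul_smul]
  match_scalars
  all_goals (first | ring1 | (field_simp; ring1) | field_simp)

end weyl

section gen
include h

/-- the decomposition along the frame -/
theorem decomp (v : V) : Wp Q e f (v - ∑ b, polar Q (vl e f (ng b)) v • vl e f b) := by
  intro a
  rw [polar_sub_right]
  have : polar Q (vl e f a) (∑ b, polar Q (vl e f (ng b)) v • vl e f b) = polar Q (vl e f a) v := by
    have h1 : ∀ s : Finset (Zs k), polar Q (vl e f a) (∑ b ∈ s, polar Q (vl e f (ng b)) v • vl e f b) =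
        ∑ b ∈ s, polar Q (vl e f a) (polar Q (vl e f (ng b)) v • vl e f b) := by
      intro s
      classical
      induction s using Finset.induction_on with
      | empty => simp
      | insert b s hb ih => rw [Finset.sum_insert hb, Finset.sum_insert hb, polar_add_right, ih]
    rw [h1, Finset.sum_eq_single (ng a)]
    · rw [polar_smul_right, polar_ng h, ng_ng, smul_eq_mul, mul_one]
    · intro b _ hb
      rw [polar_smul_right, polar_vl h, if_neg hb, smul_zero]
    · intro h2; exact absurd (Finset.mem_univ _) h2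
  rw [this, sub_self]

/-- all Siegel transformations from root elements -/
theorem T_le_of {H : Subgroup (V ≃ₗ[F] V)} (han : ∀ x, Wp Q e f x → Q x = 0 → x = 0)
    (hs : ∀ a x, Wp Q e f x → yy hQ e f a x ∈ H) (hl : ∀ a b, ix a ≠ ix b → ∀ t, xx hQ e f a b t ∈ H) : T hQ ≤ H := by
  classical
  have h1 : ∀ a (y : V), polar Q (vl e f a) y = 0 → E hQ (vl e f a) y ∈ H := by
    intro a y hy
    have h2 : ∀ s : Finset (Zs k), polar Q (vl e f a) (∑ b ∈ s, polar Q (vl e f (ng b)) y • vl e f b) = 0 ∧
        E hQ (vl e f a) (∑ b ∈ s, polar Q (vl e f (ng b)) y • vl e f b) ∈ H := by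
      intro s
      induction s using Finset.induction_on with
      | empty => rw [Finset.sum_empty]; exact ⟨polar_zero_right _ _, by rw [E_zero]; exact one_mem _⟩
      | insert b s hb ih =>
        have h3 : polar Q (vl e f a) (polar Q (vl e f (ng b)) y • vl e f b) = 0 := by
          rw [polar_smul_right, polar_vl h]
          by_cases h4 : b = ng a
          · rw [h4, ng_ng, hy, zero_smul]
          · rw [if_neg h4, smul_zero]
        rw [Finset.sum_insert hb]
        refine ⟨by rw [polar_add_right, h3, ih.1, add_zero], ?_⟩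
        rw [← E_add hQ h3 ih.1]
        refine mul_mem ?_ ih.2
        by_cases h4 : ix a = ix b
        · rcases eq_or_ng h4 with h5 | h5
          · rw [h5, E_smul_self]; exact one_mem _
          · have h6 : ng b = a := h5.symm
            rw [h6, hy, zero_smul, E_zero]; exact one_mem _
        · have h6 := hl a (ng b) (by rw [ix_ng]; exact h4) (-(polar Q (vl e f (ng b)) y))
          unfold xx at h6
          rwa [ng_ng, neg_neg] at h6
    have h3 := h2 Finset.univ
    have h4 := decomp h y
    have h5 : y = (∑ b, polar Q (vl e f (ng b)) y • vl e f b) + (y - ∑ b, polar Q (vl e f (ng b)) y • vl e f b) := by abel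
    rw [h5, ← E_add hQ h3.1 (h4 a)]
    exact mul_mem h3.2 (hs a _ h4)
  rw [T, Subgroup.closure_le]
  rintro _ ⟨z, w, rfl⟩
  by_cases hzw : Q z = 0 ∧ polar Q z w = 0
  · obtain ⟨hz, hw⟩ := hzw
    by_cases hz0 : z = 0
    · have : E hQ z w = 1 := by
        ext1 x
        rw [E_apply _ hz hw, hz0, polar_zero_left]
        change _ = x
        simp
      rw [this]; exact one_mem _
    · obtain ⟨a, ha⟩ : ∃ a, polar Q (vl e f (ng a)) z ≠ 0 := by
        by_contra h2
        push Not at h2
        exact hz0 (han z (fun a => by have := h2 (ng a); rwa [ng_ng] at this) hz)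
      set c := polar Q (vl e f (ng a)) z with hc
      set z' : V := c⁻¹ • z with hz'
      clear_value z'
      have hzz' : z = c • z' := by rw [hz', smul_smul, mul_inv_cancel₀ ha, one_smul]
      have hz'a : polar Q (vl e f (ng a)) z' = 1 := by rw [hz', polar_smul_right, ← hc, smul_eq_mul, inv_mul_cancel₀ ha]
      have hQz' : Q z' = 0 := by rw [hz', Q_smul, hz, mul_zero]
      set w' := c • w with hw'
      have hE : E hQ z w = E hQ z' w' := by rw [hzz', E_smul hQ ha]
      set d := polar Q (vl e f a) z' with hd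
      set y : V := z' - vl e f a - d • vl e f (ng a) with hy
      have hya : polar Q (vl e f (ng a)) y = 0 := by
        rw [hy, polar_sub_right, polar_sub_right, polar_smul_right, hz'a, polar_ng' h, polar_self0 h]; simp
      have hya' : polar Q (vl e f a) y = 0 := by
        rw [hy, polar_sub_right, polar_sub_right, polar_smul_right, polar_ng h, polar_self0 h, ← hd]; simp
      have hQy : d = -(Q y) := by
        have h3 : z' = y + (vl e f a + d • vl e f (ng a)) := by rw [hy]; abel
        have h4 : Q z' = Q y + Q (vl e f a + d • vl e f (ng a)) + polar Q y (vl e f a + d • vl e f (ng a)) := by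
          conv_lhs => rw [h3]
          rw [Q_add]
        rw [hQz', Q_add, Q_smul, Q_vl h, Q_vl h, polar_add_right, polar_comm _ y, hya', polar_smul_right, polar_smul_right,
          polar_comm _ y, hya, polar_ng h] at h4
        simp only [smul_zero, mul_zero, add_zero, zero_add, smul_eq_mul, mul_one] at h4
        linear_combination -h4
      have hg : E hQ (vl e f (ng a)) y (vl e f a) = z' := by
        rw [E_apply hQ (Q_vl h _) hya, polar_ng' h, polar_comm _ y, hya', hy]
        have h5 : (Q y) • vl e f (ng a) = -(d • vl e f (ng a)) := by rw [hQy, neg_smul, neg_neg]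
        rw [← hy, mul_one, h5, hy]
        simp only [one_smul, zero_smul]
        abel
      have hgH : E hQ (vl e f (ng a)) y ∈ H := h1 _ _ hya
      set g := E hQ (vl e f (ng a)) y with hgdef
      have hgO : g ∈ O Q := E_mem _ _ _
      have hconj := E_conj hQ hgO (vl e f a) (g⁻¹ w')
      have hgw : g (g⁻¹ w') = w' := g.apply_symm_apply w'
      rw [hg, hgw] at hconj
      rw [hE, ← hconj]
      refine mul_mem (mul_mem hgH (h1 _ _ ?_)) (inv_mem hgH)
      rw [← O_polar hgO, hg, hgw, hz', hw', polar_smul_left, polar_smul_right, hw]; simp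
  · rw [E_of_ne _ hzw]; exact one_mem _

end gen

end Cfsg.Agent.Lib.OmTwo
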