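import Cfsg.Agent.Lib.OmTwoA

/-! Monomial elements and two-generation of orthogonal groups with an anisotropic part (helper38). -/

set_option autoImplicit false
set_option linter.unusedSectionVars false
set_option linter.unusedSimpArgs false

namespace Cfsg.Agent.Lib.OmTwo

open Cfsg.Agent.Lib.Quad QuadraticMap Module Cfsg.Agent.Lib.ClOrthSiegel Cfsg.Agent.Lib.PresBC Cfsg.Agent.Lib.PresSpMod Cfsg.Agent.Lib.ZsRot

variable {F V : Type*} [Field F] [AddCommGroup V] [Module F V] [FiniteDimensional F V] {Q : QuadraticForm F V} {k : ℕ} {e f : Fin k → V}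

/-- monomial elements -/
def Mn (e f : Fin k → V) (π : Zs k → Zs k) (w : V ≃ₗ[F] V) : Prop := ∀ a, ∃ c : F, c ≠ 0 ∧ w (vl e f a) = c • vl e f (π a)

omit [FiniteDimensional F V] in
theorem Mn.one : Mn e f id (1 : V ≃ₗ[F] V) := fun a => ⟨1, one_ne_zero, by rw [one_smul]; rfl⟩

omit [FiniteDimensional F V] in
theorem Mn.mul {π π' : Zs k → Zs k} {w w' : V ≃ₗ[F] V} (h : Mn e f π w) (h' : Mn e f π' w') : Mn e f (π ∘ π') (w * w') := by
  intro a
  obtain ⟨c, hc, h1⟩ := h' a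
  obtain ⟨d, hd, h2⟩ := h (π' a)
  refine ⟨c * d, mul_ne_zero hc hd, ?_⟩
  rw [LinearEquiv.mul_apply, h1, map_smul, h2, smul_smul]; rfl

omit [FiniteDimensional F V] in
theorem Mn.inv {π : Zs k → Zs k} {w : V ≃ₗ[F] V} (h : Mn e f π w) (a : Zs k) : ∃ c : F, c ≠ 0 ∧ w⁻¹ (vl e f (π a)) = c • vl e f a := by
  obtain ⟨c, hc, h1⟩ := h a
  refine ⟨c⁻¹, inv_ne_zero hc, ?_⟩
  have h2 : w⁻¹ (w (vl e f a)) = vl e f a := w.symm_apply_apply _
  rw [h1, map_smul] at h2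
  rw [← h2, smul_smul, inv_mul_cancel₀ hc, one_smul]

omit [FiniteDimensional F V] in
theorem Mn.wp {π : Zs k → Zs k} {w : V ≃ₗ[F] V} (h : Mn e f π w) (hπ : Function.Surjective π) (hw : w ∈ O Q) {x : V} (hx : Wp Q e f x) :
    Wp Q e f (w x) := by
  intro b
  obtain ⟨a, rfl⟩ := hπ b
  obtain ⟨c, hc, h1⟩ := h a
  have h2 : c • polar Q (vl e f (π a)) (w x) = 0 := by
    rw [← polar_smul_left, ← h1, O_polar hw, hx]
  exact (smul_eq_zero.1 h2).resolve_left hc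

omit [FiniteDimensional F V] in
theorem Mn.wp_inv {π : Zs k → Zs k} {w : V ≃ₗ[F] V} (h : Mn e f π w) (hw : w ∈ O Q) {x : V} (hx : Wp Q e f x) :
    Wp Q e f (w⁻¹ x) := by
  intro a
  obtain ⟨c, hc, h1⟩ := h a
  have h2 : w (w⁻¹ x) = x := w.apply_symm_apply x
  rw [← O_polar hw, h1, h2, polar_smul_left, hx, smul_zero]

variable (hQ : Nd Q) (h : Frame Q k e f)

section
include h

theorem nn_fix {a b : Zs k} (hab : ix a ≠ ix b) {t : F} (ht : t ≠ 0) {c : Zs k} (h1 : ix c ≠ ix a) (h2 : ix c ≠ ix b) :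
    nn hQ e f a b t (vl e f c) = vl e f c := by
  rw [nn_apply hQ h hab ht, polar_ix h h1.symm, polar_ix h h2.symm, polar_ix h (a := ng a) (by rw [ix_ng]; exact h1.symm),
    polar_ix h (a := ng b) (by rw [ix_ng]; exact h2.symm)]
  simp

theorem nn_wp {a b : Zs k} (hab : ix a ≠ ix b) {t : F} (ht : t ≠ 0) {x : V} (hx : Wp Q e f x) : nn hQ e f a b t x = x := by
  rw [nn_apply hQ h hab ht, hx, hx, hx, hx]; simp

theorem nn_b {a b : Zs k} (hab : ix a ≠ ix b) {t : F} (ht : t ≠ 0) : nn hQ e f a b t (vl e f b) = t • vl e f a := by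
  rw [nn_apply hQ h hab ht, polar_ng' h, polar_self0 h, polar_ix h hab, polar_ix h (a := ng a) (by rw [ix_ng]; exact hab)]
  simp

theorem nn_a {a b : Zs k} (hab : ix a ≠ ix b) {t : F} (ht : t ≠ 0) : nn hQ e f a b t (vl e f a) = (-t⁻¹) • vl e f b := by
  rw [nn_apply hQ h hab ht, polar_ng' h, polar_self0 h, polar_ix h hab.symm, polar_ix h (a := ng b) (by rw [ix_ng]; exact hab.symm)]
  simp

theorem nn_nb {a b : Zs k} (hab : ix a ≠ ix b) {t : F} (ht : t ≠ 0) : nn hQ e f a b t (vl e f (ng b)) = t⁻¹ • vl e f (ng a) := by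
  rw [nn_apply hQ h hab ht, polar_ng h, polar_self0 h, polar_ix h (a := a) (b := ng b) (by rwa [ix_ng]),
    polar_ix h (a := ng a) (b := ng b) (by rwa [ix_ng, ix_ng])]
  simp

theorem nn_na {a b : Zs k} (hab : ix a ≠ ix b) {t : F} (ht : t ≠ 0) : nn hQ e f a b t (vl e f (ng a)) = (-t) • vl e f (ng b) := by
  rw [nn_apply hQ h hab ht, polar_ng h, polar_self0 h, polar_ix h (a := b) (b := ng a) (by rw [ix_ng]; exact hab.symm),
    polar_ix h (a := ng b) (b := ng a) (by rw [ix_ng, ix_ng]; exact hab.symm)]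
  simp

theorem rr_fix (a : Zs k) {z : V} (hz : Wp Q e f z) (hz0 : Q z ≠ 0) {c : Zs k} (h1 : ix c ≠ ix a) : rr hQ e f a z (vl e f c) = vl e f c := by
  rw [rr_apply hQ h a hz hz0, polar_ix h h1.symm, polar_ix h (a := ng a) (by rw [ix_ng]; exact h1.symm), hz.symm]
  simp

theorem rr_a (a : Zs k) {z : V} (hz : Wp Q e f z) (hz0 : Q z ≠ 0) : rr hQ e f a z (vl e f a) = (-(Q z)⁻¹) • vl e f (ng a) := by
  rw [rr_apply hQ h a hz hz0, polar_self0 h, polar_ng' h, hz.symm]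
  simp

theorem rr_na (a : Zs k) {z : V} (hz : Wp Q e f z) (hz0 : Q z ≠ 0) : rr hQ e f a z (vl e f (ng a)) = (-(Q z)) • vl e f a := by
  rw [rr_apply hQ h a hz hz0, polar_self0 h, polar_ng h, hz.symm]
  simp

theorem rr_wp (a : Zs k) {z : V} (hz : Wp Q e f z) (hz0 : Q z ≠ 0) {x : V} (hx : Wp Q e f x) :
    rr hQ e f a z x = x - ((Q z)⁻¹ * polar Q z x) • z := by
  rw [rr_apply hQ h a hz hz0, hx, hx]; simp

omit h in
theorem xx_mem_T (a b : Zs k) (t : F) : xx hQ e f a b t ∈ T hQ := E_mem_T _ _ _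
omit h in
theorem yy_mem_T (a : Zs k) (z : V) : yy hQ e f a z ∈ T hQ := E_mem_T _ _ _
omit h in
theorem nn_mem_T (a b : Zs k) (t : F) : nn hQ e f a b t ∈ T hQ := mul_mem (mul_mem (xx_mem_T _ _ _ _) (xx_mem_T _ _ _ _)) (xx_mem_T _ _ _ _)
omit h in
theorem hh_mem_T (a b : Zs k) (t : F) : hh hQ e f a b t ∈ T hQ := mul_mem (nn_mem_T _ _ _ _) (nn_mem_T _ _ _ _)
omit h in
theorem rr_mem_T (a : Zs k) (z : V) : rr hQ e f a z ∈ T hQ := mul_mem (mul_mem (yy_mem_T _ _ _) (yy_mem_T _ _ _)) (yy_mem_T _ _ _)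

/-- positive permutations -/
theorem exists_perm (σ : Equiv.Perm (Fin k)) : ∃ w ∈ T hQ, Mn e f (Sum.map σ σ) w ∧ ∀ x, Wp Q e f x → w x = x := by
  refine Equiv.Perm.swap_induction_on σ ?_ ?_
  · refine ⟨1, one_mem _, ?_, fun _ _ => rfl⟩
    have : (Sum.map (⇑(1 : Equiv.Perm (Fin k))) (⇑(1 : Equiv.Perm (Fin k)))) = id := by
      funext a; rcases a with a | a <;> rfl
    rw [this]; exact Mn.one
  · rintro τ i j hij ⟨w, hw, h1, h2⟩
    have hab : ix (Sum.inl i : Zs k) ≠ ix (Sum.inl j : Zs k) := hij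
    refine ⟨nn hQ e f (Sum.inl i) (Sum.inl j) 1 * w, mul_mem (nn_mem_T _ _ _ _) hw, ?_, fun x hx => ?_⟩
    · have h3 : Mn e f (Sum.map (Equiv.swap i j) (Equiv.swap i j)) (nn hQ e f (Sum.inl i) (Sum.inl j) 1) := by
        have key : ∀ l : Fin k, l ≠ i → l ≠ j → ix (Sum.inl l : Zs k) ≠ ix (Sum.inl i : Zs k) ∧ ix (Sum.inl l : Zs k) ≠ ix (Sum.inl j : Zs k) :=
          fun l h1 h2 => ⟨h1, h2⟩
        rintro (l | l)
        · rw [Sum.map_inl]
          by_cases hl : l = i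
          · subst hl
            rw [Equiv.swap_apply_left, nn_a hQ h hab one_ne_zero]
            exact ⟨_, neg_ne_zero.2 (inv_ne_zero one_ne_zero), rfl⟩
          · by_cases hl' : l = j
            · subst hl'
              rw [Equiv.swap_apply_right, nn_b hQ h hab one_ne_zero]
              exact ⟨_, one_ne_zero, rfl⟩
            · rw [Equiv.swap_apply_of_ne_of_ne hl hl', nn_fix hQ h hab one_ne_zero (c := Sum.inl l) hl hl']
              exact ⟨1, one_ne_zero, by rw [one_smul]⟩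
        · rw [Sum.map_inr]
          by_cases hl : l = i
          · subst hl
            rw [Equiv.swap_apply_left]
            have := nn_na hQ h hab one_ne_zero
            exact ⟨-1, neg_ne_zero.2 one_ne_zero, this⟩
          · by_cases hl' : l = j
            · subst hl'
              rw [Equiv.swap_apply_right]
              have := nn_nb hQ h hab one_ne_zero
              exact ⟨_, inv_ne_zero one_ne_zero, this⟩
            · rw [Equiv.swap_apply_of_ne_of_ne hl hl', nn_fix hQ h hab one_ne_zero (c := Sum.inr l) hl hl']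
              exact ⟨1, one_ne_zero, by rw [one_smul]⟩
      have h4 := h3.mul h1
      have h5 : (Sum.map (⇑(Equiv.swap i j * τ)) (⇑(Equiv.swap i j * τ))) = (Sum.map (⇑(Equiv.swap i j)) (⇑(Equiv.swap i j))) ∘ (Sum.map (⇑τ) (⇑τ)) := by
        funext a; rcases a with a | a <;> rfl
      rw [h5]; exact h4
    · rw [LinearEquiv.mul_apply, h2 x hx, nn_wp hQ h hab one_ne_zero hx]

omit h in
/-- the rotation of indices -/
def rt (hn : 0 < k) (i : Fin k) : Fin k := if h : i.1 + 1 < k then ⟨i.1 + 1, h⟩ else ⟨0, hn⟩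

omit h in
theorem rt_inj (hn : 0 < k) : Function.Injective (rt hn) := by
  intro i j h
  have hi' := i.2
  have hj' := j.2
  apply Fin.ext
  unfold rt at h
  by_cases hi : i.1 + 1 < k <;> by_cases hj : j.1 + 1 < k
  · rw [dif_pos hi, dif_pos hj] at h
    have := congrArg Fin.val h
    simp only at this; omega
  · rw [dif_pos hi, dif_neg hj] at h
    have := congrArg Fin.val h
    simp only at this; omega
  · rw [dif_neg hi, dif_pos hj] at h
    have := congrArg Fin.val h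
    simp only at this; omega
  · omega

/-- the rotation -/
theorem exists_w (hn : 0 < k) {z : V} (hz : Wp Q e f z) (hz0 : Q z ≠ 0) : ∃ w ∈ T hQ, Mn e f (rho hn) w ∧
    ∀ x, Wp Q e f x → w x = x - ((Q z)⁻¹ * polar Q z x) • z := by
  obtain ⟨w, hw, h1, h2⟩ := exists_perm hQ h (Equiv.ofBijective (rt hn) (Finite.injective_iff_bijective.1 (rt_inj hn)))
  refine ⟨rr hQ e f (Sum.inl ⟨0, hn⟩) z * w, mul_mem (rr_mem_T _ _ _) hw, ?_, fun x hx => ?_⟩
  · rintro (i | i)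
    · obtain ⟨c, hc, h3⟩ := h1 (Sum.inl i)
      rw [LinearEquiv.mul_apply, h3, map_smul, Sum.map_inl, Equiv.ofBijective_apply]
      by_cases hi : i.1 + 1 < k
      · simp only [rho, rt, dif_pos hi]
        rw [rr_fix hQ h _ hz hz0 (c := Sum.inl ⟨i.1 + 1, hi⟩) (by simp [ix])]
        exact ⟨c, hc, rfl⟩
      · simp only [rho, rt, dif_neg hi]
        rw [rr_a hQ h _ hz hz0, smul_smul]
        exact ⟨_, mul_ne_zero hc (neg_ne_zero.2 (inv_ne_zero hz0)), rfl⟩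
    · obtain ⟨c, hc, h3⟩ := h1 (Sum.inr i)
      rw [LinearEquiv.mul_apply, h3, map_smul, Sum.map_inr, Equiv.ofBijective_apply]
      by_cases hi : i.1 + 1 < k
      · simp only [rho, rt, dif_pos hi]
        rw [rr_fix hQ h _ hz hz0 (c := Sum.inr ⟨i.1 + 1, hi⟩) (by simp [ix])]
        exact ⟨c, hc, rfl⟩
      · simp only [rho, rt, dif_neg hi]
        have := rr_na hQ h (Sum.inl ⟨0, hn⟩) hz hz0
        change rr hQ e f (Sum.inl ⟨0, hn⟩) z (vl e f (Sum.inr ⟨0, hn⟩)) = _ at this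
        rw [this, smul_smul]
        exact ⟨_, mul_ne_zero hc (neg_ne_zero.2 hz0), rfl⟩
  · rw [LinearEquiv.mul_apply, h2 x hx, rr_wp hQ h _ hz hz0 hx]

omit h in
theorem rho_surj (hn : 0 < k) : Function.Surjective (rho hn) := by
  intro a
  obtain ⟨j, hj, rfl⟩ := ps_surj hn a
  rcases j with _ | j
  · refine ⟨ps hn (2 * k - 1), ?_⟩
    rw [← ps_succ, show 2 * k - 1 + 1 = k + k by omega, ps_add, ps_n, ng_ng]
  · exact ⟨ps hn j, (ps_succ hn j).symm⟩

/-- two-generation when the complement is anisotropic -/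
theorem gen_short (hn : 1 < k) (han : ∀ x, Wp Q e f x → Q x = 0 → x = 0)
    (hB : ∃ x y, Wp Q e f x ∧ Wp Q e f y ∧ polar Q x y ≠ 0) {g w : V ≃ₗ[F] V} (hg : g ∈ O Q) (hw : w ∈ O Q) {c c' : F}
    (hg0 : g (vl e f (Sum.inl ⟨0, by omega⟩)) = c • vl e f (Sum.inl ⟨0, by omega⟩)) (hc : c ≠ 0)
    (hwm : Mn e f (rho (by omega)) w)
    (hg0' : (w * g * w⁻¹) (vl e f (Sum.inl ⟨0, by omega⟩)) = c' • vl e f (Sum.inl ⟨0, by omega⟩)) (hc' : c' ≠ 0)
    (hcomm : Commute g (w * g * w⁻¹)) (hgW : ∀ x, Wp Q e f x → Wp Q e f (g x)) {z0 z1 : V} (hz0 : Wp Q e f z0)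
    (hz1 : z1 = z0 - c' • (w * g * w⁻¹) z0) (hne : c • g z1 - z1 ≠ 0)
    (hS : ∀ S : AddSubgroup V, (∀ x ∈ S, Wp Q e f x → c • g x ∈ S) → (∃ x ∈ S, Wp Q e f x ∧ x ≠ 0) → ∀ x, Wp Q e f x → x ∈ S) :
    T hQ ≤ Subgroup.closure {g, yy hQ e f (Sum.inl ⟨0, by omega⟩) z0 * w} := by
  have hn0 : 0 < k := by omega
  set K := Subgroup.closure {g, yy hQ e f (Sum.inl ⟨0, hn0⟩) z0 * w} with hK
  set a0 : Zs k := Sum.inl ⟨0, hn0⟩ with ha0
  have hgK : g ∈ K := Subgroup.subset_closure (Or.inl rfl)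
  have hbK : yy hQ e f a0 z0 * w ∈ K := Subgroup.subset_closure (Or.inr rfl)
  set g' := w * g * w⁻¹ with hg'
  have hg'O : g' ∈ O Q := mul_mem (mul_mem hw hg) (inv_mem hw)
  have hg'W : ∀ x, Wp Q e f x → Wp Q e f (g' x) := fun x hx =>
    hwm.wp (rho_surj hn0) hw (hgW _ (hwm.wp_inv hw hx))
  have hz1W : Wp Q e f z1 := by rw [hz1]; exact hz0.sub ((hg'W _ hz0).smul _)
  have h1 : yy hQ e f a0 z1 * g' ∈ K := by
    have h2 := mul_mem (mul_mem hbK hgK) (inv_mem hbK)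
    have e1 : yy hQ e f a0 z0 * w * g * (yy hQ e f a0 z0 * w)⁻¹ = yy hQ e f a0 z1 * g' := by
      have e2 := yy_conj hQ hg'O hg0' hc' (-z0)
      calc yy hQ e f a0 z0 * w * g * (yy hQ e f a0 z0 * w)⁻¹ = yy hQ e f a0 z0 * (g' * (yy hQ e f a0 z0)⁻¹ * g'⁻¹) * g' := by rw [hg']; group
        _ = _ := by
          rw [yy_inv hQ hz0, e2, yy_add hQ hz0 (((hg'W _ hz0.neg)).smul _), hz1, map_neg, smul_neg, ← sub_eq_add_neg]
    rwa [e1] at h2
  have h2 : yy hQ e f a0 (c • g z1 - z1) ∈ K := by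
    have h3 := mul_mem (mul_mem (mul_mem hgK h1) (inv_mem hgK)) (inv_mem h1)
    have e1 : g * (yy hQ e f a0 z1 * g') * g⁻¹ * (yy hQ e f a0 z1 * g')⁻¹ = yy hQ e f a0 (c • g z1 - z1) := by
      have e2 := yy_conj hQ hg hg0 hc z1
      calc g * (yy hQ e f a0 z1 * g') * g⁻¹ * (yy hQ e f a0 z1 * g')⁻¹ =
          (g * yy hQ e f a0 z1 * g⁻¹) * (g * g' * g⁻¹ * g'⁻¹) * (yy hQ e f a0 z1)⁻¹ := by group
        _ = _ := by
          rw [hcomm.eq, mul_inv_cancel_right, mul_inv_cancel, mul_one, e2, yy_inv hQ hz1W, yy_add hQ ((hgW _ hz1W).smul _) hz1W.neg, ← sub_eq_add_neg]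
    rwa [e1] at h3
  have h3 : ∀ x, Wp Q e f x → yy hQ e f a0 x ∈ K := by
    intro x hx
    let S : AddSubgroup V :=
      { carrier := {x | Wp Q e f x ∧ yy hQ e f a0 x ∈ K}
        zero_mem' := ⟨Wp.zero, by rw [yy_zero]; exact one_mem _⟩
        add_mem' := fun {x y} hx hy => ⟨hx.1.add hy.1, by rw [← yy_add hQ hx.1 hy.1]; exact mul_mem hx.2 hy.2⟩
        neg_mem' := fun {x} hx => ⟨hx.1.neg, by rw [← yy_inv hQ hx.1]; exact inv_mem hx.2⟩ }
    have h4 : x ∈ S := by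
      refine hS S ?_ ⟨_, ⟨((hgW _ hz1W).smul _).sub hz1W, h2⟩, ((hgW _ hz1W).smul _).sub hz1W, hne⟩ x hx
      rintro x hx -
      refine ⟨(hgW _ hx.1).smul _, ?_⟩
      rw [← yy_conj hQ hg hg0 hc x]
      exact mul_mem (mul_mem hgK hx.2) (inv_mem hgK)
    exact h4.2
  have hwK : w ∈ K := by
    have := mul_mem (inv_mem (h3 z0 hz0)) hbK
    rwa [inv_mul_cancel_left] at this
  have h4 : ∀ a x, Wp Q e f x → yy hQ e f a x ∈ K := by
    intro a x hx
    obtain ⟨j, -, rfl⟩ := ps_surj hn0 a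
    induction j generalizing x with
    | zero => exact h3 x hx
    | succ j ih =>
      obtain ⟨d, hd, h5⟩ := hwm (ps hn0 j)
      rw [← ps_succ] at h5
      have h6 := yy_conj hQ hw h5 hd (w⁻¹ (d⁻¹ • x))
      have h7 : w (w⁻¹ (d⁻¹ • x)) = d⁻¹ • x := w.apply_symm_apply _
      rw [h7, smul_smul, mul_inv_cancel₀ hd, one_smul] at h6
      rw [← h6]
      exact mul_mem (mul_mem hwK (ih _ (hwm.wp_inv hw (hx.smul _)))) (inv_mem hwK)
  refine T_le_of hQ h han h4 ?_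
  intro a b hab t
  obtain ⟨x, y, hx, hy, hxy⟩ := hB
  have hab' : ix (ng b) ≠ ix a := by rw [ix_ng]; exact hab.symm
  have h5 := yy_comm hQ h hab' (hx.smul (t * (polar Q x y)⁻¹)) hy
  have h6 : (-polar Q ((t * (polar Q x y)⁻¹) • x) y) = -t := by
    rw [polar_smul_left, smul_eq_mul, mul_assoc, inv_mul_cancel₀ hxy, mul_one]
  rw [h6] at h5
  change _ = xx hQ e f a b t at h5
  rw [← h5]
  exact mul_mem (mul_mem (mul_mem (h4 _ _ (hx.smul _)) (h4 _ _ hy)) (inv_mem (h4 _ _ (hx.smul _)))) (inv_mem (h4 _ _ hy))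

end

end Cfsg.Agent.Lib.OmTwo
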