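import Cfsg.Agent.Lib.OmTwoB

/-! Two-generation of odd-dimensional orthogonal groups (helper38). -/

set_option autoImplicit false
set_option linter.unusedSectionVars false
set_option linter.unusedSimpArgs false

namespace Cfsg.Agent.Lib.OmTwo

open Cfsg.Agent.Lib.Quad QuadraticMap Module Cfsg.Agent.Lib.ClOrthSiegel Cfsg.Agent.Lib.PresBC Cfsg.Agent.Lib.PresSpMod Cfsg.Agent.Lib.ZsRot
open Cfsg.Agent.Lib.ClOmega

section

variable {F V : Type*} [Field F] [AddCommGroup V] [Module F V] [FiniteDimensional F V] {Q : QuadraticForm F V} {k : ℕ} {e f : Fin k → V}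

theorem ext_frame (h : Frame Q k e f) {g g' : V ≃ₗ[F] V} (h1 : ∀ a, g (vl e f a) = g' (vl e f a)) (h2 : ∀ x, Wp Q e f x → g x = g' x) :
    g = g' := by
  ext1 v
  have h3 := h2 _ (decomp h v)
  rw [map_sub, map_sub, map_sum, map_sum] at h3
  have h4 : ∑ b, g (polar Q (vl e f (ng b)) v • vl e f b) = ∑ b, g' (polar Q (vl e f (ng b)) v • vl e f b) := by
    refine Finset.sum_congr rfl fun b _ => ?_
    rw [map_smul, map_smul, h1]
  rw [h4] at h3
  exact sub_left_injective h3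

theorem comm_frame (h : Frame Q k e f) {g g' : V ≃ₗ[F] V} (h1 : ∀ a, ∃ d : F, g (vl e f a) = d • vl e f a)
    (h1' : ∀ a, ∃ d : F, g' (vl e f a) = d • vl e f a) (h2 : ∀ x, Wp Q e f x → g (g' x) = g' (g x)) : Commute g g' := by
  refine ext_frame h (fun a => ?_) h2
  obtain ⟨d, hd⟩ := h1 a
  obtain ⟨d', hd'⟩ := h1' a
  rw [LinearEquiv.mul_apply, LinearEquiv.mul_apply, hd, hd', map_smul, map_smul, hd, hd', smul_comm]

omit [FiniteDimensional F V] in
theorem diag_conj {g w : V ≃ₗ[F] V} {π : Zs k → Zs k} (hw : Mn e f π w) {a : Zs k} {d : F} (h1 : g (vl e f a) = d • vl e f a) :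
    (w * g * w⁻¹) (vl e f (π a)) = d • vl e f (π a) := by
  obtain ⟨c, hc, h2⟩ := hw.inv a
  obtain ⟨c', hc', h3⟩ := hw a
  rw [LinearEquiv.mul_apply, LinearEquiv.mul_apply, h2, map_smul, h1]
  have h4 : w (w⁻¹ (vl e f (π a))) = vl e f (π a) := w.apply_symm_apply _
  rw [h2, map_smul] at h4
  rw [smul_comm, map_smul, map_smul, h4]

theorem hh_b (hQ : Nd Q) (h : Frame Q k e f) {a b : Zs k} (hab : ix a ≠ ix b) {t : F} (ht : t ≠ 0) : hh hQ e f a b t (vl e f b) = t⁻¹ • vl e f b := by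
  rw [hh_apply hQ h hab ht, polar_ng' h, polar_self0 h, polar_ix h hab, polar_ix h (a := ng a) (by rw [ix_ng]; exact hab)]
  module

theorem hh_a (hQ : Nd Q) (h : Frame Q k e f) {a b : Zs k} (hab : ix a ≠ ix b) {t : F} (ht : t ≠ 0) : hh hQ e f a b t (vl e f a) = t • vl e f a := by
  rw [hh_apply hQ h hab ht, polar_ng' h, polar_self0 h, polar_ix h hab.symm, polar_ix h (a := ng b) (by rw [ix_ng]; exact hab.symm)]
  module

theorem hh_nb (hQ : Nd Q) (h : Frame Q k e f) {a b : Zs k} (hab : ix a ≠ ix b) {t : F} (ht : t ≠ 0) : hh hQ e f a b t (vl e f (ng b)) = t • vl e f (ng b) := by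
  rw [hh_apply hQ h hab ht, polar_ng h, polar_self0 h, polar_ix h (a := a) (b := ng b) (by rwa [ix_ng]),
    polar_ix h (a := ng a) (b := ng b) (by rwa [ix_ng, ix_ng])]
  module

theorem hh_na (hQ : Nd Q) (h : Frame Q k e f) {a b : Zs k} (hab : ix a ≠ ix b) {t : F} (ht : t ≠ 0) : hh hQ e f a b t (vl e f (ng a)) = t⁻¹ • vl e f (ng a) := by
  rw [hh_apply hQ h hab ht, polar_ng h, polar_self0 h, polar_ix h (a := b) (b := ng a) (by rw [ix_ng]; exact hab.symm),
    polar_ix h (a := ng b) (b := ng a) (by rw [ix_ng, ix_ng]; exact hab.symm)]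
  module

theorem hh_fix (hQ : Nd Q) (h : Frame Q k e f) {a b : Zs k} (hab : ix a ≠ ix b) {t : F} (ht : t ≠ 0) {c : Zs k} (h1 : ix c ≠ ix a) (h2 : ix c ≠ ix b) :
    hh hQ e f a b t (vl e f c) = vl e f c := by
  rw [hh_apply hQ h hab ht, polar_ix h h1.symm, polar_ix h h2.symm, polar_ix h (a := ng a) (by rw [ix_ng]; exact h1.symm),
    polar_ix h (a := ng b) (by rw [ix_ng]; exact h2.symm)]
  simp

theorem hh_wp (hQ : Nd Q) (h : Frame Q k e f) {a b : Zs k} (hab : ix a ≠ ix b) {t : F} (ht : t ≠ 0) {x : V} (hx : Wp Q e f x) : hh hQ e f a b t x = x := by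
  rw [hh_apply hQ h hab ht, hx, hx, hx, hx]; simp

theorem hh_diag (hQ : Nd Q) (h : Frame Q k e f) {a b : Zs k} (hab : ix a ≠ ix b) {t : F} (ht : t ≠ 0) (c : Zs k) :
    ∃ d : F, d ≠ 0 ∧ hh hQ e f a b t (vl e f c) = d • vl e f c := by
  by_cases h1 : ix c = ix a
  · rcases eq_or_ng h1 with rfl | rfl
    · exact ⟨_, ht, hh_a hQ h hab ht⟩
    · exact ⟨_, inv_ne_zero ht, hh_na hQ h hab ht⟩
  · by_cases h2 : ix c = ix b
    · rcases eq_or_ng h2 with rfl | rfl
      · exact ⟨_, inv_ne_zero ht, hh_b hQ h hab ht⟩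
      · exact ⟨_, ht, hh_nb hQ h hab ht⟩
    · exact ⟨1, one_ne_zero, by rw [hh_fix hQ h hab ht h1 h2, one_smul]⟩

end

/-- transfer to the projective group -/
theorem two_gen_P {F : Type*} [Field F] {ι : Type} [Fintype ι] [DecidableEq ι] (Q : QuadraticForm F (ι → F))
    {a b : (ι → F) ≃ₗ[F] (ι → F)} (ha : a ∈ Om Q) (hb : b ∈ Om Q) (hab : Om Q ≤ Subgroup.closure {a, b}) :
    ∃ a b : Cfsg.POmega F ⇑Q, Subgroup.closure ({a, b} : Set (Cfsg.POmega F ⇑Q)) = ⊤ := by
  have h1 : Subgroup.closure {(⟨a, ha⟩ : ↥(Om Q)), ⟨b, hb⟩} = ⊤ := by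
    rw [eq_top_iff]
    intro x _
    have h2 : (x : (ι → F) ≃ₗ[F] (ι → F)) ∈ (Subgroup.closure {(⟨a, ha⟩ : ↥(Om Q)), ⟨b, hb⟩}).map (Om Q).subtype := by
      rw [MonoidHom.map_closure, Set.image_pair]
      exact hab x.2
    obtain ⟨y, hy, hxy⟩ := h2
    have : y = x := Subtype.ext hxy
    rwa [this] at hy
  let f : ↥(Om Q) →* Cfsg.POmega F ⇑Q := (QuotientGroup.mk' _).comp (omEquiv Q).symm.toMonoidHom
  have hf : Function.Surjective f := (QuotientGroup.mk'_surjective _).comp (omEquiv Q).symm.surjective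
  refine ⟨f ⟨a, ha⟩, f ⟨b, hb⟩, ?_⟩
  have h2 : (Subgroup.closure {(⟨a, ha⟩ : ↥(Om Q)), ⟨b, hb⟩}).map f = ⊤ := by
    rw [h1, ← MonoidHom.range_eq_map, MonoidHom.range_eq_top]; exact hf
  rw [← h2, MonoidHom.map_closure, Set.image_pair]

section odd

variable {F : Type*} [Field F] [Fintype F] {m : ℕ}

/-- the central vector -/
def cv (m : ℕ) (F : Type*) [Field F] (t : F) : Unit ⊕ (Fin m ⊕ Fin m) → F := Sum.elim (fun _ => t) 0

theorem wp_odd {x : Unit ⊕ (Fin m ⊕ Fin m) → F} (hx : Wp (quadOdd m F) (hpOdd m).e (hpOdd m).f x) : x = cv m F (x (Sum.inl ())) := by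
  funext j
  rcases j with j | j | j
  · rfl
  · have := hx (Sum.inr j)
    change polar (quadOdd m F) ((hpOdd m).f j) x = 0 at this
    rw [HP.polar_f] at this
    exact this
  · have := hx (Sum.inl j)
    change polar (quadOdd m F) ((hpOdd m).e j) x = 0 at this
    rw [HP.polar_e] at this
    exact this

theorem wp_cv (t : F) : Wp (quadOdd m F) (hpOdd m).e (hpOdd m).f (cv m F t) := by
  rintro (j | j)
  · change polar (quadOdd m F) ((hpOdd m).e j) _ = 0
    rw [HP.polar_e]; rfl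
  · change polar (quadOdd m F) ((hpOdd m).f j) _ = 0
    rw [HP.polar_f]; rfl

theorem Q_cv (t : F) : quadOdd m F (cv m F t) = t ^ 2 := by
  change Cfsg.quadFormOdd m F _ = _
  simp [Cfsg.quadFormOdd, cv]

theorem polar_cv (s t : F) : polar (quadOdd m F) (cv m F s) (cv m F t) = 2 * s * t := by
  change polar (Cfsg.quadFormOdd m F) _ _ = _
  rw [polar_quadOdd]
  simp [cv]

theorem smul_cv (s t : F) : s • cv m F t = cv m F (s * t) := by
  funext j
  rcases j with j | j <;> simp [cv]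

theorem add_cv (s t : F) : cv m F s + cv m F t = cv m F (s + t) := by
  funext j
  rcases j with j | j <;> simp [cv]

theorem sub_cv (s t : F) : cv m F s - cv m F t = cv m F (s - t) := by
  funext j
  rcases j with j | j <;> simp [cv]

theorem cv_zero : cv m F 0 = 0 := by
  funext j
  rcases j with j | j <;> simp [cv]

theorem T_odd (h2 : (2 : F) ≠ 0) (hm : 2 ≤ m) : T (nd_quadOdd (m := m) h2) = Om (quadOdd m F) := by
  have hQ : Nd (quadOdd m F) := nd_quadOdd h2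
  have hR := hQ.R_eq_O (genHyp_of_two_ne_zero h2)
  apply le_antisymm
  · rw [T, Subgroup.closure_le]
    rintro _ ⟨z, y, rfl⟩
    by_cases hzy : polar (quadOdd m F) z y = 0
    · have h1 : E hQ z ((2 : F)⁻¹ • y) * E hQ z ((2 : F)⁻¹ • y) = E hQ z y := by
        have h3 : polar (quadOdd m F) z ((2 : F)⁻¹ • y) = 0 := by rw [polar_smul_right, hzy, smul_zero]
        rw [E_add hQ h3 h3, ← add_smul]
        congr 1
        have : (2 : F)⁻¹ + 2⁻¹ = 1 := by rw [← two_mul, mul_inv_cancel₀ h2]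
        rw [this, one_smul]
      rw [← h1]
      exact sq_mem_Om hR (E_mem hQ _ _)
    · rw [E_of_ne hQ (fun h => hzy h.2)]; exact one_mem _
  · exact Om_le_T hQ hR (frame_of_HP (hpOdd m)) (i := ⟨0, by omega⟩) (j := ⟨1, by omega⟩) (by simp)

theorem two_gen_odd (hodd : Odd (Fintype.card F)) (hm : 2 ≤ m) : ∃ a b : Cfsg.POmega F (Cfsg.quadFormOdd m F),
    Subgroup.closure ({a, b} : Set (Cfsg.POmega F (Cfsg.quadFormOdd m F))) = ⊤ := by
  have h2 : (2 : F) ≠ 0 := two_ne_zero_of_odd rfl hodd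
  have hQ : Nd (quadOdd m F) := nd_quadOdd h2
  have h := frame_of_HP (F := F) (hpOdd m)
  have hT := T_odd (F := F) h2 hm
  have hm0 : 0 < m := by omega
  obtain ⟨ζ, hζ⟩ := IsCyclic.exists_generator (α := Fˣ)
  have hζ1 : (ζ : F) ≠ 1 := by
    intro h1
    have h1' : ζ = 1 := Units.ext h1
    have h3 := hζ (-1)
    rw [h1', Subgroup.zpowers_one_eq_bot, Subgroup.mem_bot] at h3
    have h4 : (-1 : F) = 1 := congrArg Units.val h3
    exact h2 (by linear_combination -h4)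
  have hζ0 : (ζ : F) ≠ 0 := ζ.ne_zero
  obtain ⟨w, hwT, hwm, hwW⟩ := exists_w hQ h hm0 (z := cv m F 1) (wp_cv 1) (by rw [Q_cv]; simp)
  set a0 : Zs m := Sum.inl ⟨0, hm0⟩ with ha0
  set a1 : Zs m := Sum.inl ⟨m - 1, by omega⟩ with ha1
  have h01 : ix a0 ≠ ix a1 := by
    intro h3
    have h4 : (0 : ℕ) = m - 1 := congrArg Fin.val h3
    omega
  set g := hh hQ (hpOdd m).e (hpOdd m).f a0 a1 (ζ : F) with hg
  have hgT : g ∈ T hQ := hh_mem_T _ _ _ _
  have hwO : w ∈ O (quadOdd m F) := T_le hQ hwT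
  have hgW : ∀ x, Wp (quadOdd m F) (hpOdd m).e (hpOdd m).f x → g x = x := fun x hx => hh_wp hQ h h01 hζ0 hx
  have hg'W : ∀ x, Wp (quadOdd m F) (hpOdd m).e (hpOdd m).f x → (w * g * w⁻¹) x = x := fun x hx => by
    rw [LinearEquiv.mul_apply, LinearEquiv.mul_apply, hgW _ (hwm.wp_inv hwO hx)]
    exact w.apply_symm_apply x
  have hrho : rho hm0 (ng a1) = a0 := by
    rw [ha0, ha1]
    show rho hm0 (Sum.inr ⟨m - 1, _⟩) = _
    simp only [rho]
    rw [dif_neg (by omega)]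
  have key := gen_short hQ h (by omega : 1 < m) (c := ζ) (c' := ζ) (g := g) (w := w) (z0 := cv m F 1) (z1 := cv m F (1 - ζ)) ?_ ?_
    (T_le hQ hgT) hwO (hh_a hQ h h01 hζ0) hζ0 hwm ?_ hζ0 ?_ ?_ (wp_cv 1) ?_ ?_ ?_
  · have hb : yy hQ (hpOdd m).e (hpOdd m).f a0 (cv m F 1) * w ∈ T hQ := mul_mem (yy_mem_T _ _ _) hwT
    rw [hT] at hb hgT key
    exact two_gen_P (quadOdd m F) hgT hb key
  · intro x hx hx0
    rw [wp_odd hx] at hx0 ⊢
    rw [Q_cv] at hx0
    rw [pow_eq_zero_iff (two_ne_zero)] at hx0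
    rw [hx0, cv_zero]
  · exact ⟨_, _, wp_cv 1, wp_cv 1, by rw [polar_cv]; simpa using h2⟩
  · have := diag_conj hwm (hh_nb hQ h h01 hζ0)
    rw [hrho] at this
    exact this
  · apply comm_frame h
    · intro a
      obtain ⟨d, -, hd⟩ := hh_diag hQ h h01 hζ0 a
      exact ⟨d, hd⟩
    · intro a
      obtain ⟨b, rfl⟩ := rho_surj hm0 a
      obtain ⟨d, -, hd⟩ := hh_diag hQ h h01 hζ0 b
      exact ⟨d, diag_conj hwm hd⟩
    · intro x hx
      rw [hg'W x hx, hgW x hx, hg'W x hx]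
  · intro x hx; rw [hgW x hx]; exact hx
  · rw [hg'W _ (wp_cv 1), smul_cv, sub_cv, mul_one]
  · rw [hgW _ (wp_cv _), smul_cv, sub_cv]
    intro h3
    have h4 : (ζ : F) * (1 - ζ) - (1 - ζ) = 0 := congrFun h3 (Sum.inl ())
    have h5 : ((ζ : F) - 1) * (1 - ζ) = 0 := by linear_combination h4
    rcases mul_eq_zero.1 h5 with h6 | h6
    · exact hζ1 (sub_eq_zero.1 h6)
    · exact hζ1 (sub_eq_zero.1 h6).symm
  · rintro S hS ⟨x, hxS, hxW, hx0⟩ y hy
    rw [wp_odd hxW] at hxS hx0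
    rw [wp_odd hy]
    set s := x (Sum.inl ()) with hs
    set t := y (Sum.inl ()) with ht
    have hs0 : s ≠ 0 := fun h3 => hx0 (by rw [h3, cv_zero])
    by_cases ht0 : t = 0
    · rw [ht0, cv_zero]; exact zero_mem _
    · have h3 : ∀ j : ℕ, cv m F ((ζ : F) ^ j * s) ∈ S := by
        intro j
        induction j with
        | zero => rw [pow_zero, one_mul]; exact hxS
        | succ j ih =>
          have := hS _ ih (wp_cv _)
          rw [hgW _ (wp_cv _), smul_cv] at this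
          rw [pow_succ', mul_assoc]; exact this
      have h4 : Units.mk0 (t / s) (div_ne_zero ht0 hs0) ∈ Subgroup.zpowers ζ := hζ _
      rw [← mem_powers_iff_mem_zpowers, Submonoid.mem_powers_iff] at h4
      obtain ⟨j, hj⟩ := h4
      have h5 : (ζ : F) ^ j = t / s := by
        have := congrArg Units.val hj
        rwa [Units.val_pow_eq_pow_val, Units.val_mk0] at this
      have h6 := h3 j
      rw [h5, div_mul_cancel₀ _ hs0] at h6
      exact h6

end odd

end Cfsg.Agent.Lib.OmTwo
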