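import Cfsg.Agent.Lib.OmTwoC
import Cfsg.Agent.Lib.OAutFrob

/-! Two-generation of minus type orthogonal groups (helper38). -/

set_option autoImplicit false
set_option linter.unusedSectionVars false
set_option linter.unusedSimpArgs false

namespace Cfsg.Agent.Lib.OmTwo

open Cfsg.Agent.Lib.Quad QuadraticMap Module Cfsg.Agent.Lib.ClOrthSiegel Cfsg.Agent.Lib.PresBC Cfsg.Agent.Lib.PresSpMod Cfsg.Agent.Lib.ZsRot
open Cfsg.Agent.Lib.ClOmega Cfsg.Agent.Lib.OAutFrob

/-- additive subgroups stable under the square of a generator -/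
theorem add_top {K : Type*} [Field K] [Finite K] {μ : Kˣ} (hμ : ∀ x, x ∈ Subgroup.zpowers μ) (S : AddSubgroup K) (h1 : (1 : K) ∈ S)
    (h2 : ∀ x ∈ S, (μ : K) ^ 2 * x ∈ S) (x : K) : x ∈ S := by
  let R : Subring K :=
    { carrier := {r | ∀ s ∈ S, r * s ∈ S}
      mul_mem' := fun {r r'} hr hr' s hs => by rw [mul_assoc]; exact hr _ (hr' _ hs)
      one_mem' := fun s hs => by rwa [one_mul]
      add_mem' := fun {r r'} hr hr' s hs => by rw [add_mul]; exact add_mem (hr _ hs) (hr' _ hs)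
      zero_mem' := fun s hs => by rw [zero_mul]; exact zero_mem _
      neg_mem' := fun {r} hr s hs => by rw [neg_mul]; exact neg_mem (hr _ hs) }
  have hsq : ∀ y : K, y ^ 2 ∈ R := by
    intro y
    by_cases hy : y = 0
    · rw [hy, zero_pow two_ne_zero]; exact zero_mem _
    · have h3 := hμ (Units.mk0 y hy)
      rw [← mem_powers_iff_mem_zpowers, Submonoid.mem_powers_iff] at h3
      obtain ⟨j, hj⟩ := h3
      have h4 : (μ : K) ^ j = y := by
        have := congrArg Units.val hj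
        rwa [Units.val_pow_eq_pow_val, Units.val_mk0] at this
      have h5 : y ^ 2 = ((μ : K) ^ 2) ^ j := by rw [← h4]; ring
      rw [h5]
      exact pow_mem (show (μ : K) ^ 2 ∈ R from h2) j
  have hR : x ∈ R := by
    by_cases hc : (2 : K) = 0
    · haveI := Fintype.ofFinite K
      haveI : CharP K 2 := CharTwo.of_one_ne_zero_of_two_eq_zero one_ne_zero hc
      obtain ⟨y, hy⟩ := FiniteField.isSquare_of_char_two (ringChar.eq K 2).symm.symm x
      rw [hy, ← pow_two]; exact hsq y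
    · have h3 : x = ((x + 1) / 2) ^ 2 - ((x - 1) / 2) ^ 2 := by field_simp; ring
      rw [h3]
      exact sub_mem (hsq _) (hsq _)
  have := hR 1 h1
  rwa [mul_one] at this

section minus

variable {F : Type*} [Field F] {a b : F} (M : Model F a b)

theorem mul_l (u v : Fin 2 → F) : M.ℓ u * M.ℓ v = M.ℓ ![u 0 * v 0 - b * u 1 * v 1, u 0 * v 1 + u 1 * v 0 + a * u 1 * v 1] := by
  rw [M.hℓ, M.hℓ, M.hℓ]
  simp only [Matrix.cons_val_zero, Matrix.cons_val_one, map_sub, map_add, map_mul]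
  linear_combination (algebraMap F M.E (u 1) * algebraMap F M.E (v 1)) * M.hα

theorem l_alg (c : F) : M.ℓ ![c, 0] = algebraMap F M.E c := by
  rw [M.hℓ]; simp

theorem l_one : M.ℓ ![1, 0] = 1 := by rw [l_alg, map_one]

/-- the conjugation -/
def cj (a : F) (v : Fin 2 → F) : Fin 2 → F := ![v 0 + a * v 1, -(v 1)]

theorem cj_cj (v : Fin 2 → F) : cj a (cj a v) = v := by
  funext i
  fin_cases i <;> simp [cj]

/-- the conjugation on the model -/
def sc (x : M.E) : M.E := M.ℓ (cj a (M.ℓ.symm x))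

theorem sc_l (v : Fin 2 → F) : sc M (M.ℓ v) = M.ℓ (cj a v) := by rw [sc, LinearEquiv.symm_apply_apply]

theorem sc_sc (x : M.E) : sc M (sc M x) = x := by
  obtain ⟨v, rfl⟩ := M.ℓ.surjective x
  rw [sc_l, sc_l, cj_cj]

theorem sc_mul (x y : M.E) : sc M (x * y) = sc M x * sc M y := by
  obtain ⟨u, rfl⟩ := M.ℓ.surjective x
  obtain ⟨v, rfl⟩ := M.ℓ.surjective y
  rw [mul_l, sc_l, sc_l, sc_l, mul_l]
  congr 1
  funext i
  fin_cases i
  · simp [cj]; ring
  · simp [cj]; ring

theorem sc_one : sc M 1 = 1 := by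
  rw [← l_one, sc_l]
  congr 1
  funext i
  fin_cases i <;> simp [cj]

theorem sc_add (x y : M.E) : sc M (x + y) = sc M x + sc M y := by
  obtain ⟨u, rfl⟩ := M.ℓ.surjective x
  obtain ⟨v, rfl⟩ := M.ℓ.surjective y
  rw [← map_add, sc_l, sc_l, sc_l, ← map_add]
  congr 1
  funext i
  fin_cases i
  · simp [cj]; ring
  · simp [cj]; ring

theorem sc_neg (x : M.E) : sc M (-x) = -sc M x := by
  obtain ⟨u, rfl⟩ := M.ℓ.surjective x
  rw [← map_neg, sc_l, sc_l, ← map_neg]
  congr 1
  funext i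
  fin_cases i
  · simp [cj]; ring
  · simp [cj]

theorem sc_ne {x : M.E} (hx : x ≠ 0) : sc M x ≠ 0 := by
  intro h
  apply hx
  have := sc_sc M x
  rw [h] at this
  rw [← this, sc, map_zero]
  have : cj a (0 : Fin 2 → F) = 0 := by
    funext i
    fin_cases i <;> simp [cj]
  rw [this, map_zero]

variable {m : ℕ}

/-- embedding of the anisotropic part -/
def em (m : ℕ) (v : Fin 2 → F) : (Fin m ⊕ Fin m) ⊕ Fin 2 → F := Sum.elim 0 v

/-- embedding of the field -/
def ph (m : ℕ) (x : M.E) : (Fin m ⊕ Fin m) ⊕ Fin 2 → F := em m (M.ℓ.symm x)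

theorem ph_add (x y : M.E) : ph M m (x + y) = ph M m x + ph M m y := by
  unfold ph em
  rw [map_add]
  funext i
  rcases i with i | i <;> simp

theorem ph_zero : ph M m 0 = 0 := by
  unfold ph em
  rw [map_zero]
  funext i
  rcases i with i | i <;> simp

theorem ph_neg (x : M.E) : ph M m (-x) = -ph M m x := by
  unfold ph em
  rw [map_neg]
  funext i
  rcases i with i | i <;> simp

theorem ph_sub (x y : M.E) : ph M m (x - y) = ph M m x - ph M m y := by
  rw [sub_eq_add_neg, ph_add, ph_neg, sub_eq_add_neg]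

theorem ph_smul (c : F) (x : M.E) : ph M m (algebraMap F M.E c * x) = c • ph M m x := by
  unfold ph em
  rw [← Algebra.smul_def, map_smul]
  funext i
  rcases i with i | i <;> simp

theorem ph_inj {x : M.E} (h : ph M m x = 0) : x = 0 := by
  have : M.ℓ.symm x = 0 := by
    funext i
    exact congrFun h (Sum.inr i)
  rwa [LinearEquiv.map_eq_zero_iff] at this

theorem wp_ph (x : M.E) : Wp (quadMinus m F a b) (hpMinus m a b).e (hpMinus m a b).f (ph M m x) := by
  rintro (j | j)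
  · change polar (quadMinus m F a b) ((hpMinus m a b).e j) _ = 0
    rw [HP.polar_e]; rfl
  · change polar (quadMinus m F a b) ((hpMinus m a b).f j) _ = 0
    rw [HP.polar_f]; rfl

theorem exists_ph {v : (Fin m ⊕ Fin m) ⊕ Fin 2 → F} (hv : Wp (quadMinus m F a b) (hpMinus m a b).e (hpMinus m a b).f v) : ∃ x, v = ph M m x := by
  refine ⟨M.ℓ (fun i => v (Sum.inr i)), ?_⟩
  unfold ph
  rw [LinearEquiv.symm_apply_apply]
  funext j
  rcases j with (j | j) | j
  · have := hv (Sum.inr j)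
    change polar (quadMinus m F a b) ((hpMinus m a b).f j) v = 0 at this
    rw [HP.polar_f] at this
    exact this
  · have := hv (Sum.inl j)
    change polar (quadMinus m F a b) ((hpMinus m a b).e j) v = 0 at this
    rw [HP.polar_e] at this
    exact this
  · rfl

theorem Q_ph (x : M.E) : algebraMap F M.E (quadMinus m F a b (ph M m x)) = x * sc M x := by
  obtain ⟨v, rfl⟩ := M.ℓ.surjective x
  rw [sc_l, mul_l, ph, LinearEquiv.symm_apply_apply]
  change algebraMap F M.E (Cfsg.quadFormMinus m F a b _) = _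
  rw [M.hℓ]
  simp [Cfsg.quadFormMinus, em, cj]
  ring

theorem polar_ph (x y : M.E) : algebraMap F M.E (polar (quadMinus m F a b) (ph M m x) (ph M m y)) = x * sc M y + sc M x * y := by
  have h1 := Q_ph (m := m) M (x + y)
  rw [ph_add, Q_add, map_add, map_add, Q_ph, Q_ph, sc_add] at h1
  linear_combination h1

/-- reflections -/
theorem refl_ph {z : M.E} (hz : z ≠ 0) (x : M.E) :
    ph M m x - ((quadMinus m F a b (ph M m z))⁻¹ * polar (quadMinus m F a b) (ph M m z) (ph M m x)) • ph M m z = ph M m (-(z * sc M x / sc M z)) := by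
  rw [← ph_smul, ← ph_sub, map_mul, map_inv₀, Q_ph, polar_ph]
  congr 1
  have := sc_ne M hz
  field_simp
  ring

theorem not_fixed (hd : a ^ 2 - 4 * b ≠ 0) {x : M.E} (h : sc M x = x) : ∃ c : F, x = algebraMap F M.E c := by
  obtain ⟨v, rfl⟩ := M.ℓ.surjective x
  rw [sc_l] at h
  have h1 := M.ℓ.injective h
  have h2 : v 0 + a * v 1 = v 0 := congrFun h1 0
  have h3 : -(v 1) = v 1 := congrFun h1 1
  have h4 : a * v 1 = 0 := by linear_combination h2
  have h5 : 2 * v 1 = 0 := by linear_combination -h3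
  have h6 : (a ^ 2 - 4 * b) * v 1 = 0 := by linear_combination a * h4 - 2 * b * h5
  have h7 : v 1 = 0 := (mul_eq_zero.1 h6).resolve_left hd
  refine ⟨v 0, ?_⟩
  rw [M.hℓ, h7, map_zero, zero_mul, add_zero]

theorem gen_not_mem [Finite M.E] {μ : M.Eˣ} (hμ : ∀ x, x ∈ Subgroup.zpowers μ) (c : F) (h : (μ : M.E) = algebraMap F M.E c) : False := by
  have hα0 : M.α ≠ 0 := by
    intro h0
    have h1 : M.ℓ ![0, 1] = 0 := by rw [M.hℓ]; simp [h0]
    have h2 := (LinearEquiv.map_eq_zero_iff M.ℓ).1 h1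
    have h3 : (1 : F) = 0 := congrFun h2 1
    exact one_ne_zero h3
  have h3 := hμ (Units.mk0 M.α hα0)
  rw [← mem_powers_iff_mem_zpowers, Submonoid.mem_powers_iff] at h3
  obtain ⟨j, hj⟩ := h3
  have h4 : (μ : M.E) ^ j = M.α := by
    have := congrArg Units.val hj
    rwa [Units.val_pow_eq_pow_val, Units.val_mk0] at this
  rw [h, ← map_pow, ← l_alg] at h4
  have h5 : M.ℓ ![0, 1] = M.α := by rw [M.hℓ]; simp
  rw [← h5] at h4
  have h6 := M.ℓ.injective h4
  have h7 : (0 : F) = 1 := congrFun h6 1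
  exact zero_ne_one h7

theorem two_gen_minus.{u} {F : Type u} [Field F] [Fintype F] {a b : F} {m : ℕ} (hm : 3 ≤ m)
    (hab : ∀ z₁ z₂ : F, z₁ ^ 2 + a * z₁ * z₂ + b * z₂ ^ 2 = 0 → z₁ = 0 ∧ z₂ = 0) : ∃ g h : Cfsg.POmega F (Cfsg.quadFormMinus m F a b),
    Subgroup.closure ({g, h} : Set (Cfsg.POmega F (Cfsg.quadFormMinus m F a b))) = ⊤ := by
  have hd := disc_ne_zero_of_anisotropic hab
  have hQ : Nd (quadMinus m F a b) := nd_quadMinus hd
  have h := frame_of_HP (F := F) (hpMinus m a b)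
  have hT : T hQ = Om (quadMinus m F a b) := T_eq_Om hQ (hQ.R_eq_O (genHyp_minus m (by omega) a b)) h (i := ⟨0, by omega⟩) (j := ⟨1, by omega⟩)
    (l := ⟨2, by omega⟩) (by simp) (by simp) (by simp)
  have hm0 : 0 < m := by omega
  obtain ⟨M⟩ := exists_model hab
  haveI : Finite M.E := Finite.of_equiv _ M.ℓ.toEquiv
  obtain ⟨μ, hμ⟩ := IsCyclic.exists_generator (α := M.Eˣ)
  have hμ0 : (μ : M.E) ≠ 0 := μ.ne_zero
  have hσ0 : sc M (μ : M.E) ≠ 0 := sc_ne M hμ0
  have hQne : ∀ x : M.E, x ≠ 0 → quadMinus m F a b (ph M m x) ≠ 0 := by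
    intro x hx h0
    have h1 := Q_ph (m := m) M x
    rw [h0, map_zero] at h1
    exact (mul_ne_zero hx (sc_ne M hx)) h1.symm
  obtain ⟨w, hwT, hwm, hwW⟩ := exists_w hQ h hm0 (z := ph M m 1) (wp_ph M 1) (hQne 1 one_ne_zero)
  have hwO : w ∈ O (quadMinus m F a b) := T_le hQ hwT
  have hwW' : ∀ x, w (ph M m x) = ph M m (-(sc M x)) := by
    intro x
    rw [hwW _ (wp_ph M x), refl_ph M one_ne_zero, sc_one, one_mul, div_one]
  have hwW'' : ∀ x, w⁻¹ (ph M m x) = ph M m (-(sc M x)) := by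
    intro x
    have h1 := hwW' (-(sc M x))
    rw [sc_neg, neg_neg, sc_sc] at h1
    rw [← h1]
    exact w.symm_apply_apply _
  set a0 : Zs m := Sum.inl ⟨0, hm0⟩ with ha0
  set g := rr hQ (hpMinus m a b).e (hpMinus m a b).f a0 (ph M m μ) * rr hQ (hpMinus m a b).e (hpMinus m a b).f a0 (ph M m 1) with hg
  have hgT : g ∈ T hQ := mul_mem (rr_mem_T _ _ _) (rr_mem_T _ _ _)
  have hgO := T_le hQ hgT
  have hgW : ∀ x, g (ph M m x) = ph M m (μ * x / sc M μ) := by
    intro x
    rw [hg, LinearEquiv.mul_apply, rr_wp hQ h _ (wp_ph M 1) (hQne 1 one_ne_zero) (wp_ph M x), refl_ph M one_ne_zero,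
      rr_wp hQ h _ (wp_ph M _) (hQne _ hμ0) (wp_ph M _), refl_ph M hμ0, sc_one, one_mul, div_one, sc_neg, sc_sc]
    congr 1
    ring
  have hg'W : ∀ x, (w * g * w⁻¹) (ph M m x) = ph M m (sc M μ * x / μ) := by
    intro x
    rw [LinearEquiv.mul_apply, LinearEquiv.mul_apply, hwW'', hgW, hwW']
    congr 1
    rw [div_eq_mul_inv, sc_mul, sc_mul, sc_neg, sc_sc]
    have h1 : sc M (sc M (μ : M.E))⁻¹ = (μ : M.E)⁻¹ := by
      have h2 : sc M ((sc M (μ : M.E))⁻¹ * sc M μ) = 1 := by rw [inv_mul_cancel₀ hσ0, sc_one]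
      rw [sc_mul, sc_sc] at h2
      exact eq_inv_of_mul_eq_one_left h2
    rw [h1]
    ring
  set c : F := quadMinus m F a b (ph M m μ) with hc
  have hc0 : c ≠ 0 := hQne _ hμ0
  have hQ1 : quadMinus m F a b (ph M m 1) = 1 := by
    have h1 := Q_ph (m := m) M 1
    rw [sc_one, mul_one] at h1
    exact (algebraMap F M.E).injective (h1.trans (map_one _).symm)
  have hg0 : g (vl (hpMinus m a b).e (hpMinus m a b).f a0) = c • vl (hpMinus m a b).e (hpMinus m a b).f a0 := by
    rw [hg, LinearEquiv.mul_apply, rr_a hQ h _ (wp_ph M 1) (hQne 1 one_ne_zero), map_smul, rr_na hQ h _ (wp_ph M _) hc0, hQ1, ← hc, smul_smul]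
    congr 1
    rw [inv_one]; ring
  have hgng : g (vl (hpMinus m a b).e (hpMinus m a b).f (ng a0)) = c⁻¹ • vl (hpMinus m a b).e (hpMinus m a b).f (ng a0) := by
    rw [hg, LinearEquiv.mul_apply, rr_na hQ h _ (wp_ph M 1) (hQne 1 one_ne_zero), map_smul, rr_a hQ h _ (wp_ph M _) hc0, hQ1, ← hc, smul_smul]
    congr 1
    ring
  have hgfix : ∀ a', ix a' ≠ ix a0 → g (vl (hpMinus m a b).e (hpMinus m a b).f a') = vl (hpMinus m a b).e (hpMinus m a b).f a' := by
    intro a' ha'
    rw [hg, LinearEquiv.mul_apply, rr_fix hQ h _ (wp_ph M 1) (hQne 1 one_ne_zero) ha', rr_fix hQ h _ (wp_ph M _) hc0 ha']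
  have hgd : ∀ a', ∃ d : F, g (vl (hpMinus m a b).e (hpMinus m a b).f a') = d • vl (hpMinus m a b).e (hpMinus m a b).f a' := by
    intro a'
    by_cases h1 : ix a' = ix a0
    · rcases eq_or_ng h1 with rfl | rfl
      · exact ⟨_, hg0⟩
      · exact ⟨_, hgng⟩
    · exact ⟨1, by rw [hgfix _ h1, one_smul]⟩
  have hrho : rho hm0 (Sum.inr ⟨m - 1, by omega⟩) = a0 := by
    simp only [rho]
    rw [dif_neg (by omega)]
  have hA : ∀ x, c • g (ph M m x) = ph M m ((μ : M.E) ^ 2 * x) := by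
    intro x
    rw [hgW, ← ph_smul, hc, Q_ph]
    congr 1
    field_simp
  have key := gen_short hQ h (by omega : 1 < m) (c := c) (c' := 1) (g := g) (w := w) (z0 := ph M m 1) (z1 := ph M m (1 - sc M μ / μ)) ?_ ?_
    hgO hwO hg0 hc0 hwm ?_ one_ne_zero ?_ ?_ (wp_ph M 1) ?_ ?_ ?_
  · have hb : yy hQ (hpMinus m a b).e (hpMinus m a b).f a0 (ph M m 1) * w ∈ T hQ := mul_mem (yy_mem_T _ _ _) hwT
    rw [hT] at hb hgT key
    exact two_gen_P (quadMinus m F a b) hgT hb key
  · intro x hx hx0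
    obtain ⟨y, rfl⟩ := exists_ph M hx
    by_cases hy : y = 0
    · rw [hy, ph_zero]
    · exact absurd hx0 (hQne y hy)
  · by_cases h2 : (2 : F) = 0
    · -- use a nontrivial element
      have hna : a ≠ 0 := by
        intro ha
        apply hd
        have : (4 : F) = 2 * 2 := by norm_num
        rw [ha, this, h2]; ring
      refine ⟨ph M m 1, ph M m M.α, wp_ph M _, wp_ph M _, fun h0 => hna ?_⟩
      have h1 := polar_ph (m := m) M 1 M.α
      rw [h0, map_zero, sc_one, one_mul, one_mul] at h1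
      have h5 : M.ℓ ![0, 1] = M.α := by rw [M.hℓ]; simp
      have h6 : sc M M.α = algebraMap F M.E a - M.α := by
        rw [← h5, sc_l, M.hℓ, M.hℓ]
        simp [cj]
        ring
      rw [h6, sub_add_cancel] at h1
      exact (map_eq_zero _).1 h1.symm
    · refine ⟨ph M m 1, ph M m 1, wp_ph M _, wp_ph M _, fun h0 => h2 ?_⟩
      rw [polar_self', hQ1, mul_one] at h0
      exact h0
  · have := diag_conj hwm (a := Sum.inr ⟨m - 1, by omega⟩) (d := 1) (g := g) (by
      rw [one_smul]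
      apply hgfix
      intro h1
      have h2 : m - 1 = 0 := congrArg Fin.val h1
      omega)
    rw [hrho] at this
    exact this
  · apply comm_frame h hgd
    · intro a'
      obtain ⟨b', rfl⟩ := rho_surj hm0 a'
      obtain ⟨d, hd⟩ := hgd b'
      exact ⟨d, diag_conj hwm hd⟩
    · intro x hx
      obtain ⟨y, rfl⟩ := exists_ph M hx
      rw [hg'W, hgW, hgW, hg'W]
      congr 1
      ring
  · intro x hx
    obtain ⟨y, rfl⟩ := exists_ph M hx
    rw [hgW]; exact wp_ph M _
  · rw [hg'W, one_smul, mul_one, ← ph_sub]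
  · rw [hA, ← ph_sub]
    intro h0
    have h1 := ph_inj M h0
    have h2 : ((μ : M.E) ^ 2 - 1) * (1 - sc M μ / μ) = 0 := by linear_combination h1
    rcases mul_eq_zero.1 h2 with h3 | h3
    · have h4 : ((μ : M.E) - 1) * (μ + 1) = 0 := by linear_combination h3
      rcases mul_eq_zero.1 h4 with h5 | h5
      · exact gen_not_mem M hμ 1 (by rw [map_one]; exact sub_eq_zero.1 h5)
      · exact gen_not_mem M hμ (-1) (by rw [map_neg, map_one]; exact eq_neg_of_add_eq_zero_left h5)
    · have h4 : sc M (μ : M.E) = μ := by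
        have h5 := sub_eq_zero.1 h3
        rw [eq_div_iff hμ0, one_mul] at h5
        exact h5.symm
      obtain ⟨c', hc'⟩ := not_fixed M hd h4
      exact gen_not_mem M hμ c' hc'
  · rintro S hS ⟨x, hxS, hxW, hx0⟩ y hy
    obtain ⟨x, rfl⟩ := exists_ph M hxW
    obtain ⟨y, rfl⟩ := exists_ph M hy
    have hx0' : x ≠ 0 := fun h1 => hx0 (by rw [h1, ph_zero])
    let S' : AddSubgroup M.E :=
      { carrier := {r | ph M m (r * x) ∈ S}
        zero_mem' := by show ph M m (0 * x) ∈ S; rw [zero_mul, ph_zero]; exact zero_mem _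
        add_mem' := fun {r s} hr hs => by
          show ph M m ((r + s) * x) ∈ S
          rw [add_mul, ph_add]; exact add_mem hr hs
        neg_mem' := fun {r} hr => by
          show ph M m (-r * x) ∈ S
          rw [neg_mul, ph_neg]; exact neg_mem hr }
    have h1 := add_top hμ S' (by show ph M m (1 * x) ∈ S; rw [one_mul]; exact hxS) (fun r hr => by
      show ph M m ((μ : M.E) ^ 2 * r * x) ∈ S
      rw [mul_assoc, ← hA]
      exact hS _ hr (wp_ph M _)) (y / x)
    change ph M m (y / x * x) ∈ S at h1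
    rwa [div_mul_cancel₀ _ hx0'] at h1

end minus

end Cfsg.Agent.Lib.OmTwo
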