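import Cfsg.Agent.Lib.OmTwoC

/-! Two-generation of plus type orthogonal groups (helper38). -/

set_option autoImplicit false
set_option linter.unusedSectionVars false
set_option linter.unusedSimpArgs false

namespace Cfsg.Agent.Lib.OmTwo

open Cfsg.Agent.Lib.Quad QuadraticMap Module Cfsg.Agent.Lib.ClOrthSiegel Cfsg.Agent.Lib.PresBC Cfsg.Agent.Lib.PresSpMod Cfsg.Agent.Lib.ZsRot
open Cfsg.Agent.Lib.ClOmega

section general

variable {F V : Type*} [Field F] [AddCommGroup V] [Module F V] [FiniteDimensional F V] {Q : QuadraticForm F V} {k : ℕ} {e f : Fin k → V}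
variable (hQ : Nd Q) (h : Frame Q k e f)
include h

/-- long roots move singular short roots -/
theorem yy_move {a b : Zs k} (hab : ix a ≠ ix b) {z : V} (hz : Wp Q e f z) (hz0 : Q z = 0) :
    xx hQ e f a b 1 * yy hQ e f b z * (xx hQ e f a b 1)⁻¹ = yy hQ e f a z * yy hQ e f b z := by
  have hO : xx hQ e f a b 1 ∈ O Q := E_mem _ _ _
  have e1 : xx hQ e f a b 1 (vl e f b) = vl e f a + vl e f b := by
    rw [xx_apply hQ h hab, polar_ix h hab, polar_ng' h]; simp [add_comm]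
  have e2 : xx hQ e f a b 1 z = z := xx_fix hQ h hab 1 (hz a) (hz _)
  unfold yy
  rw [E_conj hQ hO, e1, e2]
  have hQ1 : Q (vl e f a + vl e f b) = 0 := by
    rw [Q_add, Q_vl h, Q_vl h, polar_ix h hab]; simp
  have hp1 : polar Q (vl e f a + vl e f b) z = 0 := by rw [polar_add_left, hz, hz, add_zero]
  rw [E_swap hQ hQ1 hz0 hp1, E_swap hQ (Q_vl h a) hz0 (hz a), E_swap hQ (Q_vl h b) hz0 (hz b), neg_add,
    E_add hQ (by rw [polar_neg_right, hz.symm, neg_zero]) (by rw [polar_neg_right, hz.symm, neg_zero])]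

/-- all long root elements from one and the rotation -/
theorem long_all (hn : 1 < k) {K : Subgroup (V ≃ₗ[F] V)} {w : V ≃ₗ[F] V} (hwK : w ∈ K) (hwO : w ∈ O Q) (hwm : Mn e f (rho (by omega)) w)
    (h0 : ∀ t, xx hQ e f (ps (by omega) 0) (ps (by omega) 1) t ∈ K) (a b : Zs k) (hab : ix a ≠ ix b) (t : F) : xx hQ e f a b t ∈ K := by
  have hn0 : 0 < k := by omega
  have key := root_span hn0 (fun a b => ix a ≠ ix b → ∀ t : F, xx hQ e f a (ng b) t ∈ K) ?_ ?_ ?_ (fun _ t => by rw [ng_ng]; exact h0 t) hn a (ng b)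
    (by rwa [ix_ng]) (by rwa [ix_ng]) t
  · rwa [ng_ng] at key
  · intro a b h1 hab t
    rw [xx_symm hQ h (by rwa [ix_ng]), ng_ng]
    exact h1 hab.symm _
  · intro a b c hab hbc hac h1 h2 _ t
    have h3 := xx_comm hQ h (a := a) (b := ng b) (c := ng c) (by rwa [ix_ng]) (by rwa [ix_ng, ix_ng]) (by rwa [ix_ng]) t 1
    rw [mul_one] at h3
    have h4 : xx hQ e f a (ng c) t = xx hQ e f a (ng b) t * xx hQ e f (ng b) (ng c) 1 * (xx hQ e f a (ng b) t)⁻¹ * (xx hQ e f (ng b) (ng c) 1)⁻¹ := by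
      rw [h3, mul_inv_cancel_right]
    rw [h4]
    exact mul_mem (mul_mem (mul_mem (h1 hab _) (h2 (by rwa [ix_ng]) _)) (inv_mem (h1 hab _))) (inv_mem (h2 (by rwa [ix_ng]) _))
  · intro a b hab h1 _ t
    obtain ⟨c, hc, h2⟩ := hwm a
    obtain ⟨d, hd, h3⟩ := hwm b
    have h4 := xx_conj hQ hwO (a := a) (b := ng b) (a' := rho hn0 a) (b' := ng (rho hn0 b)) h2 hc (d := d) (by rw [ng_ng, ng_ng]; exact h3) (t * c⁻¹ * d⁻¹)
    have h5 : t * c⁻¹ * d⁻¹ * c * d = t := by field_simp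
    rw [h5] at h4
    rw [← h4]
    exact mul_mem (mul_mem hwK (h1 hab _)) (inv_mem hwK)

/-- singular short root elements from one -/
theorem sing_all (hn : 1 < k) {K : Subgroup (V ≃ₗ[F] V)} (hl : ∀ a b, ix a ≠ ix b → ∀ t, xx hQ e f a b t ∈ K) {z : V} (hz : Wp Q e f z) (hz0 : Q z = 0)
    {b : Zs k} (hb : ∀ t : F, yy hQ e f b (t • z) ∈ K) (a : Zs k) (t : F) : yy hQ e f a (t • z) ∈ K := by
  have step : ∀ a b : Zs k, ix a ≠ ix b → (∀ t : F, yy hQ e f b (t • z) ∈ K) → ∀ t : F, yy hQ e f a (t • z) ∈ K := by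
    intro a b hab hb t
    have h1 := yy_move hQ h hab (hz.smul t) (by rw [Q_smul, hz0, mul_zero])
    have h2 : yy hQ e f a (t • z) = xx hQ e f a b 1 * yy hQ e f b (t • z) * (xx hQ e f a b 1)⁻¹ * (yy hQ e f b (t • z))⁻¹ := by
      rw [h1, mul_inv_cancel_right]
    rw [h2]
    exact mul_mem (mul_mem (mul_mem (hl _ _ hab _) (hb t)) (inv_mem (hl _ _ hab _))) (inv_mem (hb t))
  obtain ⟨c, hc⟩ : ∃ c : Zs k, ix c ≠ ix b := by
    by_cases h1 : ix b = ⟨0, by omega⟩
    · exact ⟨Sum.inl ⟨1, hn⟩, by rw [h1]; simp [ix]⟩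
    · exact ⟨Sum.inl ⟨0, by omega⟩, fun h2 => h1 h2.symm⟩
  have hc' := step c b hc hb
  by_cases hac : ix a = ix c
  · exact step a b (by rw [hac]; exact hc) hb t
  · exact step a c hac hc' t

end general

section plus

variable {F : Type*} [Field F] {k : ℕ}

/-- the small frame -/
theorem frame_small : Frame (quadPlus (k + 1) F) k (fun i => (hpPlus (k + 1)).e i.castSucc) (fun i => (hpPlus (k + 1)).f i.castSucc) where
  e0 i := (frame_of_HP (hpPlus (k + 1))).e0 _
  f0 i := (frame_of_HP (hpPlus (k + 1))).f0 _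
  ee i j := (frame_of_HP (hpPlus (k + 1))).ee _ _
  ff i j := (frame_of_HP (hpPlus (k + 1))).ff _ _
  ef i j := by
    rw [(frame_of_HP (hpPlus (k + 1))).ef]
    by_cases hij : i = j
    · rw [if_pos hij, if_pos (by rw [hij])]
    · rw [if_neg hij, if_neg (fun h => hij (Fin.castSucc_injective _ h))]

/-- the small frame vectors -/
def se (k : ℕ) (F : Type*) [Field F] (i : Fin k) : Fin (k + 1) ⊕ Fin (k + 1) → F := (hpPlus (k + 1)).e i.castSucc
def sf (k : ℕ) (F : Type*) [Field F] (i : Fin k) : Fin (k + 1) ⊕ Fin (k + 1) → F := (hpPlus (k + 1)).f i.castSucc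
/-- the last pair -/
def lu (k : ℕ) (F : Type*) [Field F] : Fin (k + 1) ⊕ Fin (k + 1) → F := (hpPlus (k + 1)).e (Fin.last k)
def lv (k : ℕ) (F : Type*) [Field F] : Fin (k + 1) ⊕ Fin (k + 1) → F := (hpPlus (k + 1)).f (Fin.last k)

theorem hsm : Frame (quadPlus (k + 1) F) k (se k F) (sf k F) := frame_small

theorem Q_lu : quadPlus (k + 1) F (lu k F) = 0 := (frame_of_HP (hpPlus (k + 1))).e0 _
theorem Q_lv : quadPlus (k + 1) F (lv k F) = 0 := (frame_of_HP (hpPlus (k + 1))).f0 _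
theorem polar_uv : polar (quadPlus (k + 1) F) (lu k F) (lv k F) = 1 := by
  have := (frame_of_HP (F := F) (hpPlus (k + 1))).ef (Fin.last k) (Fin.last k)
  rw [if_pos rfl] at this; exact this
theorem polar_vu : polar (quadPlus (k + 1) F) (lv k F) (lu k F) = 1 := by rw [polar_comm, polar_uv]
theorem polar_uu : polar (quadPlus (k + 1) F) (lu k F) (lu k F) = 0 := by rw [polar_self', Q_lu, mul_zero]
theorem polar_vv : polar (quadPlus (k + 1) F) (lv k F) (lv k F) = 0 := by rw [polar_self', Q_lv, mul_zero]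

theorem wp_u : Wp (quadPlus (k + 1) F) (se k F) (sf k F) (lu k F) := by
  rintro (i | i)
  · exact (frame_of_HP (hpPlus (k + 1))).ee _ _
  · have := (frame_of_HP (F := F) (hpPlus (k + 1))).fe i.castSucc (Fin.last k)
    rw [if_neg (Fin.castSucc_lt_last i).ne] at this; exact this

theorem wp_v : Wp (quadPlus (k + 1) F) (se k F) (sf k F) (lv k F) := by
  rintro (i | i)
  · have := (frame_of_HP (F := F) (hpPlus (k + 1))).ef i.castSucc (Fin.last k)
    rw [if_neg (Fin.castSucc_lt_last i).ne] at this; exact this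
  · exact (frame_of_HP (hpPlus (k + 1))).ff _ _

theorem wp_cases (a : Zs (k + 1)) : (∃ a' : Zs k, a = Sum.map Fin.castSucc Fin.castSucc a') ∨ a = Sum.inl (Fin.last k) ∨ a = Sum.inr (Fin.last k) := by
  rcases a with i | i
  · refine Fin.lastCases (Or.inr (Or.inl rfl)) (fun j => Or.inl ⟨Sum.inl j, rfl⟩) i
  · refine Fin.lastCases (Or.inr (Or.inr rfl)) (fun j => Or.inl ⟨Sum.inr j, rfl⟩) i

theorem vl_small (a : Zs k) : vl (hpPlus (k + 1)).e (hpPlus (k + 1)).f (Sum.map Fin.castSucc Fin.castSucc a) = vl (se k F) (sf k F) a := by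
  rcases a with i | i <;> rfl

theorem ng_small (a : Zs k) : ng (Sum.map Fin.castSucc Fin.castSucc a : Zs (k + 1)) = Sum.map Fin.castSucc Fin.castSucc (ng a) := by
  rcases a with i | i <;> rfl

theorem ix_small (a : Zs k) : ix (Sum.map Fin.castSucc Fin.castSucc a : Zs (k + 1)) = (ix a).castSucc := by
  rcases a with i | i <;> rfl

/-- the final step -/
theorem plus_top (hQ : Nd (quadPlus (k + 1) F)) (hn : 1 < k) {K : Subgroup ((Fin (k + 1) ⊕ Fin (k + 1) → F) ≃ₗ[F] (Fin (k + 1) ⊕ Fin (k + 1) → F))}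
    {w : (Fin (k + 1) ⊕ Fin (k + 1) → F) ≃ₗ[F] (Fin (k + 1) ⊕ Fin (k + 1) → F)} (hwK : w ∈ K) (hwO : w ∈ O (quadPlus (k + 1) F))
    (hwm : Mn (se k F) (sf k F) (rho (by omega)) w) (hwv : w (lv k F) = -(lu k F))
    (h0 : ∀ t, xx hQ (se k F) (sf k F) (ps (by omega) 0) (ps (by omega) 1) t ∈ K) {b : Zs k}
    (hb : ∀ t : F, yy hQ (se k F) (sf k F) b (t • lv k F) ∈ K) : T hQ ≤ K := by
  have hl := long_all hQ hsm hn hwK hwO hwm h0
  have hv := sing_all hQ hsm hn hl wp_v Q_lv hb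
  have hu : ∀ (a : Zs k) (t : F), yy hQ (se k F) (sf k F) a (t • lu k F) ∈ K := by
    obtain ⟨c, hc, h1⟩ := hwm b
    refine sing_all hQ hsm hn hl wp_u Q_lu (b := rho (by omega) b) (fun t => ?_)
    have h2 := yy_conj hQ hwO h1 hc ((-(c⁻¹ * t)) • lv k F)
    have h3 : c • w ((-(c⁻¹ * t)) • lv k F) = t • lu k F := by
      rw [map_smul, hwv, smul_smul, smul_neg, ← neg_smul]
      congr 1
      field_simp
    rw [h3] at h2
    rw [← h2]
    exact mul_mem (mul_mem hwK (hb _)) (inv_mem hwK)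
  have h2 : ∀ (a : Zs k) (b : Zs (k + 1)), ix (Sum.map Fin.castSucc Fin.castSucc a : Zs (k + 1)) ≠ ix b → ∀ t,
      xx hQ (hpPlus (k + 1)).e (hpPlus (k + 1)).f (Sum.map Fin.castSucc Fin.castSucc a) b t ∈ K := by
    intro a b hab t
    rcases wp_cases b with ⟨b', rfl⟩ | rfl | rfl
    · unfold xx
      rw [ng_small, vl_small, vl_small]
      refine hl a b' (fun h1 => hab ?_) t
      rw [ix_small, ix_small, h1]
    · unfold xx
      rw [vl_small]
      exact hv a (-t)
    · unfold xx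
      rw [vl_small]
      exact hu a (-t)
  refine T_le_of hQ (frame_of_HP (hpPlus (k + 1))) ?_ ?_ ?_
  · intro x hx _
    funext j
    rcases j with j | j
    · have := hx (Sum.inr j)
      change polar (quadPlus (k + 1) F) ((hpPlus (k + 1)).f j) x = 0 at this
      rw [HP.polar_f] at this
      exact this
    · have := hx (Sum.inl j)
      change polar (quadPlus (k + 1) F) ((hpPlus (k + 1)).e j) x = 0 at this
      rw [HP.polar_e] at this
      exact this
  · intro a x hx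
    have hx0 : x = 0 := by
      funext j
      rcases j with j | j
      · have := hx (Sum.inr j)
        change polar (quadPlus (k + 1) F) ((hpPlus (k + 1)).f j) x = 0 at this
        rw [HP.polar_f] at this
        exact this
      · have := hx (Sum.inl j)
        change polar (quadPlus (k + 1) F) ((hpPlus (k + 1)).e j) x = 0 at this
        rw [HP.polar_e] at this
        exact this
    rw [hx0, yy_zero]; exact one_mem _
  · intro a b hab t
    rcases wp_cases a with ⟨a', rfl⟩ | ha | ha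
    · exact h2 a' b hab t
    · rcases wp_cases b with ⟨b', rfl⟩ | hb' | hb'
      · rw [xx_symm hQ (frame_of_HP (hpPlus (k + 1))) hab, ng_small]
        exact h2 _ _ (by rw [← ng_small, ix_ng, ix_ng]; exact hab.symm) _
      · exact absurd (by rw [ha, hb']) hab
      · exact absurd (by rw [ha, hb']; rfl) hab
    · rcases wp_cases b with ⟨b', rfl⟩ | hb' | hb'
      · rw [xx_symm hQ (frame_of_HP (hpPlus (k + 1))) hab, ng_small]
        exact h2 _ _ (by rw [← ng_small, ix_ng, ix_ng]; exact hab.symm) _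
      · exact absurd (by rw [ha, hb']; rfl) hab
      · exact absurd (by rw [ha, hb']) hab

/-- nonsingular vectors of the last plane -/
def zt (k : ℕ) (t : F) : Fin (k + 1) ⊕ Fin (k + 1) → F := lu k F + t • lv k F

theorem wp_zt (t : F) : Wp (quadPlus (k + 1) F) (se k F) (sf k F) (zt k t) := wp_u.add (wp_v.smul t)
theorem Q_zt (t : F) : quadPlus (k + 1) F (zt k t) = t := by
  unfold zt
  rw [Q_add, Q_smul, Q_lu, Q_lv, polar_smul_right, polar_uv]; simp
theorem zt_u (t : F) : polar (quadPlus (k + 1) F) (zt k t) (lu k F) = t := by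
  unfold zt
  rw [polar_add_left, polar_smul_left, polar_uu, polar_vu]; simp
theorem zt_v (t : F) : polar (quadPlus (k + 1) F) (zt k t) (lv k F) = 1 := by
  unfold zt
  rw [polar_add_left, polar_smul_left, polar_uv, polar_vv]; simp

theorem rr_u (hQ : Nd (quadPlus (k + 1) F)) (a : Zs k) {t : F} (ht : t ≠ 0) : rr hQ (se k F) (sf k F) a (zt k t) (lu k F) = (-t) • lv k F := by
  rw [rr_wp hQ hsm a (wp_zt t) (by rw [Q_zt]; exact ht) wp_u, Q_zt, zt_u, inv_mul_cancel₀ ht, zt]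
  module

theorem rr_v (hQ : Nd (quadPlus (k + 1) F)) (a : Zs k) {t : F} (ht : t ≠ 0) : rr hQ (se k F) (sf k F) a (zt k t) (lv k F) = (-t⁻¹) • lu k F := by
  rw [rr_wp hQ hsm a (wp_zt t) (by rw [Q_zt]; exact ht) wp_v, Q_zt, zt_v, mul_one, zt, smul_add, smul_smul, inv_mul_cancel₀ ht]
  module

variable [Fintype F]

theorem T_plus (hk : 2 ≤ k) : T (nd_quadPlus (m := k + 1) (F := F)) = Om (quadPlus (k + 1) F) :=
  T_eq_Om _ (nd_quadPlus.R_eq_O (genHyp_plus (k + 1) (by omega))) (frame_of_HP (hpPlus (k + 1))) (i := ⟨0, by omega⟩) (j := ⟨1, by omega⟩) (l := ⟨2, by omega⟩)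
    (by simp) (by simp) (by simp)

theorem gen_plus_big (hk : 3 ≤ k) (hF : 2 < Fintype.card F) : ∃ a b, a ∈ T (nd_quadPlus (m := k + 1) (F := F)) ∧ b ∈ T (nd_quadPlus (m := k + 1) (F := F)) ∧
    T (nd_quadPlus (m := k + 1) (F := F)) ≤ Subgroup.closure {a, b} := by
  classical
  have hQ : Nd (quadPlus (k + 1) F) := nd_quadPlus
  have h := hsm (F := F) (k := k)
  obtain ⟨ζ, hζ⟩ := IsCyclic.exists_generator (α := Fˣ)
  have hζ1 : (ζ : F) ≠ 1 := by
    intro h1
    have h1' : ζ = 1 := Units.ext h1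
    have h3 : Fintype.card Fˣ = 1 := by
      rw [Fintype.card_eq_one_iff]
      exact ⟨1, fun y => by have := hζ y; rwa [h1', Subgroup.zpowers_one_eq_bot, Subgroup.mem_bot] at this⟩
    rw [Fintype.card_units] at h3
    omega
  have hζ0 : (ζ : F) ≠ 0 := ζ.ne_zero
  have hk0 : 0 < k := by omega
  obtain ⟨w, hwT, hwm, hwW⟩ := exists_w hQ h hk0 (wp_zt 1) (by rw [Q_zt]; exact one_ne_zero)
  have hwO := T_le hQ hwT
  have hwu : w (lu k F) = -(lv k F) := by
    rw [hwW _ wp_u, Q_zt, zt_u, inv_one, one_mul, zt]; module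
  have hwv : w (lv k F) = -(lu k F) := by
    rw [hwW _ wp_v, Q_zt, zt_v, inv_one, one_mul, zt]; module
  have hwu' : w⁻¹ (lu k F) = -(lv k F) := by
    have h1 : w⁻¹ (w (lv k F)) = lv k F := w.symm_apply_apply _
    rw [hwv, map_neg] at h1
    rw [← h1, neg_neg]
  have hwv' : w⁻¹ (lv k F) = -(lu k F) := by
    have h1 : w⁻¹ (w (lu k F)) = lu k F := w.symm_apply_apply _
    rw [hwu, map_neg] at h1
    rw [← h1, neg_neg]
  let a0 : Zs k := Sum.inl ⟨0, hk0⟩
  let a1 : Zs k := Sum.inl ⟨1, by omega⟩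
  let a2 : Zs k := Sum.inl ⟨2, by omega⟩
  have r0 : rho hk0 a0 = a1 := by
    show rho hk0 (Sum.inl ⟨0, hk0⟩) = _
    simp only [rho]; rw [dif_pos (by omega)]
  have r1 : rho hk0 a1 = a2 := by
    show rho hk0 (Sum.inl ⟨1, _⟩) = _
    simp only [rho]; rw [dif_pos (by omega)]
  have rl : rho hk0 (Sum.inr ⟨k - 1, by omega⟩) = a0 := by
    simp only [rho]; rw [dif_neg (by omega)]
  have i01 : ix a0 ≠ ix a1 := by simp [a0, a1, ix]
  have i10 := i01.symm
  have ps0 : ps hk0 0 = a0 := rfl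
  have ps1 : ps hk0 1 = a1 := ps_lt hk0 (by omega)
  set g := rr hQ (se k F) (sf k F) a0 (zt k (ζ : F)) * rr hQ (se k F) (sf k F) a0 (zt k 1) with hg
  have hgT : g ∈ T hQ := mul_mem (rr_mem_T _ _ _) (rr_mem_T _ _ _)
  have hgO := T_le hQ hgT
  have hQζ : quadPlus (k + 1) F (zt k (ζ : F)) ≠ 0 := by rw [Q_zt]; exact hζ0
  have hQ1 : quadPlus (k + 1) F (zt k (1 : F)) ≠ 0 := by rw [Q_zt]; exact one_ne_zero
  have hgu : g (lu k F) = (ζ : F)⁻¹ • lu k F := by
    rw [hg, LinearEquiv.mul_apply, rr_u hQ _ one_ne_zero, map_smul, rr_v hQ _ hζ0]; module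
  have hgv : g (lv k F) = (ζ : F) • lv k F := by
    rw [hg, LinearEquiv.mul_apply, rr_v hQ _ one_ne_zero, map_smul, rr_u hQ _ hζ0, inv_one]; module
  have hg0 : g (vl (se k F) (sf k F) a0) = (ζ : F) • vl (se k F) (sf k F) a0 := by
    rw [hg, LinearEquiv.mul_apply, rr_a hQ h _ (wp_zt 1) hQ1, map_smul, rr_na hQ h _ (wp_zt _) hQζ, Q_zt, Q_zt, smul_smul]
    congr 1
    rw [inv_one]; ring
  have hgn0 : g (vl (se k F) (sf k F) (ng a0)) = (ζ : F)⁻¹ • vl (se k F) (sf k F) (ng a0) := by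
    rw [hg, LinearEquiv.mul_apply, rr_na hQ h _ (wp_zt 1) hQ1, map_smul, rr_a hQ h _ (wp_zt _) hQζ, Q_zt, Q_zt, smul_smul]
    congr 1
    ring
  have hgf : ∀ a, ix a ≠ ix a0 → g (vl (se k F) (sf k F) a) = (1 : F) • vl (se k F) (sf k F) a := by
    intro a ha
    rw [hg, LinearEquiv.mul_apply, rr_fix hQ h _ (wp_zt 1) hQ1 ha, rr_fix hQ h _ (wp_zt _) hQζ ha, one_smul]
  have hgd : ∀ a, ∃ d : F, g (vl (se k F) (sf k F) a) = d • vl (se k F) (sf k F) a := by
    intro a
    by_cases h1 : ix a = ix a0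
    · rcases eq_or_ng h1 with rfl | rfl
      · exact ⟨_, hg0⟩
      · exact ⟨_, hgn0⟩
    · exact ⟨1, hgf _ h1⟩
  set g' := w * g * w⁻¹ with hg'
  have hg'O : g' ∈ O (quadPlus (k + 1) F) := mul_mem (mul_mem hwO hgO) (inv_mem hwO)
  have hg'u : g' (lu k F) = (ζ : F) • lu k F := by
    rw [hg', LinearEquiv.mul_apply, LinearEquiv.mul_apply, hwu', map_neg, hgv, map_neg, map_smul, hwv, smul_neg, neg_neg]
  have hg'v : g' (lv k F) = (ζ : F)⁻¹ • lv k F := by
    rw [hg', LinearEquiv.mul_apply, LinearEquiv.mul_apply, hwv', map_neg, hgu, map_neg, map_smul, hwu, smul_neg, neg_neg]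
  have hg'1 : g' (vl (se k F) (sf k F) a1) = (ζ : F) • vl (se k F) (sf k F) a1 := by
    have := diag_conj hwm hg0; rwa [r0] at this
  have hg'n1 : g' (vl (se k F) (sf k F) (ng a1)) = (ζ : F)⁻¹ • vl (se k F) (sf k F) (ng a1) := by
    have := diag_conj hwm hgn0; rwa [rho_ng, r0] at this
  have hg'0 : g' (vl (se k F) (sf k F) a0) = (1 : F) • vl (se k F) (sf k F) a0 := by
    have := diag_conj (a := Sum.inr ⟨k - 1, by omega⟩) hwm (hgf _ (fun h1 => by
      have h2 : k - 1 = 0 := congrArg Fin.val h1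
      omega))
    rwa [rl] at this
  set g'' := w * g' * w⁻¹ with hg''
  have hg''O : g'' ∈ O (quadPlus (k + 1) F) := mul_mem (mul_mem hwO hg'O) (inv_mem hwO)
  have hg''v : g'' (lv k F) = (ζ : F) • lv k F := by
    rw [hg'', LinearEquiv.mul_apply, LinearEquiv.mul_apply, hwv', map_neg, hg'u, map_neg, map_smul, hwu, smul_neg, neg_neg]
  have hg''u : g'' (lu k F) = (ζ : F)⁻¹ • lu k F := by
    rw [hg'', LinearEquiv.mul_apply, LinearEquiv.mul_apply, hwu', map_neg, hg'v, map_neg, map_smul, hwv, smul_neg, neg_neg]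
  have hg''1 : g'' (vl (se k F) (sf k F) a1) = (1 : F) • vl (se k F) (sf k F) a1 := by
    have := diag_conj hwm hg'0; rwa [r0] at this
  -- the group
  set X := fun t : F => xx hQ (se k F) (sf k F) a0 a1 t with hX
  set Y := fun t : F => yy hQ (se k F) (sf k F) a1 (t • lv k F) with hY
  have hXadd : ∀ s t, X s * X t = X (s + t) := fun s t => xx_add hQ h i01 s t
  have hXinv : ∀ t, (X t)⁻¹ = X (-t) := fun t => xx_inv hQ h i01 t
  have hYadd : ∀ s t, Y s * Y t = Y (s + t) := fun s t => by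
    show yy _ _ _ _ _ * yy _ _ _ _ _ = _
    rw [yy_add hQ (wp_v.smul s) (wp_v.smul t), ← add_smul]
  have hYinv : ∀ t, (Y t)⁻¹ = Y (-t) := fun t => by
    show (yy _ _ _ _ _)⁻¹ = _
    rw [yy_inv hQ (wp_v.smul t), ← neg_smul]
  have gX : ∀ t, g * X t * g⁻¹ = X ((ζ : F) * t) := by
    intro t
    have := xx_conj hQ hgO hg0 hζ0 (hgf (ng a1) (by rw [ix_ng]; exact i10)) t
    show g * xx hQ (se k F) (sf k F) a0 a1 t * g⁻¹ = _
    rw [this, mul_one, mul_comm]
  have gY : ∀ t, g * Y t * g⁻¹ = Y ((ζ : F) * t) := by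
    intro t
    have := yy_conj hQ hgO (hgf a1 i10) one_ne_zero (t • lv k F)
    rw [map_smul, hgv, one_smul, smul_smul, mul_comm] at this
    exact this
  have g'X : ∀ t, g' * X t * g'⁻¹ = X ((ζ : F)⁻¹ * t) := by
    intro t
    have := xx_conj hQ hg'O hg'0 one_ne_zero hg'n1 t
    show g' * xx hQ (se k F) (sf k F) a0 a1 t * g'⁻¹ = _
    rw [this, mul_one, mul_comm]
  have g'Y : ∀ t, g' * Y t * g'⁻¹ = Y t := by
    intro t
    have := yy_conj hQ hg'O hg'1 hζ0 (t • lv k F)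
    rw [map_smul, hg'v, smul_smul, smul_smul] at this
    have e1 : (ζ : F) * t * (ζ : F)⁻¹ = t := by field_simp
    rw [e1] at this
    exact this
  have g''Y : ∀ t, g'' * Y t * g''⁻¹ = Y ((ζ : F) * t) := by
    intro t
    have := yy_conj hQ hg''O hg''1 one_ne_zero (t • lv k F)
    rw [map_smul, hg''v, one_smul, smul_smul, mul_comm] at this
    exact this
  have hWuv : ∀ {p q : (Fin (k + 1) ⊕ Fin (k + 1) → F) ≃ₗ[F] (Fin (k + 1) ⊕ Fin (k + 1) → F)} {c d c' d' : F}, p (lu k F) = c • lu k F → p (lv k F) = d • lv k F →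
      q (lu k F) = c' • lu k F → q (lv k F) = d' • lv k F → ∀ x, Wp (quadPlus (k + 1) F) (se k F) (sf k F) x → p (q x) = q (p x) := by
    intro p q c d c' d' p1 p2 q1 q2 x hx
    have e1 : x = x (Sum.inl (Fin.last k)) • lu k F + x (Sum.inr (Fin.last k)) • lv k F := by
      funext j
      rcases wp_cases j with ⟨j', rfl⟩ | rfl | rfl
      · have e2 : x (Sum.map Fin.castSucc Fin.castSucc j') = 0 := by
          rcases j' with j' | j'
          · have := hx (Sum.inr j')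
            change polar (quadPlus (k + 1) F) ((hpPlus (k + 1)).f j'.castSucc) x = 0 at this
            rw [HP.polar_f] at this
            exact this
          · have := hx (Sum.inl j')
            change polar (quadPlus (k + 1) F) ((hpPlus (k + 1)).e j'.castSucc) x = 0 at this
            rw [HP.polar_e] at this
            exact this
        rw [e2]
        rcases j' with j' | j'
        · have e3 : (Fin.castSucc j') ≠ Fin.last k := (Fin.castSucc_lt_last j').ne
          simp [lu, lv, HP.e, HP.f, hpPlus, Pi.single_apply, e3]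
        · have e3 : (Fin.castSucc j') ≠ Fin.last k := (Fin.castSucc_lt_last j').ne
          simp [lu, lv, HP.e, HP.f, hpPlus, Pi.single_apply, e3]
      · simp [lu, lv, HP.e, HP.f, hpPlus, Pi.single_apply]
      · simp [lu, lv, HP.e, HP.f, hpPlus, Pi.single_apply]
    rw [e1]
    simp only [map_add, map_smul, p1, p2, q1, q2]
    module
  have hg'd : ∀ a, ∃ d : F, g' (vl (se k F) (sf k F) a) = d • vl (se k F) (sf k F) a := by
    intro a
    obtain ⟨b, rfl⟩ := rho_surj hk0 a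
    obtain ⟨d, hd⟩ := hgd b
    exact ⟨d, diag_conj hwm hd⟩
  have hg''d : ∀ a, ∃ d : F, g'' (vl (se k F) (sf k F) a) = d • vl (se k F) (sf k F) a := by
    intro a
    obtain ⟨b, rfl⟩ := rho_surj hk0 a
    obtain ⟨d, hd⟩ := hg'd b
    exact ⟨d, diag_conj hwm hd⟩
  have c1 : Commute g g' := comm_frame h hgd hg'd (hWuv hgu hgv hg'u hg'v)
  have c2 : Commute g g'' := comm_frame h hgd hg''d (hWuv hgu hgv hg''u hg''v)
  set B := X 1 * Y 1 * w with hB
  have hBT : B ∈ T hQ := mul_mem (mul_mem (xx_mem_T _ _ _ _) (yy_mem_T _ _ _)) hwT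
  refine ⟨g, B, hgT, hBT, ?_⟩
  set K := Subgroup.closure {g, B} with hK
  have hgK : g ∈ K := Subgroup.subset_closure (Or.inl rfl)
  have hBK : B ∈ K := Subgroup.subset_closure (Or.inr rfl)
  -- scaling
  have scale : ∀ Z : F → (Fin (k + 1) ⊕ Fin (k + 1) → F) ≃ₗ[F] (Fin (k + 1) ⊕ Fin (k + 1) → F), (∀ t, g * Z t * g⁻¹ = Z ((ζ : F) * t)) → Z 0 = 1 →
      (∃ s, s ≠ 0 ∧ Z s ∈ K) → ∀ t, Z t ∈ K := by
    rintro Z h1 h2 ⟨s, hs, hsK⟩ t
    by_cases ht : t = 0
    · rw [ht, h2]; exact one_mem _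
    · have h3 : ∀ j : ℕ, Z ((ζ : F) ^ j * s) ∈ K := by
        intro j
        induction j with
        | zero => rw [pow_zero, one_mul]; exact hsK
        | succ j ih =>
          have := mul_mem (mul_mem hgK ih) (inv_mem hgK)
          rw [h1, ← mul_assoc, ← pow_succ'] at this
          exact this
      have h4 : Units.mk0 (t / s) (div_ne_zero ht hs) ∈ Subgroup.zpowers ζ := hζ _
      rw [← mem_powers_iff_mem_zpowers, Submonoid.mem_powers_iff] at h4
      obtain ⟨j, hj⟩ := h4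
      have h5 : (ζ : F) ^ j = t / s := by
        have := congrArg Units.val hj
        rwa [Units.val_pow_eq_pow_val, Units.val_mk0] at this
      have h6 := h3 j
      rwa [h5, div_mul_cancel₀ _ hs] at h6
  have k1 : X (1 - (ζ : F)⁻¹) * g' ∈ K := by
    have h1 := mul_mem (mul_mem hBK hgK) (inv_mem hBK)
    have e1 : B * g * B⁻¹ = X (1 - (ζ : F)⁻¹) * g' := by
      calc B * g * B⁻¹ = X 1 * (Y 1 * (g' * (Y 1)⁻¹ * g'⁻¹)) * (g' * (X 1)⁻¹ * g'⁻¹) * g' := by rw [hB, hg']; group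
        _ = _ := by
          rw [hYinv, g'Y, hYadd, add_neg_cancel]
          have : Y 0 = 1 := by show yy _ _ _ _ _ = _; rw [zero_smul, yy_zero]
          rw [this, mul_one, hXinv, g'X, hXadd]
          congr 2; ring
    rwa [e1] at h1
  have k2 : ∀ t, X t ∈ K := by
    refine scale X gX (xx_zero hQ _ _) ⟨(ζ : F) * (1 - (ζ : F)⁻¹) - (1 - (ζ : F)⁻¹), ?_, ?_⟩
    · have : (ζ : F) * (1 - (ζ : F)⁻¹) - (1 - (ζ : F)⁻¹) = (ζ - 1) * (ζ - 1) * (ζ : F)⁻¹ := by field_simp
      rw [this]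
      exact mul_ne_zero (mul_ne_zero (sub_ne_zero.2 hζ1) (sub_ne_zero.2 hζ1)) (inv_ne_zero hζ0)
    · have h1 := mul_mem (mul_mem (mul_mem hgK k1) (inv_mem hgK)) (inv_mem k1)
      have e1 : g * (X (1 - (ζ : F)⁻¹) * g') * g⁻¹ * (X (1 - (ζ : F)⁻¹) * g')⁻¹ = X ((ζ : F) * (1 - (ζ : F)⁻¹) - (1 - (ζ : F)⁻¹)) := by
        calc g * (X (1 - (ζ : F)⁻¹) * g') * g⁻¹ * (X (1 - (ζ : F)⁻¹) * g')⁻¹ =
            (g * X (1 - (ζ : F)⁻¹) * g⁻¹) * (g * g' * g⁻¹ * g'⁻¹) * (X (1 - (ζ : F)⁻¹))⁻¹ := by group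
          _ = _ := by rw [c1.eq, mul_inv_cancel_right, mul_inv_cancel, mul_one, gX, hXinv, hXadd, ← sub_eq_add_neg]
      rwa [e1] at h1
  have k3 : g' ∈ K := by
    have := mul_mem (inv_mem (k2 (1 - (ζ : F)⁻¹))) k1
    rwa [inv_mul_cancel_left] at this
  have k4 : Y 1 * w ∈ K := by
    have := mul_mem (inv_mem (k2 1)) hBK
    rwa [hB, mul_assoc, inv_mul_cancel_left] at this
  have k5 : Y (1 - ζ) * g'' ∈ K := by
    have h1 := mul_mem (mul_mem k4 k3) (inv_mem k4)
    have e1 : Y 1 * w * g' * (Y 1 * w)⁻¹ = Y (1 - ζ) * g'' := by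
      calc Y 1 * w * g' * (Y 1 * w)⁻¹ = Y 1 * (g'' * (Y 1)⁻¹ * g''⁻¹) * g'' := by rw [hg'']; group
        _ = _ := by
          rw [hYinv, g''Y, hYadd]
          congr 2; ring
    rwa [e1] at h1
  have k6 : ∀ t, Y t ∈ K := by
    refine scale Y gY (by show yy _ _ _ _ _ = _; rw [zero_smul, yy_zero]) ⟨(ζ : F) * (1 - ζ) - (1 - ζ), ?_, ?_⟩
    · have : (ζ : F) * (1 - ζ) - (1 - ζ) = -((ζ - 1) * (ζ - 1)) := by ring
      rw [this]
      exact neg_ne_zero.2 (mul_ne_zero (sub_ne_zero.2 hζ1) (sub_ne_zero.2 hζ1))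
    · have h1 := mul_mem (mul_mem (mul_mem hgK k5) (inv_mem hgK)) (inv_mem k5)
      have e1 : g * (Y (1 - ζ) * g'') * g⁻¹ * (Y (1 - ζ) * g'')⁻¹ = Y ((ζ : F) * (1 - ζ) - (1 - ζ)) := by
        calc g * (Y (1 - ζ) * g'') * g⁻¹ * (Y (1 - ζ) * g'')⁻¹ =
            (g * Y (1 - ζ) * g⁻¹) * (g * g'' * g⁻¹ * g''⁻¹) * (Y (1 - ζ))⁻¹ := by group
          _ = _ := by rw [c2.eq, mul_inv_cancel_right, mul_inv_cancel, mul_one, gY, hYinv, hYadd, ← sub_eq_add_neg]
      rwa [e1] at h1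
  have k7 : w ∈ K := by
    have := mul_mem (inv_mem (k6 1)) k4
    rwa [inv_mul_cancel_left] at this
  exact plus_top hQ (by omega) k7 hwO hwm hwv (by rw [ps0, ps1]; exact k2) k6

theorem gen_plus_two (hk : 3 ≤ k) (hF : Fintype.card F = 2) : ∃ a b, a ∈ T (nd_quadPlus (m := k + 1) (F := F)) ∧ b ∈ T (nd_quadPlus (m := k + 1) (F := F)) ∧
    T (nd_quadPlus (m := k + 1) (F := F)) ≤ Subgroup.closure {a, b} := by
  classical
  have hQ : Nd (quadPlus (k + 1) F) := nd_quadPlus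
  have h := hsm (F := F) (k := k)
  have hbig := frame_of_HP (F := F) (hpPlus (k + 1))
  have h01F : ∀ t : F, t = 0 ∨ t = 1 := by
    intro t
    by_contra h
    push Not at h
    have h1 : ({0, 1, t} : Finset F).card ≤ 2 := by rw [← hF]; exact Finset.card_le_univ _
    rw [Finset.card_insert_of_notMem (by simp [h.1.symm]), Finset.card_insert_of_notMem (by simpa using h.2.symm), Finset.card_singleton] at h1
    omega
  have h2 : (1 : F) + 1 = 0 := by
    rcases h01F (1 + 1) with h | h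
    · exact h
    · exact absurd (add_eq_left.1 h) one_ne_zero
  have hneg : (-1 : F) = 1 := by linear_combination -h2
  have hk0 : 0 < k := by omega
  obtain ⟨w, hwT, hwm, hwW⟩ := exists_w hQ h hk0 (wp_zt 1) (by rw [Q_zt]; exact one_ne_zero)
  have hwO := T_le hQ hwT
  have hwv : w (lv k F) = -(lu k F) := by
    rw [hwW _ wp_v, Q_zt, zt_v, inv_one, one_mul, zt]; module
  let a0 : Zs k := Sum.inl ⟨0, hk0⟩
  let a1 : Zs k := Sum.inl ⟨1, by omega⟩
  let a2 : Zs k := Sum.inl ⟨2, by omega⟩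
  have i01 : ix a0 ≠ ix a1 := by simp [a0, a1, ix]
  have i02 : ix a0 ≠ ix a2 := by simp [a0, a2, ix]
  have i12 : ix a1 ≠ ix a2 := by simp [a1, a2, ix]
  let b2 : Zs (k + 1) := Sum.map Fin.castSucc Fin.castSucc a2
  let bl : Zs (k + 1) := Sum.inl (Fin.last k)
  have i2l : ix b2 ≠ ix bl := by
    show ix (Sum.map Fin.castSucc Fin.castSucc a2 : Zs (k + 1)) ≠ Fin.last k
    rw [ix_small]
    exact (Fin.castSucc_lt_last _).ne
  -- the element of order three
  set R := xx hQ (hpPlus (k + 1)).e (hpPlus (k + 1)).f b2 bl 1 * xx hQ (hpPlus (k + 1)).e (hpPlus (k + 1)).f bl b2 1 with hR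
  have hRT : R ∈ T hQ := mul_mem (xx_mem_T _ _ _ _) (xx_mem_T _ _ _ _)
  have hRO := T_le hQ hRT
  have hR3 : R ^ 3 = 1 := by
    have e1 : R ^ 3 = nn hQ (hpPlus (k + 1)).e (hpPlus (k + 1)).f b2 bl 1 * nn hQ (hpPlus (k + 1)).e (hpPlus (k + 1)).f bl b2 1 := by
      unfold nn
      rw [hR, inv_one, hneg, pow_three]
      simp only [mul_assoc]
    rw [e1]
    apply ext_frame hbig
    · intro a
      rw [LinearEquiv.mul_apply]
      have hm1 : ∀ x : Fin (k + 1) ⊕ Fin (k + 1) → F, -x = x := fun x => by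
        have : -x = (-1 : F) • x := by module
        rw [this, hneg, one_smul]
      by_cases c1 : ix a = ix b2
      · rcases eq_or_ng c1 with rfl | rfl
        · rw [nn_b hQ hbig i2l.symm one_ne_zero, map_smul, nn_b hQ hbig i2l one_ne_zero, one_smul, one_smul]; rfl
        · rw [nn_nb hQ hbig i2l.symm one_ne_zero, map_smul, nn_nb hQ hbig i2l one_ne_zero, inv_one, one_smul, one_smul]; rfl
      · by_cases c2 : ix a = ix bl
        · rcases eq_or_ng c2 with rfl | rfl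
          · rw [nn_a hQ hbig i2l.symm one_ne_zero, map_smul, nn_a hQ hbig i2l one_ne_zero, inv_one, hneg, one_smul, one_smul]; rfl
          · rw [nn_na hQ hbig i2l.symm one_ne_zero, map_smul, nn_na hQ hbig i2l one_ne_zero, hneg, one_smul, one_smul]; rfl
        · rw [nn_fix hQ hbig i2l.symm one_ne_zero c2 c1, nn_fix hQ hbig i2l one_ne_zero c1 c2]; rfl
    · intro x hx
      rw [LinearEquiv.mul_apply, nn_wp hQ hbig i2l.symm one_ne_zero hx, nn_wp hQ hbig i2l one_ne_zero hx]; rfl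
  have hRfix : ∀ a : Zs k, ix a ≠ ix a2 → R (vl (se k F) (sf k F) a) = (1 : F) • vl (se k F) (sf k F) a := by
    intro a ha
    have j1 : ix (Sum.map Fin.castSucc Fin.castSucc a : Zs (k + 1)) ≠ ix b2 := by
      rw [ix_small, ix_small]
      exact fun h1 => ha (Fin.castSucc_injective _ h1)
    have j2 : ix (Sum.map Fin.castSucc Fin.castSucc a : Zs (k + 1)) ≠ ix bl := by
      rw [ix_small]
      exact (Fin.castSucc_lt_last _).ne
    rw [← vl_small, hR, LinearEquiv.mul_apply, xx_fix hQ hbig i2l.symm 1 (polar_ix hbig j2.symm) (polar_ix hbig (by rw [ix_ng]; exact j1.symm)),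
      xx_fix hQ hbig i2l 1 (polar_ix hbig j1.symm) (polar_ix hbig (by rw [ix_ng]; exact j2.symm)), one_smul]
  have hR2 : R (vl (se k F) (sf k F) (ng a2)) = vl (se k F) (sf k F) (ng a2) - lv k F := by
    rw [← vl_small, ← ng_small, hR, LinearEquiv.mul_apply, xx_fix hQ hbig i2l.symm 1 (polar_ix hbig (by rw [ix_ng]; exact i2l.symm)) (polar_self0 hbig _),
      xx_apply hQ hbig i2l, polar_ng hbig, polar_ix hbig (a := ng bl) (b := ng b2) (by rw [ix_ng, ix_ng]; exact i2l.symm)]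
    simp only [mul_one, one_smul, mul_zero, zero_smul, add_zero]
    rfl
  set X := fun t : F => xx hQ (se k F) (sf k F) a0 a1 t with hX
  have hXadd : ∀ s t, X s * X t = X (s + t) := fun s t => xx_add hQ h i01 s t
  have hX0 : X 0 = 1 := xx_zero hQ _ _
  have hcomm : Commute R (X 1) := by
    have := xx_conj hQ hRO (hRfix a0 i02) one_ne_zero (hRfix (ng a1) (by rw [ix_ng]; exact i12)) 1
    rw [mul_one, mul_one] at this
    exact mul_inv_eq_iff_eq_mul.1 this
  have hX2 : X 1 ^ 2 = 1 := by rw [pow_two, hXadd, h2, hX0]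
  refine ⟨w, X 1 * R, hwT, mul_mem (xx_mem_T _ _ _ _) hRT, ?_⟩
  set K := Subgroup.closure {w, X 1 * R} with hK
  have hwK : w ∈ K := Subgroup.subset_closure (Or.inl rfl)
  have hb : X 1 * R ∈ K := Subgroup.subset_closure (Or.inr rfl)
  have hXK : X 1 ∈ K := by
    have h3 := pow_mem hb 3
    rw [hcomm.symm.mul_pow, hR3, mul_one, pow_succ, hX2, one_mul] at h3
    exact h3
  have hRK : R ∈ K := by
    have := mul_mem (inv_mem hXK) hb
    rwa [inv_mul_cancel_left] at this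
  have hXt : ∀ t, X t ∈ K := by
    intro t
    rcases h01F t with rfl | rfl
    · rw [hX0]; exact one_mem _
    · exact hXK
  have ps0 : ps hk0 0 = a0 := rfl
  have ps1 : ps hk0 1 = a1 := ps_lt hk0 (by omega)
  have h0 : ∀ t, xx hQ (se k F) (sf k F) (ps hk0 0) (ps hk0 1) t ∈ K := by rw [ps0, ps1]; exact hXt
  have hl := long_all hQ h (by omega) hwK hwO hwm h0
  refine plus_top hQ (by omega) hwK hwO hwm hwv h0 (b := a0) (fun t => ?_)
  rcases h01F t with rfl | rfl
  · rw [zero_smul, yy_zero]; exact one_mem _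
  · have e1 := E_conj hQ hRO (vl (se k F) (sf k F) a0) ((-1 : F) • vl (se k F) (sf k F) (ng a2))
    rw [hRfix a0 i02, one_smul, map_smul, hR2, smul_sub, sub_eq_add_neg, ← E_add hQ (by rw [polar_smul_right, polar_ix h (by rwa [ix_ng]), smul_zero])
      (by rw [polar_neg_right, polar_smul_right, wp_v, smul_zero, neg_zero])] at e1
    have e2 : -((-1 : F) • lv k F) = (1 : F) • lv k F := by module
    rw [e2] at e1
    have e3 : xx hQ (se k F) (sf k F) a0 a2 1 ∈ K := hl _ _ i02 _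
    change E hQ (vl (se k F) (sf k F) a0) ((-1 : F) • vl (se k F) (sf k F) (ng a2)) ∈ K at e3
    have e4 := mul_mem (inv_mem e3) (mul_mem (mul_mem hRK e3) (inv_mem hRK))
    rw [e1, inv_mul_cancel_left] at e4
    exact e4

theorem two_gen_plus {m : ℕ} (hm : 4 ≤ m) : ∃ a b : Cfsg.POmega F (Cfsg.quadFormPlus m F),
    Subgroup.closure ({a, b} : Set (Cfsg.POmega F (Cfsg.quadFormPlus m F))) = ⊤ := by
  obtain ⟨k, rfl⟩ : ∃ k, m = k + 1 := ⟨m - 1, by omega⟩
  have hT := T_plus (F := F) (k := k) (by omega)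
  have key : ∃ a b, a ∈ T (nd_quadPlus (m := k + 1) (F := F)) ∧ b ∈ T (nd_quadPlus (m := k + 1) (F := F)) ∧
    T (nd_quadPlus (m := k + 1) (F := F)) ≤ Subgroup.closure {a, b} := by
    by_cases h : 2 < Fintype.card F
    · exact gen_plus_big (by omega) h
    · have h1 : 1 < Fintype.card F := Fintype.one_lt_card
      exact gen_plus_two (by omega) (by omega)
  obtain ⟨a, b, ha, hb, hab⟩ := key
  rw [hT] at ha hb hab
  exact two_gen_P (quadPlus (k + 1) F) ha hb hab

end plus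

end Cfsg.Agent.Lib.OmTwo
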