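import Mathlib

/-!
Maschke's theorem for sections of abelian groups with a coprime group of operators (helper63).
-/

set_option autoImplicit false

namespace Cfsg.Agent.Lib.OpMaschke

open Subgroup

/-- Maschke: complements of invariant subspaces. -/
theorem exists_compl {p : ℕ} [Fact p.Prime] {V : Type*} [AddCommGroup V] [Module (ZMod p) V] {X : Type*}
    [Group X] [Finite X] (hX : (Nat.card X).Coprime p) (ρ : Representation (ZMod p) X V)
    (U : Submodule (ZMod p) V) (hU : ∀ x, ∀ u ∈ U, ρ x u ∈ U) :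
    ∃ W : Submodule (ZMod p) V, (∀ x, ∀ w ∈ W, ρ x w ∈ W) ∧ U ⊓ W = ⊥ ∧ U ⊔ W = ⊤ := by
  haveI : NeZero (Nat.card X : ZMod p) := by
    refine ⟨?_⟩
    rw [Ne, ZMod.natCast_eq_zero_iff]
    intro h
    have h1 : p ∣ 1 := by
      rw [← hX]
      exact Nat.dvd_gcd h dvd_rfl
    exact (Fact.out : p.Prime).one_lt.ne' (Nat.dvd_one.mp h1)
  obtain ⟨W, hW⟩ := exists_isCompl (⟨U, fun x u hu => hU x u hu⟩ : Subrepresentation ρ)
  refine ⟨W.toSubmodule, fun x w hw => W.apply_mem_toSubmodule x hw, ?_, ?_⟩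
  · have := congrArg Subrepresentation.toSubmodule hW.inf_eq_bot
    exact this
  · have := congrArg Subrepresentation.toSubmodule hW.sup_eq_top
    exact this

/-- Maschke for elementary abelian groups written multiplicatively. -/
theorem exists_compl_mul {Q : Type*} [CommGroup Q] {X : Type*} [Group X] [Finite X] {p : ℕ}
    [hp : Fact p.Prime] (hX : (Nat.card X).Coprime p) (hexp : ∀ a : Q, a ^ p = 1) (g : X → Q →* Q)
    (hg1 : ∀ a, g 1 a = a) (hgm : ∀ x y a, g (x * y) a = g x (g y a))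
    (U : Subgroup Q) (hU : ∀ x, ∀ a ∈ U, g x a ∈ U) :
    ∃ W : Subgroup Q, (∀ x, ∀ a ∈ W, g x a ∈ W) ∧ U ⊓ W = ⊥ ∧ U ⊔ W = ⊤ := by
  letI : Module (ZMod p) (Additive Q) := AddCommGroup.zmodModule (n := p) (fun v => hexp (Additive.toMul v))
  let ρ : Representation (ZMod p) X (Additive Q) :=
    { toFun := fun x => (MonoidHom.toAdditive (g x)).toZModLinearMap p
      map_one' := by
        ext v
        exact hg1 (Additive.toMul v)
      map_mul' := fun x y => by
        ext v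
        exact hgm x y (Additive.toMul v) }
  obtain ⟨W, hWinv, hWbot, hWtop⟩ := exists_compl hX ρ
    (AddSubgroup.toZModSubmodule p (Subgroup.toAddSubgroup U)) (fun x u hu => hU x (Additive.toMul u) hu)
  refine ⟨AddSubgroup.toSubgroup' W.toAddSubgroup, fun x a ha => hWinv x (Additive.ofMul a) ha, ?_, ?_⟩
  · rw [eq_bot_iff]
    rintro a ⟨ha, ha'⟩
    have h1 : Additive.ofMul a ∈ (AddSubgroup.toZModSubmodule p (Subgroup.toAddSubgroup U)) ⊓ W := ⟨ha, ha'⟩
    rw [hWbot, Submodule.mem_bot] at h1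
    exact h1
  · rw [eq_top_iff]
    rintro a -
    have h1 : Additive.ofMul a ∈ (AddSubgroup.toZModSubmodule p (Subgroup.toAddSubgroup U)) ⊔ W := by
      rw [hWtop]; trivial
    obtain ⟨u, hu, w, hw, huw⟩ := Submodule.mem_sup.mp h1
    have h2 : a = Additive.toMul u * Additive.toMul w := by
      rw [← toMul_add, huw]; rfl
    rw [h2]
    exact Subgroup.mul_mem_sup hu hw

theorem exists_section_compl {A : Type*} [CommGroup A] {X : Type*} [Group X] [Finite X] {p : ℕ}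
    [hp : Fact p.Prime] (hX : (Nat.card X).Coprime p) (φ : X →* MulAut A) {N U T : Subgroup A}
    (hN : ∀ x, ∀ a ∈ N, φ x a ∈ N) (hU : ∀ x, ∀ a ∈ U, φ x a ∈ U) (hT : ∀ x, ∀ a ∈ T, φ x a ∈ T)
    (hNU : N ≤ U) (hUT : U ≤ T) (hpow : ∀ t ∈ T, t ^ p ∈ N) :
    ∃ W : Subgroup A, (∀ x, ∀ a ∈ W, φ x a ∈ W) ∧ N ≤ W ∧ W ≤ T ∧ U ⊓ W = N ∧ U ⊔ W = T := by
  let N' : Subgroup T := N.subgroupOf T
  let π : T →* T ⧸ N' := QuotientGroup.mk' N'
  have hπs : Function.Surjective π := QuotientGroup.mk'_surjective N'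
  have hπ : ∀ t : T, π t = 1 ↔ (t : A) ∈ N := by
    intro t
    rw [QuotientGroup.mk'_apply, QuotientGroup.eq_one_iff, Subgroup.mem_subgroupOf]
  have hV : ∀ v : T ⧸ N', v ^ p = 1 := by
    intro v
    obtain ⟨t, rfl⟩ := hπs v
    rw [← map_pow]
    exact (hπ _).mpr (hpow t t.2)
  -- the action
  let f : X → T →* T := fun x =>
    { toFun := fun t => ⟨φ x t, hT x t t.2⟩
      map_one' := Subtype.ext (by simp)
      map_mul' := fun a b => Subtype.ext (by simp) }
  have hf : ∀ x, N' ≤ N'.comap (f x) := by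
    intro x t ht
    exact hN x t ht
  let g : X → T ⧸ N' →* T ⧸ N' := fun x => QuotientGroup.map N' N' (f x) (hf x)
  have hg : ∀ x (t : T), g x (π t) = π (f x t) := fun x t => rfl
  have hUb : ∀ t : T, π t ∈ (U.subgroupOf T).map π ↔ (t : A) ∈ U := by
    intro t
    constructor
    · rintro ⟨u, hu, hut⟩
      have h1 : π (u⁻¹ * t) = 1 := by rw [map_mul, map_inv, hut, inv_mul_cancel]
      have h2 : (u : A)⁻¹ * t ∈ N := (hπ _).mp h1
      have h3 := U.mul_mem (Subgroup.mem_subgroupOf.mp hu) (hNU h2)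
      simpa using h3
    · intro h
      exact ⟨t, Subgroup.mem_subgroupOf.mpr h, rfl⟩
  obtain ⟨W, hWinv, hWbot, hWtop⟩ := exists_compl_mul hX hV g
    (fun a => by
      obtain ⟨t, rfl⟩ := hπs a
      rw [hg]
      have : f 1 t = t := Subtype.ext (by simp [f])
      rw [this])
    (fun x y a => by
      obtain ⟨t, rfl⟩ := hπs a
      rw [hg, hg, hg]
      have : f (x * y) t = f x (f y t) := Subtype.ext (by simp [f])
      rw [this]) ((U.subgroupOf T).map π) (by
      intro x u hu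
      obtain ⟨t, rfl⟩ := hπs u
      rw [hg, hUb]
      exact hU x _ ((hUb t).mp hu))
  have hmem : ∀ a, a ∈ (W.comap π).map T.subtype ↔ ∃ h : a ∈ T, π ⟨a, h⟩ ∈ W := by
    intro a
    constructor
    · rintro ⟨t, ht, rfl⟩
      exact ⟨t.2, ht⟩
    · rintro ⟨h, h'⟩
      exact ⟨⟨a, h⟩, h', rfl⟩
  have hNW : N ≤ (W.comap π).map T.subtype := by
    intro n hn
    refine (hmem n).mpr ⟨hUT (hNU hn), ?_⟩
    have : π ⟨n, hUT (hNU hn)⟩ = 1 := (hπ _).mpr hn
    rw [this]
    exact W.one_mem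
  have hWT : (W.comap π).map T.subtype ≤ T := map_subtype_le _
  refine ⟨(W.comap π).map T.subtype, ?_, hNW, hWT, ?_, ?_⟩
  · intro x a ha
    obtain ⟨ha, ha'⟩ := (hmem a).mp ha
    refine (hmem _).mpr ⟨hT x a ha, ?_⟩
    exact hWinv x _ ha'
  · apply le_antisymm
    · rintro a ⟨haU, haW⟩
      obtain ⟨haT, haW⟩ := (hmem a).mp haW
      have h1 : π ⟨a, haT⟩ ∈ (U.subgroupOf T).map π ⊓ W := ⟨(hUb _).mpr haU, haW⟩
      rw [hWbot, Subgroup.mem_bot] at h1
      exact (hπ _).mp h1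
    · exact le_inf hNU hNW
  · apply le_antisymm
    · exact sup_le hUT hWT
    · intro t ht
      have h1 : π ⟨t, ht⟩ ∈ (U.subgroupOf T).map π ⊔ W := by rw [hWtop]; trivial
      obtain ⟨u, hu, w, hw, huw⟩ := Subgroup.mem_sup.mp h1
      obtain ⟨u', rfl⟩ := hπs u
      have h2 : (u' : A) ∈ U := (hUb u').mp hu
      have h3 : (u' : A)⁻¹ * t ∈ (W.comap π).map T.subtype := by
        refine (hmem _).mpr ⟨T.mul_mem (T.inv_mem u'.2) ht, ?_⟩
        have h4 : π ⟨(u' : A)⁻¹ * t, T.mul_mem (T.inv_mem u'.2) ht⟩ = (π u')⁻¹ * π ⟨t, ht⟩ := by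
          rw [← map_inv, ← map_mul]; rfl
        rw [h4, ← huw, inv_mul_cancel_left]
        exact hw
      have h6 : t = (u' : A) * ((u' : A)⁻¹ * t) := by group
      rw [h6]
      exact Subgroup.mul_mem_sup h2 h3

end Cfsg.Agent.Lib.OpMaschke
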