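import Mathlib
import Cfsg.Prelude
import Cfsg.Agent.Lib.Burnside
import Cfsg.Agent.Lib.Cores2
import Cfsg.Agent.Lib.FrobAction2
import Cfsg.Agent.Lib.FpfThree67
import Cfsg.Agent.Lib.PGroupRank
import Cfsg.Agent.Lib.SylowCyc
import Cfsg.Agent.Lib.H32Basic

/-!
(helper67) Finite groups all of whose elements have order 1, 2, 3 or 4 (`S4006`).
-/

set_option autoImplicit false

open Cfsg

namespace Cfsg.Agent.Lib.OrdFour67

open Cfsg.Agent.Lib
open scoped commutatorElement

universe u

variable {G : Type u} [Group G] [Finite G] (hord : ∀ g : G, orderOf g = 1 ∨ orderOf g = 2 ∨ orderOf g = 3 ∨ orderOf g = 4)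
include hord

theorem no_six (g : G) : ¬ 6 ∣ orderOf g := by
  intro h
  have := Nat.le_of_dvd (orderOf_pos g) h
  rcases hord g with h1 | h1 | h1 | h1 <;> omega

theorem no_comm (a b : G) (ha : orderOf a = 2) (hb : orderOf b = 3) : a * b ≠ b * a := by
  intro hab
  have h1 : Commute a b := hab
  have h2 := h1.orderOf_mul_eq_mul_orderOf_of_coprime (by rw [ha, hb]; norm_num)
  rw [ha, hb] at h2
  exact no_six hord _ (by rw [h2])

theorem primes (q : ℕ) (hq : q.Prime) (hqG : q ∣ Nat.card G) : q = 2 ∨ q = 3 := by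
  have : Fact q.Prime := ⟨hq⟩
  obtain ⟨x, hx⟩ := exists_prime_orderOf_dvd_card' (G := G) q hqG
  rcases hord x with h3 | h3 | h3 | h3
  · rw [h3] at hx; exact absurd hx.symm hq.one_lt.ne'
  · left; omega
  · right; omega
  · exfalso
    rw [hx] at h3
    rw [h3] at hq
    exact absurd hq (by norm_num)

theorem card_eq : Nat.card G = 2 ^ (Nat.card G).factorization 2 * 3 ^ (Nat.card G).factorization 3 := by
  conv_lhs => rw [← Nat.prod_factorization_pow_eq_self (n := Nat.card G) Nat.card_pos.ne']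
  rw [Finsupp.prod_of_support_subset (s := {2, 3})]
  · rw [Finset.prod_pair (by norm_num)]
  · intro q hq
    rw [Nat.support_factorization, Nat.mem_primeFactors] at hq
    rcases primes hord q hq.1 hq.2.1 with h1 | h1 <;> simp [h1]
  · intro i _; exact pow_zero i

theorem solvable : Group.IsSolvable G :=
  Burnside.isSolvable_of_card_eq _ 2 3 _ _ Nat.prime_two Nat.prime_three (card_eq hord) rfl

omit [Finite G] in
theorem two_el {P : Subgroup G} (hP : IsPGroup 2 P) {x : G} (hx : x ∈ P) :
    orderOf x = 1 ∨ orderOf x = 2 ∨ orderOf x = 4 := by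
  have : Fact (Nat.Prime 2) := ⟨Nat.prime_two⟩
  obtain ⟨k, hk⟩ := (IsPGroup.iff_orderOf.1 hP) ⟨x, hx⟩
  rw [Subgroup.orderOf_mk] at hk
  rcases hord x with h3 | h3 | h3 | h3
  · exact Or.inl h3
  · exact Or.inr (Or.inl h3)
  · exfalso
    rw [h3] at hk
    have h1 : 3 ∣ 2 ^ k := hk ▸ dvd_rfl
    have h2 := Nat.Prime.dvd_of_dvd_pow Nat.prime_three h1
    norm_num at h2
  · exact Or.inr (Or.inr h3)

omit [Finite G] in
theorem three_el {P : Subgroup G} (hP : IsPGroup 3 P) {x : G} (hx : x ∈ P) :
    orderOf x = 1 ∨ orderOf x = 3 := by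
  have : Fact (Nat.Prime 3) := ⟨Nat.prime_three⟩
  obtain ⟨k, hk⟩ := (IsPGroup.iff_orderOf.1 hP) ⟨x, hx⟩
  rw [Subgroup.orderOf_mk] at hk
  have key : ∀ m : ℕ, 2 ∣ m → orderOf x ≠ m := by
    intro m hm h1
    rw [h1] at hk
    rw [hk] at hm
    have h2 := Nat.Prime.dvd_of_dvd_pow Nat.prime_two hm
    norm_num at h2
  rcases hord x with h3 | h3 | h3 | h3
  · exact Or.inl h3
  · exact absurd h3 (key 2 dvd_rfl)
  · exact Or.inr h3
  · exact absurd h3 (key 4 (by norm_num))

theorem three_el_pow {P : Subgroup G} (hP : IsPGroup 3 P) {x : G} (hx : x ∈ P) : x ^ 3 = 1 := by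
  rcases three_el hord hP hx with h | h
  · rw [orderOf_eq_one_iff.1 h, one_pow]
  · rw [← h]; exact pow_orderOf_eq_one x

theorem two_el_pow {P : Subgroup G} (hP : IsPGroup 2 P) {x : G} (hx : x ∈ P) : x ^ 4 = 1 := by
  rcases two_el hord hP hx with h | h | h
  · rw [orderOf_eq_one_iff.1 h, one_pow]
  · rw [show (4 : ℕ) = 2 * 2 from rfl, pow_mul, ← h, pow_orderOf_eq_one, one_pow]
  · rw [← h]; exact pow_orderOf_eq_one x

/-- an involution inverts every normal `3`-subgroup. -/
theorem inv_of_invol {K : Subgroup G} [hK : K.Normal] (hKp : IsPGroup 3 K) {t : G} (ht : orderOf t = 2) {x : G} (hx : x ∈ K) :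
    t * x * t⁻¹ = x⁻¹ := by
  have htt : t * t = 1 := by rw [← pow_two, ← ht]; exact pow_orderOf_eq_one t
  let φ : K →* K := (MulAut.conjNormal t : MulAut K).toMonoidHom
  have hφ : ∀ y : K, ((φ y : K) : G) = t * y * t⁻¹ := fun y => MulAut.conjNormal_apply t y
  have hfpf : MonoidHom.FixedPointFree φ := by
    intro y hy
    have h1 : t * (y : G) * t⁻¹ = y := by rw [← hφ, hy]
    rcases three_el hord hKp y.2 with h3 | h3
    · exact Subtype.ext (orderOf_eq_one_iff.1 h3)
    · exact absurd (mul_inv_eq_iff_eq_mul.1 h1) (no_comm hord t y ht h3)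
  have hinvol : Function.Involutive φ := by
    intro y
    apply Subtype.ext
    rw [hφ, hφ]
    calc t * (t * (y : G) * t⁻¹) * t⁻¹ = (t * t) * y * (t * t)⁻¹ := by group
      _ = y := by rw [htt]; group
  have h1 := hfpf.coe_eq_inv_of_involutive hinvol
  have h2 := congrFun h1 ⟨x, hx⟩
  have h3 := congrArg Subtype.val h2
  rw [hφ] at h3
  simpa using h3

/-- not both `O_2` and `O_3` are nontrivial. -/
theorem no_both {A B : Subgroup G} [A.Normal] [B.Normal] (hA : IsPGroup 2 A) (hB : IsPGroup 3 B) (hA1 : A ≠ ⊥)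
    (hB1 : B ≠ ⊥) : False := by
  have : Fact (Nat.Prime 2) := ⟨Nat.prime_two⟩
  have : Fact (Nat.Prime 3) := ⟨Nat.prime_three⟩
  have hdisj : Disjoint A B := IsPGroup.disjoint_of_ne 2 3 (by norm_num) A B hA hB
  have hex : ∀ (p : ℕ) (_ : Fact p.Prime) (C : Subgroup G), IsPGroup p C → C ≠ ⊥ → ∃ x ∈ C, orderOf x = p := by
    intro p hp C hC hC1
    have hnt : Nontrivial C := (Subgroup.nontrivial_iff_ne_bot C).2 hC1
    have h1 : p ∣ Nat.card C := by
      obtain ⟨n, hn⟩ := IsPGroup.iff_card.1 hC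
      have h2 : 1 < Nat.card C := Finite.one_lt_card_iff_nontrivial.2 hnt
      have hn0 : n ≠ 0 := by rintro rfl; rw [hn, pow_zero] at h2; omega
      rw [hn]; exact dvd_pow_self p hn0
    obtain ⟨x, hx⟩ := exists_prime_orderOf_dvd_card' p h1
    exact ⟨x, x.2, by rw [Subgroup.orderOf_coe, hx]⟩
  obtain ⟨a, ha, hao⟩ := hex 2 inferInstance A hA hA1
  obtain ⟨b, hb, hbo⟩ := hex 3 inferInstance B hB hB1
  exact no_comm hord a b hao hbo (Subgroup.commute_of_normal_of_disjoint A B inferInstance inferInstance hdisj a b ha hb)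

/-- a `p'`-subgroup is a `q`-group. -/
theorem isPGroup_of_coprime {A : Subgroup G} {p q : ℕ} (hpq : p = 2 ∧ q = 3 ∨ p = 3 ∧ q = 2)
    (hA : (Nat.card A).Coprime p) : IsPGroup q A := by
  have hq : q.Prime := by rcases hpq with h | h <;> rw [h.2] <;> norm_num
  have hp : p.Prime := by rcases hpq with h | h <;> rw [h.1] <;> norm_num
  have : ∀ r : ℕ, r.Prime → r ∣ Nat.card A → r = q := by
    intro r hr hrA
    have h1 := primes hord r hr (hrA.trans (Subgroup.card_subgroup_dvd_card A))
    have h2 : r ≠ p := by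
      rintro rfl
      have := Nat.Coprime.eq_one_of_dvd hA.symm hrA
      exact hr.one_lt.ne' this
    rcases hpq with h | h <;> omega
  exact IsPGroup.of_card (Nat.eq_prime_pow_of_unique_prime_dvd Nat.card_pos.ne' (fun {r} hr hrA => this r hr hrA))

/-- The case `O_3(G) ≠ 1`. -/
theorem case_three (hcore : pPrimeCore 2 G ≠ ⊥) (h4 : ∃ t : G, orderOf t = 4) :
    ∃ (N : Subgroup G) (_ : N.Normal), Cfsg.IsElementaryAbelian 3 N ∧
      ((IsCyclic (G ⧸ N) ∧ N.index = 4) ∨ Nonempty (G ⧸ N ≃* QuaternionGroup 2)) := by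
  classical
  have hf2 : Fact (Nat.Prime 2) := ⟨Nat.prime_two⟩
  have hf3 : Fact (Nat.Prime 3) := ⟨Nat.prime_three⟩
  have hsolv : Group.IsSolvable G := solvable hord
  have hK3 : IsPGroup 3 (pPrimeCore 2 G) :=
    isPGroup_of_coprime hord (Or.inl ⟨rfl, rfl⟩) (Cores.coprime_card_pPrimeCore 2 G)
  have hL2 : IsPGroup 2 (pPrimeCore 3 G) :=
    isPGroup_of_coprime hord (Or.inr ⟨rfl, rfl⟩) (Cores.coprime_card_pPrimeCore 3 G)
  have hcore3 : pPrimeCore 3 G = ⊥ := by
    by_contra h1
    have i1 : (pPrimeCore 2 G).Normal := Cfsg.pPrimeCore_normal 2 G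
    have i2 : (pPrimeCore 3 G).Normal := Cfsg.pPrimeCore_normal 3 G
    exact no_both hord hL2 hK3 h1 hcore
  set N := pCore 3 G with hN
  have hNn : N.Normal := Cfsg.pCore_normal 3 G
  have hNp : IsPGroup 3 N := Cores.isPGroup_pCore 3 G
  have hCN : Subgroup.centralizer (N : Set G) ≤ N := Cores.centralizer_pCore_le hcore3
  have hN1 : N ≠ ⊥ := by
    intro h1
    have h2 : pPrimeCore 2 G ≤ N := Cores.le_pCore (Cfsg.pPrimeCore_normal 2 G) hK3
    rw [h1, le_bot_iff] at h2
    exact hcore h2
  obtain ⟨t4, ht4⟩ := h4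
  set t := t4 ^ 2 with ht
  have hto : orderOf t = 2 := by
    rw [ht, orderOf_pow, ht4]; norm_num
  have hinv : ∀ x ∈ N, t * x * t⁻¹ = x⁻¹ := fun x hx => inv_of_invol hord hNp hto hx
  have hNcomm : ∀ a ∈ N, ∀ b ∈ N, a * b = b * a := by
    intro a ha b hb
    have h1 := hinv (a * b) (mul_mem ha hb)
    have h2 : t * (a * b) * t⁻¹ = (t * a * t⁻¹) * (t * b * t⁻¹) := by group
    rw [h2, hinv a ha, hinv b hb] at h1
    have h3 := congrArg (fun z => z⁻¹) h1
    simp only [mul_inv_rev, inv_inv] at h3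
    exact h3.symm
  have hNel : Cfsg.IsElementaryAbelian 3 N := by
    rw [PGroupRank.isElementaryAbelian_iff]
    exact ⟨hNcomm, fun a ha => three_el_pow hord hNp ha⟩
  -- elements of order three lie in `N`
  have htN : t ∉ N := by
    intro h1
    rcases three_el hord hNp h1 with h2 | h2 <;> omega
  have hthree : ∀ x : G, orderOf x = 3 → x ∈ N := by
    intro x hx
    by_contra hxN
    have hcomm : ((x : G) : G ⧸ N) * (t : G ⧸ N) = (t : G ⧸ N) * (x : G ⧸ N) := by
      rw [← QuotientGroup.mk_mul, ← QuotientGroup.mk_mul, QuotientGroup.eq]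
      apply hCN
      intro v hv
      have h1 : ∀ v ∈ N, t⁻¹ * v * t = v⁻¹ := by
        intro v hv
        have h2 := hinv _ (N.inv_mem hv)
        rw [inv_inv] at h2
        calc t⁻¹ * v * t = t⁻¹ * (t * v⁻¹ * t⁻¹) * t := by rw [h2]
          _ = v⁻¹ := by group
      have h2 : x * v * x⁻¹ ∈ N := hNn.conj_mem v hv x
      have h3 := hinv v hv
      have h5 := h1 _ h2
      -- ((x t)⁻¹ (t x)) v ((x t)⁻¹ (t x))⁻¹ = v
      have h6 : ((x * t)⁻¹ * (t * x)) * v * ((x * t)⁻¹ * (t * x))⁻¹ = v := by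
        calc ((x * t)⁻¹ * (t * x)) * v * ((x * t)⁻¹ * (t * x))⁻¹
            = t⁻¹ * (x⁻¹ * (t * (x * v * x⁻¹) * t⁻¹) * x) * t := by group
          _ = t⁻¹ * (x⁻¹ * (x * v * x⁻¹)⁻¹ * x) * t := by rw [hinv _ h2]
          _ = t⁻¹ * v⁻¹ * t := by group
          _ = v := by rw [h1 _ (N.inv_mem hv), inv_inv]
      exact (mul_inv_eq_iff_eq_mul.1 h6).symm
    have hxo : orderOf (x : G ⧸ N) = 3 := by
      have h1 : orderOf (x : G ⧸ N) ∣ 3 := hx ▸ orderOf_map_dvd (QuotientGroup.mk' N) x
      rcases (Nat.dvd_prime Nat.prime_three).1 h1 with h2 | h2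
      · exact absurd ((QuotientGroup.eq_one_iff x).1 (orderOf_eq_one_iff.1 h2)) hxN
      · exact h2
    have hto' : orderOf (t : G ⧸ N) = 2 := by
      have h1 : orderOf (t : G ⧸ N) ∣ 2 := hto ▸ orderOf_map_dvd (QuotientGroup.mk' N) t
      rcases (Nat.dvd_prime Nat.prime_two).1 h1 with h2 | h2
      · exact absurd ((QuotientGroup.eq_one_iff t).1 (orderOf_eq_one_iff.1 h2)) htN
      · exact h2
    have h1 : Commute (x : G ⧸ N) (t : G ⧸ N) := hcomm
    have h2 := h1.orderOf_mul_eq_mul_orderOf_of_coprime (by rw [hxo, hto']; norm_num)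
    rw [hxo, hto'] at h2
    have h3 : orderOf ((x * t : G) : G ⧸ N) ∣ orderOf (x * t) := orderOf_map_dvd (QuotientGroup.mk' N) (x * t)
    rw [QuotientGroup.mk_mul, h2] at h3
    exact no_six hord _ h3
  obtain ⟨S⟩ : Nonempty (Sylow 3 G) := inferInstance
  obtain ⟨T⟩ : Nonempty (Sylow 2 G) := inferInstance
  have hSN : (S : Subgroup G) = N := by
    apply le_antisymm
    · intro x hx
      rcases three_el hord S.isPGroup' hx with h1 | h1
      · rw [orderOf_eq_one_iff.1 h1]; exact one_mem _
      · exact hthree x h1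
    · exact Cores.pCore_le_sylow S
  have hcardN : Nat.card N = 3 ^ (Nat.card G).factorization 3 := by
    rw [← hSN]; exact S.card_eq_multiplicity
  have hcardT : Nat.card T = 2 ^ (Nat.card G).factorization 2 := T.card_eq_multiplicity
  have hcompl : Subgroup.IsComplement' N (T : Subgroup G) := by
    apply Subgroup.isComplement'_of_coprime
    · have h1 := card_eq hord
      rw [← hcardN] at h1
      have h2 : Nat.card (T : Subgroup G) = 2 ^ (Nat.card G).factorization 2 := hcardT
      rw [h2, mul_comm]; exact h1.symm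
    · rw [hcardN]
      have h2 : Nat.card (T : Subgroup G) = 2 ^ (Nat.card G).factorization 2 := hcardT
      rw [h2]
      exact Nat.Coprime.pow _ _ (by norm_num)
  have hidx : N.index = Nat.card T := hcompl.symm.index_eq_card
  have h4T : 4 ∣ Nat.card T := by
    have h1 : 4 ∣ Nat.card G := ht4 ▸ orderOf_dvd_natCard t4
    rw [card_eq hord] at h1
    rw [hcardT]
    refine Nat.Coprime.dvd_of_dvd_mul_right ?_ h1
    have : (4 : ℕ) = 2 ^ 2 := by norm_num
    rw [this]
    exact Nat.Coprime.pow _ _ (by norm_num)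
  -- fixed-point-free action
  have hTN : (T : Subgroup G) ≤ Subgroup.normalizer (N : Set G) := by
    rw [Subgroup.normalizer_eq_top]; exact le_top
  have hfpf : ∀ a ∈ (T : Subgroup G), a ≠ 1 → N ⊓ Subgroup.centralizer {a} = ⊥ := by
    intro a ha ha1
    rw [eq_bot_iff]
    rintro v ⟨hv, hva⟩
    rw [Subgroup.mem_bot]
    by_contra hv1
    have hvo : orderOf v = 3 := by
      rcases three_el hord hNp hv with h1 | h1
      · exact absurd (orderOf_eq_one_iff.1 h1) hv1
      · exact h1
    have hcomm : Commute a v := (Subgroup.mem_centralizer_singleton_iff.1 hva).symm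
    rcases two_el hord T.isPGroup' ha with h1 | h1 | h1
    · exact ha1 (orderOf_eq_one_iff.1 h1)
    · exact no_comm hord a v h1 hvo hcomm.eq
    · have h2 : orderOf (a ^ 2) = 2 := by rw [orderOf_pow, h1]; norm_num
      exact no_comm hord (a ^ 2) v h2 hvo (hcomm.pow_left 2).eq
  have hf := FrobAction2.isFPF_conjAct hTN hfpf
  let _ : CommGroup N := { (inferInstance : Group N) with
    mul_comm := fun a b => Subtype.ext (hNcomm a a.2 b b.2) }
  have hnt : Nontrivial N := (Subgroup.nontrivial_iff_ne_bot N).2 hN1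
  have e : G ⧸ N ≃* T := hcompl.symm.QuotientMulEquiv
  refine ⟨N, hNn, hNel, ?_⟩
  rcases FrobAction.pgroup_cyclic_or_quaternion hf T.isPGroup' with hc | ⟨-, n, hn, ⟨f⟩⟩
  · left
    refine ⟨isCyclic_of_surjective e.symm e.symm.surjective, ?_⟩
    rw [hidx]
    obtain ⟨g, hg⟩ := IsCyclic.exists_ofOrder_eq_natCard (α := T)
    have h1 := two_el hord T.isPGroup' g.2
    rw [Subgroup.orderOf_coe, hg] at h1
    have h2 : Nat.card (T : Subgroup G) = Nat.card T := rfl
    rcases h1 with h1 | h1 | h1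
    · rw [h2] at h1; rw [h1] at h4T; norm_num at h4T
    · rw [h2] at h1; rw [h1] at h4T; norm_num at h4T
    · exact h1
  · right
    have h1 : orderOf (f.symm (QuaternionGroup.a 1)) = 2 * 2 ^ n := by
      rw [MulEquiv.orderOf_eq, QuaternionGroup.orderOf_a_one]
    have h2 := two_el hord T.isPGroup' (f.symm (QuaternionGroup.a 1)).2
    rw [Subgroup.orderOf_coe, h1] at h2
    have h3 : n = 1 := by
      have h5 : 2 ^ n ≤ 2 := by omega
      have h6 : 2 ^ n ≤ 2 ^ 1 := by simpa using h5
      have := (Nat.pow_le_pow_iff_right (by norm_num)).1 h6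
      omega
    subst h3
    exact ⟨e.trans f⟩

omit hord in
/-- A group of order 6 with `O_2 = 1` is the symmetric group of degree 3. -/
theorem equiv_perm_three {H : Type u} [Group H] [Finite H] (hcard : Nat.card H = 6) (h : pCore 2 H = ⊥) :
    Nonempty (H ≃* Equiv.Perm (Fin 3)) := by
  classical
  have hf2 : Fact (Nat.Prime 2) := ⟨Nat.prime_two⟩
  obtain ⟨P⟩ : Nonempty (Sylow 2 H) := inferInstance
  have hP : Nat.card P = 2 := by
    rw [P.card_eq_multiplicity, hcard]
    have : (6 : ℕ).factorization 2 = 1 := by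
      rw [show (6 : ℕ) = 2 * 3 from rfl, Nat.factorization_mul (by norm_num) (by norm_num), Finsupp.add_apply,
        Nat.Prime.factorization_self Nat.prime_two, Nat.factorization_eq_zero_of_not_dvd (by norm_num)]
    rw [this, pow_one]
  have hidx : Nat.card (H ⧸ (P : Subgroup H)) = 3 := by
    have h1 := Subgroup.card_eq_card_quotient_mul_card_subgroup (P : Subgroup H)
    rw [hcard] at h1
    have h2 : Nat.card (P : Subgroup H) = 2 := hP
    rw [h2] at h1
    omega
  let f := MulAction.toPermHom H (H ⧸ (P : Subgroup H))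
  have hker : f.ker = ⊥ := by
    rw [← Subgroup.normalCore_eq_ker, eq_bot_iff, ← h]
    apply Cores.le_pCore (Subgroup.normalCore_normal _)
    exact P.isPGroup'.to_le (Subgroup.normalCore_le _)
  have hinj : Function.Injective f := (MonoidHom.ker_eq_bot_iff f).1 hker
  have hfin : Finite (H ⧸ (P : Subgroup H)) := inferInstance
  have hcardP : Nat.card (Equiv.Perm (H ⧸ (P : Subgroup H))) = 6 := by
    rw [Nat.card_perm, hidx]; rfl
  have hbij : Function.Bijective f := by
    refine (Nat.bijective_iff_injective_and_card f).2 ⟨hinj, ?_⟩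
    rw [hcard, hcardP]
  let e1 : H ≃* Equiv.Perm (H ⧸ (P : Subgroup H)) := MulEquiv.ofBijective f hbij
  let e2 : (H ⧸ (P : Subgroup H)) ≃ Fin 3 := Finite.equivFinOfCardEq hidx
  exact ⟨e1.trans e2.permCongrHom⟩

/-- The case `O_3(G) = 1`. -/
theorem case_two (hcore : pPrimeCore 2 G = ⊥) (h3 : ∃ r : G, orderOf r = 3) (h4 : ∃ t : G, orderOf t = 4) :
    ∃ (N : Subgroup G) (_ : N.Normal),
      (IsPGroup 2 ↥N ∧ Monoid.exponent ↥N = 4 ∧ Group.nilpotencyClass ↥N ≤ 2 ∧ N.index = 3) ∨
      (Cfsg.IsElementaryAbelian 2 N ∧ Nonempty (G ⧸ N ≃* Equiv.Perm (Fin 3))) := by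
  classical
  have hf2 : Fact (Nat.Prime 2) := ⟨Nat.prime_two⟩
  have hf3 : Fact (Nat.Prime 3) := ⟨Nat.prime_three⟩
  have hsolv : Group.IsSolvable G := solvable hord
  obtain ⟨r, hr⟩ := h3
  obtain ⟨t4, ht4⟩ := h4
  set N := pCore 2 G with hN
  have hNn : N.Normal := Cfsg.pCore_normal 2 G
  have hNp : IsPGroup 2 N := Cores.isPGroup_pCore 2 G
  have hCN : Subgroup.centralizer (N : Set G) ≤ N := Cores.centralizer_pCore_le hcore
  have hr3 : r ^ 3 = 1 := by rw [← hr]; exact pow_orderOf_eq_one r
  have hr3' : r * r * r = 1 := by rw [← pow_three', hr3]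
  have hr1 : r ≠ 1 := by rintro rfl; rw [orderOf_one] at hr; norm_num at hr
  have hrN : r ∉ N := by
    intro h1
    rcases two_el hord hNp h1 with h2 | h2 | h2 <;> omega
  have hN1 : N ≠ ⊥ := by
    intro h1
    rw [h1] at hCN
    have h2 : r ∈ (⊥ : Subgroup G) := hCN (by
      rw [Subgroup.mem_centralizer_iff]
      intro x hx
      rw [Subgroup.coe_bot, Set.mem_singleton_iff] at hx
      rw [hx, one_mul, mul_one])
    exact hr1 (Subgroup.mem_bot.1 h2)
  -- no nontrivial element of `N` commutes with an element of order three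
  have hfree : ∀ s : G, orderOf s = 3 → ∀ v ∈ N, s * v = v * s → v = 1 := by
    intro s hs v hv hsv
    have hcomm : Commute v s := hsv.symm
    rcases two_el hord hNp hv with h1 | h1 | h1
    · exact orderOf_eq_one_iff.1 h1
    · exact absurd hcomm.eq (no_comm hord v s h1 hs)
    · have h2 : orderOf (v ^ 2) = 2 := by rw [orderOf_pow, h1]; norm_num
      exact absurd (hcomm.pow_left 2).eq (no_comm hord (v ^ 2) s h2 hs)
  -- the automorphism of order three
  let φ : MulAut N := MulAut.conjNormal r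
  have hφ : ∀ y : N, ((φ y : N) : G) = r * y * r⁻¹ := fun y => MulAut.conjNormal_apply r y
  have hφ3 : ∀ y, φ (φ (φ y)) = y := by
    intro y
    apply Subtype.ext
    rw [hφ, hφ, hφ]
    calc r * (r * (r * (y : G) * r⁻¹) * r⁻¹) * r⁻¹ = (r * r * r) * y * (r * r * r)⁻¹ := by group
      _ = y := by rw [hr3']; group
  have hφf : ∀ y, φ y = y → y = 1 := by
    intro y hy
    apply Subtype.ext
    apply hfree r hr y y.2
    have := congrArg Subtype.val hy
    rw [hφ] at this
    exact mul_inv_eq_iff_eq_mul.1 this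
  have hN4 : ∀ y : N, y ^ 4 = 1 := fun y => Subtype.ext (two_el_pow hord hNp y.2)
  have hNc : ∀ a b : N, ⁅a, b⁆ ∈ Subgroup.center N := FpfThree67.comm_mem_center hφ3 hφf
  -- the Sylow 3-subgroup has order three
  obtain ⟨R⟩ : Nonempty (Sylow 3 G) := inferInstance
  have hRcard : Nat.card (R : Subgroup G) = 3 := by
    have hcn : Nontrivial N := (Subgroup.nontrivial_iff_ne_bot N).2 hN1
    have hcn' : Nontrivial (Subgroup.center N) := hNp.center_nontrivial
    set V : Subgroup G := (Subgroup.center N).map N.subtype with hV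
    have hVn : V.Normal := Cores.normal_map_subtype_of_characteristic (Subgroup.center N)
    have hVN : V ≤ N := Subgroup.map_subtype_le _
    have hVcomm : ∀ a b : V, a * b = b * a := by
      rintro ⟨_, a, ha, rfl⟩ ⟨_, b, hb, rfl⟩
      apply Subtype.ext
      have h := congrArg (fun z : N => (z : G)) (Subgroup.mem_center_iff.1 hb a)
      exact h
    let _ : CommGroup V := { (inferInstance : Group V) with mul_comm := hVcomm }
    have hVnt : Nontrivial V := by
      rw [Subgroup.nontrivial_iff_ne_bot, hV, Ne, Subgroup.map_eq_bot_iff_of_injective _ N.subtype_injective]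
      exact (Subgroup.nontrivial_iff_ne_bot _).1 hcn'
    have hRV : (R : Subgroup G) ≤ Subgroup.normalizer (V : Set G) := by
      rw [Subgroup.normalizer_eq_top]; exact le_top
    have hf := FrobAction2.isFPF_conjAct hRV (by
      intro a ha ha1
      rw [eq_bot_iff]
      rintro v ⟨hv, hva⟩
      rw [Subgroup.mem_bot]
      have hao : orderOf a = 3 := by
        rcases three_el hord R.isPGroup' ha with h1 | h1
        · exact absurd (orderOf_eq_one_iff.1 h1) ha1
        · exact h1
      exact hfree a hao v (hVN hv) (Subgroup.mem_centralizer_singleton_iff.1 hva).symm)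
    rcases FrobAction.pgroup_cyclic_or_quaternion hf R.isPGroup' with hc | ⟨h1, -⟩
    · obtain ⟨g, hg⟩ := IsCyclic.exists_ofOrder_eq_natCard (α := (R : Subgroup G))
      have h1 := three_el hord R.isPGroup' g.2
      rw [Subgroup.orderOf_coe, hg] at h1
      rcases h1 with h1 | h1
      · exfalso
        have h3G : 3 ∣ Nat.card G := by rw [← hr]; exact orderOf_dvd_natCard r
        have h3R : Nat.card (R : Subgroup G) = 3 ^ (Nat.card G).factorization 3 := R.card_eq_multiplicity
        have : (3 : ℕ) ^ 1 ∣ 3 ^ (Nat.card G).factorization 3 := by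
          apply pow_dvd_pow
          exact (Nat.Prime.pow_dvd_iff_le_factorization Nat.prime_three Nat.card_pos.ne').1 (by rwa [pow_one])
        rw [← h3R, h1] at this
        norm_num at this
      · exact h1
    · norm_num at h1
  have hf3G : 3 ^ (Nat.card G).factorization 3 = 3 := by
    have : Nat.card (R : Subgroup G) = 3 ^ (Nat.card G).factorization 3 := R.card_eq_multiplicity
    rw [← this, hRcard]
  -- the quotient
  set Q := G ⧸ N with hQ
  obtain ⟨nn, hnn⟩ := IsPGroup.iff_card.1 hNp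
  have hcardQ : Nat.card Q * 2 ^ nn = 2 ^ (Nat.card G).factorization 2 * 3 := by
    have h1 := Subgroup.card_eq_card_quotient_mul_card_subgroup N
    rw [hnn] at h1
    rw [← h1]
    conv_lhs => rw [card_eq hord, hf3G]
  have hQdvd : ∀ q : ℕ, q.Prime → q ∣ Nat.card Q → q = 2 ∨ q = 3 := by
    intro q hq hqQ
    apply primes hord q hq
    rw [Subgroup.card_eq_card_quotient_mul_card_subgroup N]
    exact Dvd.dvd.mul_right hqQ _
  have h9Q : ¬ 9 ∣ Nat.card Q := by
    intro h9
    have h1 : 9 ∣ 2 ^ (Nat.card G).factorization 2 * 3 := by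
      rw [← hcardQ]; exact Dvd.dvd.mul_right h9 _
    have h2 : 3 * 3 ∣ 2 ^ (Nat.card G).factorization 2 * 3 := h1
    have h5 := Nat.dvd_of_mul_dvd_mul_right (by norm_num) h2
    have := Nat.Prime.dvd_of_dvd_pow Nat.prime_three h5
    norm_num at this
  have hcoreQ2 : pCore 2 Q = ⊥ := Cores.pCore_quotient_pCore 2 G
  have hcoreQ3 : pPrimeCore 3 Q = ⊥ := by
    rw [eq_bot_iff, ← hcoreQ2]
    apply Cores.le_pCore (Cfsg.pPrimeCore_normal 3 Q)
    have hc := Cores.coprime_card_pPrimeCore 3 Q
    refine IsPGroup.of_card (Nat.eq_prime_pow_of_unique_prime_dvd Nat.card_pos.ne' (fun {q} hq hqd => ?_))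
    rcases hQdvd q hq (hqd.trans (Subgroup.card_subgroup_dvd_card _)) with h1 | h1
    · exact h1
    · exfalso
      rw [h1] at hqd
      have := Nat.Coprime.eq_one_of_dvd hc.symm hqd
      norm_num at this
  set K := pCore 3 Q with hK
  have hKp : IsPGroup 3 K := Cores.isPGroup_pCore 3 Q
  have hKn : K.Normal := Cfsg.pCore_normal 3 Q
  have hCK : Subgroup.centralizer (K : Set Q) ≤ K := Cores.centralizer_pCore_le hcoreQ3
  have hrQ : (r : Q) ≠ 1 := fun h => hrN ((QuotientGroup.eq_one_iff r).1 h)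
  have hKcard : Nat.card K = 3 := by
    obtain ⟨k, hk⟩ := IsPGroup.iff_card.1 hKp
    have hk1 : k ≤ 1 := by
      by_contra hk2
      apply h9Q
      have h1 : (3 : ℕ) ^ 2 ∣ Nat.card K := by rw [hk]; exact pow_dvd_pow 3 (by omega)
      exact h1.trans (Subgroup.card_subgroup_dvd_card K)
    have hk0 : k ≠ 0 := by
      rintro rfl
      rw [pow_zero] at hk
      have h1 : K = ⊥ := Subgroup.card_eq_one.1 hk
      rw [h1] at hCK
      have h2 : (r : Q) ∈ (⊥ : Subgroup Q) := hCK (by
        rw [Subgroup.mem_centralizer_iff]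
        intro x hx
        rw [Subgroup.coe_bot, Set.mem_singleton_iff] at hx
        rw [hx, one_mul, mul_one])
      exact hrQ (Subgroup.mem_bot.1 h2)
    have : k = 1 := by omega
    rw [hk, this, pow_one]
  have hidxC : (Subgroup.centralizer (K : Set Q)).index ∣ 2 := by
    have h1 : (MulAut.conjNormal (H := K) : Q →* MulAut K).ker = Subgroup.centralizer (K : Set Q) := by
      ext x
      rw [MonoidHom.mem_ker, Subgroup.mem_centralizer_iff]
      constructor
      · intro h y hy
        have h2 := DFunLike.congr_fun h ⟨y, hy⟩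
        have h5 := congrArg Subtype.val h2
        rw [MulAut.conjNormal_apply] at h5
        exact (mul_inv_eq_iff_eq_mul.1 h5).symm
      · intro h
        ext y
        rw [MulAut.conjNormal_apply, MulAut.one_apply, mul_inv_eq_iff_eq_mul]
        exact (h y y.2).symm
    rw [← h1, Subgroup.index_ker]
    have hcyc : IsCyclic K := isCyclic_of_prime_card (p := 3) hKcard
    have h2 : Nat.card (MulAut K) = 2 := by
      rw [IsCyclic.card_mulAut, hKcard]; rfl
    rw [← h2]
    exact Subgroup.card_subgroup_dvd_card _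
  have hcardQ6 : Nat.card Q ∣ 2 * 3 := by
    rw [← Subgroup.index_mul_card (Subgroup.centralizer (K : Set Q))]
    refine Nat.mul_dvd_mul hidxC ?_
    rw [← hKcard]
    exact Subgroup.card_dvd_of_le hCK
  have h3Q : 3 ∣ Nat.card Q := by rw [← hKcard]; exact Subgroup.card_subgroup_dvd_card K
  obtain ⟨m, hm⟩ := h3Q
  have hm2 : m ∣ 2 := by
    rw [hm, mul_comm] at hcardQ6
    exact Nat.dvd_of_mul_dvd_mul_right (by norm_num) hcardQ6
  have hidxN : N.index = Nat.card Q := rfl
  refine ⟨N, hNn, ?_⟩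
  rcases (Nat.dvd_prime Nat.prime_two).1 hm2 with hm1 | hm1
  · -- index three
    left
    rw [hm1, mul_one] at hm
    refine ⟨hNp, ?_, ?_, by rw [hidxN, hm]⟩
    · apply Nat.dvd_antisymm
      · exact Monoid.exponent_dvd_of_forall_pow_eq_one hN4
      · have ht4N : t4 ∈ N := by
          rw [← QuotientGroup.eq_one_iff, ← orderOf_eq_one_iff]
          have h1 : orderOf (t4 : G ⧸ N) ∣ 4 := ht4 ▸ orderOf_map_dvd (QuotientGroup.mk' N) t4
          have h2 : orderOf (t4 : G ⧸ N) ∣ 3 := hm ▸ orderOf_dvd_natCard _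
          exact Nat.eq_one_of_dvd_coprimes (by norm_num : Nat.Coprime 4 3) h1 h2
        have h1 := Monoid.order_dvd_exponent (⟨t4, ht4N⟩ : N)
        rwa [Subgroup.orderOf_mk, ht4] at h1
    · have hnil : Group.IsNilpotent N := hNp.isNilpotent
      rw [← Subgroup.lowerCentralSeries_eq_bot_iff_nilpotencyClass_le]
      rw [eq_bot_iff]
      show ⁅(⊤ : Subgroup N).lowerCentralSeries 1, (⊤ : Subgroup N)⁆ ≤ ⊥
      have h1 : (⊤ : Subgroup N).lowerCentralSeries 1 ≤ Subgroup.center N := by
        show ⁅(⊤ : Subgroup N).lowerCentralSeries 0, (⊤ : Subgroup N)⁆ ≤ Subgroup.center N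
        rw [Subgroup.commutator_le]
        intro a _ b _
        exact hNc a b
      rw [Subgroup.commutator_le]
      intro a ha b _
      rw [Subgroup.mem_bot, commutatorElement_eq_one_iff_mul_comm]
      exact (Subgroup.mem_center_iff.1 (h1 ha) b).symm
  · -- index six
    right
    rw [hm1] at hm
    refine ⟨?_, equiv_perm_three hm hcoreQ2⟩
    -- find an involution inverting `r`
    have hrK : (r : Q) ∈ K := by
      -- `⟨r̄⟩ K` is a 3-group
      have h1 : IsPGroup 3 (Subgroup.zpowers (r : Q)) := by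
        have h2 : orderOf (r : Q) ∣ 3 := hr ▸ orderOf_map_dvd (QuotientGroup.mk' N) r
        obtain ⟨j, -, hj⟩ := (Nat.dvd_prime_pow Nat.prime_three).1 (show orderOf (r : Q) ∣ 3 ^ 1 by simpa using h2)
        exact IsPGroup.of_card (n := j) (by rw [Nat.card_zpowers, hj])
      have h2 : IsPGroup 3 (Subgroup.zpowers (r : Q) ⊔ K : Subgroup Q) :=
        h1.to_sup_of_normal_right' hKp (by rw [Subgroup.normalizer_eq_top]; exact le_top)
      obtain ⟨k, hk⟩ := IsPGroup.iff_card.1 h2
      have h5 : Nat.card (Subgroup.zpowers (r : Q) ⊔ K : Subgroup Q) ∣ 6 := by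
        have := Subgroup.card_subgroup_dvd_card (Subgroup.zpowers (r : Q) ⊔ K : Subgroup Q)
        rwa [hm] at this
      have hk1 : k ≤ 1 := by
        by_contra hk2
        rw [hk] at h5
        have h6 : (3 : ℕ) ^ 2 ∣ 6 := (pow_dvd_pow 3 (by omega)).trans h5
        norm_num at h6
      have h6 : K = Subgroup.zpowers (r : Q) ⊔ K := by
        apply Subgroup.eq_of_le_of_card_ge le_sup_right
        rw [hKcard, hk]
        calc 3 ^ k ≤ 3 ^ 1 := Nat.pow_le_pow_right (by norm_num) hk1
          _ = 3 := by norm_num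
      rw [h6]
      exact Subgroup.mem_sup_left (Subgroup.mem_zpowers _)
    have hrQo : orderOf (r : Q) = 3 := by
      have h2 : orderOf (r : Q) ∣ 3 := hr ▸ orderOf_map_dvd (QuotientGroup.mk' N) r
      rcases (Nat.dvd_prime Nat.prime_three).1 h2 with h5 | h5
      · exact absurd (orderOf_eq_one_iff.1 h5) hrQ
      · exact h5
    have hKr : K = Subgroup.zpowers (r : Q) := by
      symm
      apply Subgroup.eq_of_le_of_card_ge
      · rw [Subgroup.zpowers_le]; exact hrK
      · rw [hKcard, Nat.card_zpowers, hrQo]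
    -- an element outside `K`
    have hKtop : K ≠ ⊤ := by
      intro h1
      rw [h1, Subgroup.card_top, hm] at hKcard
      norm_num at hKcard
    obtain ⟨s, -, hsK⟩ := SetLike.exists_of_lt (lt_top_iff_ne_top.2 hKtop)
    obtain ⟨s, rfl⟩ := QuotientGroup.mk_surjective s
    have h3N : ¬ 3 ∣ Nat.card N := by
      intro h1
      rw [hnn] at h1
      have := Nat.Prime.dvd_of_dvd_pow Nat.prime_three h1
      norm_num at this
    obtain ⟨h, hhK, hh⟩ := SylowCyc.exists_mul_mem_normalizer N 3 Nat.prime_three h3N (x := r) (g := s) (k := 1)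
      (by rw [hr, pow_one]) (by
        rw [← hKr, QuotientGroup.mk_mul, QuotientGroup.mk_mul, QuotientGroup.mk_inv]
        exact hKn.conj_mem _ hrK _)
    set t := h * s with ht
    have htK : (t : Q) ∉ K := by
      intro h1
      apply hsK
      rw [ht, QuotientGroup.mk_mul] at h1
      rw [← hKr] at hhK
      exact (Subgroup.mul_mem_cancel_left K hhK).1 h1
    have htC : ∀ s : G, (s : Q) ∉ K → s * r * s⁻¹ ≠ r := by
      intro s hsK hs
      apply hsK
      apply hCK
      rw [hKr, Subgroup.mem_centralizer_iff]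
      intro y hy
      obtain ⟨j, rfl⟩ := Subgroup.mem_zpowers_iff.1 hy
      have h1 : Commute (s : Q) (r : Q) := by
        show (s : Q) * (r : Q) = (r : Q) * (s : Q)
        rw [← QuotientGroup.mk_mul, ← QuotientGroup.mk_mul, mul_inv_eq_iff_eq_mul.1 hs]
      exact ((h1.zpow_right j).eq).symm
    have htr : t * r * t⁻¹ = r⁻¹ := by
      have h1 : ∀ y ∈ Subgroup.zpowers r, y = 1 ∨ y = r ∨ y = r⁻¹ := by
        intro y hy
        obtain ⟨j, rfl⟩ := Subgroup.mem_zpowers_iff.1 hy
        have h2 := zpow_mod_orderOf r j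
        rw [hr] at h2
        rw [← h2]
        have h5 : j % ((3 : ℕ) : ℤ) = 0 ∨ j % ((3 : ℕ) : ℤ) = 1 ∨ j % ((3 : ℕ) : ℤ) = 2 := by omega
        rcases h5 with h6 | h6 | h6 <;> rw [h6]
        · left; simp
        · right; left; simp
        · right; right
          rw [eq_inv_iff_mul_eq_one]
          calc r ^ (2 : ℤ) * r = r ^ 3 := by group
            _ = 1 := hr3
      rcases h1 _ hh with h2 | h2 | h2
      · exfalso
        apply hr1
        have : r = t⁻¹ * (t * r * t⁻¹) * t := by group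
        rw [this, h2]; group
      · exact absurd h2 (htC t htK)
      · exact h2
    -- `t` is an involution
    have ht2r : Commute (t ^ 2) r := by
      show t ^ 2 * r = r * t ^ 2
      have h1 : t * r = r⁻¹ * t := mul_inv_eq_iff_eq_mul.1 htr
      have h2 : t * r⁻¹ = r * t := by
        have := congrArg (fun z => z⁻¹) htr
        simp only [mul_inv_rev, inv_inv] at this
        have h5 : t * (r⁻¹ * t⁻¹) = r := this
        calc t * r⁻¹ = t * (r⁻¹ * t⁻¹) * t := by group
          _ = r * t := by rw [h5]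
      calc t ^ 2 * r = t * (t * r) := by rw [pow_two]; group
        _ = t * r⁻¹ * t := by rw [h1]; group
        _ = r * t ^ 2 := by rw [h2, pow_two]; group
    have hto : orderOf t = 2 := by
      rcases hord t with h1 | h1 | h1 | h1
      · exfalso
        rw [orderOf_eq_one_iff.1 h1] at htK
        exact htK (one_mem K)
      · exact h1
      · exfalso
        have h2 : t ^ 3 = 1 := by rw [← h1]; exact pow_orderOf_eq_one t
        have h5 : t = t ^ 2 * t ^ 2 := by
          calc t = t * 1 := by group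
            _ = t * t ^ 3 := by rw [h2]
            _ = _ := by group
        have h6 : Commute t r := by rw [h5]; exact ht2r.mul_left ht2r
        exact htC t htK (mul_inv_eq_iff_eq_mul.2 h6.eq)
      · exfalso
        have h2 : orderOf (t ^ 2) = 2 := by rw [orderOf_pow, h1]; norm_num
        exact no_comm hord (t ^ 2) r h2 hr ht2r.eq
    have htt : t * t = 1 := by rw [← pow_two, ← hto]; exact pow_orderOf_eq_one t
    -- conjugation by involutions outside `K`
    have hfour : ∀ s : G, s * s = 1 → (s : Q) ∉ K → ∀ v ∈ N, (v * (s * v * s⁻¹)) ^ 2 = 1 := by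
      intro s hss hsK v hv
      have h1 : (v * s) ^ 4 = 1 := by
        rcases hord (v * s) with h2 | h2 | h2 | h2
        · rw [orderOf_eq_one_iff.1 h2, one_pow]
        · rw [show (4 : ℕ) = 2 * 2 from rfl, pow_mul, ← h2, pow_orderOf_eq_one, one_pow]
        · exfalso
          apply hsK
          have h5 : orderOf ((v * s : G) : Q) ∣ 3 := h2 ▸ orderOf_map_dvd (QuotientGroup.mk' N) (v * s)
          have h6 : ((v * s : G) : Q) = (s : Q) := by
            rw [QuotientGroup.mk_mul, (QuotientGroup.eq_one_iff v).2 hv, one_mul]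
          rw [h6] at h5
          have h7 : orderOf (s : Q) ∣ 2 := by
            apply orderOf_dvd_of_pow_eq_one
            rw [pow_two, ← QuotientGroup.mk_mul, hss]; rfl
          have h8 := Nat.eq_one_of_dvd_coprimes (by norm_num : Nat.Coprime 3 2) h5 h7
          rw [orderOf_eq_one_iff.1 h8]
          exact one_mem K
        · rw [← h2]; exact pow_orderOf_eq_one _
      have hsi : s⁻¹ = s := inv_eq_of_mul_eq_one_right hss
      have h2 : v * (s * v * s⁻¹) = (v * s) ^ 2 := by rw [hsi, pow_two]; group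
      rw [h2, ← pow_mul]; exact h1
    let τ : MulAut N := MulAut.conjNormal t
    have hτ : ∀ y : N, ((τ y : N) : G) = t * y * t⁻¹ := fun y => MulAut.conjNormal_apply t y
    have hτφ : ∀ y, τ (φ y) = φ (φ (τ y)) := by
      intro y
      apply Subtype.ext
      rw [hτ, hφ, hφ, hφ, hτ]
      have h1 : t * r = r⁻¹ * t := mul_inv_eq_iff_eq_mul.1 htr
      have h2 : r * r = r⁻¹ := by
        rw [eq_inv_iff_mul_eq_one]; exact hr3'
      calc t * (r * (y : G) * r⁻¹) * t⁻¹ = (t * r) * y * (t * r)⁻¹ := by group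
        _ = (r⁻¹ * t) * y * (r⁻¹ * t)⁻¹ := by rw [h1]
        _ = ((r * r) * t) * y * ((r * r) * t)⁻¹ := by rw [h2]
        _ = _ := by group
    have hres := FpfThree67.elementary_of_s3 (τ := τ) hφ3 hφf hτφ hN4 (by
      intro v
      apply Subtype.ext
      rw [Subgroup.coe_pow, Subgroup.coe_mul, hτ]
      exact hfour t htt htK v v.2) (by
      intro v
      apply Subtype.ext
      rw [Subgroup.coe_pow, Subgroup.coe_mul, hτ, hφ]
      have h1 : t * (r * (v : G) * r⁻¹) * t⁻¹ = (t * r) * v * (t * r)⁻¹ := by group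
      rw [h1]
      apply hfour (t * r) _ _ v v.2
      · have h2 : t * r = r⁻¹ * t := mul_inv_eq_iff_eq_mul.1 htr
        calc t * r * (t * r) = (r⁻¹ * t) * (t * r) := by rw [h2]
          _ = r⁻¹ * (t * t) * r := by group
          _ = 1 := by rw [htt]; group
      · intro h2
        apply htK
        rw [QuotientGroup.mk_mul] at h2
        exact (Subgroup.mul_mem_cancel_right K hrK).1 h2)
    rw [PGroupRank.isElementaryAbelian_iff]
    refine ⟨fun a ha b hb => ?_, fun a ha => ?_⟩
    · exact congrArg Subtype.val (hres.1 ⟨a, ha⟩ ⟨b, hb⟩)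
    · exact congrArg Subtype.val (hres.2 ⟨a, ha⟩)

end Cfsg.Agent.Lib.OrdFour67
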