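import Mathlib
import Cfsg.Agent.Lib.OrthEv67

/-!
(helper67) Involutions in orthogonal groups of characteristic two: the answers.
-/

set_option autoImplicit false
set_option linter.unusedSectionVars false

namespace Cfsg.Agent.Lib.OrthR67

open QuadraticMap Module Cfsg.Agent.Lib.Quad Cfsg.Agent.Lib.QuadD67 Cfsg.Agent.Lib.QuadEmb67
open Cfsg.Agent.Lib.InvSub Cfsg.Agent.Lib.PrimeOrd Cfsg.Agent.Lib.OReal67

universe u v w

section evb
variable {F : Type u} [Field F] [Finite F]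
variable {V : Type v} [AddCommGroup V] [Module F V] [FiniteDimensional F V] {Q : QuadraticForm F V}
variable {V₀ : Type w} [AddCommGroup V₀] [Module F V₀] [FiniteDimensional F V₀] {Q₀ : QuadraticForm F V₀}

theorem mov_eq_SW (h2 : (2 : F) = 0) {g : V ≃ₗ[F] V} (hgg : ∀ v, g (g v) = v) : mov g = SW g.toLinearMap ⊤ := by
  rw [← map_of_sqz (sqz_two h2 (T := g.toLinearMap) hgg)]
  ext x
  constructor
  · rintro ⟨w, rfl⟩
    exact ⟨w, trivial, rfl⟩
  · rintro ⟨w, -, rfl⟩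
    exact ⟨w, rfl⟩

/-- unpacking the hypotheses on an involution -/
theorem ev_unpack (h2 : (2 : F) = 0) (hQ : Nd Q) (hgen : GenHyp Q) (hn : 0 < finrank F V) {g : V ≃ₗ[F] V} (hg : g ∈ Om Q)
    (hz : ∃ z : F, ∀ v, (g ^ 2) v = z • v) : (∀ v, g (g v) = v) ∧ ∃ k, finrank F (SW g.toLinearMap ⊤) = 2 * k := by
  obtain ⟨z, hz⟩ := hz
  have hz1 : z = 1 := by
    rcases pm_scal hQ hn (Om_le hg) hz with h | h
    · exact h
    · rw [h]
      linear_combination -h2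
  have hgg : ∀ v, g (g v) = v := by
    intro v
    have := hz v
    rw [hz1, one_smul, pow_two] at this
    exact this
  have hpar := ((mem_Om_iff_homs hQ hgen ⟨g, Om_le hg⟩).1 hg).1
  have hev : Even (finrank F (mov g)) := sgn_eq_one_iff.1 hpar
  rw [mov_eq_SW h2 hgg] at hev
  obtain ⟨k, hk⟩ := hev
  exact ⟨hgg, k, by omega⟩

theorem tt_of_UP {s : ℕ} {T : Module.End F V} (h : UP 2 Q s T) (v : V) : T (T v) = v := by
  have h1 := LinearMap.congr_fun h.pow v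
  rw [pow_two] at h1
  exact h1

theorem ev_plus [CharP F 2] (hQ : Nd Q) (hQ₀ : Nd Q₀) (hgen : GenHyp Q) {d M : ℕ} (hd : 2 ≤ d) (hV : finrank F V = 2 * d)
    (hD : D Q = (Nat.card F : ℤ) ^ d) (hM : M < d) (hV₀ : finrank F V₀ = 2 * M) (hD₀ : D Q₀ = (Nat.card F : ℤ) ^ M) :
    (∀ g ∈ Om Q, (∃ z : F, ∀ v, (g ^ 2) v = z • v) → (∀ z : F, ∃ v, g v ≠ z • v) → ∃ W, Cl Q Q₀ W ∧ Inv g.toLinearMap W) ↔
      (Odd d ∨ Even M) := by
  have h2 : (2 : F) = 0 := CharTwo.two_eq_zero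
  haveI : Fact (Nat.Prime 2) := ⟨Nat.prime_two⟩
  constructor
  · intro H
    by_contra hcon
    push Not at hcon
    obtain ⟨h3, h4⟩ := hcon
    obtain ⟨k, hk⟩ := Nat.not_odd_iff_even.1 h3
    obtain ⟨T, hT, hs⟩ := exists_UP_sq (p := 2) hQ (k := k) (Or.inr ⟨by omega, by rw [hD]; congr 1; omega⟩)
    obtain ⟨g, hg, hgT, h5, h6⟩ := om_of_UP hQ hgen (by omega) hT hs
    obtain ⟨W, hcl, hW⟩ := H g hg h5 h6
    rw [hgT] at hW
    have hWnd := hcl.nd hQ₀
    have hWm := hcl.finrank hQ₀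
    obtain ⟨g1, g2, g3⟩ := perp_data hQ hWnd
    have hW' : Inv T (pp Q W) := (iso_bq hT.iso).inv_perp (nd_top hQ) hW
    have e1 := SW_split hT.iso hQ hW hWnd
    have e2 := SW_half hT.iso hW hWnd
    have e3 := SW_half hT.iso hW' g1
    rw [hT.fr] at e1
    have e4 := a_even h2 hQ hT.iso (tt_of_UP hT) _ W rfl hW hWnd (fun z hz => hT.ts _ (mem_SW.2 ⟨⟨z, trivial, rfl⟩, hs z⟩))
    apply h4
    rwa [show finrank F (SW T W) = M by omega] at e4
  · intro H g hg hz hnz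
    obtain ⟨hgg, k, hk⟩ := ev_unpack h2 hQ hgen (by omega) hg hz
    have hiso : ∀ v, Q (g.toLinearMap v) = Q v := Om_le hg
    have e2 := SW_half hiso (W := ⊤) (fun _ _ => trivial) (nd_top hQ)
    rw [finrank_top] at e2
    obtain ⟨W, -, w2, w3, w4, w5⟩ := ev_fix h2 hQ hiso hgg k d M ⊤ (fun _ _ => trivial) (nd_top hQ) (by rw [finrank_top, hV]) hk (Or.inl hM) (by
      rcases H with ⟨j, hj⟩ | h
      · exact Or.inr (Or.inr (Or.inr ⟨by omega, by rw [D_top, hD]⟩))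
      · exact Or.inl h)
    exact ⟨W, (cl_iff_D hQ₀ hV₀).2 ⟨w4, w3, by rw [w5, hD₀]⟩, w2⟩

theorem ev_minus [CharP F 2] (hQ : Nd Q) (hQ₀ : Nd Q₀) (hgen : GenHyp Q) {d M : ℕ} (hd : 2 ≤ d) (hV : finrank F V = 2 * d)
    (hD : D Q = -(Nat.card F : ℤ) ^ d) (hM1 : 1 ≤ M) (hM : M < d) (hV₀ : finrank F V₀ = 2 * M) (hD₀ : D Q₀ = -(Nat.card F : ℤ) ^ M) :
    (∀ g ∈ Om Q, (∃ z : F, ∀ v, (g ^ 2) v = z • v) → (∀ z : F, ∃ v, g v ≠ z • v) → ∃ W, Cl Q Q₀ W ∧ Inv g.toLinearMap W) ↔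
      (Even d ∨ Odd M) := by
  have h2 : (2 : F) = 0 := CharTwo.two_eq_zero
  haveI : Fact (Nat.Prime 2) := ⟨Nat.prime_two⟩
  have hcard : (0 : ℤ) < (Nat.card F : ℤ) := by exact_mod_cast Nat.card_pos
  constructor
  · intro H
    by_contra hcon
    push Not at hcon
    obtain ⟨h3, h4⟩ := hcon
    obtain ⟨k, hk⟩ := Nat.not_even_iff_odd.1 h3
    obtain ⟨j, hj⟩ := Nat.not_odd_iff_even.1 h4
    obtain ⟨T, hT, hs⟩ := exists_UP_sq (p := 2) hQ (k := k) (Or.inl (by omega))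
    obtain ⟨g, hg, hgT, h5, h6⟩ := om_of_UP hQ hgen (by omega) hT hs
    obtain ⟨W, hcl, hW⟩ := H g hg h5 h6
    rw [hgT] at hW
    have hWnd := hcl.nd hQ₀
    have hWm := hcl.finrank hQ₀
    obtain ⟨g1, g2, g3⟩ := perp_data hQ hWnd
    have hW' : Inv T (pp Q W) := (iso_bq hT.iso).inv_perp (nd_top hQ) hW
    have e1 := SW_split hT.iso hQ hW hWnd
    have e2 := SW_half hT.iso hW hWnd
    have e3 := SW_half hT.iso hW' g1
    rw [hT.fr] at e1
    obtain ⟨j1, e4⟩ := a_even h2 hQ hT.iso (tt_of_UP hT) _ W rfl hW hWnd (fun z hz => hT.ts _ (mem_SW.2 ⟨⟨z, trivial, rfl⟩, hs z⟩))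
    obtain ⟨j2, e5⟩ := a_even h2 hQ hT.iso (tt_of_UP hT) _ (pp Q W) rfl hW' g1 (fun z hz => hT.ts _ (mem_SW.2 ⟨⟨z, trivial, rfl⟩, hs z⟩))
    have e6 := D_of_SW hT.ts hW hWnd (M := M) (by omega) (by omega)
    rw [hcl.D hQ₀, hD₀] at e6
    have h7 := pow_pos hcard M
    linarith
  · intro H g hg hz hnz
    obtain ⟨hgg, k, hk⟩ := ev_unpack h2 hQ hgen (by omega) hg hz
    have hiso : ∀ v, Q (g.toLinearMap v) = Q v := Om_le hg
    have hs := sqz_two h2 (T := g.toLinearMap) hgg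
    have e2 := SW_half hiso (W := ⊤) (fun _ _ => trivial) (nd_top hQ)
    rw [finrank_top] at e2
    obtain ⟨W, -, w2, w3, w4, w5⟩ := ev_fix h2 hQ hiso hgg k d (d - M) ⊤ (fun _ _ => trivial) (nd_top hQ) (by rw [finrank_top, hV]) hk
      (Or.inl (by omega)) (by
      by_cases hc : ∃ z ∈ (⊤ : Submodule F V), Q (g.toLinearMap z - z) ≠ 0
      · exact Or.inr (Or.inl hc)
      · push Not at hc
        rcases Nat.even_or_odd (d - M) with h3 | ⟨j, hj⟩
        · exact Or.inl h3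
        · right; right; left
          have hde : Even d := by
            rcases H with h | ⟨j', hj'⟩
            · exact h
            · exact ⟨j + j' + 1, by omega⟩
          obtain ⟨j2, hj2⟩ := hde
          have h4 : 2 * k ≠ d := by
            intro h4
            have h5 := D_of_SW' (Q := Q) (W := ⊤) (M := d) (fun _ _ => trivial) (nd_top hQ) (by
              intro x hx
              obtain ⟨⟨w, hw, rfl⟩, -⟩ := mem_SW.1 hx
              exact hc w hw) (by rw [finrank_top, hV]) (by rw [hk, h4])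
            rw [D_top, hD] at h5
            have h7 := pow_pos hcard d
            linarith
          omega)
    obtain ⟨g1, g2, g3⟩ := perp_data hQ w3
    have h5 := D_perp hQ w3 ⟨d - M, by omega⟩ ⟨d, by omega⟩
    rw [hD, w5] at h5
    refine ⟨pp Q W, (cl_iff_D hQ₀ hV₀).2 ⟨by omega, g1, ?_⟩, (iso_bq hiso).inv_perp (nd_top hQ) w2⟩
    rw [hD₀]
    have h6 := pow_pos hcard (d - M)
    have h7 : (Nat.card F : ℤ) ^ d = (Nat.card F : ℤ) ^ (d - M) * (Nat.card F : ℤ) ^ M := by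
      rw [← pow_add]; congr 1; omega
    apply mul_left_cancel₀ h6.ne'
    rw [← h5, h7]; ring

end evb

end Cfsg.Agent.Lib.OrthR67
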