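import Mathlib
import Cfsg.Agent.Lib.OrthExtH94
import Cfsg.Agent.Lib.OrthNd

set_option autoImplicit false
set_option linter.unusedSectionVars false
set_option linter.unusedVariables false

/-!
Overgroups in `Om Q` of the normaliser of a quadratic extension field (unitary structure), dimension at least 10.
-/

namespace Cfsg.Agent.Lib.OrthExtH94

open QuadraticMap Module Cfsg.Agent.Lib.Quad Cfsg.Agent.Lib.OrthMax Cfsg.Agent.Lib.OrthPoint Cfsg.Agent.Lib.OrthNd

variable {F V : Type*} [Field F] [AddCommGroup V] [Module F V] [FiniteDimensional F V]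
  {Q : QuadraticForm F V} {M : Subgroup (V ≃ₗ[F] V)}

/-- totally singular subspaces -/
theorem ts_le (hQ : Nd Q) {C : Submodule F V} (hC : ∀ c ∈ C, Q c = 0) : 2 * finrank F C ≤ finrank F V := by
  have h1 : C ≤ perp Q C := by
    intro x hx
    rw [mem_perp]
    intro y hy
    have h := Q_add Q y x
    rw [hC _ (C.add_mem hy hx), hC y hy, hC x hx] at h
    linear_combination -h
  have h2 := hQ.finrank_add_finrank_perp C
  have h3 := Submodule.finrank_mono h1
  omega

/-- nonsingular vectors -/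
theorem exists_ns (hQ : Nd Q) {C : Submodule F V} (h : finrank F V < 2 * finrank F C) : ∃ c ∈ C, Q c ≠ 0 := by
  by_contra hcon
  push Not at hcon
  have := ts_le hQ hcon
  omega

namespace KS
variable {κ : V →ₗ[F] V} {T N : F} (k : KS Q κ T N)
include k

/-- products of vectors in a `K`-line -/
theorem exists_prod [Finite F] {z : V} (hz : Q z ≠ 0) (c : F) : ∃ w₁ ∈ Submodule.span F {z, κ z}, ∃ w₂ ∈ Submodule.span F {z, κ z},
    polar Q w₁ w₂ = c := by
  have hz1 : z ∈ Submodule.span F {z, κ z} := Submodule.subset_span (by simp)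
  have hz2 : κ z ∈ Submodule.span F {z, κ z} := Submodule.subset_span (by simp)
  by_cases hT : T = 0
  · have h2 : (2 : F) ≠ 0 := by
      intro h2
      have hch : CharP F 2 := CharTwo.of_one_ne_zero_of_two_eq_zero one_ne_zero h2
      obtain ⟨n, hn⟩ := isSquare_of_charTwo N
      have := k.irr 1 n (by rw [hT, hn]; linear_combination (n * n) * h2)
      exact one_ne_zero this
    refine ⟨z, hz1, (c * (2 * Q z)⁻¹) • z, Submodule.smul_mem _ _ hz1, ?_⟩
    rw [polar_smul_right, polar_self', smul_eq_mul, mul_assoc, inv_mul_cancel₀ (mul_ne_zero h2 hz), mul_one]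
  · refine ⟨z, hz1, (c * (T * Q z)⁻¹) • κ z, Submodule.smul_mem _ _ hz2, ?_⟩
    rw [polar_smul_right, k.pk, smul_eq_mul, mul_assoc, inv_mul_cancel₀ (mul_ne_zero hT hz), mul_one]

/-- the centre `v` on a singular `K`-line -/
theorem SI_line [Finite F] (hQ : Nd Q) (hn : 10 ≤ finrank F V) (hM : M ≤ O Q)
    (hS : ∀ u, Q u = 0 → ∀ c : F, SI Q M u (c • κ u)) {v y : V}
    (hv : Q v = 0) (hy1 : polar Q v y = 0) (hy2 : polar Q (κ v) y = 0)
    (hyv : y ∉ Submodule.span F {v, κ v}) (hQy : Q y = 0) (h : SI Q M v y) :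
    ∀ t ∈ Submodule.span F {y, κ y}, SI Q M v t := by
  obtain ⟨W, hW⟩ : ∃ W, W = Submodule.span F {v, κ v} := ⟨_, rfl⟩
  rw [← hW] at hyv
  have hvW : v ∈ W := by rw [hW]; exact Submodule.subset_span (by simp)
  have hκvW : κ v ∈ W := by rw [hW]; exact Submodule.subset_span (by simp)
  have hyW : y ∈ perp Q W := by
    rw [hW, mem_perp_span]
    rintro w (rfl | rfl)
    · exact hy1
    · exact hy2
  obtain ⟨s', hs', hys'⟩ := hQ.exists_polar_one W hyv
  obtain ⟨s₀, hs₀⟩ : ∃ s₀, s₀ = s' - Q s' • y := ⟨_, rfl⟩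
  obtain ⟨hQs, hys⟩ := adjust_singular hQy hys'
  rw [← hs₀] at hQs hys
  have hsW : s₀ ∈ perp Q W := by rw [hs₀]; exact Submodule.sub_mem _ hs' (Submodule.smul_mem _ _ hyW)
  have hsy : polar Q s₀ y = 1 := by rw [polar_comm]; exact hys
  have hsv : polar Q s₀ v = 0 := mem_perp'.1 hsW v hvW
  have hsκv : polar Q s₀ (κ v) = 0 := mem_perp'.1 hsW _ hκvW
  have hκsv : polar Q (κ s₀) v = 0 := by rw [k.adj, hsv, hsκv]; ring
  -- a nonsingular vector
  obtain ⟨P, hP⟩ : ∃ P, P = perp Q (W ⊔ Submodule.span F {y, κ y}) := ⟨_, rfl⟩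
  have hPd : finrank F V ≤ finrank F P + 4 := by
    have h1 := finrank_sup_le W (Submodule.span F {y, κ y})
    have h2 : finrank F W ≤ 2 := by rw [hW]; exact finrank_pair_le (F := F) v (κ v)
    have h3 := finrank_pair_le (F := F) y (κ y)
    have h4 := hQ.finrank_add_finrank_perp (W ⊔ Submodule.span F {y, κ y})
    rw [hP]
    omega
  obtain ⟨z, hz, hQz⟩ := exists_ns hQ (C := P) (by omega)
  rw [hP] at hz
  have hz' := mem_perp'.1 hz
  have hzv : polar Q z v = 0 := hz' v (Submodule.mem_sup_left hvW)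
  have hzκv : polar Q z (κ v) = 0 := hz' _ (Submodule.mem_sup_left hκvW)
  have hκzv : polar Q (κ z) v = 0 := by rw [k.adj, hzv, hzκv]; ring
  have hzy : polar Q z y = 0 := hz' y (Submodule.mem_sup_right (Submodule.subset_span (by simp)))
  have hzκy : polar Q z (κ y) = 0 := hz' _ (Submodule.mem_sup_right (Submodule.subset_span (by simp)))
  have hκzy : polar Q (κ z) y = 0 := by rw [k.adj, hzy, hzκy]; ring
  obtain ⟨hy3, hy4⟩ := k.perp_symm hy1 hy2
  have hyκy : polar Q y (κ y) = 0 := by rw [k.pk, hQy, mul_zero]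
  have hκyy : polar Q (κ y) y = 0 := by rw [polar_comm]; exact hyκy
  have hyy : polar Q y y = 0 := by rw [polar_self', hQy, mul_zero]
  obtain ⟨b, hb⟩ : ∃ b, b = polar Q (κ s₀) y := ⟨_, rfl⟩
  obtain ⟨L, hL⟩ : ∃ L : V →ₗ[F] V, ∀ x, L x = κ x - b • x := ⟨κ - b • LinearMap.id, fun x => rfl⟩
  -- the basic family
  have hfam : ∀ w ∈ Submodule.span F {z, κ z}, ∀ t ∈ Submodule.span F {y, κ y}, Q (s₀ + w + t) = 0 →
      SI Q M v (L (s₀ + w + t)) ∧ polar Q v (L (s₀ + w + t)) = 0 := by
    intro w hw t ht hQ0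
    have w1 := k.polar_line hzv hκzv hw
    have w2 := k.polar_line hzy hκzy hw
    have t1 := k.polar_line hy3 hy4 ht
    have t2 := k.polar_line hyy hκyy ht
    have e1 : polar Q (s₀ + w + t) v = 0 := by
      rw [polar_add_left, polar_add_left, hsv, w1.1, t1.1]; ring
    have e2 : polar Q (κ (s₀ + w + t)) v = 0 := by
      rw [map_add, map_add, polar_add_left, polar_add_left, hκsv, w1.2, t1.2]; ring
    have e3 : polar Q (s₀ + w + t) y = 1 := by
      rw [polar_add_left, polar_add_left, hsy, w2.1, t2.1]; ring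
    have e4 : polar Q (κ (s₀ + w + t)) y = b := by
      rw [map_add, map_add, polar_add_left, polar_add_left, w2.2, t2.2, ← hb]; ring
    have h1 := k.SI_step hM hS (s := s₀ + w + t) hv hQ0 e1 e2 hy1 h
    rw [e3, e4, one_smul, ← hL] at h1
    refine ⟨h1, ?_⟩
    rw [hL, polar_sub_right, polar_smul_right, polar_comm, e2, polar_comm, e1, smul_zero, sub_zero]
  -- multiples by `L`
  have hLt : ∀ t ∈ Submodule.span F {y, κ y}, SI Q M v (L t) := by
    intro t ht
    obtain ⟨w₁, hw₁, w₂, hw₂, hww⟩ := k.exists_prod hQz (polar Q s₀ t)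
    have hyl : y ∈ Submodule.span F {y, κ y} := Submodule.subset_span (by simp)
    obtain ⟨t₁, ht₁⟩ : ∃ t₁, t₁ = (-(Q w₁ + polar Q s₀ w₁)) • y := ⟨_, rfl⟩
    obtain ⟨t₂, ht₂⟩ : ∃ t₂, t₂ = (-(Q w₂ + polar Q s₀ w₂)) • y := ⟨_, rfl⟩
    have ht₁m : t₁ ∈ Submodule.span F {y, κ y} := by rw [ht₁]; exact Submodule.smul_mem _ _ hyl
    have ht₂m : t₂ ∈ Submodule.span F {y, κ y} := by rw [ht₂]; exact Submodule.smul_mem _ _ hyl
    have hs1 : polar Q s₀ t₁ = -(Q w₁ + polar Q s₀ w₁) := by rw [ht₁, polar_smul_right, hsy, smul_eq_mul, mul_one]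
    have hs2 : polar Q s₀ t₂ = -(Q w₂ + polar Q s₀ w₂) := by rw [ht₂, polar_smul_right, hsy, smul_eq_mul, mul_one]
    have hQs' : ∀ w ∈ Submodule.span F {z, κ z}, ∀ t ∈ Submodule.span F {y, κ y},
        Q (s₀ + w + t) = Q w + polar Q s₀ w + polar Q s₀ t := by
      intro w hw t ht
      have w2 := k.polar_line hzy hκzy hw
      have hwκy : polar Q w (κ y) = 0 := by
        have := k.adj w y
        rw [w2.1, w2.2] at this
        linear_combination this
      have hwt : polar Q w t = 0 := by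
        obtain ⟨α, β, rfl⟩ := Submodule.mem_span_pair.1 ht
        rw [polar_add_right, polar_smul_right, polar_smul_right, w2.1, hwκy]; simp
      rw [Q_add, Q_add, polar_add_left, hwt, k.sing_line hQy ht, hQs]; ring
    have ht₃m : t₁ + t₂ - t ∈ Submodule.span F {y, κ y} := Submodule.sub_mem _ (Submodule.add_mem _ ht₁m ht₂m) ht
    obtain ⟨a1, c1⟩ := hfam w₁ hw₁ t₁ ht₁m (by rw [hQs' w₁ hw₁ t₁ ht₁m, hs1]; ring)
    obtain ⟨a2, c2⟩ := hfam w₂ hw₂ t₂ ht₂m (by rw [hQs' w₂ hw₂ t₂ ht₂m, hs2]; ring)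
    obtain ⟨a3, c3⟩ := hfam (w₁ + w₂) (Submodule.add_mem _ hw₁ hw₂) (t₁ + t₂ - t) ht₃m (by
      rw [hQs' _ (Submodule.add_mem _ hw₁ hw₂) _ ht₃m, Q_add, hww, polar_add_right, polar_sub_right, polar_add_right,
        hs1, hs2]; ring)
    obtain ⟨a0, c0⟩ := hfam 0 (Submodule.zero_mem _) 0 (Submodule.zero_mem _) (by rw [add_zero, add_zero]; exact hQs)
    have h5 := (a1.add hv c1 c2 a2).sub hv (by rw [polar_add_right, c1, c2, add_zero]) (by
      rw [polar_add_right, c3, c0, add_zero]) (a3.add hv c3 c0 a0)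
    convert h5 using 1
    simp only [map_add, map_sub, map_zero]
    abel
  intro t ht
  have hD : b * b - b * T + N ≠ 0 := by
    intro h0
    exact one_ne_zero (k.irr 1 (-b) (by linear_combination h0))
  have h2 := hLt ((b * b - b * T + N)⁻¹ • ((T - b) • t - κ t))
    (Submodule.smul_mem _ _ (Submodule.sub_mem _ (Submodule.smul_mem _ _ ht) (k.inv_span y t ht)))
  convert h2 using 1
  rw [hL]
  simp only [map_smul, map_sub, k.sq]
  have e : (b * b - b * T + N)⁻¹ * (b * b - b * T + N) = 1 := inv_mul_cancel₀ hD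
  have e2 : t = ((b * b - b * T + N)⁻¹ * (b * b - b * T + N)) • t := by rw [e, one_smul]
  conv_lhs => rw [e2]
  module

/-- the centre `v` is full on the `K`-orthogonal -/
theorem SI_perp' [Finite F] (hQ : Nd Q) (hn : 10 ≤ finrank F V) (hM : M ≤ O Q)
    (hS : ∀ u, Q u = 0 → ∀ c : F, SI Q M u (c • κ u)) {v y : V}
    (hv : Q v = 0) (hy1 : polar Q v y = 0) (hy2 : polar Q (κ v) y = 0)
    (hyv : y ∉ Submodule.span F {v, κ v}) (h : SI Q M v y) :
    ∀ r, polar Q v r = 0 → polar Q (κ v) r = 0 → SI Q M v r := by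
  obtain ⟨Wv, hWv⟩ : ∃ W, W = Submodule.span F {v, κ v} := ⟨_, rfl⟩
  rw [← hWv] at hyv
  have hvm : v ∈ Wv := by rw [hWv]; exact Submodule.subset_span (by simp)
  have hκvm : κ v ∈ Wv := by rw [hWv]; exact Submodule.subset_span (by simp)
  have hWi : ∀ w ∈ Wv, κ w ∈ Wv := by rw [hWv]; exact k.inv_span v
  obtain ⟨s, hQs, hsW, hsy, -, -⟩ := exists_sing_gen hQ Wv ⊥ hyv hyv 3 (by
    have h1 := finrank_sup_le Wv (Submodule.span F {y, y})
    have h3 : finrank F Wv ≤ 2 := by rw [hWv]; exact finrank_pair_le (F := F) v (κ v)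
    have h5 : finrank F (Submodule.span F ({y, y} : Set V)) ≤ 1 := by
      rw [Set.pair_eq_singleton]
      have := finrank_span_le_card (R := F) ({y} : Set V)
      simpa using this
    omega) (by omega) (by rw [finrank_bot]; omega)
  have hsv : polar Q s v = 0 := by rw [polar_comm]; exact hsW v hvm
  have hsκv : polar Q s (κ v) = 0 := by rw [polar_comm]; exact hsW _ hκvm
  have hκsv : polar Q (κ s) v = 0 := by rw [k.adj, hsv, hsκv]; ring
  obtain ⟨u₂, hu₂⟩ : ∃ u, u = polar Q s y • κ s - polar Q (κ s) y • s := ⟨_, rfl⟩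
  have hu₂m : u₂ ∈ Submodule.span F {s, κ s} := by
    rw [hu₂]
    exact Submodule.sub_mem _ (Submodule.smul_mem _ _ (Submodule.subset_span (by simp)))
      (Submodule.smul_mem _ _ (Submodule.subset_span (by simp)))
  have hSI := k.SI_step hM hS (s := s) hv hQs hsv hκsv hy1 h
  rw [← hu₂] at hSI
  have hQu₂ : Q u₂ = 0 := k.sing_line hQs hu₂m
  obtain ⟨hu₂v, hκu₂v⟩ := k.polar_line hsv hκsv hu₂m
  have hu₂κv : polar Q u₂ (κ v) = 0 := by
    have := k.adj u₂ v
    rw [hu₂v, hκu₂v] at this
    linear_combination this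
  have hu₂W : u₂ ∉ Wv := by
    intro hmem
    have h3 : s ∈ Wv := by
      apply k.mem_of_comb hWi (a := polar Q s y) (b := -polar Q (κ s) y)
      · rw [neg_smul, ← sub_eq_add_neg, ← hu₂]; exact hmem
      · rintro ⟨h4, -⟩; exact hsy h4
    apply hsy
    rw [hWv] at h3
    exact (k.polar_line hy1 hy2 h3).1
  obtain ⟨L₂, hL₂⟩ : ∃ L, L = Submodule.span F {u₂, κ u₂} := ⟨_, rfl⟩
  have hL : ∀ t ∈ L₂, SI Q M v t := by
    rw [hL₂]
    exact k.SI_line hQ hn hM hS hv (by rw [polar_comm]; exact hu₂v) (by rw [polar_comm]; exact hu₂κv)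
      (by rw [← hWv]; exact hu₂W) hQu₂ hSI
  -- singular vectors
  have hR : ∀ r ∈ perp Q Wv, polar Q v r = 0 := fun r hr => mem_perp.1 hr v hvm
  obtain ⟨z, hz, hu₂z⟩ := hQ.exists_polar_one Wv (v := u₂) hu₂W
  have hall := all_of_sing (Q := Q) (R := perp Q Wv) (P := fun y => SI Q M v y)
    (fun x hx y hy h1 h2 => h1.add hv (hR x hx) (hR y hy) h2)
    (u := u₂) (z := z) (by
      rw [hWv, mem_perp_span]
      rintro w (rfl | rfl)
      · rw [polar_comm]; exact hu₂v
      · rw [polar_comm]; exact hu₂κv) hQu₂ hz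
    (by rw [hu₂z]; exact one_ne_zero)
    (fun c => hL _ (L₂.smul_mem _ (by rw [hL₂]; exact Submodule.subset_span (by simp)))) (by
      intro x hx hQx hux
      have hxv : polar Q x v = 0 := by rw [polar_comm]; exact hR x hx
      have hxκv : polar Q x (κ v) = 0 := by rw [polar_comm]; exact mem_perp.1 hx _ hκvm
      have hκxv : polar Q (κ x) v = 0 := by rw [k.adj, hxv, hxκv]; ring
      set a := polar Q x u₂ with ha
      set b := polar Q (κ x) u₂ with hb
      have ha0 : a ≠ 0 := by rw [ha, polar_comm]; exact hux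
      have hD : b * b - a * b * T + a * a * N ≠ 0 := by
        intro h0
        exact ha0 (k.irr a (-b) (by linear_combination h0))
      have e1 : polar Q x (κ u₂) = T * a - b := by
        have := k.adj x u₂
        rw [← ha, ← hb] at this
        linear_combination this
      have e2 : polar Q (κ x) (κ u₂) = N * a := by rw [k.polar_kk]
      have ht : (b * b - a * b * T + a * a * N)⁻¹ • ((T * a - b) • u₂ - a • κ u₂) ∈ L₂ := by
        rw [hL₂]
        exact Submodule.smul_mem _ _ (Submodule.sub_mem _ (Submodule.smul_mem _ _ (Submodule.subset_span (by simp)))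
          (Submodule.smul_mem _ _ (Submodule.subset_span (by simp))))
      have h3 := k.SI_step hM hS (s := x) hv hQx hxv hκxv (by
        rw [polar_comm]; rw [hL₂] at ht; exact (k.polar_line hu₂v hκu₂v ht).1) (hL _ ht)
      have e3 : polar Q x ((b * b - a * b * T + a * a * N)⁻¹ • ((T * a - b) • u₂ - a • κ u₂)) = 0 := by
        rw [polar_smul_right, polar_sub_right, polar_smul_right, polar_smul_right, e1, ← ha]
        simp only [smul_eq_mul]; ring
      have e4 : polar Q (κ x) ((b * b - a * b * T + a * a * N)⁻¹ • ((T * a - b) • u₂ - a • κ u₂)) = -1 := by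
        rw [polar_smul_right, polar_sub_right, polar_smul_right, polar_smul_right, e2, ← hb]
        simp only [smul_eq_mul]
        rw [show (T * a - b) * b - a * (N * a) = -(b * b - a * b * T + a * a * N) by ring, mul_neg,
          inv_mul_cancel₀ hD]
      rw [e3, e4, zero_smul, zero_sub, neg_smul, one_smul, neg_neg] at h3
      exact h3)
    (fun x hx h1 => h1.neg hv (hR x hx))
  intro r h1 h2
  apply hall r
  rw [hWv, mem_perp_span]
  rintro w (rfl | rfl)
  · exact h1
  · exact h2

theorem full_of' [Finite F] (hQ : Nd Q) (hn : 10 ≤ finrank F V) (hM : M ≤ O Q)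
    (hS : ∀ u, Q u = 0 → ∀ c : F, SI Q M u (c • κ u)) {g : V ≃ₗ[F] V} (hg : g ∈ M) {a' b' : V}
    (hgx : ∀ w, g w = w + polar Q a' w • b' - polar Q b' w • a') {v : V}
    (hv : Q v = 0) (h1 : polar Q a' v = 0) (h2 : polar Q b' v = 0)
    (hy : polar Q a' (κ v) • b' - polar Q b' (κ v) • a' ∉ Submodule.span F {v, κ v}) : Full Q M v := by
  obtain ⟨y, hyd⟩ : ∃ y, y = polar Q a' (κ v) • b' - polar Q b' (κ v) • a' := ⟨_, rfl⟩
  rw [← hyd] at hy
  have hgv : g v = v := by rw [hgx, h1, h2]; simp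
  have hgκ : g (κ v) = κ v + y := by rw [hgx, hyd]; abel
  have hvκ : polar Q v (κ v) = 0 := by rw [k.pk, hv, mul_zero]
  have hy1 : polar Q v y = 0 := by
    rw [hyd, polar_sub_right, polar_smul_right, polar_smul_right, polar_comm Q v b', h2,
      polar_comm Q v a', h1]; simp
  have hy2 : polar Q (κ v) y = 0 := by
    rw [hyd, polar_sub_right, polar_smul_right, polar_smul_right, polar_comm Q (κ v) b',
      polar_comm Q (κ v) a']; simp only [smul_eq_mul]; ring
  have h3 := hS v hv 1
  rw [one_smul] at h3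
  have h4 := h3.map hg (hM hg)
  rw [hgv, hgκ] at h4
  have h5 := h4.sub hv (by rw [polar_add_right, hvκ, hy1, add_zero]) hvκ h3
  rw [add_sub_cancel_left] at h5
  have hR := k.SI_perp' hQ hn hM hS hv hy1 hy2 hy h5
  obtain ⟨r, hr, hyr⟩ := hQ.exists_polar_one _ hy
  have hvr : polar Q v r = 0 := mem_perp.1 hr v (Submodule.subset_span (by simp))
  have hκvr : polar Q (κ v) r = 0 := mem_perp.1 hr (κ v) (Submodule.subset_span (by simp))
  have hvgr : polar Q v (g r) = 0 := by
    rw [← hgv, O_polar (hM hg)]; exact hvr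
  have hκgr : polar Q (κ v) (g r) = -1 := by
    rw [hgx, polar_sub_right, polar_add_right, polar_smul_right, polar_smul_right, hκvr, ← hyr, hyd,
      polar_sub_left, polar_smul_left, polar_smul_left, polar_comm Q (κ v) b', polar_comm Q (κ v) a']
    simp only [smul_eq_mul]; ring
  refine ⟨hv, fun t ht => ?_⟩
  have h6 := (hR (polar Q (κ v) t • r) (by rw [polar_smul_right, hvr, smul_zero])
    (by rw [polar_smul_right, hκvr, smul_zero])).map hg (hM hg)
  rw [hgv, LinearEquiv.map_smul] at h6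
  have h7 := hR (t + polar Q (κ v) t • g r) (by rw [polar_add_right, ht, polar_smul_right, hvgr]; simp)
    (by rw [polar_add_right, polar_smul_right, hκgr]; simp)
  have h8 := h7.sub hv (by rw [polar_add_right, ht, polar_smul_right, hvgr]; simp)
    (by rw [polar_smul_right, hvgr, smul_zero]) h6
  rwa [add_sub_cancel_right] at h8

theorem exists_moved' [Finite F] (hQ : Nd Q) (hn : 10 ≤ finrank F V) {g : V ≃ₗ[F] V}
    (hgN : ¬ Nrm κ g) : ∃ v, Q v = 0 ∧ v ≠ 0 ∧ g (κ v) ∉ Submodule.span F {g v, κ (g v)} := by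
  by_contra hcon
  push Not at hcon
  apply hgN
  have key1 : ∀ v w, Q v = 0 → v ≠ 0 → Q w = 0 → w ∉ Submodule.span F {v, κ v} → polar Q v w = 0 →
      polar Q (κ v) w = 0 → ∀ α β : F, g (κ v) = α • g v + β • κ (g v) →
      g (κ w) = α • g w + β • κ (g w) := by
    intro v w hv hv0 hw hwv h1 h2 α β hαβ
    have hw0 : w ≠ 0 := by rintro rfl; exact hwv (Submodule.zero_mem _)
    have hvw : v + w ≠ 0 := by
      intro h0
      apply hwv
      rw [show w = -v by rw [← sub_eq_zero]; rw [← h0]; abel]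
      exact Submodule.neg_mem _ (Submodule.subset_span (by simp))
    obtain ⟨α₁, β₁, h3⟩ := Submodule.mem_span_pair.1 (hcon w hw hw0)
    obtain ⟨α₂, β₂, h4⟩ := Submodule.mem_span_pair.1 (hcon (v + w) (by rw [Q_add, hv, hw, h1]; ring) hvw)
    have hgv0 : g v ≠ 0 := by simpa using hv0
    have hβ : β ≠ 0 := by
      rintro rfl
      rw [zero_smul, add_zero, ← LinearEquiv.map_smul] at hαβ
      have h5 := g.injective hαβ
      have h6 := (k.inj (a := 1) (b := -α) (x := v) (by rw [h5]; module) hv0).1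
      exact one_ne_zero h6
    have h5 : (β₂ - β₁) • κ (g w) + (α₂ - α₁) • g w =
        -((β₂ - β) • κ (g v) + (α₂ - α) • g v) := by
      simp only [map_add] at h4
      rw [hαβ, ← h3] at h4
      have : α₂ • (g v + g w) + β₂ • (κ (g v) + κ (g w)) -
        (α • g v + β • κ (g v) + (α₁ • g w + β₁ • κ (g w))) = 0 := by rw [h4, sub_self]
      rw [← sub_eq_zero, ← this]; module
    have h6 : β₂ - β₁ = 0 ∧ α₂ - α₁ = 0 := by
      by_contra hne
      have h7 : g w ∈ Submodule.span F {g v, κ (g v)} := by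
        apply k.mem_of_comb (k.inv_span (g v)) (a := β₂ - β₁) (b := α₂ - α₁) _ hne
        rw [h5]
        exact Submodule.neg_mem _ (Submodule.add_mem _
          (Submodule.smul_mem _ _ (Submodule.subset_span (by simp)))
          (Submodule.smul_mem _ _ (Submodule.subset_span (by simp))))
      obtain ⟨c, d, h8⟩ := Submodule.mem_span_pair.1 h7
      apply hwv
      rw [Submodule.mem_span_pair]
      refine ⟨c - d * β⁻¹ * α, d * β⁻¹, ?_⟩
      apply g.injective
      rw [map_add, LinearEquiv.map_smul, LinearEquiv.map_smul, hαβ, ← h8, smul_add, smul_smul,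
        smul_smul, mul_assoc d, mul_assoc (d) , inv_mul_cancel₀ hβ, mul_one]
      module
    rw [h6.1, h6.2, zero_smul, zero_smul, add_zero, zero_eq_neg] at h5
    obtain ⟨h7, h8⟩ := k.inj h5 hgv0
    have e1 : α₁ = α := by linear_combination h8 - h6.2
    have e2 : β₁ = β := by linear_combination h7 - h6.1
    rw [← h3, e1, e2]
  obtain ⟨v₀, hv₀, hQv₀⟩ := hQ.exists_singular (by omega)
  obtain ⟨α, β, h0⟩ := Submodule.mem_span_pair.1 (hcon v₀ hQv₀ hv₀)
  have key2 : ∀ w, Q w = 0 → g (κ w) = α • g w + β • κ (g w) := by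
    intro w hw
    by_cases hw0 : w = 0
    · rw [hw0]; simp
    -- a connecting vector
    have conn : ∀ u, Q u = 0 → u ≠ 0 → u ∉ Submodule.span F {v₀, κ v₀} → w ∉ Submodule.span F {u, κ u} →
        polar Q v₀ u = 0 → polar Q (κ v₀) u = 0 → polar Q w u = 0 → polar Q (κ w) u = 0 →
        g (κ w) = α • g w + β • κ (g w) := by
      intro u hQu hu0 hu hw' h1 h2 h3 h4
      have h5 := key1 v₀ u hQv₀ hv₀ hQu hu h1 h2 α β h0.symm
      obtain ⟨h6, h7⟩ := k.perp_symm h3 h4
      exact key1 u w hQu hu0 hw hw' h6 h7 α β h5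
    by_cases hperp : polar Q v₀ w = 0 ∧ polar Q (κ v₀) w = 0
    · by_cases hwv : w ∈ Submodule.span F {v₀, κ v₀}
      · obtain ⟨W, hW⟩ : ∃ W, W = Submodule.span F {v₀, κ v₀} := ⟨_, rfl⟩
        have hWd : finrank F W ≤ 2 := by rw [hW]; exact finrank_pair_le (F := F) v₀ (κ v₀)
        have hp := hQ.finrank_add_finrank_perp W
        obtain ⟨u, hu, huW, hQu⟩ := exists_sing_avoid (Q := Q) (perp Q W) W (by omega)
        have hu' := mem_perp.1 hu
        rw [hW] at huW hu'
        have hu0 : u ≠ 0 := by rintro rfl; exact huW (Submodule.zero_mem _)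
        have h1 := hu' v₀ (Submodule.subset_span (by simp))
        have h2 := hu' (κ v₀) (Submodule.subset_span (by simp))
        have h3 := k.polar_line h1 h2 hwv
        refine conn u hQu hu0 huW ?_ h1 h2 h3.1 h3.2
        intro hmem
        obtain ⟨a, b, hab⟩ := Submodule.mem_span_pair.1 hmem
        apply huW
        apply k.mem_of_comb (k.inv_span v₀) (a := b) (b := a)
        · rw [add_comm, hab]; exact hwv
        · rintro ⟨rfl, rfl⟩
          rw [zero_smul, zero_smul, add_zero] at hab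
          exact hw0 hab.symm
      · exact key1 v₀ w hQv₀ hv₀ hw hwv hperp.1 hperp.2 α β h0.symm
    · obtain ⟨W, hW⟩ : ∃ W, W = Submodule.span F {v₀, κ v₀} ⊔ Submodule.span F {w, κ w} := ⟨_, rfl⟩
      have hWd : finrank F W ≤ 4 := by
        rw [hW]
        have h1 := finrank_sup_le (Submodule.span F {v₀, κ v₀}) (Submodule.span F {w, κ w})
        have h2 := finrank_pair_le (F := F) v₀ (κ v₀)
        have h3 := finrank_pair_le (F := F) w (κ w)
        omega
      have hp := hQ.finrank_add_finrank_perp W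
      obtain ⟨u, hu, huW, hQu⟩ := exists_sing_avoid (Q := Q) (perp Q W) ⊥ (by rw [finrank_bot]; omega)
      have hu' := mem_perp.1 hu
      rw [hW] at hu'
      have h1 := hu' v₀ (Submodule.mem_sup_left (Submodule.subset_span (by simp)))
      have h2 := hu' (κ v₀) (Submodule.mem_sup_left (Submodule.subset_span (by simp)))
      have h3 := hu' w (Submodule.mem_sup_right (Submodule.subset_span (by simp)))
      have h4 := hu' (κ w) (Submodule.mem_sup_right (Submodule.subset_span (by simp)))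
      have hu0 : u ≠ 0 := by rintro rfl; exact huW (Submodule.zero_mem _)
      refine conn u hQu hu0 ?_ ?_ h1 h2 h3 h4
      · intro hmem
        apply hperp
        -- `v₀` is a multiple of `u`
        obtain ⟨a, b, hab⟩ := Submodule.mem_span_pair.1 hmem
        have h8 : v₀ ∈ perp Q (Submodule.span F {w, κ w}) := by
          refine k.mem_of_comb (W := perp Q (Submodule.span F {w, κ w})) (a := b) (b := a) ?_ ?_ ?_
          · intro x hx
            rw [mem_perp_span] at hx ⊢
            have x1 := hx w (by simp)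
            have x2 := hx (κ w) (by simp)
            rintro t (rfl | rfl)
            · have := k.adj t x
              rw [x1, x2] at this
              linear_combination this
            · rw [k.polar_kk, x1, mul_zero]
          · rw [add_comm, hab, mem_perp_span]
            rintro t (rfl | rfl)
            · exact h3
            · exact h4
          · rintro ⟨rfl, rfl⟩
            rw [zero_smul, zero_smul, add_zero] at hab
            exact hu0 hab.symm
        rw [mem_perp_span] at h8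
        have x1 := h8 w (by simp)
        have x2 := h8 (κ w) (by simp)
        have x3 := k.perp_symm x1 x2
        exact x3
      · intro hmem
        apply hperp
        obtain ⟨a, b, hab⟩ := Submodule.mem_span_pair.1 hmem
        obtain ⟨x1, x2⟩ := k.perp_symm h1 h2
        have x3 := k.polar_line (x := u) (y := v₀) x1 x2 hmem
        exact k.perp_symm x3.1 x3.2
  obtain ⟨z, hz⟩ := hQ.exists_polar_one' hv₀
  refine ⟨α, β, fun x => ?_⟩
  refine all_of_sing (Q := Q) (R := ⊤) (P := fun x => g (κ x) = α • g x + β • κ (g x)) ?_ (u := v₀)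
    (z := z) trivial hQv₀ trivial (by rw [hz]; exact one_ne_zero) ?_ (fun x _ hx _ => key2 x hx) ?_ x trivial
  · intro x _ y _ hx hy
    simp only [map_add] at hx hy ⊢
    rw [hx, hy]; module
  · intro c
    exact key2 _ (by rw [Q_smul, hQv₀, mul_zero])
  · intro x _ hx
    simp only [map_neg] at hx ⊢
    rw [hx]; module

/-- **Main theorem.** -/
theorem main' [Finite F] (hQ : Nd Q) (hgen : GenHyp Q) (hn : 10 ≤ finrank F V) (hM : M ≤ O Q)
    (hS : ∀ u, Q u = 0 → ∀ c : F, SI Q M u (c • κ u)) (hex : ∃ g ∈ M, ¬ Nrm κ g) : Om Q ≤ M := by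
  obtain ⟨g, hg, hgN⟩ := hex
  obtain ⟨v₀, hv₀, hv₀0, hgv₀⟩ := k.exists_moved' hQ (by omega) hgN
  have h1 := hS v₀ hv₀ 1
  rw [one_smul] at h1
  obtain ⟨x, hx, hxw⟩ := h1.map hg (hM hg)
  obtain ⟨a', ha'⟩ : ∃ a', a' = g v₀ := ⟨_, rfl⟩
  obtain ⟨b', hb'⟩ : ∃ b', b' = g (κ v₀) := ⟨_, rfl⟩
  rw [← ha', ← hb'] at hxw
  rw [← ha', ← hb'] at hgv₀
  have hQb : Q b' = 0 := by rw [hb', hM hg, k.qk, hv₀, mul_zero]
  have ha'0 : a' ≠ 0 := by rw [ha']; simpa using hv₀0
  replace hxw : ∀ w, x w = w + polar Q a' w • b' - polar Q b' w • a' := by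
    intro w
    rw [hxw, siegMap_apply, hQb, zero_mul, zero_smul, sub_zero]
  obtain ⟨l, hl⟩ : ∃ l, l = Submodule.span F {a', b'} := ⟨_, rfl⟩
  obtain ⟨Z, hZ⟩ : ∃ Z, Z = Submodule.span F {a', κ a'} ⊔ Submodule.span F {b', κ b'} := ⟨_, rfl⟩
  have hal : a' ∈ l := by rw [hl]; exact Submodule.subset_span (by simp)
  have hbl : b' ∈ l := by rw [hl]; exact Submodule.subset_span (by simp)
  have haZ : a' ∈ Z := by rw [hZ]; exact Submodule.mem_sup_left (Submodule.subset_span (by simp))
  have hbZ : b' ∈ Z := by rw [hZ]; exact Submodule.mem_sup_right (Submodule.subset_span (by simp))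
  have hZi : ∀ w ∈ Z, κ w ∈ Z := by
    rw [hZ]; exact k.inv_sup (k.inv_span a') (k.inv_span b')
  have hlZ : l ≤ Z := by
    rw [hl, Submodule.span_le]
    rintro w (rfl | rfl)
    · exact haZ
    · exact hbZ
  have hld : finrank F l ≤ 2 := by rw [hl]; exact finrank_pair_le _ _
  have hZd : finrank F Z ≤ 4 := by
    rw [hZ]
    have h1 := finrank_sup_le (Submodule.span F {a', κ a'}) (Submodule.span F {b', κ b'})
    have h2 := finrank_pair_le (F := F) a' (κ a')
    have h3 := finrank_pair_le (F := F) b' (κ b')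
    omega
  have hκl : κ a' ∉ l := by
    intro hmem
    rw [hl] at hmem
    obtain ⟨c, d, hcd⟩ := Submodule.mem_span_pair.1 hmem
    by_cases hd : d = 0
    · rw [hd, zero_smul, add_zero] at hcd
      exact one_ne_zero (k.inj (a := 1) (b := -c) (x := a') (by rw [← hcd]; module) ha'0).1
    · apply hgv₀
      rw [Submodule.mem_span_pair]
      refine ⟨-(d⁻¹ * c), d⁻¹, ?_⟩
      rw [← hcd, smul_add, smul_smul, smul_smul, inv_mul_cancel₀ hd]
      module
  have hfull : ∀ v, Q v = 0 → (∀ w ∈ l, polar Q w v = 0) → polar Q v (κ a') ≠ 0 → v ∉ Z →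
      Full Q M v := by
    intro v hv hvl hvκ hvZ
    have hav := hvl a' hal
    have hbv := hvl b' hbl
    have haκ : polar Q a' (κ v) ≠ 0 := by
      intro h0
      apply hvκ
      rw [polar_comm, k.adj, hav, h0]; ring
    refine k.full_of' hQ (by omega) hM hS hx hxw hv hav hbv ?_
    intro hmem
    obtain ⟨c, d, hcd⟩ := Submodule.mem_span_pair.1 hmem
    by_cases hc : d = 0 ∧ c = 0
    · rw [hc.1, hc.2, zero_smul, zero_smul, add_zero] at hcd
      apply hgv₀
      rw [Submodule.mem_span_pair]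
      refine ⟨(polar Q a' (κ v))⁻¹ * polar Q b' (κ v), 0, ?_⟩
      rw [zero_smul, add_zero, mul_smul, ← sub_eq_zero.1 hcd.symm, smul_smul, inv_mul_cancel₀ haκ,
        one_smul]
    · apply hvZ
      apply k.mem_of_comb hZi (a := d) (b := c) _ hc
      rw [add_comm, hcd]
      exact Z.sub_mem (Z.smul_mem _ hbZ) (Z.smul_mem _ haZ)
  have hQa : Q a' = 0 := by rw [ha', hM hg, hv₀]
  have hab : polar Q a' b' = 0 := by
    rw [ha', hb', O_polar (hM hg), k.pk, hv₀, mul_zero]
  have haκa : polar Q a' (κ a') = 0 := by rw [k.pk, hQa, mul_zero]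
  have hbκb : polar Q b' (κ b') = 0 := by rw [k.pk, hQb, mul_zero]
  have hκκ : polar Q (κ a') (κ b') = 0 := by rw [k.polar_kk, hab, mul_zero]
  obtain ⟨δ, hδ⟩ : ∃ δ, δ = polar Q (κ a') b' := ⟨_, rfl⟩
  have hδ' : polar Q a' (κ b') = -δ := by
    have := k.adj a' b'
    rw [hab, ← hδ] at this
    linear_combination this
  -- elements of `Z`
  have hZe : ∀ x ∈ Z, ∃ p q r s : F, x = p • a' + q • κ a' + (r • b' + s • κ b') := by
    intro x hx
    rw [hZ] at hx
    obtain ⟨x1, hx1, x2, hx2, rfl⟩ := Submodule.mem_sup.1 hx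
    obtain ⟨p, q, rfl⟩ := Submodule.mem_span_pair.1 hx1
    obtain ⟨r, s, rfl⟩ := Submodule.mem_span_pair.1 hx2
    exact ⟨p, q, r, s, rfl⟩
  by_cases hδ0 : δ = 0
  · obtain ⟨f₀, hf₀, hκf₀⟩ := hQ.exists_polar_one l hκl
    have hQκ : Q (κ a') = 0 := by rw [k.qk, hQa, mul_zero]
    obtain ⟨hQf, hκf⟩ := adjust_singular hQκ hκf₀
    obtain ⟨f, hfd⟩ : ∃ f, f = f₀ - Q f₀ • κ a' := ⟨_, rfl⟩
    rw [← hfd] at hQf hκf
    have hκal : κ a' ∈ perp Q l := by
      rw [hl, mem_perp_span]
      rintro w (rfl | rfl)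
      · exact haκa
      · rw [polar_comm, ← hδ]; exact hδ0
    have hfl : f ∈ perp Q l := by rw [hfd]; exact Submodule.sub_mem _ hf₀ (Submodule.smul_mem _ _ hκal)
    obtain ⟨C, hC⟩ : ∃ C, C = perp Q (l ⊔ Submodule.span F {κ a', f}) := ⟨_, rfl⟩
    have hCd : finrank F V ≤ finrank F C + 4 := by
      have h1 := finrank_sup_le l (Submodule.span F {κ a', f})
      have h3 := finrank_pair_le (F := F) (κ a') f
      have h4 := hQ.finrank_add_finrank_perp (l ⊔ Submodule.span F {κ a', f})
      rw [hC]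
      omega
    obtain ⟨c, hc, hQc⟩ := exists_ns hQ (C := C) (by omega)
    rw [hC] at hc
    have hc' := mem_perp'.1 hc
    have hcκ : polar Q c (κ a') = 0 := hc' _ (Submodule.mem_sup_right (Submodule.subset_span (by simp)))
    have hcf : polar Q c f = 0 := hc' _ (Submodule.mem_sup_right (Submodule.subset_span (by simp)))
    have hcl : c ∈ perp Q l := mem_perp'.2 fun w hw => hc' w (Submodule.mem_sup_left hw)
    have hfκ : polar Q f (κ a') = 1 := by rw [polar_comm]; exact hκf
    have hκκa : polar Q (κ a') (κ a') = 0 := by rw [polar_self', hQκ, mul_zero]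
    have hZκ : ∀ x ∈ Z, polar Q x (κ a') = 0 := by
      intro x hx
      obtain ⟨p, q, r, s, rfl⟩ := hZe x hx
      rw [polar_add_left, polar_add_left, polar_add_left, polar_smul_left, polar_smul_left, polar_smul_left,
        polar_smul_left, haκa, hκκa, polar_comm Q b', ← hδ, hδ0, polar_comm Q (κ b'), hκκ]
      simp
    have hv₂κ : polar Q (f + c - Q c • κ a') (κ a') = 1 := by
      rw [polar_sub_left, polar_add_left, polar_smul_left, hfκ, hcκ, hκκa]; simp
    have hff : polar Q f f = 0 := by rw [polar_self', hQf, mul_zero]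
    refine Om_le_of_two hQ hgen (by omega) hM
      (hfull (f + c - Q c • κ a') ?_ ?_ (by rw [hv₂κ]; exact one_ne_zero) ?_)
      (hfull f hQf (fun w hw => mem_perp.1 hfl w hw) (by rw [hfκ]; exact one_ne_zero) ?_) ?_
    · rw [Q_sub, Q_add, Q_smul, hQf, hQκ, polar_comm Q f c, hcf, polar_smul_right, polar_add_left, hfκ, hcκ]
      simp
    · intro w hw
      rw [polar_sub_right, polar_add_right, polar_smul_right, mem_perp.1 hfl w hw, mem_perp.1 hcl w hw,
        mem_perp.1 hκal w hw]
      simp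
    · intro hmem
      rw [hZκ _ hmem] at hv₂κ
      exact zero_ne_one hv₂κ
    · intro hmem
      rw [hZκ _ hmem] at hfκ
      exact zero_ne_one hfκ
    · rw [polar_sub_left, polar_add_left, polar_smul_left, hff, hcf, hκf, zero_add, zero_sub, smul_eq_mul, mul_one]
      exact neg_ne_zero.2 hQc
  · have hZn : NDs Q Z := by
      rw [NDs, eq_bot_iff]
      rintro x ⟨hx, hx'⟩
      obtain ⟨p, q, r, s, rfl⟩ := hZe x hx
      have hx'' := mem_perp'.1 hx'
      have y1 := hx'' _ haZ
      have y2 := hx'' _ (hZi _ haZ)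
      have y3 := hx'' _ hbZ
      have y4 := hx'' _ (hZi _ hbZ)
      have haa : polar Q a' a' = 0 := by rw [polar_self', hQa, mul_zero]
      have hbb : polar Q b' b' = 0 := by rw [polar_self', hQb, mul_zero]
      have hκκa : polar Q (κ a') (κ a') = 0 := by rw [polar_self', k.qk, hQa]; ring
      have hκκb : polar Q (κ b') (κ b') = 0 := by rw [polar_self', k.qk, hQb]; ring
      simp only [polar_add_left, polar_smul_left, haa, hbb, hκκa, hκκb, haκa, hbκb, hab, hκκ, hδ', ← hδ,
        polar_comm Q b' a', polar_comm Q (κ a') a', polar_comm Q (κ b') a', polar_comm Q b' (κ a'),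
        polar_comm Q (κ b') (κ a'), polar_comm Q (κ b') b', smul_zero, add_zero, zero_add, smul_eq_mul] at y1 y2 y3 y4
      have z1 : s = 0 := by
        apply (mul_eq_zero.1 (show s * δ = 0 by linear_combination -y1)).resolve_right hδ0
      have z2 : r = 0 := by
        apply (mul_eq_zero.1 (show r * δ = 0 by linear_combination y2)).resolve_right hδ0
      have z3 : q = 0 := by
        apply (mul_eq_zero.1 (show q * δ = 0 by linear_combination y3)).resolve_right hδ0
      have z4 : p = 0 := by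
        apply (mul_eq_zero.1 (show p * δ = 0 by linear_combination -y4)).resolve_right hδ0
      rw [Submodule.mem_bot, z1, z2, z3, z4]; simp
    have hpn := nds_perp hQ hZn
    have hpd := hQ.finrank_add_finrank_perp Z
    obtain ⟨u₁, hu₁, u₂, hu₂, hQu₁, hQu₂, huu⟩ := exists_pair_in hQ hpn (by omega)
    have p1 := mem_perp.1 hu₁
    have p2 := mem_perp.1 hu₂
    have huu' : polar Q u₂ u₁ = 1 := by rw [polar_comm]; exact huu
    have mk : ∀ u ∈ perp Q Z, Q u = 0 → ∀ u' ∈ perp Q Z, polar Q u u' = 1 → Full Q M (u + b') := by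
      intro u hu hQu u' hu' huu
      have q1 := mem_perp.1 hu
      have q2 := mem_perp.1 hu'
      refine hfull (u + b') ?_ ?_ ?_ ?_
      · rw [Q_add, hQu, hQb, polar_comm, q1 b' hbZ]; ring
      · rw [hl]
        intro w hw
        obtain ⟨α, β, rfl⟩ := Submodule.mem_span_pair.1 hw
        rw [polar_add_right, polar_add_left, polar_add_left, polar_smul_left, polar_smul_left, polar_smul_left,
          polar_smul_left, q1 a' haZ, q1 b' hbZ, hab, polar_self', hQb]
        simp
      · rw [polar_add_left, polar_comm Q u, q1 _ (hZi _ haZ), polar_comm Q b', ← hδ, zero_add]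
        exact hδ0
      · intro hmem
        have h5 : u ∈ Z := by
          have := Z.sub_mem hmem hbZ
          rwa [add_sub_cancel_right] at this
        rw [q2 u h5] at huu
        exact zero_ne_one huu
    refine Om_le_of_two hQ hgen (by omega) hM (mk u₁ hu₁ hQu₁ u₂ hu₂ huu) (mk u₂ hu₂ hQu₂ u₁ hu₁ huu') ?_
    rw [polar_add_left, polar_add_right, polar_add_right, huu, polar_comm Q u₁ b', p1 b' hbZ, p2 b' hbZ, polar_self',
      hQb]
    simp

theorem exists_not' [Finite F] (hQ : Nd Q) (hgen : GenHyp Q) (hn : 10 ≤ finrank F V) :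
    ∃ g ∈ Om Q, ¬ Nrm κ g := by
  obtain ⟨v, hv0, hv⟩ := hQ.exists_singular (by omega)
  obtain ⟨W, hW⟩ : ∃ W, W = Submodule.span F {v, κ v} := ⟨_, rfl⟩
  have hWd : finrank F W ≤ 2 := by rw [hW]; exact finrank_pair_le _ _
  have hp := hQ.finrank_add_finrank_perp W
  obtain ⟨y, hy, hyW, hQy⟩ := exists_sing_avoid (Q := Q) (perp Q W) W (by omega)
  have hvy : polar Q v y = 0 := mem_perp.1 hy v (by rw [hW]; exact Submodule.subset_span (by simp))
  have hg : ∀ w, sieg hQ hv hvy w = w + polar Q v w • y - polar Q y w • v := by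
    intro w
    rw [sieg_apply, hQy, zero_mul, zero_smul, sub_zero]
  refine ⟨sieg hQ hv hvy, SI_Om hQ hgen hv hvy, ?_⟩
  rintro ⟨α, β, h⟩
  -- a common fixed vector
  obtain ⟨W', hW'⟩ : ∃ W', W' = W ⊔ Submodule.span F {y, κ y} := ⟨_, rfl⟩
  have hWd' : finrank F W' ≤ 4 := by
    rw [hW']
    have h1 := finrank_sup_le W (Submodule.span F {y, κ y})
    have h3 := finrank_pair_le (F := F) y (κ y)
    omega
  have hp' := hQ.finrank_add_finrank_perp W'
  obtain ⟨x, hx, hx0⟩ := Submodule.exists_mem_ne_zero_of_ne_bot (show perp Q W' ≠ ⊥ by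
    intro h0; rw [h0, finrank_bot] at hp'; omega)
  have hx' := mem_perp'.1 hx
  rw [hW', hW] at hx'
  have h1 := hx' v (Submodule.mem_sup_left (Submodule.subset_span (by simp)))
  have h2 := hx' (κ v) (Submodule.mem_sup_left (Submodule.subset_span (by simp)))
  have h3 := hx' y (Submodule.mem_sup_right (Submodule.subset_span (by simp)))
  have h4 := hx' (κ y) (Submodule.mem_sup_right (Submodule.subset_span (by simp)))
  have h5 : polar Q (κ x) v = 0 := by rw [k.adj, h1, h2]; ring
  have h6 : polar Q (κ x) y = 0 := by rw [k.adj, h3, h4]; ring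
  rw [polar_comm] at h1 h3 h5 h6
  have h7 := h x
  rw [hg, hg, h1, h3, h5, h6] at h7
  simp only [zero_smul, add_zero, sub_zero] at h7
  obtain ⟨h8, h9⟩ := k.inj (a := β - 1) (b := α) (x := x) (by
    rw [sub_smul, one_smul, sub_add_eq_add_sub, add_comm (β • κ x), ← h7, sub_self]) hx0
  have hβ : β = 1 := by linear_combination h8
  rw [h9, hβ] at h
  -- a vector detecting non-commutation
  have hvκ : v ∉ F ∙ κ v := by
    intro hmem
    obtain ⟨c, hc⟩ := Submodule.mem_span_singleton.1 hmem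
    have := (k.inj (a := c) (b := -1) (x := v) (by rw [hc]; module) hv0).2
    exact neg_ne_zero.2 one_ne_zero this
  obtain ⟨z, hz, hvz⟩ := hQ.exists_polar_one _ hvκ
  have hκz : polar Q (κ v) z = 0 := mem_perp_singleton.1 hz
  have hvκz : polar Q v (κ z) = T := by
    have := k.adj v z
    rw [hκz, hvz] at this
    linear_combination this
  have h10 := h z
  rw [hg, hg, hvz, hvκz, zero_smul, zero_add, one_smul, one_smul, map_sub, map_add, map_smul] at h10
  apply hyW
  rw [hW]
  apply k.mem_of_comb (k.inv_span v) (a := 1) (b := -T)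
  · have e : (1 : F) • κ y + -T • y = polar Q y z • κ v - polar Q y (κ z) • v := by
      have h11 : κ z + T • y - polar Q y (κ z) • v - (κ z + κ y - polar Q y z • κ v) = 0 := by
        rw [h10, sub_self]
      rw [← sub_eq_zero]
      rw [← neg_eq_zero] at h11
      rw [← h11]; module
    rw [e]
    exact Submodule.sub_mem _ (Submodule.smul_mem _ _ (Submodule.subset_span (by simp)))
      (Submodule.smul_mem _ _ (Submodule.subset_span (by simp)))
  · rintro ⟨h, -⟩
    exact one_ne_zero h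

end KS

end Cfsg.Agent.Lib.OrthExtH94
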