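import Mathlib
import Cfsg.Agent.Lib.OrthFourH94

set_option autoImplicit false
set_option linter.unusedSectionVars false
set_option linter.unusedSimpArgs false
set_option linter.unusedVariables false

/-!
Overgroups of the stabiliser of an orthogonal decomposition `A ⊥ B` with `A` of plus type of dimension 4
and `B` of minus type of dimension 4.  Part 2: the overgroup argument.
-/

namespace Cfsg.Agent.Lib.OrthFourH94

open QuadraticMap Module Cfsg.Agent.Lib.Quad Cfsg.Agent.Lib.OrthMax Cfsg.Agent.Lib.OrthNd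
open Cfsg.Agent.Lib.OrthDecH94 Cfsg.Agent.Lib.OrthNdBridge

variable {F V : Type*} [Field F] [Finite F] [AddCommGroup V] [Module F V] [FiniteDimensional F V]
  {Q : QuadraticForm F V} {M : Subgroup (V ≃ₗ[F] V)}

/-- absorbing a nondegenerate block -/
theorem absorb (hQ : Nd Q) (hM : M ≤ O Q) {C : Submodule F V} (hC : NDs Q C) (h3 : 3 ≤ finrank F C) (hS : Sin Q M C)
    {w y : V} (hw : w ∈ perp Q C) (h : SF Q M w y) (hy : y ∉ perp Q C) : ∀ z ∈ C, SF Q M w z := by
  have h1 : C ≤ Us Q M h.1 := by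
    refine le_of_sieg_stable hQ hC h3 ?_ (w := y) h hy
    intro z hz y' hy' hQz hzy' u hu
    obtain ⟨g, hg, hgx⟩ := hS z hz y' hy' hQz hzy'
    have h2 := SF.map hM (show SF Q M w u from hu) hg
    rw [hgx, hgx] at h2
    have h3 : siegMap Q z y' w = w := by
      rw [siegMap_apply, mem_perp.1 hw z hz, mem_perp.1 hw y' hy']; simp
    rw [h3] at h2
    exact h2
  exact fun z hz => h1 hz

/-- two complementary blocks -/
theorem two_blocks (hQ : Nd Q) (hgen : GenHyp Q) (hM : M ≤ O Q) {C D : Submodule F V} (hC : NDs Q C)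
    (hD : NDs Q D) (hCD : perp Q C = D) (h3 : 3 ≤ finrank F C) (h3' : 3 ≤ finrank F D) (hS : Sin Q M C)
    (hS' : Sin Q M D) {e y : V} (he : e ∈ C) (he0 : e ≠ 0) (h : SF Q M e y) (hy : y ∉ C) : Om Q ≤ M := by
  have hDC : perp Q D = C := by rw [← hCD, hQ.perp_perp]
  have h1 := absorb hQ hM hD h3' hS' (w := e) (by rw [hDC]; exact he) h (by rw [hDC]; exact hy)
  have hneD : ∀ z ∈ D, z ≠ 0 → z ∉ perp Q D := by
    intro z hz hz0 hz'
    have : z ∈ D ⊓ perp Q D := ⟨hz, hz'⟩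
    rw [show D ⊓ perp Q D = ⊥ from hD] at this
    exact hz0 this
  have heC : e ∉ perp Q C := by
    intro hz'
    have : e ∈ C ⊓ perp Q C := ⟨he, hz'⟩
    rw [show C ⊓ perp Q C = ⊥ from hC] at this
    exact he0 this
  have h2 : ∀ z ∈ D, Q z = 0 → ∀ x ∈ C, SF Q M z x := fun z hz hQz =>
    absorb hQ hM hC h3 hS (w := z) (by rw [hCD]; exact hz) ((h1 z hz).swap hQz) heC
  obtain ⟨z₀, hz₀, f, -, hQz₀, -, hzf⟩ := exists_pair_in hQ hD h3'
  have hz₀0 : z₀ ≠ 0 := by rintro rfl; rw [polar_zero_left] at hzf; exact zero_ne_one hzf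
  have hfull : ∀ x ∈ C, Q x = 0 → Full Q M x := by
    intro x hx hQx
    have h4 := absorb hQ hM hD h3' hS' (w := x) (by rw [hDC]; exact hx) ((h2 z₀ hz₀ hQz₀ x hx).swap hQx)
      (hneD z₀ hz₀ hz₀0)
    refine ⟨hQx, fun y hy => ?_⟩
    obtain ⟨a, ha, b, hb, rfl⟩ := nds_sup hQ hC y
    rw [hCD] at hb
    have hxb := (h4 b hb).2.1
    have hxa : polar Q x a = 0 := by rw [polar_add_right, hxb, add_zero] at hy; exact hy
    have h5 := (h4 b hb).2.2 1
    rw [one_smul] at h5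
    exact (hS x hx a ha hQx hxa).add hQx hxa hxb h5
  obtain ⟨a, ha, b, hb, hQa, hQb, hab⟩ := exists_pair_in hQ hC h3
  refine Om_le_of_two hQ hgen ?_ hM (hfull a ha hQa) (hfull b hb hQb) (by rw [hab]; exact one_ne_zero)
  have := hQ.finrank_add_finrank_perp C
  rw [hCD] at this
  omega

/-- commutators of root lines -/
theorem sf_comm (hM : M ≤ O Q) {v v' u u' : V} (h : SF Q M v v') (h' : SF Q M u u') (hQv' : Q v' = 0)
    (hvu : polar Q v u = 0) (hvu' : polar Q v u' = 0) (hv'u : polar Q v' u = 0) (hne : polar Q v' u' ≠ 0) :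
    SF Q M u v := by
  obtain ⟨g, hg, hgx⟩ := h.2.2 1
  rw [one_smul] at hgx
  have h1 := h'.map hM hg
  have h2 : g u = u := by rw [hgx, siegMap_apply, hvu, hv'u]; simp
  have h3 : g u' = u' - polar Q v' u' • v := by
    rw [hgx, siegMap_apply, hvu', hQv']; simp
  rw [h2, h3] at h1
  have h4 := h'.sub h1
  rw [sub_sub_cancel] at h4
  exact h4.of_smul hne

/-- the situation -/
structure FD (Q : QuadraticForm F V) (A : Submodule F V) (M : Subgroup (V ≃ₗ[F] V)) : Prop where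
  hQ : Nd Q
  gen : GenHyp Q
  hM : M ≤ O Q
  hA : NDs Q A
  dA : finrank F A = 4
  dB : finrank F (perp Q A) = 4
  tA : TS2 Q A
  tB : ¬ TS2 Q (perp Q A)
  H : ∀ g ∈ Om Q, (∀ w ∈ A, g w ∈ A) → g ∈ M

namespace FD

variable {A : Submodule F V} (S : FD Q A M)
include S

theorem pp : perp Q (perp Q A) = A := S.hQ.perp_perp A

theorem hB : NDs Q (perp Q A) := nds_perp S.hQ S.hA

theorem orth {a b : V} (ha : a ∈ A) (hb : b ∈ perp Q A) : polar Q a b = 0 := mem_perp.1 hb a ha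

theorem orth' {a b : V} (ha : a ∈ A) (hb : b ∈ perp Q A) : polar Q b a = 0 := mem_perp'.1 hb a ha

theorem sinA : Sin Q M A := by
  intro z hz y hy hQz hzy
  refine ⟨sieg S.hQ hQz hzy, S.H _ (SI_Om S.hQ S.gen _ _) ?_, fun x => by rw [sieg_apply, siegMap_apply]⟩
  intro w hw
  rw [sieg_apply]
  exact A.sub_mem (A.sub_mem (A.add_mem hw (A.smul_mem _ hy)) (A.smul_mem _ hz)) (A.smul_mem _ hz)

theorem sinB : Sin Q M (perp Q A) := by
  intro z hz y hy hQz hzy
  refine ⟨sieg S.hQ hQz hzy, S.H _ (SI_Om S.hQ S.gen _ _) ?_, fun x => by rw [sieg_apply, siegMap_apply]⟩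
  intro w hw
  rw [sieg_apply, S.orth' hw hz, S.orth' hw hy]
  simpa using hw

theorem sfA {z y : V} (hz : z ∈ A) (hy : y ∈ A) (hQz : Q z = 0) (hzy : polar Q z y = 0) : SF Q M z y :=
  ⟨hQz, hzy, fun s => S.sinA z hz _ (A.smul_mem s hy) hQz (by rw [polar_smul_right, hzy, smul_zero])⟩

/-- finishing inside `A` -/
theorem finA {e y : V} (he : e ∈ A) (he0 : e ≠ 0) (h : SF Q M e y) (hy : y ∉ A) : Om Q ≤ M :=
  two_blocks S.hQ S.gen S.hM S.hA S.hB rfl (by rw [S.dA]; omega) (by rw [S.dB]; omega) S.sinA S.sinB he he0 h hy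

/-- finishing inside `B` -/
theorem finB {e y : V} (he : e ∈ perp Q A) (he0 : e ≠ 0) (h : SF Q M e y) (hy : y ∉ perp Q A) : Om Q ≤ M :=
  two_blocks S.hQ S.gen S.hM S.hB S.hA S.pp (by rw [S.dB]; omega) (by rw [S.dA]; omega) S.sinB S.sinA he he0 h hy

/-- Case (b): the moving element fixes a singular vector of `A` -/
theorem caseB {z' y' : V} (h : SF Q M z' y') {u : V} (hu : u ∈ A) (hxu : siegMap Q z' y' u ∉ A) {z₁ : V}
    (hz₁W : z₁ ∈ A) (hz₁z' : polar Q z' z₁ = 0) (hz₁y' : polar Q y' z₁ = 0) (hz₁0 : z₁ ≠ 0) (hQz₁ : Q z₁ = 0) :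
    Om Q ≤ M := by
  obtain ⟨x, hx, hxe⟩ := h.2.2 1
  rw [one_smul] at hxe
  have hxO := S.hM hx
  have hxz₁ : x z₁ = z₁ := by rw [hxe, siegMap_apply, hz₁z', hz₁y']; simp
  by_contra hcon0
  have hcon : ∀ z ∈ A, z ≠ 0 → ∀ y, SF Q M z y → y ∈ A := by
    intro z hz hz0 y hy
    by_contra hyA
    exact hcon0 (S.finA hz hz0 hy hyA)
  have hcon' : ∀ z ∈ A, z ≠ 0 → Q z = 0 → x z ∈ A → ∀ y ∈ A, polar Q z y = 0 → x y ∈ A := by
    intro z hz hz0 hQz hxz y hy hzy
    exact hcon (x z) hxz (fun h => hz0 (x.map_eq_zero_iff.1 h)) (x y) ((S.sfA hz hy hQz hzy).map S.hM hx)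
  have h2 := hcon' z₁ hz₁W hz₁0 hQz₁ (by rw [hxz₁]; exact hz₁W)
  obtain ⟨z₄, hz₄, hQz₄, hzz₄⟩ := exists_partner S.hQ S.hA hz₁W hz₁0 hQz₁
  obtain ⟨e, he, f, hf, hQe, hQf, hef⟩ := exists_hyp_cut S.hQ S.hA S.tA hz₁W hz₄ hQz₁ hQz₄ hzz₄
  obtain ⟨heW, hze, -⟩ := mem_cut.1 he
  obtain ⟨hfW, hzf, -⟩ := mem_cut.1 hf
  have he0 : e ≠ 0 := by rintro rfl; rw [polar_zero_left] at hef; exact zero_ne_one hef
  have h4 := hcon' e heW he0 hQe (h2 e heW hze) (u - polar Q e u • f) (A.sub_mem hu (A.smul_mem _ hfW))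
    (by rw [polar_sub_right, polar_smul_right, hef]; simp)
  have h5 := h2 f hfW hzf
  apply hxu
  have h6 := A.add_mem h4 (A.smul_mem (polar Q e u) h5)
  rw [map_sub, LinearEquiv.map_smul, sub_add_cancel] at h6
  rw [← hxe]
  exact h6

/-- Case (c): no singular vector of `A` is orthogonal to the root line -/
theorem caseC {z' y' : V} (h : SF Q M z' y') (hQy' : Q y' = 0)
    (hno : ∀ x ∈ A, polar Q z' x = 0 → polar Q y' x = 0 → Q x = 0 → x = 0) : Om Q ≤ M := by
  obtain ⟨p, hp, w, hw, hpw⟩ := nds_sup S.hQ S.hA z'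
  obtain ⟨p', hp', w', hw', hpw'⟩ := nds_sup S.hQ S.hA y'
  have hzp : ∀ x ∈ A, polar Q z' x = polar Q p x := by
    intro x hx
    rw [← hpw, polar_add_left, S.orth' hx hw, add_zero]
  have hyp : ∀ x ∈ A, polar Q y' x = polar Q p' x := by
    intro x hx
    rw [← hpw', polar_add_left, S.orth' hx hw', add_zero]
  have hzw : ∀ x ∈ perp Q A, polar Q z' x = polar Q w x := by
    intro x hx
    rw [← hpw, polar_add_left, S.orth hp hx, zero_add]
  have hyw : ∀ x ∈ perp Q A, polar Q y' x = polar Q w' x := by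
    intro x hx
    rw [← hpw', polar_add_left, S.orth hp' hx, zero_add]
  -- `P = ⟨p, p'⟩` is anisotropic
  have hanis : ∀ α β : F, Q (α • p + β • p') = 0 → α = 0 ∧ β = 0 := by
    intro α β hαβ
    by_contra hne
    have hvA : α • p + β • p' ∈ A := A.add_mem (A.smul_mem _ hp) (A.smul_mem _ hp')
    by_cases hv0 : α • p + β • p' = 0
    · -- dependent
      obtain ⟨a, ha⟩ : ∃ a : V, ∀ x, polar Q a x = 0 → polar Q p x = 0 ∧ polar Q p' x = 0 := by
        by_cases hα : α = 0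
        · have hβ : β ≠ 0 := fun hβ => hne ⟨hα, hβ⟩
          rw [hα, zero_smul, zero_add] at hv0
          have hp'0 : p' = 0 := (smul_eq_zero.1 hv0).resolve_left hβ
          exact ⟨p, fun x hx => ⟨hx, by rw [hp'0, polar_zero_left]⟩⟩
        · refine ⟨p', fun x hx => ⟨?_, hx⟩⟩
          have h1 : α • p = -(β • p') := eq_neg_of_add_eq_zero_left hv0
          have h2 : α * polar Q p x = 0 := by
            rw [← smul_eq_mul, ← polar_smul_left, h1, polar_neg_left, polar_smul_left, hx]; simp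
          exact (mul_eq_zero.1 h2).resolve_left hα
      have h1 := finrank_cut1 S.hQ (A := A) (a := a)
      have h2 := S.dA
      obtain ⟨x, hx, hx0, hQx⟩ := exists_sing_in (Q := Q) (A ⊓ perp Q (F ∙ a)) (by omega)
      obtain ⟨hxA, hax⟩ := mem_cut1.1 hx
      obtain ⟨h3, h4⟩ := ha x hax
      exact hx0 (hno x hxA (by rw [hzp x hxA]; exact h3) (by rw [hyp x hxA]; exact h4) hQx)
    · have h1 := finrank_cut S.hQ A p p'
      have h2 := S.dA
      obtain ⟨x, hx, hx0, hQx⟩ := exists_sing_cut S.hQ S.hA S.dA S.tA hvA hv0 hαβ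
        (D := A ⊓ perp Q (Submodule.span F {p, p'})) inf_le_left (by omega) (by
          intro x hx
          obtain ⟨-, h3, h4⟩ := mem_cut.1 hx
          rw [polar_add_left, polar_smul_left, polar_smul_left, h3, h4]; simp)
      obtain ⟨hxA, h3, h4⟩ := mem_cut.1 hx
      exact hx0 (hno x hxA (by rw [hzp x hxA]; exact h3) (by rw [hyp x hxA]; exact h4) hQx)
  have hQp : Q p ≠ 0 := by
    intro h0
    have := (hanis 1 0 (by rw [one_smul, zero_smul, add_zero]; exact h0)).1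
    exact one_ne_zero this
  have hQsum : ∀ α β : F, Q (α • p + β • p') + Q (α • w + β • w') = 0 := by
    intro α β
    have h1 : Q (α • z' + β • y') = 0 := by
      rw [Q_add, Q_smul, Q_smul, h.1, hQy', polar_smul_left, polar_smul_right, h.2.1]; simp
    have h2 : α • z' + β • y' = (α • p + β • p') + (α • w + β • w') := by
      rw [← hpw, ← hpw']; module
    rw [h2, Q_add, S.orth (A.add_mem (A.smul_mem _ hp) (A.smul_mem _ hp'))
      (Submodule.add_mem _ (Submodule.smul_mem _ _ hw) (Submodule.smul_mem _ _ hw')), add_zero] at h1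
    exact h1
  have hanis' : ∀ α β : F, Q (α • w + β • w') = 0 → α = 0 ∧ β = 0 := by
    intro α β h0
    apply hanis
    have := hQsum α β
    rw [h0, add_zero] at this
    exact this
  -- `P₁ = ⟨w, w'⟩`
  obtain ⟨P1, hP1def⟩ : ∃ P1, P1 = Submodule.span F {w, w'} := ⟨_, rfl⟩
  have hmP1 : ∀ x ∈ P1, ∃ a b : F, a • w + b • w' = x := by
    intro x hx
    rw [hP1def, Submodule.mem_span_pair] at hx
    exact hx
  have hwP1 : w ∈ P1 := by rw [hP1def]; exact Submodule.subset_span (by simp)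
  have hw'P1 : w' ∈ P1 := by rw [hP1def]; exact Submodule.subset_span (by simp)
  have hli : LinearIndependent F ![w, w'] := by
    rw [LinearIndependent.pair_iff]
    intro a b hab
    exact hanis' a b (by rw [hab, QuadraticMap.map_zero])
  have hP1 : finrank F P1 = 2 := by
    have h1 := finrank_span_eq_card hli
    rw [Matrix.range_cons, Matrix.range_cons, Matrix.range_empty, Set.union_empty, Set.singleton_union,
      ← hP1def] at h1
    simpa using h1
  have hP1an : ∀ x ∈ P1, Q x = 0 → x = 0 := by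
    intro x hx hQx
    obtain ⟨a, b, rfl⟩ := hmP1 x hx
    obtain ⟨rfl, rfl⟩ := hanis' a b hQx
    simp
  have hP1nd := nds_of_anis hP1 hP1an
  have hP1B : P1 ≤ perp Q A := by
    intro x hx
    obtain ⟨a, b, rfl⟩ := hmP1 x hx
    exact Submodule.add_mem _ (Submodule.smul_mem _ _ hw) (Submodule.smul_mem _ _ hw')
  -- a singular vector of `B` orthogonal to `P₁`
  obtain ⟨z₁, hz₁B, hz₁w, hz₁w', hz₁0, hQz₁⟩ : ∃ z₁ ∈ perp Q A, polar Q w z₁ = 0 ∧ polar Q w' z₁ = 0 ∧ z₁ ≠ 0 ∧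
      Q z₁ = 0 := by
    by_contra hcon
    push Not at hcon
    obtain ⟨D1, hD1⟩ : ∃ D1, D1 = perp Q A ⊓ perp Q (Submodule.span F {w, w'}) := ⟨_, rfl⟩
    have h1 := finrank_cut S.hQ (perp Q A) w w'
    have h2 := S.dB
    rw [← hD1] at h1
    have hD1an : ∀ x ∈ D1, Q x = 0 → x = 0 := by
      intro x hx hQx
      rw [hD1] at hx
      obtain ⟨hxB, h3, h4⟩ := mem_cut.1 hx
      by_contra hx0
      exact hcon x hxB h3 h4 hx0 hQx
    have hD1f : finrank F D1 = 2 := by
      by_contra hne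
      obtain ⟨x, hx, hx0, hQx⟩ := exists_sing_in (Q := Q) D1 (by omega)
      exact hx0 (hD1an x hx hQx)
    have h5 := ts2_of_anis hP1 hP1an hD1f hD1an (by
      intro x hx y hy
      rw [hD1, ← hP1def] at hy
      exact mem_perp.1 hy.2 x hx)
    exact S.tB (h5.mono (sup_le hP1B (by rw [hD1]; exact inf_le_left)))
  have hww' : w ∉ F ∙ w' := by
    intro hm
    obtain ⟨c, hc⟩ := Submodule.mem_span_singleton.1 hm
    have := (hanis' 1 (-c) (by rw [← hc]; simp)).1
    exact one_ne_zero this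
  obtain ⟨y₁, hy₁P, hy₁w', hy₁w⟩ := exists_one_in S.hQ hP1nd
    ((Submodule.span_singleton_le_iff_mem _ _).2 hw'P1) hwP1 hww'
  replace hy₁w' := hy₁w' w' (Submodule.mem_span_singleton_self w')
  have hz₁y₁ : polar Q z₁ y₁ = 0 := by
    obtain ⟨a, b, rfl⟩ := hmP1 y₁ hy₁P
    rw [polar_comm, polar_add_left, polar_smul_left, polar_smul_left, hz₁w, hz₁w']; simp
  obtain ⟨g₁, hg₁, hg₁x⟩ := S.sinB z₁ hz₁B y₁ (hP1B hy₁P) hQz₁ hz₁y₁
  -- the element of `A`
  obtain ⟨z, hz, hpz, hz0, hQz⟩ : ∃ z ∈ A, polar Q p z = 0 ∧ z ≠ 0 ∧ Q z = 0 := by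
    have h1 := finrank_cut1 S.hQ (A := A) (a := p)
    have h2 := S.dA
    obtain ⟨x, hx, hx0, hQx⟩ := exists_sing_in (Q := Q) (A ⊓ perp Q (F ∙ p)) (by omega)
    obtain ⟨hxA, hax⟩ := mem_cut1.1 hx
    exact ⟨x, hxA, hax, hx0, hQx⟩
  have hp'z : polar Q z p' ≠ 0 := by
    intro h0
    exact hz0 (hno z hz (by rw [hzp z hz]; exact hpz) (by rw [hyp z hz, polar_comm]; exact h0) hQz)
  obtain ⟨y, hy, hpy, hzy, hQy⟩ : ∃ y ∈ A, polar Q p y = 0 ∧ polar Q z y = 0 ∧ Q y ≠ 0 := by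
    by_cases h2 : (2 : F) = 0
    · exact ⟨p, hp, by rw [polar_self', h2, zero_mul], by rw [polar_comm]; exact hpz, hQp⟩
    · have h1 := finrank_cut1 S.hQ (A := A) (a := p)
      have h3 := S.dA
      obtain ⟨d, hd, hzd, hQd⟩ := exists_nonsing_perp' S.hQ (nds_cut1 S.hQ h2 S.hA hp hQp) (by omega)
        (mem_cut1.2 ⟨hz, hpz⟩) hz0 hQz
      obtain ⟨hdA, hpd⟩ := mem_cut1.1 hd
      exact ⟨d, hdA, hpd, hzd, hQd⟩
  obtain ⟨g₂, hg₂, hg₂x⟩ := S.sinA z hz y hy hQz hzy
  have hg₂p : g₂ p = p := by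
    rw [hg₂x, siegMap_apply, polar_comm Q z p, hpz, polar_comm Q y p, hpy]; simp
  have hg₂B : ∀ x ∈ perp Q A, g₂ x = x := by
    intro x hx
    rw [hg₂x, siegMap_apply, S.orth hz hx, S.orth hy hx]; simp
  have hg₁A : ∀ x ∈ A, g₁ x = x := by
    intro x hx
    rw [hg₁x, siegMap_apply, S.orth' hx hz₁B, S.orth' hx (hP1B hy₁P)]; simp
  have hg₁w : g₁ w = w - z₁ := by
    rw [hg₁x, siegMap_apply, polar_comm Q z₁ w, hz₁w, polar_comm Q y₁ w, hy₁w]; simp
  have hg₁w' : g₁ w' = w' := by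
    rw [hg₁x, siegMap_apply, polar_comm Q z₁ w', hz₁w', polar_comm Q y₁ w', hy₁w']; simp
  have hg : g₂ * g₁ ∈ M := mul_mem hg₂ hg₁
  have hz'g : (g₂ * g₁) z' = z' - z₁ := by
    rw [← hpw, LinearEquiv.mul_apply, map_add, hg₁A p hp, hg₁w, map_add, hg₂p,
      hg₂B _ (Submodule.sub_mem _ hw hz₁B)]
    abel
  have hy'g : (g₂ * g₁) y' = g₂ p' + w' := by
    rw [← hpw', LinearEquiv.mul_apply, map_add, hg₁A p' hp', hg₁w', map_add, hg₂B _ hw']
  have h1 := h.map S.hM hg
  rw [hz'g, hy'g] at h1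
  have hg₂p' : g₂ p' ∈ A := by
    rw [hg₂x, siegMap_apply]
    exact A.sub_mem (A.sub_mem (A.add_mem hp' (A.smul_mem _ hy)) (A.smul_mem _ hz)) (A.smul_mem _ hz)
  have hQy'' : Q p' + Q w' = 0 := by
    have := hQsum 0 1
    simpa using this
  have hpp' : polar Q p p' + polar Q w w' = 0 := by
    have h2 := h.2.1
    rw [← hpw, ← hpw', polar_add_left, polar_add_right, polar_add_right, S.orth hp hw', S.orth' hp' hw] at h2
    linear_combination h2
  have hQz'' : polar Q z' z₁ = 0 := by rw [hzw z₁ hz₁B]; exact hz₁w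
  have h2 := sf_comm S.hM h h1 hQy'
    (by rw [polar_sub_right, polar_self', h.1, hQz'']; simp)
    (by
      rw [polar_add_right, hzp _ hg₂p', hzw _ hw']
      nth_rw 1 [← hg₂p]
      rw [O_polar (S.hM hg₂), hpp'])
    (by rw [polar_sub_right, polar_comm Q y' z', h.2.1, hyw z₁ hz₁B, hz₁w', sub_zero])
    (by
      rw [polar_add_right, hyp _ hg₂p', hyw _ hw', hg₂x, siegMap_apply, polar_sub_right, polar_sub_right,
        polar_add_right, polar_smul_right, polar_smul_right, polar_smul_right, polar_self', polar_self',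
        polar_comm Q p' y, polar_comm Q p' z]
      simp only [smul_eq_mul]
      have e1 : 2 * Q p' + polar Q z p' * polar Q y p' - polar Q y p' * polar Q z p' -
          Q y * polar Q z p' * polar Q z p' + 2 * Q w' = -(Q y * polar Q z p' * polar Q z p') := by
        linear_combination 2 * hQy''
      rw [e1]
      exact neg_ne_zero.2 (mul_ne_zero (mul_ne_zero hQy hp'z) hp'z))
  have h3 := h2.sub (SF.self h2.1)
  rw [sub_sub_cancel] at h3
  have h4 := (h3.swap hQz₁).add (SF.self hQz₁)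
  rw [sub_add_cancel] at h4
  refine S.finB hz₁B hz₁0 h4 ?_
  intro hcon
  have h5 : p ∈ perp Q A := by
    have := Submodule.sub_mem _ hcon hw
    rwa [← hpw, add_sub_cancel_right] at this
  have h6 : p ∈ A ⊓ perp Q A := ⟨hp, h5⟩
  rw [show A ⊓ perp Q A = ⊥ from S.hA, Submodule.mem_bot] at h6
  exact hQp (by rw [h6, QuadraticMap.map_zero])

/-- Siegel elements of `C` stabilise `A` if the root elements of `C` do -/
theorem stab_of_pairs {C : Submodule F V} (hC : NDs Q C) (hT : TS2 Q C)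
    (h : ∀ z ∈ C, ∀ y ∈ C, Q z = 0 → Q y = 0 → polar Q z y = 0 → ∀ u ∈ A, siegMap Q z y u ∈ A) :
    ∀ z ∈ C, ∀ y ∈ C, Q z = 0 → polar Q z y = 0 → ∀ u ∈ A, siegMap Q z y u ∈ A := by
  intro z hz y hy hQz hzy
  by_cases hz0 : z = 0
  · intro u hu
    rw [hz0, siegMap_apply]; simpa using hu
  obtain ⟨z₄, hz₄, hQz₄, hzz₄⟩ := exists_partner S.hQ hC hz hz0 hQz
  obtain ⟨e, he, f, hf, hQe, hQf, hef⟩ := exists_hyp_cut S.hQ hC hT hz hz₄ hQz hQz₄ hzz₄
  obtain ⟨heC, hze, -⟩ := mem_cut.1 he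
  obtain ⟨hfC, hzf, -⟩ := mem_cut.1 hf
  have key : y ∈ Submodule.span F {x | x ∈ C ∧ polar Q z x = 0 ∧ Q x = 0} := by
    by_contra hcon
    obtain ⟨φ, hφ, hφ0⟩ := Submodule.exists_dual_map_eq_bot_of_notMem hcon inferInstance
    apply hφ
    refine functional_zero (P := C ⊓ perp Q (F ∙ z)) (mem_cut1.2 ⟨heC, hze⟩) (mem_cut1.2 ⟨hfC, hzf⟩) hQe hQf hef φ
      ?_ y (mem_cut1.2 ⟨hy, hzy⟩)
    intro x hx hQx
    obtain ⟨hxC, hzx⟩ := mem_cut1.1 hx
    have : φ x ∈ Submodule.map φ (Submodule.span F {x | x ∈ C ∧ polar Q z x = 0 ∧ Q x = 0}) :=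
      ⟨x, Submodule.subset_span ⟨hxC, hzx, hQx⟩, rfl⟩
    rw [hφ0, Submodule.mem_bot] at this
    exact this
  have hzz : polar Q z z = 0 := by rw [polar_self', hQz, mul_zero]
  have h2 : polar Q z y = 0 ∧ ∀ c : F, ∀ u ∈ A, siegMap Q z (c • y) u ∈ A := by
    clear hy hzy
    induction key using Submodule.span_induction with
    | mem x hx => exact ⟨hx.2.1, fun c => h z hz (c • x) (C.smul_mem _ hx.1) hQz (by rw [Q_smul, hx.2.2, mul_zero])
        (by rw [polar_smul_right, hx.2.1, smul_zero])⟩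
    | zero => exact ⟨polar_zero_right _ _, fun c u hu => by rw [siegMap_apply]; simpa using hu⟩
    | add x x' _ _ ih ih' =>
      refine ⟨by rw [polar_add_right, ih.1, ih'.1, add_zero], fun c u hu => ?_⟩
      have h3 := ih.2 c _ (ih'.2 c u hu)
      have h4 : siegMap Q z (c • x) (siegMap Q z (c • x') u) = siegMap Q z (c • (x + x')) u := by
        have h5 : polar Q x z = 0 := by rw [polar_comm]; exact ih.1
        have h6 : polar Q x' z = 0 := by rw [polar_comm]; exact ih'.1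
        simp only [siegMap_apply, polar_add_right, polar_sub_right, polar_smul_right, ih.1, ih'.1, h5, h6, hzz,
          polar_add_left, polar_smul_left, smul_eq_mul, mul_zero, sub_zero, add_zero, Q_add, Q_smul, smul_add]
        module
      rw [← h4]
      exact h3
    | smul c x hx ih =>
      refine ⟨by rw [polar_smul_right, ih.1, smul_zero], fun c' u hu => ?_⟩
      rw [smul_smul]
      exact ih.2 _ u hu
  have h3 := h2.2 1
  rwa [one_smul] at h3

/-- the main theorem -/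
theorem main (hex : ∃ g ∈ M, ∃ w ∈ A, g w ∉ A) : Om Q ≤ M := by
  obtain ⟨g, hg, w, hw, hgw⟩ := hex
  have hgO := S.hM hg
  obtain ⟨C, hC⟩ : ∃ C, C = A.map g.toLinearMap := ⟨_, rfl⟩
  have hCnd : NDs Q C := by rw [hC]; exact nds_map S.hA hgO
  have hCT : TS2 Q C := by rw [hC]; exact S.tA.map hgO
  have hCd : finrank F C = 4 := by rw [hC, ← S.dA]; exact LinearEquiv.finrank_map_eq g A
  obtain ⟨z', hz', y', hy', hQz', hQy', hzy', u, hu, hxu⟩ : ∃ z' ∈ C, ∃ y' ∈ C, Q z' = 0 ∧ Q y' = 0 ∧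
      polar Q z' y' = 0 ∧ ∃ u ∈ A, siegMap Q z' y' u ∉ A := by
    by_contra hcon
    push Not at hcon
    have h1 := S.stab_of_pairs hCnd hCT hcon
    have h2 : C ≤ A := by
      obtain ⟨w₀, hw₀, hw₀A⟩ : ∃ w₀ ∈ A, w₀ ∉ perp Q C := by
        by_contra hc
        push Not at hc
        have h3 : A ≤ perp Q C := hc
        have h4 : perp Q C = (perp Q A).map g.toLinearMap := by rw [hC, map_perp S.hQ hgO]
        have h5 : A = (perp Q A).map g.toLinearMap := by
          rw [← h4]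
          apply Submodule.eq_of_le_of_finrank_eq h3
          rw [h4, S.dA, ← S.dB]
          exact (LinearEquiv.finrank_map_eq g _).symm
        have h6 : TS2 Q (((perp Q A).map g.toLinearMap).map (g⁻¹ : V ≃ₗ[F] V).toLinearMap) := by
          rw [← h5]
          exact S.tA.map (inv_mem hgO)
        have h7 : ((perp Q A).map g.toLinearMap).map (g⁻¹ : V ≃ₗ[F] V).toLinearMap = perp Q A := by
          rw [← Submodule.map_comp]
          have : ((g⁻¹ : V ≃ₗ[F] V).toLinearMap) ∘ₗ g.toLinearMap = LinearMap.id := by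
            apply LinearMap.ext
            intro x
            show (g⁻¹ * g) x = x
            rw [inv_mul_cancel]; rfl
          rw [this, Submodule.map_id]
        rw [h7] at h6
        exact S.tB h6
      exact le_of_sieg_stable S.hQ hCnd (by omega) h1 hw₀ hw₀A
    have h3 : C = A := Submodule.eq_of_le_of_finrank_eq h2 (by rw [hCd, S.dA])
    apply hgw
    rw [← h3, hC]
    exact ⟨w, hw, rfl⟩
  have hSF : SF Q M z' y' := by
    rw [hC] at hz' hy'
    obtain ⟨a, ha, rfl⟩ := hz'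
    obtain ⟨b, hb, rfl⟩ := hy'
    refine SF.map S.hM (S.sfA ha hb ?_ ?_) hg
    · rw [← hgO]; exact hQz'
    · rw [← O_polar hgO]; exact hzy'
  by_cases hno : ∀ x ∈ A, polar Q z' x = 0 → polar Q y' x = 0 → Q x = 0 → x = 0
  · exact S.caseC hSF hQy' hno
  · push Not at hno
    obtain ⟨z₁, hz₁, h1, h2, h3, h4⟩ := hno
    exact S.caseB hSF hu hxu hz₁ h1 h2 h4 h3

end FD

omit [Finite F] [FiniteDimensional F V] in
/-- sums of orthogonal totally singular subspaces -/
theorem ts_sup {X Y : Submodule F V} (hX : ∀ x ∈ X, Q x = 0) (hY : ∀ y ∈ Y, Q y = 0)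
    (h : ∀ x ∈ X, ∀ y ∈ Y, polar Q x y = 0) : ∀ x ∈ X ⊔ Y, Q x = 0 := by
  intro x hx
  obtain ⟨a, ha, b, hb, rfl⟩ := Submodule.mem_sup.1 hx
  rw [Q_add, hX a ha, hY b hb, h a ha b hb]; simp

omit [Finite F] in
theorem ts_pair {x y : V} (hx : Q x = 0) (hy : Q y = 0) (hxy : polar Q x y = 0) (hx0 : x ≠ 0) (hyx : y ∉ F ∙ x) :
    (∀ u ∈ Submodule.span F {x, y}, Q u = 0) ∧ finrank F (Submodule.span F {x, y}) = 2 := by
  constructor
  · intro u hu
    obtain ⟨a, b, rfl⟩ := Submodule.mem_span_pair.1 hu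
    rw [Q_add, Q_smul, Q_smul, hx, hy, polar_smul_left, polar_smul_right, hxy]; simp
  · have hli : LinearIndependent F ![x, y] := by
      rw [LinearIndependent.pair_iff' hx0]
      intro a ha
      exact hyx (Submodule.mem_span_singleton.2 ⟨a, ha⟩)
    have h1 := finrank_span_eq_card hli
    rw [Matrix.range_cons, Matrix.range_cons, Matrix.range_empty, Set.union_empty, Set.singleton_union] at h1
    simpa using h1

/-- exactly one of two complementary 4-spaces contains a totally singular plane -/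
theorem ts2_or (hQ : Nd Q) {A : Submodule F V} (hA : NDs Q A) (hdA : finrank F A = 4)
    (hdB : finrank F (perp Q A) = 4)
    (hno : ¬ ∃ U : Submodule F V, (∀ x ∈ U, Q x = 0) ∧ finrank F U = 4) :
    (TS2 Q A ∧ ¬ TS2 Q (perp Q A)) ∨ (TS2 Q (perp Q A) ∧ ¬ TS2 Q A) := by
  have hB := nds_perp hQ hA
  have hAB : ∀ a ∈ A, ∀ b ∈ perp Q A, polar Q a b = 0 := fun a ha b hb => mem_perp.1 hb a ha
  have hBA : ∀ a ∈ A, ∀ b ∈ perp Q A, polar Q b a = 0 := fun a ha b hb => mem_perp'.1 hb a ha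
  by_cases h1 : TS2 Q A
  · left
    refine ⟨h1, fun h2 => hno ?_⟩
    obtain ⟨x, hx, y, hy, a1, a2, a3, a4, a5⟩ := h1
    obtain ⟨x', hx', y', hy', b1, b2, b3, b4, b5⟩ := h2
    obtain ⟨c1, c2⟩ := ts_pair a1 a2 a3 a4 a5
    obtain ⟨d1, d2⟩ := ts_pair b1 b2 b3 b4 b5
    have e1 : Submodule.span F {x, y} ≤ A := by
      rw [Submodule.span_le]
      rintro u (rfl | rfl)
      · exact hx
      · exact hy
    have e2 : Submodule.span F {x', y'} ≤ perp Q A := by
      rw [Submodule.span_le]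
      rintro u (rfl | rfl)
      · exact hx'
      · exact hy'
    refine ⟨_, ts_sup c1 d1 fun u hu v hv => hAB u (e1 hu) v (e2 hv), ?_⟩
    have h3 := Submodule.finrank_sup_add_finrank_inf_eq (Submodule.span F {x, y}) (Submodule.span F {x', y'})
    have h4 : Submodule.span F {x, y} ⊓ Submodule.span F {x', y'} = ⊥ := by
      rw [eq_bot_iff, ← (show A ⊓ perp Q A = ⊥ from hA)]
      exact inf_le_inf e1 e2
    rw [h4, finrank_bot] at h3
    omega
  · right
    refine ⟨?_, h1⟩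
    by_contra h2
    apply hno
    have key : ∀ C : Submodule F V, NDs Q C → finrank F C = 4 → ¬ TS2 Q C → ∃ z ∈ C, ∃ z4 ∈ C, Q z = 0 ∧
        polar Q z z4 = 1 ∧ ∃ P ≤ C, finrank F P = 2 ∧ (∀ x ∈ P, Q x = 0 → x = 0) ∧ (∀ x ∈ P, polar Q z x = 0) ∧
        ∀ x ∈ P, polar Q z4 x = 0 := by
      intro C hC hCd hCT
      obtain ⟨z, hz, z4, hz4, hQz, hQz4, hzz4⟩ := exists_pair_in hQ hC (by omega)
      have hz0 : z ≠ 0 := by rintro rfl; rw [polar_zero_left] at hzz4; exact zero_ne_one hzz4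
      have h3 := finrank_cut hQ C z z4
      have han : ∀ x ∈ C ⊓ perp Q (Submodule.span F {z, z4}), Q x = 0 → x = 0 := by
        intro x hx hQx
        by_contra hx0
        obtain ⟨hxC, hzx, hz4x⟩ := mem_cut.1 hx
        apply hCT
        refine ⟨z, hz, x, hxC, hQz, hQx, hzx, hz0, fun hm => ?_⟩
        obtain ⟨c, rfl⟩ := Submodule.mem_span_singleton.1 hm
        rw [polar_smul_right, polar_comm Q z4 z, hzz4] at hz4x
        have : c = 0 := by simpa using hz4x
        rw [this, zero_smul] at hx0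
        exact hx0 rfl
      refine ⟨z, hz, z4, hz4, hQz, hzz4, _, inf_le_left, ?_, han, fun x hx => (mem_cut.1 hx).2.1,
        fun x hx => (mem_cut.1 hx).2.2⟩
      by_contra hne
      obtain ⟨x, hx, hx0, hQx⟩ := exists_sing_in (Q := Q) (C ⊓ perp Q (Submodule.span F {z, z4})) (by omega)
      exact hx0 (han x hx hQx)
    obtain ⟨z, hz, z4, hz4, hQz, hzz4, P, hPC, hP, hPan, hPz, hPz4⟩ := key A hA hdA h1
    obtain ⟨z', hz', z4', hz4', hQz', hzz4', P', hPC', hP', hPan', hPz', hPz4'⟩ := key _ hB hdB h2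
    have hz0 : z ≠ 0 := by rintro rfl; rw [polar_zero_left] at hzz4; exact zero_ne_one hzz4
    have hz'0 : z' ≠ 0 := by rintro rfl; rw [polar_zero_left] at hzz4'; exact zero_ne_one hzz4'
    obtain ⟨x, hx, y, hy, a1, a2, a3, a4, a5⟩ := ts2_of_anis hP hPan hP' hPan' fun x hx y hy =>
      hAB x (hPC hx) y (hPC' hy)
    obtain ⟨c1, c2⟩ := ts_pair a1 a2 a3 a4 a5
    have hz'z : z' ∉ F ∙ z := by
      intro hm
      have h3 : z' ∈ A ⊓ perp Q A := ⟨(Submodule.span_singleton_le_iff_mem _ _).2 hz hm, hz'⟩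
      rw [show A ⊓ perp Q A = ⊥ from hA] at h3
      exact hz'0 h3
    obtain ⟨d1, d2⟩ := ts_pair hQz hQz' (hAB z hz z' hz') hz0 hz'z
    have hor : ∀ u ∈ P ⊔ P', polar Q z u = 0 ∧ polar Q z' u = 0 ∧ polar Q z4 u = 0 ∧ polar Q z4' u = 0 := by
      intro u hu
      obtain ⟨a, ha, b, hb, rfl⟩ := Submodule.mem_sup.1 hu
      refine ⟨?_, ?_, ?_, ?_⟩
      · rw [polar_add_right, hPz a ha, hAB z hz b (hPC' hb), add_zero]
      · rw [polar_add_right, hPz' b hb, hBA a (hPC ha) z' hz', add_zero]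
      · rw [polar_add_right, hPz4 a ha, hAB z4 hz4 b (hPC' hb), add_zero]
      · rw [polar_add_right, hPz4' b hb, hBA a (hPC ha) z4' hz4', add_zero]
    have hle : Submodule.span F {x, y} ≤ P ⊔ P' := by
      rw [Submodule.span_le]
      rintro u (rfl | rfl)
      · exact hx
      · exact hy
    refine ⟨_, ts_sup d1 c1 ?_, ?_⟩
    · intro u hu v hv
      obtain ⟨a, b, rfl⟩ := Submodule.mem_span_pair.1 hu
      obtain ⟨h3, h4, -⟩ := hor v (hle hv)
      rw [polar_add_left, polar_smul_left, polar_smul_left, h3, h4]; simp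
    · have h3 := Submodule.finrank_sup_add_finrank_inf_eq (Submodule.span F {z, z'}) (Submodule.span F {x, y})
      have h4 : Submodule.span F {z, z'} ⊓ Submodule.span F {x, y} = ⊥ := by
        rw [eq_bot_iff]
        rintro u ⟨hu, hv⟩
        obtain ⟨a, b, rfl⟩ := Submodule.mem_span_pair.1 hu
        obtain ⟨-, -, h5, h6⟩ := hor _ (hle hv)
        rw [polar_add_right, polar_smul_right, polar_smul_right, polar_comm Q z4 z, hzz4, hAB z4 hz4 z' hz'] at h5
        rw [polar_add_right, polar_smul_right, polar_smul_right, hBA z hz z4' hz4', polar_comm Q z4' z', hzz4'] at h6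
        have ha : a = 0 := by simpa using h5
        have hb : b = 0 := by simpa using h6
        rw [ha, hb]; simp
      rw [h4, finrank_bot] at h3
      omega

end Cfsg.Agent.Lib.OrthFourH94
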