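import Mathlib
import Cfsg.Prelude.Def_GeometricClasses
import Cfsg.Agent.Lib.GeoBridge
import Cfsg.Agent.Lib.OrthExtH94

set_option autoImplicit false
set_option linter.unusedSimpArgs false

/-!
Quadratic field subalgebras of matrix algebras: generators, adjoints, normalisers.
-/

namespace Cfsg.Agent.Lib.QuadFieldH94

open Cfsg Cfsg.Geo Cfsg.Agent.Lib.GeoBridge Module Cfsg.Agent.Lib.OrthExtH94
open scoped MatrixGroups Matrix

variable {ι : Type} [Fintype ι] [DecidableEq ι] [Nonempty ι] {F : Type*} [Field F]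

omit [Nonempty ι] in
theorem eq_zero_or {r : ℕ} {K : Subalgebra F (Matrix ι ι F)} (hK : IsFieldSubalgebra r K)
    {x y : Matrix ι ι F} (hx : x ∈ K) (hy : y ∈ K) (h : x * y = 0) : x = 0 ∨ y = 0 := by
  by_cases hx0 : x = 0
  · exact Or.inl hx0
  · right
    obtain ⟨z, hz, hxz⟩ := hK.inv x hx hx0
    have h1 : z * (x * y) = y := by
      rw [← mul_assoc, hK.comm z hz x hx, hxz, one_mul]
    rw [← h1, h, mul_zero]

/-- generators of a quadratic subfield -/
theorem exists_gen {K : Subalgebra F (Matrix ι ι F)} (hK : IsFieldSubalgebra 2 K) :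
    ∃ κ ∈ K, ∃ T N : F, κ * κ = T • κ - N • (1 : Matrix ι ι F) ∧
      (∀ k ∈ K, ∃ a b : F, k = a • (1 : Matrix ι ι F) + b • κ) ∧
      (∀ a b : F, b * b + a * b * T + a * a * N = 0 → a = 0) ∧
      (∀ c : F, κ ≠ c • (1 : Matrix ι ι F)) := by
  have h1 : (1 : K) ≠ 0 := by
    intro h
    have h2 : (1 : Matrix ι ι F) = 0 := congrArg Subtype.val h
    exact one_ne_zero h2
  obtain ⟨κ, hκ⟩ : ∃ κ : K, κ ∉ Submodule.span F {(1 : K)} := by
    by_contra hcon
    push Not at hcon
    have h2 : Submodule.span F {(1 : K)} = ⊤ := by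
      rw [eq_top_iff]; intro x _; exact hcon x
    have h3 := finrank_span_singleton (K := F) h1
    rw [h2, finrank_top, hK.finrank_eq] at h3
    omega
  have : FiniteDimensional F K := FiniteDimensional.of_finrank_pos (by rw [hK.finrank_eq]; omega)
  have hli : LinearIndependent F ![(1 : K), κ] := by
    rw [LinearIndependent.pair_iff]
    intro a b hab
    by_cases hb : b = 0
    · rw [hb, zero_smul, add_zero] at hab
      exact ⟨(smul_eq_zero.1 hab).resolve_right h1, hb⟩
    · exfalso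
      apply hκ
      rw [Submodule.mem_span_singleton]
      refine ⟨-(b⁻¹ * a), ?_⟩
      have h2 : b⁻¹ • (a • (1 : K) + b • κ) = 0 := by rw [hab, smul_zero]
      rw [smul_add, smul_smul, smul_smul, inv_mul_cancel₀ hb, one_smul] at h2
      rw [neg_smul]
      exact neg_eq_of_add_eq_zero_right h2
  have hspan : Submodule.span F {(1 : K), κ} = ⊤ := by
    have h2 := hli.span_eq_top_of_card_eq_finrank (by rw [hK.finrank_eq]; rfl)
    rw [← h2]
    congr 1
    simp [Set.pair_comm]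
  have hall : ∀ k ∈ K, ∃ a b : F, k = a • (1 : Matrix ι ι F) + b • (κ : Matrix ι ι F) := by
    intro k hk
    have h2 : (⟨k, hk⟩ : K) ∈ Submodule.span F {(1 : K), κ} := by rw [hspan]; trivial
    obtain ⟨a, b, hab⟩ := Submodule.mem_span_pair.1 h2
    exact ⟨a, b, (congrArg Subtype.val hab).symm⟩
  have hκc : ∀ c : F, (κ : Matrix ι ι F) ≠ c • (1 : Matrix ι ι F) := by
    intro c hc
    apply hκ
    rw [Submodule.mem_span_singleton]
    exact ⟨c, Subtype.ext hc.symm⟩
  obtain ⟨a, b, hab⟩ := hall _ (K.mul_mem κ.2 κ.2)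
  refine ⟨κ, κ.2, b, -a, ?_, hall, ?_, hκc⟩
  · rw [hab]; module
  · intro x y hxy
    by_contra hx
    have h2 : (x • (κ : Matrix ι ι F) + y • (1 : Matrix ι ι F)) *
        ((y + x * b) • (1 : Matrix ι ι F) - x • (κ : Matrix ι ι F)) = 0 := by
      have h3 : (x • (κ : Matrix ι ι F) + y • (1 : Matrix ι ι F)) *
        ((y + x * b) • (1 : Matrix ι ι F) - x • (κ : Matrix ι ι F)) =
        -(x * x) • ((κ : Matrix ι ι F) * κ) + (x * x * b) • (κ : Matrix ι ι F) +
          (y * (y + x * b)) • (1 : Matrix ι ι F) := by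
        simp only [add_mul, mul_sub, smul_mul_smul_comm, mul_one, one_mul]
        module
      rw [h3, hab]
      have h4 : -(x * x) • (a • (1 : Matrix ι ι F) + b • (κ : Matrix ι ι F)) +
          (x * x * b) • (κ : Matrix ι ι F) + (y * (y + x * b)) • (1 : Matrix ι ι F) =
          (y * y + x * y * b + x * x * -a) • (1 : Matrix ι ι F) := by module
      rw [h4, hxy, zero_smul]
    rcases eq_zero_or hK (K.add_mem (K.smul_mem κ.2 _) (K.smul_mem K.one_mem _))
      (K.sub_mem (K.smul_mem K.one_mem _) (K.smul_mem κ.2 _)) h2 with h3 | h3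
    · apply hκc (-(x⁻¹ * y))
      have h4 : x⁻¹ • (x • (κ : Matrix ι ι F) + y • (1 : Matrix ι ι F)) = 0 := by rw [h3, smul_zero]
      rw [smul_add, smul_smul, smul_smul, inv_mul_cancel₀ hx, one_smul] at h4
      rw [neg_smul]
      exact eq_neg_of_add_eq_zero_left h4
    · apply hκc (x⁻¹ * (y + x * b))
      have h4 : x⁻¹ • ((y + x * b) • (1 : Matrix ι ι F) - x • (κ : Matrix ι ι F)) = 0 := by
        rw [h3, smul_zero]
      rw [smul_sub, smul_smul, smul_smul, inv_mul_cancel₀ hx, one_smul] at h4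
      exact (sub_eq_zero.1 h4).symm

/-- normalisers in terms of a generator -/
theorem mem_normalizer_iff {K : Subalgebra F (Matrix ι ι F)} {κ : Matrix ι ι F} (hκ : κ ∈ K)
    (hall : ∀ k ∈ K, ∃ a b : F, k = a • (1 : Matrix ι ι F) + b • κ)
    (hκc : ∀ c : F, κ ≠ c • (1 : Matrix ι ι F)) (g : GL ι F) :
    g ∈ subalgebraNormalizer K ↔ Nrm (Matrix.toLin' κ) (le g) := by
  have hNrm : Nrm (Matrix.toLin' κ) (le g) ↔
      ∃ a b : F, (g : Matrix ι ι F) * κ = a • (g : Matrix ι ι F) + b • (κ * (g : Matrix ι ι F)) := by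
    constructor
    · rintro ⟨a, b, h⟩
      refine ⟨a, b, ?_⟩
      apply Matrix.toLin'.injective
      apply LinearMap.ext
      intro x
      have h1 := h x
      simp only [le_apply, Matrix.toLin'_apply] at h1
      simp only [Matrix.toLin'_apply, Matrix.add_mulVec, Matrix.smul_mulVec, ← Matrix.mulVec_mulVec]
      exact h1
    · rintro ⟨a, b, h⟩
      refine ⟨a, b, fun x => ?_⟩
      simp only [le_apply, Matrix.toLin'_apply]
      rw [Matrix.mulVec_mulVec, h, Matrix.add_mulVec, Matrix.smul_mulVec, Matrix.smul_mulVec,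
        ← Matrix.mulVec_mulVec]
  have hgg : (g : Matrix ι ι F) * ((g⁻¹ : GL ι F) : Matrix ι ι F) = 1 := by
    rw [← Units.val_mul, mul_inv_cancel, Units.val_one]
  have hgg' : ((g⁻¹ : GL ι F) : Matrix ι ι F) * (g : Matrix ι ι F) = 1 := by
    rw [← Units.val_mul, inv_mul_cancel, Units.val_one]
  rw [hNrm]
  constructor
  · intro h
    obtain ⟨a, b, hab⟩ := hall _ ((h κ).1 hκ)
    refine ⟨a, b, ?_⟩
    have h1 : (g : Matrix ι ι F) * κ * ((g⁻¹ : GL ι F) : Matrix ι ι F) * (g : Matrix ι ι F) =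
        (g : Matrix ι ι F) * κ := by
      rw [mul_assoc, hgg', mul_one]
    rw [← h1, hab, add_mul, smul_mul_assoc, smul_mul_assoc, one_mul]
  · rintro ⟨a, b, hab⟩
    have h1 : (g : Matrix ι ι F) * κ * ((g⁻¹ : GL ι F) : Matrix ι ι F) =
        a • (1 : Matrix ι ι F) + b • κ := by
      rw [hab, add_mul, smul_mul_assoc, smul_mul_assoc, mul_assoc, hgg, mul_one]
    have hb : b ≠ 0 := by
      rintro rfl
      apply hκc a
      have h2 : ((g⁻¹ : GL ι F) : Matrix ι ι F) * ((g : Matrix ι ι F) * κ *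
          ((g⁻¹ : GL ι F) : Matrix ι ι F)) * (g : Matrix ι ι F) = κ := by
        rw [mul_assoc, mul_assoc ((g : Matrix ι ι F) * κ), hgg', mul_one, ← mul_assoc, hgg', one_mul]
      rw [← h2, h1, zero_smul, add_zero, mul_smul_comm, mul_one, smul_mul_assoc, hgg']
    have hconj : ∀ x y : F, (g : Matrix ι ι F) * (x • (1 : Matrix ι ι F) + y • κ) *
        ((g⁻¹ : GL ι F) : Matrix ι ι F) = (x + y * a) • (1 : Matrix ι ι F) + (y * b) • κ := by
      intro x y
      rw [mul_add, add_mul, mul_smul_comm, mul_smul_comm, mul_one, smul_mul_assoc, smul_mul_assoc, h1, hgg]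
      module
    have hKm : ∀ x y : F, x • (1 : Matrix ι ι F) + y • κ ∈ K := fun x y =>
      K.add_mem (K.smul_mem K.one_mem _) (K.smul_mem hκ _)
    intro k
    constructor
    · intro hk
      obtain ⟨x, y, rfl⟩ := hall k hk
      rw [hconj]
      exact hKm _ _
    · intro hk
      obtain ⟨x, y, hxy⟩ := hall _ hk
      have h2 : (g : Matrix ι ι F) * k * ((g⁻¹ : GL ι F) : Matrix ι ι F) =
          (g : Matrix ι ι F) * ((x - y * b⁻¹ * a) • (1 : Matrix ι ι F) + (y * b⁻¹) • κ) *
            ((g⁻¹ : GL ι F) : Matrix ι ι F) := by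
        have e1 : y * b⁻¹ * b = y := by rw [mul_assoc, inv_mul_cancel₀ hb, mul_one]
        rw [hxy, hconj, e1]
        congr 2
        ring
      have h3 : k = (x - y * b⁻¹ * a) • (1 : Matrix ι ι F) + (y * b⁻¹) • κ := by
        have h4 := congrArg (fun m => ((g⁻¹ : GL ι F) : Matrix ι ι F) * m * (g : Matrix ι ι F)) h2
        have h5 : ∀ m : Matrix ι ι F, ((g⁻¹ : GL ι F) : Matrix ι ι F) * ((g : Matrix ι ι F) * m *
            ((g⁻¹ : GL ι F) : Matrix ι ι F)) * (g : Matrix ι ι F) = m := by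
          intro m
          rw [mul_assoc, mul_assoc ((g : Matrix ι ι F) * m), hgg', mul_one, ← mul_assoc, hgg', one_mul]
        simp only [h5] at h4
        exact h4
      rw [h3]
      exact hKm _ _

/-- the adjoint of a generator of a quadratic subfield with nontrivial adjoint map -/
theorem adjoint_eq {K : Subalgebra F (Matrix ι ι F)} (hK : IsFieldSubalgebra 2 K)
    (f : LinearMap.BilinForm F (ι → F)) (hf : ∀ x, (∀ y, f y x = 0) → x = 0)
    (hac : ∀ k ∈ K, ∃ k' ∈ K, ∀ u v : ι → F, f (k *ᵥ u) v = f u (k' *ᵥ v))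
    (hnsa : ¬ ∀ k ∈ K, ∀ u v : ι → F, f (k *ᵥ u) v = f u (k *ᵥ v))
    {κ : Matrix ι ι F} (hκ : κ ∈ K) {T N : F} (hsq : κ * κ = T • κ - N • (1 : Matrix ι ι F))
    (hall : ∀ k ∈ K, ∃ a b : F, k = a • (1 : Matrix ι ι F) + b • κ) (u v : ι → F) :
    f (κ *ᵥ u) v = T * f u v - f u (κ *ᵥ v) := by
  obtain ⟨κ', hκ', h⟩ := hac κ hκ
  have h1 : κ' * κ' = T • κ' - N • (1 : Matrix ι ι F) := by
    apply Matrix.toLin'.injective
    apply LinearMap.ext
    intro x
    rw [← sub_eq_zero]
    apply hf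
    intro y
    simp only [Matrix.toLin'_apply, Matrix.sub_mulVec, Matrix.smul_mulVec, ← Matrix.mulVec_mulVec,
      Matrix.one_mulVec, map_sub, map_smul, ← h]
    rw [Matrix.mulVec_mulVec, hsq]
    simp only [Matrix.sub_mulVec, Matrix.smul_mulVec, Matrix.one_mulVec, map_sub, map_smul,
      LinearMap.sub_apply, LinearMap.smul_apply]
    simp [h]
  have h2 : (κ' - κ) * (κ' - (T • (1 : Matrix ι ι F) - κ)) = 0 := by
    have hc := hK.comm κ hκ κ' hκ'
    simp only [sub_mul, mul_sub, mul_smul_comm, mul_one, smul_mul_assoc, one_mul, h1, hsq, hc]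
    module
  rcases eq_zero_or hK (K.sub_mem hκ' hκ)
    (K.sub_mem hκ' (K.sub_mem (K.smul_mem K.one_mem _) hκ)) h2 with h3 | h3
  · exfalso
    apply hnsa
    have h4 : κ' = κ := sub_eq_zero.1 h3
    rw [h4] at h
    intro k hk u v
    obtain ⟨a, b, rfl⟩ := hall k hk
    simp only [Matrix.add_mulVec, Matrix.smul_mulVec, Matrix.one_mulVec, map_add, map_smul,
      LinearMap.add_apply, LinearMap.smul_apply, h]
  · have h4 : κ' = T • (1 : Matrix ι ι F) - κ := sub_eq_zero.1 h3
    rw [h, h4]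
    simp only [Matrix.sub_mulVec, Matrix.smul_mulVec, Matrix.one_mulVec, map_sub, map_smul, smul_eq_mul]

end Cfsg.Agent.Lib.QuadFieldH94
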