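import Mathlib
import Cfsg.Agent.Lib.LowOrBridge
import Cfsg.Agent.Lib.OrthPoint
import Cfsg.Agent.Lib.FldOBrH94
import Cfsg.Agent.Lib.OrthExtLowH94
import Cfsg.Agent.Lib.QuadFieldH94
import Cfsg.Agent.Lib.Dk6H94
import Cfsg.Agent.Lib.RfnEH94
import Cfsg.Agent.Lib.OrthNdBridge

set_option autoImplicit false
set_option linter.unusedSectionVars false
set_option linter.unusedSimpArgs false
set_option linter.unusedVariables false

/-!
Maximal subgroups of orthogonal groups of dimension at least 10: common parts of the lists.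
-/

namespace Cfsg.Agent.Lib.OrthListH94

open Cfsg.Agent.Lib.Quad Cfsg.Agent.Lib.OrthBridge Cfsg.Agent.Lib.OrthNdBridge Cfsg.Agent.Lib.OrthNd
  Cfsg.Agent.Lib.GeoBridge Cfsg.Agent.Lib.OrthPoint Cfsg.Agent.Lib.FldOH94 Cfsg.Agent.Lib
  Cfsg.Agent.Lib.OrthExtH94 Cfsg.Agent.Lib.QuadFieldH94 Cfsg.Agent.Lib.OrthMax QuadraticMap
open scoped Matrix

variable {F : Type*} [Field F] [Fintype F] {n : ℕ} {Q : (Fin n → F) → F}

/-- nondegenerate subspaces with a large complement -/
theorem nd_max (hQ : Cfsg.Geo.IsNondegenerateQuadraticForm Q) (hn : 10 ≤ n) {W : Submodule F (Fin n → F)}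
    (hW0 : W ≠ ⊥) (hW1 : W ≠ ⊤) (hW : NDs (qf hQ) W)
    (h5 : 5 ≤ Module.finrank F (perp (qf hQ) W))
    (hsw : ∀ g ∈ Om (qf hQ), ¬ ∀ w ∈ perp (qf hQ) W, g w ∈ W)
    (hexc : Module.finrank F W = 2 → 4 ≤ Nat.card F ∨ ∀ w ∈ W, qf hQ w = 0 → w = 0) :
    Cfsg.Geo.IsMaximalIn (Cfsg.Geo.omegaGL Q) (Cfsg.Geo.subspaceStabilizer W ⊓ Cfsg.Geo.omegaGL Q) := by
  have hfr : Module.finrank F (Fin n → F) = n := Module.finrank_fin_fun F
  have hnd := nd_qf hQ
  have hgen : GenHyp (qf hQ) := Or.inr (Or.inl (by omega))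
  refine Om_stab_max_of (Q := qf hQ) hnd (by omega) hW0 hW1 ?_
  intro M hM hH hex
  exact LowNd.nd_stab_max5 hnd hgen (hM.trans Om_le) hW h5 hH hex (fun g hg => hsw g (hM hg)) hexc

/-- nondegenerate subspaces, different dimensions -/
theorem nd_max' (hQ : Cfsg.Geo.IsNondegenerateQuadraticForm Q) (hn : 10 ≤ n) {W : Submodule F (Fin n → F)}
    (hW0 : W ≠ ⊥) (hW1 : W ≠ ⊤) (hW : NDs (qf hQ) W) (h5 : 5 ≤ Module.finrank F (perp (qf hQ) W))
    (hlt : Module.finrank F W < Module.finrank F (perp (qf hQ) W))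
    (hexc : Module.finrank F W = 2 → 4 ≤ Nat.card F ∨ ∀ w ∈ W, qf hQ w = 0 → w = 0) :
    Cfsg.Geo.IsMaximalIn (Cfsg.Geo.omegaGL Q) (Cfsg.Geo.subspaceStabilizer W ⊓ Cfsg.Geo.omegaGL Q) := by
  refine nd_max hQ hn hW0 hW1 hW h5 ?_ hexc
  intro g hg hgw
  have hle' : (perp (qf hQ) W).map g.toLinearMap ≤ W := by
    rintro _ ⟨x, hx, rfl⟩; exact hgw x hx
  have h3 : Module.finrank F ((perp (qf hQ) W).map g.toLinearMap) = Module.finrank F (perp (qf hQ) W) :=
    LinearEquiv.finrank_map_eq g _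
  have h4 := Submodule.finrank_mono hle'
  omega

/-- nondegenerate subspaces of dimension different from `n / 2`, `2` and `n - 2` -/
theorem nd_any (hQ : Cfsg.Geo.IsNondegenerateQuadraticForm Q) (hn : 10 ≤ n) {W : Submodule F (Fin n → F)}
    (hW0 : W ≠ ⊥) (hW1 : W ≠ ⊤) (hWn : Cfsg.Geo.IsNondegenerateOn (QuadraticMap.polar Q) W)
    (hne : 2 * Module.finrank F W ≠ n) (h2 : Module.finrank F W ≠ 2) (h2' : Module.finrank F W + 2 ≠ n) :
    Cfsg.Geo.IsMaximalIn (Cfsg.Geo.omegaGL Q) (Cfsg.Geo.subspaceStabilizer W ⊓ Cfsg.Geo.omegaGL Q) := by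
  have hfr : Module.finrank F (Fin n → F) = n := Module.finrank_fin_fun F
  have hnd := nd_qf hQ
  have hgen : GenHyp (qf hQ) := Or.inr (Or.inl (by omega))
  have hW := nds_of_nondeg (Q := qf hQ) hWn
  have hd := hnd.finrank_add_finrank_perp W
  rw [hfr] at hd
  have hpp := hnd.perp_perp W
  rcases Nat.lt_or_ge (Module.finrank F W) (Module.finrank F (perp (qf hQ) W)) with h4 | h4
  · exact nd_max' hQ hn hW0 hW1 hW (by omega) h4 (by intro h; omega)
  · refine Om_stab_max_of (Q := qf hQ) hnd (by omega) hW0 hW1 ?_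
    intro M hM hH hex
    refine LowNd.nd_stab_max5 (W := perp (qf hQ) W) hnd hgen (hM.trans Om_le) (nds_perp hnd hW)
      (by rw [hpp]; omega) ?_ ?_ ?_ ?_
    · intro g hg hgw
      refine hH g hg ?_
      have := stab_perp (Om_le hg) hgw
      rwa [hpp] at this
    · obtain ⟨g, hg, w, hw, hgw⟩ := hex
      by_contra hcon
      push Not at hcon
      have := stab_perp (Om_le (hM hg)) (hcon g hg)
      rw [hpp] at this
      exact hgw (this w hw)
    · intro g hg hgw
      rw [hpp] at hgw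
      have hle' : W.map g.toLinearMap ≤ perp (qf hQ) W := by
        rintro _ ⟨x, hx, rfl⟩; exact hgw x hx
      have h3 : Module.finrank F (W.map g.toLinearMap) = Module.finrank F W := LinearEquiv.finrank_map_eq g _
      have h4 := Submodule.finrank_mono hle'
      omega
    · intro h; omega

/-- nondegenerate lines of minus type -/
theorem nd_two (hQ : Cfsg.Geo.IsNondegenerateQuadraticForm Q) (hn : 10 ≤ n) {W : Submodule F (Fin n → F)}
    (hW2 : Module.finrank F W = 2) (hWn : Cfsg.Geo.IsNondegenerateOn (QuadraticMap.polar Q) W)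
    (h : 4 ≤ Fintype.card F ∨ ¬ Cfsg.Geo.IsPlusTypeOn Q W) :
    Cfsg.Geo.IsMaximalIn (Cfsg.Geo.omegaGL Q) (Cfsg.Geo.subspaceStabilizer W ⊓ Cfsg.Geo.omegaGL Q) := by
  have hfr : Module.finrank F (Fin n → F) = n := Module.finrank_fin_fun F
  have hnd := nd_qf hQ
  have hW := nds_of_nondeg (Q := qf hQ) hWn
  have hd := hnd.finrank_add_finrank_perp W
  rw [hfr] at hd
  refine nd_max' hQ hn ?_ ?_ hW (by omega) (by omega) ?_
  · rintro rfl; rw [finrank_bot] at hW2; omega
  · rintro rfl; rw [finrank_top] at hW2; omega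
  · intro _
    rcases h with h4 | h4
    · left
      rw [Nat.card_eq_fintype_card]; exact h4
    · right
      by_contra hcon
      exact h4 (plus_of_not (Q := qf hQ) hW2 hcon)

theorem nd_four (hQ : Cfsg.Geo.IsNondegenerateQuadraticForm Q) (hn : 10 ≤ n) {W : Submodule F (Fin n → F)}
    (hW4 : Module.finrank F W = 4) (hWn : Cfsg.Geo.IsNondegenerateOn (QuadraticMap.polar Q) W) :
    Cfsg.Geo.IsMaximalIn (Cfsg.Geo.omegaGL Q) (Cfsg.Geo.subspaceStabilizer W ⊓ Cfsg.Geo.omegaGL Q) := by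
  have hfr : Module.finrank F (Fin n → F) = n := Module.finrank_fin_fun F
  refine nd_any hQ hn ?_ ?_ hWn (by omega) (by omega) (by omega)
  · rintro rfl; rw [finrank_bot] at hW4; omega
  · rintro rfl; rw [finrank_top] at hW4; omega

/-- nonsingular points -/
theorem point (hQ : Cfsg.Geo.IsNondegenerateQuadraticForm Q) (hn : 10 ≤ n) {v : Fin n → F} (hv : Q v ≠ 0) :
    Cfsg.Geo.IsMaximalIn (Cfsg.Geo.omegaGL Q) (Cfsg.Geo.subspaceStabilizer (Submodule.span F {v}) ⊓ Cfsg.Geo.omegaGL Q) := by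
  have hfr : Module.finrank F (Fin n → F) = n := Module.finrank_fin_fun F
  have hnd := nd_qf hQ
  have hgen : GenHyp (qf hQ) := Or.inr (Or.inl (by omega))
  have hv0 : v ≠ 0 := by rintro rfl; exact hv (QuadraticMap.map_zero (qf hQ))
  refine Om_stab_max_of (Q := qf hQ) hnd (by omega) (by simpa using hv0) ?_ ?_
  · intro h
    have h1 : Module.finrank F (Submodule.span F {v}) = 1 := finrank_span_singleton hv0
    rw [h, finrank_top, hfr] at h1
    omega
  · intro M hM hH ⟨g, hg, w, hw, hgw⟩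
    refine point_max hnd hgen (by omega) (hM.trans Om_le) hv0 ?_ ?_
    · intro x hx hxv
      apply hH x hx
      intro w hw
      obtain ⟨c, rfl⟩ := Submodule.mem_span_singleton.1 hw
      rw [LinearEquiv.map_smul, hxv]
      exact hw
    · refine ⟨g, hg, fun hcon => hgw ?_⟩
      obtain ⟨c, rfl⟩ := Submodule.mem_span_singleton.1 hw
      rw [LinearEquiv.map_smul]
      exact Submodule.smul_mem _ _ hcon

/-- two nonisometric halves -/
theorem halves (hQ : Cfsg.Geo.IsNondegenerateQuadraticForm Q) (hn : 10 ≤ n) (k : ℕ) (hk : 2 * k = n)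
    (D : Fin 2 → Submodule F (Fin n → F)) (hD : Cfsg.Geo.IsNondegenerateMDecomposition (QuadraticMap.polar Q) k D)
    (hni : ¬ Cfsg.Geo.AreIsometricFor Q (D 0) (D 1)) :
    Cfsg.Geo.IsMaximalIn (Cfsg.Geo.omegaGL Q) (Cfsg.Geo.decompositionStabilizer D ⊓ Cfsg.Geo.omegaGL Q) := by
  have hfr : Module.finrank F (Fin n → F) = n := Module.finrank_fin_fun F
  have hd := (nd_qf hQ).finrank_add_finrank_perp (D 0)
  rw [hfr] at hd
  have h0 := hD.decomp.finrank_eq 0
  have h1 := hD.decomp.finrank_eq 1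
  have hnd : NDs (qf hQ) (D 0) := nds_of_nondeg (Q := qf hQ) (hD.nondegenerate 0)
  have hperp : D 1 = perp (qf hQ) (D 0) := by
    apply Submodule.eq_of_le_of_finrank_le
    · intro x hx
      rw [mem_perp]
      intro w hw
      exact hD.orthogonal 0 1 (by decide) w hw x hx
    · omega
  have hno : ∀ g ∈ O (qf hQ), (D 0).map g.toLinearMap ≠ D 1 := by
    intro g hg h
    apply hni
    refine ⟨(g.submoduleMap (D 0)).trans (LinearEquiv.ofEq _ _ h), fun w => ?_⟩
    exact hg w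
  have hno' : ∀ g ∈ O (qf hQ), (D 1).map g.toLinearMap ≠ D 0 := by
    intro g hg h
    apply hno g⁻¹ (inv_mem hg)
    rw [← h, ← Submodule.map_comp]
    have : (g⁻¹).toLinearMap ∘ₗ g.toLinearMap = LinearMap.id := by
      apply LinearMap.ext
      intro x
      exact g.symm_apply_apply x
    rw [this, Submodule.map_id]
  have hmax : Cfsg.Geo.IsMaximalIn (Cfsg.Geo.omegaGL Q)
      (Cfsg.Geo.subspaceStabilizer (D 0) ⊓ Cfsg.Geo.omegaGL Q) := by
    refine nd_max hQ hn ?_ ?_ hnd ?_ ?_ ?_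
    · intro h
      rw [h, finrank_bot] at h0
      omega
    · intro h
      rw [h, finrank_top, hfr] at h0
      omega
    · omega
    · intro g hg hgw
      rw [← hperp] at hgw
      apply hno' g (Om_le hg)
      apply Submodule.eq_of_le_of_finrank_eq
      · rintro _ ⟨x, hx, rfl⟩
        exact hgw x hx
      · rw [LinearEquiv.finrank_map_eq g (D 1), h0, h1]
    · intro h; omega
  have heq : Cfsg.Geo.decompositionStabilizer D ⊓ Cfsg.Geo.omegaGL Q =
      Cfsg.Geo.subspaceStabilizer (D 0) ⊓ Cfsg.Geo.omegaGL Q := by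
    ext g
    rw [Subgroup.mem_inf, Subgroup.mem_inf]
    refine and_congr_left fun hg => ?_
    have hgO : le g ∈ O (qf hQ) := Om_le ((mem_omegaGL_iff (Q := qf hQ) g).1 hg)
    rw [mem_decompositionStabilizer_iff, mem_subspaceStabilizer_iff']
    constructor
    · rintro ⟨σ, hσ⟩ v hv
      have h3 := hσ 0
      have h4 : σ 0 = 0 := by
        by_contra hne
        have h5 : σ 0 = 1 := by
          have : ∀ i : Fin 2, i ≠ 0 → i = 1 := by decide
          exact this _ hne
        rw [h5] at h3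
        exact hno _ hgO h3
      rw [h4] at h3
      rw [← h3]
      exact ⟨v, hv, rfl⟩
    · intro h
      have h3 := map_eq_of_stab h
      refine ⟨1, ?_⟩
      have key : ∀ i : Fin 2, i = 0 ∨ i = 1 := by decide
      intro i
      rcases key i with rfl | rfl
      · exact h3
      · show (D 1).map (le g).toLinearMap = D 1
        rw [hperp]
        apply Submodule.eq_of_le_of_finrank_eq
        · rintro _ ⟨x, hx, rfl⟩
          exact stab_perp hgO h x hx
        · exact LinearEquiv.finrank_map_eq (le g) _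
  rw [heq]
  exact hmax

/-- unitary type -/
theorem unitary (hQ : Cfsg.Geo.IsNondegenerateQuadraticForm Q) (hn : 10 ≤ n) (K : Subalgebra F (Matrix (Fin n) (Fin n) F))
    (hK : Cfsg.Geo.IsFieldSubalgebra 2 K) (hac : Cfsg.Geo.IsAdjointClosedFor (QuadraticMap.polar Q) K)
    (hnsa : ¬ Cfsg.Geo.IsSelfAdjointFor (QuadraticMap.polar Q) K)
    (hsc : ∀ k ∈ K, ∃ c : F, ∀ v : (Fin n → F), Q (Matrix.mulVec k v) = c * Q v) :
    Cfsg.Geo.IsMaximalIn (Cfsg.Geo.omegaGL Q) (Cfsg.Geo.subalgebraNormalizer K ⊓ Cfsg.Geo.omegaGL Q) := by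
  have hfr : Module.finrank F (Fin n → F) = n := Module.finrank_fin_fun F
  haveI : Nonempty (Fin n) := ⟨⟨0, by omega⟩⟩
  have hnd : Nd (qf hQ) := nd_qf hQ
  have hgen : GenHyp (qf hQ) := Or.inr (Or.inl (by omega))
  obtain ⟨κ, hκ, T, N, hsq, hall, hirr, hκc⟩ := exists_gen hK
  have hadj : ∀ u v, polar (qf hQ) (κ *ᵥ u) v = T * polar (qf hQ) u v - polar (qf hQ) u (κ *ᵥ v) := by
    have h1 := adjoint_eq hK (polarBilin (qf hQ)) (by
      intro x hx
      apply hnd.eq_zero
      intro y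
      rw [polar_comm]
      exact hx y) hac hnsa hκ hsq hall
    exact h1
  obtain ⟨v₀, hv₀0, -⟩ := hnd.exists_singular (by omega)
  obtain ⟨w₀, hvw⟩ := hnd.exists_polar_one' hv₀0
  have hsq' : ∀ x, κ *ᵥ (κ *ᵥ x) = T • (κ *ᵥ x) - N • x := by
    intro x
    rw [Matrix.mulVec_mulVec, hsq, Matrix.sub_mulVec, Matrix.smul_mulVec, Matrix.smul_mulVec,
      Matrix.one_mulVec]
  have hk : KS (qf hQ) (Matrix.toLin' κ) T N := by
    refine ⟨fun x => ?_, fun x y => ?_, ?_, ?_, hirr⟩
    · simp only [Matrix.toLin'_apply]; exact hsq' x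
    · simp only [Matrix.toLin'_apply]; exact hadj x y
    · obtain ⟨c, hc⟩ := hsc κ hκ
      have h1 : ∀ x y, polar (qf hQ) (κ *ᵥ x) (κ *ᵥ y) = c * polar (qf hQ) x y := by
        intro x y
        show Q (κ *ᵥ x + κ *ᵥ y) - Q (κ *ᵥ x) - Q (κ *ᵥ y) = c * (Q (x + y) - Q x - Q y)
        rw [← Matrix.mulVec_add, hc, hc, hc]; ring
      have h2 : ∀ x y, polar (qf hQ) (κ *ᵥ x) (κ *ᵥ y) = N * polar (qf hQ) x y := by
        intro x y
        rw [hadj, hsq', polar_sub_right, polar_smul_right, polar_smul_right, smul_eq_mul, smul_eq_mul]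
        ring
      have h3 : c = N := by
        have := h1 v₀ w₀
        rw [h2, hvw, mul_one, mul_one] at this
        exact this.symm
      intro x
      simp only [Matrix.toLin'_apply]
      rw [← h3]
      exact hc x
    · obtain ⟨c, hc⟩ := hsc κ hκ
      obtain ⟨d, hd⟩ := hsc (1 + κ) (K.add_mem K.one_mem hκ)
      have h1 : ∀ x, polar (qf hQ) x (κ *ᵥ x) = (d - 1 - c) * qf hQ x := by
        intro x
        show Q (x + κ *ᵥ x) - Q x - Q (κ *ᵥ x) = (d - 1 - c) * Q x
        have h2 : x + κ *ᵥ x = (1 + κ) *ᵥ x := by rw [Matrix.add_mulVec, Matrix.one_mulVec]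
        rw [h2, hd, hc]; ring
      have h2 : d - 1 - c = T := by
        have h3 := h1 (v₀ + w₀)
        have h4 := h1 v₀
        have h5 := h1 w₀
        have h6 := hadj v₀ w₀
        rw [polar_comm _ (κ *ᵥ v₀) w₀, hvw] at h6
        rw [Matrix.mulVec_add, polar_add_left, polar_add_right, polar_add_right, h4, h5, Q_add, hvw] at h3
        linear_combination h6 - h3
      intro x
      simp only [Matrix.toLin'_apply]
      rw [h1, h2]
  refine Om_max_of (Q := qf hQ) (P := Nrm (Matrix.toLin' κ)) (mem_normalizer_iff hκ hall hκc) ?_ ?_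
  · exact hk.exists_not' hnd hgen (by omega)
  · intro M hM hH hex
    refine hk.main' hnd hgen (by omega) (hM.trans Om_le) ?_ hex
    intro u hu c
    have huκ : polar (qf hQ) u (c • Matrix.toLin' κ u) = 0 := by
      rw [polar_smul_right, hk.pk, hu, mul_zero, smul_zero]
    refine ⟨sieg hnd hu huκ, hH _ (SI_Om hnd hgen hu huκ) ⟨0, 1, fun x => ?_⟩, fun x => by
      rw [sieg_apply, siegMap_apply]⟩
    have hQκ : qf hQ (c • Matrix.toLin' κ u) = 0 := by rw [Q_smul, hk.qk, hu]; ring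
    have h1 := hk.adj u x
    have h2 := hk.polar_kk u x
    have h3 := hk.sq u
    simp only [sieg_apply, hQκ, zero_mul, zero_smul, sub_zero, one_smul, zero_add, map_sub, map_add,
      map_smul, polar_smul_left, smul_eq_mul, h3, h2]
    rw [show polar (qf hQ) u (Matrix.toLin' κ x) = T * polar (qf hQ) u x -
      polar (qf hQ) (Matrix.toLin' κ u) x by rw [h1]; ring]
    module

/-- lines over prime fields -/
theorem lines (hQ : Cfsg.Geo.IsNondegenerateQuadraticForm Q) (hn : n = 10 ∨ n = 12)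
    (hp : ∃ p : ℕ, p.Prime ∧ Odd p ∧ Fintype.card F = p) {D : Fin n → Submodule F (Fin n → F)}
    (hD : Cfsg.Geo.IsOrthogonalMDecomposition Q 1 D) :
    Cfsg.Geo.IsMaximalIn (Cfsg.Geo.omegaGL Q) (Cfsg.Geo.decompositionStabilizer D ⊓ Cfsg.Geo.omegaGL Q) := by
  obtain ⟨p, hpp, hodd, hcard⟩ := hp
  have hfr : Module.finrank F (Fin n → F) = n := Module.finrank_fin_fun F
  have h2 : (2 : F) ≠ 0 := two_ne_zero_of_odd rfl (by rw [hcard]; exact hodd)
  refine RfnH94.lines_bridge_even_n (Q := qf hQ) (nd_qf hQ) (by rw [hcard]; exact hpp) h2 (by omega) ?_ ?_ hD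
  · rw [hfr]
    rcases hn with rfl | rfl
    · intro h
      apply h2
      push_cast at h
      linear_combination h
    · intro h
      apply mul_ne_zero h2 h2
      push_cast at h
      linear_combination h
  · rw [hfr]
    rcases hn with rfl | rfl
    · exact ⟨5, rfl⟩
    · exact ⟨6, rfl⟩

/-- totally singular subspaces -/
theorem ts (hQ : Cfsg.Geo.IsNondegenerateQuadraticForm Q) (hn : 10 ≤ n) {W : Submodule F (Fin n → F)} (hW0 : W ≠ ⊥)
    (hW : Cfsg.Geo.IsTotallySingularQuad Q W) (h : ¬ Cfsg.Geo.IsPlusTypeOn Q ⊤ ∨ 2 * (Module.finrank F W + 1) ≠ n) :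
    Cfsg.Geo.IsMaximalIn (Cfsg.Geo.omegaGL Q) (Cfsg.Geo.subspaceStabilizer W ⊓ Cfsg.Geo.omegaGL Q) := by
  have hfr : Module.finrank F (Fin n → F) = n := Module.finrank_fin_fun F
  have hnd := nd_qf hQ
  refine Om_ts_max (Q := qf hQ) hnd (by omega) hW0 hW ?_
  intro C hC _ h'
  have h1 := two_finrank_le hnd hC
  rw [hfr] at h' h1
  rcases h with h | h
  · by_contra hcon
    exact h ⟨C, le_top, hC, by rw [finrank_top, hfr]; omega⟩
  · exact absurd h' h

end Cfsg.Agent.Lib.OrthListH94
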