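import Mathlib
import Cfsg.Agent.Lib.OrthListH94

set_option autoImplicit false
set_option linter.unusedSectionVars false
set_option linter.unusedSimpArgs false
set_option linter.unusedVariables false

/-!
Maximal subgroups of orthogonal groups of dimension at least 10: sums of planes of plus type.
-/

namespace Cfsg.Agent.Lib.OrthListH94

open Cfsg.Agent.Lib.Quad Cfsg.Agent.Lib.OrthBridge Cfsg.Agent.Lib.OrthMax QuadraticMap

variable {F : Type*} [Field F] [Fintype F] {n : ℕ} {Q : (Fin n → F) → F}

theorem plus_sum (hQ : Cfsg.Geo.IsNondegenerateQuadraticForm Q) {t : ℕ} (ht : 2 * t = n)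
    {D : Fin t → Submodule F (Fin n → F)} (hD : Cfsg.Geo.IsOrthogonalMDecomposition Q 2 D)
    (hp : ∀ i, Cfsg.Geo.IsPlusTypeOn Q (D i)) : Cfsg.Geo.IsPlusTypeOn Q ⊤ := by
  have hfr : Module.finrank F (Fin n → F) = n := Module.finrank_fin_fun F
  have hex : ∀ i, ∃ u ∈ D i, u ≠ 0 ∧ Q u = 0 := by
    intro i
    obtain ⟨U, hUD, hU, hUf⟩ := hp i
    rw [hD.decomp.decomp.finrank_eq] at hUf
    obtain ⟨u, hu, hu0⟩ := Submodule.exists_mem_ne_zero_of_ne_bot (show U ≠ ⊥ by
      intro h
      rw [h, finrank_bot] at hUf
      omega)
    exact ⟨u, hUD hu, hu0, hU u hu⟩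
  choose u huD hu0 hQu using hex
  have hLI : LinearIndependent F u := hD.decomp.decomp.indep.linearIndependent _ huD hu0
  have hpol : ∀ x ∈ Submodule.span F (Set.range u), ∀ y ∈ Submodule.span F (Set.range u), polar (qf hQ) x y = 0 := by
    have h1 : ∀ i, ∀ y ∈ Submodule.span F (Set.range u), polar (qf hQ) (u i) y = 0 := by
      intro i y hy
      induction hy using Submodule.span_induction with
      | mem y hy =>
        obtain ⟨j, rfl⟩ := hy
        by_cases hij : i = j
        · subst hij
          rw [polar_self']
          have : qf hQ (u i) = 0 := hQu i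
          rw [this, mul_zero]
        · exact hD.decomp.orthogonal i j hij _ (huD i) _ (huD j)
      | zero => rw [polar_zero_right]
      | add y z _ _ h1 h2 => rw [polar_add_right, h1, h2, add_zero]
      | smul c y _ h1 => rw [polar_smul_right, h1, smul_zero]
    intro x hx y hy
    induction hx using Submodule.span_induction with
    | mem x hx =>
      obtain ⟨i, rfl⟩ := hx
      exact h1 i y hy
    | zero => rw [polar_zero_left]
    | add x z _ _ h1 h2 => rw [polar_add_left, h1, h2, add_zero]
    | smul c x _ h1 => rw [polar_smul_left, h1, smul_zero]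
  refine ⟨Submodule.span F (Set.range u), le_top, ?_, ?_⟩
  · intro x hx
    have : qf hQ x = 0 := by
      induction hx using Submodule.span_induction with
      | mem x hx =>
        obtain ⟨i, rfl⟩ := hx
        exact hQu i
      | zero => exact QuadraticMap.map_zero _
      | add x z hx hz h1 h2 => rw [Q_add, h1, h2, hpol x hx z hz]; ring
      | smul c x _ h1 => rw [Q_smul, h1, mul_zero]
    exact this
  · rw [finrank_span_eq_card hLI, Fintype.card_fin, finrank_top, hfr, ht]

end Cfsg.Agent.Lib.OrthListH94
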