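import Mathlib
import Cfsg.Agent.Lib.OrthNot
import Cfsg.Agent.Lib.O33
import Cfsg.Agent.Lib.TensorGeo

set_option autoImplicit false
set_option linter.unusedSectionVars false

/-!
Tensor decompositions with a 3-dimensional factor over `F₃` in `Om Q`.
-/

namespace Cfsg.Agent.Lib.OrthTensor3H94

open Cfsg Cfsg.Geo Cfsg.Agent.Lib.GeoBridge QuadraticMap Module Cfsg.Agent.Lib.Quad
open Cfsg.Agent.Lib.OrthMax Cfsg.Agent.Lib.OrthNd Cfsg.Agent.Lib.OrthBridge
  Cfsg.Agent.Lib.OrthNdBridge Cfsg.Agent.Lib.OrthNot Cfsg.Agent.Lib.TensorGeo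
open Cfsg.Agent.Lib.O33 (SB exists_frame frame_exp eq_of_norm factor_one sq_one)
open scoped MatrixGroups Matrix

variable {ι : Type} [Fintype ι] [DecidableEq ι] {F : Type*} [Field F] [Fintype F]

theorem tensor3_not_max (hq : Fintype.card F = 3) {Q : QuadraticForm F (ι → F)} (hQ : Nd Q)
    (hn : 5 ≤ finrank F (ι → F)) {n₂ : ℕ} (h3 : 3 ≤ n₂) (e : ι ≃ Fin 3 × Fin n₂) (P : GL ι F)
    (f₁ : (Fin 3 → F) → (Fin 3 → F) → F) (f₂ : (Fin n₂ → F) → (Fin n₂ → F) → F)
    (hf₁ : IsSymmetricForm f₁) (hf₂ : IsSymmetricForm f₂)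
    (hT : IsTensorFormStructure id (polar ⇑Q) f₁ f₂ e P) :
    ∃ K : Subgroup (GL ι F), tensorProductSubgroup 3 n₂ e P ⊓ omegaGL ⇑Q < K ∧ K < omegaGL ⇑Q := by
  obtain ⟨c, hc0, hc⟩ := hT
  have hgen : GenHyp Q := Or.inr (Or.inl (by omega))
  have hform : ∀ x₁ y₁ x₂ y₂, polar Q (tp e P x₁ x₂) (tp e P y₁ y₂) = c * (f₁ x₁ y₁ * f₂ x₂ y₂) := by
    refine form_tp (σ := id) (fun a b => rfl) ?_ ?_ hc
    · exact eq_formOfGram hf₁.bilinear.add_left hf₁.bilinear.smul_left hf₁.bilinear.add_right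
        hf₁.bilinear.smul_right
    · exact eq_formOfGram hf₂.bilinear.add_left hf₂.bilinear.smul_left hf₂.bilinear.add_right
        hf₂.bilinear.smul_right
  have H1 : SB f₁ := ⟨hf₁.bilinear.add_left, hf₁.bilinear.smul_left, hf₁.symm⟩
  have H2 : SB f₂ := ⟨hf₂.bilinear.add_left, hf₂.bilinear.smul_left, hf₂.symm⟩
  have hfr3 : finrank F (⊤ : Submodule F (Fin 3 → F)) = 3 := by
    rw [finrank_top, Module.finrank_fin_fun]
  obtain ⟨ε, hε, E, -, hE⟩ := exists_frame hq H1 hfr3 (fun x _ hx => by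
    obtain ⟨y, hy⟩ := (hf₁.nondegenerate x hx).2
    exact ⟨y, trivial, hy⟩)
  have hεε := sq_one hq hε
  have hnorm : ∀ x, f₁ x x = ε → ∃ i, ∃ a : F, a ≠ 0 ∧ x = a • E i := fun x hx =>
    eq_of_norm hq H1 hfr3 hε (fun _ => trivial) hE trivial hx
  have hf2nd : ∀ x, (∀ z, f₂ x z = 0) → x = 0 := by
    intro x hx
    by_contra hne
    obtain ⟨z, hz⟩ := (hf₂.nondegenerate x hne).2
    exact hz (hx z)
  -- the subspaces
  let T : Fin 3 → Submodule F (ι → F) := fun i => LinearMap.range (tpB e P (E i))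
  have hTmem : ∀ i y, tp e P (E i) y ∈ T i := fun i y => ⟨y, rfl⟩
  have hTor : ∀ i j, i ≠ j → ∀ x ∈ T i, ∀ y ∈ T j, polar Q x y = 0 := by
    rintro i j hij _ ⟨x, rfl⟩ _ ⟨y, rfl⟩
    rw [tpB_apply, tpB_apply, hform, hE, if_neg hij]; ring
  have hTinj : ∀ i x y, tp e P (E i) x = tp e P (E i) y → x = y := by
    intro i x y hxy
    have h1 : x - y = 0 := by
      apply hf2nd
      intro z
      have h2 : polar Q (tp e P (E i) x) (tp e P (E i) z) = polar Q (tp e P (E i) y) (tp e P (E i) z) := by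
        rw [hxy]
      rw [hform, hform, hE, if_pos rfl] at h2
      have h4 := mul_left_cancel₀ hε (mul_left_cancel₀ hc0 h2)
      rw [H2.sub_left, h4, sub_self]
    exact sub_eq_zero.1 h1
  have hTnd : ∀ i, NDs Q (T i) := by
    intro i
    rw [NDs, eq_bot_iff]
    rintro _ ⟨⟨x, rfl⟩, hx⟩
    have h1 : x = 0 := by
      apply hf2nd
      intro z
      have h2 := mem_perp.1 hx (tp e P (E i) z) (hTmem i z)
      rw [polar_comm, tpB_apply, hform, hE, if_pos rfl] at h2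
      have h4 := (mul_eq_zero.1 h2).resolve_left hc0
      exact (mul_eq_zero.1 h4).resolve_left hε
    rw [h1, map_zero]; exact Submodule.zero_mem _
  have hTdim : ∀ i, finrank F (T i) = n₂ := by
    intro i
    have h1 : Function.Injective (tpB e P (E i)) := fun x y hxy => hTinj i x y hxy
    rw [LinearMap.finrank_range_of_inj h1, Module.finrank_fin_fun]
  set N : Set (ι → F) := {v | ∃ x y, f₁ x x = ε ∧ v = tp e P x y} with hN
  have hNT : ∀ v, v ∈ N ↔ ∃ i, v ∈ T i := by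
    intro v
    constructor
    · rintro ⟨x, y, hx, rfl⟩
      obtain ⟨i, a, ha, rfl⟩ := hnorm x hx
      exact ⟨i, by rw [tp_smul_left]; exact (T i).smul_mem _ (hTmem i y)⟩
    · rintro ⟨i, y, rfl⟩
      exact ⟨E i, y, by rw [hE, if_pos rfl], rfl⟩
  obtain ⟨z, hz, z', hz', hQz, hQz', hzz'⟩ := exists_pair_in hQ (hTnd 0) (by rw [hTdim]; exact h3)
  have hz0 : z ≠ 0 := by rintro rfl; rw [polar_zero_left] at hzz'; exact zero_ne_one hzz'
  obtain ⟨w, hw, hwz, hwz'⟩ : ∃ w ∈ T 0, polar Q z w = 0 ∧ w ∉ F ∙ z := by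
    by_contra hcon
    push Not at hcon
    have h5 : T 0 ⊓ perp Q (Submodule.span F {z, z}) ≤ F ∙ z := fun y hy =>
      hcon y (mem_cut.1 hy).1 (mem_cut.1 hy).2.1
    have h6 := Submodule.finrank_mono h5
    rw [finrank_span_singleton hz0] at h6
    have h7 : finrank F (T 0) ≤ finrank F ↥(T 0 ⊓ perp Q (Submodule.span F {z, z})) + 1 := by
      have h1 := Submodule.finrank_sup_add_finrank_inf_eq (T 0) (perp Q (Submodule.span F {z, z}))
      have h2 := hQ.finrank_add_finrank_perp (Submodule.span F {z, z})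
      have h3 : Submodule.span F {z, z} = F ∙ z := by simp
      rw [h3, finrank_span_singleton hz0] at h2
      rw [h3] at h1 ⊢
      have h6 := Submodule.finrank_le (T 0 ⊔ perp Q (F ∙ z))
      omega
    rw [hTdim] at h7
    omega
  refine between_of (Q := Q) (K₀ := Cfsg.stabilizing (Cfsg.glToMat ι F) N)
    (P := fun g => ∃ (a : GL (Fin 3) F) (b : GL (Fin n₂) F), ∀ x₁ x₂, g (tp e P x₁ x₂) =
      tp e P ((a : Matrix (Fin 3) (Fin 3) F) *ᵥ x₁) ((b : Matrix (Fin n₂) (Fin n₂) F) *ᵥ x₂))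
    (P₀ := fun g => ∀ v, v ∈ N ↔ g v ∈ N) mem_tensor_iff (fun g => Iff.rfl) ?_ ?_ ?_
  · -- tensors preserve N
    have key : ∀ g ∈ Om Q, (∃ (a : GL (Fin 3) F) (b : GL (Fin n₂) F), ∀ x₁ x₂, g (tp e P x₁ x₂) =
        tp e P ((a : Matrix (Fin 3) (Fin 3) F) *ᵥ x₁) ((b : Matrix (Fin n₂) (Fin n₂) F) *ᵥ x₂)) →
        ∀ v ∈ N, g v ∈ N := by
      rintro g hg ⟨A, B, hAB⟩
      have hgi : ∀ x y, polar Q (g x) (g y) = polar Q x y := O_polar (Om_le hg)
      have h1 : ∀ x₁ y₁ x₂ y₂, f₁ (A.1 *ᵥ x₁) (A.1 *ᵥ y₁) * f₂ (B.1 *ᵥ x₂) (B.1 *ᵥ y₂) =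
          f₁ x₁ y₁ * f₂ x₂ y₂ := by
        intro x₁ y₁ x₂ y₂
        have h2 := hgi (tp e P x₁ x₂) (tp e P y₁ y₂)
        rw [hAB, hAB, hform, hform] at h2
        exact mul_left_cancel₀ hc0 h2
      obtain ⟨w0, hw0⟩ : ∃ w0 : Fin n₂ → F, w0 ≠ 0 := by
        have : Nontrivial (Fin n₂ → F) := Module.nontrivial_of_finrank_pos (R := F) (by
          rw [Module.finrank_fin_fun]; omega)
        exact exists_ne _
      obtain ⟨y0, hy0⟩ : ∃ y0, f₂ y0 w0 ≠ 0 := (hf₂.nondegenerate w0 hw0).1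
      have hne : f₂ (B.1 *ᵥ y0) (B.1 *ᵥ w0) ≠ 0 := by
        intro h0
        have := h1 (E 0) (E 0) y0 w0
        rw [h0, mul_zero, hE, if_pos rfl] at this
        exact mul_ne_zero hε hy0 this.symm
      have h2 : ∀ x y, f₁ (A.1 *ᵥ x) (A.1 *ᵥ y) = (f₂ y0 w0 / f₂ (B.1 *ᵥ y0) (B.1 *ᵥ w0)) * f₁ x y := by
        intro x y
        have := h1 x y y0 w0
        field_simp
        linear_combination this
      have hμ := factor_one hq H1 hfr3 hε (fun _ => trivial) hE (div_ne_zero hy0 hne)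
        (u := fun i => A.1 *ᵥ (E i)) (fun _ => trivial) (fun i j => by rw [h2, hE])
      rintro _ ⟨x, y, hx, rfl⟩
      rw [hAB]
      exact ⟨_, _, by rw [h2, hμ, one_mul, hx], rfl⟩
    rintro g hg hgP v
    refine ⟨key g hg hgP v, fun h => ?_⟩
    have h5 := key g⁻¹ (inv_mem hg) ?_ _ h
    · rwa [← LinearEquiv.mul_apply, inv_mul_cancel] at h5
    · obtain ⟨A, B, hAB⟩ := hgP
      refine ⟨A⁻¹, B⁻¹, fun x₁ x₂ => ?_⟩
      apply g.injective
      rw [← LinearEquiv.mul_apply, mul_inv_cancel, hAB, Matrix.mulVec_mulVec, Matrix.mulVec_mulVec,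
        ← Units.val_mul, ← Units.val_mul, mul_inv_cancel, mul_inv_cancel, Units.val_one, Units.val_one,
        Matrix.one_mulVec, Matrix.one_mulVec]
      rfl
  · obtain ⟨g, hg, hgx⟩ := stab_of_sieg hQ hgen hQz hwz
    have hgfix : ∀ i, i ≠ 0 → ∀ x ∈ T i, g x = x := by
      intro i hi x hx
      rw [hgx, siegMap_apply, hTor 0 i (Ne.symm hi) z hz x hx, hTor 0 i (Ne.symm hi) w hw x hx]
      simp
    have hg0 : ∀ x ∈ T 0, g x ∈ T 0 := by
      intro x hx
      rw [hgx, siegMap_apply]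
      exact (T 0).sub_mem ((T 0).sub_mem ((T 0).add_mem hx ((T 0).smul_mem _ hw)) ((T 0).smul_mem _ hz))
        ((T 0).smul_mem _ hz)
    have hgT : ∀ i, ∀ x ∈ T i, g x ∈ T i := by
      intro i x hx
      by_cases hi : i = 0
      · subst hi; exact hg0 x hx
      · rw [hgfix i hi x hx]; exact hx
    refine ⟨g, hg, ?_, ?_⟩
    · intro v
      rw [hNT, hNT]
      constructor
      · rintro ⟨i, hi⟩; exact ⟨i, hgT i v hi⟩
      · rintro ⟨i, hi⟩
        have h4 := map_eq_of_stab (hgT i)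
        rw [← h4] at hi
        obtain ⟨x, hx, hxv⟩ := hi
        have : x = v := g.injective hxv
        exact ⟨i, this ▸ hx⟩
    · rintro ⟨A, B, hAB⟩
      -- B is scalar
      have h1 : ∀ u, (ε * f₁ (A.1 *ᵥ (E 1)) (E 1)) • (B.1 *ᵥ u) = u := by
        intro u
        have h2 := hAB (E 1) u
        rw [hgfix 1 (by decide) _ (hTmem 1 u)] at h2
        have h3 : u - (ε * f₁ (A.1 *ᵥ (E 1)) (E 1)) • (B.1 *ᵥ u) = 0 := by
          apply hf2nd
          intro y
          have h4 : polar Q (tp e P (E 1) u) (tp e P (E 1) y) =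
              polar Q (tp e P (A.1 *ᵥ (E 1)) (B.1 *ᵥ u)) (tp e P (E 1) y) := by rw [← h2]
          rw [hform, hform, hE, if_pos rfl] at h4
          have h5 := mul_left_cancel₀ hc0 h4
          rw [H2.sub_left, H2.smul_left]
          linear_combination ε * h5 - f₂ u y * hεε
        exact (sub_eq_zero.1 h3).symm
      -- g is scalar on T 0
      have h2 : ∀ x ∈ T 0, (ε * f₁ (A.1 *ᵥ (E 1)) (E 1)) • g x = (ε * f₁ (A.1 *ᵥ (E 0)) (E 0)) • x := by
        rintro x ⟨u, rfl⟩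
        obtain ⟨u', hu'⟩ := hg0 _ (hTmem 0 u)
        rw [tpB_apply] at hu' ⊢
        rw [← hu', ← tp_smul_right, ← tp_smul_right]
        congr 1
        rw [hAB] at hu'
        have h3 : (ε * f₁ (A.1 *ᵥ (E 1)) (E 1)) • u' - (ε * f₁ (A.1 *ᵥ (E 0)) (E 0)) • u = 0 := by
          apply hf2nd
          intro y
          have h4 : polar Q (tp e P (E 0) u') (tp e P (E 0) y) =
              polar Q (tp e P (A.1 *ᵥ (E 0)) (B.1 *ᵥ u)) (tp e P (E 0) y) := by rw [← hu']
          rw [hform, hform, hE, if_pos rfl] at h4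
          have h5 := mul_left_cancel₀ hc0 h4
          have h6 : f₂ u y = (ε * f₁ (A.1 *ᵥ (E 1)) (E 1)) * f₂ (B.1 *ᵥ u) y := by
            rw [← H2.smul_left, h1]
          rw [H2.sub_left, H2.smul_left, H2.smul_left, h6]
          linear_combination (ε * (ε * f₁ (A.1 *ᵥ (E 1)) (E 1))) * h5 -
            (ε * f₁ (A.1 *ᵥ (E 1)) (E 1)) * f₂ u' y * hεε
        exact sub_eq_zero.1 h3
      have hzz : polar Q z z = 0 := by rw [polar_self', hQz, mul_zero]
      have hgz : g z = z := by rw [hgx, siegMap_apply, hzz, polar_comm, hwz]; simp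
      have h3 := h2 z hz
      rw [hgz] at h3
      have h4 : ε * f₁ (A.1 *ᵥ (E 1)) (E 1) = ε * f₁ (A.1 *ᵥ (E 0)) (E 0) := by
        by_contra hne
        apply hz0
        have : ((ε * f₁ (A.1 *ᵥ (E 1)) (E 1)) - (ε * f₁ (A.1 *ᵥ (E 0)) (E 0))) • z = 0 := by
          rw [sub_smul, h3, sub_self]
        exact (smul_eq_zero.1 this).resolve_left (sub_ne_zero.2 hne)
      have h5 : ε * f₁ (A.1 *ᵥ (E 1)) (E 1) ≠ 0 := by
        intro h0
        obtain ⟨u, hu⟩ := hz
        have := h1 u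
        rw [h0, zero_smul] at this
        rw [← this, map_zero] at hu
        exact hz0 hu.symm
      have h6 := h2 z' hz'
      rw [← h4] at h6
      have h7 := smul_right_injective _ h5 h6
      have h7' : g z' = z' := h7
      rw [hgx, siegMap_apply, hzz', one_smul, mul_one] at h7'
      apply hwz'
      rw [Submodule.mem_span_singleton]
      refine ⟨polar Q w z' + Q w, ?_⟩
      have h8 : z' + w - polar Q w z' • z - Q w • z - z' = 0 := by rw [h7', sub_self]
      have h9 : z' + w - polar Q w z' • z - Q w • z - z' = w - (polar Q w z' + Q w) • z := by module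
      rw [h9] at h8
      exact (sub_eq_zero.1 h8).symm
  · obtain ⟨w₁, hw₁, w₁', hw₁', -, -, hww⟩ := exists_pair_in hQ (hTnd 1) (by rw [hTdim]; exact h3)
    have hzw : polar Q z w₁ = 0 := hTor 0 1 (by decide) z hz w₁ hw₁
    obtain ⟨g, hg, hgx⟩ := stab_of_sieg hQ hgen hQz hzw
    refine ⟨g, hg, fun hcon => ?_⟩
    have h4 := (hcon z').1 ((hNT z').2 ⟨0, hz'⟩)
    obtain ⟨i, hi⟩ := (hNT _).1 h4
    have hw1z' : polar Q w₁ z' = 0 := hTor 1 0 (by decide) w₁ hw₁ z' hz'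
    rw [hgx, siegMap_apply, hzz', hw1z'] at hi
    have hzz : polar Q z z = 0 := by rw [polar_self', hQz, mul_zero]
    by_cases h0 : i = 0
    · subst h0
      have h5 := hTor 0 1 (by decide) _ hi w₁' hw₁'
      rw [polar_sub_left, polar_sub_left, polar_add_left, polar_smul_left, polar_smul_left,
        polar_smul_left, hww, hTor 0 1 (by decide) z' hz' w₁' hw₁', hTor 0 1 (by decide) z hz w₁' hw₁'] at h5
      simp at h5
    · have h5 := hTor i 0 h0 _ hi z hz
      rw [polar_sub_left, polar_sub_left, polar_add_left, polar_smul_left, polar_smul_left,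
        polar_smul_left, hzz, polar_comm Q z' z, hzz', polar_comm Q w₁ z, hzw] at h5
      simp at h5

end Cfsg.Agent.Lib.OrthTensor3H94
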