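import Mathlib
import Cfsg.Agent.Lib.BlockCore
import Cfsg.Agent.Lib.BlockOrth
import Cfsg.Agent.Lib.PLengthOne
import Cfsg.Agent.Lib.Codegree

/-!
# `p`-length one and the principal block on the Sylow normalizer (helper78)
-/

set_option autoImplicit false
set_option linter.all false

namespace Cfsg.Agent.Lib.PL1Princ

open Cfsg Cfsg.Agent.Lib.BlockRing Cfsg.Agent.Lib.BlockGA
open Cfsg.Agent.Lib.BlockIdem Cfsg.Agent.Lib.BlockThird Cfsg.Agent.Lib.BlockCore
open Cfsg.Agent.Lib.PLengthOne Cfsg.Agent.Lib.RelSylow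
open Cfsg.Agent.Lib.CharBasic Cfsg.Agent.Lib.Codegree

universe u

variable {G : Type u} [Group G] [Finite G] {p : ℕ} {M : Ideal AlgInt}

/-- The easy direction. -/
theorem irr_restrict_of_pLength [hp : Fact p.Prime] (hM : IsPModular p M) (P : Sylow p G)
    (h : PLengthLE p 1 G) (χ : IrrCharacter G) (hχ : χ ∈ principalBlock M G) :
    IsIrrCharacter ↥(Subgroup.normalizer ((P : Subgroup G) : Set G))
      (fun n : ↥(Subgroup.normalizer ((P : Subgroup G) : Set G)) => (χ : G → ℂ) n) := by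
  have hP : IsSyl p (P : Subgroup G) ⊤ := isSyl_top_iff P
  have hd := pL1Data_of_pLengthLE h
  have hker := ker_of_principal hM hd.n_card hχ
  obtain ⟨ψ, hψ, hψχ⟩ := χ.2.deflate (pPrimeCore p G) hker
  have hsup := P.normalizer_sup_eq_top' (isSyl_le_pPrimePCore h hP)
  rw [← pPrimeCore_sup_isSyl h hP] at hsup
  have hsup' : Subgroup.normalizer ((P : Subgroup G) : Set G) ⊔ pPrimeCore p G = ⊤ := by
    have h1 : (P : Subgroup G) ≤ Subgroup.normalizer ((P : Subgroup G) : Set G) := Subgroup.le_normalizer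
    rw [eq_top_iff]
    rw [← hsup]
    refine sup_le le_sup_left (sup_le le_sup_right (h1.trans le_sup_left))
  set H := Subgroup.normalizer ((P : Subgroup G) : Set G) with hH
  have hsurj : Function.Surjective ((QuotientGroup.mk' (pPrimeCore p G)).comp H.subtype) := by
    intro y
    obtain ⟨g, rfl⟩ := QuotientGroup.mk'_surjective _ y
    have hg : g ∈ H ⊔ pPrimeCore p G := by rw [hsup']; trivial
    rw [← SetLike.mem_coe, Subgroup.mul_normal] at hg
    obtain ⟨a, ha, n, hn, rfl⟩ := hg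
    refine ⟨⟨a, ha⟩, ?_⟩
    show QuotientGroup.mk' (pPrimeCore p G) a = QuotientGroup.mk' (pPrimeCore p G) (a * n)
    rw [map_mul, (QuotientGroup.eq_one_iff n).2 hn |> fun h => (h : QuotientGroup.mk' (pPrimeCore p G) n = 1), mul_one]
  have h2 := hψ.comp_surjective _ hsurj
  have h3 : (fun n : ↥H => (χ : G → ℂ) n) =
      fun x => ψ (((QuotientGroup.mk' (pPrimeCore p G)).comp H.subtype) x) := by
    funext n
    exact (hψχ n).symm
  rw [h3]
  exact h2

/-- Fact A. -/
theorem sum_zero_or_const (P : Subgroup G) [Fintype G] [DecidablePred (· ∈ P)] {χ : G → ℂ}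
    (hχ : IsIrrCharacter ↥(Subgroup.normalizer (P : Set G))
      (fun n : ↥(Subgroup.normalizer (P : Set G)) => χ n)) :
    ∑ x ∈ Finset.univ.filter (· ∈ P), χ x = 0 ∨ ∀ x ∈ P, χ x = χ 1 := by
  classical
  set H := Subgroup.normalizer (P : Set G) with hH
  have hPH : P ≤ H := Subgroup.le_normalizer
  have hn : (P.subgroupOf H).Normal := by
    rw [hH]
    infer_instance
  have := Fintype.ofFinite H
  rcases omega_normE_zero_or_one (P.subgroupOf H) hχ with h0 | h0
  · left
    rw [omega_normE] at h0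
    have h1 : (Nat.card (P.subgroupOf H) : ℂ)⁻¹ ≠ 0 := by
      apply inv_ne_zero
      exact_mod_cast Nat.card_pos.ne'
    have h2 := hχ.one_ne_zero
    rw [div_eq_zero_iff] at h0
    rcases h0 with h0 | h0
    swap
    · exact absurd h0 h2
    rw [mul_eq_zero] at h0
    rcases h0 with h0 | h0
    · exact absurd h0 h1
    rw [← h0]
    refine Finset.sum_bij' (fun (x : G) (hx : x ∈ Finset.univ.filter (· ∈ P)) =>
        (⟨x, hPH (by simpa using hx)⟩ : H)) (fun x _ => (x : G)) ?_ ?_ ?_ ?_ ?_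
    · intro x hx
      rw [Finset.mem_filter] at hx ⊢
      exact ⟨Finset.mem_univ _, by rw [Subgroup.mem_subgroupOf]; exact hx.2⟩
    · intro x hx
      rw [Finset.mem_filter, Subgroup.mem_subgroupOf] at hx
      rw [Finset.mem_filter]
      exact ⟨Finset.mem_univ _, hx.2⟩
    · intro x hx; rfl
    · intro x hx; rfl
    · intro x hx; rfl
  · right
    intro x hx
    have h1 := (omega_normE_eq_one_iff (P.subgroupOf H) hχ).1 h0 ⟨x, hPH hx⟩
      (by rw [Subgroup.mem_subgroupOf]; exact hx)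
    exact h1

/-- The intersection of the kernels of a set of characters. -/
def interKer (B : Set (IrrCharacter G)) : Subgroup G := ⨅ χ : B, kerS (χ : IrrCharacter G).2.isCharacter

theorem mem_interKer {B : Set (IrrCharacter G)} {g : G} :
    g ∈ interKer B ↔ ∀ χ ∈ B, (χ : G → ℂ) g = (χ : G → ℂ) 1 := by
  rw [interKer, Subgroup.mem_iInf]
  exact ⟨fun h χ hχ => h ⟨χ, hχ⟩, fun h χ => h χ.1 χ.2⟩

instance interKer_normal (B : Set (IrrCharacter G)) : (interKer B).Normal :=
  ⟨fun n hn g => by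
    rw [mem_interKer] at hn ⊢
    intro χ hχ
    rw [χ.2.isClassFunction]
    exact hn χ hχ⟩

theorem ppart_of_pelt [hp : Fact p.Prime] {x : G} (h : ∃ k : ℕ, orderOf x = p ^ k) : IsPPart p x x :=
  ⟨1, mul_one x, Commute.one_right x, h, by rw [orderOf_one]; exact hp.out.one_lt.ne' ∘ Nat.dvd_one.1⟩

theorem ppart_of_regular [hp : Fact p.Prime] {x : G} (h : ¬ p ∣ orderOf x) : IsPPart p x 1 :=
  ⟨x, one_mul x, Commute.one_left x, ⟨0, by rw [orderOf_one, pow_zero]⟩, h⟩

/-- Weak block orthogonality with a nontrivial `p`-element. -/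
theorem weak_orth [hp : Fact p.Prime] (hM : IsPModular p M) {B : Set (IrrCharacter G)} (hB : IsPBlock M B)
    {u x : G} (hu : ¬ p ∣ orderOf u) (hx : ∃ k : ℕ, orderOf x = p ^ k) (hx1 : x ≠ 1) :
    ∑ᶠ χ ∈ B, (χ : G → ℂ) u * (χ : G → ℂ) x = 0 := by
  have h1 := BlockOrth.block_orthogonality hM hB (ppart_of_regular hu)
    (ppart_of_pelt (x := x⁻¹) (by rwa [orderOf_inv])) (fun h => hx1 (by
      have := isConj_one_right.1 h
      simpa using this))
  simpa using h1

theorem one_re_pos {χ : G → ℂ} (hχ : IsIrrCharacter G χ) : 0 < (χ 1).re ∧ (χ 1).im = 0 := by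
  obtain ⟨n, hn, h⟩ := hχ.exists_degree
  rw [h]
  refine ⟨?_, Complex.natCast_im n⟩
  rw [Complex.natCast_re]
  exact_mod_cast hn

/-- the intersection of the kernels of a block is a `p'`-group. -/
theorem interKer_card [hp : Fact p.Prime] (hM : IsPModular p M) {B : Set (IrrCharacter G)}
    (hB : IsPBlock M B) (hne : B.Nonempty) : ¬ p ∣ Nat.card (interKer B) := by
  classical
  intro hd
  obtain ⟨x, hx⟩ := exists_prime_orderOf_dvd_card' (G := interKer B) p hd
  have hx1 : (x : G) ≠ 1 := by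
    intro h
    have : x = 1 := Subtype.ext h
    rw [this, orderOf_one] at hx
    exact hp.out.one_lt.ne hx
  have h1 := weak_orth hM hB (u := 1) (x := (x : G))
    (by rw [orderOf_one]; exact hp.out.one_lt.ne' ∘ Nat.dvd_one.1)
    ⟨1, by rw [pow_one, ← hx]; exact Subgroup.orderOf_coe x⟩ hx1
  have hfin : B.Finite := Set.toFinite B
  rw [finsum_mem_eq_finite_toFinset_sum _ hfin] at h1
  have h2 := congrArg Complex.re h1
  rw [Complex.re_sum, Complex.zero_re] at h2
  have h3 : ∀ χ ∈ hfin.toFinset, 0 < ((χ : G → ℂ) 1 * (χ : G → ℂ) x).re := by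
    intro χ hχ
    rw [Set.Finite.mem_toFinset] at hχ
    rw [mem_interKer.1 x.2 χ hχ]
    obtain ⟨h4, h5⟩ := one_re_pos χ.2
    rw [Complex.mul_re, h5]
    nlinarith
  have h4 := Finset.sum_pos h3 (by
    obtain ⟨χ, hχ⟩ := hne
    exact ⟨χ, by rwa [Set.Finite.mem_toFinset]⟩)
  exact h4.ne' h2

/-- The main step. -/
theorem regular_mem_ker [hp : Fact p.Prime] (hM : IsPModular p M) (P : Sylow p G)
    (h : ∀ χ ∈ principalBlock M G, IsIrrCharacter ↥(Subgroup.normalizer ((P : Subgroup G) : Set G))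
      (fun n : ↥(Subgroup.normalizer ((P : Subgroup G) : Set G)) => (χ : G → ℂ) n)) {u : G}
    (hu : ¬ p ∣ orderOf u) (huK : u ∈ Subgroup.normalClosure ((P : Subgroup G) : Set G)) :
    u ∈ interKer (principalBlock M G) := by
  classical
  have := Fintype.ofFinite G
  have hB : IsPBlock M (principalBlock M G) := isPBlock_principal
  set B := principalBlock M G with hBdef
  have hfin : B.Finite := Set.toFinite B
  have hP : ∀ x ∈ (P : Subgroup G), ∃ k : ℕ, orderOf x = p ^ k := by
    intro x hx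
    obtain ⟨k, hk⟩ := IsPGroup.iff_orderOf.1 P.isPGroup' ⟨x, hx⟩
    exact ⟨k, by rw [← hk]; exact (Subgroup.orderOf_mk x hx).symm⟩
  have h1 : ∀ x ∈ (P : Subgroup G), x ≠ 1 →
      ∑ χ ∈ hfin.toFinset, ((χ : G → ℂ) u - (χ : G → ℂ) 1) * (χ : G → ℂ) x = 0 := by
    intro x hx hx1
    have h2 := weak_orth hM hB hu (hP x hx) hx1
    have h3 := weak_orth hM hB (u := 1)
      (by rw [orderOf_one]; exact hp.out.one_lt.ne' ∘ Nat.dvd_one.1) (hP x hx) hx1
    rw [finsum_mem_eq_finite_toFinset_sum _ hfin] at h2 h3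
    simp only [sub_mul, Finset.sum_sub_distrib]
    rw [h2, h3, sub_zero]
  have h2 : ∑ x ∈ Finset.univ.filter (· ∈ (P : Subgroup G)),
      ∑ χ ∈ hfin.toFinset, ((χ : G → ℂ) u - (χ : G → ℂ) 1) * (χ : G → ℂ) x =
      ∑ χ ∈ hfin.toFinset, ((χ : G → ℂ) u - (χ : G → ℂ) 1) * (χ : G → ℂ) 1 := by
    rw [Finset.sum_eq_single (1 : G)]
    · intro x hx hx1
      exact h1 x (by simpa using hx) hx1
    · intro h0
      exact absurd (by simp) h0
  have h3 : ∑ x ∈ Finset.univ.filter (· ∈ (P : Subgroup G)),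
      ∑ χ ∈ hfin.toFinset, ((χ : G → ℂ) u - (χ : G → ℂ) 1) * (χ : G → ℂ) x = 0 := by
    rw [Finset.sum_comm]
    refine Finset.sum_eq_zero fun χ hχ => ?_
    rw [← Finset.mul_sum]
    rw [Set.Finite.mem_toFinset] at hχ
    rcases sum_zero_or_const (P : Subgroup G) (h χ hχ) with h0 | h0
    · rw [h0, mul_zero]
    · have h4 : Subgroup.normalClosure ((P : Subgroup G) : Set G) ≤ kerS χ.2.isCharacter := by
        have := kerS_normal χ.2.isCharacter
        apply Subgroup.normalClosure_le_normal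
        intro x hx
        exact h0 x hx
      have h5 : (χ : G → ℂ) u = (χ : G → ℂ) 1 := h4 huK
      rw [h5, sub_self, zero_mul]
  rw [h2] at h3
  have h4 := congrArg Complex.re h3
  rw [Complex.re_sum, Complex.zero_re] at h4
  have h5 : ∀ χ ∈ hfin.toFinset, (((χ : G → ℂ) u - (χ : G → ℂ) 1) * (χ : G → ℂ) 1).re ≤ 0 := by
    intro χ _
    obtain ⟨h6, h7⟩ := one_re_pos χ.2
    have h8 := (re_le_one χ.2.isCharacter u).1
    rw [Complex.mul_re, h7, mul_zero, sub_zero, Complex.sub_re]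
    nlinarith
  rw [Finset.sum_eq_zero_iff_of_nonpos h5] at h4
  rw [mem_interKer]
  intro χ hχ
  have h6 := h4 χ (by rwa [Set.Finite.mem_toFinset])
  obtain ⟨h7, h8⟩ := one_re_pos χ.2
  rw [Complex.mul_re, h8, mul_zero, sub_zero, Complex.sub_re] at h6
  rcases mul_eq_zero.1 h6 with h9 | h9
  · exact (re_le_one χ.2.isCharacter u).2 (by linarith)
  · exact absurd h9 h7.ne'

theorem main [hp : Fact p.Prime] (hM : IsPModular p M) (P : Sylow p G) :
    PLengthLE p 1 G ↔ ∀ χ ∈ principalBlock M G,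
      IsIrrCharacter ↥(Subgroup.normalizer ((P : Subgroup G) : Set G))
      (fun n : ↥(Subgroup.normalizer ((P : Subgroup G) : Set G)) => (χ : G → ℂ) n) := by
  refine ⟨fun h χ hχ => irr_restrict_of_pLength hM P h χ hχ, fun h => ?_⟩
  set K := Subgroup.normalClosure ((P : Subgroup G) : Set G) with hK
  set W := interKer (principalBlock M G) with hW
  have hPK : (P : Subgroup G) ≤ K := Subgroup.le_normalClosure
  have := isPrime hM
  have hWc : ¬ p ∣ Nat.card W := interKer_card hM isPBlock_principal ⟨_, triv_mem⟩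
  refine PL1Data.pLengthLE (N := W ⊓ K) (K := K) ⟨inferInstance, inferInstance, inf_le_right, ?_, ?_, ?_⟩
  · intro hd
    exact hWc (hd.trans (Subgroup.card_dvd_of_le inf_le_left))
  · intro x hx
    refine ⟨(orderOf x).factorization p, ?_⟩
    have hxp : ¬ p ∣ orderOf (x ^ p ^ (orderOf x).factorization p) := by
      rw [orderOf_pow_of_dvd (pow_ne_zero _ hp.out.ne_zero) (Nat.ordProj_dvd _ _)]
      exact Nat.not_dvd_ordCompl hp.out (orderOf_pos x).ne'
    exact ⟨regular_mem_ker hM P h hxp (K.pow_mem hx _), K.pow_mem hx _⟩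
  · intro hd
    exact P.not_dvd_index (hd.trans (Subgroup.index_dvd_of_le hPK))

end Cfsg.Agent.Lib.PL1Princ
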