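import Cfsg.Agent.Lib.POmTorus
import Cfsg.Agent.Lib.POmGraph2
import Cfsg.Agent.Lib.POmMinus
import Cfsg.Agent.Lib.FormConj3

set_option autoImplicit false

/-!
# Elements of odd prime order of `PGO`: classes under `Inndiag`, `PSO` and `Inn` (helper43)
-/

namespace Cfsg.Agent.Lib.POmAut

open Matrix QuadraticMap Module
open Cfsg.Agent.Lib.Quad Cfsg.Agent.Lib.ClOrthSiegel Cfsg.Agent.Lib.ClOmega
open Cfsg.Agent.Lib.POmDih Cfsg.Agent.Lib.POmCls

section Fix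

variable {F V : Type*} [Field F] [AddCommGroup V] [Module F V] [FiniteDimensional F V] {Q : QuadraticForm F V}

/-- the fixed space of an isometry of order prime to the characteristic is nondegenerate -/
theorem fix_nd (hQ : Nd Q) {s : V ≃ₗ[F] V} (hs : s ∈ O Q) {n : ℕ} (hnF : (n : F) ≠ 0) (hsn : s ^ n = 1) :
    Nd (res Q (fixS s)) := by
  refine nd_of fun x hx => ?_
  apply Subtype.ext
  apply hQ.eq_zero
  intro y
  have hxf : s (x : V) = x := mem_fixS.1 x.2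
  have hpow : ∀ (k : ℕ), (s ^ k) (x : V) = x := by
    intro k
    induction k with
    | zero => rfl
    | succ k ih => rw [pow_succ]; show (s ^ k) (s x) = x; rw [hxf, ih]
  have hpO : ∀ k : ℕ, s ^ k ∈ O Q := fun k => (O Q).pow_mem hs k
  have h1 : ∀ k : ℕ, polar Q (x : V) ((s ^ k) y) = polar Q (x : V) y := by
    intro k
    conv_lhs => rw [← hpow k]
    exact O_polar (hpO k) _ _
  set y' := ∑ k ∈ Finset.range n, (s ^ k) y with hy'
  have hy'f : s y' = y' := by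
    rw [hy', map_sum]
    have e1 : ∀ k, s ((s ^ k) y) = (s ^ (k + 1)) y := fun k => by rw [pow_succ']; rfl
    rw [Finset.sum_congr rfl fun k _ => e1 k]
    have e2 := Finset.sum_range_succ (fun k => (s ^ k) y) n
    have e3 := Finset.sum_range_succ' (fun k => (s ^ k) y) n
    rw [hsn] at e2
    rw [e2] at e3
    exact (add_right_cancel e3).symm
  have h2 : polar Q (x : V) y' = (n : F) * polar Q (x : V) y := by
    have e1 : ∀ t : Finset ℕ, polar Q (x : V) (∑ k ∈ t, (s ^ k) y) = ∑ k ∈ t, polar Q (x : V) ((s ^ k) y) := by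
      intro t
      exact map_sum (polarBilin Q (x : V)) _ _
    rw [hy', e1, Finset.sum_congr rfl fun k _ => h1 k, Finset.sum_const, Finset.card_range, nsmul_eq_mul]
  have h3 : polar Q (x : V) y' = 0 := hx ⟨y', mem_fixS.2 hy'f⟩
  rw [h3] at h2
  exact (mul_eq_zero.1 h2.symm).resolve_left hnF

end Fix

section Main

variable {ι : Type} [Fintype ι] [DecidableEq ι] {F : Type*} [Field F] {Q : QuadraticForm F (ι → F)} {k : ℕ}

theorem odd_fix {V : Type*} [AddCommGroup V] [Module F V] {s : V ≃ₗ[F] V} {n : ℕ} (hn : Odd n) (hsn : s ^ n = 1)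
    {x : V} (hx : s (s x) = x) : s x = x := by
  obtain ⟨m, hm⟩ := hn
  have hpow : ∀ (k : ℕ), (s ^ (2 * k)) x = x := by
    intro k
    induction k with
    | zero => rfl
    | succ k ih =>
      have : 2 * (k + 1) = 2 * k + 1 + 1 := by ring
      rw [this, pow_succ, pow_succ]
      show (s ^ (2 * k)) (s (s x)) = x
      rw [hx, ih]
  have h3 : (s ^ n) x = x := by rw [hsn]; rfl
  rw [hm, pow_succ'] at h3
  have h4 : s ((s ^ (2 * m)) x) = x := h3
  rwa [hpow m] at h4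

/-- elements commuting with a fixed-point-free isometry of odd order are proper -/
theorem Hyp.eps_of_comm (h : Hyp Q k) (s : ↥(O Q))
    (hs2 : ∀ x, (s : (ι → F) ≃ₗ[F] (ι → F)) ((s : (ι → F) ≃ₗ[F] (ι → F)) x) = x → x = 0) (l : GO Q)
    (hc : l * iO Q s = iO Q s * l) : h.eps l = 1 := by
  set T := (s : (ι → F) ≃ₗ[F] (ι → F)) with hT
  have hlT : ∀ v, l.1.1 *ᵥ (T v) = T (l.1.1 *ᵥ v) := by
    intro v
    have h6 := congrArg (fun x : GO Q => x.1.1 *ᵥ v) hc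
    rw [GO_mul, iO_mulVec, GO_mul, iO_mulVec] at h6
    exact h6
  have hlT' : ∀ v, l.1.1 *ᵥ (T.symm v) = T.symm (l.1.1 *ᵥ v) := by
    intro v
    apply T.injective
    rw [← hlT, LinearEquiv.apply_symm_apply, LinearEquiv.apply_symm_apply]
  let B : LinearMap.BilinForm F (ι → F) :=
    polarBilin Q ∘ₗ ((T : (ι → F) →ₗ[F] (ι → F)) - (T.symm : (ι → F) →ₗ[F] (ι → F)))
  have hB : ∀ x y, B x y = polar Q (T x - T.symm x) y := fun _ _ => rfl
  have hadj : ∀ x y, polar Q (T x) y = polar Q x (T.symm y) := by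
    intro x y
    rw [← O_polar s.2 x, ← hT, LinearEquiv.apply_symm_apply]
  have h1 := POmWall.det_similar B (fun x => by
      rw [hB, polar_sub_left, hadj, polar_comm, sub_self]) (fun x hx => by
      have h3 : T x - T.symm x = 0 := h.nd.eq_zero hx
      apply hs2
      rw [sub_eq_zero.1 h3, LinearEquiv.apply_symm_apply]) (Matrix.toLin' l.1.1) (μ := (h.mu l : F))
      (Units.ne_zero _) (fun x y => by
      rw [Matrix.toLin'_apply, Matrix.toLin'_apply, hB, hB, ← hlT, ← hlT', ← Matrix.mulVec_sub, h.polar_spec])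
      h.finrank
  rw [LinearMap.det_toLin'] at h1
  rw [h.eps_eq_one_iff]
  exact h1

/-- an element of the centraliser with nonsquare multiplier -/
theorem Hyp.exists_c [Finite F] (h : Hyp Q k) {p : ℕ} [CharP F p] (s : ↥(O Q)) {n : ℕ} (hn : Odd n) (hnp : ¬ p ∣ n)
    (hsn : (s : (ι → F) ≃ₗ[F] (ι → F)) ^ n = 1) {δ : GO Q} (hδ : h.sig δ = -1) :
    ∃ c : GO Q, c * iO Q s = iO Q s * c ∧ h.sig c = -1 ∧ h.eps c = 1 := by
  set T := (s : (ι → F) ≃ₗ[F] (ι → F)) with hT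
  have hnF : (n : F) ≠ 0 := by
    intro h0
    exact hnp ((CharP.cast_eq_zero_iff F p n).1 h0)
  set t : GO Q := δ * iO Q s * δ⁻¹ with ht
  have hmut : h.mu t = 1 := by rw [ht, map_mul, map_mul, map_inv, h.mu_iO, mul_one, mul_inv_cancel]
  have hpow : ∀ (k : ℕ) (x : ι → F), (((T : (ι → F) →ₗ[F] (ι → F)) : Module.End F (ι → F)) ^ k) x = (T ^ k) x := by
    intro k
    induction k with
    | zero => intro x; rfl
    | succ k ih => intro x; rw [pow_succ, pow_succ, Module.End.mul_apply, ih]; rfl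
  obtain ⟨h₀, hh₀, hcomm⟩ := FormConj3.exists_conj (p := p) Q h.nd (T : (ι → F) →ₗ[F] (ι → F)) (Matrix.toLin' t.1.1)
    (fun x => s.2 x) (fun x => by
      rw [Matrix.toLin'_apply, h.mu_spec, hmut]; simp) n hn hnp (by
      apply LinearMap.ext
      intro x
      rw [hpow, hsn]; rfl) (toLE δ.1) (fun x => by
      rw [Matrix.toLin'_apply, toLE_apply, toLE_apply, ht, GO_mul, GO_mul, iO_mulVec]
      have e1 : (δ⁻¹).1.1 *ᵥ (δ.1.1 *ᵥ x) = x := by rw [← GO_mul, inv_mul_cancel]; exact Matrix.one_mulVec x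
      rw [e1]; rfl)
  set H : ↥(O Q) := ⟨h₀, hh₀⟩ with hH
  have hc1 : iO Q H * iO Q s = t * iO Q H := by
    apply GO_ext
    intro v
    rw [GO_mul, GO_mul, iO_mulVec, iO_mulVec, iO_mulVec]
    have := hcomm v
    rw [Matrix.toLin'_apply] at this
    exact this
  set c : GO Q := δ⁻¹ * iO Q H with hc
  have hcs : c * iO Q s = iO Q s * c := by
    rw [hc, mul_assoc, hc1, ht]; group
  have hcsig : h.sig c = -1 := by
    rw [hc, map_mul, map_inv, hδ, h.sig_iO]; rfl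
  by_cases hfix : ∀ x, T x = x → x = 0
  · refine ⟨c, hcs, hcsig, ?_⟩
    exact h.eps_of_comm s (fun x hx => hfix x (odd_fix hn hsn hx)) c hcs
  · push Not at hfix
    obtain ⟨x, hx, hx0⟩ := hfix
    have hnd := fix_nd h.nd s.2 hnF hsn
    have hfin : 1 ≤ Module.finrank F (fixS T) := by
      have : Nontrivial (fixS T) := ⟨⟨⟨x, mem_fixS.2 hx⟩, 0, fun h0 => hx0 (congrArg Subtype.val h0)⟩⟩
      exact finrank_pos
    obtain ⟨v, hv, hQv⟩ : ∃ v, T v = v ∧ Q v ≠ 0 := by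
      by_contra hcon
      push Not at hcon
      apply hx0
      have hx' : (⟨x, mem_fixS.2 hx⟩ : fixS T) = 0 := by
        apply hnd.eq_zero
        intro y
        show polar Q x y = 0
        have hy := mem_fixS.1 y.2
        have e1 := hcon (x + y) (by rw [map_add, hx, hy])
        rw [Q_add, hcon x hx, hcon y hy, zero_add, zero_add] at e1
        exact e1
      exact congrArg Subtype.val hx'
    have hrs : rf Q v * iO Q s = iO Q s * rf Q v := by
      have := h.rf_conj (iO Q s) v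
      rw [iO_mulVec, ← hT, hv, mul_inv_eq_iff_eq_mul] at this
      exact this.symm
    rcases Int.units_eq_one_or (h.eps c) with he | he
    · exact ⟨c, hcs, hcsig, he⟩
    · refine ⟨c * rf Q v, ?_, ?_, ?_⟩
      · rw [mul_assoc, hrs, ← mul_assoc, hcs, mul_assoc]
      · rw [map_mul, hcsig, h.sig_rf, mul_one]
      · rw [map_mul, he, h.eps_rf hQv]; decide

/-- an isometry of the centraliser with nonsquare spinor norm -/
theorem Hyp.exists_t [Finite F] (h : Hyp Q k) (s : ↥(O Q)) {n : ℕ} (hn : Odd n) (hnF : (n : F) ≠ 0)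
    (hsn : (s : (ι → F) ≃ₗ[F] (ι → F)) ^ n = 1) :
    ∃ t : ↥(O Q), t * s = s * t ∧ h.par t = 1 ∧ h.spin t = -1 := by
  set T := (s : (ι → F) ≃ₗ[F] (ι → F)) with hT
  by_cases hfix : ∀ x, T x = x → x = 0
  · have hnt : Nontrivial (ι → F) := by
      apply Module.nontrivial_of_finrank_pos (R := F)
      rw [h.finrank]
      have := h.pos
      omega
    obtain ⟨g, hg, h1, h3, h4⟩ := POmWall.exists_torus h.two h.nd T s.2 hn hnF hsn hfix
    refine ⟨⟨g, hg⟩, Subtype.ext h3, ?_, ?_⟩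
    · apply sgn_true
      show Even (Module.finrank F (mov g))
      have h5 := finrank_mov_add_fixS g
      rw [h1, finrank_bot, add_zero, h.finrank] at h5
      rw [h5]
      exact ⟨k, by ring⟩
    · exact sgn_false h4
  · push Not at hfix
    obtain ⟨x, hx, hx0⟩ := hfix
    have hnd := fix_nd h.nd s.2 hnF hsn
    have hfin : 1 ≤ Module.finrank F (fixS T) := by
      have : Nontrivial (fixS T) := ⟨⟨⟨x, mem_fixS.2 hx⟩, 0, fun h0 => hx0 (congrArg Subtype.val h0)⟩⟩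
      exact finrank_pos
    have hpar : h.par s = 1 := by
      have h5 : h.par s ^ n = 1 := by
        rw [← map_pow]
        have : s ^ n = 1 := Subtype.ext hsn
        rw [this, map_one]
      rcases Int.units_eq_one_or (h.par s) with he | he
      · exact he
      · rw [he, hn.neg_one_pow] at h5
        exact absurd h5 (by decide)
    have hev : Even (Module.finrank F (mov T)) := by
      by_contra hcon
      have : h.par s = -1 := sgn_false hcon
      rw [hpar] at this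
      exact absurd this (by decide)
    have hfin2 : 2 ≤ Module.finrank F (fixS T) := by
      have h5 := finrank_mov_add_fixS T
      rw [h.finrank] at h5
      obtain ⟨j, hj⟩ := hev
      omega
    obtain ⟨ε, hε⟩ := h.exists_nonsquare
    have hε0 : ε ≠ 0 := by rintro rfl; exact hε ⟨0, by simp⟩
    obtain ⟨v, _, hv⟩ := hnd.exists_Q_eq h.two hfin2 1
    obtain ⟨w, _, hw⟩ := hnd.exists_Q_eq h.two hfin2 ε
    have hv1 : Q (v : ι → F) = 1 := hv one_ne_zero
    have hw1 : Q (w : ι → F) = ε := hw hε0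
    have hv0 : Q (v : ι → F) ≠ 0 := by rw [hv1]; exact one_ne_zero
    have hw0 : Q (w : ι → F) ≠ 0 := by rw [hw1]; exact hε0
    have hcm : ∀ u : fixS T, refl Q (u : ι → F) * T = T * refl Q (u : ι → F) := by
      intro u
      have e1 := refl_conj s.2 (u : ι → F)
      rw [← hT, mem_fixS.1 u.2] at e1
      rw [← e1, inv_mul_cancel_right]
      rw [e1]
    refine ⟨⟨refl Q (v : ι → F), refl_mem _⟩ * ⟨refl Q (w : ι → F), refl_mem _⟩, ?_, ?_, ?_⟩
    · apply Subtype.ext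
      show refl Q (v : ι → F) * refl Q (w : ι → F) * T = T * (refl Q (v : ι → F) * refl Q (w : ι → F))
      rw [mul_assoc, hcm, ← mul_assoc, hcm, mul_assoc]
    · rw [map_mul, h.par_refl hv0, h.par_refl hw0]; decide
    · rw [map_mul, h.spin_refl hv0, h.spin_refl hw0, hv1, hw1, sgn_true ⟨1, by ring⟩, sgn_false hε]; decide

theorem negO_apply (v : ι → F) : ((negO Q : ↥(O Q)) : (ι → F) ≃ₗ[F] (ι → F)) v = -v := rfl

/-- an element of odd order is induced by an isometry of odd order -/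
theorem Hyp.exists_s [Finite F] (h : Hyp Q k) {x : MulAut (Cfsg.POmega F ⇑Q)} (hx : x ∈ (dg (Q := Q)).range) {r : ℕ}
    (hr : Odd r) (hxr : x ^ r = 1) :
    ∃ s : ↥(O Q), x = dg (iO Q s) ∧ (s : (ι → F) ≃ₗ[F] (ι → F)) ^ r = 1 := by
  obtain ⟨g, rfl⟩ := hx
  have hsq : ∀ e : ℤˣ, e * e = 1 := Int.units_mul_self
  have h1 : ou Q (g * g) = 1 ∨ ou Q (g * g) = h.z := h.ou_of_sig_eps (by rw [map_mul, hsq]) (by rw [map_mul, hsq])
  have hzz : ou Q (g * g * (g * g)) = 1 := by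
    rcases h1 with h1 | h1
    · rw [map_mul (ou Q) (g * g), h1, one_mul]
    · obtain ⟨t, ht⟩ : ∃ t : ↥(O Q), ou Q (iO Q t) = h.z := ⟨_, rfl⟩
      rw [map_mul (ou Q) (g * g), h1, ← ht, ← map_mul, ← map_mul, h.ou_iO_iff]
      refine ⟨by rw [map_mul, hsq], Or.inl (by rw [map_mul, hsq])⟩
  obtain ⟨c, t, _, ht⟩ := (h.ou_eq_one_iff _).1 hzz
  have ht4 : dg g ^ 4 = dg (iO Q t) := by
    rw [← map_pow]
    have : g ^ 4 = g * g * (g * g) := by
      rw [show (4 : ℕ) = 1 + 1 + 1 + 1 from rfl, pow_add, pow_add, pow_add, pow_one]; simp only [mul_assoc]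
    rw [this, ht, map_mul, dg_sc, one_mul]
  obtain ⟨j, hj⟩ : ∃ j, dg g = dg (iO Q (t ^ j)) := by
    have hr4 : r % 4 = 1 ∨ r % 4 = 3 := by
      obtain ⟨m, hm⟩ := hr
      omega
    rcases hr4 with h4 | h4
    · refine ⟨(1 + r * 3) / 4, ?_⟩
      rw [map_pow, map_pow, ← ht4, ← pow_mul, Nat.mul_div_cancel' (by omega), pow_add, pow_mul, hxr, one_pow,
        mul_one, pow_one]
    · refine ⟨(1 + r * 1) / 4, ?_⟩
      rw [map_pow, map_pow, ← ht4, ← pow_mul, Nat.mul_div_cancel' (by omega), pow_add, pow_mul, hxr, one_pow,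
        mul_one, pow_one]
  set u := t ^ j with hu
  have hur : dg (iO Q (u ^ r)) = 1 := by rw [map_pow, map_pow, ← hj, hxr]
  obtain ⟨e, he⟩ := h.ker _ hur
  have he' : ∀ v, ((u ^ r : ↥(O Q)) : (ι → F) ≃ₗ[F] (ι → F)) v = e • v := by
    intro v
    rw [← iO_mulVec, he]
  obtain ⟨v, hv⟩ := h.exists_ne
  have hee : e * e = 1 := by
    have h5 := (u ^ r).2 v
    rw [he', Q_smul] at h5
    exact mul_right_cancel₀ hv (by rw [h5, one_mul])
  rcases mul_self_eq_one_iff.1 hee with rfl | rfl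
  · refine ⟨u, hj, ?_⟩
    apply LinearEquiv.ext
    intro w
    have := he' w
    rw [one_smul] at this
    exact this
  · refine ⟨negO Q * u, ?_, ?_⟩
    · rw [hj, map_mul, map_mul, iO_negO, dg_sc, one_mul]
    · apply LinearEquiv.ext
      intro w
      have h6 : ∀ (n : ℕ) (w : ι → F), (((negO Q * u : ↥(O Q)) : (ι → F) ≃ₗ[F] (ι → F)) ^ n) w =
          (-1 : F) ^ n • ((u ^ n : ↥(O Q)) : (ι → F) ≃ₗ[F] (ι → F)) w := by
        intro n
        induction n with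
        | zero => intro w; rw [pow_zero, pow_zero, pow_zero, one_smul]; rfl
        | succ n ih =>
          intro w
          rw [pow_succ', pow_succ' (-1 : F), pow_succ' u]
          show -((u : (ι → F) ≃ₗ[F] (ι → F)) ((((negO Q * u : ↥(O Q)) : (ι → F) ≃ₗ[F] (ι → F)) ^ n) w)) =
            (-1 * (-1) ^ n) • ((u : (ι → F) ≃ₗ[F] (ι → F)) (((u ^ n : ↥(O Q)) : (ι → F) ≃ₗ[F] (ι → F)) w))
          rw [ih, map_smul, mul_smul, neg_one_smul]
      rw [h6, he', hr.neg_one_pow, smul_smul]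
      simp

theorem conj_of_comm {M : Type*} [Group M] {l c x y : M} (hy : y = l * x * l⁻¹) (hc : c * x = x * c) :
    y = l * c * x * (l * c)⁻¹ := by
  rw [hy, _root_.mul_inv_rev, mul_assoc l c x, hc]; group

section Classes

variable [Finite F]

/-- auxiliary data for an element of odd order prime to the characteristic -/
theorem Hyp.exists_data (h : Hyp Q k) {p : ℕ} [CharP F p] {x : MulAut (Cfsg.POmega F ⇑Q)}
    (hx : x ∈ (dg (Q := Q)).range) {r : ℕ} (hr : Odd r) (hrp : ¬ p ∣ r) (hxr : x ^ r = 1) {δ : GO Q}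
    (hδ : h.sig δ = -1) :
    (∃ c : GO Q, dg c * x = x * dg c ∧ h.sig c = -1 ∧ h.eps c = 1) ∧
    (∃ t : ↥(O Q), dg (iO Q t) * x = x * dg (iO Q t) ∧ h.par t = 1 ∧ h.spin t = -1) := by
  obtain ⟨s, rfl, hs⟩ := h.exists_s hx hr hxr
  constructor
  · obtain ⟨c, h1, h2, h3⟩ := h.exists_c s hr hrp hs hδ
    exact ⟨c, by rw [← map_mul, h1, map_mul], h2, h3⟩
  · obtain ⟨t, h1, h2, h3⟩ := h.exists_t s hr (fun h0 => hrp ((CharP.cast_eq_zero_iff F p r).1 h0)) hs
    exact ⟨t, by rw [← map_mul, ← map_mul, h1, map_mul, map_mul], h2, h3⟩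

theorem Hyp.conj_inn (h : Hyp Q k) {p : ℕ} [CharP F p] {x : MulAut (Cfsg.POmega F ⇑Q)}
    (hx : x ∈ (dg (Q := Q)).range) {r : ℕ} (hr : Odd r) (hrp : ¬ p ∣ r) (hxr : x ^ r = 1) {δ : GO Q}
    (hδ : h.sig δ = -1) {y : MulAut (Cfsg.POmega F ⇑Q)} (hy : Cfsg.IsConjUnder ((h.eps.ker).map (dg (Q := Q))) x y) :
    Cfsg.IsConjUnder (Cfsg.Inn (Cfsg.POmega F ⇑Q)) x y := by
  obtain ⟨⟨c, hc1, hc2, hc3⟩, t, ht1, ht2, ht3⟩ := h.exists_data hx hr hrp hxr hδ
  obtain ⟨_, ⟨l, hl, rfl⟩, hy⟩ := hy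
  have hl' : h.eps l = 1 := hl
  obtain ⟨l₁, hs1, he1, hy1⟩ : ∃ l₁ : GO Q, h.sig l₁ = 1 ∧ h.eps l₁ = 1 ∧ y = dg l₁ * x * (dg l₁)⁻¹ := by
    rcases Int.units_eq_one_or (h.sig l) with h1 | h1
    · exact ⟨l, h1, hl', hy⟩
    · refine ⟨l * c, by rw [map_mul, h1, hc2]; decide, by rw [map_mul, hl', hc3, one_mul], ?_⟩
      rw [map_mul]
      exact conj_of_comm hy hc1
  rcases h.ou_of_sig_eps hs1 he1 with h1 | h1
  · exact ⟨dg l₁, (dg_mem_Inn_iff l₁).2 h1, hy1⟩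
  · by_cases hA : CaseA Q
    · have h2 := h.ou_eq_z hA t ht2 ht3
      refine ⟨dg (l₁ * iO Q t), (dg_mem_Inn_iff _).2 ?_, ?_⟩
      · rw [map_mul, h1, h2]
        rw [← h2, ← map_mul, ← map_mul, h.ou_iO_iff]
        exact ⟨by rw [map_mul, Int.units_mul_self], Or.inl (by rw [map_mul, Int.units_mul_self])⟩
      · rw [map_mul]
        exact conj_of_comm hy1 ht1
    · rw [h.z_eq_one hA] at h1
      exact ⟨dg l₁, (dg_mem_Inn_iff l₁).2 h1, hy1⟩

theorem Hyp.conj_po (h : Hyp Q k) {p : ℕ} [CharP F p] {x : MulAut (Cfsg.POmega F ⇑Q)}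
    (hx : x ∈ (dg (Q := Q)).range) {r : ℕ} (hr : Odd r) (hrp : ¬ p ∣ r) (hxr : x ^ r = 1) {δ : GO Q}
    (hδ : h.sig δ = -1) {y : MulAut (Cfsg.POmega F ⇑Q)} (hy : Cfsg.IsConjUnder (Cfsg.pgoAut F ⇑Q) x y) :
    Cfsg.IsConjUnder (Cfsg.poAut F ⇑Q) x y := by
  obtain ⟨⟨c, hc1, hc2, hc3⟩, _⟩ := h.exists_data hx hr hrp hxr hδ
  rw [pgoAut_eq] at hy
  obtain ⟨_, ⟨l, rfl⟩, hy⟩ := hy
  obtain ⟨l₁, hs1, hy1⟩ : ∃ l₁ : GO Q, h.sig l₁ = 1 ∧ y = dg l₁ * x * (dg l₁)⁻¹ := by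
    rcases Int.units_eq_one_or (h.sig l) with h1 | h1
    · exact ⟨l, h1, hy⟩
    · refine ⟨l * c, by rw [map_mul, h1, hc2]; decide, ?_⟩
      rw [map_mul]
      exact conj_of_comm hy hc1
  obtain ⟨a, t, rfl⟩ := h.exists_of_sig hs1
  rw [map_mul, dg_sc, one_mul] at hy1
  refine ⟨dg (iO Q t), ?_, hy1⟩
  rw [poAut_eq]
  exact ⟨iO Q t, ((toO Q).symm t).2, rfl⟩

theorem isConjUnder_mono {X : Type*} [Group X] {H K : Subgroup X} (hHK : H ≤ K) {x y : X}
    (hy : Cfsg.IsConjUnder H x y) : Cfsg.IsConjUnder K x y := by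
  obtain ⟨g, hg, h⟩ := hy
  exact ⟨g, hHK hg, h⟩

theorem Hyp.Inn_le_pso (h : Hyp Q k) : Cfsg.Inn (Cfsg.POmega F ⇑Q) ≤ Cfsg.psoAut F ⇑Q := by
  rw [Inn_eq, psoAut_eq]
  apply Subgroup.map_mono
  intro g hg
  have hst : ∃ s : ↥(O Q), g = iO Q s := by
    obtain ⟨s, hs⟩ := mem_OmG.1 hg
    refine ⟨toO Q s.1, ?_⟩
    apply Subtype.ext
    show g.1 = ((toO Q).symm (toO Q s.1)).1
    rw [MulEquiv.symm_apply_apply, hs]
  obtain ⟨s, rfl⟩ := hst
  rw [SO_iff h]
  exact ⟨h.mu_iO s, by rw [h.eps_iO]; exact ((h.mem_Om_iff s).1 ((iO_mem_OmG s).1 hg)).1⟩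

theorem Hyp.pso_le_inndiag (h : Hyp Q k) : Cfsg.psoAut F ⇑Q ≤ (h.eps.ker).map (dg (Q := Q)) := by
  rw [psoAut_eq]
  apply Subgroup.map_mono
  intro g hg
  exact ((SO_iff h g).1 hg).2

theorem po_le_pgo : Cfsg.poAut F ⇑Q ≤ Cfsg.pgoAut F ⇑Q := by
  rw [poAut_eq, pgoAut_eq]
  rintro _ ⟨g, _, rfl⟩
  exact ⟨g, rfl⟩

theorem Hyp.classes (h : Hyp Q k) {p : ℕ} [CharP F p] {x : MulAut (Cfsg.POmega F ⇑Q)}
    (hx : x ∈ Cfsg.pgoAut F ⇑Q) {r : ℕ} (hr : Odd r) (hrp : ¬ p ∣ r) (hxr : x ^ r = 1) {δ : GO Q}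
    (hδ : h.sig δ = -1) :
    (∀ y : MulAut (Cfsg.POmega F ⇑Q), (Cfsg.IsConjUnder (Cfsg.Inn (Cfsg.POmega F ⇑Q)) x y ↔
        Cfsg.IsConjUnder ((h.eps.ker).map (dg (Q := Q))) x y) ∧
      (Cfsg.IsConjUnder (Cfsg.psoAut F ⇑Q) x y ↔ Cfsg.IsConjUnder ((h.eps.ker).map (dg (Q := Q))) x y)) ∧
    (∀ y : MulAut (Cfsg.POmega F ⇑Q), Cfsg.IsConjUnder (Cfsg.poAut F ⇑Q) x y ↔
      Cfsg.IsConjUnder (Cfsg.pgoAut F ⇑Q) x y) := by
  rw [pgoAut_eq] at hx
  refine ⟨fun y => ⟨⟨fun hy => ?_, fun hy => ?_⟩, ⟨fun hy => ?_, fun hy => ?_⟩⟩, fun y => ⟨fun hy => ?_, fun hy => ?_⟩⟩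
  · exact isConjUnder_mono (h.Inn_le_pso.trans h.pso_le_inndiag) hy
  · exact h.conj_inn hx hr hrp hxr hδ hy
  · exact isConjUnder_mono h.pso_le_inndiag hy
  · exact isConjUnder_mono h.Inn_le_pso (h.conj_inn hx hr hrp hxr hδ hy)
  · exact isConjUnder_mono po_le_pgo hy
  · exact h.conj_po hx hr hrp hxr hδ hy

end Classes

end Main

end Cfsg.Agent.Lib.POmAut
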