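import Cfsg.Agent.Lib.POmGraph3
import Cfsg.Agent.Lib.POmMinus
import Cfsg.Agent.Lib.OAutI

set_option autoImplicit false

/-!
# Semisimilarities of the minus form inducing involutions are linear (helper43)
-/

namespace Cfsg.Agent.Lib.POmAut

open Matrix QuadraticMap Module
open Cfsg.Agent.Lib.Quad Cfsg.Agent.Lib.ClOrthSiegel Cfsg.Agent.Lib.ClOmega
open Cfsg.Agent.Lib.OAut

section Kernel

variable {F V : Type*} [Field F] [AddCommGroup V] [Module F V] [FiniteDimensional F V] {Q : QuadraticForm F V}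

theorem exists_TS (hQ : Nd Q) {e₁ e₂ f₁ f₂ : V} (h : H2 Q e₁ e₂ f₁ f₂) {z : V} (hz : Q z = 0) (hz0 : z ≠ 0) :
    ∃ y, TS Q z y := by
  have hT := h.tsE
  obtain ⟨g, hg, hge⟩ := hQ.witt_family (n := 1) ![e₁] ![z] (by
      rw [linearIndependent_unique_iff]; simpa using hT.z0) (by
      rw [linearIndependent_unique_iff]; simpa using hz0) (by
      intro i; fin_cases i; simp [hz, h.qe1]) (by
      intro i j; fin_cases i; fin_cases j; simp [polar_self', hz, h.qe1])
  have h0 := hge 0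
  simp only [Matrix.cons_val_fin_one] at h0
  refine ⟨g e₂, ?_⟩
  have := hT.map hg
  rwa [h0] at this

theorem Semi.TS_map (s : Semi Q) {z y : V} (h : TS Q z y) : TS Q (s.Φ z) (s.c⁻¹ • s.Φ y) := by
  have h1 : TS Q (s.Φ z) (s.Φ y) := by
    refine ⟨by rw [s.q, h.hz]; simp, by rw [s.q, h.hy]; simp, by rw [s.polar_map, h.hp]; simp, ?_⟩
    intro a b hab
    have h2 : s.Φ (s.σ.symm a • z + s.σ.symm b • y) = 0 := by
      rw [map_add, s.smul, s.smul, RingEquiv.apply_symm_apply, RingEquiv.apply_symm_apply, hab]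
    obtain ⟨h3, h4⟩ := h.li _ _ ((map_eq_zero_iff s.Φ s.Φ.injective).1 h2)
    exact ⟨(map_eq_zero s.σ.symm).1 h3, (map_eq_zero s.σ.symm).1 h4⟩
  exact h1.smul (inv_ne_zero s.c0)

theorem semi_eigen (D : OAut.Dat Q) (s : Semi Q) (hs : ∀ x, s.aut x = x) {z y : V} (h : TS Q z y) :
    ∃ c : F, s.Φ z = c • z := by
  have key : ∀ {w : V}, TS Q z w → ∃ a b : F, s.Φ z = a • z + b • w := by
    intro w hw
    have h1 : D.eps (s.Φ z) (s.c⁻¹ • s.Φ w) = D.eps z w := by rw [← aut_eps, hs]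
    obtain ⟨a, b, _, _, h2, _⟩ := XS_eq_of_eps D (Semi.TS_map s hw) hw h1
    exact ⟨a, b, h2⟩
  obtain ⟨w, hw, hli⟩ := exists_two D h
  obtain ⟨a, b, h1⟩ := key h
  obtain ⟨a', b', h2⟩ := key hw
  have h3 : (a - a') • z + b • y + (-b') • w = 0 := by
    have : (a • z + b • y) - (a' • z + b' • w) = 0 := by rw [← h1, ← h2, sub_self]
    rw [← this]; module
  have h4 := hli _ _ _ h3
  rw [neg_eq_zero] at h4
  exact ⟨a', by rw [h2, h4, zero_smul, add_zero]⟩

/-- a semisimilarity acting trivially is a scalar -/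
theorem semi_kernel (D : OAut.Dat Q) {e₁ e₂ f₁ f₂ : V} (h : H2 Q e₁ e₂ f₁ f₂) {k : ℕ} {e f : Fin k → V}
    (fr : Frame Q k e f) {i j : Fin k} (hij : i ≠ j) (s : Semi Q) (hs : ∀ x, s.aut x = x) :
    (∀ t, s.σ t = t) ∧ ∃ c : F, ∀ v, s.Φ v = c • v := by
  have hT := h.tsE
  have hsig : ∀ t, s.σ t = t := by
    obtain ⟨a, ha⟩ := semi_eigen D s hs hT
    obtain ⟨b, hb⟩ := semi_eigen D s hs hT.swap
    have hb0 : b ≠ 0 := by
      rintro rfl
      rw [zero_smul] at hb
      exact hT.y0 ((map_eq_zero_iff s.Φ s.Φ.injective).1 hb)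
    have key : ∀ t : F, s.σ t * b = a * t := by
      intro t
      have h1 : TS Q (e₁ + t • e₂) e₂ := by
        have := hT.change (a := 1) (b := t) (c := 0) (d := 1) (by simp)
        simpa using this
      obtain ⟨c, hc⟩ := semi_eigen D s hs h1
      rw [map_add, s.smul, ha, hb] at hc
      have h2 : (a - c) • e₁ + (s.σ t * b - c * t) • e₂ = 0 := by
        have : a • e₁ + s.σ t • b • e₂ - c • (e₁ + t • e₂) = 0 := by rw [hc, sub_self]
        rw [← this]; module
      obtain ⟨h3, h4⟩ := hT.li _ _ h2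
      rw [sub_eq_zero.1 h3, sub_eq_zero.1 h4]
    intro t
    have h1 := key 1
    rw [map_one, one_mul, mul_one] at h1
    have h2 := key t
    rw [h1, mul_comm a] at h2
    exact mul_right_cancel₀ (h1 ▸ hb0) h2
  refine ⟨hsig, ?_⟩
  let L : V →ₗ[F] V :=
    { toFun := s.Φ
      map_add' := map_add s.Φ
      map_smul' := fun a v => by
        show s.Φ (a • v) = a • s.Φ v
        rw [s.smul, hsig] }
  exact scalar_of_eigen fr hij L fun z hz hz0 => by
    obtain ⟨y, hy⟩ := exists_TS D.nd h hz hz0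
    exact semi_eigen D s hs hy

end Kernel

section Field

variable {F : Type*} [Field F]

/-- Hilbert 90 for an involution -/
theorem hilbert90 (σ : F ≃+* F) (hσ : ∀ x, σ (σ x) = x) (hne : ∃ x, σ x ≠ x) {η : F} (hη : η * σ η = 1) :
    ∃ t : F, t ≠ 0 ∧ σ t = η * t := by
  have key : ∀ x, σ (x + σ η * σ x) = η * (x + σ η * σ x) := by
    intro x
    rw [map_add, map_mul, hσ, hσ, mul_add, ← mul_assoc, hη]
    ring
  by_cases h : ∃ x, x + σ η * σ x ≠ 0
  · obtain ⟨x, hx⟩ := h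
    exact ⟨_, hx, key x⟩
  · push Not at h
    exfalso
    obtain ⟨x, hx⟩ := hne
    have h1 := h 1
    rw [map_one, mul_one] at h1
    have h2 := h x
    have h3 : σ η = -1 := by linear_combination h1
    rw [h3] at h2
    apply hx
    linear_combination -h2

/-- fixed elements are squares -/
theorem isSquare_of_fixed [Finite F] (h2 : (2 : F) ≠ 0) (σ : F ≃+* F) (hσ : ∀ x, σ (σ x) = x) (hne : ∃ x, σ x ≠ x)
    {x : F} (hx : σ x = x) : IsSquare x := by
  classical
  have h1 : orderOf σ = 2 := by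
    refine orderOf_eq_prime ?_ ?_
    · rw [pow_two]; exact RingEquiv.ext hσ
    · rintro rfl
      obtain ⟨y, hy⟩ := hne
      exact hy rfl
  have : Finite (F ≃+* F) := Finite.of_injective (fun e : F ≃+* F => (e : F → F)) DFunLike.coe_injective
  have : Fintype (Subgroup.zpowers σ) := Fintype.ofFinite _
  have h3 := FixedPoints.finrank_eq_card (Subgroup.zpowers σ) F
  rw [← Nat.card_eq_fintype_card, Nat.card_zpowers, h1] at h3
  have h4 : x ∈ FixedPoints.subfield (Subgroup.zpowers σ) F := by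
    rintro ⟨τ, hτ⟩
    obtain ⟨n, rfl⟩ := Subgroup.mem_zpowers_iff.1 hτ
    show (σ ^ n) x = x
    have h5 : σ ∈ MulAction.stabilizer (F ≃+* F) x := hx
    exact Subgroup.zpow_mem _ h5 n
  have h5 : (2 : FixedPoints.subfield (Subgroup.zpowers σ) F) ≠ 0 := by
    intro h
    apply h2
    have := congrArg (algebraMap (FixedPoints.subfield (Subgroup.zpowers σ) F) F) h
    rwa [map_ofNat, map_zero] at this
  exact isSquare_ext h5 h3 ⟨x, h4⟩

end Field

section Minus

variable {m : ℕ} {F : Type*} [Field F] {a b : F}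

/-- an involutory semisimilarity of the minus form is linear -/
theorem sigma_eq_id [Finite F] (h2 : (2 : F) ≠ 0)
    (hab : ∀ z₁ z₂ : F, z₁ ^ 2 + a * z₁ * z₂ + b * z₂ ^ 2 = 0 → z₁ = 0 ∧ z₂ = 0)
    (s : Semi (quadMinus m F a b)) (hσ : ∀ x, s.σ (s.σ x) = x) {l : F} (hl : ∀ v, s.Φ (s.Φ v) = l • v) (x : F) :
    s.σ x = x := by
  by_contra hne
  have hne' : ∃ x, s.σ x ≠ x := ⟨x, hne⟩
  set G := LinearMap.BilinForm.toMatrix (Pi.basisFun F ((Fin m ⊕ Fin m) ⊕ Fin 2)) (polarBilin (quadMinus m F a b))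
    with hG
  have hns := not_isSquare_disc h2 hab
  have hD0 := disc_ne_zero_of_anisotropic hab
  have hGij : ∀ i j, G i j = polar (quadMinus m F a b) (Pi.single i 1) (Pi.single j 1) := by
    intro i j
    rw [hG, LinearMap.BilinForm.toMatrix_apply, Pi.basisFun_apply, Pi.basisFun_apply]; rfl
  have hsingle : ∀ i : (Fin m ⊕ Fin m) ⊕ Fin 2, s.mat.1 *ᵥ Pi.single i 1 = s.Φ (Pi.single i 1) := by
    intro i
    rw [← s.mat_mulVec]
    congr 1
    funext j
    rcases eq_or_ne j i with rfl | hj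
    · simp
    · simp [hj]
  have h3 : ∀ (M : Matrix ((Fin m ⊕ Fin m) ⊕ Fin 2) ((Fin m ⊕ Fin m) ⊕ Fin 2) F) i j,
      Pi.single i 1 ⬝ᵥ (M *ᵥ Pi.single j 1) = M i j := by
    intro M i j; simp
  have hpol : ∀ u v : (Fin m ⊕ Fin m) ⊕ Fin 2 → F, u ⬝ᵥ (G *ᵥ v) = polar (quadMinus m F a b) u v := by
    intro u v
    have h2 : Matrix.toBilin (Pi.basisFun F _) G = polarBilin (quadMinus m F a b) := by
      rw [hG]; exact Matrix.toBilin_toMatrix _ _
    rw [Matrix.toBilin_basisFun] at h2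
    rw [← polarBilin_apply_apply, ← h2, Matrix.toBilin'_apply']
  -- Gram equation
  have hgram : s.mat.1ᵀ * G * s.mat.1 = s.c • G.map s.σ := by
    ext i j
    have e1 := s.polar_map (Pi.single i 1) (Pi.single j 1)
    rw [← hsingle, ← hsingle, ← hpol, ← hGij] at e1
    rw [Matrix.smul_apply, smul_eq_mul, Matrix.map_apply, ← e1, ← h3 (s.mat.1ᵀ * G * s.mat.1),
      ← Matrix.mulVec_mulVec, ← Matrix.mulVec_mulVec, Matrix.dotProduct_mulVec, Matrix.vecMul_transpose]
  -- square equation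
  have hsq : s.mat.1 * s.mat.1.map s.σ = l • (1 : Matrix _ _ F) := by
    apply Matrix.ext_of_mulVec_single
    intro i
    rw [Matrix.smul_mulVec, Matrix.one_mulVec, ← hl, ← hsingle i, ← Matrix.mulVec_mulVec, ← s.mat_mulVec,
      map_mulVec_sigma]
    congr 2
    funext j
    rcases eq_or_ne j i with rfl | hj
    · simp
    · simp [hj]
  have hcard : Fintype.card ((Fin m ⊕ Fin m) ⊕ Fin 2) = 2 * (m + 1) := by simp; ring
  have hd1 := congrArg Matrix.det hgram
  rw [Matrix.det_smul, Matrix.det_mul, Matrix.det_mul, Matrix.det_transpose, hcard] at hd1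
  have hd2 := congrArg Matrix.det hsq
  rw [Matrix.det_smul, Matrix.det_mul, Matrix.det_one, mul_one, hcard] at hd2
  have hσdet : ∀ M : Matrix ((Fin m ⊕ Fin m) ⊕ Fin 2) ((Fin m ⊕ Fin m) ⊕ Fin 2) F,
      (M.map s.σ).det = s.σ M.det := fun M => (RingHom.map_det (s.σ : F →+* F) M).symm
  rw [hσdet] at hd1 hd2
  have hGd : G.det = (-1) ^ (m + 1) * (a ^ 2 - 4 * b) := det_gram_minus a b
  rw [hGd, map_mul, map_pow, map_neg, map_one] at hd1
  set D := a ^ 2 - 4 * b with hD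
  have hne1 : (-1 : F) ^ (m + 1) ≠ 0 := pow_ne_zero _ (neg_ne_zero.2 one_ne_zero)
  set d := s.mat.1.det with hd
  have hd3 : d ^ 2 * D = s.c ^ (2 * (m + 1)) * s.σ D := by
    apply mul_left_cancel₀ hne1
    linear_combination hd1
  have hc0 := s.c0
  have hcσ : l ^ 2 = s.c * s.σ s.c := by
    obtain ⟨v, hv⟩ : ∃ v, quadMinus m F a b v ≠ 0 := ⟨pv m 1 0, by rw [Q_pv]; simp⟩
    have e1 := s.q (s.Φ v)
    rw [hl, s.q, map_mul, hσ, Q_smul] at e1
    apply mul_right_cancel₀ hv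
    linear_combination e1
  have hck : s.c ^ (m + 1) ≠ 0 := pow_ne_zero _ hc0
  have hσck : s.σ (s.c ^ (m + 1)) ≠ 0 := (map_ne_zero s.σ).2 hck
  have hη : (d / s.c ^ (m + 1)) * s.σ (d / s.c ^ (m + 1)) = 1 := by
    rw [map_div₀, div_mul_div_comm, hd2, div_eq_one_iff_eq (mul_ne_zero hck hσck), map_pow, ← mul_pow, ← hcσ, ← pow_mul]
  obtain ⟨t, ht0, ht⟩ := hilbert90 s.σ hσ hne' hη
  have hDσ : s.σ D = (d / s.c ^ (m + 1)) ^ 2 * D := by
    rw [div_pow, ← pow_mul, mul_comm (m + 1) 2, div_mul_eq_mul_div, hd3, mul_div_cancel_left₀]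
    exact pow_ne_zero _ hc0
  have hη0 : d / s.c ^ (m + 1) ≠ 0 := left_ne_zero_of_mul_eq_one hη
  have hfix : s.σ (D / t ^ 2) = D / t ^ 2 := by
    rw [map_div₀, map_pow, ht, hDσ, mul_pow, mul_div_mul_left _ _ (pow_ne_zero _ hη0)]
  obtain ⟨r, hr⟩ := isSquare_of_fixed h2 s.σ hσ hne' hfix
  apply hns
  refine ⟨r * t, ?_⟩
  rw [div_eq_iff (pow_ne_zero _ ht0)] at hr
  rw [hr]; ring

universe u

/-- every automorphism of order dividing 2 is induced by a similarity. -/
theorem exists_dg {F : Type u} [Field F] [Finite F] {a b : F} (h2 : (2 : F) ≠ 0) (hm : 3 ≤ m)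
    (hab : ∀ z₁ z₂ : F, z₁ ^ 2 + a * z₁ * z₂ + b * z₂ ^ 2 = 0 → z₁ = 0 ∧ z₂ = 0)
    (γ : MulAut (Cfsg.POmega F ⇑(quadMinus m F a b))) (hγ : γ * γ = 1) :
    ∃ g : GO (quadMinus m F a b), γ = dg g := by
  have hFt := Fintype.ofFinite F
  have hQ : Nd (quadMinus m F a b) := nd_quadMinus (disc_ne_zero_of_anisotropic hab)
  have D : OAut.Dat (quadMinus m F a b) := dat_of_HP hQ
    (genHyp_minus m (by omega) a b) (hpMinus m a b) hm (by rw [finrank_minus]; omega)
  have H := h2_of_HP (hpMinus m a b) (i := ⟨0, by omega⟩) (j := ⟨1, by omega⟩) (by simp)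
  obtain ⟨s, hs⟩ := exists_pair_of_aut D (big_minus hm hab) H γ
  have hss : ∀ x, (s.comp s).aut x = x := by
    intro x
    obtain ⟨y, rfl⟩ := (poEquiv (quadMinus m F a b)).surjective x
    rw [s.comp_aut, ← hs, ← hs]
    have : γ (γ y) = y := by
      have := DFunLike.congr_fun hγ y
      exact this
    rw [this]
  obtain ⟨h3, l, hl⟩ := semi_kernel D H (frame_of_HP (hpMinus m a b)) (i := ⟨0, by omega⟩) (j := ⟨1, by omega⟩)
    (by simp) (s.comp s) hss
  have hid := sigma_eq_id h2 hab s h3 hl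
  have hσ : s.σ = RingEquiv.refl F := RingEquiv.ext hid
  have hmat : ∀ v, s.mat.1 *ᵥ v = s.Φ v := by
    intro v
    rw [← s.mat_mulVec]
    congr 1
    funext i
    exact (hid _).symm
  refine ⟨⟨s.mat, mem_GO.2 ⟨Units.mk0 s.c s.c0, fun v => ?_⟩⟩, ?_⟩
  · rw [hmat, s.q, hid]; rfl
  · rw [← isInduced_iff]
    have := induced_of_aut s hs
    rwa [hσ] at this

end Minus

end Cfsg.Agent.Lib.POmAut
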