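import Cfsg.Agent.Lib.POmWall
import Cfsg.Agent.Lib.FormConj

set_option autoImplicit false

/-!
# Elements of nonsquare spinor norm commuting with a fixed-point-free semisimple isometry (helper43)
-/

namespace Cfsg.Agent.Lib.POmWall

open Matrix QuadraticMap Module Polynomial
open Cfsg.Agent.Lib.Quad

section Simple

variable {F : Type*} [Field F]

/-- on a simple module every value is the determinant of a polynomial in the operator -/
theorem exists_poly [Finite F] {U : Type*} [AddCommGroup U] [Module F U] [FiniteDimensional F U] [Nontrivial U]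
    (T : Module.End F U) (hT : ∀ W : Submodule F U, (∀ x ∈ W, T x ∈ W) → W = ⊥ ∨ W = ⊤) (c : F) :
    ∃ P : F[X], LinearMap.det (aeval T P) = c := by
  have hsimple : IsSimpleModule F[X] (AEval' T) := by
    have : IsSimpleOrder (Submodule F[X] (AEval' T)) :=
      { exists_pair_ne := by
          refine ⟨⊥, ⊤, ?_⟩
          intro h
          obtain ⟨u, hu⟩ := exists_ne (0 : U)
          have h1 : AEval'.of T u ∈ (⊤ : Submodule F[X] (AEval' T)) := trivial
          rw [← h, Submodule.mem_bot] at h1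
          exact hu ((AEval'.of T).map_eq_zero_iff.1 h1)
        eq_bot_or_eq_top := by
          intro W
          let W' : Submodule F U :=
            { carrier := {u | AEval'.of T u ∈ W}
              add_mem' := fun {a b} ha hb => by
                show AEval'.of T (a + b) ∈ W
                rw [map_add]; exact W.add_mem ha hb
              zero_mem' := by
                show AEval'.of T 0 ∈ W
                rw [map_zero]; exact W.zero_mem
              smul_mem' := fun c x hx => by
                show AEval'.of T (c • x) ∈ W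
                rw [map_smul, ← algebraMap_smul F[X] c (AEval'.of T x)]
                exact W.smul_mem _ hx }
          have hW' : ∀ u, u ∈ W' ↔ AEval'.of T u ∈ W := fun _ => Iff.rfl
          rcases hT W' (by
            intro x hx
            rw [hW'] at hx ⊢
            rw [← AEval'.X_smul_of]
            exact W.smul_mem _ hx) with h | h
          · left
            rw [eq_bot_iff]
            intro x hx
            obtain ⟨u, rfl⟩ := (AEval'.of T).surjective x
            have : u ∈ W' := hx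
            rw [h, Submodule.mem_bot] at this
            rw [this, map_zero]; exact Submodule.zero_mem _
          · right
            rw [eq_top_iff]
            intro x _
            obtain ⟨u, rfl⟩ := (AEval'.of T).surjective x
            have : u ∈ W' := by rw [h]; trivial
            exact this }
    exact { this with }
  obtain ⟨I, hI, ⟨e⟩⟩ := isSimpleModule_iff_quot_maximal.1 hsimple
  let _ : Field (F[X] ⧸ I) := Ideal.Quotient.field I
  let e' : U ≃ₗ[F] F[X] ⧸ I := (AEval'.of T).trans (e.restrictScalars F)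
  have hfin : Finite (F[X] ⧸ I) := by
    have : Finite U := Module.finite_of_finite F
    exact Finite.of_equiv U e'.toEquiv
  obtain ⟨y, hy⟩ := FiniteField.norm_surjective F (F[X] ⧸ I) c
  obtain ⟨P, rfl⟩ := Ideal.Quotient.mk_surjective y
  refine ⟨P, ?_⟩
  rw [← hy, Algebra.norm_apply]
  rw [← LinearMap.det_conj (aeval T P) e']
  congr 1
  apply LinearMap.ext
  intro x
  obtain ⟨u, rfl⟩ := e'.surjective x
  show e' ((aeval T P) (e'.symm (e' u))) = Ideal.Quotient.mk I P * e' u
  rw [LinearEquiv.symm_apply_apply]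
  show e (AEval'.of T ((aeval T P) u)) = Ideal.Quotient.mk I P * e (AEval'.of T u)
  have h1 : AEval'.of T ((aeval T P) u) = P • AEval'.of T u := by
    exact Module.AEval.of_aeval_smul T P u
  rw [h1, map_smul]
  rfl

end Simple

section Adjoint

variable {F V : Type*} [Field F] [AddCommGroup V] [Module F V] {Q : QuadraticForm F V}

/-- adjoint pair -/
def Adj (Q : QuadraticForm F V) (T T' : V →ₗ[F] V) : Prop := ∀ x y, polar Q (T x) y = polar Q x (T' y)

variable {T T' T₁ T₁' S S' : V →ₗ[F] V}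

theorem Adj.symm (h : Adj Q T T') : Adj Q T' T := fun x y => by rw [polar_comm, ← h, polar_comm]

theorem Adj.add (h : Adj Q T T') (h₁ : Adj Q T₁ T₁') : Adj Q (T + T₁) (T' + T₁') := fun x y => by
  rw [LinearMap.add_apply, LinearMap.add_apply, polar_add_left, polar_add_right, h, h₁]

theorem Adj.sub (h : Adj Q T T') (h₁ : Adj Q T₁ T₁') : Adj Q (T - T₁) (T' - T₁') := fun x y => by
  rw [LinearMap.sub_apply, LinearMap.sub_apply, polar_sub_left, polar_sub_right, h, h₁]

theorem Adj.smul (h : Adj Q T T') (c : F) : Adj Q (c • T) (c • T') := fun x y => by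
  rw [LinearMap.smul_apply, LinearMap.smul_apply, polar_smul_left, polar_smul_right, h]

theorem Adj.comp (h : Adj Q T T') (h₁ : Adj Q T₁ T₁') : Adj Q (T ∘ₗ T₁) (T₁' ∘ₗ T') := fun x y => by
  rw [LinearMap.comp_apply, LinearMap.comp_apply, h, h₁]

theorem Adj.id : Adj Q LinearMap.id LinearMap.id := fun _ _ => rfl

theorem ext_right (hQ : Nd Q) {a b : V} (h : ∀ y, polar Q y a = polar Q y b) : a = b := by
  rw [← sub_eq_zero]
  apply hQ.eq_zero
  intro y
  rw [polar_sub_left, polar_comm, h, polar_comm, sub_self]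

theorem exists_adj [FiniteDimensional F V] (hQ : Nd Q) (T : V →ₗ[F] V) : ∃ T', Adj Q T T' := by
  have hnd : ∀ x, (∀ y, polarBilin Q x y = 0) → x = 0 := fun x hx => hQ.eq_zero hx
  refine ⟨FormConj.st (polarBilin Q) hnd T, fun x y => ?_⟩
  have h1 := FormConj.st_apply (polarBilin Q) hnd T y x
  have h2 : polar Q (FormConj.st (polarBilin Q) hnd T y) x = polar Q y (T x) := h1
  rw [polar_comm, ← h2, polar_comm]

theorem Adj.pow (h : Adj Q S S') (n : ℕ) : Adj Q ((S : Module.End F V) ^ n) ((S' : Module.End F V) ^ n) := by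
  induction n with
  | zero => exact fun _ _ => rfl
  | succ n ih =>
    intro x y
    rw [pow_succ, pow_succ', Module.End.mul_apply, Module.End.mul_apply, ih, h]

theorem Adj.aeval (h : Adj Q S S') (P : F[X]) : Adj Q (Polynomial.aeval (S : Module.End F V) P)
    (Polynomial.aeval (S' : Module.End F V) P) := by
  induction P using Polynomial.induction_on' with
  | add p q hp hq => rw [map_add, map_add]; exact hp.add hq
  | monomial n a =>
    rw [aeval_monomial, aeval_monomial]
    intro x y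
    rw [Module.End.mul_apply, Module.End.mul_apply, Module.algebraMap_end_apply, Module.algebraMap_end_apply,
      polar_smul_left, polar_smul_right, h.pow n]

theorem comm_aeval (h : ∀ x, T (S x) = S (T x)) (P : F[X]) (x : V) :
    T (aeval (S : Module.End F V) P x) = aeval (S : Module.End F V) P (T x) := by
  have h1 : Commute (T : Module.End F V) S := LinearMap.ext h
  have h2 : ∀ P : F[X], Commute (T : Module.End F V) (aeval (S : Module.End F V) P) := by
    intro P
    induction P using Polynomial.induction_on' with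
    | add p q hp hq => rw [map_add]; exact hp.add_right hq
    | monomial n a =>
      rw [aeval_monomial]
      have h3 : Commute (T : Module.End F V) (algebraMap F (Module.End F V) a) :=
        (Algebra.commutes a (T : Module.End F V)).symm
      exact h3.mul_right (h1.pow_right n)
  exact LinearMap.congr_fun (h2 P) x

theorem comm_adj (hQ : Nd Q) (h : ∀ x, T (S x) = S (T x)) (hT : Adj Q T T') (hS : Adj Q S S') (x : V) :
    T' (S' x) = S' (T' x) := by
  apply ext_right hQ
  intro y
  rw [← hT, ← hS, ← hS, ← hT, h]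

end Adjoint

section Torus

variable {F V : Type*} [Field F] [AddCommGroup V] [Module F V] [FiniteDimensional F V] {Q : QuadraticForm F V}

theorem det_block (π a : V →ₗ[F] V) (U : Submodule F V) (hπU : ∀ x, π x ∈ U) (hπ : ∀ u ∈ U, π u = u)
    (ha : ∀ u ∈ U, a u ∈ U) :
    LinearMap.det (a ∘ₗ π + (LinearMap.id - π)) = LinearMap.det (a.restrict ha) := by
  set e := a ∘ₗ π + (LinearMap.id - π) with he
  have hex : ∀ x, e x = a (π x) + (x - π x) := fun _ => rfl
  have heU : U ≤ U.comap e := by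
    intro u hu
    rw [Submodule.mem_comap, hex, hπ u hu, sub_self, add_zero]
    exact ha u hu
  rw [LinearMap.det_eq_det_mul_det U e heU]
  have h1 : U.mapQ U e heU = LinearMap.id := by
    apply LinearMap.ext
    intro x
    obtain ⟨x, rfl⟩ := Submodule.Quotient.mk_surjective _ x
    rw [Submodule.mapQ_apply, LinearMap.id_apply, Submodule.Quotient.eq, hex]
    have : a (π x) + (x - π x) - x = a (π x) - π x := by abel
    rw [this]
    exact U.sub_mem (ha _ (hπU x)) (hπU x)
  have h2 : e.restrict heU = a.restrict ha := by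
    apply LinearMap.ext
    intro u
    apply Subtype.ext
    show e u = a u
    rw [hex, hπ u u.2, sub_self, add_zero]
  rw [h1, h2, LinearMap.det_id, mul_one]

/-- build the isometry `η' η⁻¹` -/
theorem finish (h2 : (2 : F) ≠ 0) (hQ : Nd Q) (s : V ≃ₗ[F] V) (hs : s ∈ O Q) (η η' : V →ₗ[F] V) (hadj : Adj Q η η')
    (hcomm : ∀ x, η (η' x) = η' (η x)) (hS : ∀ x, η (s x) = s (η x))
    (hinj : ∀ x, η x = η' x → x = 0) (hη : ∀ x, η x = 0 → x = 0) (hns : ¬ IsSquare (LinearMap.det η)) :
    ∃ g ∈ O Q, fixS g = ⊥ ∧ g * s = s * g ∧ ¬ IsSquare (wd Q g) := by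
  have hinjη : Function.Injective η := by
    rw [injective_iff_map_eq_zero]; exact hη
  have hsurj : Function.Surjective η := LinearMap.injective_iff_surjective.1 hinjη
  have hη' : Function.Injective η' := by
    rw [injective_iff_map_eq_zero]
    intro x hx
    apply hQ.eq_zero
    intro y
    obtain ⟨z, rfl⟩ := hsurj y
    rw [polar_comm, hadj, hx, polar_zero_right]
  have hsurj' : Function.Surjective η' := LinearMap.injective_iff_surjective.1 hη'
  have hS' : ∀ x, η' (s x) = s (η' x) := by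
    intro x
    apply ext_right hQ
    intro y
    obtain ⟨z, rfl⟩ := s.surjective y
    rw [← hadj, hS, O_polar hs, O_polar hs, hadj]
  let g : V ≃ₗ[F] V := (LinearEquiv.ofBijective η ⟨hinjη, hsurj⟩).symm.trans (LinearEquiv.ofBijective η' ⟨hη', hsurj'⟩)
  have hg : ∀ x, g (η x) = η' x := by
    intro x
    show (LinearEquiv.ofBijective η' ⟨hη', hsurj'⟩) ((LinearEquiv.ofBijective η ⟨hinjη, hsurj⟩).symm (η x)) = η' x
    have : (LinearEquiv.ofBijective η ⟨hinjη, hsurj⟩).symm (η x) = x := by
      rw [LinearEquiv.symm_apply_eq]; rfl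
    rw [this]; rfl
  obtain ⟨h3, h4, h5⟩ := wd_quot h2 hQ η η' hadj hcomm hinj hη g hg
  refine ⟨g, h3, h4, ?_, fun h => hns (h5.1 h)⟩
  apply LinearEquiv.ext
  intro v
  obtain ⟨x, rfl⟩ := hsurj v
  show g (s (η x)) = s (g (η x))
  rw [← hS, hg, hg, hS']

/-- minimal invariant subspaces exist -/
theorem exists_minimal_inv [Nontrivial V] (S : V →ₗ[F] V) : ∃ U : Submodule F V, U ≠ ⊥ ∧ (∀ x ∈ U, S x ∈ U) ∧
    ∀ W : Submodule F V, W ≤ U → (∀ x ∈ W, S x ∈ W) → W = ⊥ ∨ W = U := by
  classical
  have hex : ∃ n, ∃ U : Submodule F V, U ≠ ⊥ ∧ (∀ x ∈ U, S x ∈ U) ∧ finrank F U = n :=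
    ⟨_, ⊤, top_ne_bot, fun _ _ => trivial, rfl⟩
  obtain ⟨U, h1, h2, h3⟩ := Nat.find_spec hex
  refine ⟨U, h1, h2, fun W hW hWS => ?_⟩
  by_cases h0 : W = ⊥
  · exact Or.inl h0
  · right
    apply Submodule.eq_of_le_of_finrank_le hW
    rw [h3]
    exact Nat.find_min' hex ⟨W, h0, hWS, rfl⟩

/-- equivariant projection onto an invariant subspace -/
theorem exists_proj (S : V →ₗ[F] V) {U M : Submodule F V} (hU : ∀ x ∈ U, S x ∈ U) (hM : ∀ x ∈ M, S x ∈ M)
    (hc : IsCompl U M) : ∃ π : V →ₗ[F] V, (∀ x, π x ∈ U) ∧ (∀ u ∈ U, π u = u) ∧ (∀ m ∈ M, π m = 0) ∧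
      (∀ x, x - π x ∈ M) ∧ ∀ x, π (S x) = S (π x) := by
  have hdec : ∀ x, ∃ u ∈ U, ∃ m ∈ M, u + m = x := fun x => by
    have : x ∈ U ⊔ M := by rw [hc.sup_eq_top]; trivial
    exact Submodule.mem_sup.1 this
  let π : V →ₗ[F] V := U.subtype ∘ₗ Submodule.projectionOnto U M hc
  have h1 : ∀ u ∈ U, π u = u := by
    intro u hu
    show ((Submodule.projectionOnto U M hc) u : V) = u
    have := Submodule.projectionOnto_apply_left hc ⟨u, hu⟩
    exact congrArg Subtype.val this
  have h2 : ∀ m ∈ M, π m = 0 := by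
    intro m hm
    show ((Submodule.projectionOnto U M hc) m : V) = 0
    rw [Submodule.projectionOnto_apply_of_mem_right hc hm]; rfl
  refine ⟨π, fun x => (Submodule.projectionOnto U M hc x).2, h1, h2, ?_, ?_⟩
  · intro x
    obtain ⟨u, hu, m, hm, rfl⟩ := hdec x
    rw [map_add, h1 u hu, h2 m hm, add_zero, add_sub_cancel_left]
    exact hm
  · intro x
    obtain ⟨u, hu, m, hm, rfl⟩ := hdec x
    rw [map_add, map_add, map_add, h1 u hu, h2 m hm, h1 _ (hU u hu), h2 _ (hM m hm), add_zero, add_zero]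

theorem symm_mem {s : V ≃ₗ[F] V} {U : Submodule F V} (hU : ∀ x ∈ U, s x ∈ U) : ∀ x ∈ U, s.symm x ∈ U := by
  have h1 : U.map (s : V →ₗ[F] V) = U := by
    apply Submodule.eq_of_le_of_finrank_le
    · rintro _ ⟨x, hx, rfl⟩; exact hU x hx
    · exact (LinearEquiv.finrank_map_eq s U).ge
  intro x hx
  rw [← h1] at hx
  obtain ⟨y, hy, rfl⟩ := hx
  show s.symm (s y) ∈ U
  rw [LinearEquiv.symm_apply_apply]; exact hy

theorem aeval_restrict {S : V →ₗ[F] V} {U : Submodule F V} (hU : ∀ x ∈ U, S x ∈ U) (P : F[X]) (u : U) :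
    ((aeval ((S.restrict hU : U →ₗ[F] U) : Module.End F U) P u : U) : V) = aeval (S : Module.End F V) P u := by
  have hpow : ∀ (n : ℕ) (u : U), ((((S.restrict hU : U →ₗ[F] U) : Module.End F U) ^ n) u : V) =
      ((S : Module.End F V) ^ n) u := by
    intro n
    induction n with
    | zero => intro u; rfl
    | succ n ih =>
      intro u
      rw [pow_succ, pow_succ, Module.End.mul_apply, Module.End.mul_apply, ih]; rfl
  induction P using Polynomial.induction_on' with
  | add p q hp hq =>
    rw [map_add, map_add, LinearMap.add_apply, LinearMap.add_apply, Submodule.coe_add, hp, hq]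
  | monomial n a =>
    rw [aeval_monomial, aeval_monomial, Module.End.mul_apply, Module.End.mul_apply, Module.algebraMap_end_apply,
      Module.algebraMap_end_apply, Submodule.coe_smul, hpow]

/-- the operator `a` -/
theorem exists_a [Finite F] (S : V →ₗ[F] V) (U : Submodule F V) (hU0 : U ≠ ⊥) (hU : ∀ x ∈ U, S x ∈ U)
    (hmin : ∀ W : Submodule F V, W ≤ U → (∀ x ∈ W, S x ∈ W) → W = ⊥ ∨ W = U) (c : F) :
    ∃ (P : F[X]) (ha : ∀ x ∈ U, aeval (S : Module.End F V) P x ∈ U),
      LinearMap.det ((aeval (S : Module.End F V) P : V →ₗ[F] V).restrict ha) = c := by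
  have : Nontrivial U := Submodule.nontrivial_iff_ne_bot.2 hU0
  obtain ⟨P, hP⟩ := exists_poly ((S.restrict hU : U →ₗ[F] U) : Module.End F U) (by
    intro W hW
    rcases hmin (W.map U.subtype) (Submodule.map_subtype_le U W) (by
      rintro _ ⟨x, hx, rfl⟩
      exact ⟨_, hW x hx, rfl⟩) with h | h
    · left
      rw [eq_bot_iff]
      intro x hx
      have h1 : (x : V) ∈ W.map U.subtype := ⟨x, hx, rfl⟩
      rw [h, Submodule.mem_bot] at h1
      rw [Submodule.mem_bot]
      exact Subtype.ext h1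
    · right
      rw [eq_top_iff]
      intro x _
      have h1 : (x : V) ∈ W.map U.subtype := by rw [h]; exact x.2
      obtain ⟨y, hy, hxy⟩ := h1
      have : y = x := Subtype.ext hxy
      rw [← this]; exact hy) c
  have ha : ∀ x ∈ U, aeval (S : Module.End F V) P x ∈ U := by
    intro x hx
    have := aeval_restrict hU P ⟨x, hx⟩
    rw [← this]
    exact Subtype.mem _
  refine ⟨P, ha, ?_⟩
  rw [← hP]
  congr 1
  apply LinearMap.ext
  intro u
  apply Subtype.ext
  rw [aeval_restrict]
  rfl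

theorem injOn_of_det {a : V →ₗ[F] V} {U : Submodule F V} (ha : ∀ x ∈ U, a x ∈ U)
    (hdet : LinearMap.det (a.restrict ha) ≠ 0) (u : V) (hu : u ∈ U) (h : a u = 0) : u = 0 := by
  have h2 : IsUnit (LinearMap.det (a.restrict ha)) := isUnit_iff_ne_zero.2 hdet
  have h3 := (LinearMap.isUnit_iff_isUnit_det (a.restrict ha)).2 h2
  have h4 : Function.Injective (a.restrict ha) := ((Module.End.isUnit_iff _).1 h3).1
  have h5 : (⟨u, hu⟩ : U) = 0 := by
    apply h4
    rw [map_zero]
    exact Subtype.ext h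
  exact congrArg Subtype.val h5

/-- case of a nondegenerate minimal invariant subspace -/
theorem case_nondeg [Finite F] (h2 : (2 : F) ≠ 0) (hQ : Nd Q) (s : V ≃ₗ[F] V) (hs : s ∈ O Q)
    (hs2 : ∀ x, s (s x) = x → x = 0) (hs4 : ∀ x, s (s (s (s x))) = x → x = 0)
    (U : Submodule F V) (hU0 : U ≠ ⊥) (hU : ∀ x ∈ U, s x ∈ U)
    (hmin : ∀ W : Submodule F V, W ≤ U → (∀ x ∈ W, s x ∈ W) → W = ⊥ ∨ W = U)
    (hnd : ∀ x ∈ U, (∀ y ∈ U, polar Q x y = 0) → x = 0) {c : F} (hc : ¬ IsSquare c) :
    ∃ g ∈ O Q, fixS g = ⊥ ∧ g * s = s * g ∧ ¬ IsSquare (wd Q g) := by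
  have hU' := symm_mem hU
  set S : V →ₗ[F] V := (s : V →ₗ[F] V) with hS
  set S' : V →ₗ[F] V := (s.symm : V →ₗ[F] V) with hS'
  have hSx : ∀ x, S x = s x := fun _ => rfl
  have hS'x : ∀ x, S' x = s.symm x := fun _ => rfl
  have hadjS : Adj Q S S' := by
    intro x y
    rw [hSx, hS'x, ← O_polar hs x, LinearEquiv.apply_symm_apply]
  have hc0 : c ≠ 0 := by rintro rfl; exact hc ⟨0, by simp⟩
  obtain ⟨P, haU, hdet⟩ := exists_a S U hU0 hU hmin c
  set a : V →ₗ[F] V := aeval (S : Module.End F V) P with ha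
  set a' : V →ₗ[F] V := aeval (S' : Module.End F V) P with ha'
  have hadja : Adj Q a a' := hadjS.aeval P
  have hSS' : ∀ x, S (S' x) = S' (S x) := by
    intro x
    rw [hSx, hS'x, hSx, hS'x, LinearEquiv.apply_symm_apply, LinearEquiv.symm_apply_apply]
  have haS : ∀ x, S (a x) = a (S x) := fun x => comm_aeval (fun _ => rfl) P x
  have haS' : ∀ x, S' (a x) = a (S' x) := fun x => comm_aeval (fun x => (hSS' x).symm) P x
  have ha'S : ∀ x, S (a' x) = a' (S x) := fun x => comm_aeval (fun x => hSS' x) P x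
  have ha'S' : ∀ x, S' (a' x) = a' (S' x) := fun x => comm_aeval (fun _ => rfl) P x
  have haa' : ∀ x, a (a' x) = a' (a x) := fun x => comm_aeval (fun x => (haS' x).symm) P x
  -- complement
  have hc1 : IsCompl U (perp Q U) := by
    have hd : U ⊓ perp Q U = ⊥ := by
      rw [eq_bot_iff]
      rintro x ⟨hx1, hx2⟩
      rw [Submodule.mem_bot]
      exact hnd x hx1 fun y hy => mem_perp'.1 hx2 y hy
    refine ⟨disjoint_iff.2 hd, codisjoint_iff.2 ?_⟩
    apply Submodule.eq_top_of_finrank_eq
    have h3 := Submodule.finrank_sup_add_finrank_inf_eq U (perp Q U)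
    rw [hd, finrank_bot, add_zero, hQ.finrank_add_finrank_perp] at h3
    exact h3
  have hM : ∀ x ∈ perp Q U, S x ∈ perp Q U := by
    intro x hx
    rw [mem_perp] at hx ⊢
    intro u hu
    rw [← hadjS.symm]
    exact hx _ (hU' u hu)
  obtain ⟨π, hπU, hπ, hπM, hπc, hπS⟩ := exists_proj S hU hM hc1
  have hππ : ∀ x, π (π x) = π x := fun x => hπ _ (hπU x)
  have hadjπ : Adj Q π π := by
    intro x y
    have e1 : polar Q (π x) y = polar Q (π x) (π y) := by
      have h3 := mem_perp.1 (hπc y) (π x) (hπU x)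
      rw [polar_sub_right] at h3
      exact sub_eq_zero.1 h3
    have e2 : polar Q x (π y) = polar Q (π x) (π y) := by
      have h3 := mem_perp.1 (hπc x) (π y) (hπU y)
      rw [polar_sub_right] at h3
      rw [polar_comm (⇑Q) x, polar_comm (⇑Q) (π x) (π y)]
      exact sub_eq_zero.1 h3
    rw [e1, e2]
  have hπS' : ∀ x, π (S' x) = S' (π x) := fun x => comm_adj hQ hπS hadjπ hadjS x
  have hπa : ∀ x, π (a x) = a (π x) := fun x => comm_aeval hπS P x
  have hπa' : ∀ x, π (a' x) = a' (π x) := fun x => comm_aeval hπS' P x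
  -- Schur
  have hschur : ∀ u ∈ U, a u = a' u → u = 0 := by
    let W : Submodule F V := U ⊓ LinearMap.ker (a - a')
    have hW : ∀ x, x ∈ W ↔ x ∈ U ∧ a x = a' x := by
      intro x
      rw [Submodule.mem_inf, LinearMap.mem_ker, LinearMap.sub_apply, sub_eq_zero]
    rcases hmin W inf_le_left (by
      intro x hx
      rw [hW] at hx ⊢
      refine ⟨hU x hx.1, ?_⟩
      show a (S x) = a' (S x)
      rw [← haS, ← ha'S, hx.2]) with h | h
    · intro u hu hau
      have : u ∈ W := (hW u).2 ⟨hu, hau⟩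
      rwa [h, Submodule.mem_bot] at this
    · exfalso
      apply hc
      rw [← hdet]
      let A : LinearMap.BilinForm F U := (polarBilin Q ∘ₗ (S - S')).compl₁₂ U.subtype U.subtype
      have hA : ∀ x y : U, A x y = polar Q (S x - S' x) y := fun x y => rfl
      refine isSquare_det_selfadjoint h2 A ?_ ?_ (a.restrict haU) ?_ ?_
      · intro x
        rw [hA, polar_sub_left, hadjS, polar_comm, sub_self]
      · intro x hx
        apply Subtype.ext
        have h3 : S (x : V) - S' x = 0 := hnd _ (U.sub_mem (hU x x.2) (hU' x x.2)) fun y hy => hx ⟨y, hy⟩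
        apply hs2
        rw [sub_eq_zero, hSx, hS'x] at h3
        rw [h3, LinearEquiv.apply_symm_apply]
      · intro x y
        rw [hA, hA]
        show polar Q (S (a x) - S' (a x)) y = polar Q (S x - S' x) (a y)
        have h3 : (y : V) ∈ W := by rw [h]; exact y.2
        rw [((hW _).1 h3).2, haS, haS', ← map_sub, hadja]
      · rw [injective_iff_map_eq_zero]
        intro x hx
        apply Subtype.ext
        exact injOn_of_det haU (by rw [hdet]; exact hc0) x x.2 (congrArg Subtype.val hx)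
  set η : V →ₗ[F] V := a ∘ₗ π + (S ∘ₗ S) ∘ₗ (LinearMap.id - π) with hη
  set η' : V →ₗ[F] V := π ∘ₗ a' + (LinearMap.id - π) ∘ₗ (S' ∘ₗ S') with hη'
  have hηx : ∀ x, η x = a (π x) + s (s (x - π x)) := fun _ => rfl
  have hη'x : ∀ x, η' x = a' (π x) + s.symm (s.symm (x - π x)) := by
    intro x
    show π (a' x) + (S' (S' x) - π (S' (S' x))) = _
    rw [hπa', hπS', hπS', ← map_sub, ← map_sub]
    rfl
  have hadjη : Adj Q η η' := (hadja.comp hadjπ).add ((hadjS.comp hadjS).comp (Adj.id.sub hadjπ))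
  have hker : ∀ x, π (x - π x) = 0 := fun x => by rw [map_sub, hππ, sub_self]
  have hπη : ∀ x, π (η x) = a (π x) := by
    intro x
    rw [hηx, map_add, hπa, hππ, ← hSx, hπS, ← hSx, hπS, hker, map_zero, map_zero, add_zero]
  have hπη' : ∀ x, π (η' x) = a' (π x) := by
    intro x
    rw [hη'x, map_add, hπa', hππ, ← hS'x, hπS', ← hS'x, hπS', hker, map_zero, map_zero, add_zero]
  have hη0 : ∀ x, η x = 0 → x = 0 := by
    intro x hx
    have h3 := hπη x
    rw [hx, map_zero] at h3
    have h4 : π x = 0 := injOn_of_det haU (by rw [hdet]; exact hc0) _ (hπU x) h3.symm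
    rw [hηx, h4, map_zero, zero_add, sub_zero] at hx
    exact s.map_eq_zero_iff.1 (s.map_eq_zero_iff.1 hx)
  have hdetη : ¬ IsSquare (LinearMap.det η) := by
    set κ : V →ₗ[F] V := π + S ∘ₗ (LinearMap.id - π) with hκ
    have hκx : ∀ x, κ x = π x + s (x - π x) := fun _ => rfl
    have hπκ : ∀ x, π (κ x) = π x := by
      intro x
      rw [hκx, map_add, hππ, ← hSx, hπS, hker, map_zero, add_zero]
    have h3 : η = (a ∘ₗ π + (LinearMap.id - π)) ∘ₗ (κ ∘ₗ κ) := by
      apply LinearMap.ext
      intro x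
      show η x = a (π (κ (κ x))) + (κ (κ x) - π (κ (κ x)))
      rw [hπκ, hπκ, hηx, hκx (κ x), hπκ, hκx, add_sub_cancel_left, add_sub_cancel_left]
    have h4 : IsUnit (LinearMap.det η) := by
      apply LinearMap.isUnit_det
      rw [Module.End.isUnit_iff]
      have hinjη : Function.Injective η := by
        rw [injective_iff_map_eq_zero]; exact hη0
      exact ⟨hinjη, LinearMap.injective_iff_surjective.1 hinjη⟩
    rw [h3, LinearMap.det_comp, LinearMap.det_comp] at h4 ⊢
    rw [det_block π a U hπU hπ haU, hdet] at h4 ⊢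
    have h5 : LinearMap.det κ ≠ 0 := by
      intro h0
      rw [h0] at h4
      simp at h4
    rw [isSquare_mul_sq_iff h5]
    exact hc
  refine finish h2 hQ s hs η η' hadjη ?_ ?_ ?_ hη0 hdetη
  · intro x
    have e1 : η' x - π (η' x) = s.symm (s.symm (x - π x)) := by
      rw [hπη', hη'x, add_sub_cancel_left]
    have e2 : η x - π (η x) = s (s (x - π x)) := by
      rw [hπη, hηx, add_sub_cancel_left]
    rw [hηx (η' x), hη'x (η x), e1, e2, hπη, hπη', haa']
    simp
  · intro x
    have e1 : π (s x) = s (π x) := hπS x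
    rw [hηx, hηx, map_add, ← hSx (a (π x)), haS, e1, ← map_sub]
    rfl
  · intro x hx
    have h3 := congrArg π hx
    rw [hπη, hπη'] at h3
    have h4 := hschur _ (hπU x) h3
    rw [hηx, hη'x, h4, map_zero, map_zero, zero_add, zero_add, sub_zero] at hx
    apply hs4
    rw [hx]
    simp

/-- a good projection onto a totally singular invariant subspace -/
theorem exists_proj_sing (h2 : (2 : F) ≠ 0) (hQ : Nd Q) {S S' : V →ₗ[F] V} (hadjS : Adj Q S S')
    (hSS' : ∀ x, S (S' x) = x) (hS'S : ∀ x, S' (S x) = x)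
    {U M : Submodule F V} (hU : ∀ x ∈ U, S x ∈ U) (hM : ∀ x ∈ M, S x ∈ M)
    (hc : IsCompl U M) (hsing : ∀ x ∈ U, ∀ y ∈ U, polar Q x y = 0) :
    ∃ π π' : V →ₗ[F] V, (∀ x, π x ∈ U) ∧ (∀ u ∈ U, π u = u) ∧ Adj Q π π' ∧ (∀ x, π (S x) = S (π x)) ∧
      (∀ x, π' (S x) = S (π' x)) ∧ (∀ x, π (π' x) = 0) ∧ (∀ x, π' (π x) = 0) := by
  obtain ⟨p, hpU, hp, _, _, hpS⟩ := exists_proj S hU hM hc
  obtain ⟨p', hadj⟩ := exists_adj hQ p
  have hpp : ∀ x, p (p x) = p x := fun x => hp _ (hpU x)
  have hp'u : ∀ u ∈ U, p' u = 0 := by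
    intro u hu
    apply ext_right hQ
    intro y
    rw [← hadj, polar_zero_right]
    exact hsing _ (hpU y) _ hu
  have hpS' : ∀ x, p (S' x) = S' (p x) := by
    intro x
    have h1 := hpS (S' x)
    rw [hSS'] at h1
    rw [h1, hS'S]
  have hp'S : ∀ x, p' (S x) = S (p' x) := fun x => comm_adj hQ hpS' hadj hadjS.symm x
  have hp'p' : ∀ x, p' (p' x) = p' x := by
    intro x
    apply ext_right hQ
    intro y
    rw [← hadj, ← hadj, hpp, hadj]
  set h : F := 2⁻¹ with hh
  have hhh : h + h = 1 := by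
    rw [hh, ← two_mul, mul_inv_cancel₀ h2]
  refine ⟨p - h • (p ∘ₗ p'), p' - h • (p ∘ₗ p'), ?_, ?_, ?_, ?_, ?_, ?_, ?_⟩
  · intro x
    exact U.sub_mem (hpU x) (U.smul_mem _ (hpU _))
  · intro u hu
    show p u - h • p (p' u) = u
    rw [hp u hu, hp'u u hu, map_zero, smul_zero, sub_zero]
  · exact hadj.sub ((hadj.comp hadj.symm).smul h)
  · intro x
    show p (S x) - h • p (p' (S x)) = S (p x - h • p (p' x))
    rw [hpS, hp'S, hpS, map_sub, map_smul]
  · intro x
    show p' (S x) - h • p (p' (S x)) = S (p' x - h • p (p' x))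
    rw [hp'S, hpS, map_sub, map_smul]
  · intro x
    show p (p' x - h • p (p' x)) - h • p (p' (p' x - h • p (p' x))) = 0
    rw [map_sub, map_smul, hpp, map_sub p', map_smul p', hp'p', hp'u _ (hpU _), smul_zero, sub_zero, sub_sub,
      ← add_smul, hhh, one_smul, sub_self]
  · intro x
    show p' (p x - h • p (p' x)) - h • p (p' (p x - h • p (p' x))) = 0
    have h3 : p x - h • p (p' x) ∈ U := U.sub_mem (hpU x) (U.smul_mem _ (hpU _))
    rw [hp'u _ h3, map_zero, smul_zero, sub_zero]

/-- case of a totally singular minimal invariant subspace -/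
theorem case_sing [Finite F] (h2 : (2 : F) ≠ 0) (hQ : Nd Q) (s : V ≃ₗ[F] V) (hs : s ∈ O Q)
    (hs4 : ∀ x, s (s (s (s x))) = x → x = 0)
    (U M : Submodule F V) (hU0 : U ≠ ⊥) (hU : ∀ x ∈ U, s x ∈ U) (hM : ∀ x ∈ M, s x ∈ M) (hcompl : IsCompl U M)
    (hmin : ∀ W : Submodule F V, W ≤ U → (∀ x ∈ W, s x ∈ W) → W = ⊥ ∨ W = U)
    (hsing : ∀ x ∈ U, ∀ y ∈ U, polar Q x y = 0) {c : F} (hc : ¬ IsSquare c) :
    ∃ g ∈ O Q, fixS g = ⊥ ∧ g * s = s * g ∧ ¬ IsSquare (wd Q g) := by
  have hU' := symm_mem hU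
  set S : V →ₗ[F] V := (s : V →ₗ[F] V) with hS
  set S' : V →ₗ[F] V := (s.symm : V →ₗ[F] V) with hS'
  have hSx : ∀ x, S x = s x := fun _ => rfl
  have hS'x : ∀ x, S' x = s.symm x := fun _ => rfl
  have hadjS : Adj Q S S' := by
    intro x y
    rw [hSx, hS'x, ← O_polar hs x, LinearEquiv.apply_symm_apply]
  have hc0 : c ≠ 0 := by rintro rfl; exact hc ⟨0, by simp⟩
  obtain ⟨P, haU, hdet⟩ := exists_a S U hU0 hU hmin c
  set a : V →ₗ[F] V := aeval (S : Module.End F V) P with ha
  set a' : V →ₗ[F] V := aeval (S' : Module.End F V) P with ha'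
  have hadja : Adj Q a a' := hadjS.aeval P
  have hSS'1 : ∀ x, S (S' x) = x := fun x => by rw [hSx, hS'x, LinearEquiv.apply_symm_apply]
  have hS'S1 : ∀ x, S' (S x) = x := fun x => by rw [hSx, hS'x, LinearEquiv.symm_apply_apply]
  have hSS' : ∀ x, S (S' x) = S' (S x) := fun x => by rw [hSS'1, hS'S1]
  have haS : ∀ x, S (a x) = a (S x) := fun x => comm_aeval (fun _ => rfl) P x
  have haS' : ∀ x, S' (a x) = a (S' x) := fun x => comm_aeval (fun x => (hSS' x).symm) P x
  have ha'S : ∀ x, S (a' x) = a' (S x) := fun x => comm_aeval (fun x => hSS' x) P x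
  have ha'S' : ∀ x, S' (a' x) = a' (S' x) := fun x => comm_aeval (fun _ => rfl) P x
  have haa' : ∀ x, a (a' x) = a' (a x) := fun x => comm_aeval (fun x => (haS' x).symm) P x
  obtain ⟨π, π', hπU, hπ, hadjπ, hπS, hπ'S, hππ', hπ'π⟩ := exists_proj_sing h2 hQ hadjS hSS'1 hS'S1 hU hM hcompl hsing
  have hππ : ∀ x, π (π x) = π x := fun x => hπ _ (hπU x)
  have hπ'π' : ∀ x, π' (π' x) = π' x := by
    intro x
    apply ext_right hQ
    intro y
    rw [← hadjπ, ← hadjπ, hππ, hadjπ]
  have hπS' : ∀ x, π (S' x) = S' (π x) := by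
    intro x
    have h1 := hπS (S' x)
    rw [hSS'1] at h1
    rw [h1, hS'S1]
  have hπ'S' : ∀ x, π' (S' x) = S' (π' x) := by
    intro x
    have h1 := hπ'S (S' x)
    rw [hSS'1] at h1
    rw [h1, hS'S1]
  have hπa : ∀ x, π (a x) = a (π x) := fun x => comm_aeval hπS P x
  have hπa' : ∀ x, π (a' x) = a' (π x) := fun x => comm_aeval hπS' P x
  have hπ'a : ∀ x, π' (a x) = a (π' x) := fun x => comm_aeval hπ'S P x
  have hπ'a' : ∀ x, π' (a' x) = a' (π' x) := fun x => comm_aeval hπ'S' P x
  -- Schur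
  have hschur : ∀ u ∈ U, a u = u → u = 0 := by
    let W : Submodule F V := U ⊓ LinearMap.ker (a - LinearMap.id)
    have hW : ∀ x, x ∈ W ↔ x ∈ U ∧ a x = x := by
      intro x
      rw [Submodule.mem_inf, LinearMap.mem_ker, LinearMap.sub_apply, sub_eq_zero]; rfl
    rcases hmin W inf_le_left (by
      intro x hx
      rw [hW] at hx ⊢
      refine ⟨hU x hx.1, ?_⟩
      show a (S x) = S x
      rw [← haS, hx.2]) with h | h
    · intro u hu hau
      have : u ∈ W := (hW u).2 ⟨hu, hau⟩
      rwa [h, Submodule.mem_bot] at this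
    · exfalso
      apply hc
      have h1 : a.restrict haU = LinearMap.id := by
        apply LinearMap.ext
        intro u
        apply Subtype.ext
        have h3 : (u : V) ∈ W := by rw [h]; exact u.2
        exact ((hW _).1 h3).2
      rw [← hdet, h1, LinearMap.det_id]
      exact ⟨1, by ring⟩
  have hsurj : ∀ v ∈ U, ∃ u ∈ U, a u - u = v := by
    let T : U →ₗ[F] U := (a.restrict haU) - LinearMap.id
    have hT : Function.Injective T := by
      rw [injective_iff_map_eq_zero]
      intro u hu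
      have h1 : a u - u = 0 := congrArg Subtype.val hu
      exact Subtype.ext (hschur u u.2 (sub_eq_zero.1 h1))
    intro v hv
    obtain ⟨u, hu⟩ := LinearMap.injective_iff_surjective.1 hT ⟨v, hv⟩
    exact ⟨u, u.2, congrArg Subtype.val hu⟩
  -- the operators
  let y : V → V := fun x => x - π x - π' x
  have hyx : ∀ x, y x = x - π x - π' x := fun _ => rfl
  have hπy : ∀ x, π (y x) = 0 := fun x => by rw [hyx, map_sub, map_sub, hππ, hππ', sub_self, sub_zero]
  have hπ'y : ∀ x, π' (y x) = 0 := fun x => by rw [hyx, map_sub, map_sub, hπ'π, hπ'π', sub_zero, sub_self]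
  set ρ : V →ₗ[F] V := LinearMap.id - π - π' with hρ
  have hρx : ∀ x, ρ x = y x := fun _ => rfl
  have hadjρ : Adj Q ρ ρ := by
    have h1 : Adj Q ρ (LinearMap.id - π' - π) := (Adj.id.sub hadjπ).sub hadjπ.symm
    intro x z
    rw [h1 x z]
    congr 1
    show z - π' z - π z = z - π z - π' z
    abel
  set η : V →ₗ[F] V := a ∘ₗ π + π' + (S ∘ₗ S) ∘ₗ ρ with hη
  set η' : V →ₗ[F] V := π' ∘ₗ a' + π + ρ ∘ₗ (S' ∘ₗ S') with hη'
  have hadjη : Adj Q η η' := ((hadja.comp hadjπ).add hadjπ.symm).add ((hadjS.comp hadjS).comp hadjρ)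
  have hηx : ∀ x, η x = a (π x) + π' x + S (S (y x)) := fun _ => rfl
  have hη'x : ∀ x, η' x = a' (π' x) + π x + S' (S' (y x)) := by
    intro x
    show π' (a' x) + π x + ((S' (S' x)) - π (S' (S' x)) - π' (S' (S' x))) = _
    rw [hπ'a', hπS', hπS', hπ'S', hπ'S', ← map_sub, ← map_sub, ← map_sub, ← map_sub]
  have hπη : ∀ x, π (η x) = a (π x) := by
    intro x
    rw [hηx, map_add, map_add, hπa, hππ, hππ', hπS, hπS, hπy, map_zero, map_zero, add_zero, add_zero]
  have hπ'η : ∀ x, π' (η x) = π' x := by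
    intro x
    rw [hηx, map_add, map_add, hπ'a, hπ'π, hπ'π', hπ'S, hπ'S, hπ'y, map_zero, map_zero, map_zero, add_zero, zero_add]
  have hπη' : ∀ x, π (η' x) = π x := by
    intro x
    rw [hη'x, map_add, map_add, hπa', hππ', hππ, hπS', hπS', hπy, map_zero, map_zero, map_zero, add_zero, zero_add]
  have hπ'η' : ∀ x, π' (η' x) = a' (π' x) := by
    intro x
    rw [hη'x, map_add, map_add, hπ'a', hπ'π', hπ'π, hπ'S', hπ'S', hπ'y, map_zero, map_zero, add_zero, add_zero]
  have hyη : ∀ x, y (η x) = S (S (y x)) := by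
    intro x
    rw [hyx (η x), hπη, hπ'η, hηx]; abel
  have hyη' : ∀ x, y (η' x) = S' (S' (y x)) := by
    intro x
    rw [hyx (η' x), hπη', hπ'η', hη'x]; abel
  have hη0 : ∀ x, η x = 0 → x = 0 := by
    intro x hx
    have h3 := hπη x
    have h4 := hπ'η x
    rw [hx, map_zero] at h3 h4
    have h5 : π x = 0 := injOn_of_det haU (by rw [hdet]; exact hc0) _ (hπU x) h3.symm
    rw [hηx, h5, ← h4, map_zero, zero_add, zero_add, hyx, h5, ← h4, sub_zero, sub_zero] at hx
    exact s.map_eq_zero_iff.1 (s.map_eq_zero_iff.1 hx)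
  have hdetη : ¬ IsSquare (LinearMap.det η) := by
    set κ : V →ₗ[F] V := π + π' + S ∘ₗ ρ with hκ
    have hκx : ∀ x, κ x = π x + π' x + S (y x) := fun _ => rfl
    have hπκ : ∀ x, π (κ x) = π x := by
      intro x
      rw [hκx, map_add, map_add, hππ, hππ', hπS, hπy, map_zero, add_zero, add_zero]
    have hπ'κ : ∀ x, π' (κ x) = π' x := by
      intro x
      rw [hκx, map_add, map_add, hπ'π, hπ'π', hπ'S, hπ'y, map_zero, add_zero, zero_add]
    have hyκ : ∀ x, y (κ x) = S (y x) := by
      intro x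
      rw [hyx (κ x), hπκ, hπ'κ, hκx]; abel
    have h3 : η = (a ∘ₗ π + (LinearMap.id - π)) ∘ₗ (κ ∘ₗ κ) := by
      apply LinearMap.ext
      intro x
      show η x = a (π (κ (κ x))) + (κ (κ x) - π (κ (κ x)))
      rw [hπκ, hπκ, hηx, hκx (κ x), hπκ, hπ'κ, hyκ]
      abel
    have h4 : IsUnit (LinearMap.det η) := by
      apply LinearMap.isUnit_det
      rw [Module.End.isUnit_iff]
      have hinjη : Function.Injective η := by
        rw [injective_iff_map_eq_zero]; exact hη0
      exact ⟨hinjη, LinearMap.injective_iff_surjective.1 hinjη⟩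
    rw [h3, LinearMap.det_comp, LinearMap.det_comp] at h4 ⊢
    rw [det_block π a U hπU hπ haU, hdet] at h4 ⊢
    have h5 : LinearMap.det κ ≠ 0 := by
      intro h0
      rw [h0] at h4
      simp at h4
    rw [isSquare_mul_sq_iff h5]
    exact hc
  refine finish h2 hQ s hs η η' hadjη ?_ ?_ ?_ hη0 hdetη
  · intro x
    have e1 : S (S (S' (S' (y x)))) = y x := by rw [hSS'1, hSS'1]
    have e2 : S' (S' (S (S (y x)))) = y x := by rw [hS'S1, hS'S1]
    rw [hηx (η' x), hη'x (η x), hyη, hyη', hπη', hπ'η', hπ'η, hπη, e1, e2]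
    abel
  · intro x
    have hyS : y (S x) = S (y x) := by rw [hyx, hyx, hπS, hπ'S, map_sub, map_sub]
    show η (S x) = S (η x)
    rw [hηx, hηx, hπS, hπ'S, hyS, ← haS, map_add, map_add]
  · intro x hx
    have h3 := congrArg π hx
    rw [hπη, hπη'] at h3
    have h4 := hschur _ (hπU x) h3
    have h5 := congrArg π' hx
    rw [hπ'η, hπ'η'] at h5
    have h6 : π' x = 0 := by
      apply ext_right hQ
      intro v
      rw [polar_zero_right]
      obtain ⟨u, hu, huv⟩ := hsurj (π v) (hπU v)
      have e1 : polar Q v (π' x) = polar Q (π v) (π' x) := by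
        rw [hadjπ, hπ'π']
      rw [e1, ← huv, polar_sub_left, hadja, ← h5, sub_self]
    rw [hηx, hη'x, h4, h6, map_zero, map_zero, zero_add, zero_add, zero_add, hyx, h4, h6, sub_zero, sub_zero] at hx
    apply hs4
    have h7 : s (s x) = s.symm (s.symm x) := hx
    rw [h7]
    simp

/-- **Main**: an isometry of odd order prime to the characteristic without fixed vectors commutes with an isometry
without fixed vectors of nonsquare spinor norm. -/
theorem exists_torus [Finite F] [Nontrivial V] (h2 : (2 : F) ≠ 0) (hQ : Nd Q) (s : V ≃ₗ[F] V) (hs : s ∈ O Q) {n : ℕ}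
    (hn : Odd n) (hnF : (n : F) ≠ 0) (hsn : s ^ n = 1) (hfix : ∀ x, s x = x → x = 0) :
    ∃ g ∈ O Q, fixS g = ⊥ ∧ g * s = s * g ∧ ¬ IsSquare (wd Q g) := by
  obtain ⟨m, hm⟩ := hn
  have hpow : ∀ (k : ℕ) (x : V), s (s x) = x → (s ^ (2 * k)) x = x := by
    intro k x hx
    induction k with
    | zero => rfl
    | succ k ih =>
      have : 2 * (k + 1) = 2 * k + 1 + 1 := by ring
      rw [this, pow_succ, pow_succ]
      show (s ^ (2 * k)) (s (s x)) = x
      rw [hx, ih]
  have hs2 : ∀ x, s (s x) = x → x = 0 := by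
    intro x hx
    apply hfix
    have h1 := hpow m x hx
    have h3 : (s ^ n) x = x := by rw [hsn]; rfl
    rw [hm, pow_succ'] at h3
    have h4 : s ((s ^ (2 * m)) x) = x := h3
    rwa [h1] at h4
  have hs4 : ∀ x, s (s (s (s x))) = x → x = 0 := by
    intro x hx
    have hpow4 : ∀ k : ℕ, (s ^ (4 * k)) x = x := by
      intro k
      induction k with
      | zero => rfl
      | succ k ih =>
        have : 4 * (k + 1) = 4 * k + 1 + 1 + 1 + 1 := by ring
        rw [this, pow_succ, pow_succ, pow_succ, pow_succ]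
        show (s ^ (4 * k)) (s (s (s (s x)))) = x
        rw [hx, ih]
    have hn2 : ∀ y, (s ^ (2 * n)) y = y := by
      intro y
      rw [mul_comm, pow_mul, hsn, one_pow]; rfl
    apply hs2
    have h1 := hpow4 m
    have h3 := hn2 x
    have h4 : 2 * n = 2 + 4 * m := by rw [hm]; ring
    rw [h4, pow_add] at h3
    have h5 : (s ^ 2) ((s ^ (4 * m)) x) = x := h3
    rw [h1, pow_two] at h5
    exact h5
  obtain ⟨c, hc⟩ := FiniteField.exists_nonsquare (F := F) (by
    intro h
    apply h2
    have h5 : ((2 : ℕ) : F) = 0 := by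
      rw [← h]; exact CharP.cast_eq_zero F (ringChar F)
    exact_mod_cast h5)
  obtain ⟨U, hU0, hU, hmin⟩ := exists_minimal_inv (s : V →ₗ[F] V)
  have hU' := symm_mem (s := s) hU
  by_cases hnd : ∀ x ∈ U, (∀ y ∈ U, polar Q x y = 0) → x = 0
  · exact case_nondeg h2 hQ s hs hs2 hs4 U hU0 hU hmin hnd hc
  · have hsing : ∀ x ∈ U, ∀ y ∈ U, polar Q x y = 0 := by
      rcases hmin (U ⊓ perp Q U) inf_le_left (by
        rintro x ⟨hx1, hx2⟩
        refine ⟨hU x hx1, ?_⟩
        intro u hu
        show polar Q u (s x) = 0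
        have h1 := mem_perp.1 hx2 (s.symm u) (hU' u hu)
        rw [← O_polar hs, LinearEquiv.apply_symm_apply] at h1
        exact h1) with h | h
      · exfalso
        apply hnd
        intro x hx hxy
        have : x ∈ U ⊓ perp Q U := ⟨hx, mem_perp'.2 hxy⟩
        rwa [h, Submodule.mem_bot] at this
      · intro x hx y hy
        rw [← h] at hy
        exact mem_perp.1 hy.2 x hx
    have hss : Module.End.IsSemisimple ((s : V →ₗ[F] V) : Module.End F V) := by
      apply Module.End.isSemisimple_of_squarefree_aeval_eq_zero (p := X ^ n - 1)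
      · exact (X_pow_sub_one_separable_iff.2 hnF).squarefree
      · rw [map_sub, map_pow, aeval_X, map_one, sub_eq_zero]
        apply LinearMap.ext
        intro x
        have h1 : ∀ (k : ℕ) (x : V), ((s : Module.End F V) ^ k) x = (s ^ k) x := by
          intro k
          induction k with
          | zero => intro x; rfl
          | succ k ih => intro x; rw [pow_succ, pow_succ, Module.End.mul_apply, ih]; rfl
        rw [h1, hsn]; rfl
    obtain ⟨M, hM, hUM⟩ := Module.End.isSemisimple_iff.1 hss U hU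
    exact case_sing h2 hQ s hs hs4 U M hU0 hU hM hUM hmin hsing hc

end Torus

end Cfsg.Agent.Lib.POmWall
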