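import Cfsg.Agent.Lib.DkIcos
import Cfsg.Agent.Lib.DkOdd

/-!
# `A_5` in `PSL_2(11)`: one class under `PGL_2(11)` (helper42)
-/

set_option autoImplicit false
set_option linter.unusedSectionVars false

namespace Cfsg.Agent.Lib.PSL211

open Cfsg.Agent.Lib Cfsg.Agent.Lib.MobCount Cfsg.Agent.Lib.MobOct Cfsg.Agent.Lib.MobKlein MulAction Matrix
  Cfsg.Agent.Lib.ClProjLine Cfsg.Agent.Lib.DkTorus Cfsg.Agent.Lib.DkSub Cfsg.Agent.Lib.DkMax Cfsg.Agent.Lib.DkSmall
  Cfsg.Agent.Lib.DkQuat Cfsg.Agent.Lib.DkKlein Cfsg.Agent.Lib.DkSubMax Cfsg.Agent.Lib.SL2Basic Cfsg.Agent.Lib.DkIcos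
open scoped LinearAlgebra.Projectivization MatrixGroups

variable {F : Type*} [Field F]

local notation "M2" => Matrix (Fin 2) (Fin 2) F

/-- the icosahedral involution -/
def US (I J : M2) : M2 := (2 : F)⁻¹ • (I + (3 : F) • J + (4 : F) • (I * J))

theorem two_inv (h11 : (11 : F) = 0) : (2 : F) * 6 = 1 := by linear_combination h11

theorem US_conj {I J I' J' : M2} {g : M2} (hI : g * I = I' * g) (hJ : g * J = J' * g) : g * US I J = US I' J' * g := by
  unfold US
  rw [mul_smul_comm, smul_mul_assoc]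
  congr 1
  rw [mul_add, mul_add, add_mul, add_mul, mul_smul_comm, mul_smul_comm, smul_mul_assoc, smul_mul_assoc, hI, hJ,
    ← mul_assoc g I J, hI, mul_assoc I' g J, hJ, mul_assoc I' J' g]

/-- the group -/
noncomputable def Gen (I J : M2) : Subgroup (PGL(Fin 2, F)) :=
  Subgroup.closure {x | ∃ X : M2, (X = I ∨ X = J ∨ X = US I J) ∧ ∃ h : X.det = 1, x = mkP X h}

theorem Gen_conj {I J I' J' : M2} (hdI : I.det = 1) (hdI' : I'.det = 1) (hdJ : J.det = 1) (hdJ' : J'.det = 1)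
    (hU : (US I J).det = 1) (hU' : (US I' J').det = 1) {g : GL (Fin 2) F}
    (hI : g.1 * I = I' * g.1) (hJ : g.1 * J = J' * g.1) :
    (Gen I J).map (MulAut.conj (Matrix.ProjGenLinGroup.mk g : PGL(Fin 2, F))).toMonoidHom = Gen I' J' := by
  unfold Gen
  rw [MonoidHom.map_closure]
  congr 1
  ext x
  constructor
  · rintro ⟨_, ⟨X, hX, h, rfl⟩, rfl⟩
    rcases hX with rfl | rfl | rfl
    · exact ⟨I', Or.inl rfl, hdI', conj_mkP hdI hdI' hI⟩
    · exact ⟨J', Or.inr (Or.inl rfl), hdJ', conj_mkP hdJ hdJ' hJ⟩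
    · exact ⟨US I' J', Or.inr (Or.inr rfl), hU', conj_mkP hU hU' (US_conj hI hJ)⟩
  · rintro ⟨X, hX, h, rfl⟩
    rcases hX with rfl | rfl | rfl
    · exact ⟨_, ⟨I, Or.inl rfl, hdI, rfl⟩, conj_mkP hdI hdI' hI⟩
    · exact ⟨_, ⟨J, Or.inr (Or.inl rfl), hdJ, rfl⟩, conj_mkP hdJ hdJ' hJ⟩
    · exact ⟨_, ⟨US I J, Or.inr (Or.inr rfl), hU, rfl⟩, conj_mkP hU hU' (US_conj hI hJ)⟩

theorem mkP_of_sign {X Y : M2} (hX : X.det = 1) (hY : Y.det = 1) (h : Y = X ∨ Y = -X) : mkP X hX = mkP Y hY := by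
  rcases h with rfl | rfl
  · rfl
  · exact mk_eq_of_smul (c := (-1 : F)) (by simp) (by
      show (-X : M2) = (-1 : F) • X
      rw [neg_one_smul])

theorem quat_neg_left {I J : M2} (h : Quat I J) : Quat (-I) J :=
  ⟨by rw [neg_mul_neg, h.ii], h.jj, by rw [mul_neg, neg_mul, h.ji]⟩

theorem quat_neg_right {I J : M2} (h : Quat I J) : Quat I (-J) :=
  ⟨h.ii, by rw [neg_mul_neg, h.jj], by rw [mul_neg, neg_mul, h.ji]⟩

/-- square of a pure quaternion -/
theorem quat_sq {I J : M2} (h : Quat I J) (a b c : F) :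
    (a • I + b • J + c • (I * J)) * (a • I + b • J + c • (I * J)) = -((a ^ 2 + b ^ 2 + c ^ 2) • (1 : M2)) := by
  simp only [mul_add, add_mul, smul_mul_assoc, mul_smul_comm, h.ii, h.jj, h.KK, h.iK, h.Ki, h.jK, h.Kj, h.ji, smul_smul,
    smul_neg]
  module

theorem det_one_of_sq (h2 : (2 : F) ≠ 0) {X : M2} (h : X * X = -1) (ht : X.trace = 0) : X.det = 1 := by
  have h1 := SL2Tori.cayley2 X
  rw [h, ht, zero_smul, zero_sub] at h1
  have h4 := congrFun (congrFun h1 0) 0
  simp at h4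
  exact h4.symm

theorem US_det (h2 : (2 : F) ≠ 0) (h11 : (11 : F) = 0) {I J : M2} (h : Quat I J) : (US I J).det = 1 := by
  have h4 : (4 : F) ≠ 0 := by
    have : (4 : F) = 2 * 2 := by norm_num
    rw [this]; exact mul_ne_zero h2 h2
  apply det_one_of_sq h2
  · unfold US
    rw [smul_mul_smul_comm]
    have := quat_sq h (1 : F) 3 4
    rw [one_smul] at this
    rw [this, smul_neg, smul_smul]
    congr 1
    have e : (2 : F)⁻¹ * 2⁻¹ * (1 ^ 2 + 3 ^ 2 + 4 ^ 2) = 1 := by
      field_simp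
      linear_combination 2 * h11
    rw [e, one_smul]
  · unfold US
    rw [Matrix.trace_smul, Matrix.trace_add, Matrix.trace_add, Matrix.trace_smul, Matrix.trace_smul, quat_trI h2 h,
      quat_trJ h2 h, quat_trK h2 h]
    simp

/-- normalization of signs -/
theorem normalize (h2 : (2 : F) ≠ 0) (h11 : (11 : F) = 0) {I J S : M2} (h : Quat I J) {a b c : F}
    (hS : (2 : F) • S = -(a • I) - b • J - c • (I * J)) (ha : a ^ 2 = 1) (hb : b ^ 2 = 9) (hc : c ^ 2 = 5) :
    ∃ I' J' : M2, Quat I' J' ∧ (I' = I ∨ I' = -I) ∧ (J' = J ∨ J' = -J) ∧ (US I' J' = S ∨ US I' J' = -S) := by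
  have ha' : a = 1 ∨ a = -1 := by
    have : (a - 1) * (a + 1) = 0 := by linear_combination ha
    rcases mul_eq_zero.1 this with h | h
    · left; linear_combination h
    · right; linear_combination h
  have hb' : b = 3 ∨ b = -3 := by
    have : (b - 3) * (b + 3) = 0 := by linear_combination hb
    rcases mul_eq_zero.1 this with h | h
    · left; linear_combination h
    · right; linear_combination h
  have hc' : c = 4 ∨ c = -4 := by
    have : (c - 4) * (c + 4) = 0 := by linear_combination hc - h11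
    rcases mul_eq_zero.1 this with h | h
    · left; linear_combination h
    · right; linear_combination h
  have cancel : ∀ X Y : M2, (2 : F) • X = (2 : F) • Y → X = Y := fun X Y hXY => smul_right_injective _ h2 hXY
  have key : ∀ X Y : M2, (2 : F) • US X Y = X + (3 : F) • Y + (4 : F) • (X * Y) := by
    intro X Y
    unfold US
    rw [smul_smul, mul_inv_cancel₀ h2, one_smul]
  have nn : (-I) * (-J) = I * J := neg_mul_neg _ _
  rcases ha' with rfl | rfl <;> rcases hb' with rfl | rfl <;> rcases hc' with rfl | rfl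
  · refine ⟨I, J, h, Or.inl rfl, Or.inl rfl, Or.inr (cancel _ _ ?_)⟩
    rw [key, smul_neg (2 : F) S, hS]; module
  · refine ⟨-I, -J, quat_neg_left (quat_neg_right h), Or.inr rfl, Or.inr rfl, Or.inl (cancel _ _ ?_)⟩
    rw [key, hS, nn]; module
  · refine ⟨-I, J, quat_neg_left h, Or.inr rfl, Or.inl rfl, Or.inl (cancel _ _ ?_)⟩
    rw [key, hS, neg_mul]; module
  · refine ⟨I, -J, quat_neg_right h, Or.inl rfl, Or.inr rfl, Or.inr (cancel _ _ ?_)⟩
    rw [key, smul_neg (2 : F) S, hS, mul_neg]; module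
  · refine ⟨I, -J, quat_neg_right h, Or.inl rfl, Or.inr rfl, Or.inl (cancel _ _ ?_)⟩
    rw [key, hS, mul_neg]; module
  · refine ⟨-I, J, quat_neg_left h, Or.inr rfl, Or.inl rfl, Or.inr (cancel _ _ ?_)⟩
    rw [key, smul_neg (2 : F) S, hS, neg_mul]; module
  · refine ⟨-I, -J, quat_neg_left (quat_neg_right h), Or.inr rfl, Or.inr rfl, Or.inr (cancel _ _ ?_)⟩
    rw [key, smul_neg (2 : F) S, hS, nn]; module
  · refine ⟨I, J, h, Or.inl rfl, Or.inl rfl, Or.inl (cancel _ _ ?_)⟩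
    rw [key, hS]; module

theorem not_center_of (j : alternatingGroup (Fin 5) →* PGL(Fin 2, F)) (hj : Function.Injective j)
    {A : SL(2, F)} {t : alternatingGroup (Fin 5)} (h : j t = Matrix.ProjGenLinGroup.mk (SpecialLinearGroup.toGL A)) (ht : t ≠ 1) :
    A ∉ Subgroup.center SL(2, F) := by
  intro hc
  apply ht
  apply hj
  rw [map_one, h]
  have : ((A : SL(2, F)) : P2 F) = 1 := (psl_mk_eq_one A).2 ((mem_center_iff' A).1 hc)
  have h2 := congrArg (tP F) this
  rw [map_one, tP, ProjectiveSpecialLinearGroup.toPGL_mk] at h2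
  exact h2

def u5 : alternatingGroup (Fin 5) := ⟨Equiv.swap 0 1 * Equiv.swap 2 4, by rw [Equiv.Perm.mem_alternatingGroup]; decide⟩

theorem ord1 : (u5 * x5) ^ 3 = 1 ∧ u5 * x5 ≠ 1 ∧ (u5 * y5) ^ 5 = 1 ∧ u5 * y5 ≠ 1 ∧ (u5 * (x5 * y5)) ^ 5 = 1 ∧
    u5 * (x5 * y5) ≠ 1 ∧ u5 ^ 2 = 1 ∧ u5 ≠ 1 := by
  refine ⟨Subtype.ext ?_, fun h => absurd (congrArg Subtype.val h) ?_, Subtype.ext ?_, fun h => absurd (congrArg Subtype.val h) ?_,
    Subtype.ext ?_, fun h => absurd (congrArg Subtype.val h) ?_, Subtype.ext ?_, fun h => absurd (congrArg Subtype.val h) ?_⟩ <;>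
    decide +kernel

theorem gen5 : Subgroup.closure {x5, y5, u5} = ⊤ := by
  set L := Subgroup.closure {x5, y5, u5} with hL
  have hx : x5 ∈ L := Subgroup.subset_closure (by simp)
  have hy : y5 ∈ L := Subgroup.subset_closure (by simp)
  have hu : u5 ∈ L := Subgroup.subset_closure (by simp)
  have hord : ∀ (t : alternatingGroup (Fin 5)) (n : ℕ), n.Prime → t ^ n = 1 → t ≠ 1 → t ∈ L → n ∣ Nat.card L := by
    intro t n hn h1 h2 ht
    have : Fact n.Prime := ⟨hn⟩
    have h3 : orderOf t = n := orderOf_eq_prime h1 h2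
    rw [← h3]
    have := orderOf_dvd_natCard (⟨t, ht⟩ : L)
    rwa [Subgroup.orderOf_mk] at this
  have h3 := hord _ 3 Nat.prime_three ord1.1 ord1.2.1 (L.mul_mem hu hx)
  have h5 := hord _ 5 (by norm_num) ord1.2.2.1 ord1.2.2.2.1 (L.mul_mem hu hy)
  have h4 : 4 ∣ Nat.card L := by
    rw [← kp5.card_V]
    apply Subgroup.card_dvd_of_le
    intro a ha
    rcases (kp5.mem_V a).1 ha with rfl | rfl | rfl | rfl
    · exact L.one_mem
    · exact hx
    · exact hy
    · exact L.mul_mem hx hy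
  have h60 : 60 ∣ Nat.card L := by
    have h6 : 3 * 5 * 4 ∣ Nat.card L :=
      Nat.Coprime.mul_dvd_of_dvd_of_dvd (by norm_num) (Nat.Coprime.mul_dvd_of_dvd_of_dvd (by norm_num) h3 h5) h4
    exact h6
  apply Subgroup.eq_top_of_le_card
  rw [DkOdd.card_A5]
  exact Nat.le_of_dvd Nat.card_pos h60

theorem gen5' : Subgroup.closure {x5, x5 * y5, u5} = ⊤ := by
  rw [eq_top_iff, ← gen5, Subgroup.closure_le]
  have hx : x5 ∈ Subgroup.closure {x5, x5 * y5, u5} := Subgroup.subset_closure (by simp)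
  have hy : x5 * y5 ∈ Subgroup.closure {x5, x5 * y5, u5} := Subgroup.subset_closure (by simp)
  have hu : u5 ∈ Subgroup.closure {x5, x5 * y5, u5} := Subgroup.subset_closure (by simp)
  intro a ha
  rcases ha with rfl | rfl | rfl
  · exact hx
  · have h1 := Subgroup.mul_mem _ hx hy
    rw [← mul_assoc, kp5.xx, one_mul] at h1
    exact h1
  · exact hu

theorem tr3 {A : SL(2, F)} (hc : A ∉ Subgroup.center SL(2, F)) (h : A ^ 3 = 1 ∨ A ^ 3 = -1) : tr A ^ 2 = 1 := by
  by_contra hne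
  have hne' : tr A ^ 2 - 1 ≠ 0 := fun h => hne (by linear_combination h)
  apply hc
  have h3 := DkIcos.pow_three A
  have key : ∃ c : F, ((A ^ 3 : SL(2, F)) : M2) = c • (1 : M2) := by
    rcases h with h | h
    · exact ⟨1, by rw [h, one_smul]; rfl⟩
    · exact ⟨-1, by rw [h, neg_one_smul]; rfl⟩
  obtain ⟨c, hc'⟩ := key
  rw [hc'] at h3
  have e : (A : M2) = ((tr A ^ 2 - 1)⁻¹ * (c + tr A)) • (1 : M2) := by
    have e1 : (tr A ^ 2 - 1) • (A : M2) = (c + tr A) • (1 : M2) := by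
      rw [add_smul, h3]; abel
    rw [mul_smul, ← e1, smul_smul, inv_mul_cancel₀ hne', one_smul]
  rw [mem_center_iff_entries]
  refine ⟨?_, ?_, ?_⟩
  · have := congrFun (congrFun e 0) 1
    simpa using this
  · have := congrFun (congrFun e 1) 0
    simpa using this
  · have h0 := congrFun (congrFun e 0) 0
    have h1 := congrFun (congrFun e 1) 1
    rw [h0, h1]; simp

theorem range_closure (j : alternatingGroup (Fin 5) →* PGL(Fin 2, F)) {a b c : alternatingGroup (Fin 5)}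
    (h : Subgroup.closure {a, b, c} = ⊤) : j.range = Subgroup.closure {j a, j b, j c} := by
  rw [MonoidHom.range_eq_map, ← h, MonoidHom.map_closure, Set.image_insert_eq, Set.image_insert_eq, Set.image_singleton]

theorem range_eq [Fintype F] (h2 : (2 : F) ≠ 0) (h11 : (11 : F) = 0) (j : alternatingGroup (Fin 5) →* PGL(Fin 2, F))
    (hj : Function.Injective j) : ∃ I J : M2, Quat I J ∧ j.range = Gen I J := by
  have hjL := alt_le_LL j
  have hkp := kp5.of_hom j hj
  obtain ⟨I, J, hI, hJ, hQ, ex, ey⟩ := lift_pair h2 (hjL ⟨x5, rfl⟩) (hjL ⟨y5, rfl⟩) hkp.xx hkp.yy hkp.xy hkp.x1 hkp.y1 hkp.ne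
  have hK : (I * J).det = 1 := by rw [Matrix.det_mul, hI, hJ, mul_one]
  have hu := hjL ⟨u5, rfl⟩
  rw [← LL_eq] at hu
  obtain ⟨S, hS⟩ := hu
  have hS' : j u5 = Matrix.ProjGenLinGroup.mk (SpecialLinearGroup.toGL S) := hS.symm
  obtain ⟨o1, o2, o3, o4, o5, o6, o7, o8⟩ := ord1
  have hSc := not_center_of j hj hS' o8
  have hSS : S * S = -1 := by
    have h1 := mk_pow_one (S := S) (n := 2) (by rw [← hS', ← map_pow, o7, map_one])
    rw [sq] at h1
    rcases h1 with h | h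
    · exfalso
      apply hSc
      rw [mem_center_iff']
      exact SL2Tori.eq_one_or_neg_one_of_sq h2 h
    · exact h
  have hSt : tr S = 0 := MobQuat.tr_of_sq hSS
  have exy : j (x5 * y5) = mkP (I * J) hK := by rw [map_mul, ex, ey, mkP_mul hI hJ hK]
  have hmul : ∀ (t : alternatingGroup (Fin 5)) (X : M2) (hX : X.det = 1), j t = mkP X hX →
      j (u5 * t) = Matrix.ProjGenLinGroup.mk (SpecialLinearGroup.toGL (S * sl X hX)) := by
    intro t X hX h
    rw [map_mul, hS', h, mkP, map_mul, map_mul]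
  have hA1 := hmul x5 I hI ex
  have hA2 := hmul y5 J hJ ey
  have hA3 := hmul (x5 * y5) (I * J) hK exy
  have ha := tr3 (not_center_of j hj hA1 o2) (mk_pow_one (by rw [← hA1, ← map_pow, o1, map_one]))
  have hb := MobPlat.tr_of_pow_five (not_center_of j hj hA2 o4) (mk_pow_one (by rw [← hA2, ← map_pow, o3, map_one]))
  have hc := MobPlat.tr_of_pow_five (not_center_of j hj hA3 o6) (mk_pow_one (by rw [← hA3, ← map_pow, o5, map_one]))
  have hexp := quat_expand h2 hQ S.1
  rw [SL2Basic.trace_eq] at hexp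
  have e0 : ∀ (X : M2) (hX : X.det = 1), Matrix.trace (S.1 * X) = tr (S * sl X hX) := fun X hX => SL2Basic.trace_eq (S * sl X hX)
  rw [e0 I hI, e0 J hJ, e0 (I * J) hK, hSt, zero_smul, zero_sub] at hexp
  set a := tr (S * sl I hI) with hadef
  set b := tr (S * sl J hJ) with hbdef
  set c := tr (S * sl (I * J) hK) with hcdef
  have hsum : a ^ 2 + b ^ 2 + c ^ 2 = 4 := by
    have h1 := quat_sq hQ (-a) (-b) (-c)
    have h3 : (-a) • I + (-b) • J + (-c) • (I * J) = (2 : F) • S.1 := by rw [hexp]; module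
    have h4 : S.1 * S.1 = -1 := congrArg Subtype.val hSS
    rw [h3, smul_mul_smul_comm, h4] at h1
    have h5 := congrFun (congrFun h1 0) 0
    simp at h5
    linear_combination h5
  have hb' : b ^ 2 = 9 ∨ b ^ 2 = 5 := by
    have : (b ^ 2 - 9) * (b ^ 2 - 5) = 0 := by linear_combination hb - (b ^ 2 - 4) * h11
    rcases mul_eq_zero.1 this with h | h
    · left; linear_combination h
    · right; linear_combination h
  have hmkS : mkP S.1 S.2 = j u5 := by rw [hS']; rfl
  rcases hb' with hb' | hb'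
  · have hc' : c ^ 2 = 5 := by linear_combination hsum - ha - hb' - h11
    obtain ⟨I', J', hQ', h3, h4, h5⟩ := normalize h2 h11 hQ hexp ha hb' hc'
    refine ⟨I', J', hQ', ?_⟩
    have hI' := quat_det h2 hQ'
    have hJ' := quat_det h2 (quat_symm hQ')
    have hU' := US_det h2 h11 hQ'
    rw [range_closure j gen5, ex, ey, ← hmkS, mkP_of_sign hI hI' h3, mkP_of_sign hJ hJ' h4, mkP_of_sign S.2 hU' h5]
    unfold Gen
    congr 1
    ext x
    constructor
    · rintro (rfl | rfl | rfl)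
      · exact ⟨I', Or.inl rfl, hI', rfl⟩
      · exact ⟨J', Or.inr (Or.inl rfl), hJ', rfl⟩
      · exact ⟨US I' J', Or.inr (Or.inr rfl), hU', rfl⟩
    · rintro ⟨X, hX, hXd, rfl⟩
      rcases hX with rfl | rfl | rfl
      · exact Or.inl rfl
      · exact Or.inr (Or.inl rfl)
      · exact Or.inr (Or.inr rfl)
  · have hc' : c ^ 2 = 9 := by linear_combination hsum - ha - hb' - h11
    have hQ2 := quat_IK hQ
    have hexp2 : (2 : F) • S.1 = -(a • I) - c • (I * J) - (-b) • (I * (I * J)) := by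
      rw [hexp, hQ.iK]; module
    obtain ⟨I', J', hQ', h3, h4, h5⟩ := normalize h2 h11 hQ2 hexp2 ha hc' (by rw [neg_sq]; exact hb')
    refine ⟨I', J', hQ', ?_⟩
    have hI' := quat_det h2 hQ'
    have hJ' := quat_det h2 (quat_symm hQ')
    have hU' := US_det h2 h11 hQ'
    rw [range_closure j gen5', ex, exy, ← hmkS, mkP_of_sign hI hI' h3, mkP_of_sign hK hJ' h4, mkP_of_sign S.2 hU' h5]
    unfold Gen
    congr 1
    ext x
    constructor
    · rintro (rfl | rfl | rfl)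
      · exact ⟨I', Or.inl rfl, hI', rfl⟩
      · exact ⟨J', Or.inr (Or.inl rfl), hJ', rfl⟩
      · exact ⟨US I' J', Or.inr (Or.inr rfl), hU', rfl⟩
    · rintro ⟨X, hX, hXd, rfl⟩
      rcases hX with rfl | rfl | rfl
      · exact Or.inl rfl
      · exact Or.inr (Or.inl rfl)
      · exact Or.inr (Or.inr rfl)

/-- all `A_5` are conjugate under `PGL_2` in characteristic `11` -/
theorem conj_A5 [Fintype F] (h2 : (2 : F) ≠ 0) (h11 : (11 : F) = 0) {M M' : Subgroup (P2 F)} (e : M ≃* alternatingGroup (Fin 5))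
    (e' : M' ≃* alternatingGroup (Fin 5)) :
    ∃ g : PGL(Fin 2, F), (M.map (tP F)).map (MulAut.conj g).toMonoidHom = M'.map (tP F) := by
  obtain ⟨j, hj, hjr⟩ := DkOdd.emb_of_equiv M e.symm
  obtain ⟨j', hj', hjr'⟩ := DkOdd.emb_of_equiv M' e'.symm
  obtain ⟨I, J, hQ, h⟩ := range_eq h2 h11 j hj
  obtain ⟨I', J', hQ', h'⟩ := range_eq h2 h11 j' hj'
  obtain ⟨g, hg1, hg2⟩ := skolem h2 hQ hQ'
  refine ⟨Matrix.ProjGenLinGroup.mk g, ?_⟩
  rw [← hjr, ← hjr', h, h']
  exact Gen_conj (quat_det h2 hQ) (quat_det h2 hQ') (quat_det h2 (quat_symm hQ)) (quat_det h2 (quat_symm hQ'))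
    (US_det h2 h11 hQ) (US_det h2 h11 hQ') hg1 hg2

end Cfsg.Agent.Lib.PSL211
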