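import Cfsg.Agent.Lib.DodStab
import Cfsg.Agent.Lib.SL2PresH83
import Cfsg.Agent.Lib.ClSL2Syl

/-!
helper27: the stabiliser of a point inside and a point outside a dodecad is PSL(2, 11) (S1601).
-/

set_option autoImplicit false

namespace Cfsg.Agent.Lib.PSLEleven

open Cfsg Cfsg.Agent.Lib.Golay Cfsg.Agent.Lib.Quartets Cfsg.Agent.Lib.DodStab
open Cfsg.Agent.Lib.SL2PresH83 (Rel W exists_hom_of_finite range_iso)
open Cfsg.Agent.Lib.SL2RankOne (up lo)
open scoped Pointwise
open Matrix

/-- powers of an element of order 11 -/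
def xL : List ℕ := [
  984818244535754528103549039458486304, 983435072843990828779021698901151808, 980668730378935070469623699575545984,
  975166140090675008210365318152896768, 965063883269089610517257152230401536, 973782968399780250007192978068752672,
  962298451038133363011374430748423744, 969184212989482915311201746032266656, 982051901153124072706648311500937312,
  977903326592794432676351619257413824, 970567384681219435340729552166356352]

/-- powers of another element of order 11 -/
def yL : List ℕ := [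
  984818244535754528103549039458486304, 974170750887788358763519190236542016, 969156084554443408278956152778267040,
  981655569001013179112100492136975552, 962338783126005206510427146343952480, 978366795291128493989228805065544064,
  983219769492831936740672338565604480, 975273531117640354257997786069901600, 980885901718531331543716217223201024,
  964690555261758787774140793337858560, 970364330986083930059007584876299840]

abbrev F := ZMod 11

def xc (t : F) : ℕ := xL.getD t.val 0
def yc (t : F) : ℕ := yL.getD t.val 0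
/-- inverses -/
def iv : F → F := fun t => t ^ 9

theorem iv_eq : ∀ t : F, t ≠ 0 → t * iv t = 1 := by decide +kernel

instance : Fact (Nat.Prime 11) := ⟨by norm_num⟩

theorem inv_eq' (t : F) (ht : t ≠ 0) : t⁻¹ = iv t := by
  have h := iv_eq t ht
  exact inv_eq_of_mul_eq_one_right h

def wc (t : F) : ℕ := mulC (mulC (xc t) (yc (-iv t))) (xc t)

def okC (c : ℕ) : Bool := cond (inM c) (cond (Nat.beq (img c 0) 0) (cond (Nat.beq (img c 23) 23)
  (Nat.beq (imgM c dod0) dod0) false) false) false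

theorem xc_ok : ∀ t : F, okC (xc t) = true := by decide +kernel
theorem yc_ok : ∀ t : F, okC (yc t) = true := by decide +kernel
theorem xc_add : ∀ s t : F, mulC (xc s) (xc t) = xc (s + t) := by decide +kernel
theorem yc_add : ∀ s t : F, mulC (yc s) (yc t) = yc (s + t) := by decide +kernel
theorem conj_c : ∀ t s : F, t ≠ 0 → mulC (wc t) (xc s) = mulC (yc (-(s * (iv t * iv t)))) (wc t) := by
  decide +kernel
theorem ncomm : mulC (xc 1) (yc 1) ≠ mulC (yc 1) (xc 1) := by decide +kernel

theorem valid_of_okC {c : ℕ} (h : okC c = true) : valid c = true :=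
  valid_of_inM (cond_false_eq.mp h).1

theorem vx (t : F) : valid (xc t) = true := valid_of_okC (xc_ok t)
theorem vy (t : F) : valid (yc t) = true := valid_of_okC (yc_ok t)

theorem okC_spec {c : ℕ} (h : okC c = true) : toPerm c ∈ M24 ∧ toPerm c • mset dod0 = mset dod0 ∧
    toPerm c (pt 0) = pt 0 ∧ toPerm c (pt 23) = pt 23 := by
  have hv := valid_of_okC h
  obtain ⟨h1, h2⟩ := cond_false_eq.mp h
  obtain ⟨h3, h4⟩ := cond_false_eq.mp h2
  obtain ⟨h5, h6⟩ := cond_false_eq.mp h4
  refine ⟨toPerm_mem_M24 h1, ?_, ?_, ?_⟩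
  · rw [toPerm_smul_mset hv, Nat.eq_of_beq_eq_true h6]
  · rw [toPerm_pt hv (by norm_num), Nat.eq_of_beq_eq_true h3]
  · rw [toPerm_pt hv (by norm_num), Nat.eq_of_beq_eq_true h5]

theorem rel0 : Rel (F := F) (fun t => toPerm (xc t)) (fun t => toPerm (yc t)) where
  X_add s t := by
    show toPerm (xc (s + t)) = toPerm (xc s) * toPerm (xc t)
    rw [← toPerm_mulC (vx s) (vx t), xc_add]
  Y_add s t := by
    show toPerm (yc (s + t)) = toPerm (yc s) * toPerm (yc t)
    rw [← toPerm_mulC (vy s) (vy t), yc_add]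
  conj t s ht := by
    have hW : W (fun t => toPerm (xc t)) (fun t => toPerm (yc t)) t = toPerm (wc t) := by
      show toPerm (xc t) * toPerm (yc (-t⁻¹)) * toPerm (xc t) = _
      rw [inv_eq' t ht, ← toPerm_mulC (vx t) (vy _), ← toPerm_mulC (valid_mulC (vx t) (vy _)) (vx t)]
      rfl
    have hv : valid (wc t) = true := valid_mulC (valid_mulC (vx t) (vy _)) (vx t)
    rw [hW]
    show toPerm (wc t) * toPerm (xc s) = toPerm (yc (-(s / t ^ 2))) * toPerm (wc t)
    have e : s / t ^ 2 = s * (iv t * iv t) := by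
      rw [← inv_eq' t ht, div_eq_mul_inv, pow_two, mul_inv]
    rw [e, ← toPerm_mulC hv (vx s), ← toPerm_mulC (vy _) hv, conj_c t s ht]

theorem toPerm_inj {c c' : ℕ} (hc : valid c = true) (hc' : valid c' = true) (h : toPerm c = toPerm c') :
    ∀ i < 24, img c i = img c' i := by
  intro i hi
  have h1 := congrArg (fun g => ix (g (pt i))) h
  simp only [ix_toPerm hc, ix_toPerm hc', ix_pt hi] at h1
  exact h1

theorem ncomm' : ∃ i < 24, img (mulC (xc 1) (yc 1)) i ≠ img (mulC (yc 1) (xc 1)) i := by decide +kernel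

theorem mem_lower_comm {g : SpecialLinearGroup (Fin 2) F} (hg : g ∈ Cfsg.lowerUnipotentSL2 F) :
    g * lo 1 = lo 1 * g := by
  unfold Cfsg.lowerUnipotentSL2 at hg
  induction hg using Subgroup.closure_induction with
  | mem g hg =>
    obtain ⟨h1, h2, h3⟩ := hg
    apply Subtype.ext
    rw [Matrix.SpecialLinearGroup.coe_mul, Matrix.SpecialLinearGroup.coe_mul]
    ext i j
    fin_cases i <;> fin_cases j <;>
      simp [Matrix.mul_apply, Fin.sum_univ_two, lo, h1, h2, h3, add_comm]
  | one => rw [one_mul, mul_one]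
  | mul a b _ _ ha hb => rw [mul_assoc, hb, ← mul_assoc, ha, mul_assoc]
  | inv a _ ha =>
    rw [inv_mul_eq_iff_eq_mul, ← mul_assoc, ha, mul_inv_cancel_right]

/-- the order of the group -/
theorem card_main {d : Finset GolayPt} (hd : d ∈ dodecads) {p q : GolayPt} (hp : p ∈ d) (hq : q ∉ d) :
    Nat.card ↥(MulAction.stabilizer M24 d ⊓ MulAction.stabilizer M24 p ⊓ MulAction.stabilizer M24 q) = 660 := by
  have h := card_eq_mul_inf_stabilizer (MulAction.stabilizer M24 d ⊓ MulAction.stabilizer M24 p) q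
    (dᶜ : Finset GolayPt)
    (fun g hg => by
      have h1 : g.1 • d = d := hg.1
      rw [Finset.mem_coe, Finset.mem_compl]
      show g.1 q ∉ d
      rw [← h1, smul_mem_smul]
      exact hq)
    (fun x hx => by
      rw [Finset.mem_coe, Finset.mem_compl] at hx
      obtain ⟨r, hr, hrq, _⟩ := exists_notMem hd q q
      obtain ⟨r', hr', hrx, _⟩ := exists_notMem hd x x
      obtain ⟨g, hg, hgd, hgp, hgq, _⟩ := exists_pair_map hd hp hq hr hrq.symm hx hr' hrx.symm
      exact ⟨⟨g, hg⟩, Subgroup.mem_inf.mpr ⟨hgd, hgp⟩, hgq⟩)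
  rw [Set.ncard_coe_finset, Finset.card_compl, card_pt, hd.2, card_stab_dodecad_point hd hp] at h
  omega

theorem main {d : Finset GolayPt} (hd : d ∈ dodecads) {p q : GolayPt} (hp : p ∈ d) (hq : q ∉ d) :
    Nonempty (↥(MulAction.stabilizer M24 d ⊓ MulAction.stabilizer M24 p ⊓ MulAction.stabilizer M24 q) ≃*
      ProjectiveSpecialLinearGroup (Fin 2) (ZMod 11)) := by
  obtain ⟨r, hr, hrq, _⟩ := exists_notMem hd q q
  obtain ⟨k, hk, rfl, rfl, rfl, _⟩ := exists_frame2 hd hp hq hr hrq.symm
  set K := MulAction.stabilizer M24 (k • mset dod0) ⊓ MulAction.stabilizer M24 (k (pt 0)) ⊓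
    MulAction.stabilizer M24 (k (pt 23)) with hK
  have hcK : Nat.card K = 660 := card_main hd hp hq
  have hmem : ∀ {c : ℕ} (h : okC c = true), k * toPerm c * k⁻¹ ∈ M24 := fun h =>
    M24.mul_mem (M24.mul_mem hk (okC_spec h).1) (M24.inv_mem hk)
  have hmem' : ∀ {c : ℕ} (h : okC c = true), (⟨k * toPerm c * k⁻¹, hmem h⟩ : M24) ∈ K := by
    intro c h
    obtain ⟨_, h1, h2, h3⟩ := okC_spec h
    refine Subgroup.mem_inf.mpr ⟨Subgroup.mem_inf.mpr ⟨?_, ?_⟩, ?_⟩
    · show (k * toPerm c * k⁻¹) • (k • mset dod0) = k • mset dod0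
      rw [mul_smul, inv_smul_smul, mul_smul, h1]
    · show (k * toPerm c * k⁻¹) (k (pt 0)) = k (pt 0)
      rw [Equiv.Perm.mul_apply, perm_inv_apply, Equiv.Perm.mul_apply, h2]
    · show (k * toPerm c * k⁻¹) (k (pt 23)) = k (pt 23)
      rw [Equiv.Perm.mul_apply, perm_inv_apply, Equiv.Perm.mul_apply, h3]
  let X : F → K := fun t => ⟨⟨k * toPerm (xc t) * k⁻¹, hmem (xc_ok t)⟩, hmem' (xc_ok t)⟩
  let Y : F → K := fun t => ⟨⟨k * toPerm (yc t) * k⁻¹, hmem (yc_ok t)⟩, hmem' (yc_ok t)⟩
  have cj : ∀ a b : Equiv.Perm GolayPt, (k * a * k⁻¹) * (k * b * k⁻¹) = k * (a * b) * k⁻¹ := by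
    intro a b; group
  have hR : Rel X Y := by
    refine ⟨?_, ?_, ?_⟩
    · intro s t
      apply Subtype.ext
      apply Subtype.ext
      show k * toPerm (xc (s + t)) * k⁻¹ = (k * toPerm (xc s) * k⁻¹) * (k * toPerm (xc t) * k⁻¹)
      rw [cj]
      congr 2
      exact rel0.X_add s t
    · intro s t
      apply Subtype.ext
      apply Subtype.ext
      show k * toPerm (yc (s + t)) * k⁻¹ = (k * toPerm (yc s) * k⁻¹) * (k * toPerm (yc t) * k⁻¹)
      rw [cj]
      congr 2
      exact rel0.Y_add s t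
    · intro t s ht
      apply Subtype.ext
      apply Subtype.ext
      show (k * toPerm (xc t) * k⁻¹) * (k * toPerm (yc (-t⁻¹)) * k⁻¹) * (k * toPerm (xc t) * k⁻¹) *
        (k * toPerm (xc s) * k⁻¹) = (k * toPerm (yc (-(s / t ^ 2))) * k⁻¹) *
        ((k * toPerm (xc t) * k⁻¹) * (k * toPerm (yc (-t⁻¹)) * k⁻¹) * (k * toPerm (xc t) * k⁻¹))
      rw [cj, cj, cj, cj]
      congr 2
      exact rel0.conj t s ht
  obtain ⟨φ, hφX, hφY⟩ := exists_hom_of_finite hR
  have hne : φ.range ≠ (Cfsg.lowerUnipotentSL2 F).map φ := by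
    intro e
    have h1 : X 1 ∈ φ.range := ⟨up 1, hφX 1⟩
    rw [e] at h1
    obtain ⟨g, hg, h2⟩ := h1
    have h3 := congrArg φ (mem_lower_comm hg)
    rw [map_mul, map_mul, h2, hφY] at h3
    have h4 : (k * toPerm (xc 1) * k⁻¹) * (k * toPerm (yc 1) * k⁻¹) =
        (k * toPerm (yc 1) * k⁻¹) * (k * toPerm (xc 1) * k⁻¹) := congrArg (fun z => z.1.1) h3
    rw [cj, cj] at h4
    have h5 : toPerm (xc 1) * toPerm (yc 1) = toPerm (yc 1) * toPerm (xc 1) := by
      exact mul_left_cancel (mul_right_cancel h4)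
    rw [← toPerm_mulC (vx 1) (vy 1), ← toPerm_mulC (vy 1) (vx 1)] at h5
    obtain ⟨i, hi, hne⟩ := ncomm'
    exact hne (toPerm_inj (valid_mulC (vx 1) (vy 1)) (valid_mulC (vy 1) (vx 1)) h5 i hi)
  have hle : Nat.card φ.range ≤ 660 := by
    rw [← hcK]; exact Subgroup.card_le_card_group _
  have hcF : Fintype.card F = 11 := ZMod.card 11
  rcases range_iso φ hne with ⟨⟨e⟩⟩ | ⟨⟨e⟩⟩
  · exfalso
    have h1 := Nat.card_congr e.toEquiv
    have h2 : Nat.card (SpecialLinearGroup (Fin 2) F) = 11 * (11 ^ 2 - 1) := ClSL2.card_SL2 hcF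
    rw [h2] at h1
    omega
  · have h1 := Nat.card_congr e.toEquiv
    have h2 := ClSL2Syl.card_PSL2 (F := F) (by rw [hcF]; decide)
    rw [hcF] at h2
    have h3 : φ.range = ⊤ := by
      apply Subgroup.eq_top_of_card_eq
      rw [h1, hcK]
      omega
    exact ⟨(Subgroup.topEquiv.symm.trans (MulEquiv.subgroupCongr h3.symm)).trans e⟩

end Cfsg.Agent.Lib.PSLEleven
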