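import Cfsg.Agent.Lib.PSUGraph2

set_option autoImplicit false
set_option linter.unusedSectionVars false

/-!
# Splitting of the classes of graph automorphisms of `PSU_n(q)` (helper45)
-/

namespace Cfsg.Agent.Lib.PSUGraph

open Matrix Module QuadraticMap
open Cfsg Cfsg.Agent.Lib.Descent Cfsg.Agent.Lib.SplitCount Cfsg.Agent.Lib.SimForm Cfsg.Agent.Lib.Quad
open Cfsg.Agent.Lib.PSLAut (mi mi_coe det_mi exists_mi mp_mi mem_GU_iff mp_itGL_coe itGL sc sc_comm sc_mul_coe sc_coe mp_sc sc_inj)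
open Cfsg.Agent.Lib.PSUAut (brE brE_apply orderOf_brE dg fd fG fG_coe fd_dg N1 mem_N1 mem_N1_iff scU dg_scU dg_eq_one inndiag_eq
  detU detU_coe detU_surj detU_scU inn_le_inndiag dg_inner_iff card_N1)
open Cfsg.Agent.Lib.PSLGraph (Bf Bf_nd Bf_apply exists_Bf)

variable {n : ℕ} {F : Type*} [Field F] {q : ℕ} [Fintype F] (hF : Fintype.card F = q ^ 2)
variable {F₀ : Type*} [Field F₀] [Fintype F₀] {ι : F₀ →+* F} (hι : ∀ x, brE hF x = x ↔ ∃ y, ι y = x)

include hι

/-- odd dimension or characteristic two -/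
theorem split_sq (hn : 3 ≤ n) {g : GU n F q} {s : GL (Fin n) F₀} {A : GL (Fin n) F} {z w : Fˣ}
    (R : Rel (brE hF) ι g.1 s A z w) (hsq : ∀ d c : F₀ˣ, DM (Bf s) d c → ∃ x : F₀ˣ, x * x = c ∧ x ^ n = d) :
    splitClassCount (inndiagPSU n F q) (Inn (PSU n F q)) (dg g * fd (brE hF)) = Nat.gcd n (q + 1) := by
  obtain ⟨S, hS⟩ := exists_S hF hι s
  rw [split_graph hF hι hn R hS]
  have h1 : S ≤ (powMonoidHom n : N1 F q →* N1 F q).range := by
    intro a ha
    obtain ⟨b, d, c, h1, h2, h3⟩ := (hS a).1 ha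
    obtain ⟨x, rfl, rfl⟩ := hsq d c h1
    have h4 : b * Units.map (ι : F₀ →* F) x ∈ N1 F q := by
      rw [mem_N1_iff hF]
      have h5 : (b * Units.map (ι : F₀ →* F) x) * um (brE hF) (b * Units.map (ι : F₀ →* F) x) = 1 := by
        rw [map_mul (um (brE hF)), um_ι (brE_brE hF) hι, ← h2, map_mul]
        apply Units.ext
        push_cast
        ring
      exact congrArg Units.val h5
    refine ⟨⟨_, h4⟩, ?_⟩
    apply Subtype.ext
    rw [h3]
    show (b * Units.map (ι : F₀ →* F) x) ^ n = _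
    rw [mul_pow, map_pow]
  have hcyc : IsCyclic (N1 F q) := inferInstance
  rw [sup_eq_left.2 h1, index_range_pow, card_N1 hF]

/-- the key element `b² ι(c)` of norm one -/
theorem key_N1 {b : Fˣ} {c : F₀ˣ} (h : b * um (brE hF) b * Units.map (ι : F₀ →* F) c = 1) :
    b ^ 2 * Units.map (ι : F₀ →* F) c ∈ N1 F q := by
  rw [mem_N1_iff hF]
  have h5 : (b ^ 2 * Units.map (ι : F₀ →* F) c) * um (brE hF) (b ^ 2 * Units.map (ι : F₀ →* F) c) = 1 := by
    rw [map_mul (um (brE hF)), um_ι (brE_brE hF) hι, map_pow]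
    have : (b * um (brE hF) b * Units.map (ι : F₀ →* F) c) * (b * um (brE hF) b * Units.map (ι : F₀ →* F) c) = 1 := by
      rw [h, one_mul]
    rw [← this]
    apply Units.ext
    push_cast
    ring
  exact congrArg Units.val h5

theorem key_surj {v : Fˣ} (hv : v ∈ N1 F q) : ∃ (b : Fˣ) (c : F₀ˣ), b * um (brE hF) b * Units.map (ι : F₀ →* F) c = 1 ∧
    b ^ 2 * Units.map (ι : F₀ →* F) c = v := by
  rw [mem_N1_iff hF] at hv
  obtain ⟨b, hb⟩ := h90_unit (brE_brE hF) (orderOf_brE hF) (v := v) (Units.ext hv)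
  have h1 : um (brE hF) (b * um (brE hF) b)⁻¹ = (b * um (brE hF) b)⁻¹ := by
    rw [map_inv, map_mul, um_um (brE_brE hF), mul_comm b]
  obtain ⟨c, hc⟩ := fixed_unit (brE_brE hF) hι h1
  refine ⟨b, c, by rw [hc, mul_inv_cancel], ?_⟩
  rw [hc]
  have h2 : v = b * (um (brE hF) b)⁻¹ := by rw [eq_mul_inv_iff_mul_eq, hb]
  rw [h2]
  apply Units.ext
  push_cast
  field_simp

theorem split_symp (hn : 3 ≤ n) {m : ℕ} (hnm : n = 2 * m) {g : GU n F q} {s : GL (Fin n) F₀} {A : GL (Fin n) F} {z w : Fˣ}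
    (R : Rel (brE hF) ι g.1 s A z w) (hd : ∀ d c : F₀ˣ, DM (Bf s) d c ↔ d = c ^ m) :
    splitClassCount (inndiagPSU n F q) (Inn (PSU n F q)) (dg g * fd (brE hF)) = Nat.gcd m (q + 1) := by
  obtain ⟨S, hS⟩ := exists_S hF hι s
  rw [split_graph hF hι hn R hS]
  have h1 : S = (powMonoidHom m : N1 F q →* N1 F q).range := by
    ext a
    rw [hS]
    constructor
    · rintro ⟨b, d, c, h1, h2, h3⟩
      rw [hd] at h1
      subst h1
      refine ⟨⟨_, key_N1 hF hι h2⟩, ?_⟩
      apply Subtype.ext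
      rw [h3]
      show (b ^ 2 * Units.map (ι : F₀ →* F) c) ^ m = _
      rw [mul_pow, map_pow, ← pow_mul, hnm]
    · rintro ⟨v, rfl⟩
      obtain ⟨b, c, h1, h2⟩ := key_surj hF hι v.2
      refine ⟨b, c ^ m, c, (hd _ _).2 rfl, h1, ?_⟩
      show v.1 ^ m = _
      rw [← h2, mul_pow, map_pow, ← pow_mul, hnm]
  have hcyc : IsCyclic (N1 F q) := inferInstance
  rw [h1, index_pow_sup, card_N1 hF, hnm, Nat.gcd_eq_right (Dvd.intro_left 2 rfl)]

theorem split_orth (hn : 3 ≤ n) {m : ℕ} (hnm : n = 2 * m) (hodd : Odd q) {g : GU n F q} {s : GL (Fin n) F₀} {A : GL (Fin n) F} {z w : Fˣ}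
    (R : Rel (brE hF) ι g.1 s A z w) (hd : ∀ d c : F₀ˣ, DM (Bf s) d c ↔ d = c ^ m ∨ d = -c ^ m) :
    splitClassCount (inndiagPSU n F q) (Inn (PSU n F q)) (dg g * fd (brE hF)) = Nat.gcd n (q + 1) / 2 := by
  obtain ⟨S, hS⟩ := exists_S hF hι s
  rw [split_graph hF hι hn R hS]
  have hm1 : (-1 : Fˣ) ∈ N1 F q := by
    rw [mem_N1]
    exact (Odd.add_one hodd).neg_one_pow
  have hne : (-1 : Fˣ) ≠ 1 := by
    intro h
    have h2 : (-1 : F) = 1 := by simpa using congrArg Units.val h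
    have h3 : (2 : F) = 0 := by linear_combination -h2
    exact Lib.Quad.two_ne_zero_of_odd hF (hodd.pow) h3
  let ν : N1 F q := ⟨-1, hm1⟩
  have hν : orderOf ν = 2 := by
    apply orderOf_eq_prime
    · apply Subtype.ext
      show (-1 : Fˣ) ^ 2 = 1
      exact neg_one_sq
    · intro h
      exact hne (congrArg Subtype.val h)
  have h1 : S = (powMonoidHom m : N1 F q →* N1 F q).range ⊔ Subgroup.zpowers ν := by
    apply le_antisymm
    · intro a ha
      obtain ⟨b, d, c, h1, h2, h3⟩ := (hS a).1 ha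
      rw [hd] at h1
      have h4 : (⟨_, key_N1 hF hι h2⟩ : N1 F q) ^ m ∈ (powMonoidHom m : N1 F q →* N1 F q).range := ⟨_, rfl⟩
      rcases h1 with rfl | rfl
      · apply Subgroup.mem_sup_left
        convert h4 using 1
        apply Subtype.ext
        rw [h3]
        show _ = (b ^ 2 * Units.map (ι : F₀ →* F) c) ^ m
        rw [mul_pow, map_pow, ← pow_mul, hnm]
      · have h5 : a = ν * (⟨_, key_N1 hF hι h2⟩ : N1 F q) ^ m := by
          apply Subtype.ext
          rw [h3]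
          show _ = -1 * (b ^ 2 * Units.map (ι : F₀ →* F) c) ^ m
          rw [mul_pow, ← map_pow, ← pow_mul, hnm]
          apply Units.ext
          simp
        rw [h5]
        exact mul_mem (Subgroup.mem_sup_right (Subgroup.mem_zpowers _)) (Subgroup.mem_sup_left h4)
    · rw [sup_le_iff]
      constructor
      · rintro _ ⟨v, rfl⟩
        rw [hS]
        obtain ⟨b, c, h1, h2⟩ := key_surj hF hι v.2
        refine ⟨b, c ^ m, c, (hd _ _).2 (Or.inl rfl), h1, ?_⟩
        show v.1 ^ m = _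
        rw [← h2, mul_pow, map_pow, ← pow_mul, hnm]
      · rw [Subgroup.zpowers_le, hS]
        refine ⟨1, -1, 1, (hd _ _).2 (Or.inr (by simp)), by simp, ?_⟩
        show (-1 : Fˣ) = _
        apply Units.ext
        simp
  have hcyc : IsCyclic (N1 F q) := inferInstance
  have h2 : (powMonoidHom n : N1 F q →* N1 F q).range ≤ (powMonoidHom m : N1 F q →* N1 F q).range := by
    rintro _ ⟨v, rfl⟩
    exact ⟨v ^ 2, by simp only [powMonoidHom_apply]; rw [← pow_mul, hnm]⟩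
  rw [h1, ← sup_assoc, sup_eq_right.2 h2, index_pow_zpow hν, card_N1 hF, hnm]

end Cfsg.Agent.Lib.PSUGraph
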