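import Mathlib
import Cfsg.Agent.Lib.UnClass
import Cfsg.Agent.Lib.UnSpec2
import Cfsg.Agent.Lib.EigenBasis

set_option autoImplicit false

/-!
Primes dividing the order of an element of `PSU_m(q)` commuting with an element of order `p` (helper40).
-/

namespace Cfsg.Agent.Lib.PSUPrimes

open Polynomial Module Matrix
open Cfsg.Agent.Lib.ClUnitary Cfsg.Agent.Lib.UnClass

section Eigen

variable {K : Type*} [Field K] {W : Type*} [AddCommGroup W] [Module K W] [FiniteDimensional K W]
  {ι : Type*} [Fintype ι] [DecidableEq ι]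

lemma charpoly_of_eigenbasis (x : Module.End K W) (b : Basis ι K W) (e : ι → K) (he : ∀ i, x (b i) = e i • b i) :
    x.charpoly = ∏ i, (X - C (e i)) := by
  rw [← LinearMap.charpoly_toMatrix x b]
  have h1 : LinearMap.toMatrix b b x = Matrix.diagonal e := by
    ext i j
    rw [LinearMap.toMatrix_apply, he, map_smul, Finsupp.smul_apply, Basis.repr_self, Matrix.diagonal_apply, Finsupp.single_apply]
    by_cases h : i = j
    · subst h; simp
    · rw [if_neg h, if_neg (Ne.symm h), smul_zero]
  rw [h1, Matrix.charpoly_diagonal]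

/-- an endomorphism of finite order prime-to-... commuting with a regular diagonal one is diagonal -/
lemma eq_one_of_commute (p : ℕ) [Fact p.Prime] [CharP K p] (x y : Module.End K W) (b : Basis ι K W) (e : ι → K)
    (he : ∀ i, x (b i) = e i • b i) (hinj : Function.Injective e) (hc : y * x = x * y) (hy : y ^ p = 1) : y = 1 := by
  apply b.ext
  intro i
  have h1 : x (y (b i)) = e i • y (b i) := by
    have := LinearMap.congr_fun hc (b i)
    simp only [Module.End.mul_apply] at this
    rw [← this, he, map_smul]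
  have h2 : ∀ j, j ≠ i → b.repr (y (b i)) j = 0 := by
    intro j hj
    have h3 : b.repr (x (y (b i))) j = e j * b.repr (y (b i)) j := by
      conv_lhs => rw [← b.sum_repr (y (b i))]
      rw [map_sum, map_sum, Finset.sum_congr rfl (fun k _ => by rw [map_smul, he])]
      rw [Finsupp.coe_finsetSum, Finset.sum_apply, Finset.sum_eq_single j]
      · simp [mul_comm]
      · intro k _ hk
        simp [Finsupp.single_apply, hk]
      · intro h; exact absurd (Finset.mem_univ _) h
    rw [h1, map_smul, Finsupp.smul_apply, smul_eq_mul] at h3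
    have h4 : (e i - e j) * b.repr (y (b i)) j = 0 := by linear_combination h3
    rcases mul_eq_zero.mp h4 with h | h
    · exact absurd (hinj (sub_eq_zero.mp h)).symm hj
    · exact h
  set c := b.repr (y (b i)) i with hcd
  have h5 : y (b i) = c • b i := by
    apply b.repr.injective
    ext j
    rw [map_smul, Finsupp.smul_apply, Basis.repr_self, Finsupp.single_apply]
    by_cases hj : i = j
    · subst hj; simp [hcd]
    · rw [if_neg hj, smul_zero]; exact h2 j (Ne.symm hj)
  have h6 : ∀ k : ℕ, (y ^ k) (b i) = c ^ k • b i := by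
    intro k
    induction k with
    | zero => simp
    | succ k ih => rw [pow_succ', Module.End.mul_apply, ih, map_smul, h5, smul_smul, pow_succ]
  have h7 := h6 p
  rw [hy, Module.End.one_apply] at h7
  have h8 : c ^ p = 1 := by
    have h9 : (c ^ p - 1) • b i = 0 := by rw [sub_smul, one_smul, ← h7, sub_self]
    rcases smul_eq_zero.mp h9 with h | h
    · exact sub_eq_zero.mp h
    · exact absurd h (b.ne_zero i)
  have h9 : c = 1 := by
    have : (c - 1) ^ p = 0 := by rw [sub_pow_char, h8, one_pow, sub_self]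
    exact sub_eq_zero.mp (pow_eq_zero_iff (Fact.out : p.Prime).ne_zero |>.mp this)
  rw [h5, h9, one_smul, Module.End.one_apply]

end Eigen

section Un

variable {F : Type*} [Field F] [Fintype F] {q m : ℕ} (hF : Fintype.card F = q ^ 2) (p : ℕ) [Fact p.Prime] [CharP F p]
variable {K : Type*} [Field K] [Algebra F K] [CharP K p]

include hF p in
/-- the multiset of eigenvalues of a unitary matrix is invariant under `λ ↦ λ^{-q}` -/
lemma mult_sym {ι : Type*} [Fintype ι] [DecidableEq ι] {B : Matrix (Fin m) (Fin m) F} (hB : IsUn q B)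
    (b : Basis ι K (Fin m → K)) (e : ι → K) (he : ∀ i, Matrix.toLin' (B.map (algebraMap F K)) (b i) = e i • b i) (he0 : ∀ i, e i ≠ 0) :
    Multiset.map (fun i => e i ^ q) Finset.univ.val = Multiset.map (fun i => (e i)⁻¹) (Finset.univ : Finset ι).val := by
  classical
  obtain ⟨a, ha⟩ := UnSpec.exists_q_eq p hF
  let φ : K →+* K := iterateFrobenius K p a
  have hφ : ∀ x, φ x = x ^ q := fun x => by rw [ha]; rfl
  have hst := (isUn_iff_st hF).mp hB
  have c1 := charpoly_of_eigenbasis _ b e he
  have hy : Matrix.toLin' ((st hF B).map (algebraMap F K)) * Matrix.toLin' (B.map (algebraMap F K)) = 1 := by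
    have h1 : (st hF B).map (algebraMap F K) * B.map (algebraMap F K) = 1 := by
      rw [← Matrix.map_mul, hst, Matrix.map_one _ (map_zero _) (map_one _)]
    rw [Module.End.mul_eq_comp, ← Matrix.toLin'_mul, h1, Matrix.toLin'_one]; rfl
  have he' : ∀ i, Matrix.toLin' ((st hF B).map (algebraMap F K)) (b i) = (e i)⁻¹ • b i := by
    intro i
    have h1 := LinearMap.congr_fun hy (b i)
    rw [Module.End.mul_apply, he, map_smul, Module.End.one_apply] at h1
    rw [← h1, smul_smul, inv_mul_cancel₀ (he0 i), one_smul, h1]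
  have c2 := charpoly_of_eigenbasis _ b _ he'
  have c3 : (Matrix.toLin' ((st hF B).map (algebraMap F K))).charpoly = ∏ i, (X - C (e i ^ q)) := by
    rw [Matrix.charpoly_toLin', Matrix.charpoly_map]
    unfold st
    rw [Matrix.charpoly_transpose, Matrix.charpoly_map, Polynomial.map_map]
    have h1 : (algebraMap F K).comp (frob hF) = φ.comp (algebraMap F K) := by
      ext x
      simp only [RingHom.comp_apply, frob_apply]
      rw [hφ, map_pow]
    rw [h1, ← Polynomial.map_map]
    rw [Matrix.charpoly_toLin', Matrix.charpoly_map] at c1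
    rw [c1, Polynomial.map_prod]
    apply Finset.prod_congr rfl
    intro i _
    rw [Polynomial.map_sub, map_X, map_C, hφ]
  rw [c3] at c2
  have h1 := congrArg Polynomial.roots c2
  have h2 : ∀ g : ι → K, (∏ i, (X - C (g i))).roots = Multiset.map g Finset.univ.val := by
    intro g
    have : (∏ i, (X - C (g i))) = (Multiset.map (fun x => X - C x) (Multiset.map g Finset.univ.val)).prod := by
      rw [Multiset.map_map]; rfl
    rw [this, Polynomial.roots_multiset_prod_X_sub_C]
  rw [h2, h2] at h1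
  exact h1

include hF p in
/-- the number of eigenvalues equal to `μ` -/
lemma count_sym {ι : Type*} [Fintype ι] [DecidableEq ι] [DecidableEq K] {B : Matrix (Fin m) (Fin m) F} (hB : IsUn q B)
    (b : Basis ι K (Fin m → K)) (e : ι → K) (he : ∀ i, Matrix.toLin' (B.map (algebraMap F K)) (b i) = e i • b i) (he0 : ∀ i, e i ≠ 0)
    (μ : K) : (Finset.univ.filter fun i => e i = μ).card = (Finset.univ.filter fun i => e i = (μ ^ q)⁻¹).card := by
  obtain ⟨a, ha⟩ := UnSpec.exists_q_eq p hF
  let φ : K →+* K := iterateFrobenius K p a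
  have hφ : ∀ x, φ x = x ^ q := fun x => by rw [ha]; rfl
  have h1 := congrArg (Multiset.count (μ ^ q)) (mult_sym hF p hB b e he he0)
  have h2 : ∀ (g : ι → K) (c : K), Multiset.count c (Multiset.map g Finset.univ.val) = (Finset.univ.filter fun i => g i = c).card := by
    intro g c
    rw [Multiset.count_map, Finset.card_def, Finset.filter_val]
    congr 1
    apply Multiset.filter_congr
    intro i _
    exact eq_comm
  rw [h2, h2] at h1
  have h3 : (Finset.univ.filter fun i => e i ^ q = μ ^ q) = Finset.univ.filter fun i => e i = μ := by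
    apply Finset.filter_congr
    intro i _
    rw [← hφ, ← hφ]
    exact φ.injective.eq_iff
  have h4 : (Finset.univ.filter fun i => (e i)⁻¹ = μ ^ q) = Finset.univ.filter fun i => e i = (μ ^ q)⁻¹ := by
    apply Finset.filter_congr
    intro i _
    constructor
    · intro h; rw [← h, inv_inv]
    · intro h; rw [h, inv_inv]
  rw [h3, h4] at h1
  exact h1

end Un

section Orbit

variable {K : Type*} [Field K]

/-- the orbit `μ, μ^{-q}, μ^{q²}, …` -/
def orb (q : ℕ) (μ : K) (i : ℕ) : K := (fun x : K => (x ^ q)⁻¹)^[i] μ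

lemma orb_zero (q : ℕ) (μ : K) : orb q μ 0 = μ := rfl

lemma orb_succ (q : ℕ) (μ : K) (i : ℕ) : orb q μ (i + 1) = (orb q μ i ^ q)⁻¹ := by
  unfold orb
  rw [Function.iterate_succ_apply']

lemma orb_eq (q : ℕ) (μ : K) (i : ℕ) : orb q μ i = μ ^ ((-(q : ℤ)) ^ i) := by
  induction i with
  | zero => simp [orb_zero]
  | succ i ih =>
    rw [orb_succ, ih, pow_succ, mul_neg, _root_.zpow_neg, _root_.zpow_mul, zpow_natCast]

lemma orb_inj {q r : ℕ} {μ : K} (hμ : μ ≠ 1) (hr : r.Prime) (hμr : μ ^ r = 1) {n : ℕ}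
    (hn : ∀ k, 0 < k → k < n → ¬ (r : ℤ) ∣ (-(q : ℤ)) ^ k - 1) (hrq : ¬ r ∣ q) {i j : ℕ} (hi : i < n) (hj : j < n)
    (h : orb q μ i = orb q μ j) : i = j := by
  have hμ0 : μ ≠ 0 := by rintro rfl; rw [zero_pow hr.ne_zero] at hμr; exact zero_ne_one hμr
  have key : ∀ i j : ℕ, i < j → j < n → orb q μ i = orb q μ j → False := by
    intro i j hij hj h
    rw [orb_eq, orb_eq] at h
    have h1 : μ ^ ((-(q : ℤ)) ^ j - (-(q : ℤ)) ^ i) = 1 := by
      rw [zpow_sub₀ hμ0, ← h, div_self (zpow_ne_zero _ hμ0)]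
    have hf : Fact r.Prime := ⟨hr⟩
    have hord : IsPrimitiveRoot μ r := (orderOf_eq_prime hμr hμ) ▸ IsPrimitiveRoot.orderOf μ
    have h2 : (r : ℤ) ∣ (-(q : ℤ)) ^ j - (-(q : ℤ)) ^ i := (hord.zpow_eq_one_iff_dvd _).mp h1
    have h3 : (-(q : ℤ)) ^ j - (-(q : ℤ)) ^ i = (-(q : ℤ)) ^ i * ((-(q : ℤ)) ^ (j - i) - 1) := by
      rw [mul_sub, mul_one, ← pow_add]
      congr 2
      omega
    rw [h3] at h2
    have hrp : Prime (r : ℤ) := Nat.prime_iff_prime_int.mp hr
    rcases hrp.dvd_or_dvd h2 with h4 | h4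
    · have h5 := hrp.dvd_of_dvd_pow h4
      rw [dvd_neg] at h5
      exact hrq (by exact_mod_cast h5)
    · exact hn (j - i) (by omega) (by omega) h4
  rcases lt_trichotomy i j with h1 | h1 | h1
  · exact (key i j h1 hj h).elim
  · exact h1
  · exact (key j i h1 hi h.symm).elim

lemma orb_ne_one {q r : ℕ} {μ : K} (hμ : μ ≠ 1) (hr : r.Prime) (hμr : μ ^ r = 1) (hrq : ¬ r ∣ q) (i : ℕ) : orb q μ i ≠ 1 := by
  intro h
  rw [orb_eq] at h
  have hf : Fact r.Prime := ⟨hr⟩
  have hord : IsPrimitiveRoot μ r := (orderOf_eq_prime hμr hμ) ▸ IsPrimitiveRoot.orderOf μ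
  have h2 : (r : ℤ) ∣ (-(q : ℤ)) ^ i := (hord.zpow_eq_one_iff_dvd _).mp h
  have h5 := (Nat.prime_iff_prime_int.mp hr).dvd_of_dvd_pow h2
  rw [dvd_neg] at h5
  exact hrq (by exact_mod_cast h5)

lemma sum_count_le {ι : Type*} [Fintype ι] [DecidableEq K] (e : ι → K) (S : Finset K) :
    ∑ c ∈ S, (Finset.univ.filter fun i => e i = c).card ≤ Fintype.card ι := by
  classical
  have h1 : (Finset.univ.filter fun i => e i ∈ S).card = ∑ c ∈ S, ((Finset.univ.filter fun i => e i ∈ S).filter fun i => e i = c).card :=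
    Finset.card_eq_sum_card_fiberwise (fun i hi => by simpa using hi)
  have h2 : ∀ c ∈ S, ((Finset.univ.filter fun i => e i ∈ S).filter fun i => e i = c) = Finset.univ.filter fun i => e i = c := by
    intro c hc
    ext i
    simp only [Finset.mem_filter, Finset.mem_univ, true_and]
    constructor
    · rintro ⟨-, h⟩; exact h
    · intro h; exact ⟨h ▸ hc, h⟩
  rw [← Finset.sum_congr rfl (fun c hc => congrArg Finset.card (h2 c hc)), ← h1]
  exact Finset.card_le_univ _

end Orbit

section Key

variable {F : Type*} [Field F] [Fintype F] {q m : ℕ} (hF : Fintype.card F = q ^ 2) (p : ℕ) [Fact p.Prime] [CharP F p]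

include hF p in
theorem key (hm : 4 ≤ m) {r : ℕ} (hr : r.Prime) (hrp : r ≠ p) (hrq : ¬ r ∣ q) {A B : Matrix (Fin m) (Fin m) F}
    (hB : IsUn q B) (hAp : A ^ p = 1) (hA1 : A ≠ 1) (hBr : B ^ r = 1) (hB1 : B ≠ 1) (hAB : A * B = B * A) :
    ∃ n : ℕ, 1 ≤ n ∧ n ≤ m - 2 ∧ (r : ℤ) ∣ (-(q : ℤ)) ^ n - 1 := by
  classical
  let K := AlgebraicClosure F
  have hK : CharP K p := charP_of_injective_algebraMap (algebraMap F K).injective p
  have hr0 : (r : K) ≠ 0 := by
    intro h
    have := (CharP.cast_eq_zero_iff K p r).mp h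
    exact hrp ((Nat.prime_dvd_prime_iff_eq Fact.out hr).mp this).symm
  let T : Matrix (Fin m) (Fin m) F →+* Module.End K (Fin m → K) :=
    (Matrix.toLinAlgEquiv' (R := K) (n := Fin m)).toAlgHom.toRingHom.comp (algebraMap F K).mapMatrix
  have hTinj : Function.Injective T := by
    intro M N h
    have h1 : (algebraMap F K).mapMatrix M = (algebraMap F K).mapMatrix N :=
      (Matrix.toLinAlgEquiv' (R := K) (n := Fin m)).injective h
    ext i j
    exact (algebraMap F K).injective (congrFun (congrFun h1 i) j)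
  set x := T B with hx
  set y := T A with hy
  have hxr : x ^ r = 1 := by rw [hx, ← map_pow, hBr, map_one]
  have hyp : y ^ p = 1 := by rw [hy, ← map_pow, hAp, map_one]
  have hxy : y * x = x * y := by rw [hx, hy, ← map_mul, hAB, map_mul]
  have hy1 : y ≠ 1 := by
    intro h; exact hA1 (hTinj (by rw [map_one]; exact h))
  have hx1 : x ≠ 1 := by
    intro h; exact hB1 (hTinj (by rw [map_one]; exact h))
  obtain ⟨b, e, he, her⟩ := EigenBasis.exists_eigenbasis x r hr0 hxr
  have hcard : Fintype.card (Fin (finrank K (Fin m → K))) = m := by simp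
  have he0 : ∀ i, e i ≠ 0 := by
    intro i h
    have := her i
    rw [h, zero_pow hr.ne_zero] at this
    exact zero_ne_one this
  have he' : ∀ i, Matrix.toLin' (B.map (algebraMap F K)) (b i) = e i • b i := he
  have hsym := count_sym hF p hB b e he' he0
  have horb : ∀ (μ : K) (k : ℕ), (Finset.univ.filter fun i => e i = orb q μ k).card = (Finset.univ.filter fun i => e i = μ).card := by
    intro μ k
    induction k with
    | zero => rfl
    | succ k ih => rw [orb_succ, ← hsym, ih]
  have hex : ∃ k, 0 < k ∧ (r : ℤ) ∣ (-(q : ℤ)) ^ k - 1 := by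
    refine ⟨r - 1, by have := hr.two_le; omega, ?_⟩
    have h1 : IsCoprime (-(q : ℤ)) r := by
      rw [IsCoprime.neg_left_iff]
      exact (Nat.isCoprime_iff_coprime.mpr ((hr.coprime_iff_not_dvd.mpr hrq).symm))
    have h2 := Int.ModEq.pow_card_sub_one_eq_one hr h1
    exact h2.symm.dvd
  set n := Nat.find hex with hn
  have hn1 : 0 < n := (Nat.find_spec hex).1
  have hn2 : (r : ℤ) ∣ (-(q : ℤ)) ^ n - 1 := (Nat.find_spec hex).2
  have hn3 : ∀ k, 0 < k → k < n → ¬ (r : ℤ) ∣ (-(q : ℤ)) ^ k - 1 := fun k hk hkn h => Nat.find_min hex hkn ⟨hk, h⟩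
  refine ⟨n, hn1, ?_, hn2⟩
  have hni : ¬ Function.Injective e := fun h => hy1 (eq_one_of_commute p x y b e he h hxy hyp)
  rw [Function.Injective] at hni
  push Not at hni
  obtain ⟨i, j, hij, hne⟩ := hni
  have h2 : 2 ≤ (Finset.univ.filter fun k => e k = e i).card := by
    have h3 : ({i, j} : Finset _) ⊆ Finset.univ.filter fun k => e k = e i := by
      intro k hk
      simp only [Finset.mem_insert, Finset.mem_singleton] at hk
      simp only [Finset.mem_filter, Finset.mem_univ, true_and]
      rcases hk with rfl | rfl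
      · rfl
      · exact hij.symm
    calc 2 = ({i, j} : Finset _).card := (Finset.card_pair hne).symm
      _ ≤ _ := Finset.card_le_card h3
  by_cases hμ : e i = 1
  · -- a second eigenvalue
    obtain ⟨l, hl⟩ : ∃ l, e l ≠ 1 := by
      by_contra hcon
      push Not at hcon
      apply hx1
      apply b.ext
      intro k
      rw [he, hcon, one_smul, Module.End.one_apply]
    have hinj : Set.InjOn (orb q (e l)) (Finset.range n) := by
      intro s hs t ht h
      rw [Finset.coe_range, Set.mem_Iio] at hs ht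
      exact orb_inj hl hr (her l) hn3 hrq hs ht h
    have hS := sum_count_le e (insert (1 : K) ((Finset.range n).image (orb q (e l))))
    rw [Finset.sum_insert, Finset.sum_image hinj, hcard] at hS
    · rw [Finset.sum_congr rfl (fun k _ => horb (e l) k)] at hS
      rw [← hμ] at hS
      rw [Finset.sum_const, Finset.card_range, smul_eq_mul] at hS
      have h4 : 1 ≤ (Finset.univ.filter fun k => e k = e l).card := Finset.card_pos.mpr ⟨l, by simp⟩
      have h5 : n ≤ n * (Finset.univ.filter fun k => e k = e l).card := Nat.le_mul_of_pos_right _ h4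
      omega
    · intro h
      rw [Finset.mem_image] at h
      obtain ⟨k, -, hk⟩ := h
      exact orb_ne_one hl hr (her l) hrq k hk
  · have hinj : Set.InjOn (orb q (e i)) (Finset.range n) := by
      intro s hs t ht h
      rw [Finset.coe_range, Set.mem_Iio] at hs ht
      exact orb_inj hμ hr (her i) hn3 hrq hs ht h
    have hS := sum_count_le e ((Finset.range n).image (orb q (e i)))
    rw [Finset.sum_image hinj, hcard, Finset.sum_congr rfl (fun k _ => horb (e i) k), Finset.sum_const, Finset.card_range, smul_eq_mul] at hS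
    have h5 : n * 2 ≤ n * (Finset.univ.filter fun k => e k = e i).card := Nat.mul_le_mul_left _ h2
    omega

end Key

section Main

/-- lifting commuting elements of coprime-to-centre orders -/
theorem exists_lift {G : Type*} [Group G] [Finite G] {p r : ℕ} (hp : p.Prime) (hr : r.Prime)
    (hpz : ¬ p ∣ Nat.card (Subgroup.center G)) (hrz : ¬ r ∣ Nat.card (Subgroup.center G))
    (a b : G ⧸ Subgroup.center G) (ha : orderOf a = p) (hb : orderOf b = r) (hab : Commute a b) :
    ∃ A B : G, A ^ p = 1 ∧ A ≠ 1 ∧ B ^ r = 1 ∧ B ≠ 1 ∧ A * B = B * A := by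
  obtain ⟨A0, rfl⟩ := QuotientGroup.mk_surjective a
  obtain ⟨B0, rfl⟩ := QuotientGroup.mk_surjective b
  set z0 := Nat.card (Subgroup.center G) with hz0
  have hpow : ∀ x : G, x ∈ Subgroup.center G → x ^ z0 = 1 := by
    intro x hx
    have := pow_card_eq_one' (x := (⟨x, hx⟩ : Subgroup.center G))
    exact congrArg Subtype.val this
  have hlift : ∀ (C : G) (s : ℕ), s.Prime → ¬ s ∣ z0 → orderOf (C : G ⧸ Subgroup.center G) = s → (C ^ z0) ^ s = 1 ∧ C ^ z0 ≠ 1 := by
    intro C s hs hsz hC
    constructor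
    · rw [← pow_mul, mul_comm, pow_mul]
      apply hpow
      rw [← QuotientGroup.eq_one_iff, QuotientGroup.mk_pow, ← hC, pow_orderOf_eq_one]
    · intro h
      apply hsz
      rw [← hC]
      apply orderOf_dvd_of_pow_eq_one
      rw [← QuotientGroup.mk_pow, h]; rfl
  obtain ⟨a1, a2⟩ := hlift A0 p hp hpz ha
  obtain ⟨b1, b2⟩ := hlift B0 r hr hrz hb
  refine ⟨A0 ^ z0, B0 ^ z0, a1, a2, b1, b2, ?_⟩
  set A := A0 ^ z0 with hA
  set B := B0 ^ z0 with hB
  set z := A * B * A⁻¹ * B⁻¹ with hz
  have hzc : z ∈ Subgroup.center G := by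
    rw [← QuotientGroup.eq_one_iff, hz, QuotientGroup.mk_mul, QuotientGroup.mk_mul, QuotientGroup.mk_mul, QuotientGroup.mk_inv,
      QuotientGroup.mk_inv, hA, hB, QuotientGroup.mk_pow, QuotientGroup.mk_pow]
    have := (hab.pow_pow z0 z0).eq
    rw [this]; group
  have h1 : A * B * A⁻¹ = z * B := by rw [hz]; group
  have h2 : (z * B) ^ r = 1 := by
    rw [← h1, conj_pow, b1, mul_one, mul_inv_cancel]
  have h3 : (z * B) ^ r = z ^ r * B ^ r := (Commute.mul_pow ((Subgroup.mem_center_iff.mp hzc B).symm) r)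
  rw [h3, b1, mul_one] at h2
  have h4 := hpow z hzc
  have h5 : z = 1 := by
    have h6 : orderOf z ∣ Nat.gcd r z0 := Nat.dvd_gcd (orderOf_dvd_of_pow_eq_one h2) (orderOf_dvd_of_pow_eq_one h4)
    rw [Nat.Coprime.gcd_eq_one ((hr.coprime_iff_not_dvd).mpr hrz), Nat.dvd_one, orderOf_eq_one_iff] at h6
    exact h6
  have h7 : A * B = z * B * A := by rw [← h1]; group
  rw [h7, h5, one_mul]

variable {F : Type*} [Field F] [Fintype F] {q m : ℕ} (hF : Fintype.card F = q ^ 2) (p : ℕ) [Fact p.Prime] [CharP F p]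

include hF p in
theorem main (hm : 4 ≤ m) (a b : Cfsg.PSU m F q) (ha : orderOf a = p) (hab : Commute a b) :
    (orderOf b).primeFactors ⊆ (Nat.card ↥(Cfsg.SU (m - 2) F q)).primeFactors := by
  intro r hr
  rw [Nat.mem_primeFactors] at hr
  obtain ⟨hrp, hrb, hrb0⟩ := hr
  have hq2 := HermMat.two_le_q hF
  have hpq : p ∣ q := by
    have h1 : (p : ℕ) ∣ q ^ 2 := by
      rw [← hF]
      exact (CharP.cast_eq_zero_iff F p _).mp (Nat.cast_card_eq_zero F)
    exact (Fact.out : p.Prime).dvd_of_dvd_pow h1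
  obtain ⟨N, hN⟩ : ∃ N, m - 2 = N + 2 := ⟨m - 4, by omega⟩
  have hcard := card_SU (n := m - 2) hF (by omega)
  have hne : Nat.card ↥(Cfsg.SU (m - 2) F q) ≠ 0 := Nat.card_pos.ne'
  rw [Nat.mem_primeFactors]
  refine ⟨hrp, ?_, hne⟩
  by_cases h1 : r ∣ q ^ 2 - 1
  · rw [hN, Finset.prod_range_succ', Finset.prod_range_succ'] at hcard
    have e0 : (if Even 0 then q ^ (0 + 1) + 1 else q ^ (0 + 1) - 1) = q + 1 := by simp
    have e1 : (if Even (0 + 1) then q ^ (0 + 1 + 1) + 1 else q ^ (0 + 1 + 1) - 1) = q ^ 2 - 1 := by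
      rw [if_neg (by decide)]
    rw [e0, e1, ← mul_assoc, mul_comm _ (q + 1)] at hcard
    have h2 := Nat.eq_of_mul_eq_mul_left (by omega : 0 < q + 1) hcard
    rw [hN, h2, ← mul_assoc]
    exact Dvd.dvd.mul_left h1 _
  · have hq1 : ¬ r ∣ q + 1 := fun h => h1 (by rw [ClUnitary.sq_sub_one]; exact Dvd.dvd.mul_right h _)
    have hfin : r ∣ (q + 1) * Nat.card ↥(Cfsg.SU (m - 2) F q) → r ∣ Nat.card ↥(Cfsg.SU (m - 2) F q) := by
      intro h
      rcases (Nat.Prime.dvd_mul hrp).mp h with h | h
      · exact absurd h hq1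
      · exact h
    apply hfin
    rw [hcard]
    by_cases h2 : r ∣ q
    · apply Dvd.dvd.mul_right
      apply dvd_pow h2
      rw [hN]
      have h3 : 2 ≤ (N + 2) * (N + 2 - 1) := by
        have : (N + 2) * (N + 2 - 1) = (N + 2) * (N + 1) := rfl
        nlinarith
      omega
    · have hzq : Nat.card (Subgroup.center (Cfsg.SU m F q)) ∣ q + 1 := by
        rw [card_center_SU hF (by omega)]; exact Nat.gcd_dvd_right _ _
      have hpz : ¬ p ∣ Nat.card (Subgroup.center (Cfsg.SU m F q)) := by
        intro h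
        have h3 := (Nat.dvd_add_right hpq).mp (h.trans hzq)
        exact (Fact.out : p.Prime).one_lt.ne' (Nat.dvd_one.mp h3)
      have hb' : orderOf (b ^ (orderOf b / r)) = r := by
        rw [orderOf_pow_of_dvd (Nat.div_pos (Nat.le_of_dvd (Nat.pos_of_ne_zero hrb0) hrb) hrp.pos).ne' (Nat.div_dvd_of_dvd hrb)]
        exact Nat.div_div_self hrb hrb0
      obtain ⟨A, B, hA, hA1, hB, hB1, hAB⟩ := exists_lift (G := Cfsg.SU m F q) Fact.out hrp hpz (fun h => hq1 (h.trans hzq)) a
        (b ^ (orderOf b / r)) ha hb' (hab.pow_right _)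
      have cast : ∀ C : Cfsg.SU m F q, (C.1.1 : Matrix (Fin m) (Fin m) F) = 1 → C = 1 := by
        intro C h
        apply Subtype.ext
        apply Subtype.ext
        exact h
      have castpow : ∀ (C : Cfsg.SU m F q) (k : ℕ), ((C ^ k).1.1 : Matrix (Fin m) (Fin m) F) = C.1.1 ^ k := by
        intro C k
        rw [SubgroupClass.coe_pow]
        exact Matrix.SpecialLinearGroup.coe_pow _ _
      have hrnep : r ≠ p := by rintro rfl; exact h2 hpq
      obtain ⟨n, hn1, hn2, hn3⟩ := key hF p hm hrp hrnep h2 (A := A.1.1) (B := B.1.1) B.2 (by rw [← castpow, hA]; rfl)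
        (fun h => hA1 (cast A h)) (by rw [← castpow, hB]; rfl) (fun h => hB1 (cast B h))
        (congrArg (fun C : Cfsg.SU m F q => (C.1.1 : Matrix (Fin m) (Fin m) F)) hAB)
      apply Dvd.dvd.mul_left
      refine dvd_trans ?_ (Finset.dvd_prod_of_mem _ (Finset.mem_range.mpr (by omega : n - 1 < m - 2)))
      have hn : n - 1 + 1 = n := by omega
      rw [hn]
      by_cases he : Even (n - 1)
      · rw [if_pos he]
        have ho : Odd n := by
          have := he.add_one
          rwa [hn] at this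
        rw [ho.neg_pow] at hn3
        have h4 : (r : ℤ) ∣ ((q ^ n + 1 : ℕ) : ℤ) := by
          have : ((q ^ n + 1 : ℕ) : ℤ) = - (-(q : ℤ) ^ n - 1) := by push_cast; ring
          rw [this, dvd_neg]; exact hn3
        exact_mod_cast h4
      · rw [if_neg he]
        have hev : Even n := by
          rw [Nat.not_even_iff_odd] at he
          have := he.add_one
          rwa [hn] at this
        rw [hev.neg_pow] at hn3
        have h4 : (r : ℤ) ∣ ((q ^ n - 1 : ℕ) : ℤ) := by
          rw [Nat.cast_sub (Nat.one_le_pow _ _ (by omega))]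
          push_cast
          exact hn3
        exact_mod_cast h4

end Main

end Cfsg.Agent.Lib.PSUPrimes
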