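import Mathlib

/-!
# Simple groups as transitive permutation groups on `Fin n`
-/

set_option autoImplicit false

namespace Cfsg.Agent.Lib.PermReal

theorem main {G : Type*} [Group G] [Finite G] (hs : IsSimpleGroup G) (H : Subgroup G) {n : ℕ} [NeZero n] (hn : H.index = n)
    (hH : H ≠ ⊤) :
    ∃ P : Subgroup (Equiv.Perm (Fin n)), Nonempty (G ≃* P) ∧ MulAction.IsPretransitive P (Fin n) ∧
      Nonempty (H ≃* MulAction.stabilizer P (0 : Fin n)) := by
  classical
  have hfin : Finite (G ⧸ H) := inferInstance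
  have hcard : Nat.card (G ⧸ H) = n := hn
  obtain ⟨e0⟩ : Nonempty (G ⧸ H ≃ Fin n) := by
    have := Finite.equivFinOfCardEq hcard
    exact ⟨this⟩
  let q : G ⧸ H := ((1 : G) : G ⧸ H)
  let e : G ⧸ H ≃ Fin n := e0.trans (Equiv.swap (e0 q) 0)
  have he : e q = 0 := by
    change Equiv.swap (e0 q) 0 (e0 q) = 0
    exact Equiv.swap_apply_left _ _
  let f : G →* Equiv.Perm (Fin n) := (e.permCongrHom.toMonoidHom).comp (MulAction.toPermHom G (G ⧸ H))
  have hf : ∀ g i, f g i = e (g • e.symm i) := fun g i => rfl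
  have hinj : Function.Injective f := by
    rw [← MonoidHom.ker_eq_bot_iff]
    rcases (MonoidHom.normal_ker f).eq_bot_or_eq_top with h | h
    · exact h
    · exfalso
      apply hH
      rw [eq_top_iff]
      intro g _
      have h1 : g ∈ f.ker := by rw [h]; trivial
      have h2 : f g 0 = 0 := by rw [MonoidHom.mem_ker.mp h1]; rfl
      rw [hf, ← he, Equiv.symm_apply_apply] at h2
      have h3 : g • q = q := e.injective h2
      have h4 : ((g * 1 : G) : G ⧸ H) = ((1 : G) : G ⧸ H) := h3
      rw [QuotientGroup.eq] at h4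
      simpa using h4
  let φ : G ≃* f.range := MonoidHom.ofInjective hinj
  have hφ : ∀ g i, ((φ g : f.range) : Equiv.Perm (Fin n)) i = e (g • e.symm i) := fun g i => rfl
  refine ⟨f.range, ⟨φ⟩, ?_, ?_⟩
  · constructor
    intro i j
    obtain ⟨a, ha⟩ := QuotientGroup.mk_surjective (e.symm i)
    obtain ⟨b, hb⟩ := QuotientGroup.mk_surjective (e.symm j)
    refine ⟨φ (b * a⁻¹), ?_⟩
    change ((φ (b * a⁻¹) : f.range) : Equiv.Perm (Fin n)) i = j
    rw [hφ, ← ha]
    have h1 : (b * a⁻¹) • (a : G ⧸ H) = (b : G ⧸ H) := by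
      change ((b * a⁻¹ * a : G) : G ⧸ H) = _
      rw [inv_mul_cancel_right]
    rw [h1, hb, Equiv.apply_symm_apply]
  · have h1 : MulAction.stabilizer f.range (0 : Fin n) = H.map φ.toMonoidHom := by
      ext p
      rw [MulAction.mem_stabilizer_iff, Subgroup.mem_map]
      constructor
      · intro hp
        refine ⟨φ.symm p, ?_, φ.apply_symm_apply p⟩
        have h2 : ((φ (φ.symm p) : f.range) : Equiv.Perm (Fin n)) 0 = 0 := by
          rw [φ.apply_symm_apply]; exact hp
        rw [hφ] at h2
        conv at h2 => rw [← he]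
        rw [Equiv.symm_apply_apply] at h2
        have h3 : φ.symm p • q = q := e.injective h2
        have h4 : ((φ.symm p * 1 : G) : G ⧸ H) = ((1 : G) : G ⧸ H) := h3
        rw [QuotientGroup.eq] at h4
        simpa using h4
      · rintro ⟨g, hg, rfl⟩
        change ((φ g : f.range) : Equiv.Perm (Fin n)) 0 = 0
        rw [hφ]
        conv_lhs => rw [← he]
        rw [Equiv.symm_apply_apply]
        have h4 : g • q = q := by
          change ((g * 1 : G) : G ⧸ H) = ((1 : G) : G ⧸ H)
          rw [QuotientGroup.eq]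
          simpa using hg
        rw [h4, he]
    exact ⟨(φ.subgroupMap H).trans (MulEquiv.subgroupCongr h1.symm)⟩

end Cfsg.Agent.Lib.PermReal
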